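import Mathlib

set_option autoImplicit false

/-! PROJECT 2149 (row S2149, 10u), piece `Arith` (PURE): `n r = 3150`, `n r (r-1) = 15750 l`, `n < 50` force `n = 25`. -/

namespace Cfsg.Agent.Lib.H10U35Arith

theorem arith (n r l : ℕ) (hn : n < 50) (e1 : n * r = 126 * 25)
    (e2 : n * (r * (r - 1)) = 126 * (126 - 1) * l) : n = 25 := by
  have hr : 1 ≤ r := by
    rcases Nat.eq_zero_or_pos r with h | h
    · subst h; simp at e1
    · exact h
  have e3 : 3150 * (r - 1) = 15750 * l := by
    have : n * (r * (r - 1)) = (n * r) * (r - 1) := by ring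
    rw [this, e1] at e2
    omega
  have e4 : r = 5 * l + 1 := by omega
  subst e4
  interval_cases n <;> omega

end Cfsg.Agent.Lib.H10U35Arith
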