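import Mathlib

set_option autoImplicit false

/-! PROJECT 2149 (row S2149, 10u), piece `Blk` (PURE MATHLIB): the translates `g • S` of a set `S ⊆ Ω` invariant under the stabiliser of `x0`, indexed by the
points `g • x0` of the orbit.
* `blk_iff`: `←` is the definition. `→`: if `g' • x0 = g • x0` and `g'⁻¹ • ω ∈ S`, then `h := g⁻¹ * g'` fixes `x0` and `g⁻¹ • ω = h • (g'⁻¹ • ω)`; use `hS h`.
* `blk_smul`: from the definition: `g • x0 = x ↔ (h * g) • x0 = h • x` and `(h * g)⁻¹ • (h • ω) = g⁻¹ • ω` (for `←` use `h⁻¹ * g`).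
* `card_blk`: `ω ↦ g • ω` is a bijection `S ≃ Blk G x0 S (g • x0)` by `blk_iff` (`Nat.card_congr`, `Equiv.subtypeEquiv (MulAction.toPerm g)`). -/

namespace Cfsg.Agent.Lib.H10U35Blk

/-- the block belonging to the point `x` -/
def Blk (G : Type*) {Y Ω : Type*} [Group G] [MulAction G Y] [MulAction G Ω] (x0 : Y) (S : Set Ω) (x : Y) :
    Set Ω := {ω | ∃ g : G, g • x0 = x ∧ g⁻¹ • ω ∈ S}

variable {G Y Ω : Type*} [Group G] [MulAction G Y] [MulAction G Ω] (x0 : Y) (S : Set Ω)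

theorem blk_iff (hS : ∀ g : G, g • x0 = x0 → ∀ ω, g • ω ∈ S ↔ ω ∈ S) (g : G) (ω : Ω) :
    ω ∈ Blk G x0 S (g • x0) ↔ g⁻¹ • ω ∈ S := by
  constructor
  · rintro ⟨g', hg', hω⟩
    have hfix : (g⁻¹ * g') • x0 = x0 := by
      rw [mul_smul, hg', inv_smul_smul]
    have e : g⁻¹ • ω = (g⁻¹ * g') • (g'⁻¹ • ω) := by
      rw [mul_smul, smul_inv_smul]
    rw [e, hS _ hfix]
    exact hω
  · intro h
    exact ⟨g, rfl, h⟩

theorem blk_smul (h : G) (x : Y) (ω : Ω) : h • ω ∈ Blk G x0 S (h • x) ↔ ω ∈ Blk G x0 S x := by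
  constructor
  · rintro ⟨g, hg, hω⟩
    refine ⟨h⁻¹ * g, ?_, ?_⟩
    · rw [mul_smul, hg, inv_smul_smul]
    · rw [mul_inv_rev, inv_inv, mul_smul]
      exact hω
  · rintro ⟨g, hg, hω⟩
    refine ⟨h * g, ?_, ?_⟩
    · rw [mul_smul, hg]
    · rw [mul_inv_rev, mul_smul, inv_smul_smul]
      exact hω

theorem card_blk (hS : ∀ g : G, g • x0 = x0 → ∀ ω, g • ω ∈ S ↔ ω ∈ S) (g : G) :
    Nat.card (Blk G x0 S (g • x0)) = Nat.card S := by
  symm
  refine Nat.card_congr (Equiv.subtypeEquiv (MulAction.toPerm g) ?_)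
  intro ω
  rw [MulAction.toPerm_apply]
  change ω ∈ S ↔ g • ω ∈ Blk G x0 S (g • x0)
  rw [blk_iff x0 S hS, inv_smul_smul]

end Cfsg.Agent.Lib.H10U35Blk
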