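import Cfsg.Agent.S0280
import Cfsg.Agent.S0283

set_option autoImplicit false

/-! PROJECT 12 (row S2149, 10u), piece `Card`: order and simplicity of `PSU 3 F 5`.
`card_psu`: copy of `Helper47FiSU.card_PSU` (from `Cfsg.Agent.S0280.result (F := F) (q := 5) hF' 3 (by norm_num)`, `hF' : card F = 5 ^ 2`).
`simple_psu`: `Cfsg.Agent.S0283.result`. -/

namespace Cfsg.Agent.Lib.H10U35Card

theorem card_psu {F : Type*} [Field F] [Fintype F] (hF : Fintype.card F = 25) :
    Nat.card (Cfsg.PSU 3 F 5) = 126000 := by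
  have hF' : Fintype.card F = 5 ^ 2 := by rw [hF]; norm_num
  have h := Cfsg.Agent.S0280.result (F := F) (q := 5) hF' 3 (by norm_num)
  have h2 : 5 ^ (3 * (3 - 1) / 2) * ∏ i ∈ Finset.range 3,
      (if Even i then 5 ^ (i + 1) + 1 else 5 ^ (i + 1) - 1) = 2268000 := by decide +kernel
  rw [h2] at h
  have h3 : Nat.gcd 3 (5 + 1) = 3 := by decide
  rw [h3] at h
  omega

theorem simple_psu {F : Type*} [Field F] [Fintype F] (hF : Fintype.card F = 25) :
    IsSimpleGroup (Cfsg.PSU 3 F 5) := by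
  have hF' : Fintype.card F = 5 ^ 2 := by rw [hF]; norm_num
  exact Cfsg.Agent.S0283.result hF' 3 le_rfl (by omega)

end Cfsg.Agent.Lib.H10U35Card
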