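import Mathlib

set_option autoImplicit false

/-! PROJECT 2149 (row S2149, 10u), piece `PForm` (PURE MATHLIB): normal form in a Heisenberg group of exponent 5. -/

namespace Cfsg.Agent.Lib.H10U35PForm

theorem pform {G : Type*} [Group G] (a b z : G) (hab : a * b = z * b * a) (hza : z * a = a * z)
    (hzb : z * b = b * z) (a5 : a ^ 5 = 1) (b5 : b ^ 5 = 1) (z5 : z ^ 5 = 1) :
    ∀ g ∈ Subgroup.closure ({a, b} : Set G), ∃ i < 5, ∃ j < 5, ∃ k < 5, g = a ^ i * b ^ j * z ^ k := by
  have cza : Commute z a := hza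
  have czb : Commute z b := hzb
  have hba : b * a = a * b * z ^ 4 := by
    have h1 : z ^ 4 * (a * b) = b * a := by
      rw [hab, ← mul_assoc, ← mul_assoc, ← pow_succ, z5, one_mul]
    have h2 : Commute (z ^ 4) (a * b) := (cza.mul_right czb).pow_left 4
    rw [← h1, h2.eq]
  have hbai : ∀ i : ℕ, b * a ^ i = a ^ i * b * z ^ (4 * i) := by
    intro i
    induction i with
    | zero => simp
    | succ i ih =>
      have c1 : Commute (z ^ (4 * i)) a := cza.pow_left _
      calc b * a ^ (i + 1) = (b * a ^ i) * a := by rw [pow_succ, mul_assoc]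
        _ = a ^ i * b * (z ^ (4 * i) * a) := by rw [ih, mul_assoc]
        _ = a ^ i * (b * a) * z ^ (4 * i) := by rw [c1.eq]; simp only [mul_assoc]
        _ = a ^ i * (a * b * z ^ 4) * z ^ (4 * i) := by rw [hba]
        _ = a ^ (i + 1) * b * z ^ (4 * (i + 1)) := by
          rw [pow_succ a i, show 4 * (i + 1) = 4 + 4 * i by ring, pow_add z 4 (4 * i)]
          simp only [mul_assoc]
  let T : G → Prop := fun g => ∃ i j k : ℕ, g = a ^ i * b ^ j * z ^ k
  have hA : ∀ t, T t → T (a * t) := by
    rintro _ ⟨i, j, k, rfl⟩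
    exact ⟨i + 1, j, k, by rw [pow_succ']; simp only [mul_assoc]⟩
  have hB : ∀ t, T t → T (b * t) := by
    rintro _ ⟨i, j, k, rfl⟩
    refine ⟨i, j + 1, 4 * i + k, ?_⟩
    have c1 : Commute (z ^ (4 * i)) (b ^ j) := czb.pow_pow _ _
    calc b * (a ^ i * b ^ j * z ^ k) = (b * a ^ i) * b ^ j * z ^ k := by simp only [mul_assoc]
      _ = a ^ i * b * (z ^ (4 * i) * b ^ j) * z ^ k := by rw [hbai]; simp only [mul_assoc]
      _ = a ^ i * b ^ (j + 1) * z ^ (4 * i + k) := by
        rw [c1.eq, pow_succ' b j, pow_add z (4 * i) k]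
        simp only [mul_assoc]
  have hainv : a⁻¹ = a * (a * (a * a)) := by
    apply inv_eq_of_mul_eq_one_right
    rw [← a5]
    simp only [pow_succ, pow_zero, one_mul, mul_assoc]
  have hbinv : b⁻¹ = b * (b * (b * b)) := by
    apply inv_eq_of_mul_eq_one_right
    rw [← b5]
    simp only [pow_succ, pow_zero, one_mul, mul_assoc]
  have key : ∀ g ∈ Subgroup.closure ({a, b} : Set G), T g := by
    intro g hg
    induction hg using Subgroup.closure_induction_left with
    | one => exact ⟨0, 0, 0, by simp⟩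
    | mul_left x hx y _ ih =>
      rcases hx with rfl | rfl
      · exact hA y ih
      · exact hB y ih
    | inv_mul_cancel x hx y _ ih =>
      rcases hx with rfl | rfl
      · rw [hainv]
        simp only [mul_assoc]
        exact hA _ (hA _ (hA _ (hA _ ih)))
      · rw [hbinv]
        simp only [mul_assoc]
        exact hB _ (hB _ (hB _ (hB _ ih)))
  intro g hg
  obtain ⟨i, j, k, rfl⟩ := key g hg
  exact ⟨i % 5, Nat.mod_lt _ (by norm_num), j % 5, Nat.mod_lt _ (by norm_num), k % 5,
    Nat.mod_lt _ (by norm_num), by rw [← pow_eq_pow_mod i a5, ← pow_eq_pow_mod j b5, ← pow_eq_pow_mod k z5]⟩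

end Cfsg.Agent.Lib.H10U35PForm
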