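import Cfsg.Agent.Lib.Helper10U35Defs
import Cfsg.Agent.Lib.H10U35PForm

set_option autoImplicit false

/-! PROJECT 2149 (row S2149, 10u), piece `Cent`: the centraliser of a non-central element `r` of `P = ⟨a,b⟩` lies in `P`.
PROOF: by `H10U35PForm.pform` (with `D.ab D.za D.zb D.a5 D.b5 D.z5`) `r = a^i b^j z^k`, and `¬ (i = 0 ∧ j = 0)` (else `r = z^k`).
`r` fixes 3 (`D.ax D.bx D.zx`). From `g * r = r * g`: `ρ r (ρ g 3) = ρ g 3`. By `horb g`: either `ρ g 3 = 3`, or `ρ g 3 = ρ p 4` with `p = a^i' b^j' z^k' ∈ P`.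
In the second case `ρ (r * p) 4 = ρ p 4`; `r * p ∈ P`, so `r * p = a^i'' b^j'' z^k''` (`pform`) and `D.reg` gives `(i'',j'',k'') = (i',j',k')`, so `r * p = p`, `r = 1 = z^0`:
contradiction. So `ρ g 3 = 3`, `g = a^i' b^j' z^k' c^l` (`hst`), `D.cc` gives `l = 0`, and `g = a^i' b^j' z^k' ∈ P` (`z ∈ P` since `z = a b a⁻¹ b⁻¹`). -/

namespace Cfsg.Agent.Lib.H10U35Cent

open Cfsg.Agent.Lib.Helper10U35Defs

variable {G : Type*} [Group G] (D : Dat G)

theorem cent (hst : ∀ g : G, D.ρ g 3 = 3 → ∃ i < 5, ∃ j < 5, ∃ k < 5, ∃ l < 8,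
      g = D.a ^ i * D.b ^ j * D.z ^ k * D.c ^ l)
    (horb : ∀ g : G, D.ρ g 3 = 3 ∨ ∃ i < 5, ∃ j < 5, ∃ k < 5,
      D.ρ g 3 = D.ρ (D.a ^ i * D.b ^ j * D.z ^ k) 4) :
    ∀ r ∈ Subgroup.closure ({D.a, D.b} : Set G), (∀ k : ℕ, r ≠ D.z ^ k) →
      ∀ g : G, g * r = r * g → g ∈ Subgroup.closure ({D.a, D.b} : Set G) := by
  intro r hr hrz g hgr
  have ha : D.a ∈ Subgroup.closure ({D.a, D.b} : Set G) := Subgroup.subset_closure (by simp)
  have hb : D.b ∈ Subgroup.closure ({D.a, D.b} : Set G) := Subgroup.subset_closure (by simp)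
  have hz : D.z ∈ Subgroup.closure ({D.a, D.b} : Set G) := by
    have e : D.z = D.a * D.b * D.a⁻¹ * D.b⁻¹ := by
      rw [D.ab]
      group
    rw [e]
    exact mul_mem (mul_mem (mul_mem ha hb) (inv_mem ha)) (inv_mem hb)
  have hform := Cfsg.Agent.Lib.H10U35PForm.pform D.a D.b D.z D.ab D.za D.zb D.a5 D.b5 D.z5
  have hPmem : ∀ i j k : ℕ, D.a ^ i * D.b ^ j * D.z ^ k ∈ Subgroup.closure ({D.a, D.b} : Set G) :=
    fun i j k => mul_mem (mul_mem (pow_mem ha _) (pow_mem hb _)) (pow_mem hz _)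
  obtain ⟨i, hi, j, hj, k, hk, hrr⟩ := hform r hr
  have hij : ¬ (i = 0 ∧ j = 0) := by
    rintro ⟨rfl, rfl⟩
    apply hrz k
    rw [hrr]
    simp
  -- the stabiliser of `3` contains `P`
  have hfix : ∀ x ∈ Subgroup.closure ({D.a, D.b} : Set G), D.ρ x 3 = 3 := by
    have hle : Subgroup.closure ({D.a, D.b} : Set G)
        ≤ (MulAction.stabilizer (Equiv.Perm (Fin 651)) (3 : Fin 651)).comap D.ρ := by
      rw [Subgroup.closure_le]
      intro x hx
      rcases hx with rfl | rfl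
      · exact D.ax
      · exact D.bx
    intro x hx
    exact hle hx
  have hr3 : D.ρ r 3 = 3 := hfix r hr
  have hrg : D.ρ r (D.ρ g 3) = D.ρ g 3 := by
    rw [← Equiv.Perm.mul_apply, ← map_mul, ← hgr, map_mul, Equiv.Perm.mul_apply, hr3]
  have hg3 : D.ρ g 3 = 3 := by
    rcases horb g with h | ⟨i', hi', j', hj', k', hk', h⟩
    · exact h
    · exfalso
      rw [h, ← Equiv.Perm.mul_apply, ← map_mul] at hrg
      obtain ⟨i'', hi'', j'', hj'', k'', hk'', hrp⟩ := hform _ (mul_mem hr (hPmem i' j' k'))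
      rw [hrp] at hrg
      obtain ⟨e1, e2, e3⟩ := D.reg i'' hi'' j'' hj'' k'' hk'' i' hi' j' hj' k' hk' hrg
      rw [e1, e2, e3] at hrp
      have : r = 1 := mul_eq_right.1 hrp
      apply hrz 0
      rw [this, pow_zero]
  obtain ⟨i', hi', j', hj', k', hk', l, hl, hgg⟩ := hst g hg3
  have hl0 : l = 0 := by
    apply D.cc i hi j hj k hk i' hi' j' hj' k' hk' l hl hij
    rw [← hgg, ← hrr]
    exact hgr
  rw [hgg, hl0, pow_zero, mul_one]
  exact hPmem i' j' k'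

end Cfsg.Agent.Lib.H10U35Cent
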