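import Mathlib

set_option autoImplicit false

/-! PROJECT 2149 (row S2149, 10u), piece `OffDiag` (PURE MATHLIB): number of ordered pairs of distinct elements satisfying `Q`. -/

namespace Cfsg.Agent.Lib.H10U35OffDiag

theorem offdiag {X : Type*} [Finite X] (Q : X → Prop) :
    Nat.card {p : {p : X × X // p.1 ≠ p.2} // Q p.1.1 ∧ Q p.1.2}
      = Nat.card {x : X // Q x} * (Nat.card {x : X // Q x} - 1) := by
  classical
  haveI := Fintype.ofFinite X
  have e : {p : {p : X × X // p.1 ≠ p.2} // Q p.1.1 ∧ Q p.1.2} ≃ ↥((Finset.univ.filter Q).offDiag) :=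
    { toFun := fun p => ⟨p.1.1, by
        rw [Finset.mem_offDiag]
        exact ⟨by simpa using p.2.1, by simpa using p.2.2, p.1.2⟩⟩
      invFun := fun p => ⟨⟨p.1, (Finset.mem_offDiag.mp p.2).2.2⟩,
        by simpa using (Finset.mem_offDiag.mp p.2).1, by simpa using (Finset.mem_offDiag.mp p.2).2.1⟩
      left_inv := fun p => rfl
      right_inv := fun p => rfl }
  rw [Nat.card_congr e, Nat.card_eq_fintype_card, Fintype.card_coe, Finset.offDiag_card,
    Nat.card_eq_fintype_card, Fintype.card_subtype, Nat.mul_sub_one]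

theorem offdiag_univ {X : Type*} [Finite X] :
    Nat.card {p : X × X // p.1 ≠ p.2} = Nat.card X * (Nat.card X - 1) := by
  classical
  haveI := Fintype.ofFinite X
  have e : {p : X × X // p.1 ≠ p.2} ≃ ↥((Finset.univ : Finset X).offDiag) :=
    { toFun := fun p => ⟨p.1, by
        rw [Finset.mem_offDiag]
        exact ⟨Finset.mem_univ _, Finset.mem_univ _, p.2⟩⟩
      invFun := fun p => ⟨p.1, (Finset.mem_offDiag.mp p.2).2.2⟩
      left_inv := fun p => rfl
      right_inv := fun p => rfl }
  rw [Nat.card_congr e, Nat.card_eq_fintype_card, Fintype.card_coe, Finset.offDiag_card,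
    Nat.card_eq_fintype_card, Finset.card_univ, Nat.mul_sub_one]

end Cfsg.Agent.Lib.H10U35OffDiag
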