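import Cfsg.Agent.Lib.H10U35DC1
import Cfsg.Agent.Lib.H10U35OffDiag
import Cfsg.Agent.Lib.H10U35Blk

set_option autoImplicit false
set_option warn.classDefReducibility false

/-! PROJECT 2149 (row S2149, 10u), piece `Count`: the 2-design count. -/

namespace Cfsg.Agent.Lib.H10U35Count

open Cfsg.Agent.Lib.H10U35Blk

/-- the action on ordered pairs of distinct points -/
def pairAction (G X : Type*) [Group G] [MulAction G X] : MulAction G {p : X × X // p.1 ≠ p.2} where
  smul g p := ⟨(g • p.1.1, g • p.1.2), fun h => p.2 (smul_left_cancel g h)⟩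
  one_smul p := by
    apply Subtype.ext
    apply Prod.ext
    · exact one_smul G p.1.1
    · exact one_smul G p.1.2
  mul_smul g h p := by
    apply Subtype.ext
    apply Prod.ext
    · exact mul_smul g h p.1.1
    · exact mul_smul g h p.1.2

theorem count {G Y Ω : Type*} [Group G] [MulAction G Y] [MulAction G Ω] [Finite Y] [Finite Ω]
    (x0 x1 : Y) (hne : x1 ≠ x0) (h1 : ∃ g : G, g • x0 = x1)
    (h2 : ∀ g : G, g • x0 ≠ x0 → ∃ h : G, h • x0 = x0 ∧ h • x1 = g • x0)
    (hΩ : ∀ ω ω' : Ω, ∃ g : G, g • ω = ω')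
    (S : Set Ω) (hS : ∀ g : G, g • x0 = x0 → ∀ ω, g • ω ∈ S ↔ ω ∈ S) :
    ∃ r l : ℕ, Nat.card Ω * r = Nat.card (MulAction.orbit G x0) * Nat.card S ∧
      Nat.card Ω * (r * (r - 1)) =
        Nat.card (MulAction.orbit G x0) * (Nat.card (MulAction.orbit G x0) - 1) * l := by
  classical
  rcases isEmpty_or_nonempty Ω with hE | ⟨⟨ω0⟩⟩
  · refine ⟨0, 0, ?_, ?_⟩
    · have h0 : Nat.card S = 0 := by
        have : IsEmpty S := ⟨fun s => hE.false s.1⟩
        exact Nat.card_of_isEmpty
      rw [h0, mul_zero, mul_zero]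
    · simp
  · let R : MulAction.orbit G x0 → Ω → Prop := fun x ω => ω ∈ Blk G x0 S (x : Y)
    have hR : ∀ (g : G) (x : MulAction.orbit G x0) (ω : Ω), R (g • x) (g • ω) ↔ R x ω :=
      fun g x ω => blk_smul x0 S g (x : Y) ω
    have hX : ∀ x x' : MulAction.orbit G x0, ∃ g : G, g • x = x' :=
      fun x x' => MulAction.exists_smul_eq G x x'
    let x0' : MulAction.orbit G x0 := ⟨x0, MulAction.mem_orbit_self x0⟩
    let x1' : MulAction.orbit G x0 := ⟨x1, h1⟩
    have e1 := Cfsg.Agent.Lib.H10U35DC1.dc1 R hR hX hΩ x0' ω0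
    have hc : Nat.card {ω : Ω // R x0' ω} = Nat.card S := by
      have := card_blk x0 S hS (1 : G)
      rw [one_smul] at this
      exact this
    rw [hc] at e1
    let _ := pairAction G (MulAction.orbit G x0)
    let R2 : {p : MulAction.orbit G x0 × MulAction.orbit G x0 // p.1 ≠ p.2} → Ω → Prop :=
      fun p ω => R p.1.1 ω ∧ R p.1.2 ω
    have hR2 : ∀ (g : G) (p : {p : MulAction.orbit G x0 × MulAction.orbit G x0 // p.1 ≠ p.2})
        (ω : Ω), R2 (g • p) (g • ω) ↔ R2 p ω := fun g p ω =>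
      and_congr (hR g p.1.1 ω) (hR g p.1.2 ω)
    have hb : x0' ≠ x1' := fun h => hne (congrArg Subtype.val h).symm
    let base : {p : MulAction.orbit G x0 × MulAction.orbit G x0 // p.1 ≠ p.2} := ⟨(x0', x1'), hb⟩
    have hbase : ∀ p : {p : MulAction.orbit G x0 × MulAction.orbit G x0 // p.1 ≠ p.2},
        ∃ g : G, g • base = p := by
      rintro ⟨⟨⟨x, g, hg⟩, ⟨x', g', hg'⟩⟩, hp⟩
      have hg1 : g • x0 = x := hg
      have hg1' : g' • x0 = x' := hg'
      have hn : (g⁻¹ * g') • x0 ≠ x0 := by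
        intro h
        apply hp
        apply Subtype.ext
        show x = x'
        rw [← hg1, ← hg1']
        rw [mul_smul, inv_smul_eq_iff] at h
        exact h.symm
      obtain ⟨h, hh0, hh1⟩ := h2 _ hn
      refine ⟨g * h, ?_⟩
      apply Subtype.ext
      apply Prod.ext
      · apply Subtype.ext
        show (g * h) • x0 = x
        rw [mul_smul, hh0, hg1]
      · apply Subtype.ext
        show (g * h) • x1 = x'
        rw [mul_smul, hh1, mul_smul, smul_inv_smul, hg1']
    have hX2 : ∀ p p' : {p : MulAction.orbit G x0 × MulAction.orbit G x0 // p.1 ≠ p.2},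
        ∃ g : G, g • p = p' := by
      intro p p'
      obtain ⟨g, hg⟩ := hbase p
      obtain ⟨g', hg'⟩ := hbase p'
      refine ⟨g' * g⁻¹, ?_⟩
      rw [← hg, ← hg', mul_smul, inv_smul_smul]
    have e2 := Cfsg.Agent.Lib.H10U35DC1.dc1 R2 hR2 hX2 hΩ base ω0
    have o1 := Cfsg.Agent.Lib.H10U35OffDiag.offdiag (fun x : MulAction.orbit G x0 => R x ω0)
    have o2 := Cfsg.Agent.Lib.H10U35OffDiag.offdiag_univ (X := MulAction.orbit G x0)
    refine ⟨Nat.card {x : MulAction.orbit G x0 // R x ω0}, Nat.card {ω : Ω // R2 base ω}, e1, ?_⟩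
    rw [← o1, ← o2]
    exact e2

end Cfsg.Agent.Lib.H10U35Count
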