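import Mathlib

set_option autoImplicit false

/-! PROJECT 2149 (row S2149, 10u), piece `DC1` (PURE MATHLIB): double counting for an invariant relation between two transitive `G`-sets. -/

namespace Cfsg.Agent.Lib.H10U35DC1

theorem dc1 {G X Ω : Type*} [Group G] [MulAction G X] [MulAction G Ω] [Finite X] [Finite Ω]
    (R : X → Ω → Prop) (hR : ∀ (g : G) (x : X) (ω : Ω), R (g • x) (g • ω) ↔ R x ω)
    (hX : ∀ x x' : X, ∃ g : G, g • x = x') (hΩ : ∀ ω ω' : Ω, ∃ g : G, g • ω = ω') (x0 : X) (ω0 : Ω) :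
    Nat.card Ω * Nat.card {x : X // R x ω0} = Nat.card X * Nat.card {ω : Ω // R x0 ω} := by
  classical
  have _ := Fintype.ofFinite X
  have _ := Fintype.ofFinite Ω
  have h1 : ∀ x : X, Nat.card {ω : Ω // R x ω} = Nat.card {ω : Ω // R x0 ω} := by
    intro x
    obtain ⟨g, rfl⟩ := hX x0 x
    refine (Nat.card_congr ?_).symm
    refine (MulAction.toPerm g).subtypeEquiv ?_
    intro ω
    exact (hR g x0 ω).symm
  have h2 : ∀ ω : Ω, Nat.card {x : X // R x ω} = Nat.card {x : X // R x ω0} := by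
    intro ω
    obtain ⟨g, rfl⟩ := hΩ ω0 ω
    refine (Nat.card_congr ?_).symm
    refine (MulAction.toPerm g).subtypeEquiv ?_
    intro x
    exact (hR g x ω0).symm
  have e1 : Nat.card {p : X × Ω // R p.1 p.2} = Nat.card X * Nat.card {ω : Ω // R x0 ω} := by
    rw [Nat.card_congr (Equiv.subtypeProdEquivSigmaSubtype R), Nat.card_sigma]
    simp only [h1, Finset.sum_const, smul_eq_mul, Finset.card_univ, Nat.card_eq_fintype_card]
  have e2 : Nat.card {p : X × Ω // R p.1 p.2} = Nat.card Ω * Nat.card {x : X // R x ω0} := by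
    have e : {p : X × Ω // R p.1 p.2} ≃ {p : Ω × X // R p.2 p.1} :=
      (Equiv.prodComm X Ω).subtypeEquiv (fun p => Iff.rfl)
    rw [Nat.card_congr e, Nat.card_congr (Equiv.subtypeProdEquivSigmaSubtype (fun ω x => R x ω)),
      Nat.card_sigma]
    simp only [h2, Finset.sum_const, smul_eq_mul, Finset.card_univ, Nat.card_eq_fintype_card]
  rw [← e1, ← e2]

end Cfsg.Agent.Lib.H10U35DC1
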