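import Cfsg.Agent.Lib.Helper10U35Defs

set_option autoImplicit false
set_option maxRecDepth 100000
set_option maxHeartbeats 4000000

/-! PROJECT 2149 (row S2149, 10u), piece `DatA`: relations and fixed points read off the tables. -/

namespace Cfsg.Agent.Lib.H10U35DatA

open Cfsg.Agent.Lib.Helper10U35Defs

theorem of_all {f k : ℕ → ℕ} (h : (List.range 651).all (fun p => f p == k p) = true) :
    ∀ p < 651, f p = k p := by
  intro p hp
  rw [List.all_eq_true] at h
  exact beq_iff_eq.mp (h p (List.mem_range.mpr hp))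

theorem t_ab : (List.range 651).all (fun p => fa (fb p) == fz (fb (fa p))) = true := by
  decide +kernel

theorem t_za : (List.range 651).all (fun p => fz (fa p) == fa (fz p)) = true := by
  decide +kernel

theorem t_zb : (List.range 651).all (fun p => fz (fb p) == fb (fz p)) = true := by
  decide +kernel

theorem t_a5 : (List.range 651).all (fun p => fa^[5] p == p) = true := by
  decide +kernel

theorem t_b5 : (List.range 651).all (fun p => fb^[5] p == p) = true := by
  decide +kernel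

theorem t_z5 : (List.range 651).all (fun p => fz^[5] p == p) = true := by
  decide +kernel

theorem t_cz : (List.range 651).all (fun p => fc (fz p) == fz^[2] (fc p)) = true := by
  decide +kernel

variable {G : Type*} [Group G] (M : Mdl G)

theorem rel : M.a * M.b = M.z * M.b * M.a ∧ M.z * M.a = M.a * M.z ∧ M.z * M.b = M.b * M.z ∧
    M.a ^ 5 = 1 ∧ M.b ^ 5 = 1 ∧ M.z ^ 5 = 1 ∧ M.z ≠ 1 ∧ M.c * M.z = M.z ^ 2 * M.c := by
  refine ⟨?_, ?_, ?_, ?_, ?_, ?_, ?_, ?_⟩
  · exact Tab.ext M.inj (M.ha.mul M.hb) ((M.hz.mul M.hb).mul M.ha) (of_all t_ab)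
  · exact Tab.ext M.inj (M.hz.mul M.ha) (M.ha.mul M.hz) (of_all t_za)
  · exact Tab.ext M.inj (M.hz.mul M.hb) (M.hb.mul M.hz) (of_all t_zb)
  · exact Tab.ext M.inj (M.ha.pow 5) Tab.one (of_all t_a5)
  · exact Tab.ext M.inj (M.hb.pow 5) Tab.one (of_all t_b5)
  · exact Tab.ext M.inj (M.hz.pow 5) Tab.one (of_all t_z5)
  · exact Tab.ne M.hz Tab.one 4 (by decide +kernel)
  · exact Tab.ext M.inj (M.hc.mul M.hz) ((M.hz.pow 2).mul M.hc) (of_all t_cz)

theorem pts : M.ρ M.a 3 = 3 ∧ M.ρ M.b 3 = 3 ∧ M.ρ M.z 3 = 3 ∧ M.ρ M.c 3 = 3 ∧ M.ρ M.c 4 = 4 ∧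
    M.ρ M.w 3 = 4 := by
  refine ⟨?_, ?_, ?_, ?_, ?_, ?_⟩
  · exact Tab.apply M.ha 3 3 (by decide +kernel)
  · exact Tab.apply M.hb 3 3 (by decide +kernel)
  · exact Tab.apply M.hz 3 3 (by decide +kernel)
  · exact Tab.apply M.hc 3 3 (by decide +kernel)
  · exact Tab.apply M.hc 4 4 (by decide +kernel)
  · exact Tab.apply M.hw 3 4 (by decide +kernel)

end Cfsg.Agent.Lib.H10U35DatA
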