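import Cfsg.Agent.Lib.Helper10U35Defs

set_option autoImplicit false
set_option maxRecDepth 100000
set_option maxHeartbeats 4000000

/-! PROJECT 2149 (row S2149, 10u), piece `DatB`: the 125 elements `a^i b^j z^k` move the point 4 to 125 different points; `c` has order 8.
METHOD: `(((M.ha.pow i).mul (M.hb.pow j)).mul (M.hz.pow k)) : Tab M.ρ (a^i*b^j*z^k) (fun p => fa^[i] (fb^[j] (fz^[k] p)))`, so
`((M.ρ (a^i*b^j*z^k) 4 : Fin 651) : ℕ) = fa^[i] (fb^[j] (fz^[k] 4))`; the table check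
`∀ i < 5, ∀ j < 5, ∀ k < 5, ∀ i' < 5, ∀ j' < 5, ∀ k' < 5, fa^[i] (fb^[j] (fz^[k] 4)) = fa^[i'] (fb^[j'] (fz^[k'] 4)) → i = i' ∧ j = j' ∧ k = k'`
is `by decide +kernel` (15625 cases; or check `List.Nodup` of the list of the 125 images).
`c8`: the point 27 has 8 different images: `∀ l < 8, ∀ l' < 8, fc^[l] 27 = fc^[l'] 27 → l = l'` by `decide +kernel`. -/

namespace Cfsg.Agent.Lib.H10U35DatB

open Cfsg.Agent.Lib.Helper10U35Defs

/-- the list of the 125 images of the point 4, coded with the exponents -/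
def imgs : List ℕ := (List.range 125).map fun t => fa^[t / 25] (fb^[t / 5 % 5] (fz^[t % 5] 4))

theorem imgs_nodup : imgs.Nodup := by decide +kernel

theorem tabB : ∀ i < 5, ∀ j < 5, ∀ k < 5, ∀ i' < 5, ∀ j' < 5, ∀ k' < 5,
    fa^[i] (fb^[j] (fz^[k] 4)) = fa^[i'] (fb^[j'] (fz^[k'] 4)) → i = i' ∧ j = j' ∧ k = k' := by
  intro i hi j hj k hk i' hi' j' hj' k' hk' h
  have key : ∀ i < 5, ∀ j < 5, ∀ k < 5, (25 * i + 5 * j + k) / 25 = i ∧
      (25 * i + 5 * j + k) / 5 % 5 = j ∧ (25 * i + 5 * j + k) % 5 = k := by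
    intro i hi j hj k hk
    omega
  have hinj := List.inj_on_of_nodup_map imgs_nodup
    (x := 25 * i + 5 * j + k) (y := 25 * i' + 5 * j' + k')
    (List.mem_range.2 (by omega)) (List.mem_range.2 (by omega))
  obtain ⟨a1, a2, a3⟩ := key i hi j hj k hk
  obtain ⟨b1, b2, b3⟩ := key i' hi' j' hj' k' hk'
  simp only [a1, a2, a3, b1, b2, b3] at hinj
  have := hinj h
  omega

theorem tabC : ∀ l < 8, ∀ l' < 8, fc^[l] 27 = fc^[l'] 27 → l = l' := by decide +kernel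

variable {G : Type*} [Group G] (M : Mdl G)

theorem reg : ∀ i < 5, ∀ j < 5, ∀ k < 5, ∀ i' < 5, ∀ j' < 5, ∀ k' < 5,
    M.ρ (M.a ^ i * M.b ^ j * M.z ^ k) 4 = M.ρ (M.a ^ i' * M.b ^ j' * M.z ^ k') 4 →
      i = i' ∧ j = j' ∧ k = k' := by
  intro i hi j hj k hk i' hi' j' hj' k' hk' h
  have e1 := (((M.ha.pow i).mul (M.hb.pow j)).mul (M.hz.pow k)) 4
  have e2 := (((M.ha.pow i').mul (M.hb.pow j')).mul (M.hz.pow k')) 4
  rw [h] at e1
  exact tabB i hi j hj k hk i' hi' j' hj' k' hk' (e1.symm.trans e2)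

theorem c8 : ∀ l < 8, ∀ l' < 8, M.c ^ l = M.c ^ l' → l = l' := by
  intro l hl l' hl' h
  have e1 := (M.hc.pow l) 27
  have e2 := (M.hc.pow l') 27
  rw [h] at e1
  exact tabC l hl l' hl' (e1.symm.trans e2)

end Cfsg.Agent.Lib.H10U35DatB
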