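import Cfsg.Agent.Lib.Helper10U35Defs

set_option autoImplicit false
set_option maxRecDepth 100000
set_option maxHeartbeats 0

/-! PROJECT 2149 (row S2149, 10u), piece `DatC`: brute force: `a^i' b^j' z^k' c^l` with `0 < l < 8` commutes with no `a^i b^j z^k`, `(i,j) ≠ (0,0)`.
METHOD: evaluate both products at the point 4 (verified in python: they ALWAYS differ at the point 4 when `l ≠ 0`).
Tabs: `T1 := (((M.ha.pow i').mul (M.hb.pow j')).mul (M.hz.pow k')).mul (M.hc.pow l)`, `T2 := ((M.ha.pow i).mul (M.hb.pow j)).mul (M.hz.pow k)`;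
if the two products are equal then `(T1.mul T2) 4` and `(T2.mul T1) 4` give
`fa^[i'] (fb^[j'] (fz^[k'] (fc^[l] (fa^[i] (fb^[j] (fz^[k] 4)))))) = fa^[i] (fb^[j] (fz^[k] (fa^[i'] (fb^[j'] (fz^[k'] (fc^[l] 4))))))`.
Table check (105000 cases, a few million table look-ups, fine for the kernel): define a `Bool` by nested `(List.range 5).all ...` and prove
`chk = true := by decide +kernel`; unpack with `List.all_eq_true`, `List.mem_range`. To be fast precompute nothing; `Nat.iterate` is fine. -/

namespace Cfsg.Agent.Lib.H10U35DatC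

open Cfsg.Agent.Lib.Helper10U35Defs

/-- value of the first product at the point 4 -/
def lhs (i j k i' j' k' l : ℕ) : ℕ :=
  fa^[i'] (fb^[j'] (fz^[k'] (fc^[l] (fa^[i] (fb^[j] (fz^[k] 4))))))

/-- value of the second product at the point 4 -/
def rhs (i j k i' j' k' l : ℕ) : ℕ :=
  fa^[i] (fb^[j] (fz^[k] (fa^[i'] (fb^[j'] (fz^[k'] (fc^[l] 4))))))

/-- the table check for fixed `l` and `i` -/
def chk (l i : ℕ) : Bool :=
  (List.range 5).all fun j => (Nat.beq i 0 && Nat.beq j 0) ||
    ((List.range 5).all fun k => (List.range 5).all fun i' => (List.range 5).all fun j' =>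
      (List.range 5).all fun k' => !(Nat.beq (lhs i j k i' j' k' l) (rhs i j k i' j' k' l)))

theorem chk_spec {l i : ℕ} (h : chk l i = true) : ∀ j < 5, ∀ k < 5, ∀ i' < 5, ∀ j' < 5, ∀ k' < 5,
    ¬ (i = 0 ∧ j = 0) → lhs i j k i' j' k' l ≠ rhs i j k i' j' k' l := by
  intro j hj k hk i' hi' j' hj' k' hk' hne he
  unfold chk at h
  rw [List.all_eq_true] at h
  have h1 := h j (List.mem_range.2 hj)
  rw [Bool.or_eq_true] at h1
  rcases h1 with h1 | h1
  · rw [Bool.and_eq_true] at h1
    exact hne ⟨Nat.eq_of_beq_eq_true h1.1, Nat.eq_of_beq_eq_true h1.2⟩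
  · rw [List.all_eq_true] at h1
    have h2 := h1 k (List.mem_range.2 hk)
    rw [List.all_eq_true] at h2
    have h3 := h2 i' (List.mem_range.2 hi')
    rw [List.all_eq_true] at h3
    have h4 := h3 j' (List.mem_range.2 hj')
    rw [List.all_eq_true] at h4
    have h5 := h4 k' (List.mem_range.2 hk')
    rw [he] at h5
    simp at h5

theorem t10 : chk 1 0 = true := by decide +kernel
theorem t11 : chk 1 1 = true := by decide +kernel
theorem t12 : chk 1 2 = true := by decide +kernel
theorem t13 : chk 1 3 = true := by decide +kernel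
theorem t14 : chk 1 4 = true := by decide +kernel
theorem t20 : chk 2 0 = true := by decide +kernel
theorem t21 : chk 2 1 = true := by decide +kernel
theorem t22 : chk 2 2 = true := by decide +kernel
theorem t23 : chk 2 3 = true := by decide +kernel
theorem t24 : chk 2 4 = true := by decide +kernel
theorem t30 : chk 3 0 = true := by decide +kernel
theorem t31 : chk 3 1 = true := by decide +kernel
theorem t32 : chk 3 2 = true := by decide +kernel
theorem t33 : chk 3 3 = true := by decide +kernel
theorem t34 : chk 3 4 = true := by decide +kernel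
theorem t40 : chk 4 0 = true := by decide +kernel
theorem t41 : chk 4 1 = true := by decide +kernel
theorem t42 : chk 4 2 = true := by decide +kernel
theorem t43 : chk 4 3 = true := by decide +kernel
theorem t44 : chk 4 4 = true := by decide +kernel
theorem t50 : chk 5 0 = true := by decide +kernel
theorem t51 : chk 5 1 = true := by decide +kernel
theorem t52 : chk 5 2 = true := by decide +kernel
theorem t53 : chk 5 3 = true := by decide +kernel
theorem t54 : chk 5 4 = true := by decide +kernel
theorem t60 : chk 6 0 = true := by decide +kernel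
theorem t61 : chk 6 1 = true := by decide +kernel
theorem t62 : chk 6 2 = true := by decide +kernel
theorem t63 : chk 6 3 = true := by decide +kernel
theorem t64 : chk 6 4 = true := by decide +kernel
theorem t70 : chk 7 0 = true := by decide +kernel
theorem t71 : chk 7 1 = true := by decide +kernel
theorem t72 : chk 7 2 = true := by decide +kernel
theorem t73 : chk 7 3 = true := by decide +kernel
theorem t74 : chk 7 4 = true := by decide +kernel

theorem chk_all : ∀ l < 8, l ≠ 0 → ∀ i < 5, chk l i = true := by
  intro l hl h0 i hi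
  interval_cases l
  · exact absurd rfl h0
  · interval_cases i
    exacts [t10, t11, t12, t13, t14]
  · interval_cases i
    exacts [t20, t21, t22, t23, t24]
  · interval_cases i
    exacts [t30, t31, t32, t33, t34]
  · interval_cases i
    exacts [t40, t41, t42, t43, t44]
  · interval_cases i
    exacts [t50, t51, t52, t53, t54]
  · interval_cases i
    exacts [t60, t61, t62, t63, t64]
  · interval_cases i
    exacts [t70, t71, t72, t73, t74]

variable {G : Type*} [Group G] (M : Mdl G)

theorem cc : ∀ i < 5, ∀ j < 5, ∀ k < 5, ∀ i' < 5, ∀ j' < 5, ∀ k' < 5, ∀ l < 8, ¬ (i = 0 ∧ j = 0) →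
    (M.a ^ i' * M.b ^ j' * M.z ^ k' * M.c ^ l) * (M.a ^ i * M.b ^ j * M.z ^ k)
      = (M.a ^ i * M.b ^ j * M.z ^ k) * (M.a ^ i' * M.b ^ j' * M.z ^ k' * M.c ^ l) → l = 0 := by
  intro i hi j hj k hk i' hi' j' hj' k' hk' l hl hne h
  by_contra hl0
  have T1 := (((M.ha.pow i').mul (M.hb.pow j')).mul (M.hz.pow k')).mul (M.hc.pow l)
  have T2 := ((M.ha.pow i).mul (M.hb.pow j)).mul (M.hz.pow k)
  have e1 := (T1.mul T2) 4
  have e2 := (T2.mul T1) 4
  rw [h] at e1
  have he : lhs i j k i' j' k' l = rhs i j k i' j' k' l := e1.symm.trans e2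
  exact chk_spec (chk_all l hl hl0 i hi) j hj k hk i' hi' j' hj' k' hk' hne he

end Cfsg.Agent.Lib.H10U35DatC
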