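import Mathlib

set_option autoImplicit false

/-! PROJECT 2149 (row S2149, 10u), piece `OrbGe` (PURE MATHLIB): a Schreier tree with `N` different nodes shows that the subgroup has at least `N` elements. -/

namespace Cfsg.Agent.Lib.H10U35OrbGe

theorem card_ge {G Y : Type*} [Group G] [Finite G] [MulAction G Y] (H : Subgroup G) (g1 g2 : G)
    (h1 : g1 ∈ H) (h2 : g2 ∈ H) (N : ℕ) (pts : ℕ → Y) (par lt : ℕ → ℕ)
    (hstep : ∀ i, 0 < i → i < N → par i < i ∧ pts i = (if lt i = 0 then g1 else g2) • pts (par i))
    (hinj : ∀ i < N, ∀ j < N, pts i = pts j → i = j) : N ≤ Nat.card H := by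
  have hex : ∀ i, i < N → ∃ u : H, pts i = (u : G) • pts 0 := by
    intro i
    induction i using Nat.strong_induction_on with
    | _ i ih =>
      intro hi
      rcases Nat.eq_zero_or_pos i with rfl | hpos
      · exact ⟨1, by simp⟩
      · obtain ⟨hlt, he⟩ := hstep i hpos hi
        obtain ⟨u, hu⟩ := ih (par i) hlt (hlt.trans hi)
        have hg : (if lt i = 0 then g1 else g2) ∈ H := by
          split_ifs
          · exact h1
          · exact h2
        refine ⟨⟨_, hg⟩ * u, ?_⟩
        rw [he, hu, Subgroup.coe_mul, mul_smul]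
  choose! u hu using hex
  have hinj' : Function.Injective (fun i : Fin N => u i) := by
    intro i j hij
    apply Fin.ext
    apply hinj i i.2 j j.2
    rw [hu i i.2, hu j j.2]
    have : u i = u j := hij
    rw [this]
  have := Nat.card_le_card_of_injective _ hinj'
  simpa using this

end Cfsg.Agent.Lib.H10U35OrbGe
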