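import Cfsg.Agent.Lib.H10U35A7Data
import Cfsg.Agent.Lib.H10U35OrbGe

set_option autoImplicit false

/-! PROJECT 2149 (row S2149, 10u), piece `Ex`: a subgroup of index exactly 50. -/

namespace Cfsg.Agent.Lib.H10U35Ex

open Cfsg.Agent.Lib.Helper10U35Defs

theorem exists50 {G : Type*} [Group G] [Finite G] (M : Mdl G) (hc : Nat.card G = 126000)
    (hl : ∀ H : Subgroup G, H ≠ ⊤ → 50 ≤ H.index) : ∃ H : Subgroup G, H.index = 50 := by
  let H : Subgroup G :=
    { carrier := {g | ∀ p : Fin 651, inD ((M.ρ g p : Fin 651) : ℕ) = inD (p : ℕ)}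
      one_mem' := by
        intro p
        rw [map_one, Equiv.Perm.one_apply]
      mul_mem' := by
        intro g g' hg hg' p
        rw [map_mul, Equiv.Perm.mul_apply, hg, hg']
      inv_mem' := by
        intro g hg p
        have := hg (M.ρ g⁻¹ p)
        rw [← Equiv.Perm.mul_apply, ← map_mul, mul_inv_cancel, map_one, Equiv.Perm.one_apply] at this
        exact this.symm }
  have hh1 : M.h1 ∈ H := by
    intro p
    rw [M.hh1 p]
    exact H10U35A7Data.d_h1 p p.2
  have hh2 : M.h2 ∈ H := by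
    intro p
    rw [M.hh2 p]
    exact H10U35A7Data.d_h2 p p.2
  have hne : H ≠ ⊤ := by
    intro htop
    obtain ⟨p, hp, hne⟩ := H10U35A7Data.d_a
    have h1 : M.a ∈ H := by rw [htop]; trivial
    have h2 := h1 ⟨p, hp⟩
    rw [M.ha] at h2
    exact hne h2
  have h50 := hl H hne
  letI : MulAction G (Fin 651) := MulAction.compHom _ M.ρ
  have hsm : ∀ (g : G) (x y : Fin 651), g • (x, y) = (M.ρ g x, M.ρ g y) := fun g x y => rfl
  have h651 : 0 < 651 := by norm_num
  have hcardH : 2520 ≤ Nat.card H := by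
    refine H10U35OrbGe.card_ge (Y := Fin 651 × Fin 651) H M.h1 M.h2 hh1 hh2 2520
      (fun i => ((⟨tp i % 651, Nat.mod_lt _ h651⟩ : Fin 651), (⟨tq i % 651, Nat.mod_lt _ h651⟩ : Fin 651)))
      tpar tlt ?_ ?_
    · intro i hi0 hi
      obtain ⟨hlt, e1, e2⟩ := H10U35A7Data.tree_step i hi0 hi
      refine ⟨hlt, ?_⟩
      obtain ⟨a1, a2⟩ := H10U35A7Data.tree_lt i hi
      obtain ⟨b1, b2⟩ := H10U35A7Data.tree_lt (tpar i) (hlt.trans hi)
      rw [hsm]
      by_cases ht : tlt i = 0
      · rw [if_pos ht] at e1 e2 ⊢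
        apply Prod.ext
        · apply Fin.ext
          rw [M.hh1]
          show tp i % 651 = fh1 (tp (tpar i) % 651)
          rw [Nat.mod_eq_of_lt a1, Nat.mod_eq_of_lt b1, e1]
        · apply Fin.ext
          rw [M.hh1]
          show tq i % 651 = fh1 (tq (tpar i) % 651)
          rw [Nat.mod_eq_of_lt a2, Nat.mod_eq_of_lt b2, e2]
      · rw [if_neg ht] at e1 e2 ⊢
        apply Prod.ext
        · apply Fin.ext
          rw [M.hh2]
          show tp i % 651 = fh2 (tp (tpar i) % 651)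
          rw [Nat.mod_eq_of_lt a1, Nat.mod_eq_of_lt b1, e1]
        · apply Fin.ext
          rw [M.hh2]
          show tq i % 651 = fh2 (tq (tpar i) % 651)
          rw [Nat.mod_eq_of_lt a2, Nat.mod_eq_of_lt b2, e2]
    · intro i hi j hj hij
      obtain ⟨a1, a2⟩ := H10U35A7Data.tree_lt i hi
      obtain ⟨b1, b2⟩ := H10U35A7Data.tree_lt j hj
      have h1 : tp i % 651 = tp j % 651 := congrArg (fun x : Fin 651 × Fin 651 => (x.1 : ℕ)) hij
      have h2 : tq i % 651 = tq j % 651 := congrArg (fun x : Fin 651 × Fin 651 => (x.2 : ℕ)) hij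
      rw [Nat.mod_eq_of_lt a1, Nat.mod_eq_of_lt b1] at h1
      rw [Nat.mod_eq_of_lt a2, Nat.mod_eq_of_lt b2] at h2
      exact H10U35A7Data.tree_inj i hi j hj h1 h2
  have hmul := Subgroup.index_mul_card H
  rw [hc] at hmul
  refine ⟨H, ?_⟩
  by_contra hcon
  have h51 : 51 ≤ H.index := by omega
  have : 51 * 2520 ≤ H.index * Nat.card H := Nat.mul_le_mul h51 hcardH
  omega

end Cfsg.Agent.Lib.H10U35Ex
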