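import Cfsg.Agent.Lib.H10U35PL
import Cfsg.Agent.Lib.Helper7SUCenter
import Cfsg.Agent.Lib.Helper7SpCenter
import Cfsg.Prelude.Def_Classical

set_option autoImplicit false
set_option maxRecDepth 100000
set_option linter.unusedSectionVars false

/-! PROJECT 2149 (row S2149, 10u), piece `Hom`: `PSU 3 F 5`, `|F| = 25`, acts faithfully on the 651 points of
`PG(2,25)` and the seven good matrices are induced by elements of the group. -/

namespace Cfsg.Agent.Lib.H10U35Hom

open Cfsg.Agent.Lib.Helper10U35Defs Cfsg.Agent.Lib.Helper47Idx2 Cfsg.Agent.Lib.Helper13F25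
  Cfsg.Agent.Lib.H10U35PL

section general

variable {F : Type*} [Field F] [Fintype F]

/-- entrywise transport to the model -/
def fm (e : F ≃+* F25) : ↥(Cfsg.SU 3 F 5) →* Matrix (Fin 3) (Fin 3) F25 where
  toFun A := A.1.1.map e
  map_one' := by
    show (1 : Matrix (Fin 3) (Fin 3) F).map e = 1
    exact Matrix.map_one e (map_zero e) (map_one e)
  map_mul' A B := by
    show (A.1.1 * B.1.1).map e = A.1.1.map e * B.1.1.map e
    exact Matrix.map_mul

theorem toPerm_scalar (e : F ≃+* F25) (A : ↥(Cfsg.SU 3 F 5)) (r : F25) (hr : r ≠ 0)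
    (h : fm e A = Matrix.scalar (Fin 3) r) : PL.toPerm (fm e) A = 1 := by
  ext j
  rw [PL.toPerm_apply, h]
  have : (Matrix.scalar (Fin 3) r).mulVec (PL.pt j) = r • PL.pt j := by
    rw [Matrix.scalar_apply, ← Matrix.smul_one_eq_diagonal, Matrix.smul_mulVec, Matrix.one_mulVec]
  rw [this, PL.lab_smul _ _ hr, PL.lab_pt]
  rfl

theorem center_le (hF : Fintype.card F = 5 ^ 2) (e : F ≃+* F25) :
    ∀ A ∈ Subgroup.center ↥(Cfsg.SU 3 F 5), PL.toPerm (fm e) A = 1 := by
  intro A hA
  have hs := Cfsg.Agent.Lib.Helper7SUCenter.eq_scalar_of_commute hF A.1.1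
    (Cfsg.Agent.Lib.Helper7SUCenter.commute_of_mem_center hF A hA) 0
  have hr0 : A.1.1 0 0 ≠ 0 := by
    intro h0
    have h1 := A.1.2
    rw [hs, h0] at h1
    simp at h1
  apply toPerm_scalar e A (e (A.1.1 0 0)) (by simpa using hr0)
  show A.1.1.map e = _
  conv_lhs => rw [hs]
  ext i j
  simp [Matrix.scalar_apply, Matrix.diagonal_apply, apply_ite e]

theorem ker_le (e : F ≃+* F25) (A : ↥(Cfsg.SU 3 F 5))
    (h : PL.toPerm (fm e) A = 1) : A ∈ Subgroup.center ↥(Cfsg.SU 3 F 5) := by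
  have h1 := PL.fix_of_toPerm_eq_one (fm e) A h
  have h2 : fm e A = Matrix.scalar (Fin 3) (fm e A 0 0) :=
    Cfsg.Agent.Lib.Helper7SpCenter.eq_scalar_of_fix (fm e A) h1 0
  have h3 : A.1.1 = Matrix.scalar (Fin 3) (A.1.1 0 0) := by
    ext i j
    have := congrFun (congrFun h2 i) j
    apply e.injective
    have e1 : fm e A i j = e (A.1.1 i j) := rfl
    have e2 : fm e A 0 0 = e (A.1.1 0 0) := rfl
    rw [e1, e2] at this
    rw [this]
    simp [Matrix.scalar_apply, Matrix.diagonal_apply, apply_ite e]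
  rw [Subgroup.mem_center_iff]
  intro g
  apply Subtype.ext
  apply Subtype.ext
  show g.1.1 * A.1.1 = A.1.1 * g.1.1
  rw [h3, Matrix.scalar_apply, ← Matrix.smul_one_eq_diagonal, mul_smul_comm, smul_mul_assoc, mul_one,
    one_mul]

def al (hF : Fintype.card F = 5 ^ 2) (e : F ≃+* F25) : Cfsg.PSU 3 F 5 →* Equiv.Perm (Fin 651) :=
  QuotientGroup.lift (Subgroup.center ↥(Cfsg.SU 3 F 5)) (PL.toPerm (fm e)) (center_le hF e)

theorem al_mk (hF : Fintype.card F = 5 ^ 2) (e : F ≃+* F25) (A : ↥(Cfsg.SU 3 F 5)) :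
    al hF e (QuotientGroup.mk A) = PL.toPerm (fm e) A := rfl

theorem al_injective (hF : Fintype.card F = 5 ^ 2) (e : F ≃+* F25) : Function.Injective (al hF e) := by
  rw [injective_iff_map_eq_one]
  intro x hx
  induction x using QuotientGroup.induction_on with
  | H A =>
    rw [al_mk] at hx
    exact (QuotientGroup.eq_one_iff A).2 (ker_le e A hx)

theorem exists_elt (hF : Fintype.card F = 5 ^ 2) (e : F ≃+* F25) (M : Matrix (Fin 3) (Fin 3) F25)
    (f : ℕ → ℕ) (hM : Good M f) : ∃ g : Cfsg.PSU 3 F 5, Tab (al hF e) g f := by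
  obtain ⟨hdet, huni, hact⟩ := hM
  have hd : (M.map e.symm).det = 1 := by
    have := (RingHom.map_det (e.symm : F25 →+* F) M).symm
    rw [hdet, map_one] at this
    exact this
  have hU : Cfsg.Agent.Lib.Helper7GU.IsU 3 F 5 (M.map e.symm) := by
    show (M.map e.symm).transpose * (M.map e.symm).map (fun x => x ^ 5) = 1
    have h1 : (M.map e.symm).map (fun x => x ^ 5) = (M.map (fun x => x ^ 5)).map e.symm := by
      ext i j
      simp
    have h2 : (M.map e.symm).transpose = (M.transpose).map e.symm := by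
      ext i j
      simp
    rw [h1, h2, ← Matrix.map_mul, huni]
    exact Matrix.map_one e.symm (map_zero e.symm) (map_one e.symm)
  let A : ↥(Cfsg.SU 3 F 5) := ⟨⟨M.map e.symm, hd⟩, (Cfsg.Agent.Lib.Helper7SU.mem_SU_iff hF _).mpr hU⟩
  refine ⟨QuotientGroup.mk A, ?_⟩
  intro j
  rw [al_mk, PL.toPerm_apply]
  have : fm e A = M := by
    show (M.map e.symm).map e = M
    ext i j
    simp
  rw [this]
  exact hact j

end general

theorem bridge {F : Type*} [Field F] [Fintype F] (hF : Fintype.card F = 25) :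
    Nonempty (Mdl (Cfsg.PSU 3 F 5)) := by
  have hF' : Fintype.card F = 5 ^ 2 := by rw [hF]; norm_num
  have e : F ≃+* F25 := equivF25 hF
  obtain ⟨a, ha⟩ := exists_elt hF' e Ma fa good_a
  obtain ⟨b, hb⟩ := exists_elt hF' e Mb fb good_b
  obtain ⟨z, hz⟩ := exists_elt hF' e Mz fz good_z
  obtain ⟨c, hc⟩ := exists_elt hF' e Mc fc good_c
  obtain ⟨w, hw⟩ := exists_elt hF' e Mw fw good_w
  obtain ⟨h1, hh1⟩ := exists_elt hF' e Mh1 fh1 good_h1
  obtain ⟨h2, hh2⟩ := exists_elt hF' e Mh2 fh2 good_h2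
  exact ⟨{ ρ := al hF' e, inj := al_injective hF' e, a := a, b := b, z := z, c := c, w := w, h1 := h1,
           h2 := h2, ha := ha, hb := hb, hz := hz, hc := hc, hw := hw, hh1 := hh1, hh2 := hh2 }⟩

end Cfsg.Agent.Lib.H10U35Hom
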