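import Mathlib

set_option autoImplicit false

/-! PROJECT 2149 (row S2149, 10u), piece `Moves` (PURE MATHLIB): a non-trivial element of a simple group moves some coset of a proper subgroup. -/

namespace Cfsg.Agent.Lib.H10U35Moves

theorem moves {G : Type*} [Group G] [IsSimpleGroup G] (H : Subgroup G) (hH : H ≠ ⊤) (z : G) (hz : z ≠ 1) :
    ∃ ω : G ⧸ H, z • ω ≠ ω := by
  by_contra hcon
  push Not at hcon
  have hzc : z ∈ H.normalCore := by
    rw [Subgroup.normalCore_eq_ker, MonoidHom.mem_ker]
    ext ω
    simpa using hcon ω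
  rcases (Subgroup.normalCore_normal H).eq_bot_or_eq_top with h | h
  · rw [h, Subgroup.mem_bot] at hzc
    exact hz hzc
  · exact hH (top_le_iff.mp (h ▸ Subgroup.normalCore_le H))

end Cfsg.Agent.Lib.H10U35Moves
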