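import Cfsg.Agent.Lib.H10U35N25A

set_option autoImplicit false

/-! PROJECT 2149 (row S2149, 10u), piece `N25B`: no group of order 5040 has a self-centralising subgroup of order 5. -/

namespace Cfsg.Agent.Lib.H10U35N25B

theorem n25 {K : Type*} [Group K] [Finite K] (hK : Nat.card K = 5040) (R : Subgroup K)
    (hR : Nat.card R = 5) (hC : ∀ r ∈ R, r ≠ 1 → ∀ g : K, g * r = r * g → g ∈ R) : False := by
  have : Fact (Nat.Prime 5) := ⟨by norm_num⟩
  have hfac : (5040 : ℕ).factorization 5 = 1 := by
    have h1 : (5040 : ℕ) = 5 ^ 1 * 1008 := by norm_num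
    rw [h1, Nat.factorization_mul (by norm_num) (by norm_num), Finsupp.add_apply,
      Nat.Prime.factorization_pow (by norm_num), Finsupp.single_eq_same,
      Nat.factorization_eq_zero_of_not_dvd (by norm_num)]
  let P : Sylow 5 K := Sylow.ofCard R (by rw [hR, hK, hfac, pow_one])
  have hP : (P : Subgroup K) = R := rfl
  have h1 := card_sylow_modEq_one 5 K
  have h2 : Nat.card (Sylow 5 K) = (Subgroup.normalizer (R : Set K)).index :=
    Sylow.card_eq_index_normalizer P
  have h3 := Subgroup.index_mul_card (Subgroup.normalizer (R : Set K))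
  have h4 := Cfsg.Agent.Lib.H10U35N25A.n25A R hR hC
  have h5 : Nat.card R ∣ Nat.card (Subgroup.normalizer (R : Set K)) :=
    Subgroup.card_dvd_of_le Subgroup.le_normalizer
  rw [hR] at h5
  rw [hK, ← h2] at h3
  generalize Nat.card (Subgroup.normalizer (R : Set K)) = N at *
  generalize Nat.card (Sylow 5 K) = s at *
  have hN : N ∈ Nat.divisors 20 := Nat.mem_divisors.2 ⟨h4, by norm_num⟩
  have hdiv : Nat.divisors 20 = {1, 2, 4, 5, 10, 20} := by decide
  rw [hdiv] at hN
  simp only [Finset.mem_insert, Finset.mem_singleton] at hN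
  unfold Nat.ModEq at h1
  rcases hN with rfl | rfl | rfl | rfl | rfl | rfl <;> omega

end Cfsg.Agent.Lib.H10U35N25B
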