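import Cfsg.Agent.Lib.Helper10U35Defs

set_option autoImplicit false

/-! PROJECT 2149 (row S2149, 10u), piece `NZ`: the stabiliser of the point 3 normalises `⟨z⟩`, hence preserves the support of `z` in every action.
* `nz`: `g = a^i b^j z^k c^l`. By induction on `l`: `c^l * z = z^(2^l) * c^l` (from `D.cz`; `c * z^m = z^(2m) * c`). `a, b, z` commute with every
  power of `z` (`D.za`, `D.zb`; `Commute.pow_left/right`). So `g * z * g⁻¹ = z^(2^l) = z^(2^l % 5)` (`pow_eq_pow_mod` with `D.z5`) and `2^l % 5 ≠ 0`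
  (`l < 8`: `interval_cases l`).
* `sinv`: apply `nz` to `g⁻¹` (it also fixes 3): `g⁻¹ * z * g = z^k`, `0 < k < 5`. `z • g • ω = g • ω ↔ (g⁻¹ * z * g) • ω = ω ↔ z^k • ω = ω ↔ z • ω = ω`;
  last step: `→` because `z = (z^k)^m` with `k * m % 5 = 1` (`interval_cases k`, `m = 1, 3, 2, 4`), `←` by induction (`smul_pow`-like: stabiliser is a subgroup:
  use `MulAction.mem_stabilizer_iff` and `Subgroup.pow_mem`). -/

namespace Cfsg.Agent.Lib.H10U35NZ

open Cfsg.Agent.Lib.Helper10U35Defs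

variable {G : Type*} [Group G] (D : Dat G)

theorem c_zpow (m : ℕ) : D.c * D.z ^ m = D.z ^ (2 * m) * D.c := by
  induction m with
  | zero => simp
  | succ m ih =>
    rw [pow_succ, ← mul_assoc, ih, mul_assoc, D.cz, ← mul_assoc, ← pow_add]
    congr 2

theorem cpow_z (l : ℕ) : D.c ^ l * D.z = D.z ^ (2 ^ l) * D.c ^ l := by
  induction l with
  | zero => simp
  | succ l ih =>
    rw [pow_succ', mul_assoc, ih, ← mul_assoc, c_zpow, mul_assoc, pow_succ' 2 l]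

theorem nz (hst : ∀ g : G, D.ρ g 3 = 3 → ∃ i < 5, ∃ j < 5, ∃ k < 5, ∃ l < 8,
      g = D.a ^ i * D.b ^ j * D.z ^ k * D.c ^ l) :
    ∀ g : G, D.ρ g 3 = 3 → ∃ k, 0 < k ∧ k < 5 ∧ g * D.z * g⁻¹ = D.z ^ k := by
  intro g hg
  obtain ⟨i, -, j, -, k, -, l, hl, rfl⟩ := hst g hg
  refine ⟨2 ^ l % 5, ?_, Nat.mod_lt _ (by norm_num), ?_⟩
  · interval_cases l <;> norm_num
  · have hmod : D.z ^ (2 ^ l % 5) = D.z ^ (2 ^ l) := by
      conv_rhs => rw [← Nat.div_add_mod (2 ^ l) 5, pow_add, pow_mul, D.z5, one_pow, one_mul]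
    rw [hmod, mul_inv_eq_iff_eq_mul]
    have h1 : Commute D.a (D.z ^ (2 ^ l)) := (Commute.pow_right (show Commute D.a D.z from D.za.symm) _)
    have h2 : Commute D.b (D.z ^ (2 ^ l)) := (Commute.pow_right (show Commute D.b D.z from D.zb.symm) _)
    have h3 : Commute (D.z ^ k) (D.z ^ (2 ^ l)) := (Commute.refl D.z).pow_pow _ _
    have h4 : Commute (D.a ^ i * D.b ^ j * D.z ^ k) (D.z ^ (2 ^ l)) :=
      ((h1.pow_left i).mul_left (h2.pow_left j)).mul_left h3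
    rw [mul_assoc, cpow_z, ← mul_assoc, h4.eq, mul_assoc]

theorem sinv (hst : ∀ g : G, D.ρ g 3 = 3 → ∃ i < 5, ∃ j < 5, ∃ k < 5, ∃ l < 8,
      g = D.a ^ i * D.b ^ j * D.z ^ k * D.c ^ l) {Ω : Type*} [MulAction G Ω] :
    ∀ g : G, D.ρ g 3 = 3 → ∀ ω : Ω, g • ω ∈ {ω : Ω | D.z • ω ≠ ω} ↔ ω ∈ {ω : Ω | D.z • ω ≠ ω} := by
  intro g hg ω
  have hg' : D.ρ g⁻¹ 3 = 3 := by
    rw [map_inv, Equiv.Perm.inv_eq_iff_eq, hg]
  obtain ⟨k, hk0, hk5, hk⟩ := nz D hst g⁻¹ hg'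
  rw [inv_inv] at hk
  change ¬ (D.z • g • ω = g • ω) ↔ ¬ (D.z • ω = ω)
  rw [not_iff_not]
  have e1 : D.z • g • ω = g • ω ↔ D.z ^ k • ω = ω := by
    rw [← hk, mul_smul, mul_smul, inv_smul_eq_iff]
  rw [e1]
  constructor
  · intro h
    have hmem : D.z ^ k ∈ MulAction.stabilizer G ω := h
    obtain ⟨m, hm⟩ : ∃ m, k * m % 5 = 1 := by
      interval_cases k
      · exact ⟨1, rfl⟩
      · exact ⟨3, rfl⟩
      · exact ⟨2, rfl⟩
      · exact ⟨4, rfl⟩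
    have h2 : (D.z ^ k) ^ m = D.z := by
      rw [← pow_mul, ← Nat.div_add_mod (k * m) 5, hm, pow_add, pow_mul, D.z5, one_pow, one_mul, pow_one]
    have := Subgroup.pow_mem _ hmem m
    rw [h2] at this
    exact this
  · intro h
    have hmem : D.z ∈ MulAction.stabilizer G ω := h
    exact Subgroup.pow_mem _ hmem k

end Cfsg.Agent.Lib.H10U35NZ
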