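import Cfsg.Agent.Lib.Helper10U35Defs
import Cfsg.Agent.Lib.H10U35PForm

set_option autoImplicit false

/-! PROJECT 2149 (row S2149, 10u), piece `PCard`: `P = ⟨a, b⟩` has order 125, contains `z`, and `z` is central in it.
* `z_mem`: `z = a * b * a⁻¹ * b⁻¹` from `D.ab`.
* `z_central`: `Subgroup.closure_le` into `Subgroup.centralizer {z}` (`D.za`, `D.zb`).
* `pcard`: the map `Fin 5 × Fin 5 × Fin 5 → P`, `(i,j,k) ↦ a^i b^j z^k` is surjective by `H10U35PForm.pform` and injective by `D.reg`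
  (equal elements have equal images of the point 4); `Nat.card_congr (Equiv.ofBijective ..)`, `Nat.card_eq_fintype_card`, `simp`. -/

namespace Cfsg.Agent.Lib.H10U35PCard

open Cfsg.Agent.Lib.Helper10U35Defs

variable {G : Type*} [Group G] (D : Dat G)

theorem z_mem : D.z ∈ Subgroup.closure ({D.a, D.b} : Set G) := by
  have ha : D.a ∈ Subgroup.closure ({D.a, D.b} : Set G) := Subgroup.subset_closure (by simp)
  have hb : D.b ∈ Subgroup.closure ({D.a, D.b} : Set G) := Subgroup.subset_closure (by simp)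
  have e : D.z = D.a * D.b * D.a⁻¹ * D.b⁻¹ := by
    rw [D.ab]
    group
  rw [e]
  exact mul_mem (mul_mem (mul_mem ha hb) (inv_mem ha)) (inv_mem hb)

theorem z_central : ∀ p ∈ Subgroup.closure ({D.a, D.b} : Set G), p * D.z = D.z * p := by
  have h : Subgroup.closure ({D.a, D.b} : Set G) ≤ Subgroup.centralizer {D.z} := by
    rw [Subgroup.closure_le]
    intro x hx
    rw [SetLike.mem_coe, Subgroup.mem_centralizer_singleton_iff]
    rcases hx with rfl | rfl
    · exact D.za.symm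
    · exact D.zb.symm
  intro p hp
  have := h hp
  rw [Subgroup.mem_centralizer_singleton_iff] at this
  exact this

theorem pcard : Nat.card (Subgroup.closure ({D.a, D.b} : Set G)) = 125 := by
  have ha : D.a ∈ Subgroup.closure ({D.a, D.b} : Set G) := Subgroup.subset_closure (by simp)
  have hb : D.b ∈ Subgroup.closure ({D.a, D.b} : Set G) := Subgroup.subset_closure (by simp)
  have hz := z_mem D
  let f : Fin 5 × Fin 5 × Fin 5 → Subgroup.closure ({D.a, D.b} : Set G) := fun t =>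
    ⟨D.a ^ (t.1 : ℕ) * D.b ^ (t.2.1 : ℕ) * D.z ^ (t.2.2 : ℕ),
      mul_mem (mul_mem (pow_mem ha _) (pow_mem hb _)) (pow_mem hz _)⟩
  have hbij : Function.Bijective f := by
    constructor
    · rintro ⟨i, j, k⟩ ⟨i', j', k'⟩ h
      have h' : D.a ^ (i : ℕ) * D.b ^ (j : ℕ) * D.z ^ (k : ℕ)
          = D.a ^ (i' : ℕ) * D.b ^ (j' : ℕ) * D.z ^ (k' : ℕ) := congrArg Subtype.val h
      obtain ⟨h1, h2, h3⟩ := D.reg i i.2 j j.2 k k.2 i' i'.2 j' j'.2 k' k'.2 (by rw [h'])
      rw [Prod.mk.injEq, Prod.mk.injEq]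
      exact ⟨Fin.ext h1, Fin.ext h2, Fin.ext h3⟩
    · rintro ⟨g, hg⟩
      obtain ⟨i, hi, j, hj, k, hk, rfl⟩ :=
        Cfsg.Agent.Lib.H10U35PForm.pform D.a D.b D.z D.ab D.za D.zb D.a5 D.b5 D.z5 g hg
      exact ⟨(⟨i, hi⟩, ⟨j, hj⟩, ⟨k, hk⟩), rfl⟩
  rw [← Nat.card_congr (Equiv.ofBijective f hbij), Nat.card_eq_fintype_card]
  simp

end Cfsg.Agent.Lib.H10U35PCard
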