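import Mathlib

set_option autoImplicit false

/-! PROJECT 2149 (row S2149, 10u), piece `RCard` (PURE MATHLIB): if `P` (order 125) is transitive on the 25 cosets of `H`, then `P ∩ H` has order 5. -/

namespace Cfsg.Agent.Lib.H10U35RCard

theorem rcard {G : Type*} [Group G] [Finite G] (H P : Subgroup G) (hP : Nat.card P = 125)
    (hidx : H.index = 25) (htr : ∀ ω : G ⧸ H, ∃ p ∈ P, p • ((1 : G) : G ⧸ H) = ω) :
    Nat.card (P.subgroupOf H) = 5 := by
  have hst : MulAction.stabilizer P ((1 : G) : G ⧸ H) = H.subgroupOf P := by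
    ext p
    rw [MulAction.mem_stabilizer_iff, Subgroup.mem_subgroupOf]
    show ((p : G) • ((1:G) : G ⧸ H)) = ((1:G) : G ⧸ H) ↔ _
    rw [MulAction.Quotient.smul_coe, smul_eq_mul, mul_one, eq_comm, QuotientGroup.eq]
    simp
  have horb : MulAction.orbit P ((1 : G) : G ⧸ H) = Set.univ := by
    ext ω
    simp only [Set.mem_univ, iff_true]
    obtain ⟨p, hp, h⟩ := htr ω
    exact ⟨⟨p, hp⟩, h⟩
  have h1 : (H.subgroupOf P).index = 25 := by
    rw [← hst, MulAction.index_stabilizer, horb, Set.ncard_univ]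
    exact hidx
  have h2 := (H.subgroupOf P).index_mul_card
  rw [h1, hP] at h2
  have h3 : Nat.card (H.subgroupOf P) = 5 := by omega
  have h4 : Nat.card (H.subgroupOf P) = Nat.card (H ⊓ P : Subgroup G) := by
    rw [← Subgroup.inf_subgroupOf_right H P]
    exact Nat.card_congr (Subgroup.subgroupOfEquivOfLe (inf_le_right : H ⊓ P ≤ P)).toEquiv
  have h5 : Nat.card (P.subgroupOf H) = Nat.card (H ⊓ P : Subgroup G) := by
    rw [← Subgroup.inf_subgroupOf_left P H]
    exact Nat.card_congr (Subgroup.subgroupOfEquivOfLe (inf_le_left : H ⊓ P ≤ H)).toEquiv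
  rw [h5, ← h4, h3]

end Cfsg.Agent.Lib.H10U35RCard
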