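import Mathlib

set_option autoImplicit false

/-! PROJECT 2149 (row S2149, 10u), piece `StabOrb` (PURE MATHLIB): if `|G| = |A| * |B|`, and we know `|A|` different elements of the stabiliser of `x0`
and `|B|` different points of the orbit of `x0`, then we know all of them. -/

namespace Cfsg.Agent.Lib.H10U35StabOrb

theorem stab_orb {G Y A B : Type*} [Group G] [Finite G] [MulAction G Y] [Fintype A] [Fintype B]
    (x0 : Y) (hc : Nat.card G = Fintype.card A * Fintype.card B)
    (e : A → G) (he : Function.Injective e) (hfix : ∀ t, e t • x0 = x0)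
    (o : B → Y) (ho : Function.Injective o) (hor : ∀ s, ∃ g : G, g • x0 = o s) :
    (∀ g : G, g • x0 = x0 → ∃ t, g = e t) ∧ (∀ g : G, ∃ s, g • x0 = o s) ∧
      Nat.card (MulAction.orbit G x0) = Fintype.card B := by
  classical
  haveI hfo : Finite (MulAction.orbit G x0) :=
    Finite.of_equiv _ (MulAction.orbitEquivQuotientStabilizer G x0).symm
  have hos : Nat.card (MulAction.orbit G x0) * Nat.card (MulAction.stabilizer G x0) = Nat.card G := by
    rw [Nat.card_congr (MulAction.orbitEquivQuotientStabilizer G x0), mul_comm]
    exact Subgroup.card_mul_index _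
  let e' : A → MulAction.stabilizer G x0 := fun t => ⟨e t, hfix t⟩
  have he' : Function.Injective e' := fun a b h => he (congrArg Subtype.val h)
  let o' : B → MulAction.orbit G x0 := fun s => ⟨o s, by
    obtain ⟨g, hg⟩ := hor s
    exact ⟨g, hg⟩⟩
  have ho' : Function.Injective o' := fun a b h => ho (congrArg Subtype.val h)
  have hA : Fintype.card A ≤ Nat.card (MulAction.stabilizer G x0) := by
    rw [← Nat.card_eq_fintype_card]
    exact Nat.card_le_card_of_injective e' he'
  have hB : Fintype.card B ≤ Nat.card (MulAction.orbit G x0) := by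
    rw [← Nat.card_eq_fintype_card]
    exact Nat.card_le_card_of_injective o' ho'
  have hGpos : 0 < Nat.card G := Nat.card_pos
  have hApos : 0 < Fintype.card A := by
    rcases Nat.eq_zero_or_pos (Fintype.card A) with h | h
    · rw [hc, h] at hGpos; simp at hGpos
    · exact h
  have hBpos : 0 < Fintype.card B := by
    rcases Nat.eq_zero_or_pos (Fintype.card B) with h | h
    · rw [hc, h] at hGpos; simp at hGpos
    · exact h
  have hBeq : Nat.card (MulAction.orbit G x0) = Fintype.card B := by
    by_contra hne
    have hlt : Fintype.card B < Nat.card (MulAction.orbit G x0) := lt_of_le_of_ne hB (Ne.symm hne)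
    have : Fintype.card B * Fintype.card A
        < Nat.card (MulAction.orbit G x0) * Nat.card (MulAction.stabilizer G x0) :=
      calc Fintype.card B * Fintype.card A < Nat.card (MulAction.orbit G x0) * Fintype.card A :=
            Nat.mul_lt_mul_of_pos_right hlt hApos
        _ ≤ _ := Nat.mul_le_mul_left _ hA
    rw [hos, hc, mul_comm] at this
    exact lt_irrefl _ this
  have hAeq : Nat.card (MulAction.stabilizer G x0) = Fintype.card A := by
    rw [hBeq, hc, mul_comm] at hos
    exact Nat.eq_of_mul_eq_mul_right hBpos hos
  have hes : Function.Surjective e' := by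
    have : Function.Bijective e' :=
      he'.bijective_of_nat_card_le (by rw [hAeq, Nat.card_eq_fintype_card])
    exact this.2
  have hos' : Function.Surjective o' := by
    have : Function.Bijective o' :=
      ho'.bijective_of_nat_card_le (by rw [hBeq, Nat.card_eq_fintype_card])
    exact this.2
  refine ⟨fun g hg => ?_, fun g => ?_, hBeq⟩
  · obtain ⟨t, ht⟩ := hes ⟨g, hg⟩
    exact ⟨t, (congrArg Subtype.val ht).symm⟩
  · obtain ⟨s, hs⟩ := hos' ⟨g • x0, ⟨g, rfl⟩⟩
    exact ⟨s, (congrArg Subtype.val hs).symm⟩

end Cfsg.Agent.Lib.H10U35StabOrb
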