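import Cfsg.Agent.Lib.Helper10U35Defs
import Cfsg.Agent.Lib.H10U35StabOrb

set_option autoImplicit false

/-! PROJECT 2149 (row S2149, 10u), piece `St`: the stabiliser of the point 3 is `{a^i b^j z^k c^l}` (1000 elements) and its orbit is
`{3} ∪ {a^i b^j z^k • 4}` (126 points). -/

namespace Cfsg.Agent.Lib.H10U35St

open Cfsg.Agent.Lib.Helper10U35Defs

theorem st {G : Type*} [Group G] [Finite G] (D : Dat G) (hc : Nat.card G = 126000)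
    [MulAction G (Fin 651)] (hact : ∀ (g : G) (x : Fin 651), g • x = D.ρ g x) :
    (∀ g : G, D.ρ g 3 = 3 → ∃ i < 5, ∃ j < 5, ∃ k < 5, ∃ l < 8,
      g = D.a ^ i * D.b ^ j * D.z ^ k * D.c ^ l) ∧
    (∀ g : G, D.ρ g 3 = 3 ∨ ∃ i < 5, ∃ j < 5, ∃ k < 5,
      D.ρ g 3 = D.ρ (D.a ^ i * D.b ^ j * D.z ^ k) 4) ∧
    Nat.card (MulAction.orbit G (3 : Fin 651)) = 126 := by
  classical
  have hstab : ∀ (x : Fin 651) (g : G), D.ρ g x = x ↔ g ∈ MulAction.stabilizer G x := by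
    intro x g
    rw [MulAction.mem_stabilizer_iff, hact]
  have hP3 : ∀ i j k : ℕ, D.ρ (D.a ^ i * D.b ^ j * D.z ^ k) 3 = 3 := by
    intro i j k
    rw [hstab]
    exact mul_mem (mul_mem (pow_mem ((hstab 3 _).1 D.ax) i) (pow_mem ((hstab 3 _).1 D.bx) j))
      (pow_mem ((hstab 3 _).1 D.zx) k)
  have hc3 : ∀ l : ℕ, D.ρ (D.c ^ l) 3 = 3 := by
    intro l
    rw [hstab]
    exact pow_mem ((hstab 3 _).1 D.cx) l
  have hc4 : ∀ l : ℕ, D.ρ (D.c ^ l) 4 = 4 := by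
    intro l
    rw [hstab]
    exact pow_mem ((hstab 4 _).1 D.cy) l
  have hPc : ∀ (g : G) (l : ℕ), D.ρ (g * D.c ^ l) 4 = D.ρ g 4 := by
    intro g l
    rw [map_mul, Equiv.Perm.mul_apply, hc4]
  let e : Fin 5 × Fin 5 × Fin 5 × Fin 8 → G := fun t =>
    D.a ^ (t.1 : ℕ) * D.b ^ (t.2.1 : ℕ) * D.z ^ (t.2.2.1 : ℕ) * D.c ^ (t.2.2.2 : ℕ)
  let o : Option (Fin 5 × Fin 5 × Fin 5) → Fin 651 := fun s =>
    match s with
    | none => 3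
    | some t => D.ρ (D.a ^ (t.1 : ℕ) * D.b ^ (t.2.1 : ℕ) * D.z ^ (t.2.2 : ℕ)) 4
  have he : Function.Injective e := by
    rintro ⟨i, j, k, l⟩ ⟨i', j', k', l'⟩ h
    have h' : D.a ^ (i : ℕ) * D.b ^ (j : ℕ) * D.z ^ (k : ℕ) * D.c ^ (l : ℕ) =
        D.a ^ (i' : ℕ) * D.b ^ (j' : ℕ) * D.z ^ (k' : ℕ) * D.c ^ (l' : ℕ) := h
    have h4 : D.ρ (D.a ^ (i : ℕ) * D.b ^ (j : ℕ) * D.z ^ (k : ℕ)) 4 =
        D.ρ (D.a ^ (i' : ℕ) * D.b ^ (j' : ℕ) * D.z ^ (k' : ℕ)) 4 := by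
      rw [← hPc _ l, h', hPc]
    obtain ⟨e1, e2, e3⟩ := D.reg i i.2 j j.2 k k.2 i' i'.2 j' j'.2 k' k'.2 h4
    have e1' : i = i' := Fin.ext e1
    have e2' : j = j' := Fin.ext e2
    have e3' : k = k' := Fin.ext e3
    subst e1' e2' e3'
    have h5 := mul_left_cancel h'
    have e4 : l = l' := Fin.ext (D.c8 l l.2 l' l'.2 h5)
    rw [e4]
  have h34 : ∀ i j k : ℕ, D.ρ (D.a ^ i * D.b ^ j * D.z ^ k) 4 ≠ 3 := by
    intro i j k h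
    have h1 := h.trans (hP3 i j k).symm
    have h2 := (D.ρ (D.a ^ i * D.b ^ j * D.z ^ k)).injective h1
    exact absurd h2 (by decide)
  have ho : Function.Injective o := by
    rintro (_ | ⟨i, j, k⟩) (_ | ⟨i', j', k'⟩) h
    · rfl
    · exact absurd h.symm (h34 _ _ _)
    · exact absurd h (h34 _ _ _)
    · obtain ⟨e1, e2, e3⟩ := D.reg i i.2 j j.2 k k.2 i' i'.2 j' j'.2 k' k'.2 h
      rw [Fin.ext e1, Fin.ext e2, Fin.ext e3]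
  have hfix : ∀ t, e t • (3 : Fin 651) = 3 := by
    intro t
    rw [hact]
    show D.ρ (D.a ^ (t.1 : ℕ) * D.b ^ (t.2.1 : ℕ) * D.z ^ (t.2.2.1 : ℕ) * D.c ^ (t.2.2.2 : ℕ)) 3 = 3
    rw [map_mul, Equiv.Perm.mul_apply, hc3, hP3]
  have hor : ∀ s, ∃ g : G, g • (3 : Fin 651) = o s := by
    rintro (_ | ⟨i, j, k⟩)
    · exact ⟨1, one_smul _ _⟩
    · refine ⟨D.a ^ (i : ℕ) * D.b ^ (j : ℕ) * D.z ^ (k : ℕ) * D.w, ?_⟩
      rw [hact, map_mul, Equiv.Perm.mul_apply, D.wx]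
  have hcard : Nat.card G = Fintype.card (Fin 5 × Fin 5 × Fin 5 × Fin 8) *
      Fintype.card (Option (Fin 5 × Fin 5 × Fin 5)) := by
    rw [hc]
    simp [Fintype.card_prod, Fintype.card_option]
  obtain ⟨r1, r2, r3⟩ := H10U35StabOrb.stab_orb (3 : Fin 651) hcard e he hfix o ho hor
  refine ⟨?_, ?_, ?_⟩
  · intro g hg
    obtain ⟨⟨i, j, k, l⟩, ht⟩ := r1 g (by rw [hact]; exact hg)
    exact ⟨i, i.2, j, j.2, k, k.2, l, l.2, ht⟩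
  · intro g
    obtain ⟨s, hs⟩ := r2 g
    rw [hact] at hs
    rcases s with _ | t
    · left; exact hs
    · right; exact ⟨t.1, t.1.2, t.2.1, t.2.1.2, t.2.2, t.2.2.2, hs⟩
  · rw [r3]
    simp [Fintype.card_prod, Fintype.card_option]

end Cfsg.Agent.Lib.H10U35St
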