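import Cfsg.Agent.Lib.H10U35SuppA

set_option autoImplicit false

/-! PROJECT 2149 (row S2149, 10u), piece `SuppB`: on fewer than 50 points the support of `z` is exactly one `P`-orbit, of length 25. -/

namespace Cfsg.Agent.Lib.H10U35SuppB

theorem supp {G Ω : Type*} [Group G] [MulAction G Ω] [Finite Ω] (P : Subgroup G)
    (hP : Nat.card P = 125) (a b z : G) (ha : a ∈ P) (hb : b ∈ P) (hab : a * b = z * b * a)
    (hzc : ∀ p ∈ P, p * z = z * p) (hΩ : Nat.card Ω < 50) (ω0 : Ω) (h0 : z • ω0 ≠ ω0) :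
    Nat.card {ω : Ω | z • ω ≠ ω} = 25 ∧ ∀ ω : Ω, z • ω ≠ ω → ∃ p ∈ P, p • ω0 = ω := by
  set O := MulAction.orbit P ω0 with hO
  have hdvd : 25 ∣ Nat.card O := H10U35SuppA.suppA P hP a b z ha hb hab ω0 h0
  have hpos : 0 < Nat.card O := by
    have : Nonempty O := ⟨⟨ω0, MulAction.mem_orbit_self ω0⟩⟩
    exact Nat.card_pos
  have hle : Nat.card O ≤ Nat.card Ω := Nat.card_le_card_of_injective Subtype.val Subtype.val_injective
  have hO25 : Nat.card O = 25 := by
    obtain ⟨k, hk⟩ := hdvd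
    omega
  have hmoved : ∀ ω ∈ O, z • ω ≠ ω := by
    rintro _ ⟨p, rfl⟩ he
    apply h0
    have h1 : z • (p : G) • ω0 = (p : G) • z • ω0 := by
      rw [smul_smul, smul_smul, hzc p p.2]
    have h2 : z • (p : G) • ω0 = (p : G) • ω0 := he
    rw [h1] at h2
    exact smul_left_cancel _ h2
  have hin : ∀ ω : Ω, z • ω ≠ ω → ω ∈ O := by
    intro ω hω
    by_contra hn
    set O' := MulAction.orbit P ω with hO'
    have hdvd' : 25 ∣ Nat.card O' := H10U35SuppA.suppA P hP a b z ha hb hab ω hω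
    have hpos' : 0 < Nat.card O' := by
      have : Nonempty O' := ⟨⟨ω, MulAction.mem_orbit_self ω⟩⟩
      exact Nat.card_pos
    have h25 : 25 ≤ Nat.card O' := Nat.le_of_dvd hpos' hdvd'
    have hdisj : Disjoint O O' := by
      rw [Set.disjoint_left]
      intro x hx hx'
      apply hn
      have e1 : MulAction.orbit P x = O := MulAction.orbit_eq_iff.mpr hx
      have e2 : MulAction.orbit P x = O' := MulAction.orbit_eq_iff.mpr hx'
      rw [← e1, e2]
      exact MulAction.mem_orbit_self ω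
    have hun : (O ∪ O').ncard = O.ncard + O'.ncard :=
      Set.ncard_union_eq hdisj (Set.toFinite _) (Set.toFinite _)
    have hle2 : (O ∪ O').ncard ≤ Nat.card Ω := by
      rw [← Set.ncard_univ]
      exact Set.ncard_le_ncard (Set.subset_univ _) (Set.toFinite _)
    rw [← Nat.card_coe_set_eq O, ← Nat.card_coe_set_eq O'] at hun
    omega
  have heq : {ω : Ω | z • ω ≠ ω} = O := by
    ext ω
    exact ⟨hin ω, hmoved ω⟩
  refine ⟨by rw [heq]; exact hO25, fun ω hω => ?_⟩
  obtain ⟨p, hp⟩ := hin ω hω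
  exact ⟨p, p.2, hp⟩

end Cfsg.Agent.Lib.H10U35SuppB
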