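import Cfsg.Agent.Lib.H10U35DatA
import Cfsg.Agent.Lib.H10U35DatB
import Cfsg.Agent.Lib.H10U35DatC
import Cfsg.Agent.Lib.H10U35St
import Cfsg.Agent.Lib.H10U35PCard
import Cfsg.Agent.Lib.H10U35NZ
import Cfsg.Agent.Lib.H10U35Cent
import Cfsg.Agent.Lib.H10U35Count
import Cfsg.Agent.Lib.H10U35Arith
import Cfsg.Agent.Lib.H10U35Moves
import Cfsg.Agent.Lib.H10U35SuppB
import Cfsg.Agent.Lib.H10U35N25B
import Cfsg.Agent.Lib.H10U35RCard

set_option autoImplicit false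

/-! PROJECT 2149 (row S2149): assembly of the lower bound. -/

namespace Cfsg.Agent.Lib.H10U35Lower

open Cfsg.Agent.Lib.Helper10U35Defs Cfsg.Agent.Lib

/-- the abstract data of the concrete model -/
def dat {G : Type*} [Group G] (M : Mdl G) : Dat G where
  ρ := M.ρ
  a := M.a
  b := M.b
  z := M.z
  c := M.c
  w := M.w
  ab := (H10U35DatA.rel M).1
  za := (H10U35DatA.rel M).2.1
  zb := (H10U35DatA.rel M).2.2.1
  a5 := (H10U35DatA.rel M).2.2.2.1
  b5 := (H10U35DatA.rel M).2.2.2.2.1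
  z5 := (H10U35DatA.rel M).2.2.2.2.2.1
  z1 := (H10U35DatA.rel M).2.2.2.2.2.2.1
  cz := (H10U35DatA.rel M).2.2.2.2.2.2.2
  ax := (H10U35DatA.pts M).1
  bx := (H10U35DatA.pts M).2.1
  zx := (H10U35DatA.pts M).2.2.1
  cx := (H10U35DatA.pts M).2.2.2.1
  cy := (H10U35DatA.pts M).2.2.2.2.1
  wx := (H10U35DatA.pts M).2.2.2.2.2
  reg := H10U35DatB.reg M
  c8 := H10U35DatB.c8 M
  cc := H10U35DatC.cc M

theorem fix_pow {G : Type*} [Group G] (ρ : G →* Equiv.Perm (Fin 651)) (x : G) (p : Fin 651)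
    (h : ρ x p = p) (n : ℕ) : ρ (x ^ n) p = p := by
  induction n with
  | zero => simp
  | succ n ih => rw [pow_succ, map_mul, Equiv.Perm.mul_apply, h, ih]

theorem z_of_pow {G : Type*} [Group G] (z : G) (z5 : z ^ 5 = 1) (H : Subgroup G) (k : ℕ)
    (hk : z ^ k ∈ H) (hne : z ^ k ≠ 1) : z ∈ H := by
  rw [pow_eq_pow_mod k z5] at hk hne
  have hlt : k % 5 < 5 := Nat.mod_lt _ (by norm_num)
  have h6 : z ^ 6 = z := by rw [pow_succ, z5, one_mul]
  have h16 : z ^ 16 = z := by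
    rw [show 16 = 5 * 3 + 1 from rfl, pow_succ, pow_mul, z5, one_pow, one_mul]
  generalize k % 5 = m at hk hne hlt
  interval_cases m
  · simp at hne
  · simpa using hk
  · have := H.pow_mem hk 3
    rwa [← pow_mul, h6] at this
  · have := H.pow_mem hk 2
    rwa [← pow_mul, h6] at this
  · have := H.pow_mem hk 4
    rwa [← pow_mul, h16] at this

theorem lower {G : Type*} [Group G] [Finite G] [IsSimpleGroup G] (D : Dat G)
    (hc : Nat.card G = 126000) (H : Subgroup G) (hH : H ≠ ⊤) : 50 ≤ H.index := by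
  by_contra hlt
  push Not at hlt
  letI : MulAction G (Fin 651) := MulAction.compHom (Fin 651) D.ρ
  have hact : ∀ (g : G) (x : Fin 651), g • x = D.ρ g x := fun _ _ => rfl
  obtain ⟨hst, horb, hX⟩ := H10U35St.st D hc hact
  obtain ⟨P, hPdef⟩ : ∃ P, P = Subgroup.closure ({D.a, D.b} : Set G) := ⟨_, rfl⟩
  have hP : Nat.card P = 125 := by rw [hPdef]; exact H10U35PCard.pcard D
  have ha : D.a ∈ P := by rw [hPdef]; exact Subgroup.subset_closure (by simp)
  have hb : D.b ∈ P := by rw [hPdef]; exact Subgroup.subset_closure (by simp)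
  have hzc : ∀ p ∈ P, p * D.z = D.z * p := by rw [hPdef]; exact H10U35PCard.z_central D
  obtain ⟨ω0, hω0⟩ := H10U35Moves.moves H hH D.z D.z1
  have hΩ : Nat.card (G ⧸ H) < 50 := hlt
  obtain ⟨hs25, htr⟩ := H10U35SuppB.supp P hP D.a D.b D.z ha hb D.ab hzc hΩ ω0 hω0
  have h2 : ∀ g : G, g • (3 : Fin 651) ≠ 3 → ∃ h : G, h • (3 : Fin 651) = 3 ∧ h • (4 : Fin 651) = g • (3 : Fin 651) := by
    intro g hg
    rcases horb g with h | ⟨i, _, j, _, k, _, h⟩
    · exact absurd h hg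
    · refine ⟨D.a ^ i * D.b ^ j * D.z ^ k, ?_, h.symm⟩
      show D.ρ (D.a ^ i * D.b ^ j * D.z ^ k) 3 = 3
      rw [map_mul, map_mul, Equiv.Perm.mul_apply, Equiv.Perm.mul_apply, fix_pow D.ρ _ _ D.zx,
        fix_pow D.ρ _ _ D.bx, fix_pow D.ρ _ _ D.ax]
  have hΩt : ∀ ω ω' : G ⧸ H, ∃ g : G, g • ω = ω' := fun ω ω' => MulAction.exists_smul_eq G ω ω'
  obtain ⟨r, l, e1, e2⟩ := H10U35Count.count (G := G) (Y := Fin 651) (Ω := G ⧸ H) 3 4 (by decide)
    ⟨D.w, D.wx⟩ h2 hΩt {ω | D.z • ω ≠ ω} (fun g hg => H10U35NZ.sinv D hst g hg)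
  rw [hX, hs25] at e1
  rw [hX] at e2
  have hn : Nat.card (G ⧸ H) = 25 := H10U35Arith.arith _ r l hΩ e1 e2
  have hidx : H.index = 25 := hn
  -- every point is moved
  have hall : ∀ ω : G ⧸ H, D.z • ω ≠ ω := by
    have hs : ({ω | D.z • ω ≠ ω} : Set (G ⧸ H)) = Set.univ := by
      apply Set.eq_of_subset_of_ncard_le (Set.subset_univ _) _ Set.finite_univ
      rw [Set.ncard_univ, hn, ← Nat.card_coe_set_eq, hs25]
    intro ω
    have : ω ∈ ({ω | D.z • ω ≠ ω} : Set (G ⧸ H)) := hs ▸ Set.mem_univ ω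
    exact this
  have hHc : Nat.card H = 5040 := by
    have := H.index_mul_card
    rw [hidx, hc] at this
    omega
  have htr1 : ∀ ω : G ⧸ H, ∃ p ∈ P, p • ((1 : G) : G ⧸ H) = ω := by
    intro ω
    obtain ⟨p1, hp1, e1⟩ := htr _ (hall ((1 : G) : G ⧸ H))
    obtain ⟨p2, hp2, e2⟩ := htr _ (hall ω)
    refine ⟨p2 * p1⁻¹, P.mul_mem hp2 (P.inv_mem hp1), ?_⟩
    rw [← e1, smul_smul, inv_mul_cancel_right, e2]
  have hR : Nat.card (P.subgroupOf H) = 5 := H10U35RCard.rcard H P hP hidx htr1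
  have hzH : D.z ∉ H := by
    intro hz
    apply hall ((1 : G) : G ⧸ H)
    rw [MulAction.Quotient.smul_coe, smul_eq_mul, mul_one]
    exact (QuotientGroup.eq.2 (by simpa using H.inv_mem hz))
  refine H10U35N25B.n25 hHc (P.subgroupOf H) hR ?_
  intro r hr hr1 g hg
  rw [Subgroup.mem_subgroupOf] at hr ⊢
  rw [hPdef] at hr ⊢
  refine H10U35Cent.cent D hst horb (r : G) hr ?_ (g : G) ?_
  · intro k hk
    apply hzH
    apply z_of_pow D.z D.z5 H k
    · rw [← hk]; exact r.2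
    · rw [← hk]
      intro h
      exact hr1 (Subtype.ext h)
  · exact congrArg Subtype.val hg

end Cfsg.Agent.Lib.H10U35Lower
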