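import Mathlib

set_option autoImplicit false

/-! PROJECT 2149 (row S2149, 10u), piece `N25A` (PURE MATHLIB): N/C for a self-centralising subgroup of order 5. -/

namespace Cfsg.Agent.Lib.H10U35N25A

theorem n25A {K : Type*} [Group K] [Finite K] (R : Subgroup K) (hR : Nat.card R = 5)
    (hC : ∀ r ∈ R, r ≠ 1 → ∀ g : K, g * r = r * g → g ∈ R) :
    Nat.card (Subgroup.normalizer (R : Set K)) ∣ 20 := by
  have : Fact (Nat.Prime 5) := ⟨Nat.prime_five⟩
  have hcyc : IsCyclic R := isCyclic_of_prime_card hR
  set φ := R.normalizerMonoidHom with hφ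
  have hker : φ.ker = (Subgroup.centralizer (R : Set K)).subgroupOf (Subgroup.normalizer (R : Set K)) :=
    Subgroup.normalizerMonoidHom_ker R
  have hcen : Subgroup.centralizer (R : Set K) = R := by
    apply le_antisymm
    · intro g hg
      have hne : R ≠ ⊥ := by
        intro hb
        rw [hb] at hR
        simp at hR
      obtain ⟨r, hr1⟩ := (Subgroup.ne_bot_iff_exists_ne_one.mp hne)
      have hr1' : (r : K) ≠ 1 := fun e => hr1 (Subtype.ext e)
      exact hC r r.2 hr1' g ((Subgroup.mem_centralizer_iff.mp hg r r.2).symm)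
    · intro g hg
      rw [Subgroup.mem_centralizer_iff]
      intro r hr
      have := hcyc.isMulCommutative.is_comm.comm (⟨r, hr⟩ : R) ⟨g, hg⟩
      exact congrArg Subtype.val this
  have hkc : Nat.card φ.ker = 5 := by
    rw [hker, hcen, ← hR]
    exact Nat.card_congr (Subgroup.subgroupOfEquivOfLe Subgroup.le_normalizer).toEquiv
  have haut : Nat.card (MulAut R) = 4 := by
    rw [Nat.card_congr (IsCyclic.mulAutMulEquiv R).toEquiv, hR, Nat.card_eq_fintype_card,
      ZMod.card_units_eq_totient, Nat.totient_prime Nat.prime_five]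
  have hr : Nat.card φ.range ∣ 4 := by
    rw [← haut]
    exact Subgroup.card_subgroup_dvd_card _
  have hcard : Nat.card (Subgroup.normalizer (R : Set K)) = Nat.card φ.range * Nat.card φ.ker := by
    rw [Subgroup.card_eq_card_quotient_mul_card_subgroup φ.ker,
      Nat.card_congr (QuotientGroup.quotientKerEquivRange φ).toEquiv]
  rw [hcard, hkc]
  exact Nat.mul_dvd_mul hr (dvd_refl 5)

end Cfsg.Agent.Lib.H10U35N25A
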