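import Cfsg.Agent.Lib.Helper10U35Defs
import Cfsg.Agent.Lib.Helper47Idx2

set_option autoImplicit false
set_option maxRecDepth 100000
set_option maxHeartbeats 4000000

/-! PROJECT 2149 (row S2149, 10u), piece `PL`: the projective labelling of `PG(2,25)` and the seven matrices. -/

namespace Cfsg.Agent.Lib.H10U35PL

open Cfsg.Agent.Lib.Helper10U35Defs Cfsg.Agent.Lib.Helper47Idx2 Cfsg.Agent.Lib.Helper13F25

abbrev V : Type := Fin 3 → F25

def pt (j : Fin 651) : V :=
  if j.val = 0 then ![0, 0, 1]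
  else if j.val < 26 then ![0, 1, mk25 (j.val - 1)]
  else ![1, mk25 ((j.val - 26) / 25), mk25 ((j.val - 26) % 25)]

def c2 (a b : F25) : Fin 651 := ⟨(26 + 25 * a.val + b.val) % 651, Nat.mod_lt _ (by norm_num)⟩
def c1 (a : F25) : Fin 651 := ⟨(1 + a.val) % 651, Nat.mod_lt _ (by norm_num)⟩

def lab (v : V) : Fin 651 :=
  if v 0 ≠ 0 then c2 ((v 0)⁻¹ * v 1) ((v 0)⁻¹ * v 2)
  else if v 1 ≠ 0 then c1 ((v 1)⁻¹ * v 2)
  else 0

theorem pt2 : ∀ a b : F25, pt (c2 a b) = ![1, a, b] := by decide +kernel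
theorem pt1 : ∀ a : F25, pt (c1 a) = ![0, 1, a] := by decide +kernel
theorem pt0 : pt 0 = ![0, 0, 1] := by decide +kernel

theorem lab_pt : ∀ j : Fin 651, lab (pt j) = j := by decide +kernel
theorem pt_ne : ∀ j : Fin 651, pt j ≠ 0 := by decide +kernel

theorem inv_mul_cancel_scal (c x y : F25) (hc : c ≠ 0) : (c * x)⁻¹ * (c * y) = x⁻¹ * y := by
  rw [mul_inv]
  calc c⁻¹ * x⁻¹ * (c * y) = (c⁻¹ * c) * (x⁻¹ * y) := by ring
    _ = x⁻¹ * y := by rw [inv_mul_cancel₀ hc, one_mul]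

theorem pt_lab (v : V) (hv : v ≠ 0) : ∃ c : F25, c ≠ 0 ∧ pt (lab v) = c • v := by
  by_cases h0 : v 0 ≠ 0
  · refine ⟨(v 0)⁻¹, inv_ne_zero h0, ?_⟩
    rw [lab, if_pos h0, pt2]
    funext i
    fin_cases i
    · simp [inv_mul_cancel₀ h0]
    · simp
    · simp
  push Not at h0
  by_cases h1 : v 1 ≠ 0
  · refine ⟨(v 1)⁻¹, inv_ne_zero h1, ?_⟩
    rw [lab, if_neg (not_not.mpr h0), if_pos h1, pt1]
    funext i
    fin_cases i
    · simp [h0]
    · simp [inv_mul_cancel₀ h1]
    · simp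
  push Not at h1
  have h2 : v 2 ≠ 0 := by
    intro h2
    apply hv
    funext i
    fin_cases i
    · exact h0
    · exact h1
    · exact h2
  refine ⟨(v 2)⁻¹, inv_ne_zero h2, ?_⟩
  rw [lab, if_neg (not_not.mpr h0), if_neg (not_not.mpr h1), pt0]
  funext i
  fin_cases i
  · simp [h0]
  · simp [h1]
  · simp [inv_mul_cancel₀ h2]

theorem lab_smul (v : V) (c : F25) (hc : c ≠ 0) : lab (c • v) = lab v := by
  have hz : ∀ i, (c • v) i ≠ 0 ↔ v i ≠ 0 := by
    intro i
    rw [Pi.smul_apply, smul_eq_mul]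
    exact ⟨fun h h' => h (by rw [h', mul_zero]), fun h => mul_ne_zero hc h⟩
  unfold lab
  simp only [hz]
  simp only [Pi.smul_apply, smul_eq_mul, inv_mul_cancel_scal _ _ _ hc]

def PL : ProjLab F25 (Fin 3) 651 where
  pt := pt
  lab := lab
  lab_pt := lab_pt
  pt_ne := pt_ne
  pt_lab := pt_lab
  lab_smul := lab_smul

/-- a matrix is good if it has determinant one, is unitary, and induces the table `f` -/
def Good (M : Matrix (Fin 3) (Fin 3) F25) (f : ℕ → ℕ) : Prop :=
  M.det = 1 ∧ (M.transpose * M.map (fun x => x ^ 5) = 1) ∧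
    ∀ j : Fin 651, ((lab (M.mulVec (pt j)) : Fin 651) : ℕ) = f j

theorem good_of (M : Matrix (Fin 3) (Fin 3) F25) (f : ℕ → ℕ)
    (h1 : M 0 0 * M 1 1 * M 2 2 - M 0 0 * M 1 2 * M 2 1 - M 0 1 * M 1 0 * M 2 2 + M 0 1 * M 1 2 * M 2 0
      + M 0 2 * M 1 0 * M 2 1 - M 0 2 * M 1 1 * M 2 0 = 1)
    (h2 : M.transpose * M.map cj = 1)
    (h3 : ∀ j : Fin 651, ((lab (M.mulVec (pt j)) : Fin 651) : ℕ) = f j) : Good M f := by
  refine ⟨?_, ?_, h3⟩
  · rw [Matrix.det_fin_three]; exact h1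
  · have : (fun x : F25 => x ^ 5) = cj := funext pow_five
    rw [this]; exact h2

theorem good_a : Good Ma fa := good_of _ _ (by decide +kernel) (by decide +kernel) (by decide +kernel)
theorem good_b : Good Mb fb := good_of _ _ (by decide +kernel) (by decide +kernel) (by decide +kernel)
theorem good_z : Good Mz fz := good_of _ _ (by decide +kernel) (by decide +kernel) (by decide +kernel)
theorem good_c : Good Mc fc := good_of _ _ (by decide +kernel) (by decide +kernel) (by decide +kernel)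
theorem good_w : Good Mw fw := good_of _ _ (by decide +kernel) (by decide +kernel) (by decide +kernel)
theorem good_h1 : Good Mh1 fh1 := good_of _ _ (by decide +kernel) (by decide +kernel) (by decide +kernel)
theorem good_h2 : Good Mh2 fh2 := good_of _ _ (by decide +kernel) (by decide +kernel) (by decide +kernel)

end Cfsg.Agent.Lib.H10U35PL
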