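import Mathlib

set_option autoImplicit false

/-! PROJECT 2149 (row S2149, 10u), piece `SuppA` (PURE MATHLIB): a point moved by the commutator `z` of a group `P` of order 125 has a `P`-orbit of length divisible by 25. -/

namespace Cfsg.Agent.Lib.H10U35SuppA

theorem suppA {G Ω : Type*} [Group G] [MulAction G Ω] (P : Subgroup G) (hP : Nat.card P = 125)
    (a b z : G) (ha : a ∈ P) (hb : b ∈ P) (hab : a * b = z * b * a) (ω : Ω) (h : z • ω ≠ ω) :
    25 ∣ Nat.card (MulAction.orbit P ω) := by
  have : Finite P := Nat.finite_of_card_ne_zero (by rw [hP]; norm_num)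
  set S := MulAction.stabilizer P ω with hS
  have hidx : S.index = Nat.card (MulAction.orbit P ω) := by
    rw [hS, MulAction.index_stabilizer, Nat.card_coe_set_eq]
  rw [← hidx]
  have hz : z = a * b * a⁻¹ * b⁻¹ := by
    rw [hab]; group
  have hzS : (⟨a, ha⟩ * ⟨b, hb⟩ * ⟨a, ha⟩⁻¹ * ⟨b, hb⟩⁻¹ : P) ∉ S := by
    intro hmem
    apply h
    have h1 := MulAction.mem_stabilizer_iff.mp hmem
    rw [Subgroup.smul_def] at h1
    rw [hz]
    exact h1
  have hdvd : S.index ∣ 5 ^ 3 := by
    have := S.index_dvd_card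
    rw [hP] at this
    exact this
  obtain ⟨k, hk, hk2⟩ := (Nat.dvd_prime_pow Nat.prime_five).1 hdvd
  interval_cases k
  · exfalso
    apply hzS
    rw [pow_zero, Subgroup.index_eq_one] at hk2
    rw [hk2]
    exact Subgroup.mem_top _
  · exfalso
    apply hzS
    rw [pow_one] at hk2
    have hmf : (Nat.card P).minFac = 5 := by
      rw [hP]; norm_num
    have hn : S.Normal := Subgroup.normal_of_index_eq_minFac_card (by rw [hk2, hmf])
    have hc : Nat.card (P ⧸ S) = 5 := hk2
    have : Fact (Nat.Prime 5) := ⟨Nat.prime_five⟩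
    have hcyc : IsCyclic (P ⧸ S) := isCyclic_of_prime_card hc
    rw [← QuotientGroup.eq_one_iff]
    have hcomm : ∀ x y : P ⧸ S, x * y = y * x := fun x y =>
      hcyc.isMulCommutative.is_comm.comm x y
    rw [QuotientGroup.mk_mul, QuotientGroup.mk_mul, QuotientGroup.mk_mul, QuotientGroup.mk_inv,
      QuotientGroup.mk_inv, hcomm ((⟨a, ha⟩ : P) : P ⧸ S) _]
    group
  · rw [hk2]; norm_num
  · rw [hk2]; norm_num

end Cfsg.Agent.Lib.H10U35SuppA
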