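import Cfsg.Agent.Lib.H11FpDefs

/-! # Project 3357, piece AltA (45 min, PURE MATHLIB + Defs) -/

set_option autoImplicit false

namespace Cfsg.Agent.Lib.H11FpAltA

open Finset Cfsg.Agent.Lib.H11FpDefs

/-- **Linear alternative over `ℚ`.**  If there is no rational certificate, evaluation at `1` is a
rational linear combination of the functionals `ν ↦ ∑_{i < o(g)} ν (g^i h)`, `o(g)` prime. -/
theorem alt {G : Type*} [Group G] [Finite G] (h : ¬ Cert ℚ G) :
    ∃ (s : Finset (G × G)) (c : G × G → ℚ), (∀ a ∈ s, (orderOf a.1).Prime) ∧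
      ∀ ν : G → ℚ, ν 1 = ∑ a ∈ s, c a * ∑ i ∈ range (orderOf a.1), ν (a.1 ^ i * a.2) := by
  classical
  let ι := {a : G × G // (orderOf a.1).Prime}
  haveI : Fintype ι := Fintype.ofFinite ι
  let L : ι → (G → ℚ) →ₗ[ℚ] ℚ := fun a =>
    ∑ i ∈ range (orderOf a.1.1), LinearMap.proj (a.1.1 ^ i * a.1.2)
  let K : (G → ℚ) →ₗ[ℚ] ℚ := LinearMap.proj 1
  have hL : ∀ (a : ι) (ν : G → ℚ), L a ν = ∑ i ∈ range (orderOf a.1.1), ν (a.1.1 ^ i * a.1.2) := by
    intro a ν
    simp only [L, LinearMap.sum_apply, LinearMap.proj_apply]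
  have hle : ⨅ a, LinearMap.ker (L a) ≤ LinearMap.ker K := by
    intro ν hν
    rw [Submodule.mem_iInf] at hν
    rw [LinearMap.mem_ker]
    change ν 1 = 0
    by_contra hne
    apply h
    refine Cert.of_isUnit (μ := ν) ?_ 1 (isUnit_iff_ne_zero.2 hne)
    intro g x hg
    have := hν ⟨(g, x), hg⟩
    rw [LinearMap.mem_ker, hL] at this
    exact this
  have hspan := mem_span_of_iInf_ker_le_ker hle
  obtain ⟨c, hc⟩ := (Submodule.mem_span_range_iff_exists_fun ℚ).1 hspan
  refine ⟨(univ : Finset ι).map ⟨Subtype.val, Subtype.val_injective⟩,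
    fun a => if ha : (orderOf a.1).Prime then c ⟨a, ha⟩ else 0, ?_, ?_⟩
  · intro a ha
    obtain ⟨b, -, rfl⟩ := Finset.mem_map.1 ha
    exact b.2
  · intro ν
    rw [Finset.sum_map]
    have h1 : K ν = ν 1 := rfl
    rw [← h1, ← hc, LinearMap.sum_apply]
    apply Finset.sum_congr rfl
    intro a _
    simp only [LinearMap.smul_apply, smul_eq_mul, Function.Embedding.coeFn_mk, hL]
    rw [dif_pos a.2]

end Cfsg.Agent.Lib.H11FpAltA
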