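import Cfsg.Agent.Lib.H11FpDefs

/-! # Project 3357, piece AltB (75 min, PURE MATHLIB + Defs) -/

set_option autoImplicit false

namespace Cfsg.Agent.Lib.H11FpAltB

open Finset Cfsg.Agent.Lib.H11FpDefs

/-- **Clearing denominators.**  A rational relation between evaluation at `1` and the norm
functionals gives an integer `m > 0` killing `μ 1` for EVERY function `μ` with values in ANY
commutative ring satisfying `IsC`. -/
theorem clear {G : Type*} [Group G] [Finite G] (s : Finset (G × G)) (c : G × G → ℚ)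
    (hs : ∀ a ∈ s, (orderOf a.1).Prime)
    (hc : ∀ ν : G → ℚ, ν 1 = ∑ a ∈ s, c a * ∑ i ∈ range (orderOf a.1), ν (a.1 ^ i * a.2)) :
    ∃ m : ℕ, 0 < m ∧ ∀ (R : Type) [CommRing R] (μ : G → R), IsC μ → (m : R) * μ 1 = 0 := by
  classical
  haveI := Fintype.ofFinite G
  set m : ℕ := ∏ a ∈ s, (c a).den with hm
  have hmpos : 0 < m := Finset.prod_pos (fun a _ => (c a).den_pos)
  let z : G × G → ℤ := fun a => (c a).num * ∏ b ∈ s.erase a, ((c b).den : ℤ)
  have hz : ∀ a ∈ s, (m : ℚ) * c a = (z a : ℚ) := by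
    intro a ha
    have h1 : (m : ℚ) = ((c a).den : ℚ) * ∏ b ∈ s.erase a, ((c b).den : ℚ) := by
      rw [hm, ← Finset.mul_prod_erase s _ ha]
      push_cast
      rfl
    rw [h1]
    simp only [z]
    push_cast
    have h2 : ((c a).den : ℚ) * c a = (c a).num := Rat.den_mul_eq_num (c a)
    calc ((c a).den : ℚ) * (∏ b ∈ s.erase a, ((c b).den : ℚ)) * c a
        = (((c a).den : ℚ) * c a) * ∏ b ∈ s.erase a, ((c b).den : ℚ) := by ring
      _ = _ := by rw [h2]
  have rel : ∀ y : G, (if (1 : G) = y then (m : ℤ) else 0) =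
      ∑ a ∈ s, z a * ∑ i ∈ range (orderOf a.1), (if a.1 ^ i * a.2 = y then (1 : ℤ) else 0) := by
    intro y
    have h := hc (fun x => if x = y then (1 : ℚ) else 0)
    have h' : ((if (1 : G) = y then (m : ℤ) else 0 : ℤ) : ℚ) =
        ((∑ a ∈ s, z a * ∑ i ∈ range (orderOf a.1),
          (if a.1 ^ i * a.2 = y then (1 : ℤ) else 0) : ℤ) : ℚ) := by
      push_cast
      have e1 : (if (1 : G) = y then (m : ℚ) else 0) = (m : ℚ) * (if (1 : G) = y then 1 else 0) := by
        split_ifs <;> simp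
      rw [e1, h, Finset.mul_sum]
      apply Finset.sum_congr rfl
      intro a ha
      rw [← mul_assoc, hz a ha]
    exact_mod_cast h'
  refine ⟨m, hmpos, ?_⟩
  intro R _ μ hμ
  have key : (m : R) * μ 1 = ∑ y : G, ((if (1 : G) = y then (m : ℤ) else 0 : ℤ) : R) * μ y := by
    rw [Finset.sum_eq_single (1 : G)]
    · simp
    · intro b _ hb
      rw [if_neg (Ne.symm hb)]; simp
    · intro h
      exact absurd (Finset.mem_univ _) h
  rw [key]
  simp_rw [rel]
  push_cast
  simp_rw [Finset.sum_mul]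
  rw [Finset.sum_comm]
  apply Finset.sum_eq_zero
  intro a ha
  have : ∑ y : G, ((z a : R) * ∑ i ∈ range (orderOf a.1),
      (if a.1 ^ i * a.2 = y then (1 : R) else 0)) * μ y =
      (z a : R) * ∑ i ∈ range (orderOf a.1), μ (a.1 ^ i * a.2) := by
    simp_rw [mul_assoc, Finset.sum_mul]
    rw [← Finset.mul_sum, Finset.sum_comm]
    congr 1
    apply Finset.sum_congr rfl
    intro i _
    simp
  rw [this, hμ a.1 a.2 (hs a ha), mul_zero]

end Cfsg.Agent.Lib.H11FpAltB
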