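import Cfsg.Agent.Lib.H11FpDefs

/-! # Project 3357, piece CertK (45 min, PURE MATHLIB + Defs) -/

set_option autoImplicit false

namespace Cfsg.Agent.Lib.H11FpCertK

open Finset Cfsg.Agent.Lib.H11FpDefs

variable {G : Type*} [Group G]

/-- **From the lifted idempotent back to a certificate over `ℤ/p^(k+1)`.**

SKETCH.  `red f' ≠ 0` gives `x₀` with `(red G p k f').coeff x₀ ≠ 0` (`MonoidAlgebra.ext`), i.e.
`ZMod.castHom _ (ZMod p) (f'.coeff x₀) ≠ 0` (`MonoidAlgebra.coeff_mapRingHom`).  Hence `f'.coeff x₀`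
is a unit of `ZMod (p^(k+1))`: write it as `((a : ℕ) : ZMod _)` (`ZMod.natCast_zmod_val`); `map_natCast`,
`ZMod.natCast_eq_zero_iff` give `¬ p ∣ a`, so `a.Coprime (p^(k+1))`
(`(Nat.Prime.coprime_iff_not_dvd _).2`, `Nat.Coprime.symm`, `Nat.Coprime.pow_right`) and
`(ZMod.isUnit_iff_coprime a _).2`.
Let `ν x := (MonoidAlgebra.of _ G x * f').coeff x₀`.  `IsC ν`: `∑ i, ν (g^i * x)
= (Nm _ g * of x * f').coeff x₀ = 0` (unfold `Nm`; `sum_mul`, `map_mul`, coefficient of a finite sum: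
`map_sum` for the additive map `coeff`, e.g. via `MonoidAlgebra.coeff_sum`/`Finsupp.finsetSum_apply`).
`ν 1 = f'.coeff x₀` (`map_one, one_mul`) is a unit: `Cert.of_isUnit hν 1 _`. -/
theorem cert_of_idem (p k : ℕ) [Fact p.Prime] (f' : MonoidAlgebra (ZMod (p ^ (k + 1))) G)
    (hne : red G p k f' ≠ 0)
    (h : ∀ g : G, (orderOf g).Prime → ∀ r : MonoidAlgebra (ZMod (p ^ (k + 1))) G,
      Nm (ZMod (p ^ (k + 1))) g * r * f' = 0) :
    Cert (ZMod (p ^ (k + 1))) G := by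
  have hp : p.Prime := Fact.out
  have : NeZero (p ^ (k + 1)) := ⟨pow_ne_zero _ hp.ne_zero⟩
  obtain ⟨x₀, hx₀⟩ : ∃ x₀, (red G p k f').coeff x₀ ≠ 0 := by
    by_contra hcon
    push Not at hcon
    apply hne
    ext m
    simpa using hcon m
  rw [red, MonoidAlgebra.coeff_mapRingHom] at hx₀
  have hu : IsUnit (f'.coeff x₀) := by
    rw [← ZMod.natCast_zmod_val (f'.coeff x₀)] at hx₀ ⊢
    rw [map_natCast, Ne, ZMod.natCast_eq_zero_iff] at hx₀
    rw [ZMod.isUnit_iff_coprime]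
    exact ((Nat.Prime.coprime_iff_not_dvd hp).2 hx₀).symm.pow_right _
  have hν : IsC (fun x : G => (MonoidAlgebra.of (ZMod (p ^ (k + 1))) G x * f').coeff x₀) := by
    intro g x hg
    have h1 := h g hg (MonoidAlgebra.of _ G x)
    have h2 := congrArg (fun z => MonoidAlgebra.coeff z x₀) h1
    simp only [Nm, Finset.sum_mul, MonoidAlgebra.coeff_sum, Finsupp.finsetSum_apply, ← map_mul] at h2
    simpa using h2
  exact Cert.of_isUnit hν 1 (by simpa using hu)

end Cfsg.Agent.Lib.H11FpCertK
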