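import Cfsg.Agent.Lib.H11FpDefs
import Cfsg.Agent.Lib.Helper71ZaDefs

/-! # Project 3357, piece Char (40 min, PURE MATHLIB + the 3-line definition `Fpf`) -/

set_option autoImplicit false

namespace Cfsg.Agent.Lib.H11FpChar

open Finset Cfsg.Agent.Lib.Helper71ZaDefs

/-- **The characteristic does not divide the order of a fixed-point-free group.** -/
theorem not_dvd_card {E G : Type*} [Field E] [Group G] [Finite G] (p : ℕ) [Fact p.Prime]
    [CharP E p] {d : ℕ} (ρ : Representation E G (Fin d → E)) (hd : 0 < d) (hρ : Fpf ρ) :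
    ¬ p ∣ Nat.card G := by
  classical
  intro hdvd
  obtain ⟨g, hg⟩ := exists_prime_orderOf_dvd_card' p hdvd
  have hg1 : g ≠ 1 := by
    rintro rfl
    rw [orderOf_one] at hg
    exact (Fact.out : p.Prime).one_lt.ne hg
  set T := ρ g with hT
  have hTp : T ^ p = 1 := by
    rw [hT, ← map_pow, ← hg, pow_orderOf_eq_one, map_one]
  have : Nonempty (Fin d) := ⟨⟨0, hd⟩⟩
  have : Nontrivial (Fin d → E) := inferInstance
  have : Nontrivial (Module.End E (Fin d → E)) := inferInstance
  have : CharP (Module.End E (Fin d → E)) p :=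
    charP_of_injective_algebraMap (FaithfulSMul.algebraMap_injective E (Module.End E (Fin d → E))) p
  have hpow : (T - 1) ^ p = 0 := by
    rw [sub_pow_char_of_commute p (Commute.one_right T), hTp, one_pow, sub_self]
  have hninj : ¬ Function.Injective ((T - 1 : Module.End E (Fin d → E)) : (Fin d → E) → (Fin d → E)) := by
    intro hinj
    have h2 : Function.Injective (((T - 1) ^ p : Module.End E (Fin d → E)) : (Fin d → E) → (Fin d → E)) := by
      rw [Module.End.coe_pow]
      exact hinj.iterate p
    rw [hpow] at h2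
    have : (Pi.single ⟨0, hd⟩ 1 : Fin d → E) = 0 := h2 (by simp)
    have h3 := congrFun this ⟨0, hd⟩
    simp at h3
  rw [← LinearMap.ker_eq_bot] at hninj
  obtain ⟨v, hv, hv0⟩ := (Submodule.ne_bot_iff _).mp hninj
  apply hv0
  apply hρ g hg1 v
  rw [LinearMap.mem_ker, LinearMap.sub_apply, Module.End.one_apply, sub_eq_zero] at hv
  exact hv

end Cfsg.Agent.Lib.H11FpChar
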