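import Mathlib

/-!
# Project 3357 (fixed-point-free certificates): vocabulary

A *certificate* for a finite group `G` over a ring `R` is a function `μ : G → R` with `μ 1 = 1`
which is killed by the norm element `N_g = ∑_{i < o(g)} g^i` of every element of prime order:
`∑_i μ (g ^ i * h) = 0` for all `h`.  (Think of a matrix coefficient of a fixed-point-free
representation.)  Everything in the project is phrased with such functions.
-/

set_option autoImplicit false

namespace Cfsg.Agent.Lib.H11FpDefs

open Finset

/-- `μ` is annihilated by the norm elements of all elements of prime order. -/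
def IsC {R G : Type*} [AddCommMonoid R] [Group G] (μ : G → R) : Prop :=
  ∀ g h : G, (orderOf g).Prime → ∑ i ∈ range (orderOf g), μ (g ^ i * h) = 0

/-- a certificate over `R` -/
def Cert (R G : Type*) [Semiring R] [Group G] : Prop :=
  ∃ μ : G → R, μ 1 = 1 ∧ IsC μ

section basic

variable {R S G H : Type*} [Group G] [Group H]

theorem IsC.map [AddCommMonoid R] [AddCommMonoid S] {μ : G → R} (h : IsC μ) (φ : R →+ S) :
    IsC (fun x => φ (μ x)) := by
  intro g x hg
  rw [← map_sum, h g x hg, map_zero]

theorem IsC.translate [AddCommMonoid R] {μ : G → R} (h : IsC μ) (x₀ : G) :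
    IsC (fun x => μ (x * x₀)) := by
  intro g x hg
  have := h g (x * x₀) hg
  simpa only [mul_assoc] using this

theorem IsC.mul_left [NonUnitalNonAssocSemiring R] {μ : G → R} (h : IsC μ) (c : R) :
    IsC (fun x => c * μ x) := by
  intro g x hg
  rw [← mul_sum, h g x hg, mul_zero]

theorem IsC.mul_right [NonUnitalNonAssocSemiring R] {μ : G → R} (h : IsC μ) (c : R) :
    IsC (fun x => μ x * c) := by
  intro g x hg
  rw [← sum_mul, h g x hg, zero_mul]

theorem IsC.add [AddCommMonoid R] {μ ν : G → R} (h : IsC μ) (h' : IsC ν) :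
    IsC (fun x => μ x + ν x) := by
  intro g x hg
  rw [sum_add_distrib, h g x hg, h' g x hg, add_zero]

theorem isC_zero [AddCommMonoid R] : IsC (fun _ : G => (0 : R)) := by
  intro g x _
  simp

/-- the right-handed form of the condition -/
theorem IsC.right [AddCommMonoid R] {μ : G → R} (h : IsC μ) (g x : G) (hg : (orderOf g).Prime) :
    ∑ i ∈ range (orderOf g), μ (x * g ^ i) = 0 := by
  have ho : orderOf (x * g * x⁻¹) = orderOf g := by
    have := orderOf_injective (MulAut.conj x).toMonoidHom (MulAut.conj x).injective g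
    simpa using this
  have := h (x * g * x⁻¹) x (by rw [ho]; exact hg)
  rw [ho] at this
  rw [← this]
  refine sum_congr rfl fun i _ => ?_
  rw [conj_pow]
  group

theorem IsC.comp_hom [AddCommMonoid R] {μ : H → R} (h : IsC μ) (f : G →* H)
    (hf : Function.Injective f) : IsC (fun x => μ (f x)) := by
  intro g x hg
  have ho : orderOf (f g) = orderOf g := orderOf_injective f hf g
  have := h (f g) (f x) (by rw [ho]; exact hg)
  rw [ho] at this
  simpa only [map_mul, map_pow] using this

theorem Cert.map [Semiring R] [Semiring S] (h : Cert R G) (φ : R →+ S) (h1 : φ 1 = 1) :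
    Cert S G := by
  obtain ⟨μ, hμ1, hμ⟩ := h
  exact ⟨fun x => φ (μ x), by beta_reduce; rw [hμ1, h1], hμ.map φ⟩

theorem Cert.of_injective [Semiring R] (h : Cert R H) (f : G →* H) (hf : Function.Injective f) :
    Cert R G := by
  obtain ⟨μ, hμ1, hμ⟩ := h
  exact ⟨fun x => μ (f x), by beta_reduce; rw [map_one, hμ1], hμ.comp_hom f hf⟩

/-- a function satisfying the condition with a unit value gives a certificate -/
theorem Cert.of_isUnit [Semiring R] {μ : G → R} (h : IsC μ) (x₀ : G) (hu : IsUnit (μ x₀)) :
    Cert R G := by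
  obtain ⟨u, hu⟩ := hu
  refine ⟨fun x => (↑u⁻¹ : R) * μ (x * x₀), ?_, (h.translate x₀).mul_left _⟩
  beta_reduce
  rw [one_mul, ← hu, Units.inv_mul]

end basic

section alg

variable (R : Type*) {G : Type*} [Group G]

/-- the norm element `∑_{i < o(g)} g^i` of the group algebra -/
noncomputable def Nm [Semiring R] (g : G) : MonoidAlgebra R G :=
  ∑ i ∈ range (orderOf g), MonoidAlgebra.of R G (g ^ i)

/-- reduction `(ℤ/p^(k+1))[G] → (ℤ/p)[G]` -/
noncomputable def red (G : Type*) [Group G] (p k : ℕ) :
    MonoidAlgebra (ZMod (p ^ (k + 1))) G →+* MonoidAlgebra (ZMod p) G :=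
  MonoidAlgebra.mapRingHom G (ZMod.castHom (dvd_pow_self p (Nat.succ_ne_zero k)) (ZMod p))

/-- the module of all functions satisfying the condition -/
def W (G : Type*) [Group G] [Semiring R] : Submodule R (G → R) where
  carrier := {μ | IsC μ}
  add_mem' := fun h h' => h.add h'
  zero_mem' := isC_zero
  smul_mem' := fun c _ h => h.mul_left c

/-- right translation `(rt g μ) x = μ (x * g)` -/
def rt (G : Type*) [Group G] [CommSemiring R] : Representation R G (G → R) where
  toFun g :=
    { toFun := fun μ x => μ (x * g)
      map_add' := fun _ _ => rfl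
      map_smul' := fun _ _ => rfl }
  map_one' := by
    ext μ x
    simp
  map_mul' g g' := by
    ext μ x
    simp [mul_assoc]

variable {R}

theorem mem_W [Semiring R] {μ : G → R} : μ ∈ W R G ↔ IsC μ := Iff.rfl

@[simp] theorem rt_apply [CommSemiring R] (g : G) (μ : G → R) (x : G) :
    rt R G g μ x = μ (x * g) := rfl

theorem rt_mem_W [CommSemiring R] (g : G) {μ : G → R} (h : μ ∈ W R G) : rt R G g μ ∈ W R G :=
  IsC.translate h g

end alg

end Cfsg.Agent.Lib.H11FpDefs
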