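import Mathlib

/-! # Project 3357, piece Desc (15 min, PURE MATHLIB) -/

set_option autoImplicit false

namespace Cfsg.Agent.Lib.H11FpDesc

/-- **A linear retraction of a field extension.** -/
theorem exists_functional (k E : Type*) [Field k] [Field E] [Algebra k E] :
    ∃ φ : E →ₗ[k] k, φ 1 = 1 := by
  obtain ⟨φ, hφ⟩ := LinearMap.exists_leftInverse_of_injective (Algebra.linearMap k E)
    (LinearMap.ker_eq_bot.2 (algebraMap k E).injective)
  refine ⟨φ, ?_⟩
  have := LinearMap.congr_fun hφ 1
  simpa using this

end Cfsg.Agent.Lib.H11FpDesc
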