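import Cfsg.Agent.Lib.H11FpDefs

/-! # Project 3357, piece Fix (30 min, PURE MATHLIB + Defs) -/

set_option autoImplicit false

namespace Cfsg.Agent.Lib.H11FpFix

open Finset Cfsg.Agent.Lib.H11FpDefs

/-- **No fixed points.** -/
theorem fix_eq_zero {R G : Type*} [CommRing R] [Group G] [Finite G]
    (hR : ∀ q : ℕ, q.Prime → q ∣ Nat.card G → ∀ r : R, (q : R) * r = 0 → r = 0)
    {μ : G → R} (hμ : IsC μ) {g : G} (hg : g ≠ 1) (hfix : ∀ x, μ (x * g) = μ x) : μ = 0 := by
  have hn1 : orderOf g ≠ 1 := fun h => hg (orderOf_eq_one_iff.1 h)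
  have hn0 : orderOf g ≠ 0 := (orderOf_pos g).ne'
  set n := orderOf g with hn
  have hq : n.minFac.Prime := Nat.minFac_prime hn1
  have hqn : n.minFac ∣ n := Nat.minFac_dvd n
  have hqG : n.minFac ∣ Nat.card G := hqn.trans (orderOf_dvd_natCard g)
  have ho : orderOf (g ^ (n / n.minFac)) = n.minFac := orderOf_pow_orderOf_div hn0 hqn
  have hpow : ∀ (j : ℕ) (x : G), μ (x * g ^ j) = μ x := by
    intro j
    induction j with
    | zero => intro x; simp
    | succ j ih =>
      intro x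
      rw [pow_succ, ← mul_assoc, hfix, ih]
  funext x
  have h1 := IsC.right hμ (g ^ (n / n.minFac)) x (by rw [ho]; exact hq)
  rw [ho] at h1
  have h2 : ∀ i ∈ range n.minFac, μ (x * (g ^ (n / n.minFac)) ^ i) = μ x := by
    intro i _
    rw [← pow_mul, hpow]
  rw [sum_congr rfl h2, sum_const, card_range, nsmul_eq_mul] at h1
  exact hR _ hq hqG _ h1

end Cfsg.Agent.Lib.H11FpFix
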