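import Cfsg.Agent.Lib.H11FpDefs
import Cfsg.Agent.Lib.Helper71ZaDefs

/-! # Project 3357, piece FromFpf (30 min) -/

set_option autoImplicit false

namespace Cfsg.Agent.Lib.H11FpFromFpf

open Finset Cfsg.Agent.Lib.H11FpDefs Cfsg.Agent.Lib.Helper71ZaDefs

/-- **A fixed-point-free representation gives a certificate** (a matrix coefficient). -/
theorem cert_of_fpf {E G : Type*} [Field E] [Group G] {d : ℕ}
    (ρ : Representation E G (Fin d → E)) (hd : 0 < d) (hρ : Fpf ρ) : Cert E G := by
  classical
  set v : Fin d → E := Pi.single ⟨0, hd⟩ 1 with hv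
  refine ⟨fun g => ρ g v ⟨0, hd⟩, ?_, ?_⟩
  · simp [hv]
  · intro g h hg
    have hg1 : g ≠ 1 := by
      rintro rfl
      rw [orderOf_one] at hg
      exact Nat.not_prime_one hg
    set u := ρ h v with hu
    set w := ∑ i ∈ range (orderOf g), ρ (g ^ i) u with hw
    have hfix : ρ g w = w := by
      rw [hw, map_sum]
      have e : ∀ i, ρ g (ρ (g ^ i) u) = ρ (g ^ (i + 1)) u := by
        intro i
        rw [← Module.End.mul_apply, ← map_mul, ← pow_succ']
      simp only [e]
      have h1 := Finset.sum_range_succ (fun i => ρ (g ^ i) u) (orderOf g)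
      have h2 := Finset.sum_range_succ' (fun i => ρ (g ^ i) u) (orderOf g)
      rw [h1] at h2
      simp only [pow_orderOf_eq_one, pow_zero] at h2
      exact (add_right_cancel h2).symm
    have hw0 : w = 0 := hρ g hg1 w hfix
    have : ∑ i ∈ range (orderOf g), ρ (g ^ i * h) v ⟨0, hd⟩ = w ⟨0, hd⟩ := by
      rw [hw, Finset.sum_apply]
      refine Finset.sum_congr rfl fun i _ => ?_
      rw [map_mul, Module.End.mul_apply]
    rw [this, hw0]
    rfl

end Cfsg.Agent.Lib.H11FpFromFpf
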