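import Cfsg.Agent.Lib.H11FpDefs

/-! # Project 3357, piece Ker (45 min, PURE MATHLIB + Defs) -/

set_option autoImplicit false

namespace Cfsg.Agent.Lib.H11FpKer

open Finset Cfsg.Agent.Lib.H11FpDefs

variable {G : Type*} [Group G]

/-- **The kernel of the reduction `(ℤ/p^(k+1))[G] → (ℤ/p)[G]` is `p · (ℤ/p^(k+1))[G]`.**

SKETCH.  Coefficientwise: `(red G p k x).coeff m = ZMod.castHom _ _ (x.coeff m)`
(`MonoidAlgebra.coeff_mapRingHom`).  For `a : ZMod (p^(k+1))` with `ZMod.castHom _ (ZMod p) a = 0`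
there is `b` with `a = p * b`: write `a = ((a.val : ℕ) : ZMod _)` (`ZMod.natCast_zmod_val`, needs
`NeZero (p^(k+1))`), `map_natCast`, `ZMod.natCast_eq_zero_iff` gives `p ∣ a.val`.  Choose such a `b`
for every coefficient (`Classical.choose`, with `b = 0`‑compatible support: e.g.
`y := x.sum/mapRange`‑free definition `y := ∑ m ∈ x.coeff.support, single m (b m)`, or use
`MonoidAlgebra.induction`‑free: `x = ∑ m ∈ support, single m (x.coeff m)`), and note
`(p : MonoidAlgebra R G) * single m b = single m (p * b)` (`Nat.cast_comm`/`← nsmul_eq_mul`,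
`MonoidAlgebra.smul_single`). -/
theorem exists_of_red_eq_zero (p k : ℕ) [Fact p.Prime] (x : MonoidAlgebra (ZMod (p ^ (k + 1))) G)
    (hx : red G p k x = 0) :
    ∃ y : MonoidAlgebra (ZMod (p ^ (k + 1))) G, x = (p : MonoidAlgebra (ZMod (p ^ (k + 1))) G) * y := by
  have hp : p.Prime := Fact.out
  have : NeZero (p ^ (k + 1)) := ⟨pow_ne_zero _ hp.ne_zero⟩
  refine ⟨MonoidAlgebra.ofCoeff (x.coeff.mapRange
    (fun a : ZMod (p ^ (k + 1)) => ((a.val / p : ℕ) : ZMod (p ^ (k + 1)))) (by simp)), ?_⟩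
  ext m
  rw [MonoidAlgebra.natCast_def, MonoidAlgebra.coeff_single_one_mul, MonoidAlgebra.coeff_ofCoeff,
    Finsupp.mapRange_apply]
  have h1 : ZMod.castHom (dvd_pow_self p (Nat.succ_ne_zero k)) (ZMod p) (x.coeff m) = 0 := by
    have := congrArg (fun z => MonoidAlgebra.coeff z m) hx
    simpa [red, MonoidAlgebra.coeff_mapRingHom] using this
  have h2 : p ∣ (x.coeff m).val := by
    rw [← ZMod.natCast_zmod_val (x.coeff m), map_natCast, ZMod.natCast_eq_zero_iff] at h1
    exact h1
  obtain ⟨c, hc⟩ := h2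
  rw [hc, Nat.mul_div_cancel_left _ hp.pos, ← Nat.cast_mul, ← hc, ZMod.natCast_zmod_val]

/-- the reduction is surjective (`ZMod.castHom_surjective`; lift coefficient by coefficient, e.g. by
`MonoidAlgebra.induction_on`/`Finsupp.induction_linear`: `single m a` is the image of
`single m a'`, sums of images are images). -/
theorem red_surjective (p k : ℕ) [Fact p.Prime] : Function.Surjective (red G p k) := by
  have hp : p.Prime := Fact.out
  have : NeZero p := ⟨hp.ne_zero⟩
  intro y
  refine ⟨MonoidAlgebra.ofCoeff (y.coeff.mapRange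
    (fun a : ZMod p => ((a.val : ℕ) : ZMod (p ^ (k + 1)))) (by simp)), ?_⟩
  ext m
  rw [red, MonoidAlgebra.coeff_mapRingHom, MonoidAlgebra.coeff_ofCoeff, Finsupp.mapRange_apply,
    map_natCast, ZMod.natCast_zmod_val]

end Cfsg.Agent.Lib.H11FpKer
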