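import Cfsg.Agent.Lib.H11FpKer

/-! # Project 3357, piece Lift (30 min) -/

set_option autoImplicit false

namespace Cfsg.Agent.Lib.H11FpLift

open Finset Cfsg.Agent.Lib.H11FpDefs Cfsg.Agent.Lib.H11FpKer

variable {G : Type*} [Group G]

/-- **Lifting idempotents from `(ℤ/p)[G]` to `(ℤ/p^(k+1))[G]`.** -/
theorem exists_lift (p k : ℕ) [Fact p.Prime] (f : MonoidAlgebra (ZMod p) G)
    (hf : IsIdempotentElem f) :
    ∃ f' : MonoidAlgebra (ZMod (p ^ (k + 1))) G, IsIdempotentElem f' ∧ red G p k f' = f := by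
  have hnil : ∀ x ∈ RingHom.ker (red G p k), IsNilpotent x := by
    intro x hx
    obtain ⟨y, rfl⟩ := exists_of_red_eq_zero p k x ((RingHom.mem_ker).1 hx)
    refine ⟨k + 1, ?_⟩
    rw [(Nat.cast_commute p y).mul_pow, ← Nat.cast_pow,
      ← map_natCast (algebraMap (ZMod (p ^ (k + 1))) (MonoidAlgebra (ZMod (p ^ (k + 1))) G)),
      ZMod.natCast_self, map_zero, zero_mul]
  obtain ⟨f', hf', hff⟩ := exists_isIdempotentElem_eq_of_ker_isNilpotent (red G p k) hnil f
    (red_surjective p k f) hf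
  exact ⟨f', hf', hff⟩

end Cfsg.Agent.Lib.H11FpLift
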