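import Cfsg.Agent.Lib.H11FpDefs

/-! # Project 3357, piece Maschke (75 min, PURE MATHLIB + Defs) -/

set_option autoImplicit false

namespace Cfsg.Agent.Lib.H11FpMaschke

open Finset Cfsg.Agent.Lib.H11FpDefs

section
variable {F G : Type*} [Field F] [Group G]

/-- the elements of the group algebra whose "inverted" coefficient function satisfies `IsC` -/
def SS (w : MonoidAlgebra F G) : Prop := IsC (fun y : G => w.coeff y⁻¹)

theorem SS.mul_left {w : MonoidAlgebra F G} (hw : SS w) (r : MonoidAlgebra F G) : SS (r * w) := by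
  induction r using MonoidAlgebra.induction_linear with
  | zero =>
    rw [zero_mul]
    exact isC_zero
  | add a b ha hb =>
    rw [add_mul]
    exact ha.add hb
  | single h c =>
    have h1 := (IsC.translate hw h).mul_left c
    have e : (fun y : G => (MonoidAlgebra.single h c * w).coeff y⁻¹) =
        fun x => c * w.coeff (x * h)⁻¹ := by
      funext y
      rw [MonoidAlgebra.coeff_single_mul_apply, mul_inv_rev]
    unfold SS
    rw [e]
    exact h1

theorem SS.nm_mul {w : MonoidAlgebra F G} (hw : SS w) (g : G) (hg : (orderOf g).Prime) :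
    Nm F g * w = 0 := by
  apply MonoidAlgebra.coeff_injective
  ext y
  unfold Nm
  rw [Finset.sum_mul, MonoidAlgebra.coeff_sum, Finsupp.finsetSum_apply]
  have h1 := IsC.right hw g y⁻¹ hg
  simp only [MonoidAlgebra.coeff_zero, Finsupp.coe_zero, Pi.zero_apply]
  rw [← h1]
  apply Finset.sum_congr rfl
  intro i _
  rw [MonoidAlgebra.of_apply, MonoidAlgebra.coeff_single_mul_apply, one_mul, mul_inv_rev, inv_inv]

end

/-- **From a certificate to an idempotent** (`|G|` invertible in the field `F`). -/
theorem exists_idem {F G : Type*} [Field F] [Group G] [Finite G] [NeZero (Nat.card G : F)]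
    (h : Cert F G) :
    ∃ f : MonoidAlgebra F G, IsIdempotentElem f ∧ f ≠ 0 ∧
      ∀ g : G, (orderOf g).Prime → ∀ r : MonoidAlgebra F G, Nm F g * r * f = 0 := by
  classical
  haveI := Fintype.ofFinite G
  obtain ⟨μ, hμ1, hμ⟩ := h
  let I : Submodule (MonoidAlgebra F G) (MonoidAlgebra F G) :=
    { carrier := {x | ∀ g : G, (orderOf g).Prime → ∀ r, Nm F g * r * x = 0}
      add_mem' := by
        intro a b ha hb g hg r
        rw [mul_add, ha g hg r, hb g hg r, add_zero]
      zero_mem' := by
        intro g _ r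
        rw [mul_zero]
      smul_mem' := by
        intro a x hx g hg r
        rw [smul_eq_mul, ← mul_assoc, mul_assoc (Nm F g) r a]
        exact hx g hg (r * a) }
  let x : MonoidAlgebra F G := ∑ k : G, MonoidAlgebra.single k (μ k⁻¹)
  have hxc : ∀ y : G, x.coeff y = μ y⁻¹ := by
    intro y
    simp only [x]
    rw [MonoidAlgebra.coeff_sum, Finsupp.finsetSum_apply]
    simp only [MonoidAlgebra.coeff_single, Finsupp.single_apply]
    rw [Finset.sum_ite_eq' Finset.univ y]
    simp
  have hxS : SS x := by
    unfold SS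
    have : (fun y : G => x.coeff y⁻¹) = μ := by
      funext y
      rw [hxc, inv_inv]
    rw [this]
    exact hμ
  have hxI : x ∈ I := by
    intro g hg r
    rw [mul_assoc]
    exact (hxS.mul_left r).nm_mul g hg
  have hx0 : x ≠ 0 := by
    intro h0
    have := hxc 1
    rw [h0, inv_one, hμ1] at this
    simp at this
  obtain ⟨C, hIC⟩ := MonoidAlgebra.Submodule.exists_isCompl I
  have h1 : (1 : MonoidAlgebra F G) ∈ I ⊔ C := by
    rw [hIC.sup_eq_top]; exact Submodule.mem_top
  obtain ⟨f, hf, c, hc, hfc⟩ := Submodule.mem_sup.1 h1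
  have hfcC : f * c ∈ C := by
    have := C.smul_mem f hc
    rwa [smul_eq_mul] at this
  have hffI : f * f ∈ I := by
    have := I.smul_mem f hf
    rwa [smul_eq_mul] at this
  have hce : c = 1 - f := by rw [← hfc]; abel
  have hfcI : f * c ∈ I := by
    rw [hce, mul_sub, mul_one]
    exact I.sub_mem hf hffI
  have hzero : f * c = 0 := by
    have : f * c ∈ I ⊓ C := ⟨hfcI, hfcC⟩
    rw [hIC.inf_eq_bot] at this
    exact (Submodule.mem_bot _).1 this
  refine ⟨f, ?_, ?_, hf⟩
  · rw [hce, mul_sub, mul_one, sub_eq_zero] at hzero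
    exact hzero.symm
  · intro hf0
    rw [hf0, zero_add] at hfc
    apply hx0
    have hxC : x ∈ C := by
      have := C.smul_mem x hc
      rwa [smul_eq_mul, hfc, mul_one] at this
    have : x ∈ I ⊓ C := ⟨hxI, hxC⟩
    rw [hIC.inf_eq_bot] at this
    exact (Submodule.mem_bot _).1 this

end Cfsg.Agent.Lib.H11FpMaschke
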