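import Mathlib

/-! # Project 3357, piece Mat (60 min, PURE MATHLIB) -/

set_option autoImplicit false

namespace Cfsg.Agent.Lib.H11FpMat

/-- **Matrix form of a subrepresentation.**

SKETCH.  `n := Module.finrank K U`, `b := Module.finBasis K U`, `e := b.equivFun`.
`σ g : U →ₗ[K] U := (ρ g).restrict (hinv g)`; `σ 1 = 1`, `σ (g * g') = σ g * σ g'` (`ext`, `map_one`,
`map_mul`).  `A g := LinearMap.toMatrix b b (σ g)`; `A 1 = 1` (`LinearMap.toMatrix_one`/`toMatrix_id`),
`A (g * g') = A g * A g'` (`LinearMap.toMatrix_mul`).  So `A` is a monoid hom `G →* Matrix _ _ K` and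
`ρ' := A.toHomUnits` (`MonoidHom.toHomUnits`, `MonoidHom.coe_toHomUnits`; recall
`GL (Fin n) K = (Matrix (Fin n) (Fin n) K)ˣ`).  The formula is `LinearMap.toMatrix_mulVec_repr b b (σ g) u`
(with `Basis.equivFun_apply`). -/
theorem exists_mat {K G M : Type*} [Field K] [Group G] [AddCommGroup M] [Module K M]
    [Module.Finite K M] (ρ : Representation K G M) (U : Submodule K M)
    (hinv : ∀ g : G, ∀ u ∈ U, ρ g u ∈ U) :
    ∃ (n : ℕ) (ρ' : G →* GL (Fin n) K) (e : U ≃ₗ[K] (Fin n → K)), ∀ (g : G) (u : U),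
      ((ρ' g : GL (Fin n) K) : Matrix (Fin n) (Fin n) K).mulVec (e u) =
        e ⟨ρ g u, hinv g u u.2⟩ := by
  classical
  let b := Module.finBasis K U
  let σ : G → (U →ₗ[K] U) := fun g => (ρ g).restrict (hinv g)
  have hσ1 : σ 1 = 1 := by
    ext u
    simp [σ]
  have hσm : ∀ g g', σ (g * g') = σ g * σ g' := by
    intro g g'
    ext u
    simp [σ]
  let A : G →* Matrix (Fin (Module.finrank K U)) (Fin (Module.finrank K U)) K :=
    { toFun := fun g => LinearMap.toMatrix b b (σ g)
      map_one' := by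
        rw [hσ1]
        exact LinearMap.toMatrix_one b
      map_mul' := fun g g' => by
        rw [hσm]
        exact LinearMap.toMatrix_mul b (σ g) (σ g') }
  refine ⟨Module.finrank K U, A.toHomUnits, b.equivFun, fun g u => ?_⟩
  have h1 := LinearMap.toMatrix_mulVec_repr b b (σ g) u
  rw [MonoidHom.coe_toHomUnits]
  exact h1

end Cfsg.Agent.Lib.H11FpMat
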