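import Mathlib

/-! # Project 3357, piece Min (35 min, PURE MATHLIB) -/

set_option autoImplicit false

namespace Cfsg.Agent.Lib.H11FpMin

/-- **A non-zero invariant subspace of a finite-dimensional representation contains a minimal one.** -/
theorem exists_min {K G M : Type*} [Field K] [Group G] [AddCommGroup M] [Module K M]
    [Module.Finite K M] (ρ : Representation K G M) (W : Submodule K M) (hW : W ≠ ⊥)
    (hinv : ∀ g : G, ∀ w ∈ W, ρ g w ∈ W) :
    ∃ U : Submodule K M, U ≤ W ∧ U ≠ ⊥ ∧ (∀ g : G, ∀ u ∈ U, ρ g u ∈ U) ∧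
      ∀ U' : Submodule K M, U' ≤ U → (∀ g : G, ∀ u ∈ U', ρ g u ∈ U') → U' = ⊥ ∨ U' = U := by
  classical
  let P : ℕ → Prop := fun n => ∃ U : Submodule K M, U ≤ W ∧ U ≠ ⊥ ∧
    (∀ g : G, ∀ u ∈ U, ρ g u ∈ U) ∧ Module.finrank K U = n
  have hex : ∃ n, P n := ⟨_, W, le_rfl, hW, hinv, rfl⟩
  obtain ⟨U, hUW, hU0, hUinv, hUn⟩ := Nat.find_spec hex
  refine ⟨U, hUW, hU0, hUinv, ?_⟩
  intro U' hU' hinv'
  by_cases h0 : U' = ⊥
  · exact Or.inl h0
  · right
    have := Nat.find_min' hex (m := Module.finrank K U') ⟨U', hU'.trans hUW, h0, hinv', rfl⟩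
    exact Submodule.eq_of_le_of_finrank_le hU' (by rw [hUn]; exact this)

end Cfsg.Agent.Lib.H11FpMin
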