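import Cfsg.Agent.Lib.H11FpDefs

/-! # Project 3357, piece NmSq (40 min, PURE MATHLIB + Defs) -/

set_option autoImplicit false

namespace Cfsg.Agent.Lib.H11FpNmSq

open Finset Cfsg.Agent.Lib.H11FpDefs

variable {G : Type*} [Group G]

/-- `g * N_g = N_g`. -/
theorem of_mul_Nm (R : Type*) [Ring R] (g : G) :
    MonoidAlgebra.of R G g * Nm R g = Nm R g := by
  unfold Nm
  rw [mul_sum]
  have h1 : ∀ i ∈ range (orderOf g), MonoidAlgebra.of R G g * MonoidAlgebra.of R G (g ^ i)
      = MonoidAlgebra.of R G (g ^ (i + 1)) := by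
    intro i _
    rw [← map_mul, ← pow_succ']
  rw [sum_congr rfl h1]
  have h2 := sum_range_succ' (fun i => MonoidAlgebra.of R G (g ^ i)) (orderOf g)
  have h3 := sum_range_succ (fun i => MonoidAlgebra.of R G (g ^ i)) (orderOf g)
  rw [h3, pow_orderOf_eq_one, pow_zero] at h2
  exact (add_right_cancel h2).symm

theorem of_pow_mul_Nm (R : Type*) [Ring R] (g : G) (i : ℕ) :
    MonoidAlgebra.of R G (g ^ i) * Nm R g = Nm R g := by
  induction i with
  | zero => rw [pow_zero, map_one, one_mul]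
  | succ i ih => rw [pow_succ, map_mul, mul_assoc, of_mul_Nm, ih]

/-- `N_g * N_g = o(g) N_g`. -/
theorem Nm_mul_Nm (R : Type*) [Ring R] (g : G) :
    Nm R g * Nm R g = (orderOf g : MonoidAlgebra R G) * Nm R g := by
  have h : Nm R g * Nm R g = ∑ i ∈ range (orderOf g), MonoidAlgebra.of R G (g ^ i) * Nm R g := by
    rw [← sum_mul]; rfl
  rw [h, sum_congr rfl (fun i _ => of_pow_mul_Nm R g i), sum_const, card_range, nsmul_eq_mul]

/-- the reduction maps `N_g` to `N_g`. -/
theorem red_Nm (p k : ℕ) (g : G) : red G p k (Nm (ZMod (p ^ (k + 1))) g) = Nm (ZMod p) g := by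
  unfold Nm red
  rw [map_sum]
  apply sum_congr rfl
  intro i _
  simp [MonoidAlgebra.of_apply, MonoidAlgebra.mapRingHom_single]

end Cfsg.Agent.Lib.H11FpNmSq
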