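import Cfsg.Agent.Lib.H11FpDefs

/-! # Project 3357, piece Prod (45 min, PURE MATHLIB + Defs) -/

set_option autoImplicit false

namespace Cfsg.Agent.Lib.H11FpProd

open Finset Cfsg.Agent.Lib.H11FpDefs

/-- **Certificates multiply for groups of coprime orders.** -/
theorem cert_prod {R A B : Type*} [CommRing R] [Group A] [Group B] [Finite A] [Finite B]
    (hc : (Nat.card A).Coprime (Nat.card B)) (hA : Cert R A) (hB : Cert R B) :
    Cert R (A × B) := by
  obtain ⟨μA, hA1, hAC⟩ := hA
  obtain ⟨μB, hB1, hBC⟩ := hB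
  refine ⟨fun x => μA x.1 * μB x.2, by simp [hA1, hB1], ?_⟩
  rintro ⟨a, b⟩ ⟨h1, h2⟩ hq
  set q := orderOf ((a, b) : A × B) with hqd
  have hpow := pow_orderOf_eq_one ((a, b) : A × B)
  rw [← hqd] at hpow
  have ha : a ^ q = 1 := congrArg Prod.fst hpow
  have hb : b ^ q = 1 := congrArg Prod.snd hpow
  have hoa := (Nat.dvd_prime hq).1 (orderOf_dvd_of_pow_eq_one ha)
  have hob := (Nat.dvd_prime hq).1 (orderOf_dvd_of_pow_eq_one hb)
  simp only [Prod.pow_mk, Prod.mk_mul_mk]
  rcases hoa with hoa | hoa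
  · rcases hob with hob | hob
    · exfalso
      rw [orderOf_eq_one_iff] at hoa hob
      have : q = 1 := by rw [hqd, hoa, hob]; exact orderOf_one
      exact hq.one_lt.ne' this
    · rw [orderOf_eq_one_iff] at hoa
      subst hoa
      simp only [one_pow, one_mul]
      rw [← Finset.mul_sum, ← hob, hBC b h2 (hob ▸ hq), mul_zero]
  · rcases hob with hob | hob
    · rw [orderOf_eq_one_iff] at hob
      subst hob
      simp only [one_pow, one_mul]
      rw [← Finset.sum_mul, ← hoa, hAC a h1 (hoa ▸ hq), zero_mul]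
    · exfalso
      have h1' : q ∣ Nat.card A := hoa ▸ orderOf_dvd_natCard a
      have h2' : q ∣ Nat.card B := hob ▸ orderOf_dvd_natCard b
      exact hq.one_lt.ne' (Nat.eq_one_of_dvd_coprimes hc h1' h2')

end Cfsg.Agent.Lib.H11FpProd
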