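import Cfsg.Agent.Lib.H11FpFix
import Cfsg.Agent.Lib.H11FpMin
import Cfsg.Agent.Lib.H11FpMat

/-! # Project 3357, piece Rep (75 min) -/

set_option autoImplicit false

namespace Cfsg.Agent.Lib.H11FpRep

open Finset Cfsg.Agent.Lib.H11FpDefs

/-- **A certificate in characteristic `0` gives a faithful irreducible fixed-point-free matrix
representation.**

SKETCH.  `W K G ≠ ⊥` (it contains the certificate `μ`, `μ 1 = 1 ≠ 0`) and it is invariant under
`rt K G` (`rt_mem_W`).  `H11FpMin.exists_min (rt K G) (W K G)` gives a minimal invariant `U ≤ W K G`, `U ≠ ⊥`;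
`H11FpMat.exists_mat (rt K G) U hinv` gives `n, ρ, e` with `(ρ g).mulVec (e u) = e ⟨rt g u, _⟩`.
* `0 < n`: otherwise `Fin 0 → K` is subsingleton, so `U` is (`e.injective`), so `U = ⊥`.
* fixed points: `v = e u` (`e.surjective`); `(ρ g).mulVec v = v` gives `rt g u = u` (`e.injective`,
  `Subtype.ext_iff`), i.e. `∀ x, u.1 (x * g) = u.1 x` (`congrFun`, `rt_apply`);
  `H11FpFix.fix_eq_zero` (`hR`: `(q : K) ≠ 0` by `Nat.cast_ne_zero`, `Nat.Prime.ne_zero`; `mul_eq_zero`) with
  `IsC u.1` from `U ≤ W K G` gives `u = 0`, `v = 0`.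
* injective: `injective_iff_map_eq_one`; if `ρ g = 1` and `g ≠ 1` every `v` is fixed (`Matrix.one_mulVec`)
  hence `0`; contradiction with `0 < n` (`Pi.single ⟨0, _⟩ 1 ≠ 0`).
* irreducible: for an invariant `W'` put `U' := (W'.comap e.toLinearMap).map U.subtype ≤ U`; it is
  `rt`-invariant (for `u ∈ U` with `e u ∈ W'`: `e ⟨rt g u, _⟩ = (ρ g).mulVec (e u) ∈ W'`).  If `U' = ⊥` then
  `W' = ⊥` (every `w = e u`, `u.1 ∈ U'`, so `u = 0`); if `U' = U` then `W' = ⊤`. -/
theorem exists_rep {G : Type*} [Group G] [Finite G] (K : Type*) [Field K] [CharZero K]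
    (h : Cert K G) :
    ∃ (n : ℕ) (ρ : G →* GL (Fin n) K), 0 < n ∧ Function.Injective ρ ∧
      (∀ W : Submodule K (Fin n → K),
        (∀ g : G, ∀ w ∈ W, ((ρ g : GL (Fin n) K) : Matrix (Fin n) (Fin n) K).mulVec w ∈ W) →
          W = ⊥ ∨ W = ⊤) ∧
      ∀ g : G, g ≠ 1 → ∀ v : Fin n → K,
        ((ρ g : GL (Fin n) K) : Matrix (Fin n) (Fin n) K).mulVec v = v → v = 0 := by
  classical
  obtain ⟨μ, hμ1, hμ⟩ := h
  have hW : W K G ≠ ⊥ := by
    intro h0
    have hm : μ ∈ W K G := hμ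
    rw [h0, Submodule.mem_bot] at hm
    have := congrFun hm 1
    rw [hμ1] at this
    exact one_ne_zero this
  obtain ⟨U, hUW, hU0, hUinv, hUmin⟩ :=
    H11FpMin.exists_min (rt K G) (W K G) hW (fun g w hw => rt_mem_W g hw)
  obtain ⟨n, ρ, e, he⟩ := H11FpMat.exists_mat (rt K G) U hUinv
  have hn : 0 < n := by
    rcases Nat.eq_zero_or_pos n with h0 | h0
    · subst h0
      exfalso; apply hU0
      rw [Submodule.eq_bot_iff]
      intro u hu
      have h1 : e ⟨u, hu⟩ = e 0 := Subsingleton.elim _ _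
      have h2 := e.injective h1
      exact congrArg Subtype.val h2
    · exact h0
  have hfix : ∀ g : G, g ≠ 1 → ∀ v : Fin n → K,
      ((ρ g : GL (Fin n) K) : Matrix (Fin n) (Fin n) K).mulVec v = v → v = 0 := by
    intro g hg v hv
    obtain ⟨u, rfl⟩ := e.surjective v
    rw [he] at hv
    have h1 := e.injective hv
    have h2 : rt K G g u.1 = u.1 := congrArg Subtype.val h1
    have h3 : u.1 = 0 := H11FpFix.fix_eq_zero (R := K) (fun q hq _ r hr => by
        rcases mul_eq_zero.1 hr with h | h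
        · exact absurd h (Nat.cast_ne_zero.2 hq.ne_zero)
        · exact h) (hUW u.2) hg (fun x => by have := congrFun h2 x; rwa [rt_apply] at this)
    have h4 : u = 0 := Subtype.ext h3
    rw [h4, map_zero]
  refine ⟨n, ρ, hn, ?_, ?_, hfix⟩
  · rw [injective_iff_map_eq_one]
    intro g hg
    by_contra hg1
    have h1 := hfix g hg1 (Pi.single ⟨0, hn⟩ 1) (by rw [hg]; exact Matrix.one_mulVec _)
    have h2 := congrFun h1 ⟨0, hn⟩
    simp at h2
  · intro W' hW'
    let U' : Submodule K (G → K) := (W'.comap e.toLinearMap).map U.subtype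
    have hU'U : U' ≤ U := by
      rintro _ ⟨u, _, rfl⟩; exact u.2
    have hU'inv : ∀ g, ∀ u ∈ U', rt K G g u ∈ U' := by
      rintro g _ ⟨u, hu, rfl⟩
      refine ⟨⟨rt K G g u.1, hUinv g u.1 u.2⟩, ?_, rfl⟩
      show e _ ∈ W'
      rw [← he]
      exact hW' g _ hu
    rcases hUmin U' hU'U hU'inv with h0 | h0
    · left
      rw [Submodule.eq_bot_iff]
      intro w hw
      obtain ⟨u, rfl⟩ := e.surjective w
      have h1 : u.1 ∈ U' := ⟨u, hw, rfl⟩
      rw [h0, Submodule.mem_bot] at h1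
      have h2 : u = 0 := Subtype.ext h1
      rw [h2, map_zero]
    · right
      rw [Submodule.eq_top_iff']
      intro w
      obtain ⟨u, rfl⟩ := e.surjective w
      have h1 : u.1 ∈ U' := by rw [h0]; exact u.2
      obtain ⟨u', hu', hu'e⟩ := h1
      have h2 : u' = u := Subtype.ext hu'e
      rw [← h2]; exact hu'

end Cfsg.Agent.Lib.H11FpRep
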