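import Cfsg.Agent.Lib.H11FpFix
import Cfsg.Agent.Lib.Helper75Frobenius

/-! # Project 3357, piece ToFrob (45 min) -/

set_option autoImplicit false

namespace Cfsg.Agent.Lib.H11FpToFrob

open Finset Cfsg.Agent.Lib.H11FpDefs

/-- **A certificate in a characteristic prime to `|G|` makes `G` a Frobenius complement.**

SKETCH.  `V := ↥(W (ZMod p) G)` (a submodule of `G → ZMod p`, hence a finite additive group).
It is nontrivial: it contains the certificate `μ`, and `μ 1 = 1 ≠ 0`.
`G` acts on `V` by `g • ⟨μ, h⟩ := ⟨rt (ZMod p) G g μ, rt_mem_W g h⟩`; build the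
`DistribMulAction G V` by hand (`one_smul`, `mul_smul` from `map_one`, `map_mul` of the
representation `rt`; `smul_zero`, `smul_add` from `map_zero`, `map_add`).
Fixed-point-freeness: if `g ≠ 1` and `g • w = w` then `∀ x, w.1 (x * g) = w.1 x`
(`congrFun (congrArg Subtype.val _) x`), so `w.1 = 0` by `H11FpFix.fix_eq_zero`; its hypothesis
`hR`: a prime `q ∣ |G|` is `≠ p`, so `(q : ZMod p) ≠ 0` (`ZMod.natCast_eq_zero_iff`,
`Nat.prime_dvd_prime_iff_eq`) and `ZMod p` is a field.
Finish with `Cfsg.Agent.Lib.Helper75Frobenius.exists_frobenius_of_distribMulAction` (drop the last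
component of its conclusion). -/
theorem frob_of_cert {G : Type*} [Group G] [Finite G] [Nontrivial G] (p : ℕ) [Fact p.Prime]
    (hp : ¬ p ∣ Nat.card G) (h : Cert (ZMod p) G) :
    ∃ (L : Type) (_ : Group L) (_ : Finite L) (H : Subgroup L),
      Cfsg.IsFrobeniusComplement H ∧ Nonempty (G ≃* H) := by
  have hpp : p.Prime := Fact.out
  obtain ⟨μ, hμ1, hμ⟩ := h
  letI act : DistribMulAction G (W (ZMod p) G) :=
    { smul := fun g w => ⟨rt (ZMod p) G g w.1, rt_mem_W g w.2⟩
      one_smul := fun w => Subtype.ext (by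
        show rt (ZMod p) G 1 w.1 = w.1
        rw [map_one]; rfl)
      mul_smul := fun a b w => Subtype.ext (by
        show rt (ZMod p) G (a * b) w.1 = rt (ZMod p) G a (rt (ZMod p) G b w.1)
        rw [map_mul]; rfl)
      smul_zero := fun g => Subtype.ext (by
        show rt (ZMod p) G g 0 = 0
        exact map_zero _)
      smul_add := fun g v w => Subtype.ext (by
        show rt (ZMod p) G g (v.1 + w.1) = rt (ZMod p) G g v.1 + rt (ZMod p) G g w.1
        exact map_add _ _ _) }
  have hnt : Nontrivial (W (ZMod p) G) := by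
    refine ⟨⟨⟨μ, hμ⟩, 0, ?_⟩⟩
    intro h0
    have h1 : μ 1 = 0 := congrFun (congrArg Subtype.val h0) 1
    rw [hμ1] at h1
    exact one_ne_zero h1
  have hfin : Finite (W (ZMod p) G) := by
    have : Finite (G → ZMod p) := inferInstance
    exact Subtype.finite
  obtain ⟨L, i1, i2, C, hC, hiso, -⟩ :=
    Cfsg.Agent.Lib.Helper75Frobenius.exists_frobenius_of_distribMulAction (H := G)
      (V := W (ZMod p) G) (by
      intro g hg w hw
      apply Subtype.ext
      apply Cfsg.Agent.Lib.H11FpFix.fix_eq_zero (R := ZMod p) ?_ w.2 hg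
      · intro x
        exact congrFun (congrArg Subtype.val hw) x
      · intro q hq hqG r hr
        rcases mul_eq_zero.1 hr with h1 | h1
        · exfalso
          rw [ZMod.natCast_eq_zero_iff, Nat.prime_dvd_prime_iff_eq hpp hq] at h1
          exact hp (h1 ▸ hqG)
        · exact h1)
  exact ⟨L, i1, i2, C, hC, hiso⟩

end Cfsg.Agent.Lib.H11FpToFrob
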