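import Cfsg.Agent.Lib.H11FpDefs

/-! # Project 3357, piece ToL (60 min, PURE MATHLIB + Defs) -/

set_option autoImplicit false

namespace Cfsg.Agent.Lib.H11FpToL

open Finset Cfsg.Agent.Lib.H11FpDefs

/-- **A rational certificate reduces modulo every prime.**

SKETCH.  `μ : G → ℚ`, `μ 1 = 1`, `IsC μ`; `Fintype.ofFinite G`.
(1) integral: `D := ∏ x, (μ x).den ≠ 0`, `ν x : ℤ := (μ x).num * ∏ y ∈ univ.erase x, (μ y).den`, so
`(ν x : ℚ) = D * μ x`; `IsC ν` (cast to `ℚ`: `Int.cast_injective`, `push_cast`, `← mul_sum`), `ν 1 ≠ 0`.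
(2) primitive: `Finset.extract_gcd ν univ_nonempty` gives `ν'` with `ν x = d * ν' x`
(`d := univ.gcd ν`) and `univ.gcd ν' = 1`; `d ≠ 0` because `ν 1 ≠ 0`; `IsC ν'` (cancel `d`:
`mul_sum`, `mul_eq_zero`).  Some `x₀` has `¬ (ℓ : ℤ) ∣ ν' x₀`, otherwise `ℓ ∣ gcd = 1`
(`Finset.dvd_gcd`, `Int.isUnit_iff`/`Int.natAbs_dvd_natAbs`, `Nat.Prime.one_lt`).
(3) `IsC.map hν' (Int.castAddHom (ZMod ℓ))`, and `((ν' x₀ : ℤ) : ZMod ℓ) ≠ 0`
(`ZMod.intCast_zmod_eq_zero_iff_dvd` / `(ZMod.intCast_zmod_eq_zero_iff_dvd _ ℓ).not`); `ZMod ℓ` is a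
field, so it is a unit: `Cert.of_isUnit _ x₀ (isUnit_iff_ne_zero.2 _)`. -/
theorem cert_zmod {G : Type*} [Group G] [Finite G] (h : Cert ℚ G) (l : ℕ) [Fact l.Prime] :
    Cert (ZMod l) G := by
  classical
  obtain ⟨μ, hμ1, hμ⟩ := h
  letI : Fintype G := Fintype.ofFinite G
  -- (1) integral
  obtain ⟨D, hD⟩ : ∃ D : ℕ, D = ∏ x : G, (μ x).den := ⟨_, rfl⟩
  have hD0 : (D : ℚ) ≠ 0 := by
    rw [hD]
    have : ∏ x : G, (μ x).den ≠ 0 := Finset.prod_ne_zero_iff.mpr (fun x _ => (μ x).den_nz)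
    exact_mod_cast this
  have hint : ∀ x : G, ∃ z : ℤ, (z : ℚ) = D * μ x := by
    intro x
    obtain ⟨k, hk⟩ : (μ x).den ∣ D := by
      rw [hD]
      exact Finset.dvd_prod_of_mem (fun y => (μ y).den) (Finset.mem_univ x)
    refine ⟨k * (μ x).num, ?_⟩
    rw [hk]
    push_cast
    rw [← Rat.mul_den_eq_num (μ x)]
    ring
  choose ν hν using hint
  have hνC : IsC ν := by
    intro g x hg
    apply Int.cast_injective (α := ℚ)
    rw [Int.cast_sum, Int.cast_zero, Finset.sum_congr rfl (fun i _ => hν _), ← Finset.mul_sum,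
      hμ g x hg, mul_zero]
  have hν1 : ν 1 ≠ 0 := by
    intro h0
    have := hν 1
    rw [h0, hμ1, mul_one, Int.cast_zero] at this
    exact hD0 this.symm
  -- (2) primitive
  obtain ⟨ν', hν', hgcd⟩ := Finset.extract_gcd ν (Finset.univ_nonempty (α := G))
  have hd0 : (Finset.univ : Finset G).gcd ν ≠ 0 := by
    intro h0
    apply hν1
    rw [hν' 1 (Finset.mem_univ 1), h0, zero_mul]
  have hνC' : IsC ν' := by
    intro g x hg
    have h1 := hνC g x hg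
    rw [Finset.sum_congr rfl (fun i _ => hν' _ (Finset.mem_univ _)), ← Finset.mul_sum] at h1
    exact (mul_eq_zero.mp h1).resolve_left hd0
  obtain ⟨x₀, hx₀⟩ : ∃ x₀, ¬ (l : ℤ) ∣ ν' x₀ := by
    by_contra hcon
    push Not at hcon
    have h1 : (l : ℤ) ∣ (Finset.univ : Finset G).gcd ν' := Finset.dvd_gcd (fun x _ => hcon x)
    rw [hgcd] at h1
    have h2 : l ∣ 1 := by exact_mod_cast h1
    exact (Fact.out : l.Prime).one_lt.ne' (Nat.dvd_one.mp h2)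
  -- (3)
  have hC := IsC.map hνC' (Int.castAddHom (ZMod l))
  refine Cert.of_isUnit hC x₀ (isUnit_iff_ne_zero.2 ?_)
  intro h0
  exact hx₀ ((ZMod.intCast_zmod_eq_zero_iff_dvd _ l).mp h0)

end Cfsg.Agent.Lib.H11FpToL
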