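import Cfsg.Agent.Lib.H11FpKer
import Cfsg.Agent.Lib.H11FpNmSq

/-! # Project 3357, piece Vanish (60 min) -/

set_option autoImplicit false

namespace Cfsg.Agent.Lib.H11FpVanish

open Finset Cfsg.Agent.Lib.H11FpDefs Cfsg.Agent.Lib.H11FpKer Cfsg.Agent.Lib.H11FpNmSq

variable {G : Type*} [Group G] [Finite G]

/-- **The vanishing `N_g r f = 0` lifts with the idempotent** (`p ∤ |G|`).

SKETCH.  `R := ZMod (p^(k+1))`, `A := MonoidAlgebra R G`, `N := Nm R g`, `n := orderOf g` a prime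
dividing `|G|` (`orderOf_dvd_natCard`), so `n.Coprime p` and `(n : R)` is a unit
(`ZMod.unitOfCoprime`/`(ZMod.isUnit_iff_coprime n _).2` with `Nat.Coprime.pow_right`); hence there is
`c : A` (a natural number or `algebraMap R A u⁻¹`, central) with `c * (n : A) = 1`.
CLAIM: `∀ j, ∀ r, ∃ y, N * r * f' = (p : A) ^ j * y`.  `j = 0`: trivial.  Step: `N * r * f' = p^j * y`.
Then `(n : A) * (N * r * f') = N * (N * r * f') * f'` (`Nm_mul_Nm`, `hf'.eq`, `mul_assoc`)
`= N * (p^j * y) * f' = p^j * (N * y * f')` (`Nat.cast_commute`, `Commute.pow_left`).  Now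
`red (N * y * f') = Nm (ZMod p) g * red y * red f' = 0` (`map_mul`, `red_Nm`, `h`), so
`N * y * f' = p * y'` by `exists_of_red_eq_zero`.  Multiply by `c`:
`N * r * f' = p^(j+1) * (c * y')`.
Take `j = k + 1`: `(p : A)^(k+1) = 0` (see piece Lift: `← Nat.cast_pow`,
`← map_natCast (algebraMap R A)`, `ZMod.natCast_self`). -/
theorem vanish (p k : ℕ) [Fact p.Prime] (hp : ¬ p ∣ Nat.card G)
    (f' : MonoidAlgebra (ZMod (p ^ (k + 1))) G) (hf' : IsIdempotentElem f')
    (h : ∀ g : G, (orderOf g).Prime → ∀ r : MonoidAlgebra (ZMod p) G,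
      Nm (ZMod p) g * r * red G p k f' = 0) :
    ∀ g : G, (orderOf g).Prime → ∀ r : MonoidAlgebra (ZMod (p ^ (k + 1))) G,
      Nm (ZMod (p ^ (k + 1))) g * r * f' = 0 := by
  intro g hg r
  have hpp : p.Prime := Fact.out
  have hnp : (orderOf g).Coprime p := by
    rw [Nat.coprime_primes hg hpp]
    intro h0
    exact hp (h0 ▸ orderOf_dvd_natCard g)
  have hunit : IsUnit ((orderOf g : ℕ) : ZMod (p ^ (k + 1))) :=
    (ZMod.isUnit_iff_coprime _ _).2 (Nat.Coprime.pow_right _ hnp)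
  obtain ⟨u, hu⟩ := hunit
  obtain ⟨c, hc, hcc⟩ : ∃ c : MonoidAlgebra (ZMod (p ^ (k + 1))) G,
      c * (orderOf g : MonoidAlgebra (ZMod (p ^ (k + 1))) G) = 1 ∧ ∀ a, Commute c a := by
    refine ⟨algebraMap (ZMod (p ^ (k + 1))) (MonoidAlgebra (ZMod (p ^ (k + 1))) G) (↑u⁻¹), ?_,
      fun a => Algebra.commutes _ a⟩
    have h1 : (orderOf g : MonoidAlgebra (ZMod (p ^ (k + 1))) G)
        = algebraMap (ZMod (p ^ (k + 1))) (MonoidAlgebra (ZMod (p ^ (k + 1))) G)
          ((orderOf g : ℕ) : ZMod (p ^ (k + 1))) := (map_natCast _ _).symm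
    rw [h1, ← map_mul, ← hu, Units.inv_mul, map_one]
  have claim : ∀ j : ℕ, ∀ r : MonoidAlgebra (ZMod (p ^ (k + 1))) G,
      ∃ y, Nm (ZMod (p ^ (k + 1))) g * r * f'
        = (p : MonoidAlgebra (ZMod (p ^ (k + 1))) G) ^ j * y := by
    intro j
    induction j with
    | zero => intro r; exact ⟨_, by rw [pow_zero, one_mul]⟩
    | succ j ih =>
      intro r
      obtain ⟨y, hy⟩ := ih r
      have hred : red G p k (Nm (ZMod (p ^ (k + 1))) g * y * f') = 0 := by
        rw [map_mul, map_mul, red_Nm]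
        exact h g hg _
      obtain ⟨y', hy'⟩ := exists_of_red_eq_zero p k _ hred
      have hpc : ∀ a : MonoidAlgebra (ZMod (p ^ (k + 1))) G,
          Commute ((p : MonoidAlgebra (ZMod (p ^ (k + 1))) G) ^ j) a :=
        fun a => (Nat.cast_commute p a).pow_left j
      have h1 : (orderOf g : MonoidAlgebra (ZMod (p ^ (k + 1))) G)
          * (Nm (ZMod (p ^ (k + 1))) g * r * f')
          = (p : MonoidAlgebra (ZMod (p ^ (k + 1))) G) ^ (j + 1) * y' := by
        calc (orderOf g : MonoidAlgebra (ZMod (p ^ (k + 1))) G)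
              * (Nm (ZMod (p ^ (k + 1))) g * r * f')
            = ((orderOf g : MonoidAlgebra (ZMod (p ^ (k + 1))) G) * Nm (ZMod (p ^ (k + 1))) g)
                * r * (f' * f') := by rw [hf'.eq]; simp only [mul_assoc]
          _ = Nm (ZMod (p ^ (k + 1))) g * (Nm (ZMod (p ^ (k + 1))) g * r * f') * f' := by
              rw [← Nm_mul_Nm]; simp only [mul_assoc]
          _ = Nm (ZMod (p ^ (k + 1))) g * ((p : MonoidAlgebra (ZMod (p ^ (k + 1))) G) ^ j * y)
                * f' := by rw [hy]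
          _ = (p : MonoidAlgebra (ZMod (p ^ (k + 1))) G) ^ j
                * (Nm (ZMod (p ^ (k + 1))) g * y * f') := by
              rw [← mul_assoc, ← (hpc _).eq]; simp only [mul_assoc]
          _ = (p : MonoidAlgebra (ZMod (p ^ (k + 1))) G) ^ (j + 1) * y' := by
              rw [hy', ← mul_assoc]; congr 1
      refine ⟨c * y', ?_⟩
      calc Nm (ZMod (p ^ (k + 1))) g * r * f'
          = c * ((orderOf g : MonoidAlgebra (ZMod (p ^ (k + 1))) G)
              * (Nm (ZMod (p ^ (k + 1))) g * r * f')) := by rw [← mul_assoc, hc, one_mul]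
        _ = c * ((p : MonoidAlgebra (ZMod (p ^ (k + 1))) G) ^ (j + 1) * y') := by rw [h1]
        _ = (p : MonoidAlgebra (ZMod (p ^ (k + 1))) G) ^ (j + 1) * (c * y') := by
            rw [← mul_assoc, (hcc _).eq, mul_assoc]
  obtain ⟨y, hy⟩ := claim (k + 1) r
  have hz : (p : MonoidAlgebra (ZMod (p ^ (k + 1))) G) ^ (k + 1) = 0 := by
    rw [← Nat.cast_pow,
      ← map_natCast (algebraMap (ZMod (p ^ (k + 1))) (MonoidAlgebra (ZMod (p ^ (k + 1))) G)),
      ZMod.natCast_self, map_zero]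
  rw [hy, hz, zero_mul]

end Cfsg.Agent.Lib.H11FpVanish
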