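import Mathlib
import Cfsg.Agent.Lib.H12RSLMem

/-! piece `SLConj` of project 12, wave 2 (rows S5043, S5058: transvection groups of `SL_N(k)`).
Vectors and covectors are functions `Fin N → k`, pairing `φ ⬝ᵥ x`; `tvS p φ c` = `x ↦ x + c φ(x) p`;
API in `H12RSLDefs`: `tvS_coe`, `tvS_mulVec`, `tvS_vecMul`, `TSL`, `Inc`, `E01`, `SigSL`, `DSL`. -/

set_option autoImplicit false

namespace Cfsg.Agent.Lib.H12RSLConj

open Matrix Cfsg Cfsg.Agent.Lib.H12RSLDefs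
open Cfsg.Agent.Lib.H12RSLMem

variable {k : Type*} [Field k] {N : ℕ}

theorem dot_conj (g : Matrix.SpecialLinearGroup (Fin N) k) (p φ : Fin N → k) : (φ ᵥ* ((g⁻¹ : Matrix.SpecialLinearGroup (Fin N) k) : Matrix (Fin N) (Fin N) k)) ⬝ᵥ ((g : Matrix (Fin N) (Fin N) k) *ᵥ p) = φ ⬝ᵥ p := by
  rw [← Matrix.dotProduct_mulVec, coe_inv_mulVec']

theorem conj_tvS (g : Matrix.SpecialLinearGroup (Fin N) k) {p φ : Fin N → k} (h : φ ⬝ᵥ p = 0) (c : k) :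
    g * tvS p φ c * g⁻¹ = tvS ((g : Matrix (Fin N) (Fin N) k) *ᵥ p) (φ ᵥ* ((g⁻¹ : Matrix.SpecialLinearGroup (Fin N) k) : Matrix (Fin N) (Fin N) k)) c := by
  have h' := (dot_conj g p φ).trans h
  apply ext_mulVec
  intro v
  rw [coe_mul_mulVec, coe_mul_mulVec, tvS_mulVec h, tvS_mulVec h', mulVec_add, coe_inv_mulVec,
    mulVec_smul, ← Matrix.dotProduct_mulVec]

theorem inc_conj (g : Matrix.SpecialLinearGroup (Fin N) k) {p φ : Fin N → k} (h : Inc p φ) : Inc ((g : Matrix (Fin N) (Fin N) k) *ᵥ p) (φ ᵥ* ((g⁻¹ : Matrix.SpecialLinearGroup (Fin N) k) : Matrix (Fin N) (Fin N) k)) := by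
  refine ⟨?_, ?_, (dot_conj g p φ).trans h.2.2⟩
  · intro h0
    apply h.1
    rw [← coe_inv_mulVec' g p, h0, mulVec_zero]
  · intro h0
    apply h.2.1
    have h1 : (φ ᵥ* ((g⁻¹ : Matrix.SpecialLinearGroup (Fin N) k) : Matrix (Fin N) (Fin N) k)) ᵥ* (g : Matrix (Fin N) (Fin N) k) = φ := by
      rw [vecMul_vecMul, ← Matrix.SpecialLinearGroup.coe_mul, inv_mul_cancel,
        Matrix.SpecialLinearGroup.coe_one, vecMul_one]
    rw [← h1, h0, zero_vecMul]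

theorem conjBy_TSL (g : Matrix.SpecialLinearGroup (Fin N) k) {p φ : Fin N → k} (h : φ ⬝ᵥ p = 0) :
    conjBy (TSL p φ) g = TSL ((g : Matrix (Fin N) (Fin N) k) *ᵥ p) (φ ᵥ* ((g⁻¹ : Matrix.SpecialLinearGroup (Fin N) k) : Matrix (Fin N) (Fin N) k)) := by
  have h' := (dot_conj g p φ).trans h
  ext x
  rw [mem_TSL_iff h']
  unfold conjBy
  rw [Subgroup.mem_map]
  constructor
  · rintro ⟨y, hy, rfl⟩
    obtain ⟨c, rfl⟩ := (mem_TSL_iff h y).mp hy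
    exact ⟨c, by rw [← conj_tvS g h]; simp [MulAut.conj_apply]⟩
  · rintro ⟨c, rfl⟩
    exact ⟨tvS p φ c, (mem_TSL_iff h _).mpr ⟨c, rfl⟩, by rw [← conj_tvS g h]; simp [MulAut.conj_apply]⟩

end Cfsg.Agent.Lib.H12RSLConj
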