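import Mathlib
import Cfsg.Agent.Lib.H12RSLMove
import Cfsg.Agent.Lib.H12RSLConj

/-! piece `SLSig` of project 12, wave 2 (rows S5043, S5058: transvection groups of `SL_N(k)`).
Vectors and covectors are functions `Fin N → k`, pairing `φ ⬝ᵥ x`; `tvS p φ c` = `x ↦ x + c φ(x) p`;
API in `H12RSLDefs`: `tvS_coe`, `tvS_mulVec`, `tvS_vecMul`, `TSL`, `Inc`, `E01`, `SigSL`, `DSL`. -/

set_option autoImplicit false

namespace Cfsg.Agent.Lib.H12RSLSig

open Matrix Cfsg Cfsg.Agent.Lib.H12RSLDefs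
open Cfsg.Agent.Lib.H12RSLMem Cfsg.Agent.Lib.H12RSLMove Cfsg.Agent.Lib.H12RSLConj

variable {k : Type*} [Field k] {N : ℕ}

theorem inc_std (n : ℕ) : Inc (Pi.single 0 1 : Fin (n + 3) → k) (Pi.single 1 1) := by
  refine ⟨?_, ?_, ?_⟩
  · intro h
    have := congrFun h 0
    simp at this
  · intro h
    have := congrFun h 1
    simp at this
  · rw [dotProduct_single, mul_one]
    have h10 : (0 : Fin (n + 3)) ≠ 1 := by
      intro h
      have := congrArg Fin.val h
      simp at this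
    exact Pi.single_eq_of_ne h10 _

theorem transvection_eq (n : ℕ) (i j : Fin (n + 3)) (c : k) :
    Matrix.transvection i j c = 1 + c • vecMulVec (Pi.single i 1 : Fin (n + 3) → k) (Pi.single j 1) := by
  unfold Matrix.transvection
  congr 1
  ext a b
  simp only [Matrix.single_apply, Matrix.smul_apply, vecMulVec_apply, Pi.single_apply, smul_eq_mul]
  by_cases h1 : a = i
  · by_cases h2 : b = j
    · simp [h1, h2]
    · simp [h1, h2, Ne.symm h2]
  · simp [h1, Ne.symm h1]

theorem E01_eq (n : ℕ) : E01 k n = TSL (Pi.single 0 1) (Pi.single 1 1) := by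
  unfold E01 TSL
  congr 1
  ext t
  simp only [Set.mem_ofPred_eq, transvection_eq]

theorem mem_SigSL_iff (n : ℕ) (A : Subgroup (Matrix.SpecialLinearGroup (Fin (n + 3)) k)) :
    A ∈ SigSL k n ↔ ∃ p φ : Fin (n + 3) → k, Inc p φ ∧ A = TSL p φ := by
  constructor
  · rintro ⟨g, rfl⟩
    rw [E01_eq, conjBy_TSL g (inc_std n).2.2]
    exact ⟨_, _, inc_conj g (inc_std n), rfl⟩
  · rintro ⟨p, φ, h, rfl⟩
    obtain ⟨g, h1, h2⟩ := exists_move (by omega) (inc_std (k := k) n) h
    refine ⟨g, ?_⟩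
    rw [E01_eq, conjBy_TSL g (inc_std n).2.2, h1, h2]

end Cfsg.Agent.Lib.H12RSLSig
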