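import Mathlib
import Cfsg.Agent.Lib.H12RSLSig

/-! piece `InvMem` of project 12, wave 2 (row S5058: the transvections of `SL_N(F)`, `F` finite of
characteristic 2, are a class of root involutions).  `tvS p φ c` = `x ↦ x + c φ(x) p`;
API in `H12RSLDefs` (`tvS_coe`, `tvS_mulVec`, `tvS_vecMul`, `Inc`, `DSL`) and `H12RSLMem`. -/

set_option autoImplicit false

namespace Cfsg.Agent.Lib.H12RInvMem

open Matrix Cfsg Cfsg.Agent.Lib.H12RSLDefs Cfsg.Agent.Lib.H12RSLMem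
open Cfsg.Agent.Lib.H12RSLSig Cfsg.Agent.Lib.H12RSLMove Cfsg.Agent.Lib.H12RSLConj

variable {F : Type*} [Field F] {N : ℕ}

theorem mem_DSL_iff (n : ℕ) (t : Matrix.SpecialLinearGroup (Fin (n + 3)) F) :
    t ∈ DSL F n ↔ ∃ p φ : Fin (n + 3) → F, Inc p φ ∧ t = tvS p φ 1 := by
  have hstd := inc_std (k := F) n
  constructor
  · rintro ⟨c, hc, g, hg⟩
    have h1 : g⁻¹ * t * g = tvS (Pi.single 0 1) (Pi.single 1 1) c := by
      apply Subtype.ext
      rw [hg, tvS_coe hstd.2.2, transvection_eq]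
    have h2 : t = g * tvS (Pi.single 0 1) (Pi.single 1 1) c * g⁻¹ := by
      rw [← h1]
      simp only [mul_assoc, mul_inv_cancel, mul_one, mul_inv_cancel_left]
    have hinc := inc_conj g hstd
    refine ⟨c • ((g : Matrix (Fin (n + 3)) (Fin (n + 3)) F) *ᵥ Pi.single 0 1), _,
      ⟨smul_ne_zero hc hinc.1, hinc.2.1, ?_⟩, ?_⟩
    · rw [dotProduct_smul, hinc.2.2, smul_zero]
    · rw [h2, conj_tvS g hstd.2.2, tvS_smul_left hinc.2.2, mul_one]
  · rintro ⟨p, φ, h, rfl⟩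
    obtain ⟨g, hg1, hg2⟩ := exists_move (by omega) hstd h
    refine ⟨1, one_ne_zero, g, ?_⟩
    have h1 := conj_tvS g hstd.2.2 (1 : F)
    rw [hg1, hg2] at h1
    have h2 : g⁻¹ * tvS p φ 1 * g = tvS (Pi.single 0 1) (Pi.single 1 1) 1 := by
      rw [← h1]
      simp only [mul_assoc, inv_mul_cancel, mul_one, inv_mul_cancel_left]
    rw [h2, tvS_coe hstd.2.2, transvection_eq]

end Cfsg.Agent.Lib.H12RInvMem
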