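import Mathlib
import Cfsg.Agent.Lib.H12RInvMem
import Cfsg.Agent.Lib.Helper6SL

/-! piece `InvBasic` of project 12, wave 2 (row S5058: the transvections of `SL_N(F)`, `F` finite of
characteristic 2, are a class of root involutions).  `tvS p φ c` = `x ↦ x + c φ(x) p`;
API in `H12RSLDefs` (`tvS_coe`, `tvS_mulVec`, `tvS_vecMul`, `Inc`, `DSL`) and `H12RSLMem`. -/

set_option autoImplicit false

namespace Cfsg.Agent.Lib.H12RInvBasic

open Matrix Cfsg Cfsg.Agent.Lib.H12RSLDefs Cfsg.Agent.Lib.H12RSLMem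
open Cfsg.Agent.Lib.H12RSLSig Cfsg.Agent.Lib.H12RSLMove Cfsg.Agent.Lib.H12RSLConj Cfsg.Agent.Lib.H12RInvMem

variable {F : Type*} [Field F] {N : ℕ}

theorem orderOf_tvS [CharP F 2] {p φ : Fin N → F} (h : Inc p φ) : orderOf (tvS p φ (1 : F)) = 2 := by
  haveI : Fact (Nat.Prime 2) := ⟨Nat.prime_two⟩
  apply orderOf_eq_prime
  · rw [sq, tvS_mul h.2.2, CharTwo.add_self_eq_zero, tvS_zero]
  · rw [Ne, tvS_eq_one_iff h]
    exact one_ne_zero

/-- `Helper6SL.transvection_induction`; `transvection hij c = tvS (c • single i 1) (single j 1) 1` for `c ≠ 0` -/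
theorem closure_DSL (n : ℕ) : Subgroup.closure (DSL F n) = ⊤ := by
  rw [eq_top_iff]
  intro A _
  refine Cfsg.Agent.Lib.Helper6SL.transvection_induction
    (fun A => A ∈ Subgroup.closure (DSL F n)) ?_ (fun A B hA hB => Subgroup.mul_mem _ hA hB) A
  intro i j hij c
  by_cases hc : c = 0
  · subst hc
    rw [Matrix.SpecialLinearGroup.transvection_coeff_zero]
    exact Subgroup.one_mem _
  · apply Subgroup.subset_closure
    rw [mem_DSL_iff]
    have hdot : (Pi.single j 1 : Fin (n + 3) → F) ⬝ᵥ (Pi.single i 1 : Fin (n + 3) → F) = 0 := by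
      rw [single_dotProduct, one_mul, Pi.single_eq_of_ne hij.symm]
    refine ⟨c • Pi.single i 1, Pi.single j 1, ⟨?_, ?_, ?_⟩, ?_⟩
    · apply smul_ne_zero hc
      intro h0
      have := congrFun h0 i
      simp at this
    · intro h0
      have := congrFun h0 j
      simp at this
    · rw [dotProduct_smul, hdot, smul_zero]
    · rw [tvS_smul_left hdot, mul_one]
      apply Subtype.ext
      rw [tvS_coe hdot]
      exact transvection_eq n i j c

theorem conj_mem_DSL (n : ℕ) {d : Matrix.SpecialLinearGroup (Fin (n + 3)) F} (hd : d ∈ DSL F n)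
    (g : Matrix.SpecialLinearGroup (Fin (n + 3)) F) : g * d * g⁻¹ ∈ DSL F n := by
  obtain ⟨c, hc, x, hx⟩ := hd
  refine ⟨c, hc, g * x, ?_⟩
  have e : (g * x)⁻¹ * (g * d * g⁻¹) * (g * x) = x⁻¹ * d * x := by
    simp only [_root_.mul_inv_rev, mul_assoc, inv_mul_cancel_left]
  rw [e]
  exact hx

/-- `exists_move` + `conj_tvS` -/
theorem exists_conj_DSL (n : ℕ) {a b : Matrix.SpecialLinearGroup (Fin (n + 3)) F} (ha : a ∈ DSL F n)
    (hb : b ∈ DSL F n) : ∃ g : Matrix.SpecialLinearGroup (Fin (n + 3)) F, b = g * a * g⁻¹ := by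
  obtain ⟨p, φ, h1, rfl⟩ := (mem_DSL_iff n a).1 ha
  obtain ⟨r, ψ, h2, rfl⟩ := (mem_DSL_iff n b).1 hb
  obtain ⟨g, hg1, hg2⟩ := exists_move (by omega) h1 h2
  refine ⟨g, ?_⟩
  rw [conj_tvS g h1.2.2, hg1, hg2]

theorem DSL_nonempty (n : ℕ) : (DSL F n).Nonempty :=
  ⟨tvS (Pi.single 0 1) (Pi.single 1 1) 1, (mem_DSL_iff n _).2 ⟨_, _, inc_std n, rfl⟩⟩

end Cfsg.Agent.Lib.H12RInvBasic
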