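import Mathlib
import Cfsg.Agent.Lib.H12RInvMem

/-! piece `InvFour` of project 12, wave 2 (row S5058: the transvections of `SL_N(F)`, `F` finite of
characteristic 2, are a class of root involutions).  `tvS p φ c` = `x ↦ x + c φ(x) p`;
API in `H12RSLDefs` (`tvS_coe`, `tvS_mulVec`, `tvS_vecMul`, `Inc`, `DSL`) and `H12RSLMem`. -/

set_option autoImplicit false

namespace Cfsg.Agent.Lib.H12RInvFour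

open Matrix Cfsg Cfsg.Agent.Lib.H12RSLDefs Cfsg.Agent.Lib.H12RSLMem
open Cfsg.Agent.Lib.H12RInvMem

variable {F : Type*} [Field F] {N : ℕ}

theorem sq_eq [CharP F 2] {p φ r ψ : Fin N → F} (h1 : φ ⬝ᵥ p = 0) (h2 : ψ ⬝ᵥ r = 0) (h4 : ψ ⬝ᵥ p = 0) :
    (tvS p φ (1 : F) * tvS r ψ 1) ^ 2 = tvS p ψ (φ ⬝ᵥ r) := by
  have h2' : (2 : F) = 0 := CharTwo.two_eq_zero
  apply ext_mulVec
  intro v
  rw [sq, coe_mul_mulVec, coe_mul_mulVec, coe_mul_mulVec, tvS_mulVec h2, tvS_mulVec h1,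
    tvS_mulVec h2, tvS_mulVec h1, tvS_mulVec h4]
  simp only [dotProduct_add, dotProduct_smul, h1, h2, h4, smul_eq_mul, mul_zero, add_zero, one_mul]
  have e1 : ψ ⬝ᵥ v + ψ ⬝ᵥ v = 0 := by linear_combination (ψ ⬝ᵥ v) * h2'
  have e2 : (φ ⬝ᵥ v + ψ ⬝ᵥ v * φ ⬝ᵥ r) + (φ ⬝ᵥ v + ψ ⬝ᵥ v * φ ⬝ᵥ r + ψ ⬝ᵥ v * φ ⬝ᵥ r)
      = φ ⬝ᵥ r * ψ ⬝ᵥ v := by
    linear_combination (φ ⬝ᵥ v + ψ ⬝ᵥ v * φ ⬝ᵥ r) * h2'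
  calc _ = v + (ψ ⬝ᵥ v + ψ ⬝ᵥ v) • r + ((φ ⬝ᵥ v + ψ ⬝ᵥ v * φ ⬝ᵥ r)
        + (φ ⬝ᵥ v + ψ ⬝ᵥ v * φ ⬝ᵥ r + ψ ⬝ᵥ v * φ ⬝ᵥ r)) • p := by module
    _ = _ := by
      rw [e1, e2]
      simp

theorem sq_eq' [CharP F 2] {p φ r ψ : Fin N → F} (h1 : φ ⬝ᵥ p = 0) (h2 : ψ ⬝ᵥ r = 0) (h3 : φ ⬝ᵥ r = 0) :
    (tvS p φ (1 : F) * tvS r ψ 1) ^ 2 = tvS r φ (ψ ⬝ᵥ p) := by
  have h2' : (2 : F) = 0 := CharTwo.two_eq_zero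
  apply ext_mulVec
  intro v
  rw [sq, coe_mul_mulVec, coe_mul_mulVec, coe_mul_mulVec, tvS_mulVec h2, tvS_mulVec h1,
    tvS_mulVec h2, tvS_mulVec h1, tvS_mulVec h3]
  simp only [dotProduct_add, dotProduct_smul, h1, h2, h3, smul_eq_mul, mul_zero, add_zero, one_mul]
  have e1 : φ ⬝ᵥ v + φ ⬝ᵥ v = 0 := by linear_combination (φ ⬝ᵥ v) * h2'
  have e2 : ψ ⬝ᵥ v + (ψ ⬝ᵥ v + φ ⬝ᵥ v * ψ ⬝ᵥ p) = ψ ⬝ᵥ p * φ ⬝ᵥ v := by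
    linear_combination (ψ ⬝ᵥ v) * h2'
  calc _ = v + (ψ ⬝ᵥ v + (ψ ⬝ᵥ v + φ ⬝ᵥ v * ψ ⬝ᵥ p)) • r + (φ ⬝ᵥ v + φ ⬝ᵥ v) • p := by module
    _ = _ := by
      rw [e1, e2]
      simp

private theorem four_aux [CharP F 2] (n : ℕ) {p ψ : Fin (n + 3) → F} (h : Inc p ψ) {s : F} (hs : s ≠ 0)
    {x : Matrix.SpecialLinearGroup (Fin (n + 3)) F} (hx : x ^ 2 = tvS p ψ s) :
    orderOf x = 4 ∧ x ^ 2 ∈ DSL F n := by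
  constructor
  · haveI : Fact (Nat.Prime 2) := ⟨Nat.prime_two⟩
    have := orderOf_eq_prime_pow (x := x) (p := 2) (n := 1) (by
      rw [pow_one, hx, tvS_eq_one_iff h]
      exact hs) (by
      have : x ^ 2 ^ (1 + 1) = x ^ 2 * x ^ 2 := by
        rw [← pow_add]; norm_num
      rw [this, hx, tvS_mul h.2.2, CharTwo.add_self_eq_zero, tvS_zero])
    simpa using this
  · rw [hx, mem_DSL_iff]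
    refine ⟨s • p, ψ, ⟨smul_ne_zero hs h.1, h.2.1, ?_⟩, ?_⟩
    · rw [dotProduct_smul, h.2.2, smul_zero]
    · rw [tvS_smul_left h.2.2, mul_one]

theorem four [CharP F 2] (n : ℕ) {p φ r ψ : Fin (n + 3) → F} (h1 : Inc p φ) (h2 : Inc r ψ)
    (h3 : φ ⬝ᵥ r ≠ 0) (h4 : ψ ⬝ᵥ p = 0) :
    orderOf (tvS p φ (1 : F) * tvS r ψ 1) = 4 ∧ (tvS p φ (1 : F) * tvS r ψ 1) ^ 2 ∈ DSL F n :=
  four_aux n ⟨h1.1, h2.2.1, h4⟩ h3 (sq_eq h1.2.2 h2.2.2 h4)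

theorem four' [CharP F 2] (n : ℕ) {p φ r ψ : Fin (n + 3) → F} (h1 : Inc p φ) (h2 : Inc r ψ)
    (h3 : φ ⬝ᵥ r = 0) (h4 : ψ ⬝ᵥ p ≠ 0) :
    orderOf (tvS p φ (1 : F) * tvS r ψ 1) = 4 ∧ (tvS p φ (1 : F) * tvS r ψ 1) ^ 2 ∈ DSL F n :=
  four_aux n ⟨h2.1, h1.2.1, h3⟩ h4 (sq_eq' h1.2.2 h2.2.2 h3)

end Cfsg.Agent.Lib.H12RInvFour
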