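import Mathlib
import Cfsg.Agent.Lib.H12RSLMem

/-! piece `InvOdd` of project 12, wave 2 (row S5058: the transvections of `SL_N(F)`, `F` finite of
characteristic 2, are a class of root involutions).  `tvS p φ c` = `x ↦ x + c φ(x) p`;
API in `H12RSLDefs` (`tvS_coe`, `tvS_mulVec`, `tvS_vecMul`, `Inc`, `DSL`) and `H12RSLMem`. -/

set_option autoImplicit false

namespace Cfsg.Agent.Lib.H12RInvOdd

open Matrix Cfsg Cfsg.Agent.Lib.H12RSLDefs Cfsg.Agent.Lib.H12RSLMem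

variable {F : Type*} [Field F] {N : ℕ}

private theorem one_mulVec'' (x : Fin N → F) :
    ((1 : Matrix.SpecialLinearGroup (Fin N) F) : Matrix (Fin N) (Fin N) F) *ᵥ x = x := by
  simp

/-- an element `z` with `z² = 1` commuting with `tvS p φ 1` fixes `p` (characteristic 2) -/
theorem fix_of_comm [CharP F 2] {p φ : Fin N → F} (h : Inc p φ) {z : Matrix.SpecialLinearGroup (Fin N) F}
    (hz : z ^ 2 = 1) (hc : z * tvS p φ 1 = tvS p φ 1 * z) :
    (z : Matrix (Fin N) (Fin N) F) *ᵥ p = p := by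
  obtain ⟨hp, hφ, hinc⟩ := h
  obtain ⟨i, hi⟩ : ∃ i, φ i ≠ 0 := by
    by_contra hcon
    push Not at hcon
    exact hφ (funext hcon)
  set x : Fin N → F := Pi.single i 1 with hx
  have hφx : φ ⬝ᵥ x ≠ 0 := by
    rw [hx, dotProduct_single, mul_one]
    exact hi
  have h1 := congrArg (fun g : Matrix.SpecialLinearGroup (Fin N) F =>
    (g : Matrix (Fin N) (Fin N) F) *ᵥ x) hc
  rw [coe_mul_mulVec, coe_mul_mulVec, tvS_mulVec hinc, tvS_mulVec hinc, mulVec_add,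
    mulVec_smul, one_mul, one_mul, add_right_inj] at h1
  set lam : F := (φ ⬝ᵥ ((z : Matrix (Fin N) (Fin N) F) *ᵥ x)) / (φ ⬝ᵥ x) with hlam
  have h2 : (z : Matrix (Fin N) (Fin N) F) *ᵥ p = lam • p := by
    have := congrArg (fun v => (φ ⬝ᵥ x)⁻¹ • v) h1
    simp only [smul_smul, inv_mul_cancel₀ hφx, one_smul] at this
    rw [this, hlam]
    congr 1
    field_simp
  have h3 : (z : Matrix (Fin N) (Fin N) F) *ᵥ ((z : Matrix (Fin N) (Fin N) F) *ᵥ p) = p := by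
    rw [← coe_mul_mulVec, ← sq, hz, one_mulVec'']
  rw [h2, mulVec_smul, h2, smul_smul] at h3
  have h4 : lam * lam = 1 := by
    by_contra hne
    have h5 : (lam * lam - 1) • p = 0 := by
      rw [sub_smul, one_smul, h3, sub_self]
    rcases smul_eq_zero.1 h5 with h6 | h6
    · exact hne (sub_eq_zero.1 h6)
    · exact hp h6
  have h5 : (lam - 1) ^ 2 = 0 := by
    have h2' : (2 : F) = 0 := CharTwo.two_eq_zero
    linear_combination h4 + (1 - lam) * h2'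
  have h6 : lam = 1 := sub_eq_zero.1 (pow_eq_zero_iff (two_ne_zero) |>.1 h5)
  rw [h2, h6, one_smul]

private theorem pow_fix {g : Matrix.SpecialLinearGroup (Fin N) F} {x : Fin N → F}
    (h : (g : Matrix (Fin N) (Fin N) F) *ᵥ x = x) (m : ℕ) :
    ((g ^ m : Matrix.SpecialLinearGroup (Fin N) F) : Matrix (Fin N) (Fin N) F) *ᵥ x = x := by
  induction m with
  | zero => rw [pow_zero, one_mulVec'']
  | succ m ih => rw [pow_succ, coe_mul_mulVec, h, ih]

private theorem comm_of_inv {G : Type*} [Group G] {a g : G} (h : a * g * a⁻¹ = g⁻¹) (m : ℕ)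
    (hz : (g ^ m) ^ 2 = 1) : g ^ m * a = a * g ^ m := by
  have h1 : a * g ^ m * a⁻¹ = (g ^ m)⁻¹ := by
    rw [← conj_pow, h, inv_pow]
  have h2 : (g ^ m)⁻¹ = g ^ m := by
    rw [inv_eq_iff_mul_eq_one, ← sq, hz]
  rw [h2, mul_inv_eq_iff_eq_mul] at h1
  exact h1.symm

theorem odd [Finite F] [CharP F 2] {p φ r ψ : Fin N → F} (h1 : Inc p φ) (h2 : Inc r ψ) (h3 : φ ⬝ᵥ r ≠ 0)
    (h4 : ψ ⬝ᵥ p ≠ 0) : Odd (orderOf (tvS p φ (1 : F) * tvS r ψ 1)) := by
  have h11 : (1 : F) + 1 = 0 := CharTwo.add_self_eq_zero 1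
  have haa : tvS p φ (1 : F) * tvS p φ 1 = 1 := by rw [tvS_mul h1.2.2, h11, tvS_zero]
  have hbb : tvS r ψ (1 : F) * tvS r ψ 1 = 1 := by rw [tvS_mul h2.2.2, h11, tvS_zero]
  set a := tvS p φ (1 : F) with ha
  set b := tvS r ψ (1 : F) with hb
  have hai : a⁻¹ = a := inv_eq_of_mul_eq_one_left haa
  have hbi : b⁻¹ = b := inv_eq_of_mul_eq_one_left hbb
  by_contra hodd
  rw [Nat.not_odd_iff_even] at hodd
  obtain ⟨m, hm⟩ := hodd
  haveI : Finite (Matrix.SpecialLinearGroup (Fin N) F) := Subtype.finite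
  have hpos : 0 < orderOf (a * b) := orderOf_pos _
  have hz1 : (a * b) ^ m ≠ 1 := pow_ne_one_of_lt_orderOf (by omega) (by omega)
  have hz2 : ((a * b) ^ m) ^ 2 = 1 := by
    rw [← pow_mul, mul_two, ← hm, pow_orderOf_eq_one]
  have hca : (a * b) ^ m * a = a * (a * b) ^ m := by
    apply comm_of_inv _ m hz2
    rw [_root_.mul_inv_rev, hai, hbi, ← mul_assoc, haa, one_mul]
  have hcb : (a * b) ^ m * b = b * (a * b) ^ m := by
    apply comm_of_inv _ m hz2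
    rw [_root_.mul_inv_rev, hai, hbi, mul_assoc, mul_assoc, hbb, mul_one]
  have hzp := fix_of_comm h1 hz2 hca
  have hzr := fix_of_comm h2 hz2 hcb
  apply hz1
  apply ext_mulVec
  intro x
  rw [one_mulVec'']
  set x₀ : Fin N → F := x - ((ψ ⬝ᵥ x) / (ψ ⬝ᵥ p)) • p - ((φ ⬝ᵥ x) / (φ ⬝ᵥ r)) • r with hx₀
  have e1 : φ ⬝ᵥ x₀ = 0 := by
    rw [hx₀, dotProduct_sub, dotProduct_sub, dotProduct_smul, dotProduct_smul, h1.2.2,
      smul_eq_mul, smul_eq_mul]
    field_simp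
    ring
  have e2 : ψ ⬝ᵥ x₀ = 0 := by
    rw [hx₀, dotProduct_sub, dotProduct_sub, dotProduct_smul, dotProduct_smul, h2.2.2,
      smul_eq_mul, smul_eq_mul]
    field_simp
    ring
  have hfix : ((a * b : Matrix.SpecialLinearGroup (Fin N) F) : Matrix (Fin N) (Fin N) F) *ᵥ x₀
      = x₀ := by
    rw [coe_mul_mulVec, hb, tvS_mulVec h2.2.2, e2, mul_zero, zero_smul, add_zero, ha,
      tvS_mulVec h1.2.2, e1, mul_zero, zero_smul, add_zero]
  have hx : x = x₀ + ((ψ ⬝ᵥ x) / (ψ ⬝ᵥ p)) • p + ((φ ⬝ᵥ x) / (φ ⬝ᵥ r)) • r := by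
    rw [hx₀]; abel
  conv_lhs => rw [hx]
  rw [mulVec_add, mulVec_add, mulVec_smul, mulVec_smul, hzp, hzr, pow_fix hfix m]
  exact hx.symm

end Cfsg.Agent.Lib.H12RInvOdd
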