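import Mathlib
import Cfsg.Agent.Lib.H12RSLMem

/-! piece `InvThree` of project 12, wave 2 (row S5058: the transvections of `SL_N(F)`, `F` finite of
characteristic 2, are a class of root involutions).  `tvS p φ c` = `x ↦ x + c φ(x) p`;
API in `H12RSLDefs` (`tvS_coe`, `tvS_mulVec`, `tvS_vecMul`, `Inc`, `DSL`) and `H12RSLMem`. -/

set_option autoImplicit false

namespace Cfsg.Agent.Lib.H12RInvThree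

open Matrix Cfsg Cfsg.Agent.Lib.H12RSLDefs Cfsg.Agent.Lib.H12RSLMem

variable {F : Type*} [Field F] {N : ℕ}

theorem cube [CharP F 2] {p φ r ψ : Fin N → F} (h1 : φ ⬝ᵥ p = 0) (h2 : ψ ⬝ᵥ r = 0) (h3 : φ ⬝ᵥ r = 1)
    (h4 : ψ ⬝ᵥ p = 1) : (tvS p φ (1 : F) * tvS r ψ 1) ^ 3 = 1 := by
  have h2' : (2 : F) = 0 := CharTwo.two_eq_zero
  have hstep : ∀ v : Fin N → F,
      ((tvS p φ (1 : F) * tvS r ψ 1 : Matrix.SpecialLinearGroup (Fin N) F) :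
        Matrix (Fin N) (Fin N) F) *ᵥ v = v + (ψ ⬝ᵥ v) • r + (φ ⬝ᵥ v + ψ ⬝ᵥ v) • p := by
    intro v
    rw [coe_mul_mulVec, tvS_mulVec h2, tvS_mulVec h1]
    simp only [dotProduct_add, dotProduct_smul, h3, smul_eq_mul, mul_one, one_mul]
  have hφ : ∀ v : Fin N → F, φ ⬝ᵥ (v + (ψ ⬝ᵥ v) • r + (φ ⬝ᵥ v + ψ ⬝ᵥ v) • p)
      = φ ⬝ᵥ v + ψ ⬝ᵥ v := by
    intro v
    simp only [dotProduct_add, dotProduct_smul, h1, h3, smul_eq_mul, mul_one, mul_zero, add_zero]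
  have hψ : ∀ v : Fin N → F, ψ ⬝ᵥ (v + (ψ ⬝ᵥ v) • r + (φ ⬝ᵥ v + ψ ⬝ᵥ v) • p) = φ ⬝ᵥ v := by
    intro v
    simp only [dotProduct_add, dotProduct_smul, h2, h4, smul_eq_mul, mul_one, mul_zero, add_zero]
    linear_combination (ψ ⬝ᵥ v) * h2'
  apply ext_mulVec
  intro v
  rw [pow_succ, pow_succ, pow_one, coe_mul_mulVec, coe_mul_mulVec, hstep v]
  set v₁ := v + (ψ ⬝ᵥ v) • r + (φ ⬝ᵥ v + ψ ⬝ᵥ v) • p with hv₁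
  have a1 : φ ⬝ᵥ v₁ = φ ⬝ᵥ v + ψ ⬝ᵥ v := hφ v
  have b1 : ψ ⬝ᵥ v₁ = φ ⬝ᵥ v := hψ v
  rw [hstep v₁]
  set v₂ := v₁ + (ψ ⬝ᵥ v₁) • r + (φ ⬝ᵥ v₁ + ψ ⬝ᵥ v₁) • p with hv₂
  have a2 : φ ⬝ᵥ v₂ = φ ⬝ᵥ v₁ + ψ ⬝ᵥ v₁ := hφ v₁
  have b2 : ψ ⬝ᵥ v₂ = φ ⬝ᵥ v₁ := hψ v₁
  rw [hstep v₂, a2, b2, hv₂, a1, b1, hv₁]
  have e1 : ψ ⬝ᵥ v + φ ⬝ᵥ v + (φ ⬝ᵥ v + ψ ⬝ᵥ v) = 0 := by
    linear_combination (φ ⬝ᵥ v + ψ ⬝ᵥ v) * h2'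
  have e2 : (φ ⬝ᵥ v + ψ ⬝ᵥ v) + (φ ⬝ᵥ v + ψ ⬝ᵥ v + φ ⬝ᵥ v)
      + (φ ⬝ᵥ v + ψ ⬝ᵥ v + φ ⬝ᵥ v + (φ ⬝ᵥ v + ψ ⬝ᵥ v)) = 0 := by
    linear_combination (3 * (φ ⬝ᵥ v) + 2 * (ψ ⬝ᵥ v)) * h2'
  calc _ = v + (ψ ⬝ᵥ v + φ ⬝ᵥ v + (φ ⬝ᵥ v + ψ ⬝ᵥ v)) • r
        + ((φ ⬝ᵥ v + ψ ⬝ᵥ v) + (φ ⬝ᵥ v + ψ ⬝ᵥ v + φ ⬝ᵥ v)
          + (φ ⬝ᵥ v + ψ ⬝ᵥ v + φ ⬝ᵥ v + (φ ⬝ᵥ v + ψ ⬝ᵥ v))) • p := by module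
    _ = _ := by
      rw [e1, e2]
      simp

theorem cube_of_card [Fintype F] [CharP F 2] (hF : Fintype.card F = 2) {p φ r ψ : Fin N → F} (h1 : φ ⬝ᵥ p = 0)
    (h2 : ψ ⬝ᵥ r = 0) (h3 : φ ⬝ᵥ r ≠ 0) (h4 : ψ ⬝ᵥ p ≠ 0) : (tvS p φ (1 : F) * tvS r ψ 1) ^ 3 = 1 := by
  have key : ∀ x : F, x ≠ 0 → x = 1 := by
    intro x hx
    have := FiniteField.pow_card_sub_one_eq_one x hx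
    rw [hF] at this
    simpa using this
  exact cube h1 h2 (key _ h3) (key _ h4)

end Cfsg.Agent.Lib.H12RInvThree
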