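import Mathlib
import Cfsg.Agent.Lib.H12RSLMem

/-! piece `SLBasic` of project 12, wave 2 (rows S5043, S5058: transvection groups of `SL_N(k)`).
Vectors and covectors are functions `Fin N → k`, pairing `φ ⬝ᵥ x`; `tvS p φ c` = `x ↦ x + c φ(x) p`;
API in `H12RSLDefs`: `tvS_coe`, `tvS_mulVec`, `tvS_vecMul`, `TSL`, `Inc`, `E01`, `SigSL`, `DSL`. -/

set_option autoImplicit false

namespace Cfsg.Agent.Lib.H12RSLBasic

open Matrix Cfsg Cfsg.Agent.Lib.H12RSLDefs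
open Cfsg.Agent.Lib.H12RSLMem

variable {k : Type*} [Field k] {N : ℕ}

theorem TSL_comm {p φ : Fin N → k} (h : φ ⬝ᵥ p = 0) : IsMulCommutative (TSL p φ) := by
  refine ⟨⟨?_⟩⟩
  rintro ⟨a, ha⟩ ⟨b, hb⟩
  obtain ⟨c, rfl⟩ := (mem_TSL_iff h a).mp ha
  obtain ⟨d, rfl⟩ := (mem_TSL_iff h b).mp hb
  apply Subtype.ext
  show tvS p φ c * tvS p φ d = tvS p φ d * tvS p φ c
  rw [tvS_mul h, tvS_mul h, add_comm]

theorem TSL_ne_bot {p φ : Fin N → k} (h : Inc p φ) : TSL p φ ≠ ⊥ := by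
  intro hb
  have h1 : tvS p φ 1 ∈ TSL p φ := (mem_TSL_iff h.2.2 _).mpr ⟨1, rfl⟩
  rw [hb, Subgroup.mem_bot, tvS_eq_one_iff h] at h1
  exact one_ne_zero h1

theorem TSL_smul {p φ : Fin N → k} (h : φ ⬝ᵥ p = 0) {a b : k} (ha : a ≠ 0) (hb : b ≠ 0) :
    TSL (a • p) (b • φ) = TSL p φ := by
  have h1 : (b • φ) ⬝ᵥ p = 0 := by rw [smul_dotProduct, h, smul_zero]
  have h2 : (b • φ) ⬝ᵥ (a • p) = 0 := by rw [dotProduct_smul, h1, smul_zero]
  ext g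
  rw [mem_TSL_iff h, mem_TSL_iff h2]
  constructor
  · rintro ⟨c, rfl⟩
    exact ⟨b * (a * c), by rw [tvS_smul_left h1, tvS_smul_right h]⟩
  · rintro ⟨c, rfl⟩
    refine ⟨a⁻¹ * (b⁻¹ * c), ?_⟩
    rw [tvS_smul_left h1, tvS_smul_right h]
    congr 1
    field_simp

/-- the centre `⟨p⟩` is determined by the group: `tvS p' φ' 1 = tvS p φ c`, evaluate at `x` with `φ'(x) = 1` -/
theorem exists_smul_of_TSL_eq {p φ p' φ' : Fin N → k} (h : Inc p φ) (h' : Inc p' φ')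
    (he : TSL p φ = TSL p' φ') : ∃ a : k, p' = a • p := by
  have h1 : tvS p' φ' 1 ∈ TSL p φ := by
    rw [he]
    exact (mem_TSL_iff h'.2.2 _).mpr ⟨1, rfl⟩
  obtain ⟨c, hc⟩ := (mem_TSL_iff h.2.2 _).mp h1
  obtain ⟨i, hi⟩ : ∃ i, φ' i ≠ 0 := by
    by_contra hcon
    push Not at hcon
    exact h'.2.1 (funext hcon)
  have h2 := tvS_mulVec h'.2.2 1 (Pi.single i 1)
  rw [hc, tvS_mulVec h.2.2] at h2
  have h3 := add_left_cancel h2
  rw [dotProduct_single, dotProduct_single, mul_one, mul_one, one_mul] at h3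
  refine ⟨(φ' i)⁻¹ * (c * φ i), ?_⟩
  rw [mul_smul, h3, smul_smul, inv_mul_cancel₀ hi, one_smul]

end Cfsg.Agent.Lib.H12RSLBasic
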