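import Mathlib
import Cfsg.Prelude.Def_RootSubgroups

/-! piece `Comm` of project 12: abstract nonsense on commuting pairs and connectedness. -/

set_option autoImplicit false

namespace Cfsg.Agent.Lib.H12RootComm

open Cfsg

variable {G : Type*} [Group G]

/-- elementwise commuting subgroups: `conjBy A b = A` for `b ∈ B` -/
theorem conjBy_eq_of_comm {A B : Subgroup G} (h : ⁅A, B⁆ = ⊥) {b : G} (hb : b ∈ B) :
    conjBy A b = A := by
  have hc : A ≤ Subgroup.centralizer (B : Set G) :=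
    Subgroup.commutator_eq_bot_iff_le_centralizer.mp h
  have key : ∀ a ∈ A, b * a * b⁻¹ = a := by
    intro a ha
    have h1 : b * a = a * b := (Subgroup.mem_centralizer_iff.mp (hc ha)) b hb
    rw [h1, mul_inv_cancel_right]
  ext x
  simp only [Subgroup.mem_map, MulEquiv.coe_toMonoidHom, MulAut.conj_apply]
  constructor
  · rintro ⟨a, ha, rfl⟩
    rw [key a ha]; exact ha
  · intro hx
    exact ⟨x, hx, key x hx⟩

theorem not_rankOne_of_comm {A B : Subgroup G} (h : ⁅A, B⁆ = ⊥) (hA : A ≠ ⊥) :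
    ¬ IsRankOnePair A B := by
  intro hr
  obtain ⟨a, ha, ha1⟩ := (Subgroup.ne_bot_iff_exists_ne_one).mp hA |>.elim
    (fun a h1 => (⟨(a : G), a.2, fun h2 => h1 (Subtype.ext h2)⟩ : ∃ a : G, a ∈ A ∧ a ≠ 1))
  obtain ⟨b, hb, -, hab⟩ := hr.cond_left a ha ha1
  have h' : ⁅B, A⁆ = ⊥ := by rw [Subgroup.commutator_comm]; exact h
  rw [conjBy_eq_of_comm h (B.inv_mem hb), conjBy_eq_of_comm h' (A.inv_mem ha)] at hab
  exact hr.ne hab

theorem comm_eq_bot_of_forall {A B : Subgroup G} (h : ∀ a ∈ A, ∀ b ∈ B, a * b = b * a) :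
    ⁅A, B⁆ = ⊥ := by
  rw [Subgroup.commutator_eq_bot_iff_le_centralizer]
  intro a ha
  rw [Subgroup.mem_centralizer_iff]
  intro b hb
  exact (h a ha b hb).symm

theorem connected_of_common {S : Set (Subgroup G)}
    (h : ∀ A ∈ S, ∀ B ∈ S, ∃ C ∈ S, IsRankOnePair A C ∧ IsRankOnePair C B) :
    IsConnectedFamily (FAdj S) S := by
  intro A hA B hB
  obtain ⟨C, hC, h1, h2⟩ := h A hA B hB
  exact Relation.ReflTransGen.head ⟨hA, hC, h1⟩ (Relation.ReflTransGen.single ⟨hC, hB, h2⟩)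

end Cfsg.Agent.Lib.H12RootComm
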