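import Mathlib
import Cfsg.Agent.Lib.H12RSLMem
import Cfsg.Agent.Lib.H12RootComm

/-! piece `SLCaseA` of project 12, wave 2 (rows S5043, S5058: transvection groups of `SL_N(k)`).
Vectors and covectors are functions `Fin N → k`, pairing `φ ⬝ᵥ x`; `tvS p φ c` = `x ↦ x + c φ(x) p`;
API in `H12RSLDefs`: `tvS_coe`, `tvS_mulVec`, `tvS_vecMul`, `TSL`, `Inc`, `E01`, `SigSL`, `DSL`. -/

set_option autoImplicit false

namespace Cfsg.Agent.Lib.H12RSLCaseA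

open Matrix Cfsg Cfsg.Agent.Lib.H12RSLDefs
open Cfsg.Agent.Lib.H12RSLMem Cfsg.Agent.Lib.H12RootComm

variable {k : Type*} [Field k] {N : ℕ}

theorem tvS_comm {p φ r ψ : Fin N → k} (h1 : φ ⬝ᵥ p = 0) (h2 : ψ ⬝ᵥ r = 0) (h3 : φ ⬝ᵥ r = 0)
    (h4 : ψ ⬝ᵥ p = 0) (c d : k) : tvS p φ c * tvS r ψ d = tvS r ψ d * tvS p φ c := by
  apply ext_mulVec
  intro v
  rw [coe_mul_mulVec, coe_mul_mulVec, tvS_mulVec h1, tvS_mulVec h2, tvS_mulVec h1, tvS_mulVec h2,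
    dotProduct_add, dotProduct_add, dotProduct_smul, dotProduct_smul, h3, h4]
  simp only [smul_eq_mul, mul_zero, add_zero]
  abel

theorem comm_eq_bot {p φ r ψ : Fin N → k} (h1 : φ ⬝ᵥ p = 0) (h2 : ψ ⬝ᵥ r = 0) (h3 : φ ⬝ᵥ r = 0)
    (h4 : ψ ⬝ᵥ p = 0) : ⁅TSL p φ, TSL r ψ⁆ = ⊥ := by
  apply comm_eq_bot_of_forall
  intro a ha b hb
  obtain ⟨c, rfl⟩ := (mem_TSL_iff h1 a).mp ha
  obtain ⟨d, rfl⟩ := (mem_TSL_iff h2 b).mp hb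
  exact tvS_comm h1 h2 h3 h4 c d

end Cfsg.Agent.Lib.H12RSLCaseA
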