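import Mathlib
import Cfsg.Agent.Lib.H12RSLMem

/-! piece `SLCaseC1` of project 12, wave 2 (rows S5043, S5058: transvection groups of `SL_N(k)`).
Vectors and covectors are functions `Fin N → k`, pairing `φ ⬝ᵥ x`; `tvS p φ c` = `x ↦ x + c φ(x) p`;
API in `H12RSLDefs`: `tvS_coe`, `tvS_mulVec`, `tvS_vecMul`, `TSL`, `Inc`, `E01`, `SigSL`, `DSL`. -/

set_option autoImplicit false

namespace Cfsg.Agent.Lib.H12RSLCaseC1

open Matrix Cfsg Cfsg.Agent.Lib.H12RSLDefs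
open Cfsg.Agent.Lib.H12RSLMem

open scoped commutatorElement

variable {k : Type*} [Field k] {N : ℕ}

theorem comm_tvS {p φ r ψ : Fin N → k} (h1 : φ ⬝ᵥ p = 0) (h2 : ψ ⬝ᵥ r = 0) (h3 : φ ⬝ᵥ r = 0) (c d : k) :
    tvS p φ c * tvS r ψ d * (tvS p φ c)⁻¹ * (tvS r ψ d)⁻¹ = tvS r φ (-(c * d * (ψ ⬝ᵥ p))) := by
  rw [tvS_inv h1, tvS_inv h2]
  apply ext_mulVec
  intro x
  rw [coe_mul_mulVec, coe_mul_mulVec, coe_mul_mulVec, tvS_mulVec h2, tvS_mulVec h1, tvS_mulVec h2,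
    tvS_mulVec h1, tvS_mulVec h3]
  simp only [dotProduct_add, dotProduct_smul, h1, h2, h3, smul_eq_mul, mul_zero, add_zero]
  module

theorem commutator_eq {p φ r ψ : Fin N → k} (h1 : φ ⬝ᵥ p = 0) (h2 : ψ ⬝ᵥ r = 0) (h3 : φ ⬝ᵥ r = 0)
    (h4 : ψ ⬝ᵥ p ≠ 0) : ⁅TSL p φ, TSL r ψ⁆ = TSL r φ := by
  apply le_antisymm
  · rw [Subgroup.commutator_le]
    intro a ha b hb
    obtain ⟨c, rfl⟩ := (mem_TSL_iff h1 a).1 ha
    obtain ⟨d, rfl⟩ := (mem_TSL_iff h2 b).1 hb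
    rw [commutatorElement_def, comm_tvS h1 h2 h3]
    exact (mem_TSL_iff h3 _).2 ⟨_, rfl⟩
  · intro g hg
    obtain ⟨e, rfl⟩ := (mem_TSL_iff h3 g).1 hg
    have h5 : tvS r φ e = ⁅tvS p φ (1 : k), tvS r ψ (-e / (ψ ⬝ᵥ p))⁆ := by
      rw [commutatorElement_def, comm_tvS h1 h2 h3]
      congr 1
      field_simp
    rw [h5]
    exact Subgroup.commutator_mem_commutator ((mem_TSL_iff h1 _).2 ⟨_, rfl⟩)
      ((mem_TSL_iff h2 _).2 ⟨_, rfl⟩)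

end Cfsg.Agent.Lib.H12RSLCaseC1
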