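import Mathlib
import Cfsg.Prelude.Def_RootSubgroups

/-! piece `Symm` of project 12: abstract nonsense on the commutator case and on classes of conjugates. -/

set_option autoImplicit false

namespace Cfsg.Agent.Lib.H12RootSymm

open Cfsg

variable {G : Type*} [Group G]

theorem closure_swap (a : G) (B : Subgroup G) :
    Subgroup.closure ((fun b : G => b * a * b⁻¹ * a⁻¹) '' (B : Set G))
      = Subgroup.closure ((fun b : G => a * b * a⁻¹ * b⁻¹) '' (B : Set G)) := by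
  apply le_antisymm
  · rw [Subgroup.closure_le]
    rintro _ ⟨b, hb, rfl⟩
    have h1 : b * a * b⁻¹ * a⁻¹ = (a * b * a⁻¹ * b⁻¹)⁻¹ := by group
    show b * a * b⁻¹ * a⁻¹ ∈ _
    rw [h1]
    exact Subgroup.inv_mem _ (Subgroup.subset_closure ⟨b, hb, rfl⟩)
  · rw [Subgroup.closure_le]
    rintro _ ⟨b, hb, rfl⟩
    have h1 : a * b * a⁻¹ * b⁻¹ = (b * a * b⁻¹ * a⁻¹)⁻¹ := by group
    show a * b * a⁻¹ * b⁻¹ ∈ _
    rw [h1]
    exact Subgroup.inv_mem _ (Subgroup.subset_closure ⟨b, hb, rfl⟩)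

/-- `⁅A,B⁆ = ⁅B,A⁆` (`Subgroup.commutator_comm`), `A ⊔ B = B ⊔ A`, and
`b a b⁻¹ a⁻¹ = (a b a⁻¹ b⁻¹)⁻¹`, so the two closures agree (`Subgroup.closure_inv` or two inclusions). -/
theorem commCase_symm {S : Set (Subgroup G)} {A B : Subgroup G} (h : RootCommutatorCase S A B) :
    RootCommutatorCase S B A := by
  obtain ⟨h1, h2, h3, h4⟩ := h
  unfold RootCommutatorCase
  rw [Subgroup.commutator_comm B A, sup_comm]
  refine ⟨h1, h2, ?_, ?_⟩
  · intro b hb hb1
    rw [← h4 b hb hb1]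
    exact (closure_swap b A).symm
  · intro a ha ha1
    rw [← h3 a ha ha1]
    exact closure_swap a B

theorem conjBy_conjBy (E : Subgroup G) (g h : G) : conjBy (conjBy E g) h = conjBy E (h * g) := by
  unfold conjBy
  rw [Subgroup.map_map]
  congr 1
  ext x
  simp [MulAut.conj_apply, mul_assoc]

theorem conjClass_of_conj (E : Subgroup G) :
    IsConjClassOfSubgroups {A : Subgroup G | ∃ g : G, A = conjBy E g} := by
  refine ⟨⟨conjBy E 1, 1, rfl⟩, ?_⟩
  rintro A ⟨g, rfl⟩ B ⟨h, rfl⟩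
  refine ⟨h * g⁻¹, ?_⟩
  rw [conjBy_conjBy, inv_mul_cancel_right]

end Cfsg.Agent.Lib.H12RootSymm
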