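import Mathlib
import Cfsg.Agent.Lib.H12RSLCaseC1
import Cfsg.Agent.Lib.H12RSLCaseA
import Cfsg.Agent.Lib.H12RSLSig
import Cfsg.Agent.Lib.H12RootSymm

/-! piece `SLCaseC2` of project 12, wave 2 (rows S5043, S5058: transvection groups of `SL_N(k)`).
Vectors and covectors are functions `Fin N → k`, pairing `φ ⬝ᵥ x`; `tvS p φ c` = `x ↦ x + c φ(x) p`;
API in `H12RSLDefs`: `tvS_coe`, `tvS_mulVec`, `tvS_vecMul`, `TSL`, `Inc`, `E01`, `SigSL`, `DSL`. -/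

set_option autoImplicit false

namespace Cfsg.Agent.Lib.H12RSLCaseC2

open Matrix Cfsg Cfsg.Agent.Lib.H12RSLDefs
open Cfsg.Agent.Lib.H12RSLMem Cfsg.Agent.Lib.H12RSLCaseC1 Cfsg.Agent.Lib.H12RSLCaseA Cfsg.Agent.Lib.H12RSLSig
  Cfsg.Agent.Lib.H12RootSymm

variable {k : Type*} [Field k] {N : ℕ}

theorem commCase (n : ℕ) {p φ r ψ : Fin (n + 3) → k} (h1 : Inc p φ) (h2 : Inc r ψ) (h3 : φ ⬝ᵥ r = 0)
    (h4 : ψ ⬝ᵥ p ≠ 0) : RootCommutatorCase (SigSL k n) (TSL p φ) (TSL r ψ) := by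
  have hc := commutator_eq h1.2.2 h2.2.2 h3 h4
  unfold RootCommutatorCase
  rw [hc]
  refine ⟨(mem_SigSL_iff n _).2 ⟨r, φ, ⟨h2.1, h1.2.1, h3⟩, rfl⟩, ?_, ?_, ?_⟩
  · intro c hcm x hx
    obtain ⟨e, rfl⟩ := (mem_TSL_iff h3 c).1 hcm
    have hle : TSL p φ ⊔ TSL r ψ ≤ Subgroup.centralizer {tvS r φ e} := by
      apply sup_le
      · intro a ha
        obtain ⟨c', rfl⟩ := (mem_TSL_iff h1.2.2 a).1 ha
        rw [Subgroup.mem_centralizer_iff]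
        rintro _ rfl
        exact tvS_comm h3 h1.2.2 h1.2.2 h3 e c'
      · intro b hb
        obtain ⟨d, rfl⟩ := (mem_TSL_iff h2.2.2 b).1 hb
        rw [Subgroup.mem_centralizer_iff]
        rintro _ rfl
        exact tvS_comm h3 h2.2.2 h3 h2.2.2 e d
    exact (Subgroup.mem_centralizer_iff.1 (hle hx)) _ rfl
  · intro a ha ha1
    obtain ⟨c, rfl⟩ := (mem_TSL_iff h1.2.2 a).1 ha
    have hc0 : c ≠ 0 := by
      rintro rfl
      exact ha1 (tvS_zero p φ)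
    apply le_antisymm
    · rw [Subgroup.closure_le]
      rintro _ ⟨b, hb, rfl⟩
      obtain ⟨d, rfl⟩ := (mem_TSL_iff h2.2.2 b).1 hb
      simp only [comm_tvS h1.2.2 h2.2.2 h3 c d]
      exact (mem_TSL_iff h3 _).2 ⟨_, rfl⟩
    · intro g hg
      obtain ⟨e, rfl⟩ := (mem_TSL_iff h3 g).1 hg
      apply Subgroup.subset_closure
      refine ⟨tvS r ψ (-e / (c * (ψ ⬝ᵥ p))), (mem_TSL_iff h2.2.2 _).2 ⟨_, rfl⟩, ?_⟩
      simp only [comm_tvS h1.2.2 h2.2.2 h3 c]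
      congr 1
      field_simp
  · intro b hb hb1
    obtain ⟨d, rfl⟩ := (mem_TSL_iff h2.2.2 b).1 hb
    have hd0 : d ≠ 0 := by
      rintro rfl
      exact hb1 (tvS_zero r ψ)
    apply le_antisymm
    · rw [Subgroup.closure_le]
      rintro _ ⟨a, ha, rfl⟩
      obtain ⟨c, rfl⟩ := (mem_TSL_iff h1.2.2 a).1 ha
      simp only [comm_tvS h1.2.2 h2.2.2 h3 c d]
      exact (mem_TSL_iff h3 _).2 ⟨_, rfl⟩
    · intro g hg
      obtain ⟨e, rfl⟩ := (mem_TSL_iff h3 g).1 hg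
      apply Subgroup.subset_closure
      refine ⟨tvS p φ (-e / (d * (ψ ⬝ᵥ p))), (mem_TSL_iff h1.2.2 _).2 ⟨_, rfl⟩, ?_⟩
      simp only [comm_tvS h1.2.2 h2.2.2 h3 _ d]
      congr 1
      field_simp

/-- `commCase` + `commCase_symm` -/
theorem commCase' (n : ℕ) {p φ r ψ : Fin (n + 3) → k} (h1 : Inc p φ) (h2 : Inc r ψ) (h3 : φ ⬝ᵥ r ≠ 0)
    (h4 : ψ ⬝ᵥ p = 0) : RootCommutatorCase (SigSL k n) (TSL p φ) (TSL r ψ) :=
  commCase_symm (commCase n h2 h1 h4 h3)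

end Cfsg.Agent.Lib.H12RSLCaseC2
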