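import Mathlib
import Cfsg.Agent.Lib.H12RSLDual

/-! piece `SLCommon` of project 12, wave 2 (rows S5043, S5058: transvection groups of `SL_N(k)`).
Vectors and covectors are functions `Fin N → k`, pairing `φ ⬝ᵥ x`; `tvS p φ c` = `x ↦ x + c φ(x) p`;
API in `H12RSLDefs`: `tvS_coe`, `tvS_mulVec`, `tvS_vecMul`, `TSL`, `Inc`, `E01`, `SigSL`, `DSL`. -/

set_option autoImplicit false

namespace Cfsg.Agent.Lib.H12RSLCommon

open Matrix Cfsg Cfsg.Agent.Lib.H12RSLDefs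
open Cfsg.Agent.Lib.H12RSLDual

variable {k : Type*} [Field k] {N : ℕ}

theorem exists_common {p φ r ψ : Fin N → k} (h1 : Inc p φ) (h2 : Inc r ψ) :
    ∃ s χ : Fin N → k, Inc s χ ∧ φ ⬝ᵥ s ≠ 0 ∧ χ ⬝ᵥ p ≠ 0 ∧ ψ ⬝ᵥ s ≠ 0 ∧ χ ⬝ᵥ r ≠ 0 := by
  obtain ⟨s, hs1, hs2⟩ := exists_not_perp_two h1.2.1 h2.2.1
  rw [dotProduct_comm] at hs1 hs2
  have hs0 : s ≠ 0 := by
    rintro rfl
    exact hs1 (dotProduct_zero _)
  have hp : ∀ a : k, p ≠ a • s := by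
    intro a ha
    have h3 := h1.2.2
    rw [ha, dotProduct_smul, smul_eq_mul] at h3
    rcases mul_eq_zero.1 h3 with h4 | h4
    · exact h1.1 (by rw [ha, h4, zero_smul])
    · exact hs1 h4
  have hr : ∀ a : k, r ≠ a • s := by
    intro a ha
    have h3 := h2.2.2
    rw [ha, dotProduct_smul, smul_eq_mul] at h3
    rcases mul_eq_zero.1 h3 with h4 | h4
    · exact h2.1 (by rw [ha, h4, zero_smul])
    · exact hs2 h4
  obtain ⟨χ₁, a1, b1⟩ := exists_dot_pair hs0 hp 0 1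
  obtain ⟨χ₂, a2, b2⟩ := exists_dot_pair hs0 hr 0 1
  have key : ∃ χ : Fin N → k, χ ⬝ᵥ s = 0 ∧ χ ⬝ᵥ p ≠ 0 ∧ χ ⬝ᵥ r ≠ 0 := by
    by_cases c1 : χ₁ ⬝ᵥ r = 0
    · by_cases c2 : χ₂ ⬝ᵥ p = 0
      · refine ⟨χ₁ + χ₂, ?_, ?_, ?_⟩
        · rw [add_dotProduct, a1, a2, add_zero]
        · rw [add_dotProduct, b1, c2, add_zero]; exact one_ne_zero
        · rw [add_dotProduct, c1, b2, zero_add]; exact one_ne_zero
      · exact ⟨χ₂, a2, c2, by rw [b2]; exact one_ne_zero⟩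
    · exact ⟨χ₁, a1, by rw [b1]; exact one_ne_zero, c1⟩
  obtain ⟨χ, c1, c2, c3⟩ := key
  refine ⟨s, χ, ⟨hs0, ?_, c1⟩, hs1, c2, hs2, c3⟩
  rintro rfl
  exact c2 (zero_dotProduct _)

end Cfsg.Agent.Lib.H12RSLCommon
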