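import Mathlib
import Cfsg.Agent.Lib.H12RSLDefs

/-! piece `SLEmb` of project 12, wave 2 (rows S5043, S5058: transvection groups of `SL_N(k)`).
Vectors and covectors are functions `Fin N → k`, pairing `φ ⬝ᵥ x`; `tvS p φ c` = `x ↦ x + c φ(x) p`;
API in `H12RSLDefs`: `tvS_coe`, `tvS_mulVec`, `tvS_vecMul`, `TSL`, `Inc`, `E01`, `SigSL`, `DSL`. -/

set_option autoImplicit false

namespace Cfsg.Agent.Lib.H12RSLEmb

open Matrix Cfsg Cfsg.Agent.Lib.H12RSLDefs

variable {k : Type*} [Field k] {N : ℕ}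

/-- `g ↦ 1 + U (g - 1) W` is a homomorphism `SL₂(k) → SL_N(k)` when `W U = 1`
(`det (1 + U X) = det (1 + X U)`: `Matrix.det_one_add_mul_comm`). -/
theorem exists_hom (U : Matrix (Fin N) (Fin 2) k) (W : Matrix (Fin 2) (Fin N) k) (h : W * U = 1) :
    ∃ φ : Matrix.SpecialLinearGroup (Fin 2) k →* Matrix.SpecialLinearGroup (Fin N) k, Function.Injective φ ∧
      ∀ g : Matrix.SpecialLinearGroup (Fin 2) k,
        (φ g : Matrix (Fin N) (Fin N) k) = 1 + U * ((g : Matrix (Fin 2) (Fin 2) k) - 1) * W := by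
  have hdet : ∀ g : Matrix.SpecialLinearGroup (Fin 2) k,
      (1 + U * ((g : Matrix (Fin 2) (Fin 2) k) - 1) * W).det = 1 := by
    intro g
    rw [Matrix.mul_assoc, Matrix.det_one_add_mul_comm, Matrix.mul_assoc, h, Matrix.mul_one,
      add_sub_cancel]
    exact g.2
  have hmul : ∀ X Y : Matrix (Fin 2) (Fin 2) k,
      (1 + U * (X - 1) * W) * (1 + U * (Y - 1) * W) = 1 + U * (X * Y - 1) * W := by
    intro X Y
    have h1 : U * (X - 1) * W * (U * (Y - 1) * W) = U * ((X - 1) * (Y - 1)) * W := by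
      calc U * (X - 1) * W * (U * (Y - 1) * W)
          = U * (X - 1) * (W * U) * (Y - 1) * W := by simp only [Matrix.mul_assoc]
        _ = U * ((X - 1) * (Y - 1)) * W := by rw [h, Matrix.mul_one]; simp only [Matrix.mul_assoc]
    rw [add_mul, mul_add, mul_add, one_mul, one_mul, mul_one, h1]
    have h2 : X * Y - 1 = (Y - 1) + ((X - 1) + (X - 1) * (Y - 1)) := by
      noncomm_ring
    rw [h2, Matrix.mul_add, Matrix.mul_add, Matrix.add_mul, Matrix.add_mul, add_assoc]
  let φ : Matrix.SpecialLinearGroup (Fin 2) k →* Matrix.SpecialLinearGroup (Fin N) k :=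
    { toFun := fun g => ⟨1 + U * ((g : Matrix (Fin 2) (Fin 2) k) - 1) * W, hdet g⟩
      map_one' := by
        apply Subtype.ext
        change 1 + U * ((1 : Matrix (Fin 2) (Fin 2) k) - 1) * W = 1
        simp
      map_mul' := by
        intro g g'
        apply Subtype.ext
        exact (hmul g.1 g'.1).symm }
  refine ⟨φ, ?_, fun g => rfl⟩
  intro g g' hgg
  have h1 : 1 + U * ((g : Matrix (Fin 2) (Fin 2) k) - 1) * W
      = 1 + U * ((g' : Matrix (Fin 2) (Fin 2) k) - 1) * W := congrArg Subtype.val hgg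
  have h2 := add_left_cancel h1
  have h3 : ∀ X : Matrix (Fin 2) (Fin 2) k, W * (U * X * W) * U = X := by
    intro X
    calc W * (U * X * W) * U = (W * U) * X * (W * U) := by simp only [Matrix.mul_assoc]
      _ = X := by rw [h, Matrix.one_mul, Matrix.mul_one]
  have h4 := congrArg (fun Z => W * Z * U) h2
  simp only [h3] at h4
  apply Subtype.ext
  exact sub_left_injective h4

end Cfsg.Agent.Lib.H12RSLEmb
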