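import Mathlib
import Cfsg.Agent.Lib.H12RSLSig
import Cfsg.Agent.Lib.Helper6SL

/-! piece `SLGen` of project 12, wave 2 (rows S5043, S5058: transvection groups of `SL_N(k)`).
Vectors and covectors are functions `Fin N → k`, pairing `φ ⬝ᵥ x`; `tvS p φ c` = `x ↦ x + c φ(x) p`;
API in `H12RSLDefs`: `tvS_coe`, `tvS_mulVec`, `tvS_vecMul`, `TSL`, `Inc`, `E01`, `SigSL`, `DSL`. -/

set_option autoImplicit false

namespace Cfsg.Agent.Lib.H12RSLGen

open Matrix Cfsg Cfsg.Agent.Lib.H12RSLDefs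
open Cfsg.Agent.Lib.H12RSLMem Cfsg.Agent.Lib.H12RSLSig

variable {k : Type*} [Field k] {N : ℕ}

/-- `Helper6SL.transvection_induction`; `SpecialLinearGroup.transvection hij c ∈ TSL (single i 1) (single j 1)` -/
theorem iSup_SigSL (n : ℕ) : (⨆ A ∈ SigSL k n, A) = ⊤ := by
  rw [eq_top_iff]
  intro g _
  refine Cfsg.Agent.Lib.Helper6SL.transvection_induction
    (fun g => g ∈ (⨆ A ∈ SigSL k n, A)) ?_ (fun _ _ => mul_mem) g
  intro i j hij c
  have hinc : Inc (Pi.single i 1 : Fin (n + 3) → k) (Pi.single j 1) := by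
    refine ⟨?_, ?_, ?_⟩
    · intro h
      have := congrFun h i
      simp at this
    · intro h
      have := congrFun h j
      simp at this
    · rw [dotProduct_single, mul_one]
      exact Pi.single_eq_of_ne hij _
  have hmem : TSL (Pi.single i 1 : Fin (n + 3) → k) (Pi.single j 1) ∈ SigSL k n :=
    (mem_SigSL_iff n _).mpr ⟨_, _, hinc, rfl⟩
  have hle : TSL (Pi.single i 1 : Fin (n + 3) → k) (Pi.single j 1) ≤ ⨆ A ∈ SigSL k n, A :=
    le_iSup₂ (f := fun (A : Subgroup (Matrix.SpecialLinearGroup (Fin (n + 3)) k)) (_ : A ∈ SigSL k n) => A) _ hmem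
  apply hle
  apply Subgroup.subset_closure
  refine ⟨c, ?_⟩
  rw [Matrix.SpecialLinearGroup.transvection_coe, ← transvection_eq]
  rfl

end Cfsg.Agent.Lib.H12RSLGen
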