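import Mathlib
import Cfsg.Agent.Lib.H12RootDefs
import Cfsg.Agent.Lib.Helper6SL2Hom

/-! piece `SL2` of project 12: the two unitriangular subgroups of `SL₂(k)`. -/

set_option autoImplicit false

namespace Cfsg.Agent.Lib.H12RootSL2

open Matrix Cfsg Cfsg.Agent.Lib.H12RootDefs

variable {k : Type*} [Field k]

theorem U2_coe (b : k) : ((U2 b : Matrix.SpecialLinearGroup (Fin 2) k) : Matrix (Fin 2) (Fin 2) k)
    = !![1, b; 0, 1] := rfl

theorem L2_coe (c : k) : ((L2 c : Matrix.SpecialLinearGroup (Fin 2) k) : Matrix (Fin 2) (Fin 2) k)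
    = !![1, 0; c, 1] := rfl

theorem U2_mul (a b : k) : U2 a * U2 b = U2 (a + b) := by
  apply Subtype.ext
  rw [Matrix.SpecialLinearGroup.coe_mul, U2_coe, U2_coe, U2_coe]
  ext i j
  fin_cases i <;> fin_cases j <;> simp [Matrix.mul_apply, Fin.sum_univ_two, add_comm]

theorem L2_mul (a b : k) : L2 a * L2 b = L2 (a + b) := by
  apply Subtype.ext
  rw [Matrix.SpecialLinearGroup.coe_mul, L2_coe, L2_coe, L2_coe]
  ext i j
  fin_cases i <;> fin_cases j <;> simp [Matrix.mul_apply, Fin.sum_univ_two, add_comm]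

theorem U2_zero : U2 (0 : k) = 1 := by
  apply Subtype.ext
  rw [U2_coe, Matrix.SpecialLinearGroup.coe_one]
  ext i j
  fin_cases i <;> fin_cases j <;> simp

theorem L2_zero : L2 (0 : k) = 1 := by
  apply Subtype.ext
  rw [L2_coe, Matrix.SpecialLinearGroup.coe_one]
  ext i j
  fin_cases i <;> fin_cases j <;> simp

theorem U2_inv (a : k) : (U2 a)⁻¹ = U2 (-a) := by
  rw [inv_eq_iff_mul_eq_one, U2_mul, add_neg_cancel, U2_zero]

theorem L2_inv (a : k) : (L2 a)⁻¹ = L2 (-a) := by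
  rw [inv_eq_iff_mul_eq_one, L2_mul, add_neg_cancel, L2_zero]

theorem mem_upper_iff (g : Matrix.SpecialLinearGroup (Fin 2) k) :
    g ∈ upperUnipotentSL2 k ↔ ∃ b : k, g = U2 b := by
  constructor
  · intro hg
    unfold upperUnipotentSL2 at hg
    induction hg using Subgroup.closure_induction with
    | mem x hx =>
      obtain ⟨h1, h2, h3⟩ := hx
      refine ⟨(x : Matrix (Fin 2) (Fin 2) k) 0 1, ?_⟩
      apply Subtype.ext
      rw [U2_coe]
      ext i j
      fin_cases i <;> fin_cases j <;> simp [h1, h2, h3]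
    | one => exact ⟨0, U2_zero.symm⟩
    | mul x y _ _ hx hy =>
      obtain ⟨a, rfl⟩ := hx
      obtain ⟨b, rfl⟩ := hy
      exact ⟨a + b, U2_mul a b⟩
    | inv x _ hx =>
      obtain ⟨a, rfl⟩ := hx
      exact ⟨-a, U2_inv a⟩
  · rintro ⟨b, rfl⟩
    apply Subgroup.subset_closure
    simp [U2_coe]

theorem mem_lower_iff (g : Matrix.SpecialLinearGroup (Fin 2) k) :
    g ∈ lowerUnipotentSL2 k ↔ ∃ c : k, g = L2 c := by
  constructor
  · intro hg
    unfold lowerUnipotentSL2 at hg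
    induction hg using Subgroup.closure_induction with
    | mem x hx =>
      obtain ⟨h1, h2, h3⟩ := hx
      refine ⟨(x : Matrix (Fin 2) (Fin 2) k) 1 0, ?_⟩
      apply Subtype.ext
      rw [L2_coe]
      ext i j
      fin_cases i <;> fin_cases j <;> simp [h1, h2, h3]
    | one => exact ⟨0, L2_zero.symm⟩
    | mul x y _ _ hx hy =>
      obtain ⟨a, rfl⟩ := hx
      obtain ⟨b, rfl⟩ := hy
      exact ⟨a + b, L2_mul a b⟩
    | inv x _ hx =>
      obtain ⟨a, rfl⟩ := hx
      exact ⟨-a, L2_inv a⟩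
  · rintro ⟨b, rfl⟩
    apply Subgroup.subset_closure
    simp [L2_coe]

/-- use `Helper6SL2Hom.closure_transvections`, `T01_entries`, `T10_entries` -/
theorem upper_sup_lower : upperUnipotentSL2 k ⊔ lowerUnipotentSL2 k = ⊤ := by
  rw [eq_top_iff, ← Cfsg.Agent.Lib.Helper6SL2Hom.closure_transvections, Subgroup.closure_le]
  rintro A (⟨t, rfl⟩ | ⟨t, rfl⟩)
  · apply Subgroup.mem_sup_left
    rw [mem_upper_iff]
    exact ⟨t, Subtype.ext (Cfsg.Agent.Lib.Helper6SL2Hom.T01_entries t)⟩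
  · apply Subgroup.mem_sup_right
    rw [mem_lower_iff]
    exact ⟨t, Subtype.ext (Cfsg.Agent.Lib.Helper6SL2Hom.T10_entries t)⟩

end Cfsg.Agent.Lib.H12RootSL2
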