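import Mathlib
import Cfsg.Agent.Lib.H12RootSL2

/-! piece `Hom` of project 12: recognising `IsPSL2PairOver` from a homomorphism. -/

set_option autoImplicit false

namespace Cfsg.Agent.Lib.H12RootHom

open Matrix Cfsg Cfsg.Agent.Lib.H12RootDefs Cfsg.Agent.Lib.H12RootSL2

variable {k : Type*} [Field k] {G : Type*} [Group G]

theorem psl2_of_hom (φ : Matrix.SpecialLinearGroup (Fin 2) k →* G)
    (hker : φ.ker ≤ Subgroup.center (Matrix.SpecialLinearGroup (Fin 2) k)) {A B : Subgroup G}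
    (hA : ∀ x : G, x ∈ A ↔ ∃ b : k, x = φ (U2 b)) (hB : ∀ x : G, x ∈ B ↔ ∃ c : k, x = φ (L2 c)) :
    IsPSL2PairOver k A B := by
  have h1 : (upperUnipotentSL2 k).map φ = A := by
    ext x
    rw [hA x, Subgroup.mem_map]
    constructor
    · rintro ⟨g, hg, rfl⟩
      obtain ⟨b, rfl⟩ := (mem_upper_iff g).mp hg
      exact ⟨b, rfl⟩
    · rintro ⟨b, rfl⟩
      exact ⟨U2 b, (mem_upper_iff _).mpr ⟨b, rfl⟩, rfl⟩
  have h2 : (lowerUnipotentSL2 k).map φ = B := by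
    ext x
    rw [hB x, Subgroup.mem_map]
    constructor
    · rintro ⟨g, hg, rfl⟩
      obtain ⟨b, rfl⟩ := (mem_lower_iff g).mp hg
      exact ⟨b, rfl⟩
    · rintro ⟨b, rfl⟩
      exact ⟨L2 b, (mem_lower_iff _).mpr ⟨b, rfl⟩, rfl⟩
  refine ⟨φ, ?_, hker, h1, h2⟩
  rw [MonoidHom.range_eq_map, ← upper_sup_lower, Subgroup.map_sup, h1, h2]

end Cfsg.Agent.Lib.H12RootHom
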