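import Mathlib
import Cfsg.Agent.Lib.H12RSLEmb
import Cfsg.Agent.Lib.H12RSLBasic
import Cfsg.Agent.Lib.H12RootHom

/-! piece `SLPSL2` of project 12, wave 2 (rows S5043, S5058: transvection groups of `SL_N(k)`).
Vectors and covectors are functions `Fin N → k`, pairing `φ ⬝ᵥ x`; `tvS p φ c` = `x ↦ x + c φ(x) p`;
API in `H12RSLDefs`: `tvS_coe`, `tvS_mulVec`, `tvS_vecMul`, `TSL`, `Inc`, `E01`, `SigSL`, `DSL`. -/

set_option autoImplicit false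

namespace Cfsg.Agent.Lib.H12RSLPSL2

open Matrix Cfsg Cfsg.Agent.Lib.H12RSLDefs
open Cfsg.Agent.Lib.H12RSLMem Cfsg.Agent.Lib.H12RSLEmb Cfsg.Agent.Lib.H12RSLBasic Cfsg.Agent.Lib.H12RootHom
  Cfsg.Agent.Lib.H12RootDefs

variable {k : Type*} [Field k] {N : ℕ}

private theorem sum_aux (a : k) (α β : Fin N → k) : ∑ x, (a * α x) * β x = a * (α ⬝ᵥ β) := by
  simp [dotProduct, Finset.mul_sum, mul_assoc]

theorem psl2 {p φ r ψ : Fin N → k} (h1 : Inc p φ) (h2 : Inc r ψ) (h3 : φ ⬝ᵥ r ≠ 0) (h4 : ψ ⬝ᵥ p ≠ 0) :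
    IsPSL2PairOver k (TSL p φ) (TSL r ψ) := by
  let U : Matrix (Fin N) (Fin 2) k := Matrix.of fun i j => ![p i, r i] j
  let W : Matrix (Fin 2) (Fin N) k :=
    Matrix.of fun i j => ![(ψ ⬝ᵥ p)⁻¹ * ψ j, (φ ⬝ᵥ r)⁻¹ * φ j] i
  have hWU : W * U = 1 := by
    ext i j
    rw [Matrix.mul_apply]
    fin_cases i <;> fin_cases j
    · have : ∑ x, W 0 x * U x 0 = ∑ x, ((ψ ⬝ᵥ p)⁻¹ * ψ x) * p x := rfl
      simp only [Fin.zero_eta, Fin.isValue, Matrix.one_apply_eq]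
      rw [this, sum_aux, inv_mul_cancel₀ h4]
    · have : ∑ x, W 0 x * U x 1 = ∑ x, ((ψ ⬝ᵥ p)⁻¹ * ψ x) * r x := rfl
      simp only [Fin.zero_eta, Fin.mk_one, Fin.isValue]
      rw [this, sum_aux, h2.2.2, mul_zero]
      simp
    · have : ∑ x, W 1 x * U x 0 = ∑ x, ((φ ⬝ᵥ r)⁻¹ * φ x) * p x := rfl
      simp only [Fin.zero_eta, Fin.mk_one, Fin.isValue]
      rw [this, sum_aux, h1.2.2, mul_zero]
      simp
    · have : ∑ x, W 1 x * U x 1 = ∑ x, ((φ ⬝ᵥ r)⁻¹ * φ x) * r x := rfl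
      simp only [Fin.mk_one, Fin.isValue, Matrix.one_apply_eq]
      rw [this, sum_aux, inv_mul_cancel₀ h3]
  obtain ⟨Φ, hinj, hΦ⟩ := exists_hom U W hWU
  have hU : ∀ b : k, Φ (U2 b) = tvS p φ ((φ ⬝ᵥ r)⁻¹ * b) := by
    intro b
    apply Subtype.ext
    rw [hΦ, tvS_coe h1.2.2]
    congr 1
    ext i j
    simp [Matrix.mul_apply, Fin.sum_univ_two, U, W, U2, vecMulVec_apply]
    ring
  have hL : ∀ c : k, Φ (L2 c) = tvS r ψ ((ψ ⬝ᵥ p)⁻¹ * c) := by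
    intro c
    apply Subtype.ext
    rw [hΦ, tvS_coe h2.2.2]
    congr 1
    ext i j
    simp [Matrix.mul_apply, Fin.sum_univ_two, U, W, L2, vecMulVec_apply]
    ring
  apply psl2_of_hom Φ
  · rw [(MonoidHom.ker_eq_bot_iff Φ).2 hinj]
    exact bot_le
  · intro x
    rw [mem_TSL_iff h1.2.2]
    constructor
    · rintro ⟨c, rfl⟩
      refine ⟨(φ ⬝ᵥ r) * c, ?_⟩
      rw [hU, ← mul_assoc, inv_mul_cancel₀ h3, one_mul]
    · rintro ⟨b, rfl⟩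
      exact ⟨_, hU b⟩
  · intro x
    rw [mem_TSL_iff h2.2.2]
    constructor
    · rintro ⟨c, rfl⟩
      refine ⟨(ψ ⬝ᵥ p) * c, ?_⟩
      rw [hL, ← mul_assoc, inv_mul_cancel₀ h4, one_mul]
    · rintro ⟨b, rfl⟩
      exact ⟨_, hL b⟩

end Cfsg.Agent.Lib.H12RSLPSL2
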