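import Mathlib
import Cfsg.Agent.Lib.H12RootSL2

/-! piece `Cond` of project 12: the rank one condition inside `SL₂(k)`. -/

set_option autoImplicit false

namespace Cfsg.Agent.Lib.H12RootCond

open Matrix Cfsg Cfsg.Agent.Lib.H12RootDefs Cfsg.Agent.Lib.H12RootSL2

variable {k : Type*} [Field k]

theorem key_upper {s : k} (hs : s ≠ 0) (t : k) :
    (L2 s⁻¹)⁻¹ * U2 t * ((L2 s⁻¹)⁻¹)⁻¹ = (U2 s)⁻¹ * L2 (-t / s ^ 2) * ((U2 s)⁻¹)⁻¹ := by
  rw [inv_inv, inv_inv, L2_inv, U2_inv]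
  apply Subtype.ext
  simp only [Matrix.SpecialLinearGroup.coe_mul, U2_coe, L2_coe]
  ext i j
  fin_cases i <;> fin_cases j <;>
    simp [Matrix.mul_apply, Fin.sum_univ_two] <;> field_simp <;> ring

theorem key_lower {s : k} (hs : s ≠ 0) (t : k) :
    (U2 s⁻¹)⁻¹ * L2 t * ((U2 s⁻¹)⁻¹)⁻¹ = (L2 s)⁻¹ * U2 (-t / s ^ 2) * ((L2 s)⁻¹)⁻¹ := by
  rw [inv_inv, inv_inv, L2_inv, U2_inv]
  apply Subtype.ext
  simp only [Matrix.SpecialLinearGroup.coe_mul, U2_coe, L2_coe]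
  ext i j
  fin_cases i <;> fin_cases j <;>
    simp [Matrix.mul_apply, Fin.sum_univ_two] <;> field_simp <;> ring

/-- `L2(s⁻¹)⁻¹ 𝒰 L2(s⁻¹) = U2(s)⁻¹ 𝓛 U2(s)` : both sides are the unipotent group fixing `(−s, 1)`.
Explicitly `n := U2 s * (L2 s⁻¹)⁻¹ = [[0, s], [−s⁻¹, 1]]` and `n * U2 t * n⁻¹ = L2 (−t / s²)`. -/
theorem cond_upper {s : k} (hs : s ≠ 0) :
    conjBy (upperUnipotentSL2 k) (L2 s⁻¹)⁻¹ = conjBy (lowerUnipotentSL2 k) (U2 s)⁻¹ := by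
  ext g
  simp only [Subgroup.mem_map, MulEquiv.coe_toMonoidHom, MulAut.conj_apply]
  constructor
  · rintro ⟨x, hx, rfl⟩
    obtain ⟨t, rfl⟩ := (mem_upper_iff x).1 hx
    exact ⟨L2 (-t / s ^ 2), (mem_lower_iff _).2 ⟨_, rfl⟩, (key_upper hs t).symm⟩
  · rintro ⟨x, hx, rfl⟩
    obtain ⟨c, rfl⟩ := (mem_lower_iff x).1 hx
    refine ⟨U2 (-c * s ^ 2), (mem_upper_iff _).2 ⟨_, rfl⟩, ?_⟩
    rw [key_upper hs]
    congr 3
    field_simp

theorem cond_lower {s : k} (hs : s ≠ 0) :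
    conjBy (lowerUnipotentSL2 k) (U2 s⁻¹)⁻¹ = conjBy (upperUnipotentSL2 k) (L2 s)⁻¹ := by
  ext g
  simp only [Subgroup.mem_map, MulEquiv.coe_toMonoidHom, MulAut.conj_apply]
  constructor
  · rintro ⟨x, hx, rfl⟩
    obtain ⟨t, rfl⟩ := (mem_lower_iff x).1 hx
    exact ⟨U2 (-t / s ^ 2), (mem_upper_iff _).2 ⟨_, rfl⟩, (key_lower hs t).symm⟩
  · rintro ⟨x, hx, rfl⟩
    obtain ⟨c, rfl⟩ := (mem_upper_iff x).1 hx
    refine ⟨L2 (-c * s ^ 2), (mem_lower_iff _).2 ⟨_, rfl⟩, ?_⟩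
    rw [key_lower hs]
    congr 3
    field_simp

/-- a non-identity unitriangular matrix is not central -/
theorem U2_not_mem_center {s : k} (hs : s ≠ 0) :
    U2 s ∉ Subgroup.center (Matrix.SpecialLinearGroup (Fin 2) k) := by
  intro h
  have h1 := (Subgroup.mem_center_iff.1 h) (L2 1)
  have h2 := congrArg (fun g : Matrix.SpecialLinearGroup (Fin 2) k =>
    (g : Matrix (Fin 2) (Fin 2) k) 0 0) h1
  simp [Matrix.SpecialLinearGroup.coe_mul, U2_coe, L2_coe, Matrix.mul_apply, Fin.sum_univ_two] at h2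
  exact hs h2

theorem L2_not_mem_center {s : k} (hs : s ≠ 0) :
    L2 s ∉ Subgroup.center (Matrix.SpecialLinearGroup (Fin 2) k) := by
  intro h
  have h1 := (Subgroup.mem_center_iff.1 h) (U2 1)
  have h2 := congrArg (fun g : Matrix.SpecialLinearGroup (Fin 2) k =>
    (g : Matrix (Fin 2) (Fin 2) k) 0 0) h1
  simp [Matrix.SpecialLinearGroup.coe_mul, U2_coe, L2_coe, Matrix.mul_apply, Fin.sum_univ_two] at h2
  exact hs h2

/-- `U2 1` is not a lower unitriangular matrix times a central element -/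
theorem U2_one_mul_L2_not_mem_center (c : k) :
    (U2 (1 : k)) * (L2 c)⁻¹ ∉ Subgroup.center (Matrix.SpecialLinearGroup (Fin 2) k) := by
  intro h
  rw [L2_inv] at h
  have h1 := (Subgroup.mem_center_iff.1 h) (L2 1)
  have h2 := congrArg (fun g : Matrix.SpecialLinearGroup (Fin 2) k =>
    (g : Matrix (Fin 2) (Fin 2) k) 0 0) h1
  simp [Matrix.SpecialLinearGroup.coe_mul, U2_coe, L2_coe, Matrix.mul_apply, Fin.sum_univ_two] at h2

end Cfsg.Agent.Lib.H12RootCond
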