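import Mathlib
import Cfsg.Agent.Lib.H12RootCond

/-! piece `RankOne` of project 12: an image of `SL₂(k)` with central kernel is a rank one group. -/

set_option autoImplicit false

namespace Cfsg.Agent.Lib.H12RootRankOne

open Matrix Cfsg Cfsg.Agent.Lib.H12RootDefs Cfsg.Agent.Lib.H12RootSL2 Cfsg.Agent.Lib.H12RootCond

variable {k : Type*} [Field k] {G : Type*} [Group G]

theorem conjBy_map {H : Type*} [Group H] (φ : H →* G) (S : Subgroup H) (x : H) :
    conjBy (S.map φ) (φ x) = (conjBy S x).map φ := by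
  unfold conjBy
  rw [Subgroup.map_map, Subgroup.map_map]
  congr 1
  ext y
  simp

theorem isNilpotent_of_comm (A : Subgroup G) (h : ∀ a ∈ A, ∀ b ∈ A, a * b = b * a) :
    Group.IsNilpotent A := by
  letI : CommGroup A :=
    { (inferInstance : Group A) with
      mul_comm := fun a b => Subtype.ext (h a a.2 b b.2) }
  exact CommGroup.isNilpotent

theorem rankOne_of_psl2 {A B : Subgroup G} (h : IsPSL2PairOver k A B) : IsRankOnePair A B := by
  obtain ⟨φ, -, hker, rfl, rfl⟩ := h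
  refine ⟨?_, ?_, ?_, ?_, ?_⟩
  · intro heq
    have h1 : φ (U2 (1 : k)) ∈ (lowerUnipotentSL2 k).map φ := by
      rw [← heq]
      exact Subgroup.mem_map_of_mem φ ((mem_upper_iff _).mpr ⟨1, rfl⟩)
    obtain ⟨l, hl, hφ⟩ := Subgroup.mem_map.mp h1
    obtain ⟨c, rfl⟩ := (mem_lower_iff l).mp hl
    apply U2_one_mul_L2_not_mem_center c
    apply hker
    rw [MonoidHom.mem_ker, map_mul, map_inv, hφ, mul_inv_cancel]
  · apply isNilpotent_of_comm
    rintro _ ⟨a, ha, rfl⟩ _ ⟨b, hb, rfl⟩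
    obtain ⟨s, rfl⟩ := (mem_upper_iff a).mp ha
    obtain ⟨t, rfl⟩ := (mem_upper_iff b).mp hb
    rw [← map_mul, ← map_mul, U2_mul, U2_mul, add_comm]
  · apply isNilpotent_of_comm
    rintro _ ⟨a, ha, rfl⟩ _ ⟨b, hb, rfl⟩
    obtain ⟨s, rfl⟩ := (mem_lower_iff a).mp ha
    obtain ⟨t, rfl⟩ := (mem_lower_iff b).mp hb
    rw [← map_mul, ← map_mul, L2_mul, L2_mul, add_comm]
  · rintro _ ⟨a, ha, rfl⟩ hne
    obtain ⟨s, rfl⟩ := (mem_upper_iff a).mp ha
    have hs : s ≠ 0 := by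
      rintro rfl
      apply hne
      rw [U2_zero, map_one]
    refine ⟨φ (L2 s⁻¹), Subgroup.mem_map_of_mem φ ((mem_lower_iff _).mpr ⟨_, rfl⟩), ?_, ?_⟩
    · intro h1
      exact L2_not_mem_center (inv_ne_zero hs) (hker (MonoidHom.mem_ker.mpr h1))
    · rw [← map_inv, ← map_inv, conjBy_map, conjBy_map, cond_upper hs]
  · rintro _ ⟨a, ha, rfl⟩ hne
    obtain ⟨s, rfl⟩ := (mem_lower_iff a).mp ha
    have hs : s ≠ 0 := by
      rintro rfl
      apply hne
      rw [L2_zero, map_one]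
    refine ⟨φ (U2 s⁻¹), Subgroup.mem_map_of_mem φ ((mem_upper_iff _).mpr ⟨_, rfl⟩), ?_, ?_⟩
    · intro h1
      exact U2_not_mem_center (inv_ne_zero hs) (hker (MonoidHom.mem_ker.mpr h1))
    · rw [← map_inv, ← map_inv, conjBy_map, conjBy_map, cond_lower hs]

end Cfsg.Agent.Lib.H12RootRankOne
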