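import Mathlib
import Cfsg.Agent.Lib.H12RSLCaseC2
import Cfsg.Agent.Lib.H12RSLPSL2
import Cfsg.Agent.Lib.H12RootRankOne

/-! piece `SLNondeg` of project 12, wave 2 (row S5043): the three kinds of pairs occur. -/

set_option autoImplicit false

namespace Cfsg.Agent.Lib.H12RSLNondeg

open Matrix Cfsg Cfsg.Agent.Lib.H12RSLDefs Cfsg.Agent.Lib.H12RSLMem Cfsg.Agent.Lib.H12RSLBasic
  Cfsg.Agent.Lib.H12RSLSig Cfsg.Agent.Lib.H12RSLCaseA Cfsg.Agent.Lib.H12RSLCaseC2
  Cfsg.Agent.Lib.H12RSLPSL2 Cfsg.Agent.Lib.H12RootRankOne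

variable {k : Type*} [Field k]

private theorem e_dot (n : ℕ) (i j : Fin (n + 3)) :
    (Pi.single i 1 : Fin (n + 3) → k) ⬝ᵥ (Pi.single j 1 : Fin (n + 3) → k)
      = if i = j then 1 else 0 := by
  rw [single_dotProduct, one_mul, Pi.single_apply]

private theorem e_ne (n : ℕ) (i : Fin (n + 3)) : (Pi.single i 1 : Fin (n + 3) → k) ≠ 0 := by
  intro h0
  have := congrFun h0 i
  simp at this

private theorem e_inc (n : ℕ) {i j : Fin (n + 3)} (h : i ≠ j) :
    Inc (Pi.single i 1 : Fin (n + 3) → k) (Pi.single j 1) :=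
  ⟨e_ne n i, e_ne n j, by rw [e_dot, if_neg h.symm]⟩

/-- with `e i = Pi.single i 1`: `(T(e0,e1), T(e2,e1))` commute and differ (`exists_smul_of_TSL_eq`);
`(T(e0,e1), T(e1,e0))` is a rank one pair; `(T(e0,e1), T(e1,e2))` is in the commutator case. -/
theorem nondeg (n : ℕ) : IsNondegenerateRootSet (SigSL k n) := by
  have h01 : (0 : Fin (n + 3)) ≠ 1 := by
    intro h; have := congrArg Fin.val h; simp at this
  have h02 : (0 : Fin (n + 3)) ≠ 2 := by
    intro h; have := congrArg Fin.val h; simp at this; rw [Nat.mod_eq_of_lt (by omega)] at this; omega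
  have h12 : (1 : Fin (n + 3)) ≠ 2 := by
    intro h; have := congrArg Fin.val h; simp at this; rw [Nat.mod_eq_of_lt (by omega)] at this; omega
  have hmem : ∀ {i j : Fin (n + 3)}, i ≠ j →
      TSL (Pi.single i 1 : Fin (n + 3) → k) (Pi.single j 1) ∈ SigSL k n :=
    fun h => (mem_SigSL_iff n _).2 ⟨_, _, e_inc n h, rfl⟩
  refine ⟨⟨_, hmem h01, _, hmem h12.symm, ?_, ?_⟩, ⟨_, hmem h01, _, hmem h01.symm, ?_⟩,
    ⟨_, hmem h01, _, hmem h12, ?_⟩⟩
  · intro he
    obtain ⟨a, ha⟩ := exists_smul_of_TSL_eq (e_inc n h01) (e_inc n h12.symm) he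
    have := congrFun ha 2
    simp [h02.symm] at this
  · exact comm_eq_bot (e_inc n h01).2.2 (e_inc n h12.symm).2.2 (e_inc n h12.symm).2.2
      (e_inc n h01).2.2
  · apply rankOne_of_psl2 (k := k)
    apply psl2 (e_inc n h01) (e_inc n h01.symm)
    · rw [e_dot, if_pos rfl]; exact one_ne_zero
    · rw [e_dot, if_pos rfl]; exact one_ne_zero
  · apply commCase' n (e_inc n h01) (e_inc n h12)
    · rw [e_dot, if_pos rfl]; exact one_ne_zero
    · rw [e_dot, if_neg h02.symm]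

end Cfsg.Agent.Lib.H12RSLNondeg
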