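import Mathlib
import Cfsg.Agent.Lib.H12RSLBasic
import Cfsg.Agent.Lib.H12RSLConj

/-! piece `SLNotRank` of project 12, wave 2 (rows S5043, S5058: transvection groups of `SL_N(k)`).
Vectors and covectors are functions `Fin N → k`, pairing `φ ⬝ᵥ x`; `tvS p φ c` = `x ↦ x + c φ(x) p`;
API in `H12RSLDefs`: `tvS_coe`, `tvS_mulVec`, `tvS_vecMul`, `TSL`, `Inc`, `E01`, `SigSL`, `DSL`. -/

set_option autoImplicit false

namespace Cfsg.Agent.Lib.H12RSLNotRank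

open Matrix Cfsg Cfsg.Agent.Lib.H12RSLDefs
open Cfsg.Agent.Lib.H12RSLMem Cfsg.Agent.Lib.H12RSLBasic Cfsg.Agent.Lib.H12RSLConj

variable {k : Type*} [Field k] {N : ℕ}

theorem not_rankOne {p φ r ψ : Fin N → k} (h1 : Inc p φ) (h2 : Inc r ψ) (h3 : φ ⬝ᵥ r = 0) (h4 : ψ ⬝ᵥ p ≠ 0) :
    ¬ IsRankOnePair (TSL p φ) (TSL r ψ) := by
  intro h
  have ha1 : tvS p φ (1 : k) ≠ 1 := by
    rw [Ne, tvS_eq_one_iff h1]
    exact one_ne_zero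
  obtain ⟨b, hb, -, hconj⟩ := h.cond_left (tvS p φ 1) ((mem_TSL_iff h1.2.2 _).2 ⟨1, rfl⟩) ha1
  obtain ⟨d, rfl⟩ := (mem_TSL_iff h2.2.2 b).1 hb
  rw [conjBy_TSL _ h1.2.2, conjBy_TSL _ h2.2.2] at hconj
  obtain ⟨α, hα⟩ := exists_smul_of_TSL_eq (inc_conj _ h2) (inc_conj _ h1) hconj.symm
  rw [tvS_inv h1.2.2, tvS_inv h2.2.2, tvS_mulVec h1.2.2, tvS_mulVec h2.2.2, h3, mul_zero,
    zero_smul, add_zero] at hα
  apply h4
  have h5 : p = (α - (-d * (ψ ⬝ᵥ p))) • r := by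
    rw [sub_smul, ← hα]
    abel
  rw [h5, dotProduct_smul, h2.2.2, smul_zero]

end Cfsg.Agent.Lib.H12RSLNotRank
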