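import Mathlib
import Cfsg.Agent.Lib.H12RootDefs

/-! piece `SpMem` of project 12 (row S5070: symplectic transvection groups are a class of abstract
root subgroups).  `tv (m+1) p c` (Helper17Symp2) is the transvection `x ↦ x + c f(x,p) p`,
`f = sympForm (m+1) F`; API: `tv_mulVec`, `preserves`, `coe_mul_mulVec`, `coe_inv_mulVec`,
`sympForm_*` (Helper17Symp). -/

set_option autoImplicit false

namespace Cfsg.Agent.Lib.H12RSpMem

open Matrix Cfsg Cfsg.Agent.Lib.H12RootDefs Cfsg.Agent.Lib.Helper17Symp Cfsg.Agent.Lib.Helper17Symp2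

variable {F : Type*} [Field F] {m : ℕ}

theorem ext_mulVec {g h : ↥(Matrix.symplecticGroup (Fin (m + 1)) F)}
    (H : ∀ v : Fin (m + 1) ⊕ Fin (m + 1) → F, (g : Matrix (Fin (m + 1) ⊕ Fin (m + 1)) (Fin (m + 1) ⊕ Fin (m + 1)) F) *ᵥ v = (h : Matrix (Fin (m + 1) ⊕ Fin (m + 1)) (Fin (m + 1) ⊕ Fin (m + 1)) F) *ᵥ v) : g = h := by
  apply Subtype.ext
  apply Matrix.ext_of_mulVec_single
  intro i
  exact H _

theorem one_mulVec' (x : Fin (m + 1) ⊕ Fin (m + 1) → F) :
    ((1 : ↥(Matrix.symplecticGroup (Fin (m + 1)) F)) : Matrix (Fin (m + 1) ⊕ Fin (m + 1)) (Fin (m + 1) ⊕ Fin (m + 1)) F) *ᵥ x = x := by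
  simp

theorem tv_mul (p : Fin (m + 1) ⊕ Fin (m + 1) → F) (c d : F) : tv (m + 1) p c * tv (m + 1) p d = tv (m + 1) p (c + d) := by
  apply ext_mulVec
  intro v
  rw [coe_mul_mulVec, tv_mulVec, tv_mulVec, tv_mulVec, sympForm_add_left, sympForm_smul_left,
    sympForm_self, mul_zero, add_zero, add_assoc, ← add_smul]
  congr 2
  ring

theorem tv_zero (p : Fin (m + 1) ⊕ Fin (m + 1) → F) : tv (m + 1) p (0 : F) = 1 := by
  apply ext_mulVec
  intro v
  rw [tv_mulVec, one_mulVec']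
  simp

theorem tv_inv (p : Fin (m + 1) ⊕ Fin (m + 1) → F) (c : F) : (tv (m + 1) p c)⁻¹ = tv (m + 1) p (-c) := by
  rw [inv_eq_iff_mul_eq_one, tv_mul, add_neg_cancel, tv_zero]

theorem tv_eq_one_iff {p : Fin (m + 1) ⊕ Fin (m + 1) → F} (hp : p ≠ 0) {c : F} : tv (m + 1) p c = 1 ↔ c = 0 := by
  constructor
  · intro h
    by_contra hc
    apply hp
    apply sympForm_nondeg (m + 1) p
    intro x
    have h1 := tv_mulVec p c x
    rw [h, one_mulVec'] at h1
    have h2 : (c * sympForm (m + 1) F x p) • p = 0 := by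
      have := h1.symm
      rwa [add_eq_left] at this
    rcases smul_eq_zero.1 h2 with h3 | h3
    · rcases mul_eq_zero.1 h3 with h4 | h4
      · exact absurd h4 hc
      · rw [sympForm_swap, h4, neg_zero]
    · exact absurd h3 hp
  · rintro rfl
    exact tv_zero p

/-- the generating set of `TSp p` is already a subgroup -/
theorem mem_TSp_iff (p : Fin (m + 1) ⊕ Fin (m + 1) → F) (g : ↥(Matrix.symplecticGroup (Fin (m + 1)) F)) : g ∈ TSp p ↔ ∃ c : F, g = tv (m + 1) p c := by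
  constructor
  · intro hg
    unfold TSp at hg
    induction hg using Subgroup.closure_induction with
    | mem g hg =>
      obtain ⟨c, hc⟩ := hg
      refine ⟨c, ext_mulVec (fun v => ?_)⟩
      rw [hc v, tv_mulVec]
      rfl
    | one => exact ⟨0, (tv_zero p).symm⟩
    | mul a b _ _ ha hb =>
      obtain ⟨c, rfl⟩ := ha
      obtain ⟨d, rfl⟩ := hb
      exact ⟨c + d, tv_mul p c d⟩
    | inv a _ ha =>
      obtain ⟨c, rfl⟩ := ha
      exact ⟨-c, tv_inv p c⟩
  · rintro ⟨c, rfl⟩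
    apply Subgroup.subset_closure
    refine ⟨c, fun v => ?_⟩
    rw [tv_mulVec]
    rfl

end Cfsg.Agent.Lib.H12RSpMem
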