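import Mathlib
import Cfsg.Agent.Lib.H12RSpMem

/-! piece `SpBasic` of project 12 (row S5070: symplectic transvection groups are a class of abstract
root subgroups).  `tv (m+1) p c` (Helper17Symp2) is the transvection `x ↦ x + c f(x,p) p`,
`f = sympForm (m+1) F`; API: `tv_mulVec`, `preserves`, `coe_mul_mulVec`, `coe_inv_mulVec`,
`sympForm_*` (Helper17Symp). -/

set_option autoImplicit false

namespace Cfsg.Agent.Lib.H12RSpBasic

open Matrix Cfsg Cfsg.Agent.Lib.H12RootDefs Cfsg.Agent.Lib.Helper17Symp Cfsg.Agent.Lib.Helper17Symp2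
open Cfsg.Agent.Lib.H12RSpMem

variable {F : Type*} [Field F] {m : ℕ}

theorem TSp_comm (p : Fin (m + 1) ⊕ Fin (m + 1) → F) : IsMulCommutative (TSp p) := by
  refine ⟨⟨?_⟩⟩
  rintro ⟨a, ha⟩ ⟨b, hb⟩
  obtain ⟨c, rfl⟩ := (mem_TSp_iff p a).1 ha
  obtain ⟨d, rfl⟩ := (mem_TSp_iff p b).1 hb
  apply Subtype.ext
  show tv (m + 1) p c * tv (m + 1) p d = tv (m + 1) p d * tv (m + 1) p c
  rw [tv_mul, tv_mul, add_comm c d]

theorem TSp_ne_bot {p : Fin (m + 1) ⊕ Fin (m + 1) → F} (hp : p ≠ 0) : TSp p ≠ ⊥ := by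
  intro h
  have h1 : tv (m + 1) p (1 : F) ∈ TSp p := (mem_TSp_iff p _).2 ⟨1, rfl⟩
  rw [h, Subgroup.mem_bot, tv_eq_one_iff hp] at h1
  exact one_ne_zero h1

theorem tv_smul (a : F) (p : Fin (m + 1) ⊕ Fin (m + 1) → F) (c : F) :
    tv (m + 1) (a • p) c = tv (m + 1) p (a * a * c) := by
  apply ext_mulVec
  intro v
  rw [tv_mulVec, tv_mulVec, sympForm_smul_right, smul_smul]
  congr 2
  ring

/-- `tv (a • p) c = tv p (a² c)` -/
theorem TSp_smul {a : F} (ha : a ≠ 0) (p : Fin (m + 1) ⊕ Fin (m + 1) → F) : TSp (a • p) = TSp p := by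
  ext g
  rw [mem_TSp_iff, mem_TSp_iff]
  constructor
  · rintro ⟨c, rfl⟩
    exact ⟨a * a * c, tv_smul a p c⟩
  · rintro ⟨c, rfl⟩
    refine ⟨(a * a)⁻¹ * c, ?_⟩
    rw [tv_smul, mul_inv_cancel_left₀ (mul_ne_zero ha ha)]

end Cfsg.Agent.Lib.H12RSpBasic
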