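import Mathlib
import Cfsg.Agent.Lib.H12RSpMem

/-! piece `SpConj` of project 12 (row S5070: symplectic transvection groups are a class of abstract
root subgroups).  `tv (m+1) p c` (Helper17Symp2) is the transvection `x ↦ x + c f(x,p) p`,
`f = sympForm (m+1) F`; API: `tv_mulVec`, `preserves`, `coe_mul_mulVec`, `coe_inv_mulVec`,
`sympForm_*` (Helper17Symp). -/

set_option autoImplicit false

namespace Cfsg.Agent.Lib.H12RSpConj

open Matrix Cfsg Cfsg.Agent.Lib.H12RootDefs Cfsg.Agent.Lib.Helper17Symp Cfsg.Agent.Lib.Helper17Symp2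
open Cfsg.Agent.Lib.H12RSpMem

variable {F : Type*} [Field F] {m : ℕ}

theorem conj_tv (g : ↥(Matrix.symplecticGroup (Fin (m + 1)) F)) (p : Fin (m + 1) ⊕ Fin (m + 1) → F) (c : F) :
    g * tv (m + 1) p c * g⁻¹ = tv (m + 1) ((g : Matrix (Fin (m + 1) ⊕ Fin (m + 1)) (Fin (m + 1) ⊕ Fin (m + 1)) F) *ᵥ p) c := by
  apply ext_mulVec
  intro v
  rw [coe_mul_mulVec, coe_mul_mulVec, tv_mulVec, tv_mulVec, Matrix.mulVec_add, coe_inv_mulVec,
    Matrix.mulVec_smul]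
  congr 3
  rw [← preserves g, coe_inv_mulVec]

theorem conjBy_TSp (p : Fin (m + 1) ⊕ Fin (m + 1) → F) (g : ↥(Matrix.symplecticGroup (Fin (m + 1)) F)) : conjBy (TSp p) g = TSp ((g : Matrix (Fin (m + 1) ⊕ Fin (m + 1)) (Fin (m + 1) ⊕ Fin (m + 1)) F) *ᵥ p) := by
  ext h
  rw [mem_TSp_iff, Subgroup.mem_map]
  constructor
  · rintro ⟨x, hx, rfl⟩
    obtain ⟨c, rfl⟩ := (mem_TSp_iff p x).1 hx
    exact ⟨c, conj_tv g p c⟩
  · rintro ⟨c, rfl⟩
    exact ⟨tv (m + 1) p c, (mem_TSp_iff p _).2 ⟨c, rfl⟩, conj_tv g p c⟩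

theorem mulVec_ne_zero (g : ↥(Matrix.symplecticGroup (Fin (m + 1)) F)) {p : Fin (m + 1) ⊕ Fin (m + 1) → F} (hp : p ≠ 0) : (g : Matrix (Fin (m + 1) ⊕ Fin (m + 1)) (Fin (m + 1) ⊕ Fin (m + 1)) F) *ᵥ p ≠ 0 := by
  intro h
  apply hp
  have := coe_inv_mulVec' g p
  rw [h, Matrix.mulVec_zero] at this
  exact this.symm

end Cfsg.Agent.Lib.H12RSpConj
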