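import Mathlib
import Cfsg.Agent.Lib.H12RSpConj
import Cfsg.Agent.S0766

/-! piece `SpClass` of project 12 (row S5070: symplectic transvection groups are a class of abstract
root subgroups).  `tv (m+1) p c` (Helper17Symp2) is the transvection `x ↦ x + c f(x,p) p`,
`f = sympForm (m+1) F`; API: `tv_mulVec`, `preserves`, `coe_mul_mulVec`, `coe_inv_mulVec`,
`sympForm_*` (Helper17Symp). -/

set_option autoImplicit false

namespace Cfsg.Agent.Lib.H12RSpClass

open Matrix Cfsg Cfsg.Agent.Lib.H12RootDefs Cfsg.Agent.Lib.Helper17Symp Cfsg.Agent.Lib.Helper17Symp2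
open Cfsg.Agent.Lib.H12RSpMem Cfsg.Agent.Lib.H12RSpConj

variable {F : Type*} [Field F] {m : ℕ}

/-- `sympForm_nondeg` + scaling -/
theorem exists_pair {p : Fin (m + 1) ⊕ Fin (m + 1) → F} (hp : p ≠ 0) : ∃ p' : Fin (m + 1) ⊕ Fin (m + 1) → F, sympForm (m + 1) F p p' = 1 := by
  by_contra hcon
  push Not at hcon
  apply hp
  apply sympForm_nondeg
  intro v
  by_contra hv
  apply hcon ((sympForm (m + 1) F p v)⁻¹ • v)
  rw [sympForm_smul_right, inv_mul_cancel₀ hv]

/-- from the row S0766 (transitivity on hyperbolic pairs) and `conjBy_TSp` -/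
theorem exists_conj {p q : Fin (m + 1) ⊕ Fin (m + 1) → F} (hp : p ≠ 0) (hq : q ≠ 0) :
    ∃ g : ↥(Matrix.symplecticGroup (Fin (m + 1)) F), TSp q = conjBy (TSp p) g := by
  obtain ⟨p', hp'⟩ := exists_pair hp
  obtain ⟨q', hq'⟩ := exists_pair hq
  obtain ⟨A, -, hA, -⟩ := Cfsg.Agent.S0766.result (m + 1) p p' q q' hp' hq'
  refine ⟨A, ?_⟩
  rw [conjBy_TSp, hA]

end Cfsg.Agent.Lib.H12RSpClass
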