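import Mathlib
import Cfsg.Agent.Lib.H12RootDefs

/-! piece `SpCommon` of project 12 (row S5070: symplectic transvection groups are a class of abstract
root subgroups).  `tv (m+1) p c` (Helper17Symp2) is the transvection `x ↦ x + c f(x,p) p`,
`f = sympForm (m+1) F`; API: `tv_mulVec`, `preserves`, `coe_mul_mulVec`, `coe_inv_mulVec`,
`sympForm_*` (Helper17Symp). -/

set_option autoImplicit false

namespace Cfsg.Agent.Lib.H12RSpCommon

open Matrix Cfsg Cfsg.Agent.Lib.H12RootDefs Cfsg.Agent.Lib.Helper17Symp Cfsg.Agent.Lib.Helper17Symp2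

variable {F : Type*} [Field F] {m : ℕ}

theorem exists_common {p q : Fin (m + 1) ⊕ Fin (m + 1) → F} (hp : p ≠ 0) (hq : q ≠ 0) :
    ∃ r : Fin (m + 1) ⊕ Fin (m + 1) → F, sympForm (m + 1) F p r ≠ 0 ∧ sympForm (m + 1) F r q ≠ 0 := by
  obtain ⟨r₁, h₁⟩ : ∃ r, sympForm (m + 1) F p r ≠ 0 := by
    by_contra hcon
    push Not at hcon
    exact hp (sympForm_nondeg (m + 1) p hcon)
  obtain ⟨r₂, h₂⟩ : ∃ r, sympForm (m + 1) F r q ≠ 0 := by
    by_contra hcon
    push Not at hcon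
    apply hq
    apply sympForm_nondeg (m + 1) q
    intro v
    rw [sympForm_swap, hcon v, neg_zero]
  by_cases a : sympForm (m + 1) F r₁ q = 0
  · by_cases b : sympForm (m + 1) F p r₂ = 0
    · refine ⟨r₁ + r₂, ?_, ?_⟩
      · rw [sympForm_add_right, b, add_zero]; exact h₁
      · rw [sympForm_add_left, a, zero_add]; exact h₂
    · exact ⟨r₂, b, h₂⟩
  · exact ⟨r₁, h₁, a⟩

end Cfsg.Agent.Lib.H12RSpCommon
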