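import Mathlib
import Cfsg.Agent.Lib.H12RSpMem

/-! piece `SpEmb` of project 12 (row S5070: symplectic transvection groups are a class of abstract
root subgroups).  `tv (m+1) p c` (Helper17Symp2) is the transvection `x ↦ x + c f(x,p) p`,
`f = sympForm (m+1) F`; API: `tv_mulVec`, `preserves`, `coe_mul_mulVec`, `coe_inv_mulVec`,
`sympForm_*` (Helper17Symp). -/

set_option autoImplicit false

namespace Cfsg.Agent.Lib.H12RSpEmb

open Matrix Cfsg Cfsg.Agent.Lib.H12RootDefs Cfsg.Agent.Lib.Helper17Symp Cfsg.Agent.Lib.Helper17Symp2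
open Cfsg.Agent.Lib.H12RSpMem

variable {F : Type*} [Field F] {m : ℕ}

/-- the linear map of `g` in the hyperbolic pair `(p, q)`. -/
noncomputable def embLin (p q : Fin (m + 1) ⊕ Fin (m + 1) → F)
    (g : Matrix.SpecialLinearGroup (Fin 2) F) :
    (Fin (m + 1) ⊕ Fin (m + 1) → F) →ₗ[F] (Fin (m + 1) ⊕ Fin (m + 1) → F) where
  toFun x := x + ((g 0 0 - 1) * sympForm (m + 1) F x q + g 0 1 * sympForm (m + 1) F p x) • p
            + (g 1 0 * sympForm (m + 1) F x q + (g 1 1 - 1) * sympForm (m + 1) F p x) • q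
  map_add' := by
    intro x y
    simp only [sympForm_add_left, sympForm_add_right]
    module
  map_smul' := by
    intro c x
    simp only [sympForm_smul_left, sympForm_smul_right, RingHom.id_apply]
    module

theorem embLin_apply (p q : Fin (m + 1) ⊕ Fin (m + 1) → F)
    (g : Matrix.SpecialLinearGroup (Fin 2) F) (x : Fin (m + 1) ⊕ Fin (m + 1) → F) :
    embLin p q g x =
      x + ((g 0 0 - 1) * sympForm (m + 1) F x q + g 0 1 * sympForm (m + 1) F p x) • p
        + (g 1 0 * sympForm (m + 1) F x q + (g 1 1 - 1) * sympForm (m + 1) F p x) • q := rfl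

theorem embLin_preserves {p q : Fin (m + 1) ⊕ Fin (m + 1) → F} (h : sympForm (m + 1) F p q = 1)
    (g : Matrix.SpecialLinearGroup (Fin 2) F) (u v : Fin (m + 1) ⊕ Fin (m + 1) → F) :
    sympForm (m + 1) F (embLin p q g u) (embLin p q g v) = sympForm (m + 1) F u v := by
  have hdet : g 0 0 * g 1 1 - g 0 1 * g 1 0 = 1 := by
    have := g.2
    rwa [Matrix.det_fin_two] at this
  have hqp : sympForm (m + 1) F q p = -1 := by rw [sympForm_swap, h]
  rw [embLin_apply, embLin_apply]
  simp only [sympForm_add_left, sympForm_add_right, sympForm_smul_left, sympForm_smul_right,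
    sympForm_self, h, hqp]
  rw [sympForm_swap (m + 1) u p, sympForm_swap (m + 1) q v]
  linear_combination (sympForm (m + 1) F u q * sympForm (m + 1) F p v
    - sympForm (m + 1) F p u * sympForm (m + 1) F v q) * hdet

/-- the element of the symplectic group. -/
noncomputable def embSp {p q : Fin (m + 1) ⊕ Fin (m + 1) → F} (h : sympForm (m + 1) F p q = 1)
    (g : Matrix.SpecialLinearGroup (Fin 2) F) : ↥(Matrix.symplecticGroup (Fin (m + 1)) F) :=
  ⟨LinearMap.toMatrix' (embLin p q g), by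
    rw [mem_symplecticGroup_iff_preserves]
    intro u v
    rw [LinearMap.toMatrix'_mulVec, LinearMap.toMatrix'_mulVec]
    exact embLin_preserves h g u v⟩

theorem embSp_mulVec {p q : Fin (m + 1) ⊕ Fin (m + 1) → F} (h : sympForm (m + 1) F p q = 1)
    (g : Matrix.SpecialLinearGroup (Fin 2) F) (x : Fin (m + 1) ⊕ Fin (m + 1) → F) :
    ((embSp h g : ↥(Matrix.symplecticGroup (Fin (m + 1)) F)) :
      Matrix (Fin (m + 1) ⊕ Fin (m + 1)) (Fin (m + 1) ⊕ Fin (m + 1)) F) *ᵥ x = embLin p q g x :=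
  LinearMap.toMatrix'_mulVec _ _

theorem embLin_mul {p q : Fin (m + 1) ⊕ Fin (m + 1) → F} (h : sympForm (m + 1) F p q = 1)
    (g g' : Matrix.SpecialLinearGroup (Fin 2) F) (x : Fin (m + 1) ⊕ Fin (m + 1) → F) :
    embLin p q (g * g') x = embLin p q g (embLin p q g' x) := by
  have hqp : sympForm (m + 1) F q p = -1 := by rw [sympForm_swap, h]
  rw [embLin_apply, embLin_apply p q g, embLin_apply p q g']
  simp only [sympForm_add_left, sympForm_add_right, sympForm_smul_left, sympForm_smul_right,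
    sympForm_self, h, hqp, Matrix.SpecialLinearGroup.coe_mul, Matrix.mul_apply, Fin.sum_univ_two]
  module

/-- the embedding of `SL₂(F)` attached to a hyperbolic pair `(p, q)`: `g` acts on `⟨p, q⟩` by its matrix
in the basis `(p, q)` and trivially on `⟨p, q⟩^⊥`. -/
theorem exists_hom {p q : Fin (m + 1) ⊕ Fin (m + 1) → F} (h : sympForm (m + 1) F p q = 1) :
    ∃ φ : Matrix.SpecialLinearGroup (Fin 2) F →* ↥(Matrix.symplecticGroup (Fin (m + 1)) F),
      ∀ (g : Matrix.SpecialLinearGroup (Fin 2) F) (x : Fin (m + 1) ⊕ Fin (m + 1) → F),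
        ((φ g : ↥(Matrix.symplecticGroup (Fin (m + 1)) F)) : Matrix (Fin (m + 1) ⊕ Fin (m + 1)) (Fin (m + 1) ⊕ Fin (m + 1)) F) *ᵥ x =
          x + ((g 0 0 - 1) * sympForm (m + 1) F x q + g 0 1 * sympForm (m + 1) F p x) • p
            + (g 1 0 * sympForm (m + 1) F x q + (g 1 1 - 1) * sympForm (m + 1) F p x) • q := by
  refine ⟨MonoidHom.mk' (embSp h) ?_, fun g x => embSp_mulVec h g x⟩
  intro g g'
  apply ext_mulVec
  intro v
  rw [coe_mul_mulVec, embSp_mulVec, embSp_mulVec, embSp_mulVec]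
  exact embLin_mul h g g' v

end Cfsg.Agent.Lib.H12RSpEmb
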