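import Mathlib
import Cfsg.Agent.Lib.H12RSpMem
import Cfsg.Agent.S0765

/-! piece `SpGen` of project 12 (row S5070: symplectic transvection groups are a class of abstract
root subgroups).  `tv (m+1) p c` (Helper17Symp2) is the transvection `x ↦ x + c f(x,p) p`,
`f = sympForm (m+1) F`; API: `tv_mulVec`, `preserves`, `coe_mul_mulVec`, `coe_inv_mulVec`,
`sympForm_*` (Helper17Symp). -/

set_option autoImplicit false

namespace Cfsg.Agent.Lib.H12RSpGen

open Matrix Cfsg Cfsg.Agent.Lib.H12RootDefs Cfsg.Agent.Lib.Helper17Symp Cfsg.Agent.Lib.Helper17Symp2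
open Cfsg.Agent.Lib.H12RSpMem

variable {F : Type*} [Field F] {m : ℕ}

/-- from the row S0765 (`Cfsg.Agent.S0765.result (m + 1)`); a transvection with `w = 0` is `1` -/
theorem iSup_SigSp : (⨆ A ∈ SigSp F m, A) = ⊤ := by
  rw [eq_top_iff, ← Cfsg.Agent.S0765.result (F := F) (m + 1), Subgroup.closure_le]
  rintro A ⟨w, c, hA⟩
  have hAtv : A = tv (m + 1) w c := Subtype.ext hA
  by_cases hw : w = 0
  · have : A = 1 := by
      rw [hAtv]
      apply ext_mulVec
      intro v
      rw [tv_mulVec, hw, smul_zero, add_zero]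
      simp
    rw [this]
    exact Subgroup.one_mem _
  · have h1 : TSp w ≤ ⨆ A ∈ SigSp F m, A :=
      le_iSup₂_of_le (TSp w) ⟨w, hw, rfl⟩ le_rfl
    exact h1 ((mem_TSp_iff w A).2 ⟨c, hAtv⟩)

end Cfsg.Agent.Lib.H12RSpGen
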