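import Mathlib
import Cfsg.Agent.Lib.H12RSpMem
import Cfsg.Agent.Lib.H12RootComm

/-! piece `SpPerp` of project 12 (row S5070: symplectic transvection groups are a class of abstract
root subgroups).  `tv (m+1) p c` (Helper17Symp2) is the transvection `x ↦ x + c f(x,p) p`,
`f = sympForm (m+1) F`; API: `tv_mulVec`, `preserves`, `coe_mul_mulVec`, `coe_inv_mulVec`,
`sympForm_*` (Helper17Symp). -/

set_option autoImplicit false

namespace Cfsg.Agent.Lib.H12RSpPerp

open Matrix Cfsg Cfsg.Agent.Lib.H12RootDefs Cfsg.Agent.Lib.Helper17Symp Cfsg.Agent.Lib.Helper17Symp2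
open Cfsg.Agent.Lib.H12RSpMem Cfsg.Agent.Lib.H12RootComm

variable {F : Type*} [Field F] {m : ℕ}

theorem tv_comm {p q : Fin (m + 1) ⊕ Fin (m + 1) → F} (h : sympForm (m + 1) F p q = 0) (c d : F) :
    tv (m + 1) p c * tv (m + 1) q d = tv (m + 1) q d * tv (m + 1) p c := by
  have h' : sympForm (m + 1) F q p = 0 := by rw [sympForm_swap, h, neg_zero]
  apply ext_mulVec
  intro v
  rw [coe_mul_mulVec, coe_mul_mulVec, tv_mulVec, tv_mulVec, tv_mulVec, tv_mulVec,
    sympForm_add_left, sympForm_add_left, sympForm_smul_left, sympForm_smul_left, h, h']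
  simp only [mul_zero, add_zero]
  abel

theorem comm_eq_bot {p q : Fin (m + 1) ⊕ Fin (m + 1) → F} (h : sympForm (m + 1) F p q = 0) : ⁅TSp p, TSp q⁆ = ⊥ := by
  apply comm_eq_bot_of_forall
  intro a ha b hb
  obtain ⟨c, rfl⟩ := (mem_TSp_iff p a).1 ha
  obtain ⟨d, rfl⟩ := (mem_TSp_iff q b).1 hb
  exact tv_comm h c d

/-- converse of `tv_comm` -/
theorem perp_of_comm {p q : Fin (m + 1) ⊕ Fin (m + 1) → F} (hp : p ≠ 0) (hq : q ≠ 0)
    (h : tv (m + 1) p (1 : F) * tv (m + 1) q 1 = tv (m + 1) q 1 * tv (m + 1) p 1) :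
    sympForm (m + 1) F p q = 0 := by
  by_contra hpq
  have hqp : sympForm (m + 1) F q p = - sympForm (m + 1) F p q := sympForm_swap _ _ _
  -- evaluate at `p`
  have h1 := congrArg (fun g : ↥(Matrix.symplecticGroup (Fin (m + 1)) F) =>
    (g : Matrix (Fin (m + 1) ⊕ Fin (m + 1)) (Fin (m + 1) ⊕ Fin (m + 1)) F) *ᵥ p) h
  rw [coe_mul_mulVec, coe_mul_mulVec, tv_mulVec, tv_mulVec, tv_mulVec, tv_mulVec,
    sympForm_add_left, sympForm_smul_left, sympForm_self, sympForm_add_left, sympForm_smul_left,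
    hqp] at h1
  simp only [one_mul, mul_zero, zero_mul, zero_smul, add_zero, zero_add] at h1
  -- `p + f q + (f * (-f)) p = p + f q`
  have h2 : (sympForm (m + 1) F p q * -sympForm (m + 1) F p q) • p = 0 := by
    have := h1
    rwa [add_eq_left] at this
  rcases smul_eq_zero.1 h2 with h3 | h3
  · rcases mul_eq_zero.1 h3 with h4 | h4
    · exact hpq h4
    · exact hpq (neg_eq_zero.1 h4)
  · exact hp h3

end Cfsg.Agent.Lib.H12RSpPerp
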