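import Mathlib
import Cfsg.Agent.Lib.H12RSpPerp
import Cfsg.Agent.Lib.H12RSpBasic

/-! piece `SpNoComm` of project 12 (row S5070: symplectic transvection groups are a class of abstract
root subgroups).  `tv (m+1) p c` (Helper17Symp2) is the transvection `x ↦ x + c f(x,p) p`,
`f = sympForm (m+1) F`; API: `tv_mulVec`, `preserves`, `coe_mul_mulVec`, `coe_inv_mulVec`,
`sympForm_*` (Helper17Symp). -/

set_option autoImplicit false

namespace Cfsg.Agent.Lib.H12RSpNoComm

open Matrix Cfsg Cfsg.Agent.Lib.H12RootDefs Cfsg.Agent.Lib.Helper17Symp Cfsg.Agent.Lib.Helper17Symp2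
open Cfsg.Agent.Lib.H12RSpMem Cfsg.Agent.Lib.H12RSpPerp Cfsg.Agent.Lib.H12RSpBasic

variable {F : Type*} [Field F] {m : ℕ}

/-- every element of `T(p) ⊔ T(q)` moves every vector by an element of `⟨p, q⟩`
(`TSp p ⊔ TSp q ≤ TU (m+1) (span {p, q})` and `TU_sub_mem`) -/
theorem sup_sub_mem {p q : Fin (m + 1) ⊕ Fin (m + 1) → F} {g : ↥(Matrix.symplecticGroup (Fin (m + 1)) F)} (hg : g ∈ TSp p ⊔ TSp q) (x : Fin (m + 1) ⊕ Fin (m + 1) → F) :
    (g : Matrix (Fin (m + 1) ⊕ Fin (m + 1)) (Fin (m + 1) ⊕ Fin (m + 1)) F) *ᵥ x - x ∈ Submodule.span F {p, q} := by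
  have h1 : TSp p ≤ TU (m + 1) (Submodule.span F {p, q}) := by
    intro a ha
    obtain ⟨c, rfl⟩ := (mem_TSp_iff p a).mp ha
    exact tv_mem_TU (Submodule.subset_span (by simp)) c
  have h2 : TSp q ≤ TU (m + 1) (Submodule.span F {p, q}) := by
    intro a ha
    obtain ⟨c, rfl⟩ := (mem_TSp_iff q a).mp ha
    exact tv_mem_TU (Submodule.subset_span (by simp)) c
  exact TU_sub_mem (sup_le h1 h2 hg) x

theorem not_commCase {p q : Fin (m + 1) ⊕ Fin (m + 1) → F} (hp : p ≠ 0) (hq : q ≠ 0) :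
    ¬ RootCommutatorCase (SigSp F m) (TSp p) (TSp q) := by
  rintro ⟨⟨r, hr, hcr⟩, hcent, -, -⟩
  have hle : ⁅TSp p, TSp q⁆ ≤ TSp p ⊔ TSp q := by
    rw [Subgroup.commutator_le]
    intro a ha b hb
    have ha' : a ∈ TSp p ⊔ TSp q := (le_sup_left : TSp p ≤ TSp p ⊔ TSp q) ha
    have hb' : b ∈ TSp p ⊔ TSp q := (le_sup_right : TSp q ≤ TSp p ⊔ TSp q) hb
    rw [commutatorElement_def]
    exact mul_mem (mul_mem (mul_mem ha' hb') (inv_mem ha')) (inv_mem hb')
  have hmem : tv (m + 1) r (1 : F) ∈ ⁅TSp p, TSp q⁆ := by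
    rw [hcr, mem_TSp_iff]
    exact ⟨1, rfl⟩
  have hrp : sympForm (m + 1) F r p = 0 := by
    apply perp_of_comm hr hp
    exact hcent _ hmem _ ((le_sup_left : TSp p ≤ TSp p ⊔ TSp q) ((mem_TSp_iff p _).mpr ⟨1, rfl⟩))
  have hrq : sympForm (m + 1) F r q = 0 := by
    apply perp_of_comm hr hq
    exact hcent _ hmem _ ((le_sup_right : TSp q ≤ TSp p ⊔ TSp q) ((mem_TSp_iff q _).mpr ⟨1, rfl⟩))
  obtain ⟨x, hx⟩ : ∃ x, sympForm (m + 1) F r x ≠ 0 := by
    by_contra hall
    push Not at hall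
    exact hr (sympForm_nondeg (m + 1) r hall)
  have hx' : sympForm (m + 1) F x r ≠ 0 := by
    rw [sympForm_swap]
    exact neg_ne_zero.mpr hx
  have hspan : r ∈ Submodule.span F {p, q} := by
    have h1 := sup_sub_mem (hle hmem) x
    rw [tv_mulVec, add_sub_cancel_left, one_mul] at h1
    have h2 := Submodule.smul_mem _ (sympForm (m + 1) F x r)⁻¹ h1
    rwa [smul_smul, inv_mul_cancel₀ hx', one_smul] at h2
  obtain ⟨a, b, hab⟩ := Submodule.mem_span_pair.mp hspan
  by_cases hpq : sympForm (m + 1) F p q = 0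
  · have := comm_eq_bot hpq
    rw [hcr] at this
    exact TSp_ne_bot hr this
  · have hqp : sympForm (m + 1) F q p ≠ 0 := by
      rw [sympForm_swap]
      exact neg_ne_zero.mpr hpq
    rw [← hab] at hrp hrq
    simp only [sympForm_add_left, sympForm_smul_left, sympForm_self, mul_zero, zero_add,
      add_zero] at hrp hrq
    have hb : b = 0 := by
      rcases mul_eq_zero.mp hrp with h | h
      · exact h
      · exact absurd h hqp
    have ha : a = 0 := by
      rcases mul_eq_zero.mp hrq with h | h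
      · exact h
      · exact absurd h hpq
    apply hr
    rw [← hab, ha, hb, zero_smul, zero_smul, add_zero]

end Cfsg.Agent.Lib.H12RSpNoComm
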