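import Mathlib
import Cfsg.Agent.Lib.H12RSpEmb
import Cfsg.Agent.Lib.H12RSpBasic
import Cfsg.Agent.Lib.H12RootHom

/-! piece `SpPSL2` of project 12 (row S5070: symplectic transvection groups are a class of abstract
root subgroups).  `tv (m+1) p c` (Helper17Symp2) is the transvection `x ↦ x + c f(x,p) p`,
`f = sympForm (m+1) F`; API: `tv_mulVec`, `preserves`, `coe_mul_mulVec`, `coe_inv_mulVec`,
`sympForm_*` (Helper17Symp). -/

set_option autoImplicit false

namespace Cfsg.Agent.Lib.H12RSpPSL2

open Matrix Cfsg Cfsg.Agent.Lib.H12RootDefs Cfsg.Agent.Lib.Helper17Symp Cfsg.Agent.Lib.Helper17Symp2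
open Cfsg.Agent.Lib.H12RSpMem Cfsg.Agent.Lib.H12RSpEmb Cfsg.Agent.Lib.H12RSpBasic Cfsg.Agent.Lib.H12RootHom

variable {F : Type*} [Field F] {m : ℕ}

theorem psl2_aux {p q : Fin (m + 1) ⊕ Fin (m + 1) → F} (h : sympForm (m + 1) F p q = 1) :
    IsPSL2PairOver F (TSp p) (TSp q) := by
  obtain ⟨φ, hφ⟩ := exists_hom h
  have hU : ∀ b : F, φ (U2 b) = tv (m + 1) p (-b) := by
    intro b
    apply ext_mulVec
    intro x
    have e00 : (U2 b) 0 0 = 1 := by simp [U2]
    have e01 : (U2 b) 0 1 = b := by simp [U2]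
    have e10 : (U2 b) 1 0 = 0 := by simp [U2]
    have e11 : (U2 b) 1 1 = 1 := by simp [U2]
    rw [hφ, tv_mulVec, e00, e01, e10, e11, sympForm_swap (m + 1) x p]
    simp
  have hL : ∀ c : F, φ (L2 c) = tv (m + 1) q c := by
    intro c
    apply ext_mulVec
    intro x
    have e00 : (L2 c) 0 0 = 1 := by simp [L2]
    have e01 : (L2 c) 0 1 = 0 := by simp [L2]
    have e10 : (L2 c) 1 0 = c := by simp [L2]
    have e11 : (L2 c) 1 1 = 1 := by simp [L2]
    rw [hφ, tv_mulVec, e00, e01, e10, e11]
    simp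
  apply psl2_of_hom φ
  · intro g hg
    have hg1 : φ g = 1 := hg
    have hp := hφ g p
    have hq := hφ g q
    rw [hg1, one_mulVec'] at hp hq
    rw [sympForm_self, h] at hp hq
    have a1 := congrArg (fun v => sympForm (m + 1) F v q) hp
    have a2 := congrArg (fun v => sympForm (m + 1) F p v) hp
    have a3 := congrArg (fun v => sympForm (m + 1) F v q) hq
    have a4 := congrArg (fun v => sympForm (m + 1) F p v) hq
    simp only [sympForm_add_left, sympForm_add_right, sympForm_smul_left, sympForm_smul_right,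
      sympForm_self, h, mul_zero, mul_one, add_zero, zero_add] at a1 a2 a3 a4
    have g00 : g 0 0 = 1 := by linear_combination -a1
    have g10 : g 1 0 = 0 := by linear_combination -a2
    have g01 : g 0 1 = 0 := by linear_combination -a3
    have g11 : g 1 1 = 1 := by linear_combination -a4
    have : g = 1 := by
      ext i j
      fin_cases i <;> fin_cases j
      · simpa using g00
      · simpa using g01
      · simpa using g10
      · simpa using g11
    rw [this]
    exact Subgroup.one_mem _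
  · intro x
    rw [mem_TSp_iff]
    constructor
    · rintro ⟨c, rfl⟩
      exact ⟨-c, by rw [hU, neg_neg]⟩
    · rintro ⟨b, rfl⟩
      exact ⟨-b, hU b⟩
  · intro x
    rw [mem_TSp_iff]
    constructor
    · rintro ⟨c, rfl⟩
      exact ⟨c, (hL c).symm⟩
    · rintro ⟨c, rfl⟩
      exact ⟨c, hL c⟩

theorem psl2 {p q : Fin (m + 1) ⊕ Fin (m + 1) → F} (h : sympForm (m + 1) F p q ≠ 0) : IsPSL2PairOver F (TSp p) (TSp q) := by
  have hq' : sympForm (m + 1) F p ((sympForm (m + 1) F p q)⁻¹ • q) = 1 := by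
    rw [sympForm_smul_right, inv_mul_cancel₀ h]
  rw [← TSp_smul (inv_ne_zero h) q]
  exact psl2_aux hq'

end Cfsg.Agent.Lib.H12RSpPSL2
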