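import Cfsg.Agent.Lib.H12XSetup

set_option autoImplicit false

/-! PROJECT 5423, piece `Conj`: `z` is conjugate to another element of `U`. -/

namespace Cfsg.Agent.Lib.H12XConj

open Matrix Cfsg.Agent.Lib.H12XDefs Cfsg.Agent.Lib.H12XSetup

variable {X : Type*} [Group X] {n : ℕ} {U M : Subgroup X} {z : X}
  {e : ↥U ≃* Multiplicative (Fin (n + 1) → ZMod 2)} {μ : GLn (n + 1) →* X}
  {tv : V n → GLn (n + 1)} {dg : GLn n →* GLn (n + 1)}

theorem exists_conj (hn : 1 ≤ n) (h : Setup n U M z e μ tv dg) : ∃ g : X, g * z * g⁻¹ ∈ U ∧ g * z * g⁻¹ ≠ z := by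
  obtain ⟨k, rfl⟩ : ∃ k, n = k + 1 := ⟨n - 1, by omega⟩
  have h10 : (1 : Fin (k + 1 + 1)) ≠ 0 := by
    intro h
    have := congrArg Fin.val h
    simp at this
  have hdet : (Matrix.transvection (1 : Fin (k + 1 + 1)) 0 (1 : ZMod 2)).det = 1 :=
    Matrix.det_transvection_of_ne 1 0 h10 1
  let t : GLn (k + 1 + 1) := Matrix.GeneralLinearGroup.mkOfDetNeZero (Matrix.transvection 1 0 1) (by rw [hdet]; exact one_ne_zero)
  have ht : (t : Matrix (Fin (k + 1 + 1)) (Fin (k + 1 + 1)) (ZMod 2)) = Matrix.transvection 1 0 1 := rfl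
  refine ⟨μ t, h.agl.norm _ (h.muM t) z h.agl.zU, ?_⟩
  intro hcon
  have h1 := h.act t (Pi.single 0 1)
  rw [h.ez, hcon, ← h.ez] at h1
  have h2 := Multiplicative.ofAdd.injective (e.symm.injective (Subtype.ext h1))
  have h3 := congrFun h2 1
  rw [ht, Matrix.mulVec_single_one] at h3
  simp [Matrix.transvection, Matrix.col, Matrix.single, h10] at h3

end Cfsg.Agent.Lib.H12XConj
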