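import Cfsg.Agent.Lib.H12XSetup

set_option autoImplicit false

/-! PROJECT 5423, piece `Coord` (essentially PURE MATHLIB): coordinates on an elementary abelian 2-group. -/

namespace Cfsg.Agent.Lib.H12XCoord

open Matrix Cfsg.Agent.Lib.H12XDefs Cfsg.Agent.Lib.H12XSetup

/-- linear version -/
theorem exists_lin {W : Type*} [AddCommGroup W] [Module (ZMod 2) W] {n : ℕ}
    (hcard : Nat.card W = 2 ^ (n + 1)) (z : W) (hz : z ≠ 0) :
    ∃ f : W ≃ₗ[ZMod 2] (Fin (n + 1) → ZMod 2), f.symm (Pi.single 0 1) = z := by
  classical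
  haveI : Finite W := Nat.finite_of_card_ne_zero (by rw [hcard]; positivity)
  haveI : Module.Finite (ZMod 2) W := Module.Finite.of_finite
  have hrank : Module.finrank (ZMod 2) W = n + 1 := by
    have h := Module.natCard_eq_pow_finrank (K := ZMod 2) (V := W)
    rw [hcard, Nat.card_zmod] at h
    exact (Nat.pow_right_injective (le_refl 2) h).symm
  have hli : LinearIndepOn (ZMod 2) id ({z} : Set W) := by
    rw [linearIndepOn_singleton_iff]
    exact hz
  let B := Module.Basis.extend hli
  have hzmem : z ∈ hli.extend (Set.subset_univ _) := Module.Basis.subset_extend hli rfl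
  let z0 : ↥(hli.extend (Set.subset_univ _)) := ⟨z, hzmem⟩
  haveI : Fintype ↥(hli.extend (Set.subset_univ _)) := Fintype.ofFinite _
  have hc : Fintype.card ↥(hli.extend (Set.subset_univ _)) = Fintype.card (Fin (n + 1)) := by
    rw [Fintype.card_fin, ← hrank, Module.finrank_eq_card_basis B]
  let σ := Fintype.equivOfCardEq hc
  let σ' := σ.trans (Equiv.swap (σ z0) 0)
  have hσ' : σ'.symm 0 = z0 := by
    rw [Equiv.symm_apply_eq]
    simp [σ']
  refine ⟨(B.reindex σ').equivFun, ?_⟩
  rw [Module.Basis.equivFun_symm_apply]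
  simp only [Pi.single_apply, ite_smul, one_smul, zero_smul, Finset.sum_ite_eq', Finset.mem_univ,
    if_true, Module.Basis.reindex_apply, hσ']
  exact Module.Basis.extend_apply_self hli z0

/-- SKETCH. `U` is commutative of exponent 2, so `Additive U` is a `ZMod 2`-module
(`AddCommGroup.zmodModule` : needs `∀ x, 2 • x = 0`), finite of cardinality `2^(n+1)`, hence of `finrank = n+1`
(`Module.card_eq_pow_finrank` / `card_eq_pow_finrank`). The nonzero vector `z` extends to a basis
(`LinearIndependent` of a singleton, `Basis.extend`/`exists_basis...`; or: take any basis/linear equiv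
`f : Additive U ≃ₗ (Fin (n+1) → ZMod 2)` (`LinearEquiv.ofFinrankEq`, `Module.finrank_fin_fun`), and compose with a linear
automorphism of `Fin (n+1) → ZMod 2` sending `f z ≠ 0` to `Pi.single 0 1`). Convert the additive equivalence into a `MulEquiv` with
`AddEquiv.toMultiplicative` & co. -/
theorem exists_coord {X : Type*} [Group X] {n : ℕ} {U : Subgroup X} (hU : Cfsg.IsElementaryAbelian 2 U)
    (hcard : Nat.card ↥U = 2 ^ (n + 1)) {z : X} (hz : z ∈ U) (hz1 : z ≠ 1) :
    ∃ e : ↥U ≃* Multiplicative (Fin (n + 1) → ZMod 2),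
      ((e.symm (Multiplicative.ofAdd (Pi.single 0 1)) : ↥U) : X) = z := by
  classical
  letI : CommGroup ↥U := { (inferInstance : Group ↥U) with mul_comm := hU.1.is_comm.comm }
  letI : Module (ZMod 2) (Additive ↥U) := AddCommGroup.zmodModule (n := 2) (by
    intro x
    induction x using Additive.rec with
    | ofMul u =>
      rw [← ofMul_pow]
      have : u ^ 2 = 1 := Subtype.ext (hU.2 u.1 u.2)
      rw [this]; rfl)
  obtain ⟨f, hf⟩ := exists_lin (W := Additive ↥U) (n := n) (by
    rw [← hcard]; exact Nat.card_congr Additive.toMul) (Additive.ofMul ⟨z, hz⟩) (by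
      intro h
      apply hz1
      have : (⟨z, hz⟩ : ↥U) = 1 := Additive.ofMul.injective h
      exact congrArg Subtype.val this)
  let e : ↥U ≃* Multiplicative (Fin (n + 1) → ZMod 2) :=
    { toFun := fun u => Multiplicative.ofAdd (f (Additive.ofMul u))
      invFun := fun x => Additive.toMul (f.symm (Multiplicative.toAdd x))
      left_inv := fun u => by simp
      right_inv := fun x => by simp
      map_mul' := fun u v => by
        rw [ofMul_mul, map_add, ofAdd_add] }
  refine ⟨e, ?_⟩
  change ((Additive.toMul (f.symm (Pi.single 0 1)) : ↥U) : X) = z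
  rw [hf]
  rfl

end Cfsg.Agent.Lib.H12XCoord
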