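import Cfsg.Agent.Lib.H12XInstA

set_option autoImplicit false

/-! PROJECT 5423, piece `InstB`: the action relations of `Cfg` in a `Setup`. -/

namespace Cfsg.Agent.Lib.H12XInstB

open Matrix Cfsg.Agent.Lib.H12XDefs Cfsg.Agent.Lib.H12XSetup Cfsg.Agent.Lib.H12XMatsB Cfsg.Agent.Lib.H12XInstA

variable {X : Type*} [Group X] {n : ℕ} {U M : Subgroup X} {z : X}
  {e : ↥U ≃* Multiplicative (Fin (n + 1) → ZMod 2)} {μ : GLn (n + 1) →* X}
  {tv : V n → GLn (n + 1)} {dg : GLn n →* GLn (n + 1)}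

theorem single_eq_cons : (Pi.single 0 1 : Fin (n + 1) → ZMod 2) = Fin.cons 1 (0 : V n) := by
  funext i
  refine Fin.cases ?_ (fun j => ?_) i
  · simp
  · simp [Fin.succ_ne_zero]

theorem comm_of_conj {x y : X} (h : x * y * x⁻¹ = y) : y * x = x * y := by
  calc y * x = x * y * x⁻¹ * x := by rw [h]
    _ = x * y := by group

theorem zb (h : Setup n U M z e μ tv dg) (w : V n) : z * bS μ tv w = bS μ tv w * z := by
  apply comm_of_conj
  unfold bS
  have h1 := h.act (tv w) (Pi.single 0 1)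
  rw [single_eq_cons, h.mats.tv_mulVec, dotProduct_zero, add_zero, ← single_eq_cons, h.ez] at h1
  exact h1

theorem zk (h : Setup n U M z e μ tv dg) (A : GLn n) : z * kS μ dg A = kS μ dg A * z := by
  apply comm_of_conj
  unfold kS
  rw [MonoidHom.comp_apply]
  have h1 := h.act (dg A) (Pi.single 0 1)
  rw [single_eq_cons, h.mats.dg_mulVec, Matrix.mulVec_zero, ← single_eq_cons, h.ez] at h1
  exact h1

theorem ba (h : Setup n U M z e μ tv dg) (v w : V n) :
    bS μ tv w * aS e v = aS e v * bS μ tv w * z ^ (v ⬝ᵥ w).val := by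
  have h1 : bS μ tv w * aS e v * (bS μ tv w)⁻¹ = z ^ (v ⬝ᵥ w).val * aS e v := by
    rw [key h]
    unfold bS aS
    rw [h.act, h.mats.tv_mulVec, zero_add, dotProduct_comm]
  have hzb : ∀ i : ℕ, z ^ i * bS μ tv w = bS μ tv w * z ^ i := by
    intro i
    exact ((show Commute z (bS μ tv w) from zb h w).pow_left i)
  have hza : ∀ i : ℕ, z ^ i * aS e v = aS e v * z ^ i := by
    intro i
    exact ((show Commute z (aS e v) from za h v).pow_left i)
  calc bS μ tv w * aS e v = bS μ tv w * aS e v * (bS μ tv w)⁻¹ * bS μ tv w := by group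
    _ = z ^ (v ⬝ᵥ w).val * aS e v * bS μ tv w := by rw [h1]
    _ = aS e v * (z ^ (v ⬝ᵥ w).val * bS μ tv w) := by rw [hza]; group
    _ = aS e v * bS μ tv w * z ^ (v ⬝ᵥ w).val := by rw [hzb]; group

theorem ka (h : Setup n U M z e μ tv dg) (A : GLn n) (v : V n) :
    kS μ dg A * aS e v * (kS μ dg A)⁻¹ = aS e ((A : Matrix (Fin n) (Fin n) (ZMod 2)) *ᵥ v) := by
  unfold kS aS
  rw [MonoidHom.comp_apply, h.act, h.mats.dg_mulVec]

theorem kb (h : Setup n U M z e μ tv dg) (A : GLn n) (w : V n) :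
    ∃ w' : V n, kS μ dg A * bS μ tv w * (kS μ dg A)⁻¹ = bS μ tv w' := by
  obtain ⟨w', hw'⟩ := dg_conj_tv h.mats A w
  refine ⟨w', ?_⟩
  unfold kS bS
  rw [MonoidHom.comp_apply, ← hw', map_mul, map_mul, map_inv]

end Cfsg.Agent.Lib.H12XInstB
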