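import Cfsg.Agent.Lib.H12XInstA

set_option autoImplicit false

/-! PROJECT 5423, piece `InstC`: the normal form (`surj`, `inj` of `Cfg`) in a `Setup`. -/

namespace Cfsg.Agent.Lib.H12XInstC

open Matrix Cfsg.Agent.Lib.H12XDefs Cfsg.Agent.Lib.H12XSetup Cfsg.Agent.Lib.H12XMatsB Cfsg.Agent.Lib.H12XInstA

variable {X : Type*} [Group X] {n : ℕ} {U M : Subgroup X} {z : X}
  {e : ↥U ≃* Multiplicative (Fin (n + 1) → ZMod 2)} {μ : GLn (n + 1) →* X}
  {tv : V n → GLn (n + 1)} {dg : GLn n →* GLn (n + 1)}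

theorem M_le_normalizer (h : Agl n U M z) : M ≤ Subgroup.normalizer (U : Set X) := by
  intro m hm
  rw [Subgroup.mem_normalizer_iff]
  intro u
  constructor
  · intro hu
    exact h.norm m hm u hu
  · intro hu
    have := h.norm m⁻¹ (M.inv_mem hm) _ hu
    have e1 : m⁻¹ * (m * u * m⁻¹) * m⁻¹⁻¹ = u := by group
    rwa [e1] at this

theorem surj (h : Setup n U M z e μ tv dg) (c : X) (hc : c * z = z * c) :
    ∃ (x : ZMod 2) (v w : V n) (A : GLn n), c = z ^ x.val * aS e v * bS μ tv w * kS μ dg A := by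
  have hcm : c ∈ U ⊔ M := h.agl.cent c hc
  have hcm' : c ∈ ((U ⊔ M : Subgroup X) : Set X) := hcm
  rw [Subgroup.coe_mul_of_right_le_normalizer_left U M (M_le_normalizer h.agl)] at hcm'
  obtain ⟨u, hu, m, hm, rfl⟩ := hcm'
  have hu' : u ∈ U := hu
  have hm' : m ∈ M := hm
  have huz : u * z = z * u := by
    have := h.agl.elem.1.is_comm.comm (⟨u, hu'⟩ : ↥U) ⟨z, h.agl.zU⟩
    exact congrArg Subtype.val this
  have hmz : m * z * m⁻¹ = z := by
    have h1 : u * (m * z) = u * (z * m) := by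
      calc u * (m * z) = u * m * z := by group
        _ = z * (u * m) := hc
        _ = (z * u) * m := by group
        _ = (u * z) * m := by rw [huz]
        _ = u * (z * m) := by group
    have h2 : m * z = z * m := mul_left_cancel h1
    rw [h2]; group
  obtain ⟨g, rfl⟩ := h.surj m hm'
  have hg : (g : Matrix (Fin (n + 1)) (Fin (n + 1)) (ZMod 2)) *ᵥ (Pi.single 0 1) = Pi.single 0 1 := by
    have h1 := h.act g (Pi.single 0 1)
    rw [h.ez, hmz, ← h.ez] at h1
    have h2 := Subtype.ext h1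
    have h3 := e.symm.injective h2
    exact (Multiplicative.ofAdd.injective h3).symm
  obtain ⟨w, A, rfl⟩ := h.mats.decomp g hg
  obtain ⟨x₀, v, rfl⟩ := exists_of_mem_U h u hu'
  refine ⟨x₀, v, w, A, ?_⟩
  unfold bS kS
  rw [map_mul, MonoidHom.comp_apply]
  group

theorem inj (h : Setup n U M z e μ tv dg) (x : ZMod 2) (v w : V n) (A : GLn n)
    (hx : z ^ x.val * aS e v * bS μ tv w * kS μ dg A = 1) : x = 0 ∧ v = 0 ∧ w = 0 ∧ A = 1 := by
  have hu : z ^ x.val * aS e v ∈ U := U.mul_mem (U.pow_mem h.agl.zU _) (aS_mem h v)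
  have hm : bS μ tv w * kS μ dg A ∈ M := by
    unfold bS kS
    exact M.mul_mem (h.muM _) (h.muM _)
  have h1 : z ^ x.val * aS e v = (bS μ tv w * kS μ dg A)⁻¹ := by
    rw [eq_inv_iff_mul_eq_one, ← hx]; group
  have h2 : z ^ x.val * aS e v ∈ U ⊓ M := ⟨hu, by rw [h1]; exact M.inv_mem hm⟩
  rw [h.agl.inf, Subgroup.mem_bot] at h2
  obtain ⟨hx0, hv0⟩ := eq_zero_of_U h x v h2
  have h3 : bS μ tv w * kS μ dg A = 1 := by
    rw [h2] at h1
    have := h1.symm
    rwa [inv_eq_one] at this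
  have h4 : μ (tv w * dg A) = μ 1 := by
    rw [map_mul, map_one]
    exact h3
  obtain ⟨hw, hA⟩ := tv_dg_eq_one h.mats w A (h.inj h4)
  exact ⟨hx0, hv0, hw, hA⟩

end Cfsg.Agent.Lib.H12XInstC
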