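import Cfsg.Agent.Lib.H12XSetup

set_option autoImplicit false

/-! PROJECT 5423, piece `MatsA` (PURE MATHLIB): the matrices `tv w`, `dg A`. -/

namespace Cfsg.Agent.Lib.H12XMatsA

open Matrix Cfsg.Agent.Lib.H12XDefs Cfsg.Agent.Lib.H12XSetup

/-- the linear map `(x, v) ↦ (x + w ⬝ v, v)` -/
def tvL {n : ℕ} (w : V n) : (Fin (n + 1) → ZMod 2) →ₗ[ZMod 2] (Fin (n + 1) → ZMod 2) where
  toFun y := Fin.cons (y 0 + w ⬝ᵥ Fin.tail y) (Fin.tail y)
  map_add' y y' := by
    funext i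
    refine Fin.cases ?_ (fun k => ?_) i
    · have : Fin.tail (y + y') = Fin.tail y + Fin.tail y' := rfl
      simp only [Fin.cons_zero, Pi.add_apply, this, dotProduct_add]
      ring
    · simp only [Fin.cons_succ, Pi.add_apply]
      rfl
  map_smul' c y := by
    funext i
    refine Fin.cases ?_ (fun k => ?_) i
    · have : Fin.tail (c • y) = c • Fin.tail y := rfl
      simp only [Fin.cons_zero, Pi.smul_apply, this, dotProduct_smul, smul_eq_mul, RingHom.id_apply]
      ring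
    · simp only [Fin.cons_succ, Pi.smul_apply, RingHom.id_apply]
      rfl

/-- the linear map `(x, v) ↦ (x, A v)` -/
def dgL {n : ℕ} (A : Matrix (Fin n) (Fin n) (ZMod 2)) :
    (Fin (n + 1) → ZMod 2) →ₗ[ZMod 2] (Fin (n + 1) → ZMod 2) where
  toFun y := Fin.cons (y 0) (A *ᵥ Fin.tail y)
  map_add' y y' := by
    funext i
    refine Fin.cases ?_ (fun k => ?_) i
    · simp only [Fin.cons_zero, Pi.add_apply]
    · have : Fin.tail (y + y') = Fin.tail y + Fin.tail y' := rfl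
      simp only [Fin.cons_succ, Pi.add_apply, this, Matrix.mulVec_add]
  map_smul' c y := by
    funext i
    refine Fin.cases ?_ (fun k => ?_) i
    · simp only [Fin.cons_zero, Pi.smul_apply, RingHom.id_apply]
    · have : Fin.tail (c • y) = c • Fin.tail y := rfl
      simp only [Fin.cons_succ, Pi.smul_apply, this, Matrix.mulVec_smul, RingHom.id_apply]

theorem tvL_cons {n : ℕ} (w : V n) (x : ZMod 2) (v : V n) :
    tvL w (Fin.cons x v : Fin (n + 1) → ZMod 2) = Fin.cons (x + w ⬝ᵥ v) v := by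
  show (Fin.cons _ _ : Fin (n + 1) → ZMod 2) = _
  rw [Fin.cons_zero, Fin.tail_cons]

theorem dgL_cons {n : ℕ} (A : Matrix (Fin n) (Fin n) (ZMod 2)) (x : ZMod 2) (v : V n) :
    dgL A (Fin.cons x v : Fin (n + 1) → ZMod 2) = Fin.cons x (A *ᵥ v) := by
  show (Fin.cons _ _ : Fin (n + 1) → ZMod 2) = _
  rw [Fin.cons_zero, Fin.tail_cons]

theorem lin_ext {n : ℕ} {f g : (Fin (n + 1) → ZMod 2) →ₗ[ZMod 2] (Fin (n + 1) → ZMod 2)}
    (h : ∀ (x : ZMod 2) (v : V n), f (Fin.cons x v : Fin (n + 1) → ZMod 2) = g (Fin.cons x v : Fin (n + 1) → ZMod 2)) :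
    f = g := by
  apply LinearMap.ext
  intro y
  rw [← Fin.cons_self_tail y]
  exact h _ _

theorem tvL_sq {n : ℕ} (w : V n) : tvL w * tvL w = 1 := by
  apply lin_ext
  intro x v
  rw [Module.End.mul_apply, tvL_cons, tvL_cons, Module.End.one_apply, add_assoc,
    CharTwo.add_self_eq_zero, add_zero]

theorem dgL_mul {n : ℕ} (A B : Matrix (Fin n) (Fin n) (ZMod 2)) : dgL (A * B) = dgL A * dgL B := by
  apply lin_ext
  intro x v
  rw [Module.End.mul_apply, dgL_cons, dgL_cons, dgL_cons, Matrix.mulVec_mulVec]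

theorem dgL_one {n : ℕ} : dgL (1 : Matrix (Fin n) (Fin n) (ZMod 2)) = 1 := by
  apply lin_ext
  intro x v
  rw [dgL_cons, Matrix.one_mulVec, Module.End.one_apply]

/-- `tv w` -/
noncomputable def tvG {n : ℕ} (w : V n) : GLn (n + 1) where
  val := LinearMap.toMatrix' (tvL w)
  inv := LinearMap.toMatrix' (tvL w)
  val_inv := by rw [← LinearMap.toMatrix'_mul, tvL_sq, LinearMap.toMatrix'_one]
  inv_val := by rw [← LinearMap.toMatrix'_mul, tvL_sq, LinearMap.toMatrix'_one]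

/-- `dg` on matrices -/
noncomputable def dgM (n : ℕ) :
    Matrix (Fin n) (Fin n) (ZMod 2) →* Matrix (Fin (n + 1)) (Fin (n + 1)) (ZMod 2) where
  toFun A := LinearMap.toMatrix' (dgL A)
  map_one' := by rw [dgL_one, LinearMap.toMatrix'_one]
  map_mul' A B := by rw [dgL_mul, LinearMap.toMatrix'_mul]

theorem exists_mats (n : ℕ) : ∃ (tv : V n → GLn (n + 1)) (dg : GLn n →* GLn (n + 1)), Mats n tv dg := by
  classical
  have htv : ∀ (w : V n) (x : ZMod 2) (v : V n),
      (tvG w : Matrix (Fin (n + 1)) (Fin (n + 1)) (ZMod 2)) *ᵥ (Fin.cons x v : Fin (n + 1) → ZMod 2)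
        = Fin.cons (x + w ⬝ᵥ v) v := by
    intro w x v
    show LinearMap.toMatrix' (tvL w) *ᵥ _ = _
    rw [LinearMap.toMatrix'_mulVec, tvL_cons]
  have hdg : ∀ (A : GLn n) (x : ZMod 2) (v : V n),
      (Units.map (dgM n) A : Matrix (Fin (n + 1)) (Fin (n + 1)) (ZMod 2)) *ᵥ (Fin.cons x v : Fin (n + 1) → ZMod 2)
        = Fin.cons x ((A : Matrix (Fin n) (Fin n) (ZMod 2)) *ᵥ v) := by
    intro A x v
    show LinearMap.toMatrix' (dgL (A : Matrix (Fin n) (Fin n) (ZMod 2))) *ᵥ _ = _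
    rw [LinearMap.toMatrix'_mulVec, dgL_cons]
  refine ⟨tvG, Units.map (dgM n), htv, hdg, ?_⟩
  intro g hg
  set G : Matrix (Fin (n + 1)) (Fin (n + 1)) (ZMod 2) := g.val with hG
  have hcol : ∀ i, G i 0 = (Pi.single 0 1 : Fin (n + 1) → ZMod 2) i := by
    intro i
    have := congrFun hg i
    rw [Matrix.mulVec_single_one] at this
    exact this
  let A₀ : Matrix (Fin n) (Fin n) (ZMod 2) := G.submatrix Fin.succ Fin.succ
  let r : V n := fun j => G 0 j.succ
  have hact : ∀ (x : ZMod 2) (v : V n),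
      G *ᵥ (Fin.cons x v : Fin (n + 1) → ZMod 2) = Fin.cons (x + r ⬝ᵥ v) (A₀ *ᵥ v) := by
    intro x v
    funext i
    refine Fin.cases ?_ (fun k => ?_) i
    · simp only [Matrix.mulVec, dotProduct, Fin.sum_univ_succ, Fin.cons_zero, Fin.cons_succ, hcol,
        Pi.single_eq_same, one_mul, r]
    · simp only [Matrix.mulVec, dotProduct, Fin.sum_univ_succ, Fin.cons_zero, Fin.cons_succ, hcol,
        A₀, Matrix.submatrix_apply]
      rw [Pi.single_eq_of_ne (Fin.succ_ne_zero k), zero_mul, zero_add]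
  have hGinj : Function.Injective G.mulVec :=
    Matrix.mulVec_injective_iff_isUnit.mpr g.isUnit
  have hA₀ : IsUnit A₀ := by
    rw [← Matrix.mulVec_injective_iff_isUnit]
    have hker : ∀ v, A₀ *ᵥ v = 0 → v = 0 := by
      intro v hv
      have h1 := hact 0 v
      have h2 := hact (r ⬝ᵥ v) 0
      rw [hv, zero_add] at h1
      rw [Matrix.mulVec_zero, dotProduct_zero, add_zero] at h2
      have h3 : (Fin.cons 0 v : Fin (n + 1) → ZMod 2) = Fin.cons (r ⬝ᵥ v) 0 :=
        hGinj (h1.trans h2.symm)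
      have h4 := congrArg Fin.tail h3
      rwa [Fin.tail_cons, Fin.tail_cons] at h4
    intro v v' hvv
    have : A₀ *ᵥ (v - v') = 0 := by
      rw [Matrix.mulVec_sub]
      exact sub_eq_zero.mpr hvv
    exact sub_eq_zero.mp (hker _ this)
  refine ⟨r ᵥ* A₀⁻¹, hA₀.unit, ?_⟩
  apply Units.ext
  apply Matrix.toLin'.injective
  apply lin_ext
  intro x v
  rw [Matrix.toLin'_apply, Matrix.toLin'_apply, Units.val_mul, ← Matrix.mulVec_mulVec, hdg, htv,
    ← hG, hact]
  have h5 : ((hA₀.unit : GLn n) : Matrix (Fin n) (Fin n) (ZMod 2)) = A₀ := rfl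
  rw [h5, Matrix.dotProduct_mulVec, Matrix.vecMul_vecMul,
    Matrix.nonsing_inv_mul _ ((Matrix.isUnit_iff_isUnit_det _).mp hA₀), Matrix.vecMul_one]

end Cfsg.Agent.Lib.H12XMatsA
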