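import Cfsg.Agent.Lib.H12XSetup

set_option autoImplicit false

/-! PROJECT 5423, piece `MuA`: the homomorphism `GL_{n+1}(2) → M`. -/

namespace Cfsg.Agent.Lib.H12XMuA

open Matrix Cfsg.Agent.Lib.H12XDefs Cfsg.Agent.Lib.H12XSetup

/-- the automorphism of `Multiplicative (Fin N → ZMod 2)` induced by an invertible matrix -/
def psi {N : ℕ} (g : GLn N) :
    Multiplicative (Fin N → ZMod 2) ≃* Multiplicative (Fin N → ZMod 2) where
  toFun := fun x => Multiplicative.ofAdd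
    ((g : Matrix (Fin N) (Fin N) (ZMod 2)) *ᵥ (Multiplicative.toAdd x))
  invFun := fun x => Multiplicative.ofAdd
    (((g⁻¹ : GLn N) : Matrix (Fin N) (Fin N) (ZMod 2)) *ᵥ (Multiplicative.toAdd x))
  left_inv := fun x => by
    simp only [toAdd_ofAdd, Matrix.mulVec_mulVec, ← Units.val_mul, inv_mul_cancel, Units.val_one,
      Matrix.one_mulVec, ofAdd_toAdd]
  right_inv := fun x => by
    simp only [toAdd_ofAdd, Matrix.mulVec_mulVec, ← Units.val_mul, mul_inv_cancel, Units.val_one,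
      Matrix.one_mulVec, ofAdd_toAdd]
  map_mul' := fun x y => by
    rw [toAdd_mul, Matrix.mulVec_add, ofAdd_add]

theorem psi_apply {N : ℕ} (g : GLn N) (x : Multiplicative (Fin N → ZMod 2)) :
    psi g x = Multiplicative.ofAdd
      ((g : Matrix (Fin N) (Fin N) (ZMod 2)) *ᵥ (Multiplicative.toAdd x)) := rfl

theorem psi_mul {N : ℕ} (g g' : GLn N) (x : Multiplicative (Fin N → ZMod 2)) :
    psi (g * g') x = psi g (psi g' x) := by
  simp only [psi_apply, toAdd_ofAdd, Matrix.mulVec_mulVec, Units.val_mul]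

/-- SKETCH. For `g : GLn (n+1)` let `φ_g : U ≃* U` be `e` followed by `x ↦ g *ᵥ x` (inverse `g⁻¹ *ᵥ ·`; additive, so
multiplicative on `Multiplicative _`) followed by `e.symm`. `h.full φ_g` gives `m_g ∈ M` inducing `φ_g`;
`μ g := Classical.choose`. `μ 1 = 1` and `μ (g g') = μ g μ g'` by `h.faith` applied to `(μ g μ g')⁻¹ μ (g g')` (it is in `M` and
centralizes `U`, since both sides induce `φ_{g g'} = φ_g ∘ φ_{g'}`, `Matrix.mulVec_mulVec`). `MonoidHom.mk'`. -/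
theorem exists_mu {X : Type*} [Group X] {n : ℕ} {U M : Subgroup X} {z : X} (h : Agl n U M z)
    (e : ↥U ≃* Multiplicative (Fin (n + 1) → ZMod 2)) :
    ∃ μ : GLn (n + 1) →* X, (∀ g, μ g ∈ M) ∧
      ∀ (g : GLn (n + 1)) (x : Fin (n + 1) → ZMod 2),
        μ g * ((e.symm (Multiplicative.ofAdd x) : ↥U) : X) * (μ g)⁻¹
          = ((e.symm (Multiplicative.ofAdd ((g : Matrix (Fin (n + 1)) (Fin (n + 1)) (ZMod 2)) *ᵥ x)) : ↥U) : X) := by
  classical
  let φ : GLn (n + 1) → (↥U ≃* ↥U) := fun g => (e.trans (psi g)).trans e.symm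
  have hφ : ∀ g u, φ g u = e.symm (psi g (e u)) := fun g u => rfl
  have hex : ∀ g, ∃ m ∈ M, ∀ u : ↥U, ((φ g u : ↥U) : X) = m * u * m⁻¹ := fun g => h.full (φ g)
  choose μ hμM hμ using hex
  have key : ∀ m ∈ M, ∀ m' ∈ M, (∀ u : ↥U, m * (u : X) * m⁻¹ = m' * u * m'⁻¹) → m = m' := by
    intro m hm m' hm' hu
    have := h.faith (m'⁻¹ * m) (M.mul_mem (M.inv_mem hm') hm) (fun u hu' => by
      have h1 : m * u * m⁻¹ = m' * u * m'⁻¹ := hu ⟨u, hu'⟩
      calc m'⁻¹ * m * u * (m'⁻¹ * m)⁻¹ = m'⁻¹ * (m * u * m⁻¹) * m' := by group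
        _ = m'⁻¹ * (m' * u * m'⁻¹) * m' := by rw [h1]
        _ = u := by group)
    exact (inv_mul_eq_one.mp this).symm
  refine ⟨MonoidHom.mk' μ (fun g g' => key _ (hμM _) _ (M.mul_mem (hμM g) (hμM g'))
    (fun u => ?_)), hμM, ?_⟩
  · rw [← hμ]
    have h1 : φ (g * g') u = φ g (φ g' u) := by
      rw [hφ, hφ, hφ, psi_mul, MulEquiv.apply_symm_apply]
    rw [h1, hμ, hμ]
    group
  · intro g x
    rw [MonoidHom.mk'_apply, ← hμ, hφ, MulEquiv.apply_symm_apply, psi_apply, toAdd_ofAdd]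

end Cfsg.Agent.Lib.H12XMuA
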