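import Cfsg.Agent.Lib.H12XSetup

set_option autoImplicit false

/-! PROJECT 5423, piece `MuB`: `μ : GL_{n+1}(2) → M` is bijective. -/

namespace Cfsg.Agent.Lib.H12XMuB

open Matrix Cfsg.Agent.Lib.H12XDefs Cfsg.Agent.Lib.H12XSetup

variable {X : Type*} [Group X] {n : ℕ} {U M : Subgroup X} {z : X}

/-- `μ g = μ g'` ⇒ `g *ᵥ x = g' *ᵥ x` for all `x` (`e.symm`, `Subtype.val`, `ofAdd` injective) ⇒ `g = g'`
(`Matrix.ext` with `x = Pi.single j 1`, `Matrix.mulVec_single_one`; `Units.ext`). -/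
theorem mu_injective (e : ↥U ≃* Multiplicative (Fin (n + 1) → ZMod 2)) (μ : GLn (n + 1) →* X)
    (hact : ∀ (g : GLn (n + 1)) (x : Fin (n + 1) → ZMod 2),
        μ g * ((e.symm (Multiplicative.ofAdd x) : ↥U) : X) * (μ g)⁻¹
          = ((e.symm (Multiplicative.ofAdd ((g : Matrix (Fin (n + 1)) (Fin (n + 1)) (ZMod 2)) *ᵥ x)) : ↥U) : X)) :
    Function.Injective μ := by
  intro g g' hgg
  apply Units.ext
  rw [Matrix.ext_iff_mulVec]
  intro x
  have h1 := hact g x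
  rw [hgg, hact g' x] at h1
  exact (Multiplicative.ofAdd.injective (e.symm.injective (Subtype.ext h1))).symm

/-- the additive map induced by conjugation with `m` -/
def cf (h : Agl n U M z) (e : ↥U ≃* Multiplicative (Fin (n + 1) → ZMod 2)) (m : X) (hm : m ∈ M) :
    (Fin (n + 1) → ZMod 2) →+ (Fin (n + 1) → ZMod 2) where
  toFun := fun x => Multiplicative.toAdd
    (e ⟨m * (e.symm (Multiplicative.ofAdd x) : ↥U) * m⁻¹, h.norm m hm _ (e.symm _).2⟩)
  map_zero' := by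
    have : (⟨m * (e.symm (Multiplicative.ofAdd (0 : Fin (n + 1) → ZMod 2)) : ↥U) * m⁻¹,
        h.norm m hm _ (e.symm _).2⟩ : ↥U) = 1 := by
      apply Subtype.ext
      simp
    rw [this, map_one]
    rfl
  map_add' := fun x y => by
    have : (⟨m * (e.symm (Multiplicative.ofAdd (x + y)) : ↥U) * m⁻¹,
        h.norm m hm _ (e.symm _).2⟩ : ↥U) =
        ⟨m * (e.symm (Multiplicative.ofAdd x) : ↥U) * m⁻¹, h.norm m hm _ (e.symm _).2⟩ *
        ⟨m * (e.symm (Multiplicative.ofAdd y) : ↥U) * m⁻¹, h.norm m hm _ (e.symm _).2⟩ := by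
      apply Subtype.ext
      rw [ofAdd_add, map_mul]
      simp only [Subgroup.coe_mul]
      group
    rw [this, map_mul, toAdd_mul]

theorem cf_apply (h : Agl n U M z) (e : ↥U ≃* Multiplicative (Fin (n + 1) → ZMod 2)) (m : X)
    (hm : m ∈ M) (x : Fin (n + 1) → ZMod 2) :
    ((e.symm (Multiplicative.ofAdd (cf h e m hm x)) : ↥U) : X) =
      m * (e.symm (Multiplicative.ofAdd x) : ↥U) * m⁻¹ := by
  simp [cf]

theorem cf_comp (h : Agl n U M z) (e : ↥U ≃* Multiplicative (Fin (n + 1) → ZMod 2)) (m m' : X)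
    (hm : m ∈ M) (hm' : m' ∈ M) (hmm : m * m' = 1) (x : Fin (n + 1) → ZMod 2) :
    cf h e m hm (cf h e m' hm' x) = x := by
  apply Multiplicative.ofAdd.injective
  apply e.symm.injective
  apply Subtype.ext
  rw [cf_apply, cf_apply]
  have : m' = m⁻¹ := (inv_eq_of_mul_eq_one_right hmm).symm
  subst this
  group

/-- SKETCH. Let `m ∈ M`. `x ↦ toAdd (e ⟨m * e.symm (ofAdd x) * m⁻¹, h.norm ..⟩)` is an additive bijection `f` of
`Fin (n+1) → ZMod 2` (inverse: the same with `m⁻¹`), hence `ZMod 2`-linear (`AddMonoidHom.toZModLinearMap 2`), hence `f x = g *ᵥ x`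
for `g = LinearMap.toMatrix' f`, invertible (inverse = the matrix of the inverse map; `Matrix.GeneralLinearGroup.mk''`,
`LinearEquiv`/`Matrix.toLin'`, or `GeneralLinearGroup.ofLinearEquiv`-type API). Then `m⁻¹ * μ g ∈ M` centralizes `U`
(every `u ∈ U` is `e.symm (ofAdd x)`), so `μ g = m` by `h.faith`. -/
theorem mu_surjective (h : Agl n U M z) (e : ↥U ≃* Multiplicative (Fin (n + 1) → ZMod 2)) (μ : GLn (n + 1) →* X)
    (hM : ∀ g, μ g ∈ M)
    (hact : ∀ (g : GLn (n + 1)) (x : Fin (n + 1) → ZMod 2),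
        μ g * ((e.symm (Multiplicative.ofAdd x) : ↥U) : X) * (μ g)⁻¹
          = ((e.symm (Multiplicative.ofAdd ((g : Matrix (Fin (n + 1)) (Fin (n + 1)) (ZMod 2)) *ᵥ x)) : ↥U) : X)) :
    ∀ m ∈ M, ∃ g, μ g = m := by
  intro m hm
  have hm' : m⁻¹ ∈ M := M.inv_mem hm
  let L : (Fin (n + 1) → ZMod 2) →ₗ[ZMod 2] (Fin (n + 1) → ZMod 2) :=
    (cf h e m hm).toZModLinearMap 2
  let L' : (Fin (n + 1) → ZMod 2) →ₗ[ZMod 2] (Fin (n + 1) → ZMod 2) :=
    (cf h e m⁻¹ hm').toZModLinearMap 2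
  have hLL' : L ∘ₗ L' = LinearMap.id := by
    ext1 i
    apply LinearMap.ext
    intro x
    exact cf_comp h e m m⁻¹ hm hm' (mul_inv_cancel m) _
  have hL'L : L' ∘ₗ L = LinearMap.id := by
    ext1 i
    apply LinearMap.ext
    intro x
    exact cf_comp h e m⁻¹ m hm' hm (inv_mul_cancel m) _
  let g : GLn (n + 1) := ⟨LinearMap.toMatrix' L, LinearMap.toMatrix' L',
    by rw [← LinearMap.toMatrix'_comp, hLL', LinearMap.toMatrix'_id],
    by rw [← LinearMap.toMatrix'_comp, hL'L, LinearMap.toMatrix'_id]⟩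
  have hg : ∀ x, (g : Matrix (Fin (n + 1)) (Fin (n + 1)) (ZMod 2)) *ᵥ x = cf h e m hm x := by
    intro x
    exact LinearMap.toMatrix'_mulVec L x
  refine ⟨g, ?_⟩
  have := h.faith (m⁻¹ * μ g) (M.mul_mem hm' (hM g)) (fun u hu => by
    obtain ⟨x, hx⟩ : ∃ x, ((e.symm (Multiplicative.ofAdd x) : ↥U) : X) = u :=
      ⟨Multiplicative.toAdd (e ⟨u, hu⟩), by simp⟩
    have h1 := hact g x
    rw [hg, cf_apply, hx] at h1
    calc m⁻¹ * μ g * u * (m⁻¹ * μ g)⁻¹ = m⁻¹ * (μ g * u * (μ g)⁻¹) * m := by group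
      _ = m⁻¹ * (m * u * m⁻¹) * m := by rw [h1]
      _ = u := by group)
  exact (inv_mul_eq_one.mp this).symm

end Cfsg.Agent.Lib.H12XMuB
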