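import Cfsg.Agent.Lib.H12XCore
import Cfsg.Agent.Lib.H12XCoord
import Cfsg.Agent.Lib.H12XMuA
import Cfsg.Agent.Lib.H12XMuB
import Cfsg.Agent.Lib.H12XMatsA
import Cfsg.Agent.Lib.H12XInstB
import Cfsg.Agent.Lib.H12XInstC
import Cfsg.Agent.Lib.H12XConj

set_option autoImplicit false

/-! PROJECT 5423: assembly `Agl → Cfg → Concl`. -/

namespace Cfsg.Agent.Lib.H12XAgl

open Matrix Cfsg.Agent.Lib.H12XDefs Cfsg.Agent.Lib.H12XSetup Cfsg.Agent.Lib.H12XCore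

variable {X : Type*} [Group X] {n : ℕ} {U M : Subgroup X} {z : X}

theorem exists_setup (h : Agl n U M z) :
    ∃ (e : ↥U ≃* Multiplicative (Fin (n + 1) → ZMod 2)) (μ : GLn (n + 1) →* X)
      (tv : V n → GLn (n + 1)) (dg : GLn n →* GLn (n + 1)), Setup n U M z e μ tv dg := by
  obtain ⟨e, he⟩ := H12XCoord.exists_coord h.elem h.card h.zU h.z1
  obtain ⟨μ, hM, hact⟩ := H12XMuA.exists_mu h e
  obtain ⟨tv, dg, hm⟩ := H12XMatsA.exists_mats n
  exact ⟨e, μ, tv, dg, ⟨h, he, hM, hact, H12XMuB.mu_injective e μ hact,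
    H12XMuB.mu_surjective h e μ hM hact, hm⟩⟩

theorem cfg_of_setup {e : ↥U ≃* Multiplicative (Fin (n + 1) → ZMod 2)} {μ : GLn (n + 1) →* X}
    {tv : V n → GLn (n + 1)} {dg : GLn n →* GLn (n + 1)} (h : Setup n U M z e μ tv dg) :
    Cfg n z (aS e) (bS μ tv) (kS μ dg) where
  z_ne := h.agl.z1
  z_sq := H12XInstA.z_sq h
  a_add := H12XInstA.a_add h
  b_add := H12XInstA.b_add h
  za := H12XInstA.za h
  zb := H12XInstB.zb h
  zk := H12XInstB.zk h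
  ba := H12XInstB.ba h
  ka := H12XInstB.ka h
  kb := H12XInstB.kb h
  surj := H12XInstC.surj h
  inj := H12XInstC.inj h

theorem agl_main [Finite X] (hn : 1 ≤ n) (h : Agl n U M z) :
    ∃ Q : Subgroup X,
      (Cfsg.pCore 2 ↥(Subgroup.centralizer ({z} : Set X))).map (Subgroup.centralizer ({z} : Set X)).subtype = Q ∧
      Concl n z Q ∧ ∃ g : X, g * z * g⁻¹ ∈ Q ∧ g * z * g⁻¹ ≠ z := by
  obtain ⟨e, μ, tv, dg, hs⟩ := exists_setup h
  have hc := cfg_of_setup hs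
  obtain ⟨h1, h2⟩ := core hn hc
  obtain ⟨g, hg1, hg2⟩ := H12XConj.exists_conj hn hs
  refine ⟨_, h1, h2, g, ?_, hg2⟩
  obtain ⟨x₀, v, hu⟩ := H12XInstA.exists_of_mem_U hs _ hg1
  rw [H12XMem.mem_Q0 hc]
  refine ⟨x₀, v, 0, ?_⟩
  have hb0 : bS μ tv (0 : V n) = 1 := by
    have := hc.b_add 0 0
    rw [add_zero] at this
    exact (mul_eq_left.1 this.symm)
  rw [hu, hb0, mul_one]

end Cfsg.Agent.Lib.H12XAgl
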