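import Cfsg.Agent.Lib.H12XCoord

set_option autoImplicit false

/-! PROJECT 5423, piece `Aut16` (essentially PURE MATHLIB): an elementary abelian group of order 16 has at most 20160 automorphisms. -/

namespace Cfsg.Agent.Lib.H12XAut16

open Matrix Cfsg.Agent.Lib.H12XDefs

theorem card_linEquiv : Nat.card ((Fin 4 → ZMod 2) ≃ₗ[ZMod 2] (Fin 4 → ZMod 2)) = 20160 := by
  have e1 : GL (Fin 4) (ZMod 2) ≃ ((Fin 4 → ZMod 2) ≃ₗ[ZMod 2] (Fin 4 → ZMod 2)) :=
    (Matrix.GeneralLinearGroup.toLin.trans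
      (LinearMap.GeneralLinearGroup.generalLinearEquiv (ZMod 2) (Fin 4 → ZMod 2))).toEquiv
  rw [← Nat.card_congr e1, Matrix.card_GL_field]
  simp [Fin.prod_univ_succ]

/-- SKETCH. `e : U ≃* Multiplicative (Fin 4 → ZMod 2)` (`H12XCoord.exists_coord` with `n = 3` and any `z ≠ 1` in `U`, or directly).
Injection `(U ≃* U) → GL (Fin 4) (ZMod 2)`: `φ ↦` matrix of the additive (hence `ZMod 2`-linear, `AddMonoidHom.toZModLinearMap 2`) bijection
`toAdd ∘ e ∘ φ ∘ e.symm ∘ ofAdd`. (It is enough to inject into the set of LINEAR EQUIVS / invertible matrices; or: `φ` is determined by the images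
of the 4 basis vectors, which are linearly independent.) `Matrix.card_GL_field : Nat.card (GL (Fin n) 𝔽) = ∏ i : Fin n, (q^n - q^i)` gives
`15 * 14 * 12 * 8 = 20160`. `Nat.card_le_card_of_injective`. -/
theorem card_mulAut_le {X : Type*} [Group X] {U : Subgroup X} (hU : Cfsg.IsElementaryAbelian 2 U)
    (hcard : Nat.card ↥U = 2 ^ (3 + 1)) : Nat.card (↥U ≃* ↥U) ≤ 20160 := by
  have hnt : ∃ z ∈ U, z ≠ 1 := by
    by_contra hcon
    push Not at hcon
    have : U = ⊥ := (Subgroup.eq_bot_iff_forall U).2 hcon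
    rw [this, Subgroup.card_bot] at hcard
    norm_num at hcard
  obtain ⟨z, hz, hz1⟩ := hnt
  obtain ⟨e, -⟩ := Cfsg.Agent.Lib.H12XCoord.exists_coord hU hcard hz hz1
  let A : (↥U ≃* ↥U) → ((Fin 4 → ZMod 2) ≃+ (Fin 4 → ZMod 2)) := fun φ =>
    AddEquiv.toMultiplicative.symm (e.symm.trans (φ.trans e))
  have hA : ∀ φ v, A φ v = Multiplicative.toAdd (e (φ (e.symm (Multiplicative.ofAdd v)))) :=
    fun φ v => rfl
  let L : (↥U ≃* ↥U) → ((Fin 4 → ZMod 2) ≃ₗ[ZMod 2] (Fin 4 → ZMod 2)) := fun φ =>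
    (A φ).toLinearEquiv (fun c x => ZMod.map_smul (A φ) c x)
  have hL : Function.Injective L := by
    intro φ ψ h
    ext u
    have h1 : A φ (Multiplicative.toAdd (e u)) = A ψ (Multiplicative.toAdd (e u)) :=
      DFunLike.congr_fun h (Multiplicative.toAdd (e u))
    rw [hA, hA] at h1
    simp only [ofAdd_toAdd, MulEquiv.symm_apply_apply] at h1
    have h2 : e (φ u) = e (ψ u) := Multiplicative.toAdd.injective h1
    exact congrArg Subtype.val (e.injective h2)
  have hfin : Finite ((Fin 4 → ZMod 2) ≃ₗ[ZMod 2] (Fin 4 → ZMod 2)) :=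
    Nat.finite_of_card_ne_zero (by rw [card_linEquiv]; norm_num)
  have := Nat.card_le_card_of_injective L hL
  rwa [card_linEquiv] at this

end Cfsg.Agent.Lib.H12XAut16
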