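import Cfsg.Agent.Lib.H12XMem

set_option autoImplicit false

/-! PROJECT 5423, piece `Card`: orders of `Q0`, `E0`; `E0` is elementary abelian. -/

namespace Cfsg.Agent.Lib.H12XCard

open Matrix Cfsg.Agent.Lib.H12XDefs Cfsg.Agent.Lib.H12XMem

variable {X : Type*} [Group X] {n : ℕ} {z : X} {a b : V n → X} {k : GLn n →* X}

theorem nf_inj (h : Cfg n z a b k) (e e' : ZMod 2) (v w v' w' : V n)
    (heq : z ^ e.val * a v * b w = z ^ e'.val * a v' * b w') : e = e' ∧ v = v' ∧ w = w' := by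
  have h1 : (z ^ e'.val * a v' * b w')⁻¹ * (z ^ e.val * a v * b w) = 1 := by
    rw [heq, inv_mul_cancel]
  rw [nf_inv h, nf_mul h] at h1
  have h2 := h.inj _ _ _ 1 (by rw [map_one, mul_one]; exact h1)
  obtain ⟨he, hv, hw, -⟩ := h2
  have hv' : v = v' := by
    have : v' + v + v = v := by rw [hv, zero_add]
    rw [add_assoc, v_add_self, add_zero] at this
    exact this.symm
  have hw' : w = w' := by
    have : w' + w + w = w := by rw [hw, zero_add]
    rw [add_assoc, v_add_self, add_zero] at this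
    exact this.symm
  subst hv' hw'
  refine ⟨?_, rfl, rfl⟩
  have h3 : e' + v ⬝ᵥ w + e + v ⬝ᵥ w = e' + e := by
    have h2 := CharTwo.add_self_eq_zero (v ⬝ᵥ w)
    calc e' + v ⬝ᵥ w + e + v ⬝ᵥ w = e' + e + (v ⬝ᵥ w + v ⬝ᵥ w) := by ring
      _ = e' + e := by rw [h2, add_zero]
  rw [h3] at he
  have : e' + e + e = e := by rw [he, zero_add]
  rw [add_assoc, CharTwo.add_self_eq_zero, add_zero] at this
  exact this.symm

/-- SKETCH: bijection `ZMod 2 × V n × V n ≃ Q0`, `(e,v,w) ↦ z^e a v b w`; surjective by `mem_Q0`; injective: if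
`z^e a v b w = z^e' a v' b w'` then `z^(e+e') a (v+v') b (w+w')`·(a power of z) `= 1`; simplest: multiply out
`(z^e' a v' b w')⁻¹ * (z^e a v b w)`, bring it to normal form and use `h.inj _ _ _ 1` (`map_one k`). -/
theorem card_Q0 (h : Cfg n z a b k) : Nat.card ↥(Q0 z a b) = 2 ^ (2 * n + 1) := by
  let f : ZMod 2 × V n × V n → ↥(Q0 z a b) := fun p =>
    ⟨z ^ p.1.val * a p.2.1 * b p.2.2, (mem_Q0 h).mpr ⟨_, _, _, rfl⟩⟩
  have hf : Function.Bijective f := by
    constructor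
    · rintro ⟨e, v, w⟩ ⟨e', v', w'⟩ hp
      have := nf_inj h e e' v w v' w' (congrArg Subtype.val hp)
      obtain ⟨rfl, rfl, rfl⟩ := this
      rfl
    · rintro ⟨x, hx⟩
      obtain ⟨e, v, w, rfl⟩ := (mem_Q0 h).mp hx
      exact ⟨(e, v, w), rfl⟩
  rw [← Nat.card_congr (Equiv.ofBijective f hf)]
  simp only [Nat.card_eq_fintype_card, Fintype.card_prod, ZMod.card, Fintype.card_fun,
    Fintype.card_fin]
  ring

theorem card_E0 (h : Cfg n z a b k) : Nat.card ↥(E0 z a) = 2 ^ (n + 1) := by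
  let f : ZMod 2 × V n → ↥(E0 z a) := fun p =>
    ⟨z ^ p.1.val * a p.2, (mem_E0 h).mpr ⟨_, _, rfl⟩⟩
  have hf : Function.Bijective f := by
    constructor
    · rintro ⟨e, v⟩ ⟨e', v'⟩ hp
      have hp' : z ^ e.val * a v = z ^ e'.val * a v' := congrArg Subtype.val hp
      have := nf_inj h e e' v 0 v' 0 (by rw [b_zero h, mul_one, mul_one]; exact hp')
      obtain ⟨rfl, rfl, -⟩ := this
      rfl
    · rintro ⟨x, hx⟩
      obtain ⟨e, v, rfl⟩ := (mem_E0 h).mp hx
      exact ⟨(e, v), rfl⟩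
  rw [← Nat.card_congr (Equiv.ofBijective f hf)]
  simp only [Nat.card_eq_fintype_card, Fintype.card_prod, ZMod.card, Fintype.card_fun,
    Fintype.card_fin]
  ring

theorem E0_le (z : X) (a b : V n → X) : E0 z a ≤ Q0 z a b := by
  unfold E0 Q0
  exact Subgroup.closure_mono Set.subset_union_left

theorem E0_elem (h : Cfg n z a b k) : Cfsg.IsElementaryAbelian 2 (E0 z a) := by
  constructor
  · refine ⟨⟨?_⟩⟩
    rintro ⟨x, hx⟩ ⟨y, hy⟩
    obtain ⟨e, v, rfl⟩ := (mem_E0 h).mp hx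
    obtain ⟨e', v', rfl⟩ := (mem_E0 h).mp hy
    apply Subtype.ext
    have h1 := nf_mul h e e' v 0 v' 0
    have h2 := nf_mul h e' e v' 0 v 0
    simp only [b_zero h, mul_one, add_zero, dotProduct_zero] at h1 h2
    change z ^ e.val * a v * (z ^ e'.val * a v') = z ^ e'.val * a v' * (z ^ e.val * a v)
    rw [h1, h2, add_comm e e', add_comm v v']
  · intro x hx
    obtain ⟨e, v, rfl⟩ := (mem_E0 h).mp hx
    have h1 := nf_mul h e e v 0 v 0
    simp only [b_zero h, mul_one, add_zero, dotProduct_zero] at h1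
    rw [pow_two, h1, v_add_self, CharTwo.add_self_eq_zero, a_zero h]
    simp

end Cfsg.Agent.Lib.H12XCard
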