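import Cfsg.Agent.Lib.H12XMem

set_option autoImplicit false

/-! PROJECT 5423, piece `Cent`: `C_X(Q0) = {1, z}`. -/

namespace Cfsg.Agent.Lib.H12XCent

open Matrix Cfsg.Agent.Lib.H12XDefs Cfsg.Agent.Lib.H12XMem

variable {X : Type*} [Group X] {n : ℕ} {z : X} {a b : V n → X} {k : GLn n →* X}

theorem vadd_self (v : V n) : v + v = 0 := by
  funext i
  exact CharTwo.add_self_eq_zero _

theorem eq_of_vadd (u v : V n) (h : u + v = 0) : u = v := by
  funext i
  have := congrFun h i
  exact CharTwo.add_eq_zero.1 this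

theorem a_zero (h : Cfg n z a b k) : a 0 = 1 := by
  have := h.a_add 0 0
  rw [add_zero] at this
  exact (mul_eq_left.1 this.symm)

theorem b_zero (h : Cfg n z a b k) : b 0 = 1 := by
  have := h.b_add 0 0
  rw [add_zero] at this
  exact (mul_eq_left.1 this.symm)

theorem a_self (h : Cfg n z a b k) (v : V n) : a v * a v = 1 := by
  rw [← h.a_add, vadd_self, a_zero h]

theorem b_self (h : Cfg n z a b k) (v : V n) : b v * b v = 1 := by
  rw [← h.b_add, vadd_self, b_zero h]

theorem a_comm (h : Cfg n z a b k) (v w : V n) : a v * a w = a w * a v := by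
  rw [← h.a_add, add_comm, h.a_add]

theorem b_comm (h : Cfg n z a b k) (v w : V n) : b v * b w = b w * b v := by
  rw [← h.b_add, add_comm, h.b_add]

theorem zpa (h : Cfg n z a b k) (f : ℕ) (v : V n) : z ^ f * a v = a v * z ^ f :=
  (Commute.pow_left (h.za v) f)

theorem zpb (h : Cfg n z a b k) (f : ℕ) (v : V n) : z ^ f * b v = b v * z ^ f :=
  (Commute.pow_left (h.zb v) f)

theorem z_mem (z : X) (a b : V n → X) : z ∈ Q0 z a b :=
  Subgroup.subset_closure (Or.inl (Or.inl rfl))

theorem a_mem (z : X) (a b : V n → X) (v : V n) : a v ∈ Q0 z a b :=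
  Subgroup.subset_closure (Or.inl (Or.inr ⟨v, rfl⟩))

theorem b_mem (z : X) (a b : V n → X) (v : V n) : b v ∈ Q0 z a b :=
  Subgroup.subset_closure (Or.inr ⟨v, rfl⟩)

theorem eq_one_or_eq_z (h : Cfg n z a b k) (x : X) (hx : ∀ q ∈ Q0 z a b, x * q = q * x) :
    x = 1 ∨ x = z := by
  obtain ⟨e, v, w, A, rfl⟩ := h.surj x (hx z (z_mem z a b))
  -- step 1
  have key : ∀ v' : V n, ((A : Matrix (Fin n) (Fin n) (ZMod 2)) *ᵥ v') ⬝ᵥ w = 0 ∧
      (A : Matrix (Fin n) (Fin n) (ZMod 2)) *ᵥ v' + v' = 0 := by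
    intro v'
    have h1 := hx (a v') (a_mem z a b v')
    have h2 : k A * a v' = a ((A : Matrix (Fin n) (Fin n) (ZMod 2)) *ᵥ v') * k A := by
      rw [← h.ka A v']; group
    generalize (A : Matrix (Fin n) (Fin n) (ZMod 2)) *ᵥ v' = u at h2 ⊢
    have h3 : z ^ e.val * a v * (a u * z ^ (u ⬝ᵥ w).val) * b w * k A =
        z ^ e.val * a v * a v' * b w * k A := by
      calc z ^ e.val * a v * (a u * z ^ (u ⬝ᵥ w).val) * b w * k A
          = z ^ e.val * a v * (a u * (z ^ (u ⬝ᵥ w).val * b w)) * k A := by simp only [mul_assoc]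
        _ = z ^ e.val * a v * (a u * b w * z ^ (u ⬝ᵥ w).val) * k A := by
            rw [zpb h]; simp only [mul_assoc]
        _ = z ^ e.val * a v * (b w * a u) * k A := by rw [h.ba]
        _ = z ^ e.val * a v * b w * (a u * k A) := by simp only [mul_assoc]
        _ = z ^ e.val * a v * b w * k A * a v' := by rw [← h2]; simp only [mul_assoc]
        _ = a v' * (z ^ e.val * a v * b w * k A) := h1
        _ = (a v' * z ^ e.val) * a v * b w * k A := by simp only [mul_assoc]
        _ = z ^ e.val * (a v' * a v) * b w * k A := by rw [← zpa h]; simp only [mul_assoc]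
        _ = z ^ e.val * a v * a v' * b w * k A := by rw [a_comm h]; simp only [mul_assoc]
    have h4 : a u * z ^ (u ⬝ᵥ w).val = a v' :=
      mul_left_cancel (mul_right_cancel (mul_right_cancel h3))
    have h5 : z ^ (u ⬝ᵥ w).val * a (u + v') * b 0 * k 1 = 1 := by
      rw [b_zero h, map_one, mul_one, mul_one, h.a_add, ← mul_assoc, zpa h, h4, a_self h]
    obtain ⟨g1, g2, -, -⟩ := h.inj _ _ _ _ h5
    exact ⟨g1, g2⟩
  have hAv : ∀ v' : V n, (A : Matrix (Fin n) (Fin n) (ZMod 2)) *ᵥ v' = v' := by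
    intro v'
    exact eq_of_vadd _ _ (key v').2
  have hA : A = 1 := by
    apply Units.ext
    ext i j
    have := congrFun (hAv (Pi.single j 1)) i
    rw [Matrix.mulVec_single_one] at this
    simp only [Matrix.col_apply] at this
    rw [this, Units.val_one, Matrix.one_apply, Pi.single_apply]
  have hw : w = 0 := by
    funext i
    have := (key (Pi.single i 1)).1
    rw [hAv] at this
    simpa using this
  subst hA
  subst hw
  have hv : v = 0 := by
    funext i
    have h1 := hx (b (Pi.single i 1)) (b_mem z a b _)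
    have h2 : v ⬝ᵥ (Pi.single i 1 : V n) = 0 := by
      generalize (Pi.single i 1 : V n) = w' at h1
      rw [b_zero h, map_one, mul_one, mul_one] at h1
      have h3 : z ^ e.val * a v * (b w' * z ^ (v ⬝ᵥ w').val) = z ^ e.val * a v * b w' := by
        calc z ^ e.val * a v * (b w' * z ^ (v ⬝ᵥ w').val)
            = z ^ e.val * (a v * b w' * z ^ (v ⬝ᵥ w').val) := by simp only [mul_assoc]
          _ = z ^ e.val * (b w' * a v) := by rw [h.ba]
          _ = (z ^ e.val * b w') * a v := by simp only [mul_assoc]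
          _ = b w' * (z ^ e.val * a v) := by rw [zpb h]; simp only [mul_assoc]
          _ = z ^ e.val * a v * b w' := h1.symm
      have h4 : z ^ (v ⬝ᵥ w').val = 1 := mul_eq_left.1 (mul_left_cancel h3)
      have h5 : z ^ (v ⬝ᵥ w').val * a 0 * b 0 * k 1 = 1 := by
        rw [a_zero h, b_zero h, map_one, mul_one, mul_one, mul_one, h4]
      exact (h.inj _ _ _ _ h5).1
    simpa using h2
  subst hv
  rw [a_zero h, b_zero h, map_one, mul_one, mul_one, mul_one]
  fin_cases e
  · left
    change z ^ 0 = 1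
    exact pow_zero z
  · right
    change z ^ 1 = z
    exact pow_one z

end Cfsg.Agent.Lib.H12XCent
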