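import Cfsg.Agent.Lib.H12XMem

set_option autoImplicit false

/-! PROJECT 5423, piece `Compl`: `k.range` is a complement of `Q0` in `C(z)`, isomorphic to `GL_n(2)`. -/

namespace Cfsg.Agent.Lib.H12XCompl

open Matrix Cfsg.Agent.Lib.H12XDefs Cfsg.Agent.Lib.H12XMem

variable {X : Type*} [Group X] {n : ℕ} {z : X} {a b : V n → X} {k : GLn n →* X}

theorem range_le (h : Cfg n z a b k) : k.range ≤ Subgroup.centralizer ({z} : Set X) := by
  rintro _ ⟨A, rfl⟩
  exact Subgroup.mem_centralizer_singleton_iff.mpr (h.zk A).symm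

/-- `z^e a v b w = k A` gives `z^e a v b w k(A⁻¹) = 1`, so `A⁻¹ = 1` by `h.inj`. -/
theorem inf_range (h : Cfg n z a b k) : Q0 z a b ⊓ k.range = ⊥ := by
  rw [eq_bot_iff]
  rintro x ⟨hx, ⟨A, rfl⟩⟩
  obtain ⟨e, v, w, hA⟩ := (mem_Q0 h).mp hx
  have h1 : z ^ e.val * a v * b w * k A⁻¹ = 1 := by
    rw [← hA, map_inv, mul_inv_cancel]
  obtain ⟨-, -, -, hA1⟩ := h.inj _ _ _ _ h1
  rw [inv_eq_one] at hA1
  rw [hA1, map_one]
  exact Subgroup.mem_bot.mpr rfl

theorem Q0_le (h : Cfg n z a b k) : Q0 z a b ≤ Subgroup.centralizer ({z} : Set X) := by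
  unfold Q0
  rw [Subgroup.closure_le]
  rintro x ((hx | ⟨v, rfl⟩) | ⟨w, rfl⟩)
  · rw [Set.mem_singleton_iff] at hx
    subst hx
    exact Subgroup.mem_centralizer_singleton_iff.mpr rfl
  · exact Subgroup.mem_centralizer_singleton_iff.mpr (h.za v).symm
  · exact Subgroup.mem_centralizer_singleton_iff.mpr (h.zb w).symm

/-- (≤) generators commute with `z`; (≥) `h.surj`. -/
theorem sup_range (h : Cfg n z a b k) : Q0 z a b ⊔ k.range = Subgroup.centralizer ({z} : Set X) := by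
  apply le_antisymm
  · exact sup_le (Q0_le h) (range_le h)
  · intro c hc
    obtain ⟨e, v, w, A, rfl⟩ := h.surj c (Subgroup.mem_centralizer_singleton_iff.mp hc)
    exact Subgroup.mul_mem_sup ((mem_Q0 h).mpr ⟨_, _, _, rfl⟩) ⟨A, rfl⟩

/-- `k` is injective by `h.inj 0 0 0 A` (`a 0 = 1 = b 0`); `MonoidHom.ofInjective`. -/
theorem range_equiv (h : Cfg n z a b k) : Nonempty (↥k.range ≃* GLn n) := by
  have hinj : Function.Injective k := by
    rw [injective_iff_map_eq_one]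
    intro A hA
    exact (h.inj 0 0 0 A (by simp [a_zero h, b_zero h, hA])).2.2.2
  exact ⟨(MonoidHom.ofInjective hinj).symm⟩

end Cfsg.Agent.Lib.H12XCompl
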