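import Cfsg.Agent.Lib.H12XMem

set_option autoImplicit false

/-! PROJECT 5423, piece `Norm`: `Q0` is a normal subgroup of `C(z)`. -/

namespace Cfsg.Agent.Lib.H12XNorm

open Matrix Cfsg.Agent.Lib.H12XDefs Cfsg.Agent.Lib.H12XMem

variable {X : Type*} [Group X] {n : ℕ} {z : X} {a b : V n → X} {k : GLn n →* X}

theorem Q0_le_centralizer (h : Cfg n z a b k) : Q0 z a b ≤ Subgroup.centralizer ({z} : Set X) := by
  unfold Q0
  rw [Subgroup.closure_le]
  rintro x ((hx | ⟨v, rfl⟩) | ⟨w, rfl⟩)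
  · rw [Set.mem_singleton_iff] at hx
    subst hx
    exact Subgroup.mem_centralizer_singleton_iff.mpr rfl
  · exact Subgroup.mem_centralizer_singleton_iff.mpr (h.za v).symm
  · exact Subgroup.mem_centralizer_singleton_iff.mpr (h.zb w).symm

theorem k_conj_mem (h : Cfg n z a b k) (A : GLn n) (q : X) (hq : q ∈ Q0 z a b) :
    k A * q * (k A)⁻¹ ∈ Q0 z a b := by
  obtain ⟨e, v, w, rfl⟩ := (mem_Q0 h).mp hq
  obtain ⟨w', hw'⟩ := h.kb A w
  have hz : k A * z ^ e.val * (k A)⁻¹ = z ^ e.val := by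
    have : Commute (z ^ e.val) (k A) := Commute.pow_left (h.zk A) _
    rw [← this.eq, mul_inv_cancel_right]
  have : k A * (z ^ e.val * a v * b w) * (k A)⁻¹ =
      (k A * z ^ e.val * (k A)⁻¹) * (k A * a v * (k A)⁻¹) * (k A * b w * (k A)⁻¹) := by group
  rw [this, hz, h.ka, hw']
  exact (mem_Q0 h).mpr ⟨_, _, _, rfl⟩

/-- SKETCH: `c = q₀ * k A` with `q₀ ∈ Q0` (`h.surj`, `mem_Q0`); so it is enough that `k A` normalizes `Q0`:
on the generators by `zk`, `ka`, `kb` (e.g. show `Q0.map (MulAut.conj (k A)) ≤ Q0` with `Subgroup.closure_le`, or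
conjugate the normal form factor by factor). -/
theorem conj_mem (h : Cfg n z a b k) (c : X) (hc : c * z = z * c) (q : X) (hq : q ∈ Q0 z a b) :
    c * q * c⁻¹ ∈ Q0 z a b := by
  obtain ⟨e, v, w, A, rfl⟩ := h.surj c hc
  have h0 : z ^ e.val * a v * b w ∈ Q0 z a b := (mem_Q0 h).mpr ⟨_, _, _, rfl⟩
  have : z ^ e.val * a v * b w * k A * q * (z ^ e.val * a v * b w * k A)⁻¹ =
      (z ^ e.val * a v * b w) * (k A * q * (k A)⁻¹) * (z ^ e.val * a v * b w)⁻¹ := by group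
  rw [this]
  exact Subgroup.mul_mem _ (Subgroup.mul_mem _ h0 (k_conj_mem h A q hq)) (Subgroup.inv_mem _ h0)

end Cfsg.Agent.Lib.H12XNorm
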