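import Cfsg.Agent.Lib.H12XDefs
import Cfsg.Agent.Lib.Helper44SymOrb

set_option autoImplicit false

/-! PROJECT 5423, piece `O2GL` (PURE MATHLIB): `O_2(GL_n(2)) = 1`. -/

namespace Cfsg.Agent.Lib.H12XO2GL

open Matrix Cfsg.Agent.Lib.H12XDefs

/-- the natural action of a subgroup of `GL_n(2)` on `𝔽₂ⁿ` -/
def act (n : ℕ) (N : Subgroup (GLn n)) : MulAction ↥N (V n) where
  smul g v := ((g : GLn n) : Matrix (Fin n) (Fin n) (ZMod 2)) *ᵥ v
  one_smul v := by
    show (((1 : ↥N) : GLn n) : Matrix (Fin n) (Fin n) (ZMod 2)) *ᵥ v = v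
    simp
  mul_smul g h v := by
    show (((g * h : ↥N) : GLn n) : Matrix (Fin n) (Fin n) (ZMod 2)) *ᵥ v =
      ((g : GLn n) : Matrix (Fin n) (Fin n) (ZMod 2)) *ᵥ
        (((h : GLn n) : Matrix (Fin n) (Fin n) (ZMod 2)) *ᵥ v)
    rw [Matrix.mulVec_mulVec]
    rfl

/-- SKETCH. `N` acts on `V n` (`g • v = g *ᵥ v`); `IsPGroup.card_modEq_card_fixedPoints` : the number of fixed
vectors is `≡ 2^n ≡ 0 (mod 2)` if `n ≥ 1` (for `n = 0` the group `GLn 0` is trivial), and `0` is fixed, so there is a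
fixed vector `v ≠ 0`. `GL_n` is transitive on nonzero vectors (extend to bases; or search Mathlib / `Cfsg/Agent/Lib`
for such a lemma), and `N` is normal, so `N` fixes every vector: `g v = v → (h g h⁻¹)(h v) = h v`.
Hence every element of `N` is `1`. -/
theorem eq_bot_of_normal_pgroup (n : ℕ) (N : Subgroup (GLn n)) (hN : N.Normal) (hp : IsPGroup 2 ↥N) :
    N = ⊥ := by
  rw [Subgroup.eq_bot_iff_forall]
  intro g hg
  apply Units.ext
  ext i j
  have hn : 0 < n := Fin.pos j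
  have hfix : ∃ v : V n, v ≠ 0 ∧ ∀ h ∈ N, ((h : GLn n) : Matrix (Fin n) (Fin n) (ZMod 2)) *ᵥ v = v := by
    letI := act n N
    have : Fact (Nat.Prime 2) := ⟨Nat.prime_two⟩
    have h0 : (0 : V n) ∈ MulAction.fixedPoints ↥N (V n) := by
      intro h
      show ((h : GLn n) : Matrix (Fin n) (Fin n) (ZMod 2)) *ᵥ (0 : V n) = 0
      simp
    have hcard : 2 ∣ Nat.card (V n) := by
      rw [Nat.card_eq_fintype_card, Fintype.card_fun, ZMod.card, Fintype.card_fin]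
      exact dvd_pow_self 2 hn.ne'
    obtain ⟨v, hv, hne⟩ := hp.exists_fixed_point_of_prime_dvd_card_of_fixed_point (V n) hcard h0
    exact ⟨v, hne.symm, fun h hh => hv ⟨h, hh⟩⟩
  obtain ⟨v, hv, hfixv⟩ := hfix
  obtain ⟨A, hA⟩ := Cfsg.Agent.Lib.Helper44SymOrb.exists_GL_map v hv j
  have h1 : A⁻¹ * g * A ∈ N := by
    have := hN.conj_mem g hg A⁻¹
    rwa [inv_inv] at this
  have h2 := hfixv _ h1
  have h3 : (g : Matrix (Fin n) (Fin n) (ZMod 2)) *ᵥ (Pi.single j 1) = Pi.single j 1 := by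
    rw [← hA]
    have e : (g : Matrix (Fin n) (Fin n) (ZMod 2)) *ᵥ ((A : Matrix (Fin n) (Fin n) (ZMod 2)) *ᵥ v)
        = (A : Matrix (Fin n) (Fin n) (ZMod 2)) *ᵥ
          (((A⁻¹ * g * A : GLn n) : Matrix (Fin n) (Fin n) (ZMod 2)) *ᵥ v) := by
      rw [Matrix.mulVec_mulVec, Matrix.mulVec_mulVec, ← Units.val_mul, ← Units.val_mul]
      congr 2
      group
    rw [e, h2]
  have h4 := congrFun h3 i
  rw [Matrix.mulVec_single_one] at h4
  rw [Units.val_one, Matrix.one_apply]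
  rw [Pi.single_apply] at h4
  exact h4

end Cfsg.Agent.Lib.H12XO2GL
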