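import Cfsg.Agent.Lib.H12XCard
import Cfsg.Agent.Lib.H12XNorm
import Cfsg.Agent.Lib.H12XCompl
import Cfsg.Agent.Lib.H12XO2GL
import Cfsg.Agent.Lib.Helper1Fitting

set_option autoImplicit false

/-! PROJECT 5423, piece `PCore`: `O_2(C(z)) = Q0`. -/

namespace Cfsg.Agent.Lib.H12XPCore

open Matrix Cfsg.Agent.Lib.H12XDefs Cfsg.Agent.Lib.H12XMem Cfsg.Agent.Lib.H12XCard Cfsg.Agent.Lib.H12XNorm
  Cfsg.Agent.Lib.H12XCompl Cfsg.Agent.Lib.H12XO2GL

variable {X : Type*} [Group X] {n : ℕ} {z : X} {a b : V n → X} {k : GLn n →* X}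

/-- SKETCH. API: `Helper1Fitting.pCore_normal`, `pCore_isPGroup`, `le_pCore`. Put `C = centralizer {z}`.
(≥) `(Q0).subgroupOf C` is normal (`conj_mem`) and a 2-group (`card_Q0`), so it is `≤ pCore 2 C`.
(≤) let `r ∈ R = pCore 2 C`; `r = q * k A` with `q ∈ Q0` (`h.surj`, `mem_Q0`), and `k A = q⁻¹ r ∈ R`.
`N = R.comap (k as a map into C)` `= {A | k A ∈ R}` is a normal subgroup of `GLn n` and a 2-group
(`k` injective, `IsPGroup.comap_of_injective` or elementwise: `IsPGroup` is `∀ g, ∃ j, g^(2^j) = 1`), so `N = ⊥` by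
`eq_bot_of_normal_pgroup`; hence `A = 1` and `r = q ∈ Q0`. -/
theorem pCore_eq [Finite X] (h : Cfg n z a b k) :
    (Cfsg.pCore 2 ↥(Subgroup.centralizer ({z} : Set X))).map (Subgroup.centralizer ({z} : Set X)).subtype
      = Q0 z a b := by
  have hcz : ∀ g : X, g ∈ Subgroup.centralizer ({z} : Set X) → g * z = z * g := by
    intro g hg
    exact Subgroup.mem_centralizer_singleton_iff.mp hg
  have hQn : ((Q0 z a b).subgroupOf (Subgroup.centralizer ({z} : Set X))).Normal := by
    refine ⟨fun q hq g => ?_⟩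
    rw [Subgroup.mem_subgroupOf] at hq ⊢
    exact conj_mem h g (hcz g g.2) q hq
  have hQp0 : IsPGroup 2 ↥(Q0 z a b) := IsPGroup.of_card (card_Q0 h)
  have hQp : IsPGroup 2 ↥((Q0 z a b).subgroupOf (Subgroup.centralizer ({z} : Set X))) :=
    hQp0.comap_subtype
  have hQR := Cfsg.Agent.Lib.Helper1Fitting.le_pCore hQn hQp
  have ha0 : a 0 = 1 := by
    have := h.a_add 0 0
    rw [add_zero] at this
    exact (mul_eq_left.mp this.symm)
  have hb0 : b 0 = 1 := by
    have := h.b_add 0 0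
    rw [add_zero] at this
    exact (mul_eq_left.mp this.symm)
  have hkinj : Function.Injective k := by
    rw [injective_iff_map_eq_one]
    intro A hA
    have := h.inj 0 0 0 A (by simp [ha0, hb0, hA])
    exact this.2.2.2
  apply le_antisymm
  · rintro _ ⟨r, hr, rfl⟩
    obtain ⟨e, v, w, A, hrA⟩ := h.surj r (hcz r r.2)
    have hq : z ^ e.val * a v * b w ∈ Q0 z a b := (mem_Q0 h).mpr ⟨e, v, w, rfl⟩
    have hqC := Q0_le_centralizer h hq
    let kC : GLn n →* ↥(Subgroup.centralizer ({z} : Set X)) :=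
      k.codRestrict _ (fun A => range_le h ⟨A, rfl⟩)
    have hkCinj : Function.Injective kC := by
      intro A B hAB
      apply hkinj
      exact congrArg Subtype.val hAB
    have hRn := Cfsg.Agent.Lib.Helper1Fitting.pCore_normal
      (G := ↥(Subgroup.centralizer ({z} : Set X))) 2
    have hRp := Cfsg.Agent.Lib.Helper1Fitting.pCore_isPGroup
      (G := ↥(Subgroup.centralizer ({z} : Set X))) 2
    have hNbot := eq_bot_of_normal_pgroup n
      ((Cfsg.pCore 2 ↥(Subgroup.centralizer ({z} : Set X))).comap kC) (hRn.comap kC)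
      (hRp.comap_of_injective kC hkCinj)
    have hA : A ∈ (Cfsg.pCore 2 ↥(Subgroup.centralizer ({z} : Set X))).comap kC := by
      rw [Subgroup.mem_comap]
      have e1 : kC A = (⟨z ^ e.val * a v * b w, hqC⟩ :
          ↥(Subgroup.centralizer ({z} : Set X)))⁻¹ * r := by
        apply Subtype.ext
        show k A = (z ^ e.val * a v * b w)⁻¹ * (r : X)
        rw [hrA]
        group
      rw [e1]
      exact Subgroup.mul_mem _ (Subgroup.inv_mem _ (hQR (Subgroup.mem_subgroupOf.mpr hq))) hr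
    rw [hNbot, Subgroup.mem_bot] at hA
    show (r : X) ∈ Q0 z a b
    rw [hrA, hA, map_one, mul_one]
    exact hq
  · intro q hq
    exact ⟨⟨q, Q0_le_centralizer h hq⟩, hQR (Subgroup.mem_subgroupOf.mpr hq), rfl⟩

end Cfsg.Agent.Lib.H12XPCore
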