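import Cfsg.Agent.Lib.H12XES
import Cfsg.Agent.Lib.H12XPCore

set_option autoImplicit false

/-! PROJECT 5423: assembly of the core theorem. -/

namespace Cfsg.Agent.Lib.H12XCore

open Matrix Cfsg.Agent.Lib.H12XDefs Cfsg.Agent.Lib.H12XMem Cfsg.Agent.Lib.H12XCard Cfsg.Agent.Lib.H12XNorm
  Cfsg.Agent.Lib.H12XCompl Cfsg.Agent.Lib.H12XCent Cfsg.Agent.Lib.H12XES Cfsg.Agent.Lib.H12XPCore

variable {X : Type*} [Group X] {n : ℕ} {z : X} {a b : V n → X} {k : GLn n →* X}

theorem mem_zpowers_z (h : Cfg n z a b k) {x : X} : x ∈ Subgroup.zpowers z ↔ x = 1 ∨ x = z := by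
  constructor
  · rintro ⟨i, rfl⟩
    rcases Int.even_or_odd' i with ⟨j, rfl | rfl⟩
    · left
      change z ^ (2 * j) = 1
      rw [_root_.zpow_mul, zpow_two, h.z_sq, _root_.one_zpow]
    · right
      change z ^ (2 * j + 1) = z
      rw [_root_.zpow_add, _root_.zpow_mul, zpow_two, h.z_sq, _root_.one_zpow, one_mul, zpow_one]
  · rintro (rfl | rfl)
    · exact Subgroup.one_mem _
    · exact Subgroup.mem_zpowers _

theorem concl (hn : 1 ≤ n) (h : Cfg n z a b k) : Concl n z (Q0 z a b) := by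
  have hc := center_map h
  refine ⟨extraspecial hn h, card_Q0 h, ⟨E0 z a, E0_le z a b, E0_elem h, card_E0 h⟩, ?_, ?_, hc,
    ⟨k.range, range_le h, inf_range h, sup_range h, range_equiv h⟩⟩
  · rw [hc]
    ext x
    rw [mem_zpowers_z h, Subgroup.mem_centralizer_iff]
    constructor
    · intro hx
      exact eq_one_or_eq_z h x (fun q hq => (hx q hq).symm)
    · have hz : z ∈ (Subgroup.center ↥(Q0 z a b)).map (Q0 z a b).subtype := by
        rw [hc]; exact Subgroup.mem_zpowers _
      obtain ⟨⟨z', hz'⟩, hzc, hzz⟩ := hz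
      have hzz' : z' = z := hzz
      rintro (rfl | rfl) q hq
      · simp
      · have := Subgroup.mem_center_iff.1 hzc ⟨q, hq⟩
        have h2 : q * z' = z' * q := congrArg Subtype.val this
        rwa [hzz'] at h2
  · rw [hc]
    intro c hc'
    have hcz : c * z = z * c := (Subgroup.mem_centralizer_iff.1 hc' z (Subgroup.mem_zpowers z)).symm
    have hcz' : c⁻¹ * z = z * c⁻¹ := by
      have : z = c⁻¹ * z * c := by rw [mul_assoc, ← hcz, inv_mul_cancel_left]
      calc c⁻¹ * z = c⁻¹ * z * c * c⁻¹ := by group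
        _ = z * c⁻¹ := by rw [← this]
    rw [Subgroup.mem_normalizer_iff]
    intro q
    constructor
    · intro hq
      exact conj_mem h c hcz q hq
    · intro hq
      have := conj_mem h c⁻¹ hcz' _ hq
      have e : c⁻¹ * (c * q * c⁻¹) * c⁻¹⁻¹ = q := by group
      rwa [e] at this

theorem core [Finite X] (hn : 1 ≤ n) (h : Cfg n z a b k) :
    (Cfsg.pCore 2 ↥(Subgroup.centralizer ({z} : Set X))).map (Subgroup.centralizer ({z} : Set X)).subtype
      = Q0 z a b ∧ Concl n z (Q0 z a b) :=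
  ⟨pCore_eq h, concl hn h⟩

end Cfsg.Agent.Lib.H12XCore
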