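import Mathlib
import Cfsg.Prelude.Def_MonsterType

set_option autoImplicit false

/-! PROJECT 5423 (helper12): rows S5423, S5424, S5425 (centralizer `2^{1+2n} : GL_n(2)` of a "transvection").
Definitions only.  `Cfg` = normal form of the centralizer of `z`;  `Agl` = the centralizer of `z` lies in a
subgroup `U M` of shape `2^{n+1} : GL_{n+1}(2)`. -/

namespace Cfsg.Agent.Lib.H12XDefs

open Matrix

/-- `𝔽₂ⁿ` -/
abbrev V (n : ℕ) := Fin n → ZMod 2
/-- `GL_n(2)` -/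
abbrev GLn (n : ℕ) := GL (Fin n) (ZMod 2)

/-- Every element of `C_X(z)` is uniquely `z^e a(v) b(w) k(A)`; `a`, `b` additive, `[a(v), b(w)] = z^{v·w}`,
`k` a homomorphism acting naturally on the `a(v)` and somehow on the `b(w)`. -/
structure Cfg {X : Type*} [Group X] (n : ℕ) (z : X) (a b : V n → X) (k : GLn n →* X) : Prop where
  z_ne : z ≠ 1
  z_sq : z * z = 1
  a_add : ∀ v w, a (v + w) = a v * a w
  b_add : ∀ v w, b (v + w) = b v * b w
  za : ∀ v, z * a v = a v * z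
  zb : ∀ w, z * b w = b w * z
  zk : ∀ A, z * k A = k A * z
  ba : ∀ v w, b w * a v = a v * b w * z ^ (v ⬝ᵥ w).val
  ka : ∀ (A : GLn n) (v : V n), k A * a v * (k A)⁻¹ = a ((A : Matrix (Fin n) (Fin n) (ZMod 2)) *ᵥ v)
  kb : ∀ (A : GLn n) (w : V n), ∃ w' : V n, k A * b w * (k A)⁻¹ = b w'
  surj : ∀ c : X, c * z = z * c →
    ∃ (e : ZMod 2) (v w : V n) (A : GLn n), c = z ^ e.val * a v * b w * k A
  inj : ∀ (e : ZMod 2) (v w : V n) (A : GLn n), z ^ e.val * a v * b w * k A = 1 →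
    e = 0 ∧ v = 0 ∧ w = 0 ∧ A = 1

/-- the extraspecial group `⟨z, a(v), b(w)⟩` -/
def Q0 {X : Type*} [Group X] {n : ℕ} (z : X) (a b : V n → X) : Subgroup X :=
  Subgroup.closure ({z} ∪ Set.range a ∪ Set.range b)

/-- the elementary abelian group `⟨z, a(v)⟩` -/
def E0 {X : Type*} [Group X] {n : ℕ} (z : X) (a : V n → X) : Subgroup X :=
  Subgroup.closure ({z} ∪ Set.range a)

/-- What the three rows say about `Q`, except `IsLargeExtraspecial` (only its first three clauses). -/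
def Concl {X : Type*} [Group X] (n : ℕ) (z : X) (Q : Subgroup X) : Prop :=
  Cfsg.IsExtraspecial 2 ↥Q ∧ Nat.card ↥Q = 2 ^ (2 * n + 1) ∧
  (∃ E : Subgroup X, E ≤ Q ∧ Cfsg.IsElementaryAbelian 2 E ∧ Nat.card ↥E = 2 ^ (n + 1)) ∧
  Subgroup.centralizer (Q : Set X) = (Subgroup.center ↥Q).map Q.subtype ∧
  Subgroup.centralizer (((Subgroup.center ↥Q).map Q.subtype : Subgroup X) : Set X) ≤
    Subgroup.normalizer (Q : Set X) ∧
  (Subgroup.center ↥Q).map Q.subtype = Subgroup.zpowers z ∧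
  ∃ K : Subgroup X, K ≤ Subgroup.centralizer ({z} : Set X) ∧ Q ⊓ K = ⊥ ∧
    Q ⊔ K = Subgroup.centralizer ({z} : Set X) ∧ Nonempty (↥K ≃* GLn n)

/-- `U M = 2^{n+1} : GL_{n+1}(2)` (faithful and full action) contains the centralizer of `z ∈ U`. -/
structure Agl {X : Type*} [Group X] (n : ℕ) (U M : Subgroup X) (z : X) : Prop where
  elem : Cfsg.IsElementaryAbelian 2 U
  card : Nat.card ↥U = 2 ^ (n + 1)
  norm : ∀ m ∈ M, ∀ u ∈ U, m * u * m⁻¹ ∈ U
  inf : U ⊓ M = ⊥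
  faith : ∀ m ∈ M, (∀ u ∈ U, m * u * m⁻¹ = u) → m = 1
  full : ∀ φ : ↥U ≃* ↥U, ∃ m ∈ M, ∀ u : ↥U, ((φ u : ↥U) : X) = m * u * m⁻¹
  zU : z ∈ U
  z1 : z ≠ 1
  cent : ∀ c : X, c * z = z * c → c ∈ U ⊔ M

end Cfsg.Agent.Lib.H12XDefs
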