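import Cfsg.Agent.Lib.H12XCard
import Cfsg.Agent.Lib.H12XCent
import Cfsg.Agent.Lib.Helper3PGroup

set_option autoImplicit false

/-! PROJECT 5423, piece `ES`: `Q0` is extraspecial with centre `⟨z⟩`. -/

namespace Cfsg.Agent.Lib.H12XES

open Matrix Cfsg.Agent.Lib.H12XDefs Cfsg.Agent.Lib.H12XMem Cfsg.Agent.Lib.H12XCard Cfsg.Agent.Lib.H12XCent
open scoped commutatorElement

variable {X : Type*} [Group X] {n : ℕ} {z : X} {a b : V n → X} {k : GLn n →* X}

theorem z_comm_Q0 (h : Cfg n z a b k) (q : X) (hq : q ∈ Q0 z a b) : z * q = q * z := by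
  obtain ⟨e, v, w, rfl⟩ := (mem_Q0 h).1 hq
  exact (((Commute.refl z).pow_right _).mul_right (h.za v)).mul_right (h.zb w)

/-- From `eq_one_or_eq_z` (⊆) and `za`, `zb` (⊇). -/
theorem center_map (h : Cfg n z a b k) :
    (Subgroup.center ↥(Q0 z a b)).map (Q0 z a b).subtype = Subgroup.zpowers z := by
  apply le_antisymm
  · rintro x ⟨q, hq, rfl⟩
    have hq' := Subgroup.mem_center_iff.1 hq
    have : ∀ q' ∈ Q0 z a b, (q : X) * q' = q' * q := fun q' hq'' =>
      (congrArg Subtype.val (hq' ⟨q', hq''⟩)).symm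
    rcases eq_one_or_eq_z h _ this with h1 | h1
    · change (q : X) ∈ _
      rw [h1]; exact one_mem _
    · change (q : X) ∈ _
      rw [h1]; exact Subgroup.mem_zpowers z
  · rw [Subgroup.zpowers_le]
    refine ⟨⟨z, z_mem z a b⟩, ?_, rfl⟩
    rw [SetLike.mem_coe, Subgroup.mem_center_iff]
    intro g
    exact Subtype.ext (z_comm_Q0 h g g.2).symm

theorem prod_formula (h : Cfg n z a b k) (e e' : ℕ) (v w v' w' : V n) :
    (z ^ e * a v * b w) * (z ^ e' * a v' * b w') =
      z ^ (v' ⬝ᵥ w).val * (z ^ e * z ^ e' * a (v + v') * b (w + w')) := by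
  calc (z ^ e * a v * b w) * (z ^ e' * a v' * b w')
      = z ^ e * a v * (b w * z ^ e') * a v' * b w' := by simp only [mul_assoc]
    _ = z ^ e * (a v * z ^ e') * (b w * a v') * b w' := by rw [← zpb h]; simp only [mul_assoc]
    _ = z ^ e * z ^ e' * a v * (a v' * (b w * z ^ (v' ⬝ᵥ w).val)) * b w' := by
        rw [← zpa h, h.ba]; simp only [mul_assoc]
    _ = z ^ e * z ^ e' * (a v * (a v' * z ^ (v' ⬝ᵥ w).val)) * (b w * b w') := by
        rw [← zpb h]; simp only [mul_assoc]
    _ = z ^ e * z ^ e' * (a v * z ^ (v' ⬝ᵥ w).val) * a v' * (b w * b w') := by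
        rw [← zpa h]; simp only [mul_assoc]
    _ = (z ^ e * z ^ e' * z ^ (v' ⬝ᵥ w).val) * (a v * a v') * (b w * b w') := by
        rw [← zpa h]; simp only [mul_assoc]
    _ = z ^ (v' ⬝ᵥ w).val * (z ^ e * z ^ e' * a (v + v') * b (w + w')) := by
        rw [h.a_add, h.b_add, ← pow_add, ← pow_add]
        have e0 : z ^ (e + e' + (v' ⬝ᵥ w).val) = z ^ (v' ⬝ᵥ w).val * z ^ (e + e') := by
          rw [← pow_add, add_comm]
        rw [e0]
        simp only [mul_assoc]

theorem zpow_cases (z : X) (e : ZMod 2) : z ^ e.val = 1 ∨ z ^ e.val = z := by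
  fin_cases e
  · left; exact pow_zero z
  · right; exact pow_one z

/-- abstract criterion. -/
theorem extraspecial_of {P : Type*} [Group P] [Finite P] (N : ℕ) (hcard : Nat.card P = 2 ^ N)
    (z : P) (z_ne : z ≠ 1) (z_sq : z * z = 1)
    (hcen : ∀ t : P, t ∈ Subgroup.center P ↔ t = 1 ∨ t = z)
    (comm : ∀ r s : P, r * s = s * r ∨ r * s = z * (s * r))
    (sq : ∀ r : P, r * r = 1 ∨ r * r = z)
    (hz : z ∈ commutator P) : Cfsg.IsExtraspecial 2 P := by
  have : Fact (Nat.Prime 2) := ⟨Nat.prime_two⟩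
  have hP : IsPGroup 2 P := IsPGroup.of_card hcard
  have hcomm : commutator P = Subgroup.center P := by
    apply le_antisymm
    · rw [commutator_def, Subgroup.commutator_le]
      intro a _ b _
      rw [hcen, commutatorElement_def]
      rcases comm a b with h1 | h1
      · left; rw [h1]; group
      · right; rw [h1]; group
    · intro t ht
      rcases (hcen t).mp ht with rfl | rfl
      · exact Subgroup.one_mem _
      · exact hz
  have hceq : Subgroup.center P = Subgroup.zpowers z := by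
    apply le_antisymm
    · intro t ht
      rcases (hcen t).mp ht with rfl | rfl
      · exact Subgroup.one_mem _
      · exact Subgroup.mem_zpowers _
    · rw [Subgroup.zpowers_le]
      exact (hcen z).2 (Or.inr rfl)
  have hcc : Nat.card (Subgroup.center P) = 2 := by
    rw [hceq, Nat.card_zpowers]
    exact orderOf_eq_prime (by rw [pow_two]; exact z_sq) z_ne
  refine ⟨⟨hP, ?_, hcomm⟩, hcc⟩
  apply le_antisymm
  · apply Cfsg.Agent.Lib.Helper3PGroup.frattini_le_of_elementary (p := 2)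
    · rw [hcomm]
    · intro x
      rw [hcen, pow_two]
      exact sq x
  · rw [← hcomm]
    exact Cfsg.Agent.Lib.Helper3PGroup.commutator_le_frattini hP

theorem extraspecial (hn : 1 ≤ n) (h : Cfg n z a b k) : Cfsg.IsExtraspecial 2 ↥(Q0 z a b) := by
  have hfin : Finite ↥(Q0 z a b) := by
    apply Nat.finite_of_card_ne_zero
    rw [card_Q0 h]
    positivity
  have hzz : ∀ f : ℕ, z ^ f * z ^ f = 1 := fun f => by
    rw [← (Commute.refl z).mul_pow, h.z_sq, one_pow]
  refine extraspecial_of (2 * n + 1) (card_Q0 h) ⟨z, z_mem z a b⟩ ?_ ?_ ?_ ?_ ?_ ?_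
  · intro e
    exact h.z_ne (congrArg Subtype.val e)
  · exact Subtype.ext h.z_sq
  · intro t
    constructor
    · intro ht
      have hq' := Subgroup.mem_center_iff.1 ht
      have : ∀ q' ∈ Q0 z a b, (t : X) * q' = q' * t := fun q' hq'' =>
        (congrArg Subtype.val (hq' ⟨q', hq''⟩)).symm
      rcases eq_one_or_eq_z h _ this with h1 | h1
      · left; exact Subtype.ext h1
      · right; exact Subtype.ext h1
    · rintro (rfl | rfl)
      · exact one_mem _
      · rw [Subgroup.mem_center_iff]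
        intro g
        exact Subtype.ext (z_comm_Q0 h g g.2).symm
  · rintro ⟨r, hr⟩ ⟨s, hs⟩
    obtain ⟨e, v, w, rfl⟩ := (mem_Q0 h).1 hr
    obtain ⟨e', v', w', rfl⟩ := (mem_Q0 h).1 hs
    have e1 := prod_formula h e.val e'.val v w v' w'
    have e2 := prod_formula h e'.val e.val v' w' v w
    have e3 : z ^ e'.val * z ^ e.val * a (v' + v) * b (w' + w) =
        z ^ e.val * z ^ e'.val * a (v + v') * b (w + w') := by
      rw [add_comm v' v, add_comm w' w, ← pow_add, ← pow_add, add_comm]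
    rw [e3] at e2
    generalize z ^ e.val * z ^ e'.val * a (v + v') * b (w + w') = T at e1 e2
    rcases zpow_cases z (v' ⬝ᵥ w) with g1 | g1 <;> rcases zpow_cases z (v ⬝ᵥ w') with g2 | g2
    · left; apply Subtype.ext
      change _ * _ = _ * _
      rw [e1, e2, g1, g2]
    · right; apply Subtype.ext
      change _ * _ = z * (_ * _)
      rw [e1, e2, g1, g2, ← mul_assoc, h.z_sq]
    · right; apply Subtype.ext
      change _ * _ = z * (_ * _)
      rw [e1, e2, g1, g2, one_mul]
    · left; apply Subtype.ext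
      change _ * _ = _ * _
      rw [e1, e2, g1, g2]
  · rintro ⟨r, hr⟩
    obtain ⟨e, v, w, rfl⟩ := (mem_Q0 h).1 hr
    have e1 := prod_formula h e.val e.val v w v w
    rw [vadd_self, vadd_self, H12XMem.a_zero h, H12XMem.b_zero h, hzz, mul_one, mul_one, mul_one] at e1
    rcases zpow_cases z (v ⬝ᵥ w) with g1 | g1
    · left; apply Subtype.ext
      change _ * _ = _
      rw [e1, g1]; rfl
    · right; apply Subtype.ext
      change _ * _ = _
      rw [e1, g1]
  · have e1 := h.ba (Pi.single ⟨0, hn⟩ 1) (Pi.single ⟨0, hn⟩ 1)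
    have e2 : ((Pi.single ⟨0, hn⟩ 1 : V n) ⬝ᵥ (Pi.single ⟨0, hn⟩ 1 : V n)) = 1 := by simp
    rw [e2] at e1
    have e3 : (1 : ZMod 2).val = 1 := rfl
    rw [e3, pow_one] at e1
    generalize (Pi.single ⟨0, hn⟩ 1 : V n) = v at e1
    have e4 : (⟨z, z_mem z a b⟩ : ↥(Q0 z a b)) = ⁅(⟨b v, b_mem z a b v⟩ : ↥(Q0 z a b)), ⟨a v, a_mem z a b v⟩⁆ := by
      apply Subtype.ext
      rw [commutatorElement_def]
      change z = b v * a v * (b v)⁻¹ * (a v)⁻¹
      rw [e1, mul_assoc (a v), ← h.zb, ← mul_assoc, ← h.za]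
      group
    rw [e4]
    exact Subgroup.commutator_mem_commutator (Subgroup.mem_top _) (Subgroup.mem_top _)

end Cfsg.Agent.Lib.H12XES
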