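import Cfsg.Agent.Lib.H12XDefs

set_option autoImplicit false

/-! PROJECT 5423, piece `Full` (PURE MATHLIB): a faithful action of a group as large as the automorphism group is full. -/

namespace Cfsg.Agent.Lib.H12XFull

/-- SKETCH. `f : M → (U ≃* U)`, `m ↦ (u ↦ ⟨m u m⁻¹, hnorm ..⟩)` (inverse: conjugation by `m⁻¹`) is injective: if `f m = f m'` then
`m'⁻¹ m` centralizes `U`, so is `1` (`hfaith`). `U ≃* U` is finite (`U` finite). An injective map between finite types with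
`card (U ≃* U) ≤ card M` is surjective (`Function.Injective.bijective_of_nat_card_le` / `Finite.injective_iff_surjective_of_equiv`,
`Nat.card`-versions). -/
theorem full_of_card {X : Type*} [Group X] [Finite X] {U M : Subgroup X}
    (hnorm : ∀ m ∈ M, ∀ u ∈ U, m * u * m⁻¹ ∈ U)
    (hfaith : ∀ m ∈ M, (∀ u ∈ U, m * u * m⁻¹ = u) → m = 1)
    (hcard : Nat.card (↥U ≃* ↥U) ≤ Nat.card ↥M) :
    ∀ φ : ↥U ≃* ↥U, ∃ m ∈ M, ∀ u : ↥U, ((φ u : ↥U) : X) = m * u * m⁻¹ := by
  have hnorm' : ∀ m ∈ M, ∀ u ∈ U, m⁻¹ * u * m ∈ U := fun m hm u hu => by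
    simpa using hnorm m⁻¹ (M.inv_mem hm) u hu
  let f : M → (U ≃* U) := fun m =>
    { toFun := fun u => ⟨m * u * (m : X)⁻¹, hnorm m m.2 u u.2⟩
      invFun := fun u => ⟨(m : X)⁻¹ * u * m, hnorm' m m.2 u u.2⟩
      left_inv := fun u => Subtype.ext (by
        show (m : X)⁻¹ * (m * u * (m : X)⁻¹) * m = u
        group)
      right_inv := fun u => Subtype.ext (by
        show (m : X) * ((m : X)⁻¹ * u * m) * (m : X)⁻¹ = u
        group)
      map_mul' := fun u v => Subtype.ext (by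
        show (m : X) * ((u : X) * v) * (m : X)⁻¹ = (m * u * (m : X)⁻¹) * (m * v * (m : X)⁻¹)
        group) }
  have hinj : Function.Injective f := by
    intro m m' h
    have h1 : ∀ u ∈ U, (m : X) * u * (m : X)⁻¹ = m' * u * (m' : X)⁻¹ := fun u hu =>
      congrArg Subtype.val (DFunLike.congr_fun h ⟨u, hu⟩)
    have h2 := hfaith ((m' : X)⁻¹ * m) (M.mul_mem (M.inv_mem m'.2) m.2) (fun u hu => by
      calc (m' : X)⁻¹ * m * u * ((m' : X)⁻¹ * m)⁻¹ = (m' : X)⁻¹ * (m * u * (m : X)⁻¹) * m' := by group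
        _ = u := by rw [h1 u hu]; group)
    exact Subtype.ext (inv_mul_eq_one.1 h2).symm
  have hbij := hinj.bijective_of_nat_card_le hcard
  intro φ
  obtain ⟨m, hm⟩ := hbij.2 φ
  exact ⟨m, m.2, fun u => by rw [← hm]; rfl⟩

end Cfsg.Agent.Lib.H12XFull
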