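import Cfsg.Agent.Lib.H12XDefs

set_option autoImplicit false

/-! PROJECT 5423, piece `GLSL` (PURE MATHLIB): `GL_n(2) ≅ SL_n(2)`. -/

namespace Cfsg.Agent.Lib.H12XGLSL

open Matrix Cfsg.Agent.Lib.H12XDefs

/-- `Matrix.SpecialLinearGroup.toGL` is injective; surjective because the determinant of `g : GLn n` is a unit of `ZMod 2`, hence `1`
(`decide` on `ZMod 2`). `MulEquiv.ofBijective`, then `.symm`. -/
theorem glsl (n : ℕ) : Nonempty (GLn n ≃* Matrix.SpecialLinearGroup (Fin n) (ZMod 2)) := by
  have hinj : Function.Injective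
      (Matrix.SpecialLinearGroup.toGL : Matrix.SpecialLinearGroup (Fin n) (ZMod 2) →* GLn n) := by
    intro a b h
    apply Subtype.ext
    exact congrArg Units.val h
  have hsurj : Function.Surjective
      (Matrix.SpecialLinearGroup.toGL : Matrix.SpecialLinearGroup (Fin n) (ZMod 2) →* GLn n) := by
    intro g
    have h1 : Matrix.GeneralLinearGroup.det g = 1 := Subsingleton.elim _ _
    have h2 : (g : Matrix (Fin n) (Fin n) (ZMod 2)).det = 1 := by
      have := congrArg Units.val h1
      simpa using this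
    exact ⟨⟨g.1, h2⟩, Units.ext rfl⟩
  exact ⟨(MulEquiv.ofBijective _ ⟨hinj, hsurj⟩).symm⟩

end Cfsg.Agent.Lib.H12XGLSL
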