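import Cfsg.Agent.Lib.H12XMatsB

set_option autoImplicit false

/-! PROJECT 5423, piece `InstA`: the easy relations of `Cfg` in a `Setup`. -/

namespace Cfsg.Agent.Lib.H12XInstA

open Matrix Cfsg.Agent.Lib.H12XDefs Cfsg.Agent.Lib.H12XSetup Cfsg.Agent.Lib.H12XMatsB

variable {X : Type*} [Group X] {n : ℕ} {U M : Subgroup X} {z : X}
  {e : ↥U ≃* Multiplicative (Fin (n + 1) → ZMod 2)} {μ : GLn (n + 1) →* X}
  {tv : V n → GLn (n + 1)} {dg : GLn n →* GLn (n + 1)}

theorem z_sq (h : Setup n U M z e μ tv dg) : z * z = 1 := by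
  rw [← pow_two]
  exact h.agl.elem.2 z h.agl.zU

theorem cons_add (x y : ZMod 2) (v w : V n) :
    (Fin.cons (x + y) (v + w) : Fin (n + 1) → ZMod 2) = Fin.cons x v + Fin.cons y w := by
  funext i
  refine Fin.cases ?_ (fun j => ?_) i
  · simp
  · simp

/-- `Fin.cons 0 (v + w) = Fin.cons 0 v + Fin.cons 0 w`, `ofAdd_add`, `map_mul`, `Subgroup.coe_mul`. -/
theorem a_add (h : Setup n U M z e μ tv dg) (v w : V n) : aS e (v + w) = aS e v * aS e w := by
  unfold aS
  have : (Fin.cons 0 (v + w) : Fin (n + 1) → ZMod 2) = Fin.cons 0 v + Fin.cons 0 w := by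
    rw [← cons_add, add_zero]
  rw [this, ofAdd_add, map_mul, Subgroup.coe_mul]

theorem b_add (h : Setup n U M z e μ tv dg) (v w : V n) : bS μ tv (v + w) = bS μ tv v * bS μ tv w := by
  unfold bS
  rw [tv_add h.mats, map_mul]

theorem aS_mem (h : Setup n U M z e μ tv dg) (v : V n) : aS e v ∈ U := by
  unfold aS
  exact Subtype.property _

/-- both are in the commutative group `U`. -/
theorem za (h : Setup n U M z e μ tv dg) (v : V n) : z * aS e v = aS e v * z := by
  have := h.agl.elem.1.is_comm.comm (⟨z, h.agl.zU⟩ : ↥U) ⟨aS e v, aS_mem h v⟩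
  exact congrArg Subtype.val this

theorem key (h : Setup n U M z e μ tv dg) (x₀ : ZMod 2) (v : V n) :
    z ^ x₀.val * aS e v = ((e.symm (Multiplicative.ofAdd (Fin.cons x₀ v : Fin (n + 1) → ZMod 2)) : ↥U) : X) := by
  have hx : x₀ = 0 ∨ x₀ = 1 := by
    revert x₀; decide
  rcases hx with rfl | rfl
  · simp [aS]
  · have h1 : (1 : ZMod 2).val = 1 := rfl
    rw [h1, pow_one]
    have h2 : (Fin.cons 1 v : Fin (n + 1) → ZMod 2) = Pi.single 0 1 + Fin.cons 0 v := by
      have h3 : (Pi.single 0 1 : Fin (n + 1) → ZMod 2) = Fin.cons 1 (0 : V n) := by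
        funext i
        refine Fin.cases ?_ (fun j => ?_) i
        · simp
        · simp [Fin.succ_ne_zero]
      rw [h3, ← cons_add, add_zero, zero_add]
    rw [h2, ofAdd_add, map_mul, Subgroup.coe_mul, h.ez]
    rfl

/-- every element of `U` is `z^x₀ * a v`: `u = e.symm (ofAdd x)`, `x = Fin.cons x₀ v = x₀ • single 0 1 + Fin.cons 0 v`. -/
theorem exists_of_mem_U (h : Setup n U M z e μ tv dg) (u : X) (hu : u ∈ U) :
    ∃ (x₀ : ZMod 2) (v : V n), u = z ^ x₀.val * aS e v := by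
  refine ⟨(Multiplicative.toAdd (e ⟨u, hu⟩)) 0, Fin.tail (Multiplicative.toAdd (e ⟨u, hu⟩)), ?_⟩
  rw [key h, Fin.cons_self_tail, ofAdd_toAdd, MulEquiv.symm_apply_apply]

/-- `z^x₀ * a v = e.symm (ofAdd (Fin.cons x₀ v))`, so it is `1` only if `x₀ = 0`, `v = 0`. -/
theorem eq_zero_of_U (h : Setup n U M z e μ tv dg) (x₀ : ZMod 2) (v : V n) (hu : z ^ x₀.val * aS e v = 1) :
    x₀ = 0 ∧ v = 0 := by
  rw [key h] at hu
  have h1 : e.symm (Multiplicative.ofAdd (Fin.cons x₀ v : Fin (n + 1) → ZMod 2)) = 1 := Subtype.ext hu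
  have h2 : Multiplicative.ofAdd (Fin.cons x₀ v : Fin (n + 1) → ZMod 2) = 1 := by
    have := congrArg e h1
    rwa [MulEquiv.apply_symm_apply, map_one] at this
  have h3 : (Fin.cons x₀ v : Fin (n + 1) → ZMod 2) = 0 := h2
  constructor
  · have := congrFun h3 0
    simpa using this
  · funext j
    have := congrFun h3 j.succ
    simpa using this

end Cfsg.Agent.Lib.H12XInstA
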