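import Cfsg.Agent.Lib.H12XDefs
import Cfsg.Agent.S5420
import Cfsg.Agent.S5422

set_option autoImplicit false

/-! PROJECT 5423, piece `Large`: `IsLargeExtraspecial` from `Concl` and the landed rows S5420, S5422. -/

namespace Cfsg.Agent.Lib.H12XLarge

open Cfsg.Agent.Lib.H12XDefs

variable {X : Type*} [Group X] [Finite X] {n : ℕ} {z : X} {Q : Subgroup X}

/-- `Cfsg.Agent.S5420.result Q hL1 hL2 hL3 hZ`, `hZ` from `(center Q).map _ = zpowers z` (6th clause of `Concl`) and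
`Subgroup.zpowers_le`. -/
theorem large_of_mem_pCore (h : Concl n z Q) (hz : z ∈ Cfsg.pCore 2 X) : Cfsg.IsLargeExtraspecial Q := by
  obtain ⟨hL1, -, -, hL2, hL3, hZ, -⟩ := h
  exact Cfsg.Agent.S5420.result Q hL1 hL2 hL3 (by rw [hZ, Subgroup.zpowers_le]; exact hz)

/-- `(Cfsg.Agent.S5422.result Q hL1 hL2 hL3 n hn hcard g hg hZg).2.2`. With `Z = (center Q).map _ = zpowers z`:
`hZg : Z.map (conj g) ≤ Q`: `Subgroup.map_zpowers`/elementwise, `(g z g⁻¹)^i ∈ Q`.
`hg : g ∉ normalizer Z`: otherwise `g z g⁻¹ ∈ zpowers z`; `z` has order 2 (`Z` = centre of an extraspecial 2-group has order 2: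
`h.1.2 : Nat.card (center Q) = 2`; so `zpowers z = {1, z}`), so `g z g⁻¹ = 1` (impossible, `z ≠ 1`) or `= z`. -/
theorem large_of_conj (hn : 2 ≤ n) (h : Concl n z Q) (g : X) (h1 : g * z * g⁻¹ ∈ Q) (h2 : g * z * g⁻¹ ≠ z) :
    Cfsg.IsLargeExtraspecial Q := by
  obtain ⟨hL1, hcard, -, hL2, hL3, hZ, -⟩ := h
  have hord : orderOf z = 2 := by
    rw [← Nat.card_zpowers, ← hZ, Subgroup.card_map_of_injective Q.subtype_injective]
    exact hL1.2
  refine (Cfsg.Agent.S5422.result Q hL1 hL2 hL3 n hn hcard g ?_ ?_).2.2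
  · rw [hZ]
    intro hg
    have h3 : g * z * g⁻¹ ∈ Subgroup.zpowers z :=
      (Subgroup.mem_normalizer_iff.1 hg z).1 (Subgroup.mem_zpowers z)
    obtain ⟨k, hk⟩ := h3
    have hk' : z ^ k = g * z * g⁻¹ := hk
    rw [← zpow_mod_orderOf, hord] at hk'
    rcases Int.emod_two_eq_zero_or_one k with h0 | h0
    · have h0' : k % ((2 : ℕ) : ℤ) = 0 := by exact_mod_cast h0
      rw [h0', zpow_zero] at hk'
      have hz1 : z = 1 := by
        calc z = g⁻¹ * (g * z * g⁻¹) * g := by group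
          _ = 1 := by rw [← hk']; group
      rw [hz1, orderOf_one] at hord
      omega
    · have h0' : k % ((2 : ℕ) : ℤ) = 1 := by exact_mod_cast h0
      rw [h0', zpow_one] at hk'
      exact h2 hk'.symm
  · rw [hZ, MonoidHom.map_zpowers, Subgroup.zpowers_le]
    exact h1

end Cfsg.Agent.Lib.H12XLarge
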