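import Cfsg.Agent.Lib.H12XDefs
import Cfsg.Prelude.Def_Sporadic_a

set_option autoImplicit false
open scoped Pointwise

/-! PROJECT 5423: the subgroups `U = 2^4`, `M = A_8` of the octad stabilizer in `M24`, as subgroups of the type `↥M24`. -/

namespace Cfsg.Agent.Lib.H12XM24Defs

open Cfsg Cfsg.Agent.Lib.H12XDefs

/-- pointwise stabilizer of `o` -/
def U24 (o : Finset GolayPt) : Subgroup ↥M24 :=
  (M24 ⊓ fixingSubgroup (Equiv.Perm GolayPt) (o : Set GolayPt)).subgroupOf M24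

/-- stabilizer of `o` and of the point `p` -/
def M24p (o : Finset GolayPt) (p : GolayPt) : Subgroup ↥M24 :=
  (M24 ⊓ MulAction.stabilizer (Equiv.Perm GolayPt) o ⊓ MulAction.stabilizer (Equiv.Perm GolayPt) p).subgroupOf M24

/-- setwise stabilizer of `o` -/
def S24 (o : Finset GolayPt) : Subgroup ↥M24 :=
  (M24 ⊓ MulAction.stabilizer (Equiv.Perm GolayPt) o).subgroupOf M24

theorem mem_U24 {o : Finset GolayPt} {g : ↥M24} : g ∈ U24 o ↔ ∀ x ∈ o, (g : Equiv.Perm GolayPt) x = x := by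
  unfold U24
  rw [Subgroup.mem_subgroupOf, Subgroup.mem_inf, mem_fixingSubgroup_iff]
  constructor
  · intro h x hx
    exact h.2 x (Finset.mem_coe.2 hx)
  · intro h
    exact ⟨g.2, fun x hx => h x (Finset.mem_coe.1 hx)⟩

theorem mem_S24 {o : Finset GolayPt} {g : ↥M24} : g ∈ S24 o ↔ (g : Equiv.Perm GolayPt) • o = o := by
  unfold S24
  rw [Subgroup.mem_subgroupOf, Subgroup.mem_inf, MulAction.mem_stabilizer_iff]
  exact ⟨fun h => h.2, fun h => ⟨g.2, h⟩⟩

theorem mem_M24p {o : Finset GolayPt} {p : GolayPt} {g : ↥M24} :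
    g ∈ M24p o p ↔ (g : Equiv.Perm GolayPt) • o = o ∧ (g : Equiv.Perm GolayPt) p = p := by
  unfold M24p
  rw [Subgroup.mem_subgroupOf, Subgroup.mem_inf, Subgroup.mem_inf, MulAction.mem_stabilizer_iff,
    MulAction.mem_stabilizer_iff]
  exact ⟨fun h => ⟨h.1.2, h.2⟩, fun h => ⟨⟨g.2, h.1⟩, h.2⟩⟩

end Cfsg.Agent.Lib.H12XM24Defs
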