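import Mathlib

/-! # Generic stabiliser lemmas (helper34) -/

set_option autoImplicit false

namespace Cfsg.Agent.Lib.Helper34Stab

/-- orbit-stabiliser step inside a subgroup -/
theorem card_step {G α : Type*} [Group G] [MulAction G α] (K : Subgroup G) (x : α) (S : Set α)
    (hS : MulAction.orbit K x = S) :
    Nat.card ↥(K ⊓ MulAction.stabilizer G x) * S.ncard = Nat.card K := by
  have h := Subgroup.card_mul_index (MulAction.stabilizer K x)
  rw [MulAction.index_stabilizer, hS] at h
  have h1 : MulAction.stabilizer K x = (K ⊓ MulAction.stabilizer G x).subgroupOf K := by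
    ext ⟨g, hg⟩
    rw [MulAction.mem_stabilizer_iff, Subgroup.mem_subgroupOf, Subgroup.mem_inf,
      MulAction.mem_stabilizer_iff]
    exact ⟨fun h => ⟨hg, h⟩, fun h => h.2⟩
  rw [h1, Nat.card_congr (Subgroup.subgroupOfEquivOfLe inf_le_left).toEquiv] at h
  exact h

/-- restriction of a group of permutations to an invariant finite set, as a homomorphism -/
def restrictHom {α G : Type*} [DecidableEq α] [Group G] (ι : G →* Equiv.Perm α) (F : Finset α)
    (hF : ∀ g : G, ∀ x, ι g x ∈ F ↔ x ∈ F) : G →* Equiv.Perm {x // x ∈ F} where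
  toFun g := (ι g).subtypePerm (hF g)
  map_one' := by
    ext x
    simp
  map_mul' a b := by
    ext x
    simp only [map_mul]
    rfl

theorem restrictHom_apply {α G : Type*} [DecidableEq α] [Group G] (ι : G →* Equiv.Perm α) (F : Finset α)
    (hF : ∀ g : G, ∀ x, ι g x ∈ F ↔ x ∈ F) (g : G) (x : {x // x ∈ F}) :
    ((restrictHom ι F hF g x : {x // x ∈ F}) : α) = ι g x := rfl

/-- an injective homomorphism into the symmetric group of an `n`-set from a group of order `n!`
is an isomorphism with `Perm (Fin n)` -/
theorem iso_perm_of_injective {G β : Type*} [Group G] [Fintype β] [DecidableEq β] (n : ℕ)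
    (hβ : Fintype.card β = n) (φ : G →* Equiv.Perm β) (hφ : Function.Injective φ)
    (hG : Nat.card G = n.factorial) : Nonempty (G ≃* Equiv.Perm (Fin n)) := by
  have hb : Function.Bijective φ := by
    rw [Nat.bijective_iff_injective_and_card]
    refine ⟨hφ, ?_⟩
    rw [hG, Nat.card_eq_fintype_card, Fintype.card_perm, hβ]
  exact ⟨(MulEquiv.ofBijective φ hb).trans (Fintype.equivFinOfCardEq hβ).permCongrHom⟩

end Cfsg.Agent.Lib.Helper34Stab
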