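import Cfsg.Agent.Lib.Helper34M24b
import Cfsg.Agent.Lib.Helper34Stab
import Cfsg.Agent.S0364
import Cfsg.Agent.S0381

/-! # The stabiliser of an octad (helper34)

`SW o` setwise stabiliser (order 322560), `PW o` pointwise stabiliser (order 16, regular on the
complement), `res o` the restriction to the octad, with range the alternating group. -/

set_option autoImplicit false

namespace Cfsg.Agent.Lib.Helper34Oct

open Cfsg Cfsg.Agent.Lib.Helper33Golay Cfsg.Agent.Lib.Helper33Orbit Cfsg.Agent.Lib.Helper33Trans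
open Cfsg.Agent.Lib.Helper34M24 Cfsg.Agent.Lib.Helper34M12 Cfsg.Agent.Lib.Helper34M24b
open Cfsg.Agent.Lib.Helper34Stab
open scoped Pointwise

/-- pointwise stabiliser -/
abbrev PW (o : Finset GolayPt) : Subgroup (Equiv.Perm GolayPt) :=
  M24 ⊓ fixingSubgroup (Equiv.Perm GolayPt) (o : Set GolayPt)

/-- setwise stabiliser -/
abbrev SW (o : Finset GolayPt) : Subgroup (Equiv.Perm GolayPt) :=
  M24 ⊓ MulAction.stabilizer (Equiv.Perm GolayPt) o

theorem mem_PW {o : Finset GolayPt} {g : Equiv.Perm GolayPt} :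
    g ∈ PW o ↔ g ∈ M24 ∧ ∀ p ∈ o, g p = p := by
  rw [Subgroup.mem_inf, mem_fixingSubgroup_iff]
  rfl

theorem mem_SW {o : Finset GolayPt} {g : Equiv.Perm GolayPt} :
    g ∈ SW o ↔ g ∈ M24 ∧ g • o = o := by
  rw [Subgroup.mem_inf]
  exact Iff.rfl

theorem orbit_octad {o : Finset GolayPt} (ho : o ∈ octads) : MulAction.orbit M24 o = octads := by
  ext t
  constructor
  · rintro ⟨⟨g, hg⟩, rfl⟩
    exact smul_mem_octads hg ho
  · intro ht
    obtain ⟨g, hg, rfl⟩ := octad_trans ho ht
    exact ⟨⟨g, hg⟩, rfl⟩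

theorem card_SW {o : Finset GolayPt} (ho : o ∈ octads) : Nat.card ↥(SW o) = 322560 := by
  have h := card_step M24 o _ (orbit_octad ho)
  rw [octads_ncard, Cfsg.Agent.S0364.result] at h
  change Nat.card ↥(SW o) * 759 = 244823040 at h
  omega

def LA : List ℕ := [984818244535754528103549039458486304, 984330238668445353307680420861740096, 984561664131678682933695704404628576, 984365217902686453248235801272398976, 984232233431490913630068531325373600, 984474077397641743376427032193378496, 984159739662526352166722481920720096, 984778551226145691544909149262458112, 984035668360141982437242148508390688, 984106537951624291307853224808683840, 984723249968559545477841165439377760, 984193134333667655196206109968142752, 984067557695403189637163205127740896, 984389065579339274464679472059863648, 984266143084858087375752989286682240, 983991419431302060320892116034627232]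

theorem LA_ok : LA.all (inHF [0, 12, 14, 16, 17, 18, 22, 23]) = true := by decide +kernel

theorem moveA : ∀ x ∈ dec (o0 ^^^ 16777215), ∃ g ∈ HF [0, 12, 14, 16, 17, 18, 22, 23], g x = pt 1 :=
  move_point _ LA _ 1 (fun P hP => inHF_spec (List.all_eq_true.1 LA_ok P hP)) (by decide +kernel)

theorem HF_le_PW : HF [0, 12, 14, 16, 17, 18, 22, 23] ≤ PW (dec o0) := by
  intro g hg
  rw [mem_PW]
  refine ⟨hg.1, fun p hp => ?_⟩
  rw [mem_dec] at hp
  have key : ∀ i < 24, o0.testBit i = true → i ∈ [0, 12, 14, 16, 17, 18, 22, 23] := by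
    decide +kernel
  have := hg.2 _ (key _ (idx_lt p) hp)
  rwa [pt_idx] at this

theorem PW_conj {k : Equiv.Perm GolayPt} (hk : k ∈ M24) {o : Finset GolayPt}
    {a : Equiv.Perm GolayPt} (ha : a ∈ PW (k • o)) : k⁻¹ * a * k ∈ PW o := by
  rw [mem_PW] at ha ⊢
  refine ⟨M24.mul_mem (M24.mul_mem (M24.inv_mem hk) ha.1) hk, fun p hp => ?_⟩
  rw [Equiv.Perm.mul_apply, Equiv.Perm.mul_apply, ha.2 (k p) ((smul_mem_smul k p o).2 hp)]
  simp

/-- the pointwise stabiliser is transitive on the complement -/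
theorem PW_trans {o : Finset GolayPt} (ho : o ∈ octads) {p q : GolayPt} (hp : p ∉ o) (hq : q ∉ o) :
    ∃ a ∈ PW o, a p = q := by
  obtain ⟨k, hk, hko⟩ := octad_trans ho (dec_mem_octads o0_mem)
  have aux : ∀ x, x ∉ o → ∃ a ∈ PW o, a x = k⁻¹ (pt 1) := by
    intro x hx
    obtain ⟨g, hg, hgx⟩ := moveA (k x) (by
      rw [dec_compl, Finset.mem_compl, ← hko, smul_mem_smul]; exact hx)
    refine ⟨k⁻¹ * g * k, PW_conj hk (by rw [hko]; exact HF_le_PW hg), ?_⟩
    rw [Equiv.Perm.mul_apply, Equiv.Perm.mul_apply, hgx]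
  obtain ⟨a, ha, hap⟩ := aux p hp
  obtain ⟨b, hb, hbq⟩ := aux q hq
  refine ⟨b⁻¹ * a, (PW o).mul_mem ((PW o).inv_mem hb) ha, ?_⟩
  rw [Equiv.Perm.mul_apply, hap, ← hbq]
  simp

theorem PW_le_SW (o : Finset GolayPt) : PW o ≤ SW o := by
  intro g hg
  rw [mem_PW] at hg
  rw [mem_SW]
  refine ⟨hg.1, ?_⟩
  apply Finset.eq_of_subset_of_card_le
  · intro x hx
    obtain ⟨y, hy, rfl⟩ := Finset.mem_smul_finset.1 hx
    rw [Equiv.Perm.smul_def, hg.2 y hy]; exact hy
  · rw [Finset.card_smul_finset]

theorem SW_mem_iff {o : Finset GolayPt} {g : Equiv.Perm GolayPt} (hg : g ∈ SW o) (x : GolayPt) :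
    g x ∈ o ↔ x ∈ o := by
  conv_lhs => rw [← (mem_SW.1 hg).2]
  exact smul_mem_smul g x o

theorem orbit_PW {o : Finset GolayPt} (ho : o ∈ octads) {p : GolayPt} (hp : p ∉ o) :
    MulAction.orbit ↥(PW o) p = ((oᶜ : Finset GolayPt) : Set GolayPt) := by
  ext q
  rw [Finset.mem_coe, Finset.mem_compl]
  constructor
  · rintro ⟨⟨g, hg⟩, rfl⟩
    change ¬ (g p ∈ o)
    rw [SW_mem_iff (PW_le_SW o hg)]
    exact hp
  · intro hq
    obtain ⟨a, ha, hap⟩ := PW_trans ho hp hq
    exact ⟨⟨a, ha⟩, hap⟩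

/-- the pointwise stabiliser acts regularly on the complement -/
theorem PW_inf_stab {o : Finset GolayPt} (ho : o ∈ octads) {p : GolayPt} (hp : p ∉ o) :
    PW o ⊓ MulAction.stabilizer (Equiv.Perm GolayPt) p = ⊥ := by
  have h := card_step (PW o) p _ (orbit_PW ho hp)
  rw [Set.ncard_coe_finset, Finset.card_compl, ho.2, (Cfsg.Agent.S0381.result o ho).1] at h
  have h24 : Fintype.card GolayPt = 24 := by decide
  rw [h24] at h
  apply Subgroup.eq_bot_of_card_eq
  omega

/-- restriction to the octad -/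
def res (o : Finset GolayPt) : ↥(SW o) →* Equiv.Perm {x // x ∈ o} :=
  restrictHom (Subgroup.subtype (SW o)) o (fun g x => SW_mem_iff g.2 x)

theorem res_apply (o : Finset GolayPt) (g : ↥(SW o)) (x : {x // x ∈ o}) :
    ((res o g x : {x // x ∈ o}) : GolayPt) = (g : Equiv.Perm GolayPt) x := rfl

theorem res_ker (o : Finset GolayPt) : (res o).ker = (PW o).subgroupOf (SW o) := by
  ext ⟨g, hg⟩
  rw [MonoidHom.mem_ker, Subgroup.mem_subgroupOf, mem_PW]
  constructor
  · intro h
    refine ⟨hg.1, fun p hp => ?_⟩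
    have := congrArg (fun e : Equiv.Perm {x // x ∈ o} => ((e ⟨p, hp⟩ : {x // x ∈ o}) : GolayPt)) h
    exact this
  · intro h
    apply Equiv.ext
    rintro ⟨x, hx⟩
    apply Subtype.ext
    exact h.2 x hx

theorem card_range {o : Finset GolayPt} (ho : o ∈ octads) : Nat.card (res o).range = 20160 := by
  have h1 := Subgroup.card_mul_index (res o).ker
  rw [Subgroup.index_ker, res_ker,
    Nat.card_congr (Subgroup.subgroupOfEquivOfLe (PW_le_SW o)).toEquiv,
    (Cfsg.Agent.S0381.result o ho).1, card_SW ho] at h1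
  omega

theorem range_res {o : Finset GolayPt} (ho : o ∈ octads) :
    (res o).range = alternatingGroup {x // x ∈ o} := by
  apply Equiv.Perm.eq_alternatingGroup_of_index_eq_two
  have h1 := Subgroup.card_mul_index (res o).range
  rw [card_range ho, Nat.card_eq_fintype_card, Fintype.card_perm, Fintype.card_coe, ho.2] at h1
  have : Nat.factorial 8 = 40320 := by decide
  omega

end Cfsg.Agent.Lib.Helper34Oct
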