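import Cfsg.Agent.Lib.H12XM24Defs
import Cfsg.Agent.S0381
import Cfsg.Agent.S1554

set_option autoImplicit false
open scoped Pointwise

/-! PROJECT 5423, piece `M24a`: the landed rows S0381, S1554 restated for subgroups of the type `↥M24`. -/

namespace Cfsg.Agent.Lib.H12XM24a

open Cfsg Cfsg.Agent.Lib.H12XDefs Cfsg.Agent.Lib.H12XM24Defs

variable {o : Finset GolayPt} {p : GolayPt}

/-- `Cfsg.Agent.S0381.result o ho` : all `g` in the pointwise stabilizer satisfy `g * g = 1`; a group of exponent 2 is commutative. -/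
theorem elem (ho : o ∈ octads) : Cfsg.IsElementaryAbelian 2 (U24 o) := by
  have hsq : ∀ a ∈ U24 o, a * a = 1 := by
    intro a ha
    apply Subtype.ext
    rw [Subgroup.coe_mul]
    exact (Cfsg.Agent.S0381.result o ho).2 _ (Subgroup.mem_subgroupOf.mp ha)
  refine ⟨⟨⟨fun a b => ?_⟩⟩, fun a ha => by rw [pow_two]; exact hsq a ha⟩
  have haa : a * a = 1 := Subtype.ext (hsq a.1 a.2)
  have hbb : b * b = 1 := Subtype.ext (hsq b.1 b.2)
  have hab : (a * b) * (a * b) = 1 := Subtype.ext (hsq (a * b).1 (a * b).2)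
  symm
  calc b * a = (a * a) * (b * a) * (b * b) := by rw [haa, hbb, one_mul, mul_one]
    _ = a * ((a * b) * (a * b)) * b := by group
    _ = a * b := by rw [hab, mul_one]

/-- `(H.subgroupOf K)` is equivalent to `H` for `H ≤ K` (`Subgroup.subgroupOfEquivOfLe`). -/
theorem card_U (ho : o ∈ octads) : Nat.card ↥(U24 o) = 2 ^ (3 + 1) := by
  have h := (Cfsg.Agent.S0381.result o ho).1
  have e := Subgroup.subgroupOfEquivOfLe
    (inf_le_left : M24 ⊓ fixingSubgroup (Equiv.Perm GolayPt) (o : Set GolayPt) ≤ M24)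
  have h2 : Nat.card ↥(U24 o) = 16 := by
    rw [← h]
    exact Nat.card_congr e.toEquiv
  rw [h2]
  norm_num

/-- first clause of `Cfsg.Agent.S1554.result o ho p hp` (elementwise with `mem_U24`, `mem_M24p`, or `Subgroup.subgroupOf` lemmas). -/
theorem inf (ho : o ∈ octads) (hp : p ∉ o) : U24 o ⊓ M24p o p = ⊥ := by
  rw [Subgroup.eq_bot_iff_forall]
  intro g hg
  have h1 := Subgroup.mem_subgroupOf.mp hg.1
  have h2 := Subgroup.mem_subgroupOf.mp hg.2
  have h3 : (g : Equiv.Perm GolayPt) ∈ (M24 ⊓ fixingSubgroup (Equiv.Perm GolayPt) (o : Set GolayPt)) ⊓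
      (M24 ⊓ MulAction.stabilizer (Equiv.Perm GolayPt) o ⊓
        MulAction.stabilizer (Equiv.Perm GolayPt) p) := ⟨h1, h2⟩
  rw [(Cfsg.Agent.S1554.result o ho p hp).1, Subgroup.mem_bot] at h3
  exact Subtype.ext h3

/-- second clause of S1554; only `S24 o ≤ U24 o ⊔ M24p o p` is needed: an element of `A ⊔ B` (with `A` normalized by `B`) is a product;
or `Subgroup.subgroupOf_sup` (both are `≤ M24`). -/
theorem le_sup (ho : o ∈ octads) (hp : p ∉ o) : S24 o ≤ U24 o ⊔ M24p o p := by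
  apply le_of_eq
  unfold S24 U24 M24p
  rw [← Subgroup.subgroupOf_sup inf_le_left (inf_le_left.trans inf_le_left),
    (Cfsg.Agent.S1554.result o ho p hp).2.1]

/-- third clause of S1554. -/
theorem equiv_M (ho : o ∈ octads) (hp : p ∉ o) : Nonempty (↥(M24p o p) ≃* alternatingGroup (Fin 8)) := by
  obtain ⟨e⟩ := (Cfsg.Agent.S1554.result o ho p hp).2.2
  exact ⟨(Subgroup.subgroupOfEquivOfLe (inf_le_left.trans inf_le_left)).trans e⟩

/-- `|A_8| = 8!/2` : `Nat.card_congr`, `two_mul_card_alternatingGroup`, `Fintype.card_perm`. -/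
theorem card_M (ho : o ∈ octads) (hp : p ∉ o) : Nat.card ↥(M24p o p) = 20160 := by
  obtain ⟨e⟩ := equiv_M ho hp
  rw [Nat.card_congr e.toEquiv, nat_card_alternatingGroup, Nat.card_eq_fintype_card,
    Fintype.card_fin]
  decide

/-- `alternatingGroup.isSimpleGroup` (Mathlib: `5 ≤ Nat.card α`) transported by `equiv_M` (`isSimpleGroup_of_surjective` / `MulEquiv.isSimpleGroup`). -/
theorem simple_M (ho : o ∈ octads) (hp : p ∉ o) : IsSimpleGroup ↥(M24p o p) := by
  obtain ⟨e⟩ := equiv_M ho hp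
  have h : IsSimpleGroup (alternatingGroup (Fin 8)) :=
    alternatingGroup.isSimpleGroup (by rw [Nat.card_eq_fintype_card, Fintype.card_fin]; norm_num)
  exact e.isSimpleGroup_congr.mpr h

end Cfsg.Agent.Lib.H12XM24a
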