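import Cfsg.Agent.Lib.H12XM24Defs

set_option autoImplicit false
open scoped Pointwise

/-! PROJECT 5423, piece `M24b`: elementary facts on `U24`, `M24p`, `S24` and an involution `z` with fixed point set `o`. -/

namespace Cfsg.Agent.Lib.H12XM24b

open Cfsg Cfsg.Agent.Lib.H12XDefs Cfsg.Agent.Lib.H12XM24Defs

variable {o : Finset GolayPt} {p : GolayPt}

/-- `m⁻¹ x ∈ o` for `x ∈ o` since `m • o = o` (`Finset.smul_mem_smul_finset_iff`, `Equiv.Perm.smul_def`), `u` fixes it, `m` brings it back. -/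
theorem norm (m : ↥M24) (hm : m ∈ M24p o p) (u : ↥M24) (hu : u ∈ U24 o) : m * u * m⁻¹ ∈ U24 o := by
  rw [mem_U24] at hu ⊢
  rw [mem_M24p] at hm
  intro x hx
  have hx' : x ∈ (m : Equiv.Perm GolayPt) • o := by rw [hm.1]; exact hx
  obtain ⟨y, hy, hyx⟩ := Finset.mem_smul_finset.mp hx'
  have hyx' : (m : Equiv.Perm GolayPt) y = x := hyx
  have h1 : (m : Equiv.Perm GolayPt)⁻¹ x = y := by
    rw [Equiv.Perm.inv_eq_iff_eq]; exact hyx'.symm
  rw [Subgroup.coe_mul, Subgroup.coe_mul, Subgroup.coe_inv, Equiv.Perm.mul_apply,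
    Equiv.Perm.mul_apply, h1, hu y hy, hyx']

theorem z_mem (z : ↥M24) (ho : (Finset.univ.filter fun q : GolayPt => (z : Equiv.Perm GolayPt) q = q) = o) : z ∈ U24 o := by
  rw [mem_U24]
  intro x hx
  rw [← ho] at hx
  exact (Finset.mem_filter.mp hx).2

/-- `c` commutes with `z`, so it permutes the fixed points of `z`: `z (c q) = c (z q) = c q`; a finite set mapped into itself by a permutation is
mapped onto itself (`Finset.eq_of_subset_of_card_le`, `Finset.card_smul_finset`). -/
theorem cent (z : ↥M24) (ho : (Finset.univ.filter fun q : GolayPt => (z : Equiv.Perm GolayPt) q = q) = o)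
    (c : ↥M24) (hc : c * z = z * c) : c ∈ S24 o := by
  rw [mem_S24]
  apply Finset.eq_of_subset_of_card_le
  · intro y hy
    obtain ⟨x, hx, hxy⟩ := Finset.mem_smul_finset.mp hy
    have hxy' : (c : Equiv.Perm GolayPt) x = y := hxy
    have hzx : (z : Equiv.Perm GolayPt) x = x := by
      rw [← ho] at hx
      exact (Finset.mem_filter.mp hx).2
    have hc' : (c : Equiv.Perm GolayPt) * (z : Equiv.Perm GolayPt) =
        (z : Equiv.Perm GolayPt) * (c : Equiv.Perm GolayPt) := by
      rw [← Subgroup.coe_mul, ← Subgroup.coe_mul, hc]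
    have h1 := congrArg (fun f : Equiv.Perm GolayPt => f x) hc'
    simp only [Equiv.Perm.mul_apply] at h1
    rw [hzx, hxy'] at h1
    rw [← ho]
    exact Finset.mem_filter.mpr ⟨Finset.mem_univ _, h1.symm⟩
  · rw [Finset.card_smul_finset]

/-- `o.card = 8 < 24` (`ho.2`; `octads = wordsOfWeight _ 8`). -/
theorem exists_not_mem (ho : o ∈ octads) : ∃ p : GolayPt, p ∉ o := by
  by_contra h
  have h' : ∀ p : GolayPt, p ∈ o := by
    intro p
    by_contra hp
    exact h ⟨p, hp⟩
  have h1 : o = Finset.univ := Finset.eq_univ_iff_forall.mpr h'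
  have h2 : o.card = 8 := ho.2
  rw [h1, Finset.card_univ] at h2
  have h3 : Fintype.card GolayPt = 24 := by
    show Fintype.card (Option (ZMod 23)) = 24
    rw [Fintype.card_option, ZMod.card]
  omega

end Cfsg.Agent.Lib.H12XM24b
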