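import Cfsg.Agent.Lib.H12XM24a
import Cfsg.Agent.Lib.H12XM24b
import Cfsg.Agent.S5394

set_option autoImplicit false
open scoped Pointwise

/-! PROJECT 5423, piece `M24c`: `M24p o p ≅ A_8` acts faithfully on `U24 o = 2^4`. -/

namespace Cfsg.Agent.Lib.H12XM24c

open Cfsg Cfsg.Agent.Lib.H12XDefs Cfsg.Agent.Lib.H12XM24Defs Cfsg.Agent.Lib.H12XM24a Cfsg.Agent.Lib.H12XM24b

variable {o : Finset GolayPt} {p : GolayPt}

/-- SKETCH. `N = {m ∈ M24p o p | m centralizes U24 o}` is a normal subgroup of `M = M24p o p` (`M` normalizes `U`, `norm`), `M` is simple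
(`simple_M`), so `N = ⊥` (done) or `N = ⊤`. In the second case take an involution `t ∈ M` (`card_M` is even: `exists_prime_orderOf_dvd_card`).
`u ↦ u p` is injective on `U` (if `u p = u' p` then `u⁻¹ u' ∈ U ⊓ M = ⊥`, `inf`; elements of `U` stabilize `o`), and
`t (u p) = u (t p) = u p`. So `t` has at least `16` fixed points (`card_U`), among them `p`. But by the first clause of
`Cfsg.Agent.S5394.result` the fixed point set of the involution `t` is an octad (8 points, `.2` of membership in `octads`) or empty. -/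
theorem faith (ho : o ∈ octads) (hp : p ∉ o) (m : ↥M24) (hm : m ∈ M24p o p)
    (h : ∀ u ∈ U24 o, m * u * m⁻¹ = u) : m = 1 := by
  classical
  have hsimple := simple_M ho hp
  let N : Subgroup ↥(M24p o p) :=
    { carrier := {x | ∀ u ∈ U24 o, (x : ↥M24) * u * (x : ↥M24)⁻¹ = u}
      one_mem' := by intro u _; simp
      mul_mem' := by
        intro a b ha hb u hu
        have h1 := hb u hu
        have h2 := ha u hu
        calc ((a * b : ↥(M24p o p)) : ↥M24) * u * ((a * b : ↥(M24p o p)) : ↥M24)⁻¹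
            = (a : ↥M24) * ((b : ↥M24) * u * (b : ↥M24)⁻¹) * (a : ↥M24)⁻¹ := by
              rw [Subgroup.coe_mul]; group
          _ = u := by rw [h1, h2]
      inv_mem' := by
        intro a ha u hu
        have h2 := ha u hu
        calc ((a⁻¹ : ↥(M24p o p)) : ↥M24) * u * ((a⁻¹ : ↥(M24p o p)) : ↥M24)⁻¹
            = (a : ↥M24)⁻¹ * ((a : ↥M24) * u * (a : ↥M24)⁻¹) * (a : ↥M24) := by
              rw [h2, Subgroup.coe_inv, inv_inv]
          _ = u := by group }
  have hNn : N.Normal := ⟨by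
    intro x hx g u hu
    have hu' : (g : ↥M24)⁻¹ * u * ((g : ↥M24)⁻¹)⁻¹ ∈ U24 o :=
      norm _ ((M24p o p).inv_mem g.2) u hu
    have h1 := hx _ hu'
    calc ((g * x * g⁻¹ : ↥(M24p o p)) : ↥M24) * u * ((g * x * g⁻¹ : ↥(M24p o p)) : ↥M24)⁻¹
        = (g : ↥M24) * ((x : ↥M24) * ((g : ↥M24)⁻¹ * u * ((g : ↥M24)⁻¹)⁻¹) * (x : ↥M24)⁻¹) *
            (g : ↥M24)⁻¹ := by
          rw [Subgroup.coe_mul, Subgroup.coe_mul, Subgroup.coe_inv]; group
      _ = u := by rw [h1]; group⟩
  rcases hNn.eq_bot_or_eq_top with hN | hN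
  · have h1 : (⟨m, hm⟩ : ↥(M24p o p)) ∈ N := h
    rw [hN, Subgroup.mem_bot] at h1
    exact congrArg Subtype.val h1
  · exfalso
    have : Fact (Nat.Prime 2) := ⟨Nat.prime_two⟩
    have hfin : Finite ↥(M24p o p) := inferInstance
    obtain ⟨t, ht⟩ := exists_prime_orderOf_dvd_card' (G := ↥(M24p o p)) 2
      (by rw [card_M ho hp]; norm_num)
    have htN : t ∈ N := by rw [hN]; trivial
    have htp : ((t : ↥M24) : Equiv.Perm GolayPt) p = p := (mem_M24p.mp t.2).2
    have hord : orderOf ((t : ↥M24) : Equiv.Perm GolayPt) = 2 := by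
      rw [Subgroup.orderOf_coe, Subgroup.orderOf_coe, ht]
    set F := Finset.univ.filter fun q : GolayPt => ((t : ↥M24) : Equiv.Perm GolayPt) q = q with hF
    have hfix : ∀ u ∈ U24 o, (u : Equiv.Perm GolayPt) p ∈ F := by
      intro u hu
      have h1 : (t : ↥M24) * u * (t : ↥M24)⁻¹ = u := htN u hu
      have h2 : (t : ↥M24) * u = u * (t : ↥M24) := by
        calc (t : ↥M24) * u = ((t : ↥M24) * u * (t : ↥M24)⁻¹) * (t : ↥M24) := by group
          _ = u * (t : ↥M24) := by rw [h1]
      have h3 := congrArg (fun f : ↥M24 => (f : Equiv.Perm GolayPt) p) h2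
      simp only [Subgroup.coe_mul, Equiv.Perm.mul_apply] at h3
      rw [htp] at h3
      exact Finset.mem_filter.mpr ⟨Finset.mem_univ _, h3⟩
    have hinj : Function.Injective
        (fun u : ↥(U24 o) => (⟨((u : ↥M24) : Equiv.Perm GolayPt) p, hfix u.1 u.2⟩ : {q // q ∈ F})) := by
      intro u u' huu
      have h1 : ((u : ↥M24) : Equiv.Perm GolayPt) p = ((u' : ↥M24) : Equiv.Perm GolayPt) p :=
        congrArg Subtype.val huu
      have hU : (u : ↥M24)⁻¹ * (u' : ↥M24) ∈ U24 o := (U24 o).mul_mem ((U24 o).inv_mem u.2) u'.2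
      have hM : (u : ↥M24)⁻¹ * (u' : ↥M24) ∈ M24p o p := by
        rw [mem_M24p]
        refine ⟨?_, ?_⟩
        · have hx := mem_U24.mp hU
          ext y
          rw [Finset.mem_smul_finset]
          constructor
          · rintro ⟨x, hx1, hx2⟩
            have : (((u : ↥M24)⁻¹ * (u' : ↥M24) : ↥M24) : Equiv.Perm GolayPt) x = y := hx2
            rw [hx x hx1] at this
            rw [← this]; exact hx1
          · intro hy
            exact ⟨y, hy, hx y hy⟩
        · rw [Subgroup.coe_mul, Subgroup.coe_inv, Equiv.Perm.mul_apply, ← h1,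
            Equiv.Perm.inv_eq_iff_eq]
      have h2 : (u : ↥M24)⁻¹ * (u' : ↥M24) ∈ U24 o ⊓ M24p o p := ⟨hU, hM⟩
      rw [inf ho hp, Subgroup.mem_bot, inv_mul_eq_one] at h2
      exact Subtype.ext h2
    have hcard : 16 ≤ F.card := by
      have h1 := Nat.card_le_card_of_injective _ hinj
      rw [card_U ho, Nat.card_eq_fintype_card, Fintype.card_coe] at h1
      exact h1
    rcases Cfsg.Agent.S5394.result.1 _ (t : ↥M24).2 hord with h8 | h0
    · have : F.card = 8 := h8.2
      omega
    · exact h0 p htp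

end Cfsg.Agent.Lib.H12XM24c
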