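import Cfsg.Agent.Lib.H12XSetup

set_option autoImplicit false

/-! PROJECT 5423, piece `MatsB` (PURE MATHLIB): identities between `tv w`, `dg A`, from their action on vectors. -/

namespace Cfsg.Agent.Lib.H12XMatsB

open Matrix Cfsg.Agent.Lib.H12XDefs Cfsg.Agent.Lib.H12XSetup

variable {n : ℕ} {tv : V n → GLn (n + 1)} {dg : GLn n →* GLn (n + 1)}

/-- KEY: two elements of `GLn (n+1)` with the same action on all `Fin.cons x v` are equal. -/
theorem ext_cons {g g' : GLn (n + 1)}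
    (h : ∀ (x : ZMod 2) (v : V n), (g : Matrix (Fin (n + 1)) (Fin (n + 1)) (ZMod 2)) *ᵥ (Fin.cons x v : Fin (n + 1) → ZMod 2)
      = (g' : Matrix (Fin (n + 1)) (Fin (n + 1)) (ZMod 2)) *ᵥ (Fin.cons x v : Fin (n + 1) → ZMod 2)) : g = g' := by
  apply Units.ext
  apply Matrix.ext_of_mulVec_single
  intro j
  have := h ((Pi.single j 1 : Fin (n + 1) → ZMod 2) 0) (Fin.tail (Pi.single j 1 : Fin (n + 1) → ZMod 2))
  rwa [Fin.cons_self_tail] at this

theorem tv_add (h : Mats n tv dg) (w w' : V n) : tv (w + w') = tv w * tv w' := by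
  apply ext_cons
  intro x v
  rw [Units.val_mul, ← Matrix.mulVec_mulVec, h.tv_mulVec, h.tv_mulVec, h.tv_mulVec, add_dotProduct]
  congr 1
  ring

theorem dg_inv_mulVec (h : Mats n tv dg) (A : GLn n) (x : ZMod 2) (v : V n) :
    (((dg A)⁻¹ : GLn (n + 1)) : Matrix (Fin (n + 1)) (Fin (n + 1)) (ZMod 2)) *ᵥ (Fin.cons x v : Fin (n + 1) → ZMod 2)
      = Fin.cons x (((A⁻¹ : GLn n) : Matrix (Fin n) (Fin n) (ZMod 2)) *ᵥ v) := by
  rw [← map_inv, h.dg_mulVec]

/-- `w' = (A⁻¹)ᵀ *ᵥ w`. -/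
theorem dg_conj_tv (h : Mats n tv dg) (A : GLn n) (w : V n) : ∃ w' : V n, dg A * tv w * (dg A)⁻¹ = tv w' := by
  refine ⟨w ᵥ* ((A⁻¹ : GLn n) : Matrix (Fin n) (Fin n) (ZMod 2)), ?_⟩
  apply ext_cons
  intro x v
  rw [Units.val_mul, Units.val_mul, ← Matrix.mulVec_mulVec, ← Matrix.mulVec_mulVec, dg_inv_mulVec h,
    h.tv_mulVec, h.dg_mulVec, h.tv_mulVec, Matrix.mulVec_mulVec, ← Units.val_mul, mul_inv_cancel,
    Units.val_one, Matrix.one_mulVec, Matrix.dotProduct_mulVec]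

/-- apply to `(0, v)`: `(w ⬝ᵥ A v, A v) = (0, v)` for all `v`. -/
theorem tv_dg_eq_one (h : Mats n tv dg) (w : V n) (A : GLn n) (hw : tv w * dg A = 1) : w = 0 ∧ A = 1 := by
  have key : ∀ v : V n, (Fin.cons (0 + w ⬝ᵥ ((A : Matrix (Fin n) (Fin n) (ZMod 2)) *ᵥ v))
      ((A : Matrix (Fin n) (Fin n) (ZMod 2)) *ᵥ v) : Fin (n + 1) → ZMod 2) = Fin.cons 0 v := by
    intro v
    have h1 : ((tv w * dg A : GLn (n + 1)) : Matrix (Fin (n + 1)) (Fin (n + 1)) (ZMod 2)) *ᵥ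
        (Fin.cons 0 v : Fin (n + 1) → ZMod 2) = Fin.cons 0 v := by
      rw [hw, Units.val_one, Matrix.one_mulVec]
    rw [Units.val_mul, ← Matrix.mulVec_mulVec, h.dg_mulVec, h.tv_mulVec] at h1
    exact h1
  have hA : ∀ v : V n, (A : Matrix (Fin n) (Fin n) (ZMod 2)) *ᵥ v = v := by
    intro v
    have := congrArg Fin.tail (key v)
    simpa using this
  have hA1 : A = 1 := by
    apply Units.ext
    apply Matrix.ext_of_mulVec_single
    intro j
    rw [hA, Units.val_one, Matrix.one_mulVec]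
  refine ⟨?_, hA1⟩
  funext j
  have := congrFun (key (Pi.single j 1)) 0
  rw [hA] at this
  simpa using this

end Cfsg.Agent.Lib.H12XMatsB
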