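import Cfsg.Agent.Lib.H12XDefs

set_option autoImplicit false

/-! PROJECT 5423, piece `Mem`: normal form of the elements of `Q0` and `E0`. -/

namespace Cfsg.Agent.Lib.H12XMem

open Matrix Cfsg.Agent.Lib.H12XDefs

variable {X : Type*} [Group X] {n : ℕ} {z : X} {a b : V n → X} {k : GLn n →* X}

theorem a_zero (h : Cfg n z a b k) : a 0 = 1 := by
  have := h.a_add 0 0
  rw [add_zero] at this
  exact (mul_eq_left.mp this.symm)

theorem b_zero (h : Cfg n z a b k) : b 0 = 1 := by
  have := h.b_add 0 0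
  rw [add_zero] at this
  exact (mul_eq_left.mp this.symm)

theorem v_add_self (v : V n) : v + v = 0 := by
  funext i
  exact CharTwo.add_self_eq_zero (v i)

theorem a_inv (h : Cfg n z a b k) (v : V n) : (a v)⁻¹ = a v := by
  rw [inv_eq_iff_mul_eq_one, ← h.a_add, v_add_self, a_zero h]

theorem b_inv (h : Cfg n z a b k) (v : V n) : (b v)⁻¹ = b v := by
  rw [inv_eq_iff_mul_eq_one, ← h.b_add, v_add_self, b_zero h]

theorem zmod2_cases : ∀ e : ZMod 2, e = 0 ∨ e = 1 := by decide

theorem z_pow_add (h : Cfg n z a b k) (e e' : ZMod 2) :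
    z ^ e.val * z ^ e'.val = z ^ (e + e').val := by
  have h11 : (1 : ZMod 2) + 1 = 0 := by decide
  rcases zmod2_cases e with rfl | rfl <;> rcases zmod2_cases e' with rfl | rfl <;>
    simp [ZMod.val_one, h.z_sq, h11]

theorem z_pow_inv (h : Cfg n z a b k) (e : ZMod 2) : (z ^ e.val)⁻¹ = z ^ e.val := by
  rw [inv_eq_iff_mul_eq_one, z_pow_add h, CharTwo.add_self_eq_zero]
  simp

theorem z_pow_a (h : Cfg n z a b k) (i : ℕ) (v : V n) : z ^ i * a v = a v * z ^ i :=
  (Commute.pow_left (show Commute z (a v) from h.za v) i)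

theorem z_pow_b (h : Cfg n z a b k) (i : ℕ) (v : V n) : z ^ i * b v = b v * z ^ i :=
  (Commute.pow_left (show Commute z (b v) from h.zb v) i)

theorem nf_mul (h : Cfg n z a b k) (e e' : ZMod 2) (v w v' w' : V n) :
    (z ^ e.val * a v * b w) * (z ^ e'.val * a v' * b w') =
      z ^ (e + e' + v' ⬝ᵥ w).val * a (v + v') * b (w + w') := by
  rw [← z_pow_add h, ← z_pow_add h, h.a_add, h.b_add]
  have e1 : b w * a v' = a v' * b w * z ^ (v' ⬝ᵥ w).val := h.ba v' w
  calc (z ^ e.val * a v * b w) * (z ^ e'.val * a v' * b w')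
      = z ^ e.val * a v * (b w * z ^ e'.val) * a v' * b w' := by group
    _ = z ^ e.val * a v * (z ^ e'.val * b w) * a v' * b w' := by rw [z_pow_b h]
    _ = z ^ e.val * (a v * z ^ e'.val) * (b w * a v') * b w' := by group
    _ = z ^ e.val * (z ^ e'.val * a v) * (a v' * b w * z ^ (v' ⬝ᵥ w).val) * b w' := by
        rw [z_pow_a h, e1]
    _ = z ^ e.val * z ^ e'.val * a v * a v' * (b w * z ^ (v' ⬝ᵥ w).val) * b w' := by group
    _ = z ^ e.val * z ^ e'.val * a v * (a v' * z ^ (v' ⬝ᵥ w).val) * b w * b w' := by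
        rw [← z_pow_b h]; group
    _ = z ^ e.val * z ^ e'.val * (a v * z ^ (v' ⬝ᵥ w).val) * a v' * b w * b w' := by
        rw [← z_pow_a h]; group
    _ = z ^ e.val * z ^ e'.val * z ^ (v' ⬝ᵥ w).val * (a v * a v') * (b w * b w') := by
        rw [← z_pow_a h]; group

theorem nf_inv (h : Cfg n z a b k) (e : ZMod 2) (v w : V n) :
    (z ^ e.val * a v * b w)⁻¹ = z ^ (e + v ⬝ᵥ w).val * a v * b w := by
  rw [inv_eq_iff_mul_eq_one, nf_mul h, v_add_self, v_add_self, a_zero h, b_zero h]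
  have : e + (e + v ⬝ᵥ w) + v ⬝ᵥ w = 0 := by
    have h1 := CharTwo.add_self_eq_zero e
    have h2 := CharTwo.add_self_eq_zero (v ⬝ᵥ w)
    calc e + (e + v ⬝ᵥ w) + v ⬝ᵥ w = (e + e) + (v ⬝ᵥ w + v ⬝ᵥ w) := by ring
      _ = 0 := by rw [h1, h2, add_zero]
  rw [this]
  simp

/-- SKETCH. (⇐) generators. (⇒) `Subgroup.closure_induction`: the set `{z^e a(v) b(w)}` contains the generators
(`a 0 = 1 = b 0` from `a_add`, `b_add`), `1`, is closed under products:
`z^e a v b w * z^e' a v' b w' = z^(e+e'+ v'·w) a (v+v') b (w+w')` (`ba`, `za`, `zb`, `z_sq`; handle the exponents by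
`fin_cases`/`decide`-style case distinction on the elements of `ZMod 2`) and under inverses
(`(a v)⁻¹ = a v` since `a (v+v) = a 0`, as `v + v = 0` in char 2: `CharTwo.add_self_eq_zero`). -/
theorem mem_Q0 (h : Cfg n z a b k) {x : X} :
    x ∈ Q0 z a b ↔ ∃ (e : ZMod 2) (v w : V n), x = z ^ e.val * a v * b w := by
  constructor
  · intro hx
    unfold Q0 at hx
    induction hx using Subgroup.closure_induction with
    | mem x hx =>
      rcases hx with (hx | ⟨v, rfl⟩) | ⟨w, rfl⟩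
      · rw [Set.mem_singleton_iff] at hx
        subst hx
        exact ⟨1, 0, 0, by simp [ZMod.val_one, a_zero h, b_zero h]⟩
      · exact ⟨0, v, 0, by simp [b_zero h]⟩
      · exact ⟨0, 0, w, by simp [a_zero h]⟩
    | one => exact ⟨0, 0, 0, by simp [a_zero h, b_zero h]⟩
    | mul x y _ _ hx hy =>
      obtain ⟨e, v, w, rfl⟩ := hx
      obtain ⟨e', v', w', rfl⟩ := hy
      exact ⟨_, _, _, nf_mul h e e' v w v' w'⟩
    | inv x _ hx =>
      obtain ⟨e, v, w, rfl⟩ := hx
      exact ⟨_, _, _, nf_inv h e v w⟩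
  · rintro ⟨e, v, w, rfl⟩
    unfold Q0
    refine Subgroup.mul_mem _ (Subgroup.mul_mem _ (Subgroup.pow_mem _ ?_ _) ?_) ?_
    · exact Subgroup.subset_closure (Or.inl (Or.inl rfl))
    · exact Subgroup.subset_closure (Or.inl (Or.inr ⟨v, rfl⟩))
    · exact Subgroup.subset_closure (Or.inr ⟨w, rfl⟩)

/-- SKETCH: same as `mem_Q0`, easier. -/
theorem mem_E0 (h : Cfg n z a b k) {x : X} :
    x ∈ E0 z a ↔ ∃ (e : ZMod 2) (v : V n), x = z ^ e.val * a v := by
  constructor
  · intro hx
    unfold E0 at hx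
    induction hx using Subgroup.closure_induction with
    | mem x hx =>
      rcases hx with hx | ⟨v, rfl⟩
      · rw [Set.mem_singleton_iff] at hx
        subst hx
        exact ⟨1, 0, by simp [ZMod.val_one, a_zero h]⟩
      · exact ⟨0, v, by simp⟩
    | one => exact ⟨0, 0, by simp [a_zero h]⟩
    | mul x y _ _ hx hy =>
      obtain ⟨e, v, rfl⟩ := hx
      obtain ⟨e', v', rfl⟩ := hy
      refine ⟨e + e', v + v', ?_⟩
      have := nf_mul h e e' v 0 v' 0
      simpa [b_zero h] using this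
    | inv x _ hx =>
      obtain ⟨e, v, rfl⟩ := hx
      refine ⟨e, v, ?_⟩
      have := nf_inv h e v 0
      simpa [b_zero h] using this
  · rintro ⟨e, v, rfl⟩
    unfold E0
    refine Subgroup.mul_mem _ (Subgroup.pow_mem _ ?_ _) ?_
    · exact Subgroup.subset_closure (Or.inl rfl)
    · exact Subgroup.subset_closure (Or.inr ⟨v, rfl⟩)

end Cfsg.Agent.Lib.H12XMem
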