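import Cfsg.Agent.Lib.H12XDefs

set_option autoImplicit false

/-! PROJECT 5423: the subgroups `U = [[1, r],[0, 1]]`, `M = [[1, 0],[0, A]]` of `SL_{n+2}(2)` (blocks `1 + (n+1)`). -/

namespace Cfsg.Agent.Lib.H12XSLDefs

open Matrix Cfsg.Agent.Lib.H12XDefs

/-- `SL_{n+2}(2)` -/
abbrev SLx (n : ℕ) := Matrix.SpecialLinearGroup (Fin (n + 2)) (ZMod 2)

/-- stabilizer of a column vector -/
def stabCol {N : ℕ} (x : Fin N → ZMod 2) : Subgroup (Matrix.SpecialLinearGroup (Fin N) (ZMod 2)) where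
  carrier := {g | (g : Matrix (Fin N) (Fin N) (ZMod 2)) *ᵥ x = x}
  mul_mem' := by
    intro g h hg hh
    simp only [Set.mem_setOf_eq] at hg hh ⊢
    rw [Matrix.SpecialLinearGroup.coe_mul, ← Matrix.mulVec_mulVec, hh, hg]
  one_mem' := by simp
  inv_mem' := by
    intro g hg
    simp only [Set.mem_setOf_eq] at hg ⊢
    have h1 : ((g⁻¹ * g : Matrix.SpecialLinearGroup (Fin N) (ZMod 2)) : Matrix (Fin N) (Fin N) (ZMod 2)) *ᵥ x = x := by
      simp
    rw [Matrix.SpecialLinearGroup.coe_mul, ← Matrix.mulVec_mulVec, hg] at h1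
    exact h1

/-- stabilizer of a row vector -/
def stabRow {N : ℕ} (y : Fin N → ZMod 2) : Subgroup (Matrix.SpecialLinearGroup (Fin N) (ZMod 2)) where
  carrier := {g | y ᵥ* (g : Matrix (Fin N) (Fin N) (ZMod 2)) = y}
  mul_mem' := by
    intro g h hg hh
    simp only [Set.mem_setOf_eq] at hg hh ⊢
    rw [Matrix.SpecialLinearGroup.coe_mul, ← Matrix.vecMul_vecMul, hg, hh]
  one_mem' := by simp
  inv_mem' := by
    intro g hg
    simp only [Set.mem_setOf_eq] at hg ⊢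
    have h1 : y ᵥ* ((g * g⁻¹ : Matrix.SpecialLinearGroup (Fin N) (ZMod 2)) : Matrix (Fin N) (Fin N) (ZMod 2)) = y := by
      simp
    rw [Matrix.SpecialLinearGroup.coe_mul, ← Matrix.vecMul_vecMul, hg] at h1
    exact h1

theorem mem_stabCol {N : ℕ} {x : Fin N → ZMod 2} {g : Matrix.SpecialLinearGroup (Fin N) (ZMod 2)} :
    g ∈ stabCol x ↔ (g : Matrix (Fin N) (Fin N) (ZMod 2)) *ᵥ x = x := Iff.rfl

theorem mem_stabRow {N : ℕ} {y : Fin N → ZMod 2} {g : Matrix.SpecialLinearGroup (Fin N) (ZMod 2)} :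
    g ∈ stabRow y ↔ y ᵥ* (g : Matrix (Fin N) (Fin N) (ZMod 2)) = y := Iff.rfl

/-- column 0 is `e₀`, row `i` is `e_i` for `i ≠ 0`. -/
def USL (n : ℕ) : Subgroup (SLx n) :=
  stabCol (Pi.single 0 1) ⊓ ⨅ i : Fin (n + 1), stabRow (Pi.single i.succ 1)

/-- column 0 is `e₀`, row 0 is `e₀`. -/
def MSL (n : ℕ) : Subgroup (SLx n) :=
  stabCol (Pi.single 0 1) ⊓ stabRow (Pi.single 0 1)

end Cfsg.Agent.Lib.H12XSLDefs
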