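import Cfsg.Agent.Lib.H12XSLDefs

set_option autoImplicit false

/-! PROJECT 5423, piece `SLa` (PURE MATHLIB): entrywise description of `USL`, `MSL`; `z ∈ USL`. -/

namespace Cfsg.Agent.Lib.H12XSLa

open Matrix Cfsg.Agent.Lib.H12XDefs Cfsg.Agent.Lib.H12XSLDefs

theorem mem_stabCol_single {N : ℕ} {g : Matrix.SpecialLinearGroup (Fin N) (ZMod 2)} (k : Fin N) :
    g ∈ stabCol (Pi.single k 1) ↔ ∀ i, g.1 i k = if i = k then 1 else 0 := by
  rw [mem_stabCol, Matrix.mulVec_single_one, funext_iff]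
  refine forall_congr' fun i => ?_
  rw [Pi.single_apply]
  rfl

theorem mem_stabRow_single {N : ℕ} {g : Matrix.SpecialLinearGroup (Fin N) (ZMod 2)} (k : Fin N) :
    g ∈ stabRow (Pi.single k 1) ↔ ∀ j, g.1 k j = if j = k then 1 else 0 := by
  rw [mem_stabRow, Matrix.single_one_vecMul, funext_iff]
  refine forall_congr' fun i => ?_
  rw [Pi.single_apply]
  rfl

/-- `Matrix.mulVec_single_one` (column), `Matrix.single_one_vecMul` (row); `Subgroup.mem_inf`, `Subgroup.mem_iInf`, `mem_stabCol`, `mem_stabRow`,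
`funext_iff`, `Pi.single_apply`. -/
theorem mem_USL {n : ℕ} {g : SLx n} : g ∈ USL n ↔
    (∀ i, g.1 i 0 = if i = 0 then 1 else 0) ∧ ∀ (i : Fin (n + 1)) (j : Fin (n + 2)), g.1 i.succ j = if j = i.succ then 1 else 0 := by
  unfold USL
  rw [Subgroup.mem_inf, Subgroup.mem_iInf, mem_stabCol_single]
  refine and_congr Iff.rfl (forall_congr' fun i => ?_)
  rw [mem_stabRow_single]

theorem mem_MSL {n : ℕ} {g : SLx n} : g ∈ MSL n ↔
    (∀ i, g.1 i 0 = if i = 0 then 1 else 0) ∧ ∀ j, g.1 0 j = if j = 0 then 1 else 0 := by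
  unfold MSL
  rw [Subgroup.mem_inf, mem_stabCol_single, mem_stabRow_single]

theorem z_mem {n : ℕ} (z : SLx n) (hz : (z : Matrix (Fin (n + 2)) (Fin (n + 2)) (ZMod 2)) = Matrix.transvection 0 1 1) :
    z ∈ USL n := by
  have hz' : z.1 = Matrix.transvection 0 1 1 := hz
  rw [mem_USL, hz']
  constructor
  · intro i
    simp [Matrix.transvection, Matrix.one_apply, Matrix.single_apply]
  · intro i j
    have h0 : (0 : Fin (n + 2)) ≠ i.succ := (Fin.succ_ne_zero i).symm
    simp [Matrix.transvection, Matrix.one_apply, Matrix.single_apply, h0, eq_comm]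

theorem z_ne_one {n : ℕ} (z : SLx n) (hz : (z : Matrix (Fin (n + 2)) (Fin (n + 2)) (ZMod 2)) = Matrix.transvection 0 1 1) :
    z ≠ 1 := by
  rintro rfl
  have h1 := congrFun (congrFun hz 0) 1
  simp [Matrix.transvection, Matrix.one_apply, Matrix.single_apply] at h1

end Cfsg.Agent.Lib.H12XSLa
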