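import Cfsg.Agent.Lib.H12XSLa

set_option autoImplicit false

/-! PROJECT 5423, piece `SLb` (PURE MATHLIB): `USL n` is elementary abelian of order `2^(n+1)`, parametrized by its row 0. -/

namespace Cfsg.Agent.Lib.H12XSLb

open Matrix Cfsg.Agent.Lib.H12XDefs Cfsg.Agent.Lib.H12XSLDefs Cfsg.Agent.Lib.H12XSLa

/-- the matrix with row 0 equal to `(1, r)` and the other rows those of the identity -/
def rowMat {n : ℕ} (r : V (n + 1)) : Matrix (Fin (n + 2)) (Fin (n + 2)) (ZMod 2) :=
  Matrix.of (fun i j => if i = 0 then (Fin.cons 1 r : Fin (n + 2) → ZMod 2) j else if j = i then 1 else 0)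

theorem det_rowMat {n : ℕ} (r : V (n + 1)) : (rowMat r).det = 1 := by
  rw [Matrix.det_of_isUpperTriangular]
  · apply Finset.prod_eq_one
    intro i _
    by_cases hi : i = 0
    · subst hi; simp [rowMat]
    · simp [rowMat, hi]
  · intro i j hij
    have hij' : j < i := hij
    have hi : i ≠ 0 := by
      intro h; rw [h] at hij'; exact absurd hij' (Fin.not_lt_zero j)
    simp [rowMat, hi, hij'.ne]

/-- the matrix `Matrix.of (Fin.cons (Fin.cons 1 r) (fun i => Pi.single i.succ 1))` is upper triangular with 1 on the diagonal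
(`Matrix.det_of_upperTriangular`), or: it is `1 + ` a matrix with only row 0, expand; or product of transvections. -/
theorem exists_row {n : ℕ} (r : V (n + 1)) : ∃ u ∈ USL n, ∀ j : Fin (n + 1), u.1 0 j.succ = r j := by
  obtain ⟨u, hu⟩ : ∃ u : SLx n, u.1 = rowMat r := ⟨⟨rowMat r, det_rowMat r⟩, rfl⟩
  refine ⟨u, ?_, ?_⟩
  · rw [mem_USL, hu]
    constructor
    · intro i
      by_cases hi : i = 0
      · subst hi; simp [rowMat]
      · simp [rowMat, hi, Ne.symm hi]
    · intro i j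
      simp [rowMat, Fin.succ_ne_zero]
  · intro j
    rw [hu]
    simp [rowMat]

theorem ext_row {n : ℕ} {u u' : SLx n} (hu : u ∈ USL n) (hu' : u' ∈ USL n)
    (h : ∀ j : Fin (n + 1), u.1 0 j.succ = u'.1 0 j.succ) : u = u' := by
  rw [mem_USL] at hu hu'
  apply Subtype.ext
  ext i j
  refine Fin.cases ?_ (fun i' => ?_) i
  · refine Fin.cases ?_ (fun j' => ?_) j
    · rw [hu.1 0, hu'.1 0]
    · exact h j'
  · rw [hu.2 i' j, hu'.2 i' j]

/-- `(u u')_{0,j+1} = Σ_l u_{0l} u'_{l,j+1} = u'_{0,j+1} + u_{0,j+1}` (`Fin.sum_univ_succ`, `mem_USL`). -/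
theorem row_mul {n : ℕ} {u u' : SLx n} (hu : u ∈ USL n) (hu' : u' ∈ USL n) (j : Fin (n + 1)) :
    (u * u').1 0 j.succ = u.1 0 j.succ + u'.1 0 j.succ := by
  rw [mem_USL] at hu hu'
  have e : (u * u').1 = u.1 * u'.1 := rfl
  rw [e, Matrix.mul_apply, Fin.sum_univ_succ, hu.1 0, if_pos rfl, one_mul, add_comm]
  congr 1
  rw [Finset.sum_eq_single j]
  · rw [hu'.2 j j.succ, if_pos rfl, mul_one]
  · intro b _ hb
    rw [hu'.2 b j.succ, if_neg, mul_zero]
    intro hh
    exact hb (Fin.succ_injective _ hh).symm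
  · intro hh
    exact absurd (Finset.mem_univ j) hh

/-- from `ext_row`, `row_mul` (`add_comm`; `x + x = 0` in `ZMod 2`). -/
theorem elem (n : ℕ) : Cfsg.IsElementaryAbelian 2 (USL n) := by
  constructor
  · refine ⟨⟨fun a b => ?_⟩⟩
    apply Subtype.ext
    apply ext_row ((USL n).mul_mem a.2 b.2) ((USL n).mul_mem b.2 a.2)
    intro j
    show ((a : SLx n) * (b : SLx n)).1 0 j.succ = ((b : SLx n) * (a : SLx n)).1 0 j.succ
    rw [row_mul a.2 b.2, row_mul b.2 a.2, add_comm]
  · intro a ha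
    rw [pow_two]
    apply ext_row ((USL n).mul_mem ha ha) (USL n).one_mem
    intro j
    rw [row_mul ha ha, CharTwo.add_self_eq_zero]
    have : (1 : SLx n).1 = 1 := rfl
    rw [this, Matrix.one_apply_ne (Fin.succ_ne_zero j).symm]

/-- bijection `USL n ≃ V (n+1)` from `exists_row`, `ext_row`; `Nat.card_congr`, `Nat.card_fun`/`card_pi`, `ZMod.card`. -/
theorem card (n : ℕ) : Nat.card ↥(USL n) = 2 ^ (n + 1) := by
  have hbij : Function.Bijective (fun u : USL n => (fun j : Fin (n + 1) => (u : SLx n).1 0 j.succ : V (n + 1))) := by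
    constructor
    · intro a b h
      exact Subtype.ext (ext_row a.2 b.2 (fun j => congrFun h j))
    · intro r
      obtain ⟨u, hu, hr⟩ := exists_row r
      exact ⟨⟨u, hu⟩, funext hr⟩
  rw [Nat.card_congr (Equiv.ofBijective _ hbij)]
  simp [Nat.card_eq_fintype_card]

end Cfsg.Agent.Lib.H12XSLb
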