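import Cfsg.Agent.Lib.H12XSLb

set_option autoImplicit false

/-! PROJECT 5423, piece `SLc` (PURE MATHLIB): `MSL` normalizes `USL`, meets it trivially and acts faithfully. -/

namespace Cfsg.Agent.Lib.H12XSLc

open Matrix Cfsg.Agent.Lib.H12XDefs Cfsg.Agent.Lib.H12XSLDefs Cfsg.Agent.Lib.H12XSLa Cfsg.Agent.Lib.H12XSLb

/-- KEY FORMULA: for `m ∈ MSL n`, `u ∈ USL n`: row 0 of `m u` is row 0 of `u`; row 0 of `u' m` is `(1, r' A)`.
So if `m u = u' m` with `u' ∈ USL` then `u_{0,j+1} = Σ_i u'_{0,i+1} m_{i+1,j+1}`. -/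
theorem row_conj {n : ℕ} {m u : SLx n} (hm : m ∈ MSL n) (hu : u ∈ USL n) (j : Fin (n + 1)) :
    u.1 0 j.succ = ∑ i : Fin (n + 1), (m * u * m⁻¹).1 0 i.succ * m.1 i.succ j.succ := by
  have hmm := mem_MSL.mp hm
  have e : (m * u * m⁻¹) * m = m * u := by group
  have e1 : ((m * u * m⁻¹) * m).1 0 j.succ = (m * u).1 0 j.succ := by rw [e]
  have l1 : ((m * u * m⁻¹) * m).1 0 j.succ =
      ∑ i : Fin (n + 1), (m * u * m⁻¹).1 0 i.succ * m.1 i.succ j.succ := by
    show (((m * u * m⁻¹) * m : SLx n) : Matrix (Fin (n + 2)) (Fin (n + 2)) (ZMod 2)) 0 j.succ = _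
    rw [Matrix.SpecialLinearGroup.coe_mul, Matrix.mul_apply, Fin.sum_univ_succ]
    have : (m : Matrix (Fin (n + 2)) (Fin (n + 2)) (ZMod 2)) 0 j.succ = 0 := by
      have := hmm.2 j.succ
      rw [if_neg (Fin.succ_ne_zero j)] at this
      exact this
    rw [this, mul_zero, zero_add]
  have l2 : (m * u).1 0 j.succ = u.1 0 j.succ := by
    show ((m * u : SLx n) : Matrix (Fin (n + 2)) (Fin (n + 2)) (ZMod 2)) 0 j.succ = _
    rw [Matrix.SpecialLinearGroup.coe_mul, Matrix.mul_apply, Fin.sum_univ_succ]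
    have h0 : (m : Matrix (Fin (n + 2)) (Fin (n + 2)) (ZMod 2)) 0 0 = 1 := by
      have := hmm.2 0
      rw [if_pos rfl] at this
      exact this
    have hs : ∑ i : Fin (n + 1), (m : Matrix (Fin (n + 2)) (Fin (n + 2)) (ZMod 2)) 0 i.succ *
        (u : Matrix (Fin (n + 2)) (Fin (n + 2)) (ZMod 2)) i.succ j.succ = 0 := by
      apply Finset.sum_eq_zero
      intro i _
      have := hmm.2 i.succ
      rw [if_neg (Fin.succ_ne_zero i)] at this
      have h' : (m : Matrix (Fin (n + 2)) (Fin (n + 2)) (ZMod 2)) 0 i.succ = 0 := this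
      rw [h', zero_mul]
    rw [h0, one_mul, hs, add_zero]
  rw [← l2, ← e1, l1]

/-- SKETCH (stabilizer definitions). Column: `m u m⁻¹ e₀ = e₀` since all three are in `stabCol e₀`. Row `i+1`: `e_{i+1} ᵥ* m` = row `i+1` of
`m` = `y` with `y 0 = 0`; every `y` with `y 0 = 0` satisfies `y ᵥ* u = y` (`y = Σ y_{l+1} e_{l+1}`, or entrywise with `mem_USL`);
so `e_{i+1} ᵥ* (m u m⁻¹) = (e_{i+1} ᵥ* m) ᵥ* m⁻¹ = e_{i+1}`. -/
theorem norm {n : ℕ} (m : SLx n) (hm : m ∈ MSL n) (u : SLx n) (hu : u ∈ USL n) : m * u * m⁻¹ ∈ USL n := by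
  have hmC : m ∈ stabCol (Pi.single 0 1) := hm.1
  have huC : u ∈ stabCol (Pi.single 0 1) := hu.1
  have hmm := mem_MSL.mp hm
  have huu := mem_USL.mp hu
  refine Subgroup.mem_inf.mpr ⟨(stabCol _).mul_mem ((stabCol _).mul_mem hmC huC)
    ((stabCol _).inv_mem hmC), Subgroup.mem_iInf.mpr fun i => ?_⟩
  rw [mem_stabRow, Matrix.SpecialLinearGroup.coe_mul, Matrix.SpecialLinearGroup.coe_mul,
    ← Matrix.vecMul_vecMul, ← Matrix.vecMul_vecMul]
  -- the row `y` of `m`
  have hy : ∀ y : Fin (n + 2) → ZMod 2, y 0 = 0 →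
      y ᵥ* (u : Matrix (Fin (n + 2)) (Fin (n + 2)) (ZMod 2)) = y := by
    intro y hy0
    funext j
    rw [Matrix.vecMul, dotProduct, Fin.sum_univ_succ, hy0, zero_mul, zero_add]
    have : ∀ l : Fin (n + 1), y l.succ * (u : Matrix (Fin (n + 2)) (Fin (n + 2)) (ZMod 2)) l.succ j =
        if j = l.succ then y j else 0 := by
      intro l
      have h1 : (u : Matrix (Fin (n + 2)) (Fin (n + 2)) (ZMod 2)) l.succ j =
          if j = l.succ then 1 else 0 := huu.2 l j
      rw [h1]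
      by_cases hj : j = l.succ
      · rw [if_pos hj, if_pos hj, mul_one, hj]
      · rw [if_neg hj, if_neg hj, mul_zero]
    rw [Finset.sum_congr rfl (fun l _ => this l)]
    refine Fin.cases ?_ (fun j' => ?_) j
    · rw [hy0]
      apply Finset.sum_eq_zero
      intro l _
      rw [if_neg (Fin.succ_ne_zero l).symm]
    · rw [Finset.sum_eq_single j']
      · rw [if_pos rfl]
      · intro b _ hb
        rw [if_neg]
        intro h
        exact hb (Fin.succ_injective _ h).symm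
      · intro h
        exact absurd (Finset.mem_univ _) h
  have h0 : (Pi.single i.succ 1 ᵥ* (m : Matrix (Fin (n + 2)) (Fin (n + 2)) (ZMod 2))) 0 = 0 := by
    rw [Matrix.single_one_vecMul]
    have := hmm.1 i.succ
    rw [if_neg (Fin.succ_ne_zero i)] at this
    exact this
  rw [hy _ h0, Matrix.vecMul_vecMul, ← Matrix.SpecialLinearGroup.coe_mul, mul_inv_cancel,
    Matrix.SpecialLinearGroup.coe_one, Matrix.vecMul_one]

theorem inf (n : ℕ) : USL n ⊓ MSL n = ⊥ := by
  rw [Subgroup.eq_bot_iff_forall]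
  intro g hg
  have h1 := mem_USL.mp hg.1
  have h2 := mem_MSL.mp hg.2
  apply Subtype.ext
  ext i j
  show g.1 i j = (1 : Matrix (Fin (n + 2)) (Fin (n + 2)) (ZMod 2)) i j
  rw [Matrix.one_apply]
  refine Fin.cases ?_ (fun i' => ?_) i
  · rw [h2.2 j]
    by_cases hj : j = 0
    · rw [if_pos hj, if_pos hj.symm]
    · rw [if_neg hj, if_neg (fun h => hj h.symm)]
  · rw [h1.2 i' j]
    by_cases hj : j = i'.succ
    · rw [if_pos hj, if_pos hj.symm]
    · rw [if_neg hj, if_neg (fun h => hj h.symm)]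

/-- `row_conj` with `m u m⁻¹ = u` and `u` = the element with row `Pi.single i 1` (`exists_row`) gives `m_{i+1,j+1} = δ_{ij}`; with `mem_MSL`, `m = 1`. -/
theorem faith {n : ℕ} (m : SLx n) (hm : m ∈ MSL n) (h : ∀ u ∈ USL n, m * u * m⁻¹ = u) : m = 1 := by
  have hmm := mem_MSL.mp hm
  have key : ∀ i j : Fin (n + 1), m.1 i.succ j.succ = if i = j then 1 else 0 := by
    intro i j
    obtain ⟨u, hu, hur⟩ := exists_row (n := n) (Pi.single i 1)
    have h1 := row_conj hm hu j
    rw [h u hu] at h1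
    rw [hur j] at h1
    have h2 : ∑ l : Fin (n + 1), u.1 0 l.succ * m.1 l.succ j.succ = m.1 i.succ j.succ := by
      rw [Finset.sum_eq_single i]
      · rw [hur i, Pi.single_eq_same, one_mul]
      · intro b _ hb
        rw [hur b, Pi.single_eq_of_ne hb, zero_mul]
      · intro h'
        exact absurd (Finset.mem_univ _) h'
    rw [h2] at h1
    rw [← h1, Pi.single_apply]
    by_cases hij : i = j
    · rw [if_pos hij, if_pos hij.symm]
    · rw [if_neg hij, if_neg (fun h' => hij h'.symm)]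
  apply Subtype.ext
  ext i j
  show m.1 i j = (1 : Matrix (Fin (n + 2)) (Fin (n + 2)) (ZMod 2)) i j
  rw [Matrix.one_apply]
  refine Fin.cases ?_ (fun i' => ?_) i
  · rw [hmm.2 j]
    by_cases hj : j = 0
    · rw [if_pos hj, if_pos hj.symm]
    · rw [if_neg hj, if_neg (fun h => hj h.symm)]
  · refine Fin.cases ?_ (fun j' => ?_) j
    · rw [hmm.1 i'.succ]
    · rw [key i' j']
      by_cases hij : i' = j'
      · rw [if_pos hij, if_pos (by rw [hij])]
      · rw [if_neg hij, if_neg (fun h' => hij (Fin.succ_injective _ h'))]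

end Cfsg.Agent.Lib.H12XSLc
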