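import Cfsg.Agent.Lib.H12XSLa

set_option autoImplicit false

/-! PROJECT 5423, piece `SLd` (PURE MATHLIB): the centralizer of the transvection lies in `USL ⊔ MSL`. -/

namespace Cfsg.Agent.Lib.H12XSLd

open Matrix Cfsg.Agent.Lib.H12XDefs Cfsg.Agent.Lib.H12XSLDefs Cfsg.Agent.Lib.H12XSLa

/-- `c (1 + E₀₁) = (1 + E₀₁) c` ⇒ `c E₀₁ = E₀₁ c`; entry `(i,1)`: `c_{i0} = δ_{i0} c_{11}`. So column 0 of `c` is `c₁₁ e₀`, and `c₁₁ ≠ 0`
(otherwise a zero column, `Matrix.det_eq_zero_of_column_eq_zero`, but `det c = 1`), so `c₁₁ = 1` in `ZMod 2`. -/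
theorem col_zero {n : ℕ} (z : SLx n) (hz : (z : Matrix (Fin (n + 2)) (Fin (n + 2)) (ZMod 2)) = Matrix.transvection 0 1 1)
    (c : SLx n) (hc : c * z = z * c) : c ∈ stabCol (Pi.single 0 1) := by
  have hc' : c.1 * Matrix.transvection 0 1 1 = Matrix.transvection 0 1 1 * c.1 := by
    have := congrArg Subtype.val hc
    rw [Matrix.SpecialLinearGroup.coe_mul, Matrix.SpecialLinearGroup.coe_mul] at this
    rw [← hz]
    exact this
  have hE : c.1 * Matrix.single 0 1 (1 : ZMod 2) = Matrix.single 0 1 (1 : ZMod 2) * c.1 := by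
    unfold Matrix.transvection at hc'
    rw [mul_add, add_mul, mul_one, one_mul] at hc'
    exact add_left_cancel hc'
  have hcol : ∀ i, c.1 i 0 = if i = 0 then c.1 1 1 else 0 := by
    intro i
    have h1 := congrFun (congrFun hE i) 1
    rw [Matrix.mul_single_apply_same, mul_one] at h1
    rw [h1]
    by_cases hi : i = 0
    · subst hi
      rw [Matrix.single_mul_apply_same, one_mul, if_pos rfl]
    · rw [Matrix.single_mul_apply_of_ne _ _ _ _ _ hi, if_neg hi]
  have h11 : c.1 1 1 = 1 := by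
    by_contra hne
    have h0 : c.1 1 1 = 0 := by
      have key : ∀ a : ZMod 2, a ≠ 1 → a = 0 := by decide
      exact key _ hne
    have hdet : c.1.det = 0 := by
      apply Matrix.det_eq_zero_of_column_eq_zero 0
      intro i
      rw [hcol i, h0]
      split <;> rfl
    rw [c.2] at hdet
    exact one_ne_zero hdet
  rw [mem_stabCol, Matrix.mulVec_single_one]
  funext i
  show c.1 i 0 = _
  rw [hcol i, h11, Pi.single_apply]

/-- SKETCH. Let `m₀ = c.1.updateRow 0 (Pi.single 0 1)`. `det m₀ = det c = 1`: `c.1 = m₀.updateRow 0 (single 0 1 + y)` with `y = c 0 - single 0 1`,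
`y 0 = 0`; `Matrix.det_updateRow_add`; the matrix with row 0 replaced by `y` has zero column 0, so det 0.
So `m = ⟨m₀, _⟩ ∈ MSL n` (column 0 is still `e₀`). Put `u = c * m⁻¹`. `u ∈ stabCol e₀`. For `i ≥ 1` the rows `i` of `c` and `m` agree:
`e_i ᵥ* c = e_i ᵥ* m`, so `e_i ᵥ* (c m⁻¹) = e_i`. Hence `u ∈ USL n` and `c = u * m ∈ USL ⊔ MSL` (`Subgroup.mul_mem_sup`). -/
theorem mem_sup {n : ℕ} (c : SLx n) (hc : c ∈ stabCol (Pi.single 0 1)) : c ∈ USL n ⊔ MSL n := by
  have hcol : ∀ i, c.1 i 0 = if i = 0 then 1 else 0 := by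
    intro i
    rw [mem_stabCol, Matrix.mulVec_single_one] at hc
    have := congrFun hc i
    rw [Pi.single_apply] at this
    exact this
  set m₀ : Matrix (Fin (n + 2)) (Fin (n + 2)) (ZMod 2) := c.1.updateRow 0 (Pi.single 0 1) with hm₀
  have hdet : m₀.det = 1 := by
    have h1 : c.1 = c.1.updateRow 0 (Pi.single 0 1 + (c.1 0 - Pi.single 0 1)) := by
      rw [add_sub_cancel, Matrix.updateRow_eq_self]
    have h2 := c.2
    rw [h1, Matrix.det_updateRow_add] at h2
    have h3 : (c.1.updateRow 0 (c.1 0 - Pi.single 0 1)).det = 0 := by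
      apply Matrix.det_eq_zero_of_column_eq_zero 0
      intro i
      by_cases hi : i = 0
      · subst hi
        rw [Matrix.updateRow_self, Pi.sub_apply, hcol 0, Pi.single_eq_same, if_pos rfl, sub_self]
      · rw [Matrix.updateRow_ne hi, hcol i, if_neg hi]
    rw [h3, add_zero] at h2
    exact h2
  let m : SLx n := ⟨m₀, hdet⟩
  have hmM : m ∈ MSL n := by
    rw [mem_MSL]
    refine ⟨fun i => ?_, fun j => ?_⟩
    · show m₀ i 0 = _
      by_cases hi : i = 0
      · subst hi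
        rw [hm₀, Matrix.updateRow_self, Pi.single_eq_same, if_pos rfl]
      · rw [hm₀, Matrix.updateRow_ne hi, hcol i]
    · show m₀ 0 j = _
      rw [hm₀, Matrix.updateRow_self, Pi.single_apply]
  have hmC : m ∈ stabCol (Pi.single 0 1) := hmM.1
  have huU : c * m⁻¹ ∈ USL n := by
    refine Subgroup.mem_inf.mpr ⟨(stabCol _).mul_mem hc ((stabCol _).inv_mem hmC),
      Subgroup.mem_iInf.mpr fun i => ?_⟩
    rw [mem_stabRow, Matrix.SpecialLinearGroup.coe_mul, ← Matrix.vecMul_vecMul]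
    have h1 : Pi.single i.succ 1 ᵥ* (c : Matrix (Fin (n + 2)) (Fin (n + 2)) (ZMod 2)) =
        Pi.single i.succ 1 ᵥ* (m : Matrix (Fin (n + 2)) (Fin (n + 2)) (ZMod 2)) := by
      rw [Matrix.single_one_vecMul, Matrix.single_one_vecMul]
      funext j
      show c.1 i.succ j = m₀ i.succ j
      rw [hm₀, Matrix.updateRow_ne (Fin.succ_ne_zero i)]
    rw [h1, Matrix.vecMul_vecMul, ← Matrix.SpecialLinearGroup.coe_mul, mul_inv_cancel,
      Matrix.SpecialLinearGroup.coe_one, Matrix.vecMul_one]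
  have : c = c * m⁻¹ * m := by group
  rw [this]
  exact Subgroup.mul_mem_sup huU hmM

end Cfsg.Agent.Lib.H12XSLd
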