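import Cfsg.Agent.Lib.H12XSLa

set_option autoImplicit false

/-! PROJECT 5423, piece `SLe` (PURE MATHLIB): every `A ∈ GL_{n+1}(2)` is the lower right block of an element of `MSL n`. -/

namespace Cfsg.Agent.Lib.H12XSLe

open Matrix Cfsg.Agent.Lib.H12XDefs Cfsg.Agent.Lib.H12XSLDefs Cfsg.Agent.Lib.H12XSLa

/-- the block matrix `diag(1, A)` -/
def blk {n : ℕ} (A : Matrix (Fin (n + 1)) (Fin (n + 1)) (ZMod 2)) :
    Matrix (Fin (n + 2)) (Fin (n + 2)) (ZMod 2) :=
  Matrix.of (Fin.cons (Pi.single 0 1) (fun i => Fin.cons 0 (A i)))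

theorem blk_zero {n : ℕ} (A : Matrix (Fin (n + 1)) (Fin (n + 1)) (ZMod 2)) (j : Fin (n + 2)) :
    blk A 0 j = if j = 0 then 1 else 0 := by
  simp [blk, Pi.single_apply]

theorem blk_succ_zero {n : ℕ} (A : Matrix (Fin (n + 1)) (Fin (n + 1)) (ZMod 2)) (i : Fin (n + 1)) :
    blk A i.succ 0 = 0 := by
  simp [blk]

theorem blk_succ_succ {n : ℕ} (A : Matrix (Fin (n + 1)) (Fin (n + 1)) (ZMod 2)) (i j : Fin (n + 1)) :
    blk A i.succ j.succ = A i j := by
  simp [blk]

theorem det_blk {n : ℕ} (A : Matrix (Fin (n + 1)) (Fin (n + 1)) (ZMod 2)) : (blk A).det = A.det := by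
  rw [Matrix.det_succ_row_zero, Fin.sum_univ_succ]
  have h1 : (blk A).submatrix Fin.succ (Fin.succAbove 0) = A := by
    ext i j
    simp [blk_succ_succ]
  rw [h1, blk_zero, if_pos rfl]
  rw [Finset.sum_eq_zero]
  · simp
  · intro j _
    rw [blk_zero, if_neg (Fin.succ_ne_zero j)]
    simp

/-- `m₀ = Matrix.of (Fin.cons (Pi.single 0 1) (fun i => Fin.cons 0 (A.1 i)))`; `det m₀ = det A` (`Matrix.det_succ_row_zero` or
`det_succ_column_zero`: only one nonzero term; the minor is `A`), and `det A = 1` because it is a unit of `ZMod 2`. -/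
theorem exists_block {n : ℕ} (A : GLn (n + 1)) : ∃ m ∈ MSL n, ∀ i j : Fin (n + 1), m.1 i.succ j.succ = A.1 i j := by
  have h1 : Matrix.GeneralLinearGroup.det A = 1 := Subsingleton.elim _ _
  have h2 : (A : Matrix (Fin (n + 1)) (Fin (n + 1)) (ZMod 2)).det = 1 := by
    have := congrArg Units.val h1
    simpa using this
  obtain ⟨m, hm⟩ : ∃ m : SLx n, m.1 = blk A.1 := ⟨⟨blk A.1, by rw [det_blk]; exact h2⟩, rfl⟩
  refine ⟨m, ?_, ?_⟩
  · rw [mem_MSL, hm]
    constructor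
    · intro i
      refine Fin.cases ?_ (fun i' => ?_) i
      · rw [blk_zero]
      · rw [blk_succ_zero, if_neg (Fin.succ_ne_zero i')]
    · intro j
      exact blk_zero _ j
  · intro i j
    rw [hm, blk_succ_succ]

end Cfsg.Agent.Lib.H12XSLe
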