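import Cfsg.Agent.Lib.H12XSLc
import Cfsg.Agent.Lib.H12XSLe

set_option autoImplicit false

/-! PROJECT 5423, piece `SLf` (PURE MATHLIB): `MSL n` induces every automorphism of `USL n`. -/

namespace Cfsg.Agent.Lib.H12XSLf

open Matrix Cfsg.Agent.Lib.H12XDefs Cfsg.Agent.Lib.H12XSLDefs Cfsg.Agent.Lib.H12XSLa Cfsg.Agent.Lib.H12XSLb
  Cfsg.Agent.Lib.H12XSLc Cfsg.Agent.Lib.H12XSLe

theorem full {n : ℕ} (φ : ↥(USL n) ≃* ↥(USL n)) :
    ∃ m ∈ MSL n, ∀ u : ↥(USL n), ((φ u : ↥(USL n)) : SLx n) = m * u * m⁻¹ := by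
  classical
  let ρ : ↥(USL n) → V (n + 1) := fun u j => (u : SLx n).1 0 j.succ
  have hσ : ∀ r : V (n + 1), ∃ u : ↥(USL n), ρ u = r := by
    intro r
    obtain ⟨u, hu, hur⟩ := exists_row r
    exact ⟨⟨u, hu⟩, funext hur⟩
  choose σ hσ using hσ
  have hρinj : ∀ u u' : ↥(USL n), ρ u = ρ u' → u = u' := fun u u' h =>
    Subtype.ext (ext_row u.2 u'.2 (congrFun h))
  have hρmul : ∀ u u' : ↥(USL n), ρ (u * u') = ρ u + ρ u' := fun u u' =>
    funext fun j => row_mul u.2 u'.2 j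
  have hσρ : ∀ u, σ (ρ u) = u := fun u => hρinj _ _ (hσ _)
  have hσadd : ∀ r r', σ (r + r') = σ r * σ r' := fun r r' =>
    hρinj _ _ (by rw [hσ, hρmul, hσ, hσ])
  let f : V (n + 1) →+ V (n + 1) := AddMonoidHom.mk' (fun r => ρ (φ.symm (σ r))) (by
    intro r r'
    rw [hσadd, map_mul, hρmul])
  let fL : V (n + 1) →ₗ[ZMod 2] V (n + 1) := AddMonoidHom.toZModLinearMap 2 f
  have hfL : ∀ r, fL r = ρ (φ.symm (σ r)) := fun r => rfl
  have hinj : Function.Injective fL := by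
    intro r r' h
    rw [hfL, hfL] at h
    have h1 := φ.symm.injective (hρinj _ _ h)
    have h2 := congrArg ρ h1
    rwa [hσ, hσ] at h2
  have hunit : IsUnit (LinearMap.toMatrix' fL) := by
    rw [← Matrix.mulVec_injective_iff_isUnit]
    intro r r' h
    apply hinj
    have h1 : LinearMap.toMatrix' fL *ᵥ r = LinearMap.toMatrix' fL *ᵥ r' := h
    rwa [LinearMap.toMatrix'_mulVec, LinearMap.toMatrix'_mulVec] at h1
  have hunitT : IsUnit (LinearMap.toMatrix' fL)ᵀ := by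
    rw [Matrix.isUnit_iff_isUnit_det, Matrix.det_transpose, ← Matrix.isUnit_iff_isUnit_det]
    exact hunit
  obtain ⟨m, hm, hmA⟩ := exists_block (hunitT.unit : GLn (n + 1))
  refine ⟨m, hm, fun u => ?_⟩
  have hmem : m * (u : SLx n) * m⁻¹ ∈ USL n := norm m hm u u.2
  have h1 : ρ u = fL (ρ ⟨m * (u : SLx n) * m⁻¹, hmem⟩) := by
    rw [← LinearMap.toMatrix'_mulVec, ← Matrix.vecMul_transpose]
    funext j
    have h2 := row_conj hm u.2 j
    show (u : SLx n).1 0 j.succ = _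
    rw [h2]
    simp only [Matrix.vecMul, dotProduct]
    refine Finset.sum_congr rfl fun i _ => ?_
    rw [hmA]
    rfl
  rw [hfL, hσρ] at h1
  have h3 := hρinj _ _ h1
  have h4 : φ u = ⟨m * (u : SLx n) * m⁻¹, hmem⟩ := by
    have h5 := congrArg φ h3
    rwa [MulEquiv.apply_symm_apply] at h5
  rw [h4]

end Cfsg.Agent.Lib.H12XSLf
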