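import Cfsg.Agent.Lib.H12XDefs

set_option autoImplicit false

/-! PROJECT 5423: definitions for the passage `Agl → Cfg` (coordinates on `U`, `M ≅ GL_{n+1}(2)`). -/

namespace Cfsg.Agent.Lib.H12XSetup

open Matrix Cfsg.Agent.Lib.H12XDefs

/-- `tv w = [[1, w],[0, 1]]`, `dg A = [[1, 0],[0, A]]` in `GL_{n+1}(2)`, described by their action on column vectors
`Fin.cons x v`; every matrix fixing `e₀` is `tv w * dg A`. -/
structure Mats (n : ℕ) (tv : V n → GLn (n + 1)) (dg : GLn n →* GLn (n + 1)) : Prop where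
  tv_mulVec : ∀ (w : V n) (x : ZMod 2) (v : V n),
    (tv w : Matrix (Fin (n + 1)) (Fin (n + 1)) (ZMod 2)) *ᵥ (Fin.cons x v : Fin (n + 1) → ZMod 2)
      = Fin.cons (x + w ⬝ᵥ v) v
  dg_mulVec : ∀ (A : GLn n) (x : ZMod 2) (v : V n),
    (dg A : Matrix (Fin (n + 1)) (Fin (n + 1)) (ZMod 2)) *ᵥ (Fin.cons x v : Fin (n + 1) → ZMod 2)
      = Fin.cons x ((A : Matrix (Fin n) (Fin n) (ZMod 2)) *ᵥ v)
  decomp : ∀ g : GLn (n + 1),
    (g : Matrix (Fin (n + 1)) (Fin (n + 1)) (ZMod 2)) *ᵥ (Pi.single 0 1) = Pi.single 0 1 →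
      ∃ (w : V n) (A : GLn n), g = tv w * dg A

/-- All the data used to build a `Cfg` from an `Agl`. -/
structure Setup {X : Type*} [Group X] (n : ℕ) (U M : Subgroup X) (z : X)
    (e : ↥U ≃* Multiplicative (Fin (n + 1) → ZMod 2)) (μ : GLn (n + 1) →* X)
    (tv : V n → GLn (n + 1)) (dg : GLn n →* GLn (n + 1)) : Prop where
  agl : Agl n U M z
  ez : ((e.symm (Multiplicative.ofAdd (Pi.single 0 1)) : ↥U) : X) = z
  muM : ∀ g, μ g ∈ M
  act : ∀ (g : GLn (n + 1)) (x : Fin (n + 1) → ZMod 2),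
    μ g * ((e.symm (Multiplicative.ofAdd x) : ↥U) : X) * (μ g)⁻¹
      = ((e.symm (Multiplicative.ofAdd ((g : Matrix (Fin (n + 1)) (Fin (n + 1)) (ZMod 2)) *ᵥ x)) : ↥U) : X)
  inj : Function.Injective μ
  surj : ∀ m ∈ M, ∃ g, μ g = m
  mats : Mats n tv dg

/-- `a v` = the element of `U` with coordinates `(0, v)`. -/
def aS {X : Type*} [Group X] {n : ℕ} {U : Subgroup X}
    (e : ↥U ≃* Multiplicative (Fin (n + 1) → ZMod 2)) (v : V n) : X :=
  ((e.symm (Multiplicative.ofAdd (Fin.cons 0 v : Fin (n + 1) → ZMod 2)) : ↥U) : X)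

/-- `b w = μ (tv w)`. -/
def bS {X : Type*} [Group X] {n : ℕ} (μ : GLn (n + 1) →* X) (tv : V n → GLn (n + 1)) (w : V n) : X :=
  μ (tv w)

/-- `k = μ ∘ dg`. -/
def kS {X : Type*} [Group X] {n : ℕ} (μ : GLn (n + 1) →* X) (dg : GLn n →* GLn (n + 1)) : GLn n →* X :=
  μ.comp dg

end Cfsg.Agent.Lib.H12XSetup
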