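import Mathlib
import Cfsg.Agent.Lib.Helper86Sub
import Cfsg.Agent.Lib.Helper89Fusion2
import Cfsg.Agent.Lib.Helper88Normal
import Cfsg.Agent.Lib.Helper87Invariant
import Cfsg.Agent.Lib.Helper86TateF
import Cfsg.Agent.Lib.Helper86PPowerN
import Cfsg.Agent.Lib.Helper86ResLim
import Cfsg.Agent.Lib.Helper87PPower

set_option autoImplicit false

/-! Vocabulary of project 5113 (row S5113, part II = saturation), see notes/helper89/S5113.md. -/

namespace Cfsg.Agent.Lib.H12ZDefs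

open Cfsg Cfsg.FusionSystem Cfsg.Agent.Lib.Helper87Fusion

variable {Ω : Type*} [Group Ω] {S : Subgroup Ω} {G A : Type*} [Group G] [CommGroup A]

/-- `g ∈ G` induces the map `f` on `P ≤ S` (through `ι : S →* G`). -/
def Ind (ι : S →* G) (P : Subgroup Ω) (f : Ω → Ω) (g : G) : Prop :=
  ∀ x : S, (x : Ω) ∈ P → ∃ hx : f x ∈ S, ι ⟨f x, hx⟩ = g * ι x * g⁻¹

/-- The conclusion of the realization lemma together with the standing hypotheses of the index-`p` case. -/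
structure RL (p : ℕ) (F : FusionSystem S) (T : Subgroup Ω) (ι : S →* G) (Λ : G →* A) : Prop where
  hS : IsPGroup p S
  hF : F.IsSaturated p
  hTS : T ≤ S
  hTn : ∀ s ∈ S, ∀ t ∈ T, s * t * s⁻¹ ∈ T
  hidx : Nat.card S = p * Nat.card T
  hT : F.hyperfocalSubgroup p ≤ T
  inj : Function.Injective ι
  cardA : Nat.card A = p
  a1 : ∀ (P : Subgroup Ω) (f : Ω → Ω), IsMap F P f → ∃ g : G, Ind ι P f g
  a2 : ∀ (P : Subgroup Ω) (f : Ω → Ω) (g : G), P ≤ S → Ind ι P f g → IsMap F P f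
  b : ∀ s : S, Λ (ι s) = 1 ↔ (s : Ω) ∈ T
  c : ∀ P : Subgroup Ω, P ≤ T → (∀ P' : Subgroup Ω, F.IsConj P P' → centralizerIn S P' ≤ T) →
    ∀ ζ : G, (∀ x : S, (x : Ω) ∈ P → ζ * ι x = ι x * ζ) → Λ ζ = 1

/-- the maps of the subsystem `E₁ = F_T(ker Λ)`. -/
def M (ι : S →* G) (Λ : G →* A) (T : Subgroup Ω) (P : Subgroup Ω) (f : Ω → Ω) : Prop :=
  P ≤ T ∧ (∀ x ∈ P, f x ∈ T) ∧ ∃ g : G, Λ g = 1 ∧ Ind ι P f g

end Cfsg.Agent.Lib.H12ZDefs
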