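import Mathlib
import Cfsg.Agent.Lib.H12ZDefs

set_option autoImplicit false

namespace Cfsg.Agent.Lib.H12ZAdj

open Cfsg Cfsg.FusionSystem Cfsg.Agent.Lib.Helper87Fusion Cfsg.Agent.Lib.H12ZDefs

variable {Ω : Type*} [Group Ω] {S T : Subgroup Ω} {G A : Type*} [Group G] [CommGroup A]
  {p : ℕ} {F : FusionSystem S} {ι : S →* G} {Λ : G →* A}

/-- (ADJ). -/
theorem adj [Fact p.Prime] (h : RL p F T ι Λ) {c : Ω} (hc : c ∈ S) (hcT : c ∉ T) (g : G) :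
    ∃ j : ℕ, Λ (ι ⟨c, hc⟩ ^ j * g) = 1 := by
  have hp : p.Prime := Fact.out
  have ha : Λ (ι ⟨c, hc⟩) ≠ 1 := by
    intro h1
    exact hcT ((h.b ⟨c, hc⟩).1 h1)
  have hfin : Finite A := Nat.finite_of_card_ne_zero (by rw [h.cardA]; exact hp.ne_zero)
  have hmem : (Λ g)⁻¹ ∈ Subgroup.zpowers (Λ (ι ⟨c, hc⟩)) :=
    mem_zpowers_of_prime_card h.cardA ha
  rw [← mem_powers_iff_mem_zpowers] at hmem
  obtain ⟨j, hj⟩ := hmem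
  refine ⟨j, ?_⟩
  have hj' : Λ (ι ⟨c, hc⟩) ^ j = (Λ g)⁻¹ := hj
  rw [map_mul, map_pow, hj', inv_mul_cancel]

/-- `S = T ⟨c⟩`. -/
theorem adjS [Fact p.Prime] (h : RL p F T ι Λ) {c : Ω} (hc : c ∈ S) (hcT : c ∉ T) {s : Ω}
    (hs : s ∈ S) : ∃ j : ℕ, c ^ j * s ∈ T := by
  obtain ⟨j, hj⟩ := adj h hc hcT (ι ⟨s, hs⟩)
  refine ⟨j, ?_⟩
  rw [← map_pow, ← map_mul, h.b] at hj
  exact hj

end Cfsg.Agent.Lib.H12ZAdj
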