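import Mathlib
import Cfsg.Agent.Lib.H12ZDefs

set_option autoImplicit false

namespace Cfsg.Agent.Lib.H12ZL0

open Cfsg Cfsg.FusionSystem Cfsg.Agent.Lib.Helper87Fusion Cfsg.Agent.Lib.H12ZDefs

variable {Ω : Type*} [Group Ω] {S T : Subgroup Ω} {G A : Type*} [Group G] [CommGroup A]
  {p : ℕ} {F : FusionSystem S} {ι : S →* G} {Λ : G →* A}

/-- PURE GROUP THEORY: `T ⊴ S` of index `p` (prime), so `S/T` is cyclic, hence abelian. -/
theorem comm_mem [Finite S] [Fact p.Prime] (hTS : T ≤ S) (hTn : ∀ s ∈ S, ∀ t ∈ T, s * t * s⁻¹ ∈ T)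
    (hidx : Nat.card S = p * Nat.card T) {x s : Ω} (hx : x ∈ S) (hs : s ∈ S) :
    x⁻¹ * (s * x * s⁻¹) ∈ T := by
  have hN : (T.subgroupOf S).Normal := by
    constructor
    intro t ht g
    rw [Subgroup.mem_subgroupOf] at ht ⊢
    exact hTn g g.2 t ht
  have hfinT : Finite T := Finite.of_injective (Subgroup.inclusion hTS) (Subgroup.inclusion_injective hTS)
  have hcT : Nat.card (T.subgroupOf S) = Nat.card T :=
    Nat.card_congr (Subgroup.subgroupOfEquivOfLe hTS).toEquiv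
  have hidx' : (T.subgroupOf S).index = p := by
    have h1 := Subgroup.card_mul_index (T.subgroupOf S)
    rw [hcT, hidx, mul_comm] at h1
    exact Nat.eq_of_mul_eq_mul_right Nat.card_pos h1
  have hcard : Nat.card (↥S ⧸ T.subgroupOf S) = p := by rw [← Subgroup.index_eq_card, hidx']
  have hcyc : IsCyclic (↥S ⧸ T.subgroupOf S) := isCyclic_of_prime_card hcard
  have key : (⟨x, hx⟩ : S)⁻¹ * (⟨s, hs⟩ * ⟨x, hx⟩ * (⟨s, hs⟩ : S)⁻¹) ∈ T.subgroupOf S := by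
    rw [← QuotientGroup.eq_one_iff]
    have hab : ((⟨s, hs⟩ : S) : ↥S ⧸ T.subgroupOf S) * ((⟨x, hx⟩ : S) : ↥S ⧸ T.subgroupOf S)
        = ((⟨x, hx⟩ : S) : ↥S ⧸ T.subgroupOf S) * ((⟨s, hs⟩ : S) : ↥S ⧸ T.subgroupOf S) :=
      IsCyclic.commGroup.mul_comm _ _
    rw [QuotientGroup.mk_mul, QuotientGroup.mk_mul, QuotientGroup.mk_mul, hab, QuotientGroup.mk_inv,
      QuotientGroup.mk_inv]
    group
  exact key

/-- (L0). -/
theorem l0 [Finite S] [Fact p.Prime] (h : RL p F T ι Λ) {P : Subgroup Ω} {f : Ω → Ω} (hf : IsMap F P f)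
    {x : Ω} (hx : x ∈ P) : x⁻¹ * f x ∈ T := by
  obtain ⟨s, hs, hsu⟩ := Cfsg.Agent.Lib.Helper86TateF.inner_mod_hyp h.hS F h.hF hf
  have h1 := h.hT (hsu x hx)
  have h2 := comm_mem h.hTS h.hTn h.hidx (hf.le hx) hs
  have h3 : x⁻¹ * f x = (x⁻¹ * (s * x * s⁻¹)) * ((s * x * s⁻¹)⁻¹ * f x) := by group
  rw [h3]
  exact T.mul_mem h2 h1

theorem mem_iff [Finite S] [Fact p.Prime] (h : RL p F T ι Λ) {P : Subgroup Ω} {f : Ω → Ω}
    (hf : IsMap F P f) {x : Ω} (hx : x ∈ P) : f x ∈ T ↔ x ∈ T := by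
  have h1 := l0 h hf hx
  constructor
  · intro h2
    have h3 : x = f x * (x⁻¹ * f x)⁻¹ := by group
    rw [h3]
    exact T.mul_mem h2 (T.inv_mem h1)
  · intro h2
    have h3 : f x = x * (x⁻¹ * f x) := by group
    rw [h3]
    exact T.mul_mem h2 h1

end Cfsg.Agent.Lib.H12ZL0
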