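import Mathlib
import Cfsg.Agent.Lib.H12ZDefs
import Cfsg.Agent.Lib.H12ZL0

set_option autoImplicit false

namespace Cfsg.Agent.Lib.H12ZCen

open Cfsg Cfsg.FusionSystem Cfsg.Agent.Lib.Helper87Fusion Cfsg.Agent.Lib.H12ZDefs

variable {Ω : Type*} [Group Ω] {S T : Subgroup Ω} {G A : Type*} [Group G] [CommGroup A]
  {p : ℕ} {F : FusionSystem S} {ι : S →* G} {Λ : G →* A}

/-- (CEN). -/
theorem cen [Finite S] [Fact p.Prime] (h : RL p F T ι Λ) {P P' : Subgroup Ω}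
    (hP : F.IsFullyNormalized P) (hc : F.IsConj P P') (hP' : ¬ centralizerIn S P' ≤ T) :
    ∃ c ∈ centralizerIn S P, c ∉ T := by
  obtain ⟨-, hA, hR⟩ := Cfsg.Agent.Lib.Helper86Fusion2.saturated_fullyNormalized h.hS h.hF hP
  obtain ⟨x, hx, hxT⟩ := SetLike.not_le_iff_exists.1 hP'
  obtain ⟨f, hf, hfP, -⟩ :=
    Cfsg.Agent.Lib.Helper86Fusion.exists_normalizer_map h.hS F P P' hA hR (isConj_symm hc)
  have hxN : x ∈ normalizerIn S P' := centralizerIn_le_normalizerIn S P' hx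
  have hP'S : P' ≤ S := isConj_le_right hc
  refine ⟨f x, Cfsg.Agent.Lib.Helper86Fusion2.map_centralizerIn hf (le_normalizerIn hP'S) hfP hxN hx, ?_⟩
  intro h1
  exact hxT ((Cfsg.Agent.Lib.H12ZL0.mem_iff h hf hxN).1 h1)

end Cfsg.Agent.Lib.H12ZCen
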