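import Mathlib
import Cfsg.Agent.Lib.H12ZDefs

set_option autoImplicit false

namespace Cfsg.Agent.Lib.H12ZFnConj

open Cfsg Cfsg.FusionSystem Cfsg.Agent.Lib.Helper87Fusion Cfsg.Agent.Lib.H12ZDefs

variable {Ω : Type*} [Group Ω] {S T : Subgroup Ω} {G A : Type*} [Group G] [CommGroup A]
  {p : ℕ} {F : FusionSystem S} {ι : S →* G} {Λ : G →* A}

/-- an `S`-conjugate of a fully normalized subgroup is fully normalized. -/
theorem fn_conj [Finite S] {P' P'' : Subgroup Ω} (hP' : F.IsFullyNormalized P') {s : Ω} (hs : s ∈ S)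
    (hP'' : (fun x => s * x * s⁻¹) '' (P' : Set Ω) = (P'' : Set Ω)) : F.IsFullyNormalized P'' := by
  have hc : F.IsConj P' P'' := isConj_iff.2 ⟨_, isMap_conj F hP'.1 hs, hP''⟩
  refine ⟨isConj_le_right hc, ?_⟩
  intro Q hQ
  refine le_trans (hP'.2 Q (isConj_trans hc hQ)) ?_
  refine Cfsg.Agent.Lib.Helper86Fusion.card_le_of_isMap
    (isMap_conj F (normalizerIn_le S P') hs) (normalizerIn_le S P'') ?_
  intro x hx
  obtain ⟨hxS, hxN⟩ := mem_normalizerIn.1 hx
  have hmem : ∀ y, y ∈ P'' ↔ s⁻¹ * y * s ∈ P' := by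
    intro y
    constructor
    · intro hy
      have : y ∈ (fun x => s * x * s⁻¹) '' (P' : Set Ω) := by rw [hP'']; exact hy
      obtain ⟨z, hz, rfl⟩ := this
      have e : s⁻¹ * (s * z * s⁻¹) * s = z := by group
      rw [e]; exact hz
    · intro hy
      have : y ∈ (P'' : Set Ω) := by
        rw [← hP'']
        exact ⟨_, hy, by group⟩
      exact this
  rw [mem_normalizerIn]
  refine ⟨S.mul_mem (S.mul_mem hs hxS) (S.inv_mem hs), ?_⟩
  intro y
  rw [hmem, hmem, hxN]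
  have e : s⁻¹ * (s * x * s⁻¹ * y * (s * x * s⁻¹)⁻¹) * s = x * (s⁻¹ * y * s) * x⁻¹ := by group
  rw [e]

end Cfsg.Agent.Lib.H12ZFnConj
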