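import Mathlib
import Cfsg.Agent.Lib.H12ZDefs

set_option autoImplicit false

namespace Cfsg.Agent.Lib.H12ZInd

open Cfsg Cfsg.FusionSystem Cfsg.Agent.Lib.Helper87Fusion Cfsg.Agent.Lib.H12ZDefs

variable {Ω : Type*} [Group Ω] {S T : Subgroup Ω} {G A : Type*} [Group G] [CommGroup A]
  {p : ℕ} {F : FusionSystem S} {ι : S →* G} {Λ : G →* A}

theorem ind_congr {P : Subgroup Ω} {f f' : Ω → Ω} {g : G} (h : Ind ι P f g)
    (hff' : ∀ x ∈ P, f x = f' x) : Ind ι P f' g := by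
  intro x hx
  obtain ⟨hx', he⟩ := h x hx
  have h1 := hff' x hx
  refine ⟨h1 ▸ hx', ?_⟩
  rw [← he]
  congr 1
  exact Subtype.ext h1.symm

theorem ind_restrict {P P' : Subgroup Ω} {f : Ω → Ω} {g : G} (h : Ind ι P f g) (hP : P' ≤ P) :
    Ind ι P' f g := fun x hx => h x (hP hx)

/-- `ι ⟨s x s⁻¹, _⟩ = ι ⟨s,_⟩ * ι x * (ι ⟨s,_⟩)⁻¹` (`map_mul`, `map_inv`). -/
theorem ind_conj (P : Subgroup Ω) {s : Ω} (hs : s ∈ S) :
    Ind ι P (fun x => s * x * s⁻¹) (ι ⟨s, hs⟩) := by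
  intro x _
  refine ⟨S.mul_mem (S.mul_mem hs x.2) (S.inv_mem hs), ?_⟩
  rw [← map_inv, ← map_mul, ← map_mul]
  rfl

theorem ind_comp {P Q : Subgroup Ω} {f f' : Ω → Ω} {g g' : G} (h : Ind ι P f g)
    (h' : Ind ι Q f' g') (hfQ : ∀ x ∈ P, f x ∈ Q) : Ind ι P (fun x => f' (f x)) (g' * g) := by
  intro x hx
  obtain ⟨hx1, he1⟩ := h x hx
  obtain ⟨hx2, he2⟩ := h' ⟨f x, hx1⟩ (hfQ x hx)
  refine ⟨hx2, ?_⟩
  rw [he2, he1]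
  group

/-- for `y = f x ∈ P'`, `x ∈ P ≤ S`: `ι y = g ι x g⁻¹`, so `ι (f' y) = ι x = g⁻¹ ι y g`. -/
theorem ind_inv {P P' : Subgroup Ω} {f f' : Ω → Ω} {g : G} (hP : P ≤ S) (h : Ind ι P f g)
    (hP' : f '' (P : Set Ω) = (P' : Set Ω)) (hf' : ∀ x ∈ P, f' (f x) = x) : Ind ι P' f' g⁻¹ := by
  intro y hy
  have hy' : (y : Ω) ∈ f '' (P : Set Ω) := by rw [hP']; exact hy
  obtain ⟨x, hx, hxy⟩ := hy'
  obtain ⟨hx1, he1⟩ := h ⟨x, hP hx⟩ hx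
  have h1 : f' (y : Ω) = x := by rw [← hxy]; exact hf' x hx
  refine ⟨h1 ▸ hP hx, ?_⟩
  have h2 : (⟨f' (y : Ω), h1 ▸ hP hx⟩ : S) = ⟨x, hP hx⟩ := Subtype.ext h1
  have h3 : (⟨f x, hx1⟩ : S) = y := Subtype.ext hxy
  rw [h2, ← h3, he1]
  group

/-- two elements inducing the same map differ by an element centralising `ι P`. -/
theorem ind_comm {P : Subgroup Ω} {f : Ω → Ω} {g g' : G} (h : Ind ι P f g) (h' : Ind ι P f g') :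
    ∀ x : S, (x : Ω) ∈ P → (g⁻¹ * g') * ι x = ι x * (g⁻¹ * g') := by
  intro x hx
  obtain ⟨hx1, he1⟩ := h x hx
  obtain ⟨hx2, he2⟩ := h' x hx
  have h1 : g * ι x * g⁻¹ = g' * ι x * g'⁻¹ := by rw [← he1, ← he2]
  calc (g⁻¹ * g') * ι x = g⁻¹ * (g' * ι x * g'⁻¹) * g' := by group
    _ = g⁻¹ * (g * ι x * g⁻¹) * g' := by rw [h1]
    _ = ι x * (g⁻¹ * g') := by group

end Cfsg.Agent.Lib.H12ZInd
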