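import Mathlib
import Cfsg.Agent.Lib.H12ZDefs

set_option autoImplicit false

namespace Cfsg.Agent.Lib.H12ZMaxSub

open Cfsg Cfsg.FusionSystem Cfsg.Agent.Lib.Helper87Fusion Cfsg.Agent.Lib.H12ZDefs

variable {Ω : Type*} [Group Ω] {S T : Subgroup Ω} {G A : Type*} [Group G] [CommGroup A]
  {p : ℕ} {F : FusionSystem S} {ι : S →* G} {Λ : G →* A}

theorem exists_normal_index' {T : Type*} [Group T] [Finite T] (p : ℕ) [Fact p.Prime] (hT : IsPGroup p T)
    (S : Subgroup T) (hS : S ≠ ⊤) : ∃ M : Subgroup T, M.Normal ∧ M.index = p ∧ S ≤ M := by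
  have hp : p.Prime := Fact.out
  obtain h | ⟨M, hM, hSM⟩ := eq_top_or_exists_le_coatom S
  · exact absurd h hS
  have hnil : Group.IsNilpotent T := hT.isNilpotent
  have hN : M.Normal :=
    Subgroup.NormalizerCondition.normal_of_coatom M Group.normalizerCondition_of_isNilpotent hM
  refine ⟨M, hN, ?_, hSM⟩
  have hQ : IsPGroup p (T ⧸ M) := hT.to_quotient M
  have hnt : Nontrivial (T ⧸ M) := by
    rw [← Finite.one_lt_card_iff_nontrivial, ← Subgroup.index_eq_card]
    have h0 : M.index ≠ 0 := Subgroup.index_ne_zero_of_finite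
    have h1 : M.index ≠ 1 := by
      intro h
      exact hM.1 (Subgroup.index_eq_one.1 h)
    omega
  obtain ⟨n, hn⟩ := IsPGroup.iff_card.1 hQ
  have hn0 : n ≠ 0 := by
    rintro rfl
    rw [pow_zero] at hn
    have := Finite.one_lt_card_iff_nontrivial.2 hnt
    omega
  have hdvd : p ∣ Nat.card (T ⧸ M) := by
    rw [hn]; exact dvd_pow_self p hn0
  obtain ⟨x, hx⟩ := exists_prime_orderOf_dvd_card' p hdvd
  have hlt : M < (Subgroup.zpowers x).comap (QuotientGroup.mk' M) := by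
    refine lt_of_le_of_ne ?_ ?_
    · intro m hm
      rw [Subgroup.mem_comap]
      have : (QuotientGroup.mk' M) m = 1 := (QuotientGroup.eq_one_iff m).2 hm
      rw [this]; exact Subgroup.one_mem _
    · intro h
      obtain ⟨y, rfl⟩ := QuotientGroup.mk'_surjective M x
      have hy : y ∈ (Subgroup.zpowers ((QuotientGroup.mk' M) y)).comap (QuotientGroup.mk' M) := by
        rw [Subgroup.mem_comap]; exact Subgroup.mem_zpowers _
      rw [← h] at hy
      have h1 : (QuotientGroup.mk' M) y = 1 := (QuotientGroup.eq_one_iff y).2 hy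
      rw [h1, orderOf_one] at hx
      exact hp.one_lt.ne hx
  have htop := hM.2 _ hlt
  have hz : Subgroup.zpowers x = ⊤ := by
    rw [eq_top_iff]
    intro y _
    obtain ⟨z, rfl⟩ := QuotientGroup.mk'_surjective M y
    have : z ∈ (Subgroup.zpowers x).comap (QuotientGroup.mk' M) := by rw [htop]; trivial
    exact this
  rw [Subgroup.index_eq_card, ← hx, ← Nat.card_zpowers, hz, Subgroup.card_top]

/-- PURE GROUP THEORY. -/
theorem exists_max [Finite S] [Fact p.Prime] (hS : IsPGroup p S) (hTS : T ≤ S) (hne : T ≠ S) :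
    ∃ T₁ : Subgroup Ω, T ≤ T₁ ∧ T₁ ≤ S ∧ (∀ s ∈ S, ∀ t ∈ T₁, s * t * s⁻¹ ∈ T₁) ∧
      Nat.card S = p * Nat.card T₁ := by
  have h1 : T.subgroupOf S ≠ ⊤ := by
    intro h
    rw [Subgroup.subgroupOf_eq_top] at h
    exact hne (le_antisymm hTS h)
  obtain ⟨M, hMn, hMi, hTM⟩ := exists_normal_index' p hS (T.subgroupOf S) h1
  refine ⟨M.map S.subtype, ?_, ?_, ?_, ?_⟩
  · intro t ht
    exact ⟨⟨t, hTS ht⟩, hTM (Subgroup.mem_subgroupOf.2 ht), rfl⟩
  · rintro _ ⟨m, _, rfl⟩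
    exact m.2
  · rintro s hs _ ⟨m, hm, rfl⟩
    exact ⟨⟨s, hs⟩ * m * ⟨s, hs⟩⁻¹, hMn.conj_mem m hm ⟨s, hs⟩, rfl⟩
  · rw [Subgroup.card_map_of_injective S.subtype_injective, ← hMi, mul_comm, Subgroup.card_mul_index]

end Cfsg.Agent.Lib.H12ZMaxSub
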