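import Mathlib
import Cfsg.Agent.Lib.H12ZDefs
import Cfsg.Agent.Lib.H12ZInd
import Cfsg.Agent.Lib.Helper87Mk

set_option autoImplicit false

namespace Cfsg.Agent.Lib.H12ZMk

open Cfsg Cfsg.FusionSystem Cfsg.Agent.Lib.Helper87Fusion Cfsg.Agent.Lib.H12ZDefs
open Cfsg.Agent.Lib.H12ZInd

variable {Ω : Type*} [Group Ω] {S T : Subgroup Ω} {G A : Type*} [Group G] [CommGroup A]
  {p : ℕ} {F : FusionSystem S} {ι : S →* G} {Λ : G →* A}

theorem isMap_of_M (h : RL p F T ι Λ) {P : Subgroup Ω} {f : Ω → Ω} (hf : M ι Λ T P f) :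
    IsMap F P f := by
  obtain ⟨hP, -, g, -, hg⟩ := hf
  exact h.a2 P f g (hP.trans h.hTS) hg

/-- `Cfsg.Agent.Lib.Helper87Mk.MapData.toFusion` with `M := H12ZDefs.M ι Λ T`, and `Helper87Mk.isMap_toFusion`.
`M P f` implies `IsMap F P f` (`h.a2 P f g (hP.trans h.hTS)`), which gives the fields `inj` (`IsMap.inj`) and `hom` (`IsMap.map_mul`).
congr: `ind_congr`.  conj: `ind_conj`, `Λ (ι ⟨g,_⟩) = 1` by `(h.b _).2`, values in `T`.  comp: `ind_comp`, `map_mul`.
inv: `IsMap.inv` in `F` gives the inverse function `g'` on `P'`; `ind_inv`, `map_inv`; `P' ≤ T` and `g'` maps `P'` onto `P ≤ T`. -/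
theorem exists_E (h : RL p F T ι Λ) :
    ∃ E : FusionSystem T, ∀ (P : Subgroup Ω) (f : Ω → Ω), IsMap E P f ↔ M ι Λ T P f := by
  let D : Cfsg.Agent.Lib.Helper87Mk.MapData T :=
    { M := M ι Λ T
      congr := by
        rintro P f g ⟨hP, hfT, g₀, hg₀, hind⟩ hfg
        exact ⟨hP, fun x hx => by rw [← hfg x hx]; exact hfT x hx, g₀, hg₀, ind_congr hind hfg⟩
      le := by
        rintro P f ⟨hP, hfT, -⟩
        exact ⟨hP, hfT⟩
      inj := by
        intro P f hf x hx y hy hxy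
        exact (isMap_of_M h hf).inj hx hy hxy
      hom := by
        intro P f hf x hx y hy
        exact (isMap_of_M h hf).map_mul hx hy
      conj := by
        intro P g hP hg
        refine ⟨hP, fun x hx => T.mul_mem (T.mul_mem hg (hP hx)) (T.inv_mem hg),
          ι ⟨g, h.hTS hg⟩, (h.b _).2 hg, ind_conj P (h.hTS hg)⟩
      comp := by
        rintro P Q f g ⟨hP, hfT, g₁, hg₁, hind₁⟩ ⟨hQ, hgT, g₂, hg₂, hind₂⟩ hfQ
        refine ⟨hP, fun x hx => hgT _ (hfQ x hx), g₂ * g₁, by rw [map_mul, hg₁, hg₂, one_mul],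
          ind_comp hind₁ hind₂ hfQ⟩
      inv := by
        intro P P' f hf hP'
        have hF := isMap_of_M h hf
        obtain ⟨hP, hfT, g₁, hg₁, hind₁⟩ := hf
        obtain ⟨g', -, hg'f, -, hg'im⟩ := hF.inv hP'
        refine ⟨g', ⟨?_, ?_, g₁⁻¹, by rw [map_inv, hg₁, inv_one],
          ind_inv (hP.trans h.hTS) hind₁ hP' hg'f⟩, hg'f⟩
        · intro y hy
          obtain ⟨x, hx, rfl⟩ := IsMap.exists_of_mem_image hP' hy
          exact hfT x hx
        · intro y hy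
          exact hP (IsMap.mem_image hg'im hy) }
  exact ⟨D.toFusion, fun P f => Cfsg.Agent.Lib.Helper87Mk.isMap_toFusion D⟩

end Cfsg.Agent.Lib.H12ZMk
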