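import Mathlib
import Cfsg.Agent.Lib.H12ZDefs
import Cfsg.Agent.Lib.H12ZL0
import Cfsg.Agent.Lib.H12ZInd
import Cfsg.Agent.Lib.H12ZAdj
import Cfsg.Agent.Lib.H12ZFnConj

set_option autoImplicit false

namespace Cfsg.Agent.Lib.H12ZS1

open Cfsg Cfsg.FusionSystem Cfsg.Agent.Lib.Helper87Fusion Cfsg.Agent.Lib.H12ZDefs

variable {Ω : Type*} [Group Ω] {S T : Subgroup Ω} {G A : Type*} [Group G] [CommGroup A]
  {p : ℕ} {F : FusionSystem S} {ι : S →* G} {Λ : G →* A}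

/-- (S1).  `Helper86Fusion2.exists_fullyNormalized_conj F (hP.trans h.hTS)` gives `P'` and (`isConj_iff`) an `F`-map `f` on `P` with `f '' P = P'`;
`h.a1` gives `g` inducing `f`.  `T < S` as `Nat.card S = p * Nat.card T`: pick `s ∈ S`, `s ∉ T`; `H12ZAdj.adj` gives `j` with `Λ (ι s ^ j * g) = 1`.
`f' := fun x => s^j * f x * (s^j)⁻¹` is induced by `ι ⟨s,_⟩ ^ j * g` (`ind_comp`, `ind_conj` for `s ^ j`, `map_pow`), maps `P` into `T` (`H12ZL0.mem_iff`, `h.hTn`), so it is an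
`E`-map; its image `P''` (`IsMap.exists_image`) is the `s^j`-conjugate of `P'`, fully normalized by `H12ZFnConj.fn_conj`. -/
theorem s1 [Finite S] [Fact p.Prime] (h : RL p F T ι Λ) {E : FusionSystem T}
    (hE : ∀ (P : Subgroup Ω) (f : Ω → Ω), IsMap E P f ↔ M ι Λ T P f) {P : Subgroup Ω} (hP : P ≤ T) :
    ∃ P'' : Subgroup Ω, E.IsConj P P'' ∧ F.IsFullyNormalized P'' := by
  obtain ⟨P', hc, hfn⟩ := Cfsg.Agent.Lib.Helper86Fusion2.exists_fullyNormalized_conj F (hP.trans h.hTS)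
  obtain ⟨f, hf, hfP⟩ := isConj_iff.1 hc
  obtain ⟨g, hg⟩ := h.a1 P f hf
  have hp : p.Prime := Fact.out
  obtain ⟨s, hs, hsT⟩ : ∃ s ∈ S, s ∉ T := by
    by_contra hcon
    push Not at hcon
    have hST : S = T := le_antisymm hcon h.hTS
    have h1 := h.hidx
    have h2 : Nat.card S = Nat.card T := by rw [← hST]
    rw [h2] at h1
    have h3 : 0 < Nat.card T := by
      rw [← h2]; exact Nat.card_pos
    have h4 : p = 1 := by
      have : 1 * Nat.card T = p * Nat.card T := by rw [one_mul]; exact h1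
      exact (Nat.eq_of_mul_eq_mul_right h3 this).symm
    exact hp.one_lt.ne' h4
  obtain ⟨j, hj⟩ := Cfsg.Agent.Lib.H12ZAdj.adj h hs hsT g
  have hsj : s ^ j ∈ S := S.pow_mem hs j
  have hι : ι ⟨s ^ j, hsj⟩ = ι ⟨s, hs⟩ ^ j := by
    rw [← map_pow]
    rfl
  have hind : Ind ι P (fun x => s ^ j * f x * (s ^ j)⁻¹) (ι ⟨s, hs⟩ ^ j * g) := by
    rw [← hι]
    exact Cfsg.Agent.Lib.H12ZInd.ind_comp hg (Cfsg.Agent.Lib.H12ZInd.ind_conj P' hsj)
      (fun x hx => IsMap.mem_image hfP hx)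
  have hmap : IsMap E P (fun x => s ^ j * f x * (s ^ j)⁻¹) := by
    rw [hE]
    refine ⟨hP, fun x hx => ?_, _, hj, hind⟩
    exact h.hTn _ hsj _ ((Cfsg.Agent.Lib.H12ZL0.mem_iff h hf hx).2 (hP hx))
  obtain ⟨P'', hP''⟩ := hmap.exists_image
  refine ⟨P'', isConj_iff.2 ⟨_, hmap, hP''⟩, Cfsg.Agent.Lib.H12ZFnConj.fn_conj hfn hsj ?_⟩
  rw [← hP'', ← hfP, Set.image_image]

end Cfsg.Agent.Lib.H12ZS1
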