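import Mathlib
import Cfsg.Agent.Lib.H12ZDefs
import Cfsg.Agent.Lib.H12ZInd

set_option autoImplicit false

namespace Cfsg.Agent.Lib.H12ZS2a

open Cfsg Cfsg.FusionSystem Cfsg.Agent.Lib.Helper87Fusion Cfsg.Agent.Lib.H12ZDefs
open Cfsg.Agent.Lib.H12ZInd Cfsg.Agent.Lib.Helper87Fusion2

variable {Ω : Type*} [Group Ω] {S T : Subgroup Ω} {G A : Type*} [Group G] [CommGroup A]
  {p : ℕ} {F : FusionSystem S} {ι : S →* G} {Λ : G →* A}

/-- `E ≤ F`: `M P f → IsMap F P f` by `h.a2`. -/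
theorem sub (h : RL p F T ι Λ) {E : FusionSystem T}
    (hE : ∀ (P : Subgroup Ω) (f : Ω → Ω), IsMap E P f ↔ M ι Λ T P f) : E.IsSubsystemOf F := by
  intro P φ hφ
  obtain ⟨hP, -, g, -, hg⟩ := (hE P (tot φ)).1 (isMap_tot hφ)
  exact mem_hom_iff.2 (h.a2 P (tot φ) g (hP.trans h.hTS) hg)

/-- `Aut_E(P) ⊴ Aut_F(P)`.  `a ∈ F.autGroup P`, `ε ∈ E.autGroup P`: `totA a` is induced by some `g` (`h.a1`, `Helper87Fusion2.mem_autGroup_iff_totA`), `totA ε` by `g₀` with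
`Λ g₀ = 1`, `totA a⁻¹` by `g⁻¹` (`ind_inv`), so `a * ε * a⁻¹` is induced by `g * g₀ * g⁻¹` (`ind_comp`), and `Λ (g g₀ g⁻¹) = 1` (`A` commutative).
Use `mem_autGroup_iff_isMap E hP _ (f := fun x => totA a (totA ε (totA a⁻¹ x)))`.  (`cj a X = X.map (MulAut.conj a)`, see `Helper87Sylow`.) -/
theorem normal (h : RL p F T ι Λ) {E : FusionSystem T}
    (hE : ∀ (P : Subgroup Ω) (f : Ω → Ω), IsMap E P f ↔ M ι Λ T P f) {P : Subgroup Ω} (hP : P ≤ T) :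
    ∀ a ∈ F.autGroup P, Cfsg.Agent.Lib.Helper87Sylow.cj a (E.autGroup P) ≤ E.autGroup P := by
  intro a ha
  rintro _ ⟨ε, hε, rfl⟩
  have hPS : P ≤ S := hP.trans h.hTS
  obtain ⟨g, hg⟩ := h.a1 P _ ((mem_autGroup_iff_totA F hPS a).1 ha)
  obtain ⟨-, -, g₀, hg₀, hind₀⟩ := (hE P _).1 ((mem_autGroup_iff_totA E hP ε).1 hε)
  have hinv : Ind ι P (totA a⁻¹) g⁻¹ := by
    refine ind_inv hPS hg (totA_image a) (fun x hx => ?_)
    rw [totA_of_mem a hx, totA_apply]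
    simp
  have h1 : Ind ι P (fun x => totA ε (totA a⁻¹ x)) (g₀ * g⁻¹) :=
    ind_comp hinv hind₀ (fun x hx => totA_mem _ hx)
  have h2 : Ind ι P (fun x => totA a (totA ε (totA a⁻¹ x))) (g * (g₀ * g⁻¹)) :=
    ind_comp h1 hg (fun x hx => totA_mem _ (totA_mem _ hx))
  refine (mem_autGroup_iff_isMap E hP _ (f := fun x => totA a (totA ε (totA a⁻¹ x))) ?_).2 ?_
  · intro x
    rw [totA_apply, totA_apply, totA_apply]
    rfl
  · refine (hE P _).2 ⟨hP, fun x hx => hP (totA_mem _ (totA_mem _ (totA_mem _ hx))),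
      g * (g₀ * g⁻¹), ?_, h2⟩
    rw [map_mul, map_mul, hg₀, one_mul, map_inv, mul_inv_cancel]

end Cfsg.Agent.Lib.H12ZS2a
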