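import Mathlib
import Cfsg.Agent.Lib.H12ZDefs
import Cfsg.Agent.Lib.H12ZInd
import Cfsg.Agent.Lib.H12ZAdj
import Cfsg.Agent.Lib.H12ZCen

set_option autoImplicit false

namespace Cfsg.Agent.Lib.H12ZS2b

open Cfsg Cfsg.FusionSystem Cfsg.Agent.Lib.Helper87Fusion Cfsg.Agent.Lib.H12ZDefs

variable {Ω : Type*} [Group Ω] {S T : Subgroup Ω} {G A : Type*} [Group G] [CommGroup A]
  {p : ℕ} {F : FusionSystem S} {ι : S →* G} {Λ : G →* A}

/-- KEY of (S2).  `≥`: `autInducedBy_mono h.hTS P`, `autInducedBy_le_autGroup E hP`.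
`≤`: `α = c_s|P`, `s ∈ S` (`mem_autInducedBy_iff`), and `totA α` is an `E`-map: induced by `g₀` with `Λ g₀ = 1`; it is also induced by `ι s` (`ind_conj` + `ind_congr`).  If `s ∈ T` done.
Otherwise `ζ := (ι s)⁻¹ * g₀` centralises `ι P` (`ind_comm`) and `Λ ζ = (Λ (ι s))⁻¹ ≠ 1` (`h.b`); by `h.c` (contrapositive) some `F`-conjugate `P'` of `P` has
`¬ centralizerIn S P' ≤ T`; `H12ZCen.cen` gives `c ∈ centralizerIn S P`, `c ∉ T`; `H12ZAdj.adjS` gives `j` with `t := c ^ j * s ∈ T`; `c ^ j` centralises `P`, `s x s⁻¹ ∈ P`, so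
`t x t⁻¹ = s x s⁻¹` for `x ∈ P`, and `α ∈ autInducedBy T P`. -/
theorem inf_eq [Finite S] [Fact p.Prime] (h : RL p F T ι Λ) {E : FusionSystem T}
    (hE : ∀ (P : Subgroup Ω) (f : Ω → Ω), IsMap E P f ↔ M ι Λ T P f) {P : Subgroup Ω} (hP : P ≤ T)
    (hfn : F.IsFullyNormalized P) : autInducedBy S P ⊓ E.autGroup P = autInducedBy T P := by
  apply le_antisymm
  · intro α hα
    obtain ⟨hαS, hαE⟩ := hα
    obtain ⟨s, hs, hsα⟩ := (mem_autInducedBy_iff S P α).1 hαS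
    have hmap : IsMap E P (Cfsg.Agent.Lib.Helper87Fusion2.totA α) :=
      (Cfsg.Agent.Lib.Helper87Fusion2.mem_autGroup_iff_totA E hP α).1 hαE
    obtain ⟨-, -, g₀, hg₀, hind₀⟩ := (hE P _).1 hmap
    have hinds : Ind ι P (Cfsg.Agent.Lib.Helper87Fusion2.totA α) (ι ⟨s, hs⟩) :=
      Cfsg.Agent.Lib.H12ZInd.ind_congr (Cfsg.Agent.Lib.H12ZInd.ind_conj P hs) (fun x hx => by
        rw [Cfsg.Agent.Lib.Helper87Fusion2.totA_of_mem α hx, hsα])
    by_cases hsT : s ∈ T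
    · exact (mem_autInducedBy_iff T P α).2 ⟨s, hsT, hsα⟩
    · have hcomm := Cfsg.Agent.Lib.H12ZInd.ind_comm hinds hind₀
      have hΛ : Λ ((ι ⟨s, hs⟩)⁻¹ * g₀) ≠ 1 := by
        rw [map_mul, hg₀, mul_one, map_inv, ne_eq, inv_eq_one, h.b]
        exact hsT
      have hex : ∃ P', F.IsConj P P' ∧ ¬ centralizerIn S P' ≤ T := by
        by_contra hcon
        push Not at hcon
        exact hΛ (h.c P hP hcon _ hcomm)
      obtain ⟨P', hc, hP'⟩ := hex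
      obtain ⟨c, hc1, hcT⟩ := Cfsg.Agent.Lib.H12ZCen.cen h hfn hc hP'
      obtain ⟨hcS, hcc⟩ := mem_centralizerIn.1 hc1
      obtain ⟨j, hj⟩ := Cfsg.Agent.Lib.H12ZAdj.adjS h hcS hcT hs
      refine (mem_autInducedBy_iff T P α).2 ⟨c ^ j * s, hj, fun x => ?_⟩
      rw [hsα x]
      have hy : s * x * s⁻¹ ∈ P := by
        rw [← hsα x]; exact (α x).2
      have hcj : Commute (c ^ j) (s * x * s⁻¹) := by
        apply Commute.pow_left
        exact (hcc _ hy).symm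
      calc s * (x : Ω) * s⁻¹ = (s * x * s⁻¹) * c ^ j * (c ^ j)⁻¹ := by group
        _ = c ^ j * (s * x * s⁻¹) * (c ^ j)⁻¹ := by rw [hcj.eq]
        _ = c ^ j * s * x * (c ^ j * s)⁻¹ := by group
  · exact le_inf (autInducedBy_mono h.hTS P) (autInducedBy_le_autGroup E hP)

end Cfsg.Agent.Lib.H12ZS2b
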