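import Mathlib
import Cfsg.Agent.Lib.H12ZDefs
import Cfsg.Agent.Lib.H12ZS2a
import Cfsg.Agent.Lib.H12ZS2b

set_option autoImplicit false

namespace Cfsg.Agent.Lib.H12ZS2

open Cfsg Cfsg.FusionSystem Cfsg.Agent.Lib.Helper87Fusion Cfsg.Agent.Lib.H12ZDefs
  Cfsg.Agent.Lib.Helper87Sylow

variable {Ω : Type*} [Group Ω] {S T : Subgroup Ω} {G A : Type*} [Group G] [CommGroup A]
  {p : ℕ} {F : FusionSystem S} {ι : S →* G} {Λ : G →* A}

/-- (S2). -/
theorem s2 [Finite S] [Fact p.Prime] (h : RL p F T ι Λ) {E : FusionSystem T}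
    (hE : ∀ (P : Subgroup Ω) (f : Ω → Ω), IsMap E P f ↔ M ι Λ T P f) {P : Subgroup Ω} (hP : P ≤ T)
    (hfn : F.IsFullyNormalized P) : E.IsFullyAutomized p P := by
  have hPS : P ≤ S := hP.trans h.hTS
  have hfinP : Finite P := Finite.of_injective (Subgroup.inclusion hPS) (Subgroup.inclusion_injective hPS)
  have hfinA : Finite (MulAut P) := inferInstance
  have haut := (Cfsg.Agent.Lib.Helper86Fusion2.saturated_fullyNormalized h.hS h.hF hfn).2.1
  have hsyl : SylIn p (autInducedBy S P) (F.autGroup P) :=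
    (sylIn_iff (autInducedBy_le_autGroup F hPS)).2 haut.2
  have hY := hsyl.inf_normal
    (Cfsg.Agent.Lib.Helper87Hyperfocal.autGroup_le_of_subsystem (H12ZS2a.sub h hE) P)
    (H12ZS2a.normal h hE hP)
  rw [H12ZS2b.inf_eq h hE hP hfn] at hY
  exact ⟨hP, (sylIn_iff (autInducedBy_le_autGroup E hP)).1 hY⟩

end Cfsg.Agent.Lib.H12ZS2
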