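import Mathlib
import Cfsg.Agent.Lib.H12ZDefs
import Cfsg.Agent.Lib.H12ZL0
import Cfsg.Agent.Lib.H12ZInd
import Cfsg.Agent.Lib.H12ZAdj
import Cfsg.Agent.Lib.H12ZCen

set_option autoImplicit false

namespace Cfsg.Agent.Lib.H12ZS3

open Cfsg Cfsg.FusionSystem Cfsg.Agent.Lib.Helper87Fusion Cfsg.Agent.Lib.H12ZDefs
  Cfsg.Agent.Lib.H12ZInd

variable {Ω : Type*} [Group Ω] {S T : Subgroup Ω} {G A : Type*} [Group G] [CommGroup A]
  {p : ℕ} {F : FusionSystem S} {ι : S →* G} {Λ : G →* A}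

/-- (S3). -/
theorem s3 [Finite S] [Fact p.Prime] (h : RL p F T ι Λ) {E : FusionSystem T}
    (hE : ∀ (P : Subgroup Ω) (f : Ω → Ω), IsMap E P f ↔ M ι Λ T P f) {P : Subgroup Ω} (hP : P ≤ T)
    (hfn : F.IsFullyNormalized P) : E.IsReceptive P := by
  apply isReceptive_of hP
  intro P₁ f hf hfP N hN
  obtain ⟨hP₁T, hfT, g₀, hΛ0, hg₀⟩ := (hE P₁ f).1 hf
  have hP₁S : P₁ ≤ S := hP₁T.trans h.hTS
  have hfF : IsMap F P₁ f := h.a2 P₁ f g₀ hP₁S hg₀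
  obtain ⟨-, -, hrec⟩ := Cfsg.Agent.Lib.Helper86Fusion2.saturated_fullyNormalized h.hS h.hF hfn
  obtain ⟨f', hf', hf'f⟩ := isReceptive_extend (N := N) hrec hfF hfP (fun g hg => by
      obtain ⟨h1, h2, t, ht, h3⟩ := (hN g).1 hg
      exact ⟨h.hTS h1, h2, t, h.hTS ht, h3⟩)
  have hNT : N ≤ T := fun g hg => ((hN g).1 hg).1
  have hP₁N : P₁ ≤ N := by
    intro x hx
    rw [hN]
    refine ⟨hP₁T hx, Subgroup.le_normalizer hx, f x, hfT x hx, ?_⟩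
    intro y hy
    exact hfF.map_conj hx hy
  have hf'T : ∀ x ∈ N, f' x ∈ T := fun x hx => (H12ZL0.mem_iff h hf' hx).2 (hNT hx)
  obtain ⟨g, hg⟩ := h.a1 N f' hf'
  have hgP₁ : Ind ι P₁ f g := ind_congr (ind_restrict hg hP₁N) hf'f
  have hζ := ind_comm hg₀ hgP₁
  by_cases hcase : ∀ P' : Subgroup Ω, F.IsConj P₁ P' → centralizerIn S P' ≤ T
  · have h1 := h.c P₁ hP₁T hcase (g₀⁻¹ * g) hζ
    rw [map_mul, map_inv, hΛ0, inv_one, one_mul] at h1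
    exact ⟨f', (hE N f').2 ⟨hNT, hf'T, g, h1, hg⟩, hf'f⟩
  · push Not at hcase
    obtain ⟨P', hP', hnot⟩ := hcase
    have hconj : F.IsConj P₁ P := isConj_iff.2 ⟨f, hfF, hfP⟩
    have hPP' : F.IsConj P P' := isConj_trans (isConj_symm hconj) hP'
    obtain ⟨c, hc, hcT⟩ := H12ZCen.cen h hfn hPP' hnot
    obtain ⟨hcS, hcP⟩ := mem_centralizerIn.1 hc
    obtain ⟨j, hj⟩ := H12ZAdj.adj h hcS hcT g
    have hcjS : c ^ j ∈ S := S.pow_mem hcS j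
    have hcjP : ∀ x ∈ P, x * c ^ j = c ^ j * x := by
      intro x hx
      have : Commute x c := hcP x hx
      exact this.pow_right j
    have hι : ι ⟨c ^ j, hcjS⟩ = ι ⟨c, hcS⟩ ^ j := by
      rw [← map_pow]; rfl
    have hind : Ind ι N (fun x => c ^ j * f' x * (c ^ j)⁻¹) (ι ⟨c, hcS⟩ ^ j * g) := by
      rw [← hι]
      exact ind_comp (Q := S) hg (ind_conj S hcjS) (fun x hx => hf'.mem hx)
    refine ⟨fun x => c ^ j * f' x * (c ^ j)⁻¹, (hE N _).2 ⟨hNT, ?_, _, hj, hind⟩, ?_⟩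
    · intro x hx
      exact h.hTn _ hcjS _ (hf'T x hx)
    · intro x hx
      change c ^ j * f' x * (c ^ j)⁻¹ = f x
      rw [hf'f x hx]
      have hfx : f x ∈ P := IsMap.mem_image hfP hx
      rw [← hcjP _ hfx, mul_assoc, mul_inv_cancel, mul_one]

end Cfsg.Agent.Lib.H12ZS3
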