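import Mathlib
import Cfsg.Agent.Lib.H12ZDefs
import Cfsg.Agent.Lib.H12ZInd
import Cfsg.Agent.Lib.H12ZS2a

set_option autoImplicit false

namespace Cfsg.Agent.Lib.H12ZS4

open Cfsg Cfsg.FusionSystem Cfsg.Agent.Lib.Helper87Fusion Cfsg.Agent.Lib.H12ZDefs
  Cfsg.Agent.Lib.Helper87Fusion2 Cfsg.Agent.Lib.H12ZInd

variable {Ω : Type*} [Group Ω] {S T : Subgroup Ω} {G A : Type*} [Group G] [CommGroup A]
  {p : ℕ} {F : FusionSystem S} {ι : S →* G} {Λ : G →* A}

/-- (S4). -/
theorem s4 [Finite S] [Fact p.Prime] (h : RL p F T ι Λ) {E : FusionSystem T}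
    (hE : ∀ (P : Subgroup Ω) (f : Ω → Ω), IsMap E P f ↔ M ι Λ T P f) : E.HasPPowerIndexIn F p := by
  refine ⟨H12ZS2a.sub h hE, h.hT, ?_⟩
  intro P hP
  have hPS : P ≤ S := hP.trans h.hTS
  rw [Subgroup.map_le_iff_le_comap]
  unfold pResidual
  rw [Subgroup.closure_le]
  intro α hα
  change Nat.Coprime (orderOf α) p at hα
  change (α : MulAut P) ∈ E.autGroup P
  set a : MulAut P := (α : MulAut P) with ha_def
  have ha : a ∈ F.autGroup P := α.2
  have hord : orderOf a = orderOf α := Subgroup.orderOf_coe α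
  obtain ⟨g, hg⟩ := h.a1 P (totA a) ((mem_autGroup_iff_totA F hPS a).1 ha)
  have hpow : ∀ k : ℕ, Ind ι P (totA (a ^ k)) (g ^ k) := by
    intro k
    induction k with
    | zero =>
      intro x hx
      have e : totA (a ^ 0) (x : Ω) = x := by rw [pow_zero, totA_of_mem _ hx]; rfl
      refine ⟨by rw [e]; exact x.2, ?_⟩
      have e2 : (⟨totA (a ^ 0) (x : Ω), by rw [e]; exact x.2⟩ : S) = x := Subtype.ext e
      rw [e2]
      simp
    | succ n ih =>
      have h1 := ind_comp ih hg (fun x hx => totA_mem _ hx)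
      rw [pow_succ' g]
      apply ind_congr h1
      intro x hx
      rw [totA_of_mem (a ^ n) hx, totA_apply, totA_of_mem _ hx, pow_succ']
      rfl
  have hco : Nat.Coprime (orderOf a) p := by rw [hord]; exact hα
  obtain ⟨e, he1, he2⟩ := Nat.chineseRemainder hco 1 0
  have hpe : p ∣ e := (Nat.modEq_zero_iff_dvd).1 he2
  have hae : a ^ e = a := by
    have := (pow_eq_pow_iff_modEq (x := a)).2 he1
    rwa [pow_one] at this
  have hΛ : Λ (g ^ e) = 1 := by
    obtain ⟨c, rfl⟩ := hpe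
    have h1 : (Λ g) ^ p = 1 := by
      rw [← h.cardA]; exact pow_card_eq_one'
    rw [map_pow, pow_mul, h1, one_pow]
  have hM : M ι Λ T P (totA a) := by
    refine ⟨hP, fun x hx => hP (totA_mem a hx), g ^ e, hΛ, ?_⟩
    have := hpow e
    rwa [hae] at this
  exact (mem_autGroup_iff_totA E hP a).2 ((hE P _).2 hM)

end Cfsg.Agent.Lib.H12ZS4
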