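import Cfsg.Agent.Lib.Helper86RLDefs

set_option autoImplicit false

namespace Cfsg.Agent.Lib.H86RLExD

open Cfsg.Agent.Lib.Helper86RLDefs

variable {S X A : Type*} [Group S] [MulAction (S × S) X] [CommGroup A]

/-- conjugacy of functions `S → S`. -/
def cjS (S : Type*) [Group S] : Setoid (S → S) where
  r f g := ∃ a : S, ∀ u, g u = a * f u * a⁻¹
  iseqv := ⟨fun f => ⟨1, fun u => by simp⟩,
    fun {f g} ⟨a, h⟩ => ⟨a⁻¹, fun u => by rw [h u]; group⟩,
    fun {f g k} ⟨a, h⟩ ⟨b, h'⟩ => ⟨b * a, fun u => by rw [h' u, h u]; group⟩⟩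

/-- PIECE ExD.  A normalised degree on the points whose left orbit is fixed by the right action of `P`. -/
theorem exists_d {lam : S →* A} {deg : X → A} (hd : IsDeg lam deg)
    (hfree : ∀ (a : S) (x : X), (a, (1 : S)) • x = x → a = 1)
    (P : Subgroup S) (z : Equiv.Perm X) (hz : z ∈ GG S X)
    (hzP : ∀ u ∈ P, ∀ x, z (((1 : S), u) • x) = ((1 : S), u) • z x)
    (H : ∀ (x : X) (ψ : S → S), (∀ u ∈ P, (ψ u, u) • x = x) →
      ∀ a : S, (∀ u ∈ P, a * ψ u = ψ u * a) → lam a = 1) :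
    ∃ d : X → A, ∀ x : X, (∀ u ∈ P, ∃ v : S, (v, u) • x = x) →
      (∀ a : S, d ((a, (1 : S)) • x) = d x) ∧ deg (z x) * (deg x)⁻¹ = d (z x) * (d x)⁻¹ := by
  classical
  have huniq : ∀ (x : X) (u v v' : S), (v, u) • x = x → (v', u) • x = x → v = v' := by
    intro x u v v' h h'
    have h1 : ((v'⁻¹ * v, (1 : S)) : S × S) • x = x := by
      have e : ((v'⁻¹ * v, (1 : S)) : S × S) = (v', u)⁻¹ * (v, u) := by
        ext <;> simp
      rw [e, mul_smul, h, inv_smul_eq_iff, h']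
    have := hfree _ _ h1
    exact (inv_mul_eq_one.1 this).symm
  let ψ : X → S → S := fun x u =>
    if h : u ∈ P ∧ ∃ v : S, (v, u) • x = x then h.2.choose else 1
  have hψ : ∀ x u, u ∈ P → (∃ v : S, (v, u) • x = x) → (ψ x u, u) • x = x := by
    intro x u hu hv
    have h : u ∈ P ∧ ∃ v : S, (v, u) • x = x := ⟨hu, hv⟩
    have e : ψ x u = h.2.choose := dif_pos h
    rw [e]
    exact h.2.choose_spec
  have hψ0 : ∀ x u, ¬ (u ∈ P ∧ ∃ v : S, (v, u) • x = x) → ψ x u = 1 := by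
    intro x u h
    exact dif_neg h
  have hi : ∀ (x : X) (a u : S), ψ ((a, (1 : S)) • x) u = a * ψ x u * a⁻¹ := by
    intro x a u
    by_cases h : u ∈ P ∧ ∃ v : S, (v, u) • x = x
    · have h1 := hψ x u h.1 h.2
      have h2 : ((a * ψ x u * a⁻¹, u) : S × S) • ((a, (1 : S)) : S × S) • x = ((a, (1 : S)) : S × S) • x := by
        rw [smul_smul]
        have e : ((a * ψ x u * a⁻¹, u) : S × S) * (a, (1 : S)) = (a, (1 : S)) * (ψ x u, u) := by
          ext <;> simp
        rw [e, mul_smul, h1]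
      exact huniq _ u _ _ (hψ _ u h.1 ⟨_, h2⟩) h2
    · have h' : ¬ (u ∈ P ∧ ∃ v : S, (v, u) • ((a, (1 : S)) : S × S) • x = ((a, (1 : S)) : S × S) • x) := by
        rintro ⟨hu, v, hv⟩
        apply h
        refine ⟨hu, a⁻¹ * v * a, ?_⟩
        have e : ((a⁻¹ * v * a, u) : S × S) = (a, (1 : S))⁻¹ * ((v, u) * (a, (1 : S))) := by
          ext <;> simp [mul_assoc]
        rw [e, mul_smul, mul_smul, hv, inv_smul_smul]
      rw [hψ0 _ _ h, hψ0 _ _ h']
      simp
  have hzc : ∀ (x : X) (v u : S), u ∈ P → z ((v, u) • x) = (v, u) • z x := by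
    intro x v u hu
    have e : ((v, u) : S × S) = (v, (1 : S)) * ((1 : S), u) := by ext <;> simp
    rw [e, mul_smul, mul_smul, hz, hzP u hu]
  have hii : ∀ (x : X), ψ (z x) = ψ x := by
    intro x
    funext u
    by_cases h : u ∈ P ∧ ∃ v : S, (v, u) • x = x
    · have h1 := hψ x u h.1 h.2
      have h2 : ((ψ x u, u) : S × S) • z x = z x := by
        rw [← hzc x _ u h.1, h1]
      exact huniq _ u _ _ (hψ _ u h.1 ⟨_, h2⟩) h2
    · have h' : ¬ (u ∈ P ∧ ∃ v : S, (v, u) • z x = z x) := by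
        rintro ⟨hu, v, hv⟩
        apply h
        refine ⟨hu, v, ?_⟩
        apply z.injective
        rw [hzc x v u hu, hv]
      rw [hψ0 _ _ h, hψ0 _ _ h']
  let rep : (S → S) → (S → S) := fun f => (Quotient.mk (cjS S) f).out
  have hrep : ∀ f : S → S, ∃ a : S, ∀ u, rep f u = a * f u * a⁻¹ := by
    intro f
    exact Quotient.exact (Quotient.out_eq (Quotient.mk (cjS S) f)).symm
  let κ : (S → S) → S := fun f => (hrep f).choose
  have hκ : ∀ f u, rep f u = κ f * f u * (κ f)⁻¹ := fun f => (hrep f).choose_spec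
  refine ⟨fun x => lam (κ (ψ x)) * deg x, ?_⟩
  intro x hx
  constructor
  · intro a
    have hr : rep (ψ ((a, (1 : S)) • x)) = rep (ψ x) := by
      have : Quotient.mk (cjS S) (ψ ((a, (1 : S)) • x)) = Quotient.mk (cjS S) (ψ x) := by
        apply Quotient.sound
        exact (cjS S).symm ⟨a, fun u => hi x a u⟩
      change (Quotient.mk (cjS S) _).out = (Quotient.mk (cjS S) _).out
      rw [this]
    set k' := κ (ψ ((a, (1 : S)) • x)) with hk'
    set k := κ (ψ x) with hk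
    have hcomm : ∀ u ∈ P, (k⁻¹ * k' * a) * ψ x u = ψ x u * (k⁻¹ * k' * a) := by
      intro u _
      have h1 := hκ (ψ ((a, (1 : S)) • x)) u
      have h2 := hκ (ψ x) u
      rw [hr, h2, hi x a u] at h1
      -- h1 : k * ψ x u * k⁻¹ = k' * (a * ψ x u * a⁻¹) * k'⁻¹
      calc (k⁻¹ * k' * a) * ψ x u = k⁻¹ * (k' * (a * ψ x u * a⁻¹) * k'⁻¹) * (k' * a) := by group
        _ = k⁻¹ * (k * ψ x u * k⁻¹) * (k' * a) := by rw [← h1]
        _ = ψ x u * (k⁻¹ * k' * a) := by group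
    have hl := H x (ψ x) (fun u hu => hψ x u hu (hx u hu)) _ hcomm
    rw [map_mul, map_mul, map_inv] at hl
    change lam k' * deg ((a, (1 : S)) • x) = lam k * deg x
    rw [hd]
    simp only [map_one, inv_one, mul_one]
    rw [← mul_assoc]
    congr 1
    rw [mul_assoc, inv_mul_eq_one] at hl
    exact hl.symm
  · change deg (z x) * (deg x)⁻¹ = (lam (κ (ψ (z x))) * deg (z x)) * (lam (κ (ψ x)) * deg x)⁻¹
    rw [hii x, ← div_eq_mul_inv, ← div_eq_mul_inv, mul_div_mul_left_eq_div]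

end Cfsg.Agent.Lib.H86RLExD
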