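import Mathlib

set_option autoImplicit false

namespace Cfsg.Agent.Lib.H86RLPF

/-- PIECE PF.  A product of an invariant function with values in a commutative group of exponent `p`
over a finite set on which a `p`-group acts = the product over the fixed points. -/
theorem prod_eq_prod_fixed {P Y A : Type*} [Group P] [Finite P] [Fintype Y] [CommGroup A] {p : ℕ}
    [Fact p.Prime] (hP : IsPGroup p P) (hA : ∀ a : A, a ^ p = 1) (ρ : P →* Equiv.Perm Y)
    (φ : Y → A) (hφ : ∀ (u : P) (y : Y), φ (ρ u y) = φ y)
    (s : Finset Y) (hs : ∀ y, y ∈ s ↔ ∀ u : P, ρ u y = y) :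
    ∏ y, φ y = ∏ y ∈ s, φ y := by
  classical
  have key : ∀ b : A, b ^ (Finset.univ.filter (fun y => φ y = b)).card
      = b ^ (s.filter (fun y => φ y = b)).card := by
    intro b
    let Yb := {y : Y // φ y = b}
    let _ : MulAction P Yb :=
      { smul := fun u y => ⟨ρ u y.1, by rw [hφ]; exact y.2⟩
        one_smul := fun y => Subtype.ext (by show ρ 1 y.1 = y.1; rw [map_one]; rfl)
        mul_smul := fun u v y => Subtype.ext (by
          show ρ (u * v) y.1 = ρ u (ρ v y.1); rw [map_mul]; rfl) }
    have h1 := hP.card_modEq_card_fixedPoints Yb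
    have c1 : Nat.card Yb = (Finset.univ.filter (fun y => φ y = b)).card := by
      rw [Nat.card_eq_fintype_card, Fintype.card_subtype]
    have c2 : Nat.card (MulAction.fixedPoints P Yb) = (s.filter (fun y => φ y = b)).card := by
      let e : MulAction.fixedPoints P Yb ≃ {y // y ∈ s.filter (fun y => φ y = b)} :=
        { toFun := fun y => ⟨y.1.1, by
            rw [Finset.mem_filter, hs]
            exact ⟨fun u => congrArg Subtype.val (y.2 u), y.1.2⟩⟩
          invFun := fun y => ⟨⟨y.1, (Finset.mem_filter.1 y.2).2⟩,
            fun u => Subtype.ext ((hs _).1 (Finset.mem_filter.1 y.2).1 u)⟩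
          left_inv := fun y => rfl
          right_inv := fun y => rfl }
      rw [Nat.card_congr e, Nat.card_eq_fintype_card, Fintype.card_coe]
    rw [c1, c2] at h1
    have h2 : (Finset.univ.filter (fun y => φ y = b)).card % p
      = (s.filter (fun y => φ y = b)).card % p := h1
    rw [pow_eq_pow_mod _ (hA b), h2, ← pow_eq_pow_mod _ (hA b)]
  have e1 := Finset.prod_comp (s := (Finset.univ : Finset Y)) (fun a : A => a) φ
  have e2 := Finset.prod_comp (s := s) (fun a : A => a) φ
  rw [e1, e2]
  have hsub : s.image φ ⊆ Finset.univ.image φ := Finset.image_subset_image (Finset.subset_univ s)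
  rw [← Finset.prod_subset hsub]
  · apply Finset.prod_congr rfl
    intro b _
    exact key b
  · intro b _ hb
    have : s.filter (fun y => φ y = b) = ∅ := by
      rw [Finset.filter_eq_empty_iff]
      intro y hy hyb
      exact hb (Finset.mem_image.2 ⟨y, hy, hyb⟩)
    rw [key b, this, Finset.card_empty, pow_zero]

end Cfsg.Agent.Lib.H86RLPF
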