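import Cfsg.Agent.Lib.Helper86RLDefs
import Cfsg.Agent.Lib.H86RLPF
import Cfsg.Agent.Lib.H86RLExD

set_option autoImplicit false

namespace Cfsg.Agent.Lib.H86RLCen

open Cfsg.Agent.Lib.Helper86RLDefs Cfsg.Agent.Lib.H86RLPF Cfsg.Agent.Lib.H86RLExD

variable {S X A : Type*} [Group S] [MulAction (S × S) X] [CommGroup A]

/-- PIECE Cen.  `Lam z = 1` for `z` commuting with the right action of `P`. -/
theorem Lam_central [Finite X] [Finite S] {p : ℕ} [Fact p.Prime] {lam : S →* A} {deg : X → A}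
    (hd : IsDeg lam deg) (hfree : ∀ (a : S) (x : X), (a, (1 : S)) • x = x → a = 1)
    (hA : ∀ a : A, a ^ p = 1) (P : Subgroup S) (hP : IsPGroup p P)
    (z : Equiv.Perm X) (hz : z ∈ GG S X)
    (hzP : ∀ u ∈ P, ∀ x, z (((1 : S), u) • x) = ((1 : S), u) • z x)
    (H : ∀ (x : X) (ψ : S → S), (∀ u ∈ P, (ψ u, u) • x = x) →
      ∀ a : S, (∀ u ∈ P, a * ψ u = ψ u * a) → lam a = 1) :
    Lam S deg z = 1 := by
  classical
  let δ : Y S X → A := fun O => deg (z O.out) * (deg O.out)⁻¹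
  have hδ : ∀ x : X, δ ⟦x⟧ = deg (z x) * (deg x)⁻¹ := fun x => delta_out hd hz x
  let ρ : ↥P →* Equiv.Perm (Y S X) := (bar.comp (iota S X)).comp P.subtype
  have hρ : ∀ (u : P) (x : X), ρ u ⟦x⟧ = ⟦((1 : S), (u : S)) • x⟧ := fun u x => rfl
  have hinv : ∀ (u : P) (O : Y S X), δ (ρ u O) = δ O := by
    intro u O
    induction O using Quotient.inductionOn with
    | h x =>
      rw [hρ, hδ, hδ, hzP u.1 u.2, hd, hd]
      simp only [map_one, one_mul]
      generalize (lam (u : S))⁻¹ = c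
      rw [← div_eq_mul_inv (deg (z x) * c), ← div_eq_mul_inv (deg (z x)), mul_div_mul_right_eq_div]
  let s : Finset (Y S X) := Finset.univ.filter (fun O => ∀ u : P, ρ u O = O)
  have hs : ∀ O, O ∈ s ↔ ∀ u : P, ρ u O = O := by
    intro O
    simp [s]
  have h1 : Lam S deg z = ∏ O ∈ s, δ O := prod_eq_prod_fixed hP hA ρ δ hinv s hs
  rw [h1]
  have hgood : ∀ x : X, (⟦x⟧ : Y S X) ∈ s → ∀ u ∈ P, ∃ v : S, (v, u) • x = x := by
    intro x hx u hu
    have h2 := (hs _).1 hx ⟨u, hu⟩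
    rw [hρ] at h2
    obtain ⟨a, ha⟩ := Y_eq.1 h2
    refine ⟨a, ?_⟩
    rw [smul_smul] at ha
    simpa using ha
  obtain ⟨d, hdd⟩ := exists_d hd hfree P z hz hzP H
  let D : Y S X → A := fun O => d O.out
  let Z : GG S X := ⟨z, hz⟩
  have hZs : ∀ O, O ∈ s → bar Z O ∈ s := by
    intro O hO
    rw [hs] at hO ⊢
    intro u
    have hOu := hO u
    induction O using Quotient.inductionOn with
    | h x =>
      rw [bar_mk, hρ]
      change (⟦((1 : S), (u : S)) • z x⟧ : Y S X) = ⟦z x⟧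
      rw [← hzP u.1 u.2]
      rw [hρ] at hOu
      have := congrArg (bar Z) hOu
      rw [bar_mk, bar_mk] at this
      exact this
  have hDx : ∀ x : X, (⟦x⟧ : Y S X) ∈ s → D ⟦x⟧ = d x := by
    intro x hx
    obtain ⟨a, ha⟩ := exists_out (S := S) x
    change d (⟦x⟧ : Y S X).out = d x
    rw [← ha]
    exact (hdd x (hgood x hx)).1 a
  have hδD : ∀ O ∈ s, δ O = D (bar Z O) * (D O)⁻¹ := by
    intro O hO
    have hZO := hZs O hO
    induction O using Quotient.inductionOn with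
    | h x =>
      rw [bar_mk] at hZO ⊢
      rw [hδ, hDx _ hO, hDx _ hZO]
      exact (hdd x (hgood x hO)).2
  rw [Finset.prod_congr rfl hδD, Finset.prod_mul_distrib, Finset.prod_inv_distrib]
  have hperm : ∏ O ∈ s, D (bar Z O) = ∏ O ∈ s, D O := by
    apply Finset.prod_bij (fun O _ => bar Z O)
    · intro O hO; exact hZs O hO
    · intro O _ O' _ h; exact (bar Z).injective h
    · intro O hO
      -- surjectivity on a finite set
      have hinj : Set.InjOn (bar Z) (s : Set (Y S X)) := fun a _ b _ h => (bar Z).injective h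
      have hmaps : Set.MapsTo (bar Z) (s : Set (Y S X)) (s : Set (Y S X)) := fun a ha => hZs a ha
      have hsurj := Finset.surjOn_of_injOn_of_card_le (bar Z) hmaps hinj le_rfl
      obtain ⟨O', hO', h⟩ := hsurj hO
      exact ⟨O', hO', h⟩
    · intro O _; rfl
  rw [hperm, mul_inv_cancel]

end Cfsg.Agent.Lib.H86RLCen
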