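import Cfsg.Agent.Lib.Helper86RLDefs

set_option autoImplicit false

namespace Cfsg.Agent.Lib.H86RLIota

open Cfsg.Agent.Lib.Helper86RLDefs

variable {S X A : Type*} [Group S] [MulAction (S × S) X] [CommGroup A]

/-- PIECE Iota, part 1 (20m, pure Mathlib).  The left action is free, so `X ≃ Y S X × S`:
`x ↦ (⟦x⟧, the a with (a,1) • ⟦x⟧.out = x)`, inverse `(O,a) ↦ (a,1) • O.out`
(easiest: `Nat.card_congr (Equiv.ofBijective (fun q : Y S X × S => (q.2,(1:S)) • q.1.out) ⟨inj, surj⟩)` and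
`Nat.card_prod`; inj: the classes agree (`Y_eq`, `Quotient.out_eq`), then `hfree`; surj: `exists_out`, invert). -/
theorem card_Y [Finite X] [Finite S] (hfree : ∀ (a : S) (x : X), (a, (1 : S)) • x = x → a = 1) :
    Nat.card (Y S X) * Nat.card S = Nat.card X := by
  rw [← Nat.card_prod]
  refine Nat.card_congr (Equiv.ofBijective (fun q : Y S X × S => (q.2, (1 : S)) • q.1.out) ⟨?_, ?_⟩)
  · rintro ⟨O, a⟩ ⟨O', a'⟩ h
    simp only at h
    have hO : O = O' := by
      rw [← Quotient.out_eq O, ← Quotient.out_eq O', Y_eq]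
      refine ⟨a'⁻¹ * a, ?_⟩
      have : ((a'⁻¹ * a, (1 : S)) : S × S) = (a'⁻¹, (1 : S)) * (a, (1 : S)) := by ext <;> simp
      rw [this, ← smul_smul, h, smul_smul]
      have : ((a'⁻¹, (1 : S)) : S × S) * (a', (1 : S)) = 1 := by ext <;> simp
      rw [this, one_smul]
    subst hO
    have ha : a'⁻¹ * a = 1 := by
      apply hfree _ O.out
      have : ((a'⁻¹ * a, (1 : S)) : S × S) = (a'⁻¹, (1 : S)) * (a, (1 : S)) := by ext <;> simp
      rw [this, ← smul_smul, h, smul_smul]
      have : ((a'⁻¹, (1 : S)) : S × S) * (a', (1 : S)) = 1 := by ext <;> simp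
      rw [this, one_smul]
    have : a = a' := by
      rw [inv_mul_eq_one] at ha
      exact ha.symm
    rw [this]
  · intro x
    obtain ⟨a, ha⟩ := exists_out (S := S) x
    refine ⟨(⟦x⟧, a⁻¹), ?_⟩
    simp only
    rw [← ha, smul_smul]
    have : ((a⁻¹, (1 : S)) : S × S) * (a, (1 : S)) = 1 := by ext <;> simp
    rw [this, one_smul]

/-- PIECE Iota, part 2 (10m).  every factor is `deg ((1,s) • x) * (deg x)⁻¹ = (lam s)⁻¹` (`hd`, `iota_apply`, `map_one`);
`Finset.prod_const`, `Finset.card_univ`, `Nat.card_eq_fintype_card`. -/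
theorem Lam_iota [Finite X] {lam : S →* A} {deg : X → A} (hd : IsDeg lam deg) (s : S) :
    Lam S deg (iota S X s).1 = (lam s)⁻¹ ^ Nat.card (Y S X) := by
  unfold Lam
  have h : ∀ O : Y S X, deg ((iota S X s).1 O.out) * (deg O.out)⁻¹ = (lam s)⁻¹ := by
    intro O
    rw [iota_apply, hd]
    simp only [map_one, one_mul]
    rw [mul_comm (deg O.out), mul_assoc, mul_inv_cancel, mul_one]
  rw [Finset.prod_congr rfl (fun O _ => h O), Finset.prod_const, Finset.card_univ,
    Nat.card_eq_fintype_card]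

end Cfsg.Agent.Lib.H86RLIota
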