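import Cfsg.Agent.Lib.Helper86RLDefs

set_option autoImplicit false

namespace Cfsg.Agent.Lib.H86RLMul

open Cfsg.Agent.Lib.Helper86RLDefs

variable {S X A : Type*} [Group S] [MulAction (S × S) X] [CommGroup A]

/-- PIECE Mul (25m, pure Mathlib).  `Lam` is multiplicative on `GG`.
Write `δ e x := deg (e x) * (deg x)⁻¹`.  Unfold `Lam`.  For `O : Y S X`:
`δ (e*e') O.out = δ e (e' O.out) * δ e' O.out` (cancel `deg (e' O.out)`), and
`δ e (e' O.out) = δ e (bar ⟨e',he'⟩ O).out` by `delta_out hd he (e' O.out)` because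
`bar ⟨e',he'⟩ O = ⟦e' O.out⟧` (`bar_mk` after `Quotient.out_eq`).  Then `Finset.prod_mul_distrib` and
`Equiv.prod_comp (bar ⟨e',he'⟩) (fun O => δ e O.out)`. -/
theorem Lam_mul [Finite X] {lam : S →* A} {deg : X → A} (hd : IsDeg lam deg) (e e' : Equiv.Perm X)
    (he : e ∈ GG S X) (he' : e' ∈ GG S X) :
    Lam S deg (e * e') = Lam S deg e * Lam S deg e' := by
  unfold Lam
  rw [← Equiv.prod_comp (bar (⟨e', he'⟩ : GG S X)) (fun O : Y S X => deg (e O.out) * (deg O.out)⁻¹),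
    ← Finset.prod_mul_distrib]
  apply Finset.prod_congr rfl
  intro O _
  have h1 : bar (⟨e', he'⟩ : GG S X) O = (⟦e' O.out⟧ : Y S X) := by
    conv_lhs => rw [← Quotient.out_eq O]
    exact bar_mk _ _
  rw [h1, delta_out hd he (e' O.out), Equiv.Perm.mul_apply]
  rw [mul_assoc, inv_mul_cancel_left]

end Cfsg.Agent.Lib.H86RLMul
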