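import Mathlib

set_option autoImplicit false

/-! Vocabulary of the realization lemma (project 5113 = S5113, part RL).
`S × S` acts on `X`; `(a,1)` is the LEFT action, `(1,b)` the RIGHT action. -/

namespace Cfsg.Agent.Lib.Helper86RLDefs

variable (S X : Type*) [Group S] [MulAction (S × S) X]

/-- `x ~ y` iff `y = (a,1) • x` for some `a` (left orbits). -/
def lrel : Setoid X where
  r x y := ∃ a : S, (a, (1 : S)) • x = y
  iseqv := ⟨fun x => ⟨1, one_smul _ x⟩,
    fun {x y} ⟨a, h⟩ => ⟨a⁻¹, by
      rw [← h, smul_smul]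
      have : ((a⁻¹, (1 : S)) : S × S) * (a, (1 : S)) = 1 := by ext <;> simp
      rw [this, one_smul]⟩,
    fun {x y z} ⟨a, h⟩ ⟨b, h'⟩ => ⟨b * a, by rw [← h', ← h, smul_smul]; simp⟩⟩

/-- the set of left orbits. -/
abbrev Y := Quotient (lrel S X)

noncomputable instance instFintypeY [Finite X] : Fintype (Y S X) := Fintype.ofFinite _

/-- the group of the permutations of `X` commuting with the left action. -/
def GG : Subgroup (Equiv.Perm X) where
  carrier := {e | ∀ (a : S) (x : X), e ((a, (1 : S)) • x) = (a, (1 : S)) • e x}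
  mul_mem' := fun {g g'} hg hg' b x => by
    rw [Equiv.Perm.mul_apply, hg', hg, Equiv.Perm.mul_apply]
  one_mem' := fun _ _ => rfl
  inv_mem' := fun {g} hg b x => by
    apply g.injective
    rw [hg]
    show g (g.symm _) = _ • g (g.symm x)
    rw [Equiv.apply_symm_apply, Equiv.apply_symm_apply]

theorem mem_GG {e : Equiv.Perm X} :
    e ∈ GG S X ↔ ∀ (a : S) (x : X), e ((a, (1 : S)) • x) = (a, (1 : S)) • e x := Iff.rfl

/-- the right action, as a homomorphism into `GG`. -/
def iota : S →* GG S X :=
  ((MulAction.toPermHom (S × S) X).comp (MonoidHom.inr S S)).codRestrict (GG S X)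
    (fun b a x => by
      show ((1 : S), b) • (a, (1 : S)) • x = (a, (1 : S)) • ((1 : S), b) • x
      rw [smul_smul, smul_smul]
      simp)

variable {S X}

theorem iota_apply (b : S) (x : X) : (iota S X b).1 x = ((1 : S), b) • x := rfl

theorem Y_eq {x y : X} : (⟦x⟧ : Y S X) = ⟦y⟧ ↔ ∃ a : S, (a, (1 : S)) • x = y :=
  ⟨fun h => Quotient.exact h, fun h => Quotient.sound h⟩

theorem exists_out (x : X) : ∃ a : S, (a, (1 : S)) • x = (⟦x⟧ : Y S X).out :=
  Y_eq.1 (Quotient.out_eq _).symm

/-- the permutation of the set of left orbits induced by an element of `GG`. -/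
def bar : GG S X →* Equiv.Perm (Y S X) where
  toFun e :=
    { toFun := Quotient.map e.1 (fun x y ⟨a, h⟩ => ⟨a, by rw [← e.2, h]⟩)
      invFun := Quotient.map (e⁻¹).1 (fun x y ⟨a, h⟩ => ⟨a, by rw [← (e⁻¹).2, h]⟩)
      left_inv := fun O => by
        induction O using Quotient.inductionOn with
        | h x => exact congrArg _ (e.1.symm_apply_apply x)
      right_inv := fun O => by
        induction O using Quotient.inductionOn with
        | h x => exact congrArg _ (e.1.apply_symm_apply x) }
  map_one' := by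
    ext O
    induction O using Quotient.inductionOn with
    | h x => rfl
  map_mul' e e' := by
    ext O
    induction O using Quotient.inductionOn with
    | h x => rfl

theorem bar_mk (e : GG S X) (x : X) : bar e (⟦x⟧ : Y S X) = ⟦e.1 x⟧ := rfl

variable {A : Type*} [CommGroup A]

/-- `deg` is a degree map with respect to `lam`. -/
def IsDeg (lam : S →* A) (deg : X → A) : Prop :=
  ∀ (g : S × S) (x : X), deg (g • x) = lam g.1 * deg x * (lam g.2)⁻¹

/-- the local contribution does not depend on the point of the left orbit. -/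
theorem delta_smul {lam : S →* A} {deg : X → A} (hd : IsDeg lam deg) {e : Equiv.Perm X}
    (he : e ∈ GG S X) (a : S) (x : X) :
    deg (e ((a, (1 : S)) • x)) * (deg ((a, (1 : S)) • x))⁻¹ = deg (e x) * (deg x)⁻¹ := by
  rw [he, hd, hd]
  simp only [map_one, inv_one, mul_one, mul_inv_rev]
  rw [mul_comm (lam a), mul_assoc, mul_comm (deg x)⁻¹, ← mul_assoc (lam a),
    mul_inv_cancel, one_mul]

theorem delta_out {lam : S →* A} {deg : X → A} (hd : IsDeg lam deg) {e : Equiv.Perm X}
    (he : e ∈ GG S X) (x : X) :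
    deg (e (⟦x⟧ : Y S X).out) * (deg (⟦x⟧ : Y S X).out)⁻¹ = deg (e x) * (deg x)⁻¹ := by
  obtain ⟨a, ha⟩ := exists_out (S := S) x
  rw [← ha, delta_smul hd he]

variable (S)

/-- the "transfer": product over the left orbits of `deg (e x) / deg x`. -/
noncomputable def Lam [Finite X] (deg : X → A) (e : Equiv.Perm X) : A :=
  ∏ O : Y S X, deg (e O.out) * (deg O.out)⁻¹

end Cfsg.Agent.Lib.Helper86RLDefs
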