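import Mathlib
import Cfsg.Agent.Lib.Helper86TateF
import Cfsg.Agent.Lib.Helper86Biset
import Cfsg.Agent.Lib.Helper86Stable

set_option autoImplicit false

/-! Fusion-system side of the realization lemma (project 5113). -/

namespace Cfsg.Agent.Lib.Helper86RLFus

open Subgroup MulAction Cfsg Cfsg.FusionSystem Cfsg.Agent.Lib.Helper87Fusion
open Cfsg.Agent.Lib.Helper86Graph Cfsg.Agent.Lib.Helper86Biset Cfsg.Agent.Lib.Helper86Stable

universe u
variable {Ω : Type u} [Group Ω] {S : Subgroup Ω}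

/-- if `d` divides the length of every orbit then `d` divides `|X|`. -/
theorem dvd_card_of_orbits {K X : Type*} [Group K] [MulAction K X] [Finite X] (d : ℕ)
    (h : ∀ x : X, d ∣ Nat.card (orbit K x)) : d ∣ Nat.card X := by
  classical
  have := Fintype.ofFinite (orbitRel.Quotient K X)
  rw [Nat.card_congr (selfEquivSigmaOrbits K X), Nat.card_sigma]
  exact Finset.dvd_sum (fun ω _ => h _)

/-- a point whose stabilizer is the graph of an automorphism of `S`. -/
theorem exists_full [Finite S] {p : ℕ} [Fact p.Prime] (hS : IsPGroup p S) (F : FusionSystem S)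
    {X : Type*} [MulAction (S × S) X] [Finite X]
    (hg : ∀ x : X, IsGraph F (stabilizer (S × S) x)) (hcard : ¬ p * Nat.card S ∣ Nat.card X) :
    ∃ (w : X) (α : Ω → Ω), IsMap F S α ∧ ∀ u : S, ∃ hu : α u ∈ S, ((⟨α u, hu⟩ : S), u) • w = w := by
  by_contra hcon
  apply hcard
  apply dvd_card_of_orbits (K := S × S)
  intro x
  obtain ⟨P, f, hf, hE⟩ := hg x
  have hPS : P ≤ S := hf.le
  have hne : P ≠ S := by
    rintro rfl
    exact hcon ⟨x, f, hf, fun u => ⟨hf.mem u.2, (hE _).2 ⟨u.2, rfl⟩⟩⟩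
  have h1 : Nat.card (stabilizer (S × S) x) = Nat.card P := by
    rw [(hg x).card_eq, IsGraph.pr₂_eq hf hE]
  have h2 : Nat.card (stabilizer (S × S) x) * Nat.card (orbit (S × S) x) = Nat.card S * Nat.card S := by
    have := index_stabilizer (S × S) x
    rw [← Nat.card_coe_set_eq] at this
    rw [← this, Subgroup.card_mul_index, Nat.card_prod]
  have h3 : Nat.card (P.subgroupOf S) = Nat.card P :=
    Nat.card_congr (Subgroup.subgroupOfEquivOfLe hPS).toEquiv
  have h4 := Subgroup.card_mul_index (P.subgroupOf S)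
  obtain ⟨n, hn⟩ := hS.index (P.subgroupOf S)
  have h5 : p ∣ (P.subgroupOf S).index := by
    rw [hn]
    apply dvd_pow_self
    rintro rfl
    rw [pow_zero, Subgroup.index_eq_one, Subgroup.subgroupOf_eq_top] at hn
    exact hne (le_antisymm hPS hn)
  obtain ⟨k, hk⟩ := h5
  have hP0 : 0 < Nat.card P := by
    have : Finite P := Finite.of_injective (Subgroup.inclusion hPS) (Subgroup.inclusion_injective hPS)
    exact Nat.card_pos
  rw [h1] at h2
  rw [h3, hk] at h4
  refine ⟨k, ?_⟩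
  apply Nat.eq_of_mul_eq_mul_left hP0
  rw [h2]
  calc Nat.card S * Nat.card S = (Nat.card P * (p * k)) * Nat.card S := by rw [h4]
    _ = Nat.card P * (p * Nat.card S * k) := by ring

/-- Park's converse: a left-equivariant permutation intertwining the right action of `P` along `f`
forces `f` to be a map of the system. -/
theorem isMap_of_intertwine [Finite S] {p : ℕ} [Fact p.Prime] (hS : IsPGroup p S) (F : FusionSystem S)
    {X : Type*} [MulAction (S × S) X] [Finite X]
    (hg : ∀ x : X, IsGraph F (stabilizer (S × S) x)) (hcard : ¬ p * Nat.card S ∣ Nat.card X)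
    (P : Subgroup Ω) (f : Ω → Ω) (g : X → X)
    (hgE : ∀ (a : S) (x : X), g ((a, (1 : S)) • x) = (a, (1 : S)) • g x) (hP : P ≤ S)
    (h : ∀ x : S, (x : Ω) ∈ P → ∃ hx : f x ∈ S, ∀ y : X,
      ((1 : S), (⟨f x, hx⟩ : S)) • g y = g (((1 : S), x) • y)) : IsMap F P f := by
  obtain ⟨w, α, hα, hw⟩ := exists_full hS F hg hcard
  obtain ⟨Q, ψ, hψ, hE⟩ := hg (g w)
  have key : ∀ x : S, (x : Ω) ∈ P → f x ∈ Q ∧ α x = ψ (f x) := by
    intro x hx
    obtain ⟨hfx, h1⟩ := h x hx
    obtain ⟨hαx, h2⟩ := hw x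
    have h3 : ((1 : S), x) • w = ((⟨α x, hαx⟩ : S)⁻¹, (1 : S)) • w := by
      conv_rhs => rw [← h2]
      rw [smul_smul]
      congr 1
      ext <;> simp
    have h4 : ((⟨α x, hαx⟩ : S), (⟨f x, hfx⟩ : S)) • g w = g w := by
      have e : (((⟨α x, hαx⟩ : S), (⟨f x, hfx⟩ : S)) : S × S) =
          ((⟨α x, hαx⟩ : S), (1 : S)) * ((1 : S), (⟨f x, hfx⟩ : S)) := by ext <;> simp
      rw [e, mul_smul, h1, h3, hgE, smul_smul]
      have e2 : (((⟨α x, hαx⟩ : S), (1 : S)) : S × S) * ((⟨α x, hαx⟩ : S)⁻¹, (1 : S)) = 1 := by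
        ext <;> simp
      rw [e2, one_smul]
    exact (hE _).1 h4
  obtain ⟨Q', hQ'⟩ := hψ.exists_image
  obtain ⟨ψ', hψ', h1, -, -⟩ := hψ.inv hQ'
  refine ((hα.restrict hP).comp hψ' (fun x hx => ?_)).congr (fun x hx => ?_)
  · rw [(key ⟨x, hP hx⟩ hx).2]
    exact IsMap.mem_image hQ' (key ⟨x, hP hx⟩ hx).1
  · show ψ' (α x) = f x
    rw [(key ⟨x, hP hx⟩ hx).2]
    exact h1 _ (key ⟨x, hP hx⟩ hx).1

end Cfsg.Agent.Lib.Helper86RLFus
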