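import Mathlib
import Cfsg.Agent.Lib.Helper86TateF
import Cfsg.Agent.Lib.Helper86Biset
import Cfsg.Agent.Lib.Helper86Stable
import Cfsg.Agent.Lib.Helper86RLDefs
import Cfsg.Agent.Lib.Helper86RLFus
import Cfsg.Agent.Lib.H86RLMul
import Cfsg.Agent.Lib.H86RLIota
import Cfsg.Agent.Lib.H86RLCen

set_option autoImplicit false

namespace Cfsg.Agent.Lib.H89PPRL

open Cfsg Cfsg.FusionSystem Cfsg.Agent.Lib.Helper87Fusion
open Cfsg.Agent.Lib.Helper86Graph Cfsg.Agent.Lib.Helper86Biset Cfsg.Agent.Lib.Helper86Stable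
open Cfsg.Agent.Lib.Helper86RLDefs Cfsg.Agent.Lib.Helper86RLFus Cfsg.Agent.Lib.Helper86TateF
open Cfsg.Agent.Lib.Helper86Burnside Cfsg.Agent.Lib.Helper86Mono

universe u
variable {Ω : Type u} [Group Ω] {S : Subgroup Ω}

/-- the realization lemma, for a given homomorphism `lam` with kernel `T` onto a group of order `p`. -/
theorem core [Finite S] {p : ℕ} [Fact p.Prime] (hS : IsPGroup p S) (F : FusionSystem S)
    (hF : F.IsSaturated p) (T : Subgroup Ω) (hTS : T ≤ S) (hT : F.hyperfocalSubgroup p ≤ T)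
    {A : Type u} [CommGroup A] (lam : S →* A) (hker : ∀ s : S, lam s = 1 ↔ (s : Ω) ∈ T)
    (hA : Nat.card A = p) :
    ∃ (G : Type u) (_ : Group G) (_ : Finite G) (ι : S →* G)
      (Λ : G →* A), Function.Injective ι ∧
      (∀ (P : Subgroup Ω) (f : Ω → Ω), IsMap F P f →
        ∃ g : G, ∀ x : S, (x : Ω) ∈ P → ∃ hx : f x ∈ S, ι ⟨f x, hx⟩ = g * ι x * g⁻¹) ∧
      (∀ (P : Subgroup Ω) (f : Ω → Ω) (g : G), P ≤ S →
        (∀ x : S, (x : Ω) ∈ P → ∃ hx : f x ∈ S, ι ⟨f x, hx⟩ = g * ι x * g⁻¹) → IsMap F P f) ∧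
      (∀ s : S, Λ (ι s) = 1 ↔ (s : Ω) ∈ T) ∧
      (∀ P : Subgroup Ω, P ≤ T → (∀ P' : Subgroup Ω, F.IsConj P P' → centralizerIn S P' ≤ T) →
        ∀ ζ : G, (∀ x : S, (x : Ω) ∈ P → ζ * ι x = ι x * ζ) → Λ ζ = 1) := by
  classical
  obtain ⟨X, _, _, hg, hst, hcard⟩ := exists_charBiset hS F hF
  have hpow : ∀ a : A, a ^ p = 1 := fun a => by rw [← hA]; exact pow_card_eq_one'
  -- (L0)
  have L0 : ∀ (P : Subgroup Ω) (f : Ω → Ω), IsMap F P f → ∀ u v : S, (u : Ω) ∈ P → (v : Ω) = f u →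
      lam v = lam u := by
    intro P f hf u v hu hv
    obtain ⟨s, hs, h⟩ := inner_mod_hyp hS F hF hf
    have h1 := hT (h u hu)
    have h2 : lam ((⟨s, hs⟩ * u * ⟨s, hs⟩⁻¹)⁻¹ * v) = 1 := by
      rw [hker]
      simpa [hv] using h1
    rw [map_mul, map_inv, inv_mul_eq_one, map_mul, map_mul, map_inv, mul_comm (lam ⟨s, hs⟩),
      mul_inv_cancel_right] at h2
    exact h2.symm
  have hfree : ∀ (a : S) (x : X), (a, (1 : S)) • x = x → a = 1 := fun a x h => free_of_graph hg h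
  -- the degree
  let _ : MulAction (S × S) (Bi A) := MulAction.compHom _ (MonoidHom.prodMap lam lam)
  obtain ⟨deg', hdeg'⟩ := exists_equivariant (H := S × S) (X := X) (Y := Bi A) (fun x => by
    obtain ⟨P, f, hf, hE⟩ := hg x
    refine ⟨Bi.inn 1, fun g hfix => ?_⟩
    obtain ⟨h1, h2⟩ := (hE g).1 hfix
    show (lam g.1 * 1 * (lam g.2)⁻¹ : A) = 1
    rw [L0 P f hf g.2 g.1 h1 h2]
    simp)
  let deg : X → A := fun x => (deg' x).out
  have hdeg : IsDeg lam deg := fun g x => congrArg Bi.out (hdeg' g x)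
  let Λ : GG S X →* A := MonoidHom.mk' (fun e => Lam S deg e.1)
    (fun e e' => H86RLMul.Lam_mul hdeg e.1 e'.1 e.2 e'.2)
  have hX : Nonempty X := by
    by_contra hne
    rw [not_nonempty_iff] at hne
    apply hcard
    rw [Nat.card_of_isEmpty (α := X)]
    exact dvd_zero _
  refine ⟨GG S X, inferInstance, inferInstance, iota S X, Λ, ?_, ?_, ?_, ?_, ?_⟩
  · -- injectivity
    intro a a' haa
    obtain ⟨x⟩ := hX
    have h1 : ((1 : S), a) • x = ((1 : S), a') • x := by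
      rw [← iota_apply, ← iota_apply, haa]
    have h2 : ((1 : S), a'⁻¹ * a) • x = x := by
      have : (((1 : S), a'⁻¹ * a) : S × S) = ((1 : S), a')⁻¹ * ((1 : S), a) := by
        ext <;> simp
      rw [this, mul_smul, h1, inv_smul_smul]
    obtain ⟨P, f, hf, hE⟩ := hg x
    obtain ⟨h3, h4⟩ := (hE _).1 h2
    have h5 : ((a'⁻¹ * a : S) : Ω) = 1 := by
      apply hf.inj h3 P.one_mem
      rw [hf.map_one, ← h4]
      rfl
    have h6 : a'⁻¹ * a = 1 := Subtype.ext h5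
    exact (inv_mul_eq_one.1 h6).symm
  · -- (a1)
    intro P f hf
    obtain ⟨e, he, he'⟩ := right_stable hst hf
    refine ⟨⟨e, he⟩, fun x hx => ⟨hf.mem hx, ?_⟩⟩
    rw [eq_mul_inv_iff_mul_eq]
    apply Subtype.ext
    apply Equiv.ext
    intro y
    show ((1 : S), (⟨f x, hf.mem hx⟩ : S)) • e y = e (((1 : S), x) • y)
    rw [he' x hx]
    congr 2
    exact Subtype.ext (lift_coe (hf.mem hx)).symm
  · -- (a2)
    intro P f g hP h
    refine isMap_of_intertwine hS F hg hcard P f g.1 g.2 hP (fun x hx => ?_)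
    obtain ⟨hfx, h1⟩ := h x hx
    refine ⟨hfx, fun y => ?_⟩
    rw [eq_mul_inv_iff_mul_eq] at h1
    have h2 := congrArg (fun e : GG S X => e.1 y) h1
    exact h2
  · -- (b)
    intro s
    show Lam S deg (iota S X s).1 = 1 ↔ _
    rw [H86RLIota.Lam_iota hdeg, ← hker]
    have hn : ¬ p ∣ Nat.card (Y S X) := by
      intro hdvd
      apply hcard
      rw [← H86RLIota.card_Y (S := S) (X := X) hfree]
      exact Nat.mul_dvd_mul_right hdvd _
    have hcop : Nat.Coprime (Nat.card (Y S X)) p :=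
      ((Nat.Prime.coprime_iff_not_dvd Fact.out).2 hn).symm
    constructor
    · intro h
      have h1 : orderOf (lam s)⁻¹ ∣ Nat.card (Y S X) := orderOf_dvd_of_pow_eq_one h
      have h2 : orderOf (lam s)⁻¹ ∣ p := orderOf_dvd_of_pow_eq_one (hpow _)
      have h3 := Nat.eq_one_of_dvd_coprimes hcop h1 h2
      rw [orderOf_eq_one_iff, inv_eq_one] at h3
      exact h3
    · intro h
      rw [h, inv_one, one_pow]
  · -- (c)
    intro P hPT hcen ζ hζ
    show Lam S deg ζ.1 = 1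
    have hPS : P ≤ S := hPT.trans hTS
    refine H86RLCen.Lam_central (p := p) hdeg hfree hpow (P.subgroupOf S)
      (hS.to_subgroup _) ζ.1 ζ.2 (fun u hu x => ?_) (fun x ψ hψ a ha => ?_)
    · have h2 := congrArg (fun e : GG S X => e.1 x) (hζ u hu)
      exact h2
    · rw [hker]
      obtain ⟨Q, f, hf, hE⟩ := hg x
      have h1 : ∀ u : S, (u : Ω) ∈ P → (u : Ω) ∈ Q ∧ ((ψ u : S) : Ω) = f u := fun u hu =>
        (hE _).1 (hψ u hu)
      have hPQ : P ≤ Q := fun u hu => (h1 ⟨u, hPS hu⟩ hu).1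
      obtain ⟨P', hP'⟩ := (hf.restrict hPQ).exists_image
      apply hcen P' (isConj_iff.2 ⟨f, hf.restrict hPQ, hP'⟩)
      refine ⟨a.2, Subgroup.mem_centralizer_iff.2 ?_⟩
      intro y hy
      obtain ⟨u, hu, rfl⟩ := IsMap.exists_of_mem_image hP' hy
      have h2 := ha ⟨u, hPS hu⟩ hu
      have h3 := congrArg (Subtype.val) h2
      rw [← (h1 ⟨u, hPS hu⟩ hu).2]
      exact h3.symm

/-- REALIZATION LEMMA (RL), see notes/helper89/S5113.md, PART I.  `T ⊴ S` of index `p` containing the hyperfocal subgroup. -/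
theorem exists_realization [Finite S] {p : ℕ} [Fact p.Prime] (hS : IsPGroup p S) (F : FusionSystem S)
    (hF : F.IsSaturated p) (T : Subgroup Ω) (hTS : T ≤ S)
    (hTn : ∀ s ∈ S, ∀ t ∈ T, s * t * s⁻¹ ∈ T) (hidx : Nat.card S = p * Nat.card T)
    (hT : F.hyperfocalSubgroup p ≤ T) :
    ∃ (G : Type u) (_ : Group G) (_ : Finite G) (A : Type u) (_ : CommGroup A) (ι : S →* G)
      (Λ : G →* A), Function.Injective ι ∧ Nat.card A = p ∧
      (∀ (P : Subgroup Ω) (f : Ω → Ω), IsMap F P f →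
        ∃ g : G, ∀ x : S, (x : Ω) ∈ P → ∃ hx : f x ∈ S, ι ⟨f x, hx⟩ = g * ι x * g⁻¹) ∧
      (∀ (P : Subgroup Ω) (f : Ω → Ω) (g : G), P ≤ S →
        (∀ x : S, (x : Ω) ∈ P → ∃ hx : f x ∈ S, ι ⟨f x, hx⟩ = g * ι x * g⁻¹) → IsMap F P f) ∧
      (∀ s : S, Λ (ι s) = 1 ↔ (s : Ω) ∈ T) ∧
      (∀ P : Subgroup Ω, P ≤ T → (∀ P' : Subgroup Ω, F.IsConj P P' → centralizerIn S P' ≤ T) →
        ∀ ζ : G, (∀ x : S, (x : Ω) ∈ P → ζ * ι x = ι x * ζ) → Λ ζ = 1) := by
  have hD : (T.subgroupOf S).Normal := ⟨fun t ht s => hTn s s.2 t ht⟩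
  have hcT : Nat.card (T.subgroupOf S) = Nat.card T :=
    Nat.card_congr (Subgroup.subgroupOfEquivOfLe hTS).toEquiv
  have hT0 : 0 < Nat.card T := by
    have : Finite T := Finite.of_injective (Subgroup.inclusion hTS) (Subgroup.inclusion_injective hTS)
    exact Nat.card_pos
  have hcA : Nat.card (S ⧸ T.subgroupOf S) = p := by
    have h1 := Subgroup.card_eq_card_quotient_mul_card_subgroup (T.subgroupOf S)
    rw [hcT, hidx] at h1
    exact (Nat.eq_of_mul_eq_mul_right hT0 h1).symm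
  have hcyc : IsCyclic (S ⧸ T.subgroupOf S) := isCyclic_of_prime_card hcA
  let _ : CommGroup (S ⧸ T.subgroupOf S) := IsCyclic.commGroup
  obtain ⟨G, i1, i2, ι, Λ, h1, h2, h3, h4, h5⟩ := core hS F hF T hTS hT
    (A := S ⧸ T.subgroupOf S) (QuotientGroup.mk' (T.subgroupOf S))
    (fun s => by
      rw [QuotientGroup.mk'_apply, QuotientGroup.eq_one_iff]
      exact Subgroup.mem_subgroupOf) hcA
  exact ⟨G, i1, i2, S ⧸ T.subgroupOf S, _, ι, Λ, h1, hcA, h2, h3, h4, h5⟩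

end Cfsg.Agent.Lib.H89PPRL
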