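import Mathlib
import Cfsg.Agent.Lib.H12ZDefs
import Cfsg.Agent.Lib.H89PPRL
import Cfsg.Agent.Lib.H12ZMk
import Cfsg.Agent.Lib.H12ZS1
import Cfsg.Agent.Lib.H12ZS2
import Cfsg.Agent.Lib.H12ZS3
import Cfsg.Agent.Lib.H12ZS4
import Cfsg.Agent.Lib.H12ZMaxSub

set_option autoImplicit false

namespace Cfsg.Agent.Lib.H12ZMain

open Cfsg Cfsg.FusionSystem Cfsg.Agent.Lib.Helper87Fusion Cfsg.Agent.Lib.H12ZDefs

universe u
variable {Ω : Type u} [Group Ω]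

/-- the index-`p` case. -/
theorem idxp {S : Subgroup Ω} [Finite S] {p : ℕ} [Fact p.Prime] (hS : IsPGroup p S)
    (F : FusionSystem S) (hF : F.IsSaturated p) (T : Subgroup Ω) (hTS : T ≤ S)
    (hTn : ∀ s ∈ S, ∀ t ∈ T, s * t * s⁻¹ ∈ T) (hidx : Nat.card S = p * Nat.card T)
    (hT : F.hyperfocalSubgroup p ≤ T) :
    ∃ E : FusionSystem T, E.IsSaturated p ∧ E.HasPPowerIndexIn F p := by
  obtain ⟨G, _, _, A, _, ι, Λ, hinj, hA, a1, a2, b, c⟩ :=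
    H89PPRL.exists_realization hS F hF T hTS hTn hidx hT
  have h : RL p F T ι Λ := ⟨hS, hF, hTS, hTn, hidx, hT, hinj, hA, a1, a2, b, c⟩
  obtain ⟨E, hE⟩ := H12ZMk.exists_E h
  refine ⟨E, fun P hP => ?_, H12ZS4.s4 h hE⟩
  obtain ⟨P'', hc, hfn⟩ := H12ZS1.s1 h hE hP
  have hP'' : P'' ≤ T := isConj_le_right hc
  exact ⟨P'', hc, H12ZS2.s2 h hE hP'' hfn, H12ZS3.s3 h hE hP'' hfn⟩

/-- existence of saturated subsystems of `p`-power index, by induction on `|S|`. -/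
theorem exists_pp {p : ℕ} [Fact p.Prime] : ∀ (n : ℕ) (S : Subgroup Ω) [Finite S], Nat.card S ≤ n →
    IsPGroup p S → ∀ F : FusionSystem S, F.IsSaturated p → ∀ T : Subgroup Ω, T ≤ S →
    F.hyperfocalSubgroup p ≤ T → ∃ E : FusionSystem T, E.IsSaturated p ∧ E.HasPPowerIndexIn F p := by
  intro n
  induction n with
  | zero =>
    intro S _ hc
    have := Nat.card_pos (α := S)
    omega
  | succ n ih =>
    intro S _ hc hS F hF T hTS hT
    by_cases hne : T = S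
    · subst hne
      exact ⟨F, hF, Cfsg.Agent.Lib.Helper86ResLim.pPowerIndex_self F p hT⟩
    obtain ⟨T₁, hTT₁, hT₁S, hT₁n, hidx⟩ := H12ZMaxSub.exists_max hS hTS hne
    obtain ⟨F₁, hF₁, hF₁i⟩ := idxp hS F hF T₁ hT₁S hT₁n hidx (hT.trans hTT₁)
    have : Finite T₁ := Cfsg.Agent.Lib.Helper86Fusion.finite_of_le hT₁S
    have hpos := Nat.card_pos (α := T₁)
    have hp2 := (Fact.out : p.Prime).two_le
    have hlt : Nat.card T₁ ≤ n := by nlinarith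
    obtain ⟨E, hE, hEi⟩ := ih T₁ hlt (hS.to_le hT₁S) F₁ hF₁ T hTT₁
      ((Cfsg.Agent.Lib.Helper87Hyperfocal.hyperfocal_mono hF₁i.1 p).trans hT)
    exact ⟨E, hE, Cfsg.Agent.Lib.Helper86ResLim.pPowerIndex_trans hS hF₁i
      (Cfsg.Agent.Lib.Helper86PPowerN.stronglyClosed_of_hyperfocal_le hS hF hT₁S hT₁n
        (hT.trans hTT₁)) hEi⟩

end Cfsg.Agent.Lib.H12ZMain
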