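import Mathlib

set_option autoImplicit false

namespace Cfsg.Agent.Lib.H15N720A2
open Subgroup

theorem exists_u {G : Type*} [Group G] [Finite G] (P : Subgroup G) (hP : Nat.card P = 5)
    (hC : Nat.card (centralizer (P : Set G)) = 5)
    (hr : (centralizer (P : Set G)).relIndex (normalizer (P : Set G)) = 4)
    (y : G) (hy : y ∈ P) (hy1 : y ≠ 1) :
    Nat.card (centralizer ({y} : Set G)) = 5 ∧ ∃ u : G, u * y * u⁻¹ = y ^ 2 ∧ u ^ 4 = 1 := by
  have : Fact (Nat.Prime 5) := ⟨by norm_num⟩
  set y0 : P := ⟨y, hy⟩ with hy0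
  have hy01 : y0 ≠ 1 := fun h => hy1 (congrArg Subtype.val h)
  have hgen : ∀ z : P, z ∈ zpowers y0 := fun z => mem_zpowers_of_prime_card hP hy01
  have hz5 : ∀ z : P, z ^ 5 = 1 := by
    intro z
    have h1 : z ^ Nat.card P = 1 := pow_card_eq_one'
    rwa [hP] at h1
  have hy5 : y ^ 5 = 1 := by
    have := congrArg Subtype.val (hz5 y0)
    simpa using this
  have hcent : centralizer ({y} : Set G) = centralizer (P : Set G) := by
    ext g
    rw [mem_centralizer_iff, mem_centralizer_iff]
    constructor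
    · intro h z hz
      obtain ⟨k, hk⟩ := Subgroup.mem_zpowers_iff.mp (hgen ⟨z, hz⟩)
      have hzk : z = y ^ k := by
        have := congrArg Subtype.val hk
        simpa using this.symm
      rw [hzk]
      exact ((show Commute y g from h y rfl).zpow_left k)
    · intro h z hz
      rw [Set.mem_singleton_iff] at hz
      rw [hz]
      exact h y hy
  refine ⟨by rw [hcent, hC], ?_⟩
  have hcyc : IsCyclic P := isCyclic_of_prime_card hP
  have hcomm : ∀ a b : P, a * b = b * a := by
    intro a b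
    obtain ⟨i, rfl⟩ := Subgroup.mem_zpowers_iff.mp (hgen a)
    obtain ⟨j, rfl⟩ := Subgroup.mem_zpowers_iff.mp (hgen b)
    rw [← zpow_add, ← zpow_add, add_comm]
  let σ : MulAut P :=
    { toFun := fun z => z ^ 2
      invFun := fun z => z ^ 3
      left_inv := fun z => by
        show (z ^ 2) ^ 3 = z
        rw [← pow_mul]
        calc z ^ (2 * 3) = z ^ 5 * z := by rw [← pow_succ]
          _ = z := by rw [hz5, one_mul]
      right_inv := fun z => by
        show (z ^ 3) ^ 2 = z
        rw [← pow_mul]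
        calc z ^ (3 * 2) = z ^ 5 * z := by rw [← pow_succ]
          _ = z := by rw [hz5, one_mul]
      map_mul' := fun a b => (show Commute a b from hcomm a b).mul_pow 2 }
  have hrange : P.normalizerMonoidHom.range = ⊤ := by
    apply Subgroup.eq_top_of_card_eq
    rw [← Subgroup.index_ker, normalizerMonoidHom_ker, hcyc.card_mulAut, hP]
    have : Nat.totient 5 = 4 := by decide
    rw [this]
    exact hr
  obtain ⟨u0, hu0⟩ : σ ∈ P.normalizerMonoidHom.range := by rw [hrange]; exact mem_top _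
  have hconj : (u0 : G) * y * (u0 : G)⁻¹ = y ^ 2 := by
    have h1 := congrArg (fun τ : MulAut P => ((τ y0 : P) : G)) hu0
    have h2 : ((P.normalizerMonoidHom u0 y0 : P) : G) = (u0 : G) * y * (u0 : G)⁻¹ := rfl
    have h3 : ((σ y0 : P) : G) = y ^ 2 := rfl
    rw [← h2, ← h3]
    exact h1
  have hN : Nat.card (normalizer (P : Set G)) = 20 := by
    have h1 := Subgroup.relIndex_mul_relIndex ⊥ (centralizer (P : Set G))
      (normalizer (P : Set G)) bot_le (Subgroup.centralizer_le_normalizer _)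
    rw [Subgroup.relIndex_bot_left, Subgroup.relIndex_bot_left, hC, hr] at h1
    omega
  have hu20 : (u0 : G) ^ 20 = 1 := by
    have h1 : u0 ^ Nat.card (normalizer (P : Set G)) = 1 := pow_card_eq_one'
    rw [hN] at h1
    have := congrArg Subtype.val h1
    simpa using this
  have hpow : ∀ k : ℕ, (u0 : G) ^ k * y * ((u0 : G) ^ k)⁻¹ = y ^ (2 ^ k) := by
    intro k
    induction k with
    | zero => simp
    | succ k ih =>
      calc (u0 : G) ^ (k + 1) * y * ((u0 : G) ^ (k + 1))⁻¹
          = (u0 : G) * ((u0 : G) ^ k * y * ((u0 : G) ^ k)⁻¹) * (u0 : G)⁻¹ := by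
            rw [pow_succ']; group
        _ = (u0 : G) * y ^ (2 ^ k) * (u0 : G)⁻¹ := by rw [ih]
        _ = ((u0 : G) * y * (u0 : G)⁻¹) ^ (2 ^ k) := by rw [conj_pow]
        _ = y ^ (2 ^ (k + 1)) := by rw [hconj, ← pow_mul, pow_succ']
  refine ⟨(u0 : G) ^ 5, ?_, by rw [← pow_mul]; exact hu20⟩
  rw [hpow 5]
  calc y ^ (2 ^ 5) = (y ^ 5) ^ 6 * y ^ 2 := by rw [← pow_mul, ← pow_add]; norm_num
    _ = y ^ 2 := by rw [hy5, one_pow, one_mul]

end Cfsg.Agent.Lib.H15N720A2
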