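import Mathlib

set_option autoImplicit false

/-! PROJECT 720 (= piece N720 of project 496), piece C (45m), PURE MATHLIB: the degree equation. -/
namespace Cfsg.Agent.Lib.H15N720C

theorem exists_deg_four {ι : Type*} [Fintype ι] (d : ι → ℕ) (c : ι → ℤ) (i0 : ι)
    (hd : ∀ i, d i ∣ 720) (h1 : ∀ i, d i = 1 ↔ i = i0) (hc0 : c i0 = 1)
    (hmod : ∀ i, (5 : ℤ) ∣ (d i : ℤ) - c i)
    (hsq : ∑ i, (d i) ^ 2 = 720) (hcc : ∑ i, (c i) ^ 2 = 5) (hcd : ∑ i, (d i : ℤ) * c i = 0) :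
    ∃ i, d i = 4 ∧ c i = -1 := by
  classical
  have hdle : ∀ i, d i ≤ 26 := by
    intro i
    have h := Finset.single_le_sum (f := fun j => (d j) ^ 2) (fun j _ => Nat.zero_le _)
      (Finset.mem_univ i)
    rw [hsq] at h
    by_contra hlt
    push Not at hlt
    nlinarith
  have hcle : ∀ i, -2 ≤ c i ∧ c i ≤ 2 := by
    intro i
    have h := Finset.single_le_sum (f := fun j => (c j) ^ 2) (fun j _ => sq_nonneg _)
      (Finset.mem_univ i)
    rw [hcc] at h
    constructor <;> nlinarith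
  have hclass : ∀ i, c i = 0 ∨ (d i = 1 ∧ c i = 1) ∨ (d i = 2 ∧ c i = 2) ∨ (d i = 3 ∧ c i = -2) ∨
      (d i = 4 ∧ c i = -1) ∨ (d i = 6 ∧ c i = 1) ∨ (d i = 8 ∧ c i = -2) ∨ (d i = 9 ∧ c i = -1) ∨
      (d i = 12 ∧ c i = 2) ∨ (d i = 16 ∧ c i = 1) ∨ (d i = 18 ∧ c i = -2) ∨
      (d i = 24 ∧ c i = -1) := by
    intro i
    have h1 := hdle i
    obtain ⟨h2, h3⟩ := hcle i
    have h4 := hd i
    have h5 := hmod i
    generalize d i = a at *
    generalize c i = b at *
    interval_cases a <;> interval_cases b <;> omega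
  let f : ℕ → ℤ → ι → ℤ := fun a b i => if d i = a ∧ c i = b then 1 else 0
  have hf0 : ∀ a b i, 0 ≤ f a b i := by
    intro a b i
    simp only [f]
    split_ifs <;> norm_num
  have e1 : ∀ i, (c i) ^ 2 = f 1 1 i + 4 * f 2 2 i + 4 * f 3 (-2) i + f 4 (-1) i + f 6 1 i
      + 4 * f 8 (-2) i + f 9 (-1) i + 4 * f 12 2 i + f 16 1 i + 4 * f 18 (-2) i + f 24 (-1) i := by
    intro i
    rcases hclass i with h | h | h | h | h | h | h | h | h | h | h | h
    · simp [f, h]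
    all_goals simp [f, h.1, h.2]
  have e2 : ∀ i, (d i : ℤ) * c i = f 1 1 i + 4 * f 2 2 i - 6 * f 3 (-2) i - 4 * f 4 (-1) i
      + 6 * f 6 1 i - 16 * f 8 (-2) i - 9 * f 9 (-1) i + 24 * f 12 2 i + 16 * f 16 1 i
      - 36 * f 18 (-2) i - 24 * f 24 (-1) i := by
    intro i
    rcases hclass i with h | h | h | h | h | h | h | h | h | h | h | h
    · simp [f, h]
    all_goals simp [f, h.1, h.2]
  have e3 : ∀ i, f 1 1 i + 4 * f 2 2 i + 9 * f 3 (-2) i + 16 * f 4 (-1) i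
      + 36 * f 6 1 i + 64 * f 8 (-2) i + 81 * f 9 (-1) i + 144 * f 12 2 i + 256 * f 16 1 i
      + 324 * f 18 (-2) i + 576 * f 24 (-1) i ≤ (d i : ℤ) ^ 2 := by
    intro i
    rcases hclass i with h | h | h | h | h | h | h | h | h | h | h | h
    · simp [f, h]
    all_goals simp [f, h.1, h.2]
  have hsq' : ∑ i, (d i : ℤ) ^ 2 = 720 := by exact_mod_cast hsq
  have s1 := hcc
  rw [Finset.sum_congr rfl (fun i _ => e1 i)] at s1
  have s2 := hcd
  rw [Finset.sum_congr rfl (fun i _ => e2 i)] at s2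
  have s3 := Finset.sum_le_sum (s := Finset.univ) (fun i _ => e3 i)
  rw [hsq'] at s3
  simp only [Finset.sum_add_distrib, Finset.sum_sub_distrib, ← Finset.mul_sum] at s1 s2 s3
  have hN : ∀ a b, 0 ≤ ∑ i, f a b i := fun a b => Finset.sum_nonneg (fun i _ => hf0 a b i)
  have h11 : ∑ i, f 1 1 i = 1 := by
    have : ∀ i, f 1 1 i = if i = i0 then 1 else 0 := by
      intro i
      simp only [f]
      by_cases hi : i = i0
      · subst hi
        simp [(h1 i).mpr rfl, hc0]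
      · have : d i ≠ 1 := fun h => hi ((h1 i).mp h)
        simp [hi, this]
    rw [Finset.sum_congr rfl (fun i _ => this i)]
    simp
  have h4 : ∑ i, f 4 (-1) i ≠ 0 := by
    intro h4
    have a1 := hN 2 2
    have a2 := hN 3 (-2)
    have a3 := hN 6 1
    have a4 := hN 8 (-2)
    have a5 := hN 9 (-1)
    have a6 := hN 12 2
    have a7 := hN 16 1
    have a8 := hN 18 (-2)
    have a9 := hN 24 (-1)
    rw [h11, h4] at s1 s2 s3
    generalize ∑ i, f 2 2 i = n1 at *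
    generalize ∑ i, f 3 (-2) i = n2 at *
    generalize ∑ i, f 6 1 i = n3 at *
    generalize ∑ i, f 8 (-2) i = n4 at *
    generalize ∑ i, f 9 (-1) i = n5 at *
    generalize ∑ i, f 12 2 i = n6 at *
    generalize ∑ i, f 16 1 i = n7 at *
    generalize ∑ i, f 18 (-2) i = n8 at *
    generalize ∑ i, f 24 (-1) i = n9 at *
    omega
  obtain ⟨i, -, hi⟩ := Finset.exists_ne_zero_of_sum_ne_zero h4
  refine ⟨i, ?_⟩
  by_contra hcon
  apply hi
  simp only [f]
  rw [if_neg hcon]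

end Cfsg.Agent.Lib.H15N720C
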