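import Mathlib

set_option autoImplicit false

/-! PROJECT 720 (= piece N720 of project 496), piece D1 (30m), PURE MATHLIB. -/
namespace Cfsg.Agent.Lib.H15N720D1

theorem det_of_traces (M : Matrix (Fin 4) (Fin 4) ℂ) (h4 : M ^ 4 = 1) (t1 : M.trace = 0)
    (t2 : (M ^ 2).trace = 0) (t3 : (M ^ 3).trace = 0) : M.det = -1 := by
  have hCH := Matrix.aeval_self_charpoly M
  have hdeg : M.charpoly.natDegree = 4 := by
    rw [Matrix.charpoly_natDegree_eq_dim]; simp
  have hlead : M.charpoly.coeff 4 = 1 := by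
    have := (Matrix.charpoly_monic M).coeff_natDegree
    rwa [hdeg] at this
  rw [Polynomial.aeval_eq_sum_range, hdeg] at hCH
  simp only [Finset.sum_range_succ, Finset.sum_range_zero, zero_add] at hCH
  have htr := congrArg Matrix.trace hCH
  simp only [Matrix.trace_add, Matrix.trace_smul, pow_zero, pow_one, t1, t2, t3, h4, hlead,
    Matrix.trace_one, Matrix.trace_zero, smul_eq_mul, mul_zero, add_zero, Fintype.card_fin] at htr
  have hc0 : M.charpoly.coeff 0 = -1 := by
    push_cast at htr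
    linear_combination (1/4 : ℂ) * htr
  rw [Matrix.det_eq_sign_charpoly_coeff, hc0]
  simp only [Fintype.card_fin]
  norm_num

theorem det_of_traces' (T : (Fin 4 → ℂ) →ₗ[ℂ] (Fin 4 → ℂ)) (h4 : T ^ 4 = 1)
    (t1 : LinearMap.trace ℂ _ T = 0) (t2 : LinearMap.trace ℂ _ (T ^ 2) = 0)
    (t3 : LinearMap.trace ℂ _ (T ^ 3) = 0) : LinearMap.det T = -1 := by
  have hpow : ∀ k : ℕ, LinearMap.toMatrix' (T ^ k) = (LinearMap.toMatrix' T) ^ k := by
    intro k
    induction k with
    | zero => simp [Module.End.one_eq_id]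
    | succ k ih => rw [pow_succ, pow_succ, Module.End.mul_eq_comp, LinearMap.toMatrix'_comp, ih]
  have htr : ∀ S : (Fin 4 → ℂ) →ₗ[ℂ] (Fin 4 → ℂ), LinearMap.trace ℂ _ S = (LinearMap.toMatrix' S).trace := by
    intro S
    rw [LinearMap.trace_eq_matrix_trace ℂ (Pi.basisFun ℂ (Fin 4)) S]
    rfl
  rw [← LinearMap.det_toMatrix']
  apply det_of_traces
  · rw [← hpow, h4]; simp [Module.End.one_eq_id]
  · rw [← htr, t1]
  · rw [← hpow, ← htr, t2]
  · rw [← hpow, ← htr, t3]

end Cfsg.Agent.Lib.H15N720D1
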