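import Mathlib

set_option autoImplicit false

/-! PROJECT 720 (= piece N720 of project 496), piece D2 (35m), PURE MATHLIB. -/
namespace Cfsg.Agent.Lib.H15N720D2

theorem eq_zero_of_idem {V : Type*} [AddCommGroup V] [Module ℂ V] [FiniteDimensional ℂ V]
    (F : V →ₗ[ℂ] V) (hF : F * F = F) (ht : LinearMap.trace ℂ V F = 0) : F = 0 := by
  have hproj : LinearMap.IsProj (LinearMap.range F) F := by
    refine ⟨fun x => ⟨x, rfl⟩, ?_⟩
    rintro _ ⟨x, rfl⟩
    have := congrArg (fun T : V →ₗ[ℂ] V => T x) hF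
    simpa using this
  have h1 := hproj.trace
  rw [ht] at h1
  have h2 : Module.finrank ℂ (LinearMap.range F) = 0 := by
    exact_mod_cast h1.symm
  rw [Submodule.finrank_eq_zero] at h2
  exact LinearMap.range_eq_bot.mp h2

theorem sum_pow_eq_zero {V : Type*} [AddCommGroup V] [Module ℂ V] [FiniteDimensional ℂ V]
    (A : V →ₗ[ℂ] V) (hA : A ^ 5 = 1) (ht : LinearMap.trace ℂ V (1 + A + A ^ 2 + A ^ 3 + A ^ 4) = 0) :
    1 + A + A ^ 2 + A ^ 3 + A ^ 4 = 0 := by
  set E := 1 + A + A ^ 2 + A ^ 3 + A ^ 4 with hE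
  have hAE : A * E = E := by
    rw [hE]
    have : A * (1 + A + A ^ 2 + A ^ 3 + A ^ 4) = A + A ^ 2 + A ^ 3 + A ^ 4 + A ^ 5 := by
      noncomm_ring
    rw [this, hA]
    abel
  have hAk : ∀ k : ℕ, A ^ k * E = E := by
    intro k
    induction k with
    | zero => simp
    | succ k ih => rw [pow_succ, mul_assoc, hAE, ih]
  have hEE : E * E = (5 : ℂ) • E := by
    have h0 : E * E = 1 * E + A * E + A ^ 2 * E + A ^ 3 * E + A ^ 4 * E := by
      conv_lhs => rw [hE]
      simp only [add_mul]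
      rw [← hE]
    rw [h0, one_mul, hAE, hAk 2, hAk 3, hAk 4]
    module
  have hz : ((1 / 5 : ℂ) • E) = 0 := by
    apply eq_zero_of_idem
    · rw [smul_mul_smul_comm, hEE, smul_smul]
      congr 1
      norm_num
    · rw [map_smul, ht, smul_zero]
  have : E = (5 : ℂ) • ((1 / 5 : ℂ) • E) := by
    rw [smul_smul]; norm_num
  rw [this, hz, smul_zero]

end Cfsg.Agent.Lib.H15N720D2
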