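import Mathlib

set_option autoImplicit false

/-! PROJECT 720 (= piece N720 of project 496), piece D3 (40m), PURE MATHLIB. -/
namespace Cfsg.Agent.Lib.H15N720D3

theorem trace_eq_zero {V : Type*} [AddCommGroup V] [Module ℂ V] [FiniteDimensional ℂ V]
    (A B : V →ₗ[ℂ] V) (hA : A ^ 5 = 1) (hE : 1 + A + A ^ 2 + A ^ 3 + A ^ 4 = 0) (e : ℕ)
    (he : e = 2 ∨ e = 3 ∨ e = 4) (hBA : B * A = A ^ e * B) : LinearMap.trace ℂ V B = 0 := by
  have hBAj : ∀ j : ℕ, B * A ^ j = A ^ (e * j) * B := by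
    intro j
    induction j with
    | zero => simp
    | succ j ih =>
      rw [pow_succ, ← mul_assoc, ih, mul_assoc, hBA, ← mul_assoc, ← pow_add, Nat.mul_succ]
  have hmod : ∀ n : ℕ, A ^ n = A ^ (n % 5) := fun n => pow_eq_pow_mod n hA
  have hkey : ∀ i : ℕ, LinearMap.trace ℂ V B = LinearMap.trace ℂ V (A ^ (i * (1 + 4 * e)) * B) := by
    intro i
    have h1 : A ^ (i * (1 + 4 * e)) * B = A ^ i * (B * A ^ (4 * i)) := by
      rw [hBAj, ← mul_assoc, ← pow_add]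
      congr 2
      ring
    rw [h1, LinearMap.trace_mul_comm, mul_assoc, ← pow_add]
    have : A ^ (4 * i + i) = 1 := by
      have : 4 * i + i = 5 * i := by ring
      rw [this, pow_mul, hA, one_pow]
    rw [this, mul_one]
  have hsum : A ^ (0 * (1 + 4 * e)) + A ^ (1 * (1 + 4 * e)) + A ^ (2 * (1 + 4 * e))
      + A ^ (3 * (1 + 4 * e)) + A ^ (4 * (1 + 4 * e)) = 0 := by
    rcases he with rfl | rfl | rfl
    · rw [hmod (0 * (1 + 4 * 2)), hmod (1 * (1 + 4 * 2)), hmod (2 * (1 + 4 * 2)),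
        hmod (3 * (1 + 4 * 2)), hmod (4 * (1 + 4 * 2))]
      norm_num
      rw [← hE]; abel
    · rw [hmod (0 * (1 + 4 * 3)), hmod (1 * (1 + 4 * 3)), hmod (2 * (1 + 4 * 3)),
        hmod (3 * (1 + 4 * 3)), hmod (4 * (1 + 4 * 3))]
      norm_num
      rw [← hE]; abel
    · rw [hmod (0 * (1 + 4 * 4)), hmod (1 * (1 + 4 * 4)), hmod (2 * (1 + 4 * 4)),
        hmod (3 * (1 + 4 * 4)), hmod (4 * (1 + 4 * 4))]
      norm_num
      rw [← hE]; abel
  have h5 : (5 : ℂ) * LinearMap.trace ℂ V B = 0 := by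
    have h0 := hkey 0
    have h1 := hkey 1
    have h2 := hkey 2
    have h3 := hkey 3
    have h4 := hkey 4
    have : (5 : ℂ) * LinearMap.trace ℂ V B =
        LinearMap.trace ℂ V ((A ^ (0 * (1 + 4 * e)) + A ^ (1 * (1 + 4 * e)) + A ^ (2 * (1 + 4 * e))
      + A ^ (3 * (1 + 4 * e)) + A ^ (4 * (1 + 4 * e))) * B) := by
      simp only [add_mul, map_add]
      rw [← h0, ← h1, ← h2, ← h3, ← h4]
      ring
    rw [this, hsum, zero_mul, map_zero]
  have : (5 : ℂ) ≠ 0 := by norm_num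
  exact (mul_eq_zero.mp h5).resolve_left this

end Cfsg.Agent.Lib.H15N720D3
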