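import Mathlib
import Cfsg.Agent.Lib.H15N720D1
import Cfsg.Agent.Lib.H15N720D2
import Cfsg.Agent.Lib.H15N720D3

set_option autoImplicit false

/-! PROJECT 720 (= piece N720 of project 496), piece D4. -/
namespace Cfsg.Agent.Lib.H15N720D4

theorem det_u {G : Type*} [Group G] (ρ : Representation ℂ G (Fin 4 → ℂ)) (y u : G) (hy : y ^ 5 = 1)
    (hu : u * y * u⁻¹ = y ^ 2) (hu4 : u ^ 4 = 1)
    (htr : ∀ k : ℕ, k = 1 ∨ k = 2 ∨ k = 3 ∨ k = 4 → LinearMap.trace ℂ _ (ρ (y ^ k)) = -1) :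
    LinearMap.det (ρ u) = -1 := by
  have hA : (ρ y) ^ 5 = 1 := by rw [← map_pow, hy, map_one]
  have hU4 : (ρ u) ^ 4 = 1 := by rw [← map_pow, hu4, map_one]
  have hE : 1 + ρ y + (ρ y) ^ 2 + (ρ y) ^ 3 + (ρ y) ^ 4 = 0 := by
    apply H15N720D2.sum_pow_eq_zero _ hA
    have h1 := htr 1 (by simp)
    have h2 := htr 2 (by simp)
    have h3 := htr 3 (by simp)
    have h4 := htr 4 (by simp)
    rw [pow_one] at h1
    rw [map_pow] at h2 h3 h4
    rw [map_add, map_add, map_add, map_add, h1, h2, h3, h4, LinearMap.trace_one,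
      Module.finrank_fin_fun]
    norm_num
  have huy : u * y = y ^ 2 * u := by
    rw [← hu]; group
  have c1 : ρ u * ρ y = (ρ y) ^ 2 * ρ u := by
    rw [← map_pow, ← map_mul, ← map_mul, huy]
  have huyk : ∀ k : ℕ, ρ u * (ρ y) ^ k = (ρ y) ^ (2 * k) * ρ u := by
    intro k
    induction k with
    | zero => simp
    | succ k ih =>
      rw [pow_succ, ← mul_assoc, ih, mul_assoc, c1, ← mul_assoc, ← pow_add]
      congr 2
  have c2 : (ρ u) ^ 2 * ρ y = (ρ y) ^ 4 * (ρ u) ^ 2 := by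
    rw [pow_two, mul_assoc, c1, ← mul_assoc, huyk 2, mul_assoc]
  have c3 : (ρ u) ^ 3 * ρ y = (ρ y) ^ 3 * (ρ u) ^ 3 := by
    have h8 : (ρ y) ^ 8 = (ρ y) ^ 3 := by
      calc (ρ y) ^ 8 = (ρ y) ^ 5 * (ρ y) ^ 3 := by rw [← pow_add]
        _ = (ρ y) ^ 3 := by rw [hA, one_mul]
    rw [pow_succ' (ρ u) 2, mul_assoc, c2, ← mul_assoc, huyk 4, mul_assoc, h8]
  have t1 := H15N720D3.trace_eq_zero (ρ y) (ρ u) hA hE 2 (by simp) c1
  have t2 := H15N720D3.trace_eq_zero (ρ y) ((ρ u) ^ 2) hA hE 4 (by simp) c2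
  have t3 := H15N720D3.trace_eq_zero (ρ y) ((ρ u) ^ 3) hA hE 3 (by simp) c3
  exact H15N720D1.det_of_traces' (ρ u) hU4 t1 t2 t3

end Cfsg.Agent.Lib.H15N720D4
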