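import Cfsg.Agent.Lib.H16ThDefs

set_option autoImplicit false

namespace Cfsg.Agent.Lib.H16ThAvg

open Cfsg.Agent.Lib.H16ThDefs

variable {V Z Γ : Type*} [AddCommGroup V] [AddCommGroup Z] [Group Γ] [DistribMulAction Γ V]

theorem avg (hV2 : ∀ v : V, v + v = 0) (R : Subgroup Γ) [Finite R] (hR : Odd (Nat.card R)) (v : V)
    (hv : v ∈ Fix V R)
    (hcl : v ∈ AddSubgroup.closure {x : V | ∃ r ∈ R, ∃ w : V, x = r • w + w}) : v = 0 := by
  classical
  have := Fintype.ofFinite R
  let e : V → V := fun v => ∑ r : R, (r : Γ) • v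
  have eadd : ∀ a b, e (a + b) = e a + e b := by
    intro a b
    simp only [e, smul_add, Finset.sum_add_distrib]
  have ezero : e 0 = 0 := by simp [e]
  have eneg : ∀ a, e (-a) = - e a := by
    intro a
    simp only [e, smul_neg, Finset.sum_neg_distrib]
  have esmul : ∀ (r : R) (w : V), e ((r : Γ) • w) = e w := by
    intro r w
    simp only [e]
    refine Fintype.sum_equiv (Equiv.mulRight r) _ _ ?_
    intro s
    simp [mul_smul]
  have h1 : e v = 0 := by
    clear hv
    induction hcl using AddSubgroup.closure_induction with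
    | mem x hx =>
      obtain ⟨r, hr, w, rfl⟩ := hx
      rw [eadd, esmul ⟨r, hr⟩ w, hV2]
    | zero => exact ezero
    | add a b _ _ iha ihb => rw [eadd, iha, ihb, add_zero]
    | neg a _ iha => rw [eneg, iha, neg_zero]
  have h2 : e v = (Nat.card R) • v := by
    simp only [e]
    rw [Finset.sum_congr rfl (fun r _ => hv r.1 r.2), Finset.sum_const, Finset.card_univ,
      Nat.card_eq_fintype_card]
  obtain ⟨k, hk⟩ := hR
  rw [hk, add_smul, one_smul, mul_smul, two_smul, ← smul_add, hV2, smul_zero, zero_add] at h2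
  rw [← h2, h1]

end Cfsg.Agent.Lib.H16ThAvg
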