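import Cfsg.Agent.Lib.H16ThDefs

set_option autoImplicit false

namespace Cfsg.Agent.Lib.H16ThCW

open Cfsg.Agent.Lib.H16ThDefs

/-! PIECE CW: Chevalley-Warning for a system of quadratic maps over `F_2`, proved with finite
differences (no polynomials). -/

section diff

variable {A : Type*} [AddCommGroup A]

/-- `F` has degree `< k`: all `k`-fold differences vanish. -/
def DL : ℕ → (A → ZMod 2) → Prop
  | 0, F => ∀ x, F x = 0
  | k + 1, F => ∀ h, DL k (fun x => F (x + h) + F x)

theorem two_eq : (2 : ZMod 2) = 0 := by decide

theorem dl_zero (k : ℕ) : DL k (fun _ : A => (0 : ZMod 2)) := by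
  induction k with
  | zero => intro x; rfl
  | succ k ih =>
    intro h
    simpa using ih

theorem dl_add {k : ℕ} {F G : A → ZMod 2} (hF : DL k F) (hG : DL k G) :
    DL k (fun x => F x + G x) := by
  induction k generalizing F G with
  | zero =>
    intro x
    show F x + G x = 0
    rw [hF x, hG x, add_zero]
  | succ k ih =>
    intro h
    have := ih (hF h) (hG h)
    have e : (fun x => F (x + h) + G (x + h) + (F x + G x))
        = fun x => F (x + h) + F x + (G (x + h) + G x) := by
      funext x; ring
    rw [e]
    exact this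

theorem dl_succ {k : ℕ} {F : A → ZMod 2} (hF : DL k F) : DL (k + 1) F := by
  induction k generalizing F with
  | zero =>
    intro h x
    show F (x + h) + F x = 0
    rw [hF, hF, add_zero]
  | succ k ih => intro h; exact ih (hF h)

theorem dl_mono {k l : ℕ} (hkl : k ≤ l) {F : A → ZMod 2} (hF : DL k F) : DL l F := by
  induction hkl with
  | refl => exact hF
  | step _ ih => exact dl_succ ih

theorem dl_comp {B : Type*} [AddCommGroup B] (φ : B →+ A) {k : ℕ} {F : A → ZMod 2}
    (hF : DL k F) : DL k (fun x => F (φ x)) := by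
  induction k generalizing F with
  | zero => intro x; exact hF _
  | succ k ih =>
    intro h
    have := ih (hF (φ h))
    simpa only [map_add] using this

theorem dl_shift (c : A) {k : ℕ} {F : A → ZMod 2} (hF : DL k F) :
    DL k (fun x => F (x + c)) := by
  induction k generalizing F with
  | zero => intro x; exact hF _
  | succ k ih =>
    intro h
    have := ih (hF h)
    have e : (fun x => F (x + h + c) + F (x + c)) = fun x => F (x + c + h) + F (x + c) := by
      funext x; rw [add_right_comm]
    rw [e]
    exact this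

theorem dl_mul : ∀ (m a b : ℕ) (F G : A → ZMod 2), a + b = m → DL (a + 1) F → DL (b + 1) G →
    DL (a + b + 1) (fun x => F x * G x) := by
  intro m
  induction m using Nat.strong_induction_on with
  | _ m ih =>
    intro a b F G hab hF hG h
    have e : (fun x => F (x + h) * G (x + h) + F x * G x)
        = fun x => (F (x + h) + F x) * G (x + h) + F x * (G (x + h) + G x) := by
      funext x
      linear_combination (-(F x * G (x + h))) * two_eq
    rw [e]
    apply dl_add
    · cases a with
      | zero =>
        have h0 : ∀ x, F (x + h) + F x = 0 := hF h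
        simp only [h0, zero_mul]
        exact dl_zero _
      | succ a' =>
        have := ih (a' + b) (by omega) a' b _ _ rfl (hF h) (dl_shift h hG)
        have e2 : a' + 1 + b = a' + b + 1 := by omega
        rw [e2]
        exact this
    · cases b with
      | zero =>
        have h0 : ∀ x, G (x + h) + G x = 0 := hG h
        simp only [h0, mul_zero]
        exact dl_zero _
      | succ b' =>
        exact ih (a + b') (by omega) a b' _ _ rfl hF (hG h)

theorem dl_prod {ι : Type*} (s : Finset ι) (f : ι → A → ZMod 2) (hf : ∀ i ∈ s, DL 3 (f i)) :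
    DL (2 * s.card + 1) (fun x => ∏ i ∈ s, f i x) := by
  classical
  induction s using Finset.induction_on with
  | empty =>
    intro h x
    simp only [Finset.prod_empty]
    decide
  | insert a s ha ih =>
    have h1 := ih (fun i hi => hf i (Finset.mem_insert_of_mem hi))
    have h2 := dl_mul _ 2 (2 * s.card) (f a) _ rfl (hf a (Finset.mem_insert_self a s)) h1
    rw [Finset.card_insert_of_notMem ha]
    have e : 2 * (s.card + 1) + 1 = 2 + 2 * s.card + 1 := by ring
    rw [e]
    simpa only [Finset.prod_insert ha] using h2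

end diff

theorem sum_zero : ∀ (d : ℕ) (F : (Fin d → ZMod 2) → ZMod 2), DL d F → ∑ x, F x = 0 := by
  intro d
  induction d with
  | zero =>
    intro F hF
    exact Finset.sum_eq_zero fun x _ => hF x
  | succ d ih =>
    intro F hF
    let φ : (Fin d → ZMod 2) →+ (Fin (d + 1) → ZMod 2) :=
      { toFun := fun y => Fin.cons 0 y
        map_zero' := by
          funext i
          refine Fin.cases ?_ (fun j => ?_) i <;> simp
        map_add' := by
          intro y y'
          funext i
          refine Fin.cases ?_ (fun j => ?_) i <;> simp }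
    have h1 := ih _ (dl_comp φ (hF (Fin.cons 1 0)))
    rw [← (Fin.consEquiv (fun _ : Fin (d + 1) => ZMod 2)).sum_comp, Fintype.sum_prod_type]
    have e2 : ∀ g : ZMod 2 → ZMod 2, ∑ a : ZMod 2, g a = g 1 + g 0 := by
      intro g
      have := Fin.sum_univ_two g
      rw [add_comm] at this
      exact this
    rw [e2, ← Finset.sum_add_distrib]
    refine Eq.trans ?_ h1
    refine Finset.sum_congr rfl fun y _ => ?_
    have e3 : (Fin.cons 1 y : Fin (d + 1) → ZMod 2) = φ y + Fin.cons 1 0 := by
      funext i
      refine Fin.cases ?_ (fun j => ?_) i <;> simp [φ]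
    show F (Fin.cons 1 y) + F (Fin.cons 0 y) = F (φ y + Fin.cons 1 0) + F (φ y)
    rw [e3]
    rfl

theorem concrete {d n : ℕ} (q : (Fin d → ZMod 2) → (Fin n → ZMod 2)) (h0 : q 0 = 0)
    (han : ∀ v, q v = 0 → v = 0)
    (hpol : ∀ u v w, q (u + v + w) = q (u + v) + q (u + w) + q (v + w) + q u + q v + q w) :
    d ≤ 2 * n := by
  by_contra hcon
  have hdl : ∀ i : Fin n, DL 3 (fun x => 1 + q x i) := by
    intro i h1 h2 h3 x
    have p1 := congrFun (hpol (x + h3) h2 h1) i
    have p2 := congrFun (hpol x h2 h1) i
    simp only [Pi.add_apply] at p1 p2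
    show 1 + q (x + h3 + h2 + h1) i + (1 + q (x + h3 + h2) i)
        + (1 + q (x + h3 + h1) i + (1 + q (x + h3) i))
        + (1 + q (x + h2 + h1) i + (1 + q (x + h2) i) + (1 + q (x + h1) i + (1 + q x i))) = 0
    linear_combination p1 + p2 + (4 + q (x + h3 + h2) i + q (x + h3 + h1) i + q (x + h3) i
      + q (x + h2) i + q (x + h1) i + q x i + q (h2 + h1) i + q h2 i + q h1 i) * two_eq
  have h1 := dl_prod (Finset.univ : Finset (Fin n)) (fun i x => 1 + q x i) (fun i _ => hdl i)
  rw [Finset.card_univ, Fintype.card_fin] at h1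
  have h2 := sum_zero d _ (dl_mono (by omega) h1)
  rw [Finset.sum_eq_single 0] at h2
  · rw [h0] at h2
    simp at h2
  · intro x _ hx
    have hq : q x ≠ 0 := fun h => hx (han x h)
    obtain ⟨i, hi⟩ := Function.ne_iff.mp hq
    apply Finset.prod_eq_zero (Finset.mem_univ i)
    have : ∀ t : ZMod 2, t ≠ 0 → 1 + t = 0 := by decide
    exact this _ hi
  · intro h
    exact absurd (Finset.mem_univ _) h

theorem exists_equiv (V : Type*) [AddCommGroup V] [Finite V] (h2 : ∀ v : V, v + v = 0) :
    ∃ d : ℕ, Nonempty (V ≃+ (Fin d → ZMod 2)) := by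
  let _ : Module (ZMod 2) V := AddCommGroup.zmodModule (n := 2) (fun v => by rw [two_nsmul]; exact h2 v)
  exact ⟨_, ⟨(Module.finBasis (ZMod 2) V).equivFun.toAddEquiv⟩⟩

theorem card_pow (d : ℕ) : Nat.card (Fin d → ZMod 2) = 2 ^ d := by
  simp [Nat.card_eq_fintype_card, ZMod.card]

variable {V Z : Type*} [AddCommGroup V] [AddCommGroup Z]

theorem card_le [Finite V] [Finite Z] {q : V → Z} (h : AQ q) : Nat.card V ≤ Nat.card Z ^ 2 := by
  obtain ⟨d, ⟨eV⟩⟩ := exists_equiv V h.two_V
  obtain ⟨n, ⟨eZ⟩⟩ := exists_equiv Z h.two_Z
  have h1 : d ≤ 2 * n := by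
    apply concrete (fun x => eZ (q (eV.symm x)))
    · simp [h.zero]
    · intro v hv
      have h3 : q (eV.symm v) = 0 := by
        apply eZ.injective
        rw [map_zero]
        exact hv
      have h4 := h.aniso _ h3
      apply eV.symm.injective
      rw [map_zero]
      exact h4
    · intro u v w
      simp only [map_add]
      rw [h.polar]
      simp only [map_add]
  rw [Nat.card_congr eV.toEquiv, Nat.card_congr eZ.toEquiv, card_pow, card_pow, ← pow_mul,
    mul_comm n 2]
  exact Nat.pow_le_pow_right (by norm_num) h1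

end Cfsg.Agent.Lib.H16ThCW
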