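import Cfsg.Agent.Lib.H16ThDefs

set_option autoImplicit false

namespace Cfsg.Agent.Lib.H16ThComb

open Cfsg.Agent.Lib.H16ThDefs

variable {V Z Γ : Type*} [AddCommGroup V] [AddCommGroup Z] [Group Γ] [DistribMulAction Γ V]

/-- PIECE Comb (pure, combinatorial).  If `N` normalizes `T` and is transitive on `C_V(T) \ 0`, and
for one `b` the set `{s ∈ T | b ∉ [V,s]}` is the index 2 subgroup `K`, then `K = 1`.
Proof.  For `g ∈ N` the subgroup `K^g = g K g⁻¹` has the same properties for `g • b`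
(`(g s g⁻¹) • (g • v) + g • v = g • (s • v + v)`).  Suppose `1 ≠ s ∈ K`; by faithfulness
`b' := s • v + v ≠ 0` for some `v`, `b' ∈ Fix V T`.  `b' = g • b`, `K' = K^g`, `s ∉ K'`, so `b ≠ b'`,
`b'' = b + b' ≠ 0`, `b'' = g'' • b`, `K'' = K^{g''}`.  `[V,u] = {u • v + v}` is closed under `+`, so for
`u ∈ T`: `u ∈ K \ K' → u ∈ K''`, `u ∈ K' \ K → u ∈ K''`, `u ∉ K ∪ K' → u ∉ K''`.
There is `u ∈ K' \ K` (else `K' ≤ K`; with `t₀ ∈ T \ K`: `s, t₀ ∉ K'`, so `s t₀ ∈ K' ≤ K`, `t₀ ∈ K`).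
Now `s, u ∈ K''` but `s u ∉ K` and `s u ∉ K'`, so `s u ∉ K''`: contradiction. -/
theorem comb [FaithfulSMul Γ V] (hV2 : ∀ v : V, v + v = 0) (T K N : Subgroup Γ)
    (hNT : ∀ g ∈ N, ∀ t ∈ T, g * t * g⁻¹ ∈ T) (hKT : K ≤ T) (ht0 : ∃ t ∈ T, t ∉ K)
    (hidx : ∀ t ∈ T, ∀ t' ∈ T, t ∉ K → t' ∉ K → t * t' ∈ K)
    (hTF : ∀ t ∈ T, ∀ v : V, t • v + v ∈ Fix V T)
    (htr : ∀ b ∈ Fix V T, b ≠ 0 → ∀ b' ∈ Fix V T, b' ≠ 0 → ∃ g ∈ N, g • b = b')
    (b : V) (hb : b ∈ Fix V T) (hb0 : b ≠ 0)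
    (hbK : ∀ s ∈ T, (s ∈ K ↔ ¬ ∃ v : V, s • v + v = b)) : K = ⊥ := by
  classical
  -- conjugation into T
  have hcT : ∀ g ∈ N, ∀ s ∈ T, g⁻¹ * s * g ∈ T := by
    intro g hg s hs
    have := hNT g⁻¹ (N.inv_mem hg) s hs
    simpa using this
  -- the key translation
  have key : ∀ g ∈ N, ∀ s ∈ T, ((∃ v : V, s • v + v = g • b) ↔ g⁻¹ * s * g ∉ K) := by
    intro g hg s hs
    rw [hbK _ (hcT g hg s hs), not_not]
    constructor
    · rintro ⟨v, hv⟩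
      refine ⟨g⁻¹ • v, ?_⟩
      have : (g⁻¹ * s * g) • g⁻¹ • v + g⁻¹ • v = g⁻¹ • (s • v + v) := by
        rw [smul_add, mul_smul, mul_smul, smul_inv_smul]
      rw [this, hv, inv_smul_smul]
    · rintro ⟨v, hv⟩
      refine ⟨g • v, ?_⟩
      rw [← hv, smul_add, mul_smul, mul_smul, smul_inv_smul]
  have hconj : ∀ g s u : Γ, g⁻¹ * (s * u) * g = (g⁻¹ * s * g) * (g⁻¹ * u * g) := by
    intro g s u; group
  have F1 : ∀ c ∈ Fix V T, c ≠ 0 → ∀ s ∈ T, ∀ u ∈ T, (¬ ∃ v : V, s • v + v = c) →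
      (¬ ∃ v : V, u • v + v = c) → ¬ ∃ v : V, (s * u) • v + v = c := by
    intro c hc hc0 s hs u hu h1 h2
    obtain ⟨g, hg, rfl⟩ := htr b hb hb0 c hc hc0
    rw [key g hg _ hs, not_not] at h1
    rw [key g hg _ hu, not_not] at h2
    rw [key g hg _ (T.mul_mem hs hu), not_not, hconj]
    exact K.mul_mem h1 h2
  have F2 : ∀ c ∈ Fix V T, c ≠ 0 → ∀ s ∈ T, ∀ u ∈ T, (∃ v : V, s • v + v = c) →
      (∃ v : V, u • v + v = c) → ¬ ∃ v : V, (s * u) • v + v = c := by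
    intro c hc hc0 s hs u hu h1 h2
    obtain ⟨g, hg, rfl⟩ := htr b hb hb0 c hc hc0
    rw [key g hg _ hs] at h1
    rw [key g hg _ hu] at h2
    rw [key g hg _ (T.mul_mem hs hu), not_not, hconj]
    exact hidx _ (hcT g hg s hs) _ (hcT g hg u hu) h1 h2
  have F3 : ∀ c ∈ Fix V T, c ≠ 0 → ∀ s ∈ T, ∀ u ∈ T, (¬ ∃ v : V, s • v + v = c) →
      (∃ v : V, u • v + v = c) → ∃ v : V, (s * u) • v + v = c := by
    intro c hc hc0 s hs u hu h1 h2
    obtain ⟨g, hg, rfl⟩ := htr b hb hb0 c hc hc0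
    rw [key g hg _ hs, not_not] at h1
    rw [key g hg _ hu] at h2
    rw [key g hg _ (T.mul_mem hs hu), hconj]
    intro h3
    exact h2 ((K.mul_mem_cancel_left h1).1 h3)
  have F3' : ∀ c ∈ Fix V T, c ≠ 0 → ∀ s ∈ T, ∀ u ∈ T, (∃ v : V, s • v + v = c) →
      (¬ ∃ v : V, u • v + v = c) → ∃ v : V, (s * u) • v + v = c := by
    intro c hc hc0 s hs u hu h1 h2
    obtain ⟨g, hg, rfl⟩ := htr b hb hb0 c hc hc0
    rw [key g hg _ hs] at h1
    rw [key g hg _ hu, not_not] at h2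
    rw [key g hg _ (T.mul_mem hs hu), hconj]
    intro h3
    exact h1 ((K.mul_mem_cancel_right h2).1 h3)
  have Fadd : ∀ (u : Γ) (c d : V), (∃ v : V, u • v + v = c) → (∃ v : V, u • v + v = d) →
      ∃ v : V, u • v + v = c + d := by
    rintro u c d ⟨v, rfl⟩ ⟨w, rfl⟩
    exact ⟨v + w, by rw [smul_add]; abel⟩
  by_contra hK
  obtain ⟨s, hsK, hs1⟩ := (Subgroup.ne_bot_iff_exists_ne_one).1 hK |>.elim
    (fun x hx => (⟨x.1, x.2, fun h => hx (Subtype.ext h)⟩ : ∃ s, s ∈ K ∧ s ≠ 1))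
  have hsT := hKT hsK
  obtain ⟨v, hv⟩ : ∃ v : V, s • v ≠ v := by
    by_contra hcon
    push Not at hcon
    exact hs1 (FaithfulSMul.eq_of_smul_eq_smul (α := V) (fun a => by rw [hcon a, one_smul]))
  have hneg : ∀ x y : V, x + y = 0 → x = y := by
    intro x y hxy
    have : x + y + y = y := by rw [hxy, zero_add]
    rwa [add_assoc, hV2, add_zero] at this
  set b' : V := s • v + v with hb'
  have hb'0 : b' ≠ 0 := fun h => hv (hneg _ _ h)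
  have hb'F : b' ∈ Fix V T := hTF s hsT v
  have hRs' : ∃ w : V, s • w + w = b' := ⟨v, rfl⟩
  have hRs : ¬ ∃ w : V, s • w + w = b := (hbK s hsT).1 hsK
  have hbb' : b ≠ b' := fun h => hRs (h ▸ hRs')
  have hb''0 : b + b' ≠ 0 := fun h => hbb' (hneg _ _ h)
  have hb''F : b + b' ∈ Fix V T := (Fix V T).add_mem hb hb'F
  have e1 : b + b' + b' = b := by rw [add_assoc, hV2, add_zero]
  have e2 : b + b' + b = b' := by rw [add_comm b b', add_assoc, hV2, add_zero]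
  -- u in K' minus K
  obtain ⟨t0, ht0T, ht0K⟩ := ht0
  have hRt0 : ∃ w : V, t0 • w + w = b := by
    by_contra hcon
    exact ht0K ((hbK t0 ht0T).2 hcon)
  obtain ⟨u, huT, hu1, hu2⟩ : ∃ u ∈ T, (∃ w : V, u • w + w = b) ∧ ¬ ∃ w : V, u • w + w = b' := by
    by_cases h : ∃ w : V, t0 • w + w = b'
    · exact ⟨s * t0, T.mul_mem hsT ht0T, F3 b hb hb0 s hsT t0 ht0T hRs hRt0,
        F2 b' hb'F hb'0 s hsT t0 ht0T hRs' h⟩
    · exact ⟨t0, ht0T, hRt0, h⟩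
  have hs'' : ¬ ∃ w : V, s • w + w = b + b' := by
    intro h
    have := Fadd s _ _ h hRs'
    rw [e1] at this
    exact hRs this
  have hu'' : ¬ ∃ w : V, u • w + w = b + b' := by
    intro h
    have := Fadd u _ _ h hu1
    rw [e2] at this
    exact hu2 this
  have h1 := F1 _ hb''F hb''0 s hsT u huT hs'' hu''
  have h2 := F3 b hb hb0 s hsT u huT hRs hu1
  have h3 := F3' b' hb'F hb'0 s hsT u huT hRs' hu2
  exact h1 (Fadd _ _ _ h2 h3)

end Cfsg.Agent.Lib.H16ThComb
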