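import Cfsg.Agent.Lib.H16ThGDefs

set_option autoImplicit false

namespace Cfsg.Agent.Lib.H16ThFinA

open Cfsg Subgroup Cfsg.Agent.Lib.H16ThDefs Cfsg.Agent.Lib.H16ThGDefs

universe u

variable {H : Type u} [Group H] {Q Z : Subgroup H}

theorem q_smul (D : ModData H Q Z) (hQn : Q.Normal) (h : H) (x : H) (hx : x ∈ Q) :
    D.q (h • D.π x) = D.ζ (h * x ^ 2 * h⁻¹) := by
  rw [D.smul_π h x hx, D.q_π _ (hQn.conj_mem x hx h), conj_pow]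

theorem pres (D : ModData H Q Z) (hQn : Q.Normal) (hsq : ∀ x ∈ Q, x ^ 2 ∈ Z) (h : H)
    (hh : ∀ z ∈ Z, h * z = z * h) (v : D.V) : D.q (h • v) = D.q v := by
  obtain ⟨x, hx, rfl⟩ := D.π_surj v
  rw [q_smul D hQn h x hx, D.q_π x hx, hh _ (hsq x hx), mul_inv_cancel_right]

theorem tr (D : ModData H Q Z) (hQn : Q.Normal) (hsq : ∀ x ∈ Q, x ^ 2 ∈ Z) (A : Subgroup H)
    (hA : ∀ z ∈ Z, z ≠ 1 → ∀ z' ∈ Z, z' ≠ 1 → ∃ a ∈ A, a * z * a⁻¹ = z') :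
    Tr D.q (A.map (rho H D.V)) := by
  intro z z' hz hz'
  obtain ⟨a, ha, rfl⟩ := D.ζ_surj z
  obtain ⟨a', ha', rfl⟩ := D.ζ_surj z'
  have ha1 : a ≠ 1 := by
    rintro rfl
    exact hz D.ζ_one
  have ha1' : a' ≠ 1 := by
    rintro rfl
    exact hz' D.ζ_one
  obtain ⟨g, hg, hga⟩ := hA a ha ha1 a' ha' ha1'
  refine ⟨rho H D.V g, Subgroup.mem_map_of_mem _ hg, ?_⟩
  intro v hv
  obtain ⟨x, hx, rfl⟩ := D.π_surj v
  rw [D.q_π x hx] at hv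
  have hxa : x ^ 2 = a := D.ζ_inj _ (hsq x hx) _ ha hv
  rw [rho_smul, q_smul D hQn g x hx, hxa, hga]

end Cfsg.Agent.Lib.H16ThFinA
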