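import Cfsg.Agent.Lib.H16ThGDefs

set_option autoImplicit false

namespace Cfsg.Agent.Lib.H16ThFinB

open Cfsg Subgroup Cfsg.Agent.Lib.H16ThDefs Cfsg.Agent.Lib.H16ThGDefs
open scoped commutatorElement

universe u

variable {H : Type u} [Group H] {Q Z : Subgroup H}

theorem pi_one (D : ModData H Q Z) : D.π 1 = 0 := (D.π_zero 1 Q.one_mem).2 Z.one_mem

theorem pi_comm (D : ModData H Q Z) (hQn : Q.Normal) (x : H) (hx : x ∈ Q) (k : H) :
    D.π ⁅x, k⁆ = D.π x + k • D.π x⁻¹ := by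
  rw [D.smul_π k _ (Q.inv_mem hx), ← D.π_mul x hx _ (hQn.conj_mem _ (Q.inv_mem hx) k),
    commutatorElement_def]
  congr 1
  group

theorem exists_y (D : ModData H Q Z) (hQn : Q.Normal) (K : Subgroup H)
    (hKgen : K = closure {y | y ∈ K ∧ Odd (orderOf y)}) (hQK : ⁅Q, K⁆ = Q) (hQZ : ¬ Q ≤ Z) :
    ∃ y ∈ K, Odd (orderOf y) ∧ rho H D.V y ≠ 1 := by
  by_contra hcon
  push Not at hcon
  have hK : K ≤ (rho H D.V).ker := by
    rw [hKgen, Subgroup.closure_le]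
    rintro y ⟨hy, hyo⟩
    exact hcon y hy hyo
  apply hQZ
  rw [← hQK, Subgroup.commutator_le]
  intro x hx k hk
  have hk1 : ∀ v : D.V, k • v = v := (rho_eq_one_iff k).1 (hK hk)
  have hmem : ⁅x, k⁆ ∈ Q := by
    rw [commutatorElement_def]
    have := Q.mul_mem hx (hQn.conj_mem _ (Q.inv_mem hx) k)
    simpa [mul_assoc] using this
  rw [← D.π_zero _ hmem, pi_comm D hQn x hx k, hk1, ← D.π_mul x hx _ (Q.inv_mem hx),
    mul_inv_cancel, pi_one]

end Cfsg.Agent.Lib.H16ThFinB
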