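import Cfsg.Agent.Lib.H16ThGDefs

set_option autoImplicit false

namespace Cfsg.Agent.Lib.H16ThFinC

open Cfsg Subgroup Cfsg.Agent.Lib.H16ThDefs Cfsg.Agent.Lib.H16ThGDefs

theorem odd_card {H G' : Type*} [Group H] [Finite H] [Group G'] (ρ : H →* G') (P M K : Subgroup H)
    (hKM : K ≤ M) (hodd : Odd (P.relIndex M)) (hP : P.map ρ = ⊥) :
    Odd (Nat.card (K.map ρ)) := by
  have hPk : P ≤ ρ.ker := (Subgroup.map_eq_bot_iff _).mp hP
  have h1 : Nat.card (K.map ρ) ∣ Nat.card (M.map ρ) :=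
    Subgroup.card_dvd_of_le (Subgroup.map_mono hKM)
  have h2 : ρ.ker.relIndex M = Nat.card (M.map ρ) := Subgroup.relIndex_ker M ρ
  have h3 : ρ.ker.relIndex M ∣ P.relIndex M := Subgroup.relIndex_dvd_of_le_left M hPk
  rw [h2] at h3
  have h4 : Nat.card (K.map ρ) ∣ P.relIndex M := h1.trans h3
  rcases hodd with ⟨c, hc⟩
  rw [Nat.odd_iff]
  rcases Nat.even_or_odd (Nat.card (K.map ρ)) with he | ho
  · exfalso
    have : 2 ∣ P.relIndex M := (even_iff_two_dvd.1 he).trans h4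
    omega
  · exact Nat.odd_iff.1 ho

end Cfsg.Agent.Lib.H16ThFinC
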