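import Cfsg.Agent.Lib.H16ThGDefs
import Cfsg.Agent.Lib.H16ThAvg

set_option autoImplicit false

namespace Cfsg.Agent.Lib.H16ThFinD

open Cfsg Subgroup Cfsg.Agent.Lib.H16ThDefs Cfsg.Agent.Lib.H16ThGDefs
open scoped commutatorElement

universe u

variable {H : Type u} [Group H] [Finite H] {Q Z : Subgroup H}

theorem pi_one' (D : ModData H Q Z) : D.π 1 = 0 := (D.π_zero 1 Q.one_mem).2 Z.one_mem

theorem pi_inv' (D : ModData H Q Z) (x : H) (hx : x ∈ Q) : D.π x⁻¹ = D.π x := by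
  have h1 : D.π x + D.π x⁻¹ = 0 := by
    rw [← D.π_mul x hx _ (Q.inv_mem hx), mul_inv_cancel, pi_one']
  have h2 : D.π x + D.π x = 0 := D.aq.two_V _
  exact add_left_cancel (h1.trans h2.symm)

theorem pi_comm' (D : ModData H Q Z) (hQn : Q.Normal) (x : H) (hx : x ∈ Q) (k : H) :
    D.π ⁅x, k⁆ = D.π x + k • D.π x⁻¹ := by
  rw [D.smul_π k _ (Q.inv_mem hx), ← D.π_mul x hx _ (hQn.conj_mem _ (Q.inv_mem hx) k),
    commutatorElement_def]
  congr 1
  group

theorem fix_zero (D : ModData H Q Z) (hQn : Q.Normal) (K : Subgroup H) (hQK : ⁅Q, K⁆ = Q)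
    (hodd : Odd (Nat.card (K.map (rho H D.V)))) :
    ∀ v ∈ Fix D.V (K.map (rho H D.V)), v = 0 := by
  intro v hv
  apply H16ThAvg.avg D.aq.two_V (K.map (rho H D.V)) hodd v hv
  obtain ⟨x, hx, rfl⟩ := D.π_surj v
  set C : AddSubgroup D.V := AddSubgroup.closure
    {x : D.V | ∃ r ∈ K.map (rho H D.V), ∃ w : D.V, x = r • w + w} with hC
  have key : ∀ y ∈ ⁅Q, K⁆, y ∈ Q ∧ D.π y ∈ C := by
    intro y hy
    rw [Subgroup.commutator_def] at hy
    induction hy using Subgroup.closure_induction with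
    | mem y hy =>
      obtain ⟨a, ha, b, hb, rfl⟩ := hy
      refine ⟨?_, ?_⟩
      · rw [commutatorElement_def]
        have := Q.mul_mem ha (hQn.conj_mem _ (Q.inv_mem ha) b)
        simpa [mul_assoc] using this
      · apply AddSubgroup.subset_closure
        refine ⟨rho H D.V b, Subgroup.mem_map_of_mem _ hb, D.π a, ?_⟩
        rw [pi_comm' D hQn a ha b, pi_inv' D a ha, rho_smul, add_comm]
    | one => exact ⟨Q.one_mem, by rw [pi_one']; exact C.zero_mem⟩
    | mul a b _ _ iha ihb =>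
      exact ⟨Q.mul_mem iha.1 ihb.1, by rw [D.π_mul a iha.1 b ihb.1]; exact C.add_mem iha.2 ihb.2⟩
    | inv a _ iha =>
      exact ⟨Q.inv_mem iha.1, by rw [pi_inv' D a iha.1]; exact iha.2⟩
  exact (key x (by rw [hQK]; exact hx)).2

end Cfsg.Agent.Lib.H16ThFinD
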