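import Cfsg.Agent.Lib.H16ThGDefs

set_option autoImplicit false

namespace Cfsg.Agent.Lib.H16ThFpf

open Cfsg Subgroup Cfsg.Agent.Lib.H16ThDefs Cfsg.Agent.Lib.H16ThGDefs

/-- PIECE Fpf (Mathlib only).  `u` normalizes the 2-group `T` and fixes no involution; the image of `T` under `ρ` has
at most one nontrivial element.  Then `T ≤ ker ρ`.
Proof.  `C_T(u) = 1`: if `1 ≠ t ∈ T`, `u t u⁻¹ = t`, then `orderOf t = 2^(k+1)` and `z = t^(2^k)` satisfies `z^2 = 1`, `z ≠ 1`,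
`u z u⁻¹ = z`.  Hence `t ↦ t⁻¹ * (u t u⁻¹)` is injective on the finite set `T`, so surjective onto `T`.
`ρ(u t u⁻¹) = ρ t`: both are in `T.map ρ`, and one is `1` iff the other is; use `huniq`.  So `ρ (t⁻¹ u t u⁻¹) = 1`. -/
theorem le_ker {H G' : Type*} [Group H] [Finite H] [Group G'] (ρ : H →* G') (T : Subgroup H)
    (hT : IsPGroup 2 T) (u : H) (huT : ∀ t ∈ T, u * t * u⁻¹ ∈ T)
    (hfpf : ∀ z : H, z ^ 2 = 1 → u * z * u⁻¹ = z → z = 1)
    (huniq : ∀ a ∈ T.map ρ, ∀ b ∈ T.map ρ, a ≠ 1 → b ≠ 1 → a = b) : T ≤ ρ.ker := by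
  classical
  have hCT : ∀ t ∈ T, u * t * u⁻¹ = t → t = 1 := by
    intro t ht hut
    by_contra ht1
    have hex : ∃ k : ℕ, t ^ (2 ^ k) = 1 := by
      obtain ⟨k, hk⟩ := hT ⟨t, ht⟩
      exact ⟨k, congrArg Subtype.val hk⟩
    have hk := Nat.find_spec hex
    have hmin := fun m => Nat.find_min hex (m := m)
    set k := Nat.find hex with hkdef
    have hk0 : k ≠ 0 := by
      intro h0
      rw [h0] at hk
      simp at hk
      exact ht1 hk
    obtain ⟨j, hj⟩ := Nat.exists_eq_succ_of_ne_zero hk0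
    have hz1 : t ^ (2 ^ j) ≠ 1 := hmin j (by omega)
    apply hz1
    apply hfpf
    · rw [← pow_mul, ← pow_succ, ← Nat.succ_eq_add_one, ← hj]
      exact hk
    · rw [← conj_pow, hut]
  let φ : ↥T →* ↥T :=
    { toFun := fun y => ⟨u * y.1 * u⁻¹, huT y.1 y.2⟩
      map_one' := by ext; simp
      map_mul' := by intro a b; ext; simp }
  have hφ : MonoidHom.FixedPointFree φ := by
    intro a ha
    have h1 : u * a.1 * u⁻¹ = a.1 := congrArg Subtype.val ha
    exact Subtype.ext (hCT a.1 a.2 h1)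
  have hsurj := hφ.commutatorMap_surjective
  have hρ : ∀ s ∈ T, ρ (u * s * u⁻¹) = ρ s := by
    intro s hs
    by_cases h1 : ρ s = 1
    · rw [map_mul, map_mul, h1, map_inv]; simp
    · apply huniq _ (Subgroup.mem_map_of_mem ρ (huT s hs)) _ (Subgroup.mem_map_of_mem ρ hs) _ h1
      intro h2
      apply h1
      rw [map_mul, map_mul, map_inv] at h2
      have : ρ s = (ρ u)⁻¹ * (ρ u * ρ s * (ρ u)⁻¹) * ρ u := by group
      rw [this, h2]; simp
  intro t ht
  obtain ⟨s, hs⟩ := hsurj ⟨t, ht⟩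
  have h1 : s.1 / (u * s.1 * u⁻¹) = t := congrArg Subtype.val hs
  rw [MonoidHom.mem_ker, ← h1, map_div, hρ s.1 s.2, div_self']

end Cfsg.Agent.Lib.H16ThFpf
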