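import Cfsg.Agent.Lib.H16ThGDefs

set_option autoImplicit false
set_option linter.unusedSectionVars false

namespace Cfsg.Agent.Lib.H16ThGMod

open Cfsg Subgroup Cfsg.Agent.Lib.H16ThDefs Cfsg.Agent.Lib.H16ThGDefs

universe u

section constr

variable {H : Type u} [Group H]

/-- the hypotheses of the construction -/
structure Hy (Q Z : Subgroup H) : Prop where
  Qn : Q.Normal
  hZ : ∀ x : H, x ∈ Z ↔ x ^ 2 = 1
  ZQ : Z ≤ Q
  sq : ∀ x ∈ Q, x ^ 2 ∈ Z
  comm : ∀ x ∈ Q, ∀ y ∈ Q, x * y * x⁻¹ * y⁻¹ ∈ Z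
  Zc : ∀ z ∈ Z, ∀ x ∈ Q, z * x = x * z

variable {Q Z : Subgroup H} [Z.Normal]

/-- `Q/Z`, additively -/
def VT (_hy : Hy Q Z) : Type u := Additive (Q.map (QuotientGroup.mk' Z))

/-- `Z`, additively -/
def ZT (_hy : Hy Q Z) : Type u := Additive Z

variable (hy : Hy Q Z)

/-- underlying element of `H ⧸ Z` -/
def vval (v : VT hy) : H ⧸ Z := ((Additive.toMul (α := Q.map (QuotientGroup.mk' Z)) v) : H ⧸ Z)

/-- underlying element of `H` -/
def zval (z : ZT hy) : H := ((Additive.toMul (α := Z) z) : H)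

theorem vval_mem (v : VT hy) : vval hy v ∈ Q.map (QuotientGroup.mk' Z) :=
  (Additive.toMul (α := Q.map (QuotientGroup.mk' Z)) v).2

theorem zval_mem (z : ZT hy) : zval hy z ∈ Z := (Additive.toMul (α := Z) z).2

theorem vval_inj : Function.Injective (vval hy) := fun _ _ h => Subtype.ext h

theorem zval_inj : Function.Injective (zval hy) := fun _ _ h => Subtype.ext h

include hy in
theorem comm_quot : ∀ a ∈ Q.map (QuotientGroup.mk' Z), ∀ b ∈ Q.map (QuotientGroup.mk' Z),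
    a * b = b * a := by
  rintro _ ⟨x, hx, rfl⟩ _ ⟨y, hy', rfl⟩
  have := (QuotientGroup.eq_one_iff _).2 (hy.comm x hx y hy')
  exact commutatorElement_eq_one_iff_mul_comm.1 this

instance : AddGroup (VT hy) := inferInstanceAs (AddGroup (Additive (Q.map (QuotientGroup.mk' Z))))

instance : AddGroup (ZT hy) := inferInstanceAs (AddGroup (Additive Z))

instance : AddCommGroup (VT hy) :=
  { (inferInstance : AddGroup (VT hy)) with
    add_comm := fun a b => vval_inj hy (comm_quot hy _ (vval_mem hy a) _ (vval_mem hy b)) }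

instance : AddCommGroup (ZT hy) :=
  { (inferInstance : AddGroup (ZT hy)) with
    add_comm := fun a b => zval_inj hy (hy.Zc _ (zval_mem hy a) _ (hy.ZQ (zval_mem hy b))) }

theorem vval_add (a b : VT hy) : vval hy (a + b) = vval hy a * vval hy b := rfl
theorem vval_zero : vval hy 0 = 1 := rfl
theorem zval_add (a b : ZT hy) : zval hy (a + b) = zval hy a * zval hy b := rfl
theorem zval_zero : zval hy 0 = 1 := rfl

/-- constructor -/
def mkV (w : H ⧸ Z) (hw : w ∈ Q.map (QuotientGroup.mk' Z)) : VT hy :=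
  Additive.ofMul (⟨w, hw⟩ : Q.map (QuotientGroup.mk' Z))

/-- constructor -/
def mkZ (z : H) (hz : z ∈ Z) : ZT hy := Additive.ofMul (⟨z, hz⟩ : Z)

theorem vval_mkV (w : H ⧸ Z) (hw : w ∈ Q.map (QuotientGroup.mk' Z)) : vval hy (mkV hy w hw) = w := rfl
theorem zval_mkZ (z : H) (hz : z ∈ Z) : zval hy (mkZ hy z hz) = z := rfl

include hy in
theorem map_normal : (Q.map (QuotientGroup.mk' Z)).Normal :=
  hy.Qn.map (QuotientGroup.mk' Z) (QuotientGroup.mk'_surjective Z)

instance : SMul H (VT hy) where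
  smul h v := mkV hy (QuotientGroup.mk' Z h * vval hy v * (QuotientGroup.mk' Z h)⁻¹)
    ((map_normal hy).conj_mem _ (vval_mem hy v) _)

theorem vval_smul (h : H) (v : VT hy) :
    vval hy (h • v) = QuotientGroup.mk' Z h * vval hy v * (QuotientGroup.mk' Z h)⁻¹ := rfl

instance : DistribMulAction H (VT hy) where
  one_smul v := vval_inj hy (by rw [vval_smul, map_one]; group)
  mul_smul a b v := vval_inj hy (by rw [vval_smul, vval_smul, vval_smul, map_mul]; group)
  smul_zero a := vval_inj hy (by rw [vval_smul, vval_zero]; group)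
  smul_add a v w := vval_inj hy (by rw [vval_smul, vval_add, vval_add, vval_smul, vval_smul]; group)

instance [Finite H] : Finite (VT hy) := Finite.of_injective (vval hy) (vval_inj hy)
instance [Finite H] : Finite (ZT hy) := Finite.of_injective (zval hy) (zval_inj hy)

open Classical in
/-- the projection -/
noncomputable def pi (x : H) : VT hy :=
  if hx : x ∈ Q then mkV hy (QuotientGroup.mk' Z x) (Subgroup.mem_map_of_mem _ hx) else 0

open Classical in
/-- the identification -/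
noncomputable def ze (z : H) : ZT hy := if hz : z ∈ Z then mkZ hy z hz else 0

theorem vval_pi {x : H} (hx : x ∈ Q) : vval hy (pi hy x) = QuotientGroup.mk' Z x := by
  rw [pi, dif_pos hx, vval_mkV]

theorem zval_ze {z : H} (hz : z ∈ Z) : zval hy (ze hy z) = z := by
  rw [ze, dif_pos hz, zval_mkZ]

theorem pi_mul {x y : H} (hx : x ∈ Q) (hy' : y ∈ Q) : pi hy (x * y) = pi hy x + pi hy y :=
  vval_inj hy (by rw [vval_add, vval_pi hy hx, vval_pi hy hy', vval_pi hy (mul_mem hx hy'), map_mul])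

theorem pi_surj (v : VT hy) : ∃ x ∈ Q, pi hy x = v := by
  obtain ⟨x, hx, hxv⟩ := vval_mem hy v
  exact ⟨x, hx, vval_inj hy (by rw [vval_pi hy hx, hxv])⟩

theorem pi_zero {x : H} (hx : x ∈ Q) : pi hy x = 0 ↔ x ∈ Z := by
  rw [← (vval_inj hy).eq_iff, vval_pi hy hx, vval_zero]
  exact QuotientGroup.eq_one_iff x

theorem smul_pi (h : H) {x : H} (hx : x ∈ Q) : h • pi hy x = pi hy (h * x * h⁻¹) :=
  vval_inj hy (by
    rw [vval_smul, vval_pi hy hx, vval_pi hy (hy.Qn.conj_mem x hx h), map_mul, map_mul, map_inv])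

theorem ze_mul {z z' : H} (hz : z ∈ Z) (hz' : z' ∈ Z) : ze hy (z * z') = ze hy z + ze hy z' :=
  zval_inj hy (by rw [zval_add, zval_ze hy hz, zval_ze hy hz', zval_ze hy (mul_mem hz hz')])

theorem ze_inj {z z' : H} (hz : z ∈ Z) (hz' : z' ∈ Z) (h : ze hy z = ze hy z') : z = z' := by
  rw [← zval_ze hy hz, h, zval_ze hy hz']

theorem ze_surj (w : ZT hy) : ∃ z ∈ Z, ze hy z = w :=
  ⟨zval hy w, zval_mem hy w, zval_inj hy (zval_ze hy (zval_mem hy w))⟩

theorem ze_one : ze hy 1 = 0 := zval_inj hy (by rw [zval_ze hy (one_mem _), zval_zero])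

/-- the squaring map -/
noncomputable def qq (v : VT hy) : ZT hy := ze hy ((Classical.choose (pi_surj hy v)) ^ 2)

theorem qq_pi {x : H} (hx : x ∈ Q) : qq hy (pi hy x) = ze hy (x ^ 2) := by
  obtain ⟨hx', he⟩ := Classical.choose_spec (pi_surj hy (pi hy x))
  set x' := Classical.choose (pi_surj hy (pi hy x)) with hx'def
  show ze hy (x' ^ 2) = ze hy (x ^ 2)
  have h1 : QuotientGroup.mk' Z x' = QuotientGroup.mk' Z x := by
    rw [← vval_pi hy hx', he, vval_pi hy hx]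
  have h2 : x⁻¹ * x' ∈ Z := QuotientGroup.eq.1 h1.symm
  have h3 := hy.Zc _ h2 x hx
  have h4 := (hy.hZ _).1 h2
  congr 1
  calc x' ^ 2 = x * ((x⁻¹ * x') * x) * (x⁻¹ * x') := by simp only [sq]; group
    _ = x * (x * (x⁻¹ * x')) * (x⁻¹ * x') := by rw [h3]
    _ = x ^ 2 * (x⁻¹ * x') ^ 2 := by simp only [sq]; group
    _ = x ^ 2 := by rw [h4, mul_one]

theorem two_Z (w : ZT hy) : w + w = 0 :=
  zval_inj hy (by rw [zval_add, zval_zero, ← sq]; exact (hy.hZ _).1 (zval_mem hy w))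

theorem sq_mul {a b : H} (ha : a ∈ Q) (hb : b ∈ Q) :
    ze hy ((a * b) ^ 2) = ze hy (a ^ 2) + ze hy (b ^ 2) + ze hy (b * a * b⁻¹ * a⁻¹) := by
  have hc := hy.Zc _ (hy.comm b hb a ha) a ha
  have e : (a * b) ^ 2 = (b * a * b⁻¹ * a⁻¹) * (a ^ 2 * b ^ 2) := by
    calc (a * b) ^ 2 = (a * (b * a * b⁻¹ * a⁻¹)) * (a * b * b) := by simp only [sq]; group
      _ = (b * a * b⁻¹ * a⁻¹) * a * (a * b * b) := by rw [← hc]
      _ = (b * a * b⁻¹ * a⁻¹) * (a ^ 2 * b ^ 2) := by simp only [sq]; group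
  rw [e, ze_mul hy (hy.comm b hb a ha) (mul_mem (hy.sq a ha) (hy.sq b hb)),
    ze_mul hy (hy.sq a ha) (hy.sq b hb)]
  abel

theorem comm_mul {t x y : H} (ht : t ∈ Q) (hx : x ∈ Q) (hy' : y ∈ Q) :
    ze hy (t * (x * y) * t⁻¹ * (x * y)⁻¹)
      = ze hy (t * x * t⁻¹ * x⁻¹) + ze hy (t * y * t⁻¹ * y⁻¹) := by
  have hc := hy.Zc _ (hy.comm t ht y hy') x hx
  have e : t * (x * y) * t⁻¹ * (x * y)⁻¹ = (t * x * t⁻¹ * x⁻¹) * (t * y * t⁻¹ * y⁻¹) := by
    calc t * (x * y) * t⁻¹ * (x * y)⁻¹ = (t * x * t⁻¹ * x⁻¹) * (x * (t * y * t⁻¹ * y⁻¹)) * x⁻¹ := by group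
      _ = (t * x * t⁻¹ * x⁻¹) * ((t * y * t⁻¹ * y⁻¹) * x) * x⁻¹ := by rw [hc]
      _ = (t * x * t⁻¹ * x⁻¹) * (t * y * t⁻¹ * y⁻¹) := by group
  rw [e, ze_mul hy (hy.comm t ht x hx) (hy.comm t ht y hy')]

theorem aq : AQ (qq hy) where
  two_V v := by
    obtain ⟨x, hx, rfl⟩ := pi_surj hy v
    rw [← pi_mul hy hx hx, ← sq, pi_zero hy (hy.ZQ (hy.sq x hx))]
    exact hy.sq x hx
  two_Z := two_Z hy
  zero := by
    have h0 : pi hy 1 = 0 := (pi_zero hy (one_mem Q)).2 (one_mem Z)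
    rw [← h0, qq_pi hy (one_mem Q), one_pow, ze_one]
  aniso v hv := by
    obtain ⟨x, hx, rfl⟩ := pi_surj hy v
    rw [qq_pi hy hx, ← ze_one hy] at hv
    have h1 := ze_inj hy (hy.sq x hx) (one_mem Z) hv
    exact (pi_zero hy hx).2 ((hy.hZ x).2 h1)
  polar u v w := by
    obtain ⟨x, hx, rfl⟩ := pi_surj hy u
    obtain ⟨y, hy', rfl⟩ := pi_surj hy v
    obtain ⟨t, ht, rfl⟩ := pi_surj hy w
    rw [← pi_mul hy hx hy', ← pi_mul hy (mul_mem hx hy') ht, ← pi_mul hy hx ht, ← pi_mul hy hy' ht,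
      qq_pi hy (mul_mem (mul_mem hx hy') ht), qq_pi hy (mul_mem hx hy'), qq_pi hy (mul_mem hx ht),
      qq_pi hy (mul_mem hy' ht), qq_pi hy hx, qq_pi hy hy', qq_pi hy ht,
      sq_mul hy (mul_mem hx hy') ht, comm_mul hy ht hx hy', sq_mul hy hx ht, sq_mul hy hy' ht]
    have e1 := two_Z hy (ze hy (x ^ 2))
    have e2 := two_Z hy (ze hy (y ^ 2))
    have e3 := two_Z hy (ze hy (t ^ 2))
    generalize ze hy (x ^ 2) = A at *
    generalize ze hy (y ^ 2) = B at *
    generalize ze hy (t ^ 2) = C at *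
    generalize ze hy ((x * y) ^ 2) = D at *
    generalize ze hy (t * x * t⁻¹ * x⁻¹) = E at *
    generalize ze hy (t * y * t⁻¹ * y⁻¹) = F at *
    have : D + (A + C + E) + (B + C + F) + A + B + C
        = D + C + (E + F) + (A + A) + (B + B) + (C + C) := by abel
    rw [this, e1, e2, e3, add_zero, add_zero, add_zero]

end constr

/-- PIECE GMod (Mathlib only; a construction).  `V = Q/Z` as an `H`-module with the squaring map.
Suggestion: `Z` normal in `H` (from `hZ`).  `Vm := (Q.map (QuotientGroup.mk' Z))`, a normal subgroup of `H ⧸ Z`,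
commutative (`hcomm`) of exponent 2 (`hsq`); `V := Additive Vm` with
`AddCommGroup` from `{ (inferInstance : AddGroup (Additive Vm)) with add_comm := _ }`;
action of `h` = conjugation by `mk h` (`MulAut.conjNormal`, or define `h • v` by hand and prove the 6 axioms of
`DistribMulAction`).  `π x := if hx : x ∈ Q then ofMul ⟨mk x, _⟩ else 0`.
`Z' := Additive Z` with `add_comm` from exponent 2; `ζ z := if hz : z ∈ Z then ofMul ⟨z, hz⟩ else 0`.
`q v := ζ (x ^ 2)` for any `x ∈ Q` with `π x = v` (`Classical.choose`); well defined: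
`(x z)^2 = x^2 z^2 = x^2` for `z ∈ Z` (central in `Q` by `hZc`).
`AQ`: `two_V` (`x^2 ∈ Z`), `two_Z`, `zero`, `aniso` (`x^2 = 1 → x ∈ Z` by `hZ`), `polar`: with `c(x,y) = x y x⁻¹ y⁻¹ ∈ Z`
central of order ≤ 2: `(x y)^2 = x^2 y^2 c(y,x)`, `c` is bimultiplicative; so both sides of `polar` for `x,y,w` are
`x^2 y^2 w^2 c(y,x) c(w,x) c(w,y)`. -/
theorem exists_mod {H : Type u} [Group H] [Finite H] (Q Z : Subgroup H) (hQn : Q.Normal)
    (hZ : ∀ x : H, x ∈ Z ↔ x ^ 2 = 1) (hZQ : Z ≤ Q) (hsq : ∀ x ∈ Q, x ^ 2 ∈ Z)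
    (hcomm : ∀ x ∈ Q, ∀ y ∈ Q, x * y * x⁻¹ * y⁻¹ ∈ Z) (hZc : ∀ z ∈ Z, ∀ x ∈ Q, z * x = x * z) :
    Nonempty (ModData H Q Z) := by
  have hZn : Z.Normal := ⟨fun z hz g => by
    rw [hZ] at hz ⊢
    rw [conj_pow, hz]; group⟩
  have hy : Hy Q Z := ⟨hQn, hZ, hZQ, hsq, hcomm, hZc⟩
  exact ⟨{ V := VT hy
           Z' := ZT hy
           π := pi hy
           ζ := ze hy
           q := qq hy
           π_mul := fun x hx y hy' => pi_mul hy hx hy'
           π_surj := pi_surj hy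
           π_zero := fun x hx => pi_zero hy hx
           smul_π := fun h x hx => smul_pi hy h hx
           ζ_inj := fun z hz z' hz' h => ze_inj hy hz hz' h
           ζ_surj := ze_surj hy
           ζ_one := ze_one hy
           q_π := fun x hx => qq_pi hy hx
           aq := aq hy }⟩

end Cfsg.Agent.Lib.H16ThGMod
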