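import Cfsg.Agent.Lib.H16ThDefs

set_option autoImplicit false

namespace Cfsg.Agent.Lib.H16ThDih

open Cfsg.Agent.Lib.H16ThDefs

variable {V Z Γ : Type*} [AddCommGroup V] [AddCommGroup Z] [Group Γ] [DistribMulAction Γ V]

/-- PIECE Dih (pure Mathlib, a computation in `F_2[D_{2m}]`).  `t` inverts `y` of odd order, `s`
commutes with `y` and fixes `[V, t]` pointwise.  Then `s` fixes `[V, y]` pointwise.
Proof: choose `i` with `y ^ (2 * i) = y` (`orderOf y = 2 j + 1`, `i = j + 1`).  From
`t * y * t⁻¹ = y⁻¹`: `y^i * t * y^(-i) = y^(2 i) * t = y * t`.  For `v₀` put `v = t⁻¹ • v₀`: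
`y • v₀ + v₀ = (t • v + v) + (y * t) • v + v) = (t • v + v) + y^i • (t • w + w)`, `w = y^(-i) • v`
(char 2).  `s` fixes `t • v + v` and, commuting with `y^i`, also `y^i • (t • w + w)`. -/
theorem dih (hV2 : ∀ v : V, v + v = 0) (y t s : Γ) (hy : Odd (orderOf y))
    (ht : t * y * t⁻¹ = y⁻¹) (hs : s * y = y * s) (hst : ∀ v : V, s • (t • v + v) = t • v + v) :
    ∀ v : V, s • (y • v + v) = y • v + v := by
  obtain ⟨j, hj⟩ := hy
  set a : Γ := y ^ (j + 1) with ha
  have haa : a * a = y := by
    rw [ha, ← pow_add]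
    have : j + 1 + (j + 1) = orderOf y + 1 := by omega
    rw [this, pow_add, pow_orderOf_eq_one, one_mul, pow_one]
  have hta : t * a * t⁻¹ = a⁻¹ := by
    rw [ha, ← conj_pow, ht, inv_pow]
  have hsa : s * a = a * s := by
    have : Commute s y := hs
    exact (this.pow_right (j + 1))
  have hyt : y * t = a * t * a⁻¹ := by
    have h1 : t * a⁻¹ = a * t := by
      have : t * a = a⁻¹ * t := by
        rw [← hta]; group
      calc t * a⁻¹ = a * (a⁻¹ * t) * a⁻¹ := by group
        _ = a * (t * a) * a⁻¹ := by rw [this]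
        _ = a * t := by group
    rw [mul_assoc, h1, ← haa, mul_assoc]
  intro v₀
  set v : V := t⁻¹ • v₀ with hv
  have hv0 : v₀ = t • v := by rw [hv, smul_inv_smul]
  set w : V := a⁻¹ • v with hw
  have hvw : v = a • w := by rw [hw, smul_inv_smul]
  have key : y • v₀ + v₀ = a • (t • w + w) + (t • v + v) := by
    have e1 : y • v₀ = a • t • w := by
      rw [hv0, ← mul_smul, hyt, mul_smul, mul_smul]
    rw [e1, smul_add, ← hvw, hv0]
    have := hV2 v
    calc a • t • w + t • v = a • t • w + t • v + (v + v) := by rw [this, add_zero]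
      _ = a • t • w + v + (t • v + v) := by abel
  rw [key, smul_add, hst v, ← mul_smul, hsa, mul_smul, hst w]

end Cfsg.Agent.Lib.H16ThDih
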