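import Cfsg.Agent.Lib.H16ThDefs
import Cfsg.Agent.Lib.H16ThDih

set_option autoImplicit false

namespace Cfsg.Agent.Lib.H16ThExB

open Cfsg.Agent.Lib.H16ThDefs

variable {V Z Γ : Type*} [AddCommGroup V] [AddCommGroup Z] [Group Γ] [DistribMulAction Γ V]

/-- PIECE ExB.  `T` acts with `[V,T] ≤ C_V(T)`, `K` has index 2 in `T`, `y ≠ 1` of odd order is
centralized by `K` and inverted by `T \ K`.  Then there is `0 ≠ b ∈ C_V(T)` such that for `s ∈ T`:
`b ∈ [V, s] ↔ s ∉ K`.
Proof.  `t^2 = 1` on `V` for `t ∈ T` (from `hTF`), hence `t ^ 2 = 1` (faithful), `T` is commutative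
(`s t v = v + (s v + v) + (t v + v)`; not really needed).  Let `U = {y • v + v}` (an additive
subgroup), `C = {v | y • v = v}`, `m = orderOf y` odd, `e v = ∑_{i<m} y^i • v`.
(1) `U ∩ C = 0`: `e (y•v+v) = y^m • v + v = 0`, and `e c = m • c = c` for `c ∈ C`.
(2) `V = C + U`: `e v ∈ C` and `v + e v = ∑_{i<m} (v + y^i • v) ∈ U`.
(3) every `s ∈ K` fixes `U` pointwise: `H16ThDih.dih` with `t = t₀ ∈ T \ K` (`s` fixes `Fix V T`).
(4) `U ≠ 0` (faithful, `y ≠ 1`) and `t₀ U ⊆ U` (`t₀ • (y•v+v) = y⁻¹•w + w`, `w = t₀ • v`, and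
    `y⁻¹•w + w = y • (y⁻¹•w) + y⁻¹•w`).  `t₀` does not fix `U` pointwise: otherwise for `u ∈ U`,
    `y⁻¹ • u = t₀ • y • t₀⁻¹ • u = y • u`, so `y^2 • u = u`, `y • u = u` (odd order), `u ∈ U ∩ C = 0`.
    Take `u ∈ U` with `b := t₀ • u + u ≠ 0`; `b ∈ Fix V T` by `hTF`, and `b ∈ U`.
(5) `t ∈ T \ K`: `k = t₀ * t ∈ K`, `t = t₀ * k` (as `t₀^2 = 1`), `t • u = t₀ • u`, so `b = t•u+u`.
(6) `s ∈ K`: `s` commutes with `y` so preserves `C`; for `v = c + u'`: `s•v+v = s•c + c ∈ C`; so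
    `b = s•v+v` would give `b ∈ U ∩ C = 0`. -/
theorem exists_b [FaithfulSMul Γ V] (hV2 : ∀ v : V, v + v = 0) (T K : Subgroup Γ)
    (hTF : ∀ t ∈ T, ∀ v : V, t • v + v ∈ Fix V T) (hKT : K ≤ T) (ht0 : ∃ t ∈ T, t ∉ K)
    (hidx : ∀ t ∈ T, ∀ t' ∈ T, t ∉ K → t' ∉ K → t * t' ∈ K) (y : Γ) (hy : Odd (orderOf y))
    (hy1 : y ≠ 1) (hK : ∀ s ∈ K, s * y = y * s) (hinv : ∀ t ∈ T, t ∉ K → t * y * t⁻¹ = y⁻¹) :
    ∃ b ∈ Fix V T, b ≠ 0 ∧ ∀ s ∈ T, (s ∈ K ↔ ¬ ∃ v : V, s • v + v = b) := by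
  obtain ⟨t₀, ht₀, ht₀K⟩ := ht0
  -- char 2 helper
  have hc2 : ∀ a b : V, a + b = 0 → a = b := by
    intro a b h
    calc a = a + (b + b) := by rw [hV2 b, add_zero]
      _ = (a + b) + b := by abel
      _ = b := by rw [h, zero_add]
  -- t₀ * t₀ = 1
  have ht₀2 : t₀ * t₀ = 1 := by
    apply FaithfulSMul.eq_of_smul_eq_smul (α := V)
    intro v
    have h := (mem_Fix.mp (hTF t₀ ht₀ v)) t₀ ht₀
    rw [smul_add] at h
    rw [mul_smul, one_smul]
    have h2 : t₀ • t₀ • v + v = 0 := by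
      calc t₀ • t₀ • v + v = (t₀ • t₀ • v + t₀ • v) + (t₀ • v + v) + (v + v) := by
            have := hV2 (t₀ • v)
            have h3 := hV2 v
            calc t₀ • t₀ • v + v = t₀ • t₀ • v + v + (t₀ • v + t₀ • v) + (v + v) := by
                  rw [this, h3, add_zero, add_zero]
              _ = _ := by abel
        _ = (t₀ • v + v) + (t₀ • v + v) + (v + v) := by rw [h]
        _ = 0 := by rw [hV2, hV2, add_zero]
    exact hc2 _ _ h2
  -- (1) U ∩ C = 0
  have hUC : ∀ v : V, y • (y • v + v) = y • v + v → y • v + v = 0 := by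
    intro v hfix
    set u : V := y • v + v with hu
    have hpowu : ∀ i : ℕ, y ^ i • u = u := by
      intro i
      induction i with
      | zero => simp
      | succ i ih => rw [pow_succ, mul_smul, hfix, ih]
    have hyv : y • v = v + u := by
      rw [hu]
      calc y • v = y • v + (v + v) := by rw [hV2, add_zero]
        _ = v + (y • v + v) := by abel
    have hpow : ∀ i : ℕ, y ^ i • v = v + i • u := by
      intro i
      induction i with
      | zero => simp
      | succ i ih =>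
        rw [pow_succ, mul_smul, hyv, smul_add, ih, hpowu, succ_nsmul]
        abel
    have h1 := hpow (orderOf y)
    rw [pow_orderOf_eq_one, one_smul] at h1
    have h2 : orderOf y • u = 0 := by
      have : v + orderOf y • u = v + 0 := by rw [add_zero]; exact h1.symm
      exact add_left_cancel this
    obtain ⟨j, hj⟩ := hy
    rw [hj, add_nsmul, one_nsmul, mul_nsmul', two_nsmul, hV2, zero_add] at h2
    exact h2
  -- (3)
  have hKU : ∀ s ∈ K, ∀ v : V, s • (y • v + v) = y • v + v := by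
    intro s hs
    exact H16ThDih.dih hV2 y t₀ s hy (hinv t₀ ht₀ ht₀K) (hK s hs)
      (fun v => (mem_Fix.mp (hTF t₀ ht₀ v)) s (hKT hs))
  have ht₀y : t₀ * y = y⁻¹ * t₀ := by
    rw [← hinv t₀ ht₀ ht₀K]; group
  -- (4)
  have hex : ∃ v : V, t₀ • (y • v + v) ≠ y • v + v := by
    by_contra hcon
    push Not at hcon
    apply hy1
    apply FaithfulSMul.eq_of_smul_eq_smul (α := V)
    intro v
    rw [one_smul]
    apply hc2
    apply hUC
    set u : V := y • v + v with hu
    have hyu : y • u = y • (y • v) + y • v := by rw [hu, smul_add]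
    have h1 : t₀ • (y • u) = y • u := by rw [hyu]; exact hcon (y • v)
    have h2 : t₀ • (y • u) = y⁻¹ • u := by
      rw [← mul_smul, ht₀y, mul_smul, hcon v]
    have h3 : y • y • u = u := by
      have : y • u = y⁻¹ • u := by rw [← h1, h2]
      rw [this, smul_inv_smul]
    have h4 : ∀ i : ℕ, (y ^ 2) ^ i • u = u := by
      intro i
      induction i with
      | zero => simp
      | succ i ih =>
        have h7 : y ^ 2 • u = u := by rw [pow_two, mul_smul, h3]
        rw [pow_succ, mul_smul, h7, ih]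
    obtain ⟨j, hj⟩ := hy
    have h5 := h4 (j + 1)
    rw [← pow_mul] at h5
    have h6 : 2 * (j + 1) = orderOf y + 1 := by omega
    rw [h6, pow_add, pow_orderOf_eq_one, one_mul, pow_one] at h5
    exact h5
  obtain ⟨v₁, hv₁⟩ := hex
  set u : V := y • v₁ + v₁ with hu
  have hbU : t₀ • u + u = y • (y⁻¹ • t₀ • v₁ + v₁) + (y⁻¹ • t₀ • v₁ + v₁) := by
    have h1 : t₀ • u = y⁻¹ • t₀ • v₁ + t₀ • v₁ := by
      rw [hu, smul_add, ← mul_smul, ht₀y, mul_smul]
    rw [h1, smul_add, smul_inv_smul, hu]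
    abel
  refine ⟨t₀ • u + u, hTF t₀ ht₀ u, fun h => hv₁ (hc2 _ _ h), ?_⟩
  intro s hs
  constructor
  · rintro hsK ⟨v, hv⟩
    apply hv₁
    apply hc2
    rw [hbU]
    apply hUC
    rw [← hbU, ← hv]
    have h1 := hKU s hsK v
    rw [smul_add] at h1
    have h2 : s • y • v = y • v + v + s • v := by
      calc s • y • v = (s • y • v + s • v) + s • v := by
            rw [add_assoc, hV2, add_zero]
        _ = _ := by rw [h1]
    rw [smul_add, ← mul_smul, ← hK s hsK, mul_smul, h2]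
    calc y • v + v + s • v + y • v = (y • v + y • v) + (s • v + v) := by abel
      _ = s • v + v := by rw [hV2, zero_add]
  · intro hno
    by_contra hsK
    apply hno
    refine ⟨u, ?_⟩
    have hk := hidx t₀ ht₀ s hs ht₀K hsK
    have h1 : s = t₀ * (t₀ * s) := by rw [← mul_assoc, ht₀2, one_mul]
    have h2 : s • u = t₀ • u := by
      conv_lhs => rw [h1]
      rw [mul_smul, hKU _ hk v₁]
    rw [h2]

end Cfsg.Agent.Lib.H16ThExB
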