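import Cfsg.Agent.Lib.H16ThDefs

set_option autoImplicit false

namespace Cfsg.Agent.Lib.H16ThFib

open Cfsg.Agent.Lib.H16ThDefs

variable {V Z Γ : Type*} [AddCommGroup V] [AddCommGroup Z] [Group Γ] [DistribMulAction Γ V]

/-- PIECE Fib (pure Mathlib, counting).  On an `N`-invariant subgroup `W` all the fibres of `q`
over nonzero values have the same size `c`, hence `|W| = c (|Z| - 1) + 1`.
Sketch: for `z, z' ≠ 0` take `g ∈ N` from `hN`; `w ↦ g • w` is an injection
`{w ∈ W | q w = z} → {w ∈ W | q w = z'}`, so the cardinalities are `≤` both ways.  If `Z` has no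
nonzero element take `c = 0` (then `W = 0` by `aniso`).  `W` is the disjoint union of the fibres;
the fibre over `0` is `{0}` (`zero`, `aniso`).  (`Nat.card_sigma`/`Equiv.sigmaFiberEquiv`,
`Finset.card_eq_sum_card_fiberwise` after `Fintype.ofFinite`.) -/
theorem fib [Finite V] [Finite Z] {q : V → Z} (h : AQ q) {N : Subgroup Γ} (hN : Tr q N)
    (W : AddSubgroup V) (hW : Inv N W) :
    ∃ c : ℕ, (∀ z : Z, z ≠ 0 → Nat.card {w : W // q (w : V) = z} = c) ∧
      Nat.card W = c * (Nat.card Z - 1) + 1 := by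
  classical
  haveI : Fintype Z := Fintype.ofFinite Z
  have hle : ∀ z z' : Z, z ≠ 0 → z' ≠ 0 →
      Nat.card {w : W // q (w : V) = z} ≤ Nat.card {w : W // q (w : V) = z'} := by
    intro z z' hz hz'
    obtain ⟨g, hg, hgq⟩ := hN z z' hz hz'
    refine Nat.card_le_card_of_injective
      (fun w => ⟨⟨g • (w.1 : V), hW g hg _ w.1.2⟩, hgq _ w.2⟩) ?_
    intro a b hab
    have h1 : g • (a.1 : V) = g • (b.1 : V) := congrArg (fun x => ((x.1 : W) : V)) hab
    exact Subtype.ext (Subtype.ext (smul_left_cancel g h1))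
  have heq : ∀ z z' : Z, z ≠ 0 → z' ≠ 0 →
      Nat.card {w : W // q (w : V) = z} = Nat.card {w : W // q (w : V) = z'} :=
    fun z z' hz hz' => le_antisymm (hle z z' hz hz') (hle z' z hz' hz)
  have h0 : Nat.card {w : W // q (w : V) = 0} = 1 := by
    rw [Nat.card_eq_one_iff_unique]
    refine ⟨⟨?_⟩, ⟨⟨0, by simpa using h.zero⟩⟩⟩
    intro a b
    have ha := h.aniso _ a.2
    have hb := h.aniso _ b.2
    exact Subtype.ext (Subtype.ext (ha.trans hb.symm))
  have hsum : Nat.card W = ∑ z : Z, Nat.card {w : W // q (w : V) = z} := by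
    rw [← Nat.card_sigma]
    exact Nat.card_congr (Equiv.sigmaFiberEquiv (fun w : W => q (w : V))).symm
  have hsplit : Nat.card W
      = (∑ z ∈ Finset.univ.erase (0 : Z), Nat.card {w : W // q (w : V) = z}) + 1 := by
    rw [hsum, ← Finset.sum_erase_add _ _ (Finset.mem_univ (0 : Z)), h0]
  by_cases hZ : ∃ z0 : Z, z0 ≠ 0
  · obtain ⟨z0, hz0⟩ := hZ
    refine ⟨Nat.card {w : W // q (w : V) = z0}, fun z hz => heq z z0 hz hz0, ?_⟩
    rw [hsplit, Finset.sum_congr rfl (fun z hz => heq z z0 (Finset.ne_of_mem_erase hz) hz0),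
      Finset.sum_const, Finset.card_erase_of_mem (Finset.mem_univ _), Finset.card_univ,
      Nat.card_eq_fintype_card (α := Z), smul_eq_mul, mul_comm]
  · push Not at hZ
    refine ⟨0, fun z hz => absurd (hZ z) hz, ?_⟩
    rw [hsplit, zero_mul]
    congr 1
    apply Finset.sum_eq_zero
    intro z hz
    exact absurd (hZ z) (Finset.ne_of_mem_erase hz)

end Cfsg.Agent.Lib.H16ThFib
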