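import Cfsg.Agent.Lib.H16ThDefs

set_option autoImplicit false

namespace Cfsg.Agent.Lib.H16ThNum

open Cfsg.Agent.Lib.H16ThDefs

variable {V Z Γ : Type*} [AddCommGroup V] [AddCommGroup Z] [Group Γ] [DistribMulAction Γ V]

theorem num {d n c : ℕ} (h : 2 ^ d = c * (2 ^ n - 1) + 1) (hd : 2 ^ d ≤ (2 ^ n) ^ 2) :
    d = 0 ∨ d = n ∨ d = 2 * n := by
  have hdn : d ≤ 2 * n := by
    rw [← pow_mul, mul_comm] at hd
    exact (Nat.pow_le_pow_iff_right (by norm_num)).1 hd
  have h1 : (2 ^ n - 1) ∣ (2 ^ d - 1) := ⟨c, by rw [h]; simp [mul_comm]⟩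
  have h2 := Nat.pow_sub_one_gcd_pow_sub_one 2 n d
  rw [Nat.gcd_eq_left h1] at h2
  have h3 : 2 ^ n = 2 ^ (Nat.gcd n d) := by
    have a1 : 0 < 2 ^ n := by positivity
    have a2 : 0 < 2 ^ (Nat.gcd n d) := by positivity
    omega
  have h4 : n = Nat.gcd n d := Nat.pow_right_injective (le_refl 2) h3
  have h5 : n ∣ d := by rw [h4]; exact Nat.gcd_dvd_right _ _
  obtain ⟨k, rfl⟩ := h5
  rcases Nat.eq_zero_or_pos n with rfl | hn
  · left; simp
  · have hk : k ≤ 2 := by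
      by_contra hk
      push Not at hk
      have : n * 3 ≤ n * k := Nat.mul_le_mul_left n hk
      omega
    interval_cases k
    · left; simp
    · right; left; simp
    · right; right; ring

theorem card_pow2 {A : Type*} [AddCommGroup A] [Finite A] (h : ∀ a : A, a + a = 0) :
    ∃ d, Nat.card A = 2 ^ d := by
  have : Fact (Nat.Prime 2) := ⟨Nat.prime_two⟩
  have h1 : IsPGroup 2 (Multiplicative A) := by
    intro a
    refine ⟨1, ?_⟩
    rw [pow_one, pow_two]
    exact h (Multiplicative.toAdd a)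
  obtain ⟨d, hd⟩ := IsPGroup.iff_card.1 h1
  exact ⟨d, hd⟩

end Cfsg.Agent.Lib.H16ThNum
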