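import Cfsg.Agent.Lib.H16ThDefs
import Cfsg.Agent.Lib.H16ThCW
import Cfsg.Agent.Lib.H16ThFib
import Cfsg.Agent.Lib.H16ThNum

set_option autoImplicit false

namespace Cfsg.Agent.Lib.H16ThInv3

open Cfsg.Agent.Lib.H16ThDefs

variable {V Z Γ : Type*} [AddCommGroup V] [AddCommGroup Z] [Group Γ] [DistribMulAction Γ V]

/-- the restriction of an anisotropic quadratic map to a subgroup. -/
theorem AQ.restrict {q : V → Z} (h : AQ q) (W : AddSubgroup V) : AQ (fun w : W => q (w : V)) where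
  two_V := fun v => Subtype.ext (h.two_V v)
  two_Z := h.two_Z
  zero := h.zero
  aniso := fun v hv => Subtype.ext (h.aniso v hv)
  polar := fun u v w => h.polar u v w

/-- PIECE Inv3, part 1.  An `N`-invariant subgroup has order `1`, `|Z|` or `|Z|^2`. -/
theorem card_inv [Finite V] [Finite Z] {q : V → Z} (h : AQ q) {N : Subgroup Γ} (hN : Tr q N)
    (W : AddSubgroup V) (hW : Inv N W) :
    Nat.card W = 1 ∨ Nat.card W = Nat.card Z ∨ Nat.card W = Nat.card Z ^ 2 := by
  obtain ⟨c, -, hc⟩ := H16ThFib.fib h hN W hW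
  have hle := H16ThCW.card_le (AQ.restrict h W)
  obtain ⟨d, hd⟩ := H16ThNum.card_pow2 (A := W) (AQ.restrict h W).two_V
  obtain ⟨n, hn⟩ := H16ThNum.card_pow2 (A := Z) h.two_Z
  rw [hd, hn] at hc hle
  rw [hd, hn]
  rcases H16ThNum.num hc hle with h0 | h1 | h2
  · left; rw [h0, pow_zero]
  · right; left; rw [h1]
  · right; right; rw [h2, ← pow_mul, mul_comm]

/-- PIECE Inv3, part 2.  If `|W| = |Z|` then `q` is injective on `W`. -/
theorem inj_of_card [Finite V] [Finite Z] {q : V → Z} (h : AQ q) {N : Subgroup Γ} (hN : Tr q N)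
    (W : AddSubgroup V) (hW : Inv N W) (hc : Nat.card W = Nat.card Z) :
    ∀ w ∈ W, ∀ w' ∈ W, q w = q w' → w = w' := by
  obtain ⟨c, hfib, hcard⟩ := H16ThFib.fib h hN W hW
  intro w hw w' hw' hq
  by_cases hz : q w = 0
  · rw [h.aniso w hz, h.aniso w' (hq ▸ hz)]
  · -- `Z` has at least two elements, so `c = 1`
    have hZ : 2 ≤ Nat.card Z := by
      have : Nontrivial Z := ⟨⟨q w, 0, hz⟩⟩
      exact Finite.one_lt_card
    have hc1 : c = 1 := by
      rw [hc] at hcard
      obtain ⟨m, hm⟩ : ∃ m, Nat.card Z = m + 2 := ⟨Nat.card Z - 2, by omega⟩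
      rw [hm] at hcard
      have h1 : m + 2 - 1 = m + 1 := by omega
      rw [h1] at hcard
      have h2 : c * (m + 1) = 1 * (m + 1) := by omega
      exact Nat.eq_of_mul_eq_mul_right (by omega) h2
    have h1 := hfib (q w) hz
    rw [hc1] at h1
    have hsub : Subsingleton {x : W // q (x : V) = q w} :=
      (Nat.card_eq_one_iff_unique.mp h1).1
    have := hsub.elim ⟨⟨w, hw⟩, rfl⟩ ⟨⟨w', hw'⟩, hq.symm⟩
    exact congrArg (fun x : {x : W // q (x : V) = q w} => ((x : W) : V)) this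

/-- PIECE Inv3, part 3.  If `|W| = |Z|` then `q` maps `W` onto `Z` (injective + same card). -/
theorem surj_of_card [Finite V] [Finite Z] {q : V → Z} (h : AQ q) {N : Subgroup Γ} (hN : Tr q N)
    (W : AddSubgroup V) (hW : Inv N W) (hc : Nat.card W = Nat.card Z) :
    ∀ z, ∃ w ∈ W, q w = z := by
  have hinj : Function.Injective (fun w : W => q (w : V)) := by
    intro a b hab
    exact Subtype.ext (inj_of_card h hN W hW hc a a.2 b b.2 hab)
  have hbij : Function.Bijective (fun w : W => q (w : V)) :=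
    (Nat.bijective_iff_injective_and_card _).mpr ⟨hinj, hc⟩
  intro z
  obtain ⟨w, hw⟩ := hbij.2 z
  exact ⟨w, w.2, hw⟩

end Cfsg.Agent.Lib.H16ThInv3
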