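import Cfsg.Agent.Lib.H16ThDefs
import Cfsg.Agent.Lib.H16ThInv3

set_option autoImplicit false

namespace Cfsg.Agent.Lib.H16ThFixT

open Cfsg.Agent.Lib.H16ThDefs

variable {V Z Γ : Type*} [AddCommGroup V] [AddCommGroup Z] [Group Γ] [DistribMulAction Γ V]

/-- PIECE FixT, part 1: `C_V(T)` is invariant under a group normalizing `T`
(`t • g • v = g • (g⁻¹ * t * g) • v`; apply `hNT` to `g⁻¹ ∈ N`). -/
theorem inv_fix {N T : Subgroup Γ} (hNT : ∀ g ∈ N, ∀ t ∈ T, g * t * g⁻¹ ∈ T) :
    Inv N (Fix V T) := by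
  intro g hg w hw t ht
  have h1 : g⁻¹ * t * g ∈ T := by
    have := hNT g⁻¹ (N.inv_mem hg) t ht
    simpa using this
  have h2 := hw _ h1
  calc t • g • w = g • (g⁻¹ * t * g) • w := by
        rw [mul_smul, mul_smul, smul_inv_smul]
    _ = g • w := by rw [h2]

/-- PIECE FixT, part 2.  If `|V| = |Z|^2` and `T ≠ 1` is a 2-group normalized by the transitive
group `N`, then `|C_V(T)| = |Z|`.
Sketch: `H16ThInv3.card_inv` for `W = Fix V T` gives `1`, `|Z|` or `|Z|^2`.
* not `1`: `|V|` is even (`V` is nontrivial since `T ≠ ⊥` acts faithfully; `H16ThNum.card_pow2`) and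
  `|V| ≡ |fixed points of T|  mod 2` (`IsPGroup.card_modEq_card_fixedPoints` for `MulAction T V`).
* not `|Z|^2 = |V|`: then `Fix V T = ⊤`, so every `t ∈ T` acts trivially, `T = ⊥` by faithfulness.
(if `|Z| = |Z|^2`... no special care is needed: prove `card ≠ 1` and `card ≠ card V`.) -/
theorem card_fix [FaithfulSMul Γ V] [Finite V] [Finite Z] {q : V → Z} (h : AQ q) {N T : Subgroup Γ}
    (hN : Tr q N) (hNT : ∀ g ∈ N, ∀ t ∈ T, g * t * g⁻¹ ∈ T) (hT : IsPGroup 2 T) (hT1 : T ≠ ⊥)
    (hV : Nat.card V = Nat.card Z ^ 2) : Nat.card (Fix V T) = Nat.card Z := by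
  classical
  haveI : Fact (Nat.Prime 2) := ⟨Nat.prime_two⟩
  -- some element of T moves some vector
  obtain ⟨t, htT, ht1⟩ : ∃ t, t ∈ T ∧ t ≠ 1 := by
    obtain ⟨x, hx⟩ := (Subgroup.ne_bot_iff_exists_ne_one).1 hT1
    exact ⟨x.1, x.2, fun h => hx (Subtype.ext h)⟩
  obtain ⟨v, hv⟩ : ∃ v : V, t • v ≠ v := by
    by_contra hcon
    push Not at hcon
    exact ht1 (FaithfulSMul.eq_of_smul_eq_smul (α := V) (fun a => by rw [hcon a, one_smul]))
  have hne_top : Nat.card (Fix V T) ≠ Nat.card V := by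
    intro hc
    have htop : Fix V T = ⊤ := AddSubgroup.eq_top_of_card_eq _ hc
    have : v ∈ Fix V T := htop ▸ AddSubgroup.mem_top v
    exact hv (this t htT)
  have hne_one : Nat.card (Fix V T) ≠ 1 := by
    intro hc
    obtain ⟨d, hd⟩ := H16ThNum.card_pow2 h.two_V
    have hd0 : d ≠ 0 := by
      rintro rfl
      rw [pow_zero, Nat.card_eq_one_iff_unique] at hd
      haveI := hd.1
      exact hv (Subsingleton.elim _ _)
    have hmod := hT.card_modEq_card_fixedPoints V
    have hfix : Nat.card (MulAction.fixedPoints T V) = Nat.card (Fix V T) := by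
      apply Nat.card_congr
      refine Equiv.subtypeEquivRight ?_
      intro x
      constructor
      · intro hx g hg
        exact hx ⟨g, hg⟩
      · intro hx g
        exact hx g.1 g.2
    rw [hfix, hc, hd] at hmod
    have h2 : 2 ∣ 2 ^ d := dvd_pow_self 2 hd0
    have : (2 ^ d) % 2 = 1 % 2 := hmod
    omega
  rcases H16ThInv3.card_inv h hN (Fix V T) (inv_fix hNT) with h1 | h1 | h1
  · exact absurd h1 hne_one
  · exact h1
  · exact absurd (h1.trans hV.symm) hne_top

end Cfsg.Agent.Lib.H16ThFixT
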