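import Cfsg.Agent.Lib.H16ThDefs

set_option autoImplicit false

namespace Cfsg.Agent.Lib.H16ThLemE

open Cfsg.Agent.Lib.H16ThDefs

variable {V Z Γ : Type*} [AddCommGroup V] [AddCommGroup Z] [Group Γ] [DistribMulAction Γ V]

/-- PIECE LemE (pure group theory).  An elementary abelian 2-group `T` acting (by conjugation) on
a nontrivial group `R` of odd order with `C_R(T) = 1` has a subgroup `K` of index 2 with an element
`1 ≠ y ∈ C_R(K)` inverted by all `t ∈ T \ K`.
Proof: `T` is commutative (exponent 2).  Let `K ≤ T` be maximal (finite!) among the subgroups of `T`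
with `C_R(K) ≠ 1` (`⊥` qualifies as `R ≠ ⊥`; `K ≠ T` by `hC`).  `Y = C_R(K)` is `T`-invariant.
For `t ∈ T \ K`: `C_Y(t) = C_R(K ⊔ ⟨t⟩) = 1` by maximality, so conjugation by `t` is a fixed point
free automorphism of the finite group `Y` with square 1, hence inverts `Y`
(`y ↦ y⁻¹ * (t y t⁻¹)` is injective, so surjective, and `t` inverts such elements; see also
`Mathlib/GroupTheory/FixedPointFree.lean`).  If `t, t' ∈ T \ K` then `t t'` centralizes `Y ≠ 1`,
so `K ⊔ ⟨t t'⟩` has nontrivial centralizer in `R` and `t t' ∈ K` by maximality. -/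
theorem lemE {G : Type*} [Group G] [Finite G] (R T : Subgroup G) (hR : Odd (Nat.card R))
    (hT2 : ∀ t ∈ T, t ^ 2 = 1) (hTR : ∀ t ∈ T, ∀ r ∈ R, t * r * t⁻¹ ∈ R)
    (hC : ∀ y ∈ R, (∀ t ∈ T, t * y = y * t) → y = 1) (hne : R ≠ ⊥) :
    ∃ K : Subgroup G, K ≤ T ∧ (∃ t ∈ T, t ∉ K) ∧
      (∀ t ∈ T, ∀ t' ∈ T, t ∉ K → t' ∉ K → t * t' ∈ K) ∧
      ∃ y ∈ R, y ≠ 1 ∧ (∀ s ∈ K, s * y = y * s) ∧ ∀ t ∈ T, t ∉ K → t * y * t⁻¹ = y⁻¹ := by
  classical
  -- T is commutative
  have hinvT : ∀ t ∈ T, t⁻¹ = t := by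
    intro t ht
    have := hT2 t ht
    rw [pow_two] at this
    exact inv_eq_of_mul_eq_one_left this
  have hcomm : ∀ s ∈ T, ∀ t ∈ T, s * t = t * s := by
    intro s hs t ht
    have h1 := hinvT (s * t) (T.mul_mem hs ht)
    rw [mul_inv_rev, hinvT s hs, hinvT t ht] at h1
    exact h1.symm
  let 𝒦 : Set (Subgroup G) := {K | K ≤ T ∧ ∃ y ∈ R, y ≠ 1 ∧ ∀ s ∈ K, s * y = y * s}
  have hfin : 𝒦.Finite := Set.toFinite _
  have hnon : 𝒦.Nonempty := by
    obtain ⟨y, hy⟩ := (Subgroup.ne_bot_iff_exists_ne_one.mp hne)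
    refine ⟨⊥, bot_le, y.1, y.2, ?_, ?_⟩
    · intro h; exact hy (Subtype.ext h)
    · intro s hs
      rw [Subgroup.mem_bot] at hs
      subst hs; simp
  obtain ⟨K, hK⟩ := hfin.exists_maximal hnon
  obtain ⟨hKT, y0, hy0R, hy01, hy0K⟩ := hK.prop
  -- claim 1
  have claim1 : ∀ t ∈ T, t ∉ K → ∀ y ∈ R, (∀ s ∈ K, s * y = y * s) → t * y = y * t → y = 1 := by
    intro t ht htK y hyR hyK hty
    by_contra hy1
    have hmem : K ⊔ Subgroup.zpowers t ∈ 𝒦 := by
      refine ⟨sup_le hKT (by rw [Subgroup.zpowers_le]; exact ht), y, hyR, hy1, ?_⟩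
      have hle : K ⊔ Subgroup.zpowers t ≤ Subgroup.centralizer {y} := by
        refine sup_le ?_ ?_
        · intro s hs
          rw [Subgroup.mem_centralizer_singleton_iff]
          exact hyK s hs
        · rw [Subgroup.zpowers_le, Subgroup.mem_centralizer_singleton_iff]
          exact hty
      intro s hs
      exact Subgroup.mem_centralizer_singleton_iff.mp (hle hs)
    have hle := hK.le_of_ge hmem le_sup_left
    exact htK (hle (le_sup_right (a := K) (Subgroup.mem_zpowers t)))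
  -- K ≠ T
  have hex : ∃ t ∈ T, t ∉ K := by
    by_contra hcon
    push Not at hcon
    exact hy01 (hC y0 hy0R (fun t ht => hy0K t (hcon t ht)))
  -- inversion
  let Y : Subgroup G := R ⊓ Subgroup.centralizer (K : Set G)
  have hYmem : ∀ y, y ∈ Y ↔ y ∈ R ∧ ∀ s ∈ K, s * y = y * s := by
    intro y
    constructor
    · rintro ⟨h1, h2⟩
      refine ⟨h1, fun s hs => ?_⟩
      exact (Subgroup.mem_centralizer_iff.mp h2 s hs)
    · rintro ⟨h1, h2⟩
      refine ⟨h1, ?_⟩
      apply Subgroup.mem_centralizer_iff.mpr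
      intro s hs
      exact h2 s hs
  have hYinv : ∀ t ∈ T, ∀ y ∈ Y, t * y * t⁻¹ ∈ Y := by
    intro t ht y hy
    rw [hYmem] at hy ⊢
    refine ⟨hTR t ht y hy.1, fun s hs => ?_⟩
    have h1 := hcomm s (hKT hs) t ht
    have h2 := hy.2 s hs
    have h3 : s * t⁻¹ = t⁻¹ * s := by
      rw [hinvT t ht]; exact h1
    calc s * (t * y * t⁻¹) = (s * t) * y * t⁻¹ := by group
      _ = t * (s * y) * t⁻¹ := by rw [h1]; group
      _ = t * y * (s * t⁻¹) := by rw [h2]; group
      _ = t * y * t⁻¹ * s := by rw [h3]; group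
  have hinvY : ∀ t ∈ T, t ∉ K → ∀ y ∈ Y, t * y * t⁻¹ = y⁻¹ := by
    intro t ht htK y hy
    let φ : ↥Y →* ↥Y :=
      { toFun := fun y => ⟨t * y.1 * t⁻¹, hYinv t ht y.1 y.2⟩
        map_one' := by ext; simp
        map_mul' := by intro a b; ext; simp }
    have hφ : MonoidHom.FixedPointFree φ := by
      intro a ha
      have h1 : t * a.1 * t⁻¹ = a.1 := congrArg Subtype.val ha
      have h2 : t * a.1 = a.1 * t := by
        calc t * a.1 = (t * a.1 * t⁻¹) * t := by group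
          _ = a.1 * t := by rw [h1]
      have := claim1 t ht htK a.1 ((hYmem _).mp a.2).1 ((hYmem _).mp a.2).2 h2
      exact Subtype.ext this
    have hinvol : Function.Involutive φ := by
      intro a
      ext
      change t * (t * a.1 * t⁻¹) * t⁻¹ = a.1
      rw [hinvT t ht]
      have := hT2 t ht
      rw [pow_two] at this
      calc t * (t * a.1 * t) * t = (t * t) * a.1 * (t * t) := by group
        _ = a.1 := by rw [this]; simp
    have h := hφ.coe_eq_inv_of_involutive hinvol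
    have h2 := congrFun h ⟨y, hy⟩
    exact congrArg Subtype.val h2
  have hy0Y : y0 ∈ Y := (hYmem _).mpr ⟨hy0R, hy0K⟩
  refine ⟨K, hKT, hex, ?_, y0, hy0R, hy01, hy0K, fun t ht htK => hinvY t ht htK y0 hy0Y⟩
  intro t ht t' ht' htK ht'K
  by_contra hcon
  apply hy01
  refine claim1 (t * t') (T.mul_mem ht ht') hcon y0 hy0R hy0K ?_
  have h1 := hinvY t' ht' ht'K y0 hy0Y
  have h2 := hinvY t ht htK y0⁻¹ (Y.inv_mem hy0Y)
  rw [inv_inv] at h2
  have h3 : t * t' * y0 * (t * t')⁻¹ = y0 := by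
    calc t * t' * y0 * (t * t')⁻¹ = t * (t' * y0 * t'⁻¹) * t⁻¹ := by group
      _ = y0 := by rw [h1, h2]
  calc t * t' * y0 = (t * t' * y0 * (t * t')⁻¹) * (t * t') := by group
    _ = y0 * (t * t') := by rw [h3]

end Cfsg.Agent.Lib.H16ThLemE
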