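import Cfsg.Agent.Lib.H16ThDefs

set_option autoImplicit false

namespace Cfsg.Agent.Lib.H16ThW

open Cfsg.Agent.Lib.H16ThDefs

variable {V Z Γ : Type*} [AddCommGroup V] [AddCommGroup Z] [Group Γ] [DistribMulAction Γ V]

theorem w1 {q : V → Z} (h : AQ q) (W : AddSubgroup V) (hsurj : ∀ z, ∃ w ∈ W, q w = z) (g : Γ)
    (hg : ∀ v, q (g • v) = q v) (hfix : ∀ w ∈ W, g • w = w) : ∀ v, g • v + v ∈ W := by
  intro v
  obtain ⟨w, hw, hqw⟩ := hsurj (q (g • v + v))
  have h1 : q (g • v + w) = q (v + w) := by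
    conv_lhs => rw [← hfix w hw, ← smul_add, hg]
  have h2 : q (g • v + v + w) = 0 := by
    rw [h.polar, h1, hg, hqw]
    have e : ∀ a b c : Z, a + b + b + c + c + a = (a + a) + (b + b) + (c + c) := by
      intro a b c; abel
    rw [e, h.two_Z (q (g • v + v)), h.two_Z (q (v + w)), h.two_Z (q v)]; simp
  have h3 := h.aniso _ h2
  have h4 : g • v + v = -w := eq_neg_of_add_eq_zero_left h3
  rw [h4]
  exact W.neg_mem hw

theorem w2 [FaithfulSMul Γ V] {q : V → Z} (h : AQ q) (W : AddSubgroup V)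
    (hsurj : ∀ z, ∃ w ∈ W, q w = z) (g : Γ)
    (hg : ∀ v, q (g • v) = q v) (hfix : ∀ w ∈ W, g • w = w) (hodd : Odd (orderOf g)) : g = 1 := by
  have h1 : g ^ 2 = 1 := by
    apply FaithfulSMul.eq_of_smul_eq_smul (α := V)
    intro v
    have h2 := hfix _ (w1 h W hsurj g hg hfix v)
    rw [smul_add] at h2
    have h3 : g • g • v = v := by
      have := congrArg (fun x => x - g • v) h2
      simpa using this
    rw [pow_two, mul_smul, h3, one_smul]
  have h2 := orderOf_dvd_of_pow_eq_one h1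
  rcases (Nat.dvd_prime Nat.prime_two).1 h2 with h3 | h3
  · exact orderOf_eq_one_iff.1 h3
  · rw [h3] at hodd
    exact absurd hodd (by decide)

end Cfsg.Agent.Lib.H16ThW
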