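import Cfsg.Agent.Lib.H16ThDefs
import Cfsg.Agent.Lib.H16ThInv3
import Cfsg.Agent.Lib.H16ThW
import Cfsg.Agent.Lib.H16ThFixT
import Cfsg.Agent.Lib.H16ThLemE
import Cfsg.Agent.Lib.H16ThExB
import Cfsg.Agent.Lib.H16ThComb

set_option autoImplicit false

namespace Cfsg.Agent.Lib.H16ThMT

open Cfsg.Agent.Lib.H16ThDefs Cfsg.Agent.Lib.H16ThInv3 Cfsg.Agent.Lib.H16ThW
  Cfsg.Agent.Lib.H16ThFixT Cfsg.Agent.Lib.H16ThLemE Cfsg.Agent.Lib.H16ThExB
  Cfsg.Agent.Lib.H16ThComb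

variable {V Z Γ : Type*} [AddCommGroup V] [AddCommGroup Z] [Group Γ] [DistribMulAction Γ V]

theorem inv_top (N : Subgroup Γ) : Inv N (⊤ : AddSubgroup V) := fun _ _ _ _ => AddSubgroup.mem_top _

theorem eq_one_of_smul [FaithfulSMul Γ V] {g : Γ} (h : ∀ v : V, g • v = v) : g = 1 := by
  apply FaithfulSMul.eq_of_smul_eq_smul (α := V)
  intro v
  rw [h v, one_smul]

/-- a normal 2-subgroup acts trivially as soon as some element of odd order preserving `q` and
normalizing it acts nontrivially. -/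
theorem mt1 [FaithfulSMul Γ V] [Finite V] [Finite Z] {q : V → Z} (h : AQ q) (G0 Pb : Subgroup Γ)
    (hG : Tr q G0) (hGP : ∀ g ∈ G0, ∀ p ∈ Pb, g * p * g⁻¹ ∈ Pb) (hP : IsPGroup 2 Pb) (y : Γ)
    (hy : Odd (orderOf y)) (hyq : ∀ v, q (y • v) = q v) (hyP : ∀ p ∈ Pb, y⁻¹ * p * y ∈ Pb)
    (hy1 : y ≠ 1) : Pb = ⊥ := by
  by_contra hPb
  have htop : Inv G0 (⊤ : AddSubgroup V) := inv_top G0
  have hct : Nat.card (⊤ : AddSubgroup V) = Nat.card V := AddSubgroup.card_top
  rcases card_inv h hG ⊤ htop with h1 | h1 | h1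
  · apply hy1
    rw [hct] at h1
    have : Subsingleton V := (Nat.card_eq_one_iff_unique.mp h1).1
    exact eq_one_of_smul (V := V) (fun v => Subsingleton.elim _ _)
  · apply hy1
    apply eq_one_of_smul (V := V)
    intro v
    exact inj_of_card h hG ⊤ htop h1 _ (AddSubgroup.mem_top _) _ (AddSubgroup.mem_top _) (hyq v)
  · rw [hct] at h1
    have hc := card_fix h hG hGP hP hPb h1
    have hinv : Inv G0 (Fix V Pb) := inv_fix hGP
    have hinj := inj_of_card h hG _ hinv hc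
    have hsurj := surj_of_card h hG _ hinv hc
    apply hy1
    apply w2 h (Fix V Pb) hsurj y hyq _ hy
    intro w hw
    apply hinj _ _ _ hw (hyq w)
    intro p hp
    have h2 := hw _ (hyP p hp)
    have h3 : p • y • w = y • ((y⁻¹ * p * y) • w) := by
      simp only [← mul_smul]
      congr 1
      group
    rw [h3, h2]

/-- the main module theorem: `T` has order at most 2. -/
theorem mt2 [FaithfulSMul Γ V] [Finite Γ] [Finite V] [Finite Z] {q : V → Z} (h : AQ q)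
    (R T N : Subgroup Γ) (hR : Odd (Nat.card R)) (hT : IsPGroup 2 T)
    (hTR : ∀ t ∈ T, ∀ r ∈ R, t * r * t⁻¹ ∈ R) (hNT : ∀ g ∈ N, ∀ t ∈ T, g * t * g⁻¹ ∈ T)
    (hRq : Pres q R) (hTq : Pres q T) (hN : Tr q N) (hfix : ∀ v ∈ Fix V R, v = 0)
    (hV : Nontrivial V) : ∀ t ∈ T, ∀ t' ∈ T, t ≠ 1 → t' ≠ 1 → t = t' := by
  intro t₁ ht₁ t₂ ht₂ h₁ h₂
  have hT1 : T ≠ ⊥ := by
    intro hb
    rw [hb, Subgroup.mem_bot] at ht₁
    exact h₁ ht₁
  have htop : Inv N (⊤ : AddSubgroup V) := inv_top N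
  have hct : Nat.card (⊤ : AddSubgroup V) = Nat.card V := AddSubgroup.card_top
  obtain ⟨v₀, hv₀⟩ := exists_ne (0 : V)
  have hcV : Nat.card V = Nat.card Z ^ 2 := by
    rcases card_inv h hN ⊤ htop with h1 | h1 | h1
    · exfalso
      rw [hct] at h1
      have : Subsingleton V := (Nat.card_eq_one_iff_unique.mp h1).1
      exact hv₀ (Subsingleton.elim _ _)
    · exfalso
      apply hv₀
      apply hfix
      intro r hr
      exact inj_of_card h hN ⊤ htop h1 _ (AddSubgroup.mem_top _) _ (AddSubgroup.mem_top _)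
        (hRq r hr v₀)
    · rw [← hct]; exact h1
  have hc := card_fix h hN hNT hT hT1 hcV
  have hinv : Inv N (Fix V T) := inv_fix hNT
  have hinj := inj_of_card h hN _ hinv hc
  have hsurj := surj_of_card h hN _ hinv hc
  have hTF : ∀ t ∈ T, ∀ v : V, t • v + v ∈ Fix V T := fun t ht =>
    w1 h (Fix V T) hsurj t (hTq t ht) (fun w hw => hw t ht)
  have hT2 : ∀ t ∈ T, t ^ 2 = 1 := by
    intro t ht
    apply eq_one_of_smul (V := V)
    intro v
    have h1 := hTF t ht v t ht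
    rw [smul_add] at h1
    rw [pow_two, mul_smul]
    have h2 : t • t • v = (t • t • v + t • v) + t • v := by
      rw [add_assoc, h.two_V, add_zero]
    rw [h2, h1, add_comm (t • v) v, add_assoc, h.two_V, add_zero]
  have hC : ∀ y ∈ R, (∀ t ∈ T, t * y = y * t) → y = 1 := by
    intro y hy hcomm
    have hyo : Odd (orderOf y) := by
      have : orderOf y ∣ Nat.card R := by
        have := orderOf_dvd_natCard (⟨y, hy⟩ : R)
        rwa [Subgroup.orderOf_mk] at this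
      exact Odd.of_dvd_nat hR this
    apply w2 h (Fix V T) hsurj y (hRq y hy) _ hyo
    intro w hw
    apply hinj _ _ _ hw (hRq y hy w)
    intro t ht
    rw [← mul_smul, hcomm t ht, mul_smul, hw t ht]
  have hRne : R ≠ ⊥ := by
    intro hb
    apply hv₀
    apply hfix
    intro r hr
    rw [hb, Subgroup.mem_bot] at hr
    rw [hr, one_smul]
  obtain ⟨K, hKT, ht0, hidx, y, hyR, hy1, hyK, hyinv⟩ := lemE R T hR hT2 hTR hC hRne
  have hyo : Odd (orderOf y) := by
    have : orderOf y ∣ Nat.card R := by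
      have := orderOf_dvd_natCard (⟨y, hyR⟩ : R)
      rwa [Subgroup.orderOf_mk] at this
    exact Odd.of_dvd_nat hR this
  obtain ⟨b, hb, hb0, hbK⟩ := exists_b h.two_V T K hTF hKT ht0 hidx y hyo hy1 hyK hyinv
  have htr : ∀ b ∈ Fix V T, b ≠ 0 → ∀ b' ∈ Fix V T, b' ≠ 0 → ∃ g ∈ N, g • b = b' := by
    intro b hb hb0 b' hb' hb0'
    obtain ⟨g, hg, hgq⟩ := hN (q b) (q b') (fun h0 => hb0 (h.aniso _ h0))
      (fun h0 => hb0' (h.aniso _ h0))
    exact ⟨g, hg, hinj _ (hinv g hg b hb) _ hb' (hgq b rfl)⟩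
  have hK : K = ⊥ := comb h.two_V T K N hNT hKT ht0 hidx hTF htr b hb hb0 hbK
  have hn₁ : t₁ ∉ K := by rw [hK, Subgroup.mem_bot]; exact h₁
  have hn₂ : t₂ ∉ K := by rw [hK, Subgroup.mem_bot]; exact h₂
  have h3 := hidx t₁ ht₁ t₂ ht₂ hn₁ hn₂
  rw [hK, Subgroup.mem_bot] at h3
  have h4 := hT2 t₂ ht₂
  rw [pow_two] at h4
  exact mul_right_cancel (h3.trans h4.symm)

end Cfsg.Agent.Lib.H16ThMT
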