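import Cfsg.Agent.Lib.H16ThGDefs
import Cfsg.Agent.Lib.H16ThMT
import Cfsg.Agent.Lib.H16ThGU
import Cfsg.Agent.Lib.H16ThGMod
import Cfsg.Agent.Lib.H16ThFinA
import Cfsg.Agent.Lib.H16ThFinB
import Cfsg.Agent.Lib.H16ThFinC
import Cfsg.Agent.Lib.H16ThFinD
import Cfsg.Agent.Lib.H16ThFpf

set_option autoImplicit false

namespace Cfsg.Agent.Lib.H16ThFin

open Cfsg Subgroup Cfsg.Agent.Lib.H16ThDefs Cfsg.Agent.Lib.H16ThGDefs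

universe u

/-- the final contradiction. -/
theorem final {H : Type u} [Group H] [Finite H] {P Z : Subgroup H} (hS : Setup H P Z)
    (M T K Q : Subgroup H) (hodd : Odd (P.relIndex M))
    (hMZ : ∀ m ∈ M, ∀ z ∈ Z, m * z = z * m)
    (hT : IsPGroup 2 T) (hTZ : ∀ t ∈ T, ∀ z ∈ Z, t * z = z * t)
    (htr : ∀ x y : H, x ≠ 1 → x ^ 2 = 1 → y ≠ 1 → y ^ 2 = 1 →
        ∃ g ∈ normalizer (T : Set H), g * x * g⁻¹ = y)
    (hKn : K.Normal) (hKM : K ≤ M) (hKT : K ≤ normalClosure (T : Set H))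
    (hKgen : K = closure {y | y ∈ K ∧ Odd (orderOf y)})
    (hQn : Q.Normal) (hQP : Q ≤ P) (hZQ : Z ≤ Q) (hsq : ∀ x ∈ Q, x ^ 2 ∈ Z)
    (hcomm : ∀ x ∈ Q, ∀ y ∈ Q, x * y * x⁻¹ * y⁻¹ ∈ Z) (hQK : ⁅Q, K⁆ = Q) (hQZ : ¬ Q ≤ Z) :
    False := by
  obtain ⟨D⟩ := H16ThGMod.exists_mod Q Z hQn hS.Zmem hZQ hsq hcomm
    (fun z hz x hx => hS.Zc z hz x (hQP hx))
  set ρ := rho H D.V with hρ
  have hPn := hS.Pn
  have hq : AQ D.q := D.aq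
  obtain ⟨y₀, hy₀K, hy₀o, hy₀1⟩ := H16ThFinB.exists_y D hQn K hKgen hQK hQZ
  -- transitivity
  have htrA : ∀ A : Subgroup H, (∀ x y : H, x ≠ 1 → x ^ 2 = 1 → y ≠ 1 → y ^ 2 = 1 →
      ∃ g ∈ A, g * x * g⁻¹ = y) → Tr D.q (A.map ρ) := by
    intro A hA
    apply H16ThFinA.tr D hQn hsq A
    intro z hz hz1 z' hz' hz1'
    exact hA z z' hz1 ((hS.Zmem z).mp hz) hz1' ((hS.Zmem z').mp hz')
  have hpres : ∀ A : Subgroup H, (∀ a ∈ A, ∀ z ∈ Z, a * z = z * a) → Pres D.q (A.map ρ) := by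
    rintro A hA _ ⟨a, ha, rfl⟩ v
    exact H16ThFinA.pres D hQn hsq a (hA a ha) v
  have hconjmap : ∀ (A B : Subgroup H), (∀ a ∈ A, ∀ b ∈ B, a * b * a⁻¹ ∈ B) →
      ∀ g ∈ A.map ρ, ∀ t ∈ B.map ρ, g * t * g⁻¹ ∈ B.map ρ := by
    rintro A B hAB _ ⟨a, ha, rfl⟩ _ ⟨b, hb, rfl⟩
    exact ⟨a * b * a⁻¹, hAB a ha b hb, by simp⟩
  -- `P` acts trivially
  have hPbot : P.map ρ = ⊥ := by
    apply H16ThMT.mt1 hq ((⊤ : Subgroup H).map ρ) (P.map ρ)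
      (htrA ⊤ (fun x y hx1 hx2 hy1 hy2 => by
        obtain ⟨g, hg⟩ := hS.conj x y hx1 hx2 hy1 hy2
        exact ⟨g, mem_top g, hg⟩))
      (hconjmap ⊤ P (fun a _ b hb => hPn.conj_mem b hb a))
      (hS.Pp.map ρ) (ρ y₀) (Odd.of_dvd_nat hy₀o (orderOf_map_dvd ρ y₀))
      (fun v => H16ThFinA.pres D hQn hsq y₀ (hMZ y₀ (hKM hy₀K)) v) _ hy₀1
    rintro _ ⟨b, hb, rfl⟩
    refine ⟨y₀⁻¹ * b * y₀, ?_, by simp⟩
    have := hPn.conj_mem b hb y₀⁻¹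
    rwa [inv_inv] at this
  have hRodd : Odd (Nat.card (K.map ρ)) := H16ThFinC.odd_card ρ P M K hKM hodd hPbot
  have hfix := H16ThFinD.fix_zero D hQn K hQK hRodd
  have hVnt : Nontrivial D.V := by
    obtain ⟨x, hxQ, hxZ⟩ := SetLike.not_le_iff_exists.mp hQZ
    exact ⟨⟨D.π x, 0, fun h0 => hxZ ((D.π_zero x hxQ).mp h0)⟩⟩
  have hnorm : ∀ g ∈ normalizer (T : Set H), ∀ t ∈ T, g * t * g⁻¹ ∈ T := by
    intro g hg t ht
    exact (mem_normalizer_iff.mp hg t).mp ht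
  have huniq := H16ThMT.mt2 hq (K.map ρ) (T.map ρ) ((normalizer (T : Set H)).map ρ) hRodd
    (hT.map ρ) (hconjmap T K (fun a _ b hb => hKn.conj_mem b hb a))
    (hconjmap _ T hnorm) (hpres K (fun a ha => hMZ a (hKM ha))) (hpres T hTZ)
    (htrA _ htr) hfix hVnt
  -- the fixed point free element
  have hZn : ∀ (a : H), ∀ z ∈ Z, a * z * a⁻¹ ∈ Z := by
    intro a z hz
    rw [hS.Zmem] at hz ⊢
    rw [conj_pow, hz]; group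
  obtain ⟨u, huN, _, hufpf⟩ := H16ThGU.exists_fpf hS.solv Z (normalizer (T : Set H))
    (fun z hz => (hS.Zmem z).mp hz) (fun a _ z hz => hZn a z hz)
    (fun z hz hz1 z' hz' hz1' => htr z z' hz1 ((hS.Zmem z).mp hz) hz1' ((hS.Zmem z').mp hz'))
    (by
      obtain ⟨x, y, hxy, hx1, hx2, hy1, hy2⟩ := hS.two
      exact ⟨x, (hS.Zmem x).mpr hx2, y, (hS.Zmem y).mpr hy2, hx1, hy1, hxy⟩)
  have hTker : T ≤ ρ.ker := H16ThFpf.le_ker ρ T hT u (hnorm u huN)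
    (fun z hz hzu => hufpf z ((hS.Zmem z).mpr hz) hzu) huniq
  have hcl : normalClosure (T : Set H) ≤ ρ.ker := normalClosure_le_normal hTker
  exact hy₀1 (MonoidHom.mem_ker.mp (hcl (hKT hy₀K)))

end Cfsg.Agent.Lib.H16ThFin
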