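import Cfsg.Agent.Lib.Helper56BG15Defs
import Cfsg.Agent.Lib.Helper30Trans
import Cfsg.Agent.Lib.Helper30SZ

set_option autoImplicit false
open Cfsg

namespace Cfsg.Agent.Lib.Helper66BG15invcompl

open Subgroup
open Cfsg.Agent.Lib.Helper30Trans Cfsg.Agent.Lib.Helper56BG15Defs

universe u
variable {G : Type u} [Group G]

/-- Schur-Zassenhaus, existence, ambient -/
theorem exists_compl {K Y : Subgroup G} (hKY : K ≤ Y)
    (hn : Y ≤ normalizer (K : Set G)) (hcop : (Nat.card K).Coprime (K.relIndex Y)) :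
    ∃ H : Subgroup G, H ≤ Y ∧ K ⊓ H = ⊥ ∧ Nat.card K * Nat.card H = Nat.card Y := by
  have hN : (K.subgroupOf Y).Normal := (normal_subgroupOf_iff_le_normalizer hKY).mpr hn
  have hc : (Nat.card (K.subgroupOf Y)).Coprime (K.subgroupOf Y).index := by
    rw [Cfsg.Agent.Lib.Helper30SZ.card_subgroupOf_of_le hKY]
    exact hcop
  obtain ⟨H, hH⟩ := exists_right_complement'_of_coprime hc
  refine ⟨H.map Y.subtype, map_subtype_le _, ?_, ?_⟩
  · rw [eq_bot_iff]
    rintro x ⟨hxK, y, hy, rfl⟩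
    have : y ∈ K.subgroupOf Y ⊓ H := mem_inf.mpr ⟨mem_subgroupOf.mpr hxK, hy⟩
    rw [hH.disjoint.eq_bot, mem_bot] at this
    rw [this]
    exact one_mem _
  · rw [card_map_of_injective Y.subtype_injective, ← hH.card_mul_card,
      Cfsg.Agent.Lib.Helper30SZ.card_subgroupOf_of_le hKY]

theorem card_of_isComplIn {A B M : Subgroup G} (h : IsComplIn A B M) :
    Nat.card A * Nat.card B = Nat.card M := by
  obtain ⟨hA, hB, hAB, hM⟩ := h
  rw [← Nat.card_prod]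
  refine Nat.card_congr (Equiv.ofBijective
    (fun x : A × B => (⟨(x.1 : G) * (x.2 : G), mul_mem (hA x.1.2) (hB x.2.2)⟩ : M)) ⟨?_, ?_⟩)
  · intro x y hxy
    exact mul_injective_of_disjoint (disjoint_iff.mpr hAB) (congrArg Subtype.val hxy)
  · rintro ⟨m, hm⟩
    obtain ⟨a, ha, b, hb, rfl⟩ := hM m hm
    exact ⟨(⟨a, ha⟩, ⟨b, hb⟩), rfl⟩

theorem isComplIn_of_card [Finite G] {N H Y : Subgroup G} (hNY : N ≤ Y) (hHY : H ≤ Y)
    (hn : Y ≤ normalizer (N : Set G)) (hNH : N ⊓ H = ⊥)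
    (hcard : Nat.card N * Nat.card H = Nat.card Y) : IsComplIn N H Y := by
  refine ⟨hNY, hHY, hNH, ?_⟩
  have hle : N ⊔ H ≤ Y := sup_le hNY hHY
  have hge : Nat.card Y ≤ Nat.card (N ⊔ H : Subgroup G) := by
    rw [← hcard, ← Nat.card_prod]
    refine Nat.card_le_card_of_injective
      (fun x : N × H => (⟨(x.1 : G) * (x.2 : G),
        mul_mem (le_sup_left (a := N) (b := H) x.1.2) (le_sup_right (a := N) (b := H) x.2.2)⟩ :
          (N ⊔ H : Subgroup G))) ?_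
    intro x y hxy
    exact mul_injective_of_disjoint (disjoint_iff.mpr hNH) (congrArg Subtype.val hxy)
  have heq : N ⊔ H = Y := eq_of_le_of_card_ge hle hge
  intro m hm
  rw [← heq] at hm
  exact (Cfsg.Agent.Lib.Helper30SZ.mem_sup_iff (hHY.trans hn)).mp hm

theorem card_mul_relIndex {A B : Subgroup G} (h : A ≤ B) :
    Nat.card A * A.relIndex B = Nat.card B := by
  have := relIndex_mul_relIndex ⊥ A B bot_le h
  rwa [relIndex_bot_left, relIndex_bot_left] at this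

/-- piece `invcompl` -/
theorem exists_inv_compl [Finite G] {M Ms K Q : Subgroup G} {q : ℕ} (h : P1Data M Ms K q)
    (hQ : QData M Ms K q Q) :
    ∃ D₁ : Subgroup G, IsComplIn Q D₁ Ms ∧ K ≤ normalizer (D₁ : Set G) ∧
      ∀ D : Subgroup G, IsComplIn Q D Ms → ∃ m ∈ Ms, D = cj m D₁ := by
  have hq : q.Prime := h.qp
  have : Fact q.Prime := ⟨hq⟩
  have hQM : Q ≤ M := hQ.le.trans h.le
  have hKN : K ≤ normalizer (Ms : Set G) := h.Kle.trans h.norm
  have hcardM : Nat.card M = Nat.card Ms * Nat.card K := by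
    rw [← h.sup]; exact Cfsg.Agent.Lib.Helper30SZ.card_sup hKN h.cop
  have hqMs : q ∣ Nat.card Ms := by
    rw [← h.card]; exact card_dvd_of_le inf_le_left
  have hqK : ¬ q ∣ Nat.card K := by
    intro hd
    have := Nat.dvd_gcd hd hqMs
    rw [h.cop.gcd_eq_one] at this
    exact hq.one_lt.ne' (Nat.dvd_one.mp this)
  obtain ⟨a, ha⟩ := IsPGroup.iff_card.mp hQ.pg
  have hMsrel : Ms.relIndex M = Nat.card K := by
    have h1 := card_mul_relIndex h.le
    rw [hcardM] at h1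
    exact Nat.eq_of_mul_eq_mul_left Nat.card_pos h1
  have hcop1 : (Nat.card Q).Coprime (Q.relIndex M) := by
    rw [ha, ← relIndex_mul_relIndex Q Ms M hQ.le h.le, hMsrel]
    apply Nat.Coprime.pow_left
    exact Nat.Coprime.mul_right ((Nat.Prime.coprime_iff_not_dvd hq).mpr hQ.syl)
      ((Nat.Prime.coprime_iff_not_dvd hq).mpr hqK)
  obtain ⟨L, hLM, hQL, hcardL⟩ := exists_compl hQM hQ.norm hcop1
  have hcL : IsComplIn Q L M := isComplIn_of_card hQM hLM hQ.norm hQL hcardL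
  -- `D₀`
  have hD₀ : IsComplIn Q (L ⊓ Ms) Ms := by
    refine ⟨hQ.le, inf_le_right, ?_, ?_⟩
    · rw [eq_bot_iff, ← hQL]
      exact inf_le_inf_left Q inf_le_left
    · intro m hm
      obtain ⟨x, hx, y, hy, rfl⟩ := hcL.2.2.2 m (h.le hm)
      refine ⟨x, hx, y, mem_inf.mpr ⟨hy, ?_⟩, rfl⟩
      have : y = x⁻¹ * (x * y) := by group
      rw [this]
      exact mul_mem (inv_mem (hQ.le hx)) hm
  have hcardD₀ := card_of_isComplIn hD₀
  have hLD₀ : L ≤ normalizer ((L ⊓ Ms : Subgroup G) : Set G) := by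
    rw [le_normalizer_iff]
    intro l hl x hx
    refine mem_inf.mpr ⟨mul_mem (mul_mem hl (mem_inf.mp hx).1) (inv_mem hl), ?_⟩
    exact (mem_normalizer_iff.mp (h.norm (hLM hl)) x).mp (mem_inf.mp hx).2
  have hcardL' : Nat.card L = Nat.card (L ⊓ Ms : Subgroup G) * Nat.card K := by
    have h1 : Nat.card Q * Nat.card L = Nat.card Q * (Nat.card (L ⊓ Ms : Subgroup G) * Nat.card K) := by
      rw [hcardL, hcardM, ← hcardD₀, mul_assoc]
    exact Nat.eq_of_mul_eq_mul_left Nat.card_pos h1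
  have hD₀rel : (L ⊓ Ms : Subgroup G).relIndex L = Nat.card K := by
    have h1 := card_mul_relIndex (inf_le_left : L ⊓ Ms ≤ L)
    rw [hcardL'] at h1
    exact Nat.eq_of_mul_eq_mul_left Nat.card_pos h1
  have hcop2 : (Nat.card (L ⊓ Ms : Subgroup G)).Coprime ((L ⊓ Ms : Subgroup G).relIndex L) := by
    rw [hD₀rel]
    exact (Cfsg.Agent.Lib.Helper30SZ.coprime_of_le h.cop inf_le_right).symm
  obtain ⟨K₀, hK₀L, -, hcardK₀⟩ := exists_compl inf_le_left hLD₀ hcop2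
  have hK₀ : Nat.card K₀ = Nat.card K := by
    rw [hcardL'] at hcardK₀
    exact Nat.eq_of_mul_eq_mul_left Nat.card_pos hcardK₀
  have hKsol : Group.IsSolvable K := Cfsg.Agent.Lib.Helper30SZ.solvable_of_le h.sol h.Kle
  obtain ⟨n, hn, hnK⟩ := Cfsg.Agent.Lib.Helper30SZ.sz_conj hKN h.cop (Or.inl hKsol)
    (by rw [h.sup]; exact hK₀L.trans hLM) hK₀
  have hnQ : ∀ x : G, x ∈ Q ↔ n * x * n⁻¹ ∈ Q := mem_normalizer_iff.mp (hQ.norm (h.le hn))
  have hmemD₁ : ∀ x : G, x ∈ cj n⁻¹ (L ⊓ Ms) ↔ n * x * n⁻¹ ∈ L ⊓ Ms := by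
    intro x
    rw [mem_cj, inv_inv]
  have hD₁ : IsComplIn Q (cj n⁻¹ (L ⊓ Ms)) Ms := by
    refine ⟨hQ.le, ?_, ?_, ?_⟩
    · intro x hx
      have h1 := (mem_inf.mp ((hmemD₁ x).mp hx)).2
      have : x = n⁻¹ * (n * x * n⁻¹) * n := by group
      rw [this]
      exact mul_mem (mul_mem (inv_mem hn) h1) hn
    · rw [eq_bot_iff]
      intro x hx
      have h1 : n * x * n⁻¹ ∈ Q ⊓ (L ⊓ Ms) :=
        mem_inf.mpr ⟨(hnQ x).mp (mem_inf.mp hx).1, (hmemD₁ x).mp (mem_inf.mp hx).2⟩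
      rw [hD₀.2.2.1, mem_bot] at h1
      rw [mem_bot]
      have : x = n⁻¹ * (n * x * n⁻¹) * n := by group
      rw [this, h1]; group
    · intro m hm
      obtain ⟨x, hx, y, hy, hxy⟩ := hD₀.2.2.2 (n * m * n⁻¹) (mul_mem (mul_mem hn hm) (inv_mem hn))
      refine ⟨n⁻¹ * x * n, ?_, n⁻¹ * y * n, ?_, ?_⟩
      · rw [hnQ]
        have : n * (n⁻¹ * x * n) * n⁻¹ = x := by group
        rw [this]; exact hx
      · rw [hmemD₁]
        have : n * (n⁻¹ * y * n) * n⁻¹ = y := by group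
        rw [this]; exact hy
      · have : m = n⁻¹ * (n * m * n⁻¹) * n := by group
        rw [this, hxy]; group
  refine ⟨cj n⁻¹ (L ⊓ Ms), hD₁, ?_, ?_⟩
  · rw [le_normalizer_iff]
    intro k hk x hx
    rw [hmemD₁] at hx ⊢
    have h1 : n * k * n⁻¹ ∈ K₀ := by
      rw [hnK]
      have : n⁻¹ * (n * k * n⁻¹) * n = k := by group
      rw [this]; exact hk
    have h2 := (mem_normalizer_iff.mp (hLD₀ (hK₀L h1)) _).mp hx
    have h3 : n * (k * x * k⁻¹) * n⁻¹ = n * k * n⁻¹ * (n * x * n⁻¹) * (n * k * n⁻¹)⁻¹ := by group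
    rw [h3]; exact h2
  · intro D hD
    have hc1 := card_of_isComplIn hD
    have hc2 := card_of_isComplIn hD₁
    have hcard : Nat.card D = Nat.card (cj n⁻¹ (L ⊓ Ms)) := by
      rw [← hc2] at hc1
      exact Nat.eq_of_mul_eq_mul_left Nat.card_pos hc1
    have hrel : Q.relIndex Ms = Nat.card (cj n⁻¹ (L ⊓ Ms)) := by
      have h1 := card_mul_relIndex hQ.le
      rw [← hc2] at h1
      exact Nat.eq_of_mul_eq_mul_left Nat.card_pos h1
    have hcop3 : (Nat.card (cj n⁻¹ (L ⊓ Ms))).Coprime (Nat.card Q) := by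
      rw [← hrel, ha]
      exact (Nat.Coprime.pow_left a ((Nat.Prime.coprime_iff_not_dvd hq).mpr hQ.syl)).symm
    have hnorm : cj n⁻¹ (L ⊓ Ms) ≤ normalizer (Q : Set G) := hD₁.2.1.trans (h.le.trans hQ.norm)
    have hle : D ≤ Q ⊔ cj n⁻¹ (L ⊓ Ms) := by
      intro x hx
      obtain ⟨y, hy, z, hz, rfl⟩ := hD₁.2.2.2 x (hD.2.1 hx)
      exact mul_mem (le_sup_left (a := Q) hy) (le_sup_right (a := Q) hz)
    obtain ⟨m, hm, hmD⟩ := Cfsg.Agent.Lib.Helper30SZ.sz_conj hnorm hcop3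
      (Or.inr (Cfsg.Agent.Lib.Helper30SZ.solvable_of_le h.sol hQM)) hle hcard
    refine ⟨m, hQ.le hm, ?_⟩
    ext x
    rw [hmD]
    exact mem_cj.symm

end Cfsg.Agent.Lib.Helper66BG15invcompl
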