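import Cfsg.Prelude
import Cfsg.Agent.Lib.Helper60Core
import Cfsg.Agent.Lib.Helper31PLength

set_option autoImplicit false
open Cfsg

namespace Cfsg.Agent.Lib.Helper66PLen

variable {G : Type*} [Group G]

/-! ### index lemmas -/

theorem relIndex_dvd_of_le_right {X Z Y : Subgroup G} [X.Normal] (h : Z ≤ Y) :
    X.relIndex Z ∣ X.relIndex Y := by
  have h1 := Subgroup.relIndex_ker (K := Z) (QuotientGroup.mk' X)
  have h2 := Subgroup.relIndex_ker (K := Y) (QuotientGroup.mk' X)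
  rw [QuotientGroup.ker_mk'] at h1 h2
  rw [h1, h2]
  exact Subgroup.card_dvd_of_le (Subgroup.map_mono h)

theorem relIndex_inf_dvd {X Y : Subgroup G} [X.Normal] (h : X ≤ Y) (K : Subgroup G) :
    (X ⊓ K).relIndex (Y ⊓ K) ∣ X.relIndex Y := by
  have h1 : (X ⊓ K).relIndex (Y ⊓ K) = X.relIndex (Y ⊓ K) := by
    rw [← Subgroup.inf_relIndex_right X (Y ⊓ K)]
    congr 1
    rw [← inf_assoc, inf_eq_left.mpr h]
  rw [h1]
  exact relIndex_dvd_of_le_right inf_le_left

theorem relIndex_sup_dvd {X Y : Subgroup G} [X.Normal] (h : X ≤ Y) (K : Subgroup G) [K.Normal] :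
    (X ⊔ K).relIndex (Y ⊔ K) ∣ X.relIndex Y := by
  have h1 : Y ⊔ K = Y ⊔ (X ⊔ K) := by
    rw [← sup_assoc, sup_eq_left.mpr h]
  rw [h1, Subgroup.relIndex_sup_right]
  exact Subgroup.relIndex_dvd_of_le_left Y le_sup_left

/-! ### steps -/

/-- `B / A` is a `p'`-chief-like step: `A ≤ B` normal in `G`, index prime to `p`. -/
def PP (p : ℕ) (A B : Subgroup G) : Prop :=
  A.Normal ∧ B.Normal ∧ A ≤ B ∧ (A.relIndex B).Coprime p

/-- `B / A` is a `p`-step. -/
def PS (p : ℕ) (A B : Subgroup G) : Prop :=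
  A.Normal ∧ B.Normal ∧ A ≤ B ∧ ∃ m : ℕ, A.relIndex B = p ^ m

/-- There is a `G`-normal series from `A` to `B` of type `p' (p p')^k`. -/
def Len (p : ℕ) : ℕ → Subgroup G → Subgroup G → Prop
  | 0, A, B => PP p A B
  | k + 1, A, B => ∃ C D : Subgroup G, Len p k A C ∧ PS p C D ∧ PP p D B

theorem PP.refl (p : ℕ) {A : Subgroup G} (hA : A.Normal) : PP p A A :=
  ⟨hA, hA, le_rfl, by rw [Subgroup.relIndex_self]; exact Nat.coprime_one_left p⟩

theorem PP.trans {p : ℕ} {A B C : Subgroup G} (h1 : PP p A B) (h2 : PP p B C) : PP p A C :=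
  ⟨h1.1, h2.2.1, h1.2.2.1.trans h2.2.2.1, by
    rw [← Subgroup.relIndex_mul_relIndex A B C h1.2.2.1 h2.2.2.1]
    exact Nat.Coprime.mul_left h1.2.2.2 h2.2.2.2⟩

theorem Len.normal_left {p : ℕ} : ∀ {k : ℕ} {A B : Subgroup G}, Len p k A B → A.Normal
  | 0, _, _, h => h.1
  | _ + 1, _, _, ⟨_, _, h, _, _⟩ => h.normal_left

theorem Len.normal_right {p : ℕ} : ∀ {k : ℕ} {A B : Subgroup G}, Len p k A B → B.Normal
  | 0, _, _, h => h.2.1
  | _ + 1, _, _, ⟨_, _, _, _, h⟩ => h.2.1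

theorem Len.le {p : ℕ} : ∀ {k : ℕ} {A B : Subgroup G}, Len p k A B → A ≤ B
  | 0, _, _, h => h.2.2.1
  | _ + 1, _, _, ⟨_, _, h1, h2, h3⟩ => h1.le.trans (h2.2.2.1.trans h3.2.2.1)

theorem Len.trans_PP {p : ℕ} {k : ℕ} {A B C : Subgroup G} (h1 : Len p k A B) (h2 : PP p B C) :
    Len p k A C := by
  cases k with
  | zero => exact PP.trans h1 h2
  | succ k =>
    obtain ⟨X, Y, hX, hXY, hY⟩ := h1
    exact ⟨X, Y, hX, hXY, hY.trans h2⟩

theorem Len.trans {p : ℕ} {a : ℕ} {A B : Subgroup G} (h1 : Len p a A B) :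
    ∀ {b : ℕ} {C : Subgroup G}, Len p b B C → Len p (a + b) A C
  | 0, _, h2 => h1.trans_PP h2
  | _ + 1, _, ⟨X, Y, hX, hXY, hY⟩ => ⟨X, Y, h1.trans hX, hXY, hY⟩

theorem PP.trans_Len {p : ℕ} {A B : Subgroup G} (h1 : PP p A B) {b : ℕ} {C : Subgroup G}
    (h2 : Len p b B C) : Len p b A C := by
  have := Len.trans (a := 0) (show Len p 0 A B from h1) h2
  rwa [zero_add] at this

theorem Len.mono {p : ℕ} {A B : Subgroup G} : ∀ {a b : ℕ}, a ≤ b → Len p a A B → Len p b A B := by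
  intro a b hab h
  obtain ⟨c, rfl⟩ := Nat.exists_eq_add_of_le hab
  induction c with
  | zero => exact h
  | succ c ih =>
    have hB := h.normal_right
    exact ⟨B, B, ih (Nat.le_add_right _ _), ⟨hB, hB, le_rfl, 0, by simp⟩, PP.refl p hB⟩

/-- peel from the bottom -/
theorem Len.bottom {p : ℕ} : ∀ {k : ℕ} {A B : Subgroup G}, Len p (k + 1) A B →
    ∃ N M : Subgroup G, PP p A N ∧ PS p N M ∧ Len p k M B
  | 0, _, _, ⟨C, D, h1, h2, h3⟩ => ⟨C, D, h1, h2, h3⟩
  | _ + 1, _, _, ⟨C, D, h1, h2, h3⟩ => by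
    obtain ⟨N, M, hN, hM, hL⟩ := Len.bottom h1
    exact ⟨N, M, hN, hM, C, D, hL, h2, h3⟩

theorem PP.restrict {p : ℕ} {A B : Subgroup G} (h : PP p A B) {A' B' : Subgroup G}
    (hA' : A'.Normal) (hB' : B'.Normal) : PP p ((A ⊓ B') ⊔ A') ((B ⊓ B') ⊔ A') := by
  obtain ⟨hA, hB, hAB, hc⟩ := h
  have h1 : (A ⊓ B').Normal := inferInstance
  have h2 : (B ⊓ B').Normal := inferInstance
  refine ⟨inferInstance, inferInstance, sup_le_sup_right (inf_le_inf_right _ hAB) _, ?_⟩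
  exact Nat.Coprime.coprime_dvd_left
    ((relIndex_sup_dvd (inf_le_inf_right _ hAB) A').trans (relIndex_inf_dvd hAB B')) hc

theorem PS.restrict {p : ℕ} (hp : p.Prime) {A B : Subgroup G} (h : PS p A B) {A' B' : Subgroup G}
    (hA' : A'.Normal) (hB' : B'.Normal) : PS p ((A ⊓ B') ⊔ A') ((B ⊓ B') ⊔ A') := by
  obtain ⟨hA, hB, hAB, m, hm⟩ := h
  have h1 : (A ⊓ B').Normal := inferInstance
  have h2 : (B ⊓ B').Normal := inferInstance
  refine ⟨inferInstance, inferInstance, sup_le_sup_right (inf_le_inf_right _ hAB) _, ?_⟩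
  have hd := (relIndex_sup_dvd (inf_le_inf_right _ hAB) A').trans (relIndex_inf_dvd hAB B')
  rw [hm] at hd
  obtain ⟨j, -, hj⟩ := (Nat.dvd_prime_pow hp).mp hd
  exact ⟨j, hj⟩

theorem Len.restrict {p : ℕ} (hp : p.Prime) {A' B' : Subgroup G}
    (hA' : A'.Normal) (hB' : B'.Normal) : ∀ {k : ℕ} {A B : Subgroup G}, Len p k A B →
    Len p k ((A ⊓ B') ⊔ A') ((B ⊓ B') ⊔ A')
  | 0, _, _, h => PP.restrict h hA' hB'
  | _ + 1, _, _, ⟨_, _, h1, h2, h3⟩ =>
    ⟨_, _, Len.restrict hp hA' hB' h1, h2.restrict hp hA' hB', h3.restrict hA' hB'⟩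

/-- every section of `G` inherits the length bound -/
theorem Len.section {p : ℕ} (hp : p.Prime) {k : ℕ} (h : Len p k (⊥ : Subgroup G) ⊤)
    {A' B' : Subgroup G} (hA' : A'.Normal) (hB' : B'.Normal) (hAB : A' ≤ B') : Len p k A' B' := by
  have := Len.restrict hp hA' hB' h
  rwa [bot_inf_eq, bot_sup_eq, top_inf_eq, sup_eq_left.mpr hAB] at this

/-- every upper section inherits the length bound -/
theorem Len.upper {p : ℕ} (hp : p.Prime) {k : ℕ} {K : Subgroup G} (h : Len p k K ⊤)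
    {A' : Subgroup G} (hA' : A'.Normal) (hKA : K ≤ A') : Len p k A' ⊤ := by
  have := Len.restrict hp hA' (Subgroup.normal_top) h
  rwa [inf_top_eq, top_inf_eq, sup_eq_right.mpr hKA, top_sup_eq] at this

/-! ### comparison with the upper `p`-series -/

theorem relIndex_comap_mk (N : Subgroup G) [N.Normal] (K : Subgroup (G ⧸ N)) :
    N.relIndex (K.comap (QuotientGroup.mk' N)) = Nat.card K := by
  have h1 := Subgroup.relIndex_ker (K := K.comap (QuotientGroup.mk' N)) (QuotientGroup.mk' N)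
  rw [QuotientGroup.ker_mk'] at h1
  rw [h1, Subgroup.map_comap_eq_self_of_surjective (QuotientGroup.mk'_surjective N)]

theorem le_comap_mk (N : Subgroup G) [N.Normal] (K : Subgroup (G ⧸ N)) :
    N ≤ K.comap (QuotientGroup.mk' N) := by
  intro x hx
  rw [Subgroup.mem_comap]
  have : QuotientGroup.mk' N x = 1 := (QuotientGroup.eq_one_iff x).mpr hx
  rw [this]; exact K.one_mem

theorem ups_PP [Finite G] (p : ℕ) (n : ℕ) (hn : Even n) :
    PP p (upperPSeries p G n).1 (upperPSeries p G (n + 1)).1 := by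
  refine ⟨inferInstance, inferInstance, ?_, ?_⟩
  · rw [Helper31PLength.ups_succ_even p G n hn]; exact le_comap_mk _ _
  · rw [Helper31PLength.ups_succ_even p G n hn, relIndex_comap_mk]
    exact Helper60Core.card_pPrimeCore_coprime p

theorem ups_PS [Finite G] (p : ℕ) [Fact p.Prime] (n : ℕ) (hn : ¬ Even n) :
    PS p (upperPSeries p G n).1 (upperPSeries p G (n + 1)).1 := by
  refine ⟨inferInstance, inferInstance, ?_, ?_⟩
  · rw [Helper31PLength.ups_succ_odd p G n hn]; exact le_comap_mk _ _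
  · rw [Helper31PLength.ups_succ_odd p G n hn, relIndex_comap_mk]
    exact (Helper60Core.pCore_isPGroup p).exists_card_eq

theorem len_ups [Finite G] (p : ℕ) [Fact p.Prime] :
    ∀ k : ℕ, Len p k (⊥ : Subgroup G) (upperPSeries p G (2 * k + 1)).1
  | 0 => ups_PP p 0 (by simp)
  | k + 1 => ⟨_, _, len_ups p k, ups_PS p (2 * k + 1) (by simp),
      ups_PP p (2 * k + 1 + 1) (by simp [Nat.even_add_one])⟩

theorem len_of_pLengthLE [Finite G] {p : ℕ} [Fact p.Prime] {k : ℕ} (h : PLengthLE p k G) :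
    Len p k (⊥ : Subgroup G) ⊤ := by
  have := len_ups (G := G) p k
  rwa [show (upperPSeries p G (2 * k + 1)).1 = ⊤ from h] at this

theorem PP.le_ups [Finite G] {p : ℕ} {X Y : Subgroup G} (h : PP p X Y) {n : ℕ} (hn : Even n)
    (hX : X ≤ (upperPSeries p G n).1) : Y ≤ (upperPSeries p G (n + 1)).1 := by
  obtain ⟨hXn, hYn, hXY, hc⟩ := h
  rw [Helper31PLength.ups_succ_even p G n hn, ← Subgroup.map_le_iff_le_comap]
  apply Helper60Core.le_pPrimeCore
  · exact Subgroup.Normal.map hYn _ (QuotientGroup.mk'_surjective _)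
  · have h1 := Subgroup.relIndex_ker (K := Y) (QuotientGroup.mk' (upperPSeries p G n).1)
    rw [QuotientGroup.ker_mk'] at h1
    rw [← h1]
    exact Nat.Coprime.coprime_dvd_left (Subgroup.relIndex_dvd_of_le_left Y hX) hc

theorem PS.le_ups [Finite G] {p : ℕ} [Fact p.Prime] {X Y : Subgroup G} (h : PS p X Y) {n : ℕ}
    (hn : ¬ Even n) (hX : X ≤ (upperPSeries p G n).1) : Y ≤ (upperPSeries p G (n + 1)).1 := by
  obtain ⟨hXn, hYn, hXY, m, hm⟩ := h
  rw [Helper31PLength.ups_succ_odd p G n hn, ← Subgroup.map_le_iff_le_comap]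
  apply Helper60Core.le_pCore
  · exact Subgroup.Normal.map hYn _ (QuotientGroup.mk'_surjective _)
  · have h1 := Subgroup.relIndex_ker (K := Y) (QuotientGroup.mk' (upperPSeries p G n).1)
    rw [QuotientGroup.ker_mk'] at h1
    have h2 := Subgroup.relIndex_dvd_of_le_left Y hX
    rw [hm, h1] at h2
    obtain ⟨j, -, hj⟩ := (Nat.dvd_prime_pow (Fact.out : p.Prime)).mp h2
    exact IsPGroup.of_card hj

theorem Len.le_ups [Finite G] {p : ℕ} [Fact p.Prime] :
    ∀ {k : ℕ} {B : Subgroup G}, Len p k (⊥ : Subgroup G) B → B ≤ (upperPSeries p G (2 * k + 1)).1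
  | 0, _, h => PP.le_ups h (by simp) bot_le
  | k + 1, _, ⟨_, _, h1, h2, h3⟩ =>
    PP.le_ups h3 (n := 2 * k + 1 + 1) (by simp [Nat.even_add_one])
      (PS.le_ups h2 (by simp) (Len.le_ups h1))

theorem pLengthLE_of_len [Finite G] {p : ℕ} [Fact p.Prime] {k : ℕ}
    (h : Len p k (⊥ : Subgroup G) ⊤) : PLengthLE p k G :=
  top_le_iff.mp h.le_ups

end Cfsg.Agent.Lib.Helper66PLen
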