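import Cfsg.Agent.S0120
import Cfsg.Agent.Lib.Helper14HH
import Cfsg.Agent.Lib.Helper14PSolvQ
import Cfsg.Agent.Lib.Helper30SZ
import Cfsg.Agent.Lib.Helper66PLen
import Cfsg.Agent.Lib.Helper66BG15invcompl

set_option autoImplicit false

/-! The Gaschütz–Yen theorem: the core case `O_{p'}(H) = 1`. -/

namespace Cfsg.Agent.Lib.Helper66GY

open Cfsg Subgroup Cfsg.Agent.Lib.Helper14CoreB

variable {H : Type*} [Group H]

/-- the automorphism group is transitive on the subgroups of order `p`. -/
def Trans (p : ℕ) (H : Type*) [Group H] : Prop :=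
  ∀ U V : Subgroup H, Nat.card U = p → Nat.card V = p → ∃ a : MulAut H, U.map a.toMonoidHom = V

theorem pCore_aut (p : ℕ) (φ : MulAut H) {x : H} (hx : x ∈ pCore p H) : φ x ∈ pCore p H := by
  have hle : (pCore p H).map φ.toMonoidHom ≤ pCore p H := by
    rw [map_le_iff_le_comap]
    unfold pCore
    apply sSup_le
    rintro N ⟨hN, hp⟩
    rw [← map_le_iff_le_comap]
    apply le_sSup
    exact ⟨hN.map _ φ.surjective, hp.map _⟩
  exact hle (mem_map_of_mem _ hx)

theorem pPrimeCore_aut (p : ℕ) (φ : MulAut H) {x : H} (hx : x ∈ pPrimeCore p H) :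
    φ x ∈ pPrimeCore p H := by
  have hle : (pPrimeCore p H).map φ.toMonoidHom ≤ pPrimeCore p H := by
    rw [map_le_iff_le_comap]
    unfold pPrimeCore
    apply sSup_le
    rintro N ⟨hN, hp⟩
    rw [← map_le_iff_le_comap]
    apply le_sSup
    refine ⟨hN.map _ φ.surjective, ?_⟩
    rw [card_map_of_injective φ.injective]
    exact hp
  exact hle (mem_map_of_mem _ hx)

theorem Trans.exists_aut {p : ℕ} (ht : Trans p H) {z x : H} (hz : orderOf z = p)
    (hx : orderOf x = p) : ∃ (a : MulAut H), ∃ y ∈ zpowers z, a y = x := by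
  obtain ⟨a, ha⟩ := ht (zpowers z) (zpowers x) (by rw [Nat.card_zpowers, hz])
    (by rw [Nat.card_zpowers, hx])
  have : x ∈ (zpowers z).map a.toMonoidHom := ha ▸ mem_zpowers x
  obtain ⟨y, hy, hyx⟩ := this
  exact ⟨a, y, hy, hyx⟩

/-- every element of order `p` lies in `Ω₁(Z(O_p(H)))`. -/
theorem order_p_mem [Finite H] {p : ℕ} [Fact p.Prime] (ht : Trans p H) (hne : pCore p H ≠ ⊥)
    {x : H} (hx : orderOf x = p) : x ∈ pCore p H ∧ ∀ r ∈ pCore p H, r * x = x * r := by
  set R := pCore p H with hR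
  have hRp : IsPGroup p R := pCore_isPGroup p
  have _ : Nontrivial R := (nontrivial_iff_ne_bot R).mpr hne
  have hnt : Nontrivial (center R) := hRp.center_nontrivial
  have hZp : IsPGroup p (center R) := hRp.to_subgroup _
  have hdvd : p ∣ Nat.card (center R) := by
    rcases hZp.card_eq_or_dvd with h | h
    · exact absurd (Nat.card_eq_one_iff_unique.mp h).1 (not_subsingleton _)
    · exact h
  obtain ⟨z, hz⟩ := exists_prime_orderOf_dvd_card' p hdvd
  have hz' : orderOf ((z : R) : H) = p := by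
    rw [orderOf_coe, orderOf_coe, hz]
  obtain ⟨a, y, hy, hyx⟩ := ht.exists_aut hz' hx
  have hyR : y ∈ R := by
    have : zpowers ((z : R) : H) ≤ R := by
      rw [zpowers_le]; exact (z : R).2
    exact this hy
  have hyc : ∀ r ∈ R, r * y = y * r := by
    intro r hr
    obtain ⟨k, rfl⟩ := mem_zpowers_iff.mp hy
    have h1 : Commute r ((z : R) : H) := by
      have := mem_center_iff.mp z.2 ⟨r, hr⟩
      exact congrArg Subtype.val this
    exact (h1.zpow_right k).eq
  refine ⟨hyx ▸ pCore_aut p a hyR, ?_⟩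
  intro r hr
  have hr' : a⁻¹ r ∈ R := pCore_aut p a⁻¹ hr
  have := hyc _ hr'
  have h2 := congrArg a this
  rw [map_mul, map_mul, hyx] at h2
  simpa using h2

/-- the centralizer of the elements of order dividing `p` is `O_p(H)` (`p` odd). -/
theorem mem_of_comm [Finite H] {p : ℕ} [Fact p.Prime] (hp2 : p ≠ 2)
    (hC : centralizer (pCore p H : Set H) ≤ pCore p H) {g : H}
    (hg : ∀ x : H, x ^ p = 1 → g * x = x * g) : g ∈ pCore p H := by
  set R := pCore p H with hR
  have hRp : IsPGroup p R := pCore_isPGroup p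
  have hRn : R.Normal := by rw [hR]; infer_instance
  set C := centralizer {x : H | x ^ p = 1} with hCdef
  have memC : ∀ c : H, c ∈ C ↔ ∀ x : H, x ^ p = 1 → c * x = x * c := by
    intro c
    rw [hCdef, mem_centralizer_iff]
    constructor
    · intro h x hx; exact (h x hx).symm
    · intro h x hx; exact (h x hx).symm
  have hCn : C.Normal := by
    constructor
    intro c hc h
    rw [memC] at hc ⊢
    intro x hx
    have h1 : (h⁻¹ * x * h) ^ p = 1 := by
      have : h⁻¹ * x * h = h⁻¹ * x * h⁻¹⁻¹ := by rw [inv_inv]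
      rw [this, conj_pow, hx]; group
    have h2 := hc _ h1
    have e1 : h * c * h⁻¹ * x = h * (c * (h⁻¹ * x * h)) * h⁻¹ := by group
    have e2 : x * (h * c * h⁻¹) = h * ((h⁻¹ * x * h) * c) * h⁻¹ := by group
    rw [e1, e2, h2]
  have hCp : IsPGroup p C := by
    rintro ⟨c, hc⟩
    obtain ⟨k, m, hm, hkm⟩ := Nat.exists_eq_pow_mul_and_not_dvd (orderOf_pos c).ne' p
      (Fact.out : p.Prime).ne_one
    refine ⟨k, Subtype.ext ?_⟩
    show c ^ p ^ k = 1
    set c' := c ^ p ^ k with hc'
    have hc'C : c' ∈ C := C.pow_mem hc _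
    have ho : c' ^ m = 1 := by
      rw [hc', ← pow_mul, ← hkm, pow_orderOf_eq_one]
    have hcop : m.Coprime p := by
      rw [Nat.coprime_comm]
      exact ((Fact.out : p.Prime).coprime_iff_not_dvd).mpr hm
    set a : MulAut R := MulAut.conjNormal c' with ha
    have ha1 : a ^ m = 1 := by
      rw [ha, ← map_pow, ho, map_one]
    have hacop : (orderOf a).Coprime p :=
      Nat.Coprime.coprime_dvd_left (orderOf_dvd_of_pow_eq_one ha1) hcop
    have hfix : ∀ x : R, x ^ p = 1 → a x = x := by
      intro x hx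
      apply Subtype.ext
      rw [ha, MulAut.conjNormal_apply]
      have h1 : (x : H) ^ p = 1 := by
        have := congrArg Subtype.val hx
        simpa using this
      rw [(memC c').1 hc'C _ h1, mul_assoc, mul_inv_cancel, mul_one]
    have hone : a = 1 := Cfsg.Agent.S0120.result hp2 hRp a hacop hfix
    have hcen : c' ∈ centralizer (R : Set H) := by
      rw [mem_centralizer_iff]
      intro r hr
      have h1 : a ⟨r, hr⟩ = ⟨r, hr⟩ := by rw [hone]; rfl
      have h2 := congrArg Subtype.val h1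
      rw [ha, MulAut.conjNormal_apply] at h2
      exact (mul_inv_eq_iff_eq_mul.mp h2).symm
    have hc'R : c' ∈ R := hC hcen
    obtain ⟨j, hj⟩ := hRp ⟨c', hc'R⟩
    have hj' : c' ^ p ^ j = 1 := by
      have := congrArg Subtype.val hj
      simpa using this
    have d1 := orderOf_dvd_of_pow_eq_one ho
    have d2 := orderOf_dvd_of_pow_eq_one hj'
    have := Nat.dvd_gcd d1 d2
    rw [(hcop.pow_right j).gcd_eq_one, Nat.dvd_one] at this
    exact orderOf_eq_one_iff.mp this
  exact le_pCore hCn hCp ((memC g).2 hg)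

theorem map_aut_eq {K : Subgroup H} (hK : ∀ (φ : MulAut H) (x : H), x ∈ K → φ x ∈ K)
    (a : MulAut H) : K.map ((a : H ≃* H) : H →* H) = K := by
  apply le_antisymm
  · rintro _ ⟨x, hx, rfl⟩
    exact hK a x hx
  · intro x hx
    exact ⟨a⁻¹ x, hK a⁻¹ x hx, by simp⟩

/-- the automorphism induced on the quotient by an invariant normal subgroup. -/
noncomputable def quotAut (K : Subgroup H) [K.Normal]
    (hK : ∀ (φ : MulAut H) (x : H), x ∈ K → φ x ∈ K) (a : MulAut H) : MulAut (H ⧸ K) :=
  QuotientGroup.congr K K a (map_aut_eq hK a)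

theorem quotAut_mk (K : Subgroup H) [K.Normal]
    (hK : ∀ (φ : MulAut H) (x : H), x ∈ K → φ x ∈ K) (a : MulAut H) (x : H) :
    quotAut K hK a (QuotientGroup.mk' K x) = QuotientGroup.mk' K (a x) := rfl

/-- the core case of the Gaschütz–Yen theorem. -/
theorem index_pCore_coprime [Finite H] {p : ℕ} [Fact p.Prime] (hp2 : p ≠ 2)
    (hs : IsPSolvable p H) (h : pPrimeCore p H = ⊥) (ht : Trans p H) :
    (pCore p H).index.Coprime p := by
  have hpp : p.Prime := Fact.out
  by_contra hcon
  have hdvd : p ∣ (pCore p H).index := by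
    by_contra hnd
    exact hcon ((Nat.coprime_comm).mp ((hpp.coprime_iff_not_dvd).mpr hnd))
  have hC : centralizer (pCore p H : Set H) ≤ pCore p H :=
    Cfsg.Agent.Lib.Helper14HH.centralizer_pCore_le hs h
  set R := pCore p H with hR
  have hRp : IsPGroup p R := pCore_isPGroup p
  have hRn : R.Normal := by rw [hR]; infer_instance
  have hne : R ≠ ⊥ := by
    intro hbot
    have htop : (⊤ : Subgroup H) ≤ R := by
      refine le_trans ?_ hC
      intro x _
      rw [mem_centralizer_iff]
      intro r hr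
      have : r = 1 := by
        have : r ∈ (⊥ : Subgroup H) := hbot ▸ hr
        exact mem_bot.mp this
      rw [this, one_mul, mul_one]
    have : R = ⊤ := top_le_iff.mp htop
    rw [this, index_top] at hdvd
    exact hpp.one_lt.ne' (Nat.dvd_one.mp hdvd)
  set π := QuotientGroup.mk' R with hπ
  have hπs : Function.Surjective π := QuotientGroup.mk'_surjective R
  have hker : π.ker = R := QuotientGroup.ker_mk' R
  set O := pPrimeCore p (H ⧸ R) with hO
  have hOcop : (Nat.card O).Coprime p := card_pPrimeCore_coprime p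
  have hOn : O.Normal := by rw [hO]; infer_instance
  -- `O ≠ ⊥`
  have hOne : O ≠ ⊥ := by
    have hnt : Nontrivial (H ⧸ R) := by
      rw [← Finite.one_lt_card_iff_nontrivial]
      have : Nat.card (H ⧸ R) = R.index := rfl
      rw [this]
      exact lt_of_lt_of_le hpp.one_lt (Nat.le_of_dvd (Nat.pos_of_ne_zero index_ne_zero_of_finite) hdvd)
    obtain ⟨N, hNn, hNne, hN⟩ := Cfsg.Agent.Lib.Helper14PSolvQ.exists_normal_of_isPSolvable
      (Cfsg.Agent.Lib.Helper14PSolvQ.isPSolvable_quotient R hs)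
    rcases hN with hN | hN
    · exfalso
      apply hNne
      have h1 : IsPGroup p (N.comap π) := hN.comap_of_ker_isPGroup π (by rw [hker]; exact hRp)
      have h2 : N.comap π ≤ R := le_pCore (hNn.comap π) h1
      rw [eq_bot_iff]
      intro x hx
      obtain ⟨y, rfl⟩ := hπs x
      have : y ∈ R := h2 hx
      rw [mem_bot]
      exact (QuotientGroup.eq_one_iff y).mpr this
    · intro hbot
      apply hNne
      rw [eq_bot_iff, ← hbot]
      exact le_pPrimeCore hNn hN
  set M := O.comap π with hM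
  have hMn : M.Normal := hOn.comap π
  have hRM : R ≤ M := Cfsg.Agent.Lib.Helper66PLen.le_comap_mk R O
  have hrel : R.relIndex M = Nat.card O := Cfsg.Agent.Lib.Helper66PLen.relIndex_comap_mk R O
  have hRinv : ∀ (φ : MulAut H) (x : H), x ∈ R → φ x ∈ R := fun φ x hx => pCore_aut p φ hx
  have hMinv : ∀ (φ : MulAut H) (x : H), x ∈ M → φ x ∈ M := by
    intro φ x hx
    have h1 : quotAut R hRinv φ (π x) ∈ O := pPrimeCore_aut p _ hx
    rw [hπ, quotAut_mk] at h1
    exact h1
  obtain ⟨k, hk⟩ := (IsPGroup.iff_card).mp hRp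
  have hcop1 : (Nat.card R).Coprime (Nat.card O) := by
    rw [hk]
    exact Nat.Coprime.pow_left k ((Nat.coprime_comm).mp hOcop)
  have hnormR : ∀ X : Subgroup H, X ≤ normalizer (R : Set H) := by
    intro X
    rw [normalizer_eq_top R]
    exact le_top
  obtain ⟨L, hLM, hRL, hcard⟩ := Cfsg.Agent.Lib.Helper66BG15invcompl.exists_compl hRM (hnormR M)
    (by rw [hrel]; exact hcop1)
  have hcardM : Nat.card R * Nat.card O = Nat.card M := by
    rw [← hrel]; exact card_mul_relIndex hRM
  have hRpos : 0 < Nat.card R := Nat.card_pos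
  have hLO : Nat.card L = Nat.card O := by
    have : Nat.card R * Nat.card L = Nat.card R * Nat.card O := by rw [hcard, hcardM]
    exact Nat.eq_of_mul_eq_mul_left hRpos this
  have hcopL : (Nat.card L).Coprime (Nat.card R) := by
    rw [hLO]; exact (Nat.coprime_comm).mp hcop1
  have hsup : R ⊔ L = M := by
    apply eq_of_le_of_card_ge (sup_le hRM hLM)
    rw [Cfsg.Agent.Lib.Helper30SZ.card_sup (hnormR L) hcopL, hcard]
  have hRsolv : Group.IsSolvable R := by
    have : Group.IsNilpotent R := hRp.isNilpotent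
    infer_instance
  -- Frattini argument
  have hfrat : ∀ g : H, ∃ n ∈ R, n⁻¹ * g ∈ normalizer (L : Set H) := by
    intro g
    set B := L.map (MulAut.conj g).toMonoidHom with hB
    have hBM : B ≤ R ⊔ L := by
      rw [hsup]
      rintro _ ⟨l, hl, rfl⟩
      exact hMn.conj_mem l (hLM hl) g
    have hBc : Nat.card B = Nat.card L := card_map_of_injective (MulAut.conj g).injective
    obtain ⟨n, hn, hnB⟩ := Cfsg.Agent.Lib.Helper30SZ.sz_conj (hnormR L) hcopL (Or.inr hRsolv) hBM hBc
    refine ⟨n, hn, ?_⟩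
    have hle : ∀ l ∈ L, (n⁻¹ * g) * l * (n⁻¹ * g)⁻¹ ∈ L := by
      intro l hl
      have h1 : g * l * g⁻¹ ∈ B := ⟨l, hl, rfl⟩
      have h2 := (hnB _).mp h1
      have e : (n⁻¹ * g) * l * (n⁻¹ * g)⁻¹ = n⁻¹ * (g * l * g⁻¹) * n := by group
      rw [e]; exact h2
    have hmap : L.map (MulAut.conj (n⁻¹ * g)).toMonoidHom = L := by
      apply eq_of_le_of_card_ge
      · rintro _ ⟨l, hl, rfl⟩
        exact hle l hl
      · rw [card_map_of_injective (MulAut.conj (n⁻¹ * g)).injective]
    rw [mem_normalizer_iff]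
    intro l
    constructor
    · exact hle l
    · intro hl
      rw [← hmap] at hl
      obtain ⟨l', hl', he⟩ := hl
      have : l' = l := by
        have he' : (n⁻¹ * g) * l' * (n⁻¹ * g)⁻¹ = (n⁻¹ * g) * l * (n⁻¹ * g)⁻¹ := he
        exact mul_left_cancel (mul_right_cancel he')
      exact this ▸ hl'
  set Nn := normalizer (L : Set H) with hNn
  have hsurj : Function.Surjective (π.comp Nn.subtype) := by
    intro q
    obtain ⟨g, rfl⟩ := hπs q
    obtain ⟨n, hn, hng⟩ := hfrat g
    refine ⟨⟨n⁻¹ * g, hng⟩, ?_⟩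
    show π (n⁻¹ * g) = π g
    have hn1 : π n = 1 := (QuotientGroup.eq_one_iff n).mpr hn
    rw [map_mul, map_inv, hn1, inv_one, one_mul]
  have hdvdN : p ∣ Nat.card Nn := by
    have h1 := card_dvd_of_surjective _ hsurj
    have h2 : Nat.card (H ⧸ R) = R.index := rfl
    rw [h2] at h1
    exact hdvd.trans h1
  obtain ⟨w, hw⟩ := exists_prime_orderOf_dvd_card' p hdvdN
  have hw' : orderOf (w : H) = p := by rw [orderOf_coe, hw]
  obtain ⟨hwR, hwc⟩ := order_p_mem ht hne hw'
  have hwL : ∀ l ∈ L, l * (w : H) = w * l := by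
    intro l hl
    have h1 : (w : H) * l * (w : H)⁻¹ ∈ L := (mem_normalizer_iff.mp w.2 l).mp hl
    have h2 : (w : H) * l * (w : H)⁻¹ * l⁻¹ ∈ L := L.mul_mem h1 (L.inv_mem hl)
    have h3 : (w : H) * l * (w : H)⁻¹ * l⁻¹ ∈ R := by
      have : (w : H) * l * (w : H)⁻¹ * l⁻¹ = w * (l * (w : H)⁻¹ * l⁻¹) := by group
      rw [this]
      exact R.mul_mem hwR (hRn.conj_mem _ (R.inv_mem hwR) l)
    have h4 : (w : H) * l * (w : H)⁻¹ * l⁻¹ ∈ R ⊓ L := mem_inf.mpr ⟨h3, h2⟩
    rw [hRL, mem_bot] at h4
    have h5 : (w : H) * l * (w : H)⁻¹ = l := mul_inv_eq_one.mp h4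
    exact (mul_inv_eq_iff_eq_mul.mp h5).symm
  have hwM : ∀ m ∈ M, m * (w : H) = w * m := by
    have hle : M ≤ centralizer {(w : H)} := by
      rw [← hsup]
      apply sup_le
      · intro r hr
        rw [mem_centralizer_singleton_iff]
        exact hwc r hr
      · intro l hl
        rw [mem_centralizer_singleton_iff]
        exact hwL l hl
    intro m hm
    exact mem_centralizer_singleton_iff.mp (hle hm)
  have hMR : M ≤ R := by
    intro m hm
    apply mem_of_comm hp2 hC
    intro x hx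
    by_cases hx1 : x = 1
    · rw [hx1, mul_one, one_mul]
    have hxo : orderOf x = p := orderOf_eq_prime hx hx1
    obtain ⟨a, y, hy, hyx⟩ := ht.exists_aut hw' hxo
    have hm' : a⁻¹ m ∈ M := hMinv a⁻¹ m hm
    obtain ⟨j, rfl⟩ := mem_zpowers_iff.mp hy
    have h1 : Commute (a⁻¹ m) (w : H) := hwM _ hm'
    have h2 : a⁻¹ m * (w : H) ^ j = (w : H) ^ j * a⁻¹ m := (h1.zpow_right j).eq
    have h3 := congrArg a h2
    rw [map_mul, map_mul, hyx] at h3
    simpa using h3
  have hLbot : L = ⊥ := by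
    rw [eq_bot_iff, ← hRL]
    exact le_inf (hLM.trans hMR) le_rfl
  apply hOne
  rw [← card_eq_one, ← hLO, hLbot, card_bot]

end Cfsg.Agent.Lib.Helper66GY
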