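import Cfsg.Agent.Lib.H16ThGDefs
import Cfsg.Agent.Lib.Helper66GY

set_option autoImplicit false

namespace Cfsg.Agent.Lib.H16ThGM

open Cfsg Subgroup Cfsg.Agent.Lib.H16ThDefs Cfsg.Agent.Lib.H16ThGDefs
open Cfsg.Agent.Lib.Helper14CoreB

/-- PIECE GM.  If `|H : P|` is even then `M = O_{2,2'}(H)` centralizes `Z`.
This is an ADAPTATION OF THE LANDED PROOF `Helper66GY.index_pCore_coprime` (lines 180-330):
`M := (pPrimeCore 2 (H ⧸ P)).comap (mk' P)`; `L` a complement of `P` in `M`
(`Helper66BG15invcompl.exists_compl`), Frattini (`Helper30SZ.sz_conj`): `N_H(L)` maps onto `H ⧸ P`, so it has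
even order and contains an involution `w`; `w ∈ Z ≤ P` (`Zmem`, `ZP`), `[w, L] ≤ P ∩ L = 1`, and `P`
centralizes `w` (`Zc`), so `M = P L` centralizes `w`.  Every `1 ≠ z ∈ Z` is `g w g⁻¹` (`conj`) and `M` is
normal, so `M` centralizes `z`.
Maximality: if `D` is normal, `P ≤ D`, `|D:P|` odd, then the image of `D` in `H ⧸ P` is a normal subgroup of odd
order (`Helper66PLen.relIndex_comap_mk`, `Helper14CoreB.le_pPrimeCore`). -/
theorem exists_M {H : Type*} [Group H] [Finite H] {P Z : Subgroup H} (hS : Setup H P Z)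
    (heven : 2 ∣ P.index) :
    ∃ M : Subgroup H, M.Normal ∧ P ≤ M ∧ Odd (P.relIndex M) ∧
      (∀ D : Subgroup H, D.Normal → P ≤ D → Odd (P.relIndex D) → D ≤ M) ∧
      (∀ m ∈ M, ∀ z ∈ Z, m * z = z * m) := by
  have : Fact (Nat.Prime 2) := ⟨Nat.prime_two⟩
  set R := P with hR
  have hRp : IsPGroup 2 R := hS.Pp
  have hRn : R.Normal := hS.Pn
  set π := QuotientGroup.mk' R with hπ
  have hπs : Function.Surjective π := QuotientGroup.mk'_surjective R
  have hker : π.ker = R := QuotientGroup.ker_mk' R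
  set O := pPrimeCore 2 (H ⧸ R) with hO
  have hOcop : (Nat.card O).Coprime 2 := card_pPrimeCore_coprime 2
  have hOn : O.Normal := by rw [hO]; infer_instance
  set M := O.comap π with hM
  have hMn : M.Normal := hOn.comap π
  have hRM : R ≤ M := Cfsg.Agent.Lib.Helper66PLen.le_comap_mk R O
  have hrel : R.relIndex M = Nat.card O := Cfsg.Agent.Lib.Helper66PLen.relIndex_comap_mk R O
  obtain ⟨k, hk⟩ := (IsPGroup.iff_card).mp hRp
  have hcop1 : (Nat.card R).Coprime (Nat.card O) := by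
    rw [hk]
    exact Nat.Coprime.pow_left k ((Nat.coprime_comm).mp hOcop)
  have hnormR : ∀ X : Subgroup H, X ≤ normalizer (R : Set H) := by
    intro X
    rw [normalizer_eq_top R]
    exact le_top
  obtain ⟨L, hLM, hRL, hcard⟩ := Cfsg.Agent.Lib.Helper66BG15invcompl.exists_compl hRM (hnormR M)
    (by rw [hrel]; exact hcop1)
  have hcardM : Nat.card R * Nat.card O = Nat.card M := by
    rw [← hrel]; exact card_mul_relIndex hRM
  have hRpos : 0 < Nat.card R := Nat.card_pos
  have hLO : Nat.card L = Nat.card O := by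
    have : Nat.card R * Nat.card L = Nat.card R * Nat.card O := by rw [hcard, hcardM]
    exact Nat.eq_of_mul_eq_mul_left hRpos this
  have hcopL : (Nat.card L).Coprime (Nat.card R) := by
    rw [hLO]; exact (Nat.coprime_comm).mp hcop1
  have hsup : R ⊔ L = M := by
    apply eq_of_le_of_card_ge (sup_le hRM hLM)
    rw [Cfsg.Agent.Lib.Helper30SZ.card_sup (hnormR L) hcopL, hcard]
  have hRsolv : Group.IsSolvable R := by
    have : Group.IsNilpotent R := hRp.isNilpotent
    infer_instance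
  -- Frattini argument
  have hfrat : ∀ g : H, ∃ n ∈ R, n⁻¹ * g ∈ normalizer (L : Set H) := by
    intro g
    set B := L.map (MulAut.conj g).toMonoidHom with hB
    have hBM : B ≤ R ⊔ L := by
      rw [hsup]
      rintro _ ⟨l, hl, rfl⟩
      exact hMn.conj_mem l (hLM hl) g
    have hBc : Nat.card B = Nat.card L := card_map_of_injective (MulAut.conj g).injective
    obtain ⟨n, hn, hnB⟩ := Cfsg.Agent.Lib.Helper30SZ.sz_conj (hnormR L) hcopL (Or.inr hRsolv) hBM hBc
    refine ⟨n, hn, ?_⟩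
    have hle : ∀ l ∈ L, (n⁻¹ * g) * l * (n⁻¹ * g)⁻¹ ∈ L := by
      intro l hl
      have h1 : g * l * g⁻¹ ∈ B := ⟨l, hl, rfl⟩
      have h2 := (hnB _).mp h1
      have e : (n⁻¹ * g) * l * (n⁻¹ * g)⁻¹ = n⁻¹ * (g * l * g⁻¹) * n := by group
      rw [e]; exact h2
    have hmap : L.map (MulAut.conj (n⁻¹ * g)).toMonoidHom = L := by
      apply eq_of_le_of_card_ge
      · rintro _ ⟨l, hl, rfl⟩
        exact hle l hl
      · rw [card_map_of_injective (MulAut.conj (n⁻¹ * g)).injective]
    rw [mem_normalizer_iff]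
    intro l
    constructor
    · exact hle l
    · intro hl
      rw [← hmap] at hl
      obtain ⟨l', hl', he⟩ := hl
      have : l' = l := by
        have he' : (n⁻¹ * g) * l' * (n⁻¹ * g)⁻¹ = (n⁻¹ * g) * l * (n⁻¹ * g)⁻¹ := he
        exact mul_left_cancel (mul_right_cancel he')
      exact this ▸ hl'
  set Nn := normalizer (L : Set H) with hNn
  have hsurj : Function.Surjective (π.comp Nn.subtype) := by
    intro q
    obtain ⟨g, rfl⟩ := hπs q
    obtain ⟨n, hn, hng⟩ := hfrat g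
    refine ⟨⟨n⁻¹ * g, hng⟩, ?_⟩
    show π (n⁻¹ * g) = π g
    have hn1 : π n = 1 := (QuotientGroup.eq_one_iff n).mpr hn
    rw [map_mul, map_inv, hn1, inv_one, one_mul]
  have hdvdN : 2 ∣ Nat.card Nn := by
    have h1 := card_dvd_of_surjective _ hsurj
    have h2 : Nat.card (H ⧸ R) = R.index := rfl
    rw [h2] at h1
    exact heven.trans h1
  obtain ⟨w, hw⟩ := exists_prime_orderOf_dvd_card' 2 hdvdN
  have hw' : orderOf (w : H) = 2 := by rw [orderOf_coe, hw]
  have hw2 : (w : H) ^ 2 = 1 := by rw [← hw', pow_orderOf_eq_one]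
  have hw1 : (w : H) ≠ 1 := by
    intro h
    rw [h, orderOf_one] at hw'
    omega
  have hwZ : (w : H) ∈ Z := (hS.Zmem _).mpr hw2
  have hwR : (w : H) ∈ R := hS.ZP hwZ
  have hwc : ∀ r ∈ R, r * (w : H) = w * r := fun r hr => (hS.Zc _ hwZ r hr).symm
  have hwL : ∀ l ∈ L, l * (w : H) = w * l := by
    intro l hl
    have h1 : (w : H) * l * (w : H)⁻¹ ∈ L := (mem_normalizer_iff.mp w.2 l).mp hl
    have h2 : (w : H) * l * (w : H)⁻¹ * l⁻¹ ∈ L := L.mul_mem h1 (L.inv_mem hl)
    have h3 : (w : H) * l * (w : H)⁻¹ * l⁻¹ ∈ R := by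
      have : (w : H) * l * (w : H)⁻¹ * l⁻¹ = w * (l * (w : H)⁻¹ * l⁻¹) := by group
      rw [this]
      exact R.mul_mem hwR (hRn.conj_mem _ (R.inv_mem hwR) l)
    have h4 : (w : H) * l * (w : H)⁻¹ * l⁻¹ ∈ R ⊓ L := mem_inf.mpr ⟨h3, h2⟩
    rw [hRL, mem_bot] at h4
    have h5 : (w : H) * l * (w : H)⁻¹ = l := mul_inv_eq_one.mp h4
    exact (mul_inv_eq_iff_eq_mul.mp h5).symm
  have hwM : ∀ m ∈ M, m * (w : H) = w * m := by
    have hle : M ≤ centralizer {(w : H)} := by
      rw [← hsup]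
      apply sup_le
      · intro r hr
        rw [mem_centralizer_singleton_iff]
        exact hwc r hr
      · intro l hl
        rw [mem_centralizer_singleton_iff]
        exact hwL l hl
    intro m hm
    exact mem_centralizer_singleton_iff.mp (hle hm)
  refine ⟨M, hMn, hRM, ?_, ?_, ?_⟩
  · rw [hrel]
    exact (Nat.coprime_two_right).mp hOcop
  · intro D hDn hPD hDodd
    have hDmap : (D.map π).Normal := hDn.map π hπs
    have hcomap : (D.map π).comap π = D := by
      rw [comap_map_eq, hker]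
      exact sup_eq_left.mpr hPD
    have hc : Nat.card (D.map π) = R.relIndex D := by
      rw [← Cfsg.Agent.Lib.Helper66PLen.relIndex_comap_mk R (D.map π)]
      rw [← hπ, hcomap]
    have hle : D.map π ≤ O := by
      apply le_pPrimeCore hDmap
      rw [hc]
      exact (Nat.coprime_two_right).mpr hDodd
    intro d hd
    exact hle (mem_map_of_mem π hd)
  · intro m hm z hz
    by_cases hz1 : z = 1
    · rw [hz1, mul_one, one_mul]
    obtain ⟨g, hg⟩ := hS.conj (w : H) z hw1 hw2 hz1 ((hS.Zmem z).mp hz)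
    have hm' : g⁻¹ * m * g ∈ M := by
      have := hMn.conj_mem m hm g⁻¹
      rwa [inv_inv] at this
    have h1 := hwM _ hm'
    rw [← hg]
    have e1 : m * (g * (w : H) * g⁻¹) = g * ((g⁻¹ * m * g) * (w : H)) * g⁻¹ := by group
    have e2 : g * (w : H) * g⁻¹ * m = g * ((w : H) * (g⁻¹ * m * g)) * g⁻¹ := by group
    rw [e1, e2, h1]

end Cfsg.Agent.Lib.H16ThGM
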