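import Cfsg.Agent.Lib.H16ThGDefs

set_option autoImplicit false

namespace Cfsg.Agent.Lib.H16ThGQ

open Cfsg Subgroup Cfsg.Agent.Lib.H16ThDefs Cfsg.Agent.Lib.H16ThGDefs
open scoped commutatorElement

theorem closure_normal_of_conj {G : Type*} [Group G] (S : Set G)
    (h : ∀ g : G, ∀ s ∈ S, g * s * g⁻¹ ∈ S) : (closure S).Normal := by
  constructor
  intro n hn g
  induction hn using Subgroup.closure_induction with
  | mem x hx => exact subset_closure (h g x hx)
  | one => simp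
  | mul x y _ _ hx hy =>
    have e : g * (x * y) * g⁻¹ = (g * x * g⁻¹) * (g * y * g⁻¹) := by group
    rw [e]; exact mul_mem hx hy
  | inv x _ hx =>
    have e : g * x⁻¹ * g⁻¹ = (g * x * g⁻¹)⁻¹ := by group
    rw [e]; exact inv_mem hx

theorem pow_eq_one_of_commute {G : Type*} [Group G] (x y : G) (m : ℕ) (hm : y ^ m = 1)
    (hc : y * (x⁻¹ * (y * x * y⁻¹)) = (x⁻¹ * (y * x * y⁻¹)) * y) :
    (x⁻¹ * (y * x * y⁻¹)) ^ m = 1 := by
  set c := x⁻¹ * (y * x * y⁻¹) with hcdef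
  have hyx : y * x * y⁻¹ = x * c := by rw [hcdef]; group
  have hcy : Commute y c := hc
  have key : ∀ i : ℕ, y ^ i * x * (y ^ i)⁻¹ = x * c ^ i := by
    intro i
    induction i with
    | zero => simp
    | succ i ih =>
      have e : y ^ (i + 1) * x * (y ^ (i + 1))⁻¹ = y * (y ^ i * x * (y ^ i)⁻¹) * y⁻¹ := by
        rw [pow_succ']; group
      have hci : y * c ^ i * y⁻¹ = c ^ i := by
        rw [(hcy.pow_right i).eq, mul_inv_cancel_right]
      have e2 : y * (x * c ^ i) * y⁻¹ = (y * x * y⁻¹) * (y * c ^ i * y⁻¹) := by group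
      rw [e, ih, e2, hyx, hci, pow_succ', mul_assoc]
  have h := key m
  rw [hm] at h
  simpa using h.symm

theorem exists_index_two {G : Type*} [Group G] [Finite G] (hp : IsPGroup 2 G) (hne : Nontrivial G) :
    ∃ M : Subgroup G, M.index = 2 := by
  obtain ⟨n, hn⟩ := hp.exists_card_eq
  have hn0 : n ≠ 0 := by
    rintro rfl
    rw [pow_zero] at hn
    have := Finite.one_lt_card (α := G)
    omega
  obtain ⟨k, rfl⟩ := Nat.exists_eq_succ_of_ne_zero hn0
  obtain ⟨M, hM⟩ := Sylow.exists_subgroup_card_pow_prime (G := G) 2 (n := k)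
    (by rw [hn]; exact pow_dvd_pow 2 (Nat.le_succ k))
  refine ⟨M, ?_⟩
  have h := M.card_mul_index
  rw [hM, hn, pow_succ] at h
  exact Nat.eq_of_mul_eq_mul_left (pow_pos (by norm_num) k) h

/-- PIECE GQ (Mathlib only; Thompson-critical-subgroup style).
Let `Q` be minimal (finite!) among the normal subgroups of `H` contained in `P` and not centralized by `K`.
(0) every normal subgroup `Q₀ < Q` of `H` is centralized by `K`.
(1) `⁅Q,K⁆ = Q`: it is normal in `H`, `≤ Q`; if proper, `K` centralizes it; for `y ∈ K` of odd order `m` and `x ∈ Q`,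
    `c = x⁻¹ (y x y⁻¹) ∈ ⁅Q,K⁆` commutes with `y`, so `y^i x y^{-i} = x c^i`, `c^m = 1`, and `c` is a 2-element: `c = 1`.
    By `hKgen`, `K` centralizes `Q`: contradiction.
(2) `D = ⁅Q,Q⁆ < Q` (`Q` is a nontrivial 2-group, so nilpotent/solvable), normal in `H`, so `⁅D,K⁆ = 1`; three subgroups lemma
    (`Subgroup.commutator_commutator_eq_bot_of_rotate`): `⁅⁅K,Q⁆,D⁆ = 1`, i.e. `D ≤ Z(Q)`.
(3) `F = D ⊔ closure {x^2 | x ∈ Q}` is normal in `H` and proper in `Q` (a maximal subgroup of the 2-group `Q` is normal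
    of index 2, so it contains all squares and commutators; or: squaring is an endomorphism of the abelian 2-group
    `Q/D` with nontrivial kernel), so `K` centralizes `F`.  As `D ≤ Z(Q)`: `(x y)^2 = x^2 y^2 [y,x]`, so
    `A = {x ∈ Q | x^2 ∈ D}` is a subgroup; for `x ∈ Q`, `k ∈ K`: `(k x k⁻¹)^2 = k x^2 k⁻¹ = x^2`, whence
    `(x (k x⁻¹ k⁻¹))^2 ∈ x^2 x^{-2} D = D`: `A` contains the generators of `⁅Q,K⁆ = Q`.  So `x^2 ∈ D` for all `x ∈ Q`.
(4) `[x,y]^2 = [x^2,y] = 1` (class 2, `x^2 ∈ D ≤ Z(Q)`), `D` is abelian generated by elements of square 1, so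
    `D ≤ Z` by `hS.Zmem`.  Hence `x^2 ∈ Z`, `[x,y] ∈ Z`.
(5) `Q ≰ Z` since `K` centralizes `Z`; `Z ≤ Q`: `Q ≠ 1` is a 2-group, so it contains an involution, hence all (`conj`). -/
theorem exists_Q {H : Type*} [Group H] [Finite H] {P Z : Subgroup H} (hS : Setup H P Z)
    (K : Subgroup H) (hKn : K.Normal) (hKgen : K = closure {y | y ∈ K ∧ Odd (orderOf y)})
    (hKZ : ∀ k ∈ K, ∀ z ∈ Z, k * z = z * k) (hKP : ¬ (∀ k ∈ K, ∀ p ∈ P, k * p = p * k)) :
    ∃ Q : Subgroup H, Q.Normal ∧ Q ≤ P ∧ Z ≤ Q ∧ (∀ x ∈ Q, x ^ 2 ∈ Z) ∧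
      (∀ x ∈ Q, ∀ y ∈ Q, x * y * x⁻¹ * y⁻¹ ∈ Z) ∧ ⁅Q, K⁆ = Q ∧ ¬ Q ≤ Z := by
  classical
  have := hKn
  have := hS.Pn
  let Cz : Subgroup H → Prop := fun R => ∀ k ∈ K, ∀ x ∈ R, k * x = x * k
  obtain ⟨Q, ⟨hQn, hQP, hQK⟩, hmin⟩ := WellFounded.has_min (wellFounded_lt (α := Subgroup H))
    {R : Subgroup H | R.Normal ∧ R ≤ P ∧ ¬ Cz R} ⟨P, hS.Pn, le_rfl, hKP⟩
  have := hQn
  have h0 : ∀ R : Subgroup H, R.Normal → R < Q → Cz R := by
    intro R hRn hRQ
    by_contra hc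
    exact hmin R ⟨hRn, hRQ.le.trans hQP, hc⟩ hRQ
  have h2pow : ∀ c ∈ Q, ∀ m, Odd m → c ^ m = 1 → c = 1 := by
    intro c hc m hm hcm
    obtain ⟨k, hk⟩ := hS.Pp ⟨c, hQP hc⟩
    have hk' : c ^ 2 ^ k = 1 := by
      have := congrArg Subtype.val hk
      simpa using this
    have hd : orderOf c ∣ Nat.gcd m (2 ^ k) :=
      Nat.dvd_gcd (orderOf_dvd_of_pow_eq_one hcm) (orderOf_dvd_of_pow_eq_one hk')
    have hcop : Nat.Coprime m (2 ^ k) := Nat.Coprime.pow_right k (Nat.coprime_two_right.2 hm)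
    rw [hcop.gcd_eq_one, Nat.dvd_one] at hd
    exact orderOf_eq_one_iff.1 hd
  have h1 : ⁅Q, K⁆ = Q := by
    by_contra hne
    have hlt : ⁅Q, K⁆ < Q := lt_of_le_of_ne (Subgroup.commutator_le_left Q K) hne
    have hR := h0 _ inferInstance hlt
    apply hQK
    have hle : K ≤ centralizer (Q : Set H) := by
      rw [hKgen, closure_le]
      rintro y ⟨hyK, hyodd⟩
      rw [SetLike.mem_coe, mem_centralizer_iff]
      intro x hx
      have hc : x⁻¹ * (y * x * y⁻¹) ∈ ⁅Q, K⁆ := by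
        have e : x⁻¹ * (y * x * y⁻¹) = ⁅x⁻¹, y⁆ := by rw [commutatorElement_def]; group
        rw [e]
        exact Subgroup.commutator_mem_commutator (Q.inv_mem hx) hyK
      have hpw := pow_eq_one_of_commute x y (orderOf y) (pow_orderOf_eq_one y) (hR y hyK _ hc)
      have hc1 := h2pow _ (Subgroup.commutator_le_left Q K hc) _ hyodd hpw
      have : y * x * y⁻¹ = x := by
        have := congrArg (fun t => x * t) hc1
        simpa using this
      calc x * y = (y * x * y⁻¹) * y := by rw [this]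
        _ = y * x := by group
    intro k hk x hx
    exact ((mem_centralizer_iff.1 (hle hk)) x hx).symm
  have hQne : Q ≠ ⊥ := by
    intro hb
    apply hQK
    intro k _ x hx
    rw [hb] at hx
    rw [mem_bot.1 hx]; simp
  obtain ⟨M, hM⟩ : ∃ M : Subgroup Q, M.index = 2 :=
    exists_index_two (hS.Pp.to_le hQP) ((Subgroup.nontrivial_iff_ne_bot Q).2 hQne)
  have hM'lt : M.map Q.subtype < Q := by
    refine lt_of_le_of_ne (Subgroup.map_subtype_le M) (fun he => ?_)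
    have hMtop : M = ⊤ := by
      rw [eq_top_iff]
      intro x _
      have hx : x.1 ∈ M.map Q.subtype := by rw [he]; exact x.2
      obtain ⟨y, hy, hyx⟩ := hx
      have : y = x := Subtype.ext hyx
      rwa [← this]
    rw [hMtop, Subgroup.index_top] at hM
    omega
  set D : Subgroup H := ⁅Q, Q⁆ with hD
  have hDn : D.Normal := inferInstance
  have hDM : D ≤ M.map Q.subtype := by
    rw [hD, Subgroup.commutator_le]
    intro x hx y hy
    refine ⟨⁅(⟨x, hx⟩ : Q), ⟨y, hy⟩⁆, ?_, rfl⟩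
    rw [commutatorElement_def]
    simp only [SetLike.mem_coe, Subgroup.mul_mem_iff_of_index_two hM, inv_mem_iff]
    tauto
  set Fr : Subgroup H := closure {w | ∃ x ∈ Q, w = x ^ 2} with hFr
  have hFn : Fr.Normal := by
    apply closure_normal_of_conj
    rintro g _ ⟨x, hx, rfl⟩
    exact ⟨g * x * g⁻¹, hQn.conj_mem x hx g, by rw [conj_pow]⟩
  have hFM : Fr ≤ M.map Q.subtype := by
    rw [hFr, closure_le]
    rintro _ ⟨x, hx, rfl⟩
    exact ⟨(⟨x, hx⟩ : Q) ^ 2, Subgroup.sq_mem_of_index_two hM _, rfl⟩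
  have hDK : Cz D := h0 D hDn (lt_of_le_of_lt hDM hM'lt)
  have hFK : Cz Fr := h0 Fr hFn (lt_of_le_of_lt hFM hM'lt)
  have hDK' : ⁅D, K⁆ = ⊥ := by
    rw [Subgroup.commutator_eq_bot_iff_le_centralizer]
    intro d hd
    rw [mem_centralizer_iff]
    intro k hk
    exact hDK k hk d hd
  have hDQ : ⁅Q, D⁆ = ⊥ := by
    have h := Subgroup.commutator_commutator_eq_bot_of_rotate (H₁ := Q) (H₂ := K) (H₃ := D)
      (by rw [Subgroup.commutator_comm K D, hDK', Subgroup.commutator_bot_left])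
      (le_bot_iff.1 (hDK' ▸ Subgroup.commutator_mono (Subgroup.commutator_le_left D Q) le_rfl))
    rwa [h1] at h
  have hcen : ∀ d ∈ D, ∀ x ∈ Q, d * x = x * d := by
    intro d hd x hx
    exact mem_centralizer_iff.1 (Subgroup.commutator_eq_bot_iff_le_centralizer.1 hDQ hx) d hd
  let A : Subgroup H :=
    { carrier := {x | x ∈ Q ∧ x ^ 2 ∈ D}
      one_mem' := ⟨Q.one_mem, by rw [one_pow]; exact D.one_mem⟩
      mul_mem' := by
        rintro x y ⟨hx, hx2⟩ ⟨hy, hy2⟩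
        refine ⟨Q.mul_mem hx hy, ?_⟩
        have e : (x * y) ^ 2 = x ^ 2 * ⁅x⁻¹, y⁆ * y ^ 2 := by
          rw [commutatorElement_def]; simp only [pow_two]; group
        rw [e]
        exact D.mul_mem (D.mul_mem hx2 (Subgroup.commutator_mem_commutator (Q.inv_mem hx) hy)) hy2
      inv_mem' := by
        rintro x ⟨hx, hx2⟩
        exact ⟨Q.inv_mem hx, by rw [inv_pow]; exact D.inv_mem hx2⟩ }
  have hQA : ∀ x ∈ Q, x ^ 2 ∈ D := by
    have hle : ⁅Q, K⁆ ≤ A := by
      rw [Subgroup.commutator_le]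
      intro x hx k hk
      have hw : k * x⁻¹ * k⁻¹ ∈ Q := hQn.conj_mem _ (Q.inv_mem hx) k
      refine ⟨?_, ?_⟩
      · have e : ⁅x, k⁆ = x * (k * x⁻¹ * k⁻¹) := by rw [commutatorElement_def]; group
        rw [e]; exact Q.mul_mem hx hw
      · have hsq : (k * x⁻¹ * k⁻¹) ^ 2 = (x ^ 2)⁻¹ := by
          have h := hFK k hk ((x⁻¹) ^ 2) (subset_closure ⟨x⁻¹, Q.inv_mem hx, rfl⟩)
          calc (k * x⁻¹ * k⁻¹) ^ 2 = k * (x⁻¹) ^ 2 * k⁻¹ := by rw [conj_pow]
            _ = (x⁻¹) ^ 2 * k * k⁻¹ := by rw [h]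
            _ = (x ^ 2)⁻¹ := by group
        have e : ⁅x, k⁆ ^ 2 = x ^ 2 * ⁅x⁻¹, k * x⁻¹ * k⁻¹⁆ * (k * x⁻¹ * k⁻¹) ^ 2 := by
          rw [commutatorElement_def, commutatorElement_def]; simp only [pow_two]; group
        rw [e, hsq]
        exact hDn.conj_mem _ (Subgroup.commutator_mem_commutator (Q.inv_mem hx) hw) _
    rw [h1] at hle
    exact fun x hx => (hle hx).2
  have hDZ : D ≤ Z := by
    rw [hD, Subgroup.commutator_le]
    intro x hx y hy
    rw [hS.Zmem]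
    have hc : ⁅x, y⁆ ∈ D := Subgroup.commutator_mem_commutator hx hy
    have c1 := hcen _ hc x hx
    have c3 := hcen _ (hQA x hx) y hy
    have e1 : x * y = ⁅x, y⁆ * y * x := by rw [commutatorElement_def]; group
    generalize ⁅x, y⁆ = c at *
    have h : c ^ 2 * (y * x ^ 2) = y * x ^ 2 := by
      calc c ^ 2 * (y * x ^ 2) = c * (c * y * x) * x := by simp only [pow_two]; group
        _ = c * (x * y) * x := by rw [e1]
        _ = (c * x) * y * x := by group
        _ = (x * c) * y * x := by rw [c1]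
        _ = x * (c * y * x) := by group
        _ = x * (x * y) := by rw [← e1]
        _ = x ^ 2 * y := by simp only [pow_two]; group
        _ = y * x ^ 2 := c3
    simpa using h
  refine ⟨Q, hQn, hQP, ?_, fun x hx => hDZ (hQA x hx), fun x hx y hy => hDZ ?_, h1, ?_⟩
  · obtain ⟨x, hx, hx1⟩ : ∃ x ∈ Q, x ≠ 1 := by
      by_contra hcon
      push Not at hcon
      exact hQne ((Subgroup.eq_bot_iff_forall Q).2 hcon)
    obtain ⟨t, ht, ht1, ht2⟩ : ∃ t ∈ Q, t ≠ 1 ∧ t ^ 2 = 1 := by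
      by_cases h : x ^ 2 = 1
      · exact ⟨x, hx, hx1, h⟩
      · exact ⟨x ^ 2, Q.pow_mem hx 2, h, (hS.Zmem _).1 (hDZ (hQA x hx))⟩
    intro z hz
    by_cases hz1 : z = 1
    · rw [hz1]; exact Q.one_mem
    · obtain ⟨g, hg⟩ := hS.conj t z ht1 ht2 hz1 ((hS.Zmem z).1 hz)
      rw [← hg]; exact hQn.conj_mem t ht g
  · exact Subgroup.commutator_mem_commutator hx hy
  · intro hQZ
    exact hQK (fun k hk x hx => hKZ k hk x (hQZ hx))

end Cfsg.Agent.Lib.H16ThGQ
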