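import Cfsg.Agent.Lib.H16ThGDefs

set_option autoImplicit false

namespace Cfsg.Agent.Lib.H16ThGT

open Cfsg Subgroup Cfsg.Agent.Lib.H16ThDefs Cfsg.Agent.Lib.H16ThGDefs

/-- the closure of a conjugation invariant set is normal -/
theorem closure_normal_of_conj {H : Type*} [Group H] (s : Set H)
    (hs : ∀ y ∈ s, ∀ g : H, g * y * g⁻¹ ∈ s) : (closure s).Normal := by
  refine ⟨fun n hn g => ?_⟩
  induction hn using Subgroup.closure_induction with
  | mem x hx => exact subset_closure (hs x hx g)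
  | one => simp
  | mul x y _ _ hx hy =>
    have : g * (x * y) * g⁻¹ = (g * x * g⁻¹) * (g * y * g⁻¹) := by group
    rw [this]; exact mul_mem hx hy
  | inv x _ hx =>
    have : g * x⁻¹ * g⁻¹ = (g * x * g⁻¹)⁻¹ := by group
    rw [this]; exact inv_mem hx

/-- an element of odd order of a 2-group is trivial -/
theorem eq_one_of_odd {H : Type*} [Group H] {P : Subgroup H} (hP : IsPGroup 2 P) {y : H}
    (hy : y ∈ P) (ho : Odd (orderOf y)) : y = 1 := by
  obtain ⟨k, hk⟩ := hP ⟨y, hy⟩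
  have hk' : y ^ 2 ^ k = 1 := by
    have := congrArg Subtype.val hk
    simpa using this
  have h1 : orderOf y ∣ 2 ^ k := orderOf_dvd_of_pow_eq_one hk'
  have h2 : Nat.Coprime (orderOf y) (2 ^ k) := (Nat.Coprime.pow_right k ho.coprime_two_right)
  have h3 : orderOf y = 1 := Nat.Coprime.eq_one_of_dvd h2 h1
  exact orderOf_eq_one_iff.mp h3

theorem exists_T {H : Type*} [Group H] [Finite H] {P Z : Subgroup H} (hS : Setup H P Z)
    (M X : Subgroup H) (hMn : M.Normal) (hPM : P ≤ M) (hXn : X.Normal) (hMX : M ≤ X)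
    (hXM : ¬ X ≤ M) (hk : ∃ k : ℕ, M.relIndex X = 2 ^ k)
    (hXZ : ∀ g ∈ X, ∀ z ∈ Z, g * z = z * g) :
    ∃ T K : Subgroup H, IsPGroup 2 T ∧ T ≤ X ∧
      (∀ x y : H, x ≠ 1 → x ^ 2 = 1 → y ≠ 1 → y ^ 2 = 1 →
        ∃ g ∈ normalizer (T : Set H), g * x * g⁻¹ = y) ∧
      K.Normal ∧ K ≤ M ∧ K ≤ normalClosure (T : Set H) ∧
      K = closure {y | y ∈ K ∧ Odd (orderOf y)} ∧ ¬ (∀ k ∈ K, ∀ p ∈ P, k * p = p * k) := by
  haveI : Fact (Nat.Prime 2) := ⟨Nat.prime_two⟩
  obtain ⟨k, hk⟩ := hk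
  obtain ⟨S⟩ : Nonempty (Sylow 2 ↥X) := inferInstance
  set T : Subgroup H := (S : Subgroup ↥X).map X.subtype with hT
  set E : Subgroup H := normalClosure (T : Set H) with hE
  set K : Subgroup H := closure {y | y ∈ E ∧ Odd (orderOf y)} with hK
  have hTX : T ≤ X := Subgroup.map_subtype_le _
  have hTp : IsPGroup 2 T := S.isPGroup'.map _
  have hEX : E ≤ X := normalClosure_le_normal hTX
  have hEn : E.Normal := normalClosure_normal
  have hKE : K ≤ E := (closure_le _).mpr fun y hy => hy.1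
  have hKn : K.Normal := by
    apply closure_normal_of_conj
    rintro y ⟨hy1, hy2⟩ g
    refine ⟨hEn.conj_mem y hy1 g, ?_⟩
    have : orderOf (g * y * g⁻¹) = orderOf y := by
      have := (MulAut.conj g).orderOf_eq y
      simpa using this
    rw [this]; exact hy2
  have hidx : (M.subgroupOf X).index = 2 ^ k := hk
  haveI hMXn : (M.subgroupOf X).Normal := hMn.subgroupOf X
  have hKM : K ≤ M := by
    refine (closure_le _).mpr ?_
    rintro y ⟨hy1, hy2⟩
    have h1 := Subgroup.pow_index_mem (M.subgroupOf X) ⟨y, hEX hy1⟩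
    rw [hidx, Subgroup.mem_subgroupOf] at h1
    have h2 : y ^ 2 ^ k ∈ M := by simpa using h1
    obtain ⟨m, hm⟩ := exists_pow_eq_self_of_coprime (x := y) (n := 2 ^ k)
      (Nat.Coprime.pow_left k hy2.coprime_two_left)
    show y ∈ M
    rw [← hm]
    exact M.pow_mem h2 m
  refine ⟨T, K, hTp, hTX, ?_, hKn, hKM, hKE, ?_, ?_⟩
  · intro x y hx1 hx2 hy1 hy2
    obtain ⟨g, hg⟩ := hS.conj x y hx1 hx2 hy1 hy2
    have htop := Sylow.normalizer_sup_eq_top S
    have hgm : g ∈ normalizer (T : Set H) ⊔ X := by rw [hT, htop]; trivial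
    obtain ⟨n, hn, c, hc, rfl⟩ := Subgroup.mem_sup_of_normal_right.mp hgm
    refine ⟨n, hn, ?_⟩
    have hxZ : x ∈ Z := (hS.Zmem x).mpr hx2
    have hcx := hXZ c hc x hxZ
    rw [← hg]
    have : n * c * x * (n * c)⁻¹ = n * (c * x) * c⁻¹ * n⁻¹ := by group
    rw [this, hcx]
    group
  · apply le_antisymm
    · refine (closure_le _).mpr ?_
      rintro y ⟨hy1, hy2⟩
      exact subset_closure ⟨subset_closure ⟨hy1, hy2⟩, hy2⟩
    · exact (closure_le _).mpr fun y hy => hy.1
  · intro hcen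
    have hKP : K ≤ P := fun g hg => hS.cent g (hcen g hg)
    have hodd : ∀ y ∈ E, Odd (orderOf y) → y = 1 := fun y hy ho =>
      eq_one_of_odd hS.Pp (hKP (subset_closure ⟨hy, ho⟩)) ho
    have hEp : IsPGroup 2 E := by
      rintro ⟨g, hg⟩
      obtain ⟨a, m, hm, hgm⟩ := Nat.exists_eq_two_pow_mul_odd (n := orderOf g)
        (orderOf_pos g).ne'
      refine ⟨a, ?_⟩
      have h1 : orderOf (g ^ 2 ^ a) = m := by
        rw [orderOf_pow_of_dvd (by positivity) (by rw [hgm]; exact dvd_mul_right _ _), hgm,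
          Nat.mul_div_cancel_left _ (by positivity)]
      have h2 := hodd (g ^ 2 ^ a) (E.pow_mem hg _) (by rw [h1]; exact hm)
      exact Subtype.ext (by simpa using h2)
    have hEP : E ≤ P := hS.maxP E hEn hEp
    have hTM : T ≤ M := (le_normalClosure.trans hEP).trans hPM
    have hSM : (S : Subgroup ↥X) ≤ M.subgroupOf X := by
      intro s hs
      rw [Subgroup.mem_subgroupOf]
      exact hTM (Subgroup.mem_map_of_mem X.subtype hs)
    have hdvd := Subgroup.index_dvd_of_le hSM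
    rw [hidx] at hdvd
    have hnd := S.not_dvd_index
    have hk0 : k = 0 := by
      by_contra hk0
      exact hnd ((dvd_pow_self 2 hk0).trans hdvd)
    rw [hk0, pow_zero, Subgroup.index_eq_one, Subgroup.subgroupOf_eq_top] at hidx
    exact hXM hidx

end Cfsg.Agent.Lib.H16ThGT
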