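import Cfsg.Agent.Lib.H16ThGDefs
import Cfsg.Agent.Lib.Helper66GY
import Cfsg.Agent.Lib.Helper55PSolv

set_option autoImplicit false

namespace Cfsg.Agent.Lib.H16ThGX

open Cfsg Subgroup Cfsg.Agent.Lib.H16ThDefs Cfsg.Agent.Lib.H16ThGDefs

/-- PIECE GX.  A normal subgroup `X > M` with `X/M` a 2-group; it centralizes `Z`.
Sketch.  `M ≠ ⊤` (else `P.index = P.relIndex ⊤` is odd).  `H ⧸ M` is nontrivial and 2-solvable
(`Helper55PSolv.isPSolvable_of_isSolvable`, `Helper14PSolvQ.isPSolvable_quotient`), so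
`Helper14PSolvQ.exists_normal_of_isPSolvable` gives a nontrivial normal `N̄` which is a 2-group or of odd order;
`X := N̄.comap (mk' M)`, `M.relIndex X = Nat.card N̄` (`Helper66PLen.relIndex_comap_mk`).  Odd order is impossible:
`P.relIndex X = P.relIndex M * M.relIndex X` (`Subgroup.relIndex_mul_relIndex`) would be odd, so `X ≤ M` by `hmax`.
`X` centralizes `Z`: let `S` be a Sylow 2-subgroup of `X` (as a subgroup of `H`); `X = M ⊔ S` (orders) ; the 2-group
`S` acts on `Z` by conjugation, `|Z|` is even, so `S` fixes some `1 ≠ z ∈ Z`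
(`IsPGroup.card_modEq_card_fixedPoints`; or: a nontrivial normal subgroup `Z` of the 2-group `Z S` meets its
centre); `M` centralizes `z` too, so `X` does; all involutions are conjugate (`conj`) and `X` is normal. -/
theorem exists_X {H : Type*} [Group H] [Finite H] {P Z : Subgroup H} (hS : Setup H P Z)
    (heven : 2 ∣ P.index) (M : Subgroup H) (hMn : M.Normal) (hPM : P ≤ M)
    (hodd : Odd (P.relIndex M))
    (hmax : ∀ D : Subgroup H, D.Normal → P ≤ D → Odd (P.relIndex D) → D ≤ M)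
    (hMZ : ∀ m ∈ M, ∀ z ∈ Z, m * z = z * m) :
    ∃ X : Subgroup H, X.Normal ∧ M ≤ X ∧ ¬ X ≤ M ∧ (∃ k : ℕ, M.relIndex X = 2 ^ k) ∧
      (∀ g ∈ X, ∀ z ∈ Z, g * z = z * g) := by
  have : Fact (Nat.Prime 2) := ⟨Nat.prime_two⟩
  have hMtop : M ≠ ⊤ := by
    intro h
    rw [h, relIndex_top_right] at hodd
    exact (Nat.not_even_iff_odd.mpr hodd) (even_iff_two_dvd.mpr heven)
  have hnt : Nontrivial (H ⧸ M) := by
    rw [← Finite.one_lt_card_iff_nontrivial]
    have h1 : Nat.card (H ⧸ M) = M.index := rfl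
    rw [h1]
    have h2 : M.index ≠ 1 := fun h => hMtop (index_eq_one.mp h)
    have h3 : M.index ≠ 0 := index_ne_zero_of_finite
    omega
  have hps : IsPSolvable 2 H := Cfsg.Agent.Lib.Helper55PSolv.isPSolvable_of_isSolvable 2 hS.solv
  obtain ⟨N, hNn, hNne, hN⟩ := Cfsg.Agent.Lib.Helper14PSolvQ.exists_normal_of_isPSolvable
    (Cfsg.Agent.Lib.Helper14PSolvQ.isPSolvable_quotient M hps)
  set π := QuotientGroup.mk' M with hπ
  set X := N.comap π with hX
  have hXn : X.Normal := hNn.comap π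
  have hMX : M ≤ X := Cfsg.Agent.Lib.Helper66PLen.le_comap_mk M N
  have hrel : M.relIndex X = Nat.card N := Cfsg.Agent.Lib.Helper66PLen.relIndex_comap_mk M N
  have hXM : ¬ X ≤ M := by
    intro hle
    apply hNne
    rw [eq_bot_iff]
    intro x hx
    obtain ⟨y, rfl⟩ := QuotientGroup.mk'_surjective M x
    have : y ∈ M := hle hx
    rw [mem_bot]
    exact (QuotientGroup.eq_one_iff y).mpr this
  have hN2 : IsPGroup 2 N := by
    rcases hN with hN | hN
    · exact hN
    · exfalso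
      apply hXM
      apply hmax X hXn (hPM.trans hMX)
      rw [← relIndex_mul_relIndex P M X hPM hMX, hrel]
      exact hodd.mul (Nat.coprime_two_right.mp hN)
  obtain ⟨k, hk⟩ := IsPGroup.iff_card.mp hN2
  obtain ⟨Sy⟩ : Nonempty (Sylow 2 X) := inferInstance
  set S : Subgroup H := (Sy : Subgroup X).map X.subtype with hSdef
  have hSp : IsPGroup 2 S := Sy.2.map _
  have hSrel : Odd (S.relIndex X) := by
    have h1 : S.subgroupOf X = Sy := comap_map_eq_self_of_injective X.subtype_injective _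
    rw [relIndex, h1, ← Nat.not_even_iff_odd, even_iff_two_dvd]
    exact Sy.not_dvd_index
  have hsup : X ≤ M ⊔ S := by
    rw [← relIndex_eq_one]
    have d1 : (M ⊔ S).relIndex X ∣ M.relIndex X := relIndex_dvd_of_le_left X le_sup_left
    have d2 : (M ⊔ S).relIndex X ∣ S.relIndex X := relIndex_dvd_of_le_left X le_sup_right
    rw [hrel, hk] at d1
    have hc : Nat.Coprime (2 ^ k) (S.relIndex X) := (Nat.coprime_two_left.mpr hSrel).pow_left k
    exact Nat.eq_one_of_dvd_coprimes hc d1 d2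
  have hZn : Z.Normal := by
    constructor
    intro z hz g
    rw [hS.Zmem] at hz ⊢
    rw [conj_pow, hz]; group
  letI act : MulAction S Z := MulAction.compHom Z ((MulAut.conjNormal (H := Z)).comp S.subtype)
  have hsm : ∀ (s : S) (z : Z), ((s • z : Z) : H) = s * z * (s : H)⁻¹ := fun s z => rfl
  have h2Z : 2 ∣ Nat.card Z := by
    obtain ⟨x, y, _, hx1, hx2, _⟩ := hS.two
    have hxZ : x ∈ Z := (hS.Zmem x).mpr hx2
    have ho : orderOf (⟨x, hxZ⟩ : Z) = 2 := by
      rw [← orderOf_coe]; exact orderOf_eq_prime hx2 hx1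
    rw [← ho]; exact orderOf_dvd_natCard _
  have h1fix : (1 : Z) ∈ MulAction.fixedPoints S Z := by
    intro s
    apply Subtype.ext
    rw [hsm]; simp
  obtain ⟨b, hb, hb1⟩ := hSp.exists_fixed_point_of_prime_dvd_card_of_fixed_point Z h2Z h1fix
  have hbS : ∀ s ∈ S, s * (b : H) = b * s := by
    intro s hs
    have h1 := congrArg Subtype.val (hb ⟨s, hs⟩)
    rw [hsm] at h1
    exact mul_inv_eq_iff_eq_mul.mp h1
  have hbX : ∀ g ∈ X, g * (b : H) = b * g := by
    have hle : X ≤ centralizer {(b : H)} := by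
      refine hsup.trans (sup_le ?_ ?_)
      · intro r hr
        rw [mem_centralizer_singleton_iff]
        exact hMZ r hr b b.2
      · intro l hl
        rw [mem_centralizer_singleton_iff]
        exact hbS l hl
    intro m hm
    exact mem_centralizer_singleton_iff.mp (hle hm)
  have hb1' : (b : H) ≠ 1 := by
    intro h
    apply hb1
    exact (Subtype.ext h).symm
  have hb2 : (b : H) ^ 2 = 1 := (hS.Zmem _).mp b.2
  refine ⟨X, hXn, hMX, hXM, ⟨k, by rw [hrel, hk]⟩, ?_⟩
  intro m hm z hz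
  by_cases hz1 : z = 1
  · rw [hz1, mul_one, one_mul]
  obtain ⟨g, hg⟩ := hS.conj (b : H) z hb1' hb2 hz1 ((hS.Zmem z).mp hz)
  have hm' : g⁻¹ * m * g ∈ X := by
    have := hXn.conj_mem m hm g⁻¹
    rwa [inv_inv] at this
  have h1 := hbX _ hm'
  rw [← hg]
  have e1 : m * (g * (b : H) * g⁻¹) = g * ((g⁻¹ * m * g) * (b : H)) * g⁻¹ := by group
  have e2 : g * (b : H) * g⁻¹ * m = g * ((b : H) * (g⁻¹ * m * g)) * g⁻¹ := by group
  rw [e1, e2, h1]

end Cfsg.Agent.Lib.H16ThGX
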