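import Cfsg.Agent.Lib.H16ThGDefs
import Cfsg.Agent.Lib.Helper66GY
import Cfsg.Agent.Lib.Helper55PSolv

set_option autoImplicit false

namespace Cfsg.Agent.Lib.H16ThGZ

open Cfsg Subgroup Cfsg.Agent.Lib.H16ThDefs Cfsg.Agent.Lib.H16ThGDefs
open Cfsg.Agent.Lib.Helper14CoreB

theorem eq_zpowers_of_card_two {H : Type*} [Group H] [Finite H] (U : Subgroup H)
    (hU : Nat.card U = 2) : ∃ x : H, x ≠ 1 ∧ x ^ 2 = 1 ∧ U = zpowers x := by
  have : Fact (Nat.Prime 2) := ⟨Nat.prime_two⟩
  obtain ⟨x, hx⟩ := exists_prime_orderOf_dvd_card' (G := U) 2 (by rw [hU])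
  have hx' : orderOf (x : H) = 2 := by rw [orderOf_coe, hx]
  refine ⟨x, ?_, ?_, ?_⟩
  · intro h
    rw [h, orderOf_one] at hx'
    omega
  · rw [← hx', pow_orderOf_eq_one]
  · symm
    apply eq_of_le_of_card_ge
    · rw [zpowers_le]; exact x.2
    · rw [Nat.card_zpowers, hx', hU]

/-- PIECE GZ.  The set-up in `H = G/O(G)`.
Sketch: `IsPSolvable 2 H` by `Helper55PSolv.isPSolvable_of_isSolvable`;
`cent`: `Helper14HH.centralizer_pCore_le`; `Pn`, `Pp`, `maxP`: `Helper14CoreB` (`pCore_isPGroup`,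
`le_pCore`, instance of normality), see the beginning of `Helper66GY.index_pCore_coprime`
(also for `pCore 2 H ≠ ⊥`).  `Helper66GY.Trans 2 H` holds: a subgroup of order 2 is `{1, x}` with `x` an
involution, and `IsConj x y` gives the inner automorphism `MulAut.conj g`.  Then
`Helper66GY.order_p_mem` : every `x` with `orderOf x = 2` lies in `pCore 2 H` and commutes with it.
So the elements with `x ^ 2 = 1` commute pairwise and `Z := {x | x ^ 2 = 1}` is a subgroup. -/
theorem setup_of {H : Type*} [Group H] [Finite H] (hs : Group.IsSolvable H)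
    (hO : pPrimeCore 2 H = ⊥)
    (hconj : ∀ x y : H, x ≠ 1 → x ^ 2 = 1 → y ≠ 1 → y ^ 2 = 1 → IsConj x y)
    (htwo : ∃ x y : H, x ≠ y ∧ x ≠ 1 ∧ x ^ 2 = 1 ∧ y ≠ 1 ∧ y ^ 2 = 1) :
    ∃ Z : Subgroup H, Setup H (pCore 2 H) Z := by
  have : Fact (Nat.Prime 2) := ⟨Nat.prime_two⟩
  have hps : IsPSolvable 2 H := Cfsg.Agent.Lib.Helper55PSolv.isPSolvable_of_isSolvable 2 hs
  have hC : centralizer (pCore 2 H : Set H) ≤ pCore 2 H :=
    Cfsg.Agent.Lib.Helper14HH.centralizer_pCore_le hps hO
  set R := pCore 2 H with hR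
  have hRp : IsPGroup 2 R := pCore_isPGroup 2
  have hRn : R.Normal := by rw [hR]; infer_instance
  have hne : R ≠ ⊥ := by
    intro hbot
    have htop : (⊤ : Subgroup H) ≤ R := by
      refine le_trans ?_ hC
      intro x _
      rw [mem_centralizer_iff]
      intro r hr
      have : r = 1 := by
        have : r ∈ (⊥ : Subgroup H) := hbot ▸ hr
        exact mem_bot.mp this
      rw [this, one_mul, mul_one]
    obtain ⟨x, y, _, hx1, _⟩ := htwo
    apply hx1
    have : x ∈ R := htop (mem_top x)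
    rw [hbot] at this
    exact mem_bot.mp this
  have ht : Cfsg.Agent.Lib.Helper66GY.Trans 2 H := by
    intro U V hU hV
    obtain ⟨x, hx1, hx2, rfl⟩ := eq_zpowers_of_card_two U hU
    obtain ⟨y, hy1, hy2, rfl⟩ := eq_zpowers_of_card_two V hV
    obtain ⟨g, hg⟩ := isConj_iff.mp (hconj x y hx1 hx2 hy1 hy2)
    refine ⟨MulAut.conj g, ?_⟩
    rw [MonoidHom.map_zpowers]
    congr 1
  have key : ∀ x : H, x ^ 2 = 1 → x ∈ R ∧ ∀ r ∈ R, r * x = x * r := by
    intro x hx
    by_cases hx1 : x = 1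
    · subst hx1
      exact ⟨R.one_mem, fun r _ => by rw [mul_one, one_mul]⟩
    · exact Cfsg.Agent.Lib.Helper66GY.order_p_mem ht hne (orderOf_eq_prime hx hx1)
  let Z : Subgroup H :=
    { carrier := {x | x ^ 2 = 1}
      one_mem' := one_pow 2
      mul_mem' := by
        intro a b ha hb
        have hc : Commute a b := (key b hb).2 a (key a ha).1
        show (a * b) ^ 2 = 1
        rw [hc.mul_pow, show a ^ 2 = 1 from ha, show b ^ 2 = 1 from hb, one_mul]
      inv_mem' := by
        intro a ha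
        show a⁻¹ ^ 2 = 1
        rw [inv_pow, show a ^ 2 = 1 from ha, inv_one] }
  refine ⟨Z, ?_⟩
  exact
    { solv := hs
      Pn := hRn
      Pp := hRp
      cent := by
        intro g hg
        apply hC
        rw [mem_centralizer_iff]
        intro p hp
        exact (hg p hp).symm
      maxP := fun D hD hDp => le_pCore hD hDp
      Zmem := fun x => Iff.rfl
      ZP := fun x hx => (key x hx).1
      Zc := fun z hz p hp => ((key z hz).2 p hp).symm
      conj := fun x y hx1 hx2 hy1 hy2 => isConj_iff.mp (hconj x y hx1 hx2 hy1 hy2)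
      two := htwo }

end Cfsg.Agent.Lib.H16ThGZ
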