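import Cfsg.Agent.Lib.H16ThGDefs
import Cfsg.Agent.Lib.H16ThGZ
import Cfsg.Agent.Lib.H16ThGM
import Cfsg.Agent.Lib.H16ThGX
import Cfsg.Agent.Lib.H16ThGT
import Cfsg.Agent.Lib.H16ThGQ
import Cfsg.Agent.Lib.H16ThFin

set_option autoImplicit false

namespace Cfsg.Agent.Lib.H16ThCore

open Cfsg Subgroup Cfsg.Agent.Lib.H16ThDefs Cfsg.Agent.Lib.H16ThGDefs

/-- the core case `O(H) = 1` of Thompson's theorem: `O_2(H)` is a Sylow 2-subgroup. -/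
theorem core {H : Type*} [Group H] [Finite H] (hs : Group.IsSolvable H)
    (hO : pPrimeCore 2 H = ⊥)
    (hconj : ∀ x y : H, x ≠ 1 → x ^ 2 = 1 → y ≠ 1 → y ^ 2 = 1 → IsConj x y)
    (htwo : ∃ x y : H, x ≠ y ∧ x ≠ 1 ∧ x ^ 2 = 1 ∧ y ≠ 1 ∧ y ^ 2 = 1) :
    (pCore 2 H).index.Coprime 2 := by
  by_contra hcon
  have heven : 2 ∣ (pCore 2 H).index := by
    by_contra hnd
    exact hcon ((Nat.coprime_comm).mp ((Nat.prime_two.coprime_iff_not_dvd).mpr hnd))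
  obtain ⟨Z, hS⟩ := H16ThGZ.setup_of hs hO hconj htwo
  obtain ⟨M, hMn, hPM, hodd, hmax, hMZ⟩ := H16ThGM.exists_M hS heven
  obtain ⟨X, hXn, hMX, hXM, hk, hXZ⟩ := H16ThGX.exists_X hS heven M hMn hPM hodd hmax hMZ
  obtain ⟨T, K, hT, hTX, htr, hKn, hKM, hKT, hKgen, hKP⟩ :=
    H16ThGT.exists_T hS M X hMn hPM hXn hMX hXM hk hXZ
  obtain ⟨Q, hQn, hQP, hZQ, hsq, hcomm, hQK, hQZ⟩ :=
    H16ThGQ.exists_Q hS K hKn hKgen (fun k hk => hMZ k (hKM hk)) hKP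
  exact H16ThFin.final hS M T K Q hodd hMZ hT (fun t ht => hXZ t (hTX ht)) htr hKn hKM hKT hKgen
    hQn hQP hZQ hsq hcomm hQK hQZ

end Cfsg.Agent.Lib.H16ThCore
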