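import Mathlib

set_option autoImplicit false

/-! Vocabulary for project 3797 (Thompson: solvable groups with one class of involutions).
`V`, `Z` are elementary abelian 2-groups written additively, `q : V → Z` an anisotropic quadratic
map (in the application `V = Q/Z`, `q (xZ) = x ^ 2`), and `Γ` is a group acting on `V` by
additive automorphisms (`DistribMulAction Γ V`; in most pieces faithfully). -/

namespace Cfsg.Agent.Lib.H16ThDefs

variable {V Z Γ : Type*} [AddCommGroup V] [AddCommGroup Z] [Group Γ] [DistribMulAction Γ V]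

/-- `q : V → Z` is an anisotropic quadratic map between elementary abelian 2-groups
(`polar` says that `β u v = q (u + v) + q u + q v` is biadditive). -/
structure AQ (q : V → Z) : Prop where
  two_V : ∀ v : V, v + v = 0
  two_Z : ∀ z : Z, z + z = 0
  zero : q 0 = 0
  aniso : ∀ v, q v = 0 → v = 0
  polar : ∀ u v w : V, q (u + v + w) = q (u + v) + q (u + w) + q (v + w) + q u + q v + q w

/-- every element of `A` preserves `q`. -/
def Pres (q : V → Z) (A : Subgroup Γ) : Prop := ∀ g ∈ A, ∀ v, q (g • v) = q v

/-- `N` is transitive on the nonzero values of `q`. -/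
def Tr (q : V → Z) (N : Subgroup Γ) : Prop :=
  ∀ z z' : Z, z ≠ 0 → z' ≠ 0 → ∃ g ∈ N, ∀ v, q v = z → q (g • v) = z'

/-- `W` is `N`-invariant. -/
def Inv (N : Subgroup Γ) (W : AddSubgroup V) : Prop := ∀ g ∈ N, ∀ w ∈ W, g • w ∈ W

/-- the fixed points `C_V(A)`. -/
def Fix (V : Type*) [AddCommGroup V] [DistribMulAction Γ V] (A : Subgroup Γ) : AddSubgroup V where
  carrier := {v | ∀ g ∈ A, g • v = v}
  zero_mem' := fun g _ => smul_zero g
  add_mem' := fun {a b} ha hb g hg => by rw [smul_add, ha g hg, hb g hg]
  neg_mem' := fun {a} ha g hg => by rw [smul_neg, ha g hg]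

theorem mem_Fix {A : Subgroup Γ} {v : V} : v ∈ Fix V A ↔ ∀ g ∈ A, g • v = v := Iff.rfl

end Cfsg.Agent.Lib.H16ThDefs
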