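import Cfsg.Agent.Lib.H16ThDefs

set_option autoImplicit false

/-! Group level vocabulary for project 3797. -/

namespace Cfsg.Agent.Lib.H16ThGDefs

open Cfsg.Agent.Lib.H16ThDefs

universe u

/-- `H` solvable, `P = O_2(H)` contains its centralizer, `Z = {x | x ^ 2 = 1}` is a subgroup of
`Z(P)`, all involutions are conjugate and there are at least two of them. -/
structure Setup (H : Type*) [Group H] (P Z : Subgroup H) : Prop where
  solv : Group.IsSolvable H
  Pn : P.Normal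
  Pp : IsPGroup 2 P
  cent : ∀ g : H, (∀ p ∈ P, g * p = p * g) → g ∈ P
  maxP : ∀ D : Subgroup H, D.Normal → IsPGroup 2 D → D ≤ P
  Zmem : ∀ x : H, x ∈ Z ↔ x ^ 2 = 1
  ZP : Z ≤ P
  Zc : ∀ z ∈ Z, ∀ p ∈ P, z * p = p * z
  conj : ∀ x y : H, x ≠ 1 → x ^ 2 = 1 → y ≠ 1 → y ^ 2 = 1 → ∃ g : H, g * x * g⁻¹ = y
  two : ∃ x y : H, x ≠ y ∧ x ≠ 1 ∧ x ^ 2 = 1 ∧ y ≠ 1 ∧ y ^ 2 = 1

/-- the `H`-module `V = Q/Z` (written additively), an additive copy `Z'` of `Z` and the squaring
map `q : V → Z'`.  `π` and `ζ` are defined on all of `H` (junk outside `Q`, resp. `Z`). -/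
structure ModData (H : Type u) [Group H] (Q Z : Subgroup H) where
  V : Type u
  Z' : Type u
  [iV : AddCommGroup V]
  [iZ : AddCommGroup Z']
  [fV : Finite V]
  [fZ : Finite Z']
  [act : DistribMulAction H V]
  π : H → V
  ζ : H → Z'
  q : V → Z'
  π_mul : ∀ x ∈ Q, ∀ y ∈ Q, π (x * y) = π x + π y
  π_surj : ∀ v, ∃ x ∈ Q, π x = v
  π_zero : ∀ x ∈ Q, (π x = 0 ↔ x ∈ Z)
  smul_π : ∀ (h : H), ∀ x ∈ Q, h • π x = π (h * x * h⁻¹)
  ζ_inj : ∀ z ∈ Z, ∀ z' ∈ Z, ζ z = ζ z' → z = z'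
  ζ_surj : ∀ w, ∃ z ∈ Z, ζ z = w
  ζ_one : ζ 1 = 0
  q_π : ∀ x ∈ Q, q (π x) = ζ (x ^ 2)
  aq : AQ q

attribute [instance] ModData.iV ModData.iZ ModData.fV ModData.fZ ModData.act

/-- the group `Aut(V)` acting faithfully on `V`. -/
abbrev Gam (V : Type*) [AddCommGroup V] := (AddMonoid.End V)ˣ

/-- the representation `H → Aut(V)`. -/
noncomputable def rho (H V : Type*) [Group H] [AddCommGroup V] [DistribMulAction H V] :
    H →* Gam V := (DistribMulAction.toAddMonoidEnd H V).toHomUnits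

theorem rho_smul {H V : Type*} [Group H] [AddCommGroup V] [DistribMulAction H V] (h : H) (v : V) :
    rho H V h • v = h • v := rfl

instance {V : Type*} [AddCommGroup V] [Finite V] : Finite (Gam V) :=
  Finite.of_injective (fun (u : Gam V) (v : V) => u • v) (fun a b hab =>
    FaithfulSMul.eq_of_smul_eq_smul (α := V) (fun v => congrFun hab v))

theorem rho_eq_one_iff {H V : Type*} [Group H] [AddCommGroup V] [DistribMulAction H V] (h : H) :
    rho H V h = 1 ↔ ∀ v : V, h • v = v := by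
  constructor
  · intro h1 v
    rw [← rho_smul, h1, one_smul]
  · intro h1
    apply FaithfulSMul.eq_of_smul_eq_smul (α := V)
    intro v
    rw [rho_smul, h1, one_smul]

end Cfsg.Agent.Lib.H16ThGDefs
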