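import Cfsg.Agent.Lib.H16ThGDefs
import Cfsg.Agent.Lib.H29ThHomo

set_option autoImplicit false

namespace Cfsg.Agent.Lib.H16ThHomo

open Cfsg Subgroup Cfsg.Agent.Lib.H16ThDefs Cfsg.Agent.Lib.H16ThGDefs

/-- PIECE Homo (Mathlib only).  An abelian 2-group whose automorphism group is transitive on the involutions is homocyclic.
Proof.  Structure theorem (`CommGroup.equiv_prod_multiplicative_zmod_of_finite`, after
`letI : CommGroup A := { (inferInstance : Group A) with mul_comm := hc }`): `A ≃* ∏ i : ι, Multiplicative (ZMod (n i))`, `1 < n i`.  Each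
`n i` divides `card A`, a power of 2, so `n i = 2 ^ a i`, `a i ≥ 1`.  If `ι` is empty take `r = 0`.  Let `e = max a i = a i₀`.
Suppose `a j < e`.  `w_i :=` the element with `i`-th coordinate `2^(a i - 1)` and the others `0`: an involution.
`w_{i₀} = x ^ (2^(e-1))` for `x = ` the `i₀`-th generator, but `w_j` is not a `2^(e-1)`-th power (the `j`-th coordinate of such a power
is `2^(e-1) • x_j = 0` in `ZMod (2^(a j))`).  An automorphism with `a w_{i₀} = w_j` gives `w_j = (a x)^(2^(e-1))`: contradiction.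
So all `a i = e`: `A ≃* (ι → Multiplicative (ZMod (2^e))) ≃* (Fin r → _)` (`MulEquiv.piCongrLeft`/`Finite.equivFin`). -/
theorem homocyclic {A : Type*} [Group A] [Finite A] (hc : ∀ a b : A, a * b = b * a)
    (hA : IsPGroup 2 A)
    (h : ∀ x y : A, x ≠ 1 → x ^ 2 = 1 → y ≠ 1 → y ^ 2 = 1 → ∃ a : MulAut A, a x = y) :
    ∃ m r : ℕ, Nonempty (A ≃* (Fin r → Multiplicative (ZMod (2 ^ m)))) :=
  Cfsg.Agent.Lib.H29ThHomo.homocyclic hc hA h

end Cfsg.Agent.Lib.H16ThHomo
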