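import Cfsg.Agent.Lib.H16ThGDefs
import Cfsg.Agent.Lib.Helper66GY

set_option autoImplicit false

namespace Cfsg.Agent.Lib.H16ThNS

open Cfsg Subgroup Cfsg.Agent.Lib.H16ThDefs Cfsg.Agent.Lib.H16ThGDefs

/-- PIECE NS.  If `G/O(G)` has a normal Sylow 2-subgroup then `N_G(S)` controls fusion in `S`.
Proof.  `N = pPrimeCore 2 G` (odd order), `W := (pCore 2 (G ⧸ N)).comap (mk' N)` is normal in `G`, `|G : W|` is odd
(`Subgroup.index_comap_of_surjective`), `|W : N|` is a power of 2.  So `S ≤ W` (the image of `S` in `G ⧸ W` is a 2-group of odd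
order; or `Sylow`/`IsPGroup` lemmas) and `S` is a Sylow 2-subgroup of `W`, `W = N S` by orders.  Frattini
(`Sylow.normalizer_sup_eq_top` for the Sylow subgroup `S.subtype`/`Sylow.subtype` of `W`): `G = N_G(S) W = N_G(S) N`.
Let `y = g x g⁻¹`, `g = n k`, `n ∈ N_G(S)`, `k ∈ N`: `x' = k x k⁻¹ = n⁻¹ y n ∈ S`, and `x' x⁻¹ = k (x k⁻¹ x⁻¹) ∈ N ∩ S = 1`
(coprime orders).  So `y = n x n⁻¹`. -/
theorem conj_in_normalizer {G : Type*} [Group G] [Finite G] (S : Sylow 2 G)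
    (hidx : (pCore 2 (G ⧸ pPrimeCore 2 G)).index.Coprime 2) (x y : G) (hx : x ∈ (S : Subgroup G))
    (hy : y ∈ (S : Subgroup G)) (hxy : IsConj x y) :
    ∃ n ∈ normalizer ((S : Subgroup G) : Set G), n * x * n⁻¹ = y := by
  have : Fact (Nat.Prime 2) := ⟨Nat.prime_two⟩
  set N := pPrimeCore 2 G with hN
  have hsurj := QuotientGroup.mk'_surjective N
  have hPp : IsPGroup 2 (pCore 2 (G ⧸ N)) := Cfsg.Agent.Lib.Helper14CoreB.pCore_isPGroup 2
  have hnd : ¬ 2 ∣ (pCore 2 (G ⧸ N)).index := by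
    intro h
    have := Nat.Coprime.eq_one_of_dvd hidx.symm h
    omega
  have hnorm : (pCore 2 (G ⧸ N)).Normal := inferInstance
  have hle : pCore 2 (G ⧸ N) ≤ (S : Subgroup G).map (QuotientGroup.mk' N) :=
    hPp.le_sylow_of_normal (S.mapSurjective hsurj)
  have heq : (S : Subgroup G).map (QuotientGroup.mk' N) = pCore 2 (G ⧸ N) :=
    (hPp.toSylow hnd).3 (S.2.map _) hle
  have hW : ((S : Subgroup G) ⊔ N).Normal := by
    have h1 : (S : Subgroup G) ⊔ N = (pCore 2 (G ⧸ N)).comap (QuotientGroup.mk' N) := by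
      rw [← heq, Subgroup.comap_map_eq, QuotientGroup.ker_mk']
    rw [h1]; exact hnorm.comap _
  have hF : normalizer ((S : Subgroup G) : Set G) ⊔ ((S : Subgroup G) ⊔ N) = ⊤ :=
    Sylow.normalizer_sup_eq_top' S (le_sup_left : (S : Subgroup G) ≤ (S : Subgroup G) ⊔ N)
  have hF2 : normalizer ((S : Subgroup G) : Set G) ⊔ N = ⊤ := by
    rw [← sup_assoc, sup_eq_left.mpr le_normalizer] at hF
    exact hF
  obtain ⟨g, hg⟩ := isConj_iff.mp hxy
  have hgmem : g ∈ normalizer ((S : Subgroup G) : Set G) ⊔ N := hF2 ▸ mem_top g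
  have hgmem2 : g ∈ ((normalizer ((S : Subgroup G) : Set G) ⊔ N : Subgroup G) : Set G) := hgmem
  rw [Subgroup.mul_normal] at hgmem2
  obtain ⟨n, hn, k, hk, hnk⟩ := Set.mem_mul.mp hgmem2
  refine ⟨n, hn, ?_⟩
  have hinf : N ⊓ (S : Subgroup G) = ⊥ := by
    apply Subgroup.inf_eq_bot_of_coprime
    obtain ⟨j, hj⟩ := S.2.exists_card_eq
    rw [hj]
    exact Nat.Coprime.pow_right j (Cfsg.Agent.Lib.Helper14CoreB.card_pPrimeCore_coprime 2)
  have hx' : k * x * k⁻¹ = n⁻¹ * y * n := by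
    rw [← hg, ← hnk]; group
  have hx'S : k * x * k⁻¹ ∈ (S : Subgroup G) := by
    rw [hx']
    have hn' := (normalizer ((S : Subgroup G) : Set G)).inv_mem hn
    have := (Subgroup.mem_normalizer_iff.mp hn' y).mp hy
    rwa [inv_inv] at this
  have hNn : N.Normal := inferInstance
  have h1 : k * x * k⁻¹ * x⁻¹ ∈ N ⊓ (S : Subgroup G) := by
    refine ⟨?_, (S : Subgroup G).mul_mem hx'S ((S : Subgroup G).inv_mem hx)⟩
    have h2 : k * x * k⁻¹ * x⁻¹ = k * (x * k⁻¹ * x⁻¹) := by group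
    rw [h2]
    exact N.mul_mem hk (hNn.conj_mem _ (N.inv_mem hk) x)
  rw [hinf, Subgroup.mem_bot] at h1
  have h3 : k * x * k⁻¹ = x := by
    rw [mul_inv_eq_one] at h1
    exact h1
  rw [← hg, ← hnk]
  calc n * x * n⁻¹ = n * (k * x * k⁻¹) * n⁻¹ := by rw [h3]
    _ = n * k * x * (n * k)⁻¹ := by group

end Cfsg.Agent.Lib.H16ThNS
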