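import Cfsg.Agent.Lib.H16ThGDefs
import Cfsg.Agent.Lib.Helper66GY

set_option autoImplicit false

namespace Cfsg.Agent.Lib.H16ThRed

open Cfsg Subgroup Cfsg.Agent.Lib.H16ThDefs Cfsg.Agent.Lib.H16ThGDefs

theorem lift_inv {G : Type*} [Group G] [Finite G] (u : G ⧸ pPrimeCore 2 G) (hu1 : u ≠ 1)
    (hu2 : u ^ 2 = 1) : ∃ y : G, y ≠ 1 ∧ y ^ 2 = 1 ∧ (QuotientGroup.mk y : G ⧸ pPrimeCore 2 G) = u := by
  have hNcop : (Nat.card (pPrimeCore 2 G)).Coprime 2 :=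
    Cfsg.Agent.Lib.Helper14CoreB.card_pPrimeCore_coprime 2
  obtain ⟨x, rfl⟩ := QuotientGroup.mk_surjective u
  have hxN : x ^ 2 ∈ pPrimeCore 2 G := by
    rw [← QuotientGroup.eq_one_iff]
    exact hu2
  set m := orderOf (x ^ 2) with hm
  have hmdvd : m ∣ Nat.card (pPrimeCore 2 G) := by
    have h1 : orderOf (⟨x ^ 2, hxN⟩ : pPrimeCore 2 G) = m := by
      rw [hm, ← Subgroup.orderOf_coe]
    rw [← h1]
    exact orderOf_dvd_natCard _
  have hmodd : Odd m := by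
    rw [← Nat.not_even_iff_odd, even_iff_two_dvd]
    intro h2
    have := Nat.Coprime.eq_one_of_dvd hNcop.symm (h2.trans hmdvd)
    omega
  obtain ⟨c, hc⟩ := hmodd
  have hy : (QuotientGroup.mk (x ^ m) : G ⧸ pPrimeCore 2 G) = QuotientGroup.mk x := by
    rw [QuotientGroup.mk_pow, hc, pow_succ, pow_mul, hu2, one_pow, one_mul]
  refine ⟨x ^ m, ?_, ?_, hy⟩
  · intro h
    apply hu1
    rw [← hy, h]
    rfl
  · rw [← pow_mul, mul_comm, pow_mul, hm, pow_orderOf_eq_one]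

theorem red {G : Type*} [Group G] [Finite G] (S : Sylow 2 G)
    (htwo : ∃ x y : G, x ∈ (S : Subgroup G) ∧ y ∈ (S : Subgroup G) ∧ x ≠ y ∧ x ≠ 1 ∧ x ^ 2 = 1 ∧
      y ≠ 1 ∧ y ^ 2 = 1)
    (hconj : ∀ x y : G, x ≠ 1 → x ^ 2 = 1 → y ≠ 1 → y ^ 2 = 1 → IsConj x y) :
    (∀ x y : G ⧸ pPrimeCore 2 G, x ≠ 1 → x ^ 2 = 1 → y ≠ 1 → y ^ 2 = 1 → IsConj x y) ∧
    (∃ x y : G ⧸ pPrimeCore 2 G, x ≠ y ∧ x ≠ 1 ∧ x ^ 2 = 1 ∧ y ≠ 1 ∧ y ^ 2 = 1) := by
  have hNcop : (Nat.card (pPrimeCore 2 G)).Coprime 2 :=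
    Cfsg.Agent.Lib.Helper14CoreB.card_pPrimeCore_coprime 2
  -- an element of S in N is trivial
  have htriv : ∀ s ∈ (S : Subgroup G), s ∈ pPrimeCore 2 G → s = 1 := by
    intro s hs hsN
    obtain ⟨k, hk⟩ := S.isPGroup' ⟨s, hs⟩
    have hk' : s ^ 2 ^ k = 1 := by
      have := congrArg Subtype.val hk
      simpa using this
    have h1 : orderOf s ∣ 2 ^ k := orderOf_dvd_of_pow_eq_one hk'
    have h2 : orderOf s ∣ Nat.card (pPrimeCore 2 G) := by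
      have h3 : orderOf (⟨s, hsN⟩ : pPrimeCore 2 G) = orderOf s := by
        rw [← Subgroup.orderOf_coe]
      rw [← h3]
      exact orderOf_dvd_natCard _
    have h3 : (Nat.card (pPrimeCore 2 G)).Coprime (2 ^ k) := Nat.Coprime.pow_right k hNcop
    have h4 : orderOf s = 1 := Nat.eq_one_of_dvd_coprimes h3 h2 h1
    exact orderOf_eq_one_iff.1 h4
  constructor
  · intro x y hx1 hx2 hy1 hy2
    obtain ⟨a, ha1, ha2, rfl⟩ := lift_inv x hx1 hx2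
    obtain ⟨b, hb1, hb2, rfl⟩ := lift_inv y hy1 hy2
    obtain ⟨c, hc⟩ := isConj_iff.1 (hconj a b ha1 ha2 hb1 hb2)
    rw [isConj_iff]
    refine ⟨QuotientGroup.mk c, ?_⟩
    rw [← hc]
    rfl
  · obtain ⟨x, y, hxS, hyS, hxy, hx1, hx2, hy1, hy2⟩ := htwo
    refine ⟨QuotientGroup.mk x, QuotientGroup.mk y, ?_, ?_, ?_, ?_, ?_⟩
    · intro h
      rw [QuotientGroup.eq] at h
      have := htriv _ ((S : Subgroup G).mul_mem ((S : Subgroup G).inv_mem hxS) hyS) h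
      exact hxy (inv_mul_eq_one.1 this)
    · intro h
      exact hx1 (htriv x hxS ((QuotientGroup.eq_one_iff x).1 h))
    · rw [← QuotientGroup.mk_pow, hx2]; rfl
    · intro h
      exact hy1 (htriv y hyS ((QuotientGroup.eq_one_iff y).1 h))
    · rw [← QuotientGroup.mk_pow, hy2]; rfl

end Cfsg.Agent.Lib.H16ThRed
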