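import Cfsg.Agent.Lib.H16ThGDefs

set_option autoImplicit false

namespace Cfsg.Agent.Lib.H16ThY

open Cfsg Subgroup Cfsg.Agent.Lib.H16ThDefs Cfsg.Agent.Lib.H16ThGDefs

/-- PIECE Y (Mathlib only).  The automizer of `S`.
`Y :=` range of the homomorphism `normalizer S →* MulAut S`, `n ↦ (s ↦ n s n⁻¹)` (Mathlib:
`Subgroup.normalizerMonoidHom`, or `MulAut.conjNormal` for `S.subgroupOf (normalizer S)` transported, or build the `MulEquiv`s by
hand); it is solvable as a quotient of a subgroup of `G` (`solvable_of_surjective`, `solvable_of_solvable_injective`, now in the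
`Group.IsSolvable` spelling). -/
theorem exists_Y {G : Type*} [Group G] [Finite G] (hG : Group.IsSolvable G) (S : Subgroup G)
    (h : ∀ x ∈ S, ∀ y ∈ S, x ≠ 1 → x ^ 2 = 1 → y ≠ 1 → y ^ 2 = 1 →
      ∃ n ∈ normalizer (S : Set G), n * x * n⁻¹ = y) :
    ∃ Y : Subgroup (MulAut S), Group.IsSolvable Y ∧
      ∀ x y : S, x ≠ 1 → x ^ 2 = 1 → y ≠ 1 → y ^ 2 = 1 → ∃ a ∈ Y, a x = y := by
  have _ := hG
  refine ⟨S.normalizerMonoidHom.range, ?_, ?_⟩
  · exact Group.isSolvable_of_surjective (f := S.normalizerMonoidHom.rangeRestrict)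
      S.normalizerMonoidHom.rangeRestrict_surjective
  · intro x y hx1 hx2 hy1 hy2
    obtain ⟨n, hn, hnx⟩ := h x.1 x.2 y.1 y.2 (fun h => hx1 (Subtype.ext h))
      (congrArg Subtype.val hx2) (fun h => hy1 (Subtype.ext h)) (congrArg Subtype.val hy2)
    refine ⟨S.normalizerMonoidHom ⟨n, hn⟩, ⟨⟨n, hn⟩, rfl⟩, ?_⟩
    apply Subtype.ext
    exact hnx

end Cfsg.Agent.Lib.H16ThY
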