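import Mathlib
import Cfsg.Agent.Lib.Helper19WinDefs


set_option autoImplicit false

namespace Cfsg.Agent.Lib.H19WinArith

open Cfsg Cfsg.Agent.Lib.Helper19WinDefs

/-- PIECE Arith, part 1 (pure arithmetic, 20m).  If `r = p`: `good_of_dvd` (`p ∣ p ^ b`, `b ≥ 1`).  Otherwise `p ∣ r ^ b - r ^ c = r ^ c * (r ^ (b - c) - 1)` (`Nat.modEq_iff_dvd'`), `p ∤ r ^ c`, so `p ∣ r ^ (b - c) - 1`: take `q = r ^ (b - c)`, `q ≡ 1`. -/
theorem good_of_modEq (p r b c : ℕ) (hp : p.Prime) (hr : r.Prime) (hcb : c < b)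
    (h : r ^ b ≡ r ^ c [MOD p]) : Good p (r ^ b) := by
  by_cases hrp : r = p
  · subst hrp
    exact good_of_dvd hp (dvd_pow_self r (by omega))
  have hcop : Nat.gcd p (r ^ c) = 1 := Nat.Coprime.pow_right c ((Nat.coprime_primes hp hr).mpr (Ne.symm hrp))
  have h1 : r ^ c * r ^ (b - c) ≡ r ^ c * 1 [MOD p] := by
    rw [← pow_add, mul_one, Nat.add_sub_cancel' hcb.le]
    exact h
  have h2 := Nat.ModEq.cancel_left_of_coprime hcop h1
  refine ⟨r ^ (b - c), hr.isPrimePow.pow (by omega), pow_dvd_pow r (Nat.sub_le b c), Or.inr (Or.inr ?_)⟩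
  have := (Int.natCast_modEq_iff).mpr h2
  simpa using this

/-- PIECE Arith, part 2 (pure arithmetic, 30m).  `mC ∣ mC ^ 2 = r ^ k` so `mC = r ^ c` (`Nat.dvd_prime_pow`); `mD ∣ mC` (`Nat.pow_dvd_pow_iff`) so `mD = r ^ d`, `d < c`.  If `r = p`: `good_of_dvd`.  Otherwise `p ∣ r ^ (2c) - r ^ (2d) = r ^ (2d) * (r ^ (c-d) - 1) * (r ^ (c-d) + 1)`, so `p ∣ r ^ (c-d) - 1` or `p ∣ r ^ (c-d) + 1`: `q = r ^ (c - d) ≡ 1` or `≡ -1`, and `q ∣ mC`. -/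
theorem good_of_sq (p r k mC mD : ℕ) (hp : p.Prime) (hr : r.Prime) (hC : mC ^ 2 = r ^ k)
    (hD : mD ^ 2 ∣ mC ^ 2) (hlt : mD < mC) (h : mC ^ 2 ≡ mD ^ 2 [MOD p]) : Good p mC := by
  have hC1 : mC ∣ r ^ k := by rw [← hC]; exact dvd_pow_self mC (by norm_num)
  obtain ⟨c, -, rfl⟩ := (Nat.dvd_prime_pow hr).mp hC1
  have hD1 : mD ∣ r ^ c := (Nat.pow_dvd_pow_iff (by norm_num)).mp hD
  obtain ⟨d, -, rfl⟩ := (Nat.dvd_prime_pow hr).mp hD1
  have hdc : d < c := (Nat.pow_lt_pow_iff_right hr.one_lt).mp hlt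
  by_cases hrp : r = p
  · subst hrp
    exact good_of_dvd hp (dvd_pow_self r (by omega))
  have hcop : Nat.gcd p ((r ^ d) ^ 2) = 1 :=
    Nat.Coprime.pow_right 2 (Nat.Coprime.pow_right d ((Nat.coprime_primes hp hr).mpr (Ne.symm hrp)))
  have h1 : (r ^ d) ^ 2 * (r ^ (c - d)) ^ 2 ≡ (r ^ d) ^ 2 * 1 [MOD p] := by
    rw [← mul_pow, ← pow_add, mul_one, Nat.add_sub_cancel' hdc.le]
    exact h
  have h2 := Nat.ModEq.cancel_left_of_coprime hcop h1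
  have h3 := (Int.natCast_modEq_iff).mpr h2
  have h4 : (p : ℤ) ∣ (((r ^ (c - d) : ℕ) : ℤ) - 1) * (((r ^ (c - d) : ℕ) : ℤ) + 1) := by
    have := (Int.modEq_iff_dvd.mp h3.symm)
    push_cast at this ⊢
    convert this using 1
    ring
  have hpi : Prime (p : ℤ) := Nat.prime_iff_prime_int.mp hp
  refine ⟨r ^ (c - d), hr.isPrimePow.pow (by omega), pow_dvd_pow r (Nat.sub_le c d), ?_⟩
  rcases hpi.dvd_or_dvd h4 with h5 | h5
  · right; right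
    exact (Int.modEq_iff_dvd.mpr h5).symm
  · left
    apply Int.ModEq.symm
    rw [Int.modEq_iff_dvd, sub_neg_eq_add]
    exact h5

end Cfsg.Agent.Lib.H19WinArith
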