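import Mathlib
import Cfsg.Agent.Lib.Helper19WinDefs
import Cfsg.Agent.Lib.Helper19Util
import Cfsg.Agent.Lib.Helper19FR

set_option autoImplicit false

namespace Cfsg.Agent.Lib.H19WinRes

open Cfsg Cfsg.Agent.Lib.Helper19WinDefs

theorem res_eq_smul {N : Type*} [Group N] [Fintype N] {α : N → ℂ} (hα : IsCharacter N α)
    {θ : N → ℂ} (hθ : IsIrrCharacter N θ)
    (h : ∀ ξ : N → ℂ, IsIrrCharacter N ξ → classInner α ξ ≠ 0 → ξ = θ) :
    ∃ e : ℕ, α = (e : ℂ) • θ := by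
  classical
  obtain ⟨m, hm, hm'⟩ := Helper4Char4.IsCharacter.eq_sum_nat hα
  refine ⟨m ⟨θ, hθ⟩, ?_⟩
  conv_lhs => rw [hm]
  rw [Finset.sum_eq_single (⟨θ, hθ⟩ : IrrCharacter N)]
  · intro ξ _ hne
    have h0 : m ξ = 0 := by
      by_contra h0
      apply hne
      apply Subtype.ext
      exact h ξ ξ.2 (by rw [hm' ξ]; exact_mod_cast h0)
    rw [h0]; simp
  · intro hn
    exact absurd (Finset.mem_univ _) hn

theorem faithful_on {G : Type*} [Group G] [Fintype G] {χ : G → ℂ} (hχ : IsCharacter G χ)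
    (Z D : Subgroup G) [Fintype Z] [Fintype D] (hZD : Z ≤ D) (hh : Homog χ Z) (μ : D → ℂ)
    (hμ : Under χ D μ) (z : G) (hz : z ∈ Z) (h : μ ⟨z, hZD hz⟩ = μ 1) : χ z = χ 1 := by
  classical
  set ι₁ : Z →* D := Subgroup.inclusion hZD with hι₁
  have hμc : IsCharacter D μ := Helper4Char.IsIrrCharacter.isCharacter hμ.1
  have hμZ : IsCharacter Z (fun y : Z => μ (ι₁ y)) := Helper82Quot.isCharacter_comp hμc ι₁
  have hχZ : IsCharacter Z (fun y : Z => χ y) := Helper82Quot.isCharacter_comp hχ Z.subtype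
  obtain ⟨d, hd0, hd⟩ := Helper4Char2.IsIrrCharacter.exists_degree hμ.1
  have hμ1 : μ 1 ≠ 0 := by rw [hd]; exact_mod_cast hd0.ne'
  obtain ⟨l, hl, hl0⟩ := Helper19Util.exists_constituent' hμZ (by
    show μ (ι₁ 1) ≠ 0
    rw [map_one]; exact hμ1)
  have hunder : ∀ ξ : Z → ℂ, IsIrrCharacter Z ξ → classInner (fun y : Z => μ (ι₁ y)) ξ ≠ 0 →
      Under χ Z ξ := by
    intro ξ hξ hξ0
    exact ⟨hξ, Helper19FR.over_trans D.subtype ι₁ hχ hμ.1 hξ hμ.2 hξ0⟩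
  have hlU := hunder l hl hl0
  obtain ⟨e', he'⟩ := res_eq_smul hμZ hl (fun ξ hξ hξ0 => hh ξ l (hunder ξ hξ hξ0) hlU)
  obtain ⟨e, he⟩ := res_eq_smul hχZ hl (fun ξ hξ hξ0 => hh ξ l ⟨hξ, hξ0⟩ hlU)
  have h1 := congrFun he' ⟨z, hz⟩
  have h2 := congrFun he' 1
  simp only [Pi.smul_apply, smul_eq_mul] at h1 h2
  have e1 : ι₁ ⟨z, hz⟩ = ⟨z, hZD hz⟩ := rfl
  rw [e1, h] at h1
  rw [map_one] at h2
  have he0 : (e' : ℂ) ≠ 0 := by
    intro h0
    rw [h0, zero_mul] at h2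
    exact hμ1 h2
  have hlz : l ⟨z, hz⟩ = l 1 := mul_left_cancel₀ he0 (h1.symm.trans h2)
  have h3 := congrFun he ⟨z, hz⟩
  have h4 := congrFun he 1
  simp only [Pi.smul_apply, smul_eq_mul] at h3 h4
  have h5 : χ ((1 : Z) : G) = χ 1 := rfl
  rw [← h5, h4, ← hlz, ← h3]

end Cfsg.Agent.Lib.H19WinRes
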