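import Mathlib
import Cfsg.Agent.Lib.Helper19WinDefs
import Cfsg.Agent.Lib.Helper19Util
import Cfsg.Agent.Lib.Helper82Linear
import Cfsg.Agent.Lib.Helper83Char
import Cfsg.Agent.Lib.H19WinRes

set_option autoImplicit false

namespace Cfsg.Agent.Lib.H19WinCen

open Cfsg Cfsg.Agent.Lib.Helper19WinDefs

/-- PIECE Cen (characters): an abelian normal subgroup on which a faithful irreducible character is
homogeneous is central. -/
theorem central_of_abelian {G : Type*} [Group G] [Fintype G] {χ : G → ℂ}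
    (hχ : IsIrrCharacter G χ) (hfaith : ∀ g : G, χ g = χ 1 → g = 1) (A : Subgroup G) [A.Normal]
    [Fintype A] (hA : ∀ a ∈ A, ∀ b ∈ A, a * b = b * a) (hh : Homog χ A) :
    A ≤ Subgroup.center G := by
  classical
  have hχc : IsCharacter G χ := Cfsg.Agent.Lib.Helper83Char.isCharacter_of_irr hχ
  have hres : IsCharacter A (fun a : A => χ a) :=
    Cfsg.Agent.Lib.Helper82Quot.isCharacter_comp hχc A.subtype
  have h10 : χ 1 ≠ 0 := Cfsg.Agent.Lib.Helper83Char.irr_one_ne_zero hχ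
  obtain ⟨l, hl, hl0⟩ := Cfsg.Agent.Lib.Helper19Util.exists_constituent' hres (by simpa using h10)
  obtain ⟨e, he⟩ := Cfsg.Agent.Lib.H19WinRes.res_eq_smul hres hl
    (fun ξ hξ hξ0 => hh ξ l ⟨hξ, hξ0⟩ ⟨hl, hl0⟩)
  have hev : ∀ a : A, χ a = (e : ℂ) * l a := fun a => by
    have := congrFun he a
    simpa using this
  have he0 : (e : ℂ) ≠ 0 := by
    intro h0
    apply h10
    have := hev 1
    rw [h0, zero_mul] at this
    simpa using this
  haveI : IsMulCommutative A :=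
    ⟨⟨fun a b => Subtype.ext (hA a a.2 b b.2)⟩⟩
  have hl1 : l 1 = 1 := Cfsg.Agent.Lib.Helper83Char.irr_one_of_comm hl
  have hmul : ∀ a b : A, l (a * b) = l a * l b :=
    fun a b => Cfsg.Agent.Lib.Helper82Linear.irr_linear_mul ⟨l, hl⟩ hl1 a b
  intro a ha
  rw [Subgroup.mem_center_iff]
  intro g
  have hn : g * a * g⁻¹ ∈ A := Subgroup.Normal.conj_mem inferInstance a ha g
  have hinv : l ⟨g * a * g⁻¹, hn⟩ = l ⟨a, ha⟩ := by
    have e1 := hev ⟨g * a * g⁻¹, hn⟩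
    have e2 := hev ⟨a, ha⟩
    have e3 : χ (g * a * g⁻¹) = χ a := Cfsg.Agent.Lib.Helper83Char.irr_class hχ a g
    simp only at e1 e2
    rw [e3, e2] at e1
    exact (mul_left_cancel₀ he0 e1).symm
  have hc : l (⟨g * a * g⁻¹, hn⟩ * (⟨a, ha⟩ : A)⁻¹) = 1 := by
    rw [hmul, hinv, ← hmul, mul_inv_cancel, hl1]
  have hχc1 : χ (g * a * g⁻¹ * a⁻¹) = χ 1 := by
    have e1 := hev (⟨g * a * g⁻¹, hn⟩ * (⟨a, ha⟩ : A)⁻¹)
    have e2 := hev 1
    rw [hc] at e1
    rw [hl1] at e2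
    simp only [Subgroup.coe_mul, Subgroup.coe_inv, Subgroup.coe_one] at e1 e2
    rw [e1, e2]
  have := hfaith _ hχc1
  rw [mul_inv_eq_one, mul_inv_eq_iff_eq_mul] at this
  exact this

end Cfsg.Agent.Lib.H19WinCen
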