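import Mathlib
import Cfsg.Agent.Lib.Helper19WinDefs


set_option autoImplicit false

namespace Cfsg.Agent.Lib.H19WinChar

open Cfsg Cfsg.Agent.Lib.Helper19WinDefs

/-- PIECE Char (pure Mathlib group theory, 15m).
`S := P.subtype hPN : Sylow p N` has coercion `P.subgroupOf N`; `Sylow.characteristic_of_normal S h`; `ConjAct.normal_of_characteristic_of_normal`; `Subgroup.map_subgroupOf_eq_of_le hPN`. -/
theorem normal_of_subgroupOf_normal {G : Type*} [Group G] [Finite G] (p : ℕ) [Fact p.Prime]
    (P : Sylow p G) (N : Subgroup G) [N.Normal] (hPN : (P : Subgroup G) ≤ N)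
    (h : ((P : Subgroup G).subgroupOf N).Normal) : (P : Subgroup G).Normal := by
  have hchar : ((P.subtype hPN : Sylow p N) : Subgroup N).Characteristic :=
    Sylow.characteristic_of_normal _ h
  have hchar' : ((P : Subgroup G).subgroupOf N).Characteristic := hchar
  have := ConjAct.normal_of_characteristic_of_normal (H := N) (K := (P : Subgroup G).subgroupOf N)
  rwa [Subgroup.map_subgroupOf_eq_of_le hPN] at this

end Cfsg.Agent.Lib.H19WinChar
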