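import Mathlib
import Cfsg.Agent.Lib.Helper19WinDefs


set_option autoImplicit false

namespace Cfsg.Agent.Lib.H19WinExX

open Cfsg Cfsg.Agent.Lib.Helper19WinDefs

/-- PIECE ExX (pure Mathlib group theory, 45m).
Suppose not: every `x ∈ P` satisfies `x * m * x⁻¹ * m⁻¹ ∈ L` for all `m ∈ M`.  `π = QuotientGroup.mk' L`; `C = (Subgroup.centralizer (M.map π : Set (G ⧸ L))).comap π` is normal (centralizer of a normal subgroup is normal) and contains `P`, so `C = ⊤` by `hcl`: every `g : G` satisfies `g * m * g⁻¹ * m⁻¹ ∈ L` for `m ∈ M`.  Then `M` normalizes `T`: for `t ∈ T`, `m ∈ M`: `m * t * m⁻¹ = (t * m * t⁻¹ * m⁻¹)⁻¹ * t`... (a product of an element of `L ≤ T` and `t`).  So the normalizer of `T` contains `M ⊔ T = ⊤` and `T` is normal.  As `p ∤ T.index`, `P ≤ T` (the image of `P` in `G ⧸ T` is a `p`-group of order dividing `T.index`; or `Sylow`/`IsPGroup` lemmas such as `IsPGroup.le_of_...`, `Subgroup.relIndex`: `T.relIndex P`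 divides `T.index` and is a power of `p`, so is `1`, `Subgroup.relIndex_eq_one`).  Then `T = ⊤` by `hcl`, contradiction. -/
theorem exists_x {G : Type*} [Group G] [Finite G] (p : ℕ) [Fact p.Prime] (P : Sylow p G)
    (hcl : ∀ N : Subgroup G, N.Normal → (P : Subgroup G) ≤ N → N = ⊤)
    (L M T : Subgroup G) [L.Normal] [M.Normal] (hLT : L ≤ T) (hT : T ≠ ⊤) (hMT : M ⊔ T = ⊤)
    (hidx : ¬ p ∣ T.index) :
    ∃ x ∈ (P : Subgroup G), ∃ m ∈ M, x * m * x⁻¹ * m⁻¹ ∉ L := by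
  have hpp : p.Prime := Fact.out
  by_contra hcon
  push Not at hcon
  have hMn : (M.map (QuotientGroup.mk' L)).Normal :=
    Subgroup.Normal.map inferInstance _ (QuotientGroup.mk'_surjective L)
  have hmemC : ∀ g : G, g ∈ (Subgroup.centralizer
      ((M.map (QuotientGroup.mk' L) : Subgroup (G ⧸ L)) : Set (G ⧸ L))).comap (QuotientGroup.mk' L) ↔
      ∀ m ∈ M, g * m * g⁻¹ * m⁻¹ ∈ L := by
    intro g
    rw [Subgroup.mem_comap, Subgroup.mem_centralizer_iff]
    constructor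
    · intro h m hm
      have h1 := h _ (Subgroup.mem_map_of_mem _ hm)
      rw [← QuotientGroup.eq_one_iff]
      have h2 : ((g * m * g⁻¹ * m⁻¹ : G) : G ⧸ L) = (QuotientGroup.mk' L) g * (QuotientGroup.mk' L) m *
          ((QuotientGroup.mk' L) g)⁻¹ * ((QuotientGroup.mk' L) m)⁻¹ := rfl
      rw [h2, ← h1]
      group
    · rintro h _ ⟨m, hm, rfl⟩
      have h1 := (QuotientGroup.eq_one_iff (N := L) _).2 (h m hm)
      have h2 : ((g * m * g⁻¹ * m⁻¹ : G) : G ⧸ L) = (QuotientGroup.mk' L) g * (QuotientGroup.mk' L) m *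
          ((QuotientGroup.mk' L) g)⁻¹ * ((QuotientGroup.mk' L) m)⁻¹ := rfl
      rw [h2, mul_inv_eq_one, mul_inv_eq_iff_eq_mul] at h1
      exact h1.symm
  have hCtop := hcl _ (Subgroup.Normal.comap inferInstance (QuotientGroup.mk' L))
    (fun x hx => (hmemC x).2 (hcon x hx))
  have hall : ∀ g : G, ∀ m ∈ M, g * m * g⁻¹ * m⁻¹ ∈ L := by
    intro g
    rw [← hmemC, hCtop]
    exact Subgroup.mem_top g
  have hMT' : ∀ m ∈ M, ∀ t ∈ T, m * t * m⁻¹ ∈ T := by
    intro m hm t ht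
    have h1 := hLT (L.inv_mem (hall t m hm))
    have h2 := T.mul_mem h1 ht
    have h3 : (t * m * t⁻¹ * m⁻¹)⁻¹ * t = m * t * m⁻¹ := by group
    rwa [h3] at h2
  have hTn : T.Normal := by
    constructor
    intro t ht g
    have hg : g ∈ M ⊔ T := by rw [hMT]; exact Subgroup.mem_top g
    rw [Subgroup.mem_sup_of_normal_left] at hg
    obtain ⟨m, hm, t', ht', rfl⟩ := hg
    have h1 := hMT' m hm _ (T.mul_mem (T.mul_mem ht' ht) (T.inv_mem ht'))
    have h2 : m * (t' * t * t'⁻¹) * m⁻¹ = m * t' * t * (m * t')⁻¹ := by group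
    rwa [h2] at h1
  apply hT
  apply hcl T hTn
  intro x hx
  obtain ⟨k, hk⟩ := P.2 ⟨x, hx⟩
  have hk' : x ^ p ^ k = 1 := by simpa using congrArg Subtype.val hk
  rw [← QuotientGroup.eq_one_iff]
  have h1 : ((x : G) : G ⧸ T) ^ T.index = 1 := by
    rw [← QuotientGroup.mk_pow, QuotientGroup.eq_one_iff]
    exact T.pow_index_mem x
  have h2 : ((x : G) : G ⧸ T) ^ p ^ k = 1 := by
    rw [← QuotientGroup.mk_pow, hk']; rfl
  have h3 := pow_gcd_eq_one.2 ⟨h1, h2⟩
  have h4 : Nat.gcd T.index (p ^ k) = 1 :=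
    Nat.Coprime.pow_right k ((Nat.Prime.coprime_iff_not_dvd hpp).2 hidx).symm
  rwa [h4, pow_one] at h3

end Cfsg.Agent.Lib.H19WinExX
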