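import Mathlib
import Cfsg.Agent.Lib.Helper19WinDefs
import Cfsg.Agent.Lib.Helper83Extra
import Cfsg.Agent.Lib.Helper82Irr

set_option autoImplicit false

namespace Cfsg.Agent.Lib.H19WinFR

open Cfsg Cfsg.Agent.Lib.Helper19WinDefs
open Cfsg.Agent.Lib.Helper83Char Cfsg.Agent.Lib.Helper83Extra
open scoped ComplexConjugate

/-- PIECE FR (characters): a fully ramified character, `|D : Z| = μ(1)²`. -/
theorem card_eq_sq {D : Type*} [Group D] [Finite D] (Z : Subgroup D)
    (hZ : Z ≤ Subgroup.center D) (μ : D → ℂ) (hμ : IsIrrCharacter D μ) (m : ℕ) (hm : μ 1 = m)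
    (hv : ∀ u, u ∉ Z → ∃ v, u * v * u⁻¹ * v⁻¹ ∈ Z ∧ μ (u * v * u⁻¹ * v⁻¹) ≠ μ 1) :
    Nat.card D = m ^ 2 * Nat.card Z := by
  classical
  haveI : Fintype D := Fintype.ofFinite D
  have hvan : ∀ u, u ∉ Z → μ u = 0 := by
    intro u hu
    by_contra hne
    obtain ⟨v, hvZ, hvne⟩ := hv u hu
    obtain ⟨c, hc⟩ := central_scalar hμ _ (hZ hvZ)
    have h1 : μ (u * v * u⁻¹ * v⁻¹ * (v * u * v⁻¹)) = μ u := by
      congr 1
      group
    have h2 : μ (v * u * v⁻¹) = μ u := irr_class hμ u v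
    rw [hc, h2] at h1
    have hc1 : c = 1 := mul_right_cancel₀ hne (h1.trans (one_mul _).symm)
    apply hvne
    have := hc 1
    rwa [mul_one, hc1, one_mul] at this
  have hG : (Nat.card D : ℂ) ≠ 0 := by exact_mod_cast Nat.card_pos.ne'
  have h1 := Helper83Char.classInner_irr_self hμ
  rw [Cfsg.classInner] at h1
  have h2 : ∑ g : D, μ g * conj (μ g) = (Nat.card D : ℂ) := by
    field_simp at h1
    exact h1
  have h3 : ∑ g : D, μ g * conj (μ g) = ∑ z : Z, μ z * conj (μ z) := by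
    rw [sum_subgroup Z (fun g => μ g * conj (μ g))]
    refine Finset.sum_congr rfl fun g _ => ?_
    split_ifs with hg
    · rfl
    · rw [hvan g hg, zero_mul]
  have h4 : ∀ z : Z, μ z * conj (μ z) = μ 1 * μ 1 := by
    intro z
    obtain ⟨c, hc⟩ := central_scalar hμ z (hZ z.2)
    rw [← irr_inv hμ]
    have e1 := hc 1
    have e2 := hc (z : D)⁻¹
    rw [mul_one] at e1
    rw [mul_inv_cancel] at e2
    rw [e1, mul_right_comm, ← e2]
  simp_rw [h4] at h3
  rw [Finset.sum_const, Finset.card_univ, nsmul_eq_mul, ← Nat.card_eq_fintype_card, h2, hm] at h3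
  have h5 : Nat.card D = Nat.card Z * (m * m) := by exact_mod_cast h3
  rw [h5]
  ring

end Cfsg.Agent.Lib.H19WinFR
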