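import Mathlib
import Cfsg.Agent.Lib.Helper19WinDefs
import Cfsg.Agent.Lib.Helper12Card


set_option autoImplicit false

namespace Cfsg.Agent.Lib.H19WinInf

open Cfsg Cfsg.Agent.Lib.Helper19WinDefs
open scoped Pointwise

/-- PIECE Inf (pure Mathlib group theory, 40m).
Normality: the normalizer of `M ⊓ T` contains `M` (for `m ∈ M`, `y ∈ M ⊓ T`: `m * y * m⁻¹ = (m * y * m⁻¹ * y⁻¹) * y` with the commutator in `N ≤ M ⊓ T`) and `T` (`M` is normal), so it is `M ⊔ T = ⊤`.
Index: every `g : G` is `m * t` (`Subgroup.mem_sup_of_normal_left`-type lemma from `hMT`), so `T.index = T.relIndex M = (M ⊓ T).relIndex M` (`Subgroup.inf_relIndex_left/right`; the first equality is `Cfsg.Agent.Lib.Helper19FR2.index_eq_relIndex` (landed; `I.index = I.relIndex S` if every `n = s * i`), which you may import or copy). -/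
theorem inf_normal {G : Type*} [Group G] [Finite G] (N M T : Subgroup G) [N.Normal] [M.Normal]
    (hNM : N ≤ M) (hab : ∀ a ∈ M, ∀ b ∈ M, a * b * a⁻¹ * b⁻¹ ∈ N) (hNT : N ≤ T)
    (hMT : M ⊔ T = ⊤) : (M ⊓ T).Normal ∧ T.index = (M ⊓ T).relIndex M := by
  have hprod : ∀ g : G, ∃ m ∈ M, ∃ t ∈ T, m * t = g := by
    intro g
    have hg : g ∈ M ⊔ T := by rw [hMT]; exact Subgroup.mem_top g
    rwa [Subgroup.mem_sup_of_normal_left] at hg
  refine ⟨⟨fun y hy g => ?_⟩, ?_⟩
  · obtain ⟨m, hm, t, ht, rfl⟩ := hprod g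
    have hy' : t * y * t⁻¹ ∈ M ⊓ T :=
      ⟨‹M.Normal›.conj_mem y hy.1 t, T.mul_mem (T.mul_mem ht hy.2) (T.inv_mem ht)⟩
    have hc := hab m hm _ hy'.1
    have hc' : m * (t * y * t⁻¹) * m⁻¹ * (t * y * t⁻¹)⁻¹ ∈ M ⊓ T := ⟨hNM hc, hNT hc⟩
    have := (M ⊓ T).mul_mem hc' hy'
    rw [inv_mul_cancel_right] at this
    convert this using 1
    simp only [mul_inv_rev, mul_assoc]
  · rw [Subgroup.inf_relIndex_left]
    have h1 : ((M : Set G) * (T : Set G) : Set G) = Set.univ := by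
      rw [Set.eq_univ_iff_forall]
      intro n
      obtain ⟨s, hs, i, hi, rfl⟩ := hprod n
      exact Set.mul_mem_mul hs hi
    have h2 := Cfsg.Agent.Lib.Helper12Card.card_mul_set M T
    rw [h1, Nat.card_univ, ← T.card_mul_index] at h2
    exact Nat.eq_of_mul_eq_mul_left Nat.card_pos h2

end Cfsg.Agent.Lib.H19WinInf
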