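import Mathlib
import Cfsg.Agent.Lib.Helper19WinDefs


set_option autoImplicit false

namespace Cfsg.Agent.Lib.H19WinQuot

open Cfsg Cfsg.Agent.Lib.Helper19WinDefs

/-- PIECE Quot (pure Mathlib group theory, 30m).
`D = ⨅ i, S ⊔ K i` is normal (`Subgroup.normal_iInf_normal`) and contains `S`.  `D` is a `p`-group: let `d ∈ D`, `m = Nat.card S = p ^ a`.  For each `i`, `d ∈ S ⊔ K i`, so `d = s * k` with `s ∈ S`, `k ∈ K i` (`Subgroup.mem_sup_of_normal_right` / `Subgroup.mul_normal`), hence in `N ⧸ K i` the image of `d ^ m` is the image of `s ^ m = 1`, i.e. `d ^ m ∈ K i`.  By `hint`, `d ^ m = 1`.  So `IsPGroup p D` and `S.is_maximal'` gives `D = S`. -/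
theorem sylow_normal_of_quot {N : Type*} [Group N] [Finite N] (p : ℕ) [Fact p.Prime]
    (S : Sylow p N) {ι : Type*} (K : ι → Subgroup N) (hK : ∀ i, (K i).Normal)
    (hint : ∀ x : N, (∀ i, x ∈ K i) → x = 1)
    (h : ∀ i, ((S : Subgroup N) ⊔ K i).Normal) : (S : Subgroup N).Normal := by
  have hDn : (⨅ i, (S : Subgroup N) ⊔ K i).Normal := Subgroup.normal_iInf_normal h
  have hSD : (S : Subgroup N) ≤ ⨅ i, (S : Subgroup N) ⊔ K i := le_iInf fun i => le_sup_left
  have hDp : IsPGroup p (⨅ i, (S : Subgroup N) ⊔ K i : Subgroup N) := by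
    obtain ⟨a, ha⟩ := IsPGroup.iff_card.mp S.isPGroup'
    rintro ⟨d, hd⟩
    refine ⟨a, Subtype.ext ?_⟩
    show d ^ p ^ a = 1
    apply hint
    intro i
    have hdi : d ∈ (S : Subgroup N) ⊔ K i := (Subgroup.mem_iInf.mp hd) i
    haveI := hK i
    rw [Subgroup.mem_sup_of_normal_right] at hdi
    obtain ⟨s, hs, k, hk, rfl⟩ := hdi
    have hs1 : s ^ p ^ a = 1 := by
      rw [← ha]
      have := pow_card_eq_one' (x := (⟨s, hs⟩ : (S : Subgroup N)))
      exact congrArg Subtype.val this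
    rw [← QuotientGroup.eq_one_iff, QuotientGroup.mk_pow, QuotientGroup.mk_mul,
      (QuotientGroup.eq_one_iff k).mpr hk, mul_one, ← QuotientGroup.mk_pow, hs1]
    rfl
  have := S.is_maximal' hDp hSD
  rw [← this]
  exact hDn

end Cfsg.Agent.Lib.H19WinQuot
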