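import Mathlib
import Cfsg.Agent.Lib.Helper19WinDefs
import Cfsg.Agent.Lib.Helper19Util

set_option autoImplicit false

namespace Cfsg.Agent.Lib.H19WinTop

open Cfsg Cfsg.Agent.Lib.Helper19WinDefs

theorem homog_top {G : Type*} [Group G] [Fintype G] {χ : G → ℂ} (hχ : IsIrrCharacter G χ)
    [Fintype (⊤ : Subgroup G)] : Homog χ (⊤ : Subgroup G) := by
  have hirr : IsIrrCharacter (⊤ : Subgroup G) (fun x : (⊤ : Subgroup G) => χ x) :=
    Helper82Quot.isIrrCharacter_comp hχ (⊤ : Subgroup G).subtype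
      (fun g => ⟨⟨g, Subgroup.mem_top g⟩, rfl⟩)
  have key : ∀ θ : (⊤ : Subgroup G) → ℂ, Under χ (⊤ : Subgroup G) θ →
      θ = fun x : (⊤ : Subgroup G) => χ x := by
    intro θ hθ
    by_contra hne
    exact hθ.2 (Helper4Char.classInner_irr_ne hirr hθ.1 (fun h => hne h.symm))
  intro θ₁ θ₂ h1 h2
  rw [key θ₁ h1, key θ₂ h2]

theorem eq_of_forall_under {G : Type*} [Group G] [Fintype G] {χ : G → ℂ} (hχ : IsCharacter G χ)
    (N : Subgroup G) [Fintype N] (x : N) (h : ∀ η : N → ℂ, Under χ N η → η x = η 1) :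
    χ x = χ 1 := by
  classical
  have hres : IsCharacter N (fun y : N => χ y) := Helper82Quot.isCharacter_comp hχ N.subtype
  obtain ⟨m, hm, hm'⟩ := Helper4Char4.IsCharacter.eq_sum_nat hres
  have h1 := congrFun hm x
  have h2 := congrFun hm 1
  simp only [Finset.sum_apply, Pi.smul_apply, smul_eq_mul] at h1 h2
  have h3 : χ ((1 : N) : G) = χ 1 := rfl
  rw [← h3, h1, h2]
  apply Finset.sum_congr rfl
  intro ξ _
  by_cases hξ : m ξ = 0
  · rw [hξ]; simp
  · rw [h ξ ⟨ξ.2, by rw [hm' ξ]; exact_mod_cast hξ⟩]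

end Cfsg.Agent.Lib.H19WinTop
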