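import Mathlib
import Cfsg.Agent.Lib.Helper19WinDefs
import Cfsg.Agent.Lib.H19WinQuot
import Cfsg.Agent.Lib.H19WinChar
import Cfsg.Agent.Lib.H19WinTop
import Cfsg.Agent.Lib.Helper82Quot
import Cfsg.Agent.S0887

set_option autoImplicit false

namespace Cfsg.Agent.Lib.H19WinRed1

open Cfsg Cfsg.Agent.Lib.Helper19WinDefs

universe u

/-- PIECE Red1 (assembly from the stubs Quot Char Top + landed `Helper82Quot`, `S0887`, 90m): if a proper normal subgroup `N` contains `P`, induction applies.
By contradiction assume `¬ Good p n`.  `S = P.subtype hPN : Sylow p N`.  For every `η` with `Under χ N η`: `η 1 = m` (`IsIrrCharacter.exists_degree`), `m ∣ n` (`Cfsg.Agent.S0887.result N χ hχ η _ _ n m hn _`).  `K = Helper82Quot.charKer (IsIrrCharacter.isCharacter η.1)` is normal in `N`; `Helper82Quot.exists_deflate K ⟨η, _⟩` gives `ψ` irreducible on `N ⧸ K` with `ψ (x : N ⧸ K) = η x`; it is faithful (`ψ x̄ = ψ 1 → η x = η 1 → x ∈ K`).  `Nat.card (N ⧸ K) ≤ Nat.card N < Nat.card G`; `N ⧸ K` is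 solvable.  `IH` applied to `S.mapSurjective (QuotientGroup.mk'_surjective K)` shows (as `Good p m` would give `Good p n`) that `(S : Subgroup N).map (QuotientGroup.mk' K)` is normal; its comap is `S ⊔ K` (`Subgroup.comap_map_eq`, `QuotientGroup.ker_mk'`), normal.
`H19WinQuot.sylow_normal_of_quot p S (ι := {η // Under χ N η}) (fun η => charKer _)`; `hint`: if `η x = η 1` for all `η` then `χ x = χ 1` (`H19WinTop.eq_of_forall_under`), so `x = 1` by `hfaith`.  So `S` is normal in `N`, `H19WinChar.normal_of_subgroupOf_normal` contradicts `hP`. -/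
theorem red1 {G : Type u} [Group G] [Fintype G] (p : ℕ) [Fact p.Prime]
    (IH : ∀ (H : Type u) [Group H] [Finite H], Nat.card H < Nat.card G → Group.IsSolvable H →
      ∀ ψ : H → ℂ, IsIrrCharacter H ψ → (∀ g : H, ψ g = ψ 1 → g = 1) → ∀ m : ℕ, ψ 1 = m →
      ∀ S : Sylow p H, ¬ (S : Subgroup H).Normal → Good p m)
    (hs : Group.IsSolvable G) {χ : G → ℂ} (hχ : IsIrrCharacter G χ)
    (hfaith : ∀ g : G, χ g = χ 1 → g = 1) (n : ℕ) (hn : χ 1 = n)
    (P : Sylow p G) (hP : ¬ (P : Subgroup G).Normal)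
    (N : Subgroup G) [N.Normal] (hN : N ≠ ⊤) (hPN : (P : Subgroup G) ≤ N) : Good p n := by
  classical
  by_contra hbad
  have : Fintype N := Fintype.ofFinite N
  have hsol : Group.IsSolvable G := hs
  have hcardN : Nat.card N < Nat.card G :=
    lt_of_le_of_ne (Subgroup.card_le_card_group N) (fun h => hN ((Subgroup.card_eq_iff_eq_top N).1 h))
  have hchar : ∀ η : N → ℂ, Under χ N η → IsCharacter N η := fun η hη =>
    Cfsg.Agent.Lib.Helper4Char.IsIrrCharacter.isCharacter hη.1
  have key : ∀ (η : N → ℂ) (hη : Under χ N η),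
      (((P.subtype hPN : Sylow p N) : Subgroup N) ⊔ Helper82Quot.charKer (hchar η hη)).Normal := by
    intro η hη
    obtain ⟨m, -, hm⟩ := Cfsg.Agent.Lib.Helper4Char2.IsIrrCharacter.exists_degree hη.1
    have hmn : m ∣ n := (Cfsg.Agent.S0887.result N χ hχ η hη.1 hη.2 n m hn hm).1
    obtain ⟨ψ, hψ⟩ := Helper82Quot.exists_deflate (Helper82Quot.charKer (hchar η hη)) ⟨η, hη.1⟩
      (fun x hx => hx)
    have hval : ∀ x : N, (ψ : N ⧸ Helper82Quot.charKer (hchar η hη) → ℂ)
        (x : N ⧸ Helper82Quot.charKer (hchar η hη)) = η x :=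
      fun x => congrFun (congrArg Subtype.val hψ) x
    have hone : (ψ : N ⧸ Helper82Quot.charKer (hchar η hη) → ℂ) 1 = η 1 := hval 1
    have hf : ∀ g : N ⧸ Helper82Quot.charKer (hchar η hη),
        (ψ : N ⧸ Helper82Quot.charKer (hchar η hη) → ℂ) g =
          (ψ : N ⧸ Helper82Quot.charKer (hchar η hη) → ℂ) 1 → g = 1 := by
      intro g hg
      obtain ⟨x, rfl⟩ := QuotientGroup.mk_surjective g
      rw [hval, hone] at hg
      exact (QuotientGroup.eq_one_iff x).2 hg
    have hcard : Nat.card (N ⧸ Helper82Quot.charKer (hchar η hη)) < Nat.card G :=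
      lt_of_le_of_lt (Nat.le_of_dvd Nat.card_pos (Subgroup.card_quotient_dvd_card _)) hcardN
    have hnorm : ((Sylow.mapSurjective (QuotientGroup.mk'_surjective
        (Helper82Quot.charKer (hchar η hη))) (P.subtype hPN) :
        Sylow p (N ⧸ Helper82Quot.charKer (hchar η hη))) :
        Subgroup (N ⧸ Helper82Quot.charKer (hchar η hη))).Normal := by
      by_contra hnn
      exact hbad ((IH _ hcard inferInstance ψ ψ.2 hf m (hone.trans hm) _ hnn).mono hmn)
    rw [Sylow.coe_mapSurjective] at hnorm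
    have h2 := hnorm.comap (QuotientGroup.mk' (Helper82Quot.charKer (hchar η hη)))
    rwa [Subgroup.comap_map_eq, QuotientGroup.ker_mk'] at h2
  have hS : ((P.subtype hPN : Sylow p N) : Subgroup N).Normal := by
    refine H19WinQuot.sylow_normal_of_quot p (P.subtype hPN) (ι := {η : N → ℂ // Under χ N η})
      (fun η => Helper82Quot.charKer (hchar η.1 η.2)) (fun η => inferInstance) ?_
      (fun η => key η.1 η.2)
    intro x hx
    have h1 : χ x = χ 1 := H19WinTop.eq_of_forall_under
      (Cfsg.Agent.Lib.Helper4Char.IsIrrCharacter.isCharacter hχ) N x (fun η hη => hx ⟨η, hη⟩)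
    exact Subtype.ext (hfaith _ h1)
  rw [Sylow.coe_subtype] at hS
  exact hP (H19WinChar.normal_of_subgroupOf_normal p P N hPN hS)

end Cfsg.Agent.Lib.H19WinRed1
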