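import Mathlib
import Cfsg.Agent.Lib.Helper19WinDefs
import Cfsg.Agent.Lib.H19WinGrp2
import Cfsg.Agent.Lib.H19WinSect
import Cfsg.Agent.Lib.H19WinT
import Cfsg.Agent.Lib.H19WinTop

set_option autoImplicit false

namespace Cfsg.Agent.Lib.H19WinStep2

open Cfsg Cfsg.Agent.Lib.Helper19WinDefs

theorem homog_inst {G : Type*} [Group G] (χ : G → ℂ) (N : Subgroup G) (i1 i2 : Fintype N) :
    @Homog G _ χ N i1 ↔ @Homog G _ χ N i2 := by
  rw [Subsingleton.elim i1 i2]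

/-- PIECE Step2: the case where some normal subgroup is not homogeneous. -/
theorem step2 {G : Type*} [Group G] [Fintype G] (p : ℕ) [Fact p.Prime]
    (hs : Group.IsSolvable G) {χ : G → ℂ} (hχ : IsIrrCharacter G χ) (n : ℕ) (hn : χ 1 = n)
    (P : Sylow p G) (hcl : ∀ N : Subgroup G, N.Normal → (P : Subgroup G) ≤ N → N = ⊤)
    (N₀ : Subgroup G) [Fintype N₀] (hN₀ : N₀.Normal) (hnh : ¬ Homog χ N₀) : Good p n := by
  classical
  let s : Set (Subgroup G) := {N | N.Normal ∧ ¬ @Homog G _ χ N (Fintype.ofFinite N)}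
  have h0 : N₀ ∈ s := ⟨hN₀, fun h => hnh ((homog_inst χ N₀ _ _).1 h)⟩
  obtain ⟨N, -, hmax⟩ := (Set.toFinite s).exists_le_maximal h0
  have hN : N ∈ s := hmax.prop
  have hNn : N.Normal := hN.1
  have hNtop : N ≠ ⊤ := by
    intro h
    apply hN.2
    rw [h]
    exact @H19WinTop.homog_top G _ _ χ hχ (Fintype.ofFinite _)
  obtain ⟨r, M, hr, hMn, hNM, hne, hab, k, hk⟩ := H19WinSect.exists_abelian_section hs N hNtop
  have hM : @Homog G _ χ M (Fintype.ofFinite M) := by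
    by_contra hM
    have h1 : M ∈ s := ⟨hMn, hM⟩
    exact hne (le_antisymm hNM (hmax.le_of_ge h1 hNM))
  obtain ⟨T, hNT, hT, hMT, hdvd⟩ :=
    @H19WinT.exists_T G _ _ χ hχ n hn N M hNn hMn (Fintype.ofFinite N) (Fintype.ofFinite M) hNM hN.2 hM
  exact (H19WinGrp2.step2_group p r hr P hcl N M T hNM hab k hk hNT hT hMT).mono hdvd

end Cfsg.Agent.Lib.H19WinStep2
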