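import Mathlib
import Cfsg.Agent.Lib.Helper19WinDefs
import Cfsg.Agent.Lib.H19WinRed1
import Cfsg.Agent.Lib.H19WinStep2
import Cfsg.Agent.Lib.H19WinStep3

set_option autoImplicit false

namespace Cfsg.Agent.Lib.H19WinMain

open Cfsg Cfsg.Agent.Lib.Helper19WinDefs

universe u

/-- Winter's theorem, by induction on the order. -/
theorem main (p : ℕ) [Fact p.Prime] : ∀ (k : ℕ) (G : Type u) [Group G] [Finite G],
    Nat.card G ≤ k → Group.IsSolvable G →
      ∀ χ : G → ℂ, IsIrrCharacter G χ → (∀ g : G, χ g = χ 1 → g = 1) → ∀ n : ℕ, χ 1 = n →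
      ∀ P : Sylow p G, ¬ (P : Subgroup G).Normal → Good p n := by
  intro k
  induction k with
  | zero =>
    intro G _ _ hk
    exact absurd hk (by have := Nat.card_pos (α := G); omega)
  | succ k ih =>
    intro G _ _ hk hs χ hχ hfaith n hn P hP
    classical
    have := Fintype.ofFinite G
    by_cases h1 : ∃ N : Subgroup G, N.Normal ∧ N ≠ ⊤ ∧ (P : Subgroup G) ≤ N
    · obtain ⟨N, hNn, hN, hPN⟩ := h1
      exact H19WinRed1.red1 p (fun H _ _ hH => ih H (by omega)) hs hχ hfaith n hn P hP N hN hPN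
    · have hcl : ∀ N : Subgroup G, N.Normal → (P : Subgroup G) ≤ N → N = ⊤ := by
        intro N hNn hPN
        by_contra hN
        exact h1 ⟨N, hNn, hN, hPN⟩
      by_cases h2 : ∀ (N : Subgroup G) [Fintype N], N.Normal → Homog χ N
      · exact H19WinStep3.step3 p hs hχ hfaith n hn P hP hcl h2
      · push Not at h2
        obtain ⟨N₀, _, hN₀, hnh⟩ := h2
        exact H19WinStep2.step2 p hs hχ n hn P hcl N₀ hN₀ hnh

end Cfsg.Agent.Lib.H19WinMain
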