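import Mathlib
import Cfsg.Agent.Lib.Helper19WinDefs


set_option autoImplicit false
set_option linter.style.haveILetI false

namespace Cfsg.Agent.Lib.H19WinModEq

open Cfsg Cfsg.Agent.Lib.Helper19WinDefs

theorem relIndex_eq_card_map {G : Type*} [Group G] (L : Subgroup G) [L.Normal] (M : Subgroup G) :
    L.relIndex M = Nat.card (M.map (QuotientGroup.mk' L)) := by
  have hker : L = (⊥ : Subgroup (G ⧸ L)).comap (QuotientGroup.mk' L) := by
    rw [MonoidHom.comap_bot, QuotientGroup.ker_mk']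
  have h1 : L.relIndex M = ((⊥ : Subgroup (G ⧸ L)).comap (QuotientGroup.mk' L)).relIndex M :=
    congrArg (fun X : Subgroup G => X.relIndex M) hker
  rw [h1, Subgroup.relIndex_comap, Subgroup.relIndex_bot_left]

theorem relIndex_modEq {G : Type*} [Group G] [Finite G] (p : ℕ) [Fact p.Prime]
    (L M : Subgroup G) [L.Normal] [M.Normal] (hLM : L ≤ M) (x : G) (a : ℕ) (hx : x ^ p ^ a = 1)
    (F : Subgroup G) (hF : ∀ u, u ∈ F ↔ u ∈ M ∧ x * u * x⁻¹ * u⁻¹ ∈ L) :
    L.relIndex M ≡ L.relIndex F [MOD p] := by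
  classical
  set π := QuotientGroup.mk' L with hπ
  have hsurj : Function.Surjective π := QuotientGroup.mk'_surjective L
  set A := M.map π with hA
  have hAn : A.Normal := Subgroup.Normal.map inferInstance π hsurj
  letI : Fintype A := Fintype.ofFinite _
  let f : Function.End A := fun u => ⟨π x * u * (π x)⁻¹, hAn.conj_mem u u.2 (π x)⟩
  have hpow : ∀ k : ℕ, ∀ u : A, (((f ^ k) u : A) : G ⧸ L) = (π x) ^ k * u * ((π x) ^ k)⁻¹ := by
    intro k
    induction k with
    | zero => intro u; simp; rfl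
    | succ k ih =>
      intro u
      rw [pow_succ']
      show π x * (((f ^ k) u : A) : G ⧸ L) * (π x)⁻¹ = _
      rw [ih, pow_succ']
      group
  have hf : f ^ p ^ a = 1 := by
    funext u
    apply Subtype.ext
    rw [hpow, ← map_pow, hx, map_one]
    simp
    rfl
  have h1 := Equiv.Perm.card_fixedPoints_modEq hf
  have hfix : ∀ m : G, π x * π m * (π x)⁻¹ = π m ↔ x * m * x⁻¹ * m⁻¹ ∈ L := by
    intro m
    rw [← QuotientGroup.eq_one_iff]
    show _ ↔ π (x * m * x⁻¹ * m⁻¹) = 1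
    rw [map_mul, map_mul, map_mul, map_inv, map_inv, mul_inv_eq_one]
  let e : ↥(Function.fixedPoints f) ≃ ↥(F.map π) :=
    { toFun := fun u => ⟨u.1.1, by
        obtain ⟨m, hm, hmu⟩ := u.1.2
        have h2 : f u.1 = u.1 := u.2
        have h3 : π x * (u.1 : G ⧸ L) * (π x)⁻¹ = u.1 := congrArg Subtype.val h2
        rw [← hmu] at h3 ⊢
        exact ⟨m, (hF m).2 ⟨hm, (hfix m).1 h3⟩, rfl⟩⟩
      invFun := fun v => ⟨⟨v.1, by
        obtain ⟨w, hw, hwv⟩ := v.2
        exact ⟨w, ((hF w).1 hw).1, hwv⟩⟩, by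
        obtain ⟨w, hw, hwv⟩ := v.2
        apply Subtype.ext
        show π x * (v : G ⧸ L) * (π x)⁻¹ = v
        rw [← hwv]
        exact (hfix w).2 ((hF w).1 hw).2⟩
      left_inv := fun u => rfl
      right_inv := fun v => rfl }
  rw [relIndex_eq_card_map, relIndex_eq_card_map, ← Nat.card_congr e, Nat.card_eq_fintype_card,
    Nat.card_eq_fintype_card]
  exact h1

end Cfsg.Agent.Lib.H19WinModEq
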