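import Mathlib
import Cfsg.Agent.Lib.Helper19WinDefs


set_option autoImplicit false

namespace Cfsg.Agent.Lib.H19WinSympA

open Cfsg Cfsg.Agent.Lib.Helper19WinDefs

/-- PIECE SympA (pure Mathlib group theory, 30m).
Put `z = x * u * x⁻¹ * u⁻¹ ∈ Z` (central), so `x * u * x⁻¹ = z * u`.  By induction `x ^ j * u * (x ^ j)⁻¹ = z ^ j * u`, so `z ^ (p ^ a) = 1`.  `u ^ (r ^ k) ∈ Z` (the quotient `C / Z` has order `r ^ k`: e.g. `Subgroup.pow_mem_of_relIndex_ne_zero...`, or in `↥C ⧸ Z.subgroupOf C` use `pow_card_eq_one'`; `Z.subgroupOf C` is normal because `Z` is central), it is central, hence `u ^ (r^k) = x * u ^ (r^k) * x⁻¹ = (z * u) ^ (r^k) = z ^ (r^k) * u ^ (r^k)` and `z ^ (r ^ k) = 1`.  As `p ^ a` and `r ^ k` are coprime, `z = 1` (`pow_gcd_eq_one` / `orderOf_dvd_of_pow_eq_one` + `Nat.Coprime`). -/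
theorem fixed_lift {G : Type*} [Group G] [Finite G] (p r : ℕ) (hp : p.Prime) (hr : r.Prime)
    (hpr : p ≠ r) (Z C : Subgroup G) (hZ : Z ≤ Subgroup.center G) (hZC : Z ≤ C) (k : ℕ)
    (hk : Z.relIndex C = r ^ k) (x : G) (a : ℕ) (hx : x ^ p ^ a = 1) (u : G) (hu : u ∈ C)
    (h : x * u * x⁻¹ * u⁻¹ ∈ Z) : x * u = u * x := by
  obtain ⟨z, hz⟩ : ∃ z, z = x * u * x⁻¹ * u⁻¹ := ⟨_, rfl⟩
  rw [← hz] at h
  have hzc : ∀ g : G, g * z = z * g := fun g => (Subgroup.mem_center_iff.mp (hZ h)) g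
  have hxu : x * u * x⁻¹ = z * u := by rw [hz]; group
  have hj : ∀ j : ℕ, x ^ j * u * (x ^ j)⁻¹ = z ^ j * u := by
    intro j
    induction j with
    | zero => simp
    | succ j ih =>
      have hzj : x * z ^ j = z ^ j * x := by
        have : Commute x z := hzc x
        exact this.pow_right j
      calc x ^ (j + 1) * u * (x ^ (j + 1))⁻¹ = x * (x ^ j * u * (x ^ j)⁻¹) * x⁻¹ := by
            rw [pow_succ', mul_inv_rev]; simp only [mul_assoc]
        _ = x * (z ^ j * u) * x⁻¹ := by rw [ih]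
        _ = z ^ j * (x * u * x⁻¹) := by
            rw [← mul_assoc x, hzj]; simp only [mul_assoc]
        _ = z ^ (j + 1) * u := by rw [hxu, pow_succ, mul_assoc]
  have hz1 : z ^ p ^ a = 1 := by
    have := hj (p ^ a)
    rw [hx] at this
    simpa using this.symm
  have hZn : Z.Normal := ⟨fun n hn g => by
    have := (Subgroup.mem_center_iff.mp (hZ hn)) g
    rw [this, mul_inv_cancel_right]
    exact hn⟩
  have hum : u ^ r ^ k ∈ Z := by
    have h2 : ((QuotientGroup.mk (⟨u, hu⟩ : C) : C ⧸ Z.subgroupOf C)) ^ (Z.relIndex C) = 1 := by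
      have : Nat.card (C ⧸ Z.subgroupOf C) = Z.relIndex C := rfl
      rw [← this]
      exact pow_card_eq_one'
    rw [← QuotientGroup.mk_pow, QuotientGroup.eq_one_iff, Subgroup.mem_subgroupOf, hk] at h2
    simpa using h2
  have hz2 : z ^ r ^ k = 1 := by
    have h3 : x * u ^ r ^ k * x⁻¹ = u ^ r ^ k := by
      rw [(Subgroup.mem_center_iff.mp (hZ hum)) x, mul_inv_cancel_right]
    have h4 : x * u ^ r ^ k * x⁻¹ = (x * u * x⁻¹) ^ r ^ k := (conj_pow).symm
    have h5 : Commute z u := (hzc u).symm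
    rw [h4, hxu, h5.mul_pow] at h3
    simpa using h3
  have hcop : Nat.Coprime (p ^ a) (r ^ k) :=
    Nat.Coprime.pow _ _ ((Nat.coprime_primes hp hr).mpr hpr)
  have hz0 : z = 1 := by
    have h6 := orderOf_dvd_of_pow_eq_one hz1
    have h7 := orderOf_dvd_of_pow_eq_one hz2
    exact orderOf_eq_one_iff.mp (Nat.eq_one_of_dvd_coprimes hcop h6 h7)
  rw [hz0, one_mul] at hxu
  exact mul_inv_eq_iff_eq_mul.mp hxu

end Cfsg.Agent.Lib.H19WinSympA
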