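import Mathlib
import Cfsg.Agent.Lib.Helper19WinDefs
import Cfsg.Agent.Lib.H19WinSympA

set_option autoImplicit false

namespace Cfsg.Agent.Lib.H19WinSympB

open Cfsg Cfsg.Agent.Lib.Helper19WinDefs

/-- PIECE SympB (pure Mathlib group theory + `H19WinSympA.fixed_lift`, 45m): the fixed points of a coprime automorphism on a "symplectic" section are nondegenerate.
By `hcen` it suffices to show `u * v = v * u` for every `v ∈ C`.  Let `z = u * v * u⁻¹ * v⁻¹ ∈ Z` (central), `y = v * x`, `m = p ^ a`.  Since `u` commutes with `x`: `u * y * u⁻¹ = z * y`, hence `u * y ^ m * u⁻¹ = z ^ m * y ^ m`.  Let `w = y ^ m`.  `w ∈ C`: in `G ⧸ C` the image of `y` is the image of `x`, whose `m`-th power is `1`.  `w` commutes with `y = v * x`, so `x * w * x⁻¹ = v⁻¹ * w * v` and `x * w * x⁻¹ * w⁻¹ = v⁻¹ * w * v * w⁻¹ ∈ Z` by `hab`.  By `fixed_lift`, `x * w = w * x`, so `u * w = w * u` by `hD`, whence `z ^ m = 1`.  Also `v ^ (r ^ k) ∈ Z`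 is central and `u * v * u⁻¹ = z * v` gives `z ^ (r ^ k) = 1`.  Coprimality: `z = 1`. -/
theorem nondeg {G : Type*} [Group G] [Finite G] (p r : ℕ) (hp : p.Prime) (hr : r.Prime)
    (hpr : p ≠ r) (Z C : Subgroup G) (hZ : Z ≤ Subgroup.center G) (hZC : Z ≤ C) [C.Normal]
    (hab : ∀ a ∈ C, ∀ b ∈ C, a * b * a⁻¹ * b⁻¹ ∈ Z) (k : ℕ) (hk : Z.relIndex C = r ^ k)
    (hcen : ∀ u ∈ C, (∀ v ∈ C, u * v = v * u) → u ∈ Z) (x : G) (a : ℕ) (hx : x ^ p ^ a = 1)
    (u : G) (hu : u ∈ C) (hxu : x * u = u * x)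
    (hD : ∀ v ∈ C, x * v = v * x → u * v = v * u) : u ∈ Z := by
  apply hcen u hu
  intro v hv
  obtain ⟨z, hz⟩ : ∃ z, z = u * v * u⁻¹ * v⁻¹ := ⟨_, rfl⟩
  have hzZ : z ∈ Z := hz ▸ hab u hu v hv
  have hzc : ∀ g : G, g * z = z * g := fun g => Subgroup.mem_center_iff.mp (hZ hzZ) g
  have : Z.Normal := ⟨fun n hn g => by
    have := Subgroup.mem_center_iff.mp (hZ hn) g
    rw [this, mul_inv_cancel_right]
    exact hn⟩
  have huv : u * v * u⁻¹ = z * v := by rw [hz]; group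
  -- `z ^ (r ^ k) = 1`
  have h1 : z ^ r ^ k = 1 := by
    have hvZ : v ^ r ^ k ∈ Z := by
      rw [← hk]
      exact Subgroup.pow_relIndex_mem Z hv
    have e1 : u * v ^ r ^ k * u⁻¹ = z ^ r ^ k * v ^ r ^ k := by
      rw [← conj_pow, huv, (show Commute z v from (hzc v).symm).mul_pow]
    have e2 : u * v ^ r ^ k * u⁻¹ = v ^ r ^ k := by
      rw [Subgroup.mem_center_iff.mp (hZ hvZ) u, mul_inv_cancel_right]
    rw [e2] at e1
    exact (mul_eq_right.mp e1.symm)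
  -- `z ^ (p ^ a) = 1`
  have h2 : z ^ p ^ a = 1 := by
    obtain ⟨y, hy⟩ : ∃ y, y = v * x := ⟨_, rfl⟩
    have huy : u * y * u⁻¹ = z * y := by
      have : u * y * u⁻¹ = (u * v * u⁻¹) * (u * x * u⁻¹) := by rw [hy]; group
      rw [this, huv, ← hxu, mul_inv_cancel_right, hy, mul_assoc]
    obtain ⟨w, hw⟩ : ∃ w, w = y ^ p ^ a := ⟨_, rfl⟩
    have huw : u * w * u⁻¹ = z ^ p ^ a * w := by
      rw [hw, ← conj_pow, huy, (show Commute z y from (hzc y).symm).mul_pow]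
    have hwC : w ∈ C := by
      rw [← QuotientGroup.eq_one_iff, hw, hy, QuotientGroup.mk_pow, QuotientGroup.mk_mul,
        (QuotientGroup.eq_one_iff v).mpr hv, one_mul, ← QuotientGroup.mk_pow, hx,
        QuotientGroup.mk_one]
    have hwy : y * w = w * y := by
      rw [hw, ← pow_succ', ← pow_succ]
    have hxw : x * w * x⁻¹ * w⁻¹ = v⁻¹ * w * (v⁻¹)⁻¹ * w⁻¹ := by
      have e : x * w = v⁻¹ * w * v * x := by
        have : v * (x * w) = v * (v⁻¹ * w * v * x) := by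
          rw [← mul_assoc, ← hy, hwy, hy]
          group
        exact mul_left_cancel this
      rw [e, inv_inv, mul_inv_cancel_right]
    have hcomm : x * w = w * x :=
      Cfsg.Agent.Lib.H19WinSympA.fixed_lift p r hp hr hpr Z C hZ hZC k hk x a hx w hwC
        (hxw ▸ hab v⁻¹ (C.inv_mem hv) w hwC)
    have huw2 := hD w hwC hcomm
    rw [huw2, mul_inv_cancel_right] at huw
    exact (mul_eq_right.mp huw.symm)
  have hcop : Nat.Coprime (p ^ a) (r ^ k) :=
    Nat.Coprime.pow _ _ ((Nat.coprime_primes hp hr).mpr hpr)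
  have hz1 : z = 1 := by
    have := pow_gcd_eq_one.mpr ⟨h2, h1⟩
    rwa [hcop.gcd_eq_one, pow_one] at this
  rw [hz1, one_mul] at huv
  exact mul_inv_eq_iff_eq_mul.mp huv

end Cfsg.Agent.Lib.H19WinSympB
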