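import Mathlib

set_option autoImplicit false

/-! PROJECT 2661, piece Alt (pure Mathlib). -/

namespace Cfsg.Agent.Lib.H22AsAlt

/-- `i ↦ i + 1` -/
def x0 : Equiv.Perm (Fin 7) := ⟨fun i => i + 1, fun i => i + 6, by decide, by decide⟩

/-- `i ↦ 2 i` -/
def y0 : Equiv.Perm (Fin 7) := ⟨fun i => 2 * i, fun i => 4 * i, by decide, by decide⟩

theorem x0_ne : x0 ≠ 1 := by decide
theorem x0_pow : x0 ^ 7 = 1 := by decide
theorem y0_conj : y0 * x0 * y0⁻¹ = x0 ^ 2 := by decide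
theorem x0_sign : Equiv.Perm.sign x0 = 1 := by decide
theorem y0_sign : Equiv.Perm.sign y0 = 1 := by decide

/-- Alt.  On `Fin 7`: `x₀ = finRotate 7` (`i ↦ i + 1`), `y₀ : i ↦ 2 * i` (inverse `i ↦ 4 * i`; build the `Equiv.Perm (Fin 7)` with `by decide` proofs);
`x₀ ≠ 1`, `x₀ ^ 7 = 1`, `y₀ * x₀ * y₀⁻¹ = x₀ ^ 2`, `sign x₀ = 1`, `sign y₀ = 1` all by `decide`.
Transport to `Fin r` along `Fin.castLEEmb hr`: `Equiv.Perm.viaEmbeddingHom` (injective: `Equiv.Perm.viaEmbeddingHom_injective`) or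
`Equiv.Perm.extendDomainHom` (`Equiv.Perm.sign_extendDomain`, `Equiv.Perm.extendDomainHom_injective`); membership: `Equiv.Perm.mem_alternatingGroup`. -/
theorem exists_xy (r : ℕ) (hr : 7 ≤ r) :
    ∃ x y : ↥(alternatingGroup (Fin r)), x ≠ 1 ∧ x ^ 7 = 1 ∧ y * x * y⁻¹ = x ^ 2 := by
  classical
  let f : Fin 7 ≃ Subtype (fun i : Fin r => i ∈ Set.range (Fin.castLE hr)) :=
    Equiv.ofInjective (Fin.castLE hr) (Fin.castLE_injective hr)
  let φ : Equiv.Perm (Fin 7) →* Equiv.Perm (Fin r) := Equiv.Perm.extendDomainHom f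
  have hinj : Function.Injective φ := Equiv.Perm.extendDomainHom_injective f
  have hsign : ∀ e, Equiv.Perm.sign (φ e) = Equiv.Perm.sign e :=
    fun e => Equiv.Perm.sign_extendDomain e f
  refine ⟨⟨φ x0, ?_⟩, ⟨φ y0, ?_⟩, ?_, ?_, ?_⟩
  · rw [Equiv.Perm.mem_alternatingGroup, hsign, x0_sign]
  · rw [Equiv.Perm.mem_alternatingGroup, hsign, y0_sign]
  · intro h
    have h1 : φ x0 = 1 := congrArg Subtype.val h
    rw [← map_one φ] at h1
    exact x0_ne (hinj h1)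
  · apply Subtype.ext
    change (φ x0) ^ 7 = 1
    rw [← map_pow, x0_pow, map_one]
  · apply Subtype.ext
    change φ y0 * φ x0 * (φ y0)⁻¹ = (φ x0) ^ 2
    rw [← map_inv, ← map_mul, ← map_mul, y0_conj, map_pow]

end Cfsg.Agent.Lib.H22AsAlt
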