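import Mathlib

set_option autoImplicit false

/-! PROJECT 2661, piece Ar (arithmetic). -/

namespace Cfsg.Agent.Lib.H22AsAr

/-- Ar.  `q := 2 ^ n` has `q % 7 ∈ {1, 2, 4}` (induction on `n`, or `Nat.pow_mod` and `n % 3`).  `7` is prime (`Nat.Prime.dvd_mul`, `Nat.Prime.dvd_of_dvd_pow`): it divides one of the
factors `2`, `1 + q`, `1 + q ^ 2`, `1 + q ^ 3`, `1 + q ^ 6`; in each of the three cases reduce mod `7` (`Nat.add_mod`, `Nat.pow_mod`, `omega`/`decide`). -/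
theorem not_dvd (n : ℕ) :
    ¬ 7 ∣ 2 ^ (n * 12) * ((1 + 2 ^ n) * (1 + (2 ^ n) ^ 2) * (1 + (2 ^ n) ^ 3) * (1 + (2 ^ n) ^ 6)) := by
  have hq : (2 ^ n) % 7 = 1 ∨ (2 ^ n) % 7 = 2 ∨ (2 ^ n) % 7 = 4 := by
    induction n with
    | zero => left; norm_num
    | succ n ih =>
      rw [pow_succ]
      omega
  have h7 : Nat.Prime 7 := by norm_num
  generalize 2 ^ n = q at hq
  intro h
  rcases (h7.dvd_mul).mp h with h | h
  · have := h7.dvd_of_dvd_pow h
    omega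
  · have key : ((1 + q) * (1 + q ^ 2) * (1 + q ^ 3) * (1 + q ^ 6)) % 7 ≠ 0 := by
      rcases hq with hq | hq | hq <;>
      simp [Nat.mul_mod, Nat.add_mod, Nat.pow_mod, hq]
    exact key (Nat.mod_eq_zero_of_dvd h)

end Cfsg.Agent.Lib.H22AsAr
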