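import Cfsg.Agent.Lib.H22AsPeel

set_option autoImplicit false

/-! PROJECT 2661, piece BN (uses the stub H22AsPeel). -/

namespace Cfsg.Agent.Lib.H22AsBN

open Subgroup Cfsg.Agent.Lib.Helper23Grp Cfsg.Agent.Lib.Helper23Weyl Cfsg.Agent.Lib.Helper23TG Cfsg.Agent.Lib.Helper23TG.TG Cfsg.Agent.Lib.LeadTwDefs
  Cfsg.Agent.Lib.H22AsDefs Cfsg.Agent.Lib.H22AsPeel

variable {𝔾 R I : Type*} [Group 𝔾] [Fintype R] [DecidableEq R] {S : TG 𝔾 R I}

private theorem to_BN_aux (ok : S.Ok) {rf : R → R → R} {pr : R → R → ℤ} (hW : (ws ok rf pr).Ok)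
    {A : Subgroup 𝔾} (hA : Reg S A) :
    ∀ (k : ℕ) (π : Equiv.Perm R), (ws ok rf pr).len π = k → π ∈ (ws ok rf pr).WJ Set.univ →
      ∀ g ∈ S.C π, Into S A g → ∃ b ∈ S.B, ∃ n ∈ S.N, g = b * n ∧ Into S A b := by
  intro k
  induction k with
  | zero =>
    intro π hk hπ g hg hgA
    by_cases h1 : π = 1
    · rw [h1, C_one ok] at hg
      exact ⟨g, hg, 1, S.N.one_mem, (mul_one g).symm, hgA⟩
    · obtain ⟨i, _, hneg⟩ := WS.exists_descent hW hπ h1
      have := WS.len_mul_s_of_neg hW (WS.mem_neg hW hπ) hneg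
      omega
  | succ k ih =>
    intro π hk hπ g hg hgA
    by_cases h1 : π = 1
    · rw [h1, WS.len_one] at hk; omega
    · obtain ⟨i, _, hneg⟩ := WS.exists_descent hW hπ h1
      have hl := WS.len_mul_s_of_neg hW (WS.mem_neg hW hπ) hneg
      have hπ' : π * reflPerm ok i ∈ (ws ok rf pr).WJ Set.univ :=
        mul_mem hπ (WS.s_mem_WJ (W := ws ok rf pr) (Set.mem_univ i))
      have hs : (ws ok rf pr).s i = reflPerm ok i := rfl
      have hp : S.pos ((π * reflPerm ok i) (S.simple i)) := by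
        rw [Equiv.Perm.mul_apply, reflPerm_apply, ok.refl_simple]
        have := WS.mem_neg hW hπ (S.simple i)
        have e : π (S.neg (S.simple i)) = S.neg (π (S.simple i)) := this
        rw [e, ok.pos_neg]
        exact hneg
      have hg' : g ∈ S.C ((π * reflPerm ok i) * reflPerm ok i) := by
        rw [mul_assoc, reflPerm_mul_self, mul_one]
        exact hg
      obtain ⟨g', hg'C, hgg', hg'A⟩ := peel ok hA hp hg' hgA
      obtain ⟨b, hb, n, hn, e, hbA⟩ :=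
        ih (π * reflPerm ok i) (by rw [hs] at hl; omega) hπ' g' hg'C hg'A
      refine ⟨b, hb, n * S.nn i, S.N.mul_mem hn (nn_mem_N i), ?_, hbA⟩
      rw [hgg', e, mul_assoc]

/-- BN.  `obtain ⟨rf, pr, hW⟩ := h.hW`.  Prove by induction on `k` (COPY the induction of `Helper23TGCount.card_cell`: `WS.exists_descent hW hπ h1`, `WS.len_mul_s_of_neg`, `WS.mem_neg`):
`∀ π, (ws ok rf pr).len π = k → π ∈ (ws ok rf pr).WJ Set.univ → ∀ g ∈ S.C π, Into S A g → ∃ b ∈ S.B, ∃ n ∈ S.N, g = b * n ∧ Into S A b`.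
`π = 1`: `C_one`, `n = 1`.  `π ≠ 1`: descent `i`, `π' := π * reflPerm ok i` is shorter, `S.pos (π' (simple i))`, `π = π' * reflPerm ok i` (`reflPerm_mul_self`); `peel`: `g = g' * nn i`, induction for `g'`:
`g = b * (n * nn i)`.  Finally every `g` lies in a cell: `h.top`, `bruhat_ex ok`, `Mon_N' ok` (gives `π ∈ WJ univ` with `Mon n π`), definition of `TG.C`. -/
theorem to_BN (h : TData S) {A : Subgroup 𝔾} (hA : Reg S A) (g : 𝔾) (hgA : Into S A g) :
    ∃ b ∈ S.B, ∃ n ∈ S.N, g = b * n ∧ Into S A b := by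
  obtain ⟨rf, pr, hW⟩ := h.hW
  have hgG : g ∈ S.G := by
    rw [h.top]
    exact Subgroup.mem_top g
  obtain ⟨n, hn, b1, hb1, b2, hb2, e⟩ := bruhat_ex h.ok hgG
  obtain ⟨π, hπ, hM⟩ := Mon_N' h.ok (rf := rf) (pr := pr) n hn
  exact to_BN_aux h.ok hW hA _ π rfl hπ g ⟨n, hn, hM, b1, hb1, b2, hb2, e⟩ hgA

end Cfsg.Agent.Lib.H22AsBN
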