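import Cfsg.Agent.Lib.H22AsBN

set_option autoImplicit false

/-! PROJECT 2661, piece CU (uses H22AsBN). -/

namespace Cfsg.Agent.Lib.H22AsCU

open Subgroup Cfsg.Agent.Lib.Helper23Grp Cfsg.Agent.Lib.Helper23TG Cfsg.Agent.Lib.Helper23TG.TG Cfsg.Agent.Lib.LeadTwDefs
  Cfsg.Agent.Lib.H22AsDefs Cfsg.Agent.Lib.H22AsBN

variable {𝔾 R I : Type*} [Group 𝔾] [Fintype R] [DecidableEq R] {S : TG 𝔾 R I}

/-- CU: a regular subgroup of the torus centralizes no non-trivial element of `U`. -/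
theorem cent_U (h : TData S) {A : Subgroup 𝔾} (hA : Reg S A) {u : 𝔾} (hu : u ∈ S.U) (hc : ∀ s ∈ A, s * u * s⁻¹ = u) :
    u = 1 := by
  obtain ⟨n0, hn0, π0, hM, hp⟩ := h.n0
  have ok := h.ok
  have hInto : Into S A (n0 * u) := by
    intro s hs
    have h1 : u * s * u⁻¹ = s := by
      have := hc s hs
      calc u * s * u⁻¹ = (s * u * s⁻¹) * s * u⁻¹ := by rw [this]
        _ = s := by group
    have h2 : n0 * u * s * (n0 * u)⁻¹ = n0 * (u * s * u⁻¹) * n0⁻¹ := by group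
    rw [h2, h1]
    exact hA.le (hA.nrm n0 hn0 s hs)
  obtain ⟨b, hb, n, hn, hg, -⟩ := to_BN h hA (n0 * u) hInto
  have huB : u⁻¹ ∈ S.B := S.B.inv_mem (U_le_B hu)
  have h3 : n0 = b * n * u⁻¹ := by rw [← hg]; group
  have h4 : n⁻¹ * n0 ∈ S.H := bruhat_uniq ok hn hn0 hb huB h3
  have h5 : n * n0⁻¹ ∈ S.H := by
    have := N_conj_H ok n hn _ (S.H.inv_mem h4)
    have e : n * (n⁻¹ * n0)⁻¹ * n⁻¹ = n * n0⁻¹ := by group
    rwa [e] at this
  have h6 : n0 * u * n0⁻¹ ∈ S.B := by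
    rw [hg, mul_assoc]
    exact S.B.mul_mem hb (H_le_B h5)
  have h7 : n0 * u * n0⁻¹ ∈ S.V := (Helper36TwT3.conj_V_iff h hn0 hM hp u).mpr hu
  have h8 := ok.hBV _ h6 h7
  have : u = n0⁻¹ * (n0 * u * n0⁻¹) * n0 := by group
  rw [this, h8]
  group

end Cfsg.Agent.Lib.H22AsCU
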