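import Cfsg.Agent.Lib.LeadTwDefs

set_option autoImplicit false
set_option linter.unusedSectionVars false

/-! Project 101 (TW-AUT), piece T3 : port of `LeadAutA9.conj_V_iff` to `TG`. -/

namespace Cfsg.Agent.Lib.Helper36TwT3

open Subgroup Cfsg.Agent.Lib.Helper23Grp Cfsg.Agent.Lib.Helper23TG Cfsg.Agent.Lib.Helper23TG.TG
  Cfsg.Agent.Lib.Helper23Weyl Cfsg.Agent.Lib.LeadTwDefs

variable {𝔾 R I : Type*} [Group 𝔾] [Fintype R] [DecidableEq R] {S : TG 𝔾 R I}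

theorem mem_XS_iff (ok : S.Ok) {n : 𝔾} (hn : n ∈ S.N) {π : Equiv.Perm R} (hM : S.Mon n π)
    {Ψ Ψ' : R → Prop} (hΨ : ∀ r, Ψ r ↔ Ψ' (π r))
    (g : 𝔾) : n * g * n⁻¹ ∈ S.XS Ψ' ↔ g ∈ S.XS Ψ := by
  constructor
  · intro hg
    have := (Mon.inv' ok hn hM).2 Ψ' Ψ (fun r hr => (hΨ (π⁻¹ r)).2 (by simpa using hr)) _ hg
    simpa [mul_assoc] using this
  · intro hg
    exact hM.2 Ψ Ψ' (fun r hr => (hΨ r).1 hr) g hg

theorem mem_X_conj_iff (ok : S.Ok) {n : 𝔾} (hn : n ∈ S.N) {π : Equiv.Perm R} (hM : S.Mon n π) (r : R)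
    (g : 𝔾) : n * g * n⁻¹ ∈ S.X (π r) ↔ g ∈ S.X r := by
  unfold TG.X
  exact mem_XS_iff ok hn hM (Ψ := fun s => s = r) (Ψ' := fun s => s = π r)
    (fun s => (π.injective.eq_iff).symm) g

theorem opp_pos (ok : S.Ok) {n0 : 𝔾} {π0 : Equiv.Perm R} (hM : S.Mon n0 π0)
    (h0 : ∀ r, S.pos r → ¬ S.pos (π0 r)) (r : R) : S.pos r ↔ ¬ S.pos (π0 r) := by
  refine ⟨h0 r, fun hn => ?_⟩
  by_contra hr
  have h3 : S.pos (S.neg r) := (ok.pos_neg _).2 hr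
  have h4 := h0 _ h3
  rw [hM.1, ok.pos_neg] at h4
  exact h4 hn

/-- T3 (port of `LeadAutA9.conj_V_iff`) -/
theorem conj_V_iff (h : TData S) {n : 𝔾} (hn : n ∈ S.N) {π : Equiv.Perm R} (hM : S.Mon n π)
    (h0 : ∀ r, S.pos r → ¬ S.pos (π r)) (g : 𝔾) : n * g * n⁻¹ ∈ S.V ↔ g ∈ S.U :=
  mem_XS_iff h.ok hn hM (opp_pos h.ok hM h0) g

theorem conj_U_iff (h : TData S) {n : 𝔾} (hn : n ∈ S.N) {π : Equiv.Perm R} (hM : S.Mon n π)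
    (h0 : ∀ r, S.pos r → ¬ S.pos (π r)) (g : 𝔾) : n * g * n⁻¹ ∈ S.U ↔ g ∈ S.V :=
  mem_XS_iff h.ok hn hM (fun r => by rw [opp_pos h.ok hM h0 r, not_not]) g

end Cfsg.Agent.Lib.Helper36TwT3
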