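import Cfsg.Agent.Lib.LeadTwDefs
import Cfsg.Agent.Lib.Helper36TwT3

set_option autoImplicit false

/-! PROJECT 2661: vocabulary.  A subgroup `A` of the torus `H` of a subgroup-level root group datum `S` is *regular* if it is normalized by `N`
and centralizes no non-trivial element of a fundamental root subgroup. -/

namespace Cfsg.Agent.Lib.H22AsDefs

open Subgroup Cfsg.Agent.Lib.Helper23Grp Cfsg.Agent.Lib.Helper23TG Cfsg.Agent.Lib.Helper23TG.TG Cfsg.Agent.Lib.LeadTwDefs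

variable {𝔾 R I : Type*} [Group 𝔾]

structure Reg (S : TG 𝔾 R I) (A : Subgroup 𝔾) : Prop where
  le : A ≤ S.H
  nrm : ∀ n ∈ S.N, ∀ s ∈ A, n * s * n⁻¹ ∈ A
  cen : ∀ i, ∀ x ∈ S.X (S.simple i), (∀ s ∈ A, s * x * s⁻¹ = x) → x = 1

/-- `g` conjugates `A` into the torus -/
def Into (S : TG 𝔾 R I) (A : Subgroup 𝔾) (g : 𝔾) : Prop := ∀ s ∈ A, g * s * g⁻¹ ∈ S.H

end Cfsg.Agent.Lib.H22AsDefs
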