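import Mathlib

set_option autoImplicit false

/-! PROJECT 2661, piece Dih (pure Mathlib). -/

namespace Cfsg.Agent.Lib.H22AsDih

/-- Dih.  `ρ := s * t`; `s * ρ * s = ρ⁻¹` (`s⁻¹ = s`, `t⁻¹ = t`).  The set `{π | ∃ j : ℤ, π = ρ ^ j ∨ π = ρ ^ j * s}` contains `1`, and is stable under right multiplication
by `s` and by `t = s * ρ` (`ρ ^ j * t = ρ ^ j * s * ρ = ρ ^ (j - 1) * s`, `ρ ^ j * s * t = ρ ^ (j + 1)`), so it contains the closure
(`Subgroup.closure_induction_right` / `Subgroup.closure_induction` with the inverses `s⁻¹ = s`, `t⁻¹ = t`).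
`(ρ ^ j) ^ k = (ρ ^ k) ^ j = 1`; `(ρ ^ j * s) ^ 2 = ρ ^ j * (s * ρ ^ j * s) = ρ ^ j * ρ ^ (-j) = 1` and `k` is even. -/
theorem dih_pow {M : Type*} [Group M] (s t : M) (hs : s * s = 1) (ht : t * t = 1) (k : ℕ) (hk : Even k)
    (hst : (s * t) ^ k = 1) : ∀ π ∈ Subgroup.closure ({s, t} : Set M), π ^ k = 1 := by
  have hsi : s⁻¹ = s := inv_eq_of_mul_eq_one_left hs
  have hti : t⁻¹ = t := inv_eq_of_mul_eq_one_left ht
  have hconj : ∀ j : ℤ, s * (s * t) ^ j * s = (s * t) ^ (-j) := by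
    intro j
    have h1 : s * (s * t) * s⁻¹ = (s * t)⁻¹ := by
      rw [mul_inv_rev, hsi, hti, ← mul_assoc, hs, one_mul]
    have h2 := conj_zpow (a := s) (b := s * t) (i := j)
    rw [h1, hsi] at h2
    rw [← h2, inv_zpow, zpow_neg]
  have step_s : ∀ π : M, (∃ j : ℤ, π = (s * t) ^ j ∨ π = (s * t) ^ j * s) →
      ∃ j : ℤ, π * s = (s * t) ^ j ∨ π * s = (s * t) ^ j * s := by
    rintro π ⟨j, rfl | rfl⟩
    · exact ⟨j, Or.inr rfl⟩
    · exact ⟨j, Or.inl (by rw [mul_assoc, hs, mul_one])⟩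
  have step_t : ∀ π : M, (∃ j : ℤ, π = (s * t) ^ j ∨ π = (s * t) ^ j * s) →
      ∃ j : ℤ, π * t = (s * t) ^ j ∨ π * t = (s * t) ^ j * s := by
    rintro π ⟨j, rfl | rfl⟩
    · refine ⟨j - 1, Or.inr ?_⟩
      have h1 := hconj 1
      rw [zpow_one, zpow_neg, zpow_one] at h1
      -- `t = (s t)⁻¹ * s`
      have h2 : t = (s * t)⁻¹ * s := by
        rw [← h1, mul_assoc, mul_assoc, hs, mul_one, ← mul_assoc, hs, one_mul]
      rw [zpow_sub, zpow_one, mul_assoc, ← h2]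
    · exact ⟨j + 1, Or.inl (by rw [zpow_add, zpow_one, mul_assoc])⟩
  have nf : ∀ π ∈ Subgroup.closure ({s, t} : Set M), ∃ j : ℤ, π = (s * t) ^ j ∨ π = (s * t) ^ j * s := by
    intro π hπ
    induction hπ using Subgroup.closure_induction_right with
    | one => exact ⟨0, Or.inl (by simp)⟩
    | mul_right x _ y hy ih =>
      rcases hy with rfl | rfl
      · exact step_s x ih
      · exact step_t x ih
    | mul_inv_cancel x _ y hy ih =>
      rcases hy with rfl | rfl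
      · rw [hsi]; exact step_s x ih
      · rw [hti]; exact step_t x ih
  intro π hπ
  obtain ⟨j, rfl | rfl⟩ := nf π hπ
  · rw [← zpow_natCast, ← zpow_mul, mul_comm, zpow_mul, zpow_natCast, hst, one_zpow]
  · obtain ⟨r, rfl⟩ := hk
    have h2 : ((s * t) ^ j * s) * ((s * t) ^ j * s) = 1 := by
      have := hconj j
      calc ((s * t) ^ j * s) * ((s * t) ^ j * s) = (s * t) ^ j * (s * (s * t) ^ j * s) := by group
        _ = 1 := by rw [this, zpow_neg, mul_inv_cancel]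
    rw [← two_mul, pow_mul, pow_two, h2, one_pow]

end Cfsg.Agent.Lib.H22AsDih
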