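import Cfsg.Agent.Lib.H22AsDefs
import Cfsg.Agent.Lib.H22AsDih

set_option autoImplicit false

/-! PROJECT 2661, piece Exp (uses the stub H22AsDih). -/

namespace Cfsg.Agent.Lib.H22AsExp

open Subgroup Cfsg.Agent.Lib.Helper23Grp Cfsg.Agent.Lib.Helper23TG Cfsg.Agent.Lib.Helper23TG.TG Cfsg.Agent.Lib.LeadTwDefs
  Cfsg.Agent.Lib.H22AsDefs Cfsg.Agent.Lib.H22AsDih

variable {𝔾 R : Type*} [Group 𝔾] {S : TG 𝔾 R (Fin 2)}

/-- Exp.  `Mon_N' ok (rf := fun _ r => r) (pr := fun _ _ => 0) g hg` gives `π ∈ (ws ok rf pr).WJ Set.univ` with `S.Mon g π`; `WS.WJ` is the closure of `{reflPerm ok i}`, contained in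
`closure {reflPerm ok 0, reflPerm ok 1}` (`Fin 2`: `fin_cases`).  `reflPerm_mul_self`; `(reflPerm ok 0 * reflPerm ok 1) ^ 8 = 1` from `hrot` (`Equiv.ext`, `Equiv.Perm.iterate_eq_pow` / `Equiv.Perm.coe_pow`,
`reflPerm_apply`).  `dih_pow`: `π ^ 8 = 1`.  By induction `S.Mon (g ^ j) (π ^ j)` (`Mon.one ok`, `Mon.mul`).  `mem_H_of_Mon_one ok (pow_mem hg 8)`. -/
theorem N_pow (ok : S.Ok) (hrot : ∀ r, (fun r => S.refl 0 (S.refl 1 r))^[8] r = r) : ∀ g ∈ S.N, g ^ 8 ∈ S.H := by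
  intro g hg
  obtain ⟨π, hπ, hM⟩ := Mon_N' ok (rf := fun _ r => r) (pr := fun _ _ => 0) g hg
  have hcl : π ∈ closure ({reflPerm ok 0, reflPerm ok 1} : Set (Equiv.Perm R)) := by
    refine (Subgroup.closure_mono ?_) hπ
    rintro _ ⟨i, -, rfl⟩
    show reflPerm ok i ∈ ({reflPerm ok 0, reflPerm ok 1} : Set (Equiv.Perm R))
    fin_cases i
    · exact Set.mem_insert _ _
    · exact Set.mem_insert_of_mem _ rfl
  have hrot' : (reflPerm ok 0 * reflPerm ok 1) ^ 8 = 1 := by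
    ext r
    rw [← Equiv.Perm.iterate_eq_pow]
    exact hrot r
  have h8 : π ^ 8 = 1 := dih_pow _ _ (reflPerm_mul_self ok 0) (reflPerm_mul_self ok 1) 8 (by decide)
    hrot' π hcl
  have hpow : ∀ j : ℕ, S.Mon (g ^ j) (π ^ j) := by
    intro j
    induction j with
    | zero => simpa using Mon.one ok
    | succ j ih =>
      rw [pow_succ, pow_succ]
      exact ih.mul hM
  have h := hpow 8
  rw [h8] at h
  exact mem_H_of_Mon_one ok (pow_mem hg 8) h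

end Cfsg.Agent.Lib.H22AsExp
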