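import Mathlib

set_option autoImplicit false

/-! PROJECT 2661, piece Fix (pure Mathlib). -/

namespace Cfsg.Agent.Lib.H22AsFix

/-- Fix.  The `p`-group `P₀` acts on `G ⧸ T`, whose cardinality `T.index` is prime to `p`: there is a fixed point `g⁻¹ T`
(`IsPGroup.nonempty_fixedPoint_of_prime_not_dvd_card`); `z • (g⁻¹ T) = g⁻¹ T` means `g z g⁻¹ ∈ T` (`QuotientGroup.eq`). -/
theorem conj_into {G : Type*} [Group G] [Finite G] (p : ℕ) [Fact p.Prime] (T P₀ : Subgroup G) (hT : ¬ p ∣ T.index)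
    (hP : IsPGroup p P₀) : ∃ g : G, ∀ z ∈ P₀, g * z * g⁻¹ ∈ T := by
  haveI : Finite (G ⧸ T) := inferInstance
  have hcard : ¬ p ∣ Nat.card (G ⧸ T) := hT
  obtain ⟨x, hx⟩ := IsPGroup.nonempty_fixed_point_of_prime_not_dvd_card hP (G ⧸ T) hcard
  obtain ⟨g, rfl⟩ := QuotientGroup.mk_surjective x
  refine ⟨g⁻¹, fun z hz => ?_⟩
  have h1 := hx ⟨z, hz⟩
  have h2 : ((z * g : G) : G ⧸ T) = ((g : G) : G ⧸ T) := h1
  rw [QuotientGroup.eq] at h2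
  have h3 : g⁻¹ * z * g⁻¹⁻¹ = ((z * g)⁻¹ * g)⁻¹ := by group
  rw [h3]
  exact T.inv_mem h2

end Cfsg.Agent.Lib.H22AsFix
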