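import Cfsg.Agent.Lib.H22AsFix

set_option autoImplicit false

/-! PROJECT 2661, piece Fus (pure Mathlib + the stub H22AsFix). -/

namespace Cfsg.Agent.Lib.H22AsFus

open Cfsg.Agent.Lib.H22AsFix

/-- Fus (control of fusion).  `C := Subgroup.centralizer (P₀ : Set G)` contains `T` (abelian, `P₀ ≤ T`); `(T.subgroupOf C).index = T.relIndex C` divides `T.index`
(`Subgroup.relIndex_dvd_index_of_le`/`Subgroup.relIndex_mul_index`), so it is prime to `p`.  `A' := y A y⁻¹ ≤ C`: for `z ∈ P₀` write `z = y z₀ y⁻¹` with `z₀ ∈ P₀`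
(conjugation by `y` is an injective self map of the finite set `P₀`, so it is surjective: `Finite.surjective_of_injective`), and `a`, `z₀ ∈ T` commute.
`A'` (as a subgroup of `C`: `(A.map (MulAut.conj y).toMonoidHom).subgroupOf C`) is a `p`-group (`IsPGroup.map`, `IsPGroup.comap_of_injective`/`IsPGroup.to_subgroup`...).
`conj_into` in the group `↥C` gives `c ∈ C` with `c A' c⁻¹ ≤ T`.  Take `g = c * y`: for `z ∈ P₀`, `y z y⁻¹ ∈ P₀` commutes with `c`. -/
theorem fusion {G : Type*} [Group G] [Finite G] (p : ℕ) [Fact p.Prime] (T A P₀ : Subgroup G)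
    (hTab : ∀ a ∈ T, ∀ b ∈ T, a * b = b * a) (hT : ¬ p ∣ T.index) (hA : A ≤ T) (hAp : IsPGroup p A) (hP : P₀ ≤ T)
    (y : G) (hy : ∀ z ∈ P₀, y * z * y⁻¹ ∈ P₀) :
    ∃ g : G, (∀ s ∈ A, g * s * g⁻¹ ∈ T) ∧ ∀ z ∈ P₀, g * z * g⁻¹ = y * z * y⁻¹ := by
  classical
  set C : Subgroup G := Subgroup.centralizer (P₀ : Set G) with hC
  have hTC : T ≤ C := by
    intro t ht
    rw [hC, Subgroup.mem_centralizer_iff]
    intro z hz
    exact hTab z (hP hz) t ht
  have hidx : ¬ p ∣ (T.subgroupOf C).index := by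
    intro h
    apply hT
    exact h.trans (Subgroup.relIndex_dvd_index_of_le hTC)
  -- conjugation by `y` is onto `P₀`
  let cy : ↥P₀ → ↥P₀ := fun z => ⟨y * z * y⁻¹, hy z z.2⟩
  have hcy_inj : Function.Injective cy := by
    intro z z' h
    have h1 : y * (z : G) * y⁻¹ = y * z' * y⁻¹ := congrArg Subtype.val h
    apply Subtype.ext
    exact mul_left_cancel (mul_right_cancel h1)
  have hcy_surj : Function.Surjective cy := Finite.surjective_of_injective hcy_inj
  set A' : Subgroup G := A.map (MulAut.conj y).toMonoidHom with hA'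
  have hA'C : A' ≤ C := by
    rintro _ ⟨s, hs, rfl⟩
    rw [hC, Subgroup.mem_centralizer_iff]
    intro z hz
    obtain ⟨z₀, hz₀⟩ := hcy_surj ⟨z, hz⟩
    have h1 : y * (z₀ : G) * y⁻¹ = z := congrArg Subtype.val hz₀
    have h2 : (z₀ : G) * s = s * z₀ := hTab _ (hP z₀.2) _ (hA hs)
    simp only [MulEquiv.coe_toMonoidHom, MulAut.conj_apply]
    rw [← h1]
    calc y * (z₀ : G) * y⁻¹ * (y * s * y⁻¹) = y * ((z₀ : G) * s) * y⁻¹ := by group
      _ = y * (s * (z₀ : G)) * y⁻¹ := by rw [h2]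
      _ = y * s * y⁻¹ * (y * (z₀ : G) * y⁻¹) := by group
  have hA'p : IsPGroup p ↥(A'.subgroupOf C) := by
    have h1 : IsPGroup p ↥A' := hAp.map _
    exact h1.comap_of_injective C.subtype C.subtype_injective
  obtain ⟨c, hc⟩ := conj_into p (T.subgroupOf C) (A'.subgroupOf C) hidx hA'p
  refine ⟨c * y, ?_, ?_⟩
  · intro s hs
    have hmem : y * s * y⁻¹ ∈ A' := ⟨s, hs, by simp⟩
    have h1 := hc ⟨y * s * y⁻¹, hA'C hmem⟩ (by rw [Subgroup.mem_subgroupOf]; exact hmem)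
    rw [Subgroup.mem_subgroupOf] at h1
    have h2 : (c : G) * y * s * ((c : G) * y)⁻¹ = c * (y * s * y⁻¹) * (c : G)⁻¹ := by group
    rw [h2]
    simpa using h1
  · intro z hz
    have hcz : ∀ h ∈ (P₀ : Set G), h * (c : G) = c * h := Subgroup.mem_centralizer_iff.mp c.2
    have h1 := hcz (y * z * y⁻¹) (hy z hz)
    calc (c : G) * y * z * ((c : G) * y)⁻¹ = (c * (y * z * y⁻¹)) * (c : G)⁻¹ := by group
      _ = (y * z * y⁻¹ * c) * (c : G)⁻¹ := by rw [h1]
      _ = y * z * y⁻¹ := by group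

end Cfsg.Agent.Lib.H22AsFus
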