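import Cfsg.Agent.Lib.Helper22RoDefs

set_option autoImplicit false

/-! PROJECT 2661, piece Hab (only the small vocabulary file Helper22RoDefs). -/

namespace Cfsg.Agent.Lib.H22AsHab

open Cfsg.Agent.Lib.Helper22RoDefs

section
variable {Γ K : Type*} [Group Γ] [Field K] {P : RD Γ K}

theorem conj_mul'' (a b d : Γ) : (a * b) * d * (a * b)⁻¹ = a * (b * d * b⁻¹) * a⁻¹ := by group

theorem actA_mul {h k : Γ} {a b : K} (hh : P.ActA h a) (hk : P.ActA k b) : P.ActA (h * k) (a * b) := by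
  intro t
  rw [conj_mul'', hk, hh, mul_assoc]

theorem actB_mul {h k : Γ} {a b : K} (hh : P.ActB h a) (hk : P.ActB k b) : P.ActB (h * k) (a * b) := by
  intro t u
  rw [conj_mul'', hk, hh, map_mul]
  congr 1 <;> ring

theorem actA_inv {h : Γ} {c : K} (hc : c ≠ 0) (hh : P.ActA h c) : P.ActA h⁻¹ c⁻¹ := by
  intro t
  have h1 := hh (c⁻¹ * t)
  rw [mul_inv_cancel_left₀ hc] at h1
  rw [← h1]
  group

theorem actB_inv {h : Γ} {c : K} (hc : c ≠ 0) (hh : P.ActB h c) : P.ActB h⁻¹ c⁻¹ := by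
  intro t u
  have h1 := hh (c⁻¹ * t) (P.θ c⁻¹ * c⁻¹ * u)
  have hθ : P.θ c ≠ 0 := by
    intro h0
    exact hc ((map_eq_zero_iff P.θ P.θ.injective).1 h0)
  have e : P.θ c * c * (P.θ c⁻¹ * c⁻¹ * u) = u := by
    rw [map_inv₀]
    field_simp
  rw [mul_inv_cancel_left₀ hc, e] at h1
  rw [← h1]
  group

end

/-- Hab. -/
theorem H_comm {Γ K : Type*} [Group Γ] [Field K] {P : RD Γ K} (hP : P.Ok) : ∀ a ∈ P.H, ∀ b ∈ P.H, a * b = b * a := by
  intro a ha b hb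
  obtain ⟨α, β, hα, hβ, hA, hB⟩ := hP.tor a ha
  obtain ⟨α', β', hα', hβ', hA', hB'⟩ := hP.tor b hb
  have h1 : P.ActA ((a * b) * (b * a)⁻¹) 1 := by
    have := actA_mul (actA_mul hA hA') (actA_inv (mul_ne_zero hα' hα) (actA_mul hA' hA))
    have e : α * α' * (α' * α)⁻¹ = 1 := by
      rw [mul_comm α α']; exact mul_inv_cancel₀ (mul_ne_zero hα' hα)
    rwa [e] at this
  have h2 : P.ActB ((a * b) * (b * a)⁻¹) 1 := by
    have := actB_mul (actB_mul hB hB') (actB_inv (mul_ne_zero hβ' hβ) (actB_mul hB' hB))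
    have e : β * β' * (β' * β)⁻¹ = 1 := by
      rw [mul_comm β β']; exact mul_inv_cancel₀ (mul_ne_zero hβ' hβ)
    rwa [e] at this
  have h3 := hP.inj _ (P.H.mul_mem (P.H.mul_mem ha hb) (P.H.inv_mem (P.H.mul_mem hb ha))) h1 h2
  exact mul_inv_eq_one.1 h3

end Cfsg.Agent.Lib.H22AsHab
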