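import Cfsg.Agent.Lib.H22AsCU

set_option autoImplicit false

/-! PROJECT 2661, piece NA (uses H22AsBN, H22AsCU). -/

namespace Cfsg.Agent.Lib.H22AsNA

open Subgroup Cfsg.Agent.Lib.Helper23Grp Cfsg.Agent.Lib.Helper23TG Cfsg.Agent.Lib.Helper23TG.TG Cfsg.Agent.Lib.LeadTwDefs
  Cfsg.Agent.Lib.H22AsDefs Cfsg.Agent.Lib.H22AsBN Cfsg.Agent.Lib.H22AsCU

variable {𝔾 R I : Type*} [Group 𝔾] [Fintype R] [DecidableEq R] {S : TG 𝔾 R I}

/-- NA: an element conjugating a regular subgroup of the torus into the torus lies in `N`. -/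
theorem mem_N (h : TData S) {A : Subgroup 𝔾} (hA : Reg S A) (g : 𝔾) (hgA : Into S A g) : g ∈ S.N := by
  have ok := h.ok
  obtain ⟨b, hb, n, hn, hg, hbA⟩ := to_BN h hA g hgA
  obtain ⟨u, hu, t, ht, rfl⟩ := (mem_B_iff ok).mp hb
  have hcen : ∀ s ∈ A, s * u * s⁻¹ = u := by
    intro s hs
    have hs0 : t⁻¹ * s * t ∈ A := by
      have := hA.nrm t⁻¹ (S.N.inv_mem (H_le_N ht)) s hs
      rwa [inv_inv] at this
    have h1 : u * s * u⁻¹ ∈ S.H := by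
      have := hbA _ hs0
      have e : u * t * (t⁻¹ * s * t) * (u * t)⁻¹ = u * s * u⁻¹ := by group
      rwa [e] at this
    have h2 : u * s * u⁻¹ * s⁻¹ ∈ S.N := H_le_N (S.H.mul_mem h1 (S.H.inv_mem (hA.le hs)))
    have h3 : u * s * u⁻¹ * s⁻¹ ∈ S.U := by
      have e : u * s * u⁻¹ * s⁻¹ = u * (s * u⁻¹ * s⁻¹) := by group
      rw [e]
      exact S.U.mul_mem hu (H_U ok s (hA.le hs) _ (S.U.inv_mem hu))
    have h4 := ok.hUN _ h3 h2
    have e : s * u * s⁻¹ = (u * s * u⁻¹ * s⁻¹)⁻¹ * u := by group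
    rw [e, h4, inv_one, one_mul]
  have hu1 : u = 1 := cent_U h hA hu hcen
  rw [hg, hu1, one_mul]
  exact S.N.mul_mem (H_le_N ht) hn

end Cfsg.Agent.Lib.H22AsNA
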