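import Cfsg.Agent.Lib.H22AsDefs

set_option autoImplicit false

/-! PROJECT 2661, piece Peel. -/

namespace Cfsg.Agent.Lib.H22AsPeel

open Subgroup Cfsg.Agent.Lib.Helper23Grp Cfsg.Agent.Lib.Helper23TG Cfsg.Agent.Lib.Helper23TG.TG Cfsg.Agent.Lib.LeadTwDefs
  Cfsg.Agent.Lib.H22AsDefs

variable {𝔾 R I : Type*} [Group 𝔾] {S : TG 𝔾 R I}

/-- Peel.  (API: `Helper23TGCount`: `TG.C`, `cell_surj`, `cell_inj`, `C_mul_B`; `Helper23TG`: `H_le_B`, `H_X`, `ok.nn_H`, `nn_mem_N`.)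
`cell_surj ok hg`: `g = g' * nn i * x`, `g' ∈ C π`, `x ∈ X (simple i)`.  Let `s ∈ A`, `s' := g * s * g⁻¹ ∈ H`.  Then
`(s' * g') * nn i * x = g * s = (g' * (nn i * s * (nn i)⁻¹)) * nn i * (s⁻¹ * x * s)`.
`s' * g' ∈ C π` (unfold `TG.C`: multiply `b1` on the left by `s' ∈ H ≤ B`), `g' * (nn i * s * (nn i)⁻¹) ∈ C π` (`C_mul_B`, `ok.nn_H`), `s⁻¹ * x * s ∈ X (simple i)` (`H_X ok` for `s⁻¹`).
`cell_inj ok hp`: `s' * g' = g' * (nn i * s * (nn i)⁻¹)` and `x = s⁻¹ * x * s`.  The second for all `s` (use it for `s⁻¹ ∈ A`) and `hA.cen`: `x = 1`.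
The first: `g' * (nn i * s * (nn i)⁻¹) * g'⁻¹ = s' ∈ H` for all `s ∈ A`; apply it to `(nn i)⁻¹ * s * nn i ∈ A` (`hA.nrm` for `(nn i)⁻¹ ∈ N`). -/
theorem peel (ok : S.Ok) {A : Subgroup 𝔾} (hA : Reg S A) {π : Equiv.Perm R} {i : I} (hp : S.pos (π (S.simple i))) {g : 𝔾}
    (hg : g ∈ S.C (π * reflPerm ok i)) (hgA : Into S A g) : ∃ g' ∈ S.C π, g = g' * S.nn i ∧ Into S A g' := by
  obtain ⟨g', hg', x, hx, rfl⟩ := cell_surj ok hg
  have key : ∀ s ∈ A, x = s⁻¹ * x * s := by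
    intro s hs
    have hs' := hgA s hs
    have hsH := hA.le hs
    have h1 : (g' * S.nn i * x) * s * (g' * S.nn i * x)⁻¹ * g' ∈ S.C π := by
      obtain ⟨n, hn, hM, b1, hb1, b2, hb2, e⟩ := hg'
      refine ⟨n, hn, hM, (g' * S.nn i * x) * s * (g' * S.nn i * x)⁻¹ * b1,
        mul_mem (H_le_B hs') hb1, b2, hb2, ?_⟩
      nth_rewrite 3 [e]
      group
    have h2 : g' * (S.nn i * s * (S.nn i)⁻¹) ∈ S.C π := C_mul_B hg' (H_le_B (ok.nn_H i s hsH))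
    have h3 : s⁻¹ * x * s ∈ S.X (S.simple i) := by
      have := H_X ok (S.simple i) s⁻¹ (inv_mem hsH) x hx
      simpa using this
    exact (cell_inj ok hp h1 h2 hx h3 (by group)).2
  have hx1 : x = 1 := by
    apply hA.cen i x hx
    intro s hs
    have := key s⁻¹ (inv_mem hs)
    rw [inv_inv] at this
    exact this.symm
  subst hx1
  refine ⟨g', hg', by rw [mul_one], ?_⟩
  intro s hs
  have ht : (S.nn i)⁻¹ * s * S.nn i ∈ A := by
    have := hA.nrm (S.nn i)⁻¹ (inv_mem (nn_mem_N i)) s hs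
    simpa using this
  have := hgA _ ht
  convert this using 1
  group

end Cfsg.Agent.Lib.H22AsPeel
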