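import Mathlib

set_option autoImplicit false

/-! PROJECT 2661, piece Pow (pure Mathlib). -/

namespace Cfsg.Agent.Lib.H22AsPow

/-- Pow 1.  Induction on `e` (`pow_succ`), generalizing `z`; also prove along the way that `y ^ e * z * (y ^ e)⁻¹ ∈ P₀`. -/
theorem pow_conj_eq {G : Type*} [Group G] (P₀ : Subgroup G) (g y : G) (hy : ∀ z ∈ P₀, y * z * y⁻¹ ∈ P₀)
    (h : ∀ z ∈ P₀, g * z * g⁻¹ = y * z * y⁻¹) (e : ℕ) :
    ∀ z ∈ P₀, g ^ e * z * (g ^ e)⁻¹ = y ^ e * z * (y ^ e)⁻¹ := by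
  induction e with
  | zero => intro z _; simp
  | succ e ih =>
    intro z hz
    have hmem : ∀ (e : ℕ), ∀ z ∈ P₀, y ^ e * z * (y ^ e)⁻¹ ∈ P₀ := by
      intro e
      induction e with
      | zero => intro z hz; simpa using hz
      | succ e ih2 =>
        intro z hz
        have := hy _ (ih2 z hz)
        have e1 : y ^ (e + 1) * z * (y ^ (e + 1))⁻¹ = y * (y ^ e * z * (y ^ e)⁻¹) * y⁻¹ := by
          rw [pow_succ']; group
        rw [e1]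
        exact this
    have e1 : g ^ (e + 1) * z * (g ^ (e + 1))⁻¹ = g * (g ^ e * z * (g ^ e)⁻¹) * g⁻¹ := by
      rw [pow_succ']; group
    have e2 : y ^ (e + 1) * z * (y ^ (e + 1))⁻¹ = y * (y ^ e * z * (y ^ e)⁻¹) * y⁻¹ := by
      rw [pow_succ']; group
    rw [e1, e2, ih z hz, h _ (hmem e z hz)]

/-- Pow 2.  Induction on `e`: `w * x ^ j * w⁻¹ = (w * x * w⁻¹) ^ j` (`conj_pow`), `pow_mul`, `pow_succ`. -/
theorem conj_pow_pow {Q : Type*} [Group Q] (w x : Q) (k : ℕ) (h : w * x * w⁻¹ = x ^ k) (e : ℕ) :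
    w ^ e * x * (w ^ e)⁻¹ = x ^ (k ^ e) := by
  induction e with
  | zero => simp
  | succ e ih =>
    have e1 : w ^ (e + 1) * x * (w ^ (e + 1))⁻¹ = w * (w ^ e * x * (w ^ e)⁻¹) * w⁻¹ := by
      rw [pow_succ']; group
    rw [e1, ih, ← conj_pow, h, ← pow_mul, pow_succ']

/-- Pow 3.  `2 ^ 8 = 7 * 36 + 4`, so `x ^ 4 = x`, `x ^ 3 = 1`, `x = x ^ 7 * ((x ^ 3) ^ 2)⁻¹ = 1`. -/
theorem pow_ne {Q : Type*} [Group Q] (x : Q) (h1 : x ≠ 1) (h7 : x ^ 7 = 1) : x ^ (2 ^ 8) ≠ x := by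
  intro h
  apply h1
  have h2 : x ^ (2 ^ 8) = x ^ 4 := by
    have : (2 : ℕ) ^ 8 = 7 * 36 + 4 := by norm_num
    rw [this, pow_add, pow_mul, h7, one_pow, one_mul]
  rw [h2] at h
  have h3 : x ^ 3 = 1 := by
    have : x ^ 4 = x ^ 3 * x := pow_succ x 3
    rw [this] at h
    exact mul_eq_right.mp h
  have h4 : x ^ 7 = (x ^ 3) ^ 2 * x := by rw [← pow_mul, ← pow_succ]
  rw [h3, one_pow, one_mul] at h4
  rw [← h4, h7]

end Cfsg.Agent.Lib.H22AsPow
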