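import Mathlib

set_option autoImplicit false

/-! PROJECT 2661, piece SylN (pure Mathlib). -/

namespace Cfsg.Agent.Lib.H22AsSylN

open scoped Pointwise

/-- SylN (Frattini argument by hand). -/
theorem sylow_norm {L Q : Type*} [Group L] [Finite L] [Group Q] (p : ℕ) [Fact p.Prime] (φ : L →* Q) (x : Q) (k : ℕ)
    (y₀ : L) (hy : φ y₀ * x * (φ y₀)⁻¹ = x ^ k) (P : Sylow p ↥((Subgroup.zpowers x).comap φ)) :
    ∃ m : ↥((Subgroup.zpowers x).comap φ), ∀ z : ↥((Subgroup.zpowers x).comap φ), z ∈ P →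
      ∃ z' : ↥((Subgroup.zpowers x).comap φ), z' ∈ P ∧ z'.1 = (m.1 * y₀) * z.1 * (m.1 * y₀)⁻¹ := by
  have hnorm : ∀ z : ↥((Subgroup.zpowers x).comap φ),
      y₀ * z.1 * y₀⁻¹ ∈ (Subgroup.zpowers x).comap φ := by
    intro z
    obtain ⟨j, hj⟩ := Subgroup.mem_zpowers_iff.1 (Subgroup.mem_comap.1 z.2)
    rw [Subgroup.mem_comap, map_mul, map_mul, map_inv, ← hj, ← conj_zpow, hy]
    exact Subgroup.zpow_mem _ (Subgroup.pow_mem _ (Subgroup.mem_zpowers x) k) j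
  let c : ↥((Subgroup.zpowers x).comap φ) →* ↥((Subgroup.zpowers x).comap φ) :=
    { toFun := fun z => ⟨y₀ * z.1 * y₀⁻¹, hnorm z⟩
      map_one' := by
        apply Subtype.ext
        simp
      map_mul' := by
        intro a b
        apply Subtype.ext
        simp }
  obtain ⟨P₂, hP₂⟩ := (P.2.map c).exists_le_sylow
  obtain ⟨m, hm⟩ := MulAction.exists_smul_eq ↥((Subgroup.zpowers x).comap φ) P₂ P
  refine ⟨m, fun z hz => ⟨m * c z * m⁻¹, ?_, ?_⟩⟩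
  · have h1 : c z ∈ P₂ := hP₂ ⟨z, hz, rfl⟩
    rw [← hm]
    have h2 : MulAut.conj m • c z ∈ MulAut.conj m • (P₂ : Subgroup _) :=
      Subgroup.smul_mem_pointwise_smul _ _ _ h1
    exact h2
  · show m.1 * (y₀ * z.1 * y₀⁻¹) * m.1⁻¹ = _
    group

end Cfsg.Agent.Lib.H22AsSylN
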