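import Mathlib

set_option autoImplicit false

/-! PROJECT 2661, piece SylS (pure Mathlib). -/

namespace Cfsg.Agent.Lib.H22AsSylS

/-- SylS.  `M = φ⁻¹⟨x⟩`, `ψ : M →* zpowers x` the restriction of `φ` (`MonoidHom.subgroupComap` or `(φ.comp M.subtype).codRestrict`), surjective since `x ∈ range φ`.
`zpowers x` is a `p`-group (`x ^ p = 1`: `IsPGroup.of_card`/ every element `x ^ j` has `(x^j)^p = 1`).  The image of a Sylow `p`-subgroup under a surjection is a Sylow `p`-subgroup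
(`Sylow.mapSurjective`), and the only Sylow `p`-subgroup of a `p`-group is `⊤` (`IsPGroup.sylow_eq_top`?/`Sylow.eq_top..`, or: `IsPGroup.exists_le_sylow` + conjugacy, or index argument).
So `x = ψ z` with `z ∈ P`. -/
theorem sylow_surj {L Q : Type*} [Group L] [Finite L] [Group Q] (p : ℕ) [Fact p.Prime] (φ : L →* Q) (x : Q) (hx : x ^ p = 1)
    (hxr : ∃ x₀, φ x₀ = x) (P : Sylow p ↥((Subgroup.zpowers x).comap φ)) :
    ∃ z : ↥((Subgroup.zpowers x).comap φ), z ∈ P ∧ φ z.1 = x := by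
  obtain ⟨x₀, hx₀⟩ := hxr
  let ψ : ↥((Subgroup.zpowers x).comap φ) →* ↥(Subgroup.zpowers x) := φ.subgroupComap (Subgroup.zpowers x)
  have hψ : ∀ z, ((ψ z : ↥(Subgroup.zpowers x)) : Q) = φ z.1 := fun _ => rfl
  have hsurj : Function.Surjective ψ := by
    rintro ⟨y, j, rfl⟩
    refine ⟨⟨x₀ ^ j, ?_⟩, ?_⟩
    · rw [Subgroup.mem_comap, map_zpow, hx₀]
      exact ⟨j, rfl⟩
    · apply Subtype.ext
      rw [hψ]
      show φ (x₀ ^ j) = x ^ j
      rw [map_zpow, hx₀]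
  have hpg : IsPGroup p ↥(Subgroup.zpowers x) := by
    rintro ⟨y, j, rfl⟩
    refine ⟨1, ?_⟩
    apply Subtype.ext
    show (x ^ j) ^ p ^ 1 = 1
    rw [pow_one, ← zpow_natCast, ← zpow_mul, mul_comm, zpow_mul, zpow_natCast, hx, one_zpow]
  have htop : ((P.mapSurjective hsurj : Sylow p ↥(Subgroup.zpowers x)) : Subgroup ↥(Subgroup.zpowers x)) = ⊤ :=
    ((P.mapSurjective hsurj).is_maximal' (hpg.to_subgroup ⊤) le_top).symm
  rw [Sylow.coe_mapSurjective] at htop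
  have hmem : (⟨x, Subgroup.mem_zpowers x⟩ : ↥(Subgroup.zpowers x)) ∈ (P : Subgroup _).map ψ := by
    rw [htop]; trivial
  obtain ⟨z, hz, e⟩ := hmem
  exact ⟨z, hz, by rw [← hψ, e]⟩

end Cfsg.Agent.Lib.H22AsSylS
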