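import Cfsg.Agent.Lib.Helper22RoDefs

set_option autoImplicit false

/-! PROJECT 2661, piece Tor (only the small vocabulary file Helper22RoDefs). -/

namespace Cfsg.Agent.Lib.H22AsTor

open Cfsg.Agent.Lib.Helper22RoDefs

section
variable {Γ K : Type*} [Group Γ] [Field K] {P : RD Γ K}

theorem conj_mul3 (a b d : Γ) : (a * b) * d * (a * b)⁻¹ = a * (b * d * b⁻¹) * a⁻¹ := by group

theorem actA_mul' {h k : Γ} {a b : K} (hh : P.ActA h a) (hk : P.ActA k b) : P.ActA (h * k) (a * b) := by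
  intro t
  rw [conj_mul3, hk, hh, mul_assoc]

theorem actB_mul' {h k : Γ} {a b : K} (hh : P.ActB h a) (hk : P.ActB k b) : P.ActB (h * k) (a * b) := by
  intro t u
  rw [conj_mul3, hk, hh, map_mul]
  congr 1 <;> ring

theorem actA_pow {h : Γ} {a : K} (hh : P.ActA h a) (j : ℕ) : P.ActA (h ^ j) (a ^ j) := by
  induction j with
  | zero => intro t; simp
  | succ j ih => rw [pow_succ, pow_succ]; exact actA_mul' ih hh

theorem actB_pow {h : Γ} {a : K} (hh : P.ActB h a) (j : ℕ) : P.ActB (h ^ j) (a ^ j) := by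
  induction j with
  | zero => intro t u; simp
  | succ j ih => rw [pow_succ, pow_succ]; exact actB_mul' ih hh

end

/-- Tor. -/
theorem exists_tor {Γ K : Type*} [Group Γ] [Field K] {P : RD Γ K} (hP : P.Ok) (ζ : K) (h1 : ζ ≠ 1) (h7 : ζ ^ 7 = 1) :
    ∃ h ∈ P.H, h ^ 7 = 1 ∧ (∀ x ∈ P.Xa, h * x * h⁻¹ = x → x = 1) ∧ (∀ x ∈ P.Xb, h * x * h⁻¹ = x → x = 1) := by
  have h0 : ζ ≠ 0 := by
    rintro rfl
    norm_num at h7
  obtain ⟨h, hH, hA, hB⟩ := hP.surj ζ ζ h0 h0
  have hxa0 : P.xa 0 = 1 := by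
    have := hP.xa_add 0 0
    rw [add_zero] at this
    exact (mul_eq_left.1 this.symm)
  have hxb0 : P.xb 0 0 = 1 := by
    have := hP.xb_mul 0 0 0 0
    simp only [add_zero, mul_zero] at this
    exact (mul_eq_left.1 this)
  have hζ1 : ζ - 1 ≠ 0 := sub_ne_zero.2 h1
  refine ⟨h, hH, ?_, ?_, ?_⟩
  · apply hP.inj _ (P.H.pow_mem hH 7)
    · have := actA_pow hA 7
      rwa [h7] at this
    · have := actB_pow hB 7
      rwa [h7] at this
  · rintro x ⟨t, rfl⟩ hx
    rw [hA] at hx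
    have h2 := hP.xa_inj _ _ hx
    have h3 : (ζ - 1) * t = 0 := by rw [sub_mul, one_mul, h2, sub_self]
    rcases mul_eq_zero.1 h3 with h4 | h4
    · exact absurd h4 hζ1
    · rw [h4, hxa0]
  · rintro x ⟨t, u, rfl⟩ hx
    rw [hB] at hx
    obtain ⟨h2, h2'⟩ := hP.xb_inj _ _ _ _ hx
    have h3 : (ζ - 1) * t = 0 := by rw [sub_mul, one_mul, h2, sub_self]
    have ht : t = 0 := by
      rcases mul_eq_zero.1 h3 with h4 | h4
      · exact absurd h4 hζ1
      · exact h4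
    have hne : P.θ ζ * ζ - 1 ≠ 0 := by
      intro h5
      have h6 : P.θ ζ * ζ = 1 := sub_eq_zero.1 h5
      have h7' : P.θ ζ = ζ⁻¹ := eq_inv_of_mul_eq_one_left h6
      have h8 : P.θ (P.θ ζ) = ζ := by
        rw [h7', map_inv₀, h7', inv_inv]
      have h9 := hP.θ_sq ζ
      rw [h8] at h9
      have h10 : ζ * (ζ - 1) = 0 := by
        rw [mul_sub, mul_one, ← pow_two, h9, sub_self]
      rcases mul_eq_zero.1 h10 with h11 | h11
      · exact h0 h11
      · exact hζ1 h11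
    have h4 : (P.θ ζ * ζ - 1) * u = 0 := by rw [sub_mul, one_mul, h2', sub_self]
    have hu : u = 0 := by
      rcases mul_eq_zero.1 h4 with h5 | h5
      · exact absurd h5 hne
      · exact h5
    rw [ht, hu, hxb0]

end Cfsg.Agent.Lib.H22AsTor
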