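import Mathlib

set_option autoImplicit false

/-! PROJECT 2661, piece Zeta (pure Mathlib). -/

namespace Cfsg.Agent.Lib.H22AsZeta

/-- Zeta.  `Nat.card Kˣ = 2 ^ n - 1` (`Nat.card_units` / `Fintype.card_units`), Cauchy (`exists_prime_orderOf_dvd_card'`) gives a unit of order `7`. -/
theorem exists_zeta {K : Type*} [Field K] [Finite K] (n : ℕ) (hK : Nat.card K = 2 ^ n) (h7 : 7 ∣ 2 ^ n - 1) :
    ∃ ζ : K, ζ ≠ 1 ∧ ζ ^ 7 = 1 := by
  classical
  haveI := Fintype.ofFinite K
  haveI : Fact (Nat.Prime 7) := ⟨by norm_num⟩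
  have hc : Nat.card Kˣ = 2 ^ n - 1 := by
    rw [Nat.card_eq_fintype_card, Fintype.card_units, ← Nat.card_eq_fintype_card, hK]
  obtain ⟨u, hu⟩ := exists_prime_orderOf_dvd_card' (G := Kˣ) 7 (by rw [hc]; exact h7)
  refine ⟨(u : K), ?_, ?_⟩
  · intro h
    have : u = 1 := Units.ext h
    rw [this, orderOf_one] at hu
    norm_num at hu
  · have := pow_orderOf_eq_one u
    rw [hu] at this
    have h2 := congrArg (fun v : Kˣ => (v : K)) this
    simpa using h2

end Cfsg.Agent.Lib.H22AsZeta
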