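import Mathlib

set_option autoImplicit false

/-! PROJECT 2407, piece Abs (pure Mathlib). -/

namespace Cfsg.Agent.Lib.H22DgAbs

/-- Abs.  `M := closure {h * x1, xa 1 * n}`. -/
theorem two_gen_abs {Γ K : Type*} [Group Γ] [Field K]
    (xa : K → Γ) (hadd : ∀ s t, xa (s + t) = xa s * xa t) (Xb Ya Yb : Subgroup Γ) (x1 h n h₁ : Γ) (ζ z₀ : K)
    (hζ : ∀ t : K, t ≠ 0 → ∃ i : ℕ, t = ζ ^ i) (hζ1 : ζ ≠ 1) (hA : ∀ t, h * xa t * h⁻¹ = xa (ζ * t))
    (hc : h * x1 = x1 * h) (N p : ℕ) (hcop : Nat.Coprime N p) (hh : h ^ N = 1) (hx : x1 ^ p = 1)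
    (hz₀ : z₀ ≠ 0) (hh₁ : n * h * n⁻¹ = h₁) (hcomm : h * h₁ = h₁ * h) (hconj : xa 1 * h₁ * (xa 1)⁻¹ = xa z₀ * h₁)
    (hYa : ∀ y ∈ Ya, ∃ t, n⁻¹ * y * n = xa t)
    (hXb : ∀ M : Subgroup Γ, (∀ t, xa t ∈ M) → Ya ≤ M → x1 ∈ M → Xb ≤ M)
    (hYb : ∀ y ∈ Yb, n⁻¹ * y * n ∈ Xb)
    (hgen : Subgroup.closure (Set.range xa ∪ (Xb : Set Γ) ∪ (Ya : Set Γ) ∪ (Yb : Set Γ)) = ⊤) :
    Subgroup.closure ({h * x1, xa 1 * n} : Set Γ) = ⊤ := by
  set M := Subgroup.closure ({h * x1, xa 1 * n} : Set Γ) with hM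
  have ha : h * x1 ∈ M := Subgroup.subset_closure (by simp)
  have hb : xa 1 * n ∈ M := Subgroup.subset_closure (by simp)
  have hcm : Commute h x1 := hc
  have h1 : x1 ^ N ∈ M := by
    have := M.pow_mem ha N
    rwa [hcm.mul_pow, hh, one_mul] at this
  have hx1 : x1 ∈ M := by
    have hb' := Nat.gcd_eq_gcd_ab N p
    rw [hcop] at hb'
    have e : x1 ^ (((1 : ℕ) : ℤ)) = x1 ^ ((N : ℤ) * Nat.gcdA N p + (p : ℤ) * Nat.gcdB N p) := by
      rw [← hb']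
    rw [Nat.cast_one, zpow_one, zpow_add, zpow_mul, zpow_mul, zpow_natCast, zpow_natCast, hx,
      one_zpow, mul_one] at e
    rw [e]
    exact M.zpow_mem h1 _
  have hh' : h ∈ M := by
    have := M.mul_mem ha (M.inv_mem hx1)
    rwa [mul_inv_cancel_right] at this
  have hx0 : xa 0 = 1 := by
    have := hadd 0 0
    rw [add_zero] at this
    exact left_eq_mul.mp this
  have hxinv : ∀ t, (xa t)⁻¹ = xa (-t) := by
    intro t
    rw [inv_eq_iff_mul_eq_one, ← hadd, add_neg_cancel, hx0]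
  have hd : xa z₀ * h₁ ∈ M := by
    have : xa z₀ * h₁ = (xa 1 * n) * h * (xa 1 * n)⁻¹ := by
      rw [← hconj, ← hh₁]; group
    rw [this]
    exact M.mul_mem (M.mul_mem hb hh') (M.inv_mem hb)
  have hz : xa ((ζ - 1) * z₀) ∈ M := by
    have e0 : xa ((ζ - 1) * z₀) = h * (xa z₀ * h₁) * h⁻¹ * (xa z₀ * h₁)⁻¹ := by
      have e1 : h * (xa z₀ * h₁) * h⁻¹ * (xa z₀ * h₁)⁻¹
          = (h * xa z₀ * h⁻¹) * (h * h₁ * h⁻¹ * h₁⁻¹) * (xa z₀)⁻¹ := by group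
      rw [e1, hA, hcomm, mul_inv_cancel_right, mul_inv_cancel, mul_one, hxinv, ← hadd]
      congr 1
      ring
    rw [e0]
    exact M.mul_mem (M.mul_mem (M.mul_mem hh' hd) (M.inv_mem hh')) (M.inv_mem hd)
  have hpow : ∀ i : ℕ, ∀ t, xa t ∈ M → xa (ζ ^ i * t) ∈ M := by
    intro i
    induction i with
    | zero => intro t ht; simpa using ht
    | succ i ih =>
      intro t ht
      have h2 := M.mul_mem (M.mul_mem hh' (ih t ht)) (M.inv_mem hh')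
      rw [hA] at h2
      have e : ζ ^ (i + 1) * t = ζ * (ζ ^ i * t) := by ring
      rw [e]
      exact h2
  have hall : ∀ t, xa t ∈ M := by
    intro t
    by_cases ht : t = 0
    · rw [ht, hx0]; exact M.one_mem
    · have hz0 : (ζ - 1) * z₀ ≠ 0 := mul_ne_zero (sub_ne_zero.mpr hζ1) hz₀
      obtain ⟨i, hi⟩ := hζ (t / ((ζ - 1) * z₀)) (div_ne_zero ht hz0)
      have := hpow i _ hz
      rw [← hi, div_mul_cancel₀ _ hz0] at this
      exact this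
  have hn : n ∈ M := by
    have := M.mul_mem (M.inv_mem (hall 1)) hb
    rwa [inv_mul_cancel_left] at this
  have hYaM : Ya ≤ M := by
    intro y hy
    obtain ⟨t, ht⟩ := hYa y hy
    have : y = n * (n⁻¹ * y * n) * n⁻¹ := by group
    rw [this, ht]
    exact M.mul_mem (M.mul_mem hn (hall t)) (M.inv_mem hn)
  have hXbM := hXb M hall hYaM hx1
  have hYbM : Yb ≤ M := by
    intro y hy
    have : y = n * (n⁻¹ * y * n) * n⁻¹ := by group
    rw [this]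
    exact M.mul_mem (M.mul_mem hn (hXbM (hYb y hy))) (M.inv_mem hn)
  rw [eq_top_iff, ← hgen, Subgroup.closure_le]
  rintro x (((⟨t, rfl⟩ | hx) | hx) | hx)
  · exact hall t
  · exact hXbM hx
  · exact hYaM hx
  · exact hYbM hx

end Cfsg.Agent.Lib.H22DgAbs
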