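import Mathlib

set_option autoImplicit false

/-! PROJECT 2407, piece Ar (pure Mathlib). -/

namespace Cfsg.Agent.Lib.H22DgAr

theorem coprime_aux {q e m : ℕ} (hq : 2 ≤ q) (he : e + 3 = q ^ 2 + q) (hm : m + 1 = q ^ 3) :
    Nat.Coprime e m := by
  have heZ : (e : ℤ) = (q : ℤ) ^ 2 + q - 3 := by
    have : (e : ℤ) + 3 = (q : ℤ) ^ 2 + q := by exact_mod_cast he
    linarith
  have hmZ : (m : ℤ) = (q : ℤ) ^ 3 - 1 := by
    have : (m : ℤ) + 1 = (q : ℤ) ^ 3 := by exact_mod_cast hm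
    linarith
  have h1 : ((Nat.gcd e m : ℕ) : ℤ) ∣ (e : ℤ) := Int.natCast_dvd_natCast.mpr (Nat.gcd_dvd_left e m)
  have h2 : ((Nat.gcd e m : ℕ) : ℤ) ∣ (m : ℤ) := Int.natCast_dvd_natCast.mpr (Nat.gcd_dvd_right e m)
  have h4 : ((Nat.gcd e m : ℕ) : ℤ) ∣ ((4 : ℕ) : ℤ) := by
    have : ((4 : ℕ) : ℤ) = (((q : ℤ) + 2) * (1 - q) - 4) * e + ((q : ℤ) + 2) * m := by
      rw [heZ, hmZ]; push_cast; ring
    rw [this]
    exact dvd_add (Dvd.dvd.mul_left h1 _) (Dvd.dvd.mul_left h2 _)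
  have h4' : Nat.gcd e m ∣ 4 := Int.natCast_dvd_natCast.mp h4
  have hodd : Odd e := by
    obtain ⟨k, hk⟩ := Nat.even_mul_succ_self q
    have h5 : q ^ 2 + q = k + k := by rw [← hk]; ring
    have h6 : 6 ≤ q ^ 2 + q := by nlinarith
    exact ⟨k - 2, by omega⟩
  have hc4 : Nat.Coprime e 4 := by
    have : Nat.Coprime e (2 ^ 2) := Nat.Coprime.pow_right 2 (Nat.coprime_two_right.mpr hodd)
    simpa using this
  have h7 : Nat.gcd e m ∣ Nat.gcd e 4 := Nat.dvd_gcd (Nat.gcd_dvd_left e m) h4'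
  rw [hc4] at h7
  exact Nat.dvd_one.mp h7

/-- Ar. -/
theorem exists_s {K : Type*} [Field K] [Fintype K] {q : ℕ} (hq : 2 ≤ q) (hK : Fintype.card K = q ^ 3) :
    ∃ s : K, s ≠ 0 ∧ (∀ t : K, t ≠ 0 → ∃ i : ℕ, t = (s ^ 4 * (s * s ^ q * s ^ (q ^ 2))⁻¹) ^ i) ∧
      s ^ 4 * (s * s ^ q * s ^ (q ^ 2))⁻¹ ≠ 1 := by
  classical
  obtain ⟨g, hg⟩ := IsCyclic.exists_generator (α := Kˣ)
  have h8 : 8 ≤ q ^ 3 := by
    calc 8 = 2 ^ 3 := by norm_num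
      _ ≤ q ^ 3 := Nat.pow_le_pow_left hq 3
  have hord : orderOf g = Nat.card Kˣ := orderOf_eq_card_of_forall_mem_zpowers hg
  have hcard : Nat.card Kˣ + 1 = q ^ 3 := by
    rw [Nat.card_eq_fintype_card, Fintype.card_units, hK]
    omega
  have h6 : 6 ≤ q ^ 2 + q := by nlinarith
  obtain ⟨e, he⟩ : ∃ e, e + 3 = q ^ 2 + q := ⟨q ^ 2 + q - 3, by omega⟩
  have hcop := coprime_aux hq he hcard
  set ζ : Kˣ := g ^ 4 * (g * g ^ q * g ^ (q ^ 2))⁻¹ with hζ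
  have hζe : ζ = (g ^ e)⁻¹ := by
    rw [eq_inv_iff_mul_eq_one, hζ]
    have e1 : g * g ^ q * g ^ (q ^ 2) = g ^ (1 + q + q ^ 2) := by
      rw [pow_add, pow_add, pow_one]
    have e2 : g ^ (1 + q + q ^ 2) = g ^ e * g ^ 4 := by
      rw [← pow_add]; congr 1; omega
    rw [e1, e2, mul_inv_rev]
    have hcm : Commute (g ^ 4) (g ^ e) := (Commute.refl g).pow_pow 4 e
    group
  have hordζ : orderOf ζ = Nat.card Kˣ := by
    rw [hζe, orderOf_inv, Nat.Coprime.orderOf_pow (by rw [hord]; exact hcop.symm), hord]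
  have htop : Subgroup.zpowers ζ = ⊤ := by
    apply Subgroup.eq_top_of_card_eq
    rw [Nat.card_zpowers, hordζ]
  have hval : ((ζ : Kˣ) : K) = (g : K) ^ 4 * ((g : K) * (g : K) ^ q * (g : K) ^ (q ^ 2))⁻¹ := by
    rw [hζ]
    simp
  refine ⟨(g : K), g.ne_zero, ?_, ?_⟩
  · intro t ht
    have h1 : Units.mk0 t ht ∈ Subgroup.zpowers ζ := by rw [htop]; trivial
    rw [← mem_powers_iff_mem_zpowers] at h1
    obtain ⟨i, hi⟩ := h1
    refine ⟨i, ?_⟩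
    rw [← hval, ← Units.val_pow_eq_pow_val]
    have hi' : ζ ^ i = Units.mk0 t ht := hi
    rw [hi', Units.val_mk0]
  · rw [← hval]
    intro h1
    have h2 : ζ = 1 := Units.ext h1
    rw [h2, orderOf_one] at hordζ
    omega

end Cfsg.Agent.Lib.H22DgAr
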