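import Cfsg.Agent.Lib.LeadTwDefs2

set_option autoImplicit false

/-! PROJECT 2407, piece Lnk (vocabulary: `LeadTwDefs.TA`, `TA.Ok`; 60 lines at the end of LeadTwDefs.lean). -/

namespace Cfsg.Agent.Lib.H22DgLnk

open Cfsg.Agent.Lib.LeadTwDefs

variable {Γ F J : Type*} [Group Γ] [Field F] {P : TA Γ F J}

/-- Lnk.  `g = P.x j1 u`, `u ∈ P.A j1`.  `u = 0`: `P.x j1 0 = 1` (`hP.x_add j1 0 _ 0 _`, `zero_mem`).  `u ≠ 0`: `hsurj` gives `a`.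
`P.n j0 b = P.x j0 b * P.y j0 (-b⁻¹) * P.x j0 b ∈ M` for `b ∈ P.A j0` (`hx _ ⟨b, hb, rfl⟩`, `hy _ ⟨-b⁻¹, neg_mem (inv_mem hb), rfl⟩`), so `P.h j0 a = P.n j0 a * (P.n j0 1)⁻¹ ∈ M` (`one_mem`).
`hP.h_x j0 j1 a ha ha0 1 (one_mem _) : P.h j0 a * P.x j1 1 * (P.h j0 a)⁻¹ = P.x j1 (P.χ j0 j1 a * 1)`. -/
theorem Xb_le (hP : P.Ok) (j0 j1 : J) (hsurj : ∀ u ∈ P.A j1, u ≠ 0 → ∃ a ∈ P.A j0, a ≠ 0 ∧ P.χ j0 j1 a = u) (M : Subgroup Γ)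
    (hx : ∀ g ∈ P.X j0, g ∈ M) (hy : ∀ g ∈ P.Y j0, g ∈ M) (h1 : P.x j1 1 ∈ M) : ∀ g ∈ P.X j1, g ∈ M := by
  rintro g ⟨u, hu, rfl⟩
  by_cases hu0 : u = 0
  · subst hu0
    have h0 := hP.x_add j1 0 (zero_mem _) 0 (zero_mem _)
    rw [add_zero] at h0
    have h2 : P.x j1 0 = 1 := by
      have h3 : P.x j1 0 * 1 = P.x j1 0 * P.x j1 0 := by rw [mul_one]; exact h0
      exact (mul_left_cancel h3).symm
    rw [h2]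
    exact one_mem _
  · obtain ⟨a, ha, ha0, hau⟩ := hsurj u hu hu0
    have hn : ∀ b ∈ P.A j0, P.n j0 b ∈ M := by
      intro b hb
      unfold TA.n
      exact M.mul_mem (M.mul_mem (hx _ ⟨b, hb, rfl⟩) (hy _ ⟨-b⁻¹, neg_mem (inv_mem hb), rfl⟩))
        (hx _ ⟨b, hb, rfl⟩)
    have hh : P.h j0 a ∈ M := by
      unfold TA.h
      exact M.mul_mem (hn a ha) (M.inv_mem (hn 1 (one_mem _)))
    have h2 := hP.h_x j0 j1 a ha ha0 1 (one_mem _)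
    rw [hau, mul_one] at h2
    rw [← h2]
    exact M.mul_mem (M.mul_mem hh h1) (M.inv_mem hh)

end Cfsg.Agent.Lib.H22DgLnk
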