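import Mathlib

set_option autoImplicit false

/-! PROJECT 2407, piece Nm (pure Mathlib). -/

namespace Cfsg.Agent.Lib.H22DgNm

/-- Nm (the norm `F_{q³} → F_q` is onto). -/
theorem norm_surj {K : Type*} [Field K] [Fintype K] {q : ℕ} (hq : 2 ≤ q) (hK : Fintype.card K = q ^ 3) :
    ∀ u : K, u ^ q = u → u ≠ 0 → ∃ a : K, a ≠ 0 ∧ (a * a ^ q * a ^ (q ^ 2))⁻¹ = u := by
  classical
  intro u hu hu0
  obtain ⟨g, hg⟩ := IsCyclic.exists_generator (α := Kˣ)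
  have hord : orderOf g = q ^ 3 - 1 := by
    rw [orderOf_eq_card_of_forall_mem_zpowers hg, Nat.card_eq_fintype_card, Fintype.card_units, hK]
  obtain ⟨k, hk⟩ : ∃ k : ℕ, g ^ k = Units.mk0 u hu0 := by
    have := hg (Units.mk0 u hu0)
    rw [← mem_powers_iff_mem_zpowers] at this
    exact this
  have hu1 : (Units.mk0 u hu0) ^ (q - 1) = 1 := by
    apply Units.ext
    rw [Units.val_pow_eq_pow_val, Units.val_mk0, Units.val_one]
    have h1 : u ^ (q - 1) * u = 1 * u := by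
      rw [← pow_succ, Nat.sub_add_cancel (by omega), hu, one_mul]
    exact mul_right_cancel₀ hu0 h1
  have hdvd : q ^ 3 - 1 ∣ k * (q - 1) := by
    rw [← hord, orderOf_dvd_iff_pow_eq_one, pow_mul, hk, hu1]
  have hfac : q ^ 3 - 1 = (q ^ 2 + q + 1) * (q - 1) := by
    obtain ⟨r, rfl⟩ : ∃ r, q = r + 1 := ⟨q - 1, by omega⟩
    have : (r + 1) ^ 3 = ((r + 1) ^ 2 + (r + 1) + 1) * r + 1 := by ring
    rw [this]; simp
  rw [hfac] at hdvd
  have hdvd' : q ^ 2 + q + 1 ∣ k := Nat.dvd_of_mul_dvd_mul_right (by omega) hdvd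
  obtain ⟨k', rfl⟩ := hdvd'
  refine ⟨(((g ^ k')⁻¹ : Kˣ) : K), Units.ne_zero _, ?_⟩
  have h2 : ((((g ^ k')⁻¹ : Kˣ) : K) * (((g ^ k')⁻¹ : Kˣ) : K) ^ q * (((g ^ k')⁻¹ : Kˣ) : K) ^ (q ^ 2))
      = (((g ^ k')⁻¹ : Kˣ) : K) ^ (q ^ 2 + q + 1) := by ring
  rw [h2, ← Units.val_pow_eq_pow_val, ← Units.val_inv_eq_inv_val, inv_pow, inv_inv, ← pow_mul, mul_comm k', hk]
  rfl

end Cfsg.Agent.Lib.H22DgNm
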