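import Cfsg.Agent.Lib.LeadTwDefs2

set_option autoImplicit false

/-! PROJECT 2407, piece Tor (vocabulary: `LeadTwDefs.TA`, `TA.Ok`, `Lk`; 60 lines at the end of LeadTwDefs.lean + LeadTwDefs2.lean). -/

namespace Cfsg.Agent.Lib.H22DgTor

open Cfsg.Agent.Lib.LeadTwDefs

variable {Γ F J : Type*} [Group Γ] [Field F] {P : TA Γ F J}

/-- Tor.  Put `c := P.χ j0 j1 s`, `u := c⁻¹`.  `c ≠ 0`: `c * P.χ j0 j1 s⁻¹ = P.χ j0 j1 (s * s⁻¹) = P.χ j0 j1 1 = 1` (`hP.χ_mul`, `hP.χ_one`; `s⁻¹ ∈ P.A j0`: `inv_mem`).  `c ∈ P.A j1` (`hP.χ_mem`), `u ∈ P.A j1`, `u ≠ 0`.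
On `x j0 t`: `hP.h_x j1 j0 u _ _ t ht` gives `P.x j0 (P.χ j1 j0 u * t)`, `P.χ j1 j0 u = u⁻¹ = c` (`hLk u _ _`), `c * t ∈ P.A j0` (`hP.χ_mem j1 j0 u`, `mul_mem`); then `hP.h_x j0 j0 (s ^ 2)` and `hP.χ_self j0 (s ^ 2) : χ = (s ^ 2) ^ 2`.
On `x j1 v`: `hP.h_x j1 j1 u`, `hP.χ_self j1 u : χ = u ^ 2`; then `hP.h_x j0 j1 (s ^ 2)`, `P.χ j0 j1 (s ^ 2) = c * c` (`sq`, `hP.χ_mul`); `c * c * (u ^ 2 * v) = v` (`field_simp`).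
`(a * b) * g * (a * b)⁻¹ = a * (b * g * b⁻¹) * a⁻¹` by `group`. -/
theorem tor_act (hP : P.Ok) (j0 j1 : J) (hLk : Lk P j1 j0) {s : F} (hs : s ≠ 0) (hs0 : s ∈ P.A j0) :
    (∀ t ∈ P.A j0, (P.h j0 (s ^ 2) * P.h j1 (P.χ j0 j1 s)⁻¹) * P.x j0 t * (P.h j0 (s ^ 2) * P.h j1 (P.χ j0 j1 s)⁻¹)⁻¹ =
      P.x j0 (s ^ 4 * P.χ j0 j1 s * t)) ∧
    (∀ v ∈ P.A j1, (P.h j0 (s ^ 2) * P.h j1 (P.χ j0 j1 s)⁻¹) * P.x j1 v * (P.h j0 (s ^ 2) * P.h j1 (P.χ j0 j1 s)⁻¹)⁻¹ =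
      P.x j1 v) ∧ (P.χ j0 j1 s)⁻¹ ∈ P.A j1 ∧ (P.χ j0 j1 s)⁻¹ ≠ 0 := by
  have hc0 : P.χ j0 j1 s ≠ 0 := by
    intro h0
    have h1 := hP.χ_mul j0 j1 s hs0 s⁻¹ (inv_mem hs0)
    rw [mul_inv_cancel₀ hs, hP.χ_one, h0, zero_mul] at h1
    exact one_ne_zero h1
  have hcm : P.χ j0 j1 s ∈ P.A j1 := hP.χ_mem j0 j1 s hs0
  have hum : (P.χ j0 j1 s)⁻¹ ∈ P.A j1 := inv_mem hcm
  have hu0 : (P.χ j0 j1 s)⁻¹ ≠ 0 := inv_ne_zero hc0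
  have hs2 : s ^ 2 ∈ P.A j0 := pow_mem hs0 2
  have hs20 : s ^ 2 ≠ 0 := pow_ne_zero 2 hs
  have hconj : ∀ a b g : Γ, (a * b) * g * (a * b)⁻¹ = a * (b * g * b⁻¹) * a⁻¹ := by
    intro a b g
    group
  refine ⟨fun t ht => ?_, fun v hv => ?_, hum, hu0⟩
  · rw [hconj, hP.h_x j1 j0 _ hum hu0 t ht, hLk _ hum hu0, inv_inv]
    have hcm0 : P.χ j0 j1 s ∈ P.A j0 := by
      have h1 := hP.χ_mem j1 j0 _ hum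
      rwa [hLk _ hum hu0, inv_inv] at h1
    rw [hP.h_x j0 j0 _ hs2 hs20 _ (mul_mem hcm0 ht), hP.χ_self j0 _ hs2]
    congr 1
    ring
  · rw [hconj, hP.h_x j1 j1 _ hum hu0 v hv, hP.χ_self j1 _ hum,
      hP.h_x j0 j1 _ hs2 hs20 _ (mul_mem (pow_mem hum 2) hv), sq s, hP.χ_mul j0 j1 s hs0 s hs0]
    congr 1
    field_simp

end Cfsg.Agent.Lib.H22DgTor
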