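import Cfsg.Agent.Lib.Helper22SlHom

set_option autoImplicit false

/-! PROJECT 1098, piece Ord. -/

namespace Cfsg.Agent.Lib.H22GrOrd

open Matrix Cfsg.Agent.Lib.Helper43R1 Cfsg.Agent.Lib.H22SlDefs

/-- Ord: the product `x(1) y(-1)` has cube one in characteristic two. -/
theorem r1_cube {K P : Type*} [Field K] [Group P] (R : R1 K P) (hm : HMul R) (h2 : (2 : K) = 0) :
    (R.x 1 * R.y (-1)) ^ 3 = 1 := by
  obtain ⟨f, hx, hy, -⟩ := Helper22SlHom.r1_hom_gen R hm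
  let X : SpecialLinearGroup (Fin 2) K := ⟨!![1, 1; 0, 1], by simp [det_fin_two]⟩
  let Y : SpecialLinearGroup (Fin 2) K := ⟨!![1, 0; -1, 1], by simp [det_fin_two]⟩
  have hX : f X = R.x 1 := hx 1 X rfl
  have hY : f Y = R.y (-1) := hy (-1) Y rfl
  have h3 : (X * Y) ^ 3 = 1 := by
    apply Subtype.ext
    show ((!![1, 1; 0, 1] : Matrix (Fin 2) (Fin 2) K) * !![1, 0; -1, 1]) ^ 3 = 1
    rw [pow_succ, pow_succ, pow_one]
    ext i j
    fin_cases i <;> fin_cases j <;>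
      simp [Matrix.mul_apply, Fin.sum_univ_two] <;> linear_combination (-1 : K) * h2
  rw [← hX, ← hY, ← map_mul, ← map_pow, h3, map_one]

end Cfsg.Agent.Lib.H22GrOrd
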