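import Cfsg.Agent.S1027
import Cfsg.Agent.Lib.Helper23All

set_option autoImplicit false

/-! PROJECT 1098, piece P2. -/

namespace Cfsg.Agent.Lib.H22GrP2

open Cfsg.Lie Cfsg.Lie.ChevalleyDatum Cfsg.Agent.Lib.Helper23RG Cfsg.Agent.Lib.Helper23Chev Cfsg.Agent.Lib.Helper23Table

/-- P2.  Over a field with two elements the Borel subgroup `B = U ⊔ H` is a 2-group. -/
theorem B_pow {K : Type*} [Field K] {D : ChevalleyDatum} (hD : D ∈ [chevG2, chevB2, chevD4, chevF4, chevE6, chevE7, chevE8])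
    (hK : ∀ x : K, x = 0 ∨ x = 1) : ∀ b ∈ D.borelSubgroup K, ∃ k : ℕ, b ^ (2 ^ k) = 1 := by
  classical
  intro b hb
  have hT := Cfsg.Agent.Lib.Helper23All.tab hD
  have hR : Rel D K := Cfsg.Agent.Lib.Helper23All.rel hD
  have hH : D.diagonalSubgroup K = ⊥ := by
    rw [← H_eq hT hR]
    unfold RG.H
    rw [Subgroup.closure_eq_bot_iff]
    rintro g ⟨r, t, ht, rfl⟩
    have h1 : t = 1 := (hK t).resolve_left ht
    rw [h1, RG.hE_one (rg_ok hT hR)]
    rfl
  have hb' : b ∈ D.posUnipotent K := by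
    unfold borelSubgroup at hb
    rwa [hH, sup_bot_eq] at hb
  let _ : Fintype K := ⟨{0, 1}, fun x => by rcases hK x with rfl | rfl <;> simp⟩
  have hc : Fintype.card K = 2 := Finset.card_pair zero_ne_one
  have h1 := Cfsg.Agent.S1027.result (F := K) D hD
  rw [hc] at h1
  have hp : IsPGroup 2 (D.posUnipotent K) := IsPGroup.of_card h1
  obtain ⟨k, hk⟩ := hp ⟨b, hb'⟩
  exact ⟨k, by simpa using congrArg Subtype.val hk⟩

end Cfsg.Agent.Lib.H22GrP2
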