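import Cfsg.Agent.Lib.Helper22Iso2

set_option autoImplicit false

/-! PROJECT 1098, piece Wit. -/

namespace Cfsg.Agent.Lib.H22GrWit

open Subgroup Cfsg.Lie Cfsg.Lie.ChevalleyDatum Cfsg.Agent.Lib.Helper22ChevEngine Cfsg.Agent.Lib.Helper22ChevFast
  Cfsg.Agent.Lib.Helper22ChevBasic Cfsg.Agent.Lib.Helper22ChevGr Cfsg.Agent.Lib.Helper23Chev
  Cfsg.Agent.Lib.Helper23Table Cfsg.Agent.Lib.Helper23RG Cfsg.Agent.Lib.Helper23RG.RG Cfsg.Agent.Lib.Helper22Iso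

variable {K : Type*} [Field K] {D : ChevalleyDatum} {pT : ℕ}

/-- Wit. -/
theorem wit (hT : TableOK D) (hR : Rel D K) (i i' : ℕ) (hi : i < D.rank) (hi' : i' < D.rank) (h0 : gS pT (D.simple i) = 0)
    (h1 : gW pT (D.simple i) = D.simple i') (h3 : D.reflectRoot i' (D.simple i') ≠ D.simple i') :
    ((rg hT hR).x ((rg hT hR).simple ⟨i', hi'⟩) 1 * (rg hT hR).x ((rg hT hR).neg ((rg hT hR).simple ⟨i', hi'⟩)) (-1) :
      GL D.Idx K).val * pMat K D pT ≠ pMat K D pT := by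
  intro hm
  have hs1 := hT.simple_lt i hi
  have hs2 := hT.simple_lt i' hi'
  have e := congrFun (congrFun hm (Sum.inr ⟨D.simple i', hs2⟩)) (Sum.inr ⟨D.simple i, hs1⟩)
  rw [mul_pMat_apply _ _ _ (Sum.inr ⟨D.simple i', hs2⟩) (by show gS pT (D.simple i) ≠ 1; rw [h0]; simp)
    (by show gW pT (D.simple i) = D.simple i'; exact h1)] at e
  have hp : pMat K D pT (Sum.inr ⟨D.simple i', hs2⟩) (Sum.inr ⟨D.simple i, hs1⟩) = 1 := by
    simp only [pMat, Matrix.of_apply]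
    rw [if_pos]
    exact ⟨by show gS pT (D.simple i) ≠ 1; rw [h0]; simp, h1⟩
  rw [hp] at e
  have hn : ((rg hT hR).nn ⟨i', hi'⟩ : GL D.Idx K).val =
      ((rg hT hR).x ((rg hT hR).simple ⟨i', hi'⟩) 1 *
        (rg hT hR).x ((rg hT hR).neg ((rg hT hR).simple ⟨i', hi'⟩)) (-1) : GL D.Idx K).val *
        ((rg hT hR).x ((rg hT hR).simple ⟨i', hi'⟩) 1 : GL D.Idx K).val := by
    rw [← Units.val_mul]
    unfold RG.nn RG.nE
    rw [inv_one]
  have hcol : ∀ row : D.Idx, ((rg hT hR).x ((rg hT hR).simple ⟨i', hi'⟩) 1 : GL D.Idx K).val row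
      (Sum.inr ⟨D.simple i', hs2⟩) = if row = Sum.inr ⟨D.simple i', hs2⟩ then 1 else 0 := by
    intro row
    have e1 : ((rg hT hR).x ((rg hT hR).simple ⟨i', hi'⟩) 1 : GL D.Idx K).val = D.x K (D.simple i') 1 :=
      coe_xg hR _ _
    rw [e1]
    unfold ChevalleyDatum.x
    rw [dif_pos hs2]
    simp only [xMat, Matrix.of_apply, if_true]
    rcases row with u | u
    · simp
    · simp
  have h4 : ((rg hT hR).nn ⟨i', hi'⟩ : GL D.Idx K).val (Sum.inr ⟨D.simple i', hs2⟩)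
      (Sum.inr ⟨D.simple i', hs2⟩) = 1 := by
    rw [hn, Matrix.mul_apply, Finset.sum_eq_single (Sum.inr ⟨D.simple i', hs2⟩)]
    · rw [hcol, if_pos rfl, mul_one, e]
    · intro b _ hb
      rw [hcol, if_neg hb, mul_zero]
    · intro h; exact absurd (Finset.mem_univ _) h
  rw [coe_nn, (hR.nshape i' hi').2.2 ⟨D.simple i', hs2⟩ ⟨D.simple i', hs2⟩ (fun e => h3 e.symm)] at h4
  exact zero_ne_one h4

end Cfsg.Agent.Lib.H22GrWit
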