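import Cfsg.Agent.Lib.Helper22RoDefs

set_option autoImplicit false

/-! PROJECT 2128 (S2128), piece A1. -/

namespace Cfsg.Agent.Lib.H22RoA1

/-- A1. -/
theorem semilin {K : Type*} [Field K] [Finite K] (f : K → K) (hadd : ∀ s t, f (s + t) = f s + f t)
    (hinj : ∀ t, f t = 0 → t = 0) (hs : ∀ a, a ≠ 0 → ∃ a', ∀ t, f (a * t) = a' * f t) :
    ∃ (c : K) (σ : K ≃+* K), c ≠ 0 ∧ ∀ t, f t = c * σ t := by
  have hc : f 1 ≠ 0 := fun h => one_ne_zero (hinj 1 h)
  have h0 : f 0 = 0 := by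
    have := hadd 0 0
    rw [add_zero] at this
    exact left_eq_add.mp this
  have hmul : ∀ a t, (f 1)⁻¹ * f (a * t) = ((f 1)⁻¹ * f a) * ((f 1)⁻¹ * f t) := by
    intro a t
    by_cases ha : a = 0
    · rw [ha, zero_mul, h0]
      ring
    · obtain ⟨a', ha'⟩ := hs a ha
      have h1 := ha' 1
      rw [mul_one] at h1
      rw [ha' t, h1]
      field_simp
  let φ : K →+* K :=
    { toFun := fun t => (f 1)⁻¹ * f t
      map_one' := inv_mul_cancel₀ hc
      map_mul' := hmul
      map_zero' := by rw [h0, mul_zero]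
      map_add' := fun s t => by rw [hadd, mul_add] }
  have hbij : Function.Bijective φ := Finite.injective_iff_bijective.mp φ.injective
  refine ⟨f 1, RingEquiv.ofBijective φ hbij, hc, fun t => ?_⟩
  rw [RingEquiv.ofBijective_apply]
  show f t = f 1 * ((f 1)⁻¹ * f t)
  rw [mul_inv_cancel_left₀ hc]

end Cfsg.Agent.Lib.H22RoA1
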