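import Cfsg.Agent.Lib.Helper22RoDefs

set_option autoImplicit false

/-! PROJECT 2128 (S2128), piece A2. -/

namespace Cfsg.Agent.Lib.H22RoA2

/-- A2. -/
theorem fb_alg {K : Type*} [Field K] [Finite K] (θ : K ≃+* K) (two : (2 : K) = 0) (θ_pow : ∃ e : ℕ, ∀ t, θ t = t ^ e)
    (θ_sq : ∀ t, θ (θ t) ^ 2 = t) (θ_ne : ∃ ζ, θ ζ ≠ ζ) (φ γ g : K → K)
    (h1 : ∀ s t, φ (s + t) = φ s + φ t) (h2 : ∀ t, φ t = 0 → t = 0) (h3 : ∀ u v, g (u + v) = g u + g v)
    (h4 : ∀ s t, γ (s + t) + g (θ s * t) = γ s + γ t + θ (φ s) * φ t)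
    (h5 : ∀ b, b ≠ 0 → ∃ b', b' ≠ 0 ∧ (∀ t, φ (b * t) = b' * φ t) ∧ (∀ t, γ (b * t) = θ b' * b' * γ t) ∧
      ∀ u, g (θ b * b * u) = θ b' * b' * g u)
    (hsl : ∀ f : K → K, (∀ s t, f (s + t) = f s + f t) → (∀ t, f t = 0 → t = 0) →
      (∀ a, a ≠ 0 → ∃ a', ∀ t, f (a * t) = a' * f t) → ∃ (c : K) (σ : K ≃+* K), c ≠ 0 ∧ ∀ t, f t = c * σ t) :
    ∃ (d : K) (σ : K ≃+* K), d ≠ 0 ∧ (∀ t, φ t = d * σ t) ∧ (∀ t, γ t = 0) ∧ ∀ u, g u = θ d * d * σ u := by
  have tw : ∀ x : K, x + x = 0 := fun x => by linear_combination x * two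
  obtain ⟨d, σ, hd, hφ⟩ := hsl φ h1 h2 (fun a ha => by
    obtain ⟨b', -, hb', -⟩ := h5 a ha
    exact ⟨b', hb'⟩)
  obtain ⟨e, he⟩ := θ_pow
  have hθσ : ∀ t, θ (σ t) = σ (θ t) := fun t => by rw [he, he, map_pow]
  have hg0 : g 0 = 0 := by
    have := h3 0 0
    rw [add_zero] at this
    exact left_eq_add.mp this
  have hφ0 : φ 0 = 0 := by rw [hφ, map_zero, mul_zero]
  have hγ0 : γ 0 = 0 := by
    have := h4 0 0
    rw [add_zero, mul_zero, hg0, hφ0, mul_zero, add_zero, add_zero] at this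
    exact left_eq_add.mp this
  -- (2)
  have hg1 : ∀ t, g (θ t * t) = θ d * d * σ (θ t * t) := by
    intro t
    have := h4 t t
    rw [tw, tw, hγ0, zero_add, zero_add, hφ, map_mul, hθσ] at this
    rw [this, map_mul]
    ring
  -- (3)
  have hθ0 : ∀ t, θ t = 0 ↔ t = 0 := fun t => map_eq_zero_iff θ θ.injective
  have hinj : Function.Injective (fun t : K => θ t * t) := by
    intro s t hst
    simp only at hst
    by_cases ht : t = 0
    · rw [ht, mul_zero] at hst
      rcases mul_eq_zero.mp hst with h | h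
      · rw [(hθ0 s).mp h, ht]
      · rw [h, ht]
    · have hθt : θ t ≠ 0 := fun h => ht ((hθ0 t).mp h)
      set ζ := s / t with hζ
      have h6 : θ ζ * ζ = 1 := by
        rw [hζ, map_div₀]
        field_simp
        exact hst
      have hζ0 : ζ ≠ 0 := by
        intro h
        rw [h, mul_zero] at h6
        exact zero_ne_one h6
      have h7 : θ ζ = ζ⁻¹ := eq_inv_of_mul_eq_one_left h6
      have h8 : θ (θ ζ) = ζ := by rw [h7, map_inv₀, h7, inv_inv]
      have h9 := θ_sq ζ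
      rw [h8] at h9
      have h10 : ζ = 1 := by
        have : ζ * (ζ - 1) = 0 := by linear_combination h9
        rcases mul_eq_zero.mp this with h | h
        · exact absurd h hζ0
        · exact sub_eq_zero.mp h
      rw [hζ] at h10
      exact (div_eq_one_iff_eq ht).mp h10
  have hsurj : Function.Surjective (fun t : K => θ t * t) := Finite.injective_iff_surjective.mp hinj
  have hg : ∀ u, g u = θ d * d * σ u := by
    intro u
    obtain ⟨t, rfl⟩ := hsurj u
    exact hg1 t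
  -- (4)
  have hγadd : ∀ s t, γ (s + t) = γ s + γ t := by
    intro s t
    have := h4 s t
    rw [hg, hφ, hφ, map_mul σ, map_mul θ, hθσ] at this
    linear_combination this
  -- (5)
  have hγb : ∀ b, b ≠ 0 → γ b = σ (θ b * b) * γ 1 := by
    intro b hb
    obtain ⟨b', hb', e1, e2, -⟩ := h5 b hb
    have h6 := e1 1
    rw [mul_one, hφ, hφ, map_one, mul_one] at h6
    have h7 : b' = σ b := by
      have : d * (σ b - b') = 0 := by linear_combination h6
      rcases mul_eq_zero.mp this with h | h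
      · exact absurd h hd
      · exact (sub_eq_zero.mp h).symm
    have h8 := e2 1
    rw [mul_one, h7, hθσ] at h8
    rw [h8, map_mul]
  obtain ⟨ζ, hζ⟩ := θ_ne
  have hζ0 : ζ ≠ 0 := by
    rintro rfl
    exact hζ (map_zero θ)
  have hζ1 : ζ + 1 ≠ 0 := by
    intro h
    have : ζ = 1 := by linear_combination h - tw 1
    rw [this] at hζ
    exact hζ (map_one θ)
  have hγ1 : γ 1 = 0 := by
    have h6 := hγadd ζ 1
    rw [hγb _ hζ1, hγb _ hζ0] at h6
    have h7 : σ (θ ζ + ζ) * γ 1 = 0 := by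
      simp only [map_add, map_mul, map_one] at h6 ⊢
      linear_combination h6
    rcases mul_eq_zero.mp h7 with h | h
    · exfalso
      have h8 : θ ζ + ζ = 0 := (map_eq_zero_iff σ σ.injective).mp h
      apply hζ
      linear_combination h8 - tw ζ
    · exact h
  refine ⟨d, σ, hd, hφ, fun t => ?_, hg⟩
  by_cases ht : t = 0
  · rw [ht, hγ0]
  · rw [hγb t ht, hγ1, mul_zero]

end Cfsg.Agent.Lib.H22RoA2
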