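import Cfsg.Agent.Lib.Helper22RoDefs

set_option autoImplicit false

/-! PROJECT 2128 (S2128), piece B1. -/

namespace Cfsg.Agent.Lib.H22RoB1

open Subgroup Cfsg.Agent.Lib.Helper22RoDefs

variable {Γ K : Type*} [Group Γ] [Field K] {P : RD Γ K}

/-- B1. -/
theorem fa (hP : P.Ok) {Θ : Γ ≃* Γ} (hΘ : P.Stab Θ)
    (hsl : ∀ f : K → K, (∀ s t, f (s + t) = f s + f t) → (∀ t, f t = 0 → t = 0) →
      (∀ a, a ≠ 0 → ∃ a', ∀ t, f (a * t) = a' * f t) → ∃ (c : K) (σ : K ≃+* K), c ≠ 0 ∧ ∀ t, f t = c * σ t) :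
    ∃ (c : K) (σ : K ≃+* K), c ≠ 0 ∧ ∀ t, Θ (P.xa t) = P.xa (c * σ t) := by
  have hex : ∀ t, ∃ t', Θ (P.xa t) = P.xa t' := fun t => (hΘ.xa (P.xa t)).mpr ⟨t, rfl⟩
  choose f hf using hex
  have hxa0 : P.xa 0 = 1 := by
    have := hP.xa_add 0 0
    rw [add_zero] at this
    exact left_eq_mul.mp this
  have hadd : ∀ s t, f (s + t) = f s + f t := by
    intro s t
    apply hP.xa_inj
    rw [← hf, hP.xa_add, map_mul, hf, hf, hP.xa_add]
  have hinj : ∀ t, f t = 0 → t = 0 := by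
    intro t ht
    have h1 := hf t
    rw [ht, hxa0] at h1
    have h2 : P.xa t = 1 := by
      have := Θ.injective (h1.trans (map_one Θ).symm)
      exact this
    exact hP.xa_inj _ _ (h2.trans hxa0.symm)
  have hs : ∀ a, a ≠ 0 → ∃ a', ∀ t, f (a * t) = a' * f t := by
    intro a ha
    obtain ⟨h, hh, hA, -⟩ := hP.surj a 1 ha one_ne_zero
    obtain ⟨a', b', -, -, hA', -⟩ := hP.tor (Θ h) ((hΘ.h h).mpr hh)
    refine ⟨a', fun t => ?_⟩
    apply hP.xa_inj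
    have h1 := congrArg Θ (hA t)
    rw [map_mul, map_mul, map_inv, hf, hf, hA'] at h1
    exact h1.symm
  obtain ⟨c, σ, hc, hfc⟩ := hsl f hadd hinj hs
  exact ⟨c, σ, hc, fun t => by rw [hf, hfc]⟩

end Cfsg.Agent.Lib.H22RoB1
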