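import Cfsg.Agent.Lib.Helper22RoDefs

set_option autoImplicit false

/-! PROJECT 2128 (S2128), piece B2. -/

namespace Cfsg.Agent.Lib.H22RoB2

open Subgroup Cfsg.Agent.Lib.Helper22RoDefs

variable {Γ K : Type*} [Group Γ] [Field K] {P : RD Γ K}

/-- B2. -/
theorem fb_shape (hP : P.Ok) {Θ : Γ ≃* Γ} (hΘ : P.Stab Θ) :
    ∃ φ γ g : K → K, (∀ t u, Θ (P.xb t u) = P.xb (φ t) (γ t + g u)) ∧
      (∀ s t, φ (s + t) = φ s + φ t) ∧ (∀ t, φ t = 0 → t = 0) ∧ (∀ u v, g (u + v) = g u + g v) ∧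
      (∀ s t, γ (s + t) + g (P.θ s * t) = γ s + γ t + P.θ (φ s) * φ t) ∧
      (∀ b, b ≠ 0 → ∃ b', b' ≠ 0 ∧ (∀ t, φ (b * t) = b' * φ t) ∧ (∀ t, γ (b * t) = P.θ b' * b' * γ t) ∧
        ∀ u, g (P.θ b * b * u) = P.θ b' * b' * g u) := by
  have hex : ∀ t u, ∃ t' u', Θ (P.xb t u) = P.xb t' u' := fun t u =>
    (hΘ.xb (P.xb t u)).mpr ⟨t, u, rfl⟩
  choose F G hFG using hex
  have two : ∀ x : K, x + x = 0 := fun x => by linear_combination x * hP.two
  have hxb0 : P.xb 0 0 = 1 := by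
    have := hP.xb_mul 0 0 0 0
    simp only [add_zero, mul_zero] at this
    exact mul_eq_left.mp this
  have hsq : ∀ t u, P.xb t u * P.xb t u = P.xb 0 (P.θ t * t) := by
    intro t u
    rw [hP.xb_mul, two, two, zero_add]
  have hθ0 : ∀ t, P.θ t * t = 0 → t = 0 := by
    intro t ht
    rcases mul_eq_zero.mp ht with h | h
    · exact (map_eq_zero_iff P.θ P.θ.injective).mp h
    · exact h
  have hsq1 : ∀ t u, P.xb t u * P.xb t u = 1 → t = 0 := by
    intro t u h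
    rw [hsq, ← hxb0] at h
    exact hθ0 t (hP.xb_inj _ _ _ _ h).2
  have hF0 : ∀ u, F 0 u = 0 := by
    intro u
    apply hsq1 (F 0 u) (G 0 u)
    rw [← hFG, ← map_mul, hsq, map_zero, zero_mul, hxb0, map_one]
  have h00 : F 0 0 = 0 ∧ G 0 0 = 0 := by
    have h1 := hFG 0 0
    rw [hxb0, map_one, ← hxb0] at h1
    have := hP.xb_inj _ _ _ _ h1
    exact ⟨this.1.symm, this.2.symm⟩
  have hE : ∀ t u, Θ (P.xb t u) = P.xb (F t 0) (G t 0 + G 0 u) := by
    intro t u
    have h1 : P.xb t u = P.xb t 0 * P.xb 0 u := by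
      rw [hP.xb_mul, add_zero, zero_add, mul_zero, add_zero]
    rw [h1, map_mul, hFG, hFG, hF0, hP.xb_mul, add_zero, mul_zero, add_zero]
  have hrel : ∀ s t, F (s + t) 0 = F s 0 + F t 0 ∧
      G (s + t) 0 + G 0 (P.θ s * t) = G s 0 + G t 0 + P.θ (F s 0) * F t 0 := by
    intro s t
    have h1 : P.xb s 0 * P.xb t 0 = P.xb (s + t) (P.θ s * t) := by
      rw [hP.xb_mul, add_zero, zero_add]
    have h2 := congrArg Θ h1
    rw [map_mul, hE, hE, hE, h00.2, add_zero, add_zero, hP.xb_mul] at h2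
    have := hP.xb_inj _ _ _ _ h2
    exact ⟨this.1.symm, this.2.symm⟩
  refine ⟨fun t => F t 0, fun t => G t 0, fun u => G 0 u, hE, fun s t => (hrel s t).1, ?_, ?_,
    fun s t => (hrel s t).2, ?_⟩
  · intro t ht
    simp only at ht
    apply hsq1 t 0
    apply Θ.injective
    rw [map_mul, map_one, hFG, ht, hsq, map_zero, zero_mul, hxb0]
  · intro u v
    have h1 : P.xb 0 u * P.xb 0 v = P.xb 0 (u + v) := by
      rw [hP.xb_mul, add_zero, mul_zero, add_zero]
    have h2 := congrArg Θ h1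
    rw [map_mul, hE, hE, hE, h00.1, h00.2, zero_add, zero_add, zero_add, hP.xb_mul, mul_zero,
      add_zero, add_zero] at h2
    exact (hP.xb_inj _ _ _ _ h2).2.symm
  · intro b hb
    obtain ⟨h, hh, -, hB⟩ := hP.surj 1 b one_ne_zero hb
    obtain ⟨a', b', -, hb', -, hB'⟩ := hP.tor (Θ h) ((hΘ.h h).mpr hh)
    have key : ∀ t u, F (b * t) 0 = b' * F t 0 ∧
        G (b * t) 0 + G 0 (P.θ b * b * u) = P.θ b' * b' * (G t 0 + G 0 u) := by
      intro t u
      have h1 := congrArg Θ (hB t u)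
      rw [map_mul, map_mul, map_inv, hE, hE, hB'] at h1
      have := hP.xb_inj _ _ _ _ h1
      exact ⟨this.1.symm, this.2.symm⟩
    refine ⟨b', hb', fun t => (key t 0).1, fun t => ?_, fun u => ?_⟩
    · have := (key t 0).2
      rw [mul_zero, h00.2, add_zero, add_zero] at this
      exact this
    · have := (key 0 u).2
      rw [mul_zero, h00.2, zero_add, zero_add] at this
      exact this

end Cfsg.Agent.Lib.H22RoB2
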