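import Cfsg.Agent.Lib.Helper22RoDefs

set_option autoImplicit false

/-! PROJECT 2128 (S2128), piece C1. -/

namespace Cfsg.Agent.Lib.H22RoC1

open Subgroup Cfsg.Agent.Lib.Helper22RoDefs

variable {Γ K : Type*} [Group Γ] [Field K] {P : RD Γ K}

/-- C1 (pure group theory). -/
theorem fix_Y {X : Set Γ} {Y : Subgroup Γ} (hR : RD.Rk X Y) {Ψ : Γ ≃* Γ} (hX : ∀ g ∈ X, Ψ g = g)
    (hY : ∀ g, Ψ g ∈ Y ↔ g ∈ Y) : ∀ y ∈ Y, Ψ y = y := by
  intro y hy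
  by_cases h1 : y = 1
  · rw [h1, map_one]
  obtain ⟨a, ha, b, hb, H⟩ := hR.ex y hy h1
  have H' : ∀ g ∈ X, (a * Ψ y * b) * g * (a * Ψ y * b)⁻¹ ∈ Y := by
    intro g hg
    have h2 := (hY _).mpr (H g hg)
    rw [map_mul, map_mul, map_inv, map_mul, map_mul, hX a ha, hX b hb, hX g hg] at h2
    exact h2
  exact (hR.un a ha b hb y hy (Ψ y) ((hY y).mpr hy) H H').symm

end Cfsg.Agent.Lib.H22RoC1
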