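import Cfsg.Agent.Lib.Helper22RoDefs

set_option autoImplicit false

/-! PROJECT 2128 (S2128), piece C2. -/

namespace Cfsg.Agent.Lib.H22RoC2

open Subgroup Cfsg.Agent.Lib.Helper22RoDefs

variable {Γ K : Type*} [Group Γ] [Field K] {P : RD Γ K}

/-- C2. -/
theorem tau_one (hP : P.Ok) {Ψ : Γ ≃* Γ} {τ : K ≃+* K} (ha : ∀ t, Ψ (P.xa t) = P.xa t)
    (hy : ∀ y ∈ P.Ya, Ψ y = y) (hb : ∀ t u, Ψ (P.xb t u) = P.xb (τ t) (τ u)) : ∀ t, τ t = t := by
  have hfix : ∀ h ∈ closure (P.Xa ∪ (P.Ya : Set Γ)), Ψ h = h := by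
    intro h hh
    induction hh using Subgroup.closure_induction with
    | mem x hx =>
      rcases hx with ⟨t, rfl⟩ | hx
      · exact ha t
      · exact hy x hx
    | one => exact map_one _
    | mul x y _ _ hx hy => rw [map_mul, hx, hy]
    | inv x _ hx => rw [map_inv, hx]
  intro b
  by_cases hb0 : b = 0
  · rw [hb0, map_zero]
  obtain ⟨h, hh, hact⟩ := hP.link b hb0
  have h1 := congrArg Ψ (hact 1 0)
  rw [map_mul, map_mul, map_inv, hfix h hh, hb, hb, hact] at h1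
  have h2 := (hP.xb_inj _ _ _ _ h1).1
  rw [map_one, mul_one] at h2
  exact h2.symm

end Cfsg.Agent.Lib.H22RoC2
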