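import Cfsg.Agent.Lib.Helper22RoDefs

set_option autoImplicit false

/-! PROJECT 2128 (S2128), piece C3. -/

namespace Cfsg.Agent.Lib.H22RoC3

open Subgroup Cfsg.Agent.Lib.Helper22RoDefs

variable {Γ K : Type*} [Group Γ] [Field K] {P : RD Γ K}

/-- C3. -/
theorem fix_all (hP : P.Ok) {Ψ : Γ ≃* Γ} (ha : ∀ t, Ψ (P.xa t) = P.xa t) (hb : ∀ t u, Ψ (P.xb t u) = P.xb t u)
    (hya : ∀ y ∈ P.Ya, Ψ y = y) (hyb : ∀ y ∈ P.Yb, Ψ y = y) : ∀ g, Ψ g = g := by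
  intro g
  have hg : g ∈ closure (P.Xa ∪ P.Xb ∪ (P.Ya : Set Γ) ∪ (P.Yb : Set Γ)) := by
    rw [hP.gen]; trivial
  induction hg using Subgroup.closure_induction with
  | mem x hx =>
    rcases hx with ((⟨t, rfl⟩ | ⟨t, u, rfl⟩) | hx) | hx
    · exact ha t
    · exact hb t u
    · exact hya x hx
    · exact hyb x hx
  | one => exact map_one _
  | mul x y _ _ hx hy => rw [map_mul, hx, hy]
  | inv x _ hx => rw [map_inv, hx]

end Cfsg.Agent.Lib.H22RoC3
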