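import Cfsg.Agent.Lib.Helper22RoDefs

set_option autoImplicit false

/-! PROJECT 2128 (S2128), piece D1. -/

namespace Cfsg.Agent.Lib.H22RoD1

open Subgroup Cfsg.Agent.Lib.Helper22RoDefs

variable {Γ K : Type*} [Group Γ] [Field K] {P : RD Γ K}

/-- D1 : counting. -/
theorem count [Finite K] [Finite Γ] (hP : P.Ok) (G : (Γ ≃* Γ) → Prop)
    (hcls : ∀ Θ, G Θ → ∃ h ∈ P.H, ∃ σ : K ≃+* K, P.Fld (Θ.trans (MulAut.conj h)) σ)
    (hex : ∀ σ : K ≃+* K, ∃ Φ, G Φ ∧ P.Fld Φ σ)
    (hconj : ∀ Θ, G Θ → ∀ h ∈ P.H, G (Θ.trans (MulAut.conj h)))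
    (huniq : ∀ Θ Θ', G Θ → G Θ' → (∀ t, Θ (P.xa t) = Θ' (P.xa t)) → (∀ t u, Θ (P.xb t u) = Θ' (P.xb t u)) → Θ = Θ') :
    Nat.card {Θ : Γ ≃* Γ // G Θ} = Nat.card P.H * Nat.card (K ≃+* K) := by
  choose Φ hΦG hΦF using hex
  let m : P.H × (K ≃+* K) → {Θ : Γ ≃* Γ // G Θ} := fun x =>
    ⟨(Φ x.2).trans (MulAut.conj (x.1 : Γ)), hconj _ (hΦG x.2) _ x.1.2⟩
  have hminj : Function.Injective m := by
    rintro ⟨⟨h, hh⟩, σ⟩ ⟨⟨h', hh'⟩, σ'⟩ heq
    have heq' : (Φ σ).trans (MulAut.conj h) = (Φ σ').trans (MulAut.conj h') :=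
      congrArg Subtype.val heq
    obtain ⟨a, b, ha, hb, hA, hB⟩ := hP.tor h hh
    obtain ⟨a', b', ha', hb', hA', hB'⟩ := hP.tor h' hh'
    have e1 : ∀ t, a * σ t = a' * σ' t := by
      intro t
      have := DFunLike.congr_fun heq' (P.xa t)
      rw [MulEquiv.trans_apply, MulEquiv.trans_apply, (hΦF σ).1, (hΦF σ').1, MulAut.conj_apply,
        MulAut.conj_apply, hA, hA'] at this
      exact hP.xa_inj _ _ this
    have e2 : ∀ t, b * σ t = b' * σ' t := by
      intro t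
      have := DFunLike.congr_fun heq' (P.xb t 0)
      rw [MulEquiv.trans_apply, MulEquiv.trans_apply, (hΦF σ).2, (hΦF σ').2, MulAut.conj_apply,
        MulAut.conj_apply, hB, hB'] at this
      exact (hP.xb_inj _ _ _ _ this).1
    have haa : a = a' := by
      have := e1 1
      rwa [map_one, map_one, mul_one, mul_one] at this
    have hbb : b = b' := by
      have := e2 1
      rwa [map_one, map_one, mul_one, mul_one] at this
    have hσ : σ = σ' := by
      ext t
      have := e1 t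
      rw [← haa] at this
      exact mul_left_cancel₀ ha this
    have hk : h'⁻¹ * h = 1 := by
      apply hP.inj _ (P.H.mul_mem (P.H.inv_mem hh') hh)
      · intro t
        have h1 := hA t
        have h2 := hA' t
        rw [← haa, ← h1] at h2
        rw [one_mul]
        calc h'⁻¹ * h * P.xa t * (h'⁻¹ * h)⁻¹ = h'⁻¹ * (h * P.xa t * h⁻¹) * h' := by group
          _ = h'⁻¹ * (h' * P.xa t * h'⁻¹) * h' := by rw [h2]
          _ = P.xa t := by group
      · intro t u
        have h1 := hB t u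
        have h2 := hB' t u
        rw [← hbb, ← h1] at h2
        rw [one_mul, map_one, one_mul, one_mul]
        calc h'⁻¹ * h * P.xb t u * (h'⁻¹ * h)⁻¹ = h'⁻¹ * (h * P.xb t u * h⁻¹) * h' := by group
          _ = h'⁻¹ * (h' * P.xb t u * h'⁻¹) * h' := by rw [h2]
          _ = P.xb t u := by group
    have hhh : h = h' := by
      have := congrArg (fun z => h' * z) hk
      simpa using this
    subst hhh
    subst hσ
    rfl
  have hmsurj : Function.Surjective m := by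
    rintro ⟨Θ, hΘ⟩
    obtain ⟨h, hh, σ, hFa, hFb⟩ := hcls Θ hΘ
    refine ⟨(⟨h⁻¹, P.H.inv_mem hh⟩, σ), ?_⟩
    apply Subtype.ext
    show (Φ σ).trans (MulAut.conj h⁻¹) = Θ
    refine huniq _ _ (hconj _ (hΦG σ) _ (P.H.inv_mem hh)) hΘ ?_ ?_
    · intro t
      rw [MulEquiv.trans_apply, (hΦF σ).1, ← hFa, MulEquiv.trans_apply, MulAut.conj_apply,
        MulAut.conj_apply]
      group
    · intro t u
      rw [MulEquiv.trans_apply, (hΦF σ).2, ← hFb, MulEquiv.trans_apply, MulAut.conj_apply,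
        MulAut.conj_apply]
      group
  rw [← Nat.card_prod]
  exact (Nat.card_congr (Equiv.ofBijective m ⟨hminj, hmsurj⟩)).symm

end Cfsg.Agent.Lib.H22RoD1
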