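import Cfsg.Agent.Lib.LeadTwDefs

set_option autoImplicit false
set_option linter.unusedSectionVars false

/-! Project 101 (TW-AUT), piece T13 : an inner automorphism stabilizes `U` and `V` iff it comes from `H`. -/

namespace Cfsg.Agent.Lib.Helper36TwT13

open Subgroup Cfsg.Agent.Lib.Helper23Grp Cfsg.Agent.Lib.Helper23TG Cfsg.Agent.Lib.Helper23TG.TG
  Cfsg.Agent.Lib.Helper23Weyl Cfsg.Agent.Lib.LeadTwDefs

variable {𝔾 R I : Type*} [Group 𝔾] [Fintype R] [DecidableEq R] {S : TG 𝔾 R I}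

theorem H_conj_XS (ok : S.Ok) (Ψ : R → Prop) {y : 𝔾} (hy : y ∈ S.H) (g : 𝔾) :
    y * g * y⁻¹ ∈ S.XS Ψ ↔ g ∈ S.XS Ψ := by
  constructor
  · intro hg
    have := ok.H_XS Ψ y⁻¹ (inv_mem hy) _ hg
    simpa [mul_assoc] using this
  · intro hg
    exact ok.H_XS Ψ y hy g hg

/-- T13 -/
theorem conj_nrm_iff (h : TData S) (h2 : ∀ g : 𝔾, (∀ u ∈ S.U, g * u * g⁻¹ ∈ S.U) → g ∈ S.B)
    (h3 : ∀ n ∈ S.N, ∀ π : Equiv.Perm R, S.Mon n π → (∀ r, S.pos r → ¬ S.pos (π r)) →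
      ∀ g, n * g * n⁻¹ ∈ S.V ↔ g ∈ S.U) (y : 𝔾) :
    Nrm S (MulAut.conj y) ↔ y ∈ S.H := by
  have ok := h.ok
  constructor
  · rintro ⟨hU, hV⟩
    have hU' : ∀ g, y * g * y⁻¹ ∈ S.U ↔ g ∈ S.U := fun g => by simpa [MulAut.conj_apply] using hU g
    have hV' : ∀ g, y * g * y⁻¹ ∈ S.V ↔ g ∈ S.V := fun g => by simpa [MulAut.conj_apply] using hV g
    have hyB : y ∈ S.B := h2 y (fun u hu => (hU' u).2 hu)
    obtain ⟨u, hu, t, ht, rfl⟩ := (mem_B_iff ok).1 hyB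
    obtain ⟨n0, hn0, π0, hM0, h0⟩ := h.n0
    -- `u` normalizes `V`
    have huV : ∀ g ∈ S.V, u * g * u⁻¹ ∈ S.V := by
      intro g hg
      have h4 : t⁻¹ * g * t⁻¹⁻¹ ∈ S.V := (H_conj_XS ok _ (inv_mem ht) g).2 hg
      have h5 := (hV' _).2 h4
      have e : u * t * (t⁻¹ * g * t⁻¹⁻¹) * (u * t)⁻¹ = u * g * u⁻¹ := by group
      rwa [e] at h5
    have h0' : ∀ r, S.pos r → ¬ S.pos (π0⁻¹ r) := by
      intro r hr hr'
      have := h0 _ hr'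
      exact this (by simpa using hr)
    have hwV : n0⁻¹ * u * n0⁻¹⁻¹ ∈ S.V :=
      (h3 n0⁻¹ (inv_mem hn0) π0⁻¹ (Mon.inv' ok hn0 hM0) h0' u).2 hu
    have hwB : n0⁻¹ * u * n0⁻¹⁻¹ ∈ S.B := by
      apply h2
      intro g hg
      rw [← h3 n0 hn0 π0 hM0 h0]
      have e : n0 * (n0⁻¹ * u * n0⁻¹⁻¹ * g * (n0⁻¹ * u * n0⁻¹⁻¹)⁻¹) * n0⁻¹
          = u * (n0 * g * n0⁻¹) * u⁻¹ := by group
      rw [e]
      exact huV _ ((h3 n0 hn0 π0 hM0 h0 g).2 hg)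
    have hw1 := ok.hBV _ hwB hwV
    have hu1 : u = 1 := by
      have := congrArg (fun w => n0 * w * n0⁻¹) hw1
      simpa [mul_assoc] using this
    rw [hu1, one_mul]
    exact ht
  · intro hy
    refine ⟨fun g => ?_, fun g => ?_⟩
    · rw [MulAut.conj_apply]
      exact H_conj_XS ok _ hy g
    · rw [MulAut.conj_apply]
      exact H_conj_XS ok _ hy g

end Cfsg.Agent.Lib.Helper36TwT13
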