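import Cfsg.Agent.Lib.LeadTwDefs

set_option autoImplicit false
set_option linter.unusedSectionVars false

/-! Project 101 (TW-AUT), piece T5 : port of `Helper40AutA3.map_B` to `TG`. -/

namespace Cfsg.Agent.Lib.Helper36TwT5

open Subgroup Cfsg.Agent.Lib.Helper23Grp Cfsg.Agent.Lib.Helper23TG Cfsg.Agent.Lib.Helper23TG.TG
  Cfsg.Agent.Lib.Helper23Weyl Cfsg.Agent.Lib.LeadTwDefs

variable {𝔾 R I : Type*} [Group 𝔾] [Fintype R] [DecidableEq R] {S : TG 𝔾 R I}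

theorem B_conj_U (ok : S.Ok) {b : 𝔾} (hb : b ∈ S.B) (g : 𝔾) : b * g * b⁻¹ ∈ S.U ↔ g ∈ S.U := by
  have hle : S.B ≤ normalizer (S.U : Set 𝔾) :=
    sup_le (le_normalizer) (H_le_normalizer_U ok)
  exact (mem_normalizer_iff.1 (hle hb) g).symm

/-- T5 (port of `Helper40AutA3.map_B`; uses T2 as a hypothesis) -/
theorem map_B (h : TData S) (h2 : ∀ g : 𝔾, (∀ u ∈ S.U, g * u * g⁻¹ ∈ S.U) → g ∈ S.B)
    {θ : 𝔾 ≃* 𝔾} (hθ : Nrm S θ) : ∀ g, θ g ∈ S.B ↔ g ∈ S.B := by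
  intro g
  constructor
  · intro hg
    apply h2
    intro u hu
    rw [← hθ.1, map_mul, map_mul, map_inv]
    exact (B_conj_U h.ok hg _).2 ((hθ.1 u).2 hu)
  · intro hg
    apply h2
    intro u hu
    obtain ⟨v, rfl⟩ := θ.surjective u
    rw [← map_inv, ← map_mul, ← map_mul, hθ.1]
    exact (B_conj_U h.ok hg _).2 ((hθ.1 v).1 hu)

end Cfsg.Agent.Lib.Helper36TwT5
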