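import Cfsg.Agent.Lib.LeadTwDefs

set_option autoImplicit false
set_option linter.unusedSectionVars false

/-! Project 101 (TW-AUT), piece T12 : `perm_eq`. -/

namespace Cfsg.Agent.Lib.Helper39TwT12

open Subgroup Cfsg.Agent.Lib.Helper23Grp Cfsg.Agent.Lib.Helper23TG Cfsg.Agent.Lib.Helper23TG.TG
  Cfsg.Agent.Lib.Helper23Weyl Cfsg.Agent.Lib.LeadTwDefs

variable {𝔾 R I : Type*} [Group 𝔾] [Fintype R] [DecidableEq R] {S : TG 𝔾 R I}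

/-- `X_{-α_j}` normalizes `U_j` -/
theorem neg_conj_Ui (h : TData S) (j : I) {y : 𝔾} (hy : y ∈ S.X (S.neg (S.simple j))) :
    ∀ u ∈ S.Ui j, y * u * y⁻¹ ∈ S.Ui j := by
  intro u hu
  have ok := h.ok
  have hz : (S.nn j)⁻¹ * y * S.nn j ∈ S.X (S.simple j) := by
    have := n_conj' ok j _ y hy
    rwa [ok.refl_neg, ok.refl_simple, ok.neg_neg] at this
  set z := (S.nn j)⁻¹ * y * S.nn j with hzdef
  have h1 : (S.nn j)⁻¹ * u * S.nn j ∈ S.Ui j := nn_Ui' ok j u hu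
  have h2 : z * ((S.nn j)⁻¹ * u * S.nn j) * z⁻¹ ∈ S.Ui j :=
    (mem_normalizer_iff.1 (h.nUi j hz) _).1 h1
  have h3 := nn_Ui ok j _ h2
  have e : S.nn j * (z * ((S.nn j)⁻¹ * u * S.nn j) * z⁻¹) * (S.nn j)⁻¹ = y * u * y⁻¹ := by
    rw [hzdef]; group
  rwa [e] at h3

/-- T12 -/
theorem perm_eq (h : TData S) {θ : 𝔾 ≃* 𝔾} {i j k : I}
    (hn : ∀ g, θ g ∈ S.X (S.neg (S.simple j)) ↔ g ∈ S.X (S.neg (S.simple i)))
    (hp : ∀ g, θ g ∈ S.X (S.simple k) ↔ g ∈ S.X (S.simple i)) : k = j := by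
  by_contra hkj
  have ok := h.ok
  have hne : S.simple k ≠ S.simple j := fun e => hkj (ok.simple_inj _ _ e)
  have hXk : S.X (S.simple k) ≤ S.Ui j :=
    ok.XS_mono _ _ (fun s hs => by rw [hs]; exact ⟨ok.pos_simple k, hne⟩)
  -- a non trivial element of `X_{-i}`
  obtain ⟨g0, hg0, hg01⟩ := ok.X_ne i
  have hy0 : S.nn i * g0 * (S.nn i)⁻¹ ∈ S.X (S.neg (S.simple i)) := by
    have := n_conj ok i _ g0 hg0
    rwa [ok.refl_simple] at this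
  obtain ⟨a, ha, hh, hhH, b, hb, e0⟩ := ok.rank_one i _ hy0 (conj_ne_one ok hg01)
  set y0 := S.nn i * g0 * (S.nn i)⁻¹ with hy0def
  set m := hh * S.nn i with hm
  have em : m = a⁻¹ * y0 * b⁻¹ := by rw [e0]; group
  -- `m` maps `X_i` into `X_{-i}`
  have hmX : ∀ g ∈ S.X (S.simple i), m * g * m⁻¹ ∈ S.X (S.neg (S.simple i)) := by
    intro g hg
    have h1 : S.nn i * g * (S.nn i)⁻¹ ∈ S.X (S.neg (S.simple i)) := by
      have := n_conj ok i _ g hg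
      rwa [ok.refl_simple] at this
    have h2 := H_X ok _ hh hhH _ h1
    have e : hh * (S.nn i * g * (S.nn i)⁻¹) * hh⁻¹ = m * g * m⁻¹ := by rw [hm]; group
    rwa [e] at h2
  obtain ⟨x1, hx1, hx11⟩ := ok.X_ne k
  obtain ⟨g, hg⟩ := θ.surjective x1
  have hgX : g ∈ S.X (S.simple i) := (hp g).1 (by rw [hg]; exact hx1)
  have h1 : θ (m * g * m⁻¹) ∈ S.X (S.neg (S.simple j)) := (hn _).2 (hmX g hgX)
  have ha' : θ a ∈ S.Ui j := hXk ((hp a).2 ha)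
  have hb' : θ b ∈ S.Ui j := hXk ((hp b).2 hb)
  have hy' : θ y0 ∈ S.X (S.neg (S.simple j)) := (hn _).2 hy0
  have hx1U : x1 ∈ S.Ui j := hXk hx1
  rw [map_mul, map_mul, map_inv, hg, em, map_mul, map_mul, map_inv, map_inv] at h1
  have h2 : (θ b)⁻¹ * x1 * θ b ∈ S.Ui j := mul_mem (mul_mem (inv_mem hb') hx1U) hb'
  have h3 := neg_conj_Ui h j hy' _ h2
  have h4 : (θ a)⁻¹ * (θ y0 * ((θ b)⁻¹ * x1 * θ b) * (θ y0)⁻¹) * θ a ∈ S.Ui j :=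
    mul_mem (mul_mem (inv_mem ha') h3) ha'
  have e : (θ a)⁻¹ * θ y0 * (θ b)⁻¹ * x1 * ((θ a)⁻¹ * θ y0 * (θ b)⁻¹)⁻¹
      = (θ a)⁻¹ * (θ y0 * ((θ b)⁻¹ * x1 * θ b) * (θ y0)⁻¹) * θ a := by group
  rw [e] at h1
  have hV := X_le_V ok _ (not_pos_neg_simple ok j) h1
  have h5 := ok.hBV _ (U_le_B (Ui_le_U ok j h4)) hV
  rw [← e] at h5
  exact conj_ne_one ok hx11 h5

end Cfsg.Agent.Lib.Helper39TwT12
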