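import Cfsg.Agent.Lib.Helper70TwPar

set_option autoImplicit false
set_option linter.unusedSectionVars false

/-! Piece T6 of project TW-AUT. -/

namespace Cfsg.Agent.Lib.Helper70TwT6

open Subgroup Cfsg.Agent.Lib.Helper23Grp Cfsg.Agent.Lib.Helper23TG Cfsg.Agent.Lib.Helper23TG.TG
  Cfsg.Agent.Lib.Helper23Weyl Cfsg.Agent.Lib.LeadTwDefs Cfsg.Agent.Lib.Helper70TwPar

variable {𝔾 R I : Type*} [Group 𝔾] [Fintype R] [DecidableEq R] {S : TG 𝔾 R I}

/-- T6 (port of `LeadAutA6.par_cases`) -/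
theorem par_cases (h : TData S) (i : I) {g : 𝔾} (hg : g ∈ Par S i) :
    (∃ b ∈ S.B, ∃ y ∈ S.X (S.neg (S.simple i)), g = b * y) ∨ ∃ b ∈ S.B, g = b * S.nn i := by
  have ok := h.ok
  rcases par_union ok i hg with hb | ⟨b1, hb1, b2, hb2, e⟩
  · exact Or.inl ⟨g, hb, 1, one_mem _, by rw [mul_one]⟩
  · obtain ⟨x, hx, b', hb', rfl⟩ := B_right ok i hb2
    have h1 : S.nn i * b' * (S.nn i)⁻¹ ∈ S.B := Bi_le_B ok i (nn_conj_Bi ok i hb')
    by_cases ht : x = 1
    · right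
      refine ⟨b1 * (S.nn i * b' * (S.nn i)⁻¹), mul_mem hb1 h1, ?_⟩
      rw [e, ht]; group
    · left
      have hy0 : S.nn i * x * (S.nn i)⁻¹ ∈ S.X (S.neg (S.simple i)) := by
        have := n_conj ok i _ x hx
        rwa [ok.refl_simple] at this
      obtain ⟨a, ha, k, hk, d, hd, e2⟩ := ok.rank_one i _ hy0 (conj_ne_one ok ht)
      -- n x = a k n d n = a k (n d n⁻¹) n²
      have hd' : S.nn i * d * (S.nn i)⁻¹ ∈ S.X (S.neg (S.simple i)) := by
        have := n_conj ok i _ d hd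
        rwa [ok.refl_simple] at this
      have hsq := ok.nn_sq i
      have hsq' : (S.nn i * S.nn i)⁻¹ ∈ S.H := inv_mem hsq
      have hd'' := H_X ok _ _ hsq' _ hd'
      refine ⟨b1 * (S.nn i * b' * (S.nn i)⁻¹) * (a * k * (S.nn i * S.nn i)), ?_, _, hd'', ?_⟩
      · exact mul_mem (mul_mem hb1 h1) (mul_mem (mul_mem (U_le_B (X_simple_le_U ok i ha)) (H_le_B hk))
          (H_le_B hsq))
      · calc g = b1 * (S.nn i * b' * (S.nn i)⁻¹) * ((S.nn i * x * (S.nn i)⁻¹) * S.nn i) := by rw [e]; group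
          _ = _ := by rw [e2]; group

end Cfsg.Agent.Lib.Helper70TwT6
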