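import Cfsg.Agent.Lib.Helper70TwPar

set_option autoImplicit false
set_option linter.unusedSectionVars false

/-! Piece T7 of project TW-AUT. -/

namespace Cfsg.Agent.Lib.Helper70TwT7

open Subgroup Cfsg.Agent.Lib.Helper23Grp Cfsg.Agent.Lib.Helper23TG Cfsg.Agent.Lib.Helper23TG.TG
  Cfsg.Agent.Lib.Helper23Weyl Cfsg.Agent.Lib.LeadTwDefs Cfsg.Agent.Lib.Helper70TwPar

variable {𝔾 R I : Type*} [Group 𝔾] [Fintype R] [DecidableEq R] {S : TG 𝔾 R I}

/-- T7 (port of `LeadAutA6.par_inf_V`; uses T6 as a hypothesis) -/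
theorem par_inf_V (h : TData S) (i : I)
    (h6 : ∀ g ∈ Par S i, (∃ b ∈ S.B, ∃ y ∈ S.X (S.neg (S.simple i)), g = b * y) ∨ ∃ b ∈ S.B, g = b * S.nn i)
    {g : 𝔾} : (g ∈ Par S i ∧ g ∈ S.V) ↔ g ∈ S.X (S.neg (S.simple i)) := by
  have ok := h.ok
  have hnp := not_pos_neg_simple ok i
  constructor
  · rintro ⟨hg, hv⟩
    rcases h6 g hg with ⟨b, hb, y, hy, rfl⟩ | ⟨b, hb, rfl⟩
    · have hb1 : b = 1 := by
        apply ok.hBV b hb
        have : b = b * y * y⁻¹ := by group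
        rw [this]
        exact mul_mem hv (inv_mem (X_le_V ok _ hnp hy))
      rw [hb1, one_mul]
      exact hy
    · exfalso
      obtain ⟨y, hy, hy1⟩ := X_ne_all ok (S.neg (S.simple i))
      have h1 : b * S.nn i * y * (b * S.nn i)⁻¹ ∈ S.V :=
        mul_mem (mul_mem hv (X_le_V ok _ hnp hy)) (inv_mem hv)
      have e : b * S.nn i * y * (b * S.nn i)⁻¹ = b * (S.nn i * y * (S.nn i)⁻¹) * b⁻¹ := by group
      have h2 : b * S.nn i * y * (b * S.nn i)⁻¹ ∈ S.B := by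
        rw [e]
        have h3 := n_conj ok i _ y hy
        rw [ok.refl_neg, ok.refl_simple, ok.neg_neg] at h3
        exact mul_mem (mul_mem hb (U_le_B (X_simple_le_U ok i h3))) (inv_mem hb)
      exact conj_ne_one ok hy1 (ok.hBV _ h2 h1)
  · intro hg
    refine ⟨?_, X_le_V ok _ hnp hg⟩
    by_cases ht : g = 1
    · rw [ht]; exact one_mem _
    · obtain ⟨a, ha, k, hk, d, hd, e⟩ := ok.rank_one i g hg ht
      rw [e]
      exact mul_mem (mul_mem (B_le_Par i (U_le_B (X_simple_le_U ok i ha)))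
        (mul_mem (B_le_Par i (H_le_B hk)) (nn_mem_Par i))) (B_le_Par i (U_le_B (X_simple_le_U ok i hd)))

end Cfsg.Agent.Lib.Helper70TwT7
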