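import Cfsg.Agent.Lib.Helper70TwPar

set_option autoImplicit false
set_option linter.unusedSectionVars false

/-! Piece T8 of project TW-AUT. -/

namespace Cfsg.Agent.Lib.Helper70TwT8

open Subgroup Cfsg.Agent.Lib.Helper23Grp Cfsg.Agent.Lib.Helper23TG Cfsg.Agent.Lib.Helper23TG.TG
  Cfsg.Agent.Lib.Helper23Weyl Cfsg.Agent.Lib.LeadTwDefs Cfsg.Agent.Lib.Helper70TwPar

variable {𝔾 R I : Type*} [Group 𝔾] [Fintype R] [DecidableEq R] {S : TG 𝔾 R I}

/-- T8 (port of `LeadAutA6.nn_mem_par`) -/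
theorem nn_mem_par (h : TData S) {i k : I} (hk : S.nn k ∈ Par S i) : k = i := by
  rcases par_union h.ok i hk with hb | ⟨b1, hb1, b2, hb2, e⟩
  · exact absurd hb (nn_not_mem_B h.ok k)
  · have := bruhat_uniq h.ok (nn_mem_N i) (nn_mem_N k) hb1 hb2 e
    exact (h.ok.simple_inj _ _ (simple_eq_of_mem_B h.ok (H_le_B this))).symm

end Cfsg.Agent.Lib.Helper70TwT8
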