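import Cfsg.Agent.Lib.Helper70TwPar

set_option autoImplicit false
set_option linter.unusedSectionVars false

/-! Piece T9 of project TW-AUT. -/

namespace Cfsg.Agent.Lib.Helper70TwT9

open Subgroup Cfsg.Agent.Lib.Helper23Grp Cfsg.Agent.Lib.Helper23TG Cfsg.Agent.Lib.Helper23TG.TG
  Cfsg.Agent.Lib.Helper23Weyl Cfsg.Agent.Lib.LeadTwDefs Cfsg.Agent.Lib.Helper70TwPar

variable {𝔾 R I : Type*} [Group 𝔾] [Fintype R] [DecidableEq R] {S : TG 𝔾 R I}

theorem step1 (h : TData S) {θ : 𝔾 ≃* 𝔾} (hB : ∀ g, θ g ∈ S.B ↔ g ∈ S.B) (i : I) :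
    ∃ j, ∀ g ∈ Par S j, θ.symm g ∈ Par S i := by
  set M : Subgroup 𝔾 := (Par S i).comap θ.symm.toMonoidHom with hMdef
  have hBM : S.B ≤ M := by
    intro b hb
    show θ.symm b ∈ Par S i
    apply B_le_Par
    rw [← hB, MulEquiv.apply_symm_apply]; exact hb
  have hov := h.ovr M hBM
  by_cases hex : ∃ j, S.nn j ∈ M
  · obtain ⟨j, hj⟩ := hex
    refine ⟨j, ?_⟩
    have : Par S j ≤ M := sup_le hBM (by rw [zpowers_le]; exact hj)
    exact fun g hg => this hg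
  · exfalso
    have hemp : {g | ∃ i, g = S.nn i ∧ g ∈ M} = (∅ : Set 𝔾) := by
      ext g
      simp only [Set.mem_setOf_eq, Set.mem_empty_iff_false, iff_false]
      rintro ⟨j, rfl, hj⟩
      exact hex ⟨j, hj⟩
    rw [hemp, Subgroup.closure_empty, sup_bot_eq] at hov
    have h1 : θ (S.nn i) ∈ M := by
      show θ.symm (θ (S.nn i)) ∈ Par S i
      rw [MulEquiv.symm_apply_apply]; exact nn_mem_Par i
    exact nn_not_mem_B h.ok i ((hB _).1 (hov h1))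

theorem step2 (h : TData S) (h6 : ∀ i k : I, S.nn k ∈ Par S i → k = i)
    {θ : 𝔾 ≃* 𝔾} (hB : ∀ g, θ g ∈ S.B ↔ g ∈ S.B) (i : I) :
    ∃ j, ∀ g, θ g ∈ Par S j ↔ g ∈ Par S i := by
  obtain ⟨j, hj⟩ := step1 h hB i
  have hB' : ∀ g, θ.symm g ∈ S.B ↔ g ∈ S.B := by
    intro g
    rw [← hB, MulEquiv.apply_symm_apply]
  obtain ⟨k, hk⟩ := step1 h hB' j
  have hki : k = i := by
    apply h6
    have := hj _ (hk _ (nn_mem_Par k))
    simpa using this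
  subst hki
  refine ⟨j, fun g => ⟨fun hg => ?_, fun hg => ?_⟩⟩
  · have := hj _ hg
    simpa using this
  · have := hk _ hg
    simpa using this

/-- T9 (port of `LeadAutA7.par_perm`; uses T8 as a hypothesis) -/
theorem par_perm (h : TData S) (h8 : ∀ i k : I, S.nn k ∈ Par S i → k = i)
    {θ : 𝔾 ≃* 𝔾} (hB : ∀ g, θ g ∈ S.B ↔ g ∈ S.B) :
    ∃ ρ : Equiv.Perm I, ∀ i g, θ g ∈ Par S (ρ i) ↔ g ∈ Par S i := by
  have hB' : ∀ g, θ.symm g ∈ S.B ↔ g ∈ S.B := by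
    intro g
    rw [← hB, MulEquiv.apply_symm_apply]
  choose ρ hρ using step2 h h8 hB
  choose ρ' hρ' using step2 h h8 hB'
  refine ⟨⟨ρ, ρ', fun i => ?_, fun j => ?_⟩, hρ⟩
  · apply h8
    have h1 := (hρ' (ρ i) (θ (S.nn (ρ' (ρ i))))).1 (by rw [MulEquiv.symm_apply_apply]; exact nn_mem_Par _)
    exact (hρ i _).1 h1
  · apply h8
    have h1 := (hρ (ρ' j) (θ.symm (S.nn (ρ (ρ' j))))).1 (by rw [MulEquiv.apply_symm_apply]; exact nn_mem_Par _)
    exact (hρ' j _).1 h1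

end Cfsg.Agent.Lib.Helper70TwT9
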