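import Cfsg.Agent.Lib.Helper39TwT1
import Cfsg.Agent.Lib.Helper36TwT3
import Cfsg.Agent.Lib.Helper36TwT4
import Cfsg.Agent.Lib.Helper36TwT5
import Cfsg.Agent.Lib.Helper70TwT6
import Cfsg.Agent.Lib.Helper70TwT7
import Cfsg.Agent.Lib.Helper70TwT8
import Cfsg.Agent.Lib.Helper70TwT9
import Cfsg.Agent.Lib.Helper19TwT11
import Cfsg.Agent.Lib.Helper39TwT12
import Cfsg.Agent.Lib.Helper36TwT13
import Cfsg.Agent.Lib.Helper70TwT14
import Cfsg.Agent.Lib.Helper39TwT15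

set_option autoImplicit false

/-! Assembly of part T of project 101 (the lead's skeleton `notes/lead/TwAutT.lean.txt`) from the landed pieces. -/

namespace Cfsg.Agent.Lib.Helper22RoT

open Subgroup Cfsg.Agent.Lib.Helper23Grp Cfsg.Agent.Lib.Helper23TG Cfsg.Agent.Lib.Helper23TG.TG
  Cfsg.Agent.Lib.Helper23Weyl Cfsg.Agent.Lib.LeadTwDefs

variable {𝔾 R I : Type*} [Group 𝔾] [Fintype R] [DecidableEq R] {S : TG 𝔾 R I}

theorem normalizer_U' (h : TData S) {g : 𝔾} (hg : ∀ u ∈ S.U, g * u * g⁻¹ ∈ S.U) : g ∈ S.B :=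
  Helper39TwT1.normalizer_U h (fun _ hn _ hM hp => Helper39TwT1.mem_H_of_pos h hn hM hp) hg

theorem exists_nrm' (h : TData S) (θ : 𝔾 ≃* 𝔾) : ∃ y : 𝔾, Nrm S (θ.trans (MulAut.conj y)) :=
  Helper36TwT4.exists_nrm h (fun _ hn _ hM h0 => Helper36TwT3.conj_V_iff h hn hM h0) θ

theorem neg_perm (h : TData S) {θ : 𝔾 ≃* 𝔾} (hθ : Nrm S θ) :
    ∃ ρ : Equiv.Perm I, ∀ i g, θ g ∈ S.X (S.neg (S.simple (ρ i))) ↔ g ∈ S.X (S.neg (S.simple i)) := by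
  obtain ⟨ρ, hρ⟩ := Helper70TwT9.par_perm h (fun i k => Helper70TwT8.nn_mem_par h)
    (Helper36TwT5.map_B h (fun _ hg => normalizer_U' h hg) hθ)
  refine ⟨ρ, fun i g => ?_⟩
  rw [← Helper70TwT7.par_inf_V h (ρ i) (fun g hg => Helper70TwT6.par_cases h (ρ i) hg),
    ← Helper70TwT7.par_inf_V h i (fun g hg => Helper70TwT6.par_cases h i hg), hρ i g, hθ.2 g]

theorem exists_perms (h : TData S) {θ : 𝔾 ≃* 𝔾} (hθ : Nrm S θ) : ∃ ρ, Perms S θ ρ := by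
  obtain ⟨ρ, hρ⟩ := neg_perm h hθ
  obtain ⟨ρ', hρ'⟩ := Helper19TwT11.pos_perm h (fun θ hθ => neg_perm h hθ)
    (fun n0 hn0 π0 hM h0 => Helper39TwT1.opp_simple h hn0 hM h0)
    (fun _ hn _ hM h0 => Helper36TwT3.conj_V_iff h hn hM h0) hθ
  refine ⟨ρ, fun i g => ⟨?_, hρ i g⟩⟩
  have e : ρ' i = ρ i := Helper39TwT12.perm_eq h (hρ i) (hρ' i)
  rw [← e]; exact hρ' i g

theorem conj_nrm_iff' (h : TData S) (y : 𝔾) : Nrm S (MulAut.conj y) ↔ y ∈ S.H :=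
  Helper36TwT13.conj_nrm_iff h (fun _ hg => normalizer_U' h hg)
    (fun _ hn _ hM h0 => Helper36TwT3.conj_V_iff h hn hM h0) y

theorem card_out' [Finite 𝔾] (h : TData S) (hZ : ∀ z : 𝔾, (∀ g, z * g = g * z) → z = 1) :
    Nat.card (Cfsg.Out 𝔾) * Nat.card S.H = Nat.card {θ : 𝔾 ≃* 𝔾 // Nrm S θ} :=
  Helper70TwT14.card_out hZ (exists_nrm' h) (conj_nrm_iff' h)

end Cfsg.Agent.Lib.Helper22RoT
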