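import Cfsg.Agent.Lib.Helper22RoDefs
import Cfsg.Agent.Lib.Helper22RoT

set_option autoImplicit false

/-! PROJECT 2128, piece S1. -/

namespace Cfsg.Agent.Lib.H22RoS1

open Subgroup Cfsg.Agent.Lib.Helper22RoDefs

variable {Γ K : Type*} [Group Γ] [Field K] {P : RD Γ K}

/-- S1a -/
theorem stab_trans {Θ Θ' : Γ ≃* Γ} (h : P.Stab Θ) (h' : P.Stab Θ') : P.Stab (Θ.trans Θ') where
  xa g := (h'.xa (Θ g)).trans (h.xa g)
  xb g := (h'.xb (Θ g)).trans (h.xb g)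
  ya g := (h'.ya (Θ g)).trans (h.ya g)
  yb g := (h'.yb (Θ g)).trans (h.yb g)
  h g := (h'.h (Θ g)).trans (h.h g)

/-- S1b -/
theorem stab_symm {Θ : Γ ≃* Γ} (h : P.Stab Θ) : P.Stab Θ.symm where
  xa g := by rw [← h.xa (Θ.symm g), MulEquiv.apply_symm_apply]
  xb g := by rw [← h.xb (Θ.symm g), MulEquiv.apply_symm_apply]
  ya g := by rw [← h.ya (Θ.symm g), MulEquiv.apply_symm_apply]
  yb g := by rw [← h.yb (Θ.symm g), MulEquiv.apply_symm_apply]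
  h g := by rw [← h.h (Θ.symm g), MulEquiv.apply_symm_apply]

theorem conj_iff {H : Subgroup Γ} {X : Set Γ} (hX : ∀ h ∈ H, ∀ g ∈ X, h * g * h⁻¹ ∈ X) {h : Γ}
    (hh : h ∈ H) (g : Γ) : MulAut.conj h g ∈ X ↔ g ∈ X := by
  rw [MulAut.conj_apply]
  constructor
  · intro hg
    have := hX h⁻¹ (H.inv_mem hh) _ hg
    have e : h⁻¹ * (h * g * h⁻¹) * h⁻¹⁻¹ = g := by group
    rwa [e] at this
  · exact hX h hh g

/-- S1c -/
theorem stab_conj (hP : P.Ok) {h : Γ} (hh : h ∈ P.H) : P.Stab (MulAut.conj h) where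
  xa g := conj_iff (H := P.H) (X := P.Xa) (by
    rintro k hk _ ⟨t, rfl⟩
    obtain ⟨a, b, -, -, hA, -⟩ := hP.tor k hk
    exact ⟨a * t, hA t⟩) hh g
  xb g := conj_iff (H := P.H) (X := P.Xb) (by
    rintro k hk _ ⟨t, u, rfl⟩
    obtain ⟨a, b, -, -, -, hB⟩ := hP.tor k hk
    exact ⟨_, _, hB t u⟩) hh g
  ya g := conj_iff (H := P.H) (X := (P.Ya : Set Γ)) hP.H_Ya hh g
  yb g := conj_iff (H := P.H) (X := (P.Yb : Set Γ)) hP.H_Yb hh g
  h g := conj_iff (H := P.H) (X := (P.H : Set Γ))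
    (fun k hk g hg => P.H.mul_mem (P.H.mul_mem hk hg) (P.H.inv_mem hk)) hh g

end Cfsg.Agent.Lib.H22RoS1
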