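import Cfsg.Agent.Lib.LeadTwDefs

set_option autoImplicit false
set_option linter.unusedSectionVars false

/-! Project 101 (TW-AUT), piece T15 : `rank_one_unique`. -/

namespace Cfsg.Agent.Lib.Helper39TwT15

open Subgroup Cfsg.Agent.Lib.Helper23Grp Cfsg.Agent.Lib.Helper23TG Cfsg.Agent.Lib.Helper23TG.TG
  Cfsg.Agent.Lib.Helper23Weyl Cfsg.Agent.Lib.LeadTwDefs

variable {𝔾 R I : Type*} [Group 𝔾] [Fintype R] [DecidableEq R] {S : TG 𝔾 R I}

/-- an element conjugating `X_j` into `X_{-j}` conjugates it onto `X_{-j}` -/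
theorem conj_onto [Finite 𝔾] (h : TData S) (j : I) {w : 𝔾}
    (hw : ∀ g ∈ S.X (S.simple j), w * g * w⁻¹ ∈ S.X (S.neg (S.simple j))) :
    ∀ z ∈ S.X (S.neg (S.simple j)), ∃ g ∈ S.X (S.simple j), w * g * w⁻¹ = z := by
  have ok := h.ok
  have hback : ∀ z ∈ S.X (S.neg (S.simple j)), (S.nn j)⁻¹ * z * S.nn j ∈ S.X (S.simple j) := by
    intro z hz
    have := n_conj' ok j _ z hz
    rwa [ok.refl_neg, ok.refl_simple, ok.neg_neg] at this
  let φ : S.X (S.simple j) → S.X (S.simple j) :=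
    fun g => ⟨(S.nn j)⁻¹ * (w * g.1 * w⁻¹) * S.nn j, hback _ (hw g.1 g.2)⟩
  have hinj : Function.Injective φ := by
    intro g g' e
    have e1 : (S.nn j)⁻¹ * (w * g.1 * w⁻¹) * S.nn j = (S.nn j)⁻¹ * (w * g'.1 * w⁻¹) * S.nn j :=
      congrArg Subtype.val e
    apply Subtype.ext
    have e2 := mul_left_cancel (mul_right_cancel e1)
    exact mul_left_cancel (mul_right_cancel e2)
  have hsurj := Finite.surjective_of_injective hinj
  intro z hz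
  obtain ⟨g, hg⟩ := hsurj ⟨_, hback z hz⟩
  refine ⟨g.1, g.2, ?_⟩
  have e1 : (S.nn j)⁻¹ * (w * g.1 * w⁻¹) * S.nn j = (S.nn j)⁻¹ * z * S.nn j := congrArg Subtype.val hg
  exact mul_left_cancel (mul_right_cancel e1)

/-- T15 -/
theorem rank_one_unique [Finite 𝔾] (h : TData S) (j : I) {a y y' : 𝔾} (ha : a ∈ S.X (S.simple j))
    (hy : y ∈ S.X (S.neg (S.simple j))) (hy' : y' ∈ S.X (S.neg (S.simple j)))
    (hm : ∀ g ∈ S.X (S.simple j), (a * y * a) * g * (a * y * a)⁻¹ ∈ S.X (S.neg (S.simple j)))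
    (hm' : ∀ g ∈ S.X (S.simple j), (a * y' * a) * g * (a * y' * a)⁻¹ ∈ S.X (S.neg (S.simple j))) : y = y' := by
  have ok := h.ok
  by_contra hne
  set y2 := y'⁻¹ * y with hy2
  have hy2X : y2 ∈ S.X (S.neg (S.simple j)) := mul_mem (inv_mem hy') hy
  have hy21 : y2 ≠ 1 := by
    intro e
    apply hne
    rw [hy2, inv_mul_eq_one] at e
    exact e.symm
  -- `y2` normalizes `X_j`
  have hN : ∀ g ∈ S.X (S.simple j), y2 * g * y2⁻¹ ∈ S.X (S.simple j) := by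
    intro g hg
    have hg1 : a⁻¹ * g * a ∈ S.X (S.simple j) := mul_mem (mul_mem (inv_mem ha) hg) ha
    obtain ⟨g', hg', e⟩ := conj_onto h j hm' _ (hm _ hg1)
    have e2 : y2 * g * y2⁻¹ = a * g' * a⁻¹ := by
      have : g' = (a * y' * a)⁻¹ * ((a * y * a) * (a⁻¹ * g * a) * (a * y * a)⁻¹) * (a * y' * a) := by
        rw [← e]; group
      rw [this, hy2]; group
    rw [e2]
    exact mul_mem (mul_mem ha hg') (inv_mem ha)
  obtain ⟨a1, ha1, hh, hhH, a2, ha2, e0⟩ := ok.rank_one j _ hy2X hy21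
  obtain ⟨g, hg, hg1⟩ := ok.X_ne j
  -- `n_j g n_j⁻¹ ∈ X_j`
  have h1 : a2⁻¹ * g * a2 ∈ S.X (S.simple j) := mul_mem (mul_mem (inv_mem ha2) hg) ha2
  have h2 := hN _ h1
  have h3 : a1⁻¹ * (y2 * (a2⁻¹ * g * a2) * y2⁻¹) * a1 ∈ S.X (S.simple j) :=
    mul_mem (mul_mem (inv_mem ha1) h2) ha1
  have h4 := H_X ok _ hh⁻¹ (inv_mem hhH) _ h3
  have e : hh⁻¹ * (a1⁻¹ * (y2 * (a2⁻¹ * g * a2) * y2⁻¹) * a1) * hh⁻¹⁻¹ = S.nn j * g * (S.nn j)⁻¹ := by
    rw [e0]; group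
  rw [e] at h4
  have h5 : S.nn j * g * (S.nn j)⁻¹ ∈ S.X (S.neg (S.simple j)) := by
    have := n_conj ok j _ g hg
    rwa [ok.refl_simple] at this
  have h6 := ok.hBV _ (U_le_B (X_simple_le_U ok j h4)) (X_le_V ok _ (not_pos_neg_simple ok j) h5)
  exact conj_ne_one ok hg1 h6

end Cfsg.Agent.Lib.Helper39TwT15
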