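import Cfsg.Agent.Lib.Helper22RoDefs
import Cfsg.Agent.Lib.Helper22RoT
import Cfsg.Agent.Lib.Helper39TwT15

set_option autoImplicit false
set_option linter.unusedSectionVars false

/-! PROJECT 2128, piece T1. -/

namespace Cfsg.Agent.Lib.H22RoT1

open Subgroup Cfsg.Agent.Lib.Helper22RoDefs

open Cfsg.Agent.Lib.Helper23Grp Cfsg.Agent.Lib.Helper23TG Cfsg.Agent.Lib.Helper23TG.TG
  Cfsg.Agent.Lib.Helper23Weyl Cfsg.Agent.Lib.LeadTwDefs

variable {𝔾 R I : Type*} [Group 𝔾] [Fintype R] [DecidableEq R] {S : TG 𝔾 R I}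

/-- T1 -/
theorem rank_one_unique2 [Finite 𝔾] (h : TData S) (j : I) {a b y y' : 𝔾} (ha : a ∈ S.X (S.simple j))
    (hb : b ∈ S.X (S.simple j)) (hy : y ∈ S.X (S.neg (S.simple j))) (hy' : y' ∈ S.X (S.neg (S.simple j)))
    (hm : ∀ g ∈ S.X (S.simple j), (a * y * b) * g * (a * y * b)⁻¹ ∈ S.X (S.neg (S.simple j)))
    (hm' : ∀ g ∈ S.X (S.simple j), (a * y' * b) * g * (a * y' * b)⁻¹ ∈ S.X (S.neg (S.simple j))) : y = y' := by
  have ok := h.ok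
  by_contra hne
  set y2 := y'⁻¹ * y with hy2
  have hy2X : y2 ∈ S.X (S.neg (S.simple j)) := mul_mem (inv_mem hy') hy
  have hy21 : y2 ≠ 1 := by
    intro e
    apply hne
    rw [hy2, inv_mul_eq_one] at e
    exact e.symm
  -- `y2` normalizes `X_j`
  have hN : ∀ g ∈ S.X (S.simple j), y2 * g * y2⁻¹ ∈ S.X (S.simple j) := by
    intro g hg
    have hg1 : b⁻¹ * g * b ∈ S.X (S.simple j) := mul_mem (mul_mem (inv_mem hb) hg) hb
    obtain ⟨g', hg', e⟩ := Cfsg.Agent.Lib.Helper39TwT15.conj_onto h j hm' _ (hm _ hg1)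
    have e2 : y2 * g * y2⁻¹ = b * g' * b⁻¹ := by
      have : g' = (a * y' * b)⁻¹ * ((a * y * b) * (b⁻¹ * g * b) * (a * y * b)⁻¹) * (a * y' * b) := by
        rw [← e]; group
      rw [this, hy2]; group
    rw [e2]
    exact mul_mem (mul_mem hb hg') (inv_mem hb)
  obtain ⟨a1, ha1, hh, hhH, a2, ha2, e0⟩ := ok.rank_one j _ hy2X hy21
  obtain ⟨g, hg, hg1⟩ := ok.X_ne j
  have h1 : a2⁻¹ * g * a2 ∈ S.X (S.simple j) := mul_mem (mul_mem (inv_mem ha2) hg) ha2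
  have h2 := hN _ h1
  have h3 : a1⁻¹ * (y2 * (a2⁻¹ * g * a2) * y2⁻¹) * a1 ∈ S.X (S.simple j) :=
    mul_mem (mul_mem (inv_mem ha1) h2) ha1
  have h4 := H_X ok _ hh⁻¹ (inv_mem hhH) _ h3
  have e : hh⁻¹ * (a1⁻¹ * (y2 * (a2⁻¹ * g * a2) * y2⁻¹) * a1) * hh⁻¹⁻¹ = S.nn j * g * (S.nn j)⁻¹ := by
    rw [e0]; group
  rw [e] at h4
  have h5 : S.nn j * g * (S.nn j)⁻¹ ∈ S.X (S.neg (S.simple j)) := by
    have := n_conj ok j _ g hg
    rwa [ok.refl_simple] at this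
  have h6 := ok.hBV _ (U_le_B (X_simple_le_U ok j h4)) (X_le_V ok _ (not_pos_neg_simple ok j) h5)
  exact conj_ne_one ok hg1 h6

end Cfsg.Agent.Lib.H22RoT1
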