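import Cfsg.Agent.Lib.Helper22RoDefs
import Cfsg.Agent.Lib.Helper22RoT


set_option autoImplicit false
set_option linter.unusedSectionVars false

/-! PROJECT 2128, piece T2. -/

namespace Cfsg.Agent.Lib.H22RoT2

open Subgroup Cfsg.Agent.Lib.Helper22RoDefs

open Cfsg.Agent.Lib.Helper23Grp Cfsg.Agent.Lib.Helper23TG Cfsg.Agent.Lib.Helper23TG.TG
  Cfsg.Agent.Lib.Helper23Weyl Cfsg.Agent.Lib.LeadTwDefs

variable {𝔾 R I : Type*} [Group 𝔾] [Fintype R] [DecidableEq R] {S : TG 𝔾 R I}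

/-- T2 -/
theorem rk_ex (h : TData S) (j : I) {y : 𝔾} (hy : y ∈ S.X (S.neg (S.simple j))) (hne : y ≠ 1) :
    ∃ a ∈ S.X (S.simple j), ∃ b ∈ S.X (S.simple j),
      ∀ g ∈ S.X (S.simple j), (a * y * b) * g * (a * y * b)⁻¹ ∈ S.X (S.neg (S.simple j)) := by
  have ok := h.ok
  obtain ⟨a, ha, k, hk, b, hb, e⟩ := ok.rank_one j y hy hne
  refine ⟨a⁻¹, inv_mem ha, b⁻¹, inv_mem hb, fun g hg => ?_⟩
  have e1 : a⁻¹ * y * b⁻¹ = k * S.nn j := by rw [e]; group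
  rw [e1]
  have h1 := n_conj ok j _ g hg
  rw [ok.refl_simple] at h1
  have h2 := H_X ok _ k hk _ h1
  have e2 : k * S.nn j * g * (k * S.nn j)⁻¹ = k * (S.nn j * g * (S.nn j)⁻¹) * k⁻¹ := by group
  rw [e2]
  exact h2

end Cfsg.Agent.Lib.H22RoT2
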