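import Cfsg.Agent.Lib.LeadTwDefs3
import Cfsg.Agent.S0311

set_option autoImplicit false
set_option linter.unusedVariables false
set_option linter.unusedSectionVars false

/-! PROJECT 101 (TW-AUT), PART I, piece I6. -/

namespace Cfsg.Agent.Lib.Helper17TwI6

open Subgroup Cfsg.Agent.Lib.Helper23Grp Cfsg.Agent.Lib.Helper23RG Cfsg.Agent.Lib.Helper23TG
  Cfsg.Agent.Lib.Helper23Tw Cfsg.Agent.Lib.Helper23Weyl Cfsg.Agent.Lib.LeadTwDefs

variable {𝔾 R I : Type*} [Group 𝔾] {S : TG 𝔾 R I} {L : Subgroup 𝔾} {hn : ∀ i, S.nn i ∈ L}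

/-- I6a -/
theorem perms_Dc {θ : 𝔾 ≃* 𝔾} {ρ : Equiv.Perm I} (h : Perms S θ ρ) (J J' : I) : Dc S (ρ J) (ρ J') ↔ Dc S J J' := by
  constructor
  · intro hD a ha b hb
    apply θ.injective
    rw [map_mul, map_mul]
    refine hD (θ a) ?_ (θ b) ((h J' b).1.2 hb)
    rcases ha with ha | ha
    · exact Or.inl ((h J a).1.2 ha)
    · exact Or.inr ((h J a).2.2 ha)
  · intro hD a ha b hb
    obtain ⟨a, rfl⟩ := θ.surjective a
    obtain ⟨b, rfl⟩ := θ.surjective b
    rw [← map_mul, ← map_mul]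
    congr 1
    refine hD a ?_ b ((h J' b).1.1 hb)
    rcases ha with ha | ha
    · exact Or.inl ((h J a).1.1 ha)
    · exact Or.inr ((h J a).2.1 ha)

/-- I6b -/
theorem perms_card {θ : 𝔾 ≃* 𝔾} {ρ : Equiv.Perm I} (h : Perms S θ ρ) (J : I) :
    Nat.card (S.X (S.simple (ρ J))) = Nat.card (S.X (S.simple J)) := by
  have e : S.X (S.simple (ρ J)) = (S.X (S.simple J)).map θ.toMonoidHom := by
    ext g
    obtain ⟨g, rfl⟩ := θ.surjective g
    rw [(h J g).1]
    constructor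
    · intro hg
      exact ⟨g, hg, rfl⟩
    · rintro ⟨g', hg', e⟩
      rwa [← θ.injective e]
  rw [e]
  exact (Nat.card_congr (θ.subgroupMap (S.X (S.simple J))).toEquiv).symm

end Cfsg.Agent.Lib.Helper17TwI6
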