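import Cfsg.Agent.Lib.Helper22RoDefs
import Cfsg.Agent.Lib.Helper22RoT
import Cfsg.Agent.Lib.Helper17TwI6

set_option autoImplicit false
set_option linter.unusedSectionVars false

/-! PROJECT 2128, piece T3. -/

namespace Cfsg.Agent.Lib.H22RoT3

open Subgroup Cfsg.Agent.Lib.Helper22RoDefs

open Cfsg.Agent.Lib.Helper23Grp Cfsg.Agent.Lib.Helper23TG Cfsg.Agent.Lib.Helper23TG.TG
  Cfsg.Agent.Lib.Helper23Weyl Cfsg.Agent.Lib.LeadTwDefs

variable {𝔾 R I : Type*} [Group 𝔾] [Fintype R] [DecidableEq R] {S : TG 𝔾 R I}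

/-- T3 -/
theorem perms_one {S : TG 𝔾 R (Fin 2)} (hcard : Nat.card (S.X (S.simple 0)) ≠ Nat.card (S.X (S.simple 1)))
    {Θ : 𝔾 ≃* 𝔾} {ρ : Equiv.Perm (Fin 2)} (hρ : Perms S Θ ρ) : Perms S Θ 1 := by
  have h0 : ρ 0 = 0 := by
    by_contra hne
    have h1 : ρ 0 = 1 := by
      have := (ρ 0).isLt
      apply Fin.ext
      have h2 : (ρ 0 : ℕ) ≠ 0 := fun h => hne (Fin.ext h)
      simp only [Fin.val_one]
      omega
    have := Cfsg.Agent.Lib.Helper17TwI6.perms_card hρ 0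
    rw [h1] at this
    exact hcard this.symm
  have h1 : ρ 1 = 1 := by
    by_contra hne
    have h2 : ρ 1 = 0 := by
      have := (ρ 1).isLt
      apply Fin.ext
      have h2 : (ρ 1 : ℕ) ≠ 1 := fun h => hne (Fin.ext h)
      simp only [Fin.val_zero]
      omega
    have := ρ.injective (h2.trans h0.symm)
    exact absurd this (by decide)
  have : ρ = 1 := by
    ext i
    fin_cases i
    · simp [h0]
    · simp [h1]
  rwa [this] at hρ

end Cfsg.Agent.Lib.H22RoT3
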