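import Cfsg.Agent.Lib.Helper22RoDefs
import Cfsg.Agent.Lib.Helper22RoT


set_option autoImplicit false
set_option linter.unusedSectionVars false

/-! PROJECT 2128, piece T4. -/

namespace Cfsg.Agent.Lib.H22RoT4

open Subgroup Cfsg.Agent.Lib.Helper22RoDefs

open Cfsg.Agent.Lib.Helper23Grp Cfsg.Agent.Lib.Helper23TG Cfsg.Agent.Lib.Helper23TG.TG
  Cfsg.Agent.Lib.Helper23Weyl Cfsg.Agent.Lib.LeadTwDefs

variable {𝔾 R I : Type*} [Group 𝔾] [Fintype R] [DecidableEq R] {S : TG 𝔾 R I}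

/-- T4a -/
theorem nrm_trans {Θ Θ' : 𝔾 ≃* 𝔾} (h : Nrm S Θ) (h' : Nrm S Θ') : Nrm S (Θ.trans Θ') :=
  ⟨fun g => (h'.1 (Θ g)).trans (h.1 g), fun g => (h'.2 (Θ g)).trans (h.2 g)⟩

/-- T4b -/
theorem nrm_symm {Θ : 𝔾 ≃* 𝔾} (h : Nrm S Θ) : Nrm S Θ.symm :=
  ⟨fun g => by rw [← h.1 (Θ.symm g), MulEquiv.apply_symm_apply],
    fun g => by rw [← h.2 (Θ.symm g), MulEquiv.apply_symm_apply]⟩

theorem nrm_H_aux (h13 : ∀ y : 𝔾, Nrm S (MulAut.conj y) ↔ y ∈ S.H) {Θ : 𝔾 ≃* 𝔾} (hΘ : Nrm S Θ) :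
    ∀ g, g ∈ S.H → Θ g ∈ S.H := by
  intro g hg
  rw [← h13]
  have e : MulAut.conj (Θ g) = (Θ.symm.trans (MulAut.conj g)).trans Θ := by
    ext z
    simp [MulAut.conj_apply]
  rw [e]
  exact nrm_trans (nrm_trans (nrm_symm hΘ) ((h13 g).2 hg)) hΘ

/-- T4c -/
theorem nrm_H (h13 : ∀ y : 𝔾, Nrm S (MulAut.conj y) ↔ y ∈ S.H) {Θ : 𝔾 ≃* 𝔾} (hΘ : Nrm S Θ) :
    ∀ g, Θ g ∈ S.H ↔ g ∈ S.H := by
  intro g
  constructor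
  · intro hg
    have := nrm_H_aux h13 (nrm_symm hΘ) _ hg
    rwa [MulEquiv.symm_apply_apply] at this
  · exact nrm_H_aux h13 hΘ g

end Cfsg.Agent.Lib.H22RoT4
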