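import Cfsg.Agent.Lib.H22SlDefs

set_option autoImplicit false

/-! PROJECT 1030, piece Base (helper23's `RG` API, file Helper23RG.lean, first 140 lines suffice). -/

namespace Cfsg.Agent.Lib.H22SlBase

open Cfsg.Agent.Lib.Helper23RG Cfsg.Agent.Lib.Helper23RG.RG Cfsg.Agent.Lib.H22SlDefs

variable {𝔾 F R I : Type*} [Group 𝔾] [Field F] {S : RG 𝔾 F R I}

/-- Base.  `(S.nE r 1)⁻¹ = S.nE r (-1)` (`nE_inv ok`), so `S.hE r t = S.nE r t * (S.nE r 1)⁻¹` (unfold `hE`) and, with `r = S.simple i`, `S.nE r t = S.hE r t * S.nn i` (`nn i = nE (simple i) 1` by `rfl`).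
Second half of `Good`: this is `hh`.  First half: `nE t * x_i u * (nE t)⁻¹ = hE t * (nn i * x_i u * (nn i)⁻¹) * (hE t)⁻¹ = hE t * x (refl i (simple i)) (η * u) * (hE t)⁻¹` (`ok.n_conj`)
`= x (neg (simple i)) (t ^ (A i (neg (simple i))) * (η * u))` (`ok.refl_simple`, `ok.h_conj`), `A i (neg (simple i)) = -2` (`ok.A_neg`, `hA`), `η = -1` (`hη`), `t ^ (-2 : ℤ) = t⁻¹ ^ 2` (`zpow_neg`, `zpow_ofNat`, `inv_pow`). -/
theorem good_simple (ok : S.Ok) (i : I) (hη : S.η i (S.simple i) = -1) (hA : S.A i (S.simple i) = 2)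
    (hh : ∀ t u : F, t ≠ 0 → u ≠ 0 → S.hE (S.simple i) (t * u) = S.hE (S.simple i) t * S.hE (S.simple i) u) :
    Good S (S.simple i) := by
  have e1 : ∀ t, S.hE (S.simple i) t = S.nE (S.simple i) t * (S.nE (S.simple i) 1)⁻¹ := by
    intro t
    rw [nE_inv ok]; rfl
  have e2 : ∀ t, S.nE (S.simple i) t = S.hE (S.simple i) t * S.nn i := by
    intro t
    rw [e1]; unfold nn; group
  constructor
  · intro t u ht
    have : S.nE (S.simple i) t * S.x (S.simple i) u * (S.nE (S.simple i) t)⁻¹ =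
        S.hE (S.simple i) t * (S.nn i * S.x (S.simple i) u * (S.nn i)⁻¹) * (S.hE (S.simple i) t)⁻¹ := by
      rw [e2]; group
    rw [this, ok.n_conj, ok.refl_simple, ok.h_conj i _ t _ ht, ok.A_neg, hA, hη]
    congr 1
    rw [zpow_neg, ← inv_zpow]
    have : (t⁻¹ : F) ^ (2 : ℤ) = t⁻¹ ^ 2 := by norm_cast
    rw [this]; ring
  · intro t u ht hu
    rw [← e1, ← e1, ← e1]
    exact hh t u ht hu

end Cfsg.Agent.Lib.H22SlBase
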