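import Cfsg.Agent.Lib.H22SlDefs
import Cfsg.Agent.Lib.Helper23All
import Cfsg.Agent.Lib.Helper22ChevNAll

set_option autoImplicit false

/-! PROJECT 1030, piece ConcA. -/

namespace Cfsg.Agent.Lib.H22SlConcA

open Cfsg.Lie Cfsg.Lie.ChevalleyDatum Cfsg.Agent.Lib.Helper23RG Cfsg.Agent.Lib.Helper23Chev Cfsg.Agent.Lib.Helper23Table
  Cfsg.Agent.Lib.Helper22ChevBasic

variable {F : Type*} [Field F] {D : ChevalleyDatum}

set_option maxRecDepth 100000 in
/-- Conc-A.  `(rg hT hR).A i r = D.cartan i r` by `rfl`.  `simp only [List.mem_cons, List.not_mem_nil, or_false] at hD; rcases hD with rfl | ... ` and `decide`/`decide +kernel` on `∀ i : Fin D.rank, D.cartan i (D.simple i) = 2`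
(as in `Helper23All.cartanRefl` / `LeadTwD.hA0`). -/
theorem A_simple (hD : D ∈ [chevG2, chevB2, chevD4, chevF4, chevE6, chevE7, chevE8]) (hT : TableOK D) (hR : Rel D F) (i : Fin D.rank) :
    (rg hT hR).A i ((rg hT hR).simple i) = 2 := by
  show D.cartan i (D.simple i) = 2
  revert i
  simp only [List.mem_cons, List.not_mem_nil, or_false] at hD
  rcases hD with rfl | rfl | rfl | rfl | rfl | rfl | rfl <;> decide +kernel

end Cfsg.Agent.Lib.H22SlConcA
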