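import Cfsg.Agent.Lib.H22SlDefs
import Cfsg.Agent.Lib.Helper23All
import Cfsg.Agent.Lib.Helper22ChevNAll

set_option autoImplicit false

/-! PROJECT 1030, piece ConcE. -/

namespace Cfsg.Agent.Lib.H22SlConcE

open Cfsg.Lie Cfsg.Lie.ChevalleyDatum Cfsg.Agent.Lib.Helper23RG Cfsg.Agent.Lib.Helper23Chev Cfsg.Agent.Lib.Helper23Table
  Cfsg.Agent.Lib.Helper22ChevBasic

variable {F : Type*} [Field F] {D : ChevalleyDatum}

/-- Conc-η.  `Helper22ChevNAll.strongN hD i i.2` gives `η'` with `η' (D.simple i) = -1` and `D.nMat F (D.simple i) 1 * D.x F s t = D.x F (D.reflectRoot i s) (η' s * t) * D.nMat F (D.simple i) 1`.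
`(rg_ok hT hR).n_conj i (simple i) 1` gives `nn i * x_i 1 * (nn i)⁻¹ = x (refl i (simple i)) (η * 1)`; take matrices (`congrArg Units.val`, `coe_nE hT hR` for `nn i = nE (simple i) 1`, `coe_xg hR`), i.e. `nMat * x_i 1 = x_{refl} (η) * nMat`;
`nMat` is invertible (it is the matrix of the unit `nn i`), so `D.x F s' η = D.x F s' (η' * 1)`, i.e. `(rg hT hR).x s' η = (rg hT hR).x s' (-1)` and `RG.x_eq_iff (rg_ok hT hR)` gives `η = -1`. -/
theorem η_simple (hD : D ∈ [chevG2, chevB2, chevD4, chevF4, chevE6, chevE7, chevE8]) (hT : TableOK D) (hR : Rel D F) (i : Fin D.rank) :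
    (rg hT hR).η i ((rg hT hR).simple i) = -1 := by
  obtain ⟨η', -, h1, -, -, h2⟩ := Cfsg.Agent.Lib.Helper22ChevNAll.strongN hD i i.2
  obtain ⟨-, h3⟩ := h2 F
  have ok := rg_ok hT hR
  have h4 := ok.n_conj i ((rg hT hR).simple i) 1
  have h5 := h3 (D.simple i) (hT.simple_lt i i.2) 1
  rw [h1] at h5
  -- as units
  have h6 : (rg hT hR).nn i * (rg hT hR).x ((rg hT hR).simple i) 1 =
      (rg hT hR).x ((rg hT hR).refl i ((rg hT hR).simple i)) (((-1 : ℤ) : F) * 1) * (rg hT hR).nn i := by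
    apply Units.ext
    rw [Units.val_mul, Units.val_mul]
    have e : (((rg hT hR).nn i : GL D.Idx F) : Matrix D.Idx D.Idx F) = D.nMat F (D.simple i) 1 := coe_nE hT hR _ 1
    rw [e]
    have e1 : (((rg hT hR).x ((rg hT hR).simple i) 1 : GL D.Idx F) : Matrix D.Idx D.Idx F) = D.x F (D.simple i) 1 :=
      coe_xg hR _ _
    have e2 : (((rg hT hR).x ((rg hT hR).refl i ((rg hT hR).simple i)) (((-1 : ℤ) : F) * 1) : GL D.Idx F) :
        Matrix D.Idx D.Idx F) = D.x F (D.reflectRoot i (D.simple i)) (((-1 : ℤ) : F) * 1) := coe_xg hR _ _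
    rw [e1, e2]
    exact h5
  have h7 : (rg hT hR).x ((rg hT hR).refl i ((rg hT hR).simple i)) ((rg hT hR).η i ((rg hT hR).simple i) * 1) =
      (rg hT hR).x ((rg hT hR).refl i ((rg hT hR).simple i)) (((-1 : ℤ) : F) * 1) := by
    rw [← h4, h6]; group
  have h8 := (RG.x_eq_iff ok _ _ _).1 h7
  simpa using h8

end Cfsg.Agent.Lib.H22SlConcE
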