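import Cfsg.Agent.Lib.H22SlDefs
import Cfsg.Agent.Lib.Helper23All
import Cfsg.Agent.Lib.Helper22ChevNAll

set_option autoImplicit false

/-! PROJECT 1030, piece ConcH. -/

namespace Cfsg.Agent.Lib.H22SlConcH

open Cfsg.Lie Cfsg.Lie.ChevalleyDatum Cfsg.Agent.Lib.Helper23RG Cfsg.Agent.Lib.Helper23Chev Cfsg.Agent.Lib.Helper23Table
  Cfsg.Agent.Lib.Helper22ChevBasic

variable {F : Type*} [Field F] {D : ChevalleyDatum}

/-- Conc-H.  `Units.ext`; `coe_hE hT hR` turns both sides into `D.hMat F (D.simple i) _`; `hR.hdiag i i.2 c hc` makes them diagonal; `Matrix.diagonal_mul_diagonal`, `mul_zpow`. -/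
theorem hE_mul (hT : TableOK D) (hR : Rel D F) (i : Fin D.rank) (t u : F) (ht : t ≠ 0) (hu : u ≠ 0) :
    (rg hT hR).hE ((rg hT hR).simple i) (t * u) = (rg hT hR).hE ((rg hT hR).simple i) t * (rg hT hR).hE ((rg hT hR).simple i) u := by
  apply Units.ext
  rw [Units.val_mul, coe_hE, coe_hE, coe_hE]
  show D.hMat F (D.simple i) (t * u) = D.hMat F (D.simple i) t * D.hMat F (D.simple i) u
  rw [hR.hdiag i i.2 _ (mul_ne_zero ht hu), hR.hdiag i i.2 _ ht, hR.hdiag i i.2 _ hu, Matrix.diagonal_mul_diagonal]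
  congr 1
  ext s
  cases s with
  | inl j => simp
  | inr s => simp [mul_zpow]

end Cfsg.Agent.Lib.H22SlConcH
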