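import Cfsg.Agent.Lib.Helper43R1Defs
import Cfsg.Agent.Lib.Helper23RG

set_option autoImplicit false

/-! PROJECT 1030 (S1030: the homomorphism `SL₂(F) → ⟨X_r, X_{-r}⟩`), vocabulary. -/

namespace Cfsg.Agent.Lib.H22SlDefs

open Cfsg.Agent.Lib.Helper23RG Cfsg.Agent.Lib.Helper43R1

variable {𝔾 F R I : Type*} [Group 𝔾] [Field F]

/-- the rank one Steinberg relations (B), (C) for the pair of roots `(r, -r)` -/
def Good (S : RG 𝔾 F R I) (r : R) : Prop :=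
  (∀ t u : F, t ≠ 0 → S.nE r t * S.x r u * (S.nE r t)⁻¹ = S.x (S.neg r) (-(t⁻¹ ^ 2 * u))) ∧
  (∀ t u : F, t ≠ 0 → u ≠ 0 → S.nE r (t * u) * (S.nE r 1)⁻¹ =
    (S.nE r t * (S.nE r 1)⁻¹) * (S.nE r u * (S.nE r 1)⁻¹))

/-- relation (C) for rank one Steinberg data -/
def HMul {K P : Type*} [Field K] [Group P] (R : R1 K P) : Prop :=
  ∀ t u : K, t ≠ 0 → u ≠ 0 → R.h (t * u) = R.h t * R.h u

end Cfsg.Agent.Lib.H22SlDefs
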