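import Cfsg.Agent.Lib.H22SlDefs

set_option autoImplicit false

/-! PROJECT 1030, piece Prod (Mathlib + the tiny vocabulary `Helper43R1Defs.R1`, `H22SlDefs.HMul`). -/

namespace Cfsg.Agent.Lib.H22SlProd

open Cfsg.Agent.Lib.Helper43R1 Cfsg.Agent.Lib.H22SlDefs

/-- Prod.  The diagonal rank one data in the subgroup `Δ ≤ P × Q` generated by the pairs `(x t, x₀ t)`, `(y t, y₀ t)`.
`Δ := Subgroup.closure (Set.range (fun t => (R.x t, R₀.x t)) ∪ Set.range (fun t => (R.y t, R₀.y t)))`, `R'.x t := ⟨(R.x t, R₀.x t), subset_closure _⟩`, same for `y`.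
All relations: `Subtype.ext`, `Prod.ext`, componentwise from `R`, `R₀` (`R.xadd`, `R.yadd`, `R.bx`).  `HMul R'`: unfold `R1.h`, `R1.w`; `Subtype.ext`, `Prod.ext`; the components are `hR t u ht hu`, `hR₀ t u ht hu` (unfolded).
`Gen`: `Subgroup.closure_closure_coe_preimage` (`closure ((↑) ⁻¹' k : Set (closure k)) = ⊤`) and the preimage of the generating set is `Set.range R'.x ∪ Set.range R'.y`
(or: `eq_top_iff`, and for `⟨g, hg⟩` do `Subgroup.closure_induction` on `hg` with the dependent motive). -/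
theorem exists_prod {K P Q : Type*} [Field K] [Group P] [Group Q] (R : R1 K P) (R₀ : R1 K Q) (hR : HMul R) (hR₀ : HMul R₀) :
    ∃ (Δ : Subgroup (P × Q)) (R' : R1 K ↥Δ), R'.Gen ∧ HMul R' ∧
      (∀ t, ((R'.x t : ↥Δ) : P × Q) = (R.x t, R₀.x t)) ∧ (∀ t, ((R'.y t : ↥Δ) : P × Q) = (R.y t, R₀.y t)) := by
  let k : Set (P × Q) := Set.range (fun t => (R.x t, R₀.x t)) ∪ Set.range (fun t => (R.y t, R₀.y t))
  let R' : R1 K ↥(Subgroup.closure k) :=
    { x := fun t => ⟨(R.x t, R₀.x t), Subgroup.subset_closure (Or.inl ⟨t, rfl⟩)⟩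
      y := fun t => ⟨(R.y t, R₀.y t), Subgroup.subset_closure (Or.inr ⟨t, rfl⟩)⟩
      xadd := fun s t => Subtype.ext (Prod.ext (R.xadd s t) (R₀.xadd s t))
      yadd := fun s t => Subtype.ext (Prod.ext (R.yadd s t) (R₀.yadd s t))
      bx := fun t u ht => Subtype.ext (Prod.ext (R.bx t u ht) (R₀.bx t u ht)) }
  refine ⟨Subgroup.closure k, R', ?_, ?_, fun t => rfl, fun t => rfl⟩
  · unfold R1.Gen
    have h := Subgroup.closure_closure_coe_preimage (k := k)
    rw [← h]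
    congr 1
    ext ⟨g, hg⟩
    constructor
    · rintro (⟨t, ht⟩ | ⟨t, ht⟩)
      · exact Or.inl ⟨t, congrArg Subtype.val ht⟩
      · exact Or.inr ⟨t, congrArg Subtype.val ht⟩
    · rintro (⟨t, ht⟩ | ⟨t, ht⟩)
      · exact Or.inl ⟨t, Subtype.ext ht⟩
      · exact Or.inr ⟨t, Subtype.ext ht⟩
  · intro t u ht hu
    exact Subtype.ext (Prod.ext (hR t u ht hu) (hR₀ t u ht hu))

end Cfsg.Agent.Lib.H22SlProd
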