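import Cfsg.Agent.Lib.H22SlDefs
import Cfsg.Agent.Lib.Helper6SL2Hom

set_option autoImplicit false

/-! PROJECT 1030, piece Std (Mathlib + the tiny vocabulary `Helper43R1Defs.R1`, `H22SlDefs.HMul`). -/

namespace Cfsg.Agent.Lib.H22SlStd

open Matrix Cfsg.Agent.Lib.Helper43R1 Cfsg.Agent.Lib.H22SlDefs

variable (K : Type*) [Field K]

def sx (t : K) : SpecialLinearGroup (Fin 2) K := ⟨!![1, t; 0, 1], by simp [det_fin_two]⟩
def sy (t : K) : SpecialLinearGroup (Fin 2) K := ⟨!![1, 0; t, 1], by simp [det_fin_two]⟩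
def sw (t : K) (ht : t ≠ 0) : SpecialLinearGroup (Fin 2) K := ⟨!![0, t; -t⁻¹, 0], by simp [det_fin_two, ht]⟩

variable {K}

theorem sw_eq (t : K) (ht : t ≠ 0) : sx K t * sy K (-t⁻¹) * sx K t = sw K t ht := by
  apply Subtype.ext
  show !![1, t; 0, 1] * !![1, 0; -t⁻¹, 1] * !![1, t; 0, 1] = !![0, t; -t⁻¹, 0]
  ext i j
  fin_cases i <;> fin_cases j <;> simp [Matrix.mul_apply, Fin.sum_univ_two, ht]

theorem sw_inv (t : K) (ht : t ≠ 0) : (sw K t ht)⁻¹ = sw K (-t) (neg_ne_zero.2 ht) := by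
  rw [inv_eq_iff_mul_eq_one]
  apply Subtype.ext
  show !![0, t; -t⁻¹, 0] * !![0, -t; -(-t)⁻¹, 0] = (1 : Matrix (Fin 2) (Fin 2) K)
  ext i j
  fin_cases i <;> fin_cases j <;> simp [Matrix.mul_apply, Fin.sum_univ_two, ht, inv_neg]

/-- Std.  The standard rank one data in `SL₂(K)`, ANY field.  `x t := ⟨!![1, t; 0, 1], by simp [det_fin_two]⟩`, `y t := ⟨!![1, 0; t, 1], _⟩`.
All identities: `Subtype.ext`/`SpecialLinearGroup.ext`, `fin_cases`, `simp [Matrix.mul_apply, Fin.sum_univ_two]`, `field_simp`, `ring`.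
It helps to compute first `w t = !![0, t; -t⁻¹, 0]` (matrix), `(w t)⁻¹ = w (-t)` (check `w t * w (-t) = 1`), `h t = !![t, 0; 0, t⁻¹]`.
`Gen`: `Helper6SL2Hom.closure_transvections` with `Helper6SL2Hom.T01_entries`, `T10_entries` (every transvection is some `x t` or `y t`). -/
theorem exists_std (K : Type*) [Field K] :
    ∃ R₀ : R1 K (SpecialLinearGroup (Fin 2) K),
      (∀ t, ((R₀.x t : SpecialLinearGroup (Fin 2) K) : Matrix (Fin 2) (Fin 2) K) = !![1, t; 0, 1]) ∧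
      (∀ t, ((R₀.y t : SpecialLinearGroup (Fin 2) K) : Matrix (Fin 2) (Fin 2) K) = !![1, 0; t, 1]) ∧
      HMul R₀ ∧ R₀.Gen := by
  let R₀ : R1 K (SpecialLinearGroup (Fin 2) K) :=
    { x := sx K
      y := sy K
      xadd := fun s t => by
        apply Subtype.ext
        show !![1, s + t; 0, 1] = !![1, s; 0, 1] * !![1, t; 0, 1]
        ext i j
        fin_cases i <;> fin_cases j <;> simp [Matrix.mul_apply, Fin.sum_univ_two, add_comm]
      yadd := fun s t => by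
        apply Subtype.ext
        show !![1, 0; s + t, 1] = !![1, 0; s, 1] * !![1, 0; t, 1]
        ext i j
        fin_cases i <;> fin_cases j <;> simp [Matrix.mul_apply, Fin.sum_univ_two, add_comm]
      bx := fun t u ht => by
        rw [sw_eq t ht, sw_inv t ht]
        apply Subtype.ext
        show !![0, t; -t⁻¹, 0] * !![1, u; 0, 1] * !![0, -t; -(-t)⁻¹, 0] = !![1, 0; -(t⁻¹ ^ 2 * u), 1]
        ext i j
        fin_cases i <;> fin_cases j <;> simp [Matrix.mul_apply, Fin.sum_univ_two, ht, inv_neg] <;> ring }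
  refine ⟨R₀, fun t => rfl, fun t => rfl, ?_, ?_⟩
  · intro t u ht hu
    show sx K (t * u) * sy K (-(t * u)⁻¹) * sx K (t * u) * (sx K 1 * sy K (-(1 : K)⁻¹) * sx K 1)⁻¹ =
      sx K t * sy K (-t⁻¹) * sx K t * (sx K 1 * sy K (-(1 : K)⁻¹) * sx K 1)⁻¹ *
        (sx K u * sy K (-u⁻¹) * sx K u * (sx K 1 * sy K (-(1 : K)⁻¹) * sx K 1)⁻¹)
    rw [sw_eq _ (mul_ne_zero ht hu), sw_eq _ ht, sw_eq _ hu, sw_eq _ one_ne_zero, sw_inv]
    apply Subtype.ext
    show !![0, t * u; -(t * u)⁻¹, 0] * !![0, -1; -(-1 : K)⁻¹, 0] =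
      !![0, t; -t⁻¹, 0] * !![0, -1; -(-1 : K)⁻¹, 0] * (!![0, u; -u⁻¹, 0] * !![0, -1; -(-1 : K)⁻¹, 0])
    ext i j
    fin_cases i <;> fin_cases j <;> simp [Matrix.mul_apply, Fin.sum_univ_two, ht, hu, inv_neg, mul_comm]
  · unfold R1.Gen
    rw [eq_top_iff, ← Cfsg.Agent.Lib.Helper6SL2Hom.closure_transvections, Subgroup.closure_le]
    rintro A (⟨t, rfl⟩ | ⟨t, rfl⟩)
    · apply Subgroup.subset_closure
      exact Or.inl ⟨t, Subtype.ext (Cfsg.Agent.Lib.Helper6SL2Hom.T01_entries t).symm⟩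
    · apply Subgroup.subset_closure
      exact Or.inr ⟨t, Subtype.ext (Cfsg.Agent.Lib.Helper6SL2Hom.T10_entries t).symm⟩

end Cfsg.Agent.Lib.H22SlStd
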