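import Cfsg.Agent.Lib.H22SlDefs

set_option autoImplicit false

/-! PROJECT 1030, piece Step (helper23's `RG` API, file Helper23RG.lean, first 140 lines suffice). -/

namespace Cfsg.Agent.Lib.H22SlStep

open Cfsg.Agent.Lib.Helper23RG Cfsg.Agent.Lib.Helper23RG.RG Cfsg.Agent.Lib.H22SlDefs

variable {𝔾 F R I : Type*} [Group 𝔾] [Field F] {S : RG 𝔾 F R I}

/-- Step.  Put `η := S.η i r` (`η * η = 1`: `η_mul_self ok`; `η⁻¹ = η`: `η_inv ok`; `η ≠ 0`), `n := S.nn i`.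
`key : ∀ s t, S.x (S.refl i s) t = n * S.x s (S.η i s * t) * n⁻¹` (`ok.n_conj`, `← mul_assoc`, `η_mul_self`, `one_mul`), and `S.η i (S.neg r) = η` (`ok.η_neg`), `S.neg (S.refl i r) = S.refl i (S.neg r)` (`ok.refl_neg`).
`keyN : ∀ t, S.nE (S.refl i r) t = n * S.nE r (η * t) * n⁻¹` (`nn_conj_nE ok`, same trick).
(B): `nE' t * x' u * (nE' t)⁻¹ = n * (nE r (η t) * x r (η u) * (nE r (η t))⁻¹) * n⁻¹ = n * x (neg r) (-((η t)⁻¹ ^ 2 * (η u))) * n⁻¹ = x (refl i (neg r)) (η * -((η t)⁻¹ ^ 2 * (η u)))` and the argument is `-(t⁻¹ ^ 2 * u)` (cases `η = 1`, `η = -1` with `ok.η_sq`, `simp`/`ring`).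
(C): with `hr s := nE r s * (nE r 1)⁻¹`: `nE' t * (nE' 1)⁻¹ = n * (nE r (η t) * (nE r η)⁻¹) * n⁻¹ = n * (hr (t η) * (hr η)⁻¹) * n⁻¹ = n * hr t * n⁻¹` by (C) for `r` (`hr (t * η) = hr t * hr η`).  So `t ↦ nE' t * (nE' 1)⁻¹` is multiplicative. -/
theorem good_refl (ok : S.Ok) (i : I) (r : R) (h : Good S r) : Good S (S.refl i r) := by
  obtain ⟨hB, hC⟩ := h
  have hηη := η_mul_self ok i r
  have hη0 := η_ne_zero ok i r
  have key : ∀ s t, S.x (S.refl i s) t = S.nn i * S.x s (S.η i s * t) * (S.nn i)⁻¹ := by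
    intro s t
    rw [ok.n_conj, ← mul_assoc, η_mul_self ok, one_mul]
  have keyN : ∀ t, S.nE (S.refl i r) t = S.nn i * S.nE r (S.η i r * t) * (S.nn i)⁻¹ := by
    intro t
    rw [nn_conj_nE ok, ← mul_assoc, hηη, one_mul]
  constructor
  · intro t u ht
    have hηt : S.η i r * t ≠ 0 := mul_ne_zero hη0 ht
    rw [keyN, key r u, ← ok.refl_neg, key (S.neg r), ok.η_neg]
    have : S.nn i * S.nE r (S.η i r * t) * (S.nn i)⁻¹ * (S.nn i * S.x r (S.η i r * u) * (S.nn i)⁻¹) *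
        (S.nn i * S.nE r (S.η i r * t) * (S.nn i)⁻¹)⁻¹ =
        S.nn i * (S.nE r (S.η i r * t) * S.x r (S.η i r * u) * (S.nE r (S.η i r * t))⁻¹) * (S.nn i)⁻¹ := by group
    rw [this, hB _ _ hηt]
    congr 3
    rcases ok.η_sq i r with h | h <;> rw [h] <;> simp
  · intro t u ht hu
    have e : ∀ t, t ≠ 0 → S.nE (S.refl i r) t * (S.nE (S.refl i r) 1)⁻¹ =
        S.nn i * (S.nE r t * (S.nE r 1)⁻¹) * (S.nn i)⁻¹ := by
      intro t ht
      rw [keyN, keyN 1, mul_one]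
      have h1 := hC t (S.η i r) ht hη0
      have : S.nE r (S.η i r * t) * (S.nE r (S.η i r))⁻¹ = S.nE r t * (S.nE r 1)⁻¹ := by
        rw [mul_comm (S.η i r) t]
        have h2 : S.nE r (t * S.η i r) = S.nE r t * (S.nE r 1)⁻¹ * (S.nE r (S.η i r) * (S.nE r 1)⁻¹) * S.nE r 1 := by
          rw [← h1]; group
        rw [h2]; group
      calc S.nn i * S.nE r (S.η i r * t) * (S.nn i)⁻¹ * (S.nn i * S.nE r (S.η i r) * (S.nn i)⁻¹)⁻¹
          = S.nn i * (S.nE r (S.η i r * t) * (S.nE r (S.η i r))⁻¹) * (S.nn i)⁻¹ := by group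
        _ = _ := by rw [this]
    rw [e _ (mul_ne_zero ht hu), e _ ht, e _ hu, hC t u ht hu]
    group

end Cfsg.Agent.Lib.H22SlStep
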