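import Cfsg.Agent.Lib.Helper46BNSt

set_option autoImplicit false

/-! PROJECT 2369 (S2369), piece E1. -/

namespace Cfsg.Agent.Lib.H22StE1

open Cfsg Subgroup Cfsg.Agent.Lib.Helper8BN Cfsg.Agent.Lib.Helper46Len Cfsg.Agent.Lib.Helper46BN Cfsg.Agent.Lib.Helper46BNSt

variable {G : Type*} [Group G] (P : Cfsg.BNPair G)

theorem St_zero [Finite G] (Sf : Finset (Wg P)) (hSf : (Sf : Set (Wg P)) = SW P) {m0 : G} (hm0 : m0 ∈ P.N)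
    (hQT : ∀ β ∈ P.B, m0⁻¹ * β * m0 ∈ P.B → β ∈ P.N) (U : Subgroup G) (hUB : U ≤ P.B)
    (hUn : ∀ β ∈ P.B, ∀ u ∈ U, β⁻¹ * u * β ∈ U) (hUN : ∀ u ∈ U, u ∈ P.N → u = 1)
    {u : G} (hu : u ∈ U) (hne : u ≠ 1) : St P Sf u = 0 := by
  let Q : Subgroup P.B := (P.B.comap (MulAut.conj m0⁻¹).toMonoidHom).subgroupOf P.B
  have hQ : ∀ β : P.B, β ∈ Q ↔ m0⁻¹ * β.1 * m0 ∈ P.B := by
    intro β
    show (MulAut.conj m0⁻¹) β.1 ∈ P.B ↔ _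
    rw [MulAut.conj_apply, inv_inv]
  have h := St_restrict P Sf hSf Q hm0 hQ (fun β hβ => hQT β.1 β.2 ((hQ β).1 hβ)) ⟨u, hUB hu⟩
  rw [show u = (⟨u, hUB hu⟩ : P.B).1 from rfl, h]
  unfold Cfsg.fixedPointCharacter
  have hemp : IsEmpty (MulAction.fixedBy (P.B ⧸ Q) (⟨u, hUB hu⟩ : P.B)) := by
    constructor
    rintro ⟨x, hx⟩
    induction x using QuotientGroup.induction_on with
    | H β =>
      have h5 : (((⟨u, hUB hu⟩ : P.B) * β : P.B) : P.B ⧸ Q) = (β : P.B ⧸ Q) := hx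
      rw [QuotientGroup.eq] at h5
      have h6 : β⁻¹ * ⟨u, hUB hu⟩ * β ∈ Q := by
        have := Q.inv_mem h5
        simpa [mul_assoc] using this
      have h7 : (β⁻¹ * ⟨u, hUB hu⟩ * β : P.B).1 ∈ P.N := hQT _ (β⁻¹ * ⟨u, hUB hu⟩ * β : P.B).2 ((hQ _).1 h6)
      have h8 : β.1⁻¹ * u * β.1 ∈ U := hUn β.1 β.2 u hu
      have h9 : β.1⁻¹ * u * β.1 = 1 := hUN _ h8 h7
      apply hne
      have : u = β.1 * (β.1⁻¹ * u * β.1) * β.1⁻¹ := by group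
      rw [this, h9]
      simp
  simp [Nat.card_of_isEmpty]

end Cfsg.Agent.Lib.H22StE1
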