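import Mathlib

set_option autoImplicit false

/-! PROJECT 2369 (S2369), piece E2. -/

namespace Cfsg.Agent.Lib.H22StE2

theorem fix_mod {G : Type*} [Group G] [Finite G] (H : Subgroup G) (r : ℕ) (hr : r.Prime) (hH : ¬ r ∣ Nat.card H)
    {a c : G} (hc : orderOf c = r) (hac : Commute a c) : r ∣ Nat.card (MulAction.fixedBy (G ⧸ H) a) := by
  have : Fact r.Prime := ⟨hr⟩
  let X : SubMulAction (Subgroup.zpowers c) (G ⧸ H) :=
    { carrier := MulAction.fixedBy (G ⧸ H) a
      smul_mem' := by
        rintro ⟨z, hz⟩ x hx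
        have hx' : a • x = x := hx
        have hcz : Commute a z := by
          obtain ⟨k, rfl⟩ := Subgroup.mem_zpowers_iff.1 hz
          exact hac.zpow_right k
        show a • (z • x) = z • x
        rw [← mul_smul, hcz.eq, mul_smul, hx'] }
  have hP : IsPGroup r (Subgroup.zpowers c) := by
    apply IsPGroup.of_card (n := 1)
    rw [Nat.card_zpowers, hc, pow_one]
  have h1 := hP.card_modEq_card_fixedPoints X
  have h2 : IsEmpty (MulAction.fixedPoints (Subgroup.zpowers c) X) := by
    constructor
    rintro ⟨⟨x, hx⟩, hfix⟩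
    have h3 := hfix ⟨c, Subgroup.mem_zpowers c⟩
    have h4 : c • x = x := congrArg Subtype.val h3
    induction x using QuotientGroup.induction_on with
    | H g =>
      have h5 : ((c * g : G) : G ⧸ H) = (g : G ⧸ H) := h4
      rw [QuotientGroup.eq] at h5
      have h6 : g⁻¹ * c * g ∈ H := by
        have := H.inv_mem h5
        simpa [mul_assoc] using this
      apply hH
      have h7 : orderOf (⟨g⁻¹ * c * g, h6⟩ : H) = r := by
        rw [← hc, ← Subgroup.orderOf_coe]
        have : g⁻¹ * c * g = MulAut.conj g⁻¹ c := by rw [MulAut.conj_apply, inv_inv]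
        show orderOf (g⁻¹ * c * g) = orderOf c
        rw [this, MulEquiv.orderOf_eq]
      rw [← h7]
      exact orderOf_dvd_natCard _
  rw [Nat.card_of_isEmpty (α := MulAction.fixedPoints (Subgroup.zpowers c) X)] at h1
  exact (Nat.modEq_zero_iff_dvd).1 h1

end Cfsg.Agent.Lib.H22StE2
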