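import Mathlib

set_option autoImplicit false

/-! PROJECT 2369, piece E3 (helper15). -/

namespace Cfsg.Agent.Lib.H22StE3

theorem alt_sum {α : Type*} [DecidableEq α] (Sf : Finset α) (f : Finset α → ℕ) (r : ℕ) (hr : r.Prime)
    (h0 : ∑ J ∈ Sf.powerset, (-1 : ℂ) ^ J.card * (f J : ℂ) = 0) (htop : f Sf = 1)
    (hJ : ∀ J ∈ Sf.powerset, J ≠ Sf → r ∣ f J) : False := by
  have h1 : ∑ J ∈ Sf.powerset, (-1 : ℤ) ^ J.card * (f J : ℤ) = 0 := by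
    have : ((∑ J ∈ Sf.powerset, (-1 : ℤ) ^ J.card * (f J : ℤ) : ℤ) : ℂ) = ((0 : ℤ) : ℂ) := by
      push_cast
      exact h0
    exact Int.cast_injective this
  rw [← Finset.add_sum_erase _ _ (Finset.mem_powerset_self Sf), htop] at h1
  have h2 : (r : ℤ) ∣ ∑ J ∈ Sf.powerset.erase Sf, (-1 : ℤ) ^ J.card * (f J : ℤ) := by
    apply Finset.dvd_sum
    intro J hJ'
    rw [Finset.mem_erase] at hJ'
    exact Dvd.dvd.mul_left (Int.natCast_dvd_natCast.2 (hJ J hJ'.2 hJ'.1)) _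
  have h3 : (r : ℤ) ∣ (-1 : ℤ) ^ Sf.card * ((1 : ℕ) : ℤ) := by
    have : (-1 : ℤ) ^ Sf.card * ((1 : ℕ) : ℤ) =
        - ∑ J ∈ Sf.powerset.erase Sf, (-1 : ℤ) ^ J.card * (f J : ℤ) := by linarith
    rw [this]
    exact (dvd_neg).2 h2
  have h4 : (r : ℤ) ∣ 1 := by
    rcases neg_one_pow_eq_or ℤ Sf.card with h | h
    · rw [h] at h3; simpa using h3
    · rw [h] at h3; simpa using h3
  have h5 : r ∣ 1 := by exact_mod_cast h4
  exact hr.one_lt.ne' (Nat.dvd_one.1 h5)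

end Cfsg.Agent.Lib.H22StE3
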