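import Cfsg.Agent.Lib.LeadTwDefs

set_option autoImplicit false
set_option linter.unusedSectionVars false

/-! Common lemmas for pieces T6-T9 of project TW-AUT : the minimal parabolic `P_i = B ∪ B n_i B`. -/

namespace Cfsg.Agent.Lib.Helper70TwPar

open Subgroup Cfsg.Agent.Lib.Helper23Grp Cfsg.Agent.Lib.Helper23TG Cfsg.Agent.Lib.Helper23TG.TG
  Cfsg.Agent.Lib.Helper23Weyl Cfsg.Agent.Lib.LeadTwDefs

variable {𝔾 R I : Type*} [Group 𝔾] {S : TG 𝔾 R I}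

theorem B_le_Par (i : I) : S.B ≤ Par S i := le_sup_left

theorem nn_mem_Par (i : I) : S.nn i ∈ Par S i := mem_sup_right (mem_zpowers _)

theorem nn_not_mem_B (ok : S.Ok) (i : I) : S.nn i ∉ S.B := by
  intro hb
  obtain ⟨x, hx, hx1⟩ := ok.X_ne i
  have h3 := n_conj ok i _ x hx
  rw [ok.refl_simple] at h3
  exact not_mem_B_of_neg ok (not_pos_neg_simple ok i) h3 (conj_ne_one ok hx1)
    (mul_mem (mul_mem hb (U_le_B (X_simple_le_U ok i hx))) (inv_mem hb))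

/-- `B ∪ B n_i B` is a subgroup. -/
theorem exists_subgroup_union (ok : S.Ok) (i : I) :
    ∃ P : Subgroup 𝔾, ∀ g, g ∈ P ↔ (g ∈ S.B ∨ ∃ b1 ∈ S.B, ∃ b2 ∈ S.B, g = b1 * S.nn i * b2) := by
  set s := S.nn i with hs
  refine ⟨{ carrier := {g | g ∈ S.B ∨ ∃ b1 ∈ S.B, ∃ b2 ∈ S.B, g = b1 * s * b2}, mul_mem' := ?_,
            one_mem' := ?_, inv_mem' := ?_ }, fun g => Iff.rfl⟩
  · intro a b ha hb
    rcases ha with ha | ⟨a1, ha1, a2, ha2, rfl⟩ <;> rcases hb with hb | ⟨b1, hb1, b2, hb2, rfl⟩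
    · exact Or.inl (S.B.mul_mem ha hb)
    · exact Or.inr ⟨a * b1, S.B.mul_mem ha hb1, b2, hb2, by group⟩
    · exact Or.inr ⟨a1, ha1, a2 * b, S.B.mul_mem ha2 hb, by group⟩
    · rcases bn_axiom ok i (nn_mem_N i) (S.B.mul_mem ha2 hb1) with ⟨c1, hc1, c2, hc2, e⟩ | ⟨c1, hc1, c2, hc2, e⟩
      · left
        have e' : a1 * s * a2 * (b1 * s * b2) = a1 * (s * (a2 * b1) * s) * b2 := by group
        rw [e', e]
        exact S.B.mul_mem (S.B.mul_mem ha1 (S.B.mul_mem (S.B.mul_mem hc1 (H_le_B (ok.nn_sq i))) hc2)) hb2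
      · right
        refine ⟨a1 * c1, S.B.mul_mem ha1 hc1, c2 * b2, S.B.mul_mem hc2 hb2, ?_⟩
        have e' : a1 * s * a2 * (b1 * s * b2) = a1 * (s * (a2 * b1) * s) * b2 := by group
        rw [e', e, hs]; group
  · exact Or.inl S.B.one_mem
  · intro a ha
    rcases ha with ha | ⟨a1, ha1, a2, ha2, rfl⟩
    · exact Or.inl (S.B.inv_mem ha)
    · right
      refine ⟨a2⁻¹ * (s⁻¹ * s⁻¹), S.B.mul_mem (S.B.inv_mem ha2) (H_le_B (nn_sq_inv_mem ok i)), a1⁻¹,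
        S.B.inv_mem ha1, by group⟩

theorem par_union (ok : S.Ok) (i : I) {g : 𝔾} (hg : g ∈ Par S i) :
    g ∈ S.B ∨ ∃ b1 ∈ S.B, ∃ b2 ∈ S.B, g = b1 * S.nn i * b2 := by
  obtain ⟨P, hP⟩ := exists_subgroup_union ok i
  have h1 : S.B ≤ P := fun b hb => (hP b).2 (Or.inl hb)
  have h2 : S.nn i ∈ P := (hP _).2 (Or.inr ⟨1, one_mem _, 1, one_mem _, by simp⟩)
  have h3 : Par S i ≤ P := sup_le h1 (by rw [zpowers_le]; exact h2)
  exact (hP g).1 (h3 hg)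

end Cfsg.Agent.Lib.Helper70TwPar
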