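import Cfsg.Agent.Lib.Helper46BNSt
import Cfsg.Agent.Lib.Helper70TwPar

set_option autoImplicit false

namespace Cfsg.Agent.Lib.H22StE4

open Cfsg Subgroup Cfsg.Agent.Lib.Helper8BN Cfsg.Agent.Lib.Helper46Len Cfsg.Agent.Lib.Helper46BN Cfsg.Agent.Lib.Helper46BNSt

variable {G : Type*} [Group G] (P : Cfsg.BNPair G)

theorem pre_SW : pre P (SW P) = P.S := by
  ext s
  constructor
  · rintro ⟨hs, _⟩
    exact hs
  · intro hs
    exact ⟨hs, s, hs, rfl⟩

/-- E4a. -/
theorem par_top : P.parabolic (pre P (SW P)) = ⊤ := by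
  rw [pre_SW]
  unfold Cfsg.BNPair.parabolic
  rw [eq_top_iff, ← P.sup_eq_top]
  apply sup_le le_sup_left
  conv_lhs => rw [← P.closure_sup]
  apply sup_le le_sup_right
  exact le_trans inf_le_left le_sup_left

/-- E4b. -/
theorem pre_ne {J : Set (Wg P)} (hJ : J ⊆ SW P) (hne : J ≠ SW P) : pre P J ≠ P.S := by
  intro h
  apply hne
  have h1 := imgJ_pre P hJ
  have h2 := imgJ_pre P (le_refl (SW P))
  rw [← h1, h, ← pre_SW P, h2]

/-- E4c : the trivial coset space -/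
theorem fix_top (a : G) : Nat.card (MulAction.fixedBy (G ⧸ (⊤ : Subgroup G)) a) = 1 := by
  haveI : Subsingleton (G ⧸ (⊤ : Subgroup G)) := QuotientGroup.subsingleton_quotient_top
  rw [Nat.card_eq_one_iff_unique]
  refine ⟨inferInstance, ⟨⟨(QuotientGroup.mk 1 : G ⧸ (⊤ : Subgroup G)), ?_⟩⟩⟩
  rw [MulAction.mem_fixedBy]
  exact Subsingleton.elim _ _

end Cfsg.Agent.Lib.H22StE4
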