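import Mathlib

set_option autoImplicit false

/-! PROJECT 2369, piece E5 (helper15). -/

namespace Cfsg.Agent.Lib.H22StE5

theorem conj_into {G : Type*} [Group G] [Finite G] (U : Subgroup G) (p k m : ℕ) [Fact p.Prime]
    (hG : Nat.card G = p ^ k * m) (hm : ¬ p ∣ m) (hU : Nat.card U = p ^ k) {a : G} (ha : orderOf a = p) :
    ∃ g : G, g * a * g⁻¹ ∈ U := by
  have hp : p.Prime := Fact.out
  have hm0 : m ≠ 0 := by rintro rfl; exact hm (dvd_zero p)
  have hfac : (Nat.card G).factorization p = k := by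
    rw [hG, Nat.factorization_mul (pow_ne_zero _ hp.ne_zero) hm0]
    simp [hp.factorization_pow, Nat.factorization_eq_zero_of_not_dvd hm]
  let S : Sylow p G := Sylow.ofCard U (by rw [hU, hfac])
  have hS : (S : Subgroup G) = U := rfl
  have hz : IsPGroup p (Subgroup.zpowers a) :=
    IsPGroup.of_card (n := 1) (by rw [Nat.card_zpowers, ha, pow_one])
  obtain ⟨Q, hQ⟩ := hz.exists_le_sylow
  obtain ⟨g, hg⟩ := MulAction.exists_smul_eq G Q S
  refine ⟨g, ?_⟩
  have h1 : a ∈ (Q : Subgroup G) := hQ (Subgroup.mem_zpowers a)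
  have h2 : g * a * g⁻¹ ∈ ((g • Q : Sylow p G) : Subgroup G) := by
    rw [Sylow.coe_subgroup_smul]
    exact Subgroup.mem_pointwise_smul_iff_inv_smul_mem.2 (by simpa [MulAut.smul_def, mul_assoc] using h1)
  rw [hg, hS] at h2
  exact h2

end Cfsg.Agent.Lib.H22StE5
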