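import Cfsg.Agent.Lib.Helper46BNSt
import Cfsg.Agent.Lib.Helper70TwPar

set_option autoImplicit false

/-! PROJECT 2369 (S2369), piece E6. -/

namespace Cfsg.Agent.Lib.H22StE6

open Cfsg Subgroup

open Cfsg.Agent.Lib.Helper23Grp Cfsg.Agent.Lib.Helper23TG Cfsg.Agent.Lib.Helper23TG.TG Cfsg.Agent.Lib.LeadTwDefs

variable {𝔾 R I : Type*} [Group 𝔾] {S : TG 𝔾 R I}

theorem card_par [Finite 𝔾] (ok : S.Ok) (i : I) :
    Nat.card (Par S i) = Nat.card S.B * (Nat.card (S.X (S.simple i)) + 1) := by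
  have hset : ((Par S i : Subgroup 𝔾) : Set 𝔾) = S.C 1 ∪ S.C (reflPerm ok i) := by
    ext g
    rw [Set.mem_union, TG.C_one ok, TG.mem_C_iff ok (nn_mem_N i) (Mon_nn ok i)]
    constructor
    · intro hg
      exact Cfsg.Agent.Lib.Helper70TwPar.par_union ok i hg
    · rintro (hg | ⟨b1, hb1, b2, hb2, rfl⟩)
      · exact Cfsg.Agent.Lib.Helper70TwPar.B_le_Par i hg
      · exact mul_mem (mul_mem (Cfsg.Agent.Lib.Helper70TwPar.B_le_Par i hb1)
          (Cfsg.Agent.Lib.Helper70TwPar.nn_mem_Par i)) (Cfsg.Agent.Lib.Helper70TwPar.B_le_Par i hb2)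
  have hne : (1 : Equiv.Perm R) ≠ reflPerm ok i := by
    intro h
    have h1 := congrArg (fun π : Equiv.Perm R => π (S.simple i)) h
    simp only [Equiv.Perm.one_apply, reflPerm_apply, ok.refl_simple] at h1
    apply not_pos_neg_simple ok i
    rw [← h1]
    exact ok.pos_simple i
  have hdisj : Disjoint (S.C 1) (S.C (reflPerm ok i)) := by
    rw [Set.disjoint_left]
    intro g h1 h2
    exact hne (TG.C_disjoint ok h1 h2)
  have hstep := TG.card_cell_step ok (π := 1) (i := i) (by simpa using ok.pos_simple i)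
  rw [one_mul] at hstep
  have hc : Nat.card (Par S i) = Nat.card (((Par S i : Subgroup 𝔾) : Set 𝔾)) := rfl
  rw [hc, hset, Nat.card_coe_set_eq, Set.ncard_union_eq hdisj (Set.toFinite _) (Set.toFinite _),
    ← Nat.card_coe_set_eq, ← Nat.card_coe_set_eq, hstep, TG.C_one ok]
  have : Nat.card ((S.B : Set 𝔾)) = Nat.card S.B := rfl
  rw [this]
  ring

end Cfsg.Agent.Lib.H22StE6
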