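import Cfsg.Agent.Lib.Helper46BNSt
import Cfsg.Agent.Lib.Helper70TwPar

set_option autoImplicit false

namespace Cfsg.Agent.Lib.H22StE7

open Cfsg Subgroup Cfsg.Agent.Lib.Helper8BN Cfsg.Agent.Lib.Helper46Len Cfsg.Agent.Lib.Helper46BN Cfsg.Agent.Lib.Helper46BNSt

variable {G : Type*} [Group G] (P : Cfsg.BNPair G)

/-- E7 : subsets of a two element set. -/
theorem rank_two {s0 s1 : G} (hS : P.S = {s0, s1}) (r : ℕ) (hB : ¬ r ∣ Nat.card P.B)
    (h0 : ¬ r ∣ Nat.card (P.parabolic {s0})) (h1 : ¬ r ∣ Nat.card (P.parabolic {s1})) :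
    ∀ J : Set G, J ⊆ P.S → J ≠ P.S → ¬ r ∣ Nat.card (P.parabolic J) := by
  intro J hJ hne
  rw [hS] at hJ hne
  rcases Set.subset_pair_iff_eq.1 hJ with h | h | h | h
  · subst h
    have : P.parabolic ∅ = P.B := by
      unfold Cfsg.BNPair.parabolic
      rw [Subgroup.closure_empty, sup_bot_eq]
    rw [this]
    exact hB
  · subst h; exact h0
  · subst h; exact h1
  · exact absurd h hne

end Cfsg.Agent.Lib.H22StE7
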