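import Mathlib

set_option autoImplicit false

namespace Cfsg.Agent.Lib.H22StE8

/-- E8 (arithmetic; `q = 2 ^ n`). -/
theorem arith (q r : ℕ) (hq : 1 ≤ q) (hr : r.Prime) (h : ¬ r ∣ q * (q ^ 4 - 1)) :
    ¬ r ∣ q ^ 12 * (q - 1) ^ 2 ∧ ¬ r ∣ q ^ 12 * (q - 1) ^ 2 * (q + 1) ∧ ¬ r ∣ q ^ 12 * (q - 1) ^ 2 * (q ^ 2 + 1) := by
  obtain ⟨k, rfl⟩ : ∃ k, q = k + 1 := ⟨q - 1, by omega⟩
  have e : (k + 1) ^ 4 - 1 = k * (k + 1 + 1) * ((k + 1) ^ 2 + 1) := by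
    have : (k + 1) ^ 4 = k * (k + 1 + 1) * ((k + 1) ^ 2 + 1) + 1 := by ring
    omega
  rw [e] at h
  have e1 : k + 1 - 1 = k := by omega
  rw [e1]
  have h1 : ¬ r ∣ (k + 1) := fun hd => h (Dvd.dvd.mul_right hd _)
  have h2 : ¬ r ∣ k := fun hd => h (Dvd.dvd.mul_left (Dvd.dvd.mul_right (Dvd.dvd.mul_right hd _) _) _)
  have h3 : ¬ r ∣ (k + 1 + 1) := fun hd => h (Dvd.dvd.mul_left (Dvd.dvd.mul_right (Dvd.dvd.mul_left hd _) _) _)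
  have h4 : ¬ r ∣ ((k + 1) ^ 2 + 1) := fun hd => h (Dvd.dvd.mul_left (Dvd.dvd.mul_left hd _) _)
  have h5 : ¬ r ∣ (k + 1) ^ 12 * k ^ 2 := by
    intro hd
    rcases hr.dvd_mul.1 hd with hd | hd
    · exact h1 (hr.dvd_of_dvd_pow hd)
    · exact h2 (hr.dvd_of_dvd_pow hd)
  refine ⟨h5, ?_, ?_⟩
  · intro hd
    rcases hr.dvd_mul.1 hd with hd | hd
    · exact h5 hd
    · exact h3 hd
  · intro hd
    rcases hr.dvd_mul.1 hd with hd | hd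
    · exact h5 hd
    · exact h4 hd

end Cfsg.Agent.Lib.H22StE8
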