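import Mathlib

set_option autoImplicit false

/-! PROJECT 2369, piece E9 (helper15). -/

namespace Cfsg.Agent.Lib.H22StE9

theorem exists_prime_pow {G : Type*} [Group G] [Finite G] {a b : G} (hab : Commute a b) {r : ℕ} (hr : r.Prime)
    (hrb : r ∣ orderOf b) : ∃ c : G, orderOf c = r ∧ Commute a c :=
  ⟨b ^ (orderOf b / r), orderOf_pow_orderOf_div (orderOf_pos b).ne' hrb, hab.pow_right _⟩

end Cfsg.Agent.Lib.H22StE9
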