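import Cfsg.Agent.Lib.H22AsHab

set_option autoImplicit false

/-! PROJECT 2408, piece A (vocabulary Helper22RoDefs + landed H22AsHab.H_comm). -/

namespace Cfsg.Agent.Lib.H22TgA

open Cfsg.Agent.Lib.Helper22RoDefs Cfsg.Agent.Lib.H22AsHab

theorem actA_pow' {Γ K : Type*} [Group Γ] [Field K] {P : RD Γ K} {h : Γ} {a : K}
    (hh : P.ActA h a) (j : ℕ) : P.ActA (h ^ j) (a ^ j) := by
  induction j with
  | zero =>
    intro t
    simp
  | succ j ih =>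
    rw [pow_succ, pow_succ]
    exact actA_mul ih hh

/-- A. -/
theorem Xa_le {Γ K : Type*} [Group Γ] [Field K] {P : RD Γ K} (hP : P.Ok) (M : Subgroup Γ) {h h₁ : Γ} {ζ s : K}
    (hh : h ∈ P.H) (hh₁ : h₁ ∈ P.H) (hζ : ∀ t : K, t ≠ 0 → ∃ i : ℕ, t = ζ ^ i) (hζ1 : ζ ≠ 1) (hA : P.ActA h ζ) (hs : s ≠ 0)
    (hM : h ∈ M) (hd : P.xa s * h₁ ∈ M) : ∀ t, P.xa t ∈ M := by
  have h0 : P.xa 0 = 1 := by
    have := hP.xa_add 0 0
    rw [add_zero] at this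
    exact (mul_eq_left.1 this.symm)
  have hneg : ∀ t, (P.xa t)⁻¹ = P.xa (-t) := by
    intro t
    have := hP.xa_add t (-t)
    rw [add_neg_cancel, h0] at this
    exact inv_eq_of_mul_eq_one_right this.symm
  have hcm := H_comm hP h hh h₁ hh₁
  have h1 : h * (P.xa s * h₁) * h⁻¹ * (P.xa s * h₁)⁻¹ = P.xa ((ζ - 1) * s) := by
    have e1 : h * (P.xa s * h₁) * h⁻¹ * (P.xa s * h₁)⁻¹
        = (h * P.xa s * h⁻¹) * ((h * h₁) * h⁻¹ * h₁⁻¹) * (P.xa s)⁻¹ := by group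
    rw [e1, hcm, hA s, hneg]
    have e2 : h₁ * h * h⁻¹ * h₁⁻¹ = 1 := by group
    rw [e2, mul_one, ← hP.xa_add]
    congr 1
    ring
  have hz : (ζ - 1) * s ≠ 0 := mul_ne_zero (sub_ne_zero.2 hζ1) hs
  have hzM : P.xa ((ζ - 1) * s) ∈ M := by
    rw [← h1]
    exact M.mul_mem (M.mul_mem (M.mul_mem hM hd) (M.inv_mem hM)) (M.inv_mem hd)
  intro t
  by_cases ht : t = 0
  · rw [ht, h0]; exact one_mem _
  · obtain ⟨i, hi⟩ := hζ (t / ((ζ - 1) * s)) (div_ne_zero ht hz)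
    have h2 := actA_pow' hA i ((ζ - 1) * s)
    rw [← hi, div_mul_cancel₀ _ hz] at h2
    rw [← h2]
    exact M.mul_mem (M.mul_mem (M.pow_mem hM i) hzM) (M.inv_mem (M.pow_mem hM i))

end Cfsg.Agent.Lib.H22TgA
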