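import Cfsg.Agent.Lib.Helper22RoDefs

set_option autoImplicit false

/-! PROJECT 2408, piece B (vocabulary Helper22RoDefs only). -/

namespace Cfsg.Agent.Lib.H22TgB

open Cfsg.Agent.Lib.Helper22RoDefs

/-- B. -/
theorem Xb_le {Γ K : Type*} [Group Γ] [Field K] [Finite K] {P : RD Γ K} (hP : P.Ok) (M : Subgroup Γ)
    (ha : ∀ t, P.xa t ∈ M) (hy : P.Ya ≤ M) (h1 : P.xb 1 0 ∈ M) : ∀ t u, P.xb t u ∈ M := by
  have hcl : Subgroup.closure (P.Xa ∪ (P.Ya : Set Γ)) ≤ M := by
    rw [Subgroup.closure_le]
    rintro g (⟨t, rfl⟩ | hg)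
    · exact ha t
    · exact hy hg
  have h00 : P.xb 0 0 = 1 := by
    have := hP.xb_mul 0 0 0 0
    simp only [add_zero, mul_zero] at this
    exact mul_eq_left.1 this
  have hb0 : ∀ b, P.xb b 0 ∈ M := by
    intro b
    by_cases hb : b = 0
    · rw [hb, h00]; exact one_mem _
    · obtain ⟨k, hk, hkB⟩ := hP.link b hb
      have h2 := hkB 1 0
      rw [mul_one, mul_zero] at h2
      rw [← h2]
      exact M.mul_mem (M.mul_mem (hcl hk) h1) (M.inv_mem (hcl hk))
  have htwo : ∀ b : K, b + b = 0 := by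
    intro b
    rw [← two_mul, hP.two, zero_mul]
  have hν : ∀ b, P.xb 0 (P.θ b * b) ∈ M := by
    intro b
    have h2 := hP.xb_mul b 0 b 0
    rw [htwo, add_zero, zero_add] at h2
    rw [← h2]
    exact M.mul_mem (hb0 b) (hb0 b)
  have hθ0 : ∀ b : K, P.θ b = 0 ↔ b = 0 := fun b => map_eq_zero_iff P.θ P.θ.injective
  have hinj : Function.Injective (fun b : K => P.θ b * b) := by
    intro b b' hbb
    simp only at hbb
    by_cases hb' : b' = 0
    · rw [hb', mul_zero] at hbb
      rcases mul_eq_zero.1 hbb with h | h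
      · rw [hb']; exact (hθ0 b).1 h
      · rw [hb']; exact h
    · by_cases hb : b = 0
      · rw [hb, mul_zero] at hbb
        rcases mul_eq_zero.1 hbb.symm with h | h
        · exact absurd ((hθ0 b').1 h) hb'
        · exact absurd h hb'
      · have hθb' : P.θ b' ≠ 0 := fun h => hb' ((hθ0 b').1 h)
        set s := b / b' with hs
        have hs0 : s ≠ 0 := div_ne_zero hb hb'
        have h3 : P.θ s * s = 1 := by
          rw [hs, map_div₀, div_mul_div_comm, hbb]
          exact div_self (mul_ne_zero hθb' hb')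
        have h4 : P.θ s = s⁻¹ := eq_inv_of_mul_eq_one_left h3
        have h5 : P.θ (P.θ s) = s := by
          rw [h4, map_inv₀, h4, inv_inv]
        have h6 := hP.θ_sq s
        rw [h5, pow_two] at h6
        have h7 : s = 1 := by
          have : s * s = s * 1 := by rw [h6, mul_one]
          exact mul_left_cancel₀ hs0 this
        rw [hs] at h7
        exact (div_eq_one_iff_eq hb').1 h7
  have hsurj := Finite.surjective_of_injective hinj
  intro t u
  obtain ⟨b, hb⟩ := hsurj u
  simp only at hb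
  have h2 := hP.xb_mul t 0 0 u
  rw [add_zero, zero_add, mul_zero, add_zero] at h2
  rw [← h2, ← hb]
  exact M.mul_mem (hb0 t) (hν b)

end Cfsg.Agent.Lib.H22TgB
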