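import Cfsg.Agent.Lib.H22AsDefs

set_option autoImplicit false

/-! PROJECT 2408, piece C. -/

namespace Cfsg.Agent.Lib.H22TgC

open Subgroup Cfsg.Agent.Lib.Helper23Grp Cfsg.Agent.Lib.Helper23TG Cfsg.Agent.Lib.Helper23TG.TG Cfsg.Agent.Lib.LeadTwDefs

variable {𝔾 R I : Type*} [Group 𝔾] {S : TG 𝔾 R I}

/-- C.  A torus element centralizing the negative fundamental root group `X_{-i}` centralizes a non-trivial element of `X_i`. -/
theorem cent_pos (ok : S.Ok) (i : I) {h : 𝔾} (hh : h ∈ S.H) (hc : ∀ y ∈ S.X (S.neg (S.simple i)), h * y * h⁻¹ = y) :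
    ∃ x ∈ S.X (S.simple i), x ≠ 1 ∧ h * x * h⁻¹ = x := by
  obtain ⟨g, hg, hg1⟩ := ok.X_ne i
  set n := S.nn i with hn
  have hy : n * g * n⁻¹ ∈ S.X (S.neg (S.simple i)) := by
    have := n_conj ok i _ g hg
    rwa [ok.refl_simple] at this
  have hy1 : n * g * n⁻¹ ≠ 1 := conj_ne_one ok hg1
  set y := n * g * n⁻¹ with hydef
  obtain ⟨a, ha, k, hk, b, hb, e⟩ := ok.rank_one i y hy hy1
  rw [← hn] at e
  have ha' : h * a * h⁻¹ ∈ S.X (S.simple i) := H_X ok _ h hh a ha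
  have hb' : h * b * h⁻¹ ∈ S.X (S.simple i) := H_X ok _ h hh b hb
  set a' := h * a * h⁻¹ with ha'def
  set b' := h * b * h⁻¹ with hb'def
  have hk' : h * k * (n * h⁻¹ * n⁻¹) ∈ S.H :=
    S.H.mul_mem (S.H.mul_mem hh hk) (ok.nn_H i _ (S.H.inv_mem hh))
  set k' := h * k * (n * h⁻¹ * n⁻¹) with hk'def
  have e2 : y = a' * (k' * n) * b' := by
    have h1 := hc y hy
    conv_lhs => rw [← h1, e]
    rw [ha'def, hb'def, hk'def]
    group
  -- the key identity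
  set x := a'⁻¹ * a with hx
  have hxX : x ∈ S.X (S.simple i) := (S.X _).mul_mem ((S.X _).inv_mem ha') ha
  have e3 : (n⁻¹ * (k'⁻¹ * x * k'⁻¹⁻¹) * n) * (n⁻¹ * (k'⁻¹ * k) * n) = b' * b⁻¹ := by
    have h1 : a * (k * n) * b = a' * (k' * n) * b' := by rw [← e, ← e2]
    have h2 : x * (k * n) = (k' * n) * (b' * b⁻¹) := by
      rw [hx]
      calc a'⁻¹ * a * (k * n) = a'⁻¹ * (a * (k * n) * b) * b⁻¹ := by group
        _ = a'⁻¹ * (a' * (k' * n) * b') * b⁻¹ := by rw [h1]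
        _ = _ := by group
    calc (n⁻¹ * (k'⁻¹ * x * k'⁻¹⁻¹) * n) * (n⁻¹ * (k'⁻¹ * k) * n)
        = n⁻¹ * k'⁻¹ * (x * (k * n)) := by group
      _ = n⁻¹ * k'⁻¹ * ((k' * n) * (b' * b⁻¹)) := by rw [h2]
      _ = _ := by group
  have hv : n⁻¹ * (k'⁻¹ * x * k'⁻¹⁻¹) * n ∈ S.X (S.neg (S.simple i)) := by
    have h1 := H_X ok _ _ (S.H.inv_mem hk') x hxX
    have h2 := n_conj' ok i _ _ h1
    rwa [ok.refl_simple] at h2
  have ht : n⁻¹ * (k'⁻¹ * k) * n ∈ S.H := nn_H' ok i _ (S.H.mul_mem (S.H.inv_mem hk') hk)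
  have hbb : b' * b⁻¹ ∈ S.U := X_simple_le_U ok i ((S.X _).mul_mem hb' ((S.X _).inv_mem hb))
  set v := n⁻¹ * (k'⁻¹ * x * k'⁻¹⁻¹) * n with hvdef
  set t := n⁻¹ * (k'⁻¹ * k) * n with htdef
  have hvB : v ∈ S.B := by
    have : v = (b' * b⁻¹) * t⁻¹ := by rw [← e3]; group
    rw [this]
    exact S.B.mul_mem (U_le_B hbb) (H_le_B (S.H.inv_mem ht))
  have hv1 : v = 1 := ok.hBV v hvB (X_le_V ok _ (not_pos_neg_simple ok i) hv)
  have hx1 : x = 1 := by
    have : x = k' * (n * v * n⁻¹) * k'⁻¹ := by rw [hvdef]; group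
    rw [this, hv1]; group
  have haa : a' = a := by
    have : a = a' * x := by rw [hx]; group
    rw [this, hx1, mul_one]
  have hbb1 : b' * b⁻¹ = 1 := by
    apply ok.hUN _ hbb
    rw [← e3, hv1, one_mul]
    exact H_le_N ht
  have hbeq : b' = b := mul_inv_eq_one.1 hbb1
  by_cases ha1 : a = 1
  · by_cases hb1 : b = 1
    · exfalso
      rw [ha1, hb1, one_mul, mul_one] at e
      have hyN : y ∈ S.N := by
        rw [e]
        exact S.N.mul_mem (H_le_N hk) (nn_mem_N i)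
      have h1 : n⁻¹ * y * n ∈ S.X (S.simple i) := by
        have := n_conj' ok i _ y hy
        rwa [ok.refl_neg, ok.refl_simple, ok.neg_neg] at this
      have h2 : n⁻¹ * y * n = 1 := by
        apply ok.hUN _ (X_simple_le_U ok i h1)
        exact S.N.mul_mem (S.N.mul_mem (S.N.inv_mem (nn_mem_N i)) hyN) (nn_mem_N i)
      apply hy1
      have : y = n * (n⁻¹ * y * n) * n⁻¹ := by group
      rw [this, h2]; group
    · exact ⟨b, hb, hb1, hbeq⟩
  · exact ⟨a, ha, ha1, haa⟩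

end Cfsg.Agent.Lib.H22TgC
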