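import Cfsg.Agent.Lib.Helper22RoDefs
import Cfsg.Agent.Lib.H22AsHab

set_option autoImplicit false

/-! PROJECT 2408, piece H (vocabulary Helper22RoDefs only). -/

namespace Cfsg.Agent.Lib.H22TgH

open Cfsg.Agent.Lib.Helper22RoDefs Cfsg.Agent.Lib.H22AsHab

theorem actA_pow {Γ K : Type*} [Group Γ] [Field K] {P : RD Γ K} {h : Γ} {a : K}
    (hh : P.ActA h a) (j : ℕ) : P.ActA (h ^ j) (a ^ j) := by
  induction j with
  | zero =>
    intro t
    simp
  | succ j ih =>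
    rw [pow_succ, pow_succ]
    exact actA_mul ih hh

theorem actB_pow {Γ K : Type*} [Group Γ] [Field K] {P : RD Γ K} {h : Γ} {a : K}
    (hh : P.ActB h a) (j : ℕ) : P.ActB (h ^ j) (a ^ j) := by
  induction j with
  | zero =>
    intro t u
    simp
  | succ j ih =>
    rw [pow_succ, pow_succ]
    exact actB_mul ih hh

/-- H. -/
theorem exists_h {Γ K : Type*} [Group Γ] [Field K] [Finite K] {P : RD Γ K} (hP : P.Ok) :
    ∃ h ∈ P.H, ∃ ζ : K, (∀ t : K, t ≠ 0 → ∃ i : ℕ, t = ζ ^ i) ∧ ζ ≠ 1 ∧ P.ActA h ζ ∧ P.ActB h 1 ∧ h ^ (Nat.card K - 1) = 1 := by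
  classical
  have := Fintype.ofFinite K
  obtain ⟨g, hg⟩ := IsCyclic.exists_generator (α := Kˣ)
  have hgen : ∀ t : K, t ≠ 0 → ∃ i : ℕ, t = (g : K) ^ i := by
    intro t ht
    have h1 := hg (Units.mk0 t ht)
    rw [← mem_powers_iff_mem_zpowers] at h1
    obtain ⟨i, hi⟩ := h1
    refine ⟨i, ?_⟩
    have := congrArg Units.val hi
    simpa using this.symm
  have hg1 : (g : K) ≠ 1 := by
    intro h1
    obtain ⟨ζ', hζ'⟩ := hP.θ_ne
    apply hζ'
    by_cases h0 : ζ' = 0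
    · rw [h0, map_zero]
    · obtain ⟨i, hi⟩ := hgen ζ' h0
      rw [h1, one_pow] at hi
      rw [hi, map_one]
  obtain ⟨h, hH, hA, hB⟩ := hP.surj (g : K) 1 g.ne_zero one_ne_zero
  refine ⟨h, hH, g, hgen, hg1, hA, hB, ?_⟩
  apply hP.inj _ (P.H.pow_mem hH _)
  · have := actA_pow hA (Nat.card K - 1)
    have e : (g : K) ^ (Nat.card K - 1) = 1 := by
      rw [Nat.card_eq_fintype_card, FiniteField.pow_card_sub_one_eq_one _ g.ne_zero]
    rwa [e] at this
  · have := actB_pow hB (Nat.card K - 1)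
    rwa [one_pow] at this

end Cfsg.Agent.Lib.H22TgH
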