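import Cfsg.Agent.Lib.H22AsDefs

set_option autoImplicit false

/-! PROJECT 2408, piece N. -/

namespace Cfsg.Agent.Lib.H22TgN

open Subgroup Cfsg.Agent.Lib.Helper23Grp Cfsg.Agent.Lib.Helper23TG Cfsg.Agent.Lib.Helper23TG.TG Cfsg.Agent.Lib.LeadTwDefs

variable {𝔾 R : Type*} [Group 𝔾] {S : TG 𝔾 R (Fin 2)}

theorem Mon_pow (ok : S.Ok) {w : 𝔾} {π : Equiv.Perm R} (h : S.Mon w π) (k : ℕ) :
    S.Mon (w ^ k) (π ^ k) := by
  induction k with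
  | zero => simpa using Mon.one ok
  | succ k ih =>
    rw [pow_succ, pow_succ]
    exact ih.mul h

/-- N. -/
theorem exists_n (ok : S.Ok) (hneg : ∀ r, (fun r => S.refl 0 (S.refl 1 r))^[4] r = S.neg r) :
    ∃ n ∈ S.N, ∀ r, ∀ g ∈ S.X r, n * g * n⁻¹ ∈ S.X (S.neg r) ∧ n⁻¹ * g * n ∈ S.X (S.neg r) := by
  set w := S.nn 0 * S.nn 1 with hw
  set π := reflPerm ok 0 * reflPerm ok 1 with hπ
  have hM : S.Mon w π := (Mon_nn ok 0).mul (Mon_nn ok 1)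
  have hM' : S.Mon w⁻¹ π⁻¹ := by
    rw [hw, hπ, mul_inv_rev, mul_inv_rev, reflPerm_inv, reflPerm_inv]
    exact (Mon_nn_inv ok 1).mul (Mon_nn_inv ok 0)
  have h4 : ∀ r, (π ^ 4) r = S.neg r := by
    intro r
    rw [← hneg r, ← Equiv.Perm.iterate_eq_pow]
    rfl
  have h4' : ∀ r, (π⁻¹ ^ 4) r = S.neg r := by
    intro r
    rw [inv_pow, Equiv.Perm.inv_eq_iff_eq, h4, ok.neg_neg]
  refine ⟨w ^ 4, S.N.pow_mem (S.N.mul_mem (nn_mem_N 0) (nn_mem_N 1)) 4, ?_⟩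
  intro r g hg
  constructor
  · have := (Mon_pow ok hM 4).conj_X r g hg
    rwa [h4] at this
  · have := (Mon_pow ok hM' 4).conj_X r g hg
    rwa [h4', inv_pow, inv_inv] at this

end Cfsg.Agent.Lib.H22TgN
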