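import Mathlib

set_option autoImplicit false

/-! PROJECT 2408, piece S (pure Mathlib). -/

namespace Cfsg.Agent.Lib.H22TgS

/-- S. -/
theorem split {Γ : Type*} [Group Γ] (M : Subgroup Γ) {h x : Γ} (hc : h * x = x * h) (N : ℕ) (hN : 1 ≤ N) (h2 : 2 ∣ N) (hh : h ^ (N - 1) = 1)
    (hx : x ^ 4 = 1) (hM : h * x ∈ M) : h ∈ M ∧ x ∈ M := by
  have hcm : Commute h x := hc
  have hhN : h ^ N = h := by
    obtain ⟨m, rfl⟩ : ∃ m, N = m + 1 := ⟨N - 1, by omega⟩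
    rw [pow_succ]
    simp only [Nat.add_sub_cancel] at hh
    rw [hh, one_mul]
  have h1 : h ^ (N ^ 2) = h := by
    rw [pow_two, pow_mul, hhN, hhN]
  have h3 : x ^ (N ^ 2) = 1 := by
    obtain ⟨m, rfl⟩ := h2
    have : (2 * m) ^ 2 = 4 * m ^ 2 := by ring
    rw [this, pow_mul, hx, one_pow]
  have h4 : h ∈ M := by
    have := M.pow_mem hM (N ^ 2)
    rwa [hcm.mul_pow, h1, h3, mul_one] at this
  refine ⟨h4, ?_⟩
  have := M.mul_mem (M.inv_mem h4) hM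
  rwa [inv_mul_cancel_left] at this

end Cfsg.Agent.Lib.H22TgS
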