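import Cfsg.Agent.Lib.Helper25StarCDefs
import Cfsg.Agent.Lib.Helper78StarLOCVAL
import Cfsg.Agent.Lib.Helper78AbNil
import Cfsg.Agent.Lib.Helper80Sat
import Cfsg.Agent.Lib.Helper80Abel

set_option autoImplicit false
set_option linter.unusedSectionVars false

namespace Cfsg.Agent.Lib.H25SCCFCP

open Cfsg
open Cfsg.Agent.Lib.Helper81Local Cfsg.Agent.Lib.Helper80Brauer Cfsg.Agent.Lib.Helper78MajP
open Cfsg.Agent.Lib.Helper80StarDefs Cfsg.Agent.Lib.Helper80StarProps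
open Cfsg.Agent.Lib.Helper25StarCDefs
open scoped ComplexConjugate

variable {p : ℕ} [Fact p.Prime] {M : Ideal AlgInt} {G : Type*} [Group G] [Fintype G]
  {B : Set (IrrCharacter G)} {P : Subgroup G}
  {e : Set (IrrCharacter (Subgroup.centralizer (P : Set G)))}

theorem FC_of_mem (hM : IsPModular p M) (hmax : IsMaximalBrauerPair p M B P e) {u y : G} (hu : u ∈ P)
    (hy : y ∈ P) : FC p M P e u (y * u * y⁻¹) := by
  have hPr := Cfsg.Agent.Lib.Helper20Local.IsPModular.isPrime hM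
  have hyu : y * u * y⁻¹ ∈ P := P.mul_mem (P.mul_mem hy hu) (P.inv_mem hy)
  refine ⟨y, rfl, ?_⟩
  have h1 := Cfsg.Agent.Lib.Helper80Conj.ple_cj hPr
    (fz_spec hM hmax.1.1 ((Subgroup.zpowers_le).mpr hu)) y
  rw [Cfsg.Agent.Lib.Helper80Abel.mem_pstab_iff.1
    (Cfsg.Agent.Lib.Helper80Trace.le_pstab P e hy)] at h1
  exact Cfsg.Agent.Lib.Helper80Sat.eq_of_ple_of_fst_eq hM (c := ⟨P, e⟩) hmax.1.1 h1
    (fz_spec hM hmax.1.1 ((Subgroup.zpowers_le).mpr hyu)) (cj_zpowers y u)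

end Cfsg.Agent.Lib.H25SCCFCP
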