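import Mathlib

/-!
Automorphisms induced on cyclic `p`-subgroups.
-/

set_option autoImplicit false
set_option linter.unusedSectionVars false
set_option linter.unusedVariables false

namespace Cfsg.Agent.Lib.Helper78Cyc

variable {G : Type*} [Group G]

theorem conj_pow_gen {g x : G} {k : ℕ} (h : x * g * x⁻¹ = g ^ k) (j : ℕ) :
    x * g ^ j * x⁻¹ = (g ^ j) ^ k := by
  rw [← conj_pow, h, ← pow_mul, ← pow_mul, mul_comm]

theorem conj_iter {g x : G} {k : ℕ} (h : x * g * x⁻¹ = g ^ k) (i : ℕ) :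
    x ^ i * g * (x ^ i)⁻¹ = g ^ (k ^ i) := by
  induction i with
  | zero => simp
  | succ i ih =>
    have : x ^ (i + 1) * g * (x ^ (i + 1))⁻¹ = x * (x ^ i * g * (x ^ i)⁻¹) * x⁻¹ := by
      rw [pow_succ']
      group
    rw [this, ih, conj_pow_gen h, ← pow_mul, pow_succ]

variable [Finite G]

theorem exists_gen {R : Subgroup G} (hR : IsCyclic R) :
    ∃ g ∈ R, ∀ y ∈ R, ∃ j : ℕ, g ^ j = y := by
  obtain ⟨g, hg⟩ := hR.exists_generator
  refine ⟨g, g.2, fun y hy => ?_⟩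
  have h1 := hg ⟨y, hy⟩
  rw [← mem_powers_iff_mem_zpowers] at h1
  obtain ⟨j, hj⟩ := h1
  exact ⟨j, by simpa using congrArg Subtype.val hj⟩

/-- subgroups of a cyclic subgroup are normalized by its normalizer. -/
theorem normalizer_le_of_cyclic {R Q : Subgroup G} (hR : IsCyclic R) (hQR : Q ≤ R) :
    Subgroup.normalizer (R : Set G) ≤ Subgroup.normalizer (Q : Set G) := by
  obtain ⟨g, hgR, hg⟩ := exists_gen hR
  have key : ∀ x ∈ Subgroup.normalizer (R : Set G), ∀ z ∈ Q, x * z * x⁻¹ ∈ Q := by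
    intro x hx z hz
    obtain ⟨k, hk⟩ := hg _ ((Subgroup.mem_normalizer_iff.1 hx g).1 hgR)
    obtain ⟨j, rfl⟩ := hg z (hQR hz)
    rw [conj_pow_gen hk.symm]
    exact Q.pow_mem hz k
  intro x hx
  rw [Subgroup.mem_normalizer_iff]
  intro z
  refine ⟨key x hx z, fun h => ?_⟩
  have := key x⁻¹ (Subgroup.inv_mem _ hx) _ h
  have e : x⁻¹ * (x * z * x⁻¹) * x⁻¹⁻¹ = z := by group
  rwa [e] at this

/-- an element normalizing the cyclic `p`-group `R`, centralizing a non-trivial subgroup of `R`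
and inducing an automorphism of order prime to `p` centralizes `R`. -/
theorem mem_centralizer_of_cyclic {p : ℕ} [Fact p.Prime] {R Q : Subgroup G} (hR : IsCyclic R)
    (hp : IsPGroup p R) (hQR : Q ≤ R) (hQ : Q ≠ ⊥) {x : G}
    (hx : x ∈ Subgroup.normalizer (R : Set G)) (hxQ : x ∈ Subgroup.centralizer (Q : Set G))
    {m : ℕ} (hm : m.Coprime p) (hxm : x ^ m ∈ Subgroup.centralizer (R : Set G)) :
    x ∈ Subgroup.centralizer (R : Set G) := by
  have hpp : p.Prime := Fact.out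
  obtain ⟨g, hgR, hg⟩ := exists_gen hR
  obtain ⟨k, hk⟩ := hg _ ((Subgroup.mem_normalizer_iff.1 hx g).1 hgR)
  obtain ⟨z, hzQ, hz1⟩ : ∃ z ∈ Q, z ≠ 1 := by
    obtain ⟨z, hz⟩ := (Subgroup.ne_bot_iff_exists_ne_one).1 hQ
    exact ⟨(z : G), z.2, fun h => hz (Subtype.ext h)⟩
  obtain ⟨j, hj⟩ := hg z (hQR hzQ)
  -- `k ≡ 1 mod p`
  have h1 : z ^ k = z ^ 1 := by
    rw [pow_one, ← hj, ← conj_pow_gen hk.symm, hj]
    have := Subgroup.mem_centralizer_iff.1 hxQ z hzQ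
    rw [← this]; group
  have h2 : k ≡ 1 [MOD orderOf z] := pow_eq_pow_iff_modEq.1 h1
  have hord : ∀ y ∈ R, ∃ n : ℕ, orderOf y = p ^ n := by
    intro y hy
    obtain ⟨n, hn⟩ := hp ⟨y, hy⟩
    have h3 : y ^ p ^ n = 1 := by simpa using congrArg Subtype.val hn
    obtain ⟨t, _, ht⟩ := (Nat.dvd_prime_pow hpp).1 (orderOf_dvd_of_pow_eq_one h3)
    exact ⟨t, ht⟩
  obtain ⟨t, ht⟩ := hord z (hQR hzQ)
  have hpz : p ∣ orderOf z := by
    rw [ht]
    cases t with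
    | zero =>
      exfalso
      rw [pow_zero, orderOf_eq_one_iff] at ht
      exact hz1 ht
    | succ t => exact dvd_pow_self p (Nat.succ_ne_zero t)
  have h3 : k ≡ 1 [MOD p] := h2.of_dvd hpz
  obtain ⟨n, hn⟩ := hord g hgR
  -- `x ^ (p ^ n)` centralizes `g`
  have h4 : (k : ℤ) ^ p ^ n ≡ 1 [ZMOD (p : ℤ) ^ (n + 1)] := by
    have h5 : ((p : ℕ) : ℤ) ∣ (k : ℤ) - 1 := by
      have := (Nat.modEq_iff_dvd.1 h3.symm)
      simpa using this
    have h6 := dvd_sub_pow_of_dvd_sub h5 n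
    rw [one_pow] at h6
    exact (Int.modEq_iff_dvd.2 h6).symm
  have h5 : k ^ p ^ n ≡ 1 [MOD orderOf g] := by
    rw [hn]
    have h6 : (k : ℤ) ^ p ^ n ≡ 1 [ZMOD (p : ℤ) ^ n] := h4.of_dvd (pow_dvd_pow _ (Nat.le_succ n))
    have : ((k ^ p ^ n : ℕ) : ℤ) ≡ ((1 : ℕ) : ℤ) [ZMOD ((p ^ n : ℕ) : ℤ)] := by
      push_cast; exact h6
    exact (Int.natCast_modEq_iff).1 this
  have h6 : x ^ (p ^ n) * g * (x ^ (p ^ n))⁻¹ = g := by
    rw [conj_iter hk.symm, pow_eq_pow_iff_modEq.2 h5, pow_one]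
  have h7 : Commute (x ^ (p ^ n)) g := by
    have : x ^ (p ^ n) * g = g * x ^ (p ^ n) := by
      calc x ^ (p ^ n) * g = (x ^ (p ^ n) * g * (x ^ (p ^ n))⁻¹) * x ^ (p ^ n) := by group
        _ = g * x ^ (p ^ n) := by rw [h6]
    exact this
  have h8 : Commute (x ^ m) g := (Subgroup.mem_centralizer_iff.1 hxm g hgR).symm
  have hcop : Nat.Coprime m (p ^ n) := Nat.Coprime.pow_right n hm
  have h9 : Commute x g := by
    have hb := Nat.gcd_eq_gcd_ab m (p ^ n)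
    rw [hcop.gcd_eq_one] at hb
    have : x = (x ^ m) ^ (Nat.gcdA m (p ^ n)) * (x ^ (p ^ n)) ^ (Nat.gcdB m (p ^ n)) := by
      rw [← zpow_natCast x m, ← zpow_natCast x (p ^ n), ← zpow_mul, ← zpow_mul, ← zpow_add, ← hb]
      simp
    rw [this]
    exact (h8.zpow_left _).mul_left (h7.zpow_left _)
  rw [Subgroup.mem_centralizer_iff]
  intro y hy
  obtain ⟨i, rfl⟩ := hg y hy
  exact ((h9.pow_right i).eq).symm

end Cfsg.Agent.Lib.Helper78Cyc
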