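import Mathlib
import Cfsg.Prelude.Def_BrauerPairs
import Cfsg.Prelude.Def_BlockFusion
import Cfsg.Agent.Lib.Helper80Nil

/-!
# Block fusion systems, part 6: pairs of the group `C_G(Q)` and pairs of `G` above `(Q, f)`;
the local blocks of a nilpotent block are nilpotent.
-/

set_option autoImplicit false
set_option linter.unusedSectionVars false
set_option linter.unusedVariables false
set_option linter.unusedSimpArgs false

namespace Cfsg.Agent.Lib.Helper80NilC

open Cfsg Module Representation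
open Cfsg.Agent.Lib.Helper4Char Cfsg.Agent.Lib.Helper4Char2 Cfsg.Agent.Lib.Helper20Local
open Cfsg.Agent.Lib.Helper20Center Cfsg.Agent.Lib.Helper20Block Cfsg.Agent.Lib.Helper20Orbit
open Cfsg.Agent.Lib.Helper20Ideal Cfsg.Agent.Lib.Helper20Defect Cfsg.Agent.Lib.Helper20Brauer
open Cfsg.Agent.Lib.Helper20Induced Cfsg.Agent.Lib.Helper20ModHom Cfsg.Agent.Lib.Helper20BrMap
open Cfsg.Agent.Lib.Helper80Brauer Cfsg.Agent.Lib.Helper82Quot Cfsg.Agent.Lib.Helper80Transport
open Cfsg.Agent.Lib.Helper80Pairs Cfsg.Agent.Lib.Helper80Supp Cfsg.Agent.Lib.Helper87Sylow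
open Cfsg.Agent.Lib.Helper80Stab Cfsg.Agent.Lib.Helper80Trace Cfsg.Agent.Lib.Helper80Incl
open Cfsg.Agent.Lib.Helper80Conj Cfsg.Agent.Lib.Helper80Full Cfsg.Agent.Lib.Helper80Full2
open Cfsg.Agent.Lib.Helper80Up Cfsg.Agent.Lib.Helper80Abel Cfsg.Agent.Lib.Helper80Sat
open Cfsg.Agent.Lib.Helper80Sat2 Cfsg.Agent.Lib.Helper80Nil
open scoped ComplexConjugate

variable {M : Ideal Cfsg.AlgInt} {p : ℕ} [Fact p.Prime]
variable {G : Type*} [Group G] [Fintype G]

theorem mem_centralizer_sup {A B : Subgroup G} {g : G} :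
    g ∈ Subgroup.centralizer ((A ⊔ B : Subgroup G) : Set G) ↔
      g ∈ Subgroup.centralizer (A : Set G) ∧ g ∈ Subgroup.centralizer (B : Set G) := by
  constructor
  · intro h
    exact ⟨Subgroup.centralizer_le (show (A : Set G) ⊆ ((A ⊔ B : Subgroup G) : Set G) from
      (le_sup_left : A ≤ A ⊔ B)) h, Subgroup.centralizer_le
      (show (B : Set G) ⊆ ((A ⊔ B : Subgroup G) : Set G) from (le_sup_right : B ≤ A ⊔ B)) h⟩
  · rintro ⟨h1, h2⟩
    have hA : A ≤ Subgroup.centralizer ({g} : Set G) := by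
      intro a ha
      rw [Subgroup.mem_centralizer_singleton_iff]
      exact (Subgroup.mem_centralizer_iff.1 h1 a ha)
    have hB : B ≤ Subgroup.centralizer ({g} : Set G) := by
      intro a ha
      rw [Subgroup.mem_centralizer_singleton_iff]
      exact (Subgroup.mem_centralizer_iff.1 h2 a ha)
    rw [Subgroup.mem_centralizer_iff]
    intro y hy
    exact Subgroup.mem_centralizer_singleton_iff.1 (sup_le hA hB hy)

variable (Q : Subgroup G) [Fintype (Subgroup.centralizer (Q : Set G))]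

/-- the subgroup `Q Z` of `G` attached to a subgroup `Z` of `C_G(Q)`. -/
abbrev qS (Z : Subgroup (Subgroup.centralizer (Q : Set G))) : Subgroup G := Q ⊔ upS Z

theorem coe_mem_centralizer_qS {Z : Subgroup (Subgroup.centralizer (Q : Set G))}
    {c : Subgroup.centralizer (Q : Set G)} :
    (c : G) ∈ Subgroup.centralizer ((qS Q Z : Subgroup G) : Set G) ↔
      c ∈ Subgroup.centralizer (Z : Set (Subgroup.centralizer (Q : Set G))) := by
  rw [mem_centralizer_sup, coe_mem_centralizer_upS]
  exact ⟨fun h => h.2, fun h => ⟨c.2, h⟩⟩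

theorem centralizer_qS_le (Z : Subgroup (Subgroup.centralizer (Q : Set G))) :
    Subgroup.centralizer ((qS Q Z : Subgroup G) : Set G) ≤ Subgroup.centralizer (Q : Set G) :=
  Subgroup.centralizer_le (show (Q : Set G) ⊆ ((qS Q Z : Subgroup G) : Set G) from
    (le_sup_left : Q ≤ Q ⊔ upS Z))

/-- `C_{C_G(Q)}(Z) ≃* C_G(Q Z)`. -/
def cenQ (Z : Subgroup (Subgroup.centralizer (Q : Set G))) :
    Subgroup.centralizer (Z : Set (Subgroup.centralizer (Q : Set G))) ≃*
      Subgroup.centralizer ((qS Q Z : Subgroup G) : Set G) where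
  toFun c := ⟨((c : Subgroup.centralizer (Q : Set G)) : G), (coe_mem_centralizer_qS Q).2 c.2⟩
  invFun c := ⟨⟨(c : G), centralizer_qS_le Q Z c.2⟩, (coe_mem_centralizer_qS Q).1 c.2⟩
  left_inv c := rfl
  right_inv c := rfl
  map_mul' a b := rfl

theorem pfun_cenQ (Z : Subgroup (Subgroup.centralizer (Q : Set G)))
    (e : Set (IrrCharacter (Subgroup.centralizer (Z : Set (Subgroup.centralizer (Q : Set G)))))) :
    pfun (qS Q Z) (mapBlk (cenQ Q Z) e) = ext (Subgroup.centralizer (Q : Set G)) (pfun Z e) := by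
  classical
  funext g
  unfold pfun
  by_cases hg : g ∈ Subgroup.centralizer ((qS Q Z : Subgroup G) : Set G)
  · have hC := centralizer_qS_le Q Z hg
    rw [ext_mem _ hg, ext_mem _ hC,
      ext_mem _ ((coe_mem_centralizer_qS Q).1 hg :
        (⟨g, hC⟩ : Subgroup.centralizer (Q : Set G)) ∈ _)]
    exact blockCoeff_mapBlk (cenQ Q Z) e ⟨⟨g, hC⟩, (coe_mem_centralizer_qS Q).1 hg⟩
  · rw [ext_not_mem _ hg]
    by_cases hH : g ∈ Subgroup.centralizer (Q : Set G)
    · rw [ext_mem _ hH, ext_not_mem]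
      intro h'
      exact hg ((coe_mem_centralizer_qS Q).2 h')
    · rw [ext_not_mem _ hH]

theorem lam_cenQ (Z : Subgroup (Subgroup.centralizer (Q : Set G)))
    [Fintype (Subgroup.centralizer (Z : Set (Subgroup.centralizer (Q : Set G))))]
    [Fintype (Subgroup.centralizer ((qS Q Z : Subgroup G) : Set G))]
    (ξ : IrrCharacter (Subgroup.centralizer (Z : Set (Subgroup.centralizer (Q : Set G)))))
    (A : Subgroup.centralizer (Q : Set G) → ℂ) :
    lam (Subgroup.centralizer ((qS Q Z : Subgroup G) : Set G))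
      ((irrCongr (cenQ Q Z) ξ : IrrCharacter _) : _ → ℂ) (ext (Subgroup.centralizer (Q : Set G)) A)
      = lam (Subgroup.centralizer (Z : Set (Subgroup.centralizer (Q : Set G))))
        (ξ : _ → ℂ) A := by
  unfold lam om
  rw [irrCongr_apply, map_one]
  congr 1
  symm
  apply Fintype.sum_equiv (cenQ Q Z).toEquiv
  intro c
  rw [irrCongr_apply]
  simp only [MulEquiv.toEquiv_eq_coe, EquivLike.coe_coe, MulEquiv.symm_apply_apply, res]
  congr 1
  show A c = ext (Subgroup.centralizer (Q : Set G)) A ((c : Subgroup.centralizer (Q : Set G)) : G)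
  rw [ext_coe]

variable {Q}

/-- a pair of the block `f` of `C_G(Q)` gives a pair of `G` containing `(Q, f)` normally. -/
theorem isNormalSubpair_cenQ (hM : IsPModular p M)
    {f : Set (IrrCharacter (Subgroup.centralizer (Q : Set G)))} (hQ : IsPGroup p Q)
    {Z : Subgroup (Subgroup.centralizer (Q : Set G))}
    {e : Set (IrrCharacter (Subgroup.centralizer (Z : Set (Subgroup.centralizer (Q : Set G)))))}
    (h : IsBrauerPairOf p M f Z e) :
    IsNormalSubpair p M Q f (qS Q Z) (mapBlk (cenQ Q Z) e) := by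
  classical
  have hPr := IsPModular.isPrime hM
  rw [isBrauerPairOf_iff] at h
  obtain ⟨h1, h2, h3⟩ := h
  have hZC : upS Z ≤ Subgroup.centralizer (Q : Set G) := upS_le Z
  have hYT : qS Q Z ≤ pstab Q f :=
    sup_le (le_pstab Q f) (hZC.trans (centralizer_le_pstab Q f))
  rw [isNormalSubpair_iff hPr]
  refine ⟨⟨hQ, h2⟩, ⟨?_, isPBlock_mapBlk _ h1.2⟩, le_sup_left, hYT.trans (pstab_le Q f),
    (isInv_stabFun _ _).mono hYT, ?_⟩
  · exact IsPGroup.to_sup_of_normal_left' hQ (isPGroup_upS.2 h1.1)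
      (hZC.trans (Subgroup.centralizer_le_normalizer _))
  · rintro _ ⟨ξ, hξ, rfl⟩
    rw [lam_cenQ]
    exact h3 ξ hξ

/-- the stabilizer of a pair of `C_G(Q)` stabilizes the corresponding pair of `G`. -/
theorem coe_mem_pstab_cenQ {Z : Subgroup (Subgroup.centralizer (Q : Set G))}
    {e : Set (IrrCharacter (Subgroup.centralizer (Z : Set (Subgroup.centralizer (Q : Set G)))))}
    {x : Subgroup.centralizer (Q : Set G)} (hx : x ∈ pstab Z e) :
    (x : G) ∈ pstab (qS Q Z) (mapBlk (cenQ Q Z) e) := by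
  rw [mem_stabFun] at hx ⊢
  constructor
  · apply Subgroup.normalizer_inf_normalizer_le_normalizer_sup
    refine ⟨Subgroup.centralizer_le_normalizer _ x.2, ?_⟩
    exact upS_le_normalizer (X := Z) (Y := Subgroup.zpowers x)
      (by rw [Subgroup.zpowers_le]; exact hx.1) (coe_mem_upS.2 (Subgroup.mem_zpowers x))
  · rw [pfun_cenQ, cjf_ext, hx.2]

/-- **S4688**, first part: the local blocks of a nilpotent block are nilpotent. -/
theorem isNilpotentBlock_local (hM : IsPModular p M) {B : Set (IrrCharacter G)}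
    (hnil : IsNilpotentBlock p M B)
    {f : Set (IrrCharacter (Subgroup.centralizer (Q : Set G)))}
    (hQf : IsBrauerPairOf p M B Q f) : IsNilpotentBlock p M f := by
  classical
  have h := ((isNilpotentBlock_iff hM).1 hnil).2
  rw [isNilpotentBlock_iff hM]
  refine ⟨hQf.1.2, fun a ha x hx hreg => ?_⟩
  have hn := isNormalSubpair_cenQ hM hQf.1.1 ha
  have hpair : IsBrauerPairOf p M B (qS Q a.1) (mapBlk (cenQ Q a.1) a.2) :=
    (isBrauerPairOf_iff_of_normalSubpair hM hn hQf.2.1).2 hQf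
  have hxreg : IsPRegular p (x : G) := by
    unfold IsPRegular at hreg ⊢
    rwa [Subgroup.orderOf_coe]
  have := h ⟨qS Q a.1, mapBlk (cenQ Q a.1) a.2⟩ hpair x (coe_mem_pstab_cenQ hx) hxreg
  exact (coe_mem_centralizer_qS Q).1 this

/-- **S4688**, second part (given that the inertial quotient is a `p'`-group). -/
theorem isDefectGroup_centralizer_of_nilpotent (hM : IsPModular p M) {B : Set (IrrCharacter G)}
    {P : Subgroup G} {e : Set (IrrCharacter (Subgroup.centralizer (P : Set G)))}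
    (hmax : IsMaximalBrauerPair p M B P e)
    (hIQ : ¬ p ∣ ((P ⊔ Subgroup.centralizer (P : Set G)).subgroupOf (pstab P e)).index)
    (hnil : IsNilpotentBlock p M B)
    {f : Set (IrrCharacter (Subgroup.centralizer (Q : Set G)))}
    (hle : PLE p M ⟨Q, f⟩ ⟨P, e⟩) :
    IsDefectGroup p M f
      ((P ⊓ Subgroup.centralizer (Q : Set G)).subgroupOf (Subgroup.centralizer (Q : Set G))) := by
  classical
  have hF := isBlockFusionSystemOn_blockFus hM hmax
  have hsat := isSaturated_of hM hF hIQ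
  have hinner := (nilpotent_iff_inner hM hF hsat).1 hnil
  refine (Helper80BFus.fullyCentralized_iff hM hF hle).1 ⟨hle.le, fun R hR => ?_⟩
  obtain ⟨φ, hφ, rfl⟩ := hR
  rw [hinner Q] at hφ
  obtain ⟨-, u, hu, hφu⟩ := hφ
  rw [Helper80BFus.range_eq_cj hφu]
  show Nat.card (P ⊓ Subgroup.centralizer ((cj u Q : Subgroup G) : Set G) : Subgroup G) ≤
    Nat.card (P ⊓ Subgroup.centralizer (Q : Set G) : Subgroup G)
  have : P ⊓ Subgroup.centralizer ((cj u Q : Subgroup G) : Set G) =
      cj u (P ⊓ Subgroup.centralizer (Q : Set G)) := by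
    rw [Helper80BFus.cj_inf, cj_centralizer, cj_of_mem hu]
  rw [this, card_cj]

end Cfsg.Agent.Lib.Helper80NilC
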