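import Mathlib
import Cfsg.Prelude.Def_BrauerPairs
import Cfsg.Agent.Lib.Helper78AbNil
import Cfsg.Agent.Lib.Helper78Cyc
import Cfsg.Agent.Lib.Helper20Rel
import Cfsg.Agent.Lib.Helper80NilC

/-!
From induced blocks to Brauer pairs; cyclic defect groups: the local structure.
-/

set_option autoImplicit false
set_option linter.unusedSectionVars false
set_option linter.unusedVariables false
set_option linter.unusedSimpArgs false

namespace Cfsg.Agent.Lib.Helper78IndPair

open Cfsg Module Representation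
open Cfsg.Agent.Lib.Helper4Char Cfsg.Agent.Lib.Helper4Char2 Cfsg.Agent.Lib.Helper20Local
open Cfsg.Agent.Lib.Helper20Center Cfsg.Agent.Lib.Helper20Block Cfsg.Agent.Lib.Helper20Orbit
open Cfsg.Agent.Lib.Helper20Ideal Cfsg.Agent.Lib.Helper20Defect Cfsg.Agent.Lib.Helper20Brauer
open Cfsg.Agent.Lib.Helper20Induced Cfsg.Agent.Lib.Helper20ModHom Cfsg.Agent.Lib.Helper20BrMap
open Cfsg.Agent.Lib.Helper80Brauer Cfsg.Agent.Lib.Helper82Quot Cfsg.Agent.Lib.Helper80Transport
open Cfsg.Agent.Lib.Helper80Pairs Cfsg.Agent.Lib.Helper80Supp Cfsg.Agent.Lib.Helper87Sylow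
open Cfsg.Agent.Lib.Helper80Stab Cfsg.Agent.Lib.Helper80Trace Cfsg.Agent.Lib.Helper80Incl
open Cfsg.Agent.Lib.Helper80Conj Cfsg.Agent.Lib.Helper80Full Cfsg.Agent.Lib.Helper80Full2
open Cfsg.Agent.Lib.Helper80Up Cfsg.Agent.Lib.Helper80BFus Cfsg.Agent.Lib.Helper80Abel
open Cfsg.Agent.Lib.Helper78MajP Cfsg.Agent.Lib.Helper78PiKer Cfsg.Agent.Lib.Helper80Cen
open Cfsg.Agent.Lib.Helper78AbNil Cfsg.Agent.Lib.Helper78Cyc Cfsg.Agent.Lib.Helper20Rel
open Cfsg.Agent.Lib.Helper20Tower Cfsg.Agent.Lib.Helper80NilC Cfsg.Agent.Lib.Helper80Nil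
open scoped ComplexConjugate

variable {M : Ideal Cfsg.AlgInt} {p : ℕ} [Fact p.Prime]
variable {G : Type*} [Group G] [Fintype G]

/-- a block of `C_G(P)` inducing `B` gives a Brauer pair of `B`. -/
theorem isBrauerPairOf_of_induced (hM : IsPModular p M) {P : Subgroup G} (hP : IsPGroup p P)
    {c : Set (IrrCharacter (Subgroup.centralizer (P : Set G)))} {B : Set (IrrCharacter G)}
    (hc : IsInducedBlock M (Subgroup.centralizer (P : Set G)) c B) :
    IsBrauerPairOf p M B P c := by
  classical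
  have hPr := IsPModular.isPrime hM
  rw [isBrauerPairOf_iff]
  refine ⟨⟨hP, hc.1⟩, hc.2.1, fun ξ hξ => ?_⟩
  obtain ⟨χ, hχ⟩ := Cfsg.Agent.Lib.Helper81Block.isPBlock_nonempty hc.2.1
  have h := isInducedBlock_om _ hPr hc hξ hχ (isSC_blockCoeff hPr hc.2.1)
  rw [om_blockCoeff, if_pos hχ] at h
  exact h

/-- a block of `C_G(P)` inducing the block `f` of `C_G(Q)`, where `Q ≤ P ≤ C_G(Q)`. -/
theorem isNormalSubpair_of_inducedIn (hM : IsPModular p M) {P Q : Subgroup G} (hP : IsPGroup p P)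
    (hQP : Q ≤ P) (hPC : P ≤ Subgroup.centralizer (Q : Set G))
    {c : Set (IrrCharacter (Subgroup.centralizer (P : Set G)))}
    {f : Set (IrrCharacter (Subgroup.centralizer (Q : Set G)))}
    (hf : IsInducedBlockIn M (Subgroup.centralizer (Q : Set G))
      (Subgroup.centralizer (P : Set G)) c f) : IsNormalSubpair p M Q f P c := by
  classical
  have hPr := IsPModular.isPrime hM
  have hKH : Subgroup.centralizer (P : Set G) ≤ Subgroup.centralizer (Q : Set G) :=
    Subgroup.centralizer_le hQP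
  rw [isNormalSubpair_iff hPr]
  refine ⟨⟨hP.to_le hQP, hf.2.1⟩, ⟨hP, hf.1⟩, hQP,
    hPC.trans (Subgroup.centralizer_le_normalizer _),
    (isInv_ext_self (blockCoeff_isClassFunction f)).mono hPC, fun ξ hξ => ?_⟩
  have h1 := (isInducedBlockIn_iff hKH c f).1 hf
  obtain ⟨χ, hχ⟩ := Cfsg.Agent.Lib.Helper81Block.isPBlock_nonempty hf.2.1
  have h := isInducedBlock_om _ hPr h1 (ξ := irrCongr (Subgroup.subgroupOfEquivOfLe hKH).symm ξ)
    ⟨ξ, hξ, rfl⟩ hχ (isSC_blockCoeff hPr hf.2.1)
  rw [om_blockCoeff, if_pos hχ, om_down] at h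
  convert h using 2
  unfold lam
  congr 1
  funext k
  show ext (Subgroup.centralizer (Q : Set G)) (blockCoeff f) (k : G) = _
  rw [ext_mem _ (hKH k.2)]
  rfl

theorem comm_of_cyclic {P : Subgroup G} (hcyc : IsCyclic P) :
    ∀ x ∈ P, ∀ y ∈ P, x * y = y * x := by
  obtain ⟨g, _, hg⟩ := exists_gen hcyc
  intro x hx y hy
  obtain ⟨i, rfl⟩ := hg x hx
  obtain ⟨j, rfl⟩ := hg y hy
  rw [← pow_add, ← pow_add, add_comm]

variable {B : Set (IrrCharacter G)} {P Q : Subgroup G}
  {c : Set (IrrCharacter (Subgroup.centralizer (P : Set G)))}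
  {f : Set (IrrCharacter (Subgroup.centralizer (Q : Set G)))}

/-- the inertial quotient of a block with cyclic defect group acts freely. -/
theorem pstab_inf_centralizer (hM : IsPModular p M) (hmax : IsMaximalBrauerPair p M B P c)
    (hcyc : IsCyclic P) (hQP : Q ≤ P) (hQ1 : Q ≠ ⊥) :
    pstab P c ⊓ Subgroup.centralizer (Q : Set G) = Subgroup.centralizer (P : Set G) := by
  classical
  have hp : p.Prime := Fact.out
  have hab := comm_of_cyclic hcyc
  have hPC : P ≤ Subgroup.centralizer (P : Set G) := by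
    intro y hy
    rw [Subgroup.mem_centralizer_iff]
    intro q hq
    exact hab q hq y hy
  apply le_antisymm
  · rintro x ⟨hx, hxQ⟩
    have hIQ := Cfsg.Agent.Lib.Helper80IQ.not_dvd_index_of_maximal hM hmax
    have hKT : P ⊔ Subgroup.centralizer (P : Set G) ≤ pstab P c :=
      sup_le (le_pstab P c) (centralizer_le_pstab P c)
    have hn : ((P ⊔ Subgroup.centralizer (P : Set G)).subgroupOf (pstab P c)).Normal := by
      rw [Subgroup.normal_subgroupOf_iff_le_normalizer hKT]
      refine le_trans ?_ (Subgroup.normalizer_inf_normalizer_le_normalizer_sup _ _)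
      exact le_inf (pstab_le P c) ((pstab_le P c).trans (normalizer_le_normalizer_centralizer P))
    have h1 := Subgroup.pow_index_mem
      ((P ⊔ Subgroup.centralizer (P : Set G)).subgroupOf (pstab P c)) (⟨x, hx⟩ : pstab P c)
    have h2 : x ^ ((P ⊔ Subgroup.centralizer (P : Set G)).subgroupOf (pstab P c)).index
        ∈ P ⊔ Subgroup.centralizer (P : Set G) := by
      have := Subgroup.mem_subgroupOf.1 h1
      simpa using this
    exact mem_centralizer_of_cyclic hcyc hmax.1.1.1 hQP hQ1 (pstab_le P c hx) hxQ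
      ((Nat.Coprime.symm ((Nat.Prime.coprime_iff_not_dvd hp).2 hIQ))) (sup_le hPC le_rfl h2)
  · exact le_inf (centralizer_le_pstab P c) (Subgroup.centralizer_le hQP)

/-- **cyclic defect groups**: the local structure. -/
theorem cyclic_local (hM : IsPModular p M) (hmax : IsMaximalBrauerPair p M B P c)
    (hcyc : IsCyclic P) (hle : PLE p M ⟨Q, f⟩ ⟨P, c⟩) (hQ1 : Q ≠ ⊥) :
    pstab Q f = pstab P c ⊔ Subgroup.centralizer (Q : Set G) ∧
      (Subgroup.centralizer (Q : Set G)).relIndex (pstab Q f)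
        = (Subgroup.centralizer (P : Set G)).relIndex (pstab P c) ∧
      IsNilpotentBlock p M f := by
  classical
  have hp : p.Prime := Fact.out
  have hPr := IsPModular.isPrime hM
  have hab := comm_of_cyclic hcyc
  have hQP : Q ≤ P := hle.le
  have hNN : pstab P c ≤ Subgroup.normalizer (Q : Set G) :=
    (pstab_le P c).trans (normalizer_le_of_cyclic hcyc hQP)
  have hinf : pstab P c ⊓ Subgroup.normalizer (Q : Set G) = pstab P c := inf_eq_left.2 hNN
  have hsub := pstab_inf_normalizer_le hM hmax.1.1 hle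
  rw [hinf] at hsub
  have hQf : IsBrauerPairOf p M B Q f := (isBrauerPairOf_iff_of_le hM hmax.1.2.1 hle).1 hmax.1
  refine ⟨?_, ?_, ?_⟩
  · apply le_antisymm
    · intro x hx
      obtain ⟨y, hy, z, hz, rfl⟩ := pstab_le_mul_of_abelian hM hmax hle hab hx
      exact Subgroup.mul_mem_sup hy hz
    · exact sup_le hsub (centralizer_le_pstab Q f)
  · rw [relIndex_pstab_of_abelian hM hmax hle hab, hinf, pstab_inf_centralizer hM hmax hcyc hQP hQ1]
  · rw [isNilpotentBlock_iff hM]
    refine ⟨hQf.1.2, fun a ha x hx hreg => ?_⟩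
    have hn := isNormalSubpair_cenQ hM hQf.1.1 ha
    have hpair : IsBrauerPairOf p M B (qS Q a.1) (mapBlk (cenQ Q a.1) a.2) :=
      (isBrauerPairOf_iff_of_normalSubpair hM hn hQf.2.1).2 hQf
    have hxreg : IsPRegular p (x : G) := by
      unfold IsPRegular at hreg ⊢
      rwa [Subgroup.orderOf_coe]
    have hxs := coe_mem_pstab_cenQ hx
    rw [← coe_mem_centralizer_qS Q]
    obtain ⟨g, hg⟩ := exists_conj_le_maximal hM hmax
      (a := ⟨qS Q a.1, mapBlk (cenQ Q a.1) a.2⟩) hpair
    have hgle : cj g (qS Q a.1) ≤ P := hg.le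
    have hRcyc : IsCyclic (qS Q a.1) := by
      have hmem : ∀ r : qS Q a.1, (MulAut.conj g).toMonoidHom (r : G) ∈ P :=
        fun r => hgle ⟨r, r.2, rfl⟩
      apply isCyclic_of_injective
        (((MulAut.conj g).toMonoidHom.comp (qS Q a.1).subtype).codRestrict P hmem)
      intro r s hrs
      have h1 := congrArg Subtype.val hrs
      exact Subtype.ext ((MulAut.conj g).injective h1)
    exact mem_centralizer_of_cyclic hRcyc hpair.1.1 le_sup_left hQ1 (pstab_le _ _ hxs) x.2
      (m := orderOf (x : G)) (Nat.Coprime.symm ((Nat.Prime.coprime_iff_not_dvd hp).2 hxreg))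
      (by rw [pow_orderOf_eq_one]; exact Subgroup.one_mem _)

end Cfsg.Agent.Lib.Helper78IndPair
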