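import Cfsg.Agent.Lib.Helper25PIDefs
import Cfsg.Agent.Lib.H25SCCFCP
import Cfsg.Agent.Lib.Helper80Abel
import Cfsg.Agent.Lib.Helper78IndPair

set_option autoImplicit false
set_option linter.unusedSectionVars false

namespace Cfsg.Agent.Lib.H25PIFCT
open Cfsg
open Cfsg.Agent.Lib.Helper25PIDefs Cfsg.Agent.Lib.Helper80StarDefs Cfsg.Agent.Lib.Helper80StarProps
open Cfsg.Agent.Lib.Helper25StarCDefs Cfsg.Agent.Lib.Helper78MajP Cfsg.Agent.Lib.Helper80Trace
open Cfsg.Agent.Lib.Helper80Brauer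
open scoped ComplexConjugate

universe u v

variable {G : Type u} [Group G] [Fintype G] {p : ℕ} [Fact p.Prime] {M : Ideal AlgInt}
  {B : Set (IrrCharacter G)} {P : Subgroup G}
  {c : Set (IrrCharacter (Subgroup.centralizer (P : Set G)))}

/-- piece `FCT` (60m): fusion of Brauer elements is controlled by the stabilizer of the maximal pair.
`⇐`: copy the proof of `H25SCCFCP.FC_of_mem` (there `y ∈ P ≤ pstab P c`; only `y ∈ pstab P c` is used, through
`Helper80Abel.mem_pstab_iff`; `t u t⁻¹ ∈ P` because `pstab P c ≤ N_G(P)`, `pstab_le`).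
`⇒`: `x u x⁻¹ = u'`, `u, u' ∈ P` cyclic of the same order, so `zpowers u = zpowers u'` =: `R`; then
`cjPair x (bel u) = bel u' = bel u` says `x ∈ pstab R (fz p M P c R)` (`mem_pstab_iff`);
`Helper80Abel.pstab_le_mul_of_abelian` (`hle := fz_spec hM hmax.1.1 _`, `hab := Helper78IndPair.comm_of_cyclic hcyc`):
`x = t z`, `t ∈ pstab P c`, `z ∈ C_G(R)`; so `t u t⁻¹ = x u x⁻¹`. -/
theorem fc_iff (hM : IsPModular p M) (hmax : IsMaximalBrauerPair p M B P c) (hcyc : IsCyclic P)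
    {u u' : G} (hu : u ∈ P) (hu' : u' ∈ P) :
    FC p M P c u u' ↔ ∃ t ∈ pstab P c, t * u * t⁻¹ = u' := by
  have hab := Cfsg.Agent.Lib.Helper78IndPair.comm_of_cyclic hcyc
  constructor
  · rintro ⟨x, hx, hpair⟩
    exact exists_pstab_of_cjPair hM hmax ⟨hu, fun y hy => hab y hy u hu⟩
      ⟨hu', fun y hy => hab y hy u' hu'⟩ hx hpair
  · rintro ⟨y, hy, rfl⟩
    have hPr := Cfsg.Agent.Lib.Helper20Local.IsPModular.isPrime hM
    refine ⟨y, rfl, ?_⟩
    have h1 := Cfsg.Agent.Lib.Helper80Conj.ple_cj hPr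
      (fz_spec hM hmax.1.1 ((Subgroup.zpowers_le).mpr hu)) y
    rw [Cfsg.Agent.Lib.Helper80Abel.mem_pstab_iff.1 hy] at h1
    exact Cfsg.Agent.Lib.Helper80Sat.eq_of_ple_of_fst_eq hM (c := ⟨P, c⟩) hmax.1.1 h1
      (fz_spec hM hmax.1.1 ((Subgroup.zpowers_le).mpr hu')) (cj_zpowers y u)

end Cfsg.Agent.Lib.H25PIFCT
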