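import Cfsg.Agent.Lib.Helper25PIDefs
import Cfsg.Agent.Lib.Helper78Cyc

set_option autoImplicit false
set_option linter.unusedSectionVars false

namespace Cfsg.Agent.Lib.H25PIFCen
open Cfsg
open Cfsg.Agent.Lib.Helper25PIDefs Cfsg.Agent.Lib.Helper80StarDefs Cfsg.Agent.Lib.Helper80StarProps
open Cfsg.Agent.Lib.Helper25StarCDefs Cfsg.Agent.Lib.Helper78MajP Cfsg.Agent.Lib.Helper80Trace
open Cfsg.Agent.Lib.Helper80Brauer
open scoped ComplexConjugate

universe u v

/-- piece `FCen` (30m).  `Cfsg.Agent.Lib.Helper78Cyc.mem_centralizer_of_cyclic` with `R = Q`,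
the subgroup `zpowers v`, `x = y`, `m = e`: `y ^ e ∈ Q = C_F(Q)` because `F ⧸ Q` has order `e`
(`Q` is normal by `hn`), `e` is prime to `p` because `e ∣ p - 1`. -/
theorem cen_le {F : Type v} [Group F] [Finite F] (p : ℕ) [Fact p.Prime] (Q : Subgroup F)
    (hn : ∀ y : F, ∀ v ∈ Q, y * v * y⁻¹ ∈ Q) (hQ : IsCyclic Q) (hp : IsPGroup p Q)
    (hQC : Subgroup.centralizer (Q : Set F) = Q) (e : ℕ) (he : e ∣ p - 1)
    (hF : Nat.card F = Nat.card Q * e) {v : F} (hv : v ∈ Q) (hv1 : v ≠ 1) {y : F}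
    (hy : y * v = v * y) : y ∈ Q := by
  have hpp : p.Prime := Fact.out
  have hp2 : 2 ≤ p := hpp.two_le
  have hQpos : 0 < Nat.card Q := Nat.card_pos
  have hidx : Q.index = e := by
    have h1 : Nat.card Q * Q.index = Nat.card F := Q.card_mul_index
    rw [hF] at h1
    exact Nat.eq_of_mul_eq_mul_left hQpos h1
  have hepos : 0 < e := by
    rcases Nat.eq_zero_or_pos e with h | h
    · exfalso
      rw [h, Nat.mul_zero] at hF
      have : 0 < Nat.card F := Nat.card_pos
      omega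
    · exact h
  have hele : e ≤ p - 1 := Nat.le_of_dvd (by omega) he
  have hnor : Q.Normal := ⟨fun n hn' g => hn g n hn'⟩
  have hcop : e.Coprime p := by
    rw [Nat.coprime_comm]
    refine (Nat.Prime.coprime_iff_not_dvd hpp).2 ?_
    intro h
    have := Nat.le_of_dvd hepos h
    omega
  have hye : y ^ e ∈ Q := by
    rw [← hidx]
    exact Subgroup.pow_index_mem Q y
  have hmain : y ∈ Subgroup.centralizer (Q : Set F) := by
    refine Cfsg.Agent.Lib.Helper78Cyc.mem_centralizer_of_cyclic (p := p) (R := Q)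
      (Q := Subgroup.zpowers v) hQ hp ?_ ?_ ?_ ?_ hcop ?_
    · rw [Subgroup.zpowers_le]; exact hv
    · intro h
      exact hv1 (Subgroup.zpowers_eq_bot.1 h)
    · rw [Subgroup.normalizer_eq_top]; exact Subgroup.mem_top y
    · rw [Subgroup.mem_centralizer_iff]
      intro w hw
      obtain ⟨n, rfl⟩ := Subgroup.mem_zpowers_iff.1 hw
      exact ((Commute.zpow_right (show Commute y v from hy) n).eq).symm
    · rw [hQC]; exact hye
  rw [hQC] at hmain
  exact hmain

end Cfsg.Agent.Lib.H25PIFCen
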