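import Cfsg.Agent.Lib.Helper25PIDefs

set_option autoImplicit false
set_option linter.unusedSectionVars false

namespace Cfsg.Agent.Lib.H25PIFComm
open Cfsg
open Cfsg.Agent.Lib.Helper25PIDefs Cfsg.Agent.Lib.Helper80StarDefs Cfsg.Agent.Lib.Helper80StarProps
open Cfsg.Agent.Lib.Helper25StarCDefs Cfsg.Agent.Lib.Helper78MajP Cfsg.Agent.Lib.Helper80Trace
open Cfsg.Agent.Lib.Helper80Brauer
open scoped ComplexConjugate

universe u v

/-- piece `FComm` (PURE MATHLIB, 30m).  Let `g` generate `Q`; `a g a⁻¹ = g ^ k`, `b g b⁻¹ = g ^ l`, so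
`a b a⁻¹ b⁻¹` centralizes `g`, hence `Q`; `C_F(Q) = Q`. -/
theorem comm_mem {F : Type v} [Group F] (Q : Subgroup F)
    (hn : ∀ y : F, ∀ v ∈ Q, y * v * y⁻¹ ∈ Q) (hQ : IsCyclic Q)
    (hQC : Subgroup.centralizer (Q : Set F) = Q) (a b : F) : a * b * a⁻¹ * b⁻¹ ∈ Q := by
  obtain ⟨⟨g, hgQ⟩, hg⟩ := hQ.exists_generator
  have hgen : ∀ w ∈ Q, ∃ k : ℤ, g ^ k = w := by
    intro w hw
    obtain ⟨k, hk⟩ := Subgroup.mem_zpowers_iff.1 (hg ⟨w, hw⟩)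
    refine ⟨k, ?_⟩
    have := congrArg (Subtype.val) hk
    simpa using this
  obtain ⟨k, hk⟩ := hgen _ (hn a⁻¹ g hgQ)
  obtain ⟨l, hl⟩ := hgen _ (hn b⁻¹ g hgQ)
  rw [inv_inv] at hk hl
  -- conjugation of powers
  have hka : ∀ n : ℤ, a⁻¹ * g ^ n * a = (g ^ k) ^ n := by
    intro n
    rw [hk]
    have := conj_zpow (a := a⁻¹) (b := g) (i := n)
    rw [inv_inv] at this
    exact this.symm
  have hlb : ∀ n : ℤ, b⁻¹ * g ^ n * b = (g ^ l) ^ n := by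
    intro n
    rw [hl]
    have := conj_zpow (a := b⁻¹) (b := g) (i := n)
    rw [inv_inv] at this
    exact this.symm
  -- `(ab)⁻¹ g (ab) = (ba)⁻¹ g (ba)`
  have h1 : b⁻¹ * (a⁻¹ * g * a) * b = a⁻¹ * (b⁻¹ * g * b) * a := by
    rw [← hk, ← hl, hlb, hka, ← zpow_mul, ← zpow_mul, mul_comm]
  have hc : (a * b * a⁻¹ * b⁻¹) * g = g * (a * b * a⁻¹ * b⁻¹) := by
    have h2 : g * (a * b) = a * b * (a⁻¹ * (b⁻¹ * g * b) * a) := by
      rw [← h1]; group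
    have h3 : g * (a * b) * a⁻¹ * b⁻¹ = a * b * a⁻¹ * b⁻¹ * g := by
      rw [h2]; group
    rw [← h3]; group
  rw [← hQC]
  rw [Subgroup.mem_centralizer_iff]
  intro w hw
  obtain ⟨n, rfl⟩ := hgen w hw
  exact ((Commute.zpow_right (show Commute (a * b * a⁻¹ * b⁻¹) g from hc) n).eq).symm

end Cfsg.Agent.Lib.H25PIFComm
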