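import Cfsg.Agent.Lib.Helper25PIDefs

set_option autoImplicit false
set_option linter.unusedSectionVars false

namespace Cfsg.Agent.Lib.H25PIFNor
open Cfsg
open Cfsg.Agent.Lib.Helper25PIDefs Cfsg.Agent.Lib.Helper80StarDefs Cfsg.Agent.Lib.Helper80StarProps
open Cfsg.Agent.Lib.Helper25StarCDefs Cfsg.Agent.Lib.Helper78MajP Cfsg.Agent.Lib.Helper80Trace
open Cfsg.Agent.Lib.Helper80Brauer
open scoped ComplexConjugate

universe u v

/-- piece `FNor` (PURE MATHLIB, 30m).  `Q` is a Sylow `p`-subgroup (`e ∣ p - 1` so `e < p`, `p ∤ e`);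
the number of Sylow `p`-subgroups is `≡ 1 mod p` (`card_sylow_modEq_one`) and divides the index `e < p`
(`Sylow.card_dvd_index`), so it is `1` and `Q` is normal. -/
theorem normal_of_card {F : Type v} [Group F] [Finite F] (p : ℕ) [Fact p.Prime] (Q : Subgroup F)
    (hQ : IsPGroup p Q) (e : ℕ) (he : e ∣ p - 1) (hF : Nat.card F = Nat.card Q * e) :
    ∀ y : F, ∀ v ∈ Q, y * v * y⁻¹ ∈ Q := by
  have hpp : p.Prime := Fact.out
  have hp2 : 2 ≤ p := hpp.two_le
  have hQpos : 0 < Nat.card Q := Nat.card_pos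
  have hidx : Q.index = e := by
    have h1 : Nat.card Q * Q.index = Nat.card F := Q.card_mul_index
    rw [hF] at h1
    exact Nat.eq_of_mul_eq_mul_left hQpos h1
  have hepos : 0 < e := by
    rcases Nat.eq_zero_or_pos e with h | h
    · exfalso
      rw [h, Nat.mul_zero] at hF
      have : 0 < Nat.card F := Nat.card_pos
      omega
    · exact h
  have hele : e ≤ p - 1 := Nat.le_of_dvd (by omega) he
  have hnd : ¬ p ∣ Q.index := by
    rw [hidx]
    intro h
    have := Nat.le_of_dvd hepos h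
    omega
  let S : Sylow p F := hQ.toSylow hnd
  have hS : (S : Subgroup F) = Q := rfl
  have h1 : Nat.card (Sylow p F) ≡ 1 [MOD p] := card_sylow_modEq_one p F
  have h2 : Nat.card (Sylow p F) ∣ (S : Subgroup F).index := S.card_dvd_index
  rw [hS, hidx] at h2
  have h3 : Nat.card (Sylow p F) ≤ e := Nat.le_of_dvd hepos h2
  have h4 : Nat.card (Sylow p F) = 1 := by
    have h5 : Nat.card (Sylow p F) < p := by omega
    have h6 : Nat.card (Sylow p F) % p = 1 % p := h1
    rw [Nat.mod_eq_of_lt h5, Nat.mod_eq_of_lt (by omega)] at h6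
    exact h6
  have hsub : Subsingleton (Sylow p F) := (Nat.card_eq_one_iff_unique.1 h4).1
  have hnor : (S : Subgroup F).Normal := Sylow.normal_of_subsingleton S
  rw [hS] at hnor
  intro y v hv
  exact hnor.conj_mem v hv y

end Cfsg.Agent.Lib.H25PIFNor
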