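import Cfsg.Agent.Lib.Helper25PIDefs

set_option autoImplicit false
set_option linter.unusedSectionVars false

namespace Cfsg.Agent.Lib.H25PISig1
open Cfsg
open Cfsg.Agent.Lib.Helper25PIDefs Cfsg.Agent.Lib.Helper80StarDefs Cfsg.Agent.Lib.Helper80StarProps
open Cfsg.Agent.Lib.Helper25StarCDefs Cfsg.Agent.Lib.Helper78MajP Cfsg.Agent.Lib.Helper80Trace
open Cfsg.Agent.Lib.Helper80Brauer
open scoped ComplexConjugate

universe u v

theorem aut_pow {R : Type*} [Group R] [Finite R] [h : IsCyclic R] (φ : MulAut R) (v : R) :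
    φ v = v ^ ((IsCyclic.mulAutMulEquiv R φ : (ZMod (Nat.card R))ˣ) : ZMod (Nat.card R)).val := by
  have h1 : ((IsCyclic.mulAutMulEquiv R φ : (ZMod (Nat.card R))ˣ) : ZMod (Nat.card R)) =
      Multiplicative.toAdd ((zmodCyclicMulEquiv h).symm (φ (zmodCyclicMulEquiv h (Multiplicative.ofAdd 1)))) := by
    rfl
  haveI : NeZero (Nat.card R) := ⟨Nat.card_pos.ne'⟩
  have h2 : ∀ m : ZMod (Nat.card R), zmodCyclicMulEquiv h (Multiplicative.ofAdd m) =
      (zmodCyclicMulEquiv h (Multiplicative.ofAdd 1)) ^ m.val := by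
    intro m
    rw [← map_pow, ← ofAdd_nsmul, nsmul_eq_mul, mul_one, ZMod.natCast_zmod_val]
  have h3 : ∀ w : R, w = (zmodCyclicMulEquiv h (Multiplicative.ofAdd 1)) ^
      (Multiplicative.toAdd ((zmodCyclicMulEquiv h).symm w)).val := by
    intro w
    rw [← h2]
    simp
  rw [h1]
  generalize zmodCyclicMulEquiv h (Multiplicative.ofAdd 1) = g at *
  have h4 := h3 (φ g)
  have h5 := h3 v
  generalize (Multiplicative.toAdd ((zmodCyclicMulEquiv h).symm (φ g))).val = k at *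
  generalize (Multiplicative.toAdd ((zmodCyclicMulEquiv h).symm v)).val = m at *
  rw [h5, map_pow, h4, ← pow_mul, ← pow_mul, mul_comm]

/-- piece `Sig1` (PURE MATHLIB, 75m).  `R = ⟨r⟩` cyclic of order `n`, `C_X(R) ≤ S ≤ N_X(R)`.  Every `s ∈ S` acts
on `R` as `v ↦ v ^ k(s)`, `k(s) ∈ (ZMod n)ˣ` (inverse: `k(s⁻¹)`); `s ↦ k(s)` is a homomorphism `S → (ZMod n)ˣ` with
kernel `C_X(R)`; `A` := its range, `|A| = |S : C_X(R)|` (`Subgroup.relIndex_ker`-type lemma or
`QuotientGroup.quotientKerEquivRange`).  (`MulAut` of a cyclic group: see `IsCyclic.mulAutMulEquiv`,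
`zmodCyclicMulEquiv`, `MulAut.conjNormal` may shorten this.) -/
theorem exists_pw {X : Type u} [Group X] [Finite X] (R S : Subgroup X) (hR : IsCyclic R) (n : ℕ)
    (hn : Nat.card R = n) (hCS : Subgroup.centralizer (R : Set X) ≤ S)
    (hSN : S ≤ Subgroup.normalizer (R : Set X)) :
    ∃ A : Subgroup (ZMod n)ˣ, Nat.card A = (Subgroup.centralizer (R : Set X)).relIndex S ∧
      ∀ v ∈ R, ∀ v' ∈ R, (∃ s ∈ S, s * v * s⁻¹ = v') ↔
        ∃ k ∈ A, v' = v ^ ((k : (ZMod n)ˣ) : ZMod n).val := by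
  subst hn
  let f : S →* (ZMod (Nat.card R))ˣ :=
    (IsCyclic.mulAutMulEquiv R).toMonoidHom.comp (R.normalizerMonoidHom.comp (Subgroup.inclusion hSN))
  have hf : ∀ (s : S) (v : R), (s : X) * v * (s : X)⁻¹ = (v : X) ^ ((f s : (ZMod (Nat.card R))ˣ) : ZMod (Nat.card R)).val := by
    intro s v
    have := aut_pow (R.normalizerMonoidHom (Subgroup.inclusion hSN s)) v
    exact congrArg Subtype.val this
  have hker : f.ker = (Subgroup.centralizer (R : Set X)).subgroupOf S := by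
    ext s
    have h1 : s ∈ f.ker ↔ Subgroup.inclusion hSN s ∈ R.normalizerMonoidHom.ker := by
      rw [MonoidHom.mem_ker, MonoidHom.mem_ker]
      show (IsCyclic.mulAutMulEquiv R) _ = 1 ↔ _
      rw [MulEquiv.map_eq_one_iff]
      rfl
    rw [h1, Subgroup.normalizerMonoidHom_ker, Subgroup.mem_subgroupOf, Subgroup.mem_subgroupOf]
    rfl
  refine ⟨f.range, ?_, ?_⟩
  · rw [Subgroup.relIndex, ← hker, Subgroup.index_ker]
  · intro v hv v' hv'
    constructor
    · rintro ⟨s, hs, rfl⟩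
      exact ⟨f ⟨s, hs⟩, ⟨_, rfl⟩, hf ⟨s, hs⟩ ⟨v, hv⟩⟩
    · rintro ⟨_, ⟨s, rfl⟩, rfl⟩
      exact ⟨s, s.2, hf s ⟨v, hv⟩⟩

end Cfsg.Agent.Lib.H25PISig1
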