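import Cfsg.Agent.Lib.Helper25PIDefs

set_option autoImplicit false
set_option linter.unusedSectionVars false

namespace Cfsg.Agent.Lib.H25PISig2
open Cfsg
open Cfsg.Agent.Lib.Helper25PIDefs Cfsg.Agent.Lib.Helper80StarDefs Cfsg.Agent.Lib.Helper80StarProps
open Cfsg.Agent.Lib.Helper25StarCDefs Cfsg.Agent.Lib.Helper78MajP Cfsg.Agent.Lib.Helper80Trace
open Cfsg.Agent.Lib.Helper80Brauer
open scoped ComplexConjugate

universe u v

/-- piece `Sig2` (PURE MATHLIB, 30m).  `p = 2`: `e = 1`, both are trivial.  `p` odd: `(ZMod (p^a))ˣ` is cyclic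
(`ZMod.isCyclic_units_of_prime_pow`), a cyclic group has at most one subgroup of a given order
(`IsCyclic.card_pow_eq_one_le` / `Subgroup.eq_of_le_of_card_ge`: both are `{x | x ^ e = 1}`). -/
theorem subgroup_unique {p : ℕ} [Fact p.Prime] {a e : ℕ} (he : e ∣ p - 1)
    (A A' : Subgroup (ZMod (p ^ a))ˣ) (hA : Nat.card A = e) (hA' : Nat.card A' = e) : A = A' := by
  classical
  have hp : p.Prime := Fact.out
  have : NeZero (p ^ a) := ⟨pow_ne_zero _ hp.ne_zero⟩
  by_cases h2 : p = 2
  · subst h2
    have he1 : e = 1 := Nat.dvd_one.1 (by simpa using he)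
    rw [he1] at hA hA'
    rw [Subgroup.card_eq_one.1 hA, Subgroup.card_eq_one.1 hA']
  · have hcyc := ZMod.isCyclic_units_of_prime_pow p hp h2 a
    have he0 : 0 < e := by rw [← hA]; exact Nat.card_pos
    have key : ∀ B : Subgroup (ZMod (p ^ a))ˣ, Nat.card B = e →
        (B : Set (ZMod (p ^ a))ˣ) = {x | x ^ e = 1} := by
      intro B hB
      apply Set.eq_of_subset_of_ncard_le _ _ (Set.toFinite _)
      · intro x hx
        have h1 := pow_card_eq_one' (G := B) (x := ⟨x, hx⟩)
        rw [hB] at h1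
        exact congrArg Subtype.val h1
      · have h1 := IsCyclic.card_pow_eq_one_le (α := (ZMod (p ^ a))ˣ) he0
        have h3 : (B : Set (ZMod (p ^ a))ˣ).ncard = e := by
          rw [← hB]; rfl
        rw [h3, Set.ncard_eq_toFinset_card']
        refine le_trans (le_of_eq ?_) h1
        congr 1
        ext x
        simp
    exact SetLike.coe_injective ((key A hA).trans (key A' hA').symm)

end Cfsg.Agent.Lib.H25PISig2
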