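import Cfsg.Agent.Lib.Helper25PIDefs
import Cfsg.Agent.Lib.H25PISig1
import Cfsg.Agent.Lib.H25PISig2

set_option autoImplicit false
set_option linter.unusedSectionVars false

namespace Cfsg.Agent.Lib.H25PISig3
open Cfsg
open Cfsg.Agent.Lib.Helper25PIDefs Cfsg.Agent.Lib.Helper80StarDefs Cfsg.Agent.Lib.Helper80StarProps
open Cfsg.Agent.Lib.Helper25StarCDefs Cfsg.Agent.Lib.Helper78MajP Cfsg.Agent.Lib.Helper80Trace
open Cfsg.Agent.Lib.Helper80Brauer
open scoped ComplexConjugate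

universe u v

/-- piece `Sig3` (45m).  `n = |Q| = |P| = p ^ a` (`h.pg`, `IsPGroup.iff_card`).  `exists_pw` for `(F, Q, ⊤)`
(`C_F(Q) = Q`: `⊆` by `h.cen` and `h.ne`, `⊇` abelian; `Q.relIndex ⊤ = Q.index = e` by `h.card`) and for
`(G, P, T)`; `subgroup_unique` gives `A = A'`.  `σ` := any isomorphism (`mulEquivOfCyclicCardEq`), it commutes
with powers. -/
theorem exists_sigma {F : Type v} [Group F] [Finite F] {G : Type u} [Group G] [Finite G] {p : ℕ}
    [Fact p.Prime] {Q : Subgroup F} {e : ℕ} (h : FR p Q e) {P T : Subgroup G} (hcyc : IsCyclic P)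
    (hcard : Nat.card Q = Nat.card P) (hCT : Subgroup.centralizer (P : Set G) ≤ T)
    (hTN : T ≤ Subgroup.normalizer (P : Set G))
    (hidx : (Subgroup.centralizer (P : Set G)).relIndex T = e) :
    ∃ σ : Q ≃* P, ∀ v v' : Q, (∃ t ∈ T, t * ((σ v : P) : G) * t⁻¹ = ((σ v' : P) : G)) ↔
      ∃ y : F, y * (v : F) * y⁻¹ = (v' : F) := by
  obtain ⟨a, ha⟩ := (IsPGroup.iff_card (p := p) (G := Q)).1 h.pg
  have hcQ : Subgroup.centralizer (Q : Set F) = Q := by
    apply le_antisymm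
    · intro y hy
      obtain ⟨v, hv, hv1⟩ := (Subgroup.ne_bot_iff_exists_ne_one (H := Q)).mp h.ne |>.elim
        (fun v hv => (⟨(v : F), v.2, fun h1 => hv (Subtype.ext h1)⟩ : ∃ v : F, v ∈ Q ∧ v ≠ 1))
      exact h.cen v hv hv1 y ((Subgroup.mem_centralizer_iff.mp hy v hv).symm)
    · intro y hy
      rw [Subgroup.mem_centralizer_iff]
      intro v hv
      have := h.cyc
      have hc := (IsCyclic.commGroup (α := Q)).mul_comm ⟨v, hv⟩ ⟨y, hy⟩
      exact congrArg Subtype.val hc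
  have hidxQ : (Subgroup.centralizer (Q : Set F)).relIndex ⊤ = e := by
    rw [hcQ, Subgroup.relIndex_top_right]
    have h1 := Subgroup.card_mul_index Q
    rw [h.card] at h1
    exact Nat.eq_of_mul_eq_mul_left Nat.card_pos h1
  have hnQ : (⊤ : Subgroup F) ≤ Subgroup.normalizer (Q : Set F) := by
    intro y _
    rw [Subgroup.mem_normalizer_iff]
    intro v
    constructor
    · intro hv
      exact h.nor y v hv
    · intro hv
      have := h.nor y⁻¹ _ hv
      have e1 : y⁻¹ * (y * v * y⁻¹) * y⁻¹⁻¹ = v := by group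
      rwa [e1] at this
  obtain ⟨A, hA, hA2⟩ := Cfsg.Agent.Lib.H25PISig1.exists_pw Q ⊤ h.cyc (p ^ a) ha le_top hnQ
  obtain ⟨A', hA', hA2'⟩ := Cfsg.Agent.Lib.H25PISig1.exists_pw P T hcyc (p ^ a) (hcard ▸ ha) hCT hTN
  have hAA : A = A' := Cfsg.Agent.Lib.H25PISig2.subgroup_unique h.dvd A A' (hA.trans hidxQ)
    (hA'.trans hidx)
  subst hAA
  have := h.cyc
  refine ⟨mulEquivOfCyclicCardEq hcard, fun v v' => ?_⟩
  set σ : Q ≃* P := mulEquivOfCyclicCardEq hcard with hσ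
  rw [hA2' _ (σ v).2 _ (σ v').2]
  have h3 := hA2 _ v.2 _ v'.2
  have h4 : (∃ y : F, y * (v : F) * y⁻¹ = (v' : F)) ↔ ∃ s ∈ (⊤ : Subgroup F), s * (v : F) * s⁻¹ = v' := by
    simp
  rw [h4, h3]
  apply exists_congr
  intro k
  apply and_congr_right
  intro _
  have h5 : ∀ m : ℕ, ((σ v' : P) : G) = ((σ v : P) : G) ^ m ↔ (v' : F) = (v : F) ^ m := by
    intro m
    rw [← Subgroup.coe_pow, ← Subgroup.coe_pow, ← map_pow, Subtype.coe_inj, Subtype.coe_inj,
      σ.injective.eq_iff]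
  exact h5 _

end Cfsg.Agent.Lib.H25PISig3
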