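import Mathlib
import Cfsg.Prelude.Def_Blocks
import Cfsg.Prelude.Def_BlockRank
import Cfsg.Agent.Lib.Helper59BLTw

/-!
# Vocabulary for blocks of defect one (general blocks), project 7 part 2
`P` a Sylow `p`-subgroup of order `p`, `H = C_G(P)`, `θ ∈ Irr(H)` with `P ≤ ker θ`,
`tw l ∈ Irr(H)` the product of `θ` with the linear character `l` of `P` (`H = P × K`).
-/

set_option autoImplicit false

namespace Cfsg.Agent.Lib.Helper4DefOneDefs

open Cfsg Subgroup Cfsg.Agent.Lib.Helper59BLGram Cfsg.Agent.Lib.Helper59BLTw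

variable {G : Type*} [Group G] {p : ℕ} [Fact p.Prime]

/-- `n` normalizes `P` and fixes `θ`. -/
def Stab (P : Sylow p G) {H : Subgroup G} (θ : H → ℂ) (n : G) : Prop :=
  n ∈ normalizer ((P : Subgroup G) : Set G) ∧ ∀ c c' : H, (c' : G) = n * c * n⁻¹ → θ c' = θ c

/-- `θ' = l × θ`. -/
def IsTwist (P : Sylow p G) {H : Subgroup G} (θ θ' : H → ℂ) (l : ↥(P : Subgroup G) →* ℂˣ) : Prop :=
  ∀ (x : ↥(P : Subgroup G)) (y c : H), ¬ p ∣ orderOf y → (c : G) = (x : G) * (y : G) →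
    θ' c = ((l x : ℂˣ) : ℂ) * θ y

/-- conjugacy of linear characters of `P` under the stabilizer of `θ`. -/
def RelT (P : Sylow p G) {H : Subgroup G} (θ : H → ℂ) (l l' : ↥(P : Subgroup G) →* ℂˣ) : Prop :=
  ∃ n : normalizer ((P : Subgroup G) : Set G), Stab P θ (n : G) ∧ twHom P n l = l'

/-- the multiplicity of `ψ` in the restriction of `χ` to `H`. -/
noncomputable def mH {H : Subgroup G} [Fintype H] (χ : IrrCharacter G) (ψ : IrrCharacter H) : ℂ :=
  classInner (fun h : H => (χ : G → ℂ) h) (ψ : H → ℂ)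

/-- the Gram matrix. -/
noncomputable def kapT (P : Sylow p G) [Fintype (normalizer ((P : Subgroup G) : Set G))]
    {H : Subgroup G} (θ : H → ℂ) (l l' : ↥(P : Subgroup G) →* ℂˣ) : ℂ :=
  (Nat.card H : ℂ)⁻¹ * ∑ n : normalizer ((P : Subgroup G) : Set G),
    ind (Stab P θ (n : G) ∧ twHom P n l = l')

/-- the data of a block of defect one. -/
structure Data (p : ℕ) [Fact p.Prime] (M : Ideal AlgInt) (P : Sylow p G) (H : Subgroup G)
    (B : Set (IrrCharacter G)) (b : Set (IrrCharacter H)) (θ : IrrCharacter H)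
    (tw : (↥(P : Subgroup G) →* ℂˣ) → IrrCharacter H) : Prop where
  hM : IsPModular p M
  hP : Nat.card P = p
  hH : H = centralizer ((P : Subgroup G) : Set G)
  hBP : IsDefectGroup p M B P
  hind : IsInducedBlock M H b B
  hθ : θ ∈ b
  hθP : ∀ x : H, (x : G) ∈ (P : Subgroup G) → (θ : H → ℂ) x = (θ : H → ℂ) 1
  htw : ∀ l, IsTwist P (θ : H → ℂ) (tw l : H → ℂ) l
  htwb : ∀ l, tw l ∈ b

end Cfsg.Agent.Lib.Helper4DefOneDefs
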