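import Mathlib
import Cfsg.Agent.Lib.Helper4DefOneDefs
import Cfsg.Agent.Lib.Helper25DefOne

/-!
# Project 7, part 2, piece `kap`: the Gram matrix `kapT` of the twisted characters.
-/

set_option autoImplicit false
set_option linter.unusedSectionVars false

namespace Cfsg.Agent.Lib.Helper12DefOneKap

open Cfsg Subgroup Cfsg.Agent.Lib.Helper59BLGram Cfsg.Agent.Lib.Helper59BLTw
  Cfsg.Agent.Lib.Helper4DefOneDefs Cfsg.Agent.Lib.Helper59BLCoh
open scoped ComplexConjugate

section grp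

variable {G : Type*} [Group G] {p : ℕ} [Fact p.Prime] {P : Sylow p G} {H : Subgroup G}

theorem stab_one (P : Sylow p G) (θ : H → ℂ) : Stab P θ 1 := by
  refine ⟨one_mem _, ?_⟩
  intro c c' h
  have : c' = c := Subtype.ext (by rw [h]; simp)
  rw [this]

theorem stab_inv {θ : H → ℂ} {n : G} (h : Stab P θ n) : Stab P θ n⁻¹ := by
  refine ⟨inv_mem h.1, ?_⟩
  intro c c' hc
  refine (h.2 c' c ?_).symm
  rw [hc]; group

theorem conj_mem_centralizer {n c : G} (hn : n ∈ normalizer ((P : Subgroup G) : Set G))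
    (hc : c ∈ centralizer ((P : Subgroup G) : Set G)) :
    n * c * n⁻¹ ∈ centralizer ((P : Subgroup G) : Set G) := by
  rw [mem_centralizer_iff]
  intro x hx
  have h1 : n⁻¹ * x * n ∈ (P : Subgroup G) := by
    have := (mem_normalizer_iff.mp (inv_mem hn) x).mp hx
    simpa using this
  have h2 := mem_centralizer_iff.mp hc _ h1
  calc x * (n * c * n⁻¹) = n * ((n⁻¹ * x * n) * c) * n⁻¹ := by group
    _ = n * (c * (n⁻¹ * x * n)) * n⁻¹ := by rw [h2]
    _ = n * c * n⁻¹ * x := by group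

theorem stab_mul (hH : H = centralizer ((P : Subgroup G) : Set G)) {θ : H → ℂ} {n n' : G}
    (h : Stab P θ n) (h' : Stab P θ n') : Stab P θ (n' * n) := by
  refine ⟨mul_mem h'.1 h.1, ?_⟩
  intro c c' hc
  have hm : n * c * n⁻¹ ∈ H := by
    have hc2 : (c : G) ∈ centralizer ((P : Subgroup G) : Set G) := hH ▸ c.2
    have := conj_mem_centralizer h.1 hc2
    exact hH.symm ▸ this
  rw [← h.2 c ⟨_, hm⟩ rfl]
  apply h'.2
  rw [hc]; simp [mul_assoc]

/-- the stabilizer of `θ` as a subgroup of the normalizer. -/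
def stabN (hH : H = centralizer ((P : Subgroup G) : Set G)) (θ : H → ℂ) :
    Subgroup (normalizer ((P : Subgroup G) : Set G)) where
  carrier := {n | Stab P θ (n : G)}
  one_mem' := stab_one P θ
  mul_mem' := fun ha hb => stab_mul hH hb ha
  inv_mem' := fun ha => stab_inv ha

theorem mem_stabN (hH : H = centralizer ((P : Subgroup G) : Set G)) (θ : H → ℂ)
    (n : normalizer ((P : Subgroup G) : Set G)) : n ∈ stabN hH θ ↔ Stab P θ (n : G) := Iff.rfl

/-- NOTE: the hypothesis `hH` is needed (transitivity fails for a general subgroup `H`). -/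
theorem relT_equiv (hH : H = centralizer ((P : Subgroup G) : Set G)) (θ : H → ℂ) :
    Equivalence (RelT P θ) where
  refl l := ⟨1, stab_one P θ, by rw [map_one]; rfl⟩
  symm := by
    rintro l l' ⟨n, hn, rfl⟩
    refine ⟨n⁻¹, stab_inv hn, ?_⟩
    rw [← Equiv.Perm.mul_apply, ← map_mul, inv_mul_cancel, map_one]; rfl
  trans := by
    rintro l l' l'' ⟨n, hn, rfl⟩ ⟨n', hn', rfl⟩
    exact ⟨n' * n, stab_mul hH hn hn', by rw [map_mul]; rfl⟩

theorem relT_one_iff (P : Sylow p G) (θ : H → ℂ) (l : ↥(P : Subgroup G) →* ℂˣ) :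
    RelT P θ l 1 ↔ l = 1 := by
  constructor
  · rintro ⟨n, -, hn⟩
    exact (rel_one_iff P l).mp ⟨n, hn⟩
  · rintro rfl
    exact ⟨1, stab_one P θ, twHom_one P 1⟩

theorem stab_of_mem (hH : H = centralizer ((P : Subgroup G) : Set G)) (θ : IrrCharacter H)
    {c : G} (hc : c ∈ H) : Stab P (θ : H → ℂ) c := by
  refine ⟨centralizer_le_normalizer' (hH ▸ hc), ?_⟩
  intro d d' hd
  have : d' = (⟨c, hc⟩ : H) * d * (⟨c, hc⟩ : H)⁻¹ := Subtype.ext (by rw [hd]; rfl)
  rw [this, Cfsg.Agent.Lib.Helper81Base.irr_conj]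

end grp

variable {G : Type*} [Group G] [Fintype G] {p : ℕ} [Fact p.Prime] {M : Ideal AlgInt}
  {P : Sylow p G} {H : Subgroup G} [Fintype H]
  [Fintype (normalizer ((P : Subgroup G) : Set G))]
  {B : Set (IrrCharacter G)} {b : Set (IrrCharacter H)} {θ : IrrCharacter H}
  {tw : (↥(P : Subgroup G) →* ℂˣ) → IrrCharacter H}

theorem relT_equiv' (h : Data p M P H B b θ tw) : Equivalence (RelT P (θ : H → ℂ)) :=
  relT_equiv h.hH _

theorem bl (h : Data p M P H B b θ tw) : BL p M P :=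
  Cfsg.Agent.Lib.Helper25DefOne.bl_of_card h.hM h.hP

/-- the sum over the normalizer as a sum over the stabilizer. -/
theorem sum_stab (hH : H = centralizer ((P : Subgroup G) : Set G)) (θ : H → ℂ)
    [Fintype (stabN (P := P) hH θ)] (q : normalizer ((P : Subgroup G) : Set G) → Prop) :
    ∑ n : normalizer ((P : Subgroup G) : Set G), ind (Stab P θ (n : G) ∧ q n)
      = ∑ n : stabN (P := P) hH θ, ind (q n) := by
  classical
  have h1 : ∀ n : normalizer ((P : Subgroup G) : Set G), ind (Stab P θ (n : G) ∧ q n)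
      = if n ∈ stabN (P := P) hH θ then ind (q n) else 0 := by
    intro n
    by_cases hn : Stab P θ (n : G)
    · rw [if_pos ((mem_stabN hH θ n).mpr hn)]
      by_cases hq : q n
      · rw [ind_pos ⟨hn, hq⟩, ind_pos hq]
      · rw [ind_neg (fun h' => hq h'.2), ind_neg hq]
    · rw [if_neg (fun h' => hn ((mem_stabN hH θ n).mp h')), ind_neg (fun h' => hn h'.1)]
  simp only [h1]
  rw [← Finset.sum_filter]
  exact (Finset.sum_subtype (Finset.univ.filter fun n => n ∈ stabN (P := P) hH θ)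
    (fun x => by simp) (fun n => ind (q n)))

theorem card_stabT (h : Data p M P H B b θ tw) (l : ↥(P : Subgroup G) →* ℂˣ) (hl : l ≠ 1) :
    Nat.card {n : stabN (P := P) h.hH (θ : H → ℂ) //
      ((twHom P).comp (stabN (P := P) h.hH (θ : H → ℂ)).subtype) n l = l} = Nat.card H := by
  apply Nat.card_congr
  refine ⟨fun n => ⟨((n.1 : normalizer ((P : Subgroup G) : Set G)) : G), ?_⟩,
    fun c => ⟨⟨⟨(c : G), centralizer_le_normalizer' (h.hH ▸ c.2)⟩, stab_of_mem h.hH θ c.2⟩, ?_⟩,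
    ?_, ?_⟩
  · have := mem_centralizer_of_tw (bl h) n.1.1 l hl n.2
    exact h.hH.symm ▸ this
  · exact tw_of_mem_centralizer _ (h.hH ▸ c.2) l
  · intro n; rfl
  · intro c; rfl

theorem kapT_of_ne_one (h : Data p M P H B b θ tw) (l l' : ↥(P : Subgroup G) →* ℂˣ) (hl : l ≠ 1) :
    kapT P (θ : H → ℂ) l l' = ind (RelT P (θ : H → ℂ) l l') := by
  classical
  have : Fintype (↥(P : Subgroup G) →* ℂˣ) := Fintype.ofFinite _
  have hC : (Nat.card H : ℂ) ≠ 0 := by exact_mod_cast Nat.card_pos.ne'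
  unfold kapT
  rw [sum_stab h.hH (θ : H → ℂ) (fun n => twHom P n l = l')]
  have := sum_perm ((twHom P).comp (stabN (P := P) h.hH (θ : H → ℂ)).subtype) l
    (fun b => ind (b = l'))
  have e : ∑ n : stabN (P := P) h.hH (θ : H → ℂ), ind (twHom P (n : normalizer _) l = l')
      = ∑ n : stabN (P := P) h.hH (θ : H → ℂ),
        ind (((twHom P).comp (stabN (P := P) h.hH (θ : H → ℂ)).subtype) n l = l') := rfl
  rw [e, this, card_stabT h l hl, inv_mul_cancel_left₀ hC]
  have hiff : ∀ l'', (∃ n, ((twHom P).comp (stabN (P := P) h.hH (θ : H → ℂ)).subtype) n l = l'')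
      ↔ RelT P (θ : H → ℂ) l l'' := by
    intro l''
    constructor
    · rintro ⟨n, hn⟩
      exact ⟨n.1, n.2, hn⟩
    · rintro ⟨n, hn, hn'⟩
      exact ⟨⟨n, hn⟩, hn'⟩
  by_cases hr : RelT P (θ : H → ℂ) l l'
  · rw [ind_pos hr, Finset.sum_eq_single l']
    · rw [if_pos ((hiff l').mpr hr), ind_pos rfl]
    · intro b _ hb
      rw [ind_neg hb]; simp
    · intro h'; exact absurd (Finset.mem_univ _) h'
  · rw [ind_neg hr]
    apply Finset.sum_eq_zero
    intro b _
    by_cases hb : b = l'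
    · subst hb
      rw [if_neg (fun h' => hr ((hiff b).mp h'))]
    · rw [ind_neg hb]; simp

theorem card_T (h : Data p M P H B b θ tw) (T : Subgroup G)
    (hT : ∀ g, g ∈ T ↔ Stab P (θ : H → ℂ) g) (e : ℕ) (he : H.relIndex T = e) :
    Nat.card (stabN (P := P) h.hH (θ : H → ℂ)) = Nat.card H * e := by
  have hHT : H ≤ T := fun c hc => (hT c).mpr (stab_of_mem h.hH θ hc)
  have h1 : Nat.card (stabN (P := P) h.hH (θ : H → ℂ)) = Nat.card T := by
    apply Nat.card_congr
    refine ⟨fun n => ⟨((n.1 : normalizer ((P : Subgroup G) : Set G)) : G), (hT _).mpr n.2⟩,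
      fun c => ⟨⟨(c : G), ((hT _).mp c.2).1⟩, (hT _).mp c.2⟩, ?_, ?_⟩
    · intro n; rfl
    · intro c; rfl
  rw [h1, ← he, ← Subgroup.card_mul_index (H.subgroupOf T)]
  congr 1
  exact Nat.card_congr (subgroupOfEquivOfLe hHT).toEquiv

theorem kapT_one (h : Data p M P H B b θ tw) (T : Subgroup G)
    (hT : ∀ g, g ∈ T ↔ Stab P (θ : H → ℂ) g) (e : ℕ) (he : H.relIndex T = e)
    (l' : ↥(P : Subgroup G) →* ℂˣ) : kapT P (θ : H → ℂ) 1 l' = (e : ℂ) * ind (l' = 1) := by
  classical
  have hC : (Nat.card H : ℂ) ≠ 0 := by exact_mod_cast Nat.card_pos.ne'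
  unfold kapT
  rw [sum_stab h.hH (θ : H → ℂ) (fun n => twHom P n 1 = l')]
  simp only [twHom_one]
  by_cases h1 : l' = 1
  · subst h1
    simp only [ind_pos, Finset.sum_const, Finset.card_univ, nsmul_eq_mul, mul_one]
    rw [← Nat.card_eq_fintype_card, card_T h T hT e he]
    push_cast
    field_simp
  · have : ¬ (1 : ↥(P : Subgroup G) →* ℂˣ) = l' := fun h' => h1 h'.symm
    simp [ind_neg this, ind_neg h1]

theorem card_orbitT (h : Data p M P H B b θ tw) (T : Subgroup G)
    (hT : ∀ g, g ∈ T ↔ Stab P (θ : H → ℂ) g) (e : ℕ) (he : H.relIndex T = e)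
    (l : ↥(P : Subgroup G) →* ℂˣ) (hl : l ≠ 1) :
    Nat.card {l' : ↥(P : Subgroup G) →* ℂˣ // RelT P (θ : H → ℂ) l l'} = e := by
  classical
  have : Fintype (↥(P : Subgroup G) →* ℂˣ) := Fintype.ofFinite _
  have hC : (Nat.card H : ℂ) ≠ 0 := by exact_mod_cast Nat.card_pos.ne'
  have h1 : ∑ l' : ↥(P : Subgroup G) →* ℂˣ, kapT P (θ : H → ℂ) l l' = e := by
    unfold kapT
    rw [← Finset.mul_sum]
    simp only [fun l' => sum_stab h.hH (θ : H → ℂ) (fun n => twHom P n l = l')]
    rw [Finset.sum_comm]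
    have : ∀ n : stabN (P := P) h.hH (θ : H → ℂ),
        ∑ l' : ↥(P : Subgroup G) →* ℂˣ, ind (twHom P (n : normalizer _) l = l') = 1 := by
      intro n
      rw [Finset.sum_eq_single (twHom P (n : normalizer _) l)]
      · exact ind_pos rfl
      · intro b _ hb
        exact ind_neg (fun h' => hb h'.symm)
      · intro h'; exact absurd (Finset.mem_univ _) h'
    simp only [this, Finset.sum_const, Finset.card_univ, nsmul_eq_mul, mul_one]
    rw [← Nat.card_eq_fintype_card, card_T h T hT e he]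
    push_cast
    field_simp
  simp only [kapT_of_ne_one h l _ hl, ind_eq_ite] at h1
  rw [Finset.sum_boole] at h1
  rw [Nat.card_eq_fintype_card, Fintype.card_subtype]
  exact_mod_cast h1

end Cfsg.Agent.Lib.Helper12DefOneKap
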