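import Mathlib
import Cfsg.Prelude.Def_Blocks
import Cfsg.Agent.Lib.Helper81Height
import Cfsg.Agent.Lib.Helper81DefOne
import Cfsg.Agent.Lib.Helper21Cover3
import Cfsg.Agent.Lib.Helper20Brauer
import Cfsg.Agent.Lib.Helper20DefCard
import Cfsg.Agent.Lib.Helper20Induced

set_option autoImplicit false

/-! A block containing a character which has a central `p`-subgroup `Z` in its kernel and is of
defect zero modulo `Z` has defect group `Z`. -/

namespace Cfsg.Agent.Lib.Helper81Central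

open Cfsg
open Cfsg.Agent.Lib.Helper81Local Cfsg.Agent.Lib.Helper81Base Cfsg.Agent.Lib.Helper81Block
  Cfsg.Agent.Lib.Helper81Defect Cfsg.Agent.Lib.Helper84Contrib Cfsg.Agent.Lib.Helper81Height
open scoped ComplexConjugate

variable {K : Type*} [Group K] [Fintype K] {p : ℕ} [Fact p.Prime] {M : Ideal AlgInt}

open scoped Classical in
/-- the regular part of the norm of a character with the central `p`-subgroup `Z` in its
kernel. -/
theorem card_mul_sum_reg_le (Z : Subgroup K) (hZc : Z ≤ Subgroup.center K) (hZ : IsPGroup p Z)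
    (r : K → ℝ) (hr : ∀ g, 0 ≤ r g) (hrz : ∀ z ∈ Z, ∀ y, r (z * y) = r y) :
    (Nat.card Z : ℝ) * ∑ y : K, (if ¬ p ∣ orderOf y then r y else 0) ≤ ∑ g : K, r g := by
  have hp : p.Prime := Fact.out
  have h1 : (Nat.card Z : ℝ) * ∑ y : K, (if ¬ p ∣ orderOf y then r y else 0)
      = ∑ z : Z, ∑ g : K, (if ¬ p ∣ orderOf ((z : K)⁻¹ * g) then r g else 0) := by
    rw [Nat.card_eq_fintype_card, ← Finset.card_univ, ← nsmul_eq_mul, ← Finset.sum_const]
    apply Finset.sum_congr rfl
    intro z _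
    apply Fintype.sum_equiv (Equiv.mulLeft (z : K))
    intro y
    simp only [Equiv.coe_mulLeft, inv_mul_cancel_left]
    rw [hrz z z.2]
  rw [h1, Finset.sum_comm]
  apply Finset.sum_le_sum
  intro g _
  by_cases hex : ∃ z : Z, ¬ p ∣ orderOf ((z : K)⁻¹ * g)
  · obtain ⟨z₀, hz₀⟩ := hex
    rw [Finset.sum_eq_single z₀]
    · rw [if_pos hz₀]
    · intro z _ hne
      rw [if_neg]
      intro hz
      apply hne
      -- z⁻¹ g = (z₀⁻¹ g) * (z⁻¹ z₀)
      have hu : ((z : K)⁻¹ * z₀) ∈ Z := Z.mul_mem (Z.inv_mem z.2) z₀.2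
      have hc : Commute ((z₀ : K)⁻¹ * g) ((z : K)⁻¹ * z₀) :=
        ((Subgroup.mem_center_iff.1 (hZc hu)) _)
      have he : (z₀ : K)⁻¹ * g * ((z : K)⁻¹ * z₀) = (z : K)⁻¹ * g := by
        rw [hc.eq]
        group
      obtain ⟨k, hk⟩ := hZ ⟨_, hu⟩
      have hk' : ((z : K)⁻¹ * z₀) ^ p ^ k = 1 := by
        have := congrArg Subtype.val hk
        simpa using this
      have := Cfsg.Agent.Lib.Helper21Cover3.eq_of_regular_of_commute hp hc ⟨k, hk'⟩ hz₀
        (by rw [he]; exact hz)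
      apply Subtype.ext
      exact (inv_mul_eq_one.1 this)
    · intro h
      exact absurd (Finset.mem_univ _) h
  · push Not at hex
    rw [Finset.sum_eq_zero]
    · exact hr g
    · intro z _
      rw [if_neg (not_not.2 (hex z))]

/-- see the header. -/
theorem isDefectGroup_of_central (hM : IsPModular p M) {e : Set (IrrCharacter K)}
    (he : IsPBlock M e) (Z : Subgroup K) (hZc : Z ≤ Subgroup.center K) (hZ : IsPGroup p Z)
    {θ : IrrCharacter K} (hθ : θ ∈ e) (hker : ∀ z ∈ Z, ∀ y, (θ : K → ℂ) (z * y) = (θ : K → ℂ) y)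
    (hdeg : (Nat.card K).factorization p
      ≤ (charDegree (θ : K → ℂ)).factorization p + (Nat.card Z).factorization p) :
    IsDefectGroup p M e Z := by
  classical
  have hp : p.Prime := Fact.out
  set a := (Nat.card K).factorization p with ha
  set v := (charDegree (θ : K → ℂ)).factorization p with hv
  obtain ⟨z, hz⟩ := (IsPGroup.iff_card.1 hZ)
  have hzf : (Nat.card Z).factorization p = z := by
    rw [hz, hp.factorization_pow]; simp
  rw [hzf] at hdeg
  -- the inequality for N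
  have hKpos : (0 : ℝ) < (Nat.card K : ℝ) := by exact_mod_cast Nat.card_pos
  have h1 := card_mul_sum_reg_le (p := p) Z hZc hZ (fun g => Complex.normSq ((θ : K → ℂ) g))
    (fun g => Complex.normSq_nonneg _) (fun z hz y => by rw [hker z hz y])
  have h2 : ∑ g : K, Complex.normSq ((θ : K → ℂ) g) = (Nat.card K : ℝ) := by
    have := irr_orth θ θ
    rw [if_pos rfl] at this
    simp only [Complex.mul_conj] at this
    exact_mod_cast this
  have h3 : ((p ^ a : ℕ) : ℝ) * ∑ y : K, (if ¬ p ∣ orderOf y then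
      Complex.normSq ((θ : K → ℂ) y) else 0) = (Nat.card K : ℝ) * (N p θ θ : ℝ) := by
    have := Cfsg.Agent.Lib.Helper81DefOne.sum_reg_eq_N (p := p) θ θ
    simp only [Complex.mul_conj] at this
    have h4 : ∀ g : K, (if ¬ p ∣ orderOf g then ((Complex.normSq ((θ : K → ℂ) g) : ℝ) : ℂ) else 0)
        = (((if ¬ p ∣ orderOf g then Complex.normSq ((θ : K → ℂ) g) else 0 : ℝ)) : ℂ) := by
      intro g
      split_ifs <;> simp
    simp only [h4] at this
    exact_mod_cast this
  rw [h2] at h1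
  have h5 : (N p θ θ : ℝ) * (p ^ z : ℕ) ≤ (p ^ a : ℕ) := by
    rw [hz] at h1
    have h6 : ((p ^ a : ℕ) : ℝ) * (((p ^ z : ℕ) : ℝ) * ∑ y : K, (if ¬ p ∣ orderOf y then
      Complex.normSq ((θ : K → ℂ) y) else 0)) ≤ ((p ^ a : ℕ) : ℝ) * (Nat.card K : ℝ) :=
      mul_le_mul_of_nonneg_left h1 (by positivity)
    have h7 : ((p ^ a : ℕ) : ℝ) * (((p ^ z : ℕ) : ℝ) * ∑ y : K, (if ¬ p ∣ orderOf y then
      Complex.normSq ((θ : K → ℂ) y) else 0)) = (Nat.card K : ℝ) * ((N p θ θ : ℝ) * (p ^ z : ℕ)) := by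
      rw [mul_left_comm, h3]; ring
    rw [h7, mul_comm ((p ^ a : ℕ) : ℝ)] at h6
    exact le_of_mul_le_mul_left h6 hKpos
  have h5' : N p θ θ * (p : ℤ) ^ z ≤ (p : ℤ) ^ a := by
    have : ((N p θ θ * (p : ℤ) ^ z : ℤ) : ℝ) ≤ (((p : ℤ) ^ a : ℤ) : ℝ) := by
      push_cast
      push_cast at h5
      exact h5
    exact_mod_cast this
  have hNpos := N_self_pos (p := p) θ
  have hpz : (0 : ℤ) < (p : ℤ) := by exact_mod_cast hp.pos
  -- height zero
  have hh : blockHeight p e (θ : K → ℂ) = 0 := by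
    by_contra hne
    have h6 := pow_succ_dvd_N_self hM he hθ (Nat.pos_of_ne_zero hne)
    have h7 := Int.le_of_dvd hNpos h6
    have h8 : (p : ℤ) ^ (v + 1) * (p : ℤ) ^ z ≤ (p : ℤ) ^ a :=
      le_trans (mul_le_mul_of_nonneg_right h7 (by positivity)) h5'
    rw [← pow_add] at h8
    have h9 : v + 1 + z ≤ a := by
      have h10 : (1 : ℤ) < (p : ℤ) := by exact_mod_cast hp.one_lt
      exact (pow_le_pow_iff_right₀ h10).1 h8
    omega
  obtain ⟨D, hD⟩ := Cfsg.Agent.Lib.Helper20Induced.exists_defectGroup hM he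
  have hn : Z.Normal := by
    constructor
    intro n hn g
    have := Subgroup.mem_center_iff.1 (hZc hn) g
    rw [this, mul_inv_cancel_right]
    exact hn
  have hle := Cfsg.Agent.Lib.Helper20Brauer.le_defectGroup_of_normal hM Z hZ he hD
  have hcard := Cfsg.Agent.Lib.Helper20DefCard.card_defectGroup hM he hD
  have hd : blockDefect p e ≤ z := by
    rw [blockDefect_def]
    rw [blockHeight_def] at hh
    have := minVal_le (p := p) hθ
    omega
  have hcle : Nat.card D ≤ Nat.card Z := by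
    rw [hcard, hz]
    exact Nat.pow_le_pow_right hp.pos hd
  have : Z = D := Subgroup.eq_of_le_of_card_ge hle hcle
  rw [this]
  exact hD

end Cfsg.Agent.Lib.Helper81Central
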