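import Mathlib
import Cfsg.Agent.Lib.Helper4DefOneDefs
import Cfsg.Agent.Lib.Helper21DC
import Cfsg.Agent.Lib.Helper81Central
import Cfsg.Agent.Lib.Helper19Lin

/-!
# Project 7, part 2, piece `tw`: the twisted characters `l × θ` of `H = C_G(P)`
-/

set_option autoImplicit false
set_option linter.unusedSectionVars false

namespace Cfsg.Agent.Lib.Helper1DefOneTw

open Cfsg Subgroup Cfsg.Agent.Lib.Helper59BLGram Cfsg.Agent.Lib.Helper59BLTw
  Cfsg.Agent.Lib.Helper4DefOneDefs
open scoped ComplexConjugate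

section grp

variable {G : Type*} [Group G] {p : ℕ} [Fact p.Prime] {P : Sylow p G} {H : Subgroup G}

theorem le_centralizer_of_card (hP : Nat.card P = p)
    (hH : H = centralizer ((P : Subgroup G) : Set G)) : (P : Subgroup G) ≤ H := by
  have hcyc : IsCyclic ↥(P : Subgroup G) := isCyclic_of_prime_card hP
  intro x hx
  rw [hH, mem_centralizer_iff]
  intro y hy
  have := hcyc.isMulCommutative.is_comm.comm (⟨y, hy⟩ : ↥(P : Subgroup G)) ⟨x, hx⟩
  exact congrArg Subtype.val this

theorem mem_of_orderOf_eq (hH : H = centralizer ((P : Subgroup G) : Set G)) {u : G} (hu : u ∈ H)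
    {k : ℕ} (hk : orderOf u = p ^ k) : u ∈ (P : Subgroup G) := by
  have h1 : IsPGroup p (zpowers u) := IsPGroup.of_card (n := k) (by rw [Nat.card_zpowers, hk])
  have h2 : zpowers u ≤ normalizer ((P : Subgroup G) : Set G) := by
    rw [zpowers_le]
    rw [hH] at hu
    exact centralizer_le_normalizer _ hu
  have h3 : IsPGroup p (zpowers u ⊔ (P : Subgroup G) : Subgroup G) :=
    IsPGroup.to_sup_of_normal_right' h1 P.2 h2
  have h4 := P.is_maximal' h3 le_sup_right
  rw [← h4]
  exact le_sup_left (a := zpowers u) (mem_zpowers u)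

theorem exists_decomp [Finite G] (hH : H = centralizer ((P : Subgroup G) : Set G)) (c : H) :
    ∃ (x : ↥(P : Subgroup G)) (y : H), ¬ p ∣ orderOf y ∧ (c : G) = (x : G) * (y : G) := by
  obtain ⟨x, y, hxy, -, ⟨k, hk⟩, hy⟩ := Helper81Orth.exists_ppart (p := p) Fact.out c
  have hx : (x : G) ∈ (P : Subgroup G) :=
    mem_of_orderOf_eq hH x.2 (k := k) (by rw [Subgroup.orderOf_coe, hk])
  exact ⟨⟨x, hx⟩, y, hy, by rw [← hxy]; rfl⟩

theorem subgroupOf_le_center (hH : H = centralizer ((P : Subgroup G) : Set G)) :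
    (P : Subgroup G).subgroupOf H ≤ center H := by
  intro z hz
  rw [mem_center_iff]
  intro h
  have h1 : (h : G) ∈ centralizer ((P : Subgroup G) : Set G) := hH ▸ h.2
  apply Subtype.ext
  exact ((mem_centralizer_iff.1 h1) z hz).symm

theorem sup_centralizer_eq_top (hH : H = centralizer ((P : Subgroup G) : Set G)) :
    (P : Subgroup G).subgroupOf H ⊔ centralizer (((P : Subgroup G).subgroupOf H : Subgroup H) : Set H)
      = ⊤ := by
  have : centralizer (((P : Subgroup G).subgroupOf H : Subgroup H) : Set H) = ⊤ :=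
    centralizer_eq_top_iff_subset.2 (subgroupOf_le_center hH)
  rw [this, sup_top_eq]

end grp

section chars

variable {G : Type*} [Group G] [Fintype G] {p : ℕ} [Fact p.Prime] {M : Ideal AlgInt}
  {P : Sylow p G} {H : Subgroup G} [Fintype H]
  {B : Set (IrrCharacter G)} {b : Set (IrrCharacter H)} {θ : IrrCharacter H}
  {tw : (↥(P : Subgroup G) →* ℂˣ) → IrrCharacter H}

theorem theta_mul (hH : H = centralizer ((P : Subgroup G) : Set G))
    (hθP : ∀ x : H, (x : G) ∈ (P : Subgroup G) → (θ : H → ℂ) x = (θ : H → ℂ) 1)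
    (x y : H) (hx : (x : G) ∈ (P : Subgroup G)) : (θ : H → ℂ) (x * y) = (θ : H → ℂ) y := by
  classical
  have hc : y ∈ centralizer (((P : Subgroup G).subgroupOf H : Subgroup H) : Set H) := by
    rw [centralizer_eq_top_iff_subset.2 (subgroupOf_le_center hH)]
    exact mem_top y
  have := Helper21DC.irr_mul_of_sup (sup_centralizer_eq_top hH) θ (y := x) (x := y)
    (mem_subgroupOf.2 hx) hc
  rw [this, hθP x hx]
  have h1 := Helper81Base.irr_one_ne_zero θ
  field_simp

theorem card_subgroupOf (hP : Nat.card P = p) (hH : H = centralizer ((P : Subgroup G) : Set G)) :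
    Nat.card ((P : Subgroup G).subgroupOf H) = p := by
  rw [Nat.card_congr (subgroupOfEquivOfLe (le_centralizer_of_card hP hH)).toEquiv]
  exact hP

theorem factorization_card_le (hP : Nat.card P = p) : (Nat.card H).factorization p ≤ 1 := by
  have hp : p.Prime := Fact.out
  have h1 : (Nat.card G).factorization p = 1 := by
    have := P.card_eq_multiplicity
    rw [hP] at this
    exact (Nat.pow_right_injective hp.two_le (by simpa using this)).symm
  rw [← h1]
  exact (Nat.factorization_le_iff_dvd Nat.card_pos.ne' Nat.card_pos.ne').2 (card_dvd_of_le le_top |>.trans (by simp)) p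

theorem isDefectGroup_subgroupOf (hM : IsPModular p M) (hP : Nat.card P = p)
    (hH : H = centralizer ((P : Subgroup G) : Set G)) (hb : IsPBlock M b) (hθ : θ ∈ b)
    (hθP : ∀ x : H, (x : G) ∈ (P : Subgroup G) → (θ : H → ℂ) x = (θ : H → ℂ) 1) :
    IsDefectGroup p M b ((P : Subgroup G).subgroupOf H) := by
  have hp : p.Prime := Fact.out
  refine Helper81Central.isDefectGroup_of_central hM hb _ (subgroupOf_le_center hH)
    (P.2.comap_subtype) hθ (fun z hz y => theta_mul hH hθP z y hz) ?_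
  rw [card_subgroupOf hP hH, hp.factorization_self]
  exact (factorization_card_le hP).trans (Nat.le_add_left _ _)

theorem exists_tw (hM : IsPModular p M) (hP : Nat.card P = p)
    (hH : H = centralizer ((P : Subgroup G) : Set G)) (hb : IsPBlock M b) (hθ : θ ∈ b)
    (hθP : ∀ x : H, (x : G) ∈ (P : Subgroup G) → (θ : H → ℂ) x = (θ : H → ℂ) 1) :
    ∃ tw : (↥(P : Subgroup G) →* ℂˣ) → IrrCharacter H,
      (∀ l, IsTwist P (θ : H → ℂ) (tw l : H → ℂ) l) ∧ ∀ l, tw l ∈ b := by
  classical
  have hPH := le_centralizer_of_card hP hH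
  have hD : IsPGroup p ((P : Subgroup G).subgroupOf H) := P.2.comap_subtype
  have hBD := isDefectGroup_subgroupOf hM hP hH hb hθ hθP
  have key : ∀ l : ↥(P : Subgroup G) →* ℂˣ, ∃ χ : IrrCharacter H,
      IsTwist P (θ : H → ℂ) (χ : H → ℂ) l ∧ χ ∈ b := by
    intro l
    let ζ : IrrCharacter ((P : Subgroup G).subgroupOf H) :=
      ⟨Helper19Lin.homFun (l.comp (subgroupOfEquivOfLe hPH).toMonoidHom),
        Helper19Lin.isIrrCharacter_homFun _⟩
    obtain ⟨χ, hχ, ho⟩ := Helper21Cover2.exists_over_of_pgroup hM hb hD ζ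
    refine ⟨χ, ?_, hχ⟩
    intro x y c hy hc
    have h1 := Helper21DC.formula hM hb hD (sup_centralizer_eq_top hH) hBD hθ
      (fun y hy => hθP y hy) hχ ho ⟨⟨x, hPH x.2⟩, mem_subgroupOf.2 x.2⟩ hy
    have h2 : c = (⟨x, hPH x.2⟩ : H) * y := Subtype.ext hc
    rw [h2]
    exact h1
  choose tw h1 h2 using key
  exact ⟨tw, h1, h2⟩

theorem tw_one (h : Data p M P H B b θ tw) : tw 1 = θ := by
  apply Subtype.ext
  funext c
  obtain ⟨x, y, hy, hc⟩ := exists_decomp h.hH c
  have hPH := le_centralizer_of_card h.hP h.hH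
  rw [h.htw 1 x y c hy hc]
  have h2 : c = (⟨x, hPH x.2⟩ : H) * y := Subtype.ext hc
  rw [h2, theta_mul h.hH h.hθP _ y x.2]
  simp

theorem tw_injective (h : Data p M P H B b θ tw) : Function.Injective tw := by
  intro l l' hl
  have hp : p.Prime := Fact.out
  have hPH := le_centralizer_of_card h.hP h.hH
  ext x
  have h11 : ¬ p ∣ orderOf (1 : H) := by
    rw [orderOf_one]
    exact hp.one_lt.ne' ∘ Nat.dvd_one.1
  have h1 := h.htw l x 1 ⟨x, hPH x.2⟩ h11 (by simp)
  have h2 := h.htw l' x 1 ⟨x, hPH x.2⟩ h11 (by simp)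
  rw [hl, h2] at h1
  exact (mul_right_cancel₀ (Helper81Base.irr_one_ne_zero θ) h1).symm

end chars

end Cfsg.Agent.Lib.Helper1DefOneTw
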