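import Mathlib
import Cfsg.Agent.Lib.Helper4DefOneDefs

set_option autoImplicit false

/-! PROJECT 7 part 2, piece `2-null`: rank-nullity (core, with the other pieces as hypotheses). -/

namespace Cfsg.Agent.Lib.Helper7DefOneNull

open Cfsg Subgroup Cfsg.Agent.Lib.Helper59BLGram Cfsg.Agent.Lib.Helper59BLTw
  Cfsg.Agent.Lib.Helper4DefOneDefs
open scoped ComplexConjugate

/-- a quotient all of whose classes have `e` elements. -/
lemma card_quot {Λ : Type*} [Finite Λ] (s : Setoid Λ) (e : ℕ)
    (h : ∀ l, Nat.card {l' // s.r l l'} = e) : Nat.card Λ = Nat.card (Quotient s) * e := by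
  classical
  cases nonempty_fintype Λ
  have e1 : Λ ≃ Σ q : Quotient s, {l // Quotient.mk s l = q} :=
    (Equiv.sigmaFiberEquiv (Quotient.mk s)).symm
  rw [Nat.card_congr e1, Nat.card_sigma]
  have : ∀ q : Quotient s, Nat.card {l // Quotient.mk s l = q} = e := by
    intro q
    induction q using Quotient.inductionOn with
    | h l =>
      rw [← h l]
      apply Nat.card_congr
      exact Equiv.subtypeEquivRight (fun l' => by
        rw [Quotient.eq]
        exact ⟨fun h' => s.symm h', fun h' => s.symm h'⟩)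
  simp only [this, Finset.sum_const, Finset.card_univ, smul_eq_mul, Nat.card_eq_fintype_card]

/-- the linear algebra: vectors in the kernel with Gram matrix `1 + eJ`. -/
theorem rank_null {X W Λ : Type*} [Fintype X] [AddCommGroup W] [Module ℂ W] [Finite Λ]
    (B : Set X) (φ : X → W) (s : Setoid Λ) (e : ℕ) (v : Λ → X → ℂ)
    (hout : ∀ l χ, χ ∉ B → v l χ = 0)
    (hker : ∀ l, ∑ χ, v l χ • φ χ = 0)
    (hgram : ∀ l l', ∑ χ, v l χ * conj (v l' χ) = (e : ℂ) + ind (s.r l l')) :
    Module.finrank ℂ ↥(Submodule.span ℂ (φ '' B)) + Nat.card (Quotient s) ≤ Nat.card B := by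
  classical
  cases nonempty_fintype Λ
  set Φ : (B → ℂ) →ₗ[ℂ] W := Fintype.linearCombination ℂ (fun χ : B => φ χ) with hΦ
  have hrange : LinearMap.range Φ = Submodule.span ℂ (φ '' B) := by
    rw [hΦ, Fintype.range_linearCombination, Set.image_eq_range]
  have hrn := LinearMap.finrank_range_add_finrank_ker Φ
  rw [hrange, Module.finrank_fintype_fun_eq_card, ← Nat.card_eq_fintype_card] at hrn
  have hsum : ∀ (f : X → W), (∀ χ, χ ∉ B → f χ = 0) → ∑ χ : B, f χ = ∑ χ, f χ := by
    intro f hf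
    rw [← Finset.sum_subtype (Finset.univ.filter (· ∈ B)) (by simp) f]
    apply Finset.sum_subset (Finset.filter_subset _ _)
    intro χ _ hχ
    apply hf
    simpa using hχ
  have hsumC : ∀ (f : X → ℂ), (∀ χ, χ ∉ B → f χ = 0) → ∑ χ : B, f χ = ∑ χ, f χ := by
    intro f hf
    rw [← Finset.sum_subtype (Finset.univ.filter (· ∈ B)) (by simp) f]
    apply Finset.sum_subset (Finset.filter_subset _ _)
    intro χ _ hχ
    apply hf
    simpa using hχ
  have hmem : ∀ l, (fun χ : B => v l χ) ∈ LinearMap.ker Φ := by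
    intro l
    rw [LinearMap.mem_ker, hΦ, Fintype.linearCombination_apply,
      hsum (fun χ => v l χ • φ χ) (fun χ hχ => by rw [hout l χ hχ, zero_smul])]
    exact hker l
  set w : Quotient s → LinearMap.ker Φ := fun q => ⟨fun χ : B => v q.out χ, hmem _⟩ with hw
  have hli : LinearIndependent ℂ w := by
    rw [Fintype.linearIndependent_iff]
    intro c hc
    have h1 : ∀ χ : B, ∑ q, c q * v q.out χ = 0 := by
      intro χ
      have := congrFun (congrArg Subtype.val hc) χ
      simpa [hw, Finset.sum_apply] using this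
    have h2 : ∀ q', (e : ℂ) * ∑ q, c q + c q' = 0 := by
      intro q'
      have h3 : ∑ χ : B, (∑ q, c q * v q.out χ) * conj (v q'.out χ) = 0 := by
        apply Finset.sum_eq_zero
        intro χ _
        rw [h1, zero_mul]
      rw [hsumC (fun χ => (∑ q, c q * v q.out χ) * conj (v q'.out χ))
        (fun χ hχ => by rw [hout _ χ hχ, map_zero, mul_zero])] at h3
      simp only [Finset.sum_mul] at h3
      rw [Finset.sum_comm] at h3
      simp only [mul_assoc, ← Finset.mul_sum, hgram] at h3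
      have h4 : ∀ q : Quotient s, ind (s.r q.out q'.out) = if q = q' then 1 else 0 := by
        intro q
        by_cases hq : q = q'
        · subst hq
          rw [if_pos rfl, ind_pos (s.refl _)]
        · rw [if_neg hq, ind_neg]
          intro hr
          apply hq
          rw [← Quotient.out_eq q, ← Quotient.out_eq q']
          exact Quotient.sound hr
      simp only [h4, mul_add, Finset.sum_add_distrib, mul_ite, mul_one, mul_zero,
        Finset.sum_ite_eq', Finset.mem_univ, if_true] at h3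
      rw [← h3, Finset.mul_sum]
      congr 1
      apply Finset.sum_congr rfl
      intro q _
      ring
    have h5 : ((e : ℂ) * (Fintype.card (Quotient s) : ℂ) + 1) * ∑ q, c q = 0 := by
      have := Finset.sum_eq_zero (s := Finset.univ) (fun q' _ => h2 q')
      rw [Finset.sum_add_distrib, Finset.sum_const, Finset.card_univ, nsmul_eq_mul] at this
      linear_combination this
    have h6 : ((e : ℂ) * (Fintype.card (Quotient s) : ℂ) + 1) ≠ 0 := by
      have : ((e * Fintype.card (Quotient s) + 1 : ℕ) : ℂ) ≠ 0 := Nat.cast_ne_zero.2 (by omega)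
      push_cast at this
      exact this
    have h7 : ∑ q, c q = 0 := (mul_eq_zero.1 h5).resolve_left h6
    intro q'
    have := h2 q'
    rwa [h7, mul_zero, zero_add] at this
  have hle := hli.fintype_card_le_finrank
  rw [Nat.card_eq_fintype_card (α := Quotient s)]
  omega

variable {G : Type*} [Group G] [Fintype G] {p : ℕ} [Fact p.Prime] {M : Ideal AlgInt}
  {P : Sylow p G} {H : Subgroup G} [Fintype H]
  [Fintype (normalizer ((P : Subgroup G) : Set G))]
  {B : Set (IrrCharacter G)} {b : Set (IrrCharacter H)} {θ : IrrCharacter H}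
  {tw : (↥(P : Subgroup G) →* ℂˣ) → IrrCharacter H}

/-- `card_ge` with the conclusions of the pieces `gram`, `kap`, `out`, `reg` as hypotheses. -/
theorem card_ge_core (hP : Nat.card P = p) (e : ℕ)
    (gram : ∀ l₁ l₂ l₃ l₄ : ↥(P : Subgroup G) →* ℂˣ,
      ∑ χ : IrrCharacter G, (mH χ (tw l₁) - mH χ (tw l₂)) * conj (mH χ (tw l₃) - mH χ (tw l₄))
      = kapT P (θ : H → ℂ) l₁ l₃ - kapT P (θ : H → ℂ) l₁ l₄ - kapT P (θ : H → ℂ) l₂ l₃
        + kapT P (θ : H → ℂ) l₂ l₄)
    (hequiv : Equivalence (RelT P (θ : H → ℂ)))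
    (hone : ∀ l : ↥(P : Subgroup G) →* ℂˣ, RelT P (θ : H → ℂ) l 1 ↔ l = 1)
    (hk1 : ∀ l l' : ↥(P : Subgroup G) →* ℂˣ, l ≠ 1 →
      kapT P (θ : H → ℂ) l l' = ind (RelT P (θ : H → ℂ) l l'))
    (hk2 : ∀ l' : ↥(P : Subgroup G) →* ℂˣ, kapT P (θ : H → ℂ) 1 l' = (e : ℂ) * ind (l' = 1))
    (horb : ∀ l : ↥(P : Subgroup G) →* ℂˣ, l ≠ 1 →
      Nat.card {l' : ↥(P : Subgroup G) →* ℂˣ // RelT P (θ : H → ℂ) l l'} = e)
    (hout : ∀ χ : IrrCharacter G, χ ∉ B → ∀ l : ↥(P : Subgroup G) →* ℂˣ,
      mH χ (tw l) = mH χ (tw 1))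
    (hreg : ∀ (l l' : ↥(P : Subgroup G) →* ℂˣ) (g : G), ¬ p ∣ orderOf g →
      ∑ χ : IrrCharacter G, (mH χ (tw l) - mH χ (tw l')) * (χ : G → ℂ) g = 0) :
    blockRank p B + (p - 1) / e ≤ Nat.card B := by
  classical
  have hcyc : IsCyclic ↥(P : Subgroup G) := isCyclic_of_prime_card hP
  have hab : IsMulCommutative ↥(P : Subgroup G) := inferInstance
  have hfin : Finite (↥(P : Subgroup G) →* ℂˣ) := Cfsg.Agent.Lib.Helper59BLDual.finite_hom _ hab
  have hcard : Nat.card (↥(P : Subgroup G) →* ℂˣ) = p := by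
    rw [Cfsg.Agent.Lib.Helper59BLDual.card_hom _ hab]
    exact hP
  set Λ := {l : ↥(P : Subgroup G) →* ℂˣ // l ≠ 1} with hΛ
  let s : Setoid Λ := ⟨fun l l' => RelT P (θ : H → ℂ) l.1 l'.1,
    ⟨fun l => hequiv.refl _, fun h' => hequiv.symm h', fun h' h'' => hequiv.trans h' h''⟩⟩
  have hcl : ∀ l : Λ, Nat.card {l' : Λ // s.r l l'} = e := by
    intro l
    rw [← horb l.1 l.2]
    apply Nat.card_congr
    refine ⟨fun x => ⟨x.1.1, x.2⟩, fun x => ⟨⟨x.1, ?_⟩, x.2⟩, fun x => rfl, fun x => rfl⟩
    intro h1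
    have h2 := x.2
    rw [h1, hone] at h2
    exact l.2 h2
  have hΛcard : Nat.card Λ = p - 1 := by
    cases nonempty_fintype (↥(P : Subgroup G) →* ℂˣ)
    rw [← hcard, Nat.card_eq_fintype_card, Nat.card_eq_fintype_card, Fintype.card_subtype_compl,
      Fintype.card_subtype_eq]
  have hq := card_quot s e hcl
  have hdiv : (p - 1) / e ≤ Nat.card (Quotient s) := by
    apply Nat.div_le_of_le_mul
    rw [← hΛcard, hq, mul_comm]
  have key := rank_null B (fun χ : IrrCharacter G => pRegularPart p (χ : G → ℂ)) s e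
    (fun l χ => mH χ (tw l.1) - mH χ (tw 1))
    (fun l χ hχ => by rw [hout χ hχ, sub_self])
    (fun l => by
      funext g
      rw [Finset.sum_apply]
      simp only [Pi.smul_apply, smul_eq_mul, Pi.zero_apply, pRegularPart]
      by_cases hg : IsPRegular p g
      · simp only [if_pos hg]
        exact hreg _ _ g hg
      · simp only [if_neg hg, mul_zero, Finset.sum_const_zero])
    (fun l l' => by
      rw [gram, hk1 _ _ l.2, hk1 _ _ l.2, hk2, hk2, ind_neg l'.2, ind_pos rfl,
        ind_neg (fun h' => l.2 ((hone _).1 h'))]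
      change _ = (e : ℂ) + ind (RelT P (θ : H → ℂ) l.1 l'.1)
      ring)
  unfold blockRank
  omega

end Cfsg.Agent.Lib.Helper7DefOneNull
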