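import Mathlib
import Cfsg.Agent.Lib.Helper4DefOneDefs
import Cfsg.Agent.Lib.Helper21DC
import Cfsg.Agent.Lib.Helper81Central
import Cfsg.Agent.Lib.Helper82Quot
import Cfsg.Agent.Lib.Helper59BLDual

set_option autoImplicit false
set_option linter.unusedSectionVars false

/-! PROJECT 7 PART 2, piece `2-brange`: the block `b` of `H = C_G(P)` consists of the twists of `θ`. -/

namespace Cfsg.Agent.Lib.Helper40DefOneBrange

open Cfsg Subgroup Cfsg.Agent.Lib.Helper59BLGram Cfsg.Agent.Lib.Helper59BLTw
  Cfsg.Agent.Lib.Helper4DefOneDefs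
open scoped ComplexConjugate

variable {G : Type*} [Group G] [Fintype G] {p : ℕ} [Fact p.Prime] {M : Ideal AlgInt}
  {P : Sylow p G} {H : Subgroup G} [Fintype H]
  [Fintype (normalizer ((P : Subgroup G) : Set G))]
  {B : Set (IrrCharacter G)} {b : Set (IrrCharacter H)} {θ : IrrCharacter H}
  {tw : (↥(P : Subgroup G) →* ℂˣ) → IrrCharacter H}

/-- a group of prime order is commutative -/
theorem comm_of_card (hP : Nat.card P = p) : IsMulCommutative (P : Subgroup G) := by
  have hc : IsCyclic (P : Subgroup G) := isCyclic_of_prime_card hP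
  exact ⟨⟨fun a b => (IsCyclic.commGroup (α := (P : Subgroup G))).mul_comm a b⟩⟩

theorem P_le_H (h : Data p M P H B b θ tw) : (P : Subgroup G) ≤ H := by
  rw [h.hH]
  intro x hx
  rw [mem_centralizer_iff]
  intro y hy
  have := (comm_of_card h.hP).is_comm.comm (⟨y, hy⟩ : (P : Subgroup G)) ⟨x, hx⟩
  exact congrArg Subtype.val this

/-- injectivity of the twists (also part of piece `2-tw`) -/
theorem tw_injective' (h : Data p M P H B b θ tw) : Function.Injective tw := by
  intro l l' hll
  ext x
  have hxH : (x : G) ∈ H := P_le_H h x.2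
  have h1 := h.htw l x 1 ⟨x, hxH⟩ (by simp [(Fact.out : p.Prime).one_lt.ne']) (by simp)
  have h2 := h.htw l' x 1 ⟨x, hxH⟩ (by simp [(Fact.out : p.Prime).one_lt.ne']) (by simp)
  rw [hll, h2] at h1
  exact (mul_right_cancel₀ (Cfsg.Agent.Lib.Helper81Base.irr_one_ne_zero θ) h1).symm

theorem b_eq_range (h : Data p M P H B b θ tw) : b = Set.range tw := by
  classical
  have hp : p.Prime := Fact.out
  have hPH := P_le_H h
  set Z : Subgroup H := (P : Subgroup G).subgroupOf H with hZ
  have hZc : Z ≤ Subgroup.center H := by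
    intro z hz
    rw [Subgroup.mem_center_iff]
    intro g
    apply Subtype.ext
    have hg : (g : G) ∈ centralizer ((P : Subgroup G) : Set G) := h.hH ▸ g.2
    rw [mem_centralizer_iff] at hg
    exact (hg z (Subgroup.mem_subgroupOf.1 hz)).symm
  have hZcard : Nat.card Z = p := by
    rw [hZ, Nat.card_congr (Subgroup.subgroupOfEquivOfLe hPH).toEquiv]
    exact h.hP
  have hZp : IsPGroup p Z := IsPGroup.of_card (n := 1) (by rw [hZcard, pow_one])
  have hker : ∀ z ∈ Z, ∀ y, (θ : H → ℂ) (z * y) = (θ : H → ℂ) y := by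
    intro z hz y
    have hzy : z * y = y * z := ((Subgroup.mem_center_iff.1 (hZc hz)) y).symm
    rw [hzy]
    exact Cfsg.Agent.Lib.Helper82Quot.char_mul_of_mem_ker
      (Cfsg.Agent.Lib.Helper4Char.IsIrrCharacter.isCharacter θ.2) y (h.hθP z (Subgroup.mem_subgroupOf.1 hz))
  have hG1 : (Nat.card G).factorization p = 1 := by
    have h1 := P.card_eq_multiplicity
    rw [h.hP] at h1
    exact (Nat.pow_right_injective hp.two_le (by simpa using h1)).symm
  have hH1 : (Nat.card H).factorization p ≤ 1 := by
    rw [← hG1]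
    exact (Nat.factorization_le_iff_dvd Nat.card_pos.ne' Nat.card_pos.ne').2 (Subgroup.card_subgroup_dvd_card H) p
  have hdeg : (Nat.card H).factorization p
      ≤ (charDegree (θ : H → ℂ)).factorization p + (Nat.card Z).factorization p := by
    rw [hZcard, hp.factorization_self]
    omega
  have hdef : IsDefectGroup p M b Z :=
    Cfsg.Agent.Lib.Helper81Central.isDefectGroup_of_central h.hM h.hind.1 Z hZc hZp h.hθ hker hdeg
  have hsup : Z ⊔ Subgroup.centralizer (Z : Set H) = ⊤ := by
    have : Subgroup.centralizer (Z : Set H) = ⊤ := Subgroup.centralizer_eq_top_iff_subset.2 hZc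
    rw [this, sup_top_eq]
  have hcb := Cfsg.Agent.Lib.Helper21DC.card_block h.hM h.hind.1 hZp hsup hdef
  have hcc : Nat.card (ConjClasses Z) = p := by
    let _ : CommGroup Z := { (inferInstance : Group Z) with
      mul_comm := fun x y => by
        apply Subtype.ext
        exact ((Subgroup.mem_center_iff.1 (hZc x.2)) y).symm }
    rw [← Nat.card_congr (ConjClasses.mkEquiv (α := Z))]
    exact hZcard
  rw [hcc] at hcb
  have hcr : Nat.card (Set.range tw) = p := by
    rw [Nat.card_range_of_injective (tw_injective' h), Cfsg.Agent.Lib.Helper59BLDual.card_hom _ (comm_of_card h.hP)]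
    exact h.hP
  have hsub : Set.range tw ⊆ b := by
    rintro _ ⟨l, rfl⟩
    exact h.htwb l
  symm
  apply Set.eq_of_subset_of_ncard_le hsub ?_ (Set.toFinite b)
  rw [← Nat.card_coe_set_eq, ← Nat.card_coe_set_eq, hcb, hcr]

end Cfsg.Agent.Lib.Helper40DefOneBrange
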