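import Mathlib
import Cfsg.Agent.Lib.Helper4DefOneDefs
import Cfsg.Agent.Lib.Helper20HK
import Cfsg.Agent.Lib.Helper80Pairs
import Cfsg.Agent.Lib.Helper81Part
import Cfsg.Agent.S0919
import Cfsg.Agent.S0922
import Cfsg.Agent.Lib.Helper81Section

/-!
# Blocks of defect one (project 7, part 2): block parts of a restricted character,
conjugation of blocks of `H = C_G(P)` under `N_G(P)`.
-/

set_option autoImplicit false
set_option linter.unusedSectionVars false
set_option linter.unusedVariables false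
set_option linter.unusedSimpArgs false

namespace Cfsg.Agent.Lib.Helper80DefOneVal

open Cfsg Subgroup
open Cfsg.Agent.Lib.Helper4Char Cfsg.Agent.Lib.Helper4Char2 Cfsg.Agent.Lib.Helper20Local
open Cfsg.Agent.Lib.Helper20Center Cfsg.Agent.Lib.Helper20Block
open Cfsg.Agent.Lib.Helper20Induced Cfsg.Agent.Lib.Helper20Tower
open Cfsg.Agent.Lib.Helper80Brauer Cfsg.Agent.Lib.Helper82Quot Cfsg.Agent.Lib.Helper80Transport
open Cfsg.Agent.Lib.Helper80Pairs Cfsg.Agent.Lib.Helper20Down
open scoped ComplexConjugate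

variable {G : Type*} [Group G] [Fintype G] {p : ℕ} [Fact p.Prime] {M : Ideal AlgInt}
  {H : Subgroup G} [Fintype H]

/-- a conjugate (under the normalizer of `H`) of a block inducing `B` induces `B`. -/
theorem isInducedBlock_mapBlk {n : G} (hn : ∀ g, g ∈ H ↔ n * g * n⁻¹ ∈ H)
    {b : Set (IrrCharacter H)} {B : Set (IrrCharacter G)} (h : IsInducedBlock M H b B) :
    IsInducedBlock M H (mapBlk (cjEquiv n H H hn) b) B := by
  refine ⟨isPBlock_mapBlk _ h.1, h.2.1, ?_⟩
  rintro _ ⟨ξ, hξ, rfl⟩ χ hχ g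
  have h1 := h.2.2 ξ hξ χ hχ g
  rw [inducedCentralChar_eq] at h1 ⊢
  have e1 : res H (classInd g) = (res H (classInd g)) ∘ (cjEquiv n H H hn).symm := by
    funext l
    simp only [res, Function.comp, cjEquiv_symm_coe]
    have := classInd_isClassFunction g (l : G) n⁻¹
    rw [inv_inv] at this
    exact this.symm
  rw [e1, om_irrCongr]
  exact h1

/-- the `S`-part of the restriction of `χ` to `H`, evaluated at `c`. -/
noncomputable def part (χ : G → ℂ) (S : Set (IrrCharacter H)) (c : G) : ℂ :=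
  ∑ k : H, blockCoeff S k * χ ((k : G) * c)

theorem sum_part (hM : M.IsPrime) (χ : G → ℂ) (c : G) :
    ∑ f : Blk M H, part χ f.1 c = χ c := by
  classical
  unfold part
  rw [Finset.sum_comm]
  have e : ∀ k : H, ∑ f : Blk M H, blockCoeff f.1 k * χ ((k : G) * c)
      = (delta : H → ℂ) k * χ ((k : G) * c) := by
    intro k
    rw [← sum_blockCoeff hM, Finset.sum_apply, Finset.sum_mul]
  rw [Finset.sum_congr rfl (fun k _ => e k), Finset.sum_eq_single (1 : H)]
  · simp [delta]
  · intro k _ hk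
    simp [delta, hk]
  · intro h
    exact absurd (Finset.mem_univ _) h

theorem part_mapBlk {χ : G → ℂ} (hχ : IsClassFunction G χ) {n : G}
    (hn : ∀ g, g ∈ H ↔ n * g * n⁻¹ ∈ H) (b : Set (IrrCharacter H)) (c : G) :
    part χ (mapBlk (cjEquiv n H H hn) b) c = part χ b (n⁻¹ * c * n) := by
  unfold part
  refine (Fintype.sum_equiv (cjEquiv n H H hn).toEquiv _ _ (fun k => ?_)).symm
  show blockCoeff b k * _ = blockCoeff (mapBlk (cjEquiv n H H hn) b) (cjEquiv n H H hn k)
    * χ (((cjEquiv n H H hn k : H) : G) * c)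
  rw [blockCoeff_mapBlk, cjEquiv_coe]
  congr 1
  have := hχ ((k : G) * (n⁻¹ * c * n)) n
  rw [← this]
  congr 1
  group

section P

variable {P : Sylow p G}

theorem centralizer_singleton_le (hP : Nat.card P = p) {x : G} (hx : x ∈ (P : Subgroup G))
    (hx1 : x ≠ 1) : centralizer ({x} : Set G) ≤ centralizer ((P : Subgroup G) : Set G) := by
  intro t ht
  rw [mem_centralizer_singleton_iff] at ht
  rw [mem_centralizer_iff]
  intro u hu
  have htop : zpowers (⟨x, hx⟩ : (P : Subgroup G)) = ⊤ :=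
    zpowers_eq_top_of_prime_card hP (by
      intro h
      exact hx1 (congrArg Subtype.val h))
  have : (⟨u, hu⟩ : (P : Subgroup G)) ∈ zpowers (⟨x, hx⟩ : (P : Subgroup G)) := by
    rw [htop]; trivial
  obtain ⟨k, hk⟩ := this
  have hk' : x ^ k = u := by
    have := congrArg Subtype.val hk
    simpa using this
  rw [← hk']
  have hc : Commute t x := ht
  exact ((hc.zpow_right k).eq).symm

theorem le_centralizer_of_card (hP : Nat.card P = p) :
    (P : Subgroup G) ≤ centralizer ((P : Subgroup G) : Set G) := by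
  intro x hx
  by_cases hx1 : x = 1
  · rw [hx1]; exact one_mem _
  · exact centralizer_singleton_le hP hx hx1 (mem_centralizer_singleton_iff.mpr rfl)

theorem conj_mem_iff (hH : H = centralizer ((P : Subgroup G) : Set G)) {n : G}
    (hn : n ∈ normalizer ((P : Subgroup G) : Set G)) (g : G) : g ∈ H ↔ n * g * n⁻¹ ∈ H := by
  subst hH
  exact mem_normalizer_iff.mp (normalizer_le_normalizer_centralizer _ hn) g

theorem isPPart_mul {x y : G} (hx : x ∈ (P : Subgroup G))
    (hy : y ∈ centralizer ((P : Subgroup G) : Set G)) (hyp : ¬ p ∣ orderOf y) :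
    IsPPart p (x * y) x := by
  refine ⟨y, rfl, ?_, ?_, hyp⟩
  · exact (mem_centralizer_iff.mp hy x hx)
  · obtain ⟨k, hk⟩ := (P.2 : IsPGroup p (P : Subgroup G)) ⟨x, hx⟩
    have hk' : x ^ p ^ k = 1 := by
      have := congrArg Subtype.val hk
      simpa using this
    obtain ⟨j, _, hj⟩ := (Nat.dvd_prime_pow (Fact.out : p.Prime)).mp (orderOf_dvd_of_pow_eq_one hk')
    exact ⟨j, hj⟩

theorem part_eq_zero (hM : IsPModular p M) (hP : Nat.card P = p)
    (hH : H = centralizer ((P : Subgroup G) : Set G)) {B : Set (IrrCharacter G)}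
    (hB : IsPBlock M B) {χ : IrrCharacter G} (hχ : χ ∈ B) {f : Set (IrrCharacter H)}
    (hf : IsPBlock M f) (hnot : ¬ IsInducedBlock M H f B) {x : G} (hx : x ∈ (P : Subgroup G))
    (hx1 : x ≠ 1) {y : G} (hy : y ∈ H) (hyp : ¬ p ∣ orderOf y) :
    part (χ : G → ℂ) f (x * y) = 0 := by
  have hPr := hM.2.1.isPrime
  have hPH : (P : Subgroup G) ≤ H := by rw [hH]; exact le_centralizer_of_card hP
  obtain ⟨B₁, hB₁⟩ := Cfsg.Agent.S0919.result p M hM (P : Subgroup G) H P.2 hPH (by rw [hH])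
    (by rw [hH]; exact Cfsg.Agent.Lib.Helper59BLGram.centralizer_le_normalizer') f hf
  have hχ' : χ ∉ B₁ := by
    intro h1
    apply hnot
    have : B₁ = B := IsPBlock.eq_of_mem hPr hB₁.2.1 hB h1 hχ
    rwa [this] at hB₁
  have key := Cfsg.Agent.S0922.result p M hM H f B₁ hB₁ ⟨x * y, H.mul_mem (hPH hx) hy⟩ (by
    intro z hz
    have hz' : IsPPart p (x * y) x := isPPart_mul hx (by rw [← hH]; exact hy) hyp
    have := Cfsg.Agent.Lib.Helper81Section.isPPart_unique (Fact.out : p.Prime) hz hz'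
    rw [this, hH]
    exact centralizer_singleton_le hP hx hx1) χ hχ'
  rw [finsum_eq_sum_of_fintype] at key
  exact key

/-- the conjugate block `b^n`. -/
noncomputable def cb (hH : H = centralizer ((P : Subgroup G) : Set G)) (b : Set (IrrCharacter H))
    (n : normalizer ((P : Subgroup G) : Set G)) : Set (IrrCharacter H) :=
  mapBlk (cjEquiv (n : G) H H (conj_mem_iff hH n.2)) b

theorem ext_cb (hH : H = centralizer ((P : Subgroup G) : Set G)) (b : Set (IrrCharacter H))
    (n : normalizer ((P : Subgroup G) : Set G)) :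
    ext H (blockCoeff (cb hH b n)) = cjf (n : G) (ext H (blockCoeff b)) :=
  ext_blockCoeff_mapBlk _ _ _ _ _

theorem cb_eq_iff (hH : H = centralizer ((P : Subgroup G) : Set G)) (b : Set (IrrCharacter H))
    (n m : normalizer ((P : Subgroup G) : Set G)) :
    cb hH b n = cb hH b m ↔ cb hH b (m⁻¹ * n) = b := by
  constructor
  · intro h
    apply blockCoeff_injective
    apply ext_injective
    have h1 := congrArg (fun S => ext H (blockCoeff S)) h
    simp only [ext_cb] at h1
    rw [ext_cb]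
    show cjf ((m : G)⁻¹ * (n : G)) _ = _
    rw [cjf_mul, h1, cjf_inv_cjf]
  · intro h
    apply blockCoeff_injective
    apply ext_injective
    have h1 := congrArg (fun S => ext H (blockCoeff S)) h
    simp only [ext_cb] at h1
    rw [ext_cb, ext_cb]
    have h2 : cjf ((m : G)⁻¹ * (n : G)) (ext H (blockCoeff b)) = ext H (blockCoeff b) := h1
    rw [cjf_mul] at h2
    have h3 := congrArg (cjf (m : G)) h2
    rwa [cjf_cjf_inv] at h3

theorem exists_cb_of_induced (hM : IsPModular p M) (hP : Nat.card P = p)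
    (hH : H = centralizer ((P : Subgroup G) : Set G)) {B : Set (IrrCharacter G)}
    (hBP : IsDefectGroup p M B P) {b f : Set (IrrCharacter H)} (hb : IsInducedBlock M H b B)
    (hf : IsInducedBlock M H f B) : ∃ n, f = cb hH b n := by
  have hPr := hM.2.1.isPrime
  have hH' : H = (P : Subgroup G) ⊔ centralizer ((P : Subgroup G) : Set G) := by
    rw [hH, sup_eq_right.mpr (le_centralizer_of_card hP)]
  obtain ⟨θ, hθ⟩ := IsPBlock.nonempty hPr hb.1
  have key : ∃ n ∈ normalizer ((P : Subgroup G) : Set G), ∀ θ ∈ b, ∃ θ' ∈ f, ∀ x : H,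
      ∀ hx : n * (x : G) * n⁻¹ ∈ H, (θ' : H → ℂ) x = (θ : H → ℂ) ⟨n * (x : G) * n⁻¹, hx⟩ := by
    clear hH
    subst hH'
    exact Cfsg.Agent.Lib.Helper20Ext.induced_conj hM hBP hb hf
  obtain ⟨n, hn, h⟩ := key
  obtain ⟨θ', hθ', h'⟩ := h θ hθ
  refine ⟨⟨n, hn⟩⁻¹, ?_⟩
  apply IsPBlock.eq_of_mem hPr hf.1 (isPBlock_mapBlk _ hb.1) hθ'
  have : θ' = irrCongr (cjEquiv (((⟨n, hn⟩ : normalizer ((P : Subgroup G) : Set G))⁻¹ :
      normalizer ((P : Subgroup G) : Set G)) : G) H H (conj_mem_iff hH (Subtype.property _))) θ := by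
    apply Subtype.ext
    funext x
    rw [irrCongr_apply]
    have hx : n * (x : G) * n⁻¹ ∈ H := (conj_mem_iff hH hn x).mp x.2
    rw [h' x hx]
    apply congrArg
    apply Subtype.ext
    rw [cjEquiv_symm_coe]
    simp
  rw [this]
  exact (mem_mapBlk _).mpr hθ

open Cfsg.Agent.Lib.Helper59BLGram Cfsg.Agent.Lib.Helper59BLTw Cfsg.Agent.Lib.Helper4DefOneDefs

variable {B : Set (IrrCharacter G)} {b : Set (IrrCharacter H)} {θ : IrrCharacter H}
  {tw : (↥(P : Subgroup G) →* ℂˣ) → IrrCharacter H}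

theorem not_dvd_orderOf_one {X : Type*} [Group X] : ¬ p ∣ orderOf (1 : X) := by
  rw [orderOf_one]
  exact (Fact.out : p.Prime).one_lt.ne' ∘ Nat.dvd_one.mp

theorem cb_eq_self_iff (h : Data p M P H B b θ tw) (hone : tw 1 = θ) (hrange : b = Set.range tw)
    (n : normalizer ((P : Subgroup G) : Set G)) :
    cb h.hH b n = b ↔ Stab P (θ : H → ℂ) (n : G) := by
  have hPr := h.hM.2.1.isPrime
  have hPH : (P : Subgroup G) ≤ H := by rw [h.hH]; exact le_centralizer_of_card h.hP
  constructor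
  · intro hb
    have h1 : irrCongr (cjEquiv (n : G) H H (conj_mem_iff h.hH n.2)) θ ∈ cb h.hH b n :=
      (mem_mapBlk _).mpr h.hθ
    rw [hb] at h1
    have h1' : irrCongr (cjEquiv (n : G) H H (conj_mem_iff h.hH n.2)) θ ∈ Set.range tw :=
      hrange ▸ h1
    obtain ⟨l, hl⟩ := h1'
    have hl1 : l = 1 := by
      apply MonoidHom.ext
      intro x
      apply Units.ext
      have e1 := h.htw l x 1 ⟨(x : G), hPH x.2⟩ not_dvd_orderOf_one (by simp)
      have e2 := congrFun (congrArg Subtype.val hl) ⟨(x : G), hPH x.2⟩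
      rw [irrCongr_apply] at e2
      have e3 := h.hθP ((cjEquiv (n : G) H H (conj_mem_iff h.hH n.2)).symm ⟨(x : G), hPH x.2⟩) (by
        rw [cjEquiv_symm_coe]
        have := (mem_normalizer_iff.mp (inv_mem n.2) (x : G)).mp x.2
        simpa using this)
      rw [e3] at e2
      rw [e2] at e1
      have h0 := Cfsg.Agent.Lib.Helper82Schur.irr_one_ne_zero θ
      have : (((l x : ℂˣ) : ℂ) - 1) * (θ : H → ℂ) 1 = 0 := by rw [sub_mul, ← e1]; ring
      rcases mul_eq_zero.mp this with h2 | h2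
      · simpa using sub_eq_zero.mp h2
      · exact absurd h2 h0
    rw [hl1, hone] at hl
    refine ⟨n.2, fun c c' hc => ?_⟩
    have e2 := congrFun (congrArg Subtype.val hl) c'
    rw [irrCongr_apply] at e2
    rw [e2]
    apply congrArg
    apply Subtype.ext
    rw [cjEquiv_symm_coe, hc]
    group
  · intro hs
    have h1 : irrCongr (cjEquiv (n : G) H H (conj_mem_iff h.hH n.2)) θ ∈ cb h.hH b n :=
      (mem_mapBlk _).mpr h.hθ
    have h2 : irrCongr (cjEquiv (n : G) H H (conj_mem_iff h.hH n.2)) θ = θ := by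
      apply Subtype.ext
      funext c'
      rw [irrCongr_apply]
      refine (hs.2 _ c' ?_).symm
      rw [cjEquiv_symm_coe]
      group
    rw [h2] at h1
    exact IsPBlock.eq_of_mem hPr (isPBlock_mapBlk _ h.hind.1) h.hind.1 h1 h.hθ

theorem card_cb_eq (h : Data p M P H B b θ tw) (hone : tw 1 = θ) (hrange : b = Set.range tw)
    (T : Subgroup G) (hT : ∀ g, g ∈ T ↔ Stab P (θ : H → ℂ) g)
    (m : normalizer ((P : Subgroup G) : Set G)) :
    Nat.card {n : normalizer ((P : Subgroup G) : Set G) // cb h.hH b n = cb h.hH b m}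
      = Nat.card T := by
  apply Nat.card_congr
  refine ⟨fun n => ⟨((m⁻¹ * n.1 : normalizer ((P : Subgroup G) : Set G)) : G), ?_⟩,
    fun t => ⟨m * ⟨t.1, ((hT t.1).mp t.2).1⟩, ?_⟩, ?_, ?_⟩
  · rw [hT, ← cb_eq_self_iff h hone hrange, ← cb_eq_iff]
    exact n.2
  · rw [cb_eq_iff, inv_mul_cancel_left, cb_eq_self_iff h hone hrange]
    exact (hT t.1).mp t.2
  · intro n
    apply Subtype.ext
    apply Subtype.ext
    simp
  · intro t
    apply Subtype.ext
    simp

theorem part_eq_sum_tw (hinj : Function.Injective tw) (hrange : b = Set.range tw)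
    [Fintype (↥(P : Subgroup G) →* ℂˣ)] (χ : IrrCharacter G) (c : H) :
    part (χ : G → ℂ) b (c : G) = ∑ l : ↥(P : Subgroup G) →* ℂˣ, mH χ (tw l) * (tw l : H → ℂ) c := by
  classical
  have hcl : IsClassFunction H (fun k : H => (χ : G → ℂ) (k : G)) := by
    intro g k
    exact IsIrrCharacter.isClassFunction χ.2 (g : G) (k : G)
  have e1 := Cfsg.Agent.Lib.Helper81Part.blockPart_eq_sum b hcl c
  have e2 := Cfsg.Agent.Lib.Helper81Part.blockPart_def b (fun k : H => (χ : G → ℂ) (k : G)) c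
  have e3 : part (χ : G → ℂ) b (c : G) = blockPart b (fun k : H => (χ : G → ℂ) (k : G)) c := by
    rw [e1]; rfl
  rw [e3, e2, ← Finset.sum_filter]
  have e4 : (Finset.univ.filter (fun ψ : IrrCharacter H => ψ ∈ b)) = Finset.univ.image tw := by
    ext ψ
    simp [hrange]
  rw [e4, Finset.sum_image (fun l _ l' _ hl => hinj hl)]
  rfl

theorem card_mul_part (h : Data p M P H B b θ tw) (hone : tw 1 = θ) (hrange : b = Set.range tw)
    [Fintype (normalizer ((P : Subgroup G) : Set G))]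
    (T : Subgroup G) (hT : ∀ g, g ∈ T ↔ Stab P (θ : H → ℂ) g)
    (χ : IrrCharacter G) (hχ : χ ∈ B) {x : G} (hx : x ∈ (P : Subgroup G)) (hx1 : x ≠ 1) {y : G}
    (hy : y ∈ H) (hyp : ¬ p ∣ orderOf y) (f : Blk M H) [DecidableEq (Set (IrrCharacter H))] :
    (Nat.card T : ℂ) * part (χ : G → ℂ) f.1 (x * y)
      = ∑ n : normalizer ((P : Subgroup G) : Set G),
        if cb h.hH b n = f.1 then part (χ : G → ℂ) f.1 (x * y) else 0 := by
  by_cases hf : IsInducedBlock M H f.1 B
  · obtain ⟨m, hm⟩ := exists_cb_of_induced h.hM h.hP h.hH h.hBP h.hind hf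
    rw [← Finset.sum_filter, Finset.sum_const, nsmul_eq_mul]
    congr 2
    rw [← card_cb_eq h hone hrange T hT m, hm, Nat.card_eq_fintype_card, Fintype.card_subtype]
  · rw [part_eq_zero h.hM h.hP h.hH h.hind.2.1 hχ f.2 hf hx hx1 hy hyp]
    simp

theorem card_mul_value (h : Data p M P H B b θ tw) (hone : tw 1 = θ) (hrange : b = Set.range tw)
    [Fintype (normalizer ((P : Subgroup G) : Set G))]
    (T : Subgroup G) (hT : ∀ g, g ∈ T ↔ Stab P (θ : H → ℂ) g)
    (χ : IrrCharacter G) (hχ : χ ∈ B) {x : G} (hx : x ∈ (P : Subgroup G)) (hx1 : x ≠ 1) {y : G}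
    (hy : y ∈ H) (hyp : ¬ p ∣ orderOf y) :
    (Nat.card T : ℂ) * (χ : G → ℂ) (x * y)
      = ∑ n : normalizer ((P : Subgroup G) : Set G),
        part (χ : G → ℂ) b ((n : G) * (x * y) * (n : G)⁻¹) := by
  classical
  have hPr := h.hM.2.1.isPrime
  rw [← sum_part (H := H) hPr (χ : G → ℂ) (x * y), Finset.mul_sum,
    Finset.sum_congr rfl (fun f _ => card_mul_part h hone hrange T hT χ hχ hx hx1 hy hyp f),
    Finset.sum_comm]
  refine Fintype.sum_equiv (Equiv.inv _) _ _ (fun n => ?_)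
  rw [Finset.sum_eq_single (⟨cb h.hH b n, isPBlock_mapBlk _ h.hind.1⟩ : Blk M H)]
  · rw [if_pos rfl]
    show part (χ : G → ℂ) (mapBlk _ b) (x * y) = _
    rw [part_mapBlk (IsIrrCharacter.isClassFunction χ.2)]
    simp
  · intro f _ hf
    rw [if_neg]
    intro hc
    exact hf (Subtype.ext hc.symm)
  · intro hc
    exact absurd (Finset.mem_univ _) hc

theorem value_formula_aux (h : Data p M P H B b θ tw) (hone : tw 1 = θ)
    (hinj : Function.Injective tw) (hrange : b = Set.range tw)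
    [Fintype (normalizer ((P : Subgroup G) : Set G))] [Fintype (↥(P : Subgroup G) →* ℂˣ)]
    (T : Subgroup G) (hT : ∀ g, g ∈ T ↔ Stab P (θ : H → ℂ) g)
    (χ : IrrCharacter G) (hχ : χ ∈ B) (x : ↥(P : Subgroup G)) (hx : x ≠ 1) (y : H)
    (hy : ¬ p ∣ orderOf y) :
    (Nat.card T : ℂ) * (χ : G → ℂ) ((x : G) * (y : G))
      = ∑ n : normalizer ((P : Subgroup G) : Set G), ∑ l : ↥(P : Subgroup G) →* ℂˣ,
        mH χ (tw l) * ((l (actHom P n x) : ℂˣ) : ℂ)
          * extendByZero H (θ : H → ℂ) ((n : G) * (y : G) * (n : G)⁻¹) := by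
  have hPH : (P : Subgroup G) ≤ H := by rw [h.hH]; exact le_centralizer_of_card h.hP
  rw [card_mul_value h hone hrange T hT χ hχ x.2 (fun hc => hx (Subtype.ext hc)) y.2
    (by rwa [Subgroup.orderOf_coe])]
  apply Finset.sum_congr rfl
  intro n _
  have hyn : (n : G) * (y : G) * (n : G)⁻¹ ∈ H := (conj_mem_iff h.hH n.2 _).mp y.2
  have hcn : (n : G) * ((x : G) * (y : G)) * (n : G)⁻¹ ∈ H :=
    (conj_mem_iff h.hH n.2 _).mp (H.mul_mem (hPH x.2) y.2)
  have e1 := part_eq_sum_tw hinj hrange χ ⟨_, hcn⟩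
  rw [e1]
  apply Finset.sum_congr rfl
  intro l _
  rw [Cfsg.Agent.Lib.Helper19Ind.extendByZero_of_mem H _ hyn,
    mul_assoc (mH χ (tw l)) ((l (actHom P n x) : ℂˣ) : ℂ)]
  congr 1
  apply h.htw l (actHom P n x) ⟨_, hyn⟩ ⟨_, hcn⟩
  · have : orderOf (⟨_, hyn⟩ : H) = orderOf y := by
      rw [← Subgroup.orderOf_coe, ← Subgroup.orderOf_coe]
      show orderOf ((n : G) * (y : G) * (n : G)⁻¹) = _
      exact (orderOf_injective (MulAut.conj (n : G)).toMonoidHom (MulAut.conj (n : G)).injective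
        (y : G))
    rwa [this]
  · rw [actHom_apply]
    show (n : G) * ((x : G) * (y : G)) * (n : G)⁻¹ = _
    group

end P

end Cfsg.Agent.Lib.Helper80DefOneVal
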