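import Mathlib
import Cfsg.Agent.Lib.Helper80DefOneVal
import Cfsg.Agent.Lib.Helper81Defect
import Cfsg.Agent.Lib.Helper20DefCard

/-!
# Blocks of defect one (project 7, part 2): pieces `out` and `inn`.
-/

set_option autoImplicit false
set_option linter.unusedSectionVars false
set_option linter.unusedVariables false
set_option linter.unusedSimpArgs false

namespace Cfsg.Agent.Lib.Helper80DefOneInn

open Cfsg Subgroup
open Cfsg.Agent.Lib.Helper4Char Cfsg.Agent.Lib.Helper4Char2 Cfsg.Agent.Lib.Helper20Local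
open Cfsg.Agent.Lib.Helper20Center Cfsg.Agent.Lib.Helper20Block
open Cfsg.Agent.Lib.Helper80Brauer Cfsg.Agent.Lib.Helper82Quot Cfsg.Agent.Lib.Helper80Transport
open Cfsg.Agent.Lib.Helper80Pairs Cfsg.Agent.Lib.Helper80DefOneVal
open Cfsg.Agent.Lib.Helper59BLGram Cfsg.Agent.Lib.Helper59BLTw Cfsg.Agent.Lib.Helper4DefOneDefs
open scoped ComplexConjugate

variable {G : Type*} [Group G] [Fintype G] {p : ℕ} [Fact p.Prime] {M : Ideal AlgInt}
  {H : Subgroup G} [Fintype H] {P : Sylow p G}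
  {B : Set (IrrCharacter G)} {b : Set (IrrCharacter H)} {θ : IrrCharacter H}
  {tw : (↥(P : Subgroup G) →* ℂˣ) → IrrCharacter H}

theorem part_eq_sum (χ : IrrCharacter G) (S : Set (IrrCharacter H)) [DecidablePred (· ∈ S)]
    (c : H) :
    part (χ : G → ℂ) S (c : G)
      = ∑ ψ : IrrCharacter H, if ψ ∈ S then mH χ ψ * (ψ : H → ℂ) c else 0 := by
  have hcl : IsClassFunction H (fun k : H => (χ : G → ℂ) (k : G)) := by
    intro g k
    exact IsIrrCharacter.isClassFunction χ.2 (g : G) (k : G)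
  have e1 := Cfsg.Agent.Lib.Helper81Part.blockPart_eq_sum S hcl c
  have e2 := Cfsg.Agent.Lib.Helper81Part.blockPart_def S (fun k : H => (χ : G → ℂ) (k : G)) c
  have e3 : part (χ : G → ℂ) S (c : G) = blockPart S (fun k : H => (χ : G → ℂ) (k : G)) c := by
    rw [e1]; rfl
  rw [e3, e2]
  rfl

theorem sum_part_conj (χ : IrrCharacter G) (S : Set (IrrCharacter H)) {ψ₀ : IrrCharacter H}
    (h0 : ψ₀ ∈ S) :
    ∑ c : H, part (χ : G → ℂ) S (c : G) * conj ((ψ₀ : H → ℂ) c) = (Nat.card H : ℂ) * mH χ ψ₀ := by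
  classical
  simp only [part_eq_sum, Finset.sum_mul]
  rw [Finset.sum_comm, Finset.sum_eq_single ψ₀]
  · simp only [if_pos h0, mul_assoc]
    rw [← Finset.mul_sum, Cfsg.Agent.Lib.Helper81Base.irr_orth, if_pos rfl, mul_comm]
  · intro ψ _ hψ
    by_cases hS : ψ ∈ S
    · simp only [if_pos hS, mul_assoc]
      rw [← Finset.mul_sum, Cfsg.Agent.Lib.Helper81Base.irr_orth, if_neg hψ, mul_zero]
    · simp [if_neg hS]
  · intro hc
    exact absurd (Finset.mem_univ _) hc

/-- every `p`-element of `C_G(P)` lies in `P`. -/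
theorem mem_of_pElement {z : G} (hz : z ∈ centralizer ((P : Subgroup G) : Set G)) {k : ℕ}
    (hk : orderOf z = p ^ k) : z ∈ (P : Subgroup G) := by
  have h1 : IsPGroup p (zpowers z) := IsPGroup.of_card (n := k) (by rw [Nat.card_zpowers, hk])
  have h2 : zpowers z ≤ normalizer ((P : Subgroup G) : Set G) :=
    zpowers_le.mpr (centralizer_le_normalizer' hz)
  have h3 : IsPGroup p (zpowers z ⊔ (P : Subgroup G) : Subgroup G) :=
    IsPGroup.to_sup_of_normal_right' h1 P.2 h2
  have h4 := P.is_maximal' h3 le_sup_right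
  rw [← h4]
  exact (le_sup_left : zpowers z ≤ zpowers z ⊔ (P : Subgroup G)) (mem_zpowers z)

theorem exists_decomp (hH : H = centralizer ((P : Subgroup G) : Set G)) (c : H) :
    ∃ (x : ↥(P : Subgroup G)) (y : H), ¬ p ∣ orderOf y ∧ (c : G) = (x : G) * (y : G) := by
  obtain ⟨z, y, hzy, -, ⟨k, hk⟩, hy⟩ :=
    Cfsg.Agent.Lib.Helper81Orth.exists_ppart (G := H) (Fact.out : p.Prime) c
  refine ⟨⟨(z : G), mem_of_pElement (k := k) (by rw [← hH]; exact z.2)
    (by rw [Subgroup.orderOf_coe, hk])⟩, y, hy, ?_⟩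
  rw [← hzy]
  rfl

/-- piece `out`. -/
theorem mH_const_of_not_mem (h : Data p M P H B b θ tw) (χ : IrrCharacter G) (hχ : χ ∉ B)
    (l : ↥(P : Subgroup G) →* ℂˣ) : mH χ (tw l) = mH χ (tw 1) := by
  have hPr := h.hM.2.1.isPrime
  have hPH : (P : Subgroup G) ≤ H := by rw [h.hH]; exact le_centralizer_of_card h.hP
  have e1 := sum_part_conj χ b (h.htwb l)
  have e2 := sum_part_conj χ b (h.htwb 1)
  have e3 : ∑ c : H, part (χ : G → ℂ) b (c : G) * conj ((tw l : H → ℂ) c)
      = ∑ c : H, part (χ : G → ℂ) b (c : G) * conj ((tw 1 : H → ℂ) c) := by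
    apply Finset.sum_congr rfl
    intro c _
    obtain ⟨x, y, hy, hc⟩ := exists_decomp h.hH c
    by_cases hx : x = 1
    · rw [h.htw l x y c hy hc, h.htw 1 x y c hy hc, hx]
      simp
    · have : part (χ : G → ℂ) b (c : G) = 0 := by
        rw [hc]
        have key := Cfsg.Agent.S0922.result p M h.hM H b B h.hind
          ⟨(x : G) * (y : G), H.mul_mem (hPH x.2) y.2⟩ (by
          intro z hz
          have hz' : IsPPart p ((x : G) * (y : G)) (x : G) :=
            isPPart_mul x.2 (by rw [← h.hH]; exact y.2) (by rwa [Subgroup.orderOf_coe])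
          have := Cfsg.Agent.Lib.Helper81Section.isPPart_unique (Fact.out : p.Prime) hz hz'
          rw [this, h.hH]
          exact centralizer_singleton_le h.hP x.2 (fun hc => hx (Subtype.ext hc))) χ hχ
        rw [finsum_eq_sum_of_fintype] at key
        exact key
      rw [this, zero_mul, zero_mul]
  rw [e1, e2] at e3
  have hne : (Nat.card H : ℂ) ≠ 0 := by
    exact_mod_cast Nat.card_pos.ne'
  exact mul_left_cancel₀ hne e3

theorem isMulCommutative_of_card (hP : Nat.card P = p) : IsMulCommutative ↥(P : Subgroup G) :=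
  ⟨⟨fun a c => Subtype.ext ((mem_centralizer_iff.mp (le_centralizer_of_card hP c.2) a a.2))⟩⟩

/-- a `p`-singular element is conjugate to `x * y`, `1 ≠ x ∈ P`, `y ∈ C_G(P)` `p`-regular. -/
theorem exists_conj_decomp (hP : Nat.card P = p) (g : G) (hg : p ∣ orderOf g) :
    ∃ (t x y : G), x ∈ (P : Subgroup G) ∧ x ≠ 1 ∧ y ∈ centralizer ((P : Subgroup G) : Set G) ∧
      ¬ p ∣ orderOf y ∧ t * g * t⁻¹ = x * y := by
  obtain ⟨z, y, hzy, hcomm, ⟨k, hk⟩, hy⟩ :=
    Cfsg.Agent.Lib.Helper81Orth.exists_ppart (Fact.out : p.Prime) g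
  have hz1 : z ≠ 1 := by
    intro h1
    rw [h1, one_mul] at hzy
    rw [hzy] at hy
    exact hy hg
  have h1 : IsPGroup p (zpowers z) := IsPGroup.of_card (n := k) (by rw [Nat.card_zpowers, hk])
  obtain ⟨Q, hQ⟩ := h1.exists_le_sylow
  obtain ⟨t, ht⟩ := MulAction.exists_smul_eq G Q P
  have hzP : t * z * t⁻¹ ∈ (P : Subgroup G) := by
    rw [← ht, Sylow.coe_subgroup_smul]
    exact Subgroup.smul_mem_pointwise_smul z (MulAut.conj t) (Q : Subgroup G)
      (hQ (mem_zpowers z))
  have hz1' : t * z * t⁻¹ ≠ 1 := by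
    intro hc
    apply hz1
    have : z = t⁻¹ * (t * z * t⁻¹) * t := by group
    rw [this, hc]; group
  refine ⟨t, t * z * t⁻¹, t * y * t⁻¹, hzP, hz1', ?_, ?_, ?_⟩
  · apply centralizer_singleton_le hP hzP hz1'
    rw [mem_centralizer_singleton_iff]
    have : z * y = y * z := hcomm.eq
    calc t * y * t⁻¹ * (t * z * t⁻¹) = t * (y * z) * t⁻¹ := by group
      _ = t * (z * y) * t⁻¹ := by rw [this]
      _ = t * z * t⁻¹ * (t * y * t⁻¹) := by group
  · have : orderOf (t * y * t⁻¹) = orderOf y :=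
      orderOf_injective (MulAut.conj t).toMonoidHom (MulAut.conj t).injective y
    rwa [this]
  · rw [← hzy]; group

/-- piece `inn`, modulo the pieces `tw` and `brange`. -/
theorem exists_mH_ne_of_mem_aux (h : Data p M P H B b θ tw) (hone : tw 1 = θ)
    (hinj : Function.Injective tw) (hrange : b = Set.range tw)
    (χ : IrrCharacter G) (hχ : χ ∈ B) :
    ∃ l : ↥(P : Subgroup G) →* ℂˣ, mH χ (tw l) ≠ mH χ (tw 1) := by
  classical
  by_contra hcon
  push Not at hcon
  have hPr := h.hM.2.1.isPrime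
  have hab := isMulCommutative_of_card h.hP
  have : Finite (↥(P : Subgroup G) →* ℂˣ) := Cfsg.Agent.Lib.Helper59BLDual.finite_hom _ hab
  have : Fintype (↥(P : Subgroup G) →* ℂˣ) := Fintype.ofFinite _
  have : Fintype (normalizer ((P : Subgroup G) : Set G)) := Fintype.ofFinite _
  -- the stabilizer
  let T : Subgroup G :=
    { carrier := {g | Stab P (θ : H → ℂ) g}
      mul_mem' := by
        intro a c ha hc
        refine ⟨mul_mem ha.1 hc.1, fun u u' hu => ?_⟩
        have hmem : c * (u : G) * c⁻¹ ∈ H := (conj_mem_iff h.hH hc.1 _).mp u.2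
        rw [ha.2 ⟨_, hmem⟩ u' (by rw [hu]; show _ = a * (c * (u : G) * c⁻¹) * a⁻¹; group),
          hc.2 u ⟨_, hmem⟩ rfl]
      one_mem' := by
        refine ⟨one_mem _, fun u u' hu => ?_⟩
        have : u' = u := Subtype.ext (by rw [hu]; group)
        rw [this]
      inv_mem' := by
        intro a ha
        refine ⟨inv_mem ha.1, fun u u' hu => ?_⟩
        exact (ha.2 u' u (by rw [hu]; group)).symm }
  have hT : ∀ g, g ∈ T ↔ Stab P (θ : H → ℂ) g := fun g => Iff.rfl
  have hv0 : ∀ (x : ↥(P : Subgroup G)), x ≠ 1 → ∀ y : H, ¬ p ∣ orderOf y →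
      (χ : G → ℂ) ((x : G) * (y : G)) = 0 := by
    intro x hx y hy
    have e := value_formula_aux h hone hinj hrange T hT χ hχ x hx y hy
    have e0 : ∑ n : normalizer ((P : Subgroup G) : Set G), ∑ l : ↥(P : Subgroup G) →* ℂˣ,
        mH χ (tw l) * ((l (actHom P n x) : ℂˣ) : ℂ)
          * extendByZero H (θ : H → ℂ) ((n : G) * (y : G) * (n : G)⁻¹) = 0 := by
      apply Finset.sum_eq_zero
      intro n _
      have hne : actHom P n x ≠ 1 := by
        intro hc
        apply hx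
        have := congrArg (actHom P n).symm hc
        simpa using this
      have e1 := Cfsg.Agent.Lib.Helper59BLDual.sum_dual_eq_zero hab hne
      have e2 : ∀ l : ↥(P : Subgroup G) →* ℂˣ, mH χ (tw l) * ((l (actHom P n x) : ℂˣ) : ℂ)
          * extendByZero H (θ : H → ℂ) ((n : G) * (y : G) * (n : G)⁻¹)
          = (mH χ (tw 1) * extendByZero H (θ : H → ℂ) ((n : G) * (y : G) * (n : G)⁻¹))
            * ((l (actHom P n x) : ℂˣ) : ℂ) := by
        intro l
        rw [hcon l]; ring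
      rw [Finset.sum_congr rfl (fun l _ => e2 l), ← Finset.mul_sum, e1, mul_zero]
    rw [e0] at e
    have hne : (Nat.card T : ℂ) ≠ 0 := by exact_mod_cast Nat.card_pos.ne'
    exact (mul_eq_zero.mp e).resolve_left hne
  have hv : ∀ g : G, p ∣ orderOf g → (χ : G → ℂ) g = 0 := by
    intro g hg
    obtain ⟨t, x, y, hx, hx1, hy, hyp, hgt⟩ := exists_conj_decomp h.hP g hg
    have := IsIrrCharacter.isClassFunction χ.2 g t
    rw [← this, hgt]
    exact hv0 ⟨x, hx⟩ (fun hc => hx1 (congrArg Subtype.val hc)) ⟨y, by rw [h.hH]; exact hy⟩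
      (by rwa [← Subgroup.orderOf_coe])
  have h1 := Cfsg.Agent.Lib.Helper81Orth2.not_dvd_card_div_of_vanish (Fact.out : p.Prime) χ hv
  have h2 := (Cfsg.Agent.Lib.Helper81Orth2.defect_zero_iff h.hM χ).mp h1
  have h3 : B = {χ} := by
    rw [← h2]
    exact IsPBlock.eq_blockOf hPr h.hind.2.1 hχ
  have h4 := (Cfsg.Agent.Lib.Helper81Defect.blockDefect_eq_zero_iff h.hM h.hind.2.1).mpr ⟨χ, h3⟩
  have h5 := Cfsg.Agent.Lib.Helper20DefCard.card_defectGroup h.hM h.hind.2.1 h.hBP
  rw [h4, pow_zero] at h5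
  have h6 : Nat.card ↥(P : Subgroup G) = p := h.hP
  rw [h5] at h6
  exact (Fact.out : p.Prime).one_lt.ne h6

end Cfsg.Agent.Lib.Helper80DefOneInn
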