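import Mathlib
import Cfsg.Agent.Lib.Helper80DefOneInn
import Cfsg.Agent.Lib.Helper1DefOneTw
import Cfsg.Agent.Lib.Helper40DefOneBrange

/-!
# Blocks of defect one (project 7, part 2): pieces `val`, `inn` (and `out`), final statements.
-/

set_option autoImplicit false

namespace Cfsg.Agent.Lib.Helper80DefOneFin

open Cfsg Subgroup Cfsg.Agent.Lib.Helper59BLGram Cfsg.Agent.Lib.Helper59BLTw
  Cfsg.Agent.Lib.Helper4DefOneDefs
open scoped ComplexConjugate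

variable {G : Type*} [Group G] [Fintype G] {p : ℕ} [Fact p.Prime] {M : Ideal AlgInt}
  {P : Sylow p G} {H : Subgroup G} [Fintype H]
  [Fintype (normalizer ((P : Subgroup G) : Set G))]
  {B : Set (IrrCharacter G)} {b : Set (IrrCharacter H)} {θ : IrrCharacter H}
  {tw : (↥(P : Subgroup G) →* ℂˣ) → IrrCharacter H}

/-- piece `out`. -/
theorem mH_const_of_not_mem (h : Data p M P H B b θ tw) (χ : IrrCharacter G) (hχ : χ ∉ B)
    (l : ↥(P : Subgroup G) →* ℂˣ) : mH χ (tw l) = mH χ (tw 1) :=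
  Cfsg.Agent.Lib.Helper80DefOneInn.mH_const_of_not_mem h χ hχ l

/-- piece `inn`. -/
theorem exists_mH_ne_of_mem (h : Data p M P H B b θ tw) (χ : IrrCharacter G) (hχ : χ ∈ B) :
    ∃ l : ↥(P : Subgroup G) →* ℂˣ, mH χ (tw l) ≠ mH χ (tw 1) :=
  Cfsg.Agent.Lib.Helper80DefOneInn.exists_mH_ne_of_mem_aux h
    (Cfsg.Agent.Lib.Helper1DefOneTw.tw_one h) (Cfsg.Agent.Lib.Helper1DefOneTw.tw_injective h)
    (Cfsg.Agent.Lib.Helper40DefOneBrange.b_eq_range h) χ hχ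

/-- piece `val`. -/
theorem value_formula (h : Data p M P H B b θ tw) [Fintype (↥(P : Subgroup G) →* ℂˣ)]
    (T : Subgroup G) (hT : ∀ g, g ∈ T ↔ Stab P (θ : H → ℂ) g)
    (χ : IrrCharacter G) (hχ : χ ∈ B) (x : ↥(P : Subgroup G)) (hx : x ≠ 1) (y : H)
    (hy : ¬ p ∣ orderOf y) :
    (Nat.card T : ℂ) * (χ : G → ℂ) ((x : G) * (y : G))
      = ∑ n : normalizer ((P : Subgroup G) : Set G), ∑ l : ↥(P : Subgroup G) →* ℂˣ,
        mH χ (tw l) * ((l (actHom P n x) : ℂˣ) : ℂ)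
          * extendByZero H (θ : H → ℂ) ((n : G) * (y : G) * (n : G)⁻¹) :=
  Cfsg.Agent.Lib.Helper80DefOneVal.value_formula_aux h
    (Cfsg.Agent.Lib.Helper1DefOneTw.tw_one h) (Cfsg.Agent.Lib.Helper1DefOneTw.tw_injective h)
    (Cfsg.Agent.Lib.Helper40DefOneBrange.b_eq_range h) T hT χ hχ x hx y hy

end Cfsg.Agent.Lib.Helper80DefOneFin
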