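import Mathlib
import Cfsg.Agent.Lib.Helper4DefOneDefs
import Cfsg.Agent.Lib.Helper19Cliff
import Cfsg.Agent.Lib.Helper80Principal
import Cfsg.Agent.Lib.Helper81BB
import Cfsg.Agent.Lib.Helper82Cod

set_option autoImplicit false

namespace Cfsg.Agent.Lib.Helper86DefOneAct

open Cfsg Subgroup
open Cfsg.Agent.Lib.Helper19Cliff Cfsg.Agent.Lib.Helper4Char Cfsg.Agent.Lib.Helper4Char4
open scoped ComplexConjugate

variable {G : Type*} [Group G]

/-- the conjugation action of `N` on a subgroup `H` which it normalizes. -/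
def cAct (N H : Subgroup G) (hn : ∀ n ∈ N, ∀ h ∈ H, n * h * n⁻¹ ∈ H) : N →* MulAut H where
  toFun n :=
    { toFun := fun x => ⟨(n : G) * x * (n : G)⁻¹, hn n n.2 x x.2⟩
      invFun := fun x => ⟨(n : G)⁻¹ * x * (n : G), by
        simpa using hn (n : G)⁻¹ (inv_mem n.2) x x.2⟩
      left_inv := fun x => by apply Subtype.ext; simp [mul_assoc]
      right_inv := fun x => by apply Subtype.ext; simp [mul_assoc]
      map_mul' := fun x y => by apply Subtype.ext; simp [mul_assoc] }
  map_one' := by ext x; simp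
  map_mul' a b := by ext x; simp [mul_assoc]

theorem cAct_apply (N H : Subgroup G) (hn : ∀ n ∈ N, ∀ h ∈ H, n * h * n⁻¹ ∈ H) (n : N) (x : H) :
    ((cAct N H hn n x : H) : G) = (n : G) * x * (n : G)⁻¹ := rfl

theorem cAct_incl (N H : Subgroup G) (hn : ∀ n ∈ N, ∀ h ∈ H, n * h * n⁻¹ ∈ H) (hHN : H ≤ N)
    (n : N) (x : H) :
    Subgroup.inclusion hHN (cAct N H hn n x) = n * Subgroup.inclusion hHN x * n⁻¹ := by
  apply Subtype.ext
  rfl

theorem extendByZero_mem (H : Subgroup G) (θ : H → ℂ) {g : G} (hg : g ∈ H) :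
    extendByZero H θ g = θ ⟨g, hg⟩ := by
  have := Function.Injective.extend_apply (Subtype.val_injective (p := (· ∈ H))) θ 0 ⟨g, hg⟩
  exact this

theorem extendByZero_not_mem (H : Subgroup G) (θ : H → ℂ) {g : G} (hg : g ∉ H) :
    extendByZero H θ g = 0 := by
  apply Function.extend_apply'
  rintro ⟨a, rfl⟩
  exact hg a.2

/-- sums over `N` of functions supported on `H ≤ N`. -/
theorem sum_over [Fintype G] {N H : Subgroup G} [Fintype N] [Fintype H] (hHN : H ≤ N) (F : N → ℂ)
    (hF : ∀ n : N, (n : G) ∉ H → F n = 0) : ∑ n : N, F n = ∑ h : H, F (Subgroup.inclusion hHN h) := by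
  classical
  symm
  apply Finset.sum_of_injOn (Subgroup.inclusion hHN)
  · exact (Subgroup.inclusion_injective hHN).injOn
  · intro x _; simp
  · intro n _ hn
    apply hF
    intro h
    apply hn
    exact ⟨⟨n, h⟩, by simp, Subtype.ext rfl⟩
  · intro h _; rfl

section Cliff

variable [Fintype G] {N H : Subgroup G} [Fintype N] [Fintype H]
  (hn : ∀ n ∈ N, ∀ h ∈ H, n * h * n⁻¹ ∈ H) (hHN : H ≤ N)

theorem over_iff (τ : N → ℂ) (θ : H → ℂ) :
    ∑ n : N, τ n * conj (extendByZero H θ (n : G))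
      = (Nat.card H : ℂ) * classInner (fun h : H => τ (Subgroup.inclusion hHN h)) θ := by
  have h0 : (Nat.card H : ℂ) ≠ 0 := by exact_mod_cast Nat.card_pos.ne'
  rw [sum_over hHN _ (fun n hn => by rw [extendByZero_not_mem H θ hn]; simp), classInner,
    ← mul_assoc, mul_inv_cancel₀ h0, one_mul]
  apply Finset.sum_congr rfl
  intro h _
  rw [show ((Subgroup.inclusion hHN h : N) : G) = (h : G) from rfl, extendByZero_mem H θ h.2]

include hn in
/-- Clifford: an `N`-invariant linear functional takes on `τ_H` the value `m Φ(θ)`. -/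
theorem clifford_functional {τ : N → ℂ} (hτ : IsIrrCharacter N τ) {θ : H → ℂ}
    (hθ : IsIrrCharacter H θ)
    (h1 : classInner (fun h : H => τ (Subgroup.inclusion hHN h)) θ ≠ 0)
    (Φ : (H → ℂ) →ₗ[ℂ] ℂ) (hΦ : ∀ g : N, Φ (fun x => θ (cAct N H hn g x)) = Φ θ) :
    Φ (fun h : H => τ (Subgroup.inclusion hHN h))
      = (∑ φ : IrrCharacter H, classInner (fun h : H => τ (Subgroup.inclusion hHN h)) φ) * Φ θ := by
  have hcl : IsClassFunction H (fun h : H => τ (Subgroup.inclusion hHN h)) :=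
    IsCharacter.isClassFunction (IsCharacter.comp (Subgroup.inclusion hHN)
      (IsIrrCharacter.isCharacter hτ))
  conv_lhs => rw [classFunction_eq_sum _ hcl]
  rw [map_sum, Finset.sum_mul]
  apply Finset.sum_congr rfl
  intro φ _
  rw [map_smul, smul_eq_mul]
  by_cases h2 : classInner (fun h : H => τ (Subgroup.inclusion hHN h)) (φ : H → ℂ) = 0
  · rw [h2, zero_mul, zero_mul]
  · obtain ⟨g, hg⟩ := clifford_conj (Subgroup.inclusion hHN) (Subgroup.inclusion_injective hHN)
      (cAct N H hn) (cAct_incl N H hn hHN) hτ hθ φ.2 h1 h2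
    rw [hg, hΦ]

end Cliff

end Cfsg.Agent.Lib.Helper86DefOneAct
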