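import Mathlib
import Cfsg.Agent.Lib.Helper4DefOneDefs
import Cfsg.Agent.Lib.Helper86DefOneAct
import Cfsg.Agent.Lib.Helper19Gal2
import Cfsg.Agent.Lib.Helper83Extra
import Cfsg.Agent.S0886

set_option autoImplicit false

namespace Cfsg.Agent.Lib.Helper86DefOneExt

open Cfsg Subgroup Cfsg.Agent.Lib.Helper86DefOneAct
open Cfsg.Agent.Lib.Helper19Cliff Cfsg.Agent.Lib.Helper4Char Cfsg.Agent.Lib.Helper4Char4
open scoped ComplexConjugate

variable {G : Type*} [Group G]

/-- `T / C_T(P)` is cyclic if `|P|` is a prime and `T` normalizes `P`. -/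
theorem isCyclic_quot {p : ℕ} [Fact p.Prime] (P T : Subgroup G) (hP : Nat.card P = p)
    (hTN : T ≤ normalizer (P : Set G)) (K : Subgroup T) [K.Normal]
    (hK : K = (centralizer (P : Set G)).subgroupOf T) : IsCyclic (T ⧸ K) := by
  let φ : T →* MulAut P := P.normalizerMonoidHom.comp (Subgroup.inclusion hTN)
  have hker : K = φ.ker := by
    rw [hK]
    ext x
    rw [MonoidHom.mem_ker, MonoidHom.comp_apply, ← MonoidHom.mem_ker, normalizerMonoidHom_ker]
    rfl
  subst hker
  haveI : IsCyclic P := isCyclic_of_prime_card hP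
  haveI : IsCyclic (MulAut P) := by
    have e := IsCyclic.mulAutMulEquiv P
    rw [hP] at e
    exact isCyclic_of_injective e.toMonoidHom e.injective
  exact isCyclic_of_injective (QuotientGroup.kerLift φ) (QuotientGroup.kerLift_injective φ)

/-- extension of an invariant character when the quotient is cyclic (subgroups of `G`). -/
theorem exists_extension [Finite G] {H T : Subgroup G} (hHT : H ≤ T)
    (hn : ∀ t ∈ T, ∀ h ∈ H, t * h * t⁻¹ ∈ H)
    (hcyc : ∀ [(H.subgroupOf T).Normal], IsCyclic (T ⧸ H.subgroupOf T))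
    {θ : H → ℂ} (hθ : IsIrrCharacter H θ)
    (hinv : ∀ (t : T) (x : H), θ (cAct T H hn t x) = θ x) :
    ∃ χ : T → ℂ, IsIrrCharacter T χ ∧ ∀ x : H, χ (Subgroup.inclusion hHT x) = θ x := by
  haveI hnor : (H.subgroupOf T).Normal := by
    constructor
    intro n hn' g
    exact hn g g.2 n hn'
  let E := Subgroup.subgroupOfEquivOfLe hHT
  obtain ⟨χ, h1, h2⟩ := Cfsg.Agent.S0886.result (H.subgroupOf T) hcyc (fun n => θ (E n))
    (Cfsg.Agent.Lib.Helper82Quot.isIrrCharacter_comp hθ E.toMonoidHom E.surjective)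
    (fun g n => hinv g (E n))
  refine ⟨χ, h1, fun x => ?_⟩
  have := h2 (E.symm x)
  simp only [MulEquiv.apply_symm_apply] at this
  rw [← this]
  rfl

section Mult

variable [Fintype G] {H T N : Subgroup G} [Fintype H] [Fintype T] [Fintype N]
  (hHT : H ≤ T) (hTN : T ≤ N) (hn : ∀ n ∈ N, ∀ h ∈ H, n * h * n⁻¹ ∈ H)
  {θ : H → ℂ} (hθ : IsIrrCharacter H θ)
  (hT : ∀ g : N, (g : G) ∈ T ↔ ∀ x : H, θ (cAct N H hn g x) = θ x)
  (hcyc : ∀ [(H.subgroupOf T).Normal], IsCyclic (T ⧸ H.subgroupOf T))

include hHT hTN hθ hT hcyc in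
/-- every irreducible character of `N` over `θ` contains `θ` with multiplicity one. -/
theorem mult_one {τ : N → ℂ} (hτ : IsIrrCharacter N τ)
    (h1 : classInner (fun x : H => τ (Subgroup.inclusion (hHT.trans hTN) x)) θ ≠ 0) :
    classInner (fun x : H => τ (Subgroup.inclusion (hHT.trans hTN) x)) θ = 1 := by
  classical
  have hn' : ∀ t ∈ T, ∀ h ∈ H, t * h * t⁻¹ ∈ H := fun t ht => hn t (hTN ht)
  haveI hnor : (H.subgroupOf T).Normal := by
    constructor
    intro n hn'' g
    exact hn' g g.2 n hn''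
  obtain ⟨ψ, hψ, -, hψm⟩ := clifford_corr (Subgroup.inclusion hTN)
    (Subgroup.inclusion_injective hTN) (Subgroup.inclusion hHT) (Subgroup.inclusion_injective hHT)
    (cAct N H hn) (fun g n => Subtype.ext rfl) hθ
    (fun g => by
      rw [← hT g]
      constructor
      · rintro ⟨t, rfl⟩
        exact t.2
      · intro hg
        exact ⟨⟨g, hg⟩, Subtype.ext rfl⟩) hτ h1
  obtain ⟨χ₀, hχ₀, hext⟩ := exists_extension hHT hn' hcyc hθ
    (fun t x => (hT (Subgroup.inclusion hTN t)).mp t.2 x)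
  have hgal := Cfsg.Agent.Lib.Helper19Gal2.gallagher (Subgroup.inclusion hHT) (Subgroup.inclusion_injective hHT)
    (cAct T H hn') (cAct_incl T H hn' hHT) hθ hχ₀ hext
  obtain ⟨β, ⟨hβ, hβH⟩, hβψ⟩ := hgal.surjOn (⟨hψ, by rw [hψm]; exact h1⟩ :
    ψ ∈ {ψ : T → ℂ | IsIrrCharacter T ψ ∧
      classInner (fun n => ψ (Subgroup.inclusion hHT n)) θ ≠ 0})
  have hβ1 : β 1 = 1 := by
    apply Cfsg.Agent.Lib.Helper83Extra.linear_of_commutator hβ
    intro m hm
    have hle : commutator T ≤ H.subgroupOf T := by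
      rw [← Subgroup.Normal.quotient_commutative_iff_commutator_le]
      haveI := hcyc
      exact IsCyclic.isMulCommutative
    exact hβH ⟨m, hle hm⟩
  have hres : (fun n => ψ (Subgroup.inclusion hHT n)) = θ := by
    funext x
    rw [← hβψ]
    show β _ * χ₀ _ = _
    rw [hβH, hβ1, one_mul, hext]
  have : classInner (fun x : H => τ (Subgroup.inclusion (hHT.trans hTN) x)) θ
      = classInner (fun n => ψ (Subgroup.inclusion hHT n)) θ := hψm.symm
  rw [this, hres, classInner_irr_self hθ]

include hHT hTN hθ hT hcyc in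
/-- the number of irreducible characters of `N` over `θ`. -/
theorem card_over_mul :
    (Nat.card {τ : IrrCharacter N //
      classInner (fun x : H => τ.1 (Subgroup.inclusion (hHT.trans hTN) x)) θ ≠ 0} : ℂ)
      * (Nat.card H : ℂ) = (Nat.card T : ℂ) := by
  classical
  have h0 : (Nat.card H : ℂ) ≠ 0 := by exact_mod_cast Nat.card_pos.ne'
  have ha := classInner_res_eq_sum (Subgroup.inclusion (hHT.trans hTN))
    (ind (Subgroup.inclusion (hHT.trans hTN)) θ) (ind_isClassFunction _ θ) θ
  have hterm : ∀ ξ : IrrCharacter N,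
      classInner (ind (Subgroup.inclusion (hHT.trans hTN)) θ) (ξ : N → ℂ)
        * classInner (fun n => (ξ : N → ℂ) (Subgroup.inclusion (hHT.trans hTN) n)) θ
      = if classInner (fun x : H => ξ.1 (Subgroup.inclusion (hHT.trans hTN) x)) θ ≠ 0
        then 1 else 0 := by
    intro ξ
    rw [frobenius _ θ _ (IsIrrCharacter.isClassFunction ξ.2), ← classInner_conj_symm]
    split_ifs with h
    · rw [mult_one hHT hTN hn hθ hT hcyc ξ.2 h]
      simp
    · push Not at h
      rw [h]
      simp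
  simp only [hterm] at ha
  rw [Finset.sum_boole, ← Fintype.card_subtype, ← Nat.card_eq_fintype_card] at ha
  rw [← ha, res_ind (Subgroup.inclusion (hHT.trans hTN)) (Subgroup.inclusion_injective _)
    (cAct N H hn) (cAct_incl N H hn _), classInner_smul_left, classInner_sum_left]
  have h2 : ∀ x : N, classInner (fun m => θ (cAct N H hn x m)) θ
      = if (x : G) ∈ T then 1 else 0 := by
    intro x
    rw [classInner_irr (conj_isIrr (cAct N H hn) hθ x) hθ]
    refine if_congr ?_ rfl rfl
    rw [hT x]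
    exact ⟨fun h n => congrFun h n, fun h => funext h⟩
  simp only [h2]
  rw [Finset.sum_boole]
  have h3 : ((Finset.univ.filter (fun x : N => (x : G) ∈ T)).card : ℂ) = (Nat.card T : ℂ) := by
    rw [← Fintype.card_subtype, ← Nat.card_eq_fintype_card]
    congr 1
    exact Nat.card_congr (Subgroup.subgroupOfEquivOfLe hTN).toEquiv
  rw [h3]
  field_simp

end Mult

end Cfsg.Agent.Lib.Helper86DefOneExt
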