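import Mathlib
import Cfsg.Agent.Lib.Helper4DefOneDefs
import Cfsg.Agent.Lib.Helper86DefOneExt

set_option autoImplicit false

namespace Cfsg.Agent.Lib.Helper86DefOneCnt

open Cfsg Subgroup Cfsg.Agent.Lib.Helper59BLGram Cfsg.Agent.Lib.Helper59BLTw
  Cfsg.Agent.Lib.Helper4DefOneDefs Cfsg.Agent.Lib.Helper86DefOneAct
  Cfsg.Agent.Lib.Helper86DefOneExt
open scoped ComplexConjugate

variable {G : Type*} [Group G] [Fintype G] {p : ℕ} [Fact p.Prime] {M : Ideal AlgInt}
  {P : Sylow p G} {H : Subgroup G} [Fintype H]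
  [Fintype (normalizer ((P : Subgroup G) : Set G))]
  {B : Set (IrrCharacter G)} {b : Set (IrrCharacter H)} {θ : IrrCharacter H}
  {tw : (↥(P : Subgroup G) →* ℂˣ) → IrrCharacter H}

theorem card_over_eq (h : Data p M P H B b θ tw) (T : Subgroup G)
    (hT : ∀ g, g ∈ T ↔ Stab P (θ : H → ℂ) g) (e : ℕ) (he : H.relIndex T = e) :
    Nat.card {τ : IrrCharacter (normalizer ((P : Subgroup G) : Set G)) //
      ∑ n : normalizer ((P : Subgroup G) : Set G),
        (τ : normalizer ((P : Subgroup G) : Set G) → ℂ) n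
          * conj (extendByZero H (θ : H → ℂ) (n : G)) ≠ 0} = e := by
  classical
  haveI := Fintype.ofFinite T
  have hHN : H ≤ normalizer ((P : Subgroup G) : Set G) := by
    rw [h.hH]; exact centralizer_le_normalizer _
  have hn : ∀ n ∈ normalizer ((P : Subgroup G) : Set G), ∀ x ∈ H, n * x * n⁻¹ ∈ H := by
    rw [h.hH]
    exact fun n hn x hx => Cfsg.Agent.Lib.Helper20BrMap.conj_mem_centralizer hn hx
  have hTN : T ≤ normalizer ((P : Subgroup G) : Set G) := fun g hg => ((hT g).mp hg).1
  have hHT : H ≤ T := by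
    intro g hg
    rw [hT]
    refine ⟨hHN hg, fun c c' hc => ?_⟩
    have : c' = ⟨g, hg⟩ * c * ⟨g, hg⟩⁻¹ := Subtype.ext hc
    rw [this]
    exact Cfsg.Agent.Lib.Helper81Base.irr_conj θ c ⟨g, hg⟩
  have hT' : ∀ g : normalizer ((P : Subgroup G) : Set G), (g : G) ∈ T ↔
      ∀ x : H, θ.1 (cAct _ H hn g x) = θ.1 x := by
    intro g
    rw [hT]
    constructor
    · intro hg x
      exact hg.2 x _ rfl
    · intro hg
      refine ⟨g.2, fun c c' hc => ?_⟩
      have : c' = cAct _ H hn g c := Subtype.ext hc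
      rw [this]
      exact hg c
  have key := card_over_mul hHT hTN hn θ.2 hT'
    (fun {_} => isCyclic_quot (P : Subgroup G) T h.hP hTN _ (by rw [h.hH]))
  have h0 : (Nat.card H : ℂ) ≠ 0 := by exact_mod_cast Nat.card_pos.ne'
  have hcard : Nat.card T = Nat.card H * e := by
    have h1 := (H.subgroupOf T).card_mul_index
    have h2 : Nat.card (H.subgroupOf T) = Nat.card H :=
      Nat.card_congr (Subgroup.subgroupOfEquivOfLe hHT).toEquiv
    rw [h2] at h1
    rw [← he]
    exact h1.symm
  have e1 : Nat.card {τ : IrrCharacter (normalizer ((P : Subgroup G) : Set G)) //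
      ∑ n : normalizer ((P : Subgroup G) : Set G),
        (τ : normalizer ((P : Subgroup G) : Set G) → ℂ) n
          * conj (extendByZero H (θ : H → ℂ) (n : G)) ≠ 0}
      = Nat.card {τ : IrrCharacter (normalizer ((P : Subgroup G) : Set G)) //
      classInner (fun x : H => τ.1 (Subgroup.inclusion (hHT.trans hTN) x)) θ.1 ≠ 0} := by
    apply Nat.card_congr
    apply Equiv.subtypeEquivRight
    intro τ
    rw [over_iff (hHT.trans hTN)]
    simp [h0]
  rw [e1]
  rw [hcard] at key
  push_cast at key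
  have : (Nat.card {τ : IrrCharacter (normalizer ((P : Subgroup G) : Set G)) //
      classInner (fun x : H => τ.1 (Subgroup.inclusion (hHT.trans hTN) x)) θ.1 ≠ 0} : ℂ) = e := by
    apply mul_right_cancel₀ h0
    rw [key]; ring
  exact_mod_cast this

theorem card_over (h : Data p M P H B b θ tw) (T : Subgroup G)
    (hT : ∀ g, g ∈ T ↔ Stab P (θ : H → ℂ) g) (e : ℕ) (he : H.relIndex T = e) :
    e ≤ Nat.card {τ : IrrCharacter (normalizer ((P : Subgroup G) : Set G)) //
      ∑ n : normalizer ((P : Subgroup G) : Set G),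
        (τ : normalizer ((P : Subgroup G) : Set G) → ℂ) n
          * conj (extendByZero H (θ : H → ℂ) (n : G)) ≠ 0} :=
  (card_over_eq h T hT e he).ge

end Cfsg.Agent.Lib.Helper86DefOneCnt
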