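import Mathlib
import Cfsg.Prelude.Def_Blocks

set_option autoImplicit false

namespace Cfsg.Agent.Lib.Helper86ModGrp

variable {p : ℕ}

theorem not_dvd_relIndex {G : Type*} [Group G] [Finite G] [Fact p.Prime] (P : Sylow p G)
    {N : Subgroup G} (hN : (P : Subgroup G) ≤ N) : ¬ p ∣ (P : Subgroup G).relIndex N := by
  intro h
  exact P.not_dvd_index (h.trans (Subgroup.relIndex_dvd_index_of_le hN))

theorem card_normalizer {G : Type*} [Group G] [Finite G] (P : Subgroup G) :
    Nat.card (Subgroup.normalizer (P : Set G))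
      = Nat.card P * P.relIndex (Subgroup.normalizer (P : Set G)) := by
  have h1 := (P.subgroupOf (Subgroup.normalizer (P : Set G))).card_mul_index
  have h2 : Nat.card (P.subgroupOf (Subgroup.normalizer (P : Set G))) = Nat.card P :=
    Nat.card_congr (Subgroup.subgroupOfEquivOfLe Subgroup.le_normalizer).toEquiv
  rw [h2] at h1
  exact h1.symm

theorem card_fixedPoints {G : Type*} [Group G] [Finite G] (P : Subgroup G) :
    Nat.card (MulAction.fixedPoints P (G ⧸ P)) = P.relIndex (Subgroup.normalizer (P : Set G)) := by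
  rw [Nat.card_congr (Sylow.fixedPointsMulLeftCosetsEquivQuotient P)]
  rfl

theorem exists_compl {G : Type*} [Group G] [Finite G] [Fact p.Prime] (P : Sylow p G) :
    ∃ Y : Subgroup G, Y ≤ Subgroup.normalizer ((P : Subgroup G) : Set G) ∧
      (∀ n ∈ Subgroup.normalizer ((P : Subgroup G) : Set G), ∃ y ∈ Y, ∃ u ∈ (P : Subgroup G),
        n = y * u) ∧ (∀ g, g ∈ Y → g ∈ (P : Subgroup G) → g = 1) := by
  set N := Subgroup.normalizer ((P : Subgroup G) : Set G) with hN
  have hn : ((P : Subgroup G).subgroupOf N).Normal := Subgroup.normal_in_normalizer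
  have hcop : Nat.Coprime (Nat.card ((P : Subgroup G).subgroupOf N))
      ((P : Subgroup G).subgroupOf N).index := by
    have h1 : Nat.card ((P : Subgroup G).subgroupOf N) = Nat.card (P : Subgroup G) :=
      Nat.card_congr (Subgroup.subgroupOfEquivOfLe Subgroup.le_normalizer).toEquiv
    rw [h1]
    obtain ⟨k, hk⟩ := P.2.exists_card_eq
    rw [hk]
    apply Nat.Coprime.pow_left
    rw [Nat.Prime.coprime_iff_not_dvd Fact.out]
    exact not_dvd_relIndex P Subgroup.le_normalizer
  obtain ⟨Y', hY'⟩ := Subgroup.exists_right_complement'_of_coprime hcop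
  refine ⟨Y'.map N.subtype, Subgroup.map_subtype_le _, ?_, ?_⟩
  · intro n hn
    obtain ⟨⟨y, u⟩, hyu⟩ := hY'.symm.2 ⟨n, hn⟩
    refine ⟨y.1.1, ⟨y.1, y.2, rfl⟩, u.1.1, u.2, ?_⟩
    exact (congrArg Subtype.val hyu).symm
  · rintro g ⟨y, hy, rfl⟩ hg
    have : y ∈ (P : Subgroup G).subgroupOf N ⊓ Y' := ⟨hg, hy⟩
    rw [hY'.disjoint.eq_bot] at this
    rw [Subgroup.mem_bot] at this
    rw [this]; rfl

end Cfsg.Agent.Lib.Helper86ModGrp
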