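import Mathlib
import Cfsg.Agent.Lib.Helper4DefOneDefs
import Cfsg.Agent.Lib.Helper86DefOneAct
import Cfsg.Agent.Lib.Helper86ModGrp

set_option autoImplicit false

namespace Cfsg.Agent.Lib.Helper86DefOneUnit

open Cfsg Subgroup Cfsg.Agent.Lib.Helper59BLGram Cfsg.Agent.Lib.Helper59BLTw
  Cfsg.Agent.Lib.Helper4DefOneDefs Cfsg.Agent.Lib.Helper86DefOneAct
open Cfsg.Agent.Lib.Helper80Brauer (ext ext_mem ext_not_mem ext_conv ext_coe RV IsInv)
open Cfsg.Agent.Lib.Helper20Local Cfsg.Agent.Lib.Helper20Center Cfsg.Agent.Lib.Helper20Induced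
open scoped ComplexConjugate

variable {G : Type*} [Group G] [Fintype G] {p : ℕ} [Fact p.Prime] {M : Ideal AlgInt}
  {P : Sylow p G} {H : Subgroup G} [Fintype H]
  [Fintype (normalizer ((P : Subgroup G) : Set G))]
  {B : Set (IrrCharacter G)} {b : Set (IrrCharacter H)} {θ : IrrCharacter H}
  {tw : (↥(P : Subgroup G) →* ℂˣ) → IrrCharacter H}

theorem unit_of_over (h : Data p M P H B b θ tw)
    (τ : IrrCharacter (normalizer ((P : Subgroup G) : Set G)))
    (hτ : ∑ n : normalizer ((P : Subgroup G) : Set G),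
        (τ : normalizer ((P : Subgroup G) : Set G) → ℂ) n
          * conj (extendByZero H (θ : H → ℂ) (n : G)) ≠ 0) :
    (∀ u : normalizer ((P : Subgroup G) : Set G), (u : G) ∈ (P : Subgroup G) →
      (τ : normalizer ((P : Subgroup G) : Set G) → ℂ) u
        = (τ : normalizer ((P : Subgroup G) : Set G) → ℂ) 1) ∧
    ¬ MemLocalIdeal M (∑ n : normalizer ((P : Subgroup G) : Set G),
      (τ : normalizer ((P : Subgroup G) : Set G) → ℂ) n * blockCoeff B (n : G)) := by
  classical
  have hPr : M.IsPrime := h.hM.2.1.isPrime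
  have hH := h.hH
  subst hH
  have hHN : centralizer ((P : Subgroup G) : Set G) ≤ normalizer ((P : Subgroup G) : Set G) :=
    centralizer_le_normalizer _
  have hn : ∀ n ∈ normalizer ((P : Subgroup G) : Set G),
      ∀ x ∈ centralizer ((P : Subgroup G) : Set G),
      n * x * n⁻¹ ∈ centralizer ((P : Subgroup G) : Set G) :=
    fun n hn x hx => Cfsg.Agent.Lib.Helper20BrMap.conj_mem_centralizer hn hx
  have h1 : classInner (fun x : centralizer ((P : Subgroup G) : Set G) =>
      (τ : normalizer ((P : Subgroup G) : Set G) → ℂ) (Subgroup.inclusion hHN x))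
      (θ : centralizer ((P : Subgroup G) : Set G) → ℂ) ≠ 0 := by
    intro h0
    apply hτ
    rw [over_iff hHN, h0, mul_zero]
  obtain ⟨m, hm⟩ : ∃ m : ℂ, m = ∑ φ : IrrCharacter (centralizer ((P : Subgroup G) : Set G)),
      classInner (fun x : centralizer ((P : Subgroup G) : Set G) =>
      (τ : normalizer ((P : Subgroup G) : Set G) → ℂ) (Subgroup.inclusion hHN x)) φ := ⟨_, rfl⟩
  have key := fun Φ hΦ => clifford_functional hn hHN τ.2 θ.2 h1 Φ hΦ
  rw [← hm] at key
  have hev : ∀ x : centralizer ((P : Subgroup G) : Set G),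
      (∀ g : normalizer ((P : Subgroup G) : Set G), θ.1 (cAct _ _ hn g x) = θ.1 x) →
      τ.1 (Subgroup.inclusion hHN x) = m * θ.1 x :=
    fun x hx => key (LinearMap.proj x) (fun g => hx g)
  have hτ1 : τ.1 1 = m * θ.1 1 := by
    have := hev 1 (fun g => by rw [map_one])
    rwa [map_one] at this
  have hPC : (P : Subgroup G) ≤ centralizer ((P : Subgroup G) : Set G) := by
    haveI : IsCyclic (P : Subgroup G) := isCyclic_of_prime_card h.hP
    intro a ha b hb
    have := (IsCyclic.isMulCommutative (α := (P : Subgroup G))).is_comm.comm ⟨b, hb⟩ ⟨a, ha⟩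
    exact congrArg Subtype.val this
  have hker : ∀ u : normalizer ((P : Subgroup G) : Set G), (u : G) ∈ (P : Subgroup G) →
      τ.1 u = τ.1 1 := by
    intro u hu
    have e1 := hev ⟨u, hPC hu⟩ (fun g => by
      have a1 : θ.1 (cAct _ _ hn g ⟨u, hPC hu⟩) = θ.1 1 :=
        h.hθP _ ((mem_normalizer_iff.mp g.2 u).mp hu)
      have a2 : θ.1 ⟨u, hPC hu⟩ = θ.1 1 := h.hθP _ hu
      rw [a1, a2])
    have e2 : Subgroup.inclusion hHN ⟨u, hPC hu⟩ = u := Subtype.ext rfl
    rw [e2, h.hθP _ hu] at e1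
    rw [e1, hτ1]
  refine ⟨hker, ?_⟩
  have hsc := Cfsg.Agent.Lib.Helper20Block.isSC_blockCoeff hPr h.hind.2.1
  -- the sum over `H`
  let Φ : (centralizer ((P : Subgroup G) : Set G) → ℂ) →ₗ[ℂ] ℂ :=
    ∑ x : centralizer ((P : Subgroup G) : Set G), blockCoeff B (x : G) • LinearMap.proj x
  have hΦ : ∀ f, Φ f = ∑ x : centralizer ((P : Subgroup G) : Set G), blockCoeff B (x : G) * f x := by
    intro f
    simp [Φ, LinearMap.sum_apply]
  have hSH : ∑ x : centralizer ((P : Subgroup G) : Set G),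
      blockCoeff B (x : G) * τ.1 (Subgroup.inclusion hHN x)
      = τ.1 1 * om θ.1 (res (centralizer ((P : Subgroup G) : Set G)) (blockCoeff B)) := by
    have := key Φ (fun g => by
      rw [hΦ, hΦ, ← Equiv.sum_comp (cAct _ _ hn g).toEquiv
        (fun x => blockCoeff B (x : G) * θ.1 x)]
      apply Finset.sum_congr rfl
      intro x _
      have : blockCoeff B (((cAct _ _ hn g).toEquiv x : centralizer ((P : Subgroup G) : Set G)) : G)
          = blockCoeff B (x : G) := hsc.1 (x : G) (g : G)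
      rw [this]
      rfl)
    rw [hΦ, hΦ] at this
    rw [this, hτ1, om]
    have h0 := Cfsg.Agent.Lib.Helper81Base.irr_one_ne_zero θ
    simp only [res]
    field_simp
  -- reduction from `N` to `H`
  let A : G → ℂ := ext (normalizer ((P : Subgroup G) : Set G))
    (fun n => τ.1 n * blockCoeff B (n : G))
  have hRV : RV M A := by
    intro g
    by_cases hg : g ∈ normalizer ((P : Subgroup G) : Set G)
    · simp only [A]
      rw [ext_mem _ hg]
      exact lrMul hPr (memLocalRing_of_isIntegral hPr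
        (Cfsg.Agent.Lib.Helper81BB.irr_integral _ _)) (hsc.2 g)
    · simp only [A]
      rw [ext_not_mem _ hg]
      exact memLocalRing_zero hPr
  have hInv : IsInv (P : Subgroup G) A := by
    intro x hx g
    have hxN : x ∈ normalizer ((P : Subgroup G) : Set G) := le_normalizer hx
    by_cases hg : g ∈ normalizer ((P : Subgroup G) : Set G)
    · have h1 : x * g * x⁻¹ ∈ normalizer ((P : Subgroup G) : Set G) :=
        Subgroup.mul_mem _ (Subgroup.mul_mem _ hxN hg) (Subgroup.inv_mem _ hxN)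
      simp only [A]
      rw [ext_mem _ h1, ext_mem _ hg]
      have h2 := Cfsg.Agent.Lib.Helper81Base.irr_conj τ ⟨g, hg⟩ ⟨x, hxN⟩
      have h3 : τ.1 ⟨x * g * x⁻¹, h1⟩ = τ.1 ⟨g, hg⟩ := h2
      simp only [h3, hsc.1 g x]
    · have h1 : x * g * x⁻¹ ∉ normalizer ((P : Subgroup G) : Set G) := by
        intro h
        apply hg
        have := Subgroup.mul_mem _ (Subgroup.mul_mem _ (Subgroup.inv_mem _ hxN) h) hxN
        simpa [mul_assoc] using this
      simp only [A]
      rw [ext_not_mem _ h1, ext_not_mem _ hg]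
  have k1 := Cfsg.Agent.Lib.Helper80Brauer.sum_sub_sum_centralizer_mem h.hM P.2 hRV hInv
  have k3 : ∑ x : centralizer ((P : Subgroup G) : Set G), A x
      = ∑ x : centralizer ((P : Subgroup G) : Set G),
        blockCoeff B (x : G) * τ.1 (Subgroup.inclusion hHN x) := by
    apply Finset.sum_congr rfl
    intro x _
    simp only [A]
    rw [ext_mem _ (hHN x.2), mul_comm]
    rfl
  rw [Cfsg.Agent.Lib.Helper80Principal.sum_ext, k3, hSH] at k1
  obtain ⟨χ, hχ⟩ := Cfsg.Agent.Lib.Helper20Block.IsPBlock.nonempty hPr h.hind.2.1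
  have k2 := isInducedBlock_om _ hPr h.hind h.hθ hχ hsc
  rw [Cfsg.Agent.Lib.Helper20Block.om_blockCoeff, if_pos hχ] at k2
  have hω : MemLocalRing M (om θ.1 (res (centralizer ((P : Subgroup G) : Set G)) (blockCoeff B))) :=
    Cfsg.Agent.Lib.Helper20Block.om_mem hPr θ.2 ⟨res_isClassFunction _ hsc.1, fun x => hsc.2 _⟩
  have hdeg : ¬ p ∣ charDegree τ.1 := by
    intro hd
    have h1 := Cfsg.Agent.Lib.Helper82Cod.irr_degree_dvd_index_ker τ
    have h2 : (P : Subgroup G).subgroupOf (normalizer ((P : Subgroup G) : Set G))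
        ≤ Cfsg.Agent.Lib.Helper82Cod.irrKer τ := by
      intro u hu
      exact hker u hu
    exact Cfsg.Agent.Lib.Helper86ModGrp.not_dvd_relIndex P le_normalizer
      ((hd.trans h1).trans (Subgroup.index_dvd_of_le h2))
  have hd1 : ¬ MemLocalIdeal M (τ.1 1) := by
    rw [← Cfsg.Agent.Lib.Helper81Base.charDegree_eq, memLocalIdeal_natCast_iff h.hM]
    exact hdeg
  have hi1 : MemLocalRing M (τ.1 1) :=
    memLocalRing_of_isIntegral hPr (Cfsg.Agent.Lib.Helper81BB.irr_integral _ _)
  intro hcon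
  have k4 := liSub hPr hcon k1
  rw [sub_sub_cancel] at k4
  rcases liOfMul hPr hi1 hω k4 with k5 | k5
  · exact hd1 k5
  · apply not_memLocalIdeal_one hPr
    have := liSub hPr k5 k2
    rwa [sub_sub_cancel] at this

end Cfsg.Agent.Lib.Helper86DefOneUnit
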