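import Mathlib

set_option autoImplicit false

/-! PROJECT 7 (defect one), piece `orbit`. -/

namespace Cfsg.Agent.Lib.Helper98ModOrbit

open Classical in
theorem orbit_sum {k S P Ω : Type*} [Field k] [AddCommGroup S] [Module k S] [Group P] [Fintype P]
    (p : ℕ) [Fact p.Prime] (hP : Nat.card P = p) (r : P →* Module.End k S)
    [Fintype Ω] [MulAction P Ω] (Φ : Ω → S) (hΦ : ∀ (u : P) (ω : Ω), Φ (u • ω) = r u (Φ ω)) :
    ∃ s : S, ∑ ω, Φ ω = (∑ ω, if ω ∈ MulAction.fixedPoints P Ω then Φ ω else 0) + ∑ u, r u s := by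
  classical
  let Q := MulAction.orbitRel.Quotient P Ω
  have hfib : ∀ f : Ω → S, ∑ ω, f ω = ∑ q : Q, ∑ ω, if (Quotient.mk'' ω : Q) = q then f ω else 0 := by
    intro f
    rw [Finset.sum_comm]
    refine Finset.sum_congr rfl fun ω _ => ?_
    rw [Finset.sum_ite_eq]
    simp
  have hmem : ∀ (q : Q) (ω : Ω), (Quotient.mk'' ω : Q) = q → ω ∈ MulAction.orbit P q.out := by
    intro q ω h
    have h2 : (Quotient.mk'' ω : Q) = Quotient.mk'' q.out := by
      rw [h]; exact (Quotient.out_eq' q).symm
    exact (MulAction.orbitRel_apply).1 (Quotient.exact' h2)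
  refine ⟨∑ q : Q, if q.out ∈ MulAction.fixedPoints P Ω then 0 else Φ q.out, ?_⟩
  rw [hfib Φ, hfib (fun ω => if ω ∈ MulAction.fixedPoints P Ω then Φ ω else 0)]
  have hsum : ∑ u, r u (∑ q : Q, if q.out ∈ MulAction.fixedPoints P Ω then 0 else Φ q.out)
      = ∑ q : Q, ∑ u, r u (if q.out ∈ MulAction.fixedPoints P Ω then 0 else Φ q.out) := by
    rw [Finset.sum_comm]
    refine Finset.sum_congr rfl fun u _ => ?_
    rw [map_sum]
  rw [hsum, ← Finset.sum_add_distrib]
  refine Finset.sum_congr rfl fun q _ => ?_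
  by_cases hq : q.out ∈ MulAction.fixedPoints P Ω
  · rw [if_pos hq]
    simp only [map_zero, Finset.sum_const_zero, add_zero]
    refine Finset.sum_congr rfl fun ω _ => ?_
    by_cases hω : (Quotient.mk'' ω : Q) = q
    · rw [if_pos hω, if_pos hω]
      obtain ⟨u, hu⟩ := hmem q ω hω
      have : ω = q.out := by rw [← hu]; exact hq u
      rw [if_pos (this ▸ hq)]
    · rw [if_neg hω, if_neg hω]
  · rw [if_neg hq]
    have hstab : MulAction.stabilizer P q.out = ⊥ := by
      have : Fact (Nat.card P).Prime := ⟨hP ▸ Fact.out⟩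
      rcases Subgroup.eq_bot_or_eq_top_of_prime_card (MulAction.stabilizer P q.out) with h | h
      · exact h
      · exfalso
        apply hq
        intro u
        have : u ∈ MulAction.stabilizer P q.out := h ▸ Subgroup.mem_top u
        exact this
    have hz : ∑ ω, (if (Quotient.mk'' ω : Q) = q then
        (if ω ∈ MulAction.fixedPoints P Ω then Φ ω else 0) else 0) = 0 := by
      refine Finset.sum_eq_zero fun ω _ => ?_
      by_cases hω : (Quotient.mk'' ω : Q) = q
      · rw [if_pos hω]
        obtain ⟨u, hu⟩ := hmem q ω hω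
        rw [if_neg]
        intro hf
        apply hq
        intro v
        have h1 : q.out = u⁻¹ • ω := by rw [← hu]; simp
        have h2 : ∀ w : P, w • ω = ω := hf
        rw [h1, smul_smul, h2, h2]
      · rw [if_neg hω]
    rw [hz, zero_add, ← Finset.sum_filter]
    symm
    refine Finset.sum_bij (fun u _ => u • q.out) ?_ ?_ ?_ ?_
    · intro u _
      simp only [Finset.mem_filter, Finset.mem_univ, true_and]
      have : (Quotient.mk'' (u • q.out) : Q) = Quotient.mk'' q.out :=
        Quotient.sound' ((MulAction.orbitRel_apply).2 ⟨u, rfl⟩)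
      rw [this]; exact Quotient.out_eq' q
    · intro u _ v _ huv
      have : v⁻¹ * u ∈ MulAction.stabilizer P q.out := by
        rw [MulAction.mem_stabilizer_iff, mul_smul]
        rw [huv]; simp
      rw [hstab, Subgroup.mem_bot] at this
      exact (inv_mul_eq_one.1 this).symm
    · intro ω hω
      simp only [Finset.mem_filter, Finset.mem_univ, true_and] at hω
      obtain ⟨u, hu⟩ := hmem q ω hω
      exact ⟨u, Finset.mem_univ _, hu⟩
    · intro u _
      exact (hΦ u q.out).symm

end Cfsg.Agent.Lib.Helper98ModOrbit
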