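import Mathlib
import Cfsg.Agent.Lib.Helper98ModOrbit

/-!
# Piece D of project 7: for a simple module `S`, `S^P / tr_P S` is a simple `N_G(P)`-module or zero
-/

set_option autoImplicit false

namespace Cfsg.Agent.Lib.Helper4ModD

open Cfsg.Agent.Lib.Helper98ModOrbit


/-- `(y-1)^(p-1) = 1 + y + ... + y^(p-1)` in characteristic `p`. -/
theorem geom_char {k R : Type*} [Field k] [Ring R] [Algebra k R] (p : ℕ) [Fact p.Prime] [CharP k p]
    (y : R) : (y - 1) ^ (p - 1) = ∑ i ∈ Finset.range p, y ^ i := by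
  have hp : p.Prime := Fact.out
  have h1 : ((Polynomial.X : Polynomial k) - 1) ^ (p - 1) = ∑ i ∈ Finset.range p, Polynomial.X ^ i := by
    have hne : ((Polynomial.X : Polynomial k) - 1) ≠ 0 := by
      have := Polynomial.X_sub_C_ne_zero (1 : k)
      simpa using this
    apply mul_right_cancel₀ hne
    rw [geom_sum_mul, ← pow_succ, Nat.sub_add_cancel hp.one_lt.le, sub_pow_char, one_pow]
  have h2 := congrArg (Polynomial.aeval y) h1
  simpa using h2

/-- the abstract construction of an endomorphism commuting with `X`. -/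
theorem exists_pi {R : Type*} [Ring R] (X σ r : R) (j : ℕ) (h1 : X ^ j * σ = r)
    (h2 : σ * X ^ (j + 1) = 0) (h3 : X * r = 0) :
    X * (∑ i ∈ Finset.range (j + 1), X ^ (j - i) * σ * X ^ i)
      = (∑ i ∈ Finset.range (j + 1), X ^ (j - i) * σ * X ^ i) * X := by
  rw [← sub_eq_zero, Finset.mul_sum, Finset.sum_mul, ← Finset.sum_sub_distrib]
  have : ∀ i ∈ Finset.range (j + 1), X * (X ^ (j - i) * σ * X ^ i) - X ^ (j - i) * σ * X ^ i * X
      = (fun i => X ^ (j + 1 - i) * σ * X ^ i) i - (fun i => X ^ (j + 1 - i) * σ * X ^ i) (i + 1) := by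
    intro i hi
    have hi' : i ≤ j := Nat.lt_succ_iff.mp (Finset.mem_range.mp hi)
    have e1 : j + 1 - i = (j - i) + 1 := by omega
    have e2 : j + 1 - (i + 1) = j - i := by omega
    beta_reduce
    rw [e1, e2, pow_succ' X (j - i), pow_succ X i]
    simp only [mul_assoc]
  rw [Finset.sum_congr rfl this, Finset.sum_range_sub']
  simp only [Nat.sub_zero, pow_zero, mul_one, Nat.sub_self, one_mul]
  rw [h2, sub_zero, pow_succ', mul_assoc, h1, h3]

theorem exists_proj {k S : Type*} [Field k] [AddCommGroup S] [Module k S] (X : Module.End k S)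
    (j : ℕ) (T : Submodule k S) (hT1 : ∀ t ∈ T, X t = 0) (hT2 : ∀ t ∈ T, ∃ s, (X ^ j) s = t)
    (hT3 : ∀ t ∈ T, ∀ s, (X ^ (j + 1)) s = t → t = 0) :
    ∃ π r : Module.End k S, X * π = π * X ∧ (∀ z, X z = 0 → π z = r z) ∧ (∀ t ∈ T, r t = t) ∧
      (∀ s, r ((X ^ (j + 1)) s) = 0) ∧ (∀ s, r s ∈ T) := by
  -- the projection
  set U : Submodule k S := LinearMap.range (X ^ (j + 1)) with hU
  have hinj : Function.Injective (U.mkQ ∘ₗ T.subtype) := by
    rw [← LinearMap.ker_eq_bot, LinearMap.ker_eq_bot']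
    intro t ht
    have h1 : (t : S) ∈ U := by
      simpa using ht
    obtain ⟨s, hs⟩ := h1
    exact Subtype.ext (hT3 t t.2 s hs)
  obtain ⟨g, hg⟩ := LinearMap.exists_leftInverse_of_injective (U.mkQ ∘ₗ T.subtype)
    (LinearMap.ker_eq_bot.mpr hinj)
  set r : Module.End k S := T.subtype ∘ₗ g ∘ₗ U.mkQ with hr
  have hr1 : ∀ t ∈ T, r t = t := by
    intro t ht
    have := congrArg (fun f => f ⟨t, ht⟩) hg
    simp only [LinearMap.comp_apply, LinearMap.id_apply, Submodule.subtype_apply] at this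
    simp only [hr, LinearMap.comp_apply, Submodule.subtype_apply]
    rw [this]
  have hr2 : ∀ s, r ((X ^ (j + 1)) s) = 0 := by
    intro s
    have : U.mkQ ((X ^ (j + 1)) s) = 0 := by
      rw [Submodule.mkQ_apply, Submodule.Quotient.mk_eq_zero]
      exact ⟨s, rfl⟩
    simp only [hr, LinearMap.comp_apply, this, map_zero]
  have hr3 : ∀ s, r s ∈ T := fun s => (g (U.mkQ s)).2
  -- the section
  obtain ⟨g1, hg1⟩ := LinearMap.exists_rightInverse_of_surjective (X ^ j).rangeRestrict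
    (LinearMap.range_rangeRestrict _)
  obtain ⟨g2, hg2⟩ := LinearMap.exists_leftInverse_of_injective (LinearMap.range (X ^ j)).subtype
    (Submodule.ker_subtype _)
  set σ : Module.End k S := g1 ∘ₗ g2 ∘ₗ r with hσ
  have hσ1 : X ^ j * σ = r := by
    ext s
    obtain ⟨s', hs'⟩ := hT2 (r s) (hr3 s)
    have e1 : g2 (r s) = ⟨r s, ⟨s', hs'⟩⟩ := by
      have := congrArg (fun f => f ⟨r s, ⟨s', hs'⟩⟩) hg2
      simpa using this
    have e2 := congrArg (fun f => ((f ⟨r s, ⟨s', hs'⟩⟩ : LinearMap.range (X ^ j)) : S)) hg1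
    simp only [LinearMap.comp_apply, LinearMap.id_apply, LinearMap.codRestrict_apply] at e2
    simp only [Module.End.mul_apply, hσ, LinearMap.comp_apply, e1]
    exact e2
  have hσ2 : σ * X ^ (j + 1) = 0 := by
    ext s
    simp only [Module.End.mul_apply, hσ, LinearMap.comp_apply, hr2, map_zero, LinearMap.zero_apply]
  have hσ3 : X * r = 0 := by
    ext s
    simp only [Module.End.mul_apply, LinearMap.zero_apply]
    exact hT1 _ (hr3 s)
  refine ⟨∑ i ∈ Finset.range (j + 1), X ^ (j - i) * σ * X ^ i, r, exists_pi X σ r j hσ1 hσ2 hσ3,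
    ?_, hr1, hr2, hr3⟩
  intro z hz
  rw [Finset.sum_range_succ', LinearMap.add_apply, LinearMap.sum_apply, Finset.sum_eq_zero, zero_add]
  · simp only [Nat.sub_zero, pow_zero, mul_one]
    rw [hσ1]
  · intro i _
    simp only [Module.End.mul_apply, pow_succ, hz, map_zero]



theorem exists_gen {G : Type*} [Group G] [Finite G] (p : ℕ) [Fact p.Prime] (P : Subgroup G)
    (hP : Nat.card P = p) : ∃ x ∈ P, orderOf x = p ∧ ∀ u ∈ P, ∃ i : ℕ, u = x ^ i := by
  have := isCyclic_of_prime_card hP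
  obtain ⟨g, hg⟩ := IsCyclic.exists_generator (α := P)
  refine ⟨g, g.2, ?_, ?_⟩
  · rw [Subgroup.orderOf_coe, orderOf_eq_card_of_forall_mem_zpowers hg, hP]
  · intro u hu
    have h1 := hg ⟨u, hu⟩
    rw [← mem_powers_iff_mem_zpowers] at h1
    obtain ⟨i, hi⟩ := h1
    refine ⟨i, ?_⟩
    have := congrArg Subtype.val hi
    simpa using this.symm

open Classical in
theorem sum_eq_range {G β : Type*} [Group G] [Fintype G] [AddCommMonoid β] (p : ℕ) (P : Subgroup G)
    (x : G) (hx : x ∈ P) (ho : orderOf x = p) (hgen : ∀ u ∈ P, ∃ i : ℕ, u = x ^ i) (f : G → β) :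
    (∑ g, if g ∈ P then f g else 0) = ∑ i ∈ Finset.range p, f (x ^ i) := by
  rw [← Finset.sum_filter]
  have : (Finset.univ.filter (· ∈ P)) = (Finset.range p).image (fun i => x ^ i) := by
    ext g
    simp only [Finset.mem_filter, Finset.mem_univ, true_and, Finset.mem_image, Finset.mem_range]
    constructor
    · intro hg
      obtain ⟨i, rfl⟩ := hgen g hg
      refine ⟨i % p, Nat.mod_lt _ (by rw [← ho]; exact orderOf_pos x), ?_⟩
      rw [← ho, pow_mod_orderOf]
    · rintro ⟨i, _, rfl⟩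
      exact P.pow_mem hx i
  rw [this, Finset.sum_image]
  intro i hi j hj hij
  have := pow_injOn_Iio_orderOf (x := x)
  apply this _ _ hij
  · simpa [ho] using hi
  · simpa [ho] using hj

open Classical in
theorem no_between {k G S : Type*} [Field k] [Group G] [Fintype G] [AddCommGroup S] [Module k S]
    (p : ℕ) [Fact p.Prime] [CharP k p] (ρ : G →* Module.End k S)
    (hS : ∀ f : Module.End k S, (∀ g, f * ρ g = ρ g * f) → f = 0 ∨ Function.Bijective f)
    (P : Subgroup G) (hP : Nat.card P = p)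
    (hNP : ¬ p ∣ Nat.card (MulAction.fixedPoints P (G ⧸ P)))
    (W : Submodule k S) (hWN : ∀ n ∈ Subgroup.normalizer (P : Set G), ∀ w ∈ W, ρ n w ∈ W)
    (hW1 : ∀ s, (∑ g, if g ∈ P then ρ g s else 0) ∈ W)
    (hW2 : ∀ w ∈ W, ∀ u ∈ P, ρ u w = w)
    (v : S) (hv : v ∈ W) (hv' : ∀ s, (∑ g, if g ∈ P then ρ g s else 0) ≠ v)
    (v' : S) (hv'1 : ∀ u ∈ P, ρ u v' = v') : v' ∈ W := by
  have hp : p.Prime := Fact.out
  obtain ⟨x, hxP, hox, hgen⟩ := exists_gen p P hP
  set X : Module.End k S := ρ x - 1 with hX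
  set tr : Module.End k S := ∑ g, if g ∈ P then ρ g else 0 with htr
  have htr_apply : ∀ s, tr s = ∑ g, if g ∈ P then ρ g s else 0 := by
    intro s
    simp only [htr, LinearMap.sum_apply]
    apply Finset.sum_congr rfl
    intro g _
    split_ifs <;> simp
  have htrX : tr = X ^ (p - 1) := by
    rw [htr, sum_eq_range p P x hxP hox hgen (fun g => ρ g), hX, geom_char (k := k) p (ρ x)]
    simp [map_pow]
  have hρinv : ∀ g, ρ g * ρ g⁻¹ = 1 := fun g => by rw [← map_mul, mul_inv_cancel, map_one]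
  have hρinv' : ∀ g, ρ g⁻¹ * ρ g = 1 := fun g => by rw [← map_mul, inv_mul_cancel, map_one]
  -- fixed vectors
  have hfix : ∀ z, X z = 0 ↔ ∀ u ∈ P, ρ u z = z := by
    intro z
    constructor
    · intro hz u hu
      have h1 : ρ x z = z := by simpa [hX, sub_eq_zero] using hz
      obtain ⟨i, rfl⟩ := hgen u hu
      rw [map_pow]
      clear hu
      induction i with
      | zero => simp
      | succ i ih => rw [pow_succ, Module.End.mul_apply, h1, ih]
    · intro h
      simp [hX, h x hxP]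
  have hNfix : ∀ n ∈ Subgroup.normalizer (P : Set G), ∀ z, X z = 0 → X (ρ n z) = 0 := by
    intro n hn z hz
    rw [hfix] at hz ⊢
    intro u hu
    have h1 : n⁻¹ * u * n ∈ P := by
      have := (Subgroup.mem_normalizer_iff.mp (inv_mem hn) u).mp hu
      simpa using this
    have : ρ u (ρ n z) = ρ n (ρ (n⁻¹ * u * n) z) := by
      rw [← Module.End.mul_apply, ← Module.End.mul_apply, ← map_mul, ← map_mul]
      congr 2
      group
    rw [this, hz _ h1]
  have hNrange : ∀ n ∈ Subgroup.normalizer (P : Set G), ∀ (i : ℕ) (s : S),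
      ∃ s', ρ n ((X ^ i) s) = (X ^ i) s' := by
    intro n hn i s
    have h1 : n * x * n⁻¹ ∈ P := (Subgroup.mem_normalizer_iff.mp hn x).mp hxP
    obtain ⟨m, hm⟩ := hgen _ h1
    set h : Module.End k S := ∑ l ∈ Finset.range m, (ρ x) ^ l with hh
    have e0 : X * h = ρ x ^ m - 1 := mul_geom_sum _ _
    have e1 : ρ n * X = X * h * ρ n := by
      rw [e0, ← map_pow, ← hm, hX, mul_sub, sub_mul, ← map_mul, ← map_mul]
      simp [mul_assoc]
    have hc0 : Commute X (ρ x) := by
      rw [hX]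
      exact (Commute.refl _).sub_left (Commute.one_left _)
    have hc : Commute X h := Commute.sum_right _ _ _ (fun l _ => hc0.pow_right l)
    have e2 : ρ n * X ^ i = (X * h) ^ i * ρ n := by
      induction i with
      | zero => simp
      | succ i ih => rw [pow_succ, ← mul_assoc, ih, mul_assoc, e1, ← mul_assoc, ← pow_succ]
    rw [hc.mul_pow] at e2
    refine ⟨(h ^ i) (ρ n s), ?_⟩
    have := congrArg (fun f => f s) e2
    simpa [Module.End.mul_apply] using this
  -- the index j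
  have hQ : ∃ i : ℕ, ∀ w ∈ W, (∃ s, (X ^ i) s = w) → ∃ s, tr s = w :=
    ⟨p - 1, fun w _ ⟨s, hs⟩ => ⟨s, by rw [htrX, hs]⟩⟩
  have hi₀ := Nat.find_spec hQ
  have hi₀0 : Nat.find hQ ≠ 0 := by
    intro h0
    rw [h0] at hi₀
    obtain ⟨s, hs⟩ := hi₀ v hv ⟨v, by simp⟩
    exact hv' s (by rw [← htr_apply, hs])
  obtain ⟨j, hj⟩ := Nat.exists_eq_succ_of_ne_zero hi₀0
  have hjmin : ¬ (∀ w ∈ W, (∃ s, (X ^ j) s = w) → ∃ s, tr s = w) :=
    Nat.find_min hQ (by omega)
  have hjp : j + 1 ≤ p - 1 := by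
    rw [← Nat.succ_eq_add_one, ← hj]
    exact Nat.find_min' hQ (fun w _ ⟨s, hs⟩ => ⟨s, by rw [htrX, hs]⟩)
  rw [hj] at hi₀
  push Not at hjmin
  obtain ⟨v₀, hv₀W, ⟨s₀, hs₀⟩, hv₀⟩ := hjmin
  -- range of tr inside range of powers
  have htr_range : ∀ (i : ℕ), i ≤ p - 1 → ∀ s, ∃ s', tr s = (X ^ i) s' := by
    intro i hi s
    refine ⟨(X ^ (p - 1 - i)) s, ?_⟩
    rw [htrX, ← Module.End.mul_apply, ← pow_add]
    congr 2
    omega
  obtain ⟨T, hT⟩ := Submodule.exists_isCompl (LinearMap.range tr)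
  set W' : Submodule k S := W ⊓ LinearMap.range (X ^ j) with hW'
  set T₁ : Submodule k S := T ⊓ W' with hT₁
  have hW'fix : ∀ w ∈ W, X w = 0 := fun w hw => (hfix w).mpr (hW2 w hw)
  obtain ⟨π, r, hπX, hπr, hr1, hr2, hr3⟩ := exists_proj X j T₁
    (fun t ht => hW'fix t ht.2.1) (fun t ht => ht.2.2)
    (fun t ht s hs => by
      obtain ⟨s', hs'⟩ := hi₀ t ht.2.1 ⟨s, hs⟩
      have : t ∈ LinearMap.range tr ⊓ T := ⟨⟨s', hs'⟩, ht.1⟩
      rw [hT.inf_eq_bot] at this
      simpa using this)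
  have hdec : ∀ w ∈ W', ∃ s, ∃ t ∈ T₁, w = tr s + t := by
    intro w hw
    have h1 : w ∈ LinearMap.range tr ⊔ T := by rw [hT.sup_eq_top]; trivial
    obtain ⟨y, ⟨s, rfl⟩, t, ht, hyt⟩ := Submodule.mem_sup.mp h1
    refine ⟨s, t, ⟨ht, ?_⟩, hyt.symm⟩
    have h2 : tr s ∈ W' := by
      refine ⟨by rw [htr_apply]; exact hW1 s, ?_⟩
      obtain ⟨s', hs'⟩ := htr_range j (by omega) s
      exact ⟨s', hs'.symm⟩
    have h3 : t = w - tr s := by rw [← hyt]; abel
    rw [h3]
    exact W'.sub_mem hw h2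
  have hrtr : ∀ s, r (tr s) = 0 := by
    intro s
    obtain ⟨s', hs'⟩ := htr_range (j + 1) hjp s
    rw [hs', hr2]
  -- π commutes with P
  have hπx : Commute π (ρ x) := by
    have : ρ x = X + 1 := by rw [hX]; abel
    rw [this]
    exact (Commute.add_right hπX.symm (Commute.one_right _))
  have hπP : ∀ u ∈ P, ρ u * π * ρ u⁻¹ = π := by
    intro u hu
    obtain ⟨i, rfl⟩ := hgen u hu
    have h1 : Commute π (ρ (x ^ i)) := by rw [map_pow]; exact hπx.pow_right i
    rw [← h1.eq, mul_assoc, hρinv, mul_one]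
  let F : G → Module.End k S := fun g => ρ g * π * ρ g⁻¹
  have hF : ∀ g u, u ∈ P → F (g * u) = F g := by
    intro g u hu
    simp only [F, map_mul, mul_inv_rev]
    calc ρ g * ρ u * π * (ρ u⁻¹ * ρ g⁻¹) = ρ g * (ρ u * π * ρ u⁻¹) * ρ g⁻¹ := by
          simp only [mul_assoc]
      _ = _ := by rw [hπP u hu]
  let Ft : G ⧸ P → Module.End k S := fun q => Quotient.liftOn' q F (fun a b hab => by
    rw [QuotientGroup.leftRel_apply] at hab
    have := hF a (a⁻¹ * b) hab
    simpa using this.symm)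
  have hFt : ∀ g : G, Ft (g : G ⧸ P) = F g := fun g => rfl
  set ahat : Module.End k S := ∑ q : G ⧸ P, Ft q with hahat
  have hconj : ∀ (h : G) (q : G ⧸ P), Ft (h • q) = ρ h * Ft q * ρ h⁻¹ := by
    intro h q
    induction q using QuotientGroup.induction_on with
    | H g =>
      rw [hFt]
      change Ft ((h * g : G) : G ⧸ P) = _
      rw [hFt]
      simp [F, mul_assoc]
  have hcomm : ∀ g, ahat * ρ g = ρ g * ahat := by
    intro g
    have h1 : ρ g * ahat * ρ g⁻¹ = ahat := by
      simp only [hahat, Finset.mul_sum, Finset.sum_mul]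
      simp only [← hconj]
      exact Equiv.sum_comp (MulAction.toPerm g : Equiv.Perm (G ⧸ P)) Ft
    calc ahat * ρ g = (ρ g * ahat * ρ g⁻¹) * ρ g := by rw [h1]
      _ = ρ g * ahat := by rw [mul_assoc, hρinv', mul_one]
  have key : ∀ z, X z = 0 → ∃ s, ahat z
      = (∑ q : G ⧸ P, if q ∈ MulAction.fixedPoints P (G ⧸ P) then Ft q z else 0) + tr s := by
    intro z hz
    have hz' := (hfix z).mp hz
    obtain ⟨s, hs⟩ := orbit_sum p hP (ρ.comp P.subtype) (fun q => Ft q z) (by
      intro u q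
      change Ft ((u : G) • q) z = ρ u (Ft q z)
      rw [hconj]
      simp only [Module.End.mul_apply]
      rw [hz' _ (inv_mem u.2)])
    refine ⟨s, ?_⟩
    have e1 : ahat z = ∑ q, Ft q z := by simp [hahat, LinearMap.sum_apply]
    rw [e1, hs]
    congr 1
    rw [htr_apply, ← Finset.sum_filter]
    exact (Finset.sum_subtype (Finset.univ.filter (· ∈ P)) (by simp) (fun g => ρ g s)).symm
  have hfixq : ∀ q ∈ MulAction.fixedPoints P (G ⧸ P), ∀ z, X z = 0 →
      ∃ n ∈ Subgroup.normalizer (P : Set G), Ft q z = ρ n (r (ρ n⁻¹ z)) := by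
    intro q hq z hz
    induction q using QuotientGroup.induction_on with
    | H n =>
      have hn : n ∈ Subgroup.normalizer (P : Set G) :=
        Sylow.mem_fixedPoints_mul_left_cosets_iff_mem_normalizer.mp hq
      refine ⟨n, hn, ?_⟩
      rw [hFt]
      simp only [F, Module.End.mul_apply]
      rw [hπr _ (hNfix n⁻¹ (inv_mem hn) z hz)]
  have hA : ∀ z, X z = 0 → ahat z ∈ W := by
    intro z hz
    obtain ⟨s, hs⟩ := key z hz
    rw [hs]
    apply W.add_mem
    · apply W.sum_mem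
      intro q _
      split_ifs with hq
      · obtain ⟨n, hn, e⟩ := hfixq q hq z hz
        rw [e]
        exact hWN n hn _ (hr3 _).2.1
      · exact W.zero_mem
    · rw [htr_apply]; exact hW1 s
  rcases hS ahat hcomm with h0 | hbij
  · exfalso
    have hv₀X : X v₀ = 0 := hW'fix v₀ hv₀W
    obtain ⟨s, hs⟩ := key v₀ hv₀X
    have hB : ∀ q ∈ MulAction.fixedPoints P (G ⧸ P), Ft q v₀ - v₀ ∈ LinearMap.range tr := by
      intro q hq
      obtain ⟨n, hn, e⟩ := hfixq q hq v₀ hv₀X
      have hn' := inv_mem hn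
      have h1 : ρ n⁻¹ v₀ ∈ W' := by
        refine ⟨hWN _ hn' _ hv₀W, ?_⟩
        obtain ⟨s', hs'⟩ := hNrange _ hn' j s₀
        rw [hs₀] at hs'
        exact ⟨s', hs'.symm⟩
      obtain ⟨s1, t, ht, e1⟩ := hdec _ h1
      rw [e, e1, map_add, hrtr, zero_add, hr1 t ht]
      have e2 : t = ρ n⁻¹ v₀ - tr s1 := by rw [e1]; abel
      rw [e2, map_sub, ← Module.End.mul_apply, hρinv, Module.End.one_apply]
      obtain ⟨s', hs'⟩ := hNrange n hn (p - 1) s1
      rw [← htrX] at hs'
      rw [hs']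
      exact ⟨-s', by simp⟩
    have h2 : (∑ q : G ⧸ P, if q ∈ MulAction.fixedPoints P (G ⧸ P) then Ft q v₀ else 0)
        - (Nat.card (MulAction.fixedPoints P (G ⧸ P)) : k) • v₀ ∈ LinearMap.range tr := by
      have e3 : (Nat.card (MulAction.fixedPoints P (G ⧸ P)) : k) • v₀
          = ∑ q : G ⧸ P, if q ∈ MulAction.fixedPoints P (G ⧸ P) then v₀ else 0 := by
        rw [← Finset.sum_filter, Finset.sum_const, Nat.card_eq_fintype_card,
          Fintype.card_subtype, Nat.cast_smul_eq_nsmul]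
      rw [e3, ← Finset.sum_sub_distrib]
      apply Submodule.sum_mem
      intro q _
      split_ifs with hq
      · exact hB q hq
      · simp
    rw [h0, LinearMap.zero_apply] at hs
    have h3 : (Nat.card (MulAction.fixedPoints P (G ⧸ P)) : k) • v₀ ∈ LinearMap.range tr := by
      have h4 : (∑ q : G ⧸ P, if q ∈ MulAction.fixedPoints P (G ⧸ P) then Ft q v₀ else 0)
          ∈ LinearMap.range tr := ⟨-s, by rw [map_neg]; exact (eq_neg_of_add_eq_zero_left hs.symm).symm⟩
      have := Submodule.sub_mem _ h4 h2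
      simpa using this
    have hc : (Nat.card (MulAction.fixedPoints P (G ⧸ P)) : k) ≠ 0 := by
      rw [Ne, CharP.cast_eq_zero_iff k p]
      exact hNP
    have h5 := Submodule.smul_mem _ (Nat.card (MulAction.fixedPoints P (G ⧸ P)) : k)⁻¹ h3
    rw [smul_smul, inv_mul_cancel₀ hc, one_smul] at h5
    obtain ⟨s', hs'⟩ := h5
    exact hv₀ s' hs'
  · obtain ⟨y, hy⟩ := hbij.2 v'
    have hyfix : X y = 0 := by
      rw [hfix]
      intro u hu
      apply hbij.1
      rw [← Module.End.mul_apply, hcomm, Module.End.mul_apply, hy, hv'1 u hu]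
    rw [← hy]
    exact hA y hyfix

end Cfsg.Agent.Lib.Helper4ModD
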