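import Mathlib

/-!
# Vocabulary for the modular part of Brauer's theory of blocks of defect one

`A` is a `k`-algebra with a monoid homomorphism `of : G →* A` (in the application `A = k[G]`).
-/

set_option autoImplicit false

namespace Cfsg.Agent.Lib.Helper4ModDefs

variable {k G A : Type*} [Field k] [Group G] [Fintype G] [Ring A] [Algebra k A]

/-- the element `∑ f(g) g` of the group algebra. -/
noncomputable def el (of : G →* A) (f : G → k) : A := ∑ g, f g • of g

open Classical in
/-- the sum of the elements of `P`. -/
noncomputable def trP (of : G →* A) (P : Subgroup G) : A := ∑ g, if g ∈ P then of g else 0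

/-- the left ideal generated by the `u - 1`, `u ∈ P`. -/
def JP (of : G →* A) (P : Subgroup G) : Submodule A A :=
  Submodule.span A {x | ∃ u ∈ P, x = of u - 1}

/-- an idempotent which behaves like a central idempotent of `k[N_G(P)/P]`. -/
structure Good (of : G →* A) (P : Subgroup G) (a : A) : Prop where
  idem : a * a = a
  comm_tr : a * trP of P = trP of P * a
  fix : ∀ u ∈ P, (of u - 1) * a ∈ JP of P
  comm_N : ∀ n ∈ Subgroup.normalizer (P : Set G), of n * a - a * of n ∈ JP of P

/-- the `a`-part of `V^P / tr_P V` is not zero. -/
def HasU (of : G →* A) (P : Subgroup G) (a : A) (V : Type*) [AddCommGroup V] [Module A V] : Prop :=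
  ∃ v : V, (∀ u ∈ P, of u • v = v) ∧ a • v = v ∧ ∀ w : V, trP of P • w ≠ v

end Cfsg.Agent.Lib.Helper4ModDefs
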