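import Mathlib
import Cfsg.Agent.Lib.Helper4ModDefs
import Cfsg.Agent.Lib.Helper4ModD

set_option autoImplicit false

namespace Cfsg.Agent.Lib.Helper39ModTwo
open Cfsg.Agent.Lib.Helper4ModDefs Cfsg.Agent.Lib.Helper4ModD

section basic

variable {G A : Type*} [Group G] [Fintype G] [Ring A]

theorem JP_smul_eq_zero (of : G →* A) (P : Subgroup G) {V : Type*} [AddCommGroup V] [Module A V]
    {x : A} (hx : x ∈ JP of P) {z : V} (hz : ∀ u ∈ P, of u • z = z) : x • z = 0 := by
  unfold JP at hx
  induction hx using Submodule.span_induction with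
  | mem x hx =>
    obtain ⟨u, hu, rfl⟩ := hx
    rw [sub_smul, one_smul, hz u hu, sub_self]
  | zero => rw [zero_smul]
  | add x y _ _ hx hy => rw [add_smul, hx, hy, add_zero]
  | smul b x _ hx => rw [smul_eq_mul, mul_smul, hx, smul_zero]

theorem of_mul_trP (of : G →* A) (P : Subgroup G) {u : G} (hu : u ∈ P) : of u * trP of P = trP of P := by
  classical
  unfold trP
  rw [Finset.mul_sum]
  apply Fintype.sum_equiv (Equiv.mulLeft u)
  intro g
  simp only [Equiv.coe_mulLeft, Subgroup.mul_mem_cancel_left P hu]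
  split_ifs
  · rw [map_mul]
  · rw [mul_zero]

theorem of_mul_trP_comm (of : G →* A) (P : Subgroup G) {n : G} (hn : n ∈ Subgroup.normalizer (P : Set G)) :
    of n * trP of P = trP of P * of n := by
  classical
  unfold trP
  rw [Finset.mul_sum, Finset.sum_mul]
  apply Fintype.sum_equiv (MulAut.conj n).toEquiv
  intro g
  have h1 : (MulAut.conj n).toEquiv g = n * g * n⁻¹ := rfl
  rw [h1]
  have h2 : n * g * n⁻¹ ∈ P ↔ g ∈ P := (Subgroup.mem_normalizer_iff.1 hn g).symm
  simp only [h2]
  split_ifs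
  · rw [← map_mul, ← map_mul]; congr 1; group
  · rw [mul_zero, zero_mul]

end basic

open Classical in
theorem not_two {k G A : Type*} [Field k] [Group G] [Fintype G] [Ring A] [Algebra k A]
    [Module.Finite k A]
    (p : ℕ) [Fact p.Prime] [CharP k p] (of : G →* A)
    (hspan : ∀ b : A, ∃ f : G → k, b = el of f) (P : Subgroup G) (hP : Nat.card P = p)
    (hNP : ¬ p ∣ Nat.card (MulAction.fixedPoints P (G ⧸ P)))
    (a a' : A) (ha : Good of P a) (ha' : Good of P a') (h0 : a' * a = 0)
    (I : Submodule A A) [IsSimpleModule A (A ⧸ I)]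
    (h1 : HasU of P a (A ⧸ I)) (h2 : HasU of P a' (A ⧸ I)) : False := by
  obtain ⟨v, hv1, hv2, hv3⟩ := h1
  obtain ⟨v', hv'1, hv'2, hv'3⟩ := h2
  have hfin : FiniteDimensional k (A ⧸ I) :=
    Module.Finite.of_surjective (I.mkQ.restrictScalars k) (Submodule.mkQ_surjective I)
  let ρ : G →* Module.End k (A ⧸ I) := (Algebra.lsmul k k (A ⧸ I)).toMonoidHom.comp of
  have hρ : ∀ g s, ρ g s = of g • s := fun _ _ => rfl
  have htr : ∀ s : A ⧸ I, (∑ g, if g ∈ P then ρ g s else 0) = trP of P • s := by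
    intro s
    unfold trP
    rw [Finset.sum_smul]
    apply Finset.sum_congr rfl
    intro g _
    split_ifs
    · rfl
    · rw [zero_smul]
  have hS : ∀ f : Module.End k (A ⧸ I), (∀ g, f * ρ g = ρ g * f) → f = 0 ∨ Function.Bijective f := by
    intro f hf
    let F : (A ⧸ I) →ₗ[A] (A ⧸ I) :=
      { toFun := f
        map_add' := f.map_add
        map_smul' := by
          intro b s
          obtain ⟨c, rfl⟩ := hspan b
          unfold el
          simp only [Finset.sum_smul, map_sum, RingHom.id_apply, smul_assoc, map_smul]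
          apply Finset.sum_congr rfl
          intro g _
          congr 1
          exact LinearMap.congr_fun (hf g) s }
    rcases LinearMap.bijective_or_eq_zero F with h | h
    · exact Or.inr h
    · left
      exact LinearMap.ext fun s => LinearMap.congr_fun h s
  let Fix : Submodule k (A ⧸ I) :=
    { carrier := {z | ∀ u ∈ P, of u • z = z}
      zero_mem' := fun u _ => smul_zero _
      add_mem' := fun {x y} hx hy u hu => by rw [smul_add, hx u hu, hy u hu]
      smul_mem' := fun c x hx u hu => by rw [smul_comm, hx u hu] }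
  let W : Submodule k (A ⧸ I) :=
    LinearMap.range (Algebra.lsmul k k (A ⧸ I) (trP of P)) ⊔ Fix.map (Algebra.lsmul k k (A ⧸ I) a)
  have hW : ∀ w, w ∈ W ↔ ∃ s z, (∀ u ∈ P, of u • z = z) ∧ w = trP of P • s + a • z := by
    intro w
    constructor
    · intro hw
      obtain ⟨x, ⟨s, rfl⟩, y, ⟨z, hz, rfl⟩, rfl⟩ := Submodule.mem_sup.1 hw
      exact ⟨s, z, hz, rfl⟩
    · rintro ⟨s, z, hz, rfl⟩
      exact Submodule.add_mem_sup ⟨s, rfl⟩ ⟨z, hz, rfl⟩
  have key := no_between p ρ hS P hP hNP W ?_ ?_ ?_ v ?_ ?_ v' hv'1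
  · obtain ⟨s, z, hz, e⟩ := (hW v').1 key
    apply hv'3 (a' • s)
    rw [← hv'2, e, smul_add, ← mul_smul, ← mul_smul, ← mul_smul, h0, zero_smul, add_zero, ha'.comm_tr]
  · intro n hn w hw
    obtain ⟨s, z, hz, rfl⟩ := (hW w).1 hw
    rw [hW]
    refine ⟨of n • s, of n • z, ?_, ?_⟩
    · intro u hu
      have h3 : n⁻¹ * u * n ∈ P := by
        have := (Subgroup.mem_normalizer_iff.1 (Subgroup.inv_mem _ hn) u).1 hu
        simpa using this
      have h4 := hz _ h3
      calc of u • of n • z = of n • (of (n⁻¹ * u * n) • z) := by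
            rw [← mul_smul, ← mul_smul, ← map_mul, ← map_mul]; congr 2; group
        _ = of n • z := by rw [h4]
    · rw [hρ, smul_add, ← mul_smul, ← mul_smul, ← mul_smul, ← mul_smul, of_mul_trP_comm of P hn]
      congr 1
      have h5 := JP_smul_eq_zero of P (ha.comm_N n hn) hz
      rw [sub_smul, sub_eq_zero] at h5
      exact h5
  · intro s
    rw [htr, hW]
    exact ⟨s, 0, fun _ _ => smul_zero _, by rw [smul_zero, add_zero]⟩
  · intro w hw u hu
    obtain ⟨s, z, hz, rfl⟩ := (hW w).1 hw
    rw [hρ, smul_add, ← mul_smul, ← mul_smul, of_mul_trP of P hu]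
    congr 1
    have h5 := JP_smul_eq_zero of P (ha.fix u hu) hz
    rw [sub_mul, one_mul, sub_smul, sub_eq_zero] at h5
    exact h5
  · rw [hW]
    exact ⟨0, v, hv1, by rw [smul_zero, zero_add, hv2]⟩
  · intro s
    rw [htr]
    exact hv3 s

end Cfsg.Agent.Lib.Helper39ModTwo
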