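import Mathlib

set_option autoImplicit false

/-! PROJECT 7 (defect one), piece `B`: traces of pairwise non-isomorphic simple modules over an
algebraically closed field are linearly independent. -/

namespace Cfsg.Agent.Lib.Helper98ModB

universe u

/-- on a nontrivial finite dimensional space there is an endomorphism with non zero trace. -/
theorem exists_trace_ne_zero {k V : Type*} [Field k] [AddCommGroup V] [Module k V]
    [FiniteDimensional k V] [Nontrivial V] : ∃ φ : Module.End k V, LinearMap.trace k V φ ≠ 0 := by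
  obtain ⟨x, hx⟩ := exists_ne (0 : V)
  have : ¬ ∀ d : Module.Dual k V, d x = 0 := fun h => hx ((Module.forall_dual_apply_eq_zero_iff k x).1 h)
  push Not at this
  obtain ⟨d, hd⟩ := this
  refine ⟨dualTensorHom k V V (d ⊗ₜ x), ?_⟩
  rw [LinearMap.trace_eq_contract_apply, contractLeft_apply]
  exact hd

/-- density: an element of `A` acting as a prescribed `k`-endomorphism on one simple module and
as zero on the others. -/
theorem exists_acting {k A : Type*} [Field k] [IsAlgClosed k] [Ring A] [Algebra k A]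
    {ι : Type*} [Fintype ι] (S : ι → Type u) [∀ i, AddCommGroup (S i)] [∀ i, Module k (S i)]
    [∀ i, Module A (S i)] [∀ i, IsScalarTower k A (S i)] [∀ i, IsSimpleModule A (S i)]
    [∀ i, FiniteDimensional k (S i)]
    (hne : ∀ i j, i ≠ j → IsEmpty (S i ≃ₗ[A] S j)) (i₀ : ι) (φ : Module.End k (S i₀)) :
    ∃ b : A, (∀ x : S i₀, b • x = φ x) ∧ ∀ i, i ≠ i₀ → ∀ x : S i, b • x = 0 := by
  classical
  have hzero : ∀ (g : Module.End A (Π i, S i)) (i j : ι), i ≠ j → ∀ x : S j,
      g (Pi.single j x) i = 0 := by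
    intro g i j hij x
    let cmp : S j →ₗ[A] S i := (LinearMap.proj i) ∘ₗ g ∘ₗ (LinearMap.single A S j)
    rcases LinearMap.bijective_or_eq_zero cmp with h | h
    · exact ((hne j i (Ne.symm hij)).false (LinearEquiv.ofBijective cmp h)).elim
    · exact congrArg (fun F : S j →ₗ[A] S i => F x) h
  have hscal : ∀ (g : Module.End A (Π i, S i)), ∃ t : k, ∀ x : S i₀,
      g (Pi.single i₀ x) i₀ = t • x := by
    intro g
    let cmp : Module.End A (S i₀) := (LinearMap.proj i₀) ∘ₗ g ∘ₗ (LinearMap.single A S i₀)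
    obtain ⟨t, ht⟩ := (IsSimpleModule.algebraMap_end_bijective_of_isAlgClosed k).2 cmp
    refine ⟨t, fun x => ?_⟩
    have := congrArg (fun F : Module.End A (S i₀) => F x) ht
    simp only [Module.algebraMap_end_apply] at this
    exact this.symm
  let f : Module.End (Module.End A (Π i, S i)) (Π i, S i) :=
    { toFun := fun m => Pi.single i₀ (φ (m i₀))
      map_add' := fun m m' => by
        rw [Pi.add_apply, map_add, Pi.single_add]
      map_smul' := fun g m => by
        obtain ⟨t, ht⟩ := hscal g
        simp only [RingHom.id_apply, Module.End.smul_def]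
        have h1 : g m i₀ = t • m i₀ := by
          conv_lhs => rw [← Finset.univ_sum_single m, map_sum, Finset.sum_apply]
          rw [Finset.sum_eq_single i₀ (fun j _ hj => hzero g i₀ j (Ne.symm hj) _)
            (fun h => absurd (Finset.mem_univ _) h), ht]
        rw [h1, map_smul]
        funext j
        by_cases hj : j = i₀
        · subst hj
          rw [Pi.single_eq_same, ht]
        · rw [Pi.single_eq_of_ne hj, hzero g j i₀ hj] }
  obtain ⟨s, hs⟩ := (Module.Finite.fg_top : (⊤ : Submodule k (Π i, S i)).FG)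
  obtain ⟨b, hb⟩ := jacobson_density f s
  have hall : ∀ m : Π i, S i, Pi.single i₀ (φ (m i₀)) = b • m := by
    let F1 : (Π i, S i) →ₗ[k] (Π i, S i) := (LinearMap.single k S i₀) ∘ₗ φ ∘ₗ (LinearMap.proj i₀)
    let F2 : (Π i, S i) →ₗ[k] (Π i, S i) := Algebra.lsmul k k (Π i, S i) b
    have : F1 = F2 := LinearMap.ext_on hs (fun m hm => hb m hm)
    intro m
    exact congrArg (fun F : (Π i, S i) →ₗ[k] (Π i, S i) => F m) this
  refine ⟨b, fun x => ?_, fun i hi x => ?_⟩
  · have := congrFun (hall (Pi.single i₀ x)) i₀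
    rw [Pi.smul_apply, Pi.single_eq_same, Pi.single_eq_same] at this
    exact this.symm
  · have := congrFun (hall (Pi.single i x)) i
    rw [Pi.smul_apply, Pi.single_eq_same, Pi.single_eq_of_ne hi] at this
    exact this.symm

theorem trace_indep {k A : Type*} [Field k] [IsAlgClosed k] [Ring A] [Algebra k A]
    {ι : Type*} [Fintype ι] (S : ι → Type u) [∀ i, AddCommGroup (S i)] [∀ i, Module k (S i)]
    [∀ i, Module A (S i)] [∀ i, IsScalarTower k A (S i)] [∀ i, IsSimpleModule A (S i)]
    [∀ i, FiniteDimensional k (S i)]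
    (hne : ∀ i j, i ≠ j → IsEmpty (S i ≃ₗ[A] S j)) (c : ι → k)
    (hc : ∀ b : A, ∑ i, c i * LinearMap.trace k (S i) (Algebra.lsmul k k (S i) b) = 0) :
    c = 0 := by
  classical
  funext i₀
  have : Nontrivial (S i₀) := IsSimpleModule.nontrivial A (S i₀)
  obtain ⟨φ, hφ⟩ := exists_trace_ne_zero (k := k) (V := S i₀)
  obtain ⟨b, hb1, hb2⟩ := exists_acting S hne i₀ φ
  have h := hc b
  rw [Finset.sum_eq_single i₀ (fun i _ hi => ?_) (fun h => absurd (Finset.mem_univ _) h)] at h
  · have h1 : Algebra.lsmul k k (S i₀) b = φ := LinearMap.ext fun x => hb1 x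
    rw [h1] at h
    exact (mul_eq_zero.1 h).resolve_right hφ
  · have h1 : Algebra.lsmul k k (S i) b = 0 := LinearMap.ext fun x => hb2 i hi x
    rw [h1, map_zero, mul_zero]

end Cfsg.Agent.Lib.Helper98ModB
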