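import Mathlib
import Cfsg.Agent.Lib.Helper4ModDefs

set_option autoImplicit false

/-! PROJECT 7 (defect one), piece `good`, plus small general facts about `trP`, `JP`. -/

namespace Cfsg.Agent.Lib.Helper98ModGood
open Cfsg.Agent.Lib.Helper4ModDefs

section basic
variable {G A : Type*} [Group G] [Fintype G] [Ring A]
set_option linter.unusedSectionVars false

/-- left multiplication by an element of `P` fixes `trP`. -/
theorem of_mul_trP (of : G →* A) (P : Subgroup G) (u : G) (hu : u ∈ P) :
    of u * trP of P = trP of P := by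
  classical
  unfold trP
  rw [Finset.mul_sum]
  refine Fintype.sum_equiv (Equiv.mulLeft u) _ _ fun g => ?_
  have h : u * g ∈ P ↔ g ∈ P := Subgroup.mul_mem_cancel_left P hu
  change of u * (if g ∈ P then of g else 0) = if u * g ∈ P then of (u * g) else 0
  by_cases hg : g ∈ P
  · rw [if_pos hg, if_pos (h.2 hg), map_mul]
  · rw [if_neg hg, if_neg (fun h' => hg (h.1 h')), mul_zero]

/-- right multiplication by an element of `P` fixes `trP`. -/
theorem trP_mul_of (of : G →* A) (P : Subgroup G) (u : G) (hu : u ∈ P) :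
    trP of P * of u = trP of P := by
  classical
  unfold trP
  rw [Finset.sum_mul]
  refine Fintype.sum_equiv (Equiv.mulRight u) _ _ fun g => ?_
  have h : g * u ∈ P ↔ g ∈ P := Subgroup.mul_mem_cancel_right P hu
  change (if g ∈ P then of g else 0) * of u = if g * u ∈ P then of (g * u) else 0
  by_cases hg : g ∈ P
  · rw [if_pos hg, if_pos (h.2 hg), map_mul]
  · rw [if_neg hg, if_neg (fun h' => hg (h.1 h')), zero_mul]

/-- elements of the normaliser commute with `trP`. -/
theorem of_mul_trP_comm (of : G →* A) (P : Subgroup G) (n : G)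
    (hn : n ∈ Subgroup.normalizer (P : Set G)) :
    of n * trP of P = trP of P * of n := by
  classical
  unfold trP
  rw [Finset.mul_sum, Finset.sum_mul]
  refine Fintype.sum_equiv (MulAut.conj n).toEquiv _ _ fun g => ?_
  have h : g ∈ P ↔ n * g * n⁻¹ ∈ P := Subgroup.mem_normalizer_iff.1 hn g
  change of n * (if g ∈ P then of g else 0)
    = (if n * g * n⁻¹ ∈ P then of (n * g * n⁻¹) else 0) * of n
  by_cases hg : g ∈ P
  · rw [if_pos hg, if_pos (h.1 hg), ← map_mul, ← map_mul]
    congr 1
    group
  · rw [if_neg hg, if_neg (fun h' => hg (h.2 h')), mul_zero, zero_mul]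

/-- `JP` kills `trP` on the right. -/
theorem JP_mul_trP (of : G →* A) (P : Subgroup G) (x : A) (hx : x ∈ JP of P) :
    x * trP of P = 0 := by
  unfold JP at hx
  induction hx using Submodule.span_induction with
  | mem x hx =>
    obtain ⟨u, hu, rfl⟩ := hx
    rw [sub_mul, one_mul, of_mul_trP of P u hu, sub_self]
  | zero => rw [zero_mul]
  | add x y _ _ hx hy => rw [add_mul, hx, hy, add_zero]
  | smul a x _ hx => rw [smul_eq_mul, mul_assoc, hx, mul_zero]

/-- `JP` kills `P`-fixed vectors. -/
theorem JP_smul_fixed (of : G →* A) (P : Subgroup G) {V : Type*} [AddCommGroup V] [Module A V]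
    (v : V) (hv : ∀ u ∈ P, of u • v = v) (x : A) (hx : x ∈ JP of P) : x • v = 0 := by
  unfold JP at hx
  induction hx using Submodule.span_induction with
  | mem x hx =>
    obtain ⟨u, hu, rfl⟩ := hx
    rw [sub_smul, one_smul, hv u hu, sub_self]
  | zero => rw [zero_smul]
  | add x y _ _ hx hy => rw [add_smul, hx, hy, add_zero]
  | smul a x _ hx => rw [smul_eq_mul, mul_smul, hx, smul_zero]

theorem sub_one_mem_JP (of : G →* A) (P : Subgroup G) (u : G) (hu : u ∈ P) :
    of u - 1 ∈ JP of P := Submodule.subset_span ⟨u, hu, rfl⟩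

theorem trP_mul_trP (of : G →* A) (P : Subgroup G) :
    trP of P * trP of P = (Nat.card P : A) * trP of P := by
  classical
  have h0 : trP of P * trP of P = ∑ g, (if g ∈ P then of g else 0) * trP of P := by
    conv_lhs => rw [trP, Finset.sum_mul]
    rfl
  rw [h0]
  have : ∀ g : G, (if g ∈ P then of g else 0) * trP of P = if g ∈ P then trP of P else 0 := by
    intro g
    by_cases hg : g ∈ P
    · rw [if_pos hg, if_pos hg, of_mul_trP of P g hg]
    · rw [if_neg hg, if_neg hg, zero_mul]
  rw [Finset.sum_congr rfl fun g _ => this g, ← Finset.sum_filter, Finset.sum_const, nsmul_eq_mul]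
  congr 2
  rw [Nat.card_eq_fintype_card, Fintype.card_subtype]

end basic

theorem good_el {k G A : Type*} [Field k] [Group G] [Fintype G] [Ring A] [Algebra k A]
    (of : G →* A) (P Y : Subgroup G) (hY : Y ≤ Subgroup.normalizer (P : Set G))
    (hPY : ∀ n ∈ Subgroup.normalizer (P : Set G), ∃ y ∈ Y, ∃ u ∈ P, n = y * u)
    (c : G → k) (hsupp : ∀ g, g ∉ Y → c g = 0) (hcl : ∀ y ∈ Y, ∀ g, c (y * g * y⁻¹) = c g)
    (hidem : ∀ g, ∑ h, c h * c (h⁻¹ * g) = c g) : Good of P (el of c) := by
  classical
  have hfix : ∀ u ∈ P, (of u - 1) * el of c ∈ JP of P := by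
    intro u hu
    unfold el
    rw [Finset.mul_sum]
    refine Submodule.sum_mem _ fun y _ => ?_
    by_cases hy : y ∈ Y
    · have hyN := hY hy
      have h1 : y⁻¹ * u * y ∈ P := by
        have := (Subgroup.mem_normalizer_iff.1 (Subgroup.inv_mem _ hyN) u).1 hu
        simpa using this
      have h2 : (of u - 1) * c y • of y = (c y • of y) * (of (y⁻¹ * u * y) - 1) := by
        rw [mul_smul_comm, smul_mul_assoc, sub_mul, mul_sub, ← map_mul, ← map_mul, one_mul, mul_one]
        congr 3
        group
      rw [h2]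
      exact (JP of P).smul_mem _ (sub_one_mem_JP of P _ h1)
    · rw [hsupp y hy, zero_smul, mul_zero]
      exact Submodule.zero_mem _
  have hcomm : ∀ y ∈ Y, of y * el of c = el of c * of y := by
    intro y hy
    unfold el
    rw [Finset.mul_sum, Finset.sum_mul]
    refine Fintype.sum_equiv (MulAut.conj y).toEquiv _ _ fun g => ?_
    simp only [MulEquiv.toEquiv_eq_coe, EquivLike.coe_coe, MulAut.conj_apply]
    rw [hcl y hy, mul_smul_comm, smul_mul_assoc, ← map_mul, ← map_mul]
    congr 2
    group
  refine ⟨?_, ?_, hfix, ?_⟩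
  · unfold el
    rw [Finset.sum_mul]
    simp only [Finset.mul_sum]
    have h1 : ∀ h : G, ∑ g, c h • of h * c g • of g = ∑ g, (c h * c (h⁻¹ * g)) • of g := by
      intro h
      refine Fintype.sum_equiv (Equiv.mulLeft h) _ _ fun g => ?_
      simp only [Equiv.coe_mulLeft]
      rw [smul_mul_assoc, mul_smul_comm, smul_smul, ← map_mul, inv_mul_cancel_left]
    rw [Finset.sum_congr rfl fun h _ => h1 h, Finset.sum_comm]
    refine Finset.sum_congr rfl fun g _ => ?_
    rw [← Finset.sum_smul, hidem]
  · unfold el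
    rw [Finset.sum_mul, Finset.mul_sum]
    refine Finset.sum_congr rfl fun y _ => ?_
    by_cases hy : y ∈ Y
    · rw [smul_mul_assoc, mul_smul_comm, of_mul_trP_comm of P y (hY hy)]
    · rw [hsupp y hy, zero_smul, zero_mul, mul_zero]
  · intro n hn
    obtain ⟨y, hy, u, hu, rfl⟩ := hPY n hn
    have h : of (y * u) * el of c - el of c * of (y * u)
        = of y * ((of u - 1) * el of c) - (of y * el of c) * (of u - 1) := by
      rw [map_mul, ← mul_assoc (el of c), ← hcomm y hy]
      noncomm_ring
    rw [h]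
    refine Submodule.sub_mem _ ((JP of P).smul_mem _ (hfix u hu)) ?_
    exact (JP of P).smul_mem _ (sub_one_mem_JP of P u hu)

end Cfsg.Agent.Lib.Helper98ModGood
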