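import Mathlib
import Cfsg.Agent.Lib.Helper4ModDefs
import Cfsg.Agent.Lib.Helper98ModGood

set_option autoImplicit false

/-! PROJECT 7 (defect one), piece `E` (descent of `HasU` to a simple subquotient). -/

namespace Cfsg.Agent.Lib.Helper98ModE
open Cfsg.Agent.Lib.Helper4ModDefs Cfsg.Agent.Lib.Helper98ModGood

universe u

/-- `HasU` is transported by linear equivalences. -/
theorem hasU_congr {G A : Type*} [Group G] [Fintype G] [Ring A] (of : G →* A) (P : Subgroup G)
    (a : A) {V W : Type*} [AddCommGroup V] [Module A V] [AddCommGroup W] [Module A W]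
    (e : V ≃ₗ[A] W) (h : HasU of P a V) : HasU of P a W := by
  obtain ⟨v, h1, h2, h3⟩ := h
  refine ⟨e v, fun u hu => ?_, ?_, fun w hw => ?_⟩
  · rw [← map_smul, h1 u hu]
  · rw [← map_smul, h2]
  · apply h3 (e.symm w)
    apply e.injective
    rw [map_smul, e.apply_symm_apply, hw]

theorem descent_simple {G A : Type*} [Group G] [Fintype G] [Ring A] (of : G →* A) (P : Subgroup G)
    (a ε : A) {V : Type*} [AddCommGroup V] [Module A V] [IsSimpleModule A V]
    (hε : ∀ v : V, ε • v = v) (hU : HasU of P a V) :
    ∃ I : Submodule A A, IsSimpleModule A (A ⧸ I) ∧ (∀ v : A ⧸ I, ε • v = v) ∧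
      HasU of P a (A ⧸ I) := by
  obtain ⟨I, _, ⟨e⟩⟩ := isSimpleModule_iff_quot_maximal.mp (inferInstance : IsSimpleModule A V)
  refine ⟨I, IsSimpleModule.congr e.symm, fun v => ?_, hasU_congr of P a e hU⟩
  apply e.symm.injective
  rw [map_smul, hε]

theorem descent {G A : Type*} [Group G] [Fintype G] [Ring A] (of : G →* A) (P : Subgroup G)
    (a ε : A) (ha : Good of P a) {V : Type u} [AddCommGroup V] [Module A V]
    (hfl : IsFiniteLength A V) (hε : ∀ v : V, ε • v = v) (hU : HasU of P a V) :
    ∃ I : Submodule A A, IsSimpleModule A (A ⧸ I) ∧ (∀ v : A ⧸ I, ε • v = v) ∧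
      HasU of P a (A ⧸ I) := by
  induction hfl with
  | of_subsingleton =>
    obtain ⟨v, _, _, h3⟩ := hU
    exact absurd (Subsingleton.elim _ _) (h3 v)
  | @of_simple_quotient M _ _ N _ _ ih =>
    obtain ⟨v, h1, h2, h3⟩ := hU
    by_cases hq : ∃ w : M ⧸ N, trP of P • w = Submodule.Quotient.mk v
    · obtain ⟨w', hw'⟩ := hq
      obtain ⟨w, rfl⟩ := Submodule.Quotient.mk_surjective N w'
      have hmem : v - trP of P • w ∈ N := by
        rw [← Submodule.Quotient.mk_smul] at hw'
        exact (Submodule.Quotient.eq N).1 hw'.symm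
      have hv2 : a • (v - trP of P • w) = v - trP of P • (a • w) := by
        rw [smul_sub, h2, smul_smul, ha.comm_tr, mul_smul]
      apply ih
      · intro x
        apply Subtype.ext
        exact hε x
      · refine ⟨⟨a • (v - trP of P • w), N.smul_mem _ hmem⟩, fun u hu => ?_, ?_, fun n hn => ?_⟩
        · apply Subtype.ext
          change of u • a • (v - trP of P • w) = a • (v - trP of P • w)
          rw [hv2, smul_sub, h1 u hu, smul_smul, of_mul_trP of P u hu]
        · apply Subtype.ext
          change a • a • (v - trP of P • w) = a • (v - trP of P • w)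
          rw [smul_smul, ha.idem]
        · have h4 : trP of P • (n : M) = a • (v - trP of P • w) := congrArg Subtype.val hn
          rw [hv2] at h4
          apply h3 ((n : M) + a • w)
          rw [smul_add, h4, sub_add_cancel]
    · apply descent_simple of P a ε (V := M ⧸ N)
      · intro x
        obtain ⟨x, rfl⟩ := Submodule.Quotient.mk_surjective N x
        rw [← Submodule.Quotient.mk_smul, hε]
      · refine ⟨Submodule.Quotient.mk v, fun u hu => ?_, ?_, fun w hw => hq ⟨w, hw⟩⟩
        · rw [← Submodule.Quotient.mk_smul, h1 u hu]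
        · rw [← Submodule.Quotient.mk_smul, h2]

end Cfsg.Agent.Lib.Helper98ModE
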