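import Mathlib
import Cfsg.Agent.Lib.Helper4ModDefs
import Cfsg.Agent.Lib.Helper98ModGood

set_option autoImplicit false

/-! PROJECT 7 (defect one), piece `F`. -/

namespace Cfsg.Agent.Lib.Helper98ModF
open Cfsg.Agent.Lib.Helper4ModDefs Cfsg.Agent.Lib.Helper98ModGood

/-- the coefficient functional is symmetric. -/
theorem lam_comm {k G A : Type*} [Field k] [Group G] [Fintype G] [DecidableEq G] [Ring A]
    [Algebra k A] (of : G →* A) (lam : A →ₗ[k] k)
    (hlam : ∀ g, lam (of g) = if g = 1 then 1 else 0)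
    (hspan : ∀ b : A, ∃ f : G → k, b = el of f) (x y : A) : lam (x * y) = lam (y * x) := by
  obtain ⟨f, rfl⟩ := hspan x
  obtain ⟨f', rfl⟩ := hspan y
  unfold el
  simp only [Finset.sum_mul, Finset.mul_sum, map_sum]
  rw [Finset.sum_comm]
  refine Finset.sum_congr rfl fun g _ => Finset.sum_congr rfl fun h _ => ?_
  rw [smul_mul_assoc, mul_smul_comm, smul_mul_assoc, mul_smul_comm, ← map_mul, ← map_mul,
    map_smul, map_smul, map_smul, map_smul, hlam, hlam, smul_comm]
  have : h * g = 1 ↔ g * h = 1 := by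
    constructor
    · intro e; rw [eq_inv_of_mul_eq_one_left e, mul_inv_cancel]
    · intro e; rw [eq_inv_of_mul_eq_one_left e, mul_inv_cancel]
  simp only [this]

theorem exists_hasU {k G A : Type*} [Field k] [Group G] [Fintype G] [DecidableEq G] [Ring A]
    [Algebra k A]
    (p : ℕ) [Fact p.Prime] [CharP k p] (of : G →* A) (lam : A →ₗ[k] k)
    (hlam : ∀ g, lam (of g) = if g = 1 then 1 else 0)
    (hspan : ∀ b : A, ∃ f : G → k, b = el of f) (P : Subgroup G) (hP : Nat.card P = p)
    (a ε : A) (ha : Good of P a) (hεc : ∀ b, ε * b = b * ε) (hεi : ε * ε = ε)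
    (hne : lam (a * ε * trP of P) ≠ 0) :
    HasU of P a (Submodule.span A {ε * trP of P}) ∧
      ∀ v : Submodule.span A {ε * trP of P}, ε • v = v := by
  have htt : trP of P * trP of P = 0 := by
    rw [trP_mul_trP, hP]
    have : ((p : ℕ) : A) = algebraMap k A ((p : ℕ) : k) := by rw [map_natCast]
    rw [this, CharP.cast_eq_zero, map_zero, zero_mul]
  constructor
  · refine ⟨⟨a * (ε * trP of P), Submodule.mem_span_singleton.2 ⟨a, rfl⟩⟩,
      fun u hu => ?_, ?_, fun w hw => ?_⟩
    · apply Subtype.ext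
      change of u * (a * (ε * trP of P)) = a * (ε * trP of P)
      have h1 : (of u - 1) * a * trP of P = 0 := JP_mul_trP of P _ (ha.fix u hu)
      have h2 : (of u - 1) * (a * (ε * trP of P)) = 0 := by
        rw [hεc, ← mul_assoc a, ← mul_assoc, ← mul_assoc, h1, zero_mul]
      rw [sub_mul, one_mul, sub_eq_zero] at h2
      exact h2
    · apply Subtype.ext
      change a * (a * (ε * trP of P)) = a * (ε * trP of P)
      rw [← mul_assoc, ha.idem]
    · obtain ⟨w, hwm⟩ := w
      obtain ⟨b, rfl⟩ := Submodule.mem_span_singleton.1 hwm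
      have h1 : trP of P * (b * (ε * trP of P)) = a * (ε * trP of P) := congrArg Subtype.val hw
      apply hne
      rw [mul_assoc, ← h1, lam_comm of lam hlam hspan, mul_assoc, mul_assoc, htt, mul_zero,
        mul_zero, map_zero]
  · rintro ⟨v, hv⟩
    obtain ⟨b, rfl⟩ := Submodule.mem_span_singleton.1 hv
    apply Subtype.ext
    change ε * (b * (ε * trP of P)) = b * (ε * trP of P)
    rw [← mul_assoc, hεc, mul_assoc, ← mul_assoc ε, hεi]

end Cfsg.Agent.Lib.Helper98ModF
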