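import Mathlib
import Cfsg.Agent.Lib.Helper4ModDefs
import Cfsg.Agent.Lib.Helper98ModB
import Cfsg.Agent.Lib.Helper98ModE
import Cfsg.Agent.Lib.Helper98ModF
import Cfsg.Agent.Lib.Helper39ModTwo

set_option autoImplicit false

namespace Cfsg.Agent.Lib.Helper39ModAbs
open Cfsg.Agent.Lib.Helper4ModDefs Cfsg.Agent.Lib.Helper98ModB Cfsg.Agent.Lib.Helper98ModE Cfsg.Agent.Lib.Helper98ModF Cfsg.Agent.Lib.Helper39ModTwo

theorem hasU_equiv {G A : Type*} [Group G] [Fintype G] [Ring A] (of : G →* A) (P : Subgroup G) (a : A)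
    {V V' : Type*} [AddCommGroup V] [Module A V] [AddCommGroup V'] [Module A V'] (e : V ≃ₗ[A] V')
    (h : HasU of P a V) : HasU of P a V' := by
  obtain ⟨v, h1, h2, h3⟩ := h
  refine ⟨e v, fun u hu => by rw [← map_smul, h1 u hu], by rw [← map_smul, h2], fun w hw => ?_⟩
  apply h3 (e.symm w)
  apply e.injective
  rw [map_smul, LinearEquiv.apply_symm_apply, hw]

theorem pow_sub_one_eq_zero {k E : Type*} [Field k] [Ring E] [Algebra k E] (p : ℕ) [Fact p.Prime] [CharP k p]
    (x : E) (n : ℕ) (hx : x ^ p ^ n = 1) : (x - 1) ^ p ^ n = 0 := by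
  have h1 : ((Polynomial.X : Polynomial k) - 1) ^ p ^ n = Polynomial.X ^ p ^ n - 1 := by
    rw [sub_pow_char_pow, one_pow]
  have h2 := congrArg (Polynomial.aeval x) h1
  simpa [hx] using h2

theorem mod_abs {k G A : Type*} [Field k] [IsAlgClosed k] [Group G] [Fintype G] [DecidableEq G]
    [Ring A] [Algebra k A] [Module.Finite k A]
    (p : ℕ) [Fact p.Prime] [CharP k p] (of : G →* A) (lam : A →ₗ[k] k)
    (hlam : ∀ g, lam (of g) = if g = 1 then 1 else 0)
    (hspan : ∀ b : A, ∃ f : G → k, b = el of f) (P : Subgroup G) (hP : Nat.card P = p)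
    (hNP : ¬ p ∣ Nat.card (MulAction.fixedPoints P (G ⧸ P)))
    (ε : G → k) (hεc : ∀ b, el of ε * b = b * el of ε) (hεi : el of ε * el of ε = el of ε)
    {ι : Type*} [Fintype ι] (a : ι → A) (ha : ∀ i, Good of P (a i))
    (horth : ∀ i j, i ≠ j → a i * a j = 0)
    (hne : ∀ i, lam (a i * el of ε * trP of P) ≠ 0) :
    ∃ τ : ι → G → k, LinearIndependent k τ ∧ (∀ i g h, τ i (h * g * h⁻¹) = τ i g) ∧
      (∀ i s u, Commute s u → (∃ n : ℕ, u ^ p ^ n = 1) → τ i (s * u) = τ i s) ∧
      (∀ i g, ∑ u, ε u * τ i (u * g) = τ i g) := by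
  have hex : ∀ i, ∃ I : Submodule A A, IsSimpleModule A (A ⧸ I) ∧ (∀ v : A ⧸ I, el of ε • v = v) ∧
      HasU of P (a i) (A ⧸ I) := by
    intro i
    obtain ⟨h1, h2⟩ := exists_hasU p of lam hlam hspan P hP (a i) (el of ε) (ha i) hεc hεi (hne i)
    have hfl : IsFiniteLength A (Submodule.span A {el of ε * trP of P}) := by
      rw [isFiniteLength_iff_isNoetherian_isArtinian]
      have hN : IsNoetherian A A := isNoetherian_of_tower k inferInstance
      have hA : IsArtinian A A := isArtinian_of_tower k inferInstance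
      exact ⟨inferInstance, inferInstance⟩
    exact descent of P (a i) (el of ε) (ha i) hfl h2 h1
  choose I hI1 hI2 hI3 using hex
  have hfin : ∀ i, FiniteDimensional k (A ⧸ I i) := fun i =>
    Module.Finite.of_surjective ((I i).mkQ.restrictScalars k) (Submodule.mkQ_surjective (I i))
  have hniso : ∀ i j, i ≠ j → IsEmpty ((A ⧸ I i) ≃ₗ[A] (A ⧸ I j)) := by
    intro i j hij
    refine ⟨fun e => ?_⟩
    exact Cfsg.Agent.Lib.Helper39ModTwo.not_two p of hspan P hP hNP (a j) (a i) (ha j) (ha i) (horth i j hij) (I j) (hI3 j)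
      (hasU_equiv of P (a i) e (hI3 i))
  let T : ∀ i, A →ₗ[k] k := fun i =>
    (LinearMap.trace k (A ⧸ I i)).comp (Algebra.lsmul k k (A ⧸ I i)).toLinearMap
  have hT : ∀ i b, T i b = LinearMap.trace k (A ⧸ I i) (Algebra.lsmul k k (A ⧸ I i) b) := fun _ _ => rfl
  have hTcomm : ∀ i b c, T i (b * c) = T i (c * b) := by
    intro i b c
    rw [hT, hT, map_mul (Algebra.lsmul k k (A ⧸ I i)), map_mul (Algebra.lsmul k k (A ⧸ I i)),
      LinearMap.trace_mul_comm]
  refine ⟨fun i g => T i (of g), ?_, ?_, ?_, ?_⟩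
  · rw [Fintype.linearIndependent_iff]
    intro c hc
    have h0 : c = 0 := by
      apply trace_indep (fun i => A ⧸ I i) hniso c
      intro b
      obtain ⟨f, rfl⟩ := hspan b
      have h1 : ∀ i, T i (el of f) = ∑ g, f g * T i (of g) := by
        intro i
        unfold el
        rw [map_sum]
        exact Finset.sum_congr rfl fun g _ => by rw [map_smul, smul_eq_mul]
      simp_rw [← hT, h1, Finset.mul_sum]
      rw [Finset.sum_comm]
      apply Finset.sum_eq_zero
      intro g _
      have h2 := congrFun hc g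
      simp only [Finset.sum_apply, Pi.smul_apply, smul_eq_mul, Pi.zero_apply] at h2
      calc ∑ i, c i * (f g * T i (of g)) = f g * ∑ i, c i * T i (of g) := by
            rw [Finset.mul_sum]; exact Finset.sum_congr rfl fun i _ => by ring
        _ = 0 := by rw [h2, mul_zero]
    intro i
    rw [h0]; rfl
  · intro i g h
    change T i (of (h * g * h⁻¹)) = T i (of g)
    rw [map_mul, hTcomm, ← map_mul]
    congr 2
    group
  · rintro i s u hsu ⟨n, hn⟩
    change T i (of (s * u)) = T i (of s)
    rw [← sub_eq_zero, ← map_sub, map_mul]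
    have e1 : of s * of u - of s = of s * (of u - 1) := by rw [mul_sub, mul_one]
    rw [e1, hT, map_mul (Algebra.lsmul k k (A ⧸ I i))]
    apply IsNilpotent.eq_zero
    apply LinearMap.isNilpotent_trace_of_isNilpotent
    apply Commute.isNilpotent_mul_left
    · have hc : Commute (of s) (of u - 1) := by
        apply Commute.sub_right _ (Commute.one_right _)
        exact hsu.map of
      exact hc.map (Algebra.lsmul k k (A ⧸ I i))
    · refine ⟨p ^ n, ?_⟩
      rw [← map_pow, pow_sub_one_eq_zero (k := k) p (of u) n (by rw [← map_pow, hn, map_one]), map_zero]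
  · intro i g
    change ∑ u, ε u * T i (of (u * g)) = T i (of g)
    have h1 : ∑ u, ε u * T i (of (u * g)) = T i (el of ε * of g) := by
      unfold el
      rw [Finset.sum_mul, map_sum]
      exact Finset.sum_congr rfl fun u _ => by rw [smul_mul_assoc, map_smul, smul_eq_mul, map_mul]
    rw [h1, hT, hT]
    congr 1
    apply LinearMap.ext
    intro v
    change (el of ε * of g) • v = of g • v
    rw [mul_smul, hI2]

end Cfsg.Agent.Lib.Helper39ModAbs
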