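import Mathlib
import Cfsg.Agent.Lib.Helper4ModDefs
import Cfsg.Agent.Lib.Helper98ModGood
import Cfsg.Agent.Lib.Helper39ModAbs

set_option autoImplicit false

namespace Cfsg.Agent.Lib.Helper39ModMain
open Cfsg.Agent.Lib.Helper4ModDefs Cfsg.Agent.Lib.Helper98ModGood

section el

variable {k G A : Type*} [Field k] [Group G] [Fintype G] [Ring A] [Algebra k A]

theorem el_mul (of : G →* A) (f f' : G → k) :
    el of f * el of f' = el of (fun g => ∑ h, f h * f' (h⁻¹ * g)) := by
  unfold el
  rw [Finset.sum_mul_sum]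
  simp_rw [Finset.sum_smul]
  rw [Finset.sum_comm (s := Finset.univ) (t := Finset.univ) (f := fun g h => (f h * f' (h⁻¹ * g)) • of g)]
  apply Finset.sum_congr rfl
  intro h _
  apply Fintype.sum_equiv (Equiv.mulLeft h)
  intro g
  simp only [Equiv.coe_mulLeft, inv_mul_cancel_left]
  rw [smul_mul_smul_comm, map_mul]

theorem el_zero (of : G →* A) : el of (fun _ => (0 : k)) = 0 := by
  unfold el
  simp

open Classical in
theorem trP_eq_el (of : G →* A) (P : Subgroup G) : trP of P = el of (fun g => if g ∈ P then (1 : k) else 0) := by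
  unfold trP el
  apply Finset.sum_congr rfl
  intro g _
  by_cases h : g ∈ P
  · simp [h]
  · simp [h]

theorem lam_el [DecidableEq G] (of : G →* A) (lam : A →ₗ[k] k) (hlam : ∀ g, lam (of g) = if g = 1 then 1 else 0)
    (f : G → k) : lam (el of f) = f 1 := by
  unfold el
  rw [map_sum]
  simp_rw [map_smul, hlam, smul_eq_mul, mul_ite, mul_one, mul_zero]
  rw [Finset.sum_ite_eq' Finset.univ 1 f, if_pos (Finset.mem_univ _)]

theorem el_central (of : G →* A) (hspan : ∀ b : A, ∃ f : G → k, b = el of f) (ε : G → k)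
    (hεc : ∀ g h, ε (h * g * h⁻¹) = ε g) (b : A) : el of ε * b = b * el of ε := by
  have h1 : ∀ g, el of ε * of g = of g * el of ε := by
    intro g
    unfold el
    rw [Finset.sum_mul, Finset.mul_sum]
    apply Fintype.sum_equiv (MulAut.conj g⁻¹).toEquiv
    intro x
    have e : (MulAut.conj g⁻¹).toEquiv x = g⁻¹ * x * g := by simp
    rw [e]
    have e2 : ε (g⁻¹ * x * g) = ε x := by
      have := hεc x g⁻¹
      rwa [inv_inv] at this
    rw [e2, smul_mul_assoc, mul_smul_comm, ← map_mul, ← map_mul]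
    congr 2
    group
  obtain ⟨f, rfl⟩ := hspan b
  conv_lhs => rw [el.eq_def of f]
  conv_rhs => rw [el.eq_def of f]
  rw [Finset.mul_sum, Finset.sum_mul]
  apply Finset.sum_congr rfl
  intro g _
  rw [mul_smul_comm, smul_mul_assoc, h1]

end el

open Classical in
theorem mod_main {k G : Type*} [Field k] [IsAlgClosed k] [Group G] [Fintype G]
    (p : ℕ) [Fact p.Prime] [CharP k p] (P Y : Subgroup G) (hP : Nat.card P = p)
    (hNP : ¬ p ∣ Nat.card (MulAction.fixedPoints P (G ⧸ P)))
    (hY : Y ≤ Subgroup.normalizer (P : Set G))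
    (hPY : ∀ n ∈ Subgroup.normalizer (P : Set G), ∃ y ∈ Y, ∃ u ∈ P, n = y * u)
    (ε : G → k) (hεc : ∀ g h, ε (h * g * h⁻¹) = ε g) (hεi : ∀ g, ∑ h, ε h * ε (h⁻¹ * g) = ε g)
    {ι : Type*} [Fintype ι] (c : ι → G → k) (hsupp : ∀ i g, g ∉ Y → c i g = 0)
    (hcl : ∀ i, ∀ y ∈ Y, ∀ g, c i (y * g * y⁻¹) = c i g)
    (hidem : ∀ i g, ∑ h, c i h * c i (h⁻¹ * g) = c i g)
    (horth : ∀ i j, i ≠ j → ∀ g, ∑ h, c i h * c j (h⁻¹ * g) = 0)
    (hne : ∀ i, ∑ y, ∑ u, (if u ∈ P then c i y * ε (y⁻¹ * u) else 0) ≠ 0) :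
    ∃ τ : ι → G → k, LinearIndependent k τ ∧ (∀ i g h, τ i (h * g * h⁻¹) = τ i g) ∧
      (∀ i s u, Commute s u → (∃ n : ℕ, u ^ p ^ n = 1) → τ i (s * u) = τ i s) ∧
      (∀ i g, ∑ u, ε u * τ i (u * g) = τ i g) := by
  let of : G →* MonoidAlgebra k G := MonoidAlgebra.of k G
  let lam : MonoidAlgebra k G →ₗ[k] k :=
    { toFun := fun b => b.coeff 1
      map_add' := fun x y => by simp
      map_smul' := fun r x => by simp }
  have hlam : ∀ g, lam (of g) = if g = 1 then 1 else 0 := by
    intro g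
    change (MonoidAlgebra.of k G g).coeff 1 = _
    rw [MonoidAlgebra.of_apply, MonoidAlgebra.coeff_single, Finsupp.single_apply]
  have hspan : ∀ b : MonoidAlgebra k G, ∃ f : G → k, b = el of f := by
    intro b
    refine ⟨fun g => b.coeff g, ?_⟩
    unfold el
    apply MonoidAlgebra.coeff_injective
    ext m
    rw [MonoidAlgebra.coeff_sum, Finsupp.finsetSum_apply]
    have : ∀ g, ((b.coeff g • of g : MonoidAlgebra k G)).coeff m = if g = m then b.coeff g else 0 := by
      intro g
      change ((b.coeff g • MonoidAlgebra.of k G g : MonoidAlgebra k G)).coeff m = _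
      rw [MonoidAlgebra.of_apply, MonoidAlgebra.smul_single, MonoidAlgebra.coeff_single,
        Finsupp.single_apply, smul_eq_mul, mul_one]
    simp_rw [this]
    rw [Finset.sum_ite_eq' Finset.univ m (fun g => b.coeff g), if_pos (Finset.mem_univ _)]
  apply Cfsg.Agent.Lib.Helper39ModAbs.mod_abs p of lam hlam hspan P hP hNP ε (el_central of hspan ε hεc)
    (by rw [el_mul]; congr 1; funext g; exact hεi g) (fun i => el of (c i))
    (fun i => good_el of P Y hY hPY (c i) (hsupp i) (hcl i) (hidem i))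
  · intro i j hij
    rw [el_mul]
    have : (fun g => ∑ h, c i h * c j (h⁻¹ * g)) = fun _ => (0 : k) := funext (horth i j hij)
    rw [this, el_zero]
  · intro i
    rw [trP_eq_el (k := k), el_mul, el_mul, lam_el of lam hlam]
    intro h0
    apply hne i
    rw [Finset.sum_comm]
    refine Eq.trans ?_ h0
    apply Finset.sum_congr rfl
    intro u _
    by_cases hu : u ∈ P
    · simp [hu]
    · simp [hu]

end Cfsg.Agent.Lib.Helper39ModMain
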