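import Mathlib

set_option autoImplicit false

namespace Cfsg.Agent.Lib.Helper86ModSum

variable {G : Type*} [Group G] [Fintype G]

open Classical in
/-- summation over `N = Y P` with `Y ∩ P = 1`. -/
theorem sum_complement {R : Type*} [AddCommMonoid R] (N Y P : Subgroup G) (hY : Y ≤ N) (hP : P ≤ N)
    (hPY : ∀ n ∈ N, ∃ y ∈ Y, ∃ u ∈ P, n = y * u) (hd : ∀ g, g ∈ Y → g ∈ P → g = 1)
    (F : G → R) (hF : ∀ g, g ∉ N → F g = 0) :
    ∑ g, F g = ∑ y, ∑ u, if y ∈ Y ∧ u ∈ P then F (y * u) else 0 := by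
  have h1 : ∑ g, F g = ∑ g ∈ Finset.univ.filter (· ∈ N), F g := by
    rw [Finset.sum_filter]
    apply Finset.sum_congr rfl
    intro g _
    split_ifs with h
    · rfl
    · exact hF g h
  have h2 : ∑ y, ∑ u, (if y ∈ Y ∧ u ∈ P then F (y * u) else 0)
      = ∑ x ∈ (Finset.univ : Finset (G × G)).filter (fun x => x.1 ∈ Y ∧ x.2 ∈ P),
        F (x.1 * x.2) := by
    rw [Finset.sum_filter, Fintype.sum_prod_type]
  rw [h1, h2]
  symm
  apply Finset.sum_nbij (fun x => x.1 * x.2)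
  · intro x hx
    simp only [Finset.mem_filter, Finset.mem_univ, true_and] at hx ⊢
    exact N.mul_mem (hY hx.1) (hP hx.2)
  · intro x hx x' hx' h
    simp only [Finset.coe_filter, Finset.mem_univ, true_and, Set.mem_ofPred_eq] at hx hx'
    have h' : x.1 * x.2 = x'.1 * x'.2 := h
    have e : x'.1⁻¹ * x.1 = x'.2 * x.2⁻¹ := by
      rw [inv_mul_eq_iff_eq_mul, ← mul_assoc, ← h', mul_inv_cancel_right]
    have e1 := hd _ (Y.mul_mem (Y.inv_mem hx'.1) hx.1) (e ▸ P.mul_mem hx'.2 (P.inv_mem hx.2))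
    have e2 : x.1 = x'.1 := by
      rw [inv_mul_eq_one] at e1; exact e1.symm
    have e3 : x.2 = x'.2 := by
      rw [e2] at h'; exact mul_left_cancel h'
    exact Prod.ext e2 e3
  · intro n hn
    simp only [Finset.coe_filter, Finset.mem_univ, true_and, Set.mem_ofPred_eq] at hn
    obtain ⟨y, hy, u, hu, rfl⟩ := hPY n hn
    exact ⟨(y, u), by simp [hy, hu], rfl⟩
  · intro x _
    rfl

open Classical in
/-- summation of a right `P`-invariant function over `N = Y P`. -/
theorem sum_complement_inv {R : Type*} [Semiring R] (N Y P : Subgroup G) (hY : Y ≤ N) (hP : P ≤ N)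
    (hPY : ∀ n ∈ N, ∃ y ∈ Y, ∃ u ∈ P, n = y * u) (hd : ∀ g, g ∈ Y → g ∈ P → g = 1)
    (F : G → R) (hF : ∀ g, g ∉ N → F g = 0) (hinv : ∀ g, ∀ u ∈ P, F (g * u) = F g) :
    ∑ g, F g = (Nat.card P : R) * ∑ y, if y ∈ Y then F y else 0 := by
  rw [sum_complement N Y P hY hP hPY hd F hF, Finset.mul_sum]
  apply Finset.sum_congr rfl
  intro y _
  by_cases hy : y ∈ Y
  · simp only [hy, true_and, if_true]
    have : ∀ u : G, (if u ∈ P then F (y * u) else 0) = if u ∈ P then F y else 0 := by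
      intro u
      split_ifs with hu
      · exact hinv y u hu
      · rfl
    simp only [this]
    rw [← Finset.sum_filter, Finset.sum_const, nsmul_eq_mul]
    congr 2
    rw [Nat.card_eq_fintype_card, Fintype.card_subtype]
  · simp [hy]

open Classical in
/-- cutting a function down to `Y` and multiplying by `|P|`. -/
noncomputable def cut {R : Type*} [Semiring R] (Y P : Subgroup G) (E : G → R) : G → R :=
  fun g => if g ∈ Y then (Nat.card P : R) * E g else 0

theorem cut_conv {R : Type*} [CommSemiring R] (N Y P : Subgroup G) (hY : Y ≤ N) (hP : P ≤ N)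
    (hPY : ∀ n ∈ N, ∃ y ∈ Y, ∃ u ∈ P, n = y * u) (hd : ∀ g, g ∈ Y → g ∈ P → g = 1)
    (E E' : G → R) (hE : ∀ g, g ∉ N → E g = 0) (hinv : ∀ g, ∀ u ∈ P, E (g * u) = E g)
    (hinv' : ∀ g, ∀ u ∈ P, E' (u * g) = E' g) (g : G) :
    ∑ h, cut Y P E h * cut Y P E' (h⁻¹ * g) = cut Y P (fun g => ∑ h, E h * E' (h⁻¹ * g)) g := by
  classical
  by_cases hg : g ∈ Y
  · have e1 : cut Y P (fun g => ∑ h, E h * E' (h⁻¹ * g)) g
        = (Nat.card P : R) * ∑ h, E h * E' (h⁻¹ * g) := by
      simp [cut, hg]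
    rw [e1, sum_complement_inv N Y P hY hP hPY hd (fun h => E h * E' (h⁻¹ * g))
      (fun h hh => by simp [hE h hh])
      (fun h u hu => by
        rw [hinv h u hu, mul_inv_rev, mul_assoc, hinv' _ _ (P.inv_mem hu)]),
      Finset.mul_sum, Finset.mul_sum]
    apply Finset.sum_congr rfl
    intro h _
    by_cases hh : h ∈ Y
    · have : h⁻¹ * g ∈ Y := Y.mul_mem (Y.inv_mem hh) hg
      simp only [cut, hh, this, if_true]
      ring
    · simp [cut, hh]
  · have e1 : cut Y P (fun g => ∑ h, E h * E' (h⁻¹ * g)) g = 0 := by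
      simp [cut, hg]
    rw [e1]
    apply Finset.sum_eq_zero
    intro h _
    by_cases hh : h ∈ Y
    · have : h⁻¹ * g ∉ Y := fun h2 => hg (by simpa using Y.mul_mem hh h2)
      simp [cut, this]
    · simp [cut, hh]

end Cfsg.Agent.Lib.Helper86ModSum
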