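import Mathlib
import Cfsg.Prelude.Def_Blocks
import Cfsg.Prelude.Def_BlockRank
import Cfsg.Agent.Lib.Helper4ModRed
import Cfsg.Agent.Lib.Helper40ModRed
import Cfsg.Agent.Lib.Helper81Rank
import Cfsg.Agent.Lib.Helper81BB
import Cfsg.Agent.Lib.Helper80Stab
import Cfsg.Agent.Lib.Helper82Cod
import Cfsg.Agent.Lib.Helper86ModSum
import Cfsg.Agent.Lib.Helper86ModGrp

set_option autoImplicit false

namespace Cfsg.Agent.Lib.Helper86ModL
open Cfsg Cfsg.Agent.Lib.Helper4ModRed Cfsg.Agent.Lib.Helper81Subsec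
open Cfsg.Agent.Lib.Helper40ModRed Cfsg.Agent.Lib.Helper86ModSum Cfsg.Agent.Lib.Helper86ModGrp
open Cfsg.Agent.Lib.Helper80Brauer (ext ext_mem ext_not_mem ext_conv ext_coe)
open Cfsg.Agent.Lib.Helper20Local
open scoped ComplexConjugate

section E

theorem blockCoeff_singleton {K : Type*} [Group K] (τ : IrrCharacter K) (n : K) :
    blockCoeff {τ} n = (Nat.card K : ℂ)⁻¹ * ((τ : K → ℂ) 1 * conj ((τ : K → ℂ) n)) := by
  simp [blockCoeff]

variable {G : Type*} [Group G] [Fintype G] {N : Subgroup G}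

/-- the idempotent of `τ`, extended by zero. -/
noncomputable def EE (τ : IrrCharacter N) : G → ℂ := ext N (blockCoeff {τ})

theorem EE_not_mem (τ : IrrCharacter N) {g : G} (hg : g ∉ N) : EE τ g = 0 := ext_not_mem _ hg

theorem EE_mem (τ : IrrCharacter N) {g : G} (hg : g ∈ N) :
    EE τ g = (Nat.card N : ℂ)⁻¹ * ((τ : N → ℂ) 1 * conj ((τ : N → ℂ) ⟨g, hg⟩)) := by
  rw [EE, ext_mem _ hg, blockCoeff_singleton]

theorem EE_mul_right (τ : IrrCharacter N) {P : Subgroup G} (hPN : P ≤ N)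
    (hker : ∀ u : N, (u : G) ∈ P → (τ : N → ℂ) u = (τ : N → ℂ) 1) (g u : G) (hu : u ∈ P) :
    EE τ (g * u) = EE τ g := by
  by_cases hg : g ∈ N
  · have h1 : g * u ∈ N := N.mul_mem hg (hPN hu)
    rw [EE_mem _ h1, EE_mem _ hg]
    have : (τ : N → ℂ) ⟨g * u, h1⟩ = (τ : N → ℂ) ⟨g, hg⟩ :=
      Cfsg.Agent.Lib.Helper82Quot.char_mul_of_mem_ker (Cfsg.Agent.Lib.Helper82Irr.irr_isCharacter τ)
        ⟨g, hg⟩ (k := ⟨u, hPN hu⟩) (hker _ hu)
    rw [this]
  · have : g * u ∉ N := fun h => hg (by simpa using N.mul_mem h (N.inv_mem (hPN hu)))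
    rw [EE_not_mem _ hg, EE_not_mem _ this]

theorem EE_comm (τ : IrrCharacter N) (g h : G) (hh : h ∈ N) : EE τ (g * h) = EE τ (h * g) := by
  by_cases hg : g ∈ N
  · rw [EE_mem _ (N.mul_mem hg hh), EE_mem _ (N.mul_mem hh hg)]
    have := Cfsg.Agent.Lib.Helper81Base.irr_mul_comm τ ⟨g, hg⟩ ⟨h, hh⟩
    have e : (τ : N → ℂ) ⟨g * h, N.mul_mem hg hh⟩ = (τ : N → ℂ) ⟨h * g, N.mul_mem hh hg⟩ := this
    rw [e]
  · have h1 : g * h ∉ N := fun h' => hg (by simpa using N.mul_mem h' (N.inv_mem hh))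
    have h2 : h * g ∉ N := fun h' => hg (by simpa using N.mul_mem (N.inv_mem hh) h')
    rw [EE_not_mem _ h1, EE_not_mem _ h2]

theorem EE_mul_left (τ : IrrCharacter N) {P : Subgroup G} (hPN : P ≤ N)
    (hker : ∀ u : N, (u : G) ∈ P → (τ : N → ℂ) u = (τ : N → ℂ) 1) (g u : G) (hu : u ∈ P) :
    EE τ (u * g) = EE τ g := by
  rw [← EE_comm τ g u (hPN hu), EE_mul_right τ hPN hker g u hu]

theorem EE_conj (τ : IrrCharacter N) (g y : G) (hy : y ∈ N) : EE τ (y * g * y⁻¹) = EE τ g := by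
  rw [EE_comm τ _ _ (N.inv_mem hy), ← mul_assoc, inv_mul_cancel, one_mul]

open Classical in
theorem EE_conv [Fintype N] (τ τ' : IrrCharacter N) (g : G) :
    ∑ h, EE τ h * EE τ' (h⁻¹ * g) = if τ = τ' then EE τ g else 0 := by
  have h1 := congrFun (ext_conv (blockCoeff {τ}) (blockCoeff {τ'})) g
  rw [Cfsg.Agent.Lib.Helper80Stab.conv_blockCoeff] at h1
  have h2 : ∑ h, EE τ h * EE τ' (h⁻¹ * g) = ext N (blockCoeff ({τ} ∩ {τ'})) g := h1.symm
  rw [h2]
  split_ifs with h
  · subst h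
    rw [Set.inter_self]; rfl
  · have : ({τ} ∩ {τ'} : Set (IrrCharacter N)) = ∅ := by
      ext x
      simp only [Set.mem_inter_iff, Set.mem_singleton_iff, Set.mem_empty_iff_false, iff_false,
        not_and]
      rintro rfl h'
      exact h h'
    rw [this, Cfsg.Agent.Lib.Helper80Stab.blockCoeff_empty]
    by_cases hg : g ∈ N
    · rw [ext_mem _ hg]; rfl
    · rw [ext_not_mem _ hg]

end E

variable {M : Ideal AlgInt} [M.IsPrime] {p : ℕ}

open Classical in
theorem rank_ge_of {G : Type*} [Group G] [Fintype G] [Fact p.Prime] (hM : IsPModular p M)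
    (P : Sylow p G) (hP : Nat.card P = p) {B : Set (IrrCharacter G)} (hB : IsPBlock M B)
    {N : Subgroup G} (hN : N = Subgroup.normalizer ((P : Subgroup G) : Set G)) [Fintype N]
    (T : Finset (IrrCharacter N))
    (hker : ∀ τ ∈ T, ∀ u : N,
      (u : G) ∈ (P : Subgroup G) →
      (τ : N → ℂ) u
        = (τ : N → ℂ) 1)
    (hunit : ∀ τ ∈ T, ¬ MemLocalIdeal M (∑ n : N,
      (τ : N → ℂ) n * blockCoeff B (n : G)))
    (Hmain : ∀ (Y : Subgroup G)
      (_ : Y ≤ N)
      (_ : ∀ n ∈ N,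
        ∃ y ∈ Y, ∃ u ∈ (P : Subgroup G), n = y * u)
      (ε : G → kk M) (_ : ∀ g h, ε (h * g * h⁻¹) = ε g)
      (_ : ∀ g, ∑ h, ε h * ε (h⁻¹ * g) = ε g)
      (c : T → G → kk M) (_ : ∀ i g, g ∉ Y → c i g = 0)
      (_ : ∀ i, ∀ y ∈ Y, ∀ g, c i (y * g * y⁻¹) = c i g)
      (_ : ∀ i g, ∑ h, c i h * c i (h⁻¹ * g) = c i g)
      (_ : ∀ i j, i ≠ j → ∀ g, ∑ h, c i h * c j (h⁻¹ * g) = 0)
      (_ : ∀ i, ∑ y, ∑ u, (if u ∈ (P : Subgroup G) then c i y * ε (y⁻¹ * u) else 0) ≠ 0),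
      ∃ τ : T → G → kk M, LinearIndependent (kk M) τ ∧ (∀ i g h, τ i (h * g * h⁻¹) = τ i g) ∧
      (∀ i s u, Commute s u → (∃ n : ℕ, u ^ p ^ n = 1) → τ i (s * u) = τ i s) ∧
      (∀ i g, ∑ u, ε u * τ i (u * g) = τ i g))
    (Hlink : ∀ (ε : G → kk M) (_ : ∀ g, Red M (blockCoeff B g) (ε g)) (τ : T → G → kk M)
      (_ : LinearIndependent (kk M) τ) (_ : ∀ i g h, τ i (h * g * h⁻¹) = τ i g)
      (_ : ∀ i s u, Commute s u → (∃ n : ℕ, u ^ p ^ n = 1) → τ i (s * u) = τ i s)
      (_ : ∀ i g, ∑ u, ε u * τ i (u * g) = τ i g), Fintype.card T ≤ blockRank p B) :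
    T.card ≤ blockRank p B := by
  have hPr : M.IsPrime := inferInstance
  have hPN : (P : Subgroup G) ≤ N := hN ▸ Subgroup.le_normalizer
  obtain ⟨Y, hY, hPY, hd⟩ := exists_compl P
  rw [← hN] at hY hPY
  set m := (P : Subgroup G).relIndex N with hm
  have hmp : ¬ p ∣ m := not_dvd_relIndex P hPN
  have hcardN : Nat.card N = p * m := by
    have := card_normalizer (P : Subgroup G)
    rw [← hN, hP] at this
    exact this
  have hp0 : (p : ℂ) ≠ 0 := Nat.cast_ne_zero.mpr (Fact.out : p.Prime).ne_zero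
  have hBsc := Cfsg.Agent.Lib.Helper20Block.isSC_blockCoeff hPr hB
  choose ε hε' using fun g => exists_red (hBsc.2 g)
  have hε : ∀ g, Red M (blockCoeff B g) (ε g) := hε'
  let C : T → G → ℂ := fun i => cut Y (P : Subgroup G) (EE i.1)
  have hCY : ∀ (i : T) (g : G) (hg : g ∈ Y), C i g
      = (m : ℂ)⁻¹ * ((i.1 : N → ℂ) 1 * conj ((i.1 : N → ℂ) ⟨g, hY hg⟩)) := by
    intro i g hg
    simp only [C, cut, hg, if_true]
    rw [EE_mem _ (hY hg), hcardN, hP]
    push_cast
    field_simp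
  have hCn : ∀ (i : T) (g : G) (hg : g ∉ Y), C i g = 0 := by
    intro i g hg
    simp only [C, cut, hg, if_false]
  have hCl : ∀ i g, MemLocalRing M (C i g) := by
    intro i g
    by_cases hg : g ∈ Y
    · rw [hCY i g hg, ← Cfsg.Agent.Lib.Helper81Base.irr_inv]
      exact lrMul hPr (memLocalRing_inv_natCast hM hmp)
        (lrMul hPr (memLocalRing_of_isIntegral hPr (Cfsg.Agent.Lib.Helper81BB.irr_integral _ _))
          (memLocalRing_of_isIntegral hPr (Cfsg.Agent.Lib.Helper81BB.irr_integral _ _)))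
    · rw [hCn i g hg]
      exact memLocalRing_zero hPr
  choose c hc' using fun i g => exists_red (hCl i g)
  have hc : ∀ i g, Red M (C i g) (c i g) := hc'
  have A1 : ∀ g h, ε (h * g * h⁻¹) = ε g := by
    intro g h
    exact Red.unique (hε _) (by rw [hBsc.1 g h]; exact hε g)
  have A2 : ∀ g, ∑ h, ε h * ε (h⁻¹ * g) = ε g := by
    intro g
    refine Red.unique (Red.sum _ (fun h _ => Red.mul (hε h) (hε (h⁻¹ * g)))) ?_
    have := congrFun (Cfsg.Agent.Lib.Helper80Stab.conv_blockCoeff_self B) g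
    have e : ∑ h, blockCoeff B h * blockCoeff B (h⁻¹ * g) = blockCoeff B g := this
    rw [e]
    exact hε g
  have A3 : ∀ i g, g ∉ Y → c i g = 0 := by
    intro i g hg
    exact Red.unique (hc i g) (by rw [hCn i g hg]; exact red_zero)
  have A4 : ∀ i, ∀ y ∈ Y, ∀ g, c i (y * g * y⁻¹) = c i g := by
    intro i y hy g
    refine Red.unique (hc i _) ?_
    have : C i (y * g * y⁻¹) = C i g := by
      have e1 : y * g * y⁻¹ ∈ Y ↔ g ∈ Y := by
        constructor
        · intro h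
          have := Y.mul_mem (Y.mul_mem (Y.inv_mem hy) h) hy
          simpa [mul_assoc] using this
        · intro h
          exact Y.mul_mem (Y.mul_mem hy h) (Y.inv_mem hy)
      simp only [C, cut, e1, EE_conj _ g y (hY hy)]
    rw [this]
    exact hc i g
  have hconv : ∀ (i j : T) (g : G), ∑ h, C i h * C j (h⁻¹ * g) = if i = j then C i g else 0 := by
    intro i j g
    have := cut_conv N Y (P : Subgroup G) hY hPN hPY hd (EE i.1) (EE j.1)
      (fun g hg => EE_not_mem _ hg) (fun g u hu => EE_mul_right _ hPN (hker _ i.2) g u hu)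
      (fun g u hu => EE_mul_left _ hPN (hker _ j.2) g u hu) g
    rw [this]
    simp only [EE_conv]
    by_cases hij : i = j
    · subst hij
      simp [C]
    · have : i.1 ≠ j.1 := fun h => hij (Subtype.ext h)
      simp [this, hij, cut]
  have A5 : ∀ i g, ∑ h, c i h * c i (h⁻¹ * g) = c i g := by
    intro i g
    refine Red.unique (Red.sum _ (fun h _ => Red.mul (hc i h) (hc i (h⁻¹ * g)))) ?_
    rw [hconv, if_pos rfl]
    exact hc i g
  have A6 : ∀ i j, i ≠ j → ∀ g, ∑ h, c i h * c j (h⁻¹ * g) = 0 := by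
    intro i j hij g
    refine Red.unique (Red.sum _ (fun h _ => Red.mul (hc i h) (hc j (h⁻¹ * g)))) ?_
    rw [hconv, if_neg hij]
    exact red_zero
  have A7 : ∀ i, ∑ y, ∑ u, (if u ∈ (P : Subgroup G) then c i y * ε (y⁻¹ * u) else 0) ≠ 0 := by
    intro i
    have hR : Red M (∑ y, ∑ u, (if u ∈ (P : Subgroup G) then C i y * blockCoeff B (y⁻¹ * u) else 0))
        (∑ y, ∑ u, (if u ∈ (P : Subgroup G) then c i y * ε (y⁻¹ * u) else 0)) := by
      refine Red.sum _ (fun y _ => Red.sum _ (fun u _ => ?_))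
      split_ifs
      · exact Red.mul (hc i y) (hε _)
      · exact red_zero
    rw [Ne, Red.eq_zero_iff hR]
    have hcomm : ∀ a b : G, blockCoeff B (a * b) = blockCoeff B (b * a) := by
      intro a b
      have := hBsc.1 (a * b) b
      rw [← this]
      congr 1
      group
    let F : G → ℂ := fun h => (p : ℂ) * EE i.1 h * blockCoeff B h⁻¹
    have s1 := sum_complement N Y (P : Subgroup G) hY hPN hPY hd F
      (fun g hg => by simp only [F, EE_not_mem _ hg, mul_zero, zero_mul])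
    have s2 : ∀ y, ∑ u, (if u ∈ (P : Subgroup G) then C i y * blockCoeff B (y⁻¹ * u) else 0)
        = ∑ u, if y ∈ Y ∧ u ∈ (P : Subgroup G) then F (y * u) else 0 := by
      intro y
      rw [← Equiv.sum_comp (Equiv.inv G)]
      apply Finset.sum_congr rfl
      intro u _
      simp only [Equiv.inv_apply, inv_mem_iff]
      by_cases hu : u ∈ (P : Subgroup G)
      · by_cases hy : y ∈ Y
        · simp only [hu, hy, and_self, if_true, F, C, cut, hP]
          rw [EE_mul_right _ hPN (hker _ i.2) y u hu, mul_inv_rev, hcomm]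
        · simp [hu, hy, hCn i y hy]
      · simp [hu]
    simp only [s2]
    rw [← s1]
    have s3 : ∑ g, F g = ((m : ℂ)⁻¹ * (i.1 : N → ℂ) 1) *
        ∑ n : N, (i.1 : N → ℂ) n * blockCoeff B (n : G) := by
      have e1 : ∑ g, F g = ∑ n : N, F n := by
        rw [Cfsg.Agent.Lib.Helper20BrMap.sum_subgroup N F]
        apply Finset.sum_congr rfl
        intro g _
        split_ifs with hg
        · rfl
        · simp only [F, EE_not_mem _ hg, mul_zero, zero_mul]
      rw [e1, ← Equiv.sum_comp (Equiv.inv N), Finset.mul_sum]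
      apply Finset.sum_congr rfl
      intro n _
      simp only [Equiv.inv_apply, F]
      rw [EE_mem _ (n⁻¹).2, Subtype.coe_eta, Cfsg.Agent.Lib.Helper81Base.irr_inv, Complex.conj_conj,
        hcardN]
      simp only [InvMemClass.coe_inv, inv_inv]
      push_cast
      field_simp
    rw [s3]
    have hdeg : ¬ p ∣ charDegree (i.1 : N → ℂ) := by
      intro h
      have h1 := Cfsg.Agent.Lib.Helper82Cod.irr_degree_dvd_index_ker i.1
      have h2 : (P : Subgroup G).subgroupOf N ≤ Cfsg.Agent.Lib.Helper82Cod.irrKer i.1 := by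
        intro u hu
        exact hker _ i.2 u hu
      exact hmp ((h.trans h1).trans (Subgroup.index_dvd_of_le h2))
    have hm1 : ¬ MemLocalIdeal M ((m : ℂ)⁻¹) := by
      intro h
      have := liMulLeft hPr (memLocalRing_natCast hPr m) h
      have hm0 : m ≠ 0 := fun h0 => hmp (by rw [h0]; exact dvd_zero p)
      rw [mul_inv_cancel₀ (Nat.cast_ne_zero.mpr hm0)] at this
      exact not_memLocalIdeal_one hPr this
    have hd1 : ¬ MemLocalIdeal M ((i.1 : N → ℂ) 1) := by
      rw [← Cfsg.Agent.Lib.Helper81Base.charDegree_eq, memLocalIdeal_natCast_iff hM]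
      exact hdeg
    have hi1 : MemLocalRing M ((i.1 : N → ℂ) 1) :=
      memLocalRing_of_isIntegral hPr (Cfsg.Agent.Lib.Helper81BB.irr_integral _ _)
    refine not_memLocalIdeal_mul hPr (lrMul hPr (memLocalRing_inv_natCast hM hmp) hi1)
      (lrSum hPr _ _ (fun n _ => lrMul hPr
        (memLocalRing_of_isIntegral hPr (Cfsg.Agent.Lib.Helper81BB.irr_integral _ _)) (hBsc.2 _)))
      (not_memLocalIdeal_mul hPr (memLocalRing_inv_natCast hM hmp) hi1 hm1 hd1) (hunit _ i.2)
  obtain ⟨τ, h1, h2, h3, h4⟩ := Hmain Y hY hPY ε A1 A2 c A3 A4 A5 A6 A7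
  have := Hlink ε hε τ h1 h2 h3 h4
  rwa [Fintype.card_coe] at this

end Cfsg.Agent.Lib.Helper86ModL
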