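import Mathlib
import Cfsg.Prelude.Def_Blocks
import Cfsg.Prelude.Def_BlockRank
import Cfsg.Agent.Lib.Helper80Principal
import Cfsg.Agent.Lib.Helper59BLDual
import Cfsg.Agent.Lib.Helper81BB

set_option autoImplicit false

namespace Cfsg.Agent.Lib.Helper86ModLZ
open Cfsg
open Cfsg.Agent.Lib.Helper80Brauer (ext ext_mem ext_not_mem ext_conv ext_coe RV IsInv)
open Cfsg.Agent.Lib.Helper20Local
open scoped ComplexConjugate

variable {M : Ideal AlgInt} {p : ℕ}

/-- the sum of the coefficients of the principal block idempotent. -/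
theorem sum_blockCoeff_principal {G : Type*} [Group G] [Fintype G] (hPr : M.IsPrime) :
    ∑ g : G, blockCoeff (principalBlock M G) g = 1 := by
  classical
  rw [← Cfsg.Agent.Lib.Helper80Principal.om_irrOne, Cfsg.Agent.Lib.Helper20Block.om_blockCoeff,
    if_pos (Cfsg.Agent.Lib.Helper80Principal.irrOne_mem_principal hPr G)]

theorem isMulCommutative_quot {G : Type*} [Group G] (P : Subgroup G) [IsCyclic P]
    [((Subgroup.centralizer (P : Set G)).subgroupOf (Subgroup.normalizer (P : Set G))).Normal] :
    IsMulCommutative (Subgroup.normalizer (P : Set G) ⧸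
      (Subgroup.centralizer (P : Set G)).subgroupOf (Subgroup.normalizer (P : Set G))) := by
  refine ⟨⟨fun x y => ?_⟩⟩
  induction x using QuotientGroup.induction_on with
  | H a =>
    induction y using QuotientGroup.induction_on with
    | H b =>
      rw [← QuotientGroup.mk_mul, ← QuotientGroup.mk_mul, QuotientGroup.eq,
        ← Subgroup.normalizerMonoidHom_ker, MonoidHom.mem_ker]
      have hc : ∀ s t : MulAut P, s * t = t * s := by
        intro s t
        apply (IsCyclic.mulAutMulEquiv P).injective
        rw [map_mul, map_mul, mul_comm]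
      rw [map_mul, map_inv, map_mul, map_mul, hc (P.normalizerMonoidHom a), inv_mul_cancel]

theorem exists_T {G : Type*} [Group G] [Fintype G] [Fact p.Prime] (hM : IsPModular p M)
    (P : Sylow p G) (hP : Nat.card P = p)
    [Fintype (Subgroup.normalizer ((P : Subgroup G) : Set G))] :
    ∃ T : Finset (IrrCharacter (Subgroup.normalizer ((P : Subgroup G) : Set G))),
      T.card = (Subgroup.centralizer ((P : Subgroup G) : Set G)).relIndex
        (Subgroup.normalizer ((P : Subgroup G) : Set G)) ∧
      (∀ τ ∈ T, ∀ u : Subgroup.normalizer ((P : Subgroup G) : Set G),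
        (u : G) ∈ (P : Subgroup G) →
        (τ : Subgroup.normalizer ((P : Subgroup G) : Set G) → ℂ) u
          = (τ : Subgroup.normalizer ((P : Subgroup G) : Set G) → ℂ) 1) ∧
      (∀ τ ∈ T, ¬ MemLocalIdeal M (∑ n : Subgroup.normalizer ((P : Subgroup G) : Set G),
        (τ : Subgroup.normalizer ((P : Subgroup G) : Set G) → ℂ) n
          * blockCoeff (principalBlock M G) (n : G))) := by
  classical
  have hPr : M.IsPrime := IsPModular.isPrime hM
  haveI hnor : ((Subgroup.centralizer ((P : Subgroup G) : Set G)).subgroupOf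
      (Subgroup.normalizer ((P : Subgroup G) : Set G))).Normal := by
    rw [← Subgroup.normalizerMonoidHom_ker]
    infer_instance
  haveI : IsCyclic (P : Subgroup G) := isCyclic_of_prime_card hP
  have hA := isMulCommutative_quot (P : Subgroup G)
  haveI := Cfsg.Agent.Lib.Helper59BLDual.finite_hom _ hA
  haveI := Fintype.ofFinite ((Subgroup.normalizer ((P : Subgroup G) : Set G) ⧸
      (Subgroup.centralizer ((P : Subgroup G) : Set G)).subgroupOf
        (Subgroup.normalizer ((P : Subgroup G) : Set G))) →* ℂˣ)
  let f : ((Subgroup.normalizer ((P : Subgroup G) : Set G) ⧸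
      (Subgroup.centralizer ((P : Subgroup G) : Set G)).subgroupOf
        (Subgroup.normalizer ((P : Subgroup G) : Set G))) →* ℂˣ) →
      IrrCharacter (Subgroup.normalizer ((P : Subgroup G) : Set G)) := fun ψ =>
    ⟨_, Cfsg.Agent.Lib.Helper82Linear.isIrrCharacter_of_hom (ψ.comp (QuotientGroup.mk' _))⟩
  have hf : Function.Injective f := by
    intro ψ ψ' h
    ext x
    exact congrFun (congrArg Subtype.val h) x
  have hfC : ∀ ψ (n : Subgroup.normalizer ((P : Subgroup G) : Set G)),
      (n : G) ∈ Subgroup.centralizer ((P : Subgroup G) : Set G) → (f ψ).1 n = 1 := by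
    intro ψ n hn
    have : (QuotientGroup.mk' ((Subgroup.centralizer ((P : Subgroup G) : Set G)).subgroupOf
        (Subgroup.normalizer ((P : Subgroup G) : Set G)))) n = 1 := by
      rw [QuotientGroup.mk'_apply, QuotientGroup.eq_one_iff]
      exact hn
    show ((ψ ((QuotientGroup.mk' _) n) : ℂˣ) : ℂ) = 1
    rw [this, map_one, Units.val_one]
  refine ⟨Finset.univ.image f, ?_, ?_, ?_⟩
  · rw [Finset.card_image_of_injective _ hf, Finset.card_univ, ← Nat.card_eq_fintype_card,
      Cfsg.Agent.Lib.Helper59BLDual.card_hom _ hA]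
    rfl
  · intro τ hτ u hu
    obtain ⟨ψ, -, rfl⟩ := Finset.mem_image.mp hτ
    have hPC : (P : Subgroup G) ≤ Subgroup.centralizer ((P : Subgroup G) : Set G) := by
      intro a ha b hb
      have := (IsCyclic.isMulCommutative (α := (P : Subgroup G))).is_comm.comm ⟨b, hb⟩ ⟨a, ha⟩
      exact congrArg Subtype.val this
    rw [hfC ψ u (hPC hu), hfC ψ 1 (Subgroup.one_mem _)]
  · intro τ hτ
    obtain ⟨ψ, -, rfl⟩ := Finset.mem_image.mp hτ
    have hsc := Cfsg.Agent.Lib.Helper20Block.isSC_blockCoeff hPr
      (Cfsg.Agent.Lib.Helper80Principal.isPBlock_principal (M := M) G)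
    set e := blockCoeff (principalBlock M G) with he
    let A : G → ℂ := ext (Subgroup.normalizer ((P : Subgroup G) : Set G))
      (fun n => (f ψ).1 n * e (n : G))
    have hRV : RV M A := by
      intro g
      by_cases hg : g ∈ Subgroup.normalizer ((P : Subgroup G) : Set G)
      · simp only [A]
        rw [ext_mem _ hg]
        exact lrMul hPr (memLocalRing_of_isIntegral hPr
          (Cfsg.Agent.Lib.Helper81BB.irr_integral _ _)) (hsc.2 g)
      · simp only [A]
        rw [ext_not_mem _ hg]
        exact memLocalRing_zero hPr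
    have hInv : IsInv (P : Subgroup G) A := by
      intro x hx g
      have hxN : x ∈ Subgroup.normalizer ((P : Subgroup G) : Set G) := Subgroup.le_normalizer hx
      by_cases hg : g ∈ Subgroup.normalizer ((P : Subgroup G) : Set G)
      · have h1 : x * g * x⁻¹ ∈ Subgroup.normalizer ((P : Subgroup G) : Set G) :=
          Subgroup.mul_mem _ (Subgroup.mul_mem _ hxN hg) (Subgroup.inv_mem _ hxN)
        simp only [A]
        rw [ext_mem _ h1, ext_mem _ hg]
        have h2 := Cfsg.Agent.Lib.Helper81Base.irr_conj (f ψ) ⟨g, hg⟩ ⟨x, hxN⟩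
        have h3 : (f ψ).1 ⟨x * g * x⁻¹, h1⟩ = (f ψ).1 ⟨g, hg⟩ := h2
        simp only [h3, hsc.1 g x]
      · have h1 : x * g * x⁻¹ ∉ Subgroup.normalizer ((P : Subgroup G) : Set G) := by
          intro h
          apply hg
          have := Subgroup.mul_mem _ (Subgroup.mul_mem _ (Subgroup.inv_mem _ hxN) h) hxN
          simpa [mul_assoc] using this
        simp only [A]
        rw [ext_not_mem _ h1, ext_not_mem _ hg]
    have k1 := Cfsg.Agent.Lib.Helper80Brauer.sum_sub_sum_centralizer_mem hM P.2 hRV hInv
    have k2 := Cfsg.Agent.Lib.Helper80Brauer.sum_sub_sum_centralizer_mem hM P.2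
      (a := e) hsc.2 (fun x _ g => hsc.1 g x)
    have k3 : ∑ x : Subgroup.centralizer ((P : Subgroup G) : Set G), A x
        = ∑ x : Subgroup.centralizer ((P : Subgroup G) : Set G), e x := by
      apply Finset.sum_congr rfl
      intro x _
      have hxN : (x : G) ∈ Subgroup.normalizer ((P : Subgroup G) : Set G) :=
        Subgroup.centralizer_le_normalizer _ x.2
      simp only [A]
      rw [ext_mem _ hxN, hfC ψ ⟨x, hxN⟩ x.2, one_mul]
    rw [Cfsg.Agent.Lib.Helper80Principal.sum_ext, k3] at k1
    rw [he, sum_blockCoeff_principal hPr, ← he] at k2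
    intro hcon
    have := liAdd hPr (liSub hPr hcon k1) k2
    apply not_memLocalIdeal_one hPr
    convert this using 1
    ring

end Cfsg.Agent.Lib.Helper86ModLZ
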