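import Mathlib
import Cfsg.Prelude.Def_Blocks
import Cfsg.Prelude.Def_BlockRank
import Cfsg.Agent.Lib.Helper86ModL
import Cfsg.Agent.Lib.Helper86ModLZ
import Cfsg.Agent.Lib.Helper39ModMain
import Cfsg.Agent.Lib.Helper40ModAlgClosed
import Cfsg.Agent.Lib.Helper40ModRL

/-!
# Project 7 (defect one), pieces `L` and `L0`: lower bounds for the rank of a block
-/

set_option autoImplicit false

namespace Cfsg.Agent.Lib.Helper86ModRank
open Cfsg Cfsg.Agent.Lib.Helper81Local Cfsg.Agent.Lib.Helper4ModRed Cfsg.Agent.Lib.Helper81Subsec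
open Cfsg.Agent.Lib.Helper39ModMain Cfsg.Agent.Lib.Helper40ModAlgClosed Cfsg.Agent.Lib.Helper40ModRL

variable {M : Ideal AlgInt} [M.IsPrime] {p : ℕ}

/-! ### piece `L` : lower bound for the rank of a block -/
theorem rank_ge {G : Type*} [Group G] [Fintype G] [Fact p.Prime] (hM : IsPModular p M)
    (P : Sylow p G) (hP : Nat.card P = p) {B : Set (IrrCharacter G)} (hB : IsPBlock M B)
    [Fintype (Subgroup.normalizer ((P : Subgroup G) : Set G))]
    (T : Finset (IrrCharacter (Subgroup.normalizer ((P : Subgroup G) : Set G))))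
    (hker : ∀ τ ∈ T, ∀ u : Subgroup.normalizer ((P : Subgroup G) : Set G),
      (u : G) ∈ (P : Subgroup G) →
      (τ : Subgroup.normalizer ((P : Subgroup G) : Set G) → ℂ) u
        = (τ : Subgroup.normalizer ((P : Subgroup G) : Set G) → ℂ) 1)
    (hunit : ∀ τ ∈ T, ¬ MemLocalIdeal M (∑ n : Subgroup.normalizer ((P : Subgroup G) : Set G),
      (τ : Subgroup.normalizer ((P : Subgroup G) : Set G) → ℂ) n * blockCoeff B (n : G))) :
    T.card ≤ blockRank p B := by
  haveI : IsAlgClosed (kk M) := isAlgClosed_kk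
  haveI : CharP (kk M) p := Cfsg.Agent.Lib.Helper40ModRed.charP_kk hM
  have hNP : ¬ p ∣ Nat.card (MulAction.fixedPoints (P : Subgroup G) (G ⧸ (P : Subgroup G))) := by
    rw [Cfsg.Agent.Lib.Helper86ModGrp.card_fixedPoints]
    exact Cfsg.Agent.Lib.Helper86ModGrp.not_dvd_relIndex P Subgroup.le_normalizer
  exact Cfsg.Agent.Lib.Helper86ModL.rank_ge_of hM P hP hB rfl T hker hunit
    (fun Y hY hPY ε h1 h2 c h3 h4 h5 h6 h7 =>
      mod_main p (P : Subgroup G) Y hP hNP hY hPY ε h1 h2 c h3 h4 h5 h6 h7)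
    (fun ε hε τ h1 h2 h3 h4 => rank_link hM (isBlockUnion_of_isPBlock hB) ε hε τ h1 h2 h3 h4)

/-! ### piece `L0` : the principal block -/
theorem rank_principal_ge {G : Type*} [Group G] [Fintype G] [Fact p.Prime] (hM : IsPModular p M)
    (P : Sylow p G) (hP : Nat.card P = p) :
    (Subgroup.centralizer ((P : Subgroup G) : Set G)).relIndex
      (Subgroup.normalizer ((P : Subgroup G) : Set G)) ≤ blockRank p (principalBlock M G) := by
  classical
  haveI := Fintype.ofFinite (Subgroup.normalizer ((P : Subgroup G) : Set G))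
  obtain ⟨T, h1, h2, h3⟩ := Cfsg.Agent.Lib.Helper86ModLZ.exists_T hM P hP
  rw [← h1]
  exact rank_ge hM P hP (Cfsg.Agent.Lib.Helper80Principal.isPBlock_principal G) T h2 h3

end Cfsg.Agent.Lib.Helper86ModRank
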