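import Mathlib
import Cfsg.Agent.Lib.Helper4DefOneDefs
import Cfsg.Agent.Lib.Helper86ModRank
import Cfsg.Agent.Lib.Helper86DefOneCnt
import Cfsg.Agent.Lib.Helper86DefOneUnit

set_option autoImplicit false

namespace Cfsg.Agent.Lib.Helper86DefOneRk

open Cfsg Subgroup Cfsg.Agent.Lib.Helper59BLGram Cfsg.Agent.Lib.Helper59BLTw
  Cfsg.Agent.Lib.Helper4DefOneDefs Cfsg.Agent.Lib.Helper86DefOneCnt
  Cfsg.Agent.Lib.Helper86DefOneUnit
open scoped ComplexConjugate

variable {G : Type*} [Group G] [Fintype G] {p : ℕ} [Fact p.Prime] {M : Ideal AlgInt}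
  {P : Sylow p G} {H : Subgroup G} [Fintype H]
  [Fintype (normalizer ((P : Subgroup G) : Set G))]
  {B : Set (IrrCharacter G)} {b : Set (IrrCharacter H)} {θ : IrrCharacter H}
  {tw : (↥(P : Subgroup G) →* ℂˣ) → IrrCharacter H}

theorem rank_ge_e (h : Data p M P H B b θ tw) (T : Subgroup G)
    (hT : ∀ g, g ∈ T ↔ Stab P (θ : H → ℂ) g) (e : ℕ) (he : H.relIndex T = e) :
    e ≤ blockRank p B := by
  classical
  haveI : M.IsPrime := h.hM.2.1.isPrime
  have h1 := card_over h T hT e he
  let S : Finset (IrrCharacter (normalizer ((P : Subgroup G) : Set G))) :=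
    Finset.univ.filter (fun τ => ∑ n : normalizer ((P : Subgroup G) : Set G),
        (τ : normalizer ((P : Subgroup G) : Set G) → ℂ) n
          * conj (extendByZero H (θ : H → ℂ) (n : G)) ≠ 0)
  have h2 : S.card = Nat.card {τ : IrrCharacter (normalizer ((P : Subgroup G) : Set G)) //
      ∑ n : normalizer ((P : Subgroup G) : Set G),
        (τ : normalizer ((P : Subgroup G) : Set G) → ℂ) n
          * conj (extendByZero H (θ : H → ℂ) (n : G)) ≠ 0} := by
    rw [Nat.card_eq_fintype_card, Fintype.card_subtype]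
  rw [← h2] at h1
  refine h1.trans (Cfsg.Agent.Lib.Helper86ModRank.rank_ge h.hM P h.hP h.hind.2.1 S ?_ ?_)
  · intro τ hτ
    exact (unit_of_over h τ (Finset.mem_filter.mp hτ).2).1
  · intro τ hτ
    exact (unit_of_over h τ (Finset.mem_filter.mp hτ).2).2

end Cfsg.Agent.Lib.Helper86DefOneRk
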