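import Mathlib
import Cfsg.Agent.Lib.Helper4DefOneDefs
import Cfsg.Agent.Lib.Helper1DefOneTw
import Cfsg.Agent.Lib.Helper83DefOneGram
import Cfsg.Agent.Lib.Helper12DefOneKap
import Cfsg.Agent.Lib.Helper54DefOneComb
import Cfsg.Agent.Lib.Helper80DefOneFin
import Cfsg.Agent.Lib.Helper7DefOneNull
import Cfsg.Agent.Lib.Helper86DefOneRk

set_option autoImplicit false

namespace Cfsg.Agent.Lib.Helper4DefOneK

open Cfsg Subgroup Cfsg.Agent.Lib.Helper59BLGram Cfsg.Agent.Lib.Helper59BLTw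
  Cfsg.Agent.Lib.Helper4DefOneDefs Cfsg.Agent.Lib.Helper59BLDual Cfsg.Agent.Lib.Helper81Base
open Cfsg.Agent.Lib.Helper83DefOneGram (gram_tw sum_mH_regular)
open Cfsg.Agent.Lib.Helper12DefOneKap (relT_equiv relT_one_iff kapT_of_ne_one kapT_one card_orbitT)
open Cfsg.Agent.Lib.Helper54DefOneComb (comb)
open Cfsg.Agent.Lib.Helper80DefOneFin (mH_const_of_not_mem exists_mH_ne_of_mem)
open Cfsg.Agent.Lib.Helper86DefOneRk (rank_ge_e)
open scoped ComplexConjugate

variable {G : Type*} [Group G] [Fintype G] {p : ℕ} [Fact p.Prime] {M : Ideal AlgInt}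
  {P : Sylow p G} {H : Subgroup G} [Fintype H]
  [Fintype (normalizer ((P : Subgroup G) : Set G))]
  {B : Set (IrrCharacter G)} {b : Set (IrrCharacter H)} {θ : IrrCharacter H}
  {tw : (↥(P : Subgroup G) →* ℂˣ) → IrrCharacter H}

/-! ### piece `null` : rank-nullity -/
theorem card_ge (h : Data p M P H B b θ tw) (T : Subgroup G)
    (hT : ∀ g, g ∈ T ↔ Stab P (θ : H → ℂ) g) (e : ℕ) (he : H.relIndex T = e) :
    blockRank p B + (p - 1) / e ≤ Nat.card B :=
  Cfsg.Agent.Lib.Helper7DefOneNull.card_ge_core h.hP e (gram_tw h) (relT_equiv h.hH _)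
    (relT_one_iff P _) (kapT_of_ne_one h) (kapT_one h T hT e he) (card_orbitT h T hT e he)
    (mH_const_of_not_mem h) (sum_mH_regular h)

/-! ### piece `K` : the structure theorem -/
theorem main_K (h : Data p M P H B b θ tw) (T : Subgroup G)
    (hT : ∀ g, g ∈ T ↔ Stab P (θ : H → ℂ) g) (e : ℕ) (he : H.relIndex T = e) :
    e ∣ p - 1 ∧ Nat.card B = e + (p - 1) / e ∧
    ∃ (ε : ℤ) (a : IrrCharacter G → ℤ) (Λ : (↥(P : Subgroup G) →* ℂˣ) → IrrCharacter G),
      (ε = 1 ∨ ε = -1) ∧ (∀ l, l ≠ 1 → Λ l ∈ B) ∧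
      (∀ l l', l ≠ 1 → l' ≠ 1 → (Λ l = Λ l' ↔ RelT P (θ : H → ℂ) l l')) ∧
      (∀ χ ∈ B, (∀ l, l ≠ 1 → χ ≠ Λ l) → (a χ = 1 ∨ a χ = -1)) ∧
      Nat.card {χ : IrrCharacter G // χ ∈ B ∧ ∀ l, l ≠ 1 → χ ≠ Λ l} = e ∧
      Nat.card {χ : IrrCharacter G // ∃ l, l ≠ 1 ∧ χ = Λ l} = (p - 1) / e ∧
      (∀ χ ∈ B, (∀ l, l ≠ 1 → χ ≠ Λ l) → ∀ l, l ≠ 1 → mH χ (tw l) - mH χ (tw 1) = (a χ : ℂ)) ∧
      (∀ l l', l ≠ 1 → l' ≠ 1 →
        mH (Λ l) (tw l') - mH (Λ l) (tw 1) = (ε : ℂ) * ind (RelT P (θ : H → ℂ) l l')) := by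
  classical
  have hp : p.Prime := Fact.out
  have hcyc : IsCyclic ↥(P : Subgroup G) := isCyclic_of_prime_card h.hP
  have hab : IsMulCommutative ↥(P : Subgroup G) :=
    (MonoidHom.id ↥(P : Subgroup G)).isMulCommutative_of_isCyclic_of_ker_le_center (by simp)
  have : Finite (↥(P : Subgroup G) →* ℂˣ) := finite_hom _ hab
  let _ : Fintype (↥(P : Subgroup G) →* ℂˣ) := Fintype.ofFinite _
  have hcardhom : Nat.card (↥(P : Subgroup G) →* ℂˣ) = p := by rw [card_hom _ hab]; exact h.hP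
  have hnat : ∀ (χ : IrrCharacter G) (ψ : IrrCharacter H), ∃ k : ℕ, mH χ ψ = k := fun χ ψ =>
    Cfsg.Agent.Lib.Helper82Mult.exists_nat_classInner
      (Cfsg.Agent.Lib.Helper82Mult.isCharacter_restrict
        (Cfsg.Agent.Lib.Helper82Irr.irr_isCharacter χ) H)
      (Cfsg.Agent.Lib.Helper82Irr.irr_isCharacter ψ)
  choose nH hnH using hnat
  set Λ' := {l : ↥(P : Subgroup G) →* ℂˣ // l ≠ 1} with hΛ'
  set R : Λ' → Λ' → Prop := fun l l' => RelT P (θ : H → ℂ) l.1 l'.1 with hR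
  have hE := relT_equiv h.hH (θ : H → ℂ)
  have hRe : Equivalence R :=
    ⟨fun l => hE.refl _, fun h' => hE.symm h', fun h' h'' => hE.trans h' h''⟩
  set D : Λ' → IrrCharacter G → ℤ := fun l χ => (nH χ (tw l.1) : ℤ) - nH χ (tw 1) with hD
  have hDc : ∀ l χ, (D l χ : ℂ) = mH χ (tw l.1) - mH χ (tw 1) := by
    intro l χ
    simp only [hD, hnH]
    push_cast
    ring
  have hHT : H ≤ T := by
    intro g hg
    rw [hT]
    refine ⟨?_, ?_⟩
    · have : g ∈ centralizer ((P : Subgroup G) : Set G) := h.hH ▸ hg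
      exact Subgroup.centralizer_le_normalizer _ this
    · intro c c' hc
      have : c' = ⟨g, hg⟩ * c * ⟨g, hg⟩⁻¹ := Subtype.ext hc
      rw [this]
      exact irr_conj θ c ⟨g, hg⟩
  have he0 : 0 < e := by
    rw [← he]
    apply Nat.pos_of_ne_zero
    unfold Subgroup.relIndex
    exact Subgroup.index_ne_zero_of_finite
  -- the Gram matrix
  have hnot1 : ∀ l : Λ', ¬ RelT P (θ : H → ℂ) l.1 1 := fun l h' => l.2 ((relT_one_iff P _ _).mp h')
  have hgram : ∀ l l', ∑ χ, D l χ * D l' χ = (e : ℤ) + if R l l' then 1 else 0 := by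
    intro l l'
    have h1 := gram_tw h l.1 1 l'.1 1
    rw [kapT_of_ne_one h _ _ l.2, kapT_of_ne_one h _ _ l.2, kapT_one h T hT e he,
      kapT_one h T hT e he, ind_neg (hnot1 l), ind_neg l'.2, ind_pos rfl] at h1
    have h2 : ((∑ χ, D l χ * D l' χ : ℤ) : ℂ) = (((e : ℤ) + if R l l' then 1 else 0 : ℤ) : ℂ) := by
      push_cast
      have e1 : ∑ χ : IrrCharacter G, (D l χ : ℂ) * (D l' χ : ℂ)
          = ∑ χ : IrrCharacter G, (mH χ (tw l.1) - mH χ (tw 1)) *
            conj (mH χ (tw l'.1) - mH χ (tw 1)) := by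
        apply Finset.sum_congr rfl
        intro χ _
        rw [← hDc, ← hDc, map_intCast]
      rw [e1, h1, ind_eq_ite]
      split_ifs <;> ring
    exact_mod_cast h2
  have hrel : ∀ l l', R l l' → D l = D l' := by
    intro l l' hl
    funext χ
    -- ‖D l - D l'‖² = 0
    have h1 : ∑ χ, (D l χ - D l' χ) ^ 2 = 0 := by
      have e1 : ∀ χ, (D l χ - D l' χ) ^ 2
          = D l χ * D l χ - D l χ * D l' χ - D l' χ * D l χ + D l' χ * D l' χ := fun χ => by ring
      simp only [e1, Finset.sum_add_distrib, Finset.sum_sub_distrib, hgram]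
      rw [if_pos (hRe.refl l), if_pos hl, if_pos (hRe.symm hl), if_pos (hRe.refl l')]
      ring
    have h2 := (Finset.sum_eq_zero_iff_of_nonneg (fun χ _ => sq_nonneg (D l χ - D l' χ))).mp h1 χ
      (Finset.mem_univ _)
    have h3 := pow_eq_zero_iff (two_ne_zero) |>.mp h2
    linarith
  have hp1 : ¬ p ∣ orderOf (1 : G) := by
    rw [orderOf_one]; exact hp.one_lt.ne' ∘ Nat.dvd_one.mp
  have h0 : ∀ l l', ∑ χ, (D l χ - D l' χ) * (charDegree (χ : G → ℂ) : ℤ) = 0 := by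
    intro l l'
    have a1 := sum_mH_regular h l.1 l'.1 1 hp1
    have h3 : ((∑ χ, (D l χ - D l' χ) * (charDegree (χ : G → ℂ) : ℤ) : ℤ) : ℂ) = ((0 : ℤ) : ℂ) := by
      push_cast
      rw [← a1]
      apply Finset.sum_congr rfl
      intro χ _
      rw [hDc, hDc, charDegree_eq]
      ring
    exact_mod_cast h3
  -- the support is `B`
  have hsupp : ∀ χ : IrrCharacter G, (∃ l, D l χ ≠ 0) ↔ χ ∈ B := by
    intro χ
    constructor
    · rintro ⟨l, hl⟩
      by_contra hχ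
      apply hl
      have := hDc l χ
      rw [mH_const_of_not_mem h χ hχ, sub_self] at this
      exact_mod_cast this
    · intro hχ
      obtain ⟨l, hl⟩ := exists_mH_ne_of_mem h χ hχ
      have hl1 : l ≠ 1 := fun h' => hl (by rw [h'])
      refine ⟨⟨l, hl1⟩, fun h' => hl ?_⟩
      have := hDc ⟨l, hl1⟩ χ
      rw [h'] at this
      simp only [Int.cast_zero] at this
      exact (sub_eq_zero.mp this.symm)
  -- counting classes
  have hcardΛ : Fintype.card Λ' = p - 1 := by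
    rw [Fintype.card_subtype_compl, Fintype.card_subtype_eq, ← Nat.card_eq_fintype_card, hcardhom]
  have hfib : ∀ q : Quotient (⟨R, hRe⟩ : Setoid Λ'),
      Fintype.card {l : Λ' // (Quotient.mk (⟨R, hRe⟩ : Setoid Λ') l) = q} = e := by
    intro q
    induction q using Quotient.inductionOn with
    | h l₀ =>
      rw [← card_orbitT h T hT e he l₀.1 l₀.2, Nat.card_eq_fintype_card]
      apply Fintype.card_congr
      refine ⟨fun l => ⟨l.1.1, hE.symm (Quotient.exact l.2)⟩, fun l' => ⟨⟨l'.1, fun h1 => ?_⟩, ?_⟩,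
        fun l => rfl, fun l' => rfl⟩
      · have h2 := l'.2
        rw [h1] at h2
        exact hnot1 l₀ h2
      · exact Quotient.sound (hE.symm l'.2 : RelT P (θ : H → ℂ) l'.1 l₀.1)
  have hmul : p - 1 = Fintype.card (Quotient (⟨R, hRe⟩ : Setoid Λ')) * e := by
    rw [← hcardΛ, Fintype.card_congr
      (Equiv.sigmaFiberEquiv (Quotient.mk (⟨R, hRe⟩ : Setoid Λ'))).symm, Fintype.card_sigma]
    simp only [hfib, Finset.sum_const, Finset.card_univ, smul_eq_mul]
  have ht : Nat.card (Quotient (⟨R, hRe⟩ : Setoid Λ')) = (p - 1) / e := by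
    rw [Nat.card_eq_fintype_card, hmul, Nat.mul_div_cancel _ he0]
  have hne : Nonempty Λ' := by
    have : 0 < Fintype.card Λ' := by rw [hcardΛ]; have := hp.two_le; omega
    exact Fintype.card_pos_iff.mp this
  have hcardB : e + (p - 1) / e ≤ Nat.card B := by
    have h1 := rank_ge_e h T hT e he
    have h2 := card_ge h T hT e he
    omega
  have hcard : e + (p - 1) / e ≤ Nat.card {χ : IrrCharacter G // ∃ l, D l χ ≠ 0} := by
    have : Nat.card {χ : IrrCharacter G // ∃ l, D l χ ≠ 0} = Nat.card B :=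
      Nat.card_congr (Equiv.subtypeEquivRight hsupp)
    rw [this]; exact hcardB
  obtain ⟨ε, ζ, a, hε, hζ, hDζ, hDa, ha, hcardX⟩ := comb R hRe e ((p - 1) / e) he0 ht D
    (fun χ => (charDegree (χ : G → ℂ) : ℤ)) (fun χ => by exact_mod_cast charDegree_pos χ)
    hrel hgram h0 hcard
  have hε0 : ε ≠ 0 := by rcases hε with h' | h' <;> rw [h'] <;> norm_num
  have hζB : ∀ l, ζ l ∈ B := by
    intro l
    rw [← hsupp]
    refine ⟨l, ?_⟩
    rw [hDζ l l, if_pos (hRe.refl l), mul_one]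
    exact hε0
  obtain ⟨l₀⟩ := hne
  set Λf : (↥(P : Subgroup G) →* ℂˣ) → IrrCharacter G :=
    fun l => if hl : l ≠ 1 then ζ ⟨l, hl⟩ else ζ l₀ with hΛf
  have hΛf1 : ∀ (l : ↥(P : Subgroup G) →* ℂˣ) (hl : l ≠ 1), Λf l = ζ ⟨l, hl⟩ := fun l hl => by
    simp only [hΛf, dif_pos hl]
  have hiff : ∀ χ : IrrCharacter G, (∀ l, l ≠ 1 → χ ≠ Λf l) ↔ ∀ l : Λ', χ ≠ ζ l := by
    intro χ
    constructor
    · intro h' l
      rw [← hΛf1 l.1 l.2]
      exact h' l.1 l.2
    · intro h' l hl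
      rw [hΛf1 l hl]
      exact h' _
  have hcX : Nat.card {χ : IrrCharacter G // χ ∈ B ∧ ∀ l, l ≠ 1 → χ ≠ Λf l} = e := by
    rw [← hcardX]
    apply Nat.card_congr
    exact Equiv.subtypeEquivRight (fun χ => by rw [hsupp, hiff])
  have hcY : Nat.card {χ : IrrCharacter G // ∃ l, l ≠ 1 ∧ χ = Λf l} = (p - 1) / e := by
    rw [← ht]
    symm
    apply Nat.card_congr
    refine Equiv.ofBijective (fun q => Quotient.liftOn q
      (fun l => (⟨ζ l, l.1, l.2, (hΛf1 l.1 l.2).symm⟩ :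
        {χ : IrrCharacter G // ∃ l, l ≠ 1 ∧ χ = Λf l}))
      (fun l l' hl => Subtype.ext ((hζ l l').mpr hl))) ⟨?_, ?_⟩
    · intro q q'
      induction q using Quotient.inductionOn with
      | h l =>
        induction q' using Quotient.inductionOn with
        | h l' =>
          intro hq
          exact Quotient.sound ((hζ l l').mp (congrArg Subtype.val hq))
    · rintro ⟨χ, l, hl, rfl⟩
      exact ⟨Quotient.mk _ ⟨l, hl⟩, Subtype.ext (hΛf1 l hl).symm⟩
  refine ⟨⟨_, by rw [hmul]; ring⟩, ?_, ε, a, Λf, hε, ?_, ?_, ?_, hcX, hcY, ?_, ?_⟩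
  · -- cardinality of B
    rw [← hcY]
    conv_rhs => rw [← hcX]
    have e1 : Nat.card B = Nat.card {χ : IrrCharacter G // χ ∈ B} := rfl
    rw [e1, Nat.card_eq_fintype_card, Nat.card_eq_fintype_card, Nat.card_eq_fintype_card,
      Fintype.card_subtype, Fintype.card_subtype, Fintype.card_subtype,
      ← Finset.card_union_of_disjoint]
    · congr 1
      ext χ
      simp only [Finset.mem_filter, Finset.mem_univ, true_and, Finset.mem_union]
      constructor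
      · intro hχ
        by_cases hc : ∃ l, l ≠ 1 ∧ χ = Λf l
        · exact Or.inr hc
        · push Not at hc
          exact Or.inl ⟨hχ, hc⟩
      · rintro (h' | ⟨l, hl, rfl⟩)
        · exact h'.1
        · rw [hΛf1 l hl]; exact hζB _
    · rw [Finset.disjoint_filter]
      rintro χ _ ⟨_, h1⟩ ⟨l, hl, h2⟩
      exact h1 l hl h2
  · intro l hl
    rw [hΛf1 l hl]; exact hζB _
  · intro l l' hl hl'
    rw [hΛf1 l hl, hΛf1 l' hl']
    exact hζ ⟨l, hl⟩ ⟨l', hl'⟩
  · intro χ hχ hne'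
    exact ha χ ((hiff χ).mp hne') ((hsupp χ).mpr hχ)
  · intro χ _ hne' l hl
    rw [← hDc ⟨l, hl⟩ χ, hDa χ ((hiff χ).mp hne') ⟨l, hl⟩]
  · intro l l' hl hl'
    rw [hΛf1 l hl, ← hDc ⟨l', hl'⟩, hDζ ⟨l, hl⟩ ⟨l', hl'⟩, ind_eq_ite]
    push_cast
    rfl


end Cfsg.Agent.Lib.Helper4DefOneK
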