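import Cfsg.Agent.Lib.Helper81CycGDefs
import Cfsg.Agent.Lib.Helper81Orth2
import Cfsg.Agent.Lib.Helper81Second3
import Cfsg.Agent.Lib.Helper81Part
import Cfsg.Agent.Lib.Helper54DefOneComb
import Cfsg.Agent.Lib.Helper4DefOneK
import Cfsg.Agent.Lib.Helper78IndPair
import Cfsg.Agent.Lib.Helper80Conj
import Cfsg.Agent.Lib.Helper80Full2
import Cfsg.Agent.Lib.Helper29Basic

set_option autoImplicit false

namespace Cfsg.Agent.Lib.H81CycGBCJ
open Cfsg
open Cfsg.Agent.Lib.Helper81CycDefs Cfsg.Agent.Lib.Helper81CycGDefs Cfsg.Agent.Lib.Helper4DefOneDefs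
open Cfsg.Agent.Lib.Helper80Transport Cfsg.Agent.Lib.Helper82Quot Cfsg.Agent.Lib.Helper81Base
open Cfsg.Agent.Lib.Helper80Trace Cfsg.Agent.Lib.Helper80Incl
open scoped ComplexConjugate

universe u

variable {G : Type u} [Group G] [Fintype G] {p : ℕ} [Fact p.Prime] {M : Ideal AlgInt}

/-- piece `G-BCJ`: the blocks of `C_G(Q)` inducing `B` are conjugate. -/
theorem cj_blocks (hM : IsPModular p M) {B : Set (IrrCharacter G)} {P Q : Subgroup G}
    {c : Set (IrrCharacter (Subgroup.centralizer (P : Set G)))}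
    {f : Set (IrrCharacter (Subgroup.centralizer (Q : Set G)))}
    (hmax : IsMaximalBrauerPair p M B P c) (hcyc : IsCyclic P) (hle : PLE p M ⟨Q, f⟩ ⟨P, c⟩)
    (f' : Set (IrrCharacter (Subgroup.centralizer (Q : Set G))))
    (hf' : IsInducedBlock M (Subgroup.centralizer (Q : Set G)) f' B) :
    ∃ n ∈ Subgroup.normalizer (Q : Set G), ∀ ψ ∈ f, ∃ ψ' ∈ f',
      IsConjCharOf (Subgroup.centralizer (Q : Set G)) n
        (ψ : Subgroup.centralizer (Q : Set G) → ℂ) (ψ' : Subgroup.centralizer (Q : Set G) → ℂ) := by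
  classical
  have hPc : IsBrauerPair p M P c := hmax.1.1
  have hQP : Q ≤ P := hle.le
  have hQp : IsPGroup p Q := hPc.1.to_le hQP
  have hpair : IsBrauerPairOf p M B Q f' :=
    Cfsg.Agent.Lib.Helper78IndPair.isBrauerPairOf_of_induced hM hQp hf'
  obtain ⟨x, hx⟩ := Cfsg.Agent.Lib.Helper80Conj.exists_conj_le_maximal hM hmax (a := ⟨Q, f'⟩) hpair
  have hxle : Cfsg.Agent.Lib.Helper87Sylow.cj x Q ≤ P := hx.le
  have hxQ : Cfsg.Agent.Lib.Helper87Sylow.cj x Q = Q := by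
    apply Cfsg.Agent.Lib.Helper29Basic.eq_of_card_eq_of_le_cyclic hcyc hxle hQP
    exact Cfsg.Agent.Lib.Helper87Sylow.card_cj x Q
  have key : ∀ (R : Subgroup G) (hR : R = Q) (g : Set (IrrCharacter (Subgroup.centralizer (R : Set G))))
      (hg : ∀ ξ' ∈ g, ∃ ξ ∈ f', ∀ (k : Subgroup.centralizer (Q : Set G))
        (k' : Subgroup.centralizer (R : Set G)), (k' : G) = x * (k : G) * x⁻¹ →
          (ξ' : _ → ℂ) k' = (ξ : Subgroup.centralizer (Q : Set G) → ℂ) k)
      (hle' : PLE p M ⟨R, g⟩ ⟨P, c⟩),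
      ∀ ψ ∈ f, ∃ ξ ∈ f', ∀ (k k' : Subgroup.centralizer (Q : Set G)), (k' : G) = x * (k : G) * x⁻¹ →
          (ψ : _ → ℂ) k' = (ξ : Subgroup.centralizer (Q : Set G) → ℂ) k := by
    intro R hR g hg hle'
    subst hR
    have : g = f := unique_le hM _ ⟨P, c⟩ rfl hPc R g f hle' hle
    subst this
    exact hg
  have h1 := key _ hxQ (conjBlock Q x f') (fun ξ' hξ' => hξ') hx
  refine ⟨x⁻¹, ?_, ?_⟩
  · apply Subgroup.inv_mem
    rw [Subgroup.mem_normalizer_iff]
    intro y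
    constructor
    · intro hy
      rw [← hxQ]
      exact ⟨y, hy, rfl⟩
    · intro hy
      rw [← hxQ] at hy
      obtain ⟨z, hz, hzy⟩ := hy
      have : z = y := by
        have h2 : x * z * x⁻¹ = x * y * x⁻¹ := hzy
        exact mul_left_cancel (mul_right_cancel h2)
      exact this ▸ hz
  · intro ψ hψ
    obtain ⟨ξ, hξ, h2⟩ := h1 ψ hψ
    refine ⟨ξ, hξ, ?_⟩
    intro k k' hk
    refine (h2 k' k ?_).symm
    rw [hk]
    group

end Cfsg.Agent.Lib.H81CycGBCJ
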