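import Mathlib
import Cfsg.Agent.Lib.Helper81KulDefs

/-!
# Project 84 (CYC): blocks with cyclic defect groups, `l(B) ≥ e`.  Vocabulary of the algebra part.

`A` is a `k`-algebra with a monoid homomorphism `of : G →* A` (in the application `A = k[G]`).
-/

set_option autoImplicit false

namespace Cfsg.Agent.Lib.Helper81CycDefs

/-- `k[X]`: the span of the `of g`, `g ∈ X`. -/
def kS (k : Type*) {G A : Type*} [Field k] [Group G] [Ring A] [Algebra k A] (of : G →* A)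
    (X : Set G) : Submodule k A := Submodule.span k (of '' X)

/-- `X` is a left transversal of `K` in `L`. -/
def IsLT {G : Type*} [Group G] (X : Finset G) (K L : Subgroup G) : Prop :=
  (∀ x ∈ X, x ∈ L) ∧ ∀ g ∈ L, ∃! x, x ∈ X ∧ x⁻¹ * g ∈ K

/-- the local structure: `β` a central idempotent of `k C`, `β k C ≅ Mat_n(k[z]/z^q)`:
`i` an idempotent with `i k C i = k[z] i`, `β ∈ k C i k C`. -/
structure LS (k : Type*) {G A : Type*} [Field k] [Group G] [Ring A] [Algebra k A] (of : G →* A)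
    (C : Subgroup G) (q : ℕ) (β z i : A) {n : ℕ} (x y : Fin n → A) : Prop where
  βC : β ∈ kS k of C
  ββ : β * β = β
  βc : ∀ a ∈ kS k of C, a * β = β * a
  zC : z ∈ kS k of C
  zc : ∀ a ∈ kS k of C, a * z = z * a
  βz : β * z = z
  zq : z ^ q = 0
  iC : i ∈ kS k of C
  ii : i * i = i
  βi : β * i = i
  xC : ∀ s, x s ∈ kS k of C
  yC : ∀ s, y s ∈ kS k of C
  dec : β = ∑ s, x s * i * y s
  cor : ∀ a ∈ kS k of C, ∃ r : ℕ → k, i * a * i = ∑ m ∈ Finset.range q, r m • (z ^ m * i)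
  ne : z ^ (q - 1) * i ≠ 0
  q2 : 2 ≤ q

/-- `w ∈ i k[t₀ C] i` is invertible in the corner `i k T i`. -/
structure WS (k : Type*) {G A : Type*} [Field k] [Group G] [Ring A] [Algebra k A] (of : G →* A)
    (C : Subgroup G) (t₀ : G) (e : ℕ) (z i w w' : A) (c₀ : k) : Prop where
  wS : w ∈ kS k of {g | t₀⁻¹ * g ∈ C}
  w'S : w' ∈ kS k of {g | t₀ * g ∈ C}
  iw : i * w = w
  wi : w * i = w
  iw' : i * w' = w'
  w'i : w' * i = w'
  ww' : w * w' = i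
  w'w : w' * w = i
  kz : ∃ d, z * w = d * z
  kz' : ∃ d, z * w' = d * z
  rz : ∀ j : ℕ, ∃ d, w * (z ^ j * i) = (z ^ j * i) * d
  rz' : ∀ j : ℕ, ∃ d, w' * (z ^ j * i) = (z ^ j * i) * d
  we : ∃ n, w ^ e = c₀ • i + n * z
  c₀ : c₀ ≠ 0

/-- the group theoretical data: `D ≤ C ⊴ H`, `C ≤ T ≤ H`, `T / C` cyclic of order `e` generated by
`t₀`, `D ∩ D^g = 1` for `g ∉ H`, `x₀` of order `p`, `C = C_T(x₀)`. -/
structure GD {G : Type*} [Group G] (p : ℕ) (D C T H : Subgroup G) (t₀ x₀ : G) (e : ℕ) : Prop where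
  DC : D ≤ C
  CT : C ≤ T
  TH : T ≤ H
  nC : ∀ h ∈ H, ∀ g ∈ C, h * g * h⁻¹ ∈ C
  t₀T : t₀ ∈ T
  cov : ∀ t ∈ T, ∃ m < e, (t₀ ^ m)⁻¹ * t ∈ C
  inj : ∀ m < e, m ≠ 0 → t₀ ^ m ∉ C
  te : t₀ ^ e ∈ C
  epos : 0 < e
  TI : ∀ g, g ∉ H → ∀ d ∈ D, g * d * g⁻¹ ∈ D → d = 1
  x₀C : x₀ ∈ C
  ord : orderOf x₀ = p
  x₀c : ∀ g ∈ C, g * x₀ = x₀ * g
  x₀T : ∀ g ∈ T, g ∉ C → g * x₀ ≠ x₀ * g
  x₀n : ∀ g ∈ T, g⁻¹ * x₀ * g ∈ Subgroup.zpowers x₀

/-- the block theoretical data. -/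
structure BD (k : Type*) {G A : Type*} [Field k] [Group G] [Ring A] [Algebra k A] (of : G →* A)
    (lam : A →ₗ[k] k) (D C T H : Subgroup G) (β c ε : A) (X : Finset G) : Prop where
  βT : ∀ t ∈ T, of t * β = β * of t
  βH : ∀ h ∈ H, h ∉ T → β * (of h * β * of h⁻¹) = 0
  cC : c ∈ kS k of C
  cD : ∀ d ∈ D, of d * c = c * of d
  XT : IsLT X D C
  ctr : β = ∑ x ∈ X, of x * c * of x⁻¹
  εc : ∀ a, ε * a = a * ε
  εε : ε * ε = ε
  br : ∀ g ∈ C, lam ((ε * β - β) * of g) = 0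

/-- the `μ`-eigenspace of `w` on `(ker z ∩ i V) / z^(q-1) i V` is not zero. -/
def HasW {k A : Type*} [Field k] [Ring A] [Algebra k A] (i z w : A) (q : ℕ) (μ : k)
    (V : Type*) [AddCommGroup V] [Module A V] : Prop :=
  ∃ v : V, i • v = v ∧ z • v = 0 ∧ w • v = algebraMap k A μ • v ∧ ∀ u : V, (z ^ (q - 1) * i) • u ≠ v

end Cfsg.Agent.Lib.Helper81CycDefs
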