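import Mathlib
import Cfsg.Agent.Lib.Helper81CycDefs

set_option autoImplicit false

namespace Cfsg.Agent.Lib.H81CycGD1
open Cfsg.Agent.Lib.Helper81CycDefs

universe u

/-- a homomorphism into a finite cyclic group: a generator of the image -/
theorem exists_gen_of_hom {T Q : Type*} [Group T] [Finite T] [Group Q] [IsCyclic Q] (φ : T →* Q) :
    ∃ t₀ : T, (∀ t, ∃ m < Nat.card φ.range, φ ((t₀ ^ m)⁻¹ * t) = 1) ∧
      (∀ m < Nat.card φ.range, m ≠ 0 → φ (t₀ ^ m) ≠ 1) ∧ φ (t₀ ^ Nat.card φ.range) = 1 := by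
  have hcyc : IsCyclic φ.range := inferInstance
  have hfin : Finite φ.range := by
    have : Finite (Set.range φ) := Set.finite_range φ
    exact this
  obtain ⟨⟨_, t₀, rfl⟩, hgen⟩ := IsCyclic.exists_generator (α := φ.range)
  have hord : orderOf (φ t₀) = Nat.card φ.range := by
    rw [← orderOf_eq_card_of_forall_mem_zpowers hgen]
    exact (Subgroup.orderOf_mk (H := φ.range) (φ t₀) ⟨t₀, rfl⟩).symm
  refine ⟨t₀, ?_, ?_, ?_⟩
  · intro t
    have h1 := hgen ⟨φ t, t, rfl⟩
    rw [← mem_powers_iff_mem_zpowers] at h1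
    obtain ⟨m, hm⟩ := h1
    have hm' : φ t₀ ^ m = φ t := congrArg Subtype.val hm
    refine ⟨m % Nat.card φ.range, Nat.mod_lt _ Nat.card_pos, ?_⟩
    rw [map_mul, map_inv, map_pow, ← hord, pow_mod_orderOf, hm', inv_mul_cancel]
  · intro m hm hm0 h1
    rw [map_pow] at h1
    have := orderOf_dvd_of_pow_eq_one h1
    rw [hord] at this
    exact absurd (Nat.le_of_dvd (Nat.pos_of_ne_zero hm0) this) (by omega)
  · rw [map_pow, ← hord, pow_orderOf_eq_one]

/-- piece `N-GD1`: `T / C_G(x₀)` is cyclic of order dividing `p - 1`. -/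
theorem exists_gen {G : Type*} [Group G] [Fintype G] (p : ℕ) [Fact p.Prime] {x₀ : G}
    (ho : orderOf x₀ = p) (T : Subgroup G)
    (hCT : Subgroup.centralizer ((Subgroup.zpowers x₀ : Subgroup G) : Set G) ≤ T)
    (hTN : T ≤ Subgroup.normalizer ((Subgroup.zpowers x₀ : Subgroup G) : Set G)) (e : ℕ)
    (he : (Subgroup.centralizer ((Subgroup.zpowers x₀ : Subgroup G) : Set G)).relIndex T = e) :
    e ∣ p - 1 ∧ ∃ t₀ ∈ T,
      (∀ t ∈ T, ∃ m < e, (t₀ ^ m)⁻¹ * t ∈
        Subgroup.centralizer ((Subgroup.zpowers x₀ : Subgroup G) : Set G)) ∧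
      (∀ m < e, m ≠ 0 → t₀ ^ m ∉
        Subgroup.centralizer ((Subgroup.zpowers x₀ : Subgroup G) : Set G)) ∧
      t₀ ^ e ∈ Subgroup.centralizer ((Subgroup.zpowers x₀ : Subgroup G) : Set G) := by
  have hp : p.Prime := Fact.out
  set Z : Subgroup G := Subgroup.zpowers x₀ with hZ
  have hcard : Nat.card Z = p := by rw [hZ, Nat.card_zpowers, ho]
  have hZc : IsCyclic Z := by rw [hZ]; infer_instance
  have hfact : Fact (Nat.card Z).Prime := ⟨by rw [hcard]; exact hp⟩
  have hAc : IsCyclic (MulAut Z) :=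
    isCyclic_of_surjective (IsCyclic.mulAutMulEquiv Z).symm (IsCyclic.mulAutMulEquiv Z).symm.surjective
  set φ : T →* MulAut Z := Z.normalizerMonoidHom.comp (Subgroup.inclusion hTN) with hφ
  have hker : ∀ t : T, φ t = 1 ↔ (t : G) ∈ Subgroup.centralizer (Z : Set G) := by
    intro t
    have h1 : φ t = 1 ↔ Subgroup.inclusion hTN t ∈ Z.normalizerMonoidHom.ker := by
      rw [MonoidHom.mem_ker]; rfl
    rw [h1, Subgroup.normalizerMonoidHom_ker, Subgroup.mem_subgroupOf]
    rfl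
  have hkerS : φ.ker = (Subgroup.centralizer (Z : Set G)).subgroupOf T := by
    ext t
    rw [MonoidHom.mem_ker, hker, Subgroup.mem_subgroupOf]
  have hrange : Nat.card φ.range = e := by
    rw [← he, Subgroup.relIndex, ← hkerS, Subgroup.index_ker]
  refine ⟨?_, ?_⟩
  · rw [← hrange]
    have h1 := Subgroup.card_subgroup_dvd_card φ.range
    rwa [IsCyclic.card_mulAut, hcard, Nat.totient_prime hp] at h1
  · obtain ⟨t₀, h1, h2, h3⟩ := exists_gen_of_hom φ
    rw [hrange] at h1 h2 h3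
    refine ⟨t₀, t₀.2, ?_, ?_, ?_⟩
    · intro t ht
      obtain ⟨m, hm, h⟩ := h1 ⟨t, ht⟩
      exact ⟨m, hm, by simpa using (hker _).mp h⟩
    · intro m hm hm0 h
      exact h2 m hm hm0 ((hker _).mpr (by simpa using h))
    · simpa using (hker _).mp h3

end Cfsg.Agent.Lib.H81CycGD1
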