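import Mathlib
import Cfsg.Agent.Lib.Helper81CycDefs

set_option autoImplicit false

namespace Cfsg.Agent.Lib.H81CycGD2
open Cfsg.Agent.Lib.Helper81CycDefs

universe u

private theorem conj_inv_mem {X : Type*} [Group X] [Finite X] (U : Subgroup X) (a : X)
    (h : ∀ u ∈ U, a * u * a⁻¹ ∈ U) : ∀ u ∈ U, a⁻¹ * u * a ∈ U := by
  have hk : ∀ k : ℕ, ∀ u ∈ U, a ^ k * u * (a ^ k)⁻¹ ∈ U := by
    intro k
    induction k with
    | zero => intro u hu; simpa using hu
    | succ k ih =>
      intro u hu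
      have := h _ (ih u hu)
      rw [pow_succ']
      convert this using 1
      group
  intro u hu
  have := hk (orderOf a - 1) u hu
  have e : a ^ (orderOf a - 1) = a⁻¹ := by
    rw [eq_inv_iff_mul_eq_one, ← pow_succ, Nat.sub_add_cancel (orderOf_pos a), pow_orderOf_eq_one]
  rw [e, inv_inv] at this
  exact this

/-- in a cyclic group the elements with `y ^ p = 1` lie in the subgroup generated by an element of order `p` -/
theorem mem_zpowers_of_pow_eq_one {G : Type*} [Group G] [Fintype G] (p : ℕ) [Fact p.Prime] {P : Subgroup G}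
    (hcyc : IsCyclic P) {x₀ : G} (hx : x₀ ∈ P) (ho : orderOf x₀ = p) (y : G) (hy : y ∈ P)
    (hyp : y ^ p = 1) : y ∈ Subgroup.zpowers x₀ := by
  classical
  have hp : p.Prime := Fact.out
  have h1 := IsCyclic.card_pow_eq_one_le (α := P) hp.pos
  set S : Finset P := Finset.univ.filter (fun a : P => a ^ p = 1) with hS
  set Z : Finset P := (Finset.range p).image (fun j => (⟨x₀, hx⟩ : P) ^ j) with hZ
  have hZcard : Z.card = p := by
    rw [hZ, Finset.card_image_of_injOn, Finset.card_range]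
    intro a ha b hb hab
    have ho' : orderOf (⟨x₀, hx⟩ : P) = p := by rw [← ho]; exact Subgroup.orderOf_mk x₀ hx
    apply pow_injOn_Iio_orderOf (x := (⟨x₀, hx⟩ : P)) _ _ hab
    · simpa [ho'] using ha
    · simpa [ho'] using hb
  have hZS : Z ⊆ S := by
    intro a ha
    obtain ⟨j, -, rfl⟩ := Finset.mem_image.mp ha
    rw [hS, Finset.mem_filter]
    refine ⟨Finset.mem_univ _, ?_⟩
    apply Subtype.ext
    simp only [Subgroup.coe_pow, Subgroup.coe_one]
    rw [← pow_mul, mul_comm, pow_mul, ← ho, pow_orderOf_eq_one, one_pow]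
  have hEq : Z = S := Finset.eq_of_subset_of_card_le hZS (by rw [hZcard]; exact h1)
  have hyS : (⟨y, hy⟩ : P) ∈ S := by
    rw [hS, Finset.mem_filter]
    exact ⟨Finset.mem_univ _, Subtype.ext hyp⟩
  rw [← hEq] at hyS
  obtain ⟨j, -, hj⟩ := Finset.mem_image.mp hyS
  have := congrArg Subtype.val hj
  simp only [Subgroup.coe_pow] at this
  rw [← this]
  exact Subgroup.pow_mem _ (Subgroup.mem_zpowers x₀) j

/-- piece `N-GD2`: a cyclic `p`-group meets its conjugates by elements outside the normalizer of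
its subgroup of order `p` trivially. -/
theorem cyclic_TI {G : Type*} [Group G] [Fintype G] (p : ℕ) [Fact p.Prime] {P : Subgroup G}
    (hP : IsPGroup p P) (hcyc : IsCyclic P) {x₀ : G} (hx : x₀ ∈ P) (ho : orderOf x₀ = p) (g : G)
    (hg : g ∉ Subgroup.normalizer ((Subgroup.zpowers x₀ : Subgroup G) : Set G)) (d : G)
    (hd : d ∈ P) (hgd : g * d * g⁻¹ ∈ P) : d = 1 := by
  have hp : p.Prime := Fact.out
  by_contra hd1
  apply hg
  -- x₀ ∈ zpowers d
  obtain ⟨K, hK⟩ := hP ⟨d, hd⟩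
  have hK' : d ^ p ^ K = 1 := congrArg Subtype.val hK
  obtain ⟨j, -, hj⟩ := (Nat.dvd_prime_pow hp).mp (orderOf_dvd_of_pow_eq_one hK')
  have hj0 : j ≠ 0 := by
    rintro rfl
    rw [pow_zero, orderOf_eq_one_iff] at hj
    exact hd1 hj
  obtain ⟨j', rfl⟩ := Nat.exists_eq_succ_of_ne_zero hj0
  have hyo : orderOf (d ^ p ^ j') = p := by
    rw [orderOf_pow' d (pow_ne_zero _ hp.ne_zero), hj, Nat.gcd_eq_right (pow_dvd_pow p (Nat.le_succ j')),
      Nat.succ_eq_add_one, pow_succ, Nat.mul_div_cancel_left _ (pow_pos hp.pos _)]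
  have hx₀d : x₀ ∈ Subgroup.zpowers d := by
    have h1 := mem_zpowers_of_pow_eq_one p hcyc (P.pow_mem hd _) hyo x₀ hx (by rw [← ho, pow_orderOf_eq_one])
    exact (Subgroup.zpowers_le.mpr (Subgroup.pow_mem _ (Subgroup.mem_zpowers d) _)) h1
  obtain ⟨n, hn⟩ := Subgroup.mem_zpowers_iff.mp hx₀d
  have hgx : g * x₀ * g⁻¹ ∈ Subgroup.zpowers x₀ := by
    apply mem_zpowers_of_pow_eq_one p hcyc hx ho
    · rw [← hn, ← conj_zpow]
      exact P.zpow_mem hgd n
    · rw [conj_pow, ← ho, pow_orderOf_eq_one]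
      simp
  have hconj : ∀ u ∈ Subgroup.zpowers x₀, g * u * g⁻¹ ∈ Subgroup.zpowers x₀ := by
    intro u hu
    obtain ⟨l, rfl⟩ := Subgroup.mem_zpowers_iff.mp hu
    rw [← conj_zpow]
    exact Subgroup.zpow_mem _ hgx l
  rw [Subgroup.mem_normalizer_iff]
  intro u
  refine ⟨hconj u, fun hu => ?_⟩
  have := conj_inv_mem _ g hconj _ hu
  simpa [mul_assoc] using this

end Cfsg.Agent.Lib.H81CycGD2
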