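import Mathlib
import Cfsg.Agent.Lib.Helper81CycDefs
import Cfsg.Agent.Lib.H81CycGD1
import Cfsg.Agent.Lib.H81CycGD2

set_option autoImplicit false

namespace Cfsg.Agent.Lib.H81CycGD
open Cfsg.Agent.Lib.Helper81CycDefs

universe u

/-- piece `A-GD`: the group theoretical data. -/
theorem gd_of {G : Type*} [Group G] [Fintype G] (p : ℕ) [Fact p.Prime] {P T : Subgroup G}
    (hP : IsPGroup p P) (hcyc : IsCyclic P) {x₀ : G} (hx : x₀ ∈ P) (ho : orderOf x₀ = p)
    (hCT : Subgroup.centralizer ((Subgroup.zpowers x₀ : Subgroup G) : Set G) ≤ T)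
    (hTN : T ≤ Subgroup.normalizer ((Subgroup.zpowers x₀ : Subgroup G) : Set G)) (e : ℕ)
    (he : (Subgroup.centralizer ((Subgroup.zpowers x₀ : Subgroup G) : Set G)).relIndex T = e) :
    e ∣ p - 1 ∧ ∃ t₀, GD p P (Subgroup.centralizer ((Subgroup.zpowers x₀ : Subgroup G) : Set G)) T
      (Subgroup.normalizer ((Subgroup.zpowers x₀ : Subgroup G) : Set G)) t₀ x₀ e := by
  obtain ⟨h1, t₀, ht₀, hcov, hinj, hte⟩ := Cfsg.Agent.Lib.H81CycGD1.exists_gen p ho T hCT hTN e he
  refine ⟨h1, t₀, ?_⟩
  have hZP : Subgroup.zpowers x₀ ≤ P := Subgroup.zpowers_le.mpr hx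
  have hDC : P ≤ Subgroup.centralizer ((Subgroup.zpowers x₀ : Subgroup G) : Set G) := by
    intro d hd
    rw [Subgroup.mem_centralizer_iff]
    intro u hu
    have := (IsCyclic.commGroup (α := P)).mul_comm ⟨u, hZP hu⟩ ⟨d, hd⟩
    exact congrArg Subtype.val this
  exact
  { DC := hDC
    CT := hCT
    TH := hTN
    nC := by
      intro h hh g hg
      rw [Subgroup.mem_centralizer_iff] at hg ⊢
      intro u hu
      have hu' : h⁻¹ * u * h ∈ Subgroup.zpowers x₀ := by
        have := (Subgroup.mem_normalizer_iff.mp (Subgroup.inv_mem _ hh) u).mp hu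
        simpa using this
      have h2 := hg _ hu'
      calc u * (h * g * h⁻¹) = h * ((h⁻¹ * u * h) * g) * h⁻¹ := by group
        _ = h * (g * (h⁻¹ * u * h)) * h⁻¹ := by rw [h2]
        _ = h * g * h⁻¹ * u := by group
    t₀T := ht₀
    cov := hcov
    inj := hinj
    te := hte
    epos := by
      rw [← he]
      exact Nat.pos_of_ne_zero Subgroup.index_ne_zero_of_finite
    TI := fun g hg d hd hgd => Cfsg.Agent.Lib.H81CycGD2.cyclic_TI p hP hcyc hx ho g hg d hd hgd
    x₀C := hDC hx
    ord := ho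
    x₀c := by
      intro g hg
      rw [Subgroup.mem_centralizer_iff] at hg
      exact (hg x₀ (Subgroup.mem_zpowers x₀)).symm
    x₀T := by
      intro g _ hgC hcomm
      apply hgC
      rw [Subgroup.mem_centralizer_iff]
      intro u hu
      obtain ⟨n, rfl⟩ := Subgroup.mem_zpowers_iff.mp hu
      have : Commute x₀ g := hcomm.symm
      exact this.zpow_left n
    x₀n := by
      intro g hg
      have := (Subgroup.mem_normalizer_iff.mp (Subgroup.inv_mem _ (hTN hg)) x₀).mp
        (Subgroup.mem_zpowers x₀)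
      simpa using this }

end Cfsg.Agent.Lib.H81CycGD
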