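import Cfsg.Agent.Lib.Helper25StarCDefs
import Cfsg.Agent.Lib.Helper78StarLOCVAL
import Cfsg.Agent.Lib.Helper78AbNil
import Cfsg.Agent.Lib.H25SCCFULIN
import Cfsg.Agent.S4659

set_option autoImplicit false
set_option linter.unusedSectionVars false

namespace Cfsg.Agent.Lib.H25SCNMU1

open Cfsg
open Cfsg.Agent.Lib.Helper81Local Cfsg.Agent.Lib.Helper80Brauer Cfsg.Agent.Lib.Helper78MajP
open Cfsg.Agent.Lib.Helper80StarDefs Cfsg.Agent.Lib.Helper80StarProps
open Cfsg.Agent.Lib.Helper25StarCDefs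
open Cfsg.Agent.Lib.H25SCCFULIN
open scoped ComplexConjugate

variable {p : ℕ} [Fact p.Prime] {M : Ideal AlgInt} {G : Type*} [Group G] [Fintype G]
  {B : Set (IrrCharacter G)} {P : Subgroup G}
  {e : Set (IrrCharacter (Subgroup.centralizer (P : Set G)))}

/-- `μ_{ψχ}(1) = p^{h(ψ)} k` with `p ∤ k`. -/
theorem muP_one_eq (hM : IsPModular p M) (hmax : IsMaximalBrauerPair p M B P e)
    {χ ψ : IrrCharacter G} (hχ : χ ∈ B) (h0 : blockHeight p B (χ : G → ℂ) = 0) (hψ : ψ ∈ B) :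
    ∃ k : ℤ, ¬ (p : ℤ) ∣ k ∧ muP p M P e (ψ : G → ℂ) (χ : G → ℂ) 1
      = (p : ℂ) ^ blockHeight p B (ψ : G → ℂ) * (k : ℂ) := by
  classical
  have hp : p.Prime := Fact.out
  have hp0 : (p : ℂ) ≠ 0 := by exact_mod_cast hp.ne_zero
  have hB := hmax.1.2.1
  have hcard := Cfsg.Agent.Lib.Helper20DefCard.card_defectGroup hM hB
    (Cfsg.Agent.Lib.Helper80Trace.isDefectGroup_of_maximal hM hmax)
  obtain ⟨k, hk, hpk⟩ := Cfsg.Agent.Lib.Helper84Contrib.N_height_zero hM hB hχ h0 hψ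
  refine ⟨k, hpk, ?_⟩
  have h1 : muP p M P e (ψ : G → ℂ) (χ : G → ℂ) 1
      = (Nat.card P : ℂ) * Cfsg.Agent.Lib.Helper81Rank.regInner p (ψ : G → ℂ) (χ : G → ℂ) := by
    unfold muP nn
    rw [OneMemClass.coe_one, nF_one, Nat.cast_one, div_one,
      Cfsg.Agent.Lib.Helper78AbNil.Fu_one hM hmax hψ, Cfsg.Agent.Lib.Helper78AbNil.Fu_one hM hmax hχ,
      Cfsg.Agent.Lib.Helper81Rank.classInner_pRegularPart]
    congr 1
    unfold Cfsg.Agent.Lib.Helper81Rank.regInner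
    congr 1
    apply Finset.sum_congr rfl
    intro y _
    rw [Cfsg.Agent.Lib.Helper81Rank.pRegularPart_apply]
    split_ifs <;> simp
  have h2 := Cfsg.Agent.Lib.Helper78AbNil.regInner_eq_N (p := p) ψ χ
  have hne : B.Nonempty := ⟨χ, hχ⟩
  have hab : Cfsg.Agent.Lib.Helper81Defect.minVal p B + blockDefect p B
      = (Nat.card G).factorization p := by
    have h1 := Cfsg.Agent.Lib.Helper81Defect.minVal_le_card (p := p) hne
    rw [Cfsg.Agent.Lib.Helper81Defect.blockDefect_def]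
    omega
  have hbψ : (charDegree (ψ : G → ℂ)).factorization p
      = Cfsg.Agent.Lib.Helper81Defect.minVal p B + blockHeight p B (ψ : G → ℂ) := by
    have h1 := Cfsg.Agent.Lib.Helper81Defect.minVal_le (p := p) hψ
    rw [Cfsg.Agent.Lib.Helper81Defect.blockHeight_def]
    omega
  rw [h1, hcard]
  rw [hk, ← hab, hbψ] at h2
  push_cast at h2 ⊢
  rw [pow_add, pow_add] at h2
  have hq : ((p : ℂ) ^ Cfsg.Agent.Lib.Helper81Defect.minVal p B) ≠ 0 := pow_ne_zero _ hp0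
  apply mul_left_cancel₀ hq
  linear_combination h2

theorem muP_one_not_mem (hM : IsPModular p M) (hmax : IsMaximalBrauerPair p M B P e)
    {χ ψ : IrrCharacter G} (hχ : χ ∈ B) (h0 : blockHeight p B (χ : G → ℂ) = 0) (hψ : ψ ∈ B) :
    muP p M P e (ψ : G → ℂ) (χ : G → ℂ) 1 ≠ 0 ∧
      ¬ MemLocalIdeal M (muP p M P e (χ : G → ℂ) (χ : G → ℂ) 1) := by
  have hp : p.Prime := Fact.out
  have hp0 : (p : ℂ) ≠ 0 := by exact_mod_cast hp.ne_zero
  constructor
  · obtain ⟨k, hk, h⟩ := muP_one_eq hM hmax hχ h0 hψ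
    rw [h]
    apply mul_ne_zero (pow_ne_zero _ hp0)
    intro hk0
    apply hk
    have : k = 0 := by exact_mod_cast hk0
    rw [this]
    exact dvd_zero _
  · obtain ⟨k, hk, h⟩ := muP_one_eq hM hmax hχ h0 hχ
    rw [h, h0, pow_zero, one_mul, Cfsg.Agent.Lib.Helper20Local.memLocalIdeal_intCast_iff hM]
    exact hk

end Cfsg.Agent.Lib.H25SCNMU1
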