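import Cfsg.Agent.Lib.Helper25StarCDefs
import Cfsg.Agent.Lib.Helper78StarLOCVAL
import Cfsg.Agent.Lib.Helper78AbNil
import Cfsg.Agent.Lib.Helper78Gal
import Cfsg.Agent.Lib.Helper4Eigen

set_option autoImplicit false
set_option linter.unusedSectionVars false

namespace Cfsg.Agent.Lib.H25SCNAMGM

open Cfsg
open Cfsg.Agent.Lib.Helper81Local Cfsg.Agent.Lib.Helper80Brauer Cfsg.Agent.Lib.Helper78MajP
open Cfsg.Agent.Lib.Helper80StarDefs Cfsg.Agent.Lib.Helper80StarProps
open Cfsg.Agent.Lib.Helper25StarCDefs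
open scoped ComplexConjugate

variable {p : ℕ} [Fact p.Prime] {M : Ideal AlgInt} {G : Type*} [Group G] [Fintype G]
  {B : Set (IrrCharacter G)} {P : Subgroup G}
  {e : Set (IrrCharacter (Subgroup.centralizer (P : Set G)))}

/-- values of a generalized character on the powers of `u` as signed power sums. -/
theorem exists_signed_eigen {A : Type*} [Group A] [Fintype A] {μ : A → ℂ}
    (hμ : IsGeneralizedCharacter A μ) (u : A) :
    ∃ (ι : Type) (_ : Fintype ι) (c : ι → ℤ) (η : ι → ℂ), (∀ i, η i ^ Nat.card A = 1) ∧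
      ∀ k : ℕ, μ (u ^ k) = ∑ i, (c i : ℂ) * η i ^ k := by
  obtain ⟨χ, ψ, ⟨n1, ρ1, rfl⟩, ⟨n2, ρ2, rfl⟩, rfl⟩ := hμ
  obtain ⟨a, ha, -, hak, -, -⟩ := Cfsg.Agent.Lib.Helper4Eigen.exists_eigenvalues ρ1 u
  obtain ⟨b, hb, -, hbk, -, -⟩ := Cfsg.Agent.Lib.Helper4Eigen.exists_eigenvalues ρ2 u
  have hdvd : orderOf u ∣ Nat.card A := orderOf_dvd_natCard u
  refine ⟨_ ⊕ _, inferInstance, Sum.elim (fun _ => 1) (fun _ => -1), Sum.elim a b, ?_, ?_⟩
  · rintro (i | i)
    · obtain ⟨t, ht⟩ := hdvd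
      simp only [Sum.elim_inl]
      rw [ht, pow_mul, ha, one_pow]
    · obtain ⟨t, ht⟩ := hdvd
      simp only [Sum.elim_inr]
      rw [ht, pow_mul, hb, one_pow]
  · intro k
    rw [Fintype.sum_sum_type, Pi.sub_apply, hak, hbk]
    simp [sub_eq_add_neg]

theorem eq_one_of_sum_eq_card {A : Type*} [Group A] [Fintype A] {μ : A → ℂ}
    (hμ : IsGeneralizedCharacter A μ) (r : A → ℝ) (hr : ∀ u, μ u = (r u : ℂ))
    (hpos : ∀ u, 0 < r u) (hsum : ∑ u, r u = Nat.card A) : ∀ u, μ u = 1 := by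
  classical
  have hn : 0 < Nat.card A := Nat.card_pos
  obtain ⟨Φ, hΦ, hΦne, k, hk, hgal⟩ := Cfsg.Agent.Lib.Helper78Gal.galois_int.{0} (Nat.card A) hn
  -- the product over the Galois conjugates is at least one
  have hprod : ∀ u : A, 1 ≤ ∏ φ : Φ, r (u ^ k φ) := by
    intro u
    obtain ⟨ι, hι, c, η, hη, hval⟩ := exists_signed_eigen hμ u
    obtain ⟨N, hN⟩ := hgal ι c η hη
    have h1 : ((∏ φ : Φ, r (u ^ k φ) : ℝ) : ℂ) = (N : ℂ) := by
      rw [← hN]
      push_cast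
      apply Finset.prod_congr rfl
      intro φ _
      rw [← hr, hval]
    have h2 : (∏ φ : Φ, r (u ^ k φ) : ℝ) = (N : ℝ) := by
      have : ((N : ℝ) : ℂ) = (N : ℂ) := by push_cast; rfl
      rw [← this] at h1
      exact_mod_cast h1
    have h3 : 0 < ∏ φ : Φ, r (u ^ k φ) := Finset.prod_pos (fun φ _ => hpos _)
    rw [h2] at h3 ⊢
    have h4 : (0 : ℤ) < N := by exact_mod_cast h3
    exact_mod_cast h4
  have hlog : ∀ u : A, 0 ≤ ∑ φ : Φ, Real.log (r (u ^ k φ)) := by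
    intro u
    rw [← Real.log_prod (fun φ _ => (hpos _).ne')]
    exact Real.log_nonneg (hprod u)
  have hbij : ∀ φ : Φ, ∑ u : A, Real.log (r (u ^ k φ)) = ∑ u : A, Real.log (r u) := by
    intro φ
    exact Equiv.sum_comp (powCoprime (hk φ).symm) (fun u => Real.log (r u))
  have hL : 0 ≤ ∑ u : A, Real.log (r u) := by
    have h1 : 0 ≤ ∑ u : A, ∑ φ : Φ, Real.log (r (u ^ k φ)) :=
      Finset.sum_nonneg (fun u _ => hlog u)
    rw [Finset.sum_comm, Finset.sum_congr rfl (fun φ _ => hbij φ), Finset.sum_const,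
      nsmul_eq_mul] at h1
    have h2 : (0 : ℝ) < ((Finset.univ : Finset Φ).card : ℝ) := by
      exact_mod_cast Finset.card_pos.2 Finset.univ_nonempty
    exact nonneg_of_mul_nonneg_right h1 h2
  have hterm : ∀ u : A, 0 ≤ r u - 1 - Real.log (r u) := by
    intro u
    have := Real.log_le_sub_one_of_pos (hpos u)
    linarith
  have hzero : ∑ u : A, (r u - 1 - Real.log (r u)) ≤ 0 := by
    rw [Finset.sum_sub_distrib, Finset.sum_sub_distrib, hsum]
    simp only [Finset.sum_const, Finset.card_univ, nsmul_eq_mul, mul_one]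
    rw [Nat.card_eq_fintype_card]
    linarith
  have hall : ∀ u ∈ (Finset.univ : Finset A), r u - 1 - Real.log (r u) = 0 :=
    (Finset.sum_eq_zero_iff_of_nonneg (fun u _ => hterm u)).1
      (le_antisymm hzero (Finset.sum_nonneg (fun u _ => hterm u)))
  intro u
  have h0 := hall u (Finset.mem_univ u)
  have h1 : r u = 1 := by
    by_contra hne
    have := Real.log_lt_sub_one_of_pos (hpos u) hne
    linarith
  rw [hr, h1]
  simp

end Cfsg.Agent.Lib.H25SCNAMGM
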