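import Cfsg.Agent.Lib.Helper25StarCDefs
import Cfsg.Agent.Lib.Helper78StarLOCVAL
import Cfsg.Agent.Lib.Helper78AbNil
import Cfsg.Agent.Lib.Helper20Avg

set_option autoImplicit false
set_option linter.unusedSectionVars false

namespace Cfsg.Agent.Lib.H25SCNCONG

open Cfsg
open Cfsg.Agent.Lib.Helper81Local Cfsg.Agent.Lib.Helper80Brauer Cfsg.Agent.Lib.Helper78MajP
open Cfsg.Agent.Lib.Helper80StarDefs Cfsg.Agent.Lib.Helper80StarProps
open Cfsg.Agent.Lib.Helper25StarCDefs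
open scoped ComplexConjugate

variable {p : ℕ} [Fact p.Prime] {M : Ideal AlgInt} {G : Type*} [Group G] [Fintype G]
  {B : Set (IrrCharacter G)} {P : Subgroup G}
  {e : Set (IrrCharacter (Subgroup.centralizer (P : Set G)))}

theorem gen_sub_one_mem (hM : IsPModular p M) {A : Type*} [Group A] [Fintype A]
    (hA : IsPGroup p A) {μ : A → ℂ} (hμ : IsGeneralizedCharacter A μ) (u : A) :
    MemLocalIdeal M (μ u - μ 1) := by
  have hPr := IsPModular.isPrime hM
  obtain ⟨χ, ψ, hχ, hψ, rfl⟩ := hμ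
  obtain ⟨k, hk⟩ := hA u
  have h1 := Cfsg.Agent.Lib.Helper20Avg.char_mul_sub_mem hM hχ (x := u) (y := 1)
    (Commute.one_right _) hk
  have h2 := Cfsg.Agent.Lib.Helper20Avg.char_mul_sub_mem hM hψ (x := u) (y := 1)
    (Commute.one_right _) hk
  rw [mul_one] at h1 h2
  have h3 := memLocalIdeal_sub h1 h2
  have h4 : (χ - ψ) u - (χ - ψ) 1 = χ u - χ 1 - (ψ u - ψ 1) := by
    simp only [Pi.sub_apply]; ring
  rw [h4]
  exact h3

end Cfsg.Agent.Lib.H25SCNCONG
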