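import Cfsg.Agent.Lib.Helper25StarCDefs
import Cfsg.Agent.Lib.Helper78StarLOCVAL
import Cfsg.Agent.Lib.Helper78AbNil
import Cfsg.Agent.Lib.H25SCCFULIN

set_option autoImplicit false
set_option linter.unusedSectionVars false

namespace Cfsg.Agent.Lib.H25SCNMUCF

open Cfsg
open Cfsg.Agent.Lib.Helper81Local Cfsg.Agent.Lib.Helper80Brauer Cfsg.Agent.Lib.Helper78MajP
open Cfsg.Agent.Lib.Helper80StarDefs Cfsg.Agent.Lib.Helper80StarProps
open Cfsg.Agent.Lib.Helper25StarCDefs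
open Cfsg.Agent.Lib.H25SCCFULIN
open scoped ComplexConjugate

variable {p : ℕ} [Fact p.Prime] {M : Ideal AlgInt} {G : Type*} [Group G] [Fintype G]
  {B : Set (IrrCharacter G)} {P : Subgroup G}
  {e : Set (IrrCharacter (Subgroup.centralizer (P : Set G)))}

theorem muP_isClassFunction (h1 : FuConjP p M P e)
    (hfcp : ∀ u ∈ P, ∀ y ∈ P, FC p M P e u (y * u * y⁻¹)) {χ ψ : G → ℂ}
    (hχ : IsClassFunction G χ) (hψ : IsClassFunction G ψ) :
    IsClassFunction P (muP p M P e χ ψ) := by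
  intro u y
  have hfc := hfcp u u.2 y y.2
  unfold muP nn
  have hc : (((y * u * y⁻¹ : P)) : G) = (y : G) * (u : G) * (y : G)⁻¹ := by simp
  rw [hc, h1 χ hχ _ _ hfc, h1 ψ hψ _ _ hfc, ← nF_eq' hfc]
theorem fStable_of_isClassFunction (hN : NStableP p M P e) {η : G → ℂ}
    (hη : IsClassFunction P (fun u : P => η u)) : FStable p M P e η := by
  intro u hu u' hu' hfc
  obtain ⟨y, hy, rfl⟩ := (hN u hu u' hu').1 hfc
  have := hη ⟨u, hu⟩ ⟨y, hy⟩
  simpa using this.symm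
theorem muP_self_nonneg (χ : G → ℂ) (u : P) :
    ∃ r : ℝ, 0 ≤ r ∧ muP p M P e χ χ u = (r : ℂ) := by
  unfold muP nn
  rw [Cfsg.Agent.Lib.Helper32Virt.inner_self_eq]
  refine ⟨(Nat.card P : ℝ) / (nF p M P e (u : G) : ℝ) * ((Nat.card G : ℝ)⁻¹ *
    ∑ g : G, ‖Fu p M P e χ (u : G) g‖ ^ 2), by positivity, by push_cast; rfl⟩

end Cfsg.Agent.Lib.H25SCNMUCF
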