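import Cfsg.Agent.Lib.Helper25StarCDefs
import Cfsg.Agent.Lib.Helper78StarLOCVAL
import Cfsg.Agent.Lib.Helper78AbNil
import Cfsg.Agent.Lib.H25SCCFULIN
import Cfsg.Agent.Lib.H25SCCFUCONJ
import Cfsg.Agent.Lib.H25SCCFUORTH
import Cfsg.Agent.Lib.H25SCCFCP
import Cfsg.Agent.Lib.H25SCCINNER
import Cfsg.Agent.Lib.H25SCCONE
import Cfsg.Agent.Lib.H25SCNMUCF
import Cfsg.Agent.Lib.H25SCNMU1
import Cfsg.Agent.Lib.H25SCNCONG
import Cfsg.Agent.Lib.H25SCNAMGM
import Cfsg.Agent.Lib.Helper78Solomon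

set_option autoImplicit false
set_option linter.unusedSectionVars false

namespace Cfsg.Agent.Lib.H25SCNMUONE

open Cfsg
open Cfsg.Agent.Lib.Helper81Local Cfsg.Agent.Lib.Helper80Brauer Cfsg.Agent.Lib.Helper78MajP
open Cfsg.Agent.Lib.Helper80StarDefs Cfsg.Agent.Lib.Helper80StarProps
open Cfsg.Agent.Lib.Helper25StarCDefs
open Cfsg.Agent.Lib.H25SCCFULIN Cfsg.Agent.Lib.H25SCCFUCONJ Cfsg.Agent.Lib.H25SCCFUORTH Cfsg.Agent.Lib.H25SCCFCP Cfsg.Agent.Lib.H25SCCINNER Cfsg.Agent.Lib.H25SCCONE Cfsg.Agent.Lib.H25SCNMUCF Cfsg.Agent.Lib.H25SCNMU1 Cfsg.Agent.Lib.H25SCNCONG Cfsg.Agent.Lib.H25SCNAMGM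
open scoped ComplexConjugate

variable {p : ℕ} [Fact p.Prime] {M : Ideal AlgInt} {G : Type*} [Group G] [Fintype G]
  {B : Set (IrrCharacter G)} {P : Subgroup G}
  {e : Set (IrrCharacter (Subgroup.centralizer (P : Set G)))}

/-- nilpotent block, `χ₀` of height zero: `|C_P(u)| m^{(u)}_{χ₀χ₀} = 1` for all `u ∈ P`. -/
theorem muP_eq_one (hM : IsPModular p M) (hmax : IsMaximalBrauerPair p M B P e)
    (hgen : StarGenP p M P e) (hN : NStableP p M P e) {χ₀ : IrrCharacter G} (hχ₀ : χ₀ ∈ B)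
    (h0 : blockHeight p B (χ₀ : G → ℂ) = 0) (u : P) :
    muP p M P e (χ₀ : G → ℂ) (χ₀ : G → ℂ) u = 1 := by
  classical
  have hcf : IsClassFunction G (χ₀ : G → ℂ) :=
    Cfsg.Agent.Lib.Helper4Char.IsIrrCharacter.isClassFunction χ₀.2
  have hinner : InnerP p M P e := innerP fuConjP (fuOrthP hM hmax)
  have hone : star p M P e (fun _ => 1) (χ₀ : G → ℂ) = (χ₀ : G → ℂ) := oneP hM hmax χ₀ hχ₀
  have hst1 : FStable p M P e (fun _ => (1 : ℂ)) := fun _ _ _ _ _ => rfl
  -- `μ` is a class function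
  have hμcf : IsClassFunction P (muP p M P e (χ₀ : G → ℂ) (χ₀ : G → ℂ)) :=
    muP_isClassFunction fuConjP (fun u hu y hy => FC_of_mem hM hmax hu hy) hcf hcf
  -- the basic formula
  have key : ∀ η' : P → ℂ, IsClassFunction P η' →
      classInner (χ₀ : G → ℂ) (star p M P e (ext P η') (χ₀ : G → ℂ))
        = classInner (muP p M P e (χ₀ : G → ℂ) (χ₀ : G → ℂ)) η' := by
    intro η' hη'
    have hres : (fun u : P => ext P η' (u : G)) = η' := by
      funext u
      exact ext_coe η' u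
    have hst : FStable p M P e (ext P η') :=
      fStable_of_isClassFunction hN (by rw [hres]; exact hη')
    have h := inner_eq_muP hinner hst1 hst hcf hcf
    rw [hone, hres] at h
    rw [h]
    congr 1
    funext u
    rw [one_mul]
  -- `μ` is a generalized character
  have hμgen : IsGeneralizedCharacter P (muP p M P e (χ₀ : G → ℂ) (χ₀ : G → ℂ)) := by
    apply Cfsg.Agent.Lib.Helper78Solomon.isGen_of_inner_int hμcf
    intro η'
    have hη'cf := Cfsg.Agent.Lib.Helper4Char.IsIrrCharacter.isClassFunction η'.2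
    rw [← key _ hη'cf]
    have hres : (fun u : P => ext P (η' : P → ℂ) (u : G)) = (η' : P → ℂ) := by
      funext u
      exact ext_coe _ u
    have hst : FStable p M P e (ext P (η' : P → ℂ)) :=
      fStable_of_isClassFunction hN (by rw [hres]; exact hη'cf)
    apply Cfsg.Agent.Lib.Helper32Virt.gen_inner_int
      (Cfsg.Agent.Lib.Helper32Virt.gen_of_irr χ₀.2)
    apply hgen _ _ hst
    · rw [hres]
      exact Cfsg.Agent.Lib.Helper32Virt.gen_of_irr η'.2
    · exact Cfsg.Agent.Lib.Helper4Char.IsIrrCharacter.isCharacter χ₀.2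
  -- positivity
  have hPr := Cfsg.Agent.Lib.Helper20Local.IsPModular.isPrime hM
  choose r hr0 hr using fun u : P => muP_self_nonneg (p := p) (M := M) (e := e) (χ₀ : G → ℂ) u
  have hne : ∀ u : P, muP p M P e (χ₀ : G → ℂ) (χ₀ : G → ℂ) u ≠ 0 := by
    intro u hu
    have h1 := gen_sub_one_mem hM hmax.1.1.1 hμgen u
    rw [hu, zero_sub] at h1
    apply (muP_one_not_mem hM hmax hχ₀ h0 hχ₀).2
    have h2 := Cfsg.Agent.Lib.Helper20Local.liNeg h1
    rwa [neg_neg] at h2
  have hpos : ∀ u : P, 0 < r u := by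
    intro u
    rcases (hr0 u).lt_or_eq with h | h
    · exact h
    · exfalso
      apply hne u
      rw [hr u, ← h]
      simp
  have hsum : ∑ u : P, r u = Nat.card P := by
    have h1 := key (fun _ => 1) (fun _ _ => rfl)
    have h2 : star p M P e (ext P (fun _ => (1 : ℂ))) (χ₀ : G → ℂ) = (χ₀ : G → ℂ) := by
      refine Eq.trans ?_ hone
      apply star_congr
      intro u hu
      rw [ext_mem _ hu]
    rw [h2, Cfsg.Agent.Lib.Helper4Char.classInner_irr_self χ₀.2] at h1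
    unfold classInner at h1
    have hP : (Nat.card P : ℂ) ≠ 0 := by exact_mod_cast Nat.card_pos.ne'
    have h3 : ∑ u : P, muP p M P e (χ₀ : G → ℂ) (χ₀ : G → ℂ) u = (Nat.card P : ℂ) := by
      have h4 : ∑ g : P, muP p M P e (χ₀ : G → ℂ) (χ₀ : G → ℂ) g * conj (1 : ℂ)
          = ∑ u : P, muP p M P e (χ₀ : G → ℂ) (χ₀ : G → ℂ) u := by
        apply Finset.sum_congr rfl
        intro g _
        simp
      rw [h4] at h1
      field_simp at h1
      exact h1.symm
    simp only [hr] at h3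
    exact_mod_cast h3
  exact eq_one_of_sum_eq_card hμgen r hr hpos hsum u

end Cfsg.Agent.Lib.H25SCNMUONE
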