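import Cfsg.Agent.Lib.Helper25StarCDefs
import Cfsg.Agent.Lib.Helper78StarLOCVAL
import Cfsg.Agent.Lib.Helper78AbNil
import Cfsg.Agent.Lib.H25SCCFULIN
import Cfsg.Agent.Lib.H25SCCFUCONJ
import Cfsg.Agent.Lib.H25SCCFUORTH
import Cfsg.Agent.Lib.H25SCCFUSA
import Cfsg.Agent.Lib.H25SCCFCP
import Cfsg.Agent.Lib.H25SCCINNER
import Cfsg.Agent.Lib.H25SCCONE
import Cfsg.Agent.Lib.H25SCCREG
import Cfsg.Agent.Lib.H25SCCOUT
import Cfsg.Agent.Lib.H25SCCIRR
import Cfsg.Agent.Lib.H25SCNMUCF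
import Cfsg.Agent.Lib.H25SCNMU1
import Cfsg.Agent.Lib.H25SCNMUONE
import Cfsg.Agent.Lib.Helper4Char
import Cfsg.Agent.Lib.Helper32Virt
import Cfsg.Agent.Lib.Helper81Base

set_option autoImplicit false
set_option linter.unusedSectionVars false

namespace Cfsg.Agent.Lib.H25SCNBIJ

open Cfsg
open Cfsg.Agent.Lib.Helper81Local Cfsg.Agent.Lib.Helper80Brauer Cfsg.Agent.Lib.Helper78MajP
open Cfsg.Agent.Lib.Helper80StarDefs Cfsg.Agent.Lib.Helper80StarProps
open Cfsg.Agent.Lib.Helper25StarCDefs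
open Cfsg.Agent.Lib.H25SCCFULIN Cfsg.Agent.Lib.H25SCCFUCONJ Cfsg.Agent.Lib.H25SCCFUORTH Cfsg.Agent.Lib.H25SCCFUSA Cfsg.Agent.Lib.H25SCCFCP Cfsg.Agent.Lib.H25SCCINNER Cfsg.Agent.Lib.H25SCCONE Cfsg.Agent.Lib.H25SCCREG Cfsg.Agent.Lib.H25SCCOUT Cfsg.Agent.Lib.H25SCCIRR Cfsg.Agent.Lib.H25SCNMUCF Cfsg.Agent.Lib.H25SCNMU1 Cfsg.Agent.Lib.H25SCNMUONE
open scoped ComplexConjugate

variable {p : ℕ} [Fact p.Prime] {M : Ideal AlgInt} {G : Type*} [Group G] [Fintype G]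
  {B : Set (IrrCharacter G)} {P : Subgroup G}
  {e : Set (IrrCharacter (Subgroup.centralizer (P : Set G)))}

/-- nilpotent block: `η ↦ η * χ₀` is a bijection `Irr(P) → Irr(B)`. -/
theorem exists_equiv (hM : IsPModular p M) (hmax : IsMaximalBrauerPair p M B P e)
    (hgen : StarGenP p M P e) (hN : NStableP p M P e) {χ₀ : IrrCharacter G} (hχ₀ : χ₀ ∈ B)
    (h0 : blockHeight p B (χ₀ : G → ℂ) = 0) :
    ∃ Ψ : IrrCharacter P ≃ B, ∀ η : IrrCharacter P,
      (((Ψ η : B) : IrrCharacter G) : G → ℂ)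
        = star p M P e (ext P (η : P → ℂ)) (χ₀ : G → ℂ) := by
  classical
  have h1 : FuConjP p M P e := fuConjP
  have h2 : FuOrthP p M P e := fuOrthP hM hmax
  have h3 : FuSAP p M P e := fuSAP hM hmax
  have hin : InnerP p M P e := innerP h1 h2
  have hone : OneP p M B P e := oneP hM hmax
  have hreg : RegP p M B P e := regP hM hmax
  have hout : OutP p M B P e := outP hM hmax
  have hirr : IrrP p M B P e := irrP hgen hreg hout h3
  have hfcp : ∀ u ∈ P, ∀ y ∈ P, FC p M P e u (y * u * y⁻¹) :=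
    fun u hu y hy => FC_of_mem hM hmax hu hy
  have hres : ∀ a : P → ℂ, (fun u : P => ext P a u) = a := by
    intro a
    funext u
    rw [ext_mem a u.2]
  have hcf : ∀ χ : IrrCharacter G, IsClassFunction G (χ : G → ℂ) :=
    fun χ => Cfsg.Agent.Lib.Helper4Char.IsIrrCharacter.isClassFunction χ.2
  have hst : ∀ η : IrrCharacter P, FStable p M P e (ext P (η : P → ℂ)) := by
    intro η
    apply fStable_of_isClassFunction hN
    rw [hres]
    exact Cfsg.Agent.Lib.Helper4Char.IsIrrCharacter.isClassFunction η.2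
  -- the inner products
  have hinner : ∀ η η' : IrrCharacter P,
      classInner (star p M P e (ext P (η : P → ℂ)) (χ₀ : G → ℂ))
        (star p M P e (ext P (η' : P → ℂ)) (χ₀ : G → ℂ)) = classInner (η : P → ℂ) (η' : P → ℂ) := by
    intro η η'
    rw [inner_eq_muP hin (hst η) (hst η') (hcf χ₀) (hcf χ₀), hres]
    congr 1
    funext u
    rw [muP_eq_one hM hmax hgen hN hχ₀ h0 u, mul_one, ext_mem _ u.2]
  have hex : ∀ η : IrrCharacter P, ∃ ψ ∈ B,
      (ψ : G → ℂ) = star p M P e (ext P (η : P → ℂ)) (χ₀ : G → ℂ) := by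
    intro η
    apply hirr _ (hst η) _ _ χ₀ hχ₀
    · rw [hinner]
      exact Cfsg.Agent.Lib.Helper4Char.classInner_irr_self η.2
    · rw [hres]
      exact Cfsg.Agent.Lib.Helper32Virt.gen_of_irr η.2
    · refine ⟨charDegree (η : P → ℂ), Cfsg.Agent.Lib.Helper81Base.charDegree_pos η, ?_⟩
      rw [ext_mem _ P.one_mem, Cfsg.Agent.Lib.Helper81Base.charDegree_eq]
      rfl
  choose Ψ₀ hΨB hΨ using hex
  have hinj : Function.Injective (fun η : IrrCharacter P => (⟨Ψ₀ η, hΨB η⟩ : B)) := by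
    intro η η' h
    have h4 : Ψ₀ η = Ψ₀ η' := congrArg Subtype.val h
    by_contra hne
    have h5 := hinner η η'
    rw [← hΨ η, ← hΨ η', h4, Cfsg.Agent.Lib.Helper4Char.classInner_irr_self (Ψ₀ η').2,
      Cfsg.Agent.Lib.Helper4Char.classInner_irr_ne η.2 η'.2 (fun h6 => hne (Subtype.ext h6))] at h5
    exact one_ne_zero h5
  have hsurj : Function.Surjective (fun η : IrrCharacter P => (⟨Ψ₀ η, hΨB η⟩ : B)) := by
    rintro ⟨ψ, hψ⟩
    by_contra hno
    have hne : ∀ η : IrrCharacter P, ψ ≠ Ψ₀ η := by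
      intro η h
      apply hno
      exact ⟨η, Subtype.ext h.symm⟩
    have hst1 : FStable p M P e (fun _ => (1 : ℂ)) := fun _ _ _ _ _ => rfl
    have hκ : IsClassFunction P (muP p M P e (ψ : G → ℂ) (χ₀ : G → ℂ)) :=
      muP_isClassFunction h1 hfcp (hcf ψ) (hcf χ₀)
    have hzero : muP p M P e (ψ : G → ℂ) (χ₀ : G → ℂ) = 0 := by
      apply Cfsg.Agent.Lib.Helper4Char.eq_zero_of_classInner_irr_eq_zero _ hκ
      intro η hη
      have h5 := inner_eq_muP hin hst1 (hst ⟨η, hη⟩) (hcf ψ) (hcf χ₀)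
      rw [hone ψ hψ, ← hΨ ⟨η, hη⟩, hres,
        Cfsg.Agent.Lib.Helper4Char.classInner_irr_ne ψ.2 (Ψ₀ ⟨η, hη⟩).2
          (fun h6 => hne ⟨η, hη⟩ (Subtype.ext h6))] at h5
      rw [h5]
      congr 1
      funext u
      rw [one_mul]
    have h6 := (muP_one_not_mem hM hmax hχ₀ h0 hψ).1
    rw [hzero] at h6
    exact h6 rfl
  exact ⟨Equiv.ofBijective _ ⟨hinj, hsurj⟩, fun η => hΨ η⟩

end Cfsg.Agent.Lib.H25SCNBIJ
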