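import Cfsg.Agent.Lib.Helper25StarCDefs
import Cfsg.Agent.Lib.Helper78StarLOCVAL
import Cfsg.Agent.Lib.Helper78AbNil
import Cfsg.Agent.S4686
import Cfsg.Agent.S4677

set_option autoImplicit false
set_option linter.unusedSectionVars false

namespace Cfsg.Agent.Lib.H25SCNSTABLE

open Cfsg
open Cfsg.Agent.Lib.Helper81Local Cfsg.Agent.Lib.Helper80Brauer Cfsg.Agent.Lib.Helper78MajP
open Cfsg.Agent.Lib.Helper80StarDefs Cfsg.Agent.Lib.Helper80StarProps
open Cfsg.Agent.Lib.Helper25StarCDefs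
open scoped ComplexConjugate

variable {p : ℕ} [Fact p.Prime] {M : Ideal AlgInt} {G : Type*} [Group G] [Fintype G]
  {B : Set (IrrCharacter G)} {P : Subgroup G}
  {e : Set (IrrCharacter (Subgroup.centralizer (P : Set G)))}

theorem nStableP (hM : IsPModular p M) (hmax : IsMaximalBrauerPair p M B P e)
    (hnil : IsNilpotentBlock p M B)
    (hhom : ∀ F : FusionSystem P, IsBlockFusionSystemOn p M B P e F → ∀ u ∈ P, ∀ u' ∈ P,
      FC p M P e u u' → F.IsConjElt u u')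
    (hfcp : ∀ u ∈ P, ∀ y ∈ P, FC p M P e u (y * u * y⁻¹)) : NStableP p M P e := by
  intro u hu u' hu'
  constructor
  · intro h
    obtain ⟨F, hF, -⟩ := Cfsg.Agent.S4677.result p M hM B P e hmax
    obtain ⟨φ, hφ, hφu⟩ := hhom F hF u hu u' hu' h
    rw [(Cfsg.Agent.S4686.result p M hM B P e hmax F hF).mp hnil] at hφ
    obtain ⟨-, g, hg, hφg⟩ := hφ
    refine ⟨g, hg, ?_⟩
    rw [← hφu, hφg]
  · rintro ⟨y, hy, rfl⟩
    exact hfcp u hu y hy

end Cfsg.Agent.Lib.H25SCNSTABLE
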