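import Cfsg.Agent.Lib.Helper25StarCDefs
import Cfsg.Agent.Lib.Helper78StarLOCVAL
import Cfsg.Agent.Lib.Helper78AbNil
import Cfsg.Agent.Lib.H25SCCFCP
import Cfsg.Agent.Lib.H25SCCREG
import Cfsg.Agent.Lib.H25SCFHOM
import Cfsg.Agent.Lib.H25SCNSTABLE
import Cfsg.Agent.Lib.H25SCNBIJ
import Cfsg.Agent.Lib.Helper80Corr

set_option autoImplicit false
set_option linter.unusedSectionVars false

namespace Cfsg.Agent.Lib.H25SCNFIN

open Cfsg
open Cfsg.Agent.Lib.Helper81Local Cfsg.Agent.Lib.Helper80Brauer Cfsg.Agent.Lib.Helper78MajP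
open Cfsg.Agent.Lib.Helper80StarDefs Cfsg.Agent.Lib.Helper80StarProps
open Cfsg.Agent.Lib.Helper25StarCDefs
open Cfsg.Agent.Lib.H25SCCFCP Cfsg.Agent.Lib.H25SCCREG Cfsg.Agent.Lib.H25SCFHOM Cfsg.Agent.Lib.H25SCNSTABLE Cfsg.Agent.Lib.H25SCNBIJ
open scoped ComplexConjugate

variable {p : ℕ} [Fact p.Prime] {M : Ideal AlgInt} {G : Type*} [Group G] [Fintype G]
  {B : Set (IrrCharacter G)} {P : Subgroup G}
  {e : Set (IrrCharacter (Subgroup.centralizer (P : Set G)))}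

/-- nilpotent block, everything expressed without `star`. -/
theorem nil_final (hM : IsPModular p M) (hmax : IsMaximalBrauerPair p M B P e)
    (hgen : StarGenP p M P e) (hnil : IsNilpotentBlock p M B) :
    ∃ χ₀ ∈ B, ∃ Ψ : IrrCharacter P ≃ B, ∀ η : IrrCharacter P,
      (∀ g : G, ¬ p ∣ orderOf g → (((Ψ η : B) : IrrCharacter G) : G → ℂ) g
        = (charDegree (η : P → ℂ) : ℂ) * (χ₀ : G → ℂ) g) ∧
      blockHeight p B (((Ψ η : B) : IrrCharacter G) : G → ℂ)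
        = (charDegree (η : P → ℂ)).factorization p := by
  classical
  have hPr := IsPModular.isPrime hM
  have hN : NStableP p M P e := nStableP hM hmax hnil
    (fun F hF u hu u' hu' h => isConjElt_of_FC hM hF hu hu' h)
    (fun u hu y hy => FC_of_mem hM hmax hu hy)
  obtain ⟨χ₀, hχ₀, h0⟩ := Cfsg.Agent.Lib.Helper81Defect.exists_height_zero (p := p)
    (Cfsg.Agent.Lib.Helper20Block.IsPBlock.nonempty hPr hnil.1)
  obtain ⟨Ψ, hΨ⟩ := exists_equiv hM hmax hgen hN hχ₀ h0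
  refine ⟨χ₀, hχ₀, Ψ, fun η => ?_⟩
  have hval : ∀ g : G, ¬ p ∣ orderOf g → (((Ψ η : B) : IrrCharacter G) : G → ℂ) g
        = (charDegree (η : P → ℂ) : ℂ) * (χ₀ : G → ℂ) g := by
    intro g hg
    rw [hΨ η, regP hM hmax _ χ₀ hχ₀ g hg, Cfsg.Agent.Lib.Helper81Base.charDegree_eq]
    congr 1
    exact ext_mem _ P.one_mem
  refine ⟨hval, ?_⟩
  have h1 := hval 1 (by
    rw [orderOf_one]; exact (Fact.out : p.Prime).one_lt.ne' ∘ Nat.dvd_one.1)
  rw [← Cfsg.Agent.Lib.Helper81Base.charDegree_eq, ← Cfsg.Agent.Lib.Helper81Base.charDegree_eq]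
    at h1
  have h2 : charDegree (((Ψ η : B) : IrrCharacter G) : G → ℂ)
      = charDegree (η : P → ℂ) * charDegree (χ₀ : G → ℂ) := by exact_mod_cast h1
  rw [Cfsg.Agent.Lib.Helper81Defect.blockHeight_def] at h0 ⊢
  have h3 := Cfsg.Agent.Lib.Helper81Defect.minVal_le (p := p) hχ₀
  rw [h2, Nat.factorization_mul (Cfsg.Agent.Lib.Helper81Base.charDegree_pos η).ne'
    (Cfsg.Agent.Lib.Helper81Base.charDegree_pos χ₀).ne', Finsupp.add_apply]
  omega

end Cfsg.Agent.Lib.H25SCNFIN
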