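import Cfsg.Agent.Lib.Helper81CycGDefs
import Cfsg.Agent.Lib.Helper81Orth2
import Cfsg.Agent.Lib.Helper81Second3
import Cfsg.Agent.Lib.Helper81Part
import Cfsg.Agent.Lib.Helper54DefOneComb
import Cfsg.Agent.Lib.Helper4DefOneK
import Cfsg.Agent.Lib.Helper78IndPair
import Cfsg.Agent.Lib.Helper80Conj
import Cfsg.Agent.Lib.Helper80Full2
import Cfsg.Agent.Lib.H25SCNFIN
import Cfsg.Agent.Lib.Helper80StarMain
import Cfsg.Agent.Lib.Helper5Abel
import Cfsg.Agent.Lib.Helper80Corr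

set_option autoImplicit false

namespace Cfsg.Agent.Lib.H81CycGNREG
open Cfsg
open Cfsg.Agent.Lib.Helper81CycDefs Cfsg.Agent.Lib.Helper81CycGDefs Cfsg.Agent.Lib.Helper4DefOneDefs
open Cfsg.Agent.Lib.Helper80Transport Cfsg.Agent.Lib.Helper82Quot Cfsg.Agent.Lib.Helper81Base
open Cfsg.Agent.Lib.Helper80Trace Cfsg.Agent.Lib.Helper80Incl
open scoped ComplexConjugate

universe u

variable {G : Type u} [Group G] [Fintype G] {p : ℕ} [Fact p.Prime] {M : Ideal AlgInt}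

/-- piece `G-NREG`: in a nilpotent block with abelian defect groups all characters agree on the
`p`-regular elements. -/
theorem nil_reg (hM : IsPModular p M) {f : Set (IrrCharacter G)} (hnil : IsNilpotentBlock p M f)
    {D : Subgroup G} (hD : IsDefectGroup p M f D) (hab : ∀ x ∈ D, ∀ y ∈ D, x * y = y * x) :
    ∀ ψ ∈ f, ∀ ψ' ∈ f, ∀ c : G, ¬ p ∣ orderOf c → (ψ : G → ℂ) c = (ψ' : G → ℂ) c := by
  classical
  obtain ⟨e, hmax⟩ := Cfsg.Agent.Lib.Helper80Corr.exists_maximal_of_defectGroup hM hnil.1 hD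
  haveI := hM.2.1.isPrime
  have hgen := Cfsg.Agent.Lib.Helper80StarMain.starGenP hM hmax
  obtain ⟨χ₀, _, Ψ, hΨ⟩ := Cfsg.Agent.Lib.H25SCNFIN.nil_final hM hmax hgen hnil
  haveI : IsMulCommutative D := ⟨⟨fun a b => Subtype.ext (hab a a.2 b b.2)⟩⟩
  have key : ∀ ψ ∈ f, ∀ c : G, ¬ p ∣ orderOf c → (ψ : G → ℂ) c = (χ₀ : G → ℂ) c := by
    intro ψ hψ c hc
    have h1 := (hΨ (Ψ.symm ⟨ψ, hψ⟩)).1 c hc
    rw [Equiv.apply_symm_apply] at h1
    have h2 : (charDegree ((Ψ.symm ⟨ψ, hψ⟩ : IrrCharacter D) : D → ℂ) : ℂ) = 1 := by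
      rw [Cfsg.Agent.Lib.Helper81Base.charDegree_eq]
      exact Cfsg.Agent.Lib.Helper5Abel.irr_one_of_comm _
    rw [h2, one_mul] at h1
    exact h1
  intro ψ hψ ψ' hψ' c hc
  rw [key ψ hψ c hc, key ψ' hψ' c hc]

end Cfsg.Agent.Lib.H81CycGNREG
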