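import Cfsg.Agent.Lib.Helper81CycGDefs
import Cfsg.Agent.Lib.Helper81Orth2
import Cfsg.Agent.Lib.Helper81Second3
import Cfsg.Agent.Lib.Helper81Part
import Cfsg.Agent.Lib.Helper54DefOneComb
import Cfsg.Agent.Lib.Helper4DefOneK
import Cfsg.Agent.Lib.Helper78IndPair
import Cfsg.Agent.Lib.Helper80Conj
import Cfsg.Agent.Lib.Helper80Full2
import Cfsg.Agent.Lib.Helper78MajP
import Cfsg.Agent.Lib.Helper80Abel
import Cfsg.Agent.Lib.H81CycGD
import Cfsg.Agent.Lib.H81CycGD2
import Cfsg.Agent.Lib.H81CycCARD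
import Cfsg.Agent.Lib.H81CycGNREG
import Cfsg.Agent.Lib.H81CycGBCJ

set_option autoImplicit false

namespace Cfsg.Agent.Lib.H81CycGBCY
open Cfsg
open Cfsg.Agent.Lib.Helper81CycDefs Cfsg.Agent.Lib.Helper81CycGDefs Cfsg.Agent.Lib.Helper4DefOneDefs
open Cfsg.Agent.Lib.Helper80Transport Cfsg.Agent.Lib.Helper82Quot Cfsg.Agent.Lib.Helper81Base
open Cfsg.Agent.Lib.Helper80Trace Cfsg.Agent.Lib.Helper80Incl
open scoped ComplexConjugate

universe u

variable {G : Type u} [Group G] [Fintype G] {p : ℕ} [Fact p.Prime] {M : Ideal AlgInt}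

/-- a nontrivial `p`-subgroup has an element of order `p`. -/
theorem exists_order_p {P : Subgroup G} (hP : IsPGroup p P) (hP1 : P ≠ ⊥) :
    ∃ x₀ ∈ P, orderOf x₀ = p := by
  have hp : p.Prime := Fact.out
  haveI : Nontrivial P := (Subgroup.nontrivial_iff_ne_bot P).2 hP1
  obtain ⟨n, hn⟩ := IsPGroup.iff_card.1 hP
  have hn0 : n ≠ 0 := by
    rintro rfl
    rw [pow_zero] at hn
    have := Finite.one_lt_card (α := P)
    omega
  have hdvd : p ∣ Nat.card P := by
    rw [hn]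
    exact dvd_pow_self p hn0
  obtain ⟨x, hx⟩ := exists_prime_orderOf_dvd_card' p hdvd
  exact ⟨x, x.2, by rw [← hx]; exact (Subgroup.orderOf_coe x)⟩

/-- every nontrivial element of a cyclic `p`-group has the element of order `p` among its
powers. -/
theorem mem_zpowers_of_ne_one {P : Subgroup G} (hP : IsPGroup p P) (hcyc : IsCyclic P) {x₀ : G}
    (hx : x₀ ∈ P) (ho : orderOf x₀ = p) (d : G) (hd : d ∈ P) (hd1 : d ≠ 1) :
    x₀ ∈ Subgroup.zpowers d := by
  have hp : p.Prime := Fact.out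
  obtain ⟨K, hK⟩ := hP ⟨d, hd⟩
  have hK' : d ^ p ^ K = 1 := congrArg Subtype.val hK
  obtain ⟨j, -, hj⟩ := (Nat.dvd_prime_pow hp).mp (orderOf_dvd_of_pow_eq_one hK')
  have hj0 : j ≠ 0 := by
    rintro rfl
    rw [pow_zero, orderOf_eq_one_iff] at hj
    exact hd1 hj
  obtain ⟨j', rfl⟩ := Nat.exists_eq_succ_of_ne_zero hj0
  have hyo : orderOf (d ^ p ^ j') = p := by
    rw [orderOf_pow' d (pow_ne_zero _ hp.ne_zero), hj,
      Nat.gcd_eq_right (pow_dvd_pow p (Nat.le_succ j')),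
      Nat.succ_eq_add_one, pow_succ, Nat.mul_div_cancel_left _ (pow_pos hp.pos _)]
  have h1 := Cfsg.Agent.Lib.H81CycGD2.mem_zpowers_of_pow_eq_one p hcyc (P.pow_mem hd _) hyo x₀ hx
    (by rw [← ho, pow_orderOf_eq_one])
  exact (Subgroup.zpowers_le.mpr (Subgroup.pow_mem _ (Subgroup.mem_zpowers d) _)) h1

/-- induced blocks are defined for the centralizer of a `p`-element, for any presentation of the
centralizer. -/
theorem induced_defined_of_eq (hM : IsPModular p M) (x : G) (hx : ∃ k : ℕ, orderOf x = p ^ k)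
    (K : Subgroup G) (hK : K = Subgroup.centralizer ({x} : Set G))
    (b : Set (IrrCharacter K)) (hb : IsPBlock M b) :
    ∃ B' : Set (IrrCharacter G), IsInducedBlock M K b B' := by
  subst hK
  exact Cfsg.Agent.Lib.Helper81Second3.induced_defined_centralizer hM x hx b hb

/-- piece `G-BCY`: the data of a block with cyclic defect group. -/
theorem cy_of_max (hM : IsPModular p M) {B : Set (IrrCharacter G)} {P : Subgroup G}
    {c : Set (IrrCharacter (Subgroup.centralizer (P : Set G)))}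
    (hmax : IsMaximalBrauerPair p M B P c) (hcyc : IsCyclic P) (hP1 : P ≠ ⊥) :
    (Subgroup.centralizer (P : Set G)).relIndex (pstab P c) ∣ p - 1 ∧
    ∃ (x₀ t₀ : G) (T : Subgroup G)
      (f : Set (IrrCharacter (Subgroup.centralizer ((Subgroup.zpowers x₀ : Subgroup G) : Set G)))),
      CY p M P (Subgroup.centralizer ((Subgroup.zpowers x₀ : Subgroup G) : Set G)) T
        (Subgroup.normalizer ((Subgroup.zpowers x₀ : Subgroup G) : Set G)) t₀ x₀
        ((Subgroup.centralizer (P : Set G)).relIndex (pstab P c)) f B := by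
  classical
  have hp : p.Prime := Fact.out
  have hPr : M.IsPrime := hM.2.1.isPrime
  have hPp : IsPGroup p P := hmax.1.1.1
  obtain ⟨x₀, hx₀P, ho⟩ := exists_order_p hPp hP1
  have hab := Cfsg.Agent.Lib.Helper78IndPair.comm_of_cyclic hcyc
  have hZ : Cfsg.Agent.Lib.Helper78MajP.IsZ P x₀ := ⟨hx₀P, fun y hy => hab y hy x₀ hx₀P⟩
  have hle := Cfsg.Agent.Lib.Helper78MajP.fz_spec hM hmax.1.1 hZ.zpowers_le
  have hQ1 : Subgroup.zpowers x₀ ≠ ⊥ := by
    intro h
    rw [Subgroup.zpowers_eq_bot] at h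
    rw [h, orderOf_one] at ho
    exact hp.one_lt.ne ho
  obtain ⟨hps, hidx, hnilf⟩ := Cfsg.Agent.Lib.Helper78IndPair.cyclic_local hM hmax hcyc hle hQ1
  obtain ⟨hdvd, t₀, hgd⟩ := Cfsg.Agent.Lib.H81CycGD.gd_of p hPp hcyc hx₀P ho
    (centralizer_le_pstab (Subgroup.zpowers x₀) _) (pstab_le (Subgroup.zpowers x₀) _) _ hidx
  have hf : IsPBlock M (Cfsg.Agent.Lib.Helper78MajP.fz p M P c (Subgroup.zpowers x₀)) :=
    (hle.isBrauerPair hmax.1.1).2
  have hdf := Cfsg.Agent.Lib.Helper80Abel.isDefectGroup_of_abelian hM hmax hle hZ.le_centralizer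
  have hab' : ∀ x ∈ P.subgroupOf
      (Subgroup.centralizer ((Subgroup.zpowers x₀ : Subgroup G) : Set G)),
      ∀ y ∈ P.subgroupOf (Subgroup.centralizer ((Subgroup.zpowers x₀ : Subgroup G) : Set G)),
      x * y = y * x := by
    intro x hx y hy
    exact Subtype.ext (hab x (Subgroup.mem_subgroupOf.1 hx) y (Subgroup.mem_subgroupOf.1 hy))
  refine ⟨hdvd, x₀, t₀, pstab (Subgroup.zpowers x₀)
    (Cfsg.Agent.Lib.Helper78MajP.fz p M P c (Subgroup.zpowers x₀)),
    Cfsg.Agent.Lib.Helper78MajP.fz p M P c (Subgroup.zpowers x₀), ?_⟩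
  exact
  { hM := hM
    gd := hgd
    idx := hidx
    D1 := hP1
    cen := by
      intro d hd hd1
      have h1 := mem_zpowers_of_ne_one hPp hcyc hx₀P ho d hd hd1
      rw [← Cfsg.Agent.Lib.Helper78MajP.centralizer_zpowers d]
      apply Subgroup.centralizer_le
      exact Subgroup.zpowers_le.mpr h1
    ind := Cfsg.Agent.Lib.Helper78MajP.fz_induced hM hmax hZ
    dB := isDefectGroup_of_maximal hM hmax
    df := hdf
    stab := by
      intro n hn
      rw [stabilizesBlock_iff hPr hf n, Cfsg.Agent.Lib.Helper80Stab.mem_stabFun]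
      constructor
      · rintro ⟨-, h2⟩
        exact ⟨Subgroup.mem_normalizer_iff.mpr (mem_normalizer_centralizer hn), h2⟩
      · rintro ⟨-, h2⟩
        exact ⟨hn, h2⟩
    reg := Cfsg.Agent.Lib.H81CycGNREG.nil_reg hM hnilf hdf hab'
    cjB := fun f' hf' => Cfsg.Agent.Lib.H81CycGBCJ.cj_blocks hM hmax hcyc hle f' hf'
    indD := fun f' hf' => induced_defined_of_eq hM x₀ ⟨1, by rw [ho, pow_one]⟩ _
      (Cfsg.Agent.Lib.Helper78MajP.centralizer_zpowers x₀) f' hf'
    card := by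
      rw [Cfsg.Agent.Lib.H81CycCARD.card_nil hM hnilf hdf hab']
      exact Nat.card_congr (Subgroup.subgroupOfEquivOfLe hZ.le_centralizer).toEquiv }

end Cfsg.Agent.Lib.H81CycGBCY
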