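import Cfsg.Agent.Lib.Helper81CycGDefs
import Cfsg.Agent.Lib.Helper81Orth2
import Cfsg.Agent.Lib.Helper81Second3
import Cfsg.Agent.Lib.Helper81Part
import Cfsg.Agent.Lib.Helper54DefOneComb
import Cfsg.Agent.Lib.Helper4DefOneK
import Cfsg.Agent.Lib.Helper78IndPair
import Cfsg.Agent.Lib.Helper80Conj
import Cfsg.Agent.Lib.Helper80Full2

set_option autoImplicit false

namespace Cfsg.Agent.Lib.H81CycGCJ
open Cfsg
open Cfsg.Agent.Lib.Helper81CycDefs Cfsg.Agent.Lib.Helper81CycGDefs Cfsg.Agent.Lib.Helper4DefOneDefs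
open Cfsg.Agent.Lib.Helper80Transport Cfsg.Agent.Lib.Helper82Quot Cfsg.Agent.Lib.Helper81Base
open Cfsg.Agent.Lib.Helper80Trace Cfsg.Agent.Lib.Helper80Incl
open scoped ComplexConjugate

universe u

variable {G : Type u} [Group G]

theorem nrm_iff {C : Subgroup G} {n : G} (hn : n ∈ Subgroup.normalizer (C : Set G)) :
    ∀ g, g ∈ C ↔ n * g * n⁻¹ ∈ C := fun g => Subgroup.mem_normalizer_iff.1 hn g

theorem cjc_eq {C : Subgroup G} {n : G} (hn : n ∈ Subgroup.normalizer (C : Set G))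
    (ψ : IrrCharacter C) : cjc C n ψ = irrCongr (cjEquiv n C C (nrm_iff hn)) ψ := by
  unfold cjc
  rw [dif_pos (nrm_iff hn)]

/-- piece `G-CJ`: API of the conjugate character. -/
theorem cjc_spec {C : Subgroup G} {n : G} (hn : n ∈ Subgroup.normalizer (C : Set G))
    (ψ : IrrCharacter C) : IsConjCharOf C n (ψ : C → ℂ) (cjc C n ψ : C → ℂ) := by
  intro k k' hk
  rw [cjc_eq hn, irrCongr_apply]
  refine congrArg (ψ : C → ℂ) (Subtype.ext ?_)
  change n⁻¹ * (k' : G) * n = k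
  rw [hk]
  group

/-- piece `G-CJ` -/
theorem cjc_unique {C : Subgroup G} {n : G} (hn : n ∈ Subgroup.normalizer (C : Set G))
    {ψ ψ' : IrrCharacter C} (h : IsConjCharOf C n (ψ : C → ℂ) (ψ' : C → ℂ)) : ψ' = cjc C n ψ := by
  rw [cjc_eq hn]
  apply Subtype.ext
  funext k'
  rw [irrCongr_apply]
  apply h
  change (k' : G) = n * (n⁻¹ * (k' : G) * n) * n⁻¹
  group

/-- piece `G-CJ` -/
theorem cjc_mul {C : Subgroup G} {n m : G} (hn : n ∈ Subgroup.normalizer (C : Set G))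
    (hm : m ∈ Subgroup.normalizer (C : Set G)) (ψ : IrrCharacter C) :
    cjc C (n * m) ψ = cjc C n (cjc C m ψ) := by
  symm
  apply cjc_unique (Subgroup.mul_mem _ hn hm)
  intro k k' hk
  have hk2 : m * (k : G) * m⁻¹ ∈ C := (nrm_iff hm k).1 k.2
  have h1 := cjc_spec hm ψ k ⟨m * (k : G) * m⁻¹, hk2⟩ rfl
  have h2 := cjc_spec hn (cjc C m ψ) ⟨m * (k : G) * m⁻¹, hk2⟩ k' (by
    rw [hk]; simp only [mul_inv_rev, mul_assoc])
  rw [h2, h1]

/-- piece `G-CJ` -/
theorem cjc_of_mem {C : Subgroup G} {c : G} (hc : c ∈ C) (ψ : IrrCharacter C) :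
    cjc C c ψ = ψ := by
  symm
  apply cjc_unique (Subgroup.le_normalizer hc)
  intro k k' hk
  have h1 := Cfsg.Agent.Lib.Helper4Char.IsIrrCharacter.isClassFunction ψ.2 k ⟨c, hc⟩
  rw [← h1]
  refine congrArg (ψ : C → ℂ) (Subtype.ext ?_)
  rw [hk]
  rfl

/-- piece `G-CJ` -/
theorem cjc_inv {C : Subgroup G} {n : G} (hn : n ∈ Subgroup.normalizer (C : Set G))
    (ψ : IrrCharacter C) : cjc C n⁻¹ (cjc C n ψ) = ψ := by
  rw [← cjc_mul (Subgroup.inv_mem _ hn) hn, inv_mul_cancel]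
  exact cjc_of_mem C.one_mem ψ

/-- piece `G-CJ` -/
theorem cjc_apply {C : Subgroup G} {n : G} (hn : n ∈ Subgroup.normalizer (C : Set G))
    (ψ : IrrCharacter C) (c : C) :
    (cjc C n ψ : C → ℂ) c = extendByZero C (ψ : C → ℂ) (n⁻¹ * (c : G) * n) := by
  rw [cjc_eq hn, irrCongr_apply]
  have h1 : n⁻¹ * (c : G) * n = (((cjEquiv n C C (nrm_iff hn)).symm c : C) : G) := rfl
  rw [h1]
  unfold extendByZero
  rw [Function.Injective.extend_apply Subtype.val_injective]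

/-- piece `G-CJ` -/
theorem mH_cjc [Fintype G] {C : Subgroup G} [Fintype C] {n : G}
    (hn : n ∈ Subgroup.normalizer (C : Set G)) (χ : IrrCharacter G) (ψ : IrrCharacter C) :
    mH χ (cjc C n ψ) = mH χ ψ := by
  unfold mH classInner
  congr 1
  rw [cjc_eq hn]
  rw [← Equiv.sum_comp (cjEquiv n C C (nrm_iff hn)).toEquiv]
  apply Finset.sum_congr rfl
  intro k _
  rw [irrCongr_apply]
  have h1 : (cjEquiv n C C (nrm_iff hn)).symm ((cjEquiv n C C (nrm_iff hn)).toEquiv k) = k :=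
    (cjEquiv n C C (nrm_iff hn)).symm_apply_apply k
  rw [h1]
  congr 1
  exact Cfsg.Agent.Lib.Helper4Char.IsIrrCharacter.isClassFunction χ.2 (k : G) n

end Cfsg.Agent.Lib.H81CycGCJ
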