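import Cfsg.Agent.Lib.Helper81CycGDefs
import Cfsg.Agent.Lib.Helper81Orth2
import Cfsg.Agent.Lib.Helper81Second3
import Cfsg.Agent.Lib.Helper81Part
import Cfsg.Agent.Lib.Helper54DefOneComb
import Cfsg.Agent.Lib.Helper4DefOneK
import Cfsg.Agent.Lib.Helper78IndPair
import Cfsg.Agent.Lib.Helper80Conj
import Cfsg.Agent.Lib.Helper80Full2
import Cfsg.Agent.Lib.Helper77Glaub

set_option autoImplicit false

namespace Cfsg.Agent.Lib.H81CycGGRAMABS
open Cfsg
open Cfsg.Agent.Lib.Helper81CycDefs Cfsg.Agent.Lib.Helper81CycGDefs Cfsg.Agent.Lib.Helper4DefOneDefs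
open Cfsg.Agent.Lib.Helper80Transport Cfsg.Agent.Lib.Helper82Quot Cfsg.Agent.Lib.Helper81Base
open Cfsg.Agent.Lib.Helper80Trace Cfsg.Agent.Lib.Helper80Incl
open scoped ComplexConjugate

universe u

variable {G : Type u} [Group G]

theorem ext_coe (C : Subgroup G) (β : C → ℂ) (c : C) : extendByZero C β (c : G) = β c := by
  unfold extendByZero
  exact Subtype.val_injective.extend_apply β 0 c

theorem ext_not_mem (C : Subgroup G) (β : C → ℂ) {x : G} (hx : x ∉ C) :
    extendByZero C β x = 0 := by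
  unfold extendByZero
  rw [Function.extend_apply']
  · rfl
  · rintro ⟨c, rfl⟩
    exact hx c.2

open scoped Classical in
theorem sum_ext (C : Subgroup G) [Fintype C] (β : C → ℂ) (x : G) :
    ∑ c' : C, β c' * (if x = (c' : G) then (1 : ℂ) else 0) = extendByZero C β x := by
  by_cases hx : x ∈ C
  · rw [Finset.sum_eq_single (⟨x, hx⟩ : C)]
    · rw [if_pos rfl, mul_one]
      exact (ext_coe C β ⟨x, hx⟩).symm
    · intro b _ hb
      rw [if_neg, mul_zero]
      intro h
      exact hb (Subtype.ext h.symm)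
    · intro h
      exact absurd (Finset.mem_univ _) h
  · rw [ext_not_mem C β hx]
    refine Finset.sum_eq_zero (fun c' _ => ?_)
    rw [if_neg, mul_zero]
    rintro rfl
    exact hx c'.2

/-- piece `G-GRAMABS`: the abstract Gram formula. -/
theorem gram_abs [Fintype G] (C N : Subgroup G) [Fintype C] [Fintype N] (hCN : C ≤ N)
    (hN : N ≤ Subgroup.normalizer (C : Set G)) (α β : C → ℂ)
    (hfus : ∀ (c c' : C) (g : G), (c' : G) = g * c * g⁻¹ → α c ≠ 0 → β c' ≠ 0 → g ∈ N) :
    ∑ χ : IrrCharacter G, classInner (fun c : C => (χ : G → ℂ) c) α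
        * conj (classInner (fun c : C => (χ : G → ℂ) c) β)
      = (Nat.card C : ℂ)⁻¹ * ∑ n : N,
          classInner (fun c : C => extendByZero C β ((n : G) * c * (n : G)⁻¹)) α := by
  classical
  set k : ℂ := (Nat.card C : ℂ)⁻¹ with hk
  have hkc : conj k = k := by
    rw [hk, map_inv₀, Complex.conj_natCast]
  -- the left hand side
  have hL : ∀ χ : IrrCharacter G, classInner (fun c : C => (χ : G → ℂ) c) α
        * conj (classInner (fun c : C => (χ : G → ℂ) c) β)
      = k * (k * ∑ c : C, ∑ c' : C, (conj (α c) * β c') *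
          ((χ : G → ℂ) c * conj ((χ : G → ℂ) c'))) := by
    intro χ
    unfold classInner
    rw [map_mul, hkc, map_sum]
    have : (k * ∑ g : C, (χ : G → ℂ) g * conj (α g))
        * (k * ∑ x : C, conj ((χ : G → ℂ) x * conj (β x)))
        = k * (k * ((∑ g : C, (χ : G → ℂ) g * conj (α g))
          * (∑ x : C, conj ((χ : G → ℂ) x * conj (β x))))) := by ring
    rw [this, Finset.sum_mul_sum]
    congr 2
    refine Finset.sum_congr rfl (fun c _ => Finset.sum_congr rfl (fun c' _ => ?_))
    rw [map_mul, Complex.conj_conj]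
    ring
  simp_rw [hL]
  rw [← Finset.mul_sum, ← Finset.mul_sum]
  congr 1
  unfold classInner
  rw [← Finset.mul_sum]
  congr 1
  rw [Finset.sum_comm]
  have h1 : ∀ c : C, ∑ χ : IrrCharacter G, ∑ c' : C, (conj (α c) * β c') *
          ((χ : G → ℂ) c * conj ((χ : G → ℂ) c'))
      = ∑ g : G, conj (α c) * extendByZero C β (g * c * g⁻¹) := by
    intro c
    rw [Finset.sum_comm]
    have h2 : ∀ c' : C, ∑ χ : IrrCharacter G, (conj (α c) * β c') *
          ((χ : G → ℂ) c * conj ((χ : G → ℂ) c'))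
        = ∑ g : G, conj (α c) * (β c' * (if g * c * g⁻¹ = (c' : G) then (1 : ℂ) else 0)) := by
      intro c'
      rw [← Finset.mul_sum, Cfsg.Agent.Lib.Helper77Glaub.col_orth_count, Finset.mul_sum]
      refine Finset.sum_congr rfl (fun g _ => ?_)
      ring
    simp_rw [h2]
    rw [Finset.sum_comm]
    refine Finset.sum_congr rfl (fun g _ => ?_)
    rw [← Finset.mul_sum, sum_ext]
  simp_rw [h1]
  rw [Finset.sum_comm (s := (Finset.univ : Finset N))]
  refine Finset.sum_congr rfl (fun c _ => ?_)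
  have h3 : ∑ g : G, conj (α c) * extendByZero C β (g * c * g⁻¹)
      = ∑ g ∈ Finset.univ.filter (fun g : G => g ∈ N),
          conj (α c) * extendByZero C β (g * c * g⁻¹) := by
    symm
    apply Finset.sum_subset (Finset.filter_subset _ _)
    intro g _ hg
    have hgN : g ∉ N := fun h => hg (Finset.mem_filter.mpr ⟨Finset.mem_univ _, h⟩)
    by_cases ha : α c = 0
    · rw [ha, map_zero, zero_mul]
    by_cases hm : g * c * g⁻¹ ∈ C
    · by_cases hb : β ⟨g * c * g⁻¹, hm⟩ = 0
      · have := ext_coe C β ⟨g * c * g⁻¹, hm⟩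
        rw [hb] at this
        change extendByZero C β (g * c * g⁻¹) = 0 at this
        rw [this, mul_zero]
      · exact absurd (hfus c ⟨g * c * g⁻¹, hm⟩ g rfl ha hb) hgN
    · rw [ext_not_mem C β hm, mul_zero]
  rw [h3, Finset.sum_subtype (Finset.univ.filter (fun g : G => g ∈ N)) (p := fun g => g ∈ N)
    (fun x => by simp)]
  refine Finset.sum_congr rfl (fun n _ => ?_)
  ring

end Cfsg.Agent.Lib.H81CycGGRAMABS
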