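import Cfsg.Agent.Lib.Helper81CycGDefs
import Cfsg.Agent.Lib.Helper21DC
import Cfsg.Agent.Lib.Helper20Conj
import Cfsg.Agent.S0924

set_option autoImplicit false

namespace Cfsg.Agent.Lib.H81CycGVAN
open Cfsg
open Cfsg.Agent.Lib.Helper81CycDefs Cfsg.Agent.Lib.Helper81CycGDefs Cfsg.Agent.Lib.Helper4DefOneDefs
open scoped ComplexConjugate

universe u

variable {G : Type u} [Group G] [Fintype G] {p : ℕ} [Fact p.Prime] {M : Ideal AlgInt}
  {D C T N : Subgroup G} [Fintype C] {t₀ x₀ : G} {e : ℕ} {f : Set (IrrCharacter C)}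
  {B : Set (IrrCharacter G)}

/-- a character of a block vanishes off the sections of a defect group. -/
theorem van_gen {H : Type*} [Group H] [Fintype H] (hM : IsPModular p M) {b : Set (IrrCharacter H)}
    (hb : IsPBlock M b) {E : Subgroup H} (hE : IsDefectGroup p M b E) {ψ : IrrCharacter H}
    (hψ : ψ ∈ b) {c u : H} (hu : IsPPart p c u) (hn : ∀ x : H, x * u * x⁻¹ ∉ E) :
    (ψ : H → ℂ) c = 0 := by
  have := hM.2.1.isPrime
  apply Cfsg.Agent.S0924.result p M hM ψ c u hu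
  intro D' hD'
  rw [← Cfsg.Agent.Lib.Helper81Block.isPBlock_eq_blockOf hb hψ] at hD'
  obtain ⟨t, rfl⟩ := Cfsg.Agent.Lib.Helper20Conj.defectGroup_conj hM hb hE hD'
  intro hmem
  rw [Cfsg.Agent.Lib.Helper87Sylow.mem_cj] at hmem
  apply hn t⁻¹
  simpa using hmem

/-- piece `G-VAN`: the members of `f` vanish off the sections of `D`. -/
theorem van (h : CY p M D C T N t₀ x₀ e f B) {ψ : IrrCharacter C} (hψ : ψ ∈ f) {c u : C}
    (hu : IsPPart p c u) (hn : ∀ x : C, ((x * u * x⁻¹ : C) : G) ∉ D) : (ψ : C → ℂ) c = 0 := by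
  apply van_gen h.hM h.ind.1 h.df hψ hu
  intro x hx
  exact hn x (Subgroup.mem_subgroupOf.1 hx)

end Cfsg.Agent.Lib.H81CycGVAN
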