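import Cfsg.Agent.Lib.Helper81CycGDefs
import Cfsg.Agent.Lib.Helper81Orth2
import Cfsg.Agent.Lib.Helper81Second3
import Cfsg.Agent.Lib.Helper81Part
import Cfsg.Agent.Lib.Helper54DefOneComb
import Cfsg.Agent.Lib.Helper4DefOneK
import Cfsg.Agent.Lib.Helper78IndPair
import Cfsg.Agent.Lib.Helper80Conj
import Cfsg.Agent.Lib.Helper80Full2

import Cfsg.Agent.Lib.H81CycGVAN
import Cfsg.Agent.Lib.Helper81Second2
import Cfsg.Agent.Lib.Helper20Fusion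
import Cfsg.Agent.Lib.Helper81Orth

set_option autoImplicit false

namespace Cfsg.Agent.Lib.H81CycGSUPP
open Cfsg
open Cfsg.Agent.Lib.Helper81CycDefs Cfsg.Agent.Lib.Helper81CycGDefs Cfsg.Agent.Lib.Helper4DefOneDefs
open Cfsg.Agent.Lib.Helper80Transport Cfsg.Agent.Lib.Helper82Quot Cfsg.Agent.Lib.Helper81Base
open Cfsg.Agent.Lib.Helper80Trace Cfsg.Agent.Lib.Helper80Incl
open scoped ComplexConjugate

universe u

variable {G : Type u} [Group G] [Fintype G] {p : ℕ} [Fact p.Prime] {M : Ideal AlgInt}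
  {D C T N : Subgroup G} [Fintype C] {t₀ x₀ : G} {e : ℕ} {f : Set (IrrCharacter C)}
  {B : Set (IrrCharacter G)}

/-- piece `G-SUPP`: control of fusion on the supports. -/
theorem supp_fus (h : CY p M D C T N t₀ x₀ e f B) {ψ₁ ψ₂ ψ₃ ψ₄ : IrrCharacter C} (h₁ : ψ₁ ∈ f)
    (h₂ : ψ₂ ∈ f) (h₃ : ψ₃ ∈ f) (h₄ : ψ₄ ∈ f) (c c' : C) (g : G) (hc : (c' : G) = g * c * g⁻¹)
    (h12 : (ψ₁ : C → ℂ) c - (ψ₂ : C → ℂ) c ≠ 0) (h34 : (ψ₃ : C → ℂ) c' - (ψ₄ : C → ℂ) c' ≠ 0) :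
    g ∈ N := by
  have hp : p.Prime := Fact.out
  have hcs : p ∣ orderOf c := by
    by_contra hr
    exact h12 (sub_eq_zero.mpr (h.reg ψ₁ h₁ ψ₂ h₂ c hr))
  obtain ⟨u, hu⟩ := Cfsg.Agent.Lib.Helper81Orth.exists_ppart hp c
  have hu1 : u ≠ 1 := by
    rintro rfl
    obtain ⟨y, hxy, -, -, hy⟩ := hu
    rw [one_mul] at hxy
    rw [hxy] at hy
    exact hy hcs
  obtain ⟨x, hx⟩ : ∃ x : C, ((x * u * x⁻¹ : C) : G) ∈ D := by
    by_contra hcon
    push Not at hcon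
    apply h12
    rw [Cfsg.Agent.Lib.H81CycGVAN.van h h₁ hu hcon, Cfsg.Agent.Lib.H81CycGVAN.van h h₂ hu hcon,
      sub_zero]
  have huG : IsPPart p (c : G) (u : G) := by
    obtain ⟨y, hxy, hc', ⟨k, hk⟩, hy⟩ := hu
    exact ⟨y, by rw [← hxy]; rfl, congrArg Subtype.val hc',
      ⟨k, by rw [Subgroup.orderOf_coe]; exact hk⟩, by rw [Subgroup.orderOf_coe]; exact hy⟩
  have hu'G : IsPPart p (c' : G) (g * u * g⁻¹) := by
    rw [hc]; exact Cfsg.Agent.Lib.Helper81Second2.isPPart_conj huG g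
  obtain ⟨u', hu'e, hu'⟩ := Cfsg.Agent.Lib.Helper20Fusion.isPPart_subgroup hu'G
  obtain ⟨y, hy⟩ : ∃ y : C, ((y * u' * y⁻¹ : C) : G) ∈ D := by
    by_contra hcon
    push Not at hcon
    apply h34
    rw [Cfsg.Agent.Lib.H81CycGVAN.van h h₃ hu' hcon, Cfsg.Agent.Lib.H81CycGVAN.van h h₄ hu' hcon,
      sub_zero]
  by_contra hgN
  have hCN : C ≤ N := h.gd.CT.trans h.gd.TH
  have ht : (y : G) * g * (x : G)⁻¹ ∉ N := by
    intro hmem
    apply hgN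
    have : g = (y : G)⁻¹ * ((y : G) * g * (x : G)⁻¹) * x := by group
    rw [this]
    exact N.mul_mem (N.mul_mem (N.inv_mem (hCN y.2)) hmem) (hCN x.2)
  have h1 := h.gd.TI _ ht _ hx (by
    have e : (y : G) * g * (x : G)⁻¹ * ((x * u * x⁻¹ : C) : G) * ((y : G) * g * (x : G)⁻¹)⁻¹ =
        ((y * u' * y⁻¹ : C) : G) := by
      rw [Subgroup.coe_mul, Subgroup.coe_mul, Subgroup.coe_mul, Subgroup.coe_mul,
        Subgroup.coe_inv, Subgroup.coe_inv, hu'e]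
      group
    rw [e]; exact hy)
  apply hu1
  have h2 : x * u * x⁻¹ = 1 := Subtype.ext h1
  have h3 : u = x⁻¹ * (x * u * x⁻¹) * x := by group
  rw [h3, h2]; group

end Cfsg.Agent.Lib.H81CycGSUPP
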