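import Cfsg.Agent.Lib.Helper81CycGDefs
import Cfsg.Agent.Lib.Helper81Orth2
import Cfsg.Agent.Lib.Helper81Second3
import Cfsg.Agent.Lib.Helper81Part
import Cfsg.Agent.Lib.Helper54DefOneComb
import Cfsg.Agent.Lib.Helper4DefOneK
import Cfsg.Agent.Lib.Helper78IndPair
import Cfsg.Agent.Lib.Helper80Conj
import Cfsg.Agent.Lib.Helper80Full2
import Cfsg.Agent.Lib.H81CycGGRAMABS
import Cfsg.Agent.Lib.H81CycGSUPP
import Cfsg.Agent.Lib.H81CycGCJ
import Cfsg.Agent.Lib.H81CycGCJB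

set_option autoImplicit false

namespace Cfsg.Agent.Lib.H81CycGGRAM1
open Cfsg
open Cfsg.Agent.Lib.Helper81CycDefs Cfsg.Agent.Lib.Helper81CycGDefs Cfsg.Agent.Lib.Helper4DefOneDefs
open Cfsg.Agent.Lib.Helper80Transport Cfsg.Agent.Lib.Helper82Quot Cfsg.Agent.Lib.Helper81Base
open Cfsg.Agent.Lib.Helper80Trace Cfsg.Agent.Lib.Helper80Incl
open scoped ComplexConjugate

universe u

variable {G : Type u} [Group G] [Fintype G] {p : ℕ} [Fact p.Prime] {M : Ideal AlgInt}
  {D C T N : Subgroup G} [Fintype C] {t₀ x₀ : G} {e : ℕ} {f : Set (IrrCharacter C)}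
  {B : Set (IrrCharacter G)}

theorem ebz_sub' {C : Subgroup G} (a b : C → ℂ) (x : G) :
    extendByZero C (a - b) x = extendByZero C a x - extendByZero C b x := by
  unfold extendByZero
  by_cases hx : x ∈ C
  · have e1 := Subtype.val_injective.extend_apply (a - b) 0 (⟨x, hx⟩ : C)
    have e2 := Subtype.val_injective.extend_apply a 0 (⟨x, hx⟩ : C)
    have e3 := Subtype.val_injective.extend_apply b 0 (⟨x, hx⟩ : C)
    simp only at e1 e2 e3
    rw [e1, e2, e3, Pi.sub_apply]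
  · have hn : ¬ ∃ c : C, (c : G) = x := by
      rintro ⟨c, rfl⟩
      exact hx c.2
    rw [Function.extend_apply' _ _ _ hn, Function.extend_apply' _ _ _ hn,
      Function.extend_apply' _ _ _ hn]
    simp

/-- piece `G-GRAM1`: the Gram matrix, reduction to a count. -/
theorem gram1 (h : CY p M D C T N t₀ x₀ e f B) {θ : IrrCharacter C} (hθ : IsFix C T f θ)
    {ψ ψ' : IrrCharacter C} (hψ : ψ ∈ f) (hψ' : ψ' ∈ f) (hne : ψ ≠ θ) (hne' : ψ' ≠ θ) :
    ∑ χ : IrrCharacter G, dd θ ψ χ * conj (dd θ ψ' χ)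
      = (Nat.card C : ℂ)⁻¹ * ((Nat.card T : ℂ) + (Nat.card {n : T // cjc C (n : G) ψ = ψ'} : ℂ)) := by
  classical
  have : Fintype N := Fintype.ofFinite _
  have : Fintype T := Fintype.ofFinite _
  have hNn := H81CycGCJB.le_normalizer h
  have hCN : C ≤ N := h.gd.CT.trans h.gd.TH
  have hdd : ∀ (φ : IrrCharacter C) (χ : IrrCharacter G), dd θ φ χ
      = classInner (fun c : C => (χ : G → ℂ) c) ((φ : C → ℂ) - (θ : C → ℂ)) := by
    intro φ χ
    rw [Cfsg.Agent.Lib.Helper4Char.classInner_sub_right]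
    rfl
  have hfus : ∀ (c c' : C) (g : G), (c' : G) = g * c * g⁻¹ →
      ((ψ : C → ℂ) - (θ : C → ℂ)) c ≠ 0 → ((ψ' : C → ℂ) - (θ : C → ℂ)) c' ≠ 0 → g ∈ N := by
    intro c c' g hc h1 h2
    exact H81CycGSUPP.supp_fus h hψ hθ.1 hψ' hθ.1 c c' g hc h1 h2
  have hgram := H81CycGGRAMABS.gram_abs C N hCN hNn ((ψ : C → ℂ) - (θ : C → ℂ))
    ((ψ' : C → ℂ) - (θ : C → ℂ)) hfus
  simp only [hdd]
  rw [hgram]
  congr 1
  have hin : ∀ a b : IrrCharacter C, classInner (a : C → ℂ) (b : C → ℂ) = if a = b then 1 else 0 := by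
    intro a b
    by_cases hab : a = b
    · rw [if_pos hab, hab]
      exact Cfsg.Agent.Lib.Helper4Char.classInner_irr_self b.2
    · rw [if_neg hab]
      exact Cfsg.Agent.Lib.Helper4Char.classInner_irr_ne a.2 b.2 (fun hh => hab (Subtype.ext hh))
  have hterm : ∀ n : N, classInner (fun c : C => extendByZero C ((ψ' : C → ℂ) - (θ : C → ℂ))
        ((n : G) * c * (n : G)⁻¹)) ((ψ : C → ℂ) - (θ : C → ℂ))
      = if (n : G) ∈ T then ((1 : ℂ) + if cjc C (n : G) ψ = ψ' then 1 else 0) else 0 := by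
    intro n
    have hn : (n : G) ∈ Subgroup.normalizer (C : Set G) := hNn n.2
    have hn' : (n : G)⁻¹ ∈ Subgroup.normalizer (C : Set G) := hNn (N.inv_mem n.2)
    have hfun : (fun c : C => extendByZero C ((ψ' : C → ℂ) - (θ : C → ℂ)) ((n : G) * c * (n : G)⁻¹))
        = (cjc C (n : G)⁻¹ ψ' : C → ℂ) - (cjc C (n : G)⁻¹ θ : C → ℂ) := by
      funext c
      rw [Pi.sub_apply, H81CycGCJ.cjc_apply hn', H81CycGCJ.cjc_apply hn', inv_inv, ebz_sub']
    rw [hfun, Cfsg.Agent.Lib.Helper4Char.classInner_sub_left,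
      Cfsg.Agent.Lib.Helper4Char.classInner_sub_right,
      Cfsg.Agent.Lib.Helper4Char.classInner_sub_right, hin, hin, hin, hin]
    by_cases hT : (n : G) ∈ T
    · have hnT' : (n : G)⁻¹ ∈ T := T.inv_mem hT
      have e1 : cjc C (n : G)⁻¹ θ = θ := hθ.2.1 _ hnT'
      have e2 : cjc C (n : G)⁻¹ ψ' ≠ θ := by
        intro hh
        apply hne'
        have h3 := H81CycGCJ.cjc_inv hn' ψ'
        rw [hh, inv_inv, hθ.2.1 _ hT] at h3
        exact h3.symm
      have e3 : (cjc C (n : G)⁻¹ ψ' = ψ) ↔ (cjc C (n : G) ψ = ψ') := by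
        constructor
        · intro hh
          rw [← hh]
          have h3 := H81CycGCJ.cjc_inv hn' ψ'
          rwa [inv_inv] at h3
        · intro hh
          rw [← hh]
          exact H81CycGCJ.cjc_inv hn ψ
      rw [e1, if_neg e2, if_neg (Ne.symm hne), if_pos rfl, if_pos hT]
      simp only [e3]
      ring
    · have hnT' : (n : G)⁻¹ ∉ T := fun hh => hT (by simpa using T.inv_mem hh)
      have m1 := H81CycGCJB.cjc_not_mem h (N.inv_mem n.2) hnT' hψ'
      have m2 := H81CycGCJB.cjc_not_mem h (N.inv_mem n.2) hnT' hθ.1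
      have n1 : cjc C (n : G)⁻¹ ψ' ≠ ψ := fun hh => m1 (by rw [hh]; exact hψ)
      have n2 : cjc C (n : G)⁻¹ ψ' ≠ θ := fun hh => m1 (by rw [hh]; exact hθ.1)
      have n3 : cjc C (n : G)⁻¹ θ ≠ ψ := fun hh => m2 (by rw [hh]; exact hψ)
      have n4 : cjc C (n : G)⁻¹ θ ≠ θ := fun hh => m2 (by rw [hh]; exact hθ.1)
      rw [if_neg n1, if_neg n2, if_neg n3, if_neg n4, if_neg hT]
      ring
  rw [Finset.sum_congr rfl (fun n _ => hterm n)]
  -- pass to a sum over `T`
  have hsumN : ∑ n : N, (if (n : G) ∈ T then ((1 : ℂ) + if cjc C (n : G) ψ = ψ' then 1 else 0) else 0)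
      = ∑ x ∈ Finset.univ.filter (fun x : G => x ∈ N),
        (if x ∈ T then ((1 : ℂ) + if cjc C x ψ = ψ' then 1 else 0) else 0) := by
    rw [Finset.sum_subtype (Finset.univ.filter (fun x : G => x ∈ N)) (p := fun x => x ∈ N)
      (by intro x; simp)]
  have hsumT : ∑ n : T, ((1 : ℂ) + if cjc C (n : G) ψ = ψ' then 1 else 0)
      = ∑ x ∈ Finset.univ.filter (fun x : G => x ∈ T),
        ((1 : ℂ) + if cjc C x ψ = ψ' then 1 else 0) := by
    rw [Finset.sum_subtype (Finset.univ.filter (fun x : G => x ∈ T)) (p := fun x => x ∈ T)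
      (by intro x; simp)]
  have hfilter : (Finset.univ.filter (fun x : G => x ∈ N)).filter (fun x => x ∈ T)
      = Finset.univ.filter (fun x : G => x ∈ T) := by
    ext x
    simp only [Finset.mem_filter, Finset.mem_univ, true_and]
    exact ⟨fun hx => hx.2, fun hx => ⟨h.gd.TH hx, hx⟩⟩
  rw [hsumN, ← Finset.sum_filter, hfilter, ← hsumT, Finset.sum_add_distrib, Finset.sum_const,
    Finset.card_univ, nsmul_eq_mul, mul_one, Finset.sum_boole, Nat.card_eq_fintype_card,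
    Nat.card_eq_fintype_card, Fintype.card_subtype (fun n : T => cjc C (n : G) ψ = ψ')]

end Cfsg.Agent.Lib.H81CycGGRAM1
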