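import Cfsg.Agent.Lib.Helper81CycGDefs
import Cfsg.Agent.Lib.Helper81Orth2
import Cfsg.Agent.Lib.Helper81Second3
import Cfsg.Agent.Lib.Helper81Part
import Cfsg.Agent.Lib.Helper54DefOneComb
import Cfsg.Agent.Lib.Helper4DefOneK
import Cfsg.Agent.Lib.Helper78IndPair
import Cfsg.Agent.Lib.Helper80Conj
import Cfsg.Agent.Lib.Helper80Full2
import Cfsg.Agent.Lib.H81CycGCJ

set_option autoImplicit false

namespace Cfsg.Agent.Lib.H81CycGGRAM2
open Cfsg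
open Cfsg.Agent.Lib.Helper81CycDefs Cfsg.Agent.Lib.Helper81CycGDefs Cfsg.Agent.Lib.Helper4DefOneDefs
open Cfsg.Agent.Lib.Helper80Transport Cfsg.Agent.Lib.Helper82Quot Cfsg.Agent.Lib.Helper81Base
open Cfsg.Agent.Lib.Helper80Trace Cfsg.Agent.Lib.Helper80Incl
open scoped ComplexConjugate

universe u

variable {G : Type u} [Group G] [Fintype G] {p : ℕ} [Fact p.Prime] {M : Ideal AlgInt}
  {D C T N : Subgroup G} [Fintype C] {t₀ x₀ : G} {e : ℕ} {f : Set (IrrCharacter C)}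
  {B : Set (IrrCharacter G)}

omit [Fintype G] [Fact p.Prime] [Fintype C] in
theorem le_norm_aux (h : CY p M D C T N t₀ x₀ e f B) {n : G} (hn : n ∈ T) :
    n ∈ Subgroup.normalizer (C : Set G) := by
  rw [Subgroup.mem_normalizer_iff]
  intro g
  constructor
  · intro hg
    exact h.gd.nC n (h.gd.TH hn) g hg
  · intro hg
    have := h.gd.nC n⁻¹ (N.inv_mem (h.gd.TH hn)) _ hg
    simpa [mul_assoc] using this

open Classical in
/-- piece `G-GRAM2`: the count. -/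
theorem card_conj (h : CY p M D C T N t₀ x₀ e f B) {θ : IrrCharacter C} (hθ : IsFix C T f θ)
    {ψ : IrrCharacter C} (ψ' : IrrCharacter C) (hψ : ψ ∈ f) (hne : ψ ≠ θ) :
    Nat.card {n : T // cjc C (n : G) ψ = ψ'} = if RelC C T ψ ψ' then Nat.card C else 0 := by
  by_cases hR : RelC C T ψ ψ'
  · rw [if_pos hR]
    obtain ⟨n₀, hn₀, hn₀ψ⟩ := hR
    have hN₀ := le_norm_aux h hn₀
    symm
    apply Nat.card_congr
    refine Equiv.ofBijective (fun c : C => ⟨⟨n₀ * c, T.mul_mem hn₀ (h.gd.CT c.2)⟩, ?_⟩) ⟨?_, ?_⟩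
    · change cjc C (n₀ * c) ψ = ψ'
      rw [H81CycGCJ.cjc_mul hN₀ (le_norm_aux h (h.gd.CT c.2)), H81CycGCJ.cjc_of_mem c.2, hn₀ψ]
    · intro c c' hcc
      have h1 : n₀ * (c : G) = n₀ * (c' : G) := congrArg (fun x => ((x.1 : T) : G)) hcc
      exact Subtype.ext (mul_left_cancel h1)
    · rintro ⟨⟨n, hn⟩, hnψ⟩
      change cjc C n ψ = ψ' at hnψ
      have hNn := le_norm_aux h hn
      have h1 : cjc C (n₀⁻¹ * n) ψ = ψ := by
        rw [H81CycGCJ.cjc_mul (Subgroup.inv_mem _ hN₀) hNn, hnψ, ← hn₀ψ, H81CycGCJ.cjc_inv hN₀]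
      have h2 : n₀⁻¹ * n ∈ C := hθ.2.2 ψ hψ hne _ (T.mul_mem (T.inv_mem hn₀) hn) h1
      refine ⟨⟨n₀⁻¹ * n, h2⟩, ?_⟩
      apply Subtype.ext
      apply Subtype.ext
      change n₀ * (n₀⁻¹ * n) = n
      rw [mul_inv_cancel_left]
  · rw [if_neg hR]
    have : IsEmpty {n : T // cjc C (n : G) ψ = ψ'} := ⟨fun n => hR ⟨n.1, n.1.2, n.2⟩⟩
    exact Nat.card_of_isEmpty

end Cfsg.Agent.Lib.H81CycGGRAM2
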