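import Cfsg.Agent.Lib.Helper81CycGDefs
import Cfsg.Agent.Lib.Helper81Orth2
import Cfsg.Agent.Lib.Helper81Second3
import Cfsg.Agent.Lib.Helper81Part
import Cfsg.Agent.Lib.Helper54DefOneComb
import Cfsg.Agent.Lib.Helper4DefOneK
import Cfsg.Agent.Lib.Helper78IndPair
import Cfsg.Agent.Lib.Helper80Conj
import Cfsg.Agent.Lib.Helper80Full2
import Cfsg.Agent.Lib.H81CycGGRAM1
import Cfsg.Agent.Lib.H81CycGGRAM2

set_option autoImplicit false

namespace Cfsg.Agent.Lib.H81CycGGRAM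
open Cfsg
open Cfsg.Agent.Lib.Helper81CycDefs Cfsg.Agent.Lib.Helper81CycGDefs Cfsg.Agent.Lib.Helper4DefOneDefs
open Cfsg.Agent.Lib.Helper80Transport Cfsg.Agent.Lib.Helper82Quot Cfsg.Agent.Lib.Helper81Base
open Cfsg.Agent.Lib.Helper80Trace Cfsg.Agent.Lib.Helper80Incl
open scoped ComplexConjugate

universe u

variable {G : Type u} [Group G] [Fintype G] {p : ℕ} [Fact p.Prime] {M : Ideal AlgInt}
  {D C T N : Subgroup G} [Fintype C] {t₀ x₀ : G} {e : ℕ} {f : Set (IrrCharacter C)}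
  {B : Set (IrrCharacter G)}

open Classical in
/-- piece `G-GRAM`: the Gram matrix. -/
theorem gram (h : CY p M D C T N t₀ x₀ e f B) {θ : IrrCharacter C} (hθ : IsFix C T f θ)
    {ψ ψ' : IrrCharacter C} (hψ : ψ ∈ f) (hψ' : ψ' ∈ f) (hne : ψ ≠ θ) (hne' : ψ' ≠ θ) :
    ∑ χ : IrrCharacter G, dd θ ψ χ * conj (dd θ ψ' χ)
      = (e : ℂ) + if RelC C T ψ ψ' then 1 else 0 := by
  rw [H81CycGGRAM1.gram1 h hθ hψ hψ' hne hne', H81CycGGRAM2.card_conj h hθ ψ' hψ hne]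
  have hT : Nat.card T = e * Nat.card C := by
    have h1 := Subgroup.relIndex_mul_relIndex ⊥ C T bot_le h.gd.CT
    rw [Subgroup.relIndex_bot_left, Subgroup.relIndex_bot_left, h.idx] at h1
    rw [← h1, mul_comm]
  have hC : (Nat.card C : ℂ) ≠ 0 := by
    have : 0 < Nat.card C := Nat.card_pos
    exact_mod_cast this.ne'
  rw [hT]
  split_ifs
  · push_cast
    field_simp
  · push_cast
    field_simp
    ring

end Cfsg.Agent.Lib.H81CycGGRAM
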