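import Cfsg.Agent.Lib.Helper81CycGDefs
import Cfsg.Agent.Lib.Helper81Orth2
import Cfsg.Agent.Lib.Helper81Second3
import Cfsg.Agent.Lib.Helper81Part
import Cfsg.Agent.Lib.Helper54DefOneComb
import Cfsg.Agent.Lib.Helper4DefOneK
import Cfsg.Agent.Lib.Helper78IndPair
import Cfsg.Agent.Lib.Helper80Conj
import Cfsg.Agent.Lib.Helper80Full2

set_option autoImplicit false

namespace Cfsg.Agent.Lib.H81CycGLI
open Cfsg
open Cfsg.Agent.Lib.Helper81CycDefs Cfsg.Agent.Lib.Helper81CycGDefs Cfsg.Agent.Lib.Helper4DefOneDefs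
open Cfsg.Agent.Lib.Helper80Transport Cfsg.Agent.Lib.Helper82Quot Cfsg.Agent.Lib.Helper81Base
open Cfsg.Agent.Lib.Helper80Trace Cfsg.Agent.Lib.Helper80Incl
open scoped ComplexConjugate

universe u

variable {G : Type u} [Group G]

/-- piece `G-LI`: a Gram matrix `1 + e J` is non singular. -/
theorem li_of_gram {ι κ : Type*} [Fintype ι] [Fintype κ] [DecidableEq ι] (e : ℕ) (v : ι → κ → ℂ)
    (hg : ∀ i j, ∑ k, v i k * conj (v j k) = (e : ℂ) + if i = j then 1 else 0) :
    LinearIndependent ℂ v := by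
  rw [Fintype.linearIndependent_iff]
  intro c hc
  have key : ∀ j, (e : ℂ) * (∑ i, c i) + c j = 0 := by
    intro j
    have h1 : ∑ k, (∑ i, c i • v i) k * conj (v j k) = 0 := by
      rw [hc]
      simp
    have h2 : ∑ k, (∑ i, c i • v i) k * conj (v j k)
        = ∑ i, c i * ∑ k, v i k * conj (v j k) := by
      simp only [Finset.sum_apply, Pi.smul_apply, smul_eq_mul, Finset.sum_mul, Finset.mul_sum]
      rw [Finset.sum_comm]
      refine Finset.sum_congr rfl (fun i _ => Finset.sum_congr rfl (fun k _ => ?_))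
      ring
    rw [h2] at h1
    simp only [hg, mul_add, mul_ite, mul_one, mul_zero, Finset.sum_add_distrib,
      Finset.sum_ite_eq', Finset.mem_univ, if_true] at h1
    rw [← Finset.sum_mul] at h1
    linear_combination h1
  have hS : (∑ i, c i) = 0 := by
    have h3 : ∑ j, ((e : ℂ) * (∑ i, c i) + c j) = 0 := Finset.sum_eq_zero (fun j _ => key j)
    rw [Finset.sum_add_distrib, Finset.sum_const, Finset.card_univ, nsmul_eq_mul] at h3
    have h4 : ((Fintype.card ι * e + 1 : ℕ) : ℂ) * (∑ i, c i) = 0 := by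
      push_cast
      linear_combination h3
    rcases mul_eq_zero.mp h4 with h5 | h5
    · exact absurd (Nat.cast_eq_zero.mp h5) (Nat.succ_ne_zero _)
    · exact h5
  intro j
  have := key j
  rw [hS, mul_zero, zero_add] at this
  exact this

end Cfsg.Agent.Lib.H81CycGLI
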