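import Mathlib
import Cfsg.Prelude.Def_BlockRank
import Cfsg.Agent.Lib.Helper4Char

set_option autoImplicit false

namespace Cfsg.Agent.Lib.H81CycGNULL
open Cfsg
open scoped ComplexConjugate

universe u

variable {G : Type u} [Group G]

/-- the linear algebra: linearly independent vectors in the kernel. -/
theorem rank_null_li {X W ι : Type*} [Fintype X] [AddCommGroup W] [Module ℂ W] [Fintype ι]
    (B : Set X) (φ : X → W) (v : ι → X → ℂ)
    (hout : ∀ l χ, χ ∉ B → v l χ = 0)
    (hker : ∀ l, ∑ χ, v l χ • φ χ = 0)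
    (hli : LinearIndependent ℂ v) :
    Module.finrank ℂ ↥(Submodule.span ℂ (φ '' B)) + Fintype.card ι ≤ Nat.card B := by
  classical
  set Φ : (B → ℂ) →ₗ[ℂ] W := Fintype.linearCombination ℂ (fun χ : B => φ χ) with hΦ
  have hrange : LinearMap.range Φ = Submodule.span ℂ (φ '' B) := by
    rw [hΦ, Fintype.range_linearCombination, Set.image_eq_range]
  have hrn := LinearMap.finrank_range_add_finrank_ker Φ
  rw [hrange, Module.finrank_fintype_fun_eq_card, ← Nat.card_eq_fintype_card] at hrn
  have hsum : ∀ (f : X → W), (∀ χ, χ ∉ B → f χ = 0) → ∑ χ : B, f χ = ∑ χ, f χ := by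
    intro f hf
    rw [← Finset.sum_subtype (Finset.univ.filter (· ∈ B)) (by simp) f]
    apply Finset.sum_subset (Finset.filter_subset _ _)
    intro χ _ hχ
    apply hf
    simpa using hχ
  have hmem : ∀ l, (fun χ : B => v l χ) ∈ LinearMap.ker Φ := by
    intro l
    rw [LinearMap.mem_ker, hΦ, Fintype.linearCombination_apply,
      hsum (fun χ => v l χ • φ χ) (fun χ hχ => by rw [hout l χ hχ, zero_smul])]
    exact hker l
  set w : ι → LinearMap.ker Φ := fun q => ⟨fun χ : B => v q χ, hmem _⟩ with hw
  have hli' : LinearIndependent ℂ w := by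
    rw [Fintype.linearIndependent_iff]
    intro c hc
    rw [Fintype.linearIndependent_iff] at hli
    apply hli c
    funext χ
    by_cases hχ : χ ∈ B
    · have := congrFun (congrArg Subtype.val hc) ⟨χ, hχ⟩
      simpa [hw, Finset.sum_apply] using this
    · simp [Finset.sum_apply, hout _ χ hχ]
  have hle := hli'.fintype_card_le_finrank
  omega

/-- piece `G-NULL`: rank-nullity. -/
theorem null_abs [Fintype G] (p : ℕ) (B : Set (IrrCharacter G)) {ι : Type*} [Fintype ι]
    (v : ι → IrrCharacter G → ℂ) (hsupp : ∀ i χ, χ ∉ B → v i χ = 0)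
    (hker : ∀ i (g : G), ¬ p ∣ orderOf g → ∑ χ : IrrCharacter G, v i χ * (χ : G → ℂ) g = 0)
    (hli : LinearIndependent ℂ v) : blockRank p B + Fintype.card ι ≤ Nat.card B := by
  classical
  have key := rank_null_li B (fun χ : IrrCharacter G => pRegularPart p (χ : G → ℂ)) v hsupp
    (fun l => by
      funext g
      rw [Finset.sum_apply]
      simp only [Pi.smul_apply, smul_eq_mul, Pi.zero_apply, pRegularPart]
      by_cases hg : IsPRegular p g
      · simp only [if_pos hg]
        exact hker _ g hg
      · simp only [if_neg hg, mul_zero, Finset.sum_const_zero]) hli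
  unfold blockRank
  exact key

end Cfsg.Agent.Lib.H81CycGNULL
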