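import Cfsg.Agent.Lib.Helper81CycGDefs
import Cfsg.Agent.Lib.Helper81Orth2
import Cfsg.Agent.Lib.Helper81Second3
import Cfsg.Agent.Lib.Helper81Part
import Cfsg.Agent.Lib.Helper54DefOneComb
import Cfsg.Agent.Lib.Helper4DefOneK
import Cfsg.Agent.Lib.Helper78IndPair
import Cfsg.Agent.Lib.Helper80Conj
import Cfsg.Agent.Lib.Helper80Full2

import Cfsg.Agent.Lib.Helper83DefOneGram

set_option autoImplicit false

namespace Cfsg.Agent.Lib.H81CycGREG
open Cfsg
open Cfsg.Agent.Lib.Helper81CycDefs Cfsg.Agent.Lib.Helper81CycGDefs Cfsg.Agent.Lib.Helper4DefOneDefs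
open Cfsg.Agent.Lib.Helper80Transport Cfsg.Agent.Lib.Helper82Quot Cfsg.Agent.Lib.Helper81Base
open Cfsg.Agent.Lib.Helper80Trace Cfsg.Agent.Lib.Helper80Incl
open scoped ComplexConjugate

universe u

variable {G : Type u} [Group G] [Fintype G] {p : ℕ} [Fact p.Prime] {M : Ideal AlgInt}
  {D C T N : Subgroup G} [Fintype C] {t₀ x₀ : G} {e : ℕ} {f : Set (IrrCharacter C)}
  {B : Set (IrrCharacter G)}

/-- piece `G-REG`: the relation on the `p`-regular elements. -/
theorem dd_reg (h : CY p M D C T N t₀ x₀ e f B) {θ ψ : IrrCharacter C} (hθ : θ ∈ f) (hψ : ψ ∈ f)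
    (g : G) (hg : ¬ p ∣ orderOf g) :
    ∑ χ : IrrCharacter G, dd θ ψ χ * (χ : G → ℂ) g = 0 := by
  classical
  have e1 : ∀ χ : IrrCharacter G, dd θ ψ χ * (χ : G → ℂ) g
      = (Nat.card C : ℂ)⁻¹ * ∑ c : C, conj ((ψ : C → ℂ) c - (θ : C → ℂ) c) *
          ((χ : G → ℂ) c * conj ((χ : G → ℂ) g⁻¹)) := by
    intro χ
    unfold dd mH
    rw [← Cfsg.Agent.Lib.Helper4Char.classInner_sub_right, Cfsg.Agent.Lib.Helper81Base.irr_inv,
      Complex.conj_conj]
    unfold classInner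
    rw [mul_assoc, Finset.sum_mul]
    congr 1
    apply Finset.sum_congr rfl
    intro c _
    rw [Pi.sub_apply]
    ring
  simp only [e1]
  rw [← Finset.mul_sum, Finset.sum_comm]
  rw [Finset.sum_eq_zero, mul_zero]
  intro c _
  rw [← Finset.mul_sum, Cfsg.Agent.Lib.Helper77Glaub.col_orth_count]
  by_cases hc : p ∣ orderOf c
  · rw [Finset.sum_eq_zero, mul_zero]
    intro x _
    rw [if_neg]
    intro hx
    apply hg
    rw [← orderOf_inv, ← hx]
    have : orderOf (x * (c : G) * x⁻¹) = orderOf (c : G) := (MulAut.conj x).orderOf_eq (c : G)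
    rw [this, Subgroup.orderOf_coe]
    exact hc
  · rw [h.reg ψ hψ θ hθ c hc, sub_self, map_zero, zero_mul]

end Cfsg.Agent.Lib.H81CycGREG
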