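import Cfsg.Agent.Lib.Helper81CycGDefs
import Cfsg.Agent.Lib.Helper81Orth2
import Cfsg.Agent.Lib.Helper81Second3
import Cfsg.Agent.Lib.Helper81Part
import Cfsg.Agent.Lib.Helper54DefOneComb
import Cfsg.Agent.Lib.Helper4DefOneK
import Cfsg.Agent.Lib.Helper78IndPair
import Cfsg.Agent.Lib.Helper80Conj
import Cfsg.Agent.Lib.Helper80Full2
import Cfsg.Agent.Lib.H81CycGGRAM
import Cfsg.Agent.Lib.H81CycGLI
import Cfsg.Agent.Lib.H81CycGNULL
import Cfsg.Agent.Lib.H81CycGOUT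
import Cfsg.Agent.Lib.H81CycGREG

set_option autoImplicit false

namespace Cfsg.Agent.Lib.H81CycGCARD
open Cfsg
open Cfsg.Agent.Lib.Helper81CycDefs Cfsg.Agent.Lib.Helper81CycGDefs Cfsg.Agent.Lib.Helper4DefOneDefs
open Cfsg.Agent.Lib.Helper80Transport Cfsg.Agent.Lib.Helper82Quot Cfsg.Agent.Lib.Helper81Base
open Cfsg.Agent.Lib.Helper80Trace Cfsg.Agent.Lib.Helper80Incl
open scoped ComplexConjugate

universe u

variable {G : Type u} [Group G] [Fintype G] {p : ℕ} [Fact p.Prime] {M : Ideal AlgInt}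
  {D C T N : Subgroup G} [Fintype C] {t₀ x₀ : G} {e : ℕ} {f : Set (IrrCharacter C)}
  {B : Set (IrrCharacter G)}

/-- piece `G-CARD`: the lower bound for `k(B)`. -/
theorem card_ge_cy (h : CY p M D C T N t₀ x₀ e f B) {θ : IrrCharacter C} (hθ : IsFix C T f θ)
    (hR : Equivalence (fun l l' : {ψ : IrrCharacter C // ψ ∈ f ∧ ψ ≠ θ} => RelC C T l.1 l'.1)) :
    blockRank p B + Nat.card (Quotient (⟨_, hR⟩ : Setoid {ψ : IrrCharacter C // ψ ∈ f ∧ ψ ≠ θ}))
      ≤ Nat.card B := by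
  classical
  set S : Setoid {ψ : IrrCharacter C // ψ ∈ f ∧ ψ ≠ θ} := ⟨_, hR⟩ with hS
  have : Fintype (Quotient S) := Fintype.ofFinite _
  let v : Quotient S → IrrCharacter G → ℂ := fun q χ => dd θ q.out.1 χ
  have hg : ∀ i j, ∑ k, v i k * conj (v j k) = (e : ℂ) + if i = j then 1 else 0 := by
    intro i j
    have h1 := H81CycGGRAM.gram h hθ i.out.2.1 j.out.2.1 i.out.2.2 j.out.2.2
    have h2 : RelC C T i.out.1 j.out.1 ↔ i = j := by
      have := @Quotient.out_equiv_out _ S i j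
      exact this
    rw [h1]
    by_cases hij : i = j
    · rw [if_pos hij, if_pos (h2.2 hij)]
    · rw [if_neg hij, if_neg (fun h' => hij (h2.1 h'))]
  have hli := H81CycGLI.li_of_gram e v hg
  have := H81CycGNULL.null_abs p B v
    (fun i χ hχ => H81CycGOUT.dd_out h hθ.1 i.out.2.1 hχ)
    (fun i g hg => H81CycGREG.dd_reg h hθ.1 i.out.2.1 g hg) hli
  rw [Nat.card_eq_fintype_card]
  exact this

end Cfsg.Agent.Lib.H81CycGCARD
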