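import Cfsg.Agent.Lib.Helper81CycGDefs
import Cfsg.Agent.Lib.Helper81Orth2
import Cfsg.Agent.Lib.Helper81Second3
import Cfsg.Agent.Lib.Helper81Part
import Cfsg.Agent.Lib.Helper54DefOneComb
import Cfsg.Agent.Lib.Helper4DefOneK
import Cfsg.Agent.Lib.Helper78IndPair
import Cfsg.Agent.Lib.Helper80Conj
import Cfsg.Agent.Lib.Helper80Full2
import Cfsg.Agent.Lib.H81CycGCJ

set_option autoImplicit false

namespace Cfsg.Agent.Lib.H81CycGCJB
open Cfsg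
open Cfsg.Agent.Lib.Helper81CycDefs Cfsg.Agent.Lib.Helper81CycGDefs Cfsg.Agent.Lib.Helper4DefOneDefs
open Cfsg.Agent.Lib.Helper80Transport Cfsg.Agent.Lib.Helper82Quot Cfsg.Agent.Lib.Helper81Base
open Cfsg.Agent.Lib.Helper80Trace Cfsg.Agent.Lib.Helper80Incl
open scoped ComplexConjugate

universe u

variable {G : Type u} [Group G] [Fintype G] {p : ℕ} [Fact p.Prime] {M : Ideal AlgInt}
  {D C T N : Subgroup G} [Fintype C] {t₀ x₀ : G} {e : ℕ} {f : Set (IrrCharacter C)}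
  {B : Set (IrrCharacter G)}

/-- piece `G-CJB`: conjugation and the block `f`. -/
theorem le_normalizer (h : CY p M D C T N t₀ x₀ e f B) :
    N ≤ Subgroup.normalizer (C : Set G) := by
  intro n hn
  rw [Subgroup.mem_normalizer_iff]
  intro g
  constructor
  · exact h.gd.nC n hn g
  · intro hg
    have := h.gd.nC n⁻¹ (N.inv_mem hn) _ hg
    have e : n⁻¹ * (n * g * n⁻¹) * n⁻¹⁻¹ = g := by group
    rwa [e] at this

/-- piece `G-CJB` -/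
theorem cjc_mem (h : CY p M D C T N t₀ x₀ e f B) {n : G} (hn : n ∈ T) {ψ : IrrCharacter C}
    (hψ : ψ ∈ f) : cjc C n ψ ∈ f := by
  have hnN : n ∈ N := h.gd.TH hn
  obtain ⟨-, hs⟩ := (h.stab n hnN).mp hn
  obtain ⟨ψ', hψ', hc⟩ := hs ψ hψ
  rw [← H81CycGCJ.cjc_unique (le_normalizer h hnN) hc]
  exact hψ'

/-- piece `G-CJB` -/
theorem cjc_not_mem (h : CY p M D C T N t₀ x₀ e f B) {n : G} (hn : n ∈ N) (hnT : n ∉ T)
    {ψ : IrrCharacter C} (hψ : ψ ∈ f) : cjc C n ψ ∉ f := by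
  intro hmem
  apply hnT
  rw [h.stab n hn]
  have hnC := le_normalizer h hn
  have hh := Subgroup.mem_normalizer_iff.mp hnC
  have hPr : M.IsPrime := h.hM.2.1.isPrime
  have hf : IsPBlock M f := h.ind.1
  have hcj : cjc C n ψ = irrCongr (cjEquiv n C C hh) ψ :=
    (isConjCharOf_iff hh _ _).mp (H81CycGCJ.cjc_spec hnC ψ)
  have h2 : mapBlk (cjEquiv n C C hh) f = f :=
    Cfsg.Agent.Lib.Helper20Block.IsPBlock.eq_of_mem hPr (isPBlock_mapBlk _ hf) hf (χ := cjc C n ψ)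
      (by rw [hcj, mem_mapBlk]; exact hψ) hmem
  refine ⟨hnC, fun χ hχ => ⟨irrCongr (cjEquiv n C C hh) χ, ?_, (isConjCharOf_iff hh _ _).mpr rfl⟩⟩
  rw [← h2, mem_mapBlk]
  exact hχ

/-- piece `G-CJB` -/
theorem relC_equiv (h : CY p M D C T N t₀ x₀ e f B) : Equivalence (RelC C T) := by
  have hTN : T ≤ Subgroup.normalizer (C : Set G) := h.gd.TH.trans (le_normalizer h)
  refine ⟨fun ψ => ⟨1, T.one_mem, H81CycGCJ.cjc_of_mem C.one_mem ψ⟩, ?_, ?_⟩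
  · rintro ψ ψ' ⟨n, hn, rfl⟩
    exact ⟨n⁻¹, T.inv_mem hn, H81CycGCJ.cjc_inv (hTN hn) ψ⟩
  · rintro ψ ψ' ψ'' ⟨n, hn, rfl⟩ ⟨m, hm, rfl⟩
    exact ⟨m * n, T.mul_mem hm hn, H81CycGCJ.cjc_mul (hTN hm) (hTN hn) ψ⟩

end Cfsg.Agent.Lib.H81CycGCJB
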