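import Cfsg.Agent.Lib.Helper81CycGDefs
import Cfsg.Agent.Lib.Helper81Orth2
import Cfsg.Agent.Lib.Helper81Second3
import Cfsg.Agent.Lib.Helper81Part
import Cfsg.Agent.Lib.Helper54DefOneComb
import Cfsg.Agent.Lib.Helper4DefOneK
import Cfsg.Agent.Lib.Helper78IndPair
import Cfsg.Agent.Lib.Helper80Conj
import Cfsg.Agent.Lib.Helper80Full2
import Cfsg.Agent.Lib.H81CycGGRAM2
import Cfsg.Agent.Lib.H81CycGCJB

set_option autoImplicit false

namespace Cfsg.Agent.Lib.H81CycGCNT
open Cfsg
open Cfsg.Agent.Lib.Helper81CycDefs Cfsg.Agent.Lib.Helper81CycGDefs Cfsg.Agent.Lib.Helper4DefOneDefs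
open Cfsg.Agent.Lib.Helper80Transport Cfsg.Agent.Lib.Helper82Quot Cfsg.Agent.Lib.Helper81Base
open Cfsg.Agent.Lib.Helper80Trace Cfsg.Agent.Lib.Helper80Incl
open scoped ComplexConjugate

universe u

variable {G : Type u} [Group G] [Fintype G] {p : ℕ} [Fact p.Prime] {M : Ideal AlgInt}
  {D C T N : Subgroup G} [Fintype C] {t₀ x₀ : G} {e : ℕ} {f : Set (IrrCharacter C)}
  {B : Set (IrrCharacter G)}

/-- piece `G-CNT`: the number of orbits. -/
theorem card_quot (h : CY p M D C T N t₀ x₀ e f B) {θ : IrrCharacter C} (hθ : IsFix C T f θ)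
    (hR : Equivalence (fun l l' : {ψ : IrrCharacter C // ψ ∈ f ∧ ψ ≠ θ} => RelC C T l.1 l'.1)) :
    e * Nat.card (Quotient (⟨_, hR⟩ : Setoid {ψ : IrrCharacter C // ψ ∈ f ∧ ψ ≠ θ})) + 1
      = Nat.card D := by
  classical
  set Λ' := {ψ : IrrCharacter C // ψ ∈ f ∧ ψ ≠ θ} with hΛ'
  set S : Setoid Λ' := ⟨_, hR⟩ with hS
  have : Fintype (Quotient S) := Fintype.ofFinite _
  have : Fintype Λ' := Fintype.ofFinite _
  have hE := H81CycGCJB.relC_equiv h
  have hT : Nat.card T = e * Nat.card C := by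
    have h1 := Subgroup.relIndex_mul_relIndex ⊥ C T bot_le h.gd.CT
    rw [Subgroup.relIndex_bot_left, Subgroup.relIndex_bot_left, h.idx] at h1
    rw [← h1, mul_comm]
  have hCpos : 0 < Nat.card C := Nat.card_pos
  -- the class of `ψ` has `e` elements
  have hcls : ∀ ψ : IrrCharacter C, ψ ∈ f → ψ ≠ θ →
      Nat.card {ψ' : IrrCharacter C // RelC C T ψ ψ'} = e := by
    intro ψ hψ hne
    have h1 : Nat.card T = ∑ ψ' : IrrCharacter C, Nat.card {n : T // cjc C (n : G) ψ = ψ'} := by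
      rw [← Nat.card_sigma]
      exact Nat.card_congr (Equiv.sigmaFiberEquiv (fun n : T => cjc C (n : G) ψ)).symm
    simp only [H81CycGGRAM2.card_conj h hθ _ hψ hne] at h1
    rw [← Finset.sum_filter, Finset.sum_const, smul_eq_mul, hT] at h1
    have h2 := Nat.eq_of_mul_eq_mul_right hCpos h1
    rw [Nat.card_eq_fintype_card, Fintype.card_subtype]
    exact h2.symm
  have hfib : ∀ q : Quotient S, Fintype.card {l : Λ' // (Quotient.mk S l) = q} = e := by
    intro q
    induction q using Quotient.inductionOn with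
    | h l₀ =>
      rw [← hcls l₀.1 l₀.2.1 l₀.2.2, Nat.card_eq_fintype_card]
      apply Fintype.card_congr
      refine ⟨fun l => ⟨l.1.1, hE.symm (Quotient.exact l.2)⟩, fun l' => ⟨⟨l'.1, ?_, fun h1 => ?_⟩, ?_⟩,
        fun l => rfl, fun l' => rfl⟩
      · obtain ⟨n, hn, hn'⟩ := l'.2
        rw [← hn']
        exact H81CycGCJB.cjc_mem h hn l₀.2.1
      · have h2 := l'.2
        rw [h1] at h2
        obtain ⟨n, hn, hn'⟩ := hE.symm h2
        rw [hθ.2.1 n hn] at hn'
        exact l₀.2.2 hn'.symm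
      · exact Quotient.sound (hE.symm l'.2 : RelC C T l'.1 l₀.1)
  have hmul : Fintype.card Λ' = Fintype.card (Quotient S) * e := by
    rw [Fintype.card_congr (Equiv.sigmaFiberEquiv (Quotient.mk S)).symm, Fintype.card_sigma]
    simp only [hfib, Finset.sum_const, Finset.card_univ, smul_eq_mul]
  have hf : Nat.card f = Fintype.card Λ' + 1 := by
    have e1 : Nat.card f = (Finset.univ.filter (fun ψ : IrrCharacter C => ψ ∈ f)).card := by
      rw [Nat.card_eq_fintype_card]
      exact Fintype.card_subtype _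
    have e2 : Fintype.card Λ'
        = (Finset.univ.filter (fun ψ : IrrCharacter C => ψ ∈ f ∧ ψ ≠ θ)).card :=
      Fintype.card_subtype _
    have e3 : Finset.univ.filter (fun ψ : IrrCharacter C => ψ ∈ f ∧ ψ ≠ θ)
        = (Finset.univ.filter (fun ψ : IrrCharacter C => ψ ∈ f)).erase θ := by
      ext ψ
      simp only [Finset.mem_filter, Finset.mem_univ, true_and, Finset.mem_erase]
      tauto
    rw [e1, e2, e3, Finset.card_erase_of_mem (by simp [hθ.1])]
    have : 0 < (Finset.univ.filter (fun ψ : IrrCharacter C => ψ ∈ f)).card :=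
      Finset.card_pos.2 ⟨θ, by simp [hθ.1]⟩
    omega
  rw [← h.card, hf, hmul, Nat.card_eq_fintype_card, mul_comm]

end Cfsg.Agent.Lib.H81CycGCNT
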