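import Cfsg.Agent.Lib.Helper81CycGDefs
import Cfsg.Agent.Lib.Helper81Orth2
import Cfsg.Agent.Lib.Helper81Second3
import Cfsg.Agent.Lib.Helper81Part
import Cfsg.Agent.Lib.Helper54DefOneComb
import Cfsg.Agent.Lib.Helper4DefOneK
import Cfsg.Agent.Lib.Helper78IndPair
import Cfsg.Agent.Lib.Helper80Conj
import Cfsg.Agent.Lib.Helper80Full2

set_option autoImplicit false

namespace Cfsg.Agent.Lib.H81CycGINN1
open Cfsg
open Cfsg.Agent.Lib.Helper81CycDefs Cfsg.Agent.Lib.Helper81CycGDefs Cfsg.Agent.Lib.Helper4DefOneDefs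
open Cfsg.Agent.Lib.Helper80Transport Cfsg.Agent.Lib.Helper82Quot Cfsg.Agent.Lib.Helper81Base
open Cfsg.Agent.Lib.Helper80Trace Cfsg.Agent.Lib.Helper80Incl
open scoped ComplexConjugate

universe u

variable {G : Type u} [Group G] [Fintype G] {p : ℕ} [Fact p.Prime] {M : Ideal AlgInt}
  {D C T N : Subgroup G} [Fintype C] {t₀ x₀ : G} {e : ℕ} {f : Set (IrrCharacter C)}
  {B : Set (IrrCharacter G)}

omit [Fintype G] [Fact p.Prime] in
theorem isPPart_coe {H : Subgroup G} {c u : H} (hu : IsPPart p c u) : IsPPart p (c : G) (u : G) := by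
  obtain ⟨y, hxy, hc, ⟨k, hk⟩, hy⟩ := hu
  refine ⟨(y : G), ?_, ?_, ⟨k, ?_⟩, ?_⟩
  · rw [← hxy]; rfl
  · have := congrArg (Subtype.val) hc.eq
    exact this
  · rw [Subgroup.orderOf_coe]; exact hk
  · rw [Subgroup.orderOf_coe]; exact hy

/-- piece `G-INN1`: the part of `χ_C` in a block of `C` not inducing `B`. -/
theorem part_other (h : CY p M D C T N t₀ x₀ e f B) {f' : Set (IrrCharacter C)}
    [DecidablePred (· ∈ f')] (hf' : IsPBlock M f') (hnot : ¬ IsInducedBlock M C f' B)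
    {χ : IrrCharacter G} (hχ : χ ∈ B) {c u : C} (hu : IsPPart p c u) (huD : (u : G) ∈ D)
    (hu1 : u ≠ 1) :
    ∑ ψ : IrrCharacter C, (if ψ ∈ f' then mH χ ψ * (ψ : C → ℂ) c else 0) = 0 := by
  have hM := h.hM
  have hPr : M.IsPrime := hM.2.1.isPrime
  obtain ⟨B', hB'⟩ := h.indD f' hf'
  have hB : IsPBlock M B := h.ind.2.1
  have hdisj : ∀ χ ∈ B', χ ∉ B := by
    intro χ' h1 h2
    have : B' = B := Cfsg.Agent.Lib.Helper20Block.IsPBlock.eq_of_mem hPr hB'.2.1 hB h1 h2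
    exact hnot (this ▸ hB')
  have hxz : IsPPart p ((c : G)⁻¹) ((u : G)⁻¹) :=
    Cfsg.Agent.Lib.Helper81Second2.isPPart_inv (isPPart_coe hu)
  have hC : Subgroup.centralizer ({(u : G)⁻¹} : Set G) ≤ C := by
    apply h.cen _ (D.inv_mem huD)
    intro h1
    apply hu1
    rw [inv_eq_one] at h1
    exact Subtype.ext h1
  have key := Cfsg.Agent.Lib.Helper81Second2.second_main_core hM C hB' hB hdisj ((c : G)⁻¹)
    ((u : G)⁻¹) (C.inv_mem c.2) hxz hC χ hχ
  have hcl : IsClassFunction C (fun k : C => (χ : G → ℂ) k) := by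
    intro g k
    exact irr_conj χ (g : G) (k : G)
  have e1 := Cfsg.Agent.Lib.Helper81Part.blockPart_eq_sum f' hcl c
  have e2 : blockPart f' (fun k : C => (χ : G → ℂ) k) c
      = ∑ ψ : IrrCharacter C, (if ψ ∈ f' then mH χ ψ * (ψ : C → ℂ) c else 0) := by
    unfold blockPart
    rw [Cfsg.Agent.Lib.Helper81Block.finsum_mem_irr]
    apply Finset.sum_congr rfl
    intro ψ _
    split_ifs
    · unfold mH
      congr 2
      exact Subsingleton.elim _ _
    · rfl
  rw [← e2, e1, ← key]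
  apply Finset.sum_congr rfl
  intro k _
  congr 1
  rw [inv_inv]
  exact irr_mul_comm χ _ _

end Cfsg.Agent.Lib.H81CycGINN1
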