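import Cfsg.Agent.Lib.Helper81CycGDefs
import Cfsg.Agent.Lib.Helper81Orth2
import Cfsg.Agent.Lib.Helper81Second3
import Cfsg.Agent.Lib.Helper81Part
import Cfsg.Agent.Lib.Helper54DefOneComb
import Cfsg.Agent.Lib.Helper4DefOneK
import Cfsg.Agent.Lib.Helper78IndPair
import Cfsg.Agent.Lib.Helper80Conj
import Cfsg.Agent.Lib.Helper80Full2

set_option autoImplicit false

namespace Cfsg.Agent.Lib.H81CycGRHO
open Cfsg
open Cfsg.Agent.Lib.Helper81CycDefs Cfsg.Agent.Lib.Helper81CycGDefs Cfsg.Agent.Lib.Helper4DefOneDefs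
open Cfsg.Agent.Lib.Helper80Transport Cfsg.Agent.Lib.Helper82Quot Cfsg.Agent.Lib.Helper81Base
open Cfsg.Agent.Lib.Helper80Trace Cfsg.Agent.Lib.Helper80Incl
open scoped ComplexConjugate

universe u

variable {G : Type u} [Group G] [Fintype G] {p : ℕ} [Fact p.Prime] {M : Ideal AlgInt}
  {D C T N : Subgroup G} [Fintype C] {t₀ x₀ : G} {e : ℕ} {f : Set (IrrCharacter C)}
  {B : Set (IrrCharacter G)}

/-- piece `G-RHO`: the sum of the members of `f` vanishes on the `p`-singular elements. -/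
theorem sum_sing (h : CY p M D C T N t₀ x₀ e f B) [DecidablePred (· ∈ f)] {c : C}
    (hc : p ∣ orderOf c) :
    ∑ ψ : IrrCharacter C, (if ψ ∈ f then (ψ : C → ℂ) c else 0) = 0 := by
  by_cases hf : ∃ θ, θ ∈ f
  · obtain ⟨θ, hθ⟩ := hf
    have h1 : ¬ p ∣ orderOf (1 : C) := by
      rw [orderOf_one]; exact h.hM.1.one_lt.ne' ∘ Nat.dvd_one.mp
    have h2 := Cfsg.Agent.Lib.Helper81Orth.weak_block_orth h.hM h.ind.1 h1 hc
    have h3 : ∑ ψ : IrrCharacter C, (if ψ ∈ f then (ψ : C → ℂ) 1 * conj ((ψ : C → ℂ) c) else 0)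
        = (θ : C → ℂ) 1 * conj (∑ ψ : IrrCharacter C, (if ψ ∈ f then (ψ : C → ℂ) c else 0)) := by
      rw [map_sum, Finset.mul_sum]
      refine Finset.sum_congr rfl fun ψ _ => ?_
      by_cases hψ : ψ ∈ f
      · rw [if_pos hψ, if_pos hψ, h.reg ψ hψ θ hθ 1 h1]
      · rw [if_neg hψ, if_neg hψ, map_zero, mul_zero]
    rw [h3] at h2
    have h4 : (θ : C → ℂ) 1 ≠ 0 := by
      rw [← Cfsg.Agent.Lib.Helper83Char.charDegree_cast θ.2]
      exact Nat.cast_ne_zero.2 (Cfsg.Agent.Lib.Helper83Char.charDegree_pos θ.2).ne'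
    have h5 := (mul_eq_zero.1 h2).resolve_left h4
    exact (map_eq_zero _).1 h5
  · apply Finset.sum_eq_zero
    intro ψ _
    rw [if_neg (fun hψ => hf ⟨ψ, hψ⟩)]

end Cfsg.Agent.Lib.H81CycGRHO
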