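import Cfsg.Agent.Lib.Helper81CycGDefs
import Cfsg.Agent.Lib.Helper81Orth2
import Cfsg.Agent.Lib.Helper81Second3
import Cfsg.Agent.Lib.Helper81Part
import Cfsg.Agent.Lib.Helper54DefOneComb
import Cfsg.Agent.Lib.Helper4DefOneK
import Cfsg.Agent.Lib.Helper78IndPair
import Cfsg.Agent.Lib.Helper80Conj
import Cfsg.Agent.Lib.Helper80Full2
import Cfsg.Agent.Lib.H81CycGCJ
import Cfsg.Agent.Lib.H81CycGCJB
import Cfsg.Agent.Lib.H81CycGRHO

set_option autoImplicit false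

namespace Cfsg.Agent.Lib.H81CycGINN2
open Cfsg
open Cfsg.Agent.Lib.Helper81CycDefs Cfsg.Agent.Lib.Helper81CycGDefs Cfsg.Agent.Lib.Helper4DefOneDefs
open Cfsg.Agent.Lib.Helper80Transport Cfsg.Agent.Lib.Helper82Quot Cfsg.Agent.Lib.Helper81Base
open Cfsg.Agent.Lib.Helper80Trace Cfsg.Agent.Lib.Helper80Incl
open scoped ComplexConjugate

universe u

variable {G : Type u} [Group G] [Fintype G] {p : ℕ} [Fact p.Prime] {M : Ideal AlgInt}
  {D C T N : Subgroup G} [Fintype C] {t₀ x₀ : G} {e : ℕ} {f : Set (IrrCharacter C)}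
  {B : Set (IrrCharacter G)}

/-- piece `G-INN2`: the part in a block of `C` inducing `B`. -/
theorem part_conj (h : CY p M D C T N t₀ x₀ e f B) {f' : Set (IrrCharacter C)}
    [DecidablePred (· ∈ f')] (hf' : IsInducedBlock M C f' B) {θ : IrrCharacter C} (hθ : θ ∈ f)
    (x : IrrCharacter G → ℂ) (h0 : ∀ ψ ∈ f, ∑ χ : IrrCharacter G, x χ * dd θ ψ χ = 0)
    {c : C} (hc : p ∣ orderOf c) :
    ∑ ψ : IrrCharacter C,
      (if ψ ∈ f' then (∑ χ : IrrCharacter G, x χ * mH χ ψ) * (ψ : C → ℂ) c else 0) = 0 := by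
  classical
  have hPr : M.IsPrime := h.hM.2.1.isPrime
  obtain ⟨n, hnN, hn⟩ := h.cjB f' hf'
  have hnC : n ∈ Subgroup.normalizer (C : Set G) := H81CycGCJB.le_normalizer h hnN
  have hN := Subgroup.mem_normalizer_iff.mp hnC
  set σ := cjEquiv n C C hN with hσ
  have hcj : ∀ ψ, cjc C n ψ = irrCongr σ ψ := fun ψ => by unfold cjc; rw [dif_pos hN]
  have hmem : ∀ ψ ∈ f, irrCongr σ ψ ∈ f' := by
    intro ψ hψ
    obtain ⟨ψ', h1, h2⟩ := hn ψ hψ
    rw [(isConjCharOf_iff hN ψ ψ').mp h2] at h1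
    exact h1
  have hfe : f' = mapBlk σ f :=
    Cfsg.Agent.Lib.Helper20Block.IsPBlock.eq_of_mem hPr hf'.1 (isPBlock_mapBlk σ h.ind.1)
      (hmem θ hθ) ((mem_mapBlk σ).mpr hθ)
  have hiff : ∀ ψ, irrCongr σ ψ ∈ f' ↔ ψ ∈ f := by
    intro ψ
    rw [hfe]
    exact mem_mapBlk σ
  rw [← Equiv.sum_comp (irrCongr σ)]
  have hm : ∀ ψ ∈ f, ∑ χ, x χ * mH χ ψ = ∑ χ, x χ * mH χ θ := by
    intro ψ hψ
    have := h0 ψ hψ
    simp only [dd, mul_sub, Finset.sum_sub_distrib] at this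
    exact sub_eq_zero.mp this
  have hs := H81CycGRHO.sum_sing h (c := σ.symm c) (by rw [MulEquiv.orderOf_eq σ.symm c]; exact hc)
  calc _ = ∑ ψ : IrrCharacter C, (∑ χ, x χ * mH χ θ) *
        (if ψ ∈ f then (ψ : C → ℂ) (σ.symm c) else 0) := by
        apply Finset.sum_congr rfl
        intro ψ _
        by_cases hψ : ψ ∈ f
        · rw [if_pos ((hiff ψ).mpr hψ), if_pos hψ, irrCongr_apply]
          congr 1
          rw [← hm ψ hψ]
          apply Finset.sum_congr rfl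
          intro χ _
          rw [← hcj, H81CycGCJ.mH_cjc hnC]
        · rw [if_neg (mt (hiff ψ).mp hψ), if_neg hψ, mul_zero]
    _ = 0 := by rw [← Finset.mul_sum, hs, mul_zero]

end Cfsg.Agent.Lib.H81CycGINN2
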