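import Cfsg.Agent.Lib.Helper81CycGDefs
import Cfsg.Agent.Lib.Helper81Orth2
import Cfsg.Agent.Lib.Helper81Second3
import Cfsg.Agent.Lib.Helper81Part
import Cfsg.Agent.Lib.Helper54DefOneComb
import Cfsg.Agent.Lib.Helper4DefOneK
import Cfsg.Agent.Lib.Helper78IndPair
import Cfsg.Agent.Lib.Helper80Conj
import Cfsg.Agent.Lib.Helper80Full2
import Cfsg.Agent.Lib.H81CycGVAN
import Cfsg.Agent.Lib.H81CycGINN1
import Cfsg.Agent.Lib.H81CycGINN2

set_option autoImplicit false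

namespace Cfsg.Agent.Lib.H81CycGINN3
open Cfsg
open Cfsg.Agent.Lib.Helper81CycDefs Cfsg.Agent.Lib.Helper81CycGDefs Cfsg.Agent.Lib.Helper4DefOneDefs
open Cfsg.Agent.Lib.Helper80Transport Cfsg.Agent.Lib.Helper82Quot Cfsg.Agent.Lib.Helper81Base
open Cfsg.Agent.Lib.Helper80Trace Cfsg.Agent.Lib.Helper80Incl
open scoped ComplexConjugate

universe u

variable {G : Type u} [Group G] [Fintype G] {p : ℕ} [Fact p.Prime] {M : Ideal AlgInt}
  {D C T N : Subgroup G} [Fintype C] {t₀ x₀ : G} {e : ℕ} {f : Set (IrrCharacter C)}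
  {B : Set (IrrCharacter G)}

/-- the case where the `p`-part lies in `D`. -/
theorem van_sing_aux (h : CY p M D C T N t₀ x₀ e f B) {θ : IrrCharacter C} (hθ : θ ∈ f)
    (x : IrrCharacter G → ℂ) (hx : ∀ χ, χ ∉ B → x χ = 0)
    (h0 : ∀ ψ ∈ f, ∑ χ : IrrCharacter G, x χ * dd θ ψ χ = 0) (g u : G) (hg : p ∣ orderOf g)
    (hu : IsPPart p g u) (huD : u ∈ D) :
    ∑ χ : IrrCharacter G, x χ * (χ : G → ℂ) g = 0 := by
  classical
  have hPr := h.hM.2.1.isPrime
  have hu1 : u ≠ 1 := by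
    rintro rfl
    obtain ⟨y, hy, -, -, hyp⟩ := hu
    rw [one_mul] at hy
    rw [hy] at hyp
    exact hyp hg
  have hgC : g ∈ C := by
    apply h.cen u huD hu1
    rw [Subgroup.mem_centralizer_singleton_iff]
    exact (Cfsg.Agent.Lib.Helper81Second2.isPPart_commute hu).eq.symm
  obtain ⟨u', hu'e, hu'⟩ := Cfsg.Agent.Lib.Helper20Fusion.isPPart_subgroup (H := C)
    (g := ⟨g, hgC⟩) (x := u) hu
  have hu'1 : u' ≠ 1 := by
    intro hh
    apply hu1
    rw [← hu'e, hh]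
    rfl
  have hcord : p ∣ orderOf (⟨g, hgC⟩ : C) := by
    rw [Subgroup.orderOf_mk]
    exact hg
  have hexp : ∀ χ : IrrCharacter G, (χ : G → ℂ) g
      = ∑ ψ : IrrCharacter C, mH χ ψ * (ψ : C → ℂ) ⟨g, hgC⟩ := by
    intro χ
    have hcl : IsClassFunction C (fun k : C => (χ : G → ℂ) (k : G)) := by
      intro a k
      exact Cfsg.Agent.Lib.Helper4Char.IsIrrCharacter.isClassFunction χ.2 (a : G) (k : G)
    have := congrFun (Cfsg.Agent.Lib.Helper4Char.classFunction_eq_sum _ hcl) (⟨g, hgC⟩ : C)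
    rw [Finset.sum_apply] at this
    exact this
  have e1 : ∑ χ : IrrCharacter G, x χ * (χ : G → ℂ) g
      = ∑ ψ : IrrCharacter C, (∑ χ : IrrCharacter G, x χ * mH χ ψ) * (ψ : C → ℂ) ⟨g, hgC⟩ := by
    simp only [hexp, Finset.mul_sum, Finset.sum_mul]
    rw [Finset.sum_comm]
    apply Finset.sum_congr rfl
    intro ψ _
    apply Finset.sum_congr rfl
    intro χ _
    ring
  rw [e1]
  apply Cfsg.Agent.Lib.Helper81Second3.sum_eq_zero_of_blocks (M := M)
  intro f' hf'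
  by_cases hind : IsInducedBlock M C f' B
  · exact H81CycGINN2.part_conj h hind hθ x h0 hcord
  · have e2 : ∑ ψ : IrrCharacter C,
        (if ψ ∈ f' then (∑ χ : IrrCharacter G, x χ * mH χ ψ) * (ψ : C → ℂ) ⟨g, hgC⟩ else 0)
        = ∑ χ : IrrCharacter G, x χ * ∑ ψ : IrrCharacter C,
          (if ψ ∈ f' then mH χ ψ * (ψ : C → ℂ) ⟨g, hgC⟩ else 0) := by
      simp only [Finset.mul_sum, Finset.sum_mul]
      rw [Finset.sum_comm]
      apply Finset.sum_congr rfl
      intro ψ _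
      by_cases hψ : ψ ∈ f'
      · simp only [if_pos hψ]
        apply Finset.sum_congr rfl
        intro χ _
        ring
      · simp only [if_neg hψ, mul_zero, Finset.sum_const_zero]
    rw [e2]
    apply Finset.sum_eq_zero
    intro χ _
    by_cases hχ : χ ∈ B
    · rw [H81CycGINN1.part_other h hf' hind hχ hu' (by rw [hu'e]; exact huD) hu'1, mul_zero]
    · rw [hx χ hχ, zero_mul]

/-- piece `G-INN3`: a combination of `B` orthogonal to all `ψ - θ` vanishes on the `p`-singular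
elements. -/
theorem van_sing (h : CY p M D C T N t₀ x₀ e f B) {θ : IrrCharacter C} (hθ : θ ∈ f)
    (x : IrrCharacter G → ℂ) (hx : ∀ χ, χ ∉ B → x χ = 0)
    (h0 : ∀ ψ ∈ f, ∑ χ : IrrCharacter G, x χ * dd θ ψ χ = 0) (g : G) (hg : p ∣ orderOf g) :
    ∑ χ : IrrCharacter G, x χ * (χ : G → ℂ) g = 0 := by
  classical
  obtain ⟨u, hu⟩ := Cfsg.Agent.Lib.Helper81Orth.exists_ppart (Fact.out : p.Prime) g
  by_cases hcj : ∃ t : G, t * u * t⁻¹ ∈ D
  · obtain ⟨t, ht⟩ := hcj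
    have hord : orderOf (t * g * t⁻¹) = orderOf g := (MulAut.conj t).orderOf_eq g
    have := van_sing_aux h hθ x hx h0 (t * g * t⁻¹) (t * u * t⁻¹) (by rw [hord]; exact hg)
      (Cfsg.Agent.Lib.Helper81Second2.isPPart_conj hu t) ht
    simpa only [irr_conj] using this
  · push Not at hcj
    apply Finset.sum_eq_zero
    intro χ _
    by_cases hχ : χ ∈ B
    · rw [H81CycGVAN.van_gen h.hM h.ind.2.1 h.dB hχ hu hcj, mul_zero]
    · rw [hx χ hχ, zero_mul]

end Cfsg.Agent.Lib.H81CycGINN3
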