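import Cfsg.Agent.Lib.Helper81CycGDefs
import Cfsg.Agent.Lib.H81CycGVAN
import Cfsg.Agent.Lib.Helper80DefOneInn
import Cfsg.Agent.S0922

set_option autoImplicit false

namespace Cfsg.Agent.Lib.H81CycGOUT
open Cfsg
open Cfsg.Agent.Lib.Helper81CycDefs Cfsg.Agent.Lib.Helper81CycGDefs Cfsg.Agent.Lib.Helper4DefOneDefs
open Cfsg.Agent.Lib.Helper80DefOneVal Cfsg.Agent.Lib.Helper80DefOneInn
open scoped ComplexConjugate

universe u

variable {G : Type u} [Group G] [Fintype G] {p : ℕ} [Fact p.Prime] {M : Ideal AlgInt}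
  {D C T N : Subgroup G} [Fintype C] {t₀ x₀ : G} {e : ℕ} {f : Set (IrrCharacter C)}
  {B : Set (IrrCharacter G)}

/-- the centralizer of a `p`-element of `C` with a nontrivial conjugate in `D` lies in `C`. -/
theorem cen_conj (h : CY p M D C T N t₀ x₀ e f B) {u x : C} (hx : ((x * u * x⁻¹ : C) : G) ∈ D)
    (hu : u ≠ 1) : Subgroup.centralizer ({(u : G)} : Set G) ≤ C := by
  intro g hg
  rw [Subgroup.mem_centralizer_singleton_iff] at hg
  have h1 : ((x * u * x⁻¹ : C) : G) ≠ 1 := by
    intro hc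
    apply hu
    have : x * u * x⁻¹ = 1 := Subtype.ext hc
    have h2 : u = x⁻¹ * (x * u * x⁻¹) * x := by group
    rw [h2, this]; group
  have h2 : (x : G) * g * (x : G)⁻¹ ∈ C := by
    apply h.cen _ hx h1
    rw [Subgroup.mem_centralizer_singleton_iff]
    push_cast
    calc (x : G) * g * (x : G)⁻¹ * ((x : G) * (u : G) * (x : G)⁻¹)
        = (x : G) * (g * (u : G)) * (x : G)⁻¹ := by group
      _ = (x : G) * ((u : G) * g) * (x : G)⁻¹ := by rw [hg]
      _ = (x : G) * (u : G) * (x : G)⁻¹ * ((x : G) * g * (x : G)⁻¹) := by group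
  have h3 : g = (x : G)⁻¹ * ((x : G) * g * (x : G)⁻¹) * (x : G) := by group
  rw [h3]
  exact C.mul_mem (C.mul_mem (C.inv_mem x.2) h2) x.2

/-- piece `G-OUT`: characters outside `B`. -/
theorem dd_out (h : CY p M D C T N t₀ x₀ e f B) {θ ψ : IrrCharacter C} (hθ : θ ∈ f) (hψ : ψ ∈ f)
    {χ : IrrCharacter G} (hχ : χ ∉ B) : dd θ ψ χ = 0 := by
  classical
  have hp : p.Prime := Fact.out
  have e1 := sum_part_conj χ f hψ
  have e2 := sum_part_conj χ f hθ
  have e3 : ∑ c : C, part (χ : G → ℂ) f (c : G) * conj ((ψ : C → ℂ) c)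
      = ∑ c : C, part (χ : G → ℂ) f (c : G) * conj ((θ : C → ℂ) c) := by
    apply Finset.sum_congr rfl
    intro c _
    obtain ⟨u, hu⟩ := Cfsg.Agent.Lib.Helper81Orth.exists_ppart hp c
    by_cases hreg : p ∣ orderOf c
    · by_cases hx : ∃ x : C, ((x * u * x⁻¹ : C) : G) ∈ D
      · obtain ⟨x, hx⟩ := hx
        have hu1 : u ≠ 1 := by
          rintro rfl
          obtain ⟨y, hy1, -, -, hy2⟩ := hu
          rw [one_mul] at hy1
          rw [hy1] at hy2
          exact hy2 hreg
        have : part (χ : G → ℂ) f (c : G) = 0 := by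
          have key := Cfsg.Agent.S0922.result p M h.hM C f B h.ind c (by
            intro z hz
            have hz' : IsPPart p (c : G) (u : G) := by
              obtain ⟨y, hy1, hy2, ⟨k, hk⟩, hy3⟩ := hu
              refine ⟨(y : G), ?_, ?_, ⟨k, ?_⟩, ?_⟩
              · rw [← hy1]; rfl
              · have := congrArg Subtype.val hy2.eq
                exact this
              · rw [Subgroup.orderOf_coe]; exact hk
              · rw [Subgroup.orderOf_coe]; exact hy3
            rw [Cfsg.Agent.Lib.Helper81Section.isPPart_unique hp hz hz']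
            exact cen_conj h hx hu1) χ hχ
          rw [finsum_eq_sum_of_fintype] at key
          exact key
        rw [this, zero_mul, zero_mul]
      · push_neg at hx
        rw [Cfsg.Agent.Lib.H81CycGVAN.van h hψ hu hx, Cfsg.Agent.Lib.H81CycGVAN.van h hθ hu hx]
    · rw [h.reg ψ hψ θ hθ c hreg]
  rw [e1, e2] at e3
  have hne : (Nat.card C : ℂ) ≠ 0 := by
    exact_mod_cast Nat.card_pos.ne'
  unfold dd
  rw [mul_left_cancel₀ hne e3, sub_self]

end Cfsg.Agent.Lib.H81CycGOUT
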