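import Cfsg.Agent.Lib.Helper81CycGDefs
import Cfsg.Agent.Lib.Helper81Orth2
import Cfsg.Agent.Lib.Helper81Second3
import Cfsg.Agent.Lib.Helper81Part
import Cfsg.Agent.Lib.Helper54DefOneComb
import Cfsg.Agent.Lib.Helper4DefOneK
import Cfsg.Agent.Lib.Helper78IndPair
import Cfsg.Agent.Lib.Helper80Conj
import Cfsg.Agent.Lib.Helper80Full2
import Cfsg.Agent.Lib.H81CycGRHO

set_option autoImplicit false

namespace Cfsg.Agent.Lib.H81CycGRI
open Cfsg
open Cfsg.Agent.Lib.Helper81CycDefs Cfsg.Agent.Lib.Helper81CycGDefs Cfsg.Agent.Lib.Helper4DefOneDefs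
open Cfsg.Agent.Lib.Helper80Transport Cfsg.Agent.Lib.Helper82Quot Cfsg.Agent.Lib.Helper81Base
open Cfsg.Agent.Lib.Helper80Trace Cfsg.Agent.Lib.Helper80Incl
open scoped ComplexConjugate

universe u

variable {G : Type u} [Group G] [Fintype G] {p : ℕ} [Fact p.Prime] {M : Ideal AlgInt}
  {D C T N : Subgroup G} [Fintype C] {t₀ x₀ : G} {e : ℕ} {f : Set (IrrCharacter C)}
  {B : Set (IrrCharacter G)}

/-- piece `G-RI`: the regular norm of a member of `f`. -/
theorem reg_inner (h : CY p M D C T N t₀ x₀ e f B) {θ : IrrCharacter C} (hθ : θ ∈ f) :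
    (Nat.card D : ℂ) * ∑ c : C, (if p ∣ orderOf c then 0 else (θ : C → ℂ) c * conj ((θ : C → ℂ) c))
      = Nat.card C := by
  classical
  have hC0 : (Nat.card C : ℂ) ≠ 0 := by exact_mod_cast Nat.card_pos.ne'
  -- the sum of the members of `f`
  set F : C → ℂ := fun c => ∑ ψ : IrrCharacter C, (if ψ ∈ f then (ψ : C → ℂ) c else 0) with hF
  have h1 : ∑ c : C, F c * conj ((θ : C → ℂ) c) = Nat.card C := by
    have e1 : ∀ c : C, F c * conj ((θ : C → ℂ) c)
        = ∑ ψ : IrrCharacter C, (if ψ ∈ f then (ψ : C → ℂ) c * conj ((θ : C → ℂ) c) else 0) := by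
      intro c
      rw [hF, Finset.sum_mul]
      refine Finset.sum_congr rfl (fun ψ _ => ?_)
      split_ifs
      · rfl
      · rw [zero_mul]
    simp_rw [e1]
    rw [Finset.sum_comm, Finset.sum_eq_single θ]
    · have e2 := Cfsg.Agent.Lib.Helper4Char.classInner_irr_self θ.2
      unfold classInner at e2
      simp only [if_pos hθ]
      field_simp at e2
      exact e2
    · intro ψ _ hne
      by_cases hψ : ψ ∈ f
      · simp only [if_pos hψ]
        have e2 := Cfsg.Agent.Lib.Helper4Char.classInner_irr_ne ψ.2 θ.2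
          (fun e => hne (Subtype.ext e))
        unfold classInner at e2
        rcases mul_eq_zero.mp e2 with e3 | e3
        · exact absurd (inv_eq_zero.mp e3) hC0
        · exact e3
      · simp only [if_neg hψ, Finset.sum_const_zero]
    · intro hh
      exact absurd (Finset.mem_univ _) hh
  have h2 : ∀ c : C, F c * conj ((θ : C → ℂ) c)
      = (Nat.card D : ℂ) * (if p ∣ orderOf c then 0
          else (θ : C → ℂ) c * conj ((θ : C → ℂ) c)) := by
    intro c
    by_cases hc : p ∣ orderOf c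
    · rw [if_pos hc, mul_zero, hF]
      change (∑ ψ : IrrCharacter C, (if ψ ∈ f then (ψ : C → ℂ) c else 0)) * _ = 0
      rw [Cfsg.Agent.Lib.H81CycGRHO.sum_sing h hc, zero_mul]
    · rw [if_neg hc, ← mul_assoc]
      congr 1
      have e3 : F c = ∑ ψ : IrrCharacter C, (if ψ ∈ f then (θ : C → ℂ) c else 0) := by
        rw [hF]
        refine Finset.sum_congr rfl (fun ψ _ => ?_)
        split_ifs with hψ
        · exact h.reg ψ hψ θ hθ c hc
        · rfl
      rw [e3, ← Finset.sum_filter, Finset.sum_const, nsmul_eq_mul, ← h.card]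
      congr 2
      rw [Nat.card_eq_fintype_card, Fintype.card_subtype]
  rw [Finset.mul_sum, ← h1]
  exact Finset.sum_congr rfl (fun c _ => (h2 c).symm)

end Cfsg.Agent.Lib.H81CycGRI
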