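import Cfsg.Agent.Lib.Helper81CycGDefs
import Cfsg.Agent.Lib.Helper81Orth2
import Cfsg.Agent.Lib.Helper81Second3
import Cfsg.Agent.Lib.Helper81Part
import Cfsg.Agent.Lib.Helper54DefOneComb
import Cfsg.Agent.Lib.Helper4DefOneK
import Cfsg.Agent.Lib.Helper78IndPair
import Cfsg.Agent.Lib.Helper80Conj
import Cfsg.Agent.Lib.Helper80Full2
import Cfsg.Agent.Lib.H81CycGCJ
import Cfsg.Agent.Lib.H81CycGCJB
import Cfsg.Agent.Lib.H81CycGVAN
import Cfsg.Agent.Lib.H81CycGRI

set_option autoImplicit false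

namespace Cfsg.Agent.Lib.H81CycGFIX
open Cfsg
open Cfsg.Agent.Lib.Helper81CycDefs Cfsg.Agent.Lib.Helper81CycGDefs Cfsg.Agent.Lib.Helper4DefOneDefs
open Cfsg.Agent.Lib.Helper80Transport Cfsg.Agent.Lib.Helper82Quot Cfsg.Agent.Lib.Helper81Base
open Cfsg.Agent.Lib.Helper80Trace Cfsg.Agent.Lib.Helper80Incl
open scoped ComplexConjugate

universe u

variable {G : Type u} [Group G] [Fintype G] {p : ℕ} [Fact p.Prime] {M : Ideal AlgInt}
  {D C T N : Subgroup G} [Fintype C] {t₀ x₀ : G} {e : ℕ} {f : Set (IrrCharacter C)}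
  {B : Set (IrrCharacter G)}

theorem ext_mem (H : Subgroup G) (θ : H → ℂ) {g : G} (hg : g ∈ H) :
    extendByZero H θ g = θ ⟨g, hg⟩ := by
  unfold extendByZero
  exact Subtype.val_injective.extend_apply θ 0 ⟨g, hg⟩

theorem sum_ite_const {ι : Type*} [Fintype ι] (s : Set ι) [DecidablePred (· ∈ s)] (a : ℂ) :
    ∑ i : ι, (if i ∈ s then a else 0) = (Nat.card s : ℂ) * a := by
  rw [← Finset.sum_filter, Finset.sum_const, nsmul_eq_mul, Nat.card_eq_fintype_card,
    Fintype.card_subtype]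

/-- the singular part. -/
theorem sing_zero (h : CY p M D C T N t₀ x₀ e f B) [DecidablePred (· ∈ f)] {n : G} (hnC : n ∉ C)
    (cn : C →* C) (hcn : ∀ c : C, ((cn c : C) : G) = n⁻¹ * (c : G) * n)
    {c : C} (hc : p ∣ orderOf c) :
    ∑ ψ : IrrCharacter C,
      (if ψ ∈ f then (ψ : C → ℂ) (cn c) * conj ((ψ : C → ℂ) c) else 0) = 0 := by
  have hp : p.Prime := Fact.out
  have cninj : Function.Injective cn := by
    intro a b hab
    have h1 := congrArg Subtype.val hab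
    rw [hcn, hcn] at h1
    apply Subtype.ext
    simpa using h1
  obtain ⟨u, hu⟩ := Cfsg.Agent.Lib.Helper81Orth.exists_ppart hp c
  have hu1 : u ≠ 1 := by
    rintro rfl
    obtain ⟨y, hy, -, -, hy2⟩ := hu
    rw [one_mul] at hy
    rw [hy] at hy2
    exact hy2 hc
  have hu' : IsPPart p (cn c) (cn u) := by
    obtain ⟨y, hy, hcomm, ⟨k, hk⟩, hy2⟩ := hu
    refine ⟨cn y, ?_, hcomm.map cn, ⟨k, ?_⟩, ?_⟩
    · rw [← map_mul, hy]
    · rw [orderOf_injective cn cninj, hk]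
    · rw [orderOf_injective cn cninj]; exact hy2
  by_cases hconj : IsConj (cn u) u
  · obtain ⟨x, hx⟩ := isConj_iff.mp hconj
    by_cases hD : ∃ y : C, ((y * u * y⁻¹ : C) : G) ∈ D
    · exfalso
      obtain ⟨y, hy⟩ := hD
      have hd1 : ((y * u * y⁻¹ : C) : G) ≠ 1 := by
        intro h1
        apply hu1
        have h2 : y * u * y⁻¹ = 1 := Subtype.ext h1
        have h3 : u = y⁻¹ * (y * u * y⁻¹) * y := by group
        rw [h3, h2]; group
      have hxG : (x : G) * (n⁻¹ * (u : G) * n) * (x : G)⁻¹ = (u : G) := by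
        have h1 := congrArg Subtype.val hx
        simpa [hcn] using h1
      have hz : (y : G) * x * n⁻¹ * (y : G)⁻¹ ∈
          Subgroup.centralizer ({((y * u * y⁻¹ : C) : G)} : Set G) := by
        rw [Subgroup.mem_centralizer_iff]
        intro g hg
        rw [Set.mem_singleton_iff] at hg
        subst hg
        have h4 : (u : G) * ((x : G) * n⁻¹) = (x : G) * n⁻¹ * (u : G) := by
          calc (u : G) * ((x : G) * n⁻¹)
              = ((x : G) * (n⁻¹ * (u : G) * n) * (x : G)⁻¹) * ((x : G) * n⁻¹) := by rw [hxG]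
            _ = (x : G) * n⁻¹ * (u : G) := by group
        push_cast
        calc (y : G) * u * (y : G)⁻¹ * ((y : G) * x * n⁻¹ * (y : G)⁻¹)
            = (y : G) * ((u : G) * ((x : G) * n⁻¹)) * (y : G)⁻¹ := by group
          _ = (y : G) * ((x : G) * n⁻¹ * (u : G)) * (y : G)⁻¹ := by rw [h4]
          _ = (y : G) * x * n⁻¹ * (y : G)⁻¹ * ((y : G) * u * (y : G)⁻¹) := by group
      have hzC := h.cen _ hy hd1 hz
      apply hnC
      have h5 : n⁻¹ = (x : G)⁻¹ * (y : G)⁻¹ * ((y : G) * x * n⁻¹ * (y : G)⁻¹) * (y : G) := by group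
      have h6 : n⁻¹ ∈ C := by
        rw [h5]
        exact C.mul_mem (C.mul_mem (C.mul_mem (C.inv_mem x.2) (C.inv_mem y.2)) hzC) y.2
      simpa using C.inv_mem h6
    · push_neg at hD
      apply Finset.sum_eq_zero
      intro ψ _
      split_ifs with hψ
      · rw [Cfsg.Agent.Lib.H81CycGVAN.van h hψ hu hD]; simp
      · rfl
  · exact Cfsg.Agent.Lib.Helper81Orth.block_orth h.hM h.ind.1 hu' hu hconj

/-- piece `G-FIX`: an element of `T \ C` fixes exactly one member of `f`. -/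
theorem fix_one (h : CY p M D C T N t₀ x₀ e f B) {n : G} (hn : n ∈ T) (hnC : n ∉ C) :
    Nat.card {ψ : IrrCharacter C // ψ ∈ f ∧ cjc C n ψ = ψ} = 1 := by
  classical
  have hnN : n ∈ Subgroup.normalizer (C : Set G) :=
    Cfsg.Agent.Lib.H81CycGCJB.le_normalizer h (h.gd.TH hn)
  have hcm : ∀ c : C, n⁻¹ * (c : G) * n ∈ C := by
    intro c
    have := h.gd.nC n⁻¹ (N.inv_mem (h.gd.TH hn)) c c.2
    simpa using this
  let cn : C →* C :=
    { toFun := fun c => ⟨n⁻¹ * c * n, hcm c⟩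
      map_one' := by ext; simp
      map_mul' := by intro a b; ext; simp [mul_assoc] }
  have hcn : ∀ c : C, ((cn c : C) : G) = n⁻¹ * (c : G) * n := fun c => rfl
  have happ : ∀ (ψ : IrrCharacter C) (c : C), (cjc C n ψ : C → ℂ) c = (ψ : C → ℂ) (cn c) := by
    intro ψ c
    rw [Cfsg.Agent.Lib.H81CycGCJ.cjc_apply hnN, ext_mem C _ (hcm c)]
    rfl
  obtain ⟨θ, hθ⟩ : f.Nonempty := by
    by_contra hne
    rw [Set.not_nonempty_iff_eq_empty] at hne
    have h1 := h.card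
    rw [hne] at h1
    have h2 : 0 < Nat.card D := Nat.card_pos
    rw [Nat.card_eq_zero.mpr (Or.inl (by simp))] at h1
    omega
  have hkey : ∀ c : C, ∑ ψ : IrrCharacter C,
      (if ψ ∈ f then (cjc C n ψ : C → ℂ) c * conj ((ψ : C → ℂ) c) else 0) =
      (Nat.card D : ℂ) *
        (if p ∣ orderOf c then 0 else (θ : C → ℂ) c * conj ((θ : C → ℂ) c)) := by
    intro c
    by_cases hc : p ∣ orderOf c
    · rw [if_pos hc, mul_zero]
      refine Eq.trans ?_ (sing_zero h hnC cn hcn hc)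
      apply Finset.sum_congr rfl
      intro ψ _
      rw [happ]
    · rw [if_neg hc, ← h.card, ← sum_ite_const]
      apply Finset.sum_congr rfl
      intro ψ _
      split_ifs with hψ
      · rw [h.reg _ (Cfsg.Agent.Lib.H81CycGCJB.cjc_mem h hn hψ) _ hθ c hc, h.reg _ hψ _ hθ c hc]
      · rfl
  have hcount : (Nat.card {ψ : IrrCharacter C // ψ ∈ f ∧ cjc C n ψ = ψ} : ℂ) * (Nat.card C : ℂ) =
      ∑ ψ : IrrCharacter C, (if ψ ∈ f then
        ∑ c : C, (cjc C n ψ : C → ℂ) c * conj ((ψ : C → ℂ) c) else 0) := by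
    have h1 := sum_ite_const {ψ : IrrCharacter C | ψ ∈ f ∧ cjc C n ψ = ψ} (Nat.card C : ℂ)
    rw [show (Nat.card {ψ : IrrCharacter C // ψ ∈ f ∧ cjc C n ψ = ψ} : ℂ) =
      (Nat.card ({ψ : IrrCharacter C | ψ ∈ f ∧ cjc C n ψ = ψ} : Set _) : ℂ) from rfl, ← h1]
    apply Finset.sum_congr rfl
    intro ψ _
    rw [irr_orth]
    by_cases hψ : ψ ∈ f <;> by_cases h2 : cjc C n ψ = ψ <;> simp [hψ, h2]
  have hsum : ∑ ψ : IrrCharacter C, (if ψ ∈ f then
        ∑ c : C, (cjc C n ψ : C → ℂ) c * conj ((ψ : C → ℂ) c) else 0) = (Nat.card C : ℂ) := by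
    rw [← Cfsg.Agent.Lib.H81CycGRI.reg_inner h hθ, Finset.mul_sum]
    simp_rw [← hkey]
    rw [Finset.sum_comm]
    apply Finset.sum_congr rfl
    intro ψ _
    split_ifs with hψ
    · rfl
    · simp
  rw [hsum] at hcount
  have hC0 : (Nat.card C : ℂ) ≠ 0 := card_ne_zero
  have h3 : (Nat.card {ψ : IrrCharacter C // ψ ∈ f ∧ cjc C n ψ = ψ} : ℂ) = 1 := by
    field_simp at hcount
    exact hcount
  exact_mod_cast h3

end Cfsg.Agent.Lib.H81CycGFIX
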