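import Cfsg.Agent.Lib.Helper81CycGDefs
import Cfsg.Agent.Lib.Helper81Orth2
import Cfsg.Agent.Lib.Helper81Second3
import Cfsg.Agent.Lib.Helper81Part
import Cfsg.Agent.Lib.Helper54DefOneComb
import Cfsg.Agent.Lib.Helper4DefOneK
import Cfsg.Agent.Lib.Helper78IndPair
import Cfsg.Agent.Lib.Helper80Conj
import Cfsg.Agent.Lib.Helper80Full2
import Cfsg.Agent.Lib.H81CycGCJ
import Cfsg.Agent.Lib.H81CycGCJB
import Cfsg.Agent.Lib.H81CycGFIX

set_option autoImplicit false

namespace Cfsg.Agent.Lib.H81CycGTHETA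
open Cfsg
open Cfsg.Agent.Lib.Helper81CycDefs Cfsg.Agent.Lib.Helper81CycGDefs Cfsg.Agent.Lib.Helper4DefOneDefs
open Cfsg.Agent.Lib.Helper80Transport Cfsg.Agent.Lib.Helper82Quot Cfsg.Agent.Lib.Helper81Base
open Cfsg.Agent.Lib.Helper80Trace Cfsg.Agent.Lib.Helper80Incl
open scoped ComplexConjugate

universe u

variable {G : Type u} [Group G] [Fintype G] {p : ℕ} [Fact p.Prime] {M : Ideal AlgInt}
  {D C T N : Subgroup G} [Fintype C] {t₀ x₀ : G} {e : ℕ} {f : Set (IrrCharacter C)}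
  {B : Set (IrrCharacter G)}

/-- piece `G-THETA`: the stable character. -/
theorem exists_theta (h : CY p M D C T N t₀ x₀ e f B) : ∃ θ, IsFix C T f θ := by
  classical
  have hTN : T ≤ Subgroup.normalizer (C : Set G) :=
    h.gd.TH.trans (H81CycGCJB.le_normalizer h)
  by_cases he : e = 1
  · -- `T ≤ C`
    have hTC : ∀ n ∈ T, n ∈ C := by
      intro n hn
      obtain ⟨m, hm, hc⟩ := h.gd.cov n hn
      have hm0 : m = 0 := by omega
      subst hm0
      simpa using hc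
    have hne : Nat.card f ≠ 0 := by
      rw [h.card]
      exact Nat.card_pos.ne'
    have : Nonempty f := (Nat.card_ne_zero.mp hne).1
    obtain ⟨θ, hθ⟩ := this
    exact ⟨θ, hθ, fun n hn => H81CycGCJ.cjc_of_mem (hTC n hn) θ, fun ψ _ _ n hn _ => hTC n hn⟩
  · have he2 : 1 < e := by have := h.gd.epos; omega
    have ht₀ : t₀ ∉ C := by
      have := h.gd.inj 1 he2 one_ne_zero
      simpa using this
    have h1 := H81CycGFIX.fix_one h h.gd.t₀T ht₀
    obtain ⟨⟨θ, hθf, hθ⟩, -⟩ := Nat.card_eq_one_iff_exists.mp h1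
    have ht₀N : t₀ ∈ Subgroup.normalizer (C : Set G) := hTN h.gd.t₀T
    have hpow : ∀ m : ℕ, cjc C (t₀ ^ m) θ = θ := by
      intro m
      induction m with
      | zero => rw [pow_zero]; exact H81CycGCJ.cjc_of_mem C.one_mem θ
      | succ m ih =>
        rw [pow_succ, H81CycGCJ.cjc_mul (Subgroup.pow_mem _ ht₀N m) ht₀N, hθ, ih]
    have hall : ∀ n ∈ T, cjc C n θ = θ := by
      intro n hn
      obtain ⟨m, -, hc⟩ := h.gd.cov n hn
      have hn' : n = t₀ ^ m * ((t₀ ^ m)⁻¹ * n) := by group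
      rw [hn', H81CycGCJ.cjc_mul (Subgroup.pow_mem _ ht₀N m) (hTN (h.gd.CT hc)),
        H81CycGCJ.cjc_of_mem hc, hpow]
    refine ⟨θ, hθf, hall, ?_⟩
    intro ψ hψ hne n hn hfix
    by_contra hnC
    have h2 := H81CycGFIX.fix_one h hn hnC
    have h3 := (Nat.card_eq_one_iff_unique.mp h2).1
    have h4 := h3.elim (⟨ψ, hψ, hfix⟩ : {ψ : IrrCharacter C // ψ ∈ f ∧ cjc C n ψ = ψ})
      ⟨θ, hθf, hall n hn⟩
    exact hne (congrArg Subtype.val h4)

end Cfsg.Agent.Lib.H81CycGTHETA
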