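import Cfsg.Agent.Lib.Helper81CycGDefs
import Cfsg.Agent.Lib.Helper81Orth2
import Cfsg.Agent.Lib.Helper81Second3
import Cfsg.Agent.Lib.Helper81Part
import Cfsg.Agent.Lib.Helper54DefOneComb
import Cfsg.Agent.Lib.Helper4DefOneK
import Cfsg.Agent.Lib.Helper78IndPair
import Cfsg.Agent.Lib.Helper80Conj
import Cfsg.Agent.Lib.Helper80Full2
import Cfsg.Agent.Lib.H81CycGTHETA
import Cfsg.Agent.Lib.H81CycGCJB
import Cfsg.Agent.Lib.H81CycGGRAM
import Cfsg.Agent.Lib.H81CycGOUT
import Cfsg.Agent.Lib.H81CycGDZ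
import Cfsg.Agent.Lib.H81CycGREG
import Cfsg.Agent.Lib.H81CycGCNT
import Cfsg.Agent.Lib.H81CycGCARD
import Cfsg.Agent.Lib.H81CycGINN3

set_option autoImplicit false

namespace Cfsg.Agent.Lib.H81CycGMAIN
open Cfsg
open Cfsg.Agent.Lib.Helper81CycDefs Cfsg.Agent.Lib.Helper81CycGDefs Cfsg.Agent.Lib.Helper4DefOneDefs
open Cfsg.Agent.Lib.Helper80Transport Cfsg.Agent.Lib.Helper82Quot Cfsg.Agent.Lib.Helper81Base
open Cfsg.Agent.Lib.Helper80Trace Cfsg.Agent.Lib.Helper80Incl
open scoped ComplexConjugate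

universe u

variable {G : Type u} [Group G] [Fintype G] {p : ℕ} [Fact p.Prime] {M : Ideal AlgInt}
  {D C T N : Subgroup G} [Fintype C] {t₀ x₀ : G} {e : ℕ} {f : Set (IrrCharacter C)}
  {B : Set (IrrCharacter G)}

open Classical in
/-- piece `G-MAIN`: the structure theorem. -/
theorem main_G (h : CY p M D C T N t₀ x₀ e f B) (hrk : e ≤ blockRank p B) :
    blockRank p B = e ∧ ∃ (X Y : Set (IrrCharacter G)) (δ : IrrCharacter G → ℤ) (δ₀ : ℤ),
      B = X ∪ Y ∧ Disjoint X Y ∧ Nat.card X = e ∧ e * Nat.card Y + 1 = Nat.card D ∧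
      (∀ χ ∈ X, δ χ = 1 ∨ δ χ = -1) ∧ (δ₀ = 1 ∨ δ₀ = -1) ∧
      (∀ ψ ∈ Y, ∀ g : G, ¬ p ∣ orderOf g → (δ₀ : ℂ) * (ψ : G → ℂ) g
        + ∑ χ : IrrCharacter G, (if χ ∈ X then (δ χ : ℂ) * (χ : G → ℂ) g else 0) = 0) ∧
      (∀ χ ∈ X, ∀ χ' ∈ X, ∀ g : G, p ∣ orderOf g →
        (δ χ : ℂ) * (χ : G → ℂ) g = (δ χ' : ℂ) * (χ' : G → ℂ) g) := by
  have hp : p.Prime := Fact.out
  obtain ⟨θ, hθ⟩ := H81CycGTHETA.exists_theta h
  have hnat : ∀ (χ : IrrCharacter G) (ψ : IrrCharacter C), ∃ k : ℕ, mH χ ψ = k := fun χ ψ =>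
    Cfsg.Agent.Lib.Helper82Mult.exists_nat_classInner
      (Cfsg.Agent.Lib.Helper82Mult.isCharacter_restrict
        (Cfsg.Agent.Lib.Helper82Irr.irr_isCharacter χ) C)
      (Cfsg.Agent.Lib.Helper82Irr.irr_isCharacter ψ)
  choose nH hnH using hnat
  set Λ' := {ψ : IrrCharacter C // ψ ∈ f ∧ ψ ≠ θ} with hΛ'
  set R : Λ' → Λ' → Prop := fun l l' => RelC C T l.1 l'.1 with hR
  have hE := H81CycGCJB.relC_equiv h
  have hRe : Equivalence R :=
    ⟨fun l => hE.refl _, fun h' => hE.symm h', fun h' h'' => hE.trans h' h''⟩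
  set DD : Λ' → IrrCharacter G → ℤ := fun l χ => (nH χ l.1 : ℤ) - nH χ θ with hDD
  have hDc : ∀ l χ, (DD l χ : ℂ) = dd θ l.1 χ := by
    intro l χ
    simp only [hDD, dd, hnH]
    push_cast
    ring
  have he0 : 0 < e := by
    rw [← h.idx]
    apply Nat.pos_of_ne_zero
    unfold Subgroup.relIndex
    exact Subgroup.index_ne_zero_of_finite
  have hgram : ∀ l l', ∑ χ, DD l χ * DD l' χ = (e : ℤ) + if R l l' then 1 else 0 := by
    intro l l'
    have h1 := H81CycGGRAM.gram h hθ l.2.1 l'.2.1 l.2.2 l'.2.2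
    have h2 : ((∑ χ, DD l χ * DD l' χ : ℤ) : ℂ) = (((e : ℤ) + if R l l' then 1 else 0 : ℤ) : ℂ) := by
      push_cast
      have e1 : ∑ χ : IrrCharacter G, (DD l χ : ℂ) * (DD l' χ : ℂ)
          = ∑ χ : IrrCharacter G, dd θ l.1 χ * conj (dd θ l'.1 χ) := by
        apply Finset.sum_congr rfl
        intro χ _
        rw [← hDc, ← hDc, map_intCast]
      rw [e1, h1]
    exact_mod_cast h2
  have hrel : ∀ l l', R l l' → DD l = DD l' := by
    intro l l' hl
    funext χ
    have h1 : ∑ χ, (DD l χ - DD l' χ) ^ 2 = 0 := by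
      have e1 : ∀ χ, (DD l χ - DD l' χ) ^ 2
          = DD l χ * DD l χ - DD l χ * DD l' χ - DD l' χ * DD l χ + DD l' χ * DD l' χ :=
        fun χ => by ring
      simp only [e1, Finset.sum_add_distrib, Finset.sum_sub_distrib, hgram]
      rw [if_pos (hRe.refl l), if_pos hl, if_pos (hRe.symm hl), if_pos (hRe.refl l')]
      ring
    have h2 := (Finset.sum_eq_zero_iff_of_nonneg (fun χ _ => sq_nonneg (DD l χ - DD l' χ))).mp h1 χ
      (Finset.mem_univ _)
    have h3 := pow_eq_zero_iff (two_ne_zero) |>.mp h2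
    linarith
  have hp1 : ¬ p ∣ orderOf (1 : G) := by
    rw [orderOf_one]; exact hp.one_lt.ne' ∘ Nat.dvd_one.mp
  have h0 : ∀ l l', ∑ χ, (DD l χ - DD l' χ) * (charDegree (χ : G → ℂ) : ℤ) = 0 := by
    intro l l'
    have a1 := H81CycGREG.dd_reg h hθ.1 l.2.1 1 hp1
    have a2 := H81CycGREG.dd_reg h hθ.1 l'.2.1 1 hp1
    have h3 : ((∑ χ, (DD l χ - DD l' χ) * (charDegree (χ : G → ℂ) : ℤ) : ℤ) : ℂ) = ((0 : ℤ) : ℂ) := by
      push_cast
      have : (0 : ℂ) = ∑ χ : IrrCharacter G, dd θ l.1 χ * (χ : G → ℂ) 1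
          - ∑ χ : IrrCharacter G, dd θ l'.1 χ * (χ : G → ℂ) 1 := by rw [a1, a2]; ring
      rw [this, ← Finset.sum_sub_distrib]
      apply Finset.sum_congr rfl
      intro χ _
      rw [hDc, hDc, charDegree_eq]
      ring
    exact_mod_cast h3
  have hsupp : ∀ χ : IrrCharacter G, (∃ l, DD l χ ≠ 0) ↔ χ ∈ B := by
    intro χ
    constructor
    · rintro ⟨l, hl⟩
      by_contra hχ
      apply hl
      have := hDc l χ
      rw [H81CycGOUT.dd_out h hθ.1 l.2.1 hχ] at this
      exact_mod_cast this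
    · intro hχ
      obtain ⟨ψ, hψ, hne, hd⟩ := H81CycGDZ.exists_dd_ne h hθ.1 hχ
      refine ⟨⟨ψ, hψ, hne⟩, fun h' => hd ?_⟩
      have := hDc ⟨ψ, hψ, hne⟩ χ
      rw [h'] at this
      simp only [Int.cast_zero] at this
      exact this.symm
  set t := Nat.card (Quotient (⟨R, hRe⟩ : Setoid Λ')) with ht
  have hcq : e * t + 1 = Nat.card D := H81CycGCNT.card_quot h hθ hRe
  have hD2 : 2 ≤ Nat.card D := by
    have : Nontrivial D := (Subgroup.nontrivial_iff_ne_bot D).2 h.D1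
    exact Finite.one_lt_card
  have ht0 : 0 < t := by
    rcases Nat.eq_zero_or_pos t with h' | h'
    · rw [h'] at hcq; omega
    · exact h'
  have hne : Nonempty Λ' := by
    have : Nonempty (Quotient (⟨R, hRe⟩ : Setoid Λ')) := (Nat.card_pos_iff.1 ht0).1
    obtain ⟨q⟩ := this
    exact ⟨q.out⟩
  have hcg : blockRank p B + t ≤ Nat.card B := H81CycGCARD.card_ge_cy h hθ hRe
  have hcard : e + t ≤ Nat.card {χ : IrrCharacter G // ∃ l, DD l χ ≠ 0} := by
    have : Nat.card {χ : IrrCharacter G // ∃ l, DD l χ ≠ 0} = Nat.card B :=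
      Nat.card_congr (Equiv.subtypeEquivRight hsupp)
    rw [this]; omega
  obtain ⟨ε, ζ, a, hε, hζ, hDζ, hDa, ha, hcardX⟩ :=
    Cfsg.Agent.Lib.Helper54DefOneComb.comb R hRe e t he0 ht.symm DD
    (fun χ => (charDegree (χ : G → ℂ) : ℤ)) (fun χ => by exact_mod_cast charDegree_pos χ)
    hrel hgram h0 hcard
  have hε0 : ε ≠ 0 := by rcases hε with h' | h' <;> rw [h'] <;> norm_num
  have hζB : ∀ l, ζ l ∈ B := by
    intro l
    rw [← hsupp]
    refine ⟨l, ?_⟩
    rw [hDζ l l, if_pos (hRe.refl l), mul_one]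
    exact hε0
  set X : Set (IrrCharacter G) := {χ | χ ∈ B ∧ ∀ l, χ ≠ ζ l} with hX
  set Y : Set (IrrCharacter G) := Set.range ζ with hY
  have hBXY : B = X ∪ Y := by
    ext χ
    constructor
    · intro hχ
      by_cases hc : ∃ l, ζ l = χ
      · exact Or.inr hc
      · push Not at hc
        exact Or.inl ⟨hχ, fun l h' => hc l h'.symm⟩
    · rintro (h' | ⟨l, rfl⟩)
      · exact h'.1
      · exact hζB l
  have hdisj : Disjoint X Y := by
    rw [Set.disjoint_left]
    rintro χ ⟨_, h1⟩ ⟨l, rfl⟩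
    exact h1 l rfl
  have hcX : Nat.card X = e := by
    rw [← hcardX]
    apply Nat.card_congr
    exact Equiv.subtypeEquivRight (fun χ => by rw [hsupp]; rfl)
  have hcY : Nat.card Y = t := by
    rw [ht]
    symm
    apply Nat.card_congr
    refine Equiv.ofBijective (fun q => Quotient.liftOn q
      (fun l => (⟨ζ l, l, rfl⟩ : Y))
      (fun l l' hl => Subtype.ext ((hζ l l').mpr hl))) ⟨?_, ?_⟩
    · intro q q'
      induction q using Quotient.inductionOn with
      | h l =>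
        induction q' using Quotient.inductionOn with
        | h l' =>
          intro hq
          exact Quotient.sound ((hζ l l').mp (congrArg Subtype.val hq))
    · rintro ⟨χ, l, rfl⟩
      exact ⟨Quotient.mk _ l, rfl⟩
  have hcB : Nat.card B = e + t := by
    rw [hBXY, Nat.card_coe_set_eq, Set.ncard_union_eq hdisj (Set.toFinite _) (Set.toFinite _),
      ← Nat.card_coe_set_eq, ← Nat.card_coe_set_eq, hcX, hcY]
  refine ⟨by omega, X, Y, a, ε, hBXY, hdisj, hcX, by rw [hcY]; exact hcq, ?_, hε, ?_, ?_⟩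
  · intro χ hχ
    exact ha χ hχ.2 ((hsupp χ).2 hχ.1)
  · rintro ψ ⟨l, rfl⟩ g hg
    have h1 := H81CycGREG.dd_reg h hθ.1 l.2.1 g hg
    have hpt : ∀ χ : IrrCharacter G, dd θ l.1 χ
        = (if χ = ζ l then (ε : ℂ) else 0) + (if χ ∈ X then (a χ : ℂ) else 0) := by
      intro χ
      rw [← hDc]
      by_cases h1 : χ = ζ l
      · subst h1
        have hnX : ζ l ∉ X := fun h' => h'.2 l rfl
        rw [if_pos rfl, if_neg hnX, hDζ l l, if_pos (hRe.refl l)]
        simp
      · rw [if_neg h1]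
        by_cases h2 : ∃ l', χ = ζ l'
        · obtain ⟨l', rfl⟩ := h2
          have hnX : ζ l' ∉ X := fun h' => h'.2 l' rfl
          have hnR : ¬ R l' l := fun h' => h1 ((hζ l' l).2 h')
          rw [if_neg hnX, hDζ l' l, if_neg hnR]
          simp
        · push Not at h2
          by_cases h3 : χ ∈ B
          · have hXm : χ ∈ X := ⟨h3, h2⟩
            rw [if_pos hXm, hDa χ h2 l]
            simp
          · have hnX : χ ∉ X := fun h' => h3 h'.1
            rw [if_neg hnX]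
            have : DD l χ = 0 := by
              by_contra h4
              exact h3 ((hsupp χ).1 ⟨l, h4⟩)
            rw [this]
            simp
    have h2 : ∑ χ : IrrCharacter G, dd θ l.1 χ * (χ : G → ℂ) g = (ε : ℂ) * (ζ l : G → ℂ) g
        + ∑ χ : IrrCharacter G, (if χ ∈ X then (a χ : ℂ) * (χ : G → ℂ) g else 0) := by
      simp only [hpt, add_mul, Finset.sum_add_distrib, ite_mul, zero_mul, Finset.sum_ite_eq',
        Finset.mem_univ, if_true]
    convert h2.symm.trans h1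
  · intro χ hχ χ' hχ' g hg
    have hsq : ∀ η ∈ X, (a η : ℂ) * (a η : ℂ) = 1 := by
      intro η hη
      rcases ha η hη.2 ((hsupp η).2 hη.1) with h' | h' <;> rw [h'] <;> norm_num
    have h1 := H81CycGINN3.van_sing h hθ.1
      (fun η => (if η = χ then (a χ : ℂ) else 0) - (if η = χ' then (a χ' : ℂ) else 0))
      (by
        intro η hη
        have e1 : η ≠ χ := fun h' => hη (h' ▸ hχ.1)
        have e2 : η ≠ χ' := fun h' => hη (h' ▸ hχ'.1)
        simp [e1, e2])
      (by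
        intro ψ hψ
        simp only [sub_mul, Finset.sum_sub_distrib, ite_mul, zero_mul, Finset.sum_ite_eq',
          Finset.mem_univ, if_true]
        by_cases hψθ : ψ = θ
        · subst hψθ
          simp [dd]
        · have e1 := hDc ⟨ψ, hψ, hψθ⟩ χ
          have e2 := hDc ⟨ψ, hψ, hψθ⟩ χ'
          rw [hDa χ hχ.2] at e1
          rw [hDa χ' hχ'.2] at e2
          simp only at e1 e2
          rw [← e1, ← e2, hsq χ hχ, hsq χ' hχ']
          ring) g hg
    simp only [sub_mul, Finset.sum_sub_distrib, ite_mul, zero_mul, Finset.sum_ite_eq',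
      Finset.mem_univ, if_true] at h1
    exact sub_eq_zero.1 h1

end Cfsg.Agent.Lib.H81CycGMAIN
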