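import Mathlib
import Cfsg.Agent.Lib.Helper81CycDefs

set_option autoImplicit false

namespace Cfsg.Agent.Lib.H81CycDESC
open Cfsg.Agent.Lib.Helper81CycDefs Cfsg.Agent.Lib.Helper81KulDefs

universe u

variable {k G A : Type*} [Field k] [Group G] [Fintype G] [Ring A] [Algebra k A]
  {of : G →* A} {C : Subgroup G} {q : ℕ} {β z i : A} {n : ℕ}
  {x y : Fin n → A} {p : ℕ} {D T H : Subgroup G} {t₀ x₀ : G} {e : ℕ} {w w' : A} {c₀ : k}
  {lam : A →ₗ[k] k} {c ε : A} {X : Finset G}

omit [Fintype G] [Group G] in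
/-- `HasW` is transported by linear equivalences. -/
theorem hasW_congr (μ : k) {V W : Type*} [AddCommGroup V] [Module A V] [AddCommGroup W] [Module A W]
    (f : V ≃ₗ[A] W) (h : HasW i z w q μ V) : HasW i z w q μ W := by
  obtain ⟨v, h1, h2, h3, h4⟩ := h
  refine ⟨f v, ?_, ?_, ?_, fun u hu => ?_⟩
  · rw [← map_smul, h1]
  · rw [← map_smul, h2, map_zero]
  · rw [← map_smul, h3, map_smul]
  · apply h4 (f.symm u)
    apply f.injective
    rw [map_smul, f.apply_symm_apply, hu]

omit [Fintype G] [Group G] in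
theorem descent_simple (μ : k) (ε : A) {V : Type*} [AddCommGroup V] [Module A V] [IsSimpleModule A V]
    (hε : ∀ v : V, ε • v = v) (hU : HasW i z w q μ V) :
    ∃ I : Submodule A A, IsSimpleModule A (A ⧸ I) ∧ (∀ v : A ⧸ I, ε • v = v) ∧
      HasW i z w q μ (A ⧸ I) := by
  obtain ⟨I, _, ⟨f⟩⟩ := isSimpleModule_iff_quot_maximal.mp (inferInstance : IsSimpleModule A V)
  refine ⟨I, IsSimpleModule.congr f.symm, fun v => ?_, hasW_congr μ f hU⟩
  apply f.symm.injective
  rw [map_smul, hε]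

omit [Fintype G] in
/-- the averaging step -/
theorem average (ls : LS k of C q β z i x y) (ws : WS k of C t₀ e z i w w' c₀)
    (he : (e : k) ≠ 0) (μ : k) (hμ : μ ^ e = c₀) {M : Type*} [AddCommGroup M] [Module A M]
    (v u : M) (h1 : i • v = v) (h2 : z • v = 0) (h3 : w • v = algebraMap k A μ • v) :
    ∃ (a : A) (u' : M), a • (v - (z ^ (q - 1) * i) • u) = v - (z ^ (q - 1) * i) • u' ∧
      w • (a • (v - (z ^ (q - 1) * i) • u)) = algebraMap k A μ • (a • (v - (z ^ (q - 1) * i) • u)) := by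
  have hq1 : q - 1 + 1 = q := by have := ls.q2; omega
  have he0 : e ≠ 0 := by rintro rfl; simp at he
  have hμ0 : μ ≠ 0 := by
    rintro rfl
    rw [zero_pow he0] at hμ
    exact ws.c₀ hμ.symm
  obtain ⟨Z, hZ⟩ : ∃ Z, Z = z ^ (q - 1) * i := ⟨_, rfl⟩
  rw [← hZ]
  have hiz : i * z = z * i := ls.zc i ls.iC
  have hizp : ∀ m : ℕ, i * z ^ m = z ^ m * i := fun m => by
    have : Commute i z := hiz
    exact this.pow_right m
  have hiZ : i * Z = Z := by rw [hZ, ← mul_assoc, hizp, mul_assoc, ls.ii]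
  have hzZ : z * Z = 0 := by rw [hZ, ← mul_assoc, ← pow_succ', hq1, ls.zq, zero_mul]
  have hwZ : ∀ m : ℕ, ∃ d, w ^ m * Z = Z * d := by
    intro m
    induction m with
    | zero => exact ⟨1, by simp⟩
    | succ m ih =>
      obtain ⟨d, hd⟩ := ih
      obtain ⟨d', hd'⟩ := ws.rz (q - 1)
      rw [← hZ] at hd'
      exact ⟨d * d', by rw [pow_succ, mul_assoc, hd', ← mul_assoc, hd, mul_assoc]⟩
  choose d hd using hwZ
  obtain ⟨v₁, hv₁⟩ : ∃ v₁, v₁ = v - Z • u := ⟨_, rfl⟩
  rw [← hv₁]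
  have hi1 : i • v₁ = v₁ := by rw [hv₁, smul_sub, h1, smul_smul, hiZ]
  have hz1 : z • v₁ = 0 := by rw [hv₁, smul_sub, h2, smul_smul, hzZ, zero_smul, sub_zero]
  set ν : k := μ⁻¹ with hν
  set cc : k := (e : k)⁻¹ with hcc
  obtain ⟨a, ha⟩ : ∃ a : A, a = ∑ m ∈ Finset.range e, (cc * ν ^ m) • w ^ m := ⟨_, rfl⟩
  have hwv : ∀ m : ℕ, w ^ m • v = algebraMap k A (μ ^ m) • v := by
    intro m
    induction m with
    | zero => simp
    | succ m ih =>
      rw [pow_succ, mul_smul, h3, smul_smul, ← Algebra.commutes, mul_smul, ih, smul_smul, ← map_mul,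
        pow_succ']
  have hav : a • v = v := by
    rw [ha, Finset.sum_smul]
    have : ∀ m ∈ Finset.range e, ((cc * ν ^ m) • w ^ m) • v = algebraMap k A cc • v := by
      intro m _
      rw [Algebra.smul_def, mul_smul, hwv, smul_smul, ← map_mul]
      congr 2
      rw [hν, mul_assoc, ← mul_pow, inv_mul_cancel₀ hμ0, one_pow, mul_one]
    rw [Finset.sum_congr rfl this, Finset.sum_const, Finset.card_range, ← Nat.cast_smul_eq_nsmul A,
      smul_smul, ← map_natCast (algebraMap k A), ← map_mul, hcc, mul_inv_cancel₀ he, map_one, one_smul]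
  have haZ : a * Z = Z * ∑ m ∈ Finset.range e, (cc * ν ^ m) • d m := by
    rw [ha, Finset.sum_mul, Finset.mul_sum]
    apply Finset.sum_congr rfl
    intro m _
    rw [smul_mul_assoc, hd, mul_smul_comm]
  have hwa : w * a - μ • a = (cc * μ * ν ^ e) • w ^ e - (cc * μ) • 1 := by
    have hg := Finset.sum_range_sub (fun m => (cc * μ * ν ^ m) • w ^ m) e
    simp only [pow_zero, mul_one] at hg
    rw [← hg, ha, Finset.mul_sum, Finset.smul_sum, ← Finset.sum_sub_distrib]
    apply Finset.sum_congr rfl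
    intro m _
    rw [mul_smul_comm, ← pow_succ', smul_smul]
    congr 2
    · rw [pow_succ, hν]
      field_simp
    · ring
  have hwe : w ^ e • v₁ = algebraMap k A c₀ • v₁ := by
    obtain ⟨nn, hnn⟩ := ws.we
    rw [hnn, add_smul, mul_smul, hz1, smul_zero, add_zero, Algebra.smul_def, mul_smul, hi1]
  refine ⟨a, (∑ m ∈ Finset.range e, (cc * ν ^ m) • d m) • u, ?_, ?_⟩
  · rw [hv₁, smul_sub, hav, smul_smul, haZ, mul_smul]
  · have h5 : (w * a - μ • a) • v₁ = 0 := by
      rw [hwa, sub_smul, Algebra.smul_def, mul_smul, hwe, smul_smul, ← map_mul, Algebra.smul_def, mul_one,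
        sub_eq_zero]
      congr 2
      rw [← hμ, hν, mul_assoc, ← mul_pow, inv_mul_cancel₀ hμ0, one_pow, mul_one]
    rw [sub_smul, sub_eq_zero, mul_smul, Algebra.smul_def, mul_smul] at h5
    exact h5

/-- piece `M-DESC`: descent to a composition factor. -/
theorem descent (ls : LS k of C q β z i x y) (ws : WS k of C t₀ e z i w w' c₀)
    (he : (e : k) ≠ 0) (hn : ∀ g ∈ C, t₀ * g * t₀⁻¹ ∈ C) (hn' : ∀ g ∈ C, t₀⁻¹ * g * t₀ ∈ C)
    (μ : k) (hμ : μ ^ e = c₀) (ε : A) {V : Type u} [AddCommGroup V] [Module A V]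
    (hfl : IsFiniteLength A V) (hε : ∀ v : V, ε • v = v) (hU : HasW i z w q μ V) :
    ∃ I : Submodule A A, IsSimpleModule A (A ⧸ I) ∧ (∀ v : A ⧸ I, ε • v = v) ∧
      HasW i z w q μ (A ⧸ I) := by
  have hq1 : q - 1 + 1 = q := by have := ls.q2; omega
  have hiz : i * z = z * i := ls.zc i ls.iC
  have hizp : ∀ m : ℕ, i * z ^ m = z ^ m * i := fun m => by
    have : Commute i z := hiz
    exact this.pow_right m
  have hiZ : i * (z ^ (q - 1) * i) = z ^ (q - 1) * i := by rw [← mul_assoc, hizp, mul_assoc, ls.ii]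
  have hzZ : z * (z ^ (q - 1) * i) = 0 := by rw [← mul_assoc, ← pow_succ', hq1, ls.zq, zero_mul]
  induction hfl with
  | of_subsingleton =>
    obtain ⟨v, _, _, _, h4⟩ := hU
    exact absurd (Subsingleton.elim _ _) (h4 v)
  | @of_simple_quotient M _ _ N _ _ ih =>
    obtain ⟨v, h1, h2, h3, h4⟩ := hU
    by_cases hq : ∃ u : M ⧸ N, (z ^ (q - 1) * i) • u = Submodule.Quotient.mk v
    · obtain ⟨u', hu'⟩ := hq
      obtain ⟨u, rfl⟩ := Submodule.Quotient.mk_surjective N u'
      have hmem : v - (z ^ (q - 1) * i) • u ∈ N := by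
        rw [← Submodule.Quotient.mk_smul] at hu'
        exact (Submodule.Quotient.eq N).1 hu'.symm
      obtain ⟨a, u'', ha1, ha2⟩ := average ls ws he μ hμ v u h1 h2 h3
      apply ih
      · intro x
        apply Subtype.ext
        exact hε x
      · refine ⟨⟨a • (v - (z ^ (q - 1) * i) • u), N.smul_mem _ hmem⟩, ?_, ?_, ?_, fun nn hnn => ?_⟩
        · apply Subtype.ext
          change i • a • (v - (z ^ (q - 1) * i) • u) = a • (v - (z ^ (q - 1) * i) • u)
          rw [ha1, smul_sub, h1, smul_smul, hiZ]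
        · apply Subtype.ext
          change z • a • (v - (z ^ (q - 1) * i) • u) = 0
          rw [ha1, smul_sub, h2, smul_smul, hzZ, zero_smul, sub_zero]
        · apply Subtype.ext
          exact ha2
        · have h5 : (z ^ (q - 1) * i) • (nn : M) = a • (v - (z ^ (q - 1) * i) • u) :=
            congrArg Subtype.val hnn
          rw [ha1] at h5
          apply h4 ((nn : M) + u'')
          rw [smul_add, h5, sub_add_cancel]
    · apply descent_simple μ ε (V := M ⧸ N)
      · intro x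
        obtain ⟨x, rfl⟩ := Submodule.Quotient.mk_surjective N x
        rw [← Submodule.Quotient.mk_smul, hε]
      · refine ⟨Submodule.Quotient.mk v, ?_, ?_, ?_, fun u hu => hq ⟨u, hu⟩⟩
        · rw [← Submodule.Quotient.mk_smul, h1]
        · rw [← Submodule.Quotient.mk_smul, h2, Submodule.Quotient.mk_zero]
        · rw [← Submodule.Quotient.mk_smul, h3, Submodule.Quotient.mk_smul]

end Cfsg.Agent.Lib.H81CycDESC
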