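import Mathlib
import Cfsg.Agent.Lib.Helper81CycDefs

set_option autoImplicit false

namespace Cfsg.Agent.Lib.H81CycISO
open Cfsg.Agent.Lib.Helper81CycDefs Cfsg.Agent.Lib.Helper81KulDefs

universe u

variable {k G A : Type*} [Field k] [Group G] [Fintype G] [Ring A] [Algebra k A]
  {of : G →* A} {C : Subgroup G} {q : ℕ} {β z i : A} {n : ℕ}
  {x y : Fin n → A} {p : ℕ} {D T H : Subgroup G} {t₀ x₀ : G} {e : ℕ} {w w' : A} {c₀ : k}
  {lam : A →ₗ[k] k} {c ε : A} {X : Finset G}

/-- piece `M-ISO`: `HasW` is invariant under isomorphisms. -/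
theorem hasW_of_equiv {V V' : Type*} [AddCommGroup V] [Module A V] [AddCommGroup V'] [Module A V']
    (f : V ≃ₗ[A] V') (μ : k) (h : HasW i z w q μ V) : HasW i z w q μ V' := by
  obtain ⟨v, h1, h2, h3, h4⟩ := h
  refine ⟨f v, by rw [← map_smul, h1], by rw [← map_smul, h2, map_zero],
    by rw [← map_smul, h3, map_smul], fun u hu => h4 (f.symm u) ?_⟩
  apply f.injective
  rw [map_smul, f.apply_symm_apply, hu]

end Cfsg.Agent.Lib.H81CycISO
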