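import Mathlib
import Cfsg.Agent.Lib.Helper81CycDefs

set_option autoImplicit false

namespace Cfsg.Agent.Lib.H81CycROOT
open Cfsg.Agent.Lib.Helper81CycDefs Cfsg.Agent.Lib.Helper81KulDefs

universe u

variable {k G A : Type*} [Field k] [Group G] [Fintype G] [Ring A] [Algebra k A]
  {of : G →* A} {C : Subgroup G} {q : ℕ} {β z i : A} {n : ℕ}
  {x y : Fin n → A} {p : ℕ} {D T H : Subgroup G} {t₀ x₀ : G} {e : ℕ} {w w' : A} {c₀ : k}
  {lam : A →ₗ[k] k} {c ε : A} {X : Finset G}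

/-- piece `M-ROOT`: the `e`-th roots of `c₀`. -/
theorem exists_roots [IsAlgClosed k] (e : ℕ) (he : (e : k) ≠ 0) (c₀ : k) (hc : c₀ ≠ 0) :
    ∃ μ : Fin e → k, Function.Injective μ ∧ ∀ j, μ j ^ e = c₀ := by
  have he0 : e ≠ 0 := by
    rintro rfl
    simp at he
  haveI : NeZero (e : k) := ⟨he⟩
  haveI : NeZero e := ⟨he0⟩
  obtain ⟨μ₀, hμ₀⟩ := IsAlgClosed.exists_pow_nat_eq c₀ (Nat.pos_of_ne_zero he0)
  obtain ⟨ζ, hζ⟩ := HasEnoughRootsOfUnity.exists_primitiveRoot k e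
  have hμ0 : μ₀ ≠ 0 := by
    rintro rfl
    rw [zero_pow he0] at hμ₀
    exact hc hμ₀.symm
  refine ⟨fun j => μ₀ * ζ ^ (j : ℕ), ?_, ?_⟩
  · intro a b hab
    have h1 : ζ ^ (a : ℕ) = ζ ^ (b : ℕ) := mul_left_cancel₀ hμ0 hab
    exact Fin.ext (hζ.pow_inj a.2 b.2 h1)
  · intro j
    rw [mul_pow, hμ₀, ← pow_mul, Nat.mul_comm, pow_mul, hζ.pow_eq_one, one_pow, mul_one]

end Cfsg.Agent.Lib.H81CycROOT
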