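import Mathlib
import Cfsg.Agent.Lib.Helper81CycDefs

set_option autoImplicit false

namespace Cfsg.Agent.Lib.H81CycKS
open Cfsg.Agent.Lib.Helper81CycDefs Cfsg.Agent.Lib.Helper81KulDefs

universe u

variable {k G A : Type*} [Field k] [Group G] [Ring A] [Algebra k A] {of : G →* A}

/-- piece `M-KS`: `k[X] k[Y] ⊆ k[XY]`. -/
theorem kS_mul {X Y Z : Set G} (h : ∀ x ∈ X, ∀ y ∈ Y, x * y ∈ Z) {a b : A} (ha : a ∈ kS k of X)
    (hb : b ∈ kS k of Y) : a * b ∈ kS k of Z := by
  unfold kS at *
  induction ha using Submodule.span_induction with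
  | mem a ha =>
    obtain ⟨x, hx, rfl⟩ := ha
    induction hb using Submodule.span_induction with
    | mem b hb =>
      obtain ⟨y, hy, rfl⟩ := hb
      rw [← map_mul]
      exact Submodule.subset_span ⟨x * y, h x hx y hy, rfl⟩
    | zero => rw [mul_zero]; exact Submodule.zero_mem _
    | add b c _ _ hb hc => rw [mul_add]; exact Submodule.add_mem _ hb hc
    | smul r b _ hb => rw [mul_smul_comm]; exact Submodule.smul_mem _ r hb
  | zero => rw [zero_mul]; exact Submodule.zero_mem _
  | add a c _ _ ha hc => rw [add_mul]; exact Submodule.add_mem _ ha hc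
  | smul r a _ ha => rw [smul_mul_assoc]; exact Submodule.smul_mem _ r ha

/-- piece `M-KS` -/
theorem kS_exists [Fintype G] {X : Set G} {a : A} (ha : a ∈ kS k of X) :
    ∃ f : G → k, (∀ g, g ∉ X → f g = 0) ∧ a = ∑ g, f g • of g := by
  classical
  unfold kS at ha
  induction ha using Submodule.span_induction with
  | mem a ha =>
    obtain ⟨x, hx, rfl⟩ := ha
    refine ⟨Pi.single x 1, fun g hg => ?_, ?_⟩
    · rw [Pi.single_apply, if_neg]
      rintro rfl
      exact hg hx
    · rw [Finset.sum_eq_single x]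
      · simp
      · intro b _ hb
        rw [Pi.single_apply, if_neg hb, zero_smul]
      · intro h; exact absurd (Finset.mem_univ _) h
  | zero => exact ⟨0, fun _ _ => rfl, by simp⟩
  | add a c _ _ ha hc =>
    obtain ⟨f, hf, rfl⟩ := ha
    obtain ⟨f', hf', rfl⟩ := hc
    refine ⟨f + f', fun g hg => by rw [Pi.add_apply, hf g hg, hf' g hg, add_zero], ?_⟩
    rw [← Finset.sum_add_distrib]
    exact Finset.sum_congr rfl fun g _ => by rw [Pi.add_apply, add_smul]
  | smul r a _ ha =>
    obtain ⟨f, hf, rfl⟩ := ha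
    refine ⟨r • f, fun g hg => by rw [Pi.smul_apply, hf g hg, smul_zero], ?_⟩
    rw [Finset.smul_sum]
    exact Finset.sum_congr rfl fun g _ => by rw [Pi.smul_apply, smul_eq_mul, mul_smul]

/-- piece `M-KS` -/
theorem kS_one (C : Subgroup G) : (1 : A) ∈ kS k of (C : Set G) := by
  exact Submodule.subset_span ⟨1, C.one_mem, map_one of⟩

/-- piece `M-KS` -/
theorem kS_pow (C : Subgroup G) {a : A} (ha : a ∈ kS k of (C : Set G)) (m : ℕ) :
    a ^ m ∈ kS k of (C : Set G) := by
  induction m with
  | zero => rw [pow_zero]; exact kS_one C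
  | succ m ih =>
    rw [pow_succ]
    exact kS_mul (fun x hx y hy => C.mul_mem hx hy) ih ha

end Cfsg.Agent.Lib.H81CycKS
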