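import Mathlib
import Cfsg.Agent.Lib.Helper81CycDefs
import Cfsg.Agent.Lib.H81CycKS

set_option autoImplicit false

namespace Cfsg.Agent.Lib.H81CycLNE
open Cfsg.Agent.Lib.Helper81CycDefs Cfsg.Agent.Lib.Helper81KulDefs Cfsg.Agent.Lib.H81CycKS

universe u

variable {k G A : Type*} [Field k] [Group G] [Fintype G] [Ring A] [Algebra k A]
  {of : G →* A} {C : Subgroup G} {q : ℕ} {β z i : A} {n : ℕ}
  {x y : Fin n → A} {p : ℕ} {D T H : Subgroup G} {t₀ x₀ : G} {e : ℕ} {w w' : A} {c₀ : k}
  {lam : A →ₗ[k] k} {c ε : A} {X : Finset G}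

/-- the form is symmetric on the span of the group elements -/
theorem lam_symm (hlam : ∀ g, lam (of g) = (open Classical in if g = 1 then 1 else 0))
    {X Y : Set G} {a b : A} (ha : a ∈ kS k of X) (hb : b ∈ kS k of Y) :
    lam (a * b) = lam (b * a) := by
  classical
  unfold kS at *
  induction ha using Submodule.span_induction with
  | mem a ha =>
    obtain ⟨x, hx, rfl⟩ := ha
    induction hb using Submodule.span_induction with
    | mem b hb =>
      obtain ⟨y, hy, rfl⟩ := hb
      rw [← map_mul, ← map_mul, hlam, hlam]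
      have : (x * y = 1) ↔ (y * x = 1) :=
        ⟨fun h => by rw [eq_inv_of_mul_eq_one_left h]; simp,
          fun h => by rw [eq_inv_of_mul_eq_one_left h]; simp⟩
      simp only [this]
    | zero => rw [mul_zero, zero_mul]
    | add b c _ _ hb hc => rw [mul_add, add_mul, map_add, map_add, hb, hc]
    | smul r b _ hb => rw [mul_smul_comm, smul_mul_assoc, map_smul, map_smul, hb]
  | zero => rw [mul_zero, zero_mul]
  | add a c _ _ ha hc => rw [mul_add, add_mul, map_add, map_add, ha, hc]
  | smul r a _ ha => rw [mul_smul_comm, smul_mul_assoc, map_smul, map_smul, ha]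

/-- piece `M-LNE`: the symmetrizing form does not vanish on the socle of the corner. -/
theorem lam_socle_ne (hlam : ∀ g, lam (of g) = (open Classical in if g = 1 then 1 else 0))
    (ls : LS k of C q β z i x y) : lam (z ^ (q - 1) * i) ≠ 0 := by
  classical
  intro h0
  have hCC : ∀ x ∈ (C : Set G), ∀ y ∈ (C : Set G), x * y ∈ (C : Set G) :=
    fun x hx y hy => C.mul_mem hx hy
  have hsC : z ^ (q - 1) * i ∈ kS k of (C : Set G) := kS_mul hCC (kS_pow C ls.zC _) ls.iC
  have hzi : ∀ m : ℕ, i * z ^ m = z ^ m * i := fun m =>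
    ((show Commute i z from ls.zc i ls.iC).pow_right m).eq
  have hq := ls.q2
  obtain ⟨f, hf, hs⟩ := kS_exists hsC
  have hall : ∀ h, f h = 0 := by
    intro h
    by_cases hh : h ∈ (C : Set G)
    · have h1 : lam (z ^ (q - 1) * i * of h⁻¹) = f h := by
        rw [hs, Finset.sum_mul, map_sum, Finset.sum_eq_single h]
        · rw [smul_mul_assoc, ← map_mul, mul_inv_cancel, map_smul, hlam, if_pos rfl, smul_eq_mul,
            mul_one]
        · intro g _ hg
          rw [smul_mul_assoc, ← map_mul, map_smul, hlam, if_neg, smul_zero]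
          intro h'
          exact hg (mul_inv_eq_one.mp h')
        · intro h'; exact absurd (Finset.mem_univ _) h'
      have hhC : of h⁻¹ ∈ kS k of (C : Set G) :=
        Submodule.subset_span ⟨h⁻¹, C.inv_mem hh, rfl⟩
      obtain ⟨r, hr⟩ := ls.cor (of h⁻¹) hhC
      have h2 : z ^ (q - 1) * i * of h⁻¹ = (z ^ (q - 1) * i) * (i * of h⁻¹) := by
        rw [mul_assoc (z ^ (q - 1)) i (i * of h⁻¹), ← mul_assoc i i, ls.ii, mul_assoc]
      have h3 : (i * of h⁻¹) * (z ^ (q - 1) * i) = r 0 • (z ^ (q - 1) * i) := by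
        have e1 : (i * of h⁻¹) * (z ^ (q - 1) * i) = (i * of h⁻¹ * i) * (z ^ (q - 1) * i) := by
          rw [mul_assoc (i * of h⁻¹) i, ← mul_assoc i (z ^ (q - 1)) i, hzi, mul_assoc (z ^ (q - 1)),
            ls.ii]
        rw [e1, hr, Finset.sum_mul, Finset.sum_eq_single 0]
        · rw [pow_zero, one_mul, smul_mul_assoc, ← mul_assoc, hzi, mul_assoc, ls.ii]
        · intro m _ hm
          have e2 : z ^ m * i * (z ^ (q - 1) * i) = z ^ (m + (q - 1)) * i := by
            rw [mul_assoc, ← mul_assoc i, hzi, mul_assoc (z ^ (q - 1)), ls.ii, ← mul_assoc, pow_add]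
          have e3 : z ^ (m + (q - 1)) = 0 := by
            have : m + (q - 1) = q + (m - 1) := by omega
            rw [this, pow_add, ls.zq, zero_mul]
          rw [smul_mul_assoc, e2, e3, zero_mul, smul_zero]
        · intro h'
          exact absurd (Finset.mem_range.mpr (by omega)) h'
      rw [← h1, h2, lam_symm hlam hsC (kS_mul hCC ls.iC hhC), h3, map_smul, h0, smul_zero]
    · exact hf h hh
  apply ls.ne
  rw [hs]
  simp [hall]

end Cfsg.Agent.Lib.H81CycLNE
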