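import Mathlib
import Cfsg.Agent.Lib.Helper81CycDefs

set_option autoImplicit false

namespace Cfsg.Agent.Lib.H81CycST1
open Cfsg.Agent.Lib.Helper81CycDefs Cfsg.Agent.Lib.Helper81KulDefs

universe u

variable {k G A : Type*} [Field k] [Group G] [Fintype G] [Ring A] [Algebra k A]
  {of : G →* A} {C : Subgroup G} {q : ℕ} {β z i : A} {n : ℕ}
  {x y : Fin n → A} {p : ℕ} {D T H : Subgroup G} {t₀ x₀ : G} {e : ℕ} {w w' : A} {c₀ : k}
  {lam : A →ₗ[k] k} {c ε : A} {X : Finset G}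

/-- piece `M-ST1`: the start vector (algebraic identities). -/
theorem start_vec (gd : GD p D C T H t₀ x₀ e) (ls : LS k of C q β z i x y)
    (ws : WS k of C t₀ e z i w w' c₀) (hε : ∀ a, ε * a = a * ε) (μ : k) (hμ : μ ^ e = c₀) :
    i * ((∑ m ∈ Finset.range e, (μ⁻¹) ^ m • w ^ m) * (ε * (z ^ (q - 1) * i)))
        = (∑ m ∈ Finset.range e, (μ⁻¹) ^ m • w ^ m) * (ε * (z ^ (q - 1) * i)) ∧
      z * ((∑ m ∈ Finset.range e, (μ⁻¹) ^ m • w ^ m) * (ε * (z ^ (q - 1) * i))) = 0 ∧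
      w * ((∑ m ∈ Finset.range e, (μ⁻¹) ^ m • w ^ m) * (ε * (z ^ (q - 1) * i)))
        = μ • ((∑ m ∈ Finset.range e, (μ⁻¹) ^ m • w ^ m) * (ε * (z ^ (q - 1) * i))) := by
  have hq := ls.q2
  have hzi : ∀ m : ℕ, i * z ^ m = z ^ m * i := fun m =>
    ((show Commute i z from ls.zc i ls.iC).pow_right m).eq
  have hμ0 : μ ≠ 0 := by
    rintro rfl
    rw [zero_pow gd.epos.ne'] at hμ
    exact ws.c₀ hμ.symm
  set t : A := ε * (z ^ (q - 1) * i) with ht
  have hit : i * t = t := by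
    rw [ht, ← mul_assoc, ← hε, mul_assoc, ← mul_assoc i, hzi, mul_assoc, ls.ii]
  have hzt : z * t = 0 := by
    rw [ht, ← mul_assoc, ← hε, mul_assoc, ← mul_assoc z, ← pow_succ']
    have : q - 1 + 1 = q := by omega
    rw [this, ls.zq, zero_mul, mul_zero]
  have hiw : ∀ m : ℕ, i * (w ^ m * t) = w ^ m * t := by
    intro m
    cases m with
    | zero => rw [pow_zero, one_mul, hit]
    | succ m => rw [pow_succ', mul_assoc w, ← mul_assoc i w, ws.iw]
  obtain ⟨d, hd⟩ := ws.kz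
  have hzw : ∀ m : ℕ, z * w ^ m = d ^ m * z := by
    intro m
    induction m with
    | zero => simp
    | succ m ih => rw [pow_succ, ← mul_assoc, ih, mul_assoc, hd, ← mul_assoc, ← pow_succ]
  obtain ⟨n', hn'⟩ := ws.we
  have hwe : w ^ e * t = c₀ • t := by
    rw [hn', add_mul, mul_assoc, hzt, mul_zero, add_zero, smul_mul_assoc, hit]
  have hsum : ∀ u : A, u * ((∑ m ∈ Finset.range e, (μ⁻¹) ^ m • w ^ m) * t)
      = ∑ m ∈ Finset.range e, (μ⁻¹) ^ m • (u * (w ^ m * t)) := by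
    intro u
    rw [Finset.sum_mul, Finset.mul_sum]
    exact Finset.sum_congr rfl fun m _ => by rw [smul_mul_assoc, mul_smul_comm]
  have hsum1 : (∑ m ∈ Finset.range e, (μ⁻¹) ^ m • w ^ m) * t
      = ∑ m ∈ Finset.range e, (μ⁻¹) ^ m • (w ^ m * t) := by
    rw [Finset.sum_mul]
    exact Finset.sum_congr rfl fun m _ => by rw [smul_mul_assoc]
  refine ⟨?_, ?_, ?_⟩
  · rw [hsum, hsum1]
    exact Finset.sum_congr rfl fun m _ => by rw [hiw]
  · rw [hsum]
    apply Finset.sum_eq_zero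
    intro m _
    rw [← mul_assoc, hzw, mul_assoc, hzt, mul_zero, smul_zero]
  · rw [hsum, hsum1, Finset.smul_sum]
    have h1 : ∀ m, (μ⁻¹) ^ m • (w * (w ^ m * t)) = μ • ((μ⁻¹) ^ (m + 1) • (w ^ (m + 1) * t)) := by
      intro m
      have e1 : μ * (μ⁻¹) ^ (m + 1) = (μ⁻¹) ^ m := by
        rw [pow_succ', ← mul_assoc, mul_inv_cancel₀ hμ0, one_mul]
      rw [smul_smul, e1, pow_succ' w, mul_assoc]
    rw [Finset.sum_congr rfl fun m _ => h1 m, ← Finset.smul_sum, ← Finset.smul_sum]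
    congr 1
    have h2 := Finset.sum_range_succ' (fun m => (μ⁻¹) ^ m • (w ^ m * t)) e
    have h3 := Finset.sum_range_succ (fun m => (μ⁻¹) ^ m • (w ^ m * t)) e
    have h4 : (μ⁻¹) ^ e • (w ^ e * t) = (μ⁻¹) ^ 0 • (w ^ 0 * t) := by
      rw [hwe, smul_smul, ← hμ, inv_pow, inv_mul_cancel₀ (pow_ne_zero _ hμ0), pow_zero, pow_zero,
        one_mul]
    rw [h3, h4] at h2
    exact (add_right_cancel h2).symm

end Cfsg.Agent.Lib.H81CycST1
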