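import Mathlib
import Cfsg.Agent.Lib.Helper81CycDefs

set_option autoImplicit false

namespace Cfsg.Agent.Lib.H81CycIND
open Cfsg.Agent.Lib.Helper81CycDefs Cfsg.Agent.Lib.Helper81KulDefs

universe u

variable {k G A : Type*} [Field k] [Group G] [Ring A] [Algebra k A] {of : G →* A}

variable {C : Subgroup G} {q : ℕ} {β z i : A} {n : ℕ} {x y : Fin n → A}

/-- piece `M-IND`: the `z^m i`, `m < q`, are linearly independent. -/
theorem ls_indep (ls : LS k of C q β z i x y) (r : ℕ → k)
    (h : ∑ m ∈ Finset.range q, r m • (z ^ m * i) = 0) : ∀ m < q, r m = 0 := by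
  intro m
  induction m using Nat.strong_induction_on with
  | _ m ih =>
    intro hm
    have h1 : z ^ (q - 1 - m) * ∑ j ∈ Finset.range q, r j • (z ^ j * i) = 0 := by
      rw [h, mul_zero]
    rw [Finset.mul_sum, Finset.sum_eq_single m] at h1
    · rw [mul_smul_comm, ← mul_assoc, ← pow_add, show q - 1 - m + m = q - 1 by omega] at h1
      exact (smul_eq_zero.1 h1).resolve_right ls.ne
    · intro j hj hjm
      rcases lt_or_gt_of_ne hjm with hlt | hgt
      · rw [ih j hlt (by omega), zero_smul, mul_zero]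
      · rw [mul_smul_comm, ← mul_assoc, ← pow_add]
        have : q - 1 - m + j = q + (j - m - 1) := by omega
        rw [this, pow_add, ls.zq, zero_mul, zero_mul, smul_zero]
    · intro hm'
      exact absurd (Finset.mem_range.2 hm) hm'

theorem top_mul (ls : LS k of C q β z i x y) (r : ℕ → k) :
    z ^ (q - 1) * i * (∑ m ∈ Finset.range q, r m • (z ^ m * i)) = r 0 • (z ^ (q - 1) * i) := by
  have hq := ls.q2
  have hc : Commute i z := ls.zc i ls.iC
  rw [Finset.mul_sum, Finset.sum_eq_single 0]
  · rw [pow_zero, one_mul, mul_smul_comm, mul_assoc, ls.ii]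
  · intro j hj hj0
    have e1 : z ^ (q - 1) * i * (z ^ j * i) = z ^ (q - 1 + j) * i := by
      rw [mul_assoc, ← mul_assoc i, (hc.pow_right j).eq, mul_assoc, ls.ii, ← mul_assoc, ← pow_add]
    have e2 : q - 1 + j = q + (j - 1) := by omega
    rw [mul_smul_comm, e1, e2, pow_add, ls.zq, zero_mul, zero_mul, smul_zero]
  · intro h0
    exact absurd (Finset.mem_range.2 (by omega)) h0

/-- piece `M-IND`: nilpotent elements of the corner have no constant term. -/
theorem ls_nil (ls : LS k of C q β z i x y) (r : ℕ → k)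
    (h : IsNilpotent (∑ m ∈ Finset.range q, r m • (z ^ m * i))) : r 0 = 0 := by
  obtain ⟨N, hN⟩ := h
  have key : ∀ N : ℕ, z ^ (q - 1) * i * (∑ m ∈ Finset.range q, r m • (z ^ m * i)) ^ N
      = (r 0) ^ N • (z ^ (q - 1) * i) := by
    intro N
    induction N with
    | zero => simp
    | succ N ih =>
      rw [pow_succ, ← mul_assoc, ih, smul_mul_assoc, top_mul ls r, smul_smul, pow_succ]
  have h1 := key N
  rw [hN, mul_zero] at h1
  have h2 : (r 0) ^ N = 0 := (smul_eq_zero.1 h1.symm).resolve_right ls.ne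
  exact eq_zero_of_pow_eq_zero h2

end Cfsg.Agent.Lib.H81CycIND
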