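import Mathlib
import Cfsg.Agent.Lib.Helper81CycDefs
import Cfsg.Agent.Lib.H81CycKS
import Cfsg.Agent.Lib.H81CycIND

set_option autoImplicit false

namespace Cfsg.Agent.Lib.H81CycQZ
open Cfsg.Agent.Lib.Helper81CycDefs Cfsg.Agent.Lib.Helper81KulDefs
open Cfsg.Agent.Lib.H81CycKS Cfsg.Agent.Lib.H81CycIND

universe u

variable {k G A : Type*} [Field k] [Group G] [Ring A] [Algebra k A] {of : G →* A}

variable {C : Subgroup G} {q : ℕ} {β z i : A} {n : ℕ} {x y : Fin n → A}

/-- piece `M-QZ`: central `p`-elements of `C` act trivially on `z^(q-1)`. -/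
theorem qz (p : ℕ) [Fact p.Prime] [CharP k p] (ls : LS k of C q β z i x y) {x₀ : G} (hx : x₀ ∈ C)
    (hc : ∀ g ∈ C, g * x₀ = x₀ * g) (ho : ∃ N : ℕ, x₀ ^ p ^ N = 1) :
    of x₀ * z ^ (q - 1) = z ^ (q - 1) := by
  obtain ⟨N, hN⟩ := ho
  haveI : Nontrivial A := ⟨⟨_, 0, ls.ne⟩⟩
  haveI : CharP A p := charP_of_injective_algebraMap (algebraMap k A).injective p
  have hxS : of x₀ ∈ kS k of (C : Set G) := Submodule.subset_span ⟨x₀, hx, rfl⟩
  have hcomm0 : ∀ a ∈ kS k of (C : Set G), a * of x₀ = of x₀ * a := by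
    intro a ha
    unfold kS at ha
    induction ha using Submodule.span_induction with
    | mem a ha =>
      obtain ⟨g, hg, rfl⟩ := ha
      rw [← map_mul, ← map_mul, hc g hg]
    | zero => simp
    | add a b _ _ h1 h2 => rw [add_mul, mul_add, h1, h2]
    | smul c a _ h1 => rw [smul_mul_assoc, mul_smul_comm, h1]
  set u : A := of x₀ - 1 with hu
  have huS : u ∈ kS k of (C : Set G) := Submodule.sub_mem _ hxS (kS_one C)
  have hcomm : ∀ a ∈ kS k of (C : Set G), a * u = u * a := by
    intro a ha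
    rw [hu, mul_sub, sub_mul, hcomm0 a ha, mul_one, one_mul]
  have hupow : u ^ p ^ N = 0 := by
    rw [hu, sub_pow_char_pow_of_commute p N (Commute.one_right _), ← map_pow, hN, map_one, one_pow,
      sub_self]
  have hui : i * u * i = u * i := by rw [hcomm i ls.iC, mul_assoc, ls.ii]
  obtain ⟨r, hr⟩ := ls.cor u huS
  rw [hui] at hr
  have hnil : IsNilpotent (u * i) := by
    refine ⟨p ^ N, ?_⟩
    have : Commute u i := (hcomm i ls.iC).symm
    rw [this.mul_pow, hupow, zero_mul]
  have hr0 : r 0 = 0 := ls_nil ls r (hr ▸ hnil)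
  have hq : q - 1 + 1 = q := by have := ls.q2; omega
  have h1 : z ^ (q - 1) * (u * i) = 0 := by
    rw [hr, Finset.mul_sum]
    apply Finset.sum_eq_zero
    intro m _
    rcases Nat.eq_zero_or_pos m with rfl | hm
    · rw [hr0, zero_smul, mul_zero]
    · obtain ⟨m', rfl⟩ : ∃ m', m = m' + 1 := ⟨m - 1, by omega⟩
      rw [mul_smul_comm, ← mul_assoc, ← pow_add,
        show q - 1 + (m' + 1) = q + m' by omega, pow_add, ls.zq, zero_mul, zero_mul, smul_zero]
  have hZS : z ^ (q - 1) ∈ kS k of (C : Set G) := kS_pow C ls.zC _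
  have hZc : ∀ b ∈ kS k of (C : Set G), b * z ^ (q - 1) = z ^ (q - 1) * b := by
    intro b hb
    exact (Commute.pow_right (show Commute b z from ls.zc b hb) _)
  have hZβ : z ^ (q - 1) * β = z ^ (q - 1) := by
    rw [ls.βc _ hZS]
    obtain ⟨q'', hq''⟩ : ∃ q'', q - 1 = q'' + 1 := ⟨q - 2, by have := ls.q2; omega⟩
    rw [hq'', pow_succ', ← mul_assoc, ls.βz]
  have h2 : u * z ^ (q - 1) = 0 := by
    calc u * z ^ (q - 1) = u * (z ^ (q - 1) * β) := by rw [hZβ]
      _ = ∑ s, x s * (z ^ (q - 1) * (u * i)) * y s := by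
          rw [ls.dec, Finset.mul_sum, Finset.mul_sum]
          refine Finset.sum_congr rfl (fun s _ => ?_)
          calc u * (z ^ (q - 1) * (x s * i * y s))
              = u * (z ^ (q - 1) * x s) * i * y s := by simp only [mul_assoc]
            _ = (u * x s) * z ^ (q - 1) * i * y s := by
                rw [← hZc _ (ls.xC s)]; simp only [mul_assoc]
            _ = x s * (u * z ^ (q - 1)) * i * y s := by
                rw [← hcomm _ (ls.xC s)]; simp only [mul_assoc]
            _ = x s * (z ^ (q - 1) * (u * i)) * y s := by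
                rw [← hcomm _ hZS]; simp only [mul_assoc]
      _ = 0 := by simp [h1]
  rw [hu, sub_mul, one_mul, sub_eq_zero] at h2
  exact h2

end Cfsg.Agent.Lib.H81CycQZ
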