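import Mathlib
import Cfsg.Agent.Lib.Helper81CycDefs
import Cfsg.Agent.Lib.Helper25ModA

set_option autoImplicit false

namespace Cfsg.Agent.Lib.H81CycVAN
open Cfsg.Agent.Lib.Helper81CycDefs Cfsg.Agent.Lib.Helper81KulDefs

universe u

variable {k G A : Type*} [Field k] [Group G] [Fintype G] [Ring A] [Algebra k A]
  {of : G →* A} {C : Subgroup G} {q : ℕ} {β z i : A} {n : ℕ}
  {x y : Fin n → A} {p : ℕ} {D T H : Subgroup G} {t₀ x₀ : G} {e : ℕ} {w w' : A} {c₀ : k}
  {lam : A →ₗ[k] k} {c ε : A} {X : Finset G}

omit [Fintype G] in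
theorem lam_symm
    (hlam : ∀ g, lam (of g) = (open Classical in if g = 1 then 1 else 0))
    (hspan : ∀ b : A, b ∈ kS k of (Set.univ : Set G)) (u v : A) : lam (u * v) = lam (v * u) := by
  have hu := hspan u
  unfold kS at hu
  induction hu using Submodule.span_induction with
  | mem u hu =>
    obtain ⟨g, -, rfl⟩ := hu
    have hv := hspan v
    unfold kS at hv
    induction hv using Submodule.span_induction with
    | mem v hv =>
      obtain ⟨h, -, rfl⟩ := hv
      rw [← map_mul, ← map_mul, hlam, hlam]
      have : g * h = 1 ↔ h * g = 1 := by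
        constructor
        · intro e; rw [eq_inv_of_mul_eq_one_left e]; simp
        · intro e; rw [eq_inv_of_mul_eq_one_left e]; simp
      by_cases e : g * h = 1
      · rw [if_pos e, if_pos (this.1 e)]
      · rw [if_neg e, if_neg (fun e' => e (this.2 e'))]
    | zero => simp
    | add a b _ _ ha hb => rw [mul_add, add_mul, map_add, map_add, ha, hb]
    | smul r a _ ha => rw [mul_smul_comm, smul_mul_assoc, map_smul, map_smul, ha]
  | zero => simp
  | add a b _ _ ha hb => rw [mul_add, add_mul, map_add, map_add, ha, hb]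
  | smul r a _ ha => rw [mul_smul_comm, smul_mul_assoc, map_smul, map_smul, ha]

theorem expand
    (hlam : ∀ g, lam (of g) = (open Classical in if g = 1 then 1 else 0))
    (hspan : ∀ b : A, b ∈ kS k of (Set.univ : Set G)) (a : A) :
    a = ∑ g, lam (a * of g⁻¹) • of g := by
  classical
  have ha := hspan a
  unfold kS at ha
  induction ha using Submodule.span_induction with
  | mem u hu =>
    obtain ⟨h, -, rfl⟩ := hu
    rw [Finset.sum_eq_single h]
    · rw [← map_mul, mul_inv_cancel, hlam, if_pos rfl, one_smul]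
    · intro g _ hg
      rw [← map_mul, hlam, if_neg, zero_smul]
      intro e
      exact hg (by rw [mul_inv_eq_one] at e; exact e.symm)
    · intro h'; exact absurd (Finset.mem_univ _) h'
  | zero => simp
  | add a b _ _ ha hb =>
    simp only [add_mul, map_add, add_smul, Finset.sum_add_distrib]
    rw [← ha, ← hb]
  | smul r a _ ha =>
    simp only [smul_mul_assoc, map_smul, smul_assoc]
    rw [← Finset.smul_sum, ← ha]

omit [Fintype G] in
theorem coeff_zero
    (hlam : ∀ g, lam (of g) = (open Classical in if g = 1 then 1 else 0))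
    {Y : Set G} {b : A} (hb : b ∈ kS k of Y) (g : G) (hg : g ∉ Y) : lam (b * of g⁻¹) = 0 := by
  unfold kS at hb
  induction hb using Submodule.span_induction with
  | mem u hu =>
    obtain ⟨h, hh, rfl⟩ := hu
    rw [← map_mul, hlam, if_neg]
    intro e
    rw [mul_inv_eq_one] at e
    exact hg (e ▸ hh)
  | zero => simp
  | add a b _ _ ha hb => rw [add_mul, map_add, ha, hb, add_zero]
  | smul r a _ ha => rw [smul_mul_assoc, map_smul, ha, smul_zero]

/-- piece `M-VAN`: orbits of length `p`. -/
theorem lam_eq_zero (p : ℕ) [Fact p.Prime] [CharP k p]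
    (hlam : ∀ g, lam (of g) = (open Classical in if g = 1 then 1 else 0))
    (hspan : ∀ b : A, b ∈ kS k of (Set.univ : Set G)) {ε b : A} (hε : ∀ a, ε * a = a * ε)
    {x₀ : G} (ho : orderOf x₀ = p) {Y : Set G} (hb : b ∈ kS k of Y)
    (hY : ∀ g ∈ Y, g * x₀ ≠ x₀ * g) (hbx : of x₀ * b = b * of x₀) : lam (ε * b) = 0 := by
  classical
  have hsym := lam_symm (lam := lam) hlam hspan
  set F : G → k := fun g => lam (b * of g⁻¹) * lam (ε * of g) with hF
  have h1 : lam (ε * b) = ∑ g, F g := by
    conv_lhs => rw [expand (lam := lam) hlam hspan b, Finset.mul_sum, map_sum]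
    refine Finset.sum_congr rfl fun g _ => ?_
    rw [mul_smul_comm, map_smul, smul_eq_mul]
  -- invariance
  have hcomm : ∀ c ∈ Subgroup.zpowers x₀, of c * b = b * of c := by
    intro c hc
    obtain ⟨j, rfl⟩ := (mem_powers_iff_mem_zpowers).2 hc
    have : Commute (of x₀) b := hbx
    rw [map_pow]
    exact (this.pow_left j).eq
  have hinv : ∀ c ∈ Subgroup.zpowers x₀, ∀ g, F (c * g * c⁻¹) = F g := by
    intro c hc g
    simp only [hF]
    congr 1
    · have e1 : (c * g * c⁻¹)⁻¹ = c * g⁻¹ * c⁻¹ := by group
      rw [e1, of.map_mul, of.map_mul, ← mul_assoc, ← mul_assoc, ← hcomm c hc, hsym, ← mul_assoc,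
        ← mul_assoc, ← of.map_mul, inv_mul_cancel, of.map_one, one_mul]
    · rw [of.map_mul, of.map_mul, ← mul_assoc, ← mul_assoc, hε, hsym, ← mul_assoc, ← mul_assoc,
        ← of.map_mul, inv_mul_cancel, of.map_one, one_mul]
  let _ : MulAction (Subgroup.zpowers x₀) G :=
    MulAction.compHom G ((MulAut.conj : G →* MulAut G).comp (Subgroup.zpowers x₀).subtype)
  have hsm : ∀ (c : Subgroup.zpowers x₀) (g : G), c • g = (c : G) * g * (c : G)⁻¹ := fun c g => rfl
  have hcard : Nat.card (Subgroup.zpowers x₀) = p := by rw [Nat.card_zpowers, ho]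
  obtain ⟨v, hv⟩ := Helper25ModA.orbit_sum (Γ := Subgroup.zpowers x₀) (Ω := G) (V := k)
    (fun _ => AddMonoidHom.id k) F (fun c g => by rw [hsm]; exact hinv c c.2 g) (by
      intro g
      by_cases hg : x₀ * g * x₀⁻¹ = g
      · left
        intro c
        rw [hsm]
        obtain ⟨j, hj⟩ := (mem_powers_iff_mem_zpowers).2 c.2
        have hc : Commute x₀ g := by
          rw [mul_inv_eq_iff_eq_mul] at hg; exact hg
        have : Commute (c : G) g := by rw [← hj]; exact hc.pow_left j
        rw [this.eq, mul_assoc, mul_inv_cancel, mul_one]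
      · right
        intro c hc
        by_contra hne
        have htop := zpowers_eq_top_of_prime_card hcard hne
        have hx : (⟨x₀, Subgroup.mem_zpowers x₀⟩ : Subgroup.zpowers x₀) ∈ Subgroup.zpowers c := by
          rw [htop]; trivial
        obtain ⟨j, hj⟩ := Subgroup.mem_zpowers_iff.1 hx
        have hcg : Commute (c : G) g := by
          rw [hsm, mul_inv_eq_iff_eq_mul] at hc; exact hc
        have hj' : (c : G) ^ j = x₀ := by
          have := congrArg Subtype.val hj
          simpa using this
        have : Commute x₀ g := by rw [← hj']; exact hcg.zpow_left j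
        apply hg
        rw [this.eq, mul_assoc, mul_inv_cancel, mul_one])
  rw [h1, hv]
  have h2 : (∑ ω : G, if (∀ c : Subgroup.zpowers x₀, c • ω = ω) then F ω else 0) = 0 := by
    refine Finset.sum_eq_zero fun g _ => ?_
    split_ifs with hg
    · have h3 := hg ⟨x₀, Subgroup.mem_zpowers x₀⟩
      rw [hsm, mul_inv_eq_iff_eq_mul] at h3
      have hgY : g ∉ Y := fun h => hY g h h3.symm
      simp only [hF]
      rw [coeff_zero hlam hb g hgY, zero_mul]
    · rfl
  have h3 : ∑ _c : Subgroup.zpowers x₀, (AddMonoidHom.id k) v = 0 := by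
    rw [Finset.sum_const, Finset.card_univ, ← Nat.card_eq_fintype_card, hcard, nsmul_eq_mul,
      CharP.cast_eq_zero, zero_mul]
  rw [h3, add_zero]
  convert h2

end Cfsg.Agent.Lib.H81CycVAN
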