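import Mathlib
import Cfsg.Agent.Lib.Helper81CycDefs
import Cfsg.Agent.Lib.H81CycKS

set_option autoImplicit false

namespace Cfsg.Agent.Lib.H81CycWP
open Cfsg.Agent.Lib.Helper81CycDefs Cfsg.Agent.Lib.Helper81KulDefs
open Cfsg.Agent.Lib.H81CycKS

universe u

variable {k G A : Type*} [Field k] [Group G] [Ring A] [Algebra k A] {of : G →* A}

variable {C : Subgroup G} {q : ℕ} {β z i : A} {n : ℕ} {x y : Fin n → A}

theorem wp1 {t₀ : G} {e : ℕ} {w w' : A} {c₀ : k} (ws : WS k of C t₀ e z i w w' c₀)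
    (hn' : ∀ g ∈ C, t₀⁻¹ * g * t₀ ∈ C) (m : ℕ) :
    ∃ κ ∈ kS k of (C : Set G), w ^ m = of (t₀ ^ m) * κ := by
  induction m with
  | zero => exact ⟨1, kS_one C, by simp⟩
  | succ m ih =>
    obtain ⟨κ, hκ, hw⟩ := ih
    have h1 : κ * w ∈ kS k of {g | t₀⁻¹ * g ∈ C} := by
      refine kS_mul (X := (C : Set G)) (Y := {g | t₀⁻¹ * g ∈ C}) ?_ hκ ws.wS
      intro c hc g hg
      have : t₀⁻¹ * (c * g) = (t₀⁻¹ * c * t₀) * (t₀⁻¹ * g) := by group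
      change t₀⁻¹ * (c * g) ∈ C
      rw [this]
      exact C.mul_mem (hn' c hc) hg
    have h2 : of t₀⁻¹ ∈ kS k of ({t₀⁻¹} : Set G) := Submodule.subset_span ⟨t₀⁻¹, rfl, rfl⟩
    refine ⟨of t₀⁻¹ * (κ * w), ?_, ?_⟩
    · refine kS_mul (X := ({t₀⁻¹} : Set G)) (Y := {g | t₀⁻¹ * g ∈ C}) ?_ h2 h1
      intro a ha g hg
      rw [Set.mem_singleton_iff] at ha
      subst ha
      exact hg
    · rw [pow_succ, hw, pow_succ, map_mul, mul_assoc (of (t₀ ^ m)) (of t₀), ← mul_assoc (of t₀),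
        ← map_mul, mul_inv_cancel, map_one, one_mul, mul_assoc]

theorem wp2 {t₀ : G} {e : ℕ} {w w' : A} {c₀ : k} (ws : WS k of C t₀ e z i w w' c₀) (m : ℕ) :
    w ^ m * i * w' ^ m = i := by
  induction m with
  | zero => simp
  | succ m ih =>
    calc w ^ (m + 1) * i * w' ^ (m + 1) = w ^ m * ((w * i) * w') * w' ^ m := by
          rw [pow_succ, pow_succ']; simp only [mul_assoc]
      _ = i := by rw [ws.wi, ws.ww', ih]

theorem wp3 {t₀ : G} {e : ℕ} {w w' : A} {c₀ : k} (ws : WS k of C t₀ e z i w w' c₀)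
    (hii : i * i = i) (m : ℕ) : i * (w' ^ m * i) = w' ^ m * i := by
  rcases m with _ | m
  · simp [hii]
  · rw [pow_succ', ← mul_assoc, ← mul_assoc, ws.iw']

theorem wp4 {w : A} (h : ∃ d, z * w = d * z) (m : ℕ) : ∃ d, z * w ^ m = d * z := by
  induction m with
  | zero => exact ⟨1, by simp⟩
  | succ m ih =>
    obtain ⟨d, hd⟩ := ih
    obtain ⟨d₁, hd₁⟩ := h
    exact ⟨d * d₁, by rw [pow_succ, ← mul_assoc, hd, mul_assoc, hd₁, mul_assoc]⟩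

theorem wp6 {w b : A} (h : ∃ d, w * b = b * d) (m : ℕ) : ∃ d, w ^ m * b = b * d := by
  induction m with
  | zero => exact ⟨1, by simp⟩
  | succ m ih =>
    obtain ⟨d, hd⟩ := ih
    obtain ⟨d₁, hd₁⟩ := h
    exact ⟨d * d₁, by rw [pow_succ, mul_assoc, hd₁, ← mul_assoc, hd, mul_assoc]⟩

/-- piece `M-WP`: powers of `w`. -/
theorem ws_pow {t₀ : G} {e : ℕ} {w w' : A} {c₀ : k} (ws : WS k of C t₀ e z i w w' c₀)
    (hii : i * i = i)
    (hn : ∀ g ∈ C, t₀ * g * t₀⁻¹ ∈ C) (hn' : ∀ g ∈ C, t₀⁻¹ * g * t₀ ∈ C) (m : ℕ) :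
    (∃ κ ∈ kS k of (C : Set G), w ^ m = of (t₀ ^ m) * κ) ∧ w ^ m * i * w' ^ m = i ∧
      i * (w' ^ m * i) = w' ^ m * i ∧ (∃ d, z * w ^ m = d * z) ∧ (∃ d, z * w' ^ m = d * z) ∧
      (∀ j : ℕ, ∃ d, w ^ m * (z ^ j * i) = (z ^ j * i) * d) :=
  ⟨wp1 ws hn' m, wp2 ws m, wp3 ws hii m, wp4 ws.kz m, wp4 ws.kz' m, fun j => wp6 (ws.rz j) m⟩

end Cfsg.Agent.Lib.H81CycWP
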