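import Mathlib
import Cfsg.Agent.Lib.Helper81CycDefs
import Cfsg.Agent.Lib.H81CycKS
import Cfsg.Agent.Lib.H81CycQZ
import Cfsg.Agent.Lib.H81CycWP
import Cfsg.Agent.Lib.H81CycVAN

set_option autoImplicit false

namespace Cfsg.Agent.Lib.H81CycST2
open Cfsg.Agent.Lib.Helper81CycDefs Cfsg.Agent.Lib.Helper81KulDefs

universe u

variable {k G A : Type*} [Field k] [Group G] [Fintype G] [Ring A] [Algebra k A]
  {of : G →* A} {C : Subgroup G} {q : ℕ} {β z i : A} {n : ℕ}
  {x y : Fin n → A} {p : ℕ} {D T H : Subgroup G} {t₀ x₀ : G} {e : ℕ} {w w' : A} {c₀ : k}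
  {lam : A →ₗ[k] k} {c ε : A} {X : Finset G}

/-- an element commuting with `C` commutes with `k C`. -/
theorem comm_kS {g₀ : G} (h : ∀ g ∈ C, g * g₀ = g₀ * g) {a : A} (ha : a ∈ kS k of (C : Set G)) :
    of g₀ * a = a * of g₀ := by
  unfold kS at ha
  induction ha using Submodule.span_induction with
  | mem a ha =>
    obtain ⟨g, hg, rfl⟩ := ha
    rw [← map_mul, ← map_mul, h g hg]
  | zero => simp
  | add a b _ _ iha ihb => rw [mul_add, add_mul, iha, ihb]
  | smul r a _ iha => rw [mul_smul_comm, smul_mul_assoc, iha]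

/-- linear extension of `bd.br`. -/
theorem br_kS {b₀ : A} (h : ∀ g ∈ C, lam (b₀ * of g) = 0) {a : A}
    (ha : a ∈ kS k of (C : Set G)) : lam (b₀ * a) = 0 := by
  unfold kS at ha
  induction ha using Submodule.span_induction with
  | mem a ha =>
    obtain ⟨g, hg, rfl⟩ := ha
    exact h g hg
  | zero => simp
  | add a b _ _ iha ihb => rw [mul_add, map_add, iha, ihb, add_zero]
  | smul r a _ iha => rw [mul_smul_comm, map_smul, iha, smul_zero]

/-- piece `M-ST2`: the value of the form at the start vector. -/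
theorem start_lam (p : ℕ) [Fact p.Prime] [CharP k p]
    (hlam : ∀ g, lam (of g) = (open Classical in if g = 1 then 1 else 0))
    (hspan : ∀ b : A, b ∈ kS k of (Set.univ : Set G))
    (gd : GD p D C T H t₀ x₀ e) (ls : LS k of C q β z i x y)
    (ws : WS k of C t₀ e z i w w' c₀) (bd : BD k of lam D C T H β c ε X) (μ : k) :
    lam ((∑ m ∈ Finset.range e, (μ⁻¹) ^ m • w ^ m) * (ε * (z ^ (q - 1) * i)))
      = lam (z ^ (q - 1) * i) := by
  set u : A := z ^ (q - 1) * i with hu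
  have huC : u ∈ kS k of (C : Set G) :=
    H81CycKS.kS_mul (fun a ha b hb => C.mul_mem ha hb) (H81CycKS.kS_pow C ls.zC _) ls.iC
  have hq : q - 1 = (q - 2) + 1 := by have := ls.q2; omega
  have hβu : β * u = u := by
    rw [hu, hq, pow_succ', ← mul_assoc, ← mul_assoc, ls.βz]
  -- the term `m = 0`
  have h0 : lam (ε * u) = lam u := by
    have := br_kS (lam := lam) (b₀ := ε * β - β) bd.br huC
    rw [sub_mul, map_sub, mul_assoc, hβu, sub_eq_zero] at this
    exact this
  -- the other terms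
  have hx₀p : x₀ ^ p = 1 := by rw [← gd.ord]; exact pow_orderOf_eq_one x₀
  have hpos : ∀ m, m < e → m ≠ 0 → lam (ε * (w ^ m * u)) = 0 := by
    intro m hm hm0
    obtain ⟨⟨κ, hκ, hwm⟩, -⟩ := H81CycWP.ws_pow ws ls.ii
      (fun g hg => gd.nC t₀ (gd.TH gd.t₀T) g hg)
      (fun g hg => by
        have := gd.nC t₀⁻¹ (H.inv_mem (gd.TH gd.t₀T)) g hg
        rwa [inv_inv] at this) m
    have htm : t₀ ^ m ∈ T := T.pow_mem gd.t₀T m
    have hκu : κ * u ∈ kS k of (C : Set G) :=
      H81CycKS.kS_mul (fun a ha b hb => C.mul_mem ha hb) hκ huC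
    have hb : w ^ m * u ∈ kS k of {g | (t₀ ^ m)⁻¹ * g ∈ C} := by
      rw [hwm, mul_assoc]
      refine H81CycKS.kS_mul (X := {t₀ ^ m}) (Y := (C : Set G)) ?_
        (Submodule.subset_span ⟨t₀ ^ m, rfl, rfl⟩) hκu
      intro a ha b hb
      rw [Set.mem_singleton_iff] at ha
      subst ha
      simpa using hb
    have hY : ∀ g ∈ {g | (t₀ ^ m)⁻¹ * g ∈ C}, g * x₀ ≠ x₀ * g := by
      intro g hg
      have hg' : (t₀ ^ m)⁻¹ * g ∈ C := hg
      have hgT : g ∈ T := by
        have := T.mul_mem htm (gd.CT hg')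
        rwa [mul_inv_cancel_left] at this
      have hgC : g ∉ C := by
        intro hgC
        apply gd.inj m hm hm0
        have := C.mul_mem hgC (C.inv_mem hg')
        simpa using this
      exact gd.x₀T g hgT hgC
    -- `b * of x₀ = b`
    have hqz := H81CycQZ.qz p ls gd.x₀C gd.x₀c ⟨1, by rw [pow_one]; exact hx₀p⟩
    have hux : ∀ g₀ : G, g₀ ∈ C → (∀ g ∈ C, g * g₀ = g₀ * g) → g₀ ^ p = 1 → of g₀ * u = u := by
      intro g₀ h1 h2 h3
      have := H81CycQZ.qz p ls h1 h2 ⟨1, by rw [pow_one]; exact h3⟩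
      rw [hu, ← mul_assoc, this]
    have hb1 : w ^ m * u * of x₀ = w ^ m * u := by
      rw [mul_assoc, ← comm_kS gd.x₀c huC, hux x₀ gd.x₀C gd.x₀c hx₀p]
    -- `of x₀ * b = b`
    obtain ⟨j, hj⟩ := Subgroup.mem_zpowers_iff.mp (gd.x₀n (t₀ ^ m) htm)
    have hx'C : x₀ ^ j ∈ C := C.zpow_mem gd.x₀C j
    have hx'c : ∀ g ∈ C, g * x₀ ^ j = x₀ ^ j * g := by
      intro g hg
      have : Commute g x₀ := gd.x₀c g hg
      exact (this.zpow_right j)
    have hx'p : (x₀ ^ j) ^ p = 1 := by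
      rw [← zpow_natCast, ← zpow_mul, mul_comm, zpow_mul, zpow_natCast, hx₀p, one_zpow]
    have hconj : x₀ * t₀ ^ m = t₀ ^ m * x₀ ^ j := by
      rw [hj]; group
    have hb2 : of x₀ * (w ^ m * u) = w ^ m * u := by
      rw [hwm]
      calc of x₀ * (of (t₀ ^ m) * κ * u) = of (x₀ * t₀ ^ m) * κ * u := by
            rw [map_mul]; simp only [mul_assoc]
        _ = of (t₀ ^ m) * (of (x₀ ^ j) * κ) * u := by
            rw [hconj, map_mul]; simp only [mul_assoc]
        _ = of (t₀ ^ m) * κ * (of (x₀ ^ j) * u) := by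
            rw [comm_kS hx'c hκ]; simp only [mul_assoc]
        _ = _ := by rw [hux _ hx'C hx'c hx'p]
    exact H81CycVAN.lam_eq_zero p hlam hspan bd.εc gd.ord hb hY (by rw [hb1, hb2])
  -- assembly
  have hexp : (∑ m ∈ Finset.range e, (μ⁻¹) ^ m • w ^ m) * (ε * u)
      = ∑ m ∈ Finset.range e, (μ⁻¹) ^ m • (ε * (w ^ m * u)) := by
    rw [Finset.sum_mul]
    apply Finset.sum_congr rfl
    intro m _
    rw [smul_mul_assoc, ← mul_assoc, ← bd.εc, mul_assoc]
  rw [hexp, map_sum]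
  rw [Finset.sum_eq_single 0]
  · simp [h0]
  · intro m hm hm0
    rw [map_smul, hpos m (Finset.mem_range.mp hm) hm0, smul_zero]
  · intro h
    exact absurd (Finset.mem_range.mpr gd.epos) h

end Cfsg.Agent.Lib.H81CycST2
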