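import Mathlib
import Cfsg.Agent.Lib.Helper81CycDefs
import Cfsg.Agent.Lib.H81CycLNE
import Cfsg.Agent.Lib.H81CycST1
import Cfsg.Agent.Lib.H81CycST2

set_option autoImplicit false

namespace Cfsg.Agent.Lib.H81CycST3
open Cfsg.Agent.Lib.Helper81CycDefs Cfsg.Agent.Lib.Helper81KulDefs

universe u

variable {k G A : Type*} [Field k] [Group G] [Fintype G] [Ring A] [Algebra k A]
  {of : G →* A} {C : Subgroup G} {q : ℕ} {β z i : A} {n : ℕ}
  {x y : Fin n → A} {p : ℕ} {D T H : Subgroup G} {t₀ x₀ : G} {e : ℕ} {w w' : A} {c₀ : k}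
  {lam : A →ₗ[k] k} {c ε : A} {X : Finset G}

/-- piece `M-ST3`: the start module. -/
theorem exists_hasW (p : ℕ) [Fact p.Prime] [CharP k p]
    (hlam : ∀ g, lam (of g) = (open Classical in if g = 1 then 1 else 0))
    (hspan : ∀ b : A, b ∈ kS k of (Set.univ : Set G))
    (gd : GD p D C T H t₀ x₀ e) (ls : LS k of C q β z i x y)
    (ws : WS k of C t₀ e z i w w' c₀) (bd : BD k of lam D C T H β c ε X) (μ : k)
    (hμ : μ ^ e = c₀) :
    HasW i z w q μ (Submodule.span A {ε * (z ^ (q - 1) * i)}) ∧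
      ∀ v : Submodule.span A {ε * (z ^ (q - 1) * i)}, ε • v = v := by
  have hq := ls.q2
  have hzi : ∀ m : ℕ, i * z ^ m = z ^ m * i := fun m =>
    ((show Commute i z from ls.zc i ls.iC).pow_right m).eq
  obtain ⟨h1, h2, h3⟩ := Cfsg.Agent.Lib.H81CycST1.start_vec gd ls ws bd.εc μ hμ
  have h4 := Cfsg.Agent.Lib.H81CycST2.start_lam p hlam hspan gd ls ws bd μ
  have h5 := Cfsg.Agent.Lib.H81CycLNE.lam_socle_ne hlam ls
  constructor
  · refine ⟨⟨(∑ m ∈ Finset.range e, (μ⁻¹) ^ m • w ^ m) * (ε * (z ^ (q - 1) * i)),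
      Submodule.mem_span_singleton.mpr ⟨_, rfl⟩⟩, Subtype.ext h1, Subtype.ext h2, ?_, ?_⟩
    · apply Subtype.ext
      show w * _ = algebraMap k A μ * _
      rw [h3, Algebra.smul_def]
    · rintro ⟨u, hu⟩ huv
      obtain ⟨a, rfl⟩ := Submodule.mem_span_singleton.mp hu
      have h6 : (z ^ (q - 1) * i) * (a * (ε * (z ^ (q - 1) * i)))
          = (∑ m ∈ Finset.range e, (μ⁻¹) ^ m • w ^ m) * (ε * (z ^ (q - 1) * i)) :=
        congrArg Subtype.val huv
      have h7 : lam ((z ^ (q - 1) * i) * (a * (ε * (z ^ (q - 1) * i)))) = 0 := by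
        rw [Cfsg.Agent.Lib.H81CycLNE.lam_symm hlam (hspan _) (hspan _)]
        have e1 : a * (ε * (z ^ (q - 1) * i)) * (z ^ (q - 1) * i) = 0 := by
          have e2 : z ^ (q - 1) * i * (z ^ (q - 1) * i) = 0 := by
            rw [mul_assoc, ← mul_assoc i, hzi, mul_assoc (z ^ (q - 1)) i i, ← mul_assoc, ← pow_add]
            have : q - 1 + (q - 1) = q + (q - 2) := by omega
            rw [this, pow_add, ls.zq, zero_mul, zero_mul]
          rw [mul_assoc a, mul_assoc ε, e2, mul_zero, mul_zero]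
        rw [e1, map_zero]
      rw [h6, h4] at h7
      exact h5 h7
  · rintro ⟨v, hv⟩
    obtain ⟨a, rfl⟩ := Submodule.mem_span_singleton.mp hv
    apply Subtype.ext
    show ε * (a * (ε * (z ^ (q - 1) * i))) = a * (ε * (z ^ (q - 1) * i))
    rw [← mul_assoc, bd.εc a, mul_assoc, ← mul_assoc ε ε, bd.εε]

end Cfsg.Agent.Lib.H81CycST3
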