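import Mathlib
import Cfsg.Agent.Lib.Helper81CycDefs
import Cfsg.Agent.Lib.H81CycKS
import Cfsg.Agent.Lib.Helper98ModB

set_option autoImplicit false

namespace Cfsg.Agent.Lib.H81CycTAU
open Cfsg.Agent.Lib.Helper81CycDefs Cfsg.Agent.Lib.Helper81KulDefs

universe u

variable {k G A : Type*} [Field k] [Group G] [Fintype G] [Ring A] [Algebra k A]
  {of : G →* A} {C : Subgroup G} {q : ℕ} {β z i : A} {n : ℕ}
  {x y : Fin n → A} {p : ℕ} {D T H : Subgroup G} {t₀ x₀ : G} {e : ℕ} {w w' : A} {c₀ : k}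
  {lam : A →ₗ[k] k} {c ε : A} {X : Finset G}

theorem pow_sub_one_eq_zero' {k E : Type*} [Field k] [Ring E] [Algebra k E] (p : ℕ) [Fact p.Prime]
    [CharP k p] (x : E) (n : ℕ) (hx : x ^ p ^ n = 1) : (x - 1) ^ p ^ n = 0 := by
  have h1 : ((Polynomial.X : Polynomial k) - 1) ^ p ^ n = Polynomial.X ^ p ^ n - 1 := by
    rw [sub_pow_char_pow, one_pow]
  have h2 := congrArg (Polynomial.aeval x) h1
  simpa [hx] using h2

/-- piece `M-TAU`: trace functions of pairwise non isomorphic simple modules. -/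
theorem tau_of_simples [IsAlgClosed k] [Module.Finite k A] (p : ℕ) [Fact p.Prime] [CharP k p]
    (hspan : ∀ b : A, b ∈ kS k of (Set.univ : Set G)) (ε : G → k)
    {ι : Type*} [Fintype ι] (I : ι → Submodule A A) (hs : ∀ j, IsSimpleModule A (A ⧸ I j))
    (hε : ∀ j, ∀ v : A ⧸ I j, (∑ g, ε g • of g) • v = v)
    (hne : ∀ j j', j ≠ j' → IsEmpty ((A ⧸ I j) ≃ₗ[A] (A ⧸ I j'))) :
    ∃ τ : ι → G → k, LinearIndependent k τ ∧ (∀ j g h, τ j (h * g * h⁻¹) = τ j g) ∧
      (∀ j s u, Commute s u → (∃ n : ℕ, u ^ p ^ n = 1) → τ j (s * u) = τ j s) ∧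
      (∀ j g, ∑ u, ε u * τ j (u * g) = τ j g) := by
  classical
  have hfin : ∀ i, FiniteDimensional k (A ⧸ I i) := fun i =>
    Module.Finite.of_surjective ((I i).mkQ.restrictScalars k) (Submodule.mkQ_surjective (I i))
  let T : ∀ i, A →ₗ[k] k := fun i =>
    (LinearMap.trace k (A ⧸ I i)).comp (Algebra.lsmul k k (A ⧸ I i)).toLinearMap
  have hT : ∀ i b, T i b = LinearMap.trace k (A ⧸ I i) (Algebra.lsmul k k (A ⧸ I i) b) :=
    fun _ _ => rfl
  have hTcomm : ∀ i b c, T i (b * c) = T i (c * b) := by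
    intro i b c
    rw [hT, hT, map_mul (Algebra.lsmul k k (A ⧸ I i)), map_mul (Algebra.lsmul k k (A ⧸ I i)),
      LinearMap.trace_mul_comm]
  refine ⟨fun i g => T i (of g), ?_, ?_, ?_, ?_⟩
  · rw [Fintype.linearIndependent_iff]
    intro c hc
    have h0 : c = 0 := by
      apply Cfsg.Agent.Lib.Helper98ModB.trace_indep (fun i => A ⧸ I i) hne c
      intro b
      obtain ⟨f, -, rfl⟩ := Cfsg.Agent.Lib.H81CycKS.kS_exists (hspan b)
      have h1 : ∀ i, T i (∑ g, f g • of g) = ∑ g, f g * T i (of g) := by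
        intro i
        rw [map_sum]
        exact Finset.sum_congr rfl fun g _ => by rw [map_smul, smul_eq_mul]
      simp_rw [← hT, h1, Finset.mul_sum]
      rw [Finset.sum_comm]
      apply Finset.sum_eq_zero
      intro g _
      have h2 := congrFun hc g
      simp only [Finset.sum_apply, Pi.smul_apply, smul_eq_mul, Pi.zero_apply] at h2
      calc ∑ i, c i * (f g * T i (of g)) = f g * ∑ i, c i * T i (of g) := by
            rw [Finset.mul_sum]; exact Finset.sum_congr rfl fun i _ => by ring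
        _ = 0 := by rw [h2, mul_zero]
    intro i
    rw [h0]; rfl
  · intro i g h
    change T i (of (h * g * h⁻¹)) = T i (of g)
    rw [map_mul, hTcomm, ← map_mul]
    congr 2
    group
  · rintro i s u hsu ⟨n, hn⟩
    change T i (of (s * u)) = T i (of s)
    rw [← sub_eq_zero, ← map_sub, map_mul]
    have e1 : of s * of u - of s = of s * (of u - 1) := by rw [mul_sub, mul_one]
    rw [e1, hT, map_mul (Algebra.lsmul k k (A ⧸ I i))]
    apply IsNilpotent.eq_zero
    apply LinearMap.isNilpotent_trace_of_isNilpotent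
    apply Commute.isNilpotent_mul_left
    · have hc : Commute (of s) (of u - 1) := by
        apply Commute.sub_right _ (Commute.one_right _)
        exact hsu.map of
      exact hc.map (Algebra.lsmul k k (A ⧸ I i))
    · refine ⟨p ^ n, ?_⟩
      rw [← map_pow, pow_sub_one_eq_zero' (k := k) p (of u) n (by rw [← map_pow, hn, map_one]),
        map_zero]
  · intro i g
    change ∑ u, ε u * T i (of (u * g)) = T i (of g)
    have h1 : ∑ u, ε u * T i (of (u * g)) = T i ((∑ u, ε u • of u) * of g) := by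
      rw [Finset.sum_mul, map_sum]
      exact Finset.sum_congr rfl fun u _ => by rw [smul_mul_assoc, map_smul, smul_eq_mul, map_mul]
    rw [h1, hT, hT]
    congr 1
    apply LinearMap.ext
    intro v
    change ((∑ u, ε u • of u) * of g) • v = of g • v
    rw [mul_smul, hε]

end Cfsg.Agent.Lib.H81CycTAU
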