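import Mathlib
import Cfsg.Agent.Lib.Helper81CycDefs
import Cfsg.Agent.Lib.Helper4ModD

set_option autoImplicit false

namespace Cfsg.Agent.Lib.H81CycLA
open Cfsg.Agent.Lib.Helper81CycDefs Cfsg.Agent.Lib.Helper81KulDefs

universe u

/-- piece `M-LA` (pure linear algebra). -/
theorem no_between' {k V : Type*} [Field k] [AddCommGroup V] [Module k V] [FiniteDimensional k V]
    (X w w' : Module.End k V) (q e : ℕ) (hq : 1 ≤ q) (hX : X ^ q = 0) (hww' : w * w' = 1)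
    (hw'w : w' * w = 1)
    (hr : ∀ (j : ℕ) (v : V), ∃ u, w ((X ^ j) v) = (X ^ j) u)
    (hr' : ∀ (j : ℕ) (v : V), ∃ u, w' ((X ^ j) v) = (X ^ j) u)
    (hk : ∀ v, X v = 0 → X (w v) = 0) (hk' : ∀ v, X v = 0 → X (w' v) = 0) (he : (e : k) ≠ 0)
    (hsc : ∀ π' : Module.End k V, π' * X = X * π' → ∃ μ : k, ∀ v, X v = 0 →
      ∃ s, μ • v - ∑ m ∈ Finset.range e, (w ^ m) (π' ((w' ^ m) v)) = (X ^ (q - 1)) s)
    (W : Submodule k V) (hW1 : ∀ s, (X ^ (q - 1)) s ∈ W) (hW2 : ∀ v ∈ W, X v = 0)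
    (hWw : ∀ v ∈ W, w v ∈ W) (hWw' : ∀ v ∈ W, w' v ∈ W)
    (v₀ : V) (hv₀ : v₀ ∈ W) (hv₀' : ∀ s, (X ^ (q - 1)) s ≠ v₀) (v' : V) (hv' : X v' = 0) :
    v' ∈ W := by
  classical
  set tr : Module.End k V := X ^ (q - 1) with htr
  have hwk' : ∀ (m : ℕ) v, X v = 0 → X ((w' ^ m) v) = 0 := by
    intro m
    induction m with
    | zero => intro v hv; simpa using hv
    | succ m ih =>
      intro v hv
      rw [pow_succ', Module.End.mul_apply]
      exact hk' _ (ih v hv)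
  have hwr : ∀ (m j : ℕ) v, ∃ u, (w ^ m) ((X ^ j) v) = (X ^ j) u := by
    intro m j
    induction m with
    | zero => intro v; exact ⟨v, by simp⟩
    | succ m ih =>
      intro v
      obtain ⟨u, hu⟩ := ih v
      obtain ⟨u', hu'⟩ := hr j u
      exact ⟨u', by rw [pow_succ', Module.End.mul_apply, hu, hu']⟩
  have hwr' : ∀ (m j : ℕ) v, ∃ u, (w' ^ m) ((X ^ j) v) = (X ^ j) u := by
    intro m j
    induction m with
    | zero => intro v; exact ⟨v, by simp⟩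
    | succ m ih =>
      intro v
      obtain ⟨u, hu⟩ := ih v
      obtain ⟨u', hu'⟩ := hr' j u
      exact ⟨u', by rw [pow_succ', Module.End.mul_apply, hu, hu']⟩
  have hWwm : ∀ (m : ℕ), ∀ v ∈ W, (w ^ m) v ∈ W := by
    intro m
    induction m with
    | zero => intro v hv; simpa using hv
    | succ m ih =>
      intro v hv
      rw [pow_succ', Module.End.mul_apply]
      exact hWw _ (ih v hv)
  have hWwm' : ∀ (m : ℕ), ∀ v ∈ W, (w' ^ m) v ∈ W := by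
    intro m
    induction m with
    | zero => intro v hv; simpa using hv
    | succ m ih =>
      intro v hv
      rw [pow_succ', Module.End.mul_apply]
      exact hWw' _ (ih v hv)
  have hcw : Commute w w' := by
    show w * w' = w' * w
    rw [hww', hw'w]
  have hwwm : ∀ m : ℕ, w ^ m * w' ^ m = 1 := fun m => by
    rw [← hcw.mul_pow, hww', one_pow]
  -- the index j
  have hQ : ∃ i : ℕ, ∀ y ∈ W, (∃ s, (X ^ i) s = y) → ∃ s, tr s = y :=
    ⟨q - 1, fun y _ ⟨s, hs⟩ => ⟨s, hs⟩⟩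
  have hi₀ := Nat.find_spec hQ
  have hi₀0 : Nat.find hQ ≠ 0 := by
    intro h0
    rw [h0] at hi₀
    obtain ⟨s, hs⟩ := hi₀ v₀ hv₀ ⟨v₀, by simp⟩
    exact hv₀' s hs
  obtain ⟨j, hj⟩ := Nat.exists_eq_succ_of_ne_zero hi₀0
  have hjmin : ¬ (∀ y ∈ W, (∃ s, (X ^ j) s = y) → ∃ s, tr s = y) :=
    Nat.find_min hQ (by omega)
  have hjp : j + 1 ≤ q - 1 := by
    rw [← Nat.succ_eq_add_one, ← hj]
    exact Nat.find_min' hQ (fun y _ ⟨s, hs⟩ => ⟨s, hs⟩)
  rw [hj] at hi₀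
  push Not at hjmin
  obtain ⟨v₁, hv₁W, ⟨s₁, hs₁⟩, hv₁⟩ := hjmin
  have htr_range : ∀ (i : ℕ), i ≤ q - 1 → ∀ s, ∃ s', tr s = (X ^ i) s' := by
    intro i hi s
    refine ⟨(X ^ (q - 1 - i)) s, ?_⟩
    rw [htr, ← Module.End.mul_apply, ← pow_add]
    congr 2
    omega
  obtain ⟨T, hT⟩ := Submodule.exists_isCompl (LinearMap.range tr)
  set W' : Submodule k V := W ⊓ LinearMap.range (X ^ j) with hW'
  set T₁ : Submodule k V := T ⊓ W' with hT₁
  obtain ⟨π, r, hπX, hπr, hr1, hr2, hr3⟩ := Cfsg.Agent.Lib.Helper4ModD.exists_proj X j T₁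
    (fun t ht => hW2 t ht.2.1) (fun t ht => ht.2.2)
    (fun t ht s hs => by
      obtain ⟨s', hs'⟩ := hi₀ t ht.2.1 ⟨s, hs⟩
      have : t ∈ LinearMap.range tr ⊓ T := ⟨⟨s', hs'⟩, ht.1⟩
      rw [hT.inf_eq_bot] at this
      simpa using this)
  have hdec : ∀ y ∈ W', ∃ s, ∃ t ∈ T₁, y = tr s + t := by
    intro y hy
    have h1 : y ∈ LinearMap.range tr ⊔ T := by rw [hT.sup_eq_top]; trivial
    obtain ⟨y', ⟨s, rfl⟩, t, ht, hyt⟩ := Submodule.mem_sup.mp h1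
    refine ⟨s, t, ⟨ht, ?_⟩, hyt.symm⟩
    have h2 : tr s ∈ W' := by
      refine ⟨hW1 s, ?_⟩
      obtain ⟨s', hs'⟩ := htr_range j (by omega) s
      exact ⟨s', hs'.symm⟩
    have h3 : t = y - tr s := by rw [← hyt]; abel
    rw [h3]
    exact W'.sub_mem hy h2
  have hrtr : ∀ s, r (tr s) = 0 := by
    intro s
    obtain ⟨s', hs'⟩ := htr_range (j + 1) hjp s
    rw [hs', hr2]
  obtain ⟨μ, hμ⟩ := hsc π hπX.symm
  -- the sum lies in W
  have hfW : ∀ v, X v = 0 → ∑ m ∈ Finset.range e, (w ^ m) (π ((w' ^ m) v)) ∈ W := by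
    intro v hv
    apply W.sum_mem
    intro m _
    rw [hπr _ (hwk' m v hv)]
    exact hWwm m _ (hr3 _).2.1
  have hμW : ∀ v, X v = 0 → μ • v ∈ W := by
    intro v hv
    obtain ⟨s, hs⟩ := hμ v hv
    have : μ • v = (X ^ (q - 1)) s + ∑ m ∈ Finset.range e, (w ^ m) (π ((w' ^ m) v)) := by
      rw [← hs]; abel
    rw [this]
    exact W.add_mem (hW1 s) (hfW v hv)
  -- μ = e
  have hv₁X : X v₁ = 0 := hW2 v₁ hv₁W
  have hterm : ∀ m : ℕ, (w ^ m) (π ((w' ^ m) v₁)) - v₁ ∈ LinearMap.range tr := by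
    intro m
    have h1 : (w' ^ m) v₁ ∈ W' := by
      refine ⟨hWwm' m _ hv₁W, ?_⟩
      obtain ⟨u, hu⟩ := hwr' m j s₁
      rw [hs₁] at hu
      exact ⟨u, hu.symm⟩
    obtain ⟨s, t, ht, e1⟩ := hdec _ h1
    rw [hπr _ (hwk' m v₁ hv₁X), e1, map_add, hrtr, zero_add, hr1 t ht]
    have e2 : t = (w' ^ m) v₁ - tr s := by rw [e1]; abel
    rw [e2, map_sub, ← Module.End.mul_apply, hwwm, Module.End.one_apply]
    obtain ⟨u, hu⟩ := hwr m (q - 1) s
    rw [← htr] at hu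
    rw [hu]
    exact ⟨-u, by simp⟩
  have hμe : μ = (e : k) := by
    by_contra hne
    obtain ⟨s, hs⟩ := hμ v₁ hv₁X
    have h2 : (∑ m ∈ Finset.range e, (w ^ m) (π ((w' ^ m) v₁))) - (e : k) • v₁ ∈ LinearMap.range tr := by
      have e3 : (e : k) • v₁ = ∑ m ∈ Finset.range e, v₁ := by
        rw [Finset.sum_const, Finset.card_range, Nat.cast_smul_eq_nsmul]
      rw [e3, ← Finset.sum_sub_distrib]
      exact Submodule.sum_mem _ (fun m _ => hterm m)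
    have h3 : (μ - (e : k)) • v₁ ∈ LinearMap.range tr := by
      have h4 : (μ - (e : k)) • v₁ = (X ^ (q - 1)) s +
          ((∑ m ∈ Finset.range e, (w ^ m) (π ((w' ^ m) v₁))) - (e : k) • v₁) := by
        rw [← hs, sub_smul]; abel
      rw [h4]
      exact Submodule.add_mem _ ⟨s, rfl⟩ h2
    have h5 := Submodule.smul_mem _ (μ - (e : k))⁻¹ h3
    rw [smul_smul, inv_mul_cancel₀ (sub_ne_zero.mpr hne), one_smul] at h5
    obtain ⟨s', hs'⟩ := h5
    exact hv₁ s' hs'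
  have h6 := W.smul_mem μ⁻¹ (hμW v' hv')
  rwa [smul_smul, inv_mul_cancel₀ (by rw [hμe]; exact he), one_smul] at h6

end Cfsg.Agent.Lib.H81CycLA
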