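import Mathlib
import Cfsg.Agent.Lib.Helper81CycDefs
import Cfsg.Agent.Lib.H81CycLA

set_option autoImplicit false

namespace Cfsg.Agent.Lib.H81CycONE
open Cfsg.Agent.Lib.Helper81CycDefs Cfsg.Agent.Lib.Helper81KulDefs

universe u

variable {k G A S : Type*} [Field k] [Group G] [Fintype G] [Ring A] [Algebra k A]
  [AddCommGroup S] [Module k S] {of : G →* A} {C : Subgroup G} {q : ℕ} {β z i : A} {n : ℕ}
  {x y : Fin n → A} {p : ℕ} {D T H : Subgroup G} {t₀ x₀ : G} {e : ℕ} {w w' : A} {c₀ : k}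
  {lam : A →ₗ[k] k} {c ε : A} {X : Finset G}

omit [Group G] [Fintype G] [Ring A] [Algebra k A] in
private theorem coe_pow_restrict {P : Submodule k S} (f : Module.End k S) (h : ∀ x ∈ P, f x ∈ P) (m : ℕ)
    (v : P) : (((f.restrict h) ^ m) v : S) = (f ^ m) (v : S) := by
  induction m generalizing v with
  | zero => rfl
  | succ m ih =>
    rw [pow_succ, Module.End.mul_apply, ih, pow_succ, Module.End.mul_apply]
    rfl

/-- piece `M-ONE`: operator form of `not_two`. -/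
theorem one_type [FiniteDimensional k S] (gd : GD p D C T H t₀ x₀ e)
    (ls : LS k of C q β z i x y)
    (ws : WS k of C t₀ e z i w w' c₀) (he : (e : k) ≠ 0)
    (ρ : A →ₐ[k] Module.End k S)
    (hsc : ∀ π' : Module.End k S, ρ i * π' = π' → π' * ρ i = π' → ρ z * π' = π' * ρ z →
      ∃ μ : k, ∀ v, ρ i v = v → ρ z v = 0 →
      ∃ s, μ • v - ∑ m ∈ Finset.range e, ρ (w ^ m) (π' (ρ (w' ^ m) v))
        = ρ (z ^ (q - 1) * i) s)
    (μ μ' : k) (hne : μ ≠ μ') (v v' : S)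
    (hv1 : ρ i v = v) (hv2 : ρ z v = 0) (hv3 : ρ w v = μ • v)
    (hv4 : ∀ u, ρ (z ^ (q - 1) * i) u ≠ v)
    (hv1' : ρ i v' = v') (hv2' : ρ z v' = 0) (hv3' : ρ w v' = μ' • v')
    (hv4' : ∀ u, ρ (z ^ (q - 1) * i) u ≠ v') : False := by
  have hq1 : q - 1 + 1 = q := by have := ls.q2; omega
  have hiz : i * z = z * i := ls.zc i ls.iC
  have hm : ∀ a b : A, ∀ s : S, ρ a (ρ b s) = ρ (a * b) s := fun a b s => by
    rw [map_mul, Module.End.mul_apply]
  set P : Submodule k S := LinearMap.range (ρ i) with hP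
  have hmem : ∀ s, s ∈ P ↔ ρ i s = s := by
    intro s
    constructor
    · rintro ⟨t, rfl⟩
      rw [hm, ls.ii]
    · intro h
      exact ⟨s, h⟩
  have hzP : ∀ s ∈ P, ρ z s ∈ P := by
    intro s hs
    rw [hmem] at hs ⊢
    rw [hm, hiz, ← hm, hs]
  have hwP : ∀ s ∈ P, ρ w s ∈ P := by
    intro s _
    rw [hmem, hm, ws.iw]
  have hwP' : ∀ s ∈ P, ρ w' s ∈ P := by
    intro s _
    rw [hmem, hm, ws.iw']
  set Xr : Module.End k P := (ρ z).restrict hzP with hXr
  set Wr : Module.End k P := (ρ w).restrict hwP with hWr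
  set Wr' : Module.End k P := (ρ w').restrict hwP' with hWr'
  have cX : ∀ (m : ℕ) (s : P), ((Xr ^ m) s : S) = ρ (z ^ m) (s : S) := fun m s => by
    rw [hXr, coe_pow_restrict, map_pow]
  have cW : ∀ (m : ℕ) (s : P), ((Wr ^ m) s : S) = ρ (w ^ m) (s : S) := fun m s => by
    rw [hWr, coe_pow_restrict, map_pow]
  have cW' : ∀ (m : ℕ) (s : P), ((Wr' ^ m) s : S) = ρ (w' ^ m) (s : S) := fun m s => by
    rw [hWr', coe_pow_restrict, map_pow]
  have cX1 : ∀ s : P, (Xr s : S) = ρ z (s : S) := fun s => rfl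
  have cW1 : ∀ s : P, (Wr s : S) = ρ w (s : S) := fun s => rfl
  have cW1' : ∀ s : P, (Wr' s : S) = ρ w' (s : S) := fun s => rfl
  have hfix : ∀ s : P, ρ i (s : S) = s := fun s => (hmem _).mp s.2
  have hXq : Xr ^ q = 0 := by
    ext s
    rw [cX, ls.zq, map_zero]
    rfl
  have hww' : Wr * Wr' = 1 := by
    ext s
    rw [Module.End.mul_apply, cW1, cW1', hm, ws.ww', hfix]
    rfl
  have hw'w : Wr' * Wr = 1 := by
    ext s
    rw [Module.End.mul_apply, cW1', cW1, hm, ws.w'w, hfix]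
    rfl
  have hr : ∀ (j : ℕ) (s : P), ∃ u, Wr ((Xr ^ j) s) = (Xr ^ j) u := by
    intro j s
    obtain ⟨d, hd⟩ := ws.rz j
    refine ⟨⟨ρ i (ρ d s), ⟨_, rfl⟩⟩, ?_⟩
    apply Subtype.ext
    rw [cW1, cX, cX]
    show ρ w (ρ (z ^ j) (s : S)) = ρ (z ^ j) (ρ i (ρ d (s : S)))
    conv_lhs => rw [← hfix s]
    simp only [hm]
    rw [hd, mul_assoc]
  have hr' : ∀ (j : ℕ) (s : P), ∃ u, Wr' ((Xr ^ j) s) = (Xr ^ j) u := by
    intro j s
    obtain ⟨d, hd⟩ := ws.rz' j
    refine ⟨⟨ρ i (ρ d s), ⟨_, rfl⟩⟩, ?_⟩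
    apply Subtype.ext
    rw [cW1', cX, cX]
    show ρ w' (ρ (z ^ j) (s : S)) = ρ (z ^ j) (ρ i (ρ d (s : S)))
    conv_lhs => rw [← hfix s]
    simp only [hm]
    rw [hd, mul_assoc]
  have hk : ∀ s, Xr s = 0 → Xr (Wr s) = 0 := by
    intro s hs
    obtain ⟨d, hd⟩ := ws.kz
    have hs' : ρ z (s : S) = 0 := congrArg Subtype.val hs
    apply Subtype.ext
    rw [cX1, cW1, hm, hd, ← hm, hs', map_zero]
    rfl
  have hk' : ∀ s, Xr s = 0 → Xr (Wr' s) = 0 := by
    intro s hs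
    obtain ⟨d, hd⟩ := ws.kz'
    have hs' : ρ z (s : S) = 0 := congrArg Subtype.val hs
    apply Subtype.ext
    rw [cX1, cW1', hm, hd, ← hm, hs', map_zero]
    rfl
  have hsc' : ∀ π' : Module.End k P, π' * Xr = Xr * π' → ∃ μ : k, ∀ s, Xr s = 0 →
      ∃ t, μ • s - ∑ m ∈ Finset.range e, (Wr ^ m) (π' ((Wr' ^ m) s)) = (Xr ^ (q - 1)) t := by
    intro π' hπ'
    set Pi0 : Module.End k S := P.subtype ∘ₗ π' ∘ₗ (ρ i).rangeRestrict with hPi0
    have hPi0a : ∀ s : S, Pi0 s = (π' ⟨ρ i s, ⟨s, rfl⟩⟩ : S) := fun s => rfl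
    have hPi0P : ∀ s : P, Pi0 (s : S) = (π' s : S) := by
      intro s
      rw [hPi0a]
      congr 2
      exact Subtype.ext (hfix s)
    obtain ⟨μ₀, hμ₀⟩ := hsc Pi0
      (by
        ext s
        rw [Module.End.mul_apply, hPi0a, hfix])
      (by
        ext s
        rw [Module.End.mul_apply, hPi0a, hPi0a]
        congr 2
        apply Subtype.ext
        show ρ i (ρ i s) = ρ i s
        rw [hm, ls.ii])
      (by
        ext s
        rw [Module.End.mul_apply, Module.End.mul_apply, hPi0a, hPi0a]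
        have h1 := congrArg (fun f => ((f ⟨ρ i s, ⟨s, rfl⟩⟩ : P) : S)) hπ'
        simp only [Module.End.mul_apply] at h1
        rw [cX1] at h1
        rw [← h1]
        congr 2
        apply Subtype.ext
        show ρ z (ρ i s) = ρ i (ρ z s)
        rw [hm, hm, hiz])
    refine ⟨μ₀, fun s hs => ?_⟩
    obtain ⟨t, ht⟩ := hμ₀ (s : S) (hfix s) (congrArg Subtype.val hs)
    refine ⟨⟨ρ i t, ⟨t, rfl⟩⟩, ?_⟩
    apply Subtype.ext
    rw [cX]
    show _ = ρ (z ^ (q - 1)) (ρ i t)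
    rw [hm, ← ht]
    simp only [Submodule.coe_sub, Submodule.coe_smul, Submodule.coe_sum]
    congr 1
    apply Finset.sum_congr rfl
    intro m _
    rw [cW, ← hPi0P, cW']
  -- the subspace
  have hμ0 : μ ≠ 0 := by
    rintro rfl
    rw [zero_smul] at hv3
    have h1 : v = 0 := by
      rw [← hv1, ← ws.w'w, ← hm, hv3, map_zero]
    exact hv4 0 (by rw [map_zero, h1])
  set vP : P := ⟨v, (hmem v).mpr hv1⟩ with hvP
  set vP' : P := ⟨v', (hmem v').mpr hv1'⟩ with hvP'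
  have hXv : Xr vP = 0 := Subtype.ext hv2
  have hWv : Wr vP = μ • vP := Subtype.ext hv3
  have hWv' : Wr' vP = μ⁻¹ • vP := by
    have h1 : Wr' (Wr vP) = vP := by
      rw [← Module.End.mul_apply, hw'w]; rfl
    rw [hWv, map_smul] at h1
    calc Wr' vP = μ⁻¹ • (μ • Wr' vP) := by rw [smul_smul, inv_mul_cancel₀ hμ0, one_smul]
      _ = μ⁻¹ • vP := by rw [h1]
  set Wsub : Submodule k P := LinearMap.range (Xr ^ (q - 1)) ⊔ Submodule.span k {vP} with hWsub
  have hWform : ∀ s ∈ Wsub, ∃ (t : P) (a : k), s = (Xr ^ (q - 1)) t + a • vP := by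
    intro s hs
    obtain ⟨y1, ⟨t, rfl⟩, y2, hy2, rfl⟩ := Submodule.mem_sup.mp hs
    obtain ⟨a, rfl⟩ := Submodule.mem_span_singleton.mp hy2
    exact ⟨t, a, rfl⟩
  have hWof : ∀ (t : P) (a : k), (Xr ^ (q - 1)) t + a • vP ∈ Wsub := fun t a =>
    Submodule.add_mem _ (Submodule.mem_sup_left ⟨t, rfl⟩)
      (Submodule.mem_sup_right (Submodule.smul_mem _ _ (Submodule.mem_span_singleton_self _)))
  have hmain := Cfsg.Agent.Lib.H81CycLA.no_between' Xr Wr Wr' q e (by omega) hXq hww' hw'w hr hr' hk hk' he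
    hsc' Wsub
    (fun s => Submodule.mem_sup_left ⟨s, rfl⟩)
    (by
      intro s hs
      obtain ⟨t, a, rfl⟩ := hWform s hs
      rw [map_add, map_smul, hXv, smul_zero, add_zero, ← Module.End.mul_apply, ← pow_succ', hq1, hXq]
      rfl)
    (by
      intro s hs
      obtain ⟨t, a, rfl⟩ := hWform s hs
      obtain ⟨u, hu⟩ := hr (q - 1) t
      rw [map_add, map_smul, hu, hWv, smul_smul]
      exact hWof _ _)
    (by
      intro s hs
      obtain ⟨t, a, rfl⟩ := hWform s hs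
      obtain ⟨u, hu⟩ := hr' (q - 1) t
      rw [map_add, map_smul, hu, hWv', smul_smul]
      exact hWof _ _)
    vP (by
      have := hWof 0 1
      simpa using this)
    (by
      intro s hs
      apply hv4 (s : S)
      have h1 := congrArg Subtype.val hs
      rw [cX] at h1
      rw [← hm, hfix]
      exact h1)
    vP' (Subtype.ext hv2')
  obtain ⟨t, a, hta⟩ := hWform _ hmain
  have hWv2 : Wr vP' = μ' • vP' := Subtype.ext hv3'
  obtain ⟨u, hu⟩ := hr (q - 1) t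
  have h1 : Wr vP' = (Xr ^ (q - 1)) u + (a * μ) • vP := by
    rw [hta, map_add, map_smul, hu, hWv, smul_smul]
  rw [hWv2, hta, smul_add, smul_smul] at h1
  have h2 : (a * (μ - μ')) • vP = (Xr ^ (q - 1)) (μ' • t - u) := by
    rw [map_sub, map_smul, mul_sub, sub_smul, mul_comm a μ', sub_eq_sub_iff_add_eq_add, h1, add_comm]
  by_cases ha : a = 0
  · rw [ha, zero_smul, add_zero] at hta
    apply hv4' (t : S)
    have h3 := congrArg Subtype.val hta
    rw [cX] at h3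
    rw [← hm, hfix]
    exact h3.symm
  · have h3 : vP = (Xr ^ (q - 1)) ((a * (μ - μ'))⁻¹ • (μ' • t - u)) := by
      rw [map_smul, ← h2, smul_smul, inv_mul_cancel₀ (mul_ne_zero ha (sub_ne_zero.mpr hne)), one_smul]
    apply hv4 (((a * (μ - μ'))⁻¹ • (μ' • t - u) : P) : S)
    have h4 := congrArg Subtype.val h3
    rw [cX] at h4
    rw [← hm, hfix]
    exact h4.symm

end Cfsg.Agent.Lib.H81CycONE
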