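import Mathlib
import Cfsg.Agent.Lib.Helper81CycDefs

set_option autoImplicit false

namespace Cfsg.Agent.Lib.H81CycTS1
open Cfsg.Agent.Lib.Helper81CycDefs Cfsg.Agent.Lib.Helper81KulDefs

universe u



/-- piece `M-TS1` -/
theorem exists_LT {G : Type*} [Group G] [Fintype G] (K L : Subgroup G) (hKL : K ≤ L) :
    ∃ X : Finset G, IsLT X K L := by
  classical
  haveI : Fintype (↥L ⧸ K.subgroupOf L) := Fintype.ofFinite _
  refine ⟨Finset.univ.image (fun q : ↥L ⧸ K.subgroupOf L => ((q.out : ↥L) : G)), ?_, ?_⟩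
  · intro x hx
    obtain ⟨q, -, rfl⟩ := Finset.mem_image.1 hx
    exact q.out.2
  · intro g hg
    refine ⟨((((⟨g, hg⟩ : ↥L) : ↥L ⧸ K.subgroupOf L).out : ↥L) : G),
      ⟨Finset.mem_image_of_mem _ (Finset.mem_univ _), ?_⟩, ?_⟩
    · have h1 : ((((⟨g, hg⟩ : ↥L) : ↥L ⧸ K.subgroupOf L).out : ↥L) : ↥L ⧸ K.subgroupOf L)
          = ((⟨g, hg⟩ : ↥L) : ↥L ⧸ K.subgroupOf L) := QuotientGroup.out_eq' _
      rw [QuotientGroup.eq] at h1
      exact Subgroup.mem_subgroupOf.1 h1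
    · rintro x ⟨hx, hxg⟩
      obtain ⟨q, -, rfl⟩ := Finset.mem_image.1 hx
      have h1 : q = ((⟨g, hg⟩ : ↥L) : ↥L ⧸ K.subgroupOf L) := by
        rw [← QuotientGroup.out_eq' q, QuotientGroup.eq, Subgroup.mem_subgroupOf]
        exact hxg
      rw [h1]

/-- piece `M-TS1` -/
theorem sum_LT_eq {G V : Type*} [Group G] [AddCommMonoid V] {K L : Subgroup G} {X X' : Finset G}
    (hX : IsLT X K L) (hX' : IsLT X' K L) (Ξ : G → V) (hΞ : ∀ g, ∀ κ ∈ K, Ξ (g * κ) = Ξ g) :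
    ∑ x ∈ X, Ξ x = ∑ x ∈ X', Ξ x := by
  have h1 : ∀ x ∈ X, ∃ x' ∈ X', x'⁻¹ * x ∈ K := by
    intro x hx
    obtain ⟨x', ⟨h1, h2⟩, -⟩ := hX'.2 x (hX.1 x hx)
    exact ⟨x', h1, h2⟩
  choose! φ hφ1 hφ2 using h1
  refine Finset.sum_bij (fun x _ => φ x) hφ1 ?_ ?_ ?_
  · intro x1 h1 x2 h2 h12
    obtain ⟨x0, -, hu⟩ := hX.2 x2 (hX.1 x2 h2)
    have e1 : x1 = x0 := by
      apply hu
      refine ⟨h1, ?_⟩
      have : x1⁻¹ * x2 = ((φ x1)⁻¹ * x1)⁻¹ * ((φ x2)⁻¹ * x2) := by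
        rw [h12]; group
      rw [this]
      exact K.mul_mem (K.inv_mem (hφ2 x1 h1)) (hφ2 x2 h2)
    have e2 : x2 = x0 := by
      apply hu
      exact ⟨h2, by rw [inv_mul_cancel]; exact K.one_mem⟩
    rw [e1, e2]
  · intro x' hx'
    obtain ⟨x, ⟨hx, hxK⟩, -⟩ := hX.2 x' (hX'.1 x' hx')
    refine ⟨x, hx, ?_⟩
    obtain ⟨x0, -, hu⟩ := hX'.2 x (hX.1 x hx)
    have e1 : φ x = x0 := hu _ ⟨hφ1 x hx, hφ2 x hx⟩
    have e2 : x' = x0 := by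
      apply hu
      refine ⟨hx', ?_⟩
      have : x'⁻¹ * x = (x⁻¹ * x')⁻¹ := by group
      rw [this]
      exact K.inv_mem hxK
    rw [e1, e2]
  · intro x hx
    have := hΞ (φ x) _ (hφ2 x hx)
    rw [mul_inv_cancel_left] at this
    exact this

end Cfsg.Agent.Lib.H81CycTS1
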