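import Mathlib
import Cfsg.Agent.Lib.Helper81CycDefs
import Cfsg.Agent.Lib.H81CycTS1

set_option autoImplicit false

namespace Cfsg.Agent.Lib.H81CycTS2
open Cfsg.Agent.Lib.Helper81CycDefs Cfsg.Agent.Lib.Helper81KulDefs

universe u



/-- piece `M-TS2` -/
theorem sum_LT_mul_left {G V : Type*} [Group G] [AddCommMonoid V] {K L : Subgroup G}
    {X : Finset G} (hX : IsLT X K L) (Ξ : G → V) (hΞ : ∀ g, ∀ κ ∈ K, Ξ (g * κ) = Ξ g)
    (h : G) (hh : h ∈ L) : ∑ x ∈ X, Ξ (h * x) = ∑ x ∈ X, Ξ x := by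
  classical
  have hinj : Set.InjOn (fun x => h * x) (X : Set G) := fun a _ b _ hab => mul_left_cancel hab
  have hX' : IsLT (X.image (fun x => h * x)) K L := by
    refine ⟨?_, ?_⟩
    · intro x hx
      obtain ⟨x0, hx0, rfl⟩ := Finset.mem_image.1 hx
      exact L.mul_mem hh (hX.1 x0 hx0)
    · intro g hg
      obtain ⟨x0, ⟨h1, h2⟩, hu⟩ := hX.2 (h⁻¹ * g) (L.mul_mem (L.inv_mem hh) hg)
      refine ⟨h * x0, ⟨Finset.mem_image_of_mem _ h1, ?_⟩, ?_⟩
      · have : (h * x0)⁻¹ * g = x0⁻¹ * (h⁻¹ * g) := by group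
        rw [this]; exact h2
      · rintro x ⟨hx, hxg⟩
        obtain ⟨x1, hx1, rfl⟩ := Finset.mem_image.1 hx
        have : x1 = x0 := by
          apply hu
          refine ⟨hx1, ?_⟩
          have e : x1⁻¹ * (h⁻¹ * g) = (h * x1)⁻¹ * g := by group
          rw [e]; exact hxg
        rw [this]
  rw [← Cfsg.Agent.Lib.H81CycTS1.sum_LT_eq hX' hX Ξ hΞ, Finset.sum_image hinj]

/-- piece `M-TS2` (the hypotheses `D ≤ C ≤ L` were added: the statement is false without them) -/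
theorem sum_LT_prod {G V : Type*} [Group G] [AddCommMonoid V] {D C L : Subgroup G}
    {X Y Z : Finset G} (hX : IsLT X D C) (hY : IsLT Y C L) (hZ : IsLT Z D L) (Ξ : G → V)
    (hΞ : ∀ g, ∀ κ ∈ D, Ξ (g * κ) = Ξ g) (hDC : D ≤ C) (hCL : C ≤ L) :
    ∑ g ∈ Z, Ξ g = ∑ y ∈ Y, ∑ x ∈ X, Ξ (y * x) := by
  classical
  have hinj : Set.InjOn (fun yx : G × G => yx.1 * yx.2) ((Y ×ˢ X : Finset (G × G)) : Set (G × G)) := by
    rintro ⟨y1, x1⟩ h1 ⟨y2, x2⟩ h2 h12
    simp only [Finset.coe_product, Set.mem_prod, Finset.mem_coe] at h1 h2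
    simp only at h12
    have hL : y1 * x1 ∈ L := L.mul_mem (hY.1 y1 h1.1) (hCL (hX.1 x1 h1.2))
    obtain ⟨y0, -, hu⟩ := hY.2 _ hL
    have e1 : y1 = y0 := hu _ ⟨h1.1, by rw [inv_mul_cancel_left]; exact hX.1 x1 h1.2⟩
    have e2 : y2 = y0 := hu _ ⟨h2.1, by rw [h12, inv_mul_cancel_left]; exact hX.1 x2 h2.2⟩
    have e3 : y1 = y2 := e1.trans e2.symm
    subst e3
    have e4 : x1 = x2 := mul_left_cancel h12
    rw [e4]
  have hW : IsLT ((Y ×ˢ X).image (fun yx : G × G => yx.1 * yx.2)) D L := by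
    refine ⟨?_, ?_⟩
    · intro g hg
      obtain ⟨⟨y, x⟩, hyx, rfl⟩ := Finset.mem_image.1 hg
      rw [Finset.mem_product] at hyx
      exact L.mul_mem (hY.1 y hyx.1) (hCL (hX.1 x hyx.2))
    · intro g hg
      obtain ⟨y0, ⟨hy0, hy0g⟩, huy⟩ := hY.2 g hg
      obtain ⟨x0, ⟨hx0, hx0g⟩, hux⟩ := hX.2 _ hy0g
      refine ⟨y0 * x0, ⟨Finset.mem_image.2 ⟨(y0, x0), Finset.mem_product.2 ⟨hy0, hx0⟩, rfl⟩, ?_⟩, ?_⟩
      · have : (y0 * x0)⁻¹ * g = x0⁻¹ * (y0⁻¹ * g) := by group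
        rw [this]; exact hx0g
      · rintro w ⟨hw, hwg⟩
        obtain ⟨⟨y, x⟩, hyx, rfl⟩ := Finset.mem_image.1 hw
        rw [Finset.mem_product] at hyx
        simp only at hwg ⊢
        have hy : y = y0 := by
          apply huy
          refine ⟨hyx.1, ?_⟩
          have : y⁻¹ * g = x * ((y * x)⁻¹ * g) := by group
          rw [this]
          exact C.mul_mem (hX.1 x hyx.2) (hDC hwg)
        subst hy
        have hx : x = x0 := by
          apply hux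
          refine ⟨hyx.2, ?_⟩
          have : x⁻¹ * (y⁻¹ * g) = (y * x)⁻¹ * g := by group
          rw [this]; exact hwg
        rw [hx]
  rw [Cfsg.Agent.Lib.H81CycTS1.sum_LT_eq hZ hW Ξ hΞ, Finset.sum_image hinj, Finset.sum_product]

end Cfsg.Agent.Lib.H81CycTS2
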