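import Mathlib
import Cfsg.Agent.Lib.Helper81CycDefs
import Cfsg.Agent.Lib.H81CycTS2

set_option autoImplicit false

namespace Cfsg.Agent.Lib.H81CycCOMM
open Cfsg.Agent.Lib.Helper81CycDefs Cfsg.Agent.Lib.Helper81KulDefs

universe u

variable {k G A S : Type*} [Field k] [Group G] [Fintype G] [Ring A] [Algebra k A]
  [AddCommGroup S] [Module k S] {of : G →* A} {C : Subgroup G} {q : ℕ} {β z i : A} {n : ℕ}
  {x y : Fin n → A}

/-- piece `M-COMM`: the relative trace commutes with `G`. -/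
theorem trG_comm (ρ : A →ₐ[k] Module.End k S) {Y : Finset G} (hY : IsLT Y C ⊤)
    (π₀ : Module.End k S) (hπ : ∀ g ∈ C, ρ (of g) * π₀ = π₀ * ρ (of g)) (g : G) :
    (∑ y ∈ Y, ρ (of y) * π₀ * ρ (of y⁻¹)) * ρ (of g)
      = ρ (of g) * (∑ y ∈ Y, ρ (of y) * π₀ * ρ (of y⁻¹)) := by
  set Ξ : G → Module.End k S := fun y => ρ (of y) * π₀ * ρ (of y⁻¹) with hΞdef
  have hΞ : ∀ g', ∀ κ ∈ C, Ξ (g' * κ) = Ξ g' := by
    intro g' κ hκ
    show ρ (of (g' * κ)) * π₀ * ρ (of (g' * κ)⁻¹) = ρ (of g') * π₀ * ρ (of g'⁻¹)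
    rw [mul_inv_rev, map_mul, map_mul, map_mul, map_mul]
    have h1 : ρ (of κ) * ρ (of κ⁻¹) = 1 := by
      rw [← map_mul, ← map_mul, mul_inv_cancel, map_one, map_one]
    calc ρ (of g') * ρ (of κ) * π₀ * (ρ (of κ⁻¹) * ρ (of g'⁻¹))
        = ρ (of g') * (ρ (of κ) * π₀) * ρ (of κ⁻¹) * ρ (of g'⁻¹) := by simp only [mul_assoc]
      _ = ρ (of g') * (π₀ * ρ (of κ)) * ρ (of κ⁻¹) * ρ (of g'⁻¹) := by rw [hπ κ hκ]
      _ = ρ (of g') * π₀ * (ρ (of κ) * ρ (of κ⁻¹)) * ρ (of g'⁻¹) := by simp only [mul_assoc]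
      _ = ρ (of g') * π₀ * ρ (of g'⁻¹) := by rw [h1, mul_one]
  have h2 := Cfsg.Agent.Lib.H81CycTS2.sum_LT_mul_left hY Ξ hΞ g (Subgroup.mem_top g)
  have h3 : ∀ y, Ξ (g * y) = ρ (of g) * Ξ y * ρ (of g⁻¹) := by
    intro y
    show ρ (of (g * y)) * π₀ * ρ (of (g * y)⁻¹) = ρ (of g) * (ρ (of y) * π₀ * ρ (of y⁻¹)) * ρ (of g⁻¹)
    rw [mul_inv_rev, map_mul, map_mul, map_mul, map_mul]
    simp only [mul_assoc]
  have h4 : ρ (of g⁻¹) * ρ (of g) = 1 := by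
    rw [← map_mul, ← map_mul, inv_mul_cancel, map_one, map_one]
  show (∑ y ∈ Y, Ξ y) * ρ (of g) = ρ (of g) * ∑ y ∈ Y, Ξ y
  conv_lhs => rw [← h2]
  rw [Finset.sum_congr rfl (fun y _ => h3 y), ← Finset.sum_mul, ← Finset.mul_sum, mul_assoc, h4,
    mul_one]

end Cfsg.Agent.Lib.H81CycCOMM
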