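import Mathlib
import Cfsg.Agent.Lib.Helper81CycDefs
import Cfsg.Agent.Lib.H81CycKS

set_option autoImplicit false

namespace Cfsg.Agent.Lib.H81CycEXT
open Cfsg.Agent.Lib.Helper81CycDefs Cfsg.Agent.Lib.Helper81KulDefs Cfsg.Agent.Lib.H81CycKS

universe u

variable {k G A S : Type*} [Field k] [Group G] [Fintype G] [Ring A] [Algebra k A]
  [AddCommGroup S] [Module k S] {of : G →* A} {C : Subgroup G} {q : ℕ} {β z i : A} {n : ℕ}
  {x y : Fin n → A}

omit [Fintype G] in
theorem kC_mul {a b : A} (ha : a ∈ kS k of (C : Set G)) (hb : b ∈ kS k of (C : Set G)) :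
    a * b ∈ kS k of (C : Set G) :=
  kS_mul (fun _ hx _ hy => C.mul_mem hx hy) ha hb

omit [Fintype G] in
/-- corner elements commute with `π'`. -/
theorem corner_comm (ls : LS k of C q β z i x y) (ρ : A →ₐ[k] Module.End k S)
    (π' : Module.End k S) (h1 : ρ i * π' = π') (h2 : π' * ρ i = π') (h3 : ρ z * π' = π' * ρ z)
    {c : A} (hc : c ∈ kS k of (C : Set G)) : π' * ρ (i * c * i) = ρ (i * c * i) * π' := by
  obtain ⟨r, hr⟩ := ls.cor c hc
  have hz : ∀ m : ℕ, ρ z ^ m * π' = π' * ρ z ^ m := fun m =>
    ((show Commute (ρ z) π' from h3).pow_left m)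
  rw [hr, map_sum, Finset.mul_sum, Finset.sum_mul]
  apply Finset.sum_congr rfl
  intro m _
  rw [map_smul, map_mul, map_pow, mul_smul_comm, smul_mul_assoc]
  congr 1
  rw [mul_assoc, h1, ← mul_assoc, ← hz m, mul_assoc, h2]

set_option linter.unusedFintypeInType false in
set_option linter.unusedSectionVars false in
/-- piece `M-EXT`: extension of a `k[z]`-endomorphism of `i S` to a `k C`-endomorphism. -/
theorem ext_props (ls : LS k of C q β z i x y) (ρ : A →ₐ[k] Module.End k S)
    (π' : Module.End k S) (h1 : ρ i * π' = π') (h2 : π' * ρ i = π') (h3 : ρ z * π' = π' * ρ z) :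
    (∀ a ∈ kS k of (C : Set G), ρ a * (∑ s, ρ (x s) * π' * ρ (y s))
        = (∑ s, ρ (x s) * π' * ρ (y s)) * ρ a) ∧
      ρ β * (∑ s, ρ (x s) * π' * ρ (y s)) = ∑ s, ρ (x s) * π' * ρ (y s) ∧
      (∑ s, ρ (x s) * π' * ρ (y s)) * ρ β = ∑ s, ρ (x s) * π' * ρ (y s) ∧
      ∀ v, ρ i v = v → (∑ s, ρ (x s) * π' * ρ (y s)) v = π' v := by
  have hcc := fun {c : A} (hc : c ∈ kS k of (C : Set G)) => corner_comm ls ρ π' h1 h2 h3 hc
  -- `β x_r i = x_r i`
  have hβx : ∀ r, β * x r * i = x r * i := by
    intro r
    rw [← ls.βc (x r) (ls.xC r), mul_assoc, ls.βi]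
  have c1 : ∀ a ∈ kS k of (C : Set G), ρ a * (∑ s, ρ (x s) * π' * ρ (y s))
        = (∑ s, ρ (x s) * π' * ρ (y s)) * ρ a := by
    intro a ha
    -- `π' ρ(y_s a) = Σ_r ρ(i y_s a x_r i) π' ρ(y_r)`
    have e1 : ∀ s, π' * ρ (y s * a) = ∑ r, ρ (i * (y s * a * x r) * i) * π' * ρ (y r) := by
      intro s
      have hya : y s * a ∈ kS k of (C : Set G) := kC_mul (ls.yC s) ha
      have e2 : i * (y s * a) = ∑ r, (i * (y s * a * x r) * i) * y r := by
        have : i * (y s * a) = i * (y s * a) * β := by
          symm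
          calc i * (y s * a) * β = i * ((y s * a) * β) := mul_assoc _ _ _
            _ = i * (β * (y s * a)) := by rw [ls.βc _ hya]
            _ = (i * β) * (y s * a) := (mul_assoc _ _ _).symm
            _ = (β * i) * (y s * a) := by rw [ls.βc i ls.iC]
            _ = i * (y s * a) := by rw [ls.βi]
        rw [this]
        conv_lhs => rw [ls.dec]
        rw [Finset.mul_sum]
        apply Finset.sum_congr rfl
        intro r _
        simp only [mul_assoc]
      calc π' * ρ (y s * a) = π' * ρ (i * (y s * a)) := by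
            rw [map_mul ρ i, ← mul_assoc, h2]
        _ = ∑ r, π' * ρ (i * (y s * a * x r) * i) * ρ (y r) := by
            rw [e2, map_sum, Finset.mul_sum]
            apply Finset.sum_congr rfl
            intro r _
            rw [map_mul ρ _ (y r)]
            exact (mul_assoc _ _ _).symm
        _ = ∑ r, ρ (i * (y s * a * x r) * i) * π' * ρ (y r) := by
            apply Finset.sum_congr rfl
            intro r _
            rw [hcc (kC_mul hya (ls.xC r))]
    calc ρ a * (∑ s, ρ (x s) * π' * ρ (y s))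
        = ∑ r, ρ (β * a * x r * i) * π' * ρ (y r) := by
          rw [Finset.mul_sum]
          apply Finset.sum_congr rfl
          intro r _
          have : β * a * x r * i = a * (x r * i) := by
            rw [← ls.βc a ha, mul_assoc a β, mul_assoc a, hβx r]
          have e3 : ρ (a * (x r * i)) * π' = ρ a * (ρ (x r) * π') := by
            rw [map_mul, map_mul, mul_assoc, mul_assoc, h1]
          rw [this, e3]
          simp only [mul_assoc]
      _ = ∑ r, ∑ s, ρ (x s) * (ρ (i * (y s * a * x r) * i) * π' * ρ (y r)) := by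
          apply Finset.sum_congr rfl
          intro r _
          conv_lhs => rw [ls.dec]
          simp only [Finset.sum_mul, map_sum]
          apply Finset.sum_congr rfl
          intro s _
          rw [← mul_assoc, ← mul_assoc, ← map_mul]
          simp only [mul_assoc]
      _ = ∑ s, ∑ r, ρ (x s) * (ρ (i * (y s * a * x r) * i) * π' * ρ (y r)) := Finset.sum_comm
      _ = (∑ s, ρ (x s) * π' * ρ (y s)) * ρ a := by
          rw [Finset.sum_mul]
          apply Finset.sum_congr rfl
          intro s _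
          rw [← Finset.mul_sum, ← e1 s, map_mul]
          simp only [mul_assoc]
  have c2 : ρ β * (∑ s, ρ (x s) * π' * ρ (y s)) = ∑ s, ρ (x s) * π' * ρ (y s) := by
    rw [Finset.mul_sum]
    apply Finset.sum_congr rfl
    intro s _
    have : ρ β * (ρ (x s) * π') = ρ (x s) * π' := by
      conv_lhs => rw [← h1]
      rw [← mul_assoc, ← mul_assoc, ← map_mul, ← map_mul, hβx s, map_mul, mul_assoc, h1]
    rw [← mul_assoc, this]
  refine ⟨c1, c2, ?_, ?_⟩
  · rw [← c1 β ls.βC, c2]
  · intro v hv
    have e : (∑ s, ρ (x s) * π' * ρ (y s)) * ρ i = π' := by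
      rw [Finset.sum_mul]
      calc ∑ s, ρ (x s) * π' * ρ (y s) * ρ i
          = ∑ s, ρ (x s * i * y s) * π' := by
            apply Finset.sum_congr rfl
            intro s _
            have : π' * ρ (y s) * ρ i = ρ (i * y s * i) * π' := by
              rw [← hcc (ls.yC s), map_mul, map_mul, ← mul_assoc, ← mul_assoc, h2]
            rw [mul_assoc, mul_assoc, ← mul_assoc π', this, map_mul ρ (i * y s) i, mul_assoc _ (ρ i), h1,
              ← mul_assoc, ← map_mul]
            simp only [mul_assoc]
        _ = π' := by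
            rw [← Finset.sum_mul, ← map_sum, ← ls.dec]
            conv_lhs => rw [← h1]
            rw [← mul_assoc, ← map_mul, ls.βi, h1]
    conv_lhs => rw [← hv]
    rw [← Module.End.mul_apply, e]

end Cfsg.Agent.Lib.H81CycEXT
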