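import Mathlib
import Cfsg.Agent.Lib.Helper81CycDefs

set_option autoImplicit false

namespace Cfsg.Agent.Lib.H81CycFAR1
open Cfsg.Agent.Lib.Helper81CycDefs Cfsg.Agent.Lib.Helper81KulDefs

universe u

variable {k G A S : Type*} [Field k] [Group G] [Fintype G] [Ring A] [Algebra k A]
  [AddCommGroup S] [Module k S] {of : G →* A} {C : Subgroup G} {q : ℕ} {β z i : A} {n : ℕ}
  {x y : Fin n → A}

variable {p : ℕ} {D T H : Subgroup G} {t₀ x₀ : G} {e : ℕ} {w w' : A} {c₀ : k}

/-- piece `M-FAR1` (pure): sums over a free action. -/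
theorem free_orbit_sum {D Ω V : Type*} [Group D] [Fintype D] [Fintype Ω] [MulAction D Ω]
    [AddCommMonoid V] (r : D → V → V) (hr : ∀ d d' v, r (d * d') v = r d (r d' v))
    (hfree : ∀ (d : D) (ω : Ω), d • ω = ω → d = 1) (Φ : Ω → V)
    (hΦ : ∀ d ω, Φ (d • ω) = r d (Φ ω)) (hadd : ∀ d a b, r d (a + b) = r d a + r d b)
    (h0 : ∀ d, r d 0 = 0) : ∃ s : V, ∑ ω, Φ ω = ∑ d, r d s := by
  classical
  let Q := MulAction.orbitRel.Quotient D Ω
  let R : D → V →+ V := fun d => ⟨⟨r d, h0 d⟩, hadd d⟩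
  have key : ∀ o : Q, ∑ ω ∈ Finset.univ.filter (fun ω : Ω => (Quotient.mk'' ω : Q) = o), Φ ω
      = ∑ d, r d (Φ o.out) := by
    intro o
    symm
    apply Finset.sum_bij (fun (d : D) _ => d • o.out)
    · intro d _
      rw [Finset.mem_filter]
      refine ⟨Finset.mem_univ _, ?_⟩
      have h1 : (Quotient.mk'' (d • o.out) : Q) = Quotient.mk'' o.out := by
        apply Quotient.sound'
        exact (MulAction.orbitRel_apply).mpr (MulAction.mem_orbit _ d)
      rw [h1]
      exact Quotient.out_eq' o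
    · intro d _ d' _ h
      have h1 : (d'⁻¹ * d) • o.out = o.out := by
        rw [mul_smul, h, inv_smul_smul]
      have h2 := hfree _ _ h1
      exact (inv_mul_eq_one.mp h2).symm
    · intro ω hω
      rw [Finset.mem_filter] at hω
      have h1 : (Quotient.mk'' ω : Q) = Quotient.mk'' o.out := by
        rw [hω.2]; exact (Quotient.out_eq' o).symm
      have h2 := Quotient.exact' h1
      have h3 : ω ∈ MulAction.orbit D o.out := (MulAction.orbitRel_apply).mp h2
      obtain ⟨d, hd⟩ := h3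
      exact ⟨d, Finset.mem_univ _, hd⟩
    · intro d _
      exact (hΦ d _).symm
  refine ⟨∑ o : Q, Φ o.out, ?_⟩
  rw [← Finset.sum_fiberwise Finset.univ (fun ω : Ω => (Quotient.mk'' ω : Q)) Φ]
  rw [Finset.sum_congr rfl (fun o _ => key o), Finset.sum_comm]
  apply Finset.sum_congr rfl
  intro d _
  exact (map_sum (R d) (fun o : Q => Φ o.out) Finset.univ).symm

end Cfsg.Agent.Lib.H81CycFAR1
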