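import Mathlib
import Cfsg.Agent.Lib.Helper81CycDefs
import Cfsg.Agent.Lib.H81CycFAR1

set_option autoImplicit false

namespace Cfsg.Agent.Lib.H81CycFAR2
open Cfsg.Agent.Lib.Helper81CycDefs Cfsg.Agent.Lib.Helper81KulDefs

universe u

variable {k G A S : Type*} [Field k] [Group G] [Fintype G] [Ring A] [Algebra k A]
  [AddCommGroup S] [Module k S] {of : G →* A} {C : Subgroup G} {q : ℕ} {β z i : A} {n : ℕ}
  {x y : Fin n → A}

variable {p : ℕ} {D T H : Subgroup G} {t₀ x₀ : G} {e : ℕ} {w w' : A} {c₀ : k}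

/-- the cosets outside `H` -/
def far (D H : Subgroup G) (hDH : D ≤ H) : SubMulAction D (G ⧸ D) where
  carrier := {q | ∀ g : G, (g : G ⧸ D) = q → g ∉ H}
  smul_mem' := by
    intro d q hq g hg hgH
    apply hq ((d : G)⁻¹ * g)
    · have : (((d : G)⁻¹ * g : G) : G ⧸ D) = (d : G)⁻¹ • (g : G ⧸ D) := rfl
      rw [this, hg]
      exact inv_smul_smul (d : G) q
    · exact H.mul_mem (H.inv_mem (hDH d.2)) hgH

/-- piece `M-FAR2`: the far part of a trace from `D` is, after multiplication by a `D`-fixed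
element, a trace from `1` to `D`. -/
theorem far_free (ρ : A →ₐ[k] Module.End k S) {Z : Finset G} (hZ : IsLT Z D ⊤)
    (hTI : ∀ g, g ∉ H → ∀ d ∈ D, g * d * g⁻¹ ∈ D → d = 1) (hDH : D ≤ H)
    (γ cc : Module.End k S) (hγ : ∀ d ∈ D, ρ (of d) * γ = γ * ρ (of d))
    (hc : ∀ d ∈ D, ρ (of d) * cc = cc * ρ (of d)) :
    ∃ γ' : Module.End k S,
      cc * (open Classical in ∑ g ∈ Z.filter (fun g => g ∉ H), ρ (of g) * γ * ρ (of g⁻¹))
        = (open Classical in ∑ d : G, if d ∈ D then ρ (of d) * γ' * ρ (of d⁻¹) else 0) := by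
  classical
  have hρinv : ∀ g : G, ρ (of g) * ρ (of g⁻¹) = 1 := fun g => by
    rw [← map_mul, ← map_mul, mul_inv_cancel, map_one, map_one]
  have hρinv' : ∀ g : G, ρ (of g⁻¹) * ρ (of g) = 1 := fun g => by
    rw [← map_mul, ← map_mul, inv_mul_cancel, map_one, map_one]
  let F : G → Module.End k S := fun g => ρ (of g) * γ * ρ (of g⁻¹)
  have hF : ∀ g u, u ∈ D → F (g * u) = F g := by
    intro g u hu
    simp only [F, map_mul, mul_inv_rev]
    calc ρ (of g) * ρ (of u) * γ * (ρ (of u⁻¹) * ρ (of g⁻¹))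
        = ρ (of g) * (ρ (of u) * γ * ρ (of u⁻¹)) * ρ (of g⁻¹) := by simp only [mul_assoc]
      _ = _ := by rw [hγ u hu, mul_assoc γ, hρinv, mul_one]
  let Ft : G ⧸ D → Module.End k S := fun q => Quotient.liftOn' q F (fun a b hab => by
    rw [QuotientGroup.leftRel_apply] at hab
    have := hF a (a⁻¹ * b) hab
    simpa using this.symm)
  have hFt : ∀ g : G, Ft (g : G ⧸ D) = F g := fun g => rfl
  have hconj : ∀ (h : G) (q : G ⧸ D), Ft (h • q) = ρ (of h) * Ft q * ρ (of h⁻¹) := by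
    intro h q
    induction q using QuotientGroup.induction_on with
    | H g =>
      rw [hFt]
      change Ft ((h * g : G) : G ⧸ D) = _
      rw [hFt]
      simp [F, mul_assoc]
  let _ : Fintype (far D H hDH) := Fintype.ofFinite _
  obtain ⟨s, hs⟩ := Cfsg.Agent.Lib.H81CycFAR1.free_orbit_sum (D := D) (Ω := far D H hDH)
    (V := Module.End k S) (fun d f => ρ (of (d : G)) * f * ρ (of (d : G)⁻¹))
    (by
      intro d d' v
      simp only [Subgroup.coe_mul, map_mul, mul_inv_rev, mul_assoc])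
    (by
      rintro d ⟨q, hq⟩ hd
      have hd' : (d : G) • q = q := congrArg Subtype.val hd
      induction q using QuotientGroup.induction_on with
      | H g =>
        have hg : g ∉ H := hq g rfl
        have h1 : (((d : G) * g : G) : G ⧸ D) = (g : G ⧸ D) := hd'
        rw [QuotientGroup.eq] at h1
        have h2 : g⁻¹ * (d : G) * (g⁻¹)⁻¹ ∈ D := by
          have := D.inv_mem h1
          simpa [mul_assoc] using this
        have h3 := hTI g⁻¹ (fun h => hg (by simpa using H.inv_mem h)) d d.2 h2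
        exact Subtype.ext h3)
    (fun ω => cc * Ft ω.1)
    (by
      rintro d ⟨q, hq⟩
      change cc * Ft ((d : G) • q) = ρ (of (d : G)) * (cc * Ft q) * ρ (of (d : G)⁻¹)
      rw [hconj, ← mul_assoc (ρ (of (d : G))), hc d d.2]
      simp only [mul_assoc])
    (by intro d a b; rw [mul_add, add_mul])
    (by intro d; rw [mul_zero, zero_mul])
  refine ⟨s, ?_⟩
  have e1 : (∑ d : G, if d ∈ D then ρ (of d) * s * ρ (of d⁻¹) else 0)
      = ∑ d : D, ρ (of (d : G)) * s * ρ (of (d : G)⁻¹) := by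
    rw [← Finset.sum_filter]
    exact Finset.sum_subtype (Finset.univ.filter (· ∈ D)) (by simp)
      (fun g => ρ (of g) * s * ρ (of g⁻¹))
  rw [e1, ← hs, Finset.mul_sum]
  refine Finset.sum_bij (fun g hg => (⟨(g : G ⧸ D), ?_⟩ : far D H hDH)) ?_ ?_ ?_ ?_
  · intro g' hg' hH
    have h1 : g ∉ H := (Finset.mem_filter.mp hg).2
    apply h1
    rw [QuotientGroup.eq] at hg'
    have : g = g' * (g'⁻¹ * g) := by group
    rw [this]
    exact H.mul_mem hH (hDH hg')
  · intro g hg
    exact Finset.mem_univ _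
  · intro g hg g' hg' h
    have h1 : (g : G ⧸ D) = (g' : G ⧸ D) := congrArg Subtype.val h
    rw [QuotientGroup.eq] at h1
    obtain ⟨x, -, hx⟩ := hZ.2 g' (Subgroup.mem_top _)
    have e2 := hx g ⟨(Finset.mem_filter.mp hg).1, h1⟩
    have e3 := hx g' ⟨(Finset.mem_filter.mp hg').1, by simp⟩
    rw [e2, e3]
  · rintro ⟨q, hq⟩ -
    induction q using QuotientGroup.induction_on with
    | H g =>
      obtain ⟨x, ⟨hxZ, hx⟩, -⟩ := hZ.2 g (Subgroup.mem_top _)
      have h1 : (x : G ⧸ D) = (g : G ⧸ D) := QuotientGroup.eq.mpr hx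
      refine ⟨x, Finset.mem_filter.mpr ⟨hxZ, hq x h1⟩, ?_⟩
      exact Subtype.ext h1
  · intro g hg
    rfl

end Cfsg.Agent.Lib.H81CycFAR2
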