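import Mathlib
import Cfsg.Agent.Lib.Helper81CycDefs
import Cfsg.Agent.Lib.H81CycTS2

set_option autoImplicit false

namespace Cfsg.Agent.Lib.H81CycFAR3
open Cfsg.Agent.Lib.Helper81CycDefs Cfsg.Agent.Lib.Helper81KulDefs

universe u

variable {k G A S : Type*} [Field k] [Group G] [Fintype G] [Ring A] [Algebra k A]
  [AddCommGroup S] [Module k S] {of : G →* A} {C : Subgroup G} {q : ℕ} {β z i : A} {n : ℕ}
  {x y : Fin n → A}

variable {p : ℕ} {D T H : Subgroup G} {t₀ x₀ : G} {e : ℕ} {w w' : A} {c₀ : k}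

/-- piece `M-FAR3`: the far part commutes with `H`. -/
theorem far_comm (ρ : A →ₐ[k] Module.End k S) {Z : Finset G} (hZ : IsLT Z D ⊤)
    (γ : Module.End k S) (hγ : ∀ d ∈ D, ρ (of d) * γ = γ * ρ (of d)) (h : G) (hh : h ∈ H) (hDH : D ≤ H) :
    ρ (of h) * (open Classical in ∑ g ∈ Z.filter (fun g => g ∉ H), ρ (of g) * γ * ρ (of g⁻¹))
      = (open Classical in ∑ g ∈ Z.filter (fun g => g ∉ H), ρ (of g) * γ * ρ (of g⁻¹))
        * ρ (of h) := by
  classical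
  set Ξ : G → Module.End k S := fun g => if g ∉ H then ρ (of g) * γ * ρ (of g⁻¹) else 0 with hΞdef
  have hmemH : ∀ g', ∀ κ ∈ D, (g' * κ ∉ H ↔ g' ∉ H) := by
    intro g' κ hκ
    rw [not_iff_not]
    exact H.mul_mem_cancel_right (hDH hκ)
  have hΞ : ∀ g', ∀ κ ∈ D, Ξ (g' * κ) = Ξ g' := by
    intro g' κ hκ
    show (if g' * κ ∉ H then ρ (of (g' * κ)) * γ * ρ (of (g' * κ)⁻¹) else 0) =
      if g' ∉ H then ρ (of g') * γ * ρ (of g'⁻¹) else 0
    by_cases hg : g' ∉ H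
    · rw [if_pos hg, if_pos ((hmemH g' κ hκ).mpr hg)]
      rw [mul_inv_rev, map_mul, map_mul, map_mul, map_mul]
      have h1 : ρ (of κ) * ρ (of κ⁻¹) = 1 := by
        rw [← map_mul, ← map_mul, mul_inv_cancel, map_one, map_one]
      calc ρ (of g') * ρ (of κ) * γ * (ρ (of κ⁻¹) * ρ (of g'⁻¹))
          = ρ (of g') * (ρ (of κ) * γ) * ρ (of κ⁻¹) * ρ (of g'⁻¹) := by simp only [mul_assoc]
        _ = ρ (of g') * (γ * ρ (of κ)) * ρ (of κ⁻¹) * ρ (of g'⁻¹) := by rw [hγ κ hκ]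
        _ = ρ (of g') * γ * (ρ (of κ) * ρ (of κ⁻¹)) * ρ (of g'⁻¹) := by simp only [mul_assoc]
        _ = ρ (of g') * γ * ρ (of g'⁻¹) := by rw [h1, mul_one]
    · rw [if_neg hg, if_neg (fun h' => hg ((hmemH g' κ hκ).mp h'))]
  have h2 := Cfsg.Agent.Lib.H81CycTS2.sum_LT_mul_left hZ Ξ hΞ h (Subgroup.mem_top h)
  have h3 : ∀ y, Ξ (h * y) = ρ (of h) * Ξ y * ρ (of h⁻¹) := by
    intro y
    show (if h * y ∉ H then ρ (of (h * y)) * γ * ρ (of (h * y)⁻¹) else 0) =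
      ρ (of h) * (if y ∉ H then ρ (of y) * γ * ρ (of y⁻¹) else 0) * ρ (of h⁻¹)
    have hiff : h * y ∉ H ↔ y ∉ H := by
      rw [not_iff_not]
      exact H.mul_mem_cancel_left hh
    by_cases hy : y ∉ H
    · rw [if_pos hy, if_pos (hiff.mpr hy), mul_inv_rev, map_mul, map_mul, map_mul, map_mul]
      simp only [mul_assoc]
    · rw [if_neg hy, if_neg (fun h' => hy (hiff.mp h')), mul_zero, zero_mul]
  have h4 : ρ (of h⁻¹) * ρ (of h) = 1 := by
    rw [← map_mul, ← map_mul, inv_mul_cancel, map_one, map_one]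
  have hsum : ∑ g ∈ Z.filter (fun g => g ∉ H), ρ (of g) * γ * ρ (of g⁻¹) = ∑ g ∈ Z, Ξ g := by
    rw [Finset.sum_filter]
  rw [hsum]
  conv_rhs => rw [← h2]
  rw [Finset.sum_congr rfl (fun y _ => h3 y), ← Finset.sum_mul, ← Finset.mul_sum, mul_assoc, h4,
    mul_one]

end Cfsg.Agent.Lib.H81CycFAR3
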