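import Mathlib
import Cfsg.Agent.Lib.Helper81CycDefs
import Cfsg.Agent.Lib.H81CycTS2

set_option autoImplicit false

namespace Cfsg.Agent.Lib.H81CycFAR4
open Cfsg.Agent.Lib.Helper81CycDefs Cfsg.Agent.Lib.Helper81KulDefs

universe u

variable {k G A S : Type*} [Field k] [Group G] [Fintype G] [Ring A] [Algebra k A]
  [AddCommGroup S] [Module k S] {of : G →* A} {C : Subgroup G} {q : ℕ} {β z i : A} {n : ℕ}
  {x y : Fin n → A}

variable {p : ℕ} {D T H : Subgroup G} {t₀ x₀ : G} {e : ℕ} {w w' : A} {c₀ : k}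

/-- piece `M-FAR4`: from cosets of `C` to cosets of `D`. -/
theorem far_conv (ρ : A →ₐ[k] Module.End k S) {X Y Z : Finset G} (hX : IsLT X D C)
    (hY : IsLT Y C ⊤) (hZ : IsLT Z D ⊤) (hCH : C ≤ H) {β c : A}
    (hctr : β = ∑ x ∈ X, of x * c * of x⁻¹)
    (π₀ : Module.End k S) (hπ : ∀ g ∈ C, ρ (of g) * π₀ = π₀ * ρ (of g)) (hπβ : π₀ * ρ β = π₀)
    (hcD : ∀ d ∈ D, of d * c = c * of d) (hDC : D ≤ C) :
    (open Classical in ∑ y ∈ Y.filter (fun y => y ∉ H), ρ (of y) * π₀ * ρ (of y⁻¹))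
      = (open Classical in ∑ g ∈ Z.filter (fun g => g ∉ H),
          ρ (of g) * (π₀ * ρ c) * ρ (of g⁻¹)) := by
  classical
  set Ξ : G → Module.End k S := fun g => if g ∉ H then ρ (of g) * (π₀ * ρ c) * ρ (of g⁻¹) else 0
    with hΞdef
  have hΞ : ∀ g, ∀ κ ∈ D, Ξ (g * κ) = Ξ g := by
    intro g κ hκ
    have hκH : κ ∈ H := hCH (hDC hκ)
    have h1 : g * κ ∉ H ↔ g ∉ H := by
      rw [not_iff_not]
      exact Subgroup.mul_mem_cancel_right H hκH
    simp only [hΞdef]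
    by_cases hg : g ∉ H
    · rw [if_pos hg, if_pos (h1.2 hg)]
      have h2 : ρ (of κ) * (π₀ * ρ c) * ρ (of κ⁻¹) = π₀ * ρ c := by
        rw [← mul_assoc, hπ κ (hDC hκ), mul_assoc, mul_assoc, ← map_mul, ← map_mul, ← mul_assoc,
          hcD κ hκ, mul_assoc, ← map_mul, mul_inv_cancel, map_one, mul_one]
      rw [mul_inv_rev, map_mul, map_mul, map_mul, map_mul]
      calc ρ (of g) * ρ (of κ) * (π₀ * ρ c) * (ρ (of κ⁻¹) * ρ (of g⁻¹))
          = ρ (of g) * (ρ (of κ) * (π₀ * ρ c) * ρ (of κ⁻¹)) * ρ (of g⁻¹) := by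
            simp only [mul_assoc]
        _ = _ := by rw [h2]
    · rw [if_neg hg, if_neg (fun h => hg (h1.1 h))]
  have hπ₀ : π₀ = ∑ x ∈ X, ρ (of x) * (π₀ * ρ c) * ρ (of x⁻¹) := by
    conv_lhs => rw [← hπβ, hctr, map_sum, Finset.mul_sum]
    refine Finset.sum_congr rfl fun x hx => ?_
    rw [map_mul, map_mul, ← mul_assoc, ← mul_assoc, ← hπ x (hX.1 x hx)]
    simp only [mul_assoc]
  rw [Finset.sum_filter, Finset.sum_filter]
  have h3 := H81CycTS2.sum_LT_prod hX hY hZ Ξ hΞ hDC le_top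
  have h4 : ∑ g ∈ Z, (if g ∉ H then ρ (of g) * (π₀ * ρ c) * ρ (of g⁻¹) else 0) = ∑ g ∈ Z, Ξ g := rfl
  rw [h4, h3]
  refine Finset.sum_congr rfl fun y _ => ?_
  by_cases hy : y ∉ H
  · rw [if_pos hy]
    conv_lhs => rw [hπ₀, Finset.mul_sum, Finset.sum_mul]
    refine Finset.sum_congr rfl fun x hx => ?_
    have hxH : x ∈ H := hCH (hX.1 x hx)
    have h1 : y * x ∉ H := fun h => hy ((Subgroup.mul_mem_cancel_right H hxH).1 h)
    simp only [hΞdef]
    rw [if_pos h1, mul_inv_rev, map_mul, map_mul, map_mul, map_mul]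
    simp only [mul_assoc]
  · rw [if_neg hy]
    symm
    refine Finset.sum_eq_zero fun x hx => ?_
    have hxH : x ∈ H := hCH (hX.1 x hx)
    have h1 : ¬ (y * x ∉ H) := fun h => h (H.mul_mem (not_not.1 hy) hxH)
    simp only [hΞdef]
    rw [if_neg h1]

end Cfsg.Agent.Lib.H81CycFAR4
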