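import Mathlib
import Cfsg.Agent.Lib.Helper81CycDefs
import Cfsg.Agent.Lib.H81CycKS
import Cfsg.Agent.Lib.H81CycIND

set_option autoImplicit false

namespace Cfsg.Agent.Lib.H81CycKER
open Cfsg.Agent.Lib.Helper81CycDefs Cfsg.Agent.Lib.Helper81KulDefs
open Cfsg.Agent.Lib.H81CycKS Cfsg.Agent.Lib.H81CycIND

universe u

variable {k G A : Type*} [Field k] [Group G] [Ring A] [Algebra k A] {of : G →* A}

variable {C : Subgroup G} {q : ℕ} {β z i : A} {n : ℕ} {x y : Fin n → A}

theorem corner (ls : LS k of C q β z i x y) {a : A} (ha : a ∈ kS k of C)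
    (hz : z * (i * a * i) = 0) : ∃ c : k, i * a * i = c • (z ^ (q - 1) * i) := by
  obtain ⟨r, hr⟩ := ls.cor a ha
  obtain ⟨q', rfl⟩ : ∃ q', q = q' + 1 := ⟨q - 1, by have := ls.q2; omega⟩
  rw [hr, Finset.mul_sum] at hz
  have h1 : ∀ m, z * r m • (z ^ m * i) = r m • (z ^ (m + 1) * i) := by
    intro m
    rw [mul_smul_comm, ← mul_assoc, ← pow_succ']
  simp only [h1] at hz
  rw [Finset.sum_range_succ, ls.zq, zero_mul, smul_zero, add_zero] at hz
  let r' : ℕ → k := fun m => Nat.casesOn m 0 r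
  have h2 : ∑ m ∈ Finset.range (q' + 1), r' m • (z ^ m * i) = 0 := by
    rw [Finset.sum_range_succ']
    have : r' 0 = 0 := rfl
    rw [this, zero_smul, add_zero]
    exact hz
  have h3 := ls_indep ls r' h2
  have h4 : ∀ m < q', r m = 0 := fun m hm => h3 (m + 1) (by omega)
  refine ⟨r q', ?_⟩
  rw [hr, Finset.sum_range_succ, Finset.sum_eq_zero, zero_add, Nat.add_sub_cancel]
  intro m hm
  rw [h4 m (Finset.mem_range.mp hm), zero_smul]

/-- piece `M-KER`. -/
theorem ker_z (ls : LS k of C q β z i x y) {a : A} (ha : a ∈ kS k of C) (h1 : β * a = a)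
    (h2 : z * a = 0) : ∃ b ∈ kS k of (C : Set G), a = z ^ (q - 1) * b := by
  have hCC : ∀ g ∈ (C : Set G), ∀ h ∈ (C : Set G), g * h ∈ (C : Set G) :=
    fun g hg h hh => C.mul_mem hg hh
  have haβ : a * β = a := by rw [ls.βc a ha, h1]
  have hmem : ∀ s r, y s * a * x r ∈ kS k of (C : Set G) := fun s r =>
    kS_mul hCC (kS_mul hCC (ls.yC s) ha) (ls.xC r)
  have hz : ∀ s r, z * (i * (y s * a * x r) * i) = 0 := by
    intro s r
    calc z * (i * (y s * a * x r) * i) = (z * i) * (y s * a * x r) * i := by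
          simp only [mul_assoc]
      _ = i * (z * y s) * a * x r * i := by rw [← ls.zc i ls.iC]; simp only [mul_assoc]
      _ = i * y s * (z * a) * x r * i := by rw [← ls.zc _ (ls.yC s)]; simp only [mul_assoc]
      _ = 0 := by rw [h2]; simp
  choose c hc using fun s r => corner ls (hmem s r) (hz s r)
  have hZ : ∀ b ∈ kS k of (C : Set G), b * z ^ (q - 1) = z ^ (q - 1) * b := by
    intro b hb
    exact (Commute.pow_right (show Commute b z from ls.zc b hb) _)
  refine ⟨∑ s, ∑ r, c s r • (x s * i * y r), ?_, ?_⟩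
  · refine Submodule.sum_mem _ (fun s _ => Submodule.sum_mem _ (fun r _ => ?_))
    exact Submodule.smul_mem _ _ (kS_mul hCC (kS_mul hCC (ls.xC s) ls.iC) (ls.yC r))
  · calc a = β * a * β := by rw [h1, haβ]
      _ = (∑ s, x s * i * y s) * a * (∑ r, x r * i * y r) := by rw [← ls.dec]
      _ = ∑ s, ∑ r, x s * (i * (y s * a * x r) * i) * y r := by
          rw [Finset.sum_mul, Finset.sum_mul]
          refine Finset.sum_congr rfl (fun s _ => ?_)
          rw [Finset.mul_sum]
          refine Finset.sum_congr rfl (fun r _ => ?_)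
          simp only [mul_assoc]
      _ = ∑ s, ∑ r, z ^ (q - 1) * (c s r • (x s * i * y r)) := by
          refine Finset.sum_congr rfl (fun s _ => Finset.sum_congr rfl (fun r _ => ?_))
          rw [hc, mul_smul_comm, smul_mul_assoc, mul_smul_comm, ← mul_assoc (x s),
            hZ _ (ls.xC s)]
          simp only [mul_assoc]
      _ = z ^ (q - 1) * ∑ s, ∑ r, c s r • (x s * i * y r) := by
          rw [Finset.mul_sum]
          refine Finset.sum_congr rfl (fun s _ => ?_)
          rw [Finset.mul_sum]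

end Cfsg.Agent.Lib.H81CycKER
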