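import Mathlib
import Cfsg.Agent.Lib.Helper81CycDefs
import Cfsg.Agent.Lib.H81CycKER

set_option autoImplicit false

namespace Cfsg.Agent.Lib.H81CycFAR5
open Cfsg.Agent.Lib.Helper81CycDefs Cfsg.Agent.Lib.Helper81KulDefs

universe u

variable {k G A S : Type*} [Field k] [Group G] [Fintype G] [Ring A] [Algebra k A]
  [AddCommGroup S] [Module k S] {of : G →* A} {C : Subgroup G} {q : ℕ} {β z i : A} {n : ℕ}
  {x y : Fin n → A}

variable {p : ℕ} {D T H : Subgroup G} {t₀ x₀ : G} {e : ℕ} {w w' : A} {c₀ : k}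

open Classical in
/-- the coefficient map `u ↦ ∑_{g ∈ C} f (γ' (ρ(g⁻¹) u)) • of g`. -/
noncomputable def Xi (of : G →* A) (C : Subgroup G) (ρ : A →ₐ[k] Module.End k S)
    (γ' : Module.End k S) (f : S →ₗ[k] k) : S →ₗ[k] A :=
  ∑ g : G, if g ∈ C then
    (LinearMap.toSpanSingleton k A (of g)).comp (f.comp (γ'.comp (ρ (of g⁻¹)))) else 0

open Classical in
theorem Xi_apply (ρ : A →ₐ[k] Module.End k S) (γ' : Module.End k S) (f : S →ₗ[k] k) (u : S) :
    Xi of C ρ γ' f u = ∑ g : G, if g ∈ C then f (γ' (ρ (of g⁻¹) u)) • of g else 0 := by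
  unfold Xi
  rw [LinearMap.sum_apply]
  apply Finset.sum_congr rfl
  intro g _
  split_ifs <;> simp

theorem Xi_mem (ρ : A →ₐ[k] Module.End k S) (γ' : Module.End k S) (f : S →ₗ[k] k) (u : S) :
    Xi of C ρ γ' f u ∈ kS k of (C : Set G) := by
  classical
  rw [Xi_apply]
  apply Submodule.sum_mem
  intro g _
  split_ifs with hg
  · exact Submodule.smul_mem _ _ (Submodule.subset_span ⟨g, hg, rfl⟩)
  · exact Submodule.zero_mem _

theorem of_mul_Xi (ρ : A →ₐ[k] Module.End k S) (γ' : Module.End k S) (f : S →ₗ[k] k) (u : S)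
    {h : G} (hh : h ∈ C) : of h * Xi of C ρ γ' f u = Xi of C ρ γ' f (ρ (of h) u) := by
  classical
  rw [Xi_apply, Xi_apply, Finset.mul_sum]
  apply Fintype.sum_equiv (Equiv.mulLeft h)
  intro g
  have e1 : (Equiv.mulLeft h g ∈ C) ↔ g ∈ C := Subgroup.mul_mem_cancel_left C hh
  by_cases hg : g ∈ C
  · rw [if_pos hg, if_pos (e1.mpr hg)]
    simp only [Equiv.coe_mulLeft]
    have e2 : ρ (of (h * g)⁻¹) (ρ (of h) u) = ρ (of g⁻¹) u := by
      rw [← Module.End.mul_apply, ← map_mul, ← map_mul]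
      congr 3
      group
    rw [e2, mul_smul_comm, map_mul]
  · rw [if_neg hg, if_neg (fun h' => hg (e1.mp h')), mul_zero]

theorem mul_Xi (ρ : A →ₐ[k] Module.End k S) (γ' : Module.End k S) (f : S →ₗ[k] k) (u : S)
    {a : A} (ha : a ∈ kS k of (C : Set G)) :
    a * Xi of C ρ γ' f u = Xi of C ρ γ' f (ρ a u) := by
  unfold kS at ha
  induction ha using Submodule.span_induction with
  | mem a ha =>
    obtain ⟨h, hh, rfl⟩ := ha
    exact of_mul_Xi ρ γ' f u hh
  | zero => simp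
  | add a b _ _ iha ihb => rw [add_mul, iha, ihb, map_add, LinearMap.add_apply, map_add]
  | smul c a _ iha => rw [smul_mul_assoc, iha, map_smul, LinearMap.smul_apply, map_smul]

/-- piece `M-FAR5`: projective endomorphisms map `ker z` into the image of `z^(q-1)`. -/
theorem proj_ker [FiniteDimensional k S] (ls : LS k of C q β z i x y)
    (ρ : A →ₐ[k] Module.End k S)
    (γ' : Module.End k S) (v : S) (h1 : ρ β v = v) (h2 : ρ z v = 0) :
    ∃ s : S, (open Classical in ∑ g : G, if g ∈ C then ρ (of g) (γ' (ρ (of g⁻¹) v)) else 0)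
      = ρ (z ^ (q - 1)) s := by
  classical
  set b := Module.finBasis k S with hb
  have hker : ∀ j, ∃ η ∈ kS k of (C : Set G), Xi of C ρ γ' (b.coord j) v = z ^ (q - 1) * η := by
    intro j
    apply H81CycKER.ker_z ls (Xi_mem ρ γ' _ v)
    · rw [mul_Xi ρ γ' _ v ls.βC, h1]
    · rw [mul_Xi ρ γ' _ v ls.zC, h2, map_zero]
  choose η _ hη using hker
  refine ⟨∑ j, ρ (η j) (b j), ?_⟩
  have e1 : ρ (z ^ (q - 1)) (∑ j, ρ (η j) (b j)) = ∑ j, ρ (Xi of C ρ γ' (b.coord j) v) (b j) := by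
    rw [map_sum]
    apply Finset.sum_congr rfl
    intro j _
    rw [hη j, map_mul, Module.End.mul_apply]
  rw [e1]
  have e2 : ∀ j, ρ (Xi of C ρ γ' (b.coord j) v) (b j)
      = ∑ g : G, if g ∈ C then ρ (of g) (b.repr (γ' (ρ (of g⁻¹) v)) j • b j) else 0 := by
    intro j
    rw [Xi_apply, map_sum, LinearMap.sum_apply]
    apply Finset.sum_congr rfl
    intro g _
    split_ifs with hg
    · rw [map_smul, LinearMap.smul_apply, map_smul, Module.Basis.coord_apply]
    · simp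
  simp only [e2]
  rw [Finset.sum_comm]
  apply Finset.sum_congr rfl
  intro g _
  split_ifs with hg
  · rw [← map_sum, b.sum_repr]
  · simp

end Cfsg.Agent.Lib.H81CycFAR5
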