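import Mathlib
import Cfsg.Agent.Lib.Helper81CycDefs

set_option autoImplicit false

namespace Cfsg.Agent.Lib.H81CycTS3
open Cfsg.Agent.Lib.Helper81CycDefs Cfsg.Agent.Lib.Helper81KulDefs

universe u



/-- piece `M-TS3` (the hypothesis `D ≤ C` was added: the statement is false without it) -/
theorem sum_LT_all {G V : Type*} [Group G] [Fintype G] [AddCommMonoid V] {D C : Subgroup G}
    {X : Finset G} (hX : IsLT X D C) (Ξ : G → V) (hDC : D ≤ C) :
    (open Classical in ∑ g : G, if g ∈ C then Ξ g else 0)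
      = ∑ x ∈ X, (open Classical in ∑ d : G, if d ∈ D then Ξ (x * d) else 0) := by
  classical
  simp only [← Finset.sum_filter]
  rw [← Finset.sum_product']
  symm
  refine Finset.sum_bij (fun xd _ => xd.1 * xd.2) ?_ ?_ ?_ ?_
  · rintro ⟨x, d⟩ h
    simp only [Finset.mem_product, Finset.mem_filter, Finset.mem_univ, true_and] at h ⊢
    exact C.mul_mem (hX.1 x h.1) (hDC h.2)
  · rintro ⟨x1, d1⟩ h1 ⟨x2, d2⟩ h2 h12
    simp only [Finset.mem_product, Finset.mem_filter, Finset.mem_univ, true_and] at h1 h2 h12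
    obtain ⟨x0, -, hu⟩ := hX.2 (x1 * d1) (C.mul_mem (hX.1 x1 h1.1) (hDC h1.2))
    have e1 : x1 = x0 := hu _ ⟨h1.1, by rw [inv_mul_cancel_left]; exact h1.2⟩
    have e2 : x2 = x0 := hu _ ⟨h2.1, by rw [h12, inv_mul_cancel_left]; exact h2.2⟩
    have e3 : x1 = x2 := e1.trans e2.symm
    subst e3
    have e4 : d1 = d2 := mul_left_cancel h12
    rw [e4]
  · intro g hg
    simp only [Finset.mem_filter, Finset.mem_univ, true_and] at hg
    obtain ⟨x, ⟨hx, hxg⟩, -⟩ := hX.2 g hg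
    refine ⟨(x, x⁻¹ * g), ?_, ?_⟩
    · simp only [Finset.mem_product, Finset.mem_filter, Finset.mem_univ, true_and]
      exact ⟨hx, hxg⟩
    · simp
  · intros; rfl

theorem pow_aux {G : Type*} [Group G] {p : ℕ} {D C T H : Subgroup G} {t₀ x₀ : G}
    {e : ℕ} (gd : GD p D C T H t₀ x₀ e) {m1 m2 : ℕ} (h1 : m1 < e) (h2 : m2 < e)
    (h : (t₀ ^ m1)⁻¹ * t₀ ^ m2 ∈ C) : m1 = m2 := by
  rcases le_total m1 m2 with hle | hle
  · by_contra hne
    have h3 : t₀ ^ (m2 - m1) ∈ C := by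
      have : t₀ ^ (m2 - m1) = (t₀ ^ m1)⁻¹ * t₀ ^ m2 := by
        rw [eq_inv_mul_iff_mul_eq, ← pow_add, Nat.add_sub_cancel' hle]
      rw [this]; exact h
    exact gd.inj (m2 - m1) (by omega) (by omega) h3
  · by_contra hne
    have h3 : t₀ ^ (m1 - m2) ∈ C := by
      have : t₀ ^ (m1 - m2) = ((t₀ ^ m1)⁻¹ * t₀ ^ m2)⁻¹ := by
        rw [mul_inv_rev, inv_inv, eq_inv_mul_iff_mul_eq, ← pow_add, Nat.add_sub_cancel' hle]
      rw [this]; exact C.inv_mem h
    exact gd.inj (m1 - m2) (by omega) (by omega) h3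

/-- piece `M-TS3`: the powers of `t₀` form a transversal of `C` in `T`. -/
theorem isLT_pow {G : Type*} [Group G] [DecidableEq G] {p : ℕ} {D C T H : Subgroup G} {t₀ x₀ : G}
    {e : ℕ} (gd : GD p D C T H t₀ x₀ e) :
    IsLT ((Finset.range e).image (fun m => t₀ ^ m)) C T ∧
      Set.InjOn (fun m => t₀ ^ m) (Finset.range e : Set ℕ) := by
  refine ⟨⟨?_, ?_⟩, ?_⟩
  · intro x hx
    obtain ⟨m, -, rfl⟩ := Finset.mem_image.1 hx
    exact T.pow_mem gd.t₀T m
  · intro g hg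
    obtain ⟨m, hm, hmg⟩ := gd.cov g hg
    refine ⟨t₀ ^ m, ⟨Finset.mem_image.2 ⟨m, Finset.mem_range.2 hm, rfl⟩, hmg⟩, ?_⟩
    rintro x ⟨hx, hxg⟩
    obtain ⟨m', hm', rfl⟩ := Finset.mem_image.1 hx
    have : m' = m := by
      apply pow_aux gd (Finset.mem_range.1 hm') hm
      have e1 : (t₀ ^ m')⁻¹ * t₀ ^ m = ((t₀ ^ m')⁻¹ * g) * ((t₀ ^ m)⁻¹ * g)⁻¹ := by group
      rw [e1]
      exact C.mul_mem hxg (C.inv_mem hmg)
    rw [this]
  · intro m1 h1 m2 h2 h12
    simp only [Finset.coe_range, Set.mem_Iio] at h1 h2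
    apply pow_aux gd h1 h2
    simp only at h12
    rw [h12, inv_mul_cancel]
    exact C.one_mem

end Cfsg.Agent.Lib.H81CycTS3
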