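import Mathlib
import Cfsg.Agent.Lib.Helper81CycDefs
import Cfsg.Agent.Lib.H81CycTS1
import Cfsg.Agent.Lib.H81CycTS3
import Cfsg.Agent.Lib.H81CycWP

set_option autoImplicit false

namespace Cfsg.Agent.Lib.H81CycNEAR
open Cfsg.Agent.Lib.Helper81CycDefs Cfsg.Agent.Lib.Helper81KulDefs

universe u

variable {k G A S : Type*} [Field k] [Group G] [Fintype G] [Ring A] [Algebra k A]
  [AddCommGroup S] [Module k S] {of : G →* A} {C : Subgroup G} {q : ℕ} {β z i : A} {n : ℕ}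
  {x y : Fin n → A}

variable {p : ℕ} {D T H : Subgroup G} {t₀ x₀ : G} {e : ℕ} {w w' : A} {c₀ : k}

/-- piece `M-NEAR`: the part of the trace coming from `T`. -/
theorem near (gd : GD p D C T H t₀ x₀ e) (ls : LS k of C q β z i x y)
    (ws : WS k of C t₀ e z i w w' c₀) (ρ : A →ₐ[k] Module.End k S) {Y : Finset G}
    (hY : IsLT Y C ⊤) (π₀ π' : Module.End k S)
    (hπ : ∀ a ∈ kS k of (C : Set G), ρ a * π₀ = π₀ * ρ a)
    (hπ' : ∀ v, ρ i v = v → π₀ v = π' v) (v : S) (hv : ρ i v = v) :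
    (open Classical in ∑ y ∈ Y.filter (fun y => y ∈ T), ρ (of y) (π₀ (ρ (of y⁻¹) v)))
      = ∑ m ∈ Finset.range e, ρ (w ^ m) (π' (ρ (w' ^ m) v)) := by
  classical
  -- the summand
  obtain ⟨Ξ, hΞdef⟩ : ∃ Ξ : G → S, ∀ g, Ξ g = ρ (of g) (π₀ (ρ (of g⁻¹) v)) := ⟨_, fun _ => rfl⟩
  have hΞ : ∀ g, ∀ κ ∈ C, Ξ (g * κ) = Ξ g := by
    intro g κ hκ
    have hk : of κ ∈ kS k of (C : Set G) := Submodule.subset_span ⟨κ, hκ, rfl⟩
    have h1 := hπ (of κ) hk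
    rw [hΞdef, hΞdef, _root_.mul_inv_rev, map_mul, map_mul, map_mul, map_mul, Module.End.mul_apply,
      Module.End.mul_apply]
    congr 1
    have h2 : ρ (of κ) (π₀ (ρ (of κ⁻¹) (ρ (of g⁻¹) v)))
        = (ρ (of κ) * π₀) (ρ (of κ⁻¹) (ρ (of g⁻¹) v)) := rfl
    rw [h2, h1, Module.End.mul_apply, ← Module.End.mul_apply (ρ (of κ)), ← map_mul, ← map_mul,
      mul_inv_cancel, map_one, map_one, Module.End.one_apply]
  -- the transversals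
  have hYT : IsLT (Y.filter (fun y => y ∈ T)) C T := by
    refine ⟨fun x hx => (Finset.mem_filter.mp hx).2, fun g hg => ?_⟩
    obtain ⟨x, ⟨hxY, hxC⟩, huniq⟩ := hY.2 g (Subgroup.mem_top g)
    have hxT : x ∈ T := by
      have h1 : x = g * (x⁻¹ * g)⁻¹ := by group
      rw [h1]
      exact T.mul_mem hg (T.inv_mem (gd.CT hxC))
    refine ⟨x, ⟨Finset.mem_filter.mpr ⟨hxY, hxT⟩, hxC⟩, ?_⟩
    rintro x' ⟨hx'Y, hx'C⟩
    exact huniq x' ⟨(Finset.mem_filter.mp hx'Y).1, hx'C⟩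
  obtain ⟨hP, hinj⟩ := Cfsg.Agent.Lib.H81CycTS3.isLT_pow gd
  have hsum : ∑ y ∈ Y.filter (fun y => y ∈ T), ρ (of y) (π₀ (ρ (of y⁻¹) v))
      = ∑ m ∈ Finset.range e, Ξ (t₀ ^ m) := by
    rw [← Finset.sum_image (f := Ξ) (g := fun m => t₀ ^ m) hinj,
      ← Cfsg.Agent.Lib.H81CycTS1.sum_LT_eq hYT hP Ξ hΞ]
    exact Finset.sum_congr rfl fun y _ => (hΞdef y).symm
  rw [hsum]
  apply Finset.sum_congr rfl
  intro m _
  have hn : ∀ g ∈ C, t₀ * g * t₀⁻¹ ∈ C := fun g hg => gd.nC t₀ (gd.TH gd.t₀T) g hg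
  have hn' : ∀ g ∈ C, t₀⁻¹ * g * t₀ ∈ C := fun g hg => by
    have := gd.nC t₀⁻¹ (H.inv_mem (gd.TH gd.t₀T)) g hg
    rwa [inv_inv] at this
  obtain ⟨⟨κ, hκ, hwκ⟩, h2, h3, -⟩ := Cfsg.Agent.Lib.H81CycWP.ws_pow ws ls.ii hn hn' m
  obtain ⟨u, hu⟩ : ∃ u, u = ρ (w' ^ m) v := ⟨_, rfl⟩
  have hu' : u = ρ (w' ^ m * i) v := by
    rw [hu, map_mul, Module.End.mul_apply, hv]
  have hiu : ρ i u = u := by
    rw [hu', ← Module.End.mul_apply, ← map_mul, h3]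
  have hvu : v = ρ (of (t₀ ^ m)) (ρ κ u) := by
    calc v = ρ i v := hv.symm
      _ = ρ (w ^ m * i * w' ^ m) v := by rw [h2]
      _ = ρ (w ^ m) (ρ i u) := by
          rw [map_mul, map_mul, Module.End.mul_apply, Module.End.mul_apply, hu]
      _ = ρ (w ^ m) u := by rw [hiu]
      _ = ρ (of (t₀ ^ m)) (ρ κ u) := by rw [hwκ, map_mul, Module.End.mul_apply]
  have hinv : ρ (of (t₀ ^ m)⁻¹) v = ρ κ u := by
    conv_lhs => rw [hvu]
    rw [← Module.End.mul_apply, ← map_mul, ← map_mul, inv_mul_cancel, map_one, map_one,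
      Module.End.one_apply]
  have hcomm : π₀ (ρ κ u) = ρ κ (π' u) := by
    have h1 := hπ κ hκ
    have h4 : π₀ (ρ κ u) = (π₀ * ρ κ) u := rfl
    rw [h4, ← h1, Module.End.mul_apply, hπ' u hiu]
  rw [hΞdef, hinv, hcomm, ← hu, hwκ, map_mul, Module.End.mul_apply]

end Cfsg.Agent.Lib.H81CycNEAR
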