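import Mathlib
import Cfsg.Agent.Lib.Helper81CycDefs
import Cfsg.Agent.Lib.H81CycTS1
import Cfsg.Agent.Lib.H81CycTS3
import Cfsg.Agent.Lib.H81CycEXT
import Cfsg.Agent.Lib.H81CycCOMM
import Cfsg.Agent.Lib.H81CycNEAR
import Cfsg.Agent.Lib.H81CycFAR2
import Cfsg.Agent.Lib.H81CycFAR3
import Cfsg.Agent.Lib.H81CycFAR4
import Cfsg.Agent.Lib.H81CycFAR5

set_option autoImplicit false

namespace Cfsg.Agent.Lib.H81CycSCAL
open Cfsg.Agent.Lib.Helper81CycDefs Cfsg.Agent.Lib.Helper81KulDefs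

universe u

variable {k G A S : Type*} [Field k] [Group G] [Fintype G] [Ring A] [Algebra k A]
  [AddCommGroup S] [Module k S] {of : G →* A} {C : Subgroup G} {q : ℕ} {β z i : A} {n : ℕ}
  {x y : Fin n → A} {p : ℕ} {D T H : Subgroup G} {t₀ x₀ : G} {e : ℕ} {w w' : A} {c₀ : k}
  {lam : A →ₗ[k] k} {c ε : A} {X : Finset G}

/-- piece `M-SCAL` (assembly of EXT, COMM, NEAR, FAR1-5): Green correspondence in the corner. -/
theorem scalar [FiniteDimensional k S] (gd : GD p D C T H t₀ x₀ e) (ls : LS k of C q β z i x y)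
    (ws : WS k of C t₀ e z i w w' c₀) (bd : BD k of lam D C T H β c ε X)
    (ρ : A →ₐ[k] Module.End k S)
    (hS : ∀ f : Module.End k S, (∀ g, f * ρ (of g) = ρ (of g) * f) → ∃ μ : k, f = μ • 1)
    (π' : Module.End k S) (h1 : ρ i * π' = π') (h2 : π' * ρ i = π') (h3 : ρ z * π' = π' * ρ z) :
    ∃ μ : k, ∀ v, ρ i v = v → ρ z v = 0 →
      ∃ s, μ • v - ∑ m ∈ Finset.range e, ρ (w ^ m) (π' (ρ (w' ^ m) v))
        = ρ (z ^ (q - 1) * i) s := by
  classical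
  obtain ⟨E1, E2, E3, E4⟩ := H81CycEXT.ext_props ls ρ π' h1 h2 h3
  set π₀ : Module.End k S := ∑ s, ρ (x s) * π' * ρ (y s) with hπ₀
  obtain ⟨Y, hY⟩ := H81CycTS1.exists_LT C ⊤ le_top
  obtain ⟨Z, hZ⟩ := H81CycTS1.exists_LT D ⊤ le_top
  have hofC : ∀ g ∈ C, of g ∈ kS k of (C : Set G) :=
    fun g hg => Submodule.subset_span ⟨g, hg, rfl⟩
  have E1' : ∀ g ∈ C, ρ (of g) * π₀ = π₀ * ρ (of g) := fun g hg => E1 _ (hofC g hg)
  obtain ⟨μ, hμ⟩ := hS (∑ y ∈ Y, ρ (of y) * π₀ * ρ (of y⁻¹))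
    (fun g => H81CycCOMM.trG_comm ρ hY π₀ E1' g)
  refine ⟨μ, fun v hv hz => ?_⟩
  have hCH : C ≤ H := gd.CT.trans gd.TH
  have hβv : ρ β v = v := by
    calc ρ β v = ρ β (ρ i v) := by rw [hv]
      _ = ρ (β * i) v := by rw [map_mul]; rfl
      _ = v := by rw [ls.βi, hv]
  -- the far part
  set γ : Module.End k S := π₀ * ρ c with hγdef
  have hc : ∀ d ∈ D, ρ (of d) * ρ c = ρ c * ρ (of d) := fun d hd => by
    rw [← map_mul, bd.cD d hd, map_mul]
  have hγ : ∀ d ∈ D, ρ (of d) * γ = γ * ρ (of d) := fun d hd => by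
    rw [hγdef, ← mul_assoc, E1' d (gd.DC hd), mul_assoc, hc d hd, mul_assoc]
  set Ψ : Module.End k S := ∑ g ∈ Z.filter (fun g => g ∉ H), ρ (of g) * γ * ρ (of g⁻¹) with hΨ
  have hconv : ∑ y ∈ Y.filter (fun y => y ∉ H), ρ (of y) * π₀ * ρ (of y⁻¹) = Ψ := by
    have := H81CycFAR4.far_conv (H := H) ρ bd.XT hY hZ hCH bd.ctr π₀ E1' E3 bd.cD gd.DC
    rw [hΨ, hγdef]
    convert this
  obtain ⟨γ', hγ'⟩ := H81CycFAR2.far_free (H := H) ρ hZ gd.TI (gd.DC.trans hCH) γ (ρ c) hγ hc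
  have hγ'' : ρ c * Ψ = ∑ d : G, if d ∈ D then ρ (of d) * γ' * ρ (of d⁻¹) else 0 := by
    rw [hΨ]; convert hγ'
  have hβΨ : ρ β * Ψ = ∑ g : G, if g ∈ C then ρ (of g) * γ' * ρ (of g⁻¹) else 0 := by
    have hall := H81CycTS3.sum_LT_all bd.XT (fun g => ρ (of g) * γ' * ρ (of g⁻¹)) gd.DC
    have hall' : (∑ g : G, if g ∈ C then ρ (of g) * γ' * ρ (of g⁻¹) else 0)
        = ∑ x ∈ X, ∑ d : G, if d ∈ D then ρ (of (x * d)) * γ' * ρ (of (x * d)⁻¹) else 0 := by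
      convert hall
    rw [hall']
    conv_lhs => rw [bd.ctr]
    rw [map_sum, Finset.sum_mul]
    apply Finset.sum_congr rfl
    intro x hx
    have hxC : x ∈ C := bd.XT.1 x hx
    have hcomm : ρ (of x⁻¹) * Ψ = Ψ * ρ (of x⁻¹) := by
      have := H81CycFAR3.far_comm (H := H) ρ hZ γ hγ x⁻¹ (H.inv_mem (hCH hxC))
        (gd.DC.trans hCH)
      rw [hΨ]; convert this
    calc ρ (of x * c * of x⁻¹) * Ψ = ρ (of x) * ρ c * (ρ (of x⁻¹) * Ψ) := by
          simp only [map_mul, mul_assoc]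
      _ = ρ (of x) * (ρ c * Ψ) * ρ (of x⁻¹) := by rw [hcomm]; simp only [mul_assoc]
      _ = ρ (of x) * (∑ d : G, if d ∈ D then ρ (of d) * γ' * ρ (of d⁻¹) else 0)
            * ρ (of x⁻¹) := by rw [hγ'']
      _ = ∑ d : G, if d ∈ D then ρ (of (x * d)) * γ' * ρ (of (x * d)⁻¹) else 0 := by
          rw [Finset.mul_sum, Finset.sum_mul]
          apply Finset.sum_congr rfl
          intro d _
          split_ifs
          · simp only [map_mul, mul_assoc, mul_inv_rev]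
          · simp
  obtain ⟨s, hs⟩ := H81CycFAR5.proj_ker ls ρ γ' v hβv hz
  have hfar : (ρ β * Ψ) v = ρ (z ^ (q - 1)) s := by
    rw [hβΨ, LinearMap.sum_apply, ← hs]
    apply Finset.sum_congr rfl
    intro g _
    split_ifs
    · rfl
    · rfl
  -- the decomposition
  have hsplit : ∑ y ∈ Y, ρ β * (ρ (of y) * π₀ * ρ (of y⁻¹))
      = ∑ y ∈ Y.filter (fun y => y ∈ T), ρ (of y) * π₀ * ρ (of y⁻¹)
        + ∑ y ∈ Y.filter (fun y => y ∉ H), ρ β * (ρ (of y) * π₀ * ρ (of y⁻¹)) := by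
    rw [Finset.sum_filter, Finset.sum_filter, ← Finset.sum_add_distrib]
    apply Finset.sum_congr rfl
    intro y _
    by_cases hT : y ∈ T
    · have hH : y ∈ H := gd.TH hT
      simp only [hT, hH, if_true, not_true, if_false, add_zero]
      calc ρ β * (ρ (of y) * π₀ * ρ (of y⁻¹)) = ρ (β * of y) * π₀ * ρ (of y⁻¹) := by
            simp only [map_mul, mul_assoc]
        _ = ρ (of y) * (ρ β * π₀) * ρ (of y⁻¹) := by
            rw [← bd.βT y hT]; simp only [map_mul, mul_assoc]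
        _ = _ := by rw [E2]
    · by_cases hH : y ∈ H
      · simp only [hT, hH, if_false, not_true, add_zero]
        have h0 : β * of y * β = 0 := by
          have := bd.βH y hH hT
          calc β * of y * β = β * (of y * β * of y⁻¹) * of y := by
                simp only [mul_assoc, ← map_mul, inv_mul_cancel, map_one, mul_one]
            _ = 0 := by rw [this, zero_mul]
        calc ρ β * (ρ (of y) * π₀ * ρ (of y⁻¹))
            = ρ β * (ρ (of y) * (ρ β * π₀) * ρ (of y⁻¹)) := by rw [E2]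
          _ = ρ (β * of y * β) * π₀ * ρ (of y⁻¹) := by simp only [map_mul, mul_assoc]
          _ = 0 := by rw [h0]; simp
      · simp only [hT, hH, if_false, not_false_eq_true, if_true, zero_add]
  have hnear := H81CycNEAR.near gd ls ws ρ hY π₀ π' E1 E4 v hv
  have hnear' : (∑ y ∈ Y.filter (fun y => y ∈ T), ρ (of y) * π₀ * ρ (of y⁻¹)) v
      = ∑ m ∈ Finset.range e, ρ (w ^ m) (π' (ρ (w' ^ m) v)) := by
    rw [LinearMap.sum_apply, ← hnear]
    apply Finset.sum_congr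
    · ext y; simp
    · intro y _; rfl
  have hmain : μ • v = ∑ m ∈ Finset.range e, ρ (w ^ m) (π' (ρ (w' ^ m) v))
      + ρ (z ^ (q - 1)) s := by
    have e1 : μ • v = (ρ β * ∑ y ∈ Y, ρ (of y) * π₀ * ρ (of y⁻¹)) v := by
      rw [hμ]
      simp [hβv]
    rw [e1, Finset.mul_sum, hsplit, LinearMap.add_apply, hnear', ← Finset.mul_sum, hconv, hfar]
  -- apply `ρ i`
  have hiw : ∀ m, i * (w ^ m * i) = w ^ m * i := by
    intro m
    cases m with
    | zero => simp [ls.ii]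
    | succ m => rw [pow_succ', ← mul_assoc, ← mul_assoc, ws.iw]
  have hiN : ρ i (∑ m ∈ Finset.range e, ρ (w ^ m) (π' (ρ (w' ^ m) v)))
      = ∑ m ∈ Finset.range e, ρ (w ^ m) (π' (ρ (w' ^ m) v)) := by
    rw [map_sum]
    apply Finset.sum_congr rfl
    intro m _
    have e1 : π' (ρ (w' ^ m) v) = ρ i (π' (ρ (w' ^ m) v)) := by
      conv_lhs => rw [← h1]
      rfl
    rw [e1]
    calc ρ i (ρ (w ^ m) (ρ i (π' (ρ (w' ^ m) v))))
        = ρ (i * (w ^ m * i)) (π' (ρ (w' ^ m) v)) := by simp only [map_mul]; rfl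
      _ = ρ (w ^ m) (ρ i (π' (ρ (w' ^ m) v))) := by rw [hiw]; simp only [map_mul]; rfl
  have hizc : i * z ^ (q - 1) = z ^ (q - 1) * i := by
    have : Commute i z := ls.zc i ls.iC
    exact (this.pow_right _)
  refine ⟨s, ?_⟩
  have e2 : μ • v - ∑ m ∈ Finset.range e, ρ (w ^ m) (π' (ρ (w' ^ m) v)) = ρ (z ^ (q - 1)) s := by
    rw [hmain]; abel
  have e3 : ρ i (μ • v - ∑ m ∈ Finset.range e, ρ (w ^ m) (π' (ρ (w' ^ m) v)))
      = μ • v - ∑ m ∈ Finset.range e, ρ (w ^ m) (π' (ρ (w' ^ m) v)) := by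
    rw [map_sub, hiN, map_smul, hv]
  rw [← e3, e2, ← hizc, map_mul]
  rfl

end Cfsg.Agent.Lib.H81CycSCAL
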