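import Mathlib
import Cfsg.Agent.Lib.Helper81CycDefs
import Cfsg.Agent.Lib.H81CycSCAL
import Cfsg.Agent.Lib.H81CycONE

set_option autoImplicit false

namespace Cfsg.Agent.Lib.H81CycTWO
open Cfsg.Agent.Lib.Helper81CycDefs Cfsg.Agent.Lib.Helper81KulDefs

universe u

variable {k G A : Type*} [Field k] [Group G] [Fintype G] [Ring A] [Algebra k A]
  {of : G →* A} {C : Subgroup G} {q : ℕ} {β z i : A} {n : ℕ}
  {x y : Fin n → A} {p : ℕ} {D T H : Subgroup G} {t₀ x₀ : G} {e : ℕ} {w w' : A} {c₀ : k}
  {lam : A →ₗ[k] k} {c ε : A} {X : Finset G}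

/-- piece `M-TWO`: a simple module has at most one type. -/
theorem not_two [IsAlgClosed k] [Module.Finite k A]
    (hspan : ∀ b : A, b ∈ kS k of (Set.univ : Set G))
    (gd : GD p D C T H t₀ x₀ e) (ls : LS k of C q β z i x y)
    (ws : WS k of C t₀ e z i w w' c₀) (bd : BD k of lam D C T H β c ε X) (he : (e : k) ≠ 0)
    (I : Submodule A A) [IsSimpleModule A (A ⧸ I)] (μ μ' : k) (hne : μ ≠ μ')
    (h1 : HasW i z w q μ (A ⧸ I)) (h2 : HasW i z w q μ' (A ⧸ I)) : False := by
  obtain ⟨v, hv1, hv2, hv3, hv4⟩ := h1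
  obtain ⟨v', hv1', hv2', hv3', hv4'⟩ := h2
  have hfin : FiniteDimensional k (A ⧸ I) :=
    Module.Finite.of_surjective (I.mkQ.restrictScalars k) (Submodule.mkQ_surjective I)
  let ρ : A →ₐ[k] Module.End k (A ⧸ I) := Algebra.lsmul k k (A ⧸ I)
  have hρ : ∀ a s, ρ a s = a • s := fun _ _ => rfl
  have hS : ∀ f : Module.End k (A ⧸ I), (∀ g, f * ρ (of g) = ρ (of g) * f) → ∃ μ : k, f = μ • 1 := by
    intro f hf
    let F : (A ⧸ I) →ₗ[A] (A ⧸ I) :=
      { toFun := f
        map_add' := f.map_add
        map_smul' := by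
          intro b s
          have hb := hspan b
          unfold kS at hb
          simp only [RingHom.id_apply]
          induction hb using Submodule.span_induction with
          | mem b hb =>
            obtain ⟨g, -, rfl⟩ := hb
            exact LinearMap.congr_fun (hf g) s
          | zero => simp
          | add a b _ _ ha hb => rw [add_smul, add_smul, map_add, ha, hb]
          | smul r a _ ha => rw [smul_assoc, smul_assoc, map_smul, ha] }
    obtain ⟨c, hc⟩ := (IsSimpleModule.algebraMap_end_bijective_of_isAlgClosed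
      (A := A) (V := A ⧸ I) k).2 F
    refine ⟨c, ?_⟩
    refine LinearMap.ext fun s => ?_
    have := congrArg (fun S : Module.End A (A ⧸ I) => S s) hc
    simp only [Module.algebraMap_end_apply] at this
    rw [LinearMap.smul_apply, Module.End.one_apply, this]
    rfl
  refine H81CycONE.one_type gd ls ws he ρ
    (fun π' a b c => H81CycSCAL.scalar gd ls ws bd ρ hS π' a b c) μ μ' hne v v' hv1 hv2 ?_ hv4
    hv1' hv2' ?_ hv4'
  · rw [hρ, hv3, algebraMap_smul]
  · rw [hρ, hv3', algebraMap_smul]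

end Cfsg.Agent.Lib.H81CycTWO
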