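import Mathlib
import Cfsg.Agent.Lib.Helper81CycDefs
import Cfsg.Agent.Lib.H81CycKS
import Cfsg.Agent.Lib.H81CycIND

set_option autoImplicit false

namespace Cfsg.Agent.Lib.H81CycW1
open Cfsg.Agent.Lib.Helper81CycDefs Cfsg.Agent.Lib.Helper81KulDefs
open Cfsg.Agent.Lib.H81CycKS Cfsg.Agent.Lib.H81CycIND

universe u

variable {k G A : Type*} [Field k] [Group G] [Ring A] [Algebra k A] {of : G →* A}

variable {C : Subgroup G} {q : ℕ} {β z i : A} {n : ℕ} {x y : Fin n → A}

theorem kC_mul {a b : A} (ha : a ∈ kS k of (C : Set G)) (hb : b ∈ kS k of (C : Set G)) :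
    a * b ∈ kS k of (C : Set G) :=
  kS_mul (fun _ hx _ hy => C.mul_mem hx hy) ha hb

theorem aeval_mem (ls : LS k of C q β z i x y) (f : Polynomial k) :
    Polynomial.aeval z f ∈ kS k of (C : Set G) := by
  rw [Polynomial.aeval_eq_sum_range]
  exact Submodule.sum_mem _ (fun m _ => Submodule.smul_mem _ _ (kS_pow C ls.zC m))

theorem aeval_comm (ls : LS k of C q β z i x y) (f : Polynomial k) (a : A)
    (ha : a ∈ kS k of (C : Set G)) :
    a * Polynomial.aeval z f = Polynomial.aeval z f * a := by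
  have hc : Commute a z := ls.zc a ha
  rw [Polynomial.aeval_eq_sum_range, Finset.mul_sum, Finset.sum_mul]
  refine Finset.sum_congr rfl (fun m _ => ?_)
  rw [mul_smul_comm, smul_mul_assoc, (hc.pow_right m).eq]

/-- an element of the corner with non zero constant term is `P i` with `P` invertible. -/
theorem inv_poly (ls : LS k of C q β z i x y) (r : ℕ → k) (h0 : r 0 ≠ 0) :
    ∃ P Q : A, P ∈ kS k of (C : Set G) ∧ Q ∈ kS k of (C : Set G) ∧
      (∀ a ∈ kS k of (C : Set G), a * P = P * a) ∧ (∀ a ∈ kS k of (C : Set G), a * Q = Q * a) ∧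
      Q * P = 1 ∧ P * Q = 1 ∧ ∑ m ∈ Finset.range q, r m • (z ^ m * i) = P * i := by
  classical
  set f : Polynomial k := ∑ m ∈ Finset.range q, Polynomial.C (r m) * Polynomial.X ^ m with hf
  have hq : 0 < q := lt_of_lt_of_le (by norm_num) ls.q2
  have hc0 : f.coeff 0 = r 0 := by
    rw [hf, Polynomial.finsetSum_coeff]
    simp only [Polynomial.coeff_C_mul_X_pow]
    rw [Finset.sum_ite_eq]
    simp [hq]
  have hcop : IsCoprime f (Polynomial.X ^ q) := by
    apply IsCoprime.pow_right
    apply IsCoprime.symm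
    rw [Polynomial.irreducible_X.coprime_iff_not_dvd, Polynomial.X_dvd_iff, hc0]
    exact h0
  obtain ⟨a, b, hab⟩ := hcop
  have h1 : Polynomial.aeval z a * Polynomial.aeval z f = 1 := by
    have := congrArg (Polynomial.aeval z) hab
    simpa only [map_add, map_mul, map_pow, Polynomial.aeval_X, ls.zq, mul_zero, add_zero,
      map_one] using this
  refine ⟨Polynomial.aeval z f, Polynomial.aeval z a, aeval_mem ls f, aeval_mem ls a,
    aeval_comm ls f, aeval_comm ls a, h1, ?_, ?_⟩
  · rw [← map_mul, mul_comm, map_mul]; exact h1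
  · rw [hf, map_sum, Finset.sum_mul]
    refine Finset.sum_congr rfl (fun m _ => ?_)
    rw [map_mul, Polynomial.aeval_C, map_pow, Polynomial.aeval_X, Algebra.smul_def, mul_assoc]

/-- an element of the corner without constant term is nilpotent. -/
theorem nil_of_zero (ls : LS k of C q β z i x y) (r : ℕ → k) (h0 : r 0 = 0) :
    (∑ m ∈ Finset.range q, r m • (z ^ m * i)) ^ q = 0 := by
  set c : A := ∑ m ∈ Finset.range q, r m • (z ^ (m - 1) * i) with hc
  have hcC : c ∈ kS k of (C : Set G) :=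
    Submodule.sum_mem _ (fun m _ => Submodule.smul_mem _ _ (kC_mul (kS_pow C ls.zC _) ls.iC))
  have h1 : ∑ m ∈ Finset.range q, r m • (z ^ m * i) = z * c := by
    rw [hc, Finset.mul_sum]
    refine Finset.sum_congr rfl (fun m _ => ?_)
    rcases Nat.eq_zero_or_pos m with rfl | hm
    · simp [h0]
    · rw [mul_smul_comm, ← mul_assoc, ← pow_succ', Nat.sub_add_cancel hm]
  have h2 : Commute z c := (ls.zc c hcC).symm
  rw [h1, h2.mul_pow, ls.zq, zero_mul]

/-- piece `M-W1`: the invertible element of degree `t₀`. -/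
theorem exists_w (ls : LS k of C q β z i x y) {t₀ : G} (hn : ∀ g ∈ C, t₀ * g * t₀⁻¹ ∈ C)
    (hn' : ∀ g ∈ C, t₀⁻¹ * g * t₀ ∈ C) (hβ : of t₀ * β = β * of t₀) :
    ∃ w w' : A, w ∈ kS k of {g | t₀⁻¹ * g ∈ C} ∧ w' ∈ kS k of {g | t₀ * g ∈ C} ∧
      i * w = w ∧ w * i = w ∧ i * w' = w' ∧ w' * i = w' ∧ w * w' = i ∧ w' * w = i := by
  classical
  set τ : A := of t₀ with hτ
  set τ' : A := of t₀⁻¹ with hτ'
  have tt' : τ * τ' = 1 := by rw [hτ, hτ', ← map_mul, mul_inv_cancel, map_one]
  have t't : τ' * τ = 1 := by rw [hτ, hτ', ← map_mul, inv_mul_cancel, map_one]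
  have hτS : τ ∈ kS k of ({t₀} : Set G) := Submodule.subset_span ⟨t₀, rfl, rfl⟩
  have hτ'S : τ' ∈ kS k of ({t₀⁻¹} : Set G) := Submodule.subset_span ⟨t₀⁻¹, rfl, rfl⟩
  have hcj : ∀ a ∈ kS k of (C : Set G), τ * a * τ' ∈ kS k of (C : Set G) := by
    intro a ha
    have h1 : τ * a ∈ kS k of {g | t₀⁻¹ * g ∈ C} := by
      refine kS_mul ?_ hτS ha
      intro u hu v hv
      rw [Set.mem_singleton_iff] at hu
      subst hu
      simpa using hv
    refine kS_mul ?_ h1 hτ'S
    intro u hu v hv
    rw [Set.mem_singleton_iff] at hv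
    subst hv
    have := hn _ hu
    simpa [mul_assoc] using this
  have hcj' : ∀ a ∈ kS k of (C : Set G), τ' * a * τ ∈ kS k of (C : Set G) := by
    intro a ha
    have h1 : τ' * a ∈ kS k of {g | t₀ * g ∈ C} := by
      refine kS_mul ?_ hτ'S ha
      intro u hu v hv
      rw [Set.mem_singleton_iff] at hu
      subst hu
      simpa using hv
    refine kS_mul ?_ h1 hτS
    intro u hu v hv
    rw [Set.mem_singleton_iff] at hv
    subst hv
    have := hn' _ hu
    simpa [mul_assoc] using this
  have hi0 : i ≠ 0 := by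
    intro h
    apply ls.ne
    rw [h, mul_zero]
  -- the conjugate idempotent
  set i' : A := τ * i * τ' with hi'
  have hi'C : i' ∈ kS k of (C : Set G) := hcj i ls.iC
  have F1 : τ' * i' = i * τ' := by rw [hi', ← mul_assoc, ← mul_assoc, t't, one_mul]
  have F2 : i' * τ = τ * i := by rw [hi', mul_assoc, t't, mul_one]
  have F3 : i' * i' = i' := by
    calc i' * i' = τ * i * (τ' * τ) * i * τ' := by rw [hi']; simp only [mul_assoc]
      _ = τ * (i * i) * τ' := by rw [t't]; simp only [mul_assoc, mul_one]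
      _ = i' := by rw [ls.ii]
  have hβ' : τ' * β * τ = β := by rw [mul_assoc, ← hβ, ← mul_assoc, t't, one_mul]
  -- the coefficients
  have hcC : ∀ s, τ' * (x s * i * y s) * τ ∈ kS k of (C : Set G) := fun s =>
    hcj' _ (kC_mul (kC_mul (ls.xC s) ls.iC) (ls.yC s))
  choose r hr using fun s => ls.cor _ (hcC s)
  have hsum : ∑ s, i * (τ' * (x s * i * y s) * τ) * i = i := by
    rw [← Finset.sum_mul, ← Finset.mul_sum, ← Finset.sum_mul, ← Finset.mul_sum, ← ls.dec, hβ',
      mul_assoc, ls.βi, ls.ii]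
  have hq : 0 < q := lt_of_lt_of_le (by norm_num) ls.q2
  have hr0 : ∑ s, r s 0 = 1 := by
    have h := ls_indep ls (fun m => ∑ s, r s m - if m = 0 then 1 else 0) (by
      simp only [sub_smul, Finset.sum_sub_distrib, Finset.sum_smul]
      rw [Finset.sum_comm]
      simp only [← hr]
      rw [hsum]
      simp only [ite_smul, one_smul, zero_smul]
      rw [Finset.sum_ite_eq']
      simp [hq]) 0 hq
    simpa [sub_eq_zero] using h
  obtain ⟨s, hs⟩ : ∃ s, r s 0 ≠ 0 := by
    by_contra hcon
    push Not at hcon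
    rw [Finset.sum_eq_zero (fun s _ => hcon s)] at hr0
    exact zero_ne_one hr0
  obtain ⟨P, Q, hPC, hQC, hPc, hQc, hQP, hPQ, hP⟩ := inv_poly ls (r s) hs
  rw [← hr s] at hP
  -- conjugates of `P`, `Q`
  set Q' : A := τ * Q * τ' with hQ'
  set P' : A := τ * P * τ' with hP'
  have hQ'C : Q' ∈ kS k of (C : Set G) := hcj Q hQC
  have hP'Q' : P' * Q' = 1 := by
    calc P' * Q' = τ * P * (τ' * τ) * Q * τ' := by rw [hP', hQ']; simp only [mul_assoc]
      _ = τ * (P * Q) * τ' := by rw [t't]; simp only [mul_assoc, mul_one]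
      _ = 1 := by rw [hPQ, mul_one, tt']
  have hQ'i' : Q' * i' = i' * Q' := by
    calc Q' * i' = τ * Q * (τ' * τ) * i * τ' := by rw [hi', hQ']; simp only [mul_assoc]
      _ = τ * (Q * i) * τ' := by rw [t't]; simp only [mul_assoc, mul_one]
      _ = τ * (i * Q) * τ' := by rw [hQc i ls.iC]
      _ = τ * i * (τ' * τ) * Q * τ' := by rw [t't]; simp only [mul_assoc, mul_one]
      _ = i' * Q' := by rw [hi', hQ']; simp only [mul_assoc]
  have hkey : i' * (x s * i * y s) * i' = P' * i' := by
    calc i' * (x s * i * y s) * i' = τ * (i * (τ' * (x s * i * y s) * τ) * i) * τ' := by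
          rw [hi']; simp only [mul_assoc]
      _ = τ * (P * i) * τ' := by rw [hP]
      _ = τ * P * (τ' * τ) * i * τ' := by rw [t't]; simp only [mul_assoc, mul_one]
      _ = P' * i' := by rw [hi', hP']; simp only [mul_assoc]
  set a : A := i' * x s * i with ha
  set b : A := i * y s * Q' * i' with hb
  have hab : a * b = i' := by
    calc a * b = i' * (x s * (i * i) * y s) * (Q' * i') := by rw [ha, hb]; simp only [mul_assoc]
      _ = i' * (x s * i * y s) * (Q' * (i' * i')) := by rw [ls.ii, F3]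
      _ = i' * (x s * i * y s) * ((Q' * i') * i') := by rw [mul_assoc Q']
      _ = i' * (x s * i * y s) * ((i' * Q') * i') := by rw [hQ'i']
      _ = (i' * (x s * i * y s) * i') * (Q' * i') := by simp only [mul_assoc]
      _ = P' * i' * (i' * Q') := by rw [hkey, hQ'i']
      _ = P' * (i' * i') * Q' := by simp only [mul_assoc]
      _ = P' * (Q' * i') := by rw [F3, hQ'i', mul_assoc]
      _ = i' := by rw [← mul_assoc, hP'Q', one_mul]
  have hi'a : i' * a = a := by rw [ha, ← mul_assoc, ← mul_assoc, F3]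
  have hai : a * i = a := by rw [ha, mul_assoc, ls.ii]
  have hib : i * b = b := by rw [hb]; simp only [← mul_assoc, ls.ii]
  have hbi' : b * i' = b := by rw [hb, mul_assoc, F3]
  have haC : a ∈ kS k of (C : Set G) := kC_mul (kC_mul hi'C (ls.xC s)) ls.iC
  have hbC : b ∈ kS k of (C : Set G) := kC_mul (kC_mul (kC_mul ls.iC (ls.yC s)) hQ'C) hi'C
  have hi'0 : i' ≠ 0 := by
    intro h
    apply hi0
    have : i = τ' * i' * τ := by rw [F1, mul_assoc, t't, mul_one]
    rw [this, h, mul_zero, zero_mul]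
  -- `b a = i`
  have hgg : (b * a) * (b * a) = b * a := by
    calc (b * a) * (b * a) = b * (a * b) * a := by simp only [mul_assoc]
      _ = b * a := by rw [hab, hbi']
  have hg : b * a = i := by
    obtain ⟨ρ, hρ⟩ := ls.cor (b * a) (kC_mul hbC haC)
    have h1 : i * (b * a) * i = b * a := by
      rw [← mul_assoc, hib, mul_assoc, hai]
    rw [h1] at hρ
    by_cases h0 : ρ 0 = 0
    · exfalso
      have h2 := nil_of_zero ls ρ h0
      rw [← hρ] at h2
      have h3 : ∀ m : ℕ, (b * a) ^ (m + 1) = b * a := by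
        intro m
        induction m with
        | zero => simp
        | succ m ih => rw [pow_succ, ih, hgg]
      have h4 : b * a = 0 := by
        rw [← h3 (q - 1), Nat.sub_add_cancel hq, h2]
      apply hi'0
      calc i' = i' * i' := F3.symm
        _ = a * (b * a) * b := by rw [← hab]; simp only [mul_assoc]
        _ = 0 := by rw [h4, mul_zero, zero_mul]
    · obtain ⟨Pg, Qg, -, -, hPgc, -, hQPg, -, hPg⟩ := inv_poly ls ρ h0
      rw [← hρ] at hPg
      have h5 : Pg * (Pg * i) = Pg * i := by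
        calc Pg * (Pg * i) = Pg * (Pg * (i * i)) := by rw [ls.ii]
          _ = (Pg * i) * (Pg * i) := by
              rw [mul_assoc Pg i, ← mul_assoc i Pg, hPgc i ls.iC]; simp only [mul_assoc]
          _ = Pg * i := by rw [← hPg, hgg]
      have h6 := congrArg (fun t => Qg * t) h5
      simp only [← mul_assoc, hQPg, one_mul] at h6
      rw [hPg, h6]
  refine ⟨b * τ, τ' * a, ?_, ?_, ?_, ?_, ?_, ?_, ?_, ?_⟩
  · refine kS_mul ?_ hbC hτS
    intro u hu v hv
    rw [Set.mem_singleton_iff] at hv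
    subst hv
    have := hn' _ hu
    simpa [mul_assoc] using this
  · refine kS_mul ?_ hτ'S haC
    intro u hu v hv
    rw [Set.mem_singleton_iff] at hu
    subst hu
    simpa using hv
  · rw [← mul_assoc, hib]
  · rw [mul_assoc, ← F2, ← mul_assoc, hbi']
  · rw [← mul_assoc, ← F1, mul_assoc, hi'a]
  · rw [mul_assoc, hai]
  · calc b * τ * (τ' * a) = b * (τ * τ') * a := by simp only [mul_assoc]
      _ = i := by rw [tt', mul_one, hg]
  · calc τ' * a * (b * τ) = τ' * (a * b) * τ := by simp only [mul_assoc]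
      _ = i := by rw [hab, F1, mul_assoc, t't, mul_one]

end Cfsg.Agent.Lib.H81CycW1
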