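import Mathlib
import Cfsg.Agent.Lib.Helper81CycDefs
import Cfsg.Agent.Lib.H81CycKS
import Cfsg.Agent.Lib.H81CycIND
import Cfsg.Agent.Lib.H81CycW1

set_option autoImplicit false

namespace Cfsg.Agent.Lib.H81CycW2
open Cfsg.Agent.Lib.Helper81CycDefs Cfsg.Agent.Lib.Helper81KulDefs
open Cfsg.Agent.Lib.H81CycKS Cfsg.Agent.Lib.H81CycIND Cfsg.Agent.Lib.H81CycW1

universe u

variable {k G A : Type*} [Field k] [Group G] [Ring A] [Algebra k A] {of : G →* A}

variable {C : Subgroup G} {q : ℕ} {β z i : A} {n : ℕ} {x y : Fin n → A}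

theorem factor_z (ls : LS k of C q β z i x y) (r : ℕ → k) (h0 : r 0 = 0) :
    ∃ c ∈ kS k of (C : Set G), ∑ m ∈ Finset.range q, r m • (z ^ m * i) = z * c := by
  refine ⟨∑ m ∈ Finset.range q, r m • (z ^ (m - 1) * i),
    Submodule.sum_mem _ (fun m _ => Submodule.smul_mem _ _ (kC_mul (kS_pow C ls.zC _) ls.iC)), ?_⟩
  rw [Finset.mul_sum]
  refine Finset.sum_congr rfl (fun m _ => ?_)
  rcases Nat.eq_zero_or_pos m with rfl | hm
  · simp [h0]
  · rw [mul_smul_comm, ← mul_assoc, ← pow_succ', Nat.sub_add_cancel hm]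

theorem corner_nil (ls : LS k of C q β z i x y) {a : A} (haC : a ∈ kS k of (C : Set G))
    (hia : i * a * i = a) (hnil : IsNilpotent a) : ∃ c ∈ kS k of (C : Set G), a = z * c := by
  obtain ⟨r, hr⟩ := ls.cor a haC
  rw [hia] at hr
  have h0 : r 0 = 0 := ls_nil ls r (hr ▸ hnil)
  obtain ⟨c, hc, h⟩ := factor_z ls r h0
  exact ⟨c, hc, hr.trans h⟩

theorem half (ls : LS k of C q β z i x y) {u u' : A} (hC : u' * z * u ∈ kS k of (C : Set G))
    (h3 : i * u = u) (h4 : u * i = u) (h5 : i * u' = u') (h6 : u' * i = u') (h7 : u * u' = i) :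
    (∃ d, z * u = d * z) ∧ ∀ j : ℕ, u' * u = i → ∃ d, u' * (z ^ j * i) = (z ^ j * i) * d := by
  have hq : 0 < q := lt_of_lt_of_le (by norm_num) ls.q2
  have hiz : i * z = z * i := ls.zc i ls.iC
  have hpow : ∀ m : ℕ, (u' * z * u) ^ (m + 1) = u' * z ^ (m + 1) * u := by
    intro m
    induction m with
    | zero => simp
    | succ m ih =>
      rw [pow_succ, ih]
      calc u' * z ^ (m + 1) * u * (u' * z * u) = u' * z ^ (m + 1) * (u * u') * z * u := by
            simp only [mul_assoc]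
        _ = u' * z ^ (m + 1) * (i * z) * u := by rw [h7]; simp only [mul_assoc]
        _ = u' * (z ^ (m + 1) * z) * (i * u) := by rw [hiz]; simp only [mul_assoc]
        _ = u' * z ^ (m + 1 + 1) * u := by rw [h3, ← pow_succ]
  have hnil : IsNilpotent (u' * z * u) := by
    refine ⟨q, ?_⟩
    have := hpow (q - 1)
    rw [Nat.sub_add_cancel hq, ls.zq, mul_zero, zero_mul] at this
    exact this
  have hcor : i * (u' * z * u) * i = u' * z * u := by
    calc i * (u' * z * u) * i = (i * u') * z * (u * i) := by simp only [mul_assoc]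
      _ = u' * z * u := by rw [h5, h4]
  obtain ⟨c, hcC, hc⟩ := corner_nil ls hC hcor hnil
  have hcz : c * z = z * c := ls.zc c hcC
  refine ⟨⟨u * c, ?_⟩, ?_⟩
  · calc z * u = (z * i) * u := by rw [mul_assoc, h3]
      _ = (u * u') * z * u := by rw [← hiz, h7]
      _ = u * (u' * z * u) := by simp only [mul_assoc]
      _ = u * c * z := by rw [hc, ← hcz, mul_assoc]
  · intro j h8
    have hj : ∀ j : ℕ, u' * z ^ j * u = z ^ j * i * c ^ j := by
      intro j
      induction j with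
      | zero => simp [h8]
      | succ j ih =>
        have hcj : Commute z (c ^ j) := (Commute.pow_right (show Commute z c from hcz.symm) j)
        calc u' * z ^ (j + 1) * u = u' * z ^ j * (z * i) * u := by
              rw [pow_succ]; simp only [mul_assoc, h3]
          _ = u' * z ^ j * (u * u') * z * u := by rw [← hiz, h7]; simp only [mul_assoc]
          _ = (u' * z ^ j * u) * (u' * z * u) := by simp only [mul_assoc]
          _ = z ^ j * i * c ^ j * (z * c) := by rw [ih, hc]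
          _ = z ^ j * i * (c ^ j * z) * c := by simp only [mul_assoc]
          _ = z ^ j * (i * z) * (c ^ j * c) := by rw [← hcj.eq]; simp only [mul_assoc]
          _ = z ^ (j + 1) * i * c ^ (j + 1) := by
              rw [hiz, ← pow_succ, pow_succ z]; simp only [mul_assoc]
    refine ⟨c ^ j * u', ?_⟩
    calc u' * (z ^ j * i) = (u' * z ^ j * u) * u' := by rw [← h7]; simp only [mul_assoc]
      _ = z ^ j * i * (c ^ j * u') := by rw [hj j]; simp only [mul_assoc]

theorem pow_mem {t₀ : G} (hn' : ∀ g ∈ C, t₀⁻¹ * g * t₀ ∈ C) {w : A}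
    (h1 : w ∈ kS k of {g | t₀⁻¹ * g ∈ C}) (m : ℕ) :
    w ^ m ∈ kS k of {g | (t₀ ^ m)⁻¹ * g ∈ C} := by
  induction m with
  | zero =>
    have := kS_one (k := k) (of := of) C
    simpa using this
  | succ m ih =>
    rw [pow_succ w m]
    refine kS_mul ?_ ih h1
    intro a ha b hb
    have h2 := C.mul_mem (hn' _ ha) hb
    have h3 : t₀⁻¹ * ((t₀ ^ m)⁻¹ * a) * t₀ * (t₀⁻¹ * b) = (t₀ ^ (m + 1))⁻¹ * (a * b) := by
      rw [pow_succ]; group
    rw [h3] at h2
    exact h2

/-- piece `M-W2`: the relations between `w` and `z`.  (Hypothesis `0 < e` added: for `e = 0` the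
field `we` would say `1 = c₀ • i + n * z`.) -/
theorem ws_of_w (ls : LS k of C q β z i x y) {t₀ : G} (hn : ∀ g ∈ C, t₀ * g * t₀⁻¹ ∈ C)
    (hn' : ∀ g ∈ C, t₀⁻¹ * g * t₀ ∈ C) {e : ℕ} (he : 0 < e) (hte : t₀ ^ e ∈ C) {w w' : A}
    (h1 : w ∈ kS k of {g | t₀⁻¹ * g ∈ C}) (h2 : w' ∈ kS k of {g | t₀ * g ∈ C})
    (h3 : i * w = w) (h4 : w * i = w) (h5 : i * w' = w') (h6 : w' * i = w') (h7 : w * w' = i)
    (h8 : w' * w = i) : ∃ c₀ : k, WS k of C t₀ e z i w w' c₀ := by
  have hq : 0 < q := lt_of_lt_of_le (by norm_num) ls.q2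
  have hi0 : i ≠ 0 := by
    intro h
    apply ls.ne
    rw [h, mul_zero]
  have hC1 : w' * z * w ∈ kS k of (C : Set G) := by
    have e1 : w' * z ∈ kS k of {g | t₀ * g ∈ C} := by
      refine kS_mul ?_ h2 ls.zC
      intro a ha b hb
      have := C.mul_mem ha hb
      simpa [mul_assoc] using this
    refine kS_mul ?_ e1 h1
    intro a ha b hb
    have e2 := C.mul_mem (hn' _ ha) hb
    have e3 : t₀⁻¹ * (t₀ * a) * t₀ * (t₀⁻¹ * b) = a * b := by group
    rw [e3] at e2
    exact e2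
  have hC2 : w * z * w' ∈ kS k of (C : Set G) := by
    have e1 : w * z ∈ kS k of {g | t₀⁻¹ * g ∈ C} := by
      refine kS_mul ?_ h1 ls.zC
      intro a ha b hb
      have := C.mul_mem ha hb
      simpa [mul_assoc] using this
    refine kS_mul ?_ e1 h2
    intro a ha b hb
    have e2 := C.mul_mem (hn _ ha) hb
    have e3 : t₀ * (t₀⁻¹ * a) * t₀⁻¹ * (t₀ * b) = a * b := by group
    rw [e3] at e2
    exact e2
  obtain ⟨kz, rz'⟩ := half ls hC1 h3 h4 h5 h6 h7
  obtain ⟨kz', rz⟩ := half ls hC2 h5 h6 h3 h4 h8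
  -- `w ^ e`
  have hweC : w ^ e ∈ kS k of (C : Set G) := by
    have e1 := pow_mem (k := k) (of := of) hn' h1 e
    refine Submodule.span_mono (Set.image_mono ?_) e1
    intro g hg
    have := C.mul_mem hte hg
    simpa using this
  obtain ⟨e', rfl⟩ : ∃ e', e = e' + 1 := ⟨e - 1, (Nat.sub_add_cancel he).symm⟩
  have hiwe : i * w ^ (e' + 1) * i = w ^ (e' + 1) := by
    have a1 : i * w ^ (e' + 1) = w ^ (e' + 1) := by rw [pow_succ', ← mul_assoc, h3]
    have a2 : w ^ (e' + 1) * i = w ^ (e' + 1) := by rw [pow_succ, mul_assoc, h4]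
    rw [a1, a2]
  obtain ⟨r, hr⟩ := ls.cor _ hweC
  rw [hiwe] at hr
  have hww : ∀ m : ℕ, w ^ (m + 1) * w' ^ (m + 1) = i := by
    intro m
    induction m with
    | zero => simpa using h7
    | succ m ih =>
      calc w ^ (m + 1 + 1) * w' ^ (m + 1 + 1) = w ^ (m + 1) * (w * w') * w' ^ (m + 1) := by
            rw [pow_succ w (m + 1), pow_succ' w' (m + 1)]; simp only [mul_assoc]
        _ = w ^ (m + 1) * (i * w' ^ (m + 1)) := by rw [h7, mul_assoc]
        _ = w ^ (m + 1) * w' ^ (m + 1) := by rw [pow_succ' w' m, ← mul_assoc i, h5]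
        _ = i := ih
  have hr0 : r 0 ≠ 0 := by
    intro h0
    have a1 := nil_of_zero ls r h0
    rw [← hr, ← pow_mul] at a1
    obtain ⟨N, hN⟩ : ∃ N, (e' + 1) * q = N + 1 :=
      ⟨(e' + 1) * q - 1, (Nat.sub_add_cancel (Nat.mul_pos (Nat.succ_pos _) hq)).symm⟩
    apply hi0
    rw [← hww N, ← hN, a1, zero_mul]
  obtain ⟨c, hcC, hc⟩ := factor_z ls (fun m => if m = 0 then 0 else r m) (by simp)
  refine ⟨r 0, ⟨h1, h2, h3, h4, h5, h6, h7, h8, kz, kz', fun j => rz j h7, fun j => rz' j h8,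
    ⟨c, ?_⟩, hr0⟩⟩
  rw [ls.zc c hcC, ← hc, hr]
  have a2 : ∀ m ∈ Finset.range q, r m • (z ^ m * i) =
      (if m = 0 then r 0 • i else 0) + (if m = 0 then 0 else r m) • (z ^ m * i) := by
    intro m _
    by_cases hm : m = 0
    · subst hm; simp
    · simp [hm]
  rw [Finset.sum_congr rfl a2, Finset.sum_add_distrib, Finset.sum_ite_eq']
  simp [hq]

end Cfsg.Agent.Lib.H81CycW2
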