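import Cfsg.Agent.Lib.Helper81KulMain
import Cfsg.Agent.Lib.Helper78IndPair
import Cfsg.Agent.Lib.Helper80StarFree2
import Cfsg.Agent.Lib.Helper81CycDefs
import Cfsg.Agent.Lib.H81CycW1
import Cfsg.Agent.Lib.H81CycW2
import Cfsg.Agent.Lib.H81CycROOT
import Cfsg.Agent.Lib.H81CycST3
import Cfsg.Agent.Lib.H81CycDESC
import Cfsg.Agent.Lib.H81CycTWO
import Cfsg.Agent.Lib.H81CycISO
import Cfsg.Agent.Lib.H81CycTAU

set_option autoImplicit false

namespace Cfsg.Agent.Lib.H81CycABS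
open Cfsg
open Cfsg.Agent.Lib.Helper81Local Cfsg.Agent.Lib.Helper20GA Cfsg.Agent.Lib.Helper80IdemDefs
open Cfsg.Agent.Lib.Helper80StarDefs Cfsg.Agent.Lib.Helper4ModRed Cfsg.Agent.Lib.Helper80StarProps
open Cfsg.Agent.Lib.Helper81KulDefs Cfsg.Agent.Lib.Helper81KulGDefs
open Cfsg.Agent.Lib.Helper91StarBASIC Cfsg.Agent.Lib.Helper80Brauer Cfsg.Agent.Lib.Helper80Trace
open Cfsg.Agent.Lib.Helper81CycDefs Cfsg.Agent.Lib.Helper80Incl

universe u

/-- piece `A-ABS`: the abstract theorem (assembly of part M). -/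
theorem cyc_abs {k G A : Type*} [Field k] [IsAlgClosed k] [Group G] [Fintype G] [Ring A]
    [Algebra k A] [Module.Finite k A] (p : ℕ) [Fact p.Prime] [CharP k p] {of : G →* A}
    {lam : A →ₗ[k] k}
    (hlam : ∀ g, lam (of g) = (open Classical in if g = 1 then 1 else 0))
    (hspan : ∀ b : A, b ∈ kS k of (Set.univ : Set G))
    {D C T H : Subgroup G} {t₀ x₀ : G} {e q : ℕ} {β z i : A} {n : ℕ} {x y : Fin n → A} {c : A}
    {X : Finset G} (εf : G → k) (gd : GD p D C T H t₀ x₀ e) (ls : LS k of C q β z i x y)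
    (bd : BD k of lam D C T H β c (∑ g, εf g • of g) X) (he : (e : k) ≠ 0) :
    ∃ τ : Fin e → G → k, LinearIndependent k τ ∧ (∀ j g h, τ j (h * g * h⁻¹) = τ j g) ∧
      (∀ j s u, Commute s u → (∃ n : ℕ, u ^ p ^ n = 1) → τ j (s * u) = τ j s) ∧
      (∀ j g, ∑ u, εf u * τ j (u * g) = τ j g) := by
  classical
  have ht₀H : t₀ ∈ H := gd.TH gd.t₀T
  have hn : ∀ g ∈ C, t₀ * g * t₀⁻¹ ∈ C := fun g hg => gd.nC t₀ ht₀H g hg
  have hn' : ∀ g ∈ C, t₀⁻¹ * g * t₀ ∈ C := fun g hg => by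
    have := gd.nC t₀⁻¹ (H.inv_mem ht₀H) g hg
    simpa using this
  obtain ⟨w, w', h1, h2, h3, h4, h5, h6, h7, h8⟩ :=
    H81CycW1.exists_w ls hn hn' (bd.βT t₀ gd.t₀T)
  obtain ⟨c₀, ws⟩ := H81CycW2.ws_of_w ls hn hn' gd.epos gd.te h1 h2 h3 h4 h5 h6 h7 h8
  obtain ⟨μ, hμi, hμ⟩ := H81CycROOT.exists_roots e he c₀ ws.c₀
  have hstep : ∀ j : Fin e, ∃ I : Submodule A A, IsSimpleModule A (A ⧸ I) ∧
      (∀ v : A ⧸ I, (∑ g, εf g • of g) • v = v) ∧ HasW i z w q (μ j) (A ⧸ I) := by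
    intro j
    obtain ⟨hW, hε⟩ := H81CycST3.exists_hasW p hlam hspan gd ls ws bd (μ j) (hμ j)
    have hfl : IsFiniteLength A
        (Submodule.span A {(∑ g, εf g • of g) * (z ^ (q - 1) * i)}) := by
      rw [isFiniteLength_iff_isNoetherian_isArtinian]
      have hN : IsNoetherian A A := isNoetherian_of_tower k inferInstance
      have hA : IsArtinian A A := isArtinian_of_tower k inferInstance
      exact ⟨inferInstance, inferInstance⟩
    exact H81CycDESC.descent ls ws he hn hn' (μ j) (hμ j) _ hfl hε hW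
  choose I hs hε hW using hstep
  refine H81CycTAU.tau_of_simples p hspan εf I hs hε ?_
  intro j j' hjj'
  refine ⟨fun f => ?_⟩
  haveI := hs j'
  exact H81CycTWO.not_two hspan gd ls ws bd he (I j') (μ j) (μ j') (fun h => hjj' (hμi h))
    (H81CycISO.hasW_of_equiv f (μ j) (hW j)) (hW j')

end Cfsg.Agent.Lib.H81CycABS
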