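import Cfsg.Agent.Lib.Helper81KulMain
import Cfsg.Agent.Lib.Helper78IndPair
import Cfsg.Agent.Lib.Helper80StarFree2
import Cfsg.Agent.Lib.Helper81CycDefs

set_option autoImplicit false
set_option linter.unusedSectionVars false
set_option linter.unusedVariables false

namespace Cfsg.Agent.Lib.H81CycBR
open Cfsg
open Cfsg.Agent.Lib.Helper81Local Cfsg.Agent.Lib.Helper20GA Cfsg.Agent.Lib.Helper80IdemDefs
open Cfsg.Agent.Lib.Helper80StarDefs Cfsg.Agent.Lib.Helper4ModRed Cfsg.Agent.Lib.Helper80StarProps
open Cfsg.Agent.Lib.Helper81KulDefs Cfsg.Agent.Lib.Helper81KulGDefs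
open Cfsg.Agent.Lib.Helper91StarBASIC Cfsg.Agent.Lib.Helper80Brauer Cfsg.Agent.Lib.Helper80Trace
open Cfsg.Agent.Lib.Helper81CycDefs Cfsg.Agent.Lib.Helper80Incl
open Cfsg.Agent.Lib.Helper20Center Cfsg.Agent.Lib.Helper80Conj Cfsg.Agent.Lib.Helper78MajP
open Cfsg.Agent.Lib.Helper20Induced Cfsg.Agent.Lib.Helper20Block Cfsg.Agent.Lib.Helper20BrMap
open Cfsg.Agent.Lib.Helper80Pairs Cfsg.Agent.Lib.Helper80Stab

universe u

variable {p : ℕ} [Fact p.Prime] {M : Ideal AlgInt} [M.IsPrime] {G : Type u} [Group G] [Fintype G]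

/-- piece `N-BR`: `Br_P(e_B) e = e` for a Brauer pair `(P, e)` of `B` (copy of the proof of
`Helper80StarBR.brMulP`). -/
theorem br_eps (hM : IsPModular p M) {B : Set (IrrCharacter G)} {P : Subgroup G}
    {e : Set (IrrCharacter (Subgroup.centralizer (P : Set G)))} (h : IsBrauerPairOf p M B P e) :
    BrZ P (epsA M B * pfA M P e - pfA M P e) := by
  classical
  have hPr : M.IsPrime := ‹_›
  obtain ⟨hPe, hB, hlam⟩ := isBrauerPairOf_iff.mp h
  have hSC := isSC_blockCoeff hPr hB
  have hφRV : RV M (blockCoeff B) := hSC.2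
  have hφC : IsInv (Subgroup.centralizer (P : Set G)) (blockCoeff B) :=
    isInv_of_isClassFunction _ hSC.1
  have hInvP : IsInv P (blockCoeff B) := isInv_of_isClassFunction _ hSC.1
  have hφφ : conv (blockCoeff B) (blockCoeff B) = blockCoeff B :=
    Helper80Stab.conv_blockCoeff_self B
  -- work in the ring `GA C`
  obtain ⟨r, hr⟩ : ∃ r : GA (Subgroup.centralizer (P : Set G)),
      r = res (Subgroup.centralizer (P : Set G)) (blockCoeff B) := ⟨_, rfl⟩
  obtain ⟨b, hb⟩ : ∃ b : GA (Subgroup.centralizer (P : Set G)), b = blockCoeff e := ⟨_, rfl⟩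
  have hrSC : IsSC M (r : Subgroup.centralizer (P : Set G) → ℂ) := by
    rw [hr]; exact isSC_res hφRV hφC
  have hbSC : IsSC M (b : Subgroup.centralizer (P : Set G) → ℂ) := by
    rw [hb]; exact isSC_blockCoeff hPr hPe.2
  have hbb : b * b = b := by
    rw [hb]; exact Helper80Stab.conv_blockCoeff_self e
  have hbc : ∀ x : GA (Subgroup.centralizer (P : Set G)), b * x = x * b :=
    fun x => (commute_of_class hbSC.1 x)
  have hrr : ∀ x, MemLocalIdeal M ((r * r - r : GA (Subgroup.centralizer (P : Set G))) x) := by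
    intro x
    have h1 := res_conv_mem hM hPe.1 hφRV hφRV hInvP hInvP x
    rw [hφφ] at h1
    have h2 := memLocalIdeal_neg h1
    rw [neg_sub] at h2
    rw [hr]
    exact h2
  obtain ⟨w, hw⟩ : ∃ w : GA (Subgroup.centralizer (P : Set G)), w = (1 - r) * b := ⟨_, rfl⟩
  have hwSC : IsSC M (w : Subgroup.centralizer (P : Set G) → ℂ) := by
    rw [hw]
    exact IsSC.conv hPr (IsSC.sub hPr (isSC_delta hPr) hrSC) hbSC
  have hww : w * w - w = (r * r - r) * b := by
    have e1 : w * w = (1 - r) * (1 - r) * b := by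
      rw [hw]
      calc (1 - r) * b * ((1 - r) * b) = (1 - r) * (b * (1 - r)) * b := by noncomm_ring
        _ = (1 - r) * ((1 - r) * b) * b := by rw [hbc]
        _ = (1 - r) * (1 - r) * (b * b) := by noncomm_ring
        _ = (1 - r) * (1 - r) * b := by rw [hbb]
    rw [e1, hw]
    noncomm_ring
  have hidem : ∀ x, MemLocalIdeal M (conv (w : Subgroup.centralizer (P : Set G) → ℂ) w x - w x) := by
    intro x
    have : conv (w : Subgroup.centralizer (P : Set G) → ℂ) w x - w x = (w * w - w) x := rfl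
    rw [this, hww, Helper20GA.mul_apply]
    apply memLocalIdeal_sum
    intro y _
    exact memLocalIdeal_mul_right (hrr y) (hbSC.2 _)
  have hom : ∀ ψ : IrrCharacter (Subgroup.centralizer (P : Set G)),
      MemLocalIdeal M (omVec (w : Subgroup.centralizer (P : Set G) → ℂ) ψ) := by
    intro ψ
    have e1 : omVec (w : Subgroup.centralizer (P : Set G) → ℂ) ψ
        = (1 - lam (Subgroup.centralizer (P : Set G)) (ψ : Subgroup.centralizer (P : Set G) → ℂ)
            (blockCoeff B)) * (if ψ ∈ e then 1 else 0) := by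
      unfold omVec
      have hwf : (w : Subgroup.centralizer (P : Set G) → ℂ)
          = conv ((delta : Subgroup.centralizer (P : Set G) → ℂ)
              - res (Subgroup.centralizer (P : Set G)) (blockCoeff B)) (blockCoeff e) := by
        rw [hw, hr, hb]; rfl
      have hrSC' : IsSC M (res (Subgroup.centralizer (P : Set G)) (blockCoeff B)) := isSC_res hφRV hφC
      have hbSC' : IsSC M (blockCoeff e) := isSC_blockCoeff hPr hPe.2
      rw [hwf, om_conv ψ.2 (IsSC.sub hPr (isSC_delta hPr) hrSC').1 hbSC'.1, om_sub,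
        om_delta (Cfsg.Agent.Lib.Helper82Schur.irr_one_ne_zero ψ), om_blockCoeff]
      rfl
    rw [e1]
    split_ifs with hψ
    · rw [mul_one]
      have := memLocalIdeal_neg (hlam ψ hψ)
      rw [neg_sub] at this
      exact this
    · rw [mul_zero]; exact memLocalIdeal_zero
  intro g hg
  have hfin := mem_ideal_of_idem_of_om hPr hwSC hidem hom ⟨g, hg⟩
  have e2 : fn (epsA M B * pfA M P e - pfA M P e) g = - w ⟨g, hg⟩ := by
    rw [fn_sub, fn_mul, Helper38KulEPS.fn_epsA hB, fn_pfA hPe.2]
    have e3 : w ⟨g, hg⟩ = b ⟨g, hg⟩ - (r * b) ⟨g, hg⟩ := by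
      rw [hw, sub_mul, one_mul]; rfl
    have e4 : (r * b) ⟨g, hg⟩ = conv (blockCoeff B) (pfun P e) g := by
      rw [Helper20GA.mul_apply, hr, hb]
      unfold Helper20Center.conv
      have := sum_subgroup (Subgroup.centralizer (P : Set G))
        (fun x : G => blockCoeff B x * pfun P e (x⁻¹ * g))
      rw [show (∑ x : Subgroup.centralizer (P : Set G),
          res (Subgroup.centralizer (P : Set G)) (blockCoeff B) x * blockCoeff e (x⁻¹ * ⟨g, hg⟩))
          = ∑ x : Subgroup.centralizer (P : Set G), blockCoeff B x * pfun P e ((x : G)⁻¹ * g) from ?_,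
        this]
      · apply Finset.sum_congr rfl
        intro x _
        split_ifs with hx
        · rfl
        · have : x⁻¹ * g ∉ Subgroup.centralizer (P : Set G) := by
            intro h
            apply hx
            have h2 := (Subgroup.centralizer (P : Set G)).mul_mem hg
              ((Subgroup.centralizer (P : Set G)).inv_mem h)
            simpa using h2
          have h0 : pfun P e (x⁻¹ * g) = 0 := ext_not_mem _ this
          rw [h0, mul_zero]
      · apply Finset.sum_congr rfl
        intro x _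
        have : ((x : G)⁻¹ * g) = ((x⁻¹ * ⟨g, hg⟩ : Subgroup.centralizer (P : Set G)) : G) := rfl
        have h0 : pfun P e ((x : G)⁻¹ * g) = blockCoeff e (x⁻¹ * ⟨g, hg⟩) := by
          rw [this]; exact ext_coe _ _
        rw [h0]
        rfl
    have e5 : b ⟨g, hg⟩ = pfun P e g := by
      rw [hb]; exact (ext_mem _ hg).symm
    rw [e3, e4, e5]
    simp only [Pi.sub_apply]
    ring
  rw [e2]
  exact memLocalIdeal_neg hfin

end Cfsg.Agent.Lib.H81CycBR
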