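import Cfsg.Agent.Lib.Helper81KulMain
import Cfsg.Agent.Lib.Helper78IndPair
import Cfsg.Agent.Lib.Helper80StarFree2
import Cfsg.Agent.Lib.Helper81CycDefs

set_option autoImplicit false

namespace Cfsg.Agent.Lib.H81CycBR2
open Cfsg
open Cfsg.Agent.Lib.Helper81Local Cfsg.Agent.Lib.Helper20GA Cfsg.Agent.Lib.Helper80IdemDefs
open Cfsg.Agent.Lib.Helper80StarDefs Cfsg.Agent.Lib.Helper4ModRed Cfsg.Agent.Lib.Helper80StarProps
open Cfsg.Agent.Lib.Helper81KulDefs Cfsg.Agent.Lib.Helper81KulGDefs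
open Cfsg.Agent.Lib.Helper91StarBASIC Cfsg.Agent.Lib.Helper80Brauer Cfsg.Agent.Lib.Helper80Trace
open Cfsg.Agent.Lib.Helper81CycDefs Cfsg.Agent.Lib.Helper80Incl

universe u

variable {p : ℕ} [Fact p.Prime] {M : Ideal AlgInt} [M.IsPrime] {G : Type u} [Group G] [Fintype G]

/-- the coefficients of the reduction. -/
theorem coeff_isRed {φ : OA M G →+* MonoidAlgebra (kk M) G} (hφ : IsRed φ) (a : OA M G) (g : G) :
    (φ a).coeff g = IsLocalRing.residue (Rt M) ⟨fn a g, rv_fn a g⟩ := by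
  classical
  conv_lhs => rw [eq_sum_smul_ptA a]
  rw [map_sum, MonoidAlgebra.coeff_sum, Finsupp.finsetSum_apply, Finset.sum_eq_single g]
  · rw [hφ.smul, hφ.pt]
    simp [MonoidAlgebra.of]
  · intro b _ hb
    rw [hφ.smul, hφ.pt]
    simp [MonoidAlgebra.of, Finsupp.single_eq_of_ne (Ne.symm hb)]
  · intro h
    exact absurd (Finset.mem_univ _) h

/-- piece `N-BR2`: from `BrZ` to the form `lamk`. -/
theorem lam_of_brZ {φ : OA M G →+* MonoidAlgebra (kk M) G} (hφ : IsRed φ) {P : Subgroup G}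
    {a : OA M G} (h : BrZ P a) (g : G) (hg : g ∈ Subgroup.centralizer (P : Set G)) :
    lamk (kk M) G (φ a * MonoidAlgebra.of (kk M) G g) = 0 := by
  rw [← hφ.pt, ← map_mul]
  change (φ (a * ptA M g)).coeff 1 = 0
  rw [coeff_isRed hφ, IsLocalRing.residue_eq_zero_iff, mem_maximalIdeal_Rt_iff]
  change MemLocalIdeal M (fn (a * ptA M g) 1)
  rw [fn_mul_ptA, one_mul]
  exact h _ (Subgroup.inv_mem _ hg)

end Cfsg.Agent.Lib.H81CycBR2
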