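import Mathlib
import Cfsg.Agent.Lib.Helper81CycDefs

set_option autoImplicit false

namespace Cfsg.Agent.Lib.H81CycMAP
open Cfsg.Agent.Lib.Helper81CycDefs

universe u

section tools
variable {k : Type*} [Field k] {G : Type*} [Group G] (C : Subgroup G)

theorem j_of (c : C) : MonoidAlgebra.mapDomainRingHom k C.subtype (MonoidAlgebra.of k C c)
    = MonoidAlgebra.of k G (c : G) := by
  simp [MonoidAlgebra.of_apply, MonoidAlgebra.mapDomain_single]

theorem j_smul (r : k) (a : MonoidAlgebra k C) : MonoidAlgebra.mapDomainRingHom k C.subtype (r • a)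
    = r • MonoidAlgebra.mapDomainRingHom k C.subtype a :=
  MonoidAlgebra.mapDomain_smul _ r a

theorem j_inj : Function.Injective (MonoidAlgebra.mapDomainRingHom k C.subtype) :=
  MonoidAlgebra.mapDomain_injective C.subtype_injective

theorem mem_kS_top (a : MonoidAlgebra k C) :
    a ∈ kS k (MonoidAlgebra.of k C) ((⊤ : Subgroup C) : Set C) := by
  induction a using MonoidAlgebra.induction_on with
  | of g => exact Submodule.subset_span ⟨g, trivial, rfl⟩
  | add a b ha hb => exact Submodule.add_mem _ ha hb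
  | smul r a ha => exact Submodule.smul_mem _ r ha

theorem j_mem (a : MonoidAlgebra k C) :
    MonoidAlgebra.mapDomainRingHom k C.subtype a ∈ kS k (MonoidAlgebra.of k G) (C : Set G) := by
  induction a using MonoidAlgebra.induction_on with
  | of g => rw [j_of]; exact Submodule.subset_span ⟨g, g.2, rfl⟩
  | add a b ha hb => rw [map_add]; exact Submodule.add_mem _ ha hb
  | smul r a ha => rw [j_smul]; exact Submodule.smul_mem _ r ha

theorem exists_j {a : MonoidAlgebra k G} (ha : a ∈ kS k (MonoidAlgebra.of k G) (C : Set G)) :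
    ∃ a', MonoidAlgebra.mapDomainRingHom k C.subtype a' = a := by
  unfold kS at ha
  induction ha using Submodule.span_induction with
  | mem x hx =>
    obtain ⟨g, hg, rfl⟩ := hx
    exact ⟨MonoidAlgebra.of k C ⟨g, hg⟩, j_of C ⟨g, hg⟩⟩
  | zero => exact ⟨0, map_zero _⟩
  | add x y _ _ hx hy =>
    obtain ⟨x', rfl⟩ := hx
    obtain ⟨y', rfl⟩ := hy
    exact ⟨x' + y', map_add _ _ _⟩
  | smul r x _ hx =>
    obtain ⟨x', rfl⟩ := hx
    exact ⟨r • x', j_smul C r x'⟩

end tools

/-- piece `N-MAP`: transport of the local structure from `k[C]` (the group algebra of the group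
`↥C`) to `k[G]`. -/
theorem ls_map {k : Type*} [Field k] {G : Type*} [Group G] (C : Subgroup G) {q : ℕ}
    {β z i : MonoidAlgebra k C} {n : ℕ} {x y : Fin n → MonoidAlgebra k C}
    (ls : LS k (MonoidAlgebra.of k C) ⊤ q β z i x y) :
    LS k (MonoidAlgebra.of k G) C q
      (MonoidAlgebra.mapDomainRingHom k C.subtype β) (MonoidAlgebra.mapDomainRingHom k C.subtype z)
      (MonoidAlgebra.mapDomainRingHom k C.subtype i)
      (fun s => MonoidAlgebra.mapDomainRingHom k C.subtype (x s))
      (fun s => MonoidAlgebra.mapDomainRingHom k C.subtype (y s)) where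
  βC := j_mem C β
  ββ := by rw [← map_mul, ls.ββ]
  βc := by
    intro a ha
    obtain ⟨a', rfl⟩ := exists_j C ha
    rw [← map_mul, ← map_mul, ls.βc a' (mem_kS_top C a')]
  zC := j_mem C z
  zc := by
    intro a ha
    obtain ⟨a', rfl⟩ := exists_j C ha
    rw [← map_mul, ← map_mul, ls.zc a' (mem_kS_top C a')]
  βz := by rw [← map_mul, ls.βz]
  zq := by rw [← map_pow, ls.zq, map_zero]
  iC := j_mem C i
  ii := by rw [← map_mul, ls.ii]
  βi := by rw [← map_mul, ls.βi]
  xC := fun s => j_mem C (x s)
  yC := fun s => j_mem C (y s)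
  dec := by
    conv_lhs => rw [ls.dec]
    rw [map_sum]
    apply Finset.sum_congr rfl
    intro s _
    rw [map_mul, map_mul]
  cor := by
    intro a ha
    obtain ⟨a', rfl⟩ := exists_j C ha
    obtain ⟨r, hr⟩ := ls.cor a' (mem_kS_top C a')
    refine ⟨r, ?_⟩
    rw [← map_mul, ← map_mul, hr, map_sum]
    apply Finset.sum_congr rfl
    intro m _
    rw [j_smul, map_mul, map_pow]
  ne := by
    intro h
    apply ls.ne
    apply j_inj C
    rw [map_mul, map_pow, h, map_zero]
  q2 := ls.q2

end Cfsg.Agent.Lib.H81CycMAP
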