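import Mathlib
import Cfsg.Agent.Lib.Helper81CycDefs
import Cfsg.Agent.Lib.H81CycMAP

set_option autoImplicit false

namespace Cfsg.Agent.Lib.H81CycMAP2
open Cfsg.Agent.Lib.Helper81CycDefs Cfsg.Agent.Lib.H81CycMAP

universe u

/-- piece `N-MAP2`: transport of the relative trace formula. -/
theorem tr_map {k : Type*} [Field k] {G : Type*} [Group G] [DecidableEq G] (C : Subgroup G)
    {P : Subgroup C} {β c : MonoidAlgebra k C} {X : Finset C} (hX : IsLT X P ⊤)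
    (hc : ∀ d ∈ P, MonoidAlgebra.of k C d * c = c * MonoidAlgebra.of k C d)
    (hβ : β = ∑ x ∈ X, MonoidAlgebra.of k C x * c * MonoidAlgebra.of k C x⁻¹) :
    IsLT (X.image (fun x : C => (x : G))) (P.map C.subtype) C ∧
      MonoidAlgebra.mapDomainRingHom k C.subtype c ∈ kS k (MonoidAlgebra.of k G) (C : Set G) ∧
      (∀ d ∈ P.map C.subtype, MonoidAlgebra.of k G d * MonoidAlgebra.mapDomainRingHom k C.subtype c
        = MonoidAlgebra.mapDomainRingHom k C.subtype c * MonoidAlgebra.of k G d) ∧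
      MonoidAlgebra.mapDomainRingHom k C.subtype β
        = ∑ x ∈ X.image (fun x : C => (x : G)), MonoidAlgebra.of k G x *
            MonoidAlgebra.mapDomainRingHom k C.subtype c * MonoidAlgebra.of k G x⁻¹ := by
  refine ⟨⟨?_, ?_⟩, j_mem C c, ?_, ?_⟩
  · intro x hx
    obtain ⟨x', -, rfl⟩ := Finset.mem_image.mp hx
    exact x'.2
  · intro g hg
    obtain ⟨x', ⟨hx'X, hx'⟩, huniq⟩ := hX.2 ⟨g, hg⟩ (Subgroup.mem_top _)
    refine ⟨(x' : G), ⟨Finset.mem_image.mpr ⟨x', hx'X, rfl⟩, ⟨_, hx', rfl⟩⟩, ?_⟩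
    rintro y ⟨hy, hy2⟩
    obtain ⟨y', hy'X, rfl⟩ := Finset.mem_image.mp hy
    obtain ⟨d, hd, hd2⟩ := hy2
    have h1 : y'⁻¹ * ⟨g, hg⟩ = d := by
      apply Subtype.ext
      exact hd2.symm
    rw [huniq y' ⟨hy'X, by rw [h1]; exact hd⟩]
  · rintro _ ⟨d, hd, rfl⟩
    show MonoidAlgebra.of k G (d : G) * _ = _ * MonoidAlgebra.of k G (d : G)
    rw [← j_of, ← map_mul, ← map_mul, hc d hd]
  · rw [Finset.sum_image (fun a _ b _ h => Subtype.ext h), hβ, map_sum]
    apply Finset.sum_congr rfl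
    intro x _
    rw [map_mul, map_mul, j_of, j_of]
    rfl

end Cfsg.Agent.Lib.H81CycMAP2
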