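import Cfsg.Agent.Lib.Helper81KulMain
import Cfsg.Agent.Lib.Helper78IndPair
import Cfsg.Agent.Lib.Helper80StarFree2
import Cfsg.Agent.Lib.Helper81CycDefs
import Cfsg.Agent.Lib.H81CycBR2

set_option autoImplicit false

namespace Cfsg.Agent.Lib.H81CycPF
open Cfsg
open Cfsg.Agent.Lib.Helper81Local Cfsg.Agent.Lib.Helper20GA Cfsg.Agent.Lib.Helper80IdemDefs
open Cfsg.Agent.Lib.Helper80StarDefs Cfsg.Agent.Lib.Helper4ModRed Cfsg.Agent.Lib.Helper80StarProps
open Cfsg.Agent.Lib.Helper81KulDefs Cfsg.Agent.Lib.Helper81KulGDefs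
open Cfsg.Agent.Lib.Helper91StarBASIC Cfsg.Agent.Lib.Helper80Brauer Cfsg.Agent.Lib.Helper80Trace
open Cfsg.Agent.Lib.Helper81CycDefs Cfsg.Agent.Lib.Helper80Incl

universe u

variable {p : ℕ} [Fact p.Prime] {M : Ideal AlgInt} [M.IsPrime] {G : Type u} [Group G] [Fintype G]

/-- piece `N-PF`: the block idempotent of `C_G(Q)` in `k G` and in `k C_G(Q)`. -/
theorem red_pfA {φ : OA M G →+* MonoidAlgebra (kk M) G} (hφ : IsRed φ) {Q : Subgroup G}
    [Fintype (Subgroup.centralizer (Q : Set G))]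
    {φC : OA M (Subgroup.centralizer (Q : Set G)) →+*
      MonoidAlgebra (kk M) (Subgroup.centralizer (Q : Set G))} (hφC : IsRed φC)
    {f : Set (IrrCharacter (Subgroup.centralizer (Q : Set G)))} (hf : IsPBlock M f) :
    φ (pfA M Q f) = MonoidAlgebra.mapDomainRingHom (kk M) (Subgroup.centralizer (Q : Set G)).subtype
      (φC (epsA M f)) := by
  classical
  apply MonoidAlgebra.coeff_injective
  ext g
  rw [H81CycBR2.coeff_isRed hφ]
  change _ = (Finsupp.mapDomain (Subgroup.centralizer (Q : Set G)).subtype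
    (φC (epsA M f)).coeff) g
  by_cases hg : g ∈ Subgroup.centralizer (Q : Set G)
  · have h1 := Finsupp.mapDomain_apply (Subgroup.subtype_injective (Subgroup.centralizer (Q : Set G)))
      (φC (epsA M f)).coeff ⟨g, hg⟩
    have h2 : (Subgroup.centralizer (Q : Set G)).subtype ⟨g, hg⟩ = g := rfl
    rw [h2] at h1
    rw [h1, H81CycBR2.coeff_isRed hφC]
    congr 1
    apply Subtype.ext
    change fn (pfA M Q f) g = fn (epsA M f) ⟨g, hg⟩
    rw [fn_pfA hf, Helper38KulEPS.fn_epsA hf]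
    exact ext_mem _ hg
  · rw [Finsupp.mapDomain_of_notMem_range]
    · rw [IsLocalRing.residue_eq_zero_iff, mem_maximalIdeal_Rt_iff]
      change MemLocalIdeal M (fn (pfA M Q f) g)
      rw [fn_pfA hf, show pfun Q f g = 0 from ext_not_mem _ hg]
      exact memLocalIdeal_zero
    · rintro ⟨c, rfl⟩
      exact hg c.2

end Cfsg.Agent.Lib.H81CycPF
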