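import Cfsg.Agent.Lib.Helper81KulMain
import Cfsg.Agent.Lib.Helper78IndPair
import Cfsg.Agent.Lib.Helper80StarFree2
import Cfsg.Agent.Lib.Helper81CycDefs

set_option autoImplicit false

namespace Cfsg.Agent.Lib.H81CycSTAB
open Cfsg
open Cfsg.Agent.Lib.Helper81Local Cfsg.Agent.Lib.Helper20GA Cfsg.Agent.Lib.Helper80IdemDefs
open Cfsg.Agent.Lib.Helper80StarDefs Cfsg.Agent.Lib.Helper4ModRed Cfsg.Agent.Lib.Helper80StarProps
open Cfsg.Agent.Lib.Helper81KulDefs Cfsg.Agent.Lib.Helper81KulGDefs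
open Cfsg.Agent.Lib.Helper91StarBASIC Cfsg.Agent.Lib.Helper80Brauer Cfsg.Agent.Lib.Helper80Trace
open Cfsg.Agent.Lib.Helper81CycDefs Cfsg.Agent.Lib.Helper80Incl

universe u

variable {p : ℕ} [Fact p.Prime] {M : Ideal AlgInt} [M.IsPrime] {G : Type u} [Group G] [Fintype G]

/-- piece `N-STAB`: conjugates of the block idempotent. -/
theorem stab_pfA {φ : OA M G →+* MonoidAlgebra (kk M) G} (hφ : IsRed φ) {Q : Subgroup G}
    {f : Set (IrrCharacter (Subgroup.centralizer (Q : Set G)))} (hf : IsPBlock M f) :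
    (∀ t ∈ pstab Q f, MonoidAlgebra.of (kk M) G t * φ (pfA M Q f)
      = φ (pfA M Q f) * MonoidAlgebra.of (kk M) G t) ∧
    ∀ h ∈ Subgroup.normalizer (Q : Set G), h ∉ pstab Q f →
      φ (pfA M Q f) * (MonoidAlgebra.of (kk M) G h * φ (pfA M Q f) * MonoidAlgebra.of (kk M) G h⁻¹)
        = 0 := by
  classical
  constructor
  · intro t ht
    have h1 : pfA M Q f ∈ Fix M (pstab Q f) := by
      rw [mem_Fix_iff, fn_pfA hf]
      exact Helper80Stab.isInv_stabFun _ _
    have h2 := mem_Fix_iff'.mp h1 t ht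
    rw [← hφ.pt, ← map_mul, ← map_mul, h2]
  · intro h hh hns
    have hc := mem_normalizer_centralizer hh
    set f' := Helper80Transport.mapBlk (Helper80Transport.cjEquiv h _ _ hc) f with hf'def
    have hf' : IsPBlock M f' := Helper80Transport.isPBlock_mapBlk _ hf
    have e1 : pfun Q f' = Helper80Transport.cjf h (pfun Q f) :=
      Helper80Transport.ext_blockCoeff_mapBlk h _ _ hc f
    have e2 : ptA M h * pfA M Q f * ptA M h⁻¹ = pfA M Q f' := by
      apply fn_injective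
      funext x
      rw [fn_conj, fn_pfA hf, fn_pfA hf', e1]
      rfl
    have hne : f ≠ f' := by
      intro heq
      apply hns
      refine Helper80Stab.mem_stabFun.mpr ⟨hh, ?_⟩
      rw [← e1, ← heq]
    rw [← hφ.pt, ← hφ.pt, ← map_mul, ← map_mul, ← map_mul, e2, pfA_mul_ne hf hf' hne, map_zero]

end Cfsg.Agent.Lib.H81CycSTAB
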