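import Cfsg.Agent.Lib.Helper81KulMain
import Cfsg.Agent.Lib.Helper78IndPair
import Cfsg.Agent.Lib.Helper80StarFree2
import Cfsg.Agent.Lib.Helper81CycDefs
import Cfsg.Agent.Lib.H81CycTS1
import Cfsg.Agent.Lib.H81CycTS2
import Cfsg.Agent.Lib.H81CycTS3

set_option autoImplicit false

namespace Cfsg.Agent.Lib.H81CycTR
open Cfsg
open Cfsg.Agent.Lib.Helper81Local Cfsg.Agent.Lib.Helper20GA Cfsg.Agent.Lib.Helper80IdemDefs
open Cfsg.Agent.Lib.Helper80StarDefs Cfsg.Agent.Lib.Helper4ModRed Cfsg.Agent.Lib.Helper80StarProps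
open Cfsg.Agent.Lib.Helper81KulDefs Cfsg.Agent.Lib.Helper81KulGDefs
open Cfsg.Agent.Lib.Helper91StarBASIC Cfsg.Agent.Lib.Helper80Brauer Cfsg.Agent.Lib.Helper80Trace
open Cfsg.Agent.Lib.Helper81CycDefs Cfsg.Agent.Lib.Helper80Incl

universe u

section pure

open Cfsg.Agent.Lib.H81CycTS1 Cfsg.Agent.Lib.H81CycTS2 Cfsg.Agent.Lib.H81CycTS3

variable {k : Type*} [Field k] {G : Type*} [Group G] [Fintype G]

theorem card_eq_sum (L : Subgroup G) :
    (open Classical in ∑ g : G, if g ∈ L then (1 : ℕ) else 0) = Nat.card ↥L := by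
  classical
  rw [Finset.sum_boole, Nat.card_eq_fintype_card, Fintype.card_subtype]
  simp

theorem trace_class (D : Subgroup G) {X : Finset G} (hX : IsLT X D ⊤) (h : G) :
    ∃ (c : MonoidAlgebra k G) (n : ℕ),
      n * Nat.card ↥(D ⊓ Subgroup.centralizer {h}) = Nat.card ↥(Subgroup.centralizer ({h} : Set G)) ∧
      (∀ d ∈ D, MonoidAlgebra.of k G d * c = c * MonoidAlgebra.of k G d) ∧
      ∑ x ∈ X, MonoidAlgebra.of k G x * c * MonoidAlgebra.of k G x⁻¹ =
        (n : k) • (open Classical in ∑ g ∈ Finset.univ.filter (fun g => IsConj h g),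
          MonoidAlgebra.of k G g) := by
  classical
  obtain ⟨W, hW⟩ := exists_LT (D ⊓ Subgroup.centralizer {h}) D inf_le_left
  obtain ⟨Y, hY⟩ := exists_LT (Subgroup.centralizer {h}) (⊤ : Subgroup G) le_top
  obtain ⟨U, hU⟩ := exists_LT (D ⊓ Subgroup.centralizer {h}) (Subgroup.centralizer {h}) inf_le_right
  obtain ⟨Z, hZ⟩ := exists_LT (D ⊓ Subgroup.centralizer {h}) (⊤ : Subgroup G) le_top
  obtain ⟨Ξ, hΞdef⟩ : ∃ Ξ : G → MonoidAlgebra k G, ∀ g, Ξ g = MonoidAlgebra.of k G (g * h * g⁻¹) :=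
    ⟨_, fun _ => rfl⟩
  have hΞC : ∀ g, ∀ κ ∈ Subgroup.centralizer ({h} : Set G), Ξ (g * κ) = Ξ g := by
    intro g κ hκ
    rw [hΞdef, hΞdef]
    congr 1
    rw [Subgroup.mem_centralizer_singleton_iff] at hκ
    calc g * κ * h * (g * κ)⁻¹ = g * (κ * h) * κ⁻¹ * g⁻¹ := by group
      _ = g * (h * κ) * κ⁻¹ * g⁻¹ := by rw [hκ]
      _ = g * h * g⁻¹ := by group
  have hΞS : ∀ g, ∀ κ ∈ D ⊓ Subgroup.centralizer ({h} : Set G), Ξ (g * κ) = Ξ g :=
    fun g κ hκ => hΞC g κ hκ.2
  have hconj : ∀ x g, MonoidAlgebra.of k G x * Ξ g * MonoidAlgebra.of k G x⁻¹ = Ξ (x * g) := by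
    intro x g
    rw [hΞdef, hΞdef, ← map_mul, ← map_mul]
    congr 1
    group
  refine ⟨∑ w ∈ W, Ξ w, U.card, ?_, ?_, ?_⟩
  · have := sum_LT_all hU (fun _ => (1 : ℕ)) inf_le_right
    rw [card_eq_sum] at this
    simp only [card_eq_sum] at this
    rw [this, Finset.sum_const, smul_eq_mul]
  · intro d hd
    have h1 : MonoidAlgebra.of k G d * (∑ w ∈ W, Ξ w) * MonoidAlgebra.of k G d⁻¹ = ∑ w ∈ W, Ξ w := by
      rw [Finset.mul_sum, Finset.sum_mul]
      simp only [hconj]
      exact sum_LT_mul_left hW Ξ hΞS d hd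
    calc MonoidAlgebra.of k G d * (∑ w ∈ W, Ξ w)
        = MonoidAlgebra.of k G d * (∑ w ∈ W, Ξ w) * (MonoidAlgebra.of k G d⁻¹ * MonoidAlgebra.of k G d) := by
          rw [← map_mul, inv_mul_cancel, map_one, mul_one]
      _ = (∑ w ∈ W, Ξ w) * MonoidAlgebra.of k G d := by rw [← mul_assoc, h1]
  · have h1 : ∑ x ∈ X, MonoidAlgebra.of k G x * (∑ w ∈ W, Ξ w) * MonoidAlgebra.of k G x⁻¹
        = ∑ x ∈ X, ∑ w ∈ W, Ξ (x * w) := by
      refine Finset.sum_congr rfl fun x _ => ?_
      rw [Finset.mul_sum, Finset.sum_mul]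
      simp only [hconj]
    rw [h1, ← sum_LT_prod hW hX hZ Ξ hΞS inf_le_left le_top,
      sum_LT_prod hU hY hZ Ξ hΞS inf_le_right le_top]
    have h2 : ∑ y ∈ Y, ∑ u ∈ U, Ξ (y * u) = ∑ y ∈ Y, (U.card : k) • Ξ y := by
      refine Finset.sum_congr rfl fun y _ => ?_
      rw [Finset.sum_congr rfl (fun u hu => hΞC y u (hU.1 u hu)), Finset.sum_const,
        Nat.cast_smul_eq_nsmul]
    rw [h2, ← Finset.smul_sum]
    congr 1
    have himg : Finset.univ.filter (fun g => IsConj h g) = Y.image (fun y => y * h * y⁻¹) := by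
      ext g
      simp only [Finset.mem_filter, Finset.mem_univ, true_and, Finset.mem_image]
      constructor
      · intro hg
        obtain ⟨a, rfl⟩ := isConj_iff.1 hg
        obtain ⟨x, ⟨hxY, hxa⟩, -⟩ := hY.2 a (Subgroup.mem_top a)
        refine ⟨x, hxY, ?_⟩
        rw [Subgroup.mem_centralizer_singleton_iff] at hxa
        calc x * h * x⁻¹ = a * ((x⁻¹ * a)⁻¹ * h) * x⁻¹ := by group
          _ = a * ((x⁻¹ * a)⁻¹ * (h * (x⁻¹ * a)) * (x⁻¹ * a)⁻¹) * x⁻¹ := by group
          _ = a * ((x⁻¹ * a)⁻¹ * ((x⁻¹ * a) * h) * (x⁻¹ * a)⁻¹) * x⁻¹ := by rw [hxa]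
          _ = a * h * a⁻¹ := by group
      · rintro ⟨y, -, rfl⟩
        exact isConj_iff.2 ⟨y, rfl⟩
    rw [himg, Finset.sum_image]
    · exact Finset.sum_congr rfl fun y _ => hΞdef y
    · intro y hy y' hy' hyy
      simp only at hyy
      obtain ⟨x, -, hu⟩ := hY.2 y (Subgroup.mem_top y)
      have e1 := hu y ⟨hy, by rw [inv_mul_cancel]; exact one_mem _⟩
      have e2 := hu y' ⟨hy', by
        rw [Subgroup.mem_centralizer_singleton_iff]
        calc y'⁻¹ * y * h = y'⁻¹ * (y * h * y⁻¹) * y := by group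
          _ = y'⁻¹ * (y' * h * y'⁻¹) * y := by rw [hyy]
          _ = h * (y'⁻¹ * y) := by group⟩
      rw [e1, e2]

theorem trace_of_good (p : ℕ) [CharP k p] (D : Subgroup G) {X : Finset G}
    (hX : IsLT X D ⊤) (a : G → k) (ha : ∀ g x, a (x * g * x⁻¹) = a g)
    (hgood : ∀ g, a g ≠ 0 → ∃ h, IsConj g h ∧ ∀ n : ℕ,
      n * Nat.card ↥(D ⊓ Subgroup.centralizer {h}) = Nat.card ↥(Subgroup.centralizer ({h} : Set G)) →
        ¬ p ∣ n) :
    ∃ c : MonoidAlgebra k G, (∀ d ∈ D, MonoidAlgebra.of k G d * c = c * MonoidAlgebra.of k G d) ∧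
      ∑ g, a g • MonoidAlgebra.of k G g =
        ∑ x ∈ X, MonoidAlgebra.of k G x * c * MonoidAlgebra.of k G x⁻¹ := by
  classical
  have key : ∀ K : ConjClasses G, ∃ c : MonoidAlgebra k G,
      (∀ d ∈ D, MonoidAlgebra.of k G d * c = c * MonoidAlgebra.of k G d) ∧
      ∑ g ∈ Finset.univ.filter (fun g => ConjClasses.mk g = K), a g • MonoidAlgebra.of k G g =
        ∑ x ∈ X, MonoidAlgebra.of k G x * c * MonoidAlgebra.of k G x⁻¹ := by
    intro K
    obtain ⟨g0, rfl⟩ := ConjClasses.mk_surjective K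
    have hconst : ∀ g ∈ Finset.univ.filter (fun g => ConjClasses.mk g = ConjClasses.mk g0),
        a g = a g0 := by
      intro g hg
      rw [Finset.mem_filter, ConjClasses.mk_eq_mk_iff_isConj] at hg
      obtain ⟨x, hx⟩ := isConj_iff.1 hg.2
      rw [← hx, ha]
    by_cases h0 : a g0 = 0
    · refine ⟨0, fun d _ => by simp, ?_⟩
      rw [Finset.sum_eq_zero, Finset.sum_eq_zero]
      · intro x _; simp
      · intro g hg
        rw [hconst g hg, h0, zero_smul]
    · obtain ⟨h, hgh, hn⟩ := hgood g0 h0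
      obtain ⟨c, n, h1, h2, h3⟩ := trace_class (k := k) D hX h
      have hn0 : (n : k) ≠ 0 := by
        intro hz
        exact hn n h1 ((CharP.cast_eq_zero_iff k p n).1 hz)
      refine ⟨(a g0 * (n : k)⁻¹) • c, ?_, ?_⟩
      · intro d hd
        rw [mul_smul_comm, smul_mul_assoc, h2 d hd]
      · have e1 : ∑ x ∈ X, MonoidAlgebra.of k G x * ((a g0 * (n : k)⁻¹) • c) * MonoidAlgebra.of k G x⁻¹
            = (a g0 * (n : k)⁻¹) • ∑ x ∈ X, MonoidAlgebra.of k G x * c * MonoidAlgebra.of k G x⁻¹ := by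
          rw [Finset.smul_sum]
          refine Finset.sum_congr rfl fun x _ => ?_
          rw [mul_smul_comm, smul_mul_assoc]
        rw [e1, h3, smul_smul, mul_assoc, inv_mul_cancel₀ hn0, mul_one, Finset.smul_sum]
        have e2 : Finset.univ.filter (fun g => ConjClasses.mk g = ConjClasses.mk g0)
            = Finset.univ.filter (fun g => IsConj h g) := by
          ext g
          simp only [Finset.mem_filter, Finset.mem_univ, true_and]
          rw [ConjClasses.mk_eq_mk_iff_isConj]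
          constructor
          · intro hg
            exact (hg.trans hgh).symm
          · intro hg
            exact (hgh.trans hg).symm
        rw [← e2]
        exact Finset.sum_congr rfl fun g hg => by rw [hconst g hg]
  choose cK hcK1 hcK2 using key
  refine ⟨∑ K, cK K, ?_, ?_⟩
  · intro d hd
    rw [Finset.mul_sum, Finset.sum_mul]
    exact Finset.sum_congr rfl fun K _ => hcK1 K d hd
  · rw [← Finset.sum_fiberwise Finset.univ ConjClasses.mk]
    simp only [hcK2]
    rw [Finset.sum_comm]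
    refine Finset.sum_congr rfl fun x _ => ?_
    rw [Finset.mul_sum, Finset.sum_mul]

theorem card_centralizer_conj (x g : G) :
    Nat.card ↥(Subgroup.centralizer ({x * g * x⁻¹} : Set G)) =
      Nat.card ↥(Subgroup.centralizer ({g} : Set G)) := by
  have : Subgroup.centralizer ({x * g * x⁻¹} : Set G) =
      (Subgroup.centralizer ({g} : Set G)).map (MulAut.conj x).toMonoidHom := by
    ext y
    rw [Subgroup.mem_map, Subgroup.mem_centralizer_singleton_iff]
    constructor
    · intro hy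
      refine ⟨x⁻¹ * y * x, ?_, ?_⟩
      · rw [Subgroup.mem_centralizer_singleton_iff]
        calc x⁻¹ * y * x * g = x⁻¹ * (y * (x * g * x⁻¹)) * x := by group
          _ = x⁻¹ * ((x * g * x⁻¹) * y) * x := by rw [hy]
          _ = g * (x⁻¹ * y * x) := by group
      · simp only [MulEquiv.coe_toMonoidHom, MulAut.conj_apply]
        group
    · rintro ⟨u, hu, rfl⟩
      rw [Subgroup.mem_centralizer_singleton_iff] at hu
      simp only [MulEquiv.coe_toMonoidHom, MulAut.conj_apply]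
      calc x * u * x⁻¹ * (x * g * x⁻¹) = x * (u * g) * x⁻¹ := by group
        _ = x * (g * u) * x⁻¹ := by rw [hu]
        _ = x * g * x⁻¹ * (x * u * x⁻¹) := by group
  rw [this]
  exact Subgroup.card_map_of_injective (MulAut.conj x).injective

end pure

variable {p : ℕ} [Fact p.Prime] {M : Ideal AlgInt} [M.IsPrime] {G : Type u} [Group G] [Fintype G]

/-- piece `N-TR`: the block idempotent is a relative trace from a defect group. -/
theorem eps_trace (hM : IsPModular p M) {B : Set (IrrCharacter G)} (hB : IsPBlock M B)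
    {D : Subgroup G} (hD : IsDefectGroup p M B D) {φ : OA M G →+* MonoidAlgebra (kk M) G}
    (hφ : IsRed φ) :
    ∃ (c : MonoidAlgebra (kk M) G) (X : Finset G), IsLT X D ⊤ ∧
      (∀ d ∈ D, MonoidAlgebra.of (kk M) G d * c = c * MonoidAlgebra.of (kk M) G d) ∧
      φ (epsA M B) = ∑ x ∈ X, MonoidAlgebra.of (kk M) G x * c * MonoidAlgebra.of (kk M) G x⁻¹ := by
  classical
  obtain ⟨X, hX⟩ := Cfsg.Agent.Lib.H81CycTS1.exists_LT D (⊤ : Subgroup G) le_top
  haveI : CharP (kk M) p := Cfsg.Agent.Lib.Helper40ModRed.charP_kk hM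
  have hfn : fn (epsA M B) = blockCoeff B := Cfsg.Agent.Lib.Helper38KulEPS.fn_epsA hB
  obtain ⟨a, ha⟩ : ∃ a : G → kk M, ∀ g, a g =
      IsLocalRing.residue (Rt M) ⟨fn (epsA M B) g, rv_fn (epsA M B) g⟩ := ⟨_, fun _ => rfl⟩
  have hφe : φ (epsA M B) = ∑ g, a g • MonoidAlgebra.of (kk M) G g := by
    conv_lhs => rw [eq_sum_smul_ptA (epsA M B)]
    rw [map_sum]
    refine Finset.sum_congr rfl fun g _ => ?_
    rw [hφ.smul, hφ.pt, ha]
  have hcl : ∀ g x, a (x * g * x⁻¹) = a g := by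
    intro g x
    rw [ha, ha]
    congr 1
    apply Subtype.ext
    change fn (epsA M B) (x * g * x⁻¹) = fn (epsA M B) g
    rw [hfn]
    exact Cfsg.Agent.Lib.Helper20Block.blockCoeff_isClassFunction B g x
  have hgood : ∀ g, a g ≠ 0 → ∃ h, IsConj g h ∧ ∀ n : ℕ,
      n * Nat.card ↥(D ⊓ Subgroup.centralizer {h}) = Nat.card ↥(Subgroup.centralizer ({h} : Set G)) →
        ¬ p ∣ n := by
    intro g hg
    have hg' : ¬ MemLocalIdeal M (blockCoeff B g) := by
      intro hmem
      apply hg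
      rw [ha, IsLocalRing.residue_eq_zero_iff, mem_maximalIdeal_Rt_iff]
      change MemLocalIdeal M (fn (epsA M B) g)
      rw [hfn]
      exact hmem
    obtain ⟨P⟩ : Nonempty (Sylow p ↥(Subgroup.centralizer ({g} : Set G))) := inferInstance
    obtain ⟨P', hP'⟩ : ∃ P' : Subgroup G,
        P' = (P : Subgroup ↥(Subgroup.centralizer ({g} : Set G))).map
          (Subgroup.centralizer ({g} : Set G)).subtype := ⟨_, rfl⟩
    have hP'p : IsPGroup p P' := by
      rw [hP']
      exact P.isPGroup'.map _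
    have hP'C : P' ≤ Subgroup.centralizer ({g} : Set G) := by
      rw [hP']
      exact Subgroup.map_subtype_le _
    have hcard : Nat.card P' = Nat.card (P : Subgroup ↥(Subgroup.centralizer ({g} : Set G))) := by
      rw [hP']
      exact Subgroup.card_map_of_injective (Subgroup.subtype_injective _)
    have hgc : g ∈ Subgroup.centralizer (P' : Set G) := by
      rw [Subgroup.mem_centralizer_iff]
      intro u hu
      have := hP'C hu
      rw [Subgroup.mem_centralizer_singleton_iff] at this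
      exact this
    obtain ⟨x, hx⟩ := (Cfsg.Agent.Lib.Helper20Sub.coeff_iff_le_defectGroup hM hB hD hP'p).1
      ⟨g, hg', hgc⟩
    refine ⟨x * g * x⁻¹, isConj_iff.2 ⟨x, rfl⟩, ?_⟩
    intro n hn hpn
    have hle : P'.map (MulAut.conj x).toMonoidHom ≤
        D ⊓ Subgroup.centralizer ({x * g * x⁻¹} : Set G) := by
      refine le_inf hx ?_
      rintro _ ⟨u, hu, rfl⟩
      have hu' := hP'C hu
      rw [Subgroup.mem_centralizer_singleton_iff] at hu' ⊢
      simp only [MulEquiv.coe_toMonoidHom, MulAut.conj_apply]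
      calc x * u * x⁻¹ * (x * g * x⁻¹) = x * (u * g) * x⁻¹ := by group
        _ = x * (g * u) * x⁻¹ := by rw [hu']
        _ = x * g * x⁻¹ * (x * u * x⁻¹) := by group
    have hdvd := Subgroup.card_dvd_of_le hle
    rw [Subgroup.card_map_of_injective (MulAut.conj x).injective, hcard] at hdvd
    obtain ⟨s, hs⟩ := hdvd
    rw [card_centralizer_conj, hs,
      ← Subgroup.card_mul_index (P : Subgroup ↥(Subgroup.centralizer ({g} : Set G)))] at hn
    have hpos : 0 < Nat.card (P : Subgroup ↥(Subgroup.centralizer ({g} : Set G))) := Nat.card_pos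
    have h2 : n * s = (P : Subgroup ↥(Subgroup.centralizer ({g} : Set G))).index := by
      apply Nat.eq_of_mul_eq_mul_left hpos
      rw [← hn]; ring
    exact P.not_dvd_index (h2 ▸ Dvd.dvd.mul_right hpn s)
  obtain ⟨c, hc1, hc2⟩ := trace_of_good p D hX a hcl hgood
  exact ⟨c, X, hX, hc1, hφe.trans hc2⟩

end Cfsg.Agent.Lib.H81CycTR
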