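import Cfsg.Agent.Lib.Helper81KulMain
import Cfsg.Agent.Lib.Helper78IndPair
import Cfsg.Agent.Lib.Helper80StarFree2
import Cfsg.Agent.Lib.Helper81CycDefs
import Cfsg.Agent.Lib.Helper80Abel
import Cfsg.Agent.Lib.H81CycBR
import Cfsg.Agent.Lib.H81CycBR2
import Cfsg.Agent.Lib.H81CycSTAB
import Cfsg.Agent.Lib.H81CycTR
import Cfsg.Agent.Lib.H81CycPF
import Cfsg.Agent.Lib.H81CycMAP2

set_option autoImplicit false

namespace Cfsg.Agent.Lib.H81CycBD
open Cfsg
open Cfsg.Agent.Lib.Helper81Local Cfsg.Agent.Lib.Helper20GA Cfsg.Agent.Lib.Helper80IdemDefs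
open Cfsg.Agent.Lib.Helper80StarDefs Cfsg.Agent.Lib.Helper4ModRed Cfsg.Agent.Lib.Helper80StarProps
open Cfsg.Agent.Lib.Helper81KulDefs Cfsg.Agent.Lib.Helper81KulGDefs
open Cfsg.Agent.Lib.Helper91StarBASIC Cfsg.Agent.Lib.Helper80Brauer Cfsg.Agent.Lib.Helper80Trace
open Cfsg.Agent.Lib.Helper81CycDefs Cfsg.Agent.Lib.Helper80Incl
open Cfsg.Agent.Lib.Helper38KulEPS (epsA_idem epsA_central)

universe u

variable {p : ℕ} [Fact p.Prime] {M : Ideal AlgInt} [M.IsPrime] {G : Type u} [Group G] [Fintype G]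

/-- piece `A-BD`: the block theoretical data. -/
theorem bd_of (hM : IsPModular p M) {B : Set (IrrCharacter G)} {P Q : Subgroup G}
    {c : Set (IrrCharacter (Subgroup.centralizer (P : Set G)))}
    {f : Set (IrrCharacter (Subgroup.centralizer (Q : Set G)))}
    (hmax : IsMaximalBrauerPair p M B P c) (hle : PLE p M ⟨Q, f⟩ ⟨P, c⟩)
    (hPC : P ≤ Subgroup.centralizer (Q : Set G))
    {φ : OA M G →+* MonoidAlgebra (kk M) G} (hφ : IsRed φ) :
    ∃ (c₀ : MonoidAlgebra (kk M) G) (X : Finset G),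
      BD (kk M) (MonoidAlgebra.of (kk M) G) (lamk (kk M) G) P (Subgroup.centralizer (Q : Set G))
        (pstab Q f) (Subgroup.normalizer (Q : Set G)) (φ (pfA M Q f)) c₀ (φ (epsA M B)) X := by
  classical
  have hB : IsPBlock M B := hmax.1.2.1
  have hf : IsPBlock M f := (hle.isBrauerPair hmax.1.1).2
  have hD := Helper80Abel.isDefectGroup_of_abelian hM hmax hle hPC
  obtain ⟨φC, hφC⟩ := Helper1KulRED.exists_red (M := M) (G := Subgroup.centralizer (Q : Set G))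
  obtain ⟨c', X', hX', hc', hβ'⟩ := H81CycTR.eps_trace hM hf hD hφC
  obtain ⟨h1, h2, h3, h4⟩ := H81CycMAP2.tr_map (Subgroup.centralizer (Q : Set G)) hX' hc' hβ'
  have hmap : (P.subgroupOf (Subgroup.centralizer (Q : Set G))).map
      (Subgroup.centralizer (Q : Set G)).subtype = P := by
    rw [Subgroup.subgroupOf_map_subtype, inf_eq_left.2 hPC]
  rw [hmap] at h1 h3
  have hpair : IsBrauerPairOf p M B Q f :=
    (Helper80Pairs.isBrauerPairOf_iff_of_le hM hB hle).1 hmax.1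
  obtain ⟨s1, s2⟩ := H81CycSTAB.stab_pfA hφ (Q := Q) hf
  refine ⟨_, _, ⟨s1, s2, h2, h3, h1, ?_, ?_, ?_, ?_⟩⟩
  · rw [H81CycPF.red_pfA hφ hφC hf]
    exact h4
  · intro a
    obtain ⟨a', rfl⟩ := hφ.surj a
    rw [← map_mul, ← map_mul, epsA_central (M := M) hB]
  · rw [← map_mul, epsA_idem (M := M) hB]
  · intro g hg
    have := H81CycBR2.lam_of_brZ hφ (H81CycBR.br_eps hM hpair) g hg
    rwa [φ.map_sub, φ.map_mul] at this

end Cfsg.Agent.Lib.H81CycBD
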