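import Cfsg.Agent.Lib.Helper81KulGDefs
import Cfsg.Agent.Lib.Helper81Part
import Cfsg.Agent.Lib.Helper84Subsec
import Cfsg.Agent.Lib.Helper80Stab

set_option autoImplicit false

/-! PROJECT 83 (KUL), piece D-EPS (helper38). -/

namespace Cfsg.Agent.Lib.Helper38KulEPS

open Cfsg
open Cfsg.Agent.Lib.Helper81Local Cfsg.Agent.Lib.Helper20GA Cfsg.Agent.Lib.Helper80IdemDefs
open Cfsg.Agent.Lib.Helper80StarDefs Cfsg.Agent.Lib.Helper4ModRed
open Cfsg.Agent.Lib.Helper81KulDefs Cfsg.Agent.Lib.Helper81KulGDefs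
open Cfsg.Agent.Lib.Helper91StarBASIC Cfsg.Agent.Lib.Helper80Brauer
open Cfsg.Agent.Lib.Helper4Char

variable {p : ℕ} [Fact p.Prime] {M : Ideal AlgInt} [M.IsPrime] {G : Type*} [Group G] [Fintype G]

theorem rv_blockCoeff {B : Set (IrrCharacter G)} (hB : IsPBlock M B) : RV M (blockCoeff B) :=
  (Helper20Block.isSC_blockCoeff inferInstance hB).2

theorem fn_epsA {B : Set (IrrCharacter G)} (hB : IsPBlock M B) : fn (epsA M B) = blockCoeff B :=
  fn_toA (rv_blockCoeff hB)

theorem epsA_idem {B : Set (IrrCharacter G)} (hB : IsPBlock M B) :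
    epsA M B * epsA M B = epsA M B := by
  apply fn_injective
  rw [fn_mul, fn_epsA hB, Helper80Stab.conv_blockCoeff_self]

theorem epsA_central {B : Set (IrrCharacter G)} (hB : IsPBlock M B) (a : OA M G) :
    epsA M B * a = a * epsA M B := by
  apply fn_injective
  rw [fn_mul, fn_mul, fn_epsA hB]
  exact Helper20GA.commute_of_class (Helper20Block.blockCoeff_isClassFunction B) _

theorem blockPart_irr_mem {B : Set (IrrCharacter G)} {χ : IrrCharacter G} (hχ : χ ∈ B) :
    blockPart B (χ : G → ℂ) = (χ : G → ℂ) := by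
  classical
  funext y
  rw [Cfsg.Agent.Lib.Helper84Subsec.blockPart_apply, Finset.sum_eq_single χ]
  · rw [if_pos hχ, classInner_irr_self χ.2, one_mul]
  · intro ζ _ hne
    split_ifs
    · rw [classInner_irr_ne χ.2 ζ.2 (fun h => hne (Subtype.ext h).symm), zero_mul]
    · rfl
  · intro h; exact absurd (Finset.mem_univ _) h

theorem blockPart_irr_not_mem {B : Set (IrrCharacter G)} {χ : IrrCharacter G} (hχ : χ ∉ B) :
    blockPart B (χ : G → ℂ) = 0 := by
  classical
  funext y
  rw [Cfsg.Agent.Lib.Helper84Subsec.blockPart_apply]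
  apply Finset.sum_eq_zero
  intro ζ _
  split_ifs with h
  · rw [classInner_irr_ne χ.2 ζ.2 (fun h' => hχ ((Subtype.ext h' : χ = ζ) ▸ h)), zero_mul]
  · rfl

theorem epsA_ne_zero {B : Set (IrrCharacter G)} (hB : IsPBlock M B) : epsA M B ≠ 0 := by
  intro h0
  obtain ⟨χ, hχ⟩ := Helper20Block.IsPBlock.nonempty inferInstance hB
  have h1 : blockCoeff B = 0 := by rw [← fn_epsA hB, h0, fn_zero]
  have h2 := congrFun (blockPart_irr_mem hχ) 1
  rw [Cfsg.Agent.Lib.Helper81Part.blockPart_eq_sum B (IsIrrCharacter.isClassFunction χ.2), h1] at h2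
  simp only [Pi.zero_apply, zero_mul, Finset.sum_const_zero] at h2
  exact Cfsg.Agent.Lib.Helper81Base.irr_one_ne_zero χ h2.symm

theorem evA_epsA_mul {B : Set (IrrCharacter G)} (hB : IsPBlock M B) {χ : IrrCharacter G}
    (hχ : χ ∉ B) (a : OA M G) : evA (χ : G → ℂ) (epsA M B * a) = 0 := by
  rw [epsA_central hB]
  have h1 : evA (χ : G → ℂ) (a * epsA M B)
      = ∑ x, fn a x * Helper20GA.ev (fun g => (χ : G → ℂ) (x * g)) (fn (epsA M B)) :=
    Helper20GA.ev_mul (χ : G → ℂ) (a : GA G) (epsA M B : GA G)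
  rw [h1]
  apply Finset.sum_eq_zero
  intro x _
  have h2 : Helper20GA.ev (fun g => (χ : G → ℂ) (x * g)) (fn (epsA M B)) = blockPart B (χ : G → ℂ) x := by
    rw [Cfsg.Agent.Lib.Helper81Part.blockPart_eq_sum B (IsIrrCharacter.isClassFunction χ.2),
      fn_epsA hB]
    unfold Helper20GA.ev
    apply Finset.sum_congr rfl
    intro k _
    congr 1
    have := IsIrrCharacter.isClassFunction χ.2 (k * x) x
    rw [← this]
    congr 1
    group
  rw [h2, blockPart_irr_not_mem hχ, Pi.zero_apply, mul_zero]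

end Cfsg.Agent.Lib.Helper38KulEPS
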