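import Cfsg.Agent.Lib.Helper81KulMain
import Cfsg.Agent.Lib.Helper78IndPair
import Cfsg.Agent.Lib.Helper80StarFree2
import Cfsg.Agent.Lib.Helper81CycDefs
import Cfsg.Agent.Lib.Helper38KulEPS

set_option autoImplicit false

namespace Cfsg.Agent.Lib.H81CycEPS
open Cfsg
open Cfsg.Agent.Lib.Helper81Local Cfsg.Agent.Lib.Helper20GA Cfsg.Agent.Lib.Helper80IdemDefs
open Cfsg.Agent.Lib.Helper80StarDefs Cfsg.Agent.Lib.Helper4ModRed Cfsg.Agent.Lib.Helper80StarProps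
open Cfsg.Agent.Lib.Helper81KulDefs Cfsg.Agent.Lib.Helper81KulGDefs
open Cfsg.Agent.Lib.Helper91StarBASIC Cfsg.Agent.Lib.Helper80Brauer Cfsg.Agent.Lib.Helper80Trace
open Cfsg.Agent.Lib.Helper81CycDefs Cfsg.Agent.Lib.Helper80Incl

universe u

variable {p : ℕ} [Fact p.Prime] {M : Ideal AlgInt} [M.IsPrime] {G : Type u} [Group G] [Fintype G]

/-- piece `A-EPS`: the coefficients of the block idempotent. -/
theorem red_epsA {B : Set (IrrCharacter G)} (hB : IsPBlock M B)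
    {φ : OA M G →+* MonoidAlgebra (kk M) G} (hφ : IsRed φ) :
    ∃ εf : G → kk M, (∀ g, Red M (blockCoeff B g) (εf g)) ∧
      φ (epsA M B) = ∑ g, εf g • MonoidAlgebra.of (kk M) G g := by
  refine ⟨fun g => IsLocalRing.residue (Rt M) ⟨fn (epsA M B) g, rv_fn (epsA M B) g⟩, fun g => ?_, ?_⟩
  · have h1 : fn (epsA M B) g = blockCoeff B g := by
      rw [Cfsg.Agent.Lib.Helper38KulEPS.fn_epsA hB]
    refine ⟨h1 ▸ rv_fn (epsA M B) g, ?_⟩
    congr 1
    exact Subtype.ext h1.symm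
  · conv_lhs => rw [eq_sum_smul_ptA (epsA M B)]
    rw [map_sum]
    apply Finset.sum_congr rfl
    intro g _
    rw [hφ.smul, hφ.pt]

end Cfsg.Agent.Lib.H81CycEPS
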