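import Cfsg.Agent.Lib.Helper81KulMain
import Cfsg.Agent.Lib.Helper78IndPair
import Cfsg.Agent.Lib.Helper80StarFree2
import Cfsg.Agent.Lib.Helper81CycDefs
import Cfsg.Agent.Lib.Helper4Char2
import Cfsg.Agent.S4690

set_option autoImplicit false

namespace Cfsg.Agent.Lib.H81CycCARD
open Cfsg
open Cfsg.Agent.Lib.Helper81Local Cfsg.Agent.Lib.Helper20GA Cfsg.Agent.Lib.Helper80IdemDefs
open Cfsg.Agent.Lib.Helper80StarDefs Cfsg.Agent.Lib.Helper4ModRed Cfsg.Agent.Lib.Helper80StarProps
open Cfsg.Agent.Lib.Helper81KulDefs Cfsg.Agent.Lib.Helper81KulGDefs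
open Cfsg.Agent.Lib.Helper91StarBASIC Cfsg.Agent.Lib.Helper80Brauer Cfsg.Agent.Lib.Helper80Trace
open Cfsg.Agent.Lib.Helper81CycDefs Cfsg.Agent.Lib.Helper80Incl

universe u

variable {p : ℕ} [Fact p.Prime] {M : Ideal AlgInt} [M.IsPrime] {G : Type u} [Group G] [Fintype G]

theorem card_conjClasses_of_comm (D : Type*) [Group D] (h : ∀ a b : D, a * b = b * a) :
    Nat.card (ConjClasses D) = Nat.card D := by
  have hb : Function.Bijective (ConjClasses.mk : D → ConjClasses D) := by
    constructor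
    · intro a b hab
      rw [ConjClasses.mk_eq_mk_iff_isConj, isConj_iff] at hab
      obtain ⟨c, hc⟩ := hab
      rw [h c a, mul_inv_cancel_right] at hc
      exact hc
    · exact ConjClasses.mk_surjective
  exact (Nat.card_congr (Equiv.ofBijective _ hb)).symm

/-- piece `N-CARD`: a nilpotent block with abelian defect group `D` has `|D|` characters. -/
theorem card_nil (hM : IsPModular p M) {B : Set (IrrCharacter G)} (hnil : IsNilpotentBlock p M B)
    {D : Subgroup G} (hD : IsDefectGroup p M B D) (hab : ∀ x ∈ D, ∀ y ∈ D, x * y = y * x) :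
    Nat.card B = Nat.card D := by
  classical
  obtain ⟨Φ, -⟩ := Cfsg.Agent.S4690.result p M hM B hnil D hD
  haveI : Fintype ↥D := Fintype.ofFinite _
  rw [Nat.card_congr Φ, Cfsg.Agent.Lib.Helper4Char2.card_irr_eq_card_conjClasses]
  exact card_conjClasses_of_comm ↥D (fun a b => Subtype.ext (hab a a.2 b b.2))

end Cfsg.Agent.Lib.H81CycCARD
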