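import Cfsg.Agent.Lib.Helper81KulMain
import Cfsg.Agent.Lib.Helper78IndPair
import Cfsg.Agent.Lib.Helper80StarFree2
import Cfsg.Agent.Lib.Helper81CycDefs

set_option autoImplicit false

namespace Cfsg.Agent.Lib.H81CycCOR
open Cfsg
open Cfsg.Agent.Lib.Helper81Local Cfsg.Agent.Lib.Helper20GA Cfsg.Agent.Lib.Helper80IdemDefs
open Cfsg.Agent.Lib.Helper80StarDefs Cfsg.Agent.Lib.Helper4ModRed Cfsg.Agent.Lib.Helper80StarProps
open Cfsg.Agent.Lib.Helper81KulDefs Cfsg.Agent.Lib.Helper81KulGDefs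
open Cfsg.Agent.Lib.Helper91StarBASIC Cfsg.Agent.Lib.Helper80Brauer Cfsg.Agent.Lib.Helper80Trace
open Cfsg.Agent.Lib.Helper81CycDefs Cfsg.Agent.Lib.Helper80Incl
open Cfsg.Agent.Lib.Helper38KulEPS (rv_blockCoeff epsA_idem epsA_central epsA_ne_zero evA_epsA_mul)
open Cfsg.Agent.Lib.Helper38KulIOTA (exists_iota)
open Cfsg.Agent.Lib.Helper38KulLOCC (locC_red)
open Cfsg.Agent.Lib.Helper38KulTF1 (card_link)
open Cfsg.Agent.Lib.Helper38KulTF2 (traceforms_le)
open Cfsg.Agent.Lib.Helper38KulWED1 (wed_count)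
open Cfsg.Agent.Lib.Helper38KulWED2 (central_idem gen_one)
open Cfsg.Agent.Lib.Helper38KulWED3 (wed_link)
open Cfsg.Agent.Lib.Helper54KulLOC (nilAlg_Jc)
open Cfsg.Agent.Lib.Helper17KulEXT (trace_ext)
open Cfsg.Agent.Lib.Helper54KulCODIM (codim_le)

universe u

variable {p : ℕ} [Fact p.Prime] {M : Ideal AlgInt} [M.IsPrime] {G : Type u} [Group G] [Fintype G]

/-- piece `A-COR`: the corner of a block with one simple module (first half of
`Helper81KulMain.kul_main`). -/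
theorem corner_data (hM : IsPModular p M) {B : Set (IrrCharacter G)} (hB : IsPBlock M B)
    (hl : blockRank p B = 1) {φ : OA M G →+* MonoidAlgebra (kk M) G} (hφ : IsRed φ) :
    ∃ (i : MonoidAlgebra (kk M) G) (n : ℕ) (x y : Fin n → MonoidAlgebra (kk M) G),
      i * i = i ∧ i ≠ 0 ∧ LocC (kk M) i ∧ φ (epsA M B) * i = i ∧
      φ (epsA M B) = ∑ s, x s * i * y s ∧
      Module.finrank (kk M) (Cor (k := kk M) i)
        ≤ Module.finrank (kk M) (Kc (Jc (k := kk M) i)) + Nat.card B := by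
  classical
  have : IsAlgClosed (kk M) := Cfsg.Agent.Lib.Helper40ModAlgClosed.isAlgClosed_kk
  have : Module.Finite (Rt M) (OA M G) := Helper91StarFIN.finite_OA
  have hO : HS (Rt M) := Helper21StarINST.hs_Rt
  have hεi := epsA_idem (M := M) hB
  have hεc := epsA_central (M := M) hB
  have hε0 := epsA_ne_zero (M := M) hB
  obtain ⟨ι, hι, hει⟩ := exists_iota Helper80StarA.decompP hεi hε0
  obtain ⟨m, x, y, hxy⟩ := wed_link (Helper7StarWED.wedP hO) Helper80StarA.unitP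
    Helper80StarA.zeroP hεi hεc hι.idem hι.ne hει
    (fun n d hd π h1 h2 => hl ▸ wed_count hM hB n d hd π h1 h2)
    (fun d P => central_idem P) (fun d P => gen_one P)
  have hRV := rv_blockCoeff (M := M) hB
  have hi : φ ι * φ ι = φ ι := by rw [← map_mul, hι.idem]
  have hi0 : φ ι ≠ 0 := by
    intro h
    apply hι.ne
    apply Helper80StarA.zeroP (O := Rt M) ι hι.idem
    exact ⟨1, by rw [pow_one]; exact (hφ.ker ι).1 h⟩
  have hloc : LocC (kk M) (φ ι) := locC_red hφ (fun a =>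
    Helper72StarSCAL.scalP hO (Helper80StarA.localP hO) ⊤ ι a hι Algebra.mem_top)
  have hec : ∀ a, φ (epsA M B) * a = a * φ (epsA M B) := by
    intro a
    obtain ⟨a', rfl⟩ := hφ.surj a
    rw [← map_mul, ← map_mul, hεc]
  have hei : φ (epsA M B) * φ ι = φ ι := by rw [← map_mul, hει]
  have he : φ (epsA M B) = ∑ s, φ (x s) * φ ι * φ (y s) := by
    conv_lhs => rw [hxy]
    rw [map_sum]
    exact Finset.sum_congr rfl (fun s _ => by rw [map_mul, map_mul])
  obtain ⟨hJ, hJC, hC⟩ := nilAlg_Jc hi hloc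
  have h2 := codim_le hJC hC hi
    (fun f hf => trace_ext hi hec hei (fun s => φ (x s)) (fun s => φ (y s)) he f hf) (Nat.card B)
    (fun n F h1 h2 h3 => traceforms_le hφ hRV
      (fun g => IsLocalRing.residue (Rt M) ⟨blockCoeff B g, hRV g⟩) (fun g => ⟨hRV g, rfl⟩)
      (Nat.card B)
      (fun n τ h1 h2 h3 => card_link hM hB _ (fun g => ⟨hRV g, rfl⟩) n τ h1 h2 h3) n F h1 h2 h3)
  exact ⟨φ ι, m, fun s => φ (x s), fun s => φ (y s), hi, hi0, hloc, hei, he, h2⟩

end Cfsg.Agent.Lib.H81CycCOR
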