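import Cfsg.Agent.Lib.Helper81KulMain
import Cfsg.Agent.Lib.Helper78IndPair
import Cfsg.Agent.Lib.Helper80StarFree2
import Cfsg.Agent.Lib.Helper81CycDefs

set_option autoImplicit false

namespace Cfsg.Agent.Lib.H81CycLOC1
open Cfsg
open Cfsg.Agent.Lib.Helper81Local Cfsg.Agent.Lib.Helper20GA Cfsg.Agent.Lib.Helper80IdemDefs
open Cfsg.Agent.Lib.Helper80StarDefs Cfsg.Agent.Lib.Helper4ModRed Cfsg.Agent.Lib.Helper80StarProps
open Cfsg.Agent.Lib.Helper81KulDefs Cfsg.Agent.Lib.Helper81KulGDefs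
open Cfsg.Agent.Lib.Helper91StarBASIC Cfsg.Agent.Lib.Helper80Brauer Cfsg.Agent.Lib.Helper80Trace
open Cfsg.Agent.Lib.Helper81CycDefs Cfsg.Agent.Lib.Helper80Incl

universe u



section aux

variable {k R : Type*} [Field k] [Ring R] [Algebra k R]

/-- `z ^ m * (i R i)` -/
def Iz (k : Type*) [Field k] {R : Type*} [Ring R] [Algebra k R] (i z : R) (m : ℕ) : Submodule k R :=
  Submodule.map (LinearMap.mulLeft k (z ^ m)) (Cor (k := k) i)

theorem mem_Iz {i z x : R} {m : ℕ} : x ∈ Iz k i z m ↔ ∃ a ∈ Cor (k := k) i, z ^ m * a = x := by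
  unfold Iz
  rw [Submodule.mem_map]
  rfl

theorem zc {z : R} (hzc : ∀ a, z * a = a * z) (m : ℕ) (a : R) : z ^ m * a = a * z ^ m :=
  (Commute.pow_left (hzc a) m)

theorem zmul_mem_Cor {i z : R} (hzc : ∀ a, z * a = a * z) {a : R} (ha : a ∈ Cor (k := k) i) (m : ℕ) :
    z ^ m * a ∈ Cor (k := k) i :=
  ⟨by rw [← mul_assoc, ← zc hzc m i, mul_assoc, ha.1], by rw [mul_assoc, ha.2]⟩

theorem zmul_mem_Jc {i z : R} (hzc : ∀ a, z * a = a * z) (hzn : IsNilpotent z) {a : R}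
    (ha : a ∈ Cor (k := k) i) {m : ℕ} (hm : m ≠ 0) : z ^ m * a ∈ Jc (k := k) i :=
  Submodule.subset_span ⟨zmul_mem_Cor hzc ha m,
    Commute.isNilpotent_mul_right (zc hzc m a) (hzn.pow_of_pos hm)⟩

theorem zmul_mem_Kc {i z : R} (hJC : Jc (k := k) i ≤ Cor i) (hzc : ∀ a, z * a = a * z)
    (hzn : IsNilpotent z) {κ : R} (hκ : κ ∈ Kc (Jc (k := k) i)) : z * κ ∈ Kc (Jc (k := k) i) := by
  unfold Kc at hκ ⊢
  induction hκ using Submodule.span_induction with
  | mem x hx =>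
    obtain ⟨a, ha, b, hb, rfl⟩ := hx
    refine Submodule.subset_span ⟨z * a, ?_, b, hb, ?_⟩
    · simpa using zmul_mem_Jc hzc hzn (hJC ha) (m := 1) one_ne_zero
    · rw [mul_sub, ← mul_assoc, ← mul_assoc, hzc b, mul_assoc b z a]
  | zero => simp
  | add x y _ _ hx hy => rw [mul_add]; exact Submodule.add_mem _ hx hy
  | smul c x _ hx => rw [mul_smul_comm]; exact Submodule.smul_mem _ c hx

theorem zpow_mul_mem_Kc {i z : R} (hJC : Jc (k := k) i ≤ Cor i) (hzc : ∀ a, z * a = a * z)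
    (hzn : IsNilpotent z) {κ : R} (hκ : κ ∈ Kc (Jc (k := k) i)) (j : ℕ) :
    z ^ j * κ ∈ Kc (Jc (k := k) i) := by
  induction j with
  | zero => simpa using hκ
  | succ j ih =>
    rw [pow_succ', mul_assoc]
    exact zmul_mem_Kc hJC hzc hzn ih

theorem not_nil_idem {i : R} (hi : i * i = i) (hi0 : i ≠ 0) : ¬ IsNilpotent i := by
  rintro ⟨n, hn⟩
  have h : ∀ n : ℕ, i ^ (n + 1) = i := by
    intro n
    induction n with
    | zero => simp
    | succ n ih => rw [pow_succ, ih, hi]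
  cases n with
  | zero =>
    apply hi0
    rw [pow_zero] at hn
    rw [← mul_one i, hn, mul_zero]
  | succ n => exact hi0 ((h n).symm.trans hn)

theorem not_le_Kc [Module.Finite k R] {i z : R} {lam : R →ₗ[k] k} (hJ : NilAlg (Jc (k := k) i))
    (hJC : Jc (k := k) i ≤ Cor i) (hs : SymF (Jc (k := k) i) lam) (hzc : ∀ a, z * a = a * z)
    (hzn : IsNilpotent z) {m : ℕ} (hm : m ≠ 0) (hne : Iz k i z m ≠ ⊥) :
    ¬ Iz k i z m ≤ Kc (Jc (k := k) i) := by
  intro hle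
  have hIJ : Iz k i z m ≤ Jc (k := k) i := by
    intro x hx
    obtain ⟨a, ha, rfl⟩ := mem_Iz.1 hx
    exact zmul_mem_Jc hzc hzn ha hm
  have hmulJ : Iz k i z m * Jc (k := k) i ≤ Iz k i z m := by
    rw [Submodule.mul_le]
    intro x hx b hb
    obtain ⟨a, ha, rfl⟩ := mem_Iz.1 hx
    exact mem_Iz.2 ⟨a * b, Cfsg.Agent.Lib.Helper54KulLOC.mul_mem ha (hJC hb), by rw [mul_assoc]⟩
  have hpow : ∀ r : ℕ, Iz k i z m * Jc (k := k) i ^ r ≤ Iz k i z m := by
    intro r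
    induction r with
    | zero => rw [pow_zero, mul_one]
    | succ r ih =>
      rw [pow_succ, ← mul_assoc]
      exact (mul_le_mul' ih le_rfl).trans hmulJ
  obtain ⟨N, hN⟩ := Cfsg.Agent.Lib.Helper91KulNILP.nilp hJ
  classical
  have hex : ∃ r : ℕ, Iz k i z m * Jc (k := k) i ^ r = ⊥ := ⟨N, by rw [hN, Submodule.mul_bot]⟩
  have h0 : Nat.find hex ≠ 0 := by
    intro h0
    have := Nat.find_spec hex
    rw [h0, pow_zero, mul_one] at this
    exact hne this
  obtain ⟨r, hr⟩ := Nat.exists_eq_succ_of_ne_zero h0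
  have h1 : Iz k i z m * Jc (k := k) i ^ r ≠ ⊥ := Nat.find_min hex (by omega)
  have h2 : Iz k i z m * Jc (k := k) i ^ r * Jc (k := k) i = ⊥ := by
    have := Nat.find_spec hex
    rw [hr, Nat.succ_eq_add_one, pow_succ, ← mul_assoc] at this
    exact this
  have h3 := (Cfsg.Agent.Lib.Helper78KulSOC.soc hs ((hpow r).trans hIJ) h2).2
  apply h1
  rw [← h3]
  exact (inf_eq_left.2 ((hpow r).trans hle)).symm

theorem le_Kc_of_le {i z : R} (hJC : Jc (k := k) i ≤ Cor i) (hzc : ∀ a, z * a = a * z)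
    (hzn : IsNilpotent z) {m : ℕ} (h : Iz k i z m ≤ Iz k i z (m + 1) ⊔ Kc (Jc (k := k) i)) :
    Iz k i z m ≤ Kc (Jc (k := k) i) := by
  have step : ∀ j : ℕ, Iz k i z (m + j) ≤ Iz k i z (m + j + 1) ⊔ Kc (Jc (k := k) i) := by
    intro j x hx
    obtain ⟨a, ha, rfl⟩ := mem_Iz.1 hx
    obtain ⟨y, hy, κ, hκ, hyk⟩ := Submodule.mem_sup.1 (h (mem_Iz.2 ⟨a, ha, rfl⟩))
    obtain ⟨a', ha', rfl⟩ := mem_Iz.1 hy
    have e : z ^ (m + j) * a = z ^ (m + j + 1) * a' + z ^ j * κ := by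
      rw [add_comm m j, pow_add, mul_assoc, ← hyk, mul_add, ← mul_assoc, ← pow_add]
      congr 2
    rw [e]
    exact Submodule.add_mem_sup (mem_Iz.2 ⟨a', ha', rfl⟩) (zpow_mul_mem_Kc hJC hzc hzn hκ j)
  have all : ∀ j : ℕ, Iz k i z m ≤ Iz k i z (m + j) ⊔ Kc (Jc (k := k) i) := by
    intro j
    induction j with
    | zero => exact le_sup_left
    | succ j ih => exact ih.trans (sup_le (step j) le_sup_right)
  obtain ⟨N, hN⟩ := hzn
  have hbot : Iz k i z (m + N) = ⊥ := by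
    rw [eq_bot_iff]
    intro x hx
    obtain ⟨a, ha, rfl⟩ := mem_Iz.1 hx
    rw [pow_add, hN, mul_zero, zero_mul]
    exact Submodule.zero_mem _
  have := all N
  rwa [hbot, bot_sup_eq] at this

end aux

/-- piece `N-LOC1`: a local symmetric algebra with a central nilpotent element `z`, `z^(q-1) ≠ 0`,
whose commutator space has codimension at most `q`: the radical is generated by `z` modulo its
square, and `z^q = 0`. -/
theorem loc_gen {k R : Type*} [Field k] [Ring R] [Algebra k R] [Module.Finite k R] {i z : R}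
    (hi : i * i = i) (hi0 : i ≠ 0) (hloc : LocC k i) (lam : R →ₗ[k] k)
    (hsym : ∀ a b, lam (a * b) = lam (b * a)) (hnd : ∀ a, a ≠ 0 → ∃ b, lam (a * b) ≠ 0)
    (hzc : ∀ a, z * a = a * z) (hzn : IsNilpotent z) (q : ℕ) (hq : 2 ≤ q)
    (hz : z ^ (q - 1) * i ≠ 0)
    (hcod : Module.finrank k (Cor (k := k) i) ≤ Module.finrank k (Kc (Jc (k := k) i)) + q) :
    Jc (k := k) i ≤ Submodule.span k {z * i} ⊔ Jc (k := k) i ^ 2 ∧ z ^ q * i = 0 := by
  obtain ⟨hJ, hJC, hCJ⟩ := Cfsg.Agent.Lib.Helper54KulLOC.nilAlg_Jc (k := k) hi hloc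
  have hs := Cfsg.Agent.Lib.Helper17KulSYM.symF_Jc hi hJC hCJ lam hsym hnd
  have hiC : i ∈ Cor (k := k) i := Cfsg.Agent.Lib.Helper54KulLOC.i_mem hi
  have hiJ : i ∉ Jc (k := k) i := fun h => not_nil_idem hi hi0 (hJ.nil i h)
  have hKsq := Cfsg.Agent.Lib.Helper81KulAB.Kc_le_sq (Jc (k := k) i)
  have hKJ : Kc (Jc (k := k) i) ≤ Jc (k := k) i := by
    refine hKsq.trans ?_
    rw [sq, Submodule.mul_le]
    exact hJ.mul
  -- the chain
  have hanti : ∀ m, Iz k i z (m + 1) ≤ Iz k i z m := by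
    intro m x hx
    obtain ⟨a, ha, rfl⟩ := mem_Iz.1 hx
    refine mem_Iz.2 ⟨z ^ 1 * a, zmul_mem_Cor hzc ha 1, ?_⟩
    rw [← mul_assoc, ← pow_add]
  have hne : ∀ m, m < q → Iz k i z m ≠ ⊥ := by
    intro m hm hbot
    apply hz
    have h1 : z ^ m * i ∈ Iz k i z m := mem_Iz.2 ⟨i, hiC, rfl⟩
    rw [hbot, Submodule.mem_bot] at h1
    have e : q - 1 = (q - 1 - m) + m := by omega
    rw [e, pow_add, mul_assoc, h1, mul_zero]
  have hstrict : ∀ m, m < q →
      Iz k i z (m + 1) ⊔ Kc (Jc (k := k) i) < Iz k i z m ⊔ Kc (Jc (k := k) i) := by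
    intro m hm
    refine lt_of_le_of_ne (sup_le_sup_right (hanti m) _) ?_
    intro heq
    have h1 : Iz k i z m ≤ Iz k i z (m + 1) ⊔ Kc (Jc (k := k) i) := by
      rw [heq]; exact le_sup_left
    have h2 := le_Kc_of_le hJC hzc hzn h1
    by_cases hm0 : m = 0
    · subst hm0
      exact hiJ (hKJ (h2 (mem_Iz.2 ⟨i, hiC, by simp⟩)))
    · exact not_le_Kc hJ hJC hs hzc hzn hm0 (hne m hm) h2
  have hchain : ∀ m j, m + j ≤ q →
      Module.finrank k ↥(Iz k i z (m + j) ⊔ Kc (Jc (k := k) i)) + j ≤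
        Module.finrank k ↥(Iz k i z m ⊔ Kc (Jc (k := k) i)) := by
    intro m j
    induction j with
    | zero => intro _; simp
    | succ j ih =>
      intro hmj
      have h1 := ih (by omega)
      have h2 := Submodule.finrank_lt_finrank_of_lt (hstrict (m + j) (by omega))
      rw [← add_assoc m j 1]
      omega
  have hF0 : Iz k i z 0 ⊔ Kc (Jc (k := k) i) = Cor (k := k) i := by
    have : Iz k i z 0 = Cor (k := k) i := by
      ext x
      rw [mem_Iz]
      constructor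
      · rintro ⟨a, ha, rfl⟩
        simpa using ha
      · intro hx
        exact ⟨x, hx, by simp⟩
    rw [this]
    exact sup_eq_left.2 (hKJ.trans hJC)
  have hKq : Module.finrank k ↥(Kc (Jc (k := k) i)) ≤
      Module.finrank k ↥(Iz k i z q ⊔ Kc (Jc (k := k) i)) := Submodule.finrank_mono le_sup_right
  constructor
  · -- `J = F 1`
    have h1 := hchain 1 (q - 1) (by omega)
    have e1 : 1 + (q - 1) = q := by omega
    rw [e1] at h1
    have hJlt : Jc (k := k) i < Cor (k := k) i :=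
      lt_of_le_of_ne hJC (fun h => hiJ (h ▸ hiC))
    have h2 := Submodule.finrank_lt_finrank_of_lt hJlt
    have hF1J : Iz k i z 1 ⊔ Kc (Jc (k := k) i) ≤ Jc (k := k) i := by
      refine sup_le ?_ hKJ
      intro x hx
      obtain ⟨a, ha, rfl⟩ := mem_Iz.1 hx
      exact zmul_mem_Jc hzc hzn ha one_ne_zero
    have h3 : Iz k i z 1 ⊔ Kc (Jc (k := k) i) = Jc (k := k) i :=
      Submodule.eq_of_le_of_finrank_le hF1J (by omega)
    rw [← h3]
    nth_rewrite 2 [h3]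
    refine sup_le ?_ (hKsq.trans le_sup_right)
    intro x hx
    obtain ⟨a, ha, rfl⟩ := mem_Iz.1 hx
    obtain ⟨y, hy, j, hj, rfl⟩ := Submodule.mem_sup.1 (hCJ ha)
    obtain ⟨c, rfl⟩ := Submodule.mem_span_singleton.1 hy
    rw [pow_one, mul_add, mul_smul_comm]
    refine Submodule.add_mem_sup (Submodule.smul_mem _ c (Submodule.mem_span_singleton_self _)) ?_
    have e2 : z * j = (z * i) * j := by rw [mul_assoc, (hJC hj).1]
    rw [e2, sq]
    refine Submodule.mul_mem_mul ?_ hj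
    simpa using zmul_mem_Jc hzc hzn hiC (m := 1) one_ne_zero
  · have h1 := hchain 0 q (by omega)
    rw [zero_add, hF0] at h1
    have h2 : Kc (Jc (k := k) i) = Iz k i z q ⊔ Kc (Jc (k := k) i) :=
      Submodule.eq_of_le_of_finrank_le le_sup_right (by omega)
    have h3 : Iz k i z q ≤ Kc (Jc (k := k) i) := by
      rw [h2]; exact le_sup_left
    by_contra hne0
    refine not_le_Kc hJ hJC hs hzc hzn (by omega : q ≠ 0) ?_ h3
    intro hbot
    apply hne0
    have h4 : z ^ q * i ∈ Iz k i z q := mem_Iz.2 ⟨i, hiC, rfl⟩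
    rwa [hbot, Submodule.mem_bot] at h4

end Cfsg.Agent.Lib.H81CycLOC1
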