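import Cfsg.Agent.Lib.Helper81KulDefs

set_option autoImplicit false
set_option linter.unusedVariables false
set_option linter.unusedSectionVars false

/-! PROJECT 83 (KUL), piece A-ONE (with the extra last hypothesis `hnil`, = piece A-NILP). -/

namespace Cfsg.Agent.Lib.Helper17KulONE

open Cfsg.Agent.Lib.Helper81KulDefs

variable {k : Type*} [Field k] {R : Type*} [Ring R] [Algebra k R] [Module.Finite k R]

theorem pow_succ_le' {J : Submodule k R} (hJ : NilAlg J) {n : ℕ} (hn : 1 ≤ n) :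
    J ^ (n + 1) ≤ J ^ n := by
  obtain ⟨m, rfl⟩ : ∃ m, n = m + 1 := ⟨n - 1, by omega⟩
  have hJJ : J * J ≤ J := Submodule.mul_le.2 hJ.mul
  rw [pow_succ (J) (m + 1), pow_succ J m, mul_assoc]
  exact mul_le_mul_right hJJ _

theorem pow_mem_pow {J : Submodule k R} {x : R} (hx : x ∈ J) (n : ℕ) : x ^ n ∈ J ^ n :=
  Submodule.pow_mem_pow J hx n

theorem step {J : Submodule k R} (hJ : NilAlg J) {x : R} (hx : x ∈ J)
    (h : J ≤ Submodule.span k {x} ⊔ J ^ 2) (n : ℕ) :
    J ^ (n + 1) ≤ Submodule.span k {x ^ (n + 1)} ⊔ J ^ (n + 2) := by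
  induction n with
  | zero => simpa using h
  | succ n ih =>
    rw [pow_succ J (n + 1), Submodule.mul_le]
    intro a ha b hb
    obtain ⟨_, h1, a', ha', rfl⟩ := Submodule.mem_sup.1 (ih ha)
    obtain ⟨s, rfl⟩ := Submodule.mem_span_singleton.1 h1
    obtain ⟨_, h2, b', hb', rfl⟩ := Submodule.mem_sup.1 (h hb)
    obtain ⟨t, rfl⟩ := Submodule.mem_span_singleton.1 h2
    have e : (s • x ^ (n + 1) + a') * (t • x + b')
        = (s * t) • x ^ (n + 1 + 1) + (s • (x ^ (n + 1) * b') + a' * (t • x + b')) := by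
      rw [pow_succ x (n + 1)]
      simp only [mul_add, add_mul, smul_mul_assoc, mul_smul_comm, smul_add, smul_smul]
      rw [mul_comm t s]
      abel
    rw [e]
    refine Submodule.add_mem _ (Submodule.mem_sup_left
      (Submodule.smul_mem _ _ (Submodule.mem_span_singleton_self _))) (Submodule.mem_sup_right ?_)
    refine Submodule.add_mem _ (Submodule.smul_mem _ _ ?_) ?_
    · have : J ^ (n + 1 + 2) = J ^ (n + 1) * J ^ 2 := pow_add _ _ _
      rw [this]
      exact Submodule.mul_mem_mul (pow_mem_pow hx _) hb'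
    · have : J ^ (n + 1 + 2) = J ^ (n + 2) * J := pow_succ _ _
      rw [this]
      exact Submodule.mul_mem_mul ha' hb

theorem le_adjoin {J : Submodule k R} (hJ : NilAlg J) {x : R} (hx : x ∈ J)
    (h : J ≤ Submodule.span k {x} ⊔ J ^ 2) (n : ℕ) :
    J ≤ Subalgebra.toSubmodule (Algebra.adjoin k {x}) ⊔ J ^ (n + 1) := by
  induction n with
  | zero => simp
  | succ n ih =>
    refine ih.trans (sup_le le_sup_left ((step hJ hx h n).trans (sup_le_sup_right ?_ _)))
    rw [Submodule.span_le]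
    rintro _ rfl
    exact Subalgebra.pow_mem _ (Algebra.self_mem_adjoin_singleton k x) _

theorem one_gen {J : Submodule k R} (hJ : NilAlg J) {x : R} (hx : x ∈ J)
    (h : J ≤ Submodule.span k {x} ⊔ J ^ 2) (hnil : ∃ N : ℕ, J ^ N = ⊥) :
    ∀ a ∈ J, ∀ b ∈ J, a * b = b * a := by
  obtain ⟨N, hN⟩ := hnil
  have h1 := le_adjoin hJ hx h N
  rw [pow_succ, hN, Submodule.bot_mul, sup_bot_eq] at h1
  intro a ha b hb
  have ha' : a ∈ Algebra.adjoin k {x} := h1 ha
  have hb' : b ∈ Algebra.adjoin k {x} := h1 hb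
  have c1 : Commute x a := Algebra.commute_of_mem_adjoin_self ha'
  exact Algebra.commute_of_mem_adjoin_singleton_of_commute hb' c1.symm

end Cfsg.Agent.Lib.Helper17KulONE
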