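import Cfsg.Agent.Lib.Helper81KulDefs

set_option autoImplicit false
set_option linter.unusedSectionVars false

namespace Cfsg.Agent.Lib.Helper54KulLOC

open Cfsg.Agent.Lib.Helper81KulDefs

variable {k : Type*} [Field k] {R : Type*} [Ring R] [Algebra k R] [Module.Finite k R]

omit [Module.Finite k R] in
theorem i_mem {i : R} (hi : i * i = i) : i ∈ Cor (k := k) i := ⟨hi, hi⟩

omit [Module.Finite k R] in
theorem mul_mem {i a b : R} (ha : a ∈ Cor (k := k) i) (hb : b ∈ Cor (k := k) i) :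
    a * b ∈ Cor (k := k) i :=
  ⟨by rw [← mul_assoc, ha.1], by rw [mul_assoc, hb.2]⟩

omit [Module.Finite k R] in
/-- a nilpotent element of the corner has no right inverse in the corner -/
theorem zero_of_right {i a w : R} (ha : a ∈ Cor (k := k) i) (hn : IsNilpotent a) (h : a * w = i) :
    i = 0 := by
  obtain ⟨m, hm⟩ := hn
  have key : ∀ j : ℕ, ∃ x, a ^ (j + 1) * x = i := by
    intro j
    induction j with
    | zero => exact ⟨w, by simpa using h⟩
    | succ j ih =>
      obtain ⟨x, hx⟩ := ih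
      refine ⟨w * x, ?_⟩
      have h1 : a ^ (j + 1) * i = a ^ (j + 1) := by
        rw [pow_succ, mul_assoc, ha.2]
      rw [pow_succ, mul_assoc, ← mul_assoc a w x, h, ← mul_assoc, h1, hx]
  obtain ⟨x, hx⟩ := key m
  rw [pow_succ, hm, zero_mul, zero_mul] at hx
  exact hx.symm

omit [Module.Finite k R] in
/-- a nilpotent element of the corner has no left inverse in the corner -/
theorem zero_of_left {i a w : R} (ha : a ∈ Cor (k := k) i) (hn : IsNilpotent a) (h : w * a = i) :
    i = 0 := by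
  obtain ⟨m, hm⟩ := hn
  have key : ∀ j : ℕ, ∃ x, x * a ^ (j + 1) = i := by
    intro j
    induction j with
    | zero => exact ⟨w, by simpa using h⟩
    | succ j ih =>
      obtain ⟨x, hx⟩ := ih
      refine ⟨x * w, ?_⟩
      have h1 : i * a ^ (j + 1) = a ^ (j + 1) := by
        rw [pow_succ', ← mul_assoc, ha.1]
      rw [pow_succ', ← mul_assoc, mul_assoc x w a, h, mul_assoc, h1, hx]
  obtain ⟨x, hx⟩ := key m
  rw [pow_succ', hm, mul_zero, mul_zero] at hx
  exact hx.symm

omit [Module.Finite k R] in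
/-- `c • i + n` with `c ≠ 0` is invertible in the corner -/
theorem exists_inv {i n : R} (hi : i * i = i) (hnC : n ∈ Cor (k := k) i) (hn : IsNilpotent n)
    {c : k} (hc : c ≠ 0) :
    ∃ w ∈ Cor (k := k) i, (c • i + n) * w = i ∧ w * (c • i + n) = i := by
  have hu : IsNilpotent (c⁻¹ • n) := hn.smul _
  obtain ⟨U, hU⟩ := hu.isUnit_one_add
  have hci : Commute i (U : R) := by
    rw [hU]
    refine (Commute.one_right i).add_right ?_
    change i * (c⁻¹ • n) = (c⁻¹ • n) * i
    rw [mul_smul_comm, smul_mul_assoc, hnC.1, hnC.2]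
  have hci' : Commute i ((U⁻¹ : Rˣ) : R) := hci.units_inv_right
  have hcn : c • i + n = c • (i * (U : R)) := by
    rw [hU, mul_add, mul_one, mul_smul_comm, hnC.1, smul_add, smul_smul, mul_inv_cancel₀ hc,
      one_smul]
  have hcn' : c • i + n = c • ((U : R) * i) := by rw [hcn, hci.eq]
  refine ⟨c⁻¹ • (i * ((U⁻¹ : Rˣ) : R)), ⟨?_, ?_⟩, ?_, ?_⟩
  · rw [mul_smul_comm, ← mul_assoc, hi]
  · rw [smul_mul_assoc, mul_assoc, ← hci'.eq, ← mul_assoc, hi]
  · rw [hcn', smul_mul_smul_comm, mul_inv_cancel₀ hc, one_smul, mul_assoc, ← mul_assoc i i, hi,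
      hci'.eq, ← mul_assoc, Units.mul_inv, one_mul]
  · rw [hcn, smul_mul_smul_comm, inv_mul_cancel₀ hc, one_smul, hci'.eq, mul_assoc,
      ← mul_assoc i i, hi, hci.eq, ← mul_assoc, Units.inv_mul, one_mul]

omit [Module.Finite k R] in
theorem nil_mul {i a b : R} (hi : i * i = i) (hloc : LocC k i) (ha : a ∈ Cor (k := k) i)
    (hn : IsNilpotent a) (hb : b ∈ Cor (k := k) i) : IsNilpotent (a * b) := by
  have hab := mul_mem ha hb
  obtain ⟨c, hc⟩ := hloc _ hab
  by_cases hc0 : c = 0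
  · simpa [hc0] using hc
  · have hnC : a * b - c • i ∈ Cor (k := k) i :=
      (Cor i).sub_mem hab ((Cor i).smul_mem c (i_mem hi))
    obtain ⟨w, -, hw, -⟩ := exists_inv hi hnC hc hc0
    rw [add_sub_cancel, mul_assoc] at hw
    have h0 := zero_of_right ha hn hw
    rw [← hab.1, h0, zero_mul]
    exact IsNilpotent.zero

omit [Module.Finite k R] in
theorem mul_nil {i a b : R} (hi : i * i = i) (hloc : LocC k i) (ha : a ∈ Cor (k := k) i)
    (hn : IsNilpotent a) (hb : b ∈ Cor (k := k) i) : IsNilpotent (b * a) := by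
  have hab := mul_mem hb ha
  obtain ⟨c, hc⟩ := hloc _ hab
  by_cases hc0 : c = 0
  · simpa [hc0] using hc
  · have hnC : b * a - c • i ∈ Cor (k := k) i :=
      (Cor i).sub_mem hab ((Cor i).smul_mem c (i_mem hi))
    obtain ⟨w, -, -, hw⟩ := exists_inv hi hnC hc hc0
    rw [add_sub_cancel, ← mul_assoc] at hw
    have h0 := zero_of_left ha hn hw
    rw [← hab.1, h0, zero_mul]
    exact IsNilpotent.zero

omit [Module.Finite k R] in
theorem nil_add {i a b : R} (hi : i * i = i) (hloc : LocC k i) (ha : a ∈ Cor (k := k) i)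
    (hn : IsNilpotent a) (hb : b ∈ Cor (k := k) i) (hn' : IsNilpotent b) :
    IsNilpotent (a + b) := by
  have hab := (Cor i).add_mem ha hb
  obtain ⟨c, hc⟩ := hloc _ hab
  by_cases hc0 : c = 0
  · simpa [hc0] using hc
  · have hnC : a + b - c • i ∈ Cor (k := k) i :=
      (Cor i).sub_mem hab ((Cor i).smul_mem c (i_mem hi))
    obtain ⟨w, hwC, -, hw⟩ := exists_inv hi hnC hc hc0
    rw [add_sub_cancel, mul_add] at hw
    have h1 : IsNilpotent (w * a) := mul_nil hi hloc ha hn hwC
    have h2 : IsNilpotent (w * b) := mul_nil hi hloc hb hn' hwC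
    have h3 : w * b = (1 : k) • i + (-(w * a)) := by
      rw [one_smul, ← hw]; abel
    obtain ⟨v, -, hv, -⟩ := exists_inv (k := k) hi ((Cor i).neg_mem (mul_mem hwC ha)) h1.neg
      (one_ne_zero)
    rw [← h3] at hv
    have h0 := zero_of_right (mul_mem hwC hb) h2 hv
    rw [← hab.1, h0, zero_mul]
    exact IsNilpotent.zero

theorem nilAlg_Jc {i : R} (hi : i * i = i) (hloc : LocC k i) :
    NilAlg (Jc (k := k) i) ∧ Jc (k := k) i ≤ Cor i ∧
      Cor (k := k) i ≤ Submodule.span k {i} ⊔ Jc i := by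
  have key : ∀ a ∈ Jc (k := k) i, a ∈ Cor (k := k) i ∧ IsNilpotent a := by
    intro a ha
    unfold Jc at ha
    induction ha using Submodule.span_induction with
    | mem x hx => exact hx
    | zero => exact ⟨(Cor i).zero_mem, IsNilpotent.zero⟩
    | add x y _ _ hx hy => exact ⟨(Cor i).add_mem hx.1 hy.1, nil_add hi hloc hx.1 hx.2 hy.1 hy.2⟩
    | smul c x _ hx => exact ⟨(Cor i).smul_mem c hx.1, hx.2.smul c⟩
  refine ⟨⟨?_, fun a ha => (key a ha).2⟩, fun a ha => (key a ha).1, ?_⟩
  · intro a ha b hb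
    obtain ⟨h1, h2⟩ := key a ha
    obtain ⟨h3, -⟩ := key b hb
    exact Submodule.subset_span ⟨mul_mem h1 h3, nil_mul hi hloc h1 h2 h3⟩
  · intro a ha
    obtain ⟨c, hc⟩ := hloc a ha
    rw [Submodule.mem_sup]
    refine ⟨c • i, Submodule.smul_mem _ c (Submodule.mem_span_singleton_self i), a - c • i,
      Submodule.subset_span ⟨(Cor i).sub_mem ha ((Cor i).smul_mem c (i_mem hi)), hc⟩, by abel⟩

end Cfsg.Agent.Lib.Helper54KulLOC
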