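import Cfsg.Agent.Lib.Helper81KulMain
import Cfsg.Agent.Lib.Helper78IndPair
import Cfsg.Agent.Lib.Helper80StarFree2
import Cfsg.Agent.Lib.Helper81CycDefs
import Cfsg.Agent.Lib.Helper17KulONE
import Cfsg.Agent.Lib.Helper91KulNILP
import Cfsg.Agent.Lib.Helper54KulLOC

set_option autoImplicit false

namespace Cfsg.Agent.Lib.H81CycLOC2
open Cfsg
open Cfsg.Agent.Lib.Helper81Local Cfsg.Agent.Lib.Helper20GA Cfsg.Agent.Lib.Helper80IdemDefs
open Cfsg.Agent.Lib.Helper80StarDefs Cfsg.Agent.Lib.Helper4ModRed Cfsg.Agent.Lib.Helper80StarProps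
open Cfsg.Agent.Lib.Helper81KulDefs Cfsg.Agent.Lib.Helper81KulGDefs
open Cfsg.Agent.Lib.Helper91StarBASIC Cfsg.Agent.Lib.Helper80Brauer Cfsg.Agent.Lib.Helper80Trace
open Cfsg.Agent.Lib.Helper81CycDefs Cfsg.Agent.Lib.Helper80Incl

universe u



/-- piece `N-LOC2`: the corner is `k[z] i`. -/
theorem loc_uniserial {k R : Type*} [Field k] [Ring R] [Algebra k R] [Module.Finite k R] {i z : R}
    (hi : i * i = i) (hi0 : i ≠ 0) (hloc : LocC k i)
    (hzc : ∀ a, z * a = a * z) (hzn : IsNilpotent z) (q : ℕ) (hq : 2 ≤ q)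
    (hgen : Jc (k := k) i ≤ Submodule.span k {z * i} ⊔ Jc (k := k) i ^ 2)
    (hzq : z ^ q * i = 0) (a : R) :
    ∃ r : ℕ → k, i * a * i = ∑ m ∈ Finset.range q, r m • (z ^ m * i) := by
  classical
  obtain ⟨hJ, hJC, hCJ⟩ := Cfsg.Agent.Lib.Helper54KulLOC.nilAlg_Jc (k := k) hi hloc
  have hcomm : Commute z i := hzc i
  have hipow : ∀ m : ℕ, i * i ^ m = i := by
    intro m
    induction m with
    | zero => simp
    | succ m ih => rw [pow_succ, ← mul_assoc, ih, hi]
  have hxpow : ∀ m : ℕ, i * (z * i) ^ m = z ^ m * i := by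
    intro m
    rw [hcomm.mul_pow, ← mul_assoc, ← (hcomm.pow_left m).eq, mul_assoc, hipow]
  have hxC : z * i ∈ Cor (k := k) i := by
    constructor
    · rw [← mul_assoc, ← hcomm.eq, mul_assoc, hi]
    · rw [mul_assoc, hi]
  have hxn : IsNilpotent (z * i) := by
    obtain ⟨N, hN⟩ := hzn
    exact ⟨N, by rw [hcomm.mul_pow, hN, zero_mul]⟩
  have hx : z * i ∈ Jc (k := k) i := Submodule.subset_span ⟨hxC, hxn⟩
  obtain ⟨N, hN⟩ := Cfsg.Agent.Lib.Helper91KulNILP.nilp hJ
  have hle := Cfsg.Agent.Lib.Helper17KulONE.le_adjoin hJ hx hgen N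
  rw [pow_succ, hN, Submodule.bot_mul, sup_bot_eq] at hle
  have hiai : i * a * i ∈ Cor (k := k) i := by
    constructor
    · rw [← mul_assoc, ← mul_assoc, hi]
    · rw [mul_assoc, hi]
  obtain ⟨y, hy, j, hj, hyj⟩ := Submodule.mem_sup.mp (hCJ hiai)
  obtain ⟨c, rfl⟩ := Submodule.mem_span_singleton.mp hy
  have hjA : j ∈ Algebra.adjoin k {z * i} := hle hj
  rw [Algebra.adjoin_singleton_eq_range_aeval] at hjA
  obtain ⟨P, hP⟩ := hjA
  have hP' : Polynomial.aeval (z * i) P = j := hP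
  have hij : i * j = j := (hJC hj).1
  have hhigh : ∀ m, z ^ (q + m) * i = 0 := by
    intro m
    rw [add_comm, pow_add, mul_assoc, hzq, mul_zero]
  have hjsum : j = ∑ m ∈ Finset.range q, P.coeff m • (z ^ m * i) := by
    rw [← hij, ← hP', Polynomial.aeval_eq_sum_range' (n := q + (P.natDegree + 1)) (by omega),
      Finset.mul_sum, Finset.sum_range_add]
    have h2 : ∑ x ∈ Finset.range (P.natDegree + 1), i * P.coeff (q + x) • (z * i) ^ (q + x) = 0 := by
      apply Finset.sum_eq_zero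
      intro m _
      rw [mul_smul_comm, hxpow, hhigh, smul_zero]
    rw [h2, add_zero]
    refine Finset.sum_congr rfl (fun m _ => ?_)
    rw [mul_smul_comm, hxpow]
  refine ⟨fun m => P.coeff m + (if m = 0 then c else 0), ?_⟩
  simp only [add_smul, Finset.sum_add_distrib, ite_smul, zero_smul]
  rw [← hjsum, Finset.sum_ite_eq' (Finset.range q) 0, if_pos (Finset.mem_range.mpr (by omega)),
    pow_zero, one_mul, ← hyj, add_comm]

end Cfsg.Agent.Lib.H81CycLOC2
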