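import Cfsg.Agent.Lib.Helper81KulMain
import Cfsg.Agent.Lib.Helper78IndPair
import Cfsg.Agent.Lib.Helper80StarFree2
import Cfsg.Agent.Lib.Helper81CycDefs

set_option autoImplicit false

namespace Cfsg.Agent.Lib.H81CycZA1
open Cfsg
open Cfsg.Agent.Lib.Helper81Local Cfsg.Agent.Lib.Helper20GA Cfsg.Agent.Lib.Helper80IdemDefs
open Cfsg.Agent.Lib.Helper80StarDefs Cfsg.Agent.Lib.Helper4ModRed Cfsg.Agent.Lib.Helper80StarProps
open Cfsg.Agent.Lib.Helper81KulDefs Cfsg.Agent.Lib.Helper81KulGDefs
open Cfsg.Agent.Lib.Helper91StarBASIC Cfsg.Agent.Lib.Helper80Brauer Cfsg.Agent.Lib.Helper80Trace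
open Cfsg.Agent.Lib.Helper81CycDefs Cfsg.Agent.Lib.Helper80Incl

universe u

variable {p : ℕ} [Fact p.Prime] {M : Ideal AlgInt} [M.IsPrime] {G : Type u} [Group G] [Fintype G]

/-- the coefficients of `(y - 1) e` -/
theorem fn_a {P : Subgroup G} {e : Set (IrrCharacter (Subgroup.centralizer (P : Set G)))}
    (he : IsPBlock M e) (y l : G) :
    fn ((ptA M y - 1) * pfA M P e) l = pfun P e (y⁻¹ * l) - pfun P e l := by
  rw [sub_mul, one_mul, fn_sub, Pi.sub_apply, fn_ptA_mul, fn_pfA he]

/-- `(y - 1) e` is invariant under `C_G(P)` -/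
theorem isInv_a {P : Subgroup G} {e : Set (IrrCharacter (Subgroup.centralizer (P : Set G)))}
    (he : IsPBlock M e) {y : G} (hy : y ∈ P) :
    IsInv (Subgroup.centralizer (P : Set G)) (fn ((ptA M y - 1) * pfA M P e)) := by
  classical
  intro x hx l
  rw [fn_a he, fn_a he]
  have h1 : IsInv (Subgroup.centralizer (P : Set G)) (pfun P e) :=
    isInv_ext_self (Helper20Block.blockCoeff_isClassFunction e)
  have hxy : y * x = x * y := Subgroup.mem_centralizer_iff.mp hx y hy
  have hxy' : y⁻¹ * x = x * y⁻¹ := by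
    calc y⁻¹ * x = y⁻¹ * (x * y) * y⁻¹ := by group
      _ = y⁻¹ * (y * x) * y⁻¹ := by rw [hxy]
      _ = x * y⁻¹ := by group
  have h2 : y⁻¹ * (x * l * x⁻¹) = x * (y⁻¹ * l) * x⁻¹ := by
    calc y⁻¹ * (x * l * x⁻¹) = (y⁻¹ * x) * l * x⁻¹ := by group
      _ = x * (y⁻¹ * l) * x⁻¹ := by rw [hxy']; group
  rw [h2, h1 x hx, h1 x hx]

/-- piece `N-ZA1`: the Brauer map of a trace from `L = C_G(P)` of an element of `(y - 1) e`. -/
theorem za1 (hM : IsPModular p M) {B : Set (IrrCharacter G)} {P : Subgroup G}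
    {e : Set (IrrCharacter (Subgroup.centralizer (P : Set G)))}
    (hmax : IsMaximalBrauerPair p M B P e) (hab : ∀ x ∈ P, ∀ y ∈ P, x * y = y * x)
    (hst : pstab P e ≤ Subgroup.centralizer (P : Set G)) {y : G} (hy : y ∈ P)
    [Fintype (G ⧸ Subgroup.centralizer (P : Set G))] (g : G)
    (hg : g ∈ Subgroup.centralizer (P : Set G)) :
    MemLocalIdeal M (fn (trR (Subgroup.centralizer (P : Set G)) ⊤
        ((ptA M y - 1) * pfA M P e)) g
      - ∑ q : G ⧸ Subgroup.centralizer (P : Set G),
          (open Classical in if q.out ∈ Subgroup.normalizer (P : Set G) then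
            fn ((ptA M y - 1) * pfA M P e) (q.out⁻¹ * g * q.out) else 0)) := by
  classical
  have hPr : M.IsPrime := inferInstance
  have hPe := hmax.1.1
  have he : IsPBlock M e := hPe.2
  obtain ⟨F, hF, hFe, hD⟩ := exists_block_of_maximal hM hmax
  set φ : G → ℂ := fn ((ptA M y - 1) * pfA M P e) with hφ
  have hinv : IsInv (Subgroup.centralizer (P : Set G)) φ := isInv_a he hy
  have haFix : (ptA M y - 1) * pfA M P e ∈ Fix M (Subgroup.centralizer (P : Set G)) :=
    mem_Fix_iff.2 hinv
  have htr : fn (trR (Subgroup.centralizer (P : Set G)) ⊤ ((ptA M y - 1) * pfA M P e)) g =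
      ∑ q : G ⧸ Subgroup.centralizer (P : Set G), φ (q.out⁻¹ * g * q.out) := by
    rw [Helper86StarTRBASIC.fn_trR' le_top haFix]
    simp only [Subgroup.mem_top, if_true]
    apply Finset.sum_congr
    · ext q; simp
    · intro q _; rfl
  rw [htr]
  have h1 := tr_fixed_mem (T := Subgroup.centralizer (P : Set G)) hM hinv (rv_fn _) hPe.1 hg
  have h2 : MemLocalIdeal M (∑ q : G ⧸ Subgroup.centralizer (P : Set G),
      if (∀ s ∈ P, q.out⁻¹ * s * q.out ∈ Subgroup.centralizer (P : Set G)) ∧
        q.out ∉ Subgroup.normalizer (P : Set G)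
      then φ (q.out⁻¹ * g * q.out) else 0) := by
    apply Helper20Local.liSum hPr
    intro q _
    split_ifs with hq
    · by_contra hcon
      apply hq.2
      have hlc : q.out⁻¹ * g * q.out ∈
          Subgroup.centralizer ((Helper87Sylow.cj q.out⁻¹ P : Subgroup G) : Set G) := by
        rw [← Helper87Sylow.cj_centralizer, Helper87Sylow.mem_cj]
        convert hg using 1
        group
      have hyc : y⁻¹ ∈
          Subgroup.centralizer ((Helper87Sylow.cj q.out⁻¹ P : Subgroup G) : Set G) := by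
        apply Subgroup.inv_mem
        rw [Subgroup.mem_centralizer_iff]
        rintro _ ⟨s, hs, rfl⟩
        have h3 := hq.1 s hs
        have h4 := Subgroup.mem_centralizer_iff.mp h3 y hy
        simpa using h4.symm
      have hex : ∃ t, t ∈ Subgroup.centralizer ((Helper87Sylow.cj q.out⁻¹ P : Subgroup G) : Set G) ∧
          ¬ MemLocalIdeal M (pfun P e t) := by
        by_contra hno
        push Not at hno
        apply hcon
        rw [hφ, fn_a he]
        exact Helper20Local.liSub hPr (hno _ (Subgroup.mul_mem _ hyc hlc)) (hno _ hlc)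
      obtain ⟨t, htc, htn⟩ := hex
      have hS : Helper87Sylow.cj q.out⁻¹ P ≤ P := by
        apply Helper80Stab.le_of_defectGroup_normal hM (le_pstab P e) (pstab_le P e) hF hD (t := t)
        · rw [hFe]; exact htn
        · exact Helper87Sylow.isPGroup_cj hPe.1
        · rintro _ ⟨s, hs, rfl⟩
          have := hq.1 s hs
          exact centralizer_le_pstab P e (by simpa using this)
        · exact htc
      have := mem_normalizer_of_cj_le hS
      simpa using (Subgroup.normalizer (P : Set G)).inv_mem this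
    · exact Helper20Local.memLocalIdeal_zero hPr
  have h3 := Helper20Local.liAdd hPr h1 h2
  convert h3 using 1
  rw [← Finset.sum_sub_distrib, ← Finset.sum_add_distrib]
  apply Finset.sum_congr rfl
  intro q _
  by_cases hqN : q.out ∈ Subgroup.normalizer (P : Set G)
  · have hq1 : ∀ s ∈ P, q.out⁻¹ * s * q.out ∈ Subgroup.centralizer (P : Set G) := by
      intro s hs
      have h5 := (Subgroup.mem_normalizer_iff.mp
        ((Subgroup.normalizer (P : Set G)).inv_mem hqN) s).mp hs
      have h6 : q.out⁻¹ * s * q.out ∈ P := by simpa using h5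
      rw [Subgroup.mem_centralizer_iff]
      intro z hz
      exact hab z hz _ h6
    rw [if_pos hqN, if_pos hq1, if_neg (fun h => h.2 hqN)]
    simp
  · by_cases hq1 : ∀ s ∈ P, q.out⁻¹ * s * q.out ∈ Subgroup.centralizer (P : Set G)
    · rw [if_neg hqN, if_pos hq1, if_pos ⟨hq1, hqN⟩]
      simp
    · rw [if_neg hqN, if_neg hq1, if_neg (fun h => hq1 h.1)]
      simp [Helper80Transport.cjf]

end Cfsg.Agent.Lib.H81CycZA1
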