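import Cfsg.Agent.Lib.Helper81KulMain
import Cfsg.Agent.Lib.Helper78IndPair
import Cfsg.Agent.Lib.Helper80StarFree2
import Cfsg.Agent.Lib.Helper81CycDefs
import Cfsg.Agent.Lib.H81CycZA1

set_option autoImplicit false

namespace Cfsg.Agent.Lib.H81CycZA2
open Cfsg
open Cfsg.Agent.Lib.Helper81Local Cfsg.Agent.Lib.Helper20GA Cfsg.Agent.Lib.Helper80IdemDefs
open Cfsg.Agent.Lib.Helper80StarDefs Cfsg.Agent.Lib.Helper4ModRed Cfsg.Agent.Lib.Helper80StarProps
open Cfsg.Agent.Lib.Helper81KulDefs Cfsg.Agent.Lib.Helper81KulGDefs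
open Cfsg.Agent.Lib.Helper91StarBASIC Cfsg.Agent.Lib.Helper80Brauer Cfsg.Agent.Lib.Helper80Trace
open Cfsg.Agent.Lib.Helper81CycDefs Cfsg.Agent.Lib.Helper80Incl

universe u

variable {p : ℕ} [Fact p.Prime] {M : Ideal AlgInt} [M.IsPrime] {G : Type u} [Group G] [Fintype G]

/-- a conjugate of `e` under an element of `N_G(P)` outside the stabiliser kills `e`. -/
theorem conj_pfA_mul {P : Subgroup G} {e : Set (IrrCharacter (Subgroup.centralizer (P : Set G)))}
    (he : IsPBlock M e) {x : G} (hx : x ∈ Subgroup.normalizer (P : Set G))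
    (hxs : x ∉ pstab P e) :
    ptA M x * pfA M P e * ptA M x⁻¹ * pfA M P e = 0 := by
  classical
  have h := mem_normalizer_centralizer hx
  set e' := Helper80Transport.mapBlk (Helper80Transport.cjEquiv x _ _ h) e with he'
  have hb : IsPBlock M e' := Helper80Transport.isPBlock_mapBlk _ he
  have hfun : pfun P e' = Helper80Transport.cjf x (pfun P e) :=
    Helper80Transport.ext_blockCoeff_mapBlk x _ _ h e
  have hconj : ptA M x * pfA M P e * ptA M x⁻¹ = pfA M P e' := by
    apply fn_injective
    funext g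
    rw [fn_conj, fn_pfA he, fn_pfA hb, hfun]
    rfl
  have hne : e' ≠ e := by
    intro hee
    apply hxs
    rw [Helper80Stab.mem_stabFun]
    refine ⟨hx, ?_⟩
    rw [← hfun, hee]
  rw [hconj, pfA_mul_ne hb he hne]

/-- piece `N-ZA2`: `Br_P(Z₀) e = (y - 1) e`. -/
theorem za2 (hM : IsPModular p M) {B : Set (IrrCharacter G)} {P : Subgroup G}
    {e : Set (IrrCharacter (Subgroup.centralizer (P : Set G)))}
    (hmax : IsMaximalBrauerPair p M B P e) (hab : ∀ x ∈ P, ∀ y ∈ P, x * y = y * x)
    (hst : pstab P e ≤ Subgroup.centralizer (P : Set G)) {y : G} (hy : y ∈ P) :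
    BrZ P (trR (Subgroup.centralizer (P : Set G)) ⊤ ((ptA M y - 1) * pfA M P e) * pfA M P e
      - (ptA M y - 1) * pfA M P e) := by
  classical
  have he : IsPBlock M e := hmax.1.1.2
  set b := pfA M P e with hb
  set a := (ptA M y - 1) * b with ha
  set Z₀ := trR (Subgroup.centralizer (P : Set G)) ⊤ a with hZ₀
  set Z₁ : OA M G := ∑ q : G ⧸ Subgroup.centralizer (P : Set G),
    if q.out ∈ Subgroup.normalizer (P : Set G) then ptA M q.out * a * ptA M q.out⁻¹ else 0 with hZ₁
  have h1 : BrZ P (Z₀ - Z₁) := by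
    intro g hg
    have h := H81CycZA1.za1 hM hmax hab hst hy g hg
    convert h using 1
    rw [fn_sub, Pi.sub_apply, hZ₁, Helper91StarBASIC.fn_sum, Finset.sum_apply]
    congr 1
    apply Finset.sum_congr rfl
    intro q _
    split_ifs with hq
    · rw [fn_conj]
    · rw [fn_zero]; rfl
  have h2 : BrZ P ((Z₀ - Z₁) * b) := (brZ_mul_supp h1 (pfA_supp he)).1
  have hab' : a * b = a := by
    rw [ha, mul_assoc, hb, pfA_idem he]
  have haFix : a ∈ Fix M (Subgroup.centralizer (P : Set G)) :=
    mem_Fix_iff.2 (H81CycZA1.isInv_a he hy)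
  have h3 : Z₁ * b = a := by
    rw [hZ₁, Finset.sum_mul, Finset.sum_eq_single (QuotientGroup.mk 1)]
    · have hout : (QuotientGroup.mk 1 : G ⧸ Subgroup.centralizer (P : Set G)).out ∈
          Subgroup.centralizer (P : Set G) := by
        have h4 := QuotientGroup.out_eq' (QuotientGroup.mk 1 : G ⧸ Subgroup.centralizer (P : Set G))
        have h5 := QuotientGroup.eq.mp h4
        have := (Subgroup.centralizer (P : Set G)).inv_mem h5
        simpa using this
      rw [if_pos (Subgroup.centralizer_le_normalizer _ hout), mem_Fix_iff'.1 haFix _ hout,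
        mul_assoc a, ptA_mul_inv, mul_one, hab']
    · intro q _ hq
      split_ifs with hqN
      · have hqL : q.out ∉ Subgroup.centralizer (P : Set G) := by
          intro hqL
          apply hq
          rw [← QuotientGroup.out_eq' q]
          rw [QuotientGroup.eq]
          simpa using (Subgroup.centralizer (P : Set G)).inv_mem hqL
        have h6 := conj_pfA_mul (M := M) he hqN (fun h => hqL (hst h))
        calc ptA M q.out * a * ptA M q.out⁻¹ * b
            = ptA M q.out * (ptA M y - 1) * (ptA M q.out⁻¹ * ptA M q.out) * b * ptA M q.out⁻¹ * b := by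
              rw [ptA_inv_mul, mul_one, ha]; simp only [mul_assoc]
          _ = ptA M q.out * (ptA M y - 1) * ptA M q.out⁻¹ *
                (ptA M q.out * b * ptA M q.out⁻¹ * b) := by simp only [mul_assoc]
          _ = 0 := by rw [h6, mul_zero]
      · rw [zero_mul]
    · intro h; exact absurd (Finset.mem_univ _) h
  have h7 : Z₀ * b - a = (Z₀ - Z₁) * b := by
    rw [sub_mul, h3]
  rw [h7]
  exact h2

end Cfsg.Agent.Lib.H81CycZA2
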