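import Cfsg.Agent.Lib.Helper81KulMain
import Cfsg.Agent.Lib.Helper78IndPair
import Cfsg.Agent.Lib.Helper80StarFree2
import Cfsg.Agent.Lib.Helper81CycDefs
import Cfsg.Agent.Lib.H81CycBR
import Cfsg.Agent.Lib.H81CycZA2

set_option autoImplicit false

namespace Cfsg.Agent.Lib.H81CycZB
open Cfsg
open Cfsg.Agent.Lib.Helper81Local Cfsg.Agent.Lib.Helper20GA Cfsg.Agent.Lib.Helper80IdemDefs
open Cfsg.Agent.Lib.Helper80StarDefs Cfsg.Agent.Lib.Helper4ModRed Cfsg.Agent.Lib.Helper80StarProps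
open Cfsg.Agent.Lib.Helper81KulDefs Cfsg.Agent.Lib.Helper81KulGDefs
open Cfsg.Agent.Lib.Helper91StarBASIC Cfsg.Agent.Lib.Helper80Brauer Cfsg.Agent.Lib.Helper80Trace
open Cfsg.Agent.Lib.Helper81CycDefs Cfsg.Agent.Lib.Helper80Incl

universe u

variable {p : ℕ} [Fact p.Prime] {M : Ideal AlgInt} [M.IsPrime] {G : Type u} [Group G] [Fintype G]

/-- elements of `(O G)^G` are central. -/
theorem central_of_Fix_top {a : OA M G} (ha : a ∈ Fix M (⊤ : Subgroup G)) (c : OA M G) :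
    a * c = c * a := by
  have h := mem_Fix_iff'.mp ha
  rw [eq_sum_smul_ptA c, Finset.mul_sum, Finset.sum_mul]
  apply Finset.sum_congr rfl
  intro g _
  rw [mul_smul_comm, smul_mul_assoc, h g (Subgroup.mem_top g)]

theorem epsA_mem_Fix {B : Set (IrrCharacter G)} (hB : IsPBlock M B) :
    epsA M B ∈ Fix M (⊤ : Subgroup G) := by
  rw [mem_Fix_iff, Helper38KulEPS.fn_epsA hB]
  exact isInv_of_isClassFunction _ (Helper20Block.blockCoeff_isClassFunction B)

/-- `y - 1 ∈ (O G)^X` when `X` centralizes `y`. -/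
theorem pt_sub_one_mem_Fix {X : Subgroup G} {y : G} (h : ∀ x ∈ X, x * y = y * x) :
    ptA M y - 1 ∈ Fix M X := by
  rw [mem_Fix_iff']
  intro x hx
  rw [mul_sub, sub_mul, mul_one, one_mul, ← ptA_mul, ← ptA_mul, h x hx]

/-- the element `(y - 1) e` is fixed by `C_G(P)`. -/
theorem a_mem_Fix {P : Subgroup G} {e : Set (IrrCharacter (Subgroup.centralizer (P : Set G)))}
    (he : IsPBlock M e) {y : G} (hy : y ∈ P) :
    (ptA M y - 1) * pfA M P e ∈ Fix M (Subgroup.centralizer (P : Set G)) := by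
  classical
  apply Subalgebra.mul_mem
  · apply pt_sub_one_mem_Fix
    intro x hx
    exact (Subgroup.mem_centralizer_iff.mp hx y hy).symm
  · rw [mem_Fix_iff, fn_pfA he]
    exact isInv_ext_self (Helper20Block.blockCoeff_isClassFunction e)

/-- piece `N-ZB`: powers. -/
theorem zb (hM : IsPModular p M) {B : Set (IrrCharacter G)} {P : Subgroup G}
    {e : Set (IrrCharacter (Subgroup.centralizer (P : Set G)))}
    (hmax : IsMaximalBrauerPair p M B P e) (hab : ∀ x ∈ P, ∀ y ∈ P, x * y = y * x)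
    (hst : pstab P e ≤ Subgroup.centralizer (P : Set G)) {y : G} (hy : y ∈ P) (m : ℕ) :
    BrZ P ((trR (Subgroup.centralizer (P : Set G)) ⊤ ((ptA M y - 1) * pfA M P e) * epsA M B) ^ m
        * pfA M P e - (ptA M y - 1) ^ m * pfA M P e) := by
  classical
  have hbi : BrIdealP p M G := Helper80StarBR.brIdealP hM
  have htb : TrBasicP p M G := Helper86StarTRBASIC.trBasicP hM
  have hPe : IsBrauerPair p M P e := hmax.1.1
  have hB : IsPBlock M B := hmax.1.2.1
  have hP : IsPGroup p P := hPe.1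
  set b := pfA M P e with hb
  set Y := ptA M y - 1 with hY
  set Z₀ := trR (Subgroup.centralizer (P : Set G)) ⊤ (Y * b) with hZ₀
  set ε := epsA M B with hε
  have hZ₀top : Z₀ ∈ Fix M (⊤ : Subgroup G) :=
    (htb _ ⊤ (Y * b) le_top (a_mem_Fix hPe.2 hy)).2.1
  have hεtop : ε ∈ Fix M (⊤ : Subgroup G) := epsA_mem_Fix hB
  have hZtop : Z₀ * ε ∈ Fix M (⊤ : Subgroup G) := Subalgebra.mul_mem _ hZ₀top hεtop
  have hmono : Fix M (⊤ : Subgroup G) ≤ Fix M P := Fix_mono le_top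
  have hbP : b ∈ Fix M P := mem_Fix_of_supp (pfA_supp hPe.2)
  have hYP : Y ∈ Fix M P := pt_sub_one_mem_Fix (fun x hx => hab x hx y hy)
  have h1 : BrZ P (ε * b - b) := H81CycBR.br_eps hM hmax.1
  have h2 : BrZ P (Z₀ * b - Y * b) := H81CycZA2.za2 hM hmax hab hst hy
  induction m with
  | zero =>
    simp only [pow_zero, sub_self]
    exact fun _ _ => memLocalIdeal_zero
  | succ m ih =>
    have e1 : (Z₀ * ε) ^ (m + 1) * b - Y ^ (m + 1) * b
        = (Z₀ * ε) * ((Z₀ * ε) ^ m * b - Y ^ m * b)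
          + Y ^ m * (Z₀ * (ε * b - b) + (Z₀ * b - Y * b)) := by
      have hc : (Z₀ * ε) * (Y ^ m * b) = Y ^ m * (Z₀ * (ε * b)) := by
        rw [← mul_assoc, central_of_Fix_top hZtop (Y ^ m)]
        simp only [mul_assoc]
      have e2 : Z₀ * (ε * b - b) + (Z₀ * b - Y * b) = Z₀ * (ε * b) - Y * b := by
        rw [mul_sub]; abel
      rw [e2, mul_sub, mul_sub, hc, pow_succ', pow_succ, mul_assoc (Z₀ * ε), mul_assoc (Y ^ m)]
      abel
    rw [e1]
    apply BrZ.add
    · refine (hbi P _ _ hP ?_ (hmono hZtop) ih).2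
      exact Subalgebra.sub_mem _ (Subalgebra.mul_mem _ (Subalgebra.pow_mem _ (hmono hZtop) m) hbP)
        (Subalgebra.mul_mem _ (Subalgebra.pow_mem _ hYP m) hbP)
    · have h3 : BrZ P (Z₀ * (ε * b - b)) :=
        (hbi P _ _ hP (Subalgebra.sub_mem _ (Subalgebra.mul_mem _ (hmono hεtop) hbP) hbP)
          (hmono hZ₀top) h1).2
      refine (hbi P _ _ hP ?_ (Subalgebra.pow_mem _ hYP m) (BrZ.add h3 h2)).2
      apply Subalgebra.add_mem
      · exact Subalgebra.mul_mem _ (hmono hZ₀top)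
          (Subalgebra.sub_mem _ (Subalgebra.mul_mem _ (hmono hεtop) hbP) hbP)
      · exact Subalgebra.sub_mem _ (Subalgebra.mul_mem _ (hmono hZ₀top) hbP)
          (Subalgebra.mul_mem _ hYP hbP)

end Cfsg.Agent.Lib.H81CycZB
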