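import Cfsg.Agent.Lib.Helper81KulMain
import Cfsg.Agent.Lib.Helper78IndPair
import Cfsg.Agent.Lib.Helper80StarFree2
import Cfsg.Agent.Lib.Helper81CycDefs
import Cfsg.Agent.Lib.Helper21Quot
import Cfsg.Agent.Lib.Helper20DefCard

set_option autoImplicit false

namespace Cfsg.Agent.Lib.H81CycZC
open Cfsg
open Cfsg.Agent.Lib.Helper81Local Cfsg.Agent.Lib.Helper20GA Cfsg.Agent.Lib.Helper80IdemDefs
open Cfsg.Agent.Lib.Helper80StarDefs Cfsg.Agent.Lib.Helper4ModRed Cfsg.Agent.Lib.Helper80StarProps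
open Cfsg.Agent.Lib.Helper81KulDefs Cfsg.Agent.Lib.Helper81KulGDefs
open Cfsg.Agent.Lib.Helper91StarBASIC Cfsg.Agent.Lib.Helper80Brauer Cfsg.Agent.Lib.Helper80Trace
open Cfsg.Agent.Lib.Helper81CycDefs Cfsg.Agent.Lib.Helper80Incl

universe u

variable {p : ℕ} [Fact p.Prime] {M : Ideal AlgInt} [M.IsPrime] {G : Type u} [Group G] [Fintype G]

theorem poly_key (p a : ℕ) [Fact p.Prime] :
    ∃ g : Polynomial ℤ, (Polynomial.X - 1) ^ (p ^ a - 1)
      - ∑ j ∈ Finset.range (p ^ a), (Polynomial.X : Polynomial ℤ) ^ j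
        = Polynomial.C (p : ℤ) * g := by
  have hp : p.Prime := Fact.out
  have h1 : ((Polynomial.X - 1 : Polynomial (ZMod p)) ^ (p ^ a - 1))
      = ∑ j ∈ Finset.range (p ^ a), Polynomial.X ^ j := by
    have hne : (Polynomial.X - 1 : Polynomial (ZMod p)) ≠ 0 := by
      have := Polynomial.X_sub_C_ne_zero (1 : ZMod p)
      rwa [Polynomial.C_1] at this
    apply mul_right_cancel₀ hne
    rw [← pow_succ, Nat.sub_add_cancel (Nat.one_le_pow _ _ hp.pos), sub_pow_char_pow, one_pow,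
      geom_sum_mul]
  have h2 : Polynomial.C (p : ℤ) ∣ (Polynomial.X - 1) ^ (p ^ a - 1)
      - ∑ j ∈ Finset.range (p ^ a), (Polynomial.X : Polynomial ℤ) ^ j := by
    rw [Polynomial.C_dvd_iff_dvd_coeff]
    intro i
    rw [← ZMod.intCast_zmod_eq_zero_iff_dvd]
    have h3 : Polynomial.map (Int.castRingHom (ZMod p)) ((Polynomial.X - 1) ^ (p ^ a - 1)
      - ∑ j ∈ Finset.range (p ^ a), (Polynomial.X : Polynomial ℤ) ^ j) = 0 := by
      simp only [Polynomial.map_sub, Polynomial.map_pow, Polynomial.map_X, Polynomial.map_one,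
        Polynomial.map_sum]
      rw [h1, sub_self]
    have h4 := congrArg (fun f => Polynomial.coeff f i) h3
    rw [Polynomial.coeff_map, Polynomial.coeff_zero] at h4
    exact h4
  exact h2

/-- piece `N-ZC`: `(y - 1)^(q-1) e ≠ 0`. -/
theorem zc (hM : IsPModular p M) {P : Subgroup G}
    {e : Set (IrrCharacter (Subgroup.centralizer (P : Set G)))} (hPe : IsBrauerPair p M P e)
    {y : G} (hy : P = Subgroup.zpowers y) :
    ¬ BrZ P ((ptA M y - 1) ^ (Nat.card P - 1) * pfA M P e) := by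
  classical
  intro h
  have hp : p.Prime := Fact.out
  have hPr : M.IsPrime := inferInstance
  obtain ⟨a, ha⟩ := IsPGroup.iff_card.1 hPe.1
  have hord : orderOf y = p ^ a := by
    rw [← ha, hy, Nat.card_zpowers]
  obtain ⟨χ, hχ⟩ := Helper20Block.IsPBlock.nonempty hPr hPe.2
  obtain ⟨l, hl, -⟩ := Helper21Quot.exists_unit hPr hPe.2 hχ
  have hl0 : blockCoeff e l ≠ 0 := by
    intro h0
    rw [h0] at hl
    exact hl memLocalIdeal_zero
  have hlreg : ¬ p ∣ orderOf l := Helper20DefCard.not_dvd_orderOf_of_blockCoeff hM hPe.2 hl0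
  have hyP : y ∈ P := by rw [hy]; exact Subgroup.mem_zpowers y
  have hPC : P ≤ Subgroup.centralizer (P : Set G) := by
    intro x hx
    rw [Subgroup.mem_centralizer_iff]
    intro z hz
    rw [hy] at hx hz
    obtain ⟨i, rfl⟩ := Subgroup.mem_zpowers_iff.1 hx
    obtain ⟨j, rfl⟩ := Subgroup.mem_zpowers_iff.1 hz
    rw [← zpow_add, ← zpow_add, add_comm]
  obtain ⟨g, hg⟩ := poly_key p a
  have h2 := congrArg (Polynomial.aeval (ptA M y)) hg
  simp only [map_sub, map_pow, map_sum, Polynomial.aeval_X, map_one, map_mul,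
    Polynomial.aeval_C] at h2
  set b : OA M G := Polynomial.aeval (ptA M y) g with hb
  have h3 : (algebraMap ℤ (OA M G)) (p : ℤ) * b = ((p : ℕ) : Rt M) • b := by
    rw [Nat.cast_smul_eq_nsmul, nsmul_eq_mul]
    simp
  rw [h3, sub_eq_iff_eq_add] at h2
  rw [ha, h2, add_mul, smul_mul_assoc] at h
  have h4 := h (l : G) l.2
  rw [fn_add, Pi.add_apply, fn_smul, Pi.smul_apply, Finset.sum_mul, fn_sum,
    Finset.sum_apply] at h4
  have h5 : ∑ j ∈ Finset.range (p ^ a), fn (ptA M y ^ j * pfA M P e) (l : G) = blockCoeff e l := by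
    rw [Finset.sum_eq_single 0]
    · rw [pow_zero, one_mul, fn_pfA hPe.2]
      exact ext_coe _ l
    · intro j hj hj0
      rw [← ptA_pow, fn_ptA_mul, fn_pfA hPe.2]
      have hyj : (y ^ j)⁻¹ ∈ P := P.inv_mem (P.pow_mem hyP j)
      have e1 : (y ^ j)⁻¹ * (l : G)
          = (((⟨(y ^ j)⁻¹, hPC hyj⟩ : Subgroup.centralizer (P : Set G)) * l :
              Subgroup.centralizer (P : Set G)) : G) := rfl
      rw [e1]
      refine (ext_coe _ _).trans ?_
      apply Helper81Orth.blockCoeff_eq_zero_of_singular hM hPe.2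
      apply Helper20DefCard.dvd_orderOf_mul (k := a) _ _ _ hlreg
      · intro h1
        have h1' : (y ^ j)⁻¹ = 1 := congrArg Subtype.val h1
        rw [inv_eq_one] at h1'
        have := orderOf_dvd_of_pow_eq_one h1'
        rw [hord] at this
        have := Nat.le_of_dvd (Nat.pos_of_ne_zero hj0) this
        have := Finset.mem_range.1 hj
        omega
      · apply Subtype.ext
        change ((y ^ j)⁻¹) ^ (p ^ a) = 1
        rw [inv_pow, ← pow_mul, mul_comm, pow_mul, ← hord, pow_orderOf_eq_one, one_pow, inv_one]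
      · apply Subtype.ext
        change (y ^ j)⁻¹ * (l : G) = (l : G) * (y ^ j)⁻¹
        exact (Subgroup.mem_centralizer_iff.1 l.2 _ hyj)
    · intro h0
      exact absurd (Finset.mem_range.2 (pow_pos hp.pos a)) h0
  rw [h5] at h4
  apply hl
  have h6 : MemLocalIdeal M ((((p : ℕ) : Rt M) : ℂ) • fn (b * pfA M P e) (l : G)) := by
    rw [smul_eq_mul]
    apply memLocalIdeal_mul_right _ (rv_fn _ _)
    have : (((p : ℕ) : Rt M) : ℂ) = (p : ℂ) := by norm_cast
    rw [this]
    exact memLocalIdeal_p hM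
  have h7 := memLocalIdeal_sub h4 h6
  rwa [add_sub_cancel_left] at h7

end Cfsg.Agent.Lib.H81CycZC
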