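import Cfsg.Agent.Lib.Helper81KulMain
import Cfsg.Agent.Lib.Helper78IndPair
import Cfsg.Agent.Lib.Helper80StarFree2
import Cfsg.Agent.Lib.Helper81CycDefs
import Cfsg.Agent.Lib.H81CycZA1
import Cfsg.Agent.Lib.H81CycZB
import Cfsg.Agent.Lib.H81CycZC

set_option autoImplicit false

namespace Cfsg.Agent.Lib.H81CycZD
open Cfsg
open Cfsg.Agent.Lib.Helper81Local Cfsg.Agent.Lib.Helper20GA Cfsg.Agent.Lib.Helper80IdemDefs
open Cfsg.Agent.Lib.Helper80StarDefs Cfsg.Agent.Lib.Helper4ModRed Cfsg.Agent.Lib.Helper80StarProps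
open Cfsg.Agent.Lib.Helper81KulDefs Cfsg.Agent.Lib.Helper81KulGDefs
open Cfsg.Agent.Lib.Helper91StarBASIC Cfsg.Agent.Lib.Helper80Brauer Cfsg.Agent.Lib.Helper80Trace
open Cfsg.Agent.Lib.Helper81CycDefs Cfsg.Agent.Lib.Helper80Incl
open Cfsg.Agent.Lib.Helper38KulEPS (epsA_idem epsA_central)

universe u

variable {p : ℕ} [Fact p.Prime] {M : Ideal AlgInt} [M.IsPrime] {G : Type u} [Group G] [Fintype G]

/-- an element of `(O G)^G` is central -/
theorem central_of_Fix_top {Z : OA M G} (hZ : Z ∈ Fix M (⊤ : Subgroup G)) (a : OA M G) :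
    Z * a = a * Z := by
  have h := mem_Fix_iff'.1 hZ
  rw [eq_sum_smul_ptA a, Finset.mul_sum, Finset.sum_mul]
  refine Finset.sum_congr rfl fun g _ => ?_
  rw [mul_smul_comm, smul_mul_assoc, h g trivial]

/-- a cyclic group is abelian -/
theorem comm_of_zpowers {P : Subgroup G} {y : G} (hy : P = Subgroup.zpowers y) :
    ∀ a ∈ P, ∀ b ∈ P, a * b = b * a := by
  intro a ha b hb
  rw [hy] at ha hb
  obtain ⟨m, rfl⟩ := Subgroup.mem_zpowers_iff.1 ha
  obtain ⟨n, rfl⟩ := Subgroup.mem_zpowers_iff.1 hb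
  rw [← zpow_add, ← zpow_add, add_comm]

/-- the trace `Z₀` is central -/
theorem Z0_central (hM : IsPModular p M) {P : Subgroup G}
    {e : Set (IrrCharacter (Subgroup.centralizer (P : Set G)))} (he : IsPBlock M e) {y : G}
    (hy : y ∈ P) (a : OA M G) :
    trR (Subgroup.centralizer (P : Set G)) ⊤ ((ptA M y - 1) * pfA M P e) * a =
      a * trR (Subgroup.centralizer (P : Set G)) ⊤ ((ptA M y - 1) * pfA M P e) := by
  have htb : TrBasicP p M G := Helper86StarTRBASIC.trBasicP hM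
  have haFix : (ptA M y - 1) * pfA M P e ∈ Fix M (Subgroup.centralizer (P : Set G)) :=
    mem_Fix_iff.2 (H81CycZA1.isInv_a he hy)
  exact central_of_Fix_top (htb _ ⊤ _ le_top haFix).2.1 a

/-- piece `N-ZD`: the central element of `k G`. -/
theorem zd (hM : IsPModular p M) {B : Set (IrrCharacter G)} {P : Subgroup G}
    {e : Set (IrrCharacter (Subgroup.centralizer (P : Set G)))}
    (hmax : IsMaximalBrauerPair p M B P e)
    (hst : pstab P e ≤ Subgroup.centralizer (P : Set G)) {y : G} (hy : P = Subgroup.zpowers y)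
    {φ : OA M G →+* MonoidAlgebra (kk M) G} (hφ : IsRed φ) :
    (∀ a, φ (trR (Subgroup.centralizer (P : Set G)) ⊤ ((ptA M y - 1) * pfA M P e) * epsA M B) * a
      = a * φ (trR (Subgroup.centralizer (P : Set G)) ⊤ ((ptA M y - 1) * pfA M P e) * epsA M B)) ∧
    φ (epsA M B) * φ (trR (Subgroup.centralizer (P : Set G)) ⊤ ((ptA M y - 1) * pfA M P e)
      * epsA M B)
      = φ (trR (Subgroup.centralizer (P : Set G)) ⊤ ((ptA M y - 1) * pfA M P e) * epsA M B) ∧
    φ (trR (Subgroup.centralizer (P : Set G)) ⊤ ((ptA M y - 1) * pfA M P e) * epsA M B)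
      ^ (Nat.card P - 1) ≠ 0 := by
  have hPe := hmax.1.1
  have he : IsPBlock M e := hPe.2
  have hB : IsPBlock M B := hmax.1.2.1
  have hyP : y ∈ P := by rw [hy]; exact Subgroup.mem_zpowers y
  have hab := comm_of_zpowers hy
  have hZc := Z0_central hM he hyP
  have hεi := epsA_idem (M := M) hB
  have hεc := epsA_central (M := M) hB
  obtain ⟨Z₀, hZ₀⟩ : ∃ Z₀, Z₀ = trR (Subgroup.centralizer (P : Set G)) ⊤
    ((ptA M y - 1) * pfA M P e) := ⟨_, rfl⟩
  have hzb := H81CycZB.zb hM hmax hab hst hyP (Nat.card P - 1)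
  rw [← hZ₀] at hZc hzb ⊢
  refine ⟨?_, ?_, ?_⟩
  · intro a
    obtain ⟨a', rfl⟩ := hφ.surj a
    rw [← map_mul, ← map_mul]
    congr 1
    rw [mul_assoc, hεc, ← mul_assoc, hZc, mul_assoc]
  · rw [← map_mul]
    congr 1
    rw [hεc, mul_assoc, hεi]
  · intro h0
    rw [← map_pow, hφ.ker] at h0
    have h1 : BrZ P ((Z₀ * epsA M B) ^ (Nat.card P - 1) * pfA M P e) :=
      brZ_of_mem_mA (mem_mA_mul _ h0)
    have h2 := BrZ.sub h1 hzb
    rw [sub_sub_cancel] at h2
    exact H81CycZC.zc hM hPe hy h2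

end Cfsg.Agent.Lib.H81CycZD
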