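import Cfsg.Agent.Lib.Helper81KulMain
import Cfsg.Agent.Lib.Helper78IndPair
import Cfsg.Agent.Lib.Helper80StarFree2
import Cfsg.Agent.Lib.Helper81CycDefs
import Cfsg.Agent.Lib.Helper40ModRed
import Cfsg.Agent.Lib.H81CycBR
import Cfsg.Agent.Lib.H81CycBR2
import Cfsg.Agent.Lib.H81CycZB
import Cfsg.Agent.Lib.H81CycZC
import Cfsg.Agent.Lib.H81CycZD

set_option autoImplicit false

namespace Cfsg.Agent.Lib.H81CycZE
open Cfsg
open Cfsg.Agent.Lib.Helper81Local Cfsg.Agent.Lib.Helper20GA Cfsg.Agent.Lib.Helper80IdemDefs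
open Cfsg.Agent.Lib.Helper80StarDefs Cfsg.Agent.Lib.Helper4ModRed Cfsg.Agent.Lib.Helper80StarProps
open Cfsg.Agent.Lib.Helper81KulDefs Cfsg.Agent.Lib.Helper81KulGDefs
open Cfsg.Agent.Lib.Helper91StarBASIC Cfsg.Agent.Lib.Helper80Brauer Cfsg.Agent.Lib.Helper80Trace
open Cfsg.Agent.Lib.Helper81CycDefs Cfsg.Agent.Lib.Helper80Incl
open Cfsg.Agent.Lib.Helper38KulEPS (epsA_idem epsA_central)

universe u

variable {p : ℕ} [Fact p.Prime] {M : Ideal AlgInt} [M.IsPrime] {G : Type u} [Group G] [Fintype G]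

omit [Fact p.Prime] in
/-- `Br_P(a) = 0` read in `k G`. -/
theorem brZ_iff {φ : OA M G →+* MonoidAlgebra (kk M) G} (hφ : IsRed φ) {P : Subgroup G}
    {a : OA M G} : BrZ P a ↔ ∀ g ∈ Subgroup.centralizer (P : Set G), (φ a).coeff g = 0 := by
  constructor
  · intro h g hg
    rw [H81CycBR2.coeff_isRed hφ, IsLocalRing.residue_eq_zero_iff, mem_maximalIdeal_Rt_iff]
    exact h g hg
  · intro h g hg
    have := h g hg
    rw [H81CycBR2.coeff_isRed hφ, IsLocalRing.residue_eq_zero_iff, mem_maximalIdeal_Rt_iff] at this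
    exact this

/-- pure algebra: a central element of `ε R` whose corner part is `c i` + nilpotent. -/
theorem nil_of_corner {k R : Type*} [Field k] [Ring R] [Algebra k R] {z ε i : R} {c : k}
    (hzc : ∀ a, z * a = a * z) (hεc : ∀ a, ε * a = a * ε) (hεε : ε * ε = ε) (hεz : ε * z = z)
    (hi : i * i = i) (hei : ε * i = i) {n : ℕ} (x y : Fin n → R) (he : ε = ∑ s, x s * i * y s)
    (hnil : IsNilpotent (z * i - c • i)) : IsNilpotent (z - c • ε) := by
  obtain ⟨N, hN⟩ := hnil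
  obtain ⟨u, hu⟩ : ∃ u, u = z - c • ε := ⟨_, rfl⟩
  have huc : ∀ a, u * a = a * u := by
    intro a
    rw [hu, sub_mul, mul_sub, hzc, smul_mul_assoc, mul_smul_comm, hεc]
  have hui : u * i = z * i - c • i := by rw [hu, sub_mul, smul_mul_assoc, hei]
  have huε : u * ε = u := by
    rw [hu, sub_mul, smul_mul_assoc, hεε, ← hεc, hεz]
  have h1 : u ^ (N + 1) * i = 0 := by
    have h2 : (u * i) ^ (N + 1) = u ^ (N + 1) * i ^ (N + 1) := Commute.mul_pow (huc i) _
    have hi' : IsIdempotentElem i := hi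
    rw [hi'.pow_succ_eq] at h2
    rw [← h2, hui, pow_succ, hN, zero_mul]
  have hpc : ∀ a, u ^ (N + 1) * a = a * u ^ (N + 1) := by
    intro a
    have : Commute u a := huc a
    exact (this.pow_left _).eq
  rw [← hu]
  refine ⟨N + 1, ?_⟩
  have h3 : u ^ (N + 1) = u ^ (N + 1) * ε := by
    rw [pow_succ, mul_assoc, huε]
  rw [h3, he, Finset.mul_sum]
  refine Finset.sum_eq_zero fun s _ => ?_
  rw [← mul_assoc, ← mul_assoc, hpc, mul_assoc (x s), h1, mul_zero, zero_mul]

/-- piece `N-ZE`: it is nilpotent. -/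
theorem ze (hM : IsPModular p M) {B : Set (IrrCharacter G)} {P : Subgroup G}
    {e : Set (IrrCharacter (Subgroup.centralizer (P : Set G)))}
    (hmax : IsMaximalBrauerPair p M B P e)
    (hst : pstab P e ≤ Subgroup.centralizer (P : Set G)) {y : G} (hy : P = Subgroup.zpowers y)
    {φ : OA M G →+* MonoidAlgebra (kk M) G} (hφ : IsRed φ)
    {i : MonoidAlgebra (kk M) G} (hloc : LocC (kk M) i) (hi : i * i = i)
    (hei : φ (epsA M B) * i = i) {n : ℕ} (x y' : Fin n → MonoidAlgebra (kk M) G)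
    (he : φ (epsA M B) = ∑ s, x s * i * y' s) :
    IsNilpotent (φ (trR (Subgroup.centralizer (P : Set G)) ⊤ ((ptA M y - 1) * pfA M P e)
      * epsA M B)) := by
  classical
  obtain ⟨hzc, hεz, -⟩ := H81CycZD.zd hM hmax hst hy hφ
  have hPe := hmax.1.1
  have hB : IsPBlock M B := hmax.1.2.1
  have hyP : y ∈ P := by rw [hy]; exact Subgroup.mem_zpowers y
  have hab := H81CycZD.comm_of_zpowers hy
  have hεε : φ (epsA M B) * φ (epsA M B) = φ (epsA M B) := by
    rw [← map_mul, epsA_idem (M := M) hB]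
  have hεc : ∀ a, φ (epsA M B) * a = a * φ (epsA M B) := by
    intro a
    obtain ⟨a', rfl⟩ := hφ.surj a
    rw [← map_mul, ← map_mul, epsA_central (M := M) hB]
  have hzb := fun m => H81CycZB.zb hM hmax hab hst hyP m
  obtain ⟨Z, hZ⟩ : ∃ Z, Z = trR (Subgroup.centralizer (P : Set G)) ⊤
    ((ptA M y - 1) * pfA M P e) * epsA M B := ⟨_, rfl⟩
  rw [← hZ] at hzc hεz hzb ⊢
  have hzi : φ Z * i ∈ Cor (k := kk M) i :=
    ⟨by rw [← mul_assoc, ← hzc i, mul_assoc, hi], by rw [mul_assoc, hi]⟩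
  obtain ⟨c, hc⟩ := hloc _ hzi
  obtain ⟨N, hN⟩ := nil_of_corner hzc hεc hεε hεz hi hei x y' he hc
  -- characteristic `p`
  have hch : CharP (kk M) p := Helper40ModRed.charP_kk hM
  have hchA : CharP (MonoidAlgebra (kk M) G) p :=
    charP_of_injective_algebraMap (algebraMap (kk M) (MonoidAlgebra (kk M) G)).injective p
  obtain ⟨a, ha⟩ := (IsPGroup.iff_card.1 hPe.1)
  obtain ⟨m, hm⟩ : ∃ m, m = p ^ (a + N) := ⟨_, rfl⟩
  have hp1 : 1 < p := (Fact.out : p.Prime).one_lt
  have hNm : N ≤ m := by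
    rw [hm]
    calc N ≤ a + N := Nat.le_add_left _ _
      _ ≤ p ^ (a + N) := (Nat.lt_pow_self hp1).le
  have hm0 : m ≠ 0 := by rw [hm]; exact pow_ne_zero _ (by omega)
  have hym : y ^ m = 1 := by
    have h1 : y ^ Nat.card P = 1 := by
      have := pow_card_eq_one' (G := P) (x := ⟨y, hyP⟩)
      exact congrArg Subtype.val this
    rw [hm, pow_add, pow_mul, ← ha, h1, one_pow]
  have hzm : φ Z ^ m = c ^ m • φ (epsA M B) := by
    have h1 : (φ Z - c • φ (epsA M B)) ^ m = 0 := pow_eq_zero_of_le hNm hN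
    have hcomm : Commute (φ Z) (c • φ (epsA M B)) := hzc _
    rw [hm, sub_pow_char_pow_of_commute p _ hcomm, ← hm, smul_pow] at h1
    have hε' : IsIdempotentElem (φ (epsA M B)) := hεε
    obtain ⟨m', rfl⟩ := Nat.exists_eq_succ_of_ne_zero hm0
    rw [Nat.succ_eq_add_one, hε'.pow_succ_eq] at h1
    exact sub_eq_zero.1 h1
  by_cases hc0 : c = 0
  · refine ⟨m, ?_⟩
    rw [hzm, hc0, zero_pow hm0, zero_smul]
  · exfalso
    have hy0 : (φ (ptA M y) - 1) ^ m = 0 := by
      have hcomm : Commute (φ (ptA M y)) 1 := Commute.one_right _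
      rw [hm, sub_pow_char_pow_of_commute p _ hcomm, ← hm, one_pow, ← map_pow, ← ptA_pow, hym,
        ptA_one, map_one, sub_self]
    have h1 := (brZ_iff hφ).1 (hzb m)
    have h2 := (brZ_iff hφ).1 (H81CycBR.br_eps hM hmax.1)
    have h3 : BrZ P (pfA M P e) := by
      rw [brZ_iff hφ]
      intro g hg
      have h4 := h1 g hg
      have h5 := h2 g hg
      rw [map_sub, map_mul, map_mul, map_pow, map_pow, map_sub, map_one, hy0, zero_mul, sub_zero,
        hzm, smul_mul_assoc] at h4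
      rw [map_sub, map_mul] at h5
      have h6 : (φ (epsA M B) * φ (pfA M P e)).coeff g = 0 := by
        have : c ^ m * (φ (epsA M B) * φ (pfA M P e)).coeff g = 0 := by simpa using h4
        exact (mul_eq_zero.1 this).resolve_left (pow_ne_zero _ hc0)
      have h7 : (φ (epsA M B) * φ (pfA M P e)).coeff g - (φ (pfA M P e)).coeff g = 0 := by
        simpa using h5
      rw [h6, zero_sub, neg_eq_zero] at h7
      exact h7
    have h4 : pfA M P e ∈ mA (Rt M) (OA M G) := by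
      rw [mem_mA_iff]
      intro g
      by_cases hg : g ∈ Subgroup.centralizer (P : Set G)
      · exact h3 g hg
      · rw [pfA_supp hPe.2 g hg]
        exact memLocalIdeal_zero
    exact H81CycZC.zc hM hPe hy (brZ_of_mem_mA (mul_mem_mA _ h4))

end Cfsg.Agent.Lib.H81CycZE
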