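import Cfsg.Agent.Lib.Helper81KulMain
import Cfsg.Agent.Lib.Helper78IndPair
import Cfsg.Agent.Lib.Helper80StarFree2
import Cfsg.Agent.Lib.Helper81CycDefs
import Cfsg.Agent.Lib.Helper80Corr
import Cfsg.Agent.Lib.Helper80Nil
import Cfsg.Agent.Lib.Helper80IQ
import Cfsg.Agent.S4689
import Cfsg.Agent.Lib.H81CycCOR
import Cfsg.Agent.Lib.H81CycZD
import Cfsg.Agent.Lib.H81CycZE
import Cfsg.Agent.Lib.H81CycCARD
import Cfsg.Agent.Lib.H81CycLOC1
import Cfsg.Agent.Lib.H81CycLOC2
import Cfsg.Agent.Lib.H81CycMA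

set_option autoImplicit false

namespace Cfsg.Agent.Lib.H81CycLS
open Cfsg
open Cfsg.Agent.Lib.Helper81Local Cfsg.Agent.Lib.Helper20GA Cfsg.Agent.Lib.Helper80IdemDefs
open Cfsg.Agent.Lib.Helper80StarDefs Cfsg.Agent.Lib.Helper4ModRed Cfsg.Agent.Lib.Helper80StarProps
open Cfsg.Agent.Lib.Helper81KulDefs Cfsg.Agent.Lib.Helper81KulGDefs
open Cfsg.Agent.Lib.Helper91StarBASIC Cfsg.Agent.Lib.Helper80Brauer Cfsg.Agent.Lib.Helper80Trace
open Cfsg.Agent.Lib.Helper81CycDefs Cfsg.Agent.Lib.Helper80Incl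

universe u

/-- pure algebra: a central element `c` with `ε c = c`, `ε = Σ x i y`, `c i = 0` vanishes. -/
theorem eq_zero_of_mul_i {R : Type*} [Ring R] {ε c i : R} {n : ℕ} (x y : Fin n → R)
    (hc : ∀ a, c * a = a * c) (hεc : ε * c = c) (he : ε = ∑ s, x s * i * y s) (h0 : c * i = 0) :
    c = 0 := by
  rw [← hεc, he, Finset.sum_mul]
  refine Finset.sum_eq_zero fun s _ => ?_
  rw [mul_assoc, ← hc (y s), ← mul_assoc, mul_assoc (x s) i c, ← hc i, h0, mul_zero, zero_mul]

theorem eps_mul_pow {R : Type*} [Ring R] {ε z : R} (h : ε * z = z) {m : ℕ} (hm : 1 ≤ m) :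
    ε * z ^ m = z ^ m := by
  obtain ⟨k, rfl⟩ : ∃ k, m = k + 1 := ⟨m - 1, by omega⟩
  rw [pow_succ', ← mul_assoc, h]

variable {p : ℕ} [Fact p.Prime] {M : Ideal AlgInt} [M.IsPrime] {G : Type u} [Group G] [Fintype G]

/-- piece `A-LS`: the local structure of a nilpotent block with cyclic defect group. -/
theorem ls_of_nil (hM : IsPModular p M) {B : Set (IrrCharacter G)}
    (hnil : IsNilpotentBlock p M B) {D : Subgroup G} (hD : IsDefectGroup p M B D)
    (hcyc : IsCyclic D) (hD1 : D ≠ ⊥) {φ : OA M G →+* MonoidAlgebra (kk M) G} (hφ : IsRed φ) :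
    ∃ (z i : MonoidAlgebra (kk M) G) (n : ℕ) (x y : Fin n → MonoidAlgebra (kk M) G),
      LS (kk M) (MonoidAlgebra.of (kk M) G) ⊤ (Nat.card D) (φ (epsA M B)) z i x y := by
  classical
  have hB : IsPBlock M B := hnil.1
  have hl : blockRank p B = 1 := (Cfsg.Agent.S4689.result p M hM B hnil).1
  obtain ⟨i, n, x, y, hi, hi0, hloc, hei, he, hcod⟩ := H81CycCOR.corner_data hM hB hl hφ
  obtain ⟨e, hmax⟩ := Helper80Corr.exists_maximal_of_defectGroup hM hB hD
  obtain ⟨⟨y0, hy0D⟩, hgen0⟩ := hcyc.exists_generator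
  have hDz : D = Subgroup.zpowers y0 := by
    apply le_antisymm
    · intro d hd
      obtain ⟨k, hk⟩ := Subgroup.mem_zpowers_iff.mp (hgen0 ⟨d, hd⟩)
      refine Subgroup.mem_zpowers_iff.mpr ⟨k, ?_⟩
      have := congrArg Subtype.val hk
      simpa using this
    · exact (Subgroup.zpowers_le).mpr hy0D
  have hab : ∀ a ∈ D, ∀ b ∈ D, a * b = b * a := by
    intro a ha b hb
    rw [hDz] at ha hb
    obtain ⟨k, rfl⟩ := Subgroup.mem_zpowers_iff.mp ha
    obtain ⟨l, rfl⟩ := Subgroup.mem_zpowers_iff.mp hb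
    rw [← zpow_add, ← zpow_add, add_comm]
  have hst : pstab D e ≤ Subgroup.centralizer (D : Set G) :=
    (Helper80Nil.nilpotent_iff_of_abelian hM hmax
      (Helper80IQ.not_dvd_index_of_maximal hM hmax) hab).1 hnil
  obtain ⟨hzc, hεz, hzne⟩ := H81CycZD.zd hM hmax hst hDz hφ
  have hzn := H81CycZE.ze hM hmax hst hDz hφ hloc hi hei x y he
  set z : MonoidAlgebra (kk M) G :=
    φ (trR (Subgroup.centralizer (D : Set G)) ⊤ ((ptA M y0 - 1) * pfA M D e) * epsA M B) with hz
  have hcard : Nat.card B = Nat.card D := H81CycCARD.card_nil hM hnil hD hab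
  have hq : 2 ≤ Nat.card D := by
    have h1 : Nat.card D ≠ 1 := fun h => hD1 (Subgroup.card_eq_one.mp h)
    have h0 : 0 < Nat.card D := Nat.card_pos
    omega
  have hpc : ∀ m : ℕ, ∀ a, z ^ m * a = a * z ^ m := by
    intro m a
    exact ((Commute.pow_left (show Commute z a from hzc a) m)).eq
  have hzi : z ^ (Nat.card D - 1) * i ≠ 0 := by
    intro h0
    exact hzne (eq_zero_of_mul_i x y (hpc _) (eps_mul_pow hεz (by omega)) he h0)
  have : Module.Finite (kk M) (MonoidAlgebra (kk M) G) := H81CycMA.ma_finite (kk M) G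
  rw [hcard] at hcod
  obtain ⟨hgen, hzq⟩ := H81CycLOC1.loc_gen hi hi0 hloc (lamk (kk M) G)
    Helper38KulLAM.lamk_symm Helper38KulLAM.lamk_nd hzc hzn (Nat.card D) hq hzi hcod
  have hcor := H81CycLOC2.loc_uniserial hi hi0 hloc hzc hzn (Nat.card D) hq hgen hzq
  have hall : ∀ b : MonoidAlgebra (kk M) G,
      b ∈ kS (kk M) (MonoidAlgebra.of (kk M) G) ((⊤ : Subgroup G) : Set G) := by
    intro b
    rw [Subgroup.coe_top]
    exact H81CycMA.ma_span (kk M) G b
  have hec : ∀ a, φ (epsA M B) * a = a * φ (epsA M B) := by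
    intro a
    obtain ⟨a', rfl⟩ := hφ.surj a
    rw [← map_mul, ← map_mul, Helper38KulEPS.epsA_central hB]
  refine ⟨z, i, n, x, y, ?_⟩
  exact
    { βC := hall _
      ββ := by rw [← map_mul, Helper38KulEPS.epsA_idem hB]
      βc := fun a _ => (hec a).symm
      zC := hall _
      zc := fun a _ => (hzc a).symm
      βz := hεz
      zq := eq_zero_of_mul_i x y (hpc _) (eps_mul_pow hεz (by omega)) he hzq
      iC := hall _
      ii := hi
      βi := hei
      xC := fun s => hall _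
      yC := fun s => hall _
      dec := he
      cor := fun a _ => hcor a
      ne := hzi
      q2 := hq }

end Cfsg.Agent.Lib.H81CycLS
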