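import Cfsg.Agent.Lib.Helper81KulMain
import Cfsg.Agent.Lib.Helper78IndPair
import Cfsg.Agent.Lib.Helper80StarFree2
import Cfsg.Agent.Lib.Helper81CycDefs

set_option autoImplicit false

namespace Cfsg.Agent.Lib.H81CycMA
open Cfsg
open Cfsg.Agent.Lib.Helper81Local Cfsg.Agent.Lib.Helper20GA Cfsg.Agent.Lib.Helper80IdemDefs
open Cfsg.Agent.Lib.Helper80StarDefs Cfsg.Agent.Lib.Helper4ModRed Cfsg.Agent.Lib.Helper80StarProps
open Cfsg.Agent.Lib.Helper81KulDefs Cfsg.Agent.Lib.Helper81KulGDefs
open Cfsg.Agent.Lib.Helper91StarBASIC Cfsg.Agent.Lib.Helper80Brauer Cfsg.Agent.Lib.Helper80Trace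
open Cfsg.Agent.Lib.Helper81CycDefs Cfsg.Agent.Lib.Helper80Incl

universe u



/-- piece `N-MA`: the group algebra. -/
theorem ma_lam (k : Type*) [Field k] (G : Type*) [Group G] (g : G) :
    lamk k G (MonoidAlgebra.of k G g) = (open Classical in if g = 1 then 1 else 0) := by
  classical
  change (MonoidAlgebra.of k G g).coeff 1 = _
  rw [MonoidAlgebra.of_apply, MonoidAlgebra.coeff_single, Finsupp.single_apply]

/-- piece `N-MA` -/
theorem ma_span (k : Type*) [Field k] (G : Type*) [Group G] (b : MonoidAlgebra k G) :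
    b ∈ kS k (MonoidAlgebra.of k G) (Set.univ : Set G) := by
  classical
  unfold kS
  induction b using MonoidAlgebra.induction_on with
  | of g => exact Submodule.subset_span ⟨g, Set.mem_univ _, rfl⟩
  | add a b ha hb => exact Submodule.add_mem _ ha hb
  | smul r a ha => exact Submodule.smul_mem _ r ha

/-- piece `N-MA` -/
theorem ma_finite (k : Type*) [Field k] (G : Type*) [Group G] [Fintype G] :
    Module.Finite k (MonoidAlgebra k G) := by
  classical
  refine ⟨⟨Finset.univ.image (MonoidAlgebra.of k G), ?_⟩⟩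
  rw [eq_top_iff]
  intro b _
  have := ma_span k G b
  unfold kS at this
  simpa using this

end Cfsg.Agent.Lib.H81CycMA
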