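import Cfsg.Agent.Lib.Helper81KulMain
import Cfsg.Agent.Lib.Helper78IndPair
import Cfsg.Agent.Lib.Helper80StarFree2
import Cfsg.Agent.Lib.Helper81CycDefs
import Cfsg.Agent.Lib.Helper86ModRank
import Cfsg.Agent.Lib.H81CycABS
import Cfsg.Agent.Lib.H81CycGD
import Cfsg.Agent.Lib.H81CycLS
import Cfsg.Agent.Lib.H81CycBD
import Cfsg.Agent.Lib.H81CycEPS
import Cfsg.Agent.Lib.H81CycMAP
import Cfsg.Agent.Lib.H81CycPF
import Cfsg.Agent.Lib.H81CycMA

set_option autoImplicit false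

namespace Cfsg.Agent.Lib.H81CycRK
open Cfsg
open Cfsg.Agent.Lib.Helper81Local Cfsg.Agent.Lib.Helper20GA Cfsg.Agent.Lib.Helper80IdemDefs
open Cfsg.Agent.Lib.Helper80StarDefs Cfsg.Agent.Lib.Helper4ModRed Cfsg.Agent.Lib.Helper80StarProps
open Cfsg.Agent.Lib.Helper81KulDefs Cfsg.Agent.Lib.Helper81KulGDefs
open Cfsg.Agent.Lib.Helper91StarBASIC Cfsg.Agent.Lib.Helper80Brauer Cfsg.Agent.Lib.Helper80Trace
open Cfsg.Agent.Lib.Helper81CycDefs Cfsg.Agent.Lib.Helper80Incl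

universe u

variable {p : ℕ} [Fact p.Prime] {M : Ideal AlgInt} [M.IsPrime] {G : Type u} [Group G] [Fintype G]

/-- an element of order `p` in a non trivial `p`-group. -/
theorem exists_order_p {P : Subgroup G} (hP : IsPGroup p P) (hP1 : P ≠ ⊥) :
    ∃ x₀ ∈ P, orderOf x₀ = p := by
  classical
  have hp : p.Prime := Fact.out
  have : Nontrivial P := (Subgroup.nontrivial_iff_ne_bot P).2 hP1
  obtain ⟨n, hn⟩ := hP.exists_card_eq
  have hn0 : n ≠ 0 := by
    rintro rfl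
    rw [pow_zero] at hn
    have := Finite.one_lt_card (α := P)
    omega
  have hdvd : p ∣ Nat.card P := by
    rw [hn]
    exact dvd_pow_self p hn0
  obtain ⟨x, hx⟩ := exists_prime_orderOf_dvd_card' p hdvd
  exact ⟨x, x.2, by rw [Subgroup.orderOf_coe, hx]⟩

/-- piece `A-RK`: the inertial index is a lower bound for `l(B)`. -/
theorem rank_ge_cyc (hM : IsPModular p M) {B : Set (IrrCharacter G)} {P : Subgroup G}
    {c : Set (IrrCharacter (Subgroup.centralizer (P : Set G)))}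
    (hmax : IsMaximalBrauerPair p M B P c) (hcyc : IsCyclic P) (hP1 : P ≠ ⊥) :
    (Subgroup.centralizer (P : Set G)).relIndex (pstab P c) ≤ blockRank p B := by
  classical
  have hp : p.Prime := Fact.out
  have : IsAlgClosed (kk M) := Cfsg.Agent.Lib.Helper40ModAlgClosed.isAlgClosed_kk
  have : CharP (kk M) p := Cfsg.Agent.Lib.Helper40ModRed.charP_kk hM
  have : Module.Finite (kk M) (MonoidAlgebra (kk M) G) := H81CycMA.ma_finite (kk M) G
  have hPp : IsPGroup p P := hmax.1.1.1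
  have hB : IsPBlock M B := hmax.1.2.1
  obtain ⟨x₀, hx₀P, hx₀⟩ := exists_order_p hPp hP1
  have hQP : Subgroup.zpowers x₀ ≤ P := Subgroup.zpowers_le.2 hx₀P
  have hQ1 : Subgroup.zpowers x₀ ≠ ⊥ := by
    intro h
    rw [Subgroup.zpowers_eq_bot] at h
    rw [h, orderOf_one] at hx₀
    exact hp.one_lt.ne hx₀
  have hle := Cfsg.Agent.Lib.Helper78MajP.fz_spec hM hmax.1.1 hQP
  obtain ⟨f, hf⟩ : ∃ f, f = Cfsg.Agent.Lib.Helper78MajP.fz p M P c (Subgroup.zpowers x₀) :=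
    ⟨_, rfl⟩
  rw [← hf] at hle
  obtain ⟨-, h2, h3⟩ := Cfsg.Agent.Lib.Helper78IndPair.cyclic_local hM hmax hcyc hle hQ1
  have hab := Cfsg.Agent.Lib.Helper78IndPair.comm_of_cyclic hcyc
  have hPC : P ≤ Subgroup.centralizer ((Subgroup.zpowers x₀ : Subgroup G) : Set G) := by
    intro y hy
    rw [Subgroup.mem_centralizer_iff]
    intro q hq
    exact hab q (hQP hq) y hy
  have hD := Cfsg.Agent.Lib.Helper80Abel.isDefectGroup_of_abelian hM hmax hle hPC
  have hfB : IsPBlock M f := h3.1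
  obtain ⟨φ, hφ⟩ := Cfsg.Agent.Lib.Helper1KulRED.exists_red (M := M) (G := G)
  obtain ⟨φC, hφC⟩ := Cfsg.Agent.Lib.Helper1KulRED.exists_red (M := M)
    (G := Subgroup.centralizer ((Subgroup.zpowers x₀ : Subgroup G) : Set G))
  have hcyc' : IsCyclic (P.subgroupOf
      (Subgroup.centralizer ((Subgroup.zpowers x₀ : Subgroup G) : Set G))) :=
    isCyclic_of_surjective (Subgroup.subgroupOfEquivOfLe hPC).symm
      (Subgroup.subgroupOfEquivOfLe hPC).symm.surjective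
  have hD1 : P.subgroupOf (Subgroup.centralizer ((Subgroup.zpowers x₀ : Subgroup G) : Set G))
      ≠ ⊥ := by
    intro h
    rw [Subgroup.subgroupOf_eq_bot, disjoint_iff, inf_eq_left.2 hPC] at h
    exact hP1 h
  obtain ⟨z, i, n, x, y, ls⟩ := H81CycLS.ls_of_nil hM h3 hD hcyc' hD1 hφC
  have ls' := H81CycMAP.ls_map _ ls
  rw [← H81CycPF.red_pfA hφ hφC hfB] at ls'
  obtain ⟨c₀, X, bd⟩ := H81CycBD.bd_of hM hmax hle hPC hφ
  obtain ⟨hdvd, t₀, gd⟩ := H81CycGD.gd_of p hPp hcyc hx₀P hx₀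
    (centralizer_le_pstab (Subgroup.zpowers x₀) f) (pstab_le (Subgroup.zpowers x₀) f) _ rfl
  obtain ⟨εf, hεf, hε⟩ := H81CycEPS.red_epsA hB hφ
  rw [hε] at bd
  have he : (((Subgroup.centralizer ((Subgroup.zpowers x₀ : Subgroup G) : Set G)).relIndex
      (pstab (Subgroup.zpowers x₀) f) : ℕ) : kk M) ≠ 0 := by
    intro h
    rw [CharP.cast_eq_zero_iff (kk M) p] at h
    have h4 := Nat.le_of_dvd (Nat.sub_pos_of_lt hp.one_lt) (h.trans hdvd)
    have := hp.one_lt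
    omega
  obtain ⟨τ, t1, t2, t3, t4⟩ := H81CycABS.cyc_abs p (H81CycMA.ma_lam (kk M) G)
    (H81CycMA.ma_span (kk M) G) εf gd ls' bd he
  have h5 := Cfsg.Agent.Lib.Helper40ModRL.rank_link hM
    (Cfsg.Agent.Lib.Helper81Subsec.isBlockUnion_of_isPBlock hB) εf hεf τ t1 t2 t3 t4
  rw [Fintype.card_fin, h2] at h5
  exact h5

end Cfsg.Agent.Lib.H81CycRK
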