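import Cfsg.Agent.Lib.Helper25PIDefs
import Cfsg.Agent.Lib.H25PIFNor
import Cfsg.Agent.Lib.H25PIFComm
import Cfsg.Agent.Lib.H25PIFCen
import Cfsg.Agent.Lib.H25PISig3
import Cfsg.Agent.Lib.H25PIFCT
import Cfsg.Agent.Lib.H81CycRK
import Cfsg.Agent.Lib.H81CycGMAIN
import Cfsg.Agent.Lib.H81CycGBCY
import Cfsg.Agent.Lib.Helper80Full2
import Cfsg.Agent.Lib.Helper78IndPair

set_option autoImplicit false
set_option linter.unusedSectionVars false

namespace Cfsg.Agent.Lib.H25PICtx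
open Cfsg
open Cfsg.Agent.Lib.Helper25PIDefs Cfsg.Agent.Lib.Helper80StarDefs Cfsg.Agent.Lib.Helper80StarProps
open Cfsg.Agent.Lib.Helper25StarCDefs Cfsg.Agent.Lib.Helper78MajP Cfsg.Agent.Lib.Helper80Trace
open Cfsg.Agent.Lib.Helper80Brauer Cfsg.Agent.Lib.Helper80Incl
open scoped ComplexConjugate

universe u v

variable {G : Type u} [Group G] [Fintype G] {F : Type v} [Group F] [Fintype F] {p : ℕ} [Fact p.Prime]
  {M : Ideal AlgInt} {B : Set (IrrCharacter G)} {P : Subgroup G}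
  {c : Set (IrrCharacter (Subgroup.centralizer (P : Set G)))} {Q : Subgroup F} {e : ℕ}

/-- a block of `C_G(D)` inducing `B`, `D` a defect group, gives a maximal pair. -/
theorem max_of_defect (hM : IsPModular p M) (hBD : IsDefectGroup p M B P)
    (hind : IsInducedBlock M (Subgroup.centralizer (P : Set G)) c B) :
    IsMaximalBrauerPair p M B P c := by
  classical
  have hP : IsPGroup p P := by
    obtain ⟨g, -, hS⟩ := Cfsg.Agent.Lib.Helper20Defect.isDefectGroup_iff.mp hBD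
    exact hS.isPGroup
  have hpair := Cfsg.Agent.Lib.Helper78IndPair.isBrauerPairOf_of_induced hM hP hind
  refine ⟨hpair, ?_⟩
  intro R g hRg hle
  have hle' : PLE p M ⟨P, c⟩ ⟨R, g⟩ := hle
  have hDR : P ≤ R := hle'.le
  obtain ⟨b', hb1, hb2⟩ := Cfsg.Agent.Lib.Helper80Conj.exists_maximal_above (p := p) (M := M)
    _ ⟨R, g⟩ rfl hRg
  have hRb : R ≤ b'.1 := hb1.le
  obtain ⟨y, hy⟩ := Cfsg.Agent.Lib.Helper80Conj.defectGroup_conj hM hind.2.1 hBD
    (isDefectGroup_of_maximal hM hb2)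
  have hc : Nat.card P = Nat.card b'.1 := by
    rw [hy]
    exact Cfsg.Agent.Lib.Helper87Sylow.card_cj _ _
  symm
  apply Subgroup.eq_of_le_of_card_ge hDR
  rw [hc]
  exact Subgroup.card_le_of_le hRb

/-- the context of project 4634 from the hypotheses of S4634. -/
theorem exists_ctx (hM : IsPModular p M) (hPD : IsDefectGroup p M B P) (hP1 : P ≠ ⊥)
    (hcyc : IsCyclic P) (hc : IsInducedBlock M (Subgroup.centralizer (P : Set G)) c B)
    (he : (Subgroup.centralizer (P : Set G)).relIndex (pstab P c) = e)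
    (hF : Nat.card F = Nat.card P * e) (hQ : IsCyclic Q) (hQcard : Nat.card Q = Nat.card P)
    (hQC : Subgroup.centralizer (Q : Set F) = Q) :
    ∃ (X Y : Set (IrrCharacter G)) (δ : IrrCharacter G → ℤ) (δ₀ : ℤ) (σ : Q ≃* P)
      (χ₁ : IrrCharacter G), Ctx p M B P c Q e X Y δ δ₀ σ χ₁ := by
  classical
  have hp : p.Prime := Fact.out
  have hPr : M.IsPrime := hM.2.1.isPrime
  have hmax := max_of_defect hM hPD hc
  have hrk := Cfsg.Agent.Lib.H81CycRK.rank_ge_cyc hM hmax hcyc hP1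
  obtain ⟨hdvd, x₀, t₀, T', f, hcy⟩ := Cfsg.Agent.Lib.H81CycGBCY.cy_of_max hM hmax hcyc hP1
  rw [he] at hrk hdvd hcy
  obtain ⟨-, X, Y, δ, δ₀, h1, h2, h3, h4, h5, h6, h7, h8⟩ :=
    Cfsg.Agent.Lib.H81CycGMAIN.main_G hcy hrk
  have hPp : IsPGroup p P := hmax.1.1.1
  have hQp : IsPGroup p Q := by
    obtain ⟨n, hn⟩ := IsPGroup.iff_card.mp hPp
    exact IsPGroup.iff_card.mpr ⟨n, by rw [hQcard, hn]⟩
  have hF' : Nat.card F = Nat.card Q * e := by rw [hQcard]; exact hF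
  have hnor := Cfsg.Agent.Lib.H25PIFNor.normal_of_card p Q hQp e hdvd hF'
  have hQ1 : Q ≠ ⊥ := by
    intro h
    apply hP1
    rw [← Subgroup.card_eq_one, ← hQcard, h, Subgroup.card_bot]
  have hfr : FR p Q e :=
    { nor := hnor
      card := hF'
      cyc := hQ
      pg := hQp
      ne := hQ1
      dvd := hdvd
      cen := fun v hv hv1 y hy =>
        Cfsg.Agent.Lib.H25PIFCen.cen_le p Q hnor hQ hQp hQC e hdvd hF' hv hv1 hy
      comm := Cfsg.Agent.Lib.H25PIFComm.comm_mem Q hnor hQ hQC }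
  obtain ⟨σ, hσ⟩ := Cfsg.Agent.Lib.H25PISig3.exists_sigma hfr hcyc hQcard
    (centralizer_le_pstab P c) (pstab_le P c) he
  have he0 : 0 < e := by
    rcases Nat.eq_zero_or_pos e with h0 | h0
    · exfalso
      rw [h0, zero_dvd_iff] at hdvd
      have := hp.one_lt
      omega
    · exact h0
  have hXne : Nonempty X := by
    have : 0 < Nat.card X := by rw [h3]; exact he0
    exact (Nat.card_pos_iff.mp this).1
  obtain ⟨⟨χ₁, hχ₁⟩⟩ := hXne
  refine ⟨X, Y, δ, δ₀, σ, χ₁, ?_⟩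
  exact
    { hM := hM
      hmax := hmax
      fr := hfr
      xy := ⟨h1, h2, h3, h4, h5, h6, h7, h8⟩
      fc := fun v v' => by
        rw [Cfsg.Agent.Lib.H25PIFCT.fc_iff hM hmax hcyc (σ v).2 (σ v').2]
        exact hσ v v'
      hχ₁ := hχ₁ }

end Cfsg.Agent.Lib.H25PICtx
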