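import Mathlib
import Cfsg.Prelude.Def_Blocks
import Cfsg.Agent.Lib.Helper81Local

set_option autoImplicit false

/-!
Number theory for blocks with Klein four defect groups: the ring generated by the roots of unity
of odd order `m` is unramified at `2`.
-/

namespace Cfsg.Agent.Lib.Helper84KleinA

open Cfsg
open Cfsg.Agent.Lib.Helper81Local

/-- the ring generated by the `m`-th roots of unity. -/
def RR (m : ℕ) : Subring ℂ := Subring.closure {ω : ℂ | ω ^ m = 1}

theorem root_mem {m : ℕ} {ω : ℂ} (h : ω ^ m = 1) : ω ∈ RR m := Subring.subset_closure h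

theorem isIntegral_of_mem {m : ℕ} (hm : 0 < m) {α : ℂ} (h : α ∈ RR m) : IsIntegral ℤ α := by
  have hle : RR m ≤ (integralClosure ℤ ℂ).toSubring := by
    unfold RR
    rw [Subring.closure_le]
    intro ω hω
    exact IsIntegral.of_pow hm (by rw [show ω ^ m = 1 from hω]; exact isIntegral_one)
  exact hle h

theorem frob {m r : ℕ} (hr : 0 < r) (hmr : m ∣ 2 ^ r - 1) :
    ∀ α ∈ RR m, ∃ γ ∈ RR m, α ^ (2 ^ r) = α + 2 * γ := by
  have h2 : (2 : ℂ) ∈ RR m := by
    have : ((2 : ℕ) : ℂ) ∈ RR m := natCast_mem _ 2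
    exact_mod_cast this
  intro α hα
  unfold RR at hα
  induction hα using Subring.closure_induction with
  | mem ω hω =>
    refine ⟨0, (RR m).zero_mem, ?_⟩
    obtain ⟨t, ht⟩ := hmr
    have h1 : 2 ^ r = m * t + 1 := by
      have : 1 ≤ 2 ^ r := Nat.one_le_two_pow
      omega
    rw [h1, pow_succ, pow_mul, show ω ^ m = 1 from hω]
    simp
  | zero =>
    refine ⟨0, (RR m).zero_mem, ?_⟩
    simp
  | one =>
    refine ⟨0, (RR m).zero_mem, ?_⟩
    simp
  | add a b ha hb iha ihb =>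
    obtain ⟨γ, hγ, e1⟩ := iha
    obtain ⟨γ', hγ', e2⟩ := ihb
    obtain ⟨c, hc⟩ := exists_add_pow_prime_pow_eq Nat.prime_two (⟨a, ha⟩ : RR m) ⟨b, hb⟩ r
    have hc' : (a + b) ^ 2 ^ r = a ^ 2 ^ r + b ^ 2 ^ r + 2 * a * b * (c : ℂ) := by
      have h := congrArg (fun z : RR m => (z : ℂ)) hc
      push_cast at h
      exact h
    refine ⟨γ + γ' + a * b * c, (RR m).add_mem ((RR m).add_mem hγ hγ')
      ((RR m).mul_mem ((RR m).mul_mem ha hb) c.2), ?_⟩
    rw [hc', e1, e2]
    ring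
  | neg a ha iha =>
    obtain ⟨γ, hγ, e1⟩ := iha
    refine ⟨a + γ, (RR m).add_mem ha hγ, ?_⟩
    have hev : Even (2 ^ r) := (Nat.even_pow.2 ⟨even_two, hr.ne'⟩)
    rw [hev.neg_pow, e1]
    ring
  | mul a b ha hb iha ihb =>
    obtain ⟨γ, hγ, e1⟩ := iha
    obtain ⟨γ', hγ', e2⟩ := ihb
    refine ⟨a * γ' + γ * b + 2 * (γ * γ'), ?_, ?_⟩
    · exact (RR m).add_mem ((RR m).add_mem ((RR m).mul_mem ha hγ') ((RR m).mul_mem hγ hb))
        ((RR m).mul_mem h2 ((RR m).mul_mem hγ hγ'))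
    · rw [mul_pow, e1, e2]
      ring

variable {M : Ideal AlgInt}

/-- **unramifiedness**: an element of `ℤ[ζ_m]` (`m` odd) with `α / 2^k` in the maximal ideal has
`α / 2^(k+1)` a local integer. -/
theorem unram (hM : IsPModular 2 M) {m : ℕ} (hm : Odd m) :
    ∀ (k : ℕ) (α : ℂ), α ∈ RR m → MemLocalIdeal M (α / 2 ^ k) → MemLocalRing M (α / 2 ^ (k + 1)) := by
  have hPr := hM.2.1.isPrime
  have hm0 : 0 < m := hm.pos
  have hcop : Nat.Coprime 2 m := Nat.coprime_two_left.2 hm
  obtain ⟨r, hr, hmr⟩ : ∃ r, 0 < r ∧ m ∣ 2 ^ r - 1 := by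
    refine ⟨m.totient, Nat.totient_pos.2 hm0, ?_⟩
    have := Nat.ModEq.pow_totient hcop
    exact (Nat.modEq_iff_dvd' Nat.one_le_two_pow).1 this.symm
  have hfr := frob hr hmr
  have hN : 2 ^ r = (2 ^ r - 1) + 1 := by
    have : 1 ≤ 2 ^ r := Nat.one_le_two_pow
    omega
  have hN1 : 1 ≤ 2 ^ r - 1 := by
    have : 2 ^ 1 ≤ 2 ^ r := Nat.pow_le_pow_right (by norm_num) hr
    omega
  set N := 2 ^ r - 1 with hNdef
  have h2m : MemLocalIdeal M (2 : ℂ) := by
    have := memLocalIdeal_p hM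
    simpa using this
  -- the unit
  have hunit : ∀ α : ℂ, MemLocalIdeal M α → MemLocalRing M (α ^ N - 1)⁻¹ ∧ α ^ N - 1 ≠ 0 := by
    intro α hα
    have h1 : MemLocalIdeal M (α ^ N) := by
      obtain ⟨j, hj⟩ : ∃ j, N = j + 1 := ⟨N - 1, by omega⟩
      rw [hj, pow_succ]
      exact memLocalIdeal_mul (memLocalRing_pow (MemLocalIdeal.memLocalRing hα) j) hα
    have h2 : ¬ MemLocalIdeal M (α ^ N - 1) := by
      intro h
      have := memLocalIdeal_sub h1 h
      rw [sub_sub_cancel] at this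
      exact not_memLocalIdeal_one this
    refine ⟨memLocalRing_inv (memLocalRing_sub (MemLocalIdeal.memLocalRing h1)
      (by simpa using memLocalRing_natCast (M := M) 1)) h2, ?_⟩
    intro h0
    rw [h0] at h2
    exact h2 memLocalIdeal_zero
  intro k
  induction k with
  | zero =>
    intro α hα hmem
    rw [pow_zero, div_one] at hmem
    obtain ⟨γ, hγ, e⟩ := hfr α hα
    obtain ⟨hu, hu0⟩ := hunit α hmem
    have e2 : α / 2 ^ (0 + 1) = γ * (α ^ N - 1)⁻¹ := by
      have : α * (α ^ N - 1) = 2 * γ := by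
        rw [hN, pow_succ] at e
        linear_combination e
      field_simp
      linear_combination this
    rw [e2]
    exact memLocalRing_mul (memLocalRing_of_isIntegral (isIntegral_of_mem hm0 hγ)) hu
  | succ k ih =>
    intro α hα hmem
    obtain ⟨γ, hγ, e⟩ := hfr α hα
    have hαm : MemLocalIdeal M α := by
      have := memLocalIdeal_mul (memLocalRing_pow (MemLocalIdeal.memLocalRing h2m) (k + 1)) hmem
      rwa [mul_div_cancel₀ _ (pow_ne_zero _ (two_ne_zero))] at this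
    obtain ⟨hu, hu0⟩ := hunit α hαm
    have e1 : α * (α ^ N - 1) = 2 * γ := by
      rw [hN, pow_succ] at e
      linear_combination e
    have hγm : MemLocalIdeal M (γ / 2 ^ k) := by
      have e3 : γ / 2 ^ k = (α / 2 ^ (k + 1)) * (α ^ N - 1) := by
        field_simp
        rw [pow_succ]
        linear_combination (-(2 : ℂ) ^ k) * e1
      rw [e3]
      exact memLocalIdeal_mul_right hmem (memLocalRing_sub
        (memLocalRing_pow (MemLocalIdeal.memLocalRing hαm) N) (by simpa using memLocalRing_natCast (M := M) 1))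
    have h3 := ih γ hγ hγm
    have e4 : α / 2 ^ (k + 1 + 1) = (γ / 2 ^ (k + 1)) * (α ^ N - 1)⁻¹ := by
      field_simp
      rw [pow_succ (2 : ℂ) (k + 1)]
      linear_combination ((2 : ℂ) ^ (k + 1)) * e1
    rw [e4]
    exact memLocalRing_mul h3 hu

end Cfsg.Agent.Lib.Helper84KleinA
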