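import Mathlib
import Cfsg.Prelude.Def_Blocks
import Cfsg.Agent.Lib.Helper84Subsec2
import Cfsg.Agent.Lib.Helper83Klein

set_option autoImplicit false

/-!
The two possible shapes of a `2`-block of defect two with four characters.
-/

namespace Cfsg.Agent.Lib.Helper84KleinC

open Cfsg
open Cfsg.Agent.Lib.Helper81Local Cfsg.Agent.Lib.Helper81Base Cfsg.Agent.Lib.Helper81Orth2
  Cfsg.Agent.Lib.Helper81Orth Cfsg.Agent.Lib.Helper81Defect Cfsg.Agent.Lib.Helper81Rank
  Cfsg.Agent.Lib.Helper84Subsec2 Cfsg.Agent.Lib.Helper4Char Cfsg.Agent.Lib.Helper84Contrib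
open scoped ComplexConjugate

section generic

variable {G : Type*} [Fintype G]

theorem eq_of_norm_zero (T : G → Prop) [DecidablePred T] (f h : G → ℂ) (s : ℤ)
    (H : (∑ y, if T y then f y * conj (f y) else 0)
      - s * (∑ y, if T y then f y * conj (h y) else 0)
      - s * (∑ y, if T y then h y * conj (f y) else 0)
      + s * s * (∑ y, if T y then h y * conj (h y) else 0) = 0) :
    ∀ y, T y → f y = s * h y := by
  have key : ((∑ y, (if T y then Complex.normSq (f y - s * h y) else 0) : ℝ) : ℂ) = 0 := by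
    rw [← H]
    push_cast
    simp only [Finset.mul_sum]
    rw [← Finset.sum_sub_distrib, ← Finset.sum_sub_distrib, ← Finset.sum_add_distrib]
    apply Finset.sum_congr rfl
    intro y _
    split_ifs
    · rw [Complex.normSq_eq_conj_mul_self]
      simp only [map_sub, map_mul, map_intCast]
      ring
    · simp
  have key' : (∑ y, (if T y then Complex.normSq (f y - s * h y) else 0) : ℝ) = 0 := by
    exact_mod_cast key
  rw [Finset.sum_eq_zero_iff_of_nonneg] at key'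
  · intro y hy
    have := key' y (Finset.mem_univ y)
    rw [if_pos hy, Complex.normSq_eq_zero, sub_eq_zero] at this
    exact this
  · intro y _
    split_ifs
    · exact Complex.normSq_nonneg _
    · exact le_rfl

theorem four_odd {ι : Type*} [DecidableEq ι] (S : Finset ι) (hS : S.card = 4) (k : ι → ℤ)
    (hodd : ∀ i ∈ S, ¬ (2 : ℤ) ∣ k i) {χ : ι} (hχ : χ ∈ S)
    (hsum : ∑ i ∈ S, k i * k i = 4 * k χ) :
    (k χ = 1 ∨ k χ = 3) ∧ ∀ i ∈ S, i ≠ χ → k i = 1 ∨ k i = -1 := by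
  have h1 := Finset.add_sum_erase S (fun i => k i * k i) hχ
  have h2 : ∀ i ∈ S.erase χ, (1 : ℤ) ≤ k i * k i := by
    intro i hi
    have h0 : k i ≠ 0 := by
      intro h0
      exact hodd i (Finset.mem_of_mem_erase hi) (h0 ▸ dvd_zero _)
    have : 0 < k i * k i := mul_self_pos.2 h0
    omega
  have hc : (S.erase χ).card = 3 := by rw [Finset.card_erase_of_mem hχ, hS]
  have h3 : ∑ i ∈ S.erase χ, (1 : ℤ) ≤ ∑ i ∈ S.erase χ, k i * k i := Finset.sum_le_sum h2
  have h3' : ∑ i ∈ S.erase χ, (1 : ℤ) = 3 := by simp [hc]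
  have ht := hodd χ hχ
  set t := k χ with htdef
  have hlo : 1 ≤ t := by nlinarith
  have hhi : t ≤ 3 := by nlinarith
  have ht13 : t = 1 ∨ t = 3 := by
    have : t = 1 ∨ t = 2 ∨ t = 3 := by omega
    rcases this with h | h | h
    · exact Or.inl h
    · exact absurd (h ▸ dvd_rfl) ht
    · exact Or.inr h
  refine ⟨ht13, ?_⟩
  have h4 : ∑ i ∈ S.erase χ, (1 : ℤ) = ∑ i ∈ S.erase χ, k i * k i := by
    rw [h3']
    rcases ht13 with h | h <;> rw [h] at h1 hsum <;> omega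
  have h5 := (Finset.sum_eq_sum_iff_of_le h2).1 h4
  intro i hi hne
  have := h5 i (Finset.mem_erase.2 ⟨hne, hi⟩)
  exact mul_self_eq_one_iff.1 this.symm

end generic

variable {G : Type*} [Group G] [Fintype G] {M : Ideal AlgInt}

/-- sums over the regular elements in terms of the contribution numbers. -/
theorem sum_reg (χ ψ : IrrCharacter G) :
    (2 : ℂ) ^ (Nat.card G).factorization 2 *
      (∑ y : G, if ¬ 2 ∣ orderOf y then (χ : G → ℂ) y * conj ((ψ : G → ℂ) y) else 0)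
      = (Nat.card G : ℂ) * (N 2 χ ψ : ℂ) := by
  have h := N_eq_regInner (p := 2) χ ψ
  have hG : (Nat.card G : ℂ) ≠ 0 := Cfsg.Agent.Lib.Helper81Base.card_ne_zero
  rw [h]
  unfold regInner
  push_cast
  field_simp

theorem sum_sing (χ ψ : IrrCharacter G) :
    (2 : ℂ) ^ (Nat.card G).factorization 2 *
      (∑ y : G, if 2 ∣ orderOf y then (χ : G → ℂ) y * conj ((ψ : G → ℂ) y) else 0)
      = (Nat.card G : ℂ) * ((2 : ℂ) ^ (Nat.card G).factorization 2 * (if χ = ψ then 1 else 0)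
          - (N 2 χ ψ : ℂ)) := by
  classical
  have h := sum_reg χ ψ
  have hG : (Nat.card G : ℂ) ≠ 0 := Cfsg.Agent.Lib.Helper81Base.card_ne_zero
  have h1 : classInner (χ : G → ℂ) (ψ : G → ℂ) = if χ = ψ then 1 else 0 := by
    rw [classInner_irr χ.2 ψ.2]
    by_cases e : χ = ψ
    · simp [e]
    · have : (χ : G → ℂ) ≠ (ψ : G → ℂ) := fun h => e (Subtype.ext h)
      simp [e, this]
  have h2 : (∑ y : G, if 2 ∣ orderOf y then (χ : G → ℂ) y * conj ((ψ : G → ℂ) y) else 0)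
      + (∑ y : G, if ¬ 2 ∣ orderOf y then (χ : G → ℂ) y * conj ((ψ : G → ℂ) y) else 0)
      = (Nat.card G : ℂ) * classInner (χ : G → ℂ) (ψ : G → ℂ) := by
    unfold classInner
    rw [mul_inv_cancel_left₀ hG, ← Finset.sum_add_distrib]
    apply Finset.sum_congr rfl
    intro y _
    by_cases hy : 2 ∣ orderOf y <;> simp [hy]
  rw [h1] at h2
  linear_combination (2 : ℂ) ^ (Nat.card G).factorization 2 * h2 - h

/-- data of a `2`-block of defect two with four characters. -/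
structure Four (M : Ideal AlgInt) (A : Set (IrrCharacter G)) : Prop where
  hM : IsPModular 2 M
  hA : IsPBlock M A
  hd : blockDefect 2 A = 2
  h4 : Nat.card A = 4

namespace Four

variable {A : Set (IrrCharacter G)}

theorem val_deg (h : Four M A) {χ : IrrCharacter G} (hχ : χ ∈ A) :
    (charDegree (χ : G → ℂ)).factorization 2 = minVal 2 A := by
  have h0 := Cfsg.Agent.Lib.Helper83Klein.height_zero_of_defect_two h.hM h.hA h.hd hχ
  have h1 := minVal_le (p := 2) hχ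
  rw [blockHeight_def] at h0
  omega

theorem val_card (h : Four M A) : (Nat.card G).factorization 2 = minVal 2 A + 2 := by
  have := h.hM.2.1.isPrime
  have hne := Cfsg.Agent.Lib.Helper81Block.isPBlock_nonempty h.hA
  have h1 := minVal_le_card (p := 2) hne
  have h2 := h.hd
  rw [blockDefect_def] at h2
  omega

theorem N_odd (h : Four M A) {χ ψ : IrrCharacter G} (hχ : χ ∈ A) (hψ : ψ ∈ A) :
    ∃ k : ℤ, N 2 χ ψ = 2 ^ minVal 2 A * k ∧ ¬ (2 : ℤ) ∣ k := by
  have h0 := Cfsg.Agent.Lib.Helper83Klein.height_zero_of_defect_two h.hM h.hA h.hd hψ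
  obtain ⟨k, hk, hk2⟩ := N_height_zero h.hM h.hA hψ h0 hχ
  rw [h.val_deg hχ] at hk
  exact ⟨k, by exact_mod_cast hk, by exact_mod_cast hk2⟩

open scoped Classical in
theorem card_filter (h : Four M A) : (Finset.univ.filter (· ∈ A)).card = 4 := by
  rw [← h.h4, Nat.card_eq_fintype_card, Fintype.card_subtype]

open scoped Classical in
theorem N_shape (h : Four M A) {χ : IrrCharacter G} (hχ : χ ∈ A) :
    (N 2 χ χ = 2 ^ minVal 2 A ∨ N 2 χ χ = 3 * 2 ^ minVal 2 A) ∧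
      ∀ ψ ∈ A, ψ ≠ χ → N 2 χ ψ = 2 ^ minVal 2 A ∨ N 2 χ ψ = - 2 ^ minVal 2 A := by
  set w : ℤ := 2 ^ minVal 2 A with hw
  have hw0 : w ≠ 0 := pow_ne_zero _ two_ne_zero
  have hex : ∀ ψ : IrrCharacter G, ∃ k : ℤ, ψ ∈ A → (N 2 χ ψ = w * k ∧ ¬ (2 : ℤ) ∣ k) := by
    intro ψ
    by_cases hψ : ψ ∈ A
    · obtain ⟨k, hk⟩ := h.N_odd hχ hψ
      exact ⟨k, fun _ => hk⟩
    · exact ⟨0, fun h' => absurd h' hψ⟩
  choose k hk using hex
  have hs := sum_N_sq (p := 2) χ
  have hs2 : ∑ ψ : IrrCharacter G, N 2 χ ψ * N 2 χ ψ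
      = ∑ ψ ∈ Finset.univ.filter (· ∈ A), (w * w) * (k ψ * k ψ) := by
    rw [Finset.sum_filter]
    apply Finset.sum_congr rfl
    intro ψ _
    by_cases hψ : ψ ∈ A
    · rw [if_pos hψ, (hk ψ hψ).1]; ring
    · rw [if_neg hψ, N_eq_zero_of_not_mem h.hM h.hA hχ hψ]; ring
  rw [hs2, ← Finset.mul_sum, h.val_card, (hk χ hχ).1] at hs
  have hs3 : ∑ ψ ∈ Finset.univ.filter (· ∈ A), k ψ * k ψ = 4 * k χ := by
    have e : ((2 : ℕ) : ℤ) ^ (minVal 2 A + 2) * (w * k χ) = (w * w) * (4 * k χ) := by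
      rw [pow_add, hw]; push_cast; ring
    rw [e] at hs
    exact mul_left_cancel₀ (mul_ne_zero hw0 hw0) hs
  have := four_odd _ h.card_filter k (fun i hi => (hk i (Finset.mem_filter.1 hi).2).2)
    (Finset.mem_filter.2 ⟨Finset.mem_univ _, hχ⟩) hs3
  constructor
  · rw [(hk χ hχ).1]
    rcases this.1 with e | e <;> rw [e]
    · left; ring
    · right; ring
  · intro ψ hψ hne
    rw [(hk ψ hψ).1]
    rcases this.2 ψ (Finset.mem_filter.2 ⟨Finset.mem_univ _, hψ⟩) hne with e | e <;> rw [e]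
    · left; ring
    · right; ring

open scoped Classical in
theorem trace (h : Four M A) :
    ∑ χ ∈ Finset.univ.filter (· ∈ A), N 2 χ χ
      = 2 ^ (Nat.card G).factorization 2 * (blockRank 2 A : ℤ) := by
  have h1 := Cfsg.Agent.Lib.Helper83Klein.rank_eq_sum_reg h.hM h.hA
  have hG : (Nat.card G : ℂ) ≠ 0 := Cfsg.Agent.Lib.Helper81Base.card_ne_zero
  have h2 : ((∑ χ ∈ Finset.univ.filter (· ∈ A), N 2 χ χ : ℤ) : ℂ)
      = ((2 ^ (Nat.card G).factorization 2 * (blockRank 2 A : ℤ) : ℤ) : ℂ) := by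
    push_cast
    rw [h1]
    apply mul_left_cancel₀ hG
    rw [Finset.mul_sum, Finset.sum_filter]
    have e : ∀ χ : IrrCharacter G, (if χ ∈ A then (Nat.card G : ℂ) * (N 2 χ χ : ℂ) else 0)
        = (2 : ℂ) ^ (Nat.card G).factorization 2 * ∑ y : G, (if ¬ 2 ∣ orderOf y then
            (if χ ∈ A then (χ : G → ℂ) y * conj ((χ : G → ℂ) y) else 0) else 0) := by
      intro χ
      by_cases hχ : χ ∈ A
      · simp only [if_pos hχ]
        exact (sum_reg χ χ).symm
      · simp [hχ]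
    rw [Finset.sum_congr rfl (fun χ _ => e χ), ← Finset.mul_sum, Finset.sum_comm]
    rw [mul_left_comm, mul_inv_cancel_left₀ hG]
    congr 1
    apply Finset.sum_congr rfl
    intro y _
    unfold delta
    split_ifs <;> simp
  exact_mod_cast h2

open scoped Classical in
theorem diag_one (h : Four M A) (hl : blockRank 2 A = 1) {χ : IrrCharacter G} (hχ : χ ∈ A) :
    N 2 χ χ = 2 ^ minVal 2 A := by
  have ht := h.trace
  rw [hl, h.val_card] at ht
  set w : ℤ := 2 ^ minVal 2 A with hw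
  have hw0 : 0 < w := pow_pos (by norm_num) _
  have hle : ∀ χ ∈ Finset.univ.filter (· ∈ A), w ≤ N 2 χ χ := by
    intro χ hχ
    rcases (h.N_shape (Finset.mem_filter.1 hχ).2).1 with e | e <;> rw [e] <;> omega
  have hsum : ∑ χ ∈ Finset.univ.filter (· ∈ A), w = ∑ χ ∈ Finset.univ.filter (· ∈ A), N 2 χ χ := by
    rw [ht, Finset.sum_const, h.card_filter, pow_add, ← hw]
    simp
    ring
  exact ((Finset.sum_eq_sum_iff_of_le hle).1 hsum χ
    (Finset.mem_filter.2 ⟨Finset.mem_univ _, hχ⟩)).symm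

open scoped Classical in
theorem diag_three (h : Four M A) (hl : blockRank 2 A = 3) {χ : IrrCharacter G} (hχ : χ ∈ A) :
    N 2 χ χ = 3 * 2 ^ minVal 2 A := by
  have ht := h.trace
  rw [hl, h.val_card] at ht
  set w : ℤ := 2 ^ minVal 2 A with hw
  have hw0 : 0 < w := pow_pos (by norm_num) _
  have hle : ∀ χ ∈ Finset.univ.filter (· ∈ A), N 2 χ χ ≤ 3 * w := by
    intro χ hχ
    rcases (h.N_shape (Finset.mem_filter.1 hχ).2).1 with e | e <;> rw [e] <;> omega
  have hsum : ∑ χ ∈ Finset.univ.filter (· ∈ A), N 2 χ χ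
      = ∑ χ ∈ Finset.univ.filter (· ∈ A), 3 * w := by
    rw [ht, Finset.sum_const, h.card_filter, pow_add, ← hw]
    simp
    ring
  exact (Finset.sum_eq_sum_iff_of_le hle).1 hsum χ
    (Finset.mem_filter.2 ⟨Finset.mem_univ _, hχ⟩)

omit [Group G] [Fintype G] in
theorem two_pow_ne : (2 : ℂ) ^ (Nat.card G).factorization 2 ≠ 0 := pow_ne_zero _ two_ne_zero

/-- shape of a block with one Brauer character: agreement on the regular elements. -/
theorem reg_eq (h : Four M A) (hl : blockRank 2 A = 1) {χ ψ : IrrCharacter G} (hχ : χ ∈ A)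
    (hψ : ψ ∈ A) {x : G} (hx : ¬ 2 ∣ orderOf x) : (χ : G → ℂ) x = (ψ : G → ℂ) x := by
  by_cases hne : ψ = χ
  · rw [hne]
  set w : ℤ := 2 ^ minVal 2 A with hw
  obtain ⟨s, hs, hN⟩ : ∃ s : ℤ, (s = 1 ∨ s = -1) ∧ N 2 χ ψ = s * w := by
    rcases (h.N_shape hχ).2 ψ hψ hne with e | e
    · exact ⟨1, Or.inl rfl, by rw [e]; ring⟩
    · exact ⟨-1, Or.inr rfl, by rw [e]; ring⟩
  have hss : s * s = 1 := by rcases hs with e | e <;> rw [e] <;> norm_num
  have key := eq_of_norm_zero (fun y : G => ¬ 2 ∣ orderOf y) (χ : G → ℂ) (ψ : G → ℂ) s (by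
    apply mul_left_cancel₀ (two_pow_ne (G := G))
    rw [mul_zero]
    have e1 := sum_reg χ χ
    have e2 := sum_reg χ ψ
    have e3 := sum_reg ψ χ
    have e4 := sum_reg ψ ψ
    rw [h.diag_one hl hχ] at e1
    rw [hN] at e2
    rw [N_symm, hN] at e3
    rw [h.diag_one hl hψ] at e4
    have hssC : (s : ℂ) * s = 1 := by exact_mod_cast hss
    have hwC : (w : ℂ) = (2 : ℂ) ^ minVal 2 A := by rw [hw]; push_cast; rfl
    push_cast at e1 e2 e3 e4
    rw [hwC] at e2 e3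
    linear_combination e1 - (s : ℂ) * e2 - (s : ℂ) * e3 + (s : ℂ) * s * e4
      - (Nat.card G : ℂ) * (2 : ℂ) ^ minVal 2 A * hssC)
  rcases hs with e | e
  · have := key x hx
    rw [e] at this
    simpa using this
  · exfalso
    have := key 1 (by simp)
    rw [e, ← charDegree_eq, ← charDegree_eq] at this
    have h2 : ((charDegree (χ : G → ℂ) + charDegree (ψ : G → ℂ) : ℕ) : ℂ) = 0 := by
      push_cast
      rw [this]
      push_cast
      ring
    have h3 : charDegree (χ : G → ℂ) + charDegree (ψ : G → ℂ) = 0 := by exact_mod_cast h2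
    have := charDegree_pos χ
    omega

open scoped Classical in
theorem sing_sum (h : Four M A) (hl : blockRank 2 A = 1) {x : G} (hx : 2 ∣ orderOf x) :
    ∑ χ : IrrCharacter G, (if χ ∈ A then (χ : G → ℂ) x else 0) = 0 := by
  have hPr := h.hM.2.1.isPrime
  obtain ⟨χ₀, hχ₀⟩ := Cfsg.Agent.Lib.Helper81Block.isPBlock_nonempty h.hA
  have h1 := weak_block_orth h.hM h.hA (x := (1 : G)) (y := x) (by simp) hx
  have h2 : ∑ χ : IrrCharacter G, (if χ ∈ A then (χ : G → ℂ) 1 * conj ((χ : G → ℂ) x) else 0)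
      = (χ₀ : G → ℂ) 1 * conj (∑ χ : IrrCharacter G, (if χ ∈ A then (χ : G → ℂ) x else 0)) := by
    rw [map_sum, Finset.mul_sum]
    apply Finset.sum_congr rfl
    intro χ _
    by_cases hχ : χ ∈ A
    · rw [if_pos hχ, if_pos hχ, h.reg_eq hl hχ hχ₀ (x := 1) (by simp)]
    · simp [hχ]
  rw [h2] at h1
  rcases mul_eq_zero.1 h1 with h3 | h3
  · exact absurd h3 (irr_one_ne_zero χ₀)
  · exact (map_eq_zero _).1 h3

theorem sum_sing_self (h : Four M A) (hl : blockRank 2 A = 3) {χ : IrrCharacter G} (hχ : χ ∈ A) :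
    (2 : ℂ) ^ (Nat.card G).factorization 2 *
      (∑ y : G, if 2 ∣ orderOf y then (χ : G → ℂ) y * conj ((χ : G → ℂ) y) else 0)
      = (Nat.card G : ℂ) * (2 : ℂ) ^ minVal 2 A := by
  have e1 := sum_sing χ χ
  rw [h.diag_three hl hχ, if_pos rfl] at e1
  rw [e1, h.val_card, pow_add]
  push_cast
  ring

theorem sing_eq (h : Four M A) (hl : blockRank 2 A = 3) {χ ψ : IrrCharacter G} (hχ : χ ∈ A)
    (hψ : ψ ∈ A) : ∃ s : ℤ, (s = 1 ∨ s = -1) ∧
      ∀ x : G, 2 ∣ orderOf x → (χ : G → ℂ) x = s * (ψ : G → ℂ) x := by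
  by_cases hne : ψ = χ
  · exact ⟨1, Or.inl rfl, fun x _ => by rw [hne]; simp⟩
  set w : ℤ := 2 ^ minVal 2 A with hw
  obtain ⟨s, hs, hN⟩ : ∃ s : ℤ, (s = 1 ∨ s = -1) ∧ N 2 χ ψ = - s * w := by
    rcases (h.N_shape hχ).2 ψ hψ hne with e | e
    · exact ⟨-1, Or.inr rfl, by rw [e]; ring⟩
    · exact ⟨1, Or.inl rfl, by rw [e]; ring⟩
  have hss : s * s = 1 := by rcases hs with e | e <;> rw [e] <;> norm_num
  refine ⟨s, hs, ?_⟩
  exact eq_of_norm_zero (fun y : G => 2 ∣ orderOf y) (χ : G → ℂ) (ψ : G → ℂ) s (by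
    apply mul_left_cancel₀ (two_pow_ne (G := G))
    rw [mul_zero]
    have e1 := h.sum_sing_self hl hχ
    have e2 := sum_sing χ ψ
    have e3 := sum_sing ψ χ
    have e4 := h.sum_sing_self hl hψ
    rw [hN, if_neg (fun e => hne e.symm)] at e2
    rw [N_symm, hN, if_neg hne] at e3
    have hssC : (s : ℂ) * s = 1 := by exact_mod_cast hss
    have hwC : (w : ℂ) = (2 : ℂ) ^ minVal 2 A := by rw [hw]; push_cast; rfl
    push_cast at e1 e2 e3 e4
    rw [hwC] at e2 e3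
    linear_combination e1 - (s : ℂ) * e2 - (s : ℂ) * e3 + (s : ℂ) * s * e4
      - (Nat.card G : ℂ) * (2 : ℂ) ^ minVal 2 A * hssC)

open scoped Classical in
/-- shape of a block with three Brauer characters. -/
theorem shape_three (h : Four M A) (hl : blockRank 2 A = 3) :
    ∃ (δ : IrrCharacter G → ℤ) (g : IrrCharacter G), g ∈ A ∧ (∀ χ, δ χ = 1 ∨ δ χ = -1) ∧
      (∀ χ ∈ A, ∀ x : G, 2 ∣ orderOf x → (χ : G → ℂ) x = δ χ * (g : G → ℂ) x) ∧
      (∀ x : G, ¬ 2 ∣ orderOf x →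
        ∑ χ : IrrCharacter G, (if χ ∈ A then (δ χ : ℂ) * (χ : G → ℂ) x else 0) = 0) := by
  have hPr := h.hM.2.1.isPrime
  obtain ⟨χ₀, hχ₀⟩ := Cfsg.Agent.Lib.Helper81Block.isPBlock_nonempty h.hA
  have hex : ∀ χ : IrrCharacter G, ∃ s : ℤ, (s = 1 ∨ s = -1) ∧ (χ ∈ A →
      ∀ x : G, 2 ∣ orderOf x → (χ : G → ℂ) x = s * (χ₀ : G → ℂ) x) := by
    intro χ
    by_cases hχ : χ ∈ A
    · obtain ⟨s, hs, hs2⟩ := h.sing_eq hl hχ hχ₀
      exact ⟨s, hs, fun _ => hs2⟩
    · exact ⟨1, Or.inl rfl, fun h' => absurd h' hχ⟩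
  choose δ hδ hδ2 using hex
  refine ⟨δ, χ₀, hχ₀, hδ, hδ2, ?_⟩
  intro x hx
  -- a singular element where `χ₀` does not vanish
  obtain ⟨y₀, hy₀, hne⟩ : ∃ y₀ : G, 2 ∣ orderOf y₀ ∧ (χ₀ : G → ℂ) y₀ ≠ 0 := by
    have e1 := h.sum_sing_self hl hχ₀
    have hG : (Nat.card G : ℂ) ≠ 0 := Cfsg.Agent.Lib.Helper81Base.card_ne_zero
    have h0 : (∑ y : G, if 2 ∣ orderOf y then (χ₀ : G → ℂ) y * conj ((χ₀ : G → ℂ) y) else 0) ≠ 0 := by
      intro h0
      rw [h0, mul_zero] at e1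
      exact mul_ne_zero hG (pow_ne_zero _ two_ne_zero) e1.symm
    obtain ⟨y, _, hy⟩ := Finset.exists_ne_zero_of_sum_ne_zero h0
    by_cases hy2 : 2 ∣ orderOf y
    · rw [if_pos hy2] at hy
      exact ⟨y, hy2, left_ne_zero_of_mul hy⟩
    · rw [if_neg hy2] at hy
      exact absurd rfl hy
  have h1 := weak_block_orth h.hM h.hA hx hy₀
  have h2 : ∑ χ : IrrCharacter G, (if χ ∈ A then (χ : G → ℂ) x * conj ((χ : G → ℂ) y₀) else 0)
      = conj ((χ₀ : G → ℂ) y₀)
        * ∑ χ : IrrCharacter G, (if χ ∈ A then (δ χ : ℂ) * (χ : G → ℂ) x else 0) := by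
    rw [Finset.mul_sum]
    apply Finset.sum_congr rfl
    intro χ _
    by_cases hχ : χ ∈ A
    · rw [if_pos hχ, if_pos hχ, hδ2 χ hχ y₀ hy₀, map_mul, map_intCast]
      ring
    · simp [hχ]
  rw [h2] at h1
  rcases mul_eq_zero.1 h1 with h3 | h3
  · exact absurd ((map_eq_zero _).1 h3) hne
  · exact h3

end Four

end Cfsg.Agent.Lib.Helper84KleinC
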