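import Mathlib
import Cfsg.Prelude.Def_Blocks
import Cfsg.Agent.Lib.Helper84KleinA
import Cfsg.Agent.Lib.Helper84KleinC
import Cfsg.Agent.Lib.Helper4Eigen
import Cfsg.Agent.Lib.Helper20Conj
import Cfsg.Agent.S0924

set_option autoImplicit false

/-!
Divisibility properties of the values of the characters in a `2`-block with Klein four defect
groups.
-/

namespace Cfsg.Agent.Lib.Helper84KleinD

open Cfsg
open Cfsg.Agent.Lib.Helper81Local Cfsg.Agent.Lib.Helper81Base Cfsg.Agent.Lib.Helper81Orth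
  Cfsg.Agent.Lib.Helper81Defect Cfsg.Agent.Lib.Helper81Reg
  Cfsg.Agent.Lib.Helper84KleinA Cfsg.Agent.Lib.Helper84KleinC
open scoped ComplexConjugate

variable {G : Type*} [Group G] [Fintype G] {M : Ideal AlgInt}

theorem root_cases {μ : ℂ} {m : ℕ} (h : μ ^ (2 * m) = 1) : μ ^ m = 1 ∨ μ ^ m = -1 := by
  have : (μ ^ m) * (μ ^ m) = 1 := by rw [← pow_add, ← two_mul, h]
  exact mul_self_eq_one_iff.1 this

omit [Fintype G] in
theorem char_mem_RR [Finite G] (χ : IrrCharacter G) {x : G} {m : ℕ} (hm : Odd m)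
    (hx : orderOf x = 2 * m) : (χ : G → ℂ) x ∈ RR m := by
  obtain ⟨n, ρ, _, hρ⟩ := χ.2
  obtain ⟨μ, h1, _, _, h2, _⟩ := Cfsg.Agent.Lib.Helper4Eigen.exists_eigenvalues ρ x
  rw [← hρ, h2]
  apply Subring.sum_mem
  intro i _
  have h3 := h1 i
  rw [hx] at h3
  rcases root_cases h3 with h | h
  · exact root_mem h
  · have : -μ i ∈ RR m := root_mem (by rw [hm.neg_pow, h, neg_neg])
    simpa using (RR m).neg_mem this

omit [Fintype G] in
theorem char_sub_pow [Finite G] (χ : IrrCharacter G) {x : G} {m r : ℕ}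
    (hx : orderOf x = 2 * m) (hmr : m ∣ 2 ^ r - 1) :
    ∃ β : ℂ, IsIntegral ℤ β ∧ (χ : G → ℂ) x - (χ : G → ℂ) (x ^ (2 ^ r)) = 2 * β := by
  obtain ⟨n, ρ, _, hρ⟩ := χ.2
  obtain ⟨μ, h1, _, hk, h2, _⟩ := Cfsg.Agent.Lib.Helper4Eigen.exists_eigenvalues ρ x
  obtain ⟨t, ht⟩ := hmr
  have hq : 2 ^ r = m * t + 1 := by
    have : 1 ≤ 2 ^ r := Nat.one_le_two_pow
    omega
  have hm0 : 0 < 2 * m := by rw [← hx]; exact orderOf_pos x
  have key : ∀ i, ∃ β : ℂ, IsIntegral ℤ β ∧ μ i - μ i ^ (2 ^ r) = 2 * β := by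
    intro i
    have h3 := h1 i
    rw [hx] at h3
    have hint : IsIntegral ℤ (μ i) := IsIntegral.of_pow hm0 (by rw [h3]; exact isIntegral_one)
    rcases root_cases h3 with h | h
    · refine ⟨0, isIntegral_zero, ?_⟩
      rw [hq, pow_succ, pow_mul, h]
      simp
    · rcases Nat.even_or_odd t with ht2 | ht2
      · refine ⟨0, isIntegral_zero, ?_⟩
        rw [hq, pow_succ, pow_mul, h, ht2.neg_one_pow]
        simp
      · refine ⟨μ i, hint, ?_⟩
        rw [hq, pow_succ, pow_mul, h, ht2.neg_one_pow]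
        ring
  choose β hβ hβ2 using key
  refine ⟨∑ i, β i, IsIntegral.sum _ (fun i _ => hβ i), ?_⟩
  rw [← hρ, h2, hk, ← Finset.sum_sub_distrib, Finset.mul_sum]
  exact Finset.sum_congr rfl (fun i _ => hβ2 i)

/-- characters of a block with defect groups of exponent two vanish on elements of order
divisible by four. -/
theorem vanish_four (hM : IsPModular 2 M) {A : Set (IrrCharacter G)} (hA : IsPBlock M A)
    {P : Subgroup G} (hP : IsDefectGroup 2 M A P) (hexp : ∀ d ∈ P, d * d = 1)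
    {χ : IrrCharacter G} (hχ : χ ∈ A) {x : G} (hx : 4 ∣ orderOf x) : (χ : G → ℂ) x = 0 := by
  have hPr := hM.2.1.isPrime
  obtain ⟨u, hu⟩ := exists_ppart Nat.prime_two x
  apply Cfsg.Agent.S0924.result 2 M hM χ x u hu
  intro D hD huD
  rw [← Cfsg.Agent.Lib.Helper81Block.isPBlock_eq_blockOf hA hχ] at hD
  obtain ⟨t, rfl⟩ := Cfsg.Agent.Lib.Helper20Conj.defectGroup_conj hM hA hP hD
  rw [Cfsg.Agent.Lib.Helper87Sylow.mem_cj] at huD
  have h1 := hexp _ huD
  have h2 : u * u = 1 := by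
    have : t⁻¹ * u * t * (t⁻¹ * u * t) = t⁻¹ * (u * u) * t := by group
    rw [this] at h1
    calc u * u = t * (t⁻¹ * (u * u) * t) * t⁻¹ := by group
      _ = 1 := by rw [h1]; group
  obtain ⟨y, hxy, hc, _, hy⟩ := hu
  have h3 : x ^ (2 * orderOf y) = 1 := by
    rw [← hxy, hc.mul_pow, pow_mul, pow_two, h2, one_pow, one_mul, mul_comm, pow_mul,
      pow_orderOf_eq_one, one_pow]
  have h4 := hx.trans (orderOf_dvd_of_pow_eq_one h3)
  apply hy
  omega

variable {A : Set (IrrCharacter G)}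

/-- `4 χ(1) / |G|` is a local integer. -/
theorem four_deg_div (h : Four M A) {χ : IrrCharacter G} (hχ : χ ∈ A) :
    MemLocalRing M (4 * (χ : G → ℂ) 1 / (Nat.card G : ℂ)) := by
  have h1 : (4 * (χ : G → ℂ) 1 / (Nat.card G : ℂ))
      = ((4 * charDegree (χ : G → ℂ) : ℕ) : ℂ) / ((Nat.card G : ℕ) : ℂ) := by
    rw [← charDegree_eq]; push_cast; ring
  rw [h1]
  apply memLocalRing_natDiv h.hM Nat.card_pos.ne'
  rw [Nat.factorization_mul (by norm_num) (charDegree_pos χ).ne', Finsupp.add_apply, h.val_deg hχ,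
    h.val_card]
  have : (4 : ℕ).factorization 2 = 2 := by
    rw [show (4 : ℕ) = 2 ^ 2 by norm_num, Nat.Prime.factorization_pow Nat.prime_two]
    simp
  omega

theorem index_eq (x : G) : ((Subgroup.centralizer ({x} : Set G)).index : ℂ)
    = (Nat.card G : ℂ) / (Nat.card (Subgroup.centralizer ({x} : Set G)) : ℂ) := by
  have h1 := (Subgroup.centralizer ({x} : Set G)).card_mul_index
  have h2 : (Nat.card (Subgroup.centralizer ({x} : Set G)) : ℂ) ≠ 0 := by
    exact_mod_cast Nat.card_pos.ne'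
  rw [eq_div_iff h2, mul_comm]
  exact_mod_cast h1

/-- `4 χ(x) / |C(x)|` is a local integer. -/
theorem four_div (h : Four M A) {χ : IrrCharacter G} (hχ : χ ∈ A) (x : G) :
    MemLocalRing M (4 * (χ : G → ℂ) x / (Nat.card (Subgroup.centralizer ({x} : Set G)) : ℂ)) := by
  have hPr := h.hM.2.1.isPrime
  have h1 := Cfsg.Agent.Lib.Helper20Block.centralChar_mem hPr χ.2 x
  have h2 := memLocalRing_mul h1 (four_deg_div h hχ)
  have hG : (Nat.card G : ℂ) ≠ 0 := Cfsg.Agent.Lib.Helper81Base.card_ne_zero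
  have h3 := irr_one_ne_zero χ
  have h4 : (Nat.card (Subgroup.centralizer ({x} : Set G)) : ℂ) ≠ 0 := by
    exact_mod_cast Nat.card_pos.ne'
  have e : centralChar (χ : G → ℂ) x * (4 * (χ : G → ℂ) 1 / (Nat.card G : ℂ))
      = 4 * (χ : G → ℂ) x / (Nat.card (Subgroup.centralizer ({x} : Set G)) : ℂ) := by
    unfold centralChar
    rw [index_eq]
    field_simp
  rwa [e] at h2

theorem exists_frob {m : ℕ} (hm : Odd m) : ∃ r, 0 < r ∧ m ∣ 2 ^ r - 1 := by
  have hcop : Nat.Coprime 2 m := Nat.coprime_two_left.2 hm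
  refine ⟨m.totient, Nat.totient_pos.2 hm.pos, ?_⟩
  have := Nat.ModEq.pow_totient hcop
  exact (Nat.modEq_iff_dvd' Nat.one_le_two_pow).1 this.symm

theorem order_cases {n : ℕ} (h2 : 2 ∣ n) (h4 : ¬ 4 ∣ n) : ∃ m, Odd m ∧ n = 2 * m := by
  obtain ⟨m, rfl⟩ := h2
  refine ⟨m, ?_, rfl⟩
  rw [← Nat.not_even_iff_odd]
  rintro ⟨t, rfl⟩
  exact h4 ⟨t, by ring⟩

/-- `(χ(x) - ψ(x)) / 2` is a local integer for singular `x`. -/
theorem half_diff (h : Four M A) (hl : blockRank 2 A = 1)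
    (hz : ∀ χ ∈ A, ∀ x : G, 4 ∣ orderOf x → (χ : G → ℂ) x = 0)
    {χ ψ : IrrCharacter G} (hχ : χ ∈ A) (hψ : ψ ∈ A) {x : G} (hx : 2 ∣ orderOf x) :
    MemLocalRing M (((χ : G → ℂ) x - (ψ : G → ℂ) x) / 2) := by
  have hPr := h.hM.2.1.isPrime
  by_cases h4 : 4 ∣ orderOf x
  · rw [hz χ hχ x h4, hz ψ hψ x h4]
    simpa using MemLocalIdeal.memLocalRing (memLocalIdeal_zero (M := M))
  obtain ⟨m, hm, hxm⟩ := order_cases hx h4
  obtain ⟨r, hr, hmr⟩ := exists_frob hm
  obtain ⟨β, hβ, e1⟩ := char_sub_pow χ hxm hmr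
  obtain ⟨β', hβ', e2⟩ := char_sub_pow ψ hxm hmr
  have hreg : ¬ 2 ∣ orderOf (x ^ (2 ^ r)) := by
    have h1 : (x ^ (2 ^ r)) ^ m = 1 := by
      obtain ⟨j, rfl⟩ : ∃ j, r = j + 1 := ⟨r - 1, by omega⟩
      rw [← pow_mul, pow_succ, mul_assoc, mul_comm, pow_mul, ← hxm, pow_orderOf_eq_one, one_pow]
    intro h2
    have h3 := h2.trans (orderOf_dvd_of_pow_eq_one h1)
    exact (Nat.not_even_iff_odd.2 hm) (even_iff_two_dvd.2 h3)
  have e3 := h.reg_eq hl hχ hψ hreg
  have e4 : ((χ : G → ℂ) x - (ψ : G → ℂ) x) / 2 = β - β' := by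
    have : (χ : G → ℂ) x - (ψ : G → ℂ) x = 2 * (β - β') := by
      linear_combination e1 - e2 + e3
    rw [this]
    ring
  rw [e4]
  exact memLocalRing_of_isIntegral (hβ.sub hβ')

/-- `2 (χ(x) - ψ(x)) / |C(x)|` is a local integer for singular `x`. -/
theorem two_diff_div (h : Four M A) (hl : blockRank 2 A = 1)
    (hz : ∀ χ ∈ A, ∀ x : G, 4 ∣ orderOf x → (χ : G → ℂ) x = 0)
    {χ ψ : IrrCharacter G} (hχ : χ ∈ A) (hψ : ψ ∈ A) {x : G} (hx : 2 ∣ orderOf x) :
    MemLocalRing M (2 * ((χ : G → ℂ) x - (ψ : G → ℂ) x)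
      / (Nat.card (Subgroup.centralizer ({x} : Set G)) : ℂ)) := by
  have hPr := h.hM.2.1.isPrime
  by_cases h4 : 4 ∣ orderOf x
  · rw [hz χ hχ x h4, hz ψ hψ x h4]
    simpa using MemLocalIdeal.memLocalRing (memLocalIdeal_zero (M := M))
  obtain ⟨m, hm, hxm⟩ := order_cases hx h4
  set α := (χ : G → ℂ) x - (ψ : G → ℂ) x with hα
  have hαR : α ∈ RR m := (RR m).sub_mem (char_mem_RR χ hm hxm) (char_mem_RR ψ hm hxm)
  have hαO : MemLocalRing M α := memLocalRing_of_isIntegral (isIntegral_of_mem hm.pos hαR)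
  set c := Nat.card (Subgroup.centralizer ({x} : Set G)) with hc
  have hc0 : c ≠ 0 := Nat.card_pos.ne'
  have hcC : (c : ℂ) ≠ 0 := by exact_mod_cast hc0
  have hG : (Nat.card G : ℂ) ≠ 0 := Cfsg.Agent.Lib.Helper81Base.card_ne_zero
  have h3 := irr_one_ne_zero χ
  -- `4 α / c` lies in the ideal
  have h1 : MemLocalIdeal M (4 * α / (c : ℂ)) := by
    have hs := Cfsg.Agent.Lib.Helper81Block.isPBlock_sameBlock h.hA hχ hψ x
    have hdeg : (ψ : G → ℂ) 1 = (χ : G → ℂ) 1 := h.reg_eq hl hψ hχ (x := 1) (by simp)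
    have := memLocalIdeal_mul_right hs (four_deg_div h hχ)
    have e : (centralChar (χ : G → ℂ) x - centralChar (ψ : G → ℂ) x)
        * (4 * (χ : G → ℂ) 1 / (Nat.card G : ℂ)) = 4 * α / (c : ℂ) := by
      unfold centralChar
      rw [index_eq, hdeg, hα, ← hc]
      field_simp
    rwa [e] at this
  set k := c.factorization 2 with hk
  set u := c / 2 ^ k with hu
  have hcu : c = 2 ^ k * u := (Nat.ordProj_mul_ordCompl_eq_self c 2).symm
  have hu2 : ¬ 2 ∣ u := Nat.not_dvd_ordCompl Nat.prime_two hc0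
  have hcuC : (c : ℂ) = 2 ^ k * (u : ℂ) := by exact_mod_cast hcu
  have huC : (u : ℂ) ≠ 0 := by
    intro h0
    rw [h0, mul_zero] at hcuC
    exact hcC hcuC
  have huinv : MemLocalRing M ((u : ℂ))⁻¹ :=
    memLocalRing_inv (memLocalRing_natCast _) (fun h' => hu2 ((memLocalIdeal_natCast_iff h.hM).1 h'))
  have h2O : MemLocalRing M (2 : ℂ) := by simpa using memLocalRing_natCast (M := M) 2
  rcases Nat.lt_or_ge k 2 with hk2 | hk2
  · have hk01 : k = 0 ∨ k = 1 := by omega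
    rcases hk01 with e | e
    · rw [hcuC, e, pow_zero, one_mul, div_eq_mul_inv]
      exact memLocalRing_mul (memLocalRing_mul h2O hαO) huinv
    · rw [hcuC, e, pow_one, mul_div_mul_left _ _ two_ne_zero, div_eq_mul_inv]
      exact memLocalRing_mul hαO huinv
  · obtain ⟨j, hj⟩ : ∃ j, k = j + 2 := ⟨k - 2, by omega⟩
    have h5 : MemLocalIdeal M (α / 2 ^ j) := by
      have := memLocalIdeal_mul (memLocalRing_natCast (M := M) u) h1
      have e : (u : ℂ) * (4 * α / (c : ℂ)) = α / 2 ^ j := by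
        rw [hcuC, hj, pow_add]
        field_simp
        ring
      rwa [e] at this
    have h6 := unram h.hM hm j α hαR h5
    have e : 2 * α / (c : ℂ) = α / 2 ^ (j + 1) * ((u : ℂ))⁻¹ := by
      rw [hcuC, hj, pow_add, pow_add]
      field_simp
    rw [e]
    exact memLocalRing_mul h6 huinv

end Cfsg.Agent.Lib.Helper84KleinD
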