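import Cfsg.Agent.Lib.Helper25PIDefs
import Cfsg.Agent.Lib.Helper84KleinD
import Cfsg.Agent.Lib.Helper20DefCard
import Cfsg.Agent.Lib.Helper81Defect

set_option autoImplicit false
set_option linter.unusedSectionVars false

namespace Cfsg.Agent.Lib.H25PIFI1
open Cfsg
open Cfsg.Agent.Lib.Helper25PIDefs Cfsg.Agent.Lib.Helper80StarDefs Cfsg.Agent.Lib.Helper80StarProps
open Cfsg.Agent.Lib.Helper25StarCDefs Cfsg.Agent.Lib.Helper78MajP Cfsg.Agent.Lib.Helper80Trace
open Cfsg.Agent.Lib.Helper80Brauer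
open scoped ComplexConjugate

universe u v

theorem deg_div {H : Type u} [Group H] [Fintype H] {p : ℕ} [Fact p.Prime] {M : Ideal AlgInt}
    (hM : IsPModular p M) {A : Set (IrrCharacter H)} (hA : IsPBlock M A) {D : Subgroup H}
    (hD : IsDefectGroup p M A D) {χ : IrrCharacter H} (hχ : χ ∈ A) :
    MemLocalRing M ((Nat.card D : ℂ) * (χ : H → ℂ) 1 / (Nat.card H : ℂ)) := by
  have hp : p.Prime := Fact.out
  have h1 : ((Nat.card D : ℂ) * (χ : H → ℂ) 1 / (Nat.card H : ℂ))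
      = ((Nat.card D * charDegree (χ : H → ℂ) : ℕ) : ℂ) / ((Nat.card H : ℕ) : ℂ) := by
    rw [← Cfsg.Agent.Lib.Helper81Base.charDegree_eq]; push_cast; ring
  rw [h1]
  apply Cfsg.Agent.Lib.Helper81Reg.memLocalRing_natDiv hM Nat.card_pos.ne'
  rw [Nat.factorization_mul Nat.card_pos.ne' (Cfsg.Agent.Lib.Helper81Base.charDegree_pos χ).ne',
    Finsupp.add_apply, Cfsg.Agent.Lib.Helper20DefCard.card_defectGroup hM hA hD,
    Nat.Prime.factorization_pow hp, Cfsg.Agent.Lib.Helper81Defect.blockDefect_def]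
  have h2 := Cfsg.Agent.Lib.Helper81Defect.minVal_le (p := p) hχ
  simp only [Finsupp.single_eq_same]
  omega

/-- piece `FI1`. -/
theorem defect_div {H : Type u} [Group H] [Fintype H] {p : ℕ} [Fact p.Prime] {M : Ideal AlgInt}
    (hM : IsPModular p M) {A : Set (IrrCharacter H)} (hA : IsPBlock M A) {D : Subgroup H}
    (hD : IsDefectGroup p M A D) {χ : IrrCharacter H} (hχ : χ ∈ A) (x : H) :
    MemLocalRing M ((Nat.card D : ℂ) * (χ : H → ℂ) x
      / (Nat.card (Subgroup.centralizer ({x} : Set H)) : ℂ)) := by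
  have hPr := hM.2.1.isPrime
  have h1 := Cfsg.Agent.Lib.Helper20Block.centralChar_mem hPr χ.2 x
  have h2 := Cfsg.Agent.Lib.Helper81Local.memLocalRing_mul h1 (deg_div hM hA hD hχ)
  have hG : (Nat.card H : ℂ) ≠ 0 := Cfsg.Agent.Lib.Helper81Base.card_ne_zero
  have h3 := Cfsg.Agent.Lib.Helper81Base.irr_one_ne_zero χ
  have h4 : (Nat.card (Subgroup.centralizer ({x} : Set H)) : ℂ) ≠ 0 := by
    exact_mod_cast Nat.card_pos.ne'
  have e : centralChar (χ : H → ℂ) x * ((Nat.card D : ℂ) * (χ : H → ℂ) 1 / (Nat.card H : ℂ))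
      = (Nat.card D : ℂ) * (χ : H → ℂ) x / (Nat.card (Subgroup.centralizer ({x} : Set H)) : ℂ) := by
    unfold centralChar
    rw [Cfsg.Agent.Lib.Helper84KleinD.index_eq]
    field_simp
  rwa [e] at h2

end Cfsg.Agent.Lib.H25PIFI1
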