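import Cfsg.Agent.Lib.Helper25PIDefs
import Cfsg.Agent.Lib.Helper78Sec
import Cfsg.Agent.Lib.Helper78MajP

set_option autoImplicit false
set_option linter.unusedSectionVars false

namespace Cfsg.Agent.Lib.H25PIFI2
open Cfsg
open Cfsg.Agent.Lib.Helper25PIDefs Cfsg.Agent.Lib.Helper80StarDefs Cfsg.Agent.Lib.Helper80StarProps
open Cfsg.Agent.Lib.Helper25StarCDefs Cfsg.Agent.Lib.Helper78MajP Cfsg.Agent.Lib.Helper80Trace
open Cfsg.Agent.Lib.Helper80Brauer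
open scoped ComplexConjugate

universe u v

variable {G : Type u} [Group G] [Fintype G] {p : ℕ} [Fact p.Prime] {M : Ideal AlgInt}
  {B : Set (IrrCharacter G)} {P : Subgroup G}
  {c : Set (IrrCharacter (Subgroup.centralizer (P : Set G)))}

/-- piece `FI2` (15m): unfold `Fu`, `Helper78Sec.SP`, `Helper78Sec.loc`: all terms vanish. -/
theorem Fu_eq_zero (χ : G → ℂ) (u x : G) (h : ∀ t : G, ¬ IsPPart p (t * x * t⁻¹) u) :
    Fu p M P c χ u x = 0 := by
  unfold Fu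
  exact Cfsg.Agent.Lib.Helper78Sec.SP_eq_zero (by rintro ⟨t, ht⟩; exact h t ht)

/-- piece `FI2` (60m).  `Fu χ u x = |C_G(u)|⁻¹ ∑_s loc (s x s⁻¹)`.  The `p`-part is unique, so
`IsPPart p (s x s⁻¹) u` iff `s t⁻¹ ∈ C_G(u)` (the `p`-part of `s x s⁻¹ = (s t⁻¹) (t x t⁻¹) (s t⁻¹)⁻¹` is
`(s t⁻¹) u (s t⁻¹)⁻¹`: `Helper81Second2.isPPart_conj`, uniqueness: grep `isPPart_unique`); for these `s`
`loc (s x s⁻¹) = loc (t x t⁻¹)` (`Helper78Sec.loc_conj`; `IsInv` of `pfun`: grep `isInv_pfun` /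
see the proof of `Helper78MajP.Fu`-lemmas); there are `|C_G(u)|` of them. -/
theorem Fu_eq_loc (hM : IsPModular p M) (hmax : IsMaximalBrauerPair p M B P c) {χ : G → ℂ}
    (hχ : IsClassFunction G χ) {u : G} (hu : u ∈ P) {x t : G} (h : IsPPart p (t * x * t⁻¹) u) :
    Fu p M P c χ u x = ∑ z : G, pfun (Subgroup.zpowers u) (fz p M P c (Subgroup.zpowers u)) z
      * χ (z * (t * x * t⁻¹)) := by
  have hp : p.Prime := Fact.out
  have h1 : Fu p M P c χ u x = Fu p M P c χ u (t * x * t⁻¹) := by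
    unfold Fu
    exact (Cfsg.Agent.Lib.Helper78Sec.SP_isClassFunction _ _ _ x t).symm
  rw [h1]
  unfold Fu
  exact Cfsg.Agent.Lib.Helper78Sec.SP_of_ppart hp
    (Cfsg.Agent.Lib.Helper78Sub.isInv_ext_blockCoeff (centralizer_zpowers u) _) hχ h

end Cfsg.Agent.Lib.H25PIFI2
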