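import Cfsg.Agent.Lib.Helper25PIDefs
import Cfsg.Agent.Lib.Helper81Part
import Cfsg.Agent.Lib.Helper4DefOneDefs
import Cfsg.Agent.Lib.Helper82Mult

set_option autoImplicit false
set_option linter.unusedSectionVars false

namespace Cfsg.Agent.Lib.H25PIFI3
open Cfsg
open Cfsg.Agent.Lib.Helper25PIDefs Cfsg.Agent.Lib.Helper80StarDefs Cfsg.Agent.Lib.Helper80StarProps
open Cfsg.Agent.Lib.Helper25StarCDefs Cfsg.Agent.Lib.Helper78MajP Cfsg.Agent.Lib.Helper80Trace
open Cfsg.Agent.Lib.Helper80Brauer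
open scoped ComplexConjugate

universe u v

open Cfsg.Agent.Lib.Helper4DefOneDefs

theorem sum_ext_mul {G : Type u} [Group G] [Fintype G] (K : Subgroup G) [Fintype K] (a : K → ℂ)
    (g : G → ℂ) : ∑ z : G, ext K a z * g z = ∑ k : K, a k * g (k : G) := by
  classical
  have h1 : ∀ z : G, ext K a z * g z = if h : z ∈ K then a ⟨z, h⟩ * g z else 0 := by
    intro z
    by_cases h : z ∈ K
    · rw [ext_mem _ h, dif_pos h]
    · rw [ext_not_mem _ h, dif_neg h, zero_mul]
  rw [Finset.sum_congr rfl (fun z _ => h1 z)]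
  symm
  apply Finset.sum_bij_ne_zero (fun (k : K) _ _ => (k : G))
  · intro k _ _; exact Finset.mem_univ _
  · intro k _ _ k' _ _ h; exact Subtype.ext h
  · intro z _ hz
    by_cases h : z ∈ K
    · rw [dif_pos h] at hz
      exact ⟨⟨z, h⟩, Finset.mem_univ _, hz, rfl⟩
    · rw [dif_neg h] at hz
      exact absurd rfl hz
  · intro k _ _
    rw [dif_pos k.2]

open Classical in
/-- piece `FI3`. -/
theorem loc_eq_sum {G : Type u} [Group G] [Fintype G] (R : Subgroup G)
    [Fintype (Subgroup.centralizer (R : Set G))]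
    (f : Set (IrrCharacter (Subgroup.centralizer (R : Set G)))) (χ : IrrCharacter G)
    (y : Subgroup.centralizer (R : Set G)) :
    ∑ z : G, pfun R f z * (χ : G → ℂ) (z * (y : G))
      = ∑ ξ : IrrCharacter (Subgroup.centralizer (R : Set G)),
          if ξ ∈ f then mH χ ξ * (ξ : Subgroup.centralizer (R : Set G) → ℂ) y else 0 := by
  have hcl : IsClassFunction (Subgroup.centralizer (R : Set G))
      (fun h : Subgroup.centralizer (R : Set G) => (χ : G → ℂ) h) := by
    intro a b
    have := Cfsg.Agent.Lib.Helper4Char.IsIrrCharacter.isClassFunction χ.2 (a : G) (b : G)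
    simpa using this
  rw [sum_ext_mul]
  have h1 := Cfsg.Agent.Lib.Helper81Part.blockPart_eq_sum f hcl y
  have h2 := Cfsg.Agent.Lib.Helper81Part.blockPart_def f
    (fun h : Subgroup.centralizer (R : Set G) => (χ : G → ℂ) h) y
  rw [h1] at h2
  simpa [mH, classInner] using h2

/-- piece `FI3`. -/
theorem mH_nat {G : Type u} [Group G] [Fintype G] (H : Subgroup G) [Fintype H] (χ : IrrCharacter G)
    (ξ : IrrCharacter H) : ∃ n : ℕ, mH χ ξ = n :=
  Cfsg.Agent.Lib.Helper82Mult.exists_nat_classInner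
    (Cfsg.Agent.Lib.Helper82Mult.isCharacter_restrict (Cfsg.Agent.Lib.Helper82Irr.irr_isCharacter χ) H)
    (Cfsg.Agent.Lib.Helper82Irr.irr_isCharacter ξ)

end Cfsg.Agent.Lib.H25PIFI3
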