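import Mathlib
import Cfsg.Prelude.Def_Blocks
import Cfsg.Prelude.Def_BlockLocal
import Cfsg.Agent.Lib.Helper84KleinB
import Cfsg.Agent.Lib.Helper84KleinD

set_option autoImplicit false

/-!
Perfect isometries between `2`-blocks of defect two with four characters and the same number of
Brauer characters.
-/

namespace Cfsg.Agent.Lib.Helper84KleinE

open Cfsg
open Cfsg.Agent.Lib.Helper81Local Cfsg.Agent.Lib.Helper81Base Cfsg.Agent.Lib.Helper81BB
  Cfsg.Agent.Lib.Helper84KleinB Cfsg.Agent.Lib.Helper84KleinC Cfsg.Agent.Lib.Helper84KleinD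
  Cfsg.Agent.Lib.Helper4Char
open scoped ComplexConjugate

variable {G : Type*} [Group G] [Fintype G] {H : Type*} [Group H] [Fintype H] {M : Ideal AlgInt}
variable {B : Set (IrrCharacter G)} {c : Set (IrrCharacter H)}

theorem exists_bij (hB : Four M B) (hc : Four M c) :
    ∃ I : IrrCharacter H → IrrCharacter G, Set.BijOn I c B := by
  have hPr := hB.hM.2.1.isPrime
  obtain ⟨χ₀, _⟩ := Cfsg.Agent.Lib.Helper81Block.isPBlock_nonempty hB.hA
  have : Nonempty (IrrCharacter G) := ⟨χ₀⟩
  apply Set.Finite.exists_bijOn_of_encard_eq (Set.toFinite c)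
  rw [← (Set.toFinite c).cast_ncard_eq, ← (Set.toFinite B).cast_ncard_eq,
    ← Nat.card_coe_set_eq, ← Nat.card_coe_set_eq, hB.h4, hc.h4]

omit [Fintype G] in
open scoped Classical in
theorem kernel_eq (I : IrrCharacter H → IrrCharacter G) (ε : IrrCharacter H → ℤ) (x : G) (y : H) :
    signedBijectionKernel c I ε x y
      = ∑ η ∈ Finset.univ.filter (· ∈ c), (ε η : ℂ) * (I η : G → ℂ) x * (η : H → ℂ) y := by
  unfold signedBijectionKernel
  rw [Cfsg.Agent.Lib.Helper81Block.finsum_mem_irr, Finset.sum_filter]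

open scoped Classical in
theorem sum_bij {I : IrrCharacter H → IrrCharacter G} (hI : Set.BijOn I c B)
    (F : IrrCharacter G → ℂ) :
    ∑ η ∈ Finset.univ.filter (· ∈ c), F (I η) = ∑ χ : IrrCharacter G, if χ ∈ B then F χ else 0 := by
  rw [← Finset.sum_filter]
  apply Finset.sum_nbij I
  · intro η hη
    exact Finset.mem_filter.2 ⟨Finset.mem_univ _, hI.mapsTo (Finset.mem_filter.1 hη).2⟩
  · intro a ha b hb hab
    exact hI.injOn (by simpa using ha) (by simpa using hb) hab
  · intro χ hχ
    obtain ⟨η, hη, e⟩ := hI.surjOn (show χ ∈ B by simpa using hχ)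
    exact ⟨η, by simpa using hη, e⟩
  · intro η _
    rfl

theorem perfect_of_zero [M.IsPrime] {μ : ℂ} (h : μ = 0) (a b : ℂ) (P : Prop) :
    MemLocalRing M (μ / a) ∧ MemLocalRing M (μ / b) ∧ (P ∨ μ = 0) := by
  subst h
  refine ⟨?_, ?_, Or.inr rfl⟩ <;>
  · rw [zero_div]
    exact MemLocalIdeal.memLocalRing memLocalIdeal_zero

theorem irr_mem [M.IsPrime] {K : Type*} [Group K] [Finite K] (χ : IrrCharacter K) (x : K) :
    MemLocalRing M ((χ : K → ℂ) x) := memLocalRing_of_isIntegral (irr_integral χ x)

open scoped Classical in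
theorem perfect_one (hB : Four M B) (hc : Four M c) (hlB : blockRank 2 B = 1)
    (hlc : blockRank 2 c = 1)
    (hzB : ∀ χ ∈ B, ∀ x : G, 4 ∣ orderOf x → (χ : G → ℂ) x = 0)
    (hzc : ∀ χ ∈ c, ∀ x : H, 4 ∣ orderOf x → (χ : H → ℂ) x = 0) :
    ∃ (I : IrrCharacter H → IrrCharacter G) (ε : IrrCharacter H → ℤ),
      IsPerfectIsometry 2 M c B I ε := by
  have hPr := hB.hM.2.1.isPrime
  obtain ⟨I, hI⟩ := exists_bij hB hc
  obtain ⟨η₀, hη₀⟩ := Cfsg.Agent.Lib.Helper81Block.isPBlock_nonempty hc.hA
  have hmem : ∀ η ∈ Finset.univ.filter (· ∈ c), η ∈ c := fun η hη => (Finset.mem_filter.1 hη).2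
  refine ⟨I, fun _ => 1, hI, fun _ _ => Or.inl rfl, ?_⟩
  intro x y
  rw [kernel_eq]
  simp only [Int.cast_one, one_mul]
  set a₀ := (I η₀ : G → ℂ) x with ha₀
  set b₀ := (η₀ : H → ℂ) y with hb₀
  by_cases hx : 2 ∣ orderOf x
  · have hSa : ∑ η ∈ Finset.univ.filter (· ∈ c), (I η : G → ℂ) x = 0 := by
      rw [sum_bij hI (fun χ => (χ : G → ℂ) x)]
      exact hB.sing_sum hlB hx
    by_cases hy : 2 ∣ orderOf y
    · have hSb : ∑ η ∈ Finset.univ.filter (· ∈ c), (η : H → ℂ) y = 0 := by
        rw [Finset.sum_filter]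
        exact hc.sing_sum hlc hy
      have hμ : ∑ η ∈ Finset.univ.filter (· ∈ c), (I η : G → ℂ) x * (η : H → ℂ) y
          = ∑ η ∈ Finset.univ.filter (· ∈ c), ((I η : G → ℂ) x - a₀) * ((η : H → ℂ) y - b₀)
            - 4 * a₀ * b₀ := by
        have e : ∑ η ∈ Finset.univ.filter (· ∈ c), ((I η : G → ℂ) x - a₀) * ((η : H → ℂ) y - b₀)
            = ∑ η ∈ Finset.univ.filter (· ∈ c), (I η : G → ℂ) x * (η : H → ℂ) y
              - a₀ * ∑ η ∈ Finset.univ.filter (· ∈ c), (η : H → ℂ) y
              - (∑ η ∈ Finset.univ.filter (· ∈ c), (I η : G → ℂ) x) * b₀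
              + ((Finset.univ.filter (· ∈ c)).card : ℂ) * (a₀ * b₀) := by
          rw [Finset.mul_sum, Finset.sum_mul, ← Finset.sum_sub_distrib, ← Finset.sum_sub_distrib,
            ← nsmul_eq_mul, ← Finset.sum_const, ← Finset.sum_add_distrib]
          apply Finset.sum_congr rfl
          intro η _
          ring
        rw [e, hSa, hSb, hc.card_filter]
        push_cast
        ring
      rw [hμ]
      refine ⟨?_, ?_, Or.inl (iff_of_false (fun h => h hx) (fun h => h hy))⟩
      · rw [sub_div, Finset.sum_div]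
        apply memLocalRing_sub
        · apply memLocalRing_sum
          intro η hη
          have h1 := two_diff_div hB hlB hzB (hI.mapsTo (hmem η hη)) (hI.mapsTo hη₀) hx
          have h2 := half_diff hc hlc hzc (hmem η hη) hη₀ hy
          have := memLocalRing_mul h1 h2
          convert this using 1
          ring
        · have h1 := four_div hB (hI.mapsTo hη₀) x
          have := memLocalRing_mul h1 (irr_mem (M := M) η₀ y)
          convert this using 1
          ring
      · rw [sub_div, Finset.sum_div]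
        apply memLocalRing_sub
        · apply memLocalRing_sum
          intro η hη
          have h1 := half_diff hB hlB hzB (hI.mapsTo (hmem η hη)) (hI.mapsTo hη₀) hx
          have h2 := two_diff_div hc hlc hzc (hmem η hη) hη₀ hy
          have := memLocalRing_mul h1 h2
          convert this using 1
          ring
        · have h1 := four_div hc hη₀ y
          have := memLocalRing_mul (irr_mem (M := M) (I η₀) x) h1
          convert this using 1
          ring
    · apply perfect_of_zero
      have e : ∑ η ∈ Finset.univ.filter (· ∈ c), (I η : G → ℂ) x * (η : H → ℂ) y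
          = (∑ η ∈ Finset.univ.filter (· ∈ c), (I η : G → ℂ) x) * b₀ := by
        rw [Finset.sum_mul]
        apply Finset.sum_congr rfl
        intro η hη
        rw [hc.reg_eq hlc (hmem η hη) hη₀ hy]
      rw [e, hSa, zero_mul]
  · have ea : ∀ η ∈ Finset.univ.filter (· ∈ c), (I η : G → ℂ) x = a₀ := fun η hη =>
      hB.reg_eq hlB (hI.mapsTo (hmem η hη)) (hI.mapsTo hη₀) hx
    by_cases hy : 2 ∣ orderOf y
    · apply perfect_of_zero
      have hSb : ∑ η ∈ Finset.univ.filter (· ∈ c), (η : H → ℂ) y = 0 := by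
        rw [Finset.sum_filter]
        exact hc.sing_sum hlc hy
      have e : ∑ η ∈ Finset.univ.filter (· ∈ c), (I η : G → ℂ) x * (η : H → ℂ) y
          = a₀ * ∑ η ∈ Finset.univ.filter (· ∈ c), (η : H → ℂ) y := by
        rw [Finset.mul_sum]
        apply Finset.sum_congr rfl
        intro η hη
        rw [ea η hη]
      rw [e, hSb, mul_zero]
    · have e : ∑ η ∈ Finset.univ.filter (· ∈ c), (I η : G → ℂ) x * (η : H → ℂ) y
          = 4 * a₀ * b₀ := by
        rw [Finset.sum_congr rfl (fun η hη => by
          rw [ea η hη, hc.reg_eq hlc (hmem η hη) hη₀ hy]), Finset.sum_const, hc.card_filter]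
        simp
        ring
      rw [e]
      refine ⟨?_, ?_, Or.inl (iff_of_true hx hy)⟩
      · have h1 := four_div hB (hI.mapsTo hη₀) x
        have := memLocalRing_mul h1 (irr_mem (M := M) η₀ y)
        convert this using 1
        ring
      · have h1 := four_div hc hη₀ y
        have := memLocalRing_mul (irr_mem (M := M) (I η₀) x) h1
        convert this using 1
        ring

theorem sq_one {d : ℤ} (h : d = 1 ∨ d = -1) : (d : ℂ) * d = 1 := by
  rcases h with e | e <;> rw [e] <;> norm_num

open scoped Classical in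
theorem perfect_three (hB : Four M B) (hc : Four M c) (hlB : blockRank 2 B = 3)
    (hlc : blockRank 2 c = 3) :
    ∃ (I : IrrCharacter H → IrrCharacter G) (ε : IrrCharacter H → ℤ),
      IsPerfectIsometry 2 M c B I ε := by
  have hPr := hB.hM.2.1.isPrime
  obtain ⟨I, hI⟩ := exists_bij hB hc
  obtain ⟨δB, gB, hgB, hδB, hsB, hrB⟩ := hB.shape_three hlB
  obtain ⟨δc, gc, hgc, hδc, hsc, hrc⟩ := hc.shape_three hlc
  have hmem : ∀ η ∈ Finset.univ.filter (· ∈ c), η ∈ c := fun η hη => (Finset.mem_filter.1 hη).2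
  set ε : IrrCharacter H → ℤ := fun η => δB (I η) * δc η with hε
  have hε1 : ∀ η, ε η = 1 ∨ ε η = -1 := by
    intro η
    rcases hδB (I η) with e | e <;> rcases hδc η with e' | e' <;> simp [hε, e, e']
  set μ : G → H → ℂ := fun x y =>
    ∑ η ∈ Finset.univ.filter (· ∈ c), (ε η : ℂ) * (I η : G → ℂ) x * (η : H → ℂ) y with hμ
  have hz1 : ∀ (x : G) (y : H), 2 ∣ orderOf x → ¬ 2 ∣ orderOf y → μ x y = 0 := by
    intro x y hx hy
    have e : μ x y = (gB : G → ℂ) x
        * ∑ η ∈ Finset.univ.filter (· ∈ c), (δc η : ℂ) * (η : H → ℂ) y := by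
      rw [Finset.mul_sum]
      apply Finset.sum_congr rfl
      intro η hη
      rw [hsB (I η) (hI.mapsTo (hmem η hη)) x hx]
      have := sq_one (hδB (I η))
      simp only [hε]
      push_cast
      linear_combination ((δc η : ℂ) * (gB : G → ℂ) x * (η : H → ℂ) y) * this
    rw [e, Finset.sum_filter, hrc y hy, mul_zero]
  have hz2 : ∀ (x : G) (y : H), ¬ 2 ∣ orderOf x → 2 ∣ orderOf y → μ x y = 0 := by
    intro x y hx hy
    have e : μ x y = (gc : H → ℂ) y
        * ∑ η ∈ Finset.univ.filter (· ∈ c), (δB (I η) : ℂ) * (I η : G → ℂ) x := by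
      rw [Finset.mul_sum]
      apply Finset.sum_congr rfl
      intro η hη
      rw [hsc η (hmem η hη) y hy]
      have := sq_one (hδc η)
      simp only [hε]
      push_cast
      linear_combination ((δB (I η) : ℂ) * (gc : H → ℂ) y * (I η : G → ℂ) x) * this
    rw [e, sum_bij hI (fun χ => (δB χ : ℂ) * (χ : G → ℂ) x), hrB x hx, mul_zero]
  refine ⟨I, ε, hI, fun η _ => hε1 η, ?_⟩
  intro x y
  rw [kernel_eq]
  show MemLocalRing M (μ x y / _) ∧ MemLocalRing M (μ x y / _) ∧ (_ ∨ μ x y = 0)
  by_cases hx : 2 ∣ orderOf x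
  · by_cases hy : 2 ∣ orderOf y
    · have e : μ x y = 4 * (gB : G → ℂ) x * (gc : H → ℂ) y := by
        have e1 : ∀ η ∈ Finset.univ.filter (· ∈ c),
            (ε η : ℂ) * (I η : G → ℂ) x * (η : H → ℂ) y = (gB : G → ℂ) x * (gc : H → ℂ) y := by
          intro η hη
          rw [hsB (I η) (hI.mapsTo (hmem η hη)) x hx, hsc η (hmem η hη) y hy]
          have h1 := sq_one (hδB (I η))
          have h2 := sq_one (hδc η)
          simp only [hε]
          push_cast
          linear_combination ((δc η : ℂ) * (δc η : ℂ) * (gB : G → ℂ) x * (gc : H → ℂ) y) * h1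
            + ((gB : G → ℂ) x * (gc : H → ℂ) y) * h2
        show ∑ η ∈ Finset.univ.filter (· ∈ c), (ε η : ℂ) * (I η : G → ℂ) x * (η : H → ℂ) y = _
        rw [Finset.sum_congr rfl e1, Finset.sum_const, hc.card_filter]
        simp
        ring
      rw [e]
      refine ⟨?_, ?_, Or.inl (iff_of_false (fun h => h hx) (fun h => h hy))⟩
      · have h1 := four_div hB hgB x
        have := memLocalRing_mul h1 (irr_mem (M := M) gc y)
        convert this using 1
        ring
      · have h1 := four_div hc hgc y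
        have := memLocalRing_mul (irr_mem (M := M) gB x) h1
        convert this using 1
        ring
    · exact perfect_of_zero (hz1 x y hx hy) _ _ _
  · by_cases hy : 2 ∣ orderOf y
    · exact perfect_of_zero (hz2 x y hx hy) _ _ _
    · refine ⟨?_, ?_, Or.inl (iff_of_true hx hy)⟩
      · have := vanish_div hB.hM (Finset.univ.filter (· ∈ c)) I
          (fun η => (ε η : ℂ) * (η : H → ℂ) y)
          (fun η _ => memLocalRing_mul (memLocalRing_intCast _) (irr_mem η y))
          (fun x' hx' => by
            have := hz1 x' y hx' hy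
            rw [← this]
            apply Finset.sum_congr rfl
            intro η _
            ring) x
        convert this using 2
        apply Finset.sum_congr rfl
        intro η _
        ring
      · have := vanish_div hc.hM (Finset.univ.filter (· ∈ c)) id
          (fun η => (ε η : ℂ) * (I η : G → ℂ) x)
          (fun η _ => memLocalRing_mul (memLocalRing_intCast _) (irr_mem (I η) x))
          (fun y' hy' => hz2 x y' hx hy') y
        exact this

end Cfsg.Agent.Lib.Helper84KleinE
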