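import Cfsg.Agent.Lib.Helper25PIDefs
import Cfsg.Agent.Lib.H25PIFI1
import Cfsg.Agent.Lib.H25PIFI2
import Cfsg.Agent.Lib.H25PIFI3
import Cfsg.Agent.Lib.Helper80Abel
import Cfsg.Agent.Lib.Helper84KleinE
import Cfsg.Agent.Lib.Helper20Fusion
import Cfsg.Agent.Lib.Helper81Second2

set_option autoImplicit false
set_option linter.unusedSectionVars false

namespace Cfsg.Agent.Lib.H25PIFI4
open Cfsg
open Cfsg.Agent.Lib.Helper25PIDefs Cfsg.Agent.Lib.Helper80StarDefs Cfsg.Agent.Lib.Helper80StarProps
open Cfsg.Agent.Lib.Helper25StarCDefs Cfsg.Agent.Lib.Helper78MajP Cfsg.Agent.Lib.Helper80Trace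
open Cfsg.Agent.Lib.Helper80Brauer
open scoped ComplexConjugate

universe u v

variable {G : Type u} [Group G] [Fintype G] {p : ℕ} [Fact p.Prime] {M : Ideal AlgInt}
  {B : Set (IrrCharacter G)} {P : Subgroup G}
  {c : Set (IrrCharacter (Subgroup.centralizer (P : Set G)))}

theorem mem_cen {u y : G} (h : IsPPart p y u) :
    y ∈ Subgroup.centralizer ((Subgroup.zpowers u : Subgroup G) : Set G) := by
  rw [Subgroup.mem_centralizer_iff]
  intro w hw
  obtain ⟨k, rfl⟩ := Subgroup.mem_zpowers_iff.mp hw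
  exact ((Helper81Second2.isPPart_commute h).zpow_left k).eq

open Classical in
theorem fu_formula (hM : IsPModular p M) (hmax : IsMaximalBrauerPair p M B P c) (χ : IrrCharacter G)
    {u : G} (hu : u ∈ P) {x t : G} (h : IsPPart p (t * x * t⁻¹) u) :
    Fu p M P c (χ : G → ℂ) u x =
      ∑ ξ : IrrCharacter (Subgroup.centralizer ((Subgroup.zpowers u : Subgroup G) : Set G)),
          if ξ ∈ fz p M P c (Subgroup.zpowers u) then Helper4DefOneDefs.mH χ ξ *
            (ξ : Subgroup.centralizer ((Subgroup.zpowers u : Subgroup G) : Set G) → ℂ)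
              ⟨t * x * t⁻¹, mem_cen h⟩ else 0 := by
  rw [H25PIFI2.Fu_eq_loc hM hmax (Helper4Char.IsIrrCharacter.isClassFunction χ.2) hu h]
  exact H25PIFI3.loc_eq_sum (Subgroup.zpowers u) (fz p M P c (Subgroup.zpowers u)) χ
    ⟨t * x * t⁻¹, mem_cen h⟩

theorem fu_int (hM : IsPModular p M) (hmax : IsMaximalBrauerPair p M B P c) (χ : IrrCharacter G)
    {u : G} (hu : u ∈ P) (x : G) : MemLocalRing M (Fu p M P c (χ : G → ℂ) u x) := by
  classical
  haveI hPr := Helper81Local.IsPModular.isPrime hM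
  by_cases h : ∃ t : G, IsPPart p (t * x * t⁻¹) u
  · obtain ⟨t, ht⟩ := h
    rw [fu_formula hM hmax χ hu ht]
    apply Helper81Local.memLocalRing_sum
    intro ξ _
    split_ifs with hξ
    · obtain ⟨n, hn⟩ := H25PIFI3.mH_nat _ χ ξ
      rw [hn]
      exact Helper81Local.memLocalRing_mul (Helper81Local.memLocalRing_natCast n)
        (Helper84KleinE.irr_mem ξ _)
    · exact Helper81Local.memLocalRing_natCast (M := M) 0 |> fun h0 => by simpa using h0
  · push Not at h
    rw [H25PIFI2.Fu_eq_zero _ u x h]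
    exact Helper81Local.memLocalRing_natCast (M := M) 0 |> fun h0 => by simpa using h0

theorem card_cen_conj (t x : G) :
    Nat.card (Subgroup.centralizer ({t * x * t⁻¹} : Set G)) =
      Nat.card (Subgroup.centralizer ({x} : Set G)) := by
  apply Nat.card_congr
  refine ⟨fun g => ⟨t⁻¹ * g * t, ?_⟩, fun g => ⟨t * g * t⁻¹, ?_⟩, ?_, ?_⟩
  · have h1 := Subgroup.mem_centralizer_singleton_iff.mp g.2
    rw [Subgroup.mem_centralizer_singleton_iff]
    have h2 : x = t⁻¹ * (t * x * t⁻¹) * t := by group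
    calc t⁻¹ * (g : G) * t * x = t⁻¹ * ((g : G) * (t * x * t⁻¹)) * t := by group
      _ = t⁻¹ * ((t * x * t⁻¹) * (g : G)) * t := by rw [h1]
      _ = x * (t⁻¹ * (g : G) * t) := by group
  · have h1 := Subgroup.mem_centralizer_singleton_iff.mp g.2
    rw [Subgroup.mem_centralizer_singleton_iff]
    calc t * (g : G) * t⁻¹ * (t * x * t⁻¹) = t * ((g : G) * x) * t⁻¹ := by group
      _ = t * (x * (g : G)) * t⁻¹ := by rw [h1]
      _ = t * x * t⁻¹ * (t * (g : G) * t⁻¹) := by group
  · intro g
    apply Subtype.ext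
    show t * (t⁻¹ * (g : G) * t) * t⁻¹ = g
    group
  · intro g
    apply Subtype.ext
    show t⁻¹ * (t * (g : G) * t⁻¹) * t = g
    group

theorem card_cen_sub {u y : G} (h : IsPPart p y u) :
    Nat.card (Subgroup.centralizer
      ({(⟨y, mem_cen h⟩ : Subgroup.centralizer ((Subgroup.zpowers u : Subgroup G) : Set G))} :
        Set (Subgroup.centralizer ((Subgroup.zpowers u : Subgroup G) : Set G)))) =
      Nat.card (Subgroup.centralizer ({y} : Set G)) := by
  obtain ⟨m, hm⟩ := Helper20Fusion.isPPart_pow h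
  apply Nat.card_congr
  refine ⟨fun g => ⟨((g : Subgroup.centralizer ((Subgroup.zpowers u : Subgroup G) : Set G)) : G), ?_⟩,
    fun g => ⟨⟨(g : G), ?_⟩, ?_⟩, ?_, ?_⟩
  · have h1 := Subgroup.mem_centralizer_singleton_iff.mp g.2
    rw [Subgroup.mem_centralizer_singleton_iff]
    exact congrArg Subtype.val h1
  · have h1 := Subgroup.mem_centralizer_singleton_iff.mp g.2
    rw [Subgroup.mem_centralizer_iff]
    intro w hw
    obtain ⟨k, rfl⟩ := Subgroup.mem_zpowers_iff.mp hw
    have h2 : Commute (g : G) y := h1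
    rw [hm]
    exact (((h2.pow_right m).zpow_right k).symm).eq
  · have h1 := Subgroup.mem_centralizer_singleton_iff.mp g.2
    rw [Subgroup.mem_centralizer_singleton_iff]
    exact Subtype.ext h1
  · intro g
    rfl
  · intro g
    rfl

theorem fu_div (hM : IsPModular p M) (hmax : IsMaximalBrauerPair p M B P c)
    (hab : ∀ a ∈ P, ∀ b ∈ P, a * b = b * a) (χ : IrrCharacter G) {u : G} (hu : u ∈ P) (x : G) :
    MemLocalRing M ((Nat.card P : ℂ) * Fu p M P c (χ : G → ℂ) u x
      / (Nat.card (Subgroup.centralizer ({x} : Set G)) : ℂ)) := by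
  classical
  haveI hPr := Helper81Local.IsPModular.isPrime hM
  have h00 : MemLocalRing M 0 := by
    have h0 := Helper81Local.memLocalRing_natCast (M := M) 0
    simpa using h0
  by_cases h : ∃ t : G, IsPPart p (t * x * t⁻¹) u
  · obtain ⟨t, ht⟩ := h
    have hzP : Subgroup.zpowers u ≤ P := by
      rw [Subgroup.zpowers_le]; exact hu
    have hPC : P ≤ Subgroup.centralizer ((Subgroup.zpowers u : Subgroup G) : Set G) := by
      intro a ha
      rw [Subgroup.mem_centralizer_iff]
      intro w hw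
      exact hab w (hzP hw) a ha
    have hle := fz_spec hM hmax.1.1 hzP
    have hD := Helper80Abel.isDefectGroup_of_abelian hM hmax hle hPC
    have hf : IsPBlock M (fz p M P c (Subgroup.zpowers u)) := (hle.isBrauerPair hmax.1.1).2
    rw [fu_formula hM hmax χ hu ht, Finset.mul_sum, Finset.sum_div]
    apply Helper81Local.memLocalRing_sum
    intro ξ _
    split_ifs with hξ
    · obtain ⟨n, hn⟩ := H25PIFI3.mH_nat _ χ ξ
      have h1 := H25PIFI1.defect_div hM hf hD hξ ⟨t * x * t⁻¹, mem_cen ht⟩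
      rw [card_cen_sub ht, card_cen_conj, Helper87Sylow.card_subgroupOf_of_le hPC] at h1
      rw [hn]
      have h2 := Helper81Local.memLocalRing_mul (Helper81Local.memLocalRing_natCast (M := M) n) h1
      convert h2 using 1
      ring
    · rw [mul_zero, zero_div]
      exact h00
  · push Not at h
    rw [H25PIFI2.Fu_eq_zero _ u x h, mul_zero, zero_div]
    exact h00

theorem fu_supp (χ : G → ℂ) {u : G} (hu1 : u ≠ 1) {x : G} (hx : ¬ p ∣ orderOf x) :
    Fu p M P c χ u x = 0 := by
  apply H25PIFI2.Fu_eq_zero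
  intro t ht
  obtain ⟨m, hm⟩ := Helper20Fusion.isPPart_pow ht
  obtain ⟨y, -, -, ⟨k, hk⟩, -⟩ := ht
  have h1 : orderOf u ∣ orderOf x := by
    have h2 : orderOf (t * x * t⁻¹) = orderOf x := by
      have := orderOf_injective (MulAut.conj t).toMonoidHom (MulAut.conj t).injective x
      simpa using this
    rw [← h2, hm]
    exact orderOf_pow_dvd m
  rcases Nat.eq_zero_or_pos k with rfl | hk0
  · rw [pow_zero, orderOf_eq_one_iff] at hk
    exact hu1 hk
  · apply hx
    rw [hk] at h1
    exact (dvd_pow_self p hk0.ne').trans h1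

end Cfsg.Agent.Lib.H25PIFI4
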