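import Cfsg.Agent.Lib.Helper25PIDefs
import Cfsg.Agent.Lib.Helper5Abel
import Cfsg.Agent.Lib.Helper82Quot

set_option autoImplicit false
set_option linter.unusedSectionVars false

namespace Cfsg.Agent.Lib.H25PIFK
open Cfsg
open Cfsg.Agent.Lib.Helper25PIDefs Cfsg.Agent.Lib.Helper80StarDefs Cfsg.Agent.Lib.Helper80StarProps
open Cfsg.Agent.Lib.Helper25StarCDefs Cfsg.Agent.Lib.Helper78MajP Cfsg.Agent.Lib.Helper80Trace
open Cfsg.Agent.Lib.Helper80Brauer
open scoped ComplexConjugate

universe u v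

variable {F : Type v} [Group F] [Fintype F] {p : ℕ} [Fact p.Prime] {Q : Subgroup F} {e : ℕ}

theorem normal (h : FR p Q e) : Q.Normal := ⟨fun v hv y => h.nor y v hv⟩

theorem index_eq (h : FR p Q e) : Q.index = e := by
  have h1 := Q.card_mul_index
  rw [h.card] at h1
  exact Nat.eq_of_mul_eq_mul_left Nat.card_pos h1

/-- piece `FK`. -/
theorem lin (h : FR p Q e) {η : IrrCharacter F} (hη : InK Q η) : (η : F → ℂ) 1 = 1 := by
  have := normal h
  have := Cfsg.Agent.Lib.Helper5Abel.isMulCommutative_quotient Q h.comm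
  obtain ⟨ψ, rfl⟩ := Cfsg.Agent.Lib.Helper82Quot.exists_deflate Q η hη
  rw [Cfsg.Agent.Lib.Helper82Quot.inflate_apply]
  exact Cfsg.Agent.Lib.Helper5Abel.irr_one_of_comm ψ

/-- piece `FK`: a linear character has values of absolute value one. -/
theorem lin_norm (h : FR p Q e) {η : IrrCharacter F} (hη : InK Q η) (y : F) :
    (η : F → ℂ) y * conj ((η : F → ℂ) y) = 1 :=
  Cfsg.Agent.Lib.Helper82Linear.irr_linear_mul_conj η (lin h hη) y

open Classical in
/-- piece `FK`: the regular character of `F ⧸ Q`. -/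
theorem sum_K (h : FR p Q e) (y : F) :
    ∑ η : IrrCharacter F, (if InK Q η then (η : F → ℂ) y else 0) = if y ∈ Q then (e : ℂ) else 0 := by
  have := normal h
  let _ : Fintype (F ⧸ Q) := Fintype.ofFinite _
  have h1 := Cfsg.Agent.Lib.Helper5Abel.sum_irr_quotient Q h.comm y
  rw [index_eq h] at h1
  rw [← Finset.sum_filter]
  have h2 : ∑ η ∈ Finset.univ.filter (fun η : IrrCharacter F => InK Q η), (η : F → ℂ) y
      = ∑ η : {η : IrrCharacter F // InK Q η}, ((η : IrrCharacter F) : F → ℂ) y := by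
    rw [Finset.sum_subtype (p := fun η => InK Q η)
      (Finset.univ.filter (fun η : IrrCharacter F => InK Q η)) (by intro x; simp)]
  rw [h2]
  have h3 : ∑ η : {η : IrrCharacter F // InK Q η}, ((η : IrrCharacter F) : F → ℂ) y
      = ∑ β : IrrCharacter (F ⧸ Q), (β : F ⧸ Q → ℂ) (y : F ⧸ Q) := by
    let E : IrrCharacter (F ⧸ Q) ≃ {η : IrrCharacter F // InK Q η} :=
      Cfsg.Agent.Lib.Helper82Quot.irrQuotEquiv Q
    exact (Fintype.sum_equiv E _ _ (fun β => rfl)).symm
  rw [h3]
  convert h1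

/-- piece `FK`: `sum_K` at `y = 1` and `lin`. -/
theorem card_K (h : FR p Q e) : Nat.card {η : IrrCharacter F // InK Q η} = e := by
  classical
  have h1 := sum_K h (1 : F)
  rw [if_pos Q.one_mem] at h1
  have h2 : ∀ η : IrrCharacter F, (if InK Q η then (η : F → ℂ) 1 else 0)
      = if InK Q η then (1 : ℂ) else 0 := by
    intro η
    split_ifs with hη
    · exact lin h hη
    · rfl
  rw [Finset.sum_congr rfl (fun η _ => h2 η), Finset.sum_boole] at h1
  rw [Nat.card_eq_fintype_card, Fintype.card_subtype]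
  exact_mod_cast h1

end Cfsg.Agent.Lib.H25PIFK
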