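import Cfsg.Agent.Lib.Helper25PIDefs

set_option autoImplicit false
set_option linter.unusedSectionVars false

namespace Cfsg.Agent.Lib.H25PIFL1a
open Cfsg
open Cfsg.Agent.Lib.Helper25PIDefs Cfsg.Agent.Lib.Helper80StarDefs Cfsg.Agent.Lib.Helper80StarProps
open Cfsg.Agent.Lib.Helper25StarCDefs Cfsg.Agent.Lib.Helper78MajP Cfsg.Agent.Lib.Helper80Trace
open Cfsg.Agent.Lib.Helper80Brauer
open scoped ComplexConjugate

universe u v

/-- piece `FL1a` (PURE, 40m).  `C_F(y) ∩ Q = 1` (`h.cen`: a non-trivial `v ∈ Q` commuting with `y` forces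
`y ∈ Q`), so `C_F(y) → F ⧸ Q` is injective (or `|C_F(y)| |Q| = |C_F(y) Q| ≤ |F|`,
`Subgroup.card_mul_le`-type lemma / `Nat.card_le_card_of_injective` into `F ⧸ Q`), `|F ⧸ Q| = e`. -/
theorem card_cen_le {F : Type v} [Group F] [Finite F] {p : ℕ} [Fact p.Prime] {Q : Subgroup F}
    {e : ℕ} (h : FR p Q e) {y : F} (hy : y ∉ Q) :
    Nat.card (Subgroup.centralizer ({y} : Set F)) ≤ e := by
  have hN : Q.Normal := ⟨fun v hv g => h.nor g v hv⟩
  have hidx : Q.index = e := by
    have h1 := Q.card_mul_index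
    rw [h.card] at h1
    exact Nat.eq_of_mul_eq_mul_left Nat.card_pos h1
  rw [← hidx, Subgroup.index]
  apply Nat.card_le_card_of_injective
    (fun c : Subgroup.centralizer ({y} : Set F) => (QuotientGroup.mk (c : F) : F ⧸ Q))
  intro c1 c2 hc
  have h1 : (c1 : F)⁻¹ * (c2 : F) ∈ Q := QuotientGroup.eq.1 hc
  by_contra hne
  have h2 : (c1 : F)⁻¹ * (c2 : F) ≠ 1 := by
    intro h3
    apply hne
    apply Subtype.ext
    exact (inv_mul_eq_one.1 h3)
  have h3 : (c1 : F)⁻¹ * (c2 : F) ∈ Subgroup.centralizer ({y} : Set F) :=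
    Subgroup.mul_mem _ (Subgroup.inv_mem _ c1.2) c2.2
  have h4 := Subgroup.mem_centralizer_iff.1 h3 y (Set.mem_singleton y)
  exact hy (h.cen _ h1 h2 y h4)

/-- piece `FL1a`: `C_F(v) = Q` (`⊇`: `Q` is abelian, `⊆`: `h.cen`). -/
theorem card_cen_Q {F : Type v} [Group F] [Finite F] {p : ℕ} [Fact p.Prime] {Q : Subgroup F}
    {e : ℕ} (h : FR p Q e) {v : F} (hv : v ∈ Q) (hv1 : v ≠ 1) :
    Nat.card (Subgroup.centralizer ({v} : Set F)) = Nat.card Q := by
  have heq : Subgroup.centralizer ({v} : Set F) = Q := by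
    apply le_antisymm
    · intro y hy
      have h4 := Subgroup.mem_centralizer_iff.1 hy v (Set.mem_singleton v)
      exact h.cen v hv hv1 y h4.symm
    · intro y hy
      rw [Subgroup.mem_centralizer_iff]
      intro w hw
      rw [Set.mem_singleton_iff] at hw
      subst hw
      haveI := h.cyc
      obtain ⟨g, hg⟩ := IsCyclic.exists_generator (α := Q)
      obtain ⟨a, ha⟩ := Subgroup.mem_zpowers_iff.1 (hg ⟨w, hv⟩)
      obtain ⟨b, hb⟩ := Subgroup.mem_zpowers_iff.1 (hg ⟨y, hy⟩)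
      have ha' : (g : F) ^ a = w := by simpa using congrArg Subtype.val ha
      have hb' : (g : F) ^ b = y := by simpa using congrArg Subtype.val hb
      rw [← ha', ← hb', ← zpow_add, ← zpow_add, add_comm]
  rw [heq]

end Cfsg.Agent.Lib.H25PIFL1a
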