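import Cfsg.Agent.Lib.Helper25PIDefs
import Cfsg.Agent.Lib.H25PIFK
import Cfsg.Agent.Lib.H25PIFL1a
import Cfsg.Agent.Lib.Helper4Char2

set_option autoImplicit false
set_option linter.unusedSectionVars false

namespace Cfsg.Agent.Lib.H25PIFL1b
open Cfsg
open Cfsg.Agent.Lib.Helper25PIDefs Cfsg.Agent.Lib.Helper80StarDefs Cfsg.Agent.Lib.Helper80StarProps
open Cfsg.Agent.Lib.Helper25StarCDefs Cfsg.Agent.Lib.Helper78MajP Cfsg.Agent.Lib.Helper80Trace
open Cfsg.Agent.Lib.Helper80Brauer
open scoped ComplexConjugate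

universe u v

variable {F : Type v} [Group F] [Fintype F] {p : ℕ} [Fact p.Prime] {Q : Subgroup F} {e : ℕ}

/-- piece `FL1b` (40m).  `Helper4Char2.col_orth y y`: `∑_η |η y|² = |C_F(y)| ≤ e` (`H25PIFL1a.card_cen_le`);
the `e` characters of `K` contribute `1` each (`H25PIFK.lin_norm`, `card_K`); all terms are `≥ 0`, so the
others vanish. -/
theorem van_off (h : FR p Q e) {η : IrrCharacter F} (hη : ¬ InK Q η) {y : F} (hy : y ∉ Q) :
    (η : F → ℂ) y = 0 := by
  classical
  have h1 := Cfsg.Agent.Lib.Helper4Char2.col_orth y y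
  rw [if_pos (IsConj.refl y)] at h1
  have h2 := H25PIFL1a.card_cen_le h hy
  -- real version
  have h3 : ∑ χ : IrrCharacter F, Complex.normSq ((χ : F → ℂ) y)
      = (Nat.card (Subgroup.centralizer ({y} : Set F)) : ℝ) := by
    have : ((∑ χ : IrrCharacter F, Complex.normSq ((χ : F → ℂ) y) : ℝ) : ℂ)
        = ((Nat.card (Subgroup.centralizer ({y} : Set F)) : ℝ) : ℂ) := by
      push_cast
      rw [← h1]
      exact Finset.sum_congr rfl (fun χ _ => (Complex.mul_conj _).symm)
    exact_mod_cast this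
  have hK : ∀ χ : IrrCharacter F, InK Q χ → Complex.normSq ((χ : F → ℂ) y) = 1 := by
    intro χ hχ
    have := H25PIFK.lin_norm h hχ y
    rw [Complex.mul_conj] at this
    exact_mod_cast this
  have hcard : (Finset.univ.filter (fun χ : IrrCharacter F => InK Q χ)).card = e := by
    have := H25PIFK.card_K (p := p) (Q := Q) (e := e) h
    rw [Nat.card_eq_fintype_card, Fintype.card_subtype] at this
    exact this
  have h4 : ∑ χ : IrrCharacter F, Complex.normSq ((χ : F → ℂ) y)
      = (e : ℝ) + ∑ χ ∈ Finset.univ.filter (fun χ : IrrCharacter F => ¬ InK Q χ),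
          Complex.normSq ((χ : F → ℂ) y) := by
    rw [← Finset.sum_filter_add_sum_filter_not Finset.univ (fun χ : IrrCharacter F => InK Q χ)]
    congr 1
    rw [Finset.sum_congr rfl (fun χ hχ => hK χ (Finset.mem_filter.mp hχ).2)]
    simp [hcard]
  have h5 : ∑ χ ∈ Finset.univ.filter (fun χ : IrrCharacter F => ¬ InK Q χ),
          Complex.normSq ((χ : F → ℂ) y) ≤ 0 := by
    have h6 : (Nat.card (Subgroup.centralizer ({y} : Set F)) : ℝ) ≤ (e : ℝ) := by exact_mod_cast h2
    linarith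
  have h7 : ∑ χ ∈ Finset.univ.filter (fun χ : IrrCharacter F => ¬ InK Q χ),
          Complex.normSq ((χ : F → ℂ) y) = 0 :=
    le_antisymm h5 (Finset.sum_nonneg (fun χ _ => Complex.normSq_nonneg _))
  have h8 := (Finset.sum_eq_zero_iff_of_nonneg (fun χ _ => Complex.normSq_nonneg _)).mp h7 η
    (Finset.mem_filter.mpr ⟨Finset.mem_univ _, hη⟩)
  exact Complex.normSq_eq_zero.mp h8

end Cfsg.Agent.Lib.H25PIFL1b
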