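import Cfsg.Agent.Lib.Helper25PIDefs
import Cfsg.Agent.Lib.Helper82Schur

set_option autoImplicit false
set_option linter.unusedSectionVars false

namespace Cfsg.Agent.Lib.H25PIFL2
open Cfsg
open Cfsg.Agent.Lib.Helper25PIDefs Cfsg.Agent.Lib.Helper80StarDefs Cfsg.Agent.Lib.Helper80StarProps
open Cfsg.Agent.Lib.Helper25StarCDefs Cfsg.Agent.Lib.Helper78MajP Cfsg.Agent.Lib.Helper80Trace
open Cfsg.Agent.Lib.Helper80Brauer
open scoped ComplexConjugate

universe u v

variable {F : Type v} [Group F] [Fintype F] {p : ℕ} [Fact p.Prime] {Q : Subgroup F} {e : ℕ}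

/-- piece `FL2`.  `Q` is normal: either `Q` is in the kernel or the sum over `Q` vanishes
(`Helper82Schur.irr_sum_normal_eq_zero_or`). -/
theorem sum_Q [Fintype Q] (h : FR p Q e) {η : IrrCharacter F} (hη : ¬ InK Q η) :
    ∑ v : Q, (η : F → ℂ) v = 0 := by
  have hn : Q.Normal := ⟨fun v hv y => h.nor y v hv⟩
  rcases Cfsg.Agent.Lib.Helper82Schur.irr_sum_normal_eq_zero_or η Q with h1 | h1
  · exact absurd h1 hη
  · simpa using h1 1

end Cfsg.Agent.Lib.H25PIFL2
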