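import Cfsg.Agent.Lib.Helper25PIDefs

set_option autoImplicit false
set_option linter.unusedSectionVars false

namespace Cfsg.Agent.Lib.H25PIFReg
open Cfsg
open Cfsg.Agent.Lib.Helper25PIDefs Cfsg.Agent.Lib.Helper80StarDefs Cfsg.Agent.Lib.Helper80StarProps
open Cfsg.Agent.Lib.Helper25StarCDefs Cfsg.Agent.Lib.Helper78MajP Cfsg.Agent.Lib.Helper80Trace
open Cfsg.Agent.Lib.Helper80Brauer
open scoped ComplexConjugate

universe u v

/-- piece `FReg` (PURE, 40m).  `y ∈ Q`, `y ≠ 1`: the order is a power `p ^ (k+1)` (`h.pg`).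
`y ∉ Q` and `p ∣ orderOf y`: `z = y ^ (orderOf y / p)` has order `p`; `z ∈ Q` because `Q` is a normal
Sylow `p`-subgroup (or: the image of `z` in `F ⧸ Q`, a group of order `e` prime to `p`, is trivial);
`y` commutes with `z ≠ 1`, so `y ∈ Q` by `h.cen`. -/
theorem reg_iff {F : Type v} [Group F] [Finite F] {p : ℕ} [Fact p.Prime] {Q : Subgroup F} {e : ℕ}
    (h : FR p Q e) (y : F) : ¬ p ∣ orderOf y ↔ (y ∉ Q ∨ y = 1) := by
  have hp : p.Prime := Fact.out
  constructor
  · intro hnd
    by_contra hcon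
    push_neg at hcon
    obtain ⟨hyQ, hy1⟩ := hcon
    obtain ⟨k, hk⟩ := h.pg ⟨y, hyQ⟩
    have hk' : y ^ (p ^ k) = 1 := by simpa using congrArg Subtype.val hk
    obtain ⟨j, -, hj⟩ := (Nat.dvd_prime_pow hp).1 (orderOf_dvd_of_pow_eq_one hk')
    cases j with
    | zero =>
      rw [pow_zero, orderOf_eq_one_iff] at hj
      exact hy1 hj
    | succ j =>
      apply hnd
      rw [hj, pow_succ]
      exact Dvd.intro_left _ rfl
  · rintro (hy | rfl)
    · intro hdvd
      have hN : Q.Normal := ⟨fun v hv g => h.nor g v hv⟩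
      have hidx : Q.index = e := by
        have h1 := Q.card_mul_index
        rw [h.card] at h1
        exact Nat.eq_of_mul_eq_mul_left Nat.card_pos h1
      have hpos : 0 < orderOf y := orderOf_pos y
      set z := y ^ (orderOf y / p) with hz
      have hzo : orderOf z = p := orderOf_pow_orderOf_div hpos.ne' hdvd
      have hz1 : z ≠ 1 := by
        intro h1
        rw [h1, orderOf_one] at hzo
        exact hp.one_lt.ne hzo
      have hzQ : z ∈ Q := by
        rw [← QuotientGroup.eq_one_iff]
        have h1 : orderOf (z : F ⧸ Q) ∣ p := by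
          rw [← hzo]
          exact orderOf_map_dvd (QuotientGroup.mk' Q) z
        have h2 : orderOf (z : F ⧸ Q) ∣ e := by
          rw [← hidx, Subgroup.index]
          exact orderOf_dvd_natCard _
        have h3 : orderOf (z : F ⧸ Q) ∣ p - 1 := h2.trans h.dvd
        have h4 : orderOf (z : F ⧸ Q) ∣ 1 := by
          have h5 := Nat.dvd_sub h1 h3
          rwa [Nat.sub_sub_self hp.one_lt.le] at h5
        rw [← orderOf_eq_one_iff]
        exact Nat.dvd_one.1 h4
      apply hy
      apply h.cen z hzQ hz1 y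
      rw [hz, ← pow_succ', ← pow_succ]
    · rw [orderOf_one]
      exact hp.one_lt.ne' ∘ Nat.dvd_one.1

end Cfsg.Agent.Lib.H25PIFReg
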