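import Cfsg.Agent.Lib.Helper25PIDefs
import Cfsg.Agent.Lib.Helper81Orth

set_option autoImplicit false
set_option linter.unusedSectionVars false

namespace Cfsg.Agent.Lib.H25PISY
open Cfsg
open Cfsg.Agent.Lib.Helper25PIDefs Cfsg.Agent.Lib.Helper80StarDefs Cfsg.Agent.Lib.Helper80StarProps
open Cfsg.Agent.Lib.Helper25StarCDefs Cfsg.Agent.Lib.Helper78MajP Cfsg.Agent.Lib.Helper80Trace
open Cfsg.Agent.Lib.Helper80Brauer
open scoped ComplexConjugate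

universe u v

variable {G : Type u} [Group G] [Fintype G] {F : Type v} [Group F] [Fintype F] {p : ℕ} [Fact p.Prime]
  {M : Ideal AlgInt} {B : Set (IrrCharacter G)} {P : Subgroup G}
  {c : Set (IrrCharacter (Subgroup.centralizer (P : Set G)))} {Q : Subgroup F} {e : ℕ}
  {X Y : Set (IrrCharacter G)} {δ : IrrCharacter G → ℤ} {δ₀ : ℤ} {σ : Q ≃* P} {χ₁ : IrrCharacter G}

open Classical in
/-- piece `SY` (60m).  `Helper81Orth.weak_block_orth h.hM hB (x := 1) (y := x)` (`hB = h.hmax.1.2.1`), conjugated: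
`∑_{χ ∈ B} χ(1) χ(x) = 0` (`χ 1` is real).  `B = X ⊔ Y` (`h.xy.un`, `h.xy.dis`).  For `χ ∈ X`:
`χ(x) = δ_χ δ₁ χ₁(x)` (`h.xy.sing`, `δ_χ² = 1`), so the `X`-part is `δ₁ χ₁(x) A(1)`, `A(1) = ∑_X δ_χ χ(1) = -δ₀ ψ₀(1)`
(`h.xy.reg` at `g = 1`) for every `ψ₀ ∈ Y`; in particular all `ψ(1)`, `ψ ∈ Y`, are equal to `d := -δ₀ A(1)`; the `Y`-part is
`d ∑_Y ψ(x)`; `d ≠ 0` if `Y ≠ ∅` (degree); if `Y = ∅`... cannot happen: `e * |Y| + 1 = |P| = |Q| > 1` (`h.xy.cY`, `σ`, `h.fr.ne`). -/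
theorem sum_Y (h : Ctx p M B P c Q e X Y δ δ₀ σ χ₁) {x : G} (hx : p ∣ orderOf x) :
    ∑ ψ : IrrCharacter G, (if ψ ∈ Y then (ψ : G → ℂ) x else 0)
      = (δ₀ : ℂ) * (δ χ₁ : ℂ) * (χ₁ : G → ℂ) x := by
  classical
  have hB : IsPBlock M B := h.hmax.1.2.1
  have h1 : ¬ p ∣ orderOf (1 : G) := by
    rw [orderOf_one]; exact h.hM.1.one_lt.ne' ∘ Nat.dvd_one.mp
  have hs : p ∣ orderOf x⁻¹ := by rw [orderOf_inv]; exact hx
  have E0 := Cfsg.Agent.Lib.Helper81Orth.weak_block_orth h.hM hB h1 hs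
  set S : ℂ := ∑ ψ : IrrCharacter G, (if ψ ∈ Y then (ψ : G → ℂ) x else 0) with hS
  set A1 : ℂ := ∑ χ : IrrCharacter G, (if χ ∈ X then (δ χ : ℂ) * (χ : G → ℂ) 1 else 0) with hA1
  have sq : ∀ z : ℤ, (z = 1 ∨ z = -1) → (z : ℂ) * (z : ℂ) = 1 := by
    rintro z (rfl | rfl) <;> simp
  have s0 := sq δ₀ h.xy.s0
  -- `Y` is not empty
  obtain ⟨ψ₀, hψ₀⟩ : ∃ ψ₀, ψ₀ ∈ Y := by
    by_contra hne
    push Not at hne
    have hY : Y = ∅ := Set.eq_empty_iff_forall_notMem.mpr hne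
    have hc := h.xy.cY
    rw [hY] at hc
    simp only [Nat.card_eq_fintype_card, Fintype.card_ofIsEmpty, mul_zero, zero_add] at hc
    have hQ : Nat.card Q = 1 := by rw [Nat.card_congr σ.toEquiv, Nat.card_eq_fintype_card]; exact hc.symm
    exact h.fr.ne (Subgroup.card_eq_one.mp hQ)
  have hdeg : ∀ ψ ∈ Y, (ψ : G → ℂ) 1 = -(δ₀ : ℂ) * A1 := by
    intro ψ hψ
    have := h.xy.reg ψ hψ 1 h1
    have e1 : A1 = -((δ₀ : ℂ) * (ψ : G → ℂ) 1) := by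
      rw [hA1]; linear_combination this
    rw [e1]
    linear_combination (-(ψ : G → ℂ) 1) * s0
  have hA1ne : A1 ≠ 0 := by
    intro h0
    have := hdeg ψ₀ hψ₀
    rw [h0, mul_zero] at this
    exact Cfsg.Agent.Lib.Helper81Base.irr_one_ne_zero ψ₀ this
  have hXval : ∀ χ ∈ X, (χ : G → ℂ) x = (δ χ : ℂ) * (δ χ₁ : ℂ) * (χ₁ : G → ℂ) x := by
    intro χ hχ
    have e1 := h.xy.sing χ hχ χ₁ h.hχ₁ x hx
    have e2 := sq (δ χ) (h.xy.sX χ hχ)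
    linear_combination (δ χ : ℂ) * e1 - (χ : G → ℂ) x * e2
  have key : ∀ χ : IrrCharacter G,
      (if χ ∈ B then (χ : G → ℂ) 1 * conj ((χ : G → ℂ) x⁻¹) else 0)
        = (δ χ₁ : ℂ) * (χ₁ : G → ℂ) x * (if χ ∈ X then (δ χ : ℂ) * (χ : G → ℂ) 1 else 0)
          + (-(δ₀ : ℂ) * A1) * (if χ ∈ Y then (χ : G → ℂ) x else 0) := by
    intro χ
    rw [Cfsg.Agent.Lib.Helper81Base.irr_inv, Complex.conj_conj, h.xy.un]
    by_cases hX : χ ∈ X
    · have hY : χ ∉ Y := fun hY => Set.disjoint_left.mp h.xy.dis hX hY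
      rw [if_pos (Set.mem_union_left Y hX), if_pos hX, if_neg hY, hXval χ hX]
      ring
    · by_cases hY : χ ∈ Y
      · rw [if_pos (Set.mem_union_right X hY), if_neg hX, if_pos hY, hdeg χ hY]
        ring
      · rw [if_neg (show χ ∉ X ∪ Y by rintro (h | h); exact hX h; exact hY h), if_neg hX, if_neg hY]
        ring
  rw [Finset.sum_congr rfl (fun χ _ => key χ), Finset.sum_add_distrib, ← Finset.mul_sum,
    ← Finset.mul_sum] at E0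
  have E1 : A1 * ((δ χ₁ : ℂ) * (χ₁ : G → ℂ) x - (δ₀ : ℂ) * S) = 0 := by
    linear_combination E0
  have E2 := (mul_eq_zero.mp E1).resolve_left hA1ne
  linear_combination (-(δ₀ : ℂ)) * E2 - S * s0

end Cfsg.Agent.Lib.H25PISY
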