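import Cfsg.Agent.Lib.Helper25PIDefs
import Cfsg.Agent.Lib.H25PISY
import Cfsg.Agent.Lib.Helper4Char

set_option autoImplicit false
set_option linter.unusedSectionVars false

namespace Cfsg.Agent.Lib.H25PIMU1a
open Cfsg
open Cfsg.Agent.Lib.Helper25PIDefs Cfsg.Agent.Lib.Helper80StarDefs Cfsg.Agent.Lib.Helper80StarProps
open Cfsg.Agent.Lib.Helper25StarCDefs Cfsg.Agent.Lib.Helper78MajP Cfsg.Agent.Lib.Helper80Trace
open Cfsg.Agent.Lib.Helper80Brauer
open scoped ComplexConjugate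

universe u v

variable {G : Type u} [Group G] [Fintype G] {F : Type v} [Group F] [Fintype F] {p : ℕ} [Fact p.Prime]
  {M : Ideal AlgInt} {B : Set (IrrCharacter G)} {P : Subgroup G}
  {c : Set (IrrCharacter (Subgroup.centralizer (P : Set G)))} {Q : Subgroup F} {e : ℕ}
  {X Y : Set (IrrCharacter G)} {δ : IrrCharacter G → ℤ} {δ₀ : ℤ} {σ : Q ≃* P} {χ₁ : IrrCharacter G}

open Classical in
theorem sum_ite_mem {ι : Type*} [Fintype ι] (Z : Set ι) (a : ℂ) :
    ∑ χ : ι, (if χ ∈ Z then a else 0) = (Nat.card Z : ℂ) * a := by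
  rw [← Finset.sum_filter, Finset.sum_const, nsmul_eq_mul]
  congr 2
  rw [Nat.card_eq_fintype_card, Fintype.card_subtype]

theorem sum_split (p : ℕ) (f : G → ℂ) :
    ∑ g : G, f g = ∑ g : G, (if p ∣ orderOf g then f g else 0)
      + ∑ g : G, (if ¬ p ∣ orderOf g then f g else 0) := by
  rw [← Finset.sum_add_distrib]
  apply Finset.sum_congr rfl
  intro g _
  by_cases hg : p ∣ orderOf g
  · simp [hg]
  · simp [hg]

open Classical in
/-- piece `MU1a`. -/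
theorem sing_norm (h : Ctx p M B P c Q e X Y δ δ₀ σ χ₁) :
    ∑ g : G, (if p ∣ orderOf g then (χ₁ : G → ℂ) g * conj ((χ₁ : G → ℂ) g) else 0)
      = (Nat.card G : ℂ) * (Nat.card Y : ℂ) / (Nat.card P : ℂ) := by
  set N : ℂ := (Nat.card G : ℂ) with hNdef
  set n : ℂ := (Nat.card Y : ℂ) with hndef
  set A : G → ℂ := AX X δ with hAdef
  set YS : G → ℂ := fun g => ∑ ψ : IrrCharacter G, if ψ ∈ Y then (ψ : G → ℂ) g else 0 with hYSdef
  have hN : N ≠ 0 := by
    rw [hNdef]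
    exact_mod_cast Nat.card_pos.ne'
  have hd0 : (δ₀ : ℂ) * (δ₀ : ℂ) = 1 := by
    rcases h.xy.s0 with h' | h' <;> rw [h'] <;> norm_num
  have hd1 : (δ χ₁ : ℂ) * (δ χ₁ : ℂ) = 1 := by
    rcases h.xy.sX χ₁ h.hχ₁ with h' | h' <;> rw [h'] <;> norm_num
  have horth : ∀ χ : IrrCharacter G, ∑ g, (χ : G → ℂ) g * conj ((χ₁ : G → ℂ) g)
      = if χ = χ₁ then N else 0 := by
    intro χ
    have h1 := Cfsg.Agent.Lib.Helper4Char.classInner_irr χ.2 χ₁.2
    unfold classInner at h1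
    have h2 : ∑ g, (χ : G → ℂ) g * conj ((χ₁ : G → ℂ) g)
        = N * (N⁻¹ * ∑ g, (χ : G → ℂ) g * conj ((χ₁ : G → ℂ) g)) := by
      rw [mul_inv_cancel_left₀ hN]
    rw [h2, h1]
    by_cases hc : χ = χ₁
    · rw [if_pos hc, if_pos (congrArg Subtype.val hc), mul_one]
    · rw [if_neg hc, if_neg (fun h' => hc (Subtype.ext h')), mul_zero]
  have hA : ∑ g, A g * conj ((χ₁ : G → ℂ) g) = N * (δ χ₁ : ℂ) := by
    simp only [hAdef, AX, Finset.sum_mul]
    rw [Finset.sum_comm]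
    have h1 : ∀ χ : IrrCharacter G, ∑ g, (if χ ∈ X then (δ χ : ℂ) * (χ : G → ℂ) g else 0)
        * conj ((χ₁ : G → ℂ) g) = if χ = χ₁ then N * (δ χ₁ : ℂ) else 0 := by
      intro χ
      by_cases hχ : χ ∈ X
      · simp only [if_pos hχ, mul_assoc]
        rw [← Finset.mul_sum, horth]
        by_cases hc : χ = χ₁
        · rw [if_pos hc, if_pos hc, hc, mul_comm]
        · rw [if_neg hc, if_neg hc, mul_zero]
      · have hc : χ ≠ χ₁ := fun h' => hχ (h' ▸ h.hχ₁)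
        simp only [if_neg hχ, zero_mul, Finset.sum_const_zero, if_neg hc]
    simp only [h1, Finset.sum_ite_eq', Finset.mem_univ, if_true]
  have hY : ∑ g, YS g * conj ((χ₁ : G → ℂ) g) = 0 := by
    simp only [hYSdef, Finset.sum_mul]
    rw [Finset.sum_comm]
    apply Finset.sum_eq_zero
    intro ψ _
    by_cases hψ : ψ ∈ Y
    · simp only [if_pos hψ]
      rw [horth, if_neg]
      intro h'
      exact Set.disjoint_left.mp h.xy.dis h.hχ₁ (h' ▸ hψ)
    · simp only [if_neg hψ, zero_mul, Finset.sum_const_zero]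
  have hAsing : ∀ g, p ∣ orderOf g → A g = (e : ℂ) * ((δ χ₁ : ℂ) * (χ₁ : G → ℂ) g) := by
    intro g hg
    rw [← h.xy.cX, ← sum_ite_mem]
    simp only [hAdef, AX]
    apply Finset.sum_congr rfl
    intro χ _
    by_cases hχ : χ ∈ X
    · rw [if_pos hχ, if_pos hχ, h.xy.sing χ hχ χ₁ h.hχ₁ g hg]
    · rw [if_neg hχ, if_neg hχ]
  have hYsing : ∀ g, p ∣ orderOf g → YS g = (δ₀ : ℂ) * (δ χ₁ : ℂ) * (χ₁ : G → ℂ) g :=
    fun g hg => H25PISY.sum_Y h hg
  have hYreg : ∀ g, ¬ p ∣ orderOf g → YS g = n * (-(δ₀ : ℂ) * A g) := by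
    intro g hg
    rw [hndef, ← sum_ite_mem]
    simp only [hYSdef]
    apply Finset.sum_congr rfl
    intro ψ _
    by_cases hψ : ψ ∈ Y
    · rw [if_pos hψ, if_pos hψ]
      have h1 : (δ₀ : ℂ) * (ψ : G → ℂ) g + A g = 0 := h.xy.reg ψ hψ g hg
      linear_combination (δ₀ : ℂ) * h1 - (ψ : G → ℂ) g * hd0
    · rw [if_neg hψ, if_neg hψ]
  set S : ℂ := ∑ g : G, (if p ∣ orderOf g then (χ₁ : G → ℂ) g * conj ((χ₁ : G → ℂ) g) else 0) with hS
  set RA : ℂ := ∑ g : G, (if ¬ p ∣ orderOf g then A g * conj ((χ₁ : G → ℂ) g) else 0) with hRA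
  have e1 : N * (δ χ₁ : ℂ) = (e : ℂ) * (δ χ₁ : ℂ) * S + RA := by
    rw [← hA, sum_split p]
    congr 1
    rw [hS, Finset.mul_sum]
    apply Finset.sum_congr rfl
    intro g _
    by_cases hg : p ∣ orderOf g
    · rw [if_pos hg, if_pos hg, hAsing g hg]; ring
    · rw [if_neg hg, if_neg hg, mul_zero]
  have e2 : (0 : ℂ) = (δ₀ : ℂ) * (δ χ₁ : ℂ) * S - n * (δ₀ : ℂ) * RA := by
    rw [← hY, sum_split p, sub_eq_add_neg]
    congr 1
    · rw [hS, Finset.mul_sum]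
      apply Finset.sum_congr rfl
      intro g _
      by_cases hg : p ∣ orderOf g
      · rw [if_pos hg, if_pos hg, hYsing g hg]; ring
      · rw [if_neg hg, if_neg hg, mul_zero]
    · rw [hRA, Finset.mul_sum, ← Finset.sum_neg_distrib]
      apply Finset.sum_congr rfl
      intro g _
      by_cases hg : p ∣ orderOf g
      · rw [if_neg (not_not.mpr hg), if_neg (not_not.mpr hg), mul_zero, neg_zero]
      · rw [if_pos hg, if_pos hg, hYreg g hg]; ring
  have hq : (e : ℂ) * n + 1 = (Nat.card P : ℂ) := by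
    rw [hndef]
    exact_mod_cast h.xy.cY
  have hq0 : (Nat.card P : ℂ) ≠ 0 := by
    exact_mod_cast Nat.card_pos.ne'
  have h3 : (δ₀ : ℂ) * (δ χ₁ : ℂ) * (((e : ℂ) * n + 1) * S - n * N) = 0 := by
    linear_combination (-1 : ℂ) * e2 - n * (δ₀ : ℂ) * e1
  have h4 : ((e : ℂ) * n + 1) * S - n * N = 0 := by
    have : ((e : ℂ) * n + 1) * S - n * N
        = ((δ₀ : ℂ) * (δ₀ : ℂ)) * ((δ χ₁ : ℂ) * (δ χ₁ : ℂ)) * (((e : ℂ) * n + 1) * S - n * N) := by
      rw [hd0, hd1]; ring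
    rw [this]
    linear_combination (δ₀ : ℂ) * (δ χ₁ : ℂ) * h3
  rw [eq_div_iff hq0, ← hq]
  linear_combination h4

end Cfsg.Agent.Lib.H25PIMU1a
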