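import Cfsg.Agent.Lib.Helper25PIDefs
import Cfsg.Agent.Lib.Helper78AbNil
import Cfsg.Agent.Lib.H25SCCFULIN

set_option autoImplicit false
set_option linter.unusedSectionVars false

namespace Cfsg.Agent.Lib.H25PIMU1b
open Cfsg
open Cfsg.Agent.Lib.Helper25PIDefs Cfsg.Agent.Lib.Helper80StarDefs Cfsg.Agent.Lib.Helper80StarProps
open Cfsg.Agent.Lib.Helper25StarCDefs Cfsg.Agent.Lib.Helper78MajP Cfsg.Agent.Lib.Helper80Trace
open Cfsg.Agent.Lib.Helper80Brauer
open scoped ComplexConjugate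

universe u v

variable {G : Type u} [Group G] [Fintype G] {p : ℕ} [Fact p.Prime] {M : Ideal AlgInt}
  {B : Set (IrrCharacter G)} {P : Subgroup G}
  {c : Set (IrrCharacter (Subgroup.centralizer (P : Set G)))}

open Classical in
/-- piece `MU1b` (30m).  Unfold `muP`, `nn`; `H25SCCFULIN.nF_one`, `Helper78AbNil.Fu_one`
(`Fu χ 1 = pRegularPart p χ`), unfold `classInner`, `pRegularPart`, `IsPRegular`. -/
theorem muP_one (hM : IsPModular p M) (hmax : IsMaximalBrauerPair p M B P c) {χ : IrrCharacter G}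
    (hχ : χ ∈ B) :
    muP p M P c (χ : G → ℂ) (χ : G → ℂ) 1 = (Nat.card P : ℂ) * ((Nat.card G : ℂ)⁻¹ *
      ∑ g : G, if p ∣ orderOf g then 0 else (χ : G → ℂ) g * conj ((χ : G → ℂ) g)) := by
  unfold muP nn
  rw [OneMemClass.coe_one, Cfsg.Agent.Lib.H25SCCFULIN.nF_one,
    Cfsg.Agent.Lib.Helper78AbNil.Fu_one hM hmax hχ]
  unfold classInner
  rw [Nat.cast_one, div_one]
  congr 2
  apply Finset.sum_congr rfl
  intro g _
  unfold pRegularPart IsPRegular
  by_cases hg : p ∣ orderOf g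
  · rw [if_pos hg, if_neg (not_not.2 hg), zero_mul]
  · rw [if_neg hg, if_pos hg]

end Cfsg.Agent.Lib.H25PIMU1b
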