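import Cfsg.Agent.Lib.Helper25PIDefs
import Cfsg.Agent.Lib.H25PIMU1a
import Cfsg.Agent.Lib.H25PIMU1b

set_option autoImplicit false
set_option linter.unusedSectionVars false

namespace Cfsg.Agent.Lib.H25PIMU1
open Cfsg
open Cfsg.Agent.Lib.Helper25PIDefs Cfsg.Agent.Lib.Helper80StarDefs Cfsg.Agent.Lib.Helper80StarProps
open Cfsg.Agent.Lib.Helper25StarCDefs Cfsg.Agent.Lib.Helper78MajP Cfsg.Agent.Lib.Helper80Trace
open Cfsg.Agent.Lib.Helper80Brauer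
open scoped ComplexConjugate

universe u v

variable {G : Type u} [Group G] [Fintype G] {F : Type v} [Group F] [Fintype F] {p : ℕ} [Fact p.Prime]
  {M : Ideal AlgInt} {B : Set (IrrCharacter G)} {P : Subgroup G}
  {c : Set (IrrCharacter (Subgroup.centralizer (P : Set G)))} {Q : Subgroup F} {e : ℕ}
  {X Y : Set (IrrCharacter G)} {δ : IrrCharacter G → ℤ} {δ₀ : ℤ} {σ : Q ≃* P} {χ₁ : IrrCharacter G}

/-- piece `MU1` (30m).  `H25PIMU1b.muP_one` (`χ₁ ∈ B` by `h.xy.un`), regular sum = `|G| - ` singular sum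
(`[χ₁,χ₁] = 1`), `H25PIMU1a.sing_norm`: `muP 1 = q - n`; `e n = q - 1` (`h.xy.cY`). -/
theorem mu_one (h : Ctx p M B P c Q e X Y δ δ₀ σ χ₁) :
    (e : ℂ) * muP p M P c (χ₁ : G → ℂ) (χ₁ : G → ℂ) 1
      = (e : ℂ) * (Nat.card P : ℂ) - ((Nat.card P : ℂ) - 1) := by
  classical
  have hχB : χ₁ ∈ B := by rw [h.xy.un]; exact Set.mem_union_left Y h.hχ₁
  rw [H25PIMU1b.muP_one h.hM h.hmax hχB]
  have hs := H25PIMU1a.sing_norm h
  have ho := Cfsg.Agent.Lib.Helper81Base.irr_orth χ₁ χ₁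
  rw [if_pos rfl] at ho
  have hsplit : ∑ g : G, (if p ∣ orderOf g then 0 else (χ₁ : G → ℂ) g * conj ((χ₁ : G → ℂ) g))
      = (Nat.card G : ℂ) - (Nat.card G : ℂ) * (Nat.card Y : ℂ) / (Nat.card P : ℂ) := by
    rw [← hs, ← ho, ← Finset.sum_sub_distrib]
    apply Finset.sum_congr rfl
    intro g _
    split_ifs <;> ring
  rw [hsplit]
  have hG : (Nat.card G : ℂ) ≠ 0 := Cfsg.Agent.Lib.Helper81Base.card_ne_zero
  have hP : (Nat.card P : ℂ) ≠ 0 := by exact_mod_cast Nat.card_pos.ne'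
  have hq : (e : ℂ) * (Nat.card Y : ℂ) + 1 = (Nat.card P : ℂ) := by exact_mod_cast h.xy.cY
  field_simp
  linear_combination (-1 : ℂ) * hq

end Cfsg.Agent.Lib.H25PIMU1
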