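import Cfsg.Agent.Lib.Helper25PIDefs
import Cfsg.Agent.Lib.Helper32Virt
import Cfsg.Agent.Lib.Helper25Res
import Cfsg.Agent.Lib.Helper80Transport
import Cfsg.Agent.Lib.Helper82Quot

set_option autoImplicit false
set_option linter.unusedSectionVars false

namespace Cfsg.Agent.Lib.H25PITrGen
open Cfsg
open Cfsg.Agent.Lib.Helper25PIDefs Cfsg.Agent.Lib.Helper80StarDefs Cfsg.Agent.Lib.Helper80StarProps
open Cfsg.Agent.Lib.Helper25StarCDefs Cfsg.Agent.Lib.Helper78MajP Cfsg.Agent.Lib.Helper80Trace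
open Cfsg.Agent.Lib.Helper80Brauer
open scoped ComplexConjugate

universe u v

/-- piece `TrGen` (45m).  `fun u : P => tr σ φ u = φ ∘ Subtype.val ∘ σ.symm` (`dif_pos u.2`).  A character of `F`
composed with the homomorphism `Q.subtype.comp σ.symm.toMonoidHom : P →* F` is a character of `P`
(`IsCharacter` = afforded by a representation `ρ`; use `ρ.comp`); grep `isCharacter_comp`/`IsCharacter.comp`/`restrict`
in `Helper25Res`, `Helper4Char`, `Helper82Quot`.  Generalized characters are differences. -/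
theorem tr_gen {F : Type v} [Group F] {G : Type u} [Group G] {Q : Subgroup F} {P : Subgroup G}
    (σ : Q ≃* P) {φ : F → ℂ} (hφ : IsGeneralizedCharacter F φ) :
    IsGeneralizedCharacter P (fun u : P => tr σ φ (u : G)) := by
  obtain ⟨χ, ψ, hχ, hψ, rfl⟩ := hφ
  let f : P →* F := Q.subtype.comp σ.symm.toMonoidHom
  refine ⟨χ ∘ f, ψ ∘ f, Cfsg.Agent.Lib.Helper82Quot.isCharacter_comp hχ f,
    Cfsg.Agent.Lib.Helper82Quot.isCharacter_comp hψ f, ?_⟩
  funext u
  simp only [Helper25PIDefs.tr, dif_pos u.2]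
  rfl

end Cfsg.Agent.Lib.H25PITrGen
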