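import Cfsg.Agent.Lib.Helper25PIDefs
import Cfsg.Agent.Lib.H25SCCONE
import Cfsg.Agent.Lib.H25SCCFULIN

set_option autoImplicit false
set_option linter.unusedSectionVars false

namespace Cfsg.Agent.Lib.H25PITrSt
open Cfsg
open Cfsg.Agent.Lib.Helper25PIDefs Cfsg.Agent.Lib.Helper80StarDefs Cfsg.Agent.Lib.Helper80StarProps
open Cfsg.Agent.Lib.Helper25StarCDefs Cfsg.Agent.Lib.Helper78MajP Cfsg.Agent.Lib.Helper80Trace
open Cfsg.Agent.Lib.Helper80Brauer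
open scoped ComplexConjugate

universe u v

variable {G : Type u} [Group G] [Fintype G] {F : Type v} [Group F] [Fintype F] {p : ℕ} [Fact p.Prime]
  {M : Ideal AlgInt} {B : Set (IrrCharacter G)} {P : Subgroup G}
  {c : Set (IrrCharacter (Subgroup.centralizer (P : Set G)))} {Q : Subgroup F} {e : ℕ}
  {X Y : Set (IrrCharacter G)} {δ : IrrCharacter G → ℤ} {δ₀ : ℤ} {σ : Q ≃* P} {χ₁ : IrrCharacter G}

/-- piece `TrSt` (10m): `dif_pos`. -/
theorem tr_coe (σ : Q ≃* P) (φ : F → ℂ) (v : Q) : tr σ φ ((σ v : P) : G) = φ (v : F) := by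
  unfold Helper25PIDefs.tr
  rw [dif_pos (σ v).2]
  simp

/-- piece `TrSt` (10m). -/
theorem tr_one (σ : Q ≃* P) (φ : F → ℂ) : tr σ φ (1 : G) = φ 1 := by
  have := tr_coe (G := G) σ φ 1
  simpa using this

/-- piece `TrSt` (25m): `u = σ v`, `u' = σ v'`; `h.fc` gives `y v y⁻¹ = v'`; `hφ`. -/
theorem tr_fstable (h : Ctx p M B P c Q e X Y δ δ₀ σ χ₁) {φ : F → ℂ} (hφ : IsClassFunction F φ) :
    FStable p M P c (tr σ φ) := by
  intro u hu u' hu' hfc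
  obtain ⟨v, hv⟩ := σ.surjective ⟨u, hu⟩
  obtain ⟨v', hv'⟩ := σ.surjective ⟨u', hu'⟩
  have e1 : u = ((σ v : P) : G) := by rw [hv]
  have e2 : u' = ((σ v' : P) : G) := by rw [hv']
  rw [e1, e2] at hfc ⊢
  obtain ⟨y, hy⟩ := (h.fc v v').mp hfc
  rw [tr_coe, tr_coe, ← hy, hφ]

/-- piece `TrSt` (15m): `H25SCCONE.oneP h.hM h.hmax` + `H25SCCFULIN.star_congr`. -/
theorem star_tr_one (h : Ctx p M B P c Q e X Y δ δ₀ σ χ₁) {χ : IrrCharacter G} (hχ : χ ∈ B) :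
    star p M P c (tr σ (fun _ => (1 : ℂ))) (χ : G → ℂ) = (χ : G → ℂ) := by
  refine Eq.trans ?_ (Cfsg.Agent.Lib.H25SCCONE.oneP h.hM h.hmax χ hχ)
  apply Cfsg.Agent.Lib.H25SCCFULIN.star_congr
  intro u hu
  unfold Helper25PIDefs.tr
  rw [dif_pos hu]

end Cfsg.Agent.Lib.H25PITrSt
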