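import Cfsg.Agent.Lib.Helper25PIDefs
import Cfsg.Agent.Lib.H25PITrSt
import Cfsg.Agent.Lib.H25PITrGen
import Cfsg.Agent.Lib.H25SCNMUONE
import Cfsg.Agent.Lib.Helper80StarMain

set_option autoImplicit false
set_option linter.unusedSectionVars false

namespace Cfsg.Agent.Lib.H25PIMUGen
open Cfsg
open Cfsg.Agent.Lib.Helper25PIDefs Cfsg.Agent.Lib.Helper80StarDefs Cfsg.Agent.Lib.Helper80StarProps
open Cfsg.Agent.Lib.Helper25StarCDefs Cfsg.Agent.Lib.Helper78MajP Cfsg.Agent.Lib.Helper80Trace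
open Cfsg.Agent.Lib.Helper80Brauer
open scoped ComplexConjugate

universe u v

variable {G : Type u} [Group G] [Fintype G] {F : Type v} [Group F] [Fintype F] {p : ℕ} [Fact p.Prime]
  {M : Ideal AlgInt} {B : Set (IrrCharacter G)} {P : Subgroup G}
  {c : Set (IrrCharacter (Subgroup.centralizer (P : Set G)))} {Q : Subgroup F} {e : ℕ}
  {X Y : Set (IrrCharacter G)} {δ : IrrCharacter G → ℤ} {δ₀ : ℤ} {σ : Q ≃* P} {χ₁ : IrrCharacter G}

theorem sum_dite_sub {F : Type v} [Group F] [Fintype F] (Q : Subgroup F) [Fintype Q]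
    [DecidablePred (· ∈ Q)] (f : Q → ℂ) :
    ∑ y : F, (if hy : y ∈ Q then f ⟨y, hy⟩ else 0) = ∑ v : Q, f v := by
  have h1 : ∀ y : F, (if hy : y ∈ Q then f ⟨y, hy⟩ else 0)
      = if y ∈ Q then (if hy : y ∈ Q then f ⟨y, hy⟩ else 0) else 0 := by
    intro y
    by_cases hy : y ∈ Q
    · rw [if_pos hy]
    · rw [if_neg hy, dif_neg hy]
  rw [Finset.sum_congr rfl (fun y _ => h1 y), ← Finset.sum_filter,
    Finset.sum_subtype (p := fun x => x ∈ Q) (Finset.univ.filter (fun x : F => x ∈ Q))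
      (fun x => by simp)]
  apply Finset.sum_congr rfl
  intro v _
  rw [dif_pos v.2]

/-- piece `MUGen`. -/
theorem mu_gen (h : Ctx p M B P c Q e X Y δ δ₀ σ χ₁) :
    IsGeneralizedCharacter P (fun u : P => (e : ℂ) * muP p M P c (χ₁ : G → ℂ) (χ₁ : G → ℂ) u) := by
  classical
  have := h.hM.2.1.isPrime
  have : Fintype P := Fintype.ofFinite P
  have : Fintype Q := Fintype.ofFinite Q
  have hcf : IsClassFunction G (χ₁ : G → ℂ) :=
    Cfsg.Agent.Lib.Helper4Char.IsIrrCharacter.isClassFunction χ₁.2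
  have hχ₁B : χ₁ ∈ B := by
    rw [h.xy.un]; exact Or.inl h.hχ₁
  set μ : P → ℂ := muP p M P c (χ₁ : G → ℂ) (χ₁ : G → ℂ) with hμ
  have hμFC : ∀ u u' : P, FC p M P c (u : G) (u' : G) → μ u' = μ u := by
    intro u u' hfc
    simp only [hμ]
    unfold muP nn
    rw [Cfsg.Agent.Lib.H25SCCFUCONJ.fuConjP (χ₁ : G → ℂ) hcf _ _ hfc,
      ← Cfsg.Agent.Lib.H25SCCINNER.nF_eq' hfc]
  let m : F → ℂ := fun y => if hy : y ∈ Q then (e : ℂ) * μ (σ ⟨y, hy⟩) else 0
  have hmcf : IsClassFunction F m := by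
    intro g y
    by_cases hg : g ∈ Q
    · have hg' : y * g * y⁻¹ ∈ Q := h.fr.nor y g hg
      simp only [m, dif_pos hg, dif_pos hg']
      congr 1
      apply hμFC
      exact (h.fc ⟨g, hg⟩ ⟨_, hg'⟩).mpr ⟨y, rfl⟩
    · have hg' : y * g * y⁻¹ ∉ Q := by
        intro h'
        apply hg
        have h2 := h.fr.nor y⁻¹ _ h'
        have e1 : y⁻¹ * (y * g * y⁻¹) * y⁻¹⁻¹ = g := by group
        rwa [e1] at h2
      simp only [m, dif_neg hg, dif_neg hg']
  have he0 : (e : ℂ) ≠ 0 := by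
    have h1 := h.fr.card
    have h2 : 0 < Nat.card F := Nat.card_pos
    intro h0
    have : e = 0 := by exact_mod_cast h0
    rw [this, mul_zero] at h1
    omega
  have hQP : Nat.card Q = Nat.card P := Nat.card_congr σ.toEquiv
  have hP0 : (Nat.card P : ℂ) ≠ 0 := by exact_mod_cast Nat.card_pos.ne'
  have htr : ∀ (φ : F → ℂ) (u : P), Helper25PIDefs.tr σ φ (u : G) = φ ((σ.symm u : Q) : F) := by
    intro φ u
    have := H25PITrSt.tr_coe σ φ (σ.symm u)
    rwa [MulEquiv.apply_symm_apply] at this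
  have hint : ∀ η : IrrCharacter F, ∃ z : ℤ, classInner m (η : F → ℂ) = z := by
    intro η
    have hηcf : IsClassFunction F (η : F → ℂ) :=
      Cfsg.Agent.Lib.Helper4Char.IsIrrCharacter.isClassFunction η.2
    have hst : FStable p M P c (Helper25PIDefs.tr σ (η : F → ℂ)) := H25PITrSt.tr_fstable h hηcf
    have hst1 : FStable p M P c (fun _ => (1 : ℂ)) := fun _ _ _ _ _ => rfl
    have hinner : InnerP p M P c := Cfsg.Agent.Lib.H25SCCINNER.innerP
      Cfsg.Agent.Lib.H25SCCFUCONJ.fuConjP (Cfsg.Agent.Lib.H25SCCFUORTH.fuOrthP h.hM h.hmax)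
    have hone : star p M P c (fun _ => 1) (χ₁ : G → ℂ) = (χ₁ : G → ℂ) :=
      Cfsg.Agent.Lib.H25SCCONE.oneP h.hM h.hmax χ₁ hχ₁B
    have h1 := Cfsg.Agent.Lib.H25SCCINNER.inner_eq_muP hinner hst1 hst hcf hcf
    rw [hone] at h1
    have h2 : classInner m (η : F → ℂ) = classInner (fun u : P => 1 * μ u)
        (fun u : P => Helper25PIDefs.tr σ (η : F → ℂ) (u : G)) := by
      unfold classInner
      let f : Q → ℂ := fun v : Q => (e : ℂ) * μ (σ v) * conj ((η : F → ℂ) (v : F))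
      have e1 : ∑ g : F, m g * conj ((η : F → ℂ) g)
          = ∑ y : F, (if hy : y ∈ Q then f ⟨y, hy⟩ else 0) := by
        apply Finset.sum_congr rfl
        intro y _
        by_cases hy : y ∈ Q
        · simp only [m, f, dif_pos hy]
        · simp only [m, dif_neg hy, zero_mul]
      rw [e1, sum_dite_sub Q f, ← Equiv.sum_comp σ.symm.toEquiv, h.fr.card, hQP]
      simp only [f]
      have e2 : ∀ u : P, (e : ℂ) * μ (σ (σ.symm.toEquiv u)) * conj ((η : F → ℂ) ((σ.symm.toEquiv u : Q) : F))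
          = (e : ℂ) * (1 * μ u * conj (Helper25PIDefs.tr σ (η : F → ℂ) (u : G))) := by
        intro u
        rw [htr]
        have : σ (σ.symm.toEquiv u) = u := σ.apply_symm_apply u
        rw [this]
        have h3 : (σ.symm.toEquiv u : Q) = σ.symm u := rfl
        rw [h3]
        ring
      rw [Finset.sum_congr rfl (fun u _ => e2 u), ← Finset.mul_sum]
      push_cast
      field_simp
    rw [h2, ← h1]
    apply Cfsg.Agent.Lib.Helper32Virt.gen_inner_int (Cfsg.Agent.Lib.Helper32Virt.gen_of_irr χ₁.2)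
    exact Cfsg.Agent.Lib.Helper80StarMain.starGenP h.hM h.hmax _ _ hst
      (H25PITrGen.tr_gen σ (Cfsg.Agent.Lib.Helper32Virt.gen_of_irr η.2))
      (Cfsg.Agent.Lib.Helper4Char.IsIrrCharacter.isCharacter χ₁.2)
  have hmgen := Cfsg.Agent.Lib.Helper78Solomon.isGen_of_inner_int hmcf hint
  have hfin := H25PITrGen.tr_gen σ hmgen
  have heq : (fun u : P => Helper25PIDefs.tr σ m (u : G)) = fun u : P => (e : ℂ) * μ u := by
    funext u
    rw [htr]
    simp only [m, dif_pos (σ.symm u).2]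
    rw [show (⟨((σ.symm u : Q) : F), (σ.symm u).2⟩ : Q) = σ.symm u from rfl, MulEquiv.apply_symm_apply]
  rw [heq] at hfin
  exact hfin

end Cfsg.Agent.Lib.H25PIMUGen
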