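import Cfsg.Agent.Lib.Helper25PIDefs
import Cfsg.Agent.Lib.H25PIMU1
import Cfsg.Agent.Lib.H25PIMUGen
import Cfsg.Agent.Lib.H25SCNMUONE
import Cfsg.Agent.Lib.H25SCNAMGM
import Cfsg.Agent.Lib.H25SCNCONG

set_option autoImplicit false
set_option linter.unusedSectionVars false

namespace Cfsg.Agent.Lib.H25PIMUE
open Cfsg
open Cfsg.Agent.Lib.Helper25PIDefs Cfsg.Agent.Lib.Helper80StarDefs Cfsg.Agent.Lib.Helper80StarProps
open Cfsg.Agent.Lib.Helper25StarCDefs Cfsg.Agent.Lib.Helper78MajP Cfsg.Agent.Lib.Helper80Trace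
open Cfsg.Agent.Lib.Helper80Brauer
open scoped ComplexConjugate

universe u v

variable {G : Type u} [Group G] [Fintype G] {F : Type v} [Group F] [Fintype F] {p : ℕ} [Fact p.Prime]
  {M : Ideal AlgInt} {B : Set (IrrCharacter G)} {P : Subgroup G}
  {c : Set (IrrCharacter (Subgroup.centralizer (P : Set G)))} {Q : Subgroup F} {e : ℕ}
  {X Y : Set (IrrCharacter G)} {δ : IrrCharacter G → ℤ} {δ₀ : ℤ} {σ : Q ≃* P} {χ₁ : IrrCharacter G}

open Classical in
/-- the regular character is a generalized character. -/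
theorem rho_gen {A : Type*} [Group A] [Fintype A] :
    IsGeneralizedCharacter A (fun u : A => if u = 1 then (Nat.card A : ℂ) else 0) := by
  apply Cfsg.Agent.Lib.Helper78Solomon.isGen_of_inner_int
  · intro g k
    simp only [conj_eq_one_iff]
  · intro χ
    obtain ⟨n, hn⟩ := Cfsg.Agent.Lib.Helper32Virt.gen_one_int
      (Cfsg.Agent.Lib.Helper32Virt.gen_of_irr χ.2)
    refine ⟨n, ?_⟩
    have hA : (Nat.card A : ℂ) ≠ 0 := by exact_mod_cast Nat.card_pos.ne'
    unfold classInner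
    rw [Finset.sum_eq_single 1]
    · dsimp only
      rw [if_pos rfl, hn, map_intCast]
      field_simp
    · intro b _ hb
      dsimp only
      rw [if_neg hb, zero_mul]
    · intro h1
      exact absurd (Finset.mem_univ _) h1

/-- piece `MUE` (90m).  Model: the end of the proof of `H25SCNMUONE.muP_eq_one`.
`μ u := e * muP u - (e - 1) * ρ u`, `ρ u = if u = 1 then |P| else 0` (regular character: a generalized character by
`Helper78Solomon.isGen_of_inner_int`, `[ρ, λ] = conj λ(1)` = degree).  `μ` is a generalized character (`mu_gen`, `gen_sub`,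
`gen_nsmul`), `μ 1 = 1` (`mu_one`), real `≥ 0` values (`H25SCNMUCF.muP_self_nonneg`), `μ u ≠ 0`: `H25SCNCONG.gen_sub_one_mem`
gives `μ u - 1 ∈` local ideal, and `1` is not in it.  `∑_u muP u = |P|` (as `hsum` in the model: `[χ₁,χ₁] = 1`), so
`∑ μ = e q - (e-1) q = q`.  `H25SCNAMGM.eq_one_of_sum_eq_card`: `μ u = 1`, i.e. `e * muP u = 1` for `u ≠ 1`. -/
theorem mu_eq (h : Ctx p M B P c Q e X Y δ δ₀ σ χ₁) (u : P) (hu : u ≠ 1) :
    muP p M P c (χ₁ : G → ℂ) (χ₁ : G → ℂ) u = (e : ℂ)⁻¹ := by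
  classical
  have hPr : M.IsPrime := h.hM.2.1.isPrime
  have hcf : IsClassFunction G (χ₁ : G → ℂ) :=
    Cfsg.Agent.Lib.Helper4Char.IsIrrCharacter.isClassFunction χ₁.2
  have hχB : χ₁ ∈ B := by
    rw [h.xy.un]
    exact Or.inl h.hχ₁
  have hinner : InnerP p M P c := Cfsg.Agent.Lib.H25SCCINNER.innerP
    Cfsg.Agent.Lib.H25SCCFUCONJ.fuConjP (Cfsg.Agent.Lib.H25SCCFUORTH.fuOrthP h.hM h.hmax)
  have hone : star p M P c (fun _ => 1) (χ₁ : G → ℂ) = (χ₁ : G → ℂ) :=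
    Cfsg.Agent.Lib.H25SCCONE.oneP h.hM h.hmax χ₁ hχB
  have hst1 : FStable p M P c (fun _ => (1 : ℂ)) := fun _ _ _ _ _ => rfl
  have hP : (Nat.card P : ℂ) ≠ 0 := by exact_mod_cast Nat.card_pos.ne'
  have he0 : e ≠ 0 := by
    rintro rfl
    have h1 := Nat.eq_zero_of_zero_dvd h.fr.dvd
    have h2 : 2 ≤ p := (Fact.out : p.Prime).two_le
    omega
  have he : (e : ℂ) ≠ 0 := by exact_mod_cast he0
  have hsumμ : ∑ u : P, muP p M P c (χ₁ : G → ℂ) (χ₁ : G → ℂ) u = (Nat.card P : ℂ) := by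
    have h1 := Cfsg.Agent.Lib.H25SCCINNER.inner_eq_muP hinner hst1 hst1 hcf hcf
    rw [hone, Cfsg.Agent.Lib.Helper4Char.classInner_irr_self χ₁.2] at h1
    unfold classInner at h1
    have h4 : ∑ g : P, (1 : ℂ) * muP p M P c (χ₁ : G → ℂ) (χ₁ : G → ℂ) g * conj (1 : ℂ)
        = ∑ u : P, muP p M P c (χ₁ : G → ℂ) (χ₁ : G → ℂ) u := by
      apply Finset.sum_congr rfl
      intro g _
      simp
    rw [h4] at h1
    field_simp at h1
    exact h1.symm
  obtain ⟨μ, hμ⟩ : ∃ μ : P → ℂ, μ = fun u : P =>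
      (e : ℂ) * muP p M P c (χ₁ : G → ℂ) (χ₁ : G → ℂ) u
        - ((e : ℂ) - 1) * (if u = 1 then (Nat.card P : ℂ) else 0) := ⟨_, rfl⟩
  have hμgen : IsGeneralizedCharacter P μ := by
    have h1 := Cfsg.Agent.Lib.Helper32Virt.gen_sub (H25PIMUGen.mu_gen h)
      (Cfsg.Agent.Lib.Helper32Virt.gen_nsmul (e - 1) (rho_gen (A := P)))
    convert h1 using 1
    rw [hμ]
    funext u
    rw [Pi.sub_apply, Pi.smul_apply, nsmul_eq_mul, Nat.cast_sub (Nat.one_le_iff_ne_zero.2 he0),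
      Nat.cast_one]
    by_cases hu1 : u = 1
    · rw [if_pos hu1, if_pos hu1]
    · rw [if_neg hu1, if_neg hu1]
  have hμ1 : μ 1 = 1 := by
    rw [hμ]
    show (e : ℂ) * muP p M P c (χ₁ : G → ℂ) (χ₁ : G → ℂ) 1
        - ((e : ℂ) - 1) * (if (1 : P) = 1 then (Nat.card P : ℂ) else 0) = 1
    rw [if_pos rfl, H25PIMU1.mu_one h]
    ring
  have hμu : ∀ u : P, u ≠ 1 → μ u = (e : ℂ) * muP p M P c (χ₁ : G → ℂ) (χ₁ : G → ℂ) u := by
    intro u hu
    rw [hμ]
    show (e : ℂ) * muP p M P c (χ₁ : G → ℂ) (χ₁ : G → ℂ) u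
        - ((e : ℂ) - 1) * (if u = 1 then (Nat.card P : ℂ) else 0) = _
    rw [if_neg hu, mul_zero, sub_zero]
  choose r hr0 hr using fun u : P =>
    Cfsg.Agent.Lib.H25SCNMUCF.muP_self_nonneg (p := p) (M := M) (e := c) (χ₁ : G → ℂ) u
  have hne : ∀ u : P, μ u ≠ 0 := by
    intro u hu
    have h1 := Cfsg.Agent.Lib.H25SCNCONG.gen_sub_one_mem h.hM h.hmax.1.1.1 hμgen u
    rw [hu, zero_sub, hμ1] at h1
    apply Cfsg.Agent.Lib.Helper20Local.not_memLocalIdeal_one hPr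
    have h2 := Cfsg.Agent.Lib.Helper20Local.liNeg h1
    rwa [neg_neg] at h2
  have hr' : ∀ u : P, μ u = ((if u = 1 then (1 : ℝ) else (e : ℝ) * r u : ℝ) : ℂ) := by
    intro u
    by_cases hu : u = 1
    · rw [if_pos hu, hu, hμ1]
      simp
    · rw [if_neg hu, hμu u hu, hr u]
      push_cast
      rfl
  have hpos : ∀ u : P, 0 < (if u = 1 then (1 : ℝ) else (e : ℝ) * r u) := by
    intro u
    by_cases hu : u = 1
    · rw [if_pos hu]
      exact one_pos
    · rw [if_neg hu]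
      have h1 : (0 : ℝ) ≤ (e : ℝ) * r u := mul_nonneg (Nat.cast_nonneg _) (hr0 u)
      rcases h1.lt_or_eq with h2 | h2
      · exact h2
      · exfalso
        apply hne u
        rw [hr' u, if_neg hu, ← h2]
        simp
  have hsum : ∑ u : P, (if u = 1 then (1 : ℝ) else (e : ℝ) * r u) = Nat.card P := by
    have h3 : ∑ u : P, μ u = (Nat.card P : ℂ) := by
      rw [hμ, Finset.sum_sub_distrib, ← Finset.mul_sum, ← Finset.mul_sum, hsumμ,
        Finset.sum_ite_eq' Finset.univ (1 : P) (fun _ => (Nat.card P : ℂ)),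
        if_pos (Finset.mem_univ _)]
      ring
    simp only [hr'] at h3
    exact_mod_cast h3
  have hfin := Cfsg.Agent.Lib.H25SCNAMGM.eq_one_of_sum_eq_card hμgen _ hr' hpos hsum u
  rw [hμu u hu] at hfin
  exact eq_inv_of_mul_eq_one_right hfin

end Cfsg.Agent.Lib.H25PIMUE
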