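import Cfsg.Agent.Lib.Helper25PIDefs
import Cfsg.Agent.Lib.H25PIMUE
import Cfsg.Agent.Lib.H25PITrSt
import Cfsg.Agent.Lib.H25SCCINNER
import Cfsg.Agent.Lib.H25SCCFUCONJ
import Cfsg.Agent.Lib.H25SCCFUORTH

set_option autoImplicit false
set_option linter.unusedSectionVars false

namespace Cfsg.Agent.Lib.H25PIInn
open Cfsg
open Cfsg.Agent.Lib.Helper25PIDefs Cfsg.Agent.Lib.Helper80StarDefs Cfsg.Agent.Lib.Helper80StarProps
open Cfsg.Agent.Lib.Helper25StarCDefs Cfsg.Agent.Lib.Helper78MajP Cfsg.Agent.Lib.Helper80Trace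
open Cfsg.Agent.Lib.Helper80Brauer
open scoped ComplexConjugate

universe u v

variable {G : Type u} [Group G] [Fintype G] {F : Type v} [Group F] [Fintype F] {p : ℕ} [Fact p.Prime]
  {M : Ideal AlgInt} {B : Set (IrrCharacter G)} {P : Subgroup G}
  {c : Set (IrrCharacter (Subgroup.centralizer (P : Set G)))} {Q : Subgroup F} {e : ℕ}
  {X Y : Set (IrrCharacter G)} {δ : IrrCharacter G → ℤ} {δ₀ : ℤ} {σ : Q ≃* P} {χ₁ : IrrCharacter G}

/-- piece `Inn` (45m).  `H25SCCINNER.inner_eq_muP (innerP fuConjP (fuOrthP h.hM h.hmax)) (tr_fstable h hφ) (tr_fstable h hφ') ..`: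
`= |P|⁻¹ ∑_{u : P} tr σ φ u * muP u * conj (tr σ φ' u)`; the term `u = 1` vanishes (`tr_one`, `h1`), `muP u = e⁻¹` otherwise
(`H25PIMUE.mu_eq`); reindex by `σ` (`tr_coe`), `|P| = |Q|`. -/
theorem inner_star [Fintype Q] (h : Ctx p M B P c Q e X Y δ δ₀ σ χ₁) {φ φ' : F → ℂ}
    (hφ : IsClassFunction F φ) (hφ' : IsClassFunction F φ') (h1 : φ 1 = 0) :
    classInner (star p M P c (tr σ φ) (χ₁ : G → ℂ)) (star p M P c (tr σ φ') (χ₁ : G → ℂ))
      = ((Nat.card Q : ℂ) * (e : ℂ))⁻¹ * ∑ v : Q, φ (v : F) * conj (φ' (v : F)) := by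
  classical
  have hcf : IsClassFunction G (χ₁ : G → ℂ) :=
    Cfsg.Agent.Lib.Helper4Char.IsIrrCharacter.isClassFunction χ₁.2
  have hinner : InnerP p M P c := Cfsg.Agent.Lib.H25SCCINNER.innerP
    Cfsg.Agent.Lib.H25SCCFUCONJ.fuConjP (Cfsg.Agent.Lib.H25SCCFUORTH.fuOrthP h.hM h.hmax)
  rw [Cfsg.Agent.Lib.H25SCCINNER.inner_eq_muP hinner (Cfsg.Agent.Lib.H25PITrSt.tr_fstable h hφ)
    (Cfsg.Agent.Lib.H25PITrSt.tr_fstable h hφ') hcf hcf]
  unfold classInner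
  have hcard : Nat.card Q = Nat.card P := Nat.card_congr σ.toEquiv
  have he0 : (e : ℂ) ≠ 0 := by
    have hp : p.Prime := Fact.out
    intro h0
    have h1 : e = 0 := by exact_mod_cast h0
    have h2 := h.fr.dvd
    rw [h1, zero_dvd_iff] at h2
    have := hp.one_lt
    omega
  have hP0 : (Nat.card P : ℂ) ≠ 0 := by exact_mod_cast Nat.card_pos.ne'
  rw [hcard, mul_inv, mul_assoc, Finset.mul_sum (a := (e : ℂ)⁻¹)]
  congr 1
  rw [← Equiv.sum_comp σ.toEquiv]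
  apply Finset.sum_congr rfl
  intro v _
  simp only [MulEquiv.toEquiv_eq_coe, EquivLike.coe_coe]
  rw [Cfsg.Agent.Lib.H25PITrSt.tr_coe, Cfsg.Agent.Lib.H25PITrSt.tr_coe]
  by_cases hv : v = 1
  · subst hv
    simp [h1]
  · have hσv : σ v ≠ 1 := by
      intro h2
      apply hv
      rw [← map_one σ] at h2
      exact σ.injective h2
    rw [Cfsg.Agent.Lib.H25PIMUE.mu_eq h (σ v) hσv]
    ring

end Cfsg.Agent.Lib.H25PIInn
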