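import Cfsg.Agent.Lib.Helper25PIDefs
import Cfsg.Agent.Lib.H25PIInn
import Cfsg.Agent.Lib.H25PITrSt
import Cfsg.Agent.Lib.H25PIFL2
import Cfsg.Agent.Lib.H25PITrGen
import Cfsg.Agent.Lib.H83GCGamma
import Cfsg.Agent.Lib.Helper80StarMain
import Cfsg.Agent.Lib.Helper32Virt
import Cfsg.Agent.Lib.Helper82Linear

set_option autoImplicit false
set_option linter.unusedSectionVars false

namespace Cfsg.Agent.Lib.H25PILDeg
open Cfsg
open Cfsg.Agent.Lib.Helper25PIDefs Cfsg.Agent.Lib.Helper80StarDefs Cfsg.Agent.Lib.Helper80StarProps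
open Cfsg.Agent.Lib.Helper25StarCDefs Cfsg.Agent.Lib.Helper78MajP Cfsg.Agent.Lib.Helper80Trace
open Cfsg.Agent.Lib.Helper80Brauer
open scoped ComplexConjugate

universe u v

variable {G : Type u} [Group G] [Fintype G] {F : Type v} [Group F] [Fintype F] {p : ℕ} [Fact p.Prime]
  {M : Ideal AlgInt} {B : Set (IrrCharacter G)} {P : Subgroup G}
  {c : Set (IrrCharacter (Subgroup.centralizer (P : Set G)))} {Q : Subgroup F} {e : ℕ}
  {X Y : Set (IrrCharacter G)} {δ : IrrCharacter G → ℤ} {δ₀ : ℤ} {σ : Q ≃* P} {χ₁ : IrrCharacter G}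

/-- piece `LDeg`. -/
theorem deg_eq (h : Ctx p M B P c Q e X Y δ δ₀ σ χ₁) {η : IrrCharacter F} (hη : ¬ InK Q η) :
    (η : F → ℂ) 1 = (e : ℂ) := by
  classical
  have hPr : M.IsPrime := h.hM.2.1.isPrime
  obtain ⟨n, hn0, hn⟩ := Cfsg.Agent.Lib.Helper81Base.irr_one η
  have hp : 2 ≤ p := (Fact.out : p.Prime).two_le
  have he0 : e ≠ 0 := by
    rintro rfl
    have := Nat.eq_zero_of_zero_dvd h.fr.dvd
    omega
  have hq0 : Nat.card Q ≠ 0 := Nat.card_pos.ne'
  -- the upper bound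
  have hle : n ≤ e := by
    have hcomm : ∀ a ∈ Q, ∀ b ∈ Q, a * b = b * a := by
      intro a ha b hb
      have := h.fr.cyc
      have h2 := (IsCyclic.commGroup (α := Q)).mul_comm ⟨a, ha⟩ ⟨b, hb⟩
      exact congrArg Subtype.val h2
    have h1 := Cfsg.Agent.Lib.H83GCGamma.deg_le_of_abelian Q hcomm η
    have h2 : charDegree (η : F → ℂ) = n := by
      rw [charDegree, hn]
      simp
    have h3 : Q.index = e := by
      have h4 := Q.card_mul_index
      rw [h.fr.card] at h4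
      exact Nat.eq_of_mul_eq_mul_left (Nat.pos_of_ne_zero hq0) h4
    rw [h2, h3] at h1
    exact h1
  -- the generalized character `φ = η - η(1)`
  have hone : IsGeneralizedCharacter F (fun _ => (1 : ℂ)) :=
    Cfsg.Agent.Lib.Helper32Virt.gen_of_irr Cfsg.Agent.Lib.Helper82Linear.isIrrCharacter_one
  have hφgen : IsGeneralizedCharacter F (fun y => (η : F → ℂ) y - (n : ℂ)) := by
    have := Cfsg.Agent.Lib.Helper32Virt.gen_sub (Cfsg.Agent.Lib.Helper32Virt.gen_of_irr η.2)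
      (Cfsg.Agent.Lib.Helper32Virt.gen_nsmul n hone)
    convert this using 1
    funext y
    simp
  have hφ : IsClassFunction F (fun y => (η : F → ℂ) y - (n : ℂ)) :=
    Cfsg.Agent.Lib.Helper32Virt.gen_isClassFunction hφgen
  have hφ' : IsClassFunction F (fun _ => (1 : ℂ)) := fun _ _ => rfl
  have hχB : χ₁ ∈ B := by
    rw [h.xy.un]
    exact Or.inl h.hχ₁
  have hin := Cfsg.Agent.Lib.H25PIInn.inner_star h hφ hφ' (by simp [hn])
  rw [Cfsg.Agent.Lib.H25PITrSt.star_tr_one h hχB] at hin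
  have hgen : IsGeneralizedCharacter G
      (star p M P c (tr σ (fun y => (η : F → ℂ) y - (n : ℂ))) (χ₁ : G → ℂ)) :=
    Cfsg.Agent.Lib.Helper80StarMain.starGenP h.hM h.hmax _ _
      (Cfsg.Agent.Lib.H25PITrSt.tr_fstable h hφ) (Cfsg.Agent.Lib.H25PITrGen.tr_gen σ hφgen)
      (Cfsg.Agent.Lib.Helper4Char.IsIrrCharacter.isCharacter χ₁.2)
  obtain ⟨z, hz⟩ := Cfsg.Agent.Lib.Helper32Virt.gen_inner_int hgen
    (Cfsg.Agent.Lib.Helper32Virt.gen_of_irr χ₁.2)
  rw [hz] at hin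
  have hsum : ∑ v : Q, ((η : F → ℂ) (v : F) - (n : ℂ)) * conj (1 : ℂ)
      = - ((Nat.card Q : ℂ) * n) := by
    simp only [map_one, mul_one]
    rw [Finset.sum_sub_distrib, Cfsg.Agent.Lib.H25PIFL2.sum_Q h.fr hη, Finset.sum_const,
      Finset.card_univ, ← Nat.card_eq_fintype_card]
    simp
  rw [hsum] at hin
  have hq0' : (Nat.card Q : ℂ) ≠ 0 := by exact_mod_cast hq0
  have he0' : (e : ℂ) ≠ 0 := by exact_mod_cast he0
  have h5 : (z : ℂ) * e = - (n : ℂ) := by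
    rw [hin]
    field_simp
  have h6 : z * (e : ℤ) = - (n : ℤ) := by exact_mod_cast h5
  have h7 : (e : ℤ) ∣ (n : ℤ) := ⟨-z, by linarith⟩
  have h8 : e ∣ n := by exact_mod_cast h7
  have h9 : e ≤ n := Nat.le_of_dvd hn0 h8
  rw [hn, le_antisymm hle h9]

end Cfsg.Agent.Lib.H25PILDeg
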