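import Cfsg.Agent.Lib.Helper25PIDefs
import Cfsg.Agent.Lib.H25PIFK
import Cfsg.Agent.Lib.H25PIFL1b
import Cfsg.Agent.Lib.H25PIFReg
import Cfsg.Agent.Lib.H25PISY
import Cfsg.Agent.Lib.H25PILDeg
import Cfsg.Agent.Lib.Helper84KleinE

set_option autoImplicit false
set_option linter.unusedSectionVars false

namespace Cfsg.Agent.Lib.H25PIKerR
open Cfsg
open Cfsg.Agent.Lib.Helper25PIDefs Cfsg.Agent.Lib.Helper80StarDefs Cfsg.Agent.Lib.Helper80StarProps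
open Cfsg.Agent.Lib.Helper25StarCDefs Cfsg.Agent.Lib.Helper78MajP Cfsg.Agent.Lib.Helper80Trace
open Cfsg.Agent.Lib.Helper80Brauer
open scoped ComplexConjugate

universe u v

variable {G : Type u} [Group G] [Fintype G] {F : Type v} [Group F] [Fintype F] {p : ℕ} [Fact p.Prime]
  {M : Ideal AlgInt} {B : Set (IrrCharacter G)} {P : Subgroup G}
  {c : Set (IrrCharacter (Subgroup.centralizer (P : Set G)))} {Q : Subgroup F} {e : ℕ}
  {X Y : Set (IrrCharacter G)} {δ : IrrCharacter G → ℤ} {δ₀ : ℤ} {σ : Q ≃* P} {χ₁ : IrrCharacter G}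

variable {I : IrrCharacter F → IrrCharacter G} {ε : IrrCharacter F → ℤ}

/-- piece `KerR` (75m).  `H25PIFReg.reg_iff`: `y ∉ Q` or `y = 1`.  `kernel_eq`.  For `η ∈ K`: `ε η * I η x = δ₁ χ₁ x`
(`hI.eK`, `hI.bK.mapsTo`, `h.xy.sing`).
`y ∉ Q`: `L`-part `0` (`H25PIFL1b.van_off`), `K`-part `δ₁ χ₁ x ∑_K η y = 0` (`H25PIFK.sum_K`).
`y = 1`: `K`-part `e δ₁ χ₁ x` (`sum_K` at `1`); `L`-part `-δ₀ e ∑_L I η x = -δ₀ e ∑_Y ψ x` (`deg_eq`, reindex by `hI.bL`)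
`= -δ₀ e δ₀ δ₁ χ₁ x` (`H25PISY.sum_Y`), `δ₀² = 1`. -/
theorem kernel_zero (h : Ctx p M B P c Q e X Y δ δ₀ σ χ₁)
    (hI : IsI p M B P c Q e X Y δ δ₀ σ χ₁ I ε) {x : G} (hx : p ∣ orderOf x) {y : F}
    (hy : ¬ p ∣ orderOf y) :
    signedBijectionKernel (Set.univ : Set (IrrCharacter F)) I ε x y = 0 := by
  classical
  rw [Cfsg.Agent.Lib.Helper84KleinE.kernel_eq]
  rw [Finset.sum_filter]
  simp only [Set.mem_univ, if_true]
  have hsplit : ∀ η : IrrCharacter F, (ε η : ℂ) * (I η : G → ℂ) x * (η : F → ℂ) y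
      = (if InK Q η then (δ χ₁ : ℂ) * (χ₁ : G → ℂ) x * (η : F → ℂ) y else 0)
        + (if ¬ InK Q η then -(δ₀ : ℂ) * (I η : G → ℂ) x * (η : F → ℂ) y else 0) := by
    intro η
    by_cases hη : InK Q η
    · rw [if_pos hη, if_neg (not_not.2 hη), add_zero, hI.eK η hη,
        h.xy.sing (I η) (hI.bK.mapsTo hη) χ₁ h.hχ₁ x hx]
    · rw [if_neg hη, if_pos hη, zero_add, hI.eL η hη]
      push_cast
      ring
  rw [Finset.sum_congr rfl (fun η _ => hsplit η), Finset.sum_add_distrib]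
  have hK : ∑ η : IrrCharacter F,
      (if InK Q η then (δ χ₁ : ℂ) * (χ₁ : G → ℂ) x * (η : F → ℂ) y else 0)
      = (δ χ₁ : ℂ) * (χ₁ : G → ℂ) x * (if y ∈ Q then (e : ℂ) else 0) := by
    rw [← H25PIFK.sum_K h.fr y, Finset.mul_sum]
    refine Finset.sum_congr rfl fun η _ => ?_
    split_ifs <;> simp
  rw [hK]
  rcases (H25PIFReg.reg_iff h.fr y).1 hy with hyQ | rfl
  · rw [if_neg hyQ, mul_zero, zero_add]
    refine Finset.sum_eq_zero fun η _ => ?_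
    split_ifs with hη
    · rfl
    · rw [H25PIFL1b.van_off h.fr hη hyQ, mul_zero]
  · rw [if_pos Q.one_mem]
    have hb := Cfsg.Agent.Lib.Helper84KleinE.sum_bij hI.bL (fun χ => (χ : G → ℂ) x)
    rw [Finset.sum_filter, H25PISY.sum_Y h hx] at hb
    have hL : ∑ η : IrrCharacter F,
        (if ¬ InK Q η then -(δ₀ : ℂ) * (I η : G → ℂ) x * (η : F → ℂ) 1 else 0)
        = -(δ₀ : ℂ) * (e : ℂ) * ((δ₀ : ℂ) * (δ χ₁ : ℂ) * (χ₁ : G → ℂ) x) := by
      rw [← hb, Finset.mul_sum]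
      refine Finset.sum_congr rfl fun η _ => ?_
      by_cases hη : InK Q η
      · rw [if_neg (not_not.2 hη), if_neg (by simpa using hη), mul_zero]
      · rw [if_pos hη, if_pos (by simpa using hη), H25PILDeg.deg_eq h hη]
        ring
    rw [hL]
    have h0 : (δ₀ : ℂ) * (δ₀ : ℂ) = 1 := by
      rcases h.xy.s0 with h0 | h0 <;> rw [h0] <;> norm_num
    linear_combination (-(e : ℂ) * (δ χ₁ : ℂ) * (χ₁ : G → ℂ) x) * h0

end Cfsg.Agent.Lib.H25PIKerR
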