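import Cfsg.Agent.Lib.Helper25PIDefs
import Cfsg.Agent.Lib.H25PIFK
import Cfsg.Agent.Lib.H25PIFL1a
import Cfsg.Agent.Lib.Helper4Char2

set_option autoImplicit false
set_option linter.unusedSectionVars false

namespace Cfsg.Agent.Lib.H25PIKV1
open Cfsg
open Cfsg.Agent.Lib.Helper25PIDefs Cfsg.Agent.Lib.Helper80StarDefs Cfsg.Agent.Lib.Helper80StarProps
open Cfsg.Agent.Lib.Helper25StarCDefs Cfsg.Agent.Lib.Helper78MajP Cfsg.Agent.Lib.Helper80Trace
open Cfsg.Agent.Lib.Helper80Brauer
open scoped ComplexConjugate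

universe u v

variable {F : Type v} [Group F] [Fintype F] {p : ℕ} [Fact p.Prime] {Q : Subgroup F} {e : ℕ}

theorem e_ne (h : FR p Q e) : (e : ℂ) ≠ 0 := by
  have hp : 2 ≤ p := (Fact.out : p.Prime).two_le
  have : e ≠ 0 := by
    rintro rfl
    have := Nat.eq_zero_of_zero_dvd h.dvd
    omega
  exact_mod_cast this

open Classical in
theorem sum_ind_K (h : FR p Q e) :
    ∑ η : IrrCharacter F, (if InK Q η then (1 : ℂ) else 0) = e := by
  rw [Finset.sum_boole, ← Cfsg.Agent.Lib.H25PIFK.card_K h]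
  congr 1
  exact (Nat.subtype_card _ (by simp)).symm

open Classical in
theorem sum_ind_L :
    ∑ η : IrrCharacter F, (if InK Q η then (0 : ℂ) else 1)
      = (Nat.card {η : IrrCharacter F // ¬ InK Q η} : ℂ) := by
  have : ∀ η : IrrCharacter F, (if InK Q η then (0 : ℂ) else 1) = if ¬ InK Q η then 1 else 0 := by
    intro η
    split_ifs <;> rfl
  rw [Finset.sum_congr rfl fun η _ => this η, Finset.sum_boole]
  congr 1
  exact (Nat.subtype_card _ (by simp)).symm

open Classical in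
/-- piece `KV1`. -/
theorem col_one (h : FR p Q e) (hdeg : ∀ η : IrrCharacter F, ¬ InK Q η → (η : F → ℂ) 1 = e)
    {v : F} (hv : v ∈ Q) (hv1 : v ≠ 1) :
    ∑ η : IrrCharacter F, (if InK Q η then 0 else (η : F → ℂ) v) = -1 := by
  have h0 := Cfsg.Agent.Lib.Helper4Char2.col_orth v (1 : F)
  rw [if_neg (by rw [isConj_one_left]; exact hv1)] at h0
  have h1 : ∀ η : IrrCharacter F, (η : F → ℂ) v * conj ((η : F → ℂ) 1)
      = (if InK Q η then (1 : ℂ) else 0) + e * (if InK Q η then 0 else (η : F → ℂ) v) := by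
    intro η
    split_ifs with hη
    · rw [hη v hv, Cfsg.Agent.Lib.H25PIFK.lin h hη]
      simp
    · rw [hdeg η hη, Complex.conj_natCast]
      ring
  rw [Finset.sum_congr rfl fun η _ => h1 η, Finset.sum_add_distrib, sum_ind_K h,
    ← Finset.mul_sum] at h0
  have he := e_ne h
  have : (e : ℂ) * (1 + ∑ η : IrrCharacter F, (if InK Q η then 0 else (η : F → ℂ) v)) = 0 := by
    linear_combination h0
  rcases mul_eq_zero.mp this with h2 | h2
  · exact absurd h2 he
  · linear_combination h2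

open Classical in
/-- piece `KV1`. -/
theorem col_two (h : FR p Q e) (hdeg : ∀ η : IrrCharacter F, ¬ InK Q η → (η : F → ℂ) 1 = e)
    {v w : F} (hv : v ∈ Q) (hv1 : v ≠ 1) (hw : w ∈ Q) :
    ∑ η : IrrCharacter F, (if InK Q η then 0 else (η : F → ℂ) v * ((η : F → ℂ) w - e))
      = if (∃ y : F, y * v⁻¹ * y⁻¹ = w) then (Nat.card Q : ℂ) else 0 := by
  have h0 := Cfsg.Agent.Lib.Helper4Char2.col_orth v (w⁻¹ : F)
  rw [Cfsg.Agent.Lib.H25PIFL1a.card_cen_Q h hv hv1] at h0
  have hiff : IsConj v w⁻¹ ↔ ∃ y : F, y * v⁻¹ * y⁻¹ = w := by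
    rw [isConj_iff]
    constructor
    · rintro ⟨c, hc⟩
      refine ⟨c, ?_⟩
      have := congrArg (·⁻¹) hc
      simp only [inv_inv, mul_inv_rev] at this
      rw [← this]
      group
    · rintro ⟨c, hc⟩
      refine ⟨c, ?_⟩
      rw [← hc]
      group
  rw [if_congr hiff rfl rfl] at h0
  rw [← h0]
  have h1 : ∀ η : IrrCharacter F, (η : F → ℂ) v * conj ((η : F → ℂ) w⁻¹)
      = (if InK Q η then (1 : ℂ) else 0)
        + (if InK Q η then 0 else (η : F → ℂ) v * ((η : F → ℂ) w - e))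
        + e * (if InK Q η then 0 else (η : F → ℂ) v) := by
    intro η
    rw [Cfsg.Agent.Lib.Helper81Base.irr_inv, Complex.conj_conj]
    split_ifs with hη
    · rw [hη v hv, hη w hw, Cfsg.Agent.Lib.H25PIFK.lin h hη]
      simp
    · ring
  rw [Finset.sum_congr rfl fun η _ => h1 η, Finset.sum_add_distrib, Finset.sum_add_distrib,
    sum_ind_K h, ← Finset.mul_sum, col_one h hdeg hv hv1]
  ring

/-- piece `KV1`. -/
theorem card_L (h : FR p Q e) (hdeg : ∀ η : IrrCharacter F, ¬ InK Q η → (η : F → ℂ) 1 = e) :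
    e * Nat.card {η : IrrCharacter F // ¬ InK Q η} + 1 = Nat.card Q := by
  classical
  have h0 := Cfsg.Agent.Lib.Helper4Char2.col_orth (1 : F) (1 : F)
  rw [if_pos (IsConj.refl _)] at h0
  have hc : Subgroup.centralizer ({1} : Set F) = ⊤ := by
    ext x
    simp [Subgroup.mem_centralizer_iff]
  rw [hc, Subgroup.card_top, h.card] at h0
  have h1 : ∀ η : IrrCharacter F, (η : F → ℂ) 1 * conj ((η : F → ℂ) 1)
      = (if InK Q η then (1 : ℂ) else 0) + e * e * (if InK Q η then (0 : ℂ) else 1) := by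
    intro η
    split_ifs with hη
    · rw [Cfsg.Agent.Lib.H25PIFK.lin h hη]
      simp
    · rw [hdeg η hη, Complex.conj_natCast]
      ring
  rw [Finset.sum_congr rfl fun η _ => h1 η, Finset.sum_add_distrib, sum_ind_K h,
    ← Finset.mul_sum, sum_ind_L] at h0
  have he := e_ne h
  have h2 : (e : ℂ) * ((e : ℂ) * (Nat.card {η : IrrCharacter F // ¬ InK Q η} : ℂ) + 1
      - (Nat.card Q : ℂ)) = 0 := by
    push_cast at h0
    linear_combination h0
  rcases mul_eq_zero.mp h2 with h3 | h3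
  · exact absurd h3 he
  · have h4 : ((e * Nat.card {η : IrrCharacter F // ¬ InK Q η} + 1 : ℕ) : ℂ) = (Nat.card Q : ℂ) := by
      push_cast
      linear_combination h3
    exact_mod_cast h4

end Cfsg.Agent.Lib.H25PIKV1
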