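import Cfsg.Agent.Lib.Helper25PIDefs
import Cfsg.Agent.Lib.H25SCCFULIN
import Cfsg.Agent.Lib.H25SCCFUCONJ

set_option autoImplicit false
set_option linter.unusedSectionVars false

namespace Cfsg.Agent.Lib.H25PIKV2
open Cfsg
open Cfsg.Agent.Lib.Helper25PIDefs Cfsg.Agent.Lib.Helper80StarDefs Cfsg.Agent.Lib.Helper80StarProps
open Cfsg.Agent.Lib.Helper25StarCDefs Cfsg.Agent.Lib.Helper78MajP Cfsg.Agent.Lib.Helper80Trace
open Cfsg.Agent.Lib.Helper80Brauer
open scoped ComplexConjugate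

universe u v

variable {G : Type u} [Group G] [Fintype G] {p : ℕ} {M : Ideal AlgInt} {P : Subgroup G}
  {c : Set (IrrCharacter (Subgroup.centralizer (P : Set G)))}

open Classical in
/-- piece `KV2`. -/
theorem star_ind [Fact p.Prime] (χ : G → ℂ) (hχ : IsClassFunction G χ) {u₀ : G} (hu₀ : u₀ ∈ P) (a : ℂ) :
    star p M P c (fun u => if FC p M P c u₀ u then a else 0) χ = a • Fu p M P c χ u₀ := by
  funext g
  unfold Helper80StarDefs.star
  have hpos : (nF p M P c u₀ : ℂ) ≠ 0 := by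
    exact_mod_cast (Cfsg.Agent.Lib.H25SCCFULIN.nF_pos (p := p) (M := M) (e := c) hu₀).ne'
  have h1 : ∀ u : G, (if u ∈ P then (if FC p M P c u₀ u then a else 0) / (nF p M P c u : ℂ)
        * Fu p M P c χ u g else 0)
      = if (u ∈ P ∧ FC p M P c u₀ u) then a / (nF p M P c u₀ : ℂ) * Fu p M P c χ u₀ g else 0 := by
    intro u
    by_cases hu : u ∈ P
    · by_cases hf : FC p M P c u₀ u
      · rw [if_pos hu, if_pos hf, if_pos ⟨hu, hf⟩,
          Cfsg.Agent.Lib.H25SCCFUCONJ.fuConjP χ hχ u₀ u hf,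
          ← Cfsg.Agent.Lib.H25SCCFULIN.nF_eq' hf]
      · rw [if_pos hu, if_neg hf, if_neg (fun h => hf h.2), zero_div, zero_mul]
    · rw [if_neg hu, if_neg (fun h => hu h.1)]
  rw [Finset.sum_congr rfl (fun u _ => h1 u), ← Finset.sum_filter, Finset.sum_const]
  have h2 : (Finset.univ.filter (fun u : G => u ∈ P ∧ FC p M P c u₀ u)).card = nF p M P c u₀ := by
    unfold nF
    congr
  rw [h2, nsmul_eq_mul, Pi.smul_apply, smul_eq_mul]
  field_simp

/-- piece `KV2`. -/
theorem star_sum {ι : Type*} (s : Finset ι) (a : ι → ℂ) (η : ι → G → ℂ) (χ : G → ℂ) (g : G) :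
    star p M P c (fun u => ∑ i ∈ s, a i * η i u) χ g = ∑ i ∈ s, a i * star p M P c (η i) χ g := by
  classical
  unfold Helper80StarDefs.star
  simp only [Finset.mul_sum]
  rw [Finset.sum_comm]
  apply Finset.sum_congr rfl
  intro u _
  by_cases hu : u ∈ P
  · simp only [if_pos hu]
    rw [Finset.sum_div, Finset.sum_mul]
    apply Finset.sum_congr rfl
    intro i _
    ring
  · simp only [if_neg hu, mul_zero, Finset.sum_const_zero]

/-- piece `KV2`. -/
theorem tr_sum {F : Type v} [Group F] {Q : Subgroup F} (σ : Q ≃* P) {ι : Type*} (s : Finset ι)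
    (a : ι → ℂ) (φ : ι → F → ℂ) (u : G) :
    tr σ (fun y => ∑ i ∈ s, a i * φ i y) u = ∑ i ∈ s, a i * tr σ (φ i) u := by
  classical
  unfold Helper25PIDefs.tr
  by_cases hu : u ∈ P
  · simp only [dif_pos hu]
  · simp only [dif_neg hu, mul_zero, Finset.sum_const_zero]

end Cfsg.Agent.Lib.H25PIKV2
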