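import Cfsg.Agent.Lib.Helper25PIDefs
import Cfsg.Agent.Lib.H25PIKV1
import Cfsg.Agent.Lib.H25PIKV2
import Cfsg.Agent.Lib.H25PIFK
import Cfsg.Agent.Lib.H25PILDeg
import Cfsg.Agent.Lib.H25PITrSt
import Cfsg.Agent.Lib.Helper84KleinE

set_option autoImplicit false
set_option linter.unusedSectionVars false

namespace Cfsg.Agent.Lib.H25PIKerV
open Cfsg
open Cfsg.Agent.Lib.Helper25PIDefs Cfsg.Agent.Lib.Helper80StarDefs Cfsg.Agent.Lib.Helper80StarProps
open Cfsg.Agent.Lib.Helper25StarCDefs Cfsg.Agent.Lib.Helper78MajP Cfsg.Agent.Lib.Helper80Trace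
open Cfsg.Agent.Lib.Helper80Brauer
open scoped ComplexConjugate

universe u v

variable {G : Type u} [Group G] [Fintype G] {F : Type v} [Group F] [Fintype F] {p : ℕ} [Fact p.Prime]
  {M : Ideal AlgInt} {B : Set (IrrCharacter G)} {P : Subgroup G}
  {c : Set (IrrCharacter (Subgroup.centralizer (P : Set G)))} {Q : Subgroup F} {e : ℕ}
  {X Y : Set (IrrCharacter G)} {δ : IrrCharacter G → ℤ} {δ₀ : ℤ} {σ : Q ≃* P} {χ₁ : IrrCharacter G}

variable {I : IrrCharacter F → IrrCharacter G} {ε : IrrCharacter F → ℤ}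

/-- piece `KerV` (90m, START FIRST).  `Helper84KleinE.kernel_eq`: `μ(x,v) = ∑_η ε η * I η x * η v`.
`K`-part: `η v = η 1 = 1` (`InK`, `H25PIFK.lin`), `ε η = δ (I η)` (`hI.eK`), reindex by `hI.bK`: `= AX X δ x`.
`L`-part: `hI.eL`, `hI.xi`: `-δ₀ I η x = δ₁ Xi η x + AX X δ x` (`δ₁² = 1`, `h.xy.sX`); `∑_L η v = -1` (`H25PIKV1.col_one`, `deg_eq`).
Total: `δ₁ ∑_L η v * Xi η x`.  By `H25PIKV2.star_sum`, `tr_sum`: `= δ₁ star (tr σ Π) χ₁ x`, `Π w = ∑_L η v (η w - e)`;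
on `P`: `tr σ Π (σ w) = Π w = if (∃ y, y v⁻¹ y⁻¹ = w) then q else 0` (`col_two`) `= if FC (σ v⁻¹) (σ w) then q else 0` (`h.fc`);
`H25SCCFULIN.star_congr` and `H25PIKV2.star_ind` (`u₀ = σ v⁻¹`, `a = q`). -/
theorem kernel_Q (h : Ctx p M B P c Q e X Y δ δ₀ σ χ₁) (hI : IsI p M B P c Q e X Y δ δ₀ σ χ₁ I ε)
    {v : Q} (hv : v ≠ 1) (x : G) :
    signedBijectionKernel (Set.univ : Set (IrrCharacter F)) I ε x (v : F)
      = (δ χ₁ : ℂ) * (Nat.card P : ℂ) * Fu p M P c (χ₁ : G → ℂ) ((σ v⁻¹ : P) : G) x := by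
  classical
  rw [Cfsg.Agent.Lib.Helper84KleinE.kernel_eq, Finset.sum_filter]
  simp only [Set.mem_univ, if_true]
  have hdeg : ∀ η : IrrCharacter F, ¬ InK Q η → (η : F → ℂ) 1 = e :=
    fun η hη => H25PILDeg.deg_eq h hη
  have hv1 : (v : F) ≠ 1 := fun h1 => hv (Subtype.ext h1)
  have hd1 : (δ χ₁ : ℂ) * (δ χ₁ : ℂ) = 1 := by
    rcases h.xy.sX χ₁ h.hχ₁ with h0 | h0 <;> rw [h0] <;> norm_num
  -- split
  have hsplit : ∀ η : IrrCharacter F, (ε η : ℂ) * (I η : G → ℂ) x * (η : F → ℂ) (v : F)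
      = (if η ∈ {η : IrrCharacter F | InK Q η} then (δ (I η) : ℂ) * (I η : G → ℂ) x else 0)
        + AX X δ x * (if InK Q η then 0 else (η : F → ℂ) (v : F))
        + (δ χ₁ : ℂ) * ((if InK Q η then 0 else (η : F → ℂ) (v : F))
            * star p M P c (tr σ (fun y => (η : F → ℂ) y - (e : ℂ))) (χ₁ : G → ℂ) x) := by
    intro η
    by_cases hη : InK Q η
    · rw [if_pos (by simpa using hη), if_pos hη, hI.eK η hη, hη _ v.2, H25PIFK.lin h.fr hη]
      ring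
    · rw [if_neg (by simpa using hη), if_neg hη, hI.eL η hη]
      have hxi := hI.xi η hη x
      unfold Xi at hxi
      rw [hxi]
      push_cast
      linear_combination ((AX X δ x + (δ₀ : ℂ) * (I η : G → ℂ) x) * (η : F → ℂ) (v : F)) * hd1
  rw [Finset.sum_congr rfl (fun η _ => hsplit η), Finset.sum_add_distrib, Finset.sum_add_distrib,
    ← Finset.mul_sum, ← Finset.mul_sum, H25PIKV1.col_one h.fr hdeg v.2 hv1]
  have hb := Cfsg.Agent.Lib.Helper84KleinE.sum_bij hI.bK (fun χ => (δ χ : ℂ) * (χ : G → ℂ) x)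
  rw [Finset.sum_filter] at hb
  have hK : ∑ η : IrrCharacter F,
      (if η ∈ {η : IrrCharacter F | InK Q η} then (δ (I η) : ℂ) * (I η : G → ℂ) x else 0)
      = AX X δ x := by
    unfold AX
    rw [← hb]
  rw [hK, ← H25PIKV2.star_sum]
  have hcongr : star p M P c (fun u => ∑ η : IrrCharacter F,
        (if InK Q η then 0 else (η : F → ℂ) (v : F))
          * tr σ (fun y => (η : F → ℂ) y - (e : ℂ)) u) (χ₁ : G → ℂ)
      = star p M P c (fun u => if FC p M P c ((σ v⁻¹ : P) : G) u then (Nat.card P : ℂ) else 0)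
          (χ₁ : G → ℂ) := by
    apply Cfsg.Agent.Lib.H25SCCFULIN.star_congr
    intro u hu
    obtain ⟨w, hw⟩ : ∃ w : Q, σ w = ⟨u, hu⟩ := σ.surjective _
    have huw : u = ((σ w : P) : G) := by rw [hw]
    rw [huw]
    have h1 : ∀ η : IrrCharacter F, (if InK Q η then 0 else (η : F → ℂ) (v : F))
          * tr σ (fun y => (η : F → ℂ) y - (e : ℂ)) ((σ w : P) : G)
        = if InK Q η then 0 else (η : F → ℂ) (v : F) * ((η : F → ℂ) (w : F) - e) := by
      intro η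
      rw [H25PITrSt.tr_coe]
      split_ifs
      · rw [zero_mul]
      · rfl
    rw [Finset.sum_congr rfl (fun η _ => h1 η), H25PIKV1.col_two h.fr hdeg v.2 hv1 w.2,
      Nat.card_congr σ.toEquiv]
    refine if_congr ?_ rfl rfl
    rw [h.fc v⁻¹ w]
    rfl
  rw [hcongr, H25PIKV2.star_ind (χ₁ : G → ℂ)
    (Cfsg.Agent.Lib.Helper4Char.IsCharacter.isClassFunction
      (Cfsg.Agent.Lib.Helper4Char.IsIrrCharacter.isCharacter χ₁.2)) (σ v⁻¹).2]
  rw [Pi.smul_apply, smul_eq_mul]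
  ring

end Cfsg.Agent.Lib.H25PIKerV
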