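import Cfsg.Agent.Lib.Helper25PIDefs
import Cfsg.Agent.Lib.H25PIKerV
import Cfsg.Agent.Lib.H25PIKerR
import Cfsg.Agent.Lib.H25PIFI4
import Cfsg.Agent.Lib.H25PIFReg
import Cfsg.Agent.Lib.H25PIFL1a
import Cfsg.Agent.Lib.Helper84KleinB
import Cfsg.Agent.Lib.Helper84KleinE

set_option autoImplicit false
set_option linter.unusedSectionVars false

namespace Cfsg.Agent.Lib.H25PIFin
open Cfsg
open Cfsg.Agent.Lib.Helper25PIDefs Cfsg.Agent.Lib.Helper80StarDefs Cfsg.Agent.Lib.Helper80StarProps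
open Cfsg.Agent.Lib.Helper25StarCDefs Cfsg.Agent.Lib.Helper78MajP Cfsg.Agent.Lib.Helper80Trace
open Cfsg.Agent.Lib.Helper80Brauer
open scoped ComplexConjugate

universe u v

variable {G : Type u} [Group G] [Fintype G] {F : Type v} [Group F] [Fintype F] {p : ℕ} [Fact p.Prime]
  {M : Ideal AlgInt} {B : Set (IrrCharacter G)} {P : Subgroup G}
  {c : Set (IrrCharacter (Subgroup.centralizer (P : Set G)))} {Q : Subgroup F} {e : ℕ}
  {X Y : Set (IrrCharacter G)} {δ : IrrCharacter G → ℤ} {δ₀ : ℤ} {σ : Q ≃* P} {χ₁ : IrrCharacter G}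

variable {I : IrrCharacter F → IrrCharacter G} {ε : IrrCharacter F → ℤ}

/-- piece `Fin` (90m).  Fix `x`, `y`; `μ = signedBijectionKernel univ I ε`, `kernel_eq`.
Case `y` `p`-regular, `x` `p`-singular: `kernel_zero`, `Helper84KleinE.perfect_of_zero`.
Case both regular: `Helper84KleinB.vanish_div h.hM Finset.univ I (fun η => ε η * η y)` (`hv` = `kernel_zero`; `irr_mem`) for `|C_G(x)|`;
`vanish_div` in `F` with `X := id`, `a η = ε η * I η x`, `hv`: a singular `y'` is `v ∈ Q`, `v ≠ 1` (`reg_iff`), `kernel_Q` + `fu_supp`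
(`σ v⁻¹ ≠ 1`).
Case `y` singular: `y = v ∈ Q \ 1`, `kernel_Q`: `μ = δ₁ q Fu χ₁ u x`, `u = σ v⁻¹ ∈ P`; `H25PIFI4.fu_div` (first), `|C_F(v)| = |Q| = |P|`
(`H25PIFL1a.card_cen_Q`) and `fu_int` (second); third: if `x` is regular `fu_supp` gives `μ = 0`. -/
theorem perfect (h : Ctx p M B P c Q e X Y δ δ₀ σ χ₁) (hI : IsI p M B P c Q e X Y δ δ₀ σ χ₁ I ε) :
    IsPerfectFun p M (signedBijectionKernel (Set.univ : Set (IrrCharacter F)) I ε) := by
  classical
  have hPr : M.IsPrime := h.hM.2.1.isPrime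
  have hab : ∀ a ∈ P, ∀ b ∈ P, a * b = b * a := by
    intro a ha b hb
    obtain ⟨a', ha'⟩ := σ.surjective ⟨a, ha⟩
    obtain ⟨b', hb'⟩ := σ.surjective ⟨b, hb⟩
    have hc : a' * b' = b' * a' := h.fr.cyc.isMulCommutative.is_comm.comm a' b'
    have h2 := congrArg σ hc
    rw [map_mul, map_mul, ha', hb'] at h2
    exact congrArg Subtype.val h2
  have hsum : ∀ (x : G) (y : F), signedBijectionKernel (Set.univ : Set (IrrCharacter F)) I ε x y
      = ∑ η : IrrCharacter F, (ε η : ℂ) * (I η : G → ℂ) x * (η : F → ℂ) y := by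
    intro x y
    rw [Cfsg.Agent.Lib.Helper84KleinE.kernel_eq, Finset.sum_filter]
    simp only [Set.mem_univ, if_true]
  have hsing : ∀ y : F, p ∣ orderOf y → ∃ v : Q, v ≠ 1 ∧ (v : F) = y := by
    intro y hy
    have h1 := (H25PIFReg.reg_iff h.fr y).not.1 (not_not.2 hy)
    push Not at h1
    exact ⟨⟨y, h1.1⟩, fun h2 => h1.2 (congrArg Subtype.val h2), rfl⟩
  have hσ1 : ∀ v : Q, v ≠ 1 → ((σ v⁻¹ : P) : G) ≠ 1 := by
    intro v hv h1
    apply hv
    have h2 : σ v⁻¹ = 1 := Subtype.ext h1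
    have h3 := (map_eq_one_iff σ σ.injective).1 h2
    exact inv_eq_one.1 h3
  have hz2 : ∀ (x : G) (y : F), ¬ p ∣ orderOf x → p ∣ orderOf y →
      signedBijectionKernel (Set.univ : Set (IrrCharacter F)) I ε x y = 0 := by
    intro x y hx hy
    obtain ⟨v, hv, rfl⟩ := hsing y hy
    rw [H25PIKerV.kernel_Q h hI hv x, H25PIFI4.fu_supp _ (hσ1 v hv) hx, mul_zero]
  intro x y
  by_cases hy : p ∣ orderOf y
  · by_cases hx : p ∣ orderOf x
    · obtain ⟨v, hv, rfl⟩ := hsing y hy
      have hv1 : (v : F) ≠ 1 := fun h1 => hv (Subtype.ext h1)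
      refine ⟨?_, ?_, Or.inl (iff_of_false (not_not.2 hx) (not_not.2 hy))⟩
      · rw [H25PIKerV.kernel_Q h hI hv x]
        have h1 := Cfsg.Agent.Lib.Helper81Local.memLocalRing_mul
          (Cfsg.Agent.Lib.Helper81Local.memLocalRing_intCast (M := M) (δ χ₁))
          (H25PIFI4.fu_div h.hM h.hmax hab χ₁ (σ v⁻¹).2 x)
        convert h1 using 1
        ring
      · rw [H25PIKerV.kernel_Q h hI hv x, H25PIFL1a.card_cen_Q h.fr v.2 hv1,
          Nat.card_congr σ.toEquiv]
        have h1 := Cfsg.Agent.Lib.Helper81Local.memLocalRing_mul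
          (Cfsg.Agent.Lib.Helper81Local.memLocalRing_intCast (M := M) (δ χ₁))
          (H25PIFI4.fu_int h.hM h.hmax χ₁ (σ v⁻¹).2 x)
        convert h1 using 1
        have hP : (Nat.card P : ℂ) ≠ 0 := by
          exact_mod_cast Nat.card_pos.ne'
        field_simp
    · exact Cfsg.Agent.Lib.Helper84KleinE.perfect_of_zero (hz2 x y hx hy) _ _ _
  · by_cases hx : p ∣ orderOf x
    · exact Cfsg.Agent.Lib.Helper84KleinE.perfect_of_zero
        (H25PIKerR.kernel_zero h hI hx hy) _ _ _
    · refine ⟨?_, ?_, Or.inl (iff_of_true hx hy)⟩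
      · have h1 := Cfsg.Agent.Lib.Helper84KleinB.vanish_div h.hM Finset.univ I
          (fun η => (ε η : ℂ) * (η : F → ℂ) y)
          (fun η _ => Cfsg.Agent.Lib.Helper81Local.memLocalRing_mul
            (Cfsg.Agent.Lib.Helper81Local.memLocalRing_intCast _)
            (Cfsg.Agent.Lib.Helper84KleinE.irr_mem η y))
          (fun x' hx' => by
            have h2 := H25PIKerR.kernel_zero h hI hx' hy
            rw [hsum] at h2
            rw [← h2]
            apply Finset.sum_congr rfl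
            intro η _
            ring) x
        rw [hsum]
        convert h1 using 2
        apply Finset.sum_congr rfl
        intro η _
        ring
      · have h1 := Cfsg.Agent.Lib.Helper84KleinB.vanish_div h.hM Finset.univ
          (id : IrrCharacter F → IrrCharacter F)
          (fun η => (ε η : ℂ) * (I η : G → ℂ) x)
          (fun η _ => Cfsg.Agent.Lib.Helper81Local.memLocalRing_mul
            (Cfsg.Agent.Lib.Helper81Local.memLocalRing_intCast _)
            (Cfsg.Agent.Lib.Helper84KleinE.irr_mem (I η) x))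
          (fun y' hy' => by
            have h2 := hz2 x y' hx hy'
            rw [hsum] at h2
            exact h2) y
        rw [hsum]
        exact h1

end Cfsg.Agent.Lib.H25PIFin
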