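import Cfsg.Agent.Lib.Helper25PIDefs
import Cfsg.Agent.Lib.H25PIInn
import Cfsg.Agent.Lib.H25PIFL2
import Cfsg.Agent.Lib.H25PIFL1b
import Cfsg.Agent.Lib.H25PILDeg

set_option autoImplicit false
set_option linter.unusedSectionVars false

namespace Cfsg.Agent.Lib.H25PIXiN
open Cfsg
open Cfsg.Agent.Lib.Helper25PIDefs Cfsg.Agent.Lib.Helper80StarDefs Cfsg.Agent.Lib.Helper80StarProps
open Cfsg.Agent.Lib.Helper25StarCDefs Cfsg.Agent.Lib.Helper78MajP Cfsg.Agent.Lib.Helper80Trace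
open Cfsg.Agent.Lib.Helper80Brauer
open scoped ComplexConjugate

universe u v

variable {G : Type u} [Group G] [Fintype G] {F : Type v} [Group F] [Fintype F] {p : ℕ} [Fact p.Prime]
  {M : Ideal AlgInt} {B : Set (IrrCharacter G)} {P : Subgroup G}
  {c : Set (IrrCharacter (Subgroup.centralizer (P : Set G)))} {Q : Subgroup F} {e : ℕ}
  {X Y : Set (IrrCharacter G)} {δ : IrrCharacter G → ℤ} {δ₀ : ℤ} {σ : Q ≃* P} {χ₁ : IrrCharacter G}

theorem cf_sub (η : IrrCharacter F) (a : ℂ) :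
    IsClassFunction F (fun y => (η : F → ℂ) y - a) := by
  intro g h
  have := Cfsg.Agent.Lib.Helper4Char.IsIrrCharacter.isClassFunction η.2 g h
  simp only [this]

theorem pos_e (h : Ctx p M B P c Q e X Y δ δ₀ σ χ₁) : 0 < e := by
  have hp : p.Prime := Fact.out
  exact Nat.pos_of_dvd_of_pos h.fr.dvd (by have := hp.one_lt; omega)

open Classical in
theorem sum_Q_mul [Fintype Q] (h : Ctx p M B P c Q e X Y δ δ₀ σ χ₁) {η η' : IrrCharacter F}
    (hη : ¬ InK Q η) :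
    ∑ v : Q, (η : F → ℂ) v * conj ((η' : F → ℂ) v)
      = (Nat.card Q : ℂ) * (e : ℂ) * (if η = η' then 1 else 0) := by
  have h1 : ∑ v : Q, (η : F → ℂ) v * conj ((η' : F → ℂ) v)
      = ∑ y : F, (η : F → ℂ) y * conj ((η' : F → ℂ) y) := by
    rw [← Finset.sum_subtype (Finset.univ.filter (fun y : F => y ∈ Q)) (p := fun y : F => y ∈ Q)
      (by intro x; simp) (fun y => (η : F → ℂ) y * conj ((η' : F → ℂ) y))]
    apply Finset.sum_filter_of_ne
    intro y _ hy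
    by_contra hyQ
    apply hy
    rw [H25PIFL1b.van_off h.fr hη hyQ, zero_mul]
  have hF : (Nat.card F : ℂ) = (Nat.card Q : ℂ) * (e : ℂ) := by
    rw [h.fr.card]; push_cast; ring
  have hF0 : (Nat.card F : ℂ) ≠ 0 := by
    have : 0 < Nat.card F := Nat.card_pos
    exact_mod_cast this.ne'
  have h2 : ∑ y : F, (η : F → ℂ) y * conj ((η' : F → ℂ) y)
      = (Nat.card F : ℂ) * classInner (η : F → ℂ) (η' : F → ℂ) := by
    unfold classInner
    rw [← mul_assoc, mul_inv_cancel₀ hF0, one_mul]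
  rw [h1, h2, hF]
  congr 1
  by_cases hee : η = η'
  · subst hee
    rw [if_pos rfl, Cfsg.Agent.Lib.Helper4Char.classInner_irr_self η.2]
  · rw [if_neg hee, Cfsg.Agent.Lib.Helper4Char.classInner_irr_ne η.2 η'.2
      (fun h' => hee (Subtype.ext h'))]

open Classical in
/-- piece `XiN`. -/
theorem xi_inner (h : Ctx p M B P c Q e X Y δ δ₀ σ χ₁) {η η' : IrrCharacter F} (hη : ¬ InK Q η)
    (hη' : ¬ InK Q η') :
    classInner (Xi p M P c e σ χ₁ η) (Xi p M P c e σ χ₁ η') = (e : ℂ) + if η = η' then 1 else 0 := by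
  have : Fintype Q := Fintype.ofFinite Q
  have he : (e : ℂ) ≠ 0 := by exact_mod_cast (pos_e h).ne'
  have hq : (Nat.card Q : ℂ) ≠ 0 := by
    have : 0 < Nat.card Q := Nat.card_pos
    exact_mod_cast this.ne'
  unfold Xi
  rw [H25PIInn.inner_star h (cf_sub η e) (cf_sub η' e) (by rw [H25PILDeg.deg_eq h hη, sub_self])]
  have h1 : ∑ v : Q, ((η : F → ℂ) v - (e : ℂ)) * conj ((η' : F → ℂ) v - (e : ℂ))
      = ∑ v : Q, (η : F → ℂ) v * conj ((η' : F → ℂ) v) - (e : ℂ) * ∑ v : Q, (η : F → ℂ) v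
        - (e : ℂ) * conj (∑ v : Q, (η' : F → ℂ) v) + (Nat.card Q : ℂ) * ((e : ℂ) * (e : ℂ)) := by
    rw [map_sum, Finset.mul_sum, Finset.mul_sum, ← Finset.sum_sub_distrib,
      ← Finset.sum_sub_distrib]
    have : (Nat.card Q : ℂ) * ((e : ℂ) * (e : ℂ)) = ∑ _v : Q, ((e : ℂ) * (e : ℂ)) := by
      rw [Finset.sum_const, Finset.card_univ, Nat.card_eq_fintype_card, nsmul_eq_mul]
    rw [this, ← Finset.sum_add_distrib]
    apply Finset.sum_congr rfl
    intro v _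
    rw [map_sub, Complex.conj_natCast]
    ring
  rw [h1, sum_Q_mul h hη, H25PIFL2.sum_Q h.fr hη, H25PIFL2.sum_Q h.fr hη', map_zero]
  field_simp
  ring

/-- piece `XiN`. -/
theorem xi_chi (h : Ctx p M B P c Q e X Y δ δ₀ σ χ₁) {η : IrrCharacter F} (hη : ¬ InK Q η) :
    classInner (Xi p M P c e σ χ₁ η) (χ₁ : G → ℂ) = -1 := by
  have : Fintype Q := Fintype.ofFinite Q
  have he : (e : ℂ) ≠ 0 := by exact_mod_cast (pos_e h).ne'
  have hq : (Nat.card Q : ℂ) ≠ 0 := by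
    have : 0 < Nat.card Q := Nat.card_pos
    exact_mod_cast this.ne'
  have hB : χ₁ ∈ B := by rw [h.xy.un]; exact Or.inl h.hχ₁
  have h0 := H25PITrSt.star_tr_one h hB
  have h1 : classInner (Xi p M P c e σ χ₁ η) (χ₁ : G → ℂ)
      = classInner (star p M P c (tr σ (fun y => (η : F → ℂ) y - (e : ℂ))) (χ₁ : G → ℂ))
          (star p M P c (tr σ (fun _ => (1 : ℂ))) (χ₁ : G → ℂ)) := by
    rw [h0]; rfl
  rw [h1, H25PIInn.inner_star h (cf_sub η e) (fun _ _ => rfl)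
    (by rw [H25PILDeg.deg_eq h hη, sub_self])]
  have h2 : ∑ v : Q, ((η : F → ℂ) v - (e : ℂ)) * conj (1 : ℂ)
      = ∑ v : Q, (η : F → ℂ) v - (Nat.card Q : ℂ) * (e : ℂ) := by
    have : (Nat.card Q : ℂ) * (e : ℂ) = ∑ _v : Q, (e : ℂ) := by
      rw [Finset.sum_const, Finset.card_univ, Nat.card_eq_fintype_card, nsmul_eq_mul]
    rw [this, ← Finset.sum_sub_distrib]
    apply Finset.sum_congr rfl
    intro v _
    rw [map_one, mul_one]
  rw [h2, H25PIFL2.sum_Q h.fr hη]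
  field_simp
  ring

end Cfsg.Agent.Lib.H25PIXiN
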