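import Cfsg.Agent.Lib.Helper25PIDefs
import Cfsg.Agent.Lib.H25PIXiY
import Cfsg.Agent.Lib.H25PIXiN
import Cfsg.Agent.Lib.H25PIKV1
import Cfsg.Agent.Lib.H25PIFK
import Cfsg.Agent.Lib.H25PILDeg

set_option autoImplicit false
set_option linter.unusedSectionVars false

namespace Cfsg.Agent.Lib.H25PIIMap
open Cfsg
open Cfsg.Agent.Lib.Helper25PIDefs Cfsg.Agent.Lib.Helper80StarDefs Cfsg.Agent.Lib.Helper80StarProps
open Cfsg.Agent.Lib.Helper25StarCDefs Cfsg.Agent.Lib.Helper78MajP Cfsg.Agent.Lib.Helper80Trace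
open Cfsg.Agent.Lib.Helper80Brauer
open scoped ComplexConjugate

universe u v

variable {G : Type u} [Group G] [Fintype G] {F : Type v} [Group F] [Fintype F] {p : ℕ} [Fact p.Prime]
  {M : Ideal AlgInt} {B : Set (IrrCharacter G)} {P : Subgroup G}
  {c : Set (IrrCharacter (Subgroup.centralizer (P : Set G)))} {Q : Subgroup F} {e : ℕ}
  {X Y : Set (IrrCharacter G)} {δ : IrrCharacter G → ℤ} {δ₀ : ℤ} {σ : Q ≃* P} {χ₁ : IrrCharacter G}

/-- piece `IMap`. -/
theorem exists_I (h : Ctx p M B P c Q e X Y δ δ₀ σ χ₁) :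
    ∃ (I : IrrCharacter F → IrrCharacter G) (ε : IrrCharacter F → ℤ),
      IsI p M B P c Q e X Y δ δ₀ σ χ₁ I ε := by
  classical
  have hdeg : ∀ η : IrrCharacter F, ¬ InK Q η → (η : F → ℂ) 1 = e :=
    fun η hη => H25PILDeg.deg_eq h hη
  have he : 0 < e := by
    rcases Nat.eq_zero_or_pos e with h0 | h0
    · exfalso
      have h1 := h.fr.dvd
      rw [h0, zero_dvd_iff] at h1
      have := (Fact.out : p.Prime).two_le
      omega
    · exact h0
  let ζ : IrrCharacter F → IrrCharacter G :=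
    fun η => if hη : ¬ InK Q η then (H25PIXiY.exists_psi h hη).choose else χ₁
  have hζ : ∀ η, ¬ InK Q η → ζ η ∈ Y ∧ ∀ g : G, Xi p M P c e σ χ₁ η g
      = -(δ χ₁ : ℂ) * (AX X δ g + (δ₀ : ℂ) * (ζ η : G → ℂ) g) := by
    intro η hη
    have : ζ η = (H25PIXiY.exists_psi h hη).choose := dif_pos hη
    rw [this]
    exact (H25PIXiY.exists_psi h hη).choose_spec
  have hinj : Set.InjOn ζ {η | ¬ InK Q η} := by
    intro η hη η' hη' hEq
    have hX : Xi p M P c e σ χ₁ η = Xi p M P c e σ χ₁ η' := by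
      funext g
      rw [(hζ η hη).2 g, (hζ η' hη').2 g, hEq]
    have h1 := H25PIXiN.xi_inner h hη hη'
    have h2 := H25PIXiN.xi_inner h hη' hη'
    rw [hX, h2, if_pos rfl] at h1
    by_contra hne
    rw [if_neg hne] at h1
    have : (1 : ℂ) = 0 := add_left_cancel h1
    exact one_ne_zero this
  have hcardL : ({η | ¬ InK Q η} : Set (IrrCharacter F)).ncard = Y.ncard := by
    have h1 := H25PIKV1.card_L h.fr hdeg
    have h2 := h.xy.cY
    have h3 : Nat.card Q = Nat.card P := Nat.card_congr σ.toEquiv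
    have h4 : Nat.card {η : IrrCharacter F // ¬ InK Q η}
        = ({η | ¬ InK Q η} : Set (IrrCharacter F)).ncard := Nat.card_coe_set_eq _
    have h5 : Nat.card Y = Y.ncard := Nat.card_coe_set_eq _
    rw [h4] at h1
    rw [h5] at h2
    have h6 : e * ({η | ¬ InK Q η} : Set (IrrCharacter F)).ncard = e * Y.ncard := by omega
    exact Nat.eq_of_mul_eq_mul_left he h6
  have himg : ζ '' {η | ¬ InK Q η} = Y := by
    apply Set.eq_of_subset_of_ncard_le _ _ (Set.toFinite _)
    · rintro _ ⟨η, hη, rfl⟩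
      exact (hζ η hη).1
    · rw [hinj.ncard_image, hcardL]
  have hζb : Set.BijOn ζ {η | ¬ InK Q η} Y :=
    ⟨fun η hη => (hζ η hη).1, hinj, himg.symm.subset⟩
  have : Nonempty (IrrCharacter G) := ⟨χ₁⟩
  obtain ⟨κ, hκ⟩ : ∃ κ : IrrCharacter F → IrrCharacter G, Set.BijOn κ {η | InK Q η} X := by
    apply Set.Finite.exists_bijOn_of_encard_eq (Set.toFinite _)
    rw [← (Set.toFinite ({η | InK Q η} : Set (IrrCharacter F))).cast_ncard_eq,
      ← (Set.toFinite X).cast_ncard_eq, ← Nat.card_coe_set_eq, ← Nat.card_coe_set_eq, h.xy.cX]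
    have := H25PIFK.card_K h.fr
    exact congrArg _ this
  let I : IrrCharacter F → IrrCharacter G := fun η => if InK Q η then κ η else ζ η
  have hIK : Set.EqOn κ I {η | InK Q η} := fun η hη => (if_pos hη).symm
  have hIL : Set.EqOn ζ I {η | ¬ InK Q η} := fun η hη => (if_neg hη).symm
  have bK : Set.BijOn I {η | InK Q η} X := hκ.congr hIK
  have bL : Set.BijOn I {η | ¬ InK Q η} Y := hζb.congr hIL
  refine ⟨I, fun η => if InK Q η then δ (I η) else -δ₀, ?_, bK, bL, fun η hη => if_pos hη,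
    fun η hη => if_neg hη, ?_⟩
  · have hu : (Set.univ : Set (IrrCharacter F)) = {η | InK Q η} ∪ {η | ¬ InK Q η} := by
      ext η
      simp [em]
    rw [hu, h.xy.un]
    apply bK.union bL
    have hd : Disjoint {η : IrrCharacter F | InK Q η} {η | ¬ InK Q η} := by
      rw [Set.disjoint_left]
      intro η h1 h2
      exact h2 h1
    rw [Set.injOn_union hd]
    refine ⟨bK.injOn, bL.injOn, fun a ha b hb hab => ?_⟩
    exact Set.disjoint_left.1 h.xy.dis (bK.mapsTo ha) (hab ▸ bL.mapsTo hb)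
  · intro η hη g
    have : I η = ζ η := if_neg hη
    rw [this]
    exact (hζ η hη).2 g

end Cfsg.Agent.Lib.H25PIIMap
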