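import Cfsg.Agent.Lib.Helper25PIDefs
import Cfsg.Agent.Lib.H25PITrSt
import Cfsg.Agent.Lib.H25PITrGen
import Cfsg.Agent.Lib.H25PILDeg
import Cfsg.Agent.Lib.H25SCCREG
import Cfsg.Agent.Lib.H25SCCOUT
import Cfsg.Agent.Lib.H25SCCINNER1
import Cfsg.Agent.Lib.H25SCCFUSA
import Cfsg.Agent.Lib.Helper80StarMain

set_option autoImplicit false
set_option linter.unusedSectionVars false

namespace Cfsg.Agent.Lib.H25PIXiB
open Cfsg
open Cfsg.Agent.Lib.Helper25PIDefs Cfsg.Agent.Lib.Helper80StarDefs Cfsg.Agent.Lib.Helper80StarProps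
open Cfsg.Agent.Lib.Helper25StarCDefs Cfsg.Agent.Lib.Helper78MajP Cfsg.Agent.Lib.Helper80Trace
open Cfsg.Agent.Lib.Helper80Brauer
open scoped ComplexConjugate

universe u v

variable {G : Type u} [Group G] [Fintype G] {F : Type v} [Group F] [Fintype F] {p : ℕ} [Fact p.Prime]
  {M : Ideal AlgInt} {B : Set (IrrCharacter G)} {P : Subgroup G}
  {c : Set (IrrCharacter (Subgroup.centralizer (P : Set G)))} {Q : Subgroup F} {e : ℕ}
  {X Y : Set (IrrCharacter G)} {δ : IrrCharacter G → ℤ} {δ₀ : ℤ} {σ : Q ≃* P} {χ₁ : IrrCharacter G}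

/-- a constant natural number is a character (trivial representation). -/
theorem isCharacter_const (H : Type*) [Group H] (m : ℕ) : IsCharacter H (fun _ => (m : ℂ)) := by
  refine ⟨m, 1, ?_⟩
  funext g
  show LinearMap.trace ℂ (Fin m → ℂ) ((1 : Representation ℂ H (Fin m → ℂ)) g) = (m : ℂ)
  rw [MonoidHom.one_apply, LinearMap.trace_one, Module.finrank_fin_fun]

theorem gen_sub (η : IrrCharacter F) (e : ℕ) :
    IsGeneralizedCharacter F (fun y => (η : F → ℂ) y - (e : ℂ)) :=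
  ⟨(η : F → ℂ), fun _ => (e : ℂ), Cfsg.Agent.Lib.Helper83Char.isCharacter_of_irr η.2,
    isCharacter_const F e, rfl⟩

theorem class_sub (η : IrrCharacter F) (e : ℕ) :
    IsClassFunction F (fun y => (η : F → ℂ) y - (e : ℂ)) := by
  intro g x
  show (η : F → ℂ) (x * g * x⁻¹) - (e : ℂ) = (η : F → ℂ) g - (e : ℂ)
  rw [Cfsg.Agent.Lib.Helper83Char.irr_class η.2 g x]

/-- piece `XiB`: `starGenP`, `tr_fstable`, `tr_gen` (`η - e` is a generalized character of `F`). -/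
theorem xi_gen (h : Ctx p M B P c Q e X Y δ δ₀ σ χ₁) (η : IrrCharacter F) :
    IsGeneralizedCharacter G (Xi p M P c e σ χ₁ η) := by
  unfold Xi
  haveI := h.hM.2.1.isPrime
  exact Cfsg.Agent.Lib.Helper80StarMain.starGenP h.hM h.hmax _ _
    (H25PITrSt.tr_fstable h (class_sub η e)) (H25PITrGen.tr_gen σ (gen_sub η e))
    (Cfsg.Agent.Lib.Helper83Char.isCharacter_of_irr χ₁.2)

/-- piece `XiB`: `H25SCCREG.regP h.hM h.hmax`, `tr_one`, `deg_eq`. -/
theorem xi_reg (h : Ctx p M B P c Q e X Y δ δ₀ σ χ₁) {η : IrrCharacter F} (hη : ¬ InK Q η) {g : G}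
    (hg : ¬ p ∣ orderOf g) : Xi p M P c e σ χ₁ η g = 0 := by
  unfold Xi
  have hχB : χ₁ ∈ B := by
    rw [h.xy.un]; exact Or.inl h.hχ₁
  rw [H25SCCREG.regP h.hM h.hmax _ χ₁ hχB g hg, H25PITrSt.tr_one, H25PILDeg.deg_eq h hη, sub_self,
    zero_mul]

/-- piece `XiB`: `H25SCCINNER1.inner1 (fuSAP h.hM h.hmax)`; `Fu χ u = 0` (`H25SCCOUT.outP`). -/
theorem xi_out (h : Ctx p M B P c Q e X Y δ δ₀ σ χ₁) (η : IrrCharacter F) {χ : IrrCharacter G}
    (hχ : χ ∉ B) : classInner (Xi p M P c e σ χ₁ η) (χ : G → ℂ) = 0 := by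
  classical
  unfold Xi
  rw [H25SCCINNER1.inner1 (H25SCCFUSA.fuSAP h.hM h.hmax) _
    (Cfsg.Agent.Lib.Helper83Char.irr_class χ₁.2) (Cfsg.Agent.Lib.Helper83Char.irr_class χ.2)]
  apply Finset.sum_eq_zero
  intro u _
  split_ifs with hu
  · unfold nn
    rw [H25SCCOUT.outP h.hM h.hmax χ hχ u hu]
    have : classInner (Fu p M P c (χ₁ : G → ℂ) u) (0 : G → ℂ) = 0 := by
      simp [classInner]
    rw [this, mul_zero]
  · rfl

end Cfsg.Agent.Lib.H25PIXiB
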