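import Cfsg.Agent.Lib.Helper25PIDefs
import Cfsg.Agent.Lib.H25PIXiN
import Cfsg.Agent.Lib.H25PIXiB

set_option autoImplicit false
set_option linter.unusedSectionVars false

namespace Cfsg.Agent.Lib.H25PIXiX
open Cfsg
open Cfsg.Agent.Lib.Helper25PIDefs Cfsg.Agent.Lib.Helper80StarDefs Cfsg.Agent.Lib.Helper80StarProps
open Cfsg.Agent.Lib.Helper25StarCDefs Cfsg.Agent.Lib.Helper78MajP Cfsg.Agent.Lib.Helper80Trace
open Cfsg.Agent.Lib.Helper80Brauer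
open scoped ComplexConjugate

universe u v

variable {G : Type u} [Group G] [Fintype G] {F : Type v} [Group F] [Fintype F] {p : ℕ} [Fact p.Prime]
  {M : Ideal AlgInt} {B : Set (IrrCharacter G)} {P : Subgroup G}
  {c : Set (IrrCharacter (Subgroup.centralizer (P : Set G)))} {Q : Subgroup F} {e : ℕ}
  {X Y : Set (IrrCharacter G)} {δ : IrrCharacter G → ℤ} {δ₀ : ℤ} {σ : Q ≃* P} {χ₁ : IrrCharacter G}

/-- piece `XiX` (45m).  `[Ξ, χ] = |G|⁻¹ ∑_g Ξ(g) conj χ(g)`; the regular `g` do not contribute (`xi_reg`); for singular `g`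
`χ(g) = δ_χ δ₁ χ₁(g)` (`h.xy.sing`, `δ_χ² = 1`); so `[Ξ, χ] = δ_χ δ₁ [Ξ, χ₁] = - δ_χ δ₁` (`xi_chi`). -/
theorem xi_X (h : Ctx p M B P c Q e X Y δ δ₀ σ χ₁) {η : IrrCharacter F} (hη : ¬ InK Q η)
    {χ : IrrCharacter G} (hχ : χ ∈ X) :
    classInner (Xi p M P c e σ χ₁ η) (χ : G → ℂ) = -((δ χ : ℂ) * (δ χ₁ : ℂ)) := by
  classical
  have hs := Cfsg.Agent.Lib.H25PIXiN.xi_chi h hη
  unfold classInner at hs ⊢
  have hδ : (δ χ : ℂ) * (δ χ : ℂ) = 1 := by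
    rcases h.xy.sX χ hχ with h1 | h1 <;> rw [h1] <;> norm_num
  have key : ∀ g : G, Xi p M P c e σ χ₁ η g * conj ((χ : G → ℂ) g)
      = (δ χ : ℂ) * (δ χ₁ : ℂ) * (Xi p M P c e σ χ₁ η g * conj ((χ₁ : G → ℂ) g)) := by
    intro g
    by_cases hg : p ∣ orderOf g
    · have h1 := h.xy.sing χ hχ χ₁ h.hχ₁ g hg
      have h2 : (χ : G → ℂ) g = (δ χ : ℂ) * (δ χ₁ : ℂ) * (χ₁ : G → ℂ) g := by
        calc (χ : G → ℂ) g = ((δ χ : ℂ) * (δ χ : ℂ)) * (χ : G → ℂ) g := by rw [hδ, one_mul]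
          _ = (δ χ : ℂ) * ((δ χ : ℂ) * (χ : G → ℂ) g) := by ring
          _ = (δ χ : ℂ) * ((δ χ₁ : ℂ) * (χ₁ : G → ℂ) g) := by rw [h1]
          _ = _ := by ring
      rw [h2]
      simp only [map_mul, map_intCast]
      ring
    · rw [Cfsg.Agent.Lib.H25PIXiB.xi_reg h hη hg]
      simp
  rw [Finset.sum_congr rfl (fun g _ => key g), ← Finset.mul_sum]
  calc (Nat.card G : ℂ)⁻¹ * ((δ χ : ℂ) * (δ χ₁ : ℂ) *
        ∑ g : G, Xi p M P c e σ χ₁ η g * conj ((χ₁ : G → ℂ) g))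
      = (δ χ : ℂ) * (δ χ₁ : ℂ) * ((Nat.card G : ℂ)⁻¹ *
        ∑ g : G, Xi p M P c e σ χ₁ η g * conj ((χ₁ : G → ℂ) g)) := by ring
    _ = _ := by rw [hs]; ring

end Cfsg.Agent.Lib.H25PIXiX
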