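import Cfsg.Agent.Lib.Helper25StarCDefs
import Cfsg.Agent.Lib.Helper78StarLOCVAL
import Cfsg.Agent.Lib.Helper78AbNil


set_option autoImplicit false
set_option linter.unusedSectionVars false

namespace Cfsg.Agent.Lib.H25SCCMAJ

open Cfsg
open Cfsg.Agent.Lib.Helper81Local Cfsg.Agent.Lib.Helper80Brauer Cfsg.Agent.Lib.Helper78MajP
open Cfsg.Agent.Lib.Helper80StarDefs Cfsg.Agent.Lib.Helper80StarProps
open Cfsg.Agent.Lib.Helper25StarCDefs
open Cfsg.Agent.Lib.Helper80Conj Cfsg.Agent.Lib.Helper78Sec Cfsg.Agent.Lib.Helper78Sub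
open Cfsg.Agent.Lib.Helper4Char

open scoped ComplexConjugate

variable {p : ℕ} [Fact p.Prime] {M : Ideal AlgInt} {G : Type*} [Group G] [Fintype G]
  {B : Set (IrrCharacter G)} {P : Subgroup G}
  {e : Set (IrrCharacter (Subgroup.centralizer (P : Set G)))}

theorem majorP (hM : IsPModular p M) (hmax : IsMaximalBrauerPair p M B P e) :
    MajorP p M B P e := by
  intro χ hχ u hu h0
  have h1 := classInner_Fu_Fu hM hmax hu χ χ
  rw [mu_self hM hmax hu χ, h0, classInner_zero_left] at h1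
  have h2 := mr_pos hM hmax hu hχ
  have h3 : mr p M P e χ u = 0 := by exact_mod_cast h1.symm
  exact h2.ne' h3

end Cfsg.Agent.Lib.H25SCCMAJ
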