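import Cfsg.Agent.Lib.H25SMDefs
import Cfsg.Agent.S2540

/-! Project 2086 (S2086, Schur multiplier of PSL_n(q)), piece CEN.  Overview: notes/helper25/SM.md -/

set_option autoImplicit false
set_option linter.unusedSectionVars false
set_option linter.unusedVariables false

namespace Cfsg.Agent.Lib.H25SMCEN

open Matrix Cfsg Cfsg.Agent.Lib.Helper43R1 Cfsg.Agent.Lib.Helper43St Cfsg.Agent.Lib.H25SMDefs
open scoped commutatorElement

variable {K : Type*} [Field K] [Fintype K]

/-- `Cfsg.Agent.S2540.commutator_eq_top_of_card`; `QuotientGroup.ker_mk'`. -/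
theorem psl_stem (n : ℕ) (hn : 2 ≤ n) (hex : ¬ (n = 2 ∧ Fintype.card K ≤ 3)) :
    IsStemExtension (QuotientGroup.mk' (Subgroup.center (SpecialLinearGroup (Fin n) K))) := by
  refine ⟨QuotientGroup.mk'_surjective _, ?_, ?_⟩
  · rw [QuotientGroup.ker_mk']
  · rw [Cfsg.Agent.S2540.commutator_eq_top_of_card hn hex]
    exact le_top

/-- `Matrix.SpecialLinearGroup.center_equiv_rootsOfUnity`; `rootsOfUnity n K` is the kernel of `x ↦ x ^ n` on the cyclic group `Kˣ` of order `q - 1`, so it is
cyclic of order `gcd(n, q - 1)` (`IsCyclic.card_powMonoidHom_ker`-like lemmas, or count with a generator); `zmodCyclicMulEquiv` / `mulEquivOfCyclicCardEq`. -/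
theorem ker_equiv (n : ℕ) (hn : 1 ≤ n) :
    Nonempty ((QuotientGroup.mk' (Subgroup.center (SpecialLinearGroup (Fin n) K))).ker ≃*
      Multiplicative (ZMod (Nat.gcd n (Fintype.card K - 1)))) := by
  classical
  have e1 : (QuotientGroup.mk' (Subgroup.center (SpecialLinearGroup (Fin n) K))).ker ≃*
      Subgroup.center (SpecialLinearGroup (Fin n) K) :=
    MulEquiv.subgroupCongr (QuotientGroup.ker_mk' _)
  have e2 : Subgroup.center (SpecialLinearGroup (Fin n) K) ≃* rootsOfUnity n K := by
    have e := Matrix.SpecialLinearGroup.center_equiv_rootsOfUnity' (R := K) (⟨0, hn⟩ : Fin n)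
    rw [Fintype.card_fin] at e
    exact e
  have hcard : Nat.card (rootsOfUnity n K) = Nat.gcd n (Fintype.card K - 1) := by
    rw [rootsOfUnity_eq_ker, IsCyclic.card_powMonoidHom_ker, Nat.card_eq_fintype_card,
      Fintype.card_units, Nat.gcd_comm]
  haveI : IsCyclic (rootsOfUnity n K) := inferInstance
  have e3 := zmodCyclicMulEquiv (G := rootsOfUnity n K) inferInstance
  rw [hcard] at e3
  exact ⟨(e1.trans e2).trans e3.symm⟩

end Cfsg.Agent.Lib.H25SMCEN
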