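import Cfsg.Agent.Lib.H25SMDefs

/-! Project 2086 (S2086, Schur multiplier of PSL_n(q)), piece DIAG.  Overview: notes/helper25/SM.md -/

set_option autoImplicit false
set_option linter.unusedSectionVars false
set_option linter.unusedVariables false

namespace Cfsg.Agent.Lib.H25SMDIAG

open Matrix Cfsg Cfsg.Agent.Lib.Helper43R1 Cfsg.Agent.Lib.Helper43St Cfsg.Agent.Lib.H25SMDefs
open scoped commutatorElement

variable {n : ℕ} {K : Type*} [Field K]

theorem dg_val (v : Fin n → K) (hv : ∏ i, v i = 1) :
    ((dg v : SpecialLinearGroup (Fin n) K) : Matrix (Fin n) (Fin n) K) = Matrix.diagonal v := by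
  have : (dg v : SpecialLinearGroup (Fin n) K) = ⟨Matrix.diagonal v, by rw [Matrix.det_diagonal, hv]⟩ := by
    unfold dg
    exact dif_pos hv
  rw [this]

theorem ne_zero_of_prod (v : Fin n → K) (hv : ∏ i, v i = 1) (i : Fin n) : v i ≠ 0 := by
  intro h0
  have : ∏ i, v i = 0 := Finset.prod_eq_zero (Finset.mem_univ i) h0
  rw [hv] at this
  exact one_ne_zero this

/-- prove `dg v * tv i j t = tv i j (..) * dg v` entrywise (`tv_val`, `dg_val`, `Matrix.diagonal_mul`, `Matrix.mul_diagonal`). -/
theorem dg_conj (v : Fin n → K) (hv : ∏ i, v i = 1) (i j : Fin n) (hij : i ≠ j) (t : K) :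
    dg v * tv i j t * (dg v)⁻¹ = tv i j (v i * (v j)⁻¹ * t) := by
  rw [mul_inv_eq_iff_eq_mul]
  suffices key : ((dg v * tv i j t : SpecialLinearGroup (Fin n) K) : Matrix (Fin n) (Fin n) K) =
    ((tv i j (v i * (v j)⁻¹ * t) * dg v : SpecialLinearGroup (Fin n) K) : Matrix (Fin n) (Fin n) K) from
    Subtype.ext key
  rw [Matrix.SpecialLinearGroup.coe_mul, Matrix.SpecialLinearGroup.coe_mul, dg_val v hv, tv_val i j hij,
    tv_val i j hij]
  have hj := ne_zero_of_prod v hv j
  ext a b
  rw [Matrix.diagonal_mul, Matrix.mul_diagonal]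
  simp only [Matrix.add_apply, Matrix.one_apply, Matrix.single_apply]
  by_cases hab : a = b
  · subst hab
    by_cases h1 : i = a ∧ j = a
    · exact absurd (h1.1.trans h1.2.symm) hij
    · simp [h1, mul_comm]
  · by_cases h1 : i = a ∧ j = b
    · obtain ⟨rfl, rfl⟩ := h1
      simp [hab]
      field_simp
    · simp [hab, h1]

theorem dg_comm (v w : Fin n → K) : Commute (dg v) (dg w) := by
  by_cases hv : ∏ i, v i = 1
  · by_cases hw : ∏ i, w i = 1
    · suffices key : ((dg v * dg w : SpecialLinearGroup (Fin n) K) : Matrix (Fin n) (Fin n) K) =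
        ((dg w * dg v : SpecialLinearGroup (Fin n) K) : Matrix (Fin n) (Fin n) K) from Subtype.ext key
      rw [Matrix.SpecialLinearGroup.coe_mul, Matrix.SpecialLinearGroup.coe_mul, dg_val v hv, dg_val w hw,
        Matrix.diagonal_mul_diagonal, Matrix.diagonal_mul_diagonal]
      congr 1
      funext a
      exact mul_comm _ _
    · have : (dg w : SpecialLinearGroup (Fin n) K) = 1 := by unfold dg; exact dif_neg hw
      rw [this]; exact Commute.one_right _
  · have : (dg v : SpecialLinearGroup (Fin n) K) = 1 := by unfold dg; exact dif_neg hv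
    rw [this]; exact Commute.one_left _

theorem prod_v3 (l : Fin 3) (c : K) (hc : c ≠ 0) : ∏ i, v3 l c i = 1 := by
  rw [Fin.prod_univ_three]
  fin_cases l <;> simp [v3] <;> field_simp

theorem prod_v2 (k l : Fin n) (hkl : k ≠ l) (e : K) (he : e ≠ 0) : ∏ i, v2 k l e i = 1 := by
  have h1 : ∀ a, v2 k l e a = (if a = k then e else 1) * (if a = l then e⁻¹ else 1) := by
    intro a
    unfold v2
    by_cases hak : a = k
    · subst hak; simp [hkl]
    · simp [hak]
  simp_rw [h1]
  rw [Finset.prod_mul_distrib, Finset.prod_ite_eq' Finset.univ k, Finset.prod_ite_eq' Finset.univ l]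
  simp [he]

end Cfsg.Agent.Lib.H25SMDIAG
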