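import Mathlib
import Cfsg.Prelude.Def_KGroupFacts
import Cfsg.Agent.Lib.Helper43R1Defs
import Cfsg.Agent.Lib.Helper43StDefs

/-! Project 2086 (S2086: the Schur multiplier of `PSL_n(q)`): vocabulary.

`σ : Γ →* G` is a central extension; `S : StR n K G` are Steinberg data of type `A_{n-1}` in `G`
(helper43's structure: `S.add`, `S.comm`, `S.chain`). -/

set_option autoImplicit false

namespace Cfsg.Agent.Lib.H25SMDefs

open Matrix Cfsg.Agent.Lib.Helper43R1 Cfsg.Agent.Lib.Helper43St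

/-- `σ` is a central extension. -/
structure CE {Γ G : Type*} [Group Γ] [Group G] (σ : Γ →* G) : Prop where
  surj : Function.Surjective σ
  cen : σ.ker ≤ Subgroup.center Γ

/-- `a` and `b` LIFT-COMMUTE: all their preimages commute. -/
def Lc {Γ G : Type*} [Group Γ] [Group G] (σ : Γ →* G) (a b : G) : Prop :=
  ∀ γ δ : Γ, σ γ = a → σ δ = b → Commute γ δ

/-- Step 1: all pairs of commuting root elements lift-commute. -/
def Step1 {Γ G : Type*} [Group Γ] [Group G] {n : ℕ} {K : Type*} [Field K] (σ : Γ →* G)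
    (S : StR n K G) : Prop :=
  ∀ i j k l, i ≠ j → k ≠ l → i ≠ l → j ≠ k → ∀ s t, Lc σ (S.x i j s) (S.x k l t)

/-- Step 1 for the pairs of roots with a common row or a common column (or equal). -/
def Step1rc {Γ G : Type*} [Group Γ] [Group G] {n : ℕ} {K : Type*} [Field K] (σ : Γ →* G)
    (S : StR n K G) : Prop :=
  ∀ i j k l, i ≠ j → k ≠ l → i ≠ l → j ≠ k → (i = k ∨ j = l) → ∀ s t, Lc σ (S.x i j s) (S.x k l t)

/-- The Steinberg data lift to `Γ`. -/
def Lifts {Γ G : Type*} [Group Γ] [Group G] {n : ℕ} {K : Type*} [Field K] (σ : Γ →* G)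
    (S : StR n K G) : Prop :=
  ∃ T : StR n K Γ, ∀ i j t, i ≠ j → σ (T.x i j t) = S.x i j t

/-- the statement of S2401 for `n`, `K`. -/
def PresSL (n : ℕ) (K : Type*) [Field K] : Prop :=
  ∃ e : StG n K ≃* SpecialLinearGroup (Fin n) K,
    ∀ (a : Ix n) (t : K), ((e (PresentedGroup.of (a, t)) : Matrix (Fin n) (Fin n) K)) =
      Matrix.transvection a.1.1 a.1.2 t

/-- the diagonal matrix `diag(v)` in `SL_n(K)` (`1` if `∏ v ≠ 1`). -/
noncomputable def dg {n : ℕ} {K : Type*} [Field K] (v : Fin n → K) : SpecialLinearGroup (Fin n) K :=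
  open Classical in
  if h : ∏ i, v i = 1 then ⟨Matrix.diagonal v, by rw [Matrix.det_diagonal, h]⟩ else 1

/-- weights `c, c, c⁻²` (`c⁻²` at `l`) for `SL_3`. -/
def v3 {K : Type*} [Field K] (l : Fin 3) (c : K) : Fin 3 → K := fun a => if a = l then (c ^ 2)⁻¹ else c

/-- weights `e` at `k`, `e⁻¹` at `l`, `1` elsewhere. -/
def v2 {n : ℕ} {K : Type*} [Field K] (k l : Fin n) (e : K) : Fin n → K :=
  fun a => if a = k then e else if a = l then e⁻¹ else 1

end Cfsg.Agent.Lib.H25SMDefs
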