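import Cfsg.Agent.Lib.H25SMDefs

/-! Project 2086 (S2086, Schur multiplier of PSL_n(q)), piece LC.  Overview: notes/helper25/SM.md -/

set_option autoImplicit false
set_option linter.unusedSectionVars false
set_option linter.unusedVariables false

namespace Cfsg.Agent.Lib.H25SMLC

open Matrix Cfsg Cfsg.Agent.Lib.Helper43R1 Cfsg.Agent.Lib.Helper43St Cfsg.Agent.Lib.H25SMDefs
open scoped commutatorElement

variable {Γ G : Type*} [Group Γ] [Group G] {σ : Γ →* G}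

theorem mem_center_of_map_eq_one (h : CE σ) {z : Γ} (hz : σ z = 1) : z ∈ Subgroup.center Γ :=
  h.cen hz

/-- two lifts of the same element differ by a central element. -/
theorem exists_central (h : CE σ) {γ γ' : Γ} (h1 : σ γ = σ γ') :
    ∃ z ∈ Subgroup.center Γ, γ' = γ * z :=
  ⟨γ⁻¹ * γ', mem_center_of_map_eq_one h (by rw [map_mul, map_inv, h1, inv_mul_cancel]), by group⟩

/-- the commutator of two lifts does not depend on the lifts. -/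
theorem comm_congr (h : CE σ) {γ γ' δ δ' : Γ} (h1 : σ γ = σ γ') (h2 : σ δ = σ δ') :
    ⁅γ, δ⁆ = ⁅γ', δ'⁆ := by
  obtain ⟨z, hz, rfl⟩ := exists_central h h1
  obtain ⟨w, hw, rfl⟩ := exists_central h h2
  rw [Subgroup.mem_center_iff] at hz hw
  rw [commutatorElement_def, commutatorElement_def]
  have e1 : γ * z * (δ * w) * (γ * z)⁻¹ * (δ * w)⁻¹
      = γ * (z * (δ * (w * (z⁻¹ * (γ⁻¹ * (w⁻¹ * δ⁻¹)))))) := by group
  rw [e1, ← hz (δ * (w * (z⁻¹ * (γ⁻¹ * (w⁻¹ * δ⁻¹))))), ← hw (z⁻¹ * (γ⁻¹ * (w⁻¹ * δ⁻¹)))]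
  have e2 : γ * (δ * (z⁻¹ * (γ⁻¹ * (w⁻¹ * δ⁻¹)) * w) * z)
      = γ * (δ * (z⁻¹ * (γ⁻¹ * (w⁻¹ * (δ⁻¹ * w) * z)))) := by group
  rw [e2, hw δ⁻¹]
  have e3 : γ * (δ * (z⁻¹ * (γ⁻¹ * (w⁻¹ * (w * δ⁻¹) * z)))) = γ * (δ * (z⁻¹ * (γ⁻¹ * δ⁻¹ * z))) := by
    group
  rw [e3, hz (γ⁻¹ * δ⁻¹)]
  group

theorem conj_congr (h : CE σ) {g g' : Γ} (h1 : σ g = σ g') (γ : Γ) :
    g * γ * g⁻¹ = g' * γ * g'⁻¹ := by
  obtain ⟨z, hz, rfl⟩ := exists_central h h1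
  rw [Subgroup.mem_center_iff] at hz
  have e1 : g * z * γ * (g * z)⁻¹ = g * (z * γ) * z⁻¹ * g⁻¹ := by group
  rw [e1, ← hz γ]
  group

theorem commute_congr (h : CE σ) {g γ γ' : Γ} (h1 : σ γ = σ γ') (hc : Commute g γ) :
    Commute g γ' := by
  obtain ⟨z, hz, rfl⟩ := exists_central h h1
  rw [Subgroup.mem_center_iff] at hz
  exact hc.mul_right (hz g)

theorem conj_brk (g a b : Γ) : g * ⁅a, b⁆ * g⁻¹ = ⁅g * a * g⁻¹, g * b * g⁻¹⁆ := by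
  rw [commutatorElement_def, commutatorElement_def]
  group

/-- MILNOR'S TRICK: `g ⁅a,b⁆ g⁻¹ = ⁅g a g⁻¹, g b g⁻¹⁆ = ⁅a, b⁆` by `comm_congr`, as `g a g⁻¹` is a lift of
`σ a`. -/
theorem commute_brk (h : CE σ) {g a b : Γ} (h1 : Commute (σ g) (σ a)) (h2 : Commute (σ g) (σ b)) :
    Commute g ⁅a, b⁆ := by
  have e := conj_brk g a b
  rw [comm_congr h (γ := g * a * g⁻¹) (γ' := a) (δ := g * b * g⁻¹) (δ' := b)
    (by rw [map_mul, map_mul, map_inv, h1.eq, mul_inv_cancel_right])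
    (by rw [map_mul, map_mul, map_inv, h2.eq, mul_inv_cancel_right])] at e
  exact mul_inv_eq_iff_eq_mul.1 e

theorem lc_brk (h : CE σ) {g a b : G} (h1 : Commute g a) (h2 : Commute g b) : Lc σ g ⁅a, b⁆ := by
  intro γ δ hγ hδ
  obtain ⟨α, rfl⟩ := h.surj a
  obtain ⟨β, rfl⟩ := h.surj b
  subst hγ
  refine commute_congr h (γ := ⁅α, β⁆) ?_ (commute_brk h h1 h2)
  rw [hδ, map_commutatorElement]

theorem Lc.symm {a b : G} (h : Lc σ a b) : Lc σ b a :=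
  fun γ δ hγ hδ => (h δ γ hδ hγ).symm

theorem lc_of_commute (h : CE σ) {γ δ : Γ} (hc : Commute γ δ) : Lc σ (σ γ) (σ δ) := by
  intro γ' δ' hγ hδ
  exact commute_congr h hδ.symm (commute_congr h hγ.symm hc.symm).symm

theorem brk_mem_center (h : CE σ) {a b : Γ} (hab : Commute (σ a) (σ b)) :
    ⁅a, b⁆ ∈ Subgroup.center Γ := by
  apply mem_center_of_map_eq_one h
  rw [map_commutatorElement]
  exact commutatorElement_eq_one_iff_commute.2 hab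

/-- `⁅a a', b⁆ = a ⁅a', b⁆ a⁻¹ ⁅a, b⁆`. -/
theorem brk_mul_left' {a a' b : Γ} (h1 : Commute a ⁅a', b⁆) : ⁅a * a', b⁆ = ⁅a', b⁆ * ⁅a, b⁆ := by
  have e : ⁅a * a', b⁆ = a * ⁅a', b⁆ * a⁻¹ * ⁅a, b⁆ := by
    simp only [commutatorElement_def]
    group
  rw [e, h1.eq, mul_inv_cancel_right]

/-- `⁅a, b b'⁆ = ⁅a, b⁆ b ⁅a, b'⁆ b⁻¹`. -/
theorem brk_mul_right' {a b b' : Γ} (h1 : Commute b ⁅a, b'⁆) : ⁅a, b * b'⁆ = ⁅a, b⁆ * ⁅a, b'⁆ := by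
  have e : ⁅a, b * b'⁆ = ⁅a, b⁆ * (b * ⁅a, b'⁆ * b⁻¹) := by
    simp only [commutatorElement_def]
    group
  rw [e, h1.eq, mul_inv_cancel_right]

theorem brk_mul_left (h : CE σ) {a a' b : Γ} (h1 : Commute (σ a') (σ b)) :
    ⁅a * a', b⁆ = ⁅a, b⁆ * ⁅a', b⁆ := by
  have hz := Subgroup.mem_center_iff.1 (brk_mem_center h h1)
  rw [brk_mul_left' (hz a), hz]

theorem brk_mul_right (h : CE σ) {a b b' : Γ} (h1 : Commute (σ a) (σ b')) :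
    ⁅a, b * b'⁆ = ⁅a, b⁆ * ⁅a, b'⁆ := by
  have hz := Subgroup.mem_center_iff.1 (brk_mem_center h h1)
  exact brk_mul_right' (hz b)

end Cfsg.Agent.Lib.H25SMLC
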