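import Cfsg.Agent.Lib.H25SMDefs
import Cfsg.Agent.Lib.Helper6SL

/-! Project 2086 (S2086, Schur multiplier of PSL_n(q)), piece SL.  Overview: notes/helper25/SM.md -/

set_option autoImplicit false
set_option linter.unusedSectionVars false
set_option linter.unusedVariables false

namespace Cfsg.Agent.Lib.H25SMSL

open Matrix Cfsg Cfsg.Agent.Lib.Helper43R1 Cfsg.Agent.Lib.Helper43St Cfsg.Agent.Lib.H25SMDefs
open scoped commutatorElement

variable {n : ℕ} {K : Type*} [Field K]

/-- the Steinberg relations in `SL_n(K)`.  (Entrywise: `ext a b`, `tv_apply`, `Matrix.mul_apply`; or via `tv_val`,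
`Matrix.single_mul_single_same`, `Matrix.single_mul_single_of_ne`; `tv_inv`.  See also Cfsg/Agent/S2540.lean
`transvection_eq_commutator`, Lib/Helper6SL and helper7's piece `stpres` (`sl_StR`) of project 143.) -/
noncomputable def slS (n : ℕ) (K : Type*) [Field K] : StR n K (SpecialLinearGroup (Fin n) K) where
  x := tv
  add := by
    intro i j hij s t
    simp only [tv, dif_pos hij]
    exact (Matrix.SpecialLinearGroup.transvection_add hij s t)
  comm := by
    intro i j k l hij hkl hil hjk s t
    apply Subtype.ext
    rw [Matrix.SpecialLinearGroup.coe_mul, Matrix.SpecialLinearGroup.coe_mul, tv_val i j hij,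
      tv_val k l hkl]
    simp only [mul_add, add_mul, Matrix.mul_one, Matrix.one_mul,
      Matrix.single_mul_single_of_ne _ _ _ _ hjk, Matrix.single_mul_single_of_ne _ _ _ _ hil.symm]
    abel
  chain := by
    intro i j k hij hjk hik s t
    have := Cfsg.Agent.Lib.Helper6SL.commutator_transvection hik hij hjk s t
    rw [commutatorElement_def] at this
    simp only [tv, dif_pos hij, dif_pos hjk, dif_pos hik]
    exact this

theorem slS_x (i j : Fin n) (t : K) : (slS n K).x i j t = tv i j t := rfl

end Cfsg.Agent.Lib.H25SMSL
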