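import Cfsg.Agent.Lib.H25SMDefs
import Cfsg.Agent.Lib.H25SMLC

/-! Project 2086 (S2086, Schur multiplier of PSL_n(q)), piece TOR.  Overview: notes/helper25/SM.md -/

set_option autoImplicit false
set_option linter.unusedSectionVars false
set_option linter.unusedVariables false

namespace Cfsg.Agent.Lib.H25SMTOR

open Matrix Cfsg Cfsg.Agent.Lib.Helper43R1 Cfsg.Agent.Lib.Helper43St Cfsg.Agent.Lib.H25SMDefs
open Cfsg.Agent.Lib.H25SMLC
open scoped commutatorElement

variable {Γ G : Type*} [Group Γ] [Group G] {σ : Γ →* G} {K : Type*} [Field K]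

/-- TORUS TRICK.  Fix a lift `α` of `a s`; for `t : K` let `f t = ⁅α, β⁆` for any lift `β` of `b t`
(e.g. `Function.surjInv h.surj (b t)`; independent of the lift: `comm_congr`); it is central (`brk_mem_center`), `f (t + t') = f t * f t'`
(`brk_mul_right`), so `f 0 = 1`, `f (-t) = (f t)⁻¹`.  If `D` is a lift of `d` then `D α D⁻¹` is a lift of `a s` and `D β D⁻¹` is a
lift of `b (c t)`, so `f (c t) = D (f t) D⁻¹ = f t` (`conj_brk`).  Hence `f ((c - 1) t) = 1` for all `t`, and `c - 1 ≠ 0`. -/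
theorem lc_of_torus (h : CE σ) (a b : K → G) (hb : ∀ s t, b (s + t) = b s * b t)
    (hab : ∀ s t, Commute (a s) (b t)) (d : G) (c : K) (hc : c ≠ 1)
    (h1 : ∀ s, d * a s * d⁻¹ = a s) (h2 : ∀ t, d * b t * d⁻¹ = b (c * t)) (s t : K) :
    Lc σ (a s) (b t) := by
  classical
  obtain ⟨α, hα⟩ := h.surj (a s)
  obtain ⟨D, hD⟩ := h.surj d
  obtain ⟨β, hβ⟩ : ∃ β : K → Γ, ∀ t, σ (β t) = b t :=
    ⟨fun t => Function.surjInv h.surj (b t), fun t => Function.surjInv_eq h.surj (b t)⟩
  obtain ⟨f, hf⟩ : ∃ f : K → Γ, ∀ t, f t = ⁅α, β t⁆ := ⟨fun t => ⁅α, β t⁆, fun _ => rfl⟩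
  have hfc : ∀ t, f t ∈ Subgroup.center Γ := fun t => by
    rw [hf]; exact brk_mem_center h (by rw [hα, hβ]; exact hab s t)
  have hadd : ∀ t t', f (t + t') = f t * f t' := by
    intro t t'
    have e : f (t + t') = ⁅α, β t * β t'⁆ := by
      rw [hf]
      exact comm_congr h rfl (by rw [hβ, map_mul, hβ, hβ, hb])
    rw [e, hf, hf]
    exact brk_mul_right h (by rw [hα, hβ]; exact hab s t')
  have hinv : ∀ t, f (c * t) = f t := by
    intro t
    have e := conj_brk D α (β t)
    have e2 : ⁅D * α * D⁻¹, D * β t * D⁻¹⁆ = f (c * t) := by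
      rw [hf]
      exact comm_congr h (by rw [map_mul, map_mul, map_inv, hD, hα, h1])
        (by rw [map_mul, map_mul, map_inv, hD, hβ, h2, hβ])
    rw [e2, ← hf, (Subgroup.mem_center_iff.1 (hfc t)) D, mul_inv_cancel_right] at e
    exact e.symm
  have hone : ∀ t, f ((c - 1) * t) = 1 := by
    intro t
    have e := hadd ((c - 1) * t) t
    rw [show (c - 1) * t + t = c * t by ring, hinv] at e
    exact mul_eq_right.1 e.symm
  have hft : f t = 1 := by
    have e := hone ((c - 1)⁻¹ * t)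
    rwa [← mul_assoc, mul_inv_cancel₀ (sub_ne_zero.2 hc), one_mul] at e
  rw [hf] at hft
  have hc' : Commute α (β t) := commutatorElement_eq_one_iff_commute.1 hft
  have e := lc_of_commute h hc'
  rwa [hα, hβ] at e

end Cfsg.Agent.Lib.H25SMTOR
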