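import Cfsg.Agent.Lib.H25SMDefs
import Cfsg.Agent.Lib.H25SMLC
import Cfsg.Agent.Lib.H25SMTOR
import Cfsg.Agent.Lib.H25SMDIAG
import Cfsg.Agent.Lib.H25SMSL

/-! Project 2086 (S2086, Schur multiplier of PSL_n(q)), piece EVEN.  Overview: notes/helper25/SM.md -/

set_option autoImplicit false
set_option linter.unusedSectionVars false
set_option linter.unusedVariables false

namespace Cfsg.Agent.Lib.H25SMEVEN

open Matrix Cfsg Cfsg.Agent.Lib.Helper43R1 Cfsg.Agent.Lib.Helper43St Cfsg.Agent.Lib.H25SMDefs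
open Cfsg.Agent.Lib.H25SMLC Cfsg.Agent.Lib.H25SMTOR Cfsg.Agent.Lib.H25SMDIAG Cfsg.Agent.Lib.H25SMSL
open scoped commutatorElement

variable {Γ : Type*} [Group Γ] {n : ℕ} {K : Type*} [Field K] {σ : Γ →* SpecialLinearGroup (Fin n) K}

/-- `lc_of_torus` with `d = dg (v2 k l e)`: it centralizes `tv i j s` and `d tv k l t d⁻¹ = tv k l (e² t)` (`dg_conj`, `prod_v2`). -/
theorem lc_disj_torus (h : CE σ) (i j k l : Fin n) (hij : i ≠ j) (hik : i ≠ k) (hil : i ≠ l) (hjk : j ≠ k) (hjl : j ≠ l) (hkl : k ≠ l)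
    (e : K) (he : e ≠ 0) (he2 : e ^ 2 ≠ 1) (s t : K) : Lc σ (tv i j s) (tv k l t) := by
  have hv := prod_v2 k l hkl e he
  refine lc_of_torus h (fun s => tv i j s) (fun t => tv k l t) ((slS n K).add k l hkl)
    ((slS n K).comm i j k l hij hkl hil hjk) (dg (v2 k l e)) (e ^ 2) he2 ?_ ?_ s t
  · intro s
    show dg (v2 k l e) * tv i j s * (dg (v2 k l e))⁻¹ = tv i j s
    rw [dg_conj _ hv i j hij]
    congr 1
    simp only [v2, if_neg hik, if_neg hil, if_neg hjk, if_neg hjl]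
    simp
  · intro t
    show dg (v2 k l e) * tv k l t * (dg (v2 k l e))⁻¹ = tv k l (e ^ 2 * t)
    rw [dg_conj _ hv k l hkl]
    congr 1
    simp only [v2, if_neg hkl.symm, if_true]
    field_simp

/-- the pairs with `i = k` or `j = l` are in `H`; the others are disjoint. -/
theorem step1_of_rc_torus (h : CE σ) (H : Step1rc σ (slS n K)) (e : K) (he : e ≠ 0) (he2 : e ^ 2 ≠ 1) :
    Step1 σ (slS n K) := by
  intro i j k l hij hkl hil hjk s t
  by_cases hik : i = k
  · exact H i j k l hij hkl hil hjk (Or.inl hik) s t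
  · by_cases hjl : j = l
    · exact H i j k l hij hkl hil hjk (Or.inr hjl) s t
    · rw [slS_x, slS_x]
      exact lc_disj_torus h i j k l hij hik hil hjk hjl hkl e he he2 s t

end Cfsg.Agent.Lib.H25SMEVEN
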