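import Cfsg.Agent.Lib.H25SMDefs

/-! Project 2086 (S2086, Schur multiplier of PSL_n(q)), piece FIELD.  Overview: notes/helper25/SM.md -/

set_option autoImplicit false
set_option linter.unusedSectionVars false
set_option linter.unusedVariables false

namespace Cfsg.Agent.Lib.H25SMFIELD

open Matrix Cfsg Cfsg.Agent.Lib.Helper43R1 Cfsg.Agent.Lib.Helper43St Cfsg.Agent.Lib.H25SMDefs
open scoped commutatorElement

variable {K : Type*} [Field K] [Fintype K]

/-- if `c ^ 3 = 1` for all `c ≠ 0` then `q - 1 ≤ 3` (roots of `X ^ 3 - 1`, or a generator of `Kˣ` has order `q - 1 ∣ 3`): `q - 1 ∈ {1, 3}`. -/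
theorem exists_cube_ne_one (h2 : Fintype.card K ≠ 2) (h4 : Fintype.card K ≠ 4) :
    ∃ c : K, c ≠ 0 ∧ c ^ 3 ≠ 1 := by
  classical
  by_contra hcon
  push Not at hcon
  obtain ⟨g, hg⟩ := IsCyclic.exists_generator (α := Kˣ)
  have h3 : g ^ 3 = 1 := by
    apply Units.ext
    rw [Units.val_pow_eq_pow_val, Units.val_one]
    exact hcon g g.ne_zero
  have ho : orderOf g = Fintype.card Kˣ := by
    rw [orderOf_eq_card_of_forall_mem_zpowers hg, Nat.card_eq_fintype_card]
  have hd : orderOf g ∣ 3 := orderOf_dvd_of_pow_eq_one h3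
  rw [ho, Fintype.card_units] at hd
  have hc : 1 < Fintype.card K := Fintype.one_lt_card
  rcases (Nat.dvd_prime Nat.prime_three).1 hd with h | h
  · omega
  · omega

/-- `q > 2`: take `e ∉ {0, 1}`; `e² = 1` gives `(e - 1)² = 0` in characteristic 2. -/
theorem exists_sq_ne_one (h : (2 : K) = 0) (h2 : Fintype.card K ≠ 2) : ∃ e : K, e ≠ 0 ∧ e ^ 2 ≠ 1 := by
  classical
  have hc : 1 < Fintype.card K := Fintype.one_lt_card
  have h3 : 2 < Fintype.card K := by omega
  have hex : ∃ e : K, e ≠ 0 ∧ e ≠ 1 := by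
    by_contra hcon
    push Not at hcon
    have hsub : (Finset.univ : Finset K) ⊆ {0, 1} := by
      intro e _
      by_cases he : e = 0
      · simp [he]
      · simp [hcon e he]
    have := Finset.card_le_card hsub
    rw [Finset.card_univ] at this
    have h' : ({0, 1} : Finset K).card ≤ 2 := Finset.card_le_two
    omega
  obtain ⟨e, he0, he1⟩ := hex
  refine ⟨e, he0, ?_⟩
  intro hsq
  apply he1
  have : (e - 1) ^ 2 = 0 := by
    have : (e - 1) ^ 2 = e ^ 2 - 2 * e + 1 := by ring
    rw [this, hsq, h]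
    have h11 : (1 : K) + 1 = 0 := by rw [one_add_one_eq_two, h]
    linear_combination h11
  have := pow_eq_zero_iff (two_ne_zero) |>.1 this
  exact sub_eq_zero.1 this

end Cfsg.Agent.Lib.H25SMFIELD
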