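import Cfsg.Agent.Lib.H25SMDefs
import Cfsg.Agent.Lib.H25SMLC

/-! Project 2086 (S2086, Schur multiplier of PSL_n(q)), piece FRESH.  Overview: notes/helper25/SM.md -/

set_option autoImplicit false
set_option linter.unusedSectionVars false
set_option linter.unusedVariables false

namespace Cfsg.Agent.Lib.H25SMFRESH

open Matrix Cfsg Cfsg.Agent.Lib.Helper43R1 Cfsg.Agent.Lib.Helper43St Cfsg.Agent.Lib.H25SMDefs
open Cfsg.Agent.Lib.H25SMLC
open scoped commutatorElement

variable {Γ G : Type*} [Group Γ] [Group G] {σ : Γ →* G} {n : ℕ} {K : Type*} [Field K]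

theorem exists_fresh {n : ℕ} (s : Finset (Fin n)) (hs : s.card < n) : ∃ m, m ∉ s := by
  by_contra hcon
  have hcon' : ∀ m, m ∈ s := by
    intro m
    by_contra hm
    exact hcon ⟨m, hm⟩
  have : s = Finset.univ := Finset.eq_univ_iff_forall.2 hcon'
  rw [this, Finset.card_univ, Fintype.card_fin] at hs
  exact lt_irrefl _ hs

/-- `x_kl(t) = ⁅x_km(t), x_ml(1)⁆` (`S.chain`, `commutatorElement_def`) and `x_ij(s)` commutes with `x_km(t)` and
`x_ml(1)` (`S.comm`): `lc_brk`. -/
theorem lc_of_fresh (h : CE σ) (S : StR n K G) (i j k l m : Fin n) (hij : i ≠ j) (hkl : k ≠ l)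
    (hil : i ≠ l) (hjk : j ≠ k) (hmi : m ≠ i) (hmj : m ≠ j) (hmk : m ≠ k) (hml : m ≠ l) (s t : K) :
    Lc σ (S.x i j s) (S.x k l t) := by
  have e : S.x k l t = ⁅S.x k m t, S.x m l 1⁆ := by
    rw [commutatorElement_def, S.chain k m l hmk.symm hml hkl, mul_one]
  rw [e]
  exact lc_brk h (S.comm i j k m hij hmk.symm hmi.symm hjk s t)
    (S.comm i j m l hij hml hil hmj.symm s 1)

/-- for `n ≥ 3` there is `m ∉ {i, j}`. -/
theorem lc_same (h : CE σ) (S : StR n K G) (hn : 3 ≤ n) (i j : Fin n) (hij : i ≠ j) (s t : K) :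
    Lc σ (S.x i j s) (S.x i j t) := by
  obtain ⟨m, hm⟩ := exists_fresh ({i, j} : Finset (Fin n))
    (lt_of_le_of_lt Finset.card_le_two (by omega))
  simp only [Finset.mem_insert, Finset.mem_singleton, not_or] at hm
  exact lc_of_fresh h S i j i j m hij hij hij hij.symm hm.1 hm.2 hm.1 hm.2 s t

/-- for `n ≥ 4`: if `i = k` or `j = l` the set `{i,j,k,l}` has at most 3 elements. -/
theorem step1rc_of_four (h : CE σ) (S : StR n K G) (hn : 4 ≤ n) : Step1rc σ S := by
  intro i j k l hij hkl hil hjk hor s t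
  rcases hor with rfl | rfl
  · obtain ⟨m, hm⟩ := exists_fresh ({i, j, l} : Finset (Fin n))
      (lt_of_le_of_lt Finset.card_le_three (by omega))
    simp only [Finset.mem_insert, Finset.mem_singleton, not_or] at hm
    exact lc_of_fresh h S i j i l m hij hkl hil hjk hm.1 hm.2.1 hm.1 hm.2.2 s t
  · obtain ⟨m, hm⟩ := exists_fresh ({i, j, k} : Finset (Fin n))
      (lt_of_le_of_lt Finset.card_le_three (by omega))
    simp only [Finset.mem_insert, Finset.mem_singleton, not_or] at hm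
    exact lc_of_fresh h S i j k j m hij hkl hil hjk hm.1 hm.2.1 hm.2.2 hm.2.1 s t

theorem step1_of_five (h : CE σ) (S : StR n K G) (hn : 5 ≤ n) : Step1 σ S := by
  intro i j k l hij hkl hil hjk s t
  obtain ⟨m, hm⟩ := exists_fresh ({i, j, k, l} : Finset (Fin n))
    (lt_of_le_of_lt Finset.card_le_four (by omega))
  simp only [Finset.mem_insert, Finset.mem_singleton, not_or] at hm
  exact lc_of_fresh h S i j k l m hij hkl hil hjk hm.1 hm.2.1 hm.2.2.1 hm.2.2.2 s t

end Cfsg.Agent.Lib.H25SMFRESH
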