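import Cfsg.Agent.Lib.H25SMDefs
import Cfsg.Agent.Lib.H25SMLC

/-! Project 2086 (S2086, Schur multiplier of PSL_n(q)), piece HWA.  Overview: notes/helper25/SM.md -/

set_option autoImplicit false
set_option linter.unusedSectionVars false
set_option linter.unusedVariables false

namespace Cfsg.Agent.Lib.H25SMHWA

open Matrix Cfsg Cfsg.Agent.Lib.Helper43R1 Cfsg.Agent.Lib.Helper43St Cfsg.Agent.Lib.H25SMDefs
open Cfsg.Agent.Lib.H25SMLC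
open scoped commutatorElement

variable {Γ G : Type*} [Group Γ] [Group G] {σ : Γ →* G} {n : ℕ} {K : Type*} [Field K]

theorem x_zero (S : StR n K G) (i j : Fin n) (hij : i ≠ j) : S.x i j 0 = 1 := by
  have h := S.add i j hij 0 0
  rw [add_zero] at h
  exact (mul_eq_left.1 h.symm)

theorem x_neg (S : StR n K G) (i j : Fin n) (hij : i ≠ j) (t : K) : (S.x i j t)⁻¹ = S.x i j (-t) := by
  rw [inv_eq_iff_mul_eq_one, ← S.add i j hij, add_neg_cancel, x_zero S i j hij]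

/-- the image of a commutator of lifts of `x_ij(s)`, `x_jk(t)`. -/
theorem map_brk (S : StR n K G) (i j k : Fin n) (hij : i ≠ j) (hjk : j ≠ k) (hik : i ≠ k) (s t : K)
    (u v : Γ) (hu : σ u = S.x i j s) (hv : σ v = S.x j k t) : σ ⁅u, v⁆ = S.x i k (s * t) := by
  rw [map_commutatorElement, hu, hv, commutatorElement_def, S.chain i j k hij hjk hik]

/-- the image of a commutator of lifts of `x_jk(t)`, `x_ij(s)`. -/
theorem map_brk' (S : StR n K G) (i j k : Fin n) (hij : i ≠ j) (hjk : j ≠ k) (hik : i ≠ k) (s t : K)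
    (u v : Γ) (hu : σ u = S.x i j s) (hv : σ v = S.x j k t) : σ ⁅v, u⁆ = S.x i k (-(s * t)) := by
  rw [← commutatorElement_inv, map_inv, map_brk S i j k hij hjk hik s t u v hu hv, x_neg S i k hik]

theorem brk_assoc {u v w : Γ} (h1 : Commute u w) (h2 : Commute ⁅u, v⁆ ⁅v, w⁆)
    (h3 : Commute ⁅⁅u, v⁆, w⁆ ⁅v, w⁆) : ⁅u, ⁅v, w⁆⁆ = ⁅⁅u, v⁆, w⁆ := by
  have e1 : u * ⁅v, w⁆ * u⁻¹ = ⁅⁅u, v⁆ * v, w⁆ := by
    rw [conj_brk, h1.eq, mul_inv_cancel_right]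
    congr 1
    rw [commutatorElement_def]; group
  have e2 : ⁅⁅u, v⁆ * v, w⁆ = ⁅u, v⁆ * ⁅v, w⁆ * ⁅u, v⁆⁻¹ * ⁅⁅u, v⁆, w⁆ := by
    generalize ⁅u, v⁆ = A
    simp only [commutatorElement_def]
    group
  rw [e2, h2.eq, mul_inv_cancel_right] at e1
  calc ⁅u, ⁅v, w⁆⁆ = u * ⁅v, w⁆ * u⁻¹ * ⁅v, w⁆⁻¹ := commutatorElement_def _ _
    _ = ⁅v, w⁆ * ⁅⁅u, v⁆, w⁆ * ⁅v, w⁆⁻¹ := by rw [e1]
    _ = ⁅⁅u, v⁆, w⁆ := by rw [← h3.eq, mul_inv_cancel_right]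

/-- `a ⁅b,c⁆ a⁻¹ = ⁅a b a⁻¹, a c a⁻¹⁆ = ⁅⁅a,b⁆ b, c⁆` (`a`, `c` commute: same row `i`)
`= ⁅a,b⁆ ⁅b,c⁆ ⁅a,b⁆⁻¹ ⁅⁅a,b⁆, c⁆ = ⁅b,c⁆ ⁅⁅a,b⁆,c⁆` (`⁅a,b⁆` lifts `x_kj(-ut)`, `⁅b,c⁆` lifts `x_kl(uv)`: same row `k`), and `⁅⁅a,b⁆,c⁆` is central
(`x_kj`, `x_il` commute in `G`). -/
theorem hwa (h : CE σ) (S : StR n K G) (H : Step1rc σ S) (i j k l : Fin n) (hij : i ≠ j) (hik : i ≠ k) (hil : i ≠ l) (hjk : j ≠ k) (hjl : j ≠ l) (hkl : k ≠ l)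
    (t u v : K) (a b c : Γ) (ha : σ a = S.x i j t) (hb : σ b = S.x k i u) (hc : σ c = S.x i l v) :
    ⁅a, ⁅b, c⁆⁆ = ⁅⁅a, b⁆, c⁆ := by
  have hab := map_brk' S k i j hik.symm hij hjk.symm u t b a hb ha
  have hbc := map_brk S k i l hik.symm hil hkl u v b c hb hc
  have hz : ⁅⁅a, b⁆, c⁆ ∈ Subgroup.center Γ := by
    apply brk_mem_center h
    rw [hab, hc]
    exact S.comm k j i l hjk.symm hil hkl hij.symm _ _
  refine brk_assoc (H i j i l hij hil hil hij.symm (Or.inl rfl) _ _ a c ha hc)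
    (H k j k l hjk.symm hkl hkl hjk (Or.inl rfl) _ _ _ _ hab hbc)
    ((Subgroup.mem_center_iff.1 hz _).symm)

end Cfsg.Agent.Lib.H25SMHWA
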