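import Cfsg.Agent.Lib.H25SMDefs
import Cfsg.Agent.Lib.H25SMLC

/-! Project 2086 (S2086, Schur multiplier of PSL_n(q)), piece HWB.  Overview: notes/helper25/SM.md -/

set_option autoImplicit false
set_option linter.unusedSectionVars false
set_option linter.unusedVariables false

namespace Cfsg.Agent.Lib.H25SMHWB

open Matrix Cfsg Cfsg.Agent.Lib.Helper43R1 Cfsg.Agent.Lib.Helper43St Cfsg.Agent.Lib.H25SMDefs
open Cfsg.Agent.Lib.H25SMLC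
open scoped commutatorElement

variable {Γ G : Type*} [Group Γ] [Group G] {σ : Γ →* G} {n : ℕ} {K : Type*} [Field K]

/-- the image of a commutator of lifts of `x_ij(s)`, `x_jk(t)`. -/
theorem map_brk (S : StR n K G) (i j k : Fin n) (hij : i ≠ j) (hjk : j ≠ k) (hik : i ≠ k) (s t : K)
    (u v : Γ) (hu : σ u = S.x i j s) (hv : σ v = S.x j k t) : σ ⁅u, v⁆ = S.x i k (s * t) := by
  rw [map_commutatorElement, hu, hv, commutatorElement_def, S.chain i j k hij hjk hik]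

theorem brk_swap {a b c : Γ} (h1 : Commute a b) (h2 : Commute ⁅a, c⁆ ⁅b, c⁆) :
    ⁅a, ⁅b, c⁆⁆ = ⁅b, ⁅a, c⁆⁆ := by
  have e1 : a * ⁅b, c⁆ * a⁻¹ = ⁅b, ⁅a, c⁆ * c⁆ := by
    rw [conj_brk, h1.eq, mul_inv_cancel_right]
    congr 1
    rw [commutatorElement_def]; group
  have e2 : ⁅b, ⁅a, c⁆ * c⁆ = ⁅b, ⁅a, c⁆⁆ * (⁅a, c⁆ * ⁅b, c⁆ * ⁅a, c⁆⁻¹) := by
    generalize ⁅a, c⁆ = A
    simp only [commutatorElement_def]
    group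
  rw [e2, h2.eq, mul_inv_cancel_right] at e1
  calc ⁅a, ⁅b, c⁆⁆ = a * ⁅b, c⁆ * a⁻¹ * ⁅b, c⁆⁻¹ := commutatorElement_def _ _
    _ = ⁅b, ⁅a, c⁆⁆ := by rw [e1, mul_inv_cancel_right]

/-- `a ⁅b,c⁆ a⁻¹ = ⁅a b a⁻¹, a c a⁻¹⁆ = ⁅b, ⁅a,c⁆ c⁆` (`a`, `b` commute: same column `j`)
`= ⁅b,⁅a,c⁆⁆ ⁅a,c⁆ ⁅b,c⁆ ⁅a,c⁆⁻¹ = ⁅b,⁅a,c⁆⁆ ⁅b,c⁆` (`⁅a,c⁆` lifts `x_il(tv)`, `⁅b,c⁆` lifts `x_kl(uv)`: same column `l`). -/
theorem hwb (h : CE σ) (S : StR n K G) (H : Step1rc σ S) (i j k l : Fin n) (hij : i ≠ j) (hik : i ≠ k) (hil : i ≠ l) (hjk : j ≠ k) (hjl : j ≠ l) (hkl : k ≠ l)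
    (t u v : K) (a b c : Γ) (ha : σ a = S.x i j t) (hb : σ b = S.x k j u) (hc : σ c = S.x j l v) :
    ⁅a, ⁅b, c⁆⁆ = ⁅b, ⁅a, c⁆⁆ := by
  have hac := map_brk S i j l hij hjl hil t v a c ha hc
  have hbc := map_brk S k j l hjk.symm hjl hkl u v b c hb hc
  exact brk_swap (H i j k j hij hjk.symm hij hjk (Or.inr rfl) _ _ a b ha hb)
    (H i l k l hil hkl hil hkl.symm (Or.inr rfl) _ _ _ _ hac hbc)

end Cfsg.Agent.Lib.H25SMHWB
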