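import Cfsg.Agent.Lib.H25SMDefs
import Cfsg.Agent.Lib.H25SMLC

/-! Project 2086 (S2086, Schur multiplier of PSL_n(q)), piece MILA.  Overview: notes/helper25/SM.md -/

set_option autoImplicit false
set_option linter.unusedSectionVars false
set_option linter.unusedVariables false

namespace Cfsg.Agent.Lib.H25SMMILA

open Matrix Cfsg Cfsg.Agent.Lib.Helper43R1 Cfsg.Agent.Lib.Helper43St Cfsg.Agent.Lib.H25SMDefs
open Cfsg.Agent.Lib.H25SMLC
open scoped commutatorElement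

variable {Γ G : Type*} [Group Γ] [Group G] {σ : Γ →* G} {n : ℕ} {K : Type*} [Field K]

/-- `⁅u, w''⁆ = ⁅u, w w'⁆` (`comm_congr`, `S.add`) `= ⁅u,w⁆ w ⁅u,w'⁆ w⁻¹`, and `w` (a lift of `x_ib`) commutes with `⁅u,w'⁆` (a lift of `x_ab`). -/
theorem mil_add (h : CE σ) (S : StR n K G) (H : Step1 σ S) (a i b : Fin n) (hai : a ≠ i) (hab : a ≠ b)
    (hib : i ≠ b) (l r r' : K) (u w w' w'' : Γ) (hu : σ u = S.x a i l) (hw : σ w = S.x i b r)
    (hw' : σ w' = S.x i b r') (hw'' : σ w'' = S.x i b (r + r')) : ⁅u, w''⁆ = ⁅u, w⁆ * ⁅u, w'⁆ := by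
  have e : σ w'' = σ (w * w') := by rw [hw'', map_mul, hw, hw', S.add i b hib]
  rw [comm_congr h rfl e]
  apply brk_mul_right'
  have huw : σ ⁅u, w'⁆ = S.x a b (l * r') := by
    rw [map_commutatorElement, hu, hw', commutatorElement_def, S.chain a i b hai hib hab]
  exact H i b a b hib hab hib hab.symm _ _ w _ hw huw

end Cfsg.Agent.Lib.H25SMMILA
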