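import Cfsg.Agent.Lib.H25SMDefs
import Cfsg.Agent.Lib.H25SMLC

/-! Project 2086 (S2086, Schur multiplier of PSL_n(q)), piece MIL2.  Overview: notes/helper25/SM.md -/

set_option autoImplicit false
set_option linter.unusedSectionVars false
set_option linter.unusedVariables false

namespace Cfsg.Agent.Lib.H25SMMIL2

open Matrix Cfsg Cfsg.Agent.Lib.Helper43R1 Cfsg.Agent.Lib.Helper43St Cfsg.Agent.Lib.H25SMDefs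
open Cfsg.Agent.Lib.H25SMLC
open scoped commutatorElement

variable {Γ G : Type*} [Group Γ] [Group G] {σ : Γ →* G} {n : ℕ} {K : Type*} [Field K]

/-- the image of a commutator of lifts of `x_ij(s)`, `x_jk(t)`. -/
theorem map_brk (S : StR n K G) (i j k : Fin n) (hij : i ≠ j) (hjk : j ≠ k) (hik : i ≠ k) (s t : K)
    (u v : Γ) (hu : σ u = S.x i j s) (hv : σ v = S.x j k t) : σ ⁅u, v⁆ = S.x i k (s * t) := by
  rw [map_commutatorElement, hu, hv, commutatorElement_def, S.chain i j k hij hjk hik]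

/-- pure group theory: if `u` commutes with `w`, `⁅u,v⁆` commutes with `⁅v,w⁆` and `⁅⁅u,v⁆,w⁆` commutes with `⁅v,w⁆`,
then `⁅u,⁅v,w⁆⁆ = ⁅⁅u,v⁆,w⁆`. -/
theorem brk_assoc {u v w : Γ} (h1 : Commute u w) (h2 : Commute ⁅u, v⁆ ⁅v, w⁆)
    (h3 : Commute ⁅⁅u, v⁆, w⁆ ⁅v, w⁆) : ⁅u, ⁅v, w⁆⁆ = ⁅⁅u, v⁆, w⁆ := by
  have e1 : u * ⁅v, w⁆ * u⁻¹ = ⁅⁅u, v⁆ * v, w⁆ := by
    rw [conj_brk, h1.eq, mul_inv_cancel_right]
    congr 1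
    rw [commutatorElement_def]; group
  have e2 : ⁅⁅u, v⁆ * v, w⁆ = ⁅u, v⁆ * ⁅v, w⁆ * ⁅u, v⁆⁻¹ * ⁅⁅u, v⁆, w⁆ := by
    generalize ⁅u, v⁆ = A
    simp only [commutatorElement_def]
    group
  rw [e2, h2.eq, mul_inv_cancel_right] at e1
  calc ⁅u, ⁅v, w⁆⁆ = u * ⁅v, w⁆ * u⁻¹ * ⁅v, w⁆⁻¹ := commutatorElement_def _ _
    _ = ⁅v, w⁆ * ⁅⁅u, v⁆, w⁆ * ⁅v, w⁆⁻¹ := by rw [e1]
    _ = ⁅⁅u, v⁆, w⁆ := by rw [← h3.eq, mul_inv_cancel_right]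

/-- MILNOR, step 2.  `u`, `w` commute (`H`).  `u ⁅v,w⁆ u⁻¹ = ⁅u v u⁻¹, w⁆ = ⁅⁅u,v⁆ v, w⁆ = ⁅u,v⁆ ⁅v,w⁆ ⁅u,v⁆⁻¹ ⁅⁅u,v⁆,w⁆`;
`⁅u,v⁆` (a lift of `x_aj`) commutes with `⁅v,w⁆` (a lift of `x_ib`); `⁅⁅u,v⁆,w⁆` (a lift of `x_ab`) commutes with `⁅v,w⁆`. -/
theorem mil2 (h : CE σ) (S : StR n K G) (H : Step1 σ S) (a i j b : Fin n) (hai : a ≠ i) (haj : a ≠ j) (hab : a ≠ b) (hij : i ≠ j) (hib : i ≠ b) (hjb : j ≠ b)
    (l m r : K) (u v w : Γ) (hu : σ u = S.x a i l) (hv : σ v = S.x i j m) (hw : σ w = S.x j b r) :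
    ⁅u, ⁅v, w⁆⁆ = ⁅⁅u, v⁆, w⁆ := by
  have huv := map_brk S a i j hai hij haj l m u v hu hv
  have hvw := map_brk S i j b hij hjb hib m r v w hv hw
  have huvw := map_brk S a j b haj hjb hab (l * m) r _ w huv hw
  refine brk_assoc (H a i j b hai hjb hab hij _ _ u w hu hw)
    (H a j i b haj hib hab hij.symm _ _ _ _ huv hvw) (H a b i b hab hib hab hib.symm _ _ _ _ huvw hvw)

end Cfsg.Agent.Lib.H25SMMIL2
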