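import Cfsg.Agent.Lib.H25SMDefs
import Cfsg.Agent.Lib.H25SMLC
import Cfsg.Agent.Lib.H25SMMIL2

/-! Project 2086 (S2086, Schur multiplier of PSL_n(q)), piece MILI.  Overview: notes/helper25/SM.md -/

set_option autoImplicit false
set_option linter.unusedSectionVars false
set_option linter.unusedVariables false

namespace Cfsg.Agent.Lib.H25SMMILI

open Matrix Cfsg Cfsg.Agent.Lib.Helper43R1 Cfsg.Agent.Lib.Helper43St Cfsg.Agent.Lib.H25SMDefs
open Cfsg.Agent.Lib.H25SMLC Cfsg.Agent.Lib.H25SMMIL2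
open scoped commutatorElement

variable {Γ G : Type*} [Group Γ] [Group G] {σ : Γ →* G} {n : ℕ} {K : Type*} [Field K]

/-- `mil2` with `(l, m, r) := (1, l, r)`: `P(i; 1, l r) = P(j; l, r)` where `P(i; l, r) = ⁅lift x_ai(l), lift x_ib(r)⁆`
(`⁅v,w⁆` is a lift of `x_ib(l r)`, `⁅u,v⁆` is a lift of `x_aj(l)`; `comm_congr`). -/
theorem mil_key (h : CE σ) (S : StR n K G) (H : Step1 σ S) (a i j b : Fin n) (hai : a ≠ i) (haj : a ≠ j) (hab : a ≠ b) (hij : i ≠ j) (hib : i ≠ b) (hjb : j ≠ b)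
    (l r : K) (u w u' w' : Γ) (hu : σ u = S.x a i 1) (hw : σ w = S.x i b (l * r))
    (hu' : σ u' = S.x a j l) (hw' : σ w' = S.x j b r) : ⁅u, w⁆ = ⁅u', w'⁆ := by
  obtain ⟨v, hv⟩ := h.surj (S.x i j l)
  have e := mil2 h S H a i j b hai haj hab hij hib hjb 1 l r u v w' hu hv hw'
  have e1 : ⁅u, w⁆ = ⁅u, ⁅v, w'⁆⁆ := by
    apply comm_congr h rfl
    rw [hw, map_commutatorElement, hv, hw', commutatorElement_def, S.chain i j b hij hjb hib]
  have e2 : ⁅⁅u, v⁆, w'⁆ = ⁅u', w'⁆ := by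
    apply comm_congr h _ rfl
    rw [hu', map_commutatorElement, hu, hv, commutatorElement_def, S.chain a i j hai hij haj, one_mul]
  rw [e1, e, e2]

theorem exists_fresh' {n : ℕ} (s : Finset (Fin n)) (hs : s.card < n) : ∃ m, m ∉ s := by
  by_contra hcon
  have hcon' : ∀ m, m ∈ s := by
    intro m
    by_contra hm
    exact hcon ⟨m, hm⟩
  have : s = Finset.univ := Finset.eq_univ_iff_forall.2 hcon'
  rw [this, Finset.card_univ, Fintype.card_fin] at hs
  exact lt_irrefl _ hs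

/-- `P(i; l, r)` depends only on `l r`, not on `i`. -/
theorem mil_indep (h : CE σ) (S : StR n K G) (H : Step1 σ S) (hn : 4 ≤ n) (a b i i' : Fin n)
    (hab : a ≠ b) (hia : i ≠ a) (hib : i ≠ b) (hia' : i' ≠ a) (hib' : i' ≠ b) (l r l' r' : K)
    (hlr : l * r = l' * r') (u w u' w' : Γ) (hu : σ u = S.x a i l) (hw : σ w = S.x i b r)
    (hu' : σ u' = S.x a i' l') (hw' : σ w' = S.x i' b r') : ⁅u, w⁆ = ⁅u', w'⁆ := by
  by_cases hii : i = i'
  · subst hii
    obtain ⟨j, hj⟩ := exists_fresh' ({a, b, i} : Finset (Fin n))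
      (lt_of_le_of_lt Finset.card_le_three (by omega))
    simp only [Finset.mem_insert, Finset.mem_singleton, not_or] at hj
    obtain ⟨p, hp⟩ := h.surj (S.x a j 1)
    obtain ⟨q, hq⟩ := h.surj (S.x j b (l * r))
    have e1 := mil_key h S H a j i b (Ne.symm hj.1) hia.symm hab hj.2.2 hj.2.1 hib l r p q u w hp hq hu hw
    have e2 := mil_key h S H a j i b (Ne.symm hj.1) hia.symm hab hj.2.2 hj.2.1 hib l' r' p q u' w' hp
      (by rw [hq, hlr]) hu' hw'
    rw [← e1, e2]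
  · obtain ⟨p, hp⟩ := h.surj (S.x a i' 1)
    obtain ⟨q, hq⟩ := h.surj (S.x i' b (l * r))
    obtain ⟨p', hp'⟩ := h.surj (S.x a i 1)
    obtain ⟨q', hq'⟩ := h.surj (S.x i b (l * r))
    have e1 := mil_key h S H a i' i b hia'.symm hia.symm hab (Ne.symm hii) hib' hib l r p q u w hp hq hu hw
    have e2 := mil_key h S H a i i' b hia.symm hia'.symm hab hii hib hib' l' r' p' q' u' w' hp'
      (by rw [hq', hlr]) hu' hw'
    have e3 := mil_key h S H a i' i b hia'.symm hia.symm hab (Ne.symm hii) hib' hib 1 (l * r) p q p' q' hp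
      (by rw [hq, one_mul]) hp' hq'
    rw [← e1, e3, e2]

end Cfsg.Agent.Lib.H25SMMILI
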