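import Cfsg.Agent.Lib.H25SMDefs
import Cfsg.Agent.Lib.H25SMLC
import Cfsg.Agent.Lib.H25SMMILI
import Cfsg.Agent.Lib.H25SMMILA

/-! Project 2086 (S2086, Schur multiplier of PSL_n(q)), piece MILR.  Overview: notes/helper25/SM.md -/

set_option autoImplicit false
set_option linter.unusedSectionVars false
set_option linter.unusedVariables false

namespace Cfsg.Agent.Lib.H25SMMILR

open Matrix Cfsg Cfsg.Agent.Lib.Helper43R1 Cfsg.Agent.Lib.Helper43St Cfsg.Agent.Lib.H25SMDefs
open Cfsg.Agent.Lib.H25SMLC Cfsg.Agent.Lib.H25SMMILI Cfsg.Agent.Lib.H25SMMILA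
open scoped commutatorElement

variable {Γ G : Type*} [Group Γ] [Group G] {σ : Γ →* G} {n : ℕ} {K : Type*} [Field K]

/-- MILNOR, step 3.  For `a ≠ b` choose `i = i(a,b) ∉ {a,b}` and put
`T.x a b t = ⁅surjInv (S.x a i 1), surjInv (S.x i b t)⁆` (`1` if `a = b`).  It is a lift of `S.x a b t` (`S.chain`).
`add`: `mil_add`.  `comm`: `H`.  `chain`: `T.x a j s`, `T.x j b t` are lifts of `x_aj(s)`, `x_jb(t)`, so their commutator is
`T.x a b (s t)` by `mil_indep`. -/
theorem lifts_of_step1 (h : CE σ) (S : StR n K G) (hn : 4 ≤ n) (H : Step1 σ S) : Lifts σ S := by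
  have hex : ∀ a b : Fin n, ∃ i : Fin n, i ≠ a ∧ i ≠ b := by
    intro a b
    obtain ⟨i, hi⟩ := exists_fresh' ({a, b} : Finset (Fin n))
      (lt_of_le_of_lt Finset.card_le_two (by omega))
    simp only [Finset.mem_insert, Finset.mem_singleton, not_or] at hi
    exact ⟨i, hi⟩
  choose ch hch using hex
  have hs : ∀ g, σ (Function.surjInv h.surj g) = g := Function.surjInv_eq h.surj
  have hmap : ∀ a b t, a ≠ b →
      σ ⁅Function.surjInv h.surj (S.x a (ch a b) 1), Function.surjInv h.surj (S.x (ch a b) b t)⁆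
        = S.x a b t := by
    intro a b t hab
    have := Cfsg.Agent.Lib.H25SMMIL2.map_brk S a (ch a b) b (hch a b).1.symm (hch a b).2 hab 1 t _ _
      (hs _) (hs _)
    rwa [one_mul] at this
  refine ⟨{ x := fun a b t => ⁅Function.surjInv h.surj (S.x a (ch a b) 1),
              Function.surjInv h.surj (S.x (ch a b) b t)⁆
            add := ?_
            comm := ?_
            chain := ?_ }, fun i j t hij => hmap i j t hij⟩
  · intro a b hab s t
    exact mil_add h S H a (ch a b) b (hch a b).1.symm hab (hch a b).2 1 s t _ _ _ _ (hs _) (hs _) (hs _)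
      (hs _)
  · intro i j k l hij hkl hil hjk s t
    exact H i j k l hij hkl hil hjk s t _ _ (hmap i j s hij) (hmap k l t hkl)
  · intro i j k hij hjk hik s t
    rw [← commutatorElement_def]
    exact mil_indep h S H hn i k j (ch i k) hik hij.symm hjk (hch i k).1 (hch i k).2 s t 1 (s * t)
      (one_mul _).symm _ _ _ _ (hmap i j s hij) (hmap j k t hjk) (hs _) (hs _)

end Cfsg.Agent.Lib.H25SMMILR
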