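import Cfsg.Agent.Lib.H25SMDefs
import Cfsg.Agent.Lib.H25SMLC
import Cfsg.Agent.Lib.H25SMDIAG
import Cfsg.Agent.Lib.H25SMSL

/-! Project 2086 (S2086, Schur multiplier of PSL_n(q)), piece N3L.  Overview: notes/helper25/SM.md -/

set_option autoImplicit false
set_option linter.unusedSectionVars false
set_option linter.unusedVariables false

namespace Cfsg.Agent.Lib.H25SMN3L

open Matrix Cfsg Cfsg.Agent.Lib.Helper43R1 Cfsg.Agent.Lib.Helper43St Cfsg.Agent.Lib.H25SMDefs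
open Cfsg.Agent.Lib.H25SMLC Cfsg.Agent.Lib.H25SMDIAG Cfsg.Agent.Lib.H25SMSL
open scoped commutatorElement

variable {Γ : Type*} [Group Γ] {K : Type*} [Field K] {σ : Γ →* SpecialLinearGroup (Fin 3) K}

/-- STEINBERG'S canonical lift of `tv i j t`: the commutator of lifts of `d = dg (v3 j c)` and of `tv i j (t / (c³ - 1))`
(`d tv i j w d⁻¹ = tv i j (c³ w)`). -/
noncomputable def y3 (σ : Γ →* SpecialLinearGroup (Fin 3) K) (hs : Function.Surjective σ) (c : K)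
    (i j : Fin 3) (t : K) : Γ :=
  ⁅Function.surjInv hs (dg (v3 j c)), Function.surjInv hs (tv i j (t / (c ^ 3 - 1)))⁆

theorem y3_map (h : CE σ) (c : K) (hc : c ≠ 0) (hc3 : c ^ 3 ≠ 1) (i j : Fin 3) (hij : i ≠ j) (t : K) :
    σ (y3 σ h.surj c i j t) = tv i j t := by
  have hs : ∀ g, σ (Function.surjInv h.surj g) = g := Function.surjInv_eq h.surj
  unfold y3
  rw [map_commutatorElement, hs, hs, commutatorElement_def, dg_conj _ (prod_v3 j c hc) i j hij, tv_inv,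
    ← slS_x, ← slS_x, ← (slS 3 K).add i j hij, slS_x]
  congr 1
  have h1 : c ^ 3 - 1 ≠ 0 := sub_ne_zero.2 hc3
  have e1 : v3 j c i = c := by simp [v3, hij]
  have e2 : v3 j c j = (c ^ 2)⁻¹ := by simp [v3]
  rw [e1, e2, inv_inv]
  field_simp
  ring

/-- `⁅D, X X'⁆ = ⁅D,X⁆ X ⁅D,X'⁆ X⁻¹` and the lifts of `tv i j _` commute (`H`). -/
theorem y3_add (h : CE σ) (H : Step1 σ (slS 3 K)) (c : K) (hc : c ≠ 0) (hc3 : c ^ 3 ≠ 1) (i j : Fin 3)
    (hij : i ≠ j) (s t : K) :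
    y3 σ h.surj c i j (s + t) = y3 σ h.surj c i j s * y3 σ h.surj c i j t := by
  have hs : ∀ g, σ (Function.surjInv h.surj g) = g := Function.surjInv_eq h.surj
  have hm := y3_map h c hc hc3 i j hij t
  have e : σ (Function.surjInv h.surj (tv i j ((s + t) / (c ^ 3 - 1))))
      = σ (Function.surjInv h.surj (tv i j (s / (c ^ 3 - 1)))
          * Function.surjInv h.surj (tv i j (t / (c ^ 3 - 1)))) := by
    rw [map_mul, hs, hs, hs, add_div, ← slS_x, (slS 3 K).add i j hij]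
    rfl
  unfold y3 at hm ⊢
  rw [comm_congr h rfl e]
  apply brk_mul_right'
  exact H i j i j hij hij hij hij.symm _ _ _ _ (hs _) hm

/-- equivariance: `D ⁅D₀, X⁆ D⁻¹ = ⁅D D₀ D⁻¹, D X D⁻¹⁆`, `D D₀ D⁻¹` is a lift of `dg (v3 j c)` (`dg_comm`) and `D X D⁻¹` is a lift
of `tv i j (v i (v j)⁻¹ w)` (`dg_conj`): `comm_congr`. -/
theorem y3_conj (h : CE σ) (c : K) (v : Fin 3 → K) (hv : ∏ a, v a = 1) (D : Γ) (hD : σ D = dg v)
    (i j : Fin 3) (hij : i ≠ j) (t : K) :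
    D * y3 σ h.surj c i j t * D⁻¹ = y3 σ h.surj c i j (v i * (v j)⁻¹ * t) := by
  have hs : ∀ g, σ (Function.surjInv h.surj g) = g := Function.surjInv_eq h.surj
  unfold y3
  rw [conj_brk]
  apply comm_congr h
  · rw [map_mul, map_mul, map_inv, hD, hs, (dg_comm v (v3 j c)).eq, mul_inv_cancel_right]
  · rw [map_mul, map_mul, map_inv, hD, hs, hs, dg_conj v hv i j hij, mul_div_assoc]

end Cfsg.Agent.Lib.H25SMN3L
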