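import Cfsg.Agent.Lib.H25SMDefs
import Cfsg.Agent.Lib.H25SMLC
import Cfsg.Agent.Lib.H25SMDIAG
import Cfsg.Agent.Lib.H25SMSL
import Cfsg.Agent.Lib.H25SMN3L

/-! Project 2086 (S2086, Schur multiplier of PSL_n(q)), piece N3B.  Overview: notes/helper25/SM.md -/

set_option autoImplicit false
set_option linter.unusedSectionVars false
set_option linter.unusedVariables false

namespace Cfsg.Agent.Lib.H25SMN3B

open Matrix Cfsg Cfsg.Agent.Lib.Helper43R1 Cfsg.Agent.Lib.Helper43St Cfsg.Agent.Lib.H25SMDefs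
open Cfsg.Agent.Lib.H25SMLC Cfsg.Agent.Lib.H25SMDIAG Cfsg.Agent.Lib.H25SMSL Cfsg.Agent.Lib.H25SMN3L
open scoped commutatorElement

variable {Γ : Type*} [Group Γ] {K : Type*} [Field K] {σ : Γ →* SpecialLinearGroup (Fin 3) K}

/-- Fix `s`; `f t = ⁅y_ij(s), y_jl(t)⁆ * (y_il(s t))⁻¹` lies in `ker σ`, so it is central.  `f (t + t') = f t * f t'` (`brk_mul_right'`: `y_jl(t)` commutes
with the lift `⁅y_ij(s), y_jl(t')⁆` of `tv i l _`, by `H`; `y3_add`; lifts of `tv i l _` commute).  With `D` a lift of `dg (v3 l c)` (weights `c, c, c⁻²`):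
`D y_ij(s) D⁻¹ = y_ij(s)`, `D y_jl(t) D⁻¹ = y_jl(c³ t)`, `D y_il(st) D⁻¹ = y_il(c³ s t)` (`y3_conj`), so `f (c³ t) = D f(t) D⁻¹ = f t`; hence
`f ((c³ - 1) t) = 1` for all `t`, i.e. `f = 1`. -/
theorem y3_chain (h : CE σ) (H : Step1 σ (slS 3 K)) (c : K) (hc : c ≠ 0) (hc3 : c ^ 3 ≠ 1)
    (i j l : Fin 3) (hij : i ≠ j) (hjl : j ≠ l) (hil : i ≠ l) (s t : K) :
    y3 σ h.surj c i j s * y3 σ h.surj c j l t * (y3 σ h.surj c i j s)⁻¹ * (y3 σ h.surj c j l t)⁻¹
      = y3 σ h.surj c i l (s * t) := by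
  obtain ⟨f, hf⟩ : ∃ f : K → Γ, f = fun t => ⁅y3 σ h.surj c i j s, y3 σ h.surj c j l t⁆ *
      (y3 σ h.surj c i l (s * t))⁻¹ := ⟨_, rfl⟩
  have hfa : ∀ t, f t = ⁅y3 σ h.surj c i j s, y3 σ h.surj c j l t⁆ *
      (y3 σ h.surj c i l (s * t))⁻¹ := fun t => by rw [hf]
  have hbrk : ∀ t, σ ⁅y3 σ h.surj c i j s, y3 σ h.surj c j l t⁆ = tv i l (s * t) := by
    intro t
    rw [map_commutatorElement, y3_map h c hc hc3 i j hij, y3_map h c hc hc3 j l hjl,
      commutatorElement_def]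
    exact (slS 3 K).chain i j l hij hjl hil s t
  have hcen : ∀ t, f t ∈ Subgroup.center Γ := by
    intro t
    apply mem_center_of_map_eq_one h
    rw [hfa, map_mul, map_inv, hbrk, y3_map h c hc hc3 i l hil, mul_inv_cancel]
  have hadd : ∀ t t', f (t + t') = f t * f t' := by
    intro t t'
    have h1 : Commute (y3 σ h.surj c j l t) ⁅y3 σ h.surj c i j s, y3 σ h.surj c j l t'⁆ :=
      H j l i l hjl hil hjl hil.symm t (s * t') _ _ (y3_map h c hc hc3 j l hjl t) (hbrk t')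
    have h2 := (Subgroup.mem_center_iff.1 (hcen t')) (y3 σ h.surj c i l (s * t))⁻¹
    rw [hfa (t + t'), y3_add h H c hc hc3 j l hjl, brk_mul_right' h1, mul_add,
      y3_add h H c hc hc3 i l hil, _root_.mul_inv_rev, hfa t]
    rw [hfa t'] at h2
    calc _ = ⁅y3 σ h.surj c i j s, y3 σ h.surj c j l t⁆ * ((⁅y3 σ h.surj c i j s, y3 σ h.surj c j l t'⁆ *
          (y3 σ h.surj c i l (s * t'))⁻¹) * (y3 σ h.surj c i l (s * t))⁻¹) := by
          simp only [mul_assoc]
      _ = _ := by rw [← h2, hfa t']; simp only [mul_assoc]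
  have hinv : ∀ t, f (c ^ 3 * t) = f t := by
    intro t
    obtain ⟨D, hD⟩ := h.surj (dg (v3 l c))
    have hv := prod_v3 l c hc
    have e1 : D * y3 σ h.surj c i j s * D⁻¹ = y3 σ h.surj c i j s := by
      rw [y3_conj h c _ hv D hD i j hij]
      congr 1
      simp only [v3, if_neg hil, if_neg hjl]
      field_simp
    have e2 : D * y3 σ h.surj c j l t * D⁻¹ = y3 σ h.surj c j l (c ^ 3 * t) := by
      rw [y3_conj h c _ hv D hD j l hjl]
      congr 1
      simp only [v3, if_neg hjl, if_true]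
      field_simp
    have e3 : D * y3 σ h.surj c i l (s * t) * D⁻¹ = y3 σ h.surj c i l (s * (c ^ 3 * t)) := by
      rw [y3_conj h c _ hv D hD i l hil]
      congr 1
      simp only [v3, if_neg hil, if_true]
      field_simp
    have h3 : D * f t * D⁻¹ = f t := by
      rw [(Subgroup.mem_center_iff.1 (hcen t)) D]; group
    have h4 : D * f t * D⁻¹ = f (c ^ 3 * t) := by
      rw [hfa t, hfa (c ^ 3 * t), ← e3, ← e2]
      conv_rhs => rw [← e1]
      rw [← conj_brk]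
      group
    rw [← h4, h3]
  have hone : ∀ t, f ((c ^ 3 - 1) * t) = 1 := by
    intro t
    have h5 := hinv t
    rw [show c ^ 3 * t = (c ^ 3 - 1) * t + t by ring, hadd] at h5
    exact mul_eq_right.1 h5
  have hc1 : c ^ 3 - 1 ≠ 0 := sub_ne_zero.2 hc3
  have hft : f t = 1 := by
    have := hone (t / (c ^ 3 - 1))
    rwa [mul_div_cancel₀ _ hc1] at this
  rw [hfa, mul_inv_eq_one, commutatorElement_def] at hft
  exact hft

end Cfsg.Agent.Lib.H25SMN3B
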