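import Cfsg.Agent.Lib.H25SMDefs
import Cfsg.Agent.Lib.H25SMLC
import Cfsg.Agent.Lib.H25SMHWA
import Cfsg.Agent.Lib.H25SMHWB

/-! Project 2086 (S2086, Schur multiplier of PSL_n(q)), piece ODD.  Overview: notes/helper25/SM.md -/

set_option autoImplicit false
set_option linter.unusedSectionVars false
set_option linter.unusedVariables false

namespace Cfsg.Agent.Lib.H25SMODD

open Matrix Cfsg Cfsg.Agent.Lib.Helper43R1 Cfsg.Agent.Lib.Helper43St Cfsg.Agent.Lib.H25SMDefs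
open Cfsg.Agent.Lib.H25SMLC Cfsg.Agent.Lib.H25SMHWA Cfsg.Agent.Lib.H25SMHWB
open scoped commutatorElement

variable {Γ G : Type*} [Group Γ] [Group G] {σ : Γ →* G} {n : ℕ} {K : Type*} [Field K]

theorem map_brk (a b : Γ) : σ ⁅a, b⁆ = ⁅σ a, σ b⁆ := by
  simp only [commutatorElement_def, map_mul, map_inv]

theorem chain_brk (S : StR n K G) (i j k : Fin n) (hij : i ≠ j) (hjk : j ≠ k) (hik : i ≠ k) (s t : K) :
    ⁅S.x i j s, S.x j k t⁆ = S.x i k (s * t) := by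
  rw [commutatorElement_def]
  exact S.chain i j k hij hjk hik s t

/-- For `i,j,k,l` distinct write `Φ(u,v) = ⁅lift x_ij(u), lift x_kl(v)⁆` (central, independent of the lifts, bi-additive: `brk_mul_left`).
`hwa` with the indices `(k,j,i,l)`, `a` a lift of `x_kj(1)`, `b` of `x_ik(u)`, `c` of `x_kl(v)`:  `⁅a, lift x_il(uv)⁆ = Φ(-u, v)`
(`⁅a,b⁆` lifts `⁅x_kj(1), x_ik(u)⁆ = x_ij(u)⁻¹ = x_ij(-u)`).
`hwb` with the indices `(k,j,i,l)`, `a` a lift of `x_kj(1)`, `b` of `x_ij(u)`, `c` of `x_jl(v)`:  `⁅a, lift x_il(uv)⁆ = Φ(u, v)`.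
So `Φ(-u,v) = Φ(u,v)`, and `Φ(-u,v) Φ(u,v) = Φ(0,v) = 1`. -/
theorem sq_eq_one (h : CE σ) (S : StR n K G) (H : Step1rc σ S) (i j k l : Fin n) (hij : i ≠ j) (hik : i ≠ k) (hil : i ≠ l) (hjk : j ≠ k) (hjl : j ≠ l) (hkl : k ≠ l)
    (u v : K) (γ δ : Γ) (hγ : σ γ = S.x i j u) (hδ : σ δ = S.x k l v) : ⁅γ, δ⁆ * ⁅γ, δ⁆ = 1 := by
  obtain ⟨a, ha⟩ := h.surj (S.x k j 1)
  obtain ⟨b, hb⟩ := h.surj (S.x i k u)
  obtain ⟨c', hc'⟩ := h.surj (S.x j l v)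
  have e1 : ⁅a, ⁅b, δ⁆⁆ = ⁅⁅a, b⁆, δ⁆ :=
    hwa h S H k j i l hjk.symm hik.symm hkl hij.symm hjl hil 1 u v a b δ ha hb hδ
  have e2 : ⁅a, ⁅γ, c'⁆⁆ = ⁅γ, ⁅a, c'⁆⁆ :=
    hwb h S H k j i l hjk.symm hik.symm hkl hij.symm hjl hil 1 u v a γ c' ha hγ hc'
  have e3 : ⁅a, ⁅b, δ⁆⁆ = ⁅a, ⁅γ, c'⁆⁆ := by
    apply comm_congr h rfl
    rw [map_brk, map_brk, hb, hδ, hγ, hc', chain_brk S i k l hik hkl hil,
      chain_brk S i j l hij hjl hil]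
  have e4 : ⁅γ, ⁅a, c'⁆⁆ = ⁅γ, δ⁆ := by
    apply comm_congr h rfl
    rw [map_brk, ha, hc', hδ, chain_brk S k j l hjk.symm hjl hkl, one_mul]
  have e5 : ⁅⁅a, b⁆, δ⁆ = ⁅γ⁻¹, δ⁆ := by
    apply comm_congr h _ rfl
    rw [map_brk, ha, hb, map_inv, hγ, ← commutatorElement_inv,
      chain_brk S i k j hik hjk.symm hij, mul_one]
  have e6 : ⁅γ⁻¹, δ⁆ = ⁅γ, δ⁆ := by
    rw [← e5, ← e1, e3, e2, e4]
  have hc : Commute (σ γ) (σ δ) := by
    rw [hγ, hδ]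
    exact S.comm i j k l hij hkl hil hjk u v
  have e7 := brk_mul_left h (a := γ⁻¹) (a' := γ) (b := δ) hc
  rw [inv_mul_cancel, e6] at e7
  rw [← e7]
  simp [commutatorElement_def]

/-- `Φ(s,t) = Φ(s/2,t)² = 1`; the pairs with `i = k` or `j = l` are in `H`. -/
theorem step1_of_rc_odd (h : CE σ) (S : StR n K G) (H : Step1rc σ S) (h2 : (2 : K) ≠ 0) :
    Step1 σ S := by
  intro i j k l hij hkl hil hjk s t
  by_cases hik : i = k
  · exact H i j k l hij hkl hil hjk (Or.inl hik) s t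
  by_cases hjl : j = l
  · exact H i j k l hij hkl hil hjk (Or.inr hjl) s t
  intro γ δ hγ hδ
  obtain ⟨γ', hγ'⟩ := h.surj (S.x i j (s / 2))
  have hc : Commute (σ γ') (σ δ) := by
    rw [hγ', hδ]
    exact S.comm i j k l hij hkl hil hjk _ _
  have e1 : ⁅γ, δ⁆ = ⁅γ' * γ', δ⁆ := by
    apply comm_congr h _ rfl
    have hs : s / 2 + s / 2 = s := by field_simp; ring
    rw [map_mul, hγ', hγ, ← S.add i j hij, hs]
  have e2 := brk_mul_left h (a := γ') (a' := γ') (b := δ) hc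
  have e3 := sq_eq_one h S H i j k l hij hik hil hjk hjl hkl (s / 2) t γ' δ hγ' hδ
  rw [← commutatorElement_eq_one_iff_commute, e1, e2, e3]

end Cfsg.Agent.Lib.H25SMODD
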