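import Cfsg.Agent.Lib.H25SMDefs
import Cfsg.Agent.Lib.H25SMLC
import Cfsg.Agent.Lib.H25SMFRESH
import Cfsg.Agent.Lib.H25SMTOR
import Cfsg.Agent.Lib.H25SMDIAG
import Cfsg.Agent.Lib.H25SMSL

/-! Project 2086 (S2086, Schur multiplier of PSL_n(q)), piece S13.  Overview: notes/helper25/SM.md -/

set_option autoImplicit false
set_option linter.unusedSectionVars false
set_option linter.unusedVariables false

namespace Cfsg.Agent.Lib.H25SMS13

open Matrix Cfsg Cfsg.Agent.Lib.Helper43R1 Cfsg.Agent.Lib.Helper43St Cfsg.Agent.Lib.H25SMDefs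
open Cfsg.Agent.Lib.H25SMLC Cfsg.Agent.Lib.H25SMFRESH Cfsg.Agent.Lib.H25SMTOR Cfsg.Agent.Lib.H25SMDIAG Cfsg.Agent.Lib.H25SMSL
open scoped commutatorElement

variable {Γ : Type*} [Group Γ] {K : Type*} [Field K] {σ : Γ →* SpecialLinearGroup (Fin 3) K}

/-- same row: `d = dg (v3 l c)` centralizes `tv i j s` (`v i = v j = c`) and `d tv i l t d⁻¹ = tv i l (c³ t)`. -/
theorem lc_row3 (h : CE σ) (c : K) (hc : c ≠ 0) (hc3 : c ^ 3 ≠ 1) (i j l : Fin 3) (hij : i ≠ j)
    (hil : i ≠ l) (hjl : j ≠ l) (s t : K) : Lc σ (tv i j s) (tv i l t) := by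
  have hv := prod_v3 l c hc
  refine lc_of_torus h (fun s => tv i j s) (fun t => tv i l t) ((slS 3 K).add i l hil)
    ((slS 3 K).comm i j i l hij hil hil hij.symm) (dg (v3 l c)) (c ^ 3) hc3 ?_ ?_ s t
  · intro s
    show dg (v3 l c) * tv i j s * (dg (v3 l c))⁻¹ = tv i j s
    rw [dg_conj _ hv i j hij]
    congr 1
    simp only [v3, if_neg hil, if_neg hjl]
    field_simp
  · intro t
    show dg (v3 l c) * tv i l t * (dg (v3 l c))⁻¹ = tv i l (c ^ 3 * t)
    rw [dg_conj _ hv i l hil]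
    congr 1
    simp only [v3, if_neg hil, if_true]
    field_simp

/-- same column: `d = dg (v3 k c)` centralizes `tv i j s` and `d tv k j t d⁻¹ = tv k j ((c³)⁻¹ t)`. -/
theorem lc_col3 (h : CE σ) (c : K) (hc : c ≠ 0) (hc3 : c ^ 3 ≠ 1) (i j k : Fin 3) (hij : i ≠ j)
    (hik : i ≠ k) (hjk : j ≠ k) (s t : K) : Lc σ (tv i j s) (tv k j t) := by
  have hv := prod_v3 k c hc
  have hc3' : (c ^ 3)⁻¹ ≠ 1 := by
    intro h1
    exact hc3 (inv_eq_one.1 h1)
  refine lc_of_torus h (fun s => tv i j s) (fun t => tv k j t) ((slS 3 K).add k j hjk.symm)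
    ((slS 3 K).comm i j k j hij hjk.symm hij hjk) (dg (v3 k c)) (c ^ 3)⁻¹ hc3' ?_ ?_ s t
  · intro s
    show dg (v3 k c) * tv i j s * (dg (v3 k c))⁻¹ = tv i j s
    rw [dg_conj _ hv i j hij]
    congr 1
    simp only [v3, if_neg hik, if_neg hjk]
    field_simp
  · intro t
    show dg (v3 k c) * tv k j t * (dg (v3 k c))⁻¹ = tv k j ((c ^ 3)⁻¹ * t)
    rw [dg_conj _ hv k j hjk.symm]
    congr 1
    simp only [v3, if_neg hjk, if_true]
    field_simp

/-- in `Fin 3` a commuting pair of roots is equal (`lc_same`), or has a common row, or a common column. -/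
theorem step1_three (h : CE σ) (c : K) (hc : c ≠ 0) (hc3 : c ^ 3 ≠ 1) : Step1 σ (slS 3 K) := by
  intro i j k l hij hkl hil hjk s t
  rw [slS_x, slS_x]
  by_cases hik : i = k
  · subst hik
    by_cases hjl : j = l
    · subst hjl
      exact lc_same h (slS 3 K) le_rfl i j hij s t
    · exact lc_row3 h c hc hc3 i j l hij hil hjl s t
  · by_cases hjl : j = l
    · subst hjl
      exact lc_col3 h c hc hc3 i j k hij hik hjk s t
    · exfalso
      revert hij hkl hil hjk hik hjl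
      revert i j k l
      decide

end Cfsg.Agent.Lib.H25SMS13
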