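import Cfsg.Agent.Lib.H25SMDefs
import Cfsg.Agent.Lib.H25SMSL

/-! Project 2086 (S2086, Schur multiplier of PSL_n(q)), piece SEC.  Overview: notes/helper25/SM.md -/

set_option autoImplicit false
set_option linter.unusedSectionVars false
set_option linter.unusedVariables false

namespace Cfsg.Agent.Lib.H25SMSEC

open Matrix Cfsg Cfsg.Agent.Lib.Helper43R1 Cfsg.Agent.Lib.Helper43St Cfsg.Agent.Lib.H25SMDefs
open Cfsg.Agent.Lib.H25SMSL
open scoped commutatorElement

variable {Γ : Type*} [Group Γ] {n : ℕ} {K : Type*} [Field K] {σ : Γ →* SpecialLinearGroup (Fin n) K}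

/-- `T : StR n K Γ` gives `φ : StG n K →* Γ`, `of (a,t) ↦ T.x a.1.1 a.1.2 t` (`PresentedGroup.toGroup`; the three families of relators of
`stRels` are `T.add`, `T.comm`, `T.chain`).  `σ ∘ φ = e` on the generators (`PresentedGroup.ext`; `tv_val`, `Matrix.transvection`), so `s = φ ∘ e.symm`. -/
theorem exists_section (hP : PresSL n K) (hL : Lifts σ (slS n K)) :
    ∃ s : SpecialLinearGroup (Fin n) K →* Γ, σ.comp s = MonoidHom.id _ := by
  obtain ⟨e, he⟩ := hP
  obtain ⟨T, hT⟩ := hL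
  have hrel : ∀ r ∈ stRels n K,
      FreeGroup.lift (fun p : Ix n × K => T.x p.1.1.1 p.1.1.2 p.2) r = 1 := by
    rintro r ((⟨a, t, u, rfl⟩ | ⟨a, b, t, u, h1, h2, rfl⟩) | ⟨a, b, hh, t, u, h1, rfl⟩)
    · simp only [map_mul, map_inv, FreeGroup.lift_apply_of]
      rw [T.add _ _ a.2, mul_inv_cancel]
    · simp only [map_mul, map_inv, FreeGroup.lift_apply_of]
      have hc := T.comm a.1.1 a.1.2 b.1.1 b.1.2 a.2 b.2 h1 h2 t u
      rw [hc.eq, mul_inv_cancel_right, mul_inv_cancel]
    · simp only [map_mul, map_inv, FreeGroup.lift_apply_of]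
      have hc := T.chain a.1.1 a.1.2 b.1.2 a.2 (h1 ▸ b.2) hh t u
      rw [← h1, hc, mul_inv_cancel]
  have hcomp : σ.comp (PresentedGroup.toGroup hrel) = e.toMonoidHom := by
    apply PresentedGroup.ext
    rintro ⟨a, t⟩
    show σ (PresentedGroup.toGroup hrel (PresentedGroup.of (a, t))) = e (PresentedGroup.of (a, t))
    rw [PresentedGroup.toGroup.of, hT _ _ _ a.2, slS_x]
    apply Subtype.ext
    rw [he, tv_val _ _ a.2]
    rfl
  refine ⟨(PresentedGroup.toGroup hrel).comp e.symm.toMonoidHom, ?_⟩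
  apply MonoidHom.ext
  intro g
  have h3 := DFunLike.congr_fun hcomp (e.symm g)
  simpa using h3

end Cfsg.Agent.Lib.H25SMSEC
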