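import Cfsg.Agent.Lib.H25SMDefs

/-! Project 2086 (S2086, Schur multiplier of PSL_n(q)), piece TRIV.  Overview: notes/helper25/SM.md -/

set_option autoImplicit false
set_option linter.unusedSectionVars false
set_option linter.unusedVariables false

namespace Cfsg.Agent.Lib.H25SMTRIV

open Matrix Cfsg Cfsg.Agent.Lib.Helper43R1 Cfsg.Agent.Lib.Helper43St Cfsg.Agent.Lib.H25SMDefs
open scoped commutatorElement

variable {Γ G : Type*} [Group Γ] [Group G] {σ : Γ →* G}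

theorem comm_central_aux {Γ : Type*} [Group Γ] (A B z w : Γ)
    (hz : ∀ g : Γ, g * z = z * g) (hw : ∀ g : Γ, g * w = w * g) :
    ⁅A * z, B * w⁆ = ⁅A, B⁆ := by
  rw [commutatorElement_def, commutatorElement_def]
  have e1 : (A * z)⁻¹ = z⁻¹ * A⁻¹ := _root_.mul_inv_rev _ _
  have e2 : (B * w)⁻¹ = w⁻¹ * B⁻¹ := _root_.mul_inv_rev _ _
  rw [e1, e2]
  calc A * z * (B * w) * (z⁻¹ * A⁻¹) * (w⁻¹ * B⁻¹)
      = A * (z * (B * w)) * z⁻¹ * A⁻¹ * w⁻¹ * B⁻¹ := by simp only [mul_assoc]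
    _ = A * ((B * w) * z) * z⁻¹ * A⁻¹ * w⁻¹ * B⁻¹ := by rw [hz (B * w)]
    _ = A * B * (w * A⁻¹) * w⁻¹ * B⁻¹ := by
        simp only [mul_assoc, mul_inv_cancel_left]
    _ = A * B * (A⁻¹ * w) * w⁻¹ * B⁻¹ := by rw [hw A⁻¹]
    _ = A * B * A⁻¹ * B⁻¹ := by simp only [mul_assoc, mul_inv_cancel_left]

/-- every `γ` is `s (σ γ) * z` with `z ∈ ker σ` central, so `commutator Γ ≤ s.range` (`Subgroup.commutator_le`/`commutator_def`, closure induction);
`ker σ ≤ commutator Γ ≤ s.range` and `s g ∈ ker σ` forces `g = 1`. -/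
theorem ker_eq_bot_of_section (hσ : IsStemExtension σ) (s : G →* Γ) (hs : σ.comp s = MonoidHom.id G) :
    σ.ker = ⊥ := by
  obtain ⟨-, hc, hk⟩ := hσ
  have hs' : ∀ g, σ (s g) = g := fun g => by
    have := congrArg (fun f : G →* G => f g) hs
    simpa using this
  -- decomposition
  have hdec : ∀ a : Γ, ∃ z ∈ Subgroup.center Γ, a = s (σ a) * z := by
    intro a
    refine ⟨(s (σ a))⁻¹ * a, hc ?_, by group⟩
    rw [MonoidHom.mem_ker, map_mul, map_inv, hs', inv_mul_cancel]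
  have hcomm : commutator Γ ≤ s.range := by
    rw [commutator_eq_closure, Subgroup.closure_le]
    rintro x ⟨a, b, rfl⟩
    obtain ⟨z, hz, ha⟩ := hdec a
    obtain ⟨w, hw, hb⟩ := hdec b
    refine ⟨⁅σ a, σ b⁆, ?_⟩
    rw [map_commutatorElement]
    have hz' : ∀ g : Γ, g * z = z * g := fun g => Subgroup.mem_center_iff.1 hz g
    have hw' : ∀ g : Γ, g * w = w * g := fun g => Subgroup.mem_center_iff.1 hw g
    have key := comm_central_aux (s (σ a)) (s (σ b)) z w hz' hw'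
    rw [← ha, ← hb] at key
    exact key.symm
  rw [eq_bot_iff]
  intro x hx
  obtain ⟨g, rfl⟩ := hcomm (hk hx)
  rw [MonoidHom.mem_ker, hs'] at hx
  rw [hx, map_one]
  exact Subgroup.mem_bot.2 rfl

end Cfsg.Agent.Lib.H25SMTRIV
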