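import Cfsg.Agent.Lib.H25SMDefs
import Cfsg.Agent.Lib.H25SMLC
import Cfsg.Agent.Lib.H25SMFRESH
import Cfsg.Agent.Lib.H25SMODD
import Cfsg.Agent.Lib.H25SMEVEN
import Cfsg.Agent.Lib.H25SMS13
import Cfsg.Agent.Lib.H25SMMILR
import Cfsg.Agent.Lib.H25SMN3L
import Cfsg.Agent.Lib.H25SMN3B
import Cfsg.Agent.Lib.H25SMSEC
import Cfsg.Agent.Lib.H25SMTRIV
import Cfsg.Agent.Lib.H25SMFIELD
import Cfsg.Agent.Lib.Helper69Schur

/-! Project 2086 (S2086): `SL_n(q)` has trivial Schur multiplier (assembly). -/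

set_option autoImplicit false

namespace Cfsg.Agent.Lib.H25SMMAIN

open Matrix Cfsg Cfsg.Agent.Lib.Helper43R1 Cfsg.Agent.Lib.Helper43St Cfsg.Agent.Lib.H25SMDefs
open Cfsg.Agent.Lib.H25SMLC Cfsg.Agent.Lib.H25SMFRESH Cfsg.Agent.Lib.H25SMODD Cfsg.Agent.Lib.H25SMEVEN
  Cfsg.Agent.Lib.H25SMS13 Cfsg.Agent.Lib.H25SMMILR Cfsg.Agent.Lib.H25SMN3L Cfsg.Agent.Lib.H25SMN3B
  Cfsg.Agent.Lib.H25SMSEC Cfsg.Agent.Lib.H25SMTRIV Cfsg.Agent.Lib.H25SMFIELD Cfsg.Agent.Lib.H25SMSL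

theorem lifts_three {Γ : Type*} [Group Γ] {K : Type*} [Field K]
    {σ : Γ →* SpecialLinearGroup (Fin 3) K} (h : CE σ) (c : K) (hc : c ≠ 0) (hc3 : c ^ 3 ≠ 1) :
    Lifts σ (slS 3 K) := by
  have H := step1_three h c hc hc3
  refine ⟨{ x := fun i j t => y3 σ h.surj c i j t
            add := fun i j hij s t => y3_add h H c hc hc3 i j hij s t
            comm := fun i j k l hij hkl hil hjk s t =>
              H i j k l hij hkl hil hjk s t _ _ (y3_map h c hc hc3 i j hij s) (y3_map h c hc hc3 k l hkl t)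
            chain := fun i j k hij hjk hik s t => y3_chain h H c hc hc3 i j k hij hjk hik s t },
    fun i j t hij => y3_map h c hc hc3 i j hij t⟩

theorem sl_lifts {Γ : Type*} [Group Γ] {K : Type*} [Field K] [Fintype K] (n : ℕ) (hn : 3 ≤ n)
    (hexc : (n, Fintype.card K) ∉ ({(3, 2), (3, 4), (4, 2)} : Set (ℕ × ℕ)))
    {σ : Γ →* SpecialLinearGroup (Fin n) K} (h : CE σ) : Lifts σ (slS n K) := by
  simp only [Set.mem_insert_iff, Set.mem_singleton_iff, Prod.mk.injEq, not_or, not_and] at hexc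
  obtain ⟨h32, h34, h42⟩ := hexc
  rcases Nat.lt_or_ge n 4 with h4 | h4
  · obtain rfl : n = 3 := by omega
    obtain ⟨c, hc, hc3⟩ := exists_cube_ne_one (K := K) (h32 rfl) (h34 rfl)
    exact lifts_three h c hc hc3
  · refine lifts_of_step1 h _ h4 ?_
    rcases Nat.lt_or_ge n 5 with h5 | h5
    · obtain rfl : n = 4 := by omega
      have Hrc := step1rc_of_four h (slS 4 K) le_rfl
      by_cases h2 : (2 : K) = 0
      · obtain ⟨e, he, he2⟩ := exists_sq_ne_one h2 (h42 rfl)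
        exact step1_of_rc_torus h Hrc e he he2
      · exact step1_of_rc_odd h _ Hrc h2
    · exact step1_of_five h _ h5

theorem sl_trivial {K : Type*} [Field K] [Fintype K] (n : ℕ) (hn : 3 ≤ n) (hP : PresSL n K)
    (hexc : (n, Fintype.card K) ∉ ({(3, 2), (3, 4), (4, 2)} : Set (ℕ × ℕ))) :
    HasCyclicSchurMultiplier (SpecialLinearGroup (Fin n) K) 1 := by
  classical
  rw [Cfsg.Agent.Lib.Helper69Schur.hasTrivialMultiplier_iff]
  intro Γ _ _ σ hσ
  obtain ⟨s, hs⟩ := exists_section hP (sl_lifts n hn hexc (σ := σ) ⟨hσ.1, hσ.2.1⟩)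
  exact ker_eq_bot_of_section hσ s hs

end Cfsg.Agent.Lib.H25SMMAIN
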