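import Cfsg.Agent.Lib.H25SMDefs
import Cfsg.Agent.Lib.Helper69Schur

/-! Project 2086 (S2086, Schur multiplier of PSL_n(q)), piece QUOT.  Overview: notes/helper25/SM.md -/

set_option autoImplicit false
set_option linter.unusedSectionVars false
set_option linter.unusedVariables false

namespace Cfsg.Agent.Lib.H25SMQUOT

open Matrix Cfsg Cfsg.Agent.Lib.Helper43R1 Cfsg.Agent.Lib.Helper43St Cfsg.Agent.Lib.H25SMDefs
open Cfsg.Agent.Lib.Helper69Schur
open scoped commutatorElement

universe u v

/-- Tools: Lib/Helper69Schur: `hasTrivialMultiplier_iff`, `pb`, `pb1`, `pb1_surjective`, `ker_pb1_le_center`, `commutator_le_map_of_surjective`,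
`exists_surj_ker_of_pb`.  For a finite stem extension `τ : Δ →* G` let `P = pb π τ`, `D = commutator P`.  `pb1` maps `D` onto `E` (`E` perfect), so
`P = D * ker pb1` with `ker pb1` central, so `D` is perfect; `pb1 |_D : D →* E` is a finite stem extension, so it is injective (`h1`):
`(pb1 π τ).ker ⊓ commutator P = ⊥`; now `exists_surj_ker_of_pb`. -/
theorem hasSchur_of_cover {E G : Type u} [Group E] [Finite E] [Group G] (π : E →* G)
    (hπ : Cfsg.IsStemExtension π) (hperf : commutator E = ⊤) (h1 : Cfsg.HasCyclicSchurMultiplier E 1)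
    {A : Type v} [CommGroup A] (e : π.ker ≃* A) : Cfsg.HasSchurMultiplier G A := by
  refine ⟨⟨E, inferInstance, inferInstance, π, hπ, ⟨e⟩⟩, ?_⟩
  intro Δ _ _ τ hτ
  have hbot : (pb1 π τ).ker ⊓ commutator (pb π τ) = ⊥ := by
    have hcen := ker_pb1_le_center π τ hτ.2.1
    have hsurj1 := pb1_surjective π τ hτ.1
    have hρsurj : Function.Surjective ((pb1 π τ).comp (commutator (pb π τ)).subtype) := by
      intro x
      have hx : x ∈ (commutator (pb π τ)).map (pb1 π τ) :=
        commutator_le_map_of_surjective _ hsurj1 (by rw [hperf]; trivial)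
      obtain ⟨p, hp, rfl⟩ := hx
      exact ⟨⟨p, hp⟩, rfl⟩
    have hperfD : commutator ↥(commutator (pb π τ)) = ⊤ := by
      have hle : commutator (pb π τ)
          ≤ (commutator ↥(commutator (pb π τ))).map (commutator (pb π τ)).subtype := by
        apply commutator_le_map
        intro a
        obtain ⟨d, hd⟩ := hρsurj (pb1 π τ a)
        refine ⟨d, hcen ?_⟩
        rw [MonoidHom.mem_ker, map_mul, map_inv]
        have : pb1 π τ ((commutator (pb π τ)).subtype d) = pb1 π τ a := hd
        rw [this, inv_mul_cancel]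
      rw [eq_top_iff]
      intro x _
      obtain ⟨y, hy, hyx⟩ := hle x.2
      have : y = x := Subtype.ext hyx
      rwa [← this]
    have hstem : Cfsg.IsStemExtension ((pb1 π τ).comp (commutator (pb π τ)).subtype) := by
      refine ⟨hρsurj, ?_, ?_⟩
      · intro x hx
        have hx' : (x : pb π τ) ∈ Subgroup.center (pb π τ) := hcen hx
        rw [Subgroup.mem_center_iff] at hx' ⊢
        intro g
        exact Subtype.ext (hx' g)
      · rw [hperfD]; exact le_top
    have hker := (hasTrivialMultiplier_iff.1 h1) _ _ hstem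
    rw [eq_bot_iff]
    rintro x ⟨hx1, hx2⟩
    have : (⟨x, hx2⟩ : ↥(commutator (pb π τ))) ∈ ((pb1 π τ).comp (commutator (pb π τ)).subtype).ker := hx1
    rw [hker, Subgroup.mem_bot] at this
    rw [Subgroup.mem_bot]
    exact congrArg Subtype.val this
  obtain ⟨f, hf⟩ := exists_surj_ker_of_pb π τ hπ.1 hτ.1 hπ.2.2 hτ.2.2 hbot
  exact ⟨f.comp e.symm.toMonoidHom, hf.comp e.symm.surjective⟩

end Cfsg.Agent.Lib.H25SMQUOT
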