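import Cfsg.Agent.Lib.H27WfProd

set_option autoImplicit false

namespace Cfsg.Agent.Lib.H27WfArith

open Subgroup Cfsg.Agent.Lib.H27WfDefs

variable {H : Type*} [Group H] [Finite H]

/-- The induction step of Wielandt's formula from the data of `H27WfData.exists_ker`. -/
theorem step_arith {p : ℕ} [Fact p.Prime] (A M N D : Subgroup H) (hA2 : Nat.card ↥A = p ^ 2)
    (hNM : N ≤ M) (hDA : D ≤ A) (hD : Nat.card ↥D = p ∨ D = A)
    (h1 : ∀ a ∈ D, Nat.card ↥(M ⊓ centralizer {a}) * Nat.card ↥N =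
        Nat.card ↥M * Nat.card ↥(N ⊓ centralizer {a}))
    (h2 : ∀ a ∈ A, a ∉ D → M ⊓ centralizer {a} ≤ N)
    (h3 : D = A → Nat.card ↥(M ⊓ centralizer (A : Set H)) * Nat.card ↥N =
        Nat.card ↥M * Nat.card ↥(N ⊓ centralizer (A : Set H)))
    (hW : Wf p A N) : Wf p A M := by
  have hp := (Fact.out : p.Prime)
  unfold Wf at hW ⊢
  have hinf : ∀ C : Subgroup H, M ⊓ C ≤ N → M ⊓ C = N ⊓ C := by
    intro C hC
    apply le_antisymm
    · exact le_inf hC inf_le_right
    · exact inf_le_inf_right _ hNM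
  have key := H27WfProd.prod_split A D hDA
    (fun a : A => Nat.card ↥(M ⊓ centralizer {(a : H)}))
    (fun a : A => Nat.card ↥(N ⊓ centralizer {(a : H)})) (Nat.card ↥M) (Nat.card ↥N)
    (fun a ha => h1 a ha) (fun a ha => by
      change Nat.card ↥(M ⊓ centralizer {(a : H)}) = Nat.card ↥(N ⊓ centralizer {(a : H)})
      rw [hinf _ (h2 a a.2 ha)])
  rw [hW] at key
  have hn : 0 < Nat.card ↥N := Nat.card_pos
  set P := ∏ᶠ a : A, Nat.card ↥(M ⊓ centralizer {(a : H)}) with hP
  set m := Nat.card ↥M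
  set n := Nat.card ↥N
  set c := Nat.card ↥(M ⊓ centralizer (A : Set H))
  set c' := Nat.card ↥(N ⊓ centralizer (A : Set H)) with hc'
  rcases hD with hD | hD
  · -- |D| = p
    rw [hD] at key
    obtain ⟨b, hbA, hbD⟩ : ∃ b ∈ A, b ∉ D := by
      by_contra hcon
      push Not at hcon
      have hle : A ≤ D := hcon
      have := Nat.le_of_dvd Nat.card_pos (card_dvd_of_le hle)
      rw [hA2, hD] at this
      have := hp.one_lt
      nlinarith
    have hcc : c = c' := by
      have : M ⊓ centralizer (A : Set H) = N ⊓ centralizer (A : Set H) := by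
        apply hinf
        refine le_trans ?_ (h2 b hbA hbD)
        exact inf_le_inf_left _ (centralizer_le (by simpa using hbA))
      simp only [c, c', this]
    rw [hcc]
    have : P * n ^ p = (m ^ p * c' ^ (p ^ 2 - p)) * n ^ p := by rw [key]; ring
    exact Nat.eq_of_mul_eq_mul_right (pow_pos hn p) this
  · have h3' := h3 hD
    rw [hD, hA2] at key
    obtain ⟨q, hq⟩ : ∃ q, p ^ 2 = p + q := ⟨p ^ 2 - p, by
      have : p ≤ p ^ 2 := by nlinarith [hp.one_lt]
      omega⟩
    have hq' : p ^ 2 - p = q := by omega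
    rw [hq'] at key ⊢
    rw [hq] at key
    have : P * n ^ (p + q) = (m ^ p * c ^ q) * n ^ (p + q) := by
      rw [key]
      calc m ^ (p + q) * (n ^ p * c' ^ q) = m ^ p * n ^ p * (m * c') ^ q := by ring
        _ = m ^ p * n ^ p * (c * n) ^ q := by rw [h3']
        _ = _ := by ring
    exact Nat.eq_of_mul_eq_mul_right (pow_pos hn _) this

end Cfsg.Agent.Lib.H27WfArith
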