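import Cfsg.Agent.Lib.H27WfDefs

set_option autoImplicit false

namespace Cfsg.Agent.Lib.H27WfDich

open Subgroup
open scoped Pointwise

variable {H : Type*} [Group H] [Finite H]

/-- `A` abelian normalizing `N ⊴ M`, no `A`-invariant subgroup strictly between `N` and `M`.  For
`a ∈ A`: either `C_M(a) ≤ N` or `a` acts trivially on `M / N`. -/
theorem dich (A M N : Subgroup H) (hAc : ∀ a ∈ A, ∀ b ∈ A, a * b = b * a)
    (hNM : N ≤ M) (hnorm : M ≤ normalizer (N : Set H))
    (hAM : A ≤ normalizer (M : Set H)) (hAN : A ≤ normalizer (N : Set H))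
    (hmax : ∀ L : Subgroup H, N ≤ L → L ≤ M → A ≤ normalizer (L : Set H) → L = N ∨ L = M)
    (a : H) (ha : a ∈ A) :
    M ⊓ centralizer {a} ≤ N ∨ ∀ m ∈ M, a * m * a⁻¹ * m⁻¹ ∈ N := by
  set C : Subgroup H := M ⊓ centralizer {a} with hC
  have hCN : C ≤ normalizer (N : Set H) := inf_le_left.trans hnorm
  have hcoe : ((C ⊔ N : Subgroup H) : Set H) = (C : Set H) * (N : Set H) :=
    Subgroup.coe_mul_of_left_le_normalizer_right C N hCN
  have hAC : ∀ b ∈ A, ∀ c ∈ C, b * c * b⁻¹ ∈ C := by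
    intro b hb c hc
    refine mem_inf.mpr ⟨(mem_normalizer_iff.mp (hAM hb) c).mp hc.1, ?_⟩
    have h2 := mem_centralizer_singleton_iff.mp hc.2
    rw [mem_centralizer_singleton_iff]
    have hab : a * b = b * a := hAc a ha b hb
    have hab' : b⁻¹ * a = a * b⁻¹ := by
      rw [eq_mul_inv_iff_mul_eq, mul_assoc, hab, inv_mul_cancel_left]
    calc b * c * b⁻¹ * a = b * (c * a) * b⁻¹ := by rw [mul_assoc, hab']; group
      _ = b * (a * c) * b⁻¹ := by rw [h2]
      _ = a * (b * c * b⁻¹) := by rw [← mul_assoc, ← hab]; group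
  have hAL : A ≤ normalizer ((C ⊔ N : Subgroup H) : Set H) := by
    intro b hb
    refine mem_normalizer_fintype ?_
    intro x hx
    have hx' : x ∈ ((C ⊔ N : Subgroup H) : Set H) := hx
    rw [hcoe] at hx'
    obtain ⟨c, hc, n, hn, rfl⟩ := hx'
    have e : b * (c * n) * b⁻¹ = (b * c * b⁻¹) * (b * n * b⁻¹) := by group
    change b * (c * n) * b⁻¹ ∈ C ⊔ N
    rw [e]
    exact (C ⊔ N).mul_mem (mem_sup_left (hAC b hb c hc))
      (mem_sup_right ((mem_normalizer_iff.mp (hAN hb) n).mp hn))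
  rcases hmax (C ⊔ N) le_sup_right (sup_le inf_le_left hNM) hAL with h | h
  · left
    rw [← h]; exact le_sup_left
  · right
    intro m hm
    have hm' : m ∈ ((C ⊔ N : Subgroup H) : Set H) := by rw [h]; exact hm
    rw [hcoe] at hm'
    obtain ⟨c, hc, n, hn, rfl⟩ := hm'
    have h2 : c * a = a * c := mem_centralizer_singleton_iff.mp hc.2
    have e : a * (c * n) * a⁻¹ * (c * n)⁻¹ = c * ((a * n * a⁻¹) * n⁻¹) * c⁻¹ := by
      rw [← mul_assoc, ← h2]; group
    rw [e]
    exact (mem_normalizer_iff.mp (hCN hc) _).mp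
      (N.mul_mem ((mem_normalizer_iff.mp (hAN ha) n).mp hn) (N.inv_mem hn))

end Cfsg.Agent.Lib.H27WfDich
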