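import Cfsg.Agent.Lib.H27WfDefs
import Cfsg.Agent.Lib.Helper30Gen
import Cfsg.Prelude

set_option autoImplicit false

namespace Cfsg.Agent.Lib.H27WfNe

open Subgroup

variable {H : Type*} [Group H] [Finite H]

/-- Generation by centralizers: `A` elementary abelian of order `p ^ 2` normalizing the `p'`-group
`M`, `N < M`.  Then `C_M(a) ≰ N` for some `1 ≠ a ∈ A`. -/
theorem exists_not_le {p : ℕ} [Fact p.Prime] (A M N : Subgroup H)
    (hA : Cfsg.IsElementaryAbelian p A) (hA2 : Nat.card ↥A = p ^ 2)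
    (hM : ¬ p ∣ Nat.card ↥M) (hAM : A ≤ normalizer (M : Set H)) (hNM : ¬ M ≤ N) :
    ∃ a ∈ A, a ≠ 1 ∧ ¬ M ⊓ centralizer {a} ≤ N := by
  have hp := (Fact.out : p.Prime)
  by_contra hcon
  push Not at hcon
  -- a non-identity element
  obtain ⟨w, hwA, hw1⟩ : ∃ a ∈ A, a ≠ 1 := by
    by_contra hc
    push Not at hc
    have : A = ⊥ := (eq_bot_iff_forall A).mpr hc
    rw [this, card_bot] at hA2
    have := hp.one_lt
    nlinarith
  have hwp : w ^ p = 1 := hA.2 w hwA
  have hcw : Nat.card ↥(zpowers w) = p := by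
    rw [Nat.card_zpowers]
    exact orderOf_eq_prime hwp hw1
  obtain ⟨z, hzA, hzw⟩ : ∃ z ∈ A, z ∉ zpowers w := by
    by_contra hc
    push Not at hc
    have hle : A ≤ zpowers w := hc
    have := Nat.le_of_dvd Nat.card_pos (card_dvd_of_le hle)
    rw [hA2, hcw] at this
    have := hp.one_lt
    nlinarith
  have hc : Commute w z := by
    have := hA.1.is_comm.comm ⟨w, hwA⟩ ⟨z, hzA⟩
    exact congrArg (fun t : ↥A => (t : H)) this
  have hcop : (Nat.card ↥M).Coprime p := ((Nat.Prime.coprime_iff_not_dvd hp).mpr hM).symm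
  have hgen := Helper30Gen.le_gen hc hwp (hA.2 z hzA) hcop (hAM hwA) (hAM hzA)
  apply hNM
  refine hgen.trans ?_
  unfold Helper30Gen.gen
  refine sup_le (hcon w hwA hw1) (iSup_le fun j => ?_)
  refine hcon _ (A.mul_mem hzA (A.pow_mem hwA j)) ?_
  intro h
  apply hzw
  have : z = (w ^ j)⁻¹ := eq_inv_of_mul_eq_one_left h
  rw [this]
  exact (zpowers w).inv_mem ((zpowers w).pow_mem (mem_zpowers w) j)

end Cfsg.Agent.Lib.H27WfNe
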