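import Cfsg.Agent.Lib.H27WfKer
import Cfsg.Agent.Lib.H27WfDich
import Cfsg.Agent.Lib.H27WfNe

set_option autoImplicit false

namespace Cfsg.Agent.Lib.H27WfData

open Subgroup

variable {H : Type*} [Group H] [Finite H]

omit [Finite H] in
theorem centralizer_zpowers_eq (a : H) :
    centralizer ((zpowers a : Subgroup H) : Set H) = centralizer {a} := by
  rw [zpowers_eq_closure, centralizer_closure]

/-- The kernel `D` of the action of `A` on the `A`-chief section `M / N`. -/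
theorem exists_ker {p : ℕ} [Fact p.Prime] (A M N : Subgroup H)
    (hA : Cfsg.IsElementaryAbelian p A) (hA2 : Nat.card ↥A = p ^ 2)
    (hM : ¬ p ∣ Nat.card ↥M) (hNM : N ≤ M) (hne : N ≠ M) (hnorm : M ≤ normalizer (N : Set H))
    (hAM : A ≤ normalizer (M : Set H)) (hAN : A ≤ normalizer (N : Set H))
    (hmax : ∀ L : Subgroup H, N ≤ L → L ≤ M → A ≤ normalizer (L : Set H) → L = N ∨ L = M) :
    ∃ D : Subgroup H, D ≤ A ∧ (Nat.card ↥D = p ∨ D = A) ∧
      (∀ a ∈ D, Nat.card ↥(M ⊓ centralizer {a}) * Nat.card ↥N =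
        Nat.card ↥M * Nat.card ↥(N ⊓ centralizer {a})) ∧
      (∀ a ∈ A, a ∉ D → M ⊓ centralizer {a} ≤ N) ∧
      (D = A → Nat.card ↥(M ⊓ centralizer (A : Set H)) * Nat.card ↥N =
        Nat.card ↥M * Nat.card ↥(N ⊓ centralizer (A : Set H))) := by
  have hp := (Fact.out : p.Prime)
  have hAp : IsPGroup p A := IsPGroup.of_card hA2
  have hAc : ∀ a ∈ A, ∀ b ∈ A, a * b = b * a := by
    intro a ha b hb
    have := hA.1.is_comm.comm ⟨a, ha⟩ ⟨b, hb⟩
    exact congrArg (fun t : ↥A => (t : H)) this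
  let D : Subgroup H :=
    { carrier := {a | a ∈ A ∧ ∀ m ∈ M, a * m * a⁻¹ * m⁻¹ ∈ N}
      one_mem' := ⟨A.one_mem, fun m _ => by simp⟩
      mul_mem' := by
        rintro a b ⟨ha, ha'⟩ ⟨hb, hb'⟩
        refine ⟨A.mul_mem ha hb, fun m hm => ?_⟩
        have e : a * b * m * (a * b)⁻¹ * m⁻¹ =
            (a * (b * m * b⁻¹ * m⁻¹) * a⁻¹) * (a * m * a⁻¹ * m⁻¹) := by group
        rw [e]
        exact N.mul_mem ((mem_normalizer_iff.mp (hAN ha) _).mp (hb' m hm)) (ha' m hm)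
      inv_mem' := by
        rintro a ⟨ha, ha'⟩
        refine ⟨A.inv_mem ha, fun m hm => ?_⟩
        have hm' : a⁻¹ * m * a ∈ M := by
          have := (mem_normalizer_iff.mp (hAM (A.inv_mem ha)) m).mp hm
          simpa using this
        have h := N.inv_mem (ha' _ hm')
        have e : (a * (a⁻¹ * m * a) * a⁻¹ * (a⁻¹ * m * a)⁻¹)⁻¹ = a⁻¹ * m * a⁻¹⁻¹ * m⁻¹ := by group
        rwa [e] at h }
  have hDmem : ∀ a, a ∈ D ↔ a ∈ A ∧ ∀ m ∈ M, a * m * a⁻¹ * m⁻¹ ∈ N := fun a => Iff.rfl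
  have hDA : D ≤ A := fun a ha => ha.1
  have hoff : ∀ a ∈ A, a ∉ D → M ⊓ centralizer {a} ≤ N := by
    intro a ha haD
    rcases H27WfDich.dich A M N hAc hNM hnorm hAM hAN hmax a ha with h | h
    · exact h
    · exact absurd ((hDmem a).mpr ⟨ha, h⟩) haD
  have hDne : D ≠ ⊥ := by
    intro hD
    obtain ⟨a, ha, ha1, hle⟩ := H27WfNe.exists_not_le A M N hA hA2 hM hAM
      (fun h => hne (le_antisymm hNM h))
    apply hle
    apply hoff a ha
    rw [hD, mem_bot]; exact ha1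
  refine ⟨D, hDA, ?_, ?_, hoff, ?_⟩
  · have hdvd : Nat.card ↥D ∣ p ^ 2 := hA2 ▸ card_dvd_of_le hDA
    obtain ⟨k, hk, hk'⟩ := (Nat.dvd_prime_pow hp).mp hdvd
    interval_cases k
    · exfalso
      apply hDne
      rw [pow_zero] at hk'
      exact (card_eq_one).mp hk'
    · left; rw [hk', pow_one]
    · right
      exact eq_of_le_of_card_ge hDA (by rw [hk', hA2])
  · intro a ha
    have hz : zpowers a ≤ D := zpowers_le.mpr ha
    have := H27WfKer.card_of_trivial (zpowers a) M N (hAp.to_le (hz.trans hDA)) hM hNM hnorm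
      ((hz.trans hDA).trans hAN) (fun b hb m hm => (hz hb).2 m hm)
    rwa [centralizer_zpowers_eq] at this
  · intro hD
    exact H27WfKer.card_of_trivial A M N hAp hM hNM hnorm hAN
      (fun b hb m hm => ((hDmem b).mp (hD ▸ hb)).2 m hm)

end Cfsg.Agent.Lib.H27WfData
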