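import Mathlib

set_option autoImplicit false

/-! # Wielandt's order formula for `C_p × C_p` acting coprimely (vocabulary)

`Wf p A U` : `∏_{a ∈ A} |C_U(a)| = |U|^p · |C_U(A)|^(p²-p)`. -/

namespace Cfsg.Agent.Lib.H27WfDefs

open Subgroup

variable {H : Type*} [Group H]

/-- Wielandt's formula (element form) for the subgroup `A` (of order `p ^ 2`) acting by conjugation
on the subgroup `U`. -/
def Wf (p : ℕ) (A U : Subgroup H) : Prop :=
  ∏ᶠ a : A, Nat.card ↥(U ⊓ centralizer {(a : H)}) =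
    Nat.card ↥U ^ p * Nat.card ↥(U ⊓ centralizer (A : Set H)) ^ (p ^ 2 - p)

end Cfsg.Agent.Lib.H27WfDefs
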