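import Cfsg.Agent.Lib.H27WfFix

set_option autoImplicit false

namespace Cfsg.Agent.Lib.H27WfFac

open Subgroup
open scoped Pointwise

variable {H : Type*} [Group H] [Finite H]

/-- If the `p`-subgroup `A` normalizes `U` and `V`, `p ∤ |U ∩ V|`, and `w ∈ U V` is centralized by
`A`, then `w ∈ C_U(A) C_V(A)`. -/
theorem fac {p : ℕ} [Fact p.Prime] (A U V : Subgroup H) (hA : IsPGroup p A)
    (hU : A ≤ normalizer (U : Set H)) (hV : A ≤ normalizer (V : Set H))
    (hc : ¬ p ∣ Nat.card ↥(U ⊓ V)) {w : H} (hw : w ∈ (U : Set H) * (V : Set H))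
    (hwA : w ∈ centralizer (A : Set H)) :
    w ∈ ((U ⊓ centralizer (A : Set H) : Subgroup H) : Set H) *
      ((V ⊓ centralizer (A : Set H) : Subgroup H) : Set H) := by
  obtain ⟨u, hu, v, hv, hw⟩ := hw
  replace hw : w = u * v := hw.symm
  set S : Set H := {u' | u' ∈ U ∧ u'⁻¹ * w ∈ V} with hS
  have hcard : Nat.card S = Nat.card ↥(U ⊓ V) := by
    refine (Nat.card_congr (Equiv.ofBijective
      (fun t : ↥(U ⊓ V) => (⟨u * t, U.mul_mem hu t.2.1, ?_⟩ : S)) ⟨?_, ?_⟩)).symm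
    · have : (u * (t : H))⁻¹ * w = (t : H)⁻¹ * v := by rw [hw]; group
      rw [this]
      exact V.mul_mem (V.inv_mem t.2.2) hv
    · intro s t hst
      have := congrArg Subtype.val hst
      exact Subtype.ext (mul_left_cancel this)
    · rintro ⟨s, hs1, hs2⟩
      refine ⟨⟨u⁻¹ * s, U.mul_mem (U.inv_mem hu) hs1, ?_⟩, Subtype.ext (by simp)⟩
      have : u⁻¹ * s = v * (s⁻¹ * w)⁻¹ := by rw [hw]; group
      rw [this]
      exact V.mul_mem hv (V.inv_mem hs2)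
  have hwc : ∀ a ∈ A, a * w * a⁻¹ = w := by
    intro a ha
    rw [mem_centralizer_iff] at hwA
    rw [hwA a ha]; group
  have hinv : ∀ a ∈ A, ∀ s ∈ S, a * s * a⁻¹ ∈ S := by
    intro a ha s hs
    refine ⟨(mem_normalizer_iff.mp (hU ha) s).mp hs.1, ?_⟩
    have : (a * s * a⁻¹)⁻¹ * w = a * (s⁻¹ * w) * a⁻¹ := by
      conv_lhs => rw [← hwc a ha]
      group
    rw [this]
    exact (mem_normalizer_iff.mp (hV ha) _).mp hs.2
  obtain ⟨s, hs, hsA⟩ := H27WfFix.exists_fixed A hA S hinv (by rw [hcard]; exact hc)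
  refine ⟨s, ⟨hs.1, hsA⟩, s⁻¹ * w, ⟨hs.2, ?_⟩, by group⟩
  exact (centralizer (A : Set H)).mul_mem ((centralizer (A : Set H)).inv_mem hsA) hwA

end Cfsg.Agent.Lib.H27WfFac
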