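import Cfsg.Agent.Lib.H27WfDefs

set_option autoImplicit false

namespace Cfsg.Agent.Lib.H27WfFin

open Subgroup Cfsg.Agent.Lib.H27WfDefs

variable {H : Type*} [Group H] [Finite H]

/-- PURE ARITHMETIC with the four Wielandt formulas. -/
theorem card_eq {p : ℕ} [Fact p.Prime] (A K X Y : Subgroup H)
    (WK : Wf p A K) (WX : Wf p A X) (WY : Wf p A Y) (WI : Wf p A (X ⊓ Y))
    (h1 : ∀ a ∈ A, a ≠ 1 →
      Nat.card ↥(K ⊓ centralizer {a}) * Nat.card ↥((X ⊓ Y) ⊓ centralizer {a}) =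
        Nat.card ↥(X ⊓ centralizer {a}) * Nat.card ↥(Y ⊓ centralizer {a}))
    (h2 : Nat.card ↥(K ⊓ centralizer (A : Set H)) * Nat.card ↥((X ⊓ Y) ⊓ centralizer (A : Set H)) =
        Nat.card ↥(X ⊓ centralizer (A : Set H)) * Nat.card ↥(Y ⊓ centralizer (A : Set H))) :
    Nat.card ↥K * Nat.card ↥(X ⊓ Y) = Nat.card ↥X * Nat.card ↥Y := by
  classical
  have : Fintype A := Fintype.ofFinite A
  have hp := (Fact.out : p.Prime)
  unfold Wf at WK WX WY WI
  rw [finprod_eq_prod_of_fintype] at WK WX WY WI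
  have hone : ∀ U : Subgroup H, Nat.card ↥(U ⊓ centralizer {((1 : A) : H)}) = Nat.card ↥U := by
    intro U
    have e : centralizer {((1 : A) : H)} = ⊤ := by
      ext x; simp [mem_centralizer_iff]
    rw [e, inf_top_eq]
  have hsplit : ∀ U : Subgroup H, ∏ a : A, Nat.card ↥(U ⊓ centralizer {(a : H)}) =
      Nat.card ↥U * ∏ a ∈ (Finset.univ : Finset A).erase 1,
        Nat.card ↥(U ⊓ centralizer {(a : H)}) := by
    intro U
    rw [← Finset.mul_prod_erase Finset.univ _ (Finset.mem_univ (1 : A)), hone]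
  rw [hsplit] at WK WX WY WI
  have hP : (∏ a ∈ (Finset.univ : Finset A).erase 1, Nat.card ↥(K ⊓ centralizer {(a : H)})) *
      (∏ a ∈ (Finset.univ : Finset A).erase 1, Nat.card ↥((X ⊓ Y) ⊓ centralizer {(a : H)})) =
      (∏ a ∈ (Finset.univ : Finset A).erase 1, Nat.card ↥(X ⊓ centralizer {(a : H)})) *
      (∏ a ∈ (Finset.univ : Finset A).erase 1, Nat.card ↥(Y ⊓ centralizer {(a : H)})) := by
    rw [← Finset.prod_mul_distrib, ← Finset.prod_mul_distrib]
    refine Finset.prod_congr rfl fun a ha => h1 a a.2 ?_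
    intro h
    exact (Finset.mem_erase.mp ha).1 (Subtype.ext h)
  have hpos : ∀ V : Subgroup H, 0 < Nat.card ↥V := fun V => Nat.card_pos
  have hk := hpos K
  have hi := hpos (X ⊓ Y)
  have hx := hpos X
  have hy := hpos Y
  have hcK := hpos (K ⊓ centralizer (A : Set H))
  have hcI := hpos ((X ⊓ Y) ⊓ centralizer (A : Set H))
  generalize (∏ a ∈ (Finset.univ : Finset A).erase 1, Nat.card ↥(K ⊓ centralizer {(a : H)})) = PK
    at WK hP
  generalize (∏ a ∈ (Finset.univ : Finset A).erase 1,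
    Nat.card ↥((X ⊓ Y) ⊓ centralizer {(a : H)})) = PI at WI hP
  generalize (∏ a ∈ (Finset.univ : Finset A).erase 1, Nat.card ↥(X ⊓ centralizer {(a : H)})) = PX
    at WX hP
  generalize (∏ a ∈ (Finset.univ : Finset A).erase 1, Nat.card ↥(Y ⊓ centralizer {(a : H)})) = PY
    at WY hP
  generalize Nat.card ↥(K ⊓ centralizer (A : Set H)) = cK at *
  generalize Nat.card ↥((X ⊓ Y) ⊓ centralizer (A : Set H)) = cI at *
  generalize Nat.card ↥(X ⊓ centralizer (A : Set H)) = cX at *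
  generalize Nat.card ↥(Y ⊓ centralizer (A : Set H)) = cY at *
  generalize Nat.card ↥K = k at *
  generalize Nat.card ↥(X ⊓ Y) = i at *
  generalize Nat.card ↥X = x at *
  generalize Nat.card ↥Y = y at *
  generalize p ^ 2 - p = q at *
  obtain ⟨e, rfl⟩ : ∃ e, p = e + 1 := ⟨p - 1, by have := hp.one_lt; omega⟩
  have he : e ≠ 0 := by have := hp.one_lt; omega
  have E1 : (k * i) * (PK * PI) = (k * i) * ((k * i) ^ e * (cK * cI) ^ q) := by
    calc (k * i) * (PK * PI) = (k * PK) * (i * PI) := by ring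
      _ = (k ^ (e + 1) * cK ^ q) * (i ^ (e + 1) * cI ^ q) := by rw [WK, WI]
      _ = _ := by ring
  have E2 : (x * y) * (PX * PY) = (x * y) * ((x * y) ^ e * (cX * cY) ^ q) := by
    calc (x * y) * (PX * PY) = (x * PX) * (y * PY) := by ring
      _ = (x ^ (e + 1) * cX ^ q) * (y ^ (e + 1) * cY ^ q) := by rw [WX, WY]
      _ = _ := by ring
  have E1' := Nat.eq_of_mul_eq_mul_left (Nat.mul_pos hk hi) E1
  have E2' := Nat.eq_of_mul_eq_mul_left (Nat.mul_pos hx hy) E2
  rw [hP, E2', ← h2] at E1'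
  have E3 := Nat.eq_of_mul_eq_mul_right (pow_pos (Nat.mul_pos hcK hcI) q) E1'
  exact (Nat.pow_left_injective he E3).symm

end Cfsg.Agent.Lib.H27WfFin
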