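import Cfsg.Agent.Lib.H27WfDefs

set_option autoImplicit false

namespace Cfsg.Agent.Lib.H27WfFix

open Subgroup

variable {H : Type*} [Group H] [Finite H]

/-- A `p`-subgroup `A` acting by conjugation on an invariant subset `S` of size prime to `p` fixes a
point of `S`. -/
theorem exists_fixed {p : ℕ} [Fact p.Prime] (A : Subgroup H) (hA : IsPGroup p A) (S : Set H)
    (hS : ∀ a ∈ A, ∀ s ∈ S, a * s * a⁻¹ ∈ S) (hc : ¬ p ∣ Nat.card S) :
    ∃ s ∈ S, s ∈ centralizer (A : Set H) := by
  letI : MulAction A S :=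
    { smul := fun a s => ⟨a * s * (a : H)⁻¹, hS a a.2 s s.2⟩
      one_smul := fun s => Subtype.ext (by
        change ((1 : A) : H) * s * ((1 : A) : H)⁻¹ = s
        simp)
      mul_smul := fun a b s => Subtype.ext (by
        change ((a * b : A) : H) * s * ((a * b : A) : H)⁻¹ = a * (b * s * (b : H)⁻¹) * (a : H)⁻¹
        simp [mul_assoc]) }
  obtain ⟨s, hs⟩ := hA.nonempty_fixed_point_of_prime_not_dvd_card S hc
  refine ⟨s, s.2, ?_⟩
  rw [mem_centralizer_iff]
  intro a ha
  have h := hs ⟨a, ha⟩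
  have h' : a * s * a⁻¹ = s := congrArg Subtype.val h
  exact mul_inv_eq_iff_eq_mul.mp h'

end Cfsg.Agent.Lib.H27WfFix
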