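import Cfsg.Agent.Lib.H27WfDefs
import Cfsg.Agent.Lib.Helper1SylowInv

set_option autoImplicit false

namespace Cfsg.Agent.Lib.H27WfSyl

open Subgroup
open scoped Pointwise

variable {H : Type*} [Group H] [Finite H]

/-- Coprime action: an `A`-invariant Sylow `r`-subgroup `R` of `U`; for EVERY `B ≤ A` the subgroup
`C_R(B)` is a Sylow `r`-subgroup of `C_U(B)`. -/
theorem exists_syl {p : ℕ} [Fact p.Prime] (A U : Subgroup H) (hA : IsPGroup p A)
    (hAU : A ≤ normalizer (U : Set H)) (hU : ¬ p ∣ Nat.card ↥U) (r : ℕ) [Fact r.Prime] :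
    ∃ R : Subgroup H, R ≤ U ∧ IsPGroup r R ∧ A ≤ normalizer (R : Set H) ∧
      ∀ B : Subgroup H, B ≤ A → Nat.card ↥(R ⊓ centralizer (B : Set H)) =
        r ^ (Nat.card ↥(U ⊓ centralizer (B : Set H))).factorization r := by
  have hp := (Fact.out : p.Prime)
  have hcopB : ∀ B : Subgroup H, B ≤ A → (Nat.card ↥B).Coprime (Nat.card ↥U) := by
    intro B hB
    obtain ⟨k, hk⟩ := (hA.to_le hB).exists_card_eq
    rw [hk]
    exact Nat.Coprime.pow_left k ((Nat.Prime.coprime_iff_not_dvd hp).mpr hU)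
  have hsolvB : ∀ B : Subgroup H, B ≤ A → Group.IsSolvable ↥B := by
    intro B hB
    have : Group.IsNilpotent ↥B := (hA.to_le hB).isNilpotent
    infer_instance
  obtain ⟨P, hP⟩ := Helper1SylowInv.exists_invariant_sylow A U hAU (hcopB A le_rfl)
    (Or.inl (hsolvB A le_rfl)) r
  set R : Subgroup H := (P : Subgroup U).map U.subtype with hR
  have hRU : R ≤ U := by
    rintro _ ⟨x, -, rfl⟩; exact x.2
  have hRp : IsPGroup r R := P.isPGroup'.map U.subtype
  refine ⟨R, hRU, hRp, hP, ?_⟩
  intro B hBA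
  set C : Subgroup H := U ⊓ centralizer (B : Set H) with hC
  set CR : Subgroup H := R ⊓ centralizer (B : Set H) with hCR
  have hCRC : CR ≤ C := inf_le_inf_right _ hRU
  have hCRp : IsPGroup r CR := hRp.to_le inf_le_left
  obtain ⟨S, hS⟩ := (hCRp.comap_subtype (K := C)).exists_le_sylow
  set S' : Subgroup H := (S : Subgroup C).map C.subtype with hS'
  have hS'C : S' ≤ C := by
    rintro _ ⟨x, -, rfl⟩; exact x.2
  have hS'p : IsPGroup r S' := S.isPGroup'.map C.subtype
  have hCRS' : CR ≤ S' := by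
    intro x hx
    exact ⟨⟨x, hCRC hx⟩, hS (mem_subgroupOf.mpr hx), rfl⟩
  have hBS' : B ≤ normalizer (S' : Set H) := by
    intro b hb
    rw [mem_normalizer_iff]
    intro x
    constructor
    · intro hx
      have := (mem_centralizer_iff.mp (hS'C hx).2) b hb
      rw [this]; simpa using hx
    · intro hx
      have h2 := (mem_centralizer_iff.mp (hS'C hx).2) b hb
      have : b * x * b⁻¹ = x := by
        have e : b * (b * x * b⁻¹) = b * x * b⁻¹ * b := h2
        have e2 : b * x * b⁻¹ * b = b * x := by group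
        rw [e2] at e
        exact mul_left_cancel e
      rwa [this] at hx
  obtain ⟨P', hS'P', hBP'⟩ := Helper1SylowInv.exists_invariant_sylow_ge B U (hBA.trans hAU)
    (hcopB B hBA) (Or.inl (hsolvB B hBA)) r S' (hS'C.trans inf_le_left) hS'p hBS'
  obtain ⟨c, hcB, hc⟩ := Helper1SylowInv.exists_centralizer_conj_sylow B U (hBA.trans hAU)
    (hcopB B hBA) (Or.inl (hsolvB B hBA)) r P' P hBP' (hBA.trans hP)
  -- conjugation by c maps S' into CR
  have hmap : ∀ s ∈ S', (c : H) * s * (c : H)⁻¹ ∈ CR := by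
    intro s hs
    refine mem_inf.mpr ⟨?_, ?_⟩
    · obtain ⟨x, hx, rfl⟩ := hS'P' hs
      refine ⟨c * x * c⁻¹, ?_, by simp⟩
      have : c * x * c⁻¹ ∈ ((MulAut.conj c • P' : Sylow r U) : Subgroup U) := by
        rw [Sylow.pointwise_smul_def]
        exact ⟨x, hx, by simp [MulAut.conj_apply]⟩
      rwa [hc] at this
    · exact (centralizer (B : Set H)).mul_mem ((centralizer (B : Set H)).mul_mem hcB (hS'C hs).2)
        ((centralizer (B : Set H)).inv_mem hcB)
  have hle : Nat.card ↥S' ≤ Nat.card ↥CR := by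
    refine Nat.card_le_card_of_injective
      (fun s : ↥S' => (⟨(c : H) * s * (c : H)⁻¹, hmap s s.2⟩ : ↥CR)) ?_
    intro s t hst
    have := congrArg Subtype.val hst
    simp only [mul_left_inj, mul_right_inj] at this
    exact Subtype.ext this
  have heq : CR = S' := eq_of_le_of_card_ge hCRS' hle
  rw [heq, hS', card_map_of_injective C.subtype_injective, S.card_eq_multiplicity]

end Cfsg.Agent.Lib.H27WfSyl
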