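import Cfsg.Agent.Lib.H27WfNil
import Cfsg.Agent.Lib.H27WfSyl

set_option autoImplicit false

namespace Cfsg.Agent.Lib.H27WfGen

open Subgroup Cfsg.Agent.Lib.H27WfDefs

variable {H : Type*} [Group H] [Finite H]

/-- Wielandt's formula for an arbitrary `A`-invariant `p'`-subgroup `U`. -/
theorem wf {p : ℕ} [Fact p.Prime] (A : Subgroup H)
    (hA : Cfsg.IsElementaryAbelian p A) (hA2 : Nat.card ↥A = p ^ 2)
    (U : Subgroup H) (hU : ¬ p ∣ Nat.card ↥U) (hAU : A ≤ normalizer (U : Set H)) : Wf p A U := by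
  classical
  have : Fintype A := Fintype.ofFinite A
  have hAp : IsPGroup p A := IsPGroup.of_card hA2
  unfold Wf
  rw [finprod_eq_prod_of_fintype]
  have hne : ∀ V : Subgroup H, Nat.card ↥V ≠ 0 := fun V => Nat.card_pos.ne'
  refine Nat.eq_of_factorization_eq (Finset.prod_ne_zero_iff.mpr fun a _ => hne _)
    (mul_ne_zero (pow_ne_zero _ (hne _)) (pow_ne_zero _ (hne _))) ?_
  intro r
  by_cases hr : r.Prime
  swap
  · rw [Nat.factorization_eq_zero_of_not_prime _ hr, Nat.factorization_eq_zero_of_not_prime _ hr]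
  have : Fact r.Prime := ⟨hr⟩
  obtain ⟨R, hRU, hRp, hAR, hB⟩ := H27WfSyl.exists_syl A U hAp hAU hU r
  have W := H27WfNil.wf_pgroup A hA hA2 r R hRp (fun h => hU (h.trans (card_dvd_of_le hRU))) hAR
  unfold Wf at W
  rw [finprod_eq_prod_of_fintype] at W
  have h1 : ∀ a : A, Nat.card ↥(R ⊓ centralizer {(a : H)}) =
      r ^ (Nat.card ↥(U ⊓ centralizer {(a : H)})).factorization r := by
    intro a
    have := hB (zpowers (a : H)) (zpowers_le.mpr a.2)
    rwa [H27WfData.centralizer_zpowers_eq] at this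
  have h2 : Nat.card ↥R = r ^ (Nat.card ↥U).factorization r := by
    have := hB ⊥ bot_le
    have e : centralizer (((⊥ : Subgroup H) : Subgroup H) : Set H) = ⊤ := by
      ext x; simp [mem_centralizer_iff]
    rwa [e, inf_top_eq, inf_top_eq] at this
  have h3 := hB A le_rfl
  simp_rw [h1] at W
  rw [h2, h3, Finset.prod_pow_eq_pow_sum, ← pow_mul, ← pow_mul, ← pow_add] at W
  have W' := Nat.pow_right_injective hr.two_le W
  rw [Nat.factorization_prod (fun a _ => hne _), Finsupp.finsetSum_apply,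
    Nat.factorization_mul (pow_ne_zero _ (hne _)) (pow_ne_zero _ (hne _)),
    Nat.factorization_pow, Nat.factorization_pow, Finsupp.add_apply, Finsupp.smul_apply,
    Finsupp.smul_apply, W', smul_eq_mul, smul_eq_mul]
  ring

end Cfsg.Agent.Lib.H27WfGen
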