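import Cfsg.Agent.Lib.H27WfFix
import Cfsg.Agent.Lib.Helper12Card

set_option autoImplicit false

namespace Cfsg.Agent.Lib.H27WfKer

open Subgroup
open scoped Pointwise

variable {H : Type*} [Group H] [Finite H]

/-- `N ⊴ M`, `p ∤ |M|`, the `p`-subgroup `B` normalizes `N` and acts trivially on `M / N`.  Then
`|C_M(B)| · |N| = |M| · |C_N(B)|`. -/
theorem card_of_trivial {p : ℕ} [Fact p.Prime] (B M N : Subgroup H) (hB : IsPGroup p B)
    (hM : ¬ p ∣ Nat.card ↥M) (hNM : N ≤ M) (hnorm : M ≤ normalizer (N : Set H))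
    (hBN : B ≤ normalizer (N : Set H))
    (htriv : ∀ b ∈ B, ∀ m ∈ M, b * m * b⁻¹ * m⁻¹ ∈ N) :
    Nat.card ↥(M ⊓ centralizer (B : Set H)) * Nat.card ↥N =
      Nat.card ↥M * Nat.card ↥(N ⊓ centralizer (B : Set H)) := by
  have hNp : ¬ p ∣ Nat.card ↥N := fun h => hM (h.trans (card_dvd_of_le hNM))
  have hset : (M : Set H) = ((M ⊓ centralizer (B : Set H) : Subgroup H) : Set H) * (N : Set H) := by
    apply Set.Subset.antisymm
    · intro m hm
      set S : Set H := {x | m⁻¹ * x ∈ N} with hS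
      have hcard : Nat.card S = Nat.card ↥N := by
        refine (Nat.card_congr (Equiv.ofBijective
          (fun t : ↥N => (⟨m * t, ?_⟩ : S)) ⟨?_, ?_⟩)).symm
        · change m⁻¹ * (m * (t : H)) ∈ N
          rw [inv_mul_cancel_left]; exact t.2
        · intro s t hst
          have := congrArg Subtype.val hst
          exact Subtype.ext (mul_left_cancel this)
        · rintro ⟨s, hs⟩
          exact ⟨⟨m⁻¹ * s, hs⟩, Subtype.ext (by simp)⟩
      have hinv : ∀ b ∈ B, ∀ s ∈ S, b * s * b⁻¹ ∈ S := by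
        intro b hb s hs
        change m⁻¹ * (b * s * b⁻¹) ∈ N
        have e : m⁻¹ * (b * s * b⁻¹) =
            m⁻¹ * (b * m * b⁻¹ * m⁻¹) * m * (b * (m⁻¹ * s) * b⁻¹) := by group
        rw [e]
        refine N.mul_mem ?_ ((mem_normalizer_iff.mp (hBN hb) _).mp hs)
        have := (mem_normalizer_iff.mp (hnorm (M.inv_mem hm)) _).mp (htriv b hb m hm)
        simpa using this
      obtain ⟨s, hs, hsB⟩ := H27WfFix.exists_fixed B hB S hinv (by rw [hcard]; exact hNp)
      have hsM : s ∈ M := by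
        have : s = m * (m⁻¹ * s) := by group
        rw [this]; exact M.mul_mem hm (hNM hs)
      refine ⟨s, ⟨hsM, hsB⟩, s⁻¹ * m, ?_, by group⟩
      have : s⁻¹ * m = (m⁻¹ * s)⁻¹ := by group
      change s⁻¹ * m ∈ N
      rw [this]; exact N.inv_mem hs
    · rintro _ ⟨c, hc, n, hn, rfl⟩
      exact M.mul_mem hc.1 (hNM hn)
  have h := Helper12Card.card_mul_set_mul_card_inf (M ⊓ centralizer (B : Set H)) N
  rw [← hset] at h
  have e : (M ⊓ centralizer (B : Set H)) ⊓ N = N ⊓ centralizer (B : Set H) := by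
    ext g; simp only [mem_inf]
    constructor
    · rintro ⟨⟨_, h2⟩, h3⟩; exact ⟨h3, h2⟩
    · rintro ⟨h1, h2⟩; exact ⟨⟨hNM h1, h2⟩, h1⟩
  rw [e] at h
  exact h.symm

end Cfsg.Agent.Lib.H27WfKer
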