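import Cfsg.Agent.Lib.H27WfData
import Cfsg.Agent.Lib.H27WfArith

set_option autoImplicit false

namespace Cfsg.Agent.Lib.H27WfNil

open Subgroup Cfsg.Agent.Lib.H27WfDefs

variable {H : Type*} [Group H] [Finite H]

/-- the induction step (already proved from the pieces). -/
theorem step {p : ℕ} [Fact p.Prime] (A M N : Subgroup H)
    (hA : Cfsg.IsElementaryAbelian p A) (hA2 : Nat.card ↥A = p ^ 2)
    (hM : ¬ p ∣ Nat.card ↥M) (hNM : N ≤ M) (hne : N ≠ M) (hnorm : M ≤ normalizer (N : Set H))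
    (hAM : A ≤ normalizer (M : Set H)) (hAN : A ≤ normalizer (N : Set H))
    (hmax : ∀ L : Subgroup H, N ≤ L → L ≤ M → A ≤ normalizer (L : Set H) → L = N ∨ L = M)
    (hW : Wf p A N) : Wf p A M := by
  obtain ⟨D, hDA, hD, h1, h2, h3⟩ :=
    H27WfData.exists_ker A M N hA hA2 hM hNM hne hnorm hAM hAN hmax
  exact H27WfArith.step_arith A M N D hA2 hNM hDA hD h1 h2 h3 hW

/-- Wielandt's formula for an `A`-invariant `r`-subgroup `R` (`p ∤ |R|`). -/
theorem wf_pgroup {p : ℕ} [Fact p.Prime] (A : Subgroup H)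
    (hA : Cfsg.IsElementaryAbelian p A) (hA2 : Nat.card ↥A = p ^ 2) (r : ℕ) [Fact r.Prime]
    (R : Subgroup H) (hR : IsPGroup r R) (hpR : ¬ p ∣ Nat.card ↥R)
    (hAR : A ≤ normalizer (R : Set H)) : Wf p A R := by
  induction hn : Nat.card ↥R using Nat.strong_induction_on generalizing R with
  | _ n ih =>
  by_cases hbot : R = ⊥
  · subst hbot
    unfold Wf
    simp
  obtain ⟨N, hN⟩ := Set.Finite.exists_maximal
    (s := {N : Subgroup H | N < R ∧ A ≤ normalizer (N : Set H)})
    (Set.toFinite _) ⟨⊥, bot_lt_iff_ne_bot.mpr hbot, by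
      intro a _
      rw [mem_normalizer_iff]
      intro h
      simp [mem_bot]⟩
  obtain ⟨⟨hNR, hAN⟩, hmaxN⟩ := hN
  set L : Subgroup H := R ⊓ normalizer (N : Set H) with hL
  have hAL : A ≤ normalizer (L : Set H) := by
    intro a ha
    refine mem_normalizer_fintype ?_
    intro x hx
    exact ⟨(mem_normalizer_iff.mp (hAR ha) x).mp hx.1,
      (normalizer (N : Set H)).mul_mem ((normalizer (N : Set H)).mul_mem (hAN ha) hx.2)
        ((normalizer (N : Set H)).inv_mem (hAN ha))⟩
  have hNL : N ≤ L := le_inf hNR.le le_normalizer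
  have hnil : Group.IsNilpotent ↥R := hR.isNilpotent
  have hNLne : ¬ L ≤ N := by
    intro hLN
    have hnc := @Group.normalizerCondition_of_isNilpotent ↥R _ hnil (N.subgroupOf R) (by
      rw [lt_top_iff_ne_top]
      intro h
      rw [subgroupOf_eq_top] at h
      exact absurd h (not_le_of_gt hNR))
    rw [← subgroupOf_normalizer_eq hNR.le] at hnc
    obtain ⟨x, hx1, hx2⟩ := SetLike.exists_of_lt hnc
    apply hx2
    rw [mem_subgroupOf] at hx1 ⊢
    exact hLN ⟨x.2, hx1⟩
  have hLR : L = R := by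
    by_contra hne
    have hlt : L < R := lt_of_le_of_ne inf_le_left hne
    exact hNLne (hmaxN ⟨hlt, hAL⟩ hNL)
  have hnorm : R ≤ normalizer (N : Set H) := by
    rw [← hLR]; exact inf_le_right
  have hmax : ∀ L' : Subgroup H, N ≤ L' → L' ≤ R → A ≤ normalizer (L' : Set H) →
      L' = N ∨ L' = R := by
    intro L' h1 h2 h3
    by_cases h : L' = R
    · right; exact h
    · left
      exact le_antisymm (hmaxN ⟨lt_of_le_of_ne h2 h, h3⟩ h1) h1
  have hcard : Nat.card ↥N < n := by
    rw [← hn]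
    by_contra hge
    push Not at hge
    exact hNR.ne (eq_of_le_of_card_ge hNR.le hge)
  have hWN : Wf p A N := ih _ hcard N (hR.to_le hNR.le)
    (fun h => hpR (h.trans (card_dvd_of_le hNR.le))) hAN rfl
  exact step A R N hA hA2 hpR hNR.le hNR.ne hnorm hAR hAN hmax hWN

end Cfsg.Agent.Lib.H27WfNil
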