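import Cfsg.Agent.Lib.H27WfDefs

set_option autoImplicit false

namespace Cfsg.Agent.Lib.H27WfProd

open Subgroup

variable {H : Type*} [Group H] [Finite H]

/-- PURE COUNTING.  `(∏ f) * n ^ |D| = m ^ |D| * ∏ g` if `f a * n = m * g a` on `D` and `f = g` off
`D`. -/
theorem prod_split (A D : Subgroup H) (hDA : D ≤ A) (f g : A → ℕ) (m n : ℕ)
    (h1 : ∀ a : A, (a : H) ∈ D → f a * n = m * g a) (h2 : ∀ a : A, (a : H) ∉ D → f a = g a) :
    (∏ᶠ a : A, f a) * n ^ Nat.card ↥D = m ^ Nat.card ↥D * ∏ᶠ a : A, g a := by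
  classical
  have : Fintype A := Fintype.ofFinite A
  rw [finprod_eq_prod_of_fintype, finprod_eq_prod_of_fintype]
  set s : Finset A := Finset.univ.filter (fun a : A => (a : H) ∈ D) with hs
  have hcard : s.card = Nat.card ↥D := by
    rw [← Nat.card_congr (subgroupOfEquivOfLe hDA).toEquiv, Nat.card_eq_fintype_card]
    exact (Fintype.card_of_subtype s (fun a => by simp [hs, mem_subgroupOf])).symm
  rw [← Finset.prod_filter_mul_prod_filter_not Finset.univ (fun a : A => (a : H) ∈ D) f,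
    ← Finset.prod_filter_mul_prod_filter_not Finset.univ (fun a : A => (a : H) ∈ D) g, ← hs, ← hcard]
  have e1 : (∏ a ∈ s, f a) * n ^ s.card = m ^ s.card * ∏ a ∈ s, g a := by
    rw [← Finset.prod_const, ← Finset.prod_const, ← Finset.prod_mul_distrib,
      ← Finset.prod_mul_distrib]
    refine Finset.prod_congr rfl fun a ha => h1 a ?_
    exact (Finset.mem_filter.mp ha).2
  have e2 : ∏ a ∈ Finset.univ.filter (fun a : A => ¬ (a : H) ∈ D), f a =
      ∏ a ∈ Finset.univ.filter (fun a : A => ¬ (a : H) ∈ D), g a :=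
    Finset.prod_congr rfl fun a ha => h2 a (Finset.mem_filter.mp ha).2
  rw [e2]
  calc _ = ((∏ a ∈ s, f a) * n ^ s.card) *
        ∏ a ∈ Finset.univ.filter (fun a : A => ¬ (a : H) ∈ D), g a := by ring
    _ = _ := by rw [e1]; ring

end Cfsg.Agent.Lib.H27WfProd
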