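import Cfsg.Agent.Lib.Helper66GY

set_option autoImplicit false
open Cfsg

/-! Project 3797: reduction from `G` to `H = G / O(G)`. -/

namespace Cfsg.Agent.Lib.H29ThRed

open Subgroup Cfsg.Agent.Lib.Helper14CoreB Cfsg.Agent.Lib.Helper66PLen

variable {G : Type*} [Group G]

/-- an involution of `G / N`, `N` of odd order, lifts to an involution of `G`. -/
theorem exists_lift_inv_aux [Finite G] (N : Subgroup G) [N.Normal] (hNcop : (Nat.card N).Coprime 2)
    (u : G ⧸ N) (hu1 : u ≠ 1) (hu2 : u ^ 2 = 1) :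
    ∃ y : G, y ≠ 1 ∧ y ^ 2 = 1 ∧ QuotientGroup.mk' N y = u := by
  set π := QuotientGroup.mk' N with hπ
  obtain ⟨x, hx⟩ := QuotientGroup.mk'_surjective N u
  have hxN : x ^ 2 ∈ N := by
    rw [← QuotientGroup.eq_one_iff]
    have : π (x ^ 2) = 1 := by rw [map_pow, hx, hu2]
    exact this
  set m := orderOf (x ^ 2) with hm
  have hmdvd : m ∣ Nat.card N := by
    have : orderOf (⟨x ^ 2, hxN⟩ : N) = m := by
      rw [hm, ← orderOf_coe]
    rw [← this]
    exact orderOf_dvd_natCard _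
  have hmodd : Odd m := Nat.coprime_two_right.1 (Nat.Coprime.coprime_dvd_left hmdvd hNcop)
  have hy2 : (x ^ m) ^ 2 = 1 := by
    rw [← pow_mul, mul_comm, pow_mul, hm, pow_orderOf_eq_one]
  have hπy : π (x ^ m) = u := by
    rw [map_pow, hx]
    obtain ⟨k, hk⟩ := hmodd
    rw [hk, pow_succ, pow_mul, hu2, one_pow, one_mul]
  refine ⟨x ^ m, ?_, hy2, hπy⟩
  intro h1
  apply hu1
  rw [← hπy, h1, map_one]

/-- an involution of `G / O(G)` lifts to an involution of `G`. -/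
theorem exists_lift_inv [Finite G] (u : G ⧸ pPrimeCore 2 G) (hu1 : u ≠ 1) (hu2 : u ^ 2 = 1) :
    ∃ y : G, y ≠ 1 ∧ y ^ 2 = 1 ∧ QuotientGroup.mk' (pPrimeCore 2 G) y = u :=
  exists_lift_inv_aux _ (card_pPrimeCore_coprime 2) u hu1 hu2

/-- an element of 2-power order in `O(G)` is trivial. -/
theorem eq_one_of_mem_core [Finite G] {x : G} (hx : x ∈ pPrimeCore 2 G) {k : ℕ}
    (hk : x ^ 2 ^ k = 1) : x = 1 := by
  have hNcop : (Nat.card (pPrimeCore 2 G)).Coprime 2 := card_pPrimeCore_coprime 2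
  have h1 : orderOf x ∣ Nat.card (pPrimeCore 2 G) := by
    have : orderOf (⟨x, hx⟩ : pPrimeCore 2 G) = orderOf x := by
      rw [← orderOf_coe]
    rw [← this]
    exact orderOf_dvd_natCard _
  have h2 : orderOf x ∣ 2 ^ k := orderOf_dvd_of_pow_eq_one hk
  exact orderOf_eq_one_iff.1 (Nat.eq_one_of_dvd_coprimes (Nat.Coprime.pow_right k hNcop) h1 h2)

/-- The hypotheses of S3797 pass to `H = G / O(G)`. -/
theorem red [Finite G] (hG : Group.IsSolvable G) (S : Sylow 2 G)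
    (htwo : ∃ x y : G, x ∈ (S : Subgroup G) ∧ y ∈ (S : Subgroup G) ∧ x ≠ y ∧ x ≠ 1 ∧ x ^ 2 = 1 ∧
      y ≠ 1 ∧ y ^ 2 = 1)
    (hconj : ∀ x y : G, x ≠ 1 → x ^ 2 = 1 → y ≠ 1 → y ^ 2 = 1 → IsConj x y) :
    Group.IsSolvable (G ⧸ pPrimeCore 2 G) ∧ pPrimeCore 2 (G ⧸ pPrimeCore 2 G) = ⊥ ∧
      (∃ x y : G ⧸ pPrimeCore 2 G, x ≠ y ∧ x ≠ 1 ∧ x ^ 2 = 1 ∧ y ≠ 1 ∧ y ^ 2 = 1) ∧
      (∀ x y : G ⧸ pPrimeCore 2 G, x ≠ 1 → x ^ 2 = 1 → y ≠ 1 → y ^ 2 = 1 → IsConj x y) := by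
  haveI := hG
  refine ⟨inferInstance, pPrimeCore_quotient_eq_bot 2, ?_, ?_⟩
  · obtain ⟨x, y, hxS, hyS, hxy, hx1, hx2, hy1, hy2⟩ := htwo
    refine ⟨QuotientGroup.mk' _ x, QuotientGroup.mk' _ y, ?_, ?_, ?_, ?_, ?_⟩
    · intro h
      have h1 : x⁻¹ * y ∈ pPrimeCore 2 G := by
        rw [← QuotientGroup.eq]
        exact h
      obtain ⟨k, hk⟩ := S.2 (⟨x⁻¹ * y, (S : Subgroup G).mul_mem ((S : Subgroup G).inv_mem hxS) hyS⟩)
      have hk' : (x⁻¹ * y) ^ 2 ^ k = 1 := by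
        have := congrArg Subtype.val hk
        simpa using this
      have h2 := eq_one_of_mem_core h1 hk'
      exact hxy (inv_mul_eq_one.1 h2)
    · intro h
      have h1 : x ∈ pPrimeCore 2 G := (QuotientGroup.eq_one_iff x).1 h
      exact hx1 (eq_one_of_mem_core (k := 1) h1 (by simpa using hx2))
    · rw [← map_pow, hx2, map_one]
    · intro h
      have h1 : y ∈ pPrimeCore 2 G := (QuotientGroup.eq_one_iff y).1 h
      exact hy1 (eq_one_of_mem_core (k := 1) h1 (by simpa using hy2))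
    · rw [← map_pow, hy2, map_one]
  · intro u v hu1 hu2 hv1 hv2
    obtain ⟨x, hx1, hx2, rfl⟩ := exists_lift_inv u hu1 hu2
    obtain ⟨y, hy1, hy2, rfl⟩ := exists_lift_inv v hv1 hv2
    exact MonoidHom.map_isConj _ (hconj x y hx1 hx2 hy1 hy2)

/-- If `O_2(G / O(G))` has odd index then `G` has 2-length at most one. -/
theorem plen_of_index [Finite G] (h : Odd (pCore 2 (G ⧸ pPrimeCore 2 G)).index) :
    PLengthLE 2 1 G := by
  haveI : Fact (Nat.Prime 2) := ⟨Nat.prime_two⟩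
  set N := pPrimeCore 2 G with hN
  have hNn : N.Normal := by rw [hN]; infer_instance
  set π := QuotientGroup.mk' N with hπ
  have hπs : Function.Surjective π := QuotientGroup.mk'_surjective N
  have hNcop : (Nat.card N).Coprime 2 := card_pPrimeCore_coprime 2
  apply pLengthLE_of_len
  have hPn : (pCore 2 (G ⧸ N)).Normal := inferInstance
  refine ⟨N, (pCore 2 (G ⧸ N)).comap π, ?_, ?_, ?_⟩
  · refine ⟨normal_bot, hNn, bot_le, ?_⟩
    rw [relIndex_bot_left]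
    exact hNcop
  · refine ⟨hNn, hPn.comap π, le_comap_mk N _, ?_⟩
    rw [relIndex_comap_mk]
    exact (IsPGroup.iff_card).mp (pCore_isPGroup 2)
  · refine ⟨hPn.comap π, normal_top, le_top, ?_⟩
    rw [relIndex_top_right, index_comap_of_surjective _ hπs]
    exact Nat.coprime_two_right.2 h

end Cfsg.Agent.Lib.H29ThRed
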