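import Mathlib

set_option autoImplicit false

/-! Coprime action on abelian groups (Mathlib only). -/

namespace Cfsg.Agent.Lib.Helper3CopAb

open Subgroup

variable {G : Type*} [Group G] [Finite G]

/-- coprime action on an abelian group: `[K,R] ∩ C(R) = 1` (proof of helper15, in a file importing only Mathlib). -/
theorem comm_inf_cent_eq_bot {K R : Subgroup G}
    (hKc : IsMulCommutative K) (hRK : R ≤ normalizer (K : Set G))
    (hcop : (Nat.card R).Coprime (Nat.card K)) : ⁅K, R⁆ ⊓ centralizer (R : Set G) = ⊥ := by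
  classical
  haveI : Fintype R := Fintype.ofFinite R
  letI : CommGroup K := { (inferInstance : Group K) with mul_comm := fun a b => mul_comm' a b }
  let φ : R →* MulAut K := K.normalizerMonoidHom.comp (Subgroup.inclusion hRK)
  have hφ : ∀ (y : R) (k : K), ((φ y k : K) : G) = y * k * (y : G)⁻¹ := fun y k => rfl
  let N : K →* K := ∏ y : R, (φ y).toMonoidHom
  have hN : ∀ k : K, N k = ∏ y : R, φ y k := by
    intro k
    simp only [N, MonoidHom.finsetProd_apply]
    rfl
  have hNinv : ∀ (z : R) (k : K), N (φ z k) = N k := by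
    intro z k
    rw [hN, hN]
    refine Fintype.prod_equiv (Equiv.mulRight z) _ _ ?_
    intro y
    simp only [Equiv.coe_mulRight, map_mul, MulAut.mul_apply]
  have hle : ⁅K, R⁆ ≤ N.ker.map K.subtype := by
    rw [commutator_le]
    intro k hk y hy
    refine ⟨⟨k, hk⟩ * (φ ⟨y, hy⟩ ⟨k, hk⟩)⁻¹, ?_, ?_⟩
    · rw [SetLike.mem_coe, MonoidHom.mem_ker, map_mul, map_inv, hNinv, mul_inv_cancel]
    · simp only [Subgroup.coe_subtype, Subgroup.coe_mul, Subgroup.coe_inv, hφ,
        commutatorElement_def]
      group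
  rw [eq_bot_iff]
  intro x hx
  obtain ⟨⟨k, hk, rfl⟩, hxc⟩ := And.intro (hle hx.1) hx.2
  rw [SetLike.mem_coe, MonoidHom.mem_ker, hN] at hk
  have hfix : ∀ y : R, φ y k = k := by
    intro y
    apply Subtype.ext
    rw [hφ]
    have := mem_centralizer_iff.mp hxc y y.2
    simp only [Subgroup.coe_subtype] at this
    rw [this, mul_inv_cancel_right]
  simp only [hfix, Finset.prod_const, Finset.card_univ] at hk
  rw [← Nat.card_eq_fintype_card] at hk
  have h2 : k ^ Nat.card K = 1 := pow_card_eq_one'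
  have h3 := pow_gcd_eq_one.mpr ⟨hk, h2⟩
  rw [hcop.gcd_eq_one, pow_one] at h3
  rw [mem_bot, h3]
  rfl

end Cfsg.Agent.Lib.Helper3CopAb
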