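import Mathlib
import Cfsg.Agent.Lib.Helper3CopAb

/-!
Project 1412, piece `pure` (two pure group theory lemmas).
-/

set_option autoImplicit false

namespace Cfsg.Agent.Lib.Helper32BG1412pure

open Subgroup

/-- a subgroup of prime order `p` centralizing `F'`, `p ∤ |F'|`, is central in `F` -/
theorem central_of_cent_der {X : Type*} [Group X] [Finite X] {F K : Subgroup X} (hKF : K ≤ F)
    (hK : (Nat.card K).Prime) (hd : ¬ Nat.card K ∣ Nat.card ↥⁅F, F⁆)
    (hc : K ≤ centralizer ((⁅F, F⁆ : Subgroup X) : Set X)) : F ≤ centralizer (K : Set X) := by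
  intro f hf
  rw [mem_centralizer_iff]
  intro k hk
  set p := Nat.card K with hp
  set c : X := f * k * f⁻¹ * k⁻¹ with hcdef
  have hcF : c ∈ ⁅F, F⁆ := Subgroup.commutator_mem_commutator hf (hKF hk)
  have hcomm : Commute c k := by
    have := (mem_centralizer_iff.mp (hc hk)) c hcF
    exact this
  have hkp : k ^ p = 1 := by
    have h0 : (⟨k, hk⟩ : K) ^ Nat.card K = 1 := pow_card_eq_one'
    have h2 : (((⟨k, hk⟩ : K) ^ Nat.card K : K) : X) = ((1 : K) : X) := by rw [h0]
    rw [Subgroup.coe_pow, Subgroup.coe_one] at h2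
    exact h2
  have h1 : c * k = f * k * f⁻¹ := by simp [hcdef]
  have h2 : (c * k) ^ p = 1 := by
    rw [h1, conj_pow, hkp]; simp
  have h3 : c ^ p = 1 := by
    rw [hcomm.mul_pow, hkp, mul_one] at h2
    exact h2
  have h4 : orderOf c ∣ p := orderOf_dvd_of_pow_eq_one h3
  have h5 : orderOf c ∣ Nat.card ↥⁅F, F⁆ := by
    have : orderOf (⟨c, hcF⟩ : ↥⁅F, F⁆) ∣ Nat.card ↥⁅F, F⁆ := orderOf_dvd_natCard _
    rwa [← Subgroup.orderOf_coe] at this
  have h6 : c = 1 := by
    rcases (Nat.dvd_prime hK).mp h4 with h | h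
    · exact orderOf_eq_one_iff.mp h
    · exact absurd (h ▸ h5) hd
  have h7 : f * k * f⁻¹ = k := by rw [← h1, h6, one_mul]
  calc k * f = (f * k * f⁻¹) * f := by rw [h7]
    _ = f * k := by group

/-- coprime action on an abelian group: `[Q,K] ∩ C(K) = 1` -/
theorem comm_inf_cent {X : Type*} [Group X] [Finite X] {Q K : Subgroup X}
    (hQ : IsMulCommutative Q) (hKQ : K ≤ normalizer (Q : Set X))
    (hcop : (Nat.card Q).Coprime (Nat.card K)) : ⁅Q, K⁆ ⊓ centralizer (K : Set X) = ⊥ :=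
  Cfsg.Agent.Lib.Helper3CopAb.comm_inf_cent_eq_bot hQ hKQ hcop.symm

end Cfsg.Agent.Lib.Helper32BG1412pure
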