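import Mathlib
import Cfsg.Agent.Lib.Helper32BG1412pure

/-!
PROJECT 1412 (B-G 14.12 = S1435), piece `pure` (proved by helper32 in `Helper32BG1412pure`; restated
under the fixed name).
-/

set_option autoImplicit false

namespace Cfsg.Agent.Lib.H30BG1412pure

open Cfsg Subgroup

/-- a subgroup of prime order `p` centralizing `F'`, `p ∤ |F'|`, is central in `F` -/
theorem central_of_cent_der {X : Type*} [Group X] [Finite X] {F K : Subgroup X} (hKF : K ≤ F)
    (hK : (Nat.card K).Prime) (hd : ¬ Nat.card K ∣ Nat.card ↥⁅F, F⁆)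
    (hc : K ≤ centralizer ((⁅F, F⁆ : Subgroup X) : Set X)) : F ≤ centralizer (K : Set X) :=
  Cfsg.Agent.Lib.Helper32BG1412pure.central_of_cent_der hKF hK hd hc

/-- coprime action on an abelian group: `[Q,K] ∩ C(K) = 1` -/
theorem comm_inf_cent {X : Type*} [Group X] [Finite X] {Q K : Subgroup X}
    (hQ : IsMulCommutative Q) (hKQ : K ≤ normalizer (Q : Set X))
    (hcop : (Nat.card Q).Coprime (Nat.card K)) : ⁅Q, K⁆ ⊓ centralizer (K : Set X) = ⊥ :=
  Cfsg.Agent.Lib.Helper32BG1412pure.comm_inf_cent hQ hKQ hcop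

end Cfsg.Agent.Lib.H30BG1412pure
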