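import Cfsg.Agent.Lib.H31NSDefs

set_option autoImplicit false

namespace Cfsg.Agent.Lib.H31NSShift
open Cfsg.Agent.Lib.H31NSDefs

variable {F : Type*} [Field F] [Fintype F] [DecidableEq F]

/-- Piece Shift (a): multiplication by `t ∈ U` permutes `U` (injective self-map of a finite set), so the
period is invariant under `mulShift`. -/
theorem eta_mulShift (U : Finset F) (hU : ∀ s ∈ U, ∀ t ∈ U, s * t ∈ U) (h0 : (0 : F) ∉ U)
    (ψ : AddChar F ℂ) (t : F) (ht : t ∈ U) : eta U (ψ.mulShift t) = eta U ψ := by
  have ht0 : t ≠ 0 := fun h => h0 (h ▸ ht)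
  have hinj : Function.Injective (fun s : F => t * s) := mul_right_injective₀ ht0
  have himg : U.image (fun s : F => t * s) = U := by
    apply Finset.eq_of_subset_of_card_le
    · intro x hx
      obtain ⟨s, hs, rfl⟩ := Finset.mem_image.1 hx
      exact hU t ht s hs
    · rw [Finset.card_image_of_injective _ hinj]
  unfold eta
  conv_rhs => rw [← himg]
  rw [Finset.sum_image (fun a _ b _ h => hinj h)]
  rfl

/-- Piece Shift (b): for `ψ ≠ 1` the shifts by distinct elements are distinct
(`ψ ((s - t) x) = 1` for all `x` forces `s = t`, as `(s - t) x` runs over `F`). -/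
theorem mulShift_injective (ψ : AddChar F ℂ) (hψ : ψ ≠ 1) :
    Function.Injective (fun t : F => ψ.mulShift t) :=
  AddChar.to_mulShift_inj_of_isPrimitive (AddChar.IsPrimitive.of_ne_one hψ)

/-- Piece Shift (c): `mulShift` by a nonzero element is a bijection of the dual group. -/
theorem mulShift_bijective (t : F) (ht : t ≠ 0) :
    Function.Bijective (fun ψ : AddChar F ℂ => ψ.mulShift t) := by
  refine Function.bijective_iff_has_inverse.2 ⟨fun ψ => ψ.mulShift t⁻¹, ?_, ?_⟩
  · intro ψ
    simp [AddChar.mulShift_mulShift, ht]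
  · intro ψ
    simp [AddChar.mulShift_mulShift, ht]

end Cfsg.Agent.Lib.H31NSShift
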