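import Cfsg.Agent.Lib.H31NSInv
import Cfsg.Agent.Lib.H31NSShift

set_option autoImplicit false

namespace Cfsg.Agent.Lib.H31NSAvg
open Cfsg.Agent.Lib.H31NSDefs

variable {F : Type*} [Field F] [Fintype F] [DecidableEq F]

/-- Piece Avg (averaging).  For each `t ∈ U` reindex the sum of `H31NSInv.card_mul_rep` by the bijection
`ψ ↦ ψ.mulShift t` and use `eta_mulShift`: `#F * rep z = ∑_ψ η(ψ)² ψ(-(t z))`.  Sum over `t ∈ U`:
`∑_{t ∈ U} ψ (-(t z)) = ∑_{t ∈ U} (ψ.mulShift (-z)) t = η (ψ.mulShift (-z))`. -/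
theorem card_mul_card_mul_rep (U : Finset F) (hU : ∀ s ∈ U, ∀ t ∈ U, s * t ∈ U) (h0 : (0 : F) ∉ U)
    (z : F) :
    (U.card : ℂ) * ((Fintype.card F : ℂ) * (rep U z : ℂ)) =
      ∑ ψ : AddChar F ℂ, eta U ψ ^ 2 * eta U (ψ.mulShift (-z)) := by
  have h1 : ∀ t ∈ U, (Fintype.card F : ℂ) * (rep U z : ℂ) =
      ∑ ψ : AddChar F ℂ, eta U ψ ^ 2 * ψ (-z * t) := by
    intro t ht
    have ht0 : t ≠ 0 := fun h => h0 (h ▸ ht)
    rw [H31NSInv.card_mul_rep U z]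
    rw [← (Equiv.ofBijective _ (H31NSShift.mulShift_bijective (F := F) t ht0)).sum_comp]
    refine Finset.sum_congr rfl fun ψ _ => ?_
    simp only [Equiv.ofBijective_apply]
    rw [H31NSShift.eta_mulShift U hU h0 ψ t ht, AddChar.mulShift_apply, mul_comm t]
  have h2 : (U.card : ℂ) * ((Fintype.card F : ℂ) * (rep U z : ℂ)) =
      ∑ t ∈ U, (Fintype.card F : ℂ) * (rep U z : ℂ) := by
    rw [Finset.sum_const, nsmul_eq_mul]
  rw [h2, Finset.sum_congr rfl h1, Finset.sum_comm]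
  refine Finset.sum_congr rfl fun ψ _ => ?_
  rw [← Finset.mul_sum]
  rfl

end Cfsg.Agent.Lib.H31NSAvg
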