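import Cfsg.Agent.Lib.H31NSPars
import Cfsg.Agent.Lib.H31NSShift

set_option autoImplicit false

namespace Cfsg.Agent.Lib.H31NSSup
open Cfsg.Agent.Lib.H31NSDefs

variable {F : Type*} [Field F] [Fintype F] [DecidableEq F]

/-- Piece Sup (sup bound).  In Parseval's sum the trivial character contributes `#U ^ 2` and the `#U`
pairwise distinct nontrivial characters `ψ.mulShift t`, `t ∈ U`, contribute `‖η ψ‖²` each
(`H31NSShift.eta_mulShift`, `mulShift_injective`, `AddChar.mulShift_unit_eq_one_iff`); all other terms are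
`≥ 0`. -/
theorem card_mul_norm_sq_le (U : Finset F) (hU : ∀ s ∈ U, ∀ t ∈ U, s * t ∈ U) (h0 : (0 : F) ∉ U)
    (ψ : AddChar F ℂ) (hψ : ψ ≠ 1) :
    (U.card : ℝ) * ‖eta U ψ‖ ^ 2 + (U.card : ℝ) ^ 2 ≤ (Fintype.card F : ℝ) * (U.card : ℝ) := by
  classical
  rw [← H31NSPars.sum_norm_sq U]
  set S : Finset (AddChar F ℂ) := insert 1 (U.image (fun t => ψ.mulShift t)) with hS
  have hnot : (1 : AddChar F ℂ) ∉ U.image (fun t => ψ.mulShift t) := by
    intro h
    obtain ⟨t, ht, h1⟩ := Finset.mem_image.1 h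
    have ht0 : t ≠ 0 := fun h => h0 (h ▸ ht)
    exact hψ ((AddChar.mulShift_unit_eq_one_iff ψ (isUnit_iff_ne_zero.2 ht0)).1 h1)
  have hsum : ∑ φ ∈ S, ‖eta U φ‖ ^ 2 = (U.card : ℝ) * ‖eta U ψ‖ ^ 2 + (U.card : ℝ) ^ 2 := by
    rw [hS, Finset.sum_insert hnot,
      Finset.sum_image (fun a _ b _ h => H31NSShift.mulShift_injective ψ hψ h)]
    rw [Finset.sum_congr rfl fun t ht => by rw [H31NSShift.eta_mulShift U hU h0 ψ t ht]]
    rw [Finset.sum_const, nsmul_eq_mul]
    have : eta U (1 : AddChar F ℂ) = (U.card : ℂ) := by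
      unfold eta
      simp
    rw [this]
    simp
    ring
  rw [← hsum]
  exact Finset.sum_le_sum_of_subset_of_nonneg (Finset.subset_univ _) (fun _ _ _ => by positivity)

end Cfsg.Agent.Lib.H31NSSup
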