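import Cfsg.Agent.Lib.H31NSAvg
import Cfsg.Agent.Lib.H31NSSup

set_option autoImplicit false

namespace Cfsg.Agent.Lib.H31NSBound
open Cfsg.Agent.Lib.H31NSDefs

variable {F : Type*} [Field F] [Fintype F] [DecidableEq F]

/-- Piece Bound.  Put `Q = #F`, `u = #U` (if `u = 0` everything is `0 ≤ Q ^ 3`).  In
`H31NSAvg.card_mul_card_mul_rep` the term `ψ = 1` is `u ^ 3`.  For `ψ ≠ 1` also `ψ.mulShift (-z) ≠ 1`, so
`‖η (ψ.mulShift (-z))‖² ≤ Q - u` by `H31NSSup`, and `∑_{ψ ≠ 1} ‖η ψ‖² = Q u - u²` by Parseval.  Hence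
`u * |Q * rep z - u²| ≤ √(Q - u) * u * (Q - u)`; divide by `u` and square. -/
theorem sq_le (U : Finset F) (hU : ∀ s ∈ U, ∀ t ∈ U, s * t ∈ U) (h0 : (0 : F) ∉ U)
    (z : F) (hz : z ≠ 0) :
    ((Fintype.card F : ℝ) * (rep U z : ℝ) - (U.card : ℝ) ^ 2) ^ 2 ≤
      ((Fintype.card F : ℝ) - (U.card : ℝ)) ^ 3 := by
  classical
  rcases Nat.eq_zero_or_pos U.card with hu0 | hupos
  · have hUe : U = ∅ := Finset.card_eq_zero.1 hu0
    subst hUe
    simp [rep]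
  set Q : ℝ := (Fintype.card F : ℝ) with hQ
  set u : ℝ := (U.card : ℝ) with hu
  set r : ℝ := (rep U z : ℝ) with hr
  have hupos' : 0 < u := by rw [hu]; exact_mod_cast hupos
  have heta1 : eta U (1 : AddChar F ℂ) = (u : ℂ) := by
    unfold eta
    simp [hu]
  have hsup : ∀ ψ : AddChar F ℂ, ψ ≠ 1 → ‖eta U ψ‖ ^ 2 ≤ Q - u := by
    intro ψ hψ
    have := H31NSSup.card_mul_norm_sq_le U hU h0 ψ hψ
    rw [← hQ, ← hu] at this
    have h2 : u * ‖eta U ψ‖ ^ 2 ≤ u * (Q - u) := by nlinarith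
    exact le_of_mul_le_mul_left h2 hupos'
  have hQu : 0 ≤ Q - u := by
    have : U.card ≤ Fintype.card F := Finset.card_le_univ U
    have : u ≤ Q := by rw [hu, hQ]; exact_mod_cast this
    linarith
  have hsup' : ∀ ψ : AddChar F ℂ, ψ ≠ 1 → ‖eta U ψ‖ ≤ Real.sqrt (Q - u) := by
    intro ψ hψ
    exact Real.le_sqrt_of_sq_le (hsup ψ hψ)
  have hpars : ∑ ψ ∈ (Finset.univ.erase (1 : AddChar F ℂ)), ‖eta U ψ‖ ^ 2 = Q * u - u ^ 2 := by
    have := H31NSPars.sum_norm_sq U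
    rw [← Finset.add_sum_erase _ _ (Finset.mem_univ (1 : AddChar F ℂ)), heta1] at this
    rw [← hQ, ← hu] at this
    have h3 : ‖(u : ℂ)‖ = u := by
      rw [Complex.norm_real]; exact abs_of_pos hupos'
    rw [h3] at this
    linarith
  have havg : ((u * (Q * r - u ^ 2) : ℝ) : ℂ) =
      ∑ ψ ∈ (Finset.univ.erase (1 : AddChar F ℂ)), eta U ψ ^ 2 * eta U (ψ.mulShift (-z)) := by
    have := H31NSAvg.card_mul_card_mul_rep U hU h0 z
    rw [← Finset.add_sum_erase _ _ (Finset.mem_univ (1 : AddChar F ℂ))] at this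
    have h4 : (1 : AddChar F ℂ).mulShift (-z) = 1 := by
      ext x; simp
    rw [h4, heta1] at this
    have h5 : ((u * (Q * r - u ^ 2) : ℝ) : ℂ) =
        (U.card : ℂ) * ((Fintype.card F : ℂ) * (rep U z : ℂ)) - (u : ℂ) ^ 2 * (u : ℂ) := by
      rw [hu, hQ, hr]; push_cast; ring
    rw [h5, this]; ring
  have hnorm : u * |Q * r - u ^ 2| ≤ Real.sqrt (Q - u) * (Q * u - u ^ 2) := by
    have h6 : ‖((u * (Q * r - u ^ 2) : ℝ) : ℂ)‖ = u * |Q * r - u ^ 2| := by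
      rw [Complex.norm_real, Real.norm_eq_abs, abs_mul, abs_of_pos hupos']
    rw [← h6, havg, ← hpars, Finset.mul_sum]
    refine (norm_sum_le _ _).trans (Finset.sum_le_sum fun ψ hψ => ?_)
    have hψ1 : ψ ≠ 1 := Finset.ne_of_mem_erase hψ
    have hψ2 : ψ.mulShift (-z) ≠ 1 := by
      intro h
      exact hψ1 ((AddChar.mulShift_unit_eq_one_iff ψ
        (isUnit_iff_ne_zero.2 (neg_ne_zero.2 hz))).1 h)
    rw [norm_mul, norm_pow, mul_comm]
    exact mul_le_mul_of_nonneg_right (hsup' _ hψ2) (by positivity)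
  have hfin : |Q * r - u ^ 2| ≤ Real.sqrt (Q - u) * (Q - u) := by
    have h7 : u * |Q * r - u ^ 2| ≤ u * (Real.sqrt (Q - u) * (Q - u)) := by
      calc u * |Q * r - u ^ 2| ≤ Real.sqrt (Q - u) * (Q * u - u ^ 2) := hnorm
        _ = u * (Real.sqrt (Q - u) * (Q - u)) := by ring
    exact le_of_mul_le_mul_left h7 hupos'
  calc (Q * r - u ^ 2) ^ 2 = |Q * r - u ^ 2| ^ 2 := (sq_abs _).symm
    _ ≤ (Real.sqrt (Q - u) * (Q - u)) ^ 2 := by
        exact pow_le_pow_left₀ (abs_nonneg _) hfin 2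
    _ = (Q - u) ^ 3 := by
        rw [mul_pow, Real.sq_sqrt hQu]; ring

end Cfsg.Agent.Lib.H31NSBound
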