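import Mathlib

set_option autoImplicit false

namespace Cfsg.Agent.Lib.H31NSCubic

/-- Piece Cubic.  `x = 0` gives `-1 ≠ 0`, `x = 2` gives `1 ≠ 0`.  For `x ≠ 0, 2` the expression vanishes iff
`c = x + (x - 1) / (x (x - 2))`.  So the bad `c` lie in the image of a set with `p - 2` elements, and `ZMod p`
has `p` elements. -/
theorem exists_c (p : ℕ) [Fact p.Prime] (hp : p ≠ 2) :
    ∃ c : ZMod p, ∀ x : ZMod p, x * (x - 2) * (x - c) + x - 1 ≠ 0 := by
  by_contra hcon
  push Not at hcon
  choose g hg using hcon
  have h0 : ∀ c, g c ≠ 0 := by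
    intro c h
    have := hg c
    rw [h] at this
    simp at this
  have h2 : ∀ c, g c - 2 ≠ 0 := by
    intro c h
    have h3 := hg c
    have h4 : g c = 2 := sub_eq_zero.mp h
    rw [h4] at h3
    ring_nf at h3
    exact one_ne_zero h3
  have hinj : Function.Injective g := by
    intro c c' hcc
    have e1 := hg c
    have e2 := hg c'
    rw [← hcc] at e2
    have e3 : g c * (g c - 2) * (c - c') = 0 := by linear_combination e2 - e1
    rcases mul_eq_zero.mp e3 with h | h
    · rcases mul_eq_zero.mp h with h | h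
      · exact absurd h (h0 c)
      · exact absurd h (h2 c)
    · exact sub_eq_zero.mp h
  obtain ⟨c, hc⟩ := (Finite.injective_iff_surjective.mp hinj) 0
  exact h0 c hc

end Cfsg.Agent.Lib.H31NSCubic
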