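import Mathlib

set_option autoImplicit false

/-! Vocabulary of project 1471 (row S1471): Gauss periods of a finite multiplicative set `U` of a
finite field and the number of representations `z = a + b` with `a, b ∈ U`. -/

namespace Cfsg.Agent.Lib.H31NSDefs

variable {F : Type*} [Field F]

/-- The Gauss period `η_U(ψ) = ∑_{t ∈ U} ψ t`. -/
noncomputable def eta (U : Finset F) (ψ : AddChar F ℂ) : ℂ := ∑ t ∈ U, ψ t

/-- The number of pairs `(a, b) ∈ U × U` with `a + b = z`. -/
def rep [DecidableEq F] (U : Finset F) (z : F) : ℕ :=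
  ((U ×ˢ U).filter (fun ab => ab.1 + ab.2 = z)).card

end Cfsg.Agent.Lib.H31NSDefs
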