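import Cfsg.Agent.Lib.H31NSDefs

set_option autoImplicit false

namespace Cfsg.Agent.Lib.H31NSInv
open Cfsg.Agent.Lib.H31NSDefs

variable {F : Type*} [Field F] [Fintype F] [DecidableEq F]

/-- Piece Inv (Fourier inversion).  Expand `eta ^ 2`, swap the sums, use
`AddChar.sum_apply_eq_ite (a + b - z)`. -/
theorem card_mul_rep (U : Finset F) (z : F) :
    (Fintype.card F : ℂ) * (rep U z : ℂ) = ∑ ψ : AddChar F ℂ, eta U ψ ^ 2 * ψ (-z) := by
  have h1 : ∀ ψ : AddChar F ℂ, eta U ψ ^ 2 * ψ (-z) =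
      ∑ ab ∈ U ×ˢ U, ψ (ab.1 + ab.2 - z) := by
    intro ψ
    unfold eta
    rw [sq, Finset.sum_mul_sum, Finset.sum_product, Finset.sum_mul]
    refine Finset.sum_congr rfl fun a _ => ?_
    rw [Finset.sum_mul]
    refine Finset.sum_congr rfl fun b _ => ?_
    rw [sub_eq_add_neg, AddChar.map_add_eq_mul, AddChar.map_add_eq_mul]
  rw [Finset.sum_congr rfl fun ψ _ => h1 ψ, Finset.sum_comm]
  rw [Finset.sum_congr rfl fun ab _ => AddChar.sum_apply_eq_ite (ab.1 + ab.2 - z)]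
  unfold rep
  rw [← Finset.sum_filter, Finset.sum_const, nsmul_eq_mul, mul_comm]
  congr 2
  refine congrArg Finset.card ?_
  refine Finset.filter_congr fun ab _ => ?_
  rw [sub_eq_zero]

end Cfsg.Agent.Lib.H31NSInv
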