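import Mathlib

set_option autoImplicit false

namespace Cfsg.Agent.Lib.H31NSKer

theorem ncard_norm_one (p q : ℕ) [Fact p.Prime] (hq : q ≠ 0) :
    Set.ncard {a : GaloisField p q | Algebra.norm (ZMod p) a = 1} = (p ^ q - 1) / (p - 1) := by
  have hp : p.Prime := Fact.out
  have : Finite (GaloisField p q) := inferInstance
  have := Fintype.ofFinite (GaloisField p q)
  set φ : (GaloisField p q)ˣ →* (ZMod p)ˣ := Units.map (Algebra.norm (ZMod p)) with hφ
  have hsurj : Function.Surjective φ := FiniteField.unitsMap_norm_surjective (ZMod p) (GaloisField p q)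
  have h1 : Nat.card φ.ker * Nat.card (ZMod p)ˣ = Nat.card (GaloisField p q)ˣ := by
    have h2 := φ.ker.card_mul_index
    rw [Subgroup.index_ker, MonoidHom.range_eq_top.mpr hsurj, Subgroup.card_top] at h2
    exact h2
  have h3 : Nat.card (ZMod p)ˣ = p - 1 := by
    rw [Nat.card_eq_fintype_card, ZMod.card_units]
  have h4 : Nat.card (GaloisField p q)ˣ = p ^ q - 1 := by
    rw [Nat.card_units, GaloisField.card p q hq]
  have h5 : Set.ncard {a : GaloisField p q | Algebra.norm (ZMod p) a = 1} = Nat.card φ.ker := by
    rw [← Nat.card_coe_set_eq]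
    symm
    refine Nat.card_congr ⟨fun u => ⟨((u : (GaloisField p q)ˣ) : GaloisField p q), ?_⟩,
      fun a => ⟨Units.mk0 (a : GaloisField p q) ?_, ?_⟩, ?_, ?_⟩
    · have := u.2
      rw [MonoidHom.mem_ker] at this
      exact congrArg Units.val this
    · intro h0
      have := a.2
      rw [Set.mem_ofPred_eq, h0, Algebra.norm_zero] at this
      exact zero_ne_one this
    · rw [MonoidHom.mem_ker]
      apply Units.ext
      exact a.2
    · intro u
      apply Subtype.ext
      apply Units.ext
      rfl
    · intro a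
      rfl
  rw [h5, ← h4, ← h1, h3]
  have : 0 < p - 1 := by have := hp.two_le; omega
  rw [Nat.mul_div_cancel _ this]

end Cfsg.Agent.Lib.H31NSKer
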