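import Mathlib

set_option autoImplicit false

namespace Cfsg.Agent.Lib.H31NSNorm
open Polynomial

theorem norm_sub_eq_eval {K L : Type*} [Field K] [Field L] [Algebra K L] [FiniteDimensional K L]
    (f : K[X]) (hf : f.Monic) (hirr : Irreducible f) (hd : f.natDegree = Module.finrank K L)
    (a : L) (ha : aeval a f = 0) (t : K) :
    Algebra.norm K (algebraMap K L t - a) = f.eval t := by
  have hmin : f = minpoly K a := minpoly.eq_of_irreducible_of_monic hirr ha hf
  have h1 : aeval a (Algebra.lmul K L a).charpoly = 0 := by
    have h2 := LinearMap.aeval_self_charpoly (Algebra.lmul K L a)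
    rw [Polynomial.aeval_algHom_apply] at h2
    have h3 := congrArg (fun φ : L →ₗ[K] L => φ 1) h2
    simpa using h3
  have hdvd : f ∣ (Algebra.lmul K L a).charpoly := by
    rw [hmin]; exact minpoly.dvd K a h1
  have heq : (Algebra.lmul K L a).charpoly = f :=
    Polynomial.eq_of_monic_of_dvd_of_natDegree_le hf (LinearMap.charpoly_monic _) hdvd
      (by rw [LinearMap.charpoly_natDegree, hd])
  rw [← heq, LinearMap.eval_charpoly, Algebra.norm_apply, map_sub, AlgHom.commutes]

end Cfsg.Agent.Lib.H31NSNorm
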