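import Mathlib

set_option autoImplicit false

namespace Cfsg.Agent.Lib.H31NSNum

theorem real_ineq (P a u N r : ℝ) (hP : 2 ≤ P) (ha : P ^ 2 ≤ a) (hN : N = P ^ 2 * a)
    (hu : (P + 1) * a ≤ u) (huN : u ≤ N) (hr0 : 0 ≤ r) (hr1 : r ≤ 1) :
    (N - u) ^ 3 < (N * r - u ^ 2) ^ 2 := by
  have hP0 : 0 < P := by linarith
  have ha0 : 0 < a := lt_of_lt_of_le (by positivity) ha
  have hN0 : 0 < N := by rw [hN]; positivity
  have hu0 : 0 < u := lt_of_lt_of_le (by positivity) hu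
  have h1 : (N - u) ^ 3 < N ^ 3 := by
    apply pow_lt_pow_left₀ (by linarith) (by linarith) (by norm_num)
  have h2 : N ^ 3 ≤ (P ^ 2 * a ^ 2) ^ 2 := by
    rw [hN]
    have : (P ^ 2 * a ^ 2) ^ 2 - (P ^ 2 * a) ^ 3 = P ^ 4 * a ^ 3 * (a - P ^ 2) := by ring
    have h3 : 0 ≤ P ^ 4 * a ^ 3 * (a - P ^ 2) := by
      apply mul_nonneg (by positivity) (by linarith)
    linarith
  have h4 : ((P + 1) * a) ^ 2 ≤ u ^ 2 := by
    apply pow_le_pow_left₀ (by positivity) hu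
  have h5 : N * r ≤ N := by nlinarith
  have h6 : P ^ 2 * a ^ 2 ≤ u ^ 2 - N * r := by
    have h7 : P ^ 2 * a ≤ 2 * P * a ^ 2 := by
      have : P ≤ a := by nlinarith
      nlinarith [mul_pos hP0 ha0]
    have h8 : ((P + 1) * a) ^ 2 = P ^ 2 * a ^ 2 + 2 * P * a ^ 2 + a ^ 2 := by ring
    have h9 : 0 ≤ a ^ 2 := by positivity
    have h5' : N * r ≤ P ^ 2 * a := by rw [← hN]; exact h5
    linarith
  have h10 : (P ^ 2 * a ^ 2) ^ 2 ≤ (u ^ 2 - N * r) ^ 2 := by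
    apply pow_le_pow_left₀ (by positivity) h6
  have h11 : (N * r - u ^ 2) ^ 2 = (u ^ 2 - N * r) ^ 2 := by ring
  rw [h11]
  linarith

theorem two_le (p q r : ℕ) (hp : 2 ≤ p) (hq : 5 ≤ q)
    (h : (((p ^ q : ℕ) : ℝ) * (r : ℝ) - ((((p ^ q - 1) / (p - 1) : ℕ)) : ℝ) ^ 2) ^ 2 ≤
      (((p ^ q : ℕ) : ℝ) - ((((p ^ q - 1) / (p - 1) : ℕ)) : ℝ)) ^ 3) : 2 ≤ r := by
  by_contra hr
  have hr1 : r ≤ 1 := by omega
  obtain ⟨k, rfl⟩ : ∃ k, q = k + 2 := ⟨q - 2, by omega⟩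
  have hk : 3 ≤ k := by omega
  have hsum := Nat.geomSum_eq hp (k + 2)
  have hlow : (p + 1) * p ^ k ≤ (p ^ (k + 2) - 1) / (p - 1) := by
    rw [← hsum, Finset.sum_range_succ, Finset.sum_range_succ]
    have : (p + 1) * p ^ k = p ^ k + p ^ (k + 1) := by ring
    rw [this]
    omega
  have hup : (p ^ (k + 2) - 1) / (p - 1) ≤ p ^ (k + 2) :=
    (Nat.div_le_self _ _).trans (Nat.sub_le _ _)
  have hak : p ^ 2 ≤ p ^ k := Nat.pow_le_pow_right (by omega) (by omega)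
  have key := real_ineq (p : ℝ) ((p ^ k : ℕ) : ℝ) ((((p ^ (k + 2) - 1) / (p - 1) : ℕ)) : ℝ)
    ((p ^ (k + 2) : ℕ) : ℝ) (r : ℝ) (by exact_mod_cast hp) (by exact_mod_cast hak)
    (by push_cast; ring) (by exact_mod_cast hlow) (by exact_mod_cast hup) (by positivity)
    (by exact_mod_cast hr1)
  exact absurd h (not_le.mpr key)

end Cfsg.Agent.Lib.H31NSNum
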