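import Cfsg.Agent.Lib.H31NSDefs

set_option autoImplicit false

namespace Cfsg.Agent.Lib.H31NSPars
open Cfsg.Agent.Lib.H31NSDefs

variable {F : Type*} [Field F] [Fintype F] [DecidableEq F]

/-- Piece Pars (Parseval).  `‖η ψ‖² = η ψ * conj (η ψ) = ∑_{s,t ∈ U} ψ (s - t)`; swap the sums and use
`AddChar.sum_apply_eq_ite (s - t)`. -/
theorem sum_norm_sq (U : Finset F) :
    ∑ ψ : AddChar F ℂ, ‖eta U ψ‖ ^ 2 = (Fintype.card F : ℝ) * (U.card : ℝ) := by
  have h1 : ∀ ψ : AddChar F ℂ, ((‖eta U ψ‖ ^ 2 : ℝ) : ℂ) =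
      ∑ s ∈ U, ∑ t ∈ U, ψ (s - t) := by
    intro ψ
    rw [Complex.ofReal_pow, ← Complex.mul_conj']
    unfold eta
    rw [map_sum, Finset.sum_mul_sum]
    refine Finset.sum_congr rfl fun a _ => ?_
    refine Finset.sum_congr rfl fun b _ => ?_
    rw [sub_eq_add_neg, AddChar.map_add_eq_mul, AddChar.map_neg_eq_conj]
  have h2 : ((∑ ψ : AddChar F ℂ, ‖eta U ψ‖ ^ 2 : ℝ) : ℂ) =
      (((Fintype.card F : ℝ) * (U.card : ℝ) : ℝ) : ℂ) := by
    push_cast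
    have h1' : ∀ ψ : AddChar F ℂ, ((‖eta U ψ‖ : ℝ) : ℂ) ^ 2 =
      ∑ s ∈ U, ∑ t ∈ U, ψ (s - t) := by
      intro ψ
      rw [← h1 ψ]; push_cast; rfl
    rw [Finset.sum_congr rfl fun ψ _ => h1' ψ, Finset.sum_comm]
    have h3 : ∀ s ∈ U, ∑ ψ : AddChar F ℂ, ∑ t ∈ U, ψ (s - t) = (Fintype.card F : ℂ) := by
      intro s hs
      rw [Finset.sum_comm]
      rw [Finset.sum_congr rfl fun t _ => AddChar.sum_apply_eq_ite (s - t)]
      rw [Finset.sum_eq_single s]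
      · simp
      · intro b _ hb
        rw [if_neg]
        rw [sub_eq_zero]
        exact fun h => hb h.symm
      · intro h; exact absurd hs h
    rw [Finset.sum_congr rfl h3, Finset.sum_const, nsmul_eq_mul, mul_comm]
  exact_mod_cast h2

end Cfsg.Agent.Lib.H31NSPars
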