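import Mathlib

set_option autoImplicit false

namespace Cfsg.Agent.Lib.H31NSRoot
open Polynomial

theorem exists_root (p : ℕ) [Fact p.Prime] (f : (ZMod p)[X]) (hf : f.Monic) (hd : f.natDegree = 3)
    (hr : ∀ x : ZMod p, f.eval x ≠ 0) :
    Irreducible f ∧ ∃ a : GaloisField p 3, aeval a f = 0 := by
  have hirr : Irreducible f := by
    rw [Polynomial.Monic.irreducible_iff_roots_eq_zero_of_degree_le_three hf (by omega) (by omega)]
    apply Multiset.eq_zero_of_forall_notMem
    intro x hx
    exact hr x (Polynomial.mem_roots'.mp hx).2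
  refine ⟨hirr, ?_⟩
  have : Fact (Irreducible f) := ⟨hirr⟩
  have hfin : Module.Finite (ZMod p) (AdjoinRoot f) := (AdjoinRoot.powerBasis hf.ne_zero).finite
  have : Finite (AdjoinRoot f) := Module.finite_of_finite (ZMod p)
  have := Fintype.ofFinite (AdjoinRoot f)
  have hcard : Nat.card (AdjoinRoot f) = p ^ 3 := by
    rw [Module.natCard_eq_pow_finrank (K := ZMod p), (AdjoinRoot.powerBasis hf.ne_zero).finrank,
      AdjoinRoot.powerBasis_dim, hd, Nat.card_zmod]
  let e := GaloisField.algEquivGaloisField p 3 hcard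
  refine ⟨e (AdjoinRoot.root f), ?_⟩
  have h1 := Polynomial.aeval_algHom_apply (e : AdjoinRoot f →ₐ[ZMod p] GaloisField p 3)
    (AdjoinRoot.root f) f
  have h2 : aeval (AdjoinRoot.root f) f = 0 := by
    rw [AdjoinRoot.aeval_eq, AdjoinRoot.mk_self]
  rw [h2, map_zero] at h1
  exact h1

end Cfsg.Agent.Lib.H31NSRoot
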