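import Mathlib
import Cfsg.Agent.Lib.H32OcDefs

set_option autoImplicit false

namespace Cfsg.Agent.Lib.H32OcBasic

open Cfsg Cfsg.Agent.Lib.H32OcDefs
open scoped commutatorElement

variable {G : Type*} [Group G]

/-! **Basic** (PURE MATHLIB). `O4 G : ∀ g, orderOf g ≤ 4`. -/

theorem quot [Finite G] (h : O4 G) (N : Subgroup G) [N.Normal] : O4 (G ⧸ N) := by
  intro q
  obtain ⟨g, rfl⟩ := QuotientGroup.mk_surjective q
  have h1 : orderOf (QuotientGroup.mk' N g) ∣ orderOf g := orderOf_map_dvd _ g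
  exact (Nat.le_of_dvd (orderOf_pos g) h1).trans (h g)

theorem sub (h : O4 G) (H : Subgroup G) : O4 H := by
  intro x
  rw [← Subgroup.orderOf_coe]
  exact h x

theorem nc (h : O4 G) {x y : G} (hx : orderOf x = 2) (hy : orderOf y = 3) : x * y ≠ y * x := by
  intro hxy
  have hc : Commute x y := hxy
  have h1 := hc.orderOf_mul_eq_mul_orderOf_of_coprime (by rw [hx, hy]; norm_num)
  have h2 := h (x * y)
  rw [h1, hx, hy] at h2
  omega

theorem cases [Finite G] (h : O4 G) (g : G) : g ^ 4 = 1 ∨ g ^ 3 = 1 := by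
  have h1 := h g
  have h2 := orderOf_pos g
  have h3 := pow_orderOf_eq_one g
  obtain ⟨k, hk⟩ : ∃ k, k = orderOf g := ⟨_, rfl⟩
  rw [← hk] at h1 h2 h3
  interval_cases k
  · left; rw [pow_one] at h3; rw [h3, one_pow]
  · left
    calc g ^ 4 = (g ^ 2) ^ 2 := by rw [← pow_mul]
      _ = 1 := by rw [h3, one_pow]
  · right; exact h3
  · left; exact h3

theorem two [Finite G] (h : O4 G) (H : Subgroup G) (h3 : ∀ x ∈ H, orderOf x ≠ 3) : IsPGroup 2 H := by
  intro x
  refine ⟨2, ?_⟩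
  apply Subtype.ext
  rw [Subgroup.coe_pow, Subgroup.coe_one]
  rcases cases h (x : G) with h4 | h4
  · exact h4
  · have h5 : orderOf (x : G) ∣ 3 := orderOf_dvd_of_pow_eq_one h4
    rcases (Nat.dvd_prime Nat.prime_three).1 h5 with h6 | h6
    · rw [orderOf_eq_one_iff.1 h6, one_pow]
    · exact absurd h6 (h3 x x.2)

theorem three [Finite G] (h : O4 G) (H : Subgroup G) (h2 : ∀ x ∈ H, orderOf x ≠ 2) : IsPGroup 3 H := by
  intro x
  refine ⟨1, ?_⟩
  apply Subtype.ext
  rw [Subgroup.coe_pow, Subgroup.coe_one, pow_one]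
  rcases cases h (x : G) with h4 | h4
  · -- x^4 = 1
    have key : ∀ w ∈ H, w ^ 2 = 1 → w = 1 := by
      intro w hw hw2
      have h5 : orderOf w ∣ 2 := orderOf_dvd_of_pow_eq_one hw2
      rcases (Nat.dvd_prime Nat.prime_two).1 h5 with h6 | h6
      · exact orderOf_eq_one_iff.1 h6
      · exact absurd h6 (h2 w hw)
    have h5 : (x : G) ^ 2 = 1 := key _ (H.pow_mem x.2 2) (by rw [← pow_mul]; exact h4)
    rw [key _ x.2 h5, one_pow]
  · exact h4

theorem pow_four [Finite G] (h : O4 G) {N : Subgroup G} (hN : IsPGroup 2 N) : ∀ n ∈ N, n ^ 4 = 1 := by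
  intro n hn
  rcases cases h n with h4 | h4
  · exact h4
  · obtain ⟨k, hk⟩ := hN ⟨n, hn⟩
    have hk' : n ^ 2 ^ k = 1 := by
      have := congrArg Subtype.val hk
      simpa using this
    have h1 : orderOf n ∣ 3 := orderOf_dvd_of_pow_eq_one h4
    have h2 : orderOf n ∣ 2 ^ k := orderOf_dvd_of_pow_eq_one hk'
    have h3 : orderOf n = 1 :=
      Nat.eq_one_of_dvd_coprimes (Nat.Coprime.pow_right k (by norm_num : Nat.Coprime 3 2)) h1 h2
    rw [orderOf_eq_one_iff.1 h3, one_pow]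

theorem fix_of_nc [Finite G] (h : O4 G) {N : Subgroup G} (hN : IsPGroup 2 N) {y : G} (hy : orderOf y = 3) :
    ∀ n ∈ N, y * n = n * y → n = 1 := by
  intro n hn hc
  by_contra hn1
  have h4 := pow_four h hN n hn
  have hcn : Commute n y := hc.symm
  by_cases h2 : n ^ 2 = 1
  · have ho : orderOf n = 2 := orderOf_eq_prime h2 hn1
    exact nc h ho hy hcn.eq
  · have ho : orderOf (n ^ 2) = 2 := orderOf_eq_prime (by rw [← pow_mul]; exact h4) h2
    exact nc h ho hy (hcn.pow_left 2).eq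

end Cfsg.Agent.Lib.H32OcBasic
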