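import Mathlib
import Cfsg.Agent.Lib.H32OcDefs

set_option autoImplicit false

namespace Cfsg.Agent.Lib.H32OcInv

open Cfsg Cfsg.Agent.Lib.H32OcDefs
open scoped commutatorElement

variable {G : Type*} [Group G]

/-! **Inv** (PURE MATHLIB, 30m). -/

/-- `f : N → N`, `n ↦ n⁻¹ * (t n t⁻¹)` is injective (if `f n = f m` then `m n⁻¹` commutes with `t`), hence surjective (`Finite.injective_iff_surjective`);
for `x = n⁻¹ * (t n t⁻¹)` one computes `t x t⁻¹ = x⁻¹` using `t * t = 1`. -/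
theorem inverts (N : Subgroup G) [Finite N] [hNn : N.Normal] {t : G} (ht : t * t = 1)
    (hfix : ∀ n ∈ N, t * n = n * t → n = 1) : ∀ n ∈ N, t * n * t⁻¹ = n⁻¹ := by
  have hti : t⁻¹ = t := inv_eq_of_mul_eq_one_left ht
  let f : N → N := fun n => ⟨(n : G)⁻¹ * (t * n * t⁻¹), N.mul_mem (N.inv_mem n.2) (hNn.conj_mem _ n.2 t)⟩
  have hinj : Function.Injective f := by
    intro n m hnm
    have h1 : (n : G)⁻¹ * (t * n * t⁻¹) = (m : G)⁻¹ * (t * m * t⁻¹) := congrArg Subtype.val hnm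
    have h2 : (m : G) * (n : G)⁻¹ = 1 := by
      apply hfix _ (N.mul_mem m.2 (N.inv_mem n.2))
      -- t m n⁻¹ = m n⁻¹ t
      have h3 : (m : G) * (n : G)⁻¹ * (t * n * t⁻¹) = t * m * t⁻¹ := by
        rw [mul_assoc, h1]; group
      have h4 : t * n * t⁻¹ * (t * (n : G)⁻¹ * t⁻¹) = 1 := by group
      have h5 : (m : G) * (n : G)⁻¹ = t * m * t⁻¹ * (t * (n : G)⁻¹ * t⁻¹) := by
        rw [← h3, mul_assoc _ (t * n * t⁻¹), h4, mul_one]
      have h6 : t * m * t⁻¹ * (t * (n : G)⁻¹ * t⁻¹) = t * (m * (n : G)⁻¹) * t⁻¹ := by group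
      rw [h6] at h5
      calc t * ((m : G) * (n : G)⁻¹) = t * ((m : G) * (n : G)⁻¹) * t⁻¹ * t := by group
        _ = (m : G) * (n : G)⁻¹ * t := by rw [← h5]
    apply Subtype.ext
    exact (mul_inv_eq_one.1 h2).symm
  have hsurj : Function.Surjective f := Finite.injective_iff_surjective.1 hinj
  intro x hx
  obtain ⟨n, hn⟩ := hsurj ⟨x, hx⟩
  have h1 : (n : G)⁻¹ * (t * n * t⁻¹) = x := congrArg Subtype.val hn
  rw [← h1, hti]
  have : t * ((n : G)⁻¹ * (t * n * t)) * t = t * (n : G)⁻¹ * t * n * (t * t) := by group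
  rw [this, ht, mul_one]
  have h2 : ((n : G)⁻¹ * (t * n * t))⁻¹ = t⁻¹ * (n : G)⁻¹ * t⁻¹ * n := by group
  rw [h2, hti]

/-- `(a b)⁻¹ = t a b t⁻¹ = a⁻¹ b⁻¹`. -/
theorem comm_of_inverts (N : Subgroup G) {t : G} (h : ∀ n ∈ N, t * n * t⁻¹ = n⁻¹) :
    ∀ a ∈ N, ∀ b ∈ N, a * b = b * a := by
  intro a ha b hb
  have h1 := h _ (N.mul_mem ha hb)
  have h2 := h a ha
  have h3 := h b hb
  have h4 : t * (a * b) * t⁻¹ = t * a * t⁻¹ * (t * b * t⁻¹) := by group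
  rw [h4, h2, h3, mul_inv_rev] at h1
  have h5 := congrArg (fun x => x⁻¹) h1
  simp only [mul_inv_rev, inv_inv] at h5
  exact h5.symm

end Cfsg.Agent.Lib.H32OcInv
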