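import Mathlib
import Cfsg.Agent.Lib.H32OcDefs
import Cfsg.Agent.Lib.H32OcBasic
import Cfsg.Agent.Lib.H32OcInv

set_option autoImplicit false

namespace Cfsg.Agent.Lib.H32OcA1

open Cfsg Cfsg.Agent.Lib.H32OcDefs
open scoped commutatorElement

variable {G : Type*} [Group G]

/-! **A1** (30m). -/

theorem order_three [Finite G] (h : O4 G) {N : Subgroup G} (hN : IsPGroup 3 N) {n : G} (hn : n ∈ N)
    (hn1 : n ≠ 1) : orderOf n = 3 := by
  obtain ⟨k, hk⟩ := hN ⟨n, hn⟩
  have hk' : n ^ 3 ^ k = 1 := by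
    have := congrArg Subtype.val hk
    simpa using this
  have h2 : orderOf n ∣ 3 ^ k := orderOf_dvd_of_pow_eq_one hk'
  obtain ⟨j, hj, hj2⟩ := (Nat.dvd_prime_pow Nat.prime_three).1 h2
  have h4 := h n
  rw [hj2] at h4
  rcases j with _ | _ | j
  · rw [pow_zero] at hj2
    exact absurd (orderOf_eq_one_iff.1 hj2) hn1
  · simpa using hj2
  · exfalso
    have : 3 ^ (j + 1 + 1) ≥ 9 := by
      have : 3 ^ (j + 1 + 1) = 9 * 3 ^ j := by ring
      have h0 : 0 < 3 ^ j := by positivity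
      omega
    omega

/-- `t * t = 1`.  If `n ∈ N`, `n ≠ 1` commutes with `t`: `n` has order 3 (`hN`: order a power of 3, `≤ 4`), contradiction with `H32OcBasic.nc`.
So `H32OcInv.inverts`, `comm_of_inverts`.  `IsElementaryAbelian 3 N = IsMulCommutative N ∧ ∀ a ∈ N, a ^ 3 = 1`. -/
theorem elemAb [Finite G] (h : O4 G) (N : Subgroup G) [N.Normal] (hN : IsPGroup 3 N) {t : G}
    (ht : orderOf t = 2) : IsElementaryAbelian 3 N ∧ ∀ n ∈ N, t * n * t⁻¹ = n⁻¹ := by
  have ht2 : t * t = 1 := by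
    have := pow_orderOf_eq_one t
    rwa [ht, pow_two] at this
  have hfix : ∀ n ∈ N, t * n = n * t → n = 1 := by
    intro n hn hc
    by_contra hn1
    exact H32OcBasic.nc h ht (order_three h hN hn hn1) hc
  have hinv := H32OcInv.inverts N ht2 hfix
  have hcomm := H32OcInv.comm_of_inverts N hinv
  refine ⟨?_, hinv⟩
  refine ⟨⟨⟨fun a b => Subtype.ext (hcomm a a.2 b b.2)⟩⟩, ?_⟩
  intro a ha
  by_cases ha1 : a = 1
  · rw [ha1, one_pow]
  · have := pow_orderOf_eq_one a
    rwa [order_three h hN ha ha1] at this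

end Cfsg.Agent.Lib.H32OcA1
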