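import Mathlib
import Cfsg.Agent.Lib.H32OcDefs
import Cfsg.Agent.Lib.H32OcBasic

set_option autoImplicit false

namespace Cfsg.Agent.Lib.H32OcA2

open Cfsg Cfsg.Agent.Lib.H32OcDefs
open scoped commutatorElement

variable {G : Type*} [Group G]

/-! **A2** (30m). -/

theorem order_three' [Finite G] (h : O4 G) {N : Subgroup G} (hN : IsPGroup 3 N) {n : G} (hn : n ∈ N)
    (hn1 : n ≠ 1) : orderOf n = 3 := by
  obtain ⟨k, hk⟩ := hN ⟨n, hn⟩
  have hk' : n ^ 3 ^ k = 1 := by
    have := congrArg Subtype.val hk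
    simpa using this
  have h2 : orderOf n ∣ 3 ^ k := orderOf_dvd_of_pow_eq_one hk'
  obtain ⟨j, hj, hj2⟩ := (Nat.dvd_prime_pow Nat.prime_three).1 h2
  have h4 := h n
  rw [hj2] at h4
  rcases j with _ | _ | j
  · rw [pow_zero] at hj2
    exact absurd (orderOf_eq_one_iff.1 hj2) hn1
  · simpa using hj2
  · exfalso
    have : 3 ^ (j + 1 + 1) ≥ 9 := by
      have : 3 ^ (j + 1 + 1) = 9 * 3 ^ j := by ring
      have h0 : 0 < 3 ^ j := by positivity
      omega
    omega

/-- `C = centralizer N` is normal (`Subgroup.normal_centralizer`?/ instance).  It has no element of order 2: pick `1 ≠ n ∈ N`, of order 3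
(power of 3, `≤ 4`), `H32OcBasic.nc`.  So `C` is a 3-group (`H32OcBasic.three`) and `hmax` applies. -/
theorem cent_le [Finite G] (h : O4 G) (N : Subgroup G) [N.Normal] (hN : IsPGroup 3 N) (hN1 : N ≠ ⊥)
    (hmax : ∀ M : Subgroup G, M.Normal → IsPGroup 3 M → M ≤ N) :
    Subgroup.centralizer (N : Set G) ≤ N := by
  obtain ⟨n', hn'⟩ := Subgroup.ne_bot_iff_exists_ne_one.1 hN1
  obtain ⟨n, hn, hn1⟩ : ∃ n : G, n ∈ N ∧ n ≠ 1 := ⟨n', n'.2, fun h => hn' (Subtype.ext h)⟩
  apply hmax _ inferInstance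
  apply H32OcBasic.three h
  intro x hx hx2
  have h1 := Subgroup.mem_centralizer_iff.1 hx n hn
  exact H32OcBasic.nc h hx2 (order_three' h hN hn hn1) h1.symm

end Cfsg.Agent.Lib.H32OcA2
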