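import Mathlib
import Cfsg.Agent.Lib.H32OcDefs
import Cfsg.Agent.Lib.H32OcA1
import Cfsg.Agent.Lib.H32OcA2

set_option autoImplicit false

namespace Cfsg.Agent.Lib.H32OcA3

open Cfsg Cfsg.Agent.Lib.H32OcDefs
open scoped commutatorElement

variable {G : Type*} [Group G]

/-! **A3** (15m). -/

/-- both `s` and `t` invert `N` (`H32OcA1.elemAb`), so `s * t` centralises `N`; `H32OcA2.cent_le`. -/
theorem mul_mem [Finite G] (h : O4 G) (N : Subgroup G) [N.Normal] (hN : IsPGroup 3 N) (hN1 : N ≠ ⊥)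
    (hmax : ∀ M : Subgroup G, M.Normal → IsPGroup 3 M → M ≤ N) {s t : G} (hs : orderOf s = 2)
    (ht : orderOf t = 2) : s * t ∈ N := by
  apply H32OcA2.cent_le h N hN hN1 hmax
  rw [Subgroup.mem_centralizer_iff]
  intro n hn
  have h1 := (H32OcA1.elemAb h N hN hs).2
  have h2 := (H32OcA1.elemAb h N hN ht).2 n hn
  have h3 := h1 n⁻¹ (N.inv_mem hn)
  rw [inv_inv] at h3
  -- s t n t⁻¹ s⁻¹ = n
  have h4 : s * t * n = n * (s * t) := by
    calc s * t * n = s * (t * n * t⁻¹) * s⁻¹ * (s * t) := by group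
      _ = n * (s * t) := by rw [h2, h3]
  exact h4.symm

end Cfsg.Agent.Lib.H32OcA3
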