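import Mathlib
import Cfsg.Agent.Lib.H32OcDefs
import Cfsg.Agent.Lib.H32OcBasic
import Cfsg.Agent.Lib.H32OcA3

set_option autoImplicit false

namespace Cfsg.Agent.Lib.H32OcA4

open Cfsg Cfsg.Agent.Lib.H32OcDefs
open scoped commutatorElement

variable {G : Type*} [Group G]

/-! **A4** (60m). -/

/-- Let `g₀` have order 4, `t = g₀ * g₀` (order 2), `z = mk t : G ⧸ N`.  `t ∉ N` (N is a 3-group) so `orderOf z = 2`.
* every involution `s` of `G` has `mk s = z` (`H32OcA3.mul_mem`: `s * t ∈ N`, `t⁻¹ = t`).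
* `z` is central in `G ⧸ N`: `g t g⁻¹` is an involution.
* no `q : G ⧸ N` has order 3: it would commute with `z`, contradiction with `H32OcBasic.nc (H32OcBasic.quot h N)`.
* `q = mk g`: by `H32OcBasic.cases` `g ^ 4 = 1` (then `q ^ 4 = 1`) or `g ^ 3 = 1` (then `q ^ 3 = 1`, order 1 or 3, so `q = 1`).
* `mk g₀` has order 4: `(mk g₀) ^ 4 = 1` and `(mk g₀) ^ 2 = z ≠ 1` (`orderOf_eq_prime_pow` / `orderOf_dvd...`).
* uniqueness: `q = mk g` of order 2.  `g ^ 3 = 1` is impossible.  So `g ^ 4 = 1`, `orderOf g ∈ {1,2,4}`; order 1: no; order 2: `q = z`;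
  order 4: `g * g` is an involution so `q * q = mk (g * g) = z ≠ 1`, contradiction. -/
theorem quot_facts [Finite G] (h : O4 G) (N : Subgroup G) [N.Normal] (hN : IsPGroup 3 N) (hN1 : N ≠ ⊥)
    (hmax : ∀ M : Subgroup G, M.Normal → IsPGroup 3 M → M ≤ N) (h4 : ∃ g : G, orderOf g = 4) :
    (∀ q : G ⧸ N, q ^ 4 = 1) ∧ (∃ q : G ⧸ N, orderOf q = 4) ∧
      (∀ q q' : G ⧸ N, orderOf q = 2 → orderOf q' = 2 → q = q') := by
  obtain ⟨g₀, hg₀⟩ := h4
  have sq4 : ∀ g : G, (g * g) ^ 2 = g ^ 4 := fun g => by rw [← pow_two, ← pow_mul]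
  have hg4 : g₀ ^ 4 = 1 := by rw [← hg₀]; exact pow_orderOf_eq_one g₀
  have ht2 : orderOf (g₀ * g₀) = 2 := by
    apply orderOf_eq_prime
    · rw [sq4, hg4]
    · intro h1
      have h2 : g₀ ^ 2 = 1 := by rw [pow_two]; exact h1
      have h3 := orderOf_dvd_of_pow_eq_one h2
      rw [hg₀] at h3
      norm_num at h3
  have hinvN : ∀ s : G, orderOf s = 2 → s ∉ N := by
    intro s hs hsN
    obtain ⟨k, hk⟩ := hN ⟨s, hsN⟩
    have h1 : s ^ 3 ^ k = 1 := by
      have := congrArg Subtype.val hk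
      simpa using this
    have h2 := orderOf_dvd_of_pow_eq_one h1
    rw [hs] at h2
    have h3 := Nat.Prime.dvd_of_dvd_pow Nat.prime_two h2
    norm_num at h3
  have hinv : ∀ s : G, orderOf s = 2 → s⁻¹ = s := by
    intro s hs
    apply inv_eq_of_mul_eq_one_left
    have := pow_orderOf_eq_one s
    rw [hs, pow_two] at this
    exact this
  have ha : ∀ s : G, orderOf s = 2 → (QuotientGroup.mk s : G ⧸ N) = QuotientGroup.mk (g₀ * g₀) := by
    intro s hs
    rw [QuotientGroup.eq, hinv s hs]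
    exact H32OcA3.mul_mem h N hN hN1 hmax hs ht2
  have hz1 : (QuotientGroup.mk (g₀ * g₀) : G ⧸ N) ≠ 1 := by
    intro h1
    exact hinvN _ ht2 ((QuotientGroup.eq_one_iff _).1 h1)
  have hz2 : orderOf (QuotientGroup.mk (g₀ * g₀) : G ⧸ N) = 2 := by
    apply orderOf_eq_prime _ hz1
    rw [← QuotientGroup.mk_pow]
    have : (g₀ * g₀) ^ 2 = 1 := by rw [sq4, hg4]
    rw [this]; rfl
  have hzc : ∀ q : G ⧸ N, (QuotientGroup.mk (g₀ * g₀) : G ⧸ N) * q
      = q * QuotientGroup.mk (g₀ * g₀) := by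
    intro q
    obtain ⟨g, rfl⟩ := QuotientGroup.mk_surjective q
    have h1 : orderOf (g * (g₀ * g₀) * g⁻¹) = 2 := by
      have := orderOf_injective (MulAut.conj g).toMonoidHom (MulAut.conj g).injective (g₀ * g₀)
      rw [ht2] at this
      simpa using this
    have h2 := ha _ h1
    have h3 : (QuotientGroup.mk (g * (g₀ * g₀) * g⁻¹) : G ⧸ N)
        = QuotientGroup.mk g * QuotientGroup.mk (g₀ * g₀) * (QuotientGroup.mk g)⁻¹ := rfl
    rw [h3] at h2
    rw [mul_inv_eq_iff_eq_mul] at h2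
    exact h2.symm
  have hno3 : ∀ q : G ⧸ N, orderOf q ≠ 3 := by
    intro q hq
    exact H32OcBasic.nc (H32OcBasic.quot h N) hz2 hq (hzc q)
  have hq3 : ∀ q : G ⧸ N, q ^ 3 = 1 → q = 1 := by
    intro q hq
    by_contra hq1
    exact hno3 q (orderOf_eq_prime hq hq1)
  have hall : ∀ q : G ⧸ N, q ^ 4 = 1 := by
    intro q
    obtain ⟨g, rfl⟩ := QuotientGroup.mk_surjective q
    rcases H32OcBasic.cases h g with h1 | h1
    · rw [← QuotientGroup.mk_pow, h1]; rfl
    · have h2 : (QuotientGroup.mk g : G ⧸ N) ^ 3 = 1 := by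
        rw [← QuotientGroup.mk_pow, h1]; rfl
      rw [hq3 _ h2, one_pow]
  refine ⟨hall, ⟨QuotientGroup.mk g₀, ?_⟩, ?_⟩
  · have := orderOf_eq_prime_pow (p := 2) (n := 1) (x := (QuotientGroup.mk g₀ : G ⧸ N)) (by
      intro h1
      apply hz1
      rw [pow_one, pow_two] at h1
      exact h1) (hall _)
    simpa using this
  · have hkey : ∀ q : G ⧸ N, orderOf q = 2 → q = QuotientGroup.mk (g₀ * g₀) := by
      intro q hq
      have hqq : q * q = 1 := by
        have := pow_orderOf_eq_one q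
        rwa [hq, pow_two] at this
      have hq1 : q ≠ 1 := by
        rintro rfl
        rw [orderOf_one] at hq
        norm_num at hq
      obtain ⟨g, rfl⟩ := QuotientGroup.mk_surjective q
      rcases H32OcBasic.cases h g with h1 | h1
      · by_cases hgg : g * g = 1
        · apply ha
          apply orderOf_eq_prime (by rw [pow_two]; exact hgg)
          rintro rfl
          exact hq1 rfl
        · exfalso
          have h2 : orderOf (g * g) = 2 := by
            apply orderOf_eq_prime _ hgg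
            rw [sq4, h1]
          have h3 := ha _ h2
          apply hz1
          rw [← h3]
          exact hqq
      · exfalso
        apply hq1
        apply hq3
        rw [← QuotientGroup.mk_pow, h1]; rfl
    intro q q' hq hq'
    rw [hkey q hq, hkey q' hq']

end Cfsg.Agent.Lib.H32OcA4
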