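import Mathlib
import Cfsg.Agent.Lib.H32OcDefs

set_option autoImplicit false

namespace Cfsg.Agent.Lib.H32OcA5a

open Cfsg Cfsg.Agent.Lib.H32OcDefs
open scoped commutatorElement

variable {G : Type*} [Group G]

/-! **A5a** (PURE MATHLIB, 60m). -/

/-- Let `x` have order 4, `z = x * x` (the involution).  Every `w ∉ {1, z}` has `w * w = z` (`w * w` has order 2 since `w ^ 4 = 1`, `w * w ≠ 1`).
* if `w` commutes with `x` then `w ∈ zpowers x`: if `w ∉ {1,z}` then `(x * w) ^ 2 = z * z = 1`, so `x * w ∈ {1, z}`.
* for every `g`: `g x g⁻¹ = x ∨ g x g⁻¹ = x⁻¹`: `u = x⁻¹ * (g x g⁻¹)`... direct way: `T ⧸ zpowers z` has exponent 2 hence is abelian; or elementwise: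
  `(g * x) * (g * x) ∈ {1, z}` and `g * g ∈ {1, z}`, `z` central (it is the unique involution, so fixed by conjugation), which gives
  `g x g⁻¹ = x * c` with `c ∈ {1, z}`, and `x * z = x⁻¹`.
* so the centraliser `zpowers x` of `x` has index `≤ 2` (orbit-stabiliser for the conjugation action, or: if `g, g'` both invert `x` then `g⁻¹ g'`
  centralises `x`): `Nat.card T = 4` or `8`.
* if `Nat.card T = 4`, `T = zpowers x` is cyclic.  Otherwise pick `y ∉ zpowers x`. -/
theorem struct {T : Type*} [Group T] [Finite T] (h4 : ∀ x : T, x ^ 4 = 1) (he : ∃ x : T, orderOf x = 4)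
    (hu : ∀ a b : T, orderOf a = 2 → orderOf b = 2 → a = b) :
    (IsCyclic T ∧ Nat.card T = 4) ∨
      (Nat.card T = 8 ∧ ∃ x y : T, orderOf x = 4 ∧ y * y = x * x ∧ y * x * y⁻¹ = x⁻¹ ∧ y ∉ Subgroup.zpowers x) := by
  obtain ⟨x, hx⟩ := he
  have sq4 : ∀ g : T, (g * g) ^ 2 = g ^ 4 := fun g => by rw [← pow_two, ← pow_mul]
  have hz2 : orderOf (x * x) = 2 := by
    apply orderOf_eq_prime
    · rw [sq4, h4]
    · intro h1
      have h2 : x ^ 2 = 1 := by rw [pow_two]; exact h1
      have h3 := orderOf_dvd_of_pow_eq_one h2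
      rw [hx] at h3
      norm_num at h3
  have hzz : x * x * (x * x) = 1 := by
    have := sq4 x
    rwa [h4, pow_two] at this
  have hi : ∀ w : T, w * w = 1 → w = 1 ∨ w = x * x := by
    intro w hw
    by_cases hw1 : w = 1
    · exact Or.inl hw1
    · right
      exact hu _ _ (orderOf_eq_prime (by rw [pow_two]; exact hw) hw1) hz2
  have hii : ∀ w : T, w ≠ 1 → w ≠ x * x → w * w = x * x := by
    intro w h1 h2
    apply hu _ _ _ hz2
    apply orderOf_eq_prime (by rw [sq4, h4])
    intro h3
    rcases hi w h3 with h | h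
    · exact h1 h
    · exact h2 h
  have hsq : ∀ w : T, w * w = 1 ∨ w * w = x * x := by
    intro w
    by_cases h1 : w = 1
    · left; rw [h1, one_mul]
    · by_cases h2 : w = x * x
      · left; rw [h2]; exact hzz
      · right; exact hii w h1 h2
  have hzc : ∀ g : T, g * (x * x) = x * x * g := by
    intro g
    have h1 : orderOf (g * (x * x) * g⁻¹) = 2 := by
      have := orderOf_injective (MulAut.conj g).toMonoidHom (MulAut.conj g).injective (x * x)
      rw [hz2] at this
      simpa using this
    have h2 := hu _ _ h1 hz2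
    rwa [mul_inv_eq_iff_eq_mul] at h2
  have hxmem : x ∈ Subgroup.zpowers x := Subgroup.mem_zpowers x
  have hiv : ∀ w : T, w * x = x * w → w ∈ Subgroup.zpowers x := by
    intro w hw
    by_cases h1 : w = 1
    · rw [h1]; exact one_mem _
    · by_cases h2 : w = x * x
      · rw [h2]; exact mul_mem hxmem hxmem
      · have h3 := hii w h1 h2
        have h5 : x * w * (x * w) = 1 := by
          calc x * w * (x * w) = x * (w * x) * w := by group
            _ = x * (x * w) * w := by rw [hw]
            _ = x * x * (w * w) := by group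
            _ = 1 := by rw [h3, hzz]
        rcases hi _ h5 with h6 | h6
        · have : w = x⁻¹ := (inv_eq_of_mul_eq_one_right h6).symm
          rw [this]; exact inv_mem hxmem
        · have : w = x := by
            have h7 : x * w = x * x := h6
            exact mul_left_cancel h7
          rw [this]; exact hxmem
  have hxinv : x * x * x⁻¹ = x := by group
  have hx3 : x⁻¹ * (x * x)⁻¹ = x := by
    rw [← mul_inv_rev]
    apply inv_eq_of_mul_eq_one_left
    rw [← hzz]; simp only [mul_assoc]
  have hv : ∀ g : T, g * x * g⁻¹ = x ∨ g * x * g⁻¹ = x⁻¹ := by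
    intro g
    have e : g * x * g⁻¹ = (g * x * (g * x)) * x⁻¹ * (g * g)⁻¹ := by group
    rcases hsq (g * x) with h1 | h1 <;> rcases hsq g with h2 | h2
    · right; rw [e, h1, h2]; group
    · left; rw [e, h1, h2, one_mul, hx3]
    · left; rw [e, h1, h2]; group
    · right; rw [e, h1, h2]; group
  by_cases hall : ∀ g : T, g ∈ Subgroup.zpowers x
  · left
    refine ⟨⟨⟨x, hall⟩⟩, ?_⟩
    rw [← orderOf_eq_card_of_forall_mem_zpowers hall, hx]
  · right
    push Not at hall
    obtain ⟨y, hy⟩ := hall
    have hinvt : ∀ g : T, g ∉ Subgroup.zpowers x → g * x * g⁻¹ = x⁻¹ := by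
      intro g hg
      rcases hv g with h1 | h1
      · exfalso; apply hg; apply hiv
        rwa [mul_inv_eq_iff_eq_mul] at h1
      · exact h1
    have hidx : (Subgroup.zpowers x).index = 2 := by
      rw [Subgroup.index_eq_two_iff]
      refine ⟨y, fun b => ?_⟩
      by_cases hb : b ∈ Subgroup.zpowers x
      · right
        refine ⟨hb, fun hby => hy ?_⟩
        have := mul_mem (inv_mem hb) hby
        simpa using this
      · left
        refine ⟨?_, hb⟩
        apply hiv
        have h1 := hinvt b hb
        have h2 := hinvt y hy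
        have h3 : b * y * x * (b * y)⁻¹ = x := by
          calc b * y * x * (b * y)⁻¹ = b * (y * x * y⁻¹) * b⁻¹ := by group
            _ = b * x⁻¹ * b⁻¹ := by rw [h2]
            _ = (b * x * b⁻¹)⁻¹ := by group
            _ = x := by rw [h1, inv_inv]
        rwa [mul_inv_eq_iff_eq_mul] at h3
    refine ⟨?_, x, y, hx, ?_, hinvt y hy, hy⟩
    · rw [← Subgroup.card_mul_index (Subgroup.zpowers x), hidx, Nat.card_zpowers, hx]
    · apply hii
      · rintro rfl; exact hy (one_mem _)
      · rintro rfl; exact hy (mul_mem hxmem hxmem)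

end Cfsg.Agent.Lib.H32OcA5a
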