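import Mathlib
import Cfsg.Agent.Lib.H32OcDefs

set_option autoImplicit false

namespace Cfsg.Agent.Lib.H32OcF1

open Cfsg Cfsg.Agent.Lib.H32OcDefs
open scoped commutatorElement

variable {G : Type*} [Group G]

/-! **F1** (PURE MATHLIB): fixed point free automorphism of order 3. -/

variable {N : Type*} [Group N] [Finite N]

/-- `u ↦ u⁻¹ * σ u` is injective (`u⁻¹ σ u = v⁻¹ σ v` gives `σ (v u⁻¹) = v u⁻¹`), hence surjective. -/
theorem surj (σ : MulAut N) (hfix : ∀ x, σ x = x → x = 1) (g : N) : ∃ u, g = u⁻¹ * σ u := by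
  have hinj : Function.Injective (fun u : N => u⁻¹ * σ u) := by
    intro u v huv
    have huv' : u⁻¹ * σ u = v⁻¹ * σ v := huv
    have h1 : σ (v * u⁻¹) = v * u⁻¹ := by
      rw [map_mul, map_inv]
      calc σ v * (σ u)⁻¹ = v * (v⁻¹ * σ v) * (σ u)⁻¹ := by group
        _ = v * (u⁻¹ * σ u) * (σ u)⁻¹ := by rw [huv']
        _ = v * u⁻¹ := by group
    have h2 := hfix _ h1
    exact (mul_inv_eq_one.1 h2).symm
  obtain ⟨u, hu⟩ := (Finite.injective_iff_surjective.1 hinj) g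
  exact ⟨u, hu.symm⟩

/-- write `x = u⁻¹ * σ u`; the product telescopes. -/
theorem f1 (σ : MulAut N) (h3 : ∀ x, σ (σ (σ x)) = x) (hfix : ∀ x, σ x = x → x = 1) (x : N) :
    x * σ x * σ (σ x) = 1 := by
  obtain ⟨u, rfl⟩ := surj σ hfix x
  simp only [map_mul, map_inv, h3]
  group

/-- `f1` for `x` and for `x⁻¹` (invert the second): `x σx = (σσx)⁻¹ = σx x`. -/
theorem f1comm (σ : MulAut N) (h3 : ∀ x, σ (σ (σ x)) = x) (hfix : ∀ x, σ x = x → x = 1) (x : N) :
    x * σ x = σ x * x := by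
  have h1 := f1 σ h3 hfix x
  have h2 := f1 σ h3 hfix x⁻¹
  simp only [map_inv] at h2
  have h4 : x * σ x = (σ (σ x))⁻¹ := eq_inv_of_mul_eq_one_left h1
  have h5 : σ (σ x) * σ x * x = 1 := by
    have := congrArg (fun w => w⁻¹) h2
    simpa [mul_assoc] using this
  have h6 : σ x * x = (σ (σ x))⁻¹ := by
    rw [mul_assoc] at h5
    exact eq_inv_of_mul_eq_one_right h5
  rw [h4, h6]

end Cfsg.Agent.Lib.H32OcF1
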