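import Mathlib
import Cfsg.Agent.Lib.H32OcDefs
import Cfsg.Agent.Lib.H32OcF1

set_option autoImplicit false

namespace Cfsg.Agent.Lib.H32OcF2

open Cfsg Cfsg.Agent.Lib.H32OcDefs
open scoped commutatorElement

variable {G : Type*} [Group G]

/-! **F2** (PURE MATHLIB). -/

variable {N : Type*} [Group N] [Finite N]

/-- `g = u⁻¹ * σ u` (`H32OcF1.surj`).  `H32OcF1.f1comm` for `u x u⁻¹`: it commutes with `σ u * σ x * (σ u)⁻¹`.  Conjugate by `u⁻¹`. -/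
theorem f2 (σ : MulAut N) (h3 : ∀ x, σ (σ (σ x)) = x) (hfix : ∀ x, σ x = x → x = 1) (x g : N) :
    x * (g * σ x * g⁻¹) = g * σ x * g⁻¹ * x := by
  obtain ⟨u, rfl⟩ := H32OcF1.surj σ hfix g
  have h := H32OcF1.f1comm σ h3 hfix (u * x * u⁻¹)
  simp only [map_mul, map_inv] at h
  calc x * (u⁻¹ * σ u * σ x * (u⁻¹ * σ u)⁻¹)
      = u⁻¹ * (u * x * u⁻¹ * (σ u * σ x * (σ u)⁻¹)) * u := by group
    _ = u⁻¹ * (σ u * σ x * (σ u)⁻¹ * (u * x * u⁻¹)) * u := by rw [h]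
    _ = u⁻¹ * σ u * σ x * (u⁻¹ * σ u)⁻¹ * x := by group

/-- `f2` for `σ` and for `σ * σ`. -/
theorem engel (σ : MulAut N) (h3 : ∀ x, σ (σ (σ x)) = x) (hfix : ∀ x, σ x = x → x = 1) : Eng N := by
  intro x g
  have hA : Commute x (g * σ x * g⁻¹) := f2 σ h3 hfix x g
  have h3' : ∀ x, (σ * σ) ((σ * σ) ((σ * σ) x)) = x := by
    intro x
    simp only [MulAut.mul_apply, h3]
  have hfix' : ∀ x, (σ * σ) x = x → x = 1 := by
    intro x hx
    apply hfix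
    have hx' : σ (σ x) = x := hx
    calc σ x = σ (σ (σ x)) := by rw [hx']
      _ = x := h3 x
  have hB : Commute x (g * σ (σ x) * g⁻¹) := f2 (σ * σ) h3' hfix' x g
  have h1 := H32OcF1.f1 σ h3 hfix x
  have h2 : x⁻¹ = σ x * σ (σ x) := by
    rw [mul_assoc] at h1
    exact inv_eq_of_mul_eq_one_right h1
  have h4 : g * x⁻¹ * g⁻¹ = (g * σ x * g⁻¹) * (g * σ (σ x) * g⁻¹) := by
    rw [h2]; group
  have hC : Commute x (g * x⁻¹ * g⁻¹) := by
    rw [h4]; exact hA.mul_right hB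
  have h5 : g * x * g⁻¹ = (g * x⁻¹ * g⁻¹)⁻¹ := by group
  have hD : Commute x (g * x * g⁻¹) := by
    rw [h5]; exact hC.inv_right
  exact hD

end Cfsg.Agent.Lib.H32OcF2
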