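import Mathlib
import Cfsg.Agent.Lib.H32OcDefs

set_option autoImplicit false

namespace Cfsg.Agent.Lib.H32OcL1

open Cfsg Cfsg.Agent.Lib.H32OcDefs
open scoped commutatorElement

variable {G : Type*} [Group G]

/-! **L1** (PURE MATHLIB): 2-Engel groups, first consequences.  `Eng N : ∀ x g, x * (g x g⁻¹) = (g x g⁻¹) * x`; `⁅a, b⁆ = a * b * a⁻¹ * b⁻¹`. -/

variable {N : Type*} [Group N]

/-- any two conjugates of `m` commute (conjugate `hE m (a⁻¹ b)` by `a`). -/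
theorem conj_comm (hE : Eng N) (m a b : N) :
    (a * m * a⁻¹) * (b * m * b⁻¹) = (b * m * b⁻¹) * (a * m * a⁻¹) := by
  have h := hE m (a⁻¹ * b)
  have h2 : a * (m * (a⁻¹ * b * m * (a⁻¹ * b)⁻¹)) * a⁻¹ = a * (a⁻¹ * b * m * (a⁻¹ * b)⁻¹ * m) * a⁻¹ := by
    rw [h]
  calc (a * m * a⁻¹) * (b * m * b⁻¹) = a * (m * (a⁻¹ * b * m * (a⁻¹ * b)⁻¹)) * a⁻¹ := by group
    _ = a * (a⁻¹ * b * m * (a⁻¹ * b)⁻¹ * m) * a⁻¹ := h2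
    _ = (b * m * b⁻¹) * (a * m * a⁻¹) := by group

/-- `⁅g, m⁆ = g * (m g⁻¹ m⁻¹)` and `g` commutes with `m g⁻¹ m⁻¹ = (m g m⁻¹)⁻¹`. -/
theorem comm_g (hE : Eng N) (g m : N) : g * ⁅g, m⁆ = ⁅g, m⁆ * g := by
  have h : Commute g (m * g * m⁻¹) := hE g m
  have h2 : Commute g (m * g * m⁻¹)⁻¹ := h.inv_right
  have h3 : Commute g (g * (m * g * m⁻¹)⁻¹) := (Commute.refl g).mul_right h2
  have h4 : ⁅g, m⁆ = g * (m * g * m⁻¹)⁻¹ := by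
    rw [commutatorElement_def]; group
  rw [h4]; exact h3

/-- `⁅g, m⁆ = (g m g⁻¹) * m⁻¹`. -/
theorem comm_m (hE : Eng N) (g m : N) : m * ⁅g, m⁆ = ⁅g, m⁆ * m := by
  have h : Commute m (g * m * g⁻¹) := hE m g
  have h3 : Commute m (g * m * g⁻¹ * m⁻¹) := h.mul_right (Commute.refl m).inv_right
  have h4 : ⁅g, m⁆ = g * m * g⁻¹ * m⁻¹ := by
    rw [commutatorElement_def]
  rw [h4]; exact h3

/-- from `comm_g`: `g ⁅g,m⁆ g⁻¹ = ⁅g,m⁆`, conjugate by `g⁻¹`: `(g m g⁻¹) m⁻¹ = m (g⁻¹ m⁻¹ g)`; conjugates of `m` commute. -/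
theorem e1 (hE : Eng N) (g m : N) : (g * m * g⁻¹) * (g⁻¹ * m * g) = m * m := by
  have h := comm_g hE g m
  rw [commutatorElement_def] at h
  -- g * (g m g⁻¹ m⁻¹) = (g m g⁻¹ m⁻¹) * g
  have h1 : g * m * g⁻¹ = m * (g⁻¹ * m * g)⁻¹ * m := by
    have : g⁻¹ * (g * (g * m * g⁻¹ * m⁻¹)) * m = g⁻¹ * (g * m * g⁻¹ * m⁻¹ * g) * m := by rw [h]
    calc g * m * g⁻¹ = g⁻¹ * (g * (g * m * g⁻¹ * m⁻¹)) * m := by group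
      _ = g⁻¹ * (g * m * g⁻¹ * m⁻¹ * g) * m := this
      _ = m * (g⁻¹ * m * g)⁻¹ * m := by group
  have h2 : Commute m (g⁻¹ * m * g) := by
    have := hE m g⁻¹
    rw [inv_inv] at this
    exact this
  rw [h1]
  calc m * (g⁻¹ * m * g)⁻¹ * m * (g⁻¹ * m * g) = m * (g⁻¹ * m * g)⁻¹ * (m * (g⁻¹ * m * g)) := by group
    _ = m * (g⁻¹ * m * g)⁻¹ * ((g⁻¹ * m * g) * m) := by rw [h2.eq]
    _ = m * m := by group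

/-- `⁅g, c⁻¹⁆ = c⁻¹ * ⁅c, g⁆ * c = ⁅c, g⁆ = ⁅g, c⁆⁻¹` by `comm_m`. -/
theorem comm_inv_right (hE : Eng N) (g c : N) : ⁅g, c⁻¹⁆ = ⁅g, c⁆⁻¹ := by
  have h : Commute c ⁅g, c⁆ := comm_m hE g c
  have h2 : Commute c ⁅g, c⁆⁻¹ := h.inv_right
  have h3 : ⁅g, c⁻¹⁆ = c⁻¹ * ⁅g, c⁆⁻¹ * c := by
    simp only [commutatorElement_def]; group
  rw [h3, mul_assoc, ← h2.eq]; group

/-- `⁅g⁻¹, c⁆ = g⁻¹ * ⁅c, g⁆ * g = ⁅c, g⁆ = ⁅g, c⁆⁻¹` by `comm_g`. -/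
theorem comm_inv_left (hE : Eng N) (g c : N) : ⁅g⁻¹, c⁆ = ⁅g, c⁆⁻¹ := by
  have h : Commute g ⁅g, c⁆ := comm_g hE g c
  have h2 : Commute g ⁅g, c⁆⁻¹ := h.inv_right
  have h3 : ⁅g⁻¹, c⁆ = g⁻¹ * ⁅g, c⁆⁻¹ * g := by
    simp only [commutatorElement_def]; group
  rw [h3, mul_assoc, ← h2.eq]; group

end Cfsg.Agent.Lib.H32OcL1
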