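import Mathlib
import Cfsg.Agent.Lib.H32OcDefs
import Cfsg.Agent.Lib.H32OcL1

set_option autoImplicit false

namespace Cfsg.Agent.Lib.H32OcL2

open Cfsg Cfsg.Agent.Lib.H32OcDefs
open scoped commutatorElement

variable {G : Type*} [Group G]

/-! **L2** (PURE MATHLIB, 75m, START FIRST): the polarisation identity. -/

variable {N : Type*} [Group N]

theorem add_elim {α : Type*} [AddCommGroup α] (A B Cg Ch Gi D E M : α) (h1 : Cg + Gi = M + M)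
    (h3 : A + D = M + M) (h4 : E + D = Gi + Gi) (h5 : B + E = Ch + Ch) :
    A + B + (M + M) = Cg + Cg + (Ch + Ch) := by
  have key : A + B + (M + M) - (Cg + Cg + (Ch + Ch))
      = (A + D - (M + M)) + (B + E - (Ch + Ch)) - (E + D - (Gi + Gi))
        - ((Cg + Gi - (M + M)) + (Cg + Gi - (M + M))) := by abel
  rw [h1, h3, h4, h5] at key
  simp only [sub_self, add_zero] at key
  exact sub_eq_zero.1 key

theorem mul_elim {α : Type*} [CommGroup α] (A B Cg Ch Gi D E M : α) (h1 : Cg * Gi = M * M)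
    (h3 : A * D = M * M) (h4 : E * D = Gi * Gi) (h5 : B * E = Ch * Ch) :
    A * B * (M * M) = Cg * Cg * (Ch * Ch) :=
  add_elim (α := Additive α) (Additive.ofMul A) (Additive.ofMul B) (Additive.ofMul Cg)
    (Additive.ofMul Ch) (Additive.ofMul Gi) (Additive.ofMul D) (Additive.ofMul E)
    (Additive.ofMul M) h1 h3 h4 h5

/-- Write `w • m = w m w⁻¹`.  All conjugates of `m` commute with each other (`H32OcL1.conj_comm`).  Use `H32OcL1.e1`: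
(1) `(g•m)(g⁻¹•m) = m²`;  (3) `(gh•m)(h⁻¹g⁻¹•m) = m²` [`e1 (g*h) m`];  (4) `(hg⁻¹•m)(h⁻¹g⁻¹•m) = (g⁻¹•m)²` [`e1 h (g⁻¹•m)`];
(5) `(hg•m)(hg⁻¹•m) = (h•m)²` [conjugate (1) by `h`].
Eliminate: `h⁻¹g⁻¹•m = m² (gh•m)⁻¹`, `hg⁻¹•m = (g⁻¹•m)² m⁻² (gh•m)`, `hg•m = (h•m)² (g⁻¹•m)⁻² m² (gh•m)⁻¹`, `(g⁻¹•m)⁻² = m⁻⁴ (g•m)²`.
Suggestion: work in the commutative subgroup `Subgroup.closure {conjugates of m}` (`Subgroup.closureCommGroupOfComm`) or `Additive` of it and finish with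
`abel`/`linear_combination (norm := module)`-style elimination; or do it by hand with `Commute` lemmas. -/
theorem e2 (hE : Eng N) (g h m : N) :
    (g * h * m * (g * h)⁻¹) * (h * g * m * (h * g)⁻¹) * (m * m) =
      (g * m * g⁻¹) * (g * m * g⁻¹) * ((h * m * h⁻¹) * (h * m * h⁻¹)) := by
  have hcomm : ∀ x ∈ {x : N | ∃ w : N, x = w * m * w⁻¹}, ∀ y ∈ {x : N | ∃ w : N, x = w * m * w⁻¹},
      x * y = y * x := by
    rintro _ ⟨a, rfl⟩ _ ⟨b, rfl⟩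
    exact H32OcL1.conj_comm hE m a b
  letI := Subgroup.closureCommGroupOfComm hcomm
  have hmem : ∀ w : N, w * m * w⁻¹ ∈ Subgroup.closure {x : N | ∃ w : N, x = w * m * w⁻¹} :=
    fun w => Subgroup.subset_closure ⟨w, rfl⟩
  have hm : m ∈ Subgroup.closure {x : N | ∃ w : N, x = w * m * w⁻¹} := by
    have := hmem 1
    simpa using this
  have h1 : (g * m * g⁻¹) * (g⁻¹ * m * g⁻¹⁻¹) = m * m := by
    rw [inv_inv]; exact H32OcL1.e1 hE g m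
  have h3 : (g * h * m * (g * h)⁻¹) * ((g * h)⁻¹ * m * (g * h)⁻¹⁻¹) = m * m := by
    rw [inv_inv]; exact H32OcL1.e1 hE (g * h) m
  have h4 : ((h * g⁻¹) * m * (h * g⁻¹)⁻¹) * ((g * h)⁻¹ * m * (g * h)⁻¹⁻¹)
      = (g⁻¹ * m * g⁻¹⁻¹) * (g⁻¹ * m * g⁻¹⁻¹) := by
    have := H32OcL1.e1 hE h (g⁻¹ * m * g⁻¹⁻¹)
    rw [← this]; group
  have h5 : (h * g * m * (h * g)⁻¹) * ((h * g⁻¹) * m * (h * g⁻¹)⁻¹)
      = (h * m * h⁻¹) * (h * m * h⁻¹) := by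
    have e : (h * g * m * (h * g)⁻¹) * ((h * g⁻¹) * m * (h * g⁻¹)⁻¹)
        = h * ((g * m * g⁻¹) * (g⁻¹ * m * g⁻¹⁻¹)) * h⁻¹ := by group
    rw [e, h1]; group
  have key := mul_elim (α := Subgroup.closure {x : N | ∃ w : N, x = w * m * w⁻¹})
    ⟨_, hmem (g * h)⟩ ⟨_, hmem (h * g)⟩ ⟨_, hmem g⟩ ⟨_, hmem h⟩ ⟨_, hmem g⁻¹⟩ ⟨_, hmem (g * h)⁻¹⟩
    ⟨_, hmem (h * g⁻¹)⟩ ⟨m, hm⟩ (Subtype.ext h1) (Subtype.ext h3) (Subtype.ext h4) (Subtype.ext h5)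
  exact congrArg Subtype.val key

end Cfsg.Agent.Lib.H32OcL2
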