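import Mathlib
import Cfsg.Agent.Lib.H32OcDefs
import Cfsg.Agent.Lib.H32OcL1
import Cfsg.Agent.Lib.H32OcL2

set_option autoImplicit false

namespace Cfsg.Agent.Lib.H32OcL3

open Cfsg Cfsg.Agent.Lib.H32OcDefs
open scoped commutatorElement

variable {G : Type*} [Group G]

/-! **L3** (PURE MATHLIB). -/

variable {N : Type*} [Group N]

private theorem comm_aux {A : Type*} [CommGroup A] (m a b c e : A) (H : c * e * (m * m) = a * a * (b * b)) :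
    (c * a⁻¹ * m * b⁻¹) * (e * b⁻¹ * m * a⁻¹) = 1 := by
  have h1 : (c * a⁻¹ * m * b⁻¹) * (e * b⁻¹ * m * a⁻¹) = (c * e * (m * m)) * (a * a * (b * b))⁻¹ := by
    simp only [mul_inv_rev]; ac_rfl
  rw [h1, H, mul_inv_cancel]

/-- `⁅g,⁅h,m⁆⁆ = (gh•m)(g•m)⁻¹(h•m)⁻¹ m` and `⁅h,⁅g,m⁆⁆ = (hg•m)(h•m)⁻¹(g•m)⁻¹ m` up to reordering commuting conjugates of `m`
(`H32OcL1.conj_comm`); the product is `1` by `H32OcL2.e2`. -/
theorem e3 (hE : Eng N) (g h m : N) : ⁅g, ⁅h, m⁆⁆ * ⁅h, ⁅g, m⁆⁆ = 1 := by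
  let k : Set N := Set.range (fun w : N => w * m * w⁻¹)
  have hcomm : ∀ x ∈ k, ∀ y ∈ k, x * y = y * x := by
    rintro _ ⟨a, rfl⟩ _ ⟨b, rfl⟩
    exact H32OcL1.conj_comm hE m a b
  letI : CommGroup (Subgroup.closure k) := Subgroup.closureCommGroupOfComm hcomm
  let M : N → Subgroup.closure k := fun w => ⟨w * m * w⁻¹, Subgroup.subset_closure ⟨w, rfl⟩⟩
  have H : M (g * h) * M (h * g) * (M 1 * M 1) = M g * M g * (M h * M h) := by
    apply Subtype.ext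
    have := H32OcL2.e2 hE g h m
    show (g * h * m * (g * h)⁻¹) * (h * g * m * (h * g)⁻¹) * ((1 * m * 1⁻¹) * (1 * m * 1⁻¹)) =
      (g * m * g⁻¹) * (g * m * g⁻¹) * ((h * m * h⁻¹) * (h * m * h⁻¹))
    rw [← this]; group
  have K := comm_aux (M 1) (M g) (M h) (M (g * h)) (M (h * g)) H
  have K' := congrArg Subtype.val K
  have K'' : ((g * h * m * (g * h)⁻¹) * (g * m * g⁻¹)⁻¹ * (1 * m * 1⁻¹) * (h * m * h⁻¹)⁻¹) *
      ((h * g * m * (h * g)⁻¹) * (h * m * h⁻¹)⁻¹ * (1 * m * 1⁻¹) * (g * m * g⁻¹)⁻¹) = 1 := K'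
  rw [← K'']
  simp only [commutatorElement_def]
  group

end Cfsg.Agent.Lib.H32OcL3
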