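import Mathlib
import Cfsg.Agent.Lib.H32OcDefs
import Cfsg.Agent.Lib.H32OcL1
import Cfsg.Agent.Lib.H32OcL3

set_option autoImplicit false

namespace Cfsg.Agent.Lib.H32OcL4

open Cfsg Cfsg.Agent.Lib.H32OcDefs
open scoped commutatorElement

variable {G : Type*} [Group G]

/-! **L4** (PURE MATHLIB): `T g h m = ⁅g,⁅h,m⁆⁆` is alternating. -/

variable {N : Type*} [Group N]

/-- `H32OcL3.e3` -/
theorem alt12 (hE : Eng N) (g h m : N) : ⁅h, ⁅g, m⁆⁆ = ⁅g, ⁅h, m⁆⁆⁻¹ :=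
  eq_inv_of_mul_eq_one_right (H32OcL3.e3 hE g h m)

/-- `⁅m, h⁆ = ⁅h, m⁆⁻¹` (`commutatorElement_inv`) and `H32OcL1.comm_inv_right`. -/
theorem alt23 (hE : Eng N) (g h m : N) : ⁅g, ⁅m, h⁆⁆ = ⁅g, ⁅h, m⁆⁆⁻¹ := by
  rw [← commutatorElement_inv h m, H32OcL1.comm_inv_right hE]

/-- `alt12` then `alt23`. -/
theorem cyc (hE : Eng N) (g h m : N) : ⁅g, ⁅h, m⁆⁆ = ⁅h, ⁅m, g⁆⁆ := by
  rw [alt23 hE h g m, alt12 hE g h m, inv_inv]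

/-- `H32OcL1.comm_g` -/
theorem comm1 (hE : Eng N) (g h m : N) : g * ⁅g, ⁅h, m⁆⁆ = ⁅g, ⁅h, m⁆⁆ * g :=
  H32OcL1.comm_g hE g _

/-- `cyc` + `comm1` -/
theorem comm2 (hE : Eng N) (g h m : N) : h * ⁅g, ⁅h, m⁆⁆ = ⁅g, ⁅h, m⁆⁆ * h := by
  rw [cyc hE g h m]; exact comm1 hE h m g

/-- `cyc` twice + `comm1` -/
theorem comm3 (hE : Eng N) (g h m : N) : m * ⁅g, ⁅h, m⁆⁆ = ⁅g, ⁅h, m⁆⁆ * m := by
  rw [cyc hE g h m, cyc hE h m g]; exact comm1 hE m g h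

end Cfsg.Agent.Lib.H32OcL4
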