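import Mathlib
import Cfsg.Agent.Lib.H32OcDefs
import Cfsg.Agent.Lib.H32OcL1
import Cfsg.Agent.Lib.H32OcL4

set_option autoImplicit false

namespace Cfsg.Agent.Lib.H32OcL5

open Cfsg Cfsg.Agent.Lib.H32OcDefs
open scoped commutatorElement

variable {G : Type*} [Group G]

/-! **L5** (PURE MATHLIB): Hall-Witt. -/

variable {N : Type*} [Group N]

private theorem hw (x y z : N) : y * ⁅⁅y⁻¹, x⁆, z⁆ * y⁻¹ * (z * ⁅⁅z⁻¹, y⁆, x⁆ * z⁻¹) * (x * ⁅⁅x⁻¹, z⁆, y⁆ * x⁻¹) = 1 := by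
  simp only [commutatorElement_def]; group

private theorem term (hE : Eng N) (x y z : N) : y * ⁅⁅y⁻¹, x⁆, z⁆ * y⁻¹ = ⁅z, ⁅y, x⁆⁆ := by
  have h1 : ⁅⁅y⁻¹, x⁆, z⁆ = ⁅z, ⁅y, x⁆⁆ := by
    rw [H32OcL1.comm_inv_left hE, H32OcL1.comm_inv_left hE, commutatorElement_inv]
  rw [h1, H32OcL4.comm2 hE z y x]; group

/-- Hall-Witt + `cyc`. -/
theorem cube (hE : Eng N) (x y z : N) : ⁅x, ⁅y, z⁆⁆ ^ 3 = 1 := by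
  have h := hw z y x
  rw [term hE z y x, term hE y x z, term hE x z y] at h
  -- ⁅x,⁅y,z⁆⁆ * ⁅z,⁅x,y⁆⁆ * ⁅y,⁅z,x⁆⁆ = 1
  rw [← H32OcL4.cyc hE x y z, H32OcL4.cyc hE z x y] at h
  rw [pow_succ, pow_two]; exact h

/-- `cube`, `orderOf ∣ 3`, `orderOf ∣ Nat.card N`, coprime; `⁅⁅x,y⁆,z⁆ = ⁅z,⁅x,y⁆⁆⁻¹`. -/
theorem levi [Finite N] (hE : Eng N) (hcop : (Nat.card N).Coprime 3) (x y z : N) : ⁅⁅x, y⁆, z⁆ = 1 := by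
  have h1 : orderOf ⁅z, ⁅x, y⁆⁆ ∣ 3 := orderOf_dvd_of_pow_eq_one (cube hE z x y)
  have h2 : orderOf ⁅z, ⁅x, y⁆⁆ ∣ Nat.card N := orderOf_dvd_natCard _
  have h3 : orderOf ⁅z, ⁅x, y⁆⁆ = 1 := Nat.eq_one_of_dvd_coprimes hcop h2 h1
  have h4 : ⁅z, ⁅x, y⁆⁆ = 1 := orderOf_eq_one_iff.1 h3
  rw [← commutatorElement_inv, h4, inv_one]

end Cfsg.Agent.Lib.H32OcL5
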