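import Mathlib
import Cfsg.Agent.Lib.H32OcDefs
import Cfsg.Agent.Lib.H32OcF1
import Cfsg.Agent.Lib.H32OcF2
import Cfsg.Agent.Lib.H32OcL5

set_option autoImplicit false

namespace Cfsg.Agent.Lib.H32OcAmb

open Cfsg Cfsg.Agent.Lib.H32OcDefs
open scoped commutatorElement

variable {G : Type*} [Group G]

/-! **Amb**: the automorphism `σ = MulAut.conjNormal y` of `N`. -/

theorem amb (N : Subgroup G) [N.Normal] [Finite N] {y : G} (y3 : y * y * y = 1)
    (fix : ∀ n ∈ N, y * n = n * y → n = 1) (hcop : (Nat.card N).Coprime 3) :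
    (∀ n ∈ N, n * (y * n * y⁻¹) * (y * y * n * (y * y)⁻¹) = 1) ∧ (∀ a b c : N, ⁅⁅a, b⁆, c⁆ = 1) := by
  let σ : MulAut N := MulAut.conjNormal y
  have hσ : ∀ x : N, ((σ x : N) : G) = y * x * y⁻¹ := fun x => MulAut.conjNormal_apply y x
  have h3 : ∀ x, σ (σ (σ x)) = x := by
    intro x
    apply Subtype.ext
    rw [hσ, hσ, hσ]
    have hy : y⁻¹ = y * y := by
      rw [mul_assoc] at y3
      exact inv_eq_of_mul_eq_one_right y3
    calc y * (y * (y * (x : G) * y⁻¹) * y⁻¹) * y⁻¹ = (y * y * y) * x * (y * y * y)⁻¹ := by group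
      _ = x := by rw [y3]; group
  have hfix : ∀ x, σ x = x → x = 1 := by
    intro x hx
    have h1 : y * (x : G) * y⁻¹ = x := by rw [← hσ, hx]
    have h2 : y * (x : G) = x * y := by
      calc y * (x : G) = (y * x * y⁻¹) * y := by group
        _ = x * y := by rw [h1]
    exact Subtype.ext (fix x x.2 h2)
  refine ⟨?_, ?_⟩
  · intro n hn
    have h := H32OcF1.f1 σ h3 hfix ⟨n, hn⟩
    have h' := congrArg Subtype.val h
    have h'' : n * (y * n * y⁻¹) * (y * (y * n * y⁻¹) * y⁻¹) = 1 := by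
      have e1 : ((σ ⟨n, hn⟩ : N) : G) = y * n * y⁻¹ := hσ _
      have e2 : ((σ (σ ⟨n, hn⟩) : N) : G) = y * (y * n * y⁻¹) * y⁻¹ := by rw [hσ, e1]
      rw [← e2, ← e1]; exact h'
    rw [← h'']; group
  · exact H32OcL5.levi (H32OcF2.engel σ h3 hfix) hcop

end Cfsg.Agent.Lib.H32OcAmb
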