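import Mathlib
import Cfsg.Agent.Lib.H32OcDefs

set_option autoImplicit false

namespace Cfsg.Agent.Lib.H32OcB3a

open Cfsg Cfsg.Agent.Lib.H32OcDefs
open scoped commutatorElement

variable {G : Type*} [Group G]

/-! **B3a** (PURE MATHLIB, 45m): a computation in an abelian subgroup. -/

theorem comm_aux {A : Type*} [CommGroup A] (v p1 p2 p3 r1 r2 r3 : A) (E1 : v * p1 * r1 = 1)
    (E2 : v * p2 * r3 = 1) (E3 : v * p3 * r2 = 1) (E4 : p1 * p2 * p3 = 1) (E5 : r1 * r2 * r3 = 1) :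
    v ^ 3 = 1 := by
  calc v ^ 3 = v ^ 3 * (p1 * p2 * p3) * (r1 * r2 * r3) := by rw [E4, E5, mul_one, mul_one]
    _ = (v * p1 * r1) * (v * p2 * r3) * (v * p3 * r2) := by
        simp only [pow_succ, pow_zero, one_mul]
        ac_rfl
    _ = 1 := by rw [E1, E2, E3, mul_one, mul_one]

/-- Write `e • v = e v e⁻¹` and `T e v = v * (e • v) * (e e • v)`.  All elements below lie in the abelian `V`.
`T b v * T (a b) v * T (a a b) v = v ^ 3 * T a (b • v) * T a (b b • v)`, because `(a b)(a b) = a a b b`, `(a a b)(a a b) = a b b` (`a a a = 1`, `a b = b a`).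
All five `T` are 1.  (Suggestion: name the nine conjugates, prove the needed equalities of group elements by `group`-like rewriting with `hab`, `ha3`, then
finish in the commutative subgroup.) -/
theorem cube_eq_one (V : Subgroup G) (hVc : ∀ u ∈ V, ∀ w ∈ V, u * w = w * u) (a b : G) (hab : a * b = b * a)
    (ha3 : a * a * a = 1) (ha : ∀ v ∈ V, a * v * a⁻¹ ∈ V) (hb : ∀ v ∈ V, b * v * b⁻¹ ∈ V)
    (hT : ∀ e : G, (e = a ∨ e = b ∨ e = a * b ∨ e = a * a * b) →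
      ∀ v ∈ V, v * (e * v * e⁻¹) * (e * e * v * (e * e)⁻¹) = 1) : ∀ v ∈ V, v ^ 3 = 1 := by
  intro v hv
  letI : CommGroup V :=
    { (inferInstance : Group V) with mul_comm := fun u w => Subtype.ext (hVc u u.2 w w.2) }
  have hp1 : b * v * b⁻¹ ∈ V := hb v hv
  have hr1 : b * (b * v * b⁻¹) * b⁻¹ ∈ V := hb _ hp1
  have hp2 : a * (b * v * b⁻¹) * a⁻¹ ∈ V := ha _ hp1
  have hp3 : a * (a * (b * v * b⁻¹) * a⁻¹) * a⁻¹ ∈ V := ha _ hp2
  have hr2 : a * (b * (b * v * b⁻¹) * b⁻¹) * a⁻¹ ∈ V := ha _ hr1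
  have hr3 : a * (a * (b * (b * v * b⁻¹) * b⁻¹) * a⁻¹) * a⁻¹ ∈ V := ha _ hr2
  have E1 : v * (b * v * b⁻¹) * (b * (b * v * b⁻¹) * b⁻¹) = 1 := by
    have := hT b (Or.inr (Or.inl rfl)) v hv
    rw [← this]; group
  have c1 : a * b * (a * b) = a * a * (b * b) := by
    calc a * b * (a * b) = a * (b * a) * b := by group
      _ = a * (a * b) * b := by rw [hab]
      _ = a * a * (b * b) := by group
  have c2 : a * a * b * (a * a * b) = a * (b * b) := by
    calc a * a * b * (a * a * b) = a * a * (b * a) * a * b := by group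
      _ = a * a * (a * b) * a * b := by rw [hab]
      _ = (a * a * a) * (b * a) * b := by group
      _ = a * (b * b) := by rw [ha3, ← hab]; group
  have E2 : v * (a * (b * v * b⁻¹) * a⁻¹) * (a * (a * (b * (b * v * b⁻¹) * b⁻¹) * a⁻¹) * a⁻¹) = 1 := by
    have := hT (a * b) (Or.inr (Or.inr (Or.inl rfl))) v hv
    rw [c1] at this
    rw [← this]; group
  have E3 : v * (a * (a * (b * v * b⁻¹) * a⁻¹) * a⁻¹) * (a * (b * (b * v * b⁻¹) * b⁻¹) * a⁻¹) = 1 := by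
    have := hT (a * a * b) (Or.inr (Or.inr (Or.inr rfl))) v hv
    rw [c2] at this
    rw [← this]; group
  have E4 : (b * v * b⁻¹) * (a * (b * v * b⁻¹) * a⁻¹) * (a * (a * (b * v * b⁻¹) * a⁻¹) * a⁻¹) = 1 := by
    have := hT a (Or.inl rfl) _ hp1
    rw [← this]; group
  have E5 : (b * (b * v * b⁻¹) * b⁻¹) * (a * (b * (b * v * b⁻¹) * b⁻¹) * a⁻¹)
      * (a * (a * (b * (b * v * b⁻¹) * b⁻¹) * a⁻¹) * a⁻¹) = 1 := by
    have := hT a (Or.inl rfl) _ hr1
    rw [← this]; group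
  have key := comm_aux (A := V) ⟨v, hv⟩ ⟨_, hp1⟩ ⟨_, hp2⟩ ⟨_, hp3⟩ ⟨_, hr1⟩ ⟨_, hr2⟩ ⟨_, hr3⟩
    (Subtype.ext E1) (Subtype.ext E2) (Subtype.ext E3) (Subtype.ext E4) (Subtype.ext E5)
  exact congrArg Subtype.val key

end Cfsg.Agent.Lib.H32OcB3a
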