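import Mathlib
import Cfsg.Agent.Lib.H32OcDefs
import Cfsg.Agent.Lib.H32OcBasic

set_option autoImplicit false

namespace Cfsg.Agent.Lib.H32OcB3e

open Cfsg Cfsg.Agent.Lib.H32OcDefs
open scoped commutatorElement

variable {G : Type*} [Group G]

/-! **B3e** (PURE MATHLIB, 40m). -/

/-- `Sylow.exists_subgroup_card_pow_prime 3 (n := 2)` gives `E` of order 9, commutative (`IsPGroup.commutative_of_card_eq_prime_sq`).  Every `1 ≠ e ∈ E` has
order 3 (divides 9, `≤ 4`).  Take `a ≠ 1` in `E` and `b ∈ E`, `b ∉ zpowers a` (3 < 9); then `b`, `a * b`, `a * a * b` are `≠ 1`. -/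
theorem exists_ab [Finite G] (h : O4 G) (h9 : 9 ∣ Nat.card G) : ∃ a b : G, a * b = b * a ∧ orderOf a = 3 ∧
    orderOf b = 3 ∧ orderOf (a * b) = 3 ∧ orderOf (a * a * b) = 3 := by
  have : Fact (Nat.Prime 3) := ⟨Nat.prime_three⟩
  obtain ⟨E, hE⟩ := Sylow.exists_subgroup_card_pow_prime 3 (n := 2) (G := G) (by norm_num; exact h9)
  have hcomm : ∀ u ∈ E, ∀ w ∈ E, u * w = w * u := by
    intro u hu w hw
    have := (IsPGroup.isMulCommutative_of_card_eq_prime_sq hE).is_comm.comm ⟨u, hu⟩ ⟨w, hw⟩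
    exact congrArg Subtype.val this
  have ho : ∀ e ∈ E, e ≠ 1 → orderOf e = 3 := by
    intro e he he1
    have h1 : orderOf e ∣ 3 ^ 2 := by
      rw [← hE, ← Subgroup.orderOf_mk e he]
      exact orderOf_dvd_natCard _
    obtain ⟨k, hk, hk'⟩ := (Nat.dvd_prime_pow Nat.prime_three).1 h1
    have h4 := h e
    interval_cases k
    · rw [pow_zero, orderOf_eq_one_iff] at hk'
      exact absurd hk' he1
    · simpa using hk'
    · rw [hk'] at h4
      norm_num at h4
  obtain ⟨a, haE, ha1⟩ : ∃ a ∈ E, a ≠ 1 := by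
    have h1 : 1 < Nat.card E := by rw [hE]; norm_num
    have : Nontrivial E := (Finite.one_lt_card_iff_nontrivial).1 h1
    obtain ⟨a, ha⟩ := exists_ne (1 : E)
    exact ⟨a, a.2, fun h => ha (Subtype.ext h)⟩
  have hao := ho a haE ha1
  obtain ⟨b, hbE, hbz⟩ : ∃ b ∈ E, b ∉ Subgroup.zpowers a := by
    by_contra hcon
    push Not at hcon
    have hle : E ≤ Subgroup.zpowers a := hcon
    have := Nat.le_of_dvd Nat.card_pos (Subgroup.card_dvd_of_le hle)
    rw [hE, Nat.card_zpowers, hao] at this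
    norm_num at this
  refine ⟨a, b, hcomm a haE b hbE, hao, ho b hbE ?_, ho _ (E.mul_mem haE hbE) ?_,
    ho _ (E.mul_mem (E.mul_mem haE haE) hbE) ?_⟩
  · rintro rfl
    exact hbz (one_mem _)
  · intro h1
    apply hbz
    have : b = a⁻¹ := eq_inv_of_mul_eq_one_right h1
    rw [this]
    exact Subgroup.inv_mem _ (Subgroup.mem_zpowers a)
  · intro h1
    apply hbz
    have : b = (a * a)⁻¹ := eq_inv_of_mul_eq_one_right h1
    rw [this]
    exact Subgroup.inv_mem _ (Subgroup.mul_mem _ (Subgroup.mem_zpowers a) (Subgroup.mem_zpowers a))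

end Cfsg.Agent.Lib.H32OcB3e
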