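import Mathlib
import Cfsg.Agent.Lib.H32OcDefs
import Cfsg.Agent.Lib.Helper1Fitting
import Cfsg.Agent.Lib.Helper3PGroup

set_option autoImplicit false

namespace Cfsg.Agent.Lib.H32OcB3v

open Cfsg Cfsg.Agent.Lib.H32OcDefs
open scoped commutatorElement

variable {G : Type*} [Group G]

/-! **B3v** (45m). -/

/-- `N = pCore 2 G` is a non-trivial normal 2-subgroup (`Helper1Fitting.pCore_normal`, `pCore_isPGroup`).
`V = {v ∈ N | v * v = 1 ∧ ∀ n ∈ N, v * n = n * v}` is a subgroup, normal in `G`, abelian of exponent 2.  It is non-trivial: the centre of the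
non-trivial 2-group `N` is non-trivial (`IsPGroup.center_nontrivial`), and a non-trivial 2-group element has a power of order 2. -/
theorem exists_V [Finite G] (hN : pCore 2 G ≠ ⊥) : ∃ V : Subgroup G, V.Normal ∧ V ≠ ⊥ ∧
    (∀ u ∈ V, ∀ w ∈ V, u * w = w * u) ∧ ∀ v ∈ V, v * v = 1 := by
  have : Fact (Nat.Prime 2) := ⟨Nat.prime_two⟩
  have hn : (pCore 2 G).Normal := Cfsg.Agent.Lib.Helper1Fitting.pCore_normal 2
  have hp : IsPGroup 2 (pCore 2 G) := Cfsg.Agent.Lib.Helper1Fitting.pCore_isPGroup 2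
  let V : Subgroup G :=
    { carrier := {v | v ∈ pCore 2 G ∧ v * v = 1 ∧ ∀ n ∈ pCore 2 G, v * n = n * v}
      one_mem' := ⟨one_mem _, by simp, fun n _ => by simp⟩
      mul_mem' := by
        rintro u w ⟨hu, hu2, huc⟩ ⟨hw, hw2, hwc⟩
        refine ⟨mul_mem hu hw, ?_, fun n hn' => ?_⟩
        · calc u * w * (u * w) = u * (w * u) * w := by group
            _ = u * (u * w) * w := by rw [hwc u hu]
            _ = (u * u) * (w * w) := by group
            _ = 1 := by rw [hu2, hw2, one_mul]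
        · calc u * w * n = u * (w * n) := by group
            _ = u * (n * w) := by rw [hwc n hn']
            _ = (u * n) * w := by group
            _ = (n * u) * w := by rw [huc n hn']
            _ = n * (u * w) := by group
      inv_mem' := by
        rintro u ⟨hu, hu2, huc⟩
        have hi : u⁻¹ = u := inv_eq_of_mul_eq_one_right hu2
        rw [hi]
        exact ⟨hu, hu2, huc⟩ }
  refine ⟨V, ?_, ?_, ?_, ?_⟩
  · constructor
    rintro v ⟨hv, hv2, hvc⟩ g
    refine ⟨hn.conj_mem v hv g, ?_, fun n hn' => ?_⟩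
    · calc g * v * g⁻¹ * (g * v * g⁻¹) = g * (v * v) * g⁻¹ := by group
        _ = 1 := by rw [hv2, mul_one, mul_inv_cancel]
    · have h1 : g⁻¹ * n * g ∈ pCore 2 G := by
        have := hn.conj_mem n hn' g⁻¹
        simpa using this
      calc g * v * g⁻¹ * n = g * (v * (g⁻¹ * n * g)) * g⁻¹ := by group
        _ = g * ((g⁻¹ * n * g) * v) * g⁻¹ := by rw [hvc _ h1]
        _ = n * (g * v * g⁻¹) := by group
  · have htop : (⊤ : Subgroup (pCore 2 G)) ≠ ⊥ := by
      intro h
      apply hN
      rw [eq_bot_iff]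
      intro x hx
      have : (⟨x, hx⟩ : pCore 2 G) ∈ (⊥ : Subgroup (pCore 2 G)) := h ▸ Subgroup.mem_top _
      rw [Subgroup.mem_bot] at this
      exact congrArg Subtype.val this
    obtain ⟨x, -, hxZ, hx1, hx2⟩ := Cfsg.Agent.Lib.Helper3PGroup.exists_central_order_p hp ⊤ htop
    intro hV
    apply hx1
    have hxV : (x : G) ∈ V := by
      refine ⟨x.2, ?_, fun n hn' => ?_⟩
      · have := congrArg Subtype.val hx2
        rw [sq] at this
        exact this
      · rw [Subgroup.mem_center_iff] at hxZ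
        exact (congrArg Subtype.val (hxZ ⟨n, hn'⟩)).symm
    rw [hV, Subgroup.mem_bot] at hxV
    exact Subtype.ext hxV
  · rintro u ⟨hu, -, huc⟩ w ⟨hw, -, -⟩
    exact huc w hw
  · rintro v ⟨-, hv2, -⟩
    exact hv2

end Cfsg.Agent.Lib.H32OcB3v
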