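import Mathlib
import Cfsg.Agent.Lib.H32OcDefs
import Cfsg.Agent.Lib.H32OcBasic
import Cfsg.Agent.Lib.H32OcB3a
import Cfsg.Agent.Lib.H32OcB3v
import Cfsg.Agent.Lib.H32OcB3e

set_option autoImplicit false

namespace Cfsg.Agent.Lib.H32OcB3

open Cfsg Cfsg.Agent.Lib.H32OcDefs
open scoped commutatorElement

variable {G : Type*} [Group G]

/-! **B3** (assembly, 40m). -/

/-- Suppose `9 ∣ Nat.card G`; take `a b` (`H32OcB3e.exists_ab`) and `V` (`H32OcB3v.exists_V`).  For `e` of order 3 and `v ∈ V` the element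
`w = v * (e v e⁻¹) * (e e v (e e)⁻¹) ∈ V` commutes with `e` (`e w e⁻¹` is the same product cyclically permuted, `e e e = 1`, `V` abelian) and `w * w = 1`;
if `w ≠ 1` it has order 2: contradiction with `H32OcBasic.nc`.  So `H32OcB3a.cube_eq_one` gives `v ^ 3 = 1`, with `v * v = 1`: `v = 1`, so `V = ⊥`. -/
theorem not_nine [Finite G] (h : O4 G) (hN : pCore 2 G ≠ ⊥) : ¬ 9 ∣ Nat.card G := by
  intro h9
  obtain ⟨a, b, hab, hao, hbo, habo, haabo⟩ := Cfsg.Agent.Lib.H32OcB3e.exists_ab h h9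
  obtain ⟨V, hVn, hVne, hVc, hV2⟩ := Cfsg.Agent.Lib.H32OcB3v.exists_V hN
  have key : ∀ e : G, orderOf e = 3 → ∀ v ∈ V, v * (e * v * e⁻¹) * (e * e * v * (e * e)⁻¹) = 1 := by
    intro e he v hv
    have he3 : e * e * e = 1 := by
      have := pow_orderOf_eq_one e
      rw [he] at this
      rw [← this]
      simp only [pow_succ, pow_zero, one_mul]
    have h1 : e * v * e⁻¹ ∈ V := hVn.conj_mem v hv e
    have h2 : e * e * v * (e * e)⁻¹ ∈ V := hVn.conj_mem v hv (e * e)
    have hw : v * (e * v * e⁻¹) * (e * e * v * (e * e)⁻¹) ∈ V := V.mul_mem (V.mul_mem hv h1) h2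
    by_contra hne
    have ho : orderOf (v * (e * v * e⁻¹) * (e * e * v * (e * e)⁻¹)) = 2 :=
      orderOf_eq_prime (by rw [sq]; exact hV2 _ hw) hne
    apply Cfsg.Agent.Lib.H32OcBasic.nc h ho he
    have hc : e * (v * (e * v * e⁻¹) * (e * e * v * (e * e)⁻¹)) * e⁻¹
        = v * (e * v * e⁻¹) * (e * e * v * (e * e)⁻¹) := by
      calc e * (v * (e * v * e⁻¹) * (e * e * v * (e * e)⁻¹)) * e⁻¹
          = (e * v * e⁻¹) * (e * e * v * (e * e)⁻¹) * ((e * e * e) * v * (e * e * e)⁻¹) := by group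
        _ = (e * v * e⁻¹) * (e * e * v * (e * e)⁻¹) * v := by rw [he3]; group
        _ = v * ((e * v * e⁻¹) * (e * e * v * (e * e)⁻¹)) := hVc _ (V.mul_mem h1 h2) _ hv
        _ = v * (e * v * e⁻¹) * (e * e * v * (e * e)⁻¹) := by group
    exact (mul_inv_eq_iff_eq_mul.1 hc).symm
  have ha3 : a * a * a = 1 := by
    have := pow_orderOf_eq_one a
    rw [hao] at this
    rw [← this]
    simp only [pow_succ, pow_zero, one_mul]
  have hcube := Cfsg.Agent.Lib.H32OcB3a.cube_eq_one V hVc a b hab ha3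
    (fun v hv => hVn.conj_mem v hv a) (fun v hv => hVn.conj_mem v hv b)
    (by
      rintro e (rfl | rfl | rfl | rfl)
      · exact key _ hao
      · exact key _ hbo
      · exact key _ habo
      · exact key _ haabo)
  apply hVne
  rw [eq_bot_iff]
  intro v hv
  rw [Subgroup.mem_bot]
  have h3 := hcube v hv
  have h2 := hV2 v hv
  calc v = (v * v) * v := by rw [h2, one_mul]
    _ = v ^ 3 := by simp only [pow_succ, pow_zero, one_mul]
    _ = 1 := h3

end Cfsg.Agent.Lib.H32OcB3
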