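import Mathlib
import Cfsg.Agent.Lib.H32OcDefs
import Cfsg.Agent.S0144

set_option autoImplicit false

namespace Cfsg.Agent.Lib.H32OcSolv

open Cfsg Cfsg.Agent.Lib.H32OcDefs
open scoped commutatorElement

variable {G : Type*} [Group G]

/-! **Solv** (30m). -/

/-- every prime divisor `p` of `Nat.card G` is the order of an element (Cauchy `exists_prime_orderOf_dvd_card'`), so `p ≤ 4`, `p = 2 ∨ p = 3`.
Then e.g. `Nat.card G = ∏ p ^ factorization` / strong induction / `Nat.eq_prime_pow...`; any proof is fine. -/
theorem card [Finite G] (h : O4 G) : ∃ a b : ℕ, Nat.card G = 2 ^ a * 3 ^ b := by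
  have hn0 : Nat.card G ≠ 0 := Nat.card_pos.ne'
  have hsub : (Nat.card G).factorization.support ⊆ ({2, 3} : Finset ℕ) := by
    intro p hp
    rw [Nat.support_factorization] at hp
    have hpp : p.Prime := Nat.prime_of_mem_primeFactors hp
    have : Fact p.Prime := ⟨hpp⟩
    obtain ⟨g, hg⟩ := exists_prime_orderOf_dvd_card' p (Nat.dvd_of_mem_primeFactors hp)
    have h4 := h g
    rw [hg] at h4
    have h2 := hpp.two_le
    simp only [Finset.mem_insert, Finset.mem_singleton]
    interval_cases p
    · left; rfl
    · right; rfl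
    · exact absurd hpp (by norm_num)
  have h1 := Nat.prod_factorization_pow_eq_self hn0
  rw [Finsupp.prod_of_support_subset _ hsub _ (fun i _ => pow_zero i),
    Finset.prod_pair (by norm_num)] at h1
  exact ⟨_, _, h1.symm⟩

/-- `Cfsg.Agent.S0144.result 2 3 a b` -/
theorem solvable [Finite G] (h : O4 G) : Group.IsSolvable G := by
  obtain ⟨a, b, hab⟩ := card h
  exact Cfsg.Agent.S0144.result 2 3 a b Nat.prime_two Nat.prime_three hab

end Cfsg.Agent.Lib.H32OcSolv
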