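import Mathlib
import Cfsg.Agent.Lib.H32OcDefs
import Cfsg.Agent.Lib.H32OcBasic
import Cfsg.Agent.Lib.H32OcSolv
import Cfsg.Agent.Lib.Helper1Fitting

set_option autoImplicit false

namespace Cfsg.Agent.Lib.H32OcCore

open Cfsg Cfsg.Agent.Lib.H32OcDefs
open scoped commutatorElement

variable {G : Type*} [Group G]

/-! **Core** (45m). -/

/-- `G` is solvable and nontrivial: the last non-trivial term `A` of the derived series is a non-trivial abelian normal (characteristic) subgroup.
`A₂ = {a ∈ A | a ^ 4 = 1}` and `A₃ = {a ∈ A | a ^ 3 = 1}` are subgroups (A abelian), normal in `G`, a 2-group resp. a 3-group, and by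
`H32OcBasic.cases` every element of `A` lies in one of them; so one of them is `≠ ⊥`; `Helper1Fitting.le_pCore`.
(Or use any landed lemma "a minimal normal subgroup of a solvable group is a p-group".) -/
theorem exists_core [Finite G] [Nontrivial G] (h : O4 G) : pCore 2 G ≠ ⊥ ∨ pCore 3 G ≠ ⊥ := by
  classical
  have hsol : Group.IsSolvable G := H32OcSolv.solvable h
  have hex : ∃ n, derivedSeries G n = ⊥ := hsol.solvable
  obtain ⟨n, hn, hmin⟩ : ∃ n, derivedSeries G n = ⊥ ∧ ∀ m < n, derivedSeries G m ≠ ⊥ :=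
    ⟨Nat.find hex, Nat.find_spec hex, fun m hm => Nat.find_min hex hm⟩
  have hn0 : n ≠ 0 := by
    rintro rfl
    rw [derivedSeries_zero] at hn
    exact top_ne_bot hn
  obtain ⟨k, rfl⟩ := Nat.exists_eq_succ_of_ne_zero hn0
  set A := derivedSeries G k with hA
  have hAne : A ≠ ⊥ := hmin k (Nat.lt_succ_self k)
  have hAn : A.Normal := derivedSeries_normal G k
  have hAA : ⁅A, A⁆ = ⊥ := by rw [← hn]; rfl
  have hcomm : ∀ x ∈ A, ∀ y ∈ A, x * y = y * x := by
    rw [Subgroup.commutator_eq_bot_iff_le_centralizer] at hAA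
    intro x hx y hy
    exact ((Subgroup.mem_centralizer_iff.mp (hAA hx)) y hy).symm
  -- the subgroup of elements killed by `e`
  have key : ∀ (p j : ℕ) (x : G), x ∈ A → x ≠ 1 → x ^ (p ^ j) = 1 → pCore p G ≠ ⊥ := by
    intro p j x hx hx1 hxe
    let M : Subgroup G :=
      { carrier := {a | a ∈ A ∧ a ^ (p ^ j) = 1}
        one_mem' := ⟨A.one_mem, one_pow _⟩
        mul_mem' := by
          rintro a b ⟨ha, ha'⟩ ⟨hb, hb'⟩
          refine ⟨A.mul_mem ha hb, ?_⟩
          have : Commute a b := hcomm a ha b hb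
          rw [this.mul_pow, ha', hb', one_mul]
        inv_mem' := by
          rintro a ⟨ha, ha'⟩
          exact ⟨A.inv_mem ha, by rw [inv_pow, ha', inv_one]⟩ }
    have hMn : M.Normal := by
      refine ⟨fun a ha g => ?_⟩
      refine ⟨hAn.conj_mem a ha.1 g, ?_⟩
      rw [conj_pow, ha.2, mul_one, mul_inv_cancel]
    have hMp : IsPGroup p M := by
      intro a
      refine ⟨j, ?_⟩
      apply Subtype.ext
      exact a.2.2
    have hle := Helper1Fitting.le_pCore hMn hMp
    intro hb
    have hxM : x ∈ M := ⟨hx, hxe⟩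
    have := hle hxM
    rw [hb, Subgroup.mem_bot] at this
    exact hx1 this
  obtain ⟨x, hx, hx1⟩ : ∃ x ∈ A, x ≠ 1 := by
    by_contra hcon
    push Not at hcon
    exact hAne ((Subgroup.eq_bot_iff_forall A).mpr hcon)
  rcases H32OcBasic.cases h x with h4 | h3
  · left; exact key 2 2 x hx hx1 (by norm_num; exact h4)
  · right; exact key 3 1 x hx hx1 (by rw [pow_one]; exact h3)

end Cfsg.Agent.Lib.H32OcCore
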