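import Mathlib
import Cfsg.Agent.Lib.H32OcDefs
import Cfsg.Agent.Lib.H32OcBasic
import Cfsg.Agent.Lib.H32OcCore
import Cfsg.Agent.Lib.Helper1Fitting

set_option autoImplicit false

namespace Cfsg.Agent.Lib.H32OcB4a

open Cfsg Cfsg.Agent.Lib.H32OcDefs
open scoped commutatorElement

variable {G : Type*} [Group G]

/-! **B4a** (60m). -/

/-- `M = pCore 3 Q ≠ ⊥` (`H32OcCore.exists_core`, `h2`), a normal 3-group whose order divides `Nat.card Q`, so `Nat.card M = 3`.
`C = centralizer M` has no element of order 2 (`H32OcBasic.nc` with an element of order 3 of `M`), so it is a 3-group (`H32OcBasic.three`), `Nat.card C ∣ Nat.card Q`,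
`M ≤ C` (M is cyclic of prime order, abelian): `Nat.card C = 3`.  `Q ⧸ C` embeds in `MulAut M` (`MulAut.conjNormal`, its kernel is `C`;
or `Subgroup.normalizerMonoidHom`), and `Nat.card (MulAut M) = 2` (`IsCyclic.card_mulAut`, `Nat.totient 3 = 2`).  So `C.index ∈ {1,2}`, `Nat.card Q ∈ {3, 6}`.
If `Q` is commutative then `C = ⊤` and `Nat.card Q = 3`. -/
theorem three_or_six {Q : Type*} [Group Q] [Finite Q] [Nontrivial Q] (h : O4 Q) (h2 : pCore 2 Q = ⊥)
    (h9 : ¬ 9 ∣ Nat.card Q) : Nat.card Q = 3 ∨ (Nat.card Q = 6 ∧ ∃ a b : Q, a * b ≠ b * a) := by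
  classical
  have : Fact (Nat.Prime 3) := ⟨Nat.prime_three⟩
  have hM : pCore 3 Q ≠ ⊥ := by
    rcases H32OcCore.exists_core h with h' | h'
    · exact absurd h2 h'
    · exact h'
  set M := pCore 3 Q with hMdef
  have hMn : M.Normal := Helper1Fitting.pCore_normal 3
  have hMp : IsPGroup 3 M := Helper1Fitting.pCore_isPGroup 3
  -- cards of 3-subgroups
  have hcard3 : ∀ H : Subgroup Q, IsPGroup 3 H → H ≠ ⊥ → Nat.card H = 3 := by
    intro H hH hne
    obtain ⟨k, hk⟩ := (IsPGroup.iff_card).mp hH
    have hd : Nat.card H ∣ Nat.card Q := Subgroup.card_subgroup_dvd_card H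
    rcases k with _ | _ | k
    · exfalso; apply hne; rw [pow_zero] at hk; exact (Subgroup.card_eq_one).mp hk
    · rw [hk]; norm_num
    · exfalso; apply h9
      refine dvd_trans ?_ hd
      rw [hk]
      exact ⟨3 ^ k, by ring⟩
  have hMc : Nat.card M = 3 := hcard3 M hMp hM
  obtain ⟨y0, hy0⟩ := exists_prime_orderOf_dvd_card' (G := ↥M) 3 (by rw [hMc])
  obtain ⟨y, hyM, hy3⟩ : ∃ y ∈ M, orderOf y = 3 := ⟨y0, y0.2, by rw [Subgroup.orderOf_coe]; exact hy0⟩
  have hMz : Subgroup.zpowers y = M := by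
    apply Subgroup.eq_of_le_of_card_ge
    · rw [Subgroup.zpowers_le]; exact hyM
    · rw [Nat.card_zpowers, hy3, hMc]
  have hy1 : y ≠ 1 := by
    intro h1; rw [h1, orderOf_one] at hy3; omega
  have hy3' : y ^ 3 = 1 := by rw [← hy3]; exact pow_orderOf_eq_one y
  have hyinv : y ^ 2 = y⁻¹ := by
    apply eq_inv_of_mul_eq_one_left
    rw [← pow_succ]; exact hy3'
  have hconj : ∀ g : Q, g * y * g⁻¹ = y ∨ g * y * g⁻¹ = y⁻¹ := by
    intro g
    have h1 : g * y * g⁻¹ ∈ Subgroup.zpowers y := by rw [hMz]; exact hMn.conj_mem y hyM g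
    rw [mem_zpowers_iff_mem_range_orderOf, hy3] at h1
    simp only [Finset.mem_image, Finset.mem_range] at h1
    obtain ⟨i, hi, hi'⟩ := h1
    interval_cases i
    · exfalso
      rw [pow_zero] at hi'
      apply hy1
      have : y = g⁻¹ * (g * y * g⁻¹) * g := by group
      rw [this, ← hi']; group
    · left; rw [← hi', pow_one]
    · right; rw [← hi', hyinv]
  set C := Subgroup.centralizer ({y} : Set Q) with hC
  have hmemC : ∀ g : Q, g ∈ C ↔ g * y * g⁻¹ = y := by
    intro g
    rw [hC, Subgroup.mem_centralizer_singleton_iff]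
    constructor
    · intro hg; rw [hg]; group
    · intro hg
      calc g * y = (g * y * g⁻¹) * g := by group
        _ = y * g := by rw [hg]
  have hyC : y ∈ C := by rw [hmemC]; group
  have hC2 : ∀ x ∈ C, orderOf x ≠ 2 := by
    intro x hx hx2
    have h1 : x * y = y * x := by
      rw [hC, Subgroup.mem_centralizer_singleton_iff] at hx
      exact hx
    exact H32OcBasic.nc h hx2 hy3 h1
  have hCp : IsPGroup 3 C := H32OcBasic.three h C hC2
  have hCne : C ≠ ⊥ := by
    intro hb
    rw [hb, Subgroup.mem_bot] at hyC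
    exact hy1 hyC
  have hCc : Nat.card C = 3 := hcard3 C hCp hCne
  have hmul : Nat.card C * C.index = Nat.card Q := Subgroup.card_mul_index C
  by_cases htop : ∀ g : Q, g ∈ C
  · left
    have : C = ⊤ := (Subgroup.eq_top_iff' C).mpr htop
    rw [this, Subgroup.index_top, mul_one] at hmul
    rw [← hmul, ← this, hCc]
  · right
    push Not at htop
    obtain ⟨a, ha⟩ := htop
    have hay : a * y * a⁻¹ = y⁻¹ := by
      rcases hconj a with h1 | h1
      · exact absurd ((hmemC a).mpr h1) ha
      · exact h1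
    have hidx : C.index = 2 := by
      rw [Subgroup.index_eq_two_iff]
      refine ⟨a, fun b => ?_⟩
      by_cases hb : b ∈ C
      · right
        refine ⟨hb, ?_⟩
        intro hba
        apply ha
        have : a = b⁻¹ * (b * a) := by group
        rw [this]
        exact C.mul_mem (C.inv_mem hb) hba
      · left
        refine ⟨?_, hb⟩
        have hby : b * y * b⁻¹ = y⁻¹ := by
          rcases hconj b with h1 | h1
          · exact absurd ((hmemC b).mpr h1) hb
          · exact h1
        rw [hmemC]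
        calc b * a * y * (b * a)⁻¹ = b * (a * y * a⁻¹) * b⁻¹ := by group
          _ = (b * y * b⁻¹)⁻¹ := by rw [hay]; group
          _ = y := by rw [hby, inv_inv]
    refine ⟨by rw [← hmul, hCc, hidx], a, y, ?_⟩
    intro hc
    apply ha
    rw [hC, Subgroup.mem_centralizer_singleton_iff]
    exact hc

end Cfsg.Agent.Lib.H32OcB4a
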