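import Mathlib
import Cfsg.Agent.Lib.H32OcDefs

set_option autoImplicit false

namespace Cfsg.Agent.Lib.H32OcB4b

open Cfsg Cfsg.Agent.Lib.H32OcDefs
open scoped commutatorElement

variable {G : Type*} [Group G]

/-! **B4b** (PURE MATHLIB, 45m): a non-abelian group of order 6 is `S₃`. -/

theorem s3_of_six {Q : Type*} [Group Q] [Finite Q] (hc : Nat.card Q = 6) (hnc : ∃ a b : Q, a * b ≠ b * a) :
    Nonempty (Q ≃* Equiv.Perm (Fin 3)) := by
  haveI : Fact (Nat.Prime 2) := ⟨Nat.prime_two⟩
  haveI : Fact (Nat.Prime 3) := ⟨Nat.prime_three⟩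
  obtain ⟨t, ht⟩ := exists_prime_orderOf_dvd_card' (G := Q) 2 (by rw [hc]; norm_num)
  set H : Subgroup Q := Subgroup.zpowers t with hH
  have hHc : Nat.card H = 2 := by rw [hH, Nat.card_zpowers, ht]
  have hidx : Nat.card (Q ⧸ H) = 3 := by
    have := Subgroup.card_eq_card_quotient_mul_card_subgroup H
    rw [hc, hHc] at this
    omega
  have hker : (MulAction.toPermHom Q (Q ⧸ H)).ker = H.normalCore := (Subgroup.normalCore_eq_ker H).symm
  have hle : H.normalCore ≤ H := Subgroup.normalCore_le H
  have hbot : H.normalCore = ⊥ := by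
    by_contra hne
    have hd : Nat.card H.normalCore ∣ 2 := by rw [← hHc]; exact Subgroup.card_dvd_of_le hle
    have h2 : Nat.card H.normalCore = 2 := by
      rcases (Nat.dvd_prime Nat.prime_two).1 hd with h1 | h1
      · exact absurd (Subgroup.card_eq_one.1 h1) hne
      · exact h1
    have heq : H.normalCore = H := Subgroup.eq_of_le_of_card_ge hle (by rw [h2, hHc])
    have hn : H.Normal := by rw [← heq]; infer_instance
    have hcyc : IsCyclic (Q ⧸ H) := isCyclic_of_prime_card (p := 3) hidx
    have ht1 : t ≠ 1 := by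
      intro h1
      rw [h1, orderOf_one] at ht
      norm_num at ht
    have hmem : ∀ x ∈ H, x = 1 ∨ x = t := by
      intro x hx
      obtain ⟨k, rfl⟩ := Subgroup.mem_zpowers_iff.1 hx
      have ht2 : t ^ (2 : ℤ) = 1 := by
        have := pow_orderOf_eq_one t
        rw [ht] at this
        exact_mod_cast this
      rcases Int.even_or_odd' k with ⟨m, hm | hm⟩
      · left; rw [hm, zpow_mul, ht2, one_zpow]
      · right; rw [hm, zpow_add, zpow_mul, ht2, one_zpow, one_mul, zpow_one]
    have hcen : H ≤ Subgroup.center Q := by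
      intro x hx
      rw [Subgroup.mem_center_iff]
      intro g
      rcases hmem x hx with hx1 | hx1
      · rw [hx1]; simp
      · rw [hx1]
        have h1 : g * t * g⁻¹ ∈ H := hn.conj_mem t (Subgroup.mem_zpowers t) g
        rcases hmem _ h1 with h2 | h2
        · exfalso
          apply ht1
          have : t = g⁻¹ * (g * t * g⁻¹) * g := by group
          rw [this, h2]; group
        · calc g * t = g * t * g⁻¹ * g := by group
            _ = t * g := by rw [h2]
    obtain ⟨a, b, hab⟩ := hnc
    exact hab (commutative_of_cyclic_center_quotient (QuotientGroup.mk' H)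
      (by rw [QuotientGroup.ker_mk']; exact hcen) a b)
  have hinj : Function.Injective (MulAction.toPermHom Q (Q ⧸ H)) := by
    rw [← MonoidHom.ker_eq_bot_iff, hker, hbot]
  haveI : Finite (Q ⧸ H) := inferInstance
  obtain ⟨e3⟩ : Nonempty ((Q ⧸ H) ≃ Fin 3) := by
    have := Finite.equivFinOfCardEq hidx
    exact ⟨this⟩
  have hcard : Nat.card (Equiv.Perm (Q ⧸ H)) = 6 := by
    rw [Nat.card_congr (Equiv.permCongr e3), Nat.card_eq_fintype_card, Fintype.card_perm, Fintype.card_fin]
    rfl
  have hbij : Function.Bijective (MulAction.toPermHom Q (Q ⧸ H)) := by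
    rw [Nat.bijective_iff_injective_and_card]
    exact ⟨hinj, by rw [hc, hcard]⟩
  exact ⟨(MulEquiv.ofBijective _ hbij).trans (Equiv.permCongrHom e3)⟩

end Cfsg.Agent.Lib.H32OcB4b
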