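import Mathlib
import Cfsg.Agent.Lib.H32OcDefs
import Cfsg.Agent.Lib.Helper1Fitting

set_option autoImplicit false

namespace Cfsg.Agent.Lib.H32OcB4q

open Cfsg Cfsg.Agent.Lib.H32OcDefs
open scoped commutatorElement

variable {G : Type*} [Group G]

/-! **B4q** (30m). -/

/-- Let `M = pCore 2 (G ⧸ N)`, a normal 2-subgroup; `M.comap (mk' N)` is normal in `G` and a 2-group (extension of the 2-group `N` by a 2-group:
`IsPGroup.comap_of_ker_isPGroup` / `IsPGroup.to_quotient`...), so it is `≤ pCore 2 G = N`; hence `M = ⊥` (`Subgroup.map_comap_eq_self_of_surjective`).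
A landed version may exist: grep "pCore" in Helper27Core / Helper14CoreB. -/
theorem pcore_quot [Finite G] (N : Subgroup G) [N.Normal] (hN : N = pCore 2 G) : pCore 2 (G ⧸ N) = ⊥ := by
  have hn : (pCore 2 (G ⧸ N)).Normal := Cfsg.Agent.Lib.Helper1Fitting.pCore_normal 2
  have hp : IsPGroup 2 (pCore 2 (G ⧸ N)) := Cfsg.Agent.Lib.Helper1Fitting.pCore_isPGroup 2
  have hNp : IsPGroup 2 N := hN ▸ Cfsg.Agent.Lib.Helper1Fitting.pCore_isPGroup 2
  have h1 : IsPGroup 2 ((pCore 2 (G ⧸ N)).comap (QuotientGroup.mk' N)) := by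
    apply hp.comap_of_ker_isPGroup
    rwa [QuotientGroup.ker_mk']
  have h2 : ((pCore 2 (G ⧸ N)).comap (QuotientGroup.mk' N)).Normal := hn.comap _
  have h3 : (pCore 2 (G ⧸ N)).comap (QuotientGroup.mk' N) ≤ N := by
    have := Cfsg.Agent.Lib.Helper1Fitting.le_pCore h2 h1
    exact this.trans hN.ge
  rw [← Subgroup.map_comap_eq_self_of_surjective (QuotientGroup.mk'_surjective N) (pCore 2 (G ⧸ N)),
    eq_bot_iff]
  refine (Subgroup.map_mono h3).trans ?_
  rintro _ ⟨x, hx, rfl⟩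
  rw [Subgroup.mem_bot]
  exact (QuotientGroup.eq_one_iff x).2 hx

end Cfsg.Agent.Lib.H32OcB4q
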