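import Mathlib
import Cfsg.Agent.Lib.H32OcDefs

set_option autoImplicit false

namespace Cfsg.Agent.Lib.H32OcCls

open Cfsg Cfsg.Agent.Lib.H32OcDefs
open scoped commutatorElement

variable {G : Type*} [Group G]

/-! **Cls** (PURE MATHLIB). -/

theorem cls {N : Type*} [Group N] (h : ∀ x y z : N, ⁅⁅x, y⁆, z⁆ = 1) : Group.nilpotencyClass N ≤ 2 := by
  have h1 : (⊤ : Subgroup N).lowerCentralSeries 1 ≤ Subgroup.center N := by
    rw [Subgroup.lowerCentralSeries_succ, Subgroup.commutator_le]
    intro p _ q _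
    rw [Subgroup.mem_center_iff]
    intro z
    have := h p q z
    rw [commutatorElement_eq_one_iff_mul_comm] at this
    exact this.symm
  have h2 : (⊤ : Subgroup N).lowerCentralSeries 2 = ⊥ := by
    rw [Subgroup.lowerCentralSeries_succ, eq_bot_iff, Subgroup.commutator_le]
    intro p hp q _
    have hp' := Subgroup.mem_center_iff.1 (h1 hp) q
    rw [Subgroup.mem_bot, commutatorElement_eq_one_iff_mul_comm]
    exact hp'.symm
  haveI : Group.IsNilpotent N := Subgroup.nilpotent_iff_lowerCentralSeries.2 ⟨2, h2⟩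
  exact lowerCentralSeries_eq_bot_iff_nilpotencyClass_le.1 h2

end Cfsg.Agent.Lib.H32OcCls
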