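import Mathlib
import Cfsg.Agent.Lib.H32OcDefs
import Cfsg.Agent.Lib.H32OcBasic
import Cfsg.Agent.Lib.H32OcAmb
import Cfsg.Agent.Lib.H32OcCls

set_option autoImplicit false

namespace Cfsg.Agent.Lib.H32OcBi

open Cfsg Cfsg.Agent.Lib.H32OcDefs
open scoped commutatorElement

variable {G : Type*} [Group G]

/-! **Bi** (45m): the case `|G : N| = 3`. -/

theorem caseBi [Finite G] (h : O4 G) (h3 : ∃ g : G, orderOf g = 3) (h4 : ∃ g : G, orderOf g = 4)
    (N : Subgroup G) [N.Normal] (hN : IsPGroup 2 N) (hidx : N.index = 3) :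
    IsPGroup 2 N ∧ Monoid.exponent N = 4 ∧ Group.nilpotencyClass N ≤ 2 ∧ N.index = 3 := by
  refine ⟨hN, ?_, ?_, hidx⟩
  · apply Nat.dvd_antisymm
    · apply Monoid.exponent_dvd_of_forall_pow_eq_one
      intro n
      apply Subtype.ext
      rw [Subgroup.coe_pow, Subgroup.coe_one]
      exact H32OcBasic.pow_four h hN n n.2
    · obtain ⟨g, hg⟩ := h4
      have hgN : g ∈ N := by
        rw [← QuotientGroup.eq_one_iff (N := N)]
        have e4 : (QuotientGroup.mk g : G ⧸ N) ^ 4 = 1 := by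
          rw [← QuotientGroup.mk_pow, ← hg, pow_orderOf_eq_one]; rfl
        have e3 : (QuotientGroup.mk g : G ⧸ N) ^ 3 = 1 := by
          have : Nat.card (G ⧸ N) = 3 := hidx
          rw [← this]
          exact pow_card_eq_one'
        calc (QuotientGroup.mk g : G ⧸ N) = (QuotientGroup.mk g : G ⧸ N) ^ 4 * ((QuotientGroup.mk g : G ⧸ N) ^ 3)⁻¹ := by group
          _ = 1 := by rw [e4, e3]; simp
      have := Monoid.order_dvd_exponent (⟨g, hgN⟩ : N)
      rw [← Subgroup.orderOf_coe] at this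
      rwa [← hg]
  · obtain ⟨y, hy⟩ := h3
    have y3 : y * y * y = 1 := by
      have := pow_orderOf_eq_one y
      rw [hy] at this
      rw [← this, pow_succ, pow_two]
    have hcop : (Nat.card N).Coprime 3 := by
      obtain ⟨k, hk⟩ := IsPGroup.iff_card.1 hN
      rw [hk]
      exact Nat.Coprime.pow_left k (by norm_num)
    exact H32OcCls.cls (H32OcAmb.amb N y3 (H32OcBasic.fix_of_nc h hN hy) hcop).2

end Cfsg.Agent.Lib.H32OcBi
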