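import Mathlib
import Cfsg.Agent.Lib.H32OcDefs
import Cfsg.Agent.Lib.H32OcAmb

set_option autoImplicit false

namespace Cfsg.Agent.Lib.H32OcK0

open Cfsg Cfsg.Agent.Lib.H32OcDefs
open scoped commutatorElement

variable {G : Type*} [Group G]

/-! **K0** (45m): from `Cfg` to `Dat`. -/

/-- `I1`, `cl` from `H32OcAmb.amb` (coerce the statement about `↥N` to `G`: `⁅⁅a,b⁆,d⁆ = 1` means `⁅a,b⁆` commutes with `d`).
`I2`: for `s ∈ {t, t y, t y y}`: `s * s = 1` (from `ty`, `t2`, `y3`), so `s⁻¹ = s` and `(s n)^2 = s n s n = qq s n`; `(s n)^4 = 1` is `c.four`. -/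
theorem dat_of_cfg {N : Subgroup G} [Finite N] {y t : G} (c : Cfg N y t) : Dat N y t := by
  have := c.nN
  obtain ⟨hI1, hcl⟩ := H32OcAmb.amb N c.y3 c.fix c.cop
  have hty : t * y = y⁻¹ * t := by
    calc t * y = (t * y * t⁻¹) * t := by group
      _ = y⁻¹ * t := by rw [c.ty]
  refine ⟨c.nN, c.y3, c.t2, c.ty, c.fix, c.n4, hI1, ?_, ?_⟩
  · intro s hs n hn
    have hs2 : s * s = 1 := by
      rcases hs with rfl | rfl | rfl
      · exact c.t2
      · calc t * y * (t * y) = t * y * (y⁻¹ * t) := by rw [hty]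
          _ = t * t := by group
          _ = 1 := c.t2
      · have h2 : t * y * y = y⁻¹ * y⁻¹ * t := by
          rw [hty, mul_assoc, hty]; group
        calc t * y * y * (t * y * y) = t * y * y * (y⁻¹ * y⁻¹ * t) := by rw [h2]
          _ = t * t := by group
          _ = 1 := c.t2
    have hsi : s⁻¹ = s := inv_eq_of_mul_eq_one_left hs2
    have h4 := c.four s hs n hn
    show s * n * s⁻¹ * n * (s * n * s⁻¹ * n) = 1
    rw [hsi, ← h4]
    simp only [pow_succ, pow_zero, one_mul, mul_assoc]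
  · intro a ha b hb d hd
    have h := hcl ⟨a, ha⟩ ⟨b, hb⟩ ⟨d, hd⟩
    have h' := congrArg Subtype.val h
    simp only [commutatorElement_def, Subgroup.coe_mul, Subgroup.coe_inv, Subgroup.coe_one] at h'
    simp only [commutatorElement_def]
    have h2 := mul_inv_eq_one.mp h'
    have h3 := mul_inv_eq_iff_eq_mul.mp h2
    exact h3

end Cfsg.Agent.Lib.H32OcK0
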