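import Mathlib
import Cfsg.Agent.Lib.H32OcDefs

set_option autoImplicit false

namespace Cfsg.Agent.Lib.H32OcK1

open Cfsg Cfsg.Agent.Lib.H32OcDefs
open scoped commutatorElement

variable {G : Type*} [Group G]

/-! **K1** (PURE MATHLIB, 45m): the abelian case. `qq s n = s * n * s⁻¹ * n`. -/

/-- In the abelian `N`: `qq t n * qq (t y) n * qq (t y y) n = (t (n (y n y⁻¹) (y y n (y y)⁻¹)) t⁻¹) * n ^ 3 = n ^ 3`. -/
theorem ab_sum (N : Subgroup G) (hc : ∀ a ∈ N, ∀ b ∈ N, a * b = b * a) {y t : G}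
    (hy : ∀ n ∈ N, y * n * y⁻¹ ∈ N) (ht : ∀ n ∈ N, t * n * t⁻¹ ∈ N)
    (I1 : ∀ n ∈ N, n * (y * n * y⁻¹) * (y * y * n * (y * y)⁻¹) = 1) :
    ∀ n ∈ N, qq t n * qq (t * y) n * qq (t * y * y) n = n ^ 3 := by
  intro n hn
  have h1 : y * n * y⁻¹ ∈ N := hy n hn
  have h2 : y * y * n * (y * y)⁻¹ ∈ N := by
    have := hy _ h1
    have e : y * y * n * (y * y)⁻¹ = y * (y * n * y⁻¹) * y⁻¹ := by group
    rw [e]; exact this
  have ha : t * n * t⁻¹ ∈ N := ht n hn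
  have hb : t * (y * n * y⁻¹) * t⁻¹ ∈ N := ht _ h1
  have hcN : t * (y * y * n * (y * y)⁻¹) * t⁻¹ ∈ N := ht _ h2
  have habc : (t * n * t⁻¹) * (t * (y * n * y⁻¹) * t⁻¹) * (t * (y * y * n * (y * y)⁻¹) * t⁻¹) = 1 := by
    have e : (t * n * t⁻¹) * (t * (y * n * y⁻¹) * t⁻¹) * (t * (y * y * n * (y * y)⁻¹) * t⁻¹)
        = t * (n * (y * n * y⁻¹) * (y * y * n * (y * y)⁻¹)) * t⁻¹ := by group
    rw [e, I1 n hn]; group
  have e1 : qq (t * y) n = (t * (y * n * y⁻¹) * t⁻¹) * n := by simp only [qq]; group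
  have e2 : qq (t * y * y) n = (t * (y * y * n * (y * y)⁻¹) * t⁻¹) * n := by simp only [qq]; group
  have e0 : qq t n = (t * n * t⁻¹) * n := rfl
  rw [e0, e1, e2]
  generalize t * n * t⁻¹ = a at *
  generalize t * (y * n * y⁻¹) * t⁻¹ = b at *
  generalize t * (y * y * n * (y * y)⁻¹) * t⁻¹ = c at *
  calc a * n * (b * n) * (c * n) = a * (n * b) * n * (c * n) := by group
    _ = a * (b * n) * n * (c * n) := by rw [hc n hn b hb]
    _ = a * b * n * (n * c) * n := by group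
    _ = a * b * n * (c * n) * n := by rw [hc n hn c hcN]
    _ = a * b * (n * c) * n * n := by group
    _ = a * b * (c * n) * n * n := by rw [hc n hn c hcN]
    _ = (a * b * c) * (n * n * n) := by group
    _ = n ^ 3 := by rw [habc, one_mul, pow_succ, pow_two]

/-- `(n ^ 3) ^ 2 = ∏ (qq s n) ^ 2 = 1` (abelian), and `n ^ 4 = 1`: `n ^ 2 = n ^ 6 * (n ^ 4)⁻¹ = 1`. -/
theorem ab_case (N : Subgroup G) (hc : ∀ a ∈ N, ∀ b ∈ N, a * b = b * a) {y t : G}
    (hy : ∀ n ∈ N, y * n * y⁻¹ ∈ N) (ht : ∀ n ∈ N, t * n * t⁻¹ ∈ N)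
    (I1 : ∀ n ∈ N, n * (y * n * y⁻¹) * (y * y * n * (y * y)⁻¹) = 1)
    (I2 : ∀ s : G, (s = t ∨ s = t * y ∨ s = t * y * y) → ∀ n ∈ N, qq s n * qq s n = 1)
    (n4 : ∀ n ∈ N, n ^ 4 = 1) : ∀ n ∈ N, n * n = 1 := by
  intro n hn
  have hsum := ab_sum N hc hy ht I1 n hn
  have hyy : ∀ k ∈ N, y * y * k * (y * y)⁻¹ ∈ N := by
    intro k hk
    have := hy _ (hy k hk)
    have e : y * y * k * (y * y)⁻¹ = y * (y * k * y⁻¹) * y⁻¹ := by group
    rw [e]; exact this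
  have q0 : qq t n ∈ N := N.mul_mem (ht n hn) hn
  have q1 : qq (t * y) n ∈ N := by
    have e1 : qq (t * y) n = (t * (y * n * y⁻¹) * t⁻¹) * n := by simp only [qq]; group
    rw [e1]; exact N.mul_mem (ht _ (hy n hn)) hn
  have q2 : qq (t * y * y) n ∈ N := by
    have e2 : qq (t * y * y) n = (t * (y * y * n * (y * y)⁻¹) * t⁻¹) * n := by
      simp only [qq]; group
    rw [e2]; exact N.mul_mem (ht _ (hyy n hn)) hn
  have s0 := I2 t (Or.inl rfl) n hn
  have s1 := I2 (t * y) (Or.inr (Or.inl rfl)) n hn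
  have s2 := I2 (t * y * y) (Or.inr (Or.inr rfl)) n hn
  generalize qq t n = a at *
  generalize qq (t * y) n = b at *
  generalize qq (t * y * y) n = c at *
  have h6 : n ^ 3 * n ^ 3 = 1 := by
    rw [← hsum]
    calc a * b * c * (a * b * c) = a * b * (c * a) * b * c := by group
      _ = a * b * (a * c) * b * c := by rw [hc c q2 a q0]
      _ = a * (b * a) * (c * b) * c := by group
      _ = a * (a * b) * (b * c) * c := by rw [hc b q1 a q0, hc c q2 b q1]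
      _ = (a * a) * (b * b) * (c * c) := by group
      _ = 1 := by rw [s0, s1, s2]; simp
  have h4 := n4 n hn
  have h6' : n ^ 6 = 1 := by rw [← h6, ← pow_add]
  have : n ^ 6 = n ^ 4 * n ^ 2 := by rw [← pow_add]
  rw [this, h4, one_mul, pow_two] at h6'
  exact h6'

end Cfsg.Agent.Lib.H32OcK1
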