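import Mathlib
import Cfsg.Agent.Lib.H32OcDefs
import Cfsg.Agent.Lib.H32OcK1

set_option autoImplicit false

namespace Cfsg.Agent.Lib.H32OcK2

open Cfsg Cfsg.Agent.Lib.H32OcDefs
open scoped commutatorElement

variable {G : Type*} [Group G]

/-! **K2** (60m): passage to `G ⧸ Z`, `Z = Z(N)`. -/

/-- the facts in the quotient by `Z(N)`. -/
theorem quot_facts {N : Subgroup G} {y t : G} (d : Dat N y t) :
    (∀ n ∈ N, n * n ∈ N ⊓ Subgroup.centralizer (N : Set G)) ∧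
    (∀ n ∈ N, (qq t n * qq (t * y) n * qq (t * y * y) n)⁻¹ * n
      ∈ N ⊓ Subgroup.centralizer (N : Set G)) := by
  have nN := d.nN
  have hZn : (N ⊓ Subgroup.centralizer (N : Set G)).Normal := inferInstance
  set Z := N ⊓ Subgroup.centralizer (N : Set G) with hZ
  set π := QuotientGroup.mk' Z with hπ
  have hqq : ∀ s n : G, qq (π s) (π n) = π (qq s n) := by
    intro s n
    simp only [qq, map_mul, map_inv]
  have hc : ∀ a ∈ N.map π, ∀ b ∈ N.map π, a * b = b * a := by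
    rintro _ ⟨a, ha, rfl⟩ _ ⟨b, hb, rfl⟩
    rw [← map_mul, ← map_mul]
    apply (QuotientGroup.eq).2
    have e : (a * b)⁻¹ * (b * a) = ⁅b⁻¹, a⁻¹⁆ := by
      rw [commutatorElement_def]; group
    rw [e]
    refine Subgroup.mem_inf.2 ⟨?_, ?_⟩
    · rw [commutatorElement_def]
      exact N.mul_mem (N.mul_mem (N.mul_mem (N.inv_mem hb) (N.inv_mem ha))
        (N.inv_mem (N.inv_mem hb))) (N.inv_mem (N.inv_mem ha))
    · rw [Subgroup.mem_centralizer_iff]
      intro x hx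
      exact (d.cl _ (N.inv_mem hb) _ (N.inv_mem ha) x hx).symm
  have hy : ∀ n ∈ N.map π, π y * n * (π y)⁻¹ ∈ N.map π := by
    rintro _ ⟨a, ha, rfl⟩
    exact ⟨y * a * y⁻¹, nN.conj_mem a ha y, by simp only [map_mul, map_inv]⟩
  have ht : ∀ n ∈ N.map π, π t * n * (π t)⁻¹ ∈ N.map π := by
    rintro _ ⟨a, ha, rfl⟩
    exact ⟨t * a * t⁻¹, nN.conj_mem a ha t, by simp only [map_mul, map_inv]⟩
  have I1 : ∀ n ∈ N.map π, n * (π y * n * (π y)⁻¹) * (π y * π y * n * (π y * π y)⁻¹) = 1 := by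
    rintro _ ⟨a, ha, rfl⟩
    have := congrArg π (d.I1 a ha)
    simpa only [map_mul, map_inv, map_one] using this
  have I2 : ∀ s : G ⧸ Z, (s = π t ∨ s = π t * π y ∨ s = π t * π y * π y) → ∀ n ∈ N.map π,
      qq s n * qq s n = 1 := by
    rintro s hs _ ⟨a, ha, rfl⟩
    rcases hs with h | h | h
    · rw [h, hqq, ← map_mul, d.I2 t (Or.inl rfl) a ha, map_one]
    · rw [h, ← map_mul, hqq, ← map_mul, d.I2 (t * y) (Or.inr (Or.inl rfl)) a ha, map_one]
    · rw [h, ← map_mul, ← map_mul, hqq, ← map_mul, d.I2 (t * y * y) (Or.inr (Or.inr rfl)) a ha,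
        map_one]
  have n4 : ∀ n ∈ N.map π, n ^ 4 = 1 := by
    rintro _ ⟨a, ha, rfl⟩
    rw [← map_pow, d.n4 a ha, map_one]
  have hsq := H32OcK1.ab_case (N.map π) hc hy ht I1 I2 n4
  have hsum := H32OcK1.ab_sum (N.map π) hc hy ht I1
  constructor
  · intro n hn
    have h1 := hsq (π n) ⟨n, hn, rfl⟩
    rw [← map_mul] at h1
    exact (QuotientGroup.eq_one_iff _).1 h1
  · intro n hn
    have h1 := hsq (π n) ⟨n, hn, rfl⟩
    have h2 := hsum (π n) ⟨n, hn, rfl⟩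
    have h3 : π n ^ 3 = π n := by rw [pow_succ, pow_two, h1, one_mul]
    rw [h3, ← map_mul, ← map_mul, hqq, hqq, hqq, ← map_mul, ← map_mul] at h2
    exact (QuotientGroup.eq).1 h2

/-- `Z = N ⊓ centralizer N` is normal in `G` (`d.nN`).  Let `π = QuotientGroup.mk' Z`, `N' = N.map π`.  `N'` is commutative (`d.cl`: `⁅a,b⁆ ∈ Z`, so `π a π b = π b π a`),
normalised by `π y`, `π t`; `I1`, `I2`, `n4` for `N'`, `π y`, `π t` are the images of `d.I1`, `d.I2`, `d.n4` (every element of `N'` is `π n`; `qq (π s) (π n) = π (qq s n)`).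
* `sq_central`: `H32OcK1.ab_case` gives `π (n * n) = 1`, i.e. `n * n ∈ Z`.
* `decomp`: `H32OcK1.ab_sum` gives `π (qq t n * qq (t y) n * qq (t y y) n) = π n ^ 3 = π n` (as `π n * π n = 1`); put `z = (qq t n * qq (t y) n * qq (t y y) n)⁻¹ * n ∈ Z`. -/
theorem sq_central {N : Subgroup G} {y t : G} (d : Dat N y t) :
    ∀ n ∈ N, ∀ b ∈ N, n * n * b = b * (n * n) := by
  intro n hn b hb
  have h1 := (Subgroup.mem_inf.1 ((quot_facts d).1 n hn)).2
  rw [Subgroup.mem_centralizer_iff] at h1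
  exact (h1 b hb).symm

theorem decomp {N : Subgroup G} {y t : G} (d : Dat N y t) : ∀ n ∈ N, ∃ z ∈ N, (∀ b ∈ N, z * b = b * z) ∧
    n = qq t n * qq (t * y) n * qq (t * y * y) n * z := by
  intro n hn
  have h1 := Subgroup.mem_inf.1 ((quot_facts d).2 n hn)
  refine ⟨_, h1.1, fun b hb => ?_, by group⟩
  have h2 := h1.2
  rw [Subgroup.mem_centralizer_iff] at h2
  exact (h2 b hb).symm

end Cfsg.Agent.Lib.H32OcK2
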