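import Mathlib
import Cfsg.Agent.Lib.H32OcDefs

set_option autoImplicit false

namespace Cfsg.Agent.Lib.H32OcK3

open Cfsg Cfsg.Agent.Lib.H32OcDefs
open scoped commutatorElement

variable {G : Type*} [Group G]

/-! **K3** (PURE MATHLIB, 45m): commutator calculus in class 2, elementwise in a subgroup `N`. -/

variable {N : Subgroup G} (cl : ∀ a ∈ N, ∀ b ∈ N, ∀ d ∈ N, ⁅a, b⁆ * d = d * ⁅a, b⁆)
include cl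

/-- `⁅a b, d⁆ = a ⁅b, d⁆ a⁻¹ ⁅a, d⁆` (identity, `group`) and `⁅b,d⁆ ∈ N` is central in `N`. -/
theorem mul_left {a b d : G} (ha : a ∈ N) (hb : b ∈ N) (hd : d ∈ N) : ⁅a * b, d⁆ = ⁅a, d⁆ * ⁅b, d⁆ := by
  have had : ⁅a, d⁆ ∈ N := by
    rw [commutatorElement_def]
    exact N.mul_mem (N.mul_mem (N.mul_mem ha hd) (N.inv_mem ha)) (N.inv_mem hd)
  have h1 : ⁅b, d⁆ * a = a * ⁅b, d⁆ := cl b hb d hd a ha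
  have h2 : ⁅b, d⁆ * ⁅a, d⁆ = ⁅a, d⁆ * ⁅b, d⁆ := cl b hb d hd _ had
  have h3 : ⁅a * b, d⁆ = a * ⁅b, d⁆ * a⁻¹ * ⁅a, d⁆ := by
    simp only [commutatorElement_def]; group
  rw [h3, ← h1, mul_assoc ⁅b, d⁆ a a⁻¹, mul_inv_cancel, mul_one, h2]

theorem mul_right {a b d : G} (ha : a ∈ N) (hb : b ∈ N) (hd : d ∈ N) : ⁅a, b * d⁆ = ⁅a, b⁆ * ⁅a, d⁆ := by
  have h1 : ⁅a, d⁆ * b = b * ⁅a, d⁆ := cl a ha d hd b hb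
  have h3 : ⁅a, b * d⁆ = ⁅a, b⁆ * (b * ⁅a, d⁆ * b⁻¹) := by
    simp only [commutatorElement_def]; group
  rw [h3, ← h1, mul_assoc ⁅a, d⁆ b b⁻¹, mul_inv_cancel, mul_one]

/-- `⁅a,b⁆ * ⁅a,b⁆ = ⁅a * a, b⁆ = 1` -/
theorem comm_sq (sq : ∀ n ∈ N, ∀ b ∈ N, n * n * b = b * (n * n)) {a b : G} (ha : a ∈ N) (hb : b ∈ N) :
    ⁅a, b⁆ * ⁅a, b⁆ = 1 := by
  rw [← mul_left cl ha ha hb, commutatorElement_def, sq a ha b hb]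
  group

/-- `⁅b,a⁆ = ⁅a,b⁆⁻¹ = ⁅a,b⁆` -/
theorem comm_symm (sq : ∀ n ∈ N, ∀ b ∈ N, n * n * b = b * (n * n)) {a b : G} (ha : a ∈ N) (hb : b ∈ N) :
    ⁅b, a⁆ = ⁅a, b⁆ := by
  have h1 := comm_sq cl sq ha hb
  have h2 : ⁅b, a⁆ = ⁅a, b⁆⁻¹ := by simp only [commutatorElement_def]; group
  rw [h2]
  exact inv_eq_of_mul_eq_one_left h1

end Cfsg.Agent.Lib.H32OcK3
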