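import Mathlib
import Cfsg.Agent.Lib.H32OcDefs
import Cfsg.Agent.Lib.H32OcK2
import Cfsg.Agent.Lib.H32OcK3

set_option autoImplicit false

namespace Cfsg.Agent.Lib.H32OcK4

open Cfsg Cfsg.Agent.Lib.H32OcDefs
open scoped commutatorElement

variable {G : Type*} [Group G]

/-! **K4** (60m): step (α). -/

/-- Let `u = qq t n`, `u' = qq t m` (in `N`), `u * u = 1 = u' * u'` (`d.I2`).  `qq t (n * m) = (t n t⁻¹)(t m t⁻¹) n m = u * u' * c` with
`c = ⁅·,·⁆` a commutator of elements of `N` (move `n` past `t m t⁻¹`: `x * n = n * x * ⁅x⁻¹, n⁻¹⁆`), central in `N` (`d.cl`) with `c * c = 1`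
(`H32OcK3.comm_sq d.cl (H32OcK2.sq_central d)`).  `d.I2` for `n * m`: `1 = (u u' c)(u u' c) = (u u')(u u')`.  As `u⁻¹ = u`, `u'⁻¹ = u'`:
`⁅u, u'⁆ = u u' u u' = 1`. -/
theorem alpha {N : Subgroup G} {y t : G} (d : Dat N y t) {n m : G} (hn : n ∈ N) (hm : m ∈ N) :
    ⁅qq t n, qq t m⁆ = 1 := by
  have nN := d.nN
  have hA : t * n * t⁻¹ ∈ N := nN.conj_mem n hn t
  have hB : t * m * t⁻¹ ∈ N := nN.conj_mem m hm t
  have huu : qq t n * qq t n = 1 := d.I2 t (Or.inl rfl) n hn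
  have hvv : qq t m * qq t m = 1 := d.I2 t (Or.inl rfl) m hm
  have hnm : qq t (n * m) * qq t (n * m) = 1 := d.I2 t (Or.inl rfl) (n * m) (N.mul_mem hn hm)
  have huN : qq t n ∈ N := N.mul_mem hA hn
  have hvN : qq t m ∈ N := N.mul_mem hB hm
  have hcc : ⁅(t * m * t⁻¹)⁻¹, n⁻¹⁆ * ⁅(t * m * t⁻¹)⁻¹, n⁻¹⁆ = 1 :=
    H32OcK3.comm_sq d.cl (H32OcK2.sq_central d) (N.inv_mem hB) (N.inv_mem hn)
  have hcen : ∀ x ∈ N, ⁅(t * m * t⁻¹)⁻¹, n⁻¹⁆ * x = x * ⁅(t * m * t⁻¹)⁻¹, n⁻¹⁆ :=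
    fun x hx => d.cl _ (N.inv_mem hB) _ (N.inv_mem hn) x hx
  have he : qq t (n * m) = qq t n * qq t m * ⁅(t * m * t⁻¹)⁻¹, n⁻¹⁆ := by
    have h1 : qq t (n * m) = qq t n * (t * m * t⁻¹) * (⁅(t * m * t⁻¹)⁻¹, n⁻¹⁆ * m) := by
      simp only [qq, commutatorElement_def]; group
    rw [h1, hcen m hm]
    simp only [qq]; group
  generalize ⁅(t * m * t⁻¹)⁻¹, n⁻¹⁆ = c at *
  rw [he] at hnm
  generalize qq t n = u at *
  generalize qq t m = v at *
  have h2 : u * v * (u * v) = 1 := by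
    have h3 : u * v * c * (u * v * c) = u * v * (u * v) * (c * c) := by
      calc u * v * c * (u * v * c) = u * v * (c * (u * v)) * c := by group
        _ = u * v * ((u * v) * c) * c := by rw [hcen _ (N.mul_mem huN hvN)]
        _ = u * v * (u * v) * (c * c) := by group
    rw [h3, hcc, mul_one] at hnm
    exact hnm
  have hui : u⁻¹ = u := inv_eq_of_mul_eq_one_left huu
  have hvi : v⁻¹ = v := inv_eq_of_mul_eq_one_left hvv
  rw [commutatorElement_def, hui, hvi, ← h2]; group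

end Cfsg.Agent.Lib.H32OcK4
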