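import Mathlib
import Cfsg.Agent.Lib.H32OcDefs
import Cfsg.Agent.Lib.H32OcK2
import Cfsg.Agent.Lib.H32OcK3
import Cfsg.Agent.Lib.H32OcK4

set_option autoImplicit false

namespace Cfsg.Agent.Lib.H32OcK5

open Cfsg Cfsg.Agent.Lib.H32OcDefs
open scoped commutatorElement

variable {G : Type*} [Group G]

/-! **K5** (75m, START FIRST): step (β). -/

theorem conj_comm' (y a b : G) : ⁅y * a * y⁻¹, y * b * y⁻¹⁆ = y * ⁅a, b⁆ * y⁻¹ := by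
  simp only [commutatorElement_def]; group

/-- Notation `u = qq t n`, `u' = qq t m`, `u₁ = y u y⁻¹`, `u₂ = y y u (y y)⁻¹`, same for `u'`; all in `N`; `u * u = 1`.
By `d.I1`: `u u₁ u₂ = 1`, so `u = u⁻¹ = u₁ u₂`; same for `u'`.  `⁅u,u'⁆ = 1` (`H32OcK4.alpha`), conjugating by `y`, `y y`: `⁅u₁,u'₁⁆ = 1 = ⁅u₂,u'₂⁆`.
Bimultiplicativity (`H32OcK3.mul_left/right d.cl`): `1 = ⁅u₁u₂, u'₁u'₂⁆ = ⁅u₁,u'₂⁆ ⁅u₂,u'₁⁆`; with `comm_sq`: `β := ⁅u₁,u'₂⁆ = ⁅u₂,u'₁⁆`.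
`y β y⁻¹ = ⁅u₂, y y y u' (y y y)⁻¹⁆ = ⁅u₂, u'⁆ = ⁅u₂, u'₁ u'₂⁆ = ⁅u₂,u'₁⁆ ⁅u₂,u'₂⁆ = β`.  So `β ∈ N` commutes with `y`: `β = 1` by `d.fix`. -/
theorem beta {N : Subgroup G} {y t : G} (d : Dat N y t) {n m : G} (hn : n ∈ N) (hm : m ∈ N) :
    ⁅y * qq t n * y⁻¹, y * y * qq t m * (y * y)⁻¹⁆ = 1 := by
  have nN := d.nN
  have hq : ∀ k ∈ N, qq t k ∈ N := fun k hk => N.mul_mem (nN.conj_mem k hk t) hk
  have huN : qq t n ∈ N := hq n hn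
  have hvN : qq t m ∈ N := hq m hm
  have huu : qq t n * qq t n = 1 := d.I2 t (Or.inl rfl) n hn
  have hvv : qq t m * qq t m = 1 := d.I2 t (Or.inl rfl) m hm
  have h0 : ⁅qq t n, qq t m⁆ = 1 := H32OcK4.alpha d hn hm
  generalize qq t n = u at *
  generalize qq t m = v at *
  have hI1u : u * (y * u * y⁻¹) * (y * y * u * (y * y)⁻¹) = 1 := d.I1 u huN
  have hI1v : v * (y * v * y⁻¹) * (y * y * v * (y * y)⁻¹) = 1 := d.I1 v hvN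
  have hu1N : y * u * y⁻¹ ∈ N := nN.conj_mem u huN y
  have hu2N : y * y * u * (y * y)⁻¹ ∈ N := nN.conj_mem u huN (y * y)
  have hv1N : y * v * y⁻¹ ∈ N := nN.conj_mem v hvN y
  have hv2N : y * y * v * (y * y)⁻¹ ∈ N := nN.conj_mem v hvN (y * y)
  have h11 : ⁅y * u * y⁻¹, y * v * y⁻¹⁆ = 1 := by rw [conj_comm', h0]; group
  have h22 : ⁅y * y * u * (y * y)⁻¹, y * y * v * (y * y)⁻¹⁆ = 1 := by rw [conj_comm', h0]; group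
  have hyu1 : y * (y * u * y⁻¹) * y⁻¹ = y * y * u * (y * y)⁻¹ := by group
  have hyv2 : y * (y * y * v * (y * y)⁻¹) * y⁻¹ = v := by
    have e : y * (y * y * v * (y * y)⁻¹) * y⁻¹ = (y * y * y) * v * (y * y * y)⁻¹ := by group
    rw [e, d.y3]; group
  generalize y * u * y⁻¹ = u1 at *
  generalize y * y * u * (y * y)⁻¹ = u2 at *
  generalize y * v * y⁻¹ = v1 at *
  generalize y * y * v * (y * y)⁻¹ = v2 at *
  have hu12 : u1 * u2 = u := by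
    have e : u * (u1 * u2) = u * u := by rw [← mul_assoc, hI1u, huu]
    exact mul_left_cancel e
  have hv12 : v1 * v2 = v := by
    have e : v * (v1 * v2) = v * v := by rw [← mul_assoc, hI1v, hvv]
    exact mul_left_cancel e
  have hexp : ⁅u1 * u2, v1 * v2⁆ = ⁅u1, v2⁆ * ⁅u2, v1⁆ := by
    rw [H32OcK3.mul_left d.cl hu1N hu2N (N.mul_mem hv1N hv2N),
      H32OcK3.mul_right d.cl hu1N hv1N hv2N, H32OcK3.mul_right d.cl hu2N hv1N hv2N, h11, h22,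
      one_mul, mul_one]
  have h1 : ⁅u1, v2⁆ * ⁅u2, v1⁆ = 1 := by rw [← hexp, hu12, hv12, h0]
  have hsq : ⁅u2, v1⁆ * ⁅u2, v1⁆ = 1 := H32OcK3.comm_sq d.cl (H32OcK2.sq_central d) hu2N hv1N
  have hβ : ⁅u1, v2⁆ = ⁅u2, v1⁆ := by
    have e : ⁅u1, v2⁆ * ⁅u2, v1⁆ = ⁅u2, v1⁆ * ⁅u2, v1⁆ := by rw [h1, hsq]
    exact mul_right_cancel e
  have hconj : y * ⁅u1, v2⁆ * y⁻¹ = ⁅u1, v2⁆ := by
    rw [← conj_comm', hyu1, hyv2, ← hv12, H32OcK3.mul_right d.cl hu2N hv1N hv2N, h22, mul_one, hβ]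
  have hβN : ⁅u1, v2⁆ ∈ N := by
    rw [commutatorElement_def]
    exact N.mul_mem (N.mul_mem (N.mul_mem hu1N hv2N) (N.inv_mem hu1N)) (N.inv_mem hv2N)
  exact d.fix _ hβN (mul_inv_eq_iff_eq_mul.1 hconj)

end Cfsg.Agent.Lib.H32OcK5
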