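import Mathlib
import Cfsg.Agent.Lib.H32OcDefs
import Cfsg.Agent.Lib.H32OcK4
import Cfsg.Agent.Lib.H32OcK5

set_option autoImplicit false

namespace Cfsg.Agent.Lib.H32OcK6

open Cfsg Cfsg.Agent.Lib.H32OcDefs
open scoped commutatorElement

variable {G : Type*} [Group G]

/-! **K6** (45m): all the sets `y^i S₀ y^-i` commute. -/

theorem conj_commute (w a b : G) (h : a * b = b * a) :
    (w * a * w⁻¹) * (w * b * w⁻¹) = (w * b * w⁻¹) * (w * a * w⁻¹) := by
  calc (w * a * w⁻¹) * (w * b * w⁻¹) = w * (a * b) * w⁻¹ := by group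
    _ = w * (b * a) * w⁻¹ := by rw [h]
    _ = (w * b * w⁻¹) * (w * a * w⁻¹) := by group

/-- `X N y t x` : `x = w (qq t n) w⁻¹` for some `w ∈ {1, y, y y}`, `n ∈ N`.  Nine cases; each is a conjugate (by `1`, `y`, `y y`, using `y y y = 1`) of
`H32OcK4.alpha` (equal `w`), of `H32OcK5.beta` (`(y, yy)`, conjugated: `(yy, 1)`, `(1, y)`), or the symmetric statement (`⁅a,b⁆ = 1 → ⁅b,a⁆ = 1`). -/
theorem X_comm {N : Subgroup G} {y t : G} (d : Dat N y t) {a b : G} (ha : X N y t a) (hb : X N y t b) :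
    a * b = b * a := by
  have y3 := d.y3
  have h00 : ∀ n ∈ N, ∀ m ∈ N, qq t n * qq t m = qq t m * qq t n := fun n hn m hm =>
    commutatorElement_eq_one_iff_mul_comm.1 (H32OcK4.alpha d hn hm)
  have h12 : ∀ n ∈ N, ∀ m ∈ N, (y * qq t n * y⁻¹) * (y * y * qq t m * (y * y)⁻¹)
      = (y * y * qq t m * (y * y)⁻¹) * (y * qq t n * y⁻¹) := fun n hn m hm =>
    commutatorElement_eq_one_iff_mul_comm.1 (H32OcK5.beta d hn hm)
  have e3 : ∀ v : G, y * (y * y * v * (y * y)⁻¹) * y⁻¹ = v := by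
    intro v
    have e : y * (y * y * v * (y * y)⁻¹) * y⁻¹ = (y * y * y) * v * (y * y * y)⁻¹ := by group
    rw [e, y3]; group
  have e3' : ∀ v : G, y * y * (y * v * y⁻¹) * (y * y)⁻¹ = v := by
    intro v
    have e : y * y * (y * v * y⁻¹) * (y * y)⁻¹ = (y * y * y) * v * (y * y * y)⁻¹ := by group
    rw [e, y3]; group
  have e4 : ∀ v : G, y * y * (y * y * v * (y * y)⁻¹) * (y * y)⁻¹ = y * v * y⁻¹ := by
    intro v
    have e : y * y * (y * y * v * (y * y)⁻¹) * (y * y)⁻¹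
        = (y * y * y) * (y * v * y⁻¹) * (y * y * y)⁻¹ := by group
    rw [e, y3]; group
  have e2 : ∀ v : G, y * (y * v * y⁻¹) * y⁻¹ = y * y * v * (y * y)⁻¹ := by
    intro v; group
  have h20 : ∀ n ∈ N, ∀ m ∈ N, (y * y * qq t n * (y * y)⁻¹) * qq t m
      = qq t m * (y * y * qq t n * (y * y)⁻¹) := by
    intro n hn m hm
    have := conj_commute y _ _ (h12 n hn m hm)
    rwa [e3, e2] at this
  have h01 : ∀ n ∈ N, ∀ m ∈ N, qq t n * (y * qq t m * y⁻¹) = (y * qq t m * y⁻¹) * qq t n := by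
    intro n hn m hm
    have := conj_commute (y * y) _ _ (h12 n hn m hm)
    rwa [e3', e4] at this
  obtain ⟨w, hw, n, hn, ha⟩ := ha
  obtain ⟨w', hw', m, hm, hb⟩ := hb
  rcases hw with h | h | h <;> rcases hw' with h' | h' | h' <;> rw [ha, hb, h, h']
  · exact conj_commute 1 _ _ (h00 n hn m hm)
  · simpa using h01 n hn m hm
  · simpa using (h20 m hm n hn).symm
  · simpa using (h01 m hm n hn).symm
  · exact conj_commute y _ _ (h00 n hn m hm)
  · exact h12 n hn m hm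
  · simpa using h20 n hn m hm
  · exact (h12 m hm n hn).symm
  · exact conj_commute (y * y) _ _ (h00 n hn m hm)

end Cfsg.Agent.Lib.H32OcK6
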