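import Mathlib
import Cfsg.Agent.Lib.H32OcDefs

set_option autoImplicit false

namespace Cfsg.Agent.Lib.H32OcK7

open Cfsg Cfsg.Agent.Lib.H32OcDefs
open scoped commutatorElement

variable {G : Type*} [Group G]

/-! **K7** (30m): `qq (t y) n` and `qq (t y y) n` are in `X`. -/

theorem ty_eq {N : Subgroup G} {y t : G} (d : Dat N y t) : t * y = y * t * y⁻¹ := by
  have hyi : y⁻¹ = y * y := by
    apply inv_eq_of_mul_eq_one_right
    rw [← mul_assoc]; exact d.y3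
  have h1 : t * y = y⁻¹ * t := by
    rw [← d.ty]; group
  have h2 : t = y * (t * y) := by rw [h1]; group
  calc t * y = y⁻¹ * t := h1
    _ = y * y * t := by rw [hyi]
    _ = y * (y * (t * y)) * y⁻¹ := by group
    _ = y * t * y⁻¹ := by rw [← h2]

theorem tyy_eq {N : Subgroup G} {y t : G} (d : Dat N y t) : t * y * y = y * y * t * (y * y)⁻¹ := by
  have h1 := ty_eq d
  calc t * y * y = y * t * y⁻¹ * y := by rw [h1]
    _ = y * (t * y) * y⁻¹ := by group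
    _ = y * (y * t * y⁻¹) * y⁻¹ := by rw [h1]
    _ = y * y * t * (y * y)⁻¹ := by group

/-- `t * y = y * t * y⁻¹` (from `d.ty : t y t⁻¹ = y⁻¹`, `d.y3`): `y t y⁻¹ = t y⁻¹ y⁻¹ = t y`.  Then `qq (y t y⁻¹) n = y (qq t (y⁻¹ n y)) y⁻¹` (`group`), `y⁻¹ n y ∈ N`. -/
theorem X_ty {N : Subgroup G} {y t : G} (d : Dat N y t) {n : G} (hn : n ∈ N) : X N y t (qq (t * y) n) := by
  refine ⟨y, Or.inr (Or.inl rfl), y⁻¹ * n * y⁻¹⁻¹, d.nN.conj_mem n hn y⁻¹, ?_⟩
  rw [ty_eq d]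
  simp only [qq]
  group

/-- `t * y * y = (y y) t (y y)⁻¹`. -/
theorem X_tyy {N : Subgroup G} {y t : G} (d : Dat N y t) {n : G} (hn : n ∈ N) : X N y t (qq (t * y * y) n) := by
  refine ⟨y * y, Or.inr (Or.inr rfl), (y * y)⁻¹ * n * (y * y)⁻¹⁻¹, d.nN.conj_mem n hn (y * y)⁻¹, ?_⟩
  rw [tyy_eq d]
  simp only [qq]
  group

theorem X_t {N : Subgroup G} {y t : G} (d : Dat N y t) {n : G} (hn : n ∈ N) : X N y t (qq t n) := by
  exact ⟨1, Or.inl rfl, n, hn, by simp⟩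

end Cfsg.Agent.Lib.H32OcK7
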