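import Mathlib
import Cfsg.Agent.Lib.H32OcDefs
import Cfsg.Agent.Lib.H32OcK1
import Cfsg.Agent.Lib.H32OcK2
import Cfsg.Agent.Lib.H32OcK6
import Cfsg.Agent.Lib.H32OcK7

set_option autoImplicit false

namespace Cfsg.Agent.Lib.H32OcK8

open Cfsg Cfsg.Agent.Lib.H32OcDefs
open scoped commutatorElement

variable {G : Type*} [Group G]

/-! **K8** (45m): conclusion of case B-ii. -/

/-- `H32OcK2.decomp`: `a = x₀ x₁ x₂ z`, `b = x₀' x₁' x₂' z'` with `xᵢ, xᵢ' ∈ X` (`H32OcK7`), pairwise commuting (`H32OcK6.X_comm`), lying in `N`, and `z, z'` central in `N`. -/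
theorem comm {N : Subgroup G} {y t : G} (d : Dat N y t) : ∀ a ∈ N, ∀ b ∈ N, a * b = b * a := by
  intro a ha b hb
  have nN := d.nN
  have hq : ∀ s : G, ∀ k ∈ N, qq s k ∈ N := fun s k hk => N.mul_mem (nN.conj_mem k hk s) hk
  obtain ⟨z, hz, hzc, hae⟩ := H32OcK2.decomp d a ha
  obtain ⟨z', hz', hzc', hbe⟩ := H32OcK2.decomp d b hb
  have X0 := H32OcK7.X_t d ha
  have X1 := H32OcK7.X_ty d ha
  have X2 := H32OcK7.X_tyy d ha
  have X0' := H32OcK7.X_t d hb
  have X1' := H32OcK7.X_ty d hb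
  have X2' := H32OcK7.X_tyy d hb
  have N0 := hq t a ha
  have N1 := hq (t * y) a ha
  have N2 := hq (t * y * y) a ha
  have N0' := hq t b hb
  have N1' := hq (t * y) b hb
  have N2' := hq (t * y * y) b hb
  have key : Commute (qq t a * qq (t * y) a * qq (t * y * y) a * z)
      (qq t b * qq (t * y) b * qq (t * y * y) b * z') := by
    refine Commute.mul_left (Commute.mul_left (Commute.mul_left ?_ ?_) ?_) ?_ <;>
    refine Commute.mul_right (Commute.mul_right (Commute.mul_right ?_ ?_) ?_) ?_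
    · exact H32OcK6.X_comm d X0 X0'
    · exact H32OcK6.X_comm d X0 X1'
    · exact H32OcK6.X_comm d X0 X2'
    · exact (hzc' _ N0).symm
    · exact H32OcK6.X_comm d X1 X0'
    · exact H32OcK6.X_comm d X1 X1'
    · exact H32OcK6.X_comm d X1 X2'
    · exact (hzc' _ N1).symm
    · exact H32OcK6.X_comm d X2 X0'
    · exact H32OcK6.X_comm d X2 X1'
    · exact H32OcK6.X_comm d X2 X2'
    · exact (hzc' _ N2).symm
    · exact hzc _ N0'
    · exact hzc _ N1'
    · exact hzc _ N2'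
    · exact hzc _ hz'
  rw [← hae, ← hbe] at key
  exact key

/-- `comm` + `H32OcK1.ab_case` (with `d.I1 d.I2 d.n4`, normality `d.nN`). `IsElementaryAbelian 2 N = IsMulCommutative N ∧ ∀ a ∈ N, a ^ 2 = 1`. -/
theorem elemAb {N : Subgroup G} {y t : G} (d : Dat N y t) : IsElementaryAbelian 2 N := by
  have hc := comm d
  refine ⟨⟨⟨fun a b => Subtype.ext (hc a.1 a.2 b.1 b.2)⟩⟩, fun a ha => ?_⟩
  rw [pow_two]
  exact H32OcK1.ab_case N hc (fun n hn => d.nN.conj_mem n hn y) (fun n hn => d.nN.conj_mem n hn t)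
    d.I1 d.I2 d.n4 a ha

end Cfsg.Agent.Lib.H32OcK8
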