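import Mathlib
import Cfsg.Agent.Lib.H32OcDefs
import Cfsg.Agent.Lib.H32OcBasic

set_option autoImplicit false

namespace Cfsg.Agent.Lib.H32OcS1b

open Cfsg Cfsg.Agent.Lib.H32OcDefs
open scoped commutatorElement

variable {G : Type*} [Group G]

/-! **S1b** (40m). -/

theorem perm_facts : ∃ c τ : Equiv.Perm (Fin 3), c ≠ 1 ∧ c ^ 3 = 1 ∧ τ * c * τ⁻¹ * c = 1 ∧ τ * τ = 1 ∧ τ ≠ 1 ∧
    τ * c ≠ 1 ∧ τ * c * c ≠ 1 := by
  refine ⟨c[0, 1, 2], Equiv.swap 0 1, ?_, ?_, ?_, ?_, ?_, ?_, ?_⟩ <;> decide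

theorem exists_elts [Finite G] (h : O4 G) (N : Subgroup G) [N.Normal] (e : G ⧸ N ≃* Equiv.Perm (Fin 3)) :
    ∃ y g : G, orderOf y = 3 ∧ g * y * g⁻¹ * y ∈ N ∧ g * g ∈ N ∧ g ∉ N ∧ g * y ∉ N ∧ g * y * y ∉ N := by
  obtain ⟨c, τ, hc1, hc3, h1, h2, h3, h4, h5⟩ := perm_facts
  obtain ⟨y, hy⟩ := QuotientGroup.mk_surjective (e.symm c)
  obtain ⟨g, hg⟩ := QuotientGroup.mk_surjective (e.symm τ)
  have hy' : e (QuotientGroup.mk y) = c := by rw [hy, MulEquiv.apply_symm_apply]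
  have hg' : e (QuotientGroup.mk g) = τ := by rw [hg, MulEquiv.apply_symm_apply]
  have key : ∀ x : G, x ∈ N ↔ e (QuotientGroup.mk x) = 1 := by
    intro x
    rw [← QuotientGroup.eq_one_iff (N := N), MulEquiv.map_eq_one_iff]
  have hoc : orderOf c = 3 := orderOf_eq_prime hc3 hc1
  refine ⟨y, g, ?_, ?_, ?_, ?_, ?_, ?_⟩
  · have hd : orderOf ((e.toMonoidHom.comp (QuotientGroup.mk' N)) y) ∣ orderOf y := orderOf_map_dvd _ y
    have : (e.toMonoidHom.comp (QuotientGroup.mk' N)) y = c := hy'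
    rw [this, hoc] at hd
    have h4 := h y
    have h0 := orderOf_pos y
    obtain ⟨k, hk⟩ := hd
    omega
  · rw [key]
    simp only [QuotientGroup.mk_mul, QuotientGroup.mk_inv, map_mul, map_inv, hy', hg']
    exact h1
  · rw [key]
    simp only [QuotientGroup.mk_mul, QuotientGroup.mk_inv, map_mul, map_inv, hy', hg']
    exact h2
  · rw [key]
    simp only [QuotientGroup.mk_mul, QuotientGroup.mk_inv, map_mul, map_inv, hy', hg']
    exact h3
  · rw [key]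
    simp only [QuotientGroup.mk_mul, QuotientGroup.mk_inv, map_mul, map_inv, hy', hg']
    exact h4
  · rw [key]
    simp only [QuotientGroup.mk_mul, QuotientGroup.mk_inv, map_mul, map_inv, hy', hg']
    exact h5

end Cfsg.Agent.Lib.H32OcS1b
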