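import Mathlib
import Cfsg.Agent.Lib.H32OcDefs
import Cfsg.Agent.Lib.H32OcBasic
import Cfsg.Agent.Lib.H32OcCore
import Cfsg.Agent.Lib.H32OcA1
import Cfsg.Agent.Lib.H32OcA4
import Cfsg.Agent.Lib.H32OcA5a
import Cfsg.Agent.Lib.H32OcA5b
import Cfsg.Agent.Lib.H32OcB3
import Cfsg.Agent.Lib.H32OcB4q
import Cfsg.Agent.Lib.H32OcB4a
import Cfsg.Agent.Lib.H32OcB4b
import Cfsg.Agent.Lib.H32OcBi
import Cfsg.Agent.Lib.H32OcS1b
import Cfsg.Agent.Lib.H32OcS1c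
import Cfsg.Agent.Lib.H32OcK0
import Cfsg.Agent.Lib.H32OcK8
import Cfsg.Agent.Lib.Helper1Fitting

set_option autoImplicit false

namespace Cfsg.Agent.Lib.H32OcMain

open Cfsg Cfsg.Agent.Lib.H32OcDefs Cfsg.Agent.Lib.Helper1Fitting

variable {G : Type*} [Group G]

theorem caseA [Finite G] (h : O4 G) (h4 : ∃ g : G, orderOf g = 4) (N : Subgroup G) [N.Normal]
    (hN : IsPGroup 3 N) (hN1 : N ≠ ⊥) (hmax : ∀ M : Subgroup G, M.Normal → IsPGroup 3 M → M ≤ N) :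
    IsElementaryAbelian 3 N ∧
      ((IsCyclic (G ⧸ N) ∧ N.index = 4) ∨ Nonempty (G ⧸ N ≃* QuaternionGroup 2)) := by
  obtain ⟨g, hg⟩ := h4
  have ht : orderOf (g ^ 2) = 2 := by
    rw [orderOf_pow' g (by norm_num), hg]
    norm_num
  refine ⟨(H32OcA1.elemAb h N hN ht).1, ?_⟩
  obtain ⟨q4, qe, qu⟩ := H32OcA4.quot_facts h N hN hN1 hmax ⟨g, hg⟩
  rcases H32OcA5a.struct q4 qe qu with ⟨hc, hcard⟩ | ⟨hcard, x, y, hx, hy, hxy, hyx⟩
  · left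
    exact ⟨hc, by rw [Subgroup.index_eq_card]; exact hcard⟩
  · right
    exact H32OcA5b.q8_of_gens hcard hx hy hxy hyx

theorem caseB [Finite G] (h : O4 G) (h3 : ∃ g : G, orderOf g = 3) (h4 : ∃ g : G, orderOf g = 4)
    (N : Subgroup G) [N.Normal] (hNe : N = pCore 2 G) (hN1 : pCore 2 G ≠ ⊥) :
    (IsPGroup 2 ↥N ∧ Monoid.exponent ↥N = 4 ∧ Group.nilpotencyClass ↥N ≤ 2 ∧ N.index = 3) ∨
      (IsElementaryAbelian 2 N ∧ Nonempty (G ⧸ N ≃* Equiv.Perm (Fin 3))) := by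
  have hN : IsPGroup 2 N := hNe ▸ pCore_isPGroup 2
  have h9 : ¬ 9 ∣ Nat.card G := H32OcB3.not_nine h hN1
  have hQ : O4 (G ⧸ N) := H32OcBasic.quot h N
  have h2 : pCore 2 (G ⧸ N) = ⊥ := H32OcB4q.pcore_quot N hNe
  have h9' : ¬ 9 ∣ Nat.card (G ⧸ N) := by
    intro hd
    apply h9
    have := Subgroup.card_eq_card_quotient_mul_card_subgroup N
    rw [this]
    exact Dvd.dvd.mul_right hd _
  haveI : Nontrivial (G ⧸ N) := by
    obtain ⟨y, hy⟩ := h3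
    refine ⟨⟨(y : G ⧸ N), 1, ?_⟩⟩
    intro hy1
    have hyN : y ∈ N := (QuotientGroup.eq_one_iff y).1 hy1
    obtain ⟨k, hk⟩ := hN ⟨y, hyN⟩
    have hk' : y ^ 2 ^ k = 1 := by
      have := congrArg Subtype.val hk
      simpa using this
    have h1 : 3 ∣ 2 ^ k := hy ▸ orderOf_dvd_of_pow_eq_one hk'
    have h2 : 3 ∣ 2 := Nat.Prime.dvd_of_dvd_pow Nat.prime_three h1
    omega
  rcases H32OcB4a.three_or_six hQ h2 h9' with hc | ⟨hc, hnc⟩
  · left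
    exact H32OcBi.caseBi h h3 h4 N hN (by rw [Subgroup.index_eq_card]; exact hc)
  · right
    obtain ⟨e⟩ := H32OcB4b.s3_of_six hc hnc
    obtain ⟨y, g, hy, h1, h2', h3a, h3b, h3c⟩ := H32OcS1b.exists_elts h N e
    obtain ⟨t, c⟩ := H32OcS1c.cfg_of_elts h N hN hy h1 h2' ⟨h3a, h3b, h3c⟩
    exact ⟨H32OcK8.elemAb (H32OcK0.dat_of_cfg c), ⟨e⟩⟩

theorem main [Finite G] (h : Set.range (orderOf : G → ℕ) = {k : ℕ | 1 ≤ k ∧ k ≤ 4}) :
    ∃ (N : Subgroup G) (_ : N.Normal),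
      (IsPGroup 2 ↥N ∧ Monoid.exponent ↥N = 4 ∧ Group.nilpotencyClass ↥N ≤ 2 ∧ N.index = 3) ∨
      (Cfsg.IsElementaryAbelian 2 N ∧ Nonempty (G ⧸ N ≃* Equiv.Perm (Fin 3))) ∨
      (Cfsg.IsElementaryAbelian 3 N ∧ ((IsCyclic (G ⧸ N) ∧ N.index = 4) ∨ Nonempty (G ⧸ N ≃* QuaternionGroup 2))) := by
  have hO : O4 G := by
    intro g
    have : orderOf g ∈ Set.range (orderOf : G → ℕ) := ⟨g, rfl⟩
    rw [h] at this
    exact this.2
  have h3 : ∃ g : G, orderOf g = 3 := by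
    have : (3 : ℕ) ∈ Set.range (orderOf : G → ℕ) := by rw [h]; exact ⟨by norm_num, by norm_num⟩
    exact this
  have h4 : ∃ g : G, orderOf g = 4 := by
    have : (4 : ℕ) ∈ Set.range (orderOf : G → ℕ) := by rw [h]; exact ⟨by norm_num, by norm_num⟩
    exact this
  haveI : Nontrivial G := by
    obtain ⟨y, hy⟩ := h3
    refine ⟨⟨y, 1, ?_⟩⟩
    rintro rfl
    simp at hy
  by_cases hc3 : pCore 3 G = ⊥
  · have hc2 : pCore 2 G ≠ ⊥ := by
      rcases H32OcCore.exists_core hO with h2 | h3'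
      · exact h2
      · exact absurd hc3 h3'
    haveI : (pCore 2 G).Normal := pCore_normal 2
    refine ⟨pCore 2 G, inferInstance, ?_⟩
    rcases caseB hO h3 h4 (pCore 2 G) rfl hc2 with h1 | h1
    · exact Or.inl h1
    · exact Or.inr (Or.inl h1)
  · haveI : (pCore 3 G).Normal := pCore_normal 3
    refine ⟨pCore 3 G, inferInstance, Or.inr (Or.inr ?_)⟩
    exact caseA hO h4 (pCore 3 G) (pCore_isPGroup 3) hc3 (fun M hM hM3 => le_pCore hM hM3)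

end Cfsg.Agent.Lib.H32OcMain
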