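import Mathlib
import Cfsg.Agent.Lib.H32OcDefs

set_option autoImplicit false

namespace Cfsg.Agent.Lib.H32OcS1a

open Cfsg Cfsg.Agent.Lib.H32OcDefs
open scoped commutatorElement

variable {G : Type*} [Group G]

/-! **S1a** (PURE MATHLIB, 25m). -/

/-- `f : N → N`, `n ↦ n * (y n⁻¹ y⁻¹)` is injective by `fix`, hence surjective; `m = n y n⁻¹ y⁻¹`. -/
theorem coset_conj (N : Subgroup G) [hNn : N.Normal] [Finite N] {y : G}
    (fix : ∀ n ∈ N, y * n = n * y → n = 1) : ∀ m ∈ N, ∃ n ∈ N, m * y = n * y * n⁻¹ := by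
  let f : N → N := fun n => ⟨(n : G) * (y * (n : G)⁻¹ * y⁻¹), N.mul_mem n.2 (hNn.conj_mem _ (N.inv_mem n.2) y)⟩
  have hinj : Function.Injective f := by
    intro n m hnm
    have h1 : (n : G) * (y * (n : G)⁻¹ * y⁻¹) = (m : G) * (y * (m : G)⁻¹ * y⁻¹) := congrArg Subtype.val hnm
    have h2 : (m : G)⁻¹ * (n : G) = 1 := by
      apply fix _ (N.mul_mem (N.inv_mem m.2) n.2)
      -- m⁻¹ n = y m⁻¹ n y⁻¹
      have h3 : (m : G)⁻¹ * (n : G) * (y * (n : G)⁻¹ * y⁻¹) = y * (m : G)⁻¹ * y⁻¹ := by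
        rw [mul_assoc, h1]; group
      have h4 : y * (n : G)⁻¹ * y⁻¹ * (y * (n : G) * y⁻¹) = 1 := by group
      have h5 : (m : G)⁻¹ * (n : G) = y * (m : G)⁻¹ * y⁻¹ * (y * (n : G) * y⁻¹) := by
        rw [← h3, mul_assoc _ (y * (n : G)⁻¹ * y⁻¹), h4, mul_one]
      have h6 : y * (m : G)⁻¹ * y⁻¹ * (y * (n : G) * y⁻¹) = y * ((m : G)⁻¹ * n) * y⁻¹ := by group
      rw [h6] at h5
      calc y * ((m : G)⁻¹ * (n : G)) = y * ((m : G)⁻¹ * (n : G)) * y⁻¹ * y := by group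
        _ = (m : G)⁻¹ * (n : G) * y := by rw [← h5]
    apply Subtype.ext
    exact (inv_mul_eq_one.1 h2).symm
  have hsurj : Function.Surjective f := Finite.injective_iff_surjective.1 hinj
  intro x hx
  obtain ⟨n, hn⟩ := hsurj ⟨x, hx⟩
  have h1 : (n : G) * (y * (n : G)⁻¹ * y⁻¹) = x := congrArg Subtype.val hn
  refine ⟨n, n.2, ?_⟩
  rw [← h1]
  group

end Cfsg.Agent.Lib.H32OcS1a
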