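import Mathlib
import Cfsg.Agent.Lib.H32OcDefs
import Cfsg.Agent.Lib.H32OcBasic
import Cfsg.Agent.Lib.H32OcS1a

set_option autoImplicit false

namespace Cfsg.Agent.Lib.H32OcS1c

open Cfsg Cfsg.Agent.Lib.H32OcDefs
open scoped commutatorElement

variable {G : Type*} [Group G]

/-! **S1c** (75m, START FIRST). -/

/-- `fix` for `y` and for `y⁻¹` by `H32OcBasic.fix_of_nc`.  `g y g⁻¹ = m y⁻¹` with `m ∈ N` (`h1`); `H32OcS1a.coset_conj` for `y⁻¹`: `m y⁻¹ = n y⁻¹ n⁻¹`.
`t := n⁻¹ * g`: `t y t⁻¹ = y⁻¹`.  `t * t ∈ N` (`h2`, normality) and commutes with `y`, so `t * t = 1`.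
`four`: let `s ∈ {t, t y, t y y}`: `s * s = 1` (from `t y t⁻¹ = y⁻¹`, `t⁻¹ = t`) and `s ∉ N` (`h3`, as `s = n⁻¹ (g y^i)`).  Let `w = s * n'`.  `w * w = (s n' s⁻¹) n' ∈ N`.
By `H32OcBasic.cases`, `w ^ 4 = 1` or `w ^ 3 = 1`; in the second case `w = (w * w)⁻¹ ∈ N`, so `s ∈ N`: contradiction.
`n4`: `H32OcBasic.pow_four`; `cop`: `Nat.card N = 2 ^ k` (`IsPGroup.iff_card`). -/
theorem cfg_of_elts [Finite G] (h : O4 G) (N : Subgroup G) [N.Normal] (hN : IsPGroup 2 N) {y g : G}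
    (hy : orderOf y = 3) (h1 : g * y * g⁻¹ * y ∈ N) (h2 : g * g ∈ N)
    (h3 : g ∉ N ∧ g * y ∉ N ∧ g * y * y ∉ N) : ∃ t : G, Cfg N y t := by
  have nN : N.Normal := inferInstance
  have fixy := H32OcBasic.fix_of_nc h hN hy
  have hy' : orderOf y⁻¹ = 3 := by rw [orderOf_inv]; exact hy
  have fixyi := H32OcBasic.fix_of_nc h hN hy'
  obtain ⟨n, hn, hnm⟩ := H32OcS1a.coset_conj N fixyi _ h1
  have y3 : y * y * y = 1 := by
    have := pow_orderOf_eq_one y
    rw [hy] at this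
    rw [← this, pow_succ, pow_two]
  have hgy : g * y * g⁻¹ = n * y⁻¹ * n⁻¹ := by
    rw [← hnm]; group
  have hty : n⁻¹ * g * y * (n⁻¹ * g)⁻¹ = y⁻¹ := by
    have e : n⁻¹ * g * y * (n⁻¹ * g)⁻¹ = n⁻¹ * (g * y * g⁻¹) * n := by group
    rw [e, hgy]; group
  have httN : n⁻¹ * g * (n⁻¹ * g) ∈ N := by
    have e : n⁻¹ * g * (n⁻¹ * g) = n⁻¹ * (g * n⁻¹ * g⁻¹) * (g * g) := by group
    rw [e]
    exact N.mul_mem (N.mul_mem (N.inv_mem hn) (nN.conj_mem _ (N.inv_mem hn) g)) h2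
  have hs0 : n⁻¹ * g ∉ N := fun hh => h3.1 (by
    have := N.mul_mem hn hh
    simpa using this)
  have hs1 : n⁻¹ * g * y ∉ N := fun hh => h3.2.1 (by
    have := N.mul_mem hn hh
    simpa [mul_assoc] using this)
  have hs2 : n⁻¹ * g * y * y ∉ N := fun hh => h3.2.2 (by
    have := N.mul_mem hn hh
    simpa [mul_assoc] using this)
  generalize n⁻¹ * g = t at *
  have hty1 : t * y = y⁻¹ * t := by
    rw [← hty]; group
  have hty2 : t * y⁻¹ = y * t := by
    have e : t * y⁻¹ * t⁻¹ = y := by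
      have : t * y⁻¹ * t⁻¹ = (t * y * t⁻¹)⁻¹ := by group
      rw [this, hty, inv_inv]
    calc t * y⁻¹ = (t * y⁻¹ * t⁻¹) * t := by group
      _ = y * t := by rw [e]
  have htt : t * t = 1 := by
    apply fixy _ httN
    calc y * (t * t) = (y * t) * t := by group
      _ = t * y⁻¹ * t := by rw [hty2]
      _ = t * (y⁻¹ * t) := by group
      _ = t * (t * y) := by rw [hty1]
      _ = t * t * y := by group
  have hss : ∀ s : G, (s = t ∨ s = t * y ∨ s = t * y * y) → s * s = 1 ∧ s ∉ N := by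
    rintro s (rfl | rfl | rfl)
    · exact ⟨htt, hs0⟩
    · refine ⟨?_, hs1⟩
      calc t * y * (t * y) = t * y * t * y := by group
        _ = y⁻¹ * t * t * y := by rw [hty1]
        _ = y⁻¹ * (t * t) * y := by group
        _ = 1 := by rw [htt]; group
    · refine ⟨?_, hs2⟩
      calc t * y * y * (t * y * y) = t * y * y * t * y * y := by group
        _ = y⁻¹ * t * y * t * y * y := by rw [hty1]
        _ = y⁻¹ * (t * y) * t * y * y := by group
        _ = y⁻¹ * (y⁻¹ * t) * t * y * y := by rw [hty1]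
        _ = y⁻¹ * y⁻¹ * (t * t) * y * y := by group
        _ = 1 := by rw [htt]; group
  refine ⟨t, nN, y3, htt, hty, fixy, H32OcBasic.pow_four h hN, ?_, ?_⟩
  · obtain ⟨k, hk⟩ := (IsPGroup.iff_card (p := 2) (G := N)).1 hN
    rw [hk]
    exact Nat.Coprime.pow_left _ (by norm_num)
  · intro s hs n' hn'
    obtain ⟨hs2', hsN⟩ := hss s hs
    have hsinv : s⁻¹ = s := inv_eq_of_mul_eq_one_left hs2'
    have hww : s * n' * (s * n') ∈ N := by
      have e : s * n' * (s * n') = s * n' * s⁻¹ * n' := by rw [hsinv]; group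
      rw [e]
      exact N.mul_mem (nN.conj_mem _ hn' s) hn'
    rcases H32OcBasic.cases h (s * n') with h4 | h3'
    · exact h4
    · exfalso
      apply hsN
      have e : s * n' = (s * n' * (s * n'))⁻¹ := by
        apply eq_inv_of_mul_eq_one_left
        rw [← h3', pow_succ, pow_two]; simp only [mul_assoc]
      have hw : s * n' ∈ N := by rw [e]; exact N.inv_mem hww
      have := N.mul_mem hw (N.inv_mem hn')
      simpa using this

end Cfsg.Agent.Lib.H32OcS1c
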