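import Cfsg.Agent.Lib.H33I2Defs
import Cfsg.Agent.Lib.Helper51PCore
import Cfsg.Agent.S0270
import Cfsg.Agent.S0246
import Cfsg.Agent.S0245

set_option autoImplicit false

namespace Cfsg.Agent.Lib.H33I2CoreSp

open Cfsg Cfsg.Agent.Lib.H33I2Defs

theorem pCore_sp : Cfsg.pCore 2 Sp6 = ⊥ := by
  have hsimple : IsSimpleGroup (Cfsg.PSp 3 (ZMod 2)) :=
    Cfsg.Agent.S0270.result (F := ZMod 2) 3 (by norm_num) (by norm_num)
  have hcen : Nat.card (Subgroup.center Sp6) = 1 := by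
    have h := Cfsg.Agent.S0246.result (F := ZMod 2) (q := 2) (ZMod.card 2) 3 (by norm_num)
    simpa using h
  have hcard : Nat.card Sp6 = 2 ^ 9 * (3 * 15 * 63) := by
    have h := Cfsg.Agent.S0245.result (F := ZMod 2) (q := 2) (ZMod.card 2) 3
    rw [h]
    simp [Finset.prod_range_succ]
  have hcb : Subgroup.center Sp6 = ⊥ := Subgroup.card_eq_one.1 hcen
  have hn : (Cfsg.pCore 2 Sp6).Normal := inferInstance
  have hp : IsPGroup 2 (Cfsg.pCore 2 Sp6) := Cfsg.Agent.Lib.Helper51PCore.pCore_isPGroup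
  have hn2 : ((Cfsg.pCore 2 Sp6).map (QuotientGroup.mk' (Subgroup.center Sp6))).Normal :=
    hn.map _ (QuotientGroup.mk'_surjective _)
  rcases hn2.eq_bot_or_eq_top with h | h
  · rw [Subgroup.map_eq_bot_iff, QuotientGroup.ker_mk', hcb] at h
    exact le_bot_iff.1 h
  · exfalso
    have hp2 : IsPGroup 2 ((Cfsg.pCore 2 Sp6).map (QuotientGroup.mk' (Subgroup.center Sp6))) :=
      hp.map _
    rw [h] at hp2
    have hp3 : IsPGroup 2 (Cfsg.PSp 3 (ZMod 2)) := hp2.of_equiv Subgroup.topEquiv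
    obtain ⟨k, hk⟩ := IsPGroup.iff_card.1 hp3
    have h4 := Subgroup.card_eq_card_quotient_mul_card_subgroup (Subgroup.center Sp6)
    rw [hcen, mul_one, hcard] at h4
    have h5 : 3 ∣ 2 ^ k := by
      rw [← hk, ← h4]
      exact ⟨2 ^ 9 * (15 * 63), by norm_num⟩
    have h6 := Nat.Prime.dvd_of_dvd_pow Nat.prime_three h5
    omega

end Cfsg.Agent.Lib.H33I2CoreSp
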