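import Cfsg.Agent.Lib.H33I2Defs

set_option autoImplicit false

namespace Cfsg.Agent.Lib.H33I2Form

open Cfsg Cfsg.Agent.Lib.H33I2Defs

/-- the standard symplectic form in characteristic 2, written out -/
theorem sympForm_eq (u v : V6) :
    Cfsg.sympForm 3 (ZMod 2) u v = ∑ k : I6, u k * v k.swap := by
  unfold Cfsg.sympForm
  simp only [dotProduct, Matrix.mulVec, Matrix.J, Fintype.sum_sum_type, Matrix.fromBlocks_apply₁₁,
    Matrix.fromBlocks_apply₁₂, Matrix.fromBlocks_apply₂₁, Matrix.fromBlocks_apply₂₂,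
    Matrix.zero_apply, Matrix.neg_apply, Matrix.one_apply, Sum.swap_inl, Sum.swap_inr]
  simp [CharTwo.neg_eq]

end Cfsg.Agent.Lib.H33I2Form
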