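import Cfsg.Agent.Lib.H33I2Defs

set_option autoImplicit false

namespace Cfsg.Agent.Lib.H33I2Ker

open Cfsg Cfsg.Agent.Lib.H33I2Defs Matrix

/-- Sketch: `f g = 1` iff `(f g) *ᵥ e_j = e_j` for all `j` (columns), and
`(f g) *ᵥ e_j = (f g) *ᵥ κ (b j) = κ (g • b j)`, `e_j = κ (b j)`. -/
theorem eq_one_iff {C X : Type*} [Group C] [MulAction C X] (R : Set X) (κ : X → V6)
    (b : I6 → X) (hb : ∀ j, b j ∈ R) (hbκ : ∀ j, κ (b j) = Pi.single j 1) (f : C →* Sp6)
    (hf : ∀ g : C, ∀ r ∈ R, (f g : Matrix I6 I6 (ZMod 2)) *ᵥ κ r = κ (g • r)) (g : C) :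
    f g = 1 ↔ ∀ j, κ (g • b j) = κ (b j) := by
  constructor
  · intro h j
    rw [← hf g (b j) (hb j), h]
    simp
  · intro h
    apply Subtype.ext
    ext i j
    have h1 := hf g (b j) (hb j)
    rw [h j, hbκ j, mulVec_single_one] at h1
    have h2 := congrFun h1 i
    simp only [Matrix.col_apply] at h2
    rw [h2]
    simp [Matrix.one_apply, Pi.single_apply, eq_comm]

end Cfsg.Agent.Lib.H33I2Ker
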