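import Cfsg.Agent.Lib.H33I2Defs

set_option autoImplicit false

namespace Cfsg.Agent.Lib.H33I2Lin

open Cfsg Cfsg.Agent.Lib.H33I2Defs Matrix

theorem form_mulVec_left (M : Matrix I6 I6 (ZMod 2)) (x c : V6) :
    (M *ᵥ x) ⬝ᵥ c = x ⬝ᵥ (Mᵀ *ᵥ c) := by
  rw [dotProduct_mulVec, vecMul_transpose]

theorem nondeg (x y : V6)
    (h : ∀ i, Cfsg.sympForm 3 (ZMod 2) x (Pi.single i 1) = Cfsg.sympForm 3 (ZMod 2) y (Pi.single i 1)) :
    x = y := by
  have h1 : x ᵥ* Matrix.J (Fin 3) (ZMod 2) = y ᵥ* Matrix.J (Fin 3) (ZMod 2) := by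
    funext i
    have := h i
    simp only [Cfsg.sympForm, dotProduct_mulVec, dotProduct_single_one] at this
    exact this
  have h2 := congrArg (fun v => v ᵥ* Matrix.J (Fin 3) (ZMod 2)) h1
  simp only [vecMul_vecMul, Matrix.J_squared, vecMul_neg, vecMul_one] at h2
  exact neg_injective h2

theorem entry (A : Matrix I6 I6 (ZMod 2)) (i j : I6) :
    A i j = Pi.single i 1 ⬝ᵥ (A *ᵥ Pi.single j 1) := by
  rw [single_one_dotProduct, mulVec_single_one]
  rfl

/-- Linearisation.  A group `C` permutes a set `R`, preserving a function `β` which is the pull back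
of the standard symplectic form under `κ : R → F_2^6`, and `κ (R)` contains the standard basis.
Then `C` acts on `F_2^6` by symplectic matrices, compatibly with `κ`.
Sketch: put `M g := Matrix.of fun i j => κ (g • b j) i`.  For `r ∈ R` and every `i`, with
`B = sympForm`: `B (κ (g • r)) (κ (b i)) = β (g • r) (b i) = β r (g⁻¹ • b i) = B (κ r) (κ (g⁻¹ • b i))`
is additive in `κ r = ∑ j, κ r j • e_j`, `= ∑ j, κ r j * B (κ (b j)) (κ (g⁻¹ • b i))
= ∑ j, κ r j * β (g • b j) (b i) = B (M g *ᵥ κ r) (e_i)`; `B` is non-degenerate, so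
`κ (g • r) = M g *ᵥ κ r`.  Multiplicativity: columns of `M (g h)` are `κ (g • (h • b j)) =
M g *ᵥ κ (h • b j)`.  Symplectic: `B (M g e_i) (M g e_j) = β (g • b i) (g • b j) = β (b i) (b j) =
B e_i e_j`, i.e. `(M g)ᵀ * J * M g = J` (`SymplecticGroup.mem_iff'` or transpose_mem). -/
theorem linearise {C X : Type*} [Group C] [MulAction C X] (R : Set X)
    (hR : ∀ g : C, ∀ r ∈ R, g • r ∈ R)
    (β : X → X → ZMod 2) (hβ : ∀ g : C, ∀ r ∈ R, ∀ s ∈ R, β (g • r) (g • s) = β r s)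
    (κ : X → V6) (hκ : ∀ r ∈ R, ∀ s ∈ R, β r s = Cfsg.sympForm 3 (ZMod 2) (κ r) (κ s))
    (b : I6 → X) (hb : ∀ j, b j ∈ R) (hbκ : ∀ j, κ (b j) = Pi.single j 1) :
    ∃ f : C →* Sp6, ∀ g : C, ∀ r ∈ R, (f g : Matrix I6 I6 (ZMod 2)) *ᵥ κ r = κ (g • r) := by
  set M : C → Matrix I6 I6 (ZMod 2) := fun g => Matrix.of fun i j => κ (g • b j) i with hM
  have hcol : ∀ g j, M g *ᵥ Pi.single j 1 = κ (g • b j) := by
    intro g j
    rw [mulVec_single_one]
    rfl
  -- (c)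
  have hc : ∀ g : C, ∀ r ∈ R, ∀ i, Cfsg.sympForm 3 (ZMod 2) (κ (g • r)) (Pi.single i 1) =
      Cfsg.sympForm 3 (ZMod 2) (κ r) (κ (g⁻¹ • b i)) := by
    intro g r hr i
    rw [← hbκ i, ← hκ _ (hR g r hr) _ (hb i), ← hκ _ hr _ (hR g⁻¹ _ (hb i)),
      ← hβ g r hr _ (hR g⁻¹ _ (hb i)), smul_inv_smul]
  -- (b)
  have hbb : ∀ (g : C) (x : V6) (i : I6),
      Cfsg.sympForm 3 (ZMod 2) (M g *ᵥ x) (Pi.single i 1) =
      Cfsg.sympForm 3 (ZMod 2) x (κ (g⁻¹ • b i)) := by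
    intro g x i
    have hv : (M g)ᵀ *ᵥ (Matrix.J (Fin 3) (ZMod 2) *ᵥ Pi.single i 1) =
        Matrix.J (Fin 3) (ZMod 2) *ᵥ κ (g⁻¹ • b i) := by
      funext j
      rw [← single_one_dotProduct j ((M g)ᵀ *ᵥ _),
        ← single_one_dotProduct j (Matrix.J (Fin 3) (ZMod 2) *ᵥ κ (g⁻¹ • b i)),
        ← form_mulVec_left, hcol]
      have := hc g (b j) (hb j) i
      rw [hbκ j] at this
      exact this
    show (M g *ᵥ x) ⬝ᵥ _ = x ⬝ᵥ _
    rw [form_mulVec_left, hv]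
  have hmain : ∀ g : C, ∀ r ∈ R, M g *ᵥ κ r = κ (g • r) := by
    intro g r hr
    apply nondeg
    intro i
    rw [hbb, hc g r hr]
  have hmul : ∀ g h : C, M (g * h) = M g * M h := by
    intro g h
    ext i j
    have h1 : M (g * h) i j = κ (g • (h • b j)) i := by
      show κ ((g * h) • b j) i = _
      rw [mul_smul]
    rw [h1, ← hmain g _ (hR h _ (hb j)), ← hcol h j, mulVec_mulVec, mulVec_single_one]
    rfl
  have hone : M 1 = 1 := by
    ext i j
    show κ ((1 : C) • b j) i = _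
    rw [one_smul, hbκ, Matrix.one_apply, Pi.single_apply]
  have hmem : ∀ g : C, M g ∈ Matrix.symplecticGroup (Fin 3) (ZMod 2) := by
    intro g
    rw [SymplecticGroup.mem_iff']
    ext i j
    rw [entry ((M g)ᵀ * Matrix.J (Fin 3) (ZMod 2) * M g) i j,
      entry (Matrix.J (Fin 3) (ZMod 2)) i j, ← mulVec_mulVec, ← mulVec_mulVec,
      ← form_mulVec_left, hcol, hcol]
    have h1 := hκ _ (hR g _ (hb i)) _ (hR g _ (hb j))
    have h2 := hκ _ (hb i) _ (hb j)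
    rw [hβ g _ (hb i) _ (hb j), h2, hbκ, hbκ] at h1
    exact h1.symm
  refine ⟨{ toFun := fun g => ⟨M g, hmem g⟩
            map_one' := Subtype.ext hone
            map_mul' := fun g h => Subtype.ext (hmul g h) }, ?_⟩
  intro g r hr
  exact hmain g r hr

end Cfsg.Agent.Lib.H33I2Lin
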