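import Cfsg.Agent.Lib.H33I2Defs
import Cfsg.Agent.Lib.Helper51PCore

set_option autoImplicit false

namespace Cfsg.Agent.Lib.H33I2OfHom

open Cfsg Cfsg.Agent.Lib.H33I2Defs

theorem pCore_eq_ker {C : Type*} [Group C] {S : Type*} [Group S] (f : C →* S)
    (hf : Function.Surjective f) (hS : Cfsg.pCore 2 S = ⊥) (hK : IsPGroup 2 ↥f.ker) :
    Cfsg.pCore 2 C = f.ker := by
  apply le_antisymm
  · rw [← Subgroup.map_eq_bot_iff, eq_bot_iff, ← hS]
    have hn : (Cfsg.pCore 2 C).Normal := inferInstance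
    exact Cfsg.Agent.Lib.Helper51PCore.le_pCore (hn.map f hf)
      ((Cfsg.Agent.Lib.Helper51PCore.pCore_isPGroup).map f)
  · exact Cfsg.Agent.Lib.Helper51PCore.le_pCore inferInstance hK

theorem of_hom {C : Type*} [Group C] [Finite C] {S : Type*} [Group S] (f : C →* S)
    (hf : Function.Surjective f) (hS : Cfsg.pCore 2 S = ⊥)
    (hK : Cfsg.IsExtraspecial 2 ↥f.ker) (hcard : Nat.card ↥f.ker = 2 ^ 9) :
    Cfsg.IsExtraspecial 2 ↥(Cfsg.pCore 2 C) ∧ Nat.card ↥(Cfsg.pCore 2 C) = 2 ^ 9 ∧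
      Nonempty (C ⧸ Cfsg.pCore 2 C ≃* S) := by
  have key : ∀ (N : Subgroup C) [N.Normal], N = f.ker →
      (Cfsg.IsExtraspecial 2 ↥N ∧ Nat.card ↥N = 2 ^ 9 ∧ Nonempty (C ⧸ N ≃* S)) := by
    rintro N _ rfl
    exact ⟨hK, hcard, ⟨QuotientGroup.quotientKerEquivOfSurjective f hf⟩⟩
  exact key _ (pCore_eq_ker f hf hS hK.1.1)

end Cfsg.Agent.Lib.H33I2OfHom
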