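import Cfsg.Agent.Lib.H33I2Defs
import Cfsg.Agent.Lib.Helper7Sp
import Cfsg.Agent.S0765

set_option autoImplicit false

namespace Cfsg.Agent.Lib.H33I2Surj

open Cfsg Cfsg.Agent.Lib.H33I2Defs Matrix

open Cfsg.Agent.Lib.Helper17Symp2 Cfsg.Agent.Lib.Helper7Sp in
theorem surj {C X : Type*} [Group C] [MulAction C X] (R : Set X) (κ : X → V6)
    (b : I6 → X) (hb : ∀ j, b j ∈ R) (hbκ : ∀ j, κ (b j) = Pi.single j 1) (f : C →* Sp6)
    (hf : ∀ g : C, ∀ r ∈ R, (f g : Matrix I6 I6 (ZMod 2)) *ᵥ κ r = κ (g • r))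
    (g0 : C) (r0 : X) (hr0 : r0 ∈ R)
    (h0 : ∀ j, κ (g0 • b j) =
      Pi.single j 1 + Cfsg.sympForm 3 (ZMod 2) (Pi.single j 1) (κ r0) • κ r0)
    (htr : ∀ w : V6, w ≠ 0 → ∃ g : C, κ (g • r0) = w) : Function.Surjective f := by
  have h1 : f g0 = tv 3 (κ r0) 1 := by
    apply Subtype.ext
    apply Matrix.ext_of_mulVec_single
    intro j
    have h2 := hf g0 (b j) (hb j)
    rw [hbκ j, h0 j] at h2
    rw [h2]
    have h3 := tv_mulVec (m := 3) (κ r0) (1 : ZMod 2) (Pi.single j 1)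
    rw [one_mul] at h3
    exact h3.symm
  have h2 : ∀ w : V6, ∀ c : ZMod 2, tv 3 w c ∈ f.range := by
    intro w c
    by_cases hw : w = 0
    · rw [hw, tv_zero_left]; exact one_mem _
    have hc : c = 0 ∨ c = 1 := by
      revert c; decide
    rcases hc with rfl | rfl
    · rw [tv_zero_right]; exact one_mem _
    obtain ⟨g, hg⟩ := htr w hw
    refine ⟨g * g0 * g⁻¹, ?_⟩
    rw [map_mul, map_mul, map_inv, h1, conj_tv, hf g r0 hr0, hg]
  rw [← MonoidHom.range_eq_top, eq_top_iff, ← Cfsg.Agent.S0765.result (F := ZMod 2) 3,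
    Subgroup.closure_le]
  rintro A ⟨w, c, hA⟩
  have : A = tv 3 w c := Subtype.ext hA
  rw [this]
  exact h2 w c

end Cfsg.Agent.Lib.H33I2Surj
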