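import Cfsg.Agent.Lib.Helper34CovP

set_option autoImplicit false

/-! PROJECT 34, wave M, piece `MChain`: lower bound for the order of a permutation group by a stabiliser chain. -/

namespace Cfsg.Agent.Lib.H34MChain

open Cfsg.Agent.Lib.Helper34CovA Cfsg.Agent.Lib.Helper34CovC Cfsg.Agent.Lib.Helper34CovP

/-- `levels` = list of `(b, ws)`: base point `b` and words `ws`; every word of a level fixes the base points of the previous levels
(`fixed`), and the words of a level map `b` to pairwise distinct points. -/
def chainOK (d : ℕ) (fx fy : ℕ → ℕ) : List (ℕ × List (List ℕ)) → List ℕ → Bool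
  | [], _ => true
  | (b, ws) :: rest, fixed => decide (b < d) &&
      (ws.all (fun w => fixed.all (fun p => wact fx fy w p == p)) &&
      (decide ((ws.map (fun w => wact fx fy w b)).Nodup) && chainOK d fx fy rest (b :: fixed)))

/-- the elements of `closure {px, py}` fixing all the points of `fixed` -/
def KF {d : ℕ} (px py : Equiv.Perm (Fin d)) (fixed : List ℕ) : Subgroup (Equiv.Perm (Fin d)) where
  carrier := {g | g ∈ Subgroup.closure ({px, py} : Set (Equiv.Perm (Fin d))) ∧
    ∀ p : Fin d, p.val ∈ fixed → g p = p}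
  mul_mem' := by
    rintro a b ⟨ha, ha'⟩ ⟨hb, hb'⟩
    exact ⟨Subgroup.mul_mem _ ha hb, fun p hp => by rw [Equiv.Perm.mul_apply, hb' p hp, ha' p hp]⟩
  one_mem' := ⟨Subgroup.one_mem _, fun _ _ => rfl⟩
  inv_mem' := by
    rintro a ⟨ha, ha'⟩
    exact ⟨Subgroup.inv_mem _ ha, fun p hp => by rw [Equiv.Perm.inv_eq_iff_eq, ha' p hp]⟩

theorem le_card_KF {d : ℕ} (px py : Equiv.Perm (Fin d)) (fx fy : ℕ → ℕ)
    (hx : ∀ p : Fin d, ((px p : Fin d) : ℕ) = fx p) (hy : ∀ p : Fin d, ((py p : Fin d) : ℕ) = fy p)
    (levels : List (ℕ × List (List ℕ))) : ∀ fixed : List ℕ, chainOK d fx fy levels fixed = true →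
    (levels.map (fun l => l.2.length)).prod ≤ Nat.card (KF px py fixed) := by
  induction levels with
  | nil =>
    intro fixed _
    simp only [List.map_nil, List.prod_nil]
    exact Nat.card_pos
  | cons l rest ih =>
    obtain ⟨b, ws⟩ := l
    intro fixed h
    simp only [chainOK, Bool.and_eq_true, decide_eq_true_eq, List.all_eq_true, beq_iff_eq] at h
    obtain ⟨hb, hfix, hnd, hrest⟩ := h
    have h1 := ih (b :: fixed) hrest
    simp only [List.map_cons, List.prod_cons]
    have hmem : ∀ (j : Fin ws.length) (k : KF px py (b :: fixed)),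
        wev px py (ws[j]) * k.1 ∈ KF px py fixed := by
      intro j k
      refine ⟨Subgroup.mul_mem _ (wev_mem _ _ _) k.2.1, ?_⟩
      intro p hp
      rw [Equiv.Perm.mul_apply, k.2.2 p (List.mem_cons_of_mem _ hp)]
      apply Fin.ext
      rw [wev_apply px py fx fy hx hy]
      exact hfix _ (List.getElem_mem _) _ hp
    calc ws.length * (rest.map (fun l => l.2.length)).prod
        ≤ ws.length * Nat.card (KF px py (b :: fixed)) := Nat.mul_le_mul_left _ h1
      _ = Nat.card (Fin ws.length × KF px py (b :: fixed)) := by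
        rw [Nat.card_prod, Nat.card_fin]
      _ ≤ Nat.card (KF px py fixed) := by
        apply Nat.card_le_card_of_injective
          (fun jk : Fin ws.length × KF px py (b :: fixed) =>
            (⟨wev px py (ws[jk.1]) * jk.2.1, hmem jk.1 jk.2⟩ : KF px py fixed))
        rintro ⟨j, k⟩ ⟨j', k'⟩ e
        have e1 : wev px py (ws[j]) * k.1 = wev px py (ws[j']) * k'.1 := congrArg Subtype.val e
        have e2 := congrArg (fun g : Equiv.Perm (Fin d) => ((g ⟨b, hb⟩ : Fin d) : ℕ)) e1
        simp only [Equiv.Perm.mul_apply] at e2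
        rw [k.2.2 ⟨b, hb⟩ (List.mem_cons_self ..), k'.2.2 ⟨b, hb⟩ (List.mem_cons_self ..),
          wev_apply px py fx fy hx hy, wev_apply px py fx fy hx hy] at e2
        have hj : j = j' := by
          have h3 := (List.nodup_iff_injective_getElem.1 hnd)
          have h4 : (⟨j.1, by simp⟩ : Fin (ws.map (fun w => wact fx fy w b)).length)
              = ⟨j'.1, by simp⟩ := by
            apply h3
            simpa using e2
          exact Fin.ext (Fin.mk.inj_iff.1 h4)
        subst hj
        have hk : k.1 = k'.1 := mul_left_cancel e1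
        rw [Subtype.ext hk]

/-- PROOF.  Generalise: for every subgroup `K` of `Perm (Fin d)` and every list `fixed` (of numbers `< d`), put
`K_fixed := {g ∈ closure {px, py} | g fixes all points of fixed}` (e.g. `closure {px, py} ⊓ ⨅ p ∈ fixed, stabilizer ..`, or define it by a
`Subgroup` structure with carrier `{g | g ∈ closure ∧ ∀ p : Fin d, p.val ∈ fixed → g p = p}`); claim by induction on `levels`:
`chainOK d fx fy levels fixed = true → (levels.map (·.2.length)).prod ≤ Nat.card K_fixed`.
Step: `K' := K_(b :: fixed)` is the stabiliser of `b` in `K_fixed`; orbit-stabiliser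
(`MulAction.card_orbit_mul_card_stabilizer_eq_card_group`, or `Subgroup.card_mul_index` + an injection of the list into `K_fixed ⧸ K'`)
gives `Nat.card K_fixed = |orbit of b| * Nat.card K'`, and the orbit contains the `ws.length` distinct points `wev px py w b`
(`wev_apply px py fx fy hx hy w p : ((wev px py w) p).val = wact fx fy w p`, `Helper34CovC.wev_mem`). -/
theorem le_card_closure {d : ℕ} (px py : Equiv.Perm (Fin d)) (fx fy : ℕ → ℕ)
    (hx : ∀ p : Fin d, ((px p : Fin d) : ℕ) = fx p) (hy : ∀ p : Fin d, ((py p : Fin d) : ℕ) = fy p)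
    (levels : List (ℕ × List (List ℕ))) (h : chainOK d fx fy levels [] = true) :
    (levels.map (fun l => l.2.length)).prod ≤ Nat.card (Subgroup.closure ({px, py} : Set (Equiv.Perm (Fin d)))) := by
  refine (le_card_KF px py fx fy hx hy levels [] h).trans ?_
  apply Subgroup.card_le_of_le
  intro g hg
  exact hg.1

end Cfsg.Agent.Lib.H34MChain
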