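import Cfsg.Agent.Lib.Helper15L34Hom

set_option autoImplicit false

/-! PROJECT 34, wave M, piece `MHomCyc`. -/

namespace Cfsg.Agent.Lib.H34MHomCyc

open Cfsg

universe u

/-- PROOF.  As `Helper15L34Hom.hasMult` (`exists_zmodHom n b hb` gives `Multiplicative (ZMod n) →* σ.ker` hitting `b`; it is onto because `b₁ = 1`
(`pow_one`) and every `k` is `b₂ ^ j`; for the extension of `hex` compare cardinalities: `Nat.card (Multiplicative (ZMod n)) = n`). -/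
theorem hasMultCyc {G : Type u} [Group G] (n : ℕ) [NeZero n]
    (hb : ∀ (Γ : Type u) [Group Γ] [Finite Γ] (σ : Γ →* G), IsStemExtension σ →
      ∃ b₁ b₂ : Γ, b₁ ∈ σ.ker ∧ b₂ ∈ σ.ker ∧ b₁ ^ 1 = 1 ∧ b₂ ^ n = 1 ∧
        ∀ k ∈ σ.ker, ∃ i j : ℤ, k = b₁ ^ i * b₂ ^ j)
    (hex : ∃ (Γ : Type u) (_ : Group Γ) (_ : Finite Γ) (σ : Γ →* G),
      IsStemExtension σ ∧ Nat.card σ.ker = n) :
    HasCyclicSchurMultiplier G n := by
  have key : ∀ (Γ : Type u) [Group Γ] [Finite Γ] (σ : Γ →* G), IsStemExtension σ →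
      ∃ π : Multiplicative (ZMod n) →* σ.ker, Function.Surjective π := by
    intro Γ _ _ σ hσ
    obtain ⟨b₁, b₂, m₁, m₂, e₁, e₂, hg⟩ := hb Γ σ hσ
    letI : CommGroup σ.ker :=
      { (inferInstance : Group σ.ker) with
        mul_comm := fun a b => Subtype.ext
          ((Subgroup.mem_center_iff.mp (hσ.2.1 a.2) b.1).symm) }
    obtain ⟨f, hf⟩ := Cfsg.Agent.Lib.Helper15L34Hom.exists_zmodHom (K := σ.ker) n ⟨b₂, m₂⟩
      (Subtype.ext (by simpa using e₂))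
    refine ⟨f, fun k => ?_⟩
    obtain ⟨i, j, hk⟩ := hg k.1 k.2
    refine ⟨Multiplicative.ofAdd ((j : ℤ) : ZMod n), ?_⟩
    rw [hf]
    apply Subtype.ext
    rw [pow_one] at e₁
    rw [hk, e₁]
    simp
  refine ⟨?_, key⟩
  obtain ⟨Γ, iG, iF, σ, hσ, hc⟩ := hex
  refine ⟨Γ, iG, iF, σ, hσ, ?_⟩
  obtain ⟨π, hπ⟩ := key Γ σ hσ
  have hcard : Nat.card (Multiplicative (ZMod n)) = Nat.card σ.ker := by
    rw [hc]
    simp [Nat.card_eq_fintype_card]
  have hbij : Function.Bijective π :=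
    (Function.Surjective.bijective_of_nat_card_le hπ hcard.le)
  exact ⟨(MulEquiv.ofBijective π hbij).symm⟩

end Cfsg.Agent.Lib.H34MHomCyc
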