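import Mathlib

/-!
# A computable model of the field with eight elements (helper64)
-/

set_option autoImplicit false

namespace Cfsg.Agent.Helper64F8

/-- the field with eight elements `F_2[x]/(x^3 + x + 1)`. -/
structure F8 where
  a : ZMod 2
  b : ZMod 2
  c : ZMod 2
  deriving DecidableEq

def F8.equivProd : F8 ≃ ZMod 2 × ZMod 2 × ZMod 2 where
  toFun x := (x.a, x.b, x.c)
  invFun p := ⟨p.1, p.2.1, p.2.2⟩
  left_inv _ := rfl
  right_inv _ := rfl

instance instFintypeF8 : Fintype F8 := Fintype.ofEquiv _ F8.equivProd.symm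

instance instAddF8 : Add F8 := ⟨fun x y => ⟨x.a + y.a, x.b + y.b, x.c + y.c⟩⟩
instance instMulF8 : Mul F8 := ⟨fun x y =>
  ⟨x.a * y.a + (x.b * y.c + x.c * y.b),
   x.a * y.b + x.b * y.a + (x.b * y.c + x.c * y.b) + x.c * y.c,
   x.a * y.c + x.b * y.b + x.c * y.a + x.c * y.c⟩⟩
instance instNegF8 : Neg F8 := ⟨fun x => x⟩
instance instZeroF8 : Zero F8 := ⟨⟨0, 0, 0⟩⟩
instance instOneF8 : One F8 := ⟨⟨1, 0, 0⟩⟩
instance instInvF8 : Inv F8 := ⟨fun x => (x * x) * ((x * x) * (x * x))⟩

instance instFieldF8 : Field F8 :=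
  Field.ofMinimalAxioms F8 (by decide +kernel) (by decide +kernel) (by decide +kernel)
    (by decide +kernel) (by decide +kernel) (by decide +kernel) (by decide +kernel)
    (by decide +kernel) (by decide +kernel) ⟨0, 1, by decide⟩

theorem card_F8 : Fintype.card F8 = 8 := by decide +kernel

instance instCharPF8 : CharP F8 2 := by
  have : Fact (Nat.Prime 2) := ⟨by norm_num⟩
  exact charP_of_card_eq_prime_pow (p := 2) (f := 3) (by rw [card_F8]; norm_num)

end Cfsg.Agent.Helper64F8
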