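import Cfsg.Agent.Lib.Helper34Sz8Defs
import Cfsg.Agent.Lib.Helper47Idx2
import Cfsg.Agent.Lib.Helper64F8
import Cfsg.Agent.Lib.Helper7SpCenter
import Cfsg.Agent.Lib.Helper8SzIso
import Cfsg.Prelude.Def_Sz

set_option autoImplicit false
set_option maxRecDepth 100000
set_option linter.unusedSectionVars false
set_option linter.unusedVariables false

/-! PROJECT 34, wave S, piece `SzBridge`. -/

namespace Cfsg.Agent.Lib.H34SzBridge

open Cfsg.Agent.Lib.Helper34Sz8Defs Cfsg.Agent.Lib.Helper47Idx2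

abbrev K : Type := Cfsg.Agent.Helper64F8.F8

def k (n : ℕ) : K := ⟨((n % 2 : ℕ) : ZMod 2), ((n / 2 % 2 : ℕ) : ZMod 2), ((n / 4 % 2 : ℕ) : ZMod 2)⟩
def cd (x : K) : ℕ := x.a.val + 2 * x.b.val + 4 * x.c.val

abbrev V : Type := Fin 4 → K

def pt (j : Fin 585) : V :=
  if j.val = 0 then ![0, 0, 0, 1]
  else if j.val < 9 then ![0, 0, 1, k (j.val - 1)]
  else if j.val < 73 then ![0, 1, k ((j.val - 9) / 8), k ((j.val - 9) % 8)]
  else ![1, k ((j.val - 73) / 64), k ((j.val - 73) / 8 % 8), k ((j.val - 73) % 8)]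

def c3 (a b c : K) : Fin 585 := ⟨(73 + 64 * cd a + 8 * cd b + cd c) % 585, Nat.mod_lt _ (by norm_num)⟩
def c2 (a b : K) : Fin 585 := ⟨(9 + 8 * cd a + cd b) % 585, Nat.mod_lt _ (by norm_num)⟩
def c1 (a : K) : Fin 585 := ⟨(1 + cd a) % 585, Nat.mod_lt _ (by norm_num)⟩

def lab (v : V) : Fin 585 :=
  if v 0 ≠ 0 then c3 ((v 0)⁻¹ * v 1) ((v 0)⁻¹ * v 2) ((v 0)⁻¹ * v 3)
  else if v 1 ≠ 0 then c2 ((v 1)⁻¹ * v 2) ((v 1)⁻¹ * v 3)
  else if v 2 ≠ 0 then c1 ((v 2)⁻¹ * v 3)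
  else 0

theorem pt3 : ∀ a b c : K, pt (c3 a b c) = ![1, a, b, c] := by decide +kernel
theorem pt2 : ∀ a b : K, pt (c2 a b) = ![0, 1, a, b] := by decide +kernel
theorem pt1 : ∀ a : K, pt (c1 a) = ![0, 0, 1, a] := by decide +kernel
theorem pt0 : pt 0 = ![0, 0, 0, 1] := by decide +kernel
theorem lab_pt : ∀ j : Fin 585, lab (pt j) = j := by decide +kernel
theorem pt_ne : ∀ j : Fin 585, pt j ≠ 0 := by decide +kernel

def MxK : Matrix (Fin 4) (Fin 4) K :=
  !![k 6, k 3, k 1, k 6; k 2, k 6, k 4, k 1; k 6, k 2, k 6, k 3; k 5, k 6, k 2, k 6]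
def MyK : Matrix (Fin 4) (Fin 4) K :=
  !![k 2, k 5, k 1, k 2; k 5, k 5, k 3, k 0; k 3, k 6, k 0, k 0; k 5, k 0, k 0, k 0]

theorem actX : ∀ j : Fin 585, ((lab (MxK.mulVec (pt j)) : Fin 585) : ℕ) = fx j := by decide +kernel
theorem actY : ∀ j : Fin 585, ((lab (MyK.mulVec (pt j)) : Fin 585) : ℕ) = fy j := by decide +kernel


theorem inv_mul_cancel_scal (c x y : K) (hc : c ≠ 0) : (c * x)⁻¹ * (c * y) = x⁻¹ * y := by
  rw [mul_inv]
  calc c⁻¹ * x⁻¹ * (c * y) = (c⁻¹ * c) * (x⁻¹ * y) := by ring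
    _ = x⁻¹ * y := by rw [inv_mul_cancel₀ hc, one_mul]

theorem pt_lab (v : V) (hv : v ≠ 0) : ∃ c : K, c ≠ 0 ∧ pt (lab v) = c • v := by
  by_cases h0 : v 0 ≠ 0
  · refine ⟨(v 0)⁻¹, inv_ne_zero h0, ?_⟩
    rw [lab, if_pos h0, pt3]
    funext i
    fin_cases i
    · simp [inv_mul_cancel₀ h0]
    · simp
    · simp
    · simp
  push Not at h0
  by_cases h1 : v 1 ≠ 0
  · refine ⟨(v 1)⁻¹, inv_ne_zero h1, ?_⟩
    rw [lab, if_neg (not_not.mpr h0), if_pos h1, pt2]
    funext i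
    fin_cases i
    · simp [h0]
    · simp [inv_mul_cancel₀ h1]
    · simp
    · simp
  push Not at h1
  by_cases h2 : v 2 ≠ 0
  · refine ⟨(v 2)⁻¹, inv_ne_zero h2, ?_⟩
    rw [lab, if_neg (not_not.mpr h0), if_neg (not_not.mpr h1), if_pos h2, pt1]
    funext i
    fin_cases i
    · simp [h0]
    · simp [h1]
    · simp [inv_mul_cancel₀ h2]
    · simp
  push Not at h2
  have h3 : v 3 ≠ 0 := by
    intro h3
    apply hv
    funext i
    fin_cases i
    · exact h0
    · exact h1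
    · exact h2
    · exact h3
  refine ⟨(v 3)⁻¹, inv_ne_zero h3, ?_⟩
  rw [lab, if_neg (not_not.mpr h0), if_neg (not_not.mpr h1), if_neg (not_not.mpr h2), pt0]
  funext i
  fin_cases i
  · simp [h0]
  · simp [h1]
  · simp [h2]
  · simp [inv_mul_cancel₀ h3]

theorem lab_smul (v : V) (c : K) (hc : c ≠ 0) : lab (c • v) = lab v := by
  have hz : ∀ i, (c • v) i ≠ 0 ↔ v i ≠ 0 := by
    intro i
    rw [Pi.smul_apply, smul_eq_mul]
    exact ⟨fun h h' => h (by rw [h', mul_zero]), fun h => mul_ne_zero hc h⟩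
  unfold lab
  simp only [hz]
  simp only [Pi.smul_apply, smul_eq_mul, inv_mul_cancel_scal _ _ _ hc]

def PL : ProjLab K (Fin 4) 585 where
  pt := pt
  lab := lab
  lab_pt := lab_pt
  pt_ne := pt_ne
  pt_lab := pt_lab
  lab_smul := lab_smul

theorem spX : MxK.transpose * suzukiForm K * MxK = suzukiForm K := by decide +kernel
theorem spY : MyK.transpose * suzukiForm K * MyK = suzukiForm K := by decide +kernel
theorem stX : Cfsg.Lie.star4 MxK = MxK.map (fun x => x ^ 4) := by decide +kernel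
theorem stY : Cfsg.Lie.star4 MyK = MyK.map (fun x => x ^ 4) := by decide +kernel
theorem sq_one : ∀ r : K, r * r = 1 → r = 1 := by decide +kernel

section general

universe u

variable {F : Type u} [Field F] [Fintype F]

/-- entrywise transport to the model -/
def fm (e : F ≃+* K) : ↥(Cfsg.Lie.Sz F 4) →* Matrix (Fin 4) (Fin 4) K where
  toFun A := (A.1 : Matrix (Fin 4) (Fin 4) F).map e
  map_one' := by
    show (1 : Matrix (Fin 4) (Fin 4) F).map e = 1
    exact Matrix.map_one e (map_zero e) (map_one e)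
  map_mul' A B := by
    show ((A.1 : Matrix (Fin 4) (Fin 4) F) * (B.1 : Matrix (Fin 4) (Fin 4) F)).map e = _
    exact Matrix.map_mul

theorem Sz_le : Cfsg.Lie.Sz F 4 ≤ Cfsg.Lie.Sp4 F := by
  unfold Cfsg.Lie.Sz
  rw [Subgroup.closure_le]
  exact fun g hg => hg.1

theorem injective (e : F ≃+* K) : Function.Injective (PL.toPerm (fm e)) := by
  rw [injective_iff_map_eq_one]
  intro A h
  have h1 := PL.fix_of_toPerm_eq_one (fm e) A h
  have h2 : fm e A = Matrix.scalar (Fin 4) (fm e A 0 0) :=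
    Cfsg.Agent.Lib.Helper7SpCenter.eq_scalar_of_fix (fm e A) h1 0
  have h3 : (A.1 : Matrix (Fin 4) (Fin 4) F)
      = Matrix.scalar (Fin 4) ((A.1 : Matrix (Fin 4) (Fin 4) F) 0 0) := by
    ext i j
    have := congrFun (congrFun h2 i) j
    apply e.injective
    have e1 : fm e A i j = e ((A.1 : Matrix (Fin 4) (Fin 4) F) i j) := rfl
    have e2 : fm e A 0 0 = e ((A.1 : Matrix (Fin 4) (Fin 4) F) 0 0) := rfl
    rw [e1, e2] at this
    rw [this]
    simp [Matrix.scalar_apply, Matrix.diagonal_apply, apply_ite e]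
  obtain ⟨s, hs⟩ : ∃ s, s = (A.1 : Matrix (Fin 4) (Fin 4) F) 0 0 := ⟨_, rfl⟩
  rw [← hs] at h3
  have hsp := (Cfsg.Agent.Lib.Helper8SzIso.mem_Sp4_iff A.1).mp (Sz_le A.2)
  have h4 : s * s = 1 := by
    have := congrFun (congrFun hsp 0) 3
    rw [Cfsg.Agent.Lib.Helper8SzIso.form_entry, h3] at this
    simpa [Matrix.scalar_apply, Matrix.diagonal_apply, suzukiForm] using this
  have h5 : e s = 1 := sq_one (e s) (by rw [← map_mul, h4, map_one])
  have h6 : s = 1 := e.injective (by rw [h5, map_one])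
  apply Subtype.ext
  apply Units.ext
  rw [h3, h6]
  simp

theorem form_map (f : K →+* F) : (suzukiForm K).map f = suzukiForm F := by
  ext i j
  fin_cases i <;> fin_cases j <;> simp [suzukiForm]

theorem form_sq : suzukiForm F * suzukiForm F = 1 := by
  ext i j
  fin_cases i <;> fin_cases j <;> simp [suzukiForm, Matrix.mul_apply, Fin.sum_univ_four]

theorem exists_elt (e : F ≃+* K) (M : Matrix (Fin 4) (Fin 4) K)
    (h1 : M.transpose * suzukiForm K * M = suzukiForm K)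
    (h2 : Cfsg.Lie.star4 M = M.map (fun x => x ^ 4)) :
    ∃ u : ↥(Cfsg.Lie.Sz F 4), fm e u = M := by
  obtain ⟨f, hf⟩ : ∃ f : K →+* F, ∀ x, f x = e.symm x := ⟨(e.symm : K →+* F), fun _ => rfl⟩
  obtain ⟨M', hM'⟩ : ∃ M' : Matrix (Fin 4) (Fin 4) F, M' = M.map f := ⟨_, rfl⟩
  have g1 : M'.transpose * suzukiForm F * M' = suzukiForm F := by
    have := congrArg (fun X : Matrix (Fin 4) (Fin 4) K => X.map f) h1
    simp only [Matrix.map_mul, form_map] at this
    rw [hM']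
    exact this
  have g2 : (suzukiForm F * M'.transpose * suzukiForm F) * M' = 1 := by
    rw [mul_assoc, mul_assoc, ← mul_assoc M'.transpose, g1, form_sq]
  have g3 : M' * (suzukiForm F * M'.transpose * suzukiForm F) = 1 := mul_eq_one_comm.mp g2
  let U : GL (Fin 4) F := ⟨M', suzukiForm F * M'.transpose * suzukiForm F, g3, g2⟩
  have hU : (U : Matrix (Fin 4) (Fin 4) F) = M' := rfl
  have hsp : U ∈ Cfsg.Lie.Sp4 F := (Cfsg.Agent.Lib.Helper8SzIso.mem_Sp4_iff U).mpr (by rw [hU]; exact g1)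
  have hst : Cfsg.Lie.star4 (U : Matrix (Fin 4) (Fin 4) F)
      = (U : Matrix (Fin 4) (Fin 4) F).map (fun x => x ^ 4) := by
    rw [hU, hM']
    ext p r
    have := congrArg f (congrFun (congrFun h2 p) r)
    simp only [Cfsg.Lie.star4, Matrix.of_apply, Matrix.map_apply, map_sub, map_mul, map_pow] at this ⊢
    exact this
  refine ⟨⟨U, Subgroup.subset_closure ⟨hsp, hst⟩⟩, ?_⟩
  show M'.map e = M
  rw [hM']
  ext i j
  simp [hf]

end general

universe u

theorem bridge {F : Type u} [Field F] [Fintype F] (hF : Fintype.card F = 8) :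
    ∃ (ρ : ↥(Cfsg.Lie.Sz F 4) →* Equiv.Perm (Fin 585)) (ux uy : ↥(Cfsg.Lie.Sz F 4)),
      Function.Injective ρ ∧ (∀ p : Fin 585, ((ρ ux p : Fin 585) : ℕ) = fx p) ∧
        (∀ p : Fin 585, ((ρ uy p : Fin 585) : ℕ) = fy p) := by
  have e : F ≃+* K := FiniteField.ringEquivOfCardEq (hF.trans Cfsg.Agent.Helper64F8.card_F8.symm)
  obtain ⟨ux, hux⟩ := exists_elt e MxK spX stX
  obtain ⟨uy, huy⟩ := exists_elt e MyK spY stY
  refine ⟨PL.toPerm (fm e), ux, uy, injective e, fun p => ?_, fun p => ?_⟩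
  · rw [PL.toPerm_apply, hux]
    exact actX p
  · rw [PL.toPerm_apply, huy]
    exact actY p

end Cfsg.Agent.Lib.H34SzBridge
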