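import Cfsg.Agent.Lib.Helper8SzIso
import Cfsg.Agent.S0324

set_option autoImplicit false

/-! PROJECT 34, wave S, piece `SzCard`. -/

namespace Cfsg.Agent.Lib.H34SzCard

universe u

/-- PROOF.  `Helper8SzIso.szIso hF' (m := 1) le_rfl : Sz F 1 ≃* Lie.Sz F (2 ^ (1 + 1))` (`2 ^ (1 + 1) = 4` by `rfl`/`norm_num`),
`Nat.card_congr`, and `S0324.result` (order of `Sz F m`): `8 ^ 2 * (8 ^ 2 + 1) * (8 - 1) = 29120`. -/
theorem card_sz {F : Type u} [Field F] [Fintype F] (hF : Fintype.card F = 8) :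
    Nat.card ↥(Cfsg.Lie.Sz F 4) = 29120 := by
  have hF' : Fintype.card F = 2 ^ (2 * 1 + 1) := by rw [hF]; norm_num
  have e := Cfsg.Agent.Lib.Helper8SzIso.szIso hF' (m := 1) le_rfl
  have h1 := Nat.card_congr e.toEquiv
  have h2 := Cfsg.Agent.S0324.result (F := F) (m := 1) le_rfl hF'
  have h3 : (2 : ℕ) ^ (1 + 1) = 4 := by norm_num
  rw [h3] at h1
  rw [← h1, h2]
  norm_num

end Cfsg.Agent.Lib.H34SzCard
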