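import Cfsg.Agent.Lib.Helper34CovP

set_option autoImplicit false

/-! PROJECT 34, wave V, piece `Comm`. -/

namespace Cfsg.Agent.Lib.H34VComm

open Cfsg.Agent.Lib.Helper34CovA Cfsg.Agent.Lib.Helper34CovB Cfsg.Agent.Lib.Helper34CovC
  Cfsg.Agent.Lib.Helper34CovP

open scoped IsMulCommutative

universe v

theorem wev_comm {A : Type*} [CommGroup A] (X Y : A) (w : List ℕ) :
    wev X Y w = X ^ e0 w * Y ^ e1 w := by
  induction w with
  | nil => simp [wev, e0, e1]
  | cons l ls ih =>
    simp only [wev, ih, e0, e1, gen]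
    by_cases h : l = 0
    · simp only [h, if_true]
      rw [zpow_add, zpow_one, zero_add, mul_assoc]
    · simp only [h, if_false]
      rw [zero_add, zpow_add, zpow_one]
      exact mul_left_comm _ _ _

theorem al_mem_commutator {Γ : Type v} [Group Γ] (x y : Γ) (m : ℕ) (rel : ℕ → List ℕ)
    (a : ℕ → Subgroup.center Γ) (hrel : ∀ k < m, wev x y (rel k) = (a k : Γ)) (v : ℕ → ℤ)
    (h0 : dotr (fun k => v k * e0 (rel k)) m = 0) (h1 : dotr (fun k => v k * e1 (rel k)) m = 0) :
    (al a m v : Γ) ∈ commutator Γ := by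
  have key : ∀ m' ≤ m, (Abelianization.of (al a m' v : Γ) : Abelianization Γ) =
      Abelianization.of x ^ dotr (fun k => v k * e0 (rel k)) m' *
        Abelianization.of y ^ dotr (fun k => v k * e1 (rel k)) m' := by
    intro m'
    induction m' with
    | zero =>
      intro _
      simp [al, dotr]
    | succ m' ih =>
      intro hm
      have e : al a (m' + 1) v = al a m' v * a m' ^ v m' := by
        unfold al
        rw [Finset.prod_range_succ]
      rw [e, Subgroup.coe_mul, map_mul, ih (by omega), Subgroup.coe_zpow, map_zpow,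
        ← hrel m' (by omega), map_wev, wev_comm, mul_zpow, ← zpow_mul, ← zpow_mul]
      simp only [dotr]
      rw [zpow_add, zpow_add, mul_comm (e0 (rel m')), mul_comm (e1 (rel m'))]
      exact mul_mul_mul_comm _ _ _ _
  have h2 := key m le_rfl
  rw [h0, h1, zpow_zero, zpow_zero, one_mul] at h2
  rw [← Abelianization.ker_of, MonoidHom.mem_ker]
  exact h2

end Cfsg.Agent.Lib.H34VComm
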