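import Mathlib

set_option autoImplicit false

/-! PROJECT 34, wave V2, piece `Gen`. -/

namespace Cfsg.Agent.Lib.H34VGen

/-- `ZMod o1 × ZMod o2` is generated by `(1, 0)` and `(0, 1)`. -/
theorem closure_top (o1 o2 : ℕ) [NeZero o1] [NeZero o2] (S : Set (Multiplicative (ZMod o1 × ZMod o2)))
    (h1 : Multiplicative.ofAdd ((1, 0) : ZMod o1 × ZMod o2) ∈ S)
    (h2 : Multiplicative.ofAdd ((0, 1) : ZMod o1 × ZMod o2) ∈ S) :
    Subgroup.closure S = ⊤ := by
  rw [eq_top_iff]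
  intro z _
  have hz : z = Multiplicative.ofAdd ((1, 0) : ZMod o1 × ZMod o2) ^ (Multiplicative.toAdd z).1.val *
      Multiplicative.ofAdd ((0, 1) : ZMod o1 × ZMod o2) ^ (Multiplicative.toAdd z).2.val := by
    apply Multiplicative.toAdd.injective
    rw [toAdd_mul, toAdd_pow, toAdd_pow, toAdd_ofAdd, toAdd_ofAdd]
    ext <;> simp
  rw [hz]
  exact mul_mem (pow_mem (Subgroup.subset_closure h1) _) (pow_mem (Subgroup.subset_closure h2) _)

end Cfsg.Agent.Lib.H34VGen
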