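import Cfsg.Agent.Lib.Helper15L34Hom

set_option autoImplicit false

/-! PROJECT 34, wave V2, piece `Hom22`. -/

namespace Cfsg.Agent.Lib.H34VHom22

open Cfsg Cfsg.Agent.Lib.Helper15L34Hom

universe u

/-- a commutative group generated by two elements of order dividing `2` is an image of `2 × 2`. -/
theorem exists_surj22 {K : Type*} [CommGroup K] (b₁ b₂ : K) (h₁ : b₁ ^ 2 = 1) (h₂ : b₂ ^ 2 = 1)
    (hg : ∀ k : K, ∃ i j : ℤ, k = b₁ ^ i * b₂ ^ j) :
    ∃ π : Multiplicative (ZMod 2 × ZMod 2) →* K, Function.Surjective π := by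
  obtain ⟨f, hf⟩ := exists_zmodHom 2 b₁ h₁
  obtain ⟨g, hg'⟩ := exists_zmodHom 2 b₂ h₂
  let π : Multiplicative (ZMod 2 × ZMod 2) →* K :=
    { toFun := fun x => f (Multiplicative.ofAdd (Multiplicative.toAdd x).1) *
        g (Multiplicative.ofAdd (Multiplicative.toAdd x).2)
      map_one' := by
        simp
      map_mul' := by
        intro x y
        simp only [toAdd_mul, Prod.fst_add, Prod.snd_add, ofAdd_add, map_mul]
        generalize f (Multiplicative.ofAdd (Multiplicative.toAdd x).1) = a1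
        generalize f (Multiplicative.ofAdd (Multiplicative.toAdd y).1) = a2
        generalize g (Multiplicative.ofAdd (Multiplicative.toAdd x).2) = a3
        generalize g (Multiplicative.ofAdd (Multiplicative.toAdd y).2) = a4
        simp only [mul_assoc, mul_left_comm, mul_comm] }
  refine ⟨π, fun k => ?_⟩
  obtain ⟨i, j, rfl⟩ := hg k
  refine ⟨Multiplicative.ofAdd (((i : ℤ) : ZMod 2), ((j : ℤ) : ZMod 2)), ?_⟩
  change f (Multiplicative.ofAdd ((i : ℤ) : ZMod 2)) * g (Multiplicative.ofAdd ((j : ℤ) : ZMod 2)) = _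
  rw [hf, hg']

/-- piece `Hom22`. -/
theorem hasMult22 {G : Type u} [Group G]
    (hb : ∀ (Γ : Type u) [Group Γ] [Finite Γ] (σ : Γ →* G), IsStemExtension σ →
      ∃ b₁ b₂ : Γ, b₁ ∈ σ.ker ∧ b₂ ∈ σ.ker ∧ b₁ ^ 2 = 1 ∧ b₂ ^ 2 = 1 ∧
        ∀ k ∈ σ.ker, ∃ i j : ℤ, k = b₁ ^ i * b₂ ^ j)
    (hex : ∃ (Γ : Type u) (_ : Group Γ) (_ : Finite Γ) (σ : Γ →* G),
      IsStemExtension σ ∧ Nat.card σ.ker = 4) :
    HasSchurMultiplier G (Multiplicative (ZMod 2 × ZMod 2)) := by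
  have key : ∀ (Γ : Type u) [Group Γ] [Finite Γ] (σ : Γ →* G), IsStemExtension σ →
      ∃ π : Multiplicative (ZMod 2 × ZMod 2) →* σ.ker, Function.Surjective π := by
    intro Γ _ _ σ hσ
    obtain ⟨b₁, b₂, m₁, m₂, e₁, e₂, hg⟩ := hb Γ σ hσ
    letI : CommGroup σ.ker :=
      { (inferInstance : Group σ.ker) with
        mul_comm := fun a b => Subtype.ext
          ((Subgroup.mem_center_iff.mp (hσ.2.1 a.2) b.1).symm) }
    refine exists_surj22 (K := σ.ker) ⟨b₁, m₁⟩ ⟨b₂, m₂⟩ (Subtype.ext (by simpa using e₁))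
      (Subtype.ext (by simpa using e₂)) ?_
    intro k
    obtain ⟨i, j, hk⟩ := hg k.1 k.2
    exact ⟨i, j, Subtype.ext (by simpa using hk)⟩
  refine ⟨?_, key⟩
  obtain ⟨Γ, iG, iF, σ, hσ, hc⟩ := hex
  refine ⟨Γ, iG, iF, σ, hσ, ?_⟩
  obtain ⟨π, hπ⟩ := key Γ σ hσ
  have hcard : Nat.card (Multiplicative (ZMod 2 × ZMod 2)) = Nat.card σ.ker := by
    rw [hc]
    simp [Nat.card_eq_fintype_card]
  have hbij : Function.Bijective π :=
    (Function.Surjective.bijective_of_nat_card_le hπ hcard.le)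
  exact ⟨(MulEquiv.ofBijective π hbij).symm⟩

end Cfsg.Agent.Lib.H34VHom22
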