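import Cfsg.Agent.Lib.Helper34CovP

set_option autoImplicit false

/-! PROJECT 34, wave V, piece `Ker`. -/

namespace Cfsg.Agent.Lib.H34VKer

open Cfsg.Agent.Lib.Helper34CovA Cfsg.Agent.Lib.Helper34CovB Cfsg.Agent.Lib.Helper34CovC
  Cfsg.Agent.Lib.Helper34CovP

open scoped IsMulCommutative

universe u v

theorem ker_le {G : Type u} {Γ : Type v} [Group G] [Group Γ] [Finite Γ] (σ : Γ →* G) (x y : Γ)
    (htop : Subgroup.closure ({x, y} : Set Γ) = ⊤) (C : Cert) (oh : ℕ)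
    (M : Model G C oh (σ x) (σ y)) (chk1 : C.chkAll = true)
    (chk6 : C.rel 0 = (List.replicate oh C.hw).flatten) (hm : 0 < C.m)
    (a : ℕ → Subgroup.center Γ) (hrel : ∀ k < C.m, wev x y (C.rel k) = (a k : Γ))
    (g : Γ) (hg : g ∈ σ.ker) : ∃ v : ℕ → ℤ, g = (al a C.m v : Γ) := by
  obtain ⟨c, j, v, hj, hgv⟩ := cover C x y a hrel chk1 M.hN g (htop ▸ Subgroup.mem_top g)
  have hak : ∀ k < C.m, a k ∈ (σ.ker).subgroupOf (Subgroup.center Γ) := by
    intro k hk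
    rw [Subgroup.mem_subgroupOf, MonoidHom.mem_ker, ← hrel k hk, map_wev]
    exact M.hrel k hk
  have hal : σ (al a C.m v : Γ) = 1 := by
    have := al_mem a C.m ((σ.ker).subgroupOf (Subgroup.center Γ)) hak v
    rw [Subgroup.mem_subgroupOf, MonoidHom.mem_ker] at this
    exact this
  have h1 : wev (σ x) (σ y) C.hw ^ c * wrep C (σ x) (σ y) j = 1 := by
    have h2 : σ g = 1 := hg
    rw [hgv, map_mul, map_mul, map_zpow, map_wev, map_wrep, hal, mul_one] at h2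
    exact h2
  obtain ⟨hj0, t, ht⟩ := hG_of_inj C _ _ oh M.hoh M.hN M.hHo M.hinj c j hj h1
  have hH : wev x y C.hw ^ oh = (a 0 : Γ) := by
    rw [← wev_pow, ← chk6]
    exact hrel 0 hm
  refine ⟨fun q => t * (if q = 0 then 1 else 0) + v q, ?_⟩
  rw [al_add, al_smul, al_single a C.m 0 hm, hgv, hj0, wrep_zero, mul_one, ht, zpow_mul,
    zpow_natCast, hH]
  rfl

end Cfsg.Agent.Lib.H34VKer
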