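import Cfsg.Agent.Lib.H34VStem

set_option autoImplicit false

/-! PROJECT 34, wave V, piece `Main`. -/

namespace Cfsg.Agent.Lib.H34VMain

open Cfsg.Agent.Lib.Helper34CovA Cfsg.Agent.Lib.Helper34CovB Cfsg.Agent.Lib.Helper34CovC
  Cfsg.Agent.Lib.Helper34CovP Cfsg.Agent.Lib.H34VStem

universe u v w

theorem exists_stem {G : Type u} {E : Type v} [Group G] [Finite G] [Group E] [Finite E]
    (X Y : E) (ux uy : G) (C : Cert) (oh : ℕ)
    (M : Model G C oh ux uy) (chk1 : C.chkAll = true)
    (chk6 : C.rel 0 = (List.replicate oh C.hw).flatten) (hm : 0 < C.m)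
    {A : Type w} [CommGroup A] (δ : A →* E) (hδ : Function.Injective δ)
    (hcx : ∀ z, δ z * X = X * δ z) (hcy : ∀ z, δ z * Y = Y * δ z)
    (e : ℕ → A) (hrel : ∀ k < C.m, wev X Y (C.rel k) = δ (e k))
    (vs : List (ℕ → ℤ))
    (hv0 : ∀ v ∈ vs, dotr (fun k => v k * e0 (C.rel k)) C.m = 0)
    (hv1 : ∀ v ∈ vs, dotr (fun k => v k * e1 (C.rel k)) C.m = 0)
    (hgen : Subgroup.closure {z : A | ∃ v ∈ vs, z = ev e C.m v} = ⊤) :
    ∃ (Γ : Type (max u v)) (_ : Group Γ) (_ : Finite Γ) (σ : Γ →* G),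
      Cfsg.IsStemExtension σ ∧ Nat.card σ.ker = Nat.card A := by
  let Γ : Subgroup (E × G) := Subgroup.closure {(X, ux), (Y, uy)}
  let σ : Γ →* G := (MonoidHom.snd E G).comp Γ.subtype
  let x : Γ := ⟨(X, ux), Subgroup.subset_closure (by simp)⟩
  let y : Γ := ⟨(Y, uy), Subgroup.subset_closure (by simp)⟩
  have htop : Subgroup.closure ({x, y} : Set Γ) = ⊤ := by
    have h := Subgroup.closure_closure_coe_preimage (k := ({(X, ux), (Y, uy)} : Set (E × G)))
    rw [← h]
    congr 1
    ext g
    simp only [Set.mem_insert_iff, Set.mem_singleton_iff, Set.mem_preimage]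
    constructor
    · rintro (rfl | rfl)
      · left; rfl
      · right; rfl
    · rintro (h | h)
      · left; exact Subtype.ext h
      · right; exact Subtype.ext h
  have hwev : ∀ w, ((wev x y w : Γ) : E × G) = (wev X Y w, wev ux uy w) := by
    intro w
    have h1 := map_wev Γ.subtype x y w
    have h2 := map_wev (MonoidHom.fst E G) (X, ux) (Y, uy) w
    have h3 := map_wev (MonoidHom.snd E G) (X, ux) (Y, uy) w
    change ((wev x y w : Γ) : E × G) = wev (X, ux) (Y, uy) w at h1
    rw [h1]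
    exact Prod.ext h2 h3
  have hmem : ∀ z : A, (δ z, (1 : G)) ∈ Γ := by
    have : Γ.comap ((MonoidHom.inl E G).comp δ) = ⊤ := by
      rw [eq_top_iff, ← hgen, Subgroup.closure_le]
      rintro z ⟨v, -, rfl⟩
      change ev e C.m v ∈ Γ.comap ((MonoidHom.inl E G).comp δ)
      unfold ev
      apply Subgroup.prod_mem
      intro k hk
      apply Subgroup.zpow_mem
      change (δ (e k), (1 : G)) ∈ Γ
      have hk' := Finset.mem_range.1 hk
      have := hwev (C.rel k)
      rw [hrel k hk', M.hrel k hk'] at this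
      rw [← this]
      exact (wev x y (C.rel k)).2
    intro z
    have hz : z ∈ Γ.comap ((MonoidHom.inl E G).comp δ) := this ▸ Subgroup.mem_top z
    exact hz
  let δ' : A →* Γ := ((MonoidHom.inl E G).comp δ).codRestrict Γ hmem
  have hδ' : Function.Injective δ' := by
    intro z z' h
    have := congrArg (fun g : Γ => (g : E × G).1) h
    exact hδ this
  refine ⟨Γ, inferInstance, inferInstance, σ, ?_⟩
  refine stem_of_delta σ x y htop C oh M chk1 chk6 hm δ' hδ' ?_ ?_ e ?_ vs hv0 hv1 hgen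
  · intro z
    apply Subtype.ext
    exact Prod.ext (hcx z) (show (1 : G) * ux = ux * 1 by rw [one_mul, mul_one])
  · intro z
    apply Subtype.ext
    exact Prod.ext (hcy z) (show (1 : G) * uy = uy * 1 by rw [one_mul, mul_one])
  · intro k hk
    apply Subtype.ext
    rw [hwev, hrel k hk, M.hrel k hk]
    rfl

end Cfsg.Agent.Lib.H34VMain
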