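import Cfsg.Agent.Lib.Helper34CovV

set_option autoImplicit false

/-! PROJECT 34, wave V2, piece `Perm`: the voltage cover as a permutation group. -/

namespace Cfsg.Agent.Lib.H34VPerm

open Cfsg.Agent.Lib.Helper34CovA Cfsg.Agent.Lib.Helper34CovV

/-- The voltage cover as a permutation group on `Fin C.N × (ZMod o1 × ZMod o2)`. -/
theorem exists_perms (C : Cert) (p1 p2 : ℕ → ℕ → ℕ) (o1 o2 : ℕ) [NeZero o1] [NeZero o2]
    (e1 e2 : ℕ → ℕ) (hN : 0 < C.N)
    (hT : ∀ l < 2, ∀ i < C.N, C.T l i < C.N)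
    (hlet : ∀ k < C.m, ∀ l ∈ C.rel k, l < 2)
    (hcl : ∀ k < C.m, ∀ i < C.N, C.endc (C.rel k) i = i ∧ vsum C p1 (C.rel k) i % o1 = e1 k ∧
      vsum C p2 (C.rel k) i % o2 = e2 k)
    (h0 : ∃ k < C.m, ∃ w, C.rel k = 0 :: w) (h1 : ∃ k < C.m, ∃ w, C.rel k = 1 :: w) :
    ∃ (X Y : Equiv.Perm (Fin C.N × (ZMod o1 × ZMod o2)))
      (δ : Multiplicative (ZMod o1 × ZMod o2) →* Equiv.Perm (Fin C.N × (ZMod o1 × ZMod o2))),
      Function.Injective δ ∧ (∀ z, δ z * X = X * δ z) ∧ (∀ z, δ z * Y = Y * δ z) ∧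
      ∀ k < C.m, wev X Y (C.rel k) =
        δ (Multiplicative.ofAdd (-(((e1 k : ℕ) : ZMod o1), ((e2 k : ℕ) : ZMod o2)))) := by
  classical
  -- the table as a map of `Fin C.N`
  let Tf : ℕ → Fin C.N → Fin C.N := fun l i =>
    if h : l < 2 then ⟨C.T l i, hT l h i i.2⟩ else i
  have Tf_val : ∀ l, l < 2 → ∀ i : Fin C.N, ((Tf l i : Fin C.N) : ℕ) = C.T l i := by
    intro l hl i
    simp only [Tf, dif_pos hl]
  have Tinj : ∀ l, l < 2 → (∃ k < C.m, ∃ w, C.rel k = l :: w) → Function.Injective (Tf l) := by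
    intro l hl ⟨k, hk, w, hw⟩ i j hij
    have hi := (hcl k hk i i.2).1
    have hj := (hcl k hk j j.2).1
    rw [hw] at hi hj
    simp only [Cert.endc] at hi hj
    have h : C.T l i = C.T l j := by
      rw [← Tf_val l hl i, ← Tf_val l hl j, hij]
    apply Fin.ext
    rw [← hi, ← hj, h]
  let R : ℕ → Fin C.N × (ZMod o1 × ZMod o2) → Fin C.N × (ZMod o1 × ZMod o2) := fun l p =>
    (Tf l p.1, p.2 + (((p1 l p.1 : ℕ) : ZMod o1), ((p2 l p.1 : ℕ) : ZMod o2)))
  have Rinj : ∀ l, Function.Injective (Tf l) → Function.Injective (R l) := by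
    intro l hl p p' h
    have ha : Tf l p.1 = Tf l p'.1 := congrArg Prod.fst h
    have hb : p.2 + (((p1 l p.1 : ℕ) : ZMod o1), ((p2 l p.1 : ℕ) : ZMod o2))
        = p'.2 + (((p1 l p'.1 : ℕ) : ZMod o1), ((p2 l p'.1 : ℕ) : ZMod o2)) := congrArg Prod.snd h
    have hc : p.1 = p'.1 := hl ha
    rw [hc] at hb
    exact Prod.ext hc (add_right_cancel hb)
  have Rb0 : Function.Bijective (R 0) :=
    Finite.injective_iff_bijective.1 (Rinj 0 (Tinj 0 (by norm_num) h0))
  have Rb1 : Function.Bijective (R 1) :=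
    Finite.injective_iff_bijective.1 (Rinj 1 (Tinj 1 (by norm_num) h1))
  let E0 : Equiv.Perm (Fin C.N × (ZMod o1 × ZMod o2)) := Equiv.ofBijective (R 0) Rb0
  let E1 : Equiv.Perm (Fin C.N × (ZMod o1 × ZMod o2)) := Equiv.ofBijective (R 1) Rb1
  have genR : ∀ l, l < 2 → ∀ p, (gen E0⁻¹ E1⁻¹ l)⁻¹ p = R l p := by
    intro l hl p
    interval_cases l
    · simp [gen, E0]
    · simp [gen, E1]
  have word : ∀ w : List ℕ, (∀ l ∈ w, l < 2) → ∀ p : Fin C.N × (ZMod o1 × ZMod o2),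
      ((((wev E0⁻¹ E1⁻¹ w)⁻¹ p).1 : Fin C.N) : ℕ) = C.endc w p.1 ∧
      ((wev E0⁻¹ E1⁻¹ w)⁻¹ p).2 =
        p.2 + (((vsum C p1 w p.1 : ℕ) : ZMod o1), ((vsum C p2 w p.1 : ℕ) : ZMod o2)) := by
    intro w
    induction w with
    | nil =>
      intro _ p
      refine ⟨by simp [wev, Cert.endc], ?_⟩
      have : ((((0 : ℕ) : ZMod o1)), (((0 : ℕ) : ZMod o2))) = (0 : ZMod o1 × ZMod o2) := by
        simp
      simp only [wev, vsum, inv_one, Equiv.Perm.coe_one, id_eq, this, add_zero]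
    | cons l ls ih =>
      intro hw p
      have hl : l < 2 := hw l (by simp)
      have hls : ∀ l' ∈ ls, l' < 2 := fun l' h' => hw l' (by simp [h'])
      have e : (wev E0⁻¹ E1⁻¹ (l :: ls))⁻¹ p = (wev E0⁻¹ E1⁻¹ ls)⁻¹ (R l p) := by
        rw [wev, mul_inv_rev, Equiv.Perm.mul_apply, genR l hl]
      obtain ⟨i1, i2⟩ := ih hls (R l p)
      have hR1 : (((R l p).1 : Fin C.N) : ℕ) = C.T l p.1 := Tf_val l hl p.1
      rw [e]
      refine ⟨by rw [i1, hR1]; rfl, ?_⟩
      rw [i2, hR1]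
      simp only [R, vsum]
      ext <;> simp [add_assoc]
  let δ : Multiplicative (ZMod o1 × ZMod o2) →* Equiv.Perm (Fin C.N × (ZMod o1 × ZMod o2)) :=
    { toFun := fun z => Equiv.prodCongr (Equiv.refl _) (Equiv.addRight (Multiplicative.toAdd z))
      map_one' := by
        apply Equiv.ext
        intro p
        simp
      map_mul' := by
        intro a b
        apply Equiv.ext
        intro p
        refine Prod.ext rfl ?_
        show p.2 + (Multiplicative.toAdd a + Multiplicative.toAdd b)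
          = p.2 + Multiplicative.toAdd b + Multiplicative.toAdd a
        rw [add_assoc, add_comm (Multiplicative.toAdd a)] }
  have δ_apply : ∀ z p, δ z p = (p.1, p.2 + Multiplicative.toAdd z) := by
    intro z p
    rfl
  have comm : ∀ l z p, R l (δ z p) = δ z (R l p) := by
    intro l z p
    simp only [δ_apply, R]
    ext <;> simp [add_assoc, add_comm, add_left_comm]
  have c0 : ∀ z, Commute (δ z) E0 := by
    intro z
    apply Equiv.ext
    intro p
    simp only [Equiv.Perm.mul_apply]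
    exact (comm 0 z p).symm
  have c1 : ∀ z, Commute (δ z) E1 := by
    intro z
    apply Equiv.ext
    intro p
    simp only [Equiv.Perm.mul_apply]
    exact (comm 1 z p).symm
  refine ⟨E0⁻¹, E1⁻¹, δ, ?_, fun z => (c0 z).inv_right, fun z => (c1 z).inv_right, ?_⟩
  · intro a b hab
    have h := congrArg (fun f : Equiv.Perm (Fin C.N × (ZMod o1 × ZMod o2)) =>
      (f (⟨0, hN⟩, 0)).2) hab
    simp only [δ_apply, zero_add] at h
    exact Multiplicative.toAdd.injective h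
  · intro k hk
    have key : (wev E0⁻¹ E1⁻¹ (C.rel k))⁻¹ =
        δ (Multiplicative.ofAdd (((e1 k : ℕ) : ZMod o1), ((e2 k : ℕ) : ZMod o2))) := by
      apply Equiv.ext
      intro p
      obtain ⟨w1, w2⟩ := word (C.rel k) (hlet k hk) p
      obtain ⟨a1, a2, a3⟩ := hcl k hk p.1 p.1.2
      rw [δ_apply]
      refine Prod.ext (Fin.ext (by rw [w1, a1])) ?_
      rw [w2, ← a2, ← a3]
      simp [ZMod.natCast_mod]
    have := congrArg (fun f => f⁻¹) key
    simp only [inv_inv] at this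
    rw [this, ← map_inv]
    rfl

end Cfsg.Agent.Lib.H34VPerm
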