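import Cfsg.Agent.Lib.H34VKer
import Cfsg.Agent.Lib.H34VComm

set_option autoImplicit false

/-! PROJECT 34, wave V, piece `Stem`. -/

namespace Cfsg.Agent.Lib.H34VStem

open Cfsg.Agent.Lib.Helper34CovA Cfsg.Agent.Lib.Helper34CovB Cfsg.Agent.Lib.Helper34CovC
  Cfsg.Agent.Lib.Helper34CovP

open scoped IsMulCommutative

universe u v w

/-- value of an exponent vector in a commutative group -/
def ev {A : Type w} [CommGroup A] (e : ℕ → A) (m : ℕ) (v : ℕ → ℤ) : A :=
  ∏ k ∈ Finset.range m, e k ^ v k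

theorem stem_of_delta {G : Type u} {Γ : Type v} [Group G] [Group Γ] [Finite Γ] (σ : Γ →* G) (x y : Γ)
    (htop : Subgroup.closure ({x, y} : Set Γ) = ⊤) (C : Cert) (oh : ℕ)
    (M : Model G C oh (σ x) (σ y)) (chk1 : C.chkAll = true)
    (chk6 : C.rel 0 = (List.replicate oh C.hw).flatten) (hm : 0 < C.m)
    {A : Type w} [CommGroup A] (δ : A →* Γ) (hδ : Function.Injective δ)
    (hcx : ∀ z, δ z * x = x * δ z) (hcy : ∀ z, δ z * y = y * δ z)
    (e : ℕ → A) (hrel : ∀ k < C.m, wev x y (C.rel k) = δ (e k))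
    (vs : List (ℕ → ℤ))
    (hv0 : ∀ v ∈ vs, dotr (fun k => v k * e0 (C.rel k)) C.m = 0)
    (hv1 : ∀ v ∈ vs, dotr (fun k => v k * e1 (C.rel k)) C.m = 0)
    (hgen : Subgroup.closure {z : A | ∃ v ∈ vs, z = ev e C.m v} = ⊤) :
    Cfsg.IsStemExtension σ ∧ Nat.card σ.ker = Nat.card A := by
  have hcen : ∀ z, δ z ∈ Subgroup.center Γ := by
    intro z
    rw [Subgroup.mem_center_iff]
    intro g
    have hg : g ∈ Subgroup.closure ({x, y} : Set Γ) := htop ▸ Subgroup.mem_top g
    have hle : Subgroup.closure ({x, y} : Set Γ) ≤ Subgroup.centralizer {δ z} := by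
      rw [Subgroup.closure_le]
      rintro w (rfl | rfl)
      · rw [SetLike.mem_coe, Subgroup.mem_centralizer_singleton_iff]; exact (hcx z).symm
      · rw [SetLike.mem_coe, Subgroup.mem_centralizer_singleton_iff]; exact (hcy z).symm
    exact Subgroup.mem_centralizer_singleton_iff.1 (hle hg)
  let a : ℕ → Subgroup.center Γ := fun k => ⟨δ (e k), hcen _⟩
  have hrel' : ∀ k < C.m, wev x y (C.rel k) = (a k : Γ) := hrel
  let δc : A →* Subgroup.center Γ := δ.codRestrict _ hcen
  have hal' : ∀ v, al a C.m v = δc (ev e C.m v) := by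
    intro v
    unfold al ev
    rw [map_prod]
    apply Finset.prod_congr rfl
    intro k _
    rw [map_zpow]
    rfl
  have hal : ∀ v, (al a C.m v : Γ) = δ (ev e C.m v) := by
    intro v
    rw [hal']
    rfl
  have hsurj : Function.Surjective σ := by
    rw [← MonoidHom.range_eq_top, eq_top_iff, ← M.htop, Subgroup.closure_le]
    rintro w (rfl | rfl)
    · exact ⟨x, rfl⟩
    · exact ⟨y, rfl⟩
  have hσδ : ∀ z, σ (δ z) = 1 := by
    have : (σ.comp δ).ker = ⊤ := by
      rw [eq_top_iff, ← hgen, Subgroup.closure_le]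
      rintro z ⟨v, -, rfl⟩
      change ev e C.m v ∈ (σ.comp δ).ker
      unfold ev
      apply Subgroup.prod_mem
      intro k hk
      apply Subgroup.zpow_mem
      change σ (δ (e k)) = 1
      rw [← hrel k (Finset.mem_range.1 hk), map_wev, M.hrel k (Finset.mem_range.1 hk)]
    intro z
    have hz : z ∈ (σ.comp δ).ker := this ▸ Subgroup.mem_top z
    exact hz
  have hker : σ.ker = δ.range := by
    ext g
    constructor
    · intro hg
      obtain ⟨v, hv⟩ := H34VKer.ker_le σ x y htop C oh M chk1 chk6 hm a hrel' g hg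
      rw [hv, hal]
      exact ⟨_, rfl⟩
    · rintro ⟨z, rfl⟩
      exact hσδ z
  have hcomm : δ.range ≤ commutator Γ := by
    have : (commutator Γ).comap δ = ⊤ := by
      rw [eq_top_iff, ← hgen, Subgroup.closure_le]
      rintro z ⟨v, hv, rfl⟩
      change δ (ev e C.m v) ∈ commutator Γ
      rw [← hal]
      exact H34VComm.al_mem_commutator x y C.m C.rel a hrel' v (hv0 v hv) (hv1 v hv)
    rintro _ ⟨z, rfl⟩
    have hz : z ∈ (commutator Γ).comap δ := this ▸ Subgroup.mem_top z
    exact hz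
  refine ⟨⟨hsurj, ?_, ?_⟩, ?_⟩
  · rw [hker]
    rintro _ ⟨z, rfl⟩
    exact hcen z
  · rw [hker]; exact hcomm
  · rw [hker]
    exact Nat.card_congr (MonoidHom.ofInjective hδ).toEquiv.symm

end Cfsg.Agent.Lib.H34VStem
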