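import Mathlib
import Cfsg.Agent.Lib.Helper86Sub
import Cfsg.Agent.Lib.Helper89Fusion2

set_option autoImplicit false

/-! PROJECT 5140 = PR (row S5140): a saturated fusion system has a `p'`-residual subsystem.  Vocabulary.

Everything is written in the `IsMap F P f` calculus of `Lib/Helper87Fusion` (`f : Ω → Ω` a total function whose
restriction to `P` is a map of `F`). -/

namespace Cfsg.Agent.Lib.H37PrDefs

open Cfsg Cfsg.FusionSystem Cfsg.Agent.Lib.Helper87Fusion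

variable {Ω : Type*} [Group Ω] {S : Subgroup Ω}

/-- `K` is a class of maps closed under restriction-equality, `S`-conjugations, composition, inverses,
conjugation by `Aut_F(S)`, and containing all `F`-automorphisms of `p`-power order of all subgroups. -/
structure Good (F : FusionSystem S) (p : ℕ) (K : Subgroup Ω → (Ω → Ω) → Prop) : Prop where
  congr : ∀ (P : Subgroup Ω) (f g : Ω → Ω), (∀ x ∈ P, f x = g x) → K P f → K P g
  conj : ∀ (P : Subgroup Ω) (g : Ω), P ≤ S → g ∈ S → K P (fun x => g * x * g⁻¹)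
  comp : ∀ (P Q : Subgroup Ω) (f g : Ω → Ω), IsMap F P f → IsMap F Q g → (∀ x ∈ P, f x ∈ Q) →
    K P f → K Q g → K P (fun x => g (f x))
  inv : ∀ (P Q : Subgroup Ω) (f g : Ω → Ω), IsMap F P f → f '' (P : Set Ω) = (Q : Set Ω) →
    IsMap F Q g → (∀ x ∈ P, g (f x) = x) → K P f → K Q g
  invar : ∀ (P P' : Subgroup Ω) (a a' f : Ω → Ω), IsMap F S a → IsMap F S a' →
    (∀ x ∈ S, a' (a x) = x) → a '' (P : Set Ω) = (P' : Set Ω) → IsMap F P f → K P f →
    K P' (fun x => a (f (a' x)))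
  gen : ∀ (P : Subgroup Ω) (f : Ω → Ω) (k : ℕ), IsMap F P f → f '' (P : Set Ω) = (P : Set Ω) →
    (∀ x ∈ P, f^[p ^ k] x = x) → K P f

/-- extension property over `F`-centric subgroups -/
def Ext (F : FusionSystem S) (K : Subgroup Ω → (Ω → Ω) → Prop) : Prop :=
  ∀ (P P' : Subgroup Ω) (f : Ω → Ω), F.IsCentric P → P ≤ P' → IsMap F P' f → K P f → K P' f

/-- the smallest `Good` class with the extension property -/
def K0 (F : FusionSystem S) (p : ℕ) (P : Subgroup Ω) (f : Ω → Ω) : Prop :=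
  ∀ K : Subgroup Ω → (Ω → Ω) → Prop, Good F p K → Ext F K → K P f

/-- `f = a ∘ f₀` on `P` with `a ∈ Aut_F(S)` and `f₀` an `F`-map in the class `C` -/
def Dec (F : FusionSystem S) (C : Subgroup Ω → (Ω → Ω) → Prop) (P : Subgroup Ω) (f : Ω → Ω) : Prop :=
  ∃ a f₀ : Ω → Ω, IsMap F S a ∧ IsMap F P f₀ ∧ C P f₀ ∧ ∀ x ∈ P, f x = a (f₀ x)

/-- `D` contains all `F`-automorphisms of `p`-power order -/
def Gen (F D : FusionSystem S) (p : ℕ) : Prop :=
  ∀ (P : Subgroup Ω) (f : Ω → Ω) (k : ℕ), IsMap F P f → f '' (P : Set Ω) = (P : Set Ω) →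
    (∀ x ∈ P, f^[p ^ k] x = x) → IsMap D P f

/-- the `Aut_F(S)`-core of `D`: all `Aut_F(S)`-conjugates of `f` are maps of `D` -/
def Core (F D : FusionSystem S) (P : Subgroup Ω) (f : Ω → Ω) : Prop :=
  P ≤ S ∧ ∀ (a a' : Ω → Ω) (P' : Subgroup Ω), IsMap F S a → IsMap F S a' → (∀ x ∈ S, a' (a x) = x) →
    a '' (P : Set Ω) = (P' : Set Ω) → IsMap D P' (fun x => a (f (a' x)))

/-- an `F`-map on `S` is onto `S` -/
theorem image_S [Finite S] {F : FusionSystem S} {a : Ω → Ω} (ha : IsMap F S a) :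
    a '' (S : Set Ω) = (S : Set Ω) :=
  Cfsg.Agent.Lib.Helper86Fusion2.image_eq_of_card_le ha le_rfl (fun _ hx => ha.mem hx) le_rfl

/-- an `F`-map on `S` has a two sided inverse in `Aut_F(S)` -/
theorem exists_inv_S [Finite S] {F : FusionSystem S} {a : Ω → Ω} (ha : IsMap F S a) :
    ∃ a', IsMap F S a' ∧ (∀ x ∈ S, a' (a x) = x) ∧ (∀ x ∈ S, a (a' x) = x) ∧
      a' '' (S : Set Ω) = (S : Set Ω) :=
  ha.inv (image_S ha)

/-- a left inverse on `S` is a right inverse on `S` -/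
theorem right_inv_S [Finite S] {F : FusionSystem S} {a a' : Ω → Ω} (ha : IsMap F S a)
    (h : ∀ x ∈ S, a' (a x) = x) : ∀ x ∈ S, a (a' x) = x := by
  intro x hx
  obtain ⟨y, hy, rfl⟩ := IsMap.exists_of_mem_image (image_S ha) hx
  rw [h y hy]

theorem isMap_of_le {D F : FusionSystem S} (h : D ≤ F) {P : Subgroup Ω} {f : Ω → Ω}
    (hf : IsMap D P f) : IsMap F P f := by
  obtain ⟨φ, hφ, hφf⟩ := hf
  exact ⟨φ, h P hφ, hφf⟩

end Cfsg.Agent.Lib.H37PrDefs
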