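import Mathlib
import Cfsg.Agent.Lib.H37PrDefs

set_option autoImplicit false

/-! PROJECT 5140 = PR (row S5140), piece `Dec` (est. 50m).  The class `Dec F C` (maps `a ∘ f₀`, `a ∈ Aut_F(S)`, `f₀ ∈ C`) is closed under everything.
Keep file name, namespace, theorem names and statements; extra helper lemmas are fine.

SKETCH.  `Dec F C P f = ∃ a f₀, IsMap F S a ∧ IsMap F P f₀ ∧ C P f₀ ∧ ∀ x ∈ P, f x = a (f₀ x)`.  Tools: `exists_inv_S`, `right_inv_S`, `image_S` (Defs), `IsMap.comp/restrict/inv/exists_image/exists_image_of_le/mem_image/exists_of_mem_image/congr`.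
of_C: `a = id` (`isMap_id F le_rfl`).   conj: of_C + `hC.conj` + `isMap_conj`.   of_S: `a = f`, `f₀ = id` (`C P id` from `hC.conj P 1` + `hC.congr`).
restrict: same `a`, `f₀`; `C R f₀` = `hC.comp R P id f₀` (with `C R id`) + congr.
comp: `f = a f₀` on `P`, `g = b g₀` on `Q`, `f P ⊆ Q`.  Let `a'` = inverse of `a` on `S`, `Q₁` = image of `Q` under `a'` (`(ha'.restrict hQS).exists_image`).
  `g₁ := fun x => a' (g₀ (a x))` : `C Q₁ g₁` by `hC.invar Q Q₁ a' a g₀` (roles: the conjugating map is `a'`, its left inverse on `S` is `a` by `right_inv`); it is an `F`-map on `Q₁` (composition of 3 maps).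
  `f₀ x = a' (f x) ∈ Q₁` for `x ∈ P`.   `g (f x) = b (g₀ (a (f₀ x))) = (b ∘ a) (g₁ (f₀ x))`.   Answer: `(fun x => b (a x), fun x => g₁ (f₀ x))`.
inv: `f = a f₀` on `P`, `f '' P = Q`, `g` the inverse.  `P₁` = image of `f₀`; `h₀` = inverse of `f₀` on `P₁` (`IsMap.inv`), `C P₁ h₀` by `hC.inv`; `a '' P₁ = Q`;
  `h₁ := fun y => a (h₀ (a' y))`, `C Q h₁` by `hC.invar P₁ Q a a' h₀`; `g y = a' (h₁ y)` on `Q`.  Answer `(a', h₁)`. -/

namespace Cfsg.Agent.Lib.H37PrDec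

open Cfsg Cfsg.FusionSystem Cfsg.Agent.Lib.Helper87Fusion Cfsg.Agent.Lib.H37PrDefs

variable {Ω : Type*} [Group Ω] {S : Subgroup Ω}

theorem isMap {F : FusionSystem S} {C : Subgroup Ω → (Ω → Ω) → Prop} {P : Subgroup Ω} {f : Ω → Ω}
    (h : Dec F C P f) : IsMap F P f := by
  obtain ⟨a, f₀, ha, hf₀, -, hfa⟩ := h
  exact (hf₀.comp ha (fun x hx => hf₀.mem hx)).congr (fun x hx => (hfa x hx).symm)

theorem congr {F : FusionSystem S} {C : Subgroup Ω → (Ω → Ω) → Prop} {P : Subgroup Ω} {f g : Ω → Ω}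
    (hfg : ∀ x ∈ P, f x = g x) (h : Dec F C P f) : Dec F C P g := by
  obtain ⟨a, f₀, ha, hf₀, hC, hfa⟩ := h
  exact ⟨a, f₀, ha, hf₀, hC, fun x hx => (hfg x hx).symm.trans (hfa x hx)⟩

theorem of_C {F : FusionSystem S} {C : Subgroup Ω → (Ω → Ω) → Prop} {P : Subgroup Ω} {f : Ω → Ω}
    (hf : IsMap F P f) (h : C P f) : Dec F C P f := by
  exact ⟨id, f, isMap_id F le_rfl, hf, h, fun _ _ => rfl⟩

theorem C_id {F : FusionSystem S} {p : ℕ} {C : Subgroup Ω → (Ω → Ω) → Prop} (hC : Good F p C)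
    {P : Subgroup Ω} (hP : P ≤ S) : C P id :=
  hC.congr P _ _ (fun x _ => by simp) (hC.conj P 1 hP S.one_mem)

theorem C_restrict {F : FusionSystem S} {p : ℕ} {C : Subgroup Ω → (Ω → Ω) → Prop} (hC : Good F p C)
    {P R : Subgroup Ω} (hR : R ≤ P) {f : Ω → Ω} (hf : IsMap F P f) (h : C P f) : C R f :=
  hC.comp R P id f (isMap_id F (hR.trans hf.le)) hf (fun _ hx => hR hx) (C_id hC (hR.trans hf.le)) h

theorem of_S {F : FusionSystem S} {p : ℕ} {C : Subgroup Ω → (Ω → Ω) → Prop} (hC : Good F p C)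
    {P : Subgroup Ω} (hP : P ≤ S) {f : Ω → Ω} (hf : IsMap F S f) : Dec F C P f := by
  exact ⟨f, id, hf, isMap_id F hP, C_id hC hP, fun _ _ => rfl⟩

theorem conj {F : FusionSystem S} {p : ℕ} {C : Subgroup Ω → (Ω → Ω) → Prop} (hC : Good F p C)
    {P : Subgroup Ω} (hP : P ≤ S) {g : Ω} (hg : g ∈ S) : Dec F C P (fun x => g * x * g⁻¹) := by
  exact of_C (isMap_conj F hP hg) (hC.conj P g hP hg)

theorem restrict {F : FusionSystem S} {p : ℕ} {C : Subgroup Ω → (Ω → Ω) → Prop} (hC : Good F p C)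
    {P R : Subgroup Ω} (hR : R ≤ P) {f : Ω → Ω} (h : Dec F C P f) : Dec F C R f := by
  obtain ⟨a, f₀, ha, hf₀, hCf, hfa⟩ := h
  exact ⟨a, f₀, ha, hf₀.restrict hR, C_restrict hC hR hf₀ hCf, fun x hx => hfa x (hR hx)⟩

theorem comp [Finite S] {F : FusionSystem S} {p : ℕ} {C : Subgroup Ω → (Ω → Ω) → Prop}
    (hC : Good F p C) {P Q : Subgroup Ω} {f g : Ω → Ω} (hfQ : ∀ x ∈ P, f x ∈ Q)
    (hf : Dec F C P f) (hg : Dec F C Q g) : Dec F C P (fun x => g (f x)) := by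
  obtain ⟨a, f₀, ha, hf₀, hCf, hfa⟩ := hf
  obtain ⟨b, g₀, hb, hg₀, hCg, hgb⟩ := hg
  obtain ⟨a', ha', ha'a, haa', -⟩ := exists_inv_S ha
  have hQS : Q ≤ S := hg₀.le
  obtain ⟨Q₁, hQ₁⟩ := (ha'.restrict hQS).exists_image
  have hQ₁S : Q₁ ≤ S := (ha'.restrict hQS).image_le hQ₁
  have haQ₁ : ∀ x ∈ Q₁, a x ∈ Q := by
    intro x hx
    obtain ⟨y, hy, rfl⟩ := IsMap.exists_of_mem_image hQ₁ hx
    rw [haa' y (hQS hy)]
    exact hy
  have hg₁F : IsMap F Q₁ (fun x => a' (g₀ (a x))) :=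
    ((ha.restrict hQ₁S).comp hg₀ haQ₁).comp ha' (fun x hx => hg₀.mem (haQ₁ x hx))
  have hg₁C : C Q₁ (fun x => a' (g₀ (a x))) := hC.invar Q Q₁ a' a g₀ ha' ha haa' hQ₁ hg₀ hCg
  have hf₀Q₁ : ∀ x ∈ P, f₀ x ∈ Q₁ := by
    intro x hx
    have h1 : f₀ x = a' (f x) := by rw [hfa x hx, ha'a _ (hf₀.mem hx)]
    rw [h1]
    exact IsMap.mem_image hQ₁ (hfQ x hx)
  refine ⟨fun x => b (a x), fun x => a' (g₀ (a (f₀ x))), ha.comp hb (fun x hx => ha.mem hx),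
    hf₀.comp hg₁F hf₀Q₁, hC.comp P Q₁ f₀ _ hf₀ hg₁F hf₀Q₁ hCf hg₁C, fun x hx => ?_⟩
  show g (f x) = b (a (a' (g₀ (a (f₀ x)))))
  rw [haa' _ (hg₀.mem (haQ₁ _ (hf₀Q₁ x hx))), ← hfa x hx, hgb _ (hfQ x hx)]

theorem inv [Finite S] {F : FusionSystem S} {p : ℕ} {C : Subgroup Ω → (Ω → Ω) → Prop}
    (hC : Good F p C) {P Q : Subgroup Ω} {f g : Ω → Ω} (hfQ : f '' (P : Set Ω) = (Q : Set Ω))
    (hgf : ∀ x ∈ P, g (f x) = x) (hf : Dec F C P f) : Dec F C Q g := by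
  obtain ⟨a, f₀, ha, hf₀, hCf, hfa⟩ := hf
  obtain ⟨a', ha', ha'a, haa', -⟩ := exists_inv_S ha
  obtain ⟨P₁, hP₁⟩ := hf₀.exists_image
  have hP₁S : P₁ ≤ S := hf₀.image_le hP₁
  obtain ⟨h₀, hh₀, hh₀f, hfh₀, hh₀P⟩ := hf₀.inv hP₁
  have hCh₀ : C P₁ h₀ := hC.inv P P₁ f₀ h₀ hf₀ hP₁ hh₀ hh₀f hCf
  have haP₁ : a '' (P₁ : Set Ω) = (Q : Set Ω) := by
    rw [← hP₁, ← hfQ, Set.image_image]
    exact Set.image_congr (fun x hx => (hfa x hx).symm)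
  have hQS : Q ≤ S := (ha.restrict hP₁S).image_le haP₁
  have ha'Q : ∀ y ∈ Q, a' y ∈ P₁ := by
    intro y hy
    obtain ⟨z, hz, rfl⟩ := IsMap.exists_of_mem_image haP₁ hy
    rw [ha'a z (hP₁S hz)]
    exact hz
  have hh₁F : IsMap F Q (fun y => a (h₀ (a' y))) :=
    ((ha'.restrict hQS).comp hh₀ ha'Q).comp ha (fun y hy => hh₀.mem (ha'Q y hy))
  have hh₁C : C Q (fun y => a (h₀ (a' y))) := hC.invar P₁ Q a a' h₀ ha ha' ha'a haP₁ hh₀ hCh₀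
  refine ⟨a', fun y => a (h₀ (a' y)), ha', hh₁F, hh₁C, fun y hy => ?_⟩
  show g y = a' (a (h₀ (a' y)))
  rw [ha'a _ (hh₀.mem (ha'Q y hy))]
  obtain ⟨x, hx, rfl⟩ := IsMap.exists_of_mem_image hfQ hy
  rw [hgf x hx, hfa x hx, ha'a _ (hf₀.mem hx), hh₀f x hx]

end Cfsg.Agent.Lib.H37PrDec
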