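import Mathlib

set_option autoImplicit false

/-! PROJECT 5140 = PR (row S5140), piece `Frat` (est. 20m, PURE MATHLIB).  Frattini argument for the subgroup generated by the `p`-elements.
Keep file name, namespace, theorem names and statements; extra helper lemmas are fine.

SKETCH.  `X := closure {α | ∃ k, α ^ p ^ k = 1}` is normal (the generating set is conjugation invariant: `Subgroup.closure` + `conj_pow`; e.g. `Subgroup.normalClosure`-free:
`⟨fun x hx g => closure_induction ...⟩`), contains the Sylow subgroup `R` (`R.2 : IsPGroup`, `IsPGroup` gives `x ^ p ^ k = 1` in the subtype; coerce).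
`Sylow.normalizer_sup_eq_top' (P : Sylow p G) (hP : ↑P ≤ N) : (P : Subgroup G).normalizer ⊔ N = ⊤` (N normal).  Then `g ∈ N ⊔ normalizer`: `Subgroup.mem_sup` gives `x * n = g`
(`Subgroup.mem_sup : x ∈ s ⊔ t ↔ ∃ y ∈ s, ∃ z ∈ t, y * z = x` needs commutativity; use `Subgroup.mem_sup_of_normal_left`/`Subgroup.normal_mul`/`Subgroup.mul_normal`). -/

namespace Cfsg.Agent.Lib.H37PrFrat

theorem frattini {G : Type*} [Group G] [Finite G] {p : ℕ} [Fact p.Prime] (R : Sylow p G) (g : G) :
    ∃ x ∈ Subgroup.closure {α : G | ∃ k : ℕ, α ^ p ^ k = 1},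
      ∃ n ∈ Subgroup.normalizer ((R : Subgroup G) : Set G), g = x * n := by
  set X : Subgroup G := Subgroup.closure {α : G | ∃ k : ℕ, α ^ p ^ k = 1} with hX
  have hXn : X.Normal := by
    constructor
    intro x hx g
    induction hx using Subgroup.closure_induction with
    | mem x hx =>
      obtain ⟨k, hk⟩ := hx
      exact Subgroup.subset_closure ⟨k, by rw [conj_pow, hk]; simp⟩
    | one => simp
    | mul a b _ _ ha hb =>
      have : g * (a * b) * g⁻¹ = (g * a * g⁻¹) * (g * b * g⁻¹) := by group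
      rw [this]
      exact X.mul_mem ha hb
    | inv a _ ha =>
      have : g * a⁻¹ * g⁻¹ = (g * a * g⁻¹)⁻¹ := by group
      rw [this]
      exact X.inv_mem ha
  have hRX : (R : Subgroup G) ≤ X := by
    intro x hx
    obtain ⟨k, hk⟩ := R.2 ⟨x, hx⟩
    exact Subgroup.subset_closure ⟨k, by simpa using congrArg Subtype.val hk⟩
  have htop : Subgroup.normalizer ((R : Subgroup G) : Set G) ⊔ X = ⊤ :=
    Sylow.normalizer_sup_eq_top' R hRX
  have hg : g ∈ X ⊔ Subgroup.normalizer ((R : Subgroup G) : Set G) := by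
    rw [sup_comm, htop]
    exact Subgroup.mem_top g
  rw [← SetLike.mem_coe, Subgroup.normal_mul] at hg
  obtain ⟨x, hx, n, hn, rfl⟩ := hg
  exact ⟨x, hx, n, hn, rfl⟩

end Cfsg.Agent.Lib.H37PrFrat
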