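import Mathlib
import Cfsg.Agent.Lib.H37PrDefs

set_option autoImplicit false

/-! PROJECT 5140 = PR (row S5140), piece `NExt` (est. 35m).  An element of `N_{Aut_F(R)}(Aut_S(R))` extends to `N_S(R)` when `R` is receptive.
Keep file name, namespace, theorem names and statements; extra helper lemmas are fine.

SKETCH.  `f := totA (n : MulAut R)` is an `F`-map on `R` with image `R` (`mem_autGroup_iff_totA`, `totA_image`).  Apply `isReceptive_extend hrec hf hfR (N := normalizerIn S R)`: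
for `g ∈ normalizerIn S R` (`mem_normalizerIn` / it is `S ⊓ normalizer R`), `Helper86Fusion.exists_conjAut` gives `γ ∈ autInducedBy S R` with `γ x = g x g⁻¹`; `γ ∈ F.autGroup R` (`autInducedBy_le_autGroup`);
`⟨γ, _⟩ ∈ A` so (`Subgroup.mem_normalizer_iff`) `n * ⟨γ,_⟩ * n⁻¹ ∈ A`, i.e. `n γ n⁻¹ ∈ autInducedBy S R`; `mem_autInducedBy_iff` gives `h ∈ S` with `(n γ n⁻¹) y = h y h⁻¹` for `y : R`;
take `y = n x`: `n (g x g⁻¹) = h (n x) h⁻¹`. -/

namespace Cfsg.Agent.Lib.H37PrNExt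

open Cfsg Cfsg.FusionSystem Cfsg.Agent.Lib.Helper87Fusion Cfsg.Agent.Lib.H37PrDefs

variable {Ω : Type*} [Group Ω] {S : Subgroup Ω}

open Cfsg.Agent.Lib.Helper87Fusion2

theorem extend {F : FusionSystem S} {R : Subgroup Ω} (hR : R ≤ S) (hrec : F.IsReceptive R)
    (n : F.autGroup R)
    (hn : n ∈ Subgroup.normalizer
      (((autInducedBy S R).subgroupOf (F.autGroup R) : Subgroup (F.autGroup R)) : Set (F.autGroup R))) :
    ∃ f', IsMap F (normalizerIn S R) f' ∧ ∀ x ∈ R, f' x = totA (n : MulAut R) x := by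
  have hf : IsMap F R (totA (n : MulAut R)) := (mem_autGroup_iff_totA F hR _).1 n.2
  refine isReceptive_extend hrec hf (totA_image _) (N := normalizerIn S R) (fun g hg => ?_)
  have hgS : g ∈ S := (Subgroup.mem_inf.1 hg).1
  have hgN : g ∈ Subgroup.normalizer (R : Set Ω) := (Subgroup.mem_inf.1 hg).2
  obtain ⟨γ, hγ, hγg⟩ := Cfsg.Agent.Lib.Helper86Fusion.exists_conjAut hgS hgN
  have hγF : γ ∈ F.autGroup R := autInducedBy_le_autGroup F hR hγ
  have hγA : (⟨γ, hγF⟩ : F.autGroup R) ∈ (autInducedBy S R).subgroupOf (F.autGroup R) := by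
    rw [Subgroup.mem_subgroupOf]; exact hγ
  have h1 := (Subgroup.mem_normalizer_iff.1 hn ⟨γ, hγF⟩).1 hγA
  rw [Subgroup.mem_subgroupOf] at h1
  obtain ⟨h, hh, hhn⟩ := (mem_autInducedBy_iff S R _).1 h1
  refine ⟨hgS, hgN, h, hh, fun x hx => ?_⟩
  have hgx : g * x * g⁻¹ ∈ R := (Subgroup.mem_normalizer_iff.1 hgN x).1 hx
  have h2 := hhn ((n : MulAut R) ⟨x, hx⟩)
  have h3 : ((n * ⟨γ, hγF⟩ * n⁻¹ : F.autGroup R) : MulAut R) ((n : MulAut R) ⟨x, hx⟩)
      = (n : MulAut R) (γ ⟨x, hx⟩) := by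
    show (n : MulAut R) (γ ((n : MulAut R)⁻¹ ((n : MulAut R) ⟨x, hx⟩))) = _
    simp
  rw [h3] at h2
  have h4 : γ ⟨x, hx⟩ = ⟨g * x * g⁻¹, hgx⟩ := Subtype.ext (hγg ⟨x, hx⟩)
  rw [h4] at h2
  rw [totA_of_mem _ hgx, totA_of_mem _ hx]
  exact h2

end Cfsg.Agent.Lib.H37PrNExt
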