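import Mathlib
import Cfsg.Agent.Lib.H37PrDefs

set_option autoImplicit false

/-! PROJECT 5140 = PR (row S5140), piece `X`.  Products of `p`-elements of `Aut_F(R)` are in every Good class. -/

namespace Cfsg.Agent.Lib.H37PrX

open Cfsg Cfsg.FusionSystem Cfsg.Agent.Lib.Helper87Fusion Cfsg.Agent.Lib.H37PrDefs

variable {Ω : Type*} [Group Ω] {S : Subgroup Ω}

open Cfsg.Agent.Lib.Helper87Fusion2

theorem totA_iterate {R : Subgroup Ω} (α : MulAut R) (n : ℕ) (x : R) :
    (totA α)^[n] (x : Ω) = (((α ^ n) x : R) : Ω) := by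
  induction n with
  | zero => simp
  | succ n ih =>
    rw [Function.iterate_succ_apply', ih, totA_apply, pow_succ', MulAut.mul_apply]

theorem mem_C {F : FusionSystem S} {p : ℕ} {C : Subgroup Ω → (Ω → Ω) → Prop} (hC : Good F p C)
    {R : Subgroup Ω} (hR : R ≤ S) (α : F.autGroup R)
    (hα : α ∈ Subgroup.closure {α : F.autGroup R | ∃ k : ℕ, α ^ p ^ k = 1}) :
    C R (totA (α : MulAut R)) := by
  have hmap : ∀ β : F.autGroup R, IsMap F R (totA (β : MulAut R)) :=
    fun β => (mem_autGroup_iff_totA F hR _).1 β.2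
  induction hα using Subgroup.closure_induction with
  | mem α hα =>
    obtain ⟨k, hk⟩ := hα
    refine hC.gen R _ k (hmap α) (totA_image _) (fun x hx => ?_)
    have h1 := totA_iterate (α : MulAut R) (p ^ k) ⟨x, hx⟩
    have h2 : (α : MulAut R) ^ p ^ k = 1 := by
      have := congrArg (fun z : F.autGroup R => (z : MulAut R)) hk
      simpa using this
    rw [h2] at h1
    exact h1
  | one =>
    refine hC.congr R _ _ (fun x hx => ?_) (hC.conj R 1 hR S.one_mem)
    have : totA ((1 : F.autGroup R) : MulAut R) x = x := by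
      rw [totA_of_mem _ hx]
      rfl
    rw [this]
    simp
  | mul α β _ _ ihα ihβ =>
    refine hC.congr R _ _ (fun x hx => ?_)
      (hC.comp R R (totA (β : MulAut R)) (totA (α : MulAut R)) (hmap β) (hmap α)
        (fun x hx => totA_mem _ hx) ihβ ihα)
    show totA (α : MulAut R) (totA (β : MulAut R) x) = _
    rw [totA_of_mem _ hx, totA_apply, totA_of_mem _ hx]
    rfl
  | inv α _ ih =>
    refine hC.inv R R (totA (α : MulAut R)) _ (hmap α) (totA_image _) (hmap α⁻¹) (fun x hx => ?_) ih
    rw [totA_of_mem _ hx, totA_apply]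
    show ((((α : MulAut R)⁻¹ ((α : MulAut R) ⟨x, hx⟩) : R)) : Ω) = x
    simp

end Cfsg.Agent.Lib.H37PrX
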