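import Mathlib
import Cfsg.Agent.Lib.H37PrDefs
import Cfsg.Agent.Lib.H37PrDec
import Cfsg.Agent.Lib.H37PrFrat
import Cfsg.Agent.Lib.H37PrX
import Cfsg.Agent.Lib.H37PrNExt

set_option autoImplicit false

/-! PROJECT 5140 = PR (row S5140), piece `Aut` (est. 40m).  The automorphism step of the Frattini lemma (L).
Keep file name, namespace, theorem names and statements; extra helper lemmas are fine.

SKETCH.  `R` fully normalized ⇒ fully automized and receptive (`Helper86Fusion2.saturated_fullyNormalized hS hF hR`).  `IsFullyAutomized` gives `Rs : Sylow p (F.autGroup R)` with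
`(Rs : Subgroup _) = (autInducedBy S R).subgroupOf (F.autGroup R)`.  `Finite (F.autGroup R)`: `R` is finite (`Helper86Fusion.finite_of_le`), so `MulAut R` is finite (instance / `Finite.of_injective` DFunLike.coe).
`hf.exists_aut hfR` gives `α ∈ F.autGroup R` with `α x = f x`.  `Frat.frattini Rs ⟨α, _⟩`: `α = x * n`.  `X.mem_C`: `C R (totA x)` so `Dec.of_C`.  `NExt.extend` (rewrite the normalizer with the Sylow equation):
`n` extends to `f'` on `normalizerIn S R`; `hN f' _` + `Dec.restrict` (`le_normalizerIn`) + `Dec.congr`: `Dec F C R (totA n)`.  `Dec.comp` + `Dec.congr`: `f = totA x ∘ totA n` on `R`. -/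

namespace Cfsg.Agent.Lib.H37PrAut

open Cfsg Cfsg.FusionSystem Cfsg.Agent.Lib.Helper87Fusion Cfsg.Agent.Lib.H37PrDefs

variable {Ω : Type*} [Group Ω] {S : Subgroup Ω}

open Cfsg.Agent.Lib.Helper87Fusion2

theorem aut_step [Finite S] {p : ℕ} [Fact p.Prime] (hS : IsPGroup p S) {F : FusionSystem S}
    (hF : F.IsSaturated p) {C : Subgroup Ω → (Ω → Ω) → Prop} (hC : Good F p C) {R : Subgroup Ω}
    (hR : F.IsFullyNormalized R)
    (hN : ∀ f, IsMap F (normalizerIn S R) f → Dec F C (normalizerIn S R) f)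
    {f : Ω → Ω} (hf : IsMap F R f) (hfR : f '' (R : Set Ω) = (R : Set Ω)) : Dec F C R f := by
  obtain ⟨-, ⟨hRS, Rs, hRs⟩, hrec⟩ := Helper86Fusion2.saturated_fullyNormalized hS hF hR
  haveI : Finite R := Helper86Fusion.finite_of_le hRS
  obtain ⟨α, hα, hαf⟩ := hf.exists_aut hfR
  obtain ⟨x, hx, n, hn, hxn⟩ := H37PrFrat.frattini Rs ⟨α, hα⟩
  have hx1 : Dec F C R (totA (x : MulAut R)) :=
    H37PrDec.of_C ((mem_autGroup_iff_totA F hRS _).1 x.2) (H37PrX.mem_C hC hRS x hx)
  rw [hRs] at hn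
  obtain ⟨f', hf', hf'n⟩ := H37PrNExt.extend hRS hrec n hn
  have hn1 : Dec F C R (totA (n : MulAut R)) :=
    H37PrDec.congr hf'n (H37PrDec.restrict hC (le_normalizerIn hRS) (hN f' hf'))
  refine H37PrDec.congr (fun y hy => ?_) (H37PrDec.comp hC (fun y hy => totA_mem _ hy) hn1 hx1)
  show totA (x : MulAut R) (totA (n : MulAut R) y) = f y
  rw [totA_of_mem _ hy, totA_apply, ← hαf ⟨y, hy⟩]
  have : α = (x : MulAut R) * (n : MulAut R) := congrArg (fun z : F.autGroup R => (z : MulAut R)) hxn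
  rw [this]
  rfl

end Cfsg.Agent.Lib.H37PrAut
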