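import Mathlib
import Cfsg.Agent.Lib.H37PrDefs

set_option autoImplicit false

/-! PROJECT 5140 = PR (row S5140), piece `Bridge` (est. 30m).  Index prime to `p` in the `IsMap` calculus.
Keep file name, namespace, theorem names and statements; extra helper lemmas are fine.

SKETCH.  `HasPrimeToPIndexIn D F p = D.IsSubsystemOf F ∧ ∀ P ≤ S, (closure {α : F.autGroup P | ∃ k, orderOf α = p ^ k}).map (F.autGroup P).subtype ≤ D.autGroup P`.
le: `IsSubsystemOf` and `≤` unfold to the same thing.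
gen: `hf.exists_aut hfP` gives `α ∈ F.autGroup P`, `α x = f x`.  By induction `((α ^ n) x : Ω) = f^[n] x` (`Function.iterate_succ_apply'`, `pow_succ'`), so `α ^ p ^ k = 1` (`MulEquiv.ext`, `Subtype.ext`), same for `⟨α, _⟩ : F.autGroup P`;
`orderOf_dvd_of_pow_eq_one`, `(Nat.dvd_prime_pow Fact.out).1` gives `orderOf = p ^ j`.  So `α ∈ D.autGroup P` (`Subgroup.mem_map`, `subset_closure`), and `(mem_autGroup_iff_isMap D hf.le α hα).1`. -/

namespace Cfsg.Agent.Lib.H37PrBridge

open Cfsg Cfsg.FusionSystem Cfsg.Agent.Lib.Helper87Fusion Cfsg.Agent.Lib.H37PrDefs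

variable {Ω : Type*} [Group Ω] {S : Subgroup Ω}

theorem le {F D : FusionSystem S} {p : ℕ} (h : D.HasPrimeToPIndexIn F p) : D ≤ F :=
  h.1

theorem gen {F D : FusionSystem S} {p : ℕ} [Fact p.Prime] (h : D.HasPrimeToPIndexIn F p) :
    Gen F D p := by
  intro P f k hf hfP hk
  obtain ⟨α, hα, hαf⟩ := hf.exists_aut hfP
  have hiter : ∀ (n : ℕ) (x : P), (((α ^ n) x : P) : Ω) = f^[n] x := by
    intro n
    induction n with
    | zero => intro x; simp
    | succ n ih =>
      intro x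
      rw [Function.iterate_succ_apply', pow_succ', MulAut.mul_apply, hαf, ih]
  have hpow : α ^ p ^ k = 1 := by
    ext x
    rw [hiter, hk x x.2]
    simp
  have hpow' : (⟨α, hα⟩ : F.autGroup P) ^ p ^ k = 1 := Subtype.ext hpow
  obtain ⟨j, -, hj⟩ := (Nat.dvd_prime_pow (Fact.out : p.Prime)).1 (orderOf_dvd_of_pow_eq_one hpow')
  have hmem : α ∈ D.autGroup P :=
    h.2 P hf.le ⟨⟨α, hα⟩, Subgroup.subset_closure ⟨j, hj⟩, rfl⟩
  exact (mem_autGroup_iff_isMap D hf.le α hαf).1 hmem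

end Cfsg.Agent.Lib.H37PrBridge
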