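import Mathlib
import Cfsg.Agent.Lib.H37PrDefs

set_option autoImplicit false

/-! PROJECT 5140 = PR (row S5140), piece `Cmp` (est. 70m).  Two extensions of the same automorphism of a centric subgroup differ by a `p`-element.
Keep file name, namespace, theorem names and statements; extra helper lemmas are fine.

SKETCH.  `R ≤ N ≤ N_S(R)`, `C_S(R) ≤ R`, `b` an `F`-map on `N`, `b'` a `D`-map on `N`, `b' = b` on `R`, `b '' R = R`.  CLAIM: `b` is a `D`-map.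
(1) for `x ∈ N`: `z := (b x)⁻¹ * b' x ∈ centralizerIn S R` (`mem_centralizerIn`): for `y ∈ R` write `y = b y₀`, `y₀ ∈ R`; `x y₀ x⁻¹ ∈ R` (`mem_normalizerIn`);
    `b x * y * (b x)⁻¹ = b (x y₀ x⁻¹) = b' (x y₀ x⁻¹) = b' x * y * (b' x)⁻¹` (`IsMap.map_conj`; `b'` is also an `F`-map: `isMap_of_le hDF`).  So `z ∈ R`.
(2) `N'` := image of `b` (`hb.exists_image`); `b' x = b x * z ∈ N'` (`R = b '' R ⊆ N'`).  `c` := `F`-inverse of `b` on `N'` (`hb.inv`).  `ρ := fun x => c (b' x)`: an `F`-map on `N` (`IsMap.comp`),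
    `ρ x = x * w` with `w = c z ∈ R` (`c` maps `R` to `R`: `z = b z₀`, `c z = z₀`), `ρ w = w` for `w ∈ R`.  `ρ` maps `N` into `N`, so onto (`Helper86Fusion2.image_eq_of_card_le`).
(3) `ρ^[n] x = x * w ^ n` (induction, `Function.iterate_succ_apply'`, `ρ (x * w^n) = ρ x * ρ (w^n) = x * w * w^n`, `pow_succ'`).  `Nat.card R = p ^ k` (`(hS.to_le hRS)`, `IsPGroup.exists_card_eq`/`IsPGroup.iff_card`, `R` finite by
    `Helper86Fusion.finite_of_le`), `w ^ Nat.card R = 1` (`Subgroup.pow_card_eq_one`/`pow_card_eq_one'` in `↥R`).  So `hgen N ρ k` : `IsMap D N ρ`.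
(4) `σ` := `D`-inverse of `ρ` on `N` (`IsMap.inv`): `ρ (σ x) = x`, `σ x ∈ N`.  `b x = b' (σ x)` for `x ∈ N`: `c (b' (σ x)) = x`, apply `b` (`b (c u) = u` for `u ∈ N'`).  `IsMap.comp` in `D` + congr. -/

namespace Cfsg.Agent.Lib.H37PrCmp

open Cfsg Cfsg.FusionSystem Cfsg.Agent.Lib.Helper87Fusion Cfsg.Agent.Lib.H37PrDefs

variable {Ω : Type*} [Group Ω] {S : Subgroup Ω}

theorem cmp [Finite S] {p : ℕ} [Fact p.Prime] (hS : IsPGroup p S) {F D : FusionSystem S}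
    (hDF : D ≤ F) (hgen : Gen F D p) {R N : Subgroup Ω} (hRN : R ≤ N)
    (hnorm : N ≤ normalizerIn S R) (hcen : centralizerIn S R ≤ R) {b b' : Ω → Ω}
    (hb : IsMap F N b) (hb' : IsMap D N b') (heq : ∀ x ∈ R, b' x = b x)
    (hbR : b '' (R : Set Ω) = (R : Set Ω)) : IsMap D N b := by
  have hb'F : IsMap F N b' := isMap_of_le hDF hb'
  have hNS : N ≤ S := hb.le
  have hRS : R ≤ S := hRN.trans hNS
  -- (1)
  have hz : ∀ x ∈ N, (b x)⁻¹ * b' x ∈ R := by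
    intro x hx
    apply hcen
    rw [mem_centralizerIn]
    refine ⟨S.mul_mem (S.inv_mem (hb.mem hx)) (hb'F.mem hx), fun y hy => ?_⟩
    obtain ⟨y₀, hy₀, rfl⟩ := IsMap.exists_of_mem_image hbR hy
    have hxy : x * y₀ * x⁻¹ ∈ R := ((mem_normalizerIn.1 (hnorm hx)).2 y₀).1 hy₀
    have e1 : b (x * y₀ * x⁻¹) = b x * b y₀ * (b x)⁻¹ := hb.map_conj hx (hRN hy₀)
    have e2 : b' (x * y₀ * x⁻¹) = b' x * b' y₀ * (b' x)⁻¹ := hb'F.map_conj hx (hRN hy₀)
    rw [heq _ hxy, heq _ hy₀, e1] at e2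
    -- e2 : b x * b y₀ * (b x)⁻¹ = b' x * b y₀ * (b' x)⁻¹
    have e3 : b y₀ * ((b x)⁻¹ * b' x) = (b x)⁻¹ * (b x * b y₀ * (b x)⁻¹) * b' x := by group
    rw [e3, e2]
    group
  -- (2)
  obtain ⟨N', hN'⟩ := hb.exists_image
  obtain ⟨c, hc, hcb, hbc, hcN⟩ := hb.inv hN'
  have hRN' : R ≤ N' := by
    intro y hy
    obtain ⟨y₀, hy₀, rfl⟩ := IsMap.exists_of_mem_image hbR hy
    exact IsMap.mem_image hN' (hRN hy₀)
  have hb'N' : ∀ x ∈ N, b' x ∈ N' := by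
    intro x hx
    have : b' x = b x * ((b x)⁻¹ * b' x) := by group
    rw [this]
    exact N'.mul_mem (IsMap.mem_image hN' hx) (hRN' (hz x hx))
  have hcR : ∀ y ∈ R, c y ∈ R := by
    intro y hy
    obtain ⟨y₀, hy₀, rfl⟩ := IsMap.exists_of_mem_image hbR hy
    rw [hcb _ (hRN hy₀)]
    exact hy₀
  have hρ : IsMap F N (fun x => c (b' x)) := hb'F.comp hc hb'N'
  have hρx : ∀ x ∈ N, c (b' x) = x * c ((b x)⁻¹ * b' x) := by
    intro x hx
    have : b' x = b x * ((b x)⁻¹ * b' x) := by group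
    conv_lhs => rw [this]
    rw [hc.map_mul (IsMap.mem_image hN' hx) (hRN' (hz x hx)), hcb x hx]
  have hρR : ∀ w ∈ R, c (b' w) = w := by
    intro w hw
    rw [heq w hw, hcb w (hRN hw)]
  have hρN : ∀ x ∈ N, c (b' x) ∈ N := by
    intro x hx
    exact IsMap.mem_image hcN (hb'N' x hx)
  have hρimg : (fun x => c (b' x)) '' (N : Set Ω) = (N : Set Ω) :=
    Cfsg.Agent.Lib.Helper86Fusion2.image_eq_of_card_le hρ hNS hρN le_rfl
  -- (3)
  have hiter : ∀ x ∈ N, ∀ n : ℕ,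
      (fun x => c (b' x))^[n] x = x * (c ((b x)⁻¹ * b' x)) ^ n := by
    intro x hx n
    induction n with
    | zero => simp
    | succ n ih =>
      rw [Function.iterate_succ_apply', ih]
      have hw : c ((b x)⁻¹ * b' x) ∈ R := hcR _ (hz x hx)
      have hwn : (c ((b x)⁻¹ * b' x)) ^ n ∈ R := R.pow_mem hw n
      show c (b' (x * (c ((b x)⁻¹ * b' x)) ^ n)) = _
      have : c (b' (x * (c ((b x)⁻¹ * b' x)) ^ n)) =
          c (b' x) * c (b' ((c ((b x)⁻¹ * b' x)) ^ n)) := hρ.map_mul hx (hRN hwn)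
      rw [this, hρR _ hwn, hρx x hx, pow_succ', mul_assoc]
  have : Finite R := Cfsg.Agent.Lib.Helper86Fusion.finite_of_le hRS
  obtain ⟨k, hk⟩ := (IsPGroup.iff_card (p := p) (G := R)).1 (hS.to_le hRS)
  have hρD : IsMap D N (fun x => c (b' x)) := by
    refine hgen N _ k hρ hρimg (fun x hx => ?_)
    rw [hiter x hx, ← hk]
    have hw : c ((b x)⁻¹ * b' x) ∈ R := hcR _ (hz x hx)
    have h1 : (⟨_, hw⟩ : R) ^ Nat.card R = 1 := pow_card_eq_one'
    have h2 := congrArg Subtype.val h1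
    simp only [Subgroup.coe_pow, Subgroup.coe_one] at h2
    rw [h2, mul_one]
  -- (4)
  obtain ⟨σ, hσ, -, hρσ, hσN⟩ := hρD.inv hρimg
  have hσmem : ∀ x ∈ N, σ x ∈ N := fun x hx => IsMap.mem_image hσN hx
  refine (hσ.comp hb' hσmem).congr (fun x hx => ?_)
  show b' (σ x) = b x
  have h1 : c (b' (σ x)) = x := hρσ x hx
  have h2 := hbc _ (hb'N' _ (hσmem x hx))
  rw [h1] at h2
  exact h2.symm

end Cfsg.Agent.Lib.H37PrCmp
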