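import Mathlib
import Cfsg.Agent.Lib.H37PrDefs

set_option autoImplicit false

/-! PROJECT 5140 = PR (row S5140), piece `Core` (est. 60m).  The `Aut_F(S)`-core of a subsystem containing the `p`-elements is a Good class.
Keep file name, namespace, theorem names and statements; extra helper lemmas are fine.

SKETCH.  `Core F D P f = P ≤ S ∧ ∀ a a' P', IsMap F S a → IsMap F S a' → (∀ x ∈ S, a' (a x) = x) → a '' P = P' → IsMap D P' (fun x => a (f (a' x)))`.
Throughout: `right_inv_S ha h : ∀ x ∈ S, a (a' x) = x`;  for `x ∈ P'`, `x = a y` with `y ∈ P` (`IsMap.exists_of_mem_image`) and `a' x = y ∈ P` (when `P ≤ S`).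
self: take `a = a' = id` (`isMap_id F le_rfl`), `P' = P` (`Set.image_id`).
congr: `IsMap.congr`.     conj: `a (g * a' x * g⁻¹) = a g * x * (a g)⁻¹` for `x ∈ P' ≤ S` (`ha.map_mul`, `map_inv`), `isMap_conj D`; `P' ≤ S` from `(ha.restrict hP).image_le`.
comp: `Q'` := image of `Q` under `a` (`(ha.restrict hg.le).exists_image`); `(a g a') ∘ (a f a') = a (g f) a'` on `P'` since `a' (a z) = z` for `z = f (a' x) ∈ S`; `IsMap.comp` in `D`, then congr.
inv: `hK a a' P'` is a `D`-map on `P'` with image `Q' = a '' Q`; its `D`-inverse (`IsMap.inv`) agrees on `Q'` with `a g a'`: congr.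
invar (`b, b'`, `b '' P = P₁`): for `a, a'` and `a '' P₁ = P₂` use `hK (a ∘ b) (b' ∘ a') P₂`; (`IsMap.comp` on `S`), image of image (`Set.image_image`).
gen: `a f a'` is an `F`-map on `P'` (3 compositions) with image `P'`, and `(a f a')^[n] x = a (f^[n] (a' x))` for `x ∈ P'` (induction on `n`; `f^[n]` maps `P` to `P`); apply `hgen`. -/

namespace Cfsg.Agent.Lib.H37PrCore

open Cfsg Cfsg.FusionSystem Cfsg.Agent.Lib.Helper87Fusion Cfsg.Agent.Lib.H37PrDefs

variable {Ω : Type*} [Group Ω] {S : Subgroup Ω}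

theorem self {F D : FusionSystem S} {P : Subgroup Ω} {f : Ω → Ω} (h : Core F D P f) :
    IsMap D P f :=
  h.2 id id P (isMap_id F le_rfl) (isMap_id F le_rfl) (fun _ _ => rfl) (Set.image_id _)

/-- for `x ∈ P' = a '' P`, `a' x ∈ P` -/
theorem inv_mem {P P' : Subgroup Ω} {a a' : Ω → Ω} (hP : P ≤ S) (h : ∀ x ∈ S, a' (a x) = x)
    (hP' : a '' (P : Set Ω) = (P' : Set Ω)) : ∀ x ∈ P', a' x ∈ P := by
  intro x hx
  obtain ⟨y, hy, rfl⟩ := IsMap.exists_of_mem_image hP' hx
  rw [h y (hP hy)]
  exact hy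

/-- the conjugated map is an `F`-map -/
theorem conj_isMap {F : FusionSystem S} {P P' : Subgroup Ω} {a a' f : Ω → Ω} (ha : IsMap F S a)
    (ha' : IsMap F S a') (h : ∀ x ∈ S, a' (a x) = x) (hP' : a '' (P : Set Ω) = (P' : Set Ω))
    (hf : IsMap F P f) : IsMap F P' (fun x => a (f (a' x))) :=
  ((ha'.restrict ((ha.restrict hf.le).image_le hP')).comp hf (inv_mem hf.le h hP')).comp ha
    (fun x hx => hf.mem (inv_mem hf.le h hP' x hx))

theorem good [Finite S] {F D : FusionSystem S} {p : ℕ} (hDF : D ≤ F) (hgen : Gen F D p) :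
    Good F p (Core F D) where
  congr P f g hfg h := ⟨h.1, fun a a' P' ha ha' haa hP' =>
    (h.2 a a' P' ha ha' haa hP').congr (fun x hx => by
      show a (f (a' x)) = a (g (a' x))
      rw [hfg _ (inv_mem h.1 haa hP' x hx)])⟩
  conj P g hP hg := ⟨hP, fun a a' P' ha ha' haa hP' => by
    have hP'S : P' ≤ S := (ha.restrict hP).image_le hP'
    refine (isMap_conj D hP'S (ha.mem hg)).congr (fun x hx => ?_)
    show a g * x * (a g)⁻¹ = a (g * a' x * g⁻¹)
    have hx' : a' x ∈ S := hP (inv_mem hP haa hP' x hx)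
    rw [ha.map_conj hg hx', right_inv_S ha haa x (hP'S hx)]⟩
  comp P Q f g hf hg hfQ h1 h2 := ⟨hf.le, fun a a' P' ha ha' haa hP' => by
    obtain ⟨Q', hQ'⟩ := (ha.restrict hg.le).exists_image
    have k1 := h1.2 a a' P' ha ha' haa hP'
    have k2 := h2.2 a a' Q' ha ha' haa hQ'
    refine (k1.comp k2 (fun x hx => IsMap.mem_image hQ' (hfQ _ (inv_mem hf.le haa hP' x hx)))).congr
      (fun x hx => ?_)
    show a (g (a' (a (f (a' x))))) = a (g (f (a' x)))
    rw [haa _ (hf.mem (inv_mem hf.le haa hP' x hx))]⟩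
  inv P Q f g hf hQ hg hgf h := ⟨hg.le, fun a a' Q' ha ha' haa hQ' => by
    obtain ⟨P', hP'⟩ := (ha.restrict hf.le).exists_image
    have k := h.2 a a' P' ha ha' haa hP'
    have himg : (fun x => a (f (a' x))) '' (P' : Set Ω) = (Q' : Set Ω) := by
      rw [← hQ', ← hQ, ← hP', Set.image_image, Set.image_image]
      exact Set.image_congr (fun x hx => by
        show a (f (a' (a x))) = a (f x)
        rw [haa x (hf.le hx)])
    obtain ⟨k', hk', hk'k, -, -⟩ := k.inv himg
    refine hk'.congr (fun y hy => ?_)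
    obtain ⟨x, hx, rfl⟩ := IsMap.exists_of_mem_image himg hy
    rw [hk'k x hx]
    show x = a (g (a' (a (f (a' x)))))
    have hx' := inv_mem hf.le haa hP' x hx
    rw [haa _ (hf.mem hx'), hgf _ hx',
      right_inv_S ha haa x ((ha.restrict hf.le).image_le hP' hx)]⟩
  invar P P₁ b b' f hb hb' hbb hP₁ hf h := ⟨(hb.restrict hf.le).image_le hP₁,
    fun a a' P₂ ha ha' haa hP₂ => by
      have := h.2 (fun x => a (b x)) (fun x => b' (a' x)) P₂
        (hb.comp ha (fun x hx => hb.mem hx)) (ha'.comp hb' (fun x hx => ha'.mem hx))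
        (fun x hx => by
          show b' (a' (a (b x))) = x
          rw [haa _ (hb.mem hx), hbb x hx])
        (by rw [← hP₂, ← hP₁, Set.image_image])
      exact this⟩
  gen P f k hf hfP hk := ⟨hf.le, fun a a' P' ha ha' haa hP' => by
    have hF := conj_isMap ha ha' haa hP' hf
    have hP'S : P' ≤ S := (ha.restrict hf.le).image_le hP'
    have hmem : ∀ x ∈ P', a (f (a' x)) ∈ P' := fun x hx =>
      IsMap.mem_image hP' (IsMap.mem_image hfP (inv_mem hf.le haa hP' x hx))
    have himg : (fun x => a (f (a' x))) '' (P' : Set Ω) = (P' : Set Ω) :=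
      Cfsg.Agent.Lib.Helper86Fusion2.image_eq_of_card_le hF hP'S hmem le_rfl
    have hfn : ∀ n : ℕ, ∀ y ∈ P, f^[n] y ∈ P := by
      intro n
      induction n with
      | zero => intro y hy; exact hy
      | succ n ih =>
        intro y hy
        rw [Function.iterate_succ_apply']
        exact IsMap.mem_image hfP (ih y hy)
    have hiter : ∀ n : ℕ, ∀ x ∈ P', (fun x => a (f (a' x)))^[n] x = a (f^[n] (a' x)) := by
      intro n
      induction n with
      | zero =>
        intro x hx
        exact (right_inv_S ha haa x (hP'S hx)).symm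
      | succ n ih =>
        intro x hx
        rw [Function.iterate_succ_apply', ih x hx, Function.iterate_succ_apply']
        show a (f (a' (a (f^[n] (a' x))))) = _
        rw [haa _ (hf.le (hfn n _ (inv_mem hf.le haa hP' x hx)))]
    refine hgen P' _ k hF himg (fun x hx => ?_)
    rw [hiter _ x hx, hk _ (inv_mem hf.le haa hP' x hx), right_inv_S ha haa x (hP'S hx)]⟩

end Cfsg.Agent.Lib.H37PrCore
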