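import Mathlib
import Cfsg.Agent.Lib.H37PrDefs
import Cfsg.Agent.Lib.H37PrDec
import Cfsg.Agent.Lib.H37PrAut

set_option autoImplicit false

/-! PROJECT 5140 = PR (row S5140), piece `L` (est. 45m).  FRATTINI LEMMA (L): every `F`-map is `a ∘ f₀`, `a ∈ Aut_F(S)`, `f₀` in the Good class `C`.
Keep file name, namespace, theorem names and statements; extra helper lemmas are fine.

SKETCH.  Claim `A m`: for all `P`, `f` with `IsMap F P f` and `Nat.card S - Nat.card P ≤ m` (or `= m`, strong induction): `Dec F C P f`.   Strong induction on `m`.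
Given the claim for all smaller values, i.e. for all maps on subgroups of order `> c := Nat.card P`, apply `Helper86Sub.alperin_induction hS F hF (fun Q g => Nat.card Q < c ∨ Dec F C Q g)`:
  hcongr: `Dec.congr`.   hconj: `Dec.conj`.   hcomp (`Q → Q'`): if `card Q < c` left; else `c ≤ card Q ≤ card Q'` (`Helper86Fusion.card_le_of_isMap`), so both are `Dec`: `Dec.comp`.
  hinv: `card Q' = card Q` (`IsMap.card_image`), `Dec.inv`.
  haut (`Q = S`): `Dec.of_S hC le_rfl`.   haut (`Q` essential, `g '' Q = Q`): if `card Q < c` left.  Otherwise `Q ≠ S`... (if `Q = S` use of_S) so `Q < S`, `Q < normalizerIn S Q` (`Helper86Alperin.lt_normalizerIn`),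
   and we need `Dec` for all maps on `normalizerIn S Q`, of order `> card Q ≥ c` (`Helper86Group.card_lt_card_of_lt`): induction hypothesis.  Then `Aut.aut_step hS hF hC hQ.2.1`.
   (`IsEssential = IsCentric ∧ IsFullyNormalized ∧ _`.)
Finally the disjunction at `(P, f)` itself: `card P < card P` is absurd. -/

namespace Cfsg.Agent.Lib.H37PrL

open Cfsg Cfsg.FusionSystem Cfsg.Agent.Lib.Helper87Fusion Cfsg.Agent.Lib.H37PrDefs

variable {Ω : Type*} [Group Ω] {S : Subgroup Ω}

theorem frattini [Finite S] {p : ℕ} [Fact p.Prime] (hS : IsPGroup p S) {F : FusionSystem S}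
    (hF : F.IsSaturated p) {C : Subgroup Ω → (Ω → Ω) → Prop} (hC : Good F p C) {P : Subgroup Ω}
    {f : Ω → Ω} (hf : IsMap F P f) : Dec F C P f := by
  induction hm : Nat.card S - Nat.card P using Nat.strong_induction_on generalizing P f with
  | _ m ih =>
    have hPle : Nat.card P ≤ Nat.card S := Subgroup.card_le_of_le hf.le
    have hbig : ∀ (Q : Subgroup Ω) (g : Ω → Ω), IsMap F Q g → Nat.card P < Nat.card Q →
        Dec F C Q g := by
      intro Q g hg hlt
      have hQle : Nat.card Q ≤ Nat.card S := Subgroup.card_le_of_le hg.le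
      exact ih (Nat.card S - Nat.card Q) (by omega) hg rfl
    have key := Helper86Sub.alperin_induction hS F hF
      (fun Q g => Nat.card Q < Nat.card P ∨ Dec F C Q g) ?_ ?_ ?_ ?_ ?_ hf
    · exact key.resolve_left (lt_irrefl _)
    · rintro Q g g' hgg' (h | h)
      · exact Or.inl h
      · exact Or.inr (H37PrDec.congr hgg' h)
    · intro Q g hQ hg
      exact Or.inr (H37PrDec.conj hC hQ hg)
    · intro Q Q' g g' hg hg' hgQ' h1 h2
      by_cases hlt : Nat.card Q < Nat.card P
      · exact Or.inl hlt
      · have hle : Nat.card Q ≤ Nat.card Q' := Helper86Fusion.card_le_of_isMap hg hg'.le hgQ'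
        exact Or.inr (H37PrDec.comp hC hgQ' (h1.resolve_left hlt) (h2.resolve_left (by omega)))
    · intro Q Q' g g' hg hgQ hg' hgg' h1
      have hcard := hg.card_image hgQ
      rcases h1 with h | h
      · exact Or.inl (by omega)
      · exact Or.inr (H37PrDec.inv hC hgQ hgg' h)
    · intro Q g hQ hg hgQ
      by_cases hQS : Q = S
      · right
        rw [hQS]
        exact H37PrDec.of_S hC le_rfl (hQS ▸ hg)
      · have hess := hQ.resolve_left hQS
        by_cases hlt : Nat.card Q < Nat.card P
        · exact Or.inl hlt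
        · right
          have hQlt : Q < S := lt_of_le_of_ne hg.le hQS
          have h2 := Helper86Alperin.lt_normalizerIn hS hQlt
          haveI : Finite (normalizerIn S Q) := Helper86Fusion.finite_of_le (normalizerIn_le S Q)
          have h3 := Helper86Group.card_lt_card_of_lt h2
          exact H37PrAut.aut_step hS hF hC hess.2.1 (fun f' hf' => hbig _ f' hf' (by omega)) hg hgQ

end Cfsg.Agent.Lib.H37PrL
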