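import Mathlib
import Cfsg.Agent.Lib.H37PrDefs
import Cfsg.Agent.Lib.H37PrCore
import Cfsg.Agent.Lib.H37PrL
import Cfsg.Agent.Lib.H37PrM

set_option autoImplicit false

/-! PROJECT 5140 = PR (row S5140), piece `Ext` (est. 50m).  Extension property of a saturated subsystem `D` of index prime to `p`, and of its core.
Keep file name, namespace, theorem names and statements; extra helper lemmas are fine.

SKETCH.  ext0: `L.frattini hS hF (Core.good hDF hgen) hf` : `f = b ∘ f₀` on `P'`, `b ∈ Aut_F(S)`, `Core F D P' f₀`, so `IsMap D P' f₀` (`Core.self`).  `P₁` := image of `P` under `f₀` (`(hf₀.restrict hPP').exists_image`);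
it is `F`-centric (`Helper87Fusion2.isCentric_of_isConj hP (isConj_iff.2 ⟨f₀, _, _⟩)`).  `b` on `P₁` is a `D`-map: `b y = f (g y)`, `g` := `D`-inverse of `f₀|P` on `P₁` (`IsMap.inv`), compose with `hfP`, congr.
`M.main`: `IsMap D S b`.  Then `f = b ∘ f₀` on `P'` is a `D`-map (`IsMap.comp` with `(IsMap D S b)`, values of `f₀` in `S`: `IsMap.mem`), congr.
ext: let `a, a', P₂'` with `a '' P' = P₂'`.  `P₂` := image of `P` under `a`; it is `F`-centric, `P₂ ≤ P₂'`; `f₁ := fun x => a (f (a' x))` is an `F`-map on `P₂'` (compose `a'|P₂'` (into `P'`), `f`, `a`), and a `D`-map on `P₂` (`h.2 a a' P₂ ..`).  ext0. -/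

namespace Cfsg.Agent.Lib.H37PrExt

open Cfsg Cfsg.FusionSystem Cfsg.Agent.Lib.Helper87Fusion Cfsg.Agent.Lib.H37PrDefs

variable {Ω : Type*} [Group Ω] {S : Subgroup Ω}

theorem ext0 [Finite S] {p : ℕ} [Fact p.Prime] (hS : IsPGroup p S) {F D : FusionSystem S}
    (hF : F.IsSaturated p) (hDF : D ≤ F) (hD : D.IsSaturated p) (hgen : Gen F D p)
    {P P' : Subgroup Ω} {f : Ω → Ω} (hP : F.IsCentric P) (hPP' : P ≤ P') (hf : IsMap F P' f)
    (hfP : IsMap D P f) : IsMap D P' f := by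
  obtain ⟨b, f₀, hb, hf₀F, hCore, hfb⟩ :=
    H37PrL.frattini hS hF (H37PrCore.good hDF hgen) hf
  have hf₀ : IsMap D P' f₀ := H37PrCore.self hCore
  obtain ⟨P₁, hP₁⟩ := (hf₀.restrict hPP').exists_image
  have hP₁c : F.IsCentric P₁ :=
    Helper87Fusion2.isCentric_of_isConj hP (isConj_iff.2 ⟨f₀, hf₀F.restrict hPP', hP₁⟩)
  obtain ⟨g, hg, hg1, hg2, hg3⟩ := (hf₀.restrict hPP').inv hP₁
  have hbP₁ : IsMap D P₁ b := by
    refine (hg.comp hfP (fun y hy => IsMap.mem_image hg3 hy)).congr (fun y hy => ?_)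
    show f (g y) = b y
    rw [hfb _ (hPP' (IsMap.mem_image hg3 hy)), hg2 y hy]
  have hbS : IsMap D S b := H37PrM.main hS hDF hD hgen hP₁c hb hbP₁
  exact (hf₀.comp hbS (fun x hx => hf₀.mem hx)).congr (fun x hx => (hfb x hx).symm)

theorem ext [Finite S] {p : ℕ} [Fact p.Prime] (hS : IsPGroup p S) {F D : FusionSystem S}
    (hF : F.IsSaturated p) (hDF : D ≤ F) (hD : D.IsSaturated p) (hgen : Gen F D p) :
    Ext F (Core F D) := by
  intro P P' f hP hPP' hf h
  refine ⟨hf.le, fun a a' P₂' ha ha' haa' hP₂' => ?_⟩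
  obtain ⟨P₂, hP₂⟩ := ha.exists_image_of_le hP.1
  have hP₂c : F.IsCentric P₂ :=
    Helper87Fusion2.isCentric_of_isConj hP (isConj_iff.2 ⟨a, ha.restrict hP.1, hP₂⟩)
  have hle : P₂ ≤ P₂' := by
    intro y hy
    obtain ⟨x, hx, rfl⟩ := IsMap.exists_of_mem_image hP₂ hy
    exact IsMap.mem_image hP₂' (hPP' hx)
  have hP₂'S : P₂' ≤ S := (ha.restrict hf.le).image_le hP₂'
  have ha'mem : ∀ x ∈ P₂', a' x ∈ P' := by
    intro x hx
    obtain ⟨y, hy, rfl⟩ := IsMap.exists_of_mem_image hP₂' hx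
    rw [haa' y (hf.le hy)]
    exact hy
  have hf₁ : IsMap F P₂' (fun x => a (f (a' x))) :=
    ((ha'.restrict hP₂'S).comp hf ha'mem).comp ha (fun x hx => hf.mem (ha'mem x hx))
  exact ext0 hS hF hDF hD hgen hP₂c hle hf₁ (h.2 a a' P₂ ha ha' haa' hP₂)

end Cfsg.Agent.Lib.H37PrExt
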