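import Mathlib
import Cfsg.Agent.Lib.H37PrDefs

set_option autoImplicit false

/-! PROJECT 5140 = PR (row S5140), piece `K0` (est. 15m).  The intersection of all Good+Ext classes is Good+Ext.
Keep file name, namespace, theorem names and statements; extra helper lemmas are fine.

SKETCH.  Every field is a Horn clause: `fun ... hK => fun K hG hE => hG.comp _ _ _ _ hf hg h (hK1 K hG hE) (hK2 K hG hE)` etc. -/

namespace Cfsg.Agent.Lib.H37PrK0

open Cfsg Cfsg.FusionSystem Cfsg.Agent.Lib.Helper87Fusion Cfsg.Agent.Lib.H37PrDefs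

variable {Ω : Type*} [Group Ω] {S : Subgroup Ω}

theorem good (F : FusionSystem S) (p : ℕ) : Good F p (K0 F p) where
  congr P f g hfg h := fun K hG hE => hG.congr P f g hfg (h K hG hE)
  conj P g hP hg := fun K hG _ => hG.conj P g hP hg
  comp P Q f g hf hg h h1 h2 := fun K hG hE => hG.comp P Q f g hf hg h (h1 K hG hE) (h2 K hG hE)
  inv P Q f g hf hQ hg hgf h := fun K hG hE => hG.inv P Q f g hf hQ hg hgf (h K hG hE)
  invar P P' a a' f ha ha' haa hP' hf h := fun K hG hE =>
    hG.invar P P' a a' f ha ha' haa hP' hf (h K hG hE)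
  gen P f k hf hP hk := fun K hG _ => hG.gen P f k hf hP hk

theorem ext (F : FusionSystem S) (p : ℕ) : Ext F (K0 F p) :=
  fun P P' f hP hPP' hf h K hG hE => hE P P' f hP hPP' hf (h K hG hE)

theorem le {F : FusionSystem S} {p : ℕ} {K : Subgroup Ω → (Ω → Ω) → Prop} (hG : Good F p K)
    (hE : Ext F K) {P : Subgroup Ω} {f : Ω → Ω} (h : K0 F p P f) : K P f :=
  h K hG hE

end Cfsg.Agent.Lib.H37PrK0
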