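import Mathlib
import Cfsg.Agent.Lib.H37PrDefs
import Cfsg.Agent.Lib.Helper88Normal
import Cfsg.Agent.Lib.Helper87Mk

set_option autoImplicit false

/-! PROJECT 5142 = PS (row S5142): the `p'`-residual of a normal subsystem `E` over `T` lies in every normal subsystem over `T`.  Vocabulary. -/

namespace Cfsg.Agent.Lib.H37PsDefs

open Cfsg Cfsg.FusionSystem Cfsg.Agent.Lib.Helper87Fusion Cfsg.Agent.Lib.H37PrDefs

variable {Ω : Type*} [Group Ω] {S : Subgroup Ω}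

/-- `D` contains the `F`-automorphisms of `p`-power order of the single subgroup `N` -/
def GenAt (F D : FusionSystem S) (p : ℕ) (N : Subgroup Ω) : Prop :=
  ∀ (f : Ω → Ω) (k : ℕ), IsMap F N f → f '' (N : Set Ω) = (N : Set Ω) →
    (∀ x ∈ N, f^[p ^ k] x = x) → IsMap D N f

/-- the standing hypotheses of the abstract lemma (W'): `D ≤ F` over the same `S`, `D` saturated (`F` NOT necessarily),
`F = Aut_F(S) ∘ D`, `D` is `Aut_F(S)`-invariant, and `Aut_F(S)/Aut_D(S)` has no `p`-elements. -/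
structure WCtx (p : ℕ) (F D : FusionSystem S) : Prop where
  le : D ≤ F
  sat : D.IsSaturated p
  dec : ∀ (P : Subgroup Ω) (f : Ω → Ω), IsMap F P f →
    ∃ a f₀ : Ω → Ω, IsMap F S a ∧ IsMap D P f₀ ∧ ∀ x ∈ P, f x = a (f₀ x)
  invar : ∀ (P P' : Subgroup Ω) (a a' f : Ω → Ω), IsMap F S a → IsMap F S a' →
    (∀ x ∈ S, a' (a x) = x) → a '' (P : Set Ω) = (P' : Set Ω) → IsMap D P f →
    IsMap D P' (fun x => a (f (a' x)))
  pp : ∀ (a : Ω → Ω) (k : ℕ), IsMap F S a → IsMap D S (a^[p ^ k]) → IsMap D S a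

/-- the class of maps `e ∘ f₀`, `e ∈ Aut_E(T)`, `f₀` a map of `N` -/
def MM {T : Subgroup Ω} (E N : FusionSystem T) (P : Subgroup Ω) (f : Ω → Ω) : Prop :=
  ∃ e f₀ : Ω → Ω, IsMap E T e ∧ IsMap N P f₀ ∧ ∀ x ∈ P, f x = e (f₀ x)

end Cfsg.Agent.Lib.H37PsDefs
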