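import Mathlib
import Cfsg.Prelude.Def_Classical
import Cfsg.Prelude.Def_LieExceptional

set_option autoImplicit false

/-! Project 2546 (Steinberg character of `PSU_n(q)`): vocabulary.  `GA n F q` is the special unitary group of the
antidiagonal hermitian form `hermA u v = ∑ i, u i * (v (rev i)) ^ q` (isomorphic to `Cfsg.SU n F q`), with its BN-pair:
`BB` upper triangular, `NN` monomial, `TT` diagonal, `UU` upper unitriangular; `sgm n k` the simple reflections
(`2 * k + 2 ≤ n`) as permutations of `Fin n`, `Inv n k` their inversions, `XX k`, `YY k` the root sets. -/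

namespace Cfsg.Agent.Lib.H49SuDefs

open Matrix

variable {n : ℕ} {F : Type*} [Field F] {q : ℕ}

/-- the antidiagonal hermitian form -/
def hermA (n : ℕ) (F : Type*) [Field F] (q : ℕ) (u v : Fin n → F) : F := ∑ i, u i * (v (Fin.rev i)) ^ q

/-- the special unitary group of `hermA` -/
def GA (n : ℕ) (F : Type*) [Field F] (q : ℕ) : Subgroup (Matrix.SpecialLinearGroup (Fin n) F) :=
  Cfsg.preserving (Cfsg.slToMat n F) (hermA n F q)

/-- the matrix of an element -/
def mt (h : GA n F q) : Matrix (Fin n) (Fin n) F := h.1.1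

theorem mt_one : mt (1 : GA n F q) = 1 := rfl

theorem mt_mul (g h : GA n F q) : mt (g * h) = mt g * mt h := rfl

theorem mt_inj {g h : GA n F q} (e : mt g = mt h) : g = h := Subtype.ext (Subtype.ext e)

/-- upper triangular -/
def Tri (M : Matrix (Fin n) (Fin n) F) : Prop := ∀ a b, b < a → M a b = 0

/-- upper unitriangular -/
def UT (M : Matrix (Fin n) (Fin n) F) : Prop := (∀ a b, b < a → M a b = 0) ∧ ∀ a, M a a = 1

/-- diagonal -/
def Dg (M : Matrix (Fin n) (Fin n) F) : Prop := ∀ a b, a ≠ b → M a b = 0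

/-- monomial, `e_b ↦ (unit) e_{π b}` -/
def Mon (π : Equiv.Perm (Fin n)) (M : Matrix (Fin n) (Fin n) F) : Prop := ∀ a b, M a b ≠ 0 ↔ a = π b

theorem Tri_one : Tri (1 : Matrix (Fin n) (Fin n) F) :=
  fun _ _ h => Matrix.one_apply_ne (ne_of_gt h)

theorem Tri_mul {M N : Matrix (Fin n) (Fin n) F} (hM : Tri M) (hN : Tri N) : Tri (M * N) := by
  intro a b hab
  rw [Matrix.mul_apply]
  apply Finset.sum_eq_zero
  intro c _
  rcases lt_or_ge c a with h | h
  · rw [hM a c h, zero_mul]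
  · rw [hN c b (lt_of_lt_of_le hab h), mul_zero]

theorem UT_one : UT (1 : Matrix (Fin n) (Fin n) F) := ⟨Tri_one, fun a => Matrix.one_apply_eq a⟩

theorem UT_mul {M N : Matrix (Fin n) (Fin n) F} (hM : UT M) (hN : UT N) : UT (M * N) := by
  refine ⟨Tri_mul hM.1 hN.1, ?_⟩
  intro a
  rw [Matrix.mul_apply, Finset.sum_eq_single a]
  · rw [hM.2, hN.2, mul_one]
  · intro c _ hc
    rcases lt_or_gt_of_ne hc with h | h
    · rw [hM.1 a c h, zero_mul]
    · rw [hN.1 c a h, mul_zero]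
  · intro h
    exact absurd (Finset.mem_univ a) h

theorem Dg_one : Dg (1 : Matrix (Fin n) (Fin n) F) := fun _ _ h => Matrix.one_apply_ne h

theorem Dg_mul {M N : Matrix (Fin n) (Fin n) F} (hM : Dg M) (hN : Dg N) : Dg (M * N) := by
  intro a b hab
  rw [Matrix.mul_apply]
  apply Finset.sum_eq_zero
  intro c _
  by_cases h : a = c
  · subst h; rw [hN a b hab, mul_zero]
  · rw [hM a c h, zero_mul]

theorem Mon_one : Mon 1 (1 : Matrix (Fin n) (Fin n) F) := by
  intro a b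
  rw [Equiv.Perm.one_apply]
  constructor
  · intro h
    by_contra e
    exact h (Matrix.one_apply_ne e)
  · rintro rfl
    rw [Matrix.one_apply_eq]; exact one_ne_zero

theorem Mon_mul {π ρ : Equiv.Perm (Fin n)} {M N : Matrix (Fin n) (Fin n) F} (hM : Mon π M) (hN : Mon ρ N) :
    Mon (π * ρ) (M * N) := by
  intro a b
  have e : (M * N) a b = M a (ρ b) * N (ρ b) b := by
    rw [Matrix.mul_apply]
    apply Finset.sum_eq_single
    · intro c _ hc
      have : N c b = 0 := by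
        by_contra h
        exact hc ((hN c b).1 h)
      rw [this, mul_zero]
    · intro h; exact absurd (Finset.mem_univ _) h
  rw [e, Equiv.Perm.mul_apply, ← hM a (ρ b)]
  have h2 : N (ρ b) b ≠ 0 := (hN _ _).2 rfl
  constructor
  · intro h h'; exact h (by rw [h', zero_mul])
  · intro h; exact mul_ne_zero h h2

theorem Mon_uniq {π ρ : Equiv.Perm (Fin n)} {M : Matrix (Fin n) (Fin n) F} (h : Mon π M) (h' : Mon ρ M) :
    π = ρ := by
  apply Equiv.ext
  intro b
  exact (h' _ _).1 ((h (π b) b).2 rfl)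

theorem mt_mul_inv_rev (g h : GA n F q) : mt (g * h)⁻¹ = mt h⁻¹ * mt g⁻¹ := by
  rw [_root_.mul_inv_rev]; rfl

/-- the Borel subgroup: upper triangular matrices (see `H49SuMem.mem_BB`) -/
def BB (n : ℕ) (F : Type*) [Field F] (q : ℕ) : Subgroup (GA n F q) where
  carrier := {g | Tri (mt g) ∧ Tri (mt g⁻¹)}
  one_mem' := ⟨Tri_one, by rw [inv_one]; exact Tri_one⟩
  mul_mem' := fun {g h} hg hh => ⟨Tri_mul hg.1 hh.1, by rw [mt_mul_inv_rev]; exact Tri_mul hh.2 hg.2⟩
  inv_mem' := fun {g} hg => ⟨hg.2, by rw [inv_inv]; exact hg.1⟩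

/-- the torus: diagonal matrices (see `H49SuMem.mem_TT`) -/
def TT (n : ℕ) (F : Type*) [Field F] (q : ℕ) : Subgroup (GA n F q) where
  carrier := {g | Dg (mt g) ∧ Dg (mt g⁻¹)}
  one_mem' := ⟨Dg_one, by rw [inv_one]; exact Dg_one⟩
  mul_mem' := fun {g h} hg hh => ⟨Dg_mul hg.1 hh.1, by rw [mt_mul_inv_rev]; exact Dg_mul hh.2 hg.2⟩
  inv_mem' := fun {g} hg => ⟨hg.2, by rw [inv_inv]; exact hg.1⟩

/-- the unipotent radical: upper unitriangular matrices (see `H49SuMem.mem_UU`) -/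
def UU (n : ℕ) (F : Type*) [Field F] (q : ℕ) : Subgroup (GA n F q) where
  carrier := {g | UT (mt g) ∧ UT (mt g⁻¹)}
  one_mem' := ⟨UT_one, by rw [inv_one]; exact UT_one⟩
  mul_mem' := fun {g h} hg hh => ⟨UT_mul hg.1 hh.1, by rw [mt_mul_inv_rev]; exact UT_mul hh.2 hg.2⟩
  inv_mem' := fun {g} hg => ⟨hg.2, by rw [inv_inv]; exact hg.1⟩

/-- the monomial matrices (see `H49SuMem.mem_NN`) -/
def NN (n : ℕ) (F : Type*) [Field F] (q : ℕ) : Subgroup (GA n F q) where
  carrier := {g | (∃ π, Mon π (mt g)) ∧ ∃ π, Mon π (mt g⁻¹)}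
  one_mem' := ⟨⟨1, Mon_one⟩, ⟨1, by rw [inv_one]; exact Mon_one⟩⟩
  mul_mem' := fun {g h} hg hh => by
    obtain ⟨⟨π, h1⟩, ⟨π', h2⟩⟩ := hg
    obtain ⟨⟨ρ, h3⟩, ⟨ρ', h4⟩⟩ := hh
    exact ⟨⟨π * ρ, Mon_mul h1 h3⟩, ⟨ρ' * π', by rw [mt_mul_inv_rev]; exact Mon_mul h4 h2⟩⟩
  inv_mem' := fun {g} hg => ⟨hg.2, by rw [inv_inv]; exact hg.1⟩

theorem UU_le_BB : UU n F q ≤ BB n F q := fun _ h => ⟨h.1.1, h.2.1⟩

theorem TT_le_BB : TT n F q ≤ BB n F q := fun _ h =>
  ⟨fun a b hab => h.1 a b (ne_of_gt hab), fun a b hab => h.2 a b (ne_of_gt hab)⟩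

/-- the simple reflection number `k` (`2 * k + 2 ≤ n`) as a permutation of `Fin n`:
`(k, k+1)(rev k, rev (k+1))` if `2 * k + 3 < n`, and `(k, rev k)` if `2 * k + 3 = n` or `2 * k + 2 = n`. -/
def sgm (n k : ℕ) : Equiv.Perm (Fin n) :=
  if h : 2 * k + 3 < n then
    Equiv.swap (⟨k, by omega⟩ : Fin n) ⟨k + 1, by omega⟩ *
      Equiv.swap (Fin.rev (⟨k, by omega⟩ : Fin n)) (Fin.rev ⟨k + 1, by omega⟩)
  else if h' : 2 * k + 2 ≤ n then Equiv.swap (⟨k, by omega⟩ : Fin n) (Fin.rev ⟨k, by omega⟩)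
  else 1

/-- the inversions of `sgm n k` -/
def Inv (n k : ℕ) (a b : Fin n) : Prop := a < b ∧ sgm n k b < sgm n k a

/-- the positive root set of the simple reflection `k` -/
def XX (n : ℕ) (F : Type*) [Field F] (q k : ℕ) : Set (GA n F q) :=
  {x | (∀ a, mt x a a = 1) ∧ ∀ a b, a ≠ b → mt x a b ≠ 0 → Inv n k a b}

/-- the negative root set of the simple reflection `k` -/
def YY (n : ℕ) (F : Type*) [Field F] (q k : ℕ) : Set (GA n F q) :=
  {y | (∀ a, mt y a a = 1) ∧ ∀ a b, a ≠ b → mt y a b ≠ 0 → Inv n k b a}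

/-- the group of permutations generated by the simple reflections -/
def CL (n : ℕ) : Subgroup (Equiv.Perm (Fin n)) := Subgroup.closure {σ | ∃ k, 2 * k + 2 ≤ n ∧ σ = sgm n k}

open Classical in
/-- a representative of the simple reflection `k` (see `H49SuRefl.Mon_sk`) -/
noncomputable def sk (n : ℕ) (F : Type*) [Field F] (q k : ℕ) : GA n F q :=
  if h : ∃ s : GA n F q, Mon (sgm n k) (mt s) then h.choose else 1

/-- the simple reflections -/
def SS (n : ℕ) (F : Type*) [Field F] (q : ℕ) : Set (GA n F q) := {g | ∃ k, 2 * k + 2 ≤ n ∧ g = sk n F q k}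

end Cfsg.Agent.Lib.H49SuDefs
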