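import Mathlib
import Cfsg.Prelude.Def_Classical
import Cfsg.Prelude.Def_LieExceptional
import Cfsg.Agent.Lib.H49SuDefs

set_option autoImplicit false

/-! Project 2549 (Steinberg character of `PΩ⁻_{2m+2}(q)`): vocabulary.  `n = 2m+2` even; basis `e_0..e_{m-1}, w_1, w_2, f_{m-1}..f_0`
(`f_i = e_{rev i}`); the middle indices are `n/2-1`, `n/2`.  `GM n F a b` = full isometry group of `QM`.  Block predicates:
`BTri` block upper triangular, `BDg` block diagonal, `UTm` upper unitriangular with trivial middle block. -/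

namespace Cfsg.Agent.Lib.H49SmDefs

open Matrix
open Cfsg.Agent.Lib.H49SuDefs (sgm)

variable {n : ℕ} {F : Type*} [Field F] {a b : F}

/-- the quadratic form -/
def QM (n : ℕ) (F : Type*) [Field F] (a b : F) (v : Fin n → F) : F :=
  ∑ i : Fin n, if i.val + 1 < n / 2 then v i * v (Fin.rev i)
    else if i.val + 1 = n / 2 then v i ^ 2 + a * v i * v (Fin.rev i) + b * v (Fin.rev i) ^ 2 else 0

/-- the polar form -/
def BM (n : ℕ) (F : Type*) [Field F] (a b : F) (u v : Fin n → F) : F :=
  ∑ i : Fin n, if i.val + 1 = n / 2 then 2 * u i * v i + a * u i * v (Fin.rev i)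
    else if i.val = n / 2 then 2 * b * u i * v i + a * u i * v (Fin.rev i) else u i * v (Fin.rev i)

/-- the full orthogonal group of `QM` -/
abbrev GM (n : ℕ) (F : Type*) [Field F] (a b : F) := ↥(Cfsg.isometryGroup F (QM n F a b))

/-- the matrix of an element -/
def mt (g : GM n F a b) : Matrix (Fin n) (Fin n) F := ((g.1 : Matrix.GeneralLinearGroup (Fin n) F) : Matrix (Fin n) (Fin n) F)

theorem mt_one : mt (1 : GM n F a b) = 1 := rfl

theorem mt_mul (g h : GM n F a b) : mt (g * h) = mt g * mt h := rfl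

theorem mt_inj {g h : GM n F a b} (e : mt g = mt h) : g = h := Subtype.ext (Units.ext e)

/-- middle index -/
def md (n : ℕ) (i : Fin n) : Prop := i.val + 1 = n / 2 ∨ i.val = n / 2

/-- block upper triangular -/
def BTri (M : Matrix (Fin n) (Fin n) F) : Prop := ∀ x y : Fin n, y < x → ¬ (md n x ∧ md n y) → M x y = 0

/-- block diagonal -/
def BDg (M : Matrix (Fin n) (Fin n) F) : Prop := ∀ x y : Fin n, x ≠ y → ¬ (md n x ∧ md n y) → M x y = 0

/-- upper unitriangular with trivial middle block -/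
def UTm (M : Matrix (Fin n) (Fin n) F) : Prop :=
  (∀ x y : Fin n, y < x → M x y = 0) ∧ (∀ x, M x x = 1) ∧ ∀ x y : Fin n, md n x → md n y → x ≠ y → M x y = 0

/-- block monomial with permutation `π` (which should fix the two middle indices) -/
def BMon (π : Equiv.Perm (Fin n)) (M : Matrix (Fin n) (Fin n) F) : Prop :=
  ∀ x y : Fin n, ¬ (md n x ∧ md n y) → (M x y ≠ 0 ↔ x = π y)

/-- the simple reflections of type `B_m` (`2 * k + 4 ≤ n`): `(k, k+1)(rev k, rev (k+1))` if `2k+5 < n`, and `(k, rev k)` if `2k+4 = n` -/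
def sgB (n k : ℕ) : Equiv.Perm (Fin n) :=
  if 2 * k + 5 < n then sgm n k
  else if h' : 2 * k + 4 = n then Equiv.swap (⟨k, by omega⟩ : Fin n) (Fin.rev ⟨k, by omega⟩)
  else 1

/-- the inversions of `sgB n k` -/
def InvB (n k : ℕ) (x y : Fin n) : Prop := x < y ∧ sgB n k y < sgB n k x

/-- the positive root set -/
def XX (n : ℕ) (F : Type*) [Field F] (a b : F) (k : ℕ) : Set (GM n F a b) :=
  {g | (∀ x, mt g x x = 1) ∧ ∀ x y, x ≠ y → mt g x y ≠ 0 → InvB n k x y}

/-- the negative root set -/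
def YY (n : ℕ) (F : Type*) [Field F] (a b : F) (k : ℕ) : Set (GM n F a b) :=
  {g | (∀ x, mt g x x = 1) ∧ ∀ x y, x ≠ y → mt g x y ≠ 0 → InvB n k y x}

/-- permutation matrix -/
def pMat (F : Type*) [Field F] {n : ℕ} (π : Equiv.Perm (Fin n)) : Matrix (Fin n) (Fin n) F :=
  fun x y => if x = π y then 1 else 0

open Classical in
/-- the permutation matrix of `π` as an element of `GM` (for `π` commuting with `rev` and fixing the middle; see `H49SmPerm`) -/
noncomputable def pm (n : ℕ) (F : Type*) [Field F] (a b : F) (π : Equiv.Perm (Fin n)) : GM n F a b :=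
  if h : ∃ s : GM n F a b, mt s = pMat F π then h.choose else 1

/-- the simple reflections -/
def SB (n : ℕ) (F : Type*) [Field F] (a b : F) : Set (GM n F a b) := {g | ∃ k, 2 * k + 4 ≤ n ∧ g = pm n F a b (sgB n k)}

/-- admissible permutations -/
def Adm (n : ℕ) (π : Equiv.Perm (Fin n)) : Prop := (∀ x, π (Fin.rev x) = Fin.rev (π x)) ∧ ∀ x, md n x → π x = x

/-- anisotropy of the binary part -/
def Ani (a b : F) : Prop := ∀ z₁ z₂ : F, z₁ ^ 2 + a * z₁ * z₂ + b * z₂ ^ 2 = 0 → z₁ = 0 ∧ z₂ = 0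

end Cfsg.Agent.Lib.H49SmDefs
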