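import Mathlib
import Cfsg.Agent.Lib.H49SmDefs

set_option autoImplicit false

/-! Project 2549 (Steinberg character of `POmega-_{2m+2}(q)`), piece `Grp` (25m).

The subgroups.  Fill the `sorry`s: `BTri 1`, `BTri (M * N)` from `BTri M`, `BTri N` (for `y < x` not both middle: each term `M x z * N z y` vanishes: if `z < x` and not (x, z both middle) then `M x z = 0`; otherwise `y < z` or ... and `N z y = 0`; do the case analysis with the block rank `ρ i = if i.val < n/2 then i.val else i.val - 1`: `BTri M ↔ ∀ x y, ρ y < ρ x → M x y = 0`).  Same for `BDg`, `UTm`.  `(g * h)⁻¹ = h⁻¹ * g⁻¹`. -/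

namespace Cfsg.Agent.Lib.H49SmGrp

open Matrix Cfsg.Agent.Lib.H49SmDefs
open Cfsg.Agent.Lib.H49SuDefs (sgm Inv)

variable {n : ℕ} {F : Type*} [Field F] {a b : F}

theorem BTri_one : BTri (1 : Matrix (Fin n) (Fin n) F) := by
  intro x y hxy _
  exact Matrix.one_apply_ne (ne_of_gt hxy)

theorem BTri_mul {M N : Matrix (Fin n) (Fin n) F} (hM : BTri M) (hN : BTri N) : BTri (M * N) := by
  intro x y hxy hm
  rw [Matrix.mul_apply]
  apply Finset.sum_eq_zero
  intro z _
  by_cases h1 : z < x ∧ ¬ (md n x ∧ md n z)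
  · rw [hM x z h1.1 h1.2, zero_mul]
  · by_cases h3 : y < z ∧ ¬ (md n z ∧ md n y)
    · rw [hN z y h3.1 h3.2, mul_zero]
    · exfalso
      unfold md at *
      rw [Fin.lt_def] at *
      omega

theorem BDg_one : BDg (1 : Matrix (Fin n) (Fin n) F) := by
  intro x y hxy _
  exact Matrix.one_apply_ne hxy

theorem BDg_mul {M N : Matrix (Fin n) (Fin n) F} (hM : BDg M) (hN : BDg N) : BDg (M * N) := by
  intro x y hxy hm
  rw [Matrix.mul_apply]
  apply Finset.sum_eq_zero
  intro z _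
  by_cases h1 : x ≠ z ∧ ¬ (md n x ∧ md n z)
  · rw [hM x z h1.1 h1.2, zero_mul]
  · by_cases h3 : z ≠ y ∧ ¬ (md n z ∧ md n y)
    · rw [hN z y h3.1 h3.2, mul_zero]
    · exfalso
      unfold md at *
      simp only [ne_eq, Fin.ext_iff] at *
      omega

theorem UTm_one : UTm (1 : Matrix (Fin n) (Fin n) F) := by
  refine ⟨fun x y hxy => Matrix.one_apply_ne (ne_of_gt hxy), fun x => Matrix.one_apply_eq x,
    fun x y _ _ hxy => Matrix.one_apply_ne hxy⟩

theorem UTm_mul {M N : Matrix (Fin n) (Fin n) F} (hM : UTm M) (hN : UTm N) : UTm (M * N) := by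
  refine ⟨?_, ?_, ?_⟩
  · intro x y hxy
    rw [Matrix.mul_apply]
    apply Finset.sum_eq_zero
    intro z _
    by_cases h1 : z < x
    · rw [hM.1 x z h1, zero_mul]
    · rw [hN.1 z y (lt_of_lt_of_le hxy (not_lt.1 h1)), mul_zero]
  · intro x
    rw [Matrix.mul_apply, Finset.sum_eq_single x]
    · rw [hM.2.1, hN.2.1, one_mul]
    · intro z _ hz
      rcases lt_or_gt_of_ne hz with h | h
      · rw [hM.1 x z h, zero_mul]
      · rw [hN.1 z x h, mul_zero]
    · intro h; exact absurd (Finset.mem_univ _) h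
  · intro x y hx hy hxy
    rw [Matrix.mul_apply]
    apply Finset.sum_eq_zero
    intro z _
    by_cases h1 : z < x
    · rw [hM.1 x z h1, zero_mul]
    · by_cases h3 : y < z
      · rw [hN.1 z y h3, mul_zero]
      · -- x ≤ z ≤ y, all middle
        have hz : md n z := by
          unfold md at *
          rw [Fin.lt_def] at *
          omega
        by_cases hzx : x = z
        · subst hzx
          rw [hN.2.2 x y hx hy hxy, mul_zero]
        · rw [hM.2.2 x z hx hz hzx, zero_mul]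

theorem mt_mul_inv_rev (g h : GM n F a b) : mt (g * h)⁻¹ = mt h⁻¹ * mt g⁻¹ := by
  rw [_root_.mul_inv_rev]; rfl

/-- the Borel subgroup (full stabilizer of the flag) -/
def BB (n : ℕ) (F : Type*) [Field F] (a b : F) : Subgroup (GM n F a b) where
  carrier := {g | BTri (mt g) ∧ BTri (mt g⁻¹)}
  one_mem' := ⟨BTri_one, by rw [inv_one]; exact BTri_one⟩
  mul_mem' := fun {g h} hg hh => ⟨BTri_mul hg.1 hh.1, by rw [mt_mul_inv_rev]; exact BTri_mul hh.2 hg.2⟩
  inv_mem' := fun {g} hg => ⟨hg.2, by rw [inv_inv]; exact hg.1⟩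

/-- the torus `(F^×)^m × O(W)` -/
def TT (n : ℕ) (F : Type*) [Field F] (a b : F) : Subgroup (GM n F a b) where
  carrier := {g | BDg (mt g) ∧ BDg (mt g⁻¹)}
  one_mem' := ⟨BDg_one, by rw [inv_one]; exact BDg_one⟩
  mul_mem' := fun {g h} hg hh => ⟨BDg_mul hg.1 hh.1, by rw [mt_mul_inv_rev]; exact BDg_mul hh.2 hg.2⟩
  inv_mem' := fun {g} hg => ⟨hg.2, by rw [inv_inv]; exact hg.1⟩

/-- the unipotent radical -/
def UU (n : ℕ) (F : Type*) [Field F] (a b : F) : Subgroup (GM n F a b) where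
  carrier := {g | UTm (mt g) ∧ UTm (mt g⁻¹)}
  one_mem' := ⟨UTm_one, by rw [inv_one]; exact UTm_one⟩
  mul_mem' := fun {g h} hg hh => ⟨UTm_mul hg.1 hh.1, by rw [mt_mul_inv_rev]; exact UTm_mul hh.2 hg.2⟩
  inv_mem' := fun {g} hg => ⟨hg.2, by rw [inv_inv]; exact hg.1⟩

/-- the group `N` -/
def NN (n : ℕ) (F : Type*) [Field F] (a b : F) : Subgroup (GM n F a b) := Subgroup.closure (SB n F a b) ⊔ TT n F a b

theorem UU_le_BB : UU n F a b ≤ BB n F a b := fun _ h =>
  ⟨fun x y hxy _ => h.1.1 x y hxy, fun x y hxy _ => h.2.1 x y hxy⟩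

theorem TT_le_BB : TT n F a b ≤ BB n F a b := fun _ h =>
  ⟨fun x y hxy hm => h.1 x y (ne_of_gt hxy) hm, fun x y hxy hm => h.2 x y (ne_of_gt hxy) hm⟩

end Cfsg.Agent.Lib.H49SmGrp
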