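import Mathlib
import Cfsg.Agent.Lib.H49SmDefs
import Cfsg.Agent.Lib.Helper49Eich

set_option autoImplicit false

/-! Project 2549 (Steinberg character of `POmega-_{2m+2}(q)`), piece `QF` (35m).

`QM` as a `QuadraticForm`, polar form `BM`, Eichler transformations.
NOTE: `QM_single` needs `n` even (hypothesis `h2` added: the stub statement was false for odd `n`). -/

namespace Cfsg.Agent.Lib.H49SmQF

open Matrix Cfsg.Agent.Lib.H49SmDefs
open Cfsg.Agent.Lib.H49SuDefs (sgm Inv)

variable {n : ℕ} {F : Type*} [Field F] {a b : F}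

/-- the explicit polar form (termwise) -/
def PBq (n : ℕ) (F : Type*) [Field F] (a b : F) (u v : Fin n → F) : F :=
  ∑ i : Fin n, if i.val + 1 < n / 2 then u i * v (Fin.rev i) + v i * u (Fin.rev i)
    else if i.val + 1 = n / 2 then 2 * u i * v i + a * u i * v (Fin.rev i) + a * v i * u (Fin.rev i)
      + 2 * b * u (Fin.rev i) * v (Fin.rev i) else 0

theorem QM_add_PBq (u v : Fin n → F) :
    QM n F a b (u + v) = QM n F a b u + QM n F a b v + PBq n F a b u v := by
  unfold QM PBq
  rw [← Finset.sum_add_distrib, ← Finset.sum_add_distrib]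
  apply Finset.sum_congr rfl
  intro i _
  simp only [Pi.add_apply]
  split_ifs <;> ring

theorem PBq_add_left (u u' v : Fin n → F) :
    PBq n F a b (u + u') v = PBq n F a b u v + PBq n F a b u' v := by
  unfold PBq
  rw [← Finset.sum_add_distrib]
  apply Finset.sum_congr rfl
  intro i _
  simp only [Pi.add_apply]
  split_ifs <;> ring

theorem PBq_add_right (u v v' : Fin n → F) :
    PBq n F a b u (v + v') = PBq n F a b u v + PBq n F a b u v' := by
  unfold PBq
  rw [← Finset.sum_add_distrib]
  apply Finset.sum_congr rfl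
  intro i _
  simp only [Pi.add_apply]
  split_ifs <;> ring

theorem PBq_smul_left (c : F) (u v : Fin n → F) :
    PBq n F a b (c • u) v = c • PBq n F a b u v := by
  unfold PBq
  rw [smul_eq_mul, Finset.mul_sum]
  apply Finset.sum_congr rfl
  intro i _
  simp only [Pi.smul_apply, smul_eq_mul]
  split_ifs <;> ring

theorem PBq_smul_right (c : F) (u v : Fin n → F) :
    PBq n F a b u (c • v) = c • PBq n F a b u v := by
  unfold PBq
  rw [smul_eq_mul, Finset.mul_sum]
  apply Finset.sum_congr rfl
  intro i _
  simp only [Pi.smul_apply, smul_eq_mul]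
  split_ifs <;> ring

theorem PBq_eq_BM (h2 : n % 2 = 0) (u v : Fin n → F) : PBq n F a b u v = BM n F a b u v := by
  have hsplit : PBq n F a b u v =
      (∑ i : Fin n, if i.val + 1 < n / 2 then u i * v (Fin.rev i)
        else if i.val + 1 = n / 2 then 2 * u i * v i + a * u i * v (Fin.rev i) else 0) +
      (∑ i : Fin n, if i.val + 1 < n / 2 then v i * u (Fin.rev i)
        else if i.val + 1 = n / 2 then a * v i * u (Fin.rev i)
          + 2 * b * u (Fin.rev i) * v (Fin.rev i) else 0) := by
    unfold PBq
    rw [← Finset.sum_add_distrib]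
    apply Finset.sum_congr rfl
    intro i _
    split_ifs <;> ring
  rw [hsplit, ← Equiv.sum_comp Fin.revPerm (fun i : Fin n => if i.val + 1 < n / 2 then v i * u (Fin.rev i)
        else if i.val + 1 = n / 2 then a * v i * u (Fin.rev i)
          + 2 * b * u (Fin.rev i) * v (Fin.rev i) else 0), ← Finset.sum_add_distrib]
  unfold BM
  apply Finset.sum_congr rfl
  intro i _
  have hi := i.isLt
  simp only [Fin.revPerm_apply, Fin.rev_rev, Fin.val_rev]
  split_ifs <;> first | (exfalso; omega) | ring

theorem QM_add (h2 : n % 2 = 0) (u v : Fin n → F) : QM n F a b (u + v) = QM n F a b u + QM n F a b v + BM n F a b u v := by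
  rw [QM_add_PBq, PBq_eq_BM h2]

/-- `QM` as a quadratic form (`n` even is not needed for the definition: use `polar` of the explicit sum) -/
noncomputable def QF (n : ℕ) (F : Type*) [Field F] (a b : F) : QuadraticForm F (Fin n → F) where
  toFun := QM n F a b
  toFun_smul := by
    intro c v
    unfold QM
    rw [smul_eq_mul, Finset.mul_sum]
    apply Finset.sum_congr rfl
    intro i _
    simp only [Pi.smul_apply, smul_eq_mul]
    split_ifs <;> ring
  exists_companion' := by
    refine ⟨LinearMap.mk₂ F (PBq n F a b) PBq_add_left (fun c u v => PBq_smul_left c u v) PBq_add_right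
      (fun c u v => PBq_smul_right c u v), ?_⟩
    intro u v
    rw [LinearMap.mk₂_apply]
    exact QM_add_PBq u v

theorem QF_apply' (v : Fin n → F) : (QF n F a b) v = QM n F a b v := rfl

theorem polar_QF (h2 : n % 2 = 0) (u v : Fin n → F) : QuadraticMap.polar (⇑(QF n F a b)) u v = BM n F a b u v := by
  unfold QuadraticMap.polar
  rw [QF_apply', QF_apply', QF_apply', QM_add h2]
  ring

theorem QM_single (h2 : n % 2 = 0) (j : Fin n) (hj : ¬ md n j) (c : F) : QM n F a b (Pi.single j c) = 0 := by
  unfold QM
  apply Finset.sum_eq_zero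
  intro i _
  have hi := i.isLt
  have hjl := j.isLt
  unfold md at hj
  split_ifs with h1 h3
  · by_cases hij : i = j
    · have : Fin.rev i ≠ j := by
        intro h
        have h4 := congrArg Fin.val h
        rw [Fin.val_rev] at h4
        have h5 := congrArg Fin.val hij
        omega
      rw [Pi.single_eq_of_ne this, mul_zero]
    · rw [Pi.single_eq_of_ne hij, zero_mul]
  · have hij : i ≠ j := by
      intro h
      apply hj
      left
      rw [← h]; exact h3
    have hrj : Fin.rev i ≠ j := by
      intro h
      apply hj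
      right
      have h4 := congrArg Fin.val h
      rw [Fin.val_rev] at h4
      omega
    rw [Pi.single_eq_of_ne hij, Pi.single_eq_of_ne hrj]
    ring
  · rfl

theorem BM_single_right (h2 : n % 2 = 0) (j : Fin n) (hj : ¬ md n j) (x : Fin n → F) :
    BM n F a b x (Pi.single j 1) = x (Fin.rev j) := by
  have hjl := j.isLt
  unfold md at hj
  unfold BM
  rw [Finset.sum_eq_single (Fin.rev j)]
  · rw [Fin.rev_rev, Pi.single_eq_same]
    rw [if_neg (by rw [Fin.val_rev]; omega), if_neg (by rw [Fin.val_rev]; omega), mul_one]
  · intro i _ hi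
    have hil := i.isLt
    have hr : Fin.rev i ≠ j := by
      intro h
      apply hi
      rw [← h, Fin.rev_rev]
    split_ifs with h1 h3
    · have hij : i ≠ j := by
        intro h
        apply hj
        left
        rw [← h]; exact h1
      rw [Pi.single_eq_of_ne hr, Pi.single_eq_of_ne hij]
      ring
    · have hij : i ≠ j := by
        intro h
        apply hj
        right
        rw [← h]; exact h3
      rw [Pi.single_eq_of_ne hr, Pi.single_eq_of_ne hij]
      ring
    · rw [Pi.single_eq_of_ne hr, mul_zero]
  · intro h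
    exact absurd (Finset.mem_univ _) h

theorem BM_single_left (h2 : n % 2 = 0) (j : Fin n) (hj : ¬ md n j) (x : Fin n → F) :
    BM n F a b (Pi.single j 1) x = x (Fin.rev j) := by
  unfold md at hj
  unfold BM
  rw [Finset.sum_eq_single j]
  · rw [Pi.single_eq_same, if_neg (fun h => hj (Or.inl h)), if_neg (fun h => hj (Or.inr h)), one_mul]
  · intro i _ hi
    rw [Pi.single_eq_of_ne hi]
    split_ifs <;> ring
  · intro h
    exact absurd (Finset.mem_univ _) h

/-- the Eichler transformation `E(e_j, w)` -/
noncomputable def EE (a b : F) (j : Fin n) (w : Fin n → F) : GM n F a b :=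
  Cfsg.Agent.Lib.Helper49Eich.E (QF n F a b) (Pi.single j 1) w

theorem EE_apply (h2 : n % 2 = 0) (j : Fin n) (hj : ¬ md n j) (w : Fin n → F) (hw : w (Fin.rev j) = 0) (x : Fin n → F) :
    mt (EE a b j w) *ᵥ x = x + (BM n F a b x w - QM n F a b w * x (Fin.rev j)) • Pi.single j 1 - x (Fin.rev j) • w := by
  have he : (QF n F a b) (Pi.single j 1) = 0 := QM_single h2 j hj 1
  have hw' : QuadraticMap.polar (⇑(QF n F a b)) (Pi.single j 1) w = 0 := by
    rw [polar_QF h2, BM_single_left h2 j hj, hw]
  have h := Cfsg.Agent.Lib.Helper49Eich.E_apply (QF n F a b) he hw' x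
  rw [polar_QF h2, polar_QF h2, BM_single_right h2 j hj] at h
  exact h

end Cfsg.Agent.Lib.H49SmQF
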