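import Mathlib
import Cfsg.Agent.Lib.H49SmDefs
import Cfsg.Agent.Lib.H49SmGrp
import Cfsg.Agent.Lib.H49SmQF

set_option autoImplicit false

/-! Project 2549, backup for the sub-piece `RankLZ` of `SmRankL`. -/

namespace Cfsg.Agent.Lib.H38SmRLZ

open Matrix Cfsg.Agent.Lib.H49SmDefs
open Cfsg.Agent.Lib.H49SmGrp Cfsg.Agent.Lib.H49SmQF

variable {n : ℕ} {F : Type*} [Field F] {a b : F}

theorem zy (h2 : n % 2 = 0) (j : Fin n) (hj : ¬ md n j) (w : Fin n → F) (hw : w (Fin.rev j) = 0) :
    EE a b j w * EE a b j (-w) = 1 := by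
  have he : (QF n F a b) (Pi.single j 1) = 0 := QM_single h2 j hj 1
  have hw' : QuadraticMap.polar (⇑(QF n F a b)) (Pi.single j 1) w = 0 := by
    rw [polar_QF h2, BM_single_left h2 j hj, hw]
  have hw'' : QuadraticMap.polar (⇑(QF n F a b)) (Pi.single j 1) (-w) = 0 := by
    rw [QuadraticMap.polar_neg_right, hw', neg_zero]
  have h1 := Cfsg.Agent.Lib.Helper49Eich.E_mul (QF n F a b) he hw' hw''
  rw [add_neg_cancel, Cfsg.Agent.Lib.Helper49Eich.E_zero] at h1
  exact h1

theorem entry (h2 : n % 2 = 0) (j : Fin n) (hj : ¬ md n j) (w : Fin n → F) (hw : w (Fin.rev j) = 0)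
    (x y : Fin n) : mt (EE a b j w) x y =
      (Pi.single y 1 : Fin n → F) x + (BM n F a b (Pi.single y 1) w
        - QM n F a b w * (Pi.single y 1 : Fin n → F) (Fin.rev j)) * (Pi.single j 1 : Fin n → F) x
        - (Pi.single y 1 : Fin n → F) (Fin.rev j) * w x := by
  have h := congrFun (EE_apply (a := a) (b := b) h2 j hj w hw (Pi.single y 1)) x
  rw [Matrix.mulVec_single_one] at h
  simpa using h

theorem mem_YY (h2 : n % 2 = 0) {k : ℕ} (hk : 2 * k + 4 = n) (w : Fin n → F)
    (hw : ∀ i, ¬ md n i → w i = 0) :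
    EE a b (Fin.rev (⟨k, by omega⟩ : Fin n)) w ∈ YY n F a b k := by
  set kk : Fin n := ⟨k, by omega⟩ with hkk
  have hkv : kk.val = k := rfl
  have hfv : (Fin.rev kk).val = k + 3 := by rw [Fin.val_rev]; omega
  have hmk : ¬ md n kk := by unfold md; omega
  have hmf : ¬ md n (Fin.rev kk) := by unfold md; omega
  have hwk : w (Fin.rev (Fin.rev kk)) = 0 := by rw [Fin.rev_rev]; exact hw _ hmk
  have hne : Fin.rev kk ≠ kk := fun h => by rw [Fin.ext_iff] at h; omega
  have hsg : sgB n k = Equiv.swap kk (Fin.rev kk) := by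
    unfold sgB
    rw [if_neg (by omega), dif_pos hk]
  have hBM : ∀ y : Fin n, ¬ md n y → BM n F a b (Pi.single y 1) w = 0 := by
    intro y hy
    rw [BM_single_left h2 y hy]
    apply hw
    unfold md at hy ⊢
    rw [Fin.val_rev]
    have := y.isLt
    omega
  constructor
  · intro x
    rw [entry h2 _ hmf w hwk, Fin.rev_rev, Pi.single_eq_same]
    by_cases hxf : x = Fin.rev kk
    · subst hxf
      rw [hBM _ hmf, Pi.single_eq_of_ne hne.symm]
      simp
    · rw [Pi.single_eq_of_ne hxf]
      by_cases hxk : x = kk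
      · rw [hxk, hw _ hmk]; simp
      · rw [Pi.single_eq_of_ne (Ne.symm hxk)]; simp
  · intro x y hxy hne0
    rw [entry h2 _ hmf w hwk, Fin.rev_rev, Pi.single_eq_of_ne hxy] at hne0
    unfold InvB
    rw [hsg]
    by_cases hyk : y = kk
    · subst hyk
      rw [Equiv.swap_apply_left]
      by_cases hxf : x = Fin.rev kk
      · rw [hxf, Equiv.swap_apply_right]
        constructor <;> rw [Fin.lt_def] <;> omega
      · have hmx : md n x := by
          by_contra hmx
          apply hne0
          rw [Pi.single_eq_of_ne hxf, hw x hmx]; simp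
        rw [Equiv.swap_apply_of_ne_of_ne hxy hxf]
        unfold md at hmx
        constructor <;> rw [Fin.lt_def] <;> omega
    · rw [Pi.single_eq_of_ne (Ne.symm hyk)] at hne0
      have hxf : x = Fin.rev kk := by
        by_contra hxf
        apply hne0
        rw [Pi.single_eq_of_ne hxf]; simp
      have hmy : md n y := by
        by_contra hmy
        apply hne0
        rw [hBM y hmy]; simp
      rw [hxf, Equiv.swap_apply_right, Equiv.swap_apply_of_ne_of_ne hyk (by rw [← hxf]; exact hxy.symm)]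
      unfold md at hmy
      constructor <;> rw [Fin.lt_def] <;> omega

end Cfsg.Agent.Lib.H38SmRLZ
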