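import Mathlib

/-! # Project 40 (S5798), piece `CW`: two quadratic forms in at least 5 variables over a finite field
have a common non-trivial zero (Chevalley-Warning).  PURE MATHLIB. -/

set_option autoImplicit false

namespace Cfsg.Agent.Lib.H40O6CW

open MvPolynomial in
/-- the quadratic polynomial of a bilinear form -/
noncomputable def qpoly {F : Type*} [Field F] {n : ℕ} (C : LinearMap.BilinForm F (Fin n → F)) :
    MvPolynomial (Fin n) F :=
  ∑ i, ∑ j, MvPolynomial.C (C (Pi.single i 1) (Pi.single j 1)) * X i * X j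

theorem eval_qpoly {F : Type*} [Field F] {n : ℕ} (C : LinearMap.BilinForm F (Fin n → F))
    (x : Fin n → F) : MvPolynomial.eval x (qpoly C) = C x x := by
  have hx : x = ∑ i, x i • Pi.single i (1 : F) := by
    ext j
    simp [Finset.sum_apply, Pi.single_apply]
  conv_rhs => rw [hx]
  simp only [qpoly, map_sum, LinearMap.sum_apply, map_smul, LinearMap.smul_apply, smul_eq_mul,
    map_mul, MvPolynomial.eval_C, MvPolynomial.eval_X]
  rw [Finset.sum_comm]
  refine Finset.sum_congr rfl fun i _ => ?_
  rw [Finset.mul_sum]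
  refine Finset.sum_congr rfl fun j _ => ?_
  ring

theorem totalDegree_qpoly {F : Type*} [Field F] {n : ℕ} (C : LinearMap.BilinForm F (Fin n → F)) :
    (qpoly C).totalDegree ≤ 2 := by
  unfold qpoly
  refine MvPolynomial.totalDegree_finsetSum_le fun i _ => ?_
  refine MvPolynomial.totalDegree_finsetSum_le fun j _ => ?_
  refine (MvPolynomial.totalDegree_mul _ _).trans ?_
  have h1 := MvPolynomial.totalDegree_mul
    (MvPolynomial.C (C (Pi.single i 1) (Pi.single j 1)) : MvPolynomial (Fin n) F)
    (MvPolynomial.X i)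
  rw [MvPolynomial.totalDegree_C, MvPolynomial.totalDegree_X] at h1
  rw [MvPolynomial.totalDegree_X]
  omega

theorem common_zero {F : Type*} [Field F] [Fintype F] {n : ℕ} (hn : 5 ≤ n)
    (C C' : LinearMap.BilinForm F (Fin n → F)) :
    ∃ x : Fin n → F, x ≠ 0 ∧ C x x = 0 ∧ C' x x = 0 := by
  classical
  have hp : Fact (ringChar F).Prime := ⟨CharP.char_is_prime F (ringChar F)⟩
  have hd : (qpoly C).totalDegree + (qpoly C').totalDegree < Fintype.card (Fin n) := by
    have h1 := totalDegree_qpoly C
    have h2 := totalDegree_qpoly C'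
    rw [Fintype.card_fin]
    omega
  have hdvd := char_dvd_card_solutions_of_add_lt (ringChar F) hd
  let z : { x : Fin n → F // MvPolynomial.eval x (qpoly C) = 0 ∧
      MvPolynomial.eval x (qpoly C') = 0 } := ⟨0, by rw [eval_qpoly, eval_qpoly]; simp⟩
  have hpos : 0 < Fintype.card { x : Fin n → F // MvPolynomial.eval x (qpoly C) = 0 ∧
      MvPolynomial.eval x (qpoly C') = 0 } := Fintype.card_pos_iff.2 ⟨z⟩
  have h1 : 1 < Fintype.card { x : Fin n → F // MvPolynomial.eval x (qpoly C) = 0 ∧
      MvPolynomial.eval x (qpoly C') = 0 } :=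
    lt_of_lt_of_le hp.out.one_lt (Nat.le_of_dvd hpos hdvd)
  obtain ⟨y, hy⟩ := Fintype.exists_ne_of_one_lt_card h1 z
  refine ⟨y.1, fun h0 => hy (Subtype.ext h0), ?_, ?_⟩
  · rw [← eval_qpoly]; exact y.2.1
  · rw [← eval_qpoly]; exact y.2.2

end Cfsg.Agent.Lib.H40O6CW
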