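import Cfsg.Agent.Lib.H65DecCalc

/-! # Project 66 (S5634), piece `Proj` -/

set_option autoImplicit false
set_option linter.unusedSectionVars false
set_option linter.unusedVariables false

namespace Cfsg.Agent.Lib.H65DecProj

open Matrix Module Cfsg.Geo Cfsg.Agent.Lib.Helper95Basic Cfsg.Agent.Lib.H65DecDefs
  Cfsg.Agent.Lib.H65DecCalc

variable {ι : Type} [Fintype ι] [DecidableEq ι] {F : Type*} [Field F]
variable {t m : ℕ} {D : Fin t → Submodule F (ι → F)}

lemma isCompl_aux (hD : IsMDecomposition m D) (i : Fin t) :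
    IsCompl (D i) (⨆ (j) (_ : j ≠ i), D j) := by
  refine ⟨hD.indep i, ?_⟩
  rw [codisjoint_iff, ← iSup_split_single D i, hD.iSup_eq_top]

/-- the projection onto `D i` along the other members (as an endomorphism of `V`) -/
noncomputable def prj (hD : IsMDecomposition m D) (i : Fin t) : (ι → F) →ₗ[F] (ι → F) :=
  (D i).subtype ∘ₗ (D i).projectionOnto _ (isCompl_aux hD i)

variable (hD : IsMDecomposition m D)

lemma prj_mem (i : Fin t) (x : ι → F) : prj hD i x ∈ D i := by
  simp [prj]

lemma prj_of_mem {i : Fin t} {x : ι → F} (hx : x ∈ D i) : prj hD i x = x := by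
  have := Submodule.projectionOnto_apply_left (isCompl_aux hD i) ⟨x, hx⟩
  simp only [prj, LinearMap.comp_apply, Submodule.subtype_apply]
  exact congrArg Subtype.val this

lemma prj_of_mem_ne {i j : Fin t} (hij : j ≠ i) {x : ι → F} (hx : x ∈ D j) : prj hD i x = 0 := by
  have hx' : x ∈ ⨆ (j) (_ : j ≠ i), D j :=
    (le_iSup₂ (f := fun (j : Fin t) (_ : j ≠ i) => D j) j hij) hx
  have := Submodule.projectionOnto_apply_of_mem_right (isCompl_aux hD i) hx'
  simp only [prj, LinearMap.comp_apply, Submodule.subtype_apply]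
  rw [this]
  rfl

lemma sum_prj (x : ι → F) : ∑ i, prj hD i x = x := by
  have hx : x ∈ ⨆ i, D i := by rw [hD.iSup_eq_top]; trivial
  refine Submodule.iSup_induction D (motive := fun x => ∑ i, prj hD i x = x) hx ?_ ?_ ?_
  · intro j x hx
    rw [Finset.sum_eq_single j, prj_of_mem hD hx]
    · intro i _ hij
      exact prj_of_mem_ne hD (Ne.symm hij) hx
    · intro h; exact absurd (Finset.mem_univ j) h
  · simp
  · intro x y hx hy
    simp only [map_add, Finset.sum_add_distrib, hx, hy]

include hD in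
lemma eq_zero_of_mem_of_mem {i j : Fin t} (hij : i ≠ j) {x : ι → F} (hi : x ∈ D i) (hj : x ∈ D j) :
    x = 0 := by
  rw [← prj_of_mem hD hi, prj_of_mem_ne hD (Ne.symm hij) hj]

include hD in
lemma card_eq : m * t = Fintype.card ι := by
  have hint := DirectSum.isInternal_submodule_of_iSupIndep_of_iSup_eq_top hD.indep hD.iSup_eq_top
  have e := LinearEquiv.ofBijective (DirectSum.coeLinearMap D) hint
  have h1 := e.finrank_eq
  rw [Module.finrank_directSum, Module.finrank_fintype_fun_eq_card] at h1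
  rw [← h1]
  simp [hD.finrank_eq, mul_comm]

lemma pure_comp (i : Fin t) (φ : Dual F (ι → F)) : Pure D i (φ ∘ₗ prj hD i) := by
  intro j hj x hx
  rw [LinearMap.comp_apply, prj_of_mem_ne hD hj hx, map_zero]

lemma pure_apply {i : Fin t} {φ : Dual F (ι → F)} (hφ : Pure D i φ) (x : ι → F) :
    φ x = φ (prj hD i x) := by
  conv_lhs => rw [← sum_prj hD x, map_sum]
  rw [Finset.sum_eq_single i]
  · intro j _ hj
    exact hφ j hj _ (prj_mem hD j x)
  · intro h; exact absurd (Finset.mem_univ i) h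

lemma pure_add {i : Fin t} {φ ψ : Dual F (ι → F)} (h1 : Pure D i φ) (h2 : Pure D i ψ) :
    Pure D i (φ + ψ) := by
  intro j hj x hx
  rw [LinearMap.add_apply, h1 j hj x hx, h2 j hj x hx, add_zero]

lemma pure_smul {i : Fin t} {φ : Dual F (ι → F)} (c : F) (h1 : Pure D i φ) : Pure D i (c • φ) := by
  intro j hj x hx
  rw [LinearMap.smul_apply, h1 j hj x hx, smul_zero]

include hD in
lemma dual_eq_zero {φ : Dual F (ι → F)} (h : ∀ i, ∀ x ∈ D i, φ x = 0) : φ = 0 := by
  apply LinearMap.ext
  intro x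
  rw [← sum_prj hD x, map_sum]
  simp only [LinearMap.zero_apply]
  exact Finset.sum_eq_zero fun i _ => h i _ (prj_mem hD i x)

/-- every functional is the sum of its pure components -/
lemma dual_eq_sum_pure (φ : Dual F (ι → F)) : φ = ∑ i, φ ∘ₗ prj hD i := by
  apply LinearMap.ext
  intro x
  conv_lhs => rw [← sum_prj hD x, map_sum]
  simp [LinearMap.sum_apply]

include hD in
lemma exists_not_mem_of_finrank_lt (i : Fin t) (S : Submodule F (ι → F))
    (h : Module.finrank F S < m) : ∃ c ∈ D i, c ∉ S := by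
  by_contra hcon
  push Not at hcon
  have hle : D i ≤ S := hcon
  have := Submodule.finrank_mono hle
  rw [hD.finrank_eq] at this
  omega

lemma exists_pure_kill {i : Fin t} (S : Submodule F (ι → F)) {c : ι → F} (hc : c ∈ D i)
    (hcS : c ∉ S) :
    ∃ φ : Dual F (ι → F), Pure D i φ ∧ φ c = 1 ∧ ∀ x, prj hD i x ∈ S → φ x = 0 := by
  obtain ⟨f, hfc, hf⟩ := Submodule.exists_le_ker_of_notMem hcS
  refine ⟨(f c)⁻¹ • (f ∘ₗ prj hD i), pure_smul _ (pure_comp hD i f), ?_, ?_⟩
  · rw [LinearMap.smul_apply, LinearMap.comp_apply, prj_of_mem hD hc, smul_eq_mul,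
      inv_mul_cancel₀ hfc]
  · intro x hx
    rw [LinearMap.smul_apply, LinearMap.comp_apply, LinearMap.mem_ker.mp (hf hx), smul_zero]

include hD in
lemma exists_ne_zero (i : Fin t) : ∃ x ∈ D i, x ≠ 0 := by
  obtain ⟨c, hc, hc'⟩ := exists_not_mem_of_finrank_lt hD i ⊥ (by rw [finrank_bot]; exact hD.pos)
  exact ⟨c, hc, fun h => hc' (by rw [h]; exact Submodule.zero_mem _)⟩

lemma finrank_span_singleton_le (x : ι → F) : Module.finrank F (Submodule.span F {x}) ≤ 1 := by
  have := finrank_span_le_card (R := F) ({x} : Set (ι → F))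
  simpa using this

lemma finrank_span_pair_le (x y : ι → F) : Module.finrank F (Submodule.span F {x, y}) ≤ 2 := by
  classical
  have := finrank_span_finset_le_card (R := F) ({x, y} : Finset (ι → F))
  have h2 : ({x, y} : Finset (ι → F)).card ≤ 2 := Finset.card_le_two
  have h3 : Set.finrank F (↑({x, y} : Finset (ι → F)) : Set (ι → F))
      = Module.finrank F (Submodule.span F ({x, y} : Set (ι → F))) := by
    have h4 : (↑({x, y} : Finset (ι → F)) : Set (ι → F)) = {x, y} := by simp
    rw [h4, Set.finrank]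
  omega

include hD in
lemma exists_not_mem_span (hm : 2 ≤ m) (i : Fin t) (x : ι → F) :
    ∃ y ∈ D i, y ∉ Submodule.span F {x} :=
  exists_not_mem_of_finrank_lt hD i _ (by have := finrank_span_singleton_le (F := F) x; omega)

include hD in
/-- a non-zero pure functional killing one given vector (`m ≥ 2`) -/
lemma exists_pure_one (hm : 2 ≤ m) (i : Fin t) (x : ι → F) :
    ∃ φ : Dual F (ι → F), Pure D i φ ∧ φ ≠ 0 ∧ φ x = 0 := by
  obtain ⟨c, hc, hcS⟩ := exists_not_mem_span hD hm i (prj hD i x)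
  obtain ⟨φ, h1, h2, h3⟩ := exists_pure_kill hD _ hc hcS
  refine ⟨φ, h1, ?_, h3 x (Submodule.mem_span_singleton_self _)⟩
  rintro rfl
  simp at h2

include hD in
/-- a non-zero pure functional killing two given vectors (`m ≥ 3`) -/
lemma exists_pure_two (hm : 3 ≤ m) (i : Fin t) (x y : ι → F) :
    ∃ φ : Dual F (ι → F), Pure D i φ ∧ φ ≠ 0 ∧ φ x = 0 ∧ φ y = 0 := by
  obtain ⟨c, hc, hcS⟩ := exists_not_mem_of_finrank_lt hD i
    (Submodule.span F {prj hD i x, prj hD i y})
    (by have := finrank_span_pair_le (F := F) (prj hD i x) (prj hD i y); omega)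
  obtain ⟨φ, h1, h2, h3⟩ := exists_pure_kill hD _ hc hcS
  refine ⟨φ, h1, ?_, h3 x (Submodule.subset_span (by simp)), h3 y (Submodule.subset_span (by simp))⟩
  rintro rfl
  simp at h2

include hD in
lemma exists_pure_eq_one {i : Fin t} {y : ι → F} (hy : y ∈ D i) (hy0 : y ≠ 0) :
    ∃ φ : Dual F (ι → F), Pure D i φ ∧ φ y = 1 := by
  obtain ⟨φ, h1, h2, -⟩ := exists_pure_kill hD ⊥ hy (by simpa using hy0)
  exact ⟨φ, h1, h2⟩

include hD in
/-- a pure functional separating `y` from `x` (both in `D i`) -/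
lemma exists_pure_sep {i : Fin t} {x y : ι → F} (hx : x ∈ D i) (hy : y ∈ D i)
    (hxy : y ∉ Submodule.span F {x}) :
    ∃ φ : Dual F (ι → F), Pure D i φ ∧ φ x = 0 ∧ φ y = 1 := by
  obtain ⟨φ, h1, h2, h3⟩ := exists_pure_kill hD _ hy hxy
  exact ⟨φ, h1, h3 x (by rw [prj_of_mem hD hx]; exact Submodule.mem_span_singleton_self _), h2⟩

include hD in
/-- a non-zero pure functional takes the value 1 on `D i` -/
lemma exists_mem_eq_one {i : Fin t} {φ : Dual F (ι → F)} (hφ : Pure D i φ) (h0 : φ ≠ 0) :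
    ∃ y ∈ D i, φ y = 1 := by
  obtain ⟨x, hx⟩ : ∃ x, φ x ≠ 0 := by
    by_contra hcon
    push Not at hcon
    exact h0 (LinearMap.ext hcon)
  refine ⟨(φ x)⁻¹ • prj hD i x, (D i).smul_mem _ (prj_mem hD i x), ?_⟩
  rw [map_smul, ← pure_apply hD hφ, smul_eq_mul, inv_mul_cancel₀ hx]

include hD in
/-- if `m = 2`, `a, y ∈ D i` independent, then `D i` is spanned by `a, y` -/
lemma mem_span_pair (hm : m = 2) {i : Fin t} {a y x : ι → F} (ha : a ∈ D i) (ha0 : a ≠ 0)
    (hy : y ∈ D i) (hya : y ∉ Submodule.span F {a}) (hx : x ∈ D i) :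
    ∃ r s : F, x = r • a + s • y := by
  have hli : LinearIndependent F ![a, y] := by
    rw [LinearIndependent.pair_iff]
    intro s u hsu
    have hu : u = 0 := by
      by_contra hu
      apply hya
      rw [Submodule.mem_span_singleton]
      refine ⟨-(u⁻¹ * s), ?_⟩
      have : u • y = -(s • a) := eq_neg_of_add_eq_zero_right hsu
      calc -(u⁻¹ * s) • a = u⁻¹ • (-(s • a)) := by rw [neg_smul, mul_smul, smul_neg]
        _ = u⁻¹ • (u • y) := by rw [this]
        _ = y := by rw [smul_smul, inv_mul_cancel₀ hu, one_smul]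
    subst hu
    rw [zero_smul, add_zero] at hsu
    exact ⟨(smul_eq_zero.mp hsu).resolve_right ha0, rfl⟩
  have hspan : Submodule.span F (Set.range ![a, y]) = D i := by
    apply Submodule.eq_of_le_of_finrank_eq
    · rw [Submodule.span_le]
      rintro _ ⟨k, rfl⟩
      fin_cases k
      · exact ha
      · exact hy
    · rw [finrank_span_eq_card hli, hD.finrank_eq, hm]
      simp
  rw [← hspan] at hx
  have hr : Set.range ![a, y] = {a, y} := by
    ext v
    simp [eq_comm, or_comm]
  rw [hr, Submodule.mem_span_pair] at hx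
  obtain ⟨r, s, h⟩ := hx
  exact ⟨r, s, h.symm⟩

include hD in
/-- membership in the stabiliser: it is enough to map every `D i` into some `D (σ i)` -/
lemma mem_stab_of_le (g : GL ι F) (σ : Equiv.Perm (Fin t))
    (h : ∀ i, ∀ x ∈ D i, (g : Matrix ι ι F) *ᵥ x ∈ D (σ i)) : g ∈ decompositionStabilizer D := by
  refine ⟨σ, fun i => ?_⟩
  have hinj : Function.Injective (Matrix.toLin' (g : Matrix ι ι F)) := by
    intro x y hxy
    simp only [Matrix.toLin'_apply] at hxy
    rw [← inv_mulVec_mulVec g x, hxy, inv_mulVec_mulVec]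
  apply Submodule.eq_of_le_of_finrank_eq
  · rintro _ ⟨x, hx, rfl⟩
    rw [Matrix.toLin'_apply]
    exact h i x hx
  · rw [← (Submodule.equivMapOfInjective _ hinj (D i)).finrank_eq, hD.finrank_eq, hD.finrank_eq]

end Cfsg.Agent.Lib.H65DecProj
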