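import Cfsg.Agent.Lib.H65DecMonApi
import Cfsg.Agent.Lib.H65DecProj

/-! # Project 66 (S5634), piece `Line` -/

set_option autoImplicit false
set_option linter.unusedSectionVars false
set_option linter.unusedVariables false

namespace Cfsg.Agent.Lib.H65DecLine

open Matrix Module Cfsg.Geo Cfsg.Agent.Lib.Helper95Basic Cfsg.Agent.Lib.H65DecDefs
  Cfsg.Agent.Lib.H65DecCalc

variable {ι : Type} [Fintype ι] [DecidableEq ι] {F : Type*} [Field F]
variable {t m : ℕ} {D : Fin t → Submodule F (ι → F)}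

/-- a decomposition into lines is conjugate to the standard frame -/
theorem line_conj {n : ℕ} {D : Fin t → Submodule F (Fin n → F)} (hD : IsMDecomposition 1 D) :
    ∃ P : GL (Fin n) F, ∀ g : GL (Fin n) F,
      g ∈ decompositionStabilizer D ↔ P⁻¹ * g * P ∈ Mon (Fin n) F := by
  obtain rfl : t = n := by
    have := Cfsg.Agent.Lib.H65DecProj.card_eq hD
    simpa using this
  choose v hv hv0 using Cfsg.Agent.Lib.H65DecProj.exists_ne_zero hD
  have hspan : ∀ i, ∀ w ∈ D i, ∃ c : F, w = c • v i := by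
    intro i w hw
    have h1 := (finrank_eq_one_iff_of_nonzero' (⟨v i, hv i⟩ : D i) (by
      intro h; exact hv0 i (congrArg Subtype.val h))).mp (hD.finrank_eq i) ⟨w, hw⟩
    obtain ⟨c, hc⟩ := h1
    exact ⟨c, (congrArg Subtype.val hc).symm⟩
  have hli : LinearIndependent F v := hD.indep.linearIndependent D hv hv0
  have : Nonempty (Fin t) := ⟨⟨0, by have := hD.two_le; omega⟩⟩
  let b := basisOfLinearIndependentOfCardEqFinrank hli (by simp)
  have hb : ∀ i, b i = v i := fun i => by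
    simp [b]
  let P : GL (Fin t) F := mkGL b.equivFun.symm
  have hP : ∀ j, (P : Matrix (Fin t) (Fin t) F) *ᵥ e j = v j := by
    intro j
    rw [mkGL_mulVec, Basis.equivFun_symm_apply]
    simp [hb]
  have hP' : ∀ j, ((P⁻¹ : GL (Fin t) F) : Matrix (Fin t) (Fin t) F) *ᵥ v j = e j := by
    intro j
    rw [← hP j, inv_mulVec_mulVec]
  refine ⟨P, fun g => ⟨?_, ?_⟩⟩
  · rintro ⟨σ, hσ⟩
    refine ⟨σ, fun j => ?_⟩
    have h1 : (g : Matrix (Fin t) (Fin t) F) *ᵥ v j ∈ D (σ j) := by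
      rw [← hσ j]
      exact ⟨v j, hv j, by simp⟩
    obtain ⟨c, hc⟩ := hspan _ _ h1
    refine ⟨c, ?_⟩
    rw [mul_mulVec, mul_mulVec, hP, hc, Matrix.mulVec_smul, hP']
  · rintro ⟨σ, hσ⟩
    apply Cfsg.Agent.Lib.H65DecProj.mem_stab_of_le hD g σ
    intro i x hx
    obtain ⟨c, rfl⟩ := hspan i x hx
    obtain ⟨c', hc'⟩ := hσ i
    rw [mul_mulVec, mul_mulVec, hP] at hc'
    have h2 : (g : Matrix (Fin t) (Fin t) F) *ᵥ v i = c' • v (σ i) := by
      rw [← mulVec_inv_mulVec P ((g : Matrix (Fin t) (Fin t) F) *ᵥ v i), hc', Matrix.mulVec_smul, hP]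
    rw [Matrix.mulVec_smul, h2]
    exact (D (σ i)).smul_mem _ ((D (σ i)).smul_mem _ (hv _))

end Cfsg.Agent.Lib.H65DecLine
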