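import Cfsg.Agent.Lib.H65DecBig
import Cfsg.Agent.Lib.H65DecLine
import Cfsg.Agent.Lib.H40O6Mon

/-! # Project 40 (S5798): decomposition stabilisers are maximal in `SL_n(q)` (monomial case: `n ≥ 6`)

The proof is helper65's proof of S5634 with `mon_main6`. -/

set_option autoImplicit false
open Cfsg

namespace Cfsg.Agent.Lib.H40O6Dec

theorem dec_max6 {F : Type*} [Field F] [Fintype F] (n : ℕ) (hn : 5 ≤ n) {t : ℕ} (m : ℕ) (D : Fin t → Submodule F (Fin n → F)) (hD : Cfsg.Geo.IsMDecomposition m D) (h1 : ¬ (m = 1 ∧ Fintype.card F ≤ 4)) (h2 : ¬ (m = 2 ∧ Fintype.card F = 2)) (h6 : m = 1 → 6 ≤ n) : Cfsg.Geo.IsMaximalIn (Cfsg.Geo.specialLinear (Fin n) F) (Cfsg.Geo.decompositionStabilizer D ⊓ Cfsg.Geo.specialLinear (Fin n) F) := by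
  classical
  have hlt : Cfsg.Geo.decompositionStabilizer D ⊓ Cfsg.Geo.specialLinear (Fin n) F
      < Cfsg.Geo.specialLinear (Fin n) F := by
    refine lt_of_le_of_ne inf_le_right fun h => ?_
    obtain ⟨g, hg, hg'⟩ := Cfsg.Agent.Lib.H65DecBad.proper hD
    rw [← h] at hg
    exact hg' hg.1
  refine ⟨hlt, fun H hMH hHS => ?_⟩
  by_cases hle : H ≤ Cfsg.Geo.decompositionStabilizer D
  · left
    exact le_antisymm (le_inf hle hHS) hMH
  right
  apply le_antisymm hHS
  have hcard : m * t = n := by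
    have := Cfsg.Agent.Lib.H65DecProj.card_eq hD
    simpa using this
  have hpos := hD.pos
  rcases Nat.lt_or_ge 1 m with hm | hm
  · refine Cfsg.Agent.Lib.H65DecBig.big hD hm (fun h => ?_) h2 H hMH hle
    subst h
    omega
  · have hm1 : m = 1 := by omega
    subst hm1
    have hq : 5 ≤ Fintype.card F := by
      by_contra hcon
      exact h1 ⟨rfl, by omega⟩
    obtain ⟨P, hP⟩ := Cfsg.Agent.Lib.H65DecLine.line_conj hD
    -- conjugate everything by `P`
    have hSLn : (Cfsg.Geo.specialLinear (Fin n) F).Normal := by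
      unfold Cfsg.Geo.specialLinear
      infer_instance
    let H' : Subgroup (GL (Fin n) F) := H.comap (MulAut.conj P).toMonoidHom
    have hmem : ∀ x, x ∈ H' ↔ P * x * P⁻¹ ∈ H := fun x => Iff.rfl
    have h1' : Cfsg.Agent.Lib.H65DecDefs.SMon (Fin n) F ≤ H' := by
      intro x hx
      rw [hmem]
      apply hMH
      refine Subgroup.mem_inf.2 ⟨?_, hSLn.conj_mem x hx.2 P⟩
      rw [hP]
      have : P⁻¹ * (P * x * P⁻¹) * P = x := by group
      rw [this]
      exact hx.1
    have h2' : H' ≤ Cfsg.Geo.specialLinear (Fin n) F := by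
      intro x hx
      have h3 := hSLn.conj_mem _ (hHS ((hmem x).1 hx)) P⁻¹
      have : P⁻¹ * (P * x * P⁻¹) * P⁻¹⁻¹ = x := by group
      rwa [this] at h3
    have h3' : ¬ H' ≤ Cfsg.Agent.Lib.H65DecDefs.Mon (Fin n) F := by
      intro hcon
      apply hle
      intro g hg
      rw [hP]
      apply hcon
      rw [hmem]
      have : P * (P⁻¹ * g * P) * P⁻¹ = g := by group
      rwa [this]
    have h4 := Cfsg.Agent.Lib.H40O6Mon.mon_main6 hq (by simpa using h6 rfl) H' h1' h2' h3'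
    intro g hg
    have h5 := h4 (hSLn.conj_mem g hg P⁻¹)
    rw [hmem] at h5
    have : P * (P⁻¹ * g * P⁻¹⁻¹) * P⁻¹ = g := by group
    rwa [this] at h5

end Cfsg.Agent.Lib.H40O6Dec
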