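import Cfsg.Agent.Lib.H40O6Spread

/-! # Project 40 (S5798), piece `StepE`: from `x ↦ x + c B(u,x) u` to a transvection with centre `u`
whose axis is not `u^⊥` -/

set_option autoImplicit false

namespace Cfsg.Agent.Lib.H40O6StepE

open Module Cfsg.Agent.Lib.Helper95Sp Cfsg.Agent.Lib.Helper95SpSL Cfsg.Agent.Lib.Helper95Herm
  Cfsg.Agent.Lib.Helper95Quad Cfsg.Agent.Lib.H40O6Spread

variable {K V : Type*} [Field K] [AddCommGroup V] [Module K V]
variable {B : LinearMap.BilinForm K V} {Q : V → K} {M : Subgroup (V ≃ₗ[K] V)}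

lemma stepE [Finite K] [FiniteDimensional K V] (h : QF B Q) (hB : B.Nondegenerate)
    (h2 : (2 : K) ≠ 0) (hdim : 5 ≤ finrank K V)
    (hM : ∀ e : V ≃ₗ[K] V, (∀ v, Q (e v) = Q v) → LinearMap.det (e : V →ₗ[K] V) = 1 → e ∈ M)
    (u : V) (hu0 : u ≠ 0) (hQu : Q u = 0) (c : K) (hc : c ≠ 0) (hP : P M u (B (c • u))) :
    ∃ u0, u0 ∉ Submodule.span K {u} ∧ P M u (B u0) := by
  classical
  obtain ⟨u', hu'U, hQu', hu'span⟩ := exists_sing' h hB h2 {u} (by simp; omega)
  rw [Finset.coe_singleton] at hu'span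
  have hu'u : B u' u = 0 := hu'U u (by simp)
  have huu' : B u u' = 0 := by rw [h.symm, hu'u]
  have hu'0 : u' ≠ 0 := by
    rintro rfl
    exact hu'span (Submodule.zero_mem _)
  have hsum0 : u + u' ≠ 0 := by
    intro h0
    apply hu'span
    have : u' = (-1 : K) • u := by
      rw [neg_one_smul]
      exact (neg_eq_of_add_eq_zero_right h0).symm
    rw [this]
    exact Submodule.smul_mem _ _ (Submodule.mem_span_singleton_self u)
  have hQsum : Q (u + u') = 0 := by rw [h.add, hQu, hQu', huu']; ring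
  have key : ∀ v, v ≠ 0 → Q v = 0 → P M v (B (c • v)) := by
    intro v hv hQv
    obtain ⟨s, hsQ, hsd, -, hsu⟩ := h.move hB ∅ u v (by simp; omega)
      (Cfsg.Agent.S5644.not_mem_span_empty u hu0) (Cfsg.Agent.S5644.not_mem_span_empty v hv)
      (by rw [hQv, hQu]) (by simp)
    have := Cfsg.Agent.S5644.P_isom h s (hM s hsQ hsd) hsQ hP
    rwa [map_smul, hsu] at this
  obtain ⟨e1, he1, h1⟩ := P_exists_eq (P_neg hP)
  obtain ⟨e2, he2, h2'⟩ := P_exists_eq (P_neg (key u' hu'0 hQu'))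
  obtain ⟨e3, he3, h3⟩ := P_exists_eq (key (u + u') hsum0 hQsum)
  have huu : B u u = 0 := by rw [h.self, hQu, mul_zero]
  have hu'u' : B u' u' = 0 := by rw [h.self, hQu', mul_zero]
  have hw : B u (-(c • u')) = 0 := by simp [huu']
  refine ⟨(2 * c) • u', ?_, ?_⟩
  · intro hmem
    apply hu'span
    have h4 : u' = (2 * c)⁻¹ • ((2 * c) • u') := by
      rw [smul_smul, inv_mul_cancel₀ (mul_ne_zero h2 hc), one_smul]
    rw [h4]
    exact Submodule.smul_mem _ _ hmem
  · refine P_of_eq (e3 * e1 * e2 * h.eich u (-(c • u')) hQu hw)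
      (M.mul_mem (M.mul_mem (M.mul_mem he3 he1) he2)
        (hM _ (h.eich_Q u _ hQu hw) (h.eich_det u _ hQu hw))) (by simp [hu'u]) (fun x => ?_)
    rw [LinearEquiv.mul_apply, LinearEquiv.mul_apply, LinearEquiv.mul_apply, h.eich_apply, h2', h1,
      h3]
    simp only [map_add, map_sub, map_smul, map_neg, LinearMap.neg_apply, LinearMap.add_apply,
      LinearMap.smul_apply, smul_eq_mul, huu, hu'u', hu'u, huu', h.neg, h.smul, hQu']
    module

end Cfsg.Agent.Lib.H40O6StepE
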