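import Cfsg.Agent.Lib.H40O6Step3
import Cfsg.Agent.Lib.H40O6StepE
import Cfsg.Agent.Lib.H40O6CW

/-! # Project 40 (S5798): the similarity group of a quadratic form is maximal in `SL_n(q)`,
`q` odd, `n ≥ 6` -/

set_option autoImplicit false

namespace Cfsg.Agent.Lib.H40O6Main

open Module Cfsg.Agent.Lib.Helper95Basic Cfsg.Agent.Lib.Helper95Sp Cfsg.Agent.Lib.Helper95Form
  Cfsg.Agent.Lib.Helper95SL Cfsg.Agent.Lib.Helper95SpSL Cfsg.Agent.Lib.Helper95Herm
  Cfsg.Agent.Lib.Helper95Quad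

section abstract

variable {K V : Type*} [Field K] [AddCommGroup V] [Module K V]
variable {B : LinearMap.BilinForm K V} {Q : V → K} {M : Subgroup (V ≃ₗ[K] V)}

/-- A subgroup containing all similarities of determinant one and some non-similarity of
determinant one contains all transvections. -/
theorem all_tv_mem_quad6 [Finite K] [FiniteDimensional K V] (h : QF B Q) (hB : B.Nondegenerate)
    (h2 : (2 : K) ≠ 0) (hdim : 6 ≤ finrank K V)
    (hM : ∀ e : V ≃ₗ[K] V, (∃ c : K, ∀ v, Q (e v) = c * Q v) →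
      LinearMap.det (e : V →ₗ[K] V) = 1 → e ∈ M)
    (g : V ≃ₗ[K] V) (hgM : g ∈ M) (hdet : LinearMap.det (g : V →ₗ[K] V) = 1)
    (hg : ¬ ∃ c : K, ∀ x, Q (g x) = c * Q x)
    (hcz : ∃ u, u ≠ 0 ∧ Q u = 0 ∧ Q (g u) = 0) :
    ∀ a, a ∈ Cen M := by
  classical
  have hM' : ∀ e : V ≃ₗ[K] V, (∀ v, Q (e v) = Q v) → LinearMap.det (e : V →ₗ[K] V) = 1 → e ∈ M :=
    fun e he hd => hM e ⟨1, fun v => by rw [he, one_mul]⟩ hd
  obtain ⟨u, hu0, hQu, hQgu⟩ := hcz
  have hgu0 : g u ≠ 0 := fun h0 => hu0 (g.injective (by rw [h0, map_zero]))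
  obtain ⟨s, hsQ, hsd, -, hsu⟩ := h.move hB ∅ (g u) u (by simp; omega)
    (Cfsg.Agent.S5644.not_mem_span_empty _ hgu0) (Cfsg.Agent.S5644.not_mem_span_empty u hu0)
    (by rw [hQu, hQgu]) (by simp)
  have hg1M : s * g ∈ M := M.mul_mem (hM' s hsQ hsd) hgM
  have hg1d : LinearMap.det ((s * g : V ≃ₗ[K] V) : V →ₗ[K] V) = 1 := by
    have : ((s * g : V ≃ₗ[K] V) : V →ₗ[K] V) = (s : V →ₗ[K] V) * (g : V →ₗ[K] V) := rfl
    rw [this, map_mul, hsd, hdet, one_mul]
  have hg1 : ¬ ∃ c : K, ∀ x, Q ((s * g) x) = c * Q x := by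
    rintro ⟨c, hc⟩
    exact hg ⟨c, fun x => by rw [← hc x, LinearEquiv.mul_apply, hsQ]⟩
  obtain ⟨u0, hu00, hP⟩ := Cfsg.Agent.Lib.H40O6Step3.exists_tv h hB h2 (by omega) hM (s * g) hg1M
    hg1d hg1 u hu0 hQu (by rw [LinearEquiv.mul_apply, hsu])
  obtain ⟨u1, hu1, hP1⟩ : ∃ u1, u1 ∉ Submodule.span K {u} ∧ P M u (B u1) := by
    by_cases hmem : u0 ∈ Submodule.span K {u}
    · rw [Submodule.mem_span_singleton] at hmem
      obtain ⟨c, rfl⟩ := hmem
      have hc : c ≠ 0 := by
        rintro rfl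
        exact hu00 (zero_smul _ _)
      exact Cfsg.Agent.Lib.H40O6StepE.stepE h hB h2 (by omega) hM' u hu0 hQu c hc hP
    · exact ⟨u0, hmem, hP⟩
  exact Cfsg.Agent.Lib.H40O6Spread.spread h hB h2 hdim hM' u u1 hu0 hQu hu1 hP1

end abstract

/-- the similarity group of a non-degenerate quadratic form is maximal in `SL_n(q)`, `q` odd,
`n ≥ 6` -/
theorem quad_max6 {F : Type*} [Field F] [Fintype F] (n : ℕ) (hn : 6 ≤ n) (hodd : Odd (Fintype.card F)) (Q : (Fin n → F) → F) (hQ : Cfsg.Geo.IsNondegenerateQuadraticForm Q) : Cfsg.Geo.IsMaximalIn (Cfsg.Geo.specialLinear (Fin n) F) (Cfsg.Geo.quadSimilarityGroup Q ⊓ Cfsg.Geo.specialLinear (Fin n) F) := by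
  classical
  have hnt : Nontrivial (Fin n) := Fin.nontrivial_iff_two_le.2 (by omega)
  set B := toBilin (QuadraticMap.polar Q) hQ.polar_bilinear with hBdef
  have hB : B.Nondegenerate := toBilin_nondegenerate _ hQ.polar_bilinear hQ.nondegenerate
  have h : QF B Q :=
    { smul := hQ.smul
      add := fun x y => by rw [hBdef, toBilin_apply, QuadraticMap.polar]; ring }
  have h2 : (2 : F) ≠ 0 := by
    intro h0
    have : CharP F 2 := CharTwo.of_one_ne_zero_of_two_eq_zero one_ne_zero h0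
    have hc : ringChar F = 2 := ringChar.eq F 2
    have h3 := FiniteField.even_card_iff_char_two.1 hc
    have h4 := Nat.odd_iff.1 hodd
    omega
  have hdim : 6 ≤ finrank F (Fin n → F) := by rw [Module.finrank_fin_fun]; omega
  have hH : ∀ e : (Fin n → F) ≃ₗ[F] (Fin n → F), (∃ c : F, ∀ v, Q (e v) = c * Q v) →
      LinearMap.det (e : (Fin n → F) →ₗ[F] (Fin n → F)) = 1 → mkGL e ∈
      Cfsg.Geo.quadSimilarityGroup Q ⊓ Cfsg.Geo.specialLinear (Fin n) F := by
    rintro e ⟨c, he⟩ hd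
    have hc0 : c ≠ 0 := by
      rintro rfl
      obtain ⟨x1, -, hQx1⟩ := h.exists_ns hB ∅ (by simp; omega)
      apply hQx1
      have := he (e.symm x1)
      rw [LinearEquiv.apply_symm_apply, zero_mul] at this
      exact this
    refine ⟨⟨Units.mk0 c hc0, fun x => ?_⟩, ?_⟩
    · rw [mkGL_mulVec, Units.val_mk0]
      exact he x
    · show mkGL e ∈ Cfsg.Geo.specialLinear (Fin n) F
      rw [mem_specialLinear_iff, det_mkGL]
      exact hd
  constructor
  · refine lt_of_le_of_ne inf_le_right ?_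
    intro heq
    obtain ⟨a, -, hQa, ha⟩ := h.exists_sing hB ∅ (by simp; omega)
    have ha0 : a ≠ 0 := by
      rintro rfl
      exact ha (Submodule.zero_mem _)
    have hℓa : B a a = 0 := by rw [h.self, hQa, mul_zero]
    obtain ⟨y, hy⟩ : ∃ y, B a y ≠ 0 := by
      by_contra hcon
      push Not at hcon
      exact ha0 (hB.1 a hcon)
    obtain ⟨x1, hx1, hQx1⟩ := h.exists_ns hB {a} (by simp; omega)
    have hax1 : B a x1 = 0 := by rw [h.symm]; exact hx1 a (by simp)
    have hmem : tv a (B a) hℓa ∈ Cfsg.Geo.specialLinear (Fin n) F := tv_mem_specialLinear _ _ _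
    rw [← heq] at hmem
    obtain ⟨c, hc⟩ := hmem.1
    have h3 := hc x1
    have h4 := hc y
    simp only [tv_mulVec, hax1, zero_smul, add_zero] at h3 h4
    have hc1 : (c : F) = 1 := by
      have : (1 - (c : F)) * Q x1 = 0 := by rw [sub_mul, one_mul, ← h3, sub_self]
      rcases mul_eq_zero.1 this with h | h
      · exact (sub_eq_zero.1 h).symm
      · exact absurd h hQx1
    rw [hc1, one_mul, h.add, h.smul, hQa, map_smul, smul_eq_mul, h.symm y a] at h4
    have h5 : B a y * B a y = 0 := by linear_combination h4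
    rcases mul_eq_zero.1 h5 with h' | h' <;> exact hy h'
  · intro M hHM hMS
    by_cases hMH : M ≤ Cfsg.Geo.quadSimilarityGroup Q ⊓ Cfsg.Geo.specialLinear (Fin n) F
    · exact Or.inl (le_antisymm hMH hHM)
    · right
      refine le_antisymm hMS ?_
      obtain ⟨g, hgM, hgH⟩ := SetLike.not_le_iff_exists.1 hMH
      have hgS : g ∉ Cfsg.Geo.quadSimilarityGroup Q := fun h => hgH ⟨h, hMS hgM⟩
      have hgdet : LinearMap.det ((glEquiv (Fin n) F g : (Fin n → F) ≃ₗ[F] (Fin n → F)) :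
          (Fin n → F) →ₗ[F] (Fin n → F)) = 1 := by
        rw [← det_mkGL, mkGL_glEquiv]
        exact (mem_specialLinear_iff g).1 (hMS hgM)
      have hcz : ∃ u : Fin n → F, u ≠ 0 ∧ Q u = 0 ∧ Q (glEquiv (Fin n) F g u) = 0 := by
        obtain ⟨x, hx0, hx1, hx2⟩ := Cfsg.Agent.Lib.H40O6CW.common_zero (by omega) B
          (B.comp ((glEquiv (Fin n) F g : (Fin n → F) ≃ₗ[F] (Fin n → F)) :
            (Fin n → F) →ₗ[F] (Fin n → F)) ((glEquiv (Fin n) F g : (Fin n → F) ≃ₗ[F] (Fin n → F)) :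
            (Fin n → F) →ₗ[F] (Fin n → F)))
        refine ⟨x, hx0, ?_, ?_⟩
        · rw [h.self] at hx1
          exact (mul_eq_zero.1 hx1).resolve_left h2
        · rw [LinearMap.BilinForm.comp_apply, h.self] at hx2
          exact (mul_eq_zero.1 hx2).resolve_left h2
      have hall := all_tv_mem_quad6 (M := pull M) h hB h2 hdim
        (fun e he hd => (mem_pull M _).2 (hHM (hH e he hd)))
        (glEquiv (Fin n) F g) ((glEquiv_mem_pull M g).2 hgM) hgdet (by
          rintro ⟨c, hc⟩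
          apply hgS
          have hc0 : c ≠ 0 := by
            rintro rfl
            obtain ⟨x1, -, hQx1⟩ := h.exists_ns hB ∅ (by simp; omega)
            apply hQx1
            have := hc ((glEquiv (Fin n) F g).symm x1)
            rw [LinearEquiv.apply_symm_apply, zero_mul] at this
            exact this
          exact ⟨Units.mk0 c hc0, fun u => hc u⟩) hcz
      exact specialLinear_le_of_tv M (fun a ℓ h => (hall a ℓ h).2)

end Cfsg.Agent.Lib.H40O6Main
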