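import Cfsg.Agent.Lib.Helper95Quad

/-! # Project 40 (S5798), piece `NS`: sharp existence lemmas in a quadratic space, `char ≠ 2` -/

set_option autoImplicit false

namespace Cfsg.Agent.Lib.H40O6NS

open Module Cfsg.Agent.Lib.Helper95Quad

variable {K V : Type*} [Field K] [AddCommGroup V] [Module K V]
variable {B : LinearMap.BilinForm K V} {Q : V → K}

/-- a non-singular vector orthogonal to `S` and to the pairwise orthogonal non-singular vectors `Y ⊥ S` -/
lemma exists_ns' [FiniteDimensional K V] (h : QF B Q) (hB : B.Nondegenerate) (h2 : (2 : K) ≠ 0)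
    (S Y : Finset V) (hYQ : ∀ y ∈ Y, Q y ≠ 0) (hYS : ∀ y ∈ Y, ∀ s ∈ S, B y s = 0)
    (hYY : ∀ y ∈ Y, ∀ y' ∈ Y, y ≠ y' → B y y' = 0)
    (hn : 2 * S.card + Y.card < finrank K V) :
    ∃ w, (∀ s ∈ S, B w s = 0) ∧ (∀ y ∈ Y, B w y = 0) ∧ Q w ≠ 0 := by
  classical
  by_contra hcon
  push Not at hcon
  set T' := B.orthogonal (Submodule.span K ((S ∪ Y : Finset V) : Set V)) with hT'
  have hmem : ∀ w, (∀ s ∈ S, B w s = 0) → (∀ y ∈ Y, B w y = 0) → w ∈ T' := by
    intro w h1 h2
    rw [hT', LinearMap.BilinForm.mem_orthogonal_iff]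
    intro n hn
    have hle : Submodule.span K ((S ∪ Y : Finset V) : Set V) ≤ LinearMap.ker (B w) := by
      rw [Submodule.span_le]
      intro s hs
      simp only [Finset.coe_union, Set.mem_union, Finset.mem_coe] at hs
      simp only [SetLike.mem_coe, LinearMap.mem_ker]
      rcases hs with hs | hs
      · exact h1 s hs
      · exact h2 s hs
    have h3 : B w n = 0 := hle hn
    rw [h.symm] at h3
    exact h3
  have hmem' : ∀ w ∈ T', (∀ s ∈ S, B w s = 0) ∧ (∀ y ∈ Y, B w y = 0) := by
    intro w hw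
    have h3 := h.mem_orth _ w hw
    exact ⟨fun s hs => h3 s (by simp [hs]), fun y hy => h3 y (by simp [hy])⟩
  have hQ0 : ∀ w ∈ T', Q w = 0 := fun w hw => hcon w (hmem' w hw).1 (hmem' w hw).2
  have hB0 : ∀ x ∈ T', ∀ y ∈ T', B x y = 0 := by
    intro x hx y hy
    have h3 := h.add x y
    rw [hQ0 _ (T'.add_mem hx hy), hQ0 x hx, hQ0 y hy] at h3
    simpa using h3.symm
  have hle : T' ≤ Submodule.span K (S : Set V) := by
    intro z hz
    by_contra hzS
    obtain ⟨x, hxS, hxz⟩ := h.exists_perp_ne hB _ _ hzS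
    have hxS' := h.mem_orth _ _ hxS
    set x' := x - ∑ y ∈ Y, (B x y / B y y) • y with hx'
    have hyy : ∀ y ∈ Y, B y y ≠ 0 := fun y hy => by
      rw [h.self]; exact mul_ne_zero h2 (hYQ y hy)
    have e1 : ∀ v, B x' v = B x v - ∑ y ∈ Y, (B x y / B y y) * B y v := by
      intro v
      simp only [hx', map_sub, map_sum, LinearMap.sub_apply, LinearMap.sum_apply, map_smul,
        LinearMap.smul_apply, smul_eq_mul]
    have hx'T : x' ∈ T' := by
      apply hmem
      · intro s hs
        rw [e1, hxS' s hs, Finset.sum_eq_zero (fun y hy => by rw [hYS y hy s hs, mul_zero]),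
          sub_zero]
      · intro y0 hy0
        rw [e1, Finset.sum_eq_single y0]
        · rw [div_mul_cancel₀ _ (hyy y0 hy0), sub_self]
        · intro y hy hne
          rw [hYY y hy y0 hy0 hne, mul_zero]
        · intro hh
          exact absurd hy0 hh
    have h3 := hB0 x' hx'T z hz
    rw [e1, Finset.sum_eq_zero (fun y hy => by
      rw [h.symm y z, (hmem' z hz).2 y hy, mul_zero]), sub_zero] at h3
    exact hxz h3
  have f1 : finrank K T' = finrank K V
      - finrank K (Submodule.span K ((S ∪ Y : Finset V) : Set V)) :=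
    LinearMap.BilinForm.finrank_orthogonal hB _
  have f2 : finrank K (Submodule.span K ((S ∪ Y : Finset V) : Set V)) ≤ (S ∪ Y).card :=
    finrank_span_finset_le_card _
  have f3 := Finset.card_union_le S Y
  have f4 := Submodule.finrank_mono hle
  have f5 : finrank K (Submodule.span K (S : Set V)) ≤ S.card := finrank_span_finset_le_card S
  omega

/-- the same with a prescribed value of `Q` -/
lemma exists_perp' [Finite K] [FiniteDimensional K V] (h : QF B Q) (hB : B.Nondegenerate)
    (h2 : (2 : K) ≠ 0) (S Y : Finset V) (hYQ : ∀ y ∈ Y, Q y ≠ 0)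
    (hYS : ∀ y ∈ Y, ∀ s ∈ S, B y s = 0) (hYY : ∀ y ∈ Y, ∀ y' ∈ Y, y ≠ y' → B y y' = 0)
    (hn : 2 * S.card + Y.card + 1 < finrank K V) (d : K) :
    ∃ w, (∀ s ∈ S, B w s = 0) ∧ (∀ y ∈ Y, B w y = 0) ∧ Q w = d := by
  classical
  obtain ⟨w1, h1S, h1Y, h1Q⟩ := exists_ns' h hB h2 S Y hYQ hYS hYY (by omega)
  obtain ⟨w2, h2S, h2Y, h2Q⟩ := exists_ns' h hB h2 S (insert w1 Y)
    (by
      intro y hy
      rcases Finset.mem_insert.1 hy with rfl | hy
      · exact h1Q
      · exact hYQ y hy)
    (by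
      intro y hy
      rcases Finset.mem_insert.1 hy with rfl | hy
      · exact h1S
      · exact hYS y hy)
    (by
      intro y hy y' hy' hne
      rcases Finset.mem_insert.1 hy with e1 | hy1
      · rcases Finset.mem_insert.1 hy' with e2 | hy2
        · exact absurd (e1.trans e2.symm) hne
        · rw [e1]; exact h1Y y' hy2
      · rcases Finset.mem_insert.1 hy' with e2 | hy2
        · rw [e2, h.symm]; exact h1Y y hy1
        · exact hYY y hy1 y' hy2 hne)
    (by
      have := Finset.card_insert_le w1 Y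
      omega)
  obtain ⟨a, b, hab⟩ := field_sol (Q w1) (Q w2) d h1Q h2Q
  refine ⟨a • w1 + b • w2, fun u hu => ?_, fun u hu => ?_, ?_⟩
  · rw [map_add, map_smul, map_smul, LinearMap.add_apply, LinearMap.smul_apply,
      LinearMap.smul_apply, h1S u hu, h2S u hu]
    simp
  · rw [map_add, map_smul, map_smul, LinearMap.add_apply, LinearMap.smul_apply,
      LinearMap.smul_apply, h1Y u hu, h2Y u (by simp [hu])]
    simp
  · rw [h.add, h.smul, h.smul]
    simp only [map_smul, LinearMap.smul_apply, smul_eq_mul]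
    rw [h.symm w1 w2, h2Y w1 (by simp)]
    linear_combination hab

/-- a singular vector orthogonal to `S`, not orthogonal to `x` -/
lemma exists_iso1 [Finite K] [FiniteDimensional K V] (h : QF B Q) (hB : B.Nondegenerate)
    (h2 : (2 : K) ≠ 0) (S : Finset V) (x : V) (hn : 2 * S.card + 3 ≤ finrank K V)
    (hx : x ∉ Submodule.span K (S : Set V)) :
    ∃ s, (∀ z ∈ S, B s z = 0) ∧ B s x ≠ 0 ∧ Q s = 0 := by
  classical
  obtain ⟨x0, hx0S, hx0⟩ := h.exists_perp_ne hB _ _ hx
  have hx0S' := h.mem_orth _ _ hx0S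
  by_cases hQ : Q x0 = 0
  · exact ⟨x0, hx0S', hx0, hQ⟩
  obtain ⟨w, hwS, hwY, hwQ⟩ := exists_perp' h hB h2 S {x0}
    (by intro y hy; rw [Finset.mem_singleton.1 hy]; exact hQ)
    (by intro y hy; rw [Finset.mem_singleton.1 hy]; exact hx0S')
    (by
      intro y hy y' hy' hne
      rw [Finset.mem_singleton.1 hy, Finset.mem_singleton.1 hy'] at hne
      exact absurd rfl hne)
    (by rw [Finset.card_singleton]; omega) (-Q x0)
  have hw0 : B w x0 = 0 := hwY x0 (by simp)
  have hw0' : B x0 w = 0 := by rw [h.symm]; exact hw0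
  by_cases hp : B (x0 + w) x = 0
  · refine ⟨x0 - w, fun z hz => ?_, ?_, ?_⟩
    · rw [map_sub, LinearMap.sub_apply, hx0S' z hz, hwS z hz, sub_zero]
    · intro hm
      rw [map_sub, LinearMap.sub_apply] at hm
      rw [map_add, LinearMap.add_apply] at hp
      apply hx0
      have h3 : 2 * B x0 x = 0 := by linear_combination hm + hp
      exact (mul_eq_zero.1 h3).resolve_left h2
    · rw [h.sub, hwQ, hw0']
      ring
  · refine ⟨x0 + w, fun z hz => ?_, hp, ?_⟩
    · rw [map_add, LinearMap.add_apply, hx0S' z hz, hwS z hz, add_zero]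
    · rw [h.add, hwQ, hw0']
      ring

end Cfsg.Agent.Lib.H40O6NS
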