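import Cfsg.Agent.Lib.H40O6NS
import Cfsg.Agent.Lib.Helper40QuadLow

/-! # Project 40 (S5798), piece `Spread`: one transvection with singular centre gives all (`n ≥ 6`) -/

set_option autoImplicit false

namespace Cfsg.Agent.Lib.H40O6Spread

open Module Cfsg.Agent.Lib.Helper95Basic Cfsg.Agent.Lib.Helper95Sp Cfsg.Agent.Lib.Helper95Form
  Cfsg.Agent.Lib.Helper95SL Cfsg.Agent.Lib.Helper95SpSL Cfsg.Agent.Lib.Helper95Herm
  Cfsg.Agent.Lib.Helper95Quad Cfsg.Agent.Lib.H40O6NS

variable {K V : Type*} [Field K] [AddCommGroup V] [Module K V]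
variable {B : LinearMap.BilinForm K V} {Q : V → K} {M : Subgroup (V ≃ₗ[K] V)}

/-- a singular vector orthogonal to `U`, outside the span of `U` (sharp bound) -/
lemma exists_sing' [Finite K] [FiniteDimensional K V] (h : QF B Q) (hB : B.Nondegenerate)
    (h2 : (2 : K) ≠ 0) (U : Finset V) (hU : 2 * U.card + 3 ≤ finrank K V) :
    ∃ x, (∀ u ∈ U, B x u = 0) ∧ Q x = 0 ∧ x ∉ Submodule.span K (U : Set V) := by
  rcases Cfsg.Agent.Lib.Helper40QuadLow.sing_or h hB h2 U with h1 | h1
  · exact h1
  · exfalso
    have h3 : finrank K (Submodule.span K (U : Set V)) ≤ U.card := finrank_span_finset_le_card U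
    have h4 : finrank K ↥(B.orthogonal (Submodule.span K (U : Set V)) ⊓
        Submodule.span K (U : Set V)) ≤ finrank K (Submodule.span K (U : Set V)) :=
      Submodule.finrank_mono inf_le_right
    omega

/-- every vector orthogonal to `a` is a sum of two vectors of norm `β` orthogonal to `a` -/
lemma exists_split [Finite K] [FiniteDimensional K V] (h : QF B Q) (hB : B.Nondegenerate)
    (h2 : (2 : K) ≠ 0) (hdim : 6 ≤ finrank K V) (a y : V) (hya : B y a = 0) (β : K) :
    ∃ c1 c2, Q c1 = β ∧ Q c2 = β ∧ B c1 a = 0 ∧ B c2 a = 0 ∧ y = c1 + c2 := by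
  classical
  by_cases hQy : Q y = 0
  · obtain ⟨z, hzS, -, hQz⟩ := exists_perp' h hB h2 {a, y} ∅ (by simp) (by simp) (by simp) (by
      have := Finset.card_le_two (a := a) (b := y)
      simp only [Finset.card_empty]
      omega) β
    have hza : B z a = 0 := hzS a (by simp)
    have hzy : B z y = 0 := hzS y (by simp)
    refine ⟨z, y - z, hQz, ?_, hza, ?_, by abel⟩
    · rw [h.sub, hQy, hQz, h.symm, hzy]; ring
    · rw [map_sub, LinearMap.sub_apply, hya, hza, sub_zero]
  · obtain ⟨z, hzS, hzY, hQz⟩ := exists_perp' h hB h2 {a} {y} (by simpa using hQy)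
      (by simpa using hya) (by simp) (by simp; omega) (β - Q y / 4)
    have hza : B z a = 0 := hzS a (by simp)
    have hzy : B z y = 0 := hzY y (by simp)
    have h4 : (4 : K) ≠ 0 := by
      have : (4 : K) = 2 * 2 := by norm_num
      rw [this]
      exact mul_ne_zero h2 h2
    refine ⟨(2⁻¹ : K) • y + z, (2⁻¹ : K) • y - z, ?_, ?_, ?_, ?_, ?_⟩
    · rw [h.add, h.smul, hQz, map_smul, LinearMap.smul_apply, h.symm, hzy]
      field_simp
      ring
    · rw [h.sub, h.smul, hQz, map_smul, LinearMap.smul_apply, h.symm, hzy]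
      field_simp
      ring
    · rw [map_add, LinearMap.add_apply, map_smul, LinearMap.smul_apply, hya, hza]; simp
    · rw [map_sub, LinearMap.sub_apply, map_smul, LinearMap.smul_apply, hya, hza]; simp
    · have : (2⁻¹ : K) • y + z + ((2⁻¹ : K) • y - z) = ((2⁻¹ : K) + 2⁻¹) • y := by module
      rw [this]
      have : (2⁻¹ : K) + 2⁻¹ = 1 := by field_simp; norm_num
      rw [this, one_smul]

/-- one transvection with singular centre gives all transvections -/
lemma spread [Finite K] [FiniteDimensional K V] (h : QF B Q) (hB : B.Nondegenerate)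
    (h2 : (2 : K) ≠ 0) (hdim : 6 ≤ finrank K V)
    (hM : ∀ e : V ≃ₗ[K] V, (∀ v, Q (e v) = Q v) → LinearMap.det (e : V →ₗ[K] V) = 1 → e ∈ M)
    (a0 u0 : V) (ha0 : a0 ≠ 0) (hQa0 : Q a0 = 0) (hu0 : u0 ∉ Submodule.span K {a0})
    (hP : P M a0 (B u0)) : ∀ a, a ∈ Cen M := by
  classical
  have hau0 : B u0 a0 = 0 := P_app_zero hP
  -- 2a
  have s1 : ∀ a u, a ≠ 0 → Q a = 0 → Q u = Q u0 → B u a = 0 → u ∉ Submodule.span K {a} →
      P M a (B u) := by
    intro a u ha hQa hQu hua hu
    obtain ⟨g1, hg1Q, hg1d, -, hg1⟩ := h.move hB ∅ a0 a (by simp; omega)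
      (Cfsg.Agent.S5644.not_mem_span_empty a0 ha0) (Cfsg.Agent.S5644.not_mem_span_empty a ha) (by rw [hQa, hQa0]) (by simp)
    obtain ⟨g2, hg2Q, hg2d, hg2a, hg2⟩ := h.move hB {a} (g1 u0) u (by simp; omega)
      (by
        rw [Finset.coe_singleton]
        intro hmem
        apply hu0
        rw [Submodule.mem_span_singleton] at hmem ⊢
        obtain ⟨c, hc⟩ := hmem
        refine ⟨c, g1.injective ?_⟩
        rw [map_smul, hg1, hc])
      (by rwa [Finset.coe_singleton]) (by rw [hQu, hg1Q])
      (by
        intro z hz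
        rw [Finset.mem_singleton] at hz
        subst hz
        rw [h.symm, hua, ← hg1, h.isoB g1 hg1Q, h.symm, hau0])
    have h3 := Cfsg.Agent.S5644.P_isom h g2 (hM g2 hg2Q hg2d) hg2Q (Cfsg.Agent.S5644.P_isom h g1 (hM g1 hg1Q hg1d) hg1Q hP)
    rwa [hg1, hg2, hg2a a (by simp)] at h3
  -- 2c
  have s2 : ∀ u, u ≠ 0 → Q u = Q u0 → ∀ a, B u a = 0 → P M a (B u) := by
    intro u hu hQu a hua
    have key : ∀ s, Q s = 0 → B u s = 0 → s ∉ Submodule.span K {u} → P M s (B u) := by
      intro s hs hus hsu
      have hs0 : s ≠ 0 := by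
        rintro rfl
        exact hsu (Submodule.zero_mem _)
      refine s1 s u hs0 hs hQu hus ?_
      intro hmem
      rw [Submodule.mem_span_singleton] at hmem
      obtain ⟨c, hc⟩ := hmem
      have hc0 : c ≠ 0 := by
        rintro rfl
        rw [zero_smul] at hc
        exact hu hc.symm
      apply hsu
      rw [Submodule.mem_span_singleton]
      exact ⟨c⁻¹, by rw [← hc, smul_smul, inv_mul_cancel₀ hc0, one_smul]⟩
    by_cases hQa : Q a = 0
    · by_cases hau : a ∈ Submodule.span K {u}
      · obtain ⟨s, hsU, hQs, hsu⟩ := exists_sing' h hB h2 {u} (by simp; omega)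
        rw [Finset.coe_singleton] at hsu
        have hsu' : B s u = 0 := hsU u (by simp)
        rw [Submodule.mem_span_singleton] at hau
        obtain ⟨c, rfl⟩ := hau
        have e : c • u = s + (c • u - s) := by abel
        rw [e]
        refine P_add_left (key s hQs (by rw [h.symm, hsu']) hsu) (key _ ?_ ?_ ?_)
        · rw [h.sub, hQa, hQs, map_smul, LinearMap.smul_apply, h.symm, hsu']
          simp
        · rw [map_sub, hua, h.symm, hsu', sub_zero]
        · intro hmem
          apply hsu
          have := Submodule.sub_mem _ (Submodule.smul_mem _ c (Submodule.mem_span_singleton_self u)) hmem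
          simpa using this
      · exact key a hQa hua hau
    · have hau : a ∉ Submodule.span K (({u} : Finset V) : Set V) := by
        rw [Finset.coe_singleton]
        intro hmem
        rw [Submodule.mem_span_singleton] at hmem
        obtain ⟨c, rfl⟩ := hmem
        apply hQa
        have h3 : B (c • u) (c • u) = 0 := by
          rw [map_smul B, LinearMap.smul_apply, hua, smul_zero]
        rw [h.self] at h3
        rcases mul_eq_zero.1 h3 with h4 | h4
        · exact absurd h4 h2
        · exact h4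
      obtain ⟨s0, hs0U, hs0a, hQs0⟩ := exists_iso1 h hB h2 {u} a (by simp; omega) hau
      obtain ⟨s, hsU, hsa, hQs⟩ : ∃ s, (∀ z ∈ ({u} : Finset V), B s z = 0) ∧ B s a = Q a ∧
          Q s = 0 := by
        refine ⟨(Q a / B s0 a) • s0, fun z hz => ?_, ?_, ?_⟩
        · rw [map_smul, LinearMap.smul_apply, hs0U z hz, smul_zero]
        · rw [map_smul, LinearMap.smul_apply, smul_eq_mul]
          field_simp
        · rw [h.smul, hQs0, mul_zero]
      have hsu' : B s u = 0 := hsU u (by simp)
      have e : a = s + (a - s) := by abel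
      rw [e]
      refine P_add_left (key s hQs (by rw [h.symm, hsu']) ?_) (key _ ?_ ?_ ?_)
      · intro hmem
        rw [Submodule.mem_span_singleton] at hmem
        obtain ⟨c, rfl⟩ := hmem
        apply hQa
        rw [← hsa, map_smul, LinearMap.smul_apply, hua, smul_zero]
      · rw [h.sub, hQs, h.symm, hsa]; ring
      · rw [map_sub, hua, h.symm, hsu', sub_zero]
      · intro hmem
        rw [Submodule.mem_span_singleton] at hmem
        obtain ⟨c, hc⟩ := hmem
        apply hQa
        have h3 : B (a - s) a = 0 := by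
          rw [← hc, map_smul, LinearMap.smul_apply, hua, smul_zero]
        rw [map_sub, LinearMap.sub_apply, h.self, hsa] at h3
        linear_combination h3
  -- 2d
  intro a ℓ hℓ
  set u := (LinearMap.BilinForm.toDual B hB).symm ℓ with hu
  have hu' : B u = ℓ := by
    ext x
    exact LinearMap.BilinForm.apply_toDual_symm_apply ℓ x
  rw [← hu'] at hℓ ⊢
  obtain ⟨c1, c2, hQ1, hQ2, h1a, h2a, hsum⟩ := exists_split h hB h2 hdim a u hℓ (Q u0)
  have key : ∀ c, Q c = Q u0 → B c a = 0 → P M a (B c) := by
    intro c hQc hca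
    by_cases hc : c = 0
    · subst hc
      rw [map_zero]
      exact P_zero_right a
    · exact s2 c hc hQc a hca
  rw [hsum, map_add]
  exact P_add (key c1 hQ1 h1a) (key c2 hQ2 h2a)


end Cfsg.Agent.Lib.H40O6Spread
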