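import Cfsg.Agent.Lib.Helper95Quad

/-! # Project 40 (S5798, `O_6(q) < SL_6(q)`), piece `Step1`: commutator of two Siegel elements -/

set_option autoImplicit false

namespace Cfsg.Agent.Lib.H40O6Step1

open Module Cfsg.Agent.Lib.Helper95Sp Cfsg.Agent.Lib.Helper95SpSL Cfsg.Agent.Lib.Helper95Herm
  Cfsg.Agent.Lib.Helper95Quad

variable {K V : Type*} [Field K] [AddCommGroup V] [Module K V]
variable {B : LinearMap.BilinForm K V} {Q : V → K} {M : Subgroup (V ≃ₗ[K] V)}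

/-- `g ∈ M` fixes the singular vector `u`; `ph` represents `x ↦ B u (g⁻¹ x)`; `y ⊥ u, ph`.
The commutator of the Siegel element `E(u,y)` and of `g E(u, g⁻¹ y) g⁻¹` is a transvection with
centre `u`. -/
lemma step1 [FiniteDimensional K V] (h : QF B Q)
    (hM : ∀ e : V ≃ₗ[K] V, (∀ v, Q (e v) = Q v) → LinearMap.det (e : V →ₗ[K] V) = 1 → e ∈ M)
    (g : V ≃ₗ[K] V) (hgM : g ∈ M) (u ph y : V) (hQu : Q u = 0) (hgu : g u = u)
    (hph : ∀ x, B ph x = B u (g⁻¹ x)) (hyu : B u y = 0) (hyph : B ph y = 0) :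
    P M u (B ((2 * Q (g⁻¹ y)) • u - (2 * Q y) • ph)) := by
  have hginv' : ∀ x, g (g⁻¹ x) = x := fun x => g.apply_symm_apply x
  have hginvu : g⁻¹ u = u := by
    apply g.injective
    rw [hginv', hgu]
  obtain ⟨w1, hw1⟩ : ∃ w1, w1 = g⁻¹ y := ⟨_, rfl⟩
  have hgw1 : g w1 = y := by rw [hw1, hginv']
  have huw1 : B u w1 = 0 := by rw [hw1, ← hph, hyph]
  have huu : B u u = 0 := by rw [h.self, hQu, mul_zero]
  have hphu : B ph u = 0 := by rw [hph, hginvu, huu]
  have hE : ∀ w (hw : B u w = 0), h.eich u w hQu hw ∈ M := fun w hw =>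
    hM _ (h.eich_Q u w hQu hw) (h.eich_det u w hQu hw)
  -- the conjugated Siegel elements
  have hb : ∀ (c : K) (hc : B u (c • w1) = 0) (x : V),
      (g * h.eich u (c • w1) hQu hc * g⁻¹) x
        = x + (c * B ph x) • y - (c * B w1 (g⁻¹ x)) • u - (c ^ 2 * Q w1 * B ph x) • u := by
    intro c hc x
    rw [LinearEquiv.mul_apply, LinearEquiv.mul_apply, h.eich_apply]
    simp only [map_sub, map_add, map_smul, LinearMap.smul_apply, smul_eq_mul, hginv', hgu, hgw1,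
      ← hph, h.smul]
    module
  have hc1 : B u ((1 : K) • w1) = 0 := by simp [huw1]
  have hc2 : B u ((-1 : K) • w1) = 0 := by simp [huw1]
  have hw1y : B w1 (g⁻¹ y) = 2 * Q w1 := by rw [← hw1, h.self]
  have hw1u : B w1 (g⁻¹ u) = 0 := by rw [hginvu, h.symm, huw1]
  have hyy : B y y = 2 * Q y := h.self y
  have hyu' : B y u = 0 := by rw [h.symm, hyu]
  rw [← hw1]
  refine P_of_eq (h.eich u y hQu hyu * (g * h.eich u ((1 : K) • w1) hQu hc1 * g⁻¹) *
    h.eich u (-y) hQu (by simp [hyu]) * (g * h.eich u ((-1 : K) • w1) hQu hc2 * g⁻¹))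
    (M.mul_mem (M.mul_mem (M.mul_mem (hE _ _) (M.mul_mem (M.mul_mem hgM (hE _ _)) (M.inv_mem hgM)))
      (hE _ _)) (M.mul_mem (M.mul_mem hgM (hE _ _)) (M.inv_mem hgM))) ?_ (fun x => ?_)
  · simp [huu, hphu]
  · rw [LinearEquiv.mul_apply, LinearEquiv.mul_apply, LinearEquiv.mul_apply, hb (-1) hc2 x]
    rw [h.eich_apply]
    rw [hb 1 hc1]
    rw [h.eich_apply]
    simp only [map_add, map_sub, map_smul, map_neg, LinearMap.neg_apply,
      LinearMap.sub_apply, LinearMap.smul_apply, smul_eq_mul, huu, hphu, hyu, hyph, hw1y, hw1u, hyy,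
      hyu', h.neg]
    module

end Cfsg.Agent.Lib.H40O6Step1
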