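import Cfsg.Agent.Lib.Helper95Quad

/-! # Project 40 (S5798, `O_6(q) < SL_6(q)`), piece `Step2` -/

set_option autoImplicit false

namespace Cfsg.Agent.Lib.H40O6Step2

open Module Cfsg.Agent.Lib.Helper95Sp Cfsg.Agent.Lib.Helper95SpSL Cfsg.Agent.Lib.Helper95Herm
  Cfsg.Agent.Lib.Helper95Quad

variable {K V : Type*} [Field K] [AddCommGroup V] [Module K V]
variable {B : LinearMap.BilinForm K V} {Q : V → K} {M : Subgroup (V ≃ₗ[K] V)}

/-- `g ∈ M` fixes the singular vector `u` and `B u (g⁻¹ x) = lam * B u x`.  For `w ⊥ u` the element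
`E(u, -lam g w) * g E(u,w) g⁻¹` is a transvection with centre `u`. -/
lemma step2 [FiniteDimensional K V] (h : QF B Q)
    (hM : ∀ e : V ≃ₗ[K] V, (∀ v, Q (e v) = Q v) → LinearMap.det (e : V →ₗ[K] V) = 1 → e ∈ M)
    (g : V ≃ₗ[K] V) (hgM : g ∈ M) (u : V) (hQu : Q u = 0) (hgu : g u = u)
    (lam : K) (hlam0 : lam ≠ 0) (hlam : ∀ x, B u (g⁻¹ x) = lam * B u x)
    (w wh : V) (hw : B u w = 0) (hwh : ∀ x, B wh x = B w (g⁻¹ x)) :
    P M u (B (lam • g w - wh + (lam ^ 2 * Q (g w) - lam * Q w) • u)) := by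
  have hginv : ∀ x, g⁻¹ (g x) = x := fun x => g.symm_apply_apply x
  have hginv' : ∀ x, g (g⁻¹ x) = x := fun x => g.apply_symm_apply x
  have hginvu : g⁻¹ u = u := by
    apply g.injective
    rw [hginv', hgu]
  have hugw : B u (g w) = 0 := by
    have := hlam (g w)
    rw [hginv, hw] at this
    exact (mul_eq_zero.1 this.symm).resolve_left hlam0
  have huu : B u u = 0 := by rw [h.self, hQu, mul_zero]
  have hE : ∀ w (hw : B u w = 0), h.eich u w hQu hw ∈ M := fun w hw =>
    hM _ (h.eich_Q u w hQu hw) (h.eich_det u w hQu hw)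
  have hb : ∀ x : V, (g * h.eich u w hQu hw * g⁻¹) x
        = x + (lam * B u x) • g w - (B wh x) • u - (Q w * (lam * B u x)) • u := by
    intro x
    rw [LinearEquiv.mul_apply, LinearEquiv.mul_apply, h.eich_apply]
    simp only [map_sub, map_add, map_smul, hginv', hgu, hlam, ← hwh]
  have hgwu : B (g w) u = 0 := by rw [h.symm, hugw]
  have hwhu : B wh u = 0 := by rw [hwh, hginvu, h.symm, hw]
  refine P_of_eq (h.eich u (-(lam • g w)) hQu (by simp [hugw]) * (g * h.eich u w hQu hw * g⁻¹))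
    (M.mul_mem (hE _ _) (M.mul_mem (M.mul_mem hgM (hE _ _)) (M.inv_mem hgM))) ?_ (fun x => ?_)
  · simp [huu, hgwu, hwhu]
  · rw [LinearEquiv.mul_apply, hb, h.eich_apply]
    simp only [map_add, map_sub, map_smul, map_neg, LinearMap.neg_apply, LinearMap.add_apply,
      LinearMap.sub_apply, LinearMap.smul_apply, smul_eq_mul, huu, hugw, hgwu, h.neg, h.smul,
      h.self (g w)]
    module

end Cfsg.Agent.Lib.H40O6Step2
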