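import Cfsg.Agent.Lib.H40O6Step1
import Cfsg.Agent.Lib.H40O6Step2

/-! # Project 40 (S5798), piece `Step3`: a non-similarity fixing a singular vector `u` produces a
non-trivial transvection with centre `u` -/

set_option autoImplicit false

namespace Cfsg.Agent.Lib.H40O6Step3

open Module Cfsg.Agent.Lib.Helper95Sp Cfsg.Agent.Lib.Helper95SpSL Cfsg.Agent.Lib.Helper95Herm
  Cfsg.Agent.Lib.Helper95Quad Cfsg.Agent.Lib.H40O6Step1 Cfsg.Agent.Lib.H40O6Step2

variable {K V : Type*} [Field K] [AddCommGroup V] [Module K V]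
variable {B : LinearMap.BilinForm K V} {Q : V → K} {M : Subgroup (V ≃ₗ[K] V)}

theorem exists_tv [FiniteDimensional K V] (h : QF B Q) (hB : B.Nondegenerate)
    (h2 : (2 : K) ≠ 0) (hdim : 5 ≤ finrank K V)
    (hM : ∀ e : V ≃ₗ[K] V, (∃ c : K, ∀ v, Q (e v) = c * Q v) →
      LinearMap.det (e : V →ₗ[K] V) = 1 → e ∈ M)
    (g : V ≃ₗ[K] V) (hgM : g ∈ M) (hdet : LinearMap.det (g : V →ₗ[K] V) = 1)
    (hg : ¬ ∃ c : K, ∀ x, Q (g x) = c * Q x)
    (u : V) (hu0 : u ≠ 0) (hQu : Q u = 0) (hgu : g u = u) :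
    ∃ u0, u0 ≠ 0 ∧ P M u (B u0) := by
  classical
  by_contra hcon
  have NT : ∀ u0, P M u (B u0) → u0 = 0 := by
    intro u0 hP
    by_contra h0
    exact hcon ⟨u0, h0, hP⟩
  have hM' : ∀ e : V ≃ₗ[K] V, (∀ v, Q (e v) = Q v) → LinearMap.det (e : V →ₗ[K] V) = 1 → e ∈ M :=
    fun e he hd => hM e ⟨1, fun v => by rw [he, one_mul]⟩ hd
  have rep : ∀ ℓ : Dual K V, ∃ m, ∀ x, B m x = ℓ x := fun ℓ =>
    ⟨(LinearMap.BilinForm.toDual B hB).symm ℓ, fun x =>
      LinearMap.BilinForm.apply_toDual_symm_apply ℓ x⟩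
  have hginv : ∀ x, g⁻¹ (g x) = x := fun x => g.symm_apply_apply x
  have hginv' : ∀ x, g (g⁻¹ x) = x := fun x => g.apply_symm_apply x
  have huu : B u u = 0 := by rw [h.self, hQu, mul_zero]
  -- Step 1
  obtain ⟨ph, hph⟩ := rep (B u ∘ₗ ((g⁻¹ : V ≃ₗ[K] V) : V →ₗ[K] V))
  have hph' : ∀ x, B ph x = B u (g⁻¹ x) := fun x => by rw [hph]; rfl
  obtain ⟨y, hyU, hQy⟩ := h.exists_ns hB {u, ph} (by
    have := Finset.card_le_two (a := u) (b := ph)
    omega)
  have hyu : B u y = 0 := by rw [h.symm]; exact hyU u (by simp)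
  have hyph : B ph y = 0 := by rw [h.symm]; exact hyU ph (by simp)
  have s1 := NT _ (step1 h hM' g hgM u ph y hQu hgu hph' hyu hyph)
  obtain ⟨lam, hlamdef⟩ : ∃ lam : K, lam = Q (g⁻¹ y) / Q y := ⟨_, rfl⟩
  have hphu : ph = lam • u := by
    have h3 : (2 * Q y) • ph = (2 * Q (g⁻¹ y)) • u := (sub_eq_zero.1 s1).symm
    have h4 : ph = (2 * Q y)⁻¹ • ((2 * Q y) • ph) := by
      rw [smul_smul, inv_mul_cancel₀ (mul_ne_zero h2 hQy), one_smul]
    rw [h4, h3, smul_smul, hlamdef]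
    congr 1
    field_simp
  have hlam : ∀ x, B u (g⁻¹ x) = lam * B u x := by
    intro x
    rw [← hph', hphu, map_smul, LinearMap.smul_apply, smul_eq_mul]
  have hlam0 : lam ≠ 0 := by
    intro h0
    apply hu0
    apply hB.1 u
    intro z
    have := hlam (g z)
    rw [hginv, h0, zero_mul] at this
    exact this
  have hug : ∀ z, B u (g z) = lam⁻¹ * B u z := by
    intro z
    have := hlam (g z)
    rw [hginv] at this
    rw [this]
    field_simp
  -- Step 2
  have s2 : ∀ w, B u w = 0 → lam * Q (g w) = Q w ∧ ∀ z, lam * B (g w) (g z) = B w z := by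
    intro w hw
    obtain ⟨wh, hwh⟩ := rep (B w ∘ₗ ((g⁻¹ : V ≃ₗ[K] V) : V →ₗ[K] V))
    have hwh' : ∀ x, B wh x = B w (g⁻¹ x) := fun x => by rw [hwh]; rfl
    have h3 := NT _ (step2 h hM' g hgM u hQu hgu lam hlam0 hlam w wh hw hwh')
    have h4 : ∀ z, lam * B (g w) (g z) - B w z
        + (lam ^ 2 * Q (g w) - lam * Q w) * (lam⁻¹ * B u z) = 0 := by
      intro z
      have := congrArg (fun v => B v (g z)) h3
      simp only [map_add, map_sub, map_smul, LinearMap.add_apply, LinearMap.sub_apply,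
        LinearMap.smul_apply, smul_eq_mul, hwh', hginv, hug, map_zero, LinearMap.zero_apply] at this
      exact this
    have h5 : lam * Q (g w) = Q w := by
      have := h4 w
      rw [hw, mul_zero, mul_zero, add_zero, h.self, h.self] at this
      have h6 : 2 * (lam * Q (g w) - Q w) = 0 := by linear_combination this
      rcases mul_eq_zero.1 h6 with h7 | h7
      · exact absurd h7 h2
      · linear_combination h7
    refine ⟨h5, fun z => ?_⟩
    have := h4 z
    have h6 : lam ^ 2 * Q (g w) - lam * Q w = 0 := by linear_combination lam * h5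
    rw [h6, zero_mul, add_zero] at this
    linear_combination this
  -- Step 3
  obtain ⟨y0, hy0⟩ : ∃ y0, B u y0 = 1 := by
    obtain ⟨y1, hy1⟩ : ∃ y1, B u y1 ≠ 0 := by
      by_contra hc
      push Not at hc
      exact hu0 (hB.1 u hc)
    refine ⟨(B u y1)⁻¹ • y1, ?_⟩
    rw [map_smul, smul_eq_mul, inv_mul_cancel₀ hy1]
  obtain ⟨d, hd⟩ : ∃ d : K, d = Q (g y0) - lam⁻¹ * Q y0 := ⟨_, rfl⟩
  have s3 : ∀ z, Q (g z) = lam⁻¹ * Q z + d * (B u z) ^ 2 := by
    intro z
    obtain ⟨t, ht⟩ : ∃ t : K, t = B u z := ⟨_, rfl⟩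
    obtain ⟨w, hw⟩ : ∃ w : V, w = z - t • y0 := ⟨_, rfl⟩
    have huw : B u w = 0 := by
      rw [hw, map_sub, map_smul, hy0, ← ht]; simp
    have hz : z = t • y0 + w := by rw [hw]; abel
    obtain ⟨e1, e2⟩ := s2 w huw
    have e3 := e2 y0
    have e1' : Q (g w) = lam⁻¹ * Q w := by rw [← e1]; field_simp
    have e3' : B (g w) (g y0) = lam⁻¹ * B w y0 := by rw [← e3]; field_simp
    rw [← ht, hz, map_add, map_smul, h.add, h.add, h.smul, h.smul, map_smul, map_smul,
      LinearMap.smul_apply, LinearMap.smul_apply, h.symm (g y0), e1', e3', h.symm y0, hd]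
    simp only [smul_eq_mul]
    ring
  by_cases hd0 : d = 0
  · exact hg ⟨lam⁻¹, fun x => by rw [s3, hd0]; ring⟩
  -- the transvection
  have hℓ : (-((lam * d) • B u)) u = 0 := by simp [huu]
  obtain ⟨tm, htm⟩ : ∃ tm : V ≃ₗ[K] V, tm = LinearEquiv.transvection hℓ := ⟨_, rfl⟩
  have htm' : ∀ x, tm x = x - (lam * d * B u x) • u := by
    intro x
    rw [htm]
    simp [LinearMap.transvection.apply, sub_eq_add_neg]
  have hg0Q : ∀ x, Q ((g * tm) x) = lam⁻¹ * Q x := by
    intro x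
    rw [LinearEquiv.mul_apply, s3, htm', h.sub, h.smul, hQu, map_sub, map_smul, map_smul, huu,
      h.symm x u]
    simp only [smul_eq_mul]
    field_simp
    ring
  have hg0d : LinearMap.det ((g * tm : V ≃ₗ[K] V) : V →ₗ[K] V) = 1 := by
    have : ((g * tm : V ≃ₗ[K] V) : V →ₗ[K] V) =
        (g : V →ₗ[K] V) * (LinearMap.transvection (-((lam * d) • B u)) u) := by
      ext x
      rw [htm]
      simp [LinearMap.transvection.apply]
    rw [this, map_mul, hdet, LinearMap.transvection.det, hℓ]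
    ring
  have hg0M : g * tm ∈ M := hM _ ⟨lam⁻¹, hg0Q⟩ hg0d
  have hP : P M u (B ((lam * d) • u)) := by
    refine P_of_eq ((g * tm)⁻¹ * g) (M.mul_mem (M.inv_mem hg0M) hgM) (by simp [huu]) (fun x => ?_)
    have h3 : g x = (g * tm) (x + (B ((lam * d) • u) x) • u) := by
      rw [LinearEquiv.mul_apply, htm']
      congr 1
      simp only [map_add, map_smul, LinearMap.smul_apply, smul_eq_mul, huu]
      module
    rw [LinearEquiv.mul_apply, h3]
    exact (g * tm).symm_apply_apply _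
  exact (smul_ne_zero (mul_ne_zero hlam0 hd0) hu0) (NT _ hP)

end Cfsg.Agent.Lib.H40O6Step3
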