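import Cfsg.Agent.Lib.Helper42OPDefs

set_option autoImplicit false

/-! PROJECT 142 (OUT-PLUS), piece A1.  Sketches: notes/helper42/OP/README.md -/

namespace Cfsg.Agent.Lib.H42OPA1

open Subgroup Cfsg.Agent.Lib.Helper23Grp Cfsg.Agent.Lib.Helper23RG Cfsg.Agent.Lib.Helper23RG.RG
  Cfsg.Agent.Lib.Helper23Weyl Cfsg.Agent.Lib.LeadAutDefs Cfsg.Agent.Lib.LeadAutMain
  Cfsg.Agent.Lib.Helper42OPDefs

variable {𝔾 K R : Type*} [Group 𝔾] [Field K] [Fintype R] [DecidableEq R] {S : RG 𝔾 K R (Fin 4)}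

/-- PIECE A1: composition law. -/
theorem acts_comp {θ θ' : MulAut 𝔾} {ρ ρ' : Equiv.Perm (Fin 4)} {c c' : Fin 4 → Kˣ}
    {σ σ' : K ≃+* K} (hA : Acts S θ ρ (fun i t => (c i : K) * σ t))
    (hA' : Acts S θ' ρ' (fun i t => (c' i : K) * σ' t)) :
    ∃ c'' : Fin 4 → Kˣ, (∀ i, (c'' i : K) = c (ρ' i) * σ (c' i)) ∧
      Acts S (θ * θ') (ρ * ρ') (fun i t => (c'' i : K) * (σ * σ') t) := by
  refine ⟨fun i => c (ρ' i) * Units.map (σ : K →* K) (c' i), fun i => rfl, ?_, ?_, ?_, ?_⟩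
  · intro i t
    show θ (θ' _) = S.x (S.simple (ρ (ρ' i))) (((c (ρ' i) : K) * σ (c' i)) * σ (σ' t))
    rw [hA'.pos, hA.pos, map_mul, mul_assoc]
  · intro i t ht
    show θ (θ' _) = S.x (S.neg (S.simple (ρ (ρ' i)))) (-(((c (ρ' i) : K) * σ (c' i)) * σ (σ' t))⁻¹)
    have h1 : (c' i : K) * σ' t ≠ 0 :=
      mul_ne_zero (Units.ne_zero _) (by simpa using ht)
    rw [hA'.neg i t ht, hA.neg (ρ' i) _ h1, map_mul, mul_assoc]
  · intro i a b
    simp only [map_add, mul_add]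
  · intro i
    exact (mulLeft_bijective₀ _ (Units.ne_zero _)).comp (RingEquiv.bijective _)

end Cfsg.Agent.Lib.H42OPA1
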