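import Cfsg.Agent.Lib.LeadAutDefs
import Cfsg.Agent.Lib.LeadChevMisc
import Cfsg.Agent.Lib.Helper22ChevBruhat
import Cfsg.Agent.Lib.Helper23RG2

set_option autoImplicit false
set_option linter.unusedSectionVars false

namespace Cfsg.Agent.Lib.Helper77AutS1

open Subgroup Cfsg.Agent.Lib.Helper23Grp Cfsg.Agent.Lib.Helper23RG Cfsg.Agent.Lib.Helper23RG.RG
  Cfsg.Agent.Lib.Helper23Weyl Cfsg.Agent.Lib.LeadAutDefs

variable {𝔾 K R I : Type*} [Group 𝔾] [Field K] [Fintype R] [DecidableEq R] {S : RG 𝔾 K R I}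

theorem perms_unique (h : AData S) {ν : 𝔾 ≃* 𝔾} {ρ ρ' : Equiv.Perm I} (h1 : Perms S ν ρ)
    (h2 : Perms S ν ρ') : ρ = ρ' := by
  have ok := h.ok
  ext i
  obtain ⟨u, hu⟩ := (mem_X_iff ok).1 (((h1 i (S.x (S.simple i) 1)).1).2 (x_mem_X _ _))
  obtain ⟨u', hu'⟩ := (mem_X_iff ok).1 (((h2 i (S.x (S.simple i) 1)).1).2 (x_mem_X _ _))
  have hu0 : u ≠ 0 := by
    rintro rfl
    rw [x_zero ok, map_eq_one_iff ν ν.injective] at hu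
    exact one_ne_zero (ok.x_inj _ _ hu)
  exact h.inj (x_root_inj ok h.hBV _ _ u u' hu0 (hu.symm.trans hu'))

theorem H_conj_X (ok : S.Ok) {y : 𝔾} (hy : y ∈ S.H) (r : R) (g : 𝔾) :
    y * g * y⁻¹ ∈ S.X r ↔ g ∈ S.X r := by
  have key : ∀ z ∈ S.H, ∀ g ∈ S.X r, z * g * z⁻¹ ∈ S.X r := by
    intro z hz g hg
    obtain ⟨t, rfl⟩ := (mem_X_iff ok).1 hg
    obtain ⟨_, c, _, _, hc⟩ := Mon_H ok z hz
    rw [hc]
    exact x_mem_X _ _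
  refine ⟨fun hg => ?_, key y hy g⟩
  have := key y⁻¹ (S.H.inv_mem hy) _ hg
  simpa [mul_assoc] using this

/-- the relation defining the action on the nodes -/
def Rl (S : RG 𝔾 K R I) (θ : 𝔾 ≃* 𝔾) (ρ : Equiv.Perm I) : Prop :=
  ∃ y : 𝔾, Nrm S (θ.trans (MulAut.conj y)) ∧ Perms S (θ.trans (MulAut.conj y)) ρ

theorem Rl.unique (h : AData S) (hB6 : ∀ y : 𝔾, Nrm S (MulAut.conj y) ↔ y ∈ S.H)
    {θ : 𝔾 ≃* 𝔾} {ρ ρ' : Equiv.Perm I} (h1 : Rl S θ ρ) (h2 : Rl S θ ρ') : ρ = ρ' := by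
  obtain ⟨y, hy, hp⟩ := h1
  obtain ⟨y', hy', hp'⟩ := h2
  have e : ∀ g, (θ.trans (MulAut.conj y')) g =
      (y' * y⁻¹) * (θ.trans (MulAut.conj y)) g * (y' * y⁻¹)⁻¹ := by
    intro g
    simp only [MulEquiv.trans_apply, MulAut.conj_apply]
    group
  have hH : y' * y⁻¹ ∈ S.H := by
    rw [← hB6]
    constructor
    · intro g
      obtain ⟨g0, rfl⟩ := (θ.trans (MulAut.conj y)).surjective g
      rw [MulAut.conj_apply, ← e, hy'.1, hy.1]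
    · intro g
      obtain ⟨g0, rfl⟩ := (θ.trans (MulAut.conj y)).surjective g
      rw [MulAut.conj_apply, ← e, hy'.2, hy.2]
  refine perms_unique h (ν := θ.trans (MulAut.conj y')) ?_ hp'
  intro i g
  rw [e, H_conj_X h.ok hH, H_conj_X h.ok hH]
  exact hp i g

theorem Rl.mul {θ1 θ2 : 𝔾 ≃* 𝔾} {ρ1 ρ2 : Equiv.Perm I} (h1 : Rl S θ1 ρ1) (h2 : Rl S θ2 ρ2) :
    Rl S ((θ1 : MulAut 𝔾) * (θ2 : MulAut 𝔾)) (ρ1 * ρ2) := by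
  obtain ⟨y1, hy1, hp1⟩ := h1
  obtain ⟨y2, hy2, hp2⟩ := h2
  have e : ∀ g, (MulEquiv.trans ((θ1 : MulAut 𝔾) * (θ2 : MulAut 𝔾)) (MulAut.conj (y1 * θ1 y2))) g =
      (θ1.trans (MulAut.conj y1)) ((θ2.trans (MulAut.conj y2)) g) := by
    intro g
    simp only [MulEquiv.trans_apply, MulAut.conj_apply, MulAut.mul_apply, map_mul, map_inv, mul_inv_rev,
      mul_assoc]
  refine ⟨y1 * θ1 y2, ⟨fun g => ?_, fun g => ?_⟩, fun i g => ⟨?_, ?_⟩⟩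
  · rw [e, hy1.1, hy2.1]
  · rw [e, hy1.2, hy2.2]
  · rw [e, Equiv.Perm.mul_apply, (hp1 _ _).1, (hp2 _ _).1]
  · rw [e, Equiv.Perm.mul_apply, (hp1 _ _).2, (hp2 _ _).2]

theorem Rl.of_nrm {θ : 𝔾 ≃* 𝔾} {ρ : Equiv.Perm I} (h1 : Nrm S θ) (h2 : Perms S θ ρ) : Rl S θ ρ := by
  have e : θ.trans (MulAut.conj (1 : 𝔾)) = θ := by
    ext g
    simp
  exact ⟨1, by rw [e]; exact h1, by rw [e]; exact h2⟩

theorem Rl.conj (y : 𝔾) : Rl S (MulAut.conj y) 1 := by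
  have e : ∀ g, (MulEquiv.trans (MulAut.conj y) (MulAut.conj y⁻¹)) g = g := by
    intro g
    simp only [MulEquiv.trans_apply, MulAut.conj_apply]
    group
  refine ⟨y⁻¹, ⟨fun g => by rw [e], fun g => by rw [e]⟩, fun i g => ⟨by rw [e]; rfl, by rw [e]; rfl⟩⟩

/-- S1 (uses A2, THEOREM 1, B6 as hypotheses): the action of `Aut` on the nodes of the diagram -/
theorem exists_hom (h : AData S)
    (hA2 : ∀ θ : 𝔾 ≃* 𝔾, ∃ y : 𝔾, Nrm S (θ.trans (MulAut.conj y)))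
    (hT1 : ∀ θ : 𝔾 ≃* 𝔾, Nrm S θ → ∃ ρ, Perms S θ ρ)
    (hB6 : ∀ y : 𝔾, Nrm S (MulAut.conj y) ↔ y ∈ S.H) :
    ∃ Ψ : MulAut 𝔾 →* Equiv.Perm I, (∀ (θ : MulAut 𝔾) (ρ : Equiv.Perm I), Nrm S θ → Perms S θ ρ → Ψ θ = ρ) ∧
      ∀ y : 𝔾, Ψ (MulAut.conj y) = 1 := by
  have hex : ∀ θ : MulAut 𝔾, ∃ ρ, Rl S θ ρ := by
    intro θ
    obtain ⟨y, hy⟩ := hA2 θ
    obtain ⟨ρ, hρ⟩ := hT1 _ hy
    exact ⟨ρ, y, hy, hρ⟩
  choose Ψ hΨ using hex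
  refine ⟨MonoidHom.mk' Ψ (fun a b => ?_), fun θ ρ h1 h2 => ?_, fun y => ?_⟩
  · exact Rl.unique h hB6 (hΨ (a * b)) ((hΨ a).mul (hΨ b))
  · exact Rl.unique h hB6 (hΨ θ) (Rl.of_nrm h1 h2)
  · exact Rl.unique h hB6 (hΨ _) (Rl.conj y)

end Cfsg.Agent.Lib.Helper77AutS1
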