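import Cfsg.Agent.Lib.Helper42OPDefs
import Cfsg.Agent.Lib.Helper77AutS1

set_option autoImplicit false

/-! PROJECT 142 (OUT-PLUS), piece A2.  Sketches: notes/helper42/OP/README.md -/

namespace Cfsg.Agent.Lib.H42OPA2

open Subgroup Cfsg.Agent.Lib.Helper23Grp Cfsg.Agent.Lib.Helper23RG Cfsg.Agent.Lib.Helper23RG.RG
  Cfsg.Agent.Lib.Helper23Weyl Cfsg.Agent.Lib.LeadAutDefs Cfsg.Agent.Lib.LeadAutMain
  Cfsg.Agent.Lib.Helper42OPDefs

variable {𝔾 K R : Type*} [Group 𝔾] [Field K] [Fintype R] [DecidableEq R] {S : RG 𝔾 K R (Fin 4)}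

/-- PIECE A2 (40 min): the parameters are determined by the automorphism.
`ρ = ρ'`: `Acts.perms h hA : Perms S θ ρ`, `Acts.perms h hA'`, and the uniqueness of the permutation
(`Cfsg.Agent.Lib.Helper77AutS1.perms_unique`, or directly: `S.x (S.simple (ρ i)) a = S.x (S.simple (ρ' i)) b` with `a ≠ 0`
forces `ρ i = ρ' i`, see `LeadAutMain.perm_eq`).  Then `hA.pos i t`, `hA'.pos i t` and `x_eq_iff h.ok` give
`c i * σ t = c' i * σ' t`; `t = 1` gives `c = c'` (`Units.ext`), then cancel to get `σ = σ'` (`RingEquiv.ext`, use `i = 0`). -/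
theorem acts_param (h : AData S) {θ : MulAut 𝔾} {ρ ρ' : Equiv.Perm (Fin 4)} {c c' : Fin 4 → Kˣ}
    {σ σ' : K ≃+* K} (hA : Acts S θ ρ (fun i t => (c i : K) * σ t))
    (hA' : Acts S θ ρ' (fun i t => (c' i : K) * σ' t)) : ρ = ρ' ∧ c = c' ∧ σ = σ' := by
  have hρ : ρ = ρ' := Cfsg.Agent.Lib.Helper77AutS1.perms_unique h (Acts.perms h hA) (Acts.perms h hA')
  subst hρ
  have key : ∀ i t, (c i : K) * σ t = (c' i : K) * σ' t := by
    intro i t
    have h1 := hA.pos i t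
    have h2 := hA'.pos i t
    exact (x_eq_iff h.ok _ _ _).1 (h1.symm.trans h2)
  have hc : c = c' := by
    funext i
    apply Units.ext
    have := key i 1
    simpa using this
  subst hc
  refine ⟨rfl, rfl, ?_⟩
  apply RingEquiv.ext
  intro t
  exact mul_left_cancel₀ (c 0).ne_zero (key 0 t)

end Cfsg.Agent.Lib.H42OPA2
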