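import Cfsg.Agent.Lib.Helper42OPDefs

set_option autoImplicit false

/-! PROJECT 142 (OUT-PLUS), piece A3.  Sketches: notes/helper42/OP/README.md -/

namespace Cfsg.Agent.Lib.H42OPA3

open Subgroup Cfsg.Agent.Lib.Helper23Grp Cfsg.Agent.Lib.Helper23RG Cfsg.Agent.Lib.Helper23RG.RG
  Cfsg.Agent.Lib.Helper23Weyl Cfsg.Agent.Lib.LeadAutDefs Cfsg.Agent.Lib.LeadAutMain
  Cfsg.Agent.Lib.Helper42OPDefs

variable {𝔾 K R : Type*} [Group 𝔾] [Field K] [Fintype R] [DecidableEq R] {S : RG 𝔾 K R (Fin 4)}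

/-- PIECE A3 (20 min): every class of `Out` is represented by an automorphism in normal form.
`o = oq 𝔾 θ₀` (`QuotientGroup.mk'_surjective`); `exists_nrm D.h θ₀ : ∃ y, Nrm S (θ₀.trans (MulAut.conj y))` and
`θ₀.trans (MulAut.conj y) = MulAut.conj y * θ₀` is `rfl`; `D.form` gives `ρ c σ`;
`oq (conj y * θ₀) = oq θ₀` because `MulAut.conj y ∈ Cfsg.Inn 𝔾 = MulAut.conj.range`
(`map_mul`, `(QuotientGroup.eq_one_iff _).2 ⟨y, rfl⟩`, `one_mul`). -/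
theorem out_rep (D : D4Data S) (o : Cfsg.Out 𝔾) :
    ∃ (θ : MulAut 𝔾) (ρ : Equiv.Perm (Fin 4)) (c : Fin 4 → Kˣ) (σ : K ≃+* K), ρ 1 = 1 ∧
      Acts S θ ρ (fun i t => (c i : K) * σ t) ∧ oq 𝔾 θ = o := by
  obtain ⟨θ₀, rfl⟩ := QuotientGroup.mk'_surjective (Cfsg.Inn 𝔾) o
  obtain ⟨y, hy⟩ := exists_nrm D.h θ₀
  obtain ⟨ρ, c, σ, hρ, hA⟩ := D.form _ hy
  refine ⟨MulAut.conj y * θ₀, ρ, c, σ, hρ, hA, ?_⟩
  have h1 : oq 𝔾 (MulAut.conj y) = 1 := (QuotientGroup.eq_one_iff _).2 ⟨y, rfl⟩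
  rw [map_mul, h1, one_mul]

end Cfsg.Agent.Lib.H42OPA3
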