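import Cfsg.Agent.Lib.Helper42OPDefs
import Cfsg.Agent.Lib.H42OPA2

set_option autoImplicit false

/-! PROJECT 142 (OUT-PLUS), piece A4.  Sketches: notes/helper42/OP/README.md -/

namespace Cfsg.Agent.Lib.H42OPA4

open Subgroup Cfsg.Agent.Lib.Helper23Grp Cfsg.Agent.Lib.Helper23RG Cfsg.Agent.Lib.Helper23RG.RG
  Cfsg.Agent.Lib.Helper23Weyl Cfsg.Agent.Lib.LeadAutDefs Cfsg.Agent.Lib.LeadAutMain
  Cfsg.Agent.Lib.Helper42OPDefs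
open Cfsg.Agent.Lib.H42OPA2

variable {𝔾 K R : Type*} [Group 𝔾] [Field K] [Fintype R] [DecidableEq R] {S : RG 𝔾 K R (Fin 4)}

/-- PIECE A4 (30 min): inner automorphisms in normal form.
`h1` gives `θ ∈ Cfsg.Inn 𝔾`, i.e. `θ = MulAut.conj y` (`(QuotientGroup.eq_one_iff θ).1 h1`).  `Acts.nrm D.h hA : Nrm S θ`,
`conj_nrm_iff D.h (fun _ h1 h2 => mem_H_of_conj' D.h h1 h2)` (see its use in `LeadAutStr.main`) gives `y ∈ S.H`;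
`D.tor y hy` gives `χ`; `acts_param` (A2) identifies `(ρ, c, σ) = (1, χ, 1)`. -/
theorem inner_form (D : D4Data S) {θ : MulAut 𝔾} {ρ : Equiv.Perm (Fin 4)} {c : Fin 4 → Kˣ}
    {σ : K ≃+* K} (hA : Acts S θ ρ (fun i t => (c i : K) * σ t)) (h1 : oq 𝔾 θ = 1) :
    ρ = 1 ∧ σ = 1 ∧ IsSquare (c 0 * c 2) ∧ IsSquare (c 0 * c 3) := by
  have hmem : θ ∈ Cfsg.Inn 𝔾 := (QuotientGroup.eq_one_iff θ).1 h1
  obtain ⟨y, rfl⟩ : ∃ y : 𝔾, MulAut.conj y = θ := by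
    simpa [Cfsg.Inn] using hmem
  have hn : Nrm S (MulAut.conj y) := Acts.nrm D.h hA
  have hy : y ∈ S.H := (conj_nrm_iff D.h (fun _ h1 h2 => mem_H_of_conj' D.h h1 h2) y).1 hn
  obtain ⟨χ, hχ, hs1, hs2⟩ := D.tor y hy
  obtain ⟨e1, e2, e3⟩ := acts_param D.h hA hχ
  subst e1 e2 e3
  exact ⟨rfl, rfl, hs1, hs2⟩

end Cfsg.Agent.Lib.H42OPA4
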