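import Cfsg.Agent.Lib.Helper42OPDefs

set_option autoImplicit false

/-! PROJECT 142 (OUT-PLUS), piece A5.  Sketches: notes/helper42/OP/README.md -/

namespace Cfsg.Agent.Lib.H42OPA5

open Subgroup Cfsg.Agent.Lib.Helper23Grp Cfsg.Agent.Lib.Helper23RG Cfsg.Agent.Lib.Helper23RG.RG
  Cfsg.Agent.Lib.Helper23Weyl Cfsg.Agent.Lib.LeadAutDefs Cfsg.Agent.Lib.LeadAutMain
  Cfsg.Agent.Lib.Helper42OPDefs

variable {𝔾 K R : Type*} [Group 𝔾] [Field K] [Fintype R] [DecidableEq R] {S : RG 𝔾 K R (Fin 4)}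

/-- PIECE A5 (20 min): diagonal automorphisms with square parameters are inner.
Choose `s i` with `c i = s i * s i`; `D.sq s` gives `y ∈ S.H` with the same `Acts`-data;
`acts_unique D.h (gen_simple D.h) hA hA'` gives `θ = MulAut.conj y`; then `(QuotientGroup.eq_one_iff _).2 ⟨y, rfl⟩`. -/
theorem inner_of_sq (D : D4Data S) {θ : MulAut 𝔾} {c : Fin 4 → Kˣ}
    (hA : Acts S θ 1 (fun i t => (c i : K) * (1 : K ≃+* K) t)) (hc : ∀ i, IsSquare (c i)) :
    oq 𝔾 θ = 1 := by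
  choose s hs using hc
  obtain ⟨y, _, hy⟩ := D.sq s
  have e : (fun (i : Fin 4) (t : K) => (c i : K) * (1 : K ≃+* K) t) =
      fun i t => ((s i * s i : Kˣ) : K) * (1 : K ≃+* K) t := by
    funext i t
    rw [hs i]
  rw [e] at hA
  have h1 : θ = MulAut.conj y := acts_unique D.h (gen_simple D.h) hA hy
  rw [h1]
  exact (QuotientGroup.eq_one_iff _).2 ⟨y, rfl⟩

end Cfsg.Agent.Lib.H42OPA5
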