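import Cfsg.Agent.Lib.Helper42OPDefs

set_option autoImplicit false

/-! PROJECT 142 (OUT-PLUS), piece A7.  Sketches: notes/helper42/OP/README.md -/

namespace Cfsg.Agent.Lib.H42OPA7

open Subgroup Cfsg.Agent.Lib.Helper23Grp Cfsg.Agent.Lib.Helper23RG Cfsg.Agent.Lib.Helper23RG.RG
  Cfsg.Agent.Lib.Helper23Weyl Cfsg.Agent.Lib.LeadAutDefs Cfsg.Agent.Lib.LeadAutMain
  Cfsg.Agent.Lib.Helper42OPDefs

variable {𝔾 K R : Type*} [Group 𝔾] [Field K] [Fintype R] [DecidableEq R] {S : RG 𝔾 K R (Fin 4)}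

/-- PIECE A7: the identity and inverses. -/
theorem acts_one : Acts S (1 : MulAut 𝔾) 1 (fun i t => (((1 : Fin 4 → Kˣ) i : Kˣ) : K) * (1 : K ≃+* K) t) := by
  refine ⟨?_, ?_, ?_, ?_⟩
  · intro i t
    show S.x (S.simple i) t = S.x (S.simple i) (((1 : Kˣ) : K) * t)
    rw [Units.val_one, one_mul]
  · intro i t _
    show S.x (S.neg (S.simple i)) (-t⁻¹) = S.x (S.neg (S.simple i)) (-(((1 : Kˣ) : K) * t)⁻¹)
    rw [Units.val_one, one_mul]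
  · intro i a b
    simp only [map_add, mul_add]
  · intro i
    exact (mulLeft_bijective₀ _ (Units.ne_zero _)).comp (RingEquiv.bijective _)

theorem acts_inv {θ : MulAut 𝔾} {ρ : Equiv.Perm (Fin 4)} {c : Fin 4 → Kˣ}
    {σ : K ≃+* K} (hA : Acts S θ ρ (fun i t => (c i : K) * σ t)) :
    ∃ c' : Fin 4 → Kˣ, Acts S θ⁻¹ ρ⁻¹ (fun i t => (c' i : K) * (σ⁻¹ : K ≃+* K) t) := by
  have hσ : ∀ t, σ ((σ⁻¹ : K ≃+* K) t) = t := fun t => σ.apply_symm_apply t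
  have hρ : ∀ j, ρ (ρ⁻¹ j) = j := fun j => ρ.apply_symm_apply j
  have hc : ∀ j t, (c (ρ⁻¹ j) : K) *
      σ ((((Units.map ((σ⁻¹ : K ≃+* K) : K →* K) (c (ρ⁻¹ j)))⁻¹ : Kˣ) : K) * (σ⁻¹ : K ≃+* K) t) = t := by
    intro j t
    rw [map_mul, hσ, Units.val_inv_eq_inv_val, map_inv₀]
    have : σ ((Units.map ((σ⁻¹ : K ≃+* K) : K →* K) (c (ρ⁻¹ j)) : Kˣ) : K) = c (ρ⁻¹ j) := hσ _
    rw [this, mul_inv_cancel_left₀ (Units.ne_zero _)]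
  refine ⟨fun j => (Units.map ((σ⁻¹ : K ≃+* K) : K →* K) (c (ρ⁻¹ j)))⁻¹, ?_, ?_, ?_, ?_⟩
  · intro j t
    show θ.symm _ = _
    rw [MulEquiv.symm_apply_eq, hA.pos, hρ, hc]
  · intro j t ht
    show θ.symm _ = _
    have h1 : (((Units.map ((σ⁻¹ : K ≃+* K) : K →* K) (c (ρ⁻¹ j)))⁻¹ : Kˣ) : K) * (σ⁻¹ : K ≃+* K) t ≠ 0 :=
      mul_ne_zero (Units.ne_zero _) (by simpa using ht)
    rw [MulEquiv.symm_apply_eq, hA.neg _ _ h1, hρ, hc]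
  · intro i a b
    simp only [map_add, mul_add]
  · intro i
    exact (mulLeft_bijective₀ _ (Units.ne_zero _)).comp (RingEquiv.bijective _)

end Cfsg.Agent.Lib.H42OPA7
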