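import Cfsg.Agent.Lib.Helper42OPDefs
import Cfsg.Agent.Lib.H42OPA1
import Cfsg.Agent.Lib.H42OPA3
import Cfsg.Agent.Lib.H42OPA4
import Cfsg.Agent.Lib.H42OPA7

set_option autoImplicit false

/-! PROJECT 142 (OUT-PLUS), piece A6.  Sketches: notes/helper42/OP/README.md -/

namespace Cfsg.Agent.Lib.H42OPA6

open Subgroup Cfsg.Agent.Lib.Helper23Grp Cfsg.Agent.Lib.Helper23RG Cfsg.Agent.Lib.Helper23RG.RG
  Cfsg.Agent.Lib.Helper23Weyl Cfsg.Agent.Lib.LeadAutDefs Cfsg.Agent.Lib.LeadAutMain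
  Cfsg.Agent.Lib.Helper42OPDefs
open Cfsg.Agent.Lib.H42OPA1 Cfsg.Agent.Lib.H42OPA3 Cfsg.Agent.Lib.H42OPA4 Cfsg.Agent.Lib.H42OPA7

variable {𝔾 K R : Type*} [Group 𝔾] [Field K] [Fintype R] [DecidableEq R] {S : RG 𝔾 K R (Fin 4)}

/-- Step 1: the pair `(ρ, σ)` only depends on the class in `Out`. -/
theorem lam_wd (D : D4Data S) {θ θ' : MulAut 𝔾} {ρ ρ' : Equiv.Perm (Fin 4)} {c c' : Fin 4 → Kˣ}
    {σ σ' : K ≃+* K} (hA : Acts S θ ρ (fun i t => (c i : K) * σ t))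
    (hA' : Acts S θ' ρ' (fun i t => (c' i : K) * σ' t)) (h : oq 𝔾 θ = oq 𝔾 θ') :
    ρ = ρ' ∧ σ = σ' := by
  obtain ⟨d, hd⟩ := acts_inv hA'
  obtain ⟨e, -, he⟩ := acts_comp hd hA
  have h1 : oq 𝔾 (θ'⁻¹ * θ) = 1 := by rw [map_mul, map_inv, h, inv_mul_cancel]
  obtain ⟨h2, h3, -, -⟩ := inner_form D he h1
  exact ⟨(inv_mul_eq_one.mp h2).symm, (inv_mul_eq_one.mp h3).symm⟩

/-- PIECE A6 (1 h): the homomorphism `Out → Sym(nodes) × Aut K`.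
Step 1 (well defined): if `Acts S θ ρ (c,σ)`, `Acts S θ' ρ' (c',σ')` and `oq θ = oq θ'` then `ρ = ρ'`, `σ = σ'`:
`acts_inv` (A7) + `acts_comp` (A1) give `Acts S (θ'⁻¹ * θ) (ρ'⁻¹ * ρ) (_, σ'⁻¹ * σ)`, `oq (θ'⁻¹ * θ) = 1`, `inner_form` (A4).
Step 2: with `out_rep` (A3) choose for every `o` a representative with parameters `(ρ_o, c_o, σ_o)` and put
`Λ o = (ρ_o, σ_o)` (`MonoidHom.mk'`); multiplicativity: `acts_comp` for the two representatives + Step 1.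
`LamSpec` is Step 1. -/
theorem exists_lam (D : D4Data S) :
    ∃ Λ : Cfsg.Out 𝔾 →* Equiv.Perm (Fin 4) × (K ≃+* K), LamSpec S Λ := by
  choose θ ρ c σ h1 hA ho using out_rep D
  refine ⟨MonoidHom.mk' (fun o => (ρ o, σ o)) ?_, ?_⟩
  · intro a b
    obtain ⟨e, -, he⟩ := acts_comp (hA a) (hA b)
    have h : oq 𝔾 (θ (a * b)) = oq 𝔾 (θ a * θ b) := by rw [ho, map_mul, ho, ho]
    obtain ⟨h2, h3⟩ := lam_wd D (hA (a * b)) he h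
    exact Prod.ext h2 h3
  · intro θ' ρ' c' σ' hA'
    have h : oq 𝔾 (θ (oq 𝔾 θ')) = oq 𝔾 θ' := ho _
    obtain ⟨h2, h3⟩ := lam_wd D (hA _) hA' h
    exact Prod.ext h2 h3

end Cfsg.Agent.Lib.H42OPA6
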