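import Mathlib

set_option autoImplicit false

/-! PROJECT 142 (OUT-PLUS), piece B1.  Sketches: notes/helper42/OP/README.md -/

namespace Cfsg.Agent.Lib.H42OPB1


/-- PIECE B1 (40 min, pure Mathlib): `σ(c)/c` is a square in a finite field.
Characteristic 2: every unit is a square (`FiniteField.isSquare_of_char_two`).  Odd characteristic: Euler's criterion
`FiniteField.unit_isSquare_iff` (`IsSquare a ↔ a ^ (q / 2) = 1`); `c ^ (q/2) = ± 1` (`FiniteField.pow_dichotomy`) is fixed
by `σ`, so `(σ c / c) ^ (q/2) = 1`. -/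
theorem sigma_div_isSquare {K : Type*} [Field K] [Finite K] (σ : K ≃+* K) (c : Kˣ) :
    ∃ s : Kˣ, σ (c : K) = ((s * s : Kˣ) : K) * (c : K) := by
  classical
  have := Fintype.ofFinite K
  let d : Kˣ := Units.map σ.toRingHom.toMonoidHom c * c⁻¹
  have hd : IsSquare d := by
    by_cases h2 : ringChar K = 2
    · obtain ⟨r, hr⟩ := FiniteField.isSquare_of_char_two h2 (d : K)
      have hr0 : r ≠ 0 := by
        rintro rfl
        rw [mul_zero] at hr
        exact d.ne_zero hr
      exact ⟨Units.mk0 r hr0, Units.ext (by simpa using hr)⟩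
    · rw [FiniteField.unit_isSquare_iff h2]
      have h3 := FiniteField.pow_dichotomy h2 c.ne_zero
      apply Units.ext
      have h4 : ((d ^ (Fintype.card K / 2) : Kˣ) : K)
          = σ ((c : K) ^ (Fintype.card K / 2)) * ((c : K) ^ (Fintype.card K / 2))⁻¹ := by
        simp [d, mul_pow]
      rw [h4]
      rcases h3 with h | h
      · rw [h]; simp
      · rw [h]; simp
  obtain ⟨s, hs⟩ := hd
  refine ⟨s, ?_⟩
  rw [← hs]
  simp [d]

end Cfsg.Agent.Lib.H42OPB1
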