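import Mathlib

set_option autoImplicit false

/-! PROJECT 142 (OUT-PLUS), piece B2.  Sketches: notes/helper42/OP/README.md -/

namespace Cfsg.Agent.Lib.H42OPB2


/-- PIECE B2 (10 min, pure Mathlib): `FiniteField.isSquare_of_char_two` + pass to units. -/
theorem isSquare_of_char_two {K : Type*} [Field K] [Finite K] (h2 : (2 : K) = 0) (c : Kˣ) : IsSquare c := by
  have hc : ringChar K = 2 := by
    have h : ringChar K ∣ 2 := by
      have := (ringChar.spec K 2).1 (by exact_mod_cast h2)
      exact this
    rcases (Nat.dvd_prime Nat.prime_two).1 h with h | h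
    · exact absurd h (CharP.ringChar_ne_one)
    · exact h
  obtain ⟨a, ha⟩ := FiniteField.isSquare_of_char_two hc (c : K)
  have ha0 : a ≠ 0 := by
    rintro rfl
    exact c.ne_zero (by simpa using ha)
  exact ⟨Units.mk0 a ha0, Units.ext (by simpa using ha)⟩

end Cfsg.Agent.Lib.H42OPB2
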