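import Mathlib

set_option autoImplicit false

/-! PROJECT 142 (OUT-PLUS), piece B3.  Sketches: notes/helper42/OP/README.md -/

namespace Cfsg.Agent.Lib.H42OPB3


/-- PIECE B3 (10 min, pure Mathlib): `FiniteField.exists_nonsquare` + pass to units. -/
theorem exists_nonsquare_unit {K : Type*} [Field K] [Finite K] (h2 : (2 : K) ≠ 0) : ∃ ν : Kˣ, ¬ IsSquare ν := by
  have hc : ringChar K ≠ 2 := by
    intro h
    apply h2
    have := (ringChar.spec K 2).2 (by rw [h])
    exact_mod_cast this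
  obtain ⟨a, ha⟩ := FiniteField.exists_nonsquare hc
  have ha0 : a ≠ 0 := by
    rintro rfl
    exact ha ⟨0, by simp⟩
  refine ⟨Units.mk0 a ha0, ?_⟩
  rintro ⟨b, hb⟩
  exact ha ⟨(b : K), by
    have := congrArg (fun u : Kˣ => (u : K)) hb
    simpa using this⟩

end Cfsg.Agent.Lib.H42OPB3
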