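import Cfsg.Agent.Lib.Helper42OPDefs
import Cfsg.Agent.Lib.H42OPA1
import Cfsg.Agent.Lib.H42OPA3
import Cfsg.Agent.Lib.H42OPA5
import Cfsg.Agent.Lib.H42OPB1

set_option autoImplicit false

/-! PROJECT 142 (OUT-PLUS), piece C1.  Sketches: notes/helper42/OP/README.md -/

namespace Cfsg.Agent.Lib.H42OPC1

open Subgroup Cfsg.Agent.Lib.Helper23Grp Cfsg.Agent.Lib.Helper23RG Cfsg.Agent.Lib.Helper23RG.RG
  Cfsg.Agent.Lib.Helper23Weyl Cfsg.Agent.Lib.LeadAutDefs Cfsg.Agent.Lib.LeadAutMain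
  Cfsg.Agent.Lib.Helper42OPDefs
open Cfsg.Agent.Lib.H42OPA1 Cfsg.Agent.Lib.H42OPA3 Cfsg.Agent.Lib.H42OPA5 Cfsg.Agent.Lib.H42OPB1

variable {𝔾 K R : Type*} [Group 𝔾] [Field K] [Fintype R] [DecidableEq R] {S : RG 𝔾 K R (Fin 4)}

/-- PIECE C1 (1.5 h): the field automorphisms give a central section.
`φ σ := Classical.choose (D.ex 1 rfl 1 σ)` with `Acts S (φ σ) 1 (fun i t => (1 : Kˣ) * σ t)`; `s σ := oq 𝔾 (φ σ)`.
Homomorphism: `acts_comp` gives `Acts S (φ σ * φ τ) (1 * 1) (c'', σ * τ)` with `c'' i = 1 * σ 1 = 1`, so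
`φ σ * φ τ = φ (σ * τ)` by `acts_unique D.h (gen_simple D.h)` (after rewriting the function with `funext`).
`Λ (s σ) = (1, σ)` is `hΛ`.  Central: let `o = oq θ` with `Acts S θ ρ (c, τ)` (A3).
`φ σ * θ` has parameters `(ρ, σ (c i), σ * τ)`, `θ * φ σ` has `(ρ, c i, τ * σ)`, `σ * τ = τ * σ` (cyclic group).
By B1 `σ (c i) = s_i² c_i`.  Let `δ` (from `D.ex 1 rfl d 1`) be diagonal with `d (ρ i) = s_i²`, i.e. `d j = s_(ρ⁻¹ j)²`;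
`oq δ = 1` (A5) and `δ * (θ * φ σ)` has the parameters of `φ σ * θ`, hence is equal to it (`acts_unique`). -/
theorem exists_sec [Finite K] [IsCyclic (K ≃+* K)] (D : D4Data S)
    (Λ : Cfsg.Out 𝔾 →* Equiv.Perm (Fin 4) × (K ≃+* K)) (hΛ : LamSpec S Λ) :
    ∃ s : (K ≃+* K) →* Cfsg.Out 𝔾, (∀ σ, Λ (s σ) = (1, σ)) ∧ ∀ σ o, s σ * o = o * s σ := by
  classical
  have hex : ∀ σ : K ≃+* K, ∃ θ : MulAut 𝔾,
      Acts S θ 1 (fun i t => (((1 : Fin 4 → Kˣ) i : Kˣ) : K) * σ t) := fun σ => D.ex 1 rfl 1 σ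
  choose φ hφ using hex
  have hcomm : ∀ σ τ : K ≃+* K, σ * τ = τ * σ := by
    intro σ τ
    obtain ⟨g, hg⟩ := IsCyclic.exists_generator (α := K ≃+* K)
    obtain ⟨m, rfl⟩ := Subgroup.mem_zpowers_iff.1 (hg σ)
    obtain ⟨n, rfl⟩ := Subgroup.mem_zpowers_iff.1 (hg τ)
    rw [← zpow_add, ← zpow_add, add_comm]
  have hmul : ∀ σ τ, φ (σ * τ) = φ σ * φ τ := by
    intro σ τ
    obtain ⟨c'', hc'', hA⟩ := acts_comp (hφ σ) (hφ τ)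
    have e : c'' = 1 := by
      funext i
      apply Units.ext
      rw [hc'' i]
      simp
    rw [e, one_mul] at hA
    exact acts_unique D.h (gen_simple D.h) (hφ (σ * τ)) hA
  let s : (K ≃+* K) →* Cfsg.Out 𝔾 :=
    MonoidHom.mk' (fun σ => oq 𝔾 (φ σ)) (by intro σ τ; rw [hmul, map_mul])
  refine ⟨s, fun σ => hΛ _ _ _ _ (hφ σ), ?_⟩
  intro σ o
  obtain ⟨θ, ρ, c, τ, hρ, hA, rfl⟩ := out_rep D o
  show oq 𝔾 (φ σ) * oq 𝔾 θ = oq 𝔾 θ * oq 𝔾 (φ σ)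
  rw [← map_mul, ← map_mul]
  obtain ⟨c1, hc1, hA1⟩ := acts_comp (hφ σ) hA
  obtain ⟨c2, hc2, hA2⟩ := acts_comp hA (hφ σ)
  choose sq hsq using fun i => sigma_div_isSquare σ (c i)
  obtain ⟨δ, hδ⟩ := D.ex 1 rfl (fun j => sq (ρ⁻¹ j) * sq (ρ⁻¹ j)) 1
  have hδ1 : oq 𝔾 δ = 1 := inner_of_sq D hδ (fun j => ⟨_, rfl⟩)
  obtain ⟨c3, hc3, hA3⟩ := acts_comp hδ hA2
  have e3 : c3 = c1 := by
    funext i
    apply Units.ext
    rw [hc3 i, hc1 i, hc2 i, hsq i]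
    have h1 : ρ⁻¹ ((ρ * 1) i) = i := by simp
    rw [h1]
    simp
  have eρ : (1 * (ρ * 1) : Equiv.Perm (Fin 4)) = 1 * ρ := by simp
  have eσ : (1 * (τ * σ) : K ≃+* K) = σ * τ := by rw [one_mul, hcomm]
  rw [e3, eρ, eσ] at hA3
  have e : φ σ * θ = δ * (θ * φ σ) := acts_unique D.h (gen_simple D.h) hA1 hA3
  rw [e, map_mul, hδ1, one_mul]

end Cfsg.Agent.Lib.H42OPC1
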