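import Cfsg.Agent.Lib.Helper42OPDefs
import Cfsg.Agent.Lib.H42OPA3

set_option autoImplicit false

/-! PROJECT 142 (OUT-PLUS), piece C2.  Sketches: notes/helper42/OP/README.md -/

namespace Cfsg.Agent.Lib.H42OPC2

open Subgroup Cfsg.Agent.Lib.Helper23Grp Cfsg.Agent.Lib.Helper23RG Cfsg.Agent.Lib.Helper23RG.RG
  Cfsg.Agent.Lib.Helper23Weyl Cfsg.Agent.Lib.LeadAutDefs Cfsg.Agent.Lib.LeadAutMain
  Cfsg.Agent.Lib.Helper42OPDefs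
open Cfsg.Agent.Lib.H42OPA3

variable {𝔾 K R : Type*} [Group 𝔾] [Field K] [Fintype R] [DecidableEq R] {S : RG 𝔾 K R (Fin 4)}

/-- PIECE C2 (15 min): the range of `Λ`.  (→) `out_rep` (A3) + `hΛ`.  (←) `D.ex x.1 h 1 x.2` + `hΛ`. -/
theorem lam_range (D : D4Data S) (Λ : Cfsg.Out 𝔾 →* Equiv.Perm (Fin 4) × (K ≃+* K))
    (hΛ : LamSpec S Λ) (x : Equiv.Perm (Fin 4) × (K ≃+* K)) : x ∈ Λ.range ↔ x.1 1 = 1 := by
  constructor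
  · rintro ⟨o, rfl⟩
    obtain ⟨θ, ρ, c, σ, hρ, hA, rfl⟩ := out_rep D o
    rw [hΛ θ ρ c σ hA]
    exact hρ
  · intro h
    obtain ⟨θ, hA⟩ := D.ex x.1 h 1 x.2
    exact ⟨oq 𝔾 θ, hΛ θ x.1 1 x.2 hA⟩

end Cfsg.Agent.Lib.H42OPC2
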