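import Cfsg.Agent.Lib.Helper42OPDefs
import Cfsg.Agent.Lib.H42OPA1
import Cfsg.Agent.Lib.H42OPA3
import Cfsg.Agent.Lib.H42OPA5

set_option autoImplicit false

/-! PROJECT 142 (OUT-PLUS), piece C3.  Sketches: notes/helper42/OP/README.md -/

namespace Cfsg.Agent.Lib.H42OPC3

open Subgroup Cfsg.Agent.Lib.Helper23Grp Cfsg.Agent.Lib.Helper23RG Cfsg.Agent.Lib.Helper23RG.RG
  Cfsg.Agent.Lib.Helper23Weyl Cfsg.Agent.Lib.LeadAutDefs Cfsg.Agent.Lib.LeadAutMain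
  Cfsg.Agent.Lib.Helper42OPDefs
open Cfsg.Agent.Lib.H42OPA1 Cfsg.Agent.Lib.H42OPA3 Cfsg.Agent.Lib.H42OPA5

variable {𝔾 K R : Type*} [Group 𝔾] [Field K] [Fintype R] [DecidableEq R] {S : RG 𝔾 K R (Fin 4)}

/-- PIECE C3 (25 min): the kernel of `Λ` has exponent two.  `v = oq θ`, `Acts S θ ρ (c, σ)` (A3), `hΛ` + `hv` give `ρ = 1`,
`σ = 1`; `acts_comp` (A1): `θ * θ` has parameters `(1, c i * c i, 1)`; `inner_of_sq` (A5). -/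
theorem lam_ker_sq (D : D4Data S) (Λ : Cfsg.Out 𝔾 →* Equiv.Perm (Fin 4) × (K ≃+* K))
    (hΛ : LamSpec S Λ) (v : Cfsg.Out 𝔾) (hv : Λ v = 1) : v ^ 2 = 1 := by
  obtain ⟨θ, ρ, c, σ, hρ, hA, rfl⟩ := out_rep D v
  rw [hΛ θ ρ c σ hA] at hv
  obtain ⟨rfl, rfl⟩ : ρ = 1 ∧ σ = 1 := Prod.ext_iff.1 hv
  obtain ⟨c'', hc'', hA2⟩ := acts_comp hA hA
  rw [pow_two, ← map_mul]
  rw [one_mul, one_mul] at hA2
  apply inner_of_sq D hA2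
  intro i
  refine ⟨c i, Units.ext ?_⟩
  rw [hc'' i]
  rfl

end Cfsg.Agent.Lib.H42OPC3
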