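import Cfsg.Agent.Lib.Helper42OPDefs
import Cfsg.Agent.Lib.H42OPA3
import Cfsg.Agent.Lib.H42OPA5
import Cfsg.Agent.Lib.H42OPB2

set_option autoImplicit false

/-! PROJECT 142 (OUT-PLUS), piece C4.  Sketches: notes/helper42/OP/README.md -/

namespace Cfsg.Agent.Lib.H42OPC4

open Subgroup Cfsg.Agent.Lib.Helper23Grp Cfsg.Agent.Lib.Helper23RG Cfsg.Agent.Lib.Helper23RG.RG
  Cfsg.Agent.Lib.Helper23Weyl Cfsg.Agent.Lib.LeadAutDefs Cfsg.Agent.Lib.LeadAutMain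
  Cfsg.Agent.Lib.Helper42OPDefs
open Cfsg.Agent.Lib.H42OPA3 Cfsg.Agent.Lib.H42OPA5 Cfsg.Agent.Lib.H42OPB2

variable {𝔾 K R : Type*} [Group 𝔾] [Field K] [Fintype R] [DecidableEq R] {S : RG 𝔾 K R (Fin 4)}

/-- PIECE C4 (20 min): `Λ` is injective in characteristic two (`injective_iff_map_eq_one`, A3, `hΛ`, B2, A5). -/
theorem lam_inj [Finite K] (h2 : (2 : K) = 0) (D : D4Data S)
    (Λ : Cfsg.Out 𝔾 →* Equiv.Perm (Fin 4) × (K ≃+* K)) (hΛ : LamSpec S Λ) :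
    Function.Injective Λ := by
  rw [injective_iff_map_eq_one]
  intro v hv
  obtain ⟨θ, ρ, c, σ, hρ, hA, rfl⟩ := out_rep D v
  rw [hΛ θ ρ c σ hA] at hv
  obtain ⟨rfl, rfl⟩ : ρ = 1 ∧ σ = 1 := Prod.ext_iff.1 hv
  exact inner_of_sq D hA (fun i => isSquare_of_char_two h2 (c i))

end Cfsg.Agent.Lib.H42OPC4
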