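import Cfsg.Agent.Lib.Helper42OPDefs
import Cfsg.Agent.Lib.H42OPA1
import Cfsg.Agent.Lib.H42OPA3
import Cfsg.Agent.Lib.H42OPA4
import Cfsg.Agent.Lib.H42OPB3

set_option autoImplicit false

/-! PROJECT 142 (OUT-PLUS), piece C5.  Sketches: notes/helper42/OP/README.md -/

namespace Cfsg.Agent.Lib.H42OPC5

open Subgroup Cfsg.Agent.Lib.Helper23Grp Cfsg.Agent.Lib.Helper23RG Cfsg.Agent.Lib.Helper23RG.RG
  Cfsg.Agent.Lib.Helper23Weyl Cfsg.Agent.Lib.LeadAutDefs Cfsg.Agent.Lib.LeadAutMain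
  Cfsg.Agent.Lib.Helper42OPDefs
open Cfsg.Agent.Lib.H42OPA1 Cfsg.Agent.Lib.H42OPA3 Cfsg.Agent.Lib.H42OPA4 Cfsg.Agent.Lib.H42OPB3

variable {𝔾 K R : Type*} [Group 𝔾] [Field K] [Fintype R] [DecidableEq R] {S : RG 𝔾 K R (Fin 4)}

/-- the key computation: commuting with the diagonal class of `d` forces squares -/
theorem key (D : D4Data S)
    (Λ : Cfsg.Out 𝔾 →* Equiv.Perm (Fin 4) × (K ≃+* K)) (hΛ : LamSpec S Λ)
    {θ : MulAut 𝔾} {ρ : Equiv.Perm (Fin 4)} {c : Fin 4 → Kˣ}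
    (hA : Acts S θ ρ (fun i t => (c i : K) * (1 : K ≃+* K) t))
    (hc : ∀ v, Λ v = 1 → oq 𝔾 θ * v = v * oq 𝔾 θ) (d : Fin 4 → Kˣ) :
    IsSquare ((d (ρ⁻¹ 0) / d 0) * (d (ρ⁻¹ 2) / d 2)) ∧
      IsSquare ((d (ρ⁻¹ 0) / d 0) * (d (ρ⁻¹ 3) / d 3)) := by
  obtain ⟨δ, hδ⟩ := D.ex 1 rfl d 1
  obtain ⟨ε, hε⟩ := D.ex 1 rfl (fun j => d (ρ⁻¹ j) / d j) 1
  have hv : Λ (oq 𝔾 δ) = 1 := hΛ δ 1 d 1 hδ
  have hcomm := hc _ hv
  obtain ⟨c1, hc1, h1⟩ := acts_comp hA hδ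
  obtain ⟨c2, hc2, h2⟩ := acts_comp hδ hA
  obtain ⟨c3, hc3, h3⟩ := acts_comp hε h2
  have hfun : (fun (i : Fin 4) (t : K) => (c3 i : K) * ((1 : K ≃+* K) * (1 * 1)) t)
      = (fun (i : Fin 4) (t : K) => (c1 i : K) * ((1 : K ≃+* K) * 1) t) := by
    funext i t
    have e1 : (c3 i : K) = c1 i := by
      rw [hc3, hc1, hc2]
      have e0 : ρ⁻¹ (ρ i) = i := by simp
      simp only [Equiv.Perm.coe_mul, Equiv.Perm.coe_one, Function.comp_apply, id_eq,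
        RingAut.one_apply, Units.val_div_eq_div_val, e0]
      have := (d (ρ i)).ne_zero
      field_simp
    rw [e1]
    rfl
  have hperm : (1 : Equiv.Perm (Fin 4)) * (1 * ρ) = ρ * 1 := by simp
  rw [hfun, hperm] at h3
  have heq : ε * (δ * θ) = θ * δ := acts_unique D.h (gen_simple D.h) h3 h1
  have hone : oq 𝔾 ε = 1 := by
    have h4 := congrArg (oq 𝔾) heq
    rw [map_mul, map_mul, map_mul, hcomm] at h4
    exact mul_eq_right.1 h4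
  obtain ⟨-, -, hs1, hs2⟩ := inner_form D hε hone
  exact ⟨hs1, hs2⟩

/-- PIECE C5 (1.5 h): the kernel of `Λ` is self-centralising in the kernel of `Out → Aut K`. -/
theorem lam_cent [Finite K] (h2 : (2 : K) ≠ 0) (D : D4Data S)
    (Λ : Cfsg.Out 𝔾 →* Equiv.Perm (Fin 4) × (K ≃+* K)) (hΛ : LamSpec S Λ)
    (k : Cfsg.Out 𝔾) (hk : (Λ k).2 = 1) (hc : ∀ v, Λ v = 1 → k * v = v * k) : Λ k = 1 := by
  obtain ⟨θ, ρ, c, σ, hρ1, hA, rfl⟩ := out_rep D k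
  have hΛk : Λ (oq 𝔾 θ) = (ρ, σ) := hΛ θ ρ c σ hA
  rw [hΛk] at hk ⊢
  have hσ : σ = 1 := hk
  subst hσ
  by_contra hne
  have hρ : ρ ≠ 1 := by
    intro h
    apply hne
    rw [h]
    rfl
  obtain ⟨a, ha⟩ : ∃ a, ρ a ≠ a := by
    by_contra hcon
    apply hρ
    ext x
    by_contra hx
    exact hcon ⟨x, fun h => hx (by rw [h]; rfl)⟩
  have ha1 : a ≠ 1 := by
    rintro rfl
    exact ha hρ1
  obtain ⟨l, hl1, hla, hlb⟩ : ∃ l : Fin 4, l ≠ 1 ∧ l ≠ a ∧ l ≠ ρ a := by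
    have : ∀ a b : Fin 4, ∃ l : Fin 4, l ≠ 1 ∧ l ≠ a ∧ l ≠ b := by decide
    exact this a (ρ a)
  obtain ⟨ν, hν⟩ := exists_nonsquare_unit h2
  let d : Fin 4 → Kˣ := Function.update 1 a ν
  let e : Fin 4 → Kˣ := fun j => d (ρ⁻¹ j) / d j
  obtain ⟨hs1, hs2⟩ := key D Λ hΛ hA hc d
  have hs1' : IsSquare (e 0 * e 2) := hs1
  have hs2' : IsSquare (e 0 * e 3) := hs2
  have hs3' : IsSquare (e 2 * e 3) := by
    obtain ⟨x, hx⟩ := hs1'
    obtain ⟨y, hy⟩ := hs2'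
    refine ⟨x * y * (e 0)⁻¹, ?_⟩
    have h5 : e 2 * e 3 = (e 0 * e 2) * (e 0 * e 3) * ((e 0)⁻¹ * (e 0)⁻¹) := by
      have h6 : (e 0 * e 2) * (e 0 * e 3) * ((e 0)⁻¹ * (e 0)⁻¹)
          = (e 0 * (e 0)⁻¹) * (e 0 * (e 0)⁻¹) * (e 2 * e 3) := by ac_rfl
      rw [h6, mul_inv_cancel, one_mul, one_mul]
    rw [h5, hx, hy]
    ac_rfl
  have hall : ∀ x y : Fin 4, x ≠ 1 → y ≠ 1 → x ≠ y → IsSquare (e x * e y) := by
    intro x y hx hy hxy
    fin_cases x <;> fin_cases y <;> simp at hx hy hxy ⊢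
    · exact hs1'
    · exact hs2'
    · rw [mul_comm]; exact hs1'
    · exact hs3'
    · rw [mul_comm]; exact hs2'
    · rw [mul_comm]; exact hs3'
  have hea : e a = ν⁻¹ := by
    have h1 : ρ⁻¹ a ≠ a := by
      intro h
      apply ha
      conv_lhs => rw [← h]
      simp
    simp only [e, d, Function.update_self, Function.update_of_ne h1, Pi.one_apply, one_div]
  have hel : e l = 1 := by
    have h1 : ρ⁻¹ l ≠ a := by
      intro h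
      apply hlb
      rw [← h]
      simp
    simp only [e, d, Function.update_of_ne hla, Function.update_of_ne h1, Pi.one_apply, div_one]
  have := hall a l ha1 hl1 hla.symm
  rw [hea, hel, mul_one] at this
  exact hν (by simpa using this)

end Cfsg.Agent.Lib.H42OPC5
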