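import Cfsg.Agent.Lib.LeadAutConc
import Cfsg.Agent.S1081

set_option autoImplicit false

namespace Cfsg.Agent.Lib.Helper15AutS12

open Cfsg Cfsg.Lie Cfsg.Lie.ChevalleyDatum
open Subgroup Cfsg.Agent.Lib.Helper23Grp Cfsg.Agent.Lib.Helper23RG Cfsg.Agent.Lib.Helper23RG.RG
  Cfsg.Agent.Lib.Helper23Weyl Cfsg.Agent.Lib.LeadAutDefs
  Cfsg.Agent.Lib.Helper23Table Cfsg.Agent.Lib.Helper23Chev Cfsg.Agent.Lib.LeadAutConc
open Cfsg.Agent.Lib.Helper22ChevGr
open scoped MatrixGroups Matrix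

variable {F : Type*} [Field F]

/-- the table of the graph automorphism of order two of `D₄` exchanging the nodes `2` and `3` -/
def gD4c : ℕ := 0x1a001b001900180017001600140015001300120011000f0010000e000c000d000a000b0009000700080006000500040002000300010000

set_option maxRecDepth 1000000 in
theorem c1D4c : chkG1 Helper22ChevTabD4.fd gD4c gD4c = true := by decide +kernel

set_option maxRecDepth 1000000 in
theorem c2D4c : chkG2 Helper22ChevTabD4.fd gD4c = true := by decide +kernel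

theorem gTabD4c : GTab Helper22ChevTabD4.fd gD4c gD4c := ⟨c1D4c, c2D4c, c1D4c, c2D4c⟩

/-- from the matrix form to `Acts` -/
theorem acts_of_list {D : ChevalleyDatum} (hT : TableOK D) (hR : Rel D F) (L : List ℕ)
    (ρ : Equiv.Perm (Fin D.rank)) (hL : ∀ i : Fin D.rank, L.getD (i : ℕ) 0 = ((ρ i : Fin D.rank) : ℕ))
    (α : ↥(D.group F) ≃* ↥(D.group F))
    (hα : ∀ (g : ↥(D.group F)) (i : ℕ) (t : F), i < D.rank →
      (((g : GL D.Idx F) : Matrix D.Idx D.Idx F) = D.x F (D.simple i) t →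
        ((α g : GL D.Idx F) : Matrix D.Idx D.Idx F) = D.x F (D.simple (L.getD i 0)) t) ∧
      (((g : GL D.Idx F) : Matrix D.Idx D.Idx F) = D.x F (D.neg (D.simple i)) t →
        ((α g : GL D.Idx F) : Matrix D.Idx D.Idx F) = D.x F (D.neg (D.simple (L.getD i 0))) t)) :
    Acts (SG hT hR) α ρ (fun _ t => t) := by
  refine ⟨fun i t => ?_, fun i t _ => ?_, fun _ _ _ => rfl, fun _ => Function.bijective_id⟩
  · have h1 := (hα ((SG hT hR).x ((SG hT hR).simple i) t) i t i.2).1 (coe_SG_x hT hR _ t)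
    rw [← eq_SG_x_iff hT hR]
    rw [h1]
    have := hL i
    simp only [SG_simple]
    exact congrArg (fun k => D.x F (D.simple k) t) this
  · have h1 := (hα ((SG hT hR).x ((SG hT hR).neg ((SG hT hR).simple i)) (-t⁻¹)) i (-t⁻¹) i.2).2
      (coe_SG_x hT hR _ _)
    rw [← eq_SG_x_iff hT hR]
    rw [h1]
    have := hL i
    simp only [SG_simple, SG_neg]
    exact congrArg (fun k => D.x F (D.neg (D.simple k)) (-t⁻¹)) this

/-- the bond table of `D₄` -/
def tD4 : Fin 4 → Fin 4 → ℤ :=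
  ![![4, 1, 0, 0], ![1, 4, 1, 1], ![0, 1, 4, 0], ![0, 1, 0, 4]]

theorem bonds_D4 : ∀ i j : Fin 4, chevD4.bonds i j = tD4 i j := by decide +kernel

theorem sym_D4 : ∀ ρ : Equiv.Perm (Fin 4), (∀ i j : Fin 4, i ≠ j → tD4 (ρ i) (ρ j) = tD4 i j) → ρ 1 = 1 := by
  decide +kernel

/-- triality -/
def rA : Equiv.Perm (Fin 4) where
  toFun := ![2, 1, 3, 0]
  invFun := ![3, 1, 0, 2]
  left_inv := by decide
  right_inv := by decide

/-- the transposition of the nodes `2`, `3` -/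
def rC : Equiv.Perm (Fin 4) where
  toFun := ![0, 1, 3, 2]
  invFun := ![0, 1, 3, 2]
  left_inv := by decide
  right_inv := by decide

theorem rA_getD : ∀ i : Fin 4, ([2, 1, 3, 0] : List ℕ).getD (i : ℕ) 0 = ((rA i : Fin 4) : ℕ) := by decide
theorem rC_getD : ∀ i : Fin 4, ([0, 1, 3, 2] : List ℕ).getD (i : ℕ) 0 = ((rC i : Fin 4) : ℕ) := by decide
theorem rAC : rA * rC ≠ rC * rA := by decide +kernel
theorem card_fix : (Finset.univ.filter (fun ρ : Equiv.Perm (Fin 4) => ρ 1 = 1)).card = 6 := by decide +kernel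

/-- S12 : D4: there are exactly six diagram symmetries, and two non-commuting ones are realised by automorphisms -/
theorem graph_D4 (hT : TableOK chevD4) (hR : Rel chevD4 F) :
    (∃ L : Finset (Equiv.Perm (Fin chevD4.rank)), L.card = 6 ∧ ∀ ρ, chevD4.IsDiagramSymmetry ρ → ρ ∈ L) ∧
    ∃ (ρ1 ρ2 : Equiv.Perm (Fin chevD4.rank)) (g1 g2 : ↥(chevD4.group F) ≃* ↥(chevD4.group F))
      (f1 f2 : Fin chevD4.rank → F → F),
      Acts (SG hT hR) g1 ρ1 f1 ∧ Acts (SG hT hR) g2 ρ2 f2 ∧ ρ1 * ρ2 ≠ ρ2 * ρ1 := by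
  constructor
  · refine ⟨Finset.univ.filter (fun ρ : Equiv.Perm (Fin 4) => ρ 1 = 1), card_fix, fun ρ hρ => ?_⟩
    refine Finset.mem_filter.2 ⟨Finset.mem_univ _, sym_D4 ρ (fun i j hij => ?_)⟩
    rw [← bonds_D4, ← bonds_D4]
    exact hρ i j hij
  · obtain ⟨α, hα⟩ := Cfsg.Agent.S1081.result (F := F) (chevD4, [2, 1, 3, 0]) (by simp)
    obtain ⟨β, hβ⟩ := Cfsg.Agent.S1081.aux (F := F) (D := chevD4) (by simp) Cfsg.Agent.Lib.Helper22ChevTabD4.agree
      gTabD4c [0, 1, 3, 2] (by decide +kernel)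
    exact ⟨rA, rC, α, β, _, _, acts_of_list hT hR _ rA rA_getD α hα, acts_of_list hT hR _ rC rC_getD β hβ, rAC⟩

end Cfsg.Agent.Lib.Helper15AutS12
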