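import Cfsg.Agent.Lib.Helper42OPDefs
import Cfsg.Agent.Lib.Helper15AutS12

set_option autoImplicit false

/-! PROJECT 142 (OUT-PLUS), piece D1.  Sketches: notes/helper42/OP/README.md -/

namespace Cfsg.Agent.Lib.H42OPD1

open Cfsg Cfsg.Lie Cfsg.Lie.ChevalleyDatum
open Subgroup Cfsg.Agent.Lib.Helper23Grp Cfsg.Agent.Lib.Helper23RG Cfsg.Agent.Lib.Helper23RG.RG
  Cfsg.Agent.Lib.Helper23Weyl Cfsg.Agent.Lib.LeadAutDefs Cfsg.Agent.Lib.LeadAutMain
  Cfsg.Agent.Lib.Helper23Table Cfsg.Agent.Lib.Helper23Chev Cfsg.Agent.Lib.LeadAutConc Cfsg.Agent.Lib.LeadAutChev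
  Cfsg.Agent.Lib.LeadAutOut Cfsg.Agent.Lib.Helper42OPDefs
open scoped MatrixGroups Matrix

variable {F : Type*} [Field F]

theorem isLong_D4 : ∀ i j : Fin 4,
    (chevD4.isLong (chevD4.simple (j : ℕ)) && !chevD4.isLong (chevD4.simple (i : ℕ))) = false := by
  decide +kernel

theorem graphExp_D4 (n : ℕ) (i j : Fin 4) : chevD4.graphExp n (i : ℕ) (j : ℕ) = 1 := by
  unfold graphExp
  rw [isLong_D4 i j]
  simp

/-- PIECE D1 (30 min): `nrm_form (by simp) hT hR hθ` gives `ρ c σ0`, `chevD4.IsDiagramSymmetry ρ` and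
`Acts … (fun i t => c i * (σ0 t) ^ chevD4.graphExp (ringChar F) i (ρ i))`.  `graphExp = 1` for `D₄`
(`∀ (n : ℕ) (i j : Fin 4), chevD4.graphExp n i j = 1`: unfold `graphExp`; the condition is `false` for all `i j`,
`decide +kernel` on `∀ i j : Fin 4, (chevD4.isLong (chevD4.simple j) && !chevD4.isLong (chevD4.simple i)) = false`).
`ρ 1 = 1`: `Helper15AutS12.sym_D4` + `bonds_D4` (exactly as in the proof of `Helper15AutS12.graph_D4`). -/
theorem d4_form [Finite F] (hT : TableOK chevD4) (hR : Rel chevD4 F)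
    (θ : ↥(chevD4.group F) ≃* ↥(chevD4.group F)) (hθ : Nrm (SG hT hR) θ) :
    ∃ (ρ : Equiv.Perm (Fin 4)) (c : Fin 4 → Fˣ) (σ : F ≃+* F),
      ρ 1 = 1 ∧ Acts (SG hT hR) θ ρ (fun i t => (c i : F) * σ t) := by
  obtain ⟨ρ, c, σ0, hρ, hA⟩ := nrm_form (D := chevD4) (by simp) hT hR hθ
  refine ⟨ρ, c, σ0, ?_, ?_⟩
  · refine Cfsg.Agent.Lib.Helper15AutS12.sym_D4 ρ (fun i j hij => ?_)
    rw [← Cfsg.Agent.Lib.Helper15AutS12.bonds_D4, ← Cfsg.Agent.Lib.Helper15AutS12.bonds_D4]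
    exact hρ i j hij
  · have e : (fun (i : Fin chevD4.rank) (t : F) =>
        (c i : F) * (σ0 t) ^ chevD4.graphExp (ringChar F) i (ρ i)) =
        fun i t => (c i : F) * σ0 t := by
      funext i t
      rw [graphExp_D4 (ringChar F) i (ρ i), pow_one]
    exact e ▸ hA

end Cfsg.Agent.Lib.H42OPD1
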