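import Cfsg.Agent.Lib.Helper42OPDefs
import Cfsg.Agent.Lib.Helper15AutS12

set_option autoImplicit false

/-! PROJECT 142 (OUT-PLUS), piece D2.  Sketches: notes/helper42/OP/README.md -/

namespace Cfsg.Agent.Lib.H42OPD2

open Cfsg Cfsg.Lie Cfsg.Lie.ChevalleyDatum
open Subgroup Cfsg.Agent.Lib.Helper23Grp Cfsg.Agent.Lib.Helper23RG Cfsg.Agent.Lib.Helper23RG.RG
  Cfsg.Agent.Lib.Helper23Weyl Cfsg.Agent.Lib.LeadAutDefs Cfsg.Agent.Lib.LeadAutMain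
  Cfsg.Agent.Lib.Helper23Table Cfsg.Agent.Lib.Helper23Chev Cfsg.Agent.Lib.LeadAutConc Cfsg.Agent.Lib.LeadAutChev
  Cfsg.Agent.Lib.LeadAutOut Cfsg.Agent.Lib.Helper42OPDefs
open scoped MatrixGroups Matrix

variable {F : Type*} [Field F]

theorem acts_id_comp {𝔾 K R I : Type*} [Group 𝔾] [Field K] {S : RG 𝔾 K R I} {θ θ' : MulAut 𝔾}
    {ρ ρ' : Equiv.Perm I} (hA : Acts S θ ρ (fun _ t => t)) (hA' : Acts S θ' ρ' (fun _ t => t)) :
    Acts S (θ * θ') (ρ * ρ') (fun _ t => t) := by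
  refine ⟨fun i t => ?_, fun i t ht => ?_, fun _ _ _ => rfl, fun _ => Function.bijective_id⟩
  · show θ (θ' _) = S.x (S.simple (ρ (ρ' i))) t
    rw [hA'.pos, hA.pos]
  · show θ (θ' _) = S.x (S.neg (S.simple (ρ (ρ' i)))) (-t⁻¹)
    rw [hA'.neg i t ht, hA.neg (ρ' i) t ht]

open Cfsg.Agent.Lib.Helper15AutS12 in
theorem six : ∀ ρ : Equiv.Perm (Fin 4), ρ 1 = 1 →
    ρ = 1 ∨ ρ = rA ∨ ρ = rA * rA ∨ ρ = rC ∨ ρ = rA * rC ∨ ρ = rA * rA * rC := by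
  decide +kernel

/-- PIECE D2 (1 h, two statements).  `d4_graph`: as in the last lines of the proof of `Helper15AutS12.graph_D4` one gets `α`, `β` with
`Acts (SG hT hR) α rA (fun _ t => t)` and `Acts (SG hT hR) β rC (fun _ t => t)`.  Such data compose
(`Acts S θ ρ (fun _ t => t) → Acts S θ' ρ' (fun _ t => t) → Acts S (θ * θ') (ρ * ρ') (fun _ t => t)`, 6 lines) and
`∀ ρ : Equiv.Perm (Fin 4), ρ 1 = 1 → ρ = 1 ∨ ρ = rA ∨ ρ = rA * rA ∨ ρ = rC ∨ ρ = rA * rC ∨ ρ = rA * rA * rC` by `decide +kernel`.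
`d4_ex`: exactly as at the end of the proof of `LeadAutOut.card_out_chev`:
`acts_field hT hR h.ok (fieldAut hT hR) hg σ` and then `acts_twist hT hR h.ok (exists_char hD) (diagAut hD hT hR) hg1 c`. -/
theorem d4_graph (hT : TableOK chevD4) (hR : Rel chevD4 F) (ρ : Equiv.Perm (Fin 4)) (hρ : ρ 1 = 1) :
    ∃ g : ↥(chevD4.group F) ≃* ↥(chevD4.group F), Acts (SG hT hR) g ρ (fun _ t => t) := by
  obtain ⟨α, hα⟩ := Cfsg.Agent.S1081.result (F := F) (chevD4, [2, 1, 3, 0]) (by simp)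
  obtain ⟨β, hβ⟩ := Cfsg.Agent.S1081.aux (F := F) (D := chevD4) (by simp)
    Cfsg.Agent.Lib.Helper22ChevTabD4.agree
    Cfsg.Agent.Lib.Helper15AutS12.gTabD4c [0, 1, 3, 2] (by decide +kernel)
  have hA : Acts (SG hT hR) (α : MulAut ↥(chevD4.group F)) Cfsg.Agent.Lib.Helper15AutS12.rA (fun _ t => t) :=
    Cfsg.Agent.Lib.Helper15AutS12.acts_of_list hT hR _ _ Cfsg.Agent.Lib.Helper15AutS12.rA_getD α hα
  have hB : Acts (SG hT hR) (β : MulAut ↥(chevD4.group F)) Cfsg.Agent.Lib.Helper15AutS12.rC (fun _ t => t) :=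
    Cfsg.Agent.Lib.Helper15AutS12.acts_of_list hT hR _ _ Cfsg.Agent.Lib.Helper15AutS12.rC_getD β hβ
  rcases six ρ hρ with rfl | rfl | rfl | rfl | rfl | rfl
  · exact ⟨(1 : MulAut ↥(chevD4.group F)),
      ⟨fun _ _ => rfl, fun _ _ _ => rfl, fun _ _ _ => rfl, fun _ => Function.bijective_id⟩⟩
  · exact ⟨_, hA⟩
  · exact ⟨_, acts_id_comp hA hA⟩
  · exact ⟨_, hB⟩
  · exact ⟨_, acts_id_comp hA hB⟩
  · exact ⟨_, acts_id_comp (acts_id_comp hA hA) hB⟩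

theorem d4_ex [Finite F] (hT : TableOK chevD4) (hR : Rel chevD4 F) (ρ : Equiv.Perm (Fin 4)) (hρ : ρ 1 = 1)
    (c : Fin 4 → Fˣ) (σ : F ≃+* F) :
    ∃ θ : ↥(chevD4.group F) ≃* ↥(chevD4.group F), Acts (SG hT hR) θ ρ (fun i t => (c i : F) * σ t) := by
  have hD : chevD4 ∈ [chevG2, chevB2, chevD4, chevF4, chevE6, chevE7, chevE8] := by simp
  have h := adata hD hT hR
  obtain ⟨g, hg⟩ := d4_graph hT hR ρ hρ
  obtain ⟨g1, hg1⟩ := acts_field hT hR h.ok (fieldAut hT hR) hg σ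
  exact acts_twist hT hR h.ok (exists_char hD) (diagAut hD hT hR) hg1 c

end Cfsg.Agent.Lib.H42OPD2
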