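import Cfsg.Agent.Lib.Helper42OPDefs
import Cfsg.Agent.Lib.Helper23St5

set_option autoImplicit false

/-! PROJECT 142 (OUT-PLUS), piece D3.  Sketches: notes/helper42/OP/README.md -/

namespace Cfsg.Agent.Lib.H42OPD3

open Subgroup Cfsg.Agent.Lib.Helper23Grp Cfsg.Agent.Lib.Helper23RG Cfsg.Agent.Lib.Helper23RG.RG
  Cfsg.Agent.Lib.Helper23Weyl Cfsg.Agent.Lib.LeadAutDefs Cfsg.Agent.Lib.LeadAutMain
  Cfsg.Agent.Lib.Helper42OPDefs

variable {𝔾 K R : Type*} [Group 𝔾] [Field K] [Fintype R] [DecidableEq R] {S : RG 𝔾 K R (Fin 4)}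

/-- the predicate carried through the closure induction -/
def TorP (S : RG 𝔾 K R (Fin 4)) (y : 𝔾) : Prop :=
  ∃ χ : Fin 4 → Kˣ,
    (∀ j t, y * S.x (S.simple j) t * y⁻¹ = S.x (S.simple j) ((χ j : K) * t)) ∧
    (∀ j t, y * S.x (S.neg (S.simple j)) t * y⁻¹ = S.x (S.neg (S.simple j)) (((χ j)⁻¹ : Kˣ) * t)) ∧
    IsSquare (χ 0 * χ 2) ∧ IsSquare (χ 0 * χ 3)

omit [Fintype R] [DecidableEq R] in
theorem torP_gen (ok : S.Ok) (hC : ∀ i j, S.A i (S.simple j) = cD4 i j) (i : Fin 4) (a : K)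
    (ha : a ≠ 0) : TorP S (S.hE (S.simple i) a) := by
  refine ⟨fun j => (Units.mk0 a ha) ^ (cD4 i j), ?_, ?_, ?_, ?_⟩
  · intro j t
    rw [ok.h_conj i (S.simple j) a t ha, hC]
    simp
  · intro j t
    rw [ok.h_conj i (S.neg (S.simple j)) a t ha, ok.A_neg, hC]
    simp
  · have h : ∃ k : ℤ, cD4 i 0 + cD4 i 2 = k + k := by
      fin_cases i
      · exact ⟨1, by simp [cD4]⟩
      · exact ⟨-1, by simp [cD4]⟩
      · exact ⟨1, by simp [cD4]⟩
      · exact ⟨0, by simp [cD4]⟩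
    obtain ⟨k, hk⟩ := h
    exact ⟨(Units.mk0 a ha) ^ k, by rw [← zpow_add, ← zpow_add, hk]⟩
  · have h : ∃ k : ℤ, cD4 i 0 + cD4 i 3 = k + k := by
      fin_cases i
      · exact ⟨1, by simp [cD4]⟩
      · exact ⟨-1, by simp [cD4]⟩
      · exact ⟨0, by simp [cD4]⟩
      · exact ⟨1, by simp [cD4]⟩
    obtain ⟨k, hk⟩ := h
    exact ⟨(Units.mk0 a ha) ^ k, by rw [← zpow_add, ← zpow_add, hk]⟩

omit [Fintype R] [DecidableEq R] in
theorem torP_one : TorP S (1 : 𝔾) :=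
  ⟨1, by simp, by simp, by simp, by simp⟩

omit [Fintype R] [DecidableEq R] in
theorem torP_mul {y y' : 𝔾} (h : TorP S y) (h' : TorP S y') : TorP S (y * y') := by
  obtain ⟨χ, h1, h2, h3, h4⟩ := h
  obtain ⟨χ', h1', h2', h3', h4'⟩ := h'
  refine ⟨fun j => χ j * χ' j, ?_, ?_, ?_, ?_⟩
  · intro j t
    have : y * y' * S.x (S.simple j) t * (y * y')⁻¹
        = y * (y' * S.x (S.simple j) t * y'⁻¹) * y⁻¹ := by group
    rw [this, h1', h1, Units.val_mul, mul_assoc]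
  · intro j t
    have : y * y' * S.x (S.neg (S.simple j)) t * (y * y')⁻¹
        = y * (y' * S.x (S.neg (S.simple j)) t * y'⁻¹) * y⁻¹ := by group
    rw [this, h2', h2, mul_inv, Units.val_mul, mul_assoc]
  · have : χ 0 * χ' 0 * (χ 2 * χ' 2) = (χ 0 * χ 2) * (χ' 0 * χ' 2) := mul_mul_mul_comm _ _ _ _
    rw [this]; exact h3.mul h3'
  · have : χ 0 * χ' 0 * (χ 3 * χ' 3) = (χ 0 * χ 3) * (χ' 0 * χ' 3) := mul_mul_mul_comm _ _ _ _
    rw [this]; exact h4.mul h4'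

omit [Fintype R] [DecidableEq R] in
theorem torP_inv {y : 𝔾} (h : TorP S y) : TorP S y⁻¹ := by
  obtain ⟨χ, h1, h2, h3, h4⟩ := h
  refine ⟨fun j => (χ j)⁻¹, ?_, ?_, ?_, ?_⟩
  · intro j t
    have h5 := h1 j (((χ j)⁻¹ : Kˣ) * t)
    rw [← mul_assoc, Units.mul_inv, one_mul] at h5
    rw [← h5]; group
  · intro j t
    have h5 := h2 j ((χ j : K) * t)
    rw [← mul_assoc, Units.inv_mul, one_mul] at h5
    rw [inv_inv, ← h5]; group
  · rw [← mul_inv]; exact h3.inv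
  · rw [← mul_inv]; exact h4.inv

/-- PIECE D3 (1.5 h): the characters of the torus.  `RG.H_le_simple ok : S.H ≤ closure {g | ∃ i c, c ≠ 0 ∧ g = S.hE (S.simple i) c}`
(`Helper23St5`), then `Subgroup.closure_induction`. -/
theorem tor_of_cartan (ok : S.Ok) (hC : ∀ i j, S.A i (S.simple j) = cD4 i j) (y : 𝔾) (hy : y ∈ S.H) :
    ∃ χ : Fin 4 → Kˣ,
      Acts S (MulAut.conj y) 1 (fun i t => (χ i : K) * (1 : K ≃+* K) t) ∧
        IsSquare (χ 0 * χ 2) ∧ IsSquare (χ 0 * χ 3) := by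
  have hP : TorP S y := by
    have hy' := RG.H_le_simple ok hy
    clear hy
    induction hy' using Subgroup.closure_induction with
    | mem x hx =>
      obtain ⟨i, c, hc, rfl⟩ := hx
      exact torP_gen ok hC i c hc
    | one => exact torP_one
    | mul x y _ _ hx hy => exact torP_mul hx hy
    | inv x _ hx => exact torP_inv hx
  obtain ⟨χ, h1, h2, h3, h4⟩ := hP
  refine ⟨χ, ⟨?_, ?_, ?_, ?_⟩, h3, h4⟩
  · intro i t
    rw [MulAut.conj_apply, h1]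
    rfl
  · intro i t ht
    rw [MulAut.conj_apply, h2]
    have : (((χ i)⁻¹ : Kˣ) : K) * -t⁻¹ = -((χ i : K) * (1 : K ≃+* K) t)⁻¹ := by
      have h5 : (1 : K ≃+* K) t = t := rfl
      rw [h5, mul_inv, Units.val_inv_eq_inv_val, mul_neg]
    rw [this]
    rfl
  · intro i a b
    have h5 : ∀ t, (1 : K ≃+* K) t = t := fun _ => rfl
    simp only [h5, mul_add]
  · intro i
    exact mulLeft_bijective₀ _ (Units.ne_zero _)

end Cfsg.Agent.Lib.H42OPD3
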