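import Cfsg.Agent.Lib.Helper42OPDefs

set_option autoImplicit false

/-! PROJECT 142 (OUT-PLUS), piece D4.  Sketches: notes/helper42/OP/README.md -/

namespace Cfsg.Agent.Lib.H42OPD4

open Subgroup Cfsg.Agent.Lib.Helper23Grp Cfsg.Agent.Lib.Helper23RG Cfsg.Agent.Lib.Helper23RG.RG
  Cfsg.Agent.Lib.Helper23Weyl Cfsg.Agent.Lib.LeadAutDefs Cfsg.Agent.Lib.LeadAutMain
  Cfsg.Agent.Lib.Helper42OPDefs

variable {𝔾 K R : Type*} [Group 𝔾] [Field K] [Fintype R] [DecidableEq R] {S : RG 𝔾 K R (Fin 4)}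

theorem key_pos (z : Fin 4 → K) (hz : ∀ i, z i ≠ 0) (j : Fin 4) (t : K) :
    (z 0 ^ 2 * z 1 ^ 2 * z 2 * z 3) ^ cD4 0 j * ((z 0 ^ 2 * z 1 ^ 4 * z 2 ^ 2 * z 3 ^ 2) ^ cD4 1 j *
      ((z 0 * z 1 ^ 2 * z 2 ^ 2 * z 3) ^ cD4 2 j * ((z 0 * z 1 ^ 2 * z 2 * z 3 ^ 2) ^ cD4 3 j * t)))
      = z j * z j * t := by
  have h0 := hz 0
  have h1 := hz 1
  have h2 := hz 2
  have h3 := hz 3
  fin_cases j <;> simp [cD4, zpow_neg] <;> field_simp

theorem key_neg (z : Fin 4 → K) (hz : ∀ i, z i ≠ 0) (j : Fin 4) (t : K) :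
    (z 0 ^ 2 * z 1 ^ 2 * z 2 * z 3) ^ (-cD4 0 j) *
      ((z 0 ^ 2 * z 1 ^ 4 * z 2 ^ 2 * z 3 ^ 2) ^ (-cD4 1 j) *
      ((z 0 * z 1 ^ 2 * z 2 ^ 2 * z 3) ^ (-cD4 2 j) *
        ((z 0 * z 1 ^ 2 * z 2 * z 3 ^ 2) ^ (-cD4 3 j) * t)))
      = (z j * z j)⁻¹ * t := by
  have h0 := hz 0
  have h1 := hz 1
  have h2 := hz 2
  have h3 := hz 3
  fin_cases j <;> simp [cD4, zpow_neg] <;> field_simp

/-- PIECE D4 (1 h): squares are torus characters.  Take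
`y = hE (simple 0) a0 * hE (simple 1) a1 * hE (simple 2) a2 * hE (simple 3) a3` with
`a0 = s0² s1² s2 s3`, `a1 = s0² s1⁴ s2² s3²`, `a2 = s0 s1² s2² s3`, `a3 = s0 s1² s2 s3²`   (rows of `2 * (Cartan matrix)⁻¹`).
`y ∈ S.H` by `hE_mem_H`.  By `ok.h_conj` (four times) conjugation by `y` maps `x_r t` to
`x_r (a0 ^ A 0 r * (a1 ^ A 1 r * (a2 ^ A 2 r * (a3 ^ A 3 r * t))))`; for `r = simple j` rewrite with `hC`, `fin_cases j`, unfold `cD4`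
and finish with `field_simp`/`ring` (`zpow_neg`, `zpow_ofNat`); for `r = neg (simple j)` use `ok.A_neg`. -/
theorem sq_of_cartan (ok : S.Ok) (hC : ∀ i j, S.A i (S.simple j) = cD4 i j) (s : Fin 4 → Kˣ) :
    ∃ y ∈ S.H,
      Acts S (MulAut.conj y) 1 (fun i t => ((s i * s i : Kˣ) : K) * (1 : K ≃+* K) t) := by
  set z : Fin 4 → K := fun i => (s i : K) with hzdef
  have hz : ∀ i, z i ≠ 0 := fun i => (s i).ne_zero
  set a0 : K := z 0 ^ 2 * z 1 ^ 2 * z 2 * z 3 with ha0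
  set a1 : K := z 0 ^ 2 * z 1 ^ 4 * z 2 ^ 2 * z 3 ^ 2 with ha1
  set a2 : K := z 0 * z 1 ^ 2 * z 2 ^ 2 * z 3 with ha2
  set a3 : K := z 0 * z 1 ^ 2 * z 2 * z 3 ^ 2 with ha3
  have n0 : a0 ≠ 0 := by
    have h0 := hz 0; have h1 := hz 1; have h2 := hz 2; have h3 := hz 3
    rw [ha0]; positivity
  have n1 : a1 ≠ 0 := by
    have h0 := hz 0; have h1 := hz 1; have h2 := hz 2; have h3 := hz 3
    rw [ha1]; positivity
  have n2 : a2 ≠ 0 := by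
    have h0 := hz 0; have h1 := hz 1; have h2 := hz 2; have h3 := hz 3
    rw [ha2]; positivity
  have n3 : a3 ≠ 0 := by
    have h0 := hz 0; have h1 := hz 1; have h2 := hz 2; have h3 := hz 3
    rw [ha3]; positivity
  have hc : ∀ r t, (S.hE (S.simple 0) a0 * S.hE (S.simple 1) a1 * S.hE (S.simple 2) a2 *
      S.hE (S.simple 3) a3) * S.x r t * (S.hE (S.simple 0) a0 * S.hE (S.simple 1) a1 *
      S.hE (S.simple 2) a2 * S.hE (S.simple 3) a3)⁻¹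
      = S.x r (a0 ^ S.A 0 r * (a1 ^ S.A 1 r * (a2 ^ S.A 2 r * (a3 ^ S.A 3 r * t)))) := by
    intro r t
    rw [← ok.h_conj 0 r a0 _ n0, ← ok.h_conj 1 r a1 _ n1, ← ok.h_conj 2 r a2 _ n2,
      ← ok.h_conj 3 r a3 _ n3]
    group
  refine ⟨S.hE (S.simple 0) a0 * S.hE (S.simple 1) a1 * S.hE (S.simple 2) a2 *
      S.hE (S.simple 3) a3, ?_, ?_, ?_, ?_, ?_⟩
  · exact S.H.mul_mem (S.H.mul_mem (S.H.mul_mem (hE_mem_H _ n0) (hE_mem_H _ n1)) (hE_mem_H _ n2))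
      (hE_mem_H _ n3)
  · intro i t
    rw [MulAut.conj_apply, hc, hC, hC, hC, hC, key_pos z hz]
    simp [hzdef]
  · intro i t ht
    rw [MulAut.conj_apply, hc, ok.A_neg, ok.A_neg, ok.A_neg, ok.A_neg, hC, hC, hC, hC,
      key_neg z hz]
    have hzi := hz i
    congr 1
    simp only [hzdef, Units.val_mul, RingAut.one_apply] at hzi ⊢
    field_simp
  · intro i a b
    simp [mul_add]
  · intro i
    have hu : ((s i * s i : Kˣ) : K) ≠ 0 := (s i * s i).ne_zero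
    constructor
    · intro a b hab
      exact mul_left_cancel₀ hu hab
    · intro b
      refine ⟨((s i * s i : Kˣ) : K)⁻¹ * b, ?_⟩
      show ((s i * s i : Kˣ) : K) * (((s i * s i : Kˣ) : K)⁻¹ * b) = b
      rw [mul_inv_cancel_left₀ hu]

end Cfsg.Agent.Lib.H42OPD4
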