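import Cfsg.Agent.Lib.Helper42OPDefs
import Cfsg.Agent.Lib.Helper15AutS12
import Cfsg.Agent.Lib.Helper23All
import Cfsg.Agent.Lib.H42OPD2

set_option autoImplicit false

/-! PROJECT 142 (OUT-PLUS), piece D5.  Sketches: notes/helper42/OP/README.md -/

namespace Cfsg.Agent.Lib.H42OPD5

open Cfsg Cfsg.Lie Cfsg.Lie.ChevalleyDatum
open Subgroup Cfsg.Agent.Lib.Helper23Grp Cfsg.Agent.Lib.Helper23RG Cfsg.Agent.Lib.Helper23RG.RG
  Cfsg.Agent.Lib.Helper23Weyl Cfsg.Agent.Lib.LeadAutDefs Cfsg.Agent.Lib.LeadAutMain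
  Cfsg.Agent.Lib.Helper23Table Cfsg.Agent.Lib.Helper23Chev Cfsg.Agent.Lib.LeadAutConc Cfsg.Agent.Lib.LeadAutChev
  Cfsg.Agent.Lib.LeadAutOut Cfsg.Agent.Lib.Helper42OPDefs
open scoped MatrixGroups Matrix
open Cfsg.Agent.Lib.H42OPD2

variable {F : Type*} [Field F]

theorem isLong_D4' : ∀ i j : Fin 4,
    (chevD4.isLong (chevD4.simple (j : ℕ)) && !chevD4.isLong (chevD4.simple (i : ℕ))) = false := by
  decide +kernel

theorem graphExp_D4' (n : ℕ) (i j : Fin 4) : chevD4.graphExp n (i : ℕ) (j : ℕ) = 1 := by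
  unfold graphExp
  rw [isLong_D4' i j]
  simp

/-- PIECE D5 (40 min): copy the proof of `LeadAutOut.S2125` (type `E₈`): `card_out_chev p f hF hD _ hT hR Γ hΓ1 hΓ2 d hd` with
`Γ := Finset.univ.filter (fun ρ : Equiv.Perm (Fin 4) => ρ 1 = 1)` (`Helper15AutS12.card_fix : Γ.card = 6`),
`hΓ1`: `acts_diag_sym` + `Helper15AutS12.sym_D4`, `bonds_D4` (as in `graph_D4`);  `hΓ2`: `d4_graph` (D2) and `graphExp = 1`
(see D1: `pow_one`);  `d = Nat.gcd 2 (p ^ f - 1) ^ 2`, `hd = Cfsg.Agent.S1035.result hF (chevD4, _) (by simp)`.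
`hT := Helper23All.tab hD`, `hR := Helper23All.rel hD`. -/
theorem d4_card [Fintype F] (p f : ℕ) [Fact p.Prime] [CharP F p] (hF : Fintype.card F = p ^ f) :
    Nat.card (Cfsg.Out ↥(chevD4.group F)) = 6 * Nat.gcd 2 (p ^ f - 1) ^ 2 * f := by
  have hD : chevD4 ∈ [chevG2, chevB2, chevD4, chevF4, chevE6, chevE7, chevE8] := by simp
  have hT := Cfsg.Agent.Lib.Helper23All.tab hD
  have hR : Rel chevD4 F := Cfsg.Agent.Lib.Helper23All.rel hD
  have := card_out_chev p f hF hD (by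
      intro h
      rcases h with h | h <;> exact absurd (congrArg ChevalleyDatum.rank h) (by decide)) hT hR
    (Finset.univ.filter (fun ρ : Equiv.Perm (Fin 4) => ρ 1 = 1))
    (fun θ ρ f hA => by
      refine Finset.mem_filter.2 ⟨Finset.mem_univ _,
        Cfsg.Agent.Lib.Helper15AutS12.sym_D4 ρ (fun i j hij => ?_)⟩
      rw [← Cfsg.Agent.Lib.Helper15AutS12.bonds_D4, ← Cfsg.Agent.Lib.Helper15AutS12.bonds_D4]
      exact acts_diag_sym hD hT hR hA i j hij)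
    (fun ρ hρ => by
      obtain ⟨g, hg⟩ := d4_graph hT hR ρ (Finset.mem_filter.1 hρ).2
      refine ⟨g, ?_⟩
      have e : (fun (i : Fin chevD4.rank) (t : F) => t ^ chevD4.graphExp (ringChar F) i (ρ i)) =
          fun _ t => t := by
        funext i t
        rw [graphExp_D4' (ringChar F) i (ρ i), pow_one]
      exact e ▸ hg)
    (Nat.gcd 2 (p ^ f - 1) ^ 2) (Cfsg.Agent.S1035.result hF (chevD4, Nat.gcd 2 (p ^ f - 1) ^ 2) (by simp))
  rw [this]
  exact congrArg (fun k => k * Nat.gcd 2 (p ^ f - 1) ^ 2 * f) Cfsg.Agent.Lib.Helper15AutS12.card_fix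

end Cfsg.Agent.Lib.H42OPD5
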