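import Mathlib

set_option autoImplicit false

/-! PROJECT 142 (OUT-PLUS), piece G1.  Sketches: notes/helper42/OP/README.md -/

namespace Cfsg.Agent.Lib.H42OPG1


/-- PIECE G1 (30 min, pure Mathlib): `o ↦ (o * s (π o)⁻¹, π o)` is an isomorphism (inverse `(k, a) ↦ k * s a`). -/
theorem prod_of_central_section {O A : Type*} [Group O] [Group A] (π : O →* A) (s : A →* O)
    (hs : ∀ a, π (s a) = a) (hc : ∀ a o, s a * o = o * s a) : Nonempty (O ≃* ↥π.ker × A) := by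
  have hk : ∀ o : O, o * (s (π o))⁻¹ ∈ π.ker := by
    intro o
    rw [MonoidHom.mem_ker, map_mul, map_inv, hs, mul_inv_cancel]
  refine ⟨MulEquiv.mk ⟨fun o => (⟨o * (s (π o))⁻¹, hk o⟩, π o), fun x => (x.1 : O) * s x.2, ?_, ?_⟩ ?_⟩
  · intro o
    simp
  · rintro ⟨⟨k, hk'⟩, a⟩
    rw [MonoidHom.mem_ker] at hk'
    simp [hk', hs]
  · intro o o'
    refine Prod.ext (Subtype.ext ?_) (map_mul π o o')
    change o * o' * (s (π (o * o')))⁻¹ = o * (s (π o))⁻¹ * (o' * (s (π o'))⁻¹)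
    rw [map_mul, map_mul, mul_inv_rev]
    have h1 : (s (π o))⁻¹ * o' = o' * (s (π o))⁻¹ := by
      rw [inv_mul_eq_iff_eq_mul, ← mul_assoc, hc, mul_assoc, mul_inv_cancel, mul_one]
    have h2 : (s (π o'))⁻¹ * (s (π o))⁻¹ = (s (π o))⁻¹ * (s (π o'))⁻¹ := by
      rw [← mul_inv_rev, ← mul_inv_rev, hc]
    rw [h2, mul_assoc o, mul_assoc o, ← mul_assoc (s (π o))⁻¹ o', h1, mul_assoc]

end Cfsg.Agent.Lib.H42OPG1
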