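import Mathlib

set_option autoImplicit false

/-! PROJECT 142 (OUT-PLUS), piece G2.  Sketches: notes/helper42/OP/README.md -/

namespace Cfsg.Agent.Lib.H42OPG2


/-- PIECE G2 (45 min, pure Mathlib, two statements). -/
theorem stab_card : Nat.card {ρ : Equiv.Perm (Fin 4) // ρ 1 = 1} = 6 := by
  rw [Nat.card_eq_fintype_card, Fintype.card_subtype]
  decide +kernel

theorem perm3_of_hom {T : Type*} [Group T] (φ : T →* Equiv.Perm (Fin 4)) (hφ : Function.Injective φ)
    (hr : ∀ ρ, ρ ∈ φ.range ↔ ρ 1 = 1) : Nonempty (T ≃* Equiv.Perm (Fin 3)) := by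
  classical
  -- embedding of `Perm (Fin 3)` in `Perm (Fin 4)` as the stabiliser of `1`
  let e : Fin 3 ≃ {i : Fin 4 // i ≠ 1} := finSuccAboveEquiv (1 : Fin 4)
  let ψ : Equiv.Perm (Fin 3) →* Equiv.Perm (Fin 4) := Equiv.Perm.extendDomainHom e
  have hψ : Function.Injective ψ := Equiv.Perm.extendDomainHom_injective e
  have hrange : ψ.range = φ.range := by
    ext ρ
    rw [hr]
    constructor
    · rintro ⟨τ, rfl⟩
      exact Equiv.Perm.extendDomain_apply_not_subtype τ e (by simp)
    · intro h1
      have hmaps : ∀ x, ρ x ≠ 1 ↔ x ≠ 1 := by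
        intro x
        constructor
        · rintro h rfl
          exact h h1
        · intro h h'
          rw [← h1] at h'
          exact h (by simpa [h1] using ρ.injective h')
      let τ : Equiv.Perm {i : Fin 4 // i ≠ 1} := ρ.subtypePerm hmaps
      refine ⟨e.permCongr.symm τ, ?_⟩
      ext y
      congr 1
      by_cases hy : y ≠ 1
      · change (Equiv.Perm.extendDomain (e.permCongr.symm τ) e) y = ρ y
        rw [Equiv.Perm.extendDomain_apply_subtype _ e hy]
        simp [τ]
      · change (Equiv.Perm.extendDomain (e.permCongr.symm τ) e) y = ρ y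
        rw [Equiv.Perm.extendDomain_apply_not_subtype _ e hy]
        push Not at hy
        rw [hy, h1]
  exact ⟨(MonoidHom.ofInjective hφ).trans
    ((MulEquiv.subgroupCongr hrange.symm).trans (MonoidHom.ofInjective hψ).symm)⟩

end Cfsg.Agent.Lib.H42OPG2
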