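import Mathlib

set_option autoImplicit false

/-! PROJECT 142 (OUT-PLUS), piece G3.  Sketches: notes/helper42/OP/README.md -/

namespace Cfsg.Agent.Lib.H42OPG3


/-- PIECE G3 (15 min, pure Mathlib): `zmodCyclicMulEquiv` / `mulEquivOfCyclicCardEq`. -/
theorem cyclic_equiv {A : Type*} [Group A] [IsCyclic A] {f : ℕ} (hf : Nat.card A = f) :
    Nonempty (A ≃* Multiplicative (ZMod f)) := by
  refine ⟨mulEquivOfCyclicCardEq ?_⟩
  rw [hf, Nat.card_congr (Multiplicative.toAdd (α := ZMod f)), Nat.card_zmod]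

end Cfsg.Agent.Lib.H42OPG3
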