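import Mathlib
import Cfsg.Agent.Lib.Helper18GamG
import Cfsg.Agent.Lib.Helper42Quad
import Cfsg.Agent.Lib.Helper42H90
import Cfsg.Agent.Lib.Helper49Disc
import Cfsg.Agent.Lib.Helper49Rank
import Cfsg.Agent.S2617

/-!
# Galois descent for quadratic forms of plus type over finite fields

A quadratic form on `F^{2m}` that commutes with a field automorphism `σ` of prime order and is
isometric to the hyperbolic form is carried to the hyperbolic form by a matrix `H` with
`σ(H) = H` or (`σ² = 1` and) `σ(H) = H w`, `w` the swap of the first hyperbolic pair.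
-/

set_option autoImplicit false
set_option linter.unusedSectionVars false

namespace Cfsg.Agent.Lib.Helper51LangA

open Cfsg Matrix Module
open Cfsg.Agent.Lib.Helper49Forms Cfsg.Agent.Lib.Helper49Gram Cfsg.Agent.Lib.Helper49Disc
  Cfsg.Agent.Lib.Helper18GamE Cfsg.Agent.Lib.Helper18GamF Cfsg.Agent.Lib.Helper18GamG
  Cfsg.Agent.Lib.Helper42Quad

variable {F : Type*} [Field F]

section general

variable {ι κ : Type} [Fintype ι] [DecidableEq ι] [Fintype κ] [DecidableEq κ]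

/-- The matrix with prescribed columns. -/
def colM (c : κ → ι → F) : Matrix ι κ F := Matrix.of fun a i => c i a

theorem colM_apply (c : κ → ι → F) (a : ι) (i : κ) : colM c a i = c i a := rfl

theorem colM_mulVec_single (c : κ → ι → F) (i : κ) : colM c *ᵥ Pi.single i 1 = c i := by
  funext a
  simp [colM]

theorem qf_ext_polar (Q Q' : QuadraticForm F (κ → F))
    (h1 : ∀ i, Q (Pi.single i 1) = Q' (Pi.single i 1))
    (h2 : ∀ i k, QuadraticMap.polar ⇑Q (Pi.single i 1) (Pi.single k 1)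
      = QuadraticMap.polar ⇑Q' (Pi.single i 1) (Pi.single k 1)) (v : κ → F) : Q v = Q' v := by
  apply qf_ext Q Q' h1
  intro i k
  have := h2 i k
  unfold QuadraticMap.polar at this
  rw [h1, h1] at this
  linear_combination this

theorem Q_colM (Q : QuadraticForm F (ι → F)) (Q' : QuadraticForm F (κ → F)) (c : κ → ι → F)
    (h1 : ∀ i, Q (c i) = Q' (Pi.single i 1))
    (h2 : ∀ i k, QuadraticMap.polar ⇑Q (c i) (c k) = gram Q' i k) (v : κ → F) :
    Q (colM c *ᵥ v) = Q' v := by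
  have := qf_ext_polar (Q.comp (Matrix.toLin' (colM c))) Q'
    (fun i => by rw [QuadraticMap.comp_apply, Matrix.toLin'_apply, colM_mulVec_single, h1])
    (fun i k => by
      have e : QuadraticMap.polar ⇑(Q.comp (Matrix.toLin' (colM c))) (Pi.single i 1) (Pi.single k 1)
          = QuadraticMap.polar ⇑Q (c i) (c k) := by
        unfold QuadraticMap.polar
        simp only [QuadraticMap.comp_apply, Matrix.toLin'_apply, Matrix.mulVec_add,
          colM_mulVec_single]
      rw [e, h2]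
      rfl) v
  rwa [QuadraticMap.comp_apply, Matrix.toLin'_apply] at this

theorem injective_of_Q (Q : QuadraticForm F (ι → F)) (Q' : QuadraticForm F (κ → F))
    (hQ' : (QuadraticMap.polarBilin Q').Nondegenerate) (C : Matrix ι κ F)
    (h : ∀ v, Q (C *ᵥ v) = Q' v) : Function.Injective C.mulVec := by
  intro v v' hvv
  have h0 : C *ᵥ (v - v') = 0 := by rw [Matrix.mulVec_sub, hvv, sub_self]
  have : v - v' = 0 := by
    apply (nondeg_iff Q').1 hQ'
    intro w
    unfold QuadraticMap.polar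
    rw [← h, ← h, ← h, Matrix.mulVec_add, h0, zero_add, map_zero]
    ring
  exact sub_eq_zero.1 this

theorem nondeg_of_Q (Q : QuadraticForm F (ι → F)) (Q' : QuadraticForm F (ι → F))
    (hQ' : (QuadraticMap.polarBilin Q').Nondegenerate) (C : GL ι F)
    (h : ∀ v, Q ((C : Matrix ι ι F) *ᵥ v) = Q' v) : (QuadraticMap.polarBilin Q).Nondegenerate := by
  rw [nondeg_iff]
  intro x hx
  have e : ∀ y, (C : Matrix ι ι F) *ᵥ (((C⁻¹ : GL ι F) : Matrix ι ι F) *ᵥ y) = y := by
    intro y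
    rw [Matrix.mulVec_mulVec, ← Units.val_mul, mul_inv_cancel, Units.val_one, Matrix.one_mulVec]
  have : ((C⁻¹ : GL ι F) : Matrix ι ι F) *ᵥ x = 0 := by
    apply (nondeg_iff Q').1 hQ'
    intro w
    have := hx ((C : Matrix ι ι F) *ᵥ w)
    unfold QuadraticMap.polar at this ⊢
    rw [← h, ← h, ← h, Matrix.mulVec_add, e]
    exact this
  rw [← e x, this, Matrix.mulVec_zero]

end general

section hyp

variable {m : ℕ}

theorem QPlus_single (a : Fin m ⊕ Fin m) : QPlus m F (Pi.single a 1) = 0 := by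
  rw [coe_QPlus]
  unfold Cfsg.quadFormPlus
  apply Finset.sum_eq_zero
  intro i _
  rcases a with a | a <;> simp

theorem Q_hyp (Q : QuadraticForm F (Fin m ⊕ Fin m → F)) (e f : Fin m → (Fin m ⊕ Fin m → F))
    (h : Hyp Q e f) (v : Fin m ⊕ Fin m → F) :
    Q (colM (Sum.elim e f) *ᵥ v) = QPlus m F v := by
  obtain ⟨h1, h2, h3, h4, h5⟩ := h
  apply Q_colM
  · intro i
    rw [QPlus_single]
    rcases i with i | i
    · exact h1 i
    · exact h2 i
  · intro i k
    rw [gram_QPlus]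
    rcases i with i | i <;> rcases k with k | k
    · simpa using h4 i k
    · simpa [Matrix.one_apply] using h3 i k
    · simp only [Sum.elim_inr, Sum.elim_inl, Matrix.fromBlocks_apply₂₁, Matrix.one_apply]
      rw [QuadraticMap.polar_comm, h3 k i]
      simp [eq_comm]
    · simpa using h5 i k

/-- The invertible matrix attached to a full hyperbolic family. -/
theorem exists_GL_hyp (Q : QuadraticForm F (Fin m ⊕ Fin m → F))
    (e f : Fin m → (Fin m ⊕ Fin m → F)) (h : Hyp Q e f) :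
    ∃ H : GL (Fin m ⊕ Fin m) F, (H : Matrix _ _ F) = colM (Sum.elim e f) ∧
      ∀ v, Q ((H : Matrix _ _ F) *ᵥ v) = QPlus m F v := by
  have h1 := Q_hyp Q e f h
  have h2 := injective_of_Q Q _ (Cfsg.Agent.Lib.Helper49Rank.QPlus_nondegenerate m) _ h1
  rw [Matrix.mulVec_injective_iff_isUnit] at h2
  obtain ⟨H, hH⟩ := h2
  exact ⟨H, hH, fun v => by rw [hH]; exact h1 v⟩

theorem hyp_cons' {V : Type*} [AddCommGroup V] [Module F V] (Q : QuadraticForm F V) {k : ℕ}
    (e f : Fin k → V) (h : Hyp Q e f) (e0 f0 : V) (he : Q e0 = 0) (hf : Q f0 = 0)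
    (hef : QuadraticMap.polar ⇑Q e0 f0 = 1) (hpe : Perp Q e f e0) (hpf : Perp Q e f f0) :
    Hyp Q (Fin.cons e0 e : Fin (k + 1) → V) (Fin.cons f0 f : Fin (k + 1) → V) := by
  obtain ⟨h1, h2, h3, h4, h5⟩ := h
  have hee : QuadraticMap.polar ⇑Q e0 e0 = 0 := by rw [QuadraticMap.polar_self, he]; simp
  have hff : QuadraticMap.polar ⇑Q f0 f0 = 0 := by rw [QuadraticMap.polar_self, hf]; simp
  refine ⟨?_, ?_, ?_, ?_, ?_⟩
  · intro i
    refine Fin.cases ?_ (fun i => ?_) i
    · simpa using he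
    · simpa using h1 i
  · intro i
    refine Fin.cases ?_ (fun i => ?_) i
    · simpa using hf
    · simpa using h2 i
  · intro i j
    refine Fin.cases ?_ (fun i => ?_) i <;> refine Fin.cases ?_ (fun j => ?_) j
    · simpa using hef
    · simp only [Fin.cons_zero, Fin.cons_succ]
      rw [QuadraticMap.polar_comm, (hpe j).2]
      simp [Fin.succ_ne_zero, eq_comm]
    · simp only [Fin.cons_zero, Fin.cons_succ]
      rw [(hpf i).1]
      simp [Fin.succ_ne_zero]
    · simpa using h3 i j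
  · intro i j
    refine Fin.cases ?_ (fun i => ?_) i <;> refine Fin.cases ?_ (fun j => ?_) j
    · simpa using hee
    · simp only [Fin.cons_zero, Fin.cons_succ]
      rw [QuadraticMap.polar_comm, (hpe j).1]
    · simp only [Fin.cons_zero, Fin.cons_succ]
      rw [(hpe i).1]
    · simpa using h4 i j
  · intro i j
    refine Fin.cases ?_ (fun i => ?_) i <;> refine Fin.cases ?_ (fun j => ?_) j
    · simpa using hff
    · simp only [Fin.cons_zero, Fin.cons_succ]
      rw [QuadraticMap.polar_comm, (hpf j).2]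
    · simp only [Fin.cons_zero, Fin.cons_succ]
      rw [(hpf i).2]
    · simpa using h5 i j

end hyp

section descent

variable {ι : Type} [Fintype ι] [DecidableEq ι] (σ : F ≃+* F)

/-- The fixed field of `σ`. -/
def fixF : Subfield F where
  carrier := {a | σ a = a}
  mul_mem' := fun {a b} ha hb => by
    change σ (a * b) = a * b
    rw [map_mul, ha, hb]
  one_mem' := map_one σ
  add_mem' := fun {a b} ha hb => by
    change σ (a + b) = a + b
    rw [map_add, ha, hb]
  zero_mem' := map_zero σ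
  neg_mem' := fun {a} ha => by
    change σ (-a) = -a
    rw [map_neg, ha]
  inv_mem' := fun a ha => by
    change σ a⁻¹ = a⁻¹
    rw [map_inv₀, ha]

theorem mem_fixF {a : F} : a ∈ fixF σ ↔ σ a = a := Iff.rfl

theorem fix_coe (a : ↥(fixF σ)) : σ (a : F) = a := a.2

theorem hj_fixF (a : F) : σ a = a ↔ a ∈ Set.range (fixF σ).subtype := by
  constructor
  · intro h
    exact ⟨⟨a, h⟩, rfl⟩
  · rintro ⟨b, rfl⟩
    exact b.2

variable {σ}

/-- The coercion of vectors. -/
abbrev cv (v : ι → ↥(fixF σ)) : ι → F := jv (fixF σ).subtype v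

theorem cv_apply (v : ι → ↥(fixF σ)) (i : ι) : cv v i = (v i : F) := rfl

theorem map_cv (v : ι → ↥(fixF σ)) : (fun i => σ (cv v i)) = cv v := by
  funext i
  exact (v i).2

theorem cv_add (u v : ι → ↥(fixF σ)) : cv (u + v) = cv u + cv v := by
  funext i; rfl

theorem cv_smul (a : ↥(fixF σ)) (v : ι → ↥(fixF σ)) : cv (a • v) = (a : F) • cv v := by
  funext i; rfl

theorem Q_cv_mem (Q : QuadraticForm F (ι → F)) (hσ : Comm ⇑Q σ) (v : ι → ↥(fixF σ)) :
    Q (cv v) ∈ fixF σ := by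
  change σ (Q (cv v)) = Q (cv v)
  rw [← hσ, map_cv]

/-- The descended function. -/
def descFun (Q : QuadraticForm F (ι → F)) (hσ : Comm ⇑Q σ) (v : ι → ↥(fixF σ)) : ↥(fixF σ) :=
  ⟨Q (cv v), Q_cv_mem Q hσ v⟩

theorem coe_polar_descFun (Q : QuadraticForm F (ι → F)) (hσ : Comm ⇑Q σ)
    (u v : ι → ↥(fixF σ)) :
    ((QuadraticMap.polar (descFun Q hσ) u v : ↥(fixF σ)) : F)
      = QuadraticMap.polar ⇑Q (cv u) (cv v) := by
  unfold QuadraticMap.polar
  rw [← cv_add]
  rfl

/-- The descended quadratic form. -/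
def descQ (Q : QuadraticForm F (ι → F)) (hσ : Comm ⇑Q σ) :
    QuadraticForm ↥(fixF σ) (ι → ↥(fixF σ)) :=
  QuadraticMap.ofPolar (descFun Q hσ)
    (fun a x => by
      apply Subtype.ext
      change Q (cv (a • x)) = ((a * a : ↥(fixF σ)) : F) * Q (cv x)
      rw [cv_smul, QuadraticMap.map_smul]
      rfl)
    (fun x x' y => by
      apply Subtype.ext
      rw [Subfield.coe_add, coe_polar_descFun, coe_polar_descFun, coe_polar_descFun, cv_add,
        QuadraticMap.polar_add_left])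
    (fun a x y => by
      apply Subtype.ext
      rw [coe_polar_descFun, cv_smul, QuadraticMap.polar_smul_left]
      change _ = (a : F) * ((QuadraticMap.polar (descFun Q hσ) x y : ↥(fixF σ)) : F)
      rw [coe_polar_descFun]
      rfl)

theorem ext_descQ (Q : QuadraticForm F (ι → F)) (hσ : Comm ⇑Q σ) :
    Ext Q (descQ Q hσ) (fixF σ).subtype := fun _ => rfl

theorem coe_descQ (Q : QuadraticForm F (ι → F)) (hσ : Comm ⇑Q σ) (v : ι → ↥(fixF σ)) :
    ((descQ Q hσ v : ↥(fixF σ)) : F) = Q (cv v) := rfl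

theorem coe_polar_descQ (Q : QuadraticForm F (ι → F)) (hσ : Comm ⇑Q σ) (u v : ι → ↥(fixF σ)) :
    ((QuadraticMap.polar ⇑(descQ Q hσ) u v : ↥(fixF σ)) : F)
      = QuadraticMap.polar ⇑Q (cv u) (cv v) := coe_polar_descFun Q hσ u v

theorem cv_single (i : ι) : cv (Pi.single i 1 : ι → ↥(fixF σ)) = (Pi.single i 1 : ι → F) :=
  map_single (j := (fixF σ).subtype) i

theorem descQ_nondeg (Q : QuadraticForm F (ι → F)) (hσ : Comm ⇑Q σ)
    (hQ : (QuadraticMap.polarBilin Q).Nondegenerate) :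
    (QuadraticMap.polarBilin (descQ Q hσ)).Nondegenerate := by
  rw [nondeg_iff]
  intro x hx
  have h1 : cv x = 0 := by
    apply (nondeg_iff Q).1 hQ
    intro y
    have h2 : QuadraticMap.polarBilin Q (cv x) = 0 := by
      apply (Pi.basisFun F ι).ext
      intro i
      rw [Pi.basisFun_apply, QuadraticMap.polarBilin_apply_apply, ← cv_single, ← coe_polar_descQ Q hσ,
        hx]
      rfl
    have := congrArg (fun L => L y) h2
    simpa using this
  funext i
  apply Subtype.ext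
  exact congrFun h1 i

theorem hyp_cv (Q : QuadraticForm F (ι → F)) (hσ : Comm ⇑Q σ) {k : ℕ}
    (e f : Fin k → (ι → ↥(fixF σ))) (h : Hyp (descQ Q hσ) e f) :
    Hyp Q (fun i => cv (e i)) (fun i => cv (f i)) := by
  obtain ⟨h1, h2, h3, h4, h5⟩ := h
  refine ⟨fun i => ?_, fun i => ?_, fun i j => ?_, fun i j => ?_, fun i j => ?_⟩
  · rw [← coe_descQ Q hσ, h1]; rfl
  · rw [← coe_descQ Q hσ, h2]; rfl
  · rw [← coe_polar_descQ Q hσ, h3]
    split_ifs <;> rfl
  · rw [← coe_polar_descQ Q hσ, h4]; rfl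
  · rw [← coe_polar_descQ Q hσ, h5]; rfl

theorem perp_cv (Q : QuadraticForm F (ι → F)) (hσ : Comm ⇑Q σ) {k : ℕ}
    (e f : Fin k → (ι → ↥(fixF σ))) (x : ι → ↥(fixF σ)) (h : Perp (descQ Q hσ) e f x) :
    Perp Q (fun i => cv (e i)) (fun i => cv (f i)) (cv x) := by
  intro i
  constructor
  · rw [← coe_polar_descQ Q hσ, (h i).1]; rfl
  · rw [← coe_polar_descQ Q hσ, (h i).2]; rfl

end descent

section shapes

variable {σ : F ≃+* F}

/-- The swap of the first hyperbolic pair. -/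
def wM (k : ℕ) (F : Type*) [Field F] :
    Matrix (Fin (k + 1) ⊕ Fin (k + 1)) (Fin (k + 1) ⊕ Fin (k + 1)) F :=
  (1 : Matrix _ _ F).submatrix id (Equiv.swap (Sum.inl 0) (Sum.inr 0))

theorem mul_wM_apply {κ : Type*} {k : ℕ} (H : Matrix κ (Fin (k + 1) ⊕ Fin (k + 1)) F) (a : κ)
    (i : Fin (k + 1) ⊕ Fin (k + 1)) :
    (H * wM k F) a i = H a (Equiv.swap (Sum.inl 0) (Sum.inr 0) i) := by
  simp [wM, Matrix.mul_apply, Matrix.one_apply]

theorem shape_plus {m : ℕ} (Q : QuadraticForm F (Fin m ⊕ Fin m → F)) (hσ : Comm ⇑Q σ)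
    (e f : Fin m → (Fin m ⊕ Fin m → ↥(fixF σ))) (h : Hyp (descQ Q hσ) e f) :
    ∃ H : GL (Fin m ⊕ Fin m) F, (∀ v, Q ((H : Matrix _ _ F) *ᵥ v) = QPlus m F v) ∧
      (H : Matrix (Fin m ⊕ Fin m) (Fin m ⊕ Fin m) F).map σ = (H : Matrix (Fin m ⊕ Fin m) (Fin m ⊕ Fin m) F) := by
  obtain ⟨H, hH, hQ⟩ := exists_GL_hyp Q _ _ (hyp_cv Q hσ e f h)
  refine ⟨H, hQ, ?_⟩
  rw [hH]
  ext a i
  rcases i with i | i
  · exact (e i a).2
  · exact (f i a).2

theorem root_conj {b : F} (hb : σ b = b) (hno : ∀ t : ↥(fixF σ), (t : F) ^ 2 + t + b ≠ 0) {ρ : F}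
    (hρ : ρ ^ 2 + ρ + b = 0) : σ ρ ≠ ρ ∧ σ ρ = -1 - ρ := by
  have h1 : σ ρ ≠ ρ := fun h => hno ⟨ρ, h⟩ hρ
  refine ⟨h1, ?_⟩
  have h2 : (σ ρ) ^ 2 + σ ρ + b = 0 := by
    have := congrArg σ hρ
    simpa [hb] using this
  have h3 : (σ ρ - ρ) * (σ ρ + ρ + 1) = 0 := by linear_combination h2 - hρ
  rcases mul_eq_zero.1 h3 with h | h
  · exact absurd (sub_eq_zero.1 h) h1
  · linear_combination h

theorem no_root_of_odd {b : F} (hb : σ b = b) (hno : ∀ t : ↥(fixF σ), (t : F) ^ 2 + t + b ≠ 0)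
    (hodd : Odd (orderOf σ)) (ρ : F) : ρ ^ 2 + ρ + b ≠ 0 := by
  intro hρ
  obtain ⟨h1, h2⟩ := root_conj hb hno hρ
  have h3 : (σ ^ 2) ρ = ρ := by
    rw [pow_two, RingAut.mul_apply, h2, map_sub, map_neg, map_one, h2]
    ring
  have h4 : ∀ i : ℕ, ((σ ^ 2) ^ i) ρ = ρ := by
    intro i
    induction i with
    | zero => rfl
    | succ i ih => rw [pow_succ, RingAut.mul_apply, h3, ih]
  obtain ⟨i, hi⟩ := hodd
  have h5 : (σ ^ orderOf σ) ρ = σ ρ := by
    rw [hi, pow_succ', pow_mul, RingAut.mul_apply, h4]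
  rw [pow_orderOf_eq_one] at h5
  exact h1 h5.symm

variable {k : ℕ}

theorem shape_minus_root [Finite F] (Q : QuadraticForm F (Fin (k + 1) ⊕ Fin (k + 1) → F))
    (hσ : Comm ⇑Q σ) (h2 : orderOf σ = 2)
    (e f : Fin k → (Fin (k + 1) ⊕ Fin (k + 1) → ↥(fixF σ)))
    (x y : Fin (k + 1) ⊕ Fin (k + 1) → ↥(fixF σ)) (h : Hyp (descQ Q hσ) e f)
    (hx : Perp (descQ Q hσ) e f x) (hy : Perp (descQ Q hσ) e f y) (hx1 : descQ Q hσ x = 1)
    (hxy : QuadraticMap.polar ⇑(descQ Q hσ) x y = 1)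
    (hno : ∀ t : ↥(fixF σ), t ^ 2 + t + descQ Q hσ y ≠ 0) (ρ : F)
    (hρ : ρ ^ 2 + ρ + Q (cv y) = 0) :
    ∃ H : GL (Fin (k + 1) ⊕ Fin (k + 1)) F,
      (∀ v, Q ((H : Matrix _ _ F) *ᵥ v) = QPlus (k + 1) F v) ∧
      (H : Matrix (Fin (k + 1) ⊕ Fin (k + 1)) (Fin (k + 1) ⊕ Fin (k + 1)) F).map σ
        = (H : Matrix (Fin (k + 1) ⊕ Fin (k + 1)) (Fin (k + 1) ⊕ Fin (k + 1)) F) * wM k F := by
  set b : F := Q (cv y) with hb
  have hbfix : σ b = b := Q_cv_mem Q hσ y
  have hno' : ∀ t : ↥(fixF σ), (t : F) ^ 2 + t + b ≠ 0 := by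
    intro t ht
    apply hno t
    apply Subtype.ext
    exact ht
  obtain ⟨hne, hconj⟩ := root_conj hbfix hno' hρ
  have hσσ : ∀ z, σ (σ z) = z := by
    intro z
    have : σ ^ 2 = 1 := by rw [← h2]; exact pow_orderOf_eq_one σ
    have h3 := congrArg (fun τ : F ≃+* F => τ z) this
    simpa [pow_two] using h3
  have QX : Q (cv x) = 1 := by rw [← coe_descQ Q hσ, hx1]; rfl
  have PXY : QuadraticMap.polar ⇑Q (cv x) (cv y) = 1 := by rw [← coe_polar_descQ Q hσ, hxy]; rfl
  have PYX : QuadraticMap.polar ⇑Q (cv y) (cv x) = 1 := by rw [QuadraticMap.polar_comm, PXY]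
  set d : F := 4 * b - 1 with hd
  have hd0 : d ≠ 0 := by
    intro h0
    apply hne
    have : (σ ρ - ρ) ^ 2 = 0 := by
      rw [hconj]
      linear_combination (-1 : F) * h0 + 4 * hρ
    exact sub_eq_zero.1 (by simpa using this)
  have hdfix : σ d⁻¹ = d⁻¹ := by
    rw [map_inv₀, hd, map_sub, map_mul, hbfix, map_one, map_ofNat]
  obtain ⟨l, hl0, hl⟩ := Cfsg.Agent.Lib.Helper50H90.norm_surj σ 2 h2 (by norm_num) d⁻¹
    (inv_ne_zero hd0) hdfix
  have hl' : l * σ l = d⁻¹ := by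
    rw [← hl]
    simp [Cfsg.Agent.Lib.Helper50H90.Nk]
  have Qu : ∀ t : F, Q (t • cv x + cv y) = t ^ 2 + t + b := by
    intro t
    rw [map_add_polar, QuadraticMap.map_smul, QuadraticMap.polar_smul_left, QX, PXY]
    simp only [smul_eq_mul, mul_one]
    ring
  have hρ' : (σ ρ) ^ 2 + σ ρ + b = 0 := by
    rw [hconj]
    linear_combination hρ
  set E : Fin (k + 1) ⊕ Fin (k + 1) → F := l • (ρ • cv x + cv y) with hE
  set E' : Fin (k + 1) ⊕ Fin (k + 1) → F := σ l • (σ ρ • cv x + cv y) with hE'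
  have QE : Q E = 0 := by rw [hE, QuadraticMap.map_smul, Qu, hρ, smul_zero]
  have QE' : Q E' = 0 := by rw [hE', QuadraticMap.map_smul, Qu, hρ', smul_zero]
  have PEE : QuadraticMap.polar ⇑Q E E' = 1 := by
    rw [hE, hE']
    simp only [QuadraticMap.polar_smul_left, QuadraticMap.polar_smul_right,
      QuadraticMap.polar_add_left, QuadraticMap.polar_add_right, QuadraticMap.polar_self, QX, PXY,
      PYX, ← hb, smul_eq_mul, nsmul_eq_mul, Nat.cast_ofNat, mul_one]
    have h5 : l * σ l * d = 1 := by rw [hl', inv_mul_cancel₀ hd0]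
    rw [hconj]
    rw [hd] at h5
    linear_combination h5 - 2 * l * σ l * hρ
  have hX := perp_cv Q hσ e f x hx
  have hY := perp_cv Q hσ e f y hy
  have hpE : Perp Q (fun i => cv (e i)) (fun i => cv (f i)) E := by
    intro i
    rw [hE]
    simp only [QuadraticMap.polar_smul_right, QuadraticMap.polar_add_right, (hX i).1, (hX i).2,
      (hY i).1, (hY i).2, smul_zero, add_zero, and_self]
  have hpE' : Perp Q (fun i => cv (e i)) (fun i => cv (f i)) E' := by
    intro i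
    rw [hE']
    simp only [QuadraticMap.polar_smul_right, QuadraticMap.polar_add_right, (hX i).1, (hX i).2,
      (hY i).1, (hY i).2, smul_zero, add_zero, and_self]
  obtain ⟨H, hH, hQ⟩ := exists_GL_hyp Q _ _
    (hyp_cons' Q _ _ (hyp_cv Q hσ e f h) E E' QE QE' PEE hpE hpE')
  refine ⟨H, hQ, ?_⟩
  have sE : ∀ a, σ (E a) = E' a := by
    intro a
    simp only [hE, hE', Pi.smul_apply, Pi.add_apply, smul_eq_mul, map_mul, map_add, cv_apply,
      fix_coe]
  have sE' : ∀ a, σ (E' a) = E a := by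
    intro a
    simp only [hE, hE', Pi.smul_apply, Pi.add_apply, smul_eq_mul, map_mul, map_add, cv_apply,
      fix_coe, hσσ]
  ext a i
  rw [mul_wM_apply, hH, Matrix.map_apply, colM_apply, colM_apply]
  rcases i with i | i
  · refine Fin.cases ?_ (fun i => ?_) i
    · rw [Equiv.swap_apply_left]
      exact sE a
    · rw [Equiv.swap_apply_of_ne_of_ne (by simp [Fin.succ_ne_zero]) (by simp)]
      exact (e i a).2
  · refine Fin.cases ?_ (fun i => ?_) i
    · rw [Equiv.swap_apply_right]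
      exact sE' a
    · rw [Equiv.swap_apply_of_ne_of_ne (by simp) (by simp [Fin.succ_ne_zero])]
      exact (f i a).2

theorem shape_minus_noroot [Finite F] (Q : QuadraticForm F (Fin (k + 1) ⊕ Fin (k + 1) → F))
    (hσ : Comm ⇑Q σ) (P : GL (Fin (k + 1) ⊕ Fin (k + 1)) F)
    (hP : ∀ v, Q ((P : Matrix _ _ F) *ᵥ v) = QPlus (k + 1) F v)
    (e f : Fin k → (Fin (k + 1) ⊕ Fin (k + 1) → ↥(fixF σ)))
    (x y : Fin (k + 1) ⊕ Fin (k + 1) → ↥(fixF σ)) (h : Hyp (descQ Q hσ) e f)
    (hx : Perp (descQ Q hσ) e f x) (hy : Perp (descQ Q hσ) e f y) (hx1 : descQ Q hσ x = 1)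
    (hxy : QuadraticMap.polar ⇑(descQ Q hσ) x y = 1)
    (hnoF : ∀ t : F, t ^ 2 + t + Q (cv y) ≠ 0) : False := by
  set ζ : F := Q (cv y) with hζ
  have hab : ∀ z₁ z₂ : F, z₁ ^ 2 + 1 * z₁ * z₂ + ζ * z₂ ^ 2 = 0 → z₁ = 0 ∧ z₂ = 0 := by
    intro z₁ z₂ hz
    by_cases h2 : z₂ = 0
    · subst h2
      refine ⟨?_, rfl⟩
      have : z₁ ^ 2 = 0 := by linear_combination hz
      simpa using this
    · exfalso
      apply hnoF (z₁ / z₂)
      field_simp
      linear_combination hz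
  have QX : Q (cv x) = 1 := by rw [← coe_descQ Q hσ, hx1]; rfl
  have PXY : QuadraticMap.polar ⇑Q (cv x) (cv y) = 1 := by rw [← coe_polar_descQ Q hσ, hxy]; rfl
  have PYX : QuadraticMap.polar ⇑Q (cv y) (cv x) = 1 := by rw [QuadraticMap.polar_comm, PXY]
  have hX := perp_cv Q hσ e f x hx
  have hY := perp_cv Q hσ e f y hy
  obtain ⟨h1, h2, h3, h4, h5⟩ := hyp_cv Q hσ e f h
  let c : (Fin k ⊕ Fin k) ⊕ Fin 2 → (Fin (k + 1) ⊕ Fin (k + 1) → F) :=
    Sum.elim (Sum.elim (fun i => cv (e i)) (fun i => cv (f i))) ![cv x, cv y]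
  have hC : ∀ v, Q (colM c *ᵥ v) = QMinus k F 1 ζ v := by
    apply Q_colM
    · intro i
      rw [coe_QMinus]
      rcases i with (i | i) | i
      · simpa [Cfsg.quadFormMinus, c] using h1 i
      · simpa [Cfsg.quadFormMinus, c] using h2 i
      · fin_cases i
        · simpa [Cfsg.quadFormMinus, c] using QX
        · simp [Cfsg.quadFormMinus, c, hζ]
    · intro i j
      rw [gram_QMinus]
      rcases i with (i | i) | i <;> rcases j with (j | j) | j
      · simpa [c] using h4 i j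
      · simpa [c, Matrix.one_apply] using h3 i j
      · fin_cases j
        · simpa [c] using (hX i).1
        · simpa [c] using (hY i).1
      · simp only [c, Sum.elim_inl, Sum.elim_inr, Matrix.fromBlocks_apply₁₁,
          Matrix.fromBlocks_apply₂₁, Matrix.one_apply]
        rw [QuadraticMap.polar_comm, h3 j i]
        simp [eq_comm]
      · simpa [c] using h5 i j
      · fin_cases j
        · simpa [c] using (hX i).2
        · simpa [c] using (hY i).2
      · fin_cases i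
        · simpa [c, QuadraticMap.polar_comm] using (hX j).1
        · simpa [c, QuadraticMap.polar_comm] using (hY j).1
      · fin_cases i
        · simpa [c, QuadraticMap.polar_comm] using (hX j).2
        · simpa [c, QuadraticMap.polar_comm] using (hY j).2
      · fin_cases i <;> fin_cases j
        · simp [c, QuadraticMap.polar_self, QX]
        · simpa [c] using PXY
        · simpa [c] using PYX
        · simp [c, QuadraticMap.polar_self, ← hζ]
  have hinj := injective_of_Q Q _ (Cfsg.Agent.Lib.Helper49Rank.QMinus_nondegenerate k hab) _ hC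
  have hdim : finrank F ((Fin k ⊕ Fin k) ⊕ Fin 2 → F) = finrank F (Fin (k + 1) ⊕ Fin (k + 1) → F) := by
    simp only [Module.finrank_fintype_fun_eq_card, Fintype.card_sum, Fintype.card_fin]
    omega
  let L := LinearMap.linearEquivOfInjective (Matrix.toLin' (colM c)) hinj hdim
  have hL : ∀ w, colM c *ᵥ (L.symm w) = w := by
    intro w
    exact L.apply_symm_apply w
  have hPinj : Function.Injective (L.symm.toLinearMap ∘ₗ Matrix.toLin'
      (P : Matrix (Fin (k + 1) ⊕ Fin (k + 1)) (Fin (k + 1) ⊕ Fin (k + 1)) F)) := by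
    intro v v' hv
    have h6 := L.symm.injective hv
    rw [Matrix.toLin'_apply, Matrix.toLin'_apply] at h6
    have h7 := congrArg (fun z => ((P⁻¹ : GL (Fin (k + 1) ⊕ Fin (k + 1)) F) :
      Matrix (Fin (k + 1) ⊕ Fin (k + 1)) (Fin (k + 1) ⊕ Fin (k + 1)) F) *ᵥ z) h6
    simpa [Matrix.mulVec_mulVec, ← Units.val_mul] using h7
  let g := LinearMap.linearEquivOfInjective _ hPinj hdim.symm
  refine Cfsg.Agent.S2617.result (m := k + 1) (by omega) ζ hnoF g ?_
  intro v
  have e1 : g v = L.symm ((P : Matrix (Fin (k + 1) ⊕ Fin (k + 1)) (Fin (k + 1) ⊕ Fin (k + 1)) F)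
      *ᵥ v) := by
    rfl
  rw [e1, ← coe_QPlus, ← hP]
  change Cfsg.quadFormMinus k F 1 ζ _ = _
  rw [← coe_QMinus, ← hC, hL]

/-- **Galois descent for forms of plus type.** -/
theorem descent [Finite F] (Q : QuadraticForm F (Fin (k + 1) ⊕ Fin (k + 1) → F))
    (hσ : Comm ⇑Q σ) (P : GL (Fin (k + 1) ⊕ Fin (k + 1)) F)
    (hP : ∀ v, Q ((P : Matrix _ _ F) *ᵥ v) = QPlus (k + 1) F v)
    (hr : orderOf σ = 2 ∨ Odd (orderOf σ)) :
    ∃ H : GL (Fin (k + 1) ⊕ Fin (k + 1)) F,
      (∀ v, Q ((H : Matrix _ _ F) *ᵥ v) = QPlus (k + 1) F v) ∧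
      ((H : Matrix (Fin (k + 1) ⊕ Fin (k + 1)) (Fin (k + 1) ⊕ Fin (k + 1)) F).map σ
        = (H : Matrix (Fin (k + 1) ⊕ Fin (k + 1)) (Fin (k + 1) ⊕ Fin (k + 1)) F) ∨
      (H : Matrix (Fin (k + 1) ⊕ Fin (k + 1)) (Fin (k + 1) ⊕ Fin (k + 1)) F).map σ
        = (H : Matrix (Fin (k + 1) ⊕ Fin (k + 1)) (Fin (k + 1) ⊕ Fin (k + 1)) F) * wM k F) := by
  have hQ := nondeg_of_Q Q _ (Cfsg.Agent.Lib.Helper49Rank.QPlus_nondegenerate (k + 1)) P hP
  have hQ₀ := descQ_nondeg Q hσ hQ
  have hfin : finrank ↥(fixF σ) (Fin (k + 1) ⊕ Fin (k + 1) → ↥(fixF σ)) = 2 * (k + 1) := by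
    simp only [Module.finrank_fintype_fun_eq_card, Fintype.card_sum, Fintype.card_fin]
    omega
  rcases std (2 * (k + 1)) (descQ Q hσ) hQ₀ hfin with ⟨k', hk', e, f, h⟩ |
    ⟨k', hk', -⟩ | ⟨k', hk', e, f, x, y, h, hx, hy, hx1, hxy, hno⟩
  · obtain rfl : k' = k + 1 := by omega
    obtain ⟨H, h1, h2⟩ := shape_plus Q hσ e f h
    exact ⟨H, h1, Or.inl h2⟩
  · omega
  · obtain rfl : k' = k := by omega
    by_cases hroot : ∃ ρ : F, ρ ^ 2 + ρ + Q (cv y) = 0
    · obtain ⟨ρ, hρ⟩ := hroot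
      rcases hr with h2 | hodd
      · obtain ⟨H, h1, h3⟩ := shape_minus_root Q hσ h2 e f x y h hx hy hx1 hxy hno ρ hρ
        exact ⟨H, h1, Or.inr h3⟩
      · exfalso
        refine no_root_of_odd (Q_cv_mem Q hσ y) ?_ hodd ρ hρ
        intro t ht
        apply hno t
        apply Subtype.ext
        exact ht
    · exfalso
      push Not at hroot
      exact shape_minus_noroot Q hσ P hP e f x y h hx hy hx1 hxy hroot

end shapes

end Cfsg.Agent.Lib.Helper51LangA
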