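import Mathlib
import Cfsg.Agent.Lib.Helper51LangA
import Cfsg.Agent.Lib.Helper51OrthPlus
import Cfsg.Agent.Lib.Helper18GamF

/-!
# Semisimilarities of the hyperbolic form whose `r`-th power is scalar

Every semisimilarity `T = (g, σ)` of the hyperbolic form with `σ` of order `r` (`r = 2` or `r` odd)
inducing an automorphism of `PΩ` of order dividing `r` is conjugate, under a similarity and modulo
scalars, to `(1, σ)` or to `(w, σ)`.
-/

set_option autoImplicit false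
set_option linter.unusedSectionVars false

namespace Cfsg.Agent.Lib.Helper51LangB

open Cfsg Matrix Module
open scoped MatrixGroups
open Cfsg.Agent.Lib.Helper49Orth Cfsg.Agent.Lib.Helper49Forms
  Cfsg.Agent.Lib.Helper51OrthAut Cfsg.Agent.Lib.Helper51OrthIdx
  Cfsg.Agent.Lib.Helper51OrthIdx2 Cfsg.Agent.Lib.Helper51OrthPlus
  Cfsg.Agent.Lib.Helper18GamA Cfsg.Agent.Lib.Helper18GamB Cfsg.Agent.Lib.Helper18GamC
  Cfsg.Agent.Lib.Helper18GamE Cfsg.Agent.Lib.Helper18GamF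
  Cfsg.Agent.Lib.Helper42H90 Cfsg.Agent.Lib.Helper51LangA
open Cfsg.Agent.Lib.Helper50H90 (Nk hilbert90_scalar pow_succ_apply)

variable {F : Type*} [Field F] [Fintype F]

section pow

variable {ι : Type} [Fintype ι] [DecidableEq ι]

theorem pow_left (x : GamL ι F) (n : ℕ) :
    ((x ^ n).left : Matrix ι ι F) = NkM x.right (x.left : Matrix ι ι F) n := by
  induction n with
  | zero => rfl
  | succ n ih =>
    rw [pow_succ', SemidirectProduct.mul_left, Units.val_mul, coe_mapAut, ih]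
    rfl

end pow

theorem comm_QPlus (m : ℕ) (σ : F ≃+* F) : Comm ⇑(QPlus m F) σ := by
  intro v
  rw [coe_QPlus]
  simp [Cfsg.quadFormPlus]

section w

variable (k : ℕ)

/-- The vector whose reflection is the swap. -/
def v0 (F : Type*) [Field F] : Fin (k + 1) ⊕ Fin (k + 1) → F :=
  Pi.single (Sum.inl 0) 1 - Pi.single (Sum.inr 0) 1

theorem Q_v0 : QPlus (k + 1) F (v0 k F) = -1 := by
  rw [coe_QPlus]
  unfold Cfsg.quadFormPlus v0
  rw [Finset.sum_eq_single 0]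
  · simp
  · intro i _ hi
    simp [hi]
  · simp

theorem Q_v0_ne : QPlus (k + 1) F (v0 k F) ≠ 0 := by
  rw [Q_v0]
  exact neg_ne_zero.2 one_ne_zero

theorem wM_mulVec (x : Fin (k + 1) ⊕ Fin (k + 1) → F) (a : Fin (k + 1) ⊕ Fin (k + 1)) :
    (wM k F *ᵥ x) a = x (Equiv.swap (Sum.inl 0) (Sum.inr 0) a) := by
  unfold wM
  simp only [Matrix.mulVec, dotProduct, Matrix.submatrix_apply, id, Matrix.one_apply]
  rw [Finset.sum_eq_single (Equiv.swap (Sum.inl 0) (Sum.inr 0) a)]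
  · simp
  · intro b _ hb
    rw [if_neg, zero_mul]
    intro h
    apply hb
    rw [h, Equiv.swap_apply_self]
  · simp

theorem refl_v0 : Cfsg.reflectionMatrix ⇑(QPlus (k + 1) F) (v0 k F) = wM k F := by
  apply Matrix.mulVec_injective
  funext x
  rw [refl_mulVec, Q_v0]
  have hp : QuadraticMap.polar ⇑(QPlus (k + 1) F) (v0 k F) x = x (Sum.inr 0) - x (Sum.inl 0) := by
    unfold v0
    rw [QuadraticMap.polar_sub_left, Cfsg.Agent.Lib.Helper49Disc.HypPair.polar_left (hypPair_QPlus (k + 1) 0),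
      Cfsg.Agent.Lib.Helper49Disc.HypPair.polar_right (hypPair_QPlus (k + 1) 0)]
  rw [hp]
  funext a
  rw [wM_mulVec]
  by_cases h1 : a = Sum.inl 0
  · subst h1
    rw [Equiv.swap_apply_left]
    simp [v0]
  · by_cases h2 : a = Sum.inr 0
    · subst h2
      rw [Equiv.swap_apply_right]
      simp [v0]
    · rw [Equiv.swap_apply_of_ne_of_ne h1 h2]
      simp [v0, h1, h2]

/-- The swap as a similarity. -/
noncomputable def wG (F : Type*) [Field F] [Fintype F] : ↥(GO (QPlus (k + 1) F)) :=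
  incO _ (reflO (QPlus (k + 1) F) (Q_v0_ne k))

theorem coe_wG : (((wG k F : ↥(GO (QPlus (k + 1) F))) : GL (Fin (k + 1) ⊕ Fin (k + 1)) F) :
    Matrix (Fin (k + 1) ⊕ Fin (k + 1)) (Fin (k + 1) ⊕ Fin (k + 1)) F) = wM k F := by
  unfold wG
  rw [coe_incO, coe_reflO, refl_v0]

theorem wM_map (σ : F ≃+* F) : (wM k F).map σ = wM k F := by
  ext a b
  simp only [wM, Matrix.map_apply, Matrix.submatrix_apply, Matrix.one_apply]
  split_ifs <;> simp

theorem wG_mul_self : wG k F * wG k F = 1 := by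
  unfold wG
  rw [← map_mul, reflO_mul_self, map_one]

end w

section main

variable {k : ℕ}

theorem exists_one_QPlus : ∃ x, QPlus (k + 1) F x = 1 := by
  refine ⟨dMat (k + 1) (-1) *ᵥ v0 k F, ?_⟩
  rw [Q_dMat, Q_v0]
  ring

theorem main_eq (hn : 5 ≤ Fintype.card (Fin (k + 1) ⊕ Fin (k + 1)))
    (T : ↥(GamO ⇑(QPlus (k + 1) F))) (σ : F ≃+* F) (hσ : prO _ T = σ)
    (hr : orderOf σ = 2 ∨ Odd (orderOf σ)) (hT : (sAut ⇑(QPlus (k + 1) F) T) ^ orderOf σ = 1) :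
    ∃ (h : ↥(GO (QPlus (k + 1) F))) (c : Fˣ),
      inlO _ (scal _ c) * T * inlO _ h = inlO _ h * fS (comm_QPlus (k + 1) σ) ∨
      inlO _ (scal _ c) * T * inlO _ h
        = inlO _ h * (inlO _ (wG k F) * fS (comm_QPlus (k + 1) σ)) := by
  have hQ := Cfsg.Agent.Lib.Helper49Rank.QPlus_nondegenerate (F := F) (k + 1)
  have hfin : Finite (F ≃+* F) :=
    Finite.of_injective (fun τ : F ≃+* F => (τ : F → F)) DFunLike.coe_injective
  obtain ⟨⟨g, τ⟩, hmem⟩ := T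
  obtain rfl : τ = σ := hσ
  obtain ⟨μ, hμ⟩ := id hmem
  have hr0 : 0 < orderOf τ := orderOf_pos τ
  have h1 : (⟨⟨g, τ⟩, hmem⟩ : ↥(GamO ⇑(QPlus (k + 1) F))) ^ orderOf τ
      ∈ (sAut ⇑(QPlus (k + 1) F)).ker := by
    rw [MonoidHom.mem_ker, map_pow]
    exact hT
  rw [ker_sAut _ hQ hn] at h1
  obtain ⟨z, hz, hzz⟩ := h1
  obtain ⟨c₀, rfl⟩ := exists_scal _ hz
  have hN : NkM τ (g : Matrix (Fin (k + 1) ⊕ Fin (k + 1)) (Fin (k + 1) ⊕ Fin (k + 1)) F)
      (orderOf τ) = (c₀ : F) • 1 := by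
    have h2 := congrArg (fun y : ↥(GamO ⇑(QPlus (k + 1) F)) =>
      ((y : GamL (Fin (k + 1) ⊕ Fin (k + 1)) F).left :
        Matrix (Fin (k + 1) ⊕ Fin (k + 1)) (Fin (k + 1) ⊕ Fin (k + 1)) F)) hzz
    simp only [Subgroup.coe_pow, pow_left] at h2
    rw [← h2]
    exact coe_scal (QPlus (k + 1) F) c₀
  obtain ⟨c, M, M', hc, hMM', hM'M, e3⟩ := hilbert90_PGL τ (orderOf τ) rfl hr0
    (g : Matrix (Fin (k + 1) ⊕ Fin (k + 1)) (Fin (k + 1) ⊕ Fin (k + 1)) F)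
    ((g⁻¹ : GL (Fin (k + 1) ⊕ Fin (k + 1)) F) :
      Matrix (Fin (k + 1) ⊕ Fin (k + 1)) (Fin (k + 1) ⊕ Fin (k + 1)) F)
    (by rw [← Units.val_mul, mul_inv_cancel, Units.val_one]) (Sum.inl 0) c₀ hN
  set μ' : F := c * c * μ with hμ'
  have key1 : ∀ v : Fin (k + 1) ⊕ Fin (k + 1) → F,
      QPlus (k + 1) F (M *ᵥ fun i => τ (v i)) = μ' * τ (QPlus (k + 1) F (M *ᵥ v)) := by
    intro v
    have e4 : M *ᵥ (fun i => τ (v i)) = c • ((g : Matrix (Fin (k + 1) ⊕ Fin (k + 1))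
        (Fin (k + 1) ⊕ Fin (k + 1)) F) *ᵥ fun i => τ ((M *ᵥ v) i)) := by
      rw [map_mulVec', ← Matrix.smul_mulVec, Matrix.mulVec_mulVec, e3]
    rw [e4, QuadraticMap.map_smul]
    have := hμ (M *ᵥ v)
    change QPlus (k + 1) F ((g : Matrix (Fin (k + 1) ⊕ Fin (k + 1))
        (Fin (k + 1) ⊕ Fin (k + 1)) F) *ᵥ fun i => τ ((M *ᵥ v) i)) = _ at this
    rw [this, smul_eq_mul, hμ']
    ring
  have key2 : ∀ (n : ℕ) (v : Fin (k + 1) ⊕ Fin (k + 1) → F),
      QPlus (k + 1) F (M *ᵥ fun i => (τ ^ n) (v i))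
        = Nk τ μ' n * (τ ^ n) (QPlus (k + 1) F (M *ᵥ v)) := by
    intro n
    induction n with
    | zero =>
      intro v
      simp [Nk]
    | succ n ih =>
      intro v
      have e5 : (fun i => (τ ^ (n + 1)) (v i)) = fun i => τ ((fun i => (τ ^ n) (v i)) i) := by
        funext i
        exact pow_succ_apply τ n (v i)
      rw [e5, key1, ih, map_mul, pow_succ_apply]
      simp only [Nk]
      ring
  obtain ⟨x₁, hx₁⟩ := exists_one_QPlus (F := F) (k := k)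
  have hNk : Nk τ μ' (orderOf τ) = 1 := by
    have h5 := key2 (orderOf τ) (M' *ᵥ x₁)
    rw [pow_orderOf_eq_one] at h5
    change QPlus (k + 1) F (M *ᵥ (M' *ᵥ x₁)) = Nk τ μ' (orderOf τ) * QPlus (k + 1) F (M *ᵥ (M' *ᵥ x₁))
      at h5
    rw [Matrix.mulVec_mulVec, hMM', Matrix.one_mulVec, hx₁, mul_one] at h5
    exact h5.symm
  obtain ⟨ν, hν, e5⟩ := hilbert90_scalar τ (orderOf τ) rfl hr0 μ' hNk
  let Q2 : QuadraticForm F (Fin (k + 1) ⊕ Fin (k + 1) → F) :=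
    ν⁻¹ • (QPlus (k + 1) F).comp (Matrix.toLin' M)
  have hQ2 : ∀ v, Q2 v = ν⁻¹ * QPlus (k + 1) F (M *ᵥ v) := fun v => rfl
  have hcomm : Comm ⇑Q2 τ := by
    intro v
    rw [hQ2, hQ2, key1, map_mul, map_inv₀]
    have h6 : τ ν ≠ 0 := (map_ne_zero τ).2 hν
    have h7 : ν⁻¹ * μ' = (τ ν)⁻¹ := by
      field_simp
      exact e5
    rw [← mul_assoc, h7]
  let MG : GL (Fin (k + 1) ⊕ Fin (k + 1)) F := ⟨M, M', hMM', hM'M⟩
  let P : GL (Fin (k + 1) ⊕ Fin (k + 1)) F :=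
    MG⁻¹ * ((dsim (k + 1) (Units.mk0 ν hν) : ↥(GO (QPlus (k + 1) F))) :
      GL (Fin (k + 1) ⊕ Fin (k + 1)) F)
  have hP : ∀ v, Q2 ((P : Matrix (Fin (k + 1) ⊕ Fin (k + 1)) (Fin (k + 1) ⊕ Fin (k + 1)) F) *ᵥ v)
      = QPlus (k + 1) F v := by
    intro v
    rw [hQ2]
    have e6 : M *ᵥ ((P : Matrix (Fin (k + 1) ⊕ Fin (k + 1)) (Fin (k + 1) ⊕ Fin (k + 1)) F) *ᵥ v)
        = dMat (k + 1) ν *ᵥ v := by
      rw [Matrix.mulVec_mulVec]
      change (M * (M' * dMat (k + 1) ν)) *ᵥ v = _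
      rw [← mul_assoc, hMM', one_mul]
    rw [e6, Q_dMat, ← mul_assoc, inv_mul_cancel₀ hν, one_mul]
  obtain ⟨H, hH, halt⟩ := descent Q2 hcomm P hP hr
  let h : ↥(GO (QPlus (k + 1) F)) := ⟨MG * H, Units.mk0 ν hν, fun v => by
    have h8 := hH v
    rw [hQ2] at h8
    rw [Units.val_mul, ← Matrix.mulVec_mulVec, Units.val_mk0, ← h8, ← mul_assoc,
      mul_inv_cancel₀ hν, one_mul]⟩
  have hmap : ((h : GL (Fin (k + 1) ⊕ Fin (k + 1)) F) :
      Matrix (Fin (k + 1) ⊕ Fin (k + 1)) (Fin (k + 1) ⊕ Fin (k + 1)) F).map τ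
      = M.map τ * (H : Matrix (Fin (k + 1) ⊕ Fin (k + 1)) (Fin (k + 1) ⊕ Fin (k + 1)) F).map τ := by
    have := Matrix.map_mul (f := (τ : F →+* F)) (L := M)
      (M := (H : Matrix (Fin (k + 1) ⊕ Fin (k + 1)) (Fin (k + 1) ⊕ Fin (k + 1)) F))
    exact this
  refine ⟨h, Units.mk0 c hc, ?_⟩
  rcases halt with e | e
  · left
    apply Subtype.ext
    apply SemidirectProduct.ext
    · change ((scal (QPlus (k + 1) F) (Units.mk0 c hc) : ↥(GO (QPlus (k + 1) F))) :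
          GL (Fin (k + 1) ⊕ Fin (k + 1)) F) * mapAut (1 : F ≃+* F) g *
          mapAut ((1 : F ≃+* F) * τ) (h : GL (Fin (k + 1) ⊕ Fin (k + 1)) F)
        = (h : GL (Fin (k + 1) ⊕ Fin (k + 1)) F) * mapAut (1 : F ≃+* F) 1
      apply Units.ext
      simp only [map_one, MulAut.one_apply, one_mul, mul_one]
      rw [Units.val_mul, Units.val_mul,
        coe_scal, coe_mapAut, hmap, e, Units.val_mk0, smul_mul_assoc, one_mul, ← mul_assoc, e3]
      rfl
    · change (1 : F ≃+* F) * τ * 1 = 1 * τ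
      rw [mul_one]
  · right
    apply Subtype.ext
    apply SemidirectProduct.ext
    · change ((scal (QPlus (k + 1) F) (Units.mk0 c hc) : ↥(GO (QPlus (k + 1) F))) :
          GL (Fin (k + 1) ⊕ Fin (k + 1)) F) * mapAut (1 : F ≃+* F) g *
          mapAut ((1 : F ≃+* F) * τ) (h : GL (Fin (k + 1) ⊕ Fin (k + 1)) F)
        = (h : GL (Fin (k + 1) ⊕ Fin (k + 1)) F) * mapAut (1 : F ≃+* F)
          (((wG k F : ↥(GO (QPlus (k + 1) F))) : GL (Fin (k + 1) ⊕ Fin (k + 1)) F) *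
            mapAut (1 : F ≃+* F) 1)
      apply Units.ext
      simp only [map_one, MulAut.one_apply, one_mul, mul_one]
      rw [Units.val_mul, Units.val_mul, Units.val_mul,
        coe_scal, coe_mapAut, hmap, e, Units.val_mk0, smul_mul_assoc, one_mul, ← mul_assoc,
        ← mul_assoc, e3, coe_wG]
      rfl
    · change (1 : F ≃+* F) * τ * 1 = 1 * (1 * τ)
      rw [mul_one, one_mul, one_mul]

end main

end Cfsg.Agent.Lib.Helper51LangB
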