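import Mathlib
import Cfsg.Agent.Lib.Helper51LangB
import Cfsg.Agent.Lib.Helper18GamH

/-!
# Coset conjugacy for field and graph-field automorphisms of `PΩ⁺`: the abstract argument
-/

set_option autoImplicit false
set_option linter.unusedSectionVars false

namespace Cfsg.Agent.Lib.Helper51LangC

open Cfsg Matrix Module
open scoped MatrixGroups
open Cfsg.Agent.Lib.Helper49Orth Cfsg.Agent.Lib.Helper49Forms
  Cfsg.Agent.Lib.Helper51OrthAut Cfsg.Agent.Lib.Helper51OrthIdx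
  Cfsg.Agent.Lib.Helper51OrthIdx2 Cfsg.Agent.Lib.Helper51OrthPlus
  Cfsg.Agent.Lib.Helper18GamA Cfsg.Agent.Lib.Helper18GamB Cfsg.Agent.Lib.Helper18GamC
  Cfsg.Agent.Lib.Helper18GamE Cfsg.Agent.Lib.Helper18GamF Cfsg.Agent.Lib.Helper18GamH
  Cfsg.Agent.Lib.Helper51LangA Cfsg.Agent.Lib.Helper51LangB

/-- Pure group theory: two elements of one coset of a normal subgroup `N`, each `N`-conjugate to one
of two representatives lying in different cosets, are `N`-conjugate. -/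
theorem conj_of_same {A : Type*} [Group A] (N : Subgroup A) [N.Normal] (s ω t y d : A)
    (hω : ω ∉ N) (hd : d ∈ N) (ht : t = d * y)
    (h1 : ∃ n ∈ N, t = n * s * n⁻¹ ∨ t = n * (ω * s) * n⁻¹)
    (h2 : ∃ n ∈ N, y = n * s * n⁻¹ ∨ y = n * (ω * s) * n⁻¹) :
    ∃ n ∈ N, t = n * y * n⁻¹ := by
  obtain ⟨n₁, hn₁, e₁⟩ := h1
  obtain ⟨n₂, hn₂, e₂⟩ := h2
  have hπ : ∀ n ∈ N, (QuotientGroup.mk' N) n = 1 := fun n hn => (QuotientGroup.eq_one_iff n).2 hn
  have hty : (QuotientGroup.mk' N) t = (QuotientGroup.mk' N) y := by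
    rw [ht, map_mul, hπ d hd, one_mul]
  have same : ∀ u : A, t = n₁ * u * n₁⁻¹ → y = n₂ * u * n₂⁻¹ → ∃ n ∈ N, t = n * y * n⁻¹ := by
    intro u hu1 hu2
    refine ⟨n₁ * n₂⁻¹, N.mul_mem hn₁ (N.inv_mem hn₂), ?_⟩
    rw [hu1, hu2]
    group
  rcases e₁ with e₁ | e₁ <;> rcases e₂ with e₂ | e₂
  · exact same _ e₁ e₂
  · exfalso
    apply hω
    rw [e₁, e₂] at hty
    simp only [map_mul, map_inv, hπ n₁ hn₁, hπ n₂ hn₂, one_mul, inv_one, mul_one] at hty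
    rw [← QuotientGroup.eq_one_iff]
    exact (mul_eq_right.1 hty.symm)
  · exfalso
    apply hω
    rw [e₁, e₂] at hty
    simp only [map_mul, map_inv, hπ n₁ hn₁, hπ n₂ hn₂, one_mul, inv_one, mul_one] at hty
    rw [← QuotientGroup.eq_one_iff]
    exact (mul_eq_right.1 hty)
  · exact same _ e₁ e₂

variable {F : Type*} [Field F] [Fintype F] {k : ℕ}

theorem fS_comm_wG (σ : F ≃+* F) :
    fS (comm_QPlus (k + 1) σ) * inlO _ (wG k F) = inlO _ (wG k F) * fS (comm_QPlus (k + 1) σ) := by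
  apply Subtype.ext
  apply SemidirectProduct.ext
  · change (1 : GL (Fin (k + 1) ⊕ Fin (k + 1)) F) *
        mapAut σ ((wG k F : ↥(GO (QPlus (k + 1) F))) : GL (Fin (k + 1) ⊕ Fin (k + 1)) F) =
      ((wG k F : ↥(GO (QPlus (k + 1) F))) : GL (Fin (k + 1) ⊕ Fin (k + 1)) F) *
        mapAut (1 : F ≃+* F) (1 : GL (Fin (k + 1) ⊕ Fin (k + 1)) F)
    rw [one_mul, map_one, mul_one]
    apply Units.ext
    rw [coe_mapAut, coe_wG, wM_map]
  · change σ * 1 = 1 * σ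
    rw [mul_one, one_mul]

theorem fA_comm_wG (σ : F ≃+* F) :
    fA (comm_QPlus (k + 1) σ) * cAut _ (wG k F) = cAut _ (wG k F) * fA (comm_QPlus (k + 1) σ) := by
  unfold fA
  rw [← sAut_inlO, ← map_mul, ← map_mul, fS_comm_wG]

theorem main_aut (hn : 5 ≤ Fintype.card (Fin (k + 1) ⊕ Fin (k + 1)))
    (T : ↥(GamO ⇑(QPlus (k + 1) F))) (σ : F ≃+* F) (hσ : prO _ T = σ)
    (hr : orderOf σ = 2 ∨ Odd (orderOf σ)) (hT : (sAut ⇑(QPlus (k + 1) F) T) ^ orderOf σ = 1) :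
    ∃ h : ↥(GO (QPlus (k + 1) F)),
      sAut _ T = cAut _ h * fA (comm_QPlus (k + 1) σ) * (cAut _ h)⁻¹ ∨
      sAut _ T = cAut _ h * (cAut _ (wG k F) * fA (comm_QPlus (k + 1) σ)) * (cAut _ h)⁻¹ := by
  obtain ⟨h, c, e⟩ := main_eq hn T σ hσ hr hT
  refine ⟨h, ?_⟩
  rcases e with e | e
  · left
    have := congrArg (sAut ⇑(QPlus (k + 1) F)) e
    rw [map_mul, map_mul, map_mul, sAut_inlO, sAut_inlO,
      cAut_eq_one_of_scalar _ _ (scal_mem _ c), one_mul] at this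
    rw [eq_mul_inv_iff_mul_eq, this]
    rfl
  · right
    have := congrArg (sAut ⇑(QPlus (k + 1) F)) e
    rw [map_mul, map_mul, map_mul, map_mul, sAut_inlO, sAut_inlO, sAut_inlO,
      cAut_eq_one_of_scalar _ _ (scal_mem _ c), one_mul] at this
    rw [eq_mul_inv_iff_mul_eq, this]
    rfl

/-- Moving the conjugating element into an index-two subgroup not containing `w`. -/
theorem main_aut_D (hn : 5 ≤ Fintype.card (Fin (k + 1) ⊕ Fin (k + 1)))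
    (D : Subgroup ↥(GO (QPlus (k + 1) F))) (hidx : D.index = 2) (hw : wG k F ∉ D)
    (T : ↥(GamO ⇑(QPlus (k + 1) F))) (σ : F ≃+* F) (hσ : prO _ T = σ)
    (hr : orderOf σ = 2 ∨ Odd (orderOf σ)) (hT : (sAut ⇑(QPlus (k + 1) F) T) ^ orderOf σ = 1) :
    ∃ n ∈ D.map (cAut ⇑(QPlus (k + 1) F)),
      sAut _ T = n * fA (comm_QPlus (k + 1) σ) * n⁻¹ ∨
      sAut _ T = n * (cAut _ (wG k F) * fA (comm_QPlus (k + 1) σ)) * n⁻¹ := by
  obtain ⟨h, e⟩ := main_aut hn T σ hσ hr hT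
  by_cases hh : h ∈ D
  · exact ⟨_, Subgroup.mem_map_of_mem _ hh, e⟩
  · have hhw : h * wG k F ∈ D := by
      rw [Subgroup.mul_mem_iff_of_index_two hidx]
      exact ⟨fun h1 => absurd h1 hh, fun h1 => absurd h1 hw⟩
    refine ⟨_, Subgroup.mem_map_of_mem _ hhw, ?_⟩
    have hc := fA_comm_wG (k := k) σ
    have e1 : cAut ⇑(QPlus (k + 1) F) (wG k F) * fA (comm_QPlus (k + 1) σ) *
        (cAut ⇑(QPlus (k + 1) F) (wG k F))⁻¹ = fA (comm_QPlus (k + 1) σ) := by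
      rw [← hc, mul_inv_cancel_right]
    rcases e with e | e
    · left
      rw [e, map_mul, _root_.mul_inv_rev]
      conv_lhs => rw [← e1]
      simp only [mul_assoc]
    · right
      rw [e, map_mul, _root_.mul_inv_rev]
      conv_lhs => rw [← e1]
      simp only [mul_assoc]

theorem final (hn : 5 ≤ Fintype.card (Fin (k + 1) ⊕ Fin (k + 1)))
    (D : Subgroup ↥(GO (QPlus (k + 1) F))) (hZ : ZZ (QPlus (k + 1) F) ≤ D) (hidx : D.index = 2)
    (hw : wG k F ∉ D) (hN : (D.map (cAut ⇑(QPlus (k + 1) F))).Normal)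
    (x δ α : MulAut (POmega F ⇑(QPlus (k + 1) F))) (X₀ : ↥(GamO ⇑(QPlus (k + 1) F)))
    (hα : α * x * α⁻¹ = sAut _ X₀) (hne : prO _ X₀ ≠ 1) {r : ℕ} (hr : r.Prime)
    (hxr : orderOf x = r) (hδ : δ ∈ D.map (cAut ⇑(QPlus (k + 1) F))) :
    orderOf (δ * x) = r ↔ IsConjUnder (D.map (cAut ⇑(QPlus (k + 1) F))) x (δ * x) := by
  have hQ := Cfsg.Agent.Lib.Helper49Rank.QPlus_nondegenerate (F := F) (k + 1)
  constructor
  swap
  · rintro ⟨n, -, e⟩
    rw [e, orderOf_conj, hxr]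
  intro ho
  set σ := prO _ X₀ with hσdef
  have hX₀r : (sAut ⇑(QPlus (k + 1) F) X₀) ^ r = 1 := by
    rw [← hα, ← hxr, ← orderOf_conj α x]
    exact pow_orderOf_eq_one _
  have hσr : orderOf σ = r := by
    have h1 : σ ^ r = 1 := by
      rw [hσdef, ← map_pow]
      exact right_eq_one _ hQ hn (X₀ ^ r) (by rw [map_pow, hX₀r])
    rcases (Nat.dvd_prime hr).1 (orderOf_dvd_of_pow_eq_one h1) with h | h
    · exact absurd (orderOf_eq_one_iff.1 h) hne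
    · exact h
  have hr' : orderOf σ = 2 ∨ Odd (orderOf σ) := by
    rw [hσr]
    exact hr.eq_two_or_odd'
  have hδ' : α * δ * α⁻¹ ∈ D.map (cAut ⇑(QPlus (k + 1) F)) := hN.conj_mem δ hδ α
  obtain ⟨g, hg, hgδ⟩ := hδ'
  have hT1 : sAut ⇑(QPlus (k + 1) F) (inlO _ g * X₀) = α * (δ * x) * α⁻¹ := by
    rw [map_mul, sAut_inlO, hgδ, ← hα]
    group
  have hT2 : (sAut ⇑(QPlus (k + 1) F) (inlO _ g * X₀)) ^ orderOf σ = 1 := by
    rw [hT1, hσr, ← ho, ← orderOf_conj α (δ * x)]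
    exact pow_orderOf_eq_one _
  have hT3 : prO ⇑(QPlus (k + 1) F) (inlO _ g * X₀) = σ := by
    rw [map_mul]
    change 1 * _ = _
    rw [one_mul]
  have hωN : cAut ⇑(QPlus (k + 1) F) (wG k F) ∉ D.map (cAut ⇑(QPlus (k + 1) F)) := by
    rintro ⟨d, hd, e⟩
    apply hw
    have h1 : d⁻¹ * wG k F ∈ (cAut ⇑(QPlus (k + 1) F)).ker := by
      rw [MonoidHom.mem_ker, map_mul, map_inv, e, inv_mul_cancel]
    rw [ker_cAut_all _ hQ hn] at h1
    have := D.mul_mem hd (hZ h1)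
    rwa [mul_inv_cancel_left] at this
  obtain ⟨n, hnN, e⟩ := conj_of_same (D.map (cAut ⇑(QPlus (k + 1) F)))
    (fA (comm_QPlus (k + 1) σ)) (cAut _ (wG k F)) (sAut _ (inlO _ g * X₀)) (sAut _ X₀)
    (cAut _ g) hωN (Subgroup.mem_map_of_mem _ hg) (by rw [map_mul, sAut_inlO])
    (main_aut_D hn D hidx hw _ σ hT3 hr' hT2)
    (main_aut_D hn D hidx hw X₀ σ rfl hr' (by rw [hσr]; exact hX₀r))
  refine ⟨α⁻¹ * n * α, ?_, ?_⟩
  · have := hN.conj_mem n hnN α⁻¹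
    rwa [inv_inv] at this
  · rw [hT1, ← hα] at e
    have e2 : δ * x = α⁻¹ * (α * (δ * x) * α⁻¹) * α := by group
    rw [e2, e]
    group

end Cfsg.Agent.Lib.Helper51LangC
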