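import Cfsg.Agent.S2695
import Cfsg.Agent.S0818
import Cfsg.Agent.Lib.Helper51LangC

set_option autoImplicit false

/-! PROJECT 142 (OUT-PLUS), piece M1.  Sketches: notes/helper42/OP/README.md -/

namespace Cfsg.Agent.Lib.H42OPM1


/-- PIECE M1 (45 min): copy the proof of `Cfsg/Agent/S0818.lean` (minus type), replacing: `S2696` by `Cfsg.Agent.S2695.result hm`,
`coe_QMinus` by `Helper49Forms.coe_QPlus m`, `QMinus_nondegenerate` by `Helper49Rank.QPlus_nondegenerate m`, `good_QMinus` by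
`Helper51OrthInst.good_QPlus h2 (by omega)`, `negIn_QMinus` by `Helper51OrthInst2.negIn_QPlus hodd (by omega)`
(`NegIn ↔ ¬ (Odd m ∧ card F % 4 = 3)`), `prO_surjective_minus` by: `prO (fS (Helper51LangB.comm_QPlus m σ)) = σ` is `rfl`
(`Helper18GamF.fS`); `∃ x, Q x = 1`: `x = Pi.single (inl 0) 1 + Pi.single (inr 0) 1` (cf. `Helper51LangB.exists_one_QPlus`). -/
theorem card_aut_plus {F : Type*} [Field F] [Fintype F] (p f : ℕ) [Fact p.Prime] (hf : 1 ≤ f)
    (hF : Fintype.card F = p ^ f) (m : ℕ) (hm : 5 ≤ m) :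
    Nat.card (MulAut (Cfsg.POmega F (Cfsg.quadFormPlus m F))) =
      (if p = 2 then 2 else (if Even (m * (p ^ f - 1) / 2) then 8 else 4)) * f *
        Nat.card (Cfsg.POmega F (Cfsg.quadFormPlus m F)) := by
  obtain ⟨k, rfl⟩ : ∃ k, m = k + 1 := ⟨m - 1, by omega⟩
  have htop := Cfsg.Agent.S2695.result (F := F) hm
  have hpr : Function.Surjective (Cfsg.Agent.Lib.Helper18GamA.prO
      ⇑(Cfsg.Agent.Lib.Helper49Forms.QPlus (k + 1) F)) := fun σ =>
    ⟨Cfsg.Agent.Lib.Helper18GamF.fS (Cfsg.Agent.Lib.Helper51LangB.comm_QPlus (k + 1) σ), rfl⟩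
  rw [← Cfsg.Agent.Lib.Helper49Forms.coe_QPlus (k + 1)] at htop ⊢
  have hQ := Cfsg.Agent.Lib.Helper49Rank.QPlus_nondegenerate (F := F) (k + 1)
  have hcard : Fintype.card (Fin (k + 1) ⊕ Fin (k + 1)) = 2 * (k + 1) := by
    simp only [Fintype.card_sum, Fintype.card_fin]
    omega
  have hx : ∃ x, Cfsg.Agent.Lib.Helper49Forms.QPlus (k + 1) F x = 1 :=
    Cfsg.Agent.Lib.Helper51LangB.exists_one_QPlus
  rw [Cfsg.Agent.Lib.Helper18GamB.card_aut _ hQ (by omega)
    (Cfsg.Agent.Lib.Helper18GamB.sAut_surjective _ htop) hpr,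
    (Cfsg.Agent.Lib.Helper50Out.ringAut_cyclic_card hF).2]
  congr 2
  by_cases hp : p = 2
  · rw [if_pos hp]
    subst hp
    have : CharP F 2 := charP_of_card_eq_prime_pow hF
    exact Cfsg.Agent.Lib.Helper18GamD.index_K0_two _ hQ hx (by omega)
  · rw [if_neg hp]
    have hpodd : Odd p := (Fact.out : p.Prime).odd_of_ne_two hp
    have hoddF : Odd (Fintype.card F) := by rw [hF]; exact hpodd.pow
    have h2 : (2 : F) ≠ 0 := Cfsg.Agent.Lib.Helper49Forms.two_ne_zero_of_odd rfl hoddF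
    have G := Cfsg.Agent.Lib.Helper51OrthInst.good_QPlus h2 (by omega : 2 ≤ k + 1)
    have hneg := Cfsg.Agent.Lib.Helper51OrthInst2.negIn_QPlus hoddF (by omega : 1 ≤ k + 1)
    rw [hF] at hneg hoddF
    obtain ⟨j, hj⟩ := hoddF
    have e1 : (k + 1) * (p ^ f - 1) / 2 = (k + 1) * j := by
      rw [hj, Nat.add_sub_cancel, mul_left_comm, Nat.mul_div_cancel_left _ (by norm_num)]
    rw [e1]
    by_cases hN : Cfsg.Agent.Lib.Helper51OrthIdx3.NegIn (Cfsg.Agent.Lib.Helper49Forms.QPlus (k + 1) F)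
    · rw [Cfsg.Agent.Lib.Helper51OrthDiag.index_K0_of_neg _ G hcard hN]
      have h3 := hneg.1 hN
      rw [if_pos]
      rw [Nat.even_mul]
      by_contra hcon
      rw [not_or, Nat.not_even_iff_odd, Nat.not_even_iff_odd] at hcon
      apply h3
      refine ⟨hcon.1, ?_⟩
      have h4 := Nat.odd_iff.1 hcon.2
      omega
    · rw [Cfsg.Agent.Lib.Helper51OrthDiag.index_K0_of_not _ G hcard hN]
      rw [hneg, not_not] at hN
      rw [if_neg]
      rw [Nat.even_mul, not_or, Nat.not_even_iff_odd, Nat.not_even_iff_odd]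
      refine ⟨hN.1, ?_⟩
      rw [Nat.odd_iff]
      omega

end Cfsg.Agent.Lib.H42OPM1
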