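import Cfsg.Agent.Lib.Helper51OutD
import Cfsg.Agent.Lib.Helper18GamD

set_option autoImplicit false

/-! PROJECT 142 (OUT-PLUS), piece MA.  Sketches: notes/helper42/OP/README.md -/

namespace Cfsg.Agent.Lib.H42OPMA

open Cfsg Matrix Module
open scoped MatrixGroups
open Cfsg.Agent.Lib.Helper49Orth Cfsg.Agent.Lib.Helper49Hyp Cfsg.Agent.Lib.Helper49Idx Cfsg.Agent.Lib.Helper49Forms
  Cfsg.Agent.Lib.Helper51OrthAut Cfsg.Agent.Lib.Helper51OrthKer Cfsg.Agent.Lib.Helper51OrthIdx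
  Cfsg.Agent.Lib.Helper51OrthIdx2 Cfsg.Agent.Lib.Helper51OrthIdx3 Cfsg.Agent.Lib.Helper51OrthIdx4
  Cfsg.Agent.Lib.Helper18GamA Cfsg.Agent.Lib.Helper18GamB Cfsg.Agent.Lib.Helper18GamC Cfsg.Agent.Lib.Helper18GamD
  Cfsg.Agent.Lib.Helper51OutA Cfsg.Agent.Lib.Helper51OutB Cfsg.Agent.Lib.Helper51OutC Cfsg.Agent.Lib.Helper51OutD

variable {F : Type*} [Field F] [Fintype F]
variable {ι : Type} [Fintype ι] [DecidableEq ι] (Q : QuadraticForm F (ι → F))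

/-- PIECE MA (1 h): characteristic 2, split case.  Model: the proofs of `Helper51OutD.out_D8` and of `Cfsg/Agent/S2605.lean`.
`κ := (oc Q).comp (inlO ⇑Q)`, `κ g = 1 ↔ g ∈ Om' Q ⊔ ZZ Q` (`oc_inlO_eq_one_iff Q hQ hn`), `(Om' Q ⊔ ZZ Q).index = 2`
(`index_K0_two Q hQ hx hn`), so `Nat.card κ.range = 2`; `Nat.card Out = 2 * f` (`card_Out Q hQ hn hsurj hpr`).
`x := oc Q X`: `x * κ h * x⁻¹ = κ (cjGO Q hx X h)` (`oc_conj`), and `κ (cjGO …) = κ h` because both are trivial or both non trivial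
(`conj_eq_one_iff`, `Subgroup.mul_mem_iff_of_index_two`).  `orderOf x = f` (`x ^ f = 1`; `exists_prOut Q hQ hn hsurj` gives
`ρ` with `ρ (oc Q Y) = prO Y`, `orderOf_map_dvd`).  `mulEquiv_prod_zpowers κ.range x …`; a group of order 2 is
`Multiplicative (ZMod 2)`; `MulEquiv.prodMultiplicative`. -/
theorem out_two_split [CharP F 2] (hQ : (QuadraticMap.polarBilin Q).Nondegenerate) (hx : ∃ x, Q x = 1)
    (hn : 5 ≤ Fintype.card ι) (hsurj : Function.Surjective (sAut ⇑Q)) (hpr : Function.Surjective (prO ⇑Q))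
    {f : ℕ} (hf : 1 ≤ f) (hcardF : Nat.card (F ≃+* F) = f) (X : ↥(GamO ⇑Q)) (hX : orderOf (prO ⇑Q X) = f)
    (hXf : X ^ f = 1) :
    Nonempty (Cfsg.Out (POmega F ⇑Q) ≃* Multiplicative (ZMod 2 × ZMod f)) := by
  have hidx := index_K0_two Q hQ hx hn
  have hcO := card_Out Q hQ hn hsurj hpr
  rw [hidx, hcardF] at hcO
  obtain ⟨ρ, hρ⟩ := exists_prOut Q hQ hn hsurj
  have hfin : Finite (Cfsg.Out (POmega F ⇑Q)) := by
    apply Nat.finite_of_card_ne_zero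
    rw [hcO]; omega
  set κ : ↥(GO Q) →* Cfsg.Out (POmega F ⇑Q) := (oc Q).comp (inlO ⇑Q) with hκ
  have hκ1 : ∀ g, κ g = 1 ↔ g ∈ Om' Q ⊔ ZZ Q := fun g => oc_inlO_eq_one_iff Q hQ hn g
  have hker : κ.ker = Om' Q ⊔ ZZ Q := by
    ext g
    rw [MonoidHom.mem_ker, hκ1]
  have hcardK : Nat.card ↥κ.range = 2 := by
    rw [← Subgroup.index_ker, hker, hidx]
  have hconj : ∀ h, oc Q X * κ h * (oc Q X)⁻¹ = κ (cjGO Q hx X h) :=
    fun h => oc_conj Q hx X h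
  have hcomm : ∀ h, oc Q X * κ h * (oc Q X)⁻¹ = κ h := by
    intro h
    rw [hconj, ← mul_inv_eq_one, ← map_inv, ← map_mul, hκ1,
      Subgroup.mul_mem_iff_of_index_two hidx, Subgroup.inv_mem_iff, ← hκ1, ← hκ1, ← hconj,
      conj_eq_one_iff]
  have hρy : orderOf (ρ (oc Q X)) = f := by rw [hρ, hX]
  have hy : orderOf (oc Q X) = f := by
    apply Nat.dvd_antisymm
    · apply orderOf_dvd_of_pow_eq_one
      rw [← map_pow, hXf, map_one]
    · rw [← hρy]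
      exact orderOf_map_dvd ρ _
  obtain ⟨e2⟩ := mulEquiv_prod_zpowers κ.range (oc Q X) (f := f)
    (by
      rintro _ ⟨h, rfl⟩
      exact (mul_inv_eq_iff_eq_mul.1 (hcomm h)).symm) hy
    (by
      rintro i ⟨h, hh⟩
      have h1 := congrArg ρ hh
      have h2 : ρ (κ h) = 1 := by
        change ρ (oc Q (inlO ⇑Q h)) = 1
        rw [hρ]
        rfl
      rw [h2, map_zpow] at h1
      have h3 := (orderOf_dvd_iff_zpow_eq_one.2 h1.symm)
      rw [hρy, ← hy] at h3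
      exact orderOf_dvd_iff_zpow_eq_one.1 h3)
    (by rw [hcO, hcardK])
  have : Fact (Nat.Prime 2) := ⟨Nat.prime_two⟩
  have e3 : ↥κ.range ≃* Multiplicative (ZMod 2) :=
    mulEquivOfPrimeCardEq (p := 2) hcardK (by rw [Nat.card_eq_fintype_card]; rfl)
  exact ⟨(e2.trans (e3.prodCongr (MulEquiv.refl _))).trans (MulEquiv.prodMultiplicative _ _).symm⟩

end Cfsg.Agent.Lib.H42OPMA
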