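import Cfsg.Agent.Lib.Helper51OutD
import Cfsg.Agent.Lib.Helper18GamD

set_option autoImplicit false

/-! PROJECT 142 (OUT-PLUS), piece MB.  Sketches: notes/helper42/OP/README.md -/

namespace Cfsg.Agent.Lib.H42OPMB

open Cfsg Matrix Module
open scoped MatrixGroups
open Cfsg.Agent.Lib.Helper49Orth Cfsg.Agent.Lib.Helper49Hyp Cfsg.Agent.Lib.Helper49Idx Cfsg.Agent.Lib.Helper49Forms
  Cfsg.Agent.Lib.Helper51OrthAut Cfsg.Agent.Lib.Helper51OrthKer Cfsg.Agent.Lib.Helper51OrthIdx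
  Cfsg.Agent.Lib.Helper51OrthIdx2 Cfsg.Agent.Lib.Helper51OrthIdx3 Cfsg.Agent.Lib.Helper51OrthIdx4
  Cfsg.Agent.Lib.Helper18GamA Cfsg.Agent.Lib.Helper18GamB Cfsg.Agent.Lib.Helper18GamC Cfsg.Agent.Lib.Helper18GamD
  Cfsg.Agent.Lib.Helper51OutA Cfsg.Agent.Lib.Helper51OutB Cfsg.Agent.Lib.Helper51OutC Cfsg.Agent.Lib.Helper51OutD

variable {F : Type*} [Field F] [Fintype F]
variable {ι : Type} [Fintype ι] [DecidableEq ι] (Q : QuadraticForm F (ι → F))

theorem nonempty_units_int : Nonempty (ℤˣ ≃* Multiplicative (ZMod 2)) := by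
  have : Fact (Nat.Prime 2) := ⟨Nat.prime_two⟩
  refine ⟨mulEquivOfPrimeCardEq (p := 2) ?_ ?_⟩
  · rw [Nat.card_eq_fintype_card]; rfl
  · rw [Nat.card_eq_fintype_card]; rfl

/-- PIECE MB (1 h): odd characteristic, `-1 ∉ Ω`, split case.  Model: the proof of `Helper51OutD.out_E4`.
`K0_eq_ker Q G hm hneg : Om' Q ⊔ ZZ Q = (psi Q G hm).ker`, `psi_surjective`, so `κ.range ≃* ℤˣ × ℤˣ` and `|Out| = 4 f`.
`x := oc Q X` commutes with every `κ h` (`oc_conj` + `psi_cjGO`, as in `out_E4`), `orderOf x = f`, `zpowers x ∩ κ.range = 1`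
(via `exists_prOut`), `mulEquiv_prod_zpowers`.  Finally `ℤˣ ≃* Multiplicative (ZMod 2)` and `MulEquiv.prodMultiplicative`. -/
theorem out_E4_split (G : Good Q) {m : ℕ} (hm : Fintype.card ι = 2 * m) (hn : 5 ≤ Fintype.card ι) (hneg : ¬ NegIn Q)
    (hsurj : Function.Surjective (sAut ⇑Q)) (hpr : Function.Surjective (prO ⇑Q)) {f : ℕ}
    (hf : 1 ≤ f) (hcardF : Nat.card (F ≃+* F) = f) (X : ↥(GamO ⇑Q))
    (hX : orderOf (prO ⇑Q X) = f) (hXf : X ^ f = 1) :
    Nonempty (Cfsg.Out (POmega F ⇑Q) ≃* Multiplicative (ZMod 2 × ZMod 2 × ZMod f)) := by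
  have hQ := G.nondeg
  have hK0 := K0_eq_ker Q G hm hneg
  have hidx : (Om' Q ⊔ ZZ Q).index = 4 := by
    rw [hK0, Subgroup.index_ker, MonoidHom.range_eq_top.2 (psi_surjective Q G hm), card_top_klein]
  have hcO := card_Out Q hQ hn hsurj hpr
  rw [hidx, hcardF] at hcO
  obtain ⟨ρ, hρ⟩ := exists_prOut Q hQ hn hsurj
  have hfin : Finite (Cfsg.Out (POmega F ⇑Q)) := by
    apply Nat.finite_of_card_ne_zero
    rw [hcO]; omega
  set κ : ↥(GO Q) →* Cfsg.Out (POmega F ⇑Q) := (oc Q).comp (inlO ⇑Q) with hκ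
  have hone : ∀ g, κ g = 1 ↔ psi Q G hm g = 1 := by
    intro g
    change oc Q (inlO ⇑Q g) = 1 ↔ _
    rw [oc_inlO_eq_one_iff Q hQ hn, hK0, MonoidHom.mem_ker]
  have heq : ∀ g₁ g₂, psi Q G hm g₁ = psi Q G hm g₂ → κ g₁ = κ g₂ := by
    intro g₁ g₂ h
    rw [← mul_inv_eq_one, ← map_inv, ← map_mul, hone, map_mul, map_inv, h, mul_inv_cancel]
  have hker : κ.ker = (psi Q G hm).ker := by
    ext g
    rw [MonoidHom.mem_ker, MonoidHom.mem_ker, hone]
  have e1 : ↥κ.range ≃* ℤˣ × ℤˣ :=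
    ((QuotientGroup.quotientKerEquivRange κ).symm.trans
      (QuotientGroup.quotientMulEquivOfEq hker)).trans
      (QuotientGroup.quotientKerEquivOfSurjective (psi Q G hm) (psi_surjective Q G hm))
  have hcardK : Nat.card ↥κ.range = 4 := by
    rw [← Subgroup.index_ker, hker, ← hK0, hidx]
  have hcomm : ∀ h, oc Q X * κ h * (oc Q X)⁻¹ = κ h := by
    intro h
    have h1 := oc_conj Q G.exists_one X h
    change oc Q X * κ h * (oc Q X)⁻¹ = κ (cjGO Q G.exists_one X h) at h1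
    rw [h1]
    exact heq _ _ (psi_cjGO Q G hm X h)
  have hρy : orderOf (ρ (oc Q X)) = f := by rw [hρ, hX]
  have hy : orderOf (oc Q X) = f := by
    apply Nat.dvd_antisymm
    · apply orderOf_dvd_of_pow_eq_one
      rw [← map_pow, hXf, map_one]
    · rw [← hρy]
      exact orderOf_map_dvd ρ _
  obtain ⟨e2⟩ := mulEquiv_prod_zpowers κ.range (oc Q X) (f := f)
    (by
      rintro _ ⟨h, rfl⟩
      exact (mul_inv_eq_iff_eq_mul.1 (hcomm h)).symm) hy
    (by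
      rintro i ⟨h, hh⟩
      have h1 := congrArg ρ hh
      have h2 : ρ (κ h) = 1 := by
        change ρ (oc Q (inlO ⇑Q h)) = 1
        rw [hρ]
        rfl
      rw [h2, map_zpow] at h1
      have h3 := (orderOf_dvd_iff_zpow_eq_one.2 h1.symm)
      rw [hρy, ← hy] at h3
      exact orderOf_dvd_iff_zpow_eq_one.1 h3)
    (by rw [hcO, hcardK])
  obtain ⟨e3⟩ := nonempty_units_int
  exact ⟨((e2.trans (e1.prodCongr (MulEquiv.refl _))).trans
    (((e3.prodCongr e3).prodCongr (MulEquiv.refl _)).trans MulEquiv.prodAssoc)).trans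
    (((MulEquiv.refl _).prodCongr (MulEquiv.prodMultiplicative _ _).symm).trans
      (MulEquiv.prodMultiplicative _ _).symm)⟩

end Cfsg.Agent.Lib.H42OPMB
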