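import Cfsg.Agent.Lib.Helper51OutD
import Cfsg.Agent.Lib.Helper18GamD

set_option autoImplicit false

/-! PROJECT 142 (OUT-PLUS), piece MC.  Sketches: notes/helper42/OP/README.md -/

namespace Cfsg.Agent.Lib.H42OPMC

open Cfsg Matrix Module
open scoped MatrixGroups
open Cfsg.Agent.Lib.Helper49Orth Cfsg.Agent.Lib.Helper49Hyp Cfsg.Agent.Lib.Helper49Idx Cfsg.Agent.Lib.Helper49Forms
  Cfsg.Agent.Lib.Helper51OrthAut Cfsg.Agent.Lib.Helper51OrthKer Cfsg.Agent.Lib.Helper51OrthIdx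
  Cfsg.Agent.Lib.Helper51OrthIdx2 Cfsg.Agent.Lib.Helper51OrthIdx3 Cfsg.Agent.Lib.Helper51OrthIdx4
  Cfsg.Agent.Lib.Helper18GamA Cfsg.Agent.Lib.Helper18GamB Cfsg.Agent.Lib.Helper18GamC Cfsg.Agent.Lib.Helper18GamD
  Cfsg.Agent.Lib.Helper51OutA Cfsg.Agent.Lib.Helper51OutB Cfsg.Agent.Lib.Helper51OutC Cfsg.Agent.Lib.Helper51OutD

/-- the values of a pair of signs -/
theorem MC_sign_cases (p : ℤˣ × ℤˣ) : p = (1, 1) ∨ p = (1, -1) ∨ p = (-1, 1) ∨ p = (-1, -1) := by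
  obtain ⟨a, b⟩ := p
  rcases Int.units_eq_one_or a with rfl | rfl <;> rcases Int.units_eq_one_or b with rfl | rfl <;> simp

/-- the abstract group theory of piece MC -/
theorem MC_abs {O T : Type*} [Group O] [Group T] (κ : T →* O) (psi : T →* ℤˣ × ℤˣ) (x : O) (w g : T)
    (hw : psi w = (1, -1)) (hg : psi g = (-1, 1))
    (hZc : ∀ t, psi t = 1 → ∀ h, κ h * κ t = κ t * κ h)
    (hZ1 : ∀ t, psi t = 1 → κ t * κ t = 1)
    (hZeq : ∀ s t, psi s = 1 → psi t = 1 → κ s ≠ 1 → κ t ≠ 1 → κ s = κ t)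
    (hZ2 : ∀ t, psi t = 1 → x * κ t = κ t * x)
    (hxc : ∀ h, ∃ t, psi t = 1 ∧ x * κ h * x⁻¹ = κ h * κ t)
    (hxa : x * κ w = κ w * x)
    (hnc : ∃ h h', κ h * κ h' ≠ κ h' * κ h) :
    ∃ y, (y = x ∨ y = κ w * x) ∧ ∀ h, κ h * y = y * κ h := by
  -- decomposition
  have hdec : ∀ h : T, ∃ t, psi t = 1 ∧ (h = t ∨ h = t * w ∨ h = t * g ∨ h = t * (g * w)) := by
    intro h
    rcases MC_sign_cases (psi h) with e | e | e | e
    · exact ⟨h, e, Or.inl rfl⟩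
    · refine ⟨h * w⁻¹, ?_, Or.inr (Or.inl (by group))⟩
      rw [map_mul, map_inv, e, hw]; decide
    · refine ⟨h * g⁻¹, ?_, Or.inr (Or.inr (Or.inl (by group)))⟩
      rw [map_mul, map_inv, e, hg]; decide
    · refine ⟨h * (g * w)⁻¹, ?_, Or.inr (Or.inr (Or.inr (by group)))⟩
      rw [map_mul, map_inv, map_mul, e, hg, hw]; decide
  -- an element commuting with `κ w`, `κ g` and the central elements commutes with everything
  have hcrit : ∀ y : O, (∀ t, psi t = 1 → κ t * y = y * κ t) → κ w * y = y * κ w →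
      κ g * y = y * κ g → ∀ h, κ h * y = y * κ h := by
    intro y h1 h2 h3 h
    obtain ⟨t, ht, e | e | e | e⟩ := hdec h
    · rw [e]; exact h1 t ht
    · rw [e, map_mul, mul_assoc, h2, ← mul_assoc, h1 t ht, mul_assoc]
    · rw [e, map_mul, mul_assoc, h3, ← mul_assoc, h1 t ht, mul_assoc]
    · rw [e, map_mul, map_mul, mul_assoc, mul_assoc, h2, ← mul_assoc (κ g), h3, ← mul_assoc,
        ← mul_assoc, h1 t ht]
      simp only [mul_assoc]
  -- `κ w` and `κ g` do not commute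
  have hab : κ w * κ g ≠ κ g * κ w := by
    intro hcom
    obtain ⟨h, h', hne⟩ := hnc
    apply hne
    have hw' : ∀ h, κ h * κ w = κ w * κ h :=
      hcrit (κ w) (fun t ht => (hZc t ht w).symm) rfl hcom.symm
    have hg' : ∀ h, κ h * κ g = κ g * κ h :=
      hcrit (κ g) (fun t ht => (hZc t ht g).symm) hcom rfl
    exact hcrit (κ h') (fun t ht => (hZc t ht h').symm) (hw' h').symm (hg' h').symm h
  obtain ⟨t₀, ht₀, hx₀⟩ := hxc g
  by_cases h0 : κ t₀ = 1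
  · refine ⟨x, Or.inl rfl, hcrit x (fun t ht => (hZ2 t ht).symm) hxa.symm ?_⟩
    rw [h0, mul_one] at hx₀
    exact (mul_inv_eq_iff_eq_mul.1 hx₀).symm
  · refine ⟨κ w * x, Or.inr rfl, hcrit _ ?_ ?_ ?_⟩
    · intro t ht
      rw [← mul_assoc, ← hZc t ht w, mul_assoc, ← hZ2 t ht, mul_assoc]
    · rw [mul_assoc, hxa]
    · -- `t' = g⁻¹ * (w * g * w⁻¹)`
      have ht' : psi (g⁻¹ * (w * g * w⁻¹)) = 1 := by
        rw [map_mul, map_mul, map_mul, map_inv, map_inv, hg, hw]; decide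
      have h1 : κ w * κ g * (κ w)⁻¹ = κ g * κ (g⁻¹ * (w * g * w⁻¹)) := by
        rw [← map_inv, ← map_mul, ← map_mul, ← map_mul, mul_inv_cancel_left]
      have hne : κ (g⁻¹ * (w * g * w⁻¹)) ≠ 1 := by
        intro h2
        rw [h2, mul_one] at h1
        exact hab (mul_inv_eq_iff_eq_mul.1 h1)
      have heq := hZeq _ _ ht' ht₀ hne h0
      rw [heq] at h1
      have h3 : x * κ g = κ g * κ t₀ * x := mul_inv_eq_iff_eq_mul.1 hx₀
      have h4 : κ w * κ g = κ g * κ t₀ * κ w := mul_inv_eq_iff_eq_mul.1 h1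
      calc κ g * (κ w * x) = κ g * (κ t₀ * κ t₀) * (κ w * x) := by rw [hZ1 t₀ ht₀, mul_one]
        _ = (κ g * κ t₀ * κ w) * κ t₀ * x := by
            rw [mul_assoc (κ g * κ t₀) (κ w), hZc t₀ ht₀ w]; simp only [mul_assoc]
        _ = κ w * (κ g * κ t₀ * x) := by rw [← h4]; simp only [mul_assoc]
        _ = κ w * x * κ g := by rw [← h3, mul_assoc]

/-- order bookkeeping for the element found in `MC_abs` -/
theorem MC_abs2 {O R : Type*} [Group O] [Group R] (ρ : O →* R) (x a y : O) {f : ℕ} (hfe : Even f)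
    (hxf : x ^ f = 1) (haa : a * a = 1) (hxa : x * a = a * x) (hρa : ρ a = 1)
    (hy : y = x ∨ y = a * x) : y ^ f = 1 ∧ ρ y = ρ x := by
  rcases hy with rfl | rfl
  · exact ⟨hxf, rfl⟩
  · refine ⟨?_, by rw [map_mul, hρa, one_mul]⟩
    have hc : Commute a x := hxa.symm
    have ha2 : a ^ 2 = 1 := by rw [pow_two, haa]
    obtain ⟨k, hk⟩ := hfe
    have hk' : f = 2 * k := by omega
    rw [hc.mul_pow, hxf, mul_one, hk', pow_mul, ha2, one_pow]

variable {F : Type*} [Field F] [Fintype F]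
variable {ι : Type} [Fintype ι] [DecidableEq ι] (Q : QuadraticForm F (ι → F))

theorem out_D8_split (G : Good Q) {m : ℕ} (hm : Fintype.card ι = 2 * m) (hn : 5 ≤ Fintype.card ι) (hneg : NegIn Q)
    (hsurj : Function.Surjective (sAut ⇑Q)) (hpr : Function.Surjective (prO ⇑Q)) {f : ℕ}
    (hf : 1 ≤ f) (hcardF : Nat.card (F ≃+* F) = f) (X : ↥(GamO ⇑Q))
    (hX : orderOf (prO ⇑Q X) = f) (hXf : X ^ f = 1) (w : ↥(GO Q)) (hw : psi Q G hm w = (1, -1)) (hww : w * w = 1)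
    (hXw : X * inlO ⇑Q w = inlO ⇑Q w * X) :
    Nonempty (Cfsg.Out (POmega F ⇑Q) ≃* DihedralGroup 4 × Multiplicative (ZMod f)) := by
  rcases Nat.even_or_odd f with hfe | hfo
  swap
  · exact out_D8 Q G hm hn hneg hsurj hpr hfo hcardF X hX 1 (by simpa using hXf) (one_mul 1)
  have hQ := G.nondeg
  have := K0_normal Q G
  have hidx := card_quot_D8 Q G hm hneg
  have hcO := card_Out Q hQ hn hsurj hpr
  rw [hidx, hcardF] at hcO
  obtain ⟨ρ, hρ⟩ := exists_prOut Q hQ hn hsurj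
  have hfin : Finite (Cfsg.Out (POmega F ⇑Q)) := by
    apply Nat.finite_of_card_ne_zero
    rw [hcO]; omega
  set κ : ↥(GO Q) →* Cfsg.Out (POmega F ⇑Q) := (oc Q).comp (inlO ⇑Q) with hκ
  have hκ1 : ∀ g, κ g = 1 ↔ g ∈ Om' Q ⊔ ZZ Q := fun g => oc_inlO_eq_one_iff Q hQ hn g
  have hker : κ.ker = Om' Q ⊔ ZZ Q := by
    ext g
    rw [MonoidHom.mem_ker, hκ1]
  obtain ⟨e0⟩ := quot_D8 Q G hm hneg
  have e1 : ↥κ.range ≃* DihedralGroup 4 :=
    ((QuotientGroup.quotientKerEquivRange κ).symm.trans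
      (QuotientGroup.quotientMulEquivOfEq hker)).trans e0
  have hcardK : Nat.card ↥κ.range = 8 := by
    rw [Nat.card_congr e1.toEquiv, DihedralGroup.nat_card]
  have hconj : ∀ h, oc Q X * κ h * (oc Q X)⁻¹ = κ (cjGO Q G.exists_one X h) :=
    fun h => oc_conj Q G.exists_one X h
  have hZ1 : ∀ t, psi Q G hm t = 1 → κ t * κ t = 1 := by
    intro t ht
    rw [← map_mul, hκ1, mul_mem_K0_iff Q G hm hneg ht ht]
  have hZ2 : ∀ t, psi Q G hm t = 1 → oc Q X * κ t * (oc Q X)⁻¹ = κ t := by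
    intro t ht
    rw [hconj, ← mul_inv_eq_one, ← map_inv, ← map_mul, hκ1,
      mul_mem_K0_iff Q G hm hneg (by rw [psi_cjGO, ht]) (by rw [map_inv, ht, inv_one]),
      Subgroup.inv_mem_iff, ← hκ1, ← hκ1, ← hconj, conj_eq_one_iff]
  have hZc : ∀ t, psi Q G hm t = 1 → ∀ h, κ h * κ t = κ t * κ h := by
    intro t ht h
    have h1 : κ (h * t * h⁻¹) = κ t := by
      rw [← mul_inv_eq_one, ← map_inv, ← map_mul, hκ1,
        mul_mem_K0_iff Q G hm hneg (by rw [map_mul, map_mul, map_inv, ht, mul_one, mul_inv_cancel])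
          (by rw [map_inv, ht, inv_one]),
        Subgroup.inv_mem_iff]
      exact (Subgroup.Normal.mem_comm_iff inferInstance).trans (by rw [inv_mul_cancel_left])
    rw [map_mul, map_mul, map_inv] at h1
    exact mul_inv_eq_iff_eq_mul.1 h1
  have hZeq : ∀ s t, psi Q G hm s = 1 → psi Q G hm t = 1 → κ s ≠ 1 → κ t ≠ 1 → κ s = κ t := by
    intro s t hs ht hs1 ht1
    have h1 : κ s * κ t = 1 := by
      rw [← map_mul, hκ1, mul_mem_K0_iff Q G hm hneg hs ht, ← hκ1, ← hκ1]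
      exact ⟨fun h => absurd h hs1, fun h => absurd h ht1⟩
    have h2 := hZ1 t ht
    exact mul_right_cancel (h1.trans h2.symm)
  obtain ⟨g, hg⟩ := psi_surjective Q G hm (-1, 1)
  have hnc : ∃ h h', κ h * κ h' ≠ κ h' * κ h := by
    by_contra hcon
    push Not at hcon
    obtain ⟨⟨_, h, rfl⟩, hh⟩ := e1.surjective (DihedralGroup.r 1)
    obtain ⟨⟨_, h', rfl⟩, hh'⟩ := e1.surjective (DihedralGroup.sr 0)
    have h1 : (⟨κ h, h, rfl⟩ : ↥κ.range) * ⟨κ h', h', rfl⟩ = ⟨κ h', h', rfl⟩ * ⟨κ h, h, rfl⟩ :=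
      Subtype.ext (hcon h h')
    have h2 := congrArg e1 h1
    rw [map_mul, map_mul, hh, hh'] at h2
    revert h2
    decide
  obtain ⟨y, hy, hycomm⟩ := MC_abs κ (psi Q G hm) (oc Q X) w g hw hg hZc hZ1 hZeq
    (fun t ht => mul_inv_eq_iff_eq_mul.1 (hZ2 t ht))
    (fun h => ⟨h⁻¹ * cjGO Q G.exists_one X h, by
      rw [map_mul, map_inv, psi_cjGO, inv_mul_cancel], by
      rw [hconj, ← map_mul, mul_inv_cancel_left]⟩)
    (by
      change oc Q X * oc Q (inlO ⇑Q w) = oc Q (inlO ⇑Q w) * oc Q X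
      rw [← map_mul, ← map_mul, hXw]) hnc
  have hκρ : ∀ h, ρ (κ h) = 1 := by
    intro h
    change ρ (oc Q (inlO ⇑Q h)) = 1
    rw [hρ]
    rfl
  have hxf : (oc Q X) ^ f = 1 := by rw [← map_pow, hXf, map_one]
  obtain ⟨hyf, hρyx⟩ := MC_abs2 ρ (oc Q X) (κ w) y hfe hxf
    (by rw [← map_mul, hww, map_one])
    (by
      change oc Q X * oc Q (inlO ⇑Q w) = oc Q (inlO ⇑Q w) * oc Q X
      rw [← map_mul, ← map_mul, hXw]) (hκρ w) hy
  have hρy : orderOf (ρ y) = f := by rw [hρyx, hρ, hX]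
  have hyo : orderOf y = f := by
    apply Nat.dvd_antisymm (orderOf_dvd_of_pow_eq_one hyf)
    rw [← hρy]
    exact orderOf_map_dvd ρ _
  obtain ⟨e2⟩ := mulEquiv_prod_zpowers κ.range y (f := f)
    (by
      rintro _ ⟨h, rfl⟩
      exact hycomm h) hyo
    (by
      rintro i ⟨h, hh⟩
      have h1 := congrArg ρ hh
      rw [hκρ, map_zpow] at h1
      have h3 := (orderOf_dvd_iff_zpow_eq_one.2 h1.symm)
      rw [hρy, ← hyo] at h3
      exact orderOf_dvd_iff_zpow_eq_one.1 h3)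
    (by rw [hcO, hcardK])
  exact ⟨e2.trans (e1.prodCongr (MulEquiv.refl _))⟩

end Cfsg.Agent.Lib.H42OPMC
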