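import Mathlib
import Cfsg.Agent.Lib.Helper49Forms
import Cfsg.Agent.Lib.Helper18GamA

/-!
# Explicit semisimilarities of the minus-type form acting on the anisotropic plane
-/

set_option autoImplicit false
set_option linter.unusedSectionVars false

namespace Cfsg.Agent.Lib.Helper51FrobM

open Cfsg Matrix
open scoped MatrixGroups
open Cfsg.Agent.Lib.Helper49Forms Cfsg.Agent.Lib.Helper18GamA

variable {F : Type*} [Field F] {m : ℕ}

/-- The matrix acting as `(z₁, z₂) ↦ (z₁ + u z₂, v z₂)` on the last two coordinates. -/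
def Muv (m : ℕ) (u v : F) : Matrix ((Fin m ⊕ Fin m) ⊕ Fin 2) ((Fin m ⊕ Fin m) ⊕ Fin 2) F :=
  Matrix.fromBlocks 1 0 0 !![1, u; 0, v]

theorem Muv_mul (u v u' v' : F) : Muv m u v * Muv m u' v' = Muv m (u' + u * v') (v * v') := by
  unfold Muv
  rw [Matrix.fromBlocks_multiply]
  simp [Matrix.mul_fin_two]

theorem Muv_one : Muv m (0 : F) 1 = 1 := by
  unfold Muv
  rw [← Matrix.one_fin_two, Matrix.fromBlocks_one]

theorem Muv_map (σ : F ≃+* F) (u v : F) : (Muv m u v).map σ = Muv m (σ u) (σ v) := by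
  unfold Muv
  rw [Matrix.fromBlocks_map]
  congr 1
  · ext i j
    by_cases h : i = j
    · subst h; simp
    · simp [h]
  · ext i j
    simp
  · ext i j
    simp
  · ext i j
    fin_cases i <;> fin_cases j <;> simp

theorem det_Muv (u v : F) : (Muv m u v).det = v := by
  unfold Muv
  rw [Matrix.det_fromBlocks_zero₂₁, Matrix.det_one, Matrix.det_fin_two_of]
  simp

theorem Muv_mulVec_inl (u v : F) (w : (Fin m ⊕ Fin m) ⊕ Fin 2 → F) (i : Fin m ⊕ Fin m) :
    (Muv m u v *ᵥ w) (Sum.inl i) = w (Sum.inl i) := by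
  unfold Muv
  rw [Matrix.fromBlocks_mulVec]
  simp

theorem Muv_mulVec_zero (u v : F) (w : (Fin m ⊕ Fin m) ⊕ Fin 2 → F) :
    (Muv m u v *ᵥ w) (Sum.inr 0) = w (Sum.inr 0) + u * w (Sum.inr 1) := by
  unfold Muv
  rw [Matrix.fromBlocks_mulVec]
  simp [dotProduct, Fin.sum_univ_two]

theorem Muv_mulVec_one (u v : F) (w : (Fin m ⊕ Fin m) ⊕ Fin 2 → F) :
    (Muv m u v *ᵥ w) (Sum.inr 1) = v * w (Sum.inr 1) := by
  unfold Muv
  rw [Matrix.fromBlocks_mulVec]
  simp [dotProduct, Fin.sum_univ_two]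

open Classical in
/-- The element of `GL`. -/
noncomputable def gUV (m : ℕ) (u v : F) : GL ((Fin m ⊕ Fin m) ⊕ Fin 2) F :=
  if h : v ≠ 0 then
    ⟨Muv m u v, Muv m (-u / v) v⁻¹, by
      rw [Muv_mul, ← Muv_one]
      congr 1
      · field_simp; ring
      · field_simp, by
      rw [Muv_mul, ← Muv_one]
      congr 1
      · field_simp; ring
      · field_simp⟩
  else 1

theorem coe_gUV (u : F) {v : F} (hv : v ≠ 0) :
    ((gUV m u v : GL ((Fin m ⊕ Fin m) ⊕ Fin 2) F) : Matrix _ _ F) = Muv m u v := by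
  unfold gUV
  rw [dif_pos hv]

theorem gUV_mul (u u' : F) {v v' : F} (hv : v ≠ 0) (hv' : v' ≠ 0) :
    gUV m u v * gUV m u' v' = gUV m (u' + u * v') (v * v') := by
  apply Units.ext
  rw [Units.val_mul, coe_gUV u hv, coe_gUV u' hv', coe_gUV _ (mul_ne_zero hv hv'), Muv_mul]

theorem gUV_one : gUV m (0 : F) 1 = 1 := by
  apply Units.ext
  rw [coe_gUV _ one_ne_zero, Muv_one]
  rfl

theorem mapAut_gUV (σ : F ≃+* F) (u : F) {v : F} (hv : v ≠ 0) :
    mapAut σ (gUV m u v) = gUV m (σ u) (σ v) := by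
  apply Units.ext
  rw [coe_mapAut, coe_gUV u hv, coe_gUV _ (by simpa using hv), Muv_map]

/-- The semilinear map `(gUV u v, σ)`. -/
noncomputable def XX (m : ℕ) (σ : F ≃+* F) (u v : F) : GamL ((Fin m ⊕ Fin m) ⊕ Fin 2) F :=
  ⟨gUV m u v, σ⟩

/-- The sequences describing the powers of `XX`. -/
def Vs (σ : F ≃+* F) (v : F) : ℕ → F
  | 0 => 1
  | k + 1 => Vs σ v k * (σ ^ k) v

def Us (σ : F ≃+* F) (u v : F) : ℕ → F
  | 0 => 0
  | k + 1 => (σ ^ k) u + Us σ u v k * (σ ^ k) v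

theorem Vs_ne_zero (σ : F ≃+* F) {v : F} (hv : v ≠ 0) (k : ℕ) : Vs σ v k ≠ 0 := by
  induction k with
  | zero => exact one_ne_zero
  | succ k ih => exact mul_ne_zero ih ((map_ne_zero (σ ^ k)).2 hv)

theorem XX_pow (σ : F ≃+* F) (u : F) {v : F} (hv : v ≠ 0) (k : ℕ) :
    XX m σ u v ^ k = ⟨gUV m (Us σ u v k) (Vs σ v k), σ ^ k⟩ := by
  induction k with
  | zero =>
    rw [pow_zero, pow_zero]
    change _ = (⟨gUV m 0 1, 1⟩ : GamL ((Fin m ⊕ Fin m) ⊕ Fin 2) F)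
    rw [gUV_one]
    rfl
  | succ k ih =>
    rw [pow_succ, ih]
    apply SemidirectProduct.ext
    · rw [SemidirectProduct.mul_left]
      change gUV m (Us σ u v k) (Vs σ v k) * mapAut (σ ^ k) (gUV m u v) = gUV m _ _
      rw [mapAut_gUV _ _ hv, gUV_mul _ _ (Vs_ne_zero σ hv k) ((map_ne_zero (σ ^ k)).2 hv)]
      rfl
    · rw [SemidirectProduct.mul_right]
      change σ ^ k * σ = σ ^ (k + 1)
      rw [pow_succ]

theorem XX_mem_GamO (a b : F) (σ : F ≃+* F) (u : F) {v : F} (hv : v ≠ 0)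
    (h1 : 2 * u + a * v = σ a) (h2 : u ^ 2 + a * u * v + b * v ^ 2 = σ b) :
    XX m σ u v ∈ GamO ⇑(QMinus m F a b) := by
  refine ⟨1, fun w => ?_⟩
  change QMinus m F a b ((gUV m u v : Matrix _ _ F) *ᵥ fun i => σ (w i))
    = ((1 : Fˣ) : F) * σ (QMinus m F a b w)
  rw [coe_gUV u hv, coe_QMinus]
  unfold Cfsg.quadFormMinus
  simp only [Muv_mulVec_inl, Muv_mulVec_zero, Muv_mulVec_one, Units.val_one, one_mul, map_add,
    map_sum, map_mul, map_pow, ← h1, ← h2]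
  ring

end Cfsg.Agent.Lib.Helper51FrobM
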