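import Mathlib
import Cfsg.Agent.Lib.Helper51FrobM
import Cfsg.Agent.Lib.Helper18GamD

/-!
# The Frobenius semisimilarity of the minus-type form and its `f`-th power
-/

set_option autoImplicit false
set_option linter.unusedSectionVars false

namespace Cfsg.Agent.Lib.Helper51FrobN

open Cfsg Matrix
open scoped MatrixGroups
open Cfsg.Agent.Lib.Helper49Forms Cfsg.Agent.Lib.Helper18GamA Cfsg.Agent.Lib.Helper51FrobM
  Cfsg.Agent.Lib.Helper18GamD

variable {F : Type*} [Field F] [Fintype F]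

theorem exists_frob {p f : ℕ} [Fact p.Prime] (hF : Fintype.card F = p ^ f) :
    ∃ σ : F ≃+* F, (∀ x, σ x = x ^ p) ∧ orderOf σ = f := by
  have hchar : CharP F p := charP_of_card_eq_prime_pow hF
  let _ : Algebra (ZMod p) F := ZMod.algebra F p
  let e : (F ≃ₐ[ZMod p] F) ≃* (F ≃+* F) :=
    { toFun := fun σ => σ.toRingEquiv
      invFun := fun σ => AlgEquiv.ofRingEquiv (f := σ) (fun r => by
        have := RingHom.ext_zmod ((σ : F →+* F).comp (algebraMap (ZMod p) F)) (algebraMap (ZMod p) F)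
        exact congrFun (congrArg DFunLike.coe this) r)
      left_inv := fun σ => by ext; rfl
      right_inv := fun σ => by ext; rfl
      map_mul' := fun σ τ => by ext; rfl }
  have hfin : Module.finrank (ZMod p) F = f := by
    have h1 := Module.card_eq_pow_finrank (K := ZMod p) (V := F)
    rw [ZMod.card, hF] at h1
    exact (Nat.pow_right_injective (Fact.out : p.Prime).two_le h1).symm
  refine ⟨e (FiniteField.frobeniusAlgEquivOfAlgebraic (ZMod p) F), fun x => ?_, ?_⟩
  · change FiniteField.frobeniusAlgEquivOfAlgebraic (ZMod p) F x = x ^ p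
    rw [FiniteField.coe_frobeniusAlgEquivOfAlgebraic, ZMod.card]
  · rw [MulEquiv.orderOf_eq, FiniteField.orderOf_frobeniusAlgEquivOfAlgebraic, hfin]

theorem frob_pow_apply {p : ℕ} {σ : F ≃+* F} (hσ : ∀ x, σ x = x ^ p) (k : ℕ) (x : F) :
    (σ ^ k) x = x ^ (p ^ k) := by
  induction k generalizing x with
  | zero => simp
  | succ k ih =>
    rw [pow_succ, RingAut.mul_apply, hσ, ih, ← pow_mul, pow_succ, mul_comm]

theorem Vs_frob {p : ℕ} {σ : F ≃+* F} (hσ : ∀ x, σ x = x ^ p) (v : F) (k : ℕ) :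
    Vs σ v k = v ^ (∑ i ∈ Finset.range k, p ^ i) := by
  induction k with
  | zero => simp [Vs]
  | succ k ih =>
    rw [Finset.sum_range_succ, pow_add, ← ih, ← frob_pow_apply hσ]
    rfl

/-! ### odd characteristic -/

theorem odd_h1 (h2 : (2 : F) ≠ 0) (a v A : F) : 2 * ((A - a * v) / 2) + a * v = A := by
  field_simp
  ring

theorem odd_h2 {p : ℕ} [Fact p.Prime] [CharP F p] (hp : Odd p) (h2 : (2 : F) ≠ 0) (a b : F) :
    ((a ^ p - a * (a ^ 2 - 4 * b) ^ ((p - 1) / 2)) / 2) ^ 2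
      + a * ((a ^ p - a * (a ^ 2 - 4 * b) ^ ((p - 1) / 2)) / 2) * (a ^ 2 - 4 * b) ^ ((p - 1) / 2)
      + b * ((a ^ 2 - 4 * b) ^ ((p - 1) / 2)) ^ 2 = b ^ p := by
  set D := a ^ 2 - 4 * b with hD
  set v := D ^ ((p - 1) / 2) with hv
  have h4 : (4 : F) ^ p = 4 := by
    have := map_natCast (frobenius F p) 4
    rw [frobenius_def] at this
    exact_mod_cast this
  have hDp : D ^ p = a ^ (2 * p) - 4 * b ^ p := by
    rw [hD, sub_pow_char, mul_pow, h4, ← pow_mul]
  have hv2 : D * v ^ 2 = D ^ p := by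
    rw [hv, ← pow_mul, ← pow_succ']
    congr 1
    obtain ⟨k, hk⟩ := hp
    omega
  have h5 : (4 : F) ≠ 0 := by
    have : (4 : F) = 2 * 2 := by norm_num
    rw [this]
    exact mul_ne_zero h2 h2
  apply mul_left_cancel₀ h5
  have h6 : 4 * (((a ^ p - a * v) / 2) ^ 2 + a * ((a ^ p - a * v) / 2) * v + b * v ^ 2)
      = a ^ (2 * p) - D * v ^ 2 := by
    rw [hD]
    field_simp
    ring
  rw [h6, hv2, hDp]
  ring

theorem odd_Vf {p f : ℕ} [Fact p.Prime] (hp : Odd p) (hF : Fintype.card F = p ^ f) {D : F}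
    (hD : ¬ IsSquare D) :
    (D ^ ((p - 1) / 2)) ^ (∑ i ∈ Finset.range f, p ^ i) = -1 := by
  have hD0 : D ≠ 0 := by
    rintro rfl
    exact hD IsSquare.zero
  have hodd : Odd (Fintype.card F) := by rw [hF]; exact hp.pow
  have hchar : ringChar F ≠ 2 := by
    intro h
    have := FiniteField.even_card_of_char_two h
    exact (Nat.not_even_iff_odd.2 hodd) (Nat.even_iff.2 this)
  have h1 : ((p - 1) / 2) * (∑ i ∈ Finset.range f, p ^ i) = Fintype.card F / 2 := by
    have h2 : (p - 1) * (∑ i ∈ Finset.range f, p ^ i) = p ^ f - 1 := by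
      have := Nat.geomSum_eq (Fact.out : p.Prime).two_le f
      rw [this]
      exact Nat.mul_div_cancel' (Nat.sub_one_dvd_pow_sub_one _ _)
    obtain ⟨k, hk⟩ := hp
    have h3 : (p - 1) / 2 = k := by omega
    have h4 : p - 1 = 2 * k := by omega
    rw [h3, hF]
    rw [h4, mul_assoc] at h2
    omega
  rw [← pow_mul, h1]
  rcases FiniteField.pow_dichotomy hchar hD0 with h | h
  · exact absurd ((FiniteField.isSquare_iff hchar hD0).2 h) hD
  · exact h


/-! ### characteristic two -/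

section Two

variable [CharP F 2]

/-- The (partial) absolute trace. -/
def Tr2 (k : ℕ) (c : F) : F := ∑ i ∈ Finset.range k, c ^ (2 ^ i)

theorem Tr2_add (k : ℕ) (c d : F) : Tr2 k (c + d) = Tr2 k c + Tr2 k d := by
  unfold Tr2
  rw [← Finset.sum_add_distrib]
  apply Finset.sum_congr rfl
  intro i _
  exact add_pow_char_pow c d 2 i

theorem Tr2_sq {f : ℕ} (hF : Fintype.card F = 2 ^ f) (y : F) : Tr2 f (y ^ 2) = Tr2 f y := by
  unfold Tr2
  have h1 := Finset.sum_range_succ (fun i => y ^ (2 ^ i)) f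
  have h2 := Finset.sum_range_succ' (fun i => y ^ (2 ^ i)) f
  have h3 : y ^ (2 ^ f) = y := by rw [← hF, FiniteField.pow_card]
  have h4 : ∑ i ∈ Finset.range f, (y ^ 2) ^ (2 ^ i) = ∑ i ∈ Finset.range f, y ^ (2 ^ (i + 1)) := by
    apply Finset.sum_congr rfl
    intro i _
    rw [← pow_mul, pow_succ, mul_comm]
  rw [h4]
  rw [h1] at h2
  simp only [h3, pow_zero, pow_one] at h2
  exact (add_right_cancel h2).symm

theorem Tr2_mul_self {f : ℕ} (hF : Fintype.card F = 2 ^ f) (y : F) :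
    Tr2 f y ^ 2 = Tr2 f y := by
  conv_rhs => rw [← Tr2_sq hF y]
  unfold Tr2
  rw [sum_pow_char 2]
  apply Finset.sum_congr rfl
  intro i _
  rw [← pow_mul, ← pow_mul, mul_comm]

open Polynomial in
theorem exists_Tr2_ne {f : ℕ} (hf : 1 ≤ f) (hF : Fintype.card F = 2 ^ f) :
    ∃ t : F, Tr2 f t ≠ 0 := by
  by_contra hcon
  have hall : ∀ t : F, Tr2 f t = 0 := by
    intro t
    by_contra h
    exact hcon ⟨t, h⟩
  set P : F[X] := ∑ i ∈ Finset.range f, X ^ (2 ^ i) with hP
  have hdeg : P.natDegree ≤ 2 ^ (f - 1) := by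
    apply Polynomial.natDegree_sum_le_of_forall_le
    intro i hi
    rw [Polynomial.natDegree_X_pow]
    apply Nat.pow_le_pow_right (by norm_num)
    have := Finset.mem_range.1 hi
    omega
  have hzero : P = 0 := by
    apply Polynomial.eq_zero_of_natDegree_lt_card_of_eval_eq_zero' P Finset.univ
    · intro t _
      rw [hP, Polynomial.eval_finsetSum]
      simp only [Polynomial.eval_pow, Polynomial.eval_X]
      exact hall t
    · rw [Finset.card_univ, hF]
      refine lt_of_le_of_lt hdeg ?_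
      apply Nat.pow_lt_pow_right (by norm_num)
      omega
  have hcoeff : P.coeff 1 = 1 := by
    rw [hP, Polynomial.finsetSum_coeff]
    rw [Finset.sum_eq_single 0]
    · simp
    · intro i _ hi
      rw [Polynomial.coeff_X_pow, if_neg]
      intro h
      apply hi
      by_contra h0
      have : 2 ≤ 2 ^ i := by
        calc 2 = 2 ^ 1 := by norm_num
          _ ≤ 2 ^ i := Nat.pow_le_pow_right (by norm_num) (by omega)
      omega
    · intro h
      exact absurd (Finset.mem_range.2 (by omega)) h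
  rw [hzero] at hcoeff
  simp at hcoeff

theorem exists_of_Tr2_eq_zero {f : ℕ} (hf : 1 ≤ f) (hF : Fintype.card F = 2 ^ f) {c : F}
    (h : Tr2 f c = 0) : ∃ y : F, y ^ 2 + y = c := by
  obtain ⟨t, ht⟩ := exists_Tr2_ne hf hF
  have hidx := index_range_wp (F := F) (a := 1) one_ne_zero
  have hker : ∀ x ∈ (wp (1 : F)).range, Tr2 f x = 0 := by
    rintro _ ⟨y, rfl⟩
    change Tr2 f (y ^ 2 + 1 * y) = 0
    rw [one_mul, Tr2_add, Tr2_sq hF]
    exact CharTwo.add_self_eq_zero _
  have htn : t ∉ (wp (1 : F)).range := fun h => ht (hker t h)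
  have hc : c ∈ (wp (1 : F)).range := by
    by_contra hc
    have h1 : c + t ∈ (wp (1 : F)).range := by
      rw [AddSubgroup.add_mem_iff_of_index_two hidx]
      exact ⟨fun h => absurd h hc, fun h => absurd h htn⟩
    have h2 := hker _ h1
    rw [Tr2_add, h, zero_add] at h2
    exact ht h2
  obtain ⟨y, hy⟩ := hc
  refine ⟨y, ?_⟩
  have : y ^ 2 + 1 * y = c := hy
  rwa [one_mul] at this

theorem Tr2_eq_one {f : ℕ} (hf : 1 ≤ f) (hF : Fintype.card F = 2 ^ f) {a b : F}
    (hab : Aniso a b) : Tr2 f (b / a ^ 2) = 1 := by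
  have ha := aniso_a_ne_zero hab
  have h1 := Tr2_mul_self hF (b / a ^ 2)
  have h2 : Tr2 f (b / a ^ 2) * (Tr2 f (b / a ^ 2) - 1) = 0 := by linear_combination h1
  rcases mul_eq_zero.1 h2 with h3 | h3
  · exfalso
    obtain ⟨y, hy⟩ := exists_of_Tr2_eq_zero hf hF h3
    have h4 := hab (a * y) 1 (by
      have : (a * y) ^ 2 + a * (a * y) * 1 + b * 1 ^ 2 = a ^ 2 * (y ^ 2 + y) + b := by ring
      rw [this, hy, mul_div_cancel₀ _ (pow_ne_zero 2 ha)]
      exact CharTwo.add_self_eq_zero b)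
    exact one_ne_zero h4.2
  · exact sub_eq_zero.1 h3

theorem Us_two {σ : F ≃+* F} (hσ : ∀ x, σ x = x ^ 2) {a : F} (ha : a ≠ 0) (b : F) (k : ℕ) :
    Us σ b a k = a ^ (2 ^ k) * Tr2 k (b / a ^ 2) := by
  induction k with
  | zero => simp [Us, Tr2]
  | succ k ih =>
    have h1 : Us σ b a (k + 1) = (σ ^ k) b + Us σ b a k * (σ ^ k) a := rfl
    rw [h1, ih, frob_pow_apply hσ, frob_pow_apply hσ]
    unfold Tr2
    rw [Finset.sum_range_succ, mul_add, div_pow, pow_succ 2 k, pow_mul a, ← pow_mul a 2,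
      mul_comm 2 (2 ^ k), pow_mul a (2 ^ k) 2]
    field_simp
    ring

theorem two_Uf {f : ℕ} (hf : 1 ≤ f) (hF : Fintype.card F = 2 ^ f) {σ : F ≃+* F}
    (hσ : ∀ x, σ x = x ^ 2) {a b : F} (hab : Aniso a b) : Us σ b a f = a := by
  rw [Us_two hσ (aniso_a_ne_zero hab), Tr2_eq_one hf hF hab, mul_one, ← hF, FiniteField.pow_card]

theorem two_Vf {f : ℕ} (hF : Fintype.card F = 2 ^ f) {σ : F ≃+* F}
    (hσ : ∀ x, σ x = x ^ 2) {a : F} (ha : a ≠ 0) : Vs σ a f = 1 := by
  rw [Vs_frob hσ, Nat.geomSum_eq (le_refl 2), ← hF]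
  simp only [Nat.add_one_sub_one, Nat.div_one]
  exact FiniteField.pow_card_sub_one_eq_one a ha

end Two

end Cfsg.Agent.Lib.Helper51FrobN
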