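import Cfsg.Agent.Lib.Helper51OutD
import Cfsg.Agent.Lib.Helper18GamD
import Cfsg.Agent.Lib.Helper51LangC
import Cfsg.Agent.Lib.Helper51FrobN

set_option autoImplicit false

/-! PROJECT 142 (OUT-PLUS), piece MF.  Sketches: notes/helper42/OP/README.md -/

namespace Cfsg.Agent.Lib.H42OPMF

open Cfsg Matrix Module
open scoped MatrixGroups
open Cfsg.Agent.Lib.Helper49Orth Cfsg.Agent.Lib.Helper49Hyp Cfsg.Agent.Lib.Helper49Idx Cfsg.Agent.Lib.Helper49Forms
  Cfsg.Agent.Lib.Helper51OrthAut Cfsg.Agent.Lib.Helper51OrthKer Cfsg.Agent.Lib.Helper51OrthIdx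
  Cfsg.Agent.Lib.Helper51OrthIdx2 Cfsg.Agent.Lib.Helper51OrthIdx3 Cfsg.Agent.Lib.Helper51OrthIdx4
  Cfsg.Agent.Lib.Helper18GamA Cfsg.Agent.Lib.Helper18GamB Cfsg.Agent.Lib.Helper18GamC Cfsg.Agent.Lib.Helper18GamD
  Cfsg.Agent.Lib.Helper51OutA Cfsg.Agent.Lib.Helper51OutB Cfsg.Agent.Lib.Helper51OutC Cfsg.Agent.Lib.Helper51OutD
open Cfsg.Agent.Lib.Helper18GamF Cfsg.Agent.Lib.Helper51LangA Cfsg.Agent.Lib.Helper51LangB Cfsg.Agent.Lib.Helper51LangC

variable {F : Type*} [Field F] [Fintype F]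

theorem prO_surjective_plus (m : ℕ) : Function.Surjective (prO ⇑(QPlus m F)) := by
  intro σ
  exact ⟨fS (comm_QPlus m σ), rfl⟩

theorem exists_X {p f : ℕ} [Fact p.Prime] (hF : Fintype.card F = p ^ f) (k : ℕ) :
    ∃ X : ↥(GamO ⇑(QPlus (k + 1) F)), orderOf (prO _ X) = f ∧ X ^ f = 1 ∧
      X * inlO _ (wG k F) = inlO _ (wG k F) * X := by
  obtain ⟨σ, -, hσ⟩ := Cfsg.Agent.Lib.Helper51FrobN.exists_frob hF
  refine ⟨fS (comm_QPlus (k + 1) σ), hσ, ?_, fS_comm_wG σ⟩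
  apply Subtype.ext
  rw [Subgroup.coe_pow]
  change (SemidirectProduct.inr σ) ^ f = 1
  rw [← map_pow, ← hσ, pow_orderOf_eq_one, map_one]

theorem psi_wG (k : ℕ) (G : Good (QPlus (k + 1) F)) {m : ℕ}
    (hm : Fintype.card (Fin (k + 1) ⊕ Fin (k + 1)) = 2 * m) :
    psi (QPlus (k + 1) F) G hm (wG k F) = (1, -1) := by
  have hmu : mu (QPlus (k + 1) F) G.exists_one (wG k F) = 1 := by
    unfold wG
    exact mu_incO _ _ _
  have hdelta : delta (QPlus (k + 1) F) G.exists_one m (wG k F) ≠ 1 := by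
    unfold wG
    rw [delta_incO, detO_reflO]
    intro h
    have h1 := congrArg (fun u : Fˣ => (u : F)) h
    simp only [Units.val_neg, Units.val_one] at h1
    apply G.two
    linear_combination -h1
  apply Prod.ext
  · change sqChar (mu (QPlus (k + 1) F) G.exists_one (wG k F)) = 1
    rw [hmu, map_one]
  · change sgnHom _ _ _ (wG k F) = -1
    rcases Int.units_eq_one_or (sgnHom (delta (QPlus (k + 1) F) G.exists_one m)
      (delta_cases (QPlus (k + 1) F) G.nondeg G.exists_one hm) G.two (wG k F)) with h | h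
    · exact absurd ((sgnHom_eq_one_iff _ _ _ _).1 h) hdelta
    · exact h

end Cfsg.Agent.Lib.H42OPMF
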