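import Cfsg.Agent.Lib.Helper42OPDefs

set_option autoImplicit false

/-! PROJECT 142 (OUT-PLUS), piece T2.  Sketches: notes/helper42/OP/README.md -/

namespace Cfsg.Agent.Lib.H42OPT2


/-- PIECE T2 (30 min): `|Aut G| = |Out G| * |Inn G|` (`Subgroup.card_eq_card_quotient_mul_card_subgroup`) and `Inn G ≃ G` because
`MulAut.conj` is injective when the centre is trivial (`MonoidHom.ofInjective`, `Nat.card_congr`). -/
theorem card_aut_eq {G : Type*} [Group G] [Finite G] (hZ : ∀ z : G, (∀ g, z * g = g * z) → z = 1) :
    Nat.card (MulAut G) = Nat.card (Cfsg.Out G) * Nat.card G := by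
  have hinj : Function.Injective (MulAut.conj : G →* MulAut G) := by
    rw [injective_iff_map_eq_one]
    intro z hz
    apply hZ
    intro g
    have := congrArg (fun φ : MulAut G => φ g) hz
    simp only [MulAut.conj_apply, MulAut.one_apply] at this
    calc z * g = z * g * z⁻¹ * z := by group
      _ = g * z := by rw [this]
  have h1 : Nat.card (Cfsg.Inn G) = Nat.card G :=
    (Nat.card_congr (MonoidHom.ofInjective hinj).toEquiv).symm
  rw [Subgroup.card_eq_card_quotient_mul_card_subgroup (Cfsg.Inn G), h1]

end Cfsg.Agent.Lib.H42OPT2
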