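import Mathlib
import Cfsg.Prelude.Def_Classical
import Cfsg.Prelude.Def_ClassicalGeometry
import Cfsg.Agent.Lib.Helper49All
import Cfsg.Agent.Lib.Helper7QFrame

set_option autoImplicit false

namespace Cfsg.Agent.Lib.Helper7OCenter

open Matrix QuadraticMap Cfsg.Agent.Lib.Helper49Orth Cfsg.Agent.Lib.Helper7QFrame

variable {ι : Type} [Fintype ι] [DecidableEq ι] {F : Type*} [Field F]
variable (Q : QuadraticForm F (ι → F))

/-- the isometry group as a type -/
abbrev GG (Q : QuadraticForm F (ι → F)) : Type _ := ↥(Cfsg.isometryGroup F ⇑Q)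

/-- the action on vectors -/
def act {Q : QuadraticForm F (ι → F)} (g : ↥(Cfsg.isometryGroup F ⇑Q)) (x : ι → F) : ι → F :=
  ((g : Matrix.GeneralLinearGroup ι F) : Matrix ι ι F) *ᵥ x

variable {Q}

theorem act_mul (g h : GG Q) (x : ι → F) : act (g * h) x = act g (act h x) := by
  unfold act
  rw [Matrix.mulVec_mulVec]
  rfl

theorem act_add (g : GG Q) (x y : ι → F) : act g (x + y) = act g x + act g y :=
  Matrix.mulVec_add _ _ _

theorem act_sub (g : GG Q) (x y : ι → F) : act g (x - y) = act g x - act g y :=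
  Matrix.mulVec_sub _ _ _

theorem act_smul (g : GG Q) (c : F) (x : ι → F) : act g (c • x) = c • act g x :=
  Matrix.mulVec_smul _ _ _

theorem Q_act (g : GG Q) (x : ι → F) : Q (act g x) = Q x := iso_apply (Q := ⇑Q) g x

theorem polar_act (g : GG Q) (x y : ι → F) : polar Q (act g x) (act g y) = polar Q x y :=
  polar_iso Q g x y

theorem act_reflO {v : ι → F} (hv : Q v ≠ 0) (x : ι → F) :
    act (reflO Q hv) x = x - ((Q v)⁻¹ * polar Q v x) • v := refl_mulVec Q v x

/-- the product of the reflections in `u` and `u + e`. -/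
theorem act_pair {u e : ι → F} (hu : Q u ≠ 0) (hv : Q (u + e) ≠ 0) (he : Q e = 0)
    (hue : polar Q u e = 0) (y : ι → F) :
    act (reflO Q hu * reflO Q hv) y
      = y - (Q u)⁻¹ • (polar Q (u + e) y • e - polar Q e y • u) := by
  have hQv : Q (u + e) = Q u := by
    rw [QuadraticMap.map_add Q, he, hue, add_zero, add_zero]
  rw [act_mul, act_reflO, act_reflO, hQv]
  simp only [polar_sub_right, polar_smul_right, polar_add_right, polar_add_left, polar_self, hue,
    smul_eq_mul]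
  have h2 : (Q u)⁻¹ * (2 • Q u) = 2 := by
    rw [two_smul]; field_simp; norm_num
  have h3 : (Q u)⁻¹ * (polar Q u y - (Q u)⁻¹ * (polar Q u y + polar Q e y) * (2 • Q u + 0))
      = (Q u)⁻¹ * (polar Q u y - 2 * (polar Q u y + polar Q e y)) := by
    rw [add_zero]
    linear_combination (-(Q u)⁻¹ * (polar Q u y + polar Q e y)) * h2
  rw [h3]
  module

theorem pair_mem [Fintype F] (hQ : (QuadraticMap.polarBilin Q).Nondegenerate)
    (hq : Fintype.card F ≠ 2 ∨ Fintype.card ι ≠ 4) {u v : ι → F} (hu : Q u ≠ 0) (hv : Q v ≠ 0)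
    (huv : Q u = Q v) : reflO Q hu * reflO Q hv ∈ Cfsg.Omega F ⇑Q := by
  by_cases h2 : (2 : F) = 0
  · have : CharP F 2 := CharTwo.of_one_ne_zero_of_two_eq_zero one_ne_zero h2
    exact Cfsg.Agent.Lib.Helper49CharTwoA.refl_pair_mem Q hQ hq hu hv
  · exact reflO_mul_reflO_mem Q h2 hu hv ⟨Q u, by rw [huv]⟩

/-- `z` centralises `Ω`. -/
def Cent (z : GG Q) : Prop := ∀ t ∈ Cfsg.Omega F ⇑Q, z * t = t * z

section main

variable [Fintype F] (hQ : (QuadraticMap.polarBilin Q).Nondegenerate)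
  (hq : Fintype.card F ≠ 2 ∨ Fintype.card ι ≠ 4) {z : GG Q} (hz : Cent z)

include hQ hq hz

theorem act_mem_plane {p : (ι → F) × (ι → F)} (hp : IsHyp Q p) {u : ι → F}
    (hup : PerpPair Q p u) (hu : Q u ≠ 0) : ∃ a b : F, act z u = a • u + b • p.1 := by
  obtain ⟨h1, h2, h3⟩ := hp
  obtain ⟨u1, u2⟩ := hup
  have hue : polar Q u p.1 = 0 := u1
  have hQv : Q (u + p.1) = Q u := by
    rw [QuadraticMap.map_add Q, h1, hue, add_zero, add_zero]
  have hv : Q (u + p.1) ≠ 0 := by rw [hQv]; exact hu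
  have hu0 : u ≠ 0 := by
    rintro rfl
    exact hu (QuadraticMap.map_zero Q)
  obtain ⟨w, hw⟩ : ∃ w, polar Q u w ≠ 0 := by
    by_contra hcon
    push Not at hcon
    exact hu0 (hQ.1 u hcon)
  -- the vector x
  obtain ⟨w', hw'⟩ : ∃ w', w' = w - polar Q w p.2 • p.1 - polar Q w p.1 • p.2 := ⟨_, rfl⟩
  have hw1 : polar Q u w' = polar Q u w := by
    rw [hw', polar_sub_right, polar_sub_right, polar_smul_right, polar_smul_right, u1, u2]
    simp
  have hw2 : polar Q p.1 w' = 0 := by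
    rw [hw', polar_sub_right, polar_sub_right, polar_smul_right, polar_smul_right,
      polar_self_of_zero h1, h3, polar_comm Q p.1 w]
    simp
  obtain ⟨x, hx⟩ : ∃ x, x = Q u • p.2 + (-(Q u) / polar Q u w) • w' := ⟨_, rfl⟩
  have hx1 : polar Q p.1 x = Q u := by
    rw [hx, polar_add_right, polar_smul_right, polar_smul_right, h3, hw2]
    simp
  have hx2 : polar Q u x = -(Q u) := by
    rw [hx, polar_add_right, polar_smul_right, polar_smul_right, u2, hw1]
    simp only [smul_eq_mul, mul_zero, zero_add]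
    field_simp
  have ht := hz _ (pair_mem hQ hq hu hv hQv.symm)
  have key := congrArg (fun g : GG Q => act g x) ht
  simp only [act_mul z, act_mul _ z] at key
  rw [act_pair hu hv h1 hue, act_pair hu hv h1 hue, polar_add_left, hx1, hx2] at key
  have hsimp : x - (Q u)⁻¹ • ((-(Q u) + Q u) • p.1 - Q u • u) = x + u := by
    rw [neg_add_cancel, zero_smul, zero_sub, smul_neg, smul_smul, inv_mul_cancel₀ hu, one_smul,
      sub_neg_eq_add]
  rw [hsimp, act_add] at key
  refine ⟨(Q u)⁻¹ * polar Q p.1 (act z x), -((Q u)⁻¹ * polar Q (u + p.1) (act z x)), ?_⟩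
  have : act z u = (act z x + act z u) - act z x := by abel
  rw [this, key]
  module

theorem act_eigen {p : (ι → F) × (ι → F)} (hp : IsHyp Q p) {u : ι → F}
    (hup : PerpPair Q p u) (hu : Q u ≠ 0) : ∃ a : F, act z u = a • u := by
  obtain ⟨a, b, hab⟩ := act_mem_plane hQ hq hz hp hup hu
  have hp' : IsHyp Q (p.2, p.1) := ⟨hp.2.1, hp.1, by rw [polar_comm]; exact hp.2.2⟩
  obtain ⟨a', b', hab'⟩ := act_mem_plane hQ hq hz hp' ⟨hup.2, hup.1⟩ hu
  simp only at hab'
  have e1 : polar Q (act z u) p.2 = b := by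
    rw [hab, polar_add_left, polar_smul_left, polar_smul_left, hup.2, hp.2.2]
    simp
  have e2 : polar Q (act z u) p.2 = 0 := by
    rw [hab', polar_add_left, polar_smul_left, polar_smul_left, hup.2, polar_self_of_zero hp.2.1]
    simp
  refine ⟨a, ?_⟩
  rw [hab, ← e1, e2, zero_smul, add_zero]

theorem act_singular {p1 p2 : (ι → F) × (ι → F)} (hp1 : IsHyp Q p1) (hp2 : IsHyp Q p2)
    (h12 : PerpPair Q p2 p1.1 ∧ PerpPair Q p2 p1.2) {s : ι → F} (hs : Q s = 0)
    (hs1 : PerpPair Q p1 s) (hs2 : PerpPair Q p2 s) {α : F}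
    (hα : act z (p1.1 + p1.2) = α • (p1.1 + p1.2)) : act z s = α • s := by
  have hQu : Q (p1.1 + p1.2) = 1 := by
    rw [QuadraticMap.map_add Q, hp1.1, hp1.2.1, hp1.2.2]; simp
  have hus : polar Q (p1.1 + p1.2) s = 0 := by
    rw [polar_comm, polar_add_right, hs1.1, hs1.2, add_zero]
  have hQus : Q (p1.1 + p1.2 + s) = 1 := by
    rw [QuadraticMap.map_add Q, hQu, hs, hus]; simp
  obtain ⟨β, hβ⟩ := act_eigen hQ hq hz hp2 (u := p1.1 + p1.2 + s)
    ((h12.1.add h12.2).add hs2) (by rw [hQus]; exact one_ne_zero)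
  rw [act_add, hα] at hβ
  have hzs : act z s = (β - α) • (p1.1 + p1.2) + β • s := by
    have : act z s = (α • (p1.1 + p1.2) + act z s) - α • (p1.1 + p1.2) := by abel
    rw [this, hβ]
    module
  have hQ0 := Q_act z s
  rw [hzs, QuadraticMap.map_add Q, QuadraticMap.map_smul, QuadraticMap.map_smul, hQu, hs,
    polar_smul_left, polar_smul_right, hus] at hQ0
  simp only [smul_eq_mul, mul_one, mul_zero, add_zero] at hQ0
  have hβα : β - α = 0 := by simpa using hQ0
  rw [hzs, hβα, zero_smul, zero_add, sub_eq_zero.1 hβα]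

/-- An isometry centralising `Ω` is a scalar, if there are three orthogonal hyperbolic pairs. -/
theorem act_scalar (φ : Fin 3 → (ι → F) × (ι → F)) (hφ : IsFrame Q φ) :
    ∃ α : F, ∀ x, act z x = α • x := by
  have hne : ∀ i, (φ i).1 + (φ i).2 ≠ 0 := by
    intro i h0
    have : Q ((φ i).1 + (φ i).2) = 1 := by
      rw [QuadraticMap.map_add Q, (hφ.1 i).1, (hφ.1 i).2.1, (hφ.1 i).2.2]; simp
    rw [h0, QuadraticMap.map_zero] at this
    exact zero_ne_one this
  have hQu : ∀ i, Q ((φ i).1 + (φ i).2) ≠ 0 := by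
    intro i
    rw [QuadraticMap.map_add Q, (hφ.1 i).1, (hφ.1 i).2.1, (hφ.1 i).2.2]; simp
  -- eigenvalues of `e i + f i`
  have hex : ∀ i : Fin 3, ∃ a : F, act z ((φ i).1 + (φ i).2) = a • ((φ i).1 + (φ i).2) := by
    intro i
    obtain ⟨j, hj⟩ : ∃ j : Fin 3, i ≠ j := by
      fin_cases i
      · exact ⟨1, by decide⟩
      · exact ⟨0, by decide⟩
      · exact ⟨0, by decide⟩
    exact act_eigen hQ hq hz (hφ.1 j) ((hφ.2 i j hj).1.add (hφ.2 i j hj).2) (hQu i)
  choose al hal using hex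
  have third : ∀ i j : Fin 3, i ≠ j → ∃ k : Fin 3, k ≠ i ∧ k ≠ j := by decide
  have hef : ∀ i j : Fin 3, i ≠ j → act z (φ j).1 = al i • (φ j).1 ∧ act z (φ j).2 = al i • (φ j).2 := by
    intro i j hij
    obtain ⟨k, hki, hkj⟩ := third i j hij
    constructor
    · exact act_singular hQ hq hz (hφ.1 i) (hφ.1 k) (hφ.2 i k hki.symm) (hφ.1 j).1
        (hφ.2 j i hij.symm).1 (hφ.2 j k hkj.symm).1 (hal i)
    · exact act_singular hQ hq hz (hφ.1 i) (hφ.1 k) (hφ.2 i k hki.symm) (hφ.1 j).2.1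
        (hφ.2 j i hij.symm).2 (hφ.2 j k hkj.symm).2 (hal i)
  have hconst : ∀ i j : Fin 3, al i = al j := by
    intro i j
    by_cases hij : i = j
    · rw [hij]
    have h1 := hal j
    rw [act_add, (hef i j hij).1, (hef i j hij).2, ← smul_add] at h1
    have h2 : (al i - al j) • ((φ j).1 + (φ j).2) = 0 := by rw [sub_smul, h1, sub_self]
    rcases smul_eq_zero.1 h2 with h | h
    · exact sub_eq_zero.1 h
    · exact absurd h (hne j)
  have hE : ∀ j : Fin 3, act z (φ j).1 = al 0 • (φ j).1 ∧ act z (φ j).2 = al 0 • (φ j).2 := by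
    intro j
    by_cases hj : (0 : Fin 3) = j
    · have := hef 1 j (by rw [← hj]; decide)
      rwa [hconst 1 0] at this
    · exact hef 0 j hj
  have hperp : ∀ w, Perp Q φ w → act z w = al 0 • w := by
    intro w hw
    by_cases hQw : Q w = 0
    · exact act_singular hQ hq hz (hφ.1 0) (hφ.1 1) (hφ.2 0 1 (by decide)) hQw (hw 0) (hw 1) (hal 0)
    · obtain ⟨γ, hγ⟩ := act_eigen hQ hq hz (hφ.1 0) (hw 0) hQw
      have hQw' : Q (w + (φ 0).1) ≠ 0 := by
        rw [QuadraticMap.map_add Q, (hφ.1 0).1, (hw 0).1]; simpa using hQw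
      obtain ⟨γ', hγ'⟩ := act_eigen hQ hq hz (hφ.1 1) ((hw 1).add (hφ.2 0 1 (by decide)).1) hQw'
      rw [act_add, hγ, (hE 0).1] at hγ'
      have h1 := congrArg (fun v => polar Q v (φ 0).2) hγ'
      simp only [polar_add_left, polar_smul_left, (hw 0).2, (hφ.1 0).2.2, smul_eq_mul, mul_zero,
        zero_add, mul_one] at h1
      rw [← h1, smul_add, add_left_inj] at hγ'
      rw [hγ, hγ']
  refine ⟨al 0, fun x => ?_⟩
  obtain ⟨w, hw⟩ : ∃ w, w = x - ∑ i, (polar Q x (φ i).2 • (φ i).1 + polar Q x (φ i).1 • (φ i).2) :=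
    ⟨_, rfl⟩
  have hwp : Perp Q φ w := by
    intro j
    have hsum1 : ∀ j : Fin 3, polar Q (∑ i, (polar Q x (φ i).2 • (φ i).1
        + polar Q x (φ i).1 • (φ i).2)) (φ j).1 = polar Q x (φ j).1 := by
      intro j
      have hlin : polar Q (∑ i, (polar Q x (φ i).2 • (φ i).1
        + polar Q x (φ i).1 • (φ i).2)) (φ j).1 = ∑ i, polar Q (polar Q x (φ i).2 • (φ i).1
        + polar Q x (φ i).1 • (φ i).2) (φ j).1 := by
        simp only [Fin.sum_univ_three, polar_add_left]
      rw [hlin, Finset.sum_eq_single j]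
      · rw [polar_add_left, polar_smul_left, polar_smul_left, polar_self_of_zero (hφ.1 j).1,
          polar_comm Q (φ j).2, (hφ.1 j).2.2]
        simp
      · intro i _ hij
        rw [polar_add_left, polar_smul_left, polar_smul_left, (hφ.2 i j hij).1.1,
          (hφ.2 i j hij).2.1]
        simp
      · simp
    have hsum2 : ∀ j : Fin 3, polar Q (∑ i, (polar Q x (φ i).2 • (φ i).1
        + polar Q x (φ i).1 • (φ i).2)) (φ j).2 = polar Q x (φ j).2 := by
      intro j
      have hlin : polar Q (∑ i, (polar Q x (φ i).2 • (φ i).1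
        + polar Q x (φ i).1 • (φ i).2)) (φ j).2 = ∑ i, polar Q (polar Q x (φ i).2 • (φ i).1
        + polar Q x (φ i).1 • (φ i).2) (φ j).2 := by
        simp only [Fin.sum_univ_three, polar_add_left]
      rw [hlin, Finset.sum_eq_single j]
      · rw [polar_add_left, polar_smul_left, polar_smul_left, polar_self_of_zero (hφ.1 j).2.1,
          (hφ.1 j).2.2]
        simp
      · intro i _ hij
        rw [polar_add_left, polar_smul_left, polar_smul_left, (hφ.2 i j hij).1.2,
          (hφ.2 i j hij).2.2]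
        simp
      · simp
    constructor
    · rw [hw, polar_sub_left, hsum1, sub_self]
    · rw [hw, polar_sub_left, hsum2, sub_self]
  have hx : x = w + ∑ i, (polar Q x (φ i).2 • (φ i).1 + polar Q x (φ i).1 • (φ i).2) := by
    rw [hw]; abel
  rw [hx, act_add, hperp w hwp]
  simp only [Fin.sum_univ_three, act_add, act_smul, (hE 0).1, (hE 0).2, (hE 1).1, (hE 1).2,
    (hE 2).1, (hE 2).2]
  module

theorem coe_eq_one_or_neg_one (φ : Fin 3 → (ι → F) × (ι → F)) (hφ : IsFrame Q φ) :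
    ((z : Matrix.GeneralLinearGroup ι F) : Matrix ι ι F) = 1 ∨
      ((z : Matrix.GeneralLinearGroup ι F) : Matrix ι ι F) = -1 := by
  obtain ⟨α, hα⟩ := act_scalar hQ hq hz φ hφ
  have hQu : Q ((φ 0).1 + (φ 0).2) = 1 := by
    rw [QuadraticMap.map_add Q, (hφ.1 0).1, (hφ.1 0).2.1, (hφ.1 0).2.2]; simp
  have h1 := Q_act z ((φ 0).1 + (φ 0).2)
  rw [hα, QuadraticMap.map_smul, hQu, smul_eq_mul, mul_one] at h1
  rcases mul_self_eq_one_iff.1 h1 with rfl | rfl
  · left
    apply Matrix.mulVec_injective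
    funext x
    rw [Matrix.one_mulVec]
    have := hα x
    rwa [one_smul] at this
  · right
    apply Matrix.mulVec_injective
    funext x
    rw [Matrix.neg_mulVec, Matrix.one_mulVec]
    have := hα x
    rwa [neg_smul, one_smul] at this

end main

section card

variable [Fintype F] (hQ : (QuadraticMap.polarBilin Q).Nondegenerate)
  (hq : Fintype.card F ≠ 2 ∨ Fintype.card ι ≠ 4)
  (φ : Fin 3 → (ι → F) × (ι → F)) (hφ : IsFrame Q φ)

theorem cent_of_mem_center (z : ↥(Cfsg.Omega F ⇑Q)) (hz : z ∈ Subgroup.center ↥(Cfsg.Omega F ⇑Q)) :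
    Cent (z : GG Q) := by
  intro t ht
  rw [Subgroup.mem_center_iff] at hz
  have := hz ⟨t, ht⟩
  exact (congrArg Subtype.val this).symm

include hQ hq hφ

theorem card_center_eq_one
    (h : ∀ g : GG Q, g ∈ Cfsg.Omega F ⇑Q →
      ((g : Matrix.GeneralLinearGroup ι F) : Matrix ι ι F) = -1 → (2 : F) = 0) :
    Nat.card (Subgroup.center ↥(Cfsg.Omega F ⇑Q)) = 1 := by
  rw [Subgroup.card_eq_one, Subgroup.eq_bot_iff_forall]
  intro z hz
  apply Subtype.ext
  apply iso_ext
  rcases coe_eq_one_or_neg_one hQ hq (cent_of_mem_center z hz) φ hφ with h1 | h1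
  · exact h1
  · have h2 := h z z.2 h1
    rw [h1]
    show (-1 : Matrix ι ι F) = 1
    rw [neg_eq_iff_add_eq_zero, ← two_smul F (1 : Matrix ι ι F), h2, zero_smul]

theorem card_center_eq_two (h2 : (2 : F) ≠ 0) (g0 : GG Q) (hg0 : g0 ∈ Cfsg.Omega F ⇑Q)
    (hg : ((g0 : Matrix.GeneralLinearGroup ι F) : Matrix ι ι F) = -1) :
    Nat.card (Subgroup.center ↥(Cfsg.Omega F ⇑Q)) = 2 := by
  have hc : (⟨g0, hg0⟩ : ↥(Cfsg.Omega F ⇑Q)) ∈ Subgroup.center ↥(Cfsg.Omega F ⇑Q) := by
    rw [Subgroup.mem_center_iff]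
    intro t
    apply Subtype.ext
    apply iso_ext
    show ((t : GG Q) : Matrix.GeneralLinearGroup ι F).1 * (g0 : Matrix.GeneralLinearGroup ι F).1
      = (g0 : Matrix.GeneralLinearGroup ι F).1 * ((t : GG Q) : Matrix.GeneralLinearGroup ι F).1
    have hg' : (g0 : Matrix.GeneralLinearGroup ι F).1 = -1 := hg
    rw [hg']
    simp
  rw [Nat.card_eq_two_iff]
  refine ⟨1, ⟨⟨g0, hg0⟩, hc⟩, ?_, ?_⟩
  · intro h1
    have h3 : (1 : GG Q) = g0 := congrArg (fun t : Subgroup.center ↥(Cfsg.Omega F ⇑Q) =>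
      ((t : ↥(Cfsg.Omega F ⇑Q)) : GG Q)) h1
    have h4 : (1 : Matrix ι ι F) = -1 := by
      rw [← hg, ← h3]; rfl
    have hQu : Q ((φ 0).1 + (φ 0).2) = 1 := by
      rw [QuadraticMap.map_add Q, (hφ.1 0).1, (hφ.1 0).2.1, (hφ.1 0).2.2]; simp
    have h5 := congrArg (fun M : Matrix ι ι F => M *ᵥ ((φ 0).1 + (φ 0).2)) h4
    simp only [Matrix.one_mulVec, Matrix.neg_mulVec] at h5
    have h6 : (2 : F) • ((φ 0).1 + (φ 0).2) = 0 := by
      rw [two_smul]
      nth_rewrite 1 [h5]
      simp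
    rcases smul_eq_zero.1 h6 with h | h
    · exact h2 h
    · rw [h, QuadraticMap.map_zero] at hQu
      exact zero_ne_one hQu
  · rw [Set.eq_univ_iff_forall]
    intro z
    rcases coe_eq_one_or_neg_one hQ hq (cent_of_mem_center z.1 z.2) φ hφ with h1 | h1
    · left
      apply Subtype.ext
      apply Subtype.ext
      apply iso_ext
      exact h1
    · right
      apply Subtype.ext
      apply Subtype.ext
      apply iso_ext
      rw [h1]
      exact hg.symm

end card

theorem card_mul_mul (Qf : (ι → F) → F) :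
    Nat.card (Cfsg.POmega F Qf) * Nat.card (Subgroup.center ↥(Cfsg.Omega F Qf))
      * (Cfsg.Omega F Qf).index = Nat.card ↥(Cfsg.isometryGroup F Qf) := by
  rw [← Subgroup.card_eq_card_quotient_mul_card_subgroup, Subgroup.card_mul_index]

theorem isFrame_castLE {V : Type*} [AddCommGroup V] [Module F V] {Q : QuadraticForm F V} {m : ℕ}
    {φ : Fin m → V × V} (hφ : IsFrame Q φ) (h : 3 ≤ m) :
    IsFrame Q (fun i : Fin 3 => φ (Fin.castLE h i)) :=
  ⟨fun i => hφ.1 _, fun i j hij => hφ.2 _ _ (fun h' => hij (Fin.castLE_injective h h'))⟩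

end Cfsg.Agent.Lib.Helper7OCenter
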