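import Cfsg.Agent.Lib.Helper43OgDefs
import Cfsg.Agent.Lib.Helper49Rank
import Cfsg.Agent.Lib.Helper49OddForm
import Cfsg.Agent.Lib.Helper7OCenter
import Cfsg.Agent.Lib.Helper49All
import Cfsg.Agent.Lib.Helper77SpTgam
import Cfsg.Agent.Lib.Helper65Sptcoprime

set_option autoImplicit false

/-! Project 413, piece `aact`.  Sketch: notes/helper43/Og.md -/

namespace Cfsg.Agent.Lib.H43OgAact

open Cfsg.Agent.Lib.Helper43Sp (I ng ab gam)
open Cfsg.Agent.Lib.Helper49Eich (E)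
open Cfsg.Agent.Lib.Helper49Orth (reflO)
open Cfsg.Agent.Lib.Helper49Par (RootSet)
open Cfsg.Agent.Lib.Helper49Forms (QPlus QOdd QMinus)
open Cfsg.Agent.Lib.Helper43Og

variable {F : Type*} [Field F] {ι : Type} [Fintype ι] [DecidableEq ι] {Q : QuadraticForm F (ι → F)}

theorem act_one (x : ι → F) : act (1 : GG Q) x = x :=
  Cfsg.Agent.Lib.Helper49Eich.one_mulVec' Q x
theorem act_mul (g h : GG Q) (x : ι → F) : act (g * h) x = act g (act h x) :=
  Cfsg.Agent.Lib.Helper49Eich.mul_mulVec Q g h x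
theorem act_inv_act (g : GG Q) (x : ι → F) : act g⁻¹ (act g x) = x :=
  Cfsg.Agent.Lib.Helper49Eich.inv_mulVec_mulVec Q g x
theorem act_act_inv (g : GG Q) (x : ι → F) : act g (act g⁻¹ x) = x :=
  Cfsg.Agent.Lib.Helper49Eich.mulVec_inv_mulVec Q g x
theorem act_add (g : GG Q) (x y : ι → F) : act g (x + y) = act g x + act g y :=
  Matrix.mulVec_add _ x y
theorem act_smul (g : GG Q) (t : F) (x : ι → F) : act g (t • x) = t • act g x :=
  Matrix.mulVec_smul _ t x
theorem act_Q (g : GG Q) (x : ι → F) : Q (act g x) = Q x :=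
  Cfsg.Agent.Lib.Helper49Orth.iso_apply (Q := ⇑Q) g x
theorem act_BB (g : GG Q) (x y : ι → F) : BB Q (act g x) (act g y) = BB Q x y :=
  Cfsg.Agent.Lib.Helper49Orth.polar_iso Q g x y
theorem E_act {e w : ι → F} (he : Q e = 0) (hw : BB Q e w = 0) (x : ι → F) :
    act (E Q e w) x = x + (BB Q x w - Q w * BB Q x e) • e - BB Q x e • w :=
  Cfsg.Agent.Lib.Helper49Eich.E_apply Q he hw x
theorem E_cj (g : GG Q) {e w : ι → F} (he : Q e = 0) (hw : BB Q e w = 0) :
    g * E Q e w * g⁻¹ = E Q (act g e) (act g w) :=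
  Cfsg.Agent.Lib.Helper49Eich.E_conj Q g he hw
theorem refl_act {u : ι → F} (hu : Q u ≠ 0) (x : ι → F) : act (reflO Q hu) x = rf Q u x := by
  unfold act rf
  rw [Cfsg.Agent.Lib.Helper49Orth.coe_reflO, Cfsg.Agent.Lib.Helper49Orth.refl_mulVec]

end Cfsg.Agent.Lib.H43OgAact
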