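import Cfsg.Agent.Lib.Helper43OgDefs
import Cfsg.Agent.Lib.Helper49Rank
import Cfsg.Agent.Lib.Helper49OddForm
import Cfsg.Agent.Lib.Helper7OCenter
import Cfsg.Agent.Lib.Helper49All
import Cfsg.Agent.Lib.Helper77SpTgam
import Cfsg.Agent.Lib.Helper65Sptcoprime
import Cfsg.Agent.Lib.H43OgAact

set_option autoImplicit false

/-! Project 413, piece `aext`.  Sketch: notes/helper43/Og.md -/

namespace Cfsg.Agent.Lib.H43OgAext

open Cfsg.Agent.Lib.Helper43Sp (I ng ab gam)
open Cfsg.Agent.Lib.Helper49Eich (E)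
open Cfsg.Agent.Lib.Helper49Orth (reflO)
open Cfsg.Agent.Lib.Helper49Par (RootSet)
open Cfsg.Agent.Lib.Helper49Forms (QPlus QOdd QMinus)
open Cfsg.Agent.Lib.Helper43Og
open Cfsg.Agent.Lib.H43OgAact

variable {F : Type*} [Field F] {ι : Type} [Fintype ι] [DecidableEq ι] {Q : QuadraticForm F (ι → F)}

theorem ext_frame {k : ℕ} (Φ : Frame Q k) (g h : GG Q) (h1 : ∀ a, act g (Φ.v a) = act h (Φ.v a))
    (h2 : ∀ w ∈ Φ.V0, act g w = act h w) : g = h := by
  have hzero : ∀ g : GG Q, act g (0 : ι → F) = 0 := by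
    intro g
    have := act_smul g 0 (0 : ι → F)
    simpa using this
  have hsum : ∀ (g : GG Q) (s : Finset (I k)) (c : I k → F),
      act g (∑ a ∈ s, c a • Φ.v a) = ∑ a ∈ s, c a • act g (Φ.v a) := by
    intro g s c
    classical
    induction s using Finset.induction_on with
    | empty => simpa using hzero g
    | insert a s ha ih => rw [Finset.sum_insert ha, Finset.sum_insert ha, act_add, act_smul, ih]
  apply Cfsg.Agent.Lib.Helper49Eich.ext_mulVec
  intro x
  show act g x = act h x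
  obtain ⟨c, w, hw, rfl⟩ := Φ.span x
  rw [act_add, act_add, hsum, hsum, h2 w hw]
  congr 1
  apply Finset.sum_congr rfl
  intro a _
  rw [h1]

end Cfsg.Agent.Lib.H43OgAext
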