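import Cfsg.Agent.Lib.Helper43OgDefs
import Cfsg.Agent.Lib.Helper49Rank
import Cfsg.Agent.Lib.Helper49OddForm
import Cfsg.Agent.Lib.Helper7OCenter
import Cfsg.Agent.Lib.Helper49All
import Cfsg.Agent.Lib.Helper77SpTgam
import Cfsg.Agent.Lib.Helper65Sptcoprime
import Cfsg.Agent.Lib.H43OgAact

set_option autoImplicit false

/-! Project 413, piece `arf`.  Sketch: notes/helper43/Og.md -/

namespace Cfsg.Agent.Lib.H43OgArf

open Cfsg.Agent.Lib.Helper43Sp (I ng ab gam)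
open Cfsg.Agent.Lib.Helper49Eich (E)
open Cfsg.Agent.Lib.Helper49Orth (reflO)
open Cfsg.Agent.Lib.Helper49Par (RootSet)
open Cfsg.Agent.Lib.Helper49Forms (QPlus QOdd QMinus)
open Cfsg.Agent.Lib.Helper43Og
open Cfsg.Agent.Lib.H43OgAact

variable {F : Type*} [Field F] {ι : Type} [Fintype ι] [DecidableEq ι] {Q : QuadraticForm F (ι → F)}

theorem rf_mem {k : ℕ} (Φ : Frame Q k) (w0 : ι → F) (h0 : w0 ∈ Φ.V0) (w : ι → F) (hw : w ∈ Φ.V0) :
    rf Q w0 w ∈ Φ.V0 := by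
  unfold rf
  exact Φ.V0.sub_mem hw (Φ.V0.smul_mem _ h0)
theorem rf_rf (w0 : ι → F) (h : Q w0 ≠ 0) (w : ι → F) : rf Q w0 (rf Q w0 w) = w := by
  unfold rf
  have e1 : BB Q w0 (w - ((Q w0)⁻¹ * BB Q w0 w) • w0)
      = BB Q w0 w - ((Q w0)⁻¹ * BB Q w0 w) * (2 * Q w0) := by
    show QuadraticMap.polar ⇑Q w0 (w - ((Q w0)⁻¹ * BB Q w0 w) • w0) = _
    rw [QuadraticMap.polar_sub_right, QuadraticMap.polar_smul_right, QuadraticMap.polar_self]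
    simp only [smul_eq_mul, nsmul_eq_mul]
    norm_num
  rw [e1]
  have key : (Q w0)⁻¹ * BB Q w0 w
      + (Q w0)⁻¹ * (BB Q w0 w - ((Q w0)⁻¹ * BB Q w0 w) * (2 * Q w0)) = 0 := by
    field_simp
    ring
  have : w - ((Q w0)⁻¹ * BB Q w0 w) • w0
      - ((Q w0)⁻¹ * (BB Q w0 w - ((Q w0)⁻¹ * BB Q w0 w) * (2 * Q w0))) • w0
      = w - ((Q w0)⁻¹ * BB Q w0 w
      + (Q w0)⁻¹ * (BB Q w0 w - ((Q w0)⁻¹ * BB Q w0 w) * (2 * Q w0))) • w0 := by
    rw [add_smul]; abel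
  rw [this, key, zero_smul, sub_zero]
theorem rf_smul (w0 : ι → F) (t : F) (w : ι → F) : rf Q w0 (t • w) = t • rf Q w0 w := by
  unfold rf
  have e1 : BB Q w0 (t • w) = t * BB Q w0 w := by
    show QuadraticMap.polar ⇑Q w0 (t • w) = _
    rw [QuadraticMap.polar_smul_right, smul_eq_mul]
  rw [e1, smul_sub, smul_smul]
  congr 2
  ring

end Cfsg.Agent.Lib.H43OgArf
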