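import Cfsg.Agent.Lib.Helper43OgDefs
import Cfsg.Agent.Lib.Helper49Rank
import Cfsg.Agent.Lib.Helper49OddForm
import Cfsg.Agent.Lib.Helper7OCenter
import Cfsg.Agent.Lib.Helper49All
import Cfsg.Agent.Lib.Helper77SpTgam
import Cfsg.Agent.Lib.Helper65Sptcoprime
import Cfsg.Agent.Lib.H43OgAact
import Cfsg.Agent.Lib.H43OgArf

set_option autoImplicit false

/-! Project 413, piece `cn0`.  Sketch: notes/helper43/Og.md -/

namespace Cfsg.Agent.Lib.H43OgCn0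

open Cfsg.Agent.Lib.Helper43Sp (I ng ab gam)
open Cfsg.Agent.Lib.Helper49Eich (E)
open Cfsg.Agent.Lib.Helper49Orth (reflO)
open Cfsg.Agent.Lib.Helper49Par (RootSet)
open Cfsg.Agent.Lib.Helper49Forms (QPlus QOdd QMinus)
open Cfsg.Agent.Lib.Helper43Og
open Cfsg.Agent.Lib.H43OgAact
open Cfsg.Agent.Lib.H43OgArf

variable {F : Type*} [Field F] {ι : Type} [Fintype ι] [DecidableEq ι] {Q : QuadraticForm F (ι → F)}
variable [Fintype F] {k : ℕ} (Φ : Frame Q k)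

theorem ng_ng' (a : I k) : ng (ng a) = a := by
  cases a <;> rfl

theorem ng_ne' (a : I k) : a ≠ ng a := by
  cases a <;> simp [ng]

theorem ab_ng' (a : I k) : ab (ng a) = ab a := by
  cases a <;> rfl

theorem exists_n0 (hQ : (QuadraticMap.polarBilin Q).Nondegenerate) (hn : 5 ≤ Fintype.card ι)
    (a : I k) (w0 : ι → F) (h0 : w0 ∈ Φ.V0) (hQ0 : Q w0 ≠ 0) :
    ∃ g ∈ Cfsg.Omega F ⇑Q, act g (Φ.v a) = (-(Q w0)) • Φ.v (ng a) ∧
      act g (Φ.v (ng a)) = (-(Q w0)⁻¹) • Φ.v a ∧ (∀ b : I k, ab b ≠ ab a → act g (Φ.v b) = Φ.v b) ∧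
      ∀ w ∈ Φ.V0, act g w = rf Q w0 w := by
  set μ : F := Q w0 with hμ
  set u : ι → F := Φ.v a + μ • Φ.v (ng a) with hu
  have hB1 : BB Q (Φ.v a) (Φ.v (ng a)) = 1 := by rw [Φ.pol]; simp
  have hB2 : BB Q (Φ.v (ng a)) (Φ.v a) = 1 := by rw [Φ.pol, ng_ng']; simp
  have hB3 : BB Q (Φ.v a) (Φ.v a) = 0 := by rw [Φ.pol, if_neg (ng_ne' a)]
  have hB4 : BB Q (Φ.v (ng a)) (Φ.v (ng a)) = 0 := by
    rw [Φ.pol, if_neg (ng_ne' (ng a))]
  have hQu : Q u = μ := by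
    rw [hu, QuadraticMap.map_add (⇑Q), QuadraticMap.map_smul, Φ.sing, Φ.sing,
      QuadraticMap.polar_smul_right]
    have h : QuadraticMap.polar (⇑Q) (Φ.v a) (Φ.v (ng a)) = 1 := hB1
    rw [h]
    simp
  have hu0 : Q u ≠ 0 := by rw [hQu]; exact hQ0
  have hBu : ∀ x, BB Q u x = BB Q (Φ.v a) x + μ * BB Q (Φ.v (ng a)) x := by
    intro x
    show QuadraticMap.polar (⇑Q) u x = _
    rw [hu, QuadraticMap.polar_add_left, QuadraticMap.polar_smul_left, smul_eq_mul]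
  have hact : ∀ x, act (reflO Q hu0 * reflO Q hQ0) x = rf Q u (rf Q w0 x) := by
    intro x
    rw [act_mul, refl_act, refl_act]
  have hfix : ∀ y x : ι → F, BB Q y x = 0 → rf Q y x = x := by
    intro y x hx
    unfold rf
    rw [hx]
    simp
  have hw0 : ∀ b, rf Q w0 (Φ.v b) = Φ.v b := by
    intro b
    apply hfix
    show QuadraticMap.polar (⇑Q) w0 (Φ.v b) = 0
    rw [QuadraticMap.polar_comm]
    exact Φ.perp b w0 h0
  have hmm : μ⁻¹ * μ = 1 := inv_mul_cancel₀ hQ0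
  refine ⟨reflO Q hu0 * reflO Q hQ0,
    Cfsg.Agent.Lib.Helper7OCenter.pair_mem hQ (Or.inr (by omega)) hu0 hQ0 hQu, ?_, ?_, ?_, ?_⟩
  · rw [hact, hw0]
    unfold rf
    rw [hBu, hB3, hB2, hQu, zero_add, mul_one, hmm, hu]
    module
  · rw [hact, hw0]
    unfold rf
    rw [hBu, hB1, hB4, hQu, mul_zero, add_zero, mul_one, hu, smul_add, smul_smul, hmm]
    module
  · intro b hb
    rw [hact, hw0]
    apply hfix
    rw [hBu, Φ.pol, Φ.pol, ng_ng', if_neg, if_neg]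
    · simp
    · rintro rfl
      exact hb rfl
    · rintro rfl
      exact hb (ab_ng' a)
  · intro w hw
    rw [hact]
    apply hfix
    have h1 := rf_mem Φ w0 h0 w hw
    rw [hBu, Φ.perp a _ h1, Φ.perp (ng a) _ h1]
    simp

end Cfsg.Agent.Lib.H43OgCn0
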