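import Cfsg.Agent.Lib.Helper43OgDefs
import Cfsg.Agent.Lib.Helper49Rank
import Cfsg.Agent.Lib.Helper49OddForm
import Cfsg.Agent.Lib.Helper7OCenter
import Cfsg.Agent.Lib.Helper49All
import Cfsg.Agent.Lib.Helper77SpTgam
import Cfsg.Agent.Lib.Helper65Sptcoprime
import Cfsg.Agent.Lib.H43OgAact

set_option autoImplicit false

/-! Project 413, piece `cnn`.  Sketch: notes/helper43/Og.md -/

namespace Cfsg.Agent.Lib.H43OgCnn

open Cfsg.Agent.Lib.Helper43Sp (I ng ab gam)
open Cfsg.Agent.Lib.Helper49Eich (E)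
open Cfsg.Agent.Lib.Helper49Orth (reflO)
open Cfsg.Agent.Lib.Helper49Par (RootSet)
open Cfsg.Agent.Lib.Helper49Forms (QPlus QOdd QMinus)
open Cfsg.Agent.Lib.Helper43Og
open Cfsg.Agent.Lib.H43OgAact

variable {F : Type*} [Field F] {ι : Type} [Fintype ι] [DecidableEq ι] {Q : QuadraticForm F (ι → F)}
variable [Fintype F] {k : ℕ} (Φ : Frame Q k)

theorem ng_ng' {m : ℕ} (a : I m) : ng (ng a) = a := by
  cases a <;> rfl

theorem ab_ng' {m : ℕ} (a : I m) : ab (ng a) = ab a := by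
  cases a <;> rfl

theorem ne_ng' {m : ℕ} (a : I m) : a ≠ ng a := by
  cases a <;> simp [ng]

theorem exists_nn (hQ : (QuadraticMap.polarBilin Q).Nondegenerate) (hn : 5 ≤ Fintype.card ι)
    (a b : I k) (hab : ab a ≠ ab b) :
    ∃ g ∈ Cfsg.Omega F ⇑Q, act g (Φ.v a) = - Φ.v b ∧ act g (Φ.v b) = Φ.v a ∧
      act g (Φ.v (ng a)) = - Φ.v (ng b) ∧ act g (Φ.v (ng b)) = Φ.v (ng a) ∧
      ∀ x, BB Q (Φ.v a) x = 0 → BB Q (Φ.v (ng a)) x = 0 → BB Q (Φ.v b) x = 0 → BB Q (Φ.v (ng b)) x = 0 →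
        act g x = x := by
  classical
  have n1 : b ≠ a := fun h => hab (by rw [h])
  have n2 : b ≠ ng a := fun h => hab (by rw [h, ab_ng'])
  have n3 : ng b ≠ a := fun h => hab (by rw [← h, ab_ng'])
  have n4 : ng b ≠ ng a := fun h => hab (by rw [← ab_ng' a, ← h, ab_ng'])
  have n5 := ne_ng' a
  have n6 := ne_ng' b
  obtain ⟨ea, hea⟩ : ∃ ea, ea = Φ.v a := ⟨_, rfl⟩
  obtain ⟨eb, heb⟩ : ∃ eb, eb = Φ.v b := ⟨_, rfl⟩
  obtain ⟨fa, hfa⟩ : ∃ fa, fa = Φ.v (ng a) := ⟨_, rfl⟩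
  obtain ⟨fb, hfb⟩ : ∃ fb, fb = Φ.v (ng b) := ⟨_, rfl⟩
  have paa : QuadraticMap.polar ⇑Q ea ea = 0 := by rw [hea]; exact (Φ.pol a a).trans (if_neg n5)
  have pab : QuadraticMap.polar ⇑Q ea eb = 0 := by rw [hea, heb]; exact (Φ.pol a b).trans (if_neg n2)
  have paA : QuadraticMap.polar ⇑Q ea fa = 1 := by rw [hea, hfa]; exact (Φ.pol a (ng a)).trans (if_pos rfl)
  have paB : QuadraticMap.polar ⇑Q ea fb = 0 := by rw [hea, hfb]; exact (Φ.pol a (ng b)).trans (if_neg n4)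
  have pbb : QuadraticMap.polar ⇑Q eb eb = 0 := by rw [heb]; exact (Φ.pol b b).trans (if_neg n6)
  have pbA : QuadraticMap.polar ⇑Q eb fa = 0 := by
    rw [heb, hfa]; exact (Φ.pol b (ng a)).trans (if_neg (fun h => n4 h.symm))
  have pbB : QuadraticMap.polar ⇑Q eb fb = 1 := by rw [heb, hfb]; exact (Φ.pol b (ng b)).trans (if_pos rfl)
  have pAA : QuadraticMap.polar ⇑Q fa fa = 0 := by
    rw [hfa]; exact (Φ.pol (ng a) (ng a)).trans (if_neg (ne_ng' (ng a)))
  have pAB : QuadraticMap.polar ⇑Q fa fb = 0 := by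
    rw [hfa, hfb]; exact (Φ.pol (ng a) (ng b)).trans (if_neg (by rw [ng_ng']; exact n3))
  have pBB : QuadraticMap.polar ⇑Q fb fb = 0 := by
    rw [hfb]; exact (Φ.pol (ng b) (ng b)).trans (if_neg (ne_ng' (ng b)))
  have pba : QuadraticMap.polar ⇑Q eb ea = 0 := by rw [QuadraticMap.polar_comm]; exact pab
  have pAa : QuadraticMap.polar ⇑Q fa ea = 1 := by rw [QuadraticMap.polar_comm]; exact paA
  have pBa : QuadraticMap.polar ⇑Q fb ea = 0 := by rw [QuadraticMap.polar_comm]; exact paB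
  have pAb : QuadraticMap.polar ⇑Q fa eb = 0 := by rw [QuadraticMap.polar_comm]; exact pbA
  have pBb : QuadraticMap.polar ⇑Q fb eb = 1 := by rw [QuadraticMap.polar_comm]; exact pbB
  have pBA : QuadraticMap.polar ⇑Q fb fa = 0 := by rw [QuadraticMap.polar_comm]; exact pAB
  have qa : Q ea = 0 := by rw [hea]; exact Φ.sing a
  have qb : Q eb = 0 := by rw [heb]; exact Φ.sing b
  have qA : Q fa = 0 := by rw [hfa]; exact Φ.sing _
  have qB : Q fb = 0 := by rw [hfb]; exact Φ.sing _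
  have hw2 : BB Q eb (-fa) = 0 := by
    show QuadraticMap.polar ⇑Q eb (-fa) = 0
    rw [QuadraticMap.polar_neg_right, pbA, neg_zero]
  have X1 : ∀ x, act (E Q ea fb) x
      = x + QuadraticMap.polar ⇑Q x fb • ea - QuadraticMap.polar ⇑Q x ea • fb := by
    intro x
    rw [E_act qa paB, qB, zero_mul, sub_zero]
  have X2 : ∀ x, act (E Q eb (-fa)) x
      = x - QuadraticMap.polar ⇑Q x fa • eb + QuadraticMap.polar ⇑Q x eb • fa := by
    intro x
    rw [E_act qb hw2, QuadraticMap.map_neg, qA, zero_mul, sub_zero]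
    show x + QuadraticMap.polar ⇑Q x (-fa) • eb - QuadraticMap.polar ⇑Q x eb • (-fa) = _
    rw [QuadraticMap.polar_neg_right]
    module
  have m1 : E Q ea fb ∈ Cfsg.Omega F ⇑Q := Cfsg.Agent.Lib.Helper49EichGen.E_mem_Omega Q hQ hn qa paB
  have m2 : E Q eb (-fa) ∈ Cfsg.Omega F ⇑Q := Cfsg.Agent.Lib.Helper49EichGen.E_mem_Omega Q hQ hn qb hw2
  rw [← hea, ← heb, ← hfa, ← hfb]
  refine ⟨E Q ea fb * E Q eb (-fa) * E Q ea fb,
    Subgroup.mul_mem _ (Subgroup.mul_mem _ m1 m2) m1, ?_, ?_, ?_, ?_, ?_⟩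
  · rw [act_mul, act_mul, X1 ea]
    simp only [paa, paB, zero_smul, add_zero, sub_zero]
    rw [X2 ea]
    simp only [paA, pab, zero_smul, add_zero, one_smul]
    rw [X1]
    simp only [QuadraticMap.polar_sub_left, paa, paB, pbB, pba, zero_smul, sub_zero]
    module
  · rw [act_mul, act_mul, X1 eb]
    simp only [pbB, pba, zero_smul, sub_zero, one_smul]
    rw [X2]
    simp only [QuadraticMap.polar_add_left, pbA, paA, pbb, pab, add_zero, zero_add, zero_smul, one_smul]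
    have : eb + ea - eb = ea := by abel
    rw [this, X1 ea]
    simp only [paa, paB, zero_smul, add_zero, sub_zero]
  · rw [act_mul, act_mul, X1 fa]
    simp only [pAB, pAa, zero_smul, add_zero, one_smul]
    rw [X2]
    simp only [QuadraticMap.polar_sub_left, pAA, pBA, pAb, pBb, sub_zero, zero_sub, zero_smul]
    have : fa - fb + (-1 : F) • fa = -fb := by module
    rw [this, X1]
    simp only [QuadraticMap.polar_neg_left, pBB, pBa, neg_zero, zero_smul, add_zero, sub_zero]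
  · rw [act_mul, act_mul, X1 fb]
    simp only [pBB, pBa, zero_smul, add_zero, sub_zero]
    rw [X2 fb]
    simp only [pBA, pBb, zero_smul, sub_zero, one_smul]
    rw [X1]
    simp only [QuadraticMap.polar_add_left, pBB, pAB, pBa, pAa, add_zero, zero_add, zero_smul, one_smul]
    abel
  · intro x h1 h2 h3 h4
    have k1 : QuadraticMap.polar ⇑Q x ea = 0 := by rw [QuadraticMap.polar_comm]; exact h1
    have k2 : QuadraticMap.polar ⇑Q x fa = 0 := by rw [QuadraticMap.polar_comm]; exact h2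
    have k3 : QuadraticMap.polar ⇑Q x eb = 0 := by rw [QuadraticMap.polar_comm]; exact h3
    have k4 : QuadraticMap.polar ⇑Q x fb = 0 := by rw [QuadraticMap.polar_comm]; exact h4
    have y1 : act (E Q ea fb) x = x := by rw [X1, k1, k4]; simp
    have y2 : act (E Q eb (-fa)) x = x := by rw [X2, k2, k3]; simp
    rw [act_mul, act_mul, y1, y2, y1]

end Cfsg.Agent.Lib.H43OgCnn
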