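import Cfsg.Agent.Lib.Helper43OgDefs
import Cfsg.Agent.Lib.Helper49Rank
import Cfsg.Agent.Lib.Helper49OddForm
import Cfsg.Agent.Lib.Helper7OCenter
import Cfsg.Agent.Lib.Helper49All
import Cfsg.Agent.Lib.Helper77SpTgam
import Cfsg.Agent.Lib.Helper65Sptcoprime
import Cfsg.Agent.Lib.H43OgAact
import Cfsg.Agent.Lib.H43OgCnn

set_option autoImplicit false

/-! Project 413, piece `crotstep`.  Sketch: notes/helper43/Og.md -/

namespace Cfsg.Agent.Lib.H43OgCrotstep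

open Cfsg.Agent.Lib.Helper43Sp (I ng ab gam)
open Cfsg.Agent.Lib.Helper49Eich (E)
open Cfsg.Agent.Lib.Helper49Orth (reflO)
open Cfsg.Agent.Lib.Helper49Par (RootSet)
open Cfsg.Agent.Lib.Helper49Forms (QPlus QOdd QMinus)
open Cfsg.Agent.Lib.Helper43Og
open Cfsg.Agent.Lib.H43OgAact
open Cfsg.Agent.Lib.H43OgCnn

variable {F : Type*} [Field F] {ι : Type} [Fintype ι] [DecidableEq ι] {Q : QuadraticForm F (ι → F)}
variable [Fintype F] {k : ℕ} (Φ : Frame Q k)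

theorem exists_rot_aux (hQ : (QuadraticMap.polarBilin Q).Nondegenerate) (hn : 5 ≤ Fintype.card ι)
    (j : ℕ) (hj : j < k) :
    ∃ g ∈ Cfsg.Omega F ⇑Q, (∀ w ∈ Φ.V0, act g w = w) ∧
      (∀ i : Fin k, j < i.val → act g (Φ.v (Sum.inl i)) = Φ.v (Sum.inl i) ∧
        act g (Φ.v (Sum.inr i)) = Φ.v (Sum.inr i)) ∧
      (∀ (i : Fin k) (h : i.val < j), ∃ ε : F, ε ≠ 0 ∧
        act g (Φ.v (Sum.inl i)) = ε • Φ.v (Sum.inl ⟨i.val + 1, by omega⟩) ∧
        act g (Φ.v (Sum.inr i)) = ε • Φ.v (Sum.inr ⟨i.val + 1, by omega⟩)) ∧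
      (∃ ε : F, ε ≠ 0 ∧ act g (Φ.v (Sum.inl ⟨j, hj⟩)) = ε • Φ.v (Sum.inl ⟨0, by omega⟩) ∧
        act g (Φ.v (Sum.inr ⟨j, hj⟩)) = ε • Φ.v (Sum.inr ⟨0, by omega⟩)) := by
  classical
  induction j with
  | zero =>
    refine ⟨1, Subgroup.one_mem _, fun w _ => act_one w, fun i _ => ⟨act_one _, act_one _⟩,
      fun i h => absurd h (Nat.not_lt_zero _), 1, one_ne_zero, ?_, ?_⟩
    · rw [act_one, one_smul]
    · rw [act_one, one_smul]
  | succ j ih =>
    have hj' : j < k := by omega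
    obtain ⟨g, hg, hV, hfix, hlow, ε0, hε0, hl0, hr0⟩ := ih hj'
    have hab : ab (Sum.inl ⟨j, hj'⟩ : I k) ≠ ab (Sum.inl ⟨j + 1, hj⟩ : I k) := by
      simp [ab]
    obtain ⟨n, hn', na, nb, nA, nB, nfix⟩ :=
      exists_nn Φ hQ hn (Sum.inl ⟨j, hj'⟩) (Sum.inl ⟨j + 1, hj⟩) hab
    have ngl : ∀ i : Fin k, ng (Sum.inl i : I k) = Sum.inr i := fun _ => rfl
    have ngr : ∀ i : Fin k, ng (Sum.inr i : I k) = Sum.inl i := fun _ => rfl
    rw [ngl, ngl] at nA nB nfix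
    -- `n` fixes the frame vectors of the other indices
    have nother : ∀ i : Fin k, i.val ≠ j → i.val ≠ j + 1 →
        act n (Φ.v (Sum.inl i)) = Φ.v (Sum.inl i) ∧ act n (Φ.v (Sum.inr i)) = Φ.v (Sum.inr i) := by
      intro i h1 h2
      have e1 : i ≠ ⟨j, hj'⟩ := fun h => h1 (by rw [h])
      have e2 : i ≠ ⟨j + 1, hj⟩ := fun h => h2 (by rw [h])
      constructor
      · apply nfix
        · rw [Φ.pol, ngl]; simp
        · rw [Φ.pol, ngr]; simp [e1]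
        · rw [Φ.pol, ngl]; simp
        · rw [Φ.pol, ngr]; simp [e2]
      · apply nfix
        · rw [Φ.pol, ngl]; simp [e1]
        · rw [Φ.pol, ngr]; simp
        · rw [Φ.pol, ngl]; simp [e2]
        · rw [Φ.pol, ngr]; simp
    refine ⟨g * n, Subgroup.mul_mem _ hg hn', ?_, ?_, ?_, ?_⟩
    · intro w hw
      rw [act_mul, nfix w (Φ.perp _ w hw) (Φ.perp _ w hw) (Φ.perp _ w hw) (Φ.perp _ w hw), hV w hw]
    · intro i hi
      obtain ⟨h1, h2⟩ := nother i (by omega) (by omega)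
      obtain ⟨h3, h4⟩ := hfix i (by omega)
      exact ⟨by rw [act_mul, h1, h3], by rw [act_mul, h2, h4]⟩
    · intro i hi
      by_cases hij : i.val = j
      · have hi' : i = ⟨j, hj'⟩ := Fin.ext hij
        subst hi'
        obtain ⟨h3, h4⟩ := hfix ⟨j + 1, hj⟩ (by simp)
        refine ⟨-1, by simp, ?_, ?_⟩
        · rw [act_mul, na]
          have : act g (-Φ.v (Sum.inl ⟨j + 1, hj⟩)) = -Φ.v (Sum.inl ⟨j + 1, hj⟩) := by
            rw [← neg_one_smul F, act_smul, h3]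
          rw [this, neg_one_smul]
        · rw [act_mul, nA]
          have : act g (-Φ.v (Sum.inr ⟨j + 1, hj⟩)) = -Φ.v (Sum.inr ⟨j + 1, hj⟩) := by
            rw [← neg_one_smul F, act_smul, h4]
          rw [this, neg_one_smul]
      · obtain ⟨h1, h2⟩ := nother i hij (by omega)
        obtain ⟨ε, hε, h3, h4⟩ := hlow i (by omega)
        exact ⟨ε, hε, by rw [act_mul, h1, h3], by rw [act_mul, h2, h4]⟩
    · exact ⟨ε0, hε0, by rw [act_mul, nb, hl0], by rw [act_mul, nB, hr0]⟩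

end Cfsg.Agent.Lib.H43OgCrotstep
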