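import Cfsg.Agent.Lib.Helper43OgDefs
import Cfsg.Agent.Lib.Helper49Rank
import Cfsg.Agent.Lib.Helper49OddForm
import Cfsg.Agent.Lib.Helper7OCenter
import Cfsg.Agent.Lib.Helper49All
import Cfsg.Agent.Lib.Helper77SpTgam
import Cfsg.Agent.Lib.Helper65Sptcoprime
import Cfsg.Agent.Lib.H43OgAact
import Cfsg.Agent.Lib.H43OgCrotstep
import Cfsg.Agent.Lib.H43OgCn0

set_option autoImplicit false

/-! Project 413, piece `ccox`.  Sketch: notes/helper43/Og.md -/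

namespace Cfsg.Agent.Lib.H43OgCcox

open Cfsg.Agent.Lib.Helper43Sp (I ng ab gam)
open Cfsg.Agent.Lib.Helper49Eich (E)
open Cfsg.Agent.Lib.Helper49Orth (reflO)
open Cfsg.Agent.Lib.Helper49Par (RootSet)
open Cfsg.Agent.Lib.Helper49Forms (QPlus QOdd QMinus)
open Cfsg.Agent.Lib.Helper43Og
open Cfsg.Agent.Lib.H43OgAact
open Cfsg.Agent.Lib.H43OgCrotstep
open Cfsg.Agent.Lib.H43OgCn0

variable {F : Type*} [Field F] {ι : Type} [Fintype ι] [DecidableEq ι] {Q : QuadraticForm F (ι → F)}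
variable [Fintype F] {k : ℕ} (Φ : Frame Q k)

theorem exists_cox (hQ : (QuadraticMap.polarBilin Q).Nondegenerate) (hn : 5 ≤ Fintype.card ι)
    (hk : 0 < k) (w0 : ι → F) (h0 : w0 ∈ Φ.V0) (hQ0 : Q w0 ≠ 0) :
    ∃ c ∈ Cfsg.Omega F ⇑Q, Cox Φ w0 c := by
  have hk1 : k - 1 < k := by omega
  obtain ⟨g, hg, hgV, -, hlt, ε0, hε0, hl0, hr0⟩ := exists_rot_aux Φ hQ hn (k - 1) hk1
  obtain ⟨n, hn', hn1, hn2, hn3, hn4⟩ := exists_n0 Φ hQ hn (Sum.inl ⟨0, hk⟩) w0 h0 hQ0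
  refine ⟨n * g, mul_mem hn' hg, ⟨?_, ?_⟩⟩
  · rintro (i | i)
    · by_cases h : i.val + 1 < k
      · obtain ⟨ε, hε, h1, h2⟩ := hlt i (by omega)
        refine ⟨ε, hε, ?_⟩
        rw [act_mul, h1, act_smul, hn3 _ (by simp [ab, Fin.ext_iff])]
        simp [gam, h]
      · have hi : i = ⟨k - 1, hk1⟩ := Fin.ext (by have := i.2; simp only; omega)
        subst hi
        refine ⟨ε0 * (-(Q w0)), mul_ne_zero hε0 (neg_ne_zero.2 hQ0), ?_⟩
        rw [act_mul, hl0, act_smul, hn1, smul_smul]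
        simp only [gam, h, dif_neg, not_false_eq_true, ng, Sum.swap_inl]
    · by_cases h : i.val + 1 < k
      · obtain ⟨ε, hε, h1, h2⟩ := hlt i (by omega)
        refine ⟨ε, hε, ?_⟩
        rw [act_mul, h2, act_smul, hn3 _ (by simp [ab, Fin.ext_iff])]
        simp [gam, h]
      · have hi : i = ⟨k - 1, hk1⟩ := Fin.ext (by have := i.2; simp only; omega)
        subst hi
        refine ⟨ε0 * (-(Q w0)⁻¹), mul_ne_zero hε0 (neg_ne_zero.2 (inv_ne_zero hQ0)), ?_⟩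
        have hn2' : act n (Φ.v (Sum.inr ⟨0, hk⟩)) = (-(Q w0)⁻¹) • Φ.v (Sum.inl ⟨0, hk⟩) := hn2
        rw [act_mul, hr0, act_smul, hn2', smul_smul]
        simp only [gam, h, dif_neg, not_false_eq_true]
  · intro w hw
    rw [act_mul, hgV w hw, hn4 w hw]

end Cfsg.Agent.Lib.H43OgCcox
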