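import Cfsg.Agent.Lib.Helper43OgDefs
import Cfsg.Agent.Lib.Helper49Rank
import Cfsg.Agent.Lib.Helper49OddForm
import Cfsg.Agent.Lib.Helper7OCenter
import Cfsg.Agent.Lib.Helper49All
import Cfsg.Agent.Lib.Helper77SpTgam
import Cfsg.Agent.Lib.Helper65Sptcoprime
import Cfsg.Agent.Lib.H43OgAact

set_option autoImplicit false

/-! Project 413, piece `ctor`.  Sketch: notes/helper43/Og.md -/

namespace Cfsg.Agent.Lib.H43OgCtor

open Cfsg.Agent.Lib.Helper43Sp (I ng ab gam)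
open Cfsg.Agent.Lib.Helper49Eich (E)
open Cfsg.Agent.Lib.Helper49Orth (reflO)
open Cfsg.Agent.Lib.Helper49Par (RootSet)
open Cfsg.Agent.Lib.Helper49Forms (QPlus QOdd QMinus)
open Cfsg.Agent.Lib.Helper43Og
open Cfsg.Agent.Lib.H43OgAact

variable {F : Type*} [Field F] {ι : Type} [Fintype ι] [DecidableEq ι] {Q : QuadraticForm F (ι → F)}
variable [Fintype F] {k : ℕ} (Φ : Frame Q k)

omit [Fintype F] in
theorem Q_comb (a : I k) (s t : F) : Q (s • Φ.v a + t • Φ.v (ng a)) = s * t := by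
  rw [QuadraticMap.map_add Q, QuadraticMap.map_smul, QuadraticMap.map_smul, Φ.sing, Φ.sing,
    QuadraticMap.polar_smul_left, QuadraticMap.polar_smul_right]
  have h : QuadraticMap.polar (⇑Q) (Φ.v a) (Φ.v (ng a)) = 1 := by
    have := Φ.pol a (ng a)
    rwa [if_pos rfl] at this
  rw [h]
  simp only [smul_eq_mul, mul_zero, zero_add, mul_one]

omit [Fintype F] in
theorem BB_self (a : I k) : BB Q (Φ.v a) (Φ.v a) = 0 := by
  show QuadraticMap.polar (⇑Q) (Φ.v a) (Φ.v a) = 0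
  rw [QuadraticMap.polar_self, Φ.sing]
  simp

omit [Fintype F] in
theorem BB_ng (a : I k) : BB Q (Φ.v a) (Φ.v (ng a)) = 1 := by
  have := Φ.pol a (ng a)
  rwa [if_pos rfl] at this

omit [Fintype F] in
theorem BB_ng' (a : I k) : BB Q (Φ.v (ng a)) (Φ.v a) = 1 := by
  show QuadraticMap.polar (⇑Q) (Φ.v (ng a)) (Φ.v a) = 1
  rw [QuadraticMap.polar_comm]
  exact BB_ng Φ a

omit [Fintype F] in
/-- the polar form of a combination of a hyperbolic pair with a vector -/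
theorem BB_comb (a : I k) (s t : F) (x : ι → F) :
    BB Q (s • Φ.v a + t • Φ.v (ng a)) x = s * BB Q (Φ.v a) x + t * BB Q (Φ.v (ng a)) x := by
  show QuadraticMap.polar (⇑Q) _ x = _
  rw [QuadraticMap.polar_add_left, QuadraticMap.polar_smul_left, QuadraticMap.polar_smul_left]
  rfl

omit [Fintype F] in
/-- the reflection in `v a - z v (-a)` -/
theorem rf_comb (a : I k) (z : F) (hz : z ≠ 0) :
    rf Q ((1 : F) • Φ.v a + (-z) • Φ.v (ng a)) (Φ.v a) = z • Φ.v (ng a) ∧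
    rf Q ((1 : F) • Φ.v a + (-z) • Φ.v (ng a)) (Φ.v (ng a)) = z⁻¹ • Φ.v a ∧
    ∀ x, BB Q (Φ.v a) x = 0 → BB Q (Φ.v (ng a)) x = 0 →
      rf Q ((1 : F) • Φ.v a + (-z) • Φ.v (ng a)) x = x := by
  refine ⟨?_, ?_, ?_⟩
  · unfold rf
    rw [Q_comb, BB_comb, BB_self, BB_ng']
    have h : (1 * -z)⁻¹ * (1 * 0 + -z * 1) = 1 := by
      rw [one_mul, mul_zero, zero_add, mul_one, inv_mul_cancel₀ (neg_ne_zero.2 hz)]
    rw [h]
    module
  · unfold rf
    rw [Q_comb, BB_comb, BB_self, BB_ng]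
    have h : (1 * -z)⁻¹ * (1 * 1 + -z * 0) = -z⁻¹ := by
      rw [one_mul, mul_zero, add_zero, mul_one, mul_one, inv_neg]
    rw [h, smul_add, smul_smul, smul_smul]
    have h2 : -z⁻¹ * -z = 1 := by rw [neg_mul_neg, inv_mul_cancel₀ hz]
    rw [h2]
    module
  · intro x h1 h2
    unfold rf
    rw [BB_comb, h1, h2]
    simp

theorem exists_tor (a : I k) (z : F) (hz : z ≠ 0) :
    ∃ g : GG Q, act g (Φ.v a) = z⁻¹ • Φ.v a ∧ act g (Φ.v (ng a)) = z • Φ.v (ng a) ∧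
      ∀ x, BB Q (Φ.v a) x = 0 → BB Q (Φ.v (ng a)) x = 0 → act g x = x := by
  have hu : Q ((1 : F) • Φ.v a + (-z) • Φ.v (ng a)) ≠ 0 := by
    rw [Q_comb]; simpa using hz
  have hw : Q ((1 : F) • Φ.v a + (-1 : F) • Φ.v (ng a)) ≠ 0 := by
    rw [Q_comb]; simp
  obtain ⟨a1, a2, a3⟩ := rf_comb Φ a z hz
  obtain ⟨b1, b2, b3⟩ := rf_comb Φ a 1 one_ne_zero
  refine ⟨reflO Q hu * reflO Q hw, ?_, ?_, ?_⟩
  · have c1 : (1 : F) • Φ.v (ng a) = Φ.v (ng a) := one_smul _ _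
    rw [act_mul, refl_act, refl_act, b1, c1, a2]
  · have c1 : (1 : F)⁻¹ • Φ.v a = Φ.v a := by rw [inv_one, one_smul]
    rw [act_mul, refl_act, refl_act, b2, c1, a1]
  · intro x h1 h2
    rw [act_mul, refl_act, refl_act, b3 x h1 h2, a3 x h1 h2]

end Cfsg.Agent.Lib.H43OgCtor
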