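import Cfsg.Agent.Lib.Helper43OgDefs
import Cfsg.Agent.Lib.Helper49Rank
import Cfsg.Agent.Lib.Helper49OddForm
import Cfsg.Agent.Lib.Helper7OCenter
import Cfsg.Agent.Lib.Helper49All
import Cfsg.Agent.Lib.Helper77SpTgam
import Cfsg.Agent.Lib.Helper65Sptcoprime
import Cfsg.Agent.Lib.H43OgAact
import Cfsg.Agent.Lib.H43OgCtor

set_option autoImplicit false

/-! Project 413, piece `ctor2`.  Sketch: notes/helper43/Og.md -/

namespace Cfsg.Agent.Lib.H43OgCtor2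

open Cfsg.Agent.Lib.Helper43Sp (I ng ab gam)
open Cfsg.Agent.Lib.Helper49Eich (E)
open Cfsg.Agent.Lib.Helper49Orth (reflO)
open Cfsg.Agent.Lib.Helper49Par (RootSet)
open Cfsg.Agent.Lib.Helper49Forms (QPlus QOdd QMinus)
open Cfsg.Agent.Lib.Helper43Og
open Cfsg.Agent.Lib.H43OgAact
open Cfsg.Agent.Lib.H43OgCtor (Q_comb rf_comb)

variable {F : Type*} [Field F] {ι : Type} [Fintype ι] [DecidableEq ι] {Q : QuadraticForm F (ι → F)}
variable [Fintype F] {k : ℕ} (Φ : Frame Q k)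

omit [Fintype F] in
theorem ab_ng (c : I k) : ab (ng c) = ab c := by cases c <;> rfl

omit [Fintype F] in
theorem BB_zero (c d : I k) (h : ab c ≠ ab d) : BB Q (Φ.v c) (Φ.v d) = 0 := by
  rw [Φ.pol, if_neg]
  rintro rfl
  exact h (ab_ng c).symm

omit [Fintype F] in
theorem BB_smul_zero (c d : I k) (h : ab c ≠ ab d) (t : F) : BB Q (Φ.v c) (t • Φ.v d) = 0 := by
  show QuadraticMap.polar (⇑Q) (Φ.v c) (t • Φ.v d) = 0
  rw [QuadraticMap.polar_smul_right]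
  have := BB_zero Φ c d h
  rw [show QuadraticMap.polar (⇑Q) (Φ.v c) (Φ.v d) = 0 from this, smul_zero]

theorem exists_tor2 (hQ : (QuadraticMap.polarBilin Q).Nondegenerate) (hn : 5 ≤ Fintype.card ι)
    (a b : I k) (hab : ab a ≠ ab b) (z : F) (hz : z ≠ 0) :
    ∃ g ∈ Cfsg.Omega F ⇑Q, act g (Φ.v a) = z⁻¹ • Φ.v a ∧ act g (Φ.v (ng a)) = z • Φ.v (ng a) ∧
      act g (Φ.v b) = z⁻¹ • Φ.v b ∧ act g (Φ.v (ng b)) = z • Φ.v (ng b) ∧
      ∀ x, BB Q (Φ.v a) x = 0 → BB Q (Φ.v (ng a)) x = 0 → BB Q (Φ.v b) x = 0 → BB Q (Φ.v (ng b)) x = 0 →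
        act g x = x := by
  have hq : Fintype.card F ≠ 2 ∨ Fintype.card ι ≠ 4 := Or.inr (by omega)
  have hua : Q ((1 : F) • Φ.v a + (-z) • Φ.v (ng a)) ≠ 0 := by rw [Q_comb]; simpa using hz
  have hub : Q ((1 : F) • Φ.v b + (-z) • Φ.v (ng b)) ≠ 0 := by rw [Q_comb]; simpa using hz
  have hwa : Q ((1 : F) • Φ.v a + (-1 : F) • Φ.v (ng a)) ≠ 0 := by rw [Q_comb]; simp
  have hwb : Q ((1 : F) • Φ.v b + (-1 : F) • Φ.v (ng b)) ≠ 0 := by rw [Q_comb]; simp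
  obtain ⟨a1, a2, a3⟩ := rf_comb Φ a z hz
  obtain ⟨b1, b2, b3⟩ := rf_comb Φ b z hz
  obtain ⟨c1, c2, c3⟩ := rf_comb Φ a 1 one_ne_zero
  obtain ⟨d1, d2, d3⟩ := rf_comb Φ b 1 one_ne_zero
  have hba : ab b ≠ ab a := hab.symm
  have n1 : ab (ng a) ≠ ab b := by rw [ab_ng]; exact hab
  have n2 : ab a ≠ ab (ng b) := by rw [ab_ng]; exact hab
  have n3 : ab (ng a) ≠ ab (ng b) := by rw [ab_ng, ab_ng]; exact hab
  have e1 : ∀ x : ι → F, (1 : F) • x = x := fun x => one_smul _ _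
  have e2 : ∀ x : ι → F, (1 : F)⁻¹ • x = x := fun x => by rw [inv_one, one_smul]
  rw [e1 (Φ.v (ng a))] at c1
  rw [e2 (Φ.v a)] at c2
  rw [e1 (Φ.v (ng b))] at d1
  rw [e2 (Φ.v b)] at d2
  refine ⟨(reflO Q hua * reflO Q hub) * (reflO Q hwa * reflO Q hwb),
    Subgroup.mul_mem _ (Cfsg.Agent.Lib.Helper7OCenter.pair_mem hQ hq hua hub (by rw [Q_comb, Q_comb]))
      (Cfsg.Agent.Lib.Helper7OCenter.pair_mem hQ hq hwa hwb (by rw [Q_comb, Q_comb])), ?_, ?_, ?_, ?_, ?_⟩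
  · rw [act_mul, act_mul, act_mul, refl_act, refl_act, refl_act, refl_act,
      d3 _ (BB_zero Φ b a hba) (BB_zero Φ (ng b) a n2.symm), c1,
      b3 _ (BB_zero Φ b (ng a) n1.symm) (BB_zero Φ (ng b) (ng a) n3.symm), a2]
  · rw [act_mul, act_mul, act_mul, refl_act, refl_act, refl_act, refl_act,
      d3 _ (BB_zero Φ b (ng a) n1.symm) (BB_zero Φ (ng b) (ng a) n3.symm), c2,
      b3 _ (BB_zero Φ b a hba) (BB_zero Φ (ng b) a n2.symm), a1]
  · rw [act_mul, act_mul, act_mul, refl_act, refl_act, refl_act, refl_act, d1,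
      c3 _ (BB_zero Φ a (ng b) n2) (BB_zero Φ (ng a) (ng b) n3), b2,
      a3 _ (BB_smul_zero Φ a b hab _) (BB_smul_zero Φ (ng a) b n1 _)]
  · rw [act_mul, act_mul, act_mul, refl_act, refl_act, refl_act, refl_act, d2,
      c3 _ (BB_zero Φ a b hab) (BB_zero Φ (ng a) b n1), b1,
      a3 _ (BB_smul_zero Φ a (ng b) n2 _) (BB_smul_zero Φ (ng a) (ng b) n3 _)]
  · intro x h1 h2 h3 h4
    rw [act_mul, act_mul, act_mul, refl_act, refl_act, refl_act, refl_act, d3 x h3 h4, c3 x h1 h2,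
      b3 x h3 h4, a3 x h1 h2]

end Cfsg.Agent.Lib.H43OgCtor2
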