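import Cfsg.Agent.Lib.Helper43OgDefs
import Cfsg.Agent.Lib.Helper49Rank
import Cfsg.Agent.Lib.Helper49OddForm
import Cfsg.Agent.Lib.Helper7OCenter
import Cfsg.Agent.Lib.Helper49All
import Cfsg.Agent.Lib.Helper77SpTgam
import Cfsg.Agent.Lib.Helper65Sptcoprime
import Cfsg.Agent.Lib.H43OgAact
import Cfsg.Agent.Lib.H43OgAext

set_option autoImplicit false
set_option linter.unusedSimpArgs false

/-! Project 413, piece `cy2`.  Sketch: notes/helper43/Og.md -/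

namespace Cfsg.Agent.Lib.H43OgCy2

open Cfsg.Agent.Lib.Helper43Sp (I ng ab gam)
open Cfsg.Agent.Lib.Helper49Eich (E)
open Cfsg.Agent.Lib.Helper49Orth (reflO)
open Cfsg.Agent.Lib.Helper49Par (RootSet)
open Cfsg.Agent.Lib.Helper49Forms (QPlus QOdd QMinus)
open Cfsg.Agent.Lib.Helper43Og
open Cfsg.Agent.Lib.H43OgAact
open Cfsg.Agent.Lib.H43OgAext

variable {F : Type*} [Field F] {ι : Type} [Fintype ι] [DecidableEq ι] {Q : QuadraticForm F (ι → F)}
theorem f21 (n : ℕ) : (2 : Fin (n+3)) ≠ 1 := by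
  intro h
  have := congrArg Fin.val h
  simp [Nat.mod_eq_of_lt] at this
theorem f20 (n : ℕ) : (2 : Fin (n+3)) ≠ 0 := by
  intro h
  have := congrArg Fin.val h
  simp [Nat.mod_eq_of_lt] at this
theorem f10 (n : ℕ) : (1 : Fin (n+3)) ≠ 0 := by
  intro h
  have := congrArg Fin.val h
  simp [Nat.mod_eq_of_lt] at this

theorem act_sub (g : GG Q) (x y : ι → F) : act g (x - y) = act g x - act g y :=
  Matrix.mulVec_sub _ x y

theorem act_neg (g : GG Q) (x : ι → F) : act g (-x) = -act g x :=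
  Matrix.mulVec_neg x _

variable [Fintype F] {n : ℕ} (Φ : Frame Q (n + 3)) (p : ℕ) [CharP F p]

theorem exists_y2 (hQ : (QuadraticMap.polarBilin Q).Nondegenerate) (hn : 5 ≤ Fintype.card ι)
    (h2 : Fintype.card F = 2) : Nonempty (YDat Φ p) := by
  classical
  have h20 : (2 : F) = 0 := by
    have := Nat.cast_card_eq_zero F
    rw [h2] at this
    exact_mod_cast this
  have two : ∀ X : ι → F, X + X = 0 := by
    intro X
    rw [← two_smul F X, h20, zero_smul]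
  have he1 : Q (Φ.v (Sum.inl 1)) = 0 := Φ.sing _
  have he2 : Q (Φ.v (Sum.inl 2)) = 0 := Φ.sing _
  have hw1 : BB Q (Φ.v (Sum.inl 1)) (Φ.v (Sum.inr 2)) = 0 := by
    rw [Φ.pol, if_neg]
    simp [ng, f21, f20, f10, (f21 n).symm, (f20 n).symm, (f10 n).symm]
  have hw2 : BB Q (Φ.v (Sum.inl 2)) (Φ.v (Sum.inr 1)) = 0 := by
    rw [Φ.pol, if_neg]
    simp [ng, f21, f20, f10, (f21 n).symm, (f20 n).symm, (f10 n).symm]
  have hm1 : E Q (Φ.v (Sum.inl 1)) (Φ.v (Sum.inr 2)) ∈ Cfsg.Omega F ⇑Q :=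
    Cfsg.Agent.Lib.Helper49EichGen.E_mem_Omega Q hQ hn he1 hw1
  have hm2 : E Q (Φ.v (Sum.inl 2)) (Φ.v (Sum.inr 1)) ∈ Cfsg.Omega F ⇑Q :=
    Cfsg.Agent.Lib.Helper49EichGen.E_mem_Omega Q hQ hn he2 hw2
  obtain ⟨x1, hx1d⟩ : ∃ x, x = E Q (Φ.v (Sum.inl 1)) (Φ.v (Sum.inr 2)) := ⟨_, rfl⟩
  obtain ⟨x2, hx2d⟩ : ∃ x, x = E Q (Φ.v (Sum.inl 2)) (Φ.v (Sum.inr 1)) := ⟨_, rfl⟩
  rw [← hx1d] at hm1
  rw [← hx2d] at hm2
  have hx1 : ∀ X, act x1 X = X + (BB Q X (Φ.v (Sum.inr 2))) • Φ.v (Sum.inl 1)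
      - BB Q X (Φ.v (Sum.inl 1)) • Φ.v (Sum.inr 2) := by
    intro X
    rw [hx1d, E_act he1 hw1, Φ.sing, zero_mul, sub_zero]
  have hx2 : ∀ X, act x2 X = X + (BB Q X (Φ.v (Sum.inr 1))) • Φ.v (Sum.inl 2)
      - BB Q X (Φ.v (Sum.inl 2)) • Φ.v (Sum.inr 1) := by
    intro X
    rw [hx2d, E_act he2 hw2, Φ.sing, zero_mul, sub_zero]
  -- the action on the frame
  have a1 : ∀ a : I (n + 3), a ≠ Sum.inl 2 → a ≠ Sum.inr 1 → act x1 (Φ.v a) = Φ.v a := by
    intro a h1 h2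
    rw [hx1, Φ.pol, Φ.pol, if_neg, if_neg]
    · simp
    · intro h
      apply h2
      have : a = ng (ng a) := by cases a <;> rfl
      rw [this, ← h]
      rfl
    · intro h
      apply h1
      have : a = ng (ng a) := by cases a <;> rfl
      rw [this, ← h]
      rfl
  have a2 : ∀ a : I (n + 3), a ≠ Sum.inl 1 → a ≠ Sum.inr 2 → act x2 (Φ.v a) = Φ.v a := by
    intro a h1 h2
    rw [hx2, Φ.pol, Φ.pol, if_neg, if_neg]
    · simp
    · intro h
      apply h2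
      have : a = ng (ng a) := by cases a <;> rfl
      rw [this, ← h]
      rfl
    · intro h
      apply h1
      have : a = ng (ng a) := by cases a <;> rfl
      rw [this, ← h]
      rfl
  have b1 : act x1 (Φ.v (Sum.inl 2)) = Φ.v (Sum.inl 2) + Φ.v (Sum.inl 1) := by
    rw [hx1, Φ.pol, Φ.pol, if_pos (by simp [ng]), if_neg (by simp [ng])]
    simp
  have b2 : act x1 (Φ.v (Sum.inr 1)) = Φ.v (Sum.inr 1) - Φ.v (Sum.inr 2) := by
    rw [hx1, Φ.pol, Φ.pol, if_neg (by simp [ng]), if_pos (by simp [ng])]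
    simp
  have b3 : act x2 (Φ.v (Sum.inl 1)) = Φ.v (Sum.inl 1) + Φ.v (Sum.inl 2) := by
    rw [hx2, Φ.pol, Φ.pol, if_pos (by simp [ng]), if_neg (by simp [ng])]
    simp
  have b4 : act x2 (Φ.v (Sum.inr 2)) = Φ.v (Sum.inr 2) - Φ.v (Sum.inr 1) := by
    rw [hx2, Φ.pol, Φ.pol, if_neg (by simp [ng]), if_pos (by simp [ng])]
    simp
  have n12 : (Sum.inl 1 : I (n + 3)) ≠ Sum.inl 2 := by
    intro h; exact f21 n (Sum.inl.inj h).symm
  have m12 : (Sum.inr 1 : I (n + 3)) ≠ Sum.inr 2 := by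
    intro h; exact f21 n (Sum.inr.inj h).symm
  have ye1 : act (x1 * x2) (Φ.v (Sum.inl 1)) = Φ.v (Sum.inl 2) := by
    rw [act_mul, b3, act_add, a1 _ n12 (by simp), b1]
    calc Φ.v (Sum.inl 1) + (Φ.v (Sum.inl 2) + Φ.v (Sum.inl 1))
        = Φ.v (Sum.inl 2) + (Φ.v (Sum.inl 1) + Φ.v (Sum.inl 1)) := by abel
      _ = Φ.v (Sum.inl 2) := by rw [two, add_zero]
  have ye2 : act (x1 * x2) (Φ.v (Sum.inl 2)) = Φ.v (Sum.inl 2) + Φ.v (Sum.inl 1) := by
    rw [act_mul, a2 _ n12.symm (by simp), b1]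
  have yf1 : act (x1 * x2) (Φ.v (Sum.inr 1)) = Φ.v (Sum.inr 1) - Φ.v (Sum.inr 2) := by
    rw [act_mul, a2 _ (by simp) m12, b2]
  have yf2 : act (x1 * x2) (Φ.v (Sum.inr 2)) = -Φ.v (Sum.inr 1) := by
    rw [act_mul, b4, act_sub, a1 _ (by simp) m12.symm, b2]
    calc Φ.v (Sum.inr 2) - (Φ.v (Sum.inr 1) - Φ.v (Sum.inr 2))
        = -Φ.v (Sum.inr 1) + (Φ.v (Sum.inr 2) + Φ.v (Sum.inr 2)) := by abel
      _ = -Φ.v (Sum.inr 1) := by rw [two, add_zero]
  have yfix : ∀ a : I (n + 3), a ≠ Sum.inl 1 → a ≠ Sum.inl 2 → a ≠ Sum.inr 1 → a ≠ Sum.inr 2 →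
      act (x1 * x2) (Φ.v a) = Φ.v a := by
    intro a h1 h2 h3 h4
    rw [act_mul, a2 a h1 h4, a1 a h2 h3]
  have yV : ∀ w ∈ Φ.V0, act (x1 * x2) w = w := by
    intro w hw
    have e : ∀ a, BB Q w (Φ.v a) = 0 := by
      intro a
      rw [BB, QuadraticMap.polar_comm]; exact Φ.perp _ w hw
    rw [act_mul, hx2, e, e, zero_smul, zero_smul, add_zero, sub_zero, hx1, e, e, zero_smul,
      zero_smul, add_zero, sub_zero]
  have cube : ∀ X, act ((x1 * x2) ^ 3) X = act (x1 * x2) (act (x1 * x2) (act (x1 * x2) X)) := by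
    intro X
    rw [pow_succ, pow_succ, pow_one, act_mul, act_mul]
  refine ⟨{
    y := x1 * x2
    mem := mul_mem hm1 hm2
    fix0 := ?_
    fixV := yV
    N := 3
    pow := ?_
    cop := ?_
    e := 0
    l := 1
    scale := by rw [pow_zero, act_one, one_smul]
    gen := ?_
    α := 1
    β := 1
    hβ := one_ne_zero
    tr := by rw [ye2, one_smul, one_smul] }⟩
  · apply yfix
    · intro h; exact f10 n (Sum.inl.inj h).symm
    · intro h; exact f20 n (Sum.inl.inj h).symm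
    · simp
    · simp
  · apply ext_frame Φ
    · intro a
      rw [act_one, cube]
      by_cases h1 : a = Sum.inl 1
      · subst h1
        rw [ye1, ye2, act_add, ye2, ye1]
        calc Φ.v (Sum.inl 2) + Φ.v (Sum.inl 1) + Φ.v (Sum.inl 2)
            = Φ.v (Sum.inl 1) + (Φ.v (Sum.inl 2) + Φ.v (Sum.inl 2)) := by abel
          _ = Φ.v (Sum.inl 1) := by rw [two, add_zero]
      by_cases h2 : a = Sum.inl 2
      · subst h2
        rw [ye2, act_add, ye2, ye1]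
        have : Φ.v (Sum.inl 2) + Φ.v (Sum.inl 1) + Φ.v (Sum.inl 2) = Φ.v (Sum.inl 1) := by
          calc Φ.v (Sum.inl 2) + Φ.v (Sum.inl 1) + Φ.v (Sum.inl 2)
              = Φ.v (Sum.inl 1) + (Φ.v (Sum.inl 2) + Φ.v (Sum.inl 2)) := by abel
            _ = Φ.v (Sum.inl 1) := by rw [two, add_zero]
        rw [this, ye1]
      by_cases h3 : a = Sum.inr 1
      · subst h3
        rw [yf1, act_sub, yf1, yf2]
        have : Φ.v (Sum.inr 1) - Φ.v (Sum.inr 2) - -Φ.v (Sum.inr 1) = -Φ.v (Sum.inr 2) := by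
          calc Φ.v (Sum.inr 1) - Φ.v (Sum.inr 2) - -Φ.v (Sum.inr 1)
              = -Φ.v (Sum.inr 2) + (Φ.v (Sum.inr 1) + Φ.v (Sum.inr 1)) := by abel
            _ = -Φ.v (Sum.inr 2) := by rw [two, add_zero]
        rw [this, act_neg, yf2, neg_neg]
      by_cases h4 : a = Sum.inr 2
      · subst h4
        rw [yf2, act_neg, yf1, act_neg, act_sub, yf1, yf2]
        calc -(Φ.v (Sum.inr 1) - Φ.v (Sum.inr 2) - -Φ.v (Sum.inr 1))
            = Φ.v (Sum.inr 2) - (Φ.v (Sum.inr 1) + Φ.v (Sum.inr 1)) := by abel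
          _ = Φ.v (Sum.inr 2) := by rw [two, sub_zero]
      rw [yfix a h1 h2 h3 h4, yfix a h1 h2 h3 h4, yfix a h1 h2 h3 h4]
    · intro w hw
      rw [act_one, cube, yV w hw, yV w hw, yV w hw]
  · have h1 : p ∣ 2 := by
      rw [← h2]
      exact (CharP.cast_eq_zero_iff F p _).1 (Nat.cast_card_eq_zero F)
    exact Nat.Coprime.coprime_dvd_left h1 (by norm_num)
  · intro S h1 _ t
    have h8 : t = 0 ∨ t = 1 := by
      by_contra hcon
      push Not at hcon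
      have h9 : ({0, 1, t} : Finset F).card = 3 := by
        rw [Finset.card_insert_of_notMem, Finset.card_insert_of_notMem, Finset.card_singleton]
        · simp [hcon.2.symm]
        · simp [hcon.1.symm]
      have h10 : ({0, 1, t} : Finset F).card ≤ Fintype.card F := Finset.card_le_univ _
      omega
    rcases h8 with rfl | rfl
    · exact S.zero_mem
    · exact h1

end Cfsg.Agent.Lib.H43OgCy2
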