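import Cfsg.Agent.Lib.Helper43OgDefs
import Cfsg.Agent.Lib.Helper49Rank
import Cfsg.Agent.Lib.Helper49OddForm
import Cfsg.Agent.Lib.Helper7OCenter
import Cfsg.Agent.Lib.Helper49All
import Cfsg.Agent.Lib.Helper77SpTgam
import Cfsg.Agent.Lib.Helper65Sptcoprime
import Cfsg.Agent.Lib.Helper65Sptscale

set_option autoImplicit false

/-! Project 413, piece `ggen`.  Sketch: notes/helper43/Og.md -/

namespace Cfsg.Agent.Lib.H43OgGgen

open Cfsg.Agent.Lib.Helper43Sp (I ng ab gam)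
open Cfsg.Agent.Lib.Helper49Eich (E)
open Cfsg.Agent.Lib.Helper49Orth (reflO)
open Cfsg.Agent.Lib.Helper49Par (RootSet)
open Cfsg.Agent.Lib.Helper49Forms (QPlus QOdd QMinus)
open Cfsg.Agent.Lib.Helper43Og

variable {F : Type*} [Field F] {ι : Type} [Fintype ι] [DecidableEq ι] {Q : QuadraticForm F (ι → F)}

theorem exists_z (F : Type*) [Field F] [Finite F] : ∃ z : F, z ≠ 0 ∧ ∀ x : F, x ≠ 0 → ∃ j : ℕ, x = z ^ j := by
  obtain ⟨g, hg⟩ := IsCyclic.exists_generator (α := Fˣ)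
  refine ⟨g, g.ne_zero, fun x hx => ?_⟩
  have h1 := hg (Units.mk0 x hx)
  rw [← mem_powers_iff_mem_zpowers] at h1
  obtain ⟨j, hj⟩ := h1
  refine ⟨j, ?_⟩
  have := congrArg Units.val hj
  simpa using this.symm

theorem gen_of_sq [Finite F] (l : F) (h : ∀ x : F, x ≠ 0 → ∃ j : ℕ, x ^ 2 = l ^ j ∨ x ^ 2 = -(l ^ j)) : Gen F l := by
  intro S h1 hS t
  have hpow : ∀ j : ℕ, l ^ j ∈ S := by
    intro j
    induction j with
    | zero => simpa using h1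
    | succ j ih =>
      rw [pow_succ']
      exact hS _ ih
  have hsq : ∀ x : F, x ^ 2 ∈ S := by
    intro x
    by_cases hx : x = 0
    · subst hx
      simpa using S.zero_mem
    · obtain ⟨j, hj | hj⟩ := h x hx
      · rw [hj]; exact hpow j
      · rw [hj]; exact S.neg_mem (hpow j)
  obtain ⟨a, b, hab⟩ := Cfsg.Agent.Lib.Helper65Sptscale.exists_sq_add_sq t
  rw [← hab]
  exact S.add_mem (hsq a) (hsq b)

theorem gen_sq [Finite F] (z : F) (hz : ∀ x : F, x ≠ 0 → ∃ j : ℕ, x = z ^ j) :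
    Gen F (z ^ 2) ∧ Gen F (-(z ^ 2)) ∧ Gen F ((z⁻¹) ^ 2) ∧ Gen F (-((z⁻¹) ^ 2)) := by
  have hneg : ∀ (a : F) (j : ℕ), a ^ j = (-a) ^ j ∨ a ^ j = -((-a) ^ j) := by
    intro a j
    rw [neg_pow a j]
    rcases neg_one_pow_eq_or F j with h | h
    · left; rw [h, one_mul]
    · right; rw [h]; ring
  have e1 : ∀ x : F, x ≠ 0 → ∃ j : ℕ, x ^ 2 = (z ^ 2) ^ j := by
    intro x hx
    obtain ⟨j, rfl⟩ := hz x hx
    exact ⟨j, by ring⟩
  have e2 : ∀ x : F, x ≠ 0 → ∃ j : ℕ, x ^ 2 = ((z⁻¹) ^ 2) ^ j := by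
    intro x hx
    obtain ⟨j, hj⟩ := hz x⁻¹ (inv_ne_zero hx)
    refine ⟨j, ?_⟩
    have : x = (z⁻¹) ^ j := by
      rw [inv_pow, ← hj, inv_inv]
    rw [this]
    ring
  refine ⟨gen_of_sq _ ?_, gen_of_sq _ ?_, gen_of_sq _ ?_, gen_of_sq _ ?_⟩
  · intro x hx
    obtain ⟨j, hj⟩ := e1 x hx
    exact ⟨j, Or.inl hj⟩
  · intro x hx
    obtain ⟨j, hj⟩ := e1 x hx
    exact ⟨j, hj ▸ hneg _ j⟩
  · intro x hx
    obtain ⟨j, hj⟩ := e2 x hx
    exact ⟨j, Or.inl hj⟩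
  · intro x hx
    obtain ⟨j, hj⟩ := e2 x hx
    exact ⟨j, hj ▸ hneg _ j⟩

end Cfsg.Agent.Lib.H43OgGgen
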