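import Cfsg.Agent.Lib.Helper43OgDefs
import Cfsg.Agent.Lib.Helper49Rank
import Cfsg.Agent.Lib.Helper49OddForm
import Cfsg.Agent.Lib.Helper7OCenter
import Cfsg.Agent.Lib.Helper49All
import Cfsg.Agent.Lib.Helper77SpTgam
import Cfsg.Agent.Lib.Helper65Sptcoprime
import Cfsg.Agent.Lib.H43OgAact
import Cfsg.Agent.Lib.H43OgAext
import Cfsg.Agent.Lib.H43OgGgen
import Cfsg.Agent.Lib.H43OgCtor

set_option autoImplicit false

/-! Project 413, piece `cyB`.  Sketch: notes/helper43/Og.md -/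

namespace Cfsg.Agent.Lib.H43OgCyB

open Cfsg.Agent.Lib.Helper43Sp (I ng ab gam)
open Cfsg.Agent.Lib.Helper49Eich (E)
open Cfsg.Agent.Lib.Helper49Orth (reflO)
open Cfsg.Agent.Lib.Helper49Par (RootSet)
open Cfsg.Agent.Lib.Helper49Forms (QPlus QOdd QMinus)
open Cfsg.Agent.Lib.Helper43Og
open Cfsg.Agent.Lib.H43OgAact
open Cfsg.Agent.Lib.H43OgAext
open Cfsg.Agent.Lib.H43OgGgen
open Cfsg.Agent.Lib.H43OgCtor

variable {F : Type*} [Field F] {ι : Type} [Fintype ι] [DecidableEq ι] {Q : QuadraticForm F (ι → F)}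
variable [Fintype F]

omit [Fintype F] in
theorem act_pow_smul (g : GG Q) (x : ι → F) (c : F) (h : act g x = c • x) (m : ℕ) :
    act (g ^ m) x = c ^ m • x := by
  induction m with
  | zero => simp [act_one]
  | succ m ih => rw [pow_succ, act_mul, h, act_smul, ih, smul_smul, pow_succ, mul_comm]

theorem cop_card (p : ℕ) [CharP F p] : Nat.Coprime p (Fintype.card F - 1) := by
  have h1 : p ∣ Fintype.card F := (CharP.cast_eq_zero_iff F p _).1 (Nat.cast_card_eq_zero F)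
  have h2 : 0 < Fintype.card F := Fintype.card_pos
  have h3 : Nat.Coprime (Fintype.card F) (Fintype.card F - 1) := by
    obtain ⟨m, hm⟩ : ∃ m, Fintype.card F = m + 1 := ⟨Fintype.card F - 1, by omega⟩
    rw [hm]
    simp
  exact Nat.Coprime.coprime_dvd_left h1 h3

theorem tor_pow {k : ℕ} (Φ : Frame Q k) (T : GG Q) (a : I k) (z : F) (hz : z ≠ 0)
    (h1 : act T (Φ.v a) = z⁻¹ • Φ.v a) (h2 : act T (Φ.v (ng a)) = z • Φ.v (ng a))
    (h3 : ∀ x, BB Q (Φ.v a) x = 0 → BB Q (Φ.v (ng a)) x = 0 → act T x = x) :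
    T ^ (Fintype.card F - 1) = 1 := by
  apply ext_frame Φ
  · intro b
    rw [act_one]
    by_cases hb : b = a
    · subst hb
      rw [act_pow_smul T _ _ h1, FiniteField.pow_card_sub_one_eq_one _ (inv_ne_zero hz), one_smul]
    · by_cases hb' : b = ng a
      · subst hb'
        rw [act_pow_smul T _ _ h2, FiniteField.pow_card_sub_one_eq_one _ hz, one_smul]
      · have h4 : act T (Φ.v b) = (1 : F) • Φ.v b := by
          rw [one_smul]
          apply h3
          · rw [Φ.pol, if_neg hb']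
          · rw [Φ.pol, if_neg]
            intro h
            apply hb
            rw [h]
            cases a <;> rfl
        rw [act_pow_smul T _ _ h4, one_pow, one_smul]
  · intro w hw
    rw [act_one]
    have h4 : act T w = (1 : F) • w := by
      rw [one_smul]
      exact h3 w (Φ.perp _ w hw) (Φ.perp _ w hw)
    rw [act_pow_smul T _ _ h4, one_pow, one_smul]

theorem exists_yB (hQ : (QuadraticMap.polarBilin Q).Nondegenerate) (hn : 5 ≤ Fintype.card ι) {n : ℕ}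
    (Φ : Frame Q (n + 2)) (p : ℕ) [CharP F p] :
    ∃ y ∈ Cfsg.Omega F ⇑Q, act y (Φ.v (Sum.inl 0)) = Φ.v (Sum.inl 0) ∧ (∀ w ∈ Φ.V0, act y w = w) ∧
      ∃ (N : ℕ) (l : F), y ^ N = 1 ∧ Nat.Coprime p N ∧ act y (Φ.v (Sum.inl 1)) = l • Φ.v (Sum.inl 1) ∧
        Gen F l := by
  classical
  obtain ⟨z, hz0, hz⟩ := exists_z F
  obtain ⟨T, hT1, hT2, hT3⟩ := exists_tor Φ (Sum.inl 1) z hz0
  have hTN := tor_pow Φ T (Sum.inl 1) z hz0 hT1 hT2 hT3
  have ht : T * T ∈ Cfsg.Omega F ⇑Q :=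
    Cfsg.Agent.Lib.Helper49All.sq_mem_Omega Q hQ (Or.inr (by omega)) T
  have h10 : (1 : Fin (n + 2)) ≠ 0 := by
    intro h
    have := congrArg Fin.val h
    simp at this
  have hT0 : act T (Φ.v (Sum.inl 0)) = Φ.v (Sum.inl 0) := by
    apply hT3
    · rw [Φ.pol, if_neg (by simp [ng])]
    · rw [Φ.pol, if_neg (by simp [ng, h10.symm])]
  have hTV : ∀ w ∈ Φ.V0, act T w = w := fun w hw => hT3 w (Φ.perp _ w hw) (Φ.perp _ w hw)
  refine ⟨T * T, ht, by rw [act_mul, hT0, hT0], fun w hw => by rw [act_mul, hTV w hw, hTV w hw],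
    Fintype.card F - 1, (z⁻¹) ^ 2, ?_, cop_card p, ?_, (gen_sq z hz).2.2.1⟩
  · rw [(Commute.refl T).mul_pow, hTN, one_mul]
  · rw [act_mul, hT1, act_smul, hT1, smul_smul, pow_two]

end Cfsg.Agent.Lib.H43OgCyB
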