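import Cfsg.Agent.Lib.Helper43OgDefs
import Cfsg.Agent.Lib.Helper49Rank
import Cfsg.Agent.Lib.Helper49OddForm
import Cfsg.Agent.Lib.Helper7OCenter
import Cfsg.Agent.Lib.Helper49All
import Cfsg.Agent.Lib.Helper77SpTgam
import Cfsg.Agent.Lib.Helper65Sptcoprime
import Cfsg.Agent.Lib.H43OgAact
import Cfsg.Agent.Lib.H43OgAext
import Cfsg.Agent.Lib.H43OgGgen
import Cfsg.Agent.Lib.H43OgCnn
import Cfsg.Agent.Lib.H43OgCtor2

set_option autoImplicit false

/-! Project 413, piece `cyN`.  Sketch: notes/helper43/Og.md -/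

namespace Cfsg.Agent.Lib.H43OgCyN

open Cfsg.Agent.Lib.Helper43Sp (I ng ab gam)
open Cfsg.Agent.Lib.Helper49Eich (E)
open Cfsg.Agent.Lib.Helper49Orth (reflO)
open Cfsg.Agent.Lib.Helper49Par (RootSet)
open Cfsg.Agent.Lib.Helper49Forms (QPlus QOdd QMinus)
open Cfsg.Agent.Lib.Helper43Og
open Cfsg.Agent.Lib.H43OgAact
open Cfsg.Agent.Lib.H43OgAext
open Cfsg.Agent.Lib.H43OgGgen
open Cfsg.Agent.Lib.H43OgCnn
open Cfsg.Agent.Lib.H43OgCtor2

variable {F : Type*} [Field F] {ι : Type} [Fintype ι] [DecidableEq ι] {Q : QuadraticForm F (ι → F)}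
variable [Fintype F] {n : ℕ} (Φ : Frame Q (n + 3)) (p : ℕ) [CharP F p]

omit [Fintype F] in
theorem act_pow_smul (g : GG Q) (x : ι → F) (l : F) (h : act g x = l • x) (j : ℕ) :
    act (g ^ j) x = l ^ j • x := by
  induction j with
  | zero => simp [act_one]
  | succ j ih => rw [pow_succ, act_mul, h, act_smul, ih, smul_smul, pow_succ, mul_comm]

omit [Fintype F] in
theorem act_pow_fix (g : GG Q) (x : ι → F) (h : act g x = x) (j : ℕ) :
    act (g ^ j) x = x := by
  induction j with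
  | zero => simp [act_one]
  | succ j ih => rw [pow_succ, act_mul, h, ih]

theorem cop_aux (h2 : (2 : F) ≠ 0) : Nat.Coprime p (2 * (Fintype.card F - 1)) := by
  have hp : p.Prime := CharP.char_is_prime F p
  obtain ⟨m, -, hq⟩ := FiniteField.card F p
  have hp2 : p ≠ 2 := by
    rintro rfl
    exact h2 (by exact_mod_cast CharP.cast_eq_zero F 2)
  have h1 : Nat.Coprime p 2 := (Nat.coprime_primes hp Nat.prime_two).2 hp2
  have hdvd : p ∣ Fintype.card F := by
    rw [hq]; exact dvd_pow_self p m.ne_zero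
  have hpos : 0 < Fintype.card F := Fintype.card_pos
  have h3 : Nat.Coprime p (Fintype.card F - 1) := by
    rw [Nat.Prime.coprime_iff_not_dvd hp]
    intro hd
    have : p ∣ 1 := by
      have h4 : p ∣ Fintype.card F - (Fintype.card F - 1) := Nat.dvd_sub hdvd hd
      have h5 : Fintype.card F - (Fintype.card F - 1) = 1 := by omega
      rwa [h5] at h4
    exact hp.one_lt.ne' (Nat.dvd_one.1 this)
  exact Nat.Coprime.mul_right h1 h3

theorem exists_yN (hQ : (QuadraticMap.polarBilin Q).Nondegenerate) (hn : 5 ≤ Fintype.card ι)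
    (h2 : (2 : F) ≠ 0) : ∃ Y : YDat Φ p, Y.α = 0 := by
  classical
  obtain ⟨z, hz0, hz⟩ := exists_z F
  have h12 : (1 : Fin (n + 3)) ≠ 2 := by
    intro h
    have := congrArg Fin.val h
    simp [Fin.val_one, Fin.val_two] at this
    rw [Nat.mod_eq_of_lt (by omega)] at this
    omega
  have h01 : (0 : Fin (n + 3)) ≠ 1 := by
    intro h
    have := congrArg Fin.val h
    simp at this
  have h02 : (0 : Fin (n + 3)) ≠ 2 := by
    intro h
    have := congrArg Fin.val h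
    simp [Fin.val_two] at this
    rw [Nat.mod_eq_of_lt (by omega)] at this
    omega
  have hab : ab (Sum.inl 1 : I (n + 3)) ≠ ab (Sum.inl 2) := by
    simpa [ab] using h12
  obtain ⟨g, hgΩ, g1, g2, g3, g4, g5⟩ := exists_nn Φ hQ hn (Sum.inl 1) (Sum.inl 2) hab
  obtain ⟨t, htΩ, t1, t2, t3, t4, t5⟩ := exists_tor2 Φ hQ hn (Sum.inl 1) (Sum.inl 2) hab z hz0
  have n1 : ng (Sum.inl 1 : I (n + 3)) = Sum.inr 1 := rfl
  have n2 : ng (Sum.inl 2 : I (n + 3)) = Sum.inr 2 := rfl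
  rw [n1, n2] at g3 g4 g5 t5
  rw [n1] at t2
  rw [n2] at t4
  have y1 : act (g * t) (Φ.v (Sum.inl 1)) = (-z⁻¹) • Φ.v (Sum.inl 2) := by
    rw [act_mul, t1, act_smul, g1]; simp
  have y2 : act (g * t) (Φ.v (Sum.inl 2)) = z⁻¹ • Φ.v (Sum.inl 1) := by
    rw [act_mul, t3, act_smul, g2]
  have y3 : act (g * t) (Φ.v (Sum.inr 1)) = (-z) • Φ.v (Sum.inr 2) := by
    rw [act_mul, t2, act_smul, g3]; simp
  have y4 : act (g * t) (Φ.v (Sum.inr 2)) = z • Φ.v (Sum.inr 1) := by
    rw [act_mul, t4, act_smul, g4]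
  have y5 : ∀ x, BB Q (Φ.v (Sum.inl 1)) x = 0 → BB Q (Φ.v (Sum.inr 1)) x = 0 →
      BB Q (Φ.v (Sum.inl 2)) x = 0 → BB Q (Φ.v (Sum.inr 2)) x = 0 → act (g * t) x = x := by
    intro x a1 a2 a3 a4
    rw [act_mul, t5 x a1 a2 a3 a4, g5 x a1 a2 a3 a4]
  have s1 : act ((g * t) ^ 2) (Φ.v (Sum.inl 1)) = (-((z⁻¹) ^ 2)) • Φ.v (Sum.inl 1) := by
    rw [pow_two, act_mul, y1, act_smul, y2, smul_smul]; congr 1; ring
  have s2 : act ((g * t) ^ 2) (Φ.v (Sum.inl 2)) = (-((z⁻¹) ^ 2)) • Φ.v (Sum.inl 2) := by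
    rw [pow_two, act_mul, y2, act_smul, y1, smul_smul]; congr 1; ring
  have s3 : act ((g * t) ^ 2) (Φ.v (Sum.inr 1)) = (-(z ^ 2)) • Φ.v (Sum.inr 1) := by
    rw [pow_two, act_mul, y3, act_smul, y4, smul_smul]; congr 1; ring
  have s4 : act ((g * t) ^ 2) (Φ.v (Sum.inr 2)) = (-(z ^ 2)) • Φ.v (Sum.inr 2) := by
    rw [pow_two, act_mul, y4, act_smul, y3, smul_smul]; congr 1; ring
  have hA : (-((z⁻¹) ^ 2)) ^ (Fintype.card F - 1) = 1 :=
    FiniteField.pow_card_sub_one_eq_one _ (neg_ne_zero.2 (pow_ne_zero _ (inv_ne_zero hz0)))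
  have hB : (-(z ^ 2)) ^ (Fintype.card F - 1) = 1 :=
    FiniteField.pow_card_sub_one_eq_one _ (neg_ne_zero.2 (pow_ne_zero _ hz0))
  have hfixv : ∀ a : I (n + 3), a ≠ Sum.inl 1 → a ≠ Sum.inl 2 → a ≠ Sum.inr 1 → a ≠ Sum.inr 2 →
      act (g * t) (Φ.v a) = Φ.v a := by
    intro a a1 a2 a3 a4
    apply y5
    · rw [Φ.pol, n1, if_neg a3]
    · rw [Φ.pol, if_neg]; exact a1
    · rw [Φ.pol, n2, if_neg a4]
    · rw [Φ.pol, if_neg]; exact a2
  have hfixV : ∀ w ∈ Φ.V0, act (g * t) w = w := by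
    intro w hw
    exact y5 w (Φ.perp _ w hw) (Φ.perp _ w hw) (Φ.perp _ w hw) (Φ.perp _ w hw)
  refine ⟨{ y := g * t
            mem := mul_mem hgΩ htΩ
            fix0 := ?_
            fixV := hfixV
            N := 2 * (Fintype.card F - 1)
            pow := ?_
            cop := cop_aux p h2
            e := 2
            l := -((z⁻¹) ^ 2)
            scale := s1
            gen := (gen_sq z hz).2.2.2
            α := 0
            β := z⁻¹
            hβ := inv_ne_zero hz0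
            tr := by rw [y2]; simp }, rfl⟩
  · apply hfixv
    · intro h; exact h01 (Sum.inl.inj h)
    · intro h; exact h02 (Sum.inl.inj h)
    · intro h; cases h
    · intro h; cases h
  · apply ext_frame Φ
    · intro a
      rw [act_one, pow_mul]
      by_cases a1 : a = Sum.inl 1
      · subst a1; rw [act_pow_smul _ _ _ s1, hA, one_smul]
      by_cases a2 : a = Sum.inl 2
      · subst a2; rw [act_pow_smul _ _ _ s2, hA, one_smul]
      by_cases a3 : a = Sum.inr 1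
      · subst a3; rw [act_pow_smul _ _ _ s3, hB, one_smul]
      by_cases a4 : a = Sum.inr 2
      · subst a4; rw [act_pow_smul _ _ _ s4, hB, one_smul]
      exact act_pow_fix _ _ (act_pow_fix _ _ (hfixv a a1 a2 a3 a4) 2) _
    · intro w hw
      rw [act_one]
      exact act_pow_fix _ _ (hfixV w hw) _

end Cfsg.Agent.Lib.H43OgCyN
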