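import Cfsg.Agent.Lib.Helper43OgDefs
import Cfsg.Agent.Lib.Helper49Rank
import Cfsg.Agent.Lib.Helper49OddForm
import Cfsg.Agent.Lib.Helper7OCenter
import Cfsg.Agent.Lib.Helper49All
import Cfsg.Agent.Lib.Helper77SpTgam
import Cfsg.Agent.Lib.Helper65Sptcoprime
import Cfsg.Agent.Lib.H43OgAact
import Cfsg.Agent.Lib.H43OgAext
import Cfsg.Agent.Lib.H43OgGgen
import Cfsg.Agent.Lib.H43OgCtor

set_option autoImplicit false
set_option linter.unusedSimpArgs false

/-! Project 413, piece `cyY`.  Sketch: notes/helper43/Og.md -/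

namespace Cfsg.Agent.Lib.H43OgCyY

open Cfsg.Agent.Lib.Helper43Sp (I ng ab gam)
open Cfsg.Agent.Lib.Helper49Eich (E)
open Cfsg.Agent.Lib.Helper49Orth (reflO)
open Cfsg.Agent.Lib.Helper49Par (RootSet)
open Cfsg.Agent.Lib.Helper49Forms (QPlus QOdd QMinus)
open Cfsg.Agent.Lib.Helper43Og
open Cfsg.Agent.Lib.H43OgAact
open Cfsg.Agent.Lib.H43OgAext
open Cfsg.Agent.Lib.H43OgGgen
open Cfsg.Agent.Lib.H43OgCtor

variable {F : Type*} [Field F] {ι : Type} [Fintype ι] [DecidableEq ι] {Q : QuadraticForm F (ι → F)}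

theorem f21 (n : ℕ) : (2 : Fin (n+3)) ≠ 1 := by
  intro h
  have := congrArg Fin.val h
  simp [Nat.mod_eq_of_lt] at this
theorem f20 (n : ℕ) : (2 : Fin (n+3)) ≠ 0 := by
  intro h
  have := congrArg Fin.val h
  simp [Nat.mod_eq_of_lt] at this
theorem f10 (n : ℕ) : (1 : Fin (n+3)) ≠ 0 := by
  intro h
  have := congrArg Fin.val h
  simp [Nat.mod_eq_of_lt] at this

theorem act_pow_smul (g : GG Q) (x : ι → F) (c : F) (h : act g x = c • x) (m : ℕ) :
    act (g ^ m) x = c ^ m • x := by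
  induction m with
  | zero => simp [act_one]
  | succ m ih => rw [pow_succ, act_mul, h, act_smul, ih, smul_smul, pow_succ, mul_comm]

theorem act_inv_of_fix (g : GG Q) (x : ι → F) (h : act g x = x) : act g⁻¹ x = x := by
  conv_lhs => rw [← h]
  exact act_inv_act g x

variable [Fintype F] {n : ℕ} (Φ : Frame Q (n + 3)) (p : ℕ) [CharP F p]

theorem cop_card : Nat.Coprime p (Fintype.card F - 1) := by
  have h1 : p ∣ Fintype.card F := (CharP.cast_eq_zero_iff F p _).1 (Nat.cast_card_eq_zero F)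
  have h2 : 0 < Fintype.card F := Fintype.card_pos
  have h3 : Nat.Coprime (Fintype.card F) (Fintype.card F - 1) := by
    obtain ⟨m, hm⟩ : ∃ m, Fintype.card F = m + 1 := ⟨Fintype.card F - 1, by omega⟩
    rw [hm]
    simp
  exact Nat.Coprime.coprime_dvd_left h1 h3

theorem tor_pow (T : GG Q) (a : I (n+3)) (z : F) (hz : z ≠ 0)
    (h1 : act T (Φ.v a) = z⁻¹ • Φ.v a) (h2 : act T (Φ.v (ng a)) = z • Φ.v (ng a))
    (h3 : ∀ x, BB Q (Φ.v a) x = 0 → BB Q (Φ.v (ng a)) x = 0 → act T x = x) :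
    T ^ (Fintype.card F - 1) = 1 := by
  apply ext_frame Φ
  · intro b
    rw [act_one]
    by_cases hb : b = a
    · subst hb
      rw [act_pow_smul T _ _ h1, FiniteField.pow_card_sub_one_eq_one _ (inv_ne_zero hz), one_smul]
    · by_cases hb' : b = ng a
      · subst hb'
        rw [act_pow_smul T _ _ h2, FiniteField.pow_card_sub_one_eq_one _ hz, one_smul]
      · have h4 : act T (Φ.v b) = (1 : F) • Φ.v b := by
          rw [one_smul]
          apply h3
          · rw [Φ.pol, if_neg hb']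
          · rw [Φ.pol, if_neg]
            intro h
            apply hb
            rw [h]
            cases a <;> rfl
        rw [act_pow_smul T _ _ h4, one_pow, one_smul]
  · intro w hw
    rw [act_one]
    have h4 : act T w = (1 : F) • w := by
      rw [one_smul]
      exact h3 w (Φ.perp _ w hw) (Φ.perp _ w hw)
    rw [act_pow_smul T _ _ h4, one_pow, one_smul]

theorem exists_yY (hQ : (QuadraticMap.polarBilin Q).Nondegenerate) (hn : 5 ≤ Fintype.card ι)
    (h2 : (2 : F) = 0) (h4 : 2 < Fintype.card F) : Nonempty (YDat Φ p) := by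
  classical
  obtain ⟨z, hz0, hz⟩ := exists_z F
  obtain ⟨T, hT1, hT2, hT3⟩ := exists_tor Φ (Sum.inl 1) z hz0
  have hTN := tor_pow Φ T (Sum.inl 1) z hz0 hT1 hT2 hT3
  have he : Q (Φ.v (Sum.inl 1)) = 0 := Φ.sing _
  have hw : BB Q (Φ.v (Sum.inl 1)) (Φ.v (Sum.inr 2)) = 0 := by
    rw [Φ.pol, if_neg]
    simp [ng, f21, f20, f10, (f21 n).symm, (f20 n).symm, (f10 n).symm]
  have hx : E Q (Φ.v (Sum.inl 1)) (Φ.v (Sum.inr 2)) ∈ Cfsg.Omega F ⇑Q :=
    Cfsg.Agent.Lib.Helper49EichGen.E_mem_Omega Q hQ hn he hw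
  have ht : T * T ∈ Cfsg.Omega F ⇑Q :=
    Cfsg.Agent.Lib.Helper49All.sq_mem_Omega Q hQ (Or.inr (by omega)) T
  obtain ⟨x, hxd⟩ : ∃ x, x = E Q (Φ.v (Sum.inl 1)) (Φ.v (Sum.inr 2)) := ⟨_, rfl⟩
  rw [← hxd] at hx
  have hxa : ∀ X, act x X = X + (BB Q X (Φ.v (Sum.inr 2))) • Φ.v (Sum.inl 1)
      - BB Q X (Φ.v (Sum.inl 1)) • Φ.v (Sum.inr 2) := by
    intro X
    rw [hxd, E_act he hw, Φ.sing, zero_mul, sub_zero]
  have hx0 : act x (Φ.v (Sum.inl 0)) = Φ.v (Sum.inl 0) := by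
    rw [hxa, Φ.pol, Φ.pol, if_neg (by simp [ng, f21, f20, f10, (f21 n).symm, (f20 n).symm, (f10 n).symm]), if_neg (by simp [ng, f21, f20, f10, (f21 n).symm, (f20 n).symm, (f10 n).symm])]
    simp
  have hx1 : act x (Φ.v (Sum.inl 1)) = Φ.v (Sum.inl 1) := by
    rw [hxa, Φ.pol, Φ.pol, if_neg (by simp [ng, f21, f20, f10, (f21 n).symm, (f20 n).symm, (f10 n).symm]), if_neg (by simp [ng, f21, f20, f10, (f21 n).symm, (f20 n).symm, (f10 n).symm])]
    simp
  have hx2 : act x (Φ.v (Sum.inl 2)) = Φ.v (Sum.inl 2) + Φ.v (Sum.inl 1) := by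
    rw [hxa, Φ.pol, Φ.pol, if_pos (by simp [ng, f21, f20, f10, (f21 n).symm, (f20 n).symm, (f10 n).symm]), if_neg (by simp [ng, f21, f20, f10, (f21 n).symm, (f20 n).symm, (f10 n).symm])]
    simp
  have hxV : ∀ w ∈ Φ.V0, act x w = w := by
    intro w hw
    have e1 : BB Q w (Φ.v (Sum.inr 2)) = 0 := by
      rw [BB, QuadraticMap.polar_comm]; exact Φ.perp _ w hw
    have e2 : BB Q w (Φ.v (Sum.inl 1)) = 0 := by
      rw [BB, QuadraticMap.polar_comm]; exact Φ.perp _ w hw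
    rw [hxa, e1, e2]
    simp
  have hxi2 : act x⁻¹ (Φ.v (Sum.inl 2)) = Φ.v (Sum.inl 2) - Φ.v (Sum.inl 1) := by
    have h := act_inv_act x (Φ.v (Sum.inl 2))
    rw [hx2, act_add, act_inv_of_fix x _ hx1] at h
    exact eq_sub_of_add_eq h
  have hT0 : act T (Φ.v (Sum.inl 0)) = Φ.v (Sum.inl 0) := by
    apply hT3
    · rw [Φ.pol, if_neg (by simp [ng, f21, f20, f10, (f21 n).symm, (f20 n).symm, (f10 n).symm])]
    · rw [Φ.pol, if_neg (by simp [ng, f21, f20, f10, (f21 n).symm, (f20 n).symm, (f10 n).symm])]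
  have hT2' : act T (Φ.v (Sum.inl 2)) = Φ.v (Sum.inl 2) := by
    apply hT3
    · rw [Φ.pol, if_neg (by simp [ng, f21, f20, f10, (f21 n).symm, (f20 n).symm, (f10 n).symm])]
    · rw [Φ.pol, if_neg (by simp [ng, f21, f20, f10, (f21 n).symm, (f20 n).symm, (f10 n).symm])]
  have hTV : ∀ w ∈ Φ.V0, act T w = w := fun w hw => hT3 w (Φ.perp _ w hw) (Φ.perp _ w hw)
  have hβ : 1 - (z⁻¹) ^ 2 ≠ 0 := by
    intro h
    have h5 : (z⁻¹ - 1) ^ 2 = 0 := by
      have : (z⁻¹ - 1) ^ 2 = -(1 - (z⁻¹)^2) + 2 * (1 - z⁻¹) := by ring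
      rw [this, h, h2]; ring
    have h6 : z⁻¹ = 1 := by
      have := pow_eq_zero_iff (two_ne_zero) |>.1 h5
      exact sub_eq_zero.1 this
    have h7 : z = 1 := by
      rw [← inv_inv z, h6, inv_one]
    have h8 : ∀ x : F, x = 0 ∨ x = 1 := by
      intro x
      by_cases hx : x = 0
      · exact Or.inl hx
      · obtain ⟨j, hj⟩ := hz x hx
        right; rw [hj, h7, one_pow]
    have h9 : Fintype.card F ≤ 2 := by
      have : (Finset.univ : Finset F) ⊆ {0, 1} := by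
        intro x _
        rcases h8 x with h | h <;> simp [h]
      calc Fintype.card F = (Finset.univ : Finset F).card := rfl
        _ ≤ ({0, 1} : Finset F).card := Finset.card_le_card this
        _ ≤ 2 := Finset.card_le_two
    omega
  refine ⟨{
    y := x * (T * T) * x⁻¹
    mem := mul_mem (mul_mem hx ht) (inv_mem hx)
    fix0 := ?_
    fixV := ?_
    N := Fintype.card F - 1
    pow := ?_
    cop := cop_card p
    e := 1
    l := (z⁻¹) ^ 2
    scale := ?_
    gen := (gen_sq z hz).2.2.1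
    α := 1
    β := 1 - (z⁻¹) ^ 2
    hβ := hβ
    tr := ?_ }⟩
  · rw [act_mul, act_mul, act_mul, act_inv_of_fix x _ hx0, hT0, hT0, hx0]
  · intro w hw
    rw [act_mul, act_mul, act_mul, act_inv_of_fix x _ (hxV w hw), hTV w hw, hTV w hw, hxV w hw]
  · rw [conj_pow, ← pow_two, ← pow_mul, mul_comm, pow_mul, hTN, one_pow, mul_one, mul_inv_cancel]
  · rw [pow_one, act_mul, act_mul, act_mul, act_inv_of_fix x _ hx1, hT1, act_smul, hT1, act_smul,
      act_smul, hx1, smul_smul, pow_two]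
  · rw [act_mul, act_mul, act_mul, hxi2, sub_eq_add_neg, ← neg_one_smul F (Φ.v (Sum.inl 1)), act_add,
      act_smul, hT2', hT1, act_add, act_smul, act_smul, hT2', hT1, act_add, act_smul, act_smul,
      act_smul, hx2, hx1]
    module

end Cfsg.Agent.Lib.H43OgCyY
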