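import Cfsg.Agent.Lib.Helper43OgDefs
import Cfsg.Agent.Lib.Helper49Rank
import Cfsg.Agent.Lib.Helper49OddForm
import Cfsg.Agent.Lib.Helper7OCenter
import Cfsg.Agent.Lib.Helper49All
import Cfsg.Agent.Lib.Helper77SpTgam
import Cfsg.Agent.Lib.Helper65Sptcoprime
import Cfsg.Agent.Lib.H43OgAact

set_option autoImplicit false

/-! Project 413, piece `eadd`.  Sketch: notes/helper43/Og.md -/

namespace Cfsg.Agent.Lib.H43OgEadd

open Cfsg.Agent.Lib.Helper43Sp (I ng ab gam)
open Cfsg.Agent.Lib.Helper49Eich (E)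
open Cfsg.Agent.Lib.Helper49Orth (reflO)
open Cfsg.Agent.Lib.Helper49Par (RootSet)
open Cfsg.Agent.Lib.Helper49Forms (QPlus QOdd QMinus)
open Cfsg.Agent.Lib.Helper43Og
open Cfsg.Agent.Lib.H43OgAact

variable {F : Type*} [Field F] {ι : Type} [Fintype ι] [DecidableEq ι] {Q : QuadraticForm F (ι → F)}

theorem E_add_left {e e' w : ι → F} (he : Q e = 0) (he' : Q e' = 0) (hee : BB Q e e' = 0)
    (hw : BB Q e w = 0) (hw' : BB Q e' w = 0) :
    E Q (e + e') w = E Q e (Q w • e') * E Q e w * E Q e' w := by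
  have hee0 : QuadraticMap.polar ⇑Q e e' = 0 := hee
  have hw0 : QuadraticMap.polar ⇑Q e w = 0 := hw
  have hw0' : QuadraticMap.polar ⇑Q e' w = 0 := hw'
  have hee1 : QuadraticMap.polar ⇑Q e' e = 0 := by rw [QuadraticMap.polar_comm]; exact hee0
  have hwe : QuadraticMap.polar ⇑Q w e = 0 := by rw [QuadraticMap.polar_comm]; exact hw0
  have hwe' : QuadraticMap.polar ⇑Q w e' = 0 := by rw [QuadraticMap.polar_comm]; exact hw0'
  have hself : QuadraticMap.polar ⇑Q e e = 0 := by
    rw [QuadraticMap.polar_self, he]; simp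
  have hself' : QuadraticMap.polar ⇑Q e' e' = 0 := by
    rw [QuadraticMap.polar_self, he']; simp
  have hww : QuadraticMap.polar ⇑Q w w = 2 * Q w := by
    rw [QuadraticMap.polar_self]; simp
  have hsum : Q (e + e') = 0 := by
    have := QuadraticMap.polar ⇑Q e e'
    have h1 : QuadraticMap.polar ⇑Q e e' = Q (e + e') - Q e - Q e' := rfl
    rw [hee0, he, he'] at h1
    simpa using h1.symm
  have hsw : QuadraticMap.polar ⇑Q (e + e') w = 0 := by
    rw [QuadraticMap.polar_add_left, hw0, hw0', add_zero]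
  have hes : QuadraticMap.polar ⇑Q e (Q w • e') = 0 := by
    rw [QuadraticMap.polar_smul_right, hee0, smul_zero]
  apply Cfsg.Agent.Lib.Helper49Eich.ext_mulVec
  intro x
  rw [Cfsg.Agent.Lib.Helper49Eich.mul_mulVec, Cfsg.Agent.Lib.Helper49Eich.mul_mulVec,
    Cfsg.Agent.Lib.Helper49Eich.E_apply Q hsum hsw, Cfsg.Agent.Lib.Helper49Eich.E_apply Q he' hw0']
  set y3 := x + (QuadraticMap.polar ⇑Q x w - Q w * QuadraticMap.polar ⇑Q x e') • e' -
    QuadraticMap.polar ⇑Q x e' • w with hy3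
  have h3e : QuadraticMap.polar ⇑Q y3 e = QuadraticMap.polar ⇑Q x e := by
    rw [hy3, QuadraticMap.polar_sub_left, QuadraticMap.polar_add_left, QuadraticMap.polar_smul_left,
      QuadraticMap.polar_smul_left, hee1, hwe]
    simp
  have h3e' : QuadraticMap.polar ⇑Q y3 e' = QuadraticMap.polar ⇑Q x e' := by
    rw [hy3, QuadraticMap.polar_sub_left, QuadraticMap.polar_add_left, QuadraticMap.polar_smul_left,
      QuadraticMap.polar_smul_left, hself', hwe']
    simp
  have h3w : QuadraticMap.polar ⇑Q y3 w =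
      QuadraticMap.polar ⇑Q x w - 2 * Q w * QuadraticMap.polar ⇑Q x e' := by
    rw [hy3, QuadraticMap.polar_sub_left, QuadraticMap.polar_add_left, QuadraticMap.polar_smul_left,
      QuadraticMap.polar_smul_left, hw0', hww]
    simp only [smul_eq_mul]
    ring
  rw [Cfsg.Agent.Lib.Helper49Eich.E_apply Q he hw0, h3e, h3w]
  set y2 := y3 + (QuadraticMap.polar ⇑Q x w - 2 * Q w * QuadraticMap.polar ⇑Q x e' -
    Q w * QuadraticMap.polar ⇑Q x e) • e - QuadraticMap.polar ⇑Q x e • w with hy2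
  have h2e : QuadraticMap.polar ⇑Q y2 e = QuadraticMap.polar ⇑Q x e := by
    rw [hy2, QuadraticMap.polar_sub_left, QuadraticMap.polar_add_left, QuadraticMap.polar_smul_left,
      QuadraticMap.polar_smul_left, hself, hwe, h3e]
    simp
  have h2e' : QuadraticMap.polar ⇑Q y2 e' = QuadraticMap.polar ⇑Q x e' := by
    rw [hy2, QuadraticMap.polar_sub_left, QuadraticMap.polar_add_left, QuadraticMap.polar_smul_left,
      QuadraticMap.polar_smul_left, hee0, hwe', h3e']
    simp
  rw [Cfsg.Agent.Lib.Helper49Eich.E_apply Q he hes, QuadraticMap.polar_smul_right, h2e, h2e',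
    QuadraticMap.map_smul, he', QuadraticMap.polar_add_right, hy2, hy3]
  funext k
  simp only [Pi.add_apply, Pi.sub_apply, Pi.smul_apply, smul_eq_mul]
  ring

end Cfsg.Agent.Lib.H43OgEadd
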