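import Cfsg.Agent.Lib.Helper43OgDefs
import Cfsg.Agent.Lib.Helper49Rank
import Cfsg.Agent.Lib.Helper49OddForm
import Cfsg.Agent.Lib.Helper7OCenter
import Cfsg.Agent.Lib.Helper49All
import Cfsg.Agent.Lib.Helper77SpTgam
import Cfsg.Agent.Lib.Helper65Sptcoprime
import Cfsg.Agent.Lib.H43OgAact

set_option autoImplicit false

/-! Project 413, piece `ecomm`.  Sketch: notes/helper43/Og.md -/

namespace Cfsg.Agent.Lib.H43OgEcomm

open Cfsg.Agent.Lib.Helper43Sp (I ng ab gam)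
open Cfsg.Agent.Lib.Helper49Eich (E)
open Cfsg.Agent.Lib.Helper49Orth (reflO)
open Cfsg.Agent.Lib.Helper49Par (RootSet)
open Cfsg.Agent.Lib.Helper49Forms (QPlus QOdd QMinus)
open Cfsg.Agent.Lib.Helper43Og
open Cfsg.Agent.Lib.H43OgAact

variable {F : Type*} [Field F] {ι : Type} [Fintype ι] [DecidableEq ι] {Q : QuadraticForm F (ι → F)}
variable {k : ℕ} (Φ : Frame Q k) (M : Subgroup (GG Q)) (w0 : ι → F) (c : GG Q)

theorem comm_XX (a b : I k) (hab : a ≠ b) (hab' : a ≠ ng b) (w w' : ι → F) (hw : w ∈ Φ.V0)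
    (hw' : w' ∈ Φ.V0) :
    E Q (Φ.v a) w * E Q (Φ.v b) w' * (E Q (Φ.v a) w)⁻¹ * (E Q (Φ.v b) w')⁻¹ =
      E Q (Φ.v b) (BB Q w' w • Φ.v a) := by
  have qa : Q (Φ.v a) = 0 := Φ.sing a
  have qb : Q (Φ.v b) = 0 := Φ.sing b
  have pa : QuadraticMap.polar (⇑Q) (Φ.v a) w = 0 := Φ.perp a w hw
  have pa' : QuadraticMap.polar (⇑Q) (Φ.v a) w' = 0 := Φ.perp a w' hw'
  have pb : QuadraticMap.polar (⇑Q) (Φ.v b) w = 0 := Φ.perp b w hw
  have pb' : QuadraticMap.polar (⇑Q) (Φ.v b) w' = 0 := Φ.perp b w' hw'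
  have bba : QuadraticMap.polar (⇑Q) (Φ.v b) (Φ.v a) = 0 := by
    have h0 : BB Q (Φ.v b) (Φ.v a) = 0 := by
      rw [Φ.pol, if_neg hab']
    exact h0
  have pb2 : QuadraticMap.polar (⇑Q) (Φ.v b) (BB Q w' w • Φ.v a) = 0 := by
    rw [QuadraticMap.polar_smul_right, bba, smul_zero]
  have a1 : act (E Q (Φ.v a) w) (Φ.v b) = Φ.v b := by
    rw [E_act qa pa]
    have e1 : BB Q (Φ.v b) w = 0 := pb
    have e2 : BB Q (Φ.v b) (Φ.v a) = 0 := bba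
    rw [e1, e2]
    simp
  have a2 : act (E Q (Φ.v a) w) w' = BB Q w' w • Φ.v a + w' := by
    rw [E_act qa pa]
    have e2 : BB Q w' (Φ.v a) = 0 := by
      show QuadraticMap.polar (⇑Q) _ _ = 0
      rw [QuadraticMap.polar_comm]
      exact pa'
    rw [e2]
    simp [add_comm]
  rw [E_cj (E Q (Φ.v a) w) qb pb', a1, a2,
    ← Cfsg.Agent.Lib.Helper49Eich.E_mul Q qb pb2 pb', mul_inv_cancel_right]

end Cfsg.Agent.Lib.H43OgEcomm
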