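import Cfsg.Agent.Lib.Helper43OgDefs
import Cfsg.Agent.Lib.Helper49Rank
import Cfsg.Agent.Lib.Helper49OddForm
import Cfsg.Agent.Lib.Helper7OCenter
import Cfsg.Agent.Lib.Helper49All
import Cfsg.Agent.Lib.Helper77SpTgam
import Cfsg.Agent.Lib.Helper65Sptcoprime
import Cfsg.Agent.Lib.H43OgAact

set_option autoImplicit false

/-! Project 413, piece `epow`.  Sketch: notes/helper43/Og.md -/

namespace Cfsg.Agent.Lib.H43OgEpow

open Cfsg.Agent.Lib.Helper43Sp (I ng ab gam)
open Cfsg.Agent.Lib.Helper49Eich (E)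
open Cfsg.Agent.Lib.Helper49Orth (reflO)
open Cfsg.Agent.Lib.Helper49Par (RootSet)
open Cfsg.Agent.Lib.Helper49Forms (QPlus QOdd QMinus)
open Cfsg.Agent.Lib.Helper43Og
open Cfsg.Agent.Lib.H43OgAact

variable {F : Type*} [Field F] {ι : Type} [Fintype ι] [DecidableEq ι] {Q : QuadraticForm F (ι → F)}

theorem E_pow {e w : ι → F} (he : Q e = 0) (hw : BB Q e w = 0) (n : ℕ) :
    (E Q e w) ^ n = E Q e ((n : F) • w) := by
  have hw0 : QuadraticMap.polar ⇑Q e w = 0 := hw
  induction n with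
  | zero => simp [Cfsg.Agent.Lib.Helper49Eich.E_zero]
  | succ n ih =>
    rw [pow_succ, ih, Cfsg.Agent.Lib.Helper49Eich.E_mul Q he
      (by rw [QuadraticMap.polar_smul_right, hw0, smul_zero]) hw]
    congr 1
    push_cast
    rw [add_smul, one_smul]
theorem E_pow_char (p : ℕ) [CharP F p] {e w : ι → F} (he : Q e = 0) (hw : BB Q e w = 0) :
    (E Q e w) ^ p = 1 := by
  rw [E_pow he hw, CharP.cast_eq_zero, zero_smul, Cfsg.Agent.Lib.Helper49Eich.E_zero]

end Cfsg.Agent.Lib.H43OgEpow
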