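import Cfsg.Agent.Lib.Helper43OgDefs
import Cfsg.Agent.Lib.Helper49Rank
import Cfsg.Agent.Lib.Helper49OddForm
import Cfsg.Agent.Lib.Helper7OCenter
import Cfsg.Agent.Lib.Helper49All
import Cfsg.Agent.Lib.Helper77SpTgam
import Cfsg.Agent.Lib.Helper65Sptcoprime
import Cfsg.Agent.Lib.H43OgAact

set_option autoImplicit false

/-! Project 413, piece `esum`.  Sketch: notes/helper43/Og.md -/

namespace Cfsg.Agent.Lib.H43OgEsum

open Cfsg.Agent.Lib.Helper43Sp (I ng ab gam)
open Cfsg.Agent.Lib.Helper49Eich (E)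
open Cfsg.Agent.Lib.Helper49Orth (reflO)
open Cfsg.Agent.Lib.Helper49Par (RootSet)
open Cfsg.Agent.Lib.Helper49Forms (QPlus QOdd QMinus)
open Cfsg.Agent.Lib.Helper43Og
open Cfsg.Agent.Lib.H43OgAact

variable {F : Type*} [Field F] {ι : Type} [Fintype ι] [DecidableEq ι] {Q : QuadraticForm F (ι → F)}

theorem E_sum_mem (M : Subgroup (GG Q)) {e : ι → F} (he : Q e = 0) {κ : Type*} (s : Finset κ)
    (f : κ → ι → F) (hf : ∀ i ∈ s, BB Q e (f i) = 0) (hm : ∀ i ∈ s, E Q e (f i) ∈ M) :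
    E Q e (∑ i ∈ s, f i) ∈ M := by
  classical
  have key : BB Q e (∑ i ∈ s, f i) = 0 ∧ E Q e (∑ i ∈ s, f i) ∈ M := by
    induction s using Finset.induction_on with
    | empty =>
      refine ⟨by simp, ?_⟩
      rw [Finset.sum_empty, Cfsg.Agent.Lib.Helper49Eich.E_zero]
      exact one_mem M
    | insert a s ha ih =>
      obtain ⟨h1, h2⟩ := ih (fun i hi => hf i (Finset.mem_insert_of_mem hi))
        (fun i hi => hm i (Finset.mem_insert_of_mem hi))
      have ha0 : QuadraticMap.polar ⇑Q e (f a) = 0 := hf a (Finset.mem_insert_self a s)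
      have h1' : QuadraticMap.polar ⇑Q e (∑ i ∈ s, f i) = 0 := h1
      rw [Finset.sum_insert ha]
      refine ⟨by show QuadraticMap.polar ⇑Q e _ = 0; rw [QuadraticMap.polar_add_right, ha0, h1', add_zero], ?_⟩
      rw [← Cfsg.Agent.Lib.Helper49Eich.E_mul Q he ha0 h1]
      exact mul_mem (hm a (Finset.mem_insert_self a s)) h2
  exact key.2

end Cfsg.Agent.Lib.H43OgEsum
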