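import Cfsg.Agent.Lib.Helper43OgDefs

set_option autoImplicit false

/-! Project 413, piece `fminus`.  Sketch: notes/helper43/Og.md -/

namespace Cfsg.Agent.Lib.H43OgFminus

open Cfsg.Agent.Lib.Helper43Sp (I ng ab gam)
open Cfsg.Agent.Lib.Helper49Forms (QPlus QOdd QMinus)
open Cfsg.Agent.Lib.Helper43Og

section aux

variable {F : Type*} [Field F] {k : ℕ} (a b : F)

theorem Q_apply (x : (Fin k ⊕ Fin k) ⊕ Fin 2 → F) :
    QMinus k F a b x = ∑ i : Fin k, x (Sum.inl (Sum.inl i)) * x (Sum.inl (Sum.inr i))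
      + (x (Sum.inr 0) * x (Sum.inr 0) + a * (x (Sum.inr 0) * x (Sum.inr 1))
        + b * (x (Sum.inr 1) * x (Sum.inr 1))) := by
  simp [QMinus]

theorem B_apply (x y : (Fin k ⊕ Fin k) ⊕ Fin 2 → F) :
    BB (QMinus k F a b) x y = ∑ i : Fin k, (x (Sum.inl (Sum.inl i)) * y (Sum.inl (Sum.inr i))
        + y (Sum.inl (Sum.inl i)) * x (Sum.inl (Sum.inr i)))
      + (2 * (x (Sum.inr 0) * y (Sum.inr 0)) + a * (x (Sum.inr 0) * y (Sum.inr 1)
        + y (Sum.inr 0) * x (Sum.inr 1)) + 2 * b * (x (Sum.inr 1) * y (Sum.inr 1))) := by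
  show QMinus k F a b (x + y) - QMinus k F a b x - QMinus k F a b y = _
  rw [Q_apply, Q_apply, Q_apply]
  simp only [Pi.add_apply]
  have h : ∑ i : Fin k, (x (Sum.inl (Sum.inl i)) + y (Sum.inl (Sum.inl i)))
        * (x (Sum.inl (Sum.inr i)) + y (Sum.inl (Sum.inr i)))
      = ∑ i : Fin k, x (Sum.inl (Sum.inl i)) * x (Sum.inl (Sum.inr i))
        + ∑ i : Fin k, y (Sum.inl (Sum.inl i)) * y (Sum.inl (Sum.inr i))
        + ∑ i : Fin k, (x (Sum.inl (Sum.inl i)) * y (Sum.inl (Sum.inr i))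
          + y (Sum.inl (Sum.inl i)) * x (Sum.inl (Sum.inr i))) := by
    rw [← Finset.sum_add_distrib, ← Finset.sum_add_distrib]
    apply Finset.sum_congr rfl
    intro i _
    ring
  rw [h]
  ring

/-- the anisotropic plane -/
def V0 (k : ℕ) (F : Type*) [Field F] : Submodule F ((Fin k ⊕ Fin k) ⊕ Fin 2 → F) where
  carrier := {x | ∀ c, x (Sum.inl c) = 0}
  add_mem' := fun {x y} hx hy c => by rw [Pi.add_apply, hx c, hy c, add_zero]
  zero_mem' := fun _ => rfl
  smul_mem' := fun t x hx c => by rw [Pi.smul_apply, hx c, smul_zero]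

theorem mem_V0 (x : (Fin k ⊕ Fin k) ⊕ Fin 2 → F) : x ∈ V0 k F ↔ ∀ c, x (Sum.inl c) = 0 := Iff.rfl

/-- on the plane -/
theorem B_V0 {x y : (Fin k ⊕ Fin k) ⊕ Fin 2 → F} (hx : x ∈ V0 k F) :
    BB (QMinus k F a b) x y = 2 * (x (Sum.inr 0) * y (Sum.inr 0)) + a * (x (Sum.inr 0) * y (Sum.inr 1)
        + y (Sum.inr 0) * x (Sum.inr 1)) + 2 * b * (x (Sum.inr 1) * y (Sum.inr 1)) := by
  rw [B_apply, Finset.sum_eq_zero, zero_add]
  intro i _
  rw [hx, hx, zero_mul, mul_zero, add_zero]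

/-- the frame -/
noncomputable def frame (k : ℕ) (F : Type*) [Field F] (a b : F) : Frame (QMinus k F a b) k where
  v := fun c => Pi.single (Sum.inl c) 1
  V0 := V0 k F
  sing := by
    intro c
    rw [Q_apply]
    rcases c with c | c <;> simp [Pi.single_apply]
  pol := by
    intro c d
    rw [B_apply]
    rcases c with c | c <;> rcases d with d | d <;> simp [Pi.single_apply, ng, eq_comm]
  perp := by
    intro c w hw
    rw [B_apply, Finset.sum_eq_zero]
    · simp [Pi.single_apply]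
    · intro i _
      rw [hw, hw, zero_mul, mul_zero, add_zero]
  span := by
    intro x
    refine ⟨fun c => x (Sum.inl c), fun j => Sum.elim (fun _ => 0) (fun j => x (Sum.inr j)) j,
      fun c => rfl, ?_⟩
    funext j
    rcases j with j | j
    · rcases j with j | j <;> simp [Finset.sum_apply, Pi.single_apply]
    · simp [Finset.sum_apply, Pi.single_apply]

end aux

theorem exists_frame_minus (k : ℕ) (F : Type*) [Field F] [Finite F] (a b : F)
    (hab : ∀ z₁ z₂ : F, z₁ ^ 2 + a * z₁ * z₂ + b * z₂ ^ 2 = 0 → z₁ = 0 ∧ z₂ = 0) :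
    ∃ (Φ : Frame (QMinus k F a b) k) (w0 w1 : (Fin k ⊕ Fin k) ⊕ Fin 2 → F), w0 ∈ Φ.V0 ∧
      QMinus k F a b w0 ≠ 0 ∧ w1 ∈ Φ.V0 ∧
      (∀ w ∈ Φ.V0, ∃ s t : F, w = s • w1 + t • rf (QMinus k F a b) w0 w1) ∧
      BB (QMinus k F a b) w0 w1 ≠ 0 ∧
      ((2 : F) = 0 → BB (QMinus k F a b) w1 (rf (QMinus k F a b) w0 w1) ≠ 0) := by
  set z1 : (Fin k ⊕ Fin k) ⊕ Fin 2 → F := Pi.single (Sum.inr 0) 1 with hz1
  set z2 : (Fin k ⊕ Fin k) ⊕ Fin 2 → F := Pi.single (Sum.inr 1) 1 with hz2
  have m1 : z1 ∈ V0 k F := fun c => by simp [hz1]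
  have m2 : z2 ∈ V0 k F := fun c => by simp [hz2]
  have z10 : z1 (Sum.inr 0) = 1 := by simp [hz1]
  have z11 : z1 (Sum.inr 1) = 0 := by simp [hz1]
  have z20 : z2 (Sum.inr 0) = 0 := by simp [hz2]
  have z21 : z2 (Sum.inr 1) = 1 := by simp [hz2]
  have hQ1 : QMinus k F a b z1 = 1 := by
    rw [Q_apply, Finset.sum_eq_zero, z10, z11]
    · ring
    · intro i _
      rw [m1, zero_mul]
  have hrf : ∀ x, rf (QMinus k F a b) z1 x = x - (2 * x (Sum.inr 0) + a * x (Sum.inr 1)) • z1 := by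
    intro x
    unfold rf
    rw [hQ1, B_V0 a b m1, z10, z11]
    congr 2
    ring
  by_cases ha : a = 0
  · -- then the characteristic is odd
    have h2 : (2 : F) ≠ 0 := by
      intro h2
      have hc : ringChar F = 2 := CharP.ringChar_of_prime_eq_zero Nat.prime_two (by exact_mod_cast h2)
      obtain ⟨r, hr⟩ := FiniteField.isSquare_of_char_two hc b
      have := (hab r 1 (by rw [ha, hr]; linear_combination (r * r) * h2)).2
      exact one_ne_zero this
    refine ⟨frame k F a b, z1, z1 + z2, m1, by rw [hQ1]; exact one_ne_zero,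
      (V0 k F).add_mem m1 m2, ?_, ?_, fun h => absurd h h2⟩
    · intro w hw
      refine ⟨(w (Sum.inr 0) + w (Sum.inr 1)) / 2, (w (Sum.inr 1) - w (Sum.inr 0)) / 2, ?_⟩
      rw [hrf]
      funext j
      rcases j with j | j
      · simp only [Pi.add_apply, Pi.smul_apply, Pi.sub_apply, smul_eq_mul]
        rw [hw j, m1 j, m2 j]
        ring
      · fin_cases j
        · simp only [Pi.add_apply, Pi.smul_apply, Pi.sub_apply, smul_eq_mul, Fin.zero_eta, Fin.isValue]
          rw [z10, z20, z11, z21, ha]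
          field_simp
          ring
        · simp only [Pi.add_apply, Pi.smul_apply, Pi.sub_apply, smul_eq_mul, Fin.mk_one, Fin.isValue]
          rw [z10, z20, z11, z21, ha]
          field_simp
          ring
    · rw [B_V0 a b m1]
      simp only [Pi.add_apply]
      rw [z10, z20, z11, z21, ha]
      simpa using h2
  · refine ⟨frame k F a b, z1, z2, m1, by rw [hQ1]; exact one_ne_zero, m2, ?_, ?_, ?_⟩
    · intro w hw
      refine ⟨w (Sum.inr 1) + w (Sum.inr 0) / a, - (w (Sum.inr 0) / a), ?_⟩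
      rw [hrf]
      funext j
      rcases j with j | j
      · simp only [Pi.add_apply, Pi.smul_apply, Pi.sub_apply, smul_eq_mul]
        rw [hw j, m1 j, m2 j]
        ring
      · fin_cases j
        · simp only [Pi.add_apply, Pi.smul_apply, Pi.sub_apply, smul_eq_mul, Fin.zero_eta, Fin.isValue]
          rw [z10, z20, z21]
          field_simp
          ring
        · simp only [Pi.add_apply, Pi.smul_apply, Pi.sub_apply, smul_eq_mul, Fin.mk_one, Fin.isValue]
          rw [z20, z11, z21]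
          field_simp
          ring
    · rw [B_V0 a b m1, z10, z20, z11, z21]
      simpa using ha
    · intro h2
      rw [hrf, B_V0 a b m2]
      simp only [Pi.sub_apply, Pi.smul_apply, smul_eq_mul]
      rw [z10, z20, z11, z21, h2]
      simpa using ha

end Cfsg.Agent.Lib.H43OgFminus
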