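import Cfsg.Agent.Lib.Helper43OgDefs
import Cfsg.Agent.Lib.Helper49Rank
import Cfsg.Agent.Lib.Helper49OddForm
import Cfsg.Agent.Lib.Helper7OCenter
import Cfsg.Agent.Lib.Helper49All
import Cfsg.Agent.Lib.Helper77SpTgam
import Cfsg.Agent.Lib.Helper65Sptcoprime

set_option autoImplicit false

/-! Project 413, piece `fodd`.  Sketch: notes/helper43/Og.md -/

namespace Cfsg.Agent.Lib.H43OgFodd

open Cfsg.Agent.Lib.Helper43Sp (I ng ab gam)
open Cfsg.Agent.Lib.Helper49Eich (E)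
open Cfsg.Agent.Lib.Helper49Orth (reflO)
open Cfsg.Agent.Lib.Helper49Par (RootSet)
open Cfsg.Agent.Lib.Helper49Forms (QPlus QOdd QMinus)
open Cfsg.Agent.Lib.Helper43Og

variable {F : Type*} [Field F] {ι : Type} [Fintype ι] [DecidableEq ι] {Q : QuadraticForm F (ι → F)}

theorem QOdd_apply (m : ℕ) (x : Unit ⊕ (Fin m ⊕ Fin m) → F) :
    QOdd m F x = x (.inl ()) ^ 2 + ∑ i : Fin m, x (.inr (.inl i)) * x (.inr (.inr i)) := by
  have := congrFun (Helper49Forms.coe_QOdd (F := F) m) x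
  rw [this]; rfl

theorem polar_QOdd (m : ℕ) (x y : Unit ⊕ (Fin m ⊕ Fin m) → F) :
    QuadraticMap.polar (⇑(QOdd m F)) x y = 2 * x (.inl ()) * y (.inl ())
      + ∑ i : Fin m, (x (.inr (.inl i)) * y (.inr (.inr i)) + y (.inr (.inl i)) * x (.inr (.inr i))) := by
  unfold QuadraticMap.polar
  rw [QOdd_apply, QOdd_apply, QOdd_apply]
  have h : ∑ i : Fin m, (x + y) (.inr (.inl i)) * (x + y) (.inr (.inr i))
      = ∑ i : Fin m, x (.inr (.inl i)) * x (.inr (.inr i)) + ∑ i : Fin m, y (.inr (.inl i)) * y (.inr (.inr i))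
        + ∑ i : Fin m, (x (.inr (.inl i)) * y (.inr (.inr i)) + y (.inr (.inl i)) * x (.inr (.inr i))) := by
    rw [← Finset.sum_add_distrib, ← Finset.sum_add_distrib]
    refine Finset.sum_congr rfl fun i _ => ?_
    simp only [Pi.add_apply]
    ring
  rw [h]
  simp only [Pi.add_apply]
  ring

theorem exists_frame_odd (m : ℕ) (F : Type*) [Field F] (h2 : (2 : F) ≠ 0) :
    ∃ (Φ : Frame (QOdd m F) m) (w0 : Unit ⊕ (Fin m ⊕ Fin m) → F), w0 ∈ Φ.V0 ∧ QOdd m F w0 ≠ 0 ∧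
      (∀ w ∈ Φ.V0, ∃ t : F, w = t • w0) ∧ BB (QOdd m F) w0 w0 ≠ 0 := by
  classical
  let w0 : Unit ⊕ (Fin m ⊕ Fin m) → F := Pi.single (Sum.inl ()) 1
  let v : I m → (Unit ⊕ (Fin m ⊕ Fin m) → F) := fun a => Pi.single (Sum.inr a) 1
  have hmem : ∀ w ∈ Submodule.span F {w0}, ∃ t : F, w = t • w0 := by
    intro w hw
    obtain ⟨t, ht⟩ := Submodule.mem_span_singleton.1 hw
    exact ⟨t, ht.symm⟩
  refine ⟨{ v := v, V0 := Submodule.span F {w0}, sing := ?_, pol := ?_, perp := ?_, span := ?_ }, w0,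
    Submodule.mem_span_singleton_self w0, ?_, hmem, ?_⟩
  · intro a
    rw [QOdd_apply]
    rcases a with i | i <;> simp [v, Pi.single_apply]
  · intro a b
    show QuadraticMap.polar (⇑(QOdd m F)) (v a) (v b) = _
    rw [polar_QOdd]
    rcases a with i | i <;> rcases b with j | j <;>
      simp [v, Pi.single_apply, ng, eq_comm]
  · intro a w hw
    obtain ⟨t, rfl⟩ := hmem w hw
    show QuadraticMap.polar (⇑(QOdd m F)) (v a) (t • w0) = _
    rw [polar_QOdd]
    rcases a with i | i <;> simp [v, w0, Pi.single_apply]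
  · intro x
    refine ⟨fun a => x (Sum.inr a), x (Sum.inl ()) • w0,
      Submodule.smul_mem _ _ (Submodule.mem_span_singleton_self w0), ?_⟩
    funext j
    rcases j with j | j
    · simp [v, w0, Finset.sum_apply]
    · rcases j with j | j <;> simp [v, w0, Finset.sum_apply, Pi.single_apply]
  · rw [QOdd_apply]
    simp [w0]
  · show QuadraticMap.polar (⇑(QOdd m F)) w0 w0 ≠ 0
    rw [polar_QOdd]
    simpa [w0, Pi.single_apply] using h2

end Cfsg.Agent.Lib.H43OgFodd
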