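import Cfsg.Agent.Lib.Helper43OgDefs
import Cfsg.Agent.Lib.Helper49Rank
import Cfsg.Agent.Lib.Helper49OddForm
import Cfsg.Agent.Lib.Helper7OCenter
import Cfsg.Agent.Lib.Helper49All
import Cfsg.Agent.Lib.Helper77SpTgam
import Cfsg.Agent.Lib.Helper65Sptcoprime

set_option autoImplicit false

/-! Project 413, piece `fplus`.  Sketch: notes/helper43/Og.md -/

namespace Cfsg.Agent.Lib.H43OgFplus

open Cfsg.Agent.Lib.Helper43Sp (I ng ab gam)
open Cfsg.Agent.Lib.Helper49Eich (E)
open Cfsg.Agent.Lib.Helper49Orth (reflO)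
open Cfsg.Agent.Lib.Helper49Par (RootSet)
open Cfsg.Agent.Lib.Helper49Forms (QPlus QOdd QMinus)
open Cfsg.Agent.Lib.Helper43Og

variable {F : Type*} [Field F] {ι : Type} [Fintype ι] [DecidableEq ι] {Q : QuadraticForm F (ι → F)}

theorem Q_apply (m : ℕ) (x : Fin m ⊕ Fin m → F) :
    QPlus m F x = ∑ i : Fin m, x (Sum.inl i) * x (Sum.inr i) := by
  have h := congrFun (Cfsg.Agent.Lib.Helper49Forms.coe_QPlus (F := F) m) x
  rw [h]; rfl

theorem B_apply (m : ℕ) (x y : Fin m ⊕ Fin m → F) :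
    BB (QPlus m F) x y
      = ∑ i : Fin m, (x (Sum.inl i) * y (Sum.inr i) + y (Sum.inl i) * x (Sum.inr i)) := by
  unfold BB QuadraticMap.polar
  rw [Q_apply, Q_apply, Q_apply, ← Finset.sum_sub_distrib, ← Finset.sum_sub_distrib]
  refine Finset.sum_congr rfl fun i _ => ?_
  simp only [Pi.add_apply]
  ring

theorem B_inl (m : ℕ) (j : Fin m) (y : Fin m ⊕ Fin m → F) :
    BB (QPlus m F) (Pi.single (Sum.inl j) 1) y = y (Sum.inr j) := by
  rw [B_apply, Finset.sum_eq_single j]
  · simp
  · intro b _ hb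
    simp [Pi.single_apply, hb]
  · simp

theorem B_inr (m : ℕ) (j : Fin m) (y : Fin m ⊕ Fin m → F) :
    BB (QPlus m F) (Pi.single (Sum.inr j) 1) y = y (Sum.inl j) := by
  rw [B_apply, Finset.sum_eq_single j]
  · simp
  · intro b _ hb
    simp [Pi.single_apply, hb]
  · simp

theorem B_single (m : ℕ) (a : Fin m ⊕ Fin m) (y : Fin m ⊕ Fin m → F) :
    BB (QPlus m F) (Pi.single a 1) y = y (Sum.swap a) := by
  rcases a with j | j
  · exact B_inl m j y
  · exact B_inr m j y

theorem Q_single (m : ℕ) (a : Fin m ⊕ Fin m) :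
    QPlus m F (Pi.single a 1) = 0 := by
  rw [Q_apply]
  refine Finset.sum_eq_zero fun i _ => ?_
  rcases a with j | j <;> simp [Pi.single_apply]

/-- the embedding of the signed indices -/
def em (k : ℕ) : I k → Fin (k + 1) ⊕ Fin (k + 1) := Sum.map Fin.castSucc Fin.castSucc

theorem em_inj (k : ℕ) : Function.Injective (em k) :=
  Sum.map_injective.2 ⟨Fin.castSucc_injective k, Fin.castSucc_injective k⟩

theorem swap_em (k : ℕ) (a : I k) : Sum.swap (em k a) = em k (ng a) := by
  rcases a with j | j <;> rfl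

/-- the complement -/
def V0' (k : ℕ) (F : Type*) [Field F] : Submodule F (Fin (k + 1) ⊕ Fin (k + 1) → F) where
  carrier := {x | ∀ a : I k, x (em k a) = 0}
  add_mem' := by
    intro x y hx hy a
    simp [hx a, hy a]
  zero_mem' := by
    intro a; rfl
  smul_mem' := by
    intro c x hx a
    simp [hx a]

theorem mem_V0' (k : ℕ) (x : Fin (k + 1) ⊕ Fin (k + 1) → F) :
    x ∈ V0' k F ↔ ∀ a : I k, x (em k a) = 0 := Iff.rfl

theorem cases_idx (k : ℕ) (j : Fin (k + 1) ⊕ Fin (k + 1)) :
    (∃ a, j = em k a) ∨ j = Sum.inl (Fin.last k) ∨ j = Sum.inr (Fin.last k) := by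
  rcases j with i | i
  · induction i using Fin.lastCases with
    | last => exact Or.inr (Or.inl rfl)
    | cast i => exact Or.inl ⟨Sum.inl i, rfl⟩
  · induction i using Fin.lastCases with
    | last => exact Or.inr (Or.inr rfl)
    | cast i => exact Or.inl ⟨Sum.inr i, rfl⟩

theorem em_ne_inl (k : ℕ) (a : I k) : em k a ≠ Sum.inl (Fin.last k) := by
  rcases a with j | j
  · intro h
    have := Sum.inl.inj h
    exact (Fin.castSucc_lt_last j).ne this
  · intro h; cases h

theorem em_ne_inr (k : ℕ) (a : I k) : em k a ≠ Sum.inr (Fin.last k) := by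
  rcases a with j | j
  · intro h; cases h
  · intro h
    have := Sum.inr.inj h
    exact (Fin.castSucc_lt_last j).ne this

/-- the frame -/
noncomputable def fr (k : ℕ) (F : Type*) [Field F] : Frame (QPlus (k + 1) F) k where
  v := fun a => Pi.single (em k a) 1
  V0 := V0' k F
  sing := fun a => Q_single _ _
  pol := by
    intro a b
    rw [B_single, swap_em, Pi.single_apply]
    by_cases h : b = ng a
    · subst h; simp
    · rw [if_neg h, if_neg]
      intro h'
      exact h ((em_inj k h').symm)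
  perp := by
    intro a w hw
    rw [B_single, swap_em]
    exact hw _
  span := by
    intro x
    refine ⟨fun a => x (em k a), x - ∑ a, x (em k a) • Pi.single (em k a) (1 : F), ?_, by abel⟩
    intro b
    rw [Pi.sub_apply, Finset.sum_apply, Finset.sum_eq_single b]
    · simp
    · intro c _ hc
      have : em k b ≠ em k c := fun h => hc ((em_inj k h).symm)
      simp [Pi.single_apply, this]
    · simp

theorem exists_frame_plus (k : ℕ) (F : Type*) [Field F] :
    ∃ (Φ : Frame (QPlus (k + 1) F) k) (w0 w1 : Fin (k + 1) ⊕ Fin (k + 1) → F), w0 ∈ Φ.V0 ∧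
      QPlus (k + 1) F w0 ≠ 0 ∧ w1 ∈ Φ.V0 ∧
      (∀ w ∈ Φ.V0, ∃ s t : F, w = s • w1 + t • rf (QPlus (k + 1) F) w0 w1) ∧
      BB (QPlus (k + 1) F) w0 w1 ≠ 0 ∧ QPlus (k + 1) F w1 = 0 := by
  set e : Fin (k + 1) ⊕ Fin (k + 1) → F := Pi.single (Sum.inl (Fin.last k)) 1 with he
  set f : Fin (k + 1) ⊕ Fin (k + 1) → F := Pi.single (Sum.inr (Fin.last k)) 1 with hf
  have heV : e ∈ V0' k F := by
    intro a
    simp [he, Pi.single_apply, em_ne_inl]
  have hfV : f ∈ V0' k F := by
    intro a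
    simp [hf, Pi.single_apply, em_ne_inr]
  have hQ0 : QPlus (k + 1) F (e + f) = 1 := by
    rw [Q_apply, Finset.sum_eq_single (Fin.last k)]
    · simp [he, hf]
    · intro b _ hb
      simp [he, hf, Pi.single_apply, hb]
    · simp
  have hB : BB (QPlus (k + 1) F) (e + f) e = 1 := by
    have h1 : BB (QPlus (k + 1) F) (e + f) e = BB (QPlus (k + 1) F) e (e + f) :=
      QuadraticMap.polar_comm _ _ _
    rw [h1, he, B_inl]
    simp [hf]
  have hrf : rf (QPlus (k + 1) F) (e + f) e = -f := by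
    unfold rf
    rw [hQ0, hB]
    simp
  refine ⟨fr k F, e + f, e, (V0' k F).add_mem heV hfV, by rw [hQ0]; exact one_ne_zero, heV, ?_,
    by rw [hB]; exact one_ne_zero, Q_single _ _⟩
  intro w hw
  refine ⟨w (Sum.inl (Fin.last k)), -w (Sum.inr (Fin.last k)), ?_⟩
  rw [hrf]
  funext j
  rcases cases_idx k j with ⟨a, rfl⟩ | rfl | rfl
  · have := hw a
    rw [this]
    simp [he, hf, Pi.single_apply, em_ne_inl, em_ne_inr]
  · simp [he, hf]
  · simp [he, hf]

end Cfsg.Agent.Lib.H43OgFplus
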