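import Cfsg.Agent.Lib.Helper43OgDefs
import Cfsg.Agent.Lib.Helper49Rank
import Cfsg.Agent.Lib.Helper49OddForm
import Cfsg.Agent.Lib.Helper7OCenter
import Cfsg.Agent.Lib.Helper49All
import Cfsg.Agent.Lib.Helper77SpTgam
import Cfsg.Agent.Lib.Helper65Sptcoprime

set_option autoImplicit false

/-! Project 413, piece `ftwo`.  Sketch: notes/helper43/Og.md -/

namespace Cfsg.Agent.Lib.H43OgFtwo

open Cfsg.Agent.Lib.Helper43Sp (I ng ab gam)
open Cfsg.Agent.Lib.Helper49Eich (E)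
open Cfsg.Agent.Lib.Helper49Orth (reflO)
open Cfsg.Agent.Lib.Helper49Par (RootSet)
open Cfsg.Agent.Lib.Helper49Forms (QPlus QOdd QMinus)
open Cfsg.Agent.Lib.Helper43Og

variable {F : Type*} [Field F] {ι : Type} [Fintype ι] [DecidableEq ι] {Q : QuadraticForm F (ι → F)}

theorem two_ne_zero_of_odd {F : Type*} [Field F] [Fintype F] (hodd : Odd (Fintype.card F)) : (2 : F) ≠ 0 := by
  intro h2
  haveI : CharP F 2 := CharTwo.of_one_ne_zero_of_two_eq_zero one_ne_zero h2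
  obtain ⟨n, _, hn⟩ := FiniteField.card F 2
  rw [hn] at hodd
  have : Even (2 ^ (n : ℕ)) := (Nat.even_pow.2 ⟨even_two, n.ne_zero⟩)
  exact (Nat.not_even_iff_odd.2 hodd) this

end Cfsg.Agent.Lib.H43OgFtwo
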