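import Cfsg.Agent.Lib.Helper43OgDefs
import Cfsg.Agent.Lib.Helper49Rank
import Cfsg.Agent.Lib.Helper49OddForm
import Cfsg.Agent.Lib.Helper7OCenter
import Cfsg.Agent.Lib.Helper49All
import Cfsg.Agent.Lib.Helper77SpTgam
import Cfsg.Agent.Lib.Helper65Sptcoprime

set_option autoImplicit false

/-! Project 413, piece `gquot`.  Sketch: notes/helper43/Og.md -/

namespace Cfsg.Agent.Lib.H43OgGquot

open Cfsg.Agent.Lib.Helper43Sp (I ng ab gam)
open Cfsg.Agent.Lib.Helper49Eich (E)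
open Cfsg.Agent.Lib.Helper49Orth (reflO)
open Cfsg.Agent.Lib.Helper49Par (RootSet)
open Cfsg.Agent.Lib.Helper49Forms (QPlus QOdd QMinus)
open Cfsg.Agent.Lib.Helper43Og

variable {F : Type*} [Field F] {ι : Type} [Fintype ι] [DecidableEq ι] {Q : QuadraticForm F (ι → F)}

theorem two_gen_quot {G : Type*} [Group G] (N : Subgroup G) [N.Normal]
    (h : ∃ a b : G, Subgroup.closure ({a, b} : Set G) = ⊤) :
    ∃ a b : G ⧸ N, Subgroup.closure ({a, b} : Set (G ⧸ N)) = ⊤ := by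
  obtain ⟨a, b, hab⟩ := h
  refine ⟨(QuotientGroup.mk a : G ⧸ N), (QuotientGroup.mk b : G ⧸ N), ?_⟩
  have h1 := congrArg (Subgroup.map (QuotientGroup.mk' N)) hab
  rw [MonoidHom.map_closure, ← MonoidHom.range_eq_map,
    MonoidHom.range_eq_top.2 (QuotientGroup.mk'_surjective N), Set.image_pair] at h1
  exact h1

end Cfsg.Agent.Lib.H43OgGquot
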