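import Cfsg.Agent.Lib.Helper43OgDefs
import Cfsg.Agent.Lib.Helper49Rank
import Cfsg.Agent.Lib.Helper49OddForm
import Cfsg.Agent.Lib.Helper7OCenter
import Cfsg.Agent.Lib.Helper49All
import Cfsg.Agent.Lib.Helper77SpTgam
import Cfsg.Agent.Lib.Helper65Sptcoprime

set_option autoImplicit false

/-! Project 413, piece `gtwo`.  Sketch: notes/helper43/Og.md -/

namespace Cfsg.Agent.Lib.H43OgGtwo

open Cfsg.Agent.Lib.Helper43Sp (I ng ab gam)
open Cfsg.Agent.Lib.Helper49Eich (E)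
open Cfsg.Agent.Lib.Helper49Orth (reflO)
open Cfsg.Agent.Lib.Helper49Par (RootSet)
open Cfsg.Agent.Lib.Helper49Forms (QPlus QOdd QMinus)
open Cfsg.Agent.Lib.Helper43Og

variable {F : Type*} [Field F] {ι : Type} [Fintype ι] [DecidableEq ι] {Q : QuadraticForm F (ι → F)}

theorem two_gen_of {G : Type*} [Group G] (Ω : Subgroup G) (u y c : G) (hu : u ∈ Ω) (hy : y ∈ Ω)
    (hc : c ∈ Ω) (huy : Commute u y) (p N : ℕ) (hp : u ^ p = 1) (hN : y ^ N = 1) (hpN : Nat.Coprime p N)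
    (h : ∀ M : Subgroup G, u ∈ M → y ∈ M → c ∈ M → Ω ≤ M) :
    ∃ a b : ↥Ω, Subgroup.closure ({a, b} : Set ↥Ω) = ⊤ := by
  refine ⟨⟨u * y, Ω.mul_mem hu hy⟩, ⟨c, hc⟩, ?_⟩
  rw [eq_top_iff]
  intro x _
  have hM : Ω ≤ Subgroup.closure ({u * y, c} : Set G) := by
    obtain ⟨h1, h2⟩ := Cfsg.Agent.Lib.Helper65Sptcoprime.mem_zpowers_of_coprime u y huy p N hp hN hpN
    have hz : Subgroup.zpowers (u * y) ≤ Subgroup.closure ({u * y, c} : Set G) :=
      Subgroup.zpowers_le.2 (Subgroup.subset_closure (by simp))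
    exact h _ (hz h1) (hz h2) (Subgroup.subset_closure (by simp))
  have hmap : (Subgroup.closure ({⟨u * y, Ω.mul_mem hu hy⟩, ⟨c, hc⟩} : Set ↥Ω)).map Ω.subtype =
      Subgroup.closure ({u * y, c} : Set G) := by
    rw [MonoidHom.map_closure]
    congr 1
    simp [Set.image_pair]
  have hx : (x : G) ∈ (Subgroup.closure ({⟨u * y, Ω.mul_mem hu hy⟩, ⟨c, hc⟩} : Set ↥Ω)).map
      Ω.subtype := by
    rw [hmap]; exact hM x.2
  obtain ⟨x', hx', e⟩ := hx
  have : x' = x := Subtype.ext e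
  rwa [this] at hx'

end Cfsg.Agent.Lib.H43OgGtwo
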