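import Cfsg.Agent.Lib.Helper43OgDefs
import Cfsg.Agent.Lib.Helper49Rank
import Cfsg.Agent.Lib.Helper49OddForm
import Cfsg.Agent.Lib.Helper7OCenter
import Cfsg.Agent.Lib.Helper49All
import Cfsg.Agent.Lib.Helper77SpTgam
import Cfsg.Agent.Lib.Helper65Sptcoprime
import Cfsg.Agent.Lib.H43OgAact

set_option autoImplicit false

/-! Project 413, piece `kll`.  Sketch: notes/helper43/Og.md -/

namespace Cfsg.Agent.Lib.H43OgKll

open Cfsg.Agent.Lib.Helper43Sp (I ng ab gam)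
open Cfsg.Agent.Lib.Helper49Eich (E)
open Cfsg.Agent.Lib.Helper49Orth (reflO)
open Cfsg.Agent.Lib.Helper49Par (RootSet)
open Cfsg.Agent.Lib.Helper49Forms (QPlus QOdd QMinus)
open Cfsg.Agent.Lib.Helper43Og
open Cfsg.Agent.Lib.H43OgAact

variable {F : Type*} [Field F] {ι : Type} [Fintype ι] [DecidableEq ι] {Q : QuadraticForm F (ι → F)}
variable {k : ℕ} (Φ : Frame Q k) (M : Subgroup (GG Q)) (w0 : ι → F) (c : GG Q)

open Cfsg.Agent.Lib.Helper49Eich in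
theorem exists_LLs (a : I k) : ∃ S : AddSubgroup (ι → F), ∀ w, w ∈ S ↔ w ∈ LL Φ M a := by
  refine ⟨{ carrier := LL Φ M a, add_mem' := ?_, zero_mem' := ?_, neg_mem' := ?_ }, fun w => Iff.rfl⟩
  · rintro w w' ⟨hw, hwM⟩ ⟨hw', hwM'⟩
    refine ⟨Φ.V0.add_mem hw hw', ?_⟩
    rw [← E_mul Q (Φ.sing a) (Φ.perp a w hw) (Φ.perp a w' hw')]
    exact M.mul_mem hwM hwM'
  · refine ⟨Φ.V0.zero_mem, ?_⟩
    rw [E_zero]
    exact M.one_mem
  · rintro w ⟨hw, hwM⟩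
    refine ⟨Φ.V0.neg_mem hw, ?_⟩
    rw [← E_inv Q (Φ.sing a) (Φ.perp a w hw)]
    exact M.inv_mem hwM

end Cfsg.Agent.Lib.H43OgKll
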