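import Cfsg.Agent.Lib.Helper43OgDefs
import Cfsg.Agent.Lib.Helper49Rank
import Cfsg.Agent.Lib.Helper49OddForm
import Cfsg.Agent.Lib.Helper7OCenter
import Cfsg.Agent.Lib.Helper49All
import Cfsg.Agent.Lib.Helper77SpTgam
import Cfsg.Agent.Lib.Helper65Sptcoprime
import Cfsg.Agent.Lib.H43OgAact

set_option autoImplicit false

/-! Project 413, piece `kscale`.  Sketch: notes/helper43/Og.md -/

namespace Cfsg.Agent.Lib.H43OgKscale

open Cfsg.Agent.Lib.Helper43Sp (I ng ab gam)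
open Cfsg.Agent.Lib.Helper49Eich (E)
open Cfsg.Agent.Lib.Helper49Orth (reflO)
open Cfsg.Agent.Lib.Helper49Par (RootSet)
open Cfsg.Agent.Lib.Helper49Forms (QPlus QOdd QMinus)
open Cfsg.Agent.Lib.Helper43Og
open Cfsg.Agent.Lib.H43OgAact

variable {F : Type*} [Field F] {ι : Type} [Fintype ι] [DecidableEq ι] {Q : QuadraticForm F (ι → F)}
variable {k : ℕ} (Φ : Frame Q k) (M : Subgroup (GG Q)) (w0 : ι → F) (c : GG Q)

open Cfsg.Agent.Lib.Helper49Eich in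
theorem LL_scale (a : I k) (l : F) (h : Sc Φ M a l) (w : ι → F) (hw : w ∈ LL Φ M a) :
    l • w ∈ LL Φ M a := by
  obtain ⟨g, hgM, hga, hgV⟩ := h
  obtain ⟨hwV, hwM⟩ := hw
  refine ⟨Φ.V0.smul_mem l hwV, ?_⟩
  have h1 := E_cj g (Φ.sing a) (Φ.perp a w hwV)
  rw [hga, hgV w hwV, E_smul Q (Φ.sing a) (Φ.perp a w hwV)] at h1
  rw [← h1]
  exact M.mul_mem (M.mul_mem hgM hwM) (M.inv_mem hgM)

end Cfsg.Agent.Lib.H43OgKscale
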