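import Cfsg.Agent.Lib.Helper43OgDefs
import Cfsg.Agent.Lib.Helper49Rank
import Cfsg.Agent.Lib.Helper49OddForm
import Cfsg.Agent.Lib.Helper7OCenter
import Cfsg.Agent.Lib.Helper49All
import Cfsg.Agent.Lib.Helper77SpTgam
import Cfsg.Agent.Lib.Helper65Sptcoprime
import Cfsg.Agent.Lib.H43OgAact
import Cfsg.Agent.Lib.H43OgKll
import Cfsg.Agent.Lib.H43OgKscale

set_option autoImplicit false

/-! Project 413, piece `kclosed`.  Sketch: notes/helper43/Og.md -/

namespace Cfsg.Agent.Lib.H43OgKclosed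

open Cfsg.Agent.Lib.Helper43Sp (I ng ab gam)
open Cfsg.Agent.Lib.Helper49Eich (E)
open Cfsg.Agent.Lib.Helper49Orth (reflO)
open Cfsg.Agent.Lib.Helper49Par (RootSet)
open Cfsg.Agent.Lib.Helper49Forms (QPlus QOdd QMinus)
open Cfsg.Agent.Lib.Helper43Og
open Cfsg.Agent.Lib.H43OgAact
open Cfsg.Agent.Lib.H43OgKll
open Cfsg.Agent.Lib.H43OgKscale

variable {F : Type*} [Field F] {ι : Type} [Fintype ι] [DecidableEq ι] {Q : QuadraticForm F (ι → F)}
variable {k : ℕ} (Φ : Frame Q k) (M : Subgroup (GG Q)) (w0 : ι → F) (c : GG Q)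

theorem LL_closed (a : I k) (l : F) (h : Sc Φ M a l) (hl : Gen F l) (w : ι → F) (hw : w ∈ LL Φ M a)
    (t : F) : t • w ∈ LL Φ M a := by
  obtain ⟨S, hS⟩ := exists_LLs Φ M a
  let f : F →+ (ι → F) :=
    { toFun := fun t => t • w, map_zero' := zero_smul _ _, map_add' := fun x y => add_smul x y w }
  have h1 : t ∈ S.comap f := by
    apply hl (S.comap f)
    · show (1 : F) • w ∈ S
      rw [one_smul, hS]; exact hw
    · intro x hx
      show (l * x) • w ∈ S
      have hx' : x • w ∈ S := hx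
      rw [hS] at hx' ⊢
      rw [mul_smul]
      exact LL_scale Φ M a l h _ hx'
  exact (hS _).1 h1

end Cfsg.Agent.Lib.H43OgKclosed
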