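import Cfsg.Agent.Lib.Helper43OgDefs
import Cfsg.Agent.Lib.Helper49Rank
import Cfsg.Agent.Lib.Helper49OddForm
import Cfsg.Agent.Lib.Helper7OCenter
import Cfsg.Agent.Lib.Helper49All
import Cfsg.Agent.Lib.Helper77SpTgam
import Cfsg.Agent.Lib.Helper65Sptcoprime
import Cfsg.Agent.Lib.H43OgAact
import Cfsg.Agent.Lib.H43OgArf

set_option autoImplicit false

/-! Project 413, piece `kcox`.  Sketch: notes/helper43/Og.md -/

namespace Cfsg.Agent.Lib.H43OgKcox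

open Cfsg.Agent.Lib.Helper43Sp (I ng ab gam)
open Cfsg.Agent.Lib.Helper49Eich (E)
open Cfsg.Agent.Lib.Helper49Orth (reflO)
open Cfsg.Agent.Lib.Helper49Par (RootSet)
open Cfsg.Agent.Lib.Helper49Forms (QPlus QOdd QMinus)
open Cfsg.Agent.Lib.Helper43Og
open Cfsg.Agent.Lib.H43OgAact
open Cfsg.Agent.Lib.H43OgArf

variable {F : Type*} [Field F] {ι : Type} [Fintype ι] [DecidableEq ι] {Q : QuadraticForm F (ι → F)}
variable {k : ℕ} (Φ : Frame Q k) (M : Subgroup (GG Q)) (w0 : ι → F) (c : GG Q)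

open Cfsg.Agent.Lib.Helper49Eich in
theorem LL_cox (h0 : w0 ∈ Φ.V0) (hc : Cox Φ w0 c) (hcM : c ∈ M) (a : I k) (w : ι → F) (hw : w ∈ LL Φ M a) :
    ∃ κ : F, κ ≠ 0 ∧ κ • rf Q w0 w ∈ LL Φ M (gam a) := by
  obtain ⟨κ, hκ, hcv⟩ := hc.hv a
  obtain ⟨hwV, hwM⟩ := hw
  have hr : rf Q w0 w ∈ Φ.V0 := rf_mem Φ w0 h0 w hwV
  refine ⟨κ, hκ, Φ.V0.smul_mem κ hr, ?_⟩
  have h1 := E_cj c (Φ.sing a) (Φ.perp a w hwV)
  rw [hcv, hc.h0 w hwV, E_smul Q (Φ.sing (gam a)) (Φ.perp (gam a) _ hr)] at h1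
  rw [← h1]
  exact M.mul_mem (M.mul_mem hcM hwM) (M.inv_mem hcM)

end Cfsg.Agent.Lib.H43OgKcox
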