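import Cfsg.Agent.Lib.Helper43OgDefs
import Cfsg.Agent.Lib.Helper49Rank
import Cfsg.Agent.Lib.Helper49OddForm
import Cfsg.Agent.Lib.Helper7OCenter
import Cfsg.Agent.Lib.Helper49All
import Cfsg.Agent.Lib.Helper77SpTgam
import Cfsg.Agent.Lib.Helper65Sptcoprime
import Cfsg.Agent.Lib.H43OgAact
import Cfsg.Agent.Lib.H43OgArf
import Cfsg.Agent.Lib.H43OgKcox

set_option autoImplicit false

/-! Project 413, piece `kfull`.  Sketch: notes/helper43/Og.md -/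

namespace Cfsg.Agent.Lib.H43OgKfull

open Cfsg.Agent.Lib.Helper43Sp (I ng ab gam)
open Cfsg.Agent.Lib.Helper49Eich (E)
open Cfsg.Agent.Lib.Helper49Orth (reflO)
open Cfsg.Agent.Lib.Helper49Par (RootSet)
open Cfsg.Agent.Lib.Helper49Forms (QPlus QOdd QMinus)
open Cfsg.Agent.Lib.Helper43Og
open Cfsg.Agent.Lib.H43OgAact
open Cfsg.Agent.Lib.H43OgArf
open Cfsg.Agent.Lib.H43OgKcox

variable {F : Type*} [Field F] {ι : Type} [Fintype ι] [DecidableEq ι] {Q : QuadraticForm F (ι → F)}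
variable {k : ℕ} (Φ : Frame Q k) (M : Subgroup (GG Q)) (w0 : ι → F) (c : GG Q)

open Cfsg.Agent.Lib.Helper49Eich in
theorem full_gam (h0 : w0 ∈ Φ.V0) (hQ0 : Q w0 ≠ 0) (hc : Cox Φ w0 c) (hcM : c ∈ M) (a : I k)
    (h : ∀ w ∈ Φ.V0, E Q (Φ.v a) w ∈ M) : ∀ w ∈ Φ.V0, E Q (Φ.v (gam a)) w ∈ M := by
  intro w hw
  obtain ⟨κ, hκ, hcv⟩ := hc.hv a
  have hr : rf Q w0 w ∈ Φ.V0 := rf_mem Φ w0 h0 w hw
  have hr' : κ⁻¹ • rf Q w0 w ∈ Φ.V0 := Φ.V0.smul_mem _ hr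
  have h1 := E_cj c (Φ.sing a) (Φ.perp a _ hr')
  have h2 : rf Q w0 (κ⁻¹ • rf Q w0 w) = κ⁻¹ • w := by rw [rf_smul, rf_rf w0 hQ0]
  rw [hcv, hc.h0 _ hr', h2, E_smul Q (Φ.sing (gam a)) (Φ.perp (gam a) _ (Φ.V0.smul_mem _ hw)),
    smul_smul, mul_inv_cancel₀ hκ, one_smul] at h1
  rw [← h1]
  exact M.mul_mem (M.mul_mem hcM (h _ hr')) (M.inv_mem hcM)

theorem full_allV (h0 : w0 ∈ Φ.V0) (hQ0 : Q w0 ≠ 0) (hc : Cox Φ w0 c) (hcM : c ∈ M) (a : I k)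
    (h : ∀ w ∈ Φ.V0, E Q (Φ.v a) w ∈ M) (b : I k) : ∀ w ∈ Φ.V0, E Q (Φ.v b) w ∈ M := by
  obtain ⟨j, _, hj⟩ := Cfsg.Agent.Lib.Helper77SpTgam.gam_trans a b
  have key : ∀ j : ℕ, ∀ w ∈ Φ.V0, E Q (Φ.v (gam^[j] a)) w ∈ M := by
    intro j
    induction j with
    | zero => exact h
    | succ j ih =>
      rw [Function.iterate_succ_apply']
      exact full_gam Φ M w0 c h0 hQ0 hc hcM _ ih
  rw [← hj]
  exact key j

end Cfsg.Agent.Lib.H43OgKfull
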