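import Cfsg.Agent.Lib.Helper43OgDefs
import Cfsg.Agent.Lib.Helper49Rank
import Cfsg.Agent.Lib.Helper49OddForm
import Cfsg.Agent.Lib.Helper7OCenter
import Cfsg.Agent.Lib.Helper49All
import Cfsg.Agent.Lib.Helper77SpTgam
import Cfsg.Agent.Lib.Helper65Sptcoprime
import Cfsg.Agent.Lib.H43OgAact
import Cfsg.Agent.Lib.H43OgEcomm

set_option autoImplicit false

/-! Project 413, piece `klong`.  Sketch: notes/helper43/Og.md -/

namespace Cfsg.Agent.Lib.H43OgKlong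

open Cfsg.Agent.Lib.Helper43Sp (I ng ab gam)
open Cfsg.Agent.Lib.Helper49Eich (E)
open Cfsg.Agent.Lib.Helper49Orth (reflO)
open Cfsg.Agent.Lib.Helper49Par (RootSet)
open Cfsg.Agent.Lib.Helper49Forms (QPlus QOdd QMinus)
open Cfsg.Agent.Lib.Helper43Og
open Cfsg.Agent.Lib.H43OgAact
open Cfsg.Agent.Lib.H43OgEcomm

variable {F : Type*} [Field F] {ι : Type} [Fintype ι] [DecidableEq ι] {Q : QuadraticForm F (ι → F)}
variable {k : ℕ} (Φ : Frame Q k) (M : Subgroup (GG Q)) (w0 : ι → F) (c : GG Q)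

theorem full_long (h : ∀ b : I k, ∀ w ∈ Φ.V0, E Q (Φ.v b) w ∈ M)
    (hB : ∃ w ∈ Φ.V0, ∃ w' ∈ Φ.V0, BB Q w w' ≠ 0) (a b : I k) (hab : ab a ≠ ab b) (t : F) :
    E Q (Φ.v a) (t • Φ.v b) ∈ M := by
  obtain ⟨w1, hw1, w2, hw2, hne⟩ := hB
  have h1 : b ≠ a := fun e => hab (by rw [e])
  have h2 : b ≠ ng a := fun e => hab (by rw [e]; cases a <;> rfl)
  have hw' : (t / BB Q w1 w2) • w1 ∈ Φ.V0 := Φ.V0.smul_mem _ hw1
  have h3 := comm_XX Φ b a h1 h2 w2 ((t / BB Q w1 w2) • w1) hw2 hw'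
  have h4 : BB Q ((t / BB Q w1 w2) • w1) w2 = t := by
    have e : BB Q ((t / BB Q w1 w2) • w1) w2 = (t / BB Q w1 w2) • BB Q w1 w2 :=
      QuadraticMap.polar_smul_left Q _ _ _
    rw [e, smul_eq_mul, div_mul_cancel₀ _ hne]
  rw [h4] at h3
  rw [← h3]
  exact M.mul_mem (M.mul_mem (M.mul_mem (h b _ hw2) (h a _ hw')) (M.inv_mem (h b _ hw2)))
    (M.inv_mem (h a _ hw'))

end Cfsg.Agent.Lib.H43OgKlong
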