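import Cfsg.Agent.Lib.Helper43OgDefs
import Cfsg.Agent.Lib.Helper49Rank
import Cfsg.Agent.Lib.Helper49OddForm
import Cfsg.Agent.Lib.Helper7OCenter
import Cfsg.Agent.Lib.Helper49All
import Cfsg.Agent.Lib.Helper77SpTgam
import Cfsg.Agent.Lib.Helper65Sptcoprime
import Cfsg.Agent.Lib.H43OgAact
import Cfsg.Agent.Lib.H43OgEsum

set_option autoImplicit false

/-! Project 413, piece `kroot`.  Sketch: notes/helper43/Og.md -/

namespace Cfsg.Agent.Lib.H43OgKroot

open Cfsg.Agent.Lib.Helper43Sp (I ng ab gam)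
open Cfsg.Agent.Lib.Helper49Eich (E)
open Cfsg.Agent.Lib.Helper49Orth (reflO)
open Cfsg.Agent.Lib.Helper49Par (RootSet)
open Cfsg.Agent.Lib.Helper49Forms (QPlus QOdd QMinus)
open Cfsg.Agent.Lib.Helper43Og
open Cfsg.Agent.Lib.H43OgAact
open Cfsg.Agent.Lib.H43OgEsum

variable {F : Type*} [Field F] {ι : Type} [Fintype ι] [DecidableEq ι] {Q : QuadraticForm F (ι → F)}
variable {k : ℕ} (Φ : Frame Q k) (M : Subgroup (GG Q)) (w0 : ι → F) (c : GG Q)

theorem ab_ne_of_ne {k : ℕ} {a b : I k} (h1 : b ≠ a) (h2 : b ≠ ng a) : ab a ≠ ab b := by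
  rcases a with a | a <;> rcases b with b | b <;> simp [ab, ng] at * <;> first | exact fun h => h1 h.symm | exact fun h => h2 h.symm

theorem rootset (a : I k) (h1 : ∀ w ∈ Φ.V0, E Q (Φ.v a) w ∈ M)
    (h2 : ∀ b : I k, ab a ≠ ab b → ∀ t : F, E Q (Φ.v a) (t • Φ.v b) ∈ M) : Φ.v a ∈ RootSet Q M := by
  classical
  refine ⟨?_, Φ.sing a, ?_⟩
  · intro h0
    have := Φ.pol a (ng a)
    rw [h0, if_pos rfl] at this
    simp [BB] at this
  · intro w hw
    obtain ⟨c, w', hw', rfl⟩ := Φ.span w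
    have hterm : ∀ b, BB Q (Φ.v a) (c b • Φ.v b) = if b = ng a then c b else 0 := by
      intro b
      show QuadraticMap.polar (⇑Q) (Φ.v a) (c b • Φ.v b) = _
      rw [QuadraticMap.polar_smul_right]
      have := Φ.pol a b
      unfold BB at this
      rw [this]
      split_ifs <;> simp
    have hsum : BB Q (Φ.v a) (∑ b, c b • Φ.v b) = c (ng a) := by
      have h3 : BB Q (Φ.v a) (∑ b, c b • Φ.v b) = ∑ b, BB Q (Φ.v a) (c b • Φ.v b) := by
        show QuadraticMap.polarBilin Q (Φ.v a) (∑ b, c b • Φ.v b) = _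
        rw [map_sum]
        rfl
      rw [h3, Finset.sum_congr rfl (fun b _ => hterm b)]
      simp
    have hc : c (ng a) = 0 := by
      have h4 : BB Q (Φ.v a) (∑ b, c b • Φ.v b + w') = 0 := hw
      unfold BB at h4
      rw [QuadraticMap.polar_add_right] at h4
      have h5 := Φ.perp a w' hw'
      unfold BB at h5 hsum
      rw [h5, hsum, add_zero] at h4
      exact h4
    have hs0 : BB Q (Φ.v a) (∑ b, c b • Φ.v b) = 0 := by rw [hsum, hc]
    rw [← Helper49Eich.E_mul Q (Φ.sing a) hs0 (Φ.perp a w' hw')]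
    refine M.mul_mem ?_ (h1 w' hw')
    refine E_sum_mem M (Φ.sing a) Finset.univ (fun b => c b • Φ.v b) ?_ ?_
    · intro b _
      show BB Q (Φ.v a) (c b • Φ.v b) = 0
      rw [hterm b]
      split_ifs with hb
      · rw [hb, hc]
      · rfl
    · intro b _
      show E Q (Φ.v a) (c b • Φ.v b) ∈ M
      by_cases hba : b = a
      · rw [hba, Helper49Eich.E_smul_self Q (Φ.sing a)]
        exact M.one_mem
      · by_cases hbn : b = ng a
        · rw [hbn, hc, zero_smul, Helper49Eich.E_zero]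
          exact M.one_mem
        · exact h2 b (ab_ne_of_ne hba hbn) (c b)

end Cfsg.Agent.Lib.H43OgKroot
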