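import Cfsg.Agent.Lib.Helper43OgDefs
import Cfsg.Agent.Lib.Helper49Rank
import Cfsg.Agent.Lib.Helper49OddForm
import Cfsg.Agent.Lib.Helper7OCenter
import Cfsg.Agent.Lib.Helper49All
import Cfsg.Agent.Lib.Helper77SpTgam
import Cfsg.Agent.Lib.Helper65Sptcoprime
import Cfsg.Agent.Lib.H43OgAact
import Cfsg.Agent.Lib.H43OgArf

set_option autoImplicit false

/-! Project 413, piece `ksc`.  Sketch: notes/helper43/Og.md -/

namespace Cfsg.Agent.Lib.H43OgKsc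

open Cfsg.Agent.Lib.Helper43Sp (I ng ab gam)
open Cfsg.Agent.Lib.Helper49Eich (E)
open Cfsg.Agent.Lib.Helper49Orth (reflO)
open Cfsg.Agent.Lib.Helper49Par (RootSet)
open Cfsg.Agent.Lib.Helper49Forms (QPlus QOdd QMinus)
open Cfsg.Agent.Lib.Helper43Og
open Cfsg.Agent.Lib.H43OgAact
open Cfsg.Agent.Lib.H43OgArf

variable {F : Type*} [Field F] {ι : Type} [Fintype ι] [DecidableEq ι] {Q : QuadraticForm F (ι → F)}
variable {k : ℕ} (Φ : Frame Q k) (M : Subgroup (GG Q)) (w0 : ι → F) (c : GG Q)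

theorem Sc_gam (h0 : w0 ∈ Φ.V0) (hQ0 : Q w0 ≠ 0) (hc : Cox Φ w0 c) (hcM : c ∈ M) (a : I k) (l : F)
    (h : Sc Φ M a l) : Sc Φ M (gam a) l := by
  obtain ⟨g, hgM, hga, hgV⟩ := h
  obtain ⟨κ, hκ, hcv⟩ := hc.hv a
  refine ⟨c * g * c⁻¹, M.mul_mem (M.mul_mem hcM hgM) (M.inv_mem hcM), ?_, ?_⟩
  · have h1 : act c⁻¹ (Φ.v (gam a)) = κ⁻¹ • Φ.v a := by
      have h2 : Φ.v (gam a) = act c (κ⁻¹ • Φ.v a) := by
        rw [act_smul, hcv, smul_smul, inv_mul_cancel₀ hκ, one_smul]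
      rw [h2, act_inv_act]
    rw [act_mul, act_mul, h1, act_smul, hga, act_smul, act_smul, hcv, smul_smul, smul_smul]
    congr 1
    field_simp
  · intro w hw
    have hr : rf Q w0 w ∈ Φ.V0 := rf_mem Φ w0 h0 w hw
    have h2 : act c (rf Q w0 w) = w := by rw [hc.h0 _ hr, rf_rf w0 hQ0]
    have h1 : act c⁻¹ w = rf Q w0 w := by
      conv_lhs => rw [← h2]
      rw [act_inv_act]
    rw [act_mul, act_mul, h1, hgV _ hr, h2]

theorem Sc_all (h0 : w0 ∈ Φ.V0) (hQ0 : Q w0 ≠ 0) (hc : Cox Φ w0 c) (hcM : c ∈ M) (a b : I k) (l : F)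
    (h : Sc Φ M a l) : Sc Φ M b l := by
  obtain ⟨j, _, hj⟩ := Cfsg.Agent.Lib.Helper77SpTgam.gam_trans a b
  have key : ∀ j : ℕ, Sc Φ M (gam^[j] a) l := by
    intro j
    induction j with
    | zero => exact h
    | succ j ih =>
      rw [Function.iterate_succ_apply']
      exact Sc_gam Φ M w0 c h0 hQ0 hc hcM _ l ih
  rw [← hj]
  exact key j

end Cfsg.Agent.Lib.H43OgKsc
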