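import Cfsg.Agent.Lib.Helper43OgDefs
import Cfsg.Agent.Lib.Helper49Rank
import Cfsg.Agent.Lib.Helper49OddForm
import Cfsg.Agent.Lib.Helper7OCenter
import Cfsg.Agent.Lib.Helper49All
import Cfsg.Agent.Lib.Helper77SpTgam
import Cfsg.Agent.Lib.Helper65Sptcoprime
import Cfsg.Agent.Lib.H43OgAact
import Cfsg.Agent.Lib.H43OgKsc
import Cfsg.Agent.Lib.H43OgKclosed

set_option autoImplicit false

/-! Project 413, piece `seed1`.  Sketch: notes/helper43/Og.md -/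

namespace Cfsg.Agent.Lib.H43OgSeed1

open Cfsg.Agent.Lib.Helper43Sp (I ng ab gam)
open Cfsg.Agent.Lib.Helper49Eich (E)
open Cfsg.Agent.Lib.Helper49Orth (reflO)
open Cfsg.Agent.Lib.Helper49Par (RootSet)
open Cfsg.Agent.Lib.Helper49Forms (QPlus QOdd QMinus)
open Cfsg.Agent.Lib.Helper43Og
open Cfsg.Agent.Lib.H43OgAact
open Cfsg.Agent.Lib.H43OgKsc
open Cfsg.Agent.Lib.H43OgKclosed

variable {F : Type*} [Field F] {ι : Type} [Fintype ι] [DecidableEq ι] {Q : QuadraticForm F (ι → F)}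
variable {k : ℕ} (Φ : Frame Q k) (M : Subgroup (GG Q)) (w0 : ι → F) (c : GG Q)

theorem seed1 (h0 : w0 ∈ Φ.V0) (hQ0 : Q w0 ≠ 0) (hc : Cox Φ w0 c) (hcM : c ∈ M) (a b : I k) (l : F)
    (hs : Sc Φ M b l) (hl : Gen F l) (hu : E Q (Φ.v a) w0 ∈ M) (hV : ∀ w ∈ Φ.V0, ∃ t : F, w = t • w0) :
    ∀ w ∈ Φ.V0, E Q (Φ.v a) w ∈ M := by
  intro w hw
  obtain ⟨t, rfl⟩ := hV w hw
  have hsa : Sc Φ M a l := Sc_all Φ M w0 c h0 hQ0 hc hcM b a l hs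
  exact (LL_closed Φ M a l hsa hl w0 ⟨h0, hu⟩ t).2

end Cfsg.Agent.Lib.H43OgSeed1
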