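import Cfsg.Agent.Lib.Helper43OgDefs
import Cfsg.Agent.Lib.Helper49Rank
import Cfsg.Agent.Lib.Helper49OddForm
import Cfsg.Agent.Lib.Helper7OCenter
import Cfsg.Agent.Lib.Helper49All
import Cfsg.Agent.Lib.Helper77SpTgam
import Cfsg.Agent.Lib.Helper65Sptcoprime
import Cfsg.Agent.Lib.H43OgAact
import Cfsg.Agent.Lib.H43OgArf
import Cfsg.Agent.Lib.H43OgKcox
import Cfsg.Agent.Lib.H43OgKsc
import Cfsg.Agent.Lib.H43OgKclosed

set_option autoImplicit false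

/-! Project 413, piece `seed2a`.  Sketch: notes/helper43/Og.md -/

namespace Cfsg.Agent.Lib.H43OgSeed2a

open Cfsg.Agent.Lib.Helper43Sp (I ng ab gam)
open Cfsg.Agent.Lib.Helper49Eich (E)
open Cfsg.Agent.Lib.Helper49Orth (reflO)
open Cfsg.Agent.Lib.Helper49Par (RootSet)
open Cfsg.Agent.Lib.Helper49Forms (QPlus QOdd QMinus)
open Cfsg.Agent.Lib.Helper43Og
open Cfsg.Agent.Lib.H43OgAact
open Cfsg.Agent.Lib.H43OgArf
open Cfsg.Agent.Lib.H43OgKcox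
open Cfsg.Agent.Lib.H43OgKsc
open Cfsg.Agent.Lib.H43OgKclosed

variable {F : Type*} [Field F] {ι : Type} [Fintype ι] [DecidableEq ι] {Q : QuadraticForm F (ι → F)}
variable {n : ℕ} (Φ : Frame Q (n + 3)) (M : Subgroup (GG Q)) (w0 w1 : ι → F) (c : GG Q) (p : ℕ)

theorem seed2a (h0 : w0 ∈ Φ.V0) (hQ0 : Q w0 ≠ 0) (hc : Cox Φ w0 c) (hcM : c ∈ M) (l : F)
    (hs : Sc Φ M (Sum.inl 1) l) (hl : Gen F l) (h1 : w1 ∈ Φ.V0) (hu : E Q (Φ.v (Sum.inl 0)) w1 ∈ M) :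
    rf Q w0 w1 ∈ LL Φ M (Sum.inl 1) ∧ w1 ∈ LL Φ M (Sum.inl 2) := by
  have g0 : gam (Sum.inl 0 : I (n + 3)) = Sum.inl 1 := by
    show (if h : (0 : Fin (n + 3)).val + 1 < n + 3 then
      (Sum.inl ⟨(0 : Fin (n + 3)).val + 1, h⟩ : I (n + 3)) else Sum.inr ⟨0, by omega⟩) = Sum.inl 1
    rw [dif_pos (by simp)]
    congr 1
  have g1 : gam (Sum.inl 1 : I (n + 3)) = Sum.inl 2 := by
    have hv : (1 : Fin (n + 3)).val = 1 := by
      have : (1 : Fin (n + 3)).val = 1 % (n + 3) := rfl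
      rw [this, Nat.mod_eq_of_lt (by omega)]
    show (if h : (1 : Fin (n + 3)).val + 1 < n + 3 then
      (Sum.inl ⟨(1 : Fin (n + 3)).val + 1, h⟩ : I (n + 3)) else Sum.inr ⟨0, by omega⟩) = Sum.inl 2
    rw [dif_pos (by rw [hv]; omega)]
    have h2 : (2 : Fin (n + 3)).val = 2 := by
      have : (2 : Fin (n + 3)).val = 2 % (n + 3) := rfl
      rw [this, Nat.mod_eq_of_lt (by omega)]
    have e : (⟨(1 : Fin (n + 3)).val + 1, by rw [hv]; omega⟩ : Fin (n + 3)) = 2 := by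
      apply Fin.ext
      show (1 : Fin (n + 3)).val + 1 = (2 : Fin (n + 3)).val
      rw [hv, h2]
    rw [e]
  have hw1 : w1 ∈ LL Φ M (Sum.inl 0) := ⟨h1, hu⟩
  obtain ⟨κ, hκ, hk⟩ := LL_cox Φ M w0 c h0 hc hcM _ w1 hw1
  rw [g0] at hk
  have ha : rf Q w0 w1 ∈ LL Φ M (Sum.inl 1) := by
    have := LL_closed Φ M _ l hs hl _ hk κ⁻¹
    rwa [smul_smul, inv_mul_cancel₀ hκ, one_smul] at this
  refine ⟨ha, ?_⟩
  obtain ⟨κ', hκ', hk'⟩ := LL_cox Φ M w0 c h0 hc hcM _ _ ha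
  rw [g1, rf_rf w0 hQ0] at hk'
  have hs2 : Sc Φ M (Sum.inl 2) l := Sc_all Φ M w0 c h0 hQ0 hc hcM _ _ l hs
  have := LL_closed Φ M _ l hs2 hl _ hk' κ'⁻¹
  rwa [smul_smul, inv_mul_cancel₀ hκ', one_smul] at this

end Cfsg.Agent.Lib.H43OgSeed2a
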