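import Cfsg.Agent.Lib.Helper43OgDefs
import Cfsg.Agent.Lib.Helper49Rank
import Cfsg.Agent.Lib.Helper49OddForm
import Cfsg.Agent.Lib.Helper7OCenter
import Cfsg.Agent.Lib.Helper49All
import Cfsg.Agent.Lib.Helper77SpTgam
import Cfsg.Agent.Lib.Helper65Sptcoprime
import Cfsg.Agent.Lib.H43OgAact
import Cfsg.Agent.Lib.H43OgEadd
import Cfsg.Agent.Lib.H43OgEcomm
import Cfsg.Agent.Lib.H43OgKll
import Cfsg.Agent.Lib.H43OgKclosed

set_option autoImplicit false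

/-! Project 413, piece `seed2b`.  Sketch: notes/helper43/Og.md -/

namespace Cfsg.Agent.Lib.H43OgSeed2b

open Cfsg.Agent.Lib.Helper43Sp (I ng ab gam)
open Cfsg.Agent.Lib.Helper49Eich (E)
open Cfsg.Agent.Lib.Helper49Orth (reflO)
open Cfsg.Agent.Lib.Helper49Par (RootSet)
open Cfsg.Agent.Lib.Helper49Forms (QPlus QOdd QMinus)
open Cfsg.Agent.Lib.Helper43Og
open Cfsg.Agent.Lib.H43OgAact
open Cfsg.Agent.Lib.H43OgEadd
open Cfsg.Agent.Lib.H43OgEcomm
open Cfsg.Agent.Lib.H43OgKll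
open Cfsg.Agent.Lib.H43OgKclosed

variable {F : Type*} [Field F] {ι : Type} [Fintype ι] [DecidableEq ι] {Q : QuadraticForm F (ι → F)}
variable {n : ℕ} (Φ : Frame Q (n + 3)) (M : Subgroup (GG Q)) (w0 w1 : ι → F) (c : GG Q) (p : ℕ)

theorem seed2b (l : F) (hs1 : Sc Φ M (Sum.inl 1) l) (hs2 : Sc Φ M (Sum.inl 2) l) (hl : Gen F l)
    (w2 : ι → F) (hw2 : w2 ∈ LL Φ M (Sum.inl 1)) (hw1 : w1 ∈ LL Φ M (Sum.inl 2))
    (y : GG Q) (hy : y ∈ M) (hyV : ∀ w ∈ Φ.V0, act y w = w) (α β : F) (hβ : β ≠ 0)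
    (tr : act y (Φ.v (Sum.inl 2)) = α • Φ.v (Sum.inl 2) + β • Φ.v (Sum.inl 1))
    (h4 : α = 0 ∨ Q w1 = 0 ∨ BB Q w1 w2 ≠ 0) : w1 ∈ LL Φ M (Sum.inl 1) := by
  have h12 : (1 : Fin (n+3)) ≠ 2 := by
    intro h
    have h1 := congrArg Fin.val h
    have e1 : ((1 : Fin (n+3)) : ℕ) = 1 := by
      show 1 % (n+3) = 1
      exact Nat.mod_eq_of_lt (by omega)
    have e2 : ((2 : Fin (n+3)) : ℕ) = 2 := by
      show 2 % (n+3) = 2
      exact Nat.mod_eq_of_lt (by omega)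
    omega
  set v1 := Φ.v (Sum.inl 1) with hv1
  set v2 := Φ.v (Sum.inl 2) with hv2
  have q1 : Q v1 = 0 := Φ.sing _
  have q2 : Q v2 = 0 := Φ.sing _
  have b21 : QuadraticMap.polar (⇑Q) v2 v1 = 0 := by
    have h0 : BB Q v2 v1 = 0 := by
      rw [hv1, hv2, Φ.pol, if_neg]
      intro h
      simp [ng] at h
    exact h0
  have p1 : ∀ w ∈ Φ.V0, QuadraticMap.polar (⇑Q) v1 w = 0 := fun w hw => Φ.perp _ w hw
  have p2 : ∀ w ∈ Φ.V0, QuadraticMap.polar (⇑Q) v2 w = 0 := fun w hw => Φ.perp _ w hw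
  obtain ⟨hw1V, hw1M⟩ := hw1
  -- conjugate by `y`
  have c1 : E Q (α • v2 + β • v1) w1 ∈ M := by
    have := E_cj y q2 (p2 w1 hw1V)
    rw [tr, hyV w1 hw1V] at this
    rw [← this]
    exact M.mul_mem (M.mul_mem hy hw1M) (M.inv_mem hy)
  have e1 : E Q (α • v2 + β • v1) w1 =
      E Q v2 (α • (Q w1 • (β • v1))) * E Q v2 (α • w1) * E Q v1 (β • w1) := by
    rw [E_add_left (e := α • v2) (e' := β • v1) (w := w1)
      (by rw [QuadraticMap.map_smul, q2, smul_zero]) (by rw [QuadraticMap.map_smul, q1, smul_zero])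
      (by show QuadraticMap.polar (⇑Q) _ _ = 0
          rw [QuadraticMap.polar_smul_left, QuadraticMap.polar_smul_right, b21]; simp)
      (by show QuadraticMap.polar (⇑Q) _ _ = 0
          rw [QuadraticMap.polar_smul_left, p2 w1 hw1V, smul_zero])
      (by show QuadraticMap.polar (⇑Q) _ _ = 0
          rw [QuadraticMap.polar_smul_left, p1 w1 hw1V, smul_zero])]
    rw [Cfsg.Agent.Lib.Helper49Eich.E_smul Q q2
        (by show QuadraticMap.polar (⇑Q) _ _ = 0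
            rw [QuadraticMap.polar_smul_right, QuadraticMap.polar_smul_right, b21]; simp) α,
      Cfsg.Agent.Lib.Helper49Eich.E_smul Q q2 (p2 w1 hw1V) α,
      Cfsg.Agent.Lib.Helper49Eich.E_smul Q q1 (p1 w1 hw1V) β]
  have f2 : E Q v2 (α • w1) ∈ M := (LL_closed Φ M (Sum.inl 2) l hs2 hl w1 ⟨hw1V, hw1M⟩ α).2
  have f1 : E Q v2 (α • (Q w1 • (β • v1))) ∈ M := by
    rcases h4 with h | h | h
    · rw [h, zero_smul, Cfsg.Agent.Lib.Helper49Eich.E_zero]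
      exact M.one_mem
    · rw [h, zero_smul, smul_zero, Cfsg.Agent.Lib.Helper49Eich.E_zero]
      exact M.one_mem
    · set s : F := α * Q w1 * β / BB Q w1 w2 with hs
      have hsw := LL_closed Φ M (Sum.inl 1) l hs1 hl w2 hw2 s
      have hc := comm_XX Φ (Sum.inl 1) (Sum.inl 2) (by simpa using h12) (by simp [ng]) (s • w2) w1 hsw.1 hw1V
      have e3 : BB Q w1 (s • w2) • Φ.v (Sum.inl 1) = α • (Q w1 • (β • v1)) := by
        have e4 : BB Q w1 (s • w2) = s * BB Q w1 w2 := by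
          show QuadraticMap.polar (⇑Q) _ _ = _
          rw [QuadraticMap.polar_smul_right, smul_eq_mul]
        rw [e4, smul_smul, smul_smul, hs]
        congr 1
        field_simp
      rw [e3] at hc
      rw [← hc]
      exact M.mul_mem (M.mul_mem (M.mul_mem hsw.2 hw1M) (M.inv_mem hsw.2)) (M.inv_mem hw1M)
  have f3 : E Q v1 (β • w1) ∈ M := by
    have : E Q v1 (β • w1) = (E Q v2 (α • (Q w1 • (β • v1))) * E Q v2 (α • w1))⁻¹ * E Q (α • v2 + β • v1) w1 := by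
      rw [e1]
      group
    rw [this]
    exact M.mul_mem (M.inv_mem (M.mul_mem f1 f2)) c1
  have h5 := LL_closed Φ M (Sum.inl 1) l hs1 hl (β • w1) ⟨Φ.V0.smul_mem β hw1V, f3⟩ β⁻¹
  rwa [smul_smul, inv_mul_cancel₀ hβ, one_smul] at h5

end Cfsg.Agent.Lib.H43OgSeed2b
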