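import Cfsg.Agent.Lib.Helper43OgDefs
import Cfsg.Agent.Lib.Helper49Rank
import Cfsg.Agent.Lib.Helper49OddForm
import Cfsg.Agent.Lib.Helper7OCenter
import Cfsg.Agent.Lib.Helper49All
import Cfsg.Agent.Lib.Helper77SpTgam
import Cfsg.Agent.Lib.Helper65Sptcoprime
import Cfsg.Agent.Lib.H43OgAact
import Cfsg.Agent.Lib.H43OgArf
import Cfsg.Agent.Lib.H43OgKsc
import Cfsg.Agent.Lib.H43OgKll
import Cfsg.Agent.Lib.H43OgKclosed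
import Cfsg.Agent.Lib.H43OgSeed2a
import Cfsg.Agent.Lib.H43OgSeed2b

set_option autoImplicit false

/-! Project 413, piece `seed2c`.  Sketch: notes/helper43/Og.md -/

namespace Cfsg.Agent.Lib.H43OgSeed2c

open Cfsg.Agent.Lib.Helper43Sp (I ng ab gam)
open Cfsg.Agent.Lib.Helper49Eich (E)
open Cfsg.Agent.Lib.Helper49Orth (reflO)
open Cfsg.Agent.Lib.Helper49Par (RootSet)
open Cfsg.Agent.Lib.Helper49Forms (QPlus QOdd QMinus)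
open Cfsg.Agent.Lib.Helper43Og
open Cfsg.Agent.Lib.H43OgAact
open Cfsg.Agent.Lib.H43OgArf
open Cfsg.Agent.Lib.H43OgKsc
open Cfsg.Agent.Lib.H43OgKll
open Cfsg.Agent.Lib.H43OgKclosed
open Cfsg.Agent.Lib.H43OgSeed2a
open Cfsg.Agent.Lib.H43OgSeed2b

variable {F : Type*} [Field F] {ι : Type} [Fintype ι] [DecidableEq ι] {Q : QuadraticForm F (ι → F)}
variable {n : ℕ} (Φ : Frame Q (n + 3)) (M : Subgroup (GG Q)) (w0 w1 : ι → F) (c : GG Q) (p : ℕ)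

theorem seed2 (h0 : w0 ∈ Φ.V0) (hQ0 : Q w0 ≠ 0) (hc : Cox Φ w0 c) (hcM : c ∈ M) (Y : YDat Φ p)
    (hy : Y.y ∈ M) (h1 : w1 ∈ Φ.V0) (hu : E Q (Φ.v (Sum.inl 0)) w1 ∈ M)
    (h4 : Y.α = 0 ∨ Q w1 = 0 ∨ BB Q w1 (rf Q w0 w1) ≠ 0)
    (hV : ∀ w ∈ Φ.V0, ∃ s t : F, w = s • w1 + t • rf Q w0 w1) :
    ∀ w ∈ Φ.V0, E Q (Φ.v (Sum.inl 1)) w ∈ M := by
  have hfix : ∀ (e : ℕ), ∀ w ∈ Φ.V0, act (Y.y ^ e) w = w := by
    intro e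
    induction e with
    | zero => intro w _; rw [pow_zero, act_one]
    | succ e ih => intro w hw; rw [pow_succ, act_mul, Y.fixV w hw, ih w hw]
  have hs : Sc Φ M (Sum.inl 1) Y.l := ⟨Y.y ^ Y.e, M.pow_mem hy _, Y.scale, hfix Y.e⟩
  obtain ⟨ha, hb⟩ := seed2a Φ M w0 w1 c h0 hQ0 hc hcM Y.l hs Y.gen h1 hu
  have hs2 : Sc Φ M (Sum.inl 2) Y.l := Sc_all Φ M w0 c h0 hQ0 hc hcM _ _ Y.l hs
  have hw1 : w1 ∈ LL Φ M (Sum.inl 1) :=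
    seed2b Φ M w1 Y.l hs hs2 Y.gen (rf Q w0 w1) ha hb Y.y hy Y.fixV Y.α Y.β Y.hβ Y.tr h4
  obtain ⟨S, hS⟩ := exists_LLs Φ M (Sum.inl 1)
  intro w hw
  obtain ⟨s, t, rfl⟩ := hV w hw
  have e1 := (hS _).2 (LL_closed Φ M _ Y.l hs Y.gen _ hw1 s)
  have e2 := (hS _).2 (LL_closed Φ M _ Y.l hs Y.gen _ ha t)
  exact ((hS _).1 (S.add_mem e1 e2)).2

end Cfsg.Agent.Lib.H43OgSeed2c
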