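import Cfsg.Agent.Lib.Helper43OgDefs
import Cfsg.Agent.Lib.Helper49Rank
import Cfsg.Agent.Lib.Helper49OddForm
import Cfsg.Agent.Lib.Helper7OCenter
import Cfsg.Agent.Lib.Helper49All
import Cfsg.Agent.Lib.Helper77SpTgam
import Cfsg.Agent.Lib.Helper65Sptcoprime
import Cfsg.Agent.Lib.H43OgAact
import Cfsg.Agent.Lib.H43OgAext
import Cfsg.Agent.Lib.H43OgArf
import Cfsg.Agent.Lib.H43OgEadd
import Cfsg.Agent.Lib.H43OgEpow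
import Cfsg.Agent.Lib.H43OgEsum
import Cfsg.Agent.Lib.H43OgEcomm
import Cfsg.Agent.Lib.H43OgKll
import Cfsg.Agent.Lib.H43OgKscale
import Cfsg.Agent.Lib.H43OgKclosed
import Cfsg.Agent.Lib.H43OgKcox
import Cfsg.Agent.Lib.H43OgKsc
import Cfsg.Agent.Lib.H43OgKfull
import Cfsg.Agent.Lib.H43OgKlong
import Cfsg.Agent.Lib.H43OgKroot
import Cfsg.Agent.Lib.H43OgSeed1
import Cfsg.Agent.Lib.H43OgSeed2a
import Cfsg.Agent.Lib.H43OgSeed2b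
import Cfsg.Agent.Lib.H43OgSeed2c
import Cfsg.Agent.Lib.H43OgGtwo
import Cfsg.Agent.Lib.H43OgGgen
import Cfsg.Agent.Lib.H43OgCtor
import Cfsg.Agent.Lib.H43OgCtor2
import Cfsg.Agent.Lib.H43OgCnn
import Cfsg.Agent.Lib.H43OgCrotstep
import Cfsg.Agent.Lib.H43OgCn0
import Cfsg.Agent.Lib.H43OgCcox
import Cfsg.Agent.Lib.H43OgCyB
import Cfsg.Agent.Lib.H43OgCyN
import Cfsg.Agent.Lib.H43OgCyY
import Cfsg.Agent.Lib.H43OgCy2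

set_option autoImplicit false

/-! Project 413: abstract two generation of `Ω(Q)` (assembly of the pieces `H43Og*`). -/

namespace Cfsg.Agent.Lib.H43OgHub

open Cfsg.Agent.Lib.Helper43Sp (I ng ab gam)
open Cfsg.Agent.Lib.Helper49Eich (E)
open Cfsg.Agent.Lib.Helper49Orth (reflO)
open Cfsg.Agent.Lib.Helper49Par (RootSet)
open Cfsg.Agent.Lib.Helper49Forms (QPlus QOdd QMinus)
open Cfsg.Agent.Lib.Helper43Og
open Cfsg.Agent.Lib.H43OgAact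
open Cfsg.Agent.Lib.H43OgAext
open Cfsg.Agent.Lib.H43OgArf
open Cfsg.Agent.Lib.H43OgEadd
open Cfsg.Agent.Lib.H43OgEpow
open Cfsg.Agent.Lib.H43OgEsum
open Cfsg.Agent.Lib.H43OgEcomm
open Cfsg.Agent.Lib.H43OgKll
open Cfsg.Agent.Lib.H43OgKscale
open Cfsg.Agent.Lib.H43OgKclosed
open Cfsg.Agent.Lib.H43OgKcox
open Cfsg.Agent.Lib.H43OgKsc
open Cfsg.Agent.Lib.H43OgKfull
open Cfsg.Agent.Lib.H43OgKlong
open Cfsg.Agent.Lib.H43OgKroot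
open Cfsg.Agent.Lib.H43OgSeed1
open Cfsg.Agent.Lib.H43OgSeed2a
open Cfsg.Agent.Lib.H43OgSeed2b
open Cfsg.Agent.Lib.H43OgSeed2c
open Cfsg.Agent.Lib.H43OgGtwo
open Cfsg.Agent.Lib.H43OgGgen
open Cfsg.Agent.Lib.H43OgCtor
open Cfsg.Agent.Lib.H43OgCtor2
open Cfsg.Agent.Lib.H43OgCnn
open Cfsg.Agent.Lib.H43OgCrotstep
open Cfsg.Agent.Lib.H43OgCn0
open Cfsg.Agent.Lib.H43OgCcox
open Cfsg.Agent.Lib.H43OgCyB
open Cfsg.Agent.Lib.H43OgCyN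
open Cfsg.Agent.Lib.H43OgCyY
open Cfsg.Agent.Lib.H43OgCy2

variable {F : Type*} [Field F] {ι : Type} [Fintype ι] [DecidableEq ι] {Q : QuadraticForm F (ι → F)}

section frame

variable {k : ℕ} (Φ : Frame Q k) (M : Subgroup (GG Q)) (w0 : ι → F) (c : GG Q)

/-- assembly -/
theorem core [Fintype F] (hQ : (QuadraticMap.polarBilin Q).Nondegenerate) (hn : 5 ≤ Fintype.card ι)
    (h0 : w0 ∈ Φ.V0) (hQ0 : Q w0 ≠ 0) (hc : Cox Φ w0 c) (hcM : c ∈ M) (a : I k)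
    (h : ∀ w ∈ Φ.V0, E Q (Φ.v a) w ∈ M) (hB : ∃ w ∈ Φ.V0, ∃ w' ∈ Φ.V0, BB Q w w' ≠ 0) :
    Cfsg.Omega F ⇑Q ≤ M := by
  have h1 := full_allV Φ M w0 c h0 hQ0 hc hcM a h
  have h2 := full_long Φ M h1 hB
  have r1 := rootset Φ M a (h1 a) (fun b hb t => h2 a b hb t)
  have r2 := rootset Φ M (ng a) (h1 (ng a)) (fun b hb t => h2 (ng a) b hb t)
  refine Cfsg.Agent.Lib.Helper49Par.Omega_le_of_pair Q hQ hn r1 r2 ?_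
  have := Φ.pol a (ng a)
  rw [if_pos rfl] at this
  show BB Q (Φ.v a) (Φ.v (ng a)) ≠ 0
  rw [this]
  exact one_ne_zero

end frame

theorem og_B [Fintype F] (hQ : (QuadraticMap.polarBilin Q).Nondegenerate) (hn : 5 ≤ Fintype.card ι) {n : ℕ}
    (Φ : Frame Q (n + 2)) (w0 : ι → F) (h0 : w0 ∈ Φ.V0) (hQ0 : Q w0 ≠ 0)
    (hV : ∀ w ∈ Φ.V0, ∃ t : F, w = t • w0) (hB : BB Q w0 w0 ≠ 0) :
    ∃ a b : ↥(Cfsg.Omega F ⇑Q), Subgroup.closure ({a, b} : Set ↥(Cfsg.Omega F ⇑Q)) = ⊤ := by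
  obtain ⟨p, hp⟩ := CharP.exists F
  obtain ⟨c, hcΩ, hc⟩ := exists_cox Φ hQ hn (by omega) w0 h0 hQ0
  obtain ⟨y, hyΩ, hy0, hyV, N, l, hN, hpN, hyl, hl⟩ := exists_yB hQ hn Φ p
  have he : Q (Φ.v (Sum.inl 0)) = 0 := Φ.sing _
  have hw : BB Q (Φ.v (Sum.inl 0)) w0 = 0 := Φ.perp _ _ h0
  refine two_gen_of _ (E Q (Φ.v (Sum.inl 0)) w0) y c
    (Cfsg.Agent.Lib.Helper49EichGen.E_mem_Omega Q hQ hn he hw) hyΩ hcΩ ?_ p N (E_pow_char p he hw) hN hpN ?_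
  · have h1 := E_cj y he hw
    rw [hy0, hyV w0 h0] at h1
    exact (mul_inv_eq_iff_eq_mul.1 h1).symm
  · intro M hu hy hcM
    refine core Φ M w0 c hQ hn h0 hQ0 hc hcM (Sum.inl 0) ?_ ⟨w0, h0, w0, h0, hB⟩
    exact seed1 Φ M w0 c h0 hQ0 hc hcM (Sum.inl 0) (Sum.inl 1) l ⟨y, hy, hyl, hyV⟩ hl hu hV

theorem og_D [Fintype F] (hQ : (QuadraticMap.polarBilin Q).Nondegenerate) (hn : 5 ≤ Fintype.card ι) {n : ℕ}
    (Φ : Frame Q (n + 3)) (w0 w1 : ι → F) (h0 : w0 ∈ Φ.V0) (hQ0 : Q w0 ≠ 0) (h1 : w1 ∈ Φ.V0)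
    (hV : ∀ w ∈ Φ.V0, ∃ s t : F, w = s • w1 + t • rf Q w0 w1) (hB : BB Q w0 w1 ≠ 0)
    (h4 : (2 : F) = 0 → Q w1 = 0 ∨ BB Q w1 (rf Q w0 w1) ≠ 0) :
    ∃ a b : ↥(Cfsg.Omega F ⇑Q), Subgroup.closure ({a, b} : Set ↥(Cfsg.Omega F ⇑Q)) = ⊤ := by
  obtain ⟨p, hp⟩ := CharP.exists F
  obtain ⟨c, hcΩ, hc⟩ := exists_cox Φ hQ hn (by omega) w0 h0 hQ0
  obtain ⟨Y, hY⟩ : ∃ Y : YDat Φ p, Y.α = 0 ∨ Q w1 = 0 ∨ BB Q w1 (rf Q w0 w1) ≠ 0 := by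
    by_cases h2 : (2 : F) = 0
    · rcases Nat.lt_or_ge 2 (Fintype.card F) with h | h
      · obtain ⟨Y⟩ := exists_yY Φ p hQ hn h2 h
        exact ⟨Y, Or.inr (h4 h2)⟩
      · have : 1 < Fintype.card F := Fintype.one_lt_card
        obtain ⟨Y⟩ := exists_y2 Φ p hQ hn (by omega)
        exact ⟨Y, Or.inr (h4 h2)⟩
    · obtain ⟨Y, hY⟩ := exists_yN Φ p hQ hn h2
      exact ⟨Y, Or.inl hY⟩
  have he : Q (Φ.v (Sum.inl 0)) = 0 := Φ.sing _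
  have hw : BB Q (Φ.v (Sum.inl 0)) w1 = 0 := Φ.perp _ _ h1
  refine two_gen_of _ (E Q (Φ.v (Sum.inl 0)) w1) Y.y c
    (Cfsg.Agent.Lib.Helper49EichGen.E_mem_Omega Q hQ hn he hw) Y.mem hcΩ ?_ p Y.N (E_pow_char p he hw)
    Y.pow Y.cop ?_
  · have h1' := E_cj Y.y he hw
    rw [Y.fix0, Y.fixV w1 h1] at h1'
    exact (mul_inv_eq_iff_eq_mul.1 h1').symm
  · intro M hu hy hcM
    refine core Φ M w0 c hQ hn h0 hQ0 hc hcM (Sum.inl 1) ?_ ⟨w0, h0, w1, h1, hB⟩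
    exact seed2 Φ M w0 w1 c p h0 hQ0 hc hcM Y hy h1 hu hY hV

end Cfsg.Agent.Lib.H43OgHub
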