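import Mathlib
import Cfsg.Agent.Lib.H49SuDefs
import Cfsg.Agent.Lib.Helper17HermC
import Cfsg.Agent.Lib.Helper17Herm

set_option autoImplicit false

/-! Project 2546 (Steinberg character of `PSU_n(q)`), piece `Sig` (30m).

The map `x ↦ x ^ q` on the field with `q ^ 2` elements.  Use helper17's ring hom `Cfsg.Agent.Lib.Helper17HermC.sig hF : F →+* F` with `sig_apply : sig hF x = x ^ q`,
`sig_sig`, `sig_ne_id`, `two_le_q`, `pow_q_sq`.  `exists_trace_zero`: take `x` with `x ^ q ≠ x` and `z = x - x ^ q`.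
`exists_hyp`: `l` with `l ^ (q+1) = -1` (char 2: `l = 1`; `q` odd: `l = g ^ ((q-1)/2)` for a generator `g` of `Fˣ`, `g ^ ((q^2-1)/2) = -1`; or any norm surjectivity lemma of the library),
`l' = ζ * l` with `ζ = x ^ (q-1)`, `x ^ q ≠ x` (so `ζ ^ (q+1) = 1`, `ζ ≠ 1`), then `1 + l' * l ^ q = 1 - ζ ≠ 0` and `μ` is its inverse. -/

namespace Cfsg.Agent.Lib.H49SuSig

open Matrix Cfsg.Agent.Lib.H49SuDefs

variable {n : ℕ} {F : Type*} [Field F] {q : ℕ}

open Cfsg.Agent.Lib.Helper17HermC Cfsg.Agent.Lib.Helper7Herm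

theorem q_pos [Fintype F] (hF : Fintype.card F = q ^ 2) : 0 < q := by
  have := two_le_q hF
  omega

theorem add_powq [Fintype F] (hF : Fintype.card F = q ^ 2) (x y : F) : (x + y) ^ q = x ^ q + y ^ q := by
  rw [← sig_apply hF, ← sig_apply hF, ← sig_apply hF, map_add]

theorem neg_powq [Fintype F] (hF : Fintype.card F = q ^ 2) (x : F) : (-x) ^ q = -(x ^ q) := by
  rw [← sig_apply hF, ← sig_apply hF, map_neg]

theorem sum_powq [Fintype F] (hF : Fintype.card F = q ^ 2) {ι : Type*} (s : Finset ι) (f : ι → F) :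
    (∑ i ∈ s, f i) ^ q = ∑ i ∈ s, (f i) ^ q := by
  rw [← sig_apply hF, map_sum]
  exact Finset.sum_congr rfl (fun i _ => sig_apply hF _)

theorem powq_powq [Fintype F] (hF : Fintype.card F = q ^ 2) (x : F) : (x ^ q) ^ q = x := by
  rw [← sig_apply hF, ← sig_apply hF, sig_sig]

theorem exists_not_fixed [Fintype F] (hF : Fintype.card F = q ^ 2) : ∃ x : F, x ^ q ≠ x := by
  by_contra hcon
  push Not at hcon
  apply sig_ne_id hF
  ext x
  rw [sig_apply, hcon]
  rfl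

theorem exists_trace_zero [Fintype F] (hF : Fintype.card F = q ^ 2) : ∃ z : F, z ≠ 0 ∧ z + z ^ q = 0 := by
  obtain ⟨x, hx⟩ := exists_not_fixed hF
  refine ⟨x - x ^ q, fun h => hx (sub_eq_zero.1 h).symm, ?_⟩
  rw [sub_eq_add_neg, add_powq hF, neg_powq hF, powq_powq hF]
  ring

theorem exists_hyp [Fintype F] (hF : Fintype.card F = q ^ 2) :
    ∃ l l' μ : F, l ^ (q + 1) = -1 ∧ l' ^ (q + 1) = -1 ∧ μ * (1 + l' * l ^ q) = 1 := by
  obtain ⟨l, hl⟩ := Cfsg.Agent.Lib.Helper17Herm.norm_surj (sig hF) (sig_ne_id hF) (sig_sig hF) (-1 : F)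
    (neg_ne_zero.2 one_ne_zero) (by rw [map_neg, map_one])
  rw [sig_apply] at hl
  have hl1 : l ^ (q + 1) = -1 := by rw [pow_succ, mul_comm]; exact hl
  obtain ⟨x, hx⟩ := exists_not_fixed hF
  have hq := q_pos hF
  have hx0 : x ≠ 0 := by
    rintro rfl
    exact hx (zero_pow hq.ne')
  -- ζ = x ^ q / x
  have hz1 : (x ^ q / x) ^ (q + 1) = 1 := by
    rw [div_pow, pow_succ, pow_succ, powq_powq hF]
    field_simp
  have hz2 : x ^ q / x ≠ 1 := by
    intro h
    rw [div_eq_one_iff_eq hx0] at h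
    exact hx h
  have hne : 1 + (x ^ q / x * l) * l ^ q ≠ 0 := by
    have : 1 + (x ^ q / x * l) * l ^ q = 1 - x ^ q / x := by
      rw [mul_assoc, hl]; ring
    rw [this]
    exact fun h => hz2 (sub_eq_zero.1 h).symm
  refine ⟨l, x ^ q / x * l, (1 + (x ^ q / x * l) * l ^ q)⁻¹, hl1, ?_, inv_mul_cancel₀ hne⟩
  rw [mul_pow, hz1, hl1, one_mul]

end Cfsg.Agent.Lib.H49SuSig
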