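import Mathlib
import Cfsg.Agent.Lib.H49SuDefs
import Cfsg.Agent.Lib.H49SuSig

set_option autoImplicit false

/-! Project 2546 (Steinberg character of `PSU_n(q)`), piece `IsoP`.

A hyperbolic basis of the standard hermitian space. -/

namespace Cfsg.Agent.Lib.H49SuIsoP

open Matrix Cfsg.Agent.Lib.H49SuDefs
open Cfsg.Agent.Lib.H49SuSig

variable {n : ℕ} {F : Type*} [Field F] {q : ℕ}

/-- the matrix with columns `α a ε_a + β a ε_{rev a}` -/
def PM (α β : Fin n → F) : Matrix (Fin n) (Fin n) F :=
  fun i a => (if i = a then α a else 0) + (if i = Fin.rev a then β a else 0)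

theorem ite_powq (hq : 0 < q) (c : Prop) [Decidable c] (x : F) :
    (if c then x else 0) ^ q = if c then x ^ q else 0 := by
  split_ifs
  · rfl
  · exact zero_pow hq.ne'

theorem gram [Fintype F] (hF : Fintype.card F = q ^ 2) (α β : Fin n → F) (a b : Fin n) :
    ∑ i, PM α β i a * (PM α β i b) ^ q =
      (if a = b then α a * α b ^ q + β a * β b ^ q else 0) +
      (if b = Fin.rev a then α a * β b ^ q + β a * α b ^ q else 0) := by
  have hq := q_pos hF
  have e : ∀ i, PM α β i a * (PM α β i b) ^ q =
      (if i = a then (if a = b then α a * α b ^ q else 0) else 0) +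
      (if i = a then (if b = Fin.rev a then α a * β b ^ q else 0) else 0) +
      (if i = Fin.rev a then (if b = Fin.rev a then β a * α b ^ q else 0) else 0) +
      (if i = Fin.rev a then (if a = b then β a * β b ^ q else 0) else 0) := by
    intro i
    unfold PM
    rw [add_powq hF, ite_powq hq, ite_powq hq]
    by_cases h1 : i = a
    · subst h1
      by_cases h2 : i = b
      · subst h2
        by_cases h3 : i = Fin.rev i
        · simp [← h3]
          ring
        · simp [h3]
      · by_cases h3 : b = Fin.rev i
        · subst h3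
          have h4 : i ≠ Fin.rev i := h2
          simp [h4]
        · have h4 : i ≠ Fin.rev b := by
            intro h; apply h3; rw [h, Fin.rev_rev]
          by_cases h5 : i = Fin.rev i
          · simp [h2, h3, h4]
          · simp [h2, h3, h4, h5]
    · by_cases h2 : i = Fin.rev a
      · subst h2
        have h1' : a ≠ Fin.rev a := fun h => h1 h.symm
        by_cases h3 : b = Fin.rev a
        · subst h3
          simp [h1, h1']
        · have h3' : Fin.rev a ≠ b := fun h => h3 h.symm
          by_cases h4 : a = b
          · subst h4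
            simp [h1, h1']
          · have h4' : Fin.rev a ≠ Fin.rev b := fun h => h4 (Fin.rev_injective h)
            simp [h1, h3, h3', h4, h4']
      · simp [h1, h2]
  rw [Finset.sum_congr rfl (fun i _ => e i)]
  rw [Finset.sum_add_distrib, Finset.sum_add_distrib, Finset.sum_add_distrib]
  simp only [Finset.sum_ite_eq', Finset.mem_univ, if_true]
  split_ifs <;> ring

theorem herm_PM [Fintype F] (hF : Fintype.card F = q ^ 2) (α β : Fin n → F)
    (hG : ∀ a b, ∑ i, PM α β i a * (PM α β i b) ^ q = if b = Fin.rev a then 1 else 0) (u v : Fin n → F) :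
    Cfsg.hermForm n F q (PM α β *ᵥ u) (PM α β *ᵥ v) = hermA n F q u v := by
  unfold Cfsg.hermForm hermA
  have e : ∀ i, (PM α β *ᵥ u) i * ((PM α β *ᵥ v) i) ^ q =
      ∑ a, ∑ b, u a * (v b) ^ q * (PM α β i a * (PM α β i b) ^ q) := by
    intro i
    rw [Matrix.mulVec, Matrix.mulVec, dotProduct, dotProduct, sum_powq hF, Finset.sum_mul_sum]
    apply Finset.sum_congr rfl
    intro a _
    apply Finset.sum_congr rfl
    intro b _
    rw [mul_pow]; ring
  rw [Finset.sum_congr rfl (fun i _ => e i), Finset.sum_comm]
  apply Finset.sum_congr rfl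
  intro a _
  rw [Finset.sum_comm]
  have e2 : ∀ b, ∑ i, u a * (v b) ^ q * (PM α β i a * (PM α β i b) ^ q) =
      if b = Fin.rev a then u a * (v b) ^ q else 0 := by
    intro b
    rw [← Finset.mul_sum, hG]
    split_ifs <;> simp
  rw [Finset.sum_congr rfl (fun b _ => e2 b), Finset.sum_ite_eq' , if_pos (Finset.mem_univ _)]

theorem exists_P [Fintype F] (hF : Fintype.card F = q ^ 2) (n : ℕ) :
    ∃ P : Matrix (Fin n) (Fin n) F, IsUnit P.det ∧
      ∀ u v, Cfsg.hermForm n F q (P *ᵥ u) (P *ᵥ v) = hermA n F q u v := by
  obtain ⟨l, l', μ, hl, hl', hμ⟩ := exists_hyp hF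
  have hq := q_pos hF
  let α : Fin n → F := fun a => if a < Fin.rev a then 1 else if a = Fin.rev a then 1 else μ * l'
  let β : Fin n → F := fun a => if a < Fin.rev a then l else if a = Fin.rev a then 0 else μ
  have hμ' : μ ^ q * (1 + l * l' ^ q) = 1 := by
    have := congrArg (fun x => x ^ q) hμ
    simp only [one_pow] at this
    rw [mul_pow, add_powq hF, one_pow, mul_pow, powq_powq hF] at this
    linear_combination this
  have hG : ∀ a b, ∑ i, PM α β i a * (PM α β i b) ^ q = if b = Fin.rev a then 1 else 0 := by
    intro a b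
    rw [gram hF]
    rcases lt_trichotomy a (Fin.rev a) with h | h | h
    · have ha : α a = 1 := by simp only [α]; rw [if_pos h]
      have hb : β a = l := by simp only [β]; rw [if_pos h]
      by_cases h1 : a = b
      · subst h1
        rw [if_pos rfl, if_neg h.ne, if_neg h.ne, ha, hb, one_pow, one_mul, add_zero, ← pow_succ', hl]
        ring
      · rw [if_neg h1, zero_add]
        by_cases h2 : b = Fin.rev a
        · subst h2
          have h3 : ¬ Fin.rev a < Fin.rev (Fin.rev a) := by rw [Fin.rev_rev]; exact h.le.not_gt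
          have h4 : ¬ Fin.rev a = Fin.rev (Fin.rev a) := by rw [Fin.rev_rev]; exact h.ne'
          have ha' : α (Fin.rev a) = μ * l' := by simp only [α]; rw [if_neg h3, if_neg h4]
          have hb' : β (Fin.rev a) = μ := by simp only [β]; rw [if_neg h3, if_neg h4]
          rw [if_pos rfl, if_pos rfl, ha, hb, ha', hb', mul_pow]; linear_combination hμ'
        · rw [if_neg h2, if_neg h2]
    · have ha : α a = 1 := by simp only [α]; rw [if_neg (by rw [← h]; exact lt_irrefl a), if_pos h]
      have hb : β a = 0 := by simp only [β]; rw [if_neg (by rw [← h]; exact lt_irrefl a), if_pos h]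
      rw [← h]
      by_cases h1 : a = b
      · subst h1
        rw [if_pos rfl, if_pos rfl, if_pos rfl, ha, hb, zero_pow hq.ne']; simp
      · have h1' : ¬ b = a := fun e => h1 e.symm
        rw [if_neg h1, if_neg h1', if_neg h1', add_zero]
    · have h3 : ¬ a < Fin.rev a := h.le.not_gt
      have ha : α a = μ * l' := by simp only [α]; rw [if_neg h3, if_neg h.ne']
      have hb : β a = μ := by simp only [β]; rw [if_neg h3, if_neg h.ne']
      by_cases h1 : a = b
      · subst h1
        rw [if_pos rfl, if_neg h.ne', if_neg h.ne', ha, hb, add_zero, ← pow_succ', ← pow_succ', mul_pow, hl']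
        ring
      · rw [if_neg h1, zero_add]
        by_cases h2 : b = Fin.rev a
        · subst h2
          have h5 : Fin.rev a < Fin.rev (Fin.rev a) := by rw [Fin.rev_rev]; exact h
          have ha' : α (Fin.rev a) = 1 := by simp only [α]; rw [if_pos h5]
          have hb' : β (Fin.rev a) = l := by simp only [β]; rw [if_pos h5]
          rw [if_pos rfl, if_pos rfl, ha, hb, ha', hb', one_pow]; linear_combination hμ
        · rw [if_neg h2, if_neg h2]
  refine ⟨PM α β, ?_, herm_PM hF α β hG⟩
  rw [← Matrix.isUnit_iff_isUnit_det, ← Matrix.mulVec_injective_iff_isUnit]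
  intro u u' huu
  have h0 : PM α β *ᵥ (u - u') = 0 := by rw [Matrix.mulVec_sub, huu, sub_self]
  have h1 : ∀ v, hermA n F q (u - u') v = 0 := by
    intro v
    rw [← herm_PM hF α β hG, h0]
    unfold Cfsg.hermForm
    simp
  funext a
  have h2 := h1 (Pi.single (Fin.rev a) 1)
  unfold hermA at h2
  rw [Finset.sum_eq_single a] at h2
  · rw [Pi.single_eq_same, one_pow, mul_one] at h2
    exact sub_eq_zero.mp h2
  · intro b _ hb
    rw [Pi.single_eq_of_ne (fun e => hb (Fin.rev_injective e)), zero_pow hq.ne', mul_zero]
  · intro h; exact absurd (Finset.mem_univ a) h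

end Cfsg.Agent.Lib.H49SuIsoP
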