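import Mathlib
import Cfsg.Agent.Lib.H49SuDefs
import Cfsg.Agent.Lib.H49SuSig
import Cfsg.Agent.Lib.H49SuIsoP

set_option autoImplicit false

/-! Project 2546 (Steinberg character of `PSU_n(q)`), piece `Iso`.

`g ↦ P⁻¹ * g * P` is an isomorphism `SU n F q ≃* GA n F q`. -/

namespace Cfsg.Agent.Lib.H49SuIso

open Matrix Cfsg.Agent.Lib.H49SuDefs
open Cfsg.Agent.Lib.H49SuSig Cfsg.Agent.Lib.H49SuIsoP

variable {n : ℕ} {F : Type*} [Field F] {q : ℕ}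

/-- conjugation by an invertible matrix on the special linear group -/
noncomputable def cjP (P : Matrix (Fin n) (Fin n) F) (hP : IsUnit P.det) :
    Matrix.SpecialLinearGroup (Fin n) F ≃* Matrix.SpecialLinearGroup (Fin n) F where
  toFun g := ⟨P⁻¹ * g.1 * P, by
    rw [Matrix.det_mul, Matrix.det_mul, g.2, mul_one, ← Matrix.det_mul, Matrix.nonsing_inv_mul P hP,
      Matrix.det_one]⟩
  invFun g := ⟨P * g.1 * P⁻¹, by
    rw [Matrix.det_mul, Matrix.det_mul, g.2, mul_one, ← Matrix.det_mul, Matrix.mul_nonsing_inv P hP,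
      Matrix.det_one]⟩
  left_inv g := by
    apply Subtype.ext
    show P * (P⁻¹ * g.1 * P) * P⁻¹ = g.1
    calc P * (P⁻¹ * g.1 * P) * P⁻¹ = (P * P⁻¹) * g.1 * (P * P⁻¹) := by simp only [Matrix.mul_assoc]
      _ = g.1 := by rw [Matrix.mul_nonsing_inv P hP, Matrix.one_mul, Matrix.mul_one]
  right_inv g := by
    apply Subtype.ext
    show P⁻¹ * (P * g.1 * P⁻¹) * P = g.1
    calc P⁻¹ * (P * g.1 * P⁻¹) * P = (P⁻¹ * P) * g.1 * (P⁻¹ * P) := by simp only [Matrix.mul_assoc]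
      _ = g.1 := by rw [Matrix.nonsing_inv_mul P hP, Matrix.one_mul, Matrix.mul_one]
  map_mul' g h := by
    apply Subtype.ext
    show P⁻¹ * (g.1 * h.1) * P = (P⁻¹ * g.1 * P) * (P⁻¹ * h.1 * P)
    calc P⁻¹ * (g.1 * h.1) * P = P⁻¹ * g.1 * 1 * h.1 * P := by
          rw [Matrix.mul_one]; simp only [Matrix.mul_assoc]
      _ = (P⁻¹ * g.1 * P) * (P⁻¹ * h.1 * P) := by
          rw [← Matrix.mul_nonsing_inv P hP]; simp only [Matrix.mul_assoc]

theorem mem_SU (g : Matrix.SpecialLinearGroup (Fin n) F) :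
    g ∈ Cfsg.SU n F q ↔ ∀ u v, Cfsg.hermForm n F q (g.1 *ᵥ u) (g.1 *ᵥ v) = Cfsg.hermForm n F q u v :=
  Iff.rfl

theorem mem_GA (g : Matrix.SpecialLinearGroup (Fin n) F) :
    g ∈ GA n F q ↔ ∀ u v, hermA n F q (g.1 *ᵥ u) (g.1 *ᵥ v) = hermA n F q u v :=
  Iff.rfl

theorem mem_iff (P : Matrix (Fin n) (Fin n) F) (hP : IsUnit P.det)
    (h : ∀ u v, Cfsg.hermForm n F q (P *ᵥ u) (P *ᵥ v) = hermA n F q u v)
    (g : Matrix.SpecialLinearGroup (Fin n) F) : cjP P hP g ∈ GA n F q ↔ g ∈ Cfsg.SU n F q := by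
  rw [mem_SU, mem_GA]
  have e : ∀ u, P *ᵥ ((cjP P hP g).1 *ᵥ u) = g.1 *ᵥ (P *ᵥ u) := by
    intro u
    show P *ᵥ ((P⁻¹ * g.1 * P) *ᵥ u) = g.1 *ᵥ (P *ᵥ u)
    rw [Matrix.mulVec_mulVec, Matrix.mulVec_mulVec]
    congr 1
    calc P * (P⁻¹ * g.1 * P) = (P * P⁻¹) * g.1 * P := by simp only [Matrix.mul_assoc]
      _ = g.1 * P := by rw [Matrix.mul_nonsing_inv P hP, Matrix.one_mul]
  constructor
  · intro hg u v
    have h1 := hg (P⁻¹ *ᵥ u) (P⁻¹ *ᵥ v)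
    have e2 : ∀ w : Fin n → F, P *ᵥ (P⁻¹ *ᵥ w) = w := by
      intro w
      rw [Matrix.mulVec_mulVec, Matrix.mul_nonsing_inv P hP, Matrix.one_mulVec]
    rw [← h, ← h, e, e, e2, e2] at h1
    exact h1
  · intro hg u v
    rw [← h, ← h, e, e, hg]

theorem iso [Fintype F] (hF : Fintype.card F = q ^ 2) (n : ℕ) : Nonempty (Cfsg.SU n F q ≃* GA n F q) := by
  obtain ⟨P, hP, h⟩ := exists_P hF n
  have hmap : (Cfsg.SU n F q).map (cjP P hP).toMonoidHom = GA n F q := by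
    ext x
    constructor
    · rintro ⟨g, hg, rfl⟩
      exact (mem_iff P hP h g).2 hg
    · intro hx
      refine ⟨(cjP P hP).symm x, ?_, (cjP P hP).apply_symm_apply x⟩
      apply (mem_iff P hP h _).1
      rw [MulEquiv.apply_symm_apply]
      exact hx
  exact ⟨((cjP P hP).subgroupMap (Cfsg.SU n F q)).trans (MulEquiv.subgroupCongr hmap)⟩

end Cfsg.Agent.Lib.H49SuIso
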