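import Mathlib
import Cfsg.Agent.Lib.H49SuDefs
import Cfsg.Agent.Lib.H49SuSig

set_option autoImplicit false

/-! Project 2546 (Steinberg character of `PSU_n(q)`), piece `Star`.

Entry form of the unitarity. -/

namespace Cfsg.Agent.Lib.H49SuStar

open Matrix Cfsg.Agent.Lib.H49SuDefs
open Cfsg.Agent.Lib.H49SuSig

variable {n : ℕ} {F : Type*} [Field F] {q : ℕ}

theorem herm_mulVec (h : GA n F q) (u v : Fin n → F) :
    hermA n F q (mt h *ᵥ u) (mt h *ᵥ v) = hermA n F q u v := h.2 u v

theorem star [Fintype F] (hF : Fintype.card F = q ^ 2) (h : GA n F q) (a b : Fin n) :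
    ∑ i, mt h i a * (mt h (Fin.rev i) b) ^ q = if b = Fin.rev a then 1 else 0 := by
  have hq := q_pos hF
  have key := herm_mulVec h (Pi.single a 1) (Pi.single b 1)
  unfold hermA at key
  simp only [Matrix.mulVec_single_one, Matrix.col_apply] at key
  rw [key, Finset.sum_eq_single a]
  · rw [Pi.single_eq_same, one_mul]
    by_cases e : b = Fin.rev a
    · rw [if_pos e, e, Pi.single_eq_same, one_pow]
    · rw [if_neg e, Pi.single_eq_of_ne (fun h' => e h'.symm), zero_pow hq.ne']
  · intro c _ hc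
    rw [Pi.single_eq_of_ne hc, zero_mul]
  · intro h'
    exact absurd (Finset.mem_univ a) h'

theorem mk [Fintype F] (hF : Fintype.card F = q ^ 2) (M : Matrix (Fin n) (Fin n) F) (hdet : M.det = 1)
    (hM : ∀ a b, ∑ i, M i a * (M (Fin.rev i) b) ^ q = if b = Fin.rev a then 1 else 0) :
    ∃ h : GA n F q, mt h = M := by
  refine ⟨⟨⟨M, hdet⟩, ?_⟩, rfl⟩
  intro u v
  change hermA n F q (M *ᵥ u) (M *ᵥ v) = hermA n F q u v
  unfold hermA
  have e : ∀ i, (M *ᵥ u) i * ((M *ᵥ v) (Fin.rev i)) ^ q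
      = ∑ a, ∑ b, u a * (v b) ^ q * (M i a * (M (Fin.rev i) b) ^ q) := by
    intro i
    simp only [Matrix.mulVec, dotProduct]
    rw [sum_powq hF, Finset.sum_mul_sum]
    apply Finset.sum_congr rfl; intro a _
    apply Finset.sum_congr rfl; intro b _
    rw [mul_pow]; ring
  simp only [e]
  rw [Finset.sum_comm]
  apply Finset.sum_congr rfl
  intro a _
  rw [Finset.sum_comm]
  simp only [← Finset.mul_sum, hM]
  simp

end Cfsg.Agent.Lib.H49SuStar
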