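import Mathlib
import Cfsg.Agent.Lib.H49SuDefs
import Cfsg.Agent.Lib.H49SuSig
import Cfsg.Agent.Lib.H49SuStar

set_option autoImplicit false

/-! Project 2546 (Steinberg character of `PSU_n(q)`), piece `MonMk`.

Construction of monomial unitary matrices. -/

namespace Cfsg.Agent.Lib.H49SuMonMk

open Matrix Cfsg.Agent.Lib.H49SuDefs
open Cfsg.Agent.Lib.H49SuSig Cfsg.Agent.Lib.H49SuStar

variable {n : ℕ} {F : Type*} [Field F] {q : ℕ}

theorem monMk [Fintype F] (hF : Fintype.card F = q ^ 2) (π : Equiv.Perm (Fin n))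
    (hπ : ∀ a, π (Fin.rev a) = Fin.rev (π a)) (d : Fin n → F) (hd : ∀ a, d a * (d (Fin.rev a)) ^ q = 1)
    (hdet : (((Equiv.Perm.sign π : ℤˣ) : ℤ) : F) * ∏ a, d a = 1) :
    ∃ s : GA n F q, (∀ a b, mt s a b = if a = π b then d b else 0) ∧ Mon π (mt s) := by
  set M : Matrix (Fin n) (Fin n) F := Matrix.of (fun a b => if a = π b then d b else 0) with hM
  have hMa : ∀ a b, M a b = if a = π b then d b else 0 := fun a b => rfl
  have hsub : M = (Matrix.diagonal d).submatrix π.symm id := by
    ext a b
    rw [hMa, Matrix.submatrix_apply, Matrix.diagonal_apply, id]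
    by_cases h : a = π b
    · subst h; simp
    · rw [if_neg h, if_neg]
      intro e
      exact h (by rw [← e]; simp)
  have hdetM : M.det = 1 := by
    rw [hsub, Matrix.det_permute, Matrix.det_diagonal, Equiv.Perm.sign_symm]
    exact hdet
  have hq := q_pos hF
  have hstar : ∀ a b, ∑ i, M i a * (M (Fin.rev i) b) ^ q = if b = Fin.rev a then 1 else 0 := by
    intro a b
    rw [Finset.sum_eq_single (π a)]
    · rw [hMa, if_pos rfl, hMa, ← hπ]
      by_cases h : b = Fin.rev a
      · subst h
        rw [if_pos rfl, if_pos rfl, hd]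
      · rw [if_neg h, if_neg, zero_pow hq.ne', mul_zero]
        intro e
        exact h (π.injective e).symm
    · intro i _ hi
      rw [hMa, if_neg hi, zero_mul]
    · intro h; exact absurd (Finset.mem_univ _) h
  obtain ⟨s, hs⟩ := mk hF M hdetM hstar
  refine ⟨s, fun a b => by rw [hs, hMa], ?_⟩
  intro a b
  rw [hs, hMa]
  constructor
  · intro h
    by_contra e
    exact h (if_neg e)
  · intro e
    rw [if_pos e]
    intro h0
    have := hd b
    rw [h0, zero_mul] at this
    exact zero_ne_one this

end Cfsg.Agent.Lib.H49SuMonMk
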