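import Cfsg.Agent.Lib.Helper43UgDefs
import Cfsg.Agent.Lib.H43OgGgen
import Cfsg.Agent.Lib.H49SuMonMk
import Cfsg.Agent.Lib.H49SuIso

set_option autoImplicit false

/-! Project 412, piece `econj`.  Sketch: notes/helper43/Ug.md -/

namespace Cfsg.Agent.Lib.H43UgEconj

open Cfsg.Agent.Lib.Helper43Sp (I ng ab gam)
open Cfsg.Agent.Lib.Helper43Og (Gen)
open Cfsg.Agent.S0780 (Th)
open Cfsg.Agent.Lib.Helper43Ug
open Cfsg.Agent.Lib.Helper17Heis Cfsg.Agent.Lib.Helper17SUPrim

variable {F : Type*} [Field F] [Fintype F] {q n : ℕ}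

theorem IsE_conj {g : GS n F q} {v u : Fin n → F} {a : F} (h : GS n F q) (e : IsE g v u a) :
    IsE (h * g * h⁻¹) (Th n F q h v) (Th n F q h u) a := by
  intro x
  have h1 : ∀ w, Cfsg.hermForm n F q (Th n F q h⁻¹ x) w = Cfsg.hermForm n F q x (Th n F q h w) := by
    intro w
    rw [← Th_isom h (Th n F q h⁻¹ x) w, Th_apply_inv]
  rw [Th_mul, Th_mul, e _, h1, h1, map_sub, map_add, map_smul, map_smul, map_add, map_smul,
    Th_apply_inv]

theorem IsE_smul (hF : Fintype.card F = q ^ 2) {g : GS n F q} {v u : Fin n → F} {a : F} (l : F)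
    (e : IsE g (l • v) u a) : IsE g v (l ^ q • u) (l * l ^ q * a) := by
  intro x
  have hH := herm_concrete hF n
  rw [e x, hH.smul_right, hH.smul_right, Cfsg.Agent.Lib.Helper17HermC.sig_apply,
    Cfsg.Agent.Lib.Helper17HermC.sig_apply, Cfsg.Agent.Lib.H49SuSig.powq_powq hF]
  module

theorem IsE_addv (hF : Fintype.card F = q ^ 2) {g : GS n F q} {v u : Fin n → F} {a : F} (c : F)
    (e : IsE g v (u + c • v) a) : IsE g v u (a + c - c ^ q) := by
  intro x
  have hH := herm_concrete hF n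
  rw [e x, hH.add_right, hH.smul_right, Cfsg.Agent.Lib.Helper17HermC.sig_apply]
  module

end Cfsg.Agent.Lib.H43UgEconj
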