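import Cfsg.Agent.Lib.Helper43UgDefs
import Cfsg.Agent.Lib.H43OgGgen
import Cfsg.Agent.Lib.H49SuMonMk
import Cfsg.Agent.Lib.H49SuIso

set_option autoImplicit false

/-! Project 412, piece `eex`.  Sketch: notes/helper43/Ug.md -/

namespace Cfsg.Agent.Lib.H43UgEex

open Cfsg.Agent.Lib.Helper43Sp (I ng ab gam)
open Cfsg.Agent.Lib.Helper43Og (Gen)
open Cfsg.Agent.S0780 (Th)
open Cfsg.Agent.Lib.Helper43Ug

variable {F : Type*} [Field F] [Fintype F] {q n : ℕ}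

theorem exists_E (hF : Fintype.card F = q ^ 2) (v u : Fin n → F) (a : F) (hv : Cfsg.hermForm n F q v v = 0)
    (hu : Cfsg.hermForm n F q u v = 0) (ha : a + a ^ q + Cfsg.hermForm n F q u u = 0) :
    ∃ g : GS n F q, IsE g v u a := by
  refine ⟨Cfsg.Agent.S0781.ESU hF n v u a hv hu
    (by rw [Cfsg.Agent.Lib.Helper17HermC.sig_apply]; exact ha), fun x => ?_⟩
  rw [Cfsg.Agent.Lib.Helper17SUPrim.Th_ESU]
  rfl

end Cfsg.Agent.Lib.H43UgEex
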