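import Cfsg.Agent.Lib.Helper43UgDefs
import Cfsg.Agent.Lib.H43OgGgen
import Cfsg.Agent.Lib.H49SuMonMk
import Cfsg.Agent.Lib.H49SuIso

set_option autoImplicit false

/-! Project 412, piece `emul`.  Sketch: notes/helper43/Ug.md -/

namespace Cfsg.Agent.Lib.H43UgEmul

open Cfsg.Agent.Lib.Helper43Sp (I ng ab gam)
open Cfsg.Agent.Lib.Helper43Og (Gen)
open Cfsg.Agent.S0780 (Th)
open Cfsg.Agent.Lib.Helper43Ug
open Cfsg.Agent.Lib.Helper17Heis Cfsg.Agent.Lib.Helper17SUPrim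

variable {F : Type*} [Field F] [Fintype F] {q n : ℕ}

theorem IsE_mul (hF : Fintype.card F = q ^ 2) {g₁ g₂ : GS n F q} {v u₁ u₂ : Fin n → F} {a₁ a₂ : F}
    (hv : Cfsg.hermForm n F q v v = 0) (h₁ : Cfsg.hermForm n F q u₁ v = 0) (h₂ : Cfsg.hermForm n F q u₂ v = 0)
    (e₁ : IsE g₁ v u₁ a₁) (e₂ : IsE g₂ v u₂ a₂) :
    IsE (g₁ * g₂) v (u₁ + u₂) (a₁ + a₂ - Cfsg.hermForm n F q u₂ u₁) := by
  intro x
  rw [Th_mul, e₂ x, e₁ _]
  exact E_comp (herm_concrete hF n) v u₁ u₂ a₁ a₂ hv h₁ h₂ x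

theorem IsE_inv (hF : Fintype.card F = q ^ 2) {g : GS n F q} {v u : Fin n → F} {a : F}
    (hv : Cfsg.hermForm n F q v v = 0) (h : Cfsg.hermForm n F q u v = 0) (e : IsE g v u a) :
    IsE g⁻¹ v (-u) (-a - Cfsg.hermForm n F q u u) := by
  intro x
  have hH := herm_concrete hF n
  have hy : Th n F q g (E (Cfsg.hermForm n F q) v (-u) (-a - Cfsg.hermForm n F q u u) x) = x := by
    rw [e _]
    have h1 := E_comp hH v u (-u) a (-a - Cfsg.hermForm n F q u u) hv h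
      (by rw [hH.neg_left, h, neg_zero]) x
    refine h1.trans ?_
    unfold E
    rw [hH.neg_left, add_neg_cancel, hH.zero_right]
    have h2 : a + (-a - Cfsg.hermForm n F q u u) - -Cfsg.hermForm n F q u u = 0 := by ring
    rw [h2]
    simp
  calc Th n F q g⁻¹ x
      = Th n F q g⁻¹ (Th n F q g (E (Cfsg.hermForm n F q) v (-u) (-a - Cfsg.hermForm n F q u u) x)) := by
        rw [hy]
    _ = E (Cfsg.hermForm n F q) v (-u) (-a - Cfsg.hermForm n F q u u) x := Th_inv_apply g _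

/-- (the hypothesis `hF` is needed: for `q = 0` the form is not additive in the second variable) -/
theorem IsE_one (hF : Fintype.card F = q ^ 2) (v : Fin n → F) : IsE (1 : GS n F q) v 0 0 := by
  intro x
  rw [Th_one, (herm_concrete hF n).zero_right]
  simp

theorem IsE_uniq {g₁ g₂ : GS n F q} {v u : Fin n → F} {a : F} (e₁ : IsE g₁ v u a) (e₂ : IsE g₂ v u a) :
    g₁ = g₂ :=
  Th_ext (fun x => by rw [e₁ x, e₂ x])

end Cfsg.Agent.Lib.H43UgEmul
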