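import Cfsg.Agent.Lib.Helper43UgDefs
import Cfsg.Agent.Lib.H43OgGgen
import Cfsg.Agent.Lib.H49SuMonMk
import Cfsg.Agent.Lib.H49SuIso

set_option autoImplicit false

/-! Project 412, piece `etr`.  Sketch: notes/helper43/Ug.md -/

namespace Cfsg.Agent.Lib.H43UgEtr

open Cfsg.Agent.Lib.Helper43Sp (I ng ab gam)
open Cfsg.Agent.Lib.Helper43Og (Gen)
open Cfsg.Agent.S0780 (Th)
open Cfsg.Agent.Lib.Helper43Ug

variable {F : Type*} [Field F] [Fintype F] {q n : ℕ}

theorem trace_of_IsE (hF : Fintype.card F = q ^ 2) {g : GS n F q} {v : Fin n → F} {s : F} (hv0 : v ≠ 0)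
    (hv : Cfsg.hermForm n F q v v = 0) (e : IsE g v 0 s) : ∃ β : F, s = β ^ q - β := by
  have h := Cfsg.Agent.Lib.Helper17Heis.herm_concrete hF n
  obtain ⟨x, hx⟩ := h.nondeg v hv0
  have hgx : Th n F q g x = x + (Cfsg.hermForm n F q x v * s) • v := by
    rw [e x, h.zero_right]
    module
  have hiso := Cfsg.Agent.Lib.Helper17SUPrim.Th_isom g x x
  rw [hgx, h.add_left, h.add_right, h.add_right, h.smul_left, h.smul_left, h.smul_right, h.smul_right,
    hv, map_mul, h.herm v x] at hiso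
  have hσx : Cfsg.Agent.Lib.Helper17HermC.sig hF (Cfsg.hermForm n F q x v) ≠ 0 := by
    intro h0
    apply hx
    rw [← h.invol (Cfsg.hermForm n F q x v), h0, map_zero]
  have hs : s + Cfsg.Agent.Lib.Helper17HermC.sig hF s = 0 := by
    have h1 : Cfsg.hermForm n F q x v * Cfsg.Agent.Lib.Helper17HermC.sig hF (Cfsg.hermForm n F q x v)
        * (s + Cfsg.Agent.Lib.Helper17HermC.sig hF s) = 0 := by
      linear_combination hiso
    rcases mul_eq_zero.1 h1 with h2 | h2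
    · exact absurd h2 (mul_ne_zero hx hσx)
    · exact h2
  obtain ⟨β, hβ⟩ := Cfsg.Agent.Lib.Helper17Heis.exists_beta h s hs
  refine ⟨β, ?_⟩
  rw [← hβ, Cfsg.Agent.Lib.Helper17HermC.sig_apply]

theorem v_ne_zero {k e0 : ℕ} (Φ : UFrame n F q k e0) (a : I k) : Φ.v a ≠ 0 := by
  intro h0
  have h1 := Φ.pol a (ng a)
  rw [if_pos rfl, h0] at h1
  have h2 : Cfsg.hermForm n F q 0 (Φ.v (ng a)) = 0 := by
    simp [Cfsg.hermForm]
  rw [h2] at h1
  exact zero_ne_one h1

end Cfsg.Agent.Lib.H43UgEtr
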