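import Cfsg.Agent.Lib.Helper43UgDefs
import Cfsg.Agent.Lib.H43OgGgen
import Cfsg.Agent.Lib.H49SuMonMk
import Cfsg.Agent.Lib.H49SuIso
import Cfsg.Agent.Lib.H43UgEex
import Cfsg.Agent.Lib.H43UgEmul
import Cfsg.Agent.Lib.H43UgEconj
import Cfsg.Agent.Lib.H43UgEtr

set_option autoImplicit false

/-! Project 412, piece `asm`.  Sketch: notes/helper43/Ug.md -/

namespace Cfsg.Agent.Lib.H43UgAsm

open Cfsg.Agent.Lib.Helper43Sp (I ng ab gam)
open Cfsg.Agent.Lib.Helper43Og (Gen)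
open Cfsg.Agent.S0780 (Th)
open Cfsg.Agent.Lib.Helper43Ug
open Cfsg.Agent.Lib.H43UgEex
open Cfsg.Agent.Lib.H43UgEmul
open Cfsg.Agent.Lib.H43UgEconj
open Cfsg.Agent.Lib.H43UgEtr

variable {F : Type*} [Field F] [Fintype F] {q n : ℕ}
variable {k e0 : ℕ} (Φ : UFrame n F q k e0) (M : Subgroup (GS n F q))

theorem ab_eq_iff {k : ℕ} (a b : I k) : ab b = ab a ↔ b = a ∨ b = ng a := by
  rcases a with a | a <;> rcases b with b | b <;> simp [ab, ng]

theorem ng_ne {k : ℕ} (a : I k) : ng a ≠ a := by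
  rcases a with a | a <;> simp [ng]

theorem ng_ng {k : ℕ} (a : I k) : ng (ng a) = a := by
  rcases a with a | a <;> simp [ng]

theorem asm (hF : Fintype.card F = q ^ 2) (a : I k) (h1 : ∀ b, ab b ≠ ab a → XS Φ M a b) (h2 : HS Φ M a) :
    QS Φ M a := by
  classical
  intro u s g hu hg
  have hH := Cfsg.Agent.Lib.Helper17Heis.herm_concrete hF n
  have hq : q ≠ 0 := by
    rintro rfl
    have : 0 < Fintype.card F := Fintype.card_pos
    rw [hF] at this
    simp at this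
  have hsig : ∀ x : F, Cfsg.Agent.Lib.Helper17HermC.sig hF x = x ^ q :=
    Cfsg.Agent.Lib.Helper17HermC.sig_apply hF
  have hva : Cfsg.hermForm n F q (Φ.v a) (Φ.v a) = 0 := by
    rw [Φ.pol, if_neg (ng_ne a).symm]
  obtain ⟨c, w, hw, rfl⟩ := Φ.span u
  -- part (1)
  have step : ∀ T : Finset (I k), (∀ b ∈ T, ab b ≠ ab a) →
      Cfsg.hermForm n F q (∑ b ∈ T, c b • Φ.v b) (Φ.v a) = 0 ∧
      ∃ g' ∈ M, ∃ s', IsE g' (Φ.v a) (∑ b ∈ T, c b • Φ.v b) s' := by
    intro T
    induction T using Finset.induction_on with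
    | empty =>
      intro _
      refine ⟨by simp [hH.zero_left], 1, M.one_mem, 0, ?_⟩
      simpa using IsE_one hF (Φ.v a)
    | insert b T hb ih =>
      intro hT
      obtain ⟨ih1, g', hg', s', hs'⟩ := ih (fun b' hb' => hT b' (Finset.mem_insert_of_mem hb'))
      have hba : ab b ≠ ab a := hT b (Finset.mem_insert_self b T)
      have hb1 : Cfsg.hermForm n F q (c b • Φ.v b) (Φ.v a) = 0 := by
        rw [hH.smul_left, Φ.pol, if_neg, mul_zero]
        intro h
        apply hba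
        rw [ab_eq_iff]
        right
        rw [h, ng_ng]
      have hb2 : Cfsg.hermForm n F q (c b • Φ.v b) (c b • Φ.v b) = 0 := by
        rw [hH.smul_left, hH.smul_right, Φ.pol, if_neg (ng_ne b).symm, mul_zero, mul_zero]
      obtain ⟨gb, hgb⟩ := exists_E hF (Φ.v a) (c b • Φ.v b) 0 hva hb1 (by
        rw [hb2, zero_pow hq]; simp)
      have hgbM : gb ∈ M := h1 b hba (c b) gb hgb
      rw [Finset.sum_insert hb]
      refine ⟨by rw [hH.add_left, hb1, ih1, add_zero], gb * g', M.mul_mem hgbM hg', _,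
        IsE_mul hF hva hb1 ih1 hgb hs'⟩
  set T : Finset (I k) := Finset.univ.filter (fun b => ab b ≠ ab a) with hT
  obtain ⟨hT0, gT, hgT, sT, hsT⟩ := step T (fun b hb => (Finset.mem_filter.1 hb).2)
  -- part (2)
  have hw0 : Cfsg.hermForm n F q w (Φ.v a) = 0 := Φ.perp a w hw
  obtain ⟨sw, hsw⟩ := hH.trace_surj (- Cfsg.hermForm n F q w w) (by
    rw [map_neg, hH.self_fix])
  rw [hsig] at hsw
  obtain ⟨gw, hgw⟩ := exists_E hF (Φ.v a) w sw hva hw0 (by rw [hsw]; ring)
  have hgwM : gw ∈ M := h2 w hw sw gw hgw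
  have hg' := IsE_mul hF hva hT0 hw0 hsT hgw
  have hu' : Cfsg.hermForm n F q (∑ b ∈ T, c b • Φ.v b + w) (Φ.v a) = 0 := by
    rw [hH.add_left, hT0, hw0, add_zero]
  have hginv := IsE_inv hF hva hu' hg'
  have hfin := IsE_mul hF hva hu (by rw [hH.neg_left, hu', neg_zero]) hg hginv
  -- the coefficient at `ng a` vanishes
  have hsplit : ∑ b, c b • Φ.v b = ∑ b ∈ T, c b • Φ.v b + (c a • Φ.v a + c (ng a) • Φ.v (ng a)) := by
    rw [← Finset.sum_filter_add_sum_filter_not Finset.univ (fun b => ab b ≠ ab a)]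
    congr 1
    have : Finset.univ.filter (fun b => ¬ ab b ≠ ab a) = {a, ng a} := by
      ext b
      simp only [Finset.mem_filter, Finset.mem_univ, true_and, not_not, ab_eq_iff,
        Finset.mem_insert, Finset.mem_singleton]
    rw [this, Finset.sum_pair (ng_ne a).symm]
  have hcng : c (ng a) = 0 := by
    have := hu
    rw [hsplit, hH.add_left, hH.add_left, hH.add_left, hT0, hw0, hH.smul_left, hH.smul_left, hva,
      Φ.pol, if_pos (ng_ng a).symm] at this
    simpa using this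
  have hdiff : ∑ b, c b • Φ.v b + w + -(∑ b ∈ T, c b • Φ.v b + w) = 0 + c a • Φ.v a := by
    rw [hsplit, hcng]
    simp
  rw [hdiff] at hfin
  have hfin' := IsE_addv hF (c a) hfin
  have hM1 : g * (gT * gw)⁻¹ ∈ M := h2 0 Φ.V0.zero_mem _ _ hfin'
  have : g = g * (gT * gw)⁻¹ * (gT * gw) := by group
  rw [this]
  exact M.mul_mem hM1 (M.mul_mem hgT hgwM)

end Cfsg.Agent.Lib.H43UgAsm
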