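import Cfsg.Agent.Lib.Helper43UgDefs
import Cfsg.Agent.Lib.H43OgGgen
import Cfsg.Agent.Lib.H49SuMonMk
import Cfsg.Agent.Lib.H49SuIso
import Cfsg.Agent.Lib.H43UgEex
import Cfsg.Agent.Lib.H43UgEmul
import Cfsg.Agent.Lib.H43UgEconj
import Cfsg.Agent.Lib.H43UgEtr

set_option autoImplicit false

/-! Project 412, piece `chain`.  Sketch: notes/helper43/Ug.md -/

namespace Cfsg.Agent.Lib.H43UgChain

open Cfsg.Agent.Lib.Helper43Sp (I ng ab gam)
open Cfsg.Agent.Lib.Helper43Og (Gen)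
open Cfsg.Agent.S0780 (Th)
open Cfsg.Agent.Lib.Helper43Ug
open Cfsg.Agent.Lib.H43UgEex
open Cfsg.Agent.Lib.H43UgEmul
open Cfsg.Agent.Lib.H43UgEconj
open Cfsg.Agent.Lib.H43UgEtr
open Cfsg.Agent.Lib.Helper7GU Cfsg.Agent.Lib.Helper17SUPrim

variable {F : Type*} [Field F] [Fintype F] {q n : ℕ}
variable {k e0 : ℕ} (Φ : UFrame n F q k e0) (M : Subgroup (GS n F q))

theorem chain (hF : Fintype.card F = q ^ 2) (a b d : I k) (h1 : ab a ≠ ab b) (h2 : ab b ≠ ab d)
    (h3 : ab a ≠ ab d) (hx : XS Φ M a b) (hy : XS Φ M (ng b) d) : XS Φ M a d := by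
  intro t g e
  have hq : q ≠ 0 := by
    rintro rfl
    have h0 : 0 < Fintype.card F := Fintype.card_pos
    rw [hF] at h0
    simp at h0
  have hH := Cfsg.Agent.Lib.Helper17Heis.herm_concrete hF n
  have abng : ∀ x : I k, ab (ng x) = ab x := by rintro (x | x) <;> rfl
  have ngng : ∀ x : I k, ng (ng x) = x := by rintro (x | x) <;> rfl
  have hz : ∀ x y : I k, ab x ≠ ab y → Cfsg.hermForm n F q (Φ.v x) (Φ.v y) = 0 := by
    intro x y hxy
    rw [Φ.pol, if_neg]
    intro h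
    apply hxy
    rw [h, abng]
  have hs : ∀ x : I k, Cfsg.hermForm n F q (Φ.v x) (Φ.v x) = 0 := by
    intro x
    rw [Φ.pol, if_neg]
    rcases x with x | x
    · intro h; cases h
    · intro h; cases h
  have h1b : Cfsg.hermForm n F q (Φ.v (ng b)) (Φ.v b) = 1 := by
    rw [Φ.pol, if_pos (ngng b).symm]
  obtain ⟨g1, e1⟩ := exists_E hF (Φ.v a) ((1 : F) • Φ.v b) 0 (hs a)
    (by rw [h_smul_left, hz b a h1.symm, mul_zero])
    (by rw [h_smul_left, h_smul_right, hs b]; simp [hq])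
  have m1 : g1 ∈ M := hx 1 g1 e1
  have c1 : Th n F q g1 (Φ.v (ng b)) = Φ.v (ng b) - Φ.v a := by
    rw [e1, hz (ng b) a (by rw [abng]; exact h1.symm), h_smul_right, h1b]
    simp
  obtain ⟨g2, e2⟩ := exists_E hF (Φ.v (ng b)) ((-t) • Φ.v d) 0 (hs _)
    (by rw [h_smul_left, hz d (ng b) (by rw [abng]; exact h2.symm), mul_zero])
    (by rw [h_smul_left, h_smul_right, hs d]; simp [hq])
  have m2 : g2 ∈ M := hy (-t) g2 e2
  have e12 := IsE_conj g1 e2
  have c2 : Th n F q g1 ((-t) • Φ.v d) = (-t) • Φ.v d := by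
    rw [e1, h_smul_left, h_smul_left, hz d a h3.symm, h_smul_right, hz d b h2.symm]
    simp
  rw [c1, c2] at e12
  have hneg : (-t) ^ q = -(t ^ q) := by
    rw [← Cfsg.Agent.Lib.Helper17HermC.sig_apply hF, ← Cfsg.Agent.Lib.Helper17HermC.sig_apply hF,
      map_neg]
  have key : g2 * g = g1 * g2 * g1⁻¹ := by
    apply Th_ext
    intro x
    have E1 : Th n F q g x = x + (Cfsg.hermForm n F q x (Φ.v a) * t) • Φ.v d
        - (t ^ q * Cfsg.hermForm n F q x (Φ.v d)) • Φ.v a := by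
      rw [e x, h_smul_right]; module
    have Y1 : Cfsg.hermForm n F q (Th n F q g x) (Φ.v (ng b))
        = Cfsg.hermForm n F q x (Φ.v (ng b)) := by
      rw [E1, h_sub_left, h_add_left, h_smul_left, h_smul_left,
        hz d (ng b) (by rw [abng]; exact h2.symm), hz a (ng b) (by rw [abng]; exact h1)]
      ring
    have Y2 : Cfsg.hermForm n F q (Th n F q g x) (Φ.v d) = Cfsg.hermForm n F q x (Φ.v d) := by
      rw [E1, h_sub_left, h_add_left, h_smul_left, h_smul_left, hs d, hz a d h3]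
      ring
    rw [Th_mul, e2 (Th n F q g x), e12 x, h_smul_right, h_smul_right, Y1, Y2, hH.sub_right, hneg,
      E1]
    module
  have hg : g = g2⁻¹ * (g1 * g2 * g1⁻¹) := by rw [← key]; group
  rw [hg]
  exact M.mul_mem (M.inv_mem m2) (M.mul_mem (M.mul_mem m1 m2) (M.inv_mem m1))

end Cfsg.Agent.Lib.H43UgChain
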