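import Cfsg.Agent.Lib.Helper43UgDefs
import Cfsg.Agent.Lib.H43OgGgen
import Cfsg.Agent.Lib.H49SuMonMk
import Cfsg.Agent.Lib.H49SuIso
import Cfsg.Agent.Lib.H43UgEex
import Cfsg.Agent.Lib.H43UgEmul
import Cfsg.Agent.Lib.H43UgEconj
import Cfsg.Agent.Lib.H43UgEtr

set_option autoImplicit false

/-! Project 412, piece `cjH`.  Sketch: notes/helper43/Ug.md -/

namespace Cfsg.Agent.Lib.H43UgCjH

open Cfsg.Agent.Lib.Helper43Sp (I ng ab gam)
open Cfsg.Agent.Lib.Helper43Og (Gen)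
open Cfsg.Agent.S0780 (Th)
open Cfsg.Agent.Lib.Helper43Ug
open Cfsg.Agent.Lib.H43UgEex
open Cfsg.Agent.Lib.H43UgEmul
open Cfsg.Agent.Lib.H43UgEconj
open Cfsg.Agent.Lib.H43UgEtr

variable {F : Type*} [Field F] [Fintype F] {q n : ℕ}
variable {k e0 : ℕ} (Φ : UFrame n F q k e0) (M : Subgroup (GS n F q))

/-- inverse image of a scaled vector -/
theorem Th_inv_of_smul (c : GS n F q) {x y : Fin n → F} {κ : F} (hκ : κ ≠ 0)
    (h : Th n F q c x = κ • y) : Th n F q c⁻¹ y = κ⁻¹ • x := by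
  have h1 : y = Th n F q c (κ⁻¹ • x) := by
    rw [map_smul, h, smul_smul, inv_mul_cancel₀ hκ, one_smul]
  rw [h1, Cfsg.Agent.Lib.Helper17SUPrim.Th_inv_apply]

theorem HS_cox (hF : Fintype.card F = q ^ 2) (c : GS n F q) (hc : Cox Φ c) (hcM : c ∈ M) (a : I k)
    (h : HS Φ M a) : HS Φ M (gam a) := by
  intro w hw s g e
  obtain ⟨κ, hκ, hκv⟩ := hc.hv a
  obtain ⟨μ, hμ, hμv⟩ := hc.h0
  have e1 := IsE_conj c⁻¹ e
  rw [Th_inv_of_smul c hκ hκv, Th_inv_of_smul c hμ (hμv w hw)] at e1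
  have e2 := IsE_smul hF _ e1
  have hm : c⁻¹ * g * c⁻¹⁻¹ ∈ M :=
    h _ (Φ.V0.smul_mem _ (Φ.V0.smul_mem _ hw)) _ _ e2
  have hg : g = c * (c⁻¹ * g * c⁻¹⁻¹) * c⁻¹ := by group
  rw [hg]
  exact M.mul_mem (M.mul_mem hcM hm) (M.inv_mem hcM)

theorem HS_all (hF : Fintype.card F = q ^ 2) (c : GS n F q) (hc : Cox Φ c) (hcM : c ∈ M) (a : I k)
    (h : HS Φ M a) (b : I k) : HS Φ M b := by
  obtain ⟨j, -, hj⟩ := Cfsg.Agent.Lib.Helper77SpTgam.gam_trans a b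
  have key : ∀ j : ℕ, HS Φ M (gam^[j] a) := by
    intro j
    induction j with
    | zero => simpa using h
    | succ j ih =>
      rw [Function.iterate_succ_apply']
      exact HS_cox Φ M hF c hc hcM _ ih
  rw [← hj]
  exact key j

end Cfsg.Agent.Lib.H43UgCjH
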