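import Cfsg.Agent.Lib.Helper43UgDefs
import Cfsg.Agent.Lib.H43OgGgen
import Cfsg.Agent.Lib.H49SuMonMk
import Cfsg.Agent.Lib.H49SuIso

set_option autoImplicit false

/-! Project 412, piece `comb`.  Sketch: notes/helper43/Ug.md -/

namespace Cfsg.Agent.Lib.H43UgComb

open Cfsg.Agent.Lib.Helper43Sp (I ng ab gam)
open Cfsg.Agent.Lib.Helper43Og (Gen)
open Cfsg.Agent.S0780 (Th)
open Cfsg.Agent.Lib.Helper43Ug

variable {F : Type*} [Field F] [Fintype F] {q n : ℕ}

theorem comb (k : ℕ) (X : I k → I k → Prop) (h0 : ∀ a, X a (ng (gam a)))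
    (hs : ∀ a b, ab a ≠ ab b → X a b → X b a)
    (hc : ∀ a b d, ab a ≠ ab b → ab b ≠ ab d → ab a ≠ ab d → X a b → X (ng b) d → X a d) :
    ∀ a b, ab a ≠ ab b → X a b := by
  have ng_ng : ∀ a : I k, ng (ng a) = a := fun a => by cases a <;> rfl
  have ab_ng : ∀ a : I k, ab (ng a) = ab a := fun a => by cases a <;> rfl
  have c1 : ∀ j, 0 < j → j < k → ∀ a, X a (ng (gam^[j] a)) := by
    intro j
    induction j with
    | zero => intro h; omega
    | succ j ih =>
      intro _ hjk a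
      rcases Nat.eq_zero_or_pos j with rfl | hj
      · exact h0 a
      · have h1 := ih hj (by omega) a
        have h2 := h0 (gam^[j] a)
        have e : gam (gam^[j] a) = gam^[j + 1] a := (Function.iterate_succ_apply' gam j a).symm
        refine hc a (ng (gam^[j] a)) (ng (gam^[j + 1] a)) ?_ ?_ ?_ h1 ?_
        · rw [ab_ng]
          exact (Cfsg.Agent.Lib.Helper77SpTgam.gam_ab a j hj (by omega)).symm
        · rw [ab_ng, ab_ng, ← e]
          exact (Cfsg.Agent.Lib.Helper77SpTgam.gam_ab (gam^[j] a) 1 one_pos (by omega)).symm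
        · rw [ab_ng]
          exact (Cfsg.Agent.Lib.Helper77SpTgam.gam_ab a (j + 1) (by omega) hjk).symm
        · rw [ng_ng, ← e]
          exact h2
  intro a b hab
  obtain ⟨j, hj, hjb⟩ := Cfsg.Agent.Lib.Helper77SpTgam.gam_trans a (ng b)
  have hb : b = ng (gam^[j] a) := by rw [hjb, ng_ng]
  have hj0 : j ≠ 0 := by
    rintro rfl
    apply hab
    have h1 : a = ng b := hjb
    rw [h1, ab_ng]
  have hjk : j ≠ k := by
    rintro rfl
    rw [Cfsg.Agent.Lib.Helper77SpTgam.gam_pow_m] at hjb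
    apply hab
    have h1 := congrArg ng hjb
    rw [ng_ng, ng_ng] at h1
    rw [h1]
  rcases Nat.lt_or_gt_of_ne hjk with h | h
  · rw [hb]
    exact c1 j (by omega) h a
  · obtain ⟨i, rfl⟩ : ∃ i, j = k + i := ⟨j - k, by omega⟩
    have e1 : gam^[k + i] a = ng (gam^[i] a) := by
      rw [Function.iterate_add_apply, Cfsg.Agent.Lib.Helper77SpTgam.gam_pow_m]
    have hbx : b = gam^[i] a := by rw [hb, e1, ng_ng]
    have e2 : gam^[k - i] (gam^[i] a) = ng a := by
      rw [← Function.iterate_add_apply, Nat.sub_add_cancel (by omega),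
        Cfsg.Agent.Lib.Helper77SpTgam.gam_pow_m]
    have h3 := c1 (k - i) (by omega) (by omega) (gam^[i] a)
    rw [e2, ng_ng, ← hbx] at h3
    exact hs b a hab.symm h3

end Cfsg.Agent.Lib.H43UgComb
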