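import Cfsg.Agent.Lib.Helper43UgDefs
import Cfsg.Agent.Lib.H43OgGgen
import Cfsg.Agent.Lib.H49SuMonMk
import Cfsg.Agent.Lib.H49SuIso

set_option autoImplicit false

/-! Project 412, piece `cox`.  Sketch: notes/helper43/Ug.md -/

namespace Cfsg.Agent.Lib.H43UgCox

open Cfsg.Agent.Lib.Helper43Sp (I ng ab gam)
open Cfsg.Agent.Lib.Helper43Og (Gen)
open Cfsg.Agent.S0780 (Th)
open Cfsg.Agent.Lib.Helper43Ug

variable {F : Type*} [Field F] [Fintype F] {q n : ℕ}
variable {k e0 : ℕ} (Φ : UFrame n F q k e0) (M : Subgroup (GS n F q))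

theorem gam_injective (k : ℕ) : Function.Injective (gam : I k → I k) := by
  intro a b hab
  apply Cfsg.Agent.Lib.Helper77SpTgam.pos_inj
  have h1 := congrArg Cfsg.Agent.Lib.Helper77SpTgam.pos hab
  rw [Cfsg.Agent.Lib.Helper77SpTgam.pos_gam, Cfsg.Agent.Lib.Helper77SpTgam.pos_gam] at h1
  have h2 : Cfsg.Agent.Lib.Helper77SpTgam.pos a + 1 ≡ Cfsg.Agent.Lib.Helper77SpTgam.pos b + 1 [MOD 2 * k] := h1
  have h3 := Nat.ModEq.add_right_cancel' 1 h2
  exact Nat.ModEq.eq_of_lt_of_lt h3 (Cfsg.Agent.Lib.Helper77SpTgam.pos_lt a)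
    (Cfsg.Agent.Lib.Helper77SpTgam.pos_lt b)

theorem exists_cox (hF : Fintype.card F = q ^ 2) (hk : 0 < k) : ∃ c : GS n F q, Cox Φ c := by
  classical
  let π : Equiv.Perm (I k) := Equiv.ofBijective gam (Finite.injective_iff_bijective.1 (gam_injective k))
  have hπ : ∀ a, π a = gam a := fun a => rfl
  have hπng : ∀ a, π (ng a) = ng (π a) := fun a => Cfsg.Agent.Lib.Helper77SpTgam.gam_ng a
  -- it is enough to find `d`
  suffices hd : ∃ d : I k → F, (∀ a, d a ≠ 0) ∧ (∀ a, d a * (d (ng a)) ^ q = 1) ∧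
      (((Equiv.Perm.sign π : ℤˣ) : ℤ) : F) * (∏ a, d a) = 1 by
    obtain ⟨d, hd0, hd1, hd2⟩ := hd
    obtain ⟨c, hc1, hc2⟩ := Φ.mon π d 1 hπng hd1 (by simp) (by rw [one_pow, mul_one]; exact hd2)
    refine ⟨c, ⟨fun a => ⟨d a, hd0 a, hc1 a⟩, ⟨1, one_ne_zero, hc2⟩⟩⟩
  rcases Int.units_eq_one_or (Equiv.Perm.sign π) with hs | hs
  · refine ⟨fun _ => 1, fun _ => one_ne_zero, fun _ => by simp, ?_⟩
    rw [hs]; simp
  · obtain ⟨θ, hθ0, hθ⟩ := Cfsg.Agent.Lib.H49SuSig.exists_trace_zero hF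
    have hθq : θ ^ q = -θ := by
      rw [eq_neg_iff_add_eq_zero, add_comm]; exact hθ
    have hθq0 : θ ^ q ≠ 0 := pow_ne_zero q hθ0
    let i0 : Fin k := ⟨0, hk⟩
    refine ⟨Sum.elim (fun i => if i = i0 then θ else 1) (fun i => if i = i0 then (θ ^ q)⁻¹ else 1), ?_, ?_, ?_⟩
    · rintro (i | i)
      · simp only [Sum.elim_inl]
        split_ifs
        · exact hθ0
        · exact one_ne_zero
      · simp only [Sum.elim_inr]
        split_ifs
        · exact inv_ne_zero hθq0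
        · exact one_ne_zero
    · rintro (i | i)
      · simp only [ng, Sum.swap_inl, Sum.elim_inl, Sum.elim_inr]
        split_ifs
        · rw [inv_pow, Cfsg.Agent.Lib.H49SuSig.powq_powq hF, mul_inv_cancel₀ hθ0]
        · simp
      · simp only [ng, Sum.swap_inr, Sum.elim_inl, Sum.elim_inr]
        split_ifs
        · rw [inv_mul_cancel₀ hθq0]
        · simp
    · rw [hs, Fintype.prod_sum_type]
      simp only [Sum.elim_inl, Sum.elim_inr, Finset.prod_ite_eq', Finset.mem_univ, if_true]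
      rw [hθq]
      have : θ * (-θ)⁻¹ = -1 := by
        rw [inv_neg, mul_neg, mul_inv_cancel₀ hθ0]
      rw [this]
      simp

end Cfsg.Agent.Lib.H43UgCox
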