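import Cfsg.Agent.Lib.Helper43UgDefs
import Cfsg.Agent.Lib.H43OgGgen
import Cfsg.Agent.Lib.H49SuMonMk
import Cfsg.Agent.Lib.H49SuIso
import Cfsg.Agent.Lib.H43UgEex
import Cfsg.Agent.Lib.H43UgEmul
import Cfsg.Agent.Lib.H43UgEconj
import Cfsg.Agent.Lib.H43UgEtr

set_option autoImplicit false

/-! Project 412, piece `crit1`.  Sketch: notes/helper43/Ug.md -/

namespace Cfsg.Agent.Lib.H43UgCrit1

open Cfsg.Agent.Lib.Helper43Sp (I ng ab gam)
open Cfsg.Agent.Lib.Helper43Og (Gen)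
open Cfsg.Agent.S0780 (Th)
open Cfsg.Agent.Lib.Helper43Ug
open Cfsg.Agent.Lib.H43UgEex
open Cfsg.Agent.Lib.H43UgEmul
open Cfsg.Agent.Lib.H43UgEconj
open Cfsg.Agent.Lib.H43UgEtr
open Cfsg.Agent.Lib.Helper17SUPrim

variable {F : Type*} [Field F] [Fintype F] {q n : ℕ}

/-- the unipotent radical at `w` lies in `M` -/
def Qin (M : Subgroup (GS n F q)) (w : Fin n → F) : Prop :=
  ∀ (u : Fin n → F) (s : F) (g : GS n F q), Cfsg.hermForm n F q u w = 0 → IsE g w u s → g ∈ M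

/-- (i) `Q_s ⊆ M` moves isotropic points not orthogonal to `s`. -/
theorem move (hF : Fintype.card F = q ^ 2) (M : Subgroup (GS n F q)) (s w w' : Fin n → F)
    (hQ : Qin M s) (hs : Cfsg.hermForm n F q s s = 0) (hw : Cfsg.hermForm n F q w w = 0)
    (hw' : Cfsg.hermForm n F q w' w' = 0) (h1 : Cfsg.hermForm n F q w s ≠ 0)
    (h2 : Cfsg.hermForm n F q w' s ≠ 0) :
    ∃ m ∈ M, ∃ c : F, c ≠ 0 ∧ Th n F q m w = c • w' := by
  have hH := Cfsg.Agent.Lib.Helper17Heis.herm_concrete hF n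
  set w1 := (Cfsg.hermForm n F q w s)⁻¹ • w with hw1
  set w2 := (Cfsg.hermForm n F q w' s)⁻¹ • w' with hw2
  have e1 : Cfsg.hermForm n F q w1 s = 1 := by rw [hw1, hH.smul_left, inv_mul_cancel₀ h1]
  have e2 : Cfsg.hermForm n F q w2 s = 1 := by rw [hw2, hH.smul_left, inv_mul_cancel₀ h2]
  have n1 : Cfsg.hermForm n F q w1 w1 = 0 := by rw [hw1, hH.smul_left, hH.smul_right, hw]; ring
  have n2 : Cfsg.hermForm n F q w2 w2 = 0 := by rw [hw2, hH.smul_left, hH.smul_right, hw']; ring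
  obtain ⟨d1, d2, d3, -⟩ := heis_data hH s w1 w2 n1 n2 e1 e2
  rw [Cfsg.Agent.Lib.Helper17HermC.sig_apply] at d2
  obtain ⟨g, hg⟩ := exists_E hF s (w2 - w1) (Cfsg.hermForm n F q w1 (w2 - w1)) hs d1 d2
  refine ⟨g, hQ _ _ g d1 hg, Cfsg.hermForm n F q w s * (Cfsg.hermForm n F q w' s)⁻¹,
    mul_ne_zero h1 (inv_ne_zero h2), ?_⟩
  have h3 : w = Cfsg.hermForm n F q w s • w1 := by
    rw [hw1, smul_smul, mul_inv_cancel₀ h1, one_smul]
  have h4 : Th n F q g w1 = w2 := by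
    rw [hg w1]
    exact d3
  conv_lhs => rw [h3]
  rw [map_smul, h4, hw2, smul_smul]

/-- (ii) transfer of `Q_w ⊆ M` along an element of `M`. -/
theorem transfer (hF : Fintype.card F = q ^ 2) (M : Subgroup (GS n F q)) (w w' : Fin n → F)
    (hQ : Qin M w) (m : GS n F q) (hm : m ∈ M) (c : F) (hc : c ≠ 0)
    (hmw : Th n F q m w = c • w') : Qin M w' := by
  have hH := Cfsg.Agent.Lib.Helper17Heis.herm_concrete hF n
  intro u s g hu hg
  have e1 := IsE_conj m⁻¹ hg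
  have hw' : Th n F q m⁻¹ w' = c⁻¹ • w := by
    have h1 : Th n F q m⁻¹ (c • w') = w := by rw [← hmw, Th_inv_apply]
    rw [map_smul] at h1
    rw [← h1, smul_smul, inv_mul_cancel₀ hc, one_smul]
  rw [hw'] at e1
  have e2 := IsE_smul hF c⁻¹ e1
  have h0 : Cfsg.hermForm n F q (Th n F q m⁻¹ u) w = 0 := by
    have h1 : Cfsg.hermForm n F q (Th n F q m⁻¹ u) w
        = Cfsg.hermForm n F q (Th n F q m (Th n F q m⁻¹ u)) (Th n F q m w) := (Th_isom m _ _).symm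
    rw [h1, Th_apply_inv, hmw, hH.smul_right, hu, mul_zero]
  have h5 : m⁻¹ * g * m⁻¹⁻¹ ∈ M := hQ _ _ _ (by rw [hH.smul_left, h0, mul_zero]) e2
  have : g = m * (m⁻¹ * g * m⁻¹⁻¹) * m⁻¹ := by group
  rw [this]
  exact M.mul_mem (M.mul_mem hm h5) (M.inv_mem hm)

theorem crit1 (hF : Fintype.card F = q ^ 2) (hn : 3 ≤ n) (M : Subgroup (GS n F q))
    (v v' : Fin n → F) (hv : Cfsg.hermForm n F q v v = 0) (hv' : Cfsg.hermForm n F q v' v' = 0)
    (hvv : Cfsg.hermForm n F q v v' ≠ 0)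
    (h1 : ∀ (u : Fin n → F) (s : F) (g : GS n F q), Cfsg.hermForm n F q u v = 0 → IsE g v u s → g ∈ M)
    (h2 : ∀ (u : Fin n → F) (s : F) (g : GS n F q), Cfsg.hermForm n F q u v' = 0 → IsE g v' u s → g ∈ M) :
    ∀ (w : Fin n → F) (s : F) (g : GS n F q), Cfsg.hermForm n F q w w = 0 → IsE g w 0 s → g ∈ M := by
  have hH := Cfsg.Agent.Lib.Helper17Heis.herm_concrete hF n
  have hQv : Qin M v := h1
  have hQv' : Qin M v' := h2
  have hv0 : v ≠ 0 := by
    rintro rfl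
    exact hvv (hH.zero_left v')
  have stepA : ∀ z : Fin n → F, Cfsg.hermForm n F q z z = 0 → Cfsg.hermForm n F q z v ≠ 0 →
      Qin M z := by
    intro z hz hzv
    obtain ⟨m, hm, c, hc, hmc⟩ := move hF M v v' z hQv hv hv' hz (hH.swap_ne hvv) hzv
    exact transfer hF M v' z hQv' m hm c hc hmc
  intro w s g hw hg
  by_cases hw0 : w = 0
  · subst hw0
    have : g = 1 := by
      apply Th_ext
      intro x
      rw [hg x, Th_one]
      simp
    rw [this]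
    exact M.one_mem
  · obtain ⟨z, hz, hzv, hzw⟩ := exists_iso_both hH v w hv0 hw0 hv hw
    have hQz := stepA z hz hzv
    obtain ⟨m, hm, c, hc, hmc⟩ := move hF M z v w hQz hz hv hw (hH.swap_ne hzv) (hH.swap_ne hzw)
    exact transfer hF M v w hQv m hm c hc hmc 0 s g (hH.zero_left w) hg

end Cfsg.Agent.Lib.H43UgCrit1
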