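import Cfsg.Agent.Lib.Helper43UgDefs
import Cfsg.Agent.Lib.H43OgGgen
import Cfsg.Agent.Lib.H49SuMonMk
import Cfsg.Agent.Lib.H49SuIso
import Cfsg.Agent.Lib.H43UgEex
import Cfsg.Agent.Lib.H43UgEmul
import Cfsg.Agent.Lib.H43UgEconj
import Cfsg.Agent.Lib.H43UgEtr

set_option autoImplicit false

/-! Project 412, piece `crit2`.  Sketch: notes/helper43/Ug.md -/

namespace Cfsg.Agent.Lib.H43UgCrit2

open Cfsg.Agent.Lib.Helper43Sp (I ng ab gam)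
open Cfsg.Agent.Lib.Helper43Og (Gen)
open Cfsg.Agent.S0780 (Th)
open Cfsg.Agent.Lib.Helper43Ug
open Cfsg.Agent.Lib.H43UgEex
open Cfsg.Agent.Lib.H43UgEmul
open Cfsg.Agent.Lib.H43UgEconj
open Cfsg.Agent.Lib.H43UgEtr

variable {F : Type*} [Field F] [Fintype F] {q n : ℕ}

theorem crit2 (hF : Fintype.card F = q ^ 2) (hn : 3 ≤ n) (h32 : ¬ (n = 3 ∧ q = 2)) (M : Subgroup (GS n F q))
    (h : ∀ (w : Fin n → F) (s : F) (g : GS n F q), Cfsg.hermForm n F q w w = 0 → IsE g w 0 s → g ∈ M) :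
    M = ⊤ := by
  rw [eq_top_iff, ← Cfsg.Agent.S0780.result hF n hn h32, Subgroup.closure_le]
  rintro A ⟨v, c, hv, hA⟩
  apply h v c A hv
  intro x
  have h0 : Cfsg.hermForm n F q x 0 = 0 :=
    Cfsg.Agent.Lib.Helper7GU.h_eq_zero_symm hF _ _ (Cfsg.Agent.Lib.Helper17HermC.h_zero_left n x)
  rw [Cfsg.Agent.S0780.Th_apply, hA, Cfsg.Agent.Lib.Helper17Heis.unitaryTransvection_mulVec, h0,
    zero_smul, sub_zero, zero_add, smul_smul, mul_comm]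

end Cfsg.Agent.Lib.H43UgCrit2
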