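import Cfsg.Agent.Lib.Helper43UgDefs
import Cfsg.Agent.Lib.H43OgGgen
import Cfsg.Agent.Lib.H49SuMonMk
import Cfsg.Agent.Lib.H49SuIso

set_option autoImplicit false

/-! Project 412, piece `dgc`.  Sketch: notes/helper43/Ug.md -/

namespace Cfsg.Agent.Lib.H43UgDgc

open Cfsg.Agent.Lib.Helper43Sp (I ng ab gam)
open Cfsg.Agent.Lib.Helper43Og (Gen)
open Cfsg.Agent.S0780 (Th)
open Cfsg.Agent.Lib.Helper43Ug
open Cfsg.Agent.Lib.Helper17SUPrim

variable {F : Type*} [Field F] [Fintype F] {q n : ℕ}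
variable {k e0 : ℕ} (Φ : UFrame n F q k e0) (M : Subgroup (GS n F q))

theorem gam_inj (k : ℕ) : Function.Injective (gam : I k → I k) := by
  intro a b hab
  apply Cfsg.Agent.Lib.Helper77SpTgam.pos_inj
  have h1 := congrArg Cfsg.Agent.Lib.Helper77SpTgam.pos hab
  rw [Cfsg.Agent.Lib.Helper77SpTgam.pos_gam, Cfsg.Agent.Lib.Helper77SpTgam.pos_gam] at h1
  have h2 : Cfsg.Agent.Lib.Helper77SpTgam.pos a + 1 ≡ Cfsg.Agent.Lib.Helper77SpTgam.pos b + 1 [MOD 2 * k] := h1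
  have h3 := Nat.ModEq.add_right_cancel' 1 h2
  exact Nat.ModEq.eq_of_lt_of_lt h3 (Cfsg.Agent.Lib.Helper77SpTgam.pos_lt a)
    (Cfsg.Agent.Lib.Helper77SpTgam.pos_lt b)

theorem dg_conj (c y : GS n F q) (hc : Cox Φ c) (l : I k → F) (μ : F) (hy : Dg Φ y l μ) :
    ∃ l' : I k → F, Dg Φ (c * y * c⁻¹) l' μ ∧ ∀ a, l' (gam a) = l a := by
  let π : Equiv.Perm (I k) := Equiv.ofBijective gam (Finite.injective_iff_bijective.1 (gam_inj k))
  have hπ : ∀ a, π a = gam a := fun a => rfl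
  have hl' : ∀ a, l (π.symm (gam a)) = l a := by
    intro a
    rw [← hπ a, Equiv.symm_apply_apply]
  refine ⟨fun b => l (π.symm b), ⟨?_, ?_⟩, hl'⟩
  · intro b
    obtain ⟨a, rfl⟩ := π.surjective b
    rw [hπ a]
    show _ = l (π.symm (gam a)) • _
    rw [hl' a]
    obtain ⟨κ, hκ, hca⟩ := hc.hv a
    have h1 : Th n F q c⁻¹ (Φ.v (gam a)) = κ⁻¹ • Φ.v a := by
      have h2 : Φ.v (gam a) = κ⁻¹ • Th n F q c (Φ.v a) := by
        rw [hca, smul_smul, inv_mul_cancel₀ hκ, one_smul]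
      rw [h2, map_smul, Th_inv_apply]
    rw [Th_mul, Th_mul, h1, map_smul, hy.hv, map_smul, map_smul, hca, smul_smul, smul_smul]
    congr 1
    field_simp
  · intro w hw
    obtain ⟨ν, hν, hcw⟩ := hc.h0
    have h1 : Th n F q c⁻¹ w = ν⁻¹ • w := by
      have h2 : w = ν⁻¹ • Th n F q c w := by
        rw [hcw w hw, smul_smul, inv_mul_cancel₀ hν, one_smul]
      conv_lhs => rw [h2]
      rw [map_smul, Th_inv_apply]
    rw [Th_mul, Th_mul, h1, map_smul, hy.h0 w hw, map_smul, map_smul, hcw w hw, smul_smul, smul_smul]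
    congr 1
    field_simp

theorem dg_comm (y y' : GS n F q) (l l' : I k → F) (μ μ' : F) (hy : Dg Φ y l μ) (hy' : Dg Φ y' l' μ') :
    y * y' = y' * y := by
  apply Th_ext
  intro x
  obtain ⟨cf, w, hw, rfl⟩ := Φ.span x
  simp only [Th_mul, map_add, map_sum, map_smul, hy.hv, hy'.hv, hy.h0 w hw, hy'.h0 w hw]
  congr 1
  · apply Finset.sum_congr rfl
    intro a _
    rw [smul_comm (l' a) (l a)]
  · rw [smul_comm]

end Cfsg.Agent.Lib.H43UgDgc
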