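import Cfsg.Agent.Lib.Helper43UgDefs
import Cfsg.Agent.Lib.H43OgGgen
import Cfsg.Agent.Lib.H49SuMonMk
import Cfsg.Agent.Lib.H49SuIso
import Cfsg.Agent.Lib.H43UgEex
import Cfsg.Agent.Lib.H43UgEmul
import Cfsg.Agent.Lib.H43UgEconj
import Cfsg.Agent.Lib.H43UgEtr

set_option autoImplicit false

/-! Project 412, piece `efill`.  Sketch: notes/helper43/Ug.md -/

namespace Cfsg.Agent.Lib.H43UgEfill

open Cfsg.Agent.Lib.Helper43Sp (I ng ab gam)
open Cfsg.Agent.Lib.Helper43Og (Gen)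
open Cfsg.Agent.S0780 (Th)
open Cfsg.Agent.Lib.Helper43Ug
open Cfsg.Agent.Lib.H43UgEex
open Cfsg.Agent.Lib.H43UgEmul
open Cfsg.Agent.Lib.H43UgEconj
open Cfsg.Agent.Lib.H43UgEtr

variable {F : Type*} [Field F] [Fintype F] {q n : ℕ}
variable {k e0 : ℕ} (Φ : UFrame n F q k e0) (M : Subgroup (GS n F q))

theorem ne_ng (a : I k) : a ≠ ng a := by
  rcases a with a | a <;> simp [ng]

theorem ab_ng (a : I k) : ab (ng a) = ab a := by
  rcases a with a | a <;> simp [ng, ab]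

theorem efill (hF : Fintype.card F = q ^ 2) (a b : I k) (hab : ab a ≠ ab b)
    (y : GS n F q) (hy : y ∈ M) (l μ : F) (hl : Th n F q y (Φ.v a) = l • Φ.v a)
    (hμ : Th n F q y (Φ.v b) = μ • Φ.v b) (hg : Gen F (l ^ q * μ)) (g0 : GS n F q) (hg0 : g0 ∈ M) (x : F)
    (hx : x ≠ 0) (e : IsE g0 (Φ.v a) (x • Φ.v b) 0) : XS Φ M a b := by
  have hH := Cfsg.Agent.Lib.Helper17Heis.herm_concrete hF n
  have hva : Cfsg.hermForm n F q (Φ.v a) (Φ.v a) = 0 := by
    rw [Φ.pol, if_neg (ne_ng a)]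
  have hvb : Cfsg.hermForm n F q (Φ.v b) (Φ.v b) = 0 := by
    rw [Φ.pol, if_neg (ne_ng b)]
  have hba : Cfsg.hermForm n F q (Φ.v b) (Φ.v a) = 0 := by
    rw [Φ.pol, if_neg]
    intro h
    apply hab
    rw [h, ab_ng]
  have h1 : ∀ t : F, Cfsg.hermForm n F q (t • Φ.v b) (Φ.v a) = 0 := by
    intro t
    rw [hH.smul_left, hba, mul_zero]
  have h2 : ∀ t s : F, Cfsg.hermForm n F q (t • Φ.v b) (s • Φ.v b) = 0 := by
    intro t s
    rw [hH.smul_left, hH.smul_right, hvb, mul_zero, mul_zero]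
  let S : AddSubgroup F :=
    { carrier := {t | ∃ g ∈ M, IsE g (Φ.v a) ((t * x) • Φ.v b) 0}
      zero_mem' := by
        refine ⟨1, M.one_mem, ?_⟩
        have h0 : IsE (1 : GS n F q) (Φ.v a) 0 0 := by
          intro z
          rw [Cfsg.Agent.Lib.Helper17SUPrim.Th_one, hH.zero_right]
          simp
        rw [zero_mul, zero_smul]
        exact h0
      add_mem' := by
        rintro t₁ t₂ ⟨g₁, hg₁, e₁⟩ ⟨g₂, hg₂, e₂⟩
        refine ⟨g₁ * g₂, M.mul_mem hg₁ hg₂, ?_⟩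
        have := IsE_mul hF hva (h1 _) (h1 _) e₁ e₂
        rw [h2] at this
        have e3 : (t₁ * x) • Φ.v b + (t₂ * x) • Φ.v b = ((t₁ + t₂) * x) • Φ.v b := by
          rw [← add_smul, add_mul]
        rw [e3] at this
        simpa using this
      neg_mem' := by
        rintro t ⟨g, hg, e₁⟩
        refine ⟨g⁻¹, M.inv_mem hg, ?_⟩
        have := IsE_inv hF hva (h1 _) e₁
        rw [h2] at this
        have e3 : -((t * x) • Φ.v b) = ((-t) * x) • Φ.v b := by
          rw [neg_mul, neg_smul]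
        rw [e3] at this
        simpa using this }
  have hall : ∀ t : F, t ∈ S := by
    apply hg S
    · refine ⟨g0, hg0, ?_⟩
      rw [one_mul]
      exact e
    · rintro t ⟨g, hgM, e₁⟩
      refine ⟨y * g * y⁻¹, M.mul_mem (M.mul_mem hy hgM) (M.inv_mem hy), ?_⟩
      have c1 := IsE_conj y e₁
      rw [hl, map_smul, hμ] at c1
      have c2 := IsE_smul hF l c1
      have e3 : l ^ q • (t * x) • μ • Φ.v b = (l ^ q * μ * t * x) • Φ.v b := by
        rw [smul_smul, smul_smul]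
        congr 1
        ring
      rw [e3, mul_zero] at c2
      exact c2
  intro t g eg
  obtain ⟨g', hg', e'⟩ := hall (t / x)
  rw [div_mul_cancel₀ t hx] at e'
  rw [IsE_uniq eg e']
  exact hg'

end Cfsg.Agent.Lib.H43UgEfill
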