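import Cfsg.Agent.Lib.Helper43UgDefs
import Cfsg.Agent.Lib.H43OgGgen
import Cfsg.Agent.Lib.H49SuMonMk
import Cfsg.Agent.Lib.H49SuIso

set_option autoImplicit false

/-! Project 412, piece `fm1`.  Sketch: notes/helper43/Ug.md -/

namespace Cfsg.Agent.Lib.H43UgFm1

open Cfsg.Agent.Lib.Helper43Sp (I ng ab gam)
open Cfsg.Agent.Lib.Helper43Og (Gen)
open Cfsg.Agent.S0780 (Th)
open Cfsg.Agent.Lib.Helper43Ug

variable {F : Type*} [Field F] [Fintype F] {q n : ℕ}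

theorem fm1 (hF : Fintype.card F = q ^ 2) (P : Matrix (Fin n) (Fin n) F) (hP : IsUnit P.det)
    (h : ∀ u v, Cfsg.hermForm n F q (P.mulVec u) (P.mulVec v) = Cfsg.Agent.Lib.H49SuDefs.hermA n F q u v)
    (π : Equiv.Perm (Fin n)) (hπ : ∀ a, π (Fin.rev a) = Fin.rev (π a)) (d : Fin n → F)
    (hd : ∀ a, d a * (d (Fin.rev a)) ^ q = 1)
    (hdet : (((Equiv.Perm.sign π : ℤˣ) : ℤ) : F) * ∏ a, d a = 1) :
    ∃ g : GS n F q, ∀ b, Th n F q g (P.mulVec (Pi.single b 1)) = d b • P.mulVec (Pi.single (π b) 1) := by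
  obtain ⟨s, hs, -⟩ := Cfsg.Agent.Lib.H49SuMonMk.monMk hF π hπ d hd hdet
  have hmem : (Cfsg.Agent.Lib.H49SuIso.cjP P hP).symm s.1 ∈ Cfsg.SU n F q := by
    apply (Cfsg.Agent.Lib.H49SuIso.mem_iff P hP h _).1
    rw [MulEquiv.apply_symm_apply]
    exact s.2
  refine ⟨⟨_, hmem⟩, ?_⟩
  intro b
  rw [Cfsg.Agent.S0780.Th_apply]
  show (P * s.1.1 * P⁻¹).mulVec (P.mulVec (Pi.single b 1)) = _
  have h1 : (s.1.1 : Matrix (Fin n) (Fin n) F).mulVec (Pi.single b 1) = d b • Pi.single (π b) 1 := by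
    ext a
    rw [Matrix.mulVec_single_one]
    have h2 := hs a b
    show (s.1.1 : Matrix (Fin n) (Fin n) F) a b = _
    have h3 : Cfsg.Agent.Lib.H49SuDefs.mt s a b = (s.1.1 : Matrix (Fin n) (Fin n) F) a b := rfl
    rw [← h3, h2, Pi.smul_apply, Pi.single_apply, smul_eq_mul]
    split_ifs <;> simp
  rw [Matrix.mulVec_mulVec]
  have h4 : P * s.1.1 * P⁻¹ * P = P * s.1.1 := by
    rw [Matrix.mul_assoc, Matrix.nonsing_inv_mul P hP, Matrix.mul_one]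
  rw [h4, ← Matrix.mulVec_mulVec, h1, Matrix.mulVec_smul]

end Cfsg.Agent.Lib.H43UgFm1
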