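import Cfsg.Agent.Lib.Helper43SpDefs

set_option autoImplicit false
set_option linter.unusedSectionVars false

/-! Project 412, piece `fm2`.  Sketch: notes/helper43/Ug.md -/

namespace Cfsg.Agent.Lib.H43UgFm2

open Cfsg.Agent.Lib.Helper43Sp (I ng ab gam)

variable {F : Type*} [Field F] [Fintype F] {q n : ℕ}

theorem fm2 {k : ℕ} (em : I k → Fin n) (hinj : Function.Injective em) (hrev : ∀ a, em (ng a) = Fin.rev (em a))
    (e0 : ℕ) (hcard : (Finset.univ.filter (fun m : Fin n => m ∉ Set.range em)).card = e0)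
    (hmid : ∀ m : Fin n, m ∉ Set.range em → Fin.rev m = m)
    (π : Equiv.Perm (I k)) (d : I k → F) (μ : F) (hπ : ∀ a, π (ng a) = ng (π a))
    (hd : ∀ a, d a * (d (ng a)) ^ q = 1) (hμ : μ * μ ^ q = 1)
    (hdet : (((Equiv.Perm.sign π : ℤˣ) : ℤ) : F) * (∏ a, d a) * μ ^ e0 = 1) :
    ∃ (π' : Equiv.Perm (Fin n)) (d' : Fin n → F), (∀ a, π' (Fin.rev a) = Fin.rev (π' a)) ∧
      (∀ a, d' a * (d' (Fin.rev a)) ^ q = 1) ∧ (((Equiv.Perm.sign π' : ℤˣ) : ℤ) : F) * ∏ a, d' a = 1 ∧
      (∀ a, π' (em a) = em (π a)) ∧ (∀ a, d' (em a) = d a) ∧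
      ∀ m, m ∉ Set.range em → π' m = m ∧ d' m = μ := by
  classical
  set f : I k ≃ {m : Fin n // m ∈ Set.range em} := Equiv.ofInjective em hinj with hf
  set π' : Equiv.Perm (Fin n) := π.extendDomain f with hπ'
  set d' : Fin n → F := fun m => if h : m ∈ Set.range em then d h.choose else μ with hd'
  have h1 : ∀ a, π' (em a) = em (π a) := by
    intro a
    have := Equiv.Perm.extendDomain_apply_image π f a
    simpa [hf, Equiv.ofInjective_apply] using this
  have h2 : ∀ m, m ∉ Set.range em → π' m = m := by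
    intro m hm
    exact Equiv.Perm.extendDomain_apply_not_subtype π f hm
  have h3 : ∀ a, d' (em a) = d a := by
    intro a
    have hm : em a ∈ Set.range em := ⟨a, rfl⟩
    simp only [hd']
    rw [dif_pos hm]
    exact congrArg d (hinj hm.choose_spec)
  have h4 : ∀ m, m ∉ Set.range em → d' m = μ := by
    intro m hm
    simp only [hd']
    rw [dif_neg hm]
  refine ⟨π', d', ?_, ?_, ?_, h1, h3, fun m hm => ⟨h2 m hm, h4 m hm⟩⟩
  · intro m
    by_cases hm : m ∈ Set.range em
    · obtain ⟨a, rfl⟩ := hm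
      rw [← hrev, h1, h1, hπ, hrev]
    · rw [hmid m hm, h2 m hm, hmid m hm]
  · intro m
    by_cases hm : m ∈ Set.range em
    · obtain ⟨a, rfl⟩ := hm
      rw [← hrev, h3, h3]; exact hd a
    · rw [hmid m hm, h4 m hm]; exact hμ
  · have hs : Equiv.Perm.sign π' = Equiv.Perm.sign π := Equiv.Perm.sign_extendDomain π f
    have hp : ∏ m, d' m = (∏ a, d a) * μ ^ e0 := by
      rw [← Finset.prod_filter_mul_prod_filter_not Finset.univ (fun m : Fin n => m ∈ Set.range em)]
      congr 1
      · have himg : Finset.univ.filter (fun m : Fin n => m ∈ Set.range em)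
            = Finset.univ.image em := by
          ext m; simp
        rw [himg, Finset.prod_image (fun a _ b _ hab => hinj hab)]
        exact Finset.prod_congr rfl (fun a _ => h3 a)
      · rw [Finset.prod_congr rfl (fun m hm => h4 m (Finset.mem_filter.1 hm).2), Finset.prod_const,
          hcard]
    rw [hs, hp, ← mul_assoc]; exact hdet

end Cfsg.Agent.Lib.H43UgFm2
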