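import Cfsg.Agent.Lib.Helper43UgDefs
import Cfsg.Agent.Lib.H43OgGgen
import Cfsg.Agent.Lib.H49SuMonMk
import Cfsg.Agent.Lib.H49SuIso
import Cfsg.Agent.Lib.H49SuIsoP
import Cfsg.Agent.Lib.H43UgFm1
import Cfsg.Agent.Lib.H43UgFm2

set_option autoImplicit false

/-! Project 412, piece `fgen`.  Sketch: notes/helper43/Ug.md -/

namespace Cfsg.Agent.Lib.H43UgFgen

open Cfsg.Agent.Lib.Helper43Sp (I ng ab gam)
open Cfsg.Agent.Lib.Helper43Og (Gen)
open Cfsg.Agent.S0780 (Th)
open Cfsg.Agent.Lib.Helper43Ug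
open Cfsg.Agent.Lib.H43UgFm1
open Cfsg.Agent.Lib.H43UgFm2

variable {F : Type*} [Field F] [Fintype F] {q n : ℕ}

omit [Fintype F] in
theorem hermA_single (hq : q ≠ 0) (a b : Fin n) :
    Cfsg.Agent.Lib.H49SuDefs.hermA n F q (Pi.single a 1) (Pi.single b 1) =
      if b = Fin.rev a then 1 else 0 := by
  unfold Cfsg.Agent.Lib.H49SuDefs.hermA
  rw [Finset.sum_eq_single a]
  · rw [Pi.single_eq_same, one_mul]
    by_cases h : b = Fin.rev a
    · rw [if_pos h, h, Pi.single_eq_same, one_pow]
    · rw [if_neg h, Pi.single_eq_of_ne (fun h' => h h'.symm), zero_pow hq]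
  · intro i _ hi
    rw [Pi.single_eq_of_ne hi, zero_mul]
  · intro h
    exact absurd (Finset.mem_univ _) h

omit [Fintype F] in
theorem herm_add_left (x y v : Fin n → F) :
    Cfsg.hermForm n F q (x + y) v = Cfsg.hermForm n F q x v + Cfsg.hermForm n F q y v := by
  unfold Cfsg.hermForm
  rw [← Finset.sum_add_distrib]
  refine Finset.sum_congr rfl fun i _ => ?_
  rw [Pi.add_apply, add_mul]

omit [Fintype F] in
theorem herm_smul_left (c : F) (x v : Fin n → F) :
    Cfsg.hermForm n F q (c • x) v = c * Cfsg.hermForm n F q x v := by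
  unfold Cfsg.hermForm
  rw [Finset.mul_sum]
  refine Finset.sum_congr rfl fun i _ => ?_
  rw [Pi.smul_apply, smul_eq_mul, mul_assoc]

omit [Fintype F] in
theorem herm_zero_left (v : Fin n → F) : Cfsg.hermForm n F q 0 v = 0 := by
  unfold Cfsg.hermForm
  simp

omit [Fintype F] in
theorem mulVec_expand (P : Matrix (Fin n) (Fin n) F) (y : Fin n → F) :
    P.mulVec y = ∑ m, y m • P.mulVec (Pi.single m 1) := by
  have h1 : y = ∑ m, y m • (Pi.single m 1 : Fin n → F) := by
    funext i
    simp [Finset.sum_apply, Pi.single_apply]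
  conv_lhs => rw [h1]
  rw [Matrix.mulVec_sum]
  refine Finset.sum_congr rfl fun m _ => ?_
  rw [Matrix.mulVec_smul]

theorem frame_gen (hF : Fintype.card F = q ^ 2) {k : ℕ} (em : I k → Fin n) (hinj : Function.Injective em)
    (hrev : ∀ a, em (ng a) = Fin.rev (em a)) (e0 : ℕ)
    (hcard : (Finset.univ.filter (fun m : Fin n => m ∉ Set.range em)).card = e0)
    (hmid : ∀ m : Fin n, m ∉ Set.range em → Fin.rev m = m) :
    ∃ (Φ : UFrame n F q k e0) (P : Matrix (Fin n) (Fin n) F),
      (∀ u v, Cfsg.hermForm n F q (P.mulVec u) (P.mulVec v) = Cfsg.Agent.Lib.H49SuDefs.hermA n F q u v) ∧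
      Φ.V0 = Submodule.span F {x | ∃ m : Fin n, m ∉ Set.range em ∧ x = P.mulVec (Pi.single m 1)} := by
  classical
  obtain ⟨P, hP, h⟩ := Cfsg.Agent.Lib.H49SuIsoP.exists_P hF n
  have hq : q ≠ 0 := by
    rintro rfl
    have : 1 < Fintype.card F := Fintype.one_lt_card
    rw [hF] at this
    norm_num at this
  refine ⟨{ v := fun a => P.mulVec (Pi.single (em a) 1)
            V0 := Submodule.span F {x | ∃ m : Fin n, m ∉ Set.range em ∧ x = P.mulVec (Pi.single m 1)}
            pol := ?_
            perp := ?_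
            span := ?_
            mon := ?_ }, P, h, rfl⟩
  · intro a b
    rw [h, hermA_single hq, ← hrev]
    by_cases hb : b = ng a
    · rw [if_pos hb, if_pos (by rw [hb])]
    · rw [if_neg hb, if_neg (fun h' => hb (hinj h'))]
  · intro a w hw
    induction hw using Submodule.span_induction with
    | mem x hx =>
      obtain ⟨m, hm, rfl⟩ := hx
      rw [h, hermA_single hq, if_neg]
      intro h'
      rw [hmid m hm] at h'
      exact hm ⟨a, h'⟩
    | zero => exact herm_zero_left _
    | add x y _ _ hx hy => rw [herm_add_left, hx, hy, add_zero]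
    | smul c x _ hx => rw [herm_smul_left, hx, mul_zero]
  · intro x
    have hx : x = P.mulVec (P⁻¹.mulVec x) := by
      rw [Matrix.mulVec_mulVec, Matrix.mul_nonsing_inv _ hP, Matrix.one_mulVec]
    set y := P⁻¹.mulVec x with hy
    refine ⟨fun a => y (em a),
      ∑ m ∈ Finset.univ.filter (fun m : Fin n => m ∉ Set.range em), y m • P.mulVec (Pi.single m 1),
      ?_, ?_⟩
    · refine Submodule.sum_mem _ fun m hm => Submodule.smul_mem _ _ (Submodule.subset_span ?_)
      exact ⟨m, (Finset.mem_filter.1 hm).2, rfl⟩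
    · rw [hx, mulVec_expand P y,
        ← Finset.sum_filter_add_sum_filter_not Finset.univ (fun m : Fin n => m ∈ Set.range em)]
      congr 1
      have himg : Finset.univ.filter (fun m : Fin n => m ∈ Set.range em) = Finset.univ.image em := by
        ext m
        simp
      rw [himg, Finset.sum_image (fun a _ b _ hab => hinj hab)]
  · intro π d μ hπ hd hμ hdet
    obtain ⟨π', d', h1, h2, h3, h4, h5, h6⟩ := fm2 em hinj hrev e0 hcard hmid π d μ hπ hd hμ hdet
    obtain ⟨g, hg⟩ := fm1 hF P hP h π' h1 d' h2 h3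
    refine ⟨g, fun a => ?_, fun w hw => ?_⟩
    · rw [hg, h4, h5]
    · induction hw using Submodule.span_induction with
      | mem x hx =>
        obtain ⟨m, hm, rfl⟩ := hx
        rw [hg, (h6 m hm).1, (h6 m hm).2]
      | zero => rw [map_zero, smul_zero]
      | add x y _ _ hx hy => rw [map_add, hx, hy, smul_add]
      | smul c x _ hx => rw [map_smul, hx, smul_comm]

end Cfsg.Agent.Lib.H43UgFgen
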