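import Cfsg.Agent.Lib.Helper43UgDefs
import Cfsg.Agent.Lib.H43OgGgen
import Cfsg.Agent.Lib.H49SuMonMk
import Cfsg.Agent.Lib.H49SuIso
import Cfsg.Agent.Lib.H43UgFgen

set_option autoImplicit false

/-! Project 412, piece `feven`.  Sketch: notes/helper43/Ug.md -/

namespace Cfsg.Agent.Lib.H43UgFeven

open Cfsg.Agent.Lib.Helper43Sp (I ng ab gam)
open Cfsg.Agent.Lib.Helper43Og (Gen)
open Cfsg.Agent.S0780 (Th)
open Cfsg.Agent.Lib.Helper43Ug
open Cfsg.Agent.Lib.H43UgFgen

variable {F : Type*} [Field F] [Fintype F] {q n : ℕ}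

/-- the embedding of the signed indices -/
def emE (k : ℕ) (hn : n = 2 * k) : I k → Fin n
  | Sum.inl i => ⟨i.val, by have := i.2; omega⟩
  | Sum.inr i => ⟨n - 1 - i.val, by have := i.2; omega⟩

theorem emE_surj (k : ℕ) (hn : n = 2 * k) (m : Fin n) : m ∈ Set.range (emE k hn) := by
  by_cases h : m.val < k
  · exact ⟨Sum.inl ⟨m.val, h⟩, Fin.ext rfl⟩
  · refine ⟨Sum.inr ⟨n - 1 - m.val, by have := m.2; omega⟩, Fin.ext ?_⟩
    show n - 1 - (n - 1 - m.val) = m.val
    have := m.2
    omega

theorem frame_even (hF : Fintype.card F = q ^ 2) (k : ℕ) (hn : n = 2 * k) :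
    ∃ Φ : UFrame n F q k 0, Φ.V0 = ⊥ := by
  have hinj : Function.Injective (emE k hn) := by
    rintro (i | i) (j | j) h
    · have h1 : i.val = j.val := by
        have h0 := congrArg Fin.val h
        exact h0
      rw [Fin.ext h1]
    · have h1 : i.val = n - 1 - j.val := by
        have h0 := congrArg Fin.val h
        exact h0
      have := i.2; have := j.2
      omega
    · have h1 : n - 1 - i.val = j.val := by
        have h0 := congrArg Fin.val h
        exact h0
      have := i.2; have := j.2
      omega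
    · have h1 : n - 1 - i.val = n - 1 - j.val := by
        have h0 := congrArg Fin.val h
        exact h0
      have := i.2; have := j.2
      have h2 : i.val = j.val := by omega
      rw [Fin.ext h2]
  have hrev : ∀ a, emE k hn (ng a) = Fin.rev (emE k hn a) := by
    rintro (i | i)
    · apply Fin.ext
      rw [Fin.val_rev]
      show n - 1 - i.val = n - (i.val + 1)
      omega
    · apply Fin.ext
      rw [Fin.val_rev]
      show i.val = n - (n - 1 - i.val + 1)
      have := i.2
      omega
  obtain ⟨Φ, P, -, hV⟩ := frame_gen (F := F) (q := q) hF (emE k hn) hinj hrev 0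
    (by
      rw [Finset.card_eq_zero, Finset.filter_eq_empty_iff]
      intro m _ hm
      exact hm (emE_surj k hn m))
    (fun m hm => absurd (emE_surj k hn m) hm)
  refine ⟨Φ, ?_⟩
  rw [hV, Submodule.span_eq_bot]
  rintro x ⟨m, hm, -⟩
  exact absurd (emE_surj k hn m) hm

end Cfsg.Agent.Lib.H43UgFeven
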