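import Cfsg.Agent.Lib.Helper43UgDefs
import Cfsg.Agent.Lib.H43OgGgen
import Cfsg.Agent.Lib.H49SuMonMk
import Cfsg.Agent.Lib.H49SuIso
import Cfsg.Agent.Lib.H43UgFgen

set_option autoImplicit false

/-! Project 412, piece `fodd`.  Sketch: notes/helper43/Ug.md -/

namespace Cfsg.Agent.Lib.H43UgFodd

open Cfsg.Agent.Lib.Helper43Sp (I ng ab gam)
open Cfsg.Agent.Lib.Helper43Og (Gen)
open Cfsg.Agent.S0780 (Th)
open Cfsg.Agent.Lib.Helper43Ug
open Cfsg.Agent.Lib.H43UgFgen

variable {F : Type*} [Field F] [Fintype F] {q n : ℕ}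

theorem frame_odd (hF : Fintype.card F = q ^ 2) (k : ℕ) (hn : n = 2 * k + 1) :
    ∃ (Φ : UFrame n F q k 1) (w0 : Fin n → F), Φ.V0 = Submodule.span F {w0} ∧
      Cfsg.hermForm n F q w0 w0 = 1 := by
  subst hn
  obtain ⟨em, hem⟩ : ∃ em : I k → Fin (2 * k + 1), em = Sum.elim (fun i : Fin k => (⟨i.val, by omega⟩ : Fin (2 * k + 1)))
      (fun i : Fin k => Fin.rev (⟨i.val, by omega⟩ : Fin (2 * k + 1))) := ⟨_, rfl⟩
  have hval_l : ∀ i : Fin k, (em (Sum.inl i)).val = i := fun i => by rw [hem]; rfl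
  have hval_r : ∀ i : Fin k, (em (Sum.inr i)).val = 2 * k - i := by
    intro i
    rw [hem]
    simp only [Sum.elim_inr, Fin.val_rev]
    omega
  have hinj : Function.Injective em := by
    rintro (i | i) (j | j) h
    · have h1 := congrArg Fin.val h
      rw [hval_l, hval_l] at h1
      exact congrArg _ (Fin.ext h1)
    · exfalso
      have h1 := congrArg Fin.val h
      rw [hval_l, hval_r] at h1
      omega
    · exfalso
      have h1 := congrArg Fin.val h
      rw [hval_l, hval_r] at h1
      omega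
    · have h1 := congrArg Fin.val h
      rw [hval_r, hval_r] at h1
      exact congrArg _ (Fin.ext (by omega))
  have hrev : ∀ a, em (ng a) = Fin.rev (em a) := by
    rintro (i | i)
    · rw [hem]; rfl
    · apply Fin.ext
      rw [Fin.val_rev, hval_r]
      show (em (Sum.inl i)).val = _
      rw [hval_l]
      omega
  have hrange : ∀ m : Fin (2 * k + 1), m ∉ Set.range em ↔ m = ⟨k, by omega⟩ := by
    intro m
    constructor
    · intro h
      by_contra hne
      apply h
      rcases lt_trichotomy m.val k with hlt | heq | hgt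
      · exact ⟨Sum.inl ⟨m, hlt⟩, Fin.ext (hval_l _)⟩
      · exact absurd (Fin.ext heq) hne
      · refine ⟨Sum.inr ⟨2 * k - m, by omega⟩, Fin.ext ?_⟩
        rw [hval_r]
        show 2 * k - (2 * k - m.val) = m.val
        omega
    · rintro rfl ⟨(i | i), h⟩
      · have h1 := congrArg Fin.val h
        rw [hval_l] at h1
        have h2 : (i : ℕ) = k := h1
        omega
      · have h1 := congrArg Fin.val h
        rw [hval_r] at h1
        have h2 : 2 * k - (i : ℕ) = k := h1
        omega
  have hcard : (Finset.univ.filter (fun m : Fin (2 * k + 1) => m ∉ Set.range em)).card = 1 := by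
    have h1 : Finset.univ.filter (fun m : Fin (2 * k + 1) => m ∉ Set.range em)
        = {⟨k, by omega⟩} := by
      ext m
      rw [Finset.mem_filter, Finset.mem_singleton, hrange]
      simp
    rw [h1, Finset.card_singleton]
  have hrk : Fin.rev (⟨k, by omega⟩ : Fin (2 * k + 1)) = ⟨k, by omega⟩ := by
    apply Fin.ext
    rw [Fin.val_rev]
    show 2 * k + 1 - (k + 1) = k
    omega
  have hmid : ∀ m : Fin (2 * k + 1), m ∉ Set.range em → Fin.rev m = m := by
    intro m hm
    rw [(hrange m).1 hm, hrk]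
  obtain ⟨Φ, P, hP, hV0⟩ := frame_gen hF em hinj hrev 1 hcard hmid
  refine ⟨Φ, P.mulVec (Pi.single ⟨k, by omega⟩ 1), ?_, ?_⟩
  · rw [hV0]
    congr 1
    ext x
    simp only [Set.mem_ofPred_eq, Set.mem_singleton_iff]
    constructor
    · rintro ⟨m, hm, rfl⟩
      rw [(hrange m).1 hm]
    · intro h
      exact ⟨_, (hrange _).2 rfl, h⟩
  · rw [hP]
    unfold Cfsg.Agent.Lib.H49SuDefs.hermA
    rw [Finset.sum_eq_single (⟨k, by omega⟩ : Fin (2 * k + 1))]
    · rw [hrk]; simp
    · intro j _ hj
      rw [Pi.single_eq_of_ne hj, zero_mul]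
    · intro h; exact absurd (Finset.mem_univ _) h

end Cfsg.Agent.Lib.H43UgFodd
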