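import Cfsg.Agent.Lib.Helper43UgDefs
import Cfsg.Agent.Lib.H43OgGgen
import Cfsg.Agent.Lib.H49SuMonMk
import Cfsg.Agent.Lib.H49SuIso

set_option autoImplicit false

/-! Project 412, piece `gen3`.  Sketch: notes/helper43/Ug.md -/

namespace Cfsg.Agent.Lib.H43UgGen3

open Cfsg.Agent.Lib.Helper43Sp (I ng ab gam)
open Cfsg.Agent.Lib.Helper43Og (Gen)
open Cfsg.Agent.S0780 (Th)
open Cfsg.Agent.Lib.Helper43Ug

variable {F : Type*} [Field F] [Fintype F] {q n : ℕ}

/-- the stabiliser subfield of an additive subgroup -/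
noncomputable def stabK (S : AddSubgroup F) : Subfield F where
  carrier := {x | ∀ s ∈ S, x * s ∈ S}
  mul_mem' := by
    intro a b ha hb s hs
    rw [mul_assoc]
    exact ha _ (hb _ hs)
  one_mem' := by
    intro s hs
    simpa using hs
  add_mem' := by
    intro a b ha hb s hs
    rw [add_mul]
    exact S.add_mem (ha _ hs) (hb _ hs)
  zero_mem' := by
    intro s hs
    simpa using S.zero_mem
  neg_mem' := by
    intro a ha s hs
    rw [neg_mul]
    exact S.neg_mem (ha _ hs)
  inv_mem' := by
    intro a ha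
    by_cases h0 : a = 0
    · subst h0
      intro s hs
      simpa using S.zero_mem
    · have hpow : ∀ j : ℕ, ∀ s ∈ S, a ^ j * s ∈ S := by
        intro j
        induction j with
        | zero => intro s hs; simpa using hs
        | succ j ih =>
          intro s hs
          rw [pow_succ, mul_assoc]
          exact ih _ (ha _ hs)
      have h1 : a ^ (Fintype.card F - 1) = 1 := FiniteField.pow_card_sub_one_eq_one a h0
      have h2 : 2 ≤ Fintype.card F := Fintype.one_lt_card
      have h3 : a⁻¹ = a ^ (Fintype.card F - 2) := by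
        have : a ^ (Fintype.card F - 2) * a = 1 := by
          rw [← pow_succ, ← h1]
          congr 1
          omega
        exact (eq_inv_of_mul_eq_one_left this).symm
      rw [h3]
      exact hpow _

theorem arith1 (q a : ℕ) (hq : 3 ≤ q) (h : (2 * q - 1) * a = q ^ 2 - 1) : False := by
  obtain ⟨m, rfl⟩ : ∃ m, q = m + 3 := ⟨q - 3, by omega⟩
  have e1 : 2 * (m + 3) - 1 = 2 * m + 5 := by omega
  have e2 : (m + 3) ^ 2 - 1 = m ^ 2 + 6 * m + 8 := by
    have : (m + 3) ^ 2 = m ^ 2 + 6 * m + 8 + 1 := by ring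
    omega
  rw [e1, e2] at h
  -- (2m+5) a = m^2+6m+8 ; 4*(…) = (2m+5)(2m+7) - 3
  have h4 : (2 * m + 5) * (4 * a) + 3 = (2 * m + 5) * (2 * m + 7) := by nlinarith
  have hd : (2 * m + 5) ∣ 3 := by
    have h5 : (2 * m + 5) ∣ (2 * m + 5) * (4 * a) + 3 := by
      rw [h4]; exact Dvd.intro _ rfl
    exact (Nat.dvd_add_right (Dvd.intro _ rfl)).1 h5
  have := Nat.le_of_dvd (by norm_num) hd
  omega

theorem gen3 (hF : Fintype.card F = q ^ 2) (hq : 3 ≤ q) :
    ∃ z : F, z ≠ 0 ∧ Gen F (z ^ q * (z ^ q * z⁻¹)) ∧ z ^ q * (z ^ q * z⁻¹) ≠ 1 ∧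
      ((z ^ q)⁻¹) ^ q * (z ^ q * z⁻¹) ≠ 1 := by
  classical
  obtain ⟨g, hg⟩ := IsCyclic.exists_generator (α := Fˣ)
  have hord : orderOf g = q ^ 2 - 1 := by
    rw [orderOf_eq_card_of_forall_mem_zpowers hg, Nat.card_eq_fintype_card, Fintype.card_units, hF]
  have hq2 : q * q = q ^ 2 := by ring
  have hqq : 9 ≤ q ^ 2 := by nlinarith
  have hl : ((g : F)) ^ q * ((g : F) ^ q * (g : F)⁻¹) = ((g ^ (2 * q - 1) : Fˣ) : F) := by
    have : (g : F) ≠ 0 := g.ne_zero
    have e : 2 * q = (2 * q - 1) + 1 := by omega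
    have : (g : F) ^ q * (g : F) ^ q = (g : F) ^ (2 * q - 1) * (g : F) := by
      rw [← pow_add, ← pow_succ]
      congr 1
      omega
    rw [← mul_assoc, this]
    push_cast
    field_simp
  have hne1 : ∀ j : ℕ, 0 < j → j < q ^ 2 - 1 → ((g ^ j : Fˣ) : F) ≠ 1 := by
    intro j h0 h1 h
    have h2 : g ^ j = 1 := by
      apply Units.ext
      simpa using h
    have h3 := orderOf_dvd_of_pow_eq_one h2
    rw [hord] at h3
    have := Nat.le_of_dvd h0 h3
    omega
  refine ⟨g, g.ne_zero, ?_, ?_, ?_⟩
  · rw [hl]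
    intro S h1 hS t
    set K := stabK S with hK
    have hlK : ((g ^ (2 * q - 1) : Fˣ) : F) ∈ K := hS
    have hKS : ∀ x ∈ K, x ∈ S := by
      intro x hx
      have := hx 1 h1
      simpa using this
    have hcard : Fintype.card F = Fintype.card K ^ Module.finrank K F := Module.card_eq_pow_finrank
    set r := Fintype.card K with hr
    set e := Module.finrank K F with he
    have hr2 : 2 ≤ r := Fintype.one_lt_card
    rcases Nat.lt_or_ge e 2 with h | h
    · interval_cases e
      · rw [hF] at hcard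
        simp at hcard
        omega
      · rw [pow_one] at hcard
        have hsurj : Function.Surjective (Subtype.val : K → F) := by
          have := (Fintype.bijective_iff_injective_and_card (Subtype.val : K → F)).2
            ⟨Subtype.val_injective, hcard.symm⟩
          exact this.2
        obtain ⟨x, rfl⟩ := hsurj t
        exact hKS _ x.2
    · exfalso
      have hrq : r ≤ q := by
        have h1 : r ^ 2 ≤ r ^ e := Nat.pow_le_pow_right (by omega) h
        rw [← hcard, hF] at h1
        exact (Nat.pow_le_pow_iff_left (by norm_num)).1 h1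
      have hp : (⟨((g ^ (2 * q - 1) : Fˣ) : F), hlK⟩ : K) ^ (r - 1) = 1 := by
        apply FiniteField.pow_card_sub_one_eq_one
        intro h0
        have := congrArg Subtype.val h0
        exact (g ^ (2 * q - 1)).ne_zero this
      have hp2 : (g ^ (2 * q - 1)) ^ (r - 1) = 1 := by
        apply Units.ext
        have := congrArg Subtype.val hp
        simpa using this
      rw [← pow_mul] at hp2
      have hd := orderOf_dvd_of_pow_eq_one hp2
      rw [hord] at hd
      obtain ⟨c, hc⟩ := hd
      have hpos : 0 < (2 * q - 1) * (r - 1) := Nat.mul_pos (by omega) (by omega)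
      have hlt : (2 * q - 1) * (r - 1) < (q ^ 2 - 1) * 2 := by
        have h1 : (2 * q - 1) * (r - 1) ≤ (2 * q - 1) * (q - 1) := Nat.mul_le_mul_left _ (by omega)
        obtain ⟨m, rfl⟩ : ∃ m, q = m + 3 := ⟨q - 3, by omega⟩
        have e1 : 2 * (m + 3) - 1 = 2 * m + 5 := by omega
        have e2 : (m + 3) ^ 2 - 1 = m ^ 2 + 6 * m + 8 := by
          have : (m + 3) ^ 2 = m ^ 2 + 6 * m + 8 + 1 := by ring
          omega
        have e3 : m + 3 - 1 = m + 2 := by omega
        rw [e1, e3] at h1
        rw [e1, e2]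
        nlinarith
      have hc1 : c = 1 := by
        rcases Nat.lt_or_ge c 2 with h | h
        · interval_cases c
          · omega
          · rfl
        · have : (q ^ 2 - 1) * 2 ≤ (q ^ 2 - 1) * c := Nat.mul_le_mul_left _ h
          omega
      subst hc1
      exact arith1 q (r - 1) hq (by rw [hc, mul_one])
  · rw [hl]
    apply hne1
    · omega
    · have : 2 * q < q ^ 2 := by nlinarith
      omega
  · have h1 : ((g : F)) ^ (q ^ 2) = g := by
      rw [← hF]; exact FiniteField.pow_card _
    have h2 : (((g : F) ^ q)⁻¹) ^ q * ((g : F) ^ q * (g : F)⁻¹) = ((g ^ (q - 2) : Fˣ) : F) := by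
      have h0 : (g : F) ≠ 0 := g.ne_zero
      rw [inv_pow, ← pow_mul, hq2, h1]
      have : (g : F) ^ q = (g : F) ^ (q - 2) * (g : F) * g := by
        rw [← pow_succ, ← pow_succ]
        congr 1
        omega
      rw [this]
      push_cast
      field_simp
    rw [h2]
    apply hne1
    · omega
    · have : q < q ^ 2 := by nlinarith
      omega

end Cfsg.Agent.Lib.H43UgGen3
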