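import Cfsg.Agent.Lib.Helper43UgDefs
import Cfsg.Agent.Lib.H43OgGgen
import Cfsg.Agent.Lib.H49SuMonMk
import Cfsg.Agent.Lib.H49SuIso
import Cfsg.Agent.Lib.H43UgEex
import Cfsg.Agent.Lib.H43UgEmul
import Cfsg.Agent.Lib.H43UgEconj
import Cfsg.Agent.Lib.H43UgEtr
import Cfsg.Agent.Lib.Helper17Heis

set_option autoImplicit false

/-! Project 412, piece `ocomm`.  Sketch: notes/helper43/Ug.md -/

namespace Cfsg.Agent.Lib.H43UgOcomm

open Cfsg.Agent.Lib.Helper43Sp (I ng ab gam)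
open Cfsg.Agent.Lib.Helper43Og (Gen)
open Cfsg.Agent.S0780 (Th)
open Cfsg.Agent.Lib.Helper43Ug
open Cfsg.Agent.Lib.H43UgEex
open Cfsg.Agent.Lib.H43UgEmul
open Cfsg.Agent.Lib.H43UgEconj
open Cfsg.Agent.Lib.H43UgEtr

variable {F : Type*} [Field F] [Fintype F] {q n : ℕ}
variable {k e0 : ℕ} (Φ : UFrame n F q k e0) (M : Subgroup (GS n F q))

theorem ocomm (hF : Fintype.card F = q ^ 2) (w0 : Fin n → F) (h0 : w0 ∈ Φ.V0)
    (hw : Cfsg.hermForm n F q w0 w0 = 1) (a b : I k) (hab : ab a ≠ ab b) (ha : HS Φ M a) (hb : HS Φ M b) :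
    XS Φ M a b := by
  intro t g hg
  have h := Cfsg.Agent.Lib.Helper17Heis.herm_concrete hF n
  have hσ : ∀ x : F, Cfsg.Agent.Lib.Helper17HermC.sig hF x = x ^ q :=
    Cfsg.Agent.Lib.Helper17HermC.sig_apply hF
  have hne : ∀ c : I k, c ≠ ng c := by
    intro c
    cases c <;> simp [ng]
  have ab_ng : ∀ c : I k, ab (ng c) = ab c := fun c => by cases c <;> rfl
  have haa : Cfsg.hermForm n F q (Φ.v a) (Φ.v a) = 0 := by rw [Φ.pol, if_neg (hne a)]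
  have hbb : Cfsg.hermForm n F q (Φ.v b) (Φ.v b) = 0 := by rw [Φ.pol, if_neg (hne b)]
  have hab' : Cfsg.hermForm n F q (Φ.v a) (Φ.v b) = 0 := by
    rw [Φ.pol, if_neg]
    intro e
    apply hab
    rw [e, ab_ng]
  have hba' : Cfsg.hermForm n F q (Φ.v b) (Φ.v a) = 0 := h.swap_zero hab'
  have hwa : Cfsg.hermForm n F q w0 (Φ.v a) = 0 := Φ.perp a w0 h0
  have hwb : Cfsg.hermForm n F q w0 (Φ.v b) = 0 := Φ.perp b w0 h0
  have haw : Cfsg.hermForm n F q (Φ.v a) w0 = 0 := h.swap_zero hwa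
  have hbw : Cfsg.hermForm n F q (Φ.v b) w0 = 0 := h.swap_zero hwb
  obtain ⟨s, hs⟩ := h.trace_surj (-1) (by simp)
  obtain ⟨g1, e1⟩ := exists_E hF (Φ.v b) w0 s hbb hwb (by rw [hw, ← hσ, hs]; ring)
  have hg1 : g1 ∈ M := hb w0 h0 s g1 e1
  have hww : Cfsg.hermForm n F q ((-t) • w0) ((-t) • w0)
      = (-t) * Cfsg.Agent.Lib.Helper17HermC.sig hF (-t) := by
    rw [h.smul_left, h.smul_right, hw, mul_one]
  obtain ⟨s', hs'⟩ := h.trace_surj (-((-t) * Cfsg.Agent.Lib.Helper17HermC.sig hF (-t))) (by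
    rw [map_neg, map_mul, h.invol, mul_comm])
  have hta : Cfsg.hermForm n F q ((-t) • w0) (Φ.v a) = 0 := by rw [h.smul_left, hwa, mul_zero]
  obtain ⟨g2, e2⟩ := exists_E hF (Φ.v a) ((-t) • w0) s' haa hta (by rw [hww, ← hσ, hs']; ring)
  have hg2 : g2 ∈ M := ha _ (Φ.V0.smul_mem _ h0) s' g2 e2
  have e3 := IsE_conj g1 e2
  have t1 : Th n F q g1 (Φ.v a) = Φ.v a := by
    rw [e1 (Φ.v a), hab', haw]
    simp
  have t2 : Th n F q g1 ((-t) • w0) = (-t) • w0 - (-t) • Φ.v b := by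
    rw [e1, h.smul_left, h.smul_left, hwb, hw]
    simp
  rw [t1, t2] at e3
  have e4 := IsE_inv hF haa hta e2
  have h₁ : Cfsg.hermForm n F q ((-t) • w0 - (-t) • Φ.v b) (Φ.v a) = 0 := by
    rw [h.sub_left, hta, h.smul_left, hba', mul_zero, sub_zero]
  have h₂ : Cfsg.hermForm n F q (-((-t) • w0)) (Φ.v a) = 0 := by
    rw [h.neg_left, hta, neg_zero]
  have e5 := IsE_mul hF haa h₁ h₂ e3 e4
  have hu : ((-t) • w0 - (-t) • Φ.v b) + -((-t) • w0) = t • Φ.v b := by module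
  have htb : Cfsg.hermForm n F q ((-t) • w0) ((-t) • Φ.v b) = 0 := by
    rw [h.smul_left, h.smul_right, hwb, mul_zero, mul_zero]
  have ha0 : s' + (-s' - Cfsg.hermForm n F q ((-t) • w0) ((-t) • w0))
      - Cfsg.hermForm n F q (-((-t) • w0)) ((-t) • w0 - (-t) • Φ.v b) = 0 := by
    rw [h.neg_left, h.sub_right, htb]
    ring
  rw [hu, ha0] at e5
  rw [IsE_uniq hg e5]
  exact M.mul_mem (M.mul_mem (M.mul_mem hg1 hg2) (M.inv_mem hg1)) (M.inv_mem hg2)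

end Cfsg.Agent.Lib.H43UgOcomm
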