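import Cfsg.Agent.Lib.Helper43UgDefs
import Cfsg.Agent.Lib.H43OgGgen
import Cfsg.Agent.Lib.H49SuMonMk
import Cfsg.Agent.Lib.H49SuIso
import Cfsg.Agent.Lib.H43UgEex
import Cfsg.Agent.Lib.H43UgEmul
import Cfsg.Agent.Lib.H43UgEconj
import Cfsg.Agent.Lib.H43UgEtr

set_option autoImplicit false

/-! Project 412, piece `ofill1`.  Sketch: notes/helper43/Ug.md -/

namespace Cfsg.Agent.Lib.H43UgOfill1

open Cfsg.Agent.Lib.Helper43Sp (I ng ab gam)
open Cfsg.Agent.Lib.Helper43Og (Gen)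
open Cfsg.Agent.S0780 (Th)
open Cfsg.Agent.Lib.Helper43Ug
open Cfsg.Agent.Lib.H43UgEex
open Cfsg.Agent.Lib.H43UgEmul
open Cfsg.Agent.Lib.H43UgEconj
open Cfsg.Agent.Lib.H43UgEtr

variable {F : Type*} [Field F] [Fintype F] {q n : ℕ}
variable {k e0 : ℕ} (Φ : UFrame n F q k e0) (M : Subgroup (GS n F q))

theorem ofill1 (hF : Fintype.card F = q ^ 2) (w0 : Fin n → F) (h0 : w0 ∈ Φ.V0) (a : I k)
    (y : GS n F q) (hy : y ∈ M) (l μ : F) (hl : Th n F q y (Φ.v a) = l • Φ.v a) (hμ : Th n F q y w0 = μ • w0)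
    (hg : Gen F (l ^ q * μ)) (g0 : GS n F q) (hg0 : g0 ∈ M) (x s : F) (hx : x ≠ 0)
    (e : IsE g0 (Φ.v a) (x • w0) s) :
    ∀ t : F, ∃ (s' : F) (g : GS n F q), g ∈ M ∧ IsE g (Φ.v a) (t • w0) s' := by
  have hv : Cfsg.hermForm n F q (Φ.v a) (Φ.v a) = 0 := by
    rw [Φ.pol a a, if_neg]
    intro h
    cases a <;> simp [ng] at h
  have hperp : ∀ c : F, Cfsg.hermForm n F q (c • w0) (Φ.v a) = 0 := by
    intro c
    have h1 := Φ.perp a w0 h0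
    have h2 : Cfsg.hermForm n F q (c • w0) (Φ.v a) = c * Cfsg.hermForm n F q w0 (Φ.v a) := by
      simp only [Cfsg.hermForm, Finset.mul_sum, Pi.smul_apply, smul_eq_mul, mul_assoc]
    rw [h2, h1, mul_zero]
  let S : AddSubgroup F :=
    { carrier := {t | ∃ (s' : F) (g : GS n F q), g ∈ M ∧ IsE g (Φ.v a) ((t * x) • w0) s'}
      zero_mem' := by
        refine ⟨0, 1, M.one_mem, ?_⟩
        rw [zero_mul, zero_smul]
        exact IsE_one hF _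
      add_mem' := by
        rintro t₁ t₂ ⟨s₁, g₁, hg₁, e₁⟩ ⟨s₂, g₂, hg₂, e₂⟩
        have := IsE_mul hF hv (hperp _) (hperp _) e₁ e₂
        rw [← add_smul, ← add_mul] at this
        exact ⟨_, g₁ * g₂, M.mul_mem hg₁ hg₂, this⟩
      neg_mem' := by
        rintro t ⟨s₁, g₁, hg₁, e₁⟩
        have := IsE_inv hF hv (hperp _) e₁
        rw [← neg_smul, ← neg_mul] at this
        exact ⟨_, g₁⁻¹, M.inv_mem hg₁, this⟩ }
  have h1 : (1 : F) ∈ S := ⟨s, g0, hg0, by rw [one_mul]; exact e⟩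
  have hcl : ∀ t ∈ S, (l ^ q * μ) * t ∈ S := by
    rintro t ⟨s₁, g₁, hg₁, e₁⟩
    have h2 := IsE_conj y e₁
    rw [hl, map_smul, hμ] at h2
    have h3 := IsE_smul hF l h2
    rw [smul_smul, smul_smul] at h3
    have h4 : l ^ q * (t * x) * μ = l ^ q * μ * t * x := by ring
    rw [h4] at h3
    exact ⟨_, y * g₁ * y⁻¹, M.mul_mem (M.mul_mem hy hg₁) (M.inv_mem hy), h3⟩
  intro t
  obtain ⟨s', g, hgM, eg⟩ := hg S h1 hcl (t / x)
  refine ⟨s', g, hgM, ?_⟩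
  rw [div_mul_cancel₀ t hx] at eg
  exact eg

end Cfsg.Agent.Lib.H43UgOfill1
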