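import Cfsg.Agent.Lib.Helper43UgDefs
import Cfsg.Agent.Lib.H43OgGgen
import Cfsg.Agent.Lib.H49SuMonMk
import Cfsg.Agent.Lib.H49SuIso
import Cfsg.Agent.Lib.H43UgEex
import Cfsg.Agent.Lib.H43UgEmul
import Cfsg.Agent.Lib.H43UgEconj
import Cfsg.Agent.Lib.H43UgEtr

set_option autoImplicit false

/-! Project 412, piece `ofill3`.  Sketch: notes/helper43/Ug.md -/

namespace Cfsg.Agent.Lib.H43UgOfill3

open Cfsg.Agent.Lib.Helper43Sp (I ng ab gam)
open Cfsg.Agent.Lib.Helper43Og (Gen)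
open Cfsg.Agent.S0780 (Th)
open Cfsg.Agent.Lib.Helper43Ug
open Cfsg.Agent.Lib.H43UgEex
open Cfsg.Agent.Lib.H43UgEmul
open Cfsg.Agent.Lib.H43UgEconj
open Cfsg.Agent.Lib.H43UgEtr

variable {F : Type*} [Field F] [Fintype F] {q n : ℕ}
variable {k e0 : ℕ} (Φ : UFrame n F q k e0) (M : Subgroup (GS n F q))

theorem ofill3 (hF : Fintype.card F = q ^ 2) (w0 : Fin n → F) (hV : Φ.V0 = Submodule.span F {w0}) (a : I k)
    (h : ∀ t : F, ∃ (s' : F) (g : GS n F q), g ∈ M ∧ IsE g (Φ.v a) (t • w0) s')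
    (h' : ∀ (s : F) (g : GS n F q), IsE g (Φ.v a) 0 s → g ∈ M) : HS Φ M a := by
  intro w hw s g e
  have hw' := hw
  rw [hV, Submodule.mem_span_singleton] at hw'
  obtain ⟨t, rfl⟩ := hw'
  obtain ⟨s', g', hg', e'⟩ := h t
  have hne : a ≠ ng a := by
    cases a <;> simp [ng]
  have hv : Cfsg.hermForm n F q (Φ.v a) (Φ.v a) = 0 := by
    rw [Φ.pol a a, if_neg hne]
  have hu : Cfsg.hermForm n F q (t • w0) (Φ.v a) = 0 := Φ.perp a _ hw
  have hu' : Cfsg.hermForm n F q (-(t • w0)) (Φ.v a) = 0 := by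
    rw [(Cfsg.Agent.Lib.Helper17Heis.herm_concrete hF n).neg_left, hu, neg_zero]
  have e1 := IsE_inv hF hv hu e'
  have e2 := IsE_mul hF hv hu hu' e e1
  rw [add_neg_cancel] at e2
  have h3 := h' _ _ e2
  have h4 := M.mul_mem h3 hg'
  rwa [inv_mul_cancel_right] at h4

end Cfsg.Agent.Lib.H43UgOfill3
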