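import Cfsg.Agent.Lib.Helper43UgDefs
import Cfsg.Agent.Lib.H43OgGgen
import Cfsg.Agent.Lib.H49SuMonMk
import Cfsg.Agent.Lib.H49SuIso
import Cfsg.Agent.Lib.H43UgEex
import Cfsg.Agent.Lib.H43UgEmul
import Cfsg.Agent.Lib.H43UgEconj
import Cfsg.Agent.Lib.H43UgEtr

set_option autoImplicit false

/-! Project 412, piece `seed`.  Sketch: notes/helper43/Ug.md -/

namespace Cfsg.Agent.Lib.H43UgSeed

open Cfsg.Agent.Lib.Helper43Sp (I ng ab gam)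
open Cfsg.Agent.Lib.Helper43Og (Gen)
open Cfsg.Agent.S0780 (Th)
open Cfsg.Agent.Lib.Helper43Ug
open Cfsg.Agent.Lib.H43UgEex
open Cfsg.Agent.Lib.H43UgEmul
open Cfsg.Agent.Lib.H43UgEconj
open Cfsg.Agent.Lib.H43UgEtr

variable {F : Type*} [Field F] [Fintype F] {q n : ℕ}

omit [Fintype F] in
theorem H_smul_left (c : F) (a b : Fin n → F) :
    Cfsg.hermForm n F q (c • a) b = c * Cfsg.hermForm n F q a b := by
  unfold Cfsg.hermForm
  rw [Finset.mul_sum]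
  refine Finset.sum_congr rfl fun i _ => ?_
  simp only [Pi.smul_apply, smul_eq_mul]
  ring

omit [Fintype F] in
theorem H_smul_right (c : F) (a b : Fin n → F) :
    Cfsg.hermForm n F q a (c • b) = c ^ q * Cfsg.hermForm n F q a b := by
  unfold Cfsg.hermForm
  rw [Finset.mul_sum]
  refine Finset.sum_congr rfl fun i _ => ?_
  simp only [Pi.smul_apply, smul_eq_mul, mul_pow]
  ring

theorem seed (hF : Fintype.card F = q ^ 2) (v w1 : Fin n → F) (hv0 : v ≠ 0) (hw0 : w1 ≠ 0)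
    (hv : Cfsg.hermForm n F q v v = 0) (hw : Cfsg.hermForm n F q w1 v = 0) (s0 : F) (u y t' : GS n F q)
    (hu : IsE u v w1 s0) (l μ l' μ' : F) (hyv : Th n F q y v = l • v) (hyw : Th n F q y w1 = μ • w1)
    (htv : Th n F q t' v = l' • v) (htw : Th n F q t' w1 = μ' • w1) (hcomm : y * t' = t' * y)
    (h1 : l ^ q * μ ≠ 1) (h2 : l' ^ q * μ' ≠ 1) :
    ∃ x s : F, x ≠ 0 ∧ IsE (y * (u * t' * u⁻¹) * y⁻¹ * (u * t' * u⁻¹)⁻¹) v (x • w1) s ∧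
      (Cfsg.hermForm n F q w1 w1 = 0 → s0 = 0 → s = 0) := by
  have hsm : ∀ c : F, Cfsg.hermForm n F q (c • w1) v = 0 := fun c => by
    rw [H_smul_left, hw, mul_zero]
  -- `u⁻¹`
  have e1 := IsE_inv hF hv hw hu
  have hneg : -w1 = (-1 : F) • w1 := by simp
  rw [hneg] at e1
  -- `A = t' u⁻¹ t'⁻¹`
  have e2 := IsE_conj t' e1
  rw [htv, map_smul, htw] at e2
  have e3 := IsE_smul hF l' e2
  rw [smul_smul, smul_smul] at e3
  -- `q' = u A`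
  have e4 := IsE_mul hF hv hw (hsm _) hu e3
  rw [← one_smul F w1, smul_smul, ← add_smul] at e4
  simp only [one_smul, mul_one] at e4
  -- abbreviations
  obtain ⟨c, hc⟩ : ∃ c : F, c = 1 + l' ^ q * -1 * μ' := ⟨_, rfl⟩
  obtain ⟨a1, ha1⟩ : ∃ a1 : F, a1 = s0 + l' * l' ^ q * (-s0 - Cfsg.hermForm n F q w1 w1) -
      Cfsg.hermForm n F q ((l' ^ q * -1 * μ') • w1) w1 := ⟨_, rfl⟩
  rw [← hc, ← ha1] at e4
  -- `y q' y⁻¹`
  have e5 := IsE_conj y e4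
  rw [hyv, map_smul, hyw] at e5
  have e6 := IsE_smul hF l e5
  rw [smul_smul, smul_smul] at e6
  -- `q'⁻¹`
  have e7 := IsE_inv hF hv (hsm c) e4
  have hneg' : -(c • w1) = (-c) • w1 := by rw [neg_smul]
  rw [hneg'] at e7
  have e8 := IsE_mul hF hv (hsm _) (hsm _) e6 e7
  rw [← add_smul] at e8
  have hgrp : y * (u * t' * u⁻¹) * y⁻¹ * (u * t' * u⁻¹)⁻¹
      = y * (u * (t' * u⁻¹ * t'⁻¹)) * y⁻¹ * (u * (t' * u⁻¹ * t'⁻¹))⁻¹ := by
    have hc' : t'⁻¹ * y⁻¹ * t' = y⁻¹ := by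
      have h3 : y⁻¹ * t' = t' * y⁻¹ := by
        rw [eq_mul_inv_iff_mul_eq, mul_assoc, ← hcomm, inv_mul_cancel_left]
      rw [mul_assoc, h3, inv_mul_cancel_left]
    calc y * (u * t' * u⁻¹) * y⁻¹ * (u * t' * u⁻¹)⁻¹
        = y * u * t' * u⁻¹ * y⁻¹ * u * t'⁻¹ * u⁻¹ := by
          simp only [mul_assoc, mul_inv_rev, inv_inv]
      _ = y * u * t' * u⁻¹ * (t'⁻¹ * y⁻¹ * t') * u * t'⁻¹ * u⁻¹ := by rw [hc']
      _ = y * (u * (t' * u⁻¹ * t'⁻¹)) * y⁻¹ * (u * (t' * u⁻¹ * t'⁻¹))⁻¹ := by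
          simp only [mul_assoc, mul_inv_rev, inv_inv]
  rw [hgrp]
  refine ⟨_, _, ?_, e8, ?_⟩
  · have hx : l ^ q * c * μ + -c = (l ^ q * μ - 1) * (1 - l' ^ q * μ') := by
      rw [hc]; ring
    rw [hx]
    exact mul_ne_zero (sub_ne_zero.mpr h1) (sub_ne_zero.mpr (Ne.symm h2))
  · intro hww hs0
    have ha0 : a1 = 0 := by
      rw [ha1, H_smul_left, hww, hs0]
      ring
    rw [ha0, H_smul_left, H_smul_right, H_smul_left, H_smul_right, hww]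
    ring

end Cfsg.Agent.Lib.H43UgSeed
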