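import Cfsg.Agent.Lib.Helper43UgDefs
import Cfsg.Agent.Lib.H43OgGgen
import Cfsg.Agent.Lib.H49SuMonMk
import Cfsg.Agent.Lib.H49SuIso
import Cfsg.Agent.Lib.H43UgEex
import Cfsg.Agent.Lib.H43UgEmul
import Cfsg.Agent.Lib.H43UgEconj
import Cfsg.Agent.Lib.H43UgEtr

set_option autoImplicit false

/-! Project 412, piece `symm`.  Sketch: notes/helper43/Ug.md -/

namespace Cfsg.Agent.Lib.H43UgSymm

open Cfsg.Agent.Lib.Helper43Sp (I ng ab gam)
open Cfsg.Agent.Lib.Helper43Og (Gen)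
open Cfsg.Agent.S0780 (Th)
open Cfsg.Agent.Lib.Helper43Ug
open Cfsg.Agent.Lib.H43UgEex
open Cfsg.Agent.Lib.H43UgEmul
open Cfsg.Agent.Lib.H43UgEconj
open Cfsg.Agent.Lib.H43UgEtr

variable {F : Type*} [Field F] [Fintype F] {q n : ℕ}
variable {k e0 : ℕ} (Φ : UFrame n F q k e0) (M : Subgroup (GS n F q))

theorem XS_symm (hF : Fintype.card F = q ^ 2) (a b : I k) (h1 : ab a ≠ ab b) (hx : XS Φ M a b) :
    XS Φ M b a := by
  have h := Cfsg.Agent.Lib.Helper17Heis.herm_concrete hF n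
  intro t g e
  apply hx (-(t ^ q)) g
  intro x
  rw [e x, h.smul_right, h.smul_right, map_neg, Cfsg.Agent.Lib.Helper17HermC.sig_apply,
    Cfsg.Agent.Lib.Helper17HermC.sig_apply, Cfsg.Agent.Lib.H49SuSig.powq_powq hF]
  module

end Cfsg.Agent.Lib.H43UgSymm
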