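import Cfsg.Agent.Lib.Helper43UgDefs
import Cfsg.Agent.Lib.H43OgGgen
import Cfsg.Agent.Lib.H49SuMonMk
import Cfsg.Agent.Lib.H49SuIso

set_option autoImplicit false

/-! Project 412, piece `tor1`.  Sketch: notes/helper43/Ug.md -/

namespace Cfsg.Agent.Lib.H43UgTor1

open Cfsg.Agent.Lib.Helper43Sp (I ng ab gam)
open Cfsg.Agent.Lib.Helper43Og (Gen)
open Cfsg.Agent.S0780 (Th)
open Cfsg.Agent.Lib.Helper43Ug

variable {F : Type*} [Field F] [Fintype F] {q n : ℕ}

theorem exists_tor1 (hF : Fintype.card F = q ^ 2) {k : ℕ} (Φ : UFrame n F q k 1) (a : I k) (z : F) (hz : z ≠ 0) :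
    ∃ (y : GS n F q) (l : I k → F), Dg Φ y l (z ^ q * z⁻¹) ∧ l a = z ∧ l (ng a) = (z ^ q)⁻¹ ∧
      ∀ d, ab d ≠ ab a → l d = 1 := by
  classical
  have hzz : (z ^ q) ^ q = z := by
    rw [← pow_mul, ← sq, ← hF, FiniteField.pow_card]
  have hzq : z ^ q ≠ 0 := pow_ne_zero _ hz
  have hng : ∀ b : I k, ng b ≠ b := by
    intro b; cases b <;> simp [ng]
  have hngng : ∀ b : I k, ng (ng b) = b := by
    intro b; cases b <;> simp [ng]
  have habng : ∀ b : I k, ab (ng b) = ab b := by
    intro b; cases b <;> simp [ng, ab]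
  set d : I k → F := fun b => if b = a then z else if b = ng a then (z ^ q)⁻¹ else 1 with hd
  have hda : d a = z := by simp [hd]
  have hdna : d (ng a) = (z ^ q)⁻¹ := by
    simp only [hd]; rw [if_neg (hng a)]; simp
  have hdo : ∀ b, b ≠ a → b ≠ ng a → d b = 1 := by
    intro b h1 h2; simp only [hd]; rw [if_neg h1, if_neg h2]
  have hprod : ∏ b, d b = z * (z ^ q)⁻¹ := by
    rw [Finset.prod_eq_mul a (ng a) (hng a).symm (fun c _ hc => hdo c hc.1 hc.2)
      (fun h => absurd (Finset.mem_univ _) h) (fun h => absurd (Finset.mem_univ _) h), hda, hdna]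
  obtain ⟨y, hy1, hy2⟩ := Φ.mon 1 d (z ^ q * z⁻¹) (fun _ => rfl) (by
      intro b
      by_cases h1 : b = a
      · subst h1
        rw [hda, hdna, inv_pow, hzz]; exact mul_inv_cancel₀ hz
      · by_cases h2 : b = ng a
        · subst h2
          rw [hdna, hngng, hda]; exact inv_mul_cancel₀ hzq
        · have h3 : ng b ≠ a := fun h => h2 (by rw [← h, hngng])
          have h4 : ng b ≠ ng a := fun h => h1 (by rw [← hngng b, h, hngng])
          rw [hdo b h1 h2, hdo _ h3 h4]; simp) (by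
      rw [mul_pow, hzz, inv_pow]
      field_simp) (by
      rw [hprod]
      simp only [Equiv.Perm.sign_one, Units.val_one, Int.cast_one, one_mul, pow_one]
      field_simp)
  refine ⟨y, d, ⟨fun b => by simpa using hy1 b, hy2⟩, hda, hdna, ?_⟩
  intro b hb
  refine hdo b (fun h => hb (by rw [h])) (fun h => hb (by rw [h, habng]))

end Cfsg.Agent.Lib.H43UgTor1
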