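import Cfsg.Agent.Lib.Helper43UgDefs
import Cfsg.Agent.Lib.H43OgGgen
import Cfsg.Agent.Lib.H49SuMonMk
import Cfsg.Agent.Lib.H49SuIso

set_option autoImplicit false

/-! Project 412, piece `tor2`.  Sketch: notes/helper43/Ug.md -/

namespace Cfsg.Agent.Lib.H43UgTor2

open Cfsg.Agent.Lib.Helper43Sp (I ng ab gam)
open Cfsg.Agent.Lib.Helper43Og (Gen)
open Cfsg.Agent.S0780 (Th)
open Cfsg.Agent.Lib.Helper43Ug

variable {F : Type*} [Field F] [Fintype F] {q n : ℕ}
variable {k e0 : ℕ} (Φ : UFrame n F q k e0) (M : Subgroup (GS n F q))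

theorem ng_ng' (a : I k) : ng (ng a) = a := by
  rcases a with i | i <;> rfl

theorem ab_ng' (a : I k) : ab (ng a) = ab a := by
  rcases a with i | i <;> rfl

theorem ng_ne' (a : I k) : ng a ≠ a := by
  rcases a with i | i <;> simp [ng]

/-- the rank one torus function -/
def T1 (q : ℕ) (a : I k) (w : F) (x : I k) : F :=
  if x = a then w else if x = ng a then (w ^ q)⁻¹ else 1

theorem T1_self (a : I k) (w : F) : T1 q a w a = w := by simp [T1]

theorem T1_ng (a : I k) (w : F) : T1 q a w (ng a) = (w ^ q)⁻¹ := by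
  simp [T1, ng_ne']

theorem T1_other (a : I k) (w : F) (x : I k) (h : ab x ≠ ab a) : T1 q a w x = 1 := by
  have h1 : x ≠ a := fun hh => h (by rw [hh])
  have h2 : x ≠ ng a := fun hh => h (by rw [hh, ab_ng'])
  simp [T1, h1, h2]

theorem T1_unit (hF : Fintype.card F = q ^ 2) (a : I k) (w : F) (hw : w ≠ 0) (x : I k) :
    T1 q a w x * (T1 q a w (ng x)) ^ q = 1 := by
  by_cases h1 : x = a
  · subst h1
    rw [T1_self, T1_ng, inv_pow, Cfsg.Agent.Lib.H49SuSig.powq_powq hF]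
    exact mul_inv_cancel₀ hw
  by_cases h2 : x = ng a
  · subst h2
    rw [T1_ng, ng_ng', T1_self]
    exact inv_mul_cancel₀ (pow_ne_zero _ hw)
  have h3 : ng x ≠ a := fun hh => h2 (by rw [← hh, ng_ng'])
  have h4 : ng x ≠ ng a := fun hh => h1 (by rw [← ng_ng' x, hh, ng_ng'])
  simp [T1, h1, h2, h3, h4]

theorem T1_prod (a : I k) (w : F) : ∏ x, T1 q a w x = w * (w ^ q)⁻¹ := by
  have h : ∀ x, T1 q a w x = (if x = a then w else 1) * (if x = ng a then (w ^ q)⁻¹ else 1) := by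
    intro x
    by_cases h1 : x = a
    · subst h1
      simp [T1, (ng_ne' x).symm]
    · simp [T1, h1]
  simp_rw [h]
  rw [Finset.prod_mul_distrib, Finset.prod_ite_eq' , Finset.prod_ite_eq']
  simp

theorem exists_tor2 (hF : Fintype.card F = q ^ 2) (a b : I k) (hab : ab a ≠ ab b) (z : F) (hz : z ≠ 0) :
    ∃ (y : GS n F q) (l : I k → F), Dg Φ y l 1 ∧ l a = z ∧ l (ng a) = (z ^ q)⁻¹ ∧ l b = z⁻¹ ∧ l (ng b) = z ^ q ∧
      ∀ d, ab d ≠ ab a → ab d ≠ ab b → l d = 1 := by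
  have hz' : z⁻¹ ≠ 0 := inv_ne_zero hz
  obtain ⟨g, hg1, hg2⟩ := Φ.mon 1 (fun x => T1 q a z x * T1 q b z⁻¹ x) 1 (fun _ => rfl)
    (by
      intro x
      have e1 := T1_unit hF a z hz x
      have e2 := T1_unit hF b z⁻¹ hz' x
      calc T1 q a z x * T1 q b z⁻¹ x * (T1 q a z (ng x) * T1 q b z⁻¹ (ng x)) ^ q
          = (T1 q a z x * (T1 q a z (ng x)) ^ q) * (T1 q b z⁻¹ x * (T1 q b z⁻¹ (ng x)) ^ q) := by
            rw [mul_pow]; ring
        _ = 1 := by rw [e1, e2, one_mul])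
    (by simp)
    (by
      rw [Finset.prod_mul_distrib, T1_prod, T1_prod]
      have : z ^ q ≠ 0 := pow_ne_zero _ hz
      simp only [Equiv.Perm.sign_one, Units.val_one, Int.cast_one, one_mul, one_pow, mul_one, inv_pow, inv_inv]
      field_simp)
  refine ⟨g, fun x => T1 q a z x * T1 q b z⁻¹ x, ⟨fun x => by simpa using hg1 x, hg2⟩, ?_, ?_, ?_, ?_, ?_⟩
  · show T1 q a z a * T1 q b z⁻¹ a = z
    rw [T1_self, T1_other b _ a hab, mul_one]
  · show T1 q a z (ng a) * T1 q b z⁻¹ (ng a) = (z ^ q)⁻¹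
    rw [T1_ng, T1_other b _ (ng a) (by rw [ab_ng']; exact hab), mul_one]
  · show T1 q a z b * T1 q b z⁻¹ b = z⁻¹
    rw [T1_self, T1_other a _ b hab.symm, one_mul]
  · show T1 q a z (ng b) * T1 q b z⁻¹ (ng b) = z ^ q
    rw [T1_ng, T1_other a _ (ng b) (by rw [ab_ng']; exact hab.symm), one_mul, inv_pow, inv_inv]
  · intro d h1 h2
    show T1 q a z d * T1 q b z⁻¹ d = 1
    rw [T1_other a _ d h1, T1_other b _ d h2, one_mul]

end Cfsg.Agent.Lib.H43UgTor2
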