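import Cfsg.Agent.Lib.Helper43UgDefs
import Cfsg.Agent.Lib.H43OgGgen
import Cfsg.Agent.Lib.H49SuMonMk
import Cfsg.Agent.Lib.H49SuIso

set_option autoImplicit false

/-! Project 412, piece `zf`.  Sketch: notes/helper43/Ug.md -/

namespace Cfsg.Agent.Lib.H43UgZf

open Cfsg.Agent.Lib.Helper43Sp (I ng ab gam)
open Cfsg.Agent.Lib.Helper43Og (Gen)
open Cfsg.Agent.S0780 (Th)
open Cfsg.Agent.Lib.Helper43Ug

variable {F : Type*} [Field F] [Fintype F] {q n : ℕ}

theorem zfacts (hF : Fintype.card F = q ^ 2) :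
    ∃ z : F, z ≠ 0 ∧ Gen F z ∧ Gen F (z ^ 2) ∧ z ≠ 1 ∧ z ^ 2 ≠ 1 ∧ z ^ q ≠ z ∧ (z ^ q) ^ q = z := by
  classical
  obtain ⟨g, hg⟩ := IsCyclic.exists_generator (α := Fˣ)
  have hord : orderOf g = q ^ 2 - 1 := by
    rw [orderOf_eq_card_of_forall_mem_zpowers hg, Nat.card_eq_fintype_card, Fintype.card_units, hF]
  have hc2 : 2 ≤ q ^ 2 := by rw [← hF]; exact Fintype.one_lt_card
  have hq : 2 ≤ q := by
    by_contra h
    have : q = 0 ∨ q = 1 := by omega
    rcases this with h | h <;> rw [h] at hc2 <;> norm_num at hc2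
  have hq2 : 2 * q ≤ q ^ 2 := by nlinarith
  have hz0 : (g : F) ≠ 0 := g.ne_zero
  have hpow1 : ∀ N : ℕ, (g : F) ^ N = 1 → q ^ 2 - 1 ∣ N := by
    intro N hN
    rw [← hord]
    apply orderOf_dvd_of_pow_eq_one
    apply Units.ext
    rw [Units.val_pow_eq_pow_val, hN, Units.val_one]
  have hgen : ∀ x : F, x ≠ 0 → ∃ j : ℕ, x = (g : F) ^ j := by
    intro x hx
    have h1 : Units.mk0 x hx ∈ Subgroup.zpowers g := hg _
    rw [← mem_powers_iff_mem_zpowers] at h1
    obtain ⟨j, hj⟩ := h1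
    refine ⟨j, ?_⟩
    have := congrArg Units.val hj
    simp only [Units.val_pow_eq_pow_val, Units.val_mk0] at this
    exact this.symm
  refine ⟨(g : F), hz0, ?_, (Cfsg.Agent.Lib.H43OgGgen.gen_sq (g : F) hgen).1, ?_, ?_, ?_, ?_⟩
  · intro S h1 hS t
    by_cases ht : t = 0
    · rw [ht]; exact S.zero_mem
    · obtain ⟨j, rfl⟩ := hgen t ht
      clear ht
      induction j with
      | zero => rwa [pow_zero]
      | succ j ih => rw [pow_succ']; exact hS _ ih
  · intro h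
    have hd := Nat.le_of_dvd (by omega) (hpow1 1 (by rw [pow_one, h]))
    omega
  · intro h
    have hd := Nat.le_of_dvd (by omega) (hpow1 2 h)
    omega
  · intro h
    have h3 : (g : F) ^ (q - 1) = 1 := by
      have h4 : (g : F) ^ (q - 1) * (g : F) = 1 * (g : F) := by
        rw [← pow_succ, one_mul]
        conv_rhs => rw [← h]
        congr 1; omega
      exact mul_right_cancel₀ hz0 h4
    have hd := Nat.le_of_dvd (by omega) (hpow1 _ h3)
    omega
  · rw [← pow_mul, ← pow_two, ← hF, FiniteField.pow_card]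

end Cfsg.Agent.Lib.H43UgZf
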