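import Cfsg.Agent.Lib.Helper43UgDefs
import Cfsg.Agent.Lib.H43OgGquot
import Cfsg.Agent.Lib.H43UgEex
import Cfsg.Agent.Lib.H43UgEmul
import Cfsg.Agent.Lib.H43UgEconj
import Cfsg.Agent.Lib.H43UgEtr
import Cfsg.Agent.Lib.H43UgCrit1
import Cfsg.Agent.Lib.H43UgCrit2
import Cfsg.Agent.Lib.H43UgAsm
import Cfsg.Agent.Lib.H43UgOcomm
import Cfsg.Agent.Lib.H43UgCjH
import Cfsg.Agent.Lib.H43UgCjX
import Cfsg.Agent.Lib.H43UgOfill1
import Cfsg.Agent.Lib.H43UgOfill2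
import Cfsg.Agent.Lib.H43UgOfill3
import Cfsg.Agent.Lib.H43UgEfill
import Cfsg.Agent.Lib.H43UgChain
import Cfsg.Agent.Lib.H43UgSymm
import Cfsg.Agent.Lib.H43UgLong
import Cfsg.Agent.Lib.H43UgDgc
import Cfsg.Agent.Lib.H43UgCox
import Cfsg.Agent.Lib.H43UgTor2
import Cfsg.Agent.Lib.H43UgTor1
import Cfsg.Agent.Lib.H43UgComb
import Cfsg.Agent.Lib.H43UgSeed
import Cfsg.Agent.Lib.H43UgZf
import Cfsg.Agent.Lib.H43UgGen3
import Cfsg.Agent.Lib.H43UgFodd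
import Cfsg.Agent.Lib.H43UgFeven

set_option autoImplicit false

/-! Project 412: assembly.  `SU_n(q)` is generated by two elements. -/

namespace Cfsg.Agent.Lib.H43UgHub

open Cfsg.Agent.Lib.Helper43Sp (I ng ab gam)
open Cfsg.Agent.Lib.Helper43Og (Gen)
open Cfsg.Agent.S0780 (Th)
open Cfsg.Agent.Lib.Helper43Ug
open Cfsg.Agent.Lib.H43UgEex Cfsg.Agent.Lib.H43UgEmul Cfsg.Agent.Lib.H43UgEconj Cfsg.Agent.Lib.H43UgEtr
open Cfsg.Agent.Lib.H43UgCrit1 Cfsg.Agent.Lib.H43UgCrit2 Cfsg.Agent.Lib.H43UgAsm Cfsg.Agent.Lib.H43UgOcomm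
open Cfsg.Agent.Lib.H43UgCjH Cfsg.Agent.Lib.H43UgCjX Cfsg.Agent.Lib.H43UgOfill1 Cfsg.Agent.Lib.H43UgOfill2
open Cfsg.Agent.Lib.H43UgOfill3 Cfsg.Agent.Lib.H43UgEfill Cfsg.Agent.Lib.H43UgChain Cfsg.Agent.Lib.H43UgSymm
open Cfsg.Agent.Lib.H43UgLong Cfsg.Agent.Lib.H43UgDgc Cfsg.Agent.Lib.H43UgCox Cfsg.Agent.Lib.H43UgTor2
open Cfsg.Agent.Lib.H43UgTor1 Cfsg.Agent.Lib.H43UgComb Cfsg.Agent.Lib.H43UgSeed Cfsg.Agent.Lib.H43UgZf
open Cfsg.Agent.Lib.H43UgGen3 Cfsg.Agent.Lib.H43UgFodd Cfsg.Agent.Lib.H43UgFeven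

variable {F : Type*} [Field F] [Fintype F] {q n : ℕ}

theorem ng_ne {k : ℕ} (a : I k) : a ≠ ng a := by
  cases a <;> simp [ng]

theorem ng_ng {k : ℕ} (a : I k) : ng (ng a) = a := by
  cases a <;> simp [ng]

theorem ab_ng {k : ℕ} (a : I k) : ab (ng a) = ab a := by
  cases a <;> simp [ng, ab]

theorem iso_v {k e0 : ℕ} (Φ : UFrame n F q k e0) (a : I k) : Cfsg.hermForm n F q (Φ.v a) (Φ.v a) = 0 := by
  rw [Φ.pol, if_neg (ng_ne a)]

theorem perp_v {k e0 : ℕ} (Φ : UFrame n F q k e0) (a b : I k) (h : ab a ≠ ab b) :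
    Cfsg.hermForm n F q (Φ.v b) (Φ.v a) = 0 := by
  rw [Φ.pol, if_neg]
  intro h1
  apply h
  rw [h1, ab_ng]

theorem crit (hF : Fintype.card F = q ^ 2) (hn : 3 ≤ n) (h32 : ¬ (n = 3 ∧ q = 2)) {k e0 : ℕ}
    (Φ : UFrame n F q k e0) (M : Subgroup (GS n F q)) (a : I k) (h1 : QS Φ M a) (h2 : QS Φ M (ng a)) :
    M = ⊤ := by
  apply crit2 hF hn h32 M
  refine crit1 hF hn M (Φ.v a) (Φ.v (ng a)) (iso_v Φ a) (iso_v Φ _) ?_ h1 h2
  rw [Φ.pol, if_pos rfl]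
  exact one_ne_zero

theorem coreOdd (hF : Fintype.card F = q ^ 2) (hn : 3 ≤ n) (h32 : ¬ (n = 3 ∧ q = 2)) {k : ℕ}
    (Φ : UFrame n F q k 1) (M : Subgroup (GS n F q)) (w0 : Fin n → F)
    (hV : Φ.V0 = Submodule.span F {w0}) (hw : Cfsg.hermForm n F q w0 w0 = 1) (c : GS n F q)
    (hc : Cox Φ c) (hcM : c ∈ M) (a0 : I k) (h : HS Φ M a0) : M = ⊤ := by
  have hall : ∀ b, HS Φ M b := HS_all Φ M hF c hc hcM a0 h
  have h0 : w0 ∈ Φ.V0 := by rw [hV]; exact Submodule.mem_span_singleton_self w0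
  have hQ : ∀ a, QS Φ M a := fun a =>
    asm Φ M hF a (fun b hb => ocomm Φ M hF w0 h0 hw a b (Ne.symm hb) (hall a) (hall b)) (hall a)
  exact crit hF hn h32 Φ M a0 (hQ _) (hQ _)

theorem coreEven (hF : Fintype.card F = q ^ 2) (hn : 3 ≤ n) (h32 : ¬ (n = 3 ∧ q = 2)) {k : ℕ}
    (Φ : UFrame n F q k 0) (M : Subgroup (GS n F q)) (hV : Φ.V0 = ⊥) (hk : 2 ≤ k) (c : GS n F q)
    (hc : Cox Φ c) (hcM : c ∈ M) (a0 : I k) (h : XS Φ M a0 (ng (gam a0))) : M = ⊤ := by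
  have h0 : ∀ a, XS Φ M a (ng (gam a)) := XS_all Φ M hF c hc hcM a0 h
  have hX : ∀ a b, ab a ≠ ab b → XS Φ M a b :=
    comb k (XS Φ M) h0 (fun a b hab hx => XS_symm Φ M hF a b hab hx)
      (fun a b d h1 h2 h3 hx hy => chain Φ M hF a b d h1 h2 h3 hx hy)
  have hH : ∀ a, HS Φ M a := by
    intro a w hw s g e
    rw [hV, Submodule.mem_bot] at hw
    subst hw
    obtain ⟨b, hb⟩ : ∃ b : I k, ab a ≠ ab b := by
      by_cases h0 : (ab a).val = 0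
      · refine ⟨Sum.inl ⟨1, by omega⟩, fun h1 => ?_⟩
        have h2 : (ab a).val = 1 := by rw [h1]; rfl
        omega
      · refine ⟨Sum.inl ⟨0, by omega⟩, fun h1 => ?_⟩
        have h2 : (ab a).val = 0 := by rw [h1]; rfl
        omega
    exact long Φ M hF a b hb (hX a b hb) (hX (ng b) a (by rw [ab_ng]; exact Ne.symm hb)) s g e
  have hQ : ∀ a, QS Φ M a := fun a => asm Φ M hF a (fun b hb => hX a b (Ne.symm hb)) (hH a)
  exact crit hF hn h32 Φ M a0 (hQ _) (hQ _)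

theorem seedM (hF : Fintype.card F = q ^ 2) {k e0 : ℕ} (Φ : UFrame n F q k e0) (c y u : GS n F q)
    (hc : Cox Φ c) (l : I k → F) (μ : F) (hy : Dg Φ y l μ) (a0 a' : I k) (ha : gam a' = a0)
    (w1 : Fin n → F) (hw0 : w1 ≠ 0) (hw : Cfsg.hermForm n F q w1 (Φ.v a0) = 0) (s0 : F)
    (hu : IsE u (Φ.v a0) w1 s0) (μ1 μ1' : F) (h1 : Th n F q y w1 = μ1 • w1)
    (h1' : Th n F q (c * y * c⁻¹) w1 = μ1' • w1) (hl : (l a0) ^ q * μ1 ≠ 1) (hl' : (l a') ^ q * μ1' ≠ 1)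
    (M : Subgroup (GS n F q)) (hyM : y ∈ M) (hb : u * c ∈ M) :
    ∃ (x s : F) (g0 : GS n F q), x ≠ 0 ∧ g0 ∈ M ∧ IsE g0 (Φ.v a0) (x • w1) s ∧
      (Cfsg.hermForm n F q w1 w1 = 0 → s0 = 0 → s = 0) := by
  obtain ⟨l', hd', hl2⟩ := dg_conj Φ c y hc l μ hy
  have hcomm := dg_comm Φ y (c * y * c⁻¹) l l' μ μ hy hd'
  obtain ⟨x, s, hx, e, hs⟩ := seed hF (Φ.v a0) w1 (v_ne_zero Φ a0) hw0 (iso_v Φ a0) hw s0 u y (c * y * c⁻¹) hu
    (l a0) μ1 (l' a0) μ1' (hy.hv a0) h1 (hd'.hv a0) h1' hcomm hl (by rw [← ha, hl2]; exact hl')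
  refine ⟨x, s, _, hx, ?_, e, hs⟩
  have h3 : u * (c * y * c⁻¹) * u⁻¹ = (u * c) * y * (u * c)⁻¹ := by group
  have h4 : u * (c * y * c⁻¹) * u⁻¹ ∈ M := by
    rw [h3]; exact M.mul_mem (M.mul_mem hb hyM) (M.inv_mem hb)
  exact M.mul_mem (M.mul_mem (M.mul_mem hyM h4) (M.inv_mem hyM)) (M.inv_mem h4)

theorem su_odd_of (hF : Fintype.card F = q ^ 2) (hn : 3 ≤ n) (h32 : ¬ (n = 3 ∧ q = 2)) {k : ℕ}
    (Φ : UFrame n F q k 1) (w0 : Fin n → F) (hV : Φ.V0 = Submodule.span F {w0})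
    (hw : Cfsg.hermForm n F q w0 w0 = 1) (hk : 0 < k) (y : GS n F q) (l : I k → F) (μ : F) (hy : Dg Φ y l μ)
    (a0 a' : I k) (ha : gam a' = a0) (hg : Gen F ((l a0) ^ q * μ)) (hl : (l a0) ^ q * μ ≠ 1)
    (hl' : (l a') ^ q * μ ≠ 1) :
    ∃ a b : GS n F q, Subgroup.closure ({a, b} : Set (GS n F q)) = ⊤ := by
  obtain ⟨c, hc⟩ := exists_cox Φ hF hk
  have h0 : w0 ∈ Φ.V0 := by rw [hV]; exact Submodule.mem_span_singleton_self w0
  have hH := Cfsg.Agent.Lib.Helper17Heis.herm_concrete hF n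
  obtain ⟨s0, hs0⟩ := hH.trace_surj (-1) (by simp)
  rw [Cfsg.Agent.Lib.Helper17HermC.sig_apply] at hs0
  obtain ⟨u, hu⟩ := exists_E hF (Φ.v a0) w0 s0 (iso_v Φ a0) (Φ.perp a0 w0 h0) (by rw [hs0, hw]; ring)
  refine ⟨y, u * c, ?_⟩
  set M := Subgroup.closure ({y, u * c} : Set (GS n F q)) with hM
  have hyM : y ∈ M := Subgroup.subset_closure (by simp)
  have hbM : u * c ∈ M := Subgroup.subset_closure (by simp)
  have hw0 : w0 ≠ 0 := by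
    intro h
    rw [h] at hw
    have h5 : Cfsg.hermForm n F q (0 : Fin n → F) 0 = 0 := by
      have := hH.smul_left 0 (0 : Fin n → F) 0
      simpa using this
    rw [h5] at hw
    exact zero_ne_one hw
  obtain ⟨l', hd', _⟩ := dg_conj Φ c y hc l μ hy
  obtain ⟨x, s, g0, hx, hg0, e, _⟩ := seedM hF Φ c y u hc l μ hy a0 a' ha w0 hw0 (Φ.perp a0 w0 h0) s0 hu μ μ
    (hy.h0 w0 h0) (hd'.h0 w0 h0) hl hl' M hyM hbM
  have f1 := ofill1 Φ M hF w0 h0 a0 y hyM (l a0) μ (hy.hv a0) (hy.h0 w0 h0) hg g0 hg0 x s hx e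
  have f2 := ofill2 Φ M hF w0 h0 hw a0 f1
  have f3 : HS Φ M a0 := ofill3 Φ M hF w0 hV a0 f1 f2
  have huM : u ∈ M := f3 w0 h0 s0 u hu
  have hcM : c ∈ M := by
    have := M.mul_mem (M.inv_mem huM) hbM
    simpa using this
  exact coreOdd hF hn h32 Φ M w0 hV hw c hc hcM a0 f3

theorem su_odd1 (hF : Fintype.card F = q ^ 2) (hq : 3 ≤ q) (hn : n = 3) :
    ∃ a b : GS n F q, Subgroup.closure ({a, b} : Set (GS n F q)) = ⊤ := by
  obtain ⟨Φ, w0, hV, hw⟩ := frame_odd (n := n) hF 1 (by omega)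
  obtain ⟨z, hz0, hg, h1, h2⟩ := gen3 hF hq
  obtain ⟨y, l, hy, l1, l2, _⟩ := exists_tor1 hF Φ (Sum.inl 0) z hz0
  refine su_odd_of hF (by omega) (by omega) Φ w0 hV hw (by omega) y l _ hy (Sum.inl 0) (Sum.inr 0) ?_ ?_ ?_ ?_
  · simp [gam]
  · rw [l1]; exact hg
  · rw [l1]; exact h1
  · have : (Sum.inr 0 : I 1) = ng (Sum.inl 0) := rfl
    rw [this, l2]; exact h2

theorem su_odd2 (hF : Fintype.card F = q ^ 2) (k : ℕ) (hk : 2 ≤ k) (hn : n = 2 * k + 1) :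
    ∃ a b : GS n F q, Subgroup.closure ({a, b} : Set (GS n F q)) = ⊤ := by
  obtain ⟨Φ, w0, hV, hw⟩ := frame_odd (n := n) hF k hn
  obtain ⟨z, hz0, hgz, hgz2, hz1, hz21, hzq, hzqq⟩ := zfacts hF
  have hab : ab (Sum.inl ⟨0, by omega⟩ : I k) ≠ ab (Sum.inr ⟨k - 1, by omega⟩ : I k) := by
    intro h
    have := congrArg Fin.val h
    simp [ab] at this
    omega
  obtain ⟨y, l, hy, l1, l2, l3, l4, l5⟩ := exists_tor2 Φ hF (Sum.inl ⟨0, by omega⟩) (Sum.inr ⟨k - 1, by omega⟩) hab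
    (z ^ q) (pow_ne_zero _ hz0)
  refine su_odd_of hF (by omega) (by omega) Φ w0 hV hw (by omega) y l 1 hy (Sum.inl ⟨0, by omega⟩)
    (Sum.inr ⟨k - 1, by omega⟩) ?_ ?_ ?_ ?_
  · have : ¬ (k - 1 + 1 < k) := by omega
    simp [gam, this]
  · rw [l1, hzqq, mul_one]; exact hgz
  · rw [l1, hzqq, mul_one]; exact hz1
  · rw [l3, inv_pow, hzqq, mul_one]
    intro h
    exact hz1 (inv_eq_one.1 h)

theorem su_even (hF : Fintype.card F = q ^ 2) (k : ℕ) (hk : 2 ≤ k) (hn : n = 2 * k) :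
    ∃ a b : GS n F q, Subgroup.closure ({a, b} : Set (GS n F q)) = ⊤ := by
  obtain ⟨Φ, hV⟩ := frame_even (n := n) hF k hn
  obtain ⟨z, hz0, hgz, hgz2, hz1, hz21, hzq, hzqq⟩ := zfacts hF
  obtain ⟨c, hc⟩ := exists_cox Φ hF (by omega)
  have hq0 : q ≠ 0 := by
    rintro rfl
    have := Fintype.one_lt_card (α := F)
    rw [hF] at this
    simp at this
  set a0 : I k := Sum.inl ⟨0, by omega⟩ with ha0
  set a1 : I k := Sum.inl ⟨1, by omega⟩ with ha1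
  set a' : I k := Sum.inr ⟨k - 1, by omega⟩ with ha'
  have hg01 : gam a0 = a1 := by
    have : (0 + 1 < k) := by omega
    simp [gam, ha0, ha1, this]
  have hga' : gam a' = a0 := by
    have : ¬ (k - 1 + 1 < k) := by omega
    simp [gam, ha0, ha', this]
  have hgf : gam (ng a0) = ng a1 := by
    rw [Cfsg.Agent.Lib.Helper77SpTgam.gam_ng, hg01]
  have hab : ab a0 ≠ ab a1 := by
    intro h
    have := congrArg Fin.val h
    simp [ab, ha0, ha1] at this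
  obtain ⟨y, l, hy, l1, l2, l3, l4, l5⟩ := exists_tor2 Φ hF a0 a1 hab (z ^ q) (pow_ne_zero _ hz0)
  rw [hzqq] at l2 l4
  have hab' : ab a0 ≠ ab (ng a1) := by rw [ab_ng]; exact hab
  obtain ⟨u, hu⟩ := exists_E hF (Φ.v a0) (Φ.v (ng a1)) 0 (iso_v Φ a0) (perp_v Φ a0 (ng a1) hab')
    (by rw [iso_v, zero_pow hq0]; ring)
  refine ⟨y, u * c, ?_⟩
  set M := Subgroup.closure ({y, u * c} : Set (GS n F q)) with hM
  have hyM : y ∈ M := Subgroup.subset_closure (by simp)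
  have hbM : u * c ∈ M := Subgroup.subset_closure (by simp)
  obtain ⟨l', hd', hl'⟩ := dg_conj Φ c y hc l 1 hy
  have e1 : l' (ng a1) = z⁻¹ := by rw [← hgf, hl', l2]
  have hla' : (l a') ^ q * z⁻¹ ≠ 1 := by
    by_cases h2 : k = 2
    · have : a' = ng a1 := by
        subst h2
        rfl
      rw [this, l4]
      intro h
      apply hzq
      field_simp at h
      exact h
    · have h3 : l a' = 1 := by
        apply l5
        · intro h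
          have := congrArg Fin.val h
          simp [ab, ha0, ha'] at this
          omega
        · intro h
          have := congrArg Fin.val h
          simp [ab, ha1, ha'] at this
          omega
      rw [h3, one_pow, one_mul]
      intro h
      exact hz1 (inv_eq_one.1 h)
  have hlam : (l a0) ^ q * l (ng a1) = z ^ 2 := by rw [l1, l4, hzqq]; ring
  obtain ⟨x, s, g0, hx, hg0, e, hs⟩ := seedM hF Φ c y u hc l 1 hy a0 a' hga' (Φ.v (ng a1)) (v_ne_zero Φ _)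
    (perp_v Φ a0 (ng a1) hab') 0 hu (l (ng a1)) z⁻¹ (hy.hv _) (by rw [hd'.hv, e1]) (by rw [hlam]; exact hz21)
    hla' M hyM hbM
  have hs0 : s = 0 := hs (iso_v Φ _) rfl
  subst hs0
  have hXS : XS Φ M a0 (ng a1) := efill Φ M hF a0 (ng a1) hab' y hyM (l a0) (l (ng a1)) (hy.hv _) (hy.hv _)
    (by rw [hlam]; exact hgz2) g0 hg0 x hx e
  have huM : u ∈ M := hXS 1 u (by rw [one_smul]; exact hu)
  have hcM : c ∈ M := by
    have := M.mul_mem (M.inv_mem huM) hbM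
    simpa using this
  exact coreEven hF (by omega) (by omega) Φ M hV hk c hc hcM a0 (by rw [hg01]; exact hXS)

theorem su_two_gen (hF : Fintype.card F = q ^ 2) (hq2 : 2 ≤ q) (hn : 3 ≤ n) (h32 : n = 3 → q ≠ 2) :
    ∃ a b : GS n F q, Subgroup.closure ({a, b} : Set (GS n F q)) = ⊤ := by
  rcases Nat.even_or_odd' n with ⟨k, hk | hk⟩
  · exact su_even hF k (by omega) hk
  · by_cases h1 : k = 1
    · have h3 : n = 3 := by omega
      have := h32 h3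
      exact su_odd1 hF (by omega) h3
    · exact su_odd2 hF k (by omega) hk

end Cfsg.Agent.Lib.H43UgHub
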