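import Cfsg.Agent.Lib.Helper43UgDefs
import Cfsg.Agent.Lib.H43OgGgen
import Cfsg.Agent.Lib.H49SuMonMk
import Cfsg.Agent.Lib.H49SuIso
import Cfsg.Agent.Lib.H43UgEex
import Cfsg.Agent.Lib.H43UgEmul
import Cfsg.Agent.Lib.H43UgEconj
import Cfsg.Agent.Lib.H43UgEtr

set_option autoImplicit false

/-! Project 412, piece `ofill2`.  Sketch: notes/helper43/Ug.md -/

namespace Cfsg.Agent.Lib.H43UgOfill2

open Cfsg.Agent.Lib.Helper43Sp (I ng ab gam)
open Cfsg.Agent.Lib.Helper43Og (Gen)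
open Cfsg.Agent.S0780 (Th)
open Cfsg.Agent.Lib.Helper43Ug
open Cfsg.Agent.Lib.H43UgEex
open Cfsg.Agent.Lib.H43UgEmul
open Cfsg.Agent.Lib.H43UgEconj
open Cfsg.Agent.Lib.H43UgEtr

variable {F : Type*} [Field F] [Fintype F] {q n : ℕ}
variable {k e0 : ℕ} (Φ : UFrame n F q k e0) (M : Subgroup (GS n F q))

theorem ofill2 (hF : Fintype.card F = q ^ 2) (w0 : Fin n → F) (h0 : w0 ∈ Φ.V0)
    (hw : Cfsg.hermForm n F q w0 w0 = 1) (a : I k)
    (h : ∀ t : F, ∃ (s' : F) (g : GS n F q), g ∈ M ∧ IsE g (Φ.v a) (t • w0) s') :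
    ∀ (s : F) (g : GS n F q), IsE g (Φ.v a) 0 s → g ∈ M := by
  intro s g hg
  have hH := Cfsg.Agent.Lib.Helper17Heis.herm_concrete hF n
  have hv : Cfsg.hermForm n F q (Φ.v a) (Φ.v a) = 0 := by
    rw [Φ.pol a a, if_neg]
    cases a <;> simp [ng]
  obtain ⟨β, hβ⟩ := trace_of_IsE hF (v_ne_zero Φ a) hv hg
  obtain ⟨s1, g1, hg1, e1⟩ := h 1
  obtain ⟨s2, g2, hg2, e2⟩ := h β
  rw [one_smul] at e1
  have p0 : Cfsg.hermForm n F q w0 (Φ.v a) = 0 := Φ.perp a w0 h0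
  have p1 : Cfsg.hermForm n F q (β • w0) (Φ.v a) = 0 := by rw [hH.smul_left, p0, mul_zero]
  have e12 := IsE_mul hF hv p0 p1 e1 e2
  have e21 := IsE_mul hF hv p1 p0 e2 e1
  have p2 : Cfsg.hermForm n F q (β • w0 + w0) (Φ.v a) = 0 := by rw [hH.add_left, p0, p1, add_zero]
  have p3 : Cfsg.hermForm n F q (w0 + β • w0) (Φ.v a) = 0 := by rw [hH.add_left, p0, p1, add_zero]
  have e21i := IsE_inv hF hv p2 e21
  have p4 : Cfsg.hermForm n F q (-(β • w0 + w0)) (Φ.v a) = 0 := by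
    rw [← neg_one_smul F, hH.smul_left, p2, mul_zero]
  have e := IsE_mul hF hv p3 p4 e12 e21i
  have hu : w0 + β • w0 + -(β • w0 + w0) = 0 := by abel
  have hs : s1 + s2 - Cfsg.hermForm n F q (β • w0) w0 +
      (-(s2 + s1 - Cfsg.hermForm n F q w0 (β • w0)) -
        Cfsg.hermForm n F q (β • w0 + w0) (β • w0 + w0)) -
      Cfsg.hermForm n F q (-(β • w0 + w0)) (w0 + β • w0) = s := by
    have c1 : Cfsg.hermForm n F q (-(β • w0 + w0)) (w0 + β • w0)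
        = - Cfsg.hermForm n F q (β • w0 + w0) (β • w0 + w0) := by
      rw [← neg_one_smul F, hH.smul_left, add_comm w0 (β • w0)]; ring
    have c2 : Cfsg.hermForm n F q (β • w0) w0 = β := by rw [hH.smul_left, hw, mul_one]
    have c3 : Cfsg.hermForm n F q w0 (β • w0) = β ^ q := by
      rw [hH.smul_right, hw, mul_one, Cfsg.Agent.Lib.Helper17HermC.sig_apply]
    rw [c1, c2, c3, hβ]; ring
  rw [hu, hs] at e
  rw [IsE_uniq hg e]
  exact M.mul_mem (M.mul_mem hg1 hg2) (M.inv_mem (M.mul_mem hg2 hg1))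

end Cfsg.Agent.Lib.H43UgOfill2
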