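import Mathlib
import Cfsg.Agent.Lib.H45SqDefs
import Cfsg.Agent.Lib.Helper45Sp

set_option autoImplicit false

namespace Cfsg.Agent.Lib.H45SqAltIsom

open Module QuadraticMap Cfsg.Agent.Lib.Helper45OspDefs Cfsg.Agent.Lib.H45SqDefs

universe u w

universe w'

/-- piece `AltIsom`. `Helper45Sp.exists_symplectic_basis` for both spaces; `T = b.equivFun.trans b'.equivFun.symm`. -/
theorem alt_isom {F : Type u} [Field F] {W : Type w} [AddCommGroup W] [Module F W] [Module.Finite F W]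
    {W' : Type w'} [AddCommGroup W'] [Module F W'] [Module.Finite F W'] (n : ℕ)
    (β : LinearMap.BilinForm F W) (β' : LinearMap.BilinForm F W') (hA : β.IsAlt) (hA' : β'.IsAlt)
    (hB : ∀ u, (∀ v, β u v = 0) → u = 0) (hB' : ∀ u, (∀ v, β' u v = 0) → u = 0)
    (hW : finrank F W = 2 * n) (hW' : finrank F W' = 2 * n) :
    ∃ T : W ≃ₗ[F] W', ∀ u v, β' (T u) (T v) = β u v := by
  obtain ⟨b, hb⟩ := Cfsg.Agent.Lib.Helper45Sp.exists_symplectic_basis β hA hB hW
  obtain ⟨b', hb'⟩ := Cfsg.Agent.Lib.Helper45Sp.exists_symplectic_basis β' hA' hB' hW'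
  refine ⟨b.equivFun.trans b'.equivFun.symm, fun u v => ?_⟩
  rw [← hb', ← hb, LinearEquiv.trans_apply, LinearEquiv.trans_apply,
    LinearEquiv.apply_symm_apply, LinearEquiv.apply_symm_apply]

end Cfsg.Agent.Lib.H45SqAltIsom
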