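import Mathlib
import Cfsg.Agent.Lib.H45SqDefs


set_option autoImplicit false

namespace Cfsg.Agent.Lib.H45SqAr

open Module QuadraticMap Cfsg.Agent.Lib.Helper45OspDefs Cfsg.Agent.Lib.H45SqDefs

universe u w

theorem not_dvd_pow (q d r k : ℕ) (hq : q = 2 ^ k) (hr : r.Prime) (hr2 : r ≠ 2) : ¬ r ∣ q ^ d := by
  intro h
  have h1 := hr.dvd_of_dvd_pow h
  rw [hq] at h1
  have h2 := hr.dvd_of_dvd_pow h1
  exact hr2 ((Nat.prime_dvd_prime_iff_eq hr Nat.prime_two).1 h2)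

/-- piece `Ar` (a), pure arithmetic: `r` odd prime divides `2 I = q^d (q^d ± 1)`, `q` a power of `2`, so `r ∤ q^d`. -/
theorem dvd_plus (q d r I k : ℕ) (hq : q = 2 ^ k) (hr : r.Prime) (hr2 : r ≠ 2) (hI : r ∣ I)
    (h : 2 * I = q ^ d * (q ^ d + 1)) : r ∣ q ^ d + 1 := by
  have h1 : r ∣ q ^ d * (q ^ d + 1) := h ▸ Dvd.dvd.mul_left hI 2
  rcases hr.dvd_mul.1 h1 with h2 | h2
  · exact absurd h2 (not_dvd_pow q d r k hq hr hr2)
  · exact h2

theorem dvd_minus (q d r I k : ℕ) (hq : q = 2 ^ k) (hr : r.Prime) (hr2 : r ≠ 2) (hI : r ∣ I)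
    (h : 2 * I = q ^ d * (q ^ d - 1)) : r ∣ q ^ d - 1 := by
  have h1 : r ∣ q ^ d * (q ^ d - 1) := h ▸ Dvd.dvd.mul_left hI 2
  rcases hr.dvd_mul.1 h1 with h2 | h2
  · exact absurd h2 (not_dvd_pow q d r k hq hr hr2)
  · exact h2

/-- piece `Ar` (b), pure arithmetic. -/
theorem no_plus (q : ℤ) (m r : ℕ) (hm : 1 ≤ m) (hr : r.Prime) (hr2 : r ≠ 2)
    (h1 : (r : ℤ) ∣ q ^ m + 1)
    (h2 : (r : ℤ) ∣ q ^ (2 * m - 1) + 1 * (q ^ m - q ^ (m - 1)) - 1) : False := by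
  obtain ⟨k, rfl⟩ : ∃ k, m = k + 1 := ⟨m - 1, by omega⟩
  have hp : Prime (r : ℤ) := Nat.prime_iff_prime_int.1 hr
  have hn2 : ¬ (r : ℤ) ∣ 2 := by
    intro h
    have : r ∣ 2 := by exact_mod_cast h
    exact hr2 ((Nat.prime_dvd_prime_iff_eq hr Nat.prime_two).1 this)
  have e1 : 2 * (k + 1) - 1 = (k + 1) + k := by omega
  have e2 : k + 1 - 1 = k := by omega
  rw [e1, e2] at h2
  have h3 : (r : ℤ) ∣ (q ^ (k + 1) - 1) * (q ^ k + 1) := by
    have : q ^ (k + 1 + k) + 1 * (q ^ (k + 1) - q ^ k) - 1 = (q ^ (k + 1) - 1) * (q ^ k + 1) := by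
      ring
    rwa [this] at h2
  rcases hp.dvd_or_dvd h3 with h4 | h4
  · apply hn2
    have := dvd_sub h1 h4
    have e : q ^ (k + 1) + 1 - (q ^ (k + 1) - 1) = 2 := by ring
    rwa [e] at this
  · have h5 : (r : ℤ) ∣ q ^ k * (q - 1) := by
      have := dvd_sub h1 h4
      have e : q ^ (k + 1) + 1 - (q ^ k + 1) = q ^ k * (q - 1) := by ring
      rwa [e] at this
    rcases hp.dvd_or_dvd h5 with h6 | h6
    · have : (r : ℤ) ∣ 1 := by
        have := dvd_sub h4 h6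
        simpa using this
      exact hp.not_isUnit (isUnit_of_dvd_one this)
    · -- q ≡ 1
      have h7 : (r : ℤ) ∣ q ^ (k + 1) - 1 := by
        have := sub_dvd_pow_sub_pow q 1 (k + 1)
        rw [one_pow] at this
        exact h6.trans this
      apply hn2
      have := dvd_sub h1 h7
      have e : q ^ (k + 1) + 1 - (q ^ (k + 1) - 1) = 2 := by ring
      rwa [e] at this

end Cfsg.Agent.Lib.H45SqAr
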