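import Mathlib
import Cfsg.Agent.Lib.H45SqDefs


set_option autoImplicit false

namespace Cfsg.Agent.Lib.H45SqFib

open Module QuadraticMap Cfsg.Agent.Lib.Helper45OspDefs Cfsg.Agent.Lib.H45SqDefs

universe u w

/-- piece `Fib`. A nonzero linear functional on a finite space takes every value `|K|/q` times. -/
theorem card_fiber {F : Type u} [Field F] [Fintype F] {K : Type w} [AddCommGroup K] [Module F K]
    [Finite K] (φ : K →ₗ[F] F) (hφ : φ ≠ 0) (c : F) :
    Fintype.card F * Nat.card {k : K // φ k = c} = Nat.card K := by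
  classical
  have hsurj : Function.Surjective φ := by
    obtain ⟨k₀, hk₀⟩ : ∃ k, φ k ≠ 0 := by
      by_contra h
      push Not at h
      exact hφ (LinearMap.ext h)
    intro a
    exact ⟨(a / φ k₀) • k₀, by simp [hk₀]⟩
  have hall : ∀ a b : F, Nat.card {k : K // φ k = a} = Nat.card {k : K // φ k = b} := by
    intro a b
    obtain ⟨k₁, hk₁⟩ := hsurj (b - a)
    refine Nat.card_congr ⟨fun k => ⟨k.1 + k₁, by rw [map_add, k.2, hk₁]; ring⟩,
      fun k => ⟨k.1 - k₁, by rw [map_sub, k.2, hk₁]; ring⟩, ?_, ?_⟩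
    · intro k; ext; simp
    · intro k; ext; simp
  have h1 : Nat.card K = Nat.card (Σ a : F, {k : K // φ k = a}) :=
    Nat.card_congr (Equiv.sigmaFiberEquiv φ).symm
  rw [h1, Nat.card_sigma]
  simp [hall _ c]

end Cfsg.Agent.Lib.H45SqFib
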