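import Mathlib
import Cfsg.Agent.Lib.H45SqDefs


set_option autoImplicit false

namespace Cfsg.Agent.Lib.H45SqTw

open Module QuadraticMap Cfsg.Agent.Lib.Helper45OspDefs Cfsg.Agent.Lib.H45SqDefs

universe u w

variable {F : Type u} [Field F] {W : Type w} [AddCommGroup W] [Module F W]

/-- piece `Tw` (a) -/
theorem tw_apply (Q : QuadraticForm F W) (a v : W) : tw Q a v = Q v + polar Q a v ^ 2 := by
  simp [tw, pow_two]

/-- piece `Tw` (b): the polar form of `v ↦ (φ v)^2` is `2 φ u φ v = 0`. -/
theorem sp_tw [CharP F 2] (Q : QuadraticForm F W) (a : W) : SP Q (tw Q a) := by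
  intro u v
  have h2 : (2 : F) = 0 := CharTwo.two_eq_zero
  have e : polar Q a (u + v) = polar Q a u + polar Q a v := polar_add_right Q a u v
  simp only [polar, tw_apply]
  simp only [polar] at e
  rw [e]
  linear_combination ((Q (a + u) - Q a - Q u) * (Q (a + v) - Q a - Q v)) * h2

/-- piece `Tw` (c) -/
theorem qiso_tw (Q : QuadraticForm F W) (X : End F W) (a : W) (hQ : QIso Q X) (ha : X a = a) :
    QIso (tw Q a) X := by
  intro v
  rw [tw_apply, tw_apply, hQ v]
  have : polar Q a (X v) = polar Q a v := by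
    unfold polar
    have h1 : a + X v = X (a + v) := by rw [map_add, ha]
    rw [h1, hQ, hQ]
  rw [this]

/-- piece `Tw` (d) -/
theorem nondeg_of_sp (Q Q' : QuadraticForm F W) (h : SP Q Q') (hQ : (polarBilin Q).Nondegenerate) :
    (polarBilin Q').Nondegenerate := by
  have : polarBilin Q' = polarBilin Q := by
    ext u v
    exact h u v
  rw [this]; exact hQ

end Cfsg.Agent.Lib.H45SqTw
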