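import Mathlib
import Cfsg.Agent.Lib.H45SqDefs
import Cfsg.Agent.Lib.H45SqFib
import Cfsg.Agent.Lib.H45SqTw

set_option autoImplicit false

namespace Cfsg.Agent.Lib.H45SqAvg

open Module QuadraticMap Cfsg.Agent.Lib.Helper45OspDefs Cfsg.Agent.Lib.H45SqDefs

universe u w

/-- pairs fibred over the second coordinate -/
def pairEquiv {K : Type u} {W : Type w} (P : K → W → Prop) :
    {p : K × W // P p.1 p.2} ≃ Σ v : W, {k : K // P k v} where
  toFun p := ⟨p.1.2, ⟨p.1.1, p.2⟩⟩
  invFun s := ⟨(s.2.1, s.1), s.2.2⟩
  left_inv := fun ⟨⟨_, _⟩, _⟩ => rfl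
  right_inv := fun ⟨_, ⟨_, _⟩⟩ => rfl

theorem fibre {F : Type u} [Field F] [Fintype F] [CharP F 2] {W : Type w} [AddCommGroup W]
    [Module F W] [Module.Finite F W] (Q : QuadraticForm F W) (K : Submodule F W) (v : W)
    [Decidable (v ∈ LinearMap.BilinForm.orthogonal (polarBilin Q) K)] [Decidable (Q v = 0)] :
    Fintype.card F * Nat.card {k : K // tw Q (k : W) v = 0} =
      if v ∈ LinearMap.BilinForm.orthogonal (polarBilin Q) K then
        (if Q v = 0 then Fintype.card F * Nat.card K else 0) else Nat.card K := by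
  have : Finite W := Module.finite_of_finite F
  split_ifs with h1 h2
  · congr 1
    refine Nat.card_congr (Equiv.subtypeUnivEquiv ?_)
    intro k
    have hk : polar Q (k : W) v = 0 := (LinearMap.BilinForm.mem_orthogonal_iff.1 h1) k k.2
    rw [H45SqTw.tw_apply, hk, h2]; simp
  · have : IsEmpty {k : K // tw Q (k : W) v = 0} := by
      refine ⟨fun ⟨k, hk⟩ => h2 ?_⟩
      have hk' : polar Q (k : W) v = 0 := (LinearMap.BilinForm.mem_orthogonal_iff.1 h1) k k.2
      rw [H45SqTw.tw_apply, hk'] at hk
      simpa using hk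
    rw [Nat.card_of_isEmpty, mul_zero]
  · obtain ⟨s, hs⟩ := FiniteField.isSquare_of_char_two (CharP.ringChar_of_prime_eq_zero Nat.prime_two
      (CharTwo.two_eq_zero (R := F))) (Q v)
    let φ : K →ₗ[F] F := ((polarBilin Q).flip v).comp K.subtype
    have hφa : ∀ k : K, φ k = polar Q (k : W) v := fun k => rfl
    have hφ : φ ≠ 0 := by
      intro h0
      apply h1
      rw [LinearMap.BilinForm.mem_orthogonal_iff]
      intro k hk
      have := LinearMap.congr_fun h0 ⟨k, hk⟩
      exact this
    rw [← H45SqFib.card_fiber φ hφ s]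
    congr 1
    refine Nat.card_congr (Equiv.subtypeEquivRight ?_)
    intro k
    rw [H45SqTw.tw_apply, hφa, hs]
    constructor
    · intro h
      have h3 : (s + polar Q (k : W) v) ^ 2 = 0 := by
        rw [CharTwo.add_sq]; rw [← h]; ring
      have h4 := pow_eq_zero_iff (two_ne_zero) |>.1 h3
      exact (CharTwo.add_eq_zero.1 h4).symm
    · intro h
      rw [h, ← _root_.sq]
      exact CharTwo.add_self_eq_zero _

/-- piece `Avg` (double counting). -/
theorem avg {F : Type u} [Field F] [Fintype F] [CharP F 2] {W : Type w} [AddCommGroup W]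
    [Module F W] [Module.Finite F W] (Q : QuadraticForm F W) (K : Submodule F W) :
    Fintype.card F * Nat.card {p : K × W // tw Q (p.1 : W) p.2 = 0} =
      Fintype.card F * (Nat.card K *
        Nat.card {v : W // v ∈ LinearMap.BilinForm.orthogonal (polarBilin Q) K ∧ Q v = 0}) +
      (Nat.card W - Nat.card (LinearMap.BilinForm.orthogonal (polarBilin Q) K)) * Nat.card K := by
  classical
  have : Finite W := Module.finite_of_finite F
  have := Fintype.ofFinite W
  rw [Nat.card_congr (pairEquiv (fun (k : K) (v : W) => tw Q (k : W) v = 0)), Nat.card_sigma,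
    Finset.mul_sum]
  simp_rw [fibre Q K]
  rw [Finset.sum_ite, Finset.sum_const, ← Finset.sum_filter, Finset.sum_const, Finset.filter_filter]
  have e1 : Nat.card {v : W // v ∈ LinearMap.BilinForm.orthogonal (polarBilin Q) K ∧ Q v = 0} =
      (Finset.univ.filter (fun v : W =>
        v ∈ LinearMap.BilinForm.orthogonal (polarBilin Q) K ∧ Q v = 0)).card := by
    rw [Nat.card_eq_fintype_card, Fintype.card_subtype]
  have e2 : (Finset.univ.filter (fun v : W =>
        ¬ v ∈ LinearMap.BilinForm.orthogonal (polarBilin Q) K)).card =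
      Nat.card W - Nat.card (LinearMap.BilinForm.orthogonal (polarBilin Q) K) := by
    rw [Finset.filter_not, Finset.card_sdiff_of_subset (Finset.filter_subset _ _), Finset.card_univ,
      Nat.card_eq_fintype_card, Nat.card_eq_fintype_card, Fintype.card_subtype]
  rw [e1, e2, smul_eq_mul, smul_eq_mul]
  ring

end Cfsg.Agent.Lib.H45SqAvg
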