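import Mathlib
import Cfsg.Agent.Lib.H45SqDefs


set_option autoImplicit false

namespace Cfsg.Agent.Lib.H45SqSig

open Module QuadraticMap Cfsg.Agent.Lib.Helper45OspDefs Cfsg.Agent.Lib.H45SqDefs

universe u w

/-- piece `Sig` (pure counting). -/
theorem card_pairs {K : Type u} {W : Type w} [Finite K] [Finite W] (P : K → W → Prop) (Z : ℕ)
    (h : ∀ k, Nat.card {v : W // P k v} = Z) :
    Nat.card {p : K × W // P p.1 p.2} = Nat.card K * Z := by
  classical
  have := Fintype.ofFinite K
  rw [Nat.card_congr (Equiv.subtypeProdEquivSigmaSubtype P), Nat.card_sigma]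
  simp [h]

end Cfsg.Agent.Lib.H45SqSig
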