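import Mathlib
import Cfsg.Agent.Lib.H45SqDefs


set_option autoImplicit false

namespace Cfsg.Agent.Lib.H45SqSqrt

open Module QuadraticMap Cfsg.Agent.Lib.Helper45OspDefs Cfsg.Agent.Lib.H45SqDefs

universe u w

/-- piece `Sqrt` (pure). -/
theorem exists_lin {F : Type u} [Field F] [Fintype F] [CharP F 2] {W : Type w} [AddCommGroup W]
    [Module F W] (δ : W → F) (hadd : ∀ u v, δ (u + v) = δ u + δ v)
    (hsm : ∀ (c : F) (v : W), δ (c • v) = c ^ 2 * δ v) : ∃ l : W →ₗ[F] F, ∀ v, δ v = l v ^ 2 := by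
  have hinj : ∀ a b : F, a ^ 2 = b ^ 2 → a = b := by
    intro a b h
    exact frobenius_inj F 2 h
  have hsq : ∀ a : F, ∃ b : F, b ^ 2 = a := by
    intro a
    obtain ⟨b, hb⟩ := FiniteField.isSquare_of_char_two (CharP.ringChar_of_prime_eq_zero Nat.prime_two (CharTwo.two_eq_zero)) a
    exact ⟨b, by rw [hb, pow_two]⟩
  choose s hs using hsq
  refine ⟨{ toFun := fun v => s (δ v), map_add' := ?_, map_smul' := ?_ }, fun v => (hs _).symm⟩
  · intro u v
    apply hinj
    rw [CharTwo.add_sq, hs, hs, hs, hadd]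
  · intro c v
    apply hinj
    simp only [RingHom.id_apply, smul_eq_mul]
    rw [mul_pow, hs, hs, hsm]

end Cfsg.Agent.Lib.H45SqSqrt
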