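import Mathlib
import Cfsg.Agent.Lib.H45SqDefs
import Cfsg.Agent.Lib.H45SqFib
import Cfsg.Agent.Lib.H45SqSqrt

set_option autoImplicit false

namespace Cfsg.Agent.Lib.H45SqZperp

open Module QuadraticMap Cfsg.Agent.Lib.Helper45OspDefs Cfsg.Agent.Lib.H45SqDefs

universe u w

/-- piece `Zperp`. -/
theorem zperp {F : Type u} [Field F] [Fintype F] [CharP F 2] {W : Type w} [AddCommGroup W]
    [Module F W] [Module.Finite F W] (Q : QuadraticForm F W) (L : Submodule F W)
    (hL : ∀ u ∈ L, ∀ v ∈ L, polar Q u v = 0) :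
    (∀ v ∈ L, Q v = 0) ∨
      Fintype.card F * Nat.card {v : W // v ∈ L ∧ Q v = 0} = Nat.card L := by
  have : Finite W := Module.finite_of_finite F
  obtain ⟨l, hl⟩ := Cfsg.Agent.Lib.H45SqSqrt.exists_lin (F := F) (W := L) (fun v => Q v.1)
    (by
      rintro ⟨u, hu⟩ ⟨v, hv⟩
      have h := hL u hu v hv
      unfold polar at h
      show Q (u + v) = Q u + Q v
      linear_combination h)
    (by
      rintro c ⟨v, hv⟩
      show Q (c • v) = c ^ 2 * Q v
      rw [QuadraticMap.map_smul, pow_two, smul_eq_mul])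
  by_cases h0 : l = 0
  · left
    intro v hv
    have := hl ⟨v, hv⟩
    simp only [h0, LinearMap.zero_apply] at this
    simpa using this
  · right
    rw [← Cfsg.Agent.Lib.H45SqFib.card_fiber l h0 0]
    congr 1
    refine Nat.card_congr ⟨fun v => ⟨⟨v.1, v.2.1⟩, ?_⟩, fun v => ⟨v.1.1, v.1.2, ?_⟩, ?_, ?_⟩
    · have := hl ⟨v.1, v.2.1⟩
      simp only [v.2.2] at this
      exact pow_eq_zero_iff (two_ne_zero) |>.mp this.symm
    · have := hl v.1
      simp only [v.2] at this
      simpa using this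
    · intro v; rfl
    · intro v; rfl

end Cfsg.Agent.Lib.H45SqZperp
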