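import Mathlib
import Cfsg.Agent.Lib.H45SqDefs
import Cfsg.Agent.Lib.H45SqAvg
import Cfsg.Agent.Lib.H45SqSig
import Cfsg.Agent.Lib.H45SqZperp

set_option autoImplicit false

namespace Cfsg.Agent.Lib.H45SqAvgFin

open Module QuadraticMap Cfsg.Agent.Lib.Helper45OspDefs Cfsg.Agent.Lib.H45SqDefs

universe u w

theorem natCard_eq {F : Type u} [Field F] [Fintype F] (M : Type w) [AddCommGroup M] [Module F M]
    [Module.Finite F M] : Nat.card M = Fintype.card F ^ finrank F M := by
  have : Finite M := Module.finite_of_finite F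
  have := Fintype.ofFinite M
  rw [Nat.card_eq_fintype_card, Module.card_eq_pow_finrank (K := F)]

/-- the arithmetic core -/
theorem arith (q : ℤ) (hq : 2 ≤ q) (m s : ℕ) (hm : 1 ≤ m) (ε' z Z : ℤ) (hε' : ε' = 1 ∨ ε' = -1)
    (hZ : Z = q ^ (2 * m - 1) + ε' * (q ^ m - q ^ (m - 1)))
    (h : q * Z = q * z + (q ^ (2 * m) - q ^ s)) (hz : z = q ^ s ∨ q * z = q ^ s) :
    ε' = 1 ∧ z = q ^ s ∧ s = m := by
  obtain ⟨k, rfl⟩ : ∃ k, m = k + 1 := ⟨m - 1, by omega⟩
  have e1 : 2 * (k + 1) - 1 = 2 * k + 1 := by omega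
  have e2 : k + 1 - 1 = k := by omega
  rw [e1, e2] at hZ
  have hq0 : 0 < q := by linarith
  have hk : 0 < q ^ k := pow_pos hq0 k
  have key : ε' * (q ^ (k + 1) * (q - 1)) = q * z - q ^ s := by
    have : q * Z = q ^ (2 * (k + 1)) + ε' * (q ^ (k + 1) * (q - 1)) := by
      rw [hZ]; ring
    linarith
  have hpos : 0 < q ^ (k + 1) * (q - 1) := mul_pos (pow_pos hq0 _) (by linarith)
  rcases hz with hz | hz
  · rw [hz] at key
    have key2 : ε' * q ^ (k + 1) = q ^ s := by
      have : (ε' * q ^ (k + 1) - q ^ s) * (q - 1) = 0 := by linarith [key]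
      rcases mul_eq_zero.1 this with h | h
      · linarith
      · exfalso; linarith
    have hs0 : 0 < q ^ s := pow_pos hq0 s
    rcases hε' with rfl | rfl
    · refine ⟨rfl, hz, ?_⟩
      rw [one_mul] at key2
      exact (pow_right_injective₀ hq0 (by linarith) key2).symm
    · exfalso
      have : 0 < q ^ (k + 1) := pow_pos hq0 _
      linarith
  · exfalso
    rw [hz, sub_self] at key
    rcases hε' with rfl | rfl <;> linarith

/-- piece `AvgFin`. -/
theorem avg_fin {F : Type u} [Field F] [Fintype F] [CharP F 2] {W : Type w} [AddCommGroup W]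
    [Module F W] [Module.Finite F W] (m : ℕ) (hm : 1 ≤ m) (Q : QuadraticForm F W)
    (hnd : (polarBilin Q).Nondegenerate) (hW : finrank F W = 2 * m) (ε' : ℤ)
    (hε' : ε' = 1 ∨ ε' = -1) (K : Submodule F W) (hK : LinearMap.BilinForm.orthogonal (polarBilin Q) K ≤ K)
    (hall : ∀ k ∈ K, Typ ε' m (tw Q k)) :
    ε' = 1 ∧ (∀ v ∈ LinearMap.BilinForm.orthogonal (polarBilin Q) K, Q v = 0) ∧ finrank F K = m := by
  classical
  have : Finite W := Module.finite_of_finite F
  set L := LinearMap.BilinForm.orthogonal (polarBilin Q) K with hLdef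
  have hq2 : 2 ≤ Fintype.card F := Fintype.one_lt_card
  have hs : finrank F L = finrank F W - finrank F K :=
    LinearMap.BilinForm.finrank_orthogonal hnd K
  have hkle : finrank F K ≤ finrank F W := Submodule.finrank_le K
  have cW : Nat.card W = Fintype.card F ^ (2 * m) := by rw [natCard_eq (F := F) W, hW]
  have cL : Nat.card L = Fintype.card F ^ finrank F L := natCard_eq (F := F) L
  have cK : 0 < Nat.card K := Nat.card_pos
  have hLW : Nat.card L ≤ Nat.card W := by
    rw [cL, cW, ← hW]
    exact Nat.pow_le_pow_right (by omega) (Submodule.finrank_le L)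
  -- all twisted forms have the same number of zeros
  set Z := Nat.card {v : W // tw Q (0 : W) v = 0} with hZdef
  have hZ : (Z : ℤ) = (Fintype.card F : ℤ) ^ (2 * m - 1)
      + ε' * ((Fintype.card F : ℤ) ^ m - (Fintype.card F : ℤ) ^ (m - 1)) :=
    (hall 0 K.zero_mem).2.2.2
  have hZk : ∀ k : K, Nat.card {v : W // tw Q (k : W) v = 0} = Z := by
    intro k
    have := (hall k k.2).2.2.2
    rw [← hZ] at this
    exact_mod_cast this
  have hpairs := H45SqSig.card_pairs (fun (k : K) (v : W) => tw Q (k : W) v = 0) Z hZk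
  have havg := H45SqAvg.avg Q K
  rw [hpairs] at havg
  set z := Nat.card {v : W // v ∈ L ∧ Q v = 0} with hzdef
  have h1 : Fintype.card F * Z = Fintype.card F * z + (Nat.card W - Nat.card L) := by
    have : Nat.card K * (Fintype.card F * Z) =
        Nat.card K * (Fintype.card F * z + (Nat.card W - Nat.card L)) := by
      rw [mul_add]
      linarith [havg]
    exact Nat.eq_of_mul_eq_mul_left cK this
  have hLiso : ∀ u ∈ L, ∀ v ∈ L, polar Q u v = 0 := by
    intro u hu v hv
    exact (LinearMap.BilinForm.mem_orthogonal_iff.1 hv) u (hK hu)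
  have hzp := H45SqZperp.zperp Q L hLiso
  have hz : (z : ℤ) = (Fintype.card F : ℤ) ^ finrank F L ∨
      (Fintype.card F : ℤ) * z = (Fintype.card F : ℤ) ^ finrank F L := by
    rcases hzp with h | h
    · left
      have : z = Nat.card L := by
        refine Nat.card_congr (Equiv.subtypeEquivRight ?_)
        intro v
        exact ⟨fun hv => hv.1, fun hv => ⟨hv, h v hv⟩⟩
      rw [this, cL]; push_cast; rfl
    · right
      rw [cL] at h
      exact_mod_cast h
  have h1' : (Fintype.card F : ℤ) * Z = (Fintype.card F : ℤ) * z +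
      ((Fintype.card F : ℤ) ^ (2 * m) - (Fintype.card F : ℤ) ^ finrank F L) := by
    have := congrArg (Nat.cast : ℕ → ℤ) h1
    rw [Nat.cast_add, Nat.cast_sub hLW, cW, cL] at this
    push_cast at this
    exact this
  obtain ⟨a1, a2, a3⟩ := arith (Fintype.card F : ℤ) (by exact_mod_cast hq2) m (finrank F L) hm ε' z Z
    hε' hZ h1' hz
  refine ⟨a1, ?_, by omega⟩
  rcases hzp with h | h
  · exact h
  · exfalso
    rw [cL] at h
    have h' : (Fintype.card F : ℤ) * z = (Fintype.card F : ℤ) ^ finrank F L := by exact_mod_cast h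
    rw [a2] at h'
    have hp : (0 : ℤ) < (Fintype.card F : ℤ) ^ finrank F L := by positivity
    have hq' : (2 : ℤ) ≤ (Fintype.card F : ℤ) := by exact_mod_cast hq2
    nlinarith

end Cfsg.Agent.Lib.H45SqAvgFin
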