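import Mathlib
import Cfsg.Agent.Lib.H45SqDefs
import Cfsg.Agent.Lib.H45SqInf

set_option autoImplicit false

namespace Cfsg.Agent.Lib.H45SqBridgeA

open Module QuadraticMap Cfsg.Agent.Lib.Helper45OspDefs Cfsg.Agent.Lib.H45SqDefs
  Cfsg.Agent.Lib.Helper95Basic

universe u w

/-- piece `BridgeA`. -/
theorem fx_of_conj {F : Type u} [Field F] (d : ℕ) (hd : 1 ≤ d)
    (Q₀ : QuadraticForm F (Fin d ⊕ Fin d → F))
    (hpol : ∀ u v, polar Q₀ u v = Cfsg.sympForm d F u v)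
    (x : Matrix.GeneralLinearGroup (Fin d ⊕ Fin d) F) (hx : x ∈ Cfsg.spGL d F)
    (h : ∃ g ∈ Cfsg.spGL d F, g⁻¹ * x * g ∈ Cfsg.Geo.quadSimilarityGroup (⇑Q₀)) :
    Fx Q₀ (Matrix.toLin' (x : Matrix (Fin d ⊕ Fin d) (Fin d ⊕ Fin d) F)) := by
  obtain ⟨g, hg, hy⟩ := h
  have hy2 : g⁻¹ * x * g ∈ Cfsg.isometryGroup F (⇑Q₀) := by
    rw [← H45SqInf.inf_eq d hd Q₀ hpol]
    exact ⟨hy, Subgroup.mul_mem _ (Subgroup.mul_mem _ (Subgroup.inv_mem _ hg) hx) hg⟩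
  rw [H45SqInf.mem_iso_iff] at hy2
  have hgi := (Cfsg.Agent.Lib.Helper95SpStd.mem_spGL_iff d g⁻¹).1 (Subgroup.inv_mem _ hg)
  let Q' : QuadraticForm F (Fin d ⊕ Fin d → F) :=
    Q₀.comp (Matrix.toLin' ((g⁻¹ : Matrix.GeneralLinearGroup (Fin d ⊕ Fin d) F) :
      Matrix (Fin d ⊕ Fin d) (Fin d ⊕ Fin d) F))
  have hQ' : ∀ w, Q' w = Q₀ (((g⁻¹ : Matrix.GeneralLinearGroup (Fin d ⊕ Fin d) F) :
      Matrix (Fin d ⊕ Fin d) (Fin d ⊕ Fin d) F).mulVec w) := fun w => rfl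
  refine ⟨Q', ?_, ?_, glEquiv _ F g, ?_⟩
  · intro u v
    have : polar Q' u v = polar Q₀ (((g⁻¹ : Matrix.GeneralLinearGroup (Fin d ⊕ Fin d) F) :
      Matrix (Fin d ⊕ Fin d) (Fin d ⊕ Fin d) F).mulVec u) (((g⁻¹ : Matrix.GeneralLinearGroup (Fin d ⊕ Fin d) F) :
      Matrix (Fin d ⊕ Fin d) (Fin d ⊕ Fin d) F).mulVec v) := by
      unfold polar
      rw [hQ', hQ', hQ', Matrix.mulVec_add]
    rw [this, hpol, hpol, hgi]
  · intro w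
    rw [Matrix.toLin'_apply, hQ', hQ']
    have := hy2 (((g⁻¹ : Matrix.GeneralLinearGroup (Fin d ⊕ Fin d) F) :
      Matrix (Fin d ⊕ Fin d) (Fin d ⊕ Fin d) F).mulVec w)
    rw [Matrix.mulVec_mulVec, ← Units.val_mul, mul_assoc, mul_inv_cancel, mul_one, Units.val_mul,
      ← Matrix.mulVec_mulVec] at this
    exact this
  · intro v
    rw [hQ', glEquiv_apply, Matrix.mulVec_mulVec, ← Units.val_mul, inv_mul_cancel, Units.val_one,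
      Matrix.one_mulVec]

end Cfsg.Agent.Lib.H45SqBridgeA
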