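import Mathlib
import Cfsg.Agent.Lib.H45SqDefs
import Cfsg.Agent.Lib.Helper95SpStd

set_option autoImplicit false

namespace Cfsg.Agent.Lib.H45SqBridgeB

open Module QuadraticMap Cfsg.Agent.Lib.Helper45OspDefs Cfsg.Agent.Lib.H45SqDefs
  Cfsg.Agent.Lib.Helper95Basic

universe u w

/-- piece `BridgeB`. -/
theorem conj_of_fx {F : Type u} [Field F] (d : ℕ)
    (Q₀ : QuadraticForm F (Fin d ⊕ Fin d → F))
    (hpol : ∀ u v, polar Q₀ u v = Cfsg.sympForm d F u v)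
    (x : Matrix.GeneralLinearGroup (Fin d ⊕ Fin d) F)
    (h : Fx Q₀ (Matrix.toLin' (x : Matrix (Fin d ⊕ Fin d) (Fin d ⊕ Fin d) F))) :
    ∃ g ∈ Cfsg.spGL d F, g⁻¹ * x * g ∈ Cfsg.Geo.quadSimilarityGroup (⇑Q₀) := by
  obtain ⟨Q', hS, hI, T, hT⟩ := h
  refine ⟨mkGL T, ?_, 1, ?_⟩
  · rw [Cfsg.Agent.Lib.Helper95SpStd.mem_spGL_iff]
    intro u v
    rw [mkGL_mulVec, mkGL_mulVec, ← hpol, ← hpol, ← hS]
    exact Cfsg.Agent.Lib.Helper48QuadType.polar_map T.toLinearMap hT u v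
  · intro v
    rw [Units.val_one, one_mul, ← hT]
    have e1 : T ((((mkGL T)⁻¹ * x * mkGL T : Matrix.GeneralLinearGroup (Fin d ⊕ Fin d) F) :
        Matrix (Fin d ⊕ Fin d) (Fin d ⊕ Fin d) F).mulVec v) =
        (x : Matrix (Fin d ⊕ Fin d) (Fin d ⊕ Fin d) F).mulVec (T v) := by
      rw [← mkGL_mulVec T, Matrix.mulVec_mulVec, ← Units.val_mul, ← mul_assoc, ← mul_assoc,
        mul_inv_cancel, one_mul, Units.val_mul, ← Matrix.mulVec_mulVec, mkGL_mulVec]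
    rw [e1]
    have := hI (T v)
    rw [Matrix.toLin'_apply] at this
    rw [this, hT]

end Cfsg.Agent.Lib.H45SqBridgeB
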