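import Mathlib
import Cfsg.Agent.Lib.H45SqDefs
import Cfsg.Agent.Lib.Helper95Basic

set_option autoImplicit false

namespace Cfsg.Agent.Lib.H45SqCardIso

open Module QuadraticMap Cfsg.Agent.Lib.Helper45OspDefs Cfsg.Agent.Lib.H45SqDefs
open Cfsg.Agent.Lib.Helper95Basic
open scoped MatrixGroups

universe u w

/-- transport of an isometry along a linear isometry. -/
theorem transport_mem {F : Type u} [Field F] {ι ι' : Type} [Fintype ι] [DecidableEq ι]
    [Fintype ι'] [DecidableEq ι'] (Q : QuadraticForm F (ι → F)) (Q' : QuadraticForm F (ι' → F))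
    (T : (ι → F) ≃ₗ[F] (ι' → F)) (hT : ∀ v, Q' (T v) = Q v) (g : GL ι F)
    (hg : g ∈ Cfsg.isometryGroup F (⇑Q)) :
    mkGL ((T.symm.trans (glEquiv ι F g)).trans T) ∈ Cfsg.isometryGroup F (⇑Q') := by
  intro u _
  show Q' (((mkGL ((T.symm.trans (glEquiv ι F g)).trans T) : GL ι' F) : Matrix ι' ι' F).mulVec u) = Q' u
  rw [mkGL_mulVec]
  simp only [LinearEquiv.trans_apply, glEquiv_apply, hT]
  have h1 : Q ((g : Matrix ι ι F).mulVec (T.symm u)) = Q (T.symm u) := hg (T.symm u) 0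
  rw [h1, ← hT, T.apply_symm_apply]

/-- piece `CardIso`. -/
theorem card_isometryGroup_congr {F : Type u} [Field F] {ι ι' : Type} [Fintype ι] [DecidableEq ι]
    [Fintype ι'] [DecidableEq ι'] (Q : QuadraticForm F (ι → F)) (Q' : QuadraticForm F (ι' → F))
    (h : Cfsg.Agent.Lib.Helper48QuadType.Isom Q Q') :
    Nat.card (Cfsg.isometryGroup F (⇑Q)) = Nat.card (Cfsg.isometryGroup F (⇑Q')) := by
  obtain ⟨T, hT⟩ := h
  have hT' : ∀ v, Q (T.symm v) = Q' v := fun v => by rw [← hT, T.apply_symm_apply]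
  refine Nat.card_congr ⟨fun g => ⟨_, transport_mem Q Q' T hT g.1 g.2⟩,
    fun g => ⟨_, transport_mem Q' Q T.symm hT' g.1 g.2⟩, ?_, ?_⟩
  · intro g
    apply Subtype.ext
    apply gl_ext
    intro x
    simp
  · intro g
    apply Subtype.ext
    apply gl_ext
    intro x
    simp

end Cfsg.Agent.Lib.H45SqCardIso
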