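import Mathlib
import Cfsg.Agent.Lib.H45SqDefs
import Cfsg.Agent.S0245
import Cfsg.Agent.Lib.Helper45Sp

set_option autoImplicit false

namespace Cfsg.Agent.Lib.H45SqCardSp

open Module QuadraticMap Cfsg.Agent.Lib.Helper45OspDefs Cfsg.Agent.Lib.H45SqDefs

universe u w

/-- piece `CardSp`. -/
theorem card_spGL {F : Type u} [Field F] [Fintype F] (d : ℕ) :
    Nat.card (Cfsg.spGL d F) = Fintype.card F ^ (d ^ 2) *
      ∏ i ∈ Finset.range d, (Fintype.card F ^ (2 * (i + 1)) - 1) := by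
  rw [← Cfsg.Agent.S0245.result (F := F) rfl d]
  have hmem : ∀ g : Matrix.GeneralLinearGroup (Fin d ⊕ Fin d) F, g ∈ Cfsg.spGL d F ↔
      (g : Matrix (Fin d ⊕ Fin d) (Fin d ⊕ Fin d) F) ∈ Matrix.symplecticGroup (Fin d) F := by
    intro g
    rw [Cfsg.Agent.Lib.Helper17Symp.mem_symplecticGroup_iff_preserves]
    exact Iff.rfl
  refine Nat.card_congr (Equiv.ofBijective
    (fun g : Cfsg.spGL d F => (⟨(g.1 : Matrix (Fin d ⊕ Fin d) (Fin d ⊕ Fin d) F), (hmem g.1).mp g.2⟩ :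
      Matrix.symplecticGroup (Fin d) F)) ⟨?_, ?_⟩)
  · intro g h hgh
    apply Subtype.ext
    apply Units.ext
    exact congrArg Subtype.val hgh
  · intro A
    have hdet : IsUnit (A.1).det := SymplecticGroup.symplectic_det A.2
    let g : Matrix.GeneralLinearGroup (Fin d ⊕ Fin d) F := Matrix.nonsingInvUnit A.1 hdet
    have hg : (g : Matrix (Fin d ⊕ Fin d) (Fin d ⊕ Fin d) F) = A.1 := rfl
    exact ⟨⟨g, (hmem g).mpr (hg ▸ A.2)⟩, Subtype.ext hg⟩

end Cfsg.Agent.Lib.H45SqCardSp
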