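import Mathlib
import Cfsg.Agent.Lib.H45SqDefs


set_option autoImplicit false

namespace Cfsg.Agent.Lib.H45SqConj

open Module QuadraticMap Cfsg.Agent.Lib.Helper45OspDefs Cfsg.Agent.Lib.H45SqDefs

universe u w

universe w'

/-- piece `Conj`. -/
theorem conj {F : Type u} [Field F] {W : Type w} [AddCommGroup W] [Module F W]
    {W' : Type w'} [AddCommGroup W'] [Module F W'] (Q : QuadraticForm F W) (Q' : QuadraticForm F W')
    (T : W' ≃ₗ[F] W) (hT : ∀ u v, polar Q (T u) (T v) = polar Q' u v) (h : End F W') (r : ℕ)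
    (hh : PIso Q' h) (hr : h ^ r = 1) (hfix : ∀ x, h x = x → x = 0) :
    ∃ X : End F W, PIso Q X ∧ X ^ r = 1 ∧ ∀ x, X x = x → x = 0 := by
  let X : End F W := T.conj h
  have hX : ∀ x, X (T x) = T (h x) := by
    intro x
    simp [X, LinearEquiv.conj_apply]
  have hpow : ∀ (j : ℕ) x, (X ^ j) (T x) = T ((h ^ j) x) := by
    intro j
    induction j with
    | zero => intro x; simp
    | succ j ih =>
      intro x
      rw [pow_succ, pow_succ, Module.End.mul_apply, Module.End.mul_apply, hX, ih]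
  refine ⟨X, ?_, ?_, ?_⟩
  · intro u v
    obtain ⟨u, rfl⟩ := T.surjective u
    obtain ⟨v, rfl⟩ := T.surjective v
    rw [hX, hX, hT, hT, hh]
  · ext x
    obtain ⟨x, rfl⟩ := T.surjective x
    rw [hpow, hr]; simp
  · intro x hx
    obtain ⟨x, rfl⟩ := T.surjective x
    rw [hX] at hx
    rw [hfix x (T.injective hx), map_zero]

end Cfsg.Agent.Lib.H45SqConj
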