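import Mathlib
import Cfsg.Agent.Lib.H45SqDefs
import Cfsg.Agent.Lib.Helper95SpStd


set_option autoImplicit false

namespace Cfsg.Agent.Lib.H45SqDiag

open Module QuadraticMap Cfsg.Agent.Lib.Helper45OspDefs Cfsg.Agent.Lib.H45SqDefs

universe u w

/-- piece `Diag`. -/
theorem diag {F : Type u} [Field F] (d : ℕ) (Q₀ : QuadraticForm F (Fin d ⊕ Fin d → F))
    (hpol : ∀ u v, polar Q₀ u v = Cfsg.sympForm d F u v) (r : ℕ) (hr : 1 ≤ r)
    (A : Matrix (Fin d) (Fin d) F) (hA : A ^ r = 1) (hfix : ∀ v, A.mulVec v = v → v = 0) :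
    ∃ (X : End F (Fin d ⊕ Fin d → F)) (U : Submodule F (Fin d ⊕ Fin d → F)),
      PIso Q₀ X ∧ X ^ r = 1 ∧ finrank F U = d ∧ (∀ u ∈ U, ∀ v ∈ U, polar Q₀ u v = 0) ∧
        (∀ u ∈ U, X u ∈ U) ∧ ∀ u ∈ U, X u = u → u = 0 := by
  classical
  obtain ⟨k, rfl⟩ : ∃ k, r = k + 1 := ⟨r - 1, by omega⟩
  set B := A ^ k with hB
  have hBA : B * A = 1 := by rw [hB, ← pow_succ, hA]
  have hAB : A * B = 1 := by rw [hB, ← pow_succ', hA]
  set M : Matrix (Fin d ⊕ Fin d) (Fin d ⊕ Fin d) F := Matrix.fromBlocks A 0 0 B.transpose with hM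
  have hMJ : M.transpose * Matrix.J (Fin d) F * M = Matrix.J (Fin d) F := by
    rw [hM, Matrix.fromBlocks_transpose, Matrix.J, Matrix.fromBlocks_multiply,
      Matrix.fromBlocks_multiply]
    simp only [Matrix.transpose_zero, Matrix.transpose_transpose, mul_zero, zero_mul, add_zero,
      zero_add, mul_one, mul_neg, neg_mul]
    rw [hBA, ← Matrix.transpose_mul, hBA, Matrix.transpose_one, neg_zero]
  have hMr : M ^ (k + 1) = 1 := by
    rw [hM, Matrix.fromBlocks_diagonal_pow, hA, ← Matrix.transpose_pow, hB, ← pow_mul, mul_comm,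
      pow_mul, hA, one_pow, Matrix.transpose_one, Matrix.fromBlocks_one]
  let π : (Fin d ⊕ Fin d → F) →ₗ[F] (Fin d → F) := LinearMap.funLeft F F Sum.inr
  have hπ : ∀ v i, π v i = v (Sum.inr i) := fun v i => rfl
  have hmem : ∀ v, v ∈ LinearMap.ker π ↔ ∀ i, v (Sum.inr i) = 0 := by
    intro v
    rw [LinearMap.mem_ker]
    constructor
    · intro h i
      rw [← hπ v i, h]; rfl
    · intro h
      funext i
      exact h i
  refine ⟨Matrix.toLin' M, LinearMap.ker π, ?_, ?_, ?_, ?_, ?_, ?_⟩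
  · intro u v
    rw [hpol, hpol, Matrix.toLin'_apply, Matrix.toLin'_apply]
    unfold Cfsg.sympForm
    rw [← Matrix.vecMul_transpose, ← Matrix.dotProduct_mulVec, Matrix.mulVec_mulVec,
      Matrix.mulVec_mulVec, hMJ]
  · rw [← Matrix.toLin'_pow, hMr, Matrix.toLin'_one]
    rfl
  · have h1 := LinearMap.finrank_range_add_finrank_ker π
    have h2 : LinearMap.range π = ⊤ :=
      LinearMap.range_eq_top.2 (LinearMap.funLeft_surjective_of_injective F F _ Sum.inr_injective)
    rw [h2, finrank_top] at h1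
    simp only [Module.finrank_fintype_fun_eq_card, Fintype.card_fin, Fintype.card_sum] at h1
    omega
  · intro u hu v hv
    rw [hpol, Cfsg.Agent.Lib.Helper95SpStd.sympForm_eq]
    apply Finset.sum_eq_zero
    intro i _
    rw [(hmem u).1 hu i, (hmem v).1 hv i]
    ring
  · intro u hu
    rw [hmem] at hu ⊢
    intro i
    rw [Matrix.toLin'_apply, hM, Matrix.fromBlocks_mulVec]
    have : u ∘ Sum.inr = 0 := by funext j; exact hu j
    simp [this]
  · intro u hu hXu
    rw [hmem] at hu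
    have hinr : u ∘ Sum.inr = 0 := by funext j; exact hu j
    rw [Matrix.toLin'_apply, hM, Matrix.fromBlocks_mulVec] at hXu
    have h1 : A.mulVec (u ∘ Sum.inl) = u ∘ Sum.inl := by
      funext i
      have := congrFun hXu (Sum.inl i)
      simpa [hinr] using this
    have h2 := hfix _ h1
    funext j
    rcases j with i | i
    · exact congrFun h2 i
    · exact hu i

end Cfsg.Agent.Lib.H45SqDiag
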