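import Mathlib
import Cfsg.Agent.Lib.H45SqDefs


set_option autoImplicit false

namespace Cfsg.Agent.Lib.H45SqFpLag

open Module QuadraticMap Cfsg.Agent.Lib.Helper45OspDefs Cfsg.Agent.Lib.H45SqDefs

universe u w

/-- piece `FpLag`. -/
theorem fp_of_lag {F : Type u} [Field F] [CharP F 2] {W : Type w} [AddCommGroup W] [Module F W]
    [Module.Finite F W] (Q : QuadraticForm F W) (m : ℕ) (X : End F W) (U : Submodule F W)
    (hU : finrank F U = m) (hiso : ∀ u ∈ U, ∀ v ∈ U, polar Q u v = 0) (hinv : ∀ u ∈ U, X u ∈ U)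
    (hfix : ∀ u ∈ U, X u = u → u = 0) : FP Q m X := by
  intro Q' hSP hQI
  refine ⟨U, hU, ?_⟩
  have hmap : ∀ u ∈ U, (X - 1) u ∈ U := by
    intro u hu
    simp only [LinearMap.sub_apply, Module.End.one_apply]
    exact U.sub_mem (hinv u hu) hu
  let Y : U →ₗ[F] U := (X - 1).restrict hmap
  have hinj : Function.Injective Y := by
    rw [injective_iff_map_eq_zero]
    rintro ⟨u, hu⟩ h0
    have h1 : (X - 1) u = 0 := congrArg Subtype.val h0
    simp only [LinearMap.sub_apply, Module.End.one_apply] at h1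
    exact Subtype.ext (hfix u hu (sub_eq_zero.mp h1))
  have hsurj : Function.Surjective Y := LinearMap.injective_iff_surjective.mp hinj
  intro u hu
  obtain ⟨⟨w, hw⟩, hwu⟩ := hsurj ⟨u, hu⟩
  have h1 : (X - 1) w = u := congrArg Subtype.val hwu
  simp only [LinearMap.sub_apply, Module.End.one_apply] at h1
  have h2 : u = X w + (-w) := by rw [← h1]; abel
  have h3 : polar Q' (X w) (-w) = 0 := by
    rw [hSP]; exact hiso _ (hinv w hw) _ (U.neg_mem hw)
  have h4 : Q' (X w + (-w)) = Q' (X w) + Q' (-w) + polar Q' (X w) (-w) := by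
    unfold polar; ring
  rw [h2, h4, h3, hQI w, QuadraticMap.map_neg, add_zero]
  exact CharTwo.add_self_eq_zero _

/-- piece `FpLag` (b). -/
theorem fp_of_nil {F : Type u} [Field F] {W : Type w} [AddCommGroup W] [Module F W]
    (Q : QuadraticForm F W) (m : ℕ) (N : End F W) (hN : finrank F (LinearMap.range N) = m)
    (h0 : ∀ v, polar Q v (N v) = 0) : FP Q m (1 + N) := by
  intro Q' hSP hQI
  refine ⟨LinearMap.range N, hN, ?_⟩
  rintro _ ⟨v, rfl⟩
  have h1 := hQI v
  simp only [LinearMap.add_apply, Module.End.one_apply] at h1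
  have h3 : polar Q' v (N v) = 0 := by rw [hSP]; exact h0 v
  have h4 : Q' (v + N v) = Q' v + Q' (N v) + polar Q' v (N v) := by
    unfold polar; ring
  rw [h4, h3, add_zero] at h1
  exact (add_eq_left.mp h1)

end Cfsg.Agent.Lib.H45SqFpLag
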