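import Mathlib
import Cfsg.Agent.Lib.H45SqDefs


set_option autoImplicit false

namespace Cfsg.Agent.Lib.H45SqIdxAr

open Module QuadraticMap Cfsg.Agent.Lib.Helper45OspDefs Cfsg.Agent.Lib.H45SqDefs

universe u w

theorem prod_pos (q m : ℕ) (hq : 2 ≤ q) : 0 < ∏ i ∈ Finset.range m, (q ^ (2 * (i + 1)) - 1) := by
  apply Finset.prod_pos
  intro i _
  have : 1 < q ^ (2 * (i + 1)) := Nat.one_lt_pow (by omega) (by omega)
  omega

theorem split (q m : ℕ) (hq : 2 ≤ q) :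
    q ^ (2 * (m + 1)) - 1 = (q ^ (m + 1) - 1) * (q ^ (m + 1) + 1) := by
  have h1 : 1 ≤ q ^ (m + 1) := Nat.one_le_pow _ _ (by omega)
  obtain ⟨a, ha⟩ : ∃ a, q ^ (m + 1) = a + 1 := ⟨q ^ (m + 1) - 1, by omega⟩
  have : q ^ (2 * (m + 1)) = (a + 1) * (a + 1) := by
    rw [← ha, ← pow_add]; congr 1; ring
  rw [this, ha]
  have e : (a + 1) * (a + 1) = a * (a + 1 + 1) + 1 := by ring
  rw [e]
  simp

theorem idx_plus' (q m I : ℕ) (hq : 2 ≤ q)
    (h : I * (2 * q ^ ((m + 1) * m) * (q ^ (m + 1) - 1) * ∏ i ∈ Finset.range m, (q ^ (2 * (i + 1)) - 1))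
      = q ^ ((m + 1) ^ 2) * ∏ i ∈ Finset.range (m + 1), (q ^ (2 * (i + 1)) - 1)) :
    2 * I = q ^ (m + 1) * (q ^ (m + 1) + 1) := by
  rw [Finset.prod_range_succ, split q m hq] at h
  have hP := prod_pos q m hq
  set P := ∏ i ∈ Finset.range m, (q ^ (2 * (i + 1)) - 1) with hPdef
  have h1 : 1 < q ^ (m + 1) := Nat.one_lt_pow (by omega) (by omega)
  have hA : 0 < q ^ (m + 1) - 1 := by omega
  have hB : 0 < q ^ ((m + 1) * m) := Nat.pow_pos (by omega)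
  have e : q ^ ((m + 1) ^ 2) = q ^ ((m + 1) * m) * q ^ (m + 1) := by
    rw [← pow_add]; congr 1; ring
  rw [e] at h
  have hC : 0 < q ^ ((m + 1) * m) * (q ^ (m + 1) - 1) * P := by positivity
  apply Nat.eq_of_mul_eq_mul_right hC
  calc 2 * I * (q ^ ((m + 1) * m) * (q ^ (m + 1) - 1) * P)
      = I * (2 * q ^ ((m + 1) * m) * (q ^ (m + 1) - 1) * P) := by ring
    _ = _ := h
    _ = _ := by ring

/-- piece `IdxAr` (a), pure arithmetic. -/
theorem idx_plus (q d I : ℕ) (hq : 2 ≤ q) (hd : 1 ≤ d)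
    (h : I * (2 * q ^ (d * (d - 1)) * (q ^ d - 1) * ∏ i ∈ Finset.range (d - 1), (q ^ (2 * (i + 1)) - 1))
      = q ^ (d ^ 2) * ∏ i ∈ Finset.range d, (q ^ (2 * (i + 1)) - 1)) :
    2 * I = q ^ d * (q ^ d + 1) := by
  obtain ⟨m, rfl⟩ : ∃ m, d = m + 1 := ⟨d - 1, by omega⟩
  exact idx_plus' q m I hq (by simpa using h)

/-- piece `IdxAr` (b), the same with the other factor. -/
theorem idx_minus (q m I : ℕ) (hq : 2 ≤ q)
    (h : I * (2 * q ^ ((m + 1) * m) * (q ^ (m + 1) + 1) * ∏ i ∈ Finset.range m, (q ^ (2 * (i + 1)) - 1))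
      = q ^ ((m + 1) ^ 2) * ∏ i ∈ Finset.range (m + 1), (q ^ (2 * (i + 1)) - 1)) :
    2 * I = q ^ (m + 1) * (q ^ (m + 1) - 1) := by
  rw [Finset.prod_range_succ, split q m hq] at h
  have hP := prod_pos q m hq
  set P := ∏ i ∈ Finset.range m, (q ^ (2 * (i + 1)) - 1) with hPdef
  have hB : 0 < q ^ ((m + 1) * m) := Nat.pow_pos (by omega)
  have e : q ^ ((m + 1) ^ 2) = q ^ ((m + 1) * m) * q ^ (m + 1) := by
    rw [← pow_add]; congr 1; ring
  rw [e] at h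
  have hC : 0 < q ^ ((m + 1) * m) * (q ^ (m + 1) + 1) * P := by positivity
  apply Nat.eq_of_mul_eq_mul_right hC
  calc 2 * I * (q ^ ((m + 1) * m) * (q ^ (m + 1) + 1) * P)
      = I * (2 * q ^ ((m + 1) * m) * (q ^ (m + 1) + 1) * P) := by ring
    _ = _ := h
    _ = _ := by ring

end Cfsg.Agent.Lib.H45SqIdxAr
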