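import Mathlib
import Cfsg.Agent.Lib.H45SqDefs
import Cfsg.Agent.Lib.H45SqCls
import Cfsg.Agent.Lib.H45SqCardSp
import Cfsg.Agent.Lib.H45SqInf
import Cfsg.Agent.Lib.H45SqCardIso
import Cfsg.Agent.Lib.H45SqIdxAr
import Cfsg.Agent.Lib.Helper45OspStd

set_option autoImplicit false

namespace Cfsg.Agent.Lib.H45SqIdx

open Module QuadraticMap Cfsg.Agent.Lib.Helper45OspDefs Cfsg.Agent.Lib.H45SqDefs
  Cfsg.Agent.Lib.Helper48QuadType Cfsg.Agent.Lib.Helper7OPlus Cfsg.Agent.Lib.Helper7OMinus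

universe u

variable {F : Type u} [Field F] [Fintype F]

omit [Fintype F] in
theorem relIndex_mul (d : ℕ) (hd : 1 ≤ d) (Q₀ : QuadraticForm F (Fin d ⊕ Fin d → F))
    (hpol : ∀ u v, polar Q₀ u v = Cfsg.sympForm d F u v) :
    (Cfsg.Geo.quadSimilarityGroup (⇑Q₀)).relIndex (Cfsg.spGL d F) *
      Nat.card (Cfsg.isometryGroup F (⇑Q₀)) = Nat.card (Cfsg.spGL d F) := by
  rw [← H45SqInf.inf_eq d hd Q₀ hpol, ← Subgroup.inf_relIndex_right, mul_comm,
    ← Subgroup.relIndex_bot_left, ← Subgroup.relIndex_bot_left]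
  exact Subgroup.relIndex_mul_relIndex _ _ _ bot_le inf_le_right

/-- assembly: the index of `O^+` in `Sp`. -/
theorem idx_plus (d : ℕ) (hd : 1 ≤ d) (Q₀ : QuadraticForm F (Fin d ⊕ Fin d → F))
    (hpol : ∀ u v, polar Q₀ u v = Cfsg.sympForm d F u v) (hT : Typ 1 d Q₀) :
    2 * (Cfsg.Geo.quadSimilarityGroup (⇑Q₀)).relIndex (Cfsg.spGL d F) =
      Fintype.card F ^ d * (Fintype.card F ^ d + 1) := by
  have h1 := relIndex_mul d hd Q₀ hpol
  have hiso : Isom Q₀ (QP F d) :=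
    H45SqCls.isom_of_typ 1 (Or.inl rfl) d _ _ hT (Helper45OspStd.typ_QP d hd)
  have hfun : ⇑(QP F d) = Cfsg.quadFormPlus d F := funext (QP_apply d)
  rw [H45SqCardIso.card_isometryGroup_congr _ _ hiso, hfun, card_isometryGroup_plus d hd,
    H45SqCardSp.card_spGL] at h1
  exact H45SqIdxAr.idx_plus _ d _ Fintype.one_lt_card hd h1

/-- assembly: the index of `O^-` in `Sp`. -/
theorem idx_minus (d : ℕ) (hd : 1 ≤ d) (Q₀ : QuadraticForm F (Fin d ⊕ Fin d → F))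
    (hpol : ∀ u v, polar Q₀ u v = Cfsg.sympForm d F u v) (hT : Typ (-1) d Q₀) :
    2 * (Cfsg.Geo.quadSimilarityGroup (⇑Q₀)).relIndex (Cfsg.spGL d F) =
      Fintype.card F ^ d * (Fintype.card F ^ d - 1) := by
  have h1 := relIndex_mul d hd Q₀ hpol
  obtain ⟨m, rfl⟩ : ∃ m, d = m + 1 := ⟨d - 1, by omega⟩
  rcases isom_std hT.1 hT.2.2.1 Q₀ hT.2.1 with h | ⟨ζ, hζ, h⟩
  · exact (H45SqCls.typ_unique _ _ (Helper45OspStd.typ_QP (F := F) (m + 1) hd)
      (Helper45OspStd.typ_of_isom _ _ h _ _ hT)).elim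
  · have hac := aniso_of_rootless ζ hζ
    have h' : Isom Q₀ (QM F m 1 ζ) := h
    have hfun : ⇑(QM F m 1 ζ) = Cfsg.quadFormMinus m F 1 ζ := funext (QM_apply m 1 ζ)
    rw [H45SqCardIso.card_isometryGroup_congr _ _ h', hfun, card_isometryGroup_minus m 1 ζ hac,
      H45SqCardSp.card_spGL] at h1
    exact H45SqIdxAr.idx_minus _ m _ Fintype.one_lt_card h1

end Cfsg.Agent.Lib.H45SqIdx
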