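import Mathlib
import Cfsg.Agent.Lib.H45SqDefs
import Cfsg.Agent.Lib.H45SqSqrt
import Cfsg.Agent.Lib.H45SqTw

set_option autoImplicit false

namespace Cfsg.Agent.Lib.H45SqInvEx

open Module QuadraticMap Cfsg.Agent.Lib.Helper45OspDefs Cfsg.Agent.Lib.H45SqDefs

universe u w

/-- piece `InvEx`. `f = polar Q`, `N = X - 1`. `δ v := Q (X v) + Q v`.
* `δ` is additive: `δ(u+v) - δ u - δ v = f(Xu,Xv) + f(u,v) = 2 f(u,v) = 0`; `δ (c v) = c^2 δ v`. So `δ = l^2`, `l` linear (`Sqrt.exists_lin`).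
* `l` vanishes on `ker N` (`X v = v ⇒ δ v = 2 Q v = 0`, `l v ^ 2 = 0`), so `l ∈ (ker N).dualAnnihilator = range N.dualMap`
  (`LinearMap.range_dualMap_eq_dualAnnihilator_ker`): `l = φ ∘ N`.
* `φ = f(a,·)` for some `a` (nondegenerate + finite dimensional: `LinearMap.BilinForm.toDual`, or
  `LinearMap.BilinForm.Nondegenerate` ⇒ `polarBilin Q : W → Dual` injective hence surjective, `LinearMap.injective_iff_surjective_of_finrank_eq_finrank`, `Subspace.dual_finrank_eq`).
* `Q₁ = tw Q a`: `SP` by `sp_tw`; `Q₁ (X v) + Q₁ v = δ v + f(a,Xv)^2 + f(a,v)^2 = δ v + (f(a, X v) + f(a,v))^2 = l v^2 + f(a,N v)^2 = 2 (l v)^2 = 0`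
  (char 2: `-1 = 1`, `CharTwo.add_sq`, `CharTwo.sub_eq_add`). -/
theorem exists_inv {F : Type u} [Field F] [Fintype F] [CharP F 2] {W : Type w} [AddCommGroup W]
    [Module F W] [Module.Finite F W] (Q : QuadraticForm F W) (hQ : (polarBilin Q).Nondegenerate)
    (X : End F W) (hX : X * X = 1) (hP : PIso Q X) : ∃ Q₁ : QuadraticForm F W, SP Q Q₁ ∧ QIso Q₁ X := by
  have h2 : (2 : F) = 0 := CharTwo.two_eq_zero
  obtain ⟨l, hl⟩ := H45SqSqrt.exists_lin (fun v => Q (X v) + Q v)
    (by
      intro u v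
      have e1 := QuadraticMap.map_add Q (X u) (X v)
      have e2 := QuadraticMap.map_add Q u v
      have e3 := hP u v
      simp only [_root_.map_add]
      rw [e1, e2, e3]
      linear_combination (polar Q u v) * h2)
    (by
      intro c v
      simp only [_root_.map_smul]
      rw [QuadraticMap.map_smul, QuadraticMap.map_smul, smul_eq_mul, smul_eq_mul]
      ring)
  have hker : l ∈ (LinearMap.ker (X - 1)).dualAnnihilator := by
    rw [Submodule.mem_dualAnnihilator]
    intro v hv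
    rw [LinearMap.mem_ker, LinearMap.sub_apply, Module.End.one_apply, sub_eq_zero] at hv
    have := hl v
    simp only [hv] at this
    have h3 : l v ^ 2 = 0 := by
      rw [← this]
      linear_combination (Q v) * h2
    exact pow_eq_zero_iff (two_ne_zero) |>.1 h3
  rw [← LinearMap.range_dualMap_eq_dualAnnihilator_ker] at hker
  obtain ⟨φ, hφ⟩ := hker
  obtain ⟨a, ha⟩ : ∃ a, a = (LinearMap.BilinForm.toDual (polarBilin Q) hQ).symm φ := ⟨_, rfl⟩
  have haφ : ∀ w, polar Q a w = φ w := by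
    intro w
    have := LinearMap.BilinForm.toDual_def hQ (m := a) (n := w)
    rw [ha, LinearEquiv.apply_symm_apply] at this
    rw [this, ← ha]
    rfl
  refine ⟨tw Q a, H45SqTw.sp_tw Q a, ?_⟩
  intro v
  rw [H45SqTw.tw_apply, H45SqTw.tw_apply]
  have e1 : l v = φ (X v) - φ v := by
    rw [← hφ, LinearMap.dualMap_apply, LinearMap.sub_apply, Module.End.one_apply, _root_.map_sub]
  have e2 := hl v
  rw [e1, ← haφ, ← haφ] at e2
  linear_combination e2 + (polar Q a (X v) ^ 2 - Q v - polar Q a (X v) * polar Q a v) * h2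

end Cfsg.Agent.Lib.H45SqInvEx
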