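import Mathlib
import Cfsg.Agent.Lib.H45SqDefs


set_option autoImplicit false

namespace Cfsg.Agent.Lib.H45SqKer

open Module QuadraticMap Cfsg.Agent.Lib.Helper45OspDefs Cfsg.Agent.Lib.H45SqDefs

universe u w

/-- `X - 1` is self-adjoint for the polar form when `X` is an involution preserving it. -/
theorem adj {F : Type u} [Field F] {W : Type w} [AddCommGroup W]
    [Module F W] (Q : QuadraticForm F W)
    (X : End F W) (hX : X * X = 1) (hP : PIso Q X) (u v : W) :
    polar Q ((X - 1) u) v = polar Q u ((X - 1) v) := by
  have hXX : ∀ v, X (X v) = v := fun v => by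
    have := congrArg (fun Y : End F W => Y v) hX
    simpa using this
  have hadjX : polar Q (X u) v = polar Q u (X v) := by
    calc polar Q (X u) v = polar Q (X u) (X (X v)) := by rw [hXX]
      _ = polar Q u (X v) := hP _ _
  simp only [LinearMap.sub_apply, Module.End.one_apply, polar_sub_left, polar_sub_right, hadjX]

/-- piece `Ker`. -/
theorem ker_perp {F : Type u} [Field F] [CharP F 2] {W : Type w} [AddCommGroup W]
    [Module F W] [Module.Finite F W] (Q : QuadraticForm F W) (hnd : (polarBilin Q).Nondegenerate)
    (X : End F W) (hX : X * X = 1) (hP : PIso Q X) :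
    LinearMap.BilinForm.orthogonal (polarBilin Q) (LinearMap.ker (X - 1)) = LinearMap.range (X - 1) ∧
      LinearMap.range (X - 1) ≤ LinearMap.ker (X - 1) := by
  have hadj := adj Q X hX hP
  have hrefl : (polarBilin Q).IsRefl := by
    intro u v h
    rw [polarBilin_apply_apply] at h ⊢
    rw [polar_comm]; exact h
  have h1 : LinearMap.BilinForm.orthogonal (polarBilin Q) (LinearMap.range (X - 1)) = LinearMap.ker (X - 1) := by
    ext v
    rw [LinearMap.BilinForm.mem_orthogonal_iff, LinearMap.mem_ker]
    constructor
    · intro h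
      apply hnd.2
      intro u
      have := h _ ⟨u, rfl⟩
      rw [polarBilin_apply_apply] at this ⊢
      rw [← hadj]; exact this
    · rintro h _ ⟨u, rfl⟩
      rw [polarBilin_apply_apply, hadj, h]
      simp
  refine ⟨?_, ?_⟩
  · rw [← h1]
    exact LinearMap.BilinForm.orthogonal_orthogonal hnd hrefl _
  · rintro _ ⟨u, rfl⟩
    rw [LinearMap.mem_ker]
    have hXX : X (X u) = u := by
      have := congrArg (fun Y : End F W => Y u) hX
      simpa using this
    simp only [LinearMap.sub_apply, Module.End.one_apply, map_sub, hXX]
    have h2 : (2 : F) = 0 := CharTwo.two_eq_zero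
    have : u - X u - (X u - u) = (2 : F) • (u - X u) := by rw [two_smul]; abel
    rw [this, h2, zero_smul]

end Cfsg.Agent.Lib.H45SqKer
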