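import Mathlib
import Cfsg.Agent.Lib.H45SqDefs
import Cfsg.Agent.Lib.H45SqFib

set_option autoImplicit false

namespace Cfsg.Agent.Lib.H45SqLag

open Module QuadraticMap Cfsg.Agent.Lib.Helper45OspDefs Cfsg.Agent.Lib.H45SqDefs

universe u w

/-- piece `Lag` (counting, any characteristic). A form vanishing on a subspace `U` of half the dimension has plus type.
`f = polar Q` vanishes on `U` (`polar Q u u' = Q(u+u') - Q u - Q u'`), so `U ≤ U^⊥`, and `finrank U^⊥ = 2m - m`
(`LinearMap.BilinForm.finrank_orthogonal`), hence `U^⊥ = U`. Take a complement `C` of `U`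
(`Submodule.exists_isCompl`, `Submodule.prodEquivOfIsCompl`): `W ≃ U × C`, `Q(u+c) = Q c + f(u,c)`.
For `c = 0` all `q^m` vectors `u` are zeros; for `c ≠ 0` (`c ∉ U = U^⊥`) the functional `u ↦ f(u,c)` on `U` is non zero
and `card_fiber` gives `q^(m-1)` zeros. Total `q^m + (q^m-1) q^(m-1) = q^(2m-1) + (q^m - q^(m-1))`. -/
theorem typ_of_lag {F : Type u} [Field F] [Fintype F] {W : Type w} [AddCommGroup W] [Module F W]
    [Module.Finite F W] (m : ℕ) (hm : 1 ≤ m) (hW : finrank F W = 2 * m) (Q : QuadraticForm F W)
    (hQ : (polarBilin Q).Nondegenerate) (U : Submodule F W) (hU : finrank F U = m)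
    (h0 : ∀ u ∈ U, Q u = 0) : Typ 1 m Q := by
  classical
  refine ⟨hm, hQ, hW, ?_⟩
  have : Finite W := Module.finite_of_finite F
  obtain ⟨q, hq⟩ : ∃ q : ℕ, q = Fintype.card F := ⟨_, rfl⟩
  have hq0 : 0 < q := by rw [hq]; exact Fintype.card_pos
  rw [← hq]
  -- `U` is its own orthogonal complement
  have hpol0 : ∀ u ∈ U, ∀ u' ∈ U, polar Q u u' = 0 := by
    intro u hu u' hu'
    unfold polar
    rw [h0 _ (U.add_mem hu hu'), h0 u hu, h0 u' hu']
    simp
  have hUle : U ≤ LinearMap.BilinForm.orthogonal (polarBilin Q) U := by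
    intro u hu
    rw [LinearMap.BilinForm.mem_orthogonal_iff]
    intro n hn
    exact hpol0 n hn u hu
  have hfin : finrank F (LinearMap.BilinForm.orthogonal (polarBilin Q) U) = m := by
    rw [LinearMap.BilinForm.finrank_orthogonal hQ, hW, hU]
    omega
  have hUeq : U = LinearMap.BilinForm.orthogonal (polarBilin Q) U :=
    Submodule.eq_of_le_of_finrank_eq hUle (by rw [hU, hfin])
  obtain ⟨C, hC⟩ := Submodule.exists_isCompl U
  have hCfin : finrank F C = m := by
    have := Submodule.finrank_add_eq_of_isCompl hC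
    omega
  have hcardU : Nat.card U = q ^ m := by
    rw [Module.natCard_eq_pow_finrank (K := F), hU, Nat.card_eq_fintype_card, hq]
  have hcardC : Nat.card C = q ^ m := by
    rw [Module.natCard_eq_pow_finrank (K := F), hCfin, Nat.card_eq_fintype_card, hq]
  have : Fintype C := Fintype.ofFinite C
  -- decomposition
  have e1 : Nat.card {x : W // Q x = 0} =
      ∑ c : C, Nat.card {u : U // Q ((c : W) + (u : W)) = 0} := by
    rw [← Nat.card_sigma]
    apply Nat.card_congr
    refine Equiv.trans ?_ (Equiv.subtypeProdEquivSigmaSubtype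
      (fun (c : C) (u : U) => Q ((c : W) + (u : W)) = 0))
    refine ((Submodule.prodEquivOfIsCompl C U hC.symm).toEquiv.subtypeEquiv ?_).symm
    intro p
    rw [LinearEquiv.coe_toEquiv, Submodule.coe_prodEquivOfIsCompl']
  have e2 : ∀ c : C, (Nat.card {u : U // Q ((c : W) + (u : W)) = 0} : ℤ) =
      (q : ℤ) ^ (m - 1) + if c = 0 then ((q : ℤ) ^ m - (q : ℤ) ^ (m - 1)) else 0 := by
    intro c
    by_cases hc : c = 0
    · rw [if_pos hc, hc]
      have : Nat.card {u : U // Q (((0 : C) : W) + (u : W)) = 0} = Nat.card U := by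
        apply Nat.card_congr
        refine Equiv.subtypeUnivEquiv ?_
        intro u
        rw [Submodule.coe_zero, zero_add]
        exact h0 u u.2
      rw [this, hcardU]
      push_cast
      ring
    · rw [if_neg hc, add_zero]
      obtain ⟨φ, hφ⟩ : ∃ φ : U →ₗ[F] F, ∀ u : U, φ u = polar Q (c : W) (u : W) :=
        ⟨(polarBilin Q (c : W)).comp U.subtype, fun u => rfl⟩
      have hφ0 : φ ≠ 0 := by
        intro hcon
        apply hc
        have hcU : (c : W) ∈ U := by
          rw [hUeq, LinearMap.BilinForm.mem_orthogonal_iff]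
          intro n hn
          have := hφ ⟨n, hn⟩
          rw [hcon, LinearMap.zero_apply] at this
          rw [polarBilin_apply_apply, polar_comm]
          exact this.symm
        have : (c : W) ∈ U ⊓ C := ⟨hcU, c.2⟩
        rw [hC.inf_eq_bot, Submodule.mem_bot] at this
        exact Subtype.ext this
      have hfib := H45SqFib.card_fiber φ hφ0 (- Q (c : W))
      have hsame : Nat.card {u : U // Q ((c : W) + (u : W)) = 0} =
          Nat.card {k : U // φ k = - Q (c : W)} := by
        apply Nat.card_congr
        refine Equiv.subtypeEquivRight ?_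
        intro u
        rw [QuadraticMap.map_add Q, h0 u u.2, hφ, add_zero]
        constructor
        · intro h
          linear_combination h
        · intro h
          linear_combination h
      rw [hsame]
      rw [hcardU, ← hq] at hfib
      have hm1 : q ^ m = q * q ^ (m - 1) := by
        rw [← pow_succ', Nat.sub_add_cancel hm]
      rw [hm1] at hfib
      have := Nat.eq_of_mul_eq_mul_left hq0 hfib
      rw [this]
      push_cast
      rfl
  rw [e1]
  push_cast
  rw [Finset.sum_congr rfl (fun c _ => e2 c), Finset.sum_add_distrib, Finset.sum_const,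
    Finset.sum_ite_eq' , if_pos (Finset.mem_univ _), Finset.card_univ, ← Nat.card_eq_fintype_card,
    hcardC, one_mul, nsmul_eq_mul]
  push_cast
  rw [← pow_add]
  congr 2
  omega

end Cfsg.Agent.Lib.H45SqLag
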