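import Mathlib
import Cfsg.Agent.Lib.H45SqDefs
import Cfsg.Agent.Lib.Helper45OspPlaneM

set_option autoImplicit false

namespace Cfsg.Agent.Lib.H45SqPlaneMS

open Module QuadraticMap Cfsg.Agent.Lib.Helper45OspDefs Cfsg.Agent.Lib.H45SqDefs
  Cfsg.Agent.Lib.Helper45OspPlaneM

universe u w

/-- piece `PlaneMS`: `Helper45OspPlaneM.planeM` with semiregularity. -/
theorem planeMS (K : Type u) [Field K] [Fintype K] [CharP K 2] :
    ModelS.{u, u} K (Fintype.card K + 1) (-1) 1 := by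
  classical
  obtain ⟨ζ, hζ⟩ := Cfsg.Agent.Lib.Helper45OspRootless.exists_rootless K
  have han : Cfsg.Agent.Lib.Helper7Norm2.Aniso 1 ζ :=
    Cfsg.Agent.Lib.Helper48QuadType.aniso_of_rootless ζ hζ
  haveI := Cfsg.Agent.Lib.Helper7Norm2.fact_of_aniso han
  have hD := Cfsg.Agent.Lib.Helper7Norm2.disc_ne_zero han
  have h2 : (2 : K) = 0 := CharTwo.two_eq_zero
  have hcyc : IsCyclic (Cfsg.Agent.Lib.Helper7Norm2.UU 1 ζ) := inferInstance
  obtain ⟨u, hu⟩ := hcyc.exists_generator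
  have hord : orderOf u = Fintype.card K + 1 := by
    rw [orderOf_eq_card_of_forall_mem_zpowers hu, Cfsg.Agent.Lib.Helper7Norm2.card_UU hD]
  have hnu : QuadraticAlgebra.norm ((u : (QuadraticAlgebra K (-ζ) 1)ˣ) : QuadraticAlgebra K (-ζ) 1)
      = 1 := (Cfsg.Agent.Lib.Helper7Norm2.mem_UU _).1 u.2
  have hzero : ∀ z : QuadraticAlgebra K (-ζ) 1, nrm ζ z = 0 ↔ z = 0 := by
    intro z
    constructor
    · intro hz
      rw [nrm_apply] at hz
      obtain ⟨h1, h2⟩ := han _ _ hz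
      ext <;> simp [h1, h2]
    · rintro rfl
      simp
  refine ⟨QuadraticAlgebra K (-ζ) 1, inferInstance, inferInstance, inferInstance, nrm ζ,
    LinearMap.mulLeft K ((u : (QuadraticAlgebra K (-ζ) 1)ˣ) : QuadraticAlgebra K (-ζ) 1),
    ⟨le_refl 1, ?_, ?_, ?_⟩, ?_, ?_, ?_⟩
  · rw [Cfsg.Agent.Lib.Helper42Quad.nondeg_iff]
    intro z hz
    have h1 := hz ⟨0, 1⟩
    have h3 := hz ⟨1, 0⟩
    simp only [QuadraticMap.polar, nrm_apply, QuadraticAlgebra.re_add, QuadraticAlgebra.im_add] at h1 h3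
    have e1 : z.re = 0 := by linear_combination h1 - ζ * z.im * h2
    have e2 : z.im = 0 := by linear_combination h3 - z.re * h2
    ext <;> simp [e1, e2]
  · rw [QuadraticAlgebra.finrank_eq_two]
  · have : Nat.card {x : QuadraticAlgebra K (-ζ) 1 // nrm ζ x = 0} = 1 := by
      rw [Nat.card_eq_one_iff_unique]
      refine ⟨⟨fun a b => Subtype.ext ?_⟩, ⟨⟨0, (hzero 0).2 rfl⟩⟩⟩
      rw [(hzero _).1 a.2, (hzero _).1 b.2]
    rw [this]
    simp
  · intro x
    rw [LinearMap.mulLeft_apply, nrm_eq_norm, nrm_eq_norm, map_mul, hnu, one_mul]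
  · intro j
    rw [LinearMap.pow_mulLeft, ← hord, orderOf_dvd_iff_pow_eq_one]
    constructor
    · intro e
      have := LinearMap.congr_fun e 1
      rw [LinearMap.mulLeft_apply, mul_one] at this
      apply Subtype.ext
      apply Units.ext
      simpa using this
    · intro e
      have e' : (((u : (QuadraticAlgebra K (-ζ) 1)ˣ) : QuadraticAlgebra K (-ζ) 1)) ^ j = 1 := by
        have := congrArg (fun w : Cfsg.Agent.Lib.Helper7Norm2.UU 1 ζ =>
          ((w : (QuadraticAlgebra K (-ζ) 1)ˣ) : QuadraticAlgebra K (-ζ) 1)) e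
        simpa using this
      rw [e', LinearMap.mulLeft_one]
      rfl
  · intro j x hx
    rw [LinearMap.pow_mulLeft, LinearMap.mulLeft_apply] at hx
    have h0 : ((((u : (QuadraticAlgebra K (-ζ) 1)ˣ) : QuadraticAlgebra K (-ζ) 1)) ^ j - 1) * x = 0 := by
      rw [sub_mul, hx, one_mul, sub_self]
    rcases mul_eq_zero.1 h0 with h | h
    · right
      rw [LinearMap.pow_mulLeft, sub_eq_zero.1 h, LinearMap.mulLeft_one]
      rfl
    · exact Or.inl h

end Cfsg.Agent.Lib.H45SqPlaneMS
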