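import Mathlib
import Cfsg.Agent.Lib.H45SqDefs
import Cfsg.Agent.Lib.H45SqLag
import Cfsg.Agent.Lib.H45SqCls
import Cfsg.Agent.Lib.Helper45OspStd
import Cfsg.Agent.Lib.Helper49Fam2

set_option autoImplicit false

namespace Cfsg.Agent.Lib.H45SqPlus

open Module QuadraticMap Cfsg.Agent.Lib.Helper45OspDefs Cfsg.Agent.Lib.H45SqDefs

universe u w

/-- piece `Plus`. -/
theorem plus_iff {F : Type u} [Field F] [Fintype F] (d : ℕ) (hd : 1 ≤ d)
    (Q₀ : QuadraticForm F (Fin d ⊕ Fin d → F)) (hQ : (polarBilin Q₀).Nondegenerate) :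
    Cfsg.Geo.IsPlusTypeOn (⇑Q₀) ⊤ ↔ Typ 1 d Q₀ := by
  have hV : finrank F (Fin d ⊕ Fin d → F) = 2 * d := Cfsg.Agent.Lib.Helper49Fam2.finrank_V d
  constructor
  · rintro ⟨U, -, hU0, hUd⟩
    rw [finrank_top, hV] at hUd
    exact Cfsg.Agent.Lib.H45SqLag.typ_of_lag d hd hV Q₀ hQ U (by omega) hU0
  · intro h
    obtain ⟨T, hT⟩ := Cfsg.Agent.Lib.H45SqCls.isom_of_typ 1 (Or.inl rfl) d Q₀
      (Cfsg.Agent.Lib.Helper7OPlus.QP F d) h (Cfsg.Agent.Lib.Helper45OspStd.typ_QP d hd)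
    refine ⟨(Cfsg.Agent.Lib.Helper49Fam2.U0 d F).map T.symm.toLinearMap, le_top, ?_, ?_⟩
    · rintro _ ⟨v, hv, rfl⟩
      have h1 : Q₀ (T.symm v) = Cfsg.Agent.Lib.Helper7OPlus.QP F d v := by
        rw [← hT, T.apply_symm_apply]
      show Q₀ (T.symm v) = 0
      rw [h1, Cfsg.Agent.Lib.Helper7OPlus.QP_apply]
      have hv' := Cfsg.Agent.Lib.Helper49Fam2.mem_U0.mp hv
      unfold Cfsg.quadFormPlus
      apply Finset.sum_eq_zero
      intro i _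
      rw [hv' i, mul_zero]
    · rw [finrank_top, hV, LinearEquiv.finrank_map_eq, Cfsg.Agent.Lib.Helper49Fam2.U0_finrank]

end Cfsg.Agent.Lib.H45SqPlus
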