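import Mathlib
import Cfsg.Agent.Lib.H45SqDefs


set_option autoImplicit false

namespace Cfsg.Agent.Lib.H45SqSigma

open Module QuadraticMap Cfsg.Agent.Lib.Helper45OspDefs Cfsg.Agent.Lib.H45SqDefs

universe u w

/-- piece `Sigma` (pure). -/
theorem exists_sigma (d : ℕ) (hd : Even d) :
    ∃ σ : Equiv.Perm (Fin d), (∀ i, σ (σ i) = i) ∧ ∀ i, σ i ≠ i := by
  obtain ⟨t, rfl⟩ := hd
  let e : Fin t ⊕ Fin t ≃ Fin (t + t) := finSumFinEquiv
  refine ⟨(e.symm.trans (Equiv.sumComm _ _)).trans e, ?_, ?_⟩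
  · intro i
    obtain ⟨x, rfl⟩ := e.surjective i
    rcases x with x | x <;> simp
  · intro i
    obtain ⟨x, rfl⟩ := e.surjective i
    rcases x with x | x <;> simp

end Cfsg.Agent.Lib.H45SqSigma
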