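import Mathlib
import Cfsg.Agent.Lib.H45SqDefs


set_option autoImplicit false

namespace Cfsg.Agent.Lib.H45SqSing

open Module QuadraticMap Cfsg.Agent.Lib.Helper45OspDefs Cfsg.Agent.Lib.H45SqDefs

universe u w

/-- piece `Sing` (pure Mathlib). -/
theorem exists_mat {F : Type u} [Field F] [Fintype F] (d : ℕ) (hd : 1 ≤ d) (r : ℕ) (hr : r.Prime)
    (hdvd : r ∣ Fintype.card F ^ d - 1) :
    ∃ A : Matrix (Fin d) (Fin d) F, A ^ r = 1 ∧ ∀ v, A.mulVec v = v → v = 0 := by
  have : NeZero d := ⟨by omega⟩
  obtain ⟨p, hp⟩ := CharP.exists F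
  have hpp : p.Prime := by
    rcases CharP.char_is_prime_or_zero F p with h | h
    · exact h
    · subst h
      exact absurd (CharP.charP_to_charZero F) (by
        intro h
        exact not_finite F)
  have : Fact p.Prime := ⟨hpp⟩
  let K := FiniteField.Extension F p d
  have hfin : finrank F K = d := FiniteField.finrank_extension F p d
  have : Finite K := Module.finite_of_finite F
  have := Fintype.ofFinite K
  have hcard : Fintype.card K = Fintype.card F ^ d := by
    rw [← Nat.card_eq_fintype_card, FiniteField.natCard_extension, Nat.card_eq_fintype_card]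
  classical
  have hcu : Fintype.card Kˣ = Fintype.card F ^ d - 1 := by
    rw [Fintype.card_units, hcard]
  have : Fact r.Prime := ⟨hr⟩
  obtain ⟨μ, hμ⟩ := exists_prime_orderOf_dvd_card (G := Kˣ) r (by rw [hcu]; exact hdvd)
  have hμ1 : (μ : K) ≠ 1 := by
    intro h
    have : μ = 1 := Units.ext h
    rw [this, orderOf_one] at hμ
    exact hr.one_lt.ne hμ
  have hμr : (μ : K) ^ r = 1 := by
    have := pow_orderOf_eq_one μ
    rw [hμ] at this
    have h2 := congrArg Units.val this
    simpa using h2
  let b : Basis (Fin d) F K := Module.finBasisOfFinrankEq F K hfin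
  let L : K →ₗ[F] K := LinearMap.mulLeft F (μ : K)
  refine ⟨LinearMap.toMatrix b b L, ?_, ?_⟩
  · have h1 : LinearMap.toMatrix b b L ^ r = LinearMap.toMatrix b b (L ^ r) := by
      have := map_pow (LinearMap.toMatrixAlgEquiv b) L r
      exact this.symm
    rw [h1]
    have h2 : L ^ r = 1 := by
      ext x
      simp only [L, LinearMap.pow_mulLeft, hμr]
      simp
    rw [h2]
    exact LinearMap.toMatrix_one b
  · intro v hv
    set x : K := b.repr.symm (Finsupp.equivFunOnFinite.symm v) with hx
    have hxv : (b.repr x : Fin d → F) = v := by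
      rw [hx]; simp
    have h1 := LinearMap.toMatrix_mulVec_repr b b L x
    rw [hxv, hv] at h1
    have h2 : b.repr (L x) = b.repr x := by
      ext i
      rw [← congrFun h1 i, ← congrFun hxv i]
    have h3 : L x = x := b.repr.injective h2
    have h4 : ((μ : K) - 1) * x = 0 := by
      have : (μ : K) * x = x := h3
      rw [sub_mul, this, one_mul, sub_self]
    have h5 : x = 0 := by
      rcases mul_eq_zero.1 h4 with h | h
      · exact absurd (sub_eq_zero.1 h) hμ1
      · exact h
    rw [← hxv, h5]
    simp

end Cfsg.Agent.Lib.H45SqSing
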