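import Mathlib
import Cfsg.Agent.Lib.H45SqDefs
import Cfsg.Agent.Lib.Helper45OspTrans

set_option autoImplicit false

namespace Cfsg.Agent.Lib.H45SqTransS

open Module QuadraticMap Cfsg.Agent.Lib.Helper45OspDefs Cfsg.Agent.Lib.H45SqDefs
  Cfsg.Agent.Lib.Helper45OspTrans Cfsg.Agent.Lib.Helper45OspLevel

universe u w

universe v

/-- piece `TransS`: `Helper45OspTrans.trans` with semiregularity. -/
theorem transS {F : Type u} [Field F] [Fintype F] [CharP F 2] {K : Type v} [Field K] [Fintype K]
    [Algebra F K] (d : ℕ) (hd : finrank F K = d) (M : ℕ) (ε : ℤ) (m : ℕ)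
    (h : ModelS.{v, w} K M ε m) : ModelS.{u, w} F M ε (m * d) := by
  classical
  obtain ⟨W, iA, iM, iFin, Q, h, hT, hiso, hord, hsemi⟩ := h
  have hT' := hT
  obtain ⟨hm, hnd, hfr, hz⟩ := hT
  letI : Module F W := Module.compHom W (algebraMap F K)
  haveI : IsScalarTower F K W := ⟨fun a b x => by
    show (a • b) • x = (algebraMap F K a) • (b • x)
    rw [Algebra.smul_def, mul_smul]⟩
  haveI : Module.Finite F W := Module.Finite.trans K W
  haveI : CharP K 2 := charP_of_injective_algebraMap (algebraMap F K).injective 2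
  haveI : Finite W := Module.finite_of_finite K
  have hd1 : 1 ≤ d := by rw [← hd]; exact Module.finrank_pos
  have hs : Function.Surjective (Algebra.trace F K) := Algebra.trace_surjective F K
  refine ⟨W, iA, inferInstance, inferInstance, (Algebra.trace F K).compQuadraticMap' Q,
    h.restrictScalars F, ⟨?_, ?_, ?_, ?_⟩, ?_, ?_, ?_⟩
  · exact Nat.mul_pos hm hd1
  · rw [Cfsg.Agent.Lib.Helper42Quad.nondeg_iff] at hnd ⊢
    intro u hu
    by_contra hu0
    obtain ⟨v, hv⟩ : ∃ v, QuadraticMap.polar Q u v ≠ 0 := by
      by_contra hcon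
      push Not at hcon
      exact hu0 (hnd u hcon)
    obtain ⟨l, hl⟩ := hs 1
    have h1 := hu ((l * (QuadraticMap.polar Q u v)⁻¹) • v)
    rw [LinearMap.compQuadraticMap_polar, QuadraticMap.polar_smul_right, smul_eq_mul, mul_assoc,
      inv_mul_cancel₀ hv, mul_one, hl] at h1
    exact one_ne_zero h1
  · rw [← Module.finrank_mul_finrank F K W, hd, hfr]; ring
  · have hcK : (Fintype.card K : ℤ) = (Fintype.card F : ℤ) ^ d := by
      rw [Module.card_eq_pow_finrank (K := F) (V := K), hd]; push_cast; rfl
    have key := card_fiber_split (fun x : W => Q x)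
      (Finset.univ.filter (fun c : K => Algebra.trace F K c = 0)) (by simp) _ _ hz
      (fun c hc => level ε m Q hT' c hc)
    rw [card_ker_trace d hd, hcK] at key
    push_cast at key
    rw [arith _ _ _ _ hm hd1] at key
    rw [← key]
    congr 2
    simp
  · intro x
    simp [hiso x]
  · intro j
    rw [← hord j]
    have hp : ∀ x, ((h.restrictScalars F) ^ j) x = (h ^ j) x := by
      intro x
      rw [Module.End.pow_apply, Module.End.pow_apply]
      rfl
    constructor
    · intro e
      ext x
      rw [← hp, e]; rfl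
    · intro e
      ext x
      rw [hp, e]; rfl
  · intro j x hx
    have hp : ∀ x, ((h.restrictScalars F) ^ j) x = (h ^ j) x := by
      intro x
      rw [Module.End.pow_apply, Module.End.pow_apply]
      rfl
    rw [hp] at hx
    rcases hsemi j x hx with h0 | h1
    · exact Or.inl h0
    · right
      ext y
      rw [hp, h1]; rfl

end Cfsg.Agent.Lib.H45SqTransS
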