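import Mathlib
import Cfsg.Agent.Lib.H45SqDefs


set_option autoImplicit false

namespace Cfsg.Agent.Lib.H45SqZeros

open Module QuadraticMap Cfsg.Agent.Lib.Helper45OspDefs Cfsg.Agent.Lib.H45SqDefs

universe u w

/-- piece `Zeros`. -/
theorem dvd_zeros {F : Type u} [Field F] [Fintype F] {W : Type w} [AddCommGroup W] [Module F W]
    [Module.Finite F W] (Q : QuadraticForm F W) (X : End F W) (r : ℕ) (hr : r.Prime)
    (hQ : QIso Q X) (hX : X ^ r = 1) (hfix : ∀ x, X x = x → x = 0) :
    (r : ℤ) ∣ (Nat.card {x : W // Q x = 0} : ℤ) - 1 := by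
  classical
  have : Fact r.Prime := ⟨hr⟩
  have : Finite W := Module.finite_of_finite F
  have := Fintype.ofFinite {x : W // Q x = 0}
  let f : Function.End {x : W // Q x = 0} := fun x => ⟨X x.1, by rw [hQ]; exact x.2⟩
  have hpow : ∀ (j : ℕ) (x : {x : W // Q x = 0}), ((f ^ j) x).1 = (X ^ j) x.1 := by
    intro j
    induction j with
    | zero => intro x; simp only [pow_zero]; rfl
    | succ j ih =>
      intro x
      rw [pow_succ, pow_succ, Module.End.mul_apply]
      show ((f ^ j) (f x)).1 = _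
      rw [ih]
  have hf : f ^ r ^ 1 = 1 := by
    funext x
    apply Subtype.ext
    rw [pow_one, hpow, hX]; rfl
  have h1 := Equiv.Perm.card_fixedPoints_modEq hf
  have h2 : Fintype.card (Function.fixedPoints f) = 1 := by
    rw [Fintype.card_eq_one_iff]
    refine ⟨⟨⟨0, by simp⟩, ?_⟩, ?_⟩
    · show f _ = _
      apply Subtype.ext
      show X 0 = 0
      simp
    · rintro ⟨⟨x, hx⟩, hxf⟩
      apply Subtype.ext
      apply Subtype.ext
      show x = 0
      apply hfix
      exact congrArg Subtype.val hxf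
  rw [h2] at h1
  rw [Nat.card_eq_fintype_card]
  have h3 := (Nat.modEq_iff_dvd.mp h1.symm)
  simpa using h3

end Cfsg.Agent.Lib.H45SqZeros
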