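import Mathlib
import Cfsg.Agent.Lib.H45SqDefs
import Cfsg.Agent.Lib.H45SqPlaneMS
import Cfsg.Agent.Lib.H45SqTransS
import Cfsg.Agent.Lib.H45SqAltIsom
import Cfsg.Agent.Lib.H45SqConj
import Cfsg.Agent.Lib.H45SqZeros
import Cfsg.Agent.Lib.H45SqAr
import Cfsg.Agent.Lib.Helper45OspStd
import Cfsg.Agent.Lib.Helper42Quad

set_option autoImplicit false

namespace Cfsg.Agent.Lib.H45SqTor

open Module QuadraticMap Cfsg.Agent.Lib.Helper45OspDefs Cfsg.Agent.Lib.H45SqDefs

universe u w

variable (F : Type u) [Field F] [Fintype F] [CharP F 2]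

/-- assembly: nonsplit torus `q^d + 1`, semiregular -/
theorem fldS (d : ℕ) (hd : 1 ≤ d) : ModelS.{u, 0} F (Fintype.card F ^ d + 1) (-1) d := by
  have : NeZero d := ⟨by omega⟩
  have : Fact (Nat.Prime 2) := ⟨Nat.prime_two⟩
  let K := FiniteField.Extension F 2 d
  have hfin : finrank F K = d := FiniteField.finrank_extension F 2 d
  have : Finite K := Module.finite_of_finite F
  have := Fintype.ofFinite K
  have : CharP K 2 := charP_of_injective_algebraMap (algebraMap F K).injective 2
  have hcard : Fintype.card K = Fintype.card F ^ d := by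
    rw [← Nat.card_eq_fintype_card, FiniteField.natCard_extension, Nat.card_eq_fintype_card]
  have h := H45SqTransS.transS (F := F) (K := K) d hfin _ _ _ (H45SqPlaneMS.planeMS K)
  rwa [hcard, one_mul] at h

variable {F}

omit [Fintype F] in
theorem polar_alt {W : Type w} [AddCommGroup W] [Module F W] (Q : QuadraticForm F W) :
    (polarBilin Q).IsAlt := by
  intro v
  show polar Q v v = 0
  rw [polar_self, two_smul]
  exact CharTwo.add_self_eq_zero _

/-- assembly: a fixed point free isometry of order `r ∣ q^d + 1` of the polar form. -/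
theorem exists_semireg {W : Type w} [AddCommGroup W] [Module F W] [Module.Finite F W]
    (d : ℕ) (hd : 1 ≤ d) (Q : QuadraticForm F W) (hnd : (polarBilin Q).Nondegenerate)
    (hW : finrank F W = 2 * d) (r : ℕ) (hr : r.Prime) (hdvd : r ∣ Fintype.card F ^ d + 1) :
    ∃ X : End F W, PIso Q X ∧ X ^ r = 1 ∧ ∀ x, X x = x → x = 0 := by
  obtain ⟨W', _, _, _, Q', h, hT, hiso, hord, hsemi⟩ := fldS F d hd
  obtain ⟨c, hc⟩ := hdvd
  obtain ⟨T, hT'⟩ := H45SqAltIsom.alt_isom d (polarBilin Q') (polarBilin Q) (polar_alt Q')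
    (polar_alt Q) ((Cfsg.Agent.Lib.Helper42Quad.nondeg_iff Q').1 hT.2.1)
    ((Cfsg.Agent.Lib.Helper42Quad.nondeg_iff Q).1 hnd) hT.2.2.1 hW
  have hpow' : ∀ (n : ℕ) (x : W'), Q' ((h ^ n) x) = Q' x := by
    intro n
    induction n with
    | zero => intro x; simp
    | succ n ih => intro x; rw [pow_succ, Module.End.mul_apply, ih, hiso]
  have hpow := hpow' c
  refine H45SqConj.conj Q Q' T hT' (h ^ c) r ?_ ?_ ?_
  · intro u v
    unfold polar
    rw [← map_add, hpow, hpow, hpow]
  · rw [← pow_mul, hord, hc, mul_comm]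
  · intro x hx
    rcases hsemi c x hx with h0 | h1
    · exact h0
    · exfalso
      rw [hord, hc] at h1
      have hc0 : 0 < c := by
        rcases Nat.eq_zero_or_pos c with h | h
        · rw [h] at hc; omega
        · exact h
      have := Nat.le_of_dvd hc0 h1
      have h2 := hr.two_le
      nlinarith

end Cfsg.Agent.Lib.H45SqTor
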