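import Mathlib
import Cfsg.Agent.Lib.H45SqDefs
import Cfsg.Agent.Lib.Helper95SpStd


set_option autoImplicit false

namespace Cfsg.Agent.Lib.H45SqUni

open Module QuadraticMap Cfsg.Agent.Lib.Helper45OspDefs Cfsg.Agent.Lib.H45SqDefs

universe u w

/-- piece `Uni`. `N v = Sum.elim (fun i => v (inr (σ i))) (fun _ => 0)` (a linear map; `LinearMap.pi`/structure literal).
With `Helper95SpStd.sympForm_eq` (`sympForm d F u v = ∑ i, (u (inr i) * v (inl i) - u (inl i) * v (inr i))`):
* `sympForm v (N v) = ∑ i, v (inr i) * v (inr (σ i)) = 0` by `Finset.sum_involution` with `i ↦ σ i` (the two terms are equal, char 2);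
* `sympForm (u + N u) (v + N v) = sympForm u v + ∑ i, (u (inr i) * v (inr (σ i)) - u (inr (σ i)) * v (inr i))`, and the last sum is `0`
  (reindex the second half by `σ`: `Equiv.sum_comp σ`);
* `N * N = 0`, so `(1+N)^2 = 1 + 2 N = 1`; `N ≠ 0` (`d ≥ 1`): apply to `Pi.single (inr i) 1`;
* `range N = {v | ∀ i, v (inr i) = 0}`, of dimension `d`. -/
theorem uni {F : Type u} [Field F] [CharP F 2] (d : ℕ) (hd : 1 ≤ d)
    (Q₀ : QuadraticForm F (Fin d ⊕ Fin d → F))
    (hpol : ∀ u v, polar Q₀ u v = Cfsg.sympForm d F u v)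
    (σ : Equiv.Perm (Fin d)) (h1 : ∀ i, σ (σ i) = i) (h2 : ∀ i, σ i ≠ i) :
    ∃ N : End F (Fin d ⊕ Fin d → F), PIso Q₀ (1 + N) ∧ (1 + N) ^ 2 = 1 ∧ (1 + N) ≠ 1 ∧
      finrank F (LinearMap.range N) = d ∧ ∀ v, polar Q₀ v (N v) = 0 := by
  have c2 : (2 : F) = 0 := CharTwo.two_eq_zero
  obtain ⟨N, hNl, hNr⟩ : ∃ N : End F (Fin d ⊕ Fin d → F),
      (∀ v i, N v (Sum.inl i) = v (Sum.inr (σ i))) ∧ (∀ v i, N v (Sum.inr i) = 0) := by
    refine ⟨{ toFun := fun v => Sum.elim (fun i => v (Sum.inr (σ i))) (fun _ => 0)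
              map_add' := ?_
              map_smul' := ?_ }, fun v i => rfl, fun v i => rfl⟩
    · intro u v
      ext (i | i) <;> simp
    · intro c v
      ext (i | i) <;> simp
  obtain ⟨M, hMl, hMr⟩ : ∃ M : (Fin d → F) →ₗ[F] (Fin d ⊕ Fin d → F),
      (∀ w i, M w (Sum.inl i) = w (σ i)) ∧ (∀ w i, M w (Sum.inr i) = 0) := by
    refine ⟨{ toFun := fun w => Sum.elim (fun i => w (σ i)) (fun _ => 0)
              map_add' := ?_
              map_smul' := ?_ }, fun v i => rfl, fun v i => rfl⟩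
    · intro u v
      ext (i | i) <;> simp
    · intro c v
      ext (i | i) <;> simp
  refine ⟨N, ?_, ?_, ?_, ?_, ?_⟩
  · intro u v
    rw [hpol, hpol, Cfsg.Agent.Lib.Helper95SpStd.sympForm_eq, Cfsg.Agent.Lib.Helper95SpStd.sympForm_eq]
    simp only [LinearMap.add_apply, Module.End.one_apply, Pi.add_apply, hNl, hNr, add_zero]
    have e : ∑ i, u (Sum.inr i) * v (Sum.inr (σ i)) = ∑ i, u (Sum.inr (σ i)) * v (Sum.inr i) := by
      rw [← Equiv.sum_comp σ]
      refine Finset.sum_congr rfl fun i _ => ?_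
      rw [h1]
    have e' : ∑ i, (u (Sum.inr i) * (v (Sum.inl i) + v (Sum.inr (σ i))) -
          (u (Sum.inl i) + u (Sum.inr (σ i))) * v (Sum.inr i)) =
        ∑ i, (u (Sum.inr i) * v (Sum.inl i) - u (Sum.inl i) * v (Sum.inr i)) +
          (∑ i, u (Sum.inr i) * v (Sum.inr (σ i)) - ∑ i, u (Sum.inr (σ i)) * v (Sum.inr i)) := by
      rw [← Finset.sum_sub_distrib, ← Finset.sum_add_distrib]
      refine Finset.sum_congr rfl fun i _ => ?_
      ring
    rw [e', e, sub_self, add_zero]
  · apply LinearMap.ext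
    intro v
    funext j
    rw [_root_.sq]
    rcases j with i | i
    · simp only [Module.End.mul_apply, LinearMap.add_apply, Module.End.one_apply, Pi.add_apply, hNl,
        hNr, add_zero]
      linear_combination (v (Sum.inr (σ i))) * c2
    · simp only [Module.End.mul_apply, LinearMap.add_apply, Module.End.one_apply, Pi.add_apply, hNl,
        hNr, add_zero]
  · intro hcon
    have hN0 : N = 0 := by
      have := hcon
      rwa [add_eq_left] at this
    have := hNl (Pi.single (Sum.inr (σ ⟨0, hd⟩)) 1) ⟨0, hd⟩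
    rw [hN0] at this
    simp at this
  · have hr : LinearMap.range N = LinearMap.range M := by
      apply le_antisymm
      · rintro _ ⟨v, rfl⟩
        refine ⟨fun i => v (Sum.inr i), ?_⟩
        ext (i | i)
        · rw [hMl, hNl]
        · rw [hMr, hNr]
      · rintro _ ⟨w, rfl⟩
        refine ⟨Sum.elim (fun _ => 0) w, ?_⟩
        ext (i | i)
        · rw [hMl, hNl]
          rfl
        · rw [hMr, hNr]
    rw [hr, LinearMap.finrank_range_of_inj, Module.finrank_fin_fun]
    intro w w' hww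
    ext i
    have := congrFun hww (Sum.inl (σ i))
    rwa [hMl, hMl, h1] at this
  · intro v
    rw [hpol, Cfsg.Agent.Lib.Helper95SpStd.sympForm_eq]
    simp only [hNl, hNr, mul_zero, sub_zero]
    refine Finset.sum_involution (fun i _ => σ i) ?_ ?_ ?_ ?_
    · intro i _
      rw [h1]
      linear_combination (v (Sum.inr i) * v (Sum.inr (σ i))) * c2
    · intro i _ _
      exact h2 i
    · intro i _
      exact Finset.mem_univ _
    · intro i _
      exact h1 i

end Cfsg.Agent.Lib.H45SqUni
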