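import Mathlib

/-!
PROJECT 2381 (SY): Sylow `r`-subgroups of `Sp_{2n}(q)`, `r > n` odd, `r ∤ q`, are homocyclic (S2381).
Vocabulary.
-/

set_option autoImplicit false

namespace Cfsg.Agent.Lib.H45SyDefs

open Module

universe u w w'

variable {F : Type u} [Field F] {W₀ : Type w} [AddCommGroup W₀] [Module F W₀]
  {W₁ : Type w'} [AddCommGroup W₁] [Module F W₁]

/-- `z ↦ y ^ z` for `z` in the cyclic group `ZMod M`. -/
def Th (y : End F W₀) (M : ℕ) (z : Multiplicative (ZMod M)) : End F W₀ :=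
  y ^ (Multiplicative.toAdd z).val

/-- the orthogonal sum of `a` copies of `β₀` and one copy of `β₁`. -/
def piB (a : ℕ) (β₀ : LinearMap.BilinForm F W₀) (β₁ : LinearMap.BilinForm F W₁) :
    LinearMap.BilinForm F ((Fin a → W₀) × W₁) :=
  (∑ i : Fin a, β₀.compl₁₂ ((LinearMap.proj i).comp (LinearMap.fst F (Fin a → W₀) W₁))
      ((LinearMap.proj i).comp (LinearMap.fst F (Fin a → W₀) W₁)))
    + β₁.compl₁₂ (LinearMap.snd F (Fin a → W₀) W₁) (LinearMap.snd F (Fin a → W₀) W₁)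

/-- the block diagonal endomorphism `(f i)_i ⊕ 1`. -/
def piE (a : ℕ) (W₁ : Type w') [AddCommGroup W₁] [Module F W₁] (f : Fin a → End F W₀) :
    End F ((Fin a → W₀) × W₁) :=
  LinearMap.prodMap (LinearMap.pi (fun i => (f i).comp (LinearMap.proj i))) LinearMap.id

end Cfsg.Agent.Lib.H45SyDefs
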