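import Mathlib
import Cfsg.Agent.Lib.H45SyDefs


set_option autoImplicit false

namespace Cfsg.Agent.Lib.H45SyCnt

open Module Cfsg.Agent.Lib.H45SyDefs

universe u v w w'

/-- piece `Cnt` (pure). -/
theorem cnt (n d η : ℕ) (hd : 1 ≤ d) (h : (Odd d ∧ η = d) ∨ (Even d ∧ 2 * η = d)) :
    ((Finset.Icc 1 n).filter (fun i => d ∣ 2 * i)).card * η ≤ n := by
  have key : ∀ i, d ∣ 2 * i ↔ η ∣ i := by
    intro i
    rcases h with ⟨ho, rfl⟩ | ⟨-, rfl⟩
    · constructor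
      · intro h1
        exact Nat.Coprime.dvd_of_dvd_mul_left (Nat.Coprime.symm (Nat.coprime_two_left.2 ho)) h1
      · intro h1
        exact Dvd.dvd.mul_left h1 2
    · exact Nat.mul_dvd_mul_iff_left (by norm_num)
  have e : (Finset.Icc 1 n).filter (fun i => d ∣ 2 * i) =
      (Finset.Ioc 0 n).filter (fun i => η ∣ i) := by
    ext i
    simp only [Finset.mem_filter, Finset.mem_Icc, Finset.mem_Ioc, key]
    constructor
    · rintro ⟨⟨h1, h2⟩, h3⟩
      exact ⟨⟨by omega, h2⟩, h3⟩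
    · rintro ⟨⟨h1, h2⟩, h3⟩
      exact ⟨⟨by omega, h2⟩, h3⟩
  rw [e, Nat.Ioc_filter_dvd_card_eq_div]
  exact Nat.div_mul_le_self n η

end Cfsg.Agent.Lib.H45SyCnt
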