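import Mathlib
import Cfsg.Agent.Lib.H45SyDefs


set_option autoImplicit false

namespace Cfsg.Agent.Lib.H45SyCyc

open Module Cfsg.Agent.Lib.H45SyDefs

universe u v w w'

theorem dvd_pow_sub_one_iff (q r j : ℕ) (hq : 1 ≤ q) :
    r ∣ q ^ j - 1 ↔ orderOf (q : ZMod r) ∣ j := by
  rw [← ZMod.natCast_eq_zero_iff, Nat.cast_sub (Nat.one_le_pow _ _ hq), Nat.cast_pow, Nat.cast_one,
    sub_eq_zero, orderOf_dvd_iff_pow_eq_one]

theorem orderOf_pos' (q r : ℕ) [Fact r.Prime] (hrq : ¬ r ∣ q) : 0 < orderOf (q : ZMod r) := by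
  have h0 : (q : ZMod r) ≠ 0 := by
    rw [Ne, ZMod.natCast_eq_zero_iff]
    exact hrq
  have h1 : (q : ZMod r) ^ (r - 1) = 1 := ZMod.pow_card_sub_one_eq_one h0
  have hr : 1 < r := (Fact.out : r.Prime).one_lt
  exact orderOf_pos_iff.2 (isOfFinOrder_iff_pow_eq_one.2 ⟨r - 1, by omega, h1⟩)

theorem cast_pow_sub_one (q k : ℕ) (hq : 1 ≤ q) : ((q ^ k - 1 : ℕ) : ℤ) = (q : ℤ) ^ k - 1 := by
  rw [Nat.cast_sub (Nat.one_le_pow _ _ hq), Nat.cast_pow, Nat.cast_one]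

/-- piece `Cyc` (pure Mathlib). -/
theorem val_cyc (q r : ℕ) [Fact r.Prime] (hq : 2 ≤ q) (hrq : ¬ r ∣ q) :
    padicValNat r (q ^ orderOf (q : ZMod r) - 1) =
      padicValNat r ((Polynomial.cyclotomic (orderOf (q : ZMod r)) ℤ).eval (q : ℤ)).natAbs := by
  have hr : r.Prime := Fact.out
  set d := orderOf (q : ZMod r) with hd
  have hd0 : 0 < d := orderOf_pos' q r hrq
  set B : ℤ := ∏ k ∈ d.properDivisors, (Polynomial.cyclotomic k ℤ).eval (q : ℤ) with hB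
  have hfac : (q : ℤ) ^ d - 1 = (Polynomial.cyclotomic d ℤ).eval (q : ℤ) * B := by
    have h1 := congrArg (Polynomial.eval (q : ℤ)) (Polynomial.prod_cyclotomic_eq_X_pow_sub_one hd0 ℤ)
    rw [Polynomial.eval_prod, ← Nat.insert_self_properDivisors hd0.ne',
      Finset.prod_insert Nat.self_notMem_properDivisors] at h1
    rw [h1]
    simp
  have hpos : 1 < q ^ d := Nat.one_lt_pow hd0.ne' (by omega)
  have hnat : q ^ d - 1 = ((Polynomial.cyclotomic d ℤ).eval (q : ℤ)).natAbs * B.natAbs := by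
    rw [← Int.natAbs_mul, ← hfac, ← cast_pow_sub_one q d (by omega), Int.natAbs_natCast]
  have hne : q ^ d - 1 ≠ 0 := by omega
  have hA0 : ((Polynomial.cyclotomic d ℤ).eval (q : ℤ)).natAbs ≠ 0 := by
    intro h0
    rw [h0, zero_mul] at hnat
    exact hne hnat
  have hB0 : B.natAbs ≠ 0 := by
    intro h0
    rw [h0, mul_zero] at hnat
    exact hne hnat
  have hrB : ¬ r ∣ B.natAbs := by
    intro h'
    have h2 : (r : ℤ) ∣ B := Int.natCast_dvd.2 h'
    obtain ⟨k, hk, hk2⟩ := (Prime.dvd_finsetProd_iff (Nat.prime_iff_prime_int.1 hr) _).1 h2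
    have h3 : (Polynomial.cyclotomic k ℤ).eval (q : ℤ) ∣ (q : ℤ) ^ k - 1 := by
      have := Polynomial.eval_dvd (x := (q : ℤ)) (Polynomial.cyclotomic.dvd_X_pow_sub_one k ℤ)
      simpa using this
    have h4 : (r : ℤ) ∣ ((q ^ k - 1 : ℕ) : ℤ) := by
      rw [cast_pow_sub_one q k (by omega)]
      exact hk2.trans h3
    have h5 : r ∣ q ^ k - 1 := Int.natCast_dvd_natCast.1 h4
    rw [dvd_pow_sub_one_iff q r k (by omega)] at h5
    obtain ⟨hkd, hlt⟩ := Nat.mem_properDivisors.1 hk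
    have hk0 : 0 < k := Nat.pos_of_dvd_of_pos hkd hd0
    have := Nat.le_of_dvd hk0 h5
    omega
  rw [hnat, padicValNat.mul hA0 hB0, padicValNat.eq_zero_of_not_dvd hrB, add_zero]

end Cfsg.Agent.Lib.H45SyCyc
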