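import Mathlib
import Cfsg.Agent.Lib.H45SyDefs


set_option autoImplicit false

namespace Cfsg.Agent.Lib.H45SyDiv

open Module Cfsg.Agent.Lib.H45SyDefs

universe u v w w'

theorem dvd_pow_sub_one_iff (q r j : ℕ) (hq : 1 ≤ q) :
    r ∣ q ^ j - 1 ↔ orderOf (q : ZMod r) ∣ j := by
  rw [← ZMod.natCast_eq_zero_iff, Nat.cast_sub (Nat.one_le_pow _ _ hq), Nat.cast_pow, Nat.cast_one,
    sub_eq_zero, orderOf_dvd_iff_pow_eq_one]

theorem orderOf_pos' (q r : ℕ) [Fact r.Prime] (hrq : ¬ r ∣ q) : 0 < orderOf (q : ZMod r) := by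
  have h0 : (q : ZMod r) ≠ 0 := by
    rw [Ne, ZMod.natCast_eq_zero_iff]
    exact hrq
  have h1 : (q : ZMod r) ^ (r - 1) = 1 := ZMod.pow_card_sub_one_eq_one h0
  have hr : 1 < r := (Fact.out : r.Prime).one_lt
  exact orderOf_pos_iff.2 (isOfFinOrder_iff_pow_eq_one.2 ⟨r - 1, by omega, h1⟩)

/-- piece `Div` (pure). -/
theorem dvd_torus (q r η : ℕ) [Fact r.Prime] (hq : 2 ≤ q) (hrq : ¬ r ∣ q)
    (hη : 2 * η = orderOf (q : ZMod r)) :
    r ^ padicValNat r (q ^ orderOf (q : ZMod r) - 1) ∣ q ^ η + 1 := by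
  have hr : r.Prime := Fact.out
  have hd := orderOf_pos' q r hrq
  have hη1 : 1 ≤ η := by omega
  have h1 : r ^ padicValNat r (q ^ orderOf (q : ZMod r) - 1) ∣ q ^ orderOf (q : ZMod r) - 1 :=
    pow_padicValNat_dvd
  have hfac : q ^ orderOf (q : ZMod r) - 1 = (q ^ η - 1) * (q ^ η + 1) := by
    rw [← hη, two_mul, pow_add]
    have : 1 ≤ q ^ η := Nat.one_le_pow _ _ (by omega)
    obtain ⟨a, ha⟩ : ∃ a, q ^ η = a + 1 := ⟨q ^ η - 1, by omega⟩
    rw [ha]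
    simp only [Nat.add_sub_cancel]
    have : (a + 1) * (a + 1) = a * (a + 1 + 1) + 1 := by ring
    rw [this, Nat.add_sub_cancel]
  have h2 : r ^ padicValNat r (q ^ orderOf (q : ZMod r) - 1) ∣ (q ^ η - 1) * (q ^ η + 1) :=
    hfac ▸ h1
  have hnd : ¬ r ∣ q ^ η - 1 := by
    rw [dvd_pow_sub_one_iff q r η (by omega)]
    intro h
    have := Nat.le_of_dvd (by omega) h
    omega
  exact Nat.Coprime.dvd_of_dvd_mul_left
    (Nat.Coprime.pow_left _ ((Nat.Prime.coprime_iff_not_dvd hr).2 hnd)) h2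

end Cfsg.Agent.Lib.H45SyDiv
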