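import Mathlib
import Cfsg.Agent.Lib.H45SyDefs
import Cfsg.Agent.Lib.Helper45Sp

set_option autoImplicit false

namespace Cfsg.Agent.Lib.H45SyHom

open Module Cfsg.Agent.Lib.H45SyDefs

universe u v w w'

/-- piece `Hom`. -/
theorem exists_hom {F : Type u} [Field F] {W : Type w} [AddCommGroup W] [Module F W]
    [Module.Finite F W] (n : ℕ) (β : LinearMap.BilinForm F W) (hA : β.IsAlt)
    (hB : ∀ u, (∀ v, β u v = 0) → u = 0) (hW : finrank F W = 2 * n)
    {A : Type v} [Group A] (Ψ : A → End F W) (hmul : ∀ a b, Ψ (a * b) = Ψ a * Ψ b)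
    (hiso : ∀ a u v, β (Ψ a u) (Ψ a v) = β u v) (hinj : Function.Injective Ψ) :
    ∃ ψ : A →* Matrix.symplecticGroup (Fin n) F, Function.Injective ψ := by
  obtain ⟨b, hb⟩ := Cfsg.Agent.Lib.Helper45Sp.exists_symplectic_basis β hA hB hW
  refine ⟨MonoidHom.mk' (fun a => Cfsg.Agent.Lib.Helper45Sp.spOf b hb (Ψ a) (hiso a)) ?_, ?_⟩
  · intro x y
    apply Subtype.ext
    show LinearMap.toMatrix b b (Ψ (x * y)) = LinearMap.toMatrix b b (Ψ x) * LinearMap.toMatrix b b (Ψ y)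
    rw [hmul, ← LinearMap.toMatrix_mul]
  · intro x y hxy
    apply hinj
    have h1 : LinearMap.toMatrix b b (Ψ x) = LinearMap.toMatrix b b (Ψ y) := congrArg Subtype.val hxy
    exact (LinearMap.toMatrix b b).injective h1

end Cfsg.Agent.Lib.H45SyHom
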