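import Mathlib
import Cfsg.Agent.Lib.H45SyDefs


set_option autoImplicit false

namespace Cfsg.Agent.Lib.H45SyLte

open Module Cfsg.Agent.Lib.H45SyDefs

universe u v w w'

theorem dvd_pow_sub_one_iff (q r j : ℕ) (hq : 1 ≤ q) :
    r ∣ q ^ j - 1 ↔ orderOf (q : ZMod r) ∣ j := by
  rw [← ZMod.natCast_eq_zero_iff, Nat.cast_sub (Nat.one_le_pow _ _ hq), Nat.cast_pow, Nat.cast_one,
    sub_eq_zero, orderOf_dvd_iff_pow_eq_one]

/-- piece `Lte` (pure Mathlib). -/
theorem val_pow (q r n i : ℕ) [Fact r.Prime] (hr2 : r ≠ 2) (hq : 2 ≤ q) (hrq : ¬ r ∣ q)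
    (hrn : n < r) (hi1 : 1 ≤ i) (hin : i ≤ n) :
    padicValNat r (q ^ (2 * i) - 1) =
      if orderOf (q : ZMod r) ∣ 2 * i then padicValNat r (q ^ orderOf (q : ZMod r) - 1) else 0 := by
  have hr : r.Prime := Fact.out
  have hodd : Odd r := hr.odd_of_ne_two hr2
  set d := orderOf (q : ZMod r) with hd
  split_ifs with h
  · obtain ⟨t, ht⟩ := h
    have ht0 : t ≠ 0 := by
      rintro rfl
      omega
    have hd0 : d ≠ 0 := by
      rintro h0
      rw [h0] at ht
      omega
    have h1 := padicValNat.pow_sub_pow (p := r) hodd (x := q ^ d) (y := 1)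
      (Nat.one_lt_pow hd0 (by omega))
      ((dvd_pow_sub_one_iff q r d (by omega)).2 (dvd_refl _))
      (fun h' => hrq (hr.dvd_of_dvd_pow h')) ht0
    rw [one_pow, ← pow_mul, ← ht] at h1
    rw [h1]
    have hrt : ¬ r ∣ t := by
      intro h'
      have htr : r ≤ t := Nat.le_of_dvd (Nat.pos_of_ne_zero ht0) h'
      by_cases hd1 : d = 1
      · rw [hd1, one_mul] at ht
        rw [← ht] at h'
        have h2 : r ∣ i := by
          rcases (Nat.Prime.dvd_mul hr).1 h' with h3 | h3
          · exact absurd ((Nat.prime_dvd_prime_iff_eq hr Nat.prime_two).1 h3) hr2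
          · exact h3
        have := Nat.le_of_dvd (by omega) h2
        omega
      · have hd2 : 2 ≤ d := by omega
        have : 2 * r ≤ d * t := Nat.mul_le_mul hd2 htr
        omega
    rw [padicValNat.eq_zero_of_not_dvd hrt, add_zero]
  · apply padicValNat.eq_zero_of_not_dvd
    rw [dvd_pow_sub_one_iff q r _ (by omega)]
    exact h

end Cfsg.Agent.Lib.H45SyLte
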