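import Mathlib
import Cfsg.Agent.Lib.H45SyDefs

set_option autoImplicit false

namespace Cfsg.Agent.Lib.H45SyPiB

open Module Cfsg.Agent.Lib.H45SyDefs

universe u v w w'

variable {F : Type u} [Field F] {W₀ : Type w} [AddCommGroup W₀] [Module F W₀]
  {W₁ : Type w'} [AddCommGroup W₁] [Module F W₁]

/-- piece `PiB` (a) -/
theorem piB_apply (a : ℕ) (β₀ : LinearMap.BilinForm F W₀) (β₁ : LinearMap.BilinForm F W₁)
    (x y : (Fin a → W₀) × W₁) :
    piB a β₀ β₁ x y = ∑ i, β₀ (x.1 i) (y.1 i) + β₁ x.2 y.2 := by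
  unfold piB
  simp [LinearMap.add_apply, LinearMap.sum_apply, LinearMap.compl₁₂_apply]

/-- piece `PiB` (b) -/
theorem piB_alt (a : ℕ) (β₀ : LinearMap.BilinForm F W₀) (β₁ : LinearMap.BilinForm F W₁)
    (h₀ : β₀.IsAlt) (h₁ : β₁.IsAlt) : (piB a β₀ β₁).IsAlt := by
  intro x
  rw [piB_apply, h₁, add_zero]
  exact Finset.sum_eq_zero fun i _ => h₀ _

/-- piece `PiB` (c) -/
theorem piB_nd (a : ℕ) (β₀ : LinearMap.BilinForm F W₀) (β₁ : LinearMap.BilinForm F W₁)
    (h₀ : ∀ u, (∀ v, β₀ u v = 0) → u = 0) (h₁ : ∀ u, (∀ v, β₁ u v = 0) → u = 0)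
    (u : (Fin a → W₀) × W₁) (h : ∀ v, piB a β₀ β₁ u v = 0) : u = 0 := by
  classical
  apply Prod.ext
  · funext i
    apply h₀
    intro v
    have := h (Pi.single i v, 0)
    rw [piB_apply] at this
    simp only [map_zero, add_zero] at this
    rw [Finset.sum_eq_single i] at this
    · simpa using this
    · intro j _ hj
      rw [Pi.single_eq_of_ne hj, map_zero]
    · intro hi
      exact absurd (Finset.mem_univ i) hi
  · apply h₁
    intro v
    have := h (0, v)
    rw [piB_apply] at this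
    simpa using this

/-- piece `PiB` (d) -/
theorem finrank_pi [Module.Finite F W₀] [Module.Finite F W₁] (a : ℕ) :
    finrank F ((Fin a → W₀) × W₁) = a * finrank F W₀ + finrank F W₁ := by
  rw [Module.finrank_prod, Module.finrank_pi_fintype]
  simp

end Cfsg.Agent.Lib.H45SyPiB
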