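import Mathlib
import Cfsg.Agent.Lib.H45SyDefs
import Cfsg.Agent.Lib.H45SyPiB

set_option autoImplicit false

namespace Cfsg.Agent.Lib.H45SyPiE

open Module Cfsg.Agent.Lib.H45SyDefs

universe u v w w'

variable {F : Type u} [Field F] {W₀ : Type w} [AddCommGroup W₀] [Module F W₀]
  {W₁ : Type w'} [AddCommGroup W₁] [Module F W₁]

/-- piece `PiE` (a) -/
theorem piE_apply (a : ℕ) (f : Fin a → End F W₀) (x : (Fin a → W₀) × W₁) :
    piE a W₁ f x = (fun i => f i (x.1 i), x.2) := by
  rfl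

/-- piece `PiE` (b) -/
theorem piE_mul (a : ℕ) (f g : Fin a → End F W₀) :
    piE a W₁ (f * g) = piE a W₁ f * piE a W₁ g := by
  apply LinearMap.ext
  intro x
  rw [Module.End.mul_apply, piE_apply, piE_apply, piE_apply]
  rfl

/-- piece `PiE` (c) -/
theorem piE_injective (a : ℕ) : Function.Injective (piE (F := F) (W₀ := W₀) a W₁) := by
  classical
  intro f g h
  funext i
  apply LinearMap.ext
  intro w
  have := LinearMap.congr_fun h (Pi.single i w, 0)
  rw [piE_apply, piE_apply] at this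
  have h2 := congrFun (congrArg Prod.fst this) i
  simpa using h2

/-- piece `PiE` (d) -/
theorem piE_iso (a : ℕ) (β₀ : LinearMap.BilinForm F W₀) (β₁ : LinearMap.BilinForm F W₁)
    (f : Fin a → End F W₀) (hf : ∀ i u v, β₀ (f i u) (f i v) = β₀ u v) (x y : (Fin a → W₀) × W₁) :
    piB a β₀ β₁ (piE a W₁ f x) (piE a W₁ f y) = piB a β₀ β₁ x y := by
  rw [H45SyPiB.piB_apply, H45SyPiB.piB_apply, piE_apply, piE_apply]
  simp only [hf]

end Cfsg.Agent.Lib.H45SyPiE
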