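import Mathlib
import Cfsg.Agent.Lib.H45SyDefs

set_option autoImplicit false

namespace Cfsg.Agent.Lib.H45SyPow

open Module Cfsg.Agent.Lib.H45SyDefs

universe u v w w'

variable {F : Type u} [Field F] {W₀ : Type w} [AddCommGroup W₀] [Module F W₀]

/-- piece `Pow` (a). -/
theorem th_mul (y : End F W₀) (M : ℕ) [NeZero M] (hy : ∀ j, y ^ j = 1 ↔ M ∣ j)
    (a b : Multiplicative (ZMod M)) : Th y M (a * b) = Th y M a * Th y M b := by
  unfold Th
  rw [toAdd_mul, ZMod.val_add, ← pow_add]
  have hM : y ^ M = 1 := (hy M).2 dvd_rfl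
  conv_rhs => rw [← Nat.mod_add_div ((Multiplicative.toAdd a).val + (Multiplicative.toAdd b).val) M]
  rw [pow_add, pow_mul, hM, one_pow, mul_one]

/-- piece `Pow` (b). -/
theorem th_injective (y : End F W₀) (M : ℕ) [NeZero M] (hy : ∀ j, y ^ j = 1 ↔ M ∣ j) :
    Function.Injective (Th y M) := by
  have hM : y ^ M = 1 := (hy M).2 dvd_rfl
  have key : ∀ i j : ℕ, i ≤ j → j < M → y ^ i = y ^ j → i = j := by
    intro i j hij hj h
    have h1 : y ^ (j - i) = 1 := by
      have h2 : y ^ (j - i) * y ^ i = y ^ j := by rw [← pow_add, Nat.sub_add_cancel hij]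
      have h3 : y ^ i * y ^ (M - i) = 1 := by rw [← pow_add, Nat.add_sub_cancel' (by omega), hM]
      calc y ^ (j - i) = y ^ (j - i) * (y ^ i * y ^ (M - i)) := by rw [h3, mul_one]
        _ = y ^ j * y ^ (M - i) := by rw [← mul_assoc, h2]
        _ = y ^ i * y ^ (M - i) := by rw [h]
        _ = 1 := h3
    have h4 := (hy _).1 h1
    have := Nat.eq_zero_of_dvd_of_lt h4 (by omega)
    omega
  intro a b hab
  unfold Th at hab
  have ha := ZMod.val_lt (Multiplicative.toAdd a)
  have hb := ZMod.val_lt (Multiplicative.toAdd b)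
  have : (Multiplicative.toAdd a).val = (Multiplicative.toAdd b).val := by
    rcases le_total (Multiplicative.toAdd a).val (Multiplicative.toAdd b).val with h | h
    · exact key _ _ h hb hab
    · exact (key _ _ h ha hab.symm).symm
  exact Multiplicative.toAdd.injective (ZMod.val_injective M this)

/-- piece `Pow` (c). -/
theorem th_iso (β₀ : LinearMap.BilinForm F W₀) (y : End F W₀) (M : ℕ)
    (hiso : ∀ u v, β₀ (y u) (y v) = β₀ u v) (z : Multiplicative (ZMod M)) (u v : W₀) :
    β₀ (Th y M z u) (Th y M z v) = β₀ u v := by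
  unfold Th
  generalize (Multiplicative.toAdd z).val = k
  induction k generalizing u v with
  | zero => simp
  | succ k ih => rw [pow_succ, Module.End.mul_apply, Module.End.mul_apply, ih, hiso]

end Cfsg.Agent.Lib.H45SyPow
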