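import Mathlib
import Cfsg.Agent.Lib.H45SyDefs


set_option autoImplicit false

namespace Cfsg.Agent.Lib.H45SyProd

open Module Cfsg.Agent.Lib.H45SyDefs

universe u v w w'

/-- piece `Prod` (pure Mathlib). -/
theorem val_card (q r n e : ℕ) [Fact r.Prime] (hq : 2 ≤ q) (hrq : ¬ r ∣ q) (P : ℕ → Prop)
    [DecidablePred P]
    (h : ∀ i, 1 ≤ i → i ≤ n → padicValNat r (q ^ (2 * i) - 1) = if P i then e else 0) :
    padicValNat r (q ^ (n ^ 2) * ∏ i ∈ Finset.range n, (q ^ (2 * (i + 1)) - 1)) =
      ((Finset.Icc 1 n).filter P).card * e := by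
  have hr : r.Prime := Fact.out
  have hne : ∀ i, q ^ (2 * (i + 1)) - 1 ≠ 0 := by
    intro i
    have : 1 < q ^ (2 * (i + 1)) := Nat.one_lt_pow (by omega) (by omega)
    omega
  have hprod : ∀ k, ∏ i ∈ Finset.range k, (q ^ (2 * (i + 1)) - 1) ≠ 0 := fun k =>
    Finset.prod_ne_zero_iff.2 (fun i _ => hne i)
  have key : ∀ k, k ≤ n → padicValNat r (∏ i ∈ Finset.range k, (q ^ (2 * (i + 1)) - 1)) =
      ((Finset.Icc 1 k).filter P).card * e := by
    intro k
    induction k with
    | zero => intro _; simp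
    | succ k ih =>
      intro hk
      rw [Finset.prod_range_succ, padicValNat.mul (hprod k) (hne k), ih (by omega),
        h (k + 1) (by omega) hk]
      have e1 : Finset.Icc 1 (k + 1) = insert (k + 1) (Finset.Icc 1 k) := by
        ext i
        simp only [Finset.mem_Icc, Finset.mem_insert]
        omega
      have hnm : k + 1 ∉ (Finset.Icc 1 k).filter P := by
        simp only [Finset.mem_filter, Finset.mem_Icc]
        omega
      rw [e1, Finset.filter_insert]
      split_ifs with hP
      · rw [Finset.card_insert_of_notMem hnm]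
        ring
      · rw [add_zero]
  have hq0 : q ^ (n ^ 2) ≠ 0 := pow_ne_zero _ (by omega)
  have hz : padicValNat r (q ^ (n ^ 2)) = 0 :=
    padicValNat.eq_zero_of_not_dvd (fun h' => hrq (hr.dvd_of_dvd_pow h'))
  rw [padicValNat.mul hq0 (hprod n), key n le_rfl, hz, zero_add]

end Cfsg.Agent.Lib.H45SyProd
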