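import Mathlib
import Cfsg.Agent.Lib.H45SyDefs

set_option autoImplicit false

namespace Cfsg.Agent.Lib.H45SySyl

open Module Cfsg.Agent.Lib.H45SyDefs

universe u v w w'

/-- piece `Syl` (pure Mathlib). -/
theorem sylow_iso {G : Type u} [Group G] [Finite G] (r : ℕ) [Fact r.Prime] {A : Type v} [Group A]
    (ψ : A →* G) (hψ : Function.Injective ψ) (hA : Nat.card A = r ^ padicValNat r (Nat.card G))
    (P : Sylow r G) : Nonempty ((P : Subgroup G) ≃* A) := by
  have e := MonoidHom.ofInjective hψ
  have hcard : Nat.card ψ.range = r ^ (Nat.card G).factorization r := by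
    rw [← Nat.card_congr e.toEquiv, hA, Nat.factorization_def _ Fact.out]
  let S := Sylow.ofCard ψ.range hcard
  have e2 : (P : Subgroup G) ≃* (S : Subgroup G) := Sylow.equiv P S
  exact ⟨e2.trans e.symm⟩

end Cfsg.Agent.Lib.H45SySyl
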