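import Mathlib
import Cfsg.Agent.Lib.Helper27CP

set_option autoImplicit false
set_option linter.unusedSectionVars false
set_option linter.unusedVariables false

namespace Cfsg.Agent.Lib.H46BTFS

open Subgroup Cfsg.Agent.Lib.Helper27Basic Cfsg.Agent.Lib.Helper27Core
  Cfsg.Agent.Lib.Helper27PComp Cfsg.Agent.Lib.Helper27Balance
  Cfsg.Agent.Lib.Helper27Rel Cfsg.Agent.Lib.Helper27Loc
open Cfsg.Agent.Lib.Helper28Comp (NormIn Sn CompIn)
open Cfsg.Agent.Lib.Helper28Layer (layerIn)
open Cfsg.Agent.Lib
open scoped commutatorElement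

/-- ABSTRACT (helper27's `CP` calculus).  COPY the proof of `Helper27CP.CP_normalizer_of_centralizer` (same opens as that file):
`CP_of`; a component `L` of `K` commutes with the solvable normal subgroup `V` (`CompIn.commute_of_solvable`), so `L ≤ K ⊓ centralizer V` is a `p`-group, hence solvable, impossible for a component (quasisimple: perfect and non-trivial);
a normal `p'`-subgroup `M` of `K` has `⁅M, V⁆ ≤ M ⊓ V = ⊥`, so `M ≤ K ⊓ centralizer V` is a `p`-group of order prime to `p`, so `M = ⊥`. -/
theorem CP_of_cent {G : Type*} [Group G] [Finite G] {p : ℕ} [Fact p.Prime] {K V : Subgroup G} (hV : IsPGroup p V)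
    (hVK : V ≤ K) (hn : K ≤ normalizer (V : Set G)) (hC : IsPGroup p ↥(K ⊓ centralizer (V : Set G))) : CP p K := by
  apply CP_of
  · intro L hL
    have h1 : ⁅L, V⁆ = ⊥ :=
      hL.commute_of_solvable hVK (hL.le.trans hn) (isSolvable_of_isPGroup hV)
    have h2 : L ≤ centralizer (V : Set G) := commutator_eq_bot_iff_le_centralizer.mp h1
    have h3 : L ≤ K ⊓ centralizer (V : Set G) := le_inf hL.le h2
    exact hL.2.not_isSolvable (isSolvable_of_isPGroup (hC.to_le h3))
  · intro M hM hc
    have h1 : ⁅M, V⁆ = ⊥ := by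
      rw [eq_bot_iff]
      have h2 : ⁅M, V⁆ ≤ M ⊓ V := by
        apply le_inf
        · exact Helper30SZ.commutator_le_of_le_normalizer (hVK.trans hM.2)
        · rw [commutator_comm]
          exact Helper30SZ.commutator_le_of_le_normalizer (hM.1.trans hn)
      refine h2.trans (le_of_eq ?_)
      apply eq_bot_of_isPGroup_of_coprime (hV.to_le inf_le_right)
      exact Nat.Coprime.coprime_dvd_left (card_dvd_of_le inf_le_left) hc
    have h2 : M ≤ centralizer (V : Set G) := commutator_eq_bot_iff_le_centralizer.mp h1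
    have h3 : M ≤ K ⊓ centralizer (V : Set G) := le_inf hM.1 h2
    exact eq_bot_of_isPGroup_of_coprime (hC.to_le h3) hc

end Cfsg.Agent.Lib.H46BTFS
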