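import Cfsg.Agent.Lib.Helper49SDefs

/-!
# PROJECT 50 (S5704), piece `Nondeg`
-/

set_option autoImplicit false
set_option linter.unusedSectionVars false
set_option linter.unusedVariables false

namespace Cfsg.Agent.Lib.H49SNondeg

open scoped Matrix Kronecker
open Matrix Cfsg.Agent.Lib.Helper49TDefs Cfsg.Agent.Lib.Helper49SDefs Cfsg.Agent.Lib.Helper49Eich

variable {F : Type*} [Field F] {a b n : ℕ}

local notation "GLn" => Matrix.GeneralLinearGroup (Fin a × Fin b) F
local notation "Mn" => Matrix (Fin a × Fin b) (Fin a × Fin b) F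
local notation "Ma" => Matrix (Fin a) (Fin a) F
local notation "Mb" => Matrix (Fin b) (Fin b) F
local notation "GLa" => Matrix.GeneralLinearGroup (Fin a) F
local notation "GLb" => Matrix.GeneralLinearGroup (Fin b) F
local notation "𝐏" => QuadraticMap.polar

/-- the polar form of `Q` is nondegenerate -/
theorem nondeg (D : SpDat F a b) : (QuadraticMap.polarBilin D.Q).Nondegenerate := by
  have key : ∀ x : Fin a × Fin b → F, (∀ y, 𝐏 D.Q x y = 0) → x = 0 := by
    intro x hx
    funext p
    have h := hx ((D.J₁⁻¹ ⊗ₖ D.J₂⁻¹) *ᵥ Pi.single p 1)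
    rw [D.polar, Matrix.mulVec_mulVec, ← Matrix.mul_kronecker_mul,
      Matrix.mul_nonsing_inv _ D.h₁.unit, Matrix.mul_nonsing_inv _ D.h₂.unit,
      Matrix.one_kronecker_one, Matrix.one_mulVec] at h
    simpa using h
  refine ⟨fun x hx => key x hx, fun x hx => key x fun y => ?_⟩
  rw [QuadraticMap.polar_comm]
  exact hx y

end Cfsg.Agent.Lib.H49SNondeg
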