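import Cfsg.Agent.Lib.Helper49SDefs
import Cfsg.Agent.Lib.H49SNondeg

/-!
# PROJECT 50 (S5704), piece `Iso`
-/

set_option autoImplicit false
set_option linter.unusedSectionVars false
set_option linter.unusedVariables false

namespace Cfsg.Agent.Lib.H49SIso

open scoped Matrix Kronecker
open Matrix Cfsg.Agent.Lib.Helper49TDefs Cfsg.Agent.Lib.Helper49SDefs Cfsg.Agent.Lib.Helper49Eich
open Cfsg.Agent.Lib.H49SNondeg

variable {F : Type*} [Field F] {a b n : ℕ}

local notation "GLn" => Matrix.GeneralLinearGroup (Fin a × Fin b) F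
local notation "Mn" => Matrix (Fin a × Fin b) (Fin a × Fin b) F
local notation "Ma" => Matrix (Fin a) (Fin a) F
local notation "Mb" => Matrix (Fin b) (Fin b) F
local notation "GLa" => Matrix.GeneralLinearGroup (Fin a) F
local notation "GLb" => Matrix.GeneralLinearGroup (Fin b) F
local notation "𝐏" => QuadraticMap.polar

theorem OG_Q (D : SpDat F a b) {g : GLn} (hg : g ∈ OG D) (x : Fin a × Fin b → F) :
    D.Q ((g : Mn) *ᵥ x) = D.Q x := by
  obtain ⟨g', _, rfl⟩ := Cfsg.Agent.Lib.Helper49Bridge.exists_of_mem_omegaGL D.Q hg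
  exact Cfsg.Agent.Lib.Helper49Orth.iso_apply g' x

theorem OG_polar (D : SpDat F a b) {g : GLn} (hg : g ∈ OG D) (x y : Fin a × Fin b → F) :
    𝐏 D.Q ((g : Mn) *ᵥ x) ((g : Mn) *ᵥ y) = 𝐏 D.Q x y := by
  unfold QuadraticMap.polar
  rw [← Matrix.mulVec_add, OG_Q D hg, OG_Q D hg, OG_Q D hg]

/-- every Eichler transformation lies in `Ω` -/
theorem EH_OG [Fintype F] (D : SpDat F a b) (hn : 5 ≤ a * b) (y w : Fin a × Fin b → F) :
    EH D (OG D) y w := by
  unfold EH
  rw [Cfsg.Agent.Lib.Helper49Bridge.coe_mem_omegaGL_iff]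
  by_cases h : D.Q y = 0 ∧ 𝐏 D.Q y w = 0
  · exact Cfsg.Agent.Lib.Helper49EichGen.E_mem_Omega D.Q (Cfsg.Agent.Lib.H49SNondeg.nondeg D)
      (by simpa [Fintype.card_prod] using hn) h.1 h.2
  · unfold E
    rw [dif_neg h]
    exact Subgroup.one_mem _

end Cfsg.Agent.Lib.H49SIso
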