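import Cfsg.Agent.Lib.Helper49SDefs
import Cfsg.Agent.Lib.H49SIso

/-!
# PROJECT 50 (S5704), piece `Bridge`
-/

set_option autoImplicit false
set_option linter.unusedSectionVars false
set_option linter.unusedVariables false

namespace Cfsg.Agent.Lib.H49SBridge

open scoped Matrix Kronecker
open Matrix Cfsg.Agent.Lib.Helper49TDefs Cfsg.Agent.Lib.Helper49SDefs Cfsg.Agent.Lib.Helper49Eich
open Cfsg.Agent.Lib.H49SIso

variable {F : Type*} [Field F] {a b n : ℕ}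

local notation "GLn" => Matrix.GeneralLinearGroup (Fin a × Fin b) F
local notation "Mn" => Matrix (Fin a × Fin b) (Fin a × Fin b) F
local notation "Ma" => Matrix (Fin a) (Fin a) F
local notation "Mb" => Matrix (Fin b) (Fin b) F
local notation "GLa" => Matrix.GeneralLinearGroup (Fin a) F
local notation "GLb" => Matrix.GeneralLinearGroup (Fin b) F
local notation "𝐏" => QuadraticMap.polar

/-- the matrix of the Eichler transformation attached to two orthogonal pure tensors -/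
theorem E_tens (D : SpDat F a b) (u u' : Fin a → F) (c c' : Fin b → F)
    (horth : bf D.J₁ u u' * bf D.J₂ c c' = 0) :
    (((E D.Q (tens u c) (tens u' c') : ↥(Cfsg.isometryGroup F ⇑D.Q)) : GLn) : Mn)
      = 1 + (NJ D.J₁ u u' ⊗ₖ NJ D.J₂ c c' - NJ D.J₁ u' u ⊗ₖ NJ D.J₂ c' c) := by
  apply Matrix.toLin'.injective
  apply LinearMap.ext
  intro x
  rw [Matrix.toLin'_apply, Matrix.toLin'_apply,
    E_apply D.Q (D.Qpure u c) (by rw [SpDat.polar_tens]; exact horth) x, D.Qpure u' c', zero_mul,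
    sub_zero, Matrix.add_mulVec, Matrix.one_mulVec, Matrix.sub_mulVec, kron_NJ_mulVec,
    kron_NJ_mulVec, NJ_mulVec, NJ_mulVec, tens_smul_left, tens_smul_left,
    SpDat.polar_eq_bf_ctr, SpDat.polar_eq_bf_ctr, add_sub_assoc]

theorem sq_zero_aux (D : SpDat F a b) (u u' : Fin a → F) (c c' : Fin b → F)
    (horth : bf D.J₁ u u' * bf D.J₂ c c' = 0) :
    (NJ D.J₁ u u' ⊗ₖ NJ D.J₂ c c' - NJ D.J₁ u' u ⊗ₖ NJ D.J₂ c' c) *
      (NJ D.J₁ u u' ⊗ₖ NJ D.J₂ c c' - NJ D.J₁ u' u ⊗ₖ NJ D.J₂ c' c) = 0 := by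
  have h2 : bf D.J₁ u' u * bf D.J₂ c' c = 0 := by
    rw [D.h₁.swap u' u, D.h₂.swap c' c, neg_mul_neg, horth]
  have h3 : bf D.J₂ c c' * bf D.J₁ u u' = 0 := by rw [mul_comm, horth]
  have h4 : bf D.J₂ c' c * bf D.J₁ u' u = 0 := by rw [mul_comm, h2]
  simp only [sub_mul, mul_sub, ← Matrix.mul_kronecker_mul, NJ_mul, D.h₁.alt, zero_smul,
    Matrix.zero_kronecker, Matrix.smul_kronecker, Matrix.kronecker_smul, smul_smul, h3, h4,
    sub_zero, smul_zero]

theorem EH_of_NN (D : SpDat F a b) {H : Subgroup GLn} (u u' : Fin a → F) (c c' : Fin b → F)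
    (horth : bf D.J₁ u u' * bf D.J₂ c c' = 0)
    (h : NJ D.J₁ u u' ⊗ₖ NJ D.J₂ c c' - NJ D.J₁ u' u ⊗ₖ NJ D.J₂ c' c ∈ NN H) :
    EH D H (tens u c) (tens u' c') := by
  obtain ⟨-, g, hg, e⟩ := h
  have : ((E D.Q (tens u c) (tens u' c') : ↥(Cfsg.isometryGroup F ⇑D.Q)) : GLn) = g := by
    apply Units.ext
    rw [e, E_tens D u u' c c' horth]
  unfold EH
  rw [this]
  exact hg

theorem NN_of_EH (D : SpDat F a b) {H : Subgroup GLn} (u u' : Fin a → F) (c c' : Fin b → F)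
    (horth : bf D.J₁ u u' * bf D.J₂ c c' = 0) (h : EH D H (tens u c) (tens u' c')) :
    NJ D.J₁ u u' ⊗ₖ NJ D.J₂ c c' - NJ D.J₁ u' u ⊗ₖ NJ D.J₂ c' c ∈ NN H :=
  ⟨sq_zero_aux D u u' c c' horth, _, h, E_tens D u u' c c' horth⟩

end Cfsg.Agent.Lib.H49SBridge
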