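import Cfsg.Agent.Lib.Helper49SDefs
import Cfsg.Agent.Lib.H49SIso

/-!
# PROJECT 50 (S5704), piece `EHbasic`
-/

set_option autoImplicit false
set_option linter.unusedSectionVars false
set_option linter.unusedVariables false

namespace Cfsg.Agent.Lib.H49SEHbasic

open scoped Matrix Kronecker
open Matrix Cfsg.Agent.Lib.Helper49TDefs Cfsg.Agent.Lib.Helper49SDefs Cfsg.Agent.Lib.Helper49Eich
open Cfsg.Agent.Lib.H49SIso

variable {F : Type*} [Field F] {a b n : ℕ}

local notation "GLn" => Matrix.GeneralLinearGroup (Fin a × Fin b) F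
local notation "Mn" => Matrix (Fin a × Fin b) (Fin a × Fin b) F
local notation "Ma" => Matrix (Fin a) (Fin a) F
local notation "Mb" => Matrix (Fin b) (Fin b) F
local notation "GLa" => Matrix.GeneralLinearGroup (Fin a) F
local notation "GLb" => Matrix.GeneralLinearGroup (Fin b) F
local notation "𝐏" => QuadraticMap.polar

/-- `E(y, w) = E(w, -y)` for singular orthogonal `y`, `w`. -/
theorem E_swap {ι : Type} [Fintype ι] [DecidableEq ι] (Q : QuadraticForm F (ι → F)) {y w : ι → F}
    (hy : Q y = 0) (hw0 : Q w = 0) (hw : 𝐏 Q y w = 0) : E Q y w = E Q w (-y) := by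
  apply ext_mulVec
  intro x
  rw [E_apply Q hy hw, E_apply Q hw0
    (by rw [QuadraticMap.polar_neg_right, QuadraticMap.polar_comm, hw, neg_zero]),
    QuadraticMap.map_neg, hy, hw0, QuadraticMap.polar_neg_right]
  funext k
  simp only [Pi.add_apply, Pi.sub_apply, Pi.smul_apply, Pi.neg_apply, smul_eq_mul]
  ring

theorem EH_add (D : SpDat F a b) {H : Subgroup GLn} {y w w' : Fin a × Fin b → F}
    (hy : D.Q y = 0) (hw : 𝐏 D.Q y w = 0) (hw' : 𝐏 D.Q y w' = 0)
    (h : EH D H y w) (h' : EH D H y w') : EH D H y (w + w') := by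
  unfold EH at *
  rw [← E_mul D.Q hy hw hw']
  exact H.mul_mem h h'

theorem EH_neg (D : SpDat F a b) {H : Subgroup GLn} {y w : Fin a × Fin b → F}
    (hy : D.Q y = 0) (hw : 𝐏 D.Q y w = 0) (h : EH D H y w) : EH D H y (-w) := by
  unfold EH at *
  rw [← E_inv D.Q hy hw]
  exact H.inv_mem h

theorem EH_conj (D : SpDat F a b) {H : Subgroup GLn} {m : GLn} (hm : m ∈ H) (hmO : m ∈ OG D)
    {y w : Fin a × Fin b → F} (hy : D.Q y = 0) (hw : 𝐏 D.Q y w = 0) (h : EH D H y w) :
    EH D H ((m : Mn) *ᵥ y) ((m : Mn) *ᵥ w) := by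
  obtain ⟨g, -, rfl⟩ := Cfsg.Agent.Lib.Helper49Bridge.exists_of_mem_omegaGL D.Q hmO
  unfold EH at *
  rw [← E_conj D.Q g hy hw]
  exact H.mul_mem (H.mul_mem hm h) (H.inv_mem hm)

theorem EH_swap (D : SpDat F a b) {H : Subgroup GLn} {y w : Fin a × Fin b → F}
    (hy : D.Q y = 0) (hw0 : D.Q w = 0) (hw : 𝐏 D.Q y w = 0) (h : EH D H y w) : EH D H w y := by
  have h1 : EH D H w (-y) := by
    unfold EH at *
    rw [← E_swap D.Q hy hw0 hw]
    exact h
  have h2 := EH_neg D hw0
    (by rw [QuadraticMap.polar_neg_right, QuadraticMap.polar_comm, hw, neg_zero]) h1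
  rwa [neg_neg] at h2

theorem EH_zero_right (D : SpDat F a b) (H : Subgroup GLn) (y : Fin a × Fin b → F) :
    EH D H y 0 := by
  unfold EH
  rw [E_zero]
  exact H.one_mem

theorem EH_zero_left (D : SpDat F a b) (H : Subgroup GLn) (w : Fin a × Fin b → F) :
    EH D H 0 w := by
  unfold EH
  have h1 : E D.Q 0 w = 1 := by
    apply ext_mulVec
    intro x
    rw [E_apply D.Q (map_zero _) (QuadraticMap.polar_zero_left _ _), one_mulVec',
      QuadraticMap.polar_zero_right]
    simp
  rw [h1]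
  exact H.one_mem

theorem EH_smul_self (D : SpDat F a b) (H : Subgroup GLn) (y : Fin a × Fin b → F) (k : F) :
    EH D H y (k • y) := by
  unfold EH
  have h1 : E D.Q y (k • y) = 1 := by
    by_cases hy : D.Q y = 0
    · exact E_smul_self D.Q hy k
    · unfold E
      rw [dif_neg (fun h => hy h.1)]
  rw [h1]
  exact H.one_mem

end Cfsg.Agent.Lib.H49SEHbasic
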