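import Cfsg.Agent.Lib.Helper49SDefs

/-!
# PROJECT 50 (S5704), piece `KronKS`
-/

set_option autoImplicit false
set_option linter.unusedSectionVars false
set_option linter.unusedVariables false

namespace Cfsg.Agent.Lib.H49SKronKS

open scoped Matrix Kronecker
open Matrix Cfsg.Agent.Lib.Helper49TDefs Cfsg.Agent.Lib.Helper49SDefs Cfsg.Agent.Lib.Helper49Eich

variable {F : Type*} [Field F] {a b n : ℕ}

local notation "GLn" => Matrix.GeneralLinearGroup (Fin a × Fin b) F
local notation "Mn" => Matrix (Fin a × Fin b) (Fin a × Fin b) F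
local notation "Ma" => Matrix (Fin a) (Fin a) F
local notation "Mb" => Matrix (Fin b) (Fin b) F
local notation "GLa" => Matrix.GeneralLinearGroup (Fin a) F
local notation "GLb" => Matrix.GeneralLinearGroup (Fin b) F
local notation "𝐏" => QuadraticMap.polar

theorem mem_KS_of_kron (t : GLn) (A : Ma) (B : Mb) (h : (t : Mn) = A ⊗ₖ B) : t ∈ KS a b F := by
  by_cases hab : a = 0 ∨ b = 0
  · have hE : IsEmpty (Fin a × Fin b) := by
      rcases hab with rfl | rfl
      · exact ⟨fun p => p.1.elim0⟩
      · exact ⟨fun p => p.2.elim0⟩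
    exact ⟨1, 1, Subsingleton.elim _ _⟩
  · push Not at hab
    have hdet : (A ⊗ₖ B).det ≠ 0 := by
      rw [← h]
      exact ((Matrix.isUnit_iff_isUnit_det _).1 t.isUnit).ne_zero
    rw [Matrix.det_kronecker] at hdet
    have hA : A.det ≠ 0 := fun h0 => hdet (by
      rw [h0, Fintype.card_fin, zero_pow hab.2, zero_mul])
    have hB : B.det ≠ 0 := fun h0 => hdet (by
      rw [h0, Fintype.card_fin, Fintype.card_fin, zero_pow hab.1, mul_zero])
    exact ⟨Matrix.GeneralLinearGroup.mkOfDetNeZero A hA,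
      Matrix.GeneralLinearGroup.mkOfDetNeZero B hB, h⟩

end Cfsg.Agent.Lib.H49SKronKS
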