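import Cfsg.Agent.Lib.Helper49SDefs

/-!
# PROJECT 50 (S5704), piece `Comm`
-/

set_option autoImplicit false
set_option linter.unusedSectionVars false
set_option linter.unusedVariables false

namespace Cfsg.Agent.Lib.H49SComm

open scoped Matrix Kronecker
open Matrix Cfsg.Agent.Lib.Helper49TDefs Cfsg.Agent.Lib.Helper49SDefs Cfsg.Agent.Lib.Helper49Eich

variable {F : Type*} [Field F] {a b n : ℕ}

local notation "GLn" => Matrix.GeneralLinearGroup (Fin a × Fin b) F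
local notation "Mn" => Matrix (Fin a × Fin b) (Fin a × Fin b) F
local notation "Ma" => Matrix (Fin a) (Fin a) F
local notation "Mb" => Matrix (Fin b) (Fin b) F
local notation "GLa" => Matrix.GeneralLinearGroup (Fin a) F
local notation "GLb" => Matrix.GeneralLinearGroup (Fin b) F
local notation "𝐏" => QuadraticMap.polar

theorem comm_aux {H : Subgroup GLn} {B₁ B₂ : Mn} (h₁ : B₁ ∈ NN H) (h₂ : B₂ ∈ NN H) :
    ∃ g ∈ H, (g : Mn) = 1 + B₁ * B₂ - B₂ * B₁ - B₁ * B₂ * B₁ + B₂ * B₁ * B₂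
      + B₁ * B₂ * B₁ * B₂ := by
  obtain ⟨s₁, g₁, hg₁, e₁⟩ := h₁
  obtain ⟨s₂, g₂, hg₂, e₂⟩ := h₂
  have i₁ : ((g₁⁻¹ : GLn) : Mn) = 1 - B₁ := by
    rw [Units.inv_eq_of_mul_eq_one_right]
    rw [e₁]
    noncomm_ring
    rw [s₁]; simp
  have i₂ : ((g₂⁻¹ : GLn) : Mn) = 1 - B₂ := by
    rw [Units.inv_eq_of_mul_eq_one_right]
    rw [e₂]
    noncomm_ring
    rw [s₂]; simp
  refine ⟨g₁ * g₂ * g₁⁻¹ * g₂⁻¹,
    H.mul_mem (H.mul_mem (H.mul_mem hg₁ hg₂) (H.inv_mem hg₁)) (H.inv_mem hg₂), ?_⟩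
  rw [Units.val_mul, Units.val_mul, Units.val_mul, i₁, i₂, e₁, e₂]
  have k3 : B₁ * (B₁ * B₂) = 0 := by rw [← mul_assoc, s₁, zero_mul]
  have k4 : B₁ * B₂ * B₂ = 0 := by rw [mul_assoc, s₂, mul_zero]
  have : (1 + B₁) * (1 + B₂) * (1 - B₁) * (1 - B₂)
      = 1 + B₁ * B₂ - B₂ * B₁ - B₁ * B₁ - B₂ * B₂ - B₁ * B₂ * B₁ + B₂ * B₁ * B₂
        + B₁ * (B₁ * B₂) - B₁ * B₂ * B₂ + B₁ * B₂ * B₁ * B₂ := by noncomm_ring
  rw [this, k3, k4, s₁, s₂]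
  simp

theorem NN_comm {H : Subgroup GLn} {B₁ B₂ : Mn} (h₁ : B₁ ∈ NN H) (h₂ : B₂ ∈ NN H)
    (h : B₁ * B₂ * B₁ = 0) (h' : B₂ * B₁ * B₂ = 0) : B₁ * B₂ - B₂ * B₁ ∈ NN H := by
  obtain ⟨g, hg, e⟩ := comm_aux h₁ h₂
  have s₁ := h₁.1
  have s₂ := h₂.1
  refine ⟨?_, g, hg, ?_⟩
  · have : (B₁ * B₂ - B₂ * B₁) * (B₁ * B₂ - B₂ * B₁)
        = B₁ * B₂ * B₁ * B₂ - B₁ * (B₂ * B₂) * B₁ - B₂ * (B₁ * B₁) * B₂ + B₂ * B₁ * B₂ * B₁ := by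
      noncomm_ring
    rw [this, h, h', s₁, s₂]
    simp
  · rw [e, h, h']
    simp [add_sub_assoc]

theorem NN_comm' {H : Subgroup GLn} {G B : Mn} (hG : G ∈ NN H) (hB : B ∈ NN H)
    (h : G * B * G = 0)
    (hsq : (G * B - B * G + B * G * B) * (G * B - B * G + B * G * B) = 0) :
    G * B - B * G + B * G * B ∈ NN H := by
  obtain ⟨g, hg, e⟩ := comm_aux hG hB
  refine ⟨hsq, g, hg, ?_⟩
  rw [e, h]
  simp only [zero_mul, sub_zero, add_zero]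
  abel

theorem NN_mono {H K : Subgroup GLn} (h : H ≤ K) {B : Mn} (hB : B ∈ NN H) : B ∈ NN K := by
  obtain ⟨s, g, hg, e⟩ := hB
  exact ⟨s, g, h hg, e⟩

/-- subtraction in `NN` -/
theorem NN_sub {H : Subgroup GLn} {B₁ B₂ : Mn} (h₁ : B₁ ∈ NN H) (h₂ : B₂ ∈ NN H)
    (h : B₁ * B₂ = 0) (h' : B₂ * B₁ = 0) : B₁ - B₂ ∈ NN H := by
  rw [sub_eq_add_neg]
  exact NN_add h₁ (NN_neg h₂) (by rw [mul_neg, h, neg_zero]) (by rw [neg_mul, h', neg_zero])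

end Cfsg.Agent.Lib.H49SComm
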