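import Cfsg.Agent.Lib.Helper49SDefs
import Cfsg.Agent.Lib.H49SIso
import Cfsg.Agent.Lib.H49SBridge
import Cfsg.Agent.Lib.H49SComm

/-!
# PROJECT 50 (S5704), piece `Lvl2a`
-/

set_option autoImplicit false
set_option linter.unusedSectionVars false
set_option linter.unusedVariables false

namespace Cfsg.Agent.Lib.H49SLvl2a

open scoped Matrix Kronecker
open Matrix Cfsg.Agent.Lib.Helper49TDefs Cfsg.Agent.Lib.Helper49SDefs Cfsg.Agent.Lib.Helper49Eich
open Cfsg.Agent.Lib.H49SIso
open Cfsg.Agent.Lib.H49SBridge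
open Cfsg.Agent.Lib.H49SComm

variable {F : Type*} [Field F] {a b n : ℕ}

local notation "GLn" => Matrix.GeneralLinearGroup (Fin a × Fin b) F
local notation "Mn" => Matrix (Fin a × Fin b) (Fin a × Fin b) F
local notation "Ma" => Matrix (Fin a) (Fin a) F
local notation "Mb" => Matrix (Fin b) (Fin b) F
local notation "GLa" => Matrix.GeneralLinearGroup (Fin a) F
local notation "GLb" => Matrix.GeneralLinearGroup (Fin b) F
local notation "𝐏" => QuadraticMap.polar

theorem bf_single (K : Matrix (Fin n) (Fin n) F) (i j : Fin n) :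
    bf K (Pi.single i 1) (Pi.single j 1) = K i j := by
  simp [bf]

/-- an alternating Gram matrix is skew-symmetric with zero diagonal -/
theorem alt_entries {K : Matrix (Fin n) (Fin n) F} (hK : ∀ y, bf K y y = 0) :
    (∀ i, K i i = 0) ∧ ∀ i j, K i j = - K j i := by
  constructor
  · intro i
    rw [← bf_single K i i]; exact hK _
  · intro i j
    have h := hK (Pi.single i 1 + Pi.single j 1)
    rw [bf_add_left, bf_add_right, bf_add_right, hK, hK, bf_single, bf_single] at h
    linear_combination h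

theorem transpose_of_symp {J : Matrix (Fin n) (Fin n) F} (hJ : IsSympMat J) : Jᵀ = -J := by
  ext i j
  rw [Matrix.transpose_apply, Matrix.neg_apply]
  exact (alt_entries hJ.alt).2 j i

theorem NJ_eq {J : Matrix (Fin n) (Fin n) F} (hJ : IsSympMat J) (u u' : Fin n → F) :
    NJ J u u' = - (Matrix.vecMulVec u u' * J) := by
  rw [NJ, Matrix.vecMulVec_mul, ← Matrix.mulVec_transpose, transpose_of_symp hJ, Matrix.neg_mulVec,
    Matrix.vecMulVec_neg, neg_neg]

/-- every `β` with `f(βx, x) = 0` is a sum of maps `N(u,u') - N(u',u)` -/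
theorem alt_induction {J : Matrix (Fin n) (Fin n) F} (hJ : IsSympMat J)
    (P : Matrix (Fin n) (Fin n) F → Prop) (h0 : P 0) (hadd : ∀ p q, P p → P q → P (p + q))
    (hgen : ∀ u u', P (NJ J u u' - NJ J u' u))
    (β : Matrix (Fin n) (Fin n) F) (hβ : ∀ x, bf J (β *ᵥ x) x = 0) : P β := by
  -- all `Uᵀ J - U J`
  have key : ∀ U : Matrix (Fin n) (Fin n) F, P (Uᵀ * J - U * J) := by
    intro U
    induction U using Matrix.induction_on' with
    | h_zero => simpa using h0
    | h_add p q hp hq =>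
      have : (p + q)ᵀ * J - (p + q) * J = (pᵀ * J - p * J) + (qᵀ * J - q * J) := by
        rw [Matrix.transpose_add, add_mul, add_mul]; abel
      rw [this]; exact hadd _ _ hp hq
    | h_std_basis i j x =>
      have h := hgen (Pi.single i 1) (Pi.single j x)
      rw [NJ_eq hJ, NJ_eq hJ] at h
      have e1 : Matrix.vecMulVec (Pi.single i (1 : F)) (Pi.single j x) = Matrix.single i j x := by
        ext s t
        simp only [Matrix.vecMulVec_apply, Matrix.single_apply, Pi.single_apply,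
          eq_comm (a := s), eq_comm (a := t)]
        split_ifs <;> simp_all
      have e2 : Matrix.vecMulVec (Pi.single j x) (Pi.single i (1 : F)) = (Matrix.single i j x)ᵀ := by
        ext s t
        simp only [Matrix.vecMulVec_apply, Matrix.single_apply, Pi.single_apply,
          Matrix.transpose_apply, eq_comm (a := s), eq_comm (a := t)]
        split_ifs <;> simp_all
      rw [e1, e2] at h
      have : (Matrix.single i j x)ᵀ * J - Matrix.single i j x * J
          = -(Matrix.single i j x * J) - -((Matrix.single i j x)ᵀ * J) := by abel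
      rw [this]; exact h
  set K : Matrix (Fin n) (Fin n) F := -(β * J⁻¹) with hKdef
  have hKJ : K * J = -β := by
    rw [hKdef, Matrix.neg_mul, Matrix.mul_assoc, Matrix.nonsing_inv_mul _ hJ.unit, Matrix.mul_one]
  have hK : ∀ y, bf K y y = 0 := by
    intro y
    have hy : y = J *ᵥ (J⁻¹ *ᵥ y) := by
      rw [Matrix.mulVec_mulVec, Matrix.mul_nonsing_inv _ hJ.unit, Matrix.one_mulVec]
    have h := hβ (J⁻¹ *ᵥ y)
    unfold bf at h ⊢
    rw [hKdef, Matrix.neg_mulVec, ← Matrix.mulVec_mulVec, dotProduct_neg, dotProduct_comm]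
    rw [← hy] at h
    rw [h, neg_zero]
  obtain ⟨hd, hs⟩ := alt_entries hK
  set U : Matrix (Fin n) (Fin n) F := Matrix.of fun i j => if i < j then K i j else 0 with hU
  have hKU : K = U - Uᵀ := by
    ext i j
    simp only [hU, Matrix.sub_apply, Matrix.transpose_apply, Matrix.of_apply]
    rcases lt_trichotomy i j with h | h | h
    · rw [if_pos h, if_neg (not_lt.2 h.le), sub_zero]
    · subst h; simp [hd]
    · rw [if_neg (not_lt.2 h.le), if_pos h, zero_sub]; exact hs i j
  have : β = Uᵀ * J - U * J := by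
    have : -β = (U - Uᵀ) * J := by rw [← hKU, hKJ]
    rw [sub_mul] at this
    rw [← neg_inj, this]; abel
  rw [this]; exact key U

theorem NN_zero (H : Subgroup GLn) : (0 : Mn) ∈ NN H :=
  ⟨by simp, 1, H.one_mem, by simp⟩

/-- level 2 elements lie in `Ω` -/
theorem lvl2_mem [Fintype F] (D : SpDat F a b) (hn : 5 ≤ a * b) (β : Ma)
    (hβ : ∀ x, bf D.J₁ (β *ᵥ x) x = 0) (c : Fin b → F) : β ⊗ₖ NJ D.J₂ c c ∈ NN (OG D) := by
  have hN : NJ D.J₂ c c * NJ D.J₂ c c = 0 := by
    rw [NJ_mul, D.h₂.alt, zero_smul]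
  refine alt_induction D.h₁ (fun β => β ⊗ₖ NJ D.J₂ c c ∈ NN (OG D)) ?_ ?_ ?_ β hβ
  · show (0 : Ma) ⊗ₖ NJ D.J₂ c c ∈ NN (OG D)
    rw [Matrix.zero_kronecker]; exact NN_zero _
  · intro p q hp hq
    show (p + q) ⊗ₖ NJ D.J₂ c c ∈ NN (OG D)
    rw [Matrix.add_kronecker]
    refine NN_add hp hq ?_ ?_ <;>
      rw [← Matrix.mul_kronecker_mul, hN, Matrix.kronecker_zero]
  · intro u u'
    show (NJ D.J₁ u u' - NJ D.J₁ u' u) ⊗ₖ NJ D.J₂ c c ∈ NN (OG D)
    have h := NN_of_EH D (H := OG D) u u' c c (by rw [D.h₂.alt, mul_zero]) (EH_OG D hn _ _)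
    have e : (NJ D.J₁ u u' - NJ D.J₁ u' u) ⊗ₖ NJ D.J₂ c c
        = NJ D.J₁ u u' ⊗ₖ NJ D.J₂ c c - NJ D.J₁ u' u ⊗ₖ NJ D.J₂ c c := by
      rw [sub_eq_add_neg, Matrix.add_kronecker, sub_eq_add_neg]
      congr 1
      ext p q
      simp [Matrix.kroneckerMap_apply]
    rw [e]; exact h

end Cfsg.Agent.Lib.H49SLvl2a
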