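import Cfsg.Agent.Lib.Helper49SDefs
import Cfsg.Agent.Lib.H49SIso
import Cfsg.Agent.Lib.H49SBridge
import Cfsg.Agent.Lib.H49SComm
import Cfsg.Agent.Lib.H49SLvl2a

/-!
# PROJECT 50 (S5704), piece `Lvl2b`
-/

set_option autoImplicit false
set_option linter.unusedSectionVars false
set_option linter.unusedVariables false

namespace Cfsg.Agent.Lib.H49SLvl2b

open scoped Matrix Kronecker
open Matrix Cfsg.Agent.Lib.Helper49TDefs Cfsg.Agent.Lib.Helper49SDefs Cfsg.Agent.Lib.Helper49Eich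
open Cfsg.Agent.Lib.H49SIso
open Cfsg.Agent.Lib.H49SBridge
open Cfsg.Agent.Lib.H49SComm

variable {F : Type*} [Field F] {a b n : ℕ}

local notation "GLn" => Matrix.GeneralLinearGroup (Fin a × Fin b) F
local notation "Mn" => Matrix (Fin a × Fin b) (Fin a × Fin b) F
local notation "Ma" => Matrix (Fin a) (Fin a) F
local notation "Mb" => Matrix (Fin b) (Fin b) F
local notation "GLa" => Matrix.GeneralLinearGroup (Fin a) F
local notation "GLb" => Matrix.GeneralLinearGroup (Fin b) F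
local notation "𝐏" => QuadraticMap.polar

theorem lvl2'_mem [Fintype F] (D : SpDat F a b) (hn : 5 ≤ a * b) (γ : Mb)
    (hγ : ∀ v, bf D.J₂ (γ *ᵥ v) v = 0) (u : Fin a → F) : NJ D.J₁ u u ⊗ₖ γ ∈ NN (OG D) := by
  have hN : NJ D.J₁ u u * NJ D.J₁ u u = 0 := by
    rw [NJ_mul, D.h₁.alt, zero_smul]
  refine Cfsg.Agent.Lib.H49SLvl2a.alt_induction D.h₂
    (fun γ => NJ D.J₁ u u ⊗ₖ γ ∈ NN (OG D)) ?_ ?_ ?_ γ hγ
  · show NJ D.J₁ u u ⊗ₖ (0 : Mb) ∈ NN (OG D)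
    rw [Matrix.kronecker_zero]; exact Cfsg.Agent.Lib.H49SLvl2a.NN_zero _
  · intro p q hp hq
    show NJ D.J₁ u u ⊗ₖ (p + q) ∈ NN (OG D)
    rw [Matrix.kronecker_add]
    refine NN_add hp hq ?_ ?_ <;>
      rw [← Matrix.mul_kronecker_mul, hN, Matrix.zero_kronecker]
  · intro c c'
    show NJ D.J₁ u u ⊗ₖ (NJ D.J₂ c c' - NJ D.J₂ c' c) ∈ NN (OG D)
    have h := NN_of_EH D (H := OG D) u u c c' (by rw [D.h₁.alt, zero_mul]) (EH_OG D hn _ _)
    have e : NJ D.J₁ u u ⊗ₖ (NJ D.J₂ c c' - NJ D.J₂ c' c)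
        = NJ D.J₁ u u ⊗ₖ NJ D.J₂ c c' - NJ D.J₁ u u ⊗ₖ NJ D.J₂ c' c := by
      rw [sub_eq_add_neg, Matrix.kronecker_add, sub_eq_add_neg]
      congr 1
      ext p q
      simp [Matrix.kroneckerMap_apply]
    rw [e]; exact h

end Cfsg.Agent.Lib.H49SLvl2b
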