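import Cfsg.Agent.Lib.Helper49SDefs
import Cfsg.Agent.Lib.H49SLvl2a
import Cfsg.Agent.Lib.H49SLvl2b
import Cfsg.Agent.Lib.H49SKronKS

/-!
# PROJECT 50 (S5704), piece `Tv`
-/

set_option autoImplicit false
set_option linter.unusedSectionVars false
set_option linter.unusedVariables false

namespace Cfsg.Agent.Lib.H49STv

open scoped Matrix Kronecker
open Matrix Cfsg.Agent.Lib.Helper49TDefs Cfsg.Agent.Lib.Helper49SDefs Cfsg.Agent.Lib.Helper49Eich
open Cfsg.Agent.Lib.H49SLvl2a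
open Cfsg.Agent.Lib.H49SLvl2b
open Cfsg.Agent.Lib.H49SKronKS

variable {F : Type*} [Field F] {a b n : ℕ}

local notation "GLn" => Matrix.GeneralLinearGroup (Fin a × Fin b) F
local notation "Mn" => Matrix (Fin a × Fin b) (Fin a × Fin b) F
local notation "Ma" => Matrix (Fin a) (Fin a) F
local notation "Mb" => Matrix (Fin b) (Fin b) F
local notation "GLa" => Matrix.GeneralLinearGroup (Fin a) F
local notation "GLb" => Matrix.GeneralLinearGroup (Fin b) F
local notation "𝐏" => QuadraticMap.polar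

theorem tv2_mem [Fintype F] (D : SpDat F a b) (hn : 5 ≤ a * b) (c : Fin b → F) (l : F) :
    (1 : Ma) ⊗ₖ (l • NJ D.J₂ c c) ∈ NN (KS a b F ⊓ OG D) := by
  have h := lvl2_mem D hn (l • (1 : Ma)) (fun x => by
    rw [Matrix.smul_mulVec, Matrix.one_mulVec, bf_smul_left, D.h₁.alt, mul_zero]) c
  rw [Matrix.smul_kronecker, ← Matrix.kronecker_smul] at h
  obtain ⟨hs, g, hg, e⟩ := h
  refine ⟨hs, g, ⟨mem_KS_of_kron g 1 (1 + l • NJ D.J₂ c c) ?_, hg⟩, e⟩
  rw [e, Matrix.kronecker_add, Matrix.one_kronecker_one]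

theorem tv1_mem [Fintype F] (D : SpDat F a b) (hn : 5 ≤ a * b) (u : Fin a → F) (l : F) :
    (l • NJ D.J₁ u u) ⊗ₖ (1 : Mb) ∈ NN (KS a b F ⊓ OG D) := by
  have h := lvl2'_mem D hn (l • (1 : Mb)) (fun x => by
    rw [Matrix.smul_mulVec, Matrix.one_mulVec, bf_smul_left, D.h₂.alt, mul_zero]) u
  rw [Matrix.kronecker_smul, ← Matrix.smul_kronecker] at h
  obtain ⟨hs, g, hg, e⟩ := h
  refine ⟨hs, g, ⟨mem_KS_of_kron g (1 + l • NJ D.J₁ u u) 1 ?_, hg⟩, e⟩
  rw [e, Matrix.add_kronecker, Matrix.one_kronecker_one]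

end Cfsg.Agent.Lib.H49STv
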