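import Cfsg.Agent.Lib.Helper49SDefs
import Cfsg.Agent.Lib.H49STv
import Cfsg.Agent.Lib.Helper95Sp

/-!
# PROJECT 50 (S5704), piece `Sp2`
-/

set_option autoImplicit false
set_option linter.unusedSectionVars false
set_option linter.unusedVariables false

namespace Cfsg.Agent.Lib.H49SSp2

open scoped Matrix Kronecker
open Matrix Cfsg.Agent.Lib.Helper49TDefs Cfsg.Agent.Lib.Helper49SDefs Cfsg.Agent.Lib.Helper49Eich
open Cfsg.Agent.Lib.H49STv

variable {F : Type*} [Field F] {a b n : ℕ}

local notation "GLn" => Matrix.GeneralLinearGroup (Fin a × Fin b) F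
local notation "Mn" => Matrix (Fin a × Fin b) (Fin a × Fin b) F
local notation "Ma" => Matrix (Fin a) (Fin a) F
local notation "Mb" => Matrix (Fin b) (Fin b) F
local notation "GLa" => Matrix.GeneralLinearGroup (Fin a) F
local notation "GLb" => Matrix.GeneralLinearGroup (Fin b) F
local notation "𝐏" => QuadraticMap.polar

/-- the identification of `GL_n(F)` with the linear automorphisms of `F^n` -/
noncomputable def glEquiv (n : ℕ) (F : Type*) [Field F] :
    Matrix.GeneralLinearGroup (Fin n) F ≃* ((Fin n → F) ≃ₗ[F] (Fin n → F)) :=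
  Matrix.GeneralLinearGroup.toLin.trans (LinearMap.GeneralLinearGroup.generalLinearEquiv F _)

theorem glEquiv_apply (g : Matrix.GeneralLinearGroup (Fin n) F) (x : Fin n → F) :
    glEquiv n F g x = (g : Matrix (Fin n) (Fin n) F) *ᵥ x := by
  simp [glEquiv, Matrix.GeneralLinearGroup.toLin]

/-- matrix form of "`Sp` is generated by the symplectic transvections" -/
theorem mem_of_isIso {J : Matrix (Fin n) (Fin n) F} (hJ : IsSympMat J)
    (G : Subgroup (Matrix.GeneralLinearGroup (Fin n) F))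
    (hG : ∀ (c : Fin n → F) (l : F), ∃ g ∈ G, (g : Matrix (Fin n) (Fin n) F) = 1 + l • NJ J c c)
    (g : Matrix.GeneralLinearGroup (Fin n) F) (hg : IsIso J g) : g ∈ G := by
  have hB : ∀ x y, Matrix.toBilin' J x y = bf J x y := fun x y => Matrix.toBilin'_apply' J x y
  have hA : (Matrix.toBilin' J).IsAlt := fun x => by rw [hB]; exact hJ.alt x
  have hN : (Matrix.toBilin' J).Nondegenerate := by
    rw [Matrix.nondegenerate_toBilin'_iff]
    exact Matrix.nondegenerate_of_det_ne_zero hJ.unit.ne_zero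
  have key := Cfsg.Agent.Lib.Helper95Sp.mem_of_isometry hN hA
    (G.map (glEquiv n F).toMonoidHom) ?_ (glEquiv n F g) ?_
  · obtain ⟨g', hg', he⟩ := key
    have : g' = g := (glEquiv n F).injective he
    rwa [← this]
  · intro v c
    obtain ⟨g0, hg0, e0⟩ := hG v c
    refine ⟨g0, hg0, ?_⟩
    ext1 x
    change glEquiv n F g0 x = _
    rw [glEquiv_apply, e0, Cfsg.Agent.Lib.Helper95Sp.stv_apply, hB, Matrix.add_mulVec,
      Matrix.one_mulVec, Matrix.smul_mulVec, NJ_mulVec, smul_smul]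
  · intro x y
    rw [hB, hB, glEquiv_apply, glEquiv_apply]
    exact hg x y

/-- `B ↦ 1 ⊗ B` as a monoid homomorphism -/
def kronR (a b : ℕ) (F : Type*) [Field F] :
    Matrix (Fin b) (Fin b) F →* Matrix (Fin a × Fin b) (Fin a × Fin b) F where
  toFun B := (1 : Matrix (Fin a) (Fin a) F) ⊗ₖ B
  map_one' := Matrix.kroneckerMap_one_one _ (by simp) (by simp) (by simp)
  map_mul' A B := by
    rw [← Matrix.mul_kronecker_mul, one_mul]

/-- the transvection `1 + l N(c,c)` as an element of `GL` -/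
def tvGL {J : Matrix (Fin n) (Fin n) F} (hJ : IsSympMat J) (c : Fin n → F) (l : F) :
    Matrix.GeneralLinearGroup (Fin n) F where
  val := 1 + l • NJ J c c
  inv := 1 - l • NJ J c c
  val_inv := by
    have h : (l • NJ J c c) * (l • NJ J c c) = 0 := by
      rw [smul_mul_assoc, mul_smul_comm, NJ_mul, hJ.alt, zero_smul, smul_zero, smul_zero]
    rw [mul_sub, add_mul, add_mul, one_mul, mul_one, one_mul, h]
    abel
  inv_val := by
    have h : (l • NJ J c c) * (l • NJ J c c) = 0 := by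
      rw [smul_mul_assoc, mul_smul_comm, NJ_mul, hJ.alt, zero_smul, smul_zero, smul_zero]
    rw [mul_add, sub_mul, sub_mul, one_mul, mul_one, one_mul, h]
    abel

/-- `1 ⊗ Sp(V₂) ≤ M` -/
theorem sp2_mem [Fintype F] (D : SpDat F a b) (hn : 5 ≤ a * b) (g : GLb) (hg : IsIso D.J₂ g) :
    ∃ m ∈ KS a b F ⊓ OG D, (m : Mn) = (1 : Ma) ⊗ₖ (g : Mb) ∧
      ((m⁻¹ : GLn) : Mn) = (1 : Ma) ⊗ₖ ((g⁻¹ : GLb) : Mb) := by
  have key : g ∈ (KS a b F ⊓ OG D).comap (Units.map (kronR a b F)) := by
    refine mem_of_isIso D.h₂ _ (fun c l => ⟨tvGL D.h₂ c l, ?_, rfl⟩) g hg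
    obtain ⟨-, g', hg', e'⟩ := tv2_mem D hn c l
    rw [Subgroup.mem_comap]
    have : Units.map (kronR a b F) (tvGL D.h₂ c l) = g' := by
      apply Units.ext
      rw [e']
      change (1 : Ma) ⊗ₖ (1 + l • NJ D.J₂ c c) = _
      rw [Matrix.kronecker_add, Matrix.one_kronecker_one]
    rw [this]
    exact hg'
  refine ⟨Units.map (kronR a b F) g, key, rfl, ?_⟩
  rw [← map_inv]
  rfl

end Cfsg.Agent.Lib.H49SSp2
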