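import Cfsg.Agent.Lib.Helper49SDefs
import Cfsg.Agent.Lib.H49STv
import Cfsg.Agent.Lib.Helper95Sp
import Cfsg.Agent.Lib.H49SSp2

/-!
# PROJECT 50 (S5704), piece `Sp1`
-/

set_option autoImplicit false
set_option linter.unusedSectionVars false
set_option linter.unusedVariables false

namespace Cfsg.Agent.Lib.H49SSp1

open scoped Matrix Kronecker
open Matrix Cfsg.Agent.Lib.Helper49TDefs Cfsg.Agent.Lib.Helper49SDefs Cfsg.Agent.Lib.Helper49Eich
open Cfsg.Agent.Lib.H49STv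

variable {F : Type*} [Field F] {a b n : ℕ}

local notation "GLn" => Matrix.GeneralLinearGroup (Fin a × Fin b) F
local notation "Mn" => Matrix (Fin a × Fin b) (Fin a × Fin b) F
local notation "Ma" => Matrix (Fin a) (Fin a) F
local notation "Mb" => Matrix (Fin b) (Fin b) F
local notation "GLa" => Matrix.GeneralLinearGroup (Fin a) F
local notation "GLb" => Matrix.GeneralLinearGroup (Fin b) F
local notation "𝐏" => QuadraticMap.polar

/-- `A ↦ A ⊗ 1` as a monoid homomorphism -/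
def kronL (a b : ℕ) (F : Type*) [Field F] :
    Matrix (Fin a) (Fin a) F →* Matrix (Fin a × Fin b) (Fin a × Fin b) F where
  toFun A := A ⊗ₖ (1 : Matrix (Fin b) (Fin b) F)
  map_one' := Matrix.kroneckerMap_one_one _ (by simp) (by simp) (by simp)
  map_mul' A B := by
    rw [← Matrix.mul_kronecker_mul, one_mul]

/-- `Sp(V₁) ⊗ 1 ≤ M` -/
theorem sp1_mem [Fintype F] (D : SpDat F a b) (hn : 5 ≤ a * b) (g : GLa) (hg : IsIso D.J₁ g) :
    ∃ m ∈ KS a b F ⊓ OG D, (m : Mn) = (g : Ma) ⊗ₖ (1 : Mb) ∧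
      ((m⁻¹ : GLn) : Mn) = ((g⁻¹ : GLa) : Ma) ⊗ₖ (1 : Mb) := by
  have key : g ∈ (KS a b F ⊓ OG D).comap (Units.map (kronL a b F)) := by
    refine Cfsg.Agent.Lib.H49SSp2.mem_of_isIso D.h₁ _
      (fun c l => ⟨Cfsg.Agent.Lib.H49SSp2.tvGL D.h₁ c l, ?_, rfl⟩) g hg
    obtain ⟨-, g', hg', e'⟩ := tv1_mem D hn c l
    rw [Subgroup.mem_comap]
    have : Units.map (kronL a b F) (Cfsg.Agent.Lib.H49SSp2.tvGL D.h₁ c l) = g' := by
      apply Units.ext
      rw [e']
      change (1 + l • NJ D.J₁ c c) ⊗ₖ (1 : Mb) = _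
      rw [Matrix.add_kronecker, Matrix.one_kronecker_one]
    rw [this]
    exact hg'
  refine ⟨Units.map (kronL a b F) g, key, rfl, ?_⟩
  rw [← map_inv]
  rfl

end Cfsg.Agent.Lib.H49SSp1
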