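import Cfsg.Agent.Lib.Helper49SDefs

/-!
# PROJECT 50 (S5704), piece `TvIso`
-/

set_option autoImplicit false
set_option linter.unusedSectionVars false
set_option linter.unusedVariables false

namespace Cfsg.Agent.Lib.H49STvIso

open scoped Matrix Kronecker
open Matrix Cfsg.Agent.Lib.Helper49TDefs Cfsg.Agent.Lib.Helper49SDefs Cfsg.Agent.Lib.Helper49Eich

variable {F : Type*} [Field F] {a b n : ℕ}

local notation "GLn" => Matrix.GeneralLinearGroup (Fin a × Fin b) F
local notation "Mn" => Matrix (Fin a × Fin b) (Fin a × Fin b) F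
local notation "Ma" => Matrix (Fin a) (Fin a) F
local notation "Mb" => Matrix (Fin b) (Fin b) F
local notation "GLa" => Matrix.GeneralLinearGroup (Fin a) F
local notation "GLb" => Matrix.GeneralLinearGroup (Fin b) F
local notation "𝐏" => QuadraticMap.polar

/-- `1 + X` as an element of `GL` when `X² = 0` -/
def glOfSq (X : Matrix (Fin n) (Fin n) F) (h : X * X = 0) :
    Matrix.GeneralLinearGroup (Fin n) F where
  val := 1 + X
  inv := 1 - X
  val_inv := by
    rw [mul_sub, add_mul, add_mul, one_mul, mul_one, one_mul, h]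
    abel
  inv_val := by
    rw [mul_add, sub_mul, sub_mul, one_mul, mul_one, one_mul, h]
    abel

/-- symplectic transvections -/
theorem tv_iso {J : Matrix (Fin n) (Fin n) F} (hJ : IsSympMat J) (c : Fin n → F) (l : F) :
    ∃ g : Matrix.GeneralLinearGroup (Fin n) F, IsIso J g ∧
      (g : Matrix (Fin n) (Fin n) F) = 1 + l • NJ J c c ∧
      ((g⁻¹ : Matrix.GeneralLinearGroup (Fin n) F) : Matrix (Fin n) (Fin n) F)
        = 1 - l • NJ J c c := by
  have h : (l • NJ J c c) * (l • NJ J c c) = 0 := by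
    rw [smul_mul_assoc, mul_smul_comm, NJ_mul, hJ.alt, zero_smul, smul_zero, smul_zero]
  refine ⟨glOfSq _ h, ?_, rfl, rfl⟩
  intro x y
  change bf J ((1 + l • NJ J c c) *ᵥ x) ((1 + l • NJ J c c) *ᵥ y) = _
  simp only [Matrix.add_mulVec, Matrix.one_mulVec, Matrix.smul_mulVec, NJ_mulVec, bf_add_left,
    bf_add_right, bf_smul_left, bf_smul_right, hJ.alt c]
  rw [hJ.swap c y]
  ring

/-- the elements of the unipotent radical of the stabiliser of `c` -/
theorem rad_iso {J : Matrix (Fin n) (Fin n) F} (hJ : IsSympMat J) (c e : Fin n → F)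
    (h : bf J e c = 0) :
    ∃ g : Matrix.GeneralLinearGroup (Fin n) F, IsIso J g ∧
      (g : Matrix (Fin n) (Fin n) F) = 1 + (NJ J e c + NJ J c e) ∧
      ((g⁻¹ : Matrix.GeneralLinearGroup (Fin n) F) : Matrix (Fin n) (Fin n) F)
        = 1 - (NJ J e c + NJ J c e) := by
  have h' : bf J c e = 0 := by rw [hJ.swap, h, neg_zero]
  have hs : (NJ J e c + NJ J c e) * (NJ J e c + NJ J c e) = 0 := by
    simp only [add_mul, mul_add, NJ_mul, h, h', hJ.alt, zero_smul, add_zero]
  refine ⟨glOfSq _ hs, ?_, rfl, rfl⟩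
  intro x y
  change bf J ((1 + (NJ J e c + NJ J c e)) *ᵥ x) ((1 + (NJ J e c + NJ J c e)) *ᵥ y) = _
  simp only [Matrix.add_mulVec, Matrix.one_mulVec, NJ_mulVec, bf_add_left,
    bf_add_right, bf_smul_left, bf_smul_right, hJ.alt c, hJ.alt e, h, h']
  rw [hJ.swap c y, hJ.swap e y]
  ring

end Cfsg.Agent.Lib.H49STvIso
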