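import Cfsg.Agent.Lib.Helper49SDefs
import Cfsg.Agent.Lib.H49STvIso

/-!
# PROJECT 50 (S5704), piece `Witt1`
-/

set_option autoImplicit false
set_option linter.unusedSectionVars false
set_option linter.unusedVariables false

namespace Cfsg.Agent.Lib.H49SWitt1

open scoped Matrix Kronecker
open Matrix Cfsg.Agent.Lib.Helper49TDefs Cfsg.Agent.Lib.Helper49SDefs Cfsg.Agent.Lib.Helper49Eich
open Cfsg.Agent.Lib.H49STvIso

variable {F : Type*} [Field F] {a b n : ℕ}

local notation "GLn" => Matrix.GeneralLinearGroup (Fin a × Fin b) F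
local notation "Mn" => Matrix (Fin a × Fin b) (Fin a × Fin b) F
local notation "Ma" => Matrix (Fin a) (Fin a) F
local notation "Mb" => Matrix (Fin b) (Fin b) F
local notation "GLa" => Matrix.GeneralLinearGroup (Fin a) F
local notation "GLb" => Matrix.GeneralLinearGroup (Fin b) F
local notation "𝐏" => QuadraticMap.polar

theorem isIso_mul {J : Matrix (Fin n) (Fin n) F} {g h : Matrix.GeneralLinearGroup (Fin n) F}
    (hg : IsIso J g) (hh : IsIso J h) : IsIso J (g * h) := by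
  intro x y
  rw [Units.val_mul, ← Matrix.mulVec_mulVec, ← Matrix.mulVec_mulVec, hg, hh]

theorem isIso_one {J : Matrix (Fin n) (Fin n) F} :
    IsIso J (1 : Matrix.GeneralLinearGroup (Fin n) F) := by
  intro x y
  simp

/-- a transvection moving `y` to `y'` and fixing every `x` with `bf x y = bf x y'` -/
theorem tv_move {J : Matrix (Fin n) (Fin n) F} (hJ : IsSympMat J) {y y' : Fin n → F}
    (h : bf J y y' ≠ 0) :
    ∃ g : Matrix.GeneralLinearGroup (Fin n) F, IsIso J g ∧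
      (g : Matrix (Fin n) (Fin n) F) *ᵥ y = y' ∧
      ∀ x, bf J x y = bf J x y' → (g : Matrix (Fin n) (Fin n) F) *ᵥ x = x := by
  obtain ⟨g, hg, e, _⟩ := tv_iso hJ (y' - y) (bf J y y')⁻¹
  refine ⟨g, hg, ?_, ?_⟩
  · rw [e, Matrix.add_mulVec, Matrix.one_mulVec, Matrix.smul_mulVec, NJ_mulVec, bf_sub_right,
      hJ.alt, sub_zero, smul_smul, inv_mul_cancel₀ h, one_smul]
    abel
  · intro x hx
    rw [e, Matrix.add_mulVec, Matrix.one_mulVec, Matrix.smul_mulVec, NJ_mulVec, bf_sub_right, hx,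
      sub_self, zero_smul, smul_zero, add_zero]

theorem exists_iso_vec {J : Matrix (Fin n) (Fin n) F} (hJ : IsSympMat J) {x x' : Fin n → F}
    (hx : x ≠ 0) (hx' : x' ≠ 0) :
    ∃ g : Matrix.GeneralLinearGroup (Fin n) F, IsIso J g ∧
      (g : Matrix (Fin n) (Fin n) F) *ᵥ x = x' := by
  by_cases h : bf J x x' ≠ 0
  · obtain ⟨g, hg, e, _⟩ := tv_move hJ h
    exact ⟨g, hg, e⟩
  · obtain ⟨p, hp⟩ := hJ.exists_ne_zero hx
    obtain ⟨q, hq⟩ := hJ.exists_ne_zero hx'
    have hp' : bf J x p = -1 := by rw [hJ.swap, hp]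
    obtain ⟨z, hz1, hz2⟩ : ∃ z, bf J x z ≠ 0 ∧ bf J z x' ≠ 0 := by
      by_cases h1 : bf J p x' ≠ 0
      · exact ⟨p, by rw [hp']; simp, h1⟩
      · by_cases h2 : bf J x q ≠ 0
        · exact ⟨q, h2, by rw [hq]; simp⟩
        · push Not at h1 h2
          refine ⟨p + q, ?_, ?_⟩
          · rw [bf_add_right, hp', h2]; simp
          · rw [bf_add_left, h1, hq]; simp
    obtain ⟨g₁, hg₁, e₁, _⟩ := tv_move hJ hz1
    obtain ⟨g₂, hg₂, e₂, _⟩ := tv_move hJ hz2
    refine ⟨g₂ * g₁, isIso_mul hg₂ hg₁, ?_⟩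
    rw [Units.val_mul, ← Matrix.mulVec_mulVec, e₁, e₂]

end Cfsg.Agent.Lib.H49SWitt1
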