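import Cfsg.Agent.Lib.Helper49TDefs
import Cfsg.Agent.Lib.Helper49EichGen
import Cfsg.Agent.Lib.Helper49Bridge

/-!
# Vocabulary for PROJECT 50 (S5704): `Sp(V₁) ⊗ Sp(V₂)` is maximal in `Ω⁺(V₁ ⊗ V₂)`.

`V = F^a ⊗ F^b` is `Fin a × Fin b → F` (see `Helper49TDefs`: `tens`, `tsub`, `NN`, `KS`, ...).
A bilinear form on `F^n` is given by its Gram matrix `J`: `bf J x y = x ⬝ᵥ J *ᵥ y`.
`NJ J x y` is the rank one endomorphism `v ↦ bf J v y • x`.
-/

set_option autoImplicit false
set_option linter.unusedSectionVars false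
set_option linter.unusedSimpArgs false

namespace Cfsg.Agent.Lib.Helper49SDefs

open scoped Matrix Kronecker
open Matrix Cfsg.Agent.Lib.Helper49TDefs Cfsg.Agent.Lib.Helper49Eich

variable {F : Type*} [Field F] {a b n : ℕ}

/-- the bilinear form with Gram matrix `J` -/
def bf (J : Matrix (Fin n) (Fin n) F) (x y : Fin n → F) : F := x ⬝ᵥ J *ᵥ y

/-- the rank one endomorphism `v ↦ bf J v y • x` -/
def NJ (J : Matrix (Fin n) (Fin n) F) (x y : Fin n → F) : Matrix (Fin n) (Fin n) F :=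
  Matrix.vecMulVec x (J *ᵥ y)

/-- `J` is the Gram matrix of a nondegenerate alternating form -/
structure IsSympMat (J : Matrix (Fin n) (Fin n) F) : Prop where
  alt : ∀ v, bf J v v = 0
  unit : IsUnit J.det

/-- `g` is an isometry of the form with Gram matrix `J` -/
def IsIso (J : Matrix (Fin n) (Fin n) F) (g : Matrix.GeneralLinearGroup (Fin n) F) : Prop :=
  ∀ x y, bf J ((g : Matrix (Fin n) (Fin n) F) *ᵥ x) ((g : Matrix (Fin n) (Fin n) F) *ᵥ y) = bf J x y

/-- the hyperplane `c^⊥` -/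
def perpS (J : Matrix (Fin n) (Fin n) F) (c : Fin n → F) : Submodule F (Fin n → F) where
  carrier := {v | bf J v c = 0}
  add_mem' := fun {x y} hx hy => by
    simp only [Set.mem_ofPred_eq, bf, add_dotProduct] at hx hy ⊢
    rw [hx, hy, add_zero]
  zero_mem' := by simp [bf]
  smul_mem' := fun k x hx => by
    simp only [Set.mem_ofPred_eq, bf, smul_dotProduct] at hx ⊢
    rw [hx, smul_zero]

theorem mem_perpS {J : Matrix (Fin n) (Fin n) F} {c v : Fin n → F} :
    v ∈ perpS J c ↔ bf J v c = 0 := Iff.rfl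

/-- the adjoint: `bf J (X x) y = bf J x (adjJ J X y)` -/
noncomputable def adjJ (J X : Matrix (Fin n) (Fin n) F) : Matrix (Fin n) (Fin n) F := J⁻¹ * Xᵀ * J

/-! ### bilinearity -/

section bfl
variable (J : Matrix (Fin n) (Fin n) F)

@[simp] theorem bf_add_left (x y z : Fin n → F) : bf J (x + y) z = bf J x z + bf J y z := by
  simp [bf, add_dotProduct]
@[simp] theorem bf_add_right (x y z : Fin n → F) : bf J x (y + z) = bf J x y + bf J x z := by
  simp [bf, Matrix.mulVec_add, dotProduct_add]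
@[simp] theorem bf_sub_left (x y z : Fin n → F) : bf J (x - y) z = bf J x z - bf J y z := by
  simp [bf, sub_dotProduct]
@[simp] theorem bf_sub_right (x y z : Fin n → F) : bf J x (y - z) = bf J x y - bf J x z := by
  simp [bf, Matrix.mulVec_sub, dotProduct_sub]
@[simp] theorem bf_smul_left (k : F) (x z : Fin n → F) : bf J (k • x) z = k * bf J x z := by
  simp [bf, smul_dotProduct]
@[simp] theorem bf_smul_right (k : F) (x z : Fin n → F) : bf J x (k • z) = k * bf J x z := by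
  simp [bf, Matrix.mulVec_smul, dotProduct_smul]
@[simp] theorem bf_neg_left (x z : Fin n → F) : bf J (-x) z = - bf J x z := by
  simp [bf, neg_dotProduct]
@[simp] theorem bf_neg_right (x z : Fin n → F) : bf J x (-z) = - bf J x z := by
  simp [bf, Matrix.mulVec_neg, dotProduct_neg]
@[simp] theorem bf_zero_left (z : Fin n → F) : bf J 0 z = 0 := by simp [bf]
@[simp] theorem bf_zero_right (z : Fin n → F) : bf J z 0 = 0 := by simp [bf]

@[simp] theorem NJ_mulVec (x y v : Fin n → F) : NJ J x y *ᵥ v = bf J v y • x := by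
  rw [NJ, Matrix.vecMulVec_mulVec, bf, dotProduct_comm]
  ext i
  simp [mul_comm]

theorem NJ_mul (x y x' y' : Fin n → F) : NJ J x y * NJ J x' y' = bf J x' y • NJ J x y' := by
  apply Matrix.toLin'.injective
  apply LinearMap.ext
  intro v
  simp only [Matrix.toLin'_apply, ← Matrix.mulVec_mulVec, NJ_mulVec, Matrix.mulVec_smul,
    Matrix.smul_mulVec, smul_smul]
  rw [mul_comm]

theorem mul_NJ (X : Matrix (Fin n) (Fin n) F) (x y : Fin n → F) :
    X * NJ J x y = NJ J (X *ᵥ x) y := by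
  apply Matrix.toLin'.injective
  apply LinearMap.ext
  intro v
  simp only [Matrix.toLin'_apply, ← Matrix.mulVec_mulVec, NJ_mulVec, Matrix.mulVec_smul]

theorem NJ_add_left (x x' y : Fin n → F) : NJ J (x + x') y = NJ J x y + NJ J x' y := by
  simp [NJ, Matrix.add_vecMulVec]
theorem NJ_add_right (x y y' : Fin n → F) : NJ J x (y + y') = NJ J x y + NJ J x y' := by
  simp [NJ, Matrix.mulVec_add, Matrix.vecMulVec_add]
theorem NJ_smul_left (k : F) (x y : Fin n → F) : NJ J (k • x) y = k • NJ J x y := by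
  simp [NJ, Matrix.smul_vecMulVec]
theorem NJ_smul_right (k : F) (x y : Fin n → F) : NJ J x (k • y) = k • NJ J x y := by
  simp [NJ, Matrix.mulVec_smul, Matrix.vecMulVec_smul]

end bfl

namespace IsSympMat
variable {J : Matrix (Fin n) (Fin n) F} (hJ : IsSympMat J)
include hJ

theorem swap (x y : Fin n → F) : bf J x y = - bf J y x := by
  have h := hJ.alt (x + y)
  simp only [bf_add_left, bf_add_right, hJ.alt x, hJ.alt y] at h
  linear_combination h

/-- every linear functional is `bf J · w` -/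
theorem exists_repr (φ : Fin n → F) : ∃ w, ∀ x, bf J x w = x ⬝ᵥ φ := by
  refine ⟨J⁻¹ *ᵥ φ, fun x => ?_⟩
  rw [bf, Matrix.mulVec_mulVec, Matrix.mul_nonsing_inv _ hJ.unit, Matrix.one_mulVec]

theorem eq_zero_of_right {w : Fin n → F} (h : ∀ x, bf J x w = 0) : w = 0 := by
  have h1 : J *ᵥ w = 0 := by
    funext i
    have := h (Pi.single i 1)
    simpa [bf] using this
  have h2 : J⁻¹ *ᵥ (J *ᵥ w) = 0 := by rw [h1, Matrix.mulVec_zero]
  rwa [Matrix.mulVec_mulVec, Matrix.nonsing_inv_mul _ hJ.unit, Matrix.one_mulVec] at h2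

theorem eq_zero_of_left {w : Fin n → F} (h : ∀ x, bf J w x = 0) : w = 0 :=
  hJ.eq_zero_of_right fun x => by rw [hJ.swap, h, neg_zero]

theorem exists_ne_zero {w : Fin n → F} (hw : w ≠ 0) : ∃ x, bf J x w = 1 := by
  by_contra hcon
  apply hw
  apply hJ.eq_zero_of_right
  intro x
  by_contra hx
  exact hcon ⟨(bf J x w)⁻¹ • x, by rw [bf_smul_left, inv_mul_cancel₀ hx]⟩

theorem bf_adjJ (X : Matrix (Fin n) (Fin n) F) (x y : Fin n → F) :
    bf J (X *ᵥ x) y = bf J x (adjJ J X *ᵥ y) := by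
  unfold bf adjJ
  rw [Matrix.mulVec_mulVec, ← mul_assoc, ← mul_assoc, Matrix.mul_nonsing_inv _ hJ.unit, one_mul,
    ← Matrix.mulVec_mulVec, Matrix.dotProduct_mulVec x, Matrix.vecMul_transpose]

end IsSympMat

/-- conjugating `NJ` by an isometry -/
theorem NJ_conj {J : Matrix (Fin n) (Fin n) F} {g : Matrix.GeneralLinearGroup (Fin n) F}
    (hg : IsIso J g) (x y : Fin n → F) :
    (g : Matrix (Fin n) (Fin n) F) * NJ J x y *
      ((g⁻¹ : Matrix.GeneralLinearGroup (Fin n) F) : Matrix (Fin n) (Fin n) F)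
      = NJ J ((g : Matrix (Fin n) (Fin n) F) *ᵥ x) ((g : Matrix (Fin n) (Fin n) F) *ᵥ y) := by
  apply Matrix.toLin'.injective
  apply LinearMap.ext
  intro v
  simp only [Matrix.toLin'_apply, ← Matrix.mulVec_mulVec, NJ_mulVec, Matrix.mulVec_smul]
  congr 1
  rw [← hg, Matrix.mulVec_mulVec, ← Units.val_mul, mul_inv_cancel, Units.val_one,
    Matrix.one_mulVec]

/-! ### the data -/

/-- The data: alternating Gram matrices `J₁`, `J₂` and a quadratic form `Q` on `F^a ⊗ F^b`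
vanishing on the pure tensors, with polar form `J₁ ⊗ J₂`. -/
structure SpDat (F : Type*) [Field F] (a b : ℕ) where
  J₁ : Matrix (Fin a) (Fin a) F
  J₂ : Matrix (Fin b) (Fin b) F
  Q : QuadraticForm F (Fin a × Fin b → F)
  h₁ : IsSympMat J₁
  h₂ : IsSympMat J₂
  Qpure : ∀ u c, Q (tens u c) = 0
  polar : ∀ x y, QuadraticMap.polar Q x y = x ⬝ᵥ (J₁ ⊗ₖ J₂) *ᵥ y

/-- `Ω(Q)` inside `GL` -/
abbrev OG (D : SpDat F a b) : Subgroup (Matrix.GeneralLinearGroup (Fin a × Fin b) F) :=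
  Cfsg.Geo.omegaGL ⇑D.Q

/-- the Eichler transformation `E(y, w)` lies in `H` -/
def EH (D : SpDat F a b) (H : Subgroup (Matrix.GeneralLinearGroup (Fin a × Fin b) F))
    (y w : Fin a × Fin b → F) : Prop :=
  ((E D.Q y w : ↥(Cfsg.isometryGroup F ⇑D.Q)) : Matrix.GeneralLinearGroup (Fin a × Fin b) F) ∈ H

variable (D : SpDat F a b) (H : Subgroup (Matrix.GeneralLinearGroup (Fin a × Fin b) F))

/-- a new element at level 2 -/
def L2new : Prop :=
  ∃ (c : Fin b → F) (β : Matrix (Fin a) (Fin a) F), c ≠ 0 ∧ (∀ k : F, β ≠ k • 1) ∧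
    β ⊗ₖ NJ D.J₂ c c ∈ NN H

/-- a new element at level 1 -/
def L1new : Prop :=
  ∃ (c e : Fin b → F) (β β' ζ : Matrix (Fin a) (Fin a) F), LinearIndependent F ![c, e] ∧
    bf D.J₂ c e = 0 ∧ (∀ k : F, β ≠ k • 1) ∧
    β ⊗ₖ NJ D.J₂ e c + β' ⊗ₖ NJ D.J₂ c e + ζ ⊗ₖ NJ D.J₂ c c ∈ NN H

/-- `H` contains a long root element `(u ⊗ c) ∧ (v ⊗ c)` with `u ⊥ v` -/
def HasA : Prop :=
  ∃ (u v : Fin a → F) (c : Fin b → F), LinearIndependent F ![u, v] ∧ bf D.J₁ u v = 0 ∧ c ≠ 0 ∧
    (NJ D.J₁ u v - NJ D.J₁ v u) ⊗ₖ NJ D.J₂ c c ∈ NN H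

/-- `H` contains a long root element `(u ⊗ c) ∧ (u ⊗ e)` with `c ⊥ e` -/
def HasB : Prop :=
  ∃ (u : Fin a → F) (c e : Fin b → F) (k : F), u ≠ 0 ∧ LinearIndependent F ![c, e] ∧
    bf D.J₂ c e = 0 ∧ k ≠ 0 ∧ (k • NJ D.J₁ u u) ⊗ₖ (NJ D.J₂ e c - NJ D.J₂ c e) ∈ NN H

/-- the shape of `t` on the three layers `V₁ ⊗ c ⊆ V₁ ⊗ c^⊥ ⊆ V` -/
structure Lay (t : Matrix.GeneralLinearGroup (Fin a × Fin b) F) (c : Fin b → F)
    (α' : Matrix (Fin a) (Fin a) F) (μ : F) : Prop where
  mu : μ ≠ 0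
  bot : ∀ x, (t : Matrix (Fin a × Fin b) (Fin a × Fin b) F) *ᵥ tens x c = tens (μ • (α' *ᵥ x)) c
  top : ∀ x d, (t : Matrix (Fin a × Fin b) (Fin a × Fin b) F) *ᵥ tens x d - tens (α' *ᵥ x) d
    ∈ tsub a (perpS D.J₂ c)
  perp : ∀ w ∈ tsub a (perpS D.J₂ c),
    (t : Matrix (Fin a × Fin b) (Fin a × Fin b) F) *ᵥ w ∈ tsub a (perpS D.J₂ c)
  sim : ∀ x y, bf D.J₁ (α' *ᵥ x) (α' *ᵥ y) = μ⁻¹ * bf D.J₁ x y

/-! ### pure tensors -/

theorem tens_add_left (u u' : Fin a → F) (c : Fin b → F) :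
    tens (u + u') c = tens u c + tens u' c := by
  ext p; simp [tens, add_mul]
theorem tens_add_right (u : Fin a → F) (c c' : Fin b → F) :
    tens u (c + c') = tens u c + tens u c' := by
  ext p; simp [tens, mul_add]
theorem tens_smul_left (k : F) (u : Fin a → F) (c : Fin b → F) :
    tens (k • u) c = k • tens u c := by
  ext p; simp [tens, mul_assoc]
theorem tens_smul_right (k : F) (u : Fin a → F) (c : Fin b → F) :
    tens u (k • c) = k • tens u c := by
  ext p; simp [tens]; ring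
@[simp] theorem tens_zero_left' (c : Fin b → F) : tens (0 : Fin a → F) c = 0 := by
  ext p; simp [tens]
@[simp] theorem tens_zero_right' (u : Fin a → F) : tens u (0 : Fin b → F) = 0 := by
  ext p; simp [tens]

theorem tens_dot (u u' : Fin a → F) (c c' : Fin b → F) :
    tens u c ⬝ᵥ tens u' c' = (u ⬝ᵥ u') * (c ⬝ᵥ c') := by
  simp only [tens, dotProduct, Fintype.sum_prod_type, Finset.sum_mul_sum]
  refine Finset.sum_congr rfl fun x _ => Finset.sum_congr rfl fun y _ => ?_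
  ring


/-! ### contraction of the second factor -/

/-- contraction of the second factor with the functional `φ` -/
def ctr (φ : Fin b → F) (w : Fin a × Fin b → F) : Fin a → F := fun s => ∑ j, w (s, j) * φ j

theorem ctr_tens (φ : Fin b → F) (x : Fin a → F) (v : Fin b → F) :
    ctr φ (tens x v) = (v ⬝ᵥ φ) • x := by
  ext s
  simp only [ctr, tens, dotProduct, Pi.smul_apply, smul_eq_mul, Finset.sum_mul]
  refine Finset.sum_congr rfl fun j _ => ?_
  ring

theorem ctr_add (φ : Fin b → F) (w w' : Fin a × Fin b → F) :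
    ctr φ (w + w') = ctr φ w + ctr φ w' := by
  ext s
  simp [ctr, add_mul, Finset.sum_add_distrib]

theorem ctr_sub (φ : Fin b → F) (w w' : Fin a × Fin b → F) :
    ctr φ (w - w') = ctr φ w - ctr φ w' := by
  ext s
  simp [ctr, sub_mul, Finset.sum_sub_distrib]

theorem ctr_smul (φ : Fin b → F) (k : F) (w : Fin a × Fin b → F) :
    ctr φ (k • w) = k • ctr φ w := by
  ext s
  simp [ctr, Finset.mul_sum, mul_assoc]

@[simp] theorem ctr_zero (φ : Fin b → F) : ctr φ (0 : Fin a × Fin b → F) = 0 := by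
  ext s
  simp [ctr]

theorem kron_vecMulVec_mulVec (β : Matrix (Fin a) (Fin a) F) (e φ : Fin b → F)
    (w : Fin a × Fin b → F) :
    (β ⊗ₖ Matrix.vecMulVec e φ) *ᵥ w = tens (β *ᵥ ctr φ w) e := by
  ext ⟨s, i⟩
  simp only [tens, ctr, Matrix.mulVec, dotProduct, Matrix.kroneckerMap_apply,
    Matrix.vecMulVec_apply, Fintype.sum_prod_type, Finset.mul_sum, Finset.sum_mul]
  refine Finset.sum_congr rfl fun x _ => Finset.sum_congr rfl fun y _ => ?_
  ring

theorem kron_NJ_mulVec (J : Matrix (Fin b) (Fin b) F) (β : Matrix (Fin a) (Fin a) F)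
    (e e' : Fin b → F) (w : Fin a × Fin b → F) :
    (β ⊗ₖ NJ J e e') *ᵥ w = tens (β *ᵥ ctr (J *ᵥ e') w) e :=
  kron_vecMulVec_mulVec β e _ w

theorem ctr_J_tens (J : Matrix (Fin b) (Fin b) F) (e' : Fin b → F) (x : Fin a → F)
    (v : Fin b → F) : ctr (J *ᵥ e') (tens x v) = bf J v e' • x := ctr_tens _ _ _

theorem mem_tsub_perpS_iff (J : Matrix (Fin b) (Fin b) F) (c : Fin b → F)
    (w : Fin a × Fin b → F) : w ∈ tsub a (perpS J c) ↔ ctr (J *ᵥ c) w = 0 := by
  rw [mem_tsub]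
  constructor
  · intro h
    ext s
    exact h s
  · intro h s
    exact congrFun h s

theorem tens_mem_tsub_perpS {J : Matrix (Fin b) (Fin b) F} {c e : Fin b → F} (h : bf J e c = 0)
    (x : Fin a → F) : tens x e ∈ tsub a (perpS J c) := by
  rw [mem_tsub_perpS_iff, ctr_J_tens, h, zero_smul]

namespace SpDat
variable {D}

theorem polar_tens (u u' : Fin a → F) (c c' : Fin b → F) :
    QuadraticMap.polar D.Q (tens u c) (tens u' c') = bf D.J₁ u u' * bf D.J₂ c c' := by
  rw [D.polar, kron_mulVec_tens, tens_dot]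
  rfl

/-- polar form against a pure tensor -/
theorem polar_tens_right (x : Fin a × Fin b → F) (u' : Fin a → F) (c' : Fin b → F) :
    QuadraticMap.polar D.Q x (tens u' c') = x ⬝ᵥ tens (D.J₁ *ᵥ u') (D.J₂ *ᵥ c') := by
  rw [D.polar, kron_mulVec_tens]

/-- polar form against a pure tensor, via the contraction -/
theorem polar_eq_bf_ctr (w : Fin a × Fin b → F) (u : Fin a → F) (c : Fin b → F) :
    QuadraticMap.polar D.Q w (tens u c) = bf D.J₁ (ctr (D.J₂ *ᵥ c) w) u := by
  rw [polar_tens_right]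
  simp only [bf, ctr, tens, dotProduct, Fintype.sum_prod_type, Finset.sum_mul]
  refine Finset.sum_congr rfl fun x _ => Finset.sum_congr rfl fun y _ => ?_
  ring

end SpDat

end Cfsg.Agent.Lib.Helper49SDefs
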