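import Cfsg.Agent.Lib.H49SDual
import Cfsg.Agent.Lib.Helper49SDefs
import Cfsg.Agent.Lib.H49STvIso
import Cfsg.Agent.Lib.H49SWitt1

/-!
# PROJECT 50 (S5704), piece `Witt2`
-/

set_option autoImplicit false
set_option linter.unusedSectionVars false
set_option linter.unusedVariables false

namespace Cfsg.Agent.Lib.H49SWitt2

open scoped Matrix Kronecker
open Matrix Cfsg.Agent.Lib.Helper49TDefs Cfsg.Agent.Lib.Helper49SDefs Cfsg.Agent.Lib.Helper49Eich
open Cfsg.Agent.Lib.H49STvIso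
open Cfsg.Agent.Lib.H49SWitt1

variable {F : Type*} [Field F] {a b n : ℕ}

local notation "GLn" => Matrix.GeneralLinearGroup (Fin a × Fin b) F
local notation "Mn" => Matrix (Fin a × Fin b) (Fin a × Fin b) F
local notation "Ma" => Matrix (Fin a) (Fin a) F
local notation "Mb" => Matrix (Fin b) (Fin b) F
local notation "GLa" => Matrix.GeneralLinearGroup (Fin a) F
local notation "GLb" => Matrix.GeneralLinearGroup (Fin b) F
local notation "𝐏" => QuadraticMap.polar

theorem exists_iso_fix {J : Matrix (Fin n) (Fin n) F} (hJ : IsSympMat J)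
    {x y y' : Fin n → F} (h : LinearIndependent F ![x, y]) (h' : LinearIndependent F ![x, y'])
    (hb : bf J x y = bf J x y') :
    ∃ g : Matrix.GeneralLinearGroup (Fin n) F, IsIso J g ∧
      (g : Matrix (Fin n) (Fin n) F) *ᵥ x = x ∧ (g : Matrix (Fin n) (Fin n) F) *ᵥ y = y' := by
  by_cases h0 : bf J y y' ≠ 0
  · obtain ⟨g, hg, e, hfix⟩ := tv_move hJ h0
    exact ⟨g, hg, hfix x hb, e⟩
  · push Not at h0
    obtain ⟨p, hp⟩ := Cfsg.Agent.Lib.H49SDual.exists_bf_eq hJ _ h ![0, 1]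
    obtain ⟨q, hq⟩ := Cfsg.Agent.Lib.H49SDual.exists_bf_eq hJ _ h' ![0, 1]
    have hp0 : bf J x p = 0 := by simpa using hp 0
    have hp1 : bf J y p = 1 := by simpa using hp 1
    have hq0 : bf J x q = 0 := by simpa using hq 0
    have hq1 : bf J y' q = 1 := by simpa using hq 1
    have hq1' : bf J q y' = -1 := by rw [hJ.swap, hq1]
    obtain ⟨z, hz0, hz1, hz2⟩ : ∃ z, bf J x z = 0 ∧ bf J y z ≠ 0 ∧ bf J z y' ≠ 0 := by
      by_cases h1 : bf J p y' ≠ 0
      · exact ⟨p, hp0, by rw [hp1]; simp, h1⟩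
      · by_cases h2 : bf J y q ≠ 0
        · exact ⟨q, hq0, h2, by rw [hq1']; simp⟩
        · push Not at h1 h2
          refine ⟨p + q, ?_, ?_, ?_⟩
          · rw [bf_add_right, hp0, hq0, add_zero]
          · rw [bf_add_right, hp1, h2]; simp
          · rw [bf_add_left, h1, hq1']; simp
    have k1 : bf J y (y + z) ≠ 0 := by rw [bf_add_right, hJ.alt, zero_add]; exact hz1
    have k2 : bf J (y + z) y' ≠ 0 := by rw [bf_add_left, h0, zero_add]; exact hz2
    obtain ⟨g₁, hg₁, e₁, f₁⟩ := tv_move hJ k1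
    obtain ⟨g₂, hg₂, e₂, f₂⟩ := tv_move hJ k2
    refine ⟨g₂ * g₁, isIso_mul hg₂ hg₁, ?_, ?_⟩
    · rw [Units.val_mul, ← Matrix.mulVec_mulVec, f₁ x (by rw [bf_add_right, hz0, add_zero]),
        f₂ x (by rw [bf_add_right, hz0, add_zero, hb])]
    · rw [Units.val_mul, ← Matrix.mulVec_mulVec, e₁, e₂]

theorem exists_iso_pair {J : Matrix (Fin n) (Fin n) F} (hJ : IsSympMat J)
    {x y x' y' : Fin n → F} (h : LinearIndependent F ![x, y]) (h' : LinearIndependent F ![x', y'])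
    (hb : bf J x y = bf J x' y') :
    ∃ g : Matrix.GeneralLinearGroup (Fin n) F, IsIso J g ∧
      (g : Matrix (Fin n) (Fin n) F) *ᵥ x = x' ∧ (g : Matrix (Fin n) (Fin n) F) *ᵥ y = y' := by
  have hx0 : x ≠ 0 := by
    have := h.ne_zero 0
    simpa using this
  have hx0' : x' ≠ 0 := by
    have := h'.ne_zero 0
    simpa using this
  obtain ⟨g₁, hg₁, e₁⟩ := exists_iso_vec hJ hx0 hx0'
  have hind : LinearIndependent F ![x', (g₁ : Matrix (Fin n) (Fin n) F) *ᵥ y] := by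
    rw [LinearIndependent.pair_iff] at h ⊢
    intro s t hst
    apply h s t
    have h1 : (g₁ : Matrix (Fin n) (Fin n) F) *ᵥ (s • x + t • y) = 0 := by
      rw [Matrix.mulVec_add, Matrix.mulVec_smul, Matrix.mulVec_smul, e₁, hst]
    have h2 : ((g₁⁻¹ : Matrix.GeneralLinearGroup (Fin n) F) : Matrix (Fin n) (Fin n) F) *ᵥ
        ((g₁ : Matrix (Fin n) (Fin n) F) *ᵥ (s • x + t • y)) = 0 := by
      rw [h1, Matrix.mulVec_zero]
    rwa [Matrix.mulVec_mulVec, ← Units.val_mul, inv_mul_cancel, Units.val_one,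
      Matrix.one_mulVec] at h2
  have hb' : bf J x' ((g₁ : Matrix (Fin n) (Fin n) F) *ᵥ y) = bf J x' y' := by
    rw [← hb, ← hg₁ x y, e₁]
  obtain ⟨g₂, hg₂, e₂, e₃⟩ := exists_iso_fix hJ hind h' hb'
  refine ⟨g₂ * g₁, isIso_mul hg₂ hg₁, ?_, ?_⟩
  · rw [Units.val_mul, ← Matrix.mulVec_mulVec, e₁, e₂]
  · rw [Units.val_mul, ← Matrix.mulVec_mulVec, e₃]

end Cfsg.Agent.Lib.H49SWitt2
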