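import Cfsg.Agent.Lib.Helper49SDefs
import Cfsg.Agent.Lib.H49SBridge
import Cfsg.Agent.Lib.H49SEHbasic
import Cfsg.Agent.Lib.H49SSp1
import Cfsg.Agent.Lib.H49SSp2
import Cfsg.Agent.Lib.H49SWitt1
import Cfsg.Agent.Lib.H49SWitt2

/-!
# PROJECT 50 (S5704), piece `Aall`
-/

set_option autoImplicit false
set_option linter.unusedSectionVars false
set_option linter.unusedVariables false

namespace Cfsg.Agent.Lib.H49SAall

open scoped Matrix Kronecker
open Matrix Cfsg.Agent.Lib.Helper49TDefs Cfsg.Agent.Lib.Helper49SDefs Cfsg.Agent.Lib.Helper49Eich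
open Cfsg.Agent.Lib.H49SBridge
open Cfsg.Agent.Lib.H49SEHbasic
open Cfsg.Agent.Lib.H49SSp1
open Cfsg.Agent.Lib.H49SSp2
open Cfsg.Agent.Lib.H49SWitt1
open Cfsg.Agent.Lib.H49SWitt2

variable {F : Type*} [Field F] {a b n : ℕ}

local notation "GLn" => Matrix.GeneralLinearGroup (Fin a × Fin b) F
local notation "Mn" => Matrix (Fin a × Fin b) (Fin a × Fin b) F
local notation "Ma" => Matrix (Fin a) (Fin a) F
local notation "Mb" => Matrix (Fin b) (Fin b) F
local notation "GLa" => Matrix.GeneralLinearGroup (Fin a) F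
local notation "GLb" => Matrix.GeneralLinearGroup (Fin b) F
local notation "𝐏" => QuadraticMap.polar

theorem A_all [Fintype F] (D : SpDat F a b) (hn : 5 ≤ a * b) (H : Subgroup GLn)
    (hMH : KS a b F ⊓ OG D ≤ H) (h : HasA D H) :
    ∀ (u v : Fin a → F) (c : Fin b → F), bf D.J₁ u v = 0 →
      EH D H (tens u c) (tens v c) := by
  obtain ⟨u₀, v₀, c₀, hind₀, hperp₀, hc₀, hN⟩ := h
  have hsub : (NJ D.J₁ u₀ v₀ - NJ D.J₁ v₀ u₀) ⊗ₖ NJ D.J₂ c₀ c₀
      = NJ D.J₁ u₀ v₀ ⊗ₖ NJ D.J₂ c₀ c₀ - NJ D.J₁ v₀ u₀ ⊗ₖ NJ D.J₂ c₀ c₀ := by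
    rw [sub_eq_add_neg, Matrix.add_kronecker, sub_eq_add_neg]
    congr 1
    ext ⟨i, j⟩ ⟨i', j'⟩
    simp [Matrix.kroneckerMap_apply]
  rw [hsub] at hN
  have h0 : EH D H (tens u₀ c₀) (tens v₀ c₀) :=
    EH_of_NN D u₀ v₀ c₀ c₀ (by rw [hperp₀, zero_mul]) hN
  intro u v c huv
  by_cases hc : c = 0
  · rw [hc, tens_zero_right']
    exact EH_zero_left D H _
  by_cases hind : LinearIndependent F ![u, v]
  · obtain ⟨g₁, hg₁, hg₁u, hg₁v⟩ := exists_iso_pair D.h₁ hind₀ hind (hperp₀.trans huv.symm)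
    obtain ⟨g₂, hg₂, hg₂c⟩ := exists_iso_vec D.h₂ hc₀ hc
    obtain ⟨m₁, hm₁, em₁, -⟩ := sp1_mem D hn g₁ hg₁
    obtain ⟨m₂, hm₂, em₂, -⟩ := sp2_mem D hn g₂ hg₂
    have h1 := EH_conj D (hMH hm₁) hm₁.2 (D.Qpure u₀ c₀)
      (by rw [SpDat.polar_tens, hperp₀, zero_mul]) h0
    rw [em₁, kron_mulVec_tens, kron_mulVec_tens, hg₁u, hg₁v, Matrix.one_mulVec] at h1
    have h2 := EH_conj D (hMH hm₂) hm₂.2 (D.Qpure u c₀)
      (by rw [SpDat.polar_tens, huv, zero_mul]) h1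
    rw [em₂, kron_mulVec_tens, kron_mulVec_tens, hg₂c, Matrix.one_mulVec, Matrix.one_mulVec] at h2
    exact h2
  · rw [linearIndependent_fin2] at hind
    simp only [Matrix.cons_val_one, Matrix.cons_val_zero, Matrix.cons_val_fin_one] at hind
    by_cases hv : v = 0
    · rw [hv, tens_zero_left']
      exact EH_zero_right D H _
    · have : ∃ k : F, k • v = u := by
        by_contra hcon
        push Not at hcon
        exact hind ⟨hv, hcon⟩
      obtain ⟨k, rfl⟩ := this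
      rw [tens_smul_left]
      apply EH_swap D (D.Qpure v c)
      · rw [← tens_smul_left]; exact D.Qpure _ _
      · rw [← tens_smul_left, SpDat.polar_tens, D.h₂.alt, mul_zero]
      · exact EH_smul_self D H _ k

end Cfsg.Agent.Lib.H49SAall
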