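import Cfsg.Agent.Lib.Helper49SDefs

/-!
# PROJECT 50 (S5704), piece `AlgJ`
-/

set_option autoImplicit false
set_option linter.unusedSectionVars false
set_option linter.unusedVariables false

namespace Cfsg.Agent.Lib.H49SAlgJ

open scoped Matrix Kronecker
open Matrix Cfsg.Agent.Lib.Helper49TDefs Cfsg.Agent.Lib.Helper49SDefs Cfsg.Agent.Lib.Helper49Eich

variable {F : Type*} [Field F] {a b n : ℕ}

local notation "GLn" => Matrix.GeneralLinearGroup (Fin a × Fin b) F
local notation "Mn" => Matrix (Fin a × Fin b) (Fin a × Fin b) F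
local notation "Ma" => Matrix (Fin a) (Fin a) F
local notation "Mb" => Matrix (Fin b) (Fin b) F
local notation "GLa" => Matrix.GeneralLinearGroup (Fin a) F
local notation "GLb" => Matrix.GeneralLinearGroup (Fin b) F
local notation "𝐏" => QuadraticMap.polar

/-- a non-scalar matrix moves some vector off its line -/
theorem exists_indep_of_nonscalar (β : Matrix (Fin n) (Fin n) F) (hns : ∀ k : F, β ≠ k • 1) :
    ∃ u, LinearIndependent F ![u, β *ᵥ u] := by
  by_contra hcon
  push Not at hcon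
  obtain ⟨k, hk⟩ := LinearMap.exists_eq_smul_id_of_forall_notLinearIndependent
    (f := Matrix.toLin' β) (fun v => by simpa only [Matrix.toLin'_apply] using hcon v)
  apply hns k
  apply Matrix.toLin'.injective
  rw [hk, map_smul, Matrix.toLin'_one]
  rfl

/-- two matrices with the same action are equal -/
theorem mat_ext' {X Y : Matrix (Fin n) (Fin n) F} (h : ∀ v, X *ᵥ v = Y *ᵥ v) : X = Y := by
  apply Matrix.toLin'.injective
  apply LinearMap.ext
  intro v
  simpa only [Matrix.toLin'_apply] using h v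

theorem alg_J {J : Matrix (Fin n) (Fin n) F} (hJ : IsSympMat J) (ζ : Matrix (Fin n) (Fin n) F)
    (halt : ∀ y, bf J y (ζ *ᵥ y) = 0) (hns : ∀ k : F, ζ ≠ k • 1) :
    ∃ u, LinearIndependent F ![u, ζ *ᵥ u] ∧ bf J u (ζ *ᵥ u) = 0 ∧
      ζ * NJ J u u - NJ J u u * ζ = NJ J (ζ *ᵥ u) u - NJ J u (ζ *ᵥ u) ∧
      NJ J u u * ζ * NJ J u u = 0 := by
  obtain ⟨u, hu⟩ := exists_indep_of_nonscalar ζ hns
  have hsa : ∀ x y, bf J (ζ *ᵥ x) y = bf J x (ζ *ᵥ y) := by
    intro x y
    have h := halt (x + y)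
    simp only [Matrix.mulVec_add, bf_add_left, bf_add_right, halt x, halt y] at h
    rw [hJ.swap (ζ *ᵥ x) y]
    linear_combination -h
  refine ⟨u, hu, halt u, ?_, ?_⟩
  · rw [mul_NJ]
    congr 1
    apply mat_ext'
    intro v
    rw [← Matrix.mulVec_mulVec, NJ_mulVec, NJ_mulVec, hsa]
  · rw [mul_assoc, mul_NJ, NJ_mul, hsa, halt u, zero_smul]

end Cfsg.Agent.Lib.H49SAlgJ
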