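import Cfsg.Agent.Lib.Helper49SDefs

/-!
# PROJECT 50 (S5704), piece `Dual`
-/

set_option autoImplicit false
set_option linter.unusedSectionVars false
set_option linter.unusedVariables false

namespace Cfsg.Agent.Lib.H49SDual

open scoped Matrix Kronecker
open Matrix Cfsg.Agent.Lib.Helper49TDefs Cfsg.Agent.Lib.Helper49SDefs Cfsg.Agent.Lib.Helper49Eich

variable {F : Type*} [Field F] {a b n : ℕ}

local notation "GLn" => Matrix.GeneralLinearGroup (Fin a × Fin b) F
local notation "Mn" => Matrix (Fin a × Fin b) (Fin a × Fin b) F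
local notation "Ma" => Matrix (Fin a) (Fin a) F
local notation "Mb" => Matrix (Fin b) (Fin b) F
local notation "GLa" => Matrix.GeneralLinearGroup (Fin a) F
local notation "GLb" => Matrix.GeneralLinearGroup (Fin b) F
local notation "𝐏" => QuadraticMap.polar

/-- every linear functional is `bf J · w` -/
theorem exists_repr_lin {J : Matrix (Fin n) (Fin n) F} (hJ : IsSympMat J)
    (f : (Fin n → F) →ₗ[F] F) : ∃ w, ∀ x, bf J x w = f x := by
  obtain ⟨w, hw⟩ := hJ.exists_repr (fun j => f (Pi.single j 1))
  refine ⟨w, fun x => ?_⟩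
  rw [hw, LinearMap.pi_apply_eq_sum_univ f x]
  simp only [dotProduct, smul_eq_mul]
  refine Finset.sum_congr rfl fun i _ => ?_
  congr 2
  ext j
  simp [Pi.single_apply, eq_comm]

/-- prescribing the values of `bf J (x i) y` on an independent family -/
theorem exists_bf_eq {J : Matrix (Fin n) (Fin n) F} (hJ : IsSympMat J) {k : ℕ}
    (x : Fin k → Fin n → F) (hx : LinearIndependent F x) (l : Fin k → F) :
    ∃ y, ∀ i, bf J (x i) y = l i := by
  let B := Module.Basis.span hx
  obtain ⟨g, hg⟩ := LinearMap.exists_extend (B.constr F l)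
  obtain ⟨w, hw⟩ := exists_repr_lin hJ g
  refine ⟨w, fun i => ?_⟩
  rw [hw]
  have h1 := LinearMap.congr_fun hg (B i)
  rw [Module.Basis.constr_basis] at h1
  rw [← h1]
  simp [B, Module.Basis.span_apply]

end Cfsg.Agent.Lib.H49SDual
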