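import Cfsg.Agent.Lib.Helper49SDefs
import Cfsg.Agent.Lib.H49SDual
import Cfsg.Agent.Lib.H49SAlgJ

/-!
# PROJECT 50 (S5704), piece `AlgRed`
-/

set_option autoImplicit false
set_option linter.unusedSectionVars false
set_option linter.unusedVariables false

namespace Cfsg.Agent.Lib.H49SAlgRed

open scoped Matrix Kronecker
open Matrix Cfsg.Agent.Lib.Helper49TDefs Cfsg.Agent.Lib.Helper49SDefs Cfsg.Agent.Lib.Helper49Eich
open Cfsg.Agent.Lib.H49SDual
open Cfsg.Agent.Lib.H49SAlgJ

variable {F : Type*} [Field F] {a b n : ℕ}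

local notation "GLn" => Matrix.GeneralLinearGroup (Fin a × Fin b) F
local notation "Mn" => Matrix (Fin a × Fin b) (Fin a × Fin b) F
local notation "Ma" => Matrix (Fin a) (Fin a) F
local notation "Mb" => Matrix (Fin b) (Fin b) F
local notation "GLa" => Matrix.GeneralLinearGroup (Fin a) F
local notation "GLb" => Matrix.GeneralLinearGroup (Fin b) F
local notation "𝐏" => QuadraticMap.polar

theorem alg_reduce {J : Matrix (Fin n) (Fin n) F} (hJ : IsSympMat J) (hn3 : 3 ≤ n)
    (β : Matrix (Fin n) (Fin n) F) (hns : ∀ k : F, β ≠ k • 1) (ν₀ : F)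
    (hβ : ∀ x y, bf J (β *ᵥ x) y + bf J x (β *ᵥ y) = ν₀ * bf J x y) :
    ∃ (u v : Fin n → F) (k : F), LinearIndependent F ![u, v] ∧ bf J u v = 0 ∧ k ≠ 0 ∧
      (1 + NJ J v v) * ((1 + NJ J u u) * β * (1 - NJ J u u) - β) * (1 - NJ J v v)
        - ((1 + NJ J u u) * β * (1 - NJ J u u) - β) = k • (NJ J u v + NJ J v u) := by
  obtain ⟨u, hu⟩ := exists_indep_of_nonscalar β hns
  set w := β *ᵥ u with hw
  -- a third independent vector
  have hne : Submodule.span F (Set.range ![u, w]) ≠ ⊤ := by
    intro htop
    have h1 := finrank_span_eq_card hu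
    rw [htop, finrank_top, Module.finrank_fin_fun] at h1
    simp at h1
    omega
  obtain ⟨z, hz⟩ : ∃ z, z ∉ Submodule.span F (Set.range ![u, w]) := by
    by_contra hcon
    push Not at hcon
    exact hne (eq_top_iff.2 fun x _ => hcon x)
  have hind : LinearIndependent F ![z, u, w] := by
    have := (linearIndependent_finCons (K := F) (x := z) (v := ![u, w])).2 ⟨hu, hz⟩
    exact this
  obtain ⟨v, hv⟩ := exists_bf_eq hJ ![z, u, w] hind ![(bf J w u)⁻¹ * bf J z u + 1, 0, 1]
  have hzv : bf J z v = (bf J w u)⁻¹ * bf J z u + 1 := by simpa using hv 0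
  have huv : bf J u v = 0 := by simpa using hv 1
  have hwv : bf J w v = 1 := by simpa using hv 2
  have hvu : bf J v u = 0 := by rw [hJ.swap, huv, neg_zero]
  have hvw : bf J v w = -1 := by rw [hJ.swap, hwv]
  have hu0 : u ≠ 0 := by
    have := hu.ne_zero 0
    simpa using this
  refine ⟨u, v, -1, ?_, huv, by simp, ?_⟩
  · rw [LinearIndependent.pair_iff]
    intro s t hst
    by_cases ht : t = 0
    · subst ht
      simp only [zero_smul, add_zero] at hst
      exact ⟨by simpa [hu0] using hst, rfl⟩
    · exfalso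
      have h1 : bf J w (s • u + t • v) = 0 := by rw [hst]; simp
      have h2 : bf J z (s • u + t • v) = 0 := by rw [hst]; simp
      simp only [bf_add_right, bf_smul_right, hwv, hzv, mul_one] at h1 h2
      have hwu : bf J w u ≠ 0 := by
        intro h0
        rw [h0, mul_zero, zero_add] at h1
        exact ht h1
      have h3 : t * bf J w u = 0 := by
        have : t * (bf J w u)⁻¹ * bf J w u = t := by field_simp
        have e1 : (s * bf J z u + t * ((bf J w u)⁻¹ * bf J z u + 1)) * bf J w u
            = (s * bf J w u + t) * bf J z u + t * bf J w u := by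
          field_simp
          ring
        rw [h2, h1] at e1
        simpa using e1.symm
      rcases mul_eq_zero.1 h3 with h | h
      · exact ht h
      · exact hwu h
  · have hTβ : NJ J u u * β = ν₀ • NJ J u u - NJ J u w := by
      apply mat_ext'
      intro x
      have := hβ x u
      simp only [← Matrix.mulVec_mulVec, Matrix.sub_mulVec, Matrix.smul_mulVec, NJ_mulVec]
      rw [show bf J (β *ᵥ x) u = ν₀ * bf J x u - bf J x w by rw [hw]; linear_combination this]
      module
    have hβT : β * NJ J u u = NJ J w u := by rw [mul_NJ]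
    have hδ : (1 + NJ J u u) * β * (1 - NJ J u u) - β
        = (ν₀ - bf J w u) • NJ J u u - NJ J u w - NJ J w u := by
      have : (1 + NJ J u u) * β * (1 - NJ J u u) - β
          = NJ J u u * β - β * NJ J u u - NJ J u u * (β * NJ J u u) := by
        noncomm_ring
      rw [this, hTβ, hβT, NJ_mul]
      module
    rw [hδ]
    have : ∀ X : Matrix (Fin n) (Fin n) F, (1 + NJ J v v) * X * (1 - NJ J v v) - X
          = NJ J v v * X - X * NJ J v v - NJ J v v * X * NJ J v v := by
      intro X
      noncomm_ring
    rw [this]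
    simp only [mul_sub, sub_mul, Matrix.mul_smul, Matrix.smul_mul, NJ_mul, huv, hvu, hwv, hvw,
      zero_smul, smul_zero, sub_zero, zero_sub, one_smul, neg_mul, mul_neg, neg_zero]

    module

end Cfsg.Agent.Lib.H49SAlgRed
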