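import Cfsg.Agent.Lib.Helper49SDefs
import Cfsg.Agent.Lib.H49SAlgJ

/-!
# PROJECT 50 (S5704), piece `AlgTwo`
-/

set_option autoImplicit false
set_option linter.unusedSectionVars false
set_option linter.unusedVariables false

namespace Cfsg.Agent.Lib.H49SAlgTwo

open scoped Matrix Kronecker
open Matrix Cfsg.Agent.Lib.Helper49TDefs Cfsg.Agent.Lib.Helper49SDefs Cfsg.Agent.Lib.Helper49Eich
open Cfsg.Agent.Lib.H49SAlgJ

variable {F : Type*} [Field F] {a b n : ℕ}

local notation "GLn" => Matrix.GeneralLinearGroup (Fin a × Fin b) F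
local notation "Mn" => Matrix (Fin a × Fin b) (Fin a × Fin b) F
local notation "Ma" => Matrix (Fin a) (Fin a) F
local notation "Mb" => Matrix (Fin b) (Fin b) F
local notation "GLa" => Matrix.GeneralLinearGroup (Fin a) F
local notation "GLb" => Matrix.GeneralLinearGroup (Fin b) F
local notation "𝐏" => QuadraticMap.polar

theorem alg_two {J : Matrix (Fin n) (Fin n) F} (hJ : IsSympMat J) (hn2 : n = 2)
    (β : Matrix (Fin n) (Fin n) F) (hns : ∀ k : F, β ≠ k • 1) : ∃ u, bf J (β *ᵥ u) u ≠ 0 := by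
  obtain ⟨u, hu⟩ := exists_indep_of_nonscalar β hns
  refine ⟨u, fun h0 => ?_⟩
  have hu0 : u ≠ 0 := by
    have := hu.ne_zero 0
    simpa using this
  apply hu0
  apply hJ.eq_zero_of_right
  intro x
  have htop : Submodule.span F (Set.range ![u, β *ᵥ u]) = ⊤ := by
    apply hu.span_eq_top_of_card_eq_finrank'
    rw [Module.finrank_fin_fun, hn2]
    simp
  have hx : x ∈ Submodule.span F (Set.range ![u, β *ᵥ u]) := by rw [htop]; trivial
  rw [Matrix.range_cons, Matrix.range_cons, Matrix.range_empty, Set.union_empty,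
    Set.singleton_union, Submodule.mem_span_pair] at hx
  obtain ⟨s, t, rfl⟩ := hx
  simp [h0, hJ.alt u]

end Cfsg.Agent.Lib.H49SAlgTwo
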