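import Cfsg.Agent.Lib.Helper49SDefs
import Cfsg.Agent.Lib.H49SSp1
import Cfsg.Agent.Lib.H49SSp2
import Cfsg.Agent.Lib.H49STvIso
import Cfsg.Agent.Lib.H49SComm

/-!
# PROJECT 50 (S5704), piece `Conj`
-/

set_option autoImplicit false
set_option linter.unusedSectionVars false
set_option linter.unusedVariables false

namespace Cfsg.Agent.Lib.H49SConj

open scoped Matrix Kronecker
open Matrix Cfsg.Agent.Lib.Helper49TDefs Cfsg.Agent.Lib.Helper49SDefs Cfsg.Agent.Lib.Helper49Eich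
open Cfsg.Agent.Lib.H49SSp1
open Cfsg.Agent.Lib.H49SSp2
open Cfsg.Agent.Lib.H49STvIso
open Cfsg.Agent.Lib.H49SComm

variable {F : Type*} [Field F] {a b n : ℕ}

local notation "GLn" => Matrix.GeneralLinearGroup (Fin a × Fin b) F
local notation "Mn" => Matrix (Fin a × Fin b) (Fin a × Fin b) F
local notation "Ma" => Matrix (Fin a) (Fin a) F
local notation "Mb" => Matrix (Fin b) (Fin b) F
local notation "GLa" => Matrix.GeneralLinearGroup (Fin a) F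
local notation "GLb" => Matrix.GeneralLinearGroup (Fin b) F
local notation "𝐏" => QuadraticMap.polar

theorem NN_conj2 [Fintype F] (D : SpDat F a b) (hn : 5 ≤ a * b) {H : Subgroup GLn}
    (hMH : KS a b F ⊓ OG D ≤ H) (g : GLb) (hg : IsIso D.J₂ g) {B : Mn} (hB : B ∈ NN H) :
    ((1 : Ma) ⊗ₖ (g : Mb)) * B * ((1 : Ma) ⊗ₖ ((g⁻¹ : GLb) : Mb)) ∈ NN H := by
  obtain ⟨m, hm, e1, e2⟩ := sp2_mem D hn g hg
  rw [← e1, ← e2]
  exact NN_conj hB (hMH hm)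

theorem NN_conj1 [Fintype F] (D : SpDat F a b) (hn : 5 ≤ a * b) {H : Subgroup GLn}
    (hMH : KS a b F ⊓ OG D ≤ H) (g : GLa) (hg : IsIso D.J₁ g) {B : Mn} (hB : B ∈ NN H) :
    ((g : Ma) ⊗ₖ (1 : Mb)) * B * (((g⁻¹ : GLa) : Ma) ⊗ₖ (1 : Mb)) ∈ NN H := by
  obtain ⟨m, hm, e1, e2⟩ := sp1_mem D hn g hg
  rw [← e1, ← e2]
  exact NN_conj hB (hMH hm)

theorem rad_mem [Fintype F] (D : SpDat F a b) (hn : 5 ≤ a * b) (c e : Fin b → F)
    (h : bf D.J₂ e c = 0) :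
    (1 : Ma) ⊗ₖ (NJ D.J₂ e c + NJ D.J₂ c e) ∈ NN (KS a b F ⊓ OG D) := by
  obtain ⟨g, hg, e1, -⟩ := rad_iso D.h₂ c e h
  obtain ⟨m, hm, e2, -⟩ := sp2_mem D hn g hg
  have h' : bf D.J₂ c e = 0 := by rw [D.h₂.swap, h, neg_zero]
  have hs : (NJ D.J₂ e c + NJ D.J₂ c e) * (NJ D.J₂ e c + NJ D.J₂ c e) = 0 := by
    simp only [add_mul, mul_add, NJ_mul, h, h', D.h₂.alt, zero_smul, add_zero]
  refine ⟨?_, m, hm, ?_⟩
  · rw [← Matrix.mul_kronecker_mul, hs, Matrix.kronecker_zero]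
  · rw [e2, e1, Matrix.kronecker_add, Matrix.one_kronecker_one]

end Cfsg.Agent.Lib.H49SConj
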