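import Cfsg.Agent.Lib.Helper49SDefs
import Cfsg.Agent.Lib.H49SAlgJ
import Cfsg.Agent.Lib.H49STv
import Cfsg.Agent.Lib.H49SComm
import Cfsg.Agent.Lib.H49SIso
import Cfsg.Agent.Lib.H49SConj

/-!
# PROJECT 50 (S5704), piece `AofL2`
-/

set_option autoImplicit false
set_option linter.unusedSectionVars false
set_option linter.unusedVariables false

namespace Cfsg.Agent.Lib.H49SAofL2

open scoped Matrix Kronecker
open Matrix Cfsg.Agent.Lib.Helper49TDefs Cfsg.Agent.Lib.Helper49SDefs Cfsg.Agent.Lib.Helper49Eich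
open Cfsg.Agent.Lib.H49SAlgJ
open Cfsg.Agent.Lib.H49STv
open Cfsg.Agent.Lib.H49SComm
open Cfsg.Agent.Lib.H49SIso
open Cfsg.Agent.Lib.H49SConj

variable {F : Type*} [Field F] {a b n : ℕ}

local notation "GLn" => Matrix.GeneralLinearGroup (Fin a × Fin b) F
local notation "Mn" => Matrix (Fin a × Fin b) (Fin a × Fin b) F
local notation "Ma" => Matrix (Fin a) (Fin a) F
local notation "Mb" => Matrix (Fin b) (Fin b) F
local notation "GLa" => Matrix.GeneralLinearGroup (Fin a) F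
local notation "GLb" => Matrix.GeneralLinearGroup (Fin b) F
local notation "𝐏" => QuadraticMap.polar

theorem hasA_of_L2new [Fintype F] (D : SpDat F a b) (hn : 5 ≤ a * b) (H : Subgroup GLn)
    (hMH : KS a b F ⊓ OG D ≤ H) (hH : H ≤ OG D) (h : L2new D H) : HasA D H := by
  obtain ⟨c, β, hc, hns, hB⟩ := h
  have hcc : bf D.J₂ c c = 0 := D.h₂.alt c
  obtain ⟨d₀, hd₀⟩ := D.h₂.exists_ne_zero hc
  have halt : ∀ y, bf D.J₁ y (β *ᵥ y) = 0 := by
    intro x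
    obtain ⟨-, g, hg, hgA⟩ := hB
    have hq := OG_Q D (hH hg) (tens x d₀)
    rw [hgA, Matrix.add_mulVec, Matrix.one_mulVec, kron_NJ_mulVec, ctr_J_tens, hd₀, one_smul,
      D.Qpure] at hq
    have hpol := SpDat.polar_tens (D := D) x (β *ᵥ x) d₀ c
    rw [QuadraticMap.polar, hq, D.Qpure, D.Qpure, hd₀] at hpol
    simpa using hpol.symm
  obtain ⟨u, hu, hperp, hcomm, hTT⟩ := alg_J D.h₁ β halt hns
  refine ⟨u, β *ᵥ u, c, hu, hperp, hc, ?_⟩
  have hG : (((1 : F) • NJ D.J₁ u u) ⊗ₖ (1 : Mb)) ∈ NN H := NN_mono hMH (tv1_mem D hn u 1)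
  rw [one_smul] at hG
  have hX : (NJ D.J₁ u u ⊗ₖ (1 : Mb)) * (β ⊗ₖ NJ D.J₂ c c)
      - (β ⊗ₖ NJ D.J₂ c c) * (NJ D.J₁ u u ⊗ₖ (1 : Mb))
      + (β ⊗ₖ NJ D.J₂ c c) * (NJ D.J₁ u u ⊗ₖ (1 : Mb)) * (β ⊗ₖ NJ D.J₂ c c)
      = (NJ D.J₁ u (β *ᵥ u) - NJ D.J₁ (β *ᵥ u) u) ⊗ₖ NJ D.J₂ c c := by
    have h2 : NJ D.J₁ u (β *ᵥ u) - NJ D.J₁ (β *ᵥ u) u = NJ D.J₁ u u * β - β * NJ D.J₁ u u := by
      rw [← neg_sub, ← hcomm, neg_sub]
    rw [h2]
    simp only [← Matrix.mul_kronecker_mul, one_mul, mul_one, NJ_mul, hcc, zero_smul,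
      Matrix.kronecker_zero, add_zero]
    ext ⟨i, j⟩ ⟨i', j'⟩
    simp only [Matrix.kroneckerMap_apply, Matrix.add_apply, Matrix.sub_apply]
    ring
  have := NN_comm' hG hB
    (by
      simp only [← Matrix.mul_kronecker_mul, one_mul, mul_one, hTT, Matrix.zero_kronecker])
    (by
      rw [hX]
      simp only [← Matrix.mul_kronecker_mul, NJ_mul, hcc, zero_smul, Matrix.kronecker_zero])
  rwa [hX] at this

end Cfsg.Agent.Lib.H49SAofL2
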