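import Cfsg.Agent.Lib.Helper49SDefs
import Cfsg.Agent.Lib.H49SBridge
import Cfsg.Agent.Lib.H49SEHbasic
import Cfsg.Agent.Lib.H49SSp1
import Cfsg.Agent.Lib.H49SSp2
import Cfsg.Agent.Lib.H49SWitt1
import Cfsg.Agent.Lib.H49SWitt2

/-!
# PROJECT 50 (S5704), piece `Ball`
-/

set_option autoImplicit false
set_option linter.unusedSectionVars false
set_option linter.unusedVariables false

namespace Cfsg.Agent.Lib.H49SBall

open scoped Matrix Kronecker
open Matrix Cfsg.Agent.Lib.Helper49TDefs Cfsg.Agent.Lib.Helper49SDefs Cfsg.Agent.Lib.Helper49Eich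
open Cfsg.Agent.Lib.H49SBridge
open Cfsg.Agent.Lib.H49SEHbasic
open Cfsg.Agent.Lib.H49SSp1
open Cfsg.Agent.Lib.H49SSp2
open Cfsg.Agent.Lib.H49SWitt1
open Cfsg.Agent.Lib.H49SWitt2

variable {F : Type*} [Field F] {a b n : ℕ}

local notation "GLn" => Matrix.GeneralLinearGroup (Fin a × Fin b) F
local notation "Mn" => Matrix (Fin a × Fin b) (Fin a × Fin b) F
local notation "Ma" => Matrix (Fin a) (Fin a) F
local notation "Mb" => Matrix (Fin b) (Fin b) F
local notation "GLa" => Matrix.GeneralLinearGroup (Fin a) F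
local notation "GLb" => Matrix.GeneralLinearGroup (Fin b) F
local notation "𝐏" => QuadraticMap.polar

theorem B_all [Fintype F] (D : SpDat F a b) (hn : 5 ≤ a * b) (H : Subgroup GLn)
    (hMH : KS a b F ⊓ OG D ≤ H) (h : HasB D H) :
    ∀ (u : Fin a → F) (c c' : Fin b → F), bf D.J₂ c c' = 0 →
      EH D H (tens u c) (tens u c') := by
  obtain ⟨u₀, c₀, e₀, k, hu₀, hli, hce, hk, hNN⟩ := h
  -- the starting Eichler transformation
  have h0 : EH D H (tens u₀ e₀) (tens u₀ (k • c₀)) := by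
    have h1 : EH D H (tens u₀ e₀) (tens (k • u₀) c₀) := by
      apply EH_of_NN D u₀ (k • u₀) e₀ c₀
      · rw [bf_smul_right, D.h₁.alt, mul_zero, zero_mul]
      · rw [NJ_smul_right, NJ_smul_left]
        have e : (k • NJ D.J₁ u₀ u₀) ⊗ₖ NJ D.J₂ e₀ c₀ - (k • NJ D.J₁ u₀ u₀) ⊗ₖ NJ D.J₂ c₀ e₀
            = (k • NJ D.J₁ u₀ u₀) ⊗ₖ (NJ D.J₂ e₀ c₀ - NJ D.J₂ c₀ e₀) := by
          ext ⟨i, j⟩ ⟨i', j'⟩
          simp [Matrix.kroneckerMap_apply, mul_sub]
        rw [e]
        exact hNN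
    rwa [tens_smul_left, ← tens_smul_right] at h1
  have hli0 : LinearIndependent F ![e₀, k • c₀] := by
    rw [LinearIndependent.pair_iff] at hli ⊢
    intro s t hst
    have := hli (t * k) s (by rw [← hst, smul_smul, add_comm])
    refine ⟨this.2, ?_⟩
    rcases mul_eq_zero.1 this.1 with h | h
    · exact h
    · exact absurd h hk
  have hb0 : bf D.J₂ e₀ (k • c₀) = 0 := by
    rw [bf_smul_right, D.h₂.swap, hce, neg_zero, mul_zero]
  intro u c c' hcc
  by_cases hu : u = 0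
  · rw [hu, tens_zero_left']; exact EH_zero_left D H _
  by_cases hli' : LinearIndependent F ![c, c']
  · obtain ⟨g₂, hg₂, e1, e2⟩ := exists_iso_pair D.h₂ hli0 hli' (hb0.trans hcc.symm)
    obtain ⟨g₁, hg₁, e3⟩ := exists_iso_vec D.h₁ hu₀ hu
    obtain ⟨m₂, hm₂, em₂, -⟩ := sp2_mem D hn g₂ hg₂
    obtain ⟨m₁, hm₁, em₁, -⟩ := sp1_mem D hn g₁ hg₁
    have s1 := EH_conj D (hMH hm₂) hm₂.2 (D.Qpure _ _)
      (by rw [SpDat.polar_tens, D.h₁.alt, zero_mul]) h0
    rw [em₂, kron_mulVec_tens, kron_mulVec_tens, Matrix.one_mulVec, e1, e2] at s1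
    have s2 := EH_conj D (hMH hm₁) hm₁.2 (D.Qpure _ _)
      (by rw [SpDat.polar_tens, D.h₁.alt, zero_mul]) s1
    rw [em₁, kron_mulVec_tens, kron_mulVec_tens, Matrix.one_mulVec, Matrix.one_mulVec, e3] at s2
    exact s2
  · by_cases hc : c = 0
    · rw [hc, tens_zero_right']; exact EH_zero_left D H _
    · rw [LinearIndependent.pair_iff] at hli'
      push Not at hli'
      obtain ⟨s, t, hst, hne⟩ := hli'
      have ht : t ≠ 0 := by
        intro ht
        rw [ht, zero_smul, add_zero] at hst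
        rcases smul_eq_zero.1 hst with h | h
        · exact hne h ht
        · exact hc h
      have hc' : c' = (-(t⁻¹ * s)) • c := by
        have h2 : t • c' = -(s • c) := by rw [eq_neg_iff_add_eq_zero, add_comm]; exact hst
        calc c' = t⁻¹ • (t • c') := by rw [smul_smul, inv_mul_cancel₀ ht, one_smul]
          _ = (-(t⁻¹ * s)) • c := by rw [h2, smul_neg, smul_smul, neg_smul]
      rw [hc', tens_smul_right]
      exact EH_smul_self D H _ _

end Cfsg.Agent.Lib.H49SBall
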