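import Cfsg.Agent.Lib.Helper49SDefs
import Cfsg.Agent.Lib.H49SIso
import Cfsg.Agent.Lib.H49SEHbasic

/-!
# PROJECT 50 (S5704), piece `EHcomm`
-/

set_option autoImplicit false
set_option linter.unusedSectionVars false
set_option linter.unusedVariables false

namespace Cfsg.Agent.Lib.H49SEHcomm

open scoped Matrix Kronecker
open Matrix Cfsg.Agent.Lib.Helper49TDefs Cfsg.Agent.Lib.Helper49SDefs Cfsg.Agent.Lib.Helper49Eich
open Cfsg.Agent.Lib.H49SIso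

variable {F : Type*} [Field F] {a b n : ℕ}

local notation "GLn" => Matrix.GeneralLinearGroup (Fin a × Fin b) F
local notation "Mn" => Matrix (Fin a × Fin b) (Fin a × Fin b) F
local notation "Ma" => Matrix (Fin a) (Fin a) F
local notation "Mb" => Matrix (Fin b) (Fin b) F
local notation "GLa" => Matrix.GeneralLinearGroup (Fin a) F
local notation "GLb" => Matrix.GeneralLinearGroup (Fin b) F
local notation "𝐏" => QuadraticMap.polar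

open Cfsg.Agent.Lib.H49SEHbasic in
/-- the commutator formula in the isometry group -/
theorem E_commutator {ι : Type} [Fintype ι] [DecidableEq ι] (Q : QuadraticForm F (ι → F))
    {y₁ y₂ y₃ y₄ : ι → F}
    (q1 : Q y₁ = 0) (q2 : Q y₂ = 0) (q3 : Q y₃ = 0) (q4 : Q y₄ = 0)
    (h12 : 𝐏 Q y₁ y₂ = 0) (h34 : 𝐏 Q y₃ y₄ = 0) (h13 : 𝐏 Q y₁ y₃ = 0)
    (h14 : 𝐏 Q y₁ y₄ = 0) (h24 : 𝐏 Q y₂ y₄ = 0) :
    E Q y₁ y₂ * E Q y₃ y₄ * (E Q y₁ y₂)⁻¹ * (E Q y₃ y₄)⁻¹ = E Q y₁ (𝐏 Q y₂ y₃ • y₄) := by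
  set l := 𝐏 Q y₂ y₃ with hl
  have h31 : 𝐏 Q y₃ y₁ = 0 := by rw [QuadraticMap.polar_comm, h13]
  have h41 : 𝐏 Q y₄ y₁ = 0 := by rw [QuadraticMap.polar_comm, h14]
  have h42 : 𝐏 Q y₄ y₂ = 0 := by rw [QuadraticMap.polar_comm, h24]
  have h43 : 𝐏 Q y₄ y₃ = 0 := by rw [QuadraticMap.polar_comm, h34]
  have hA3 : (((E Q y₁ y₂ : ↥(Cfsg.isometryGroup F ⇑Q)) : Matrix.GeneralLinearGroup ι F) :
      Matrix ι ι F) *ᵥ y₃ = y₃ + l • y₁ := by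
    rw [E_apply Q q1 h12, q2, h31, QuadraticMap.polar_comm _ y₃ y₂, ← hl]
    simp
  have hA4 : (((E Q y₁ y₂ : ↥(Cfsg.isometryGroup F ⇑Q)) : Matrix.GeneralLinearGroup ι F) :
      Matrix ι ι F) *ᵥ y₄ = y₄ := by
    rw [E_apply Q q1 h12, q2, h41, h42]
    simp
  have hQ3 : Q (y₃ + l • y₁) = 0 := by
    rw [Cfsg.Agent.Lib.Helper49Orth.Q_add, q3, QuadraticMap.map_smul, q1,
      QuadraticMap.polar_smul_right, h31]
    simp
  have hP3 : 𝐏 Q (y₃ + l • y₁) y₄ = 0 := by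
    rw [QuadraticMap.polar_add_left, h34, QuadraticMap.polar_smul_left, h14]
    simp
  have hl1 : 𝐏 Q y₄ (l • y₁) = 0 := by rw [QuadraticMap.polar_smul_right, h41, smul_zero]
  rw [E_conj Q _ q3 h34, hA3, hA4, E_swap Q hQ3 q4 hP3, E_swap Q q3 q4 h34,
    E_inv Q q4 (by rw [QuadraticMap.polar_neg_right, h43, neg_zero]), neg_neg,
    E_mul Q q4 (by rw [QuadraticMap.polar_neg_right, QuadraticMap.polar_add_right, h43, hl1,
      add_zero, neg_zero]) h43]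
  have e1 : -(y₃ + l • y₁) + y₃ = -(l • y₁) := by abel
  rw [e1, ← E_swap Q (by rw [QuadraticMap.map_smul, q1, smul_zero]) q4
    (by rw [QuadraticMap.polar_smul_left, h14, smul_zero]), E_smul Q q1 h14]

/-- the commutator relation for long root elements -/
theorem EH_comm (D : SpDat F a b) {H : Subgroup GLn} {y₁ y₂ y₃ y₄ : Fin a × Fin b → F}
    (q1 : D.Q y₁ = 0) (q2 : D.Q y₂ = 0) (q3 : D.Q y₃ = 0) (q4 : D.Q y₄ = 0)
    (h12 : 𝐏 D.Q y₁ y₂ = 0) (h34 : 𝐏 D.Q y₃ y₄ = 0) (h13 : 𝐏 D.Q y₁ y₃ = 0)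
    (h14 : 𝐏 D.Q y₁ y₄ = 0) (h24 : 𝐏 D.Q y₂ y₄ = 0)
    (h : EH D H y₁ y₂) (h' : EH D H y₃ y₄) : EH D H y₁ (𝐏 D.Q y₂ y₃ • y₄) := by
  unfold EH at *
  rw [← E_commutator D.Q q1 q2 q3 q4 h12 h34 h13 h14 h24]
  exact H.mul_mem (H.mul_mem (H.mul_mem h h') (H.inv_mem h)) (H.inv_mem h')

end Cfsg.Agent.Lib.H49SEHcomm
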