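import Cfsg.Agent.Lib.Helper49SDefs
import Cfsg.Agent.Lib.H49SEHbasic
import Cfsg.Agent.Lib.H49SEHcomm
import Cfsg.Agent.Lib.H49SDual
import Cfsg.Agent.Lib.H49SWitt1

/-!
# PROJECT 50 (S5704), piece `BofA`
-/

set_option autoImplicit false
set_option linter.unusedSectionVars false
set_option linter.unusedVariables false

namespace Cfsg.Agent.Lib.H49SBofA

open scoped Matrix Kronecker
open Matrix Cfsg.Agent.Lib.Helper49TDefs Cfsg.Agent.Lib.Helper49SDefs Cfsg.Agent.Lib.Helper49Eich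
open Cfsg.Agent.Lib.H49SEHbasic
open Cfsg.Agent.Lib.H49SEHcomm
open Cfsg.Agent.Lib.H49SDual
open Cfsg.Agent.Lib.H49SWitt1

variable {F : Type*} [Field F] {a b n : ℕ}

local notation "GLn" => Matrix.GeneralLinearGroup (Fin a × Fin b) F
local notation "Mn" => Matrix (Fin a × Fin b) (Fin a × Fin b) F
local notation "Ma" => Matrix (Fin a) (Fin a) F
local notation "Mb" => Matrix (Fin b) (Fin b) F
local notation "GLa" => Matrix.GeneralLinearGroup (Fin a) F
local notation "GLb" => Matrix.GeneralLinearGroup (Fin b) F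
local notation "𝐏" => QuadraticMap.polar

private theorem exists_vw {J : Matrix (Fin n) (Fin n) F} (hJ : IsSympMat J)
    (hex : ∃ u v : Fin n → F, LinearIndependent F ![u, v] ∧ bf J u v = 0) {u : Fin n → F}
    (hu : u ≠ 0) (r : F) : ∃ v w : Fin n → F, bf J u v = 0 ∧ bf J w u = 0 ∧ bf J v w = r := by
  obtain ⟨u₀, v₀, hli, h0⟩ := hex
  have hu₀ : u₀ ≠ 0 := by
    have := hli.ne_zero 0
    simpa using this
  obtain ⟨g, hg, hgu⟩ := exists_iso_vec hJ hu₀ hu
  set v := (g : Matrix (Fin n) (Fin n) F) *ᵥ v₀ with hv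
  have huv : bf J u v = 0 := by rw [← hgu, hv, hg, h0]
  have hli' : LinearIndependent F ![u, v] := by
    have hinj : Function.Injective (Matrix.mulVecLin (g : Matrix (Fin n) (Fin n) F)) := by
      intro x y hxy
      have h1 : (g : Matrix (Fin n) (Fin n) F) *ᵥ x = (g : Matrix (Fin n) (Fin n) F) *ᵥ y := hxy
      have h2 := congrArg (fun z => ((g⁻¹ : Matrix.GeneralLinearGroup (Fin n) F) :
        Matrix (Fin n) (Fin n) F) *ᵥ z) h1
      simpa [Matrix.mulVec_mulVec, ← Units.val_mul] using h2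
    have h3 := hli.map' (Matrix.mulVecLin (g : Matrix (Fin n) (Fin n) F))
      (LinearMap.ker_eq_bot.2 hinj)
    have h4 : (Matrix.mulVecLin (g : Matrix (Fin n) (Fin n) F)) ∘ ![u₀, v₀] = ![u, v] := by
      ext i j
      fin_cases i
      · simp [← hgu]
      · simp [hv]
    rwa [h4] at h3
  obtain ⟨w, hw⟩ := exists_bf_eq hJ ![u, v] hli' ![0, r]
  refine ⟨v, w, huv, ?_, ?_⟩
  · have := hw 0
    simp only [Matrix.cons_val_zero] at this
    rw [hJ.swap, this, neg_zero]
  · have := hw 1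
    simpa using this

private theorem B_ne (D : SpDat F a b) (H : Subgroup GLn)
    (hA : ∀ (u v : Fin a → F) (c : Fin b → F), bf D.J₁ u v = 0 → EH D H (tens u c) (tens v c))
    (hex : ∃ u v : Fin a → F, LinearIndependent F ![u, v] ∧ bf D.J₁ u v = 0)
    (u : Fin a → F) (hu : u ≠ 0) (c c' : Fin b → F) (hcc : bf D.J₂ c c' ≠ 0) :
    EH D H (tens u c) (tens u c') := by
  obtain ⟨v, w, huv, hwu, hvw⟩ := exists_vw D.h₁ hex hu (bf D.J₂ c c')⁻¹
  have huw : bf D.J₁ u w = 0 := by rw [D.h₁.swap, hwu, neg_zero]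
  have hvu : bf D.J₁ v u = 0 := by rw [D.h₁.swap, huv, neg_zero]
  have key := EH_comm D (H := H) (y₁ := tens u c) (y₂ := tens v c) (y₃ := tens w c')
    (y₄ := tens u c') (D.Qpure _ _) (D.Qpure _ _) (D.Qpure _ _) (D.Qpure _ _)
    (by rw [SpDat.polar_tens, huv, zero_mul])
    (by rw [SpDat.polar_tens, hwu, zero_mul])
    (by rw [SpDat.polar_tens, huw, zero_mul])
    (by rw [SpDat.polar_tens, D.h₁.alt, zero_mul])
    (by rw [SpDat.polar_tens, hvu, zero_mul])
    (hA u v c huv) (hA w u c' hwu)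
  have h1 : 𝐏 D.Q (tens v c) (tens w c') = 1 := by
    rw [SpDat.polar_tens, hvw, inv_mul_cancel₀ hcc]
  rw [h1, one_smul] at key
  exact key

theorem B_of_A (D : SpDat F a b) (H : Subgroup GLn)
    (hA : ∀ (u v : Fin a → F) (c : Fin b → F), bf D.J₁ u v = 0 → EH D H (tens u c) (tens v c))
    (hex : ∃ u v : Fin a → F, LinearIndependent F ![u, v] ∧ bf D.J₁ u v = 0) :
    ∀ (u : Fin a → F) (c c' : Fin b → F), bf D.J₂ c c' = 0 →
      EH D H (tens u c) (tens u c') := by
  intro u c c' hcc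
  by_cases hu : u = 0
  · rw [hu, tens_zero_left']
    exact EH_zero_left D H _
  by_cases hc : c = 0
  · rw [hc, tens_zero_right']
    exact EH_zero_left D H _
  obtain ⟨c₁, hc₁⟩ := D.h₂.exists_ne_zero hc
  have hc₁' : bf D.J₂ c c₁ = -1 := by rw [D.h₂.swap, hc₁]
  have e1 : tens u c' = tens u (c' - c₁) + tens u c₁ := by
    rw [← tens_add_right, sub_add_cancel]
  rw [e1]
  apply EH_add D (D.Qpure _ _)
  · rw [SpDat.polar_tens, D.h₁.alt, zero_mul]
  · rw [SpDat.polar_tens, D.h₁.alt, zero_mul]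
  · apply B_ne D H hA hex u hu
    rw [bf_sub_right, hcc, hc₁']
    norm_num
  · apply B_ne D H hA hex u hu
    rw [hc₁']
    norm_num

end Cfsg.Agent.Lib.H49SBofA
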