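import Cfsg.Agent.Lib.Helper49SDefs
import Cfsg.Agent.Lib.H49SIso
import Cfsg.Agent.Lib.H49SDual

/-!
# PROJECT 50 (S5704), piece `IsoForm`
-/

set_option autoImplicit false
set_option linter.unusedSectionVars false
set_option linter.unusedVariables false

namespace Cfsg.Agent.Lib.H49SIsoForm

open scoped Matrix Kronecker
open Matrix Cfsg.Agent.Lib.Helper49TDefs Cfsg.Agent.Lib.Helper49SDefs Cfsg.Agent.Lib.Helper49Eich
open Cfsg.Agent.Lib.H49SIso
open Cfsg.Agent.Lib.H49SDual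

variable {F : Type*} [Field F] {a b n : ℕ}

local notation "GLn" => Matrix.GeneralLinearGroup (Fin a × Fin b) F
local notation "Mn" => Matrix (Fin a × Fin b) (Fin a × Fin b) F
local notation "Ma" => Matrix (Fin a) (Fin a) F
local notation "Mb" => Matrix (Fin b) (Fin b) F
local notation "GLa" => Matrix.GeneralLinearGroup (Fin a) F
local notation "GLb" => Matrix.GeneralLinearGroup (Fin b) F
local notation "𝐏" => QuadraticMap.polar

theorem iso_form (D : SpDat F a b) {c e : Fin b → F} (hce : LinearIndependent F ![c, e])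
    (hperp : bf D.J₂ c e = 0) (β β' ζ : Ma)
    (h : β ⊗ₖ NJ D.J₂ e c + β' ⊗ₖ NJ D.J₂ c e + ζ ⊗ₖ NJ D.J₂ c c ∈ NN (OG D)) :
    ∀ x y, bf D.J₁ (β *ᵥ x) y = bf D.J₁ x (β' *ᵥ y) := by
  intro x y
  have hcc : bf D.J₂ c c = 0 := D.h₂.alt c
  have hee : bf D.J₂ e e = 0 := D.h₂.alt e
  have hec : bf D.J₂ e c = 0 := by rw [D.h₂.swap, hperp, neg_zero]
  obtain ⟨d₁, hd₁⟩ := exists_bf_eq D.h₂ ![c, e] hce ![-1, 0]
  obtain ⟨d₂, hd₂⟩ := exists_bf_eq D.h₂ ![c, e] hce ![0, -1]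
  have h1c : bf D.J₂ c d₁ = -1 := by simpa using hd₁ 0
  have h1e : bf D.J₂ e d₁ = 0 := by simpa using hd₁ 1
  have h2c : bf D.J₂ c d₂ = 0 := by simpa using hd₂ 0
  have h2e : bf D.J₂ e d₂ = -1 := by simpa using hd₂ 1
  have h1c' : bf D.J₂ d₁ c = 1 := by rw [D.h₂.swap, h1c, neg_neg]
  have h1e' : bf D.J₂ d₁ e = 0 := by rw [D.h₂.swap, h1e, neg_zero]
  have h2c' : bf D.J₂ d₂ c = 0 := by rw [D.h₂.swap, h2c, neg_zero]
  have h2e' : bf D.J₂ d₂ e = 1 := by rw [D.h₂.swap, h2e, neg_neg]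
  obtain ⟨-, g, hg, hgA⟩ := h
  have hp := OG_polar D hg (tens x d₁) (tens y d₂)
  rw [hgA] at hp
  simp only [Matrix.add_mulVec, Matrix.one_mulVec, kron_NJ_mulVec, ctr_J_tens, h1c', h1e', h2c',
    h2e', one_smul, zero_smul, Matrix.mulVec_zero, tens_zero_left', add_zero, zero_add,
    QuadraticMap.polar_add_left, QuadraticMap.polar_add_right, SpDat.polar_tens, hcc, hec,
    h2c, h2e, mul_zero, mul_one] at hp
  linear_combination -hp

end Cfsg.Agent.Lib.H49SIsoForm
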