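import Cfsg.Agent.Lib.Helper49SDefs
import Cfsg.Agent.Lib.H49SConj
import Cfsg.Agent.Lib.H49SComm
import Cfsg.Agent.Lib.H49SDual
import Cfsg.Agent.Lib.H49STvIso

/-!
# PROJECT 50 (S5704), piece `KillZ`
-/

set_option autoImplicit false
set_option linter.unusedSectionVars false
set_option linter.unusedVariables false

namespace Cfsg.Agent.Lib.H49SKillZ

open scoped Matrix Kronecker
open Matrix Cfsg.Agent.Lib.Helper49TDefs Cfsg.Agent.Lib.Helper49SDefs Cfsg.Agent.Lib.Helper49Eich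
open Cfsg.Agent.Lib.H49SConj
open Cfsg.Agent.Lib.H49SComm
open Cfsg.Agent.Lib.H49SDual
open Cfsg.Agent.Lib.H49STvIso

variable {F : Type*} [Field F] {a b n : ℕ}

local notation "GLn" => Matrix.GeneralLinearGroup (Fin a × Fin b) F
local notation "Mn" => Matrix (Fin a × Fin b) (Fin a × Fin b) F
local notation "Ma" => Matrix (Fin a) (Fin a) F
local notation "Mb" => Matrix (Fin b) (Fin b) F
local notation "GLa" => Matrix.GeneralLinearGroup (Fin a) F
local notation "GLb" => Matrix.GeneralLinearGroup (Fin b) F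
local notation "𝐏" => QuadraticMap.polar

theorem kill_zeta [Fintype F] (D : SpDat F a b) (hn : 5 ≤ a * b) (H : Subgroup GLn)
    (hMH : KS a b F ⊓ OG D ≤ H) {c e : Fin b → F} (hce : LinearIndependent F ![c, e])
    (hperp : bf D.J₂ c e = 0) (δ ζ : Ma) (hδ : δ * δ = 0)
    (h : δ ⊗ₖ (NJ D.J₂ e c - NJ D.J₂ c e) + ζ ⊗ₖ NJ D.J₂ c c ∈ NN H) :
    ∃ e₂, LinearIndependent F ![c, e₂] ∧ bf D.J₂ c e₂ = 0 ∧
      δ ⊗ₖ (NJ D.J₂ e₂ c - NJ D.J₂ c e₂) ∈ NN H := by
  have hcc : bf D.J₂ c c = 0 := D.h₂.alt c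
  have hee : bf D.J₂ e e = 0 := D.h₂.alt e
  have hec : bf D.J₂ e c = 0 := by rw [D.h₂.swap, hperp, neg_zero]
  obtain ⟨e₂, he₂⟩ := exists_bf_eq D.h₂ ![c, e] hce ![0, 1]
  have hce₂ : bf D.J₂ c e₂ = 0 := by simpa using he₂ 0
  have hee₂ : bf D.J₂ e e₂ = 1 := by simpa using he₂ 1
  have he₂c : bf D.J₂ e₂ c = 0 := by rw [D.h₂.swap, hce₂, neg_zero]
  have he₂e : bf D.J₂ e₂ e = -1 := by rw [D.h₂.swap, hee₂]
  have he₂e₂ : bf D.J₂ e₂ e₂ = 0 := D.h₂.alt e₂
  refine ⟨e₂, ?_, hce₂, ?_⟩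
  · rw [LinearIndependent.pair_iff]
    intro s t hst
    have h1 : bf D.J₂ e (s • c + t • e₂) = 0 := by rw [hst]; simp
    simp only [bf_add_right, bf_smul_right, hec, hee₂, mul_zero, mul_one, zero_add] at h1
    subst h1
    simp only [zero_smul, add_zero] at hst
    have hc : c ≠ 0 := by
      have := hce.ne_zero 0
      simpa using this
    exact ⟨by simpa [hc] using hst, rfl⟩
  · obtain ⟨g, hg, hg1, hg2⟩ := tv_iso D.h₂ e₂ 1
    have h1 := NN_conj2 D hn hMH g hg h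
    have hgc : (g : Mb) *ᵥ c = c := by
      rw [hg1, Matrix.add_mulVec, Matrix.one_mulVec, Matrix.smul_mulVec, NJ_mulVec, hce₂]
      simp
    have hge : (g : Mb) *ᵥ e = e + e₂ := by
      rw [hg1, Matrix.add_mulVec, Matrix.one_mulVec, Matrix.smul_mulVec, NJ_mulVec, hee₂]
      simp
    simp only [mul_add, add_mul, mul_sub, sub_mul, ← Matrix.mul_kronecker_mul, one_mul, mul_one,
      NJ_conj hg, hgc, hge] at h1
    have hsub := NN_sub h1 h
      (by
        simp only [mul_add, add_mul, mul_sub, sub_mul, ← Matrix.mul_kronecker_mul,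
          NJ_mul, hcc, hee, hec, hperp, hce₂, he₂c, bf_add_left, bf_add_right, hδ,
          zero_smul, Matrix.kronecker_zero, Matrix.zero_kronecker, add_zero, sub_zero])
      (by
        simp only [mul_add, add_mul, mul_sub, sub_mul, ← Matrix.mul_kronecker_mul,
          NJ_mul, hcc, hee, hec, hperp, hce₂, he₂c, bf_add_left, bf_add_right, hδ,
          zero_smul, Matrix.kronecker_zero, Matrix.zero_kronecker, add_zero, sub_zero])
    convert hsub using 1
    rw [NJ_add_left, NJ_add_right]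
    ext ⟨i, j⟩ ⟨i', j'⟩
    simp only [Matrix.kroneckerMap_apply, Matrix.add_apply, Matrix.sub_apply]
    ring

end Cfsg.Agent.Lib.H49SKillZ
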