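import Cfsg.Agent.Lib.Helper49SDefs
import Cfsg.Agent.Lib.H49SConjDiff
import Cfsg.Agent.Lib.H49SKillZ
import Cfsg.Agent.Lib.H49SIsoForm
import Cfsg.Agent.Lib.H49SWitt2
import Cfsg.Agent.Lib.H49SConj
import Cfsg.Agent.Lib.H49SComm

/-!
# PROJECT 50 (S5704), piece `Branch2`
-/

set_option autoImplicit false
set_option linter.unusedSectionVars false
set_option linter.unusedVariables false

namespace Cfsg.Agent.Lib.H49SBranch2

open scoped Matrix Kronecker
open Matrix Cfsg.Agent.Lib.Helper49TDefs Cfsg.Agent.Lib.Helper49SDefs Cfsg.Agent.Lib.Helper49Eich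
open Cfsg.Agent.Lib.H49SConjDiff
open Cfsg.Agent.Lib.H49SKillZ
open Cfsg.Agent.Lib.H49SIsoForm
open Cfsg.Agent.Lib.H49SWitt2
open Cfsg.Agent.Lib.H49SConj
open Cfsg.Agent.Lib.H49SComm

variable {F : Type*} [Field F] {a b n : ℕ}

local notation "GLn" => Matrix.GeneralLinearGroup (Fin a × Fin b) F
local notation "Mn" => Matrix (Fin a × Fin b) (Fin a × Fin b) F
local notation "Ma" => Matrix (Fin a) (Fin a) F
local notation "Mb" => Matrix (Fin b) (Fin b) F
local notation "GLa" => Matrix.GeneralLinearGroup (Fin a) F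
local notation "GLb" => Matrix.GeneralLinearGroup (Fin b) F
local notation "𝐏" => QuadraticMap.polar

private theorem expand_conj (T β : Ma) (l : F) :
    (1 + l • T) * β * (1 - l • T) - β = l • (T * β - β * T) - (l * l) • (T * β * T) := by
  rw [add_mul, add_mul, mul_sub, mul_sub]
  simp only [one_mul, mul_one, smul_mul_assoc, mul_smul_comm, smul_smul]
  module

private theorem diff_conj (T β : Ma) (l φ : F) (h : T * β * T = φ • T) :
    ((1 + l • T) * β * (1 - l • T) - β) - l • ((1 + (1 : F) • T) * β * (1 - (1 : F) • T) - β)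
      = ((l - l * l) * φ) • T := by
  rw [expand_conj, expand_conj, h]
  module

theorem branch2 [Fintype F] (D : SpDat F a b) (hn : 5 ≤ a * b) (hq : 3 ≤ Fintype.card F)
    (H : Subgroup GLn) (hMH : KS a b F ⊓ OG D ≤ H) (hH : H ≤ OG D) {c e : Fin b → F}
    (hce : LinearIndependent F ![c, e]) (hperp : bf D.J₂ c e = 0) (β β' ζ : Ma)
    (h : β ⊗ₖ NJ D.J₂ e c + β' ⊗ₖ NJ D.J₂ c e + ζ ⊗ₖ NJ D.J₂ c c ∈ NN H) (u : Fin a → F)
    (hu : bf D.J₁ (β *ᵥ u) u ≠ 0) : HasB D H := by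
  classical
  have hu0 : u ≠ 0 := by
    rintro rfl
    simp at hu
  obtain ⟨l, hl0, hl1⟩ : ∃ l : F, l ≠ 0 ∧ l ≠ 1 := by
    by_contra hcon
    push Not at hcon
    have hsub : (Finset.univ : Finset F) ⊆ {0, 1} := by
      intro x _
      by_cases hx : x = 0
      · simp [hx]
      · simp [hcon x hx]
    have := Finset.card_le_card hsub
    rw [Finset.card_univ] at this
    have h2 : ({0, 1} : Finset F).card ≤ 2 := Finset.card_le_two
    omega
  have hc0 : c ≠ 0 := by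
    have := hce.ne_zero 0
    simpa using this
  have hcc : bf D.J₂ c c = 0 := D.h₂.alt c
  have hee : bf D.J₂ e e = 0 := D.h₂.alt e
  have hec : bf D.J₂ e c = 0 := by rw [D.h₂.swap, hperp, neg_zero]
  set T : Ma := NJ D.J₁ u u with hT
  set φ : F := bf D.J₁ (β *ᵥ u) u with hφ
  have hform := iso_form D hce hperp β β' ζ (NN_mono hH h)
  have hTβT : T * β * T = φ • T := by
    rw [hT, mul_assoc, mul_NJ, NJ_mul]
  have hTβ'T : T * β' * T = (-φ) • T := by
    rw [hT, mul_assoc, mul_NJ, NJ_mul]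
    congr 1
    rw [D.h₁.swap, ← hform]
  have hTT : T * T = 0 := by rw [hT, NJ_mul, D.h₁.alt, zero_smul]
  -- the isometry `c ↦ l c`, `e ↦ e`
  have hind : LinearIndependent F ![l • c, e] := by
    rw [LinearIndependent.pair_iff] at hce ⊢
    intro s t hst
    rw [smul_smul] at hst
    obtain ⟨h1, h2⟩ := hce _ _ hst
    exact ⟨(mul_eq_zero.mp h1).resolve_right hl0, h2⟩
  obtain ⟨g₂, hg₂, hg₂c, hg₂e⟩ := exists_iso_pair D.h₂ hce hind
    (by rw [bf_smul_left, hperp, mul_zero])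
  have hAl := conj_diff D hn H hMH hperp β β' ζ h u l
  have hA1 := NN_conj2 D hn hMH g₂ hg₂ (conj_diff D hn H hMH hperp β β' ζ h u 1)
  rw [← hT] at hAl hA1
  have hP := diff_conj T β l φ hTβT
  have hR := diff_conj T β' l (-φ) hTβ'T
  generalize (1 + l • T) * β * (1 - l • T) - β = P at hAl hP
  generalize (1 + l • T) * β' * (1 - l • T) - β' = R at hAl hR
  generalize (1 + l • T) * ζ * (1 - l • T) - ζ = Z at hAl
  generalize (1 + (1 : F) • T) * β * (1 - (1 : F) • T) - β = P₁ at hA1 hP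
  generalize (1 + (1 : F) • T) * β' * (1 - (1 : F) • T) - β' = R₁ at hA1 hR
  generalize (1 + (1 : F) • T) * ζ * (1 - (1 : F) • T) - ζ = Z₁ at hA1
  have hA1' : ((1 : Ma) ⊗ₖ (g₂ : Mb)) *
      (P₁ ⊗ₖ NJ D.J₂ e c + R₁ ⊗ₖ NJ D.J₂ c e + Z₁ ⊗ₖ NJ D.J₂ c c) *
      ((1 : Ma) ⊗ₖ ((g₂⁻¹ : GLb) : Mb))
      = P₁ ⊗ₖ (l • NJ D.J₂ e c) + R₁ ⊗ₖ (l • NJ D.J₂ c e) + Z₁ ⊗ₖ ((l * l) • NJ D.J₂ c c) := by
    simp only [mul_add, add_mul, ← Matrix.mul_kronecker_mul, one_mul, mul_one, NJ_conj hg₂, hg₂c,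
      hg₂e, NJ_smul_left, NJ_smul_right, smul_smul]
  rw [hA1'] at hA1
  have hsub := NN_sub hAl hA1
    (by
      simp only [mul_add, add_mul, ← Matrix.mul_kronecker_mul, Matrix.mul_smul, Matrix.smul_mul,
        NJ_mul, hcc, hee, hec, hperp, zero_smul, smul_zero, Matrix.kronecker_zero, add_zero])
    (by
      simp only [mul_add, add_mul, ← Matrix.mul_kronecker_mul, Matrix.mul_smul, Matrix.smul_mul,
        NJ_mul, hcc, hee, hec, hperp, zero_smul, smul_zero, Matrix.kronecker_zero, add_zero])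
  set κ : F := (l - l * l) * φ with hκ
  have hκ0 : κ ≠ 0 := by
    rw [hκ]
    refine mul_ne_zero ?_ hu
    have : l - l * l = l * (1 - l) := by ring
    rw [this]
    exact mul_ne_zero hl0 (sub_ne_zero.mpr (Ne.symm hl1))
  have e3 : (P ⊗ₖ NJ D.J₂ e c + R ⊗ₖ NJ D.J₂ c e + Z ⊗ₖ NJ D.J₂ c c)
      - (P₁ ⊗ₖ (l • NJ D.J₂ e c) + R₁ ⊗ₖ (l • NJ D.J₂ c e) + Z₁ ⊗ₖ ((l * l) • NJ D.J₂ c c))
      = (κ • T) ⊗ₖ (NJ D.J₂ e c - NJ D.J₂ c e) + (Z - (l * l) • Z₁) ⊗ₖ NJ D.J₂ c c := by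
    ext ⟨i, j⟩ ⟨i', j'⟩
    have h1 := congrFun (congrFun hP i) i'
    have h2 := congrFun (congrFun hR i) i'
    simp only [Matrix.kroneckerMap_apply, Matrix.add_apply, Matrix.sub_apply, Matrix.smul_apply,
      smul_eq_mul] at h1 h2 ⊢
    linear_combination (NJ D.J₂ e c j j') * h1 + (NJ D.J₂ c e j j') * h2
  rw [e3] at hsub
  obtain ⟨e₂, hce₂, hperp₂, hfin⟩ := kill_zeta D hn H hMH hce hperp (κ • T) _
    (by rw [Matrix.smul_mul, Matrix.mul_smul, hTT, smul_zero, smul_zero]) hsub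
  exact ⟨u, c, e₂, κ, hu0, hce₂, hperp₂, hκ0, hfin⟩

end Cfsg.Agent.Lib.H49SBranch2
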