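import Cfsg.Agent.Lib.Helper49SDefs
import Cfsg.Agent.Lib.H49SDual

/-!
# PROJECT 50 (S5704), piece `HypPerp`
-/

set_option autoImplicit false
set_option linter.unusedSectionVars false
set_option linter.unusedVariables false

namespace Cfsg.Agent.Lib.H49SHypPerp

open scoped Matrix Kronecker
open Matrix Cfsg.Agent.Lib.Helper49TDefs Cfsg.Agent.Lib.Helper49SDefs Cfsg.Agent.Lib.Helper49Eich
open Cfsg.Agent.Lib.H49SDual

variable {F : Type*} [Field F] {a b n : ℕ}

local notation "GLn" => Matrix.GeneralLinearGroup (Fin a × Fin b) F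
local notation "Mn" => Matrix (Fin a × Fin b) (Fin a × Fin b) F
local notation "Ma" => Matrix (Fin a) (Fin a) F
local notation "Mb" => Matrix (Fin b) (Fin b) F
local notation "GLa" => Matrix.GeneralLinearGroup (Fin a) F
local notation "GLb" => Matrix.GeneralLinearGroup (Fin b) F
local notation "𝐏" => QuadraticMap.polar

theorem exists_perp_notin {J : Matrix (Fin n) (Fin n) F} (hJ : IsSympMat J) (hn5 : 5 ≤ n)
    (c c' : Fin n → F) :
    ∃ z, bf J z c = 0 ∧ bf J z c' = 0 ∧ z ∉ Submodule.span F {c, c'} := by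
  classical
  let L : (Fin n → F) →ₗ[F] (Fin 2 → F) :=
    { toFun := fun z => ![bf J z c, bf J z c']
      map_add' := by
        intro z z'
        ext i
        fin_cases i <;> simp
      map_smul' := by
        intro k z
        ext i
        fin_cases i <;> simp }
  have h1 := LinearMap.finrank_range_add_finrank_ker L
  have h2 : Module.finrank F (LinearMap.range L) ≤ 2 :=
    (Submodule.finrank_le _).trans (by simp)
  have h3 : Module.finrank F (Fin n → F) = n := by simp
  have h4 : 3 ≤ Module.finrank F (LinearMap.ker L) := by omega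
  have h5 : Module.finrank F (Submodule.span F ({c, c'} : Set (Fin n → F))) ≤ 2 := by
    have := finrank_span_finset_le_card (R := F) ({c, c'} : Finset (Fin n → F))
    have h6 : ({c, c'} : Finset (Fin n → F)).card ≤ 2 := Finset.card_le_two
    have h7 : ((({c, c'} : Finset (Fin n → F)) : Set (Fin n → F))) = {c, c'} := by simp
    rw [h7] at this
    exact this.trans h6
  by_contra hcon
  push Not at hcon
  have hle : LinearMap.ker L ≤ Submodule.span F ({c, c'} : Set (Fin n → F)) := by
    intro z hz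
    have hz' : ![bf J z c, bf J z c'] = 0 := hz
    exact hcon z (by simpa using congrFun hz' 0) (by simpa using congrFun hz' 1)
  have := Submodule.finrank_mono hle
  omega

theorem exists_hyp_perp {J : Matrix (Fin n) (Fin n) F} (hJ : IsSympMat J) (hn5 : 5 ≤ n)
    (c c' : Fin n → F) :
    ∃ c₂ c₃, bf J c₂ c = 0 ∧ bf J c₂ c' = 0 ∧ bf J c₃ c = 0 ∧ bf J c₃ c' = 0 ∧ bf J c₂ c₃ = 1 := by
  obtain ⟨z, hz1, hz2, hz3⟩ := exists_perp_notin hJ hn5 c c'
  obtain ⟨f, hf, hle⟩ := Submodule.exists_le_ker_of_notMem hz3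
  obtain ⟨w, hw⟩ := exists_repr_lin hJ f
  have hzw : bf J z w ≠ 0 := by rw [hw]; exact hf
  have hcw : bf J c w = 0 := by
    rw [hw]
    exact hle (Submodule.subset_span (by simp))
  have hcw' : bf J c' w = 0 := by
    rw [hw]
    exact hle (Submodule.subset_span (by simp))
  refine ⟨z, (bf J z w)⁻¹ • w, hz1, hz2, ?_, ?_, ?_⟩
  · rw [bf_smul_left, hJ.swap w c, hcw]; simp
  · rw [bf_smul_left, hJ.swap w c', hcw']; simp
  · rw [bf_smul_right, inv_mul_cancel₀ hzw]

end Cfsg.Agent.Lib.H49SHypPerp
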