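import Cfsg.Agent.Lib.Helper49SDefs
import Cfsg.Agent.Lib.H49SEHbasic
import Cfsg.Agent.Lib.H49SEHcomm
import Cfsg.Agent.Lib.H49SHypPerp

/-!
# PROJECT 50 (S5704), piece `C01`
-/

set_option autoImplicit false
set_option linter.unusedSectionVars false
set_option linter.unusedVariables false

namespace Cfsg.Agent.Lib.H49SC01

open scoped Matrix Kronecker
open Matrix Cfsg.Agent.Lib.Helper49TDefs Cfsg.Agent.Lib.Helper49SDefs Cfsg.Agent.Lib.Helper49Eich
open Cfsg.Agent.Lib.H49SEHbasic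
open Cfsg.Agent.Lib.H49SEHcomm
open Cfsg.Agent.Lib.H49SHypPerp

variable {F : Type*} [Field F] {a b n : ℕ}

local notation "GLn" => Matrix.GeneralLinearGroup (Fin a × Fin b) F
local notation "Mn" => Matrix (Fin a × Fin b) (Fin a × Fin b) F
local notation "Ma" => Matrix (Fin a) (Fin a) F
local notation "Mb" => Matrix (Fin b) (Fin b) F
local notation "GLa" => Matrix.GeneralLinearGroup (Fin a) F
local notation "GLb" => Matrix.GeneralLinearGroup (Fin b) F
local notation "𝐏" => QuadraticMap.polar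

theorem C01_of_C10 (D : SpDat F a b) (ha : 0 < a) (hb : 5 ≤ b) (H : Subgroup GLn)
    (hC : ∀ (u u' : Fin a → F) (c c' : Fin b → F), bf D.J₂ c c' = 0 →
      EH D H (tens u c) (tens u' c')) :
    ∀ (u u' : Fin a → F) (c c' : Fin b → F), bf D.J₁ u u' = 0 →
      EH D H (tens u c) (tens u' c') := by
  intro u u' c c' huu
  obtain ⟨c₂, c₃, h2c, h2c', h3c, h3c', h23⟩ := exists_hyp_perp D.h₂ hb c c'
  have hc2 : bf D.J₂ c c₂ = 0 := by rw [D.h₂.swap, h2c, neg_zero]
  have hc3 : bf D.J₂ c c₃ = 0 := by rw [D.h₂.swap, h3c, neg_zero]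
  have hne : (Pi.single (⟨0, ha⟩ : Fin a) (1 : F) : Fin a → F) ≠ 0 := by
    intro h
    have := congrFun h ⟨0, ha⟩
    simp at this
  obtain ⟨u₂, hu₂⟩ := D.h₁.exists_ne_zero hne
  set u₃ : Fin a → F := Pi.single (⟨0, ha⟩ : Fin a) (1 : F) with hu₃
  have key := EH_comm D (H := H) (y₁ := tens u c) (y₂ := tens u₂ c₂) (y₃ := tens u₃ c₃)
    (y₄ := tens u' c') (D.Qpure _ _) (D.Qpure _ _) (D.Qpure _ _) (D.Qpure _ _)
    (by rw [SpDat.polar_tens, hc2, mul_zero])
    (by rw [SpDat.polar_tens, h3c', mul_zero])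
    (by rw [SpDat.polar_tens, hc3, mul_zero])
    (by rw [SpDat.polar_tens, huu, zero_mul])
    (by rw [SpDat.polar_tens, h2c', mul_zero])
    (hC u u₂ c c₂ hc2) (hC u₃ u' c₃ c' h3c')
  have h1 : 𝐏 D.Q (tens u₂ c₂) (tens u₃ c₃) = 1 := by
    rw [SpDat.polar_tens, hu₂, h23, mul_one]
  rw [h1, one_smul] at key
  exact key

end Cfsg.Agent.Lib.H49SC01
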