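import Cfsg.Agent.Lib.Helper49SDefs
import Cfsg.Agent.Lib.H49SEHbasic
import Cfsg.Agent.Lib.H49SEHcomm
import Cfsg.Agent.Lib.H49SHypPerp

/-!
# PROJECT 50 (S5704), piece `C10`
-/

set_option autoImplicit false
set_option linter.unusedSectionVars false
set_option linter.unusedVariables false

namespace Cfsg.Agent.Lib.H49SC10

open scoped Matrix Kronecker
open Matrix Cfsg.Agent.Lib.Helper49TDefs Cfsg.Agent.Lib.Helper49SDefs Cfsg.Agent.Lib.Helper49Eich
open Cfsg.Agent.Lib.H49SEHbasic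
open Cfsg.Agent.Lib.H49SEHcomm
open Cfsg.Agent.Lib.H49SHypPerp

variable {F : Type*} [Field F] {a b n : ℕ}

local notation "GLn" => Matrix.GeneralLinearGroup (Fin a × Fin b) F
local notation "Mn" => Matrix (Fin a × Fin b) (Fin a × Fin b) F
local notation "Ma" => Matrix (Fin a) (Fin a) F
local notation "Mb" => Matrix (Fin b) (Fin b) F
local notation "GLa" => Matrix.GeneralLinearGroup (Fin a) F
local notation "GLb" => Matrix.GeneralLinearGroup (Fin b) F
local notation "𝐏" => QuadraticMap.polar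

private theorem C10_ne (D : SpDat F a b) (hb : 5 ≤ b) (H : Subgroup GLn)
    (hB : ∀ (u : Fin a → F) (c c' : Fin b → F), bf D.J₂ c c' = 0 →
      EH D H (tens u c) (tens u c'))
    (u u' : Fin a → F) (c c' : Fin b → F) (hcc : bf D.J₂ c c' = 0) (huu : bf D.J₁ u u' ≠ 0) :
    EH D H (tens u c) (tens u' c') := by
  obtain ⟨c₂, c₃, h2c, h2c', h3c, h3c', h23⟩ := exists_hyp_perp D.h₂ hb c c'
  set l := (bf D.J₁ u u')⁻¹ with hl
  have hc2 : bf D.J₂ c c₂ = 0 := by rw [D.h₂.swap, h2c, neg_zero]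
  have hc3 : bf D.J₂ c c₃ = 0 := by rw [D.h₂.swap, h3c, neg_zero]
  have key := EH_comm D (H := H) (y₁ := tens u c) (y₂ := tens u c₂) (y₃ := tens u' (l • c₃))
    (y₄ := tens u' c') (D.Qpure _ _) (D.Qpure _ _) (D.Qpure _ _) (D.Qpure _ _)
    (by rw [SpDat.polar_tens, D.h₁.alt, zero_mul])
    (by rw [SpDat.polar_tens, D.h₁.alt, zero_mul])
    (by rw [SpDat.polar_tens, bf_smul_right, hc3, mul_zero, mul_zero])
    (by rw [SpDat.polar_tens, hcc, mul_zero])
    (by rw [SpDat.polar_tens, h2c', mul_zero])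
    (hB u c c₂ hc2)
    (hB u' (l • c₃) c' (by rw [bf_smul_left, h3c', mul_zero]))
  have h1 : 𝐏 D.Q (tens u c₂) (tens u' (l • c₃)) = 1 := by
    rw [SpDat.polar_tens, bf_smul_right, h23, mul_one, hl, mul_inv_cancel₀ huu]
  rw [h1, one_smul] at key
  exact key

theorem C10_of_B (D : SpDat F a b) (hb : 5 ≤ b) (H : Subgroup GLn)
    (hB : ∀ (u : Fin a → F) (c c' : Fin b → F), bf D.J₂ c c' = 0 →
      EH D H (tens u c) (tens u c')) :
    ∀ (u u' : Fin a → F) (c c' : Fin b → F), bf D.J₂ c c' = 0 →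
      EH D H (tens u c) (tens u' c') := by
  intro u u' c c' hcc
  by_cases huu : bf D.J₁ u u' = 0
  · by_cases hu : u = 0
    · rw [hu, tens_zero_left']
      exact EH_zero_left D H _
    obtain ⟨us, hus⟩ := D.h₁.exists_ne_zero hu
    have hus' : bf D.J₁ u us = -1 := by rw [D.h₁.swap, hus]
    have e1 : tens u' c' = tens (u' - us) c' + tens us c' := by
      rw [← tens_add_left, sub_add_cancel]
    rw [e1]
    apply EH_add D (D.Qpure _ _)
    · rw [SpDat.polar_tens, hcc, mul_zero]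
    · rw [SpDat.polar_tens, hcc, mul_zero]
    · apply C10_ne D hb H hB _ _ _ _ hcc
      rw [bf_sub_right, huu, hus']
      norm_num
    · apply C10_ne D hb H hB _ _ _ _ hcc
      rw [hus']
      norm_num
  · exact C10_ne D hb H hB u u' c c' hcc huu

end Cfsg.Agent.Lib.H49SC10
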