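import Cfsg.Agent.Lib.Helper49SDefs
import Cfsg.Agent.Lib.H49SEHbasic

/-!
# PROJECT 50 (S5704), piece `Epure`
-/

set_option autoImplicit false
set_option linter.unusedSectionVars false
set_option linter.unusedVariables false

namespace Cfsg.Agent.Lib.H49SEpure

open scoped Matrix Kronecker
open Matrix Cfsg.Agent.Lib.Helper49TDefs Cfsg.Agent.Lib.Helper49SDefs Cfsg.Agent.Lib.Helper49Eich
open Cfsg.Agent.Lib.H49SEHbasic

variable {F : Type*} [Field F] {a b n : ℕ}

local notation "GLn" => Matrix.GeneralLinearGroup (Fin a × Fin b) F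
local notation "Mn" => Matrix (Fin a × Fin b) (Fin a × Fin b) F
local notation "Ma" => Matrix (Fin a) (Fin a) F
local notation "Mb" => Matrix (Fin b) (Fin b) F
local notation "GLa" => Matrix.GeneralLinearGroup (Fin a) F
local notation "GLb" => Matrix.GeneralLinearGroup (Fin b) F
local notation "𝐏" => QuadraticMap.polar

theorem E_pure_all (D : SpDat F a b) (H : Subgroup GLn)
    (h10 : ∀ (u u' : Fin a → F) (c c' : Fin b → F), bf D.J₂ c c' = 0 →
      EH D H (tens u c) (tens u' c'))
    (h01 : ∀ (u u' : Fin a → F) (c c' : Fin b → F), bf D.J₁ u u' = 0 →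
      EH D H (tens u c) (tens u' c')) :
    ∀ (u : Fin a → F) (c : Fin b → F) (w : Fin a × Fin b → F), 𝐏 D.Q (tens u c) w = 0 →
      EH D H (tens u c) w := by
  classical
  intro u c w hw
  by_cases hu : u = 0
  · subst hu
    rw [tens_zero_left']
    exact EH_zero_left D H w
  by_cases hc : c = 0
  · subst hc
    rw [tens_zero_right']
    exact EH_zero_left D H w
  obtain ⟨u₁, hu₁⟩ := D.h₁.exists_ne_zero hu
  obtain ⟨c₁, hc₁⟩ := D.h₂.exists_ne_zero hc
  -- `f₁(u, -u₁) = 1`, `f₂(c, -c₁) = 1`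
  set u₀ : Fin a → F := -u₁ with hu₀
  set c₀ : Fin b → F := -c₁ with hc₀
  have hu₀' : bf D.J₁ u u₀ = 1 := by rw [hu₀, bf_neg_right, D.h₁.swap, hu₁, neg_neg]
  have hc₀' : bf D.J₂ c c₀ = 1 := by rw [hc₀, bf_neg_right, D.h₂.swap, hc₁, neg_neg]
  set y := tens u c with hy
  set t₀ := tens u₀ c₀ with ht₀
  have hQy : D.Q y = 0 := D.Qpure u c
  have hyt : 𝐏 D.Q y t₀ = 1 := by rw [hy, ht₀, SpDat.polar_tens, hu₀', hc₀', one_mul]
  have hperp : ∀ z, 𝐏 D.Q y (z - 𝐏 D.Q y z • t₀) = 0 := by
    intro z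
    rw [QuadraticMap.polar_sub_right, QuadraticMap.polar_smul_right, hyt, smul_eq_mul, mul_one,
      sub_self]
  have hadd : ∀ z z', EH D H y (z - 𝐏 D.Q y z • t₀) → EH D H y (z' - 𝐏 D.Q y z' • t₀) →
      EH D H y ((z + z') - 𝐏 D.Q y (z + z') • t₀) := by
    intro z z' h h'
    have := EH_add D hQy (hperp z) (hperp z') h h'
    have e : (z + z') - 𝐏 D.Q y (z + z') • t₀
        = (z - 𝐏 D.Q y z • t₀) + (z' - 𝐏 D.Q y z' • t₀) := by
      rw [QuadraticMap.polar_add_right, add_smul]
      abel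
    rw [e]
    exact this
  have hpure : ∀ (x : Fin a → F) (v : Fin b → F),
      EH D H y (tens x v - 𝐏 D.Q y (tens x v) • t₀) := by
    intro x v
    set x' := x - bf D.J₁ u x • u₀ with hx'
    set v' := v - bf D.J₂ c v • c₀ with hv'
    have h1 : bf D.J₁ u x' = 0 := by
      rw [hx', bf_sub_right, bf_smul_right, hu₀', mul_one, sub_self]
    have h2 : bf D.J₂ c v' = 0 := by
      rw [hv', bf_sub_right, bf_smul_right, hc₀', mul_one, sub_self]
    have e : tens x v - 𝐏 D.Q y (tens x v) • t₀ = tens x' v + tens (bf D.J₁ u x • u₀) v' := by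
      rw [hy, SpDat.polar_tens, ht₀, hx', hv']
      ext p
      simp only [tens, Pi.sub_apply, Pi.add_apply, Pi.smul_apply, smul_eq_mul]
      ring
    rw [e]
    refine EH_add D hQy ?_ ?_ (h01 u x' c v h1) (h10 u _ c v' h2)
    · rw [hy, SpDat.polar_tens, h1, zero_mul]
    · rw [hy, SpDat.polar_tens, h2, mul_zero]
  have hsum : ∀ s : Finset (Fin a × Fin b),
      EH D H y ((∑ p ∈ s, tens (w p • Pi.single p.1 (1 : F)) (Pi.single p.2 (1 : F)))
        - 𝐏 D.Q y (∑ p ∈ s, tens (w p • Pi.single p.1 (1 : F)) (Pi.single p.2 (1 : F))) • t₀) := by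
    intro s
    induction s using Finset.induction_on with
    | empty =>
      simp only [Finset.sum_empty, QuadraticMap.polar_zero_right, zero_smul, sub_zero]
      exact EH_zero_right D H y
    | insert p s hp ih =>
      rw [Finset.sum_insert hp]
      exact hadd _ _ (hpure _ _) ih
  have hw' : w = ∑ p : Fin a × Fin b, tens (w p • Pi.single p.1 (1 : F)) (Pi.single p.2 (1 : F)) := by
    ext q
    rw [Finset.sum_apply, Finset.sum_eq_single q]
    · simp [tens]
    · intro p _ hpq
      simp only [tens, Pi.smul_apply, smul_eq_mul]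
      by_cases h1 : p.1 = q.1
      · have h2 : p.2 ≠ q.2 := fun h2 => hpq (Prod.ext h1 h2)
        rw [Pi.single_eq_of_ne (Ne.symm h2), mul_zero]
      · rw [Pi.single_eq_of_ne (Ne.symm h1), mul_zero, zero_mul]
    · intro h
      exact absurd (Finset.mem_univ _) h
  have := hsum Finset.univ
  rw [← hw', hw, zero_smul, sub_zero] at this
  exact this

end Cfsg.Agent.Lib.H49SEpure
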