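import Cfsg.Agent.Lib.Helper49SDefs
import Cfsg.Agent.Lib.H49SConj
import Cfsg.Agent.Lib.H49SComm
import Cfsg.Agent.Lib.H49SDual
import Cfsg.Agent.Lib.H49SHypPerp
import Cfsg.Agent.Lib.H49SWitt2

/-!
# PROJECT 50 (S5704), piece `Escape`
-/

set_option autoImplicit false
set_option linter.unusedSectionVars false
set_option linter.unusedVariables false

namespace Cfsg.Agent.Lib.H49SEscape

open scoped Matrix Kronecker
open Matrix Cfsg.Agent.Lib.Helper49TDefs Cfsg.Agent.Lib.Helper49SDefs Cfsg.Agent.Lib.Helper49Eich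
open Cfsg.Agent.Lib.H49SConj
open Cfsg.Agent.Lib.H49SComm
open Cfsg.Agent.Lib.H49SDual
open Cfsg.Agent.Lib.H49SHypPerp
open Cfsg.Agent.Lib.H49SWitt2

variable {F : Type*} [Field F] {a b n : ℕ}

local notation "GLn" => Matrix.GeneralLinearGroup (Fin a × Fin b) F
local notation "Mn" => Matrix (Fin a × Fin b) (Fin a × Fin b) F
local notation "Ma" => Matrix (Fin a) (Fin a) F
local notation "Mb" => Matrix (Fin b) (Fin b) F
local notation "GLa" => Matrix.GeneralLinearGroup (Fin a) F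
local notation "GLb" => Matrix.GeneralLinearGroup (Fin b) F
local notation "𝐏" => QuadraticMap.polar

theorem escape [Fintype F] (D : SpDat F a b) (hn : 5 ≤ a * b) (hb : 5 ≤ b) (H : Subgroup GLn)
    (hMH : KS a b F ⊓ OG D ≤ H) {u v : Fin a → F} {c e : Fin b → F}
    (huv : LinearIndependent F ![u, v]) (h1 : bf D.J₁ u v = 0)
    (hce : LinearIndependent F ![c, e]) (h2 : bf D.J₂ c e = 0) (k : F) (hk : k ≠ 0)
    (h : (k • (NJ D.J₁ u v + NJ D.J₁ v u)) ⊗ₖ (NJ D.J₂ e c - NJ D.J₂ c e) ∈ NN H) :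
    HasB D H := by
  have hu0 : u ≠ 0 := by
    have := huv.ne_zero 0
    simpa using this
  have hc0 : c ≠ 0 := by
    have := hce.ne_zero 0
    simpa using this
  -- the vectors
  obtain ⟨u', hu'⟩ := exists_bf_eq D.h₁ ![u, v] huv ![0, -1]
  have hu'u : bf D.J₁ u u' = 0 := by simpa using hu' 0
  have hvu' : bf D.J₁ v u' = -1 := by simpa using hu' 1
  have hu'u2 : bf D.J₁ u' u = 0 := by rw [D.h₁.swap, hu'u, neg_zero]
  have hu'v : bf D.J₁ u' v = 1 := by rw [D.h₁.swap, hvu', neg_neg]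
  have hvu : bf D.J₁ v u = 0 := by rw [D.h₁.swap, h1, neg_zero]
  have huu : bf D.J₁ u u = 0 := D.h₁.alt u
  obtain ⟨e', he'c, he'e, he'n⟩ := exists_perp_notin D.h₂ hb c e
  have hind3 : LinearIndependent F ![e', c, e] := by
    rw [show (![e', c, e] : Fin 3 → Fin b → F) = Fin.cons e' ![c, e] from rfl,
      linearIndependent_finCons]
    refine ⟨hce, ?_⟩
    have : Set.range ![c, e] = {c, e} := by
      simp [Matrix.range_cons, Matrix.range_empty, Set.pair_comm]
    rw [this]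
    exact he'n
  obtain ⟨c', hc'⟩ := exists_bf_eq D.h₂ ![e', c, e] hind3 ![0, 0, -1]
  have he'c' : bf D.J₂ e' c' = 0 := by simpa using hc' 0
  have hcc' : bf D.J₂ c c' = 0 := by simpa using hc' 1
  have hec' : bf D.J₂ e c' = -1 := by simpa using hc' 2
  have hc'e' : bf D.J₂ c' e' = 0 := by rw [D.h₂.swap, he'c', neg_zero]
  have hc'c : bf D.J₂ c' c = 0 := by rw [D.h₂.swap, hcc', neg_zero]
  have hc'e : bf D.J₂ c' e = 1 := by rw [D.h₂.swap, hec', neg_neg]
  have hce' : bf D.J₂ c e' = 0 := by rw [D.h₂.swap, he'c, neg_zero]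
  have hee' : bf D.J₂ e e' = 0 := by rw [D.h₂.swap, he'e, neg_zero]
  have hec : bf D.J₂ e c = 0 := by rw [D.h₂.swap, h2, neg_zero]
  have he'0 : e' ≠ 0 := by
    rintro rfl
    exact he'n (Submodule.zero_mem _)
  have hind1 : LinearIndependent F ![u', u] := by
    rw [LinearIndependent.pair_iff]
    intro s t hst
    have h3 := congrArg (fun z => bf D.J₁ z v) hst
    simp only [bf_add_left, bf_smul_left, hu'v, h1, mul_one, mul_zero, add_zero,
      bf_zero_left] at h3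
    subst h3
    rw [zero_smul, zero_add] at hst
    exact ⟨rfl, (smul_eq_zero.mp hst).resolve_right hu0⟩
  have hind2 : LinearIndependent F ![c', e'] := by
    rw [LinearIndependent.pair_iff]
    intro s t hst
    have h3 := congrArg (fun z => bf D.J₂ z e) hst
    simp only [bf_add_left, bf_smul_left, hc'e, he'e, mul_one, mul_zero, add_zero,
      bf_zero_left] at h3
    subst h3
    rw [zero_smul, zero_add] at hst
    exact ⟨rfl, (smul_eq_zero.mp hst).resolve_right he'0⟩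
  have hind4 : LinearIndependent F ![c, e'] := by
    rw [LinearIndependent.pair_iff]
    intro s t hst
    by_cases ht : t = 0
    · subst ht
      rw [zero_smul, add_zero] at hst
      exact ⟨(smul_eq_zero.mp hst).resolve_right hc0, rfl⟩
    · exfalso
      apply he'n
      have : e' = (-(t⁻¹ * s)) • c := by
        have h4 : t • e' = -(s • c) := eq_neg_of_add_eq_zero_right hst
        calc e' = t⁻¹ • (t • e') := by rw [smul_smul, inv_mul_cancel₀ ht, one_smul]
          _ = (-(t⁻¹ * s)) • c := by rw [h4, smul_neg, smul_smul, neg_smul]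
      rw [this]
      exact Submodule.smul_mem _ _ (Submodule.subset_span (by simp))
  obtain ⟨g₁, hg₁, hg₁u, hg₁v⟩ := exists_iso_pair D.h₁ huv hind1 (by rw [h1, hu'u2])
  obtain ⟨g₂, hg₂, hg₂c, hg₂e⟩ := exists_iso_pair D.h₂ hce hind2 (by rw [h2, hc'e'])
  -- the conjugate element
  have hX' : (k • (NJ D.J₁ u' u + NJ D.J₁ u u')) ⊗ₖ (NJ D.J₂ e' c' - NJ D.J₂ c' e') ∈ NN H := by
    have h3 := NN_conj2 D hn hMH g₂ hg₂ (NN_conj1 D hn hMH g₁ hg₁ h)
    have e1 : (g₁ : Ma) * (k • (NJ D.J₁ u v + NJ D.J₁ v u)) * ((g₁⁻¹ : GLa) : Ma)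
        = k • (NJ D.J₁ u' u + NJ D.J₁ u u') := by
      rw [Matrix.mul_smul, Matrix.smul_mul, mul_add, add_mul, NJ_conj hg₁, NJ_conj hg₁, hg₁u, hg₁v]
    have e2 : (g₂ : Mb) * (NJ D.J₂ e c - NJ D.J₂ c e) * ((g₂⁻¹ : GLb) : Mb)
        = NJ D.J₂ e' c' - NJ D.J₂ c' e' := by
      rw [mul_sub, sub_mul, NJ_conj hg₂, NJ_conj hg₂, hg₂c, hg₂e]
    rw [← Matrix.mul_kronecker_mul, ← Matrix.mul_kronecker_mul, ← Matrix.mul_kronecker_mul,
      ← Matrix.mul_kronecker_mul, e1, one_mul, mul_one, one_mul, mul_one, e2] at h3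
    exact h3
  have hAA' : (k • (NJ D.J₁ u v + NJ D.J₁ v u)) * (k • (NJ D.J₁ u' u + NJ D.J₁ u u'))
      = (k * k) • NJ D.J₁ u u := by
    rw [Matrix.smul_mul, Matrix.mul_smul, smul_smul]
    congr 1
    simp only [add_mul, mul_add, NJ_mul, hu'v, h1, hu'u2, huu, one_smul, zero_smul, add_zero]
  have hA'A : (k • (NJ D.J₁ u' u + NJ D.J₁ u u')) * (k • (NJ D.J₁ u v + NJ D.J₁ v u))
      = (-(k * k)) • NJ D.J₁ u u := by
    rw [Matrix.smul_mul, Matrix.mul_smul, smul_smul, neg_smul, ← smul_neg]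
    congr 1
    simp only [add_mul, mul_add, NJ_mul, huu, hvu, hu'u, hvu', zero_smul, add_zero, zero_add,
      neg_smul, one_smul]
  have hSS' : (NJ D.J₂ e c - NJ D.J₂ c e) * (NJ D.J₂ e' c' - NJ D.J₂ c' e') = NJ D.J₂ c e' := by
    simp only [sub_mul, mul_sub, NJ_mul, he'c, hc'c, he'e, hc'e, zero_smul, one_smul, sub_zero,
      zero_sub, neg_neg, sub_neg_eq_add, zero_add]
  have hS'S : (NJ D.J₂ e' c' - NJ D.J₂ c' e') * (NJ D.J₂ e c - NJ D.J₂ c e) = - NJ D.J₂ e' c := by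
    simp only [sub_mul, mul_sub, NJ_mul, hec', hcc', hee', hce', zero_smul, neg_smul, one_smul,
      sub_zero]
  have hTA : NJ D.J₁ u u * (k • (NJ D.J₁ u v + NJ D.J₁ v u)) = 0 := by
    rw [Matrix.mul_smul]
    simp only [mul_add, NJ_mul, huu, hvu, zero_smul, add_zero, smul_zero]
  have hTA' : NJ D.J₁ u u * (k • (NJ D.J₁ u' u + NJ D.J₁ u u')) = 0 := by
    rw [Matrix.mul_smul]
    simp only [mul_add, NJ_mul, huu, hu'u2, zero_smul, add_zero, smul_zero]
  have hcomm := NN_comm h hX'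
    (by
      rw [← Matrix.mul_kronecker_mul, ← Matrix.mul_kronecker_mul, hAA', Matrix.smul_mul, hTA,
        smul_zero, Matrix.zero_kronecker])
    (by
      rw [← Matrix.mul_kronecker_mul, ← Matrix.mul_kronecker_mul, hA'A, Matrix.smul_mul, hTA',
        smul_zero, Matrix.zero_kronecker])
  rw [← Matrix.mul_kronecker_mul, ← Matrix.mul_kronecker_mul, hAA', hA'A, hSS', hS'S] at hcomm
  refine ⟨u, c, e', -(k * k), hu0, hind4, hce', neg_ne_zero.mpr (mul_ne_zero hk hk), ?_⟩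
  have e3 : ((k * k) • NJ D.J₁ u u) ⊗ₖ NJ D.J₂ c e' - ((-(k * k)) • NJ D.J₁ u u) ⊗ₖ (-NJ D.J₂ e' c)
      = ((-(k * k)) • NJ D.J₁ u u) ⊗ₖ (NJ D.J₂ e' c - NJ D.J₂ c e') := by
    ext ⟨i, j⟩ ⟨i', j'⟩
    simp only [Matrix.kroneckerMap_apply, Matrix.sub_apply, Matrix.smul_apply, Matrix.neg_apply,
      smul_eq_mul]
    ring
  rw [e3] at hcomm
  exact hcomm

end Cfsg.Agent.Lib.H49SEscape
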