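import Cfsg.Agent.Lib.Helper49SDefs

/-!
# PROJECT 50 (S5704), piece `Geo`
-/

set_option autoImplicit false
set_option linter.unusedSectionVars false
set_option linter.unusedVariables false

namespace Cfsg.Agent.Lib.H49SGeo

open scoped Matrix Kronecker
open Matrix Cfsg.Agent.Lib.Helper49TDefs Cfsg.Agent.Lib.Helper49SDefs Cfsg.Agent.Lib.Helper49Eich

variable {F : Type*} [Field F] {a b n : ℕ}

local notation "GLn" => Matrix.GeneralLinearGroup (Fin a × Fin b) F
local notation "Mn" => Matrix (Fin a × Fin b) (Fin a × Fin b) F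
local notation "Ma" => Matrix (Fin a) (Fin a) F
local notation "Mb" => Matrix (Fin b) (Fin b) F
local notation "GLa" => Matrix.GeneralLinearGroup (Fin a) F
local notation "GLb" => Matrix.GeneralLinearGroup (Fin b) F
local notation "𝐏" => QuadraticMap.polar

/-- `(V₁ ⊗ c^⊥)^⊥ = V₁ ⊗ c`, in terms of contractions -/
theorem exists_tens_of_ctr (D : SpDat F a b) {c : Fin b → F} (hc : c ≠ 0) (w : Fin a × Fin b → F)
    (h : ∀ e, bf D.J₂ e c = 0 → ctr (D.J₂ *ᵥ e) w = 0) : ∃ u, w = tens u c := by
  obtain ⟨d, hd⟩ := D.h₂.exists_ne_zero hc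
  have hcd : bf D.J₂ c d = -1 := by rw [D.h₂.swap, hd]
  have hrow : ∀ (s : Fin a) (e : Fin b → F), bf D.J₂ (fun j => w (s, j)) e
      = ctr (D.J₂ *ᵥ e) w s := fun s e => rfl
  refine ⟨fun s => - bf D.J₂ (fun j => w (s, j)) d, ?_⟩
  have key : ∀ s : Fin a, (fun j => w (s, j)) - (- bf D.J₂ (fun j => w (s, j)) d) • c = 0 := by
    intro s
    apply D.h₂.eq_zero_of_left
    intro v
    have he : bf D.J₂ (v - bf D.J₂ v c • d) c = 0 := by
      rw [bf_sub_left, bf_smul_left, hd, mul_one, sub_self]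
    have h1 : bf D.J₂ (fun j => w (s, j)) (v - bf D.J₂ v c • d) = 0 := by
      rw [hrow, h _ he]; rfl
    have h2 : bf D.J₂ c v = - bf D.J₂ v c := D.h₂.swap c v
    rw [bf_sub_right, bf_smul_right] at h1
    rw [bf_sub_left, bf_smul_left, h2]
    linear_combination h1
  ext ⟨s, j⟩
  have := congrFun (key s) j
  simp only [Pi.sub_apply, Pi.smul_apply, smul_eq_mul, Pi.zero_apply] at this
  simp only [tens]
  linear_combination this

theorem tens_ne_zero {x : Fin a → F} {c : Fin b → F} (hx : x ≠ 0) (hc : c ≠ 0) :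
    tens x c ≠ 0 := by
  intro h
  obtain ⟨s, hs⟩ := Function.ne_iff.mp hx
  obtain ⟨j, hj⟩ := Function.ne_iff.mp hc
  have := congrFun h (s, j)
  simp only [tens, Pi.zero_apply] at this hs hj
  exact (mul_ne_zero hs hj) this

theorem tens_left_inj {x x' : Fin a → F} {c : Fin b → F} (hc : c ≠ 0) (h : tens x c = tens x' c) :
    x = x' := by
  obtain ⟨j, hj⟩ := Function.ne_iff.mp hc
  simp only [Pi.zero_apply] at hj
  ext s
  have := congrFun h (s, j)
  simp only [tens] at this
  exact mul_right_cancel₀ hj this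

theorem tens_right_inj {x : Fin a → F} {c c' : Fin b → F} (hx : x ≠ 0) (h : tens x c = tens x c') :
    c = c' := by
  obtain ⟨s, hs⟩ := Function.ne_iff.mp hx
  simp only [Pi.zero_apply] at hs
  ext j
  have := congrFun h (s, j)
  simp only [tens] at this
  exact mul_left_cancel₀ hs this

/-- two matrices agreeing on all pure tensors are equal -/
theorem ext_tens {X Y : Mn} (h : ∀ x v, X *ᵥ tens x v = Y *ᵥ tens x v) : X = Y := by
  ext p q
  obtain ⟨s, j⟩ := q
  have h1 : tens (Pi.single s (1 : F)) (Pi.single j (1 : F)) = Pi.single (s, j) (1 : F) := by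
    ext ⟨s', j'⟩
    simp only [tens, Pi.single_apply, Prod.mk.injEq]
    by_cases h1 : s' = s <;> by_cases h2 : j' = j <;> simp [h1, h2]
  have := congrFun (h (Pi.single s 1) (Pi.single j 1)) p
  rw [h1] at this
  simpa using this

end Cfsg.Agent.Lib.H49SGeo
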