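import Cfsg.Agent.Lib.Helper49SDefs
import Cfsg.Agent.Lib.H49SGeo

/-!
# PROJECT 50 (S5704), piece `FixR`
-/

set_option autoImplicit false
set_option linter.unusedSectionVars false
set_option linter.unusedVariables false

namespace Cfsg.Agent.Lib.H49SFixR

open scoped Matrix Kronecker
open Matrix Cfsg.Agent.Lib.Helper49TDefs Cfsg.Agent.Lib.Helper49SDefs Cfsg.Agent.Lib.Helper49Eich
open Cfsg.Agent.Lib.H49SGeo

variable {F : Type*} [Field F] {a b n : ℕ}

local notation "GLn" => Matrix.GeneralLinearGroup (Fin a × Fin b) F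
local notation "Mn" => Matrix (Fin a × Fin b) (Fin a × Fin b) F
local notation "Ma" => Matrix (Fin a) (Fin a) F
local notation "Mb" => Matrix (Fin b) (Fin b) F
local notation "GLa" => Matrix.GeneralLinearGroup (Fin a) F
local notation "GLb" => Matrix.GeneralLinearGroup (Fin b) F
local notation "𝐏" => QuadraticMap.polar

theorem pure_of_fixed2 (D : SpDat F a b) {c : Fin b → F} (hc : c ≠ 0) (v : Fin a × Fin b → F)
    (h0 : ((1 : Ma) ⊗ₖ NJ D.J₂ c c) *ᵥ v = 0)
    (h : ∀ e, bf D.J₂ e c = 0 → ((1 : Ma) ⊗ₖ (NJ D.J₂ e c + NJ D.J₂ c e)) *ᵥ v = 0) :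
    ∃ u, v = tens u c := by
  have h1 : ctr (D.J₂ *ᵥ c) v = 0 := by
    rw [kron_NJ_mulVec, Matrix.one_mulVec] at h0
    by_contra hne
    exact tens_ne_zero hne hc h0
  apply exists_tens_of_ctr D hc
  intro e he
  have h2 := h e he
  rw [Matrix.kronecker_add, Matrix.add_mulVec, kron_NJ_mulVec, kron_NJ_mulVec, Matrix.one_mulVec,
    Matrix.one_mulVec, h1, tens_zero_left', zero_add] at h2
  by_contra hne
  exact tens_ne_zero hne hc h2

end Cfsg.Agent.Lib.H49SFixR
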