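import Cfsg.Agent.Lib.Helper49SDefs
import Cfsg.Agent.Lib.H49SGeo

/-!
# PROJECT 50 (S5704), piece `Form1`
-/

set_option autoImplicit false
set_option linter.unusedSectionVars false
set_option linter.unusedVariables false

namespace Cfsg.Agent.Lib.H49SForm1

open scoped Matrix Kronecker
open Matrix Cfsg.Agent.Lib.Helper49TDefs Cfsg.Agent.Lib.Helper49SDefs Cfsg.Agent.Lib.Helper49Eich
open Cfsg.Agent.Lib.H49SGeo

variable {F : Type*} [Field F] {a b n : ℕ}

local notation "GLn" => Matrix.GeneralLinearGroup (Fin a × Fin b) F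
local notation "Mn" => Matrix (Fin a × Fin b) (Fin a × Fin b) F
local notation "Ma" => Matrix (Fin a) (Fin a) F
local notation "Mb" => Matrix (Fin b) (Fin b) F
local notation "GLa" => Matrix.GeneralLinearGroup (Fin a) F
local notation "GLb" => Matrix.GeneralLinearGroup (Fin b) F
local notation "𝐏" => QuadraticMap.polar

/-- an endomorphism with image in `V₁ ⊗ e₁` killing `V₁ ⊗ e₂^⊥` is `β ⊗ NJ e₁ e₂` -/
theorem form1 (D : SpDat F a b) {e₁ e₂ : Fin b → F} (h₂ : e₂ ≠ 0) (X : Mn)
    (hi : ∀ v, ∃ u, X *ᵥ v = tens u e₁)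
    (hk : ∀ u v, bf D.J₂ v e₂ = 0 → X *ᵥ tens u v = 0) : ∃ β : Ma, X = β ⊗ₖ NJ D.J₂ e₁ e₂ := by
  obtain ⟨d, hd⟩ := D.h₂.exists_ne_zero h₂
  by_cases h₁ : e₁ = 0
  · subst h₁
    refine ⟨0, ?_⟩
    apply ext_tens
    intro x v
    obtain ⟨u, hu⟩ := hi (tens x v)
    rw [hu, tens_zero_right']
    simp
  · obtain ⟨i, hi0⟩ := Function.ne_iff.mp h₁
    simp only [Pi.zero_apply] at hi0
    let L : (Fin a → F) →ₗ[F] (Fin a → F) :=
      { toFun := fun x s => (X *ᵥ tens x d) (s, i) * (e₁ i)⁻¹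
        map_add' := by
          intro x x'
          ext s
          simp [tens_add_left, Matrix.mulVec_add, add_mul]
        map_smul' := by
          intro k x
          ext s
          simp [tens_smul_left, Matrix.mulVec_smul, mul_assoc] }
    have hL : ∀ x, X *ᵥ tens x d = tens (L x) e₁ := by
      intro x
      obtain ⟨u, hu⟩ := hi (tens x d)
      rw [hu]
      congr 1
      ext s
      show u s = (X *ᵥ tens x d) (s, i) * (e₁ i)⁻¹
      rw [hu]
      simp [tens, hi0]
    refine ⟨LinearMap.toMatrix' L, ?_⟩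
    apply ext_tens
    intro x v
    rw [kron_mulVec_tens, LinearMap.toMatrix'_mulVec, NJ_mulVec, tens_smul_right, ← hL]
    have hv : v = bf D.J₂ v e₂ • d + (v - bf D.J₂ v e₂ • d) := by abel
    conv_lhs => rw [hv]
    rw [tens_add_right, Matrix.mulVec_add, tens_smul_right, Matrix.mulVec_smul,
      hk x (v - bf D.J₂ v e₂ • d) (by rw [bf_sub_left, bf_smul_left, hd, mul_one, sub_self]),
      add_zero]

end Cfsg.Agent.Lib.H49SForm1
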