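import Cfsg.Agent.Lib.Helper49SDefs

/-!
# PROJECT 50 (S5704), piece `Kill`
-/

set_option autoImplicit false
set_option linter.unusedSectionVars false
set_option linter.unusedVariables false

namespace Cfsg.Agent.Lib.H49SKill

open scoped Matrix Kronecker
open Matrix Cfsg.Agent.Lib.Helper49TDefs Cfsg.Agent.Lib.Helper49SDefs Cfsg.Agent.Lib.Helper49Eich

variable {F : Type*} [Field F] {a b n : ℕ}

local notation "GLn" => Matrix.GeneralLinearGroup (Fin a × Fin b) F
local notation "Mn" => Matrix (Fin a × Fin b) (Fin a × Fin b) F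
local notation "Ma" => Matrix (Fin a) (Fin a) F
local notation "Mb" => Matrix (Fin b) (Fin b) F
local notation "GLa" => Matrix.GeneralLinearGroup (Fin a) F
local notation "GLb" => Matrix.GeneralLinearGroup (Fin b) F
local notation "𝐏" => QuadraticMap.polar

theorem exists_root_fix2 (D : SpDat F a b) (h12 : a < b) (y : Fin a × Fin b → F) :
    ∃ c : Fin b → F, c ≠ 0 ∧ ((1 : Ma) ⊗ₖ NJ D.J₂ c c) *ᵥ y = 0 := by
  let L : (Fin b → F) →ₗ[F] (Fin a → F) :=
    { toFun := fun c => ctr (D.J₂ *ᵥ c) y
      map_add' := by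
        intro c c'
        ext s
        simp [ctr, Matrix.mulVec_add, mul_add, Finset.sum_add_distrib]
      map_smul' := by
        intro k c
        ext s
        simp only [ctr, Matrix.mulVec_smul, Pi.smul_apply, smul_eq_mul, RingHom.id_apply,
          Finset.mul_sum]
        refine Finset.sum_congr rfl fun j _ => ?_
        ring }
  have hker : LinearMap.ker L ≠ ⊥ := LinearMap.ker_ne_bot_of_finrank_lt (by simpa using h12)
  obtain ⟨c, hc, hc0⟩ := (Submodule.ne_bot_iff _).1 hker
  refine ⟨c, hc0, ?_⟩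
  have : ctr (D.J₂ *ᵥ c) y = 0 := hc
  rw [kron_NJ_mulVec, this, Matrix.mulVec_zero, tens_zero_left']

end Cfsg.Agent.Lib.H49SKill
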