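import Cfsg.Agent.Lib.Helper49SDefs
import Cfsg.Agent.Lib.H49SIso
import Cfsg.Agent.Lib.H49SGeo

/-!
# PROJECT 50 (S5704), piece `Layers`
-/

set_option autoImplicit false
set_option linter.unusedSectionVars false
set_option linter.unusedVariables false

namespace Cfsg.Agent.Lib.H49SLayers

open scoped Matrix Kronecker
open Matrix Cfsg.Agent.Lib.Helper49TDefs Cfsg.Agent.Lib.Helper49SDefs Cfsg.Agent.Lib.Helper49Eich
open Cfsg.Agent.Lib.H49SIso
open Cfsg.Agent.Lib.H49SGeo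

variable {F : Type*} [Field F] {a b n : ℕ}

local notation "GLn" => Matrix.GeneralLinearGroup (Fin a × Fin b) F
local notation "Mn" => Matrix (Fin a × Fin b) (Fin a × Fin b) F
local notation "Ma" => Matrix (Fin a) (Fin a) F
local notation "Mb" => Matrix (Fin b) (Fin b) F
local notation "GLa" => Matrix.GeneralLinearGroup (Fin a) F
local notation "GLb" => Matrix.GeneralLinearGroup (Fin b) F
local notation "𝐏" => QuadraticMap.polar

private theorem exists_mat (t : Mn) (φ d : Fin b → F) :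
    ∃ M : Ma, ∀ x, M *ᵥ x = ctr φ (t *ᵥ tens x d) := by
  let A : (Fin a → F) →ₗ[F] (Fin a → F) :=
    { toFun := fun x => ctr φ (t *ᵥ tens x d)
      map_add' := fun x y => by
        simp only [tens_add_left, Matrix.mulVec_add, ctr_add]
      map_smul' := fun k x => by
        simp only [tens_smul_left, Matrix.mulVec_smul, ctr_smul, RingHom.id_apply] }
  exact ⟨LinearMap.toMatrix' A, fun x => by rw [LinearMap.toMatrix'_mulVec]; rfl⟩

theorem exists_layers (D : SpDat F a b) {t : GLn} (ht : t ∈ OG D) {c : Fin b → F} (hc : c ≠ 0)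
    (hst : ∀ x, ∃ x', (t : Mn) *ᵥ tens x c = tens x' c) :
    ∃ α α' : Ma, (∀ x, (t : Mn) *ᵥ tens x c = tens (α *ᵥ x) c) ∧
      (∀ x d, (t : Mn) *ᵥ tens x d - tens (α' *ᵥ x) d ∈ tsub a (perpS D.J₂ c)) ∧
      (∀ w ∈ tsub a (perpS D.J₂ c), (t : Mn) *ᵥ w ∈ tsub a (perpS D.J₂ c)) ∧
      (∀ x y, bf D.J₁ (α' *ᵥ x) (α *ᵥ y) = bf D.J₁ x y) := by
  obtain ⟨d₀, hd₀⟩ := D.h₂.exists_ne_zero hc
  have hcd : bf D.J₂ c (-d₀) = 1 := by rw [bf_neg_right, D.h₂.swap, hd₀, neg_neg]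
  obtain ⟨α, hα⟩ := exists_mat (a := a) (t : Mn) (D.J₂ *ᵥ (-d₀)) c
  obtain ⟨α', hα'⟩ := exists_mat (a := a) (t : Mn) (D.J₂ *ᵥ c) d₀
  have h1 : ∀ x, (t : Mn) *ᵥ tens x c = tens (α *ᵥ x) c := by
    intro x
    obtain ⟨x', hx'⟩ := hst x
    rw [hα, hx', ctr_J_tens, hcd, one_smul]
  have htinj : ∀ v w : Fin a × Fin b → F, (t : Mn) *ᵥ v = (t : Mn) *ᵥ w → v = w := by
    intro v w hvw
    have h2 := congrArg (fun z => ((t⁻¹ : GLn) : Mn) *ᵥ z) hvw
    simpa [Matrix.mulVec_mulVec, ← Units.val_mul] using h2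
  have hαinj : Function.Injective α.mulVec := by
    intro x y hxy
    apply tens_left_inj hc
    apply htinj
    rw [h1, h1]
    exact congrArg (fun z => tens z c) hxy
  have hαsurj : Function.Surjective α.mulVec :=
    Matrix.mulVec_surjective_iff_isUnit.2 (Matrix.mulVec_injective_iff_isUnit.1 hαinj)
  have h3 : ∀ w ∈ tsub a (perpS D.J₂ c), (t : Mn) *ᵥ w ∈ tsub a (perpS D.J₂ c) := by
    intro w hw
    rw [mem_tsub_perpS_iff] at hw ⊢
    apply D.h₁.eq_zero_of_left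
    intro u
    obtain ⟨u₀, hu₀⟩ := hαsurj u
    have hu₀' : α *ᵥ u₀ = u := hu₀
    rw [← SpDat.polar_eq_bf_ctr, ← hu₀', ← h1, OG_polar D ht, SpDat.polar_eq_bf_ctr, hw,
      bf_zero_left]
  refine ⟨α, α', h1, ?_, h3, ?_⟩
  · intro x d
    rw [mem_tsub_perpS_iff, ctr_sub, ctr_J_tens]
    set e := d - bf D.J₂ d c • d₀ with he
    have hec : bf D.J₂ e c = 0 := by
      rw [he, bf_sub_left, bf_smul_left, hd₀, mul_one, sub_self]
    have hd : d = bf D.J₂ d c • d₀ + e := by rw [he]; abel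
    have h4 : ctr (D.J₂ *ᵥ c) ((t : Mn) *ᵥ tens x e) = 0 :=
      (mem_tsub_perpS_iff _ _ _).1 (h3 _ (tens_mem_tsub_perpS hec x))
    have h5 : (t : Mn) *ᵥ tens x d =
        bf D.J₂ d c • ((t : Mn) *ᵥ tens x d₀) + (t : Mn) *ᵥ tens x e := by
      conv_lhs => rw [hd]
      rw [tens_add_right, tens_smul_right, Matrix.mulVec_add, Matrix.mulVec_smul]
    rw [h5, ctr_add, ctr_smul, h4, add_zero, ← hα', sub_self]
  · intro x y
    rw [hα', ← SpDat.polar_eq_bf_ctr, ← h1, OG_polar D ht, SpDat.polar_tens, hd₀, mul_one]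

end Cfsg.Agent.Lib.H49SLayers
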