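import Cfsg.Agent.Lib.Helper49SDefs

/-!
# PROJECT 50 (S5704), piece `MkDat`
-/

set_option autoImplicit false
set_option linter.unusedSectionVars false
set_option linter.unusedVariables false

namespace Cfsg.Agent.Lib.H49SMkDat

open scoped Matrix Kronecker
open Matrix Cfsg.Agent.Lib.Helper49TDefs Cfsg.Agent.Lib.Helper49SDefs Cfsg.Agent.Lib.Helper49Eich

variable {F : Type*} [Field F] {a b n : ℕ}

local notation "GLn" => Matrix.GeneralLinearGroup (Fin a × Fin b) F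
local notation "Mn" => Matrix (Fin a × Fin b) (Fin a × Fin b) F
local notation "Ma" => Matrix (Fin a) (Fin a) F
local notation "Mb" => Matrix (Fin b) (Fin b) F
local notation "GLa" => Matrix.GeneralLinearGroup (Fin a) F
local notation "GLb" => Matrix.GeneralLinearGroup (Fin b) F
local notation "𝐏" => QuadraticMap.polar

private theorem bf_gram {k : ℕ} {f : (Fin k → F) → (Fin k → F) → F}
    (hb : Cfsg.Geo.IsBilinearForm f) (x y : Fin k → F) :
    bf (Cfsg.Geo.gramMatrix f) x y = f x y := by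
  set B : LinearMap.BilinForm F (Fin k → F) :=
    LinearMap.mk₂ F f hb.add_left hb.smul_left hb.add_right hb.smul_right with hB
  have h1 : Cfsg.Geo.gramMatrix f = LinearMap.BilinForm.toMatrix' B := by
    ext i j
    rw [LinearMap.BilinForm.toMatrix'_apply]
    rfl
  have h2 : bf (Cfsg.Geo.gramMatrix f) x y = Matrix.toBilin' (Cfsg.Geo.gramMatrix f) x y := by
    rw [Matrix.toBilin'_apply']
    rfl
  rw [h2, h1, Matrix.toBilin'_toMatrix']
  rfl

private theorem formOfGram_eq' {κ : Type} [Fintype κ] [DecidableEq κ] (G : Matrix κ κ F)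
    (x y : κ → F) : Cfsg.Geo.formOfGram id G x y = x ⬝ᵥ G *ᵥ y := by
  rw [← Matrix.toBilin'_apply', Matrix.toBilin'_apply]
  rfl

private theorem gram_symp {k : ℕ} {f : (Fin k → F) → (Fin k → F) → F}
    (hf : Cfsg.Geo.IsSymplecticForm f) : IsSympMat (Cfsg.Geo.gramMatrix f) := by
  refine ⟨fun v => by rw [bf_gram hf.bilinear]; exact hf.alternating v, ?_⟩
  rw [isUnit_iff_ne_zero]
  intro h0
  obtain ⟨v, hv, hv0⟩ := Matrix.exists_mulVec_eq_zero_iff.2 h0
  obtain ⟨⟨x, hx⟩, -⟩ := hf.nondegenerate v hv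
  apply hx
  rw [← bf_gram hf.bilinear, bf, hv0, dotProduct_zero]

private theorem smul_symp {k : ℕ} {J : Matrix (Fin k) (Fin k) F} (hJ : IsSympMat J) {c : F}
    (hc : c ≠ 0) : IsSympMat (c • J) := by
  refine ⟨fun v => ?_, ?_⟩
  · have := hJ.alt v
    unfold bf at this ⊢
    rw [Matrix.smul_mulVec, dotProduct_smul, this, smul_zero]
  · rw [Matrix.det_smul]
    exact (IsUnit.pow _ (isUnit_iff_ne_zero.2 hc)).mul hJ.unit

theorem exists_dat {n₁ n₂ : ℕ} (Q : (Fin n → F) → F)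
    (hQ : Cfsg.Geo.IsNondegenerateQuadraticForm Q) (e : (Fin n) ≃ Fin n₁ × Fin n₂)
    (P : Matrix.GeneralLinearGroup (Fin n) F) (f₁ : (Fin n₁ → F) → (Fin n₁ → F) → F)
    (f₂ : (Fin n₂ → F) → (Fin n₂ → F) → F) (hf₁ : Cfsg.Geo.IsSymplecticForm f₁)
    (hf₂ : Cfsg.Geo.IsSymplecticForm f₂)
    (hT : Cfsg.Geo.IsTensorFormStructure id (QuadraticMap.polar Q) f₁ f₂ e P)
    (hpure : ∀ (x₁ : Fin n₁ → F) (x₂ : Fin n₂ → F),
      Q (Matrix.mulVec (P : Matrix (Fin n) (Fin n) F)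
        ((fun p : Fin n₁ × Fin n₂ => x₁ p.1 * x₂ p.2) ∘ e)) = 0) :
    ∃ D : SpDat F n₁ n₂, ∀ x, D.Q x = Q ((P : Matrix (Fin n) (Fin n) F) *ᵥ (x ∘ e)) := by
  obtain ⟨c, hc, hT⟩ := hT
  set L : (Fin n₁ × Fin n₂ → F) →ₗ[F] (Fin n → F) :=
    (Matrix.mulVecLin (P : Matrix (Fin n) (Fin n) F)) ∘ₗ (LinearMap.funLeft F F e) with hL
  have hLx : ∀ x, L x = (P : Matrix (Fin n) (Fin n) F) *ᵥ (x ∘ e) := fun x => rfl
  set Q' : QuadraticForm F (Fin n₁ × Fin n₂ → F) :=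
    (Cfsg.Agent.Lib.Helper49Bridge.toQF hQ).comp L with hQ'
  have hQx : ∀ x, Q' x = Q ((P : Matrix (Fin n) (Fin n) F) *ᵥ (x ∘ e)) := fun x => rfl
  refine ⟨⟨c • Cfsg.Geo.gramMatrix f₁, Cfsg.Geo.gramMatrix f₂, Q', smul_symp (gram_symp hf₁) hc,
    gram_symp hf₂, fun u c' => ?_, fun x y => ?_⟩, hQx⟩
  · rw [hQx]
    exact hpure u c'
  · have h1 : QuadraticMap.polar Q' x y = QuadraticMap.polar Q (L x) (L y) := by
      unfold QuadraticMap.polar
      rw [hQx, hQx, hQx, ← hLx, ← hLx, ← hLx, map_add]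
    rw [h1, hLx, hLx, hT, formOfGram_eq', Matrix.smul_kronecker, Matrix.smul_mulVec,
      dotProduct_smul, smul_eq_mul]

end Cfsg.Agent.Lib.H49SMkDat
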