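import Cfsg.Agent.Lib.Helper49SDefs
import Cfsg.Agent.Lib.H49SEHbasic
import Cfsg.Agent.Lib.H49SIso
import Cfsg.Agent.Lib.H49SNondeg

/-!
# PROJECT 50 (S5704), piece `OGle`
-/

set_option autoImplicit false
set_option linter.unusedSectionVars false
set_option linter.unusedVariables false

namespace Cfsg.Agent.Lib.H49SOGle

open scoped Matrix Kronecker
open Matrix Cfsg.Agent.Lib.Helper49TDefs Cfsg.Agent.Lib.Helper49SDefs Cfsg.Agent.Lib.Helper49Eich
open Cfsg.Agent.Lib.H49SEHbasic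
open Cfsg.Agent.Lib.H49SIso
open Cfsg.Agent.Lib.H49SNondeg

variable {F : Type*} [Field F] {a b n : ℕ}

local notation "GLn" => Matrix.GeneralLinearGroup (Fin a × Fin b) F
local notation "Mn" => Matrix (Fin a × Fin b) (Fin a × Fin b) F
local notation "Ma" => Matrix (Fin a) (Fin a) F
local notation "Mb" => Matrix (Fin b) (Fin b) F
local notation "GLa" => Matrix.GeneralLinearGroup (Fin a) F
local notation "GLb" => Matrix.GeneralLinearGroup (Fin b) F
local notation "𝐏" => QuadraticMap.polar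

private theorem single_eq_tens (i : Fin a) (j : Fin b) :
    (Pi.single (i, j) (1 : F) : Fin a × Fin b → F) = tens (Pi.single i 1) (Pi.single j 1) := by
  ext ⟨s, t⟩
  simp only [tens, Pi.single_apply, Prod.mk.injEq]
  by_cases h1 : s = i <;> by_cases h2 : t = j <;> simp [h1, h2]

private theorem exists_single (D : SpDat F a b) {z : Fin a × Fin b → F} (hz : z ≠ 0) :
    ∃ (i : Fin a) (j : Fin b), 𝐏 D.Q z (tens (Pi.single i 1) (Pi.single j 1)) ≠ 0 := by
  by_contra hcon
  push Not at hcon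
  apply hz
  have hall : ∀ v, QuadraticMap.polarBilin D.Q z v = 0 := by
    intro v
    rw [pi_eq_sum_univ v, map_sum]
    apply Finset.sum_eq_zero
    rintro ⟨i, j⟩ -
    rw [map_smul]
    have h1 := hcon i j
    rw [← single_eq_tens] at h1
    have h2 : (fun q : Fin a × Fin b => if (i, j) = q then (1 : F) else 0) = Pi.single (i, j) 1 := by
      ext q
      simp [Pi.single_apply, eq_comm]
    rw [h2]
    show _ • 𝐏 D.Q z _ = 0
    rw [h1, smul_zero]
  exact (nondeg D).1 z hall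

private theorem key [Fintype F] (D : SpDat F a b) (H : Subgroup GLn) (hH : H ≤ OG D)
    (h : ∀ (u : Fin a → F) (c : Fin b → F) (w : Fin a × Fin b → F), 𝐏 D.Q (tens u c) w = 0 →
      EH D H (tens u c) w) (z w' : Fin a × Fin b → F) (hQz : D.Q z = 0) (hzw : 𝐏 D.Q z w' = 0) :
    EH D H z w' := by
  by_cases hz : z = 0
  · rw [hz]; exact EH_zero_left D H w'
  obtain ⟨i, j, hij⟩ := exists_single D hz
  set u : Fin a → F := Pi.single i 1 with hu
  set c : Fin b → F := Pi.single j 1 with hc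
  have hu0 : u ≠ 0 := by
    intro h0
    apply hij
    rw [h0, tens_zero_left', QuadraticMap.polar_zero_right]
  have hc0 : c ≠ 0 := by
    intro h0
    apply hij
    rw [h0, tens_zero_right', QuadraticMap.polar_zero_right]
  obtain ⟨us, hus⟩ := D.h₁.exists_ne_zero hu0
  obtain ⟨cs, hcs⟩ := D.h₂.exists_ne_zero hc0
  set l := 𝐏 D.Q z (tens u c) with hl
  set y := tens u c with hy
  set y' := tens (l • us) cs with hy'
  have hy'y : 𝐏 D.Q y' y = l := by
    rw [hy', hy, SpDat.polar_tens, bf_smul_left, hus, hcs, mul_one, mul_one]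
  have hQy : D.Q y = 0 := D.Qpure u c
  have hQy' : D.Q y' = 0 := D.Qpure _ _
  have hd : 𝐏 D.Q y (z - y') = 0 := by
    rw [QuadraticMap.polar_sub_right, QuadraticMap.polar_comm _ y z, QuadraticMap.polar_comm _ y y',
      hy'y, sub_self]
  have hmove := E_move D.Q hQy (hQy'.trans hQz.symm) hd (by rw [hy'y]; exact hij)
  set w₁ := -(𝐏 D.Q y' y)⁻¹ • (z - y') with hw₁
  have hyw₁ : 𝐏 D.Q y w₁ = 0 := by
    rw [hw₁, QuadraticMap.polar_smul_right, hd, smul_zero]
  have hmH : EH D H y w₁ := h u c w₁ hyw₁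
  set m : GLn := ((E D.Q y w₁ : ↥(Cfsg.isometryGroup F ⇑D.Q)) : GLn) with hm
  have hmO : m ∈ OG D := hH hmH
  set w₀ := ((m⁻¹ : GLn) : Mn) *ᵥ w' with hw₀
  have hmw₀ : (m : Mn) *ᵥ w₀ = w' := by
    rw [hw₀, Matrix.mulVec_mulVec, ← Units.val_mul, mul_inv_cancel, Units.val_one,
      Matrix.one_mulVec]
  have hy'w₀ : 𝐏 D.Q y' w₀ = 0 := by
    rw [← OG_polar D hmO, hmw₀, hmove]
    exact hzw
  have h2 := EH_conj D hmH hmO hQy' hy'w₀ (h _ _ w₀ hy'w₀)
  rw [hmw₀, hmove] at h2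
  exact h2

theorem OG_le [Fintype F] (D : SpDat F a b) (hn : 5 ≤ a * b) (H : Subgroup GLn) (hH : H ≤ OG D)
    (h : ∀ (u : Fin a → F) (c : Fin b → F) (w : Fin a × Fin b → F), 𝐏 D.Q (tens u c) w = 0 →
      EH D H (tens u c) w) : OG D ≤ H := by
  intro x hx
  obtain ⟨g, hg, rfl⟩ := Cfsg.Agent.Lib.Helper49Bridge.exists_of_mem_omegaGL D.Q hx
  rw [Cfsg.Agent.Lib.Helper49EichGen.Omega_eq_TT D.Q (nondeg D)
    (by simpa [Fintype.card_prod] using hn)] at hg
  have hle : Cfsg.Agent.Lib.Helper49EichGen.TT D.Q ≤ H.comap (Subgroup.subtype _) := by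
    unfold Cfsg.Agent.Lib.Helper49EichGen.TT
    rw [Subgroup.closure_le]
    rintro _ ⟨e, w, he, hw, rfl⟩
    exact key D H hH h e w he hw
  exact hle hg

end Cfsg.Agent.Lib.H49SOGle
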