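import Cfsg.Agent.Lib.Helper49SDefs
import Cfsg.Agent.Lib.H49SIso
import Cfsg.Agent.Lib.H49SBridge
import Cfsg.Agent.Lib.H49SDual
import Cfsg.Agent.Lib.Helper94TRank

/-!
# PROJECT 50 (S5704), piece `Proper`
-/

set_option autoImplicit false
set_option linter.unusedSectionVars false
set_option linter.unusedVariables false

namespace Cfsg.Agent.Lib.H49SProper

open scoped Matrix Kronecker
open Matrix Cfsg.Agent.Lib.Helper49TDefs Cfsg.Agent.Lib.Helper49SDefs Cfsg.Agent.Lib.Helper49Eich
open Cfsg.Agent.Lib.H49SIso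
open Cfsg.Agent.Lib.H49SBridge
open Cfsg.Agent.Lib.H49SDual

variable {F : Type*} [Field F] {a b n : ℕ}

local notation "GLn" => Matrix.GeneralLinearGroup (Fin a × Fin b) F
local notation "Mn" => Matrix (Fin a × Fin b) (Fin a × Fin b) F
local notation "Ma" => Matrix (Fin a) (Fin a) F
local notation "Mb" => Matrix (Fin b) (Fin b) F
local notation "GLa" => Matrix.GeneralLinearGroup (Fin a) F
local notation "GLb" => Matrix.GeneralLinearGroup (Fin b) F
local notation "𝐏" => QuadraticMap.polar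

theorem proper_tens_eq_zero {u : Fin a → F} {c : Fin b → F} (h : tens u c = 0) (hu : u ≠ 0) :
    c = 0 := by
  obtain ⟨i, hi⟩ := Function.ne_iff.1 hu
  funext j
  have h1 := congrFun h (i, j)
  simp only [tens, Pi.zero_apply] at h1 hi ⊢
  exact (mul_eq_zero.1 h1).resolve_left hi

theorem proper_kron_NJ (J₁ : Ma) (J₂ : Mb) (u u' : Fin a → F) (c c' : Fin b → F) :
    NJ J₁ u u' ⊗ₖ NJ J₂ c c' = Matrix.vecMulVec (tens u c) (tens (J₁ *ᵥ u') (J₂ *ᵥ c')) := by
  ext ⟨i, j⟩ ⟨i', j'⟩
  simp only [NJ, Matrix.kroneckerMap_apply, Matrix.vecMulVec_apply, tens]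
  ring

theorem proper_rank_le {ι : Type*} [Fintype ι] (p q p' q' : ι → F) :
    (Matrix.vecMulVec p q - Matrix.vecMulVec p' q').rank ≤ 2 := by
  have e : Matrix.vecMulVec p q - Matrix.vecMulVec p' q'
      = (Matrix.of fun i (k : Fin 2) => ![p i, p' i] k) *
        (Matrix.of fun (k : Fin 2) j => ![q j, - q' j] k) := by
    ext i j
    simp [Matrix.mul_apply, Fin.sum_univ_two, Matrix.vecMulVec_apply, sub_eq_add_neg]
  rw [e]
  refine le_trans (Matrix.rank_mul_le_left _ _) ?_
  exact le_trans (Matrix.rank_le_card_width _) (by simp)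

/-- an independent orthogonal pair -/
theorem proper_exists_pair {J : Mb} (hJ : IsSympMat J) (hb : 3 ≤ b) :
    ∃ c e : Fin b → F, LinearIndependent F ![c, e] ∧ bf J c e = 0 := by
  classical
  set i0 : Fin b := ⟨0, by omega⟩
  set i1 : Fin b := ⟨1, by omega⟩
  set i2 : Fin b := ⟨2, by omega⟩
  have h01 : i0 ≠ i1 := by simp [i0, i1, Fin.ext_iff]
  have h02 : i0 ≠ i2 := by simp [i0, i2, Fin.ext_iff]
  have h12 : i1 ≠ i2 := by simp [i1, i2, Fin.ext_iff]
  set c : Fin b → F := Pi.single i0 1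
  set d1 : Fin b → F := Pi.single i1 1
  set d2 : Fin b → F := Pi.single i2 1
  by_cases hx : bf J c d1 = 0
  · refine ⟨c, d1, ?_, hx⟩
    rw [LinearIndependent.pair_iff]
    intro s t hst
    have e0 := congrFun hst i0
    have e1 := congrFun hst i1
    simp [c, d1, h01, h01.symm] at e0 e1
    exact ⟨e0, e1⟩
  · refine ⟨c, bf J c d2 • d1 - bf J c d1 • d2, ?_, ?_⟩
    · rw [LinearIndependent.pair_iff]
      intro s t hst
      have e0 := congrFun hst i0
      have e2 := congrFun hst i2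
      simp [c, d1, d2, h01, h01.symm, h02, h02.symm, h12, h12.symm] at e0 e2
      have ht : t = 0 := e2.resolve_right hx
      exact ⟨e0, ht⟩
    · rw [bf_sub_right, bf_smul_right, bf_smul_right]
      ring

theorem proper2 [Fintype F] (D : SpDat F a b) (h1 : 2 ≤ a) (h12 : a < b) (hn : 5 ≤ a * b) :
    ¬ OG D ≤ KS a b F := by
  classical
  intro hle
  obtain ⟨c, e, hli, hce⟩ := proper_exists_pair D.h₂ (by omega : 3 ≤ b)
  obtain ⟨u, hu⟩ : ∃ u : Fin a → F, u ≠ 0 := by
    refine ⟨Pi.single ⟨0, by omega⟩ 1, ?_⟩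
    intro h
    have := congrFun h ⟨0, by omega⟩
    simp at this
  have hmem : EH D (OG D) (tens u c) (tens u e) := EH_OG D hn _ _
  have hmat := E_tens D u u c e (by rw [D.h₁.alt, zero_mul])
  set g : GLn := ((E D.Q (tens u c) (tens u e) : ↥(Cfsg.isometryGroup F ⇑D.Q)) : GLn) with hg
  have hKS : g ∈ KS a b F := hle hmem
  have hrank : ((g : Mn) - 1).rank ≤ a := by
    rw [hmat, add_sub_cancel_left, proper_kron_NJ, proper_kron_NJ]
    exact le_trans (proper_rank_le _ _ _ _) h1
  obtain ⟨w, hw⟩ := Cfsg.Agent.Lib.Helper94TRank.eq_one_kron_of_rank h12 g hKS hrank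
  rw [hmat] at hw
  have hact : ∀ (x : Fin a → F) (v : Fin b → F),
      tens x v + (bf D.J₁ x u * bf D.J₂ v e) • tens u c - (bf D.J₁ x u * bf D.J₂ v c) • tens u e
        = tens x ((w : Mb) *ᵥ v) := by
    intro x v
    have h2 := congrArg (fun M : Mn => M *ᵥ tens x v) hw
    simp only [Matrix.add_mulVec, Matrix.sub_mulVec, Matrix.one_mulVec, kron_mulVec_tens,
      NJ_mulVec] at h2
    rw [← h2, tens_smul_left, tens_smul_right, tens_smul_left, tens_smul_right, smul_smul,
      smul_smul, add_sub_assoc]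
  have hwv : ∀ v, (w : Mb) *ᵥ v = v := by
    intro v
    have h2 := hact u v
    rw [D.h₁.alt, zero_mul, zero_mul, zero_smul, zero_smul, add_zero, sub_zero] at h2
    have h3 : tens u ((w : Mb) *ᵥ v - v) = 0 := by
      have : (w : Mb) *ᵥ v - v = (w : Mb) *ᵥ v + (-1 : F) • v := by
        rw [neg_smul, one_smul, sub_eq_add_neg]
      rw [this, tens_add_right, tens_smul_right, ← h2]
      simp
    exact sub_eq_zero.1 (proper_tens_eq_zero h3 hu)
  obtain ⟨x, hx⟩ := D.h₁.exists_ne_zero hu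
  have he : e ≠ 0 := by
    intro h0
    rw [LinearIndependent.pair_iff] at hli
    have := hli 0 1 (by rw [h0]; simp)
    exact one_ne_zero this.2
  obtain ⟨v, hv⟩ := D.h₂.exists_ne_zero he
  have h4 := hact x v
  rw [hwv, hx, hv, one_mul, one_mul, one_smul, add_sub_assoc, add_eq_left, ← tens_smul_right,
    sub_eq_add_neg, ← neg_one_smul F (tens u _), ← tens_smul_right, ← tens_add_right] at h4
  have h5 := proper_tens_eq_zero h4 hu
  rw [LinearIndependent.pair_iff] at hli
  have h6 := hli 1 (-1 * bf D.J₂ v c) (by rw [one_smul, ← smul_smul]; exact h5)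
  exact one_ne_zero h6.1

end Cfsg.Agent.Lib.H49SProper
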