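import Cfsg.Agent.Lib.Helper49SDefs
import Cfsg.Agent.Lib.H49SConj
import Cfsg.Agent.Lib.H49SComm
import Cfsg.Agent.Lib.H49SDual
import Cfsg.Agent.Lib.H49STvIso

/-!
# PROJECT 50 (S5704), piece `Shear`
-/

set_option autoImplicit false
set_option linter.unusedSectionVars false
set_option linter.unusedVariables false

namespace Cfsg.Agent.Lib.H49SShear

open scoped Matrix Kronecker
open Matrix Cfsg.Agent.Lib.Helper49TDefs Cfsg.Agent.Lib.Helper49SDefs Cfsg.Agent.Lib.Helper49Eich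
open Cfsg.Agent.Lib.H49SConj
open Cfsg.Agent.Lib.H49SComm
open Cfsg.Agent.Lib.H49SDual
open Cfsg.Agent.Lib.H49STvIso

variable {F : Type*} [Field F] {a b n : ℕ}

local notation "GLn" => Matrix.GeneralLinearGroup (Fin a × Fin b) F
local notation "Mn" => Matrix (Fin a × Fin b) (Fin a × Fin b) F
local notation "Ma" => Matrix (Fin a) (Fin a) F
local notation "Mb" => Matrix (Fin b) (Fin b) F
local notation "GLa" => Matrix.GeneralLinearGroup (Fin a) F
local notation "GLb" => Matrix.GeneralLinearGroup (Fin b) F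
local notation "𝐏" => QuadraticMap.polar

theorem shear [Fintype F] (D : SpDat F a b) (hn : 5 ≤ a * b) (H : Subgroup GLn)
    (hMH : KS a b F ⊓ OG D ≤ H) {c e : Fin b → F} (hce : LinearIndependent F ![c, e])
    (hperp : bf D.J₂ c e = 0) (β β' ζ : Ma)
    (h : β ⊗ₖ NJ D.J₂ e c + β' ⊗ₖ NJ D.J₂ c e + ζ ⊗ₖ NJ D.J₂ c c ∈ NN H) :
    (β + β') ⊗ₖ NJ D.J₂ c c ∈ NN H := by
  have hcc : bf D.J₂ c c = 0 := D.h₂.alt c
  have hee : bf D.J₂ e e = 0 := D.h₂.alt e
  have hec : bf D.J₂ e c = 0 := by rw [D.h₂.swap, hperp, neg_zero]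
  obtain ⟨e₁, he₁⟩ := exists_bf_eq D.h₂ ![c, e] hce ![0, 1]
  have hce₁ : bf D.J₂ c e₁ = 0 := by simpa using he₁ 0
  have hee₁ : bf D.J₂ e e₁ = 1 := by simpa using he₁ 1
  have he₁c : bf D.J₂ e₁ c = 0 := by rw [D.h₂.swap, hce₁, neg_zero]
  obtain ⟨g, hg, hg1, hg2⟩ := rad_iso D.h₂ c e₁ he₁c
  have h1 := NN_conj2 D hn hMH g hg h
  have hgc : (g : Mb) *ᵥ c = c := by
    rw [hg1, Matrix.add_mulVec, Matrix.one_mulVec, Matrix.add_mulVec, NJ_mulVec, NJ_mulVec,
      hce₁, hcc]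
    simp
  have hge : (g : Mb) *ᵥ e = e + c := by
    rw [hg1, Matrix.add_mulVec, Matrix.one_mulVec, Matrix.add_mulVec, NJ_mulVec, NJ_mulVec,
      hee₁, hec]
    simp
  simp only [mul_add, add_mul, mul_sub, sub_mul, ← Matrix.mul_kronecker_mul, one_mul, mul_one,
    NJ_conj hg, hgc, hge] at h1
  have hsub := NN_sub h1 h
    (by
      simp only [mul_add, add_mul, mul_sub, sub_mul, ← Matrix.mul_kronecker_mul,
        NJ_mul, hcc, hee, hec, hperp, bf_add_left, bf_add_right,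
        zero_smul, Matrix.kronecker_zero, Matrix.zero_kronecker, add_zero, sub_zero])
    (by
      simp only [mul_add, add_mul, mul_sub, sub_mul, ← Matrix.mul_kronecker_mul,
        NJ_mul, hcc, hee, hec, hperp, bf_add_left, bf_add_right,
        zero_smul, Matrix.kronecker_zero, Matrix.zero_kronecker, add_zero, sub_zero])
  convert hsub using 1
  rw [NJ_add_left, NJ_add_right]
  ext ⟨i, j⟩ ⟨i', j'⟩
  simp only [Matrix.kroneckerMap_apply, Matrix.add_apply, Matrix.sub_apply]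
  ring

end Cfsg.Agent.Lib.H49SShear
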