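import Cfsg.Agent.Lib.Helper49SDefs
import Cfsg.Agent.Lib.H49SIsoForm
import Cfsg.Agent.Lib.H49SShear
import Cfsg.Agent.Lib.H49SAlgRed
import Cfsg.Agent.Lib.H49SConjDiff
import Cfsg.Agent.Lib.H49SKillZ
import Cfsg.Agent.Lib.H49SEscape
import Cfsg.Agent.Lib.H49SAlgTwo
import Cfsg.Agent.Lib.H49SBranch2
import Cfsg.Agent.Lib.H49SAofL2
import Cfsg.Agent.Lib.H49SComm

/-!
# PROJECT 50 (S5704), piece `S4`
-/

set_option autoImplicit false
set_option linter.unusedSectionVars false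
set_option linter.unusedVariables false

namespace Cfsg.Agent.Lib.H49SS4

open scoped Matrix Kronecker
open Matrix Cfsg.Agent.Lib.Helper49TDefs Cfsg.Agent.Lib.Helper49SDefs Cfsg.Agent.Lib.Helper49Eich
open Cfsg.Agent.Lib.H49SIsoForm
open Cfsg.Agent.Lib.H49SShear
open Cfsg.Agent.Lib.H49SAlgRed
open Cfsg.Agent.Lib.H49SConjDiff
open Cfsg.Agent.Lib.H49SKillZ
open Cfsg.Agent.Lib.H49SEscape
open Cfsg.Agent.Lib.H49SAlgTwo
open Cfsg.Agent.Lib.H49SBranch2
open Cfsg.Agent.Lib.H49SAofL2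
open Cfsg.Agent.Lib.H49SComm

variable {F : Type*} [Field F] {a b n : ℕ}

local notation "GLn" => Matrix.GeneralLinearGroup (Fin a × Fin b) F
local notation "Mn" => Matrix (Fin a × Fin b) (Fin a × Fin b) F
local notation "Ma" => Matrix (Fin a) (Fin a) F
local notation "Mb" => Matrix (Fin b) (Fin b) F
local notation "GLa" => Matrix.GeneralLinearGroup (Fin a) F
local notation "GLb" => Matrix.GeneralLinearGroup (Fin b) F
local notation "𝐏" => QuadraticMap.polar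

/-- `T_u² = 0` -/
theorem NJ_self_sq {J : Matrix (Fin n) (Fin n) F} (hJ : IsSympMat J) (u : Fin n → F) :
    NJ J u u * NJ J u u = 0 := by
  rw [NJ_mul, hJ.alt, zero_smul]

/-- the operation `β ↦ (1+T)β(1-T) - β` maps `ν - β` to the negative -/
theorem op_sub {T β β' : Matrix (Fin n) (Fin n) F} (hT : T * T = 0) (ν₀ : F)
    (h : β + β' = ν₀ • 1) :
    (1 + T) * β' * (1 - T) - β' = -((1 + T) * β * (1 - T) - β) := by
  have h1 : β' = ν₀ • 1 - β := by rw [← h]; abel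
  have h2 : (1 + T) * (ν₀ • (1 : Matrix (Fin n) (Fin n) F)) * (1 - T) = ν₀ • 1 := by
    rw [Matrix.mul_smul, Matrix.smul_mul, mul_one]
    have : (1 + T) * (1 - T) = 1 := by
      rw [add_mul, mul_sub, mul_sub, hT]; simp
    rw [this]
  have h3 : (1 + T) * (ν₀ • (1 : Matrix (Fin n) (Fin n) F) - β) * (1 - T)
      = (1 + T) * (ν₀ • (1 : Matrix (Fin n) (Fin n) F)) * (1 - T) - (1 + T) * β * (1 - T) := by
    rw [mul_sub (1 + T), sub_mul]
  rw [h1, h3, h2]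
  abel

theorem delta_sq {J : Matrix (Fin n) (Fin n) F} (hJ : IsSympMat J) {u v : Fin n → F}
    (huv : bf J u v = 0) (k : F) :
    (k • (NJ J u v + NJ J v u)) * (k • (NJ J u v + NJ J v u)) = 0 := by
  have hvu : bf J v u = 0 := by rw [hJ.swap, huv, neg_zero]
  rw [Matrix.smul_mul, Matrix.mul_smul, add_mul, mul_add, mul_add, NJ_mul, NJ_mul, NJ_mul, NJ_mul,
    huv, hvu, hJ.alt, hJ.alt]
  simp

theorem neg_kron (A : Ma) (B : Mb) : (-A) ⊗ₖ B = -(A ⊗ₖ B) := by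
  ext ⟨i, j⟩ ⟨i', j'⟩
  simp [Matrix.kroneckerMap_apply]

theorem kron_sub' (A : Ma) (B B' : Mb) : A ⊗ₖ (B - B') = A ⊗ₖ B - A ⊗ₖ B' := by
  ext ⟨i, j⟩ ⟨i', j'⟩
  simp [Matrix.kroneckerMap_apply, mul_sub]

theorem hasAB_of_L1new [Fintype F] (D : SpDat F a b) (h1 : 2 ≤ a) (hn : 5 ≤ a * b) (hb : 5 ≤ b)
    (hex : ¬ (Fintype.card F = 2 ∧ a = 2)) (H : Subgroup GLn) (hMH : KS a b F ⊓ OG D ≤ H)
    (hH : H ≤ OG D) (h : L1new D H) : HasA D H ∨ HasB D H := by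
  obtain ⟨c, e, β, β', ζ, hce, hperp, hns, hA⟩ := h
  have hc0 : c ≠ 0 := by
    have := hce.ne_zero 0
    simpa using this
  have hiso := iso_form D hce hperp β β' ζ (NN_mono hH hA)
  have hsh := shear D hn H hMH hce hperp β β' ζ hA
  by_cases hsc : ∀ k : F, β + β' ≠ k • 1
  · exact Or.inl (hasA_of_L2new D hn H hMH hH ⟨c, β + β', hc0, hsc, hsh⟩)
  push Not at hsc
  obtain ⟨ν₀, hν⟩ := hsc
  right
  by_cases ha2 : a = 2
  · have hq : 3 ≤ Fintype.card F := by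
      have h2 : 1 < Fintype.card F := Fintype.one_lt_card
      have h3 : Fintype.card F ≠ 2 := fun h => hex ⟨h, ha2⟩
      omega
    obtain ⟨u, hu⟩ := alg_two D.h₁ ha2 β hns
    exact branch2 D hn hq H hMH hH hce hperp β β' ζ hA u hu
  · have ha3 : 3 ≤ a := by omega
    have hβ : ∀ x y, bf D.J₁ (β *ᵥ x) y + bf D.J₁ x (β *ᵥ y) = ν₀ * bf D.J₁ x y := by
      intro x y
      rw [hiso, ← bf_add_right, ← Matrix.add_mulVec, add_comm β' β, hν, Matrix.smul_mulVec,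
        Matrix.one_mulVec, bf_smul_right]
    obtain ⟨u, v, k, huv, hperp1, hk, hred⟩ := alg_reduce D.h₁ ha3 β hns ν₀ hβ
    have h1 := conj_diff D hn H hMH hperp β β' ζ hA u 1
    simp only [one_smul] at h1
    have h2 := conj_diff D hn H hMH hperp _ _ _ h1 v 1
    simp only [one_smul] at h2
    have e1 := op_sub (NJ_self_sq D.h₁ u) ν₀ hν
    rw [e1] at h2
    have e2 : (1 + NJ D.J₁ v v) * -((1 + NJ D.J₁ u u) * β * (1 - NJ D.J₁ u u) - β) *
        (1 - NJ D.J₁ v v) - -((1 + NJ D.J₁ u u) * β * (1 - NJ D.J₁ u u) - β)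
        = -(k • (NJ D.J₁ u v + NJ D.J₁ v u)) := by
      rw [← hred]
      noncomm_ring
    rw [e2, hred, neg_kron, ← sub_eq_add_neg, ← kron_sub'] at h2
    obtain ⟨e₂, hce₂, hperp₂, h3⟩ := kill_zeta D hn H hMH hce hperp _ _ (delta_sq D.h₁ hperp1 k) h2
    exact escape D hn hb H hMH huv hperp1 hce₂ hperp₂ k hk h3

end Cfsg.Agent.Lib.H49SS4
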