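import Cfsg.Agent.Lib.Helper49SDefs
import Cfsg.Agent.Lib.H49SSp1
import Cfsg.Agent.Lib.H49SSp2
import Cfsg.Agent.Lib.H49SWitt1

/-!
# PROJECT 50 (S5704), piece `Move`
-/

set_option autoImplicit false
set_option linter.unusedSectionVars false
set_option linter.unusedVariables false

namespace Cfsg.Agent.Lib.H49SMove

open scoped Matrix Kronecker
open Matrix Cfsg.Agent.Lib.Helper49TDefs Cfsg.Agent.Lib.Helper49SDefs Cfsg.Agent.Lib.Helper49Eich
open Cfsg.Agent.Lib.H49SSp1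
open Cfsg.Agent.Lib.H49SSp2
open Cfsg.Agent.Lib.H49SWitt1

variable {F : Type*} [Field F] {a b n : ℕ}

local notation "GLn" => Matrix.GeneralLinearGroup (Fin a × Fin b) F
local notation "Mn" => Matrix (Fin a × Fin b) (Fin a × Fin b) F
local notation "Ma" => Matrix (Fin a) (Fin a) F
local notation "Mb" => Matrix (Fin b) (Fin b) F
local notation "GLa" => Matrix.GeneralLinearGroup (Fin a) F
local notation "GLb" => Matrix.GeneralLinearGroup (Fin b) F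
local notation "𝐏" => QuadraticMap.polar

theorem exists_move2 [Fintype F] (D : SpDat F a b) (hn : 5 ≤ a * b) {u u' : Fin a → F}
    {c c' : Fin b → F} (hu : u ≠ 0) (hu' : u' ≠ 0) (hc : c ≠ 0) (hc' : c' ≠ 0) :
    ∃ m ∈ KS a b F ⊓ OG D, (m : Mn) *ᵥ tens u c = tens u' c' := by
  obtain ⟨g₁, hg₁, e₁⟩ := exists_iso_vec D.h₁ hu hu'
  obtain ⟨g₂, hg₂, e₂⟩ := exists_iso_vec D.h₂ hc hc'
  obtain ⟨m₁, hm₁, f₁, -⟩ := sp1_mem D hn g₁ hg₁
  obtain ⟨m₂, hm₂, f₂, -⟩ := sp2_mem D hn g₂ hg₂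
  refine ⟨m₁ * m₂, mul_mem hm₁ hm₂, ?_⟩
  rw [Units.val_mul, ← Matrix.mulVec_mulVec, f₁, f₂, kron_mulVec_tens, kron_mulVec_tens,
    Matrix.one_mulVec, Matrix.one_mulVec, e₁, e₂]

end Cfsg.Agent.Lib.H49SMove
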