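import Cfsg.Agent.Lib.Helper49TDefs

/-!
# Project TENS, piece `sylfix` (with the pieces `root`, `fixroot` as hypotheses)
-/

set_option autoImplicit false
set_option linter.unusedSectionVars false
set_option linter.unusedVariables false

namespace Cfsg.Agent.Lib.Helper63TSylfix0

open scoped Matrix Kronecker
open Matrix Cfsg.Agent.Lib.Helper49TDefs

variable {F : Type*} [Field F] {a b : ℕ}

local notation "GLn" => Matrix.GeneralLinearGroup (Fin a × Fin b) F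
local notation "Mn" => Matrix (Fin a × Fin b) (Fin a × Fin b) F
local notation "Ma" => Matrix (Fin a) (Fin a) F
local notation "Mb" => Matrix (Fin b) (Fin b) F

theorem root_mul_root (c φ ψ : Fin b → F) (h : φ ⬝ᵥ c = 0) :
    ((1 : Ma) ⊗ₖ vecMulVec c φ) * ((1 : Ma) ⊗ₖ vecMulVec c ψ) = 0 := by
  rw [← Matrix.mul_kronecker_mul, Matrix.vecMulVec_mul_vecMulVec, h]
  simp

/-- the root subgroup with centre `c` -/
def SS (c : Fin b → F) : Subgroup GLn where
  carrier := {g | ∃ φ : Fin b → F, φ ⬝ᵥ c = 0 ∧ (g : Mn) = 1 + (1 : Ma) ⊗ₖ vecMulVec c φ}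
  mul_mem' := by
    rintro g h ⟨φ, h1, e1⟩ ⟨ψ, h2, e2⟩
    refine ⟨φ + ψ, by rw [add_dotProduct, h1, h2, add_zero], ?_⟩
    rw [Units.val_mul, e1, e2, add_mul, mul_add, mul_add, root_mul_root c φ ψ h1,
      Matrix.vecMulVec_add, Matrix.kronecker_add]
    simp only [mul_one, one_mul, add_zero]
    abel
  one_mem' := ⟨0, by simp, by simp⟩
  inv_mem' := by
    rintro g ⟨φ, h1, e1⟩
    refine ⟨-φ, by rw [neg_dotProduct, h1, neg_zero], ?_⟩
    rw [Units.inv_eq_of_mul_eq_one_right]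
    rw [e1, add_mul, mul_add, mul_add, root_mul_root c φ (-φ) h1, Matrix.vecMulVec_neg]
    have : (1 : Ma) ⊗ₖ (-vecMulVec c φ) = - ((1 : Ma) ⊗ₖ vecMulVec c φ) := by
      ext ⟨s, i⟩ ⟨s', j⟩
      simp [Matrix.kroneckerMap_apply]
    rw [this]
    simp

theorem isPGroup_SS (p : ℕ) [Fact p.Prime] [CharP F p] (c : Fin b → F) :
    IsPGroup p (SS (a := a) c) := by
  rintro ⟨g, φ, h1, e1⟩
  refine ⟨1, ?_⟩
  apply Subtype.ext
  apply Units.ext
  have hp : 2 ≤ p := (Fact.out : p.Prime).two_le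
  have hB : ((1 : Ma) ⊗ₖ vecMulVec c φ) ^ p = 0 := by
    obtain ⟨k, rfl⟩ := Nat.exists_eq_add_of_le hp
    rw [pow_add, pow_two, root_mul_root c φ φ h1, zero_mul]
  by_cases hne : Nonempty (Fin a × Fin b)
  · haveI : CharP Mn p := Matrix.charP p
    simp only [pow_one, Subgroup.coe_pow, Units.val_pow_eq_pow_val, Subgroup.coe_one, Units.val_one]
    rw [e1, add_pow_char_of_commute _ (Commute.one_left _), hB]
    simp
  · haveI : IsEmpty (Fin a × Fin b) := not_nonempty_iff.1 hne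
    exact Subsingleton.elim _ _

theorem card_lt_of_fix_of [Fintype F] (p : ℕ) [Fact p.Prime] [CharP F p] (h2 : 2 ≤ b)
    (hroot : ∀ c φ : Fin b → F, φ ⬝ᵥ c = 0 →
      (1 : Ma) ⊗ₖ (Matrix.vecMulVec c φ) ∈ NN (KS a b F ⊓ SLn a b F))
    (hfixroot : ∀ (c : Fin b → F), c ≠ 0 → ∀ (v : Fin a × Fin b → F),
      (∀ φ : Fin b → F, φ ⬝ᵥ c = 0 → ((1 : Ma) ⊗ₖ Matrix.vecMulVec c φ) *ᵥ v = 0) →
      ∃ u : Fin a → F, v = tens u c)
    (P Q : Subgroup GLn)
    (hPmax : ∀ R : Subgroup GLn, R ≤ KS a b F ⊓ SLn a b F → IsPGroup p R →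
      Nat.card R ≤ Nat.card P)
    (hP : P ≤ KS a b F ⊓ SLn a b F) (hPp : IsPGroup p P)
    (hQ : Q ≤ KS a b F ⊓ SLn a b F) (hQp : IsPGroup p Q)
    (y : Fin a × Fin b → F) (hy : ¬ IsPure y) (hfix : ∀ g ∈ Q, (g : Mn) *ᵥ y = y) :
    Nat.card Q < Nat.card P := by
  classical
  rcases lt_or_eq_of_le (hPmax Q hQ hQp) with h | heq
  · exact h
  exfalso
  set M : Subgroup GLn := KS a b F ⊓ SLn a b F with hM
  have hb0 : 0 < b := by omega
  let c : Fin b → F := Pi.single ⟨0, hb0⟩ 1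
  have hc : c ≠ 0 := by
    intro h
    have := congrFun h ⟨0, hb0⟩
    simp [c] at this
  have hSM : SS (a := a) c ≤ M := by
    rintro g ⟨φ, h1, e1⟩
    obtain ⟨_, g', hg', e'⟩ := hroot c φ h1
    have : g = g' := Units.ext (by rw [e1, e'])
    rw [this]; exact hg'
  have hSp : IsPGroup p (SS (a := a) c) := isPGroup_SS p c
  obtain ⟨Q1, hQ1⟩ := IsPGroup.exists_le_sylow (hQp.comap_subtype (K := M))
  obtain ⟨S1, hS1⟩ := IsPGroup.exists_le_sylow (hSp.comap_subtype (K := M))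
  have hcard1 : Nat.card (Q1 : Subgroup M) ≤ Nat.card P := by
    have := hPmax ((Q1 : Subgroup M).map M.subtype) (Subgroup.map_subtype_le _)
      (Q1.isPGroup'.map _)
    rwa [Subgroup.card_map_of_injective M.subtype_injective] at this
  have hcard2 : Nat.card (Q.comap M.subtype) = Nat.card Q :=
    Nat.card_congr (Subgroup.subgroupOfEquivOfLe hQ).toEquiv
  have hQ1eq : Q.comap M.subtype = (Q1 : Subgroup M) :=
    Subgroup.eq_of_le_of_card_ge hQ1 (by rw [hcard2, heq]; exact hcard1)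
  obtain ⟨m, hm⟩ := MulAction.exists_smul_eq M Q1 S1
  have key : ∀ s ∈ SS (a := a) c, ((m : GLn)⁻¹ * s * (m : GLn)) ∈ Q := by
    intro s hs
    have h1 : (⟨s, hSM hs⟩ : M) ∈ (S1 : Subgroup M) := hS1 hs
    rw [← hm, Sylow.smul_def, Sylow.pointwise_smul_def,
      Subgroup.mem_pointwise_smul_iff_inv_smul_mem, ← hQ1eq] at h1
    simp only [MulAut.smul_def, MulAut.conj_apply, ← map_inv, inv_inv] at h1
    exact h1
  have hinv' : ((m : GLn) : Mn) * (((m : GLn)⁻¹ : GLn) : Mn) = 1 := by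
    rw [← Units.val_mul, mul_inv_cancel, Units.val_one]
  have hinv : (((m : GLn)⁻¹ : GLn) : Mn) * ((m : GLn) : Mn) = 1 := by
    rw [← Units.val_mul, inv_mul_cancel, Units.val_one]
  obtain ⟨u, hu⟩ := hfixroot c hc (((m : GLn) : Mn) *ᵥ y) (by
    intro φ h1
    obtain ⟨_, g', hg', e'⟩ := hroot c φ h1
    have hs : g' ∈ SS (a := a) c := ⟨φ, h1, e'⟩
    have h3 := hfix _ (key g' hs)
    rw [Units.val_mul, Units.val_mul] at h3
    have h4 : ((m : GLn) : Mn) *ᵥ (((((m : GLn)⁻¹ : GLn) : Mn) * (g' : Mn) * ((m : GLn) : Mn)) *ᵥ y)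
        = ((m : GLn) : Mn) *ᵥ y := by rw [h3]
    rw [Matrix.mulVec_mulVec, ← mul_assoc, ← mul_assoc, hinv', one_mul, ← Matrix.mulVec_mulVec,
      e', Matrix.add_mulVec, Matrix.one_mulVec] at h4
    exact add_eq_left.1 h4)
  apply hy
  have hmK : ((m : GLn)⁻¹ : GLn) ∈ KS a b F := (KS a b F).inv_mem (m.2.1)
  obtain ⟨g₁, g₂, e⟩ := hmK
  refine ⟨(g₁ : Ma) *ᵥ u, (g₂ : Mb) *ᵥ c, ?_⟩
  rw [← kron_mulVec_tens, ← e, ← hu, Matrix.mulVec_mulVec, hinv, Matrix.one_mulVec]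

end Cfsg.Agent.Lib.Helper63TSylfix0
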