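import Cfsg.Agent.Lib.Helper49SDefs
import Cfsg.Agent.Lib.H49SFixR
import Cfsg.Agent.Lib.H49SConj
import Cfsg.Agent.Lib.H49STv
import Cfsg.Agent.Lib.Helper63TSylfix0

/-!
# PROJECT 50 (S5704), piece `Sylfix`
-/

set_option autoImplicit false
set_option linter.unusedSectionVars false
set_option linter.unusedVariables false

namespace Cfsg.Agent.Lib.H49SSylfix

open scoped Matrix Kronecker
open Matrix Cfsg.Agent.Lib.Helper49TDefs Cfsg.Agent.Lib.Helper49SDefs Cfsg.Agent.Lib.Helper49Eich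
open Cfsg.Agent.Lib.H49SFixR
open Cfsg.Agent.Lib.H49SConj
open Cfsg.Agent.Lib.H49STv

variable {F : Type*} [Field F] {a b n : ℕ}

local notation "GLn" => Matrix.GeneralLinearGroup (Fin a × Fin b) F
local notation "Mn" => Matrix (Fin a × Fin b) (Fin a × Fin b) F
local notation "Ma" => Matrix (Fin a) (Fin a) F
local notation "Mb" => Matrix (Fin b) (Fin b) F
local notation "GLa" => Matrix.GeneralLinearGroup (Fin a) F
local notation "GLb" => Matrix.GeneralLinearGroup (Fin b) F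
local notation "𝐏" => QuadraticMap.polar

/-- the nilpotent part of an element of the unipotent radical of the stabiliser of `c` -/
def RB (J : Mb) (c e : Fin b → F) (l : F) : Mb := NJ J e c + NJ J c e + l • NJ J c c

theorem RB_mul {J : Mb} (hJ : IsSympMat J) (c e e' : Fin b → F) (l l' : F) (he : bf J e c = 0)
    (he' : bf J e' c = 0) : RB J c e l * RB J c e' l' = bf J e' e • NJ J c c := by
  have hc : bf J c c = 0 := hJ.alt c
  have hce : bf J c e = 0 := by rw [hJ.swap, he, neg_zero]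
  simp only [RB, add_mul, mul_add, smul_mul_assoc, mul_smul_comm, NJ_mul, hc, hce, he', zero_smul,
    smul_zero, add_zero, zero_add]

theorem RB_add (J : Mb) (c e e' : Fin b → F) (l l' : F) :
    RB J c e l + RB J c e' l' = RB J c (e + e') (l + l') := by
  simp only [RB, NJ_add_left, NJ_add_right, add_smul]
  abel

theorem RB_add_smul (J : Mb) (c e : Fin b → F) (l k : F) :
    RB J c e l + k • NJ J c c = RB J c e (l + k) := by
  simp only [RB, add_smul]
  abel

theorem kron_RB_mul {J : Mb} (hJ : IsSympMat J) (c e e' : Fin b → F) (l l' : F)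
    (he : bf J e c = 0) (he' : bf J e' c = 0) :
    ((1 : Ma) ⊗ₖ RB J c e l) * ((1 : Ma) ⊗ₖ RB J c e' l') = (1 : Ma) ⊗ₖ (bf J e' e • NJ J c c) := by
  rw [← Matrix.mul_kronecker_mul, RB_mul hJ c e e' l l' he he', one_mul]

/-- the unipotent radical of the stabiliser of `c` in `1 ⊗ Sp(V₂)` -/
def RS {J : Mb} (hJ : IsSympMat J) (c : Fin b → F) : Subgroup GLn where
  carrier := {g | ∃ (e : Fin b → F) (l : F), bf J e c = 0 ∧ (g : Mn) = 1 + (1 : Ma) ⊗ₖ RB J c e l}
  mul_mem' := by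
    rintro g h ⟨e, l, h1, e1⟩ ⟨e', l', h2, e2⟩
    refine ⟨e + e', l + l' + bf J e' e, by rw [bf_add_left, h1, h2, add_zero], ?_⟩
    rw [Units.val_mul, e1, e2, add_mul, mul_add, mul_add, kron_RB_mul hJ c e e' l l' h1 h2,
      ← RB_add_smul, ← RB_add, Matrix.kronecker_add, Matrix.kronecker_add]
    simp only [mul_one, one_mul]
    abel
  one_mem' := ⟨0, 0, by simp, by simp [RB, NJ]⟩
  inv_mem' := by
    rintro g ⟨e, l, h1, e1⟩
    refine ⟨-e, -l, by rw [bf_neg_left, h1, neg_zero], ?_⟩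
    rw [Units.inv_eq_of_mul_eq_one_right]
    rw [e1, add_mul, mul_add, mul_add,
      kron_RB_mul hJ c e (-e) l (-l) h1 (by rw [bf_neg_left, h1, neg_zero]), bf_neg_left, hJ.alt e]
    simp only [mul_one, one_mul, neg_zero, zero_smul, Matrix.kronecker_zero, add_zero]
    rw [add_assoc, add_comm ((1 : Ma) ⊗ₖ RB J c (-e) (-l)), ← Matrix.kronecker_add, RB_add]
    simp [RB, NJ]

theorem isPGroup_RS (p : ℕ) [Fact p.Prime] [CharP F p] {J : Mb} (hJ : IsSympMat J)
    (c : Fin b → F) : IsPGroup p (RS (a := a) hJ c) := by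
  rintro ⟨g, e, l, h1, e1⟩
  refine ⟨1, ?_⟩
  apply Subtype.ext
  apply Units.ext
  have hp : 2 ≤ p := (Fact.out : p.Prime).two_le
  have hB : ((1 : Ma) ⊗ₖ RB J c e l) ^ p = 0 := by
    obtain ⟨k, rfl⟩ := Nat.exists_eq_add_of_le hp
    rw [pow_add, pow_two, kron_RB_mul hJ c e e l l h1 h1, hJ.alt e]
    simp
  by_cases hne : Nonempty (Fin a × Fin b)
  · haveI : CharP Mn p := Matrix.charP p
    simp only [pow_one, Subgroup.coe_pow, Units.val_pow_eq_pow_val, Subgroup.coe_one, Units.val_one]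
    rw [e1, add_pow_char_of_commute _ (Commute.one_left _), hB]
    simp
  · haveI : IsEmpty (Fin a × Fin b) := not_nonempty_iff.1 hne
    exact Subsingleton.elim _ _

theorem RB_mem [Fintype F] (D : SpDat F a b) (hn : 5 ≤ a * b) (c e : Fin b → F) (l : F)
    (h : bf D.J₂ e c = 0) : (1 : Ma) ⊗ₖ RB D.J₂ c e l ∈ NN (KS a b F ⊓ OG D) := by
  have h1 := rad_mem D hn c e h
  have h2 := tv2_mem D hn c l
  have hc : bf D.J₂ c c = 0 := D.h₂.alt c
  have hce : bf D.J₂ c e = 0 := by rw [D.h₂.swap, h, neg_zero]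
  have := NN_add h1 h2
    (by
      rw [← Matrix.mul_kronecker_mul]
      simp only [add_mul, mul_smul_comm, NJ_mul, hc, hce, zero_smul, smul_zero, add_zero,
        Matrix.kronecker_zero])
    (by
      rw [← Matrix.mul_kronecker_mul]
      simp only [mul_add, smul_mul_assoc, NJ_mul, hc, h, zero_smul, smul_zero, add_zero,
        Matrix.kronecker_zero])
  rw [← Matrix.kronecker_add] at this
  exact this

/-- a `p`-subgroup of `M = KS ⊓ Ω` of maximal order fixes only pure tensors -/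
theorem card_lt_of_fix2 [Fintype F] (D : SpDat F a b) (hn : 5 ≤ a * b) (hb : 2 ≤ b)
    (p : ℕ) [Fact p.Prime] [CharP F p] (P Q : Subgroup GLn)
    (hPmax : ∀ R : Subgroup GLn, R ≤ KS a b F ⊓ OG D → IsPGroup p R → Nat.card R ≤ Nat.card P)
    (hP : P ≤ KS a b F ⊓ OG D) (hPp : IsPGroup p P)
    (hQ : Q ≤ KS a b F ⊓ OG D) (hQp : IsPGroup p Q)
    (y : Fin a × Fin b → F) (hy : ¬ IsPure y) (hfix : ∀ g ∈ Q, (g : Mn) *ᵥ y = y) :
    Nat.card Q < Nat.card P := by
  classical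
  rcases lt_or_eq_of_le (hPmax Q hQ hQp) with h | heq
  · exact h
  exfalso
  set M : Subgroup GLn := KS a b F ⊓ OG D with hM
  have hb0 : 0 < b := by omega
  let c : Fin b → F := Pi.single ⟨0, hb0⟩ 1
  have hc : c ≠ 0 := by
    intro h
    have := congrFun h ⟨0, hb0⟩
    simp [c] at this
  have hSM : RS (a := a) D.h₂ c ≤ M := by
    rintro g ⟨e, l, h1, e1⟩
    obtain ⟨_, g', hg', e'⟩ := RB_mem D hn c e l h1
    have : g = g' := Units.ext (by rw [e1, e'])
    rw [this]; exact hg'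
  have hSp : IsPGroup p (RS (a := a) D.h₂ c) := isPGroup_RS p D.h₂ c
  obtain ⟨Q1, hQ1⟩ := IsPGroup.exists_le_sylow (hQp.comap_subtype (K := M))
  obtain ⟨S1, hS1⟩ := IsPGroup.exists_le_sylow (hSp.comap_subtype (K := M))
  have hcard1 : Nat.card (Q1 : Subgroup M) ≤ Nat.card P := by
    have := hPmax ((Q1 : Subgroup M).map M.subtype) (Subgroup.map_subtype_le _)
      (Q1.isPGroup'.map _)
    rwa [Subgroup.card_map_of_injective M.subtype_injective] at this
  have hcard2 : Nat.card (Q.comap M.subtype) = Nat.card Q :=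
    Nat.card_congr (Subgroup.subgroupOfEquivOfLe hQ).toEquiv
  have hQ1eq : Q.comap M.subtype = (Q1 : Subgroup M) :=
    Subgroup.eq_of_le_of_card_ge hQ1 (by rw [hcard2, heq]; exact hcard1)
  obtain ⟨m, hm⟩ := MulAction.exists_smul_eq M Q1 S1
  have key : ∀ s ∈ RS (a := a) D.h₂ c, ((m : GLn)⁻¹ * s * (m : GLn)) ∈ Q := by
    intro s hs
    have h1 : (⟨s, hSM hs⟩ : M) ∈ (S1 : Subgroup M) := hS1 hs
    rw [← hm, Sylow.smul_def, Sylow.pointwise_smul_def,
      Subgroup.mem_pointwise_smul_iff_inv_smul_mem, ← hQ1eq] at h1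
    simp only [MulAut.smul_def, MulAut.conj_apply, ← map_inv, inv_inv] at h1
    exact h1
  have hinv' : ((m : GLn) : Mn) * (((m : GLn)⁻¹ : GLn) : Mn) = 1 := by
    rw [← Units.val_mul, mul_inv_cancel, Units.val_one]
  have hinv : (((m : GLn)⁻¹ : GLn) : Mn) * ((m : GLn) : Mn) = 1 := by
    rw [← Units.val_mul, inv_mul_cancel, Units.val_one]
  have hkill : ∀ (e : Fin b → F) (l : F), bf D.J₂ e c = 0 →
      ((1 : Ma) ⊗ₖ RB D.J₂ c e l) *ᵥ (((m : GLn) : Mn) *ᵥ y) = 0 := by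
    intro e l h1
    obtain ⟨_, g', hg', e'⟩ := RB_mem D hn c e l h1
    have hs : g' ∈ RS (a := a) D.h₂ c := ⟨e, l, h1, e'⟩
    have h3 := hfix _ (key g' hs)
    rw [Units.val_mul, Units.val_mul] at h3
    have h4 : ((m : GLn) : Mn) *ᵥ (((((m : GLn)⁻¹ : GLn) : Mn) * (g' : Mn) * ((m : GLn) : Mn)) *ᵥ y)
        = ((m : GLn) : Mn) *ᵥ y := by rw [h3]
    rw [Matrix.mulVec_mulVec, ← mul_assoc, ← mul_assoc, hinv', one_mul, ← Matrix.mulVec_mulVec,
      e', Matrix.add_mulVec, Matrix.one_mulVec] at h4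
    exact add_eq_left.1 h4
  obtain ⟨u, hu⟩ := pure_of_fixed2 D hc (((m : GLn) : Mn) *ᵥ y)
    (by
      have := hkill 0 1 (by simp)
      simpa [RB, NJ] using this)
    (by
      intro e he
      have := hkill e 0 he
      simpa [RB] using this)
  apply hy
  have hmK : ((m : GLn)⁻¹ : GLn) ∈ KS a b F := (KS a b F).inv_mem (m.2.1)
  obtain ⟨g₁, g₂, e⟩ := hmK
  refine ⟨(g₁ : Ma) *ᵥ u, (g₂ : Mb) *ᵥ c, ?_⟩
  rw [← kron_mulVec_tens, ← e, ← hu, Matrix.mulVec_mulVec, hinv, Matrix.one_mulVec]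

end Cfsg.Agent.Lib.H49SSylfix
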