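import Cfsg.Agent.Lib.Helper49TDefs

/-!
# Project TENS, piece `pure`: a linear map preserving pure tensors is a Kronecker product
-/

set_option autoImplicit false
set_option linter.unusedSectionVars false
set_option linter.unusedVariables false

namespace Cfsg.Agent.Lib.Helper13TPure

open scoped Matrix Kronecker
open Matrix Cfsg.Agent.Lib.Helper49TDefs

variable {F : Type*} [Field F] {a b : ℕ}

/-- the wedge of `u` and `v` vanishes -/
def Par {n : ℕ} (u v : Fin n → F) : Prop := ∀ s s', u s * v s' = u s' * v s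

theorem Par.exists_smul {n : ℕ} {u v : Fin n → F} (h : Par u v) (hu : u ≠ 0) :
    ∃ c : F, v = c • u := by
  obtain ⟨r, hr⟩ := Function.ne_iff.mp hu
  simp only [Pi.zero_apply] at hr
  refine ⟨v r / u r, ?_⟩
  ext s
  have := h r s
  simp only [Pi.smul_apply, smul_eq_mul]
  field_simp
  linear_combination this

theorem Par.symm {n : ℕ} {u v : Fin n → F} (h : Par u v) : Par v u := by
  intro s s'
  have := h s' s
  linear_combination this

theorem par_smul {n : ℕ} (u : Fin n → F) (c : F) : Par u (c • u) := by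
  intro s s'
  simp only [Pi.smul_apply, smul_eq_mul]
  ring

theorem Par.of_smul_right {n : ℕ} {u v : Fin n → F} {c : F} (hc : c ≠ 0) (h : Par u (c • v)) :
    Par u v := by
  intro s s'
  have := h s s'
  simp only [Pi.smul_apply, smul_eq_mul] at this
  apply mul_left_cancel₀ hc
  linear_combination this

theorem Par.of_smul_left {n : ℕ} {u v : Fin n → F} {c : F} (hc : c ≠ 0) (h : Par (c • u) v) :
    Par u v := (Par.of_smul_right hc h.symm).symm

theorem tens_smul_left (c : F) (u : Fin a → F) (z : Fin b → F) :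
    tens (c • u) z = c • tens u z := by
  ext p
  simp [tens, mul_assoc]

theorem tens_smul_right (c : F) (u : Fin a → F) (z : Fin b → F) :
    tens u (c • z) = c • tens u z := by
  ext p
  simp only [tens, Pi.smul_apply, smul_eq_mul]
  ring

theorem tens_zero_left (z : Fin b → F) : tens (0 : Fin a → F) z = 0 := by
  ext p
  simp [tens]

theorem tens_zero_right (u : Fin a → F) : tens u (0 : Fin b → F) = 0 := by
  ext p
  simp [tens]

theorem tens_add_left (u u' : Fin a → F) (z : Fin b → F) :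
    tens (u + u') z = tens u z + tens u' z := by
  ext p
  simp [tens, add_mul]

theorem tens_add_right (u : Fin a → F) (z z' : Fin b → F) :
    tens u (z + z') = tens u z + tens u z' := by
  ext p
  simp [tens, mul_add]

theorem tens_eq_zero {u : Fin a → F} {z : Fin b → F} (h : tens u z = 0) (hu : u ≠ 0) : z = 0 := by
  obtain ⟨r, hr⟩ := Function.ne_iff.mp hu
  simp only [Pi.zero_apply] at hr
  ext j
  have := congrFun h (r, j)
  simp only [tens, Pi.zero_apply] at this
  exact (mul_eq_zero.mp this).resolve_left hr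

theorem tens_eq_zero' {u : Fin a → F} {z : Fin b → F} (h : tens u z = 0) (hz : z ≠ 0) : u = 0 := by
  obtain ⟨r, hr⟩ := Function.ne_iff.mp hz
  simp only [Pi.zero_apply] at hr
  ext j
  have := congrFun h (j, r)
  simp only [tens, Pi.zero_apply] at this
  exact (mul_eq_zero.mp this).resolve_right hr

theorem par_or_par {u₁ u₂ : Fin a → F} {c₁ c₂ : Fin b → F}
    (h : IsPure (tens u₁ c₁ + tens u₂ c₂)) : Par u₁ u₂ ∨ Par c₁ c₂ := by
  by_contra hcon
  push Not at hcon
  obtain ⟨h1, h2⟩ := hcon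
  unfold Par at h1 h2
  push Not at h1 h2
  obtain ⟨s, s', hs⟩ := h1
  obtain ⟨j, j', hj⟩ := h2
  obtain ⟨u, c, huc⟩ := h
  have e1 := congrFun huc (s, j)
  have e2 := congrFun huc (s', j')
  have e3 := congrFun huc (s, j')
  have e4 := congrFun huc (s', j)
  simp only [tens, Pi.add_apply] at e1 e2 e3 e4
  have key : (u₁ s * u₂ s' - u₁ s' * u₂ s) * (c₁ j * c₂ j' - c₁ j' * c₂ j) = 0 := by
    have : (u₁ s * c₁ j + u₂ s * c₂ j) * (u₁ s' * c₁ j' + u₂ s' * c₂ j')
        - (u₁ s * c₁ j' + u₂ s * c₂ j') * (u₁ s' * c₁ j + u₂ s' * c₂ j) = 0 := by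
      rw [e1, e2, e3, e4]; ring
    linear_combination this
  rcases mul_eq_zero.mp key with h | h
  · exact hs (sub_eq_zero.mp h)
  · exact hj (sub_eq_zero.mp h)

/-- a space of pure tensors lies in `x₀ ⊗ V₂` or in `V₁ ⊗ z₀` -/
theorem pure_range {E : Type*} [AddCommGroup E] [Module F E]
    (A : E →ₗ[F] (Fin a × Fin b → F)) (hA : ∀ w, IsPure (A w)) :
    (∃ x₀ : Fin a → F, ∀ w, ∃ z, A w = tens x₀ z) ∨
      (∃ z₀ : Fin b → F, ∀ w, ∃ x, A w = tens x z₀) := by
  by_cases h0 : ∀ w, A w = 0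
  · exact Or.inl ⟨0, fun w => ⟨0, by rw [h0 w, tens_zero_left]⟩⟩
  push Not at h0
  obtain ⟨w₀, hw₀⟩ := h0
  obtain ⟨x₀, z₀, e₀⟩ := hA w₀
  have hx₀ : x₀ ≠ 0 := by
    rintro rfl
    exact hw₀ (by rw [e₀, tens_zero_left])
  have hz₀ : z₀ ≠ 0 := by
    rintro rfl
    exact hw₀ (by rw [e₀, tens_zero_right])
  by_cases hL : ∀ w, ∃ z, A w = tens x₀ z
  · exact Or.inl ⟨x₀, hL⟩
  push Not at hL
  obtain ⟨w₁, hw₁⟩ := hL
  obtain ⟨x₁, z₁, e₁⟩ := hA w₁
  have hnp : ¬ Par x₀ x₁ := by
    intro hp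
    obtain ⟨c, rfl⟩ := hp.exists_smul hx₀
    exact hw₁ (c • z₁) (by rw [e₁, tens_smul_left, tens_smul_right])
  have hz₁ : z₁ ≠ 0 := by
    rintro rfl
    exact hw₁ 0 (by rw [e₁, tens_zero_right, tens_zero_right])
  have hp01 : Par z₀ z₁ := by
    have := hA (w₀ + w₁)
    rw [map_add, e₀, e₁] at this
    exact (par_or_par this).resolve_left hnp
  obtain ⟨μ, hμ⟩ := hp01.exists_smul hz₀
  have hμ0 : μ ≠ 0 := by
    rintro rfl
    exact hz₁ (by rw [hμ, zero_smul])
  refine Or.inr ⟨z₀, fun w => ?_⟩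
  obtain ⟨x, z, e⟩ := hA w
  by_cases hpz : Par z₀ z
  · obtain ⟨ν, rfl⟩ := hpz.exists_smul hz₀
    exact ⟨ν • x, by rw [e, tens_smul_left, tens_smul_right]⟩
  have hp0 : Par x₀ x := by
    have := hA (w₀ + w)
    rw [map_add, e₀, e] at this
    exact (par_or_par this).resolve_right hpz
  have hp1 : Par x₁ x := by
    have := hA (w₁ + w)
    rw [map_add, e₁, e] at this
    refine (par_or_par this).resolve_right fun h => hpz ?_
    rw [hμ] at h
    exact h.of_smul_left hμ0
  obtain ⟨l, rfl⟩ := hp0.exists_smul hx₀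
  by_cases hl : l = 0
  · subst hl
    exact ⟨0, by rw [e, zero_smul, tens_zero_left, tens_zero_left]⟩
  · exact absurd (hp1.of_smul_right hl).symm hnp

/-- `w ↦ u ⊗ w` -/
def tensL (u : Fin a → F) : (Fin b → F) →ₗ[F] (Fin a × Fin b → F) where
  toFun w := tens u w
  map_add' := fun w w' => tens_add_right u w w'
  map_smul' := fun c w => tens_smul_right c u w

@[simp] theorem tensL_apply (u : Fin a → F) (w : Fin b → F) : tensL u w = tens u w := rfl

/-- two linear maps with `γ' w ∥ γ w` for all `w`, `γ` injective, are proportional -/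
theorem exists_smul_of_par {n : ℕ} (γ γ' : (Fin b → F) →ₗ[F] (Fin n → F))
    (hinj : Function.Injective γ) (hb : 0 < b) (h : ∀ w, Par (γ w) (γ' w)) :
    ∃ c : F, ∀ w, γ' w = c • γ w := by
  classical
  have h1 : ∀ w, w ≠ 0 → ∃ c : F, γ' w = c • γ w := fun w hw =>
    (h w).exists_smul (fun h0 => hw (hinj (by rw [h0, map_zero])))
  have hf : ∀ j : Fin b, (Pi.single j (1 : F) : Fin b → F) ≠ 0 := fun j h0 => by
    have := congrFun h0 j
    simp at this
  choose l hl using fun j => h1 _ (hf j)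
  have heq : ∀ j j', l j = l j' := by
    intro j j'
    by_cases hjj : j = j'
    · rw [hjj]
    have hne : (Pi.single j (1 : F) + Pi.single j' (1 : F) : Fin b → F) ≠ 0 := fun h0 => by
      have := congrFun h0 j
      simp [hjj] at this
    obtain ⟨c, hc⟩ := h1 _ hne
    rw [map_add, map_add, hl, hl] at hc
    have h2 : γ ((l j - c) • Pi.single j (1 : F) + (l j' - c) • Pi.single j' (1 : F)) = 0 := by
      rw [map_add, map_smul, map_smul, sub_smul, sub_smul]
      rw [smul_add] at hc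
      rw [sub_add_sub_comm, hc, sub_self]
    have h3 := hinj (h2.trans (map_zero γ).symm)
    have e1 := congrFun h3 j
    have e2 := congrFun h3 j'
    simp [hjj, Ne.symm hjj] at e1 e2
    rw [sub_eq_zero.mp e1, sub_eq_zero.mp e2]
  refine ⟨l ⟨0, hb⟩, fun w => ?_⟩
  have : γ' = l ⟨0, hb⟩ • γ := by
    apply (Pi.basisFun F (Fin b)).ext
    intro j
    rw [Pi.basisFun_apply, hl, heq j ⟨0, hb⟩]
    rfl
  rw [this]
  rfl


local notation "GLn" => Matrix.GeneralLinearGroup (Fin a × Fin b) F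
local notation "Mn" => Matrix (Fin a × Fin b) (Fin a × Fin b) F
local notation "Ma" => Matrix (Fin a) (Fin a) F
local notation "Mb" => Matrix (Fin b) (Fin b) F

theorem mulVec_inj (g : GLn) {y y' : Fin a × Fin b → F} (h : (g : Mn) *ᵥ y = (g : Mn) *ᵥ y') :
    y = y' := by
  have := congrArg (fun v => ((g⁻¹ : GLn) : Mn) *ᵥ v) h
  simpa [Matrix.mulVec_mulVec, ← Units.val_mul] using this

/-- step 1: `g (u ⊗ V₂) = x₀ ⊗ V₂` -/
theorem step1 (h12 : a < b) (g : GLn) (hg : ∀ y, IsPure y → IsPure ((g : Mn) *ᵥ y))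
    (u : Fin a → F) (hu : u ≠ 0) :
    ∃ (x₀ : Fin a → F) (γ : (Fin b → F) →ₗ[F] (Fin b → F)), x₀ ≠ 0 ∧ Function.Injective γ ∧
      ∀ w, (g : Mn) *ᵥ tens u w = tens x₀ (γ w) := by
  classical
  set A : (Fin b → F) →ₗ[F] (Fin a × Fin b → F) := (Matrix.mulVecLin (g : Mn)) ∘ₗ tensL u with hA
  have hAw : ∀ w, A w = (g : Mn) *ᵥ tens u w := fun w => rfl
  have hAinj : ∀ w, A w = 0 → w = 0 := by
    intro w hw
    rw [hAw] at hw
    have : tens u w = 0 := mulVec_inj g (by rw [hw, Matrix.mulVec_zero])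
    exact tens_eq_zero this hu
  have hb : 0 < b := by omega
  have hw1 : (Pi.single ⟨0, hb⟩ (1 : F) : Fin b → F) ≠ 0 := fun h0 => by
    have := congrFun h0 ⟨0, hb⟩
    simp at this
  have hleft : ∃ x₀ : Fin a → F, ∀ w, ∃ z, A w = tens x₀ z := by
    rcases pure_range A (fun w => hg _ ⟨u, w, rfl⟩) with h | ⟨z₀, hz₀⟩
    · exact h
    exfalso
    have hz0 : z₀ ≠ 0 := by
      rintro rfl
      obtain ⟨x, hx⟩ := hz₀ (Pi.single ⟨0, hb⟩ (1 : F))
      rw [tens_zero_right] at hx
      exact hw1 (hAinj _ hx)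
    obtain ⟨j₀, hj₀⟩ := Function.ne_iff.mp hz0
    simp only [Pi.zero_apply] at hj₀
    let B : (Fin b → F) →ₗ[F] (Fin a → F) := LinearMap.pi fun s => LinearMap.proj (s, j₀) ∘ₗ A
    have hker : LinearMap.ker B ≠ ⊥ := LinearMap.ker_ne_bot_of_finrank_lt (by simpa using h12)
    obtain ⟨w, hwk, hw0⟩ := (Submodule.ne_bot_iff _).mp hker
    apply hw0
    apply hAinj
    obtain ⟨x, hx⟩ := hz₀ w
    have hx0 : x = 0 := by
      ext s
      have h1 : B w s = 0 := by
        rw [LinearMap.mem_ker.mp hwk]; rfl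
      have h2 : B w s = A w (s, j₀) := rfl
      rw [h2, hx] at h1
      simp only [tens] at h1
      exact (mul_eq_zero.mp h1).resolve_right hj₀
    rw [hx, hx0, tens_zero_left]
  obtain ⟨x₀, hx₀⟩ := hleft
  have hx0 : x₀ ≠ 0 := by
    rintro rfl
    obtain ⟨z, hz⟩ := hx₀ (Pi.single ⟨0, hb⟩ (1 : F))
    rw [tens_zero_left] at hz
    exact hw1 (hAinj _ hz)
  obtain ⟨r, hr⟩ := Function.ne_iff.mp hx0
  simp only [Pi.zero_apply] at hr
  let γ : (Fin b → F) →ₗ[F] (Fin b → F) :=
    (x₀ r)⁻¹ • LinearMap.pi fun j => LinearMap.proj (r, j) ∘ₗ A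
  have hγ : ∀ w, (g : Mn) *ᵥ tens u w = tens x₀ (γ w) := by
    intro w
    obtain ⟨z, hz⟩ := hx₀ w
    have : γ w = z := by
      ext j
      have h2 : γ w j = (x₀ r)⁻¹ * A w (r, j) := rfl
      rw [h2, hz]
      simp only [tens]
      field_simp
    rw [this, ← hAw, hz]
  refine ⟨x₀, γ, hx0, ?_, hγ⟩
  rw [injective_iff_map_eq_zero]
  intro w hw
  apply hAinj
  rw [hAw, hγ, hw, tens_zero_right]

/-- piece `pure`: a linear map preserving pure tensors is a Kronecker product (`a < b`) -/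
theorem mem_KS_of_pure (h1 : 2 ≤ a) (h12 : a < b) (g : GLn)
    (hg : ∀ y, IsPure y → IsPure ((g : Mn) *ᵥ y)) : g ∈ KS a b F := by
  classical
  have hb : 0 < b := by omega
  have ha : 0 < a := by omega
  have he : ∀ s : Fin a, (Pi.single s (1 : F) : Fin a → F) ≠ 0 := fun s h0 => by
    have := congrFun h0 s
    simp at this
  choose π γ hπ hγi hγ using fun s => step1 h12 g hg _ (he s)
  have hw1 : (Pi.single ⟨0, hb⟩ (1 : F) : Fin b → F) ≠ 0 := fun h0 => by
    have := congrFun h0 ⟨0, hb⟩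
    simp at this
  have hnp : ∀ s s', s ≠ s' → ¬ Par (π s) (π s') := by
    intro s s' hss hp
    obtain ⟨c, hc⟩ := hp.exists_smul (hπ s)
    obtain ⟨w, hw⟩ := (LinearMap.injective_iff_surjective.mp (hγi s))
      (c • γ s' (Pi.single ⟨0, hb⟩ (1 : F)))
    have h2 : (g : Mn) *ᵥ tens (Pi.single s (1 : F)) w =
        (g : Mn) *ᵥ tens (Pi.single s' (1 : F)) (Pi.single ⟨0, hb⟩ (1 : F)) := by
      rw [hγ, hγ, hw, hc, tens_smul_left, tens_smul_right]
    have h3 := congrFun (mulVec_inj g h2) (s', ⟨0, hb⟩)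
    simp [tens, hss] at h3
  have hpar : ∀ s s', s ≠ s' → ∀ w, Par (γ s w) (γ s' w) := by
    intro s s' hss w
    have := hg (tens (Pi.single s (1 : F) + Pi.single s' (1 : F)) w) ⟨_, _, rfl⟩
    rw [tens_add_left, Matrix.mulVec_add, hγ, hγ] at this
    exact (par_or_par this).resolve_left (hnp s s' hss)
  have hl : ∀ s, ∃ c : F, ∀ w, γ s w = c • γ ⟨0, ha⟩ w := by
    intro s
    by_cases hs : s = ⟨0, ha⟩
    · exact ⟨1, fun w => by rw [hs, one_smul]⟩
    · exact exists_smul_of_par _ _ (hγi _) hb (hpar _ _ (Ne.symm hs))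
  choose l hl using hl
  let g₁ : Ma := Matrix.of fun r s => l s * π s r
  let g₂ : Mb := Matrix.of fun i j => γ ⟨0, ha⟩ (Pi.single j (1 : F)) i
  have hG : (g : Mn) = g₁ ⊗ₖ g₂ := by
    ext ⟨r, i⟩ ⟨s, j⟩
    have h2 : tens (Pi.single s (1 : F)) (Pi.single j (1 : F)) =
        (Pi.single (s, j) (1 : F) : Fin a × Fin b → F) := by
      ext ⟨s', j'⟩
      by_cases h1 : s' = s
      · by_cases h2 : j' = j
        · simp [tens, h1, h2]
        · simp [tens, h1, h2]
      · simp [tens, h1, Pi.single_apply]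
    have h3 := congrFun (hγ s (Pi.single j (1 : F))) (r, i)
    rw [h2, Matrix.mulVec_single_one, hl] at h3
    simp only [Matrix.col_apply, tens, Pi.smul_apply, smul_eq_mul] at h3
    rw [h3, Matrix.kroneckerMap_apply]
    simp only [g₁, g₂, Matrix.of_apply]
    ring
  have hdet : (g : Mn).det ≠ 0 := by
    have := (Matrix.isUnit_iff_isUnit_det _).mp g.isUnit
    exact this.ne_zero
  rw [hG, Matrix.det_kronecker] at hdet
  have hd1 : g₁.det ≠ 0 := by
    intro h0
    apply hdet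
    rw [h0, zero_pow (by simpa using hb.ne'), zero_mul]
  have hd2 : g₂.det ≠ 0 := by
    intro h0
    apply hdet
    rw [h0, zero_pow (by simpa using ha.ne'), mul_zero]
  exact ⟨Matrix.GeneralLinearGroup.mkOfDetNeZero g₁ hd1,
    Matrix.GeneralLinearGroup.mkOfDetNeZero g₂ hd2, hG⟩

end Cfsg.Agent.Lib.Helper13TPure
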