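import Cfsg.Agent.Lib.Helper49TDefs

/-!
# Project TENS, piece `pfix`: a `p`-group of matrices in characteristic `p` fixes a non-zero vector.
-/

set_option autoImplicit false
set_option linter.unusedSectionVars false

namespace Cfsg.Agent.Lib.Helper14TPfix

open scoped Matrix Kronecker
open Matrix Cfsg.Agent.Lib.Helper49TDefs

variable {F : Type*} [Field F] {a b : ℕ}

local notation "GLn" => Matrix.GeneralLinearGroup (Fin a × Fin b) F
local notation "Mn" => Matrix (Fin a × Fin b) (Fin a × Fin b) F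

/-- the natural action of a subgroup of `GL` on vectors -/
@[reducible] def act {ι : Type*} [Fintype ι] [DecidableEq ι]
    (P : Subgroup (Matrix.GeneralLinearGroup ι F)) : MulAction P (ι → F) where
  smul g v := ((g : Matrix.GeneralLinearGroup ι F) : Matrix ι ι F) *ᵥ v
  one_smul v := by
    change ((1 : Matrix.GeneralLinearGroup ι F) : Matrix ι ι F) *ᵥ v = v
    simp
  mul_smul g h v := by
    change (((g : Matrix.GeneralLinearGroup ι F) * (h : Matrix.GeneralLinearGroup ι F) :
      Matrix.GeneralLinearGroup ι F) : Matrix ι ι F) *ᵥ v = _ *ᵥ (_ *ᵥ v)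
    rw [Units.val_mul, Matrix.mulVec_mulVec]

/-- general version -/
theorem exists_fixed_gen {ι : Type*} [Fintype ι] [DecidableEq ι] [Nonempty ι] [Fintype F]
    (p : ℕ) [Fact p.Prime] [CharP F p]
    (P : Subgroup (Matrix.GeneralLinearGroup ι F)) (hP : IsPGroup p P) :
    ∃ y : ι → F, y ≠ 0 ∧ ∀ g ∈ P, (g : Matrix ι ι F) *ᵥ y = y := by
  classical
  letI := act P
  have hdvd : p ∣ Nat.card (ι → F) := by
    rw [Nat.card_eq_fintype_card, Fintype.card_fun]
    have h1 : p ∣ Fintype.card F := by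
      obtain ⟨n, hp, hn⟩ := FiniteField.card F p
      rw [hn]
      exact dvd_pow_self p n.ne_zero
    exact dvd_pow h1 Fintype.card_ne_zero
  have h0 : (0 : ι → F) ∈ MulAction.fixedPoints P (ι → F) := by
    intro g
    change ((g : Matrix.GeneralLinearGroup ι F) : Matrix ι ι F) *ᵥ 0 = 0
    simp
  obtain ⟨y, hy, hne⟩ := hP.exists_fixed_point_of_prime_dvd_card_of_fixed_point (ι → F) hdvd h0
  exact ⟨y, hne.symm, fun g hg => hy ⟨g, hg⟩⟩

/-- piece `pfix` -/
theorem exists_fixed [Fintype F] (p : ℕ) [Fact p.Prime] [CharP F p] (ha : 0 < a) (hb : 0 < b)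
    (P : Subgroup GLn) (hP : IsPGroup p P) :
    ∃ y : Fin a × Fin b → F, y ≠ 0 ∧ ∀ g ∈ P, (g : Mn) *ᵥ y = y := by
  haveI : Nonempty (Fin a × Fin b) := ⟨(⟨0, ha⟩, ⟨0, hb⟩)⟩
  exact exists_fixed_gen p P hP

end Cfsg.Agent.Lib.Helper14TPfix
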