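import Mathlib

/-!
# Project TENS, piece `sylabs`: the abstract Sylow step.
-/

set_option autoImplicit false

namespace Cfsg.Agent.Lib.Helper14TSylabs

/-- piece `sylabs` (pure finite group theory) -/
theorem sylow_step {G : Type*} [Group G] [Finite G] (p : ℕ) [Fact p.Prime]
    (H M St P : Subgroup G) (hPp : IsPGroup p P) (hPSt : P ≤ H ⊓ St)
    (hno : ∀ Q : Subgroup G, Q ≤ M ⊓ St → IsPGroup p Q → Nat.card Q < Nat.card P)
    (x : G) (hxM : x ∈ M) (hxH : x ∈ H) (hxS : x ∈ St) (hxp : IsPGroup p (Subgroup.zpowers x)) :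
    ∃ (T₀ : Subgroup G) (t : G), T₀ ≤ M ⊓ St ∧ x ∈ T₀ ∧ t ∈ H ∧ t ∉ M ∧
      ∀ w ∈ T₀, t⁻¹ * w * t ∈ T₀ := by
  classical
  -- work inside `K = H ⊓ St`
  set K : Subgroup G := H ⊓ St with hK
  have hxK : x ∈ K := ⟨hxH, hxS⟩
  -- a Sylow subgroup of K containing x
  have hzK : Subgroup.zpowers x ≤ K := by
    rw [Subgroup.zpowers_le]; exact hxK
  have hzp : IsPGroup p ((Subgroup.zpowers x).subgroupOf K) :=
    hxp.comap_of_injective K.subtype K.subtype_injective
  obtain ⟨S, hS⟩ := hzp.exists_le_sylow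
  have hPp' : IsPGroup p (P.subgroupOf K) :=
    hPp.comap_of_injective K.subtype K.subtype_injective
  obtain ⟨S', hS'⟩ := hPp'.exists_le_sylow
  set T : Subgroup G := (S : Subgroup K).map K.subtype with hT
  have hTK : T ≤ K := Subgroup.map_subtype_le _
  have hTp : IsPGroup p T := S.2.map _
  have hxT : x ∈ T := by
    refine ⟨⟨x, hxK⟩, hS ?_, rfl⟩
    rw [Subgroup.mem_subgroupOf]
    exact Subgroup.mem_zpowers x
  have hcardT : Nat.card P ≤ Nat.card T := by
    have h1 : Nat.card T = Nat.card (S : Subgroup K) :=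
      Subgroup.card_map_of_injective K.subtype_injective
    have h2 : Nat.card (S : Subgroup K) = Nat.card (S' : Subgroup K) := Sylow.card_eq_multiplicity S ▸ (Sylow.card_eq_multiplicity S').symm ▸ rfl
    have h3 : Nat.card (P.subgroupOf K) ≤ Nat.card (S' : Subgroup K) :=
      Subgroup.card_le_of_le hS'
    have h4 : Nat.card (P.subgroupOf K) = Nat.card P :=
      Nat.card_congr (Subgroup.subgroupOfEquivOfLe hPSt).toEquiv
    omega
  have hTM : ¬ T ≤ M := by
    intro h
    have := hno T (le_inf h (hTK.trans inf_le_right)) hTp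
    omega
  set T₀ : Subgroup G := T ⊓ M with hT₀
  have hlt : T₀ < T := by
    refine lt_of_le_of_ne inf_le_left ?_
    intro h
    exact hTM (h ▸ inf_le_right)
  -- normalizer condition in the p-group T
  haveI : Group.IsNilpotent T := hTp.isNilpotent
  have hnc : NormalizerCondition T := normalizerCondition_of_isNilpotent
  have hlt' : T₀.subgroupOf T < ⊤ := by
    rw [lt_top_iff_ne_top]
    intro h
    rw [Subgroup.subgroupOf_eq_top] at h
    exact absurd (le_antisymm hlt.le h) hlt.ne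
  have h5 := hnc _ hlt'
  obtain ⟨t, htN, htn⟩ := SetLike.exists_of_lt h5
  refine ⟨T₀, (t : G), ?_, ⟨hxT, hxM⟩, (hTK t.2).1, ?_, ?_⟩
  · exact le_inf inf_le_right (inf_le_left.trans (hTK.trans inf_le_right))
  · intro h
    exact htn (by rw [Subgroup.mem_subgroupOf]; exact ⟨t.2, h⟩)
  · intro w hw
    have h7 : t⁻¹ ∈ Subgroup.normalizer ((T₀.subgroupOf T : Subgroup T) : Set T) := Subgroup.inv_mem _ htN
    have h8 := (Subgroup.mem_normalizer_iff.mp h7 ⟨w, hw.1⟩).mp (by rw [Subgroup.mem_subgroupOf]; exact hw)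
    rw [Subgroup.mem_subgroupOf] at h8
    simpa using h8

end Cfsg.Agent.Lib.Helper14TSylabs
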