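import Cfsg.Agent.Lib.Helper49TDefs

/-!
# Project TENS, piece `rootrank`
-/

set_option autoImplicit false
set_option linter.unusedSectionVars false
set_option linter.unusedVariables false

namespace Cfsg.Agent.Lib.Helper70TRootrank

open scoped Matrix Kronecker
open Matrix Cfsg.Agent.Lib.Helper49TDefs

variable {F : Type*} [Field F] {a b : ℕ}

local notation "GLn" => Matrix.GeneralLinearGroup (Fin a × Fin b) F
local notation "Mn" => Matrix (Fin a × Fin b) (Fin a × Fin b) F
local notation "Ma" => Matrix (Fin a) (Fin a) F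
local notation "Mb" => Matrix (Fin b) (Fin b) F

/-- piece `rootrank` -/
theorem rank_root_le (c φ : Fin b → F) :
    ((1 : Ma) ⊗ₖ Matrix.vecMulVec c φ).rank ≤ a := by
  let L : Matrix (Fin a × Fin b) (Fin a) F := Matrix.of fun p s => if p.1 = s then c p.2 else 0
  let R : Matrix (Fin a) (Fin a × Fin b) F := Matrix.of fun s p => if s = p.1 then φ p.2 else 0
  have h : (1 : Ma) ⊗ₖ Matrix.vecMulVec c φ = L * R := by
    ext ⟨s, i⟩ ⟨s', j⟩
    simp only [Matrix.kroneckerMap_apply, Matrix.mul_apply, L, R, Matrix.of_apply,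
      Matrix.vecMulVec_apply, Matrix.one_apply]
    by_cases hs : s = s'
    · subst hs
      simp
    · simp [hs]
  rw [h]
  refine le_trans (Matrix.rank_mul_le_left _ _) ?_
  simpa using Matrix.rank_le_card_width L

end Cfsg.Agent.Lib.Helper70TRootrank
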