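import Cfsg.Agent.Lib.Helper49TDefs

/-! PROJECT 49 (TENS), piece `stab`: assembly of parts A, B, C. -/

set_option autoImplicit false
set_option linter.unusedSectionVars false
set_option linter.unusedVariables false

namespace Cfsg.Agent.Lib.Helper95TStab

open scoped Matrix Kronecker
open Matrix Cfsg.Agent.Lib.Helper49TDefs

variable {F : Type*} [Field F] {a b : ℕ}

local notation "GLn" => Matrix.GeneralLinearGroup (Fin a × Fin b) F
local notation "Mn" => Matrix (Fin a × Fin b) (Fin a × Fin b) F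
local notation "Ma" => Matrix (Fin a) (Fin a) F
local notation "Mb" => Matrix (Fin b) (Fin b) F

/-- the stabiliser of a vector -/
def vstab (y : Fin a × Fin b → F) : Subgroup GLn where
  carrier := {x | (x : Mn) *ᵥ y = y}
  mul_mem' := by
    intro x x' hx hx'
    show ((x * x' : GLn) : Mn) *ᵥ y = y
    rw [Units.val_mul, ← Matrix.mulVec_mulVec, hx', hx]
  one_mem' := by
    show ((1 : GLn) : Mn) *ᵥ y = y
    simp
  inv_mem' := by
    intro x hx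
    show ((x⁻¹ : GLn) : Mn) *ᵥ y = y
    have hx' : (x : Mn) *ᵥ y = y := hx
    conv_lhs => rw [← hx']
    rw [Matrix.mulVec_mulVec, ← Units.val_mul, inv_mul_cancel, Units.val_one, Matrix.one_mulVec]

lemma mem_vstab {y : Fin a × Fin b → F} {x : GLn} : x ∈ vstab y ↔ (x : Mn) *ᵥ y = y := Iff.rfl

lemma isPure_zero : IsPure (0 : Fin a × Fin b → F) := ⟨0, 0, by ext p; simp [tens]⟩

lemma tens_zero_left (c : Fin b → F) : tens (0 : Fin a → F) c = 0 := by ext p; simp [tens]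

lemma tens_zero_right (u : Fin a → F) : tens u (0 : Fin b → F) = 0 := by ext p; simp [tens]

lemma one_add_pow_of_sq_zero {R : Type*} [Ring R] {B : R} (hB : B * B = 0) (k : ℕ) :
    (1 + B) ^ k = 1 + k • B := by
  induction k with
  | zero => simp
  | succ k ih =>
    rw [pow_succ, ih, add_mul, mul_add, mul_add, smul_mul_assoc k B B, hB, smul_zero, add_zero, mul_one,
      one_mul, mul_one, succ_nsmul]
    abel

/-- piece `stab` (assembly of A, B, C), with the pieces it uses as explicit hypotheses -/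
theorem exists_stab_of [Fintype F]
    (root_mem : ∀ {H : Subgroup GLn} (hMH : KS a b F ⊓ SLn a b F ≤ H) (c φ : Fin b → F)
      (h : φ ⬝ᵥ c = 0), (1 : Ma) ⊗ₖ (Matrix.vecMulVec c φ) ∈ NN H)
    (mem_KS_of_pure : ∀ (h1 : 2 ≤ a) (h12 : a < b) (g : GLn)
      (hg : ∀ y, IsPure y → IsPure ((g : Mn) *ᵥ y)), g ∈ KS a b F)
    (exists_move : ∀ (h1 : 2 ≤ a) (h2 : 2 ≤ b) {u u' : Fin a → F} {c c' : Fin b → F}
      (hu : u ≠ 0) (hu' : u' ≠ 0) (hc : c ≠ 0) (hc' : c' ≠ 0),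
      ∃ m ∈ KS a b F ⊓ SLn a b F, (m : Mn) *ᵥ tens u c = tens u' c')
    (exists_root_fix : ∀ (h12 : a < b) (h2 : 2 ≤ b) (y : Fin a × Fin b → F),
      ∃ c φ : Fin b → F, c ≠ 0 ∧ φ ≠ 0 ∧ φ ⬝ᵥ c = 0 ∧
        ((1 : Ma) ⊗ₖ Matrix.vecMulVec c φ) *ᵥ y = 0)
    (rank_root_le : ∀ (c φ : Fin b → F), ((1 : Ma) ⊗ₖ Matrix.vecMulVec c φ).rank ≤ a)
    (sylow_step : ∀ (p : ℕ) [Fact p.Prime]
      (H M St P : Subgroup GLn) (hPp : IsPGroup p P) (hPSt : P ≤ H ⊓ St)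
      (hno : ∀ Q : Subgroup GLn, Q ≤ M ⊓ St → IsPGroup p Q → Nat.card Q < Nat.card P)
      (x : GLn) (hxM : x ∈ M) (hxH : x ∈ H) (hxS : x ∈ St) (hxp : IsPGroup p (Subgroup.zpowers x)),
      ∃ (T₀ : Subgroup GLn) (t : GLn), T₀ ≤ M ⊓ St ∧ x ∈ T₀ ∧ t ∈ H ∧ t ∉ M ∧
        ∀ w ∈ T₀, t⁻¹ * w * t ∈ T₀)
    (exists_fixed : ∀ (p : ℕ) [Fact p.Prime] [CharP F p] (ha : 0 < a) (hb : 0 < b)
      (P : Subgroup GLn) (hP : IsPGroup p P),
      ∃ y : Fin a × Fin b → F, y ≠ 0 ∧ ∀ g ∈ P, (g : Mn) *ᵥ y = y)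
    (card_lt_of_fix : ∀ (p : ℕ) [Fact p.Prime] [CharP F p] (h2 : 2 ≤ b)
      (P Q : Subgroup GLn)
      (hPmax : ∀ R : Subgroup GLn, R ≤ KS a b F ⊓ SLn a b F → IsPGroup p R →
        Nat.card R ≤ Nat.card P)
      (hP : P ≤ KS a b F ⊓ SLn a b F) (hPp : IsPGroup p P)
      (hQ : Q ≤ KS a b F ⊓ SLn a b F) (hQp : IsPGroup p Q)
      (y : Fin a × Fin b → F) (hy : ¬ IsPure y) (hfix : ∀ g ∈ Q, (g : Mn) *ᵥ y = y),
      Nat.card Q < Nat.card P)
    (exists_tsub_stable : ∀ (h12 : a < b) (T₀ : Subgroup GLn) (hT : T₀ ≤ KS a b F) (t : GLn)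
      (ht : ∀ w ∈ T₀, t⁻¹ * w * t ∈ T₀) (y : Fin a × Fin b → F) (hy : y ≠ 0)
      (hfix : ∀ w ∈ T₀, (w : Mn) *ᵥ y = y) (x : GLn) (hx : x ∈ T₀) (hx1 : x ≠ 1)
      (hxr : ((x : Mn) - 1).rank ≤ a),
      ∃ C : Submodule F (Fin b → F), C ≠ ⊥ ∧ C ≠ ⊤ ∧
        ∀ v ∈ tsub a C, (t : Mn) *ᵥ v ∈ tsub a C)
    (h1 : 2 ≤ a) (h12 : a < b) (H : Subgroup GLn)
    (hMH : KS a b F ⊓ SLn a b F ≤ H) (hH : H ≤ SLn a b F) (hne : ¬ H ≤ KS a b F) :
    ∃ t ∈ H, t ∉ KS a b F ∧ ∃ C : Submodule F (Fin b → F), C ≠ ⊥ ∧ C ≠ ⊤ ∧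
      ∀ v ∈ tsub a C, (t : Mn) *ᵥ v ∈ tsub a C := by
  classical
  obtain ⟨p, hpc⟩ := CharP.exists F
  have hpp : Fact p.Prime := ⟨CharP.char_is_prime F p⟩
  have hfin : Finite GLn := inferInstance
  set M : Subgroup GLn := KS a b F ⊓ SLn a b F with hM
  -- a `p`-subgroup of `M` of maximal order
  obtain ⟨P, ⟨hPM, hPp⟩, hPmax'⟩ := Set.Finite.exists_maximalFor
    (fun R : Subgroup GLn => Nat.card R) {R : Subgroup GLn | R ≤ M ∧ IsPGroup p R}
    (Set.toFinite _) ⟨⊥, bot_le, IsPGroup.of_bot⟩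
  have hPmax : ∀ R : Subgroup GLn, R ≤ M → IsPGroup p R → Nat.card R ≤ Nat.card P := by
    intro R hR hRp
    rcases le_total (Nat.card R) (Nat.card P) with h | h
    · exact h
    · exact hPmax' ⟨hR, hRp⟩ h
  obtain ⟨y₀, hy₀, hfix₀⟩ := exists_fixed p (by omega) (by omega) P hPp
  have hy₀p : IsPure y₀ := by
    by_contra hcon
    exact lt_irrefl _ (card_lt_of_fix p (by omega) P P hPmax hPM hPp hPM hPp y₀ hcon hfix₀)
  obtain ⟨u₀, c₀, rfl⟩ := hy₀p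
  have hu₀ : u₀ ≠ 0 := by
    rintro rfl
    exact hy₀ (tens_zero_left _)
  have hc₀ : c₀ ≠ 0 := by
    rintro rfl
    exact hy₀ (tens_zero_right _)
  -- an element of `H` moving a pure tensor to a non pure one
  obtain ⟨h, hhH, hhK⟩ := SetLike.not_le_iff_exists.1 hne
  obtain ⟨y, hyp, hhy⟩ : ∃ y, IsPure y ∧ ¬ IsPure ((h : Mn) *ᵥ y) := by
    by_contra hcon
    push Not at hcon
    exact hhK (mem_KS_of_pure h1 h12 h hcon)
  obtain ⟨u, c, rfl⟩ := hyp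
  have hu : u ≠ 0 := by
    rintro rfl
    rw [tens_zero_left, Matrix.mulVec_zero] at hhy
    exact hhy isPure_zero
  have hc : c ≠ 0 := by
    rintro rfl
    rw [tens_zero_right, Matrix.mulVec_zero] at hhy
    exact hhy isPure_zero
  obtain ⟨m, hmM, hm⟩ := exists_move h1 (by omega) hu₀ hu hc₀ hc
  set g : GLn := h * m with hg
  have hgH : g ∈ H := H.mul_mem hhH (hMH hmM)
  set y' : Fin a × Fin b → F := (h : Mn) *ᵥ tens u c with hy'
  have hgy : (g : Mn) *ᵥ tens u₀ c₀ = y' := by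
    rw [hg, Units.val_mul, ← Matrix.mulVec_mulVec, hm]
  have hy'0 : y' ≠ 0 := by
    intro h0
    rw [h0] at hhy
    exact hhy isPure_zero
  set P' : Subgroup GLn := P.map (MulAut.conj g).toMonoidHom with hP'
  have hP'p : IsPGroup p P' := hPp.map _
  have hP'card : Nat.card P' = Nat.card P :=
    Subgroup.card_map_of_injective (MulAut.conj g).injective
  have hP'le : P' ≤ H ⊓ vstab y' := by
    rintro _ ⟨x, hx, rfl⟩
    refine ⟨?_, ?_⟩
    · show g * x * g⁻¹ ∈ H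
      exact H.mul_mem (H.mul_mem hgH (hMH (hPM hx))) (H.inv_mem hgH)
    · show ((g * x * g⁻¹ : GLn) : Mn) *ᵥ y' = y'
      rw [← hgy, Matrix.mulVec_mulVec, ← Units.val_mul, inv_mul_cancel_right, Units.val_mul,
        ← Matrix.mulVec_mulVec, hfix₀ x hx]
  have hno : ∀ Q : Subgroup GLn, Q ≤ M ⊓ vstab y' → IsPGroup p Q → Nat.card Q < Nat.card P' := by
    intro Q hQ hQp
    rw [hP'card]
    exact card_lt_of_fix p (by omega) P Q hPmax hPM hPp (fun x hx => (hQ hx).1) hQp y' hhy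
      (fun x hx => (hQ hx).2)
  -- the root element
  obtain ⟨c₁, φ, hc₁, hφ, hφc, hkill⟩ := exists_root_fix h12 (by omega) y'
  obtain ⟨hBB, x, hxM, hxB⟩ := root_mem (H := M) le_rfl c₁ φ hφc
  set B : Mn := (1 : Ma) ⊗ₖ Matrix.vecMulVec c₁ φ with hB
  have hxS : x ∈ vstab y' := by
    rw [mem_vstab, hxB, Matrix.add_mulVec, Matrix.one_mulVec, hkill, add_zero]
  have hxpow : x ^ p = 1 := by
    apply Units.ext
    rw [Units.val_pow_eq_pow_val, hxB, one_add_pow_of_sq_zero hBB, Units.val_one]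
    have : (p • B : Mn) = 0 := by
      rw [← Nat.cast_smul_eq_nsmul F, CharP.cast_eq_zero F p, zero_smul]
    rw [this, add_zero]
  have hxp : IsPGroup p (Subgroup.zpowers x) := by
    rintro ⟨z, hz⟩
    obtain ⟨k, rfl⟩ := Subgroup.mem_zpowers_iff.1 hz
    refine ⟨1, ?_⟩
    apply Subtype.ext
    show (x ^ k) ^ (p ^ 1) = 1
    rw [pow_one, ← zpow_natCast, ← _root_.zpow_mul, mul_comm, _root_.zpow_mul, zpow_natCast, hxpow, _root_.one_zpow]
  have hB0 : B ≠ 0 := by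
    intro h0
    obtain ⟨i, hi⟩ : ∃ i, c₁ i ≠ 0 := by
      by_contra hcon
      push Not at hcon
      exact hc₁ (funext hcon)
    obtain ⟨k, hk⟩ : ∃ k, φ k ≠ 0 := by
      by_contra hcon
      push Not at hcon
      exact hφ (funext hcon)
    have := congrFun (congrFun h0 (⟨0, by omega⟩, i)) (⟨0, by omega⟩, k)
    simp only [hB, Matrix.kroneckerMap_apply, Matrix.one_apply_eq, one_mul, Matrix.vecMulVec_apply,
      Matrix.zero_apply] at this
    exact (mul_ne_zero hi hk) this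
  have hx1 : x ≠ 1 := by
    rintro rfl
    rw [Units.val_one] at hxB
    exact hB0 (by simpa using hxB.symm)
  have hxr : ((x : Mn) - 1).rank ≤ a := by
    rw [hxB, add_sub_cancel_left]
    exact rank_root_le c₁ φ
  obtain ⟨T₀, t, hT₀, hxT, htH, htM, htn⟩ := sylow_step p H M (vstab y') P' hP'p hP'le hno x hxM
    (hMH hxM) hxS hxp
  obtain ⟨C, hC0, hC1, hst⟩ := exists_tsub_stable h12 T₀ (fun w hw => (hT₀ hw).1.1) t htn y' hy'0
    (fun w hw => (hT₀ hw).2) x hxT hx1 hxr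
  exact ⟨t, htH, fun htK => htM ⟨htK, hH htH⟩, C, hC0, hC1, hst⟩

end Cfsg.Agent.Lib.Helper95TStab
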