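import Cfsg.Agent.Lib.Helper49SDefs
import Cfsg.Agent.Lib.H49SKill
import Cfsg.Agent.Lib.H49SMove
import Cfsg.Agent.Lib.H49SSylfix
import Cfsg.Agent.Lib.H49STv
import Cfsg.Agent.Lib.H49SSp2
import Cfsg.Agent.Lib.H49SWitt1
import Cfsg.Agent.Lib.Helper95TStab
import Cfsg.Agent.Lib.Helper14TSylabs
import Cfsg.Agent.Lib.Helper14TPfix
import Cfsg.Agent.Lib.Helper13TPure
import Cfsg.Agent.Lib.Helper94TRank
import Cfsg.Agent.Lib.Helper70TRootrank

/-!
# PROJECT 50 (S5704), piece `Stab`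
-/

set_option autoImplicit false
set_option linter.unusedSectionVars false
set_option linter.unusedVariables false

namespace Cfsg.Agent.Lib.H49SStab

open scoped Matrix Kronecker
open Matrix Cfsg.Agent.Lib.Helper49TDefs Cfsg.Agent.Lib.Helper49SDefs Cfsg.Agent.Lib.Helper49Eich
open Cfsg.Agent.Lib.H49SKill
open Cfsg.Agent.Lib.H49SMove
open Cfsg.Agent.Lib.H49SSylfix
open Cfsg.Agent.Lib.H49STv
open Cfsg.Agent.Lib.H49SSp2
open Cfsg.Agent.Lib.H49SWitt1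

variable {F : Type*} [Field F] {a b n : ℕ}

local notation "GLn" => Matrix.GeneralLinearGroup (Fin a × Fin b) F
local notation "Mn" => Matrix (Fin a × Fin b) (Fin a × Fin b) F
local notation "Ma" => Matrix (Fin a) (Fin a) F
local notation "Mb" => Matrix (Fin b) (Fin b) F
local notation "GLa" => Matrix.GeneralLinearGroup (Fin a) F
local notation "GLb" => Matrix.GeneralLinearGroup (Fin b) F
local notation "𝐏" => QuadraticMap.polar

/-- the Sylow argument: some `t ∈ H ∖ KS` stabilises `V₁ ⊗ c` -/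
theorem exists_stab2 [Fintype F] (D : SpDat F a b) (h1 : 2 ≤ a) (h12 : a < b) (hn : 5 ≤ a * b)
    (H : Subgroup GLn) (hMH : KS a b F ⊓ OG D ≤ H) (hH : H ≤ OG D) (hne : ¬ H ≤ KS a b F) :
    ∃ t ∈ H, t ∉ KS a b F ∧ ∃ c : Fin b → F, c ≠ 0 ∧
      ∀ x, ∃ x', (t : Mn) *ᵥ tens x c = tens x' c := by
  classical
  obtain ⟨p, hpc⟩ := CharP.exists F
  have hpp : Fact p.Prime := ⟨CharP.char_is_prime F p⟩
  have hfin : Finite GLn := inferInstance
  set M : Subgroup GLn := KS a b F ⊓ OG D with hM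
  -- a `p`-subgroup of `M` of maximal order
  obtain ⟨P, ⟨hPM, hPp⟩, hPmax'⟩ := Set.Finite.exists_maximalFor
    (fun R : Subgroup GLn => Nat.card R) {R : Subgroup GLn | R ≤ M ∧ IsPGroup p R}
    (Set.toFinite _) ⟨⊥, bot_le, IsPGroup.of_bot⟩
  have hPmax : ∀ R : Subgroup GLn, R ≤ M → IsPGroup p R → Nat.card R ≤ Nat.card P := by
    intro R hR hRp
    rcases le_total (Nat.card R) (Nat.card P) with h | h
    · exact h
    · exact hPmax' ⟨hR, hRp⟩ h
  obtain ⟨y₀, hy₀, hfix₀⟩ := Cfsg.Agent.Lib.Helper14TPfix.exists_fixed p (by omega) (by omega) P hPp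
  have hy₀p : IsPure y₀ := by
    by_contra hcon
    exact lt_irrefl _ (card_lt_of_fix2 D hn (by omega) p P P hPmax hPM hPp hPM hPp y₀ hcon hfix₀)
  obtain ⟨u₀, c₀, rfl⟩ := hy₀p
  have hu₀ : u₀ ≠ 0 := by
    rintro rfl
    exact hy₀ (tens_zero_left' _)
  have hc₀ : c₀ ≠ 0 := by
    rintro rfl
    exact hy₀ (tens_zero_right' _)
  -- an element of `H` moving a pure tensor to a non pure one
  obtain ⟨h, hhH, hhK⟩ := SetLike.not_le_iff_exists.1 hne
  obtain ⟨y, hyp, hhy⟩ : ∃ y, IsPure y ∧ ¬ IsPure ((h : Mn) *ᵥ y) := by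
    by_contra hcon
    push Not at hcon
    exact hhK (Cfsg.Agent.Lib.Helper13TPure.mem_KS_of_pure h1 h12 h hcon)
  obtain ⟨u, c, rfl⟩ := hyp
  have hu : u ≠ 0 := by
    rintro rfl
    rw [tens_zero_left', Matrix.mulVec_zero] at hhy
    exact hhy Cfsg.Agent.Lib.Helper95TStab.isPure_zero
  have hc : c ≠ 0 := by
    rintro rfl
    rw [tens_zero_right', Matrix.mulVec_zero] at hhy
    exact hhy Cfsg.Agent.Lib.Helper95TStab.isPure_zero
  obtain ⟨m, hmM, hm⟩ := exists_move2 D hn hu₀ hu hc₀ hc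
  set g : GLn := h * m with hg
  have hgH : g ∈ H := H.mul_mem hhH (hMH hmM)
  set y' : Fin a × Fin b → F := (h : Mn) *ᵥ tens u c with hy'
  have hgy : (g : Mn) *ᵥ tens u₀ c₀ = y' := by
    rw [hg, Units.val_mul, ← Matrix.mulVec_mulVec, hm]
  set P' : Subgroup GLn := P.map (MulAut.conj g).toMonoidHom with hP'
  have hP'p : IsPGroup p P' := hPp.map _
  have hP'card : Nat.card P' = Nat.card P :=
    Subgroup.card_map_of_injective (MulAut.conj g).injective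
  have hP'le : P' ≤ H ⊓ Cfsg.Agent.Lib.Helper95TStab.vstab y' := by
    rintro _ ⟨x, hx, rfl⟩
    refine ⟨?_, ?_⟩
    · show g * x * g⁻¹ ∈ H
      exact H.mul_mem (H.mul_mem hgH (hMH (hPM hx))) (H.inv_mem hgH)
    · show ((g * x * g⁻¹ : GLn) : Mn) *ᵥ y' = y'
      rw [← hgy, Matrix.mulVec_mulVec, ← Units.val_mul, inv_mul_cancel_right, Units.val_mul,
        ← Matrix.mulVec_mulVec, hfix₀ x hx]
  have hno : ∀ Q : Subgroup GLn, Q ≤ M ⊓ Cfsg.Agent.Lib.Helper95TStab.vstab y' → IsPGroup p Q →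
      Nat.card Q < Nat.card P' := by
    intro Q hQ hQp
    rw [hP'card]
    exact card_lt_of_fix2 D hn (by omega) p P Q hPmax hPM hPp (fun x hx => (hQ hx).1) hQp y' hhy
      (fun x hx => (hQ hx).2)
  -- the root element
  obtain ⟨c₁, hc₁, hkill⟩ := exists_root_fix2 D h12 y'
  have htv := tv2_mem D hn c₁ 1
  rw [one_smul] at htv
  obtain ⟨hBB, x, hxM, hxB⟩ := htv
  set B : Mn := (1 : Ma) ⊗ₖ NJ D.J₂ c₁ c₁ with hB
  have hxS : x ∈ Cfsg.Agent.Lib.Helper95TStab.vstab y' := by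
    rw [Cfsg.Agent.Lib.Helper95TStab.mem_vstab, hxB, Matrix.add_mulVec, Matrix.one_mulVec, hkill,
      add_zero]
  have hxpow : x ^ p = 1 := by
    apply Units.ext
    rw [Units.val_pow_eq_pow_val, hxB, Cfsg.Agent.Lib.Helper95TStab.one_add_pow_of_sq_zero hBB,
      Units.val_one]
    have : (p • B : Mn) = 0 := by
      rw [← Nat.cast_smul_eq_nsmul F, CharP.cast_eq_zero F p, zero_smul]
    rw [this, add_zero]
  have hxp : IsPGroup p (Subgroup.zpowers x) := by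
    rintro ⟨z, hz⟩
    obtain ⟨k, rfl⟩ := Subgroup.mem_zpowers_iff.1 hz
    refine ⟨1, ?_⟩
    apply Subtype.ext
    show (x ^ k) ^ (p ^ 1) = 1
    rw [pow_one, ← zpow_natCast, ← _root_.zpow_mul, mul_comm, _root_.zpow_mul, zpow_natCast, hxpow,
      _root_.one_zpow]
  have hBr : B.rank ≤ a := Cfsg.Agent.Lib.Helper70TRootrank.rank_root_le c₁ (D.J₂ *ᵥ c₁)
  obtain ⟨T₀, t, hT₀, hxT, htH, htM, htn⟩ := Cfsg.Agent.Lib.Helper14TSylabs.sylow_step p H M
    (Cfsg.Agent.Lib.Helper95TStab.vstab y') P' hP'p hP'le hno x hxM (hMH hxM) hxS hxp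
  -- the new end
  have hinv' : (t : Mn) * ((t⁻¹ : GLn) : Mn) = 1 := by
    rw [← Units.val_mul, mul_inv_cancel, Units.val_one]
  have hinv : ((t⁻¹ : GLn) : Mn) * (t : Mn) = 1 := by
    rw [← Units.val_mul, inv_mul_cancel, Units.val_one]
  have hx'K : t⁻¹ * x * t ∈ KS a b F := (hT₀ (htn x hxT)).1.1
  have hx'val : ((t⁻¹ * x * t : GLn) : Mn) - 1 = ((t⁻¹ : GLn) : Mn) * B * (t : Mn) := by
    rw [Units.val_mul, Units.val_mul, hxB, mul_add, add_mul, mul_one, hinv, add_sub_cancel_left]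
  have hx'r : (((t⁻¹ * x * t : GLn) : Mn) - 1).rank ≤ a := by
    rw [hx'val]
    exact ((Matrix.rank_mul_le_left _ _).trans (Matrix.rank_mul_le_right _ _)).trans hBr
  obtain ⟨w, hw⟩ := Cfsg.Agent.Lib.Helper94TRank.eq_one_kron_of_rank h12 _ hx'K hx'r
  -- `B t = t (1 ⊗ W)`
  have hBt : B * (t : Mn) = (t : Mn) * ((1 : Ma) ⊗ₖ ((w : Mb) - 1)) := by
    have e1 : (1 : Ma) ⊗ₖ ((w : Mb) - 1) = ((t⁻¹ : GLn) : Mn) * B * (t : Mn) := by
      rw [← hx'val, hw]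
      have e0 : (1 : Ma) ⊗ₖ ((w : Mb) - 1) + (1 : Ma) ⊗ₖ (1 : Mb) = (1 : Ma) ⊗ₖ (w : Mb) := by
        rw [← Matrix.kronecker_add, sub_add_cancel]
      rw [Matrix.one_kronecker_one] at e0
      rw [← e0, add_sub_cancel_right]
    rw [e1, ← mul_assoc, ← mul_assoc, hinv', one_mul]
  obtain ⟨d, hd⟩ := D.h₂.exists_ne_zero hc₁
  have ha0 : 0 < a := by omega
  have hW : (w : Mb) - 1 ≠ 0 := by
    intro h0
    rw [h0, Matrix.kronecker_zero, mul_zero] at hBt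
    have hB0 : B = 0 := by
      have : B * (t : Mn) * ((t⁻¹ : GLn) : Mn) = 0 := by rw [hBt, zero_mul]
      rwa [mul_assoc, hinv', mul_one] at this
    have h3 : B *ᵥ tens (Pi.single (⟨0, ha0⟩ : Fin a) (1 : F)) d = 0 := by
      rw [hB0, Matrix.zero_mulVec]
    rw [hB, kron_NJ_mulVec, ctr_J_tens, hd, one_smul, Matrix.one_mulVec] at h3
    have h4 := Cfsg.Agent.Lib.Helper13TPure.tens_eq_zero' h3 hc₁
    have := congrFun h4 ⟨0, ha0⟩
    simp at this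
  obtain ⟨v₀, hv₀⟩ : ∃ v₀ : Fin b → F, ((w : Mb) - 1) *ᵥ v₀ ≠ 0 := by
    by_contra hcon
    push Not at hcon
    apply hW
    apply Matrix.toLin'.injective
    apply LinearMap.ext
    intro v
    rw [Matrix.toLin'_apply, hcon v]
    simp
  obtain ⟨g₂, hg₂, hg₂c⟩ := exists_iso_vec D.h₂ hc₁ hv₀
  obtain ⟨m₂, hm₂M, hm₂, _⟩ := sp2_mem D hn g₂ hg₂
  refine ⟨t * m₂, H.mul_mem htH (hMH hm₂M), ?_, c₁, hc₁, ?_⟩
  · intro hK
    apply htM
    refine ⟨?_, hH htH⟩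
    have : t = (t * m₂) * m₂⁻¹ := by group
    rw [this]
    exact (KS a b F).mul_mem hK ((KS a b F).inv_mem hm₂M.1)
  · intro z
    refine ⟨ctr (D.J₂ *ᵥ c₁) ((t : Mn) *ᵥ tens z v₀), ?_⟩
    rw [Units.val_mul, ← Matrix.mulVec_mulVec, hm₂, kron_mulVec_tens, Matrix.one_mulVec, hg₂c]
    have e2 : tens z (((w : Mb) - 1) *ᵥ v₀) = ((1 : Ma) ⊗ₖ ((w : Mb) - 1)) *ᵥ tens z v₀ := by
      rw [kron_mulVec_tens, Matrix.one_mulVec]
    rw [e2, Matrix.mulVec_mulVec, ← hBt, ← Matrix.mulVec_mulVec, hB, kron_NJ_mulVec,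
      Matrix.one_mulVec]

end Cfsg.Agent.Lib.H49SStab
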