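import Cfsg.Agent.Lib.Helper49SDefs
import Cfsg.Agent.Lib.H49SIso
import Cfsg.Agent.Lib.H49SGeo
import Cfsg.Agent.Lib.H49SForm1

/-!
# PROJECT 50 (S5704), piece `Stage1b`
-/

set_option autoImplicit false
set_option linter.unusedSectionVars false
set_option linter.unusedVariables false

namespace Cfsg.Agent.Lib.H49SStage1b

open scoped Matrix Kronecker
open Matrix Cfsg.Agent.Lib.Helper49TDefs Cfsg.Agent.Lib.Helper49SDefs Cfsg.Agent.Lib.Helper49Eich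
open Cfsg.Agent.Lib.H49SIso
open Cfsg.Agent.Lib.H49SGeo
open Cfsg.Agent.Lib.H49SForm1

variable {F : Type*} [Field F] {a b n : ℕ}

local notation "GLn" => Matrix.GeneralLinearGroup (Fin a × Fin b) F
local notation "Mn" => Matrix (Fin a × Fin b) (Fin a × Fin b) F
local notation "Ma" => Matrix (Fin a) (Fin a) F
local notation "Mb" => Matrix (Fin b) (Fin b) F
local notation "GLa" => Matrix.GeneralLinearGroup (Fin a) F
local notation "GLb" => Matrix.GeneralLinearGroup (Fin b) F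
local notation "𝐏" => QuadraticMap.polar

theorem conj_lvl2 (D : SpDat F a b) {t : GLn} (ht : t ∈ OG D) {c : Fin b → F} (hc : c ≠ 0)
    (α α' : Ma) (h1 : ∀ x, (t : Mn) *ᵥ tens x c = tens (α *ᵥ x) c)
    (h2 : ∀ x d, (t : Mn) *ᵥ tens x d - tens (α' *ᵥ x) d ∈ tsub a (perpS D.J₂ c))
    (h3 : ∀ w ∈ tsub a (perpS D.J₂ c), (t : Mn) *ᵥ w ∈ tsub a (perpS D.J₂ c)) :
    ∃ β : Ma, β * α' = α ∧
      (t : Mn) * ((1 : Ma) ⊗ₖ NJ D.J₂ c c) * ((t⁻¹ : GLn) : Mn) = β ⊗ₖ NJ D.J₂ c c := by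
  have hinv : (t : Mn) * ((t⁻¹ : GLn) : Mn) = 1 := by
    rw [← Units.val_mul, mul_inv_cancel, Units.val_one]
  have hinv' : ((t⁻¹ : GLn) : Mn) * (t : Mn) = 1 := by
    rw [← Units.val_mul, inv_mul_cancel, Units.val_one]
  have hX : ∀ v, ((t : Mn) * ((1 : Ma) ⊗ₖ NJ D.J₂ c c) * ((t⁻¹ : GLn) : Mn)) *ᵥ v
      = tens (α *ᵥ ctr (D.J₂ *ᵥ c) (((t⁻¹ : GLn) : Mn) *ᵥ v)) c := by
    intro v
    rw [← Matrix.mulVec_mulVec, ← Matrix.mulVec_mulVec, kron_NJ_mulVec, Matrix.one_mulVec, h1]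
  have hker : ∀ w ∈ tsub a (perpS D.J₂ c), ctr (D.J₂ *ᵥ c) (((t⁻¹ : GLn) : Mn) *ᵥ w) = 0 := by
    intro w hw
    apply D.h₁.eq_zero_of_left
    intro x
    rw [← SpDat.polar_eq_bf_ctr, ← OG_polar D ht, Matrix.mulVec_mulVec, hinv, Matrix.one_mulVec, h1,
      SpDat.polar_eq_bf_ctr, (mem_tsub_perpS_iff _ _ _).1 hw, bf_zero_left]
  obtain ⟨β, hβ⟩ := form1 D hc ((t : Mn) * ((1 : Ma) ⊗ₖ NJ D.J₂ c c) * ((t⁻¹ : GLn) : Mn))
    (fun v => ⟨_, hX v⟩)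
    (fun u v hv => by
      rw [hX, hker _ (tens_mem_tsub_perpS hv u), Matrix.mulVec_zero, tens_zero_left'])
  refine ⟨β, ?_, hβ⟩
  obtain ⟨d₀, hd₀⟩ := D.h₂.exists_ne_zero hc
  apply Matrix.toLin'.injective
  apply LinearMap.ext
  intro x
  simp only [Matrix.toLin'_apply]
  apply tens_left_inj hc
  have e1 := hX ((t : Mn) *ᵥ tens x d₀)
  have e0 : ((t⁻¹ : GLn) : Mn) *ᵥ ((t : Mn) *ᵥ tens x d₀) = tens x d₀ := by
    rw [Matrix.mulVec_mulVec, hinv', Matrix.one_mulVec]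
  rw [e0, ctr_J_tens, hd₀, one_smul, hβ, kron_NJ_mulVec] at e1
  have e2 : ctr (D.J₂ *ᵥ c) ((t : Mn) *ᵥ tens x d₀) = α' *ᵥ x := by
    have := (mem_tsub_perpS_iff _ _ _).1 (h2 x d₀)
    rw [ctr_sub, ctr_J_tens, hd₀, one_smul, sub_eq_zero] at this
    exact this
  rw [e2, Matrix.mulVec_mulVec] at e1
  exact e1

end Cfsg.Agent.Lib.H49SStage1b
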