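import Cfsg.Agent.Lib.Helper49SDefs
import Cfsg.Agent.Lib.H49SLayers
import Cfsg.Agent.Lib.H49SStage1b
import Cfsg.Agent.Lib.H49STv
import Cfsg.Agent.Lib.H49SComm
import Cfsg.Agent.Lib.H49SGeo

/-!
# PROJECT 50 (S5704), piece `Stage1`
-/

set_option autoImplicit false
set_option linter.unusedSectionVars false
set_option linter.unusedVariables false

namespace Cfsg.Agent.Lib.H49SStage1

open scoped Matrix Kronecker
open Matrix Cfsg.Agent.Lib.Helper49TDefs Cfsg.Agent.Lib.Helper49SDefs Cfsg.Agent.Lib.Helper49Eich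
open Cfsg.Agent.Lib.H49SLayers
open Cfsg.Agent.Lib.H49SStage1b
open Cfsg.Agent.Lib.H49STv
open Cfsg.Agent.Lib.H49SComm
open Cfsg.Agent.Lib.H49SGeo

variable {F : Type*} [Field F] {a b n : ℕ}

local notation "GLn" => Matrix.GeneralLinearGroup (Fin a × Fin b) F
local notation "Mn" => Matrix (Fin a × Fin b) (Fin a × Fin b) F
local notation "Ma" => Matrix (Fin a) (Fin a) F
local notation "Mb" => Matrix (Fin b) (Fin b) F
local notation "GLa" => Matrix.GeneralLinearGroup (Fin a) F
local notation "GLb" => Matrix.GeneralLinearGroup (Fin b) F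
local notation "𝐏" => QuadraticMap.polar

theorem stage1 [Fintype F] (D : SpDat F a b) (ha : 0 < a) (hn : 5 ≤ a * b) (H : Subgroup GLn)
    (hMH : KS a b F ⊓ OG D ≤ H) (hH : H ≤ OG D) {t : GLn} (ht : t ∈ H) {c : Fin b → F}
    (hc : c ≠ 0) (hst : ∀ x, ∃ x', (t : Mn) *ᵥ tens x c = tens x' c) :
    L2new D H ∨ ∃ (α' : Ma) (μ : F), Lay D t c α' μ := by
  obtain ⟨α, α', h1, h2, h3, h4⟩ := exists_layers D (hH ht) hc hst
  obtain ⟨β, hβα, hconj⟩ := conj_lvl2 D (hH ht) hc α α' h1 h2 h3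
  have hmem : β ⊗ₖ NJ D.J₂ c c ∈ NN H := by
    rw [← hconj]
    have := NN_mono hMH (tv2_mem D hn c 1)
    rw [one_smul] at this
    exact NN_conj this ht
  by_cases hs : ∃ k : F, β = k • 1
  · obtain ⟨k, hk⟩ := hs
    right
    have hα : α = k • α' := by rw [← hβα, hk, Matrix.smul_mul, one_mul]
    have hk0 : k ≠ 0 := by
      intro h0
      have hα0 : α = 0 := by rw [hα, h0, zero_smul]
      have hx : (fun _ => 1 : Fin a → F) ≠ 0 := by
        intro h
        have := congrFun h ⟨0, ha⟩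
        simp at this
      have h5 := h1 (fun _ => 1)
      rw [hα0, Matrix.zero_mulVec, tens_zero_left'] at h5
      have h6 : ((t⁻¹ : GLn) : Mn) *ᵥ ((t : Mn) *ᵥ tens (fun _ => 1) c) = 0 := by
        rw [h5, Matrix.mulVec_zero]
      rw [Matrix.mulVec_mulVec, ← Units.val_mul, inv_mul_cancel, Units.val_one,
        Matrix.one_mulVec] at h6
      exact tens_ne_zero hx hc h6
    refine ⟨α', k, hk0, ?_, h2, h3, ?_⟩
    · intro x
      rw [h1, hα, Matrix.smul_mulVec]
    · intro x y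
      have := h4 x y
      rw [hα, Matrix.smul_mulVec, bf_smul_right] at this
      rw [← this, ← mul_assoc, inv_mul_cancel₀ hk0, one_mul]
  · left
    exact ⟨c, β, hc, fun k hk => hs ⟨k, hk⟩, hmem⟩

end Cfsg.Agent.Lib.H49SStage1
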