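import Cfsg.Agent.Lib.Helper49SDefs
import Cfsg.Agent.Lib.H49SIso
import Cfsg.Agent.Lib.H49SGeo
import Cfsg.Agent.Lib.H49SForm1
import Cfsg.Agent.Lib.H49STv
import Cfsg.Agent.Lib.H49SConj
import Cfsg.Agent.Lib.H49SComm

/-!
# PROJECT 50 (S5704), piece `Stage2a`
-/

set_option autoImplicit false
set_option linter.unusedSectionVars false
set_option linter.unusedVariables false

namespace Cfsg.Agent.Lib.H49SStage2a

open scoped Matrix Kronecker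
open Matrix Cfsg.Agent.Lib.Helper49TDefs Cfsg.Agent.Lib.Helper49SDefs Cfsg.Agent.Lib.Helper49Eich
open Cfsg.Agent.Lib.H49SIso
open Cfsg.Agent.Lib.H49SGeo
open Cfsg.Agent.Lib.H49SForm1
open Cfsg.Agent.Lib.H49STv
open Cfsg.Agent.Lib.H49SConj
open Cfsg.Agent.Lib.H49SComm

variable {F : Type*} [Field F] {a b n : ℕ}

local notation "GLn" => Matrix.GeneralLinearGroup (Fin a × Fin b) F
local notation "Mn" => Matrix (Fin a × Fin b) (Fin a × Fin b) F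
local notation "Ma" => Matrix (Fin a) (Fin a) F
local notation "Mb" => Matrix (Fin b) (Fin b) F
local notation "GLa" => Matrix.GeneralLinearGroup (Fin a) F
local notation "GLb" => Matrix.GeneralLinearGroup (Fin b) F
local notation "𝐏" => QuadraticMap.polar

private theorem mat_ext {X Y : Mn} (h : ∀ v, X *ᵥ v = Y *ᵥ v) : X = Y := by
  apply Matrix.toLin'.injective
  apply LinearMap.ext
  intro v
  simpa only [Matrix.toLin'_apply] using h v

theorem stage2a [Fintype F] (D : SpDat F a b) (hn : 5 ≤ a * b) (H : Subgroup GLn)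
    (hMH : KS a b F ⊓ OG D ≤ H) (hH : H ≤ OG D) {t : GLn} (ht : t ∈ H) {c : Fin b → F}
    (hc : c ≠ 0) {α' : Ma} {μ : F} (L : Lay D t c α' μ) (e e'' : Fin b → F)
    (he : bf D.J₂ e c = 0) (he'' : bf D.J₂ e'' c = 0) :
    ∃ β β' ζ : Ma,
      β ⊗ₖ NJ D.J₂ e'' c + β' ⊗ₖ NJ D.J₂ c e'' + ζ ⊗ₖ NJ D.J₂ c c ∈ NN H ∧
      ∀ x, ((1 : Ma) ⊗ₖ NJ D.J₂ e'' e'') *ᵥ ((t : Mn) *ᵥ tens x e)
        = tens (β *ᵥ (α' *ᵥ x)) e'' := by
  by_cases h0 : e'' = 0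
  · subst h0
    refine ⟨0, 0, 0, ?_, ?_⟩
    · simp only [Matrix.zero_kronecker, add_zero]
      exact ⟨by simp, 1, H.one_mem, by simp⟩
    · intro x
      rw [kron_NJ_mulVec]
      simp
  have htO : t ∈ OG D := hH ht
  set T : Mn := (t : Mn) with hT
  set Ti : Mn := ((t⁻¹ : GLn) : Mn) with hTi
  have hTTi : T * Ti = 1 := by rw [hT, hTi, ← Units.val_mul, mul_inv_cancel, Units.val_one]
  have hTiT : Ti * T = 1 := by rw [hT, hTi, ← Units.val_mul, inv_mul_cancel, Units.val_one]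
  set S1 : Mn := (1 : Ma) ⊗ₖ (NJ D.J₂ e c + NJ D.J₂ c e) with hS1
  set B : Mn := T * S1 * Ti with hB
  set G : Mn := (1 : Ma) ⊗ₖ NJ D.J₂ e'' e'' with hG
  have hcc : bf D.J₂ c c = 0 := D.h₂.alt c
  have hee : bf D.J₂ e'' e'' = 0 := D.h₂.alt e''
  have hce : bf D.J₂ c e = 0 := by rw [D.h₂.swap, he, neg_zero]
  have hce'' : bf D.J₂ c e'' = 0 := by rw [D.h₂.swap, he'', neg_zero]
  -- membership
  have hBN : B ∈ NN H := NN_conj (NN_mono hMH (rad_mem D hn c e he)) ht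
  have hGN : G ∈ NN H := by
    have := NN_mono hMH (tv2_mem D hn e'' 1)
    rwa [one_smul] at this
  -- vector formulas
  have hS1v : ∀ w, S1 *ᵥ w = tens (ctr (D.J₂ *ᵥ c) w) e + tens (ctr (D.J₂ *ᵥ e) w) c := by
    intro w
    rw [hS1, Matrix.kronecker_add, Matrix.add_mulVec, kron_NJ_mulVec, kron_NJ_mulVec,
      Matrix.one_mulVec, Matrix.one_mulVec]
  have hGv : ∀ w, G *ᵥ w = tens (ctr (D.J₂ *ᵥ e'') w) e'' := by
    intro w
    rw [hG, kron_NJ_mulVec, Matrix.one_mulVec]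
  have hBv : ∀ w, B *ᵥ w = T *ᵥ (S1 *ᵥ (Ti *ᵥ w)) := by
    intro w
    rw [hB, ← Matrix.mulVec_mulVec, ← Matrix.mulVec_mulVec]
  have hTiP : ∀ w, ctr (D.J₂ *ᵥ c) w = 0 → ctr (D.J₂ *ᵥ c) (Ti *ᵥ w) = 0 := by
    intro w hw
    apply D.h₁.eq_zero_of_left
    intro u
    rw [← SpDat.polar_eq_bf_ctr, ← OG_polar D htO, ← hT, Matrix.mulVec_mulVec, hTTi,
      Matrix.one_mulVec, L.bot, SpDat.polar_eq_bf_ctr, hw, bf_zero_left]
  have hBP : ∀ w, ctr (D.J₂ *ᵥ c) w = 0 → ∃ u, B *ᵥ w = tens u c := by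
    intro w hw
    rw [hBv, hS1v, hTiP w hw, tens_zero_left', zero_add, L.bot]
    exact ⟨_, rfl⟩
  have hGc : ∀ u, G *ᵥ tens u c = 0 := by
    intro u
    rw [hGv, ctr_J_tens, hce'', zero_smul, tens_zero_left']
  have hGP : ∀ w, ctr (D.J₂ *ᵥ c) (G *ᵥ w) = 0 := by
    intro w
    rw [hGv, ctr_J_tens, he'', zero_smul]
  have htP : ∀ (u : Fin a → F) (v : Fin b → F), bf D.J₂ v c = 0 →
      ctr (D.J₂ *ᵥ c) (tens u v) = 0 := by
    intro u v hv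
    rw [ctr_J_tens, hv, zero_smul]
  -- the three forms
  obtain ⟨β, hβ⟩ := form1 D (e₁ := e'') (e₂ := c) hc (G * B)
    (fun v => ⟨_, by rw [← Matrix.mulVec_mulVec, hGv]⟩)
    (fun u v hv => by
      obtain ⟨u', hu'⟩ := hBP _ (htP u v hv)
      rw [← Matrix.mulVec_mulVec, hu', hGc])
  obtain ⟨β₂, hβ₂⟩ := form1 D (e₁ := c) (e₂ := e'') h0 (B * G)
    (fun v => by
      obtain ⟨u', hu'⟩ := hBP _ (hGP v)
      exact ⟨u', by rw [← Matrix.mulVec_mulVec, hu']⟩)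
    (fun u v hv => by
      rw [← Matrix.mulVec_mulVec, hGv, ctr_J_tens, hv, zero_smul, tens_zero_left',
        Matrix.mulVec_zero])
  obtain ⟨ζ, hζ⟩ := form1 D (e₁ := c) (e₂ := c) hc (B * G * B)
    (fun v => by
      obtain ⟨u', hu'⟩ := hBP _ (hGP (B *ᵥ v))
      exact ⟨u', by rw [← Matrix.mulVec_mulVec, ← Matrix.mulVec_mulVec, hu']⟩)
    (fun u v hv => by
      obtain ⟨u', hu'⟩ := hBP _ (htP u v hv)
      rw [← Matrix.mulVec_mulVec, ← Matrix.mulVec_mulVec, hu', hGc, Matrix.mulVec_zero])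
  have hGBG : G * B * G = 0 := by
    apply mat_ext
    intro v
    obtain ⟨u', hu'⟩ := hBP _ (hGP v)
    rw [← Matrix.mulVec_mulVec, ← Matrix.mulVec_mulVec, hu', hGc, Matrix.zero_mulVec]
  have hZ : G * B - B * G + B * G * B
      = β ⊗ₖ NJ D.J₂ e'' c + (-β₂) ⊗ₖ NJ D.J₂ c e'' + ζ ⊗ₖ NJ D.J₂ c c := by
    rw [hζ, hβ, hβ₂, sub_eq_add_neg]
    congr 2
    rw [← neg_one_smul F β₂, Matrix.smul_kronecker, neg_one_smul]
  have hsq : (G * B - B * G + B * G * B) * (G * B - B * G + B * G * B) = 0 := by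
    rw [hZ]
    simp only [add_mul, mul_add, ← Matrix.mul_kronecker_mul, NJ_mul, hcc, hee, hce'', he'',
      zero_smul, Matrix.kronecker_zero, add_zero]
  refine ⟨β, -β₂, ζ, ?_, ?_⟩
  · rw [← hZ]
    exact NN_comm' hGN hBN hGBG hsq
  · intro x
    obtain ⟨d₀, hd₀⟩ := D.h₂.exists_ne_zero hc
    have h1 : (G * B) *ᵥ (T *ᵥ tens x d₀) = G *ᵥ (T *ᵥ tens x e) := by
      rw [← Matrix.mulVec_mulVec, hBv, Matrix.mulVec_mulVec _ Ti, hTiT, Matrix.one_mulVec, hS1v,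
        ctr_J_tens, ctr_J_tens, hd₀, one_smul, Matrix.mulVec_add, Matrix.mulVec_add, L.bot, hGc,
        add_zero]
    have h2 : ctr (D.J₂ *ᵥ c) (T *ᵥ tens x d₀) = α' *ᵥ x := by
      have h3 := (mem_tsub_perpS_iff D.J₂ c _).mp (L.top x d₀)
      rw [ctr_sub, ctr_J_tens, hd₀, one_smul, sub_eq_zero] at h3
      exact h3
    rw [← h1, hβ, kron_NJ_mulVec, h2]

end Cfsg.Agent.Lib.H49SStage2a
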