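import Cfsg.Agent.Lib.Helper49SDefs
import Cfsg.Agent.Lib.H49SIso
import Cfsg.Agent.Lib.H49SGeo

/-!
# PROJECT 50 (S5704), piece `Stage3a`
-/

set_option autoImplicit false
set_option linter.unusedSectionVars false
set_option linter.unusedVariables false

namespace Cfsg.Agent.Lib.H49SStage3a

open scoped Matrix Kronecker
open Matrix Cfsg.Agent.Lib.Helper49TDefs Cfsg.Agent.Lib.Helper49SDefs Cfsg.Agent.Lib.Helper49Eich
open Cfsg.Agent.Lib.H49SIso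
open Cfsg.Agent.Lib.H49SGeo

variable {F : Type*} [Field F] {a b n : ℕ}

local notation "GLn" => Matrix.GeneralLinearGroup (Fin a × Fin b) F
local notation "Mn" => Matrix (Fin a × Fin b) (Fin a × Fin b) F
local notation "Ma" => Matrix (Fin a) (Fin a) F
local notation "Mb" => Matrix (Fin b) (Fin b) F
local notation "GLa" => Matrix.GeneralLinearGroup (Fin a) F
local notation "GLb" => Matrix.GeneralLinearGroup (Fin b) F
local notation "𝐏" => QuadraticMap.polar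

theorem bf_right_adj {J : Matrix (Fin n) (Fin n) F} (hJ : IsSympMat J)
    (X : Matrix (Fin n) (Fin n) F) (p x : Fin n → F) :
    bf J p (X *ᵥ x) = bf J (adjJ J X *ᵥ p) x := by
  rw [hJ.swap, hJ.bf_adjJ, hJ.swap x, neg_neg]

theorem mat_ext_bf {J : Matrix (Fin n) (Fin n) F} (hJ : IsSympMat J) {p p' : Fin n → F}
    (h : ∀ x, bf J p x = bf J p' x) : p = p' := by
  have : p - p' = 0 := hJ.eq_zero_of_left fun x => by rw [bf_sub_left, h, sub_self]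
  exact sub_eq_zero.1 this

theorem mul_adj_self (D : SpDat F a b) {t : GLn} {c : Fin b → F}
    {α' : Ma} {μ : F} (L : Lay D t c α' μ) : α' * adjJ D.J₁ α' = μ⁻¹ • (1 : Ma) := by
  have h1 : adjJ D.J₁ α' * α' = μ⁻¹ • (1 : Ma) := by
    apply Matrix.toLin'.injective
    apply LinearMap.ext
    intro y
    simp only [Matrix.toLin'_apply, ← Matrix.mulVec_mulVec, Matrix.smul_mulVec, Matrix.one_mulVec]
    have : adjJ D.J₁ α' *ᵥ (α' *ᵥ y) - μ⁻¹ • y = 0 := by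
      apply D.h₁.eq_zero_of_right
      intro x
      rw [bf_sub_right, ← D.h₁.bf_adjJ, L.sim, bf_smul_right, sub_self]
    exact sub_eq_zero.1 this
  have h2 : (μ • adjJ D.J₁ α') * α' = 1 := by
    rw [Matrix.smul_mul, h1, smul_smul, mul_inv_cancel₀ L.mu, one_smul]
  have h3 : α' * (μ • adjJ D.J₁ α') = 1 := mul_eq_one_comm.1 h2
  rw [Matrix.mul_smul] at h3
  calc α' * adjJ D.J₁ α' = μ⁻¹ • (μ • (α' * adjJ D.J₁ α')) := by
        rw [smul_smul, inv_mul_cancel₀ L.mu, one_smul]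
    _ = μ⁻¹ • (1 : Ma) := by rw [h3]

theorem stage3a (D : SpDat F a b) {t : GLn} (ht : t ∈ OG D) {c : Fin b → F}
    {α' : Ma} {μ : F} (L : Lay D t c α' μ) (e e' : Fin b → F) (κ : Ma)
    (hte : ∀ x, (t : Mn) *ᵥ tens x e = tens (α' *ᵥ x) e' + tens (κ *ᵥ x) c) :
    (t : Mn) * ((1 : Ma) ⊗ₖ NJ D.J₂ e e) * ((t⁻¹ : GLn) : Mn)
      = (μ⁻¹ • (1 : Ma)) ⊗ₖ NJ D.J₂ e' e' + (α' * adjJ D.J₁ κ) ⊗ₖ NJ D.J₂ e' c
        + (κ * adjJ D.J₁ α') ⊗ₖ NJ D.J₂ c e' + (κ * adjJ D.J₁ κ) ⊗ₖ NJ D.J₂ c c := by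
  set R : Mn := (μ⁻¹ • (1 : Ma)) ⊗ₖ NJ D.J₂ e' e' + (α' * adjJ D.J₁ κ) ⊗ₖ NJ D.J₂ e' c
        + (κ * adjJ D.J₁ α') ⊗ₖ NJ D.J₂ c e' + (κ * adjJ D.J₁ κ) ⊗ₖ NJ D.J₂ c c with hR
  have hinv : (t : Mn) * ((t⁻¹ : GLn) : Mn) = 1 := by
    rw [← Units.val_mul, mul_inv_cancel, Units.val_one]
  suffices hmain : (t : Mn) * ((1 : Ma) ⊗ₖ NJ D.J₂ e e) = R * (t : Mn) by
    rw [hmain, mul_assoc, hinv, mul_one]
  apply Matrix.toLin'.injective
  apply LinearMap.ext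
  intro z
  simp only [Matrix.toLin'_apply, ← Matrix.mulVec_mulVec]
  set w := (t : Mn) *ᵥ z with hw
  set ω := ctr (D.J₂ *ᵥ e) z with hω
  have key : ω = adjJ D.J₁ α' *ᵥ ctr (D.J₂ *ᵥ e') w + adjJ D.J₁ κ *ᵥ ctr (D.J₂ *ᵥ c) w := by
    apply mat_ext_bf D.h₁
    intro x'
    rw [hω, ← SpDat.polar_eq_bf_ctr, ← OG_polar D ht, hte, QuadraticMap.polar_add_right,
      SpDat.polar_eq_bf_ctr, SpDat.polar_eq_bf_ctr, bf_add_left, bf_right_adj D.h₁,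
      bf_right_adj D.h₁]
  rw [kron_NJ_mulVec, Matrix.one_mulVec, hte, hR]
  simp only [Matrix.add_mulVec, kron_NJ_mulVec]
  rw [← hω, key]
  simp only [Matrix.mulVec_add, Matrix.mulVec_mulVec, tens_add_left, mul_adj_self D L]
  abel

end Cfsg.Agent.Lib.H49SStage3a
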