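import Cfsg.Agent.Lib.Helper49SDefs
import Cfsg.Agent.Lib.H49SIso
import Cfsg.Agent.Lib.H49SGeo
import Cfsg.Agent.Lib.H49SStage3a

/-!
# PROJECT 50 (S5704), piece `Stage4a`
-/

set_option autoImplicit false
set_option linter.unusedSectionVars false
set_option linter.unusedVariables false

namespace Cfsg.Agent.Lib.H49SStage4a

open scoped Matrix Kronecker
open Matrix Cfsg.Agent.Lib.Helper49TDefs Cfsg.Agent.Lib.Helper49SDefs Cfsg.Agent.Lib.Helper49Eich
open Cfsg.Agent.Lib.H49SIso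
open Cfsg.Agent.Lib.H49SGeo
open Cfsg.Agent.Lib.H49SStage3a

variable {F : Type*} [Field F] {a b n : ℕ}

local notation "GLn" => Matrix.GeneralLinearGroup (Fin a × Fin b) F
local notation "Mn" => Matrix (Fin a × Fin b) (Fin a × Fin b) F
local notation "Ma" => Matrix (Fin a) (Fin a) F
local notation "Mb" => Matrix (Fin b) (Fin b) F
local notation "GLa" => Matrix.GeneralLinearGroup (Fin a) F
local notation "GLb" => Matrix.GeneralLinearGroup (Fin b) F
local notation "𝐏" => QuadraticMap.polar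

theorem alpha_inj (D : SpDat F a b) {t : GLn} {c : Fin b → F} {α' : Ma} {μ : F}
    (L : Lay D t c α' μ) {x : Fin a → F} (h : α' *ᵥ x = 0) : x = 0 := by
  apply D.h₁.eq_zero_of_left
  intro y
  have h1 := L.sim x y
  rw [h, bf_zero_left] at h1
  rcases mul_eq_zero.1 h1.symm with h2 | h2
  · exact absurd h2 (inv_ne_zero L.mu)
  · exact h2

theorem mulVec_inj' (t : GLn) {y y' : Fin a × Fin b → F} (h : (t : Mn) *ᵥ y = (t : Mn) *ᵥ y') :
    y = y' := by
  have := congrArg (fun v => ((t⁻¹ : GLn) : Mn) *ᵥ v) h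
  simpa [Matrix.mulVec_mulVec, ← Units.val_mul] using this

/-- the linear map `γ` with `t (x ⊗ e) = α' x ⊗ γ e` on `c^⊥` -/
theorem exists_gamma (D : SpDat F a b) (ha : 0 < a) {t : GLn} {c : Fin b → F}
    {α' : Ma} {μ : F} (L : Lay D t c α' μ)
    (hK : ∀ e, bf D.J₂ e c = 0 → ∃ e', ∀ x, (t : Mn) *ᵥ tens x e = tens (α' *ᵥ x) e') :
    ∃ γ : (Fin b → F) →ₗ[F] (Fin b → F),
      (∀ e, bf D.J₂ e c = 0 → ∀ x, (t : Mn) *ᵥ tens x e = tens (α' *ᵥ x) (γ e)) ∧
      (∀ e, bf D.J₂ e c = 0 → bf D.J₂ (γ e) c = 0) ∧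
      (∀ e'', bf D.J₂ e'' c = 0 → ∃ e, bf D.J₂ e c = 0 ∧ γ e = e'') := by
  classical
  set x₀ : Fin a → F := Pi.single ⟨0, ha⟩ 1 with hx₀
  have hx₀0 : x₀ ≠ 0 := by
    intro h
    have := congrFun h ⟨0, ha⟩
    simp [hx₀] at this
  have hαx : α' *ᵥ x₀ ≠ 0 := fun h => hx₀0 (alpha_inj D L h)
  obtain ⟨i, hi⟩ : ∃ i, (α' *ᵥ x₀) i ≠ 0 := by
    by_contra hcon
    push Not at hcon
    exact hαx (funext hcon)
  let γ : (Fin b → F) →ₗ[F] (Fin b → F) :=
    { toFun := fun v j => ((t : Mn) *ᵥ tens x₀ v) (i, j) * ((α' *ᵥ x₀) i)⁻¹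
      map_add' := fun v v' => by
        funext j
        simp only [tens_add_right, Matrix.mulVec_add, Pi.add_apply, add_mul]
      map_smul' := fun k v => by
        funext j
        simp only [tens_smul_right, Matrix.mulVec_smul, Pi.smul_apply, smul_eq_mul,
          RingHom.id_apply, mul_assoc] }
  have hγ : ∀ e, bf D.J₂ e c = 0 → ∀ x, (t : Mn) *ᵥ tens x e = tens (α' *ᵥ x) (γ e) := by
    intro e he x
    obtain ⟨e', he'⟩ := hK e he
    have : γ e = e' := by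
      funext j
      change ((t : Mn) *ᵥ tens x₀ e) (i, j) * ((α' *ᵥ x₀) i)⁻¹ = e' j
      rw [he' x₀]
      simp only [tens]
      field_simp
    rw [this, he']
  have hγW : ∀ e, bf D.J₂ e c = 0 → bf D.J₂ (γ e) c = 0 := by
    intro e he
    have h1 := L.perp _ (tens_mem_tsub_perpS (J := D.J₂) he x₀)
    rw [hγ e he, mem_tsub_perpS_iff, ctr_J_tens] at h1
    have h2 := congrFun h1 i
    simp only [Pi.smul_apply, smul_eq_mul, Pi.zero_apply] at h2
    rcases mul_eq_zero.1 h2 with h3 | h3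
    · exact h3
    · exact absurd h3 hi
  refine ⟨γ, hγ, hγW, ?_⟩
  have hres : ∀ e ∈ perpS D.J₂ c, γ e ∈ perpS D.J₂ c := fun e he => hγW e he
  have hinj : Function.Injective (γ.restrict hres) := by
    rw [← LinearMap.ker_eq_bot, LinearMap.ker_eq_bot']
    rintro ⟨e, he⟩ h0
    have h1 : γ e = 0 := congrArg Subtype.val h0
    have h2 := hγ e he x₀
    rw [h1, tens_zero_right'] at h2
    have h3 : tens x₀ e = 0 := mulVec_inj' t (by rw [h2, Matrix.mulVec_zero])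
    have h4 : e = 0 := by
      funext j
      have := congrFun h3 (⟨0, ha⟩, j)
      simpa [tens, hx₀] using this
    exact Subtype.ext h4
  have hsurj := LinearMap.injective_iff_surjective.1 hinj
  intro e'' he''
  obtain ⟨⟨e, he⟩, hee⟩ := hsurj ⟨e'', he''⟩
  exact ⟨e, he, congrArg Subtype.val hee⟩

theorem stage4a (D : SpDat F a b) (ha : 0 < a) {t : GLn} (ht : t ∈ OG D) {c : Fin b → F}
    (hc : c ≠ 0) {α' : Ma} {μ : F} (L : Lay D t c α' μ)
    (hK : ∀ e, bf D.J₂ e c = 0 → ∃ e', ∀ x, (t : Mn) *ᵥ tens x e = tens (α' *ᵥ x) e')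
    (d : Fin b → F) :
    ∀ e'', bf D.J₂ e'' c = 0 → ∃ k : F, ∀ x,
      ((1 : Ma) ⊗ₖ NJ D.J₂ e'' e'') *ᵥ ((t : Mn) *ᵥ tens x d) = tens (k • (α' *ᵥ x)) e'' := by
  obtain ⟨γ, hγ, -, hsurj⟩ := exists_gamma D ha L hK
  intro e'' he''
  obtain ⟨e, he, rfl⟩ := hsurj e'' he''
  refine ⟨μ * bf D.J₂ d e, fun x => ?_⟩
  rw [kron_NJ_mulVec, Matrix.one_mulVec]
  congr 1
  apply mat_ext_bf D.h₁
  intro x''
  have hx'' : α' *ᵥ ((μ • adjJ D.J₁ α') *ᵥ x'') = x'' := by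
    rw [Matrix.mulVec_mulVec, Matrix.mul_smul, mul_adj_self D L, smul_smul, mul_inv_cancel₀ L.mu,
      one_smul, Matrix.one_mulVec]
  set x' := (μ • adjJ D.J₁ α') *ᵥ x'' with hx'
  rw [← SpDat.polar_eq_bf_ctr, ← hx'', ← hγ e he, OG_polar D ht, SpDat.polar_tens, bf_smul_left,
    L.sim]
  field_simp [L.mu]

end Cfsg.Agent.Lib.H49SStage4a
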