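import Cfsg.Agent.Lib.Helper49SDefs
import Cfsg.Agent.Lib.H49SGeo
import Cfsg.Agent.Lib.H49SStage4a

/-!
# PROJECT 50 (S5704), piece `Stage2b`
-/

set_option autoImplicit false
set_option linter.unusedSectionVars false
set_option linter.unusedVariables false

namespace Cfsg.Agent.Lib.H49SStage2b

open scoped Matrix Kronecker
open Matrix Cfsg.Agent.Lib.Helper49TDefs Cfsg.Agent.Lib.Helper49SDefs Cfsg.Agent.Lib.Helper49Eich
open Cfsg.Agent.Lib.H49SGeo
open Cfsg.Agent.Lib.H49SStage4a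

variable {F : Type*} [Field F] {a b n : ℕ}

local notation "GLn" => Matrix.GeneralLinearGroup (Fin a × Fin b) F
local notation "Mn" => Matrix (Fin a × Fin b) (Fin a × Fin b) F
local notation "Ma" => Matrix (Fin a) (Fin a) F
local notation "Mb" => Matrix (Fin b) (Fin b) F
local notation "GLa" => Matrix.GeneralLinearGroup (Fin a) F
local notation "GLb" => Matrix.GeneralLinearGroup (Fin b) F
local notation "𝐏" => QuadraticMap.polar

theorem ctr_apply_eq_bf (J : Matrix (Fin b) (Fin b) F) (e : Fin b → F) (w : Fin a × Fin b → F)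
    (s : Fin a) : ctr (J *ᵥ e) w s = bf J (fun j => w (s, j)) e := rfl

/-- `v₀` is an arbitrary vector of `V₂` -/
theorem stage2b (D : SpDat F a b) (ha : 0 < a) {t : GLn} {c : Fin b → F} (hc : c ≠ 0)
    {α' : Ma} {μ : F} (L : Lay D t c α' μ) (v₀ : Fin b → F)
    (h : ∀ e'', bf D.J₂ e'' c = 0 → ∃ k : F, ∀ x,
      ((1 : Ma) ⊗ₖ NJ D.J₂ e'' e'') *ᵥ ((t : Mn) *ᵥ tens x v₀) = tens (k • (α' *ᵥ x)) e'') :
    ∃ (e' : Fin b → F) (κ : Ma), bf D.J₂ e' c = bf D.J₂ v₀ c ∧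
      ∀ x, (t : Mn) *ᵥ tens x v₀ = tens (α' *ᵥ x) e' + tens (κ *ᵥ x) c := by
  classical
  set x₀ : Fin a → F := Pi.single ⟨0, ha⟩ 1 with hx₀
  have hx₀0 : x₀ ≠ 0 := by
    intro h
    have := congrFun h ⟨0, ha⟩
    simp [hx₀] at this
  have hαx : α' *ᵥ x₀ ≠ 0 := fun h => hx₀0 (alpha_inj D L h)
  obtain ⟨i, hi⟩ : ∃ i, (α' *ᵥ x₀) i ≠ 0 := by
    by_contra hcon
    push Not at hcon
    exact hαx (funext hcon)
  obtain ⟨j₀, hj₀⟩ : ∃ j, c j ≠ 0 := by
    by_contra hcon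
    push Not at hcon
    exact hc (funext hcon)
  set e' : Fin b → F := ((α' *ᵥ x₀) i)⁻¹ • (fun j => ((t : Mn) *ᵥ tens x₀ v₀) (i, j)) with he'
  have hbf : ∀ e'', bf D.J₂ e' e'' = ((α' *ᵥ x₀) i)⁻¹ * ctr (D.J₂ *ᵥ e'') ((t : Mn) *ᵥ tens x₀ v₀) i := by
    intro e''
    rw [he', bf_smul_left, ctr_apply_eq_bf]
  have hdiff : ∀ x, ∃ u, (t : Mn) *ᵥ tens x v₀ - tens (α' *ᵥ x) e' = tens u c := by
    intro x
    apply exists_tens_of_ctr D hc
    intro e'' he''
    by_cases h0 : e'' = 0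
    · subst h0
      ext s
      simp [ctr]
    obtain ⟨k, hk⟩ := h e'' he''
    have hk' : ∀ x, ctr (D.J₂ *ᵥ e'') ((t : Mn) *ᵥ tens x v₀) = k • (α' *ᵥ x) := by
      intro x
      have := hk x
      rw [kron_NJ_mulVec, Matrix.one_mulVec] at this
      exact tens_left_inj h0 this
    rw [ctr_sub, hk', ctr_J_tens, hbf, hk']
    simp only [Pi.smul_apply, smul_eq_mul]
    rw [show ((α' *ᵥ x₀) i)⁻¹ * (k * (α' *ᵥ x₀) i) = k by field_simp, sub_self]
  let κl : (Fin a → F) →ₗ[F] (Fin a → F) :=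
    { toFun := fun x s => ((t : Mn) *ᵥ tens x v₀ - tens (α' *ᵥ x) e') (s, j₀) * (c j₀)⁻¹
      map_add' := fun x x' => by
        funext s
        simp only [tens_add_left, Matrix.mulVec_add, Pi.add_apply, Pi.sub_apply]
        ring
      map_smul' := fun k x => by
        funext s
        simp only [tens_smul_left, Matrix.mulVec_smul, Pi.smul_apply, Pi.sub_apply, smul_eq_mul,
          RingHom.id_apply]
        ring }
  refine ⟨e', LinearMap.toMatrix' κl, ?_, ?_⟩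
  · have h1 := L.top x₀ v₀
    rw [mem_tsub_perpS_iff, ctr_sub, ctr_J_tens, sub_eq_zero] at h1
    rw [hbf, h1]
    simp only [Pi.smul_apply, smul_eq_mul]
    field_simp
  · intro x
    obtain ⟨u, hu⟩ := hdiff x
    have hκ : LinearMap.toMatrix' κl *ᵥ x = u := by
      rw [← Matrix.toLin'_apply, Matrix.toLin'_toMatrix']
      funext s
      change ((t : Mn) *ᵥ tens x v₀ - tens (α' *ᵥ x) e') (s, j₀) * (c j₀)⁻¹ = u s
      rw [hu]
      simp only [tens]
      field_simp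
    rw [hκ, ← hu]
    abel

end Cfsg.Agent.Lib.H49SStage2b
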