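import Cfsg.Agent.Lib.Helper49SDefs
import Cfsg.Agent.Lib.H49SStage3a
import Cfsg.Agent.Lib.H49STv
import Cfsg.Agent.Lib.H49SComm
import Cfsg.Agent.Lib.H49SGeo
import Cfsg.Agent.Lib.H49SStage4a

/-!
# PROJECT 50 (S5704), piece `Stage3b`
-/

set_option autoImplicit false
set_option linter.unusedSectionVars false
set_option linter.unusedVariables false

namespace Cfsg.Agent.Lib.H49SStage3b

open scoped Matrix Kronecker
open Matrix Cfsg.Agent.Lib.Helper49TDefs Cfsg.Agent.Lib.Helper49SDefs Cfsg.Agent.Lib.Helper49Eich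
open Cfsg.Agent.Lib.H49SStage3a
open Cfsg.Agent.Lib.H49STv
open Cfsg.Agent.Lib.H49SComm
open Cfsg.Agent.Lib.H49SGeo
open Cfsg.Agent.Lib.H49SStage4a

variable {F : Type*} [Field F] {a b n : ℕ}

local notation "GLn" => Matrix.GeneralLinearGroup (Fin a × Fin b) F
local notation "Mn" => Matrix (Fin a × Fin b) (Fin a × Fin b) F
local notation "Ma" => Matrix (Fin a) (Fin a) F
local notation "Mb" => Matrix (Fin b) (Fin b) F
local notation "GLa" => Matrix.GeneralLinearGroup (Fin a) F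
local notation "GLb" => Matrix.GeneralLinearGroup (Fin b) F
local notation "𝐏" => QuadraticMap.polar

theorem kron_NJ_mul_zero (J : Matrix (Fin b) (Fin b) F) (X X' : Ma) {p q p' q' : Fin b → F}
    (h : bf J p' q = 0) : (X ⊗ₖ NJ J p q) * (X' ⊗ₖ NJ J p' q') = 0 := by
  rw [← Matrix.mul_kronecker_mul, NJ_mul, h, zero_smul, Matrix.kronecker_zero]

theorem stage3b [Fintype F] (D : SpDat F a b) (ha : 0 < a) (hn : 5 ≤ a * b) (H : Subgroup GLn)
    (hMH : KS a b F ⊓ OG D ≤ H) (hH : H ≤ OG D) {t : GLn} (ht : t ∈ H) {c : Fin b → F}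
    (hc : c ≠ 0) {α' : Ma} {μ : F} (L : Lay D t c α' μ) (e e' : Fin b → F) (κ : Ma)
    (hce : LinearIndependent F ![c, e]) (he : bf D.J₂ e c = 0) (he' : bf D.J₂ e' c = 0)
    (hte : ∀ x, (t : Mn) *ᵥ tens x e = tens (α' *ᵥ x) e' + tens (κ *ᵥ x) c) :
    L1new D H ∨ ∃ ν : F, κ = ν • α' := by
  classical
  have hce' : bf D.J₂ c e' = 0 := by rw [D.h₂.swap, he', neg_zero]
  have hcc : bf D.J₂ c c = 0 := D.h₂.alt c
  have hee : bf D.J₂ e' e' = 0 := D.h₂.alt e'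
  have hB : (t : Mn) * ((1 : Ma) ⊗ₖ NJ D.J₂ e e) * ((t⁻¹ : GLn) : Mn) ∈ NN H := by
    have h1 := NN_mono hMH (tv2_mem D hn e 1)
    rw [one_smul] at h1
    exact NN_conj h1 ht
  rw [stage3a D (hH ht) L e e' κ hte] at hB
  have hM0 : (μ⁻¹ • (1 : Ma)) ⊗ₖ NJ D.J₂ e' e' ∈ NN H := by
    have h1 := NN_mono hMH (tv2_mem D hn e' μ⁻¹)
    rwa [Matrix.kronecker_smul, ← Matrix.smul_kronecker] at h1
  set β := α' * adjJ D.J₁ κ with hβ
  set β' := κ * adjJ D.J₁ α' with hβ'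
  set ζ := κ * adjJ D.J₁ κ with hζ
  have hA : β ⊗ₖ NJ D.J₂ e' c + β' ⊗ₖ NJ D.J₂ c e' + ζ ⊗ₖ NJ D.J₂ c c ∈ NN H := by
    have h2 := NN_sub hB hM0 (by
      simp only [add_mul, kron_NJ_mul_zero D.J₂ _ _ hee, kron_NJ_mul_zero D.J₂ _ _ he', add_zero])
      (by
      simp only [mul_add, kron_NJ_mul_zero D.J₂ _ _ hee, kron_NJ_mul_zero D.J₂ _ _ hce', add_zero])
    have h3 : (μ⁻¹ • (1 : Ma)) ⊗ₖ NJ D.J₂ e' e' + β ⊗ₖ NJ D.J₂ e' c + β' ⊗ₖ NJ D.J₂ c e'
        + ζ ⊗ₖ NJ D.J₂ c c - (μ⁻¹ • (1 : Ma)) ⊗ₖ NJ D.J₂ e' e'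
        = β ⊗ₖ NJ D.J₂ e' c + β' ⊗ₖ NJ D.J₂ c e' + ζ ⊗ₖ NJ D.J₂ c c := by abel
    rwa [h3] at h2
  have hadj : (μ • adjJ D.J₁ α') * α' = 1 := by
    have h3 : α' * (μ • adjJ D.J₁ α') = 1 := by
      rw [Matrix.mul_smul, mul_adj_self D L, smul_smul, mul_inv_cancel₀ L.mu, one_smul]
    exact mul_eq_one_comm.1 h3
  by_cases hsc : ∃ k : F, β = k • 1
  · right
    obtain ⟨k, hk⟩ := hsc
    have h4 : adjJ D.J₁ κ = (k * μ) • adjJ D.J₁ α' := by
      calc adjJ D.J₁ κ = ((μ • adjJ D.J₁ α') * α') * adjJ D.J₁ κ := by rw [hadj, one_mul]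
        _ = (μ • adjJ D.J₁ α') * β := by rw [hβ, mul_assoc]
        _ = (k * μ) • adjJ D.J₁ α' := by
            rw [hk, Matrix.mul_smul, mul_one, smul_smul]
    refine ⟨k * μ, ?_⟩
    apply Matrix.toLin'.injective
    apply LinearMap.ext
    intro x
    simp only [Matrix.toLin'_apply, Matrix.smul_mulVec]
    apply mat_ext_bf D.h₁
    intro y
    rw [D.h₁.bf_adjJ, h4, Matrix.smul_mulVec, bf_smul_right, bf_smul_left, D.h₁.bf_adjJ]
  · left
    push Not at hsc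
    refine ⟨c, e', β, β', ζ, ?_, hce', hsc, hA⟩
    rw [LinearIndependent.pair_iff]
    intro s r hsr
    have hr : r = 0 := by
      by_contra hr
      -- e' is a multiple of c
      have h5 : e' = (-(r⁻¹ * s)) • c := by
        have : r • e' = -(s • c) := by
          rw [eq_neg_iff_add_eq_zero, add_comm]; exact hsr
        calc e' = r⁻¹ • (r • e') := by rw [smul_smul, inv_mul_cancel₀ hr, one_smul]
          _ = (-(r⁻¹ * s)) • c := by rw [this, smul_neg, smul_smul, neg_smul]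
      set l := -(r⁻¹ * s) with hl
      set x₀ : Fin a → F := Pi.single ⟨0, ha⟩ 1 with hx₀
      set y := l • (α' *ᵥ x₀) + κ *ᵥ x₀ with hy
      set x' := μ⁻¹ • ((μ • adjJ D.J₁ α') *ᵥ y) with hx'
      have h6 : μ • (α' *ᵥ x') = y := by
        rw [hx', Matrix.mulVec_smul, smul_smul, mul_inv_cancel₀ L.mu, one_smul,
          Matrix.mulVec_mulVec, Matrix.mul_smul, mul_adj_self D L, smul_smul,
          mul_inv_cancel₀ L.mu, one_smul, Matrix.one_mulVec]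
      have h7 : (t : Mn) *ᵥ tens x₀ e = (t : Mn) *ᵥ tens x' c := by
        rw [hte, L.bot, h6, h5, hy, tens_smul_right, tens_add_left, tens_smul_left]
      have h8 : tens x₀ e = tens x' c := mulVec_inj' t h7
      have h9 : e = x' ⟨0, ha⟩ • c := by
        funext j
        have := congrFun h8 (⟨0, ha⟩, j)
        simpa [tens, hx₀] using this
      have h10 := (LinearIndependent.pair_iff.1 hce) (x' ⟨0, ha⟩) (-1) (by rw [h9]; simp)
      exact one_ne_zero (neg_eq_zero.1 h10.2)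
    refine ⟨?_, hr⟩
    rw [hr, zero_smul, add_zero] at hsr
    exact (smul_eq_zero.1 hsr).resolve_right hc

end Cfsg.Agent.Lib.H49SStage3b
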