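import Cfsg.Agent.Lib.Helper49SDefs
import Cfsg.Agent.Lib.H49SStage2a
import Cfsg.Agent.Lib.H49SStage2b
import Cfsg.Agent.Lib.H49SStage3b

/-!
# PROJECT 50 (S5704), piece `Stage23`
-/

set_option autoImplicit false
set_option linter.unusedSectionVars false
set_option linter.unusedVariables false

namespace Cfsg.Agent.Lib.H49SStage23

open scoped Matrix Kronecker
open Matrix Cfsg.Agent.Lib.Helper49TDefs Cfsg.Agent.Lib.Helper49SDefs Cfsg.Agent.Lib.Helper49Eich
open Cfsg.Agent.Lib.H49SStage2a
open Cfsg.Agent.Lib.H49SStage2b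
open Cfsg.Agent.Lib.H49SStage3b

variable {F : Type*} [Field F] {a b n : ℕ}

local notation "GLn" => Matrix.GeneralLinearGroup (Fin a × Fin b) F
local notation "Mn" => Matrix (Fin a × Fin b) (Fin a × Fin b) F
local notation "Ma" => Matrix (Fin a) (Fin a) F
local notation "Mb" => Matrix (Fin b) (Fin b) F
local notation "GLa" => Matrix.GeneralLinearGroup (Fin a) F
local notation "GLb" => Matrix.GeneralLinearGroup (Fin b) F
local notation "𝐏" => QuadraticMap.polar

theorem stage23 [Fintype F] (D : SpDat F a b) (ha : 0 < a) (hn : 5 ≤ a * b) (H : Subgroup GLn)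
    (hMH : KS a b F ⊓ OG D ≤ H) (hH : H ≤ OG D) {t : GLn} (ht : t ∈ H) {c : Fin b → F}
    (hc : c ≠ 0) {α' : Ma} {μ : F} (L : Lay D t c α' μ) :
    L1new D H ∨ ∀ e, bf D.J₂ e c = 0 →
      ∃ e', ∀ x, (t : Mn) *ᵥ tens x e = tens (α' *ᵥ x) e' := by
  classical
  by_cases hL : L1new D H
  · exact Or.inl hL
  right
  intro e he
  by_cases hind : LinearIndependent F ![c, e]
  · have h2 : ∀ e'', bf D.J₂ e'' c = 0 → ∃ k : F, ∀ x,
        ((1 : Ma) ⊗ₖ NJ D.J₂ e'' e'') *ᵥ ((t : Mn) *ᵥ tens x e) = tens (k • (α' *ᵥ x)) e'' := by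
      intro e'' he''
      by_cases hind'' : LinearIndependent F ![c, e'']
      · obtain ⟨β, β', ζ, hA, hx⟩ := stage2a D hn H hMH hH ht hc L e e'' he he''
        by_cases hsc : ∃ k : F, β = k • 1
        · obtain ⟨k, hk⟩ := hsc
          refine ⟨k, fun x => ?_⟩
          rw [hx, hk, Matrix.smul_mulVec, Matrix.one_mulVec]
        · push Not at hsc
          exact absurd ⟨c, e'', β, β', ζ, hind'', by rw [D.h₂.swap, he'', neg_zero], hsc, hA⟩ hL
      · rw [LinearIndependent.pair_iff' hc] at hind''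
        push Not at hind''
        obtain ⟨l, rfl⟩ := hind''
        refine ⟨0, fun x => ?_⟩
        have h1 := L.perp _ (tens_mem_tsub_perpS (J := D.J₂) he x)
        rw [mem_tsub_perpS_iff] at h1
        rw [kron_NJ_mulVec, Matrix.one_mulVec, zero_smul, tens_zero_left']
        have h3 : ctr (D.J₂ *ᵥ (l • c)) ((t : Mn) *ᵥ tens x e) = 0 := by
          ext s
          have := congrFun h1 s
          simp only [ctr, Matrix.mulVec_smul, Pi.smul_apply, smul_eq_mul, Pi.zero_apply] at this ⊢
          calc ∑ j, ((t : Mn) *ᵥ tens x e) (s, j) * (l * (D.J₂ *ᵥ c) j)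
              = l * ∑ j, ((t : Mn) *ᵥ tens x e) (s, j) * (D.J₂ *ᵥ c) j := by
                rw [Finset.mul_sum]
                refine Finset.sum_congr rfl fun j _ => ?_
                ring
            _ = 0 := by rw [this, mul_zero]
        rw [h3, tens_zero_left']
    obtain ⟨e', κ, he'c, hte⟩ := stage2b D ha hc L e h2
    rcases stage3b D ha hn H hMH hH ht hc L e e' κ hind he (he'c.trans he) hte with h3 | ⟨ν, hν⟩
    · exact absurd h3 hL
    · refine ⟨e' + ν • c, fun x => ?_⟩
      rw [hte, hν, Matrix.smul_mulVec, tens_add_right, tens_smul_left, tens_smul_right]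
  · rw [LinearIndependent.pair_iff' hc] at hind
    push Not at hind
    obtain ⟨l, rfl⟩ := hind
    refine ⟨(l * μ) • c, fun x => ?_⟩
    rw [tens_smul_right, Matrix.mulVec_smul, L.bot, tens_smul_left, tens_smul_right, smul_smul]

end Cfsg.Agent.Lib.H49SStage23
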