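import Cfsg.Agent.Lib.Helper49SDefs
import Cfsg.Agent.Lib.H49SIso
import Cfsg.Agent.Lib.H49SGeo
import Cfsg.Agent.Lib.H49SForm1
import Cfsg.Agent.Lib.H49SStage4a

/-!
# PROJECT 50 (S5704), piece `Stage4b`
-/

set_option autoImplicit false
set_option linter.unusedSectionVars false
set_option linter.unusedVariables false

namespace Cfsg.Agent.Lib.H49SStage4b

open scoped Matrix Kronecker
open Matrix Cfsg.Agent.Lib.Helper49TDefs Cfsg.Agent.Lib.Helper49SDefs Cfsg.Agent.Lib.Helper49Eich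
open Cfsg.Agent.Lib.H49SIso
open Cfsg.Agent.Lib.H49SGeo
open Cfsg.Agent.Lib.H49SForm1
open Cfsg.Agent.Lib.H49SStage4a

variable {F : Type*} [Field F] {a b n : ℕ}

local notation "GLn" => Matrix.GeneralLinearGroup (Fin a × Fin b) F
local notation "Mn" => Matrix (Fin a × Fin b) (Fin a × Fin b) F
local notation "Ma" => Matrix (Fin a) (Fin a) F
local notation "Mb" => Matrix (Fin b) (Fin b) F
local notation "GLa" => Matrix.GeneralLinearGroup (Fin a) F
local notation "GLb" => Matrix.GeneralLinearGroup (Fin b) F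
local notation "𝐏" => QuadraticMap.polar

theorem stage4b (D : SpDat F a b) (ha : 0 < a) {t : GLn} (ht : t ∈ OG D) {c : Fin b → F}
    (hc : c ≠ 0) {α' : Ma} {μ : F} (L : Lay D t c α' μ)
    (hK : ∀ e, bf D.J₂ e c = 0 → ∃ e', ∀ x, (t : Mn) *ᵥ tens x e = tens (α' *ᵥ x) e')
    (d w₁ : Fin b → F) (η : Ma) (hd : bf D.J₂ d c = 1) (hw : bf D.J₂ w₁ c = 1)
    (htd : ∀ x, (t : Mn) *ᵥ tens x d = tens (α' *ᵥ x) w₁ + tens (η *ᵥ x) c) :
    ∃ (g : Mb) (ζ' : Ma), (t : Mn) = α' ⊗ₖ g + ζ' ⊗ₖ NJ D.J₂ c c ∧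
      (∀ x, bf D.J₁ (α' *ᵥ x) (ζ' *ᵥ x) = 0) ∧ NJ D.J₂ c c * g = NJ D.J₂ c c := by
  obtain ⟨γ, hγ, hγW, -⟩ := exists_gamma D ha L hK
  let gl : (Fin b → F) →ₗ[F] (Fin b → F) :=
    { toFun := fun v => γ (v - bf D.J₂ v c • d) + bf D.J₂ v c • w₁
      map_add' := fun v v' => by
        simp only [bf_add_left, add_smul]
        rw [← add_add_add_comm, ← map_add]
        congr 2
        abel
      map_smul' := fun k v => by
        simp only [bf_smul_left, RingHom.id_apply, smul_add, ← map_smul, smul_sub, smul_smul] }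
  have hgl : ∀ v, gl v = γ (v - bf D.J₂ v c • d) + bf D.J₂ v c • w₁ := fun v => rfl
  have hperp : ∀ v, bf D.J₂ (v - bf D.J₂ v c • d) c = 0 := by
    intro v
    rw [bf_sub_left, bf_smul_left, hd, mul_one, sub_self]
  refine ⟨LinearMap.toMatrix' gl, η, ?_, ?_, ?_⟩
  · apply ext_tens
    intro x v
    rw [Matrix.add_mulVec, kron_mulVec_tens, kron_mulVec_tens, NJ_mulVec,
      ← Matrix.toLin'_apply (LinearMap.toMatrix' gl), Matrix.toLin'_toMatrix', hgl]
    have hv : v = (v - bf D.J₂ v c • d) + bf D.J₂ v c • d := by abel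
    conv_lhs => rw [hv]
    rw [tens_add_right, Matrix.mulVec_add, hγ _ (hperp v), tens_smul_right, Matrix.mulVec_smul, htd,
      tens_add_right, tens_smul_right, tens_smul_right, smul_add]
    abel
  · intro x
    have h1 : D.Q ((t : Mn) *ᵥ tens x d) = 0 := by rw [OG_Q D ht, D.Qpure]
    rw [htd, QuadraticMap.map_add D.Q, D.Qpure, D.Qpure, SpDat.polar_tens, hw] at h1
    simpa using h1
  · apply Matrix.toLin'.injective
    apply LinearMap.ext
    intro v
    simp only [Matrix.toLin'_apply, ← Matrix.mulVec_mulVec, NJ_mulVec]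
    rw [← Matrix.toLin'_apply (LinearMap.toMatrix' gl), Matrix.toLin'_toMatrix', hgl, bf_add_left,
      hγW _ (hperp v), bf_smul_left, hw]
    simp

end Cfsg.Agent.Lib.H49SStage4b
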