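import Cfsg.Agent.Lib.Helper49SDefs
import Cfsg.Agent.Lib.H49SAlgJ
import Cfsg.Agent.Lib.H49STv
import Cfsg.Agent.Lib.H49SComm
import Cfsg.Agent.Lib.H49SKronKS
import Cfsg.Agent.Lib.H49SStage3a

/-!
# PROJECT 50 (S5704), piece `Stage5`
-/

set_option autoImplicit false
set_option linter.unusedSectionVars false
set_option linter.unusedVariables false

namespace Cfsg.Agent.Lib.H49SStage5

open scoped Matrix Kronecker
open Matrix Cfsg.Agent.Lib.Helper49TDefs Cfsg.Agent.Lib.Helper49SDefs Cfsg.Agent.Lib.Helper49Eich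
open Cfsg.Agent.Lib.H49SAlgJ
open Cfsg.Agent.Lib.H49STv
open Cfsg.Agent.Lib.H49SComm
open Cfsg.Agent.Lib.H49SKronKS
open Cfsg.Agent.Lib.H49SStage3a

variable {F : Type*} [Field F] {a b n : ℕ}

local notation "GLn" => Matrix.GeneralLinearGroup (Fin a × Fin b) F
local notation "Mn" => Matrix (Fin a × Fin b) (Fin a × Fin b) F
local notation "Ma" => Matrix (Fin a) (Fin a) F
local notation "Mb" => Matrix (Fin b) (Fin b) F
local notation "GLa" => Matrix.GeneralLinearGroup (Fin a) F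
local notation "GLb" => Matrix.GeneralLinearGroup (Fin b) F
local notation "𝐏" => QuadraticMap.polar

theorem stage5 [Fintype F] (D : SpDat F a b) (hn : 5 ≤ a * b) (H : Subgroup GLn)
    (hMH : KS a b F ⊓ OG D ≤ H) (hH : H ≤ OG D) {t : GLn} (ht : t ∈ H) (htK : t ∉ KS a b F)
    {c : Fin b → F} (hc : c ≠ 0) {α' : Ma} {μ : F} (L : Lay D t c α' μ) (g : Mb) (ζ' : Ma)
    (hform : (t : Mn) = α' ⊗ₖ g + ζ' ⊗ₖ NJ D.J₂ c c)
    (halt : ∀ x, bf D.J₁ (α' *ᵥ x) (ζ' *ᵥ x) = 0) (hNg : NJ D.J₂ c c * g = NJ D.J₂ c c) :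
    HasA D H := by
  classical
  set A' : Ma := μ • adjJ D.J₁ α' with hA'
  have h1 : α' * A' = 1 := by
    rw [hA', Matrix.mul_smul, mul_adj_self D L, smul_smul, mul_inv_cancel₀ L.mu, one_smul]
  have h2 : A' * α' = 1 := mul_eq_one_comm.1 h1
  set ζ : Ma := ζ' * A' with hζ
  have hζα : ζ * α' = ζ' := by rw [hζ, mul_assoc, h2, mul_one]
  have halt' : ∀ y, bf D.J₁ y (ζ *ᵥ y) = 0 := by
    intro y
    have := halt (A' *ᵥ y)
    rwa [Matrix.mulVec_mulVec, Matrix.mulVec_mulVec, h1, Matrix.one_mulVec] at this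
  have hns : ∀ k : F, ζ ≠ k • 1 := by
    intro k hk
    apply htK
    apply mem_KS_of_kron t α' (g + k • NJ D.J₂ c c)
    rw [hform, ← hζα, hk, Matrix.smul_mul, one_mul, Matrix.kronecker_add, Matrix.kronecker_smul,
      Matrix.smul_kronecker]
  obtain ⟨u, hind, hperp, hcomm, hTζT⟩ := alg_J D.h₁ ζ halt' hns
  set T : Ma := NJ D.J₁ u u with hT
  set N : Mb := NJ D.J₂ c c with hN
  have hTT : T * T = 0 := by rw [hT, NJ_mul, D.h₁.alt, zero_smul]
  have hNN : N * N = 0 := by rw [hN, NJ_mul, D.h₂.alt, zero_smul]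
  set u₀ := A' *ᵥ u with hu₀
  set T₀ : Ma := μ⁻¹ • NJ D.J₁ u₀ u₀ with hT₀
  have hsimA : ∀ v w, bf D.J₁ (A' *ᵥ v) (A' *ᵥ w) = μ * bf D.J₁ v w := by
    intro v w
    have := L.sim (A' *ᵥ v) (A' *ᵥ w)
    rw [Matrix.mulVec_mulVec, Matrix.mulVec_mulVec, h1, Matrix.one_mulVec, Matrix.one_mulVec] at this
    rw [this, ← mul_assoc, mul_inv_cancel₀ L.mu, one_mul]
  have hαT : α' * T₀ = T * α' := by
    apply Matrix.toLin'.injective
    apply LinearMap.ext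
    intro v
    simp only [Matrix.toLin'_apply, ← Matrix.mulVec_mulVec, hT₀, hT, Matrix.smul_mulVec, NJ_mulVec,
      Matrix.mulVec_smul]
    have e1 : α' *ᵥ u₀ = u := by rw [hu₀, Matrix.mulVec_mulVec, h1, Matrix.one_mulVec]
    have e2 : bf D.J₁ v u₀ = μ * bf D.J₁ (α' *ᵥ v) u := by
      have := hsimA (α' *ᵥ v) u
      rwa [Matrix.mulVec_mulVec, h2, Matrix.one_mulVec] at this
    rw [e1, e2, smul_smul, ← mul_assoc, inv_mul_cancel₀ L.mu, one_mul]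
  have hinv : (t : Mn) * ((t⁻¹ : GLn) : Mn) = 1 := by
    rw [← Units.val_mul, mul_inv_cancel, Units.val_one]
  have hconj : (t : Mn) * (T₀ ⊗ₖ (1 : Mb)) * ((t⁻¹ : GLn) : Mn)
      = T ⊗ₖ (1 : Mb) + (ζ * T - T * ζ) ⊗ₖ N := by
    suffices hm : (t : Mn) * (T₀ ⊗ₖ (1 : Mb)) = (T ⊗ₖ (1 : Mb) + (ζ * T - T * ζ) ⊗ₖ N) * (t : Mn) by
      rw [hm, mul_assoc, hinv, mul_one]
    rw [hform]
    simp only [add_mul, mul_add, ← Matrix.mul_kronecker_mul, mul_one, one_mul, hNg, hNN,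
      Matrix.kronecker_zero, add_zero]
    have hsk : ∀ (X Y : Ma) (Z : Mb), (X - Y) ⊗ₖ Z = X ⊗ₖ Z - Y ⊗ₖ Z := by
      intro X Y Z
      ext i j
      simp [Matrix.kroneckerMap_apply, sub_mul]
    rw [hαT, ← hζα, mul_assoc ζ α' T₀, hαT, sub_mul, hsk]
    simp only [mul_assoc]
    abel
  have hB1 : T ⊗ₖ (1 : Mb) + (ζ * T - T * ζ) ⊗ₖ N ∈ NN H := by
    rw [← hconj]
    exact NN_conj (NN_mono hMH (tv1_mem D hn u₀ μ⁻¹)) ht
  have hB2 : T ⊗ₖ (1 : Mb) ∈ NN H := by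
    have := NN_mono hMH (tv1_mem D hn u 1)
    rwa [one_smul] at this
  have e3 : (ζ * T - T * ζ) * T = 0 := by
    rw [sub_mul, mul_assoc, hTT, mul_zero, hTζT, sub_zero]
  have e4 : T * (ζ * T - T * ζ) = 0 := by
    rw [mul_sub, ← mul_assoc, hTζT, ← mul_assoc, hTT, zero_mul, sub_zero]
  have hB := NN_sub hB1 hB2
    (by simp only [add_mul, ← Matrix.mul_kronecker_mul, hTT, e3, mul_one, Matrix.zero_kronecker,
          add_zero])
    (by simp only [mul_add, ← Matrix.mul_kronecker_mul, hTT, e4, one_mul, Matrix.zero_kronecker,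
          add_zero])
  rw [add_sub_cancel_left, hcomm] at hB
  refine ⟨ζ *ᵥ u, u, c, ?_, ?_, hc, hB⟩
  · exact LinearIndependent.pair_symm_iff.1 hind
  · rw [D.h₁.swap, hperp, neg_zero]

end Cfsg.Agent.Lib.H49SStage5
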