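import Cfsg.Agent.Lib.Helper95SL

set_option autoImplicit false
set_option linter.unusedSectionVars false

namespace Cfsg.Agent.Lib.Helper99Subfield

open Matrix Cfsg.Agent.Lib.Helper95Basic

variable {ι : Type} [Fintype ι] [DecidableEq ι] {F : Type*} [Field F]

/-! ### maximality and conjugation -/

lemma isMaximalIn_map {G : Type*} [Group G] (φ : G ≃* G) (K H : Subgroup G)
    (h : Cfsg.Geo.IsMaximalIn K H) :
    Cfsg.Geo.IsMaximalIn (K.map φ.toMonoidHom) (H.map φ.toMonoidHom) := by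
  obtain ⟨h1, h2⟩ := h
  refine ⟨?_, ?_⟩
  · exact (Subgroup.map_lt_map_iff_of_injective φ.injective).2 h1
  · intro M hHM hMK
    have e : (M.comap φ.toMonoidHom).map φ.toMonoidHom = M :=
      Subgroup.map_comap_eq_self_of_surjective φ.surjective M
    rcases h2 (M.comap φ.toMonoidHom) (Subgroup.map_le_iff_le_comap.1 hHM)
      (by rw [← e] at hMK; exact (Subgroup.map_le_map_iff_of_injective φ.injective).1 hMK) with h | h
    · left; rw [← e, h]
    · right; rw [← e, h]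

lemma specialLinear_map_conj (P : GL ι F) :
    (Cfsg.Geo.specialLinear ι F).map (MulAut.conj P).toMonoidHom = Cfsg.Geo.specialLinear ι F := by
  have : (Cfsg.Geo.specialLinear ι F).Normal := by
    unfold Cfsg.Geo.specialLinear; infer_instance
  ext g
  simp only [Subgroup.mem_map, MulEquiv.coe_toMonoidHom, MulAut.conj_apply]
  constructor
  · rintro ⟨x, hx, rfl⟩
    exact this.conj_mem x hx P
  · intro hg
    refine ⟨P⁻¹ * g * P, ?_, by group⟩
    simpa using this.conj_mem g hg P⁻¹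

lemma subfieldSubgroup_eq_map (F₀ : Subfield F) (P : GL ι F) :
    Cfsg.Geo.subfieldSubgroup F₀ P =
      (Cfsg.Geo.subfieldSubgroup F₀ (1 : GL ι F)).map (MulAut.conj P).toMonoidHom := by
  unfold Cfsg.Geo.subfieldSubgroup
  congr 1
  ext g
  simp

/-- reduction of maximality of a subfield group to `P = 1`, for a normal subgroup `K` of `GL`. -/
lemma isMaximalIn_subfield_of_one (F₀ : Subfield F) (P : GL ι F)
    (h : Cfsg.Geo.IsMaximalIn (Cfsg.Geo.specialLinear ι F)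
      (Cfsg.Geo.subfieldSubgroup F₀ (1 : GL ι F) ⊓ Cfsg.Geo.specialLinear ι F)) :
    Cfsg.Geo.IsMaximalIn (Cfsg.Geo.specialLinear ι F)
      (Cfsg.Geo.subfieldSubgroup F₀ P ⊓ Cfsg.Geo.specialLinear ι F) := by
  have := isMaximalIn_map (MulAut.conj P) _ _ h
  rw [specialLinear_map_conj, Subgroup.map_inf_eq _ _ _ (MulAut.conj P).injective,
    specialLinear_map_conj, ← subfieldSubgroup_eq_map] at this
  exact this

/-! ### rationality -/

/-- a vector with all coordinates in `F₀` -/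
def IsRat (F₀ : Subfield F) {κ : Type*} (v : κ → F) : Prop := ∀ i, v i ∈ F₀

/-- a matrix with all entries in `F₀` -/
def IsRatM (F₀ : Subfield F) (A : Matrix ι ι F) : Prop := ∀ i j, A i j ∈ F₀

variable {F₀ : Subfield F}

lemma IsRat.add {κ : Type*} {u v : κ → F} (hu : IsRat F₀ u) (hv : IsRat F₀ v) : IsRat F₀ (u + v) :=
  fun i => F₀.add_mem (hu i) (hv i)

lemma IsRat.sub {κ : Type*} {u v : κ → F} (hu : IsRat F₀ u) (hv : IsRat F₀ v) : IsRat F₀ (u - v) :=
  fun i => F₀.sub_mem (hu i) (hv i)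

lemma IsRat.neg {κ : Type*} {u : κ → F} (hu : IsRat F₀ u) : IsRat F₀ (-u) :=
  fun i => F₀.neg_mem (hu i)

lemma IsRat.smul {κ : Type*} {u : κ → F} {c : F} (hc : c ∈ F₀) (hu : IsRat F₀ u) : IsRat F₀ (c • u) :=
  fun i => F₀.mul_mem hc (hu i)

lemma IsRat.zero {κ : Type*} : IsRat F₀ (0 : κ → F) := fun _ => F₀.zero_mem

lemma IsRat.single (i : ι) {c : F} (hc : c ∈ F₀) : IsRat F₀ (Pi.single i c : ι → F) := by
  intro j
  by_cases h : j = i
  · subst h; simpa using hc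
  · simp [h]

lemma IsRat.dotProduct {u v : ι → F} (hu : IsRat F₀ u) (hv : IsRat F₀ v) : u ⬝ᵥ v ∈ F₀ :=
  F₀.sum_mem fun i _ => F₀.mul_mem (hu i) (hv i)

lemma IsRatM.mulVec {A : Matrix ι ι F} {v : ι → F} (hA : IsRatM F₀ A) (hv : IsRat F₀ v) :
    IsRat F₀ (A *ᵥ v) := fun i => IsRat.dotProduct (hA i) hv

lemma IsRatM.vecMul {A : Matrix ι ι F} {v : ι → F} (hA : IsRatM F₀ A) (hv : IsRat F₀ v) :
    IsRat F₀ (v ᵥ* A) := fun i => IsRat.dotProduct hv (fun j => hA j i)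

/-- lift a rational vector -/
lemma IsRat.exists_lift {κ : Type*} {v : κ → F} (hv : IsRat F₀ v) :
    ∃ w : κ → F₀, v = fun i => (w i : F) := ⟨fun i => ⟨v i, hv i⟩, rfl⟩

lemma IsRatM.exists_lift {A : Matrix ι ι F} (hA : IsRatM F₀ A) :
    ∃ B : Matrix ι ι F₀, A = B.map (F₀.subtype) :=
  ⟨fun i j => ⟨A i j, hA i j⟩, by ext i j; rfl⟩

/-- the rational points of `GL` -/
lemma mem_range_map_iff (g : GL ι F) :
    g ∈ (Matrix.GeneralLinearGroup.map (n := ι) (F₀.subtype : F₀ →+* F)).range ↔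
      IsRatM F₀ (g : Matrix ι ι F) := by
  constructor
  · rintro ⟨h, rfl⟩ i j
    simp [Matrix.GeneralLinearGroup.map]
  · intro hg
    obtain ⟨B, hB⟩ := hg.exists_lift
    have hdet : B.det ≠ 0 := by
      intro h0
      have h1 : (g : Matrix ι ι F).det = 0 := by
        rw [hB, ← RingHom.mapMatrix_apply, ← RingHom.map_det, h0, map_zero]
      have h2 : IsUnit (g : Matrix ι ι F).det := by
        rw [← Matrix.isUnit_iff_isUnit_det]; exact g.isUnit
      rw [h1] at h2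
      exact not_isUnit_zero h2
    refine ⟨Matrix.GeneralLinearGroup.mkOfDetNeZero B hdet, ?_⟩
    apply Units.ext
    rw [hB]
    rfl

lemma scalars_normal : (Cfsg.Geo.scalars ι F).Normal := by
  constructor
  intro s hs g
  rw [Cfsg.Geo.mem_scalars_iff] at hs ⊢
  obtain ⟨c, hc⟩ := hs
  refine ⟨c, ?_⟩
  have : ((g * s * g⁻¹ : GL ι F) : Matrix ι ι F) = (g : Matrix ι ι F) * (s : Matrix ι ι F) * ((g⁻¹ : GL ι F) : Matrix ι ι F) := by
    simp
  rw [this, hc]
  rw [Matrix.mul_smul, Matrix.mul_one, Matrix.smul_mul, ← Units.val_mul, mul_inv_cancel, Units.val_one]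

/-- membership in the standard subfield group -/
lemma mem_subfieldSubgroup_one_iff (g : GL ι F) :
    g ∈ Cfsg.Geo.subfieldSubgroup F₀ (1 : GL ι F) ↔
      ∃ c : F, c ≠ 0 ∧ IsRatM F₀ (c • (g : Matrix ι ι F)) := by
  have e : Cfsg.Geo.subfieldSubgroup F₀ (1 : GL ι F) =
      (Matrix.GeneralLinearGroup.map (n := ι) (F₀.subtype : F₀ →+* F)).range ⊔ Cfsg.Geo.scalars ι F := by
    unfold Cfsg.Geo.subfieldSubgroup
    ext g
    simp
  rw [e]
  have := scalars_normal (ι := ι) (F := F)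
  rw [Subgroup.mem_sup_of_normal_right]
  constructor
  · rintro ⟨h, hh, s, hs, rfl⟩
    rw [mem_range_map_iff] at hh
    rw [Cfsg.Geo.mem_scalars_iff] at hs
    obtain ⟨c, hc⟩ := hs
    refine ⟨(c : F)⁻¹, inv_ne_zero c.ne_zero, ?_⟩
    have : (c : F)⁻¹ • ((h * s : GL ι F) : Matrix ι ι F) = (h : Matrix ι ι F) := by
      rw [Units.val_mul, hc, Matrix.mul_smul, Matrix.mul_one, smul_smul, inv_mul_cancel₀ c.ne_zero,
        one_smul]
    rw [this]
    exact hh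
  · rintro ⟨c, hc, hg⟩
    set s : GL ι F := Units.map (Matrix.scalar ι : F →+* Matrix ι ι F).toMonoidHom (Units.mk0 c hc)
      with hs
    have hsv : (s : Matrix ι ι F) = c • (1 : Matrix ι ι F) := by
      simp [hs, Matrix.smul_one_eq_diagonal]
    have hsmem : s ∈ Cfsg.Geo.scalars ι F := ⟨_, rfl⟩
    refine ⟨g * s, ?_, s⁻¹, (Cfsg.Geo.scalars ι F).inv_mem hsmem, by group⟩
    rw [mem_range_map_iff]
    have : ((g * s : GL ι F) : Matrix ι ι F) = c • (g : Matrix ι ι F) := by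
      rw [Units.val_mul, hsv, Matrix.mul_smul, Matrix.mul_one]
    rw [this]
    exact hg

/-! ### prime degree -/

lemma finrank_eq_of_card [Fintype F] (r : ℕ) (hcard : Fintype.card F = Nat.card F₀ ^ r) :
    Module.finrank F₀ F = r := by
  classical
  have h1 : Fintype.card F = Fintype.card F₀ ^ Module.finrank F₀ F := Module.card_eq_pow_finrank
  rw [hcard, Nat.card_eq_fintype_card] at h1
  exact (Nat.pow_right_injective (Fintype.one_lt_card : 1 < Fintype.card F₀) h1).symm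

/-- A subalgebra of `F` over `F₀` containing an element outside `F₀` is everything. -/
lemma subalgebra_eq_top [Fintype F] (r : ℕ) (hr : r.Prime) (hcard : Fintype.card F = Nat.card F₀ ^ r)
    (D : Subalgebra F₀ F) (x : F) (hx : x ∈ D) (hx0 : x ∉ F₀) : D = ⊤ := by
  have hp : (Module.finrank F₀ F).Prime := by rw [finrank_eq_of_card r hcard]; exact hr
  have := Subalgebra.isSimpleOrder_of_finrank_prime F₀ F hp
  rcases this.eq_bot_or_eq_top D with h | h
  · exfalso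
    rw [h, Algebra.mem_bot] at hx
    obtain ⟨y, rfl⟩ := hx
    exact hx0 y.2
  · exact h

/-! ### transvections -/

/-- the transvection `x ↦ x + (φ ⬝ᵥ x) • u` -/
def T (u φ : ι → F) (h : φ ⬝ᵥ u = 0) : GL ι F where
  val := 1 + vecMulVec u φ
  inv := 1 - vecMulVec u φ
  val_inv := by
    rw [add_mul, mul_sub, mul_sub, vecMulVec_mul_vecMulVec, h]
    simp
  inv_val := by
    rw [sub_mul, mul_add, mul_add, vecMulVec_mul_vecMulVec, h]
    simp

lemma T_val (u φ : ι → F) (h : φ ⬝ᵥ u = 0) : (T u φ h : Matrix ι ι F) = 1 + vecMulVec u φ := rfl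

@[simp] lemma T_mulVec (u φ : ι → F) (h : φ ⬝ᵥ u = 0) (x : ι → F) :
    (T u φ h : Matrix ι ι F) *ᵥ x = x + (φ ⬝ᵥ x) • u := by
  rw [T_val, add_mulVec, one_mulVec, vecMulVec_mulVec]
  ext i
  simp [mul_comm]

lemma T_apply (u φ : ι → F) (h : φ ⬝ᵥ u = 0) (i j : ι) :
    (T u φ h : Matrix ι ι F) i j = (if i = j then 1 else 0) + u i * φ j := by
  rw [T_val, Matrix.add_apply, vecMulVec_apply, one_apply]

lemma T_mem_specialLinear (u φ : ι → F) (h : φ ⬝ᵥ u = 0) :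
    T u φ h ∈ Cfsg.Geo.specialLinear ι F := by
  rw [mem_specialLinear_iff, T_val, vecMulVec_eq Unit, det_one_add_replicateCol_mul_replicateRow, h,
    add_zero]

/-- `T u φ` belongs to `M` -/
def TM (M : Subgroup (GL ι F)) (u φ : ι → F) : Prop := ∃ h : φ ⬝ᵥ u = 0, T u φ h ∈ M

variable {M : Subgroup (GL ι F)}

lemma TM.conj {u φ : ι → F} (h : TM M u φ) {g : GL ι F} (hg : g ∈ M) :
    TM M ((g : Matrix ι ι F) *ᵥ u) (φ ᵥ* ((g⁻¹ : GL ι F) : Matrix ι ι F)) := by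
  obtain ⟨h1, h2⟩ := h
  have h3 : (φ ᵥ* ((g⁻¹ : GL ι F) : Matrix ι ι F)) ⬝ᵥ ((g : Matrix ι ι F) *ᵥ u) = 0 := by
    rw [← dotProduct_mulVec, inv_mulVec_mulVec, h1]
  refine ⟨h3, ?_⟩
  have : T _ _ h3 = g * T u φ h1 * g⁻¹ := by
    apply gl_ext
    intro x
    rw [mul_mulVec, mul_mulVec, T_mulVec, T_mulVec, mulVec_add, mulVec_inv_mulVec, mulVec_smul,
      dotProduct_mulVec]
  rw [this]
  exact M.mul_mem (M.mul_mem hg h2) (M.inv_mem hg)

lemma TM.add_left {u u' φ : ι → F} (h : TM M u φ) (h' : TM M u' φ) : TM M (u + u') φ := by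
  obtain ⟨h1, h2⟩ := h
  obtain ⟨h1', h2'⟩ := h'
  have h3 : φ ⬝ᵥ (u + u') = 0 := by rw [dotProduct_add, h1, h1', add_zero]
  refine ⟨h3, ?_⟩
  have : T _ _ h3 = T u φ h1 * T u' φ h1' := by
    apply gl_ext
    intro x
    rw [mul_mulVec, T_mulVec, T_mulVec, T_mulVec, dotProduct_add, dotProduct_smul, h1']
    simp only [smul_eq_mul, mul_zero, add_zero, smul_add]
    abel
  rw [this]
  exact M.mul_mem h2 h2'

lemma TM.smul_swap {u φ : ι → F} {c : F} (h : TM M (c • u) φ) : TM M u (c • φ) := by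
  obtain ⟨h1, h2⟩ := h
  have h3 : (c • φ) ⬝ᵥ u = 0 := by rw [smul_dotProduct, ← dotProduct_smul]; exact h1
  refine ⟨h3, ?_⟩
  have : T _ _ h3 = T (c • u) φ h1 := by
    apply gl_ext
    intro x
    rw [T_mulVec, T_mulVec, smul_dotProduct, smul_smul, smul_eq_mul, mul_comm]
  rw [this]
  exact h2

lemma TM.smul_swap' {u φ : ι → F} {c : F} (h : TM M u (c • φ)) : TM M (c • u) φ := by
  obtain ⟨h1, h2⟩ := h
  have h3 : φ ⬝ᵥ (c • u) = 0 := by rw [dotProduct_smul, ← smul_dotProduct]; exact h1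
  refine ⟨h3, ?_⟩
  have : T _ _ h3 = T u (c • φ) h1 := by
    apply gl_ext
    intro x
    rw [T_mulVec, T_mulVec, smul_dotProduct, smul_smul, smul_eq_mul, mul_comm]
  rw [this]
  exact h2

/-- rescaling -/
lemma TM.rescale {u φ : ι → F} {c : F} (hc : c ≠ 0) (h : TM M u φ) : TM M (c • u) (c⁻¹ • φ) := by
  apply TM.smul_swap'
  rw [smul_smul, mul_inv_cancel₀ hc, one_smul]
  exact h

/-- the commutator formula -/
lemma TM.comm {u φ b μ : ι → F} (h : TM M u φ) (h' : TM M b μ) (h0 : μ ⬝ᵥ u = 0) :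
    TM M ((φ ⬝ᵥ b) • u) μ := by
  obtain ⟨h1, h2⟩ := h
  obtain ⟨h1', h2'⟩ := h'
  have h3 : μ ⬝ᵥ ((φ ⬝ᵥ b) • u) = 0 := by rw [dotProduct_smul, h0, smul_zero]
  refine ⟨h3, ?_⟩
  have : T _ _ h3 = T u φ h1 * T b μ h1' * (T u φ h1)⁻¹ * (T b μ h1')⁻¹ := by
    rw [eq_mul_inv_iff_mul_eq, eq_mul_inv_iff_mul_eq]
    apply gl_ext
    intro x
    simp only [mul_mulVec, T_mulVec, dotProduct_add, dotProduct_smul, h0, h1', smul_eq_mul,
      mul_zero, add_zero, smul_smul, add_smul]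
    module
  rw [this]
  exact M.mul_mem (M.mul_mem (M.mul_mem h2 h2') (M.inv_mem h2)) (M.inv_mem h2')

lemma T_vecMul (u φ : ι → F) (h : φ ⬝ᵥ u = 0) (x : ι → F) :
    x ᵥ* (T u φ h : Matrix ι ι F) = x + (x ⬝ᵥ u) • φ := by
  rw [T_val, vecMul_add, vecMul_one, vecMul_vecMulVec]

lemma exists_ne₂ (h : 2 < Fintype.card ι) (a b : ι) : ∃ c, c ≠ a ∧ c ≠ b := by
  by_contra hcon
  push Not at hcon
  have h1 : (Finset.univ : Finset ι) ⊆ {a, b} := fun c _ => by
    by_cases hc : c = a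
    · simp [hc]
    · simp [hcon c hc]
  have h2 := Finset.card_le_card h1
  have h3 : ({a, b} : Finset ι).card ≤ 2 := Finset.card_le_two
  rw [Finset.card_univ] at h2
  omega

/-- the standard basis vector -/
abbrev e (i : ι) : ι → F := Pi.single i 1

/-- the rational special linear group -/
def SL0 (F₀ : Subfield F) : Subgroup (GL ι F) :=
  (Matrix.GeneralLinearGroup.map (n := ι) (F₀.subtype : F₀ →+* F)).range ⊓ Cfsg.Geo.specialLinear ι F

lemma SL0_le : (SL0 F₀ : Subgroup (GL ι F)) ≤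
    Cfsg.Geo.subfieldSubgroup F₀ (1 : GL ι F) ⊓ Cfsg.Geo.specialLinear ι F := by
  intro g hg
  refine Subgroup.mem_inf.2 ⟨?_, hg.2⟩
  rw [mem_subfieldSubgroup_one_iff]
  refine ⟨1, one_ne_zero, ?_⟩
  rw [one_smul]
  exact (mem_range_map_iff g).1 hg.1

lemma SL0.ratM {g : GL ι F} (hg : g ∈ (SL0 F₀ : Subgroup (GL ι F))) : IsRatM F₀ (g : Matrix ι ι F) :=
  (mem_range_map_iff g).1 hg.1

lemma SL0.ratM_inv {g : GL ι F} (hg : g ∈ (SL0 F₀ : Subgroup (GL ι F))) :
    IsRatM F₀ ((g⁻¹ : GL ι F) : Matrix ι ι F) :=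
  SL0.ratM ((SL0 F₀).inv_mem hg)

lemma T_mem_SL0 {u φ : ι → F} (hu : IsRat F₀ u) (hφ : IsRat F₀ φ) (h : φ ⬝ᵥ u = 0) :
    T u φ h ∈ (SL0 F₀ : Subgroup (GL ι F)) := by
  refine Subgroup.mem_inf.2 ⟨?_, T_mem_specialLinear u φ h⟩
  rw [mem_range_map_iff]
  intro i j
  rw [T_apply]
  refine F₀.add_mem ?_ (F₀.mul_mem (hu i) (hφ j))
  split_ifs
  · exact F₀.one_mem
  · exact F₀.zero_mem

lemma rat_e (i : ι) : IsRat F₀ (e i : ι → F) := IsRat.single i F₀.one_mem

lemma move_aux {b : ι → F} (hb : IsRat F₀ b) (i₀ i : ι) (hi : i ≠ i₀) (hbi : b i ≠ 0) :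
    ∃ h ∈ (SL0 F₀ : Subgroup (GL ι F)), (h : Matrix ι ι F) *ᵥ b = e i₀ := by
  set c : F := (1 - b i₀) / b i with hc
  have hcF : c ∈ F₀ := F₀.div_mem (F₀.sub_mem F₀.one_mem (hb _)) (hb _)
  have h1 : (e i : ι → F) ⬝ᵥ (c • e i₀) = 0 := by
    simp [hi]
  set b' : ι → F := b + (1 - b i₀) • e i₀ with hb'
  have hb'r : IsRat F₀ b' := hb.add (IsRat.smul (F₀.sub_mem F₀.one_mem (hb _)) (rat_e _))
  have hb'0 : b' i₀ = 1 := by simp [hb']
  have h2 : (e i₀ : ι → F) ⬝ᵥ (e i₀ - b') = 0 := by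
    rw [dotProduct_sub]
    simp [hb'0]
  refine ⟨T _ _ h2 * T _ _ h1, (SL0 F₀).mul_mem (T_mem_SL0 ((rat_e _).sub hb'r) (rat_e _) h2)
    (T_mem_SL0 (IsRat.smul hcF (rat_e _)) (rat_e _) h1), ?_⟩
  have e1 : (T _ _ h1 : Matrix ι ι F) *ᵥ b = b' := by
    rw [T_mulVec, hb', smul_smul]
    congr 2
    rw [single_dotProduct, one_mul, hc]
    field_simp
  rw [mul_mulVec, e1, T_mulVec, single_dotProduct, hb'0]
  simp

/-- `SL_n(F₀)` is transitive on nonzero rational vectors -/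
lemma move (hcard : 1 < Fintype.card ι) {b : ι → F} (hb : IsRat F₀ b) (hb0 : b ≠ 0) (i₀ : ι) :
    ∃ h ∈ (SL0 F₀ : Subgroup (GL ι F)), (h : Matrix ι ι F) *ᵥ b = e i₀ := by
  by_cases hex : ∃ i, i ≠ i₀ ∧ b i ≠ 0
  · obtain ⟨i, hi, hbi⟩ := hex
    exact move_aux hb i₀ i hi hbi
  · push Not at hex
    have hb1 : b i₀ ≠ 0 := by
      intro h0
      apply hb0
      ext i
      by_cases hi : i = i₀
      · rw [hi, h0]; rfl
      · exact hex i hi
    obtain ⟨i₁, hi₁⟩ := Fintype.exists_ne_of_one_lt_card hcard i₀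
    have h1 : (e i₀ : ι → F) ⬝ᵥ (e i₁) = 0 := by simp [hi₁]
    have hr : IsRat F₀ ((T _ _ h1 : Matrix ι ι F) *ᵥ b) :=
      (SL0.ratM (T_mem_SL0 (rat_e _) (rat_e _) h1)).mulVec hb
    obtain ⟨h, hh, hh'⟩ := move_aux hr i₀ i₁ hi₁ (by
      rw [T_mulVec, single_dotProduct]
      simp [hex i₁ hi₁, hb1])
    refine ⟨h * T _ _ h1, (SL0 F₀).mul_mem hh (T_mem_SL0 (rat_e _) (rat_e _) h1), ?_⟩
    rw [mul_mulVec, hh']

lemma move_aux' {b : ι → F} (hb : IsRat F₀ b) (i₀ i : ι) (hi : i ≠ i₀) (hbi : b i ≠ 0) :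
    ∃ h ∈ (SL0 F₀ : Subgroup (GL ι F)), b ᵥ* (h : Matrix ι ι F) = e i₀ := by
  set c : F := (1 - b i₀) / b i with hc
  have hcF : c ∈ F₀ := F₀.div_mem (F₀.sub_mem F₀.one_mem (hb _)) (hb _)
  have h1 : (c • e i₀ : ι → F) ⬝ᵥ (e i) = 0 := by
    simp [hi.symm]
  set b' : ι → F := b + (1 - b i₀) • e i₀ with hb'
  have hb'r : IsRat F₀ b' := hb.add (IsRat.smul (F₀.sub_mem F₀.one_mem (hb _)) (rat_e _))
  have hb'0 : b' i₀ = 1 := by simp [hb']
  have h2 : (e i₀ - b' : ι → F) ⬝ᵥ (e i₀) = 0 := by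
    rw [sub_dotProduct]
    simp [hb'0]
  refine ⟨T _ _ h1 * T _ _ h2, (SL0 F₀).mul_mem (T_mem_SL0 (rat_e _) (IsRat.smul hcF (rat_e _)) h1)
    (T_mem_SL0 (rat_e _) ((rat_e _).sub hb'r) h2), ?_⟩
  have e1 : b ᵥ* (T _ _ h1 : Matrix ι ι F) = b' := by
    rw [T_vecMul, hb', smul_smul]
    congr 2
    rw [dotProduct_single, mul_one, hc]
    field_simp
  rw [Units.val_mul, ← vecMul_vecMul, e1, T_vecMul, dotProduct_single, hb'0]
  simp

/-- `SL_n(F₀)` is transitive on nonzero rational covectors -/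
lemma move' (hcard : 1 < Fintype.card ι) {b : ι → F} (hb : IsRat F₀ b) (hb0 : b ≠ 0) (i₀ : ι) :
    ∃ h ∈ (SL0 F₀ : Subgroup (GL ι F)), b ᵥ* (h : Matrix ι ι F) = e i₀ := by
  by_cases hex : ∃ i, i ≠ i₀ ∧ b i ≠ 0
  · obtain ⟨i, hi, hbi⟩ := hex
    exact move_aux' hb i₀ i hi hbi
  · push Not at hex
    have hb1 : b i₀ ≠ 0 := by
      intro h0
      apply hb0
      ext i
      by_cases hi : i = i₀
      · rw [hi, h0]; rfl
      · exact hex i hi
    obtain ⟨i₁, hi₁⟩ := Fintype.exists_ne_of_one_lt_card hcard i₀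
    have h1 : (e i₁ : ι → F) ⬝ᵥ (e i₀) = 0 := by simp [hi₁.symm]
    have hr : IsRat F₀ (b ᵥ* (T _ _ h1 : Matrix ι ι F)) :=
      (SL0.ratM (T_mem_SL0 (rat_e _) (rat_e _) h1)).vecMul hb
    obtain ⟨h, hh, hh'⟩ := move_aux' hr i₀ i₁ hi₁ (by
      rw [T_vecMul, dotProduct_single]
      simp [hex i₁ hi₁, hb1])
    refine ⟨T _ _ h1 * h, (SL0 F₀).mul_mem (T_mem_SL0 (rat_e _) (rat_e _) h1) hh, ?_⟩
    rw [Units.val_mul, ← vecMul_vecMul, hh']

/-! ### ranks, kernels -/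

lemma rank_add_le' (A B : Matrix ι ι F) : (A + B).rank ≤ A.rank + B.rank := by
  unfold Matrix.rank
  have : LinearMap.range (A + B).mulVecLin ≤
      LinearMap.range A.mulVecLin ⊔ LinearMap.range B.mulVecLin := by
    rintro _ ⟨x, rfl⟩
    rw [Matrix.mulVecLin_apply, Matrix.add_mulVec]
    exact Submodule.add_mem_sup ⟨x, rfl⟩ ⟨x, rfl⟩
  exact (Submodule.finrank_mono this).trans (Submodule.finrank_add_le_finrank_add_finrank _ _)

/-- a matrix of rank `< |S|` kills a nonzero vector supported on `S` -/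
lemma exists_kernel_supported (A : Matrix ι ι F) (S : Finset ι) (h : A.rank < S.card) :
    ∃ v : ι → F, v ≠ 0 ∧ (∀ i, i ∉ S → v i = 0) ∧ A *ᵥ v = 0 := by
  set B : Matrix ι S F := A.submatrix id (Subtype.val : S → ι) with hB
  have h1 : B.rank ≤ A.rank := rank_submatrix_le A _ _
  have h2 := LinearMap.finrank_range_add_finrank_ker B.mulVecLin
  have h3 : Module.finrank F (S → F) = S.card := by simp
  have h4 : 0 < Module.finrank F (LinearMap.ker B.mulVecLin) := by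
    have : Module.finrank F (LinearMap.range B.mulVecLin) = B.rank := rfl
    omega
  obtain ⟨⟨w, hw⟩, hw0⟩ := (Module.finrank_pos_iff_exists_ne_zero).1 h4
  have hw0' : w ≠ 0 := fun h => hw0 (Subtype.ext h)
  rw [LinearMap.mem_ker, Matrix.mulVecLin_apply] at hw
  refine ⟨fun i => if hi : i ∈ S then w ⟨i, hi⟩ else 0, ?_, ?_, ?_⟩
  · intro h0
    apply hw0'
    ext ⟨i, hi⟩
    have := congrFun h0 i
    simpa [hi] using this
  · intro i hi
    simp [hi]
  · ext k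
    have := congrFun hw k
    rw [Pi.zero_apply] at this ⊢
    refine Eq.trans ?_ this
    simp only [mulVec, dotProduct, hB, submatrix_apply, id]
    rw [← Finset.sum_subset (Finset.subset_univ S)]
    · rw [← Finset.sum_coe_sort S]
      apply Finset.sum_congr rfl
      intro i _
      simp
    · intro i _ hi
      simp [hi]

/-- a singular rational matrix kills a nonzero rational vector -/
lemma rat_kernel {A : Matrix ι ι F} (hA : IsRatM F₀ A) {v : ι → F} (hv : v ≠ 0) (hAv : A *ᵥ v = 0) :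
    ∃ a : ι → F, IsRat F₀ a ∧ a ≠ 0 ∧ A *ᵥ a = 0 := by
  obtain ⟨B, hB⟩ := hA.exists_lift
  have h1 : A.det = 0 := Matrix.exists_mulVec_eq_zero_iff.1 ⟨v, hv, hAv⟩
  have h2 : B.det = 0 := by
    rw [hB, ← RingHom.mapMatrix_apply, ← RingHom.map_det] at h1
    exact (map_eq_zero _).1 h1
  obtain ⟨w, hw, hBw⟩ := Matrix.exists_mulVec_eq_zero_iff.2 h2
  refine ⟨F₀.subtype ∘ w, fun i => (w i).2, ?_, ?_⟩
  · intro h0
    apply hw
    ext i
    have := congrFun h0 i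
    simpa using this
  · ext i
    rw [hB, ← RingHom.map_mulVec, hBw]
    simp

/-- If `c • y` is rational and `y` fixes a nonzero vector supported on a small set `S`, then
`c ∈ F₀` or the field `F` is small. -/
lemma scalar_mem_of_fix [Fintype F] (r : ℕ) (hr : r.Prime) (hcard : Fintype.card F = Nat.card F₀ ^ r)
    {y : Matrix ι ι F} {c : F} (hy : IsRatM F₀ (c • y)) (S : Finset ι) {v : ι → F} (hv : v ≠ 0)
    (hsupp : ∀ i, i ∉ S → v i = 0) (hfix : y *ᵥ v = v) :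
    c ∈ F₀ ∨ Fintype.card F ≤ Nat.card F₀ ^ S.card := by
  classical
  by_cases hc : c ∈ F₀
  · exact Or.inl hc
  right
  let D : Subalgebra F₀ F :=
    { carrier := {x | ∀ a : ι → F, IsRat F₀ a → ∃ a' : ι → F, IsRat F₀ a' ∧ x * (a ⬝ᵥ v) = a' ⬝ᵥ v}
      mul_mem' := by
        intro x x' hx hx' a ha
        obtain ⟨a', ha', h1⟩ := hx' a ha
        obtain ⟨a'', ha'', h2⟩ := hx a' ha'
        exact ⟨a'', ha'', by rw [mul_assoc, h1, h2]⟩
      add_mem' := by
        intro x x' hx hx' a ha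
        obtain ⟨a', ha', h1⟩ := hx' a ha
        obtain ⟨a'', ha'', h2⟩ := hx a ha
        exact ⟨a'' + a', ha''.add ha', by rw [add_mul, h1, h2, add_dotProduct]⟩
      algebraMap_mem' := by
        intro t a ha
        exact ⟨(t : F) • a, IsRat.smul t.2 ha, by rw [smul_dotProduct]; rfl⟩ }
  have hcD : c ∈ D := by
    intro a ha
    refine ⟨a ᵥ* (c • y), hy.vecMul ha, ?_⟩
    rw [← dotProduct_mulVec, smul_mulVec, hfix, dotProduct_smul, smul_eq_mul]
  have hD : D = ⊤ := subalgebra_eq_top r hr hcard D c hcD hc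
  obtain ⟨i₀, hi₀⟩ : ∃ i₀, v i₀ ≠ 0 := by
    by_contra hcon
    push Not at hcon
    exact hv (funext hcon)
  have hsurj : Function.Surjective (fun w : S → F₀ => ∑ i : S, (w i : F) * v i) := by
    intro z
    have hz : z / v i₀ ∈ D := by rw [hD]; exact Algebra.mem_top
    obtain ⟨a', ha', h1⟩ := hz (e i₀) (rat_e i₀)
    rw [single_dotProduct, one_mul, div_mul_cancel₀ _ hi₀] at h1
    refine ⟨fun i => ⟨a' i, ha' i⟩, ?_⟩
    rw [h1]
    simp only [dotProduct]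
    rw [← Finset.sum_subset (Finset.subset_univ S)]
    · rw [← Finset.sum_coe_sort S]
    · intro i _ hi
      rw [hsupp i hi, mul_zero]
  have := Fintype.card_le_of_surjective _ hsurj
  simpa [Nat.card_eq_fintype_card] using this

end Cfsg.Agent.Lib.Helper99Subfield
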