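import Cfsg.Agent.Lib.Helper49TDefs
import Cfsg.Agent.Lib.Helper99Subfield

/-!
# Project TENS, piece `transport`.
-/

set_option autoImplicit false
set_option linter.unusedSectionVars false

namespace Cfsg.Agent.Lib.Helper14TTransport

open scoped Matrix Kronecker
open Matrix Cfsg.Agent.Lib.Helper49TDefs

variable {F : Type*} [Field F] {a b : ℕ}

/-- maximality is transported by an isomorphism of groups -/
theorem isMaximalIn_map' {G G' : Type*} [Group G] [Group G'] (φ : G ≃* G') (K H : Subgroup G)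
    (h : Cfsg.Geo.IsMaximalIn K H) :
    Cfsg.Geo.IsMaximalIn (K.map φ.toMonoidHom) (H.map φ.toMonoidHom) := by
  obtain ⟨h1, h2⟩ := h
  refine ⟨?_, ?_⟩
  · exact (Subgroup.map_lt_map_iff_of_injective φ.injective).2 h1
  · intro M hHM hMK
    have e : (M.comap φ.toMonoidHom).map φ.toMonoidHom = M :=
      Subgroup.map_comap_eq_self_of_surjective φ.surjective M
    rcases h2 (M.comap φ.toMonoidHom) (Subgroup.map_le_iff_le_comap.1 hHM)
      (by rw [← e] at hMK; exact (Subgroup.map_le_map_iff_of_injective φ.injective).1 hMK) with h | h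
    · left; rw [← e, h]
    · right; rw [← e, h]

theorem det_glReindex {ι κ : Type} [Fintype ι] [DecidableEq ι] [Fintype κ] [DecidableEq κ]
    (e : κ ≃ ι) (g : Matrix.GeneralLinearGroup κ F) :
    ((Cfsg.Geo.glReindex e g : Matrix.GeneralLinearGroup ι F) : Matrix ι ι F).det
      = (g : Matrix κ κ F).det := by
  change (Matrix.reindexAlgEquiv F F e (g : Matrix κ κ F)).det = _
  exact Matrix.det_reindexAlgEquiv F F e _

theorem mem_specialLinear {ι : Type} [Fintype ι] [DecidableEq ι]
    (g : Matrix.GeneralLinearGroup ι F) :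
    g ∈ Cfsg.Geo.specialLinear ι F ↔ (g : Matrix ι ι F).det = 1 := by
  unfold Cfsg.Geo.specialLinear
  rw [MonoidHom.mem_ker, Units.ext_iff]
  rfl

theorem specialLinear_map_glReindex {ι κ : Type} [Fintype ι] [DecidableEq ι] [Fintype κ]
    [DecidableEq κ] (e : κ ≃ ι) :
    (Cfsg.Geo.specialLinear κ F).map (Cfsg.Geo.glReindex e).toMonoidHom
      = Cfsg.Geo.specialLinear ι F := by
  ext g
  simp only [Subgroup.mem_map, MulEquiv.coe_toMonoidHom]
  constructor
  · rintro ⟨x, hx, rfl⟩
    rw [mem_specialLinear] at hx ⊢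
    rw [det_glReindex, hx]
  · intro hg
    refine ⟨(Cfsg.Geo.glReindex e).symm g, ?_, by simp⟩
    rw [mem_specialLinear] at hg ⊢
    rw [← det_glReindex e, MulEquiv.apply_symm_apply, hg]

/-- piece `transport` -/
theorem maximal_of_std [Fintype F] {n : ℕ} (e : Fin n ≃ Fin a × Fin b)
    (P : Matrix.GeneralLinearGroup (Fin n) F)
    (h : Cfsg.Geo.IsMaximalIn (SLn a b F) (KS a b F ⊓ SLn a b F)) :
    Cfsg.Geo.IsMaximalIn (Cfsg.Geo.specialLinear (Fin n) F)
      (Cfsg.Geo.tensorProductSubgroup a b e P ⊓ Cfsg.Geo.specialLinear (Fin n) F) := by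
  have h1 := isMaximalIn_map' (Cfsg.Geo.glReindex (F := F) e.symm) _ _ h
  rw [specialLinear_map_glReindex,
    Subgroup.map_inf_eq _ _ (Cfsg.Geo.glReindex (F := F) e.symm).toMonoidHom
      (Cfsg.Geo.glReindex e.symm).injective,
    specialLinear_map_glReindex] at h1
  have h2 := isMaximalIn_map' (MulAut.conj P) _ _ h1
  rw [Cfsg.Agent.Lib.Helper99Subfield.specialLinear_map_conj,
    Subgroup.map_inf_eq _ _ (MulAut.conj P).toMonoidHom (MulAut.conj P).injective,
    Cfsg.Agent.Lib.Helper99Subfield.specialLinear_map_conj] at h2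
  exact h2

end Cfsg.Agent.Lib.Helper14TTransport
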