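import Cfsg.Agent.Lib.Helper49SDefs
import Cfsg.Agent.Lib.Helper14TTransport

/-!
# PROJECT 50 (S5704), piece `Transport`
-/

set_option autoImplicit false
set_option linter.unusedSectionVars false
set_option linter.unusedVariables false

namespace Cfsg.Agent.Lib.H49STransport

open scoped Matrix Kronecker
open Matrix Cfsg.Agent.Lib.Helper49TDefs Cfsg.Agent.Lib.Helper49SDefs Cfsg.Agent.Lib.Helper49Eich

variable {F : Type*} [Field F] {a b n : ℕ}

local notation "GLn" => Matrix.GeneralLinearGroup (Fin a × Fin b) F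
local notation "Mn" => Matrix (Fin a × Fin b) (Fin a × Fin b) F
local notation "Ma" => Matrix (Fin a) (Fin a) F
local notation "Mb" => Matrix (Fin b) (Fin b) F
local notation "GLa" => Matrix.GeneralLinearGroup (Fin a) F
local notation "GLb" => Matrix.GeneralLinearGroup (Fin b) F
local notation "𝐏" => QuadraticMap.polar

private theorem reindex_mulVec (e : Fin n ≃ Fin a × Fin b) (g : GLn) (x : Fin a × Fin b → F) :
    ((Cfsg.Geo.glReindex e.symm g : Matrix.GeneralLinearGroup (Fin n) F) :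
      Matrix (Fin n) (Fin n) F) *ᵥ (x ∘ e) = ((g : Mn) *ᵥ x) ∘ e := by
  change (Matrix.reindexAlgEquiv F F e.symm (g : Mn)) *ᵥ (x ∘ e) = _
  ext i
  simp only [Matrix.mulVec, dotProduct, Function.comp_apply, Matrix.coe_reindexAlgEquiv,
    Matrix.reindex_apply, Matrix.submatrix_apply, Equiv.symm_symm]
  exact Equiv.sum_comp e (fun q => (g : Mn) (e i) q * x q)

/-- the transport isomorphism -/
private noncomputable def phi (e : Fin n ≃ Fin a × Fin b) (P : Matrix.GeneralLinearGroup (Fin n) F) :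
    GLn ≃* Matrix.GeneralLinearGroup (Fin n) F :=
  (Cfsg.Geo.glReindex e.symm).trans (MulAut.conj P)

private theorem phi_mulVec (e : Fin n ≃ Fin a × Fin b) (P : Matrix.GeneralLinearGroup (Fin n) F)
    (g : GLn) (x : Fin a × Fin b → F) :
    ((phi e P g : Matrix.GeneralLinearGroup (Fin n) F) : Matrix (Fin n) (Fin n) F) *ᵥ
      ((P : Matrix (Fin n) (Fin n) F) *ᵥ (x ∘ e)) =
      (P : Matrix (Fin n) (Fin n) F) *ᵥ (((g : Mn) *ᵥ x) ∘ e) := by
  have h1 : phi e P g = P * Cfsg.Geo.glReindex e.symm g * P⁻¹ := rfl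
  have h2 : ((P⁻¹ : Matrix.GeneralLinearGroup (Fin n) F) : Matrix (Fin n) (Fin n) F) *
      (P : Matrix (Fin n) (Fin n) F) = 1 := by
    rw [← Units.val_mul, inv_mul_cancel, Units.val_one]
  rw [h1, Units.val_mul, Units.val_mul, Matrix.mulVec_mulVec, mul_assoc, h2, mul_one,
    ← Matrix.mulVec_mulVec, reindex_mulVec]

private theorem exists_rep (e : Fin n ≃ Fin a × Fin b) (P : Matrix.GeneralLinearGroup (Fin n) F)
    (v : Fin n → F) : ∃ x : Fin a × Fin b → F, v = (P : Matrix (Fin n) (Fin n) F) *ᵥ (x ∘ e) := by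
  refine ⟨(((P⁻¹ : Matrix.GeneralLinearGroup (Fin n) F) : Matrix (Fin n) (Fin n) F) *ᵥ v) ∘ e.symm, ?_⟩
  have : ((((P⁻¹ : Matrix.GeneralLinearGroup (Fin n) F) : Matrix (Fin n) (Fin n) F) *ᵥ v) ∘ e.symm) ∘ e
      = ((P⁻¹ : Matrix.GeneralLinearGroup (Fin n) F) : Matrix (Fin n) (Fin n) F) *ᵥ v := by
    ext i; simp
  rw [this, Matrix.mulVec_mulVec, ← Units.val_mul, mul_inv_cancel, Units.val_one,
    Matrix.one_mulVec]

private theorem iso_map (Q : (Fin n → F) → F) (e : Fin n ≃ Fin a × Fin b)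
    (P : Matrix.GeneralLinearGroup (Fin n) F) (D : SpDat F a b)
    (hD : ∀ x, D.Q x = Q ((P : Matrix (Fin n) (Fin n) F) *ᵥ (x ∘ e))) :
    (Cfsg.isometryGroup F ⇑D.Q).map (phi e P).toMonoidHom = Cfsg.isometryGroup F Q := by
  ext k
  simp only [Subgroup.mem_map, MulEquiv.coe_toMonoidHom]
  constructor
  · rintro ⟨g, hg, rfl⟩
    rw [Cfsg.Agent.Lib.Helper49Orth.mem_iso] at hg ⊢
    intro v
    obtain ⟨x, rfl⟩ := exists_rep e P v
    rw [phi_mulVec, ← hD, ← hD, hg]
  · intro hk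
    refine ⟨(phi e P).symm k, ?_, by simp⟩
    rw [Cfsg.Agent.Lib.Helper49Orth.mem_iso] at hk ⊢
    intro x
    rw [hD, hD, ← phi_mulVec, MulEquiv.apply_symm_apply, hk]

private theorem omegaGL_eq {ι : Type} [Fintype ι] [DecidableEq ι] (Q : (ι → F) → F) :
    Cfsg.Geo.omegaGL Q = ⁅Cfsg.isometryGroup F Q, Cfsg.isometryGroup F Q⁆ := by
  unfold Cfsg.Geo.omegaGL Cfsg.Omega
  exact Subgroup.map_subtype_commutator _

private theorem omega_map (Q : (Fin n → F) → F) (e : Fin n ≃ Fin a × Fin b)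
    (P : Matrix.GeneralLinearGroup (Fin n) F) (D : SpDat F a b)
    (hD : ∀ x, D.Q x = Q ((P : Matrix (Fin n) (Fin n) F) *ᵥ (x ∘ e))) :
    (OG D).map (phi e P).toMonoidHom = Cfsg.Geo.omegaGL Q := by
  rw [OG, omegaGL_eq, omegaGL_eq, Subgroup.map_commutator, iso_map Q e P D hD]

private theorem KS_map (e : Fin n ≃ Fin a × Fin b) (P : Matrix.GeneralLinearGroup (Fin n) F) :
    (KS a b F).map (phi e P).toMonoidHom = Cfsg.Geo.tensorProductSubgroup a b e P := by
  unfold Cfsg.Geo.tensorProductSubgroup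
  rw [Subgroup.map_map]
  rfl

theorem maximal_of_std2 (Q : (Fin n → F) → F) (e : Fin n ≃ Fin a × Fin b)
    (P : Matrix.GeneralLinearGroup (Fin n) F) (D : SpDat F a b)
    (hD : ∀ x, D.Q x = Q ((P : Matrix (Fin n) (Fin n) F) *ᵥ (x ∘ e)))
    (h : Cfsg.Geo.IsMaximalIn (OG D) (KS a b F ⊓ OG D)) :
    Cfsg.Geo.IsMaximalIn (Cfsg.Geo.omegaGL Q)
      (Cfsg.Geo.tensorProductSubgroup a b e P ⊓ Cfsg.Geo.omegaGL Q) := by
  have h1 := Cfsg.Agent.Lib.Helper14TTransport.isMaximalIn_map' (phi e P) _ _ h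
  rw [Subgroup.map_inf_eq _ _ (phi e P).toMonoidHom (phi e P).injective,
    omega_map Q e P D hD, KS_map] at h1
  exact h1

end Cfsg.Agent.Lib.H49STransport
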