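import Cfsg.Agent.Lib.Helper49SDefs
import Cfsg.Agent.Lib.H49SStab
import Cfsg.Agent.Lib.H49SStage1
import Cfsg.Agent.Lib.H49SStage23
import Cfsg.Agent.Lib.H49SStage4a
import Cfsg.Agent.Lib.H49SStage2b
import Cfsg.Agent.Lib.H49SStage4b
import Cfsg.Agent.Lib.H49SStage5
import Cfsg.Agent.Lib.H49SAofL2
import Cfsg.Agent.Lib.H49SS4
import Cfsg.Agent.Lib.H49SBall
import Cfsg.Agent.Lib.H49SAall
import Cfsg.Agent.Lib.H49SBofA
import Cfsg.Agent.Lib.H49SC10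
import Cfsg.Agent.Lib.H49SC01
import Cfsg.Agent.Lib.H49SEpure
import Cfsg.Agent.Lib.H49SOGle
import Cfsg.Agent.Lib.H49SProper
import Cfsg.Agent.Lib.H49SMkDat
import Cfsg.Agent.Lib.H49STransport
import Cfsg.Agent.Lib.H49STwoLe

/-!
# PROJECT 50 (S5704), piece `Main`
-/

set_option autoImplicit false
set_option linter.unusedSectionVars false
set_option linter.unusedVariables false

namespace Cfsg.Agent.Lib.H49SMain

open scoped Matrix Kronecker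
open Matrix Cfsg.Agent.Lib.Helper49TDefs Cfsg.Agent.Lib.Helper49SDefs Cfsg.Agent.Lib.Helper49Eich
open Cfsg.Agent.Lib.H49SStab
open Cfsg.Agent.Lib.H49SStage1
open Cfsg.Agent.Lib.H49SStage23
open Cfsg.Agent.Lib.H49SStage4a
open Cfsg.Agent.Lib.H49SStage2b
open Cfsg.Agent.Lib.H49SStage4b
open Cfsg.Agent.Lib.H49SStage5
open Cfsg.Agent.Lib.H49SAofL2
open Cfsg.Agent.Lib.H49SS4
open Cfsg.Agent.Lib.H49SBall
open Cfsg.Agent.Lib.H49SAall
open Cfsg.Agent.Lib.H49SBofA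
open Cfsg.Agent.Lib.H49SC10
open Cfsg.Agent.Lib.H49SC01
open Cfsg.Agent.Lib.H49SEpure
open Cfsg.Agent.Lib.H49SOGle
open Cfsg.Agent.Lib.H49SProper
open Cfsg.Agent.Lib.H49SMkDat
open Cfsg.Agent.Lib.H49STransport
open Cfsg.Agent.Lib.H49STwoLe

variable {F : Type*} [Field F] {a b n : ℕ}

local notation "GLn" => Matrix.GeneralLinearGroup (Fin a × Fin b) F
local notation "Mn" => Matrix (Fin a × Fin b) (Fin a × Fin b) F
local notation "Ma" => Matrix (Fin a) (Fin a) F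
local notation "Mb" => Matrix (Fin b) (Fin b) F
local notation "GLa" => Matrix.GeneralLinearGroup (Fin a) F
local notation "GLb" => Matrix.GeneralLinearGroup (Fin b) F
local notation "𝐏" => QuadraticMap.polar

theorem hasAB [Fintype F] (D : SpDat F a b) (h1 : 2 ≤ a) (h12 : a < b) (hn : 5 ≤ a * b)
    (hb : 5 ≤ b) (hex : ¬ (Fintype.card F = 2 ∧ a = 2)) (H : Subgroup GLn)
    (hMH : KS a b F ⊓ OG D ≤ H) (hH : H ≤ OG D) (hne : ¬ H ≤ KS a b F) :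
    HasA D H ∨ HasB D H := by
  have ha : 0 < a := by omega
  obtain ⟨t, ht, htK, c, hc, hst⟩ := exists_stab2 D h1 h12 hn H hMH hH hne
  rcases stage1 D ha hn H hMH hH ht hc hst with h2 | ⟨α', μ, L⟩
  · exact Or.inl (hasA_of_L2new D hn H hMH hH h2)
  rcases stage23 D ha hn H hMH hH ht hc L with h3 | hK
  · exact hasAB_of_L1new D h1 hn hb hex H hMH hH h3
  obtain ⟨d, hd⟩ := D.h₂.exists_ne_zero hc
  obtain ⟨w₁, η, hw, htd⟩ := stage2b D ha hc L d (stage4a D ha (hH ht) hc L hK d)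
  obtain ⟨g, ζ', hform, halt, hNg⟩ :=
    stage4b D ha (hH ht) hc L hK d w₁ η hd (hw.trans hd) htd
  exact Or.inl (stage5 D hn H hMH hH ht htK hc L g ζ' hform halt hNg)

theorem core2 [Fintype F] (D : SpDat F a b) (h1 : 2 ≤ a) (h12 : a < b) (hn : 5 ≤ a * b)
    (hb : 5 ≤ b) (hex : ¬ (Fintype.card F = 2 ∧ a = 2)) (H : Subgroup GLn)
    (hMH : KS a b F ⊓ OG D ≤ H) (hH : H ≤ OG D) (hne : ¬ H ≤ KS a b F) : H = OG D := by
  have ha : 0 < a := by omega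
  have hB : ∀ (u : Fin a → F) (c c' : Fin b → F), bf D.J₂ c c' = 0 →
      EH D H (tens u c) (tens u c') := by
    rcases hasAB D h1 h12 hn hb hex H hMH hH hne with hA | hB
    · obtain ⟨u, v, c, huv, huv0, -, -⟩ := id hA
      exact B_of_A D H (A_all D hn H hMH hA) ⟨u, v, huv, huv0⟩
    · exact B_all D hn H hMH hB
  have h10 := C10_of_B D hb H hB
  have h01 := C01_of_C10 D ha hb H h10
  exact le_antisymm hH (OG_le D hn H hH (E_pure_all D H h10 h01))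

theorem maximal_std2 [Fintype F] (D : SpDat F a b) (h1 : 2 ≤ a) (h12 : a < b) (hn : 5 ≤ a * b)
    (hb : 5 ≤ b) (hex : ¬ (Fintype.card F = 2 ∧ a = 2)) :
    Cfsg.Geo.IsMaximalIn (OG D) (KS a b F ⊓ OG D) := by
  refine ⟨lt_of_le_of_ne inf_le_right ?_, ?_⟩
  · intro h
    exact proper2 D h1 h12 hn (h ▸ inf_le_left)
  · intro M hM hMS
    by_cases hK : M ≤ KS a b F
    · left
      exact le_antisymm (le_inf hK hMS) hM
    · right
      exact core2 D h1 h12 hn hb hex M hM hMS hK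

/-- S5704 -/
theorem main [Fintype F] (hn : 13 ≤ n) (Q : (Fin n → F) → F)
    (hQ : Cfsg.Geo.IsNondegenerateQuadraticForm Q) (n₁ n₂ : ℕ) (h12 : n₁ < n₂)
    (hex : ¬ (Fintype.card F = 2 ∧ n₁ = 2)) (e : (Fin n) ≃ Fin n₁ × Fin n₂)
    (P : Matrix.GeneralLinearGroup (Fin n) F) (f₁ : (Fin n₁ → F) → (Fin n₁ → F) → F)
    (f₂ : (Fin n₂ → F) → (Fin n₂ → F) → F) (hf₁ : Cfsg.Geo.IsSymplecticForm f₁)
    (hf₂ : Cfsg.Geo.IsSymplecticForm f₂)
    (hT : Cfsg.Geo.IsTensorFormStructure id (QuadraticMap.polar Q) f₁ f₂ e P)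
    (hpure : ∀ (x₁ : Fin n₁ → F) (x₂ : Fin n₂ → F),
      Q (Matrix.mulVec (P : Matrix (Fin n) (Fin n) F)
        ((fun p : Fin n₁ × Fin n₂ => x₁ p.1 * x₂ p.2) ∘ e)) = 0) :
    Cfsg.Geo.IsMaximalIn (Cfsg.Geo.omegaGL Q)
      (Cfsg.Geo.tensorProductSubgroup n₁ n₂ e P ⊓ Cfsg.Geo.omegaGL Q) := by
  obtain ⟨D, hD⟩ := exists_dat Q hQ e P f₁ f₂ hf₁ hf₂ hT hpure
  have hcard : n = n₁ * n₂ := by
    have := Fintype.card_congr e
    simpa using this
  have h0 : n₁ ≠ 0 := by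
    rintro rfl
    omega
  have h1 : 2 ≤ n₁ := two_le D.h₁ h0
  have hn' : 13 ≤ n₁ * n₂ := hcard ▸ hn
  have hb : 5 ≤ n₂ := by
    by_contra hlt
    have h4 : n₂ ≤ 4 := by omega
    have h3 : n₁ ≤ 3 := by omega
    have : n₁ * n₂ ≤ 3 * 4 := Nat.mul_le_mul h3 h4
    omega
  exact maximal_of_std2 Q e P D hD (maximal_std2 D h1 h12 (by omega) hb hex)

end Cfsg.Agent.Lib.H49SMain
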