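import Mathlib
import Cfsg.Agent.Lib.Helper43SpDefs
import Cfsg.Agent.Lib.Helper52SpCut

set_option autoImplicit false

/-! Project 2545 (Steinberg character of `PSp_{2m}(F)`): vocabulary.  The BN-pair of `Sp_{2m}(F)`:
`BB` upper triangular (for the order `rk`), `NN` monomial, `TT` diagonal, `UU` upper unitriangular,
`SS` the simple reflections `wX a b 1`, `m0 = J` the longest element. -/

namespace Cfsg.Agent.Lib.H49SgDefs

open Matrix Cfsg.Agent.Lib.Helper43Sp Cfsg.Agent.Lib.Helper52SpCut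

variable {m : ℕ} {F : Type*} [Field F]

/-- upper triangular with respect to `rk` -/
def Tri (M : Matrix (I m) (I m) F) : Prop := ∀ a b, rk b < rk a → M a b = 0

/-- diagonal -/
def Dg (M : Matrix (I m) (I m) F) : Prop := ∀ a b, a ≠ b → M a b = 0

/-- monomial, `e_b ↦ (unit) e_{π b}` -/
def Mon (π : Equiv.Perm (I m)) (M : Matrix (I m) (I m) F) : Prop := ∀ a b, M a b ≠ 0 ↔ a = π b

theorem Tri_one : Tri (1 : Matrix (I m) (I m) F) :=
  fun a b h => Matrix.one_apply_ne (fun e => by rw [e] at h; omega)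

theorem Tri_mul {M N : Matrix (I m) (I m) F} (hM : Tri M) (hN : Tri N) : Tri (M * N) := by
  intro a b hab
  rw [Matrix.mul_apply]
  apply Finset.sum_eq_zero
  intro c _
  rcases Nat.lt_or_ge (rk c) (rk a) with h | h
  · rw [hM a c h, zero_mul]
  · rw [hN c b (by omega), mul_zero]

theorem Dg_one : Dg (1 : Matrix (I m) (I m) F) := fun _ _ h => Matrix.one_apply_ne h

theorem Dg_mul {M N : Matrix (I m) (I m) F} (hM : Dg M) (hN : Dg N) : Dg (M * N) := by
  intro a b hab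
  rw [Matrix.mul_apply]
  apply Finset.sum_eq_zero
  intro c _
  by_cases h : a = c
  · subst h; rw [hN a b hab, mul_zero]
  · rw [hM a c h, zero_mul]

theorem Mon_one : Mon 1 (1 : Matrix (I m) (I m) F) := by
  intro a b
  rw [Equiv.Perm.one_apply]
  constructor
  · intro h
    by_contra e
    exact h (Matrix.one_apply_ne e)
  · rintro rfl
    rw [Matrix.one_apply_eq]; exact one_ne_zero

theorem Mon_mul {π ρ : Equiv.Perm (I m)} {M N : Matrix (I m) (I m) F} (hM : Mon π M) (hN : Mon ρ N) :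
    Mon (π * ρ) (M * N) := by
  intro a b
  have e : (M * N) a b = M a (ρ b) * N (ρ b) b := by
    rw [Matrix.mul_apply]
    apply Finset.sum_eq_single
    · intro c _ hc
      have : N c b = 0 := by
        by_contra h
        exact hc ((hN c b).1 h)
      rw [this, mul_zero]
    · intro h; exact absurd (Finset.mem_univ _) h
  rw [e, Equiv.Perm.mul_apply, ← hM a (ρ b)]
  have h2 : N (ρ b) b ≠ 0 := (hN _ _).2 rfl
  constructor
  · intro h h'; exact h (by rw [h', zero_mul])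
  · intro h; exact mul_ne_zero h h2

theorem Mon_uniq {π ρ : Equiv.Perm (I m)} {M : Matrix (I m) (I m) F} (h : Mon π M) (h' : Mon ρ M) : π = ρ := by
  apply Equiv.ext
  intro b
  exact (h' _ _).1 ((h (π b) b).2 rfl)

theorem coe_mul_inv_rev (g h : Sp m F) : ((g * h)⁻¹ : Sp m F).1 = (h⁻¹ : Sp m F).1 * (g⁻¹ : Sp m F).1 := by
  rw [_root_.mul_inv_rev]; rfl

/-- the Borel subgroup: upper triangular symplectic matrices (see `H49SgMem.mem_BB`) -/
def BB (m : ℕ) (F : Type*) [Field F] : Subgroup (Sp m F) where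
  carrier := {g | Tri g.1 ∧ Tri (g⁻¹ : Sp m F).1}
  one_mem' := ⟨Tri_one, by rw [inv_one]; exact Tri_one⟩
  mul_mem' := fun {g h} hg hh => ⟨Tri_mul hg.1 hh.1, by rw [coe_mul_inv_rev]; exact Tri_mul hh.2 hg.2⟩
  inv_mem' := fun {g} hg => ⟨hg.2, by rw [inv_inv]; exact hg.1⟩

/-- the torus: diagonal symplectic matrices (see `H49SgMem.mem_TT`) -/
def TT (m : ℕ) (F : Type*) [Field F] : Subgroup (Sp m F) where
  carrier := {g | Dg g.1 ∧ Dg (g⁻¹ : Sp m F).1}
  one_mem' := ⟨Dg_one, by rw [inv_one]; exact Dg_one⟩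
  mul_mem' := fun {g h} hg hh => ⟨Dg_mul hg.1 hh.1, by rw [coe_mul_inv_rev]; exact Dg_mul hh.2 hg.2⟩
  inv_mem' := fun {g} hg => ⟨hg.2, by rw [inv_inv]; exact hg.1⟩

/-- the unipotent radical: upper unitriangular symplectic matrices (see `H49SgMem.mem_UU`) -/
def UU (m : ℕ) (F : Type*) [Field F] : Subgroup (Sp m F) where
  carrier := {g | UT g.1 ∧ UT (g⁻¹ : Sp m F).1}
  one_mem' := ⟨UT_one, by rw [inv_one]; exact UT_one⟩
  mul_mem' := fun {g h} hg hh => ⟨UT_mul hg.1 hh.1, by rw [coe_mul_inv_rev]; exact UT_mul hh.2 hg.2⟩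
  inv_mem' := fun {g} hg => ⟨hg.2, by rw [inv_inv]; exact hg.1⟩

/-- the monomial symplectic matrices (see `H49SgMem.mem_NN`) -/
def NN (m : ℕ) (F : Type*) [Field F] : Subgroup (Sp m F) where
  carrier := {g | (∃ π, Mon π g.1) ∧ ∃ π, Mon π (g⁻¹ : Sp m F).1}
  one_mem' := ⟨⟨1, Mon_one⟩, ⟨1, by rw [inv_one]; exact Mon_one⟩⟩
  mul_mem' := fun {g h} hg hh => by
    obtain ⟨⟨π, h1⟩, ⟨π', h2⟩⟩ := hg
    obtain ⟨⟨ρ, h3⟩, ⟨ρ', h4⟩⟩ := hh
    exact ⟨⟨π * ρ, Mon_mul h1 h3⟩, ⟨ρ' * π', by rw [coe_mul_inv_rev]; exact Mon_mul h4 h2⟩⟩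
  inv_mem' := fun {g} hg => ⟨hg.2, by rw [inv_inv]; exact hg.1⟩

/-- the simple reflections -/
def SS (m : ℕ) (F : Type*) [Field F] : Set (Sp m F) := {g | ∃ a b, Simple a b ∧ g = wX a b 1}

/-- the group of permutations of the signed indices generated by the simple reflections -/
def CL (m : ℕ) : Subgroup (Equiv.Perm (I m)) := Subgroup.closure {σ | ∃ a b, Simple a b ∧ σ = sw a b}

/-- the longest element: `e_i ↦ f_i`, `f_i ↦ -e_i` -/
def m0 (m : ℕ) (F : Type*) [Field F] : Sp m F := ⟨Matrix.J (Fin m) F, SymplecticGroup.J_mem (Fin m) F⟩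

/-- `ng` as a permutation -/
def ngP (m : ℕ) : Equiv.Perm (I m) := Equiv.sumComm (Fin m) (Fin m)

theorem ngP_apply (a : I m) : ngP m a = ng a := rfl

theorem UU_le_BB : UU m F ≤ BB m F := fun _ h => ⟨h.1.1, h.2.1⟩

theorem TT_le_BB : TT m F ≤ BB m F := fun _ h =>
  ⟨fun a b hab => h.1 a b (fun e => by rw [e] at hab; omega),
   fun a b hab => h.2 a b (fun e => by rw [e] at hab; omega)⟩

end Cfsg.Agent.Lib.H49SgDefs
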