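import Mathlib
import Cfsg.Agent.Lib.H49SgDefs
import Cfsg.Agent.Lib.Helper77SpCxval

set_option autoImplicit false

/-! Project 2545 (Steinberg character of `PSp_{2m}(F)`), piece `Inv`.

Entries of the inverse of a symplectic matrix. -/

namespace Cfsg.Agent.Lib.H49SgInv

open Matrix Cfsg.Agent.Lib.Helper43Sp Cfsg.Agent.Lib.Helper52SpCut Cfsg.Agent.Lib.H49SgDefs

variable {m : ℕ} {F : Type*} [Field F]

theorem ng_ng' (a : I m) : ng (ng a) = a := by
  cases a <;> rfl

theorem sg_ng (a : I m) : sg F (ng a) = - sg F a := by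
  cases a <;> simp [sg, ng]

theorem sg_mul_self (a : I m) : sg F a * sg F a = 1 := by
  cases a <;> simp [sg]

theorem sg_ne_zero (a : I m) : sg F a ≠ 0 := by
  cases a <;> simp [sg]

theorem inv_apply (g : Sp m F) (a b : I m) :
    (g⁻¹ : Sp m F).1 a b = sg F a * sg F b * g.1 (ng b) (ng a) := by
  have h1 : (g⁻¹ : Sp m F).1 = -Matrix.J (Fin m) F * (g.1)ᵀ * Matrix.J (Fin m) F :=
    SymplecticGroup.coe_inv g
  rw [h1, Matrix.mul_apply, Finset.sum_eq_single (ng b)]
  · rw [Matrix.mul_apply, Finset.sum_eq_single (ng a)]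
    · rw [Matrix.neg_apply, Cfsg.Agent.Lib.Helper77SpCxval.J_apply,
        Cfsg.Agent.Lib.Helper77SpCxval.J_apply, if_pos rfl, if_pos (ng_ng' b).symm, sg_ng,
        Matrix.transpose_apply]
      ring
    · intro d _ hd
      rw [Matrix.neg_apply, Cfsg.Agent.Lib.Helper77SpCxval.J_apply, if_neg hd]
      simp
    · intro h; exact absurd (Finset.mem_univ _) h
  · intro c _ hc
    rw [Cfsg.Agent.Lib.Helper77SpCxval.J_apply, if_neg, mul_zero]
    intro e
    apply hc
    rw [e, ng_ng']
  · intro h; exact absurd (Finset.mem_univ _) h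

end Cfsg.Agent.Lib.H49SgInv
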