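import Mathlib
import Cfsg.Agent.Lib.H49SgDefs
import Cfsg.Agent.Lib.H49SgInv

set_option autoImplicit false

/-! Project 2545 (Steinberg character of `PSp_{2m}(F)`), piece `MonB`.

Basic facts on monomial symplectic matrices. -/

namespace Cfsg.Agent.Lib.H49SgMonB

open Matrix Cfsg.Agent.Lib.Helper43Sp Cfsg.Agent.Lib.Helper52SpCut Cfsg.Agent.Lib.H49SgDefs
open Cfsg.Agent.Lib.H49SgInv

variable {m : ℕ} {F : Type*} [Field F]

theorem perm_apply_inv (π : Equiv.Perm (I m)) (x : I m) : π (π⁻¹ x) = x :=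
  Equiv.apply_symm_apply π x

theorem Mon_eq_zero {π : Equiv.Perm (I m)} {M : Matrix (I m) (I m) F} (h : Mon π M) {a b : I m}
    (hab : a ≠ π b) : M a b = 0 := by
  by_contra h0
  exact hab ((h a b).1 h0)

theorem Mon_inv {g : Sp m F} {π : Equiv.Perm (I m)} (h : Mon π g.1) : Mon π⁻¹ (g⁻¹ : Sp m F).1 := by
  intro a b
  have e1 : (g⁻¹ * g : Sp m F).1 a (π⁻¹ b) = (g⁻¹ : Sp m F).1 a b * g.1 b (π⁻¹ b) := by
    have e : (g⁻¹ * g : Sp m F).1 = (g⁻¹ : Sp m F).1 * g.1 := rfl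
    rw [e, Matrix.mul_apply]
    apply Finset.sum_eq_single
    · intro x _ hx
      rw [Mon_eq_zero h (a := x) (b := π⁻¹ b) (by simpa using hx), mul_zero]
    · intro h; exact absurd (Finset.mem_univ _) h
  have e2 : g.1 b (π⁻¹ b) ≠ 0 := (h _ _).2 (by simp)
  rw [inv_mul_cancel] at e1
  have e3 : (1 : Sp m F).1 a (π⁻¹ b) = (1 : Matrix (I m) (I m) F) a (π⁻¹ b) := rfl
  rw [e3] at e1
  constructor
  · intro h0
    by_contra hne
    rw [Matrix.one_apply_ne hne] at e1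
    exact mul_ne_zero h0 e2 e1.symm
  · intro hab h0
    rw [← hab, Matrix.one_apply_eq, h0, zero_mul] at e1
    exact one_ne_zero e1

theorem Mon_ng {g : Sp m F} {π : Equiv.Perm (I m)} (h : Mon π g.1) (a : I m) : π (ng a) = ng (π a) := by
  have h1 : (g⁻¹ : Sp m F).1 a (π a) ≠ 0 := (Mon_inv h a (π a)).2 (by simp)
  rw [inv_apply] at h1
  have h2 : g.1 (ng (π a)) (ng a) ≠ 0 := fun e => h1 (by rw [e, mul_zero])
  exact ((h _ _).1 h2).symm

theorem conj_apply {n : Sp m F} {π : Equiv.Perm (I m)} (h : Mon π n.1) (g : Sp m F) (a b : I m) :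
    (n * g * n⁻¹ : Sp m F).1 (π a) (π b) = n.1 (π a) a * g.1 a b * (n⁻¹ : Sp m F).1 b (π b) := by
  have e : (n * g * n⁻¹ : Sp m F).1 = n.1 * g.1 * (n⁻¹ : Sp m F).1 := rfl
  rw [e, Matrix.mul_apply, Finset.sum_eq_single b]
  · rw [Matrix.mul_apply, Finset.sum_eq_single a]
    · intro x _ hx
      rw [Mon_eq_zero h (a := π a) (b := x) (fun e => hx (π.injective e).symm), zero_mul]
    · intro h; exact absurd (Finset.mem_univ _) h
  · intro y _ hy
    rw [Mon_eq_zero (Mon_inv h) (a := y) (b := π b) (by simpa using hy), mul_zero]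
  · intro h; exact absurd (Finset.mem_univ _) h

theorem conj_zero {n : Sp m F} {π : Equiv.Perm (I m)} (h : Mon π n.1) (g : Sp m F) (a b : I m) :
    (n * g * n⁻¹ : Sp m F).1 (π a) (π b) = 0 ↔ g.1 a b = 0 := by
  rw [conj_apply h]
  have h1 : n.1 (π a) a ≠ 0 := (h _ _).2 rfl
  have h2 : (n⁻¹ : Sp m F).1 b (π b) ≠ 0 := (Mon_inv h _ _).2 (by simp)
  constructor
  · intro h0
    rcases mul_eq_zero.1 h0 with h3 | h3
    · rcases mul_eq_zero.1 h3 with h4 | h4
      · exact absurd h4 h1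
      · exact h4
    · exact absurd h3 h2
  · intro h0
    rw [h0, mul_zero, zero_mul]

end Cfsg.Agent.Lib.H49SgMonB
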