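import Mathlib
import Cfsg.Agent.Lib.H49SgDefs
import Cfsg.Agent.Lib.H49SgInv
import Cfsg.Agent.Lib.H49SgMonB

set_option autoImplicit false

/-! Project 2545 (Steinberg character of `PSp_{2m}(F)`), piece `Mem`.

Membership in `BB TT UU NN`: the condition on the inverse is automatic. -/

namespace Cfsg.Agent.Lib.H49SgMem

open Matrix Cfsg.Agent.Lib.Helper43Sp Cfsg.Agent.Lib.Helper52SpCut Cfsg.Agent.Lib.H49SgDefs
open Cfsg.Agent.Lib.H49SgInv Cfsg.Agent.Lib.H49SgMonB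

variable {m : ℕ} {F : Type*} [Field F]

theorem Tri_inv {g : Sp m F} (h : Tri g.1) : Tri (g⁻¹ : Sp m F).1 := by
  intro a b hab
  rw [inv_apply, h (ng b) (ng a), mul_zero]
  rw [rk_ng, rk_ng]
  have := rk_lt a
  have := rk_lt b
  omega

theorem mem_BB {g : Sp m F} : g ∈ BB m F ↔ Tri g.1 :=
  ⟨fun h => h.1, fun h => ⟨h, Tri_inv h⟩⟩

theorem mem_TT {g : Sp m F} : g ∈ TT m F ↔ Dg g.1 := by
  refine ⟨fun h => h.1, fun h => ⟨h, ?_⟩⟩
  intro a b hab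
  rw [inv_apply, h (ng b) (ng a), mul_zero]
  intro e
  apply hab
  have := congrArg ng e
  rw [ng_ng', ng_ng'] at this
  exact this.symm

theorem mem_UU {g : Sp m F} : g ∈ UU m F ↔ UT g.1 := by
  refine ⟨fun h => h.1, fun h => ⟨h, Tri_inv h.1, ?_⟩⟩
  intro a
  rw [inv_apply, h.2 (ng a), mul_one, sg_mul_self]

theorem mem_NN {g : Sp m F} : g ∈ NN m F ↔ ∃ π, Mon π g.1 := by
  refine ⟨fun h => h.1, fun h => ⟨h, ?_⟩⟩
  obtain ⟨π, hπ⟩ := h
  exact ⟨π⁻¹, Mon_inv hπ⟩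

end Cfsg.Agent.Lib.H49SgMem
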