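import Mathlib
import Cfsg.Agent.Lib.H49SgDefs
import Cfsg.Agent.Lib.H49SgInv
import Cfsg.Agent.Lib.H49SgMonB
import Cfsg.Agent.Lib.H49SgMem

set_option autoImplicit false

/-! Project 2545 (Steinberg character of `PSp_{2m}(F)`), piece `Diag`.

Diagonal entries of upper triangular matrices multiply. -/

namespace Cfsg.Agent.Lib.H49SgDiag

open Matrix Cfsg.Agent.Lib.Helper43Sp Cfsg.Agent.Lib.Helper52SpCut Cfsg.Agent.Lib.H49SgDefs
open Cfsg.Agent.Lib.H49SgInv Cfsg.Agent.Lib.H49SgMonB Cfsg.Agent.Lib.H49SgMem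

variable {m : ℕ} {F : Type*} [Field F]

theorem diag_mul {g h : Sp m F} (hg : g ∈ BB m F) (hh : h ∈ BB m F) (a : I m) :
    (g * h : Sp m F).1 a a = g.1 a a * h.1 a a := by
  have e : (g * h : Sp m F).1 = g.1 * h.1 := rfl
  rw [e, Matrix.mul_apply]
  apply Finset.sum_eq_single
  · intro c _ hc
    rcases Nat.lt_or_ge (rk c) (rk a) with h1 | h1
    · rw [hg.1 a c h1, zero_mul]
    · have h2 : rk a < rk c := by
        rcases Nat.lt_or_ge (rk a) (rk c) with h2 | h2
        · exact h2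
        · exact absurd (rk_inj (le_antisymm h2 h1)) hc
      rw [hh.1 c a h2, mul_zero]
  · intro h; exact absurd (Finset.mem_univ _) h

theorem diag_mul_inv {g : Sp m F} (hg : g ∈ BB m F) (a : I m) :
    g.1 a a * (g⁻¹ : Sp m F).1 a a = 1 := by
  rw [← diag_mul hg ((BB m F).inv_mem hg), mul_inv_cancel]
  exact Matrix.one_apply_eq a

theorem diag_ne_zero {g : Sp m F} (hg : g ∈ BB m F) (a : I m) : g.1 a a ≠ 0 := by
  intro h
  have := diag_mul_inv hg a
  rw [h, zero_mul] at this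
  exact zero_ne_one this

theorem diag_inv {g : Sp m F} (hg : g ∈ BB m F) (a : I m) : (g⁻¹ : Sp m F).1 a a = (g.1 a a)⁻¹ :=
  eq_inv_of_mul_eq_one_right (diag_mul_inv hg a)

end Cfsg.Agent.Lib.H49SgDiag
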