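import Mathlib
import Cfsg.Agent.Lib.H49SgDefs
import Cfsg.Agent.Lib.H49SgInv
import Cfsg.Agent.Lib.H49SgMonB
import Cfsg.Agent.Lib.H49SgMem
import Cfsg.Agent.Lib.H49SgDiag
import Cfsg.Agent.Lib.Helper36SpTWire
import Cfsg.Agent.Lib.Helper54Spcsimple

set_option autoImplicit false

/-! Project 2545 (Steinberg character of `PSp_{2m}(F)`), piece `A1`.  Column operation. -/

namespace Cfsg.Agent.Lib.H49SgA1

open Matrix Cfsg.Agent.Lib.Helper43Sp Cfsg.Agent.Lib.Helper52SpCut Cfsg.Agent.Lib.H49SgDefs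
open Cfsg.Agent.Lib.H49SgInv Cfsg.Agent.Lib.H49SgMonB Cfsg.Agent.Lib.H49SgMem Cfsg.Agent.Lib.H49SgDiag

variable {m : ℕ} {F : Type*} [Field F]

theorem mul_X_apply (a b : I m) (hab : a ≠ b) (g : Sp m F) (t : F) :
    (g * X a b t : Sp m F).1 a b = g.1 a b + g.1 a a * t := by
  have e : (g * X a b t : Sp m F).1 = g.1 * Xm a b t := by
    rw [← Cfsg.Agent.Lib.Helper36SpTWire.X_val a b hab t]; rfl
  rw [e, Cfsg.Agent.Lib.Helper84SpXval.Xm_eq, Matrix.mul_sub, Matrix.mul_add, Matrix.mul_one,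
    Matrix.sub_apply, Matrix.add_apply, Matrix.mul_single_apply_same]
  by_cases hb : b = ng a
  · rw [if_pos hb, Matrix.single_zero, Matrix.mul_zero, Matrix.zero_apply, sub_zero]
  · rw [Matrix.mul_single_apply_of_ne _ _ _ _ _ hb, sub_zero]

theorem clear_entry (a b : I m) (h : Simple a b) {g : Sp m F} (hg : g ∈ BB m F) :
    ∃ t : F, (g * X a b t : Sp m F).1 a b = 0 := by
  have hab : a ≠ b := fun e => by
    have := h.1
    rw [e] at this
    omega
  refine ⟨- g.1 a b / g.1 a a, ?_⟩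
  rw [mul_X_apply a b hab]
  have := diag_ne_zero hg a
  field_simp
  ring

end Cfsg.Agent.Lib.H49SgA1
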