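import Mathlib
import Cfsg.Agent.Lib.H49SgDefs
import Cfsg.Agent.Lib.H49SgInv
import Cfsg.Agent.Lib.H49SgMonB
import Cfsg.Agent.Lib.H49SgMem
import Cfsg.Agent.Lib.H49SgDiag

set_option autoImplicit false

/-! Project 2545 (Steinberg character of `PSp_{2m}(F)`), piece `A2a`. -/

namespace Cfsg.Agent.Lib.H49SgA2a

open Matrix Cfsg.Agent.Lib.Helper43Sp Cfsg.Agent.Lib.Helper52SpCut Cfsg.Agent.Lib.H49SgDefs
open Cfsg.Agent.Lib.H49SgInv Cfsg.Agent.Lib.H49SgMonB Cfsg.Agent.Lib.H49SgMem Cfsg.Agent.Lib.H49SgDiag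

variable {m : ℕ} {F : Type*} [Field F]

theorem dual_entry (a b : I m) (h : rk b = rk a + 1) {c : Sp m F} (hc : c ∈ BB m F) (h0 : c.1 a b = 0) :
    c.1 (ng b) (ng a) = 0 := by
  have hab : a ≠ b := fun e => by rw [e] at h; omega
  have e1 : (c * c⁻¹ : Sp m F).1 a b = 0 := by
    rw [mul_inv_cancel]
    exact Matrix.one_apply_ne hab
  have e2 : (c * c⁻¹ : Sp m F).1 a b = c.1 a a * (c⁻¹ : Sp m F).1 a b := by
    have e : (c * c⁻¹ : Sp m F).1 = c.1 * (c⁻¹ : Sp m F).1 := rfl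
    rw [e, Matrix.mul_apply]
    apply Finset.sum_eq_single
    · intro x _ hx
      rcases Nat.lt_or_ge (rk x) (rk a) with h1 | h1
      · rw [hc.1 a x h1, zero_mul]
      · rcases Nat.lt_or_ge (rk b) (rk x) with h2 | h2
        · rw [hc.2 x b h2, mul_zero]
        · have h3 : rk x ≠ rk a := fun e => hx (rk_inj e)
          have h4 : x = b := rk_inj (by omega)
          rw [h4, h0, zero_mul]
    · intro h; exact absurd (Finset.mem_univ _) h
  rw [e2] at e1
  have e3 : (c⁻¹ : Sp m F).1 a b = 0 := by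
    rcases mul_eq_zero.1 e1 with h1 | h1
    · exact absurd h1 (diag_ne_zero hc a)
    · exact h1
  rw [inv_apply] at e3
  rcases mul_eq_zero.1 e3 with h1 | h1
  · exact absurd h1 (mul_ne_zero (sg_ne_zero a) (sg_ne_zero b))
  · exact h1

end Cfsg.Agent.Lib.H49SgA2a
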