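import Mathlib
import Cfsg.Agent.Lib.H49SgDefs
import Cfsg.Agent.Lib.H49SgInv
import Cfsg.Agent.Lib.H49SgMonB
import Cfsg.Agent.Lib.H49SgMem
import Cfsg.Agent.Lib.Helper65Sphxd
import Cfsg.Agent.Lib.Helper54Spcsimple

set_option autoImplicit false

/-! Project 2545 (Steinberg character of `PSp_{2m}(F)`), piece `SN` (35m).

The simple reflections are monomial.  `Helper54Spcsimple.simple_cases` gives `(a, b) = (inl i, inl j)`, `j = i + 1`, or `(inl L, inr L)`;
`Helper65Sphxd.wX_short_val`, `wX_long_val` give the matrix as a sum of `Matrix.single`; `sw a b` is `swap a b * swap (ng a) (ng b)`, resp. `swap a b`.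
Check entrywise by cases on the indices (`Matrix.single_apply`, `Matrix.one_apply`, `Equiv.swap_apply_def`). -/

namespace Cfsg.Agent.Lib.H49SgSN

open Matrix Cfsg.Agent.Lib.Helper43Sp Cfsg.Agent.Lib.Helper52SpCut Cfsg.Agent.Lib.H49SgDefs
open Cfsg.Agent.Lib.H49SgInv Cfsg.Agent.Lib.H49SgMonB Cfsg.Agent.Lib.H49SgMem

variable {m : ℕ} {F : Type*} [Field F]

/-! ### the signed permutation `sw a b` -/

theorem ng_ne_self (a : I m) : ng a ≠ a := by
  cases a <;> simp [ng]

theorem ng_injective {a b : I m} (h : ng a = ng b) : a = b := by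
  rw [← ng_ng' a, h, ng_ng']

theorem sw_left (a b : I m) (hab : a ≠ b) : sw a b a = b := by
  unfold sw
  split_ifs with h
  · exact Equiv.swap_apply_left a b
  · rw [Equiv.Perm.mul_apply, Equiv.swap_apply_of_ne_of_ne (ng_ne_self a).symm
      (fun e => h (by rw [e, ng_ng'])), Equiv.swap_apply_left]

theorem sw_right (a b : I m) (hab : a ≠ b) : sw a b b = a := by
  unfold sw
  split_ifs with h
  · exact Equiv.swap_apply_right a b
  · rw [Equiv.Perm.mul_apply, Equiv.swap_apply_of_ne_of_ne h (ng_ne_self b).symm,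
      Equiv.swap_apply_right]

theorem sw_ng_left (a b : I m) (hab : a ≠ b) : sw a b (ng a) = ng b := by
  unfold sw
  split_ifs with h
  · rw [h, ng_ng']; exact Equiv.swap_apply_right a (ng a)
  · rw [Equiv.Perm.mul_apply, Equiv.swap_apply_left, Equiv.swap_apply_of_ne_of_ne
      (fun e => h (by rw [← e, ng_ng'])) (ng_ne_self b)]

theorem sw_ng_right (a b : I m) (hab : a ≠ b) : sw a b (ng b) = ng a := by
  unfold sw
  split_ifs with h
  · rw [h, ng_ng']; exact Equiv.swap_apply_left a (ng a)
  · rw [Equiv.Perm.mul_apply, Equiv.swap_apply_right, Equiv.swap_apply_of_ne_of_ne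
      (ng_ne_self a) (fun e => h e.symm)]

theorem sw_other (a b z : I m) (h1 : z ≠ a) (h2 : z ≠ b) (h3 : z ≠ ng a) (h4 : z ≠ ng b) :
    sw a b z = z := by
  unfold sw
  split_ifs with h
  · exact Equiv.swap_apply_of_ne_of_ne h1 h2
  · rw [Equiv.Perm.mul_apply, Equiv.swap_apply_of_ne_of_ne h3 h4, Equiv.swap_apply_of_ne_of_ne h1 h2]

theorem Simple.ne {a b : I m} (h : Simple a b) : a ≠ b := fun e => by
  have := h.1
  rw [e] at this
  omega

/-- the effect of a simple reflection on the ranks -/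
theorem rk_sw (a b : I m) (h : Simple a b) (z : I m) :
    rk (sw a b z) = if rk z = rk a then rk a + 1 else if rk z = rk a + 1 then rk a
      else if rk z = 2 * m - 1 - rk a then 2 * m - 2 - rk a
      else if rk z = 2 * m - 2 - rk a then 2 * m - 1 - rk a else rk z := by
  have hab := Simple.ne h
  have hb := h.1
  have hm := h.2
  have hna := rk_ng a
  have hnb := rk_ng b
  by_cases h1 : z = a
  · rw [h1, sw_left a b hab, if_pos rfl, hb]
  · have h1' : rk z ≠ rk a := fun e => h1 (rk_inj e)
    rw [if_neg h1']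
    by_cases h2 : z = b
    · rw [h2, sw_right a b hab, if_pos hb]
    · have h2' : rk z ≠ rk a + 1 := fun e => h2 (rk_inj (by rw [e, hb]))
      rw [if_neg h2']
      by_cases h3 : z = ng a
      · rw [h3, sw_ng_left a b hab, if_pos hna, hnb, hb]
        omega
      · have h3' : rk z ≠ 2 * m - 1 - rk a := fun e => h3 (rk_inj (by rw [e, hna]))
        rw [if_neg h3']
        by_cases h4 : z = ng b
        · rw [h4, sw_ng_right a b hab, if_pos (by rw [hnb, hb]; omega), hna]
        · have h4' : rk z ≠ 2 * m - 2 - rk a := fun e => h4 (rk_inj (by rw [e, hnb, hb]; omega))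
          rw [if_neg h4', sw_other a b z h1 h2 h3 h4]

theorem Mon_swap (a b : I m) (hab : a ≠ b) (u v : F) (hu : u ≠ 0) (hv : v ≠ 0) :
    Mon (Equiv.swap a b)
      (1 - Matrix.single a a 1 - Matrix.single b b 1 + Matrix.single a b u - Matrix.single b a v) := by
  intro x y
  have key : ∀ (p q : I m) (c : F), Matrix.single p q c x y = if x = p ∧ y = q then c else 0 := by
    intro p q c
    rw [Matrix.single_apply]
    simp only [eq_comm]
  simp only [Matrix.sub_apply, Matrix.add_apply, Matrix.one_apply, key]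
  have hba : b ≠ a := hab.symm
  by_cases h1 : y = a
  · rw [h1, Equiv.swap_apply_left]
    by_cases h3 : x = a
    · simp [h3, hab]
    · by_cases h4 : x = b
      · simp [h4, hba, hab, hv]
      · simp [h3, h4]
  · by_cases h2 : y = b
    · rw [h2, Equiv.swap_apply_right]
      by_cases h3 : x = a
      · simp [h3, hab, hba, hu]
      · by_cases h4 : x = b
        · simp [h4, hba]
        · simp [h3, h4]
    · rw [Equiv.swap_apply_of_ne_of_ne h1 h2]
      simp [h1, h2]

theorem Mon_wX (a b : I m) (h : Simple a b) : Mon (sw a b) (wX a b 1 : Sp m F).1 := by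
  rcases Cfsg.Agent.Lib.Helper54Spcsimple.simple_cases a b h with ⟨i, j, hij, rfl, rfl⟩ | ⟨L, _, rfl, rfl⟩
  · have hne : i ≠ j := fun e => by rw [e] at hij; omega
    have hne' : j ≠ i := hne.symm
    have e : (wX (Sum.inl i) (Sum.inl j) 1 : Sp m F).1 = _ :=
      Cfsg.Agent.Lib.Helper65Sphxd.wX_short_val i j hne (1 : F) one_ne_zero
    have hsw : sw (Sum.inl i : I m) (Sum.inl j) =
        Equiv.swap (Sum.inl i) (Sum.inl j) * Equiv.swap (Sum.inr i) (Sum.inr j) := by
      simp [sw, ng]
    have h1 := Mon_swap (Sum.inl i : I m) (Sum.inl j) (fun e => hne (Sum.inl.inj e)) (1 : F) 1⁻¹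
      one_ne_zero (inv_ne_zero one_ne_zero)
    have h2 := Mon_swap (Sum.inr i : I m) (Sum.inr j) (fun e => hne (Sum.inr.inj e)) (1 : F)⁻¹ 1
      (inv_ne_zero one_ne_zero) one_ne_zero
    have h3 := Mon_mul h1 h2
    rw [e, hsw]
    convert h3 using 1
    simp only [mul_add, add_mul, mul_sub, sub_mul, mul_one, one_mul,
      Matrix.single_mul_single_of_ne, ne_eq, reduceCtorEq, not_false_eq_true, sub_zero, add_zero]
    abel
  · have e : (wX (Sum.inl L) (Sum.inr L) 1 : Sp m F).1 = _ :=
      Cfsg.Agent.Lib.Helper65Sphxd.wX_long_val L (1 : F) one_ne_zero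
    have hsw : sw (Sum.inl L : I m) (Sum.inr L) = Equiv.swap (Sum.inl L) (Sum.inr L) := by
      simp [sw, ng]
    rw [e, hsw]
    exact Mon_swap _ _ (by simp) _ _ one_ne_zero (inv_ne_zero one_ne_zero)

theorem SS_subset : SS m F ⊆ (NN m F : Set (Sp m F)) := by
  rintro g ⟨a, b, h, rfl⟩
  exact mem_NN.2 ⟨sw a b, Mon_wX a b h⟩

end Cfsg.Agent.Lib.H49SgSN
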