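import Mathlib
import Cfsg.Agent.Lib.H49SgDefs
import Cfsg.Agent.Lib.H49SgInv
import Cfsg.Agent.Lib.H49SgMonB
import Cfsg.Agent.Lib.H49SgMem
import Cfsg.Agent.Lib.H49SgDiag
import Cfsg.Agent.Lib.H49SgSN
import Cfsg.Agent.Lib.H49SgA2a
import Cfsg.Agent.Lib.Helper54Spcsimple

set_option autoImplicit false

/-! Project 2545 (Steinberg character of `PSp_{2m}(F)`), piece `A2` (40m).

`mem_BB` and `conj_zero (Mon_wX a b h)`: with `σ = sw a b` one must show `c x y = 0` whenever `rk (σ y) < rk (σ x)`.  If `rk y < rk x` use `Tri c`.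
Otherwise `(x, y) = (a, b)` (use `h0`) or `(x, y) = (ng b, ng a)` (use `dual_entry`): `σ` exchanges the two neighbours `a, b`, the two neighbours `ng b, ng a` and fixes
the other indices (in the long case `b = ng a` there is only one pair).  Work with `rk` and `omega` (`rk_inj`, `rk_ng`, `rk_lt`), `Equiv.swap_apply_def`. -/

namespace Cfsg.Agent.Lib.H49SgA2

open Matrix Cfsg.Agent.Lib.Helper43Sp Cfsg.Agent.Lib.Helper52SpCut Cfsg.Agent.Lib.H49SgDefs
open Cfsg.Agent.Lib.H49SgInv Cfsg.Agent.Lib.H49SgMonB Cfsg.Agent.Lib.H49SgMem Cfsg.Agent.Lib.H49SgDiag Cfsg.Agent.Lib.H49SgSN Cfsg.Agent.Lib.H49SgA2a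

variable {m : ℕ} {F : Type*} [Field F]

theorem conj_mem_BB (a b : I m) (h : Simple a b) {c : Sp m F} (hc : c ∈ BB m F) (h0 : c.1 a b = 0) :
    wX a b 1 * c * (wX a b 1)⁻¹ ∈ BB m F := by
  rw [mem_BB]
  intro x y hxy
  have hM := Mon_wX (F := F) a b h
  have key : c.1 ((sw a b)⁻¹ x) ((sw a b)⁻¹ y) = 0 := by
    obtain ⟨x', hx'⟩ : ∃ x', x' = (sw a b)⁻¹ x := ⟨_, rfl⟩
    obtain ⟨y', hy'⟩ : ∃ y', y' = (sw a b)⁻¹ y := ⟨_, rfl⟩
    have ex : x = sw a b x' := by rw [hx', perm_apply_inv]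
    have ey : y = sw a b y' := by rw [hy', perm_apply_inv]
    rw [← hx', ← hy']
    rw [ex, ey, Cfsg.Agent.Lib.H49SgSN.rk_sw a b h, Cfsg.Agent.Lib.H49SgSN.rk_sw a b h] at hxy
    have hb := h.1
    have hm := h.2
    have hx2 := rk_lt x'
    have hy2 := rk_lt y'
    rcases Nat.lt_or_ge (rk y') (rk x') with h1 | h1
    · exact hc.1 x' y' h1
    · have h2 : (rk x' = rk a ∧ rk y' = rk a + 1) ∨
          (rk x' = 2 * m - 2 - rk a ∧ rk y' = 2 * m - 1 - rk a) := by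
        split_ifs at hxy <;> omega
      rcases h2 with ⟨h3, h4⟩ | ⟨h3, h4⟩
      · have e1 : x' = a := rk_inj h3
        have e2 : y' = b := rk_inj (by rw [h4, hb])
        rw [e1, e2, h0]
      · have e1 : x' = ng b := rk_inj (by rw [h3, rk_ng, hb]; omega)
        have e2 : y' = ng a := rk_inj (by rw [h4, rk_ng])
        rw [e1, e2]
        exact dual_entry a b hb hc h0
  have h1 := (conj_zero hM c ((sw a b)⁻¹ x) ((sw a b)⁻¹ y)).2 key
  rwa [perm_apply_inv, perm_apply_inv] at h1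

end Cfsg.Agent.Lib.H49SgA2
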