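import Mathlib
import Cfsg.Agent.Lib.H49SgDefs
import Cfsg.Agent.Lib.H49SgInv
import Cfsg.Agent.Lib.H49SgMonB
import Cfsg.Agent.Lib.H49SgMem
import Cfsg.Agent.Lib.Helper36SpTWire

set_option autoImplicit false

/-! Project 2545 (Steinberg character of `PSp_{2m}(F)`), piece `B1` (30m).

`mem_BB` and `conj_zero h`: one must show `Xm a b t x y = 0` whenever `rk (π y) < rk (π x)`.  The non zero entries of `Xm a b t` are on the diagonal, at `(a, b)` and at
`(ng b, ng a)`; `rk (π a) < rk (π b)` and, by `Mon_ng`, `rk_ng`, `rk (π (ng b)) < rk (π (ng a))`. -/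

namespace Cfsg.Agent.Lib.H49SgB1

open Matrix Cfsg.Agent.Lib.Helper43Sp Cfsg.Agent.Lib.Helper52SpCut Cfsg.Agent.Lib.H49SgDefs
open Cfsg.Agent.Lib.H49SgInv Cfsg.Agent.Lib.H49SgMonB Cfsg.Agent.Lib.H49SgMem

variable {m : ℕ} {F : Type*} [Field F]

theorem conj_X_mem {n : Sp m F} {π : Equiv.Perm (I m)} (h : Mon π n.1) (a b : I m) (hab : a ≠ b)
    (hr : rk (π a) < rk (π b)) (t : F) : n * X a b t * n⁻¹ ∈ BB m F := by
  rw [mem_BB]
  intro x y hxy
  have key : (X a b t : Sp m F).1 (π⁻¹ x) (π⁻¹ y) = 0 := by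
    have e : (X a b t : Sp m F).1 = Xm a b t := Cfsg.Agent.Lib.Helper36SpTWire.X_val a b hab t
    have hne : π⁻¹ x ≠ π⁻¹ y := fun e => by
      rw [π⁻¹.injective e] at hxy; omega
    rw [e, Cfsg.Agent.Lib.Helper84SpXval.Xm_eq, Matrix.sub_apply, Matrix.add_apply,
      Matrix.one_apply_ne hne, Matrix.single_apply, Matrix.single_apply, if_neg, if_neg]
    · ring
    · rintro ⟨h1, h2⟩
      have e1 : x = ng (π b) := by
        rw [← Mon_ng h, h1, perm_apply_inv]
      have e2 : y = ng (π a) := by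
        rw [← Mon_ng h, h2, perm_apply_inv]
      rw [e1, e2, rk_ng, rk_ng] at hxy
      have := rk_lt (π b)
      omega
    · rintro ⟨h1, h2⟩
      rw [h1, h2, perm_apply_inv, perm_apply_inv] at hr
      omega
  have h1 := (conj_zero h (X a b t) (π⁻¹ x) (π⁻¹ y)).2 key
  rwa [perm_apply_inv, perm_apply_inv] at h1

end Cfsg.Agent.Lib.H49SgB1
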