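import Mathlib
import Cfsg.Agent.Lib.H49SgDefs
import Cfsg.Agent.Lib.H49SgInv
import Cfsg.Agent.Lib.H49SgMonB
import Cfsg.Agent.Lib.H49SgMem
import Cfsg.Agent.Lib.H49SgDiag

set_option autoImplicit false

/-! Project 2545 (Steinberg character of `PSp_{2m}(F)`), piece `TN` (10m).

A diagonal symplectic matrix is monomial for the permutation `1` (`diag_ne_zero`, `TT_le_BB`); conversely `Mon 1` means diagonal. -/

namespace Cfsg.Agent.Lib.H49SgTN

open Matrix Cfsg.Agent.Lib.Helper43Sp Cfsg.Agent.Lib.Helper52SpCut Cfsg.Agent.Lib.H49SgDefs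
open Cfsg.Agent.Lib.H49SgInv Cfsg.Agent.Lib.H49SgMonB Cfsg.Agent.Lib.H49SgMem Cfsg.Agent.Lib.H49SgDiag

variable {m : ℕ} {F : Type*} [Field F]

theorem Mon_one_iff {g : Sp m F} : Mon 1 g.1 ↔ g ∈ TT m F := by
  constructor
  · intro h
    rw [mem_TT]
    intro a b hab
    exact Mon_eq_zero h (by rwa [Equiv.Perm.one_apply])
  · intro h a b
    rw [Equiv.Perm.one_apply]
    constructor
    · intro h0
      by_contra hab
      exact h0 (h.1 a b hab)
    · rintro rfl
      exact diag_ne_zero (TT_le_BB h) a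

theorem TT_le_NN : TT m F ≤ NN m F := fun _ h => mem_NN.2 ⟨1, Mon_one_iff.2 h⟩

end Cfsg.Agent.Lib.H49SgTN
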