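import Mathlib
import Cfsg.Agent.Lib.H49SgDefs
import Cfsg.Agent.Lib.H49SgInv
import Cfsg.Agent.Lib.H49SgMonB
import Cfsg.Agent.Lib.H49SgMem
import Cfsg.Agent.Lib.H49SgDiag
import Cfsg.Agent.Lib.H49SgTN

set_option autoImplicit false

/-! Project 2545 (Steinberg character of `PSp_{2m}(F)`), piece `BNT`.

An upper triangular monomial matrix is diagonal. -/

namespace Cfsg.Agent.Lib.H49SgBNT

open Matrix Cfsg.Agent.Lib.Helper43Sp Cfsg.Agent.Lib.Helper52SpCut Cfsg.Agent.Lib.H49SgDefs
open Cfsg.Agent.Lib.H49SgInv Cfsg.Agent.Lib.H49SgMonB Cfsg.Agent.Lib.H49SgMem Cfsg.Agent.Lib.H49SgDiag Cfsg.Agent.Lib.H49SgTN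

variable {m : ℕ} {F : Type*} [Field F]

theorem perm_eq_one {π : Equiv.Perm (I m)} (h : ∀ b, rk (π b) ≤ rk b) : π = 1 := by
  have key : ∀ n : ℕ, ∀ b : I m, rk b = n → π b = b := by
    intro n
    induction n using Nat.strong_induction_on with
    | _ n ih =>
      intro b hb
      by_contra hne
      have h1 : rk (π b) < n := by
        have h2 := h b
        have h3 : rk (π b) ≠ rk b := fun e => hne (rk_inj e)
        omega
      have h4 := ih _ h1 (π b) rfl
      exact hne (π.injective h4)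
  apply Equiv.ext
  intro b
  exact key _ b rfl

theorem BB_inf_NN : BB m F ⊓ NN m F = TT m F := by
  apply le_antisymm
  · rintro g ⟨hB, hN⟩
    obtain ⟨π, hπ⟩ := mem_NN.1 hN
    have h1 : π = 1 := by
      apply perm_eq_one
      intro b
      by_contra hlt
      exact (hπ (π b) b).2 rfl (hB.1 (π b) b (by omega))
    rw [h1] at hπ
    exact Mon_one_iff.1 hπ
  · exact le_inf TT_le_BB TT_le_NN

end Cfsg.Agent.Lib.H49SgBNT
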