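import Mathlib
import Cfsg.Agent.Lib.H49SgDefs
import Cfsg.Agent.Lib.H49SgInv
import Cfsg.Agent.Lib.H49SgMonB
import Cfsg.Agent.Lib.H49SgMem
import Cfsg.Agent.Lib.H49SgDiag
import Cfsg.Agent.Lib.Helper36SpDval

set_option autoImplicit false

/-! Project 2545 (Steinberg character of `PSp_{2m}(F)`), piece `DT` (25m).

`Helper36SpDval.D_val : (D d).1 = Dm d` (a diagonal matrix).  Conversely for `t` diagonal put `d i = Units.mk0 (t (inl i) (inl i)) (diag_ne_zero ..)`;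
`t (inr i) (inr i) = (t (inl i) (inl i))⁻¹` by `diag_inv` and `inv_apply`. -/

namespace Cfsg.Agent.Lib.H49SgDT

open Matrix Cfsg.Agent.Lib.Helper43Sp Cfsg.Agent.Lib.Helper52SpCut Cfsg.Agent.Lib.H49SgDefs
open Cfsg.Agent.Lib.H49SgInv Cfsg.Agent.Lib.H49SgMonB Cfsg.Agent.Lib.H49SgMem Cfsg.Agent.Lib.H49SgDiag

variable {m : ℕ} {F : Type*} [Field F]

theorem D_mem (d : Fin m → Fˣ) : (D d : Sp m F) ∈ TT m F := by
  rw [mem_TT]
  intro a b hab
  have e : (D d : Sp m F).1 = Dm d := Cfsg.Agent.Lib.Helper36SpDval.D_val d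
  rw [e]
  exact Matrix.diagonal_apply_ne _ hab

theorem exists_D {t : Sp m F} (ht : t ∈ TT m F) : ∃ d : Fin m → Fˣ, t = D d := by
  have hB := TT_le_BB ht
  refine ⟨fun i => Units.mk0 (t.1 (Sum.inl i) (Sum.inl i)) (diag_ne_zero hB _), ?_⟩
  apply Subtype.ext
  have e : ∀ d : Fin m → Fˣ, (D d : Sp m F).1 = Dm d := Cfsg.Agent.Lib.Helper36SpDval.D_val
  rw [e]
  ext a b
  by_cases hab : a = b
  · subst hab
    unfold Dm
    rw [Matrix.diagonal_apply_eq]
    rcases a with i | i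
    · simp [chi]
    · have h1 := diag_inv hB (Sum.inl i)
      rw [inv_apply, sg_mul_self, one_mul] at h1
      have h2 : ng (Sum.inl i : I m) = Sum.inr i := rfl
      rw [h2] at h1
      rw [h1]
      simp [chi]
  · rw [ht.1 a b hab]
    exact (Matrix.diagonal_apply_ne _ hab).symm

end Cfsg.Agent.Lib.H49SgDT
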