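import Mathlib
import Cfsg.Agent.Lib.H49SgDefs
import Cfsg.Agent.Lib.H49SgInv
import Cfsg.Agent.Lib.H49SgMonB
import Cfsg.Agent.Lib.H49SgMem
import Cfsg.Agent.Lib.H49SgDT
import Cfsg.Agent.Lib.Helper65Sphxd
import Cfsg.Agent.Lib.Helper54Spcsimple

set_option autoImplicit false

/-! Project 2545 (Steinberg character of `PSp_{2m}(F)`), piece `Sq` (15m).

`simple_cases`, `Helper65Sphxd.hX_long`, `hX_short` (`hX .. u = D ..`), `wX_sq_short`, `wX_sq_long` (`w * w = hX .. (-1)`), `D_mem`. -/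

namespace Cfsg.Agent.Lib.H49SgSq

open Matrix Cfsg.Agent.Lib.Helper43Sp Cfsg.Agent.Lib.Helper52SpCut Cfsg.Agent.Lib.H49SgDefs
open Cfsg.Agent.Lib.H49SgInv Cfsg.Agent.Lib.H49SgMonB Cfsg.Agent.Lib.H49SgMem Cfsg.Agent.Lib.H49SgDT

variable {m : ℕ} {F : Type*} [Field F]

theorem hX_mem (a b : I m) (h : Simple a b) (u : F) (hu : u ≠ 0) : (hX a b u : Sp m F) ∈ TT m F := by
  rcases Cfsg.Agent.Lib.Helper54Spcsimple.simple_cases a b h with ⟨i, j, hij, rfl, rfl⟩ | ⟨L, _, rfl, rfl⟩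
  · have hne : i ≠ j := fun e => by rw [e] at hij; omega
    have h1 := Cfsg.Agent.Lib.Helper65Sphxd.hX_short (F := F) i j hne (Units.mk0 u hu)
    rw [Units.val_mk0] at h1
    rw [h1]
    exact D_mem _
  · have h1 := Cfsg.Agent.Lib.Helper65Sphxd.hX_long (F := F) L (Units.mk0 u hu)
    rw [Units.val_mk0] at h1
    rw [h1]
    exact D_mem _

theorem sq_eq (a b : I m) (h : Simple a b) : (wX a b 1 : Sp m F) * wX a b 1 = hX a b (-1) := by
  rcases Cfsg.Agent.Lib.Helper54Spcsimple.simple_cases a b h with ⟨i, j, hij, rfl, rfl⟩ | ⟨L, _, rfl, rfl⟩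
  · have hne : i ≠ j := fun e => by rw [e] at hij; omega
    exact Cfsg.Agent.Lib.Helper65Sphxd.wX_sq_short i j hne
  · exact Cfsg.Agent.Lib.Helper65Sphxd.wX_sq_long L

theorem sq_mem (a b : I m) (h : Simple a b) : (wX a b 1 : Sp m F) * wX a b 1 ∈ TT m F := by
  rw [sq_eq a b h]
  exact hX_mem a b h (-1) (neg_ne_zero.2 one_ne_zero)

end Cfsg.Agent.Lib.H49SgSq
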