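import Mathlib
import Cfsg.Agent.Lib.H49SgDefs
import Cfsg.Agent.Lib.H49SgInv
import Cfsg.Agent.Lib.H49SgMonB
import Cfsg.Agent.Lib.H49SgMem
import Cfsg.Agent.Lib.Helper36SpTWire

set_option autoImplicit false

/-! Project 2545 (Steinberg character of `PSp_{2m}(F)`), piece `XU`. -/

namespace Cfsg.Agent.Lib.H49SgXU

open Matrix Cfsg.Agent.Lib.Helper43Sp Cfsg.Agent.Lib.Helper52SpCut Cfsg.Agent.Lib.H49SgDefs
open Cfsg.Agent.Lib.H49SgInv Cfsg.Agent.Lib.H49SgMonB Cfsg.Agent.Lib.H49SgMem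

variable {m : ℕ} {F : Type*} [Field F]

theorem X_mem_UU (a b : I m) (h : rk a < rk b) (t : F) : (X a b t : Sp m F) ∈ UU m F := by
  rw [mem_UU]
  have hab : a ≠ b := fun e => by rw [e] at h; omega
  have e : (X a b t : Sp m F).1 = Xm a b t := Cfsg.Agent.Lib.Helper36SpTWire.X_val a b hab t
  rw [e]
  exact UT_Xm a b h t

end Cfsg.Agent.Lib.H49SgXU
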