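import Mathlib
import Cfsg.Agent.Lib.H49SgDefs
import Cfsg.Agent.Lib.H49SgInv
import Cfsg.Agent.Lib.H49SgMonB
import Cfsg.Agent.Lib.H49SgMem
import Cfsg.Agent.Lib.H49SgXU
import Cfsg.Agent.Lib.H49SgSq
import Cfsg.Agent.Lib.Helper65Sphxd
import Cfsg.Agent.Lib.Helper54Spcsimple
import Cfsg.Agent.Lib.Helper36SpTWire

set_option autoImplicit false

/-! Project 2545 (Steinberg character of `PSp_{2m}(F)`), piece `C` (30m).

Rank one computation.  `Helper65Sphxd.X_mul_wX_short/long`: `X a b u * w = X b a u⁻¹ * hX a b (-u) * X a b (-u⁻¹)` (`w = wX a b 1`).  Taking inverses (`X_inv`):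
`w⁻¹ * X a b (-u) = X a b u⁻¹ * (hX a b (-u))⁻¹ * X b a (-u⁻¹)`, and `w = (w * w) * w⁻¹`.  So with `u = -t`:
`w * X a b t = ((w * w) * X a b u⁻¹ * (hX a b (-u))⁻¹) * X b a (-u⁻¹)`; the first factor is in `BB` by `sq_mem`, `hX_mem`, `TT_le_BB`, `X_mem_UU`, `UU_le_BB`. -/

namespace Cfsg.Agent.Lib.H49SgC

open Matrix Cfsg.Agent.Lib.Helper43Sp Cfsg.Agent.Lib.Helper52SpCut Cfsg.Agent.Lib.H49SgDefs
open Cfsg.Agent.Lib.H49SgInv Cfsg.Agent.Lib.H49SgMonB Cfsg.Agent.Lib.H49SgMem Cfsg.Agent.Lib.H49SgXU Cfsg.Agent.Lib.H49SgSq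

variable {m : ℕ} {F : Type*} [Field F]

theorem X_mul_wX (a b : I m) (h : Simple a b) (u : F) (hu : u ≠ 0) :
    (X a b u : Sp m F) * wX a b 1 = X b a u⁻¹ * hX a b (-u) * X a b (-u⁻¹) := by
  rcases Cfsg.Agent.Lib.Helper54Spcsimple.simple_cases a b h with ⟨i, j, hij, rfl, rfl⟩ | ⟨L, _, rfl, rfl⟩
  · have hne : i ≠ j := fun e => by rw [e] at hij; omega
    exact Cfsg.Agent.Lib.Helper65Sphxd.X_mul_wX_short i j hne u hu
  · exact Cfsg.Agent.Lib.Helper65Sphxd.X_mul_wX_long L u hu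

theorem rank_one (a b : I m) (h : Simple a b) (t : F) (ht : t ≠ 0) :
    ∃ g ∈ BB m F, ∃ t' : F, (wX a b 1 : Sp m F) * X a b t = g * X b a t' := by
  have hu : -t ≠ 0 := neg_ne_zero.2 ht
  have h1 := X_mul_wX a b h (-t) hu
  have h2 := congrArg (fun z => z⁻¹) h1
  simp only [_root_.mul_inv_rev, Cfsg.Agent.Lib.Helper36SpTWire.X_inv, neg_neg] at h2
  -- h2 : w⁻¹ * X a b t = X a b (-t)⁻¹ * (hX a b t)⁻¹ * X b a (-(-t)⁻¹)
  refine ⟨(wX a b 1 * wX a b 1) * (X a b (-t)⁻¹ * (hX a b t)⁻¹), ?_, -(-t)⁻¹, ?_⟩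
  · refine (BB m F).mul_mem (TT_le_BB (sq_mem a b h)) ((BB m F).mul_mem
      (UU_le_BB (X_mem_UU a b (by have := h.1; omega) _))
      ((BB m F).inv_mem (TT_le_BB (hX_mem a b h t ht))))
  · have e : (wX a b 1 : Sp m F) * X a b t = (wX a b 1 * wX a b 1) * ((wX a b 1)⁻¹ * X a b t) := by
      group
    rw [e, h2]
    simp only [mul_assoc]

end Cfsg.Agent.Lib.H49SgC
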