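import Mathlib
import Cfsg.Agent.Lib.H49SgDefs
import Cfsg.Agent.Lib.H49SgInv
import Cfsg.Agent.Lib.H49SgMonB
import Cfsg.Agent.Lib.H49SgMem
import Cfsg.Agent.Lib.H49SgSN

set_option autoImplicit false

/-! Project 2545 (Steinberg character of `PSp_{2m}(F)`), piece `Lift` (15m).

`Subgroup.closure_induction`: generators by `Mon_wX`, `1` by `Mon_one`, products by `Mon_mul`, inverses by `Mon_inv`. -/

namespace Cfsg.Agent.Lib.H49SgLift

open Matrix Cfsg.Agent.Lib.Helper43Sp Cfsg.Agent.Lib.Helper52SpCut Cfsg.Agent.Lib.H49SgDefs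
open Cfsg.Agent.Lib.H49SgInv Cfsg.Agent.Lib.H49SgMonB Cfsg.Agent.Lib.H49SgMem Cfsg.Agent.Lib.H49SgSN

variable {m : ℕ} {F : Type*} [Field F]

theorem exists_lift (π : Equiv.Perm (I m)) (h : π ∈ CL m) :
    ∃ g ∈ Subgroup.closure (SS m F), Mon π g.1 := by
  unfold CL at h
  induction h using Subgroup.closure_induction with
  | mem x hx =>
    obtain ⟨a, b, hs, rfl⟩ := hx
    exact ⟨wX a b 1, Subgroup.subset_closure ⟨a, b, hs, rfl⟩, Mon_wX a b hs⟩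
  | one => exact ⟨1, Subgroup.one_mem _, Mon_one⟩
  | mul x y _ _ ihx ihy =>
    obtain ⟨g, hg, hg'⟩ := ihx
    obtain ⟨k, hk, hk'⟩ := ihy
    exact ⟨g * k, Subgroup.mul_mem _ hg hk, Mon_mul hg' hk'⟩
  | inv x _ ih =>
    obtain ⟨g, hg, hg'⟩ := ih
    exact ⟨g⁻¹, Subgroup.inv_mem _ hg, Mon_inv hg'⟩

end Cfsg.Agent.Lib.H49SgLift
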