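import Mathlib
import Cfsg.Agent.Lib.H49SgDefs

set_option autoImplicit false

/-! Project 2545 (Steinberg character of `PSp_{2m}(F)`), piece `W1`. -/

namespace Cfsg.Agent.Lib.H49SgW1

open Matrix Cfsg.Agent.Lib.Helper43Sp Cfsg.Agent.Lib.Helper52SpCut Cfsg.Agent.Lib.H49SgDefs

variable {m : ℕ} {F : Type*} [Field F]

theorem sw_inl (a b : Fin m) :
    sw (Sum.inl a) (Sum.inl b) = Equiv.sumCongr (Equiv.swap a b) (Equiv.swap a b) := by
  unfold sw
  rw [if_neg (by simp [ng])]
  have h1 : (Equiv.swap (Sum.inl a) (Sum.inl b) : Equiv.Perm (I m)) =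
      Equiv.Perm.sumCongr (Equiv.swap a b) (Equiv.refl _) := (Equiv.Perm.sumCongr_swap_refl a b).symm
  have h2 : (Equiv.swap (ng (Sum.inl a)) (ng (Sum.inl b)) : Equiv.Perm (I m)) =
      Equiv.Perm.sumCongr (Equiv.refl _) (Equiv.swap a b) := (Equiv.Perm.sumCongr_refl_swap a b).symm
  rw [h1, h2, Equiv.Perm.sumCongr_mul]
  rfl

theorem pm_mem (σ : Equiv.Perm (Fin m)) : (Equiv.sumCongr σ σ : Equiv.Perm (I m)) ∈ CL m := by
  rcases m with _ | n
  · have : σ = 1 := Subsingleton.elim _ _
    subst this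
    have : (Equiv.sumCongr (1 : Equiv.Perm (Fin 0)) (1 : Equiv.Perm (Fin 0)) : Equiv.Perm (I 0)) = 1 := by
      ext x; rcases x with x | x <;> rfl
    rw [this]
    exact Subgroup.one_mem _
  · have hσ : σ ∈ Submonoid.closure (Set.range fun i : Fin n => Equiv.swap i.castSucc i.succ) := by
      rw [Equiv.Perm.mclosure_swap_castSucc_succ]; trivial
    induction hσ using Submonoid.closure_induction with
    | mem x hx =>
      obtain ⟨i, rfl⟩ := hx
      apply Subgroup.subset_closure
      refine ⟨Sum.inl i.castSucc, Sum.inl i.succ, ⟨?_, ?_⟩, (sw_inl _ _).symm⟩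
      · simp [rk]
      · simp only [rk, Sum.elim_inl, Fin.val_castSucc]; omega
    | one =>
      have : (Equiv.sumCongr (1 : Equiv.Perm (Fin (n + 1))) (1 : Equiv.Perm (Fin (n + 1))) :
          Equiv.Perm (I (n + 1))) = 1 := by
        ext x; rcases x with x | x <;> rfl
      rw [this]
      exact Subgroup.one_mem _
    | mul x y _ _ hx hy =>
      have : (Equiv.sumCongr (x * y) (x * y) : Equiv.Perm (I (n + 1))) =
          Equiv.sumCongr x x * Equiv.sumCongr y y := by
        ext z; rcases z with z | z <;> rfl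
      rw [this]
      exact Subgroup.mul_mem _ hx hy

end Cfsg.Agent.Lib.H49SgW1
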