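import Mathlib
import Cfsg.Agent.Lib.H49SgDefs
import Cfsg.Agent.Lib.H49SgW1

set_option autoImplicit false

/-! Project 2545 (Steinberg character of `PSp_{2m}(F)`), piece `W2`. -/

namespace Cfsg.Agent.Lib.H49SgW2

open Matrix Cfsg.Agent.Lib.Helper43Sp Cfsg.Agent.Lib.Helper52SpCut Cfsg.Agent.Lib.H49SgDefs
open Cfsg.Agent.Lib.H49SgW1

variable {m : ℕ} {F : Type*} [Field F]

theorem flip_mem (i : Fin m) : (Equiv.swap (Sum.inl i) (Sum.inr i) : Equiv.Perm (I m)) ∈ CL m := by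
  have hm : 0 < m := Nat.lt_of_le_of_lt (Nat.zero_le _) i.2
  set L : Fin m := ⟨m - 1, by omega⟩ with hL
  have h1 : (Equiv.swap (Sum.inl L) (Sum.inr L) : Equiv.Perm (I m)) ∈ CL m := by
    apply Subgroup.subset_closure
    refine ⟨Sum.inl L, Sum.inr L, ⟨?_, ?_⟩, ?_⟩
    · simp only [rk, Sum.elim_inl, Sum.elim_inr, hL]; omega
    · simp only [rk, Sum.elim_inl, hL]; omega
    · unfold sw
      rw [if_pos (show (Sum.inr L : I m) = ng (Sum.inl L) from rfl)]
  set f : Equiv.Perm (I m) := Equiv.sumCongr (Equiv.swap i L) (Equiv.swap i L) with hf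
  have h2 : f ∈ CL m := pm_mem _
  have h3 := Equiv.swap_apply_apply f (Sum.inl L) (Sum.inr L)
  have e1 : f (Sum.inl L) = Sum.inl i := by simp [hf]
  have e2 : f (Sum.inr L) = Sum.inr i := by simp [hf]
  rw [e1, e2] at h3
  rw [h3]
  exact Subgroup.mul_mem _ (Subgroup.mul_mem _ h2 h1) (Subgroup.inv_mem _ h2)

end Cfsg.Agent.Lib.H49SgW2
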