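import Mathlib
import Cfsg.Agent.Lib.H49SgDefs
import Cfsg.Agent.Lib.H49SgW1
import Cfsg.Agent.Lib.H49SgW2

set_option autoImplicit false

/-! Project 2545 (Steinberg character of `PSp_{2m}(F)`), piece `W3`. -/

namespace Cfsg.Agent.Lib.H49SgW3

open Matrix Cfsg.Agent.Lib.Helper43Sp Cfsg.Agent.Lib.Helper52SpCut Cfsg.Agent.Lib.H49SgDefs
open Cfsg.Agent.Lib.H49SgW1 Cfsg.Agent.Lib.H49SgW2

variable {m : ℕ} {F : Type*} [Field F]

/-- the bad indices -/
def bad (π : Equiv.Perm (I m)) : Finset (Fin m) := Finset.univ.filter (fun i => (π (Sum.inl i)).isRight = true)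

theorem mem_bad (π : Equiv.Perm (I m)) (k : Fin m) :
    k ∈ bad π ↔ (π (Sum.inl k)).isRight = true := by
  simp [bad]

theorem swap_ng (i : Fin m) (a : I m) :
    Equiv.swap (Sum.inl i) (Sum.inr i) (ng a) = ng (Equiv.swap (Sum.inl i) (Sum.inr i) a) := by
  rcases a with a | a
  · by_cases h : a = i
    · subst h; simp [ng]
    · have h1 : (Sum.inl a : I m) ≠ Sum.inl i := fun e => h (Sum.inl.inj e)
      have h2 : (Sum.inr a : I m) ≠ Sum.inr i := fun e => h (Sum.inr.inj e)
      have e1 : ng (Sum.inl a : I m) = Sum.inr a := rfl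
      rw [e1, Equiv.swap_apply_of_ne_of_ne (by simp) h2, Equiv.swap_apply_of_ne_of_ne h1 (by simp), e1]
  · by_cases h : a = i
    · subst h; simp [ng]
    · have h1 : (Sum.inl a : I m) ≠ Sum.inl i := fun e => h (Sum.inl.inj e)
      have h2 : (Sum.inr a : I m) ≠ Sum.inr i := fun e => h (Sum.inr.inj e)
      have e1 : ng (Sum.inr a : I m) = Sum.inl a := rfl
      rw [e1, Equiv.swap_apply_of_ne_of_ne h1 (by simp), Equiv.swap_apply_of_ne_of_ne (by simp) h2, e1]

theorem perm_mem_aux : ∀ (n : ℕ) (π : Equiv.Perm (I m)), (bad π).card = n → (∀ a, π (ng a) = ng (π a)) →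
    π ∈ CL m := by
  intro n
  induction n using Nat.strong_induction_on with
  | _ n ih =>
    intro π hn h
    by_cases hb : bad π = ∅
    · -- no bad index
      have hmaps : Set.MapsTo π (Set.range (Sum.inl : Fin m → I m)) (Set.range Sum.inl) := by
        rintro _ ⟨i, rfl⟩
        have hi : i ∉ bad π := by rw [hb]; simp
        rw [mem_bad] at hi
        rcases hx : π (Sum.inl i) with j | j
        · exact ⟨j, rfl⟩
        · rw [hx] at hi; simp at hi
      obtain ⟨⟨σ1, σ2⟩, hσ⟩ := Equiv.Perm.mem_sumCongrHom_range_of_perm_mapsTo_inl hmaps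
      have e : σ2 = σ1 := by
        ext i
        have h1 := h (Sum.inl i)
        rw [← hσ] at h1
        have h2 : (Sum.inr (σ2 i) : I m) = Sum.inr (σ1 i) := h1
        exact congrArg Fin.val (Sum.inr.inj h2)
      subst e
      rw [← hσ]
      exact pm_mem σ2
    · obtain ⟨i, hi⟩ := Finset.nonempty_iff_ne_empty.2 hb
      set s : Equiv.Perm (I m) := Equiv.swap (Sum.inl i) (Sum.inr i) with hs
      have hi' : (π (Sum.inl i)).isRight = true := (mem_bad π i).1 hi
      have hcomm : ∀ a, (π * s) (ng a) = ng ((π * s) a) := by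
        intro a
        rw [Equiv.Perm.mul_apply, Equiv.Perm.mul_apply, hs, swap_ng, h]
      have hgood : i ∉ bad (π * s) := by
        rw [mem_bad, Equiv.Perm.mul_apply, hs, Equiv.swap_apply_left]
        have h1 := h (Sum.inl i)
        have e1 : ng (Sum.inl i : I m) = Sum.inr i := rfl
        rw [e1] at h1
        rw [h1]
        rcases hx : π (Sum.inl i) with j | j
        · rw [hx] at hi'; simp at hi'
        · simp [ng]
      have hsub : bad (π * s) ⊂ bad π := by
        rw [Finset.ssubset_iff_of_subset]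
        · exact ⟨i, hi, hgood⟩
        · intro k hk
          have hki : k ≠ i := fun e => hgood (e ▸ hk)
          rw [mem_bad] at hk ⊢
          rw [Equiv.Perm.mul_apply, hs,
            Equiv.swap_apply_of_ne_of_ne (fun e => hki (Sum.inl.inj e)) (by simp)] at hk
          exact hk
      have hlt := Finset.card_lt_card hsub
      have h1 := ih _ (hn ▸ hlt) (π * s) rfl hcomm
      have h2 : π = (π * s) * s := by
        rw [mul_assoc, hs, Equiv.swap_mul_self, mul_one]
      rw [h2]
      exact Subgroup.mul_mem _ h1 (flip_mem i)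

theorem perm_mem (π : Equiv.Perm (I m)) (h : ∀ a, π (ng a) = ng (π a)) : π ∈ CL m :=
  perm_mem_aux _ π rfl h

end Cfsg.Agent.Lib.H49SgW3
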