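import Mathlib
import Cfsg.Agent.Lib.H49SgDefs
import Cfsg.Agent.Lib.H49SgInv
import Cfsg.Agent.Lib.H49SgMonB
import Cfsg.Agent.Lib.H49SgMem
import Cfsg.Agent.Lib.H49SgTN
import Cfsg.Agent.Lib.H49SgBNT
import Cfsg.Agent.Lib.H49SgSN
import Cfsg.Agent.Lib.H49SgW3
import Cfsg.Agent.Lib.H49SgLift

set_option autoImplicit false

/-! Project 2545 (Steinberg character of `PSp_{2m}(F)`), piece `Cl` (25m).

`≤`: `SS_subset`, `inf_le_right`.  `≥`: for `n ∈ NN`, `Mon π n`, `π` commutes with `ng` (`Mon_ng`), so `π ∈ CL m` (`perm_mem`) and there is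
`g ∈ closure SS` with `Mon π g` (`exists_lift`); `g⁻¹ * n` is `Mon (π⁻¹ * π) = Mon 1`, so it lies in `TT = BB ⊓ NN` (`Mon_one_iff`, `BB_inf_NN`). -/

namespace Cfsg.Agent.Lib.H49SgCl

open Matrix Cfsg.Agent.Lib.Helper43Sp Cfsg.Agent.Lib.Helper52SpCut Cfsg.Agent.Lib.H49SgDefs
open Cfsg.Agent.Lib.H49SgInv Cfsg.Agent.Lib.H49SgMonB Cfsg.Agent.Lib.H49SgMem Cfsg.Agent.Lib.H49SgTN Cfsg.Agent.Lib.H49SgBNT Cfsg.Agent.Lib.H49SgSN Cfsg.Agent.Lib.H49SgW3 Cfsg.Agent.Lib.H49SgLift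

variable {m : ℕ} {F : Type*} [Field F]

theorem closure_sup : Subgroup.closure (SS m F) ⊔ (BB m F ⊓ NN m F) = NN m F := by
  apply le_antisymm
  · exact sup_le ((Subgroup.closure_le _).2 SS_subset) inf_le_right
  · intro n hn
    obtain ⟨π, hπ⟩ := mem_NN.1 hn
    have hCL : π ∈ CL m := perm_mem π (Mon_ng hπ)
    obtain ⟨g, hg, hgπ⟩ := exists_lift (F := F) π hCL
    have h1 : Mon (π⁻¹ * π) (g⁻¹ * n : Sp m F).1 := Mon_mul (Mon_inv hgπ) hπ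
    rw [inv_mul_cancel] at h1
    have h2 : g⁻¹ * n ∈ BB m F ⊓ NN m F := by
      rw [BB_inf_NN]; exact Mon_one_iff.1 h1
    have e : n = g * (g⁻¹ * n) := by group
    rw [e]
    exact Subgroup.mul_mem _ (Subgroup.mem_sup_left hg) (Subgroup.mem_sup_right h2)

end Cfsg.Agent.Lib.H49SgCl
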