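import Mathlib
import Cfsg.Agent.Lib.H49SgDefs
import Cfsg.Agent.Lib.H49SgInv
import Cfsg.Agent.Lib.H49SgMonB
import Cfsg.Agent.Lib.H49SgMem
import Cfsg.Agent.Lib.H49SgDiag
import Cfsg.Agent.Lib.H49SgDT
import Cfsg.Agent.Lib.Helper36SpDval

set_option autoImplicit false

/-! Project 2545 (Steinberg character of `PSp_{2m}(F)`), piece `Dec` (35m).

`t = D d` with `d i = Units.mk0 (g (inl i) (inl i)) _`; then `t a a = g a a` for all `a` (for `a = inr i`: `g (inr i) (inr i) = (g (inl i) (inl i))⁻¹` by `diag_inv` + `inv_apply`).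
`u = g * t⁻¹ ∈ BB` has diagonal entries `g a a * (t a a)⁻¹ = 1` (`diag_mul`, `diag_inv`), so `u ∈ UU` (`mem_UU`, `mem_BB`). -/

namespace Cfsg.Agent.Lib.H49SgDec

open Matrix Cfsg.Agent.Lib.Helper43Sp Cfsg.Agent.Lib.Helper52SpCut Cfsg.Agent.Lib.H49SgDefs
open Cfsg.Agent.Lib.H49SgInv Cfsg.Agent.Lib.H49SgMonB Cfsg.Agent.Lib.H49SgMem Cfsg.Agent.Lib.H49SgDiag Cfsg.Agent.Lib.H49SgDT

variable {m : ℕ} {F : Type*} [Field F]

theorem BB_decomp {g : Sp m F} (hg : g ∈ BB m F) : ∃ u ∈ UU m F, ∃ t ∈ TT m F, g = u * t := by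
  obtain ⟨d, hd⟩ : ∃ d : Fin m → Fˣ, d = fun i => Units.mk0 (g.1 (Sum.inl i) (Sum.inl i)) (diag_ne_zero hg _) :=
    ⟨_, rfl⟩
  have hT : (D d : Sp m F) ∈ TT m F := D_mem d
  have hTB := TT_le_BB hT
  have hdiag : ∀ a, (D d : Sp m F).1 a a = g.1 a a := by
    intro a
    have e : (D d : Sp m F).1 = Dm d := Cfsg.Agent.Lib.Helper36SpDval.D_val d
    rw [e]
    unfold Dm
    rw [Matrix.diagonal_apply_eq]
    rcases a with i | i
    · simp [chi, hd]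
    · have h1 := diag_inv hg (Sum.inl i)
      rw [inv_apply, sg_mul_self, one_mul] at h1
      have h2 : ng (Sum.inl i : I m) = Sum.inr i := rfl
      rw [h2] at h1
      rw [h1]
      simp [chi, hd]
  refine ⟨g * (D d)⁻¹, ?_, D d, hT, by group⟩
  have hB : g * (D d)⁻¹ ∈ BB m F := (BB m F).mul_mem hg ((BB m F).inv_mem hTB)
  rw [mem_UU]
  refine ⟨hB.1, ?_⟩
  intro a
  rw [diag_mul hg ((BB m F).inv_mem hTB), diag_inv hTB, hdiag]
  exact mul_inv_cancel₀ (diag_ne_zero hg a)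

end Cfsg.Agent.Lib.H49SgDec
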