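import Mathlib
import Cfsg.Agent.Lib.H49SgDefs

set_option autoImplicit false

/-! Project 2545 (Steinberg character of `PSp_{2m}(F)`), piece `G1`.

Generic (pure group theory).  The BN-pair axiom `s B n ⊆ B s n B ∪ B n B` from root subgroup data. -/

namespace Cfsg.Agent.Lib.H49SgG1

theorem mul_mem_union {G : Type*} [Group G] (B : Subgroup G) (s n : G) (X Y : Set G)
    (ha : ∀ b ∈ B, ∃ c ∈ B, ∃ x ∈ X, s * c * s⁻¹ ∈ B ∧ b = c * x)
    (hb : (∀ x ∈ X, n⁻¹ * x * n ∈ B) ∨ (∀ y ∈ Y, n⁻¹ * y * n ∈ B))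
    (hc : ∀ x ∈ X, x = 1 ∨ ∃ g ∈ B, ∃ y ∈ Y, s * x = g * y)
    (b : G) (hb' : b ∈ B) :
    s * b * n ∈ DoubleCoset.doubleCoset (s * n) (B : Set G) B ∪ DoubleCoset.doubleCoset n (B : Set G) B := by
  obtain ⟨c, hcB, x, hx, hs, rfl⟩ := ha b hb'
  rcases hb with hb | hb
  · left
    rw [DoubleCoset.mem_doubleCoset]
    refine ⟨s * c * s⁻¹, hs, n⁻¹ * x * n, hb x hx, ?_⟩
    group
  · rcases hc x hx with rfl | ⟨g, hg, y, hy, e⟩
    · left
      rw [DoubleCoset.mem_doubleCoset]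
      refine ⟨s * c * s⁻¹, hs, 1, B.one_mem, ?_⟩
      group
    · right
      rw [DoubleCoset.mem_doubleCoset]
      refine ⟨s * c * s⁻¹ * g, B.mul_mem hs hg, n⁻¹ * y * n, hb y hy, ?_⟩
      have : s * (c * x) * n = s * c * s⁻¹ * (s * x) * n := by group
      rw [this, e]
      group

end Cfsg.Agent.Lib.H49SgG1
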