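import Mathlib
import Cfsg.Agent.Lib.H49SgDefs
import Cfsg.Agent.Lib.Helper46BNApp

set_option autoImplicit false

/-! Project 2545 (Steinberg character of `PSp_{2m}(F)`), piece `G2a`.

Generic.  The Steinberg character of a finite group with a split BN-pair (after helper46's `Helper46SLn6.exists_St'`). -/

namespace Cfsg.Agent.Lib.H49SgG2a

open Cfsg Cfsg.Agent.Lib.Helper8BN Cfsg.Agent.Lib.Helper46Len Cfsg.Agent.Lib.Helper46BN
open Cfsg.Agent.Lib.Helper46BNSt Cfsg.Agent.Lib.Helper46BNIrr Cfsg.Agent.Lib.Helper46BNApp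

/-- the centre lies in `T` -/
theorem center_le {G : Type*} [Group G] [Finite G] (P : Cfsg.BNPair G) (T : Subgroup G) (m0 : G)
    (hT : ∀ β ∈ P.B, β ∈ T ↔ m0⁻¹ * β * m0 ∈ P.B) : Subgroup.center G ≤ T := by
  intro z hz
  have hzB : z ∈ P.B := by
    apply mem_of_conj (P := P) (le_refl _)
    intro b hb
    rw [← Subgroup.mem_center_iff.1 hz b, mul_inv_cancel_right]
    exact hb
  rw [hT z hzB, mul_assoc, ← Subgroup.mem_center_iff.1 hz m0, inv_mul_cancel_left]
  exact hzB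

theorem card_quot {G : Type*} [Group G] (B U T : Subgroup G) (hUB : U ≤ B)
    (hdec : ∀ b ∈ B, ∃ u ∈ U, ∃ t ∈ T, b = u * t)
    (hUT : ∀ g, g ∈ U → g ∈ T → g = 1) :
    Nat.card (B ⧸ T.subgroupOf B) = Nat.card U := by
  symm
  apply Nat.card_congr
  refine Equiv.ofBijective (fun u => QuotientGroup.mk ⟨u.1, hUB u.2⟩) ⟨?_, ?_⟩
  · intro u u' h
    rw [QuotientGroup.eq] at h
    have h1 : u.1⁻¹ * u'.1 ∈ T := h
    have h2 := hUT _ (U.mul_mem (U.inv_mem u.2) u'.2) h1
    rw [inv_mul_eq_one] at h2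
    exact Subtype.ext h2
  · intro z
    induction z using QuotientGroup.induction_on with
    | H β =>
      obtain ⟨u, hu, t, ht, e⟩ := hdec β.1 β.2
      refine ⟨⟨u, hu⟩, ?_⟩
      rw [QuotientGroup.eq]
      change u⁻¹ * β.1 ∈ T
      rw [e, inv_mul_cancel_left]
      exact ht

theorem exists_St {G : Type*} [Group G] [Finite G] (P : Cfsg.BNPair G) (U T : Subgroup G) (m0 : G)
    (hm0 : m0 ∈ P.N) (hTN : T ≤ P.N) (hTB : T ≤ P.B)
    (hT : ∀ β ∈ P.B, β ∈ T ↔ m0⁻¹ * β * m0 ∈ P.B)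
    (hUB : U ≤ P.B) (hnorm : ∀ b ∈ P.B, ∀ u ∈ U, b * u * b⁻¹ ∈ U)
    (hdec : ∀ b ∈ P.B, ∃ u ∈ U, ∃ t ∈ T, b = u * t)
    (hUT : ∀ g, g ∈ U → g ∈ T → g = 1) :
    ∃ χ : G → ℂ, Cfsg.IsIrrCharacter G χ ∧ χ 1 = (Nat.card U : ℂ) ∧ (∀ u ∈ U, u ≠ 1 → χ u = 0) ∧
      ∀ z ∈ Subgroup.center G, χ z = χ 1 := by
  classical
  have : Fintype G := Fintype.ofFinite _
  set Sf : Finset (Wg P) := (Set.toFinite (SW P)).toFinset with hSf
  have hSf' : (Sf : Set (Wg P)) = SW P := Set.Finite.coe_toFinset _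
  have hres : ∀ b : P.B, St P Sf b.1 = Cfsg.fixedPointCharacter (T.subgroupOf P.B) b := by
    intro b
    refine St_restrict P Sf hSf' (T.subgroupOf P.B) (m0 := m0) hm0 ?_ ?_ b
    · intro β
      exact hT β.1 β.2
    · intro β hβ
      exact hTN hβ
  have hcq := card_quot P.B U T hUB hdec hUT
  have hone : St P Sf 1 = (Nat.card U : ℂ) := by
    have := hres 1
    rw [Subgroup.coe_one] at this
    rw [this, ← hcq]
    unfold Cfsg.fixedPointCharacter
    rw [MulAction.fixedBy_one_eq_univ]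
    congr 1
    exact Nat.card_congr (Equiv.Set.univ _)
  refine ⟨St P Sf, St_irr P Sf hSf', hone, ?_, ?_⟩
  · intro u hu hne
    have := hres ⟨u, hUB hu⟩
    rw [this]
    unfold Cfsg.fixedPointCharacter
    have hempty : IsEmpty (MulAction.fixedBy (P.B ⧸ T.subgroupOf P.B) (⟨u, hUB hu⟩ : P.B)) := by
      constructor
      rintro ⟨z, hz⟩
      induction z using QuotientGroup.induction_on with
      | H β =>
        rw [MulAction.mem_fixedBy] at hz
        change (((⟨u, hUB hu⟩ : P.B) * β : P.B) : P.B ⧸ T.subgroupOf P.B) = _ at hz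
        rw [eq_comm, QuotientGroup.eq] at hz
        have h1 : β.1⁻¹ * (u * β.1) ∈ T := hz
        have h2 : β.1⁻¹ * u * β.1⁻¹⁻¹ ∈ U := hnorm _ (P.B.inv_mem β.2) u hu
        rw [inv_inv] at h2
        rw [← mul_assoc] at h1
        have h3 := hUT _ h2 h1
        apply hne
        have : u = β.1 * (β.1⁻¹ * u * β.1) * β.1⁻¹ := by group
        rw [this, h3]; group
    rw [@Nat.card_of_isEmpty _ hempty, Nat.cast_zero]
  · intro z hz
    have hzT := center_le P T m0 hT hz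
    have := hres ⟨z, hTB hzT⟩
    rw [hone, this, ← hcq]
    unfold Cfsg.fixedPointCharacter
    have huniv : MulAction.fixedBy (P.B ⧸ T.subgroupOf P.B) (⟨z, hTB hzT⟩ : P.B) = Set.univ := by
      ext y
      simp only [Set.mem_univ, iff_true]
      induction y using QuotientGroup.induction_on with
      | H β =>
        rw [MulAction.mem_fixedBy]
        change (((⟨z, hTB hzT⟩ : P.B) * β : P.B) : P.B ⧸ T.subgroupOf P.B) = _
        rw [eq_comm, QuotientGroup.eq]
        change β.1⁻¹ * (z * β.1) ∈ T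
        rw [← Subgroup.mem_center_iff.1 hz β.1, inv_mul_cancel_left]
        exact hzT
    rw [huniv]
    congr 1
    exact Nat.card_congr (Equiv.Set.univ _)

end Cfsg.Agent.Lib.H49SgG2a
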