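import Mathlib
import Cfsg.Agent.Lib.H49SgDefs
import Cfsg.Agent.Lib.H49SgG2a
import Cfsg.Agent.Lib.Helper46BNApp

set_option autoImplicit false

/-! Project 2545 (Steinberg character of `PSp_{2m}(F)`), piece `G2c`.

Generic.  `U` is a Sylow `p`-subgroup (after helper46's `Helper46ChevSt.not_dvd_index`). -/

namespace Cfsg.Agent.Lib.H49SgG2c

open Cfsg.Agent.Lib.Helper46BNApp

theorem not_dvd_index {G : Type*} [Group G] [Finite G] (P : Cfsg.BNPair G) (U T : Subgroup G)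
    (hTN : T ≤ P.N) (hTB : T ≤ P.B)
    (hUB : U ≤ P.B) (hnorm : ∀ b ∈ P.B, ∀ u ∈ U, b * u * b⁻¹ ∈ U)
    (hdec : ∀ b ∈ P.B, ∃ u ∈ U, ∃ t ∈ T, b = u * t)
    (hUT : ∀ g, g ∈ U → g ∈ T → g = 1)
    (p : ℕ) [Fact p.Prime] (hU : IsPGroup p U) (hTp : ¬ p ∣ Nat.card T) : ¬ p ∣ U.index := by
  have hp := (Fact.out : p.Prime)
  have hcb : Nat.card P.B = Nat.card U * Nat.card T := by
    rw [Subgroup.card_eq_card_quotient_mul_card_subgroup (T.subgroupOf P.B),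
      H49SgG2a.card_quot P.B U T hUB hdec hUT,
      Nat.card_congr (Subgroup.subgroupOfEquivOfLe hTB).toEquiv]
  have h1 := Subgroup.card_mul_index U
  have h2 := Subgroup.card_eq_card_quotient_mul_card_subgroup P.B
  rw [hcb] at h2
  rw [h2] at h1
  have hpos : 0 < Nat.card U := Nat.card_pos
  have h3 : U.index = Nat.card (G ⧸ P.B) * Nat.card T := by
    apply Nat.eq_of_mul_eq_mul_left hpos
    rw [h1]; ring
  rw [h3, hp.dvd_mul]
  rintro (h | h)
  · have h4 : Nat.card (G ⧸ P.B) ≡ 1 [MOD p] := by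
      apply card_quot_modEq P p U hU hUB hnorm
      intro b hb
      obtain ⟨u, hu, t, ht, e⟩ := hdec b hb
      exact ⟨u, hu, t, ⟨hTB ht, hTN ht⟩, e⟩
    have h5 : Nat.card (G ⧸ P.B) ≡ 0 [MOD p] := (Nat.modEq_zero_iff_dvd).2 h
    have h6 : 1 ≡ 0 [MOD p] := h4.symm.trans h5
    have h7 := (Nat.modEq_zero_iff_dvd).1 h6
    exact hp.one_lt.ne' (Nat.dvd_one.1 h7)
  · exact hTp h

end Cfsg.Agent.Lib.H49SgG2c
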