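import Mathlib
import Cfsg.Agent.Lib.H49SgDefs
import Cfsg.Agent.Lib.Helper82Quot
import Cfsg.Agent.Lib.Helper83Char

set_option autoImplicit false

/-! Project 2545 (Steinberg character of `PSp_{2m}(F)`), piece `G2d`.

Generic.  Descent of the Steinberg character to `G / Z(G)` (after helper46's `Helper46SLn6.steinberg_PSL`). -/

namespace Cfsg.Agent.Lib.H49SgG2d

theorem descend {G : Type*} [Group G] [Finite G] (p : ℕ) [Fact p.Prime] (U : Subgroup G) (hU : IsPGroup p U)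
    (hidx : ¬ p ∣ U.index) (hUZ : ∀ g ∈ U, g ∈ Subgroup.center G → g = 1)
    (χ : G → ℂ) (hχ : Cfsg.IsIrrCharacter G χ) (h1 : χ 1 = (Nat.card U : ℂ))
    (hv : ∀ u ∈ U, u ≠ 1 → χ u = 0) (hZ : ∀ z ∈ Subgroup.center G, χ z = χ 1) :
    ∃ ψ : G ⧸ Subgroup.center G → ℂ, Cfsg.IsIrrCharacter (G ⧸ Subgroup.center G) ψ ∧
      ∀ Q : Sylow p (G ⧸ Subgroup.center G), ψ 1 = Nat.card Q ∧
        ∀ x : G ⧸ Subgroup.center G, x ∈ Q → x ≠ 1 → ψ x = 0 := by
  classical
  obtain ⟨ψ, hψ⟩ := Cfsg.Agent.Lib.Helper82Quot.exists_deflate (Subgroup.center G) ⟨χ, hχ⟩ hZ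
  have hψ' : ∀ g : G, (ψ : G ⧸ Subgroup.center G → ℂ) (QuotientGroup.mk g) = χ g := by
    intro g
    exact congrFun (congrArg Subtype.val hψ) g
  set P0 : Sylow p G := hU.toSylow hidx with hP0def
  have hP0 : (P0 : Subgroup G) = U := rfl
  refine ⟨ψ.1, ψ.2, ?_⟩
  intro P
  have hsurj : Function.Surjective (QuotientGroup.mk' (Subgroup.center G)) :=
    QuotientGroup.mk'_surjective _
  obtain ⟨Q, rfl⟩ := Sylow.mapSurjective_surjective hsurj p P
  obtain ⟨g, rfl⟩ := MulAction.exists_smul_eq G P0 Q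
  have hmem : ∀ y, y ∈ g • P0 ↔ g⁻¹ * y * g ∈ U := by
    intro y
    change y ∈ ((g • P0 : Sylow p _) : Subgroup _) ↔ _
    rw [Sylow.coe_subgroup_smul, Subgroup.mem_pointwise_smul_iff_inv_smul_mem, hP0]
    simp [MulAut.smul_def, MulAut.conj_apply]
  have hcl := Cfsg.Agent.Lib.Helper83Char.irr_class hχ
  constructor
  · have e1 : (ψ : G ⧸ Subgroup.center G → ℂ) 1 = χ 1 := hψ' 1
    rw [e1, h1]
    congr 1
    have e2 : Nat.card U = Nat.card (g • P0 : Sylow p _) := by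
      rw [← hP0]
      exact Nat.card_congr (Sylow.equiv P0 (g • P0)).toEquiv
    rw [e2]
    apply Nat.card_congr
    refine Equiv.ofBijective (fun y => ⟨QuotientGroup.mk' _ y.1, ?_⟩) ⟨?_, ?_⟩
    · change _ ∈ (((g • P0 : Sylow p _).mapSurjective hsurj : Sylow p _) : Subgroup (G ⧸ Subgroup.center G))
      rw [Sylow.coe_mapSurjective]
      exact Subgroup.mem_map_of_mem _ y.2
    · intro y y' h
      have h2 : (QuotientGroup.mk y.1 : G ⧸ Subgroup.center G) = QuotientGroup.mk y'.1 :=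
        congrArg Subtype.val h
      rw [QuotientGroup.eq] at h2
      have h3 : g⁻¹ * (y.1⁻¹ * y'.1) * g ∈ U :=
        (hmem _).1 ((g • P0).mul_mem ((g • P0).inv_mem y.2) y'.2)
      have h4 : g⁻¹ * (y.1⁻¹ * y'.1) * g = y.1⁻¹ * y'.1 := by
        rw [mul_assoc, ← Subgroup.mem_center_iff.1 h2 g, inv_mul_cancel_left]
      rw [h4] at h3
      have h5 := hUZ _ h3 h2
      rw [inv_mul_eq_one] at h5
      exact Subtype.ext h5
    · rintro ⟨x, hx⟩
      change _ ∈ (((g • P0 : Sylow p _).mapSurjective hsurj : Sylow p _) : Subgroup (G ⧸ Subgroup.center G)) at hx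
      rw [Sylow.coe_mapSurjective] at hx
      obtain ⟨y, hy, rfl⟩ := hx
      exact ⟨⟨y, hy⟩, rfl⟩
  · intro x hx hne
    change _ ∈ (((g • P0 : Sylow p _).mapSurjective hsurj : Sylow p _) : Subgroup (G ⧸ Subgroup.center G)) at hx
    rw [Sylow.coe_mapSurjective] at hx
    obtain ⟨y, hy, rfl⟩ := hx
    have hy' := (hmem y).1 hy
    have e1 : (ψ : G ⧸ Subgroup.center G → ℂ) (QuotientGroup.mk' _ y) = χ y := hψ' y
    rw [e1]
    have e2 : χ y = χ (g⁻¹ * y * g) := by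
      have := hcl y g⁻¹
      rw [inv_inv] at this
      exact this.symm
    rw [e2]
    apply hv _ hy'
    intro h
    apply hne
    have : y = 1 := by
      have : y = g * (g⁻¹ * y * g) * g⁻¹ := by group
      rw [this, h]; group
    rw [this, map_one]

end Cfsg.Agent.Lib.H49SgG2d
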