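import Mathlib
import Cfsg.Agent.Lib.H49SgG1
import Cfsg.Agent.Lib.H49SgG2a
import Cfsg.Agent.Lib.H49SgG2c
import Cfsg.Agent.Lib.H49SgG2d

set_option autoImplicit false

/-! Generic: the Steinberg character of `G / Z(G)` for a finite group with a split BN-pair of characteristic `p`. -/

namespace Cfsg.Agent.Lib.H49SgGen

theorem steinberg_of_bn {G : Type*} [Group G] [Finite G] (P : Cfsg.BNPair G) (U T : Subgroup G) (m0 : G)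
    (hm0 : m0 ∈ P.N) (hTN : T ≤ P.N) (hTB : T ≤ P.B)
    (hT : ∀ β ∈ P.B, β ∈ T ↔ m0⁻¹ * β * m0 ∈ P.B)
    (hUB : U ≤ P.B) (hnorm : ∀ b ∈ P.B, ∀ u ∈ U, b * u * b⁻¹ ∈ U)
    (hdec : ∀ b ∈ P.B, ∃ u ∈ U, ∃ t ∈ T, b = u * t)
    (hUT : ∀ g, g ∈ U → g ∈ T → g = 1)
    (p : ℕ) [Fact p.Prime] (hU : IsPGroup p U) (hTp : ¬ p ∣ Nat.card T) :
    ∃ ψ : G ⧸ Subgroup.center G → ℂ, Cfsg.IsIrrCharacter (G ⧸ Subgroup.center G) ψ ∧
      ∀ Q : Sylow p (G ⧸ Subgroup.center G), ψ 1 = Nat.card Q ∧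
        ∀ x : G ⧸ Subgroup.center G, x ∈ Q → x ≠ 1 → ψ x = 0 := by
  obtain ⟨χ, hχ, h1, hv, hZ⟩ := H49SgG2a.exists_St P U T m0 hm0 hTN hTB hT hUB hnorm hdec hUT
  have hidx := H49SgG2c.not_dvd_index P U T hTN hTB hUB hnorm hdec hUT p hU hTp
  have hc := H49SgG2a.center_le P T m0 hT
  exact H49SgG2d.descend p U hU hidx (fun g hg hz => hUT g hg (hc hz)) χ hχ h1 hv hZ

end Cfsg.Agent.Lib.H49SgGen
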