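import Mathlib
import Cfsg.Agent.Lib.H49SgDefs
import Cfsg.Agent.Lib.H49SgInv
import Cfsg.Agent.Lib.H49SgMonB
import Cfsg.Agent.Lib.H49SgMem
import Cfsg.Agent.Lib.H49SgTN
import Cfsg.Agent.Lib.H49SgBNT
import Cfsg.Agent.Lib.H49SgSN
import Cfsg.Agent.Lib.Helper54Spcsimple

set_option autoImplicit false

/-! Project 2545 (Steinberg character of `PSp_{2m}(F)`), piece `Inj` (35m).

`s⁻¹ s'` lies in `BB ⊓ NN = TT`, so it is `Mon 1`; it is also `Mon ((sw a b)⁻¹ * sw a' b')` (`Mon_inv`, `Mon_mul`, `Mon_wX`), so by `Mon_uniq`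
`sw a b = sw a' b'`.  Evaluate at `a`: `sw a b a = b`; with `simple_cases` for both pairs conclude `a = a'`, `b = b'`. -/

namespace Cfsg.Agent.Lib.H49SgInj

open Matrix Cfsg.Agent.Lib.Helper43Sp Cfsg.Agent.Lib.Helper52SpCut Cfsg.Agent.Lib.H49SgDefs
open Cfsg.Agent.Lib.H49SgInv Cfsg.Agent.Lib.H49SgMonB Cfsg.Agent.Lib.H49SgMem Cfsg.Agent.Lib.H49SgTN Cfsg.Agent.Lib.H49SgBNT Cfsg.Agent.Lib.H49SgSN

variable {m : ℕ} {F : Type*} [Field F]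

theorem inj (a b a' b' : I m) (h : Simple a b) (h' : Simple a' b')
    (hB : (wX a b 1 : Sp m F)⁻¹ * wX a' b' 1 ∈ BB m F) : a = a' ∧ b = b' := by
  have hN : (wX a b 1 : Sp m F)⁻¹ * wX a' b' 1 ∈ NN m F :=
    (NN m F).mul_mem ((NN m F).inv_mem (SS_subset ⟨a, b, h, rfl⟩)) (SS_subset ⟨a', b', h', rfl⟩)
  have hT : (wX a b 1 : Sp m F)⁻¹ * wX a' b' 1 ∈ TT m F := by
    rw [← BB_inf_NN]; exact ⟨hB, hN⟩
  have h1 := Mon_one_iff.2 hT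
  have h2 : Mon ((sw a b)⁻¹ * sw a' b') ((wX a b 1 : Sp m F)⁻¹ * wX a' b' 1 : Sp m F).1 :=
    Mon_mul (Mon_inv (Mon_wX a b h)) (Mon_wX a' b' h')
  have h3 : (sw a b)⁻¹ * sw a' b' = 1 := Mon_uniq h2 h1
  have h4 : sw a' b' = sw a b := by
    rw [inv_mul_eq_one] at h3; exact h3.symm
  have h5 := Cfsg.Agent.Lib.H49SgSN.rk_sw a b h a
  have h6 := Cfsg.Agent.Lib.H49SgSN.rk_sw a' b' h' a
  rw [h4] at h6
  rw [h5, if_pos rfl] at h6
  have hb := h.1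
  have hm := h.2
  have hb' := h'.1
  have hm' := h'.2
  have h7 : rk a = rk a' := by
    split_ifs at h6 <;> omega
  have e1 : a = a' := rk_inj h7
  exact ⟨e1, rk_inj (by rw [hb, hb', h7])⟩

end Cfsg.Agent.Lib.H49SgInj
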