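import Mathlib
import Cfsg.Agent.Lib.H49SgDefs
import Cfsg.Agent.Lib.H49SgInv
import Cfsg.Agent.Lib.H49SgMonB
import Cfsg.Agent.Lib.H49SgMem
import Cfsg.Agent.Lib.Helper77SpCxval

set_option autoImplicit false

/-! Project 2545 (Steinberg character of `PSp_{2m}(F)`), piece `M0`. -/

namespace Cfsg.Agent.Lib.H49SgM0

open Matrix Cfsg.Agent.Lib.Helper43Sp Cfsg.Agent.Lib.Helper52SpCut Cfsg.Agent.Lib.H49SgDefs
open Cfsg.Agent.Lib.H49SgInv Cfsg.Agent.Lib.H49SgMonB Cfsg.Agent.Lib.H49SgMem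

variable {m : ℕ} {F : Type*} [Field F]

theorem Mon_m0 : Mon (ngP m) (m0 m F).1 := by
  intro a b
  have e : (m0 m F).1 a b = if b = ng a then - sg F a else 0 :=
    Cfsg.Agent.Lib.Helper77SpCxval.J_apply a b
  rw [e, ngP_apply]
  constructor
  · intro h
    by_cases hb : b = ng a
    · rw [hb, ng_ng']
    · rw [if_neg hb] at h; exact absurd rfl h
  · intro h
    rw [if_pos (by rw [h, ng_ng'])]
    exact neg_ne_zero.2 (sg_ne_zero a)

theorem m0_mem : m0 m F ∈ NN m F := mem_NN.2 ⟨ngP m, Mon_m0⟩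

end Cfsg.Agent.Lib.H49SgM0
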