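import Mathlib
import Cfsg.Agent.Lib.H49SgDefs
import Cfsg.Agent.Lib.H49SgInv
import Cfsg.Agent.Lib.H49SgMonB
import Cfsg.Agent.Lib.H49SgMem

set_option autoImplicit false

/-! Project 2545 (Steinberg character of `PSp_{2m}(F)`), piece `NT` (10m).

`mem_TT`, `mem_NN`, `conj_zero` (write the two indices as `π (π⁻¹ a)`, `π (π⁻¹ b)`). -/

namespace Cfsg.Agent.Lib.H49SgNT

open Matrix Cfsg.Agent.Lib.Helper43Sp Cfsg.Agent.Lib.Helper52SpCut Cfsg.Agent.Lib.H49SgDefs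
open Cfsg.Agent.Lib.H49SgInv Cfsg.Agent.Lib.H49SgMonB Cfsg.Agent.Lib.H49SgMem

variable {m : ℕ} {F : Type*} [Field F]

theorem NN_conj_TT {n t : Sp m F} (hn : n ∈ NN m F) (ht : t ∈ TT m F) : n * t * n⁻¹ ∈ TT m F := by
  obtain ⟨π, hπ⟩ := mem_NN.1 hn
  rw [mem_TT]
  intro a b hab
  have h1 := (conj_zero hπ t (π⁻¹ a) (π⁻¹ b)).2
    (ht.1 _ _ (fun e => hab (π⁻¹.injective e)))
  rwa [perm_apply_inv, perm_apply_inv] at h1

end Cfsg.Agent.Lib.H49SgNT
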