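import Mathlib
import Cfsg.Agent.Lib.H49SgDefs
import Cfsg.Agent.Lib.H49SgInv
import Cfsg.Agent.Lib.H49SgMonB
import Cfsg.Agent.Lib.H49SgMem
import Cfsg.Agent.Lib.H49SgSN
import Cfsg.Agent.Lib.H49SgSq
import Cfsg.Agent.Lib.Helper36SpTWire

set_option autoImplicit false

/-! Project 2545 (Steinberg character of `PSp_{2m}(F)`), piece `Ne` (25m).

If `w x w ∈ BB` (`w = wX a b 1`, `x = X a b 1`) then `w x w⁻¹ = (w x w) (w w)⁻¹ ∈ BB` (`sq_mem`, `TT_le_BB`).  But by `conj_zero (Mon_wX a b h)` the entry of `w x w⁻¹` at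
`(sw a b a, sw a b b) = (b, a)` is non zero, since `x a b = 1` (`X_val`, `Xm`), and `rk a < rk b`: contradiction with `mem_BB`. -/

namespace Cfsg.Agent.Lib.H49SgNe

open Matrix Cfsg.Agent.Lib.Helper43Sp Cfsg.Agent.Lib.Helper52SpCut Cfsg.Agent.Lib.H49SgDefs
open Cfsg.Agent.Lib.H49SgInv Cfsg.Agent.Lib.H49SgMonB Cfsg.Agent.Lib.H49SgMem Cfsg.Agent.Lib.H49SgSN Cfsg.Agent.Lib.H49SgSq

variable {m : ℕ} {F : Type*} [Field F]

theorem conj_not_mem (a b : I m) (h : Simple a b) :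
    (wX a b 1 : Sp m F) * X a b 1 * wX a b 1 ∉ BB m F := by
  intro hB
  have hab := Cfsg.Agent.Lib.H49SgSN.Simple.ne h
  have h1 : (wX a b 1 : Sp m F) * X a b 1 * (wX a b 1)⁻¹ ∈ BB m F := by
    have e : (wX a b 1 : Sp m F) * X a b 1 * (wX a b 1)⁻¹ =
        (wX a b 1 * X a b 1 * wX a b 1) * (wX a b 1 * wX a b 1)⁻¹ := by group
    rw [e]
    exact (BB m F).mul_mem hB ((BB m F).inv_mem (TT_le_BB (sq_mem a b h)))
  have h2 := conj_zero (Mon_wX (F := F) a b h) (X a b 1) a b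
  rw [Cfsg.Agent.Lib.H49SgSN.sw_left a b hab, Cfsg.Agent.Lib.H49SgSN.sw_right a b hab] at h2
  have h3 : (X a b 1 : Sp m F).1 a b = 0 := h2.1 (h1.1 b a (by have := h.1; omega))
  have e : (X a b 1 : Sp m F).1 = Xm a b 1 := Cfsg.Agent.Lib.Helper36SpTWire.X_val a b hab 1
  rw [e, Cfsg.Agent.Lib.Helper84SpXval.Xm_eq, Matrix.sub_apply, Matrix.add_apply,
    Matrix.one_apply_ne hab, Matrix.single_apply_same, Matrix.single_apply] at h3
  by_cases hb : b = ng a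
  · rw [if_pos hb] at h3
    simp at h3
  · rw [if_neg (fun hh => hb hh.2.symm)] at h3
    simp at h3

end Cfsg.Agent.Lib.H49SgNe
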