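import Mathlib
import Cfsg.Agent.Lib.H49SgDefs
import Cfsg.Agent.Lib.H49SgInv
import Cfsg.Agent.Lib.H49SgMonB
import Cfsg.Agent.Lib.H49SgMem
import Cfsg.Agent.Lib.H49SgDiag

set_option autoImplicit false

/-! Project 2545 (Steinberg character of `PSp_{2m}(F)`), piece `Nor` (15m).

`b u b⁻¹ ∈ BB` and its diagonal entries are `b a a * 1 * (b a a)⁻¹ = 1` (`diag_mul`, `diag_inv`, `diag_ne_zero`); `mem_UU`, `mem_BB`. -/

namespace Cfsg.Agent.Lib.H49SgNor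

open Matrix Cfsg.Agent.Lib.Helper43Sp Cfsg.Agent.Lib.Helper52SpCut Cfsg.Agent.Lib.H49SgDefs
open Cfsg.Agent.Lib.H49SgInv Cfsg.Agent.Lib.H49SgMonB Cfsg.Agent.Lib.H49SgMem Cfsg.Agent.Lib.H49SgDiag

variable {m : ℕ} {F : Type*} [Field F]

theorem BB_conj_UU {b u : Sp m F} (hb : b ∈ BB m F) (hu : u ∈ UU m F) : b * u * b⁻¹ ∈ UU m F := by
  have hu' : u ∈ BB m F := UU_le_BB hu
  have h1 : b * u * b⁻¹ ∈ BB m F := (BB m F).mul_mem ((BB m F).mul_mem hb hu') ((BB m F).inv_mem hb)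
  rw [mem_UU]
  refine ⟨h1.1, ?_⟩
  intro a
  rw [diag_mul ((BB m F).mul_mem hb hu') ((BB m F).inv_mem hb), diag_mul hb hu', hu.1.2 a, mul_one,
    diag_inv hb]
  exact mul_inv_cancel₀ (diag_ne_zero hb a)

theorem UU_inf_TT {g : Sp m F} (hU : g ∈ UU m F) (hT : g ∈ TT m F) : g = 1 := by
  apply Subtype.ext
  ext a b
  have e : (1 : Sp m F).1 = (1 : Matrix (I m) (I m) F) := rfl
  rw [e]
  by_cases h : a = b
  · subst h
    rw [hU.1.2 a, Matrix.one_apply_eq]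
  · rw [hT.1 a b h, Matrix.one_apply_ne h]

end Cfsg.Agent.Lib.H49SgNor
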