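import Mathlib
import Cfsg.Agent.Lib.H49SgDefs
import Cfsg.Agent.Lib.H49SgInv
import Cfsg.Agent.Lib.H49SgMonB
import Cfsg.Agent.Lib.H49SgMem

set_option autoImplicit false

/-! Project 2545 (Steinberg character of `PSp_{2m}(F)`), piece `PG` (45m).

`UU` is a `p`-group.  For `u ∈ UU`, `N = u.1 - 1` is strictly upper triangular (`N a b = 0` unless `rk a < rk b`), so by induction `(N ^ k) a b = 0` unless `rk a + k ≤ rk b`, and
`N ^ (2 * m) = 0` (`rk_lt`).  In characteristic `p` (`CharP (Matrix _ _ F) p`, `m ≥ 1`; or `add_pow_char_pow_of_commute`/`sub_pow_char_pow_of_commute`), `u.1 ^ (p ^ k) - 1 = N ^ (p ^ k) = 0` as soon as `2 * m ≤ p ^ k`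
(`Nat.lt_pow_self`).  `IsPGroup p G` unfolds to `∀ g, ∃ k, g ^ p ^ k = 1`. -/

namespace Cfsg.Agent.Lib.H49SgPG

open Matrix Cfsg.Agent.Lib.Helper43Sp Cfsg.Agent.Lib.Helper52SpCut Cfsg.Agent.Lib.H49SgDefs
open Cfsg.Agent.Lib.H49SgInv Cfsg.Agent.Lib.H49SgMonB Cfsg.Agent.Lib.H49SgMem

variable {m : ℕ} {F : Type*} [Field F]

theorem nil_pow {N : Matrix (I m) (I m) F} (hN : ∀ a b, rk b ≤ rk a → N a b = 0) (k : ℕ) :
    ∀ a b, rk b < rk a + k → (N ^ k) a b = 0 := by
  induction k with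
  | zero =>
    intro a b hab
    rw [pow_zero]
    exact Matrix.one_apply_ne (fun e => by rw [e] at hab; omega)
  | succ k ih =>
    intro a b hab
    rw [pow_succ, Matrix.mul_apply]
    apply Finset.sum_eq_zero
    intro c _
    rcases Nat.lt_or_ge (rk c) (rk a + k) with h | h
    · rw [ih a c h, zero_mul]
    · rw [hN c b (by omega), mul_zero]

theorem isPGroup_UU (p : ℕ) [Fact p.Prime] [CharP F p] : IsPGroup p (UU m F) := by
  rintro ⟨u, hu⟩
  refine ⟨2 * m, ?_⟩
  apply Subtype.ext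
  apply Subtype.ext
  rw [Subgroup.coe_pow, Subgroup.coe_one]
  show (u ^ p ^ (2 * m) : Sp m F).1 = (1 : Matrix (I m) (I m) F)
  have e0 : (u ^ p ^ (2 * m) : Sp m F).1 = u.1 ^ p ^ (2 * m) := SubmonoidClass.coe_pow u _
  rw [e0]
  rcases isEmpty_or_nonempty (I m) with hI | hI
  · exact Subsingleton.elim _ _
  · have hN : ∀ a b, rk b ≤ rk a → (u.1 - 1 : Matrix (I m) (I m) F) a b = 0 := by
      intro a b hab
      rw [Matrix.sub_apply]
      rcases Nat.lt_or_ge (rk b) (rk a) with h | h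
      · rw [hu.1.1 a b h, Matrix.one_apply_ne (fun e => by rw [e] at h; omega), sub_zero]
      · have : a = b := rk_inj (le_antisymm h hab)
        subst this
        rw [hu.1.2 a, Matrix.one_apply_eq, sub_self]
    have hz : (u.1 - 1 : Matrix (I m) (I m) F) ^ p ^ (2 * m) = 0 := by
      ext a b
      rw [Matrix.zero_apply]
      apply nil_pow hN
      have h1 := rk_lt b
      have h2 : 2 * m < p ^ (2 * m) := Nat.lt_pow_self (Fact.out : p.Prime).one_lt
      omega
    have e1 : u.1 = (u.1 - 1) + 1 := by rw [sub_add_cancel]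
    rw [e1, add_pow_char_pow_of_commute p (2 * m) (Commute.one_right _), hz, one_pow, zero_add]

end Cfsg.Agent.Lib.H49SgPG
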