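import Mathlib
import Cfsg.Agent.Lib.H49SgDefs
import Cfsg.Agent.Lib.H49SgInv
import Cfsg.Agent.Lib.H49SgMonB
import Cfsg.Agent.Lib.H49SgMem
import Cfsg.Agent.Lib.H49SgM0
import Cfsg.Agent.Lib.H49SgXU
import Cfsg.Agent.Lib.Helper36SpTWire
import Cfsg.Agent.Lib.H49SgB1

set_option autoImplicit false

/-! Project 2545 (Steinberg character of `PSp_{2m}(F)`), piece `Low` (25m).

A negative root element is conjugate under `m0` to an upper triangular matrix.  By `mem_BB` and `conj_zero Mon_m0` (every index is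
`ngP m x = ng x`) one has to show `Xm a b t x y = 0` when `rk (ng y) < rk (ng x)`, i.e. `rk x < rk y` (`rk_ng`, `rk_lt`): the only non zero
off-diagonal entries of `Xm a b t` are at `(a, b)` and `(ng b, ng a)` (`Helper84SpXval.Xm_eq` / unfold `Xm`, `Matrix.single_apply`), and
`rk b < rk a`, `rk (ng a) < rk (ng b)`. -/

namespace Cfsg.Agent.Lib.H49SgLow

open Matrix Cfsg.Agent.Lib.Helper43Sp Cfsg.Agent.Lib.Helper52SpCut Cfsg.Agent.Lib.H49SgDefs
open Cfsg.Agent.Lib.H49SgInv Cfsg.Agent.Lib.H49SgMonB Cfsg.Agent.Lib.H49SgMem Cfsg.Agent.Lib.H49SgM0 Cfsg.Agent.Lib.H49SgXU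

variable {m : ℕ} {F : Type*} [Field F]

theorem m0_conj_X (a b : I m) (h : rk b < rk a) (t : F) :
    m0 m F * X a b t * (m0 m F)⁻¹ ∈ BB m F := by
  apply Cfsg.Agent.Lib.H49SgB1.conj_X_mem Mon_m0 a b (fun e => by rw [e] at h; omega)
  rw [ngP_apply, ngP_apply, rk_ng, rk_ng]
  have := rk_lt a
  omega

end Cfsg.Agent.Lib.H49SgLow
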