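import Mathlib
import Cfsg.Agent.Lib.H49SgDefs
import Cfsg.Agent.Lib.H49SgInv
import Cfsg.Agent.Lib.H49SgMonB
import Cfsg.Agent.Lib.H49SgMem
import Cfsg.Agent.Lib.H49SgM0
import Cfsg.Agent.Lib.H49SgXU
import Cfsg.Agent.Lib.H49SgLow
import Cfsg.Agent.Lib.Helper36SpTWire

set_option autoImplicit false

/-! Project 2545 (Steinberg character of `PSp_{2m}(F)`), piece `Sup` (15m).

`Helper36SpTWire.sp_gen : closure {X a b t | a ≠ b} = ⊤`.  If `rk a < rk b`: `X_mem_UU`, `UU_le_BB`.  Otherwise `rk b < rk a` (`rk_inj`) and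
`X a b t = m0⁻¹ (m0 X a b t m0⁻¹) m0` with `m0_mem`, `m0_conj_X`. -/

namespace Cfsg.Agent.Lib.H49SgSup

open Matrix Cfsg.Agent.Lib.Helper43Sp Cfsg.Agent.Lib.Helper52SpCut Cfsg.Agent.Lib.H49SgDefs
open Cfsg.Agent.Lib.H49SgInv Cfsg.Agent.Lib.H49SgMonB Cfsg.Agent.Lib.H49SgMem Cfsg.Agent.Lib.H49SgM0 Cfsg.Agent.Lib.H49SgXU Cfsg.Agent.Lib.H49SgLow

variable {m : ℕ} {F : Type*} [Field F]

theorem sup_eq_top : BB m F ⊔ NN m F = ⊤ := by
  rw [eq_top_iff, ← Cfsg.Agent.Lib.Helper36SpTWire.sp_gen m F, Subgroup.closure_le]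
  rintro g ⟨a, b, t, hab, rfl⟩
  rcases Nat.lt_or_ge (rk a) (rk b) with h | h
  · exact Subgroup.mem_sup_left (UU_le_BB (X_mem_UU a b h t))
  · have h' : rk b < rk a := by
      rcases Nat.lt_or_ge (rk b) (rk a) with h2 | h2
      · exact h2
      · exact absurd (rk_inj (le_antisymm h2 h)) hab
    have e : (X a b t : Sp m F) = (m0 m F)⁻¹ * (m0 m F * X a b t * (m0 m F)⁻¹) * m0 m F := by group
    have hm : m0 m F ∈ BB m F ⊔ NN m F := Subgroup.mem_sup_right m0_mem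
    show (X a b t : Sp m F) ∈ BB m F ⊔ NN m F
    rw [e]
    exact Subgroup.mul_mem _ (Subgroup.mul_mem _ (Subgroup.inv_mem _ hm)
      (Subgroup.mem_sup_left (m0_conj_X a b h' t))) hm

end Cfsg.Agent.Lib.H49SgSup
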