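import Mathlib
import Cfsg.Agent.Lib.H49SgDefs
import Cfsg.Agent.Lib.H49SgInv
import Cfsg.Agent.Lib.H49SgMonB
import Cfsg.Agent.Lib.H49SgMem
import Cfsg.Agent.Lib.H49SgDT
import Cfsg.Agent.Lib.Helper36SpDval

set_option autoImplicit false

/-! Project 2545 (Steinberg character of `PSp_{2m}(F)`), piece `TP` (30m).

Every `t ∈ TT` is `D d` (`exists_D`) and `(D d) ^ (q - 1) = D (d ^ (q - 1)) = D 1 = 1` (`Helper36SpDval.D_pow`, `D_one`, `q = Fintype.card F`, `pow_card_eq_one`/`FiniteField.pow_card_sub_one_eq_one`).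
If `p ∣ |TT|`, Cauchy (`exists_prime_orderOf_dvd_card'`) gives `t` of order `p`, so `p ∣ q - 1`; but `p ∣ q` (`FiniteField.card`, `CharP`): contradiction. -/

namespace Cfsg.Agent.Lib.H49SgTP

open Matrix Cfsg.Agent.Lib.Helper43Sp Cfsg.Agent.Lib.Helper52SpCut Cfsg.Agent.Lib.H49SgDefs
open Cfsg.Agent.Lib.H49SgInv Cfsg.Agent.Lib.H49SgMonB Cfsg.Agent.Lib.H49SgMem Cfsg.Agent.Lib.H49SgDT

variable {m : ℕ} {F : Type*} [Field F]

theorem not_dvd_card_TT [Fintype F] (p : ℕ) [Fact p.Prime] [CharP F p] : ¬ p ∣ Nat.card (TT m F) := by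
  intro hp
  obtain ⟨⟨t, ht⟩, hord⟩ := exists_prime_orderOf_dvd_card' p hp
  obtain ⟨d, rfl⟩ := exists_D ht
  have h1 : (D d : Sp m F) ^ (Fintype.card F - 1) = 1 := by
    rw [Cfsg.Agent.Lib.Helper36SpDval.D_pow]
    have : d ^ (Fintype.card F - 1) = 1 := by
      funext i
      apply Units.ext
      rw [Pi.pow_apply, Units.val_pow_eq_pow_val,
        FiniteField.pow_card_sub_one_eq_one _ (Units.ne_zero _)]
      rfl
    rw [this, Cfsg.Agent.Lib.Helper36SpDval.D_one]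
  have h2 : p ∣ Fintype.card F - 1 := by
    rw [← hord]
    apply orderOf_dvd_of_pow_eq_one
    apply Subtype.ext
    rw [Subgroup.coe_pow]
    exact h1
  have h3 : p ∣ Fintype.card F :=
    (CharP.cast_eq_zero_iff F p _).1 (FiniteField.cast_card_eq_zero F)
  have h4 : 1 < Fintype.card F := Fintype.one_lt_card
  have h5 : p ∣ 1 := by
    have := (Nat.dvd_sub h3 h2)
    rwa [Nat.sub_sub_self h4.le] at this
  exact (Fact.out : p.Prime).one_lt.ne' (Nat.dvd_one.1 h5)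

end Cfsg.Agent.Lib.H49SgTP
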