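import Mathlib
import Cfsg.Agent.Lib.H49SgDefs
import Cfsg.Agent.Lib.H49SgInv
import Cfsg.Agent.Lib.H49SgMonB
import Cfsg.Agent.Lib.H49SgMem
import Cfsg.Agent.Lib.H49SgM0
import Cfsg.Agent.Lib.H49SgNT

set_option autoImplicit false

/-! Project 2545 (Steinberg character of `PSp_{2m}(F)`), piece `W0` (25m).

`→`: `NN_conj_TT` for `(m0)⁻¹ ∈ NN`, `TT_le_BB`.  `←`: `(m0)⁻¹` is `Mon (ngP m)⁻¹` and `(ngP m)⁻¹ = ngP m`; by `conj_zero`, `β (ng x) (ng y) = 0` when `rk y < rk x`, i.e. `β` is also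
lower triangular (`rk_ng`, `rk_lt`, `ng_ng`), hence diagonal (`rk_inj`), `mem_TT`. -/

namespace Cfsg.Agent.Lib.H49SgW0

open Matrix Cfsg.Agent.Lib.Helper43Sp Cfsg.Agent.Lib.Helper52SpCut Cfsg.Agent.Lib.H49SgDefs
open Cfsg.Agent.Lib.H49SgInv Cfsg.Agent.Lib.H49SgMonB Cfsg.Agent.Lib.H49SgMem Cfsg.Agent.Lib.H49SgM0 Cfsg.Agent.Lib.H49SgNT

variable {m : ℕ} {F : Type*} [Field F]

theorem ngP_inv_apply (a : I m) : (ngP m)⁻¹ a = ng a := by
  rw [Equiv.Perm.inv_eq_iff_eq, ngP_apply, ng_ng']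

theorem mem_TT_iff {β : Sp m F} (hβ : β ∈ BB m F) :
    β ∈ TT m F ↔ (m0 m F)⁻¹ * β * m0 m F ∈ BB m F := by
  constructor
  · intro h
    have h1 := NN_conj_TT ((NN m F).inv_mem m0_mem) h
    rw [inv_inv] at h1
    exact TT_le_BB h1
  · intro h
    rw [mem_TT]
    intro a b hab
    rcases Nat.lt_or_ge (rk b) (rk a) with h1 | h1
    · exact hβ.1 a b h1
    · have h2 : rk a < rk b := by
        rcases Nat.lt_or_ge (rk a) (rk b) with h2 | h2
        · exact h2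
        · exact absurd (rk_inj (le_antisymm h1 h2)) hab
      have h3 := conj_zero (Mon_inv (Mon_m0 (m := m) (F := F))) β a b
      rw [inv_inv, ngP_inv_apply, ngP_inv_apply] at h3
      apply h3.1
      apply h.1
      rw [rk_ng, rk_ng]
      have := rk_lt b
      omega

end Cfsg.Agent.Lib.H49SgW0
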