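import Mathlib
import Cfsg.Agent.Lib.H49SgDefs
import Cfsg.Agent.Lib.H49SgGen
import Cfsg.Agent.Lib.H49SgMem
import Cfsg.Agent.Lib.H49SgTN
import Cfsg.Agent.Lib.H49SgXU
import Cfsg.Agent.Lib.H49SgM0
import Cfsg.Agent.Lib.H49SgSup
import Cfsg.Agent.Lib.H49SgBNT
import Cfsg.Agent.Lib.H49SgNT
import Cfsg.Agent.Lib.H49SgSN
import Cfsg.Agent.Lib.H49SgSq
import Cfsg.Agent.Lib.H49SgInj
import Cfsg.Agent.Lib.H49SgCl
import Cfsg.Agent.Lib.H49SgA1
import Cfsg.Agent.Lib.H49SgA2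
import Cfsg.Agent.Lib.H49SgB1
import Cfsg.Agent.Lib.H49SgC
import Cfsg.Agent.Lib.H49SgNe
import Cfsg.Agent.Lib.H49SgW0
import Cfsg.Agent.Lib.H49SgDec
import Cfsg.Agent.Lib.H49SgNor
import Cfsg.Agent.Lib.H49SgPG
import Cfsg.Agent.Lib.H49SgTP
import Cfsg.Agent.Lib.Helper36SpTWire
import Cfsg.Agent.Lib.Helper36SpXbasic

set_option autoImplicit false

/-! Project 2545: the BN-pair of `Sp_{2m}(F)` and the Steinberg character of `PSp_{2m}(F)`. -/

namespace Cfsg.Agent.Lib.H49SgHub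

open Matrix Cfsg.Agent.Lib.Helper43Sp Cfsg.Agent.Lib.Helper52SpCut Cfsg.Agent.Lib.H49SgDefs

variable {m : ℕ} {F : Type*} [Field F]

/-- **The BN-pair of `Sp_{2m}(F)`.** -/
noncomputable def bn (m : ℕ) (F : Type*) [Field F] : Cfsg.BNPair (Sp m F) where
  B := BB m F
  N := NN m F
  S := SS m F
  sup_eq_top := H49SgSup.sup_eq_top
  conj_mem := by
    intro n hn t ht
    rw [H49SgBNT.BB_inf_NN] at ht
    exact TT_le_BB (H49SgNT.NN_conj_TT hn ht)
  subset := H49SgSN.SS_subset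
  sq_mem := by
    rintro s ⟨a, b, h, rfl⟩
    exact TT_le_BB (H49SgSq.sq_mem a b h)
  inj := by
    rintro s ⟨a, b, h, rfl⟩ s' ⟨a', b', h', rfl⟩ hB
    obtain ⟨rfl, rfl⟩ := H49SgInj.inj a b a' b' h h' hB
    rfl
  closure_sup := H49SgCl.closure_sup
  mul_mem_union := by
    rintro s ⟨a, b, h, rfl⟩ n hn β hβ
    obtain ⟨π, hπ⟩ := H49SgMem.mem_NN.1 hn
    have hab : a ≠ b := by
      rintro rfl
      have := h.1
      omega
    have hπ' := H49SgMonB.Mon_inv hπ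
    refine H49SgG1.mul_mem_union (BB m F) (wX a b 1) n {x | ∃ t, x = X a b t} {y | ∃ t, y = X b a t}
      ?_ ?_ ?_ β hβ
    · intro g hg
      obtain ⟨t, ht⟩ := H49SgA1.clear_entry a b h hg
      have hX : (X a b t : Sp m F) ∈ BB m F := UU_le_BB (H49SgXU.X_mem_UU a b (by have := h.1; omega) t)
      have hc : g * X a b t ∈ BB m F := (BB m F).mul_mem hg hX
      refine ⟨g * X a b t, hc, X a b (-t), ⟨_, rfl⟩, H49SgA2.conj_mem_BB a b h hc ht, ?_⟩
      rw [← Helper36SpTWire.X_inv, mul_inv_cancel_right]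
    · rcases Nat.lt_or_ge (rk (π⁻¹ a)) (rk (π⁻¹ b)) with hr | hr
      · left
        rintro x ⟨t, rfl⟩
        have := H49SgB1.conj_X_mem hπ' a b hab hr t
        rwa [inv_inv] at this
      · right
        rintro x ⟨t, rfl⟩
        have hne : rk (π⁻¹ a) ≠ rk (π⁻¹ b) := fun e => hab (π⁻¹.injective (rk_inj e))
        have := H49SgB1.conj_X_mem hπ' b a hab.symm (by omega) t
        rwa [inv_inv] at this
    · rintro x ⟨t, rfl⟩
      by_cases ht : t = 0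
      · left
        rw [ht]
        exact Helper36SpXbasic.X_zero a b
      · right
        obtain ⟨g, hg, t', e⟩ := H49SgC.rank_one a b h t ht
        exact ⟨g, hg, _, ⟨t', rfl⟩, e⟩
  conj_ne := by
    rintro s ⟨a, b, h, rfl⟩ he
    have hX : (X a b 1 : Sp m F) ∈ BB m F := UU_le_BB (H49SgXU.X_mem_UU a b (by have := h.1; omega) 1)
    have : (wX a b 1 : Sp m F) * X a b 1 * wX a b 1 ∈ ((BB m F : Subgroup (Sp m F)) : Set (Sp m F)) := by
      rw [← he]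
      exact ⟨_, hX, rfl⟩
    exact H49SgNe.conj_not_mem a b h this

/-- **The Steinberg character of `PSp_{2m}(F)`.** -/
theorem steinberg_PSp [Fintype F] (p : ℕ) [Fact p.Prime] [CharP F p] (m : ℕ) :
    ∃ χ : Cfsg.PSp m F → ℂ, Cfsg.IsIrrCharacter (Cfsg.PSp m F) χ ∧
      ∀ P : Sylow p (Cfsg.PSp m F), χ 1 = Nat.card P ∧ ∀ x : Cfsg.PSp m F, x ∈ P → x ≠ 1 → χ x = 0 := by
  have : Finite (Sp m F) := Subtype.finite
  exact H49SgGen.steinberg_of_bn (bn m F) (UU m F) (TT m F) (m0 m F) H49SgM0.m0_mem H49SgTN.TT_le_NN TT_le_BB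
    (fun β hβ => H49SgW0.mem_TT_iff hβ) UU_le_BB (fun b hb u hu => H49SgNor.BB_conj_UU hb hu)
    (fun b hb => H49SgDec.BB_decomp hb) (fun g hU hT => H49SgNor.UU_inf_TT hU hT) p
    (H49SgPG.isPGroup_UU p) (H49SgTP.not_dvd_card_TT p)

end Cfsg.Agent.Lib.H49SgHub
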