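import Mathlib
import Cfsg.Prelude.Def_LieExceptional

set_option autoImplicit false

/-! Generic: a split BN-pair `(P, U, T, m0)` of a group `G` and a normal subgroup `K ⊇ U` with `G = K T`:
vocabulary for the induced BN-pair of `K`. -/

namespace Cfsg.Agent.Lib.H49SkDefs

/-- split BN-pair data (the hypotheses of `H49SgGen.steinberg_of_bn`) -/
structure Split {G : Type*} [Group G] (P : Cfsg.BNPair G) (U T : Subgroup G) (m0 : G) : Prop where
  hm0 : m0 ∈ P.N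
  hTN : T ≤ P.N
  hTB : T ≤ P.B
  hT : ∀ β ∈ P.B, β ∈ T ↔ m0⁻¹ * β * m0 ∈ P.B
  hUB : U ≤ P.B
  hnorm : ∀ b ∈ P.B, ∀ u ∈ U, b * u * b⁻¹ ∈ U
  hdec : ∀ b ∈ P.B, ∃ u ∈ U, ∃ t ∈ T, b = u * t
  hUT : ∀ g, g ∈ U → g ∈ T → g = 1

/-- a normal subgroup `K ⊇ U` and a choice `τ s ∈ T` with `s * τ s ∈ K` -/
structure Sub {G : Type*} [Group G] (P : Cfsg.BNPair G) (U T : Subgroup G) (K : Subgroup G) (τ : G → G) : Prop where
  normal : K.Normal
  hUK : U ≤ K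
  hτT : ∀ s ∈ P.S, τ s ∈ T
  hτK : ∀ s ∈ P.S, s * τ s ∈ K

/-- the distinguished generators of the BN-pair of `K` -/
def SK {G : Type*} [Group G] (P : Cfsg.BNPair G) (K : Subgroup G) (τ : G → G) : Set K :=
  {k | ∃ s ∈ P.S, (k : G) = s * τ s}

end Cfsg.Agent.Lib.H49SkDefs
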