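import Mathlib
import Cfsg.Agent.Lib.H49SkDefs
import Cfsg.Agent.Lib.Helper8BN

set_option autoImplicit false

/-! Project 2547 (generic part: BN-pair of a normal subgroup), piece `Bas` (25m).

Basic consequences.  `T_eq`: `T ≤ B ⊓ N` by `hTB hTN`; conversely `β ∈ B ⊓ N` gives `m0⁻¹ β m0 ∈ B` by `P.conj_mem m0⁻¹ _ β _` (`inv_inv`), so `β ∈ T` by `hT`.
`dec'`: `b = u t = t (t⁻¹ u t)` with `hnorm` for `t⁻¹ ∈ B`.  `N_le`: `K ⊔ T` (a subgroup, `K` normal) contains every `s = (s τ s)(τ s)⁻¹ ∈ P.S` and `B ⊓ N = T`, so it contains `N` by `P.closure_sup`; write the element of `K ⊔ T` as a product (`Subgroup.mem_sup_of_normal_left`/`Subgroup.mul_normal`). -/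

namespace Cfsg.Agent.Lib.H49SkBas

open Cfsg.Agent.Lib.H49SkDefs



theorem T_eq {G : Type*} [Group G] {P : Cfsg.BNPair G} {U T : Subgroup G} {m0 : G} (h : Split P U T m0) :
    P.B ⊓ P.N = T := by
  apply le_antisymm
  · intro β hβ
    have hβB : β ∈ P.B := hβ.1
    rw [h.hT β hβB]
    have h1 := P.conj_mem m0⁻¹ (P.N.inv_mem h.hm0) β hβ
    rwa [inv_inv] at h1
  · exact le_inf h.hTB h.hTN

theorem dec' {G : Type*} [Group G] {P : Cfsg.BNPair G} {U T : Subgroup G} {m0 : G} (h : Split P U T m0)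
    {b : G} (hb : b ∈ P.B) : ∃ t ∈ T, ∃ u ∈ U, b = t * u := by
  obtain ⟨u, hu, t, ht, rfl⟩ := h.hdec b hb
  refine ⟨t, ht, t⁻¹ * u * t, ?_, by group⟩
  have h1 := h.hnorm t⁻¹ (P.B.inv_mem (h.hTB ht)) u hu
  rwa [inv_inv] at h1

theorem conj_T {G : Type*} [Group G] {P : Cfsg.BNPair G} {U T : Subgroup G} {m0 : G} (h : Split P U T m0)
    {n t : G} (hn : n ∈ P.N) (ht : t ∈ T) : n * t * n⁻¹ ∈ T := by
  rw [← T_eq h] at ht ⊢
  exact Subgroup.mem_inf.2 ⟨P.conj_mem n hn t ht, P.N.mul_mem (P.N.mul_mem hn ht.2) (P.N.inv_mem hn)⟩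

theorem N_le {G : Type*} [Group G] {P : Cfsg.BNPair G} {U T : Subgroup G} {m0 : G} (h : Split P U T m0)
    {K : Subgroup G} {τ : G → G} (hK : Sub P U T K τ) {n : G} (hn : n ∈ P.N) : ∃ t ∈ T, n * t ∈ K := by
  haveI := hK.normal
  have hle : P.N ≤ K ⊔ T := by
    rw [← P.closure_sup]
    refine sup_le ?_ ?_
    · rw [Subgroup.closure_le]
      intro s hs
      have e : s = (s * τ s) * (τ s)⁻¹ := by group
      rw [SetLike.mem_coe, e]
      exact Subgroup.mul_mem _ (Subgroup.mem_sup_left (hK.hτK s hs))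
        (Subgroup.inv_mem _ (Subgroup.mem_sup_right (hK.hτT s hs)))
    · rw [T_eq h]; exact le_sup_right
  have h1 := hle hn
  rw [← SetLike.mem_coe, Subgroup.normal_mul] at h1
  obtain ⟨k, hk, t, ht, rfl⟩ := h1
  refine ⟨t⁻¹, T.inv_mem ht, ?_⟩
  have e : k * t * t⁻¹ = k := by group
  rw [e]; exact hk

end Cfsg.Agent.Lib.H49SkBas
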