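import Mathlib
import Cfsg.Agent.Lib.H49SkDefs
import Cfsg.Agent.Lib.H49SkBas

set_option autoImplicit false

/-! Project 2547 (generic part: BN-pair of a normal subgroup), piece `Small` (30m).

The easy axioms.  `sq`: `(s τ)(s τ) = (s s)(s⁻¹ τ s) τ` with `P.sq_mem`, `conj_T` for `s⁻¹ ∈ N`.  `inj`: `(s τ)⁻¹ (s' τ') = τ⁻¹ (s⁻¹ s') τ' ∈ B` gives `s⁻¹ s' ∈ B`, `P.inj`, then the two elements of `K` have the same value. -/

namespace Cfsg.Agent.Lib.H49SkSmall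

open Cfsg.Agent.Lib.H49SkDefs
open Cfsg.Agent.Lib.H49SkBas



theorem conj_mem {G : Type*} [Group G] {P : Cfsg.BNPair G} (K : Subgroup G) :
    ∀ n ∈ P.N.subgroupOf K, ∀ t ∈ P.B.subgroupOf K ⊓ P.N.subgroupOf K, n * t * n⁻¹ ∈ P.B.subgroupOf K := by
  intro n hn t ht
  rw [Subgroup.mem_subgroupOf]
  exact P.conj_mem n (Subgroup.mem_subgroupOf.1 hn) t
    (Subgroup.mem_inf.2 ⟨Subgroup.mem_subgroupOf.1 ht.1, Subgroup.mem_subgroupOf.1 ht.2⟩)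

theorem subset {G : Type*} [Group G] {P : Cfsg.BNPair G} {U T : Subgroup G} {m0 : G} (h : Split P U T m0)
    {K : Subgroup G} {τ : G → G} (hK : Sub P U T K τ) : SK P K τ ⊆ (P.N.subgroupOf K : Set K) := by
  rintro k ⟨s, hs, hk⟩
  rw [SetLike.mem_coe, Subgroup.mem_subgroupOf, hk]
  exact P.N.mul_mem (P.subset hs) (h.hTN (hK.hτT s hs))

theorem sq {G : Type*} [Group G] {P : Cfsg.BNPair G} {U T : Subgroup G} {m0 : G} (h : Split P U T m0)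
    {K : Subgroup G} {τ : G → G} (hK : Sub P U T K τ) : ∀ s ∈ SK P K τ, s * s ∈ P.B.subgroupOf K := by
  rintro k ⟨s, hs, hk⟩
  rw [Subgroup.mem_subgroupOf]
  show (k : G) * (k : G) ∈ P.B
  rw [hk]
  have e : s * τ s * (s * τ s) = (s * s) * (s⁻¹ * τ s * s⁻¹⁻¹) * τ s := by group
  rw [e]
  exact P.B.mul_mem (P.B.mul_mem (P.sq_mem s hs)
    (h.hTB (conj_T h (P.N.inv_mem (P.subset hs)) (hK.hτT s hs)))) (h.hTB (hK.hτT s hs))

theorem inj {G : Type*} [Group G] {P : Cfsg.BNPair G} {U T : Subgroup G} {m0 : G} (h : Split P U T m0)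
    {K : Subgroup G} {τ : G → G} (hK : Sub P U T K τ) :
    ∀ s ∈ SK P K τ, ∀ s' ∈ SK P K τ, s⁻¹ * s' ∈ P.B.subgroupOf K → s = s' := by
  rintro k ⟨s, hs, hk⟩ k' ⟨s', hs', hk'⟩ hB
  rw [Subgroup.mem_subgroupOf] at hB
  have hB' : (k : G)⁻¹ * (k' : G) ∈ P.B := hB
  rw [hk, hk'] at hB'
  have e : s⁻¹ * s' = τ s * ((s * τ s)⁻¹ * (s' * τ s')) * (τ s')⁻¹ := by group
  have h1 : s⁻¹ * s' ∈ P.B := by
    rw [e]
    exact P.B.mul_mem (P.B.mul_mem (h.hTB (hK.hτT s hs)) hB') (P.B.inv_mem (h.hTB (hK.hτT s' hs')))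
  have h2 := P.inj s hs s' hs' h1
  apply Subtype.ext
  rw [hk, hk', h2]

end Cfsg.Agent.Lib.H49SkSmall
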