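import Mathlib
import Cfsg.Agent.Lib.H49SkDefs
import Cfsg.Agent.Lib.H49SkBas
import Cfsg.Agent.Lib.H49SkSmall

set_option autoImplicit false

/-! Project 2547 (generic part: BN-pair of a normal subgroup), piece `Cl` (40m).

`≤` by `subset` and `inf_le_right`.  `≥`: let `H = closure (SK)` mapped to `G` (`H.map K.subtype`).  The set `H T` is a subgroup of `G` (`T` is normalised by `N ⊇ H`, `conj_T`) containing every `s = (s τ s)(τ s)⁻¹` and `T = B ⊓ N`, hence `N` (`P.closure_sup`).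
So `n ∈ N ∩ K` is `h t` with `h ∈ H ≤ K`, and then `t = h⁻¹ n ∈ T ∩ K = (B ⊓ N) ∩ K`. -/

namespace Cfsg.Agent.Lib.H49SkCl

open Cfsg.Agent.Lib.H49SkDefs
open Cfsg.Agent.Lib.H49SkBas Cfsg.Agent.Lib.H49SkSmall

theorem closure_sup {G : Type*} [Group G] {P : Cfsg.BNPair G} {U T : Subgroup G} {m0 : G} (h : Split P U T m0)
    {K : Subgroup G} {τ : G → G} (hK : Sub P U T K τ) :
    Subgroup.closure (SK P K τ) ⊔ (P.B.subgroupOf K ⊓ P.N.subgroupOf K) = P.N.subgroupOf K := by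
  have hle : Subgroup.closure (SK P K τ) ≤ P.N.subgroupOf K :=
    (Subgroup.closure_le _).mpr (subset h hK)
  apply le_antisymm (sup_le hle inf_le_right)
  have hN : ∀ x : K, x ∈ Subgroup.closure (SK P K τ) → (x : G) ∈ P.N := fun x hx =>
    Subgroup.mem_subgroupOf.mp (hle hx)
  let HT : Subgroup G :=
    { carrier := {x | ∃ k ∈ Subgroup.closure (SK P K τ), ∃ t ∈ T, x = (k : G) * t}
      one_mem' := ⟨1, one_mem _, 1, one_mem _, by simp⟩
      mul_mem' := by
        rintro _ _ ⟨k, hk, t, ht, rfl⟩ ⟨k', hk', t', ht', rfl⟩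
        have hc : (k' : G)⁻¹ * t * (k' : G) ∈ T := by
          have := conj_T h (inv_mem (hN k' hk')) ht
          rwa [inv_inv] at this
        refine ⟨k * k', mul_mem hk hk', (k' : G)⁻¹ * t * (k' : G) * t', mul_mem hc ht', ?_⟩
        push_cast
        group
      inv_mem' := by
        rintro _ ⟨k, hk, t, ht, rfl⟩
        refine ⟨k⁻¹, inv_mem hk, (k : G) * t⁻¹ * (k : G)⁻¹, conj_T h (hN k hk) (inv_mem ht), ?_⟩
        push_cast
        group }
  have hNHT : P.N ≤ HT := by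
    rw [← P.closure_sup, T_eq h]
    apply sup_le
    · rw [Subgroup.closure_le]
      intro s hs
      refine ⟨⟨s * τ s, hK.hτK s hs⟩, Subgroup.subset_closure ⟨s, hs, rfl⟩, (τ s)⁻¹,
        inv_mem (hK.hτT s hs), ?_⟩
      simp
    · intro t ht
      exact ⟨1, one_mem _, t, ht, by simp⟩
  intro n hn
  obtain ⟨k, hk, t, ht, e⟩ := hNHT (Subgroup.mem_subgroupOf.mp hn)
  have htK : t ∈ K := by
    have : t = (k : G)⁻¹ * n := by rw [e]; group
    rw [this]
    exact mul_mem (inv_mem k.2) n.2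
  have e' : n = k * ⟨t, htK⟩ := Subtype.ext e
  rw [e']
  apply Subgroup.mul_mem_sup hk
  exact ⟨Subgroup.mem_subgroupOf.mpr (h.hTB ht), Subgroup.mem_subgroupOf.mpr (h.hTN ht)⟩

end Cfsg.Agent.Lib.H49SkCl
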