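import Mathlib
import Cfsg.Agent.Lib.H49SkDefs
import Cfsg.Agent.Lib.H49SkBas

set_option autoImplicit false

/-! Project 2547 (generic part: BN-pair of a normal subgroup), piece `Mul` (45m).

The double coset axiom in `K`.  Key lemma `dc`: if `k, ν ∈ K`, `ν ∈ N` and `k ∈ B ν B` in `G` then `k ∈ (B∩K) ν (B∩K)`: `k = (u t) ν (t' u')` (`hdec`, `dec'`), `t ν t' = ν t''` with `t'' = (ν⁻¹ t ν) t' ∈ T` (`conj_T`), and `t'' = ν⁻¹ u⁻¹ k u'⁻¹ ∈ K`; so `k = u ν (t'' u')`.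
Then for `s' = s τ`, `b ∈ B ∩ K`, `n ∈ N ∩ K`: `s' b n = s (τ b) n ∈ B s n B ∪ B n B` by `P.mul_mem_union`, and `B s n B = B (s τ n) B` since `s τ n = s n (n⁻¹ τ n)`.  `DoubleCoset.mem_doubleCoset`. -/

namespace Cfsg.Agent.Lib.H49SkMul

open Cfsg.Agent.Lib.H49SkDefs
open Cfsg.Agent.Lib.H49SkBas

theorem dc {G : Type*} [Group G] {P : Cfsg.BNPair G} {U T : Subgroup G} {m0 : G} (h : Split P U T m0)
    {K : Subgroup G} {τ : G → G} (hK : Sub P U T K τ) (k ν : K) (hν : (ν : G) ∈ P.N)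
    (hk : (k : G) ∈ DoubleCoset.doubleCoset (ν : G) (P.B : Set G) P.B) :
    k ∈ DoubleCoset.doubleCoset ν (P.B.subgroupOf K : Set K) (P.B.subgroupOf K) := by
  rw [DoubleCoset.mem_doubleCoset] at hk ⊢
  obtain ⟨b, hb, b', hb', e⟩ := hk
  obtain ⟨u, hu, t, ht, rfl⟩ := h.hdec b hb
  obtain ⟨t', ht', u', hu', rfl⟩ := dec' h hb'
  have hc : (ν : G)⁻¹ * t * (ν : G) ∈ T := by
    have := conj_T h (inv_mem hν) ht
    rwa [inv_inv] at this
  have ht''T : (ν : G)⁻¹ * t * (ν : G) * t' ∈ T := mul_mem hc ht'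
  have e2 : (k : G) = u * ν * ((ν : G)⁻¹ * t * (ν : G) * t' * u') := by
    rw [e]; group
  have ht''K : (ν : G)⁻¹ * t * (ν : G) * t' ∈ K := by
    have : (ν : G)⁻¹ * t * (ν : G) * t' = (ν : G)⁻¹ * u⁻¹ * k * u'⁻¹ := by
      rw [e2]; group
    rw [this]
    exact mul_mem (mul_mem (mul_mem (inv_mem ν.2) (inv_mem (hK.hUK hu))) k.2)
      (inv_mem (hK.hUK hu'))
  refine ⟨⟨u, hK.hUK hu⟩, ?_, ⟨(ν : G)⁻¹ * t * (ν : G) * t' * u',
    mul_mem ht''K (hK.hUK hu')⟩, ?_, ?_⟩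
  · exact Subgroup.mem_subgroupOf.mpr (h.hUB hu)
  · exact Subgroup.mem_subgroupOf.mpr (mul_mem (h.hTB ht''T) (h.hUB hu'))
  · exact Subtype.ext e2

theorem mul_mem_union {G : Type*} [Group G] {P : Cfsg.BNPair G} {U T : Subgroup G} {m0 : G} (h : Split P U T m0)
    {K : Subgroup G} {τ : G → G} (hK : Sub P U T K τ) :
    ∀ s ∈ SK P K τ, ∀ n ∈ P.N.subgroupOf K, ∀ b ∈ P.B.subgroupOf K,
      s * b * n ∈ DoubleCoset.doubleCoset (s * n) (P.B.subgroupOf K : Set K) (P.B.subgroupOf K) ∪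
        DoubleCoset.doubleCoset n (P.B.subgroupOf K : Set K) (P.B.subgroupOf K) := by
  rintro s' ⟨s, hs, hs'⟩ n hn b hb
  rw [Subgroup.mem_subgroupOf] at hn hb
  have hτT := hK.hτT s hs
  have hsN : s ∈ P.N := P.subset hs
  have h1 := P.mul_mem_union s hs (n : G) hn (τ s * b) (mul_mem (h.hTB hτT) hb)
  have e1 : ((s' * b * n : K) : G) = s * (τ s * b) * n := by
    push_cast
    rw [hs']; group
  rcases h1 with h1 | h1
  · left
    apply dc h hK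
    · push_cast
      rw [hs']
      exact mul_mem (mul_mem hsN (h.hTN hτT)) hn
    · rw [e1]
      rw [DoubleCoset.mem_doubleCoset] at h1 ⊢
      obtain ⟨β, hβ, β', hβ', e⟩ := h1
      have hc : (n : G)⁻¹ * τ s * (n : G) ∈ T := by
        have := conj_T h (inv_mem hn) hτT
        rwa [inv_inv] at this
      refine ⟨β, hβ, ((n : G)⁻¹ * τ s * (n : G))⁻¹ * β',
        mul_mem (inv_mem (h.hTB hc)) hβ', ?_⟩
      rw [e]
      push_cast
      rw [hs']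
      group
  · right
    apply dc h hK _ _ hn
    rw [e1]
    exact h1

end Cfsg.Agent.Lib.H49SkMul
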