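import Mathlib
import Cfsg.Agent.Lib.H49SkDefs
import Cfsg.Agent.Lib.H49SkBas
import Cfsg.Agent.Lib.H49SkSmall
import Cfsg.Agent.Lib.Helper8BN

set_option autoImplicit false

/-! Project 2547 (generic part: BN-pair of a normal subgroup), piece `Ne` (35m).

Suppose `s' (B∩K) s' = B∩K` (`s' = s τ`).  As `s' s' ∈ B ∩ K` (`sq`), `s' u s'⁻¹ ∈ B` for all `u ∈ U ≤ B ∩ K`; also `s' t s'⁻¹ ∈ T ≤ B` (`conj_T`), so `s' b s'⁻¹ ∈ B` for all `b = u t ∈ B`; hence `s' ∈ B` by `Cfsg.Agent.Lib.Helper8BN.mem_of_conj (le_refl _)`, so `s ∈ B`,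
and then `(fun b => s * b * s) '' B = B`, contradicting `P.conj_ne`. -/

namespace Cfsg.Agent.Lib.H49SkNe

open Cfsg.Agent.Lib.H49SkDefs
open Cfsg.Agent.Lib.H49SkBas Cfsg.Agent.Lib.H49SkSmall



theorem conj_ne {G : Type*} [Group G] {P : Cfsg.BNPair G} {U T : Subgroup G} {m0 : G} (h : Split P U T m0)
    {K : Subgroup G} {τ : G → G} (hK : Sub P U T K τ) :
    ∀ s ∈ SK P K τ, (fun b : K => s * b * s) '' (P.B.subgroupOf K : Set K) ≠ (P.B.subgroupOf K : Set K) := by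
  rintro k ⟨s, hs, hk⟩ heq
  have hkS : k ∈ SK P K τ := ⟨s, hs, hk⟩
  have hsq : (k : G) * (k : G) ∈ P.B := Subgroup.mem_subgroupOf.1 (sq h hK k hkS)
  have hkN : (k : G) ∈ P.N := Subgroup.mem_subgroupOf.1 (subset h hK hkS)
  -- conjugation of `U`
  have hU : ∀ u ∈ U, (k : G) * u * (k : G)⁻¹ ∈ P.B := by
    intro u hu
    have h1 : k * ⟨u, hK.hUK hu⟩ * k ∈ (fun b : K => k * b * k) '' (P.B.subgroupOf K : Set K) :=
      ⟨⟨u, hK.hUK hu⟩, Subgroup.mem_subgroupOf.2 (h.hUB hu), rfl⟩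
    rw [heq] at h1
    have h2 : (k : G) * u * (k : G) ∈ P.B := Subgroup.mem_subgroupOf.1 h1
    have e : (k : G) * u * (k : G)⁻¹ = ((k : G) * u * (k : G)) * ((k : G) * (k : G))⁻¹ := by group
    rw [e]
    exact P.B.mul_mem h2 (P.B.inv_mem hsq)
  have hB : ∀ b ∈ P.B, (k : G) * b * (k : G)⁻¹ ∈ P.B := by
    intro b hb
    obtain ⟨u, hu, t, ht, rfl⟩ := h.hdec b hb
    have e : (k : G) * (u * t) * (k : G)⁻¹ = ((k : G) * u * (k : G)⁻¹) * ((k : G) * t * (k : G)⁻¹) := by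
      group
    rw [e]
    exact P.B.mul_mem (hU u hu) (h.hTB (conj_T h hkN ht))
  have hkB : (k : G) ∈ P.B := Cfsg.Agent.Lib.Helper8BN.mem_of_conj (le_refl _) hB
  have hsB : s ∈ P.B := by
    have e : s = (k : G) * (τ s)⁻¹ := by rw [hk]; group
    rw [e]
    exact P.B.mul_mem hkB (P.B.inv_mem (h.hTB (hK.hτT s hs)))
  apply P.conj_ne s hs
  ext x
  constructor
  · rintro ⟨b, hb, rfl⟩
    exact P.B.mul_mem (P.B.mul_mem hsB hb) hsB
  · intro hx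
    exact ⟨s⁻¹ * x * s⁻¹, P.B.mul_mem (P.B.mul_mem (P.B.inv_mem hsB) hx) (P.B.inv_mem hsB), by
      show s * (s⁻¹ * x * s⁻¹) * s = x
      group⟩

end Cfsg.Agent.Lib.H49SkNe
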