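import Mathlib
import Cfsg.Agent.Lib.H49SkDefs
import Cfsg.Agent.Lib.H49SkBas

set_option autoImplicit false

/-! Project 2547 (generic part: BN-pair of a normal subgroup), piece `Spl` (35m).

The split data of `K`: `U' = U.subgroupOf K`, `T' = T.subgroupOf K`, `m0' = m0 τ0` (`N_le`).  All fields follow from those of `h` (`hT`: `(m0 τ0)⁻¹ β (m0 τ0) = τ0⁻¹ (m0⁻¹ β m0) τ0`; `hdec`: `β = u t`, `u ∈ U ≤ K` so `t ∈ K`).  The statement is for an arbitrary BN-pair `P'` of `K` with `P'.B = B ∩ K`, `P'.N = N ∩ K`. -/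

namespace Cfsg.Agent.Lib.H49SkSpl

open Cfsg.Agent.Lib.H49SkDefs
open Cfsg.Agent.Lib.H49SkBas



theorem split {G : Type*} [Group G] {P : Cfsg.BNPair G} {U T : Subgroup G} {m0 : G} (h : Split P U T m0)
    {K : Subgroup G} {τ : G → G} (hK : Sub P U T K τ) (P' : Cfsg.BNPair K) (hB : P'.B = P.B.subgroupOf K)
    (hN : P'.N = P.N.subgroupOf K) : ∃ m0' : K, Split P' (U.subgroupOf K) (T.subgroupOf K) m0' := by
  obtain ⟨τ0, hτ0, hm⟩ := N_le h hK h.hm0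
  refine ⟨⟨m0 * τ0, hm⟩, ?_⟩
  constructor
  · rw [hN, Subgroup.mem_subgroupOf]
    exact P.N.mul_mem h.hm0 (h.hTN hτ0)
  · rw [hN]
    intro t ht
    exact Subgroup.mem_subgroupOf.2 (h.hTN (Subgroup.mem_subgroupOf.1 ht))
  · rw [hB]
    intro t ht
    exact Subgroup.mem_subgroupOf.2 (h.hTB (Subgroup.mem_subgroupOf.1 ht))
  · rw [hB]
    intro β hβ
    rw [Subgroup.mem_subgroupOf] at hβ
    rw [Subgroup.mem_subgroupOf, Subgroup.mem_subgroupOf, h.hT _ hβ]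
    show m0⁻¹ * (β : G) * m0 ∈ P.B ↔ (m0 * τ0)⁻¹ * (β : G) * (m0 * τ0) ∈ P.B
    have e : (m0 * τ0)⁻¹ * (β : G) * (m0 * τ0) = τ0⁻¹ * (m0⁻¹ * (β : G) * m0) * τ0 := by group
    rw [e]
    have hτB := h.hTB hτ0
    constructor
    · intro h1
      exact P.B.mul_mem (P.B.mul_mem (P.B.inv_mem hτB) h1) hτB
    · intro h1
      have e2 : m0⁻¹ * (β : G) * m0 = τ0 * (τ0⁻¹ * (m0⁻¹ * (β : G) * m0) * τ0) * τ0⁻¹ := by group
      rw [e2]
      exact P.B.mul_mem (P.B.mul_mem hτB h1) (P.B.inv_mem hτB)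
  · rw [hB]
    intro u hu
    exact Subgroup.mem_subgroupOf.2 (h.hUB (Subgroup.mem_subgroupOf.1 hu))
  · rw [hB]
    intro b hb u hu
    rw [Subgroup.mem_subgroupOf] at hb hu ⊢
    exact h.hnorm _ hb _ hu
  · rw [hB]
    intro b hb
    rw [Subgroup.mem_subgroupOf] at hb
    obtain ⟨u, hu, t, ht, hbb⟩ := h.hdec _ hb
    have htK : t ∈ K := by
      have e : t = u⁻¹ * (b : G) := by rw [hbb]; group
      rw [e]
      exact K.mul_mem (K.inv_mem (hK.hUK hu)) b.2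
    exact ⟨⟨u, hK.hUK hu⟩, Subgroup.mem_subgroupOf.2 hu, ⟨t, htK⟩, Subgroup.mem_subgroupOf.2 ht,
      Subtype.ext hbb⟩
  · intro g hg hg'
    rw [Subgroup.mem_subgroupOf] at hg hg'
    exact Subtype.ext (h.hUT _ hg hg')

end Cfsg.Agent.Lib.H49SkSpl
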