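import Mathlib
import Cfsg.Agent.Lib.H49SkDefs
import Cfsg.Agent.Lib.H49SkBas
import Cfsg.Agent.Lib.Helper8BN

set_option autoImplicit false

/-! Project 2547 (generic part: BN-pair of a normal subgroup), piece `Sup` (30m).

`K = ⟨B ∩ K, N ∩ K⟩`.  For `k ∈ K`, Bruhat (`Cfsg.Agent.Lib.Helper8BN.bruhat_exists (P := P) k` : `∃ n ∈ P.N, ∃ x ∈ B, ∃ y ∈ B, k = x * n * y`, see its use in `Helper46BNApp.card_quot_modEq`): `x = u t` (`hdec`), `y = t' u'` (`dec'`), so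
`k = u (t n t') u'` with `u, u' ∈ U ≤ B ∩ K` and `t n t' = u⁻¹ k u'⁻¹ ∈ N ∩ K`. -/

namespace Cfsg.Agent.Lib.H49SkSup

open Cfsg.Agent.Lib.H49SkDefs
open Cfsg.Agent.Lib.H49SkBas



theorem sup_top {G : Type*} [Group G] {P : Cfsg.BNPair G} {U T : Subgroup G} {m0 : G} (h : Split P U T m0)
    {K : Subgroup G} {τ : G → G} (hK : Sub P U T K τ) : P.B.subgroupOf K ⊔ P.N.subgroupOf K = ⊤ := by
  rw [eq_top_iff]
  rintro ⟨k, hk⟩ _
  obtain ⟨n, hn, x, hx, y, hy, hkk⟩ := Cfsg.Agent.Lib.Helper8BN.bruhat_exists (P := P) k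
  obtain ⟨u, hu, t, ht, rfl⟩ := h.hdec x hx
  obtain ⟨t', ht', u', hu', rfl⟩ := dec' h hy
  have hmid : t * n * t' ∈ K := by
    have e : t * n * t' = u⁻¹ * k * u'⁻¹ := by rw [hkk]; group
    rw [e]
    exact K.mul_mem (K.mul_mem (K.inv_mem (hK.hUK hu)) hk) (K.inv_mem (hK.hUK hu'))
  have hmidN : t * n * t' ∈ P.N := P.N.mul_mem (P.N.mul_mem (h.hTN ht) hn) (h.hTN ht')
  have e : (⟨k, hk⟩ : K) = ⟨u, hK.hUK hu⟩ * ⟨t * n * t', hmid⟩ * ⟨u', hK.hUK hu'⟩ := by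
    apply Subtype.ext
    show k = u * (t * n * t') * u'
    rw [hkk]; group
  rw [e]
  refine Subgroup.mul_mem _ (Subgroup.mul_mem _ (Subgroup.mem_sup_left ?_) (Subgroup.mem_sup_right ?_))
    (Subgroup.mem_sup_left ?_)
  · exact Subgroup.mem_subgroupOf.2 (h.hUB hu)
  · exact Subgroup.mem_subgroupOf.2 hmidN
  · exact Subgroup.mem_subgroupOf.2 (h.hUB hu')

end Cfsg.Agent.Lib.H49SkSup
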