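import Mathlib
import Cfsg.Agent.Lib.H49SkDefs
import Cfsg.Agent.Lib.H49SgGen
import Cfsg.Agent.Lib.H49SkBas
import Cfsg.Agent.Lib.H49SkSup
import Cfsg.Agent.Lib.H49SkSmall
import Cfsg.Agent.Lib.H49SkCl
import Cfsg.Agent.Lib.H49SkMul
import Cfsg.Agent.Lib.H49SkNe
import Cfsg.Agent.Lib.H49SkSpl

set_option autoImplicit false

/-! Generic: the BN-pair of a normal subgroup `K ⊇ U` with `G = K T`, and the Steinberg character of `K / Z(K)`. -/

namespace Cfsg.Agent.Lib.H49SkHub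

open Cfsg.Agent.Lib.H49SkDefs

/-- the BN-pair of `K` -/
def bnK {G : Type*} [Group G] {P : Cfsg.BNPair G} {U T : Subgroup G} {m0 : G} (h : Split P U T m0)
    {K : Subgroup G} {τ : G → G} (hK : Sub P U T K τ) : Cfsg.BNPair K where
  B := P.B.subgroupOf K
  N := P.N.subgroupOf K
  S := SK P K τ
  sup_eq_top := H49SkSup.sup_top h hK
  conj_mem := H49SkSmall.conj_mem K
  subset := H49SkSmall.subset h hK
  sq_mem := H49SkSmall.sq h hK
  inj := H49SkSmall.inj h hK
  closure_sup := H49SkCl.closure_sup h hK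
  mul_mem_union := H49SkMul.mul_mem_union h hK
  conj_ne := H49SkNe.conj_ne h hK

theorem steinberg_of_normal {G : Type*} [Group G] [Finite G] {P : Cfsg.BNPair G} {U T : Subgroup G} {m0 : G}
    (h : Split P U T m0) (K : Subgroup G) (hn : K.Normal) (hUK : U ≤ K) (hS : ∀ s ∈ P.S, ∃ t ∈ T, s * t ∈ K)
    (p : ℕ) [Fact p.Prime] (hU : IsPGroup p U) (hTp : ¬ p ∣ Nat.card T) :
    ∃ ψ : K ⧸ Subgroup.center K → ℂ, Cfsg.IsIrrCharacter (K ⧸ Subgroup.center K) ψ ∧
      ∀ Q : Sylow p (K ⧸ Subgroup.center K), ψ 1 = Nat.card Q ∧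
        ∀ x : K ⧸ Subgroup.center K, x ∈ Q → x ≠ 1 → ψ x = 0 := by
  classical
  let τ : G → G := fun s => if hs : s ∈ P.S then (hS s hs).choose else 1
  have hτ : ∀ s (hs : s ∈ P.S), τ s = (hS s hs).choose := fun s hs => dif_pos hs
  have hK : Sub P U T K τ :=
    ⟨hn, hUK, fun s hs => by rw [hτ s hs]; exact (hS s hs).choose_spec.1,
      fun s hs => by rw [hτ s hs]; exact (hS s hs).choose_spec.2⟩
  obtain ⟨m0', h'⟩ := H49SkSpl.split h hK (bnK h hK) rfl rfl
  refine H49SgGen.steinberg_of_bn (bnK h hK) (U.subgroupOf K) (T.subgroupOf K) m0' h'.hm0 h'.hTN h'.hTB h'.hT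
    h'.hUB h'.hnorm h'.hdec h'.hUT p ?_ ?_
  · exact hU.comap_of_injective K.subtype K.subtype_injective
  · intro hd
    apply hTp
    have h1 : Nat.card (T.subgroupOf K) ∣ Nat.card T := by
      let f : (T.subgroupOf K) →* T :=
        { toFun := fun k => ⟨k.1.1, k.2⟩, map_one' := rfl, map_mul' := fun _ _ => rfl }
      exact Subgroup.card_dvd_of_injective f
        (fun a b hab => Subtype.ext (Subtype.ext (congrArg (fun x : T => x.1) hab)))
    exact hd.trans h1

end Cfsg.Agent.Lib.H49SkHub
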