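import Mathlib
import Cfsg.Agent.Lib.H49SmDefs
import Cfsg.Agent.Lib.H49SmQF

set_option autoImplicit false

/-! Project 2549 (Steinberg character of `POmega-_{2m+2}(q)`), piece `QFn`: nondegeneracy of the polar form. -/

namespace Cfsg.Agent.Lib.H49SmQFn

open Matrix Cfsg.Agent.Lib.H49SmDefs
open Cfsg.Agent.Lib.H49SuDefs (sgm Inv)
open Cfsg.Agent.Lib.H49SmQF

variable {n : ℕ} {F : Type*} [Field F] {a b : F}

theorem qfn_mid [Finite F] (hab : Ani a b) {x y : F} (h1 : 2 * x + a * y = 0)
    (h2 : a * x + 2 * b * y = 0) : x = 0 ∧ y = 0 := by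
  by_cases h20 : (2 : F) = 0
  · have ha : a ≠ 0 := by
      intro ha
      have hch : ringChar F = 2 := CharP.ringChar_of_prime_eq_zero Nat.prime_two (by exact_mod_cast h20)
      obtain ⟨s, hs⟩ := FiniteField.isSquare_of_char_two hch b
      have h3 := hab s 1 (by
        rw [ha, hs]
        have : s ^ 2 + 0 * s * 1 + s * s * 1 ^ 2 = 2 * (s * s) := by ring
        rw [this, h20, zero_mul])
      exact one_ne_zero h3.2
    rw [h20, zero_mul, zero_add] at h1
    rw [h20, zero_mul, zero_mul, add_zero] at h2
    exact ⟨(mul_eq_zero.1 h2).resolve_left ha, (mul_eq_zero.1 h1).resolve_left ha⟩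
  · apply hab
    have h3 : 2 * (x ^ 2 + a * x * y + b * y ^ 2) = x * (2 * x + a * y) + y * (a * x + 2 * b * y) := by
      ring
    rw [h1, h2, mul_zero, mul_zero, add_zero] at h3
    exact (mul_eq_zero.1 h3).resolve_left h20

theorem qfn_core [Finite F] (h2 : n % 2 = 0) (hn : 2 ≤ n) (hab : Ani a b) (v : Fin n → F)
    (h : ∀ w, BM n F a b w v = 0) : v = 0 := by
  have hc1 : n / 2 - 1 < n := by omega
  have hc2 : n / 2 < n := by omega
  set c : Fin n := ⟨n / 2 - 1, hc1⟩ with hc
  set c' : Fin n := ⟨n / 2, hc2⟩ with hc'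
  have hcv : c.val + 1 = n / 2 := by simp only [hc]; omega
  have hcv' : c'.val = n / 2 := rfl
  have hrev : Fin.rev c = c' := by
    apply Fin.ext
    rw [Fin.val_rev]
    simp only [hc, hc']
    omega
  have hrev' : Fin.rev c' = c := by rw [← hrev, Fin.rev_rev]
  have e1 : BM n F a b (Pi.single c 1) v = 2 * v c + a * v c' := by
    unfold BM
    rw [Finset.sum_eq_single c]
    · rw [if_pos hcv, Pi.single_eq_same, hrev]; ring
    · intro i _ hi
      rw [Pi.single_eq_of_ne hi]
      split_ifs <;> ring
    · intro hh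
      exact absurd (Finset.mem_univ c) hh
  have e2 : BM n F a b (Pi.single c' 1) v = a * v c + 2 * b * v c' := by
    unfold BM
    rw [Finset.sum_eq_single c']
    · rw [if_neg (by rw [hcv']; omega), if_pos hcv', Pi.single_eq_same, hrev']; ring
    · intro i _ hi
      rw [Pi.single_eq_of_ne hi]
      split_ifs <;> ring
    · intro hh
      exact absurd (Finset.mem_univ c') hh
  obtain ⟨hx, hy⟩ := qfn_mid hab ((e1.symm.trans (h _))) ((e2.symm.trans (h _)))
  funext i
  by_cases hi : md n i
  · rcases hi with hi | hi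
    · have : i = c := Fin.ext (by omega)
      rw [this, hx]; rfl
    · have : i = c' := Fin.ext (by omega)
      rw [this, hy]; rfl
  · have hj : ¬ md n (Fin.rev i) := by
      intro hm
      apply hi
      unfold md at hm ⊢
      rw [Fin.val_rev] at hm
      have := i.2
      omega
    have := h (Pi.single (Fin.rev i) 1)
    rw [BM_single_left h2 (Fin.rev i) hj v, Fin.rev_rev] at this
    rw [this]; rfl

theorem QF_nondeg [Finite F] (h2 : n % 2 = 0) (hn : 2 ≤ n) (hab : Ani a b) : (QuadraticMap.polarBilin (QF n F a b)).Nondegenerate := by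
  constructor
  · intro u hu
    apply qfn_core h2 hn hab u
    intro w
    have := hu w
    rw [QuadraticMap.polarBilin_apply_apply, QuadraticMap.polar_comm, polar_QF h2] at this
    exact this
  · intro v hv
    apply qfn_core h2 hn hab v
    intro w
    have := hv w
    rw [QuadraticMap.polarBilin_apply_apply, polar_QF h2] at this
    exact this

end Cfsg.Agent.Lib.H49SmQFn
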