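import Mathlib
import Cfsg.Agent.Lib.H49SmDefs
import Cfsg.Agent.Lib.H49SmQF
import Cfsg.Agent.Lib.H49SmQFn

set_option autoImplicit false

/-! Project 2549 (Steinberg character of `POmega-_{2m+2}(q)`), piece `Star` (40m).

ADAPT the landed `H49SpStar`.  `mk`: `D v = QM (M v) - QM v` is additive and `D (c • v) = c² D v`, `D e_i = 0`; invertibility: `M v = 0 → BM v u = BM (M v) (M u) = 0` for all `u`, so `v = 0` by nondegeneracy (`Matrix.unitOfDetInvertible`/`Matrix.nonsing_inv`, `Matrix.mulVec_injective_iff_isUnit`). -/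

namespace Cfsg.Agent.Lib.H49SmStar

open Matrix Cfsg.Agent.Lib.H49SmDefs
open Cfsg.Agent.Lib.H49SuDefs (sgm Inv)
open Cfsg.Agent.Lib.H49SmQF Cfsg.Agent.Lib.H49SmQFn

variable {n : ℕ} {F : Type*} [Field F] {a b : F}

theorem QM_mulVec (g : GM n F a b) (v : Fin n → F) : QM n F a b (mt g *ᵥ v) = QM n F a b v := g.2 v v

theorem BM_mulVec (h2 : n % 2 = 0) (g : GM n F a b) (u v : Fin n → F) : BM n F a b (mt g *ᵥ u) (mt g *ᵥ v) = BM n F a b u v := by
  have h1 := QM_add (a := a) (b := b) h2 (mt g *ᵥ u) (mt g *ᵥ v)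
  rw [← Matrix.mulVec_add, QM_mulVec, QM_mulVec, QM_mulVec, QM_add h2] at h1
  exact (add_left_cancel h1).symm

theorem BM_inv (h2 : n % 2 = 0) (g : GM n F a b) (u v : Fin n → F) : BM n F a b (mt g⁻¹ *ᵥ u) v = BM n F a b u (mt g *ᵥ v) := by
  rw [← BM_mulVec h2 g (mt g⁻¹ *ᵥ u) v, Matrix.mulVec_mulVec, ← mt_mul, mul_inv_cancel, mt_one,
    Matrix.one_mulVec]

theorem star_BM_eq (h2 : n % 2 = 0) (u v : Fin n → F) :
    BM n F a b u v = QuadraticMap.polarBilin (QF n F a b) u v := by
  rw [QuadraticMap.polarBilin_apply_apply, polar_QF h2]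

theorem star_BM_of (h2 : n % 2 = 0) (M : Matrix (Fin n) (Fin n) F)
    (hB : ∀ i j : Fin n, BM n F a b (fun x => M x i) (fun x => M x j) = BM n F a b (Pi.single i 1) (Pi.single j 1))
    (u v : Fin n → F) : BM n F a b (M *ᵥ u) (M *ᵥ v) = BM n F a b u v := by
  have e : (QuadraticMap.polarBilin (QF n F a b)).compl₁₂ (Matrix.toLin' M) (Matrix.toLin' M)
      = QuadraticMap.polarBilin (QF n F a b) := by
    apply LinearMap.ext_basis (Pi.basisFun F (Fin n)) (Pi.basisFun F (Fin n))
    intro i j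
    rw [LinearMap.compl₁₂_apply, Pi.basisFun_apply, Pi.basisFun_apply, Matrix.toLin'_apply,
      Matrix.toLin'_apply, ← star_BM_eq h2, ← star_BM_eq h2, ← hB i j]
    congr 1
    · ext x; simp
    · ext x; simp
  have := congrArg (fun B => B u v) e
  simp only [LinearMap.compl₁₂_apply, Matrix.toLin'_apply] at this
  rw [star_BM_eq h2, star_BM_eq h2]
  exact this

theorem star_QM_of (h2 : n % 2 = 0) (M : Matrix (Fin n) (Fin n) F)
    (hBA : ∀ u v : Fin n → F, BM n F a b (M *ᵥ u) (M *ᵥ v) = BM n F a b u v)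
    (hQ : ∀ i : Fin n, QM n F a b (fun x => M x i) = QM n F a b (Pi.single i 1))
    (v : Fin n → F) : QM n F a b (M *ᵥ v) = QM n F a b v := by
  classical
  have hsm : ∀ (c : F) (w : Fin n → F), QM n F a b (c • w) = c * c * QM n F a b w := by
    intro c w
    exact QuadraticMap.map_smul (QF n F a b) c w
  have hcol : ∀ (i : Fin n) (c : F), M *ᵥ Pi.single i c = c • (fun x => M x i) := by
    intro i c
    ext x
    simp [Matrix.mulVec_single, mul_comm]
  have hsg : ∀ (i : Fin n) (c : F), (Pi.single i c : Fin n → F) = c • Pi.single i 1 := by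
    intro i c
    ext x
    simp [Pi.single_apply]
  have key : ∀ s : Finset (Fin n), QM n F a b (M *ᵥ (∑ i ∈ s, Pi.single i (v i)))
      = QM n F a b (∑ i ∈ s, Pi.single i (v i) : Fin n → F) := by
    intro s
    induction s using Finset.induction_on with
    | empty => simp
    | insert i s hi ih =>
      rw [Finset.sum_insert hi, Matrix.mulVec_add, QM_add h2, QM_add h2, hBA, ih, hcol, hsm, hQ,
        hsg i (v i), hsm]
  have hv : v = ∑ i ∈ (Finset.univ : Finset (Fin n)), Pi.single i (v i) := by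
    ext i
    simp [Finset.sum_apply, Pi.single_apply]
  have := key Finset.univ
  rw [← hv] at this
  exact this

theorem mk [Finite F] (h2 : n % 2 = 0) (hn : 2 ≤ n) (hab : Ani a b) (M : Matrix (Fin n) (Fin n) F)
    (hB : ∀ i j : Fin n, BM n F a b (fun x => M x i) (fun x => M x j) = BM n F a b (Pi.single i 1) (Pi.single j 1))
    (hQ : ∀ i : Fin n, QM n F a b (fun x => M x i) = QM n F a b (Pi.single i 1)) : ∃ g : GM n F a b, mt g = M := by
  have hBA := star_BM_of h2 M hB
  have hQA := star_QM_of h2 M hBA hQ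
  have hnd := QF_nondeg (a := a) (b := b) h2 hn hab
  have hinj : Function.Injective M.mulVec := by
    have : Function.Injective (Matrix.toLin' M) := by
      rw [← LinearMap.ker_eq_bot, LinearMap.ker_eq_bot']
      intro v hv
      rw [Matrix.toLin'_apply] at hv
      apply hnd.1
      intro u
      rw [← star_BM_eq h2, ← hBA, hv, star_BM_eq h2]
      simp
    intro u v huv
    exact this (by simpa [Matrix.toLin'_apply] using huv)
  have hu : IsUnit M := Matrix.mulVec_injective_iff_isUnit.1 hinj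
  exact ⟨⟨hu.unit, fun u _ => hQA u⟩, rfl⟩

end Cfsg.Agent.Lib.H49SmStar
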