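import Mathlib
import Cfsg.Agent.Lib.H49SmDefs
import Cfsg.Agent.Lib.H49SmQF
import Cfsg.Agent.Lib.H49SmQFn
import Cfsg.Agent.Lib.H49SmStar

set_option autoImplicit false

/-! Project 2549 (Steinberg character of `POmega-_{2m+2}(q)`), piece `Inv` (25m).

From `BM_inv` with `u = e_{y}`, `v = e_{rev x}` and `BM_single_left/right`. -/

namespace Cfsg.Agent.Lib.H49SmInv

open Matrix Cfsg.Agent.Lib.H49SmDefs
open Cfsg.Agent.Lib.H49SuDefs (sgm Inv)
open Cfsg.Agent.Lib.H49SmQF Cfsg.Agent.Lib.H49SmQFn Cfsg.Agent.Lib.H49SmStar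

variable {n : ℕ} {F : Type*} [Field F] {a b : F}

theorem not_md_rev_inv (h2 : n % 2 = 0) {x : Fin n} (hx : ¬ md n x) : ¬ md n (Fin.rev x) := by
  unfold md at hx ⊢
  rw [Fin.val_rev]
  have := x.2
  omega

/-- row `x` (non-middle) of `g⁻¹` in terms of column `rev x` of `g` -/
theorem inv_row (h2 : n % 2 = 0) (g : GM n F a b) (x : Fin n) (hx : ¬ md n x) (u : Fin n → F) :
    (mt g⁻¹ *ᵥ u) x = BM n F a b u (fun z => mt g z (Fin.rev x)) := by
  have h1 := BM_single_right (a := a) (b := b) h2 (Fin.rev x) (not_md_rev_inv h2 hx) (mt g⁻¹ *ᵥ u)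
  rw [Fin.rev_rev] at h1
  rw [← h1, BM_inv h2]
  congr 1
  ext z
  rw [Matrix.mulVec_single_one]
  rfl

theorem inv_apply (h2 : n % 2 = 0) (g : GM n F a b) (x y : Fin n) (hx : ¬ md n x) (hy : ¬ md n y) :
    mt g⁻¹ x y = mt g (Fin.rev y) (Fin.rev x) := by
  have h1 := inv_row h2 g x hx (Pi.single y 1)
  rw [BM_single_left h2 y hy, Matrix.mulVec_single_one] at h1
  exact h1

end Cfsg.Agent.Lib.H49SmInv
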