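import Mathlib
import Cfsg.Agent.Lib.H49SmDefs
import Cfsg.Agent.Lib.H49SmGrp
import Cfsg.Agent.Lib.H49SmQF
import Cfsg.Agent.Lib.H49SmQFn
import Cfsg.Agent.Lib.H49SmStar
import Cfsg.Agent.Lib.H49SmInv

set_option autoImplicit false

/-! Project 2549 (Steinberg character of `POmega-_{2m+2}(q)`), piece `Mem` (40m).

ADAPT the landed `H49SpMem`.  If `mt g` is block upper triangular then so is `mt g⁻¹` (the inverse of an invertible block triangular matrix; or use `inv_apply`/`inv_row`: for non-middle `x, y` directly; for `x` non-middle and `y` middle, `y < x`: `inv_row`, the column `rev x` of `g` is supported on indices `≤ rev x < ` middle, so `BM e_y col = 0`; for `x` middle, `y < x` non-middle: use `g * g⁻¹ = 1` / apply the previous case to the transpose-like statement `BM_inv`). -/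

namespace Cfsg.Agent.Lib.H49SmMem

open Matrix Cfsg.Agent.Lib.H49SmDefs
open Cfsg.Agent.Lib.H49SuDefs (sgm Inv)
open Cfsg.Agent.Lib.H49SmGrp Cfsg.Agent.Lib.H49SmQF Cfsg.Agent.Lib.H49SmQFn Cfsg.Agent.Lib.H49SmStar Cfsg.Agent.Lib.H49SmInv

variable {n : ℕ} {F : Type*} [Field F] {a b : F}

/-- in the finite group `GM`, `g⁻¹` is a power of `g` -/
theorem inv_of_closed_Mem [Finite F] (P : Matrix (Fin n) (Fin n) F → Prop) (h1 : P 1)
    (hm : ∀ {M N : Matrix (Fin n) (Fin n) F}, P M → P N → P (M * N)) {g : GM n F a b} (h : P (mt g)) :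
    P (mt g⁻¹) := by
  have hfin : Finite (GM n F a b) := inferInstance
  have hpow : ∀ k : ℕ, P (mt (g ^ k)) := by
    intro k
    induction k with
    | zero => rw [pow_zero, mt_one]; exact h1
    | succ k ih => rw [pow_succ, mt_mul]; exact hm ih h
  have hinv : g⁻¹ = g ^ (orderOf g - 1) := by
    apply inv_eq_of_mul_eq_one_right
    rw [← pow_succ', Nat.sub_add_cancel (orderOf_pos g), pow_orderOf_eq_one]
  rw [hinv]
  exact hpow _

theorem mem_BB [Finite F] (h2 : n % 2 = 0) (hn : 2 ≤ n) (hab : Ani a b) {g : GM n F a b} : g ∈ BB n F a b ↔ BTri (mt g) :=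
  ⟨fun h => h.1, fun h => ⟨h, inv_of_closed_Mem BTri BTri_one BTri_mul h⟩⟩

theorem mem_TT [Finite F] (h2 : n % 2 = 0) (hn : 2 ≤ n) (hab : Ani a b) {g : GM n F a b} : g ∈ TT n F a b ↔ BDg (mt g) :=
  ⟨fun h => h.1, fun h => ⟨h, inv_of_closed_Mem BDg BDg_one BDg_mul h⟩⟩

theorem mem_UU [Finite F] (h2 : n % 2 = 0) (hn : 2 ≤ n) (hab : Ani a b) {g : GM n F a b} : g ∈ UU n F a b ↔ UTm (mt g) :=
  ⟨fun h => h.1, fun h => ⟨h, inv_of_closed_Mem UTm UTm_one UTm_mul h⟩⟩

end Cfsg.Agent.Lib.H49SmMem
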