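import Mathlib
import Cfsg.Agent.Lib.H49SuDefs

set_option autoImplicit false

/-! Project 2546 (Steinberg character of `PSU_n(q)`), piece `Sgm` (40m).

Pure combinatorics of `sgm n k` (unfold `sgm`, split the `dite`s; `Equiv.swap_apply_def`, `Fin.ext_iff`, `Fin.val_rev`/`Fin.rev` = `n - 1 - a`, `omega`).  For the sign: `Equiv.Perm.sign_swap`, `Equiv.Perm.sign_mul`. -/

namespace Cfsg.Agent.Lib.H49SuSgm

open Matrix Cfsg.Agent.Lib.H49SuDefs

variable {n : ℕ} {F : Type*} [Field F] {q : ℕ}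

theorem swap_val {n : ℕ} (x y a : Fin n) : (Equiv.swap x y a).val =
    if a.val = x.val then y.val else if a.val = y.val then x.val else a.val := by
  rw [Equiv.swap_apply_def]
  simp only [Fin.ext_iff]
  split_ifs <;> rfl

/-- the values of `sgm n k` -/
theorem sgm_val_gl {n k : ℕ} (hk : 2 * k + 3 < n) (a : Fin n) :
    (sgm n k a).val = if a.val = k then k + 1 else if a.val = k + 1 then k
      else if a.val + k + 1 = n then n - k - 2 else if a.val + k + 2 = n then n - k - 1 else a.val := by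
  unfold sgm
  rw [dif_pos hk, Equiv.Perm.mul_apply, swap_val, swap_val]
  have := a.isLt
  simp only [Fin.val_rev]
  split_ifs <;> omega

theorem sgm_val_last {n k : ℕ} (hk : 2 * k + 2 ≤ n) (hk' : n ≤ 2 * k + 3) (a : Fin n) :
    (sgm n k a).val = if a.val = k then n - k - 1 else if a.val + k + 1 = n then k else a.val := by
  unfold sgm
  rw [dif_neg (by omega), dif_pos hk, swap_val]
  have := a.isLt
  simp only [Fin.val_rev]
  split_ifs <;> omega

theorem sgm_none {n k : ℕ} (hk : n < 2 * k + 2) : sgm n k = 1 := by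
  unfold sgm
  rw [dif_neg (by omega), dif_neg (by omega)]

theorem sgm_rev (n k : ℕ) (a : Fin n) : sgm n k (Fin.rev a) = Fin.rev (sgm n k a) := by
  have := a.isLt
  apply Fin.ext
  rw [Fin.val_rev]
  by_cases h1 : 2 * k + 3 < n
  · rw [sgm_val_gl h1, sgm_val_gl h1, Fin.val_rev]
    split_ifs <;> omega
  · by_cases h2 : 2 * k + 2 ≤ n
    · rw [sgm_val_last h2 (by omega), sgm_val_last h2 (by omega), Fin.val_rev]
      split_ifs <;> omega
    · rw [sgm_none (by omega)]
      simp [Fin.val_rev]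

theorem sgm_mul_self (n k : ℕ) : sgm n k * sgm n k = 1 := by
  ext a
  have := a.isLt
  rw [Equiv.Perm.mul_apply, Equiv.Perm.one_apply]
  by_cases h1 : 2 * k + 3 < n
  · rw [sgm_val_gl h1, sgm_val_gl h1]
    split_ifs <;> omega
  · by_cases h2 : 2 * k + 2 ≤ n
    · rw [sgm_val_last h2 (by omega), sgm_val_last h2 (by omega)]
      split_ifs <;> omega
    · rw [sgm_none (by omega)]
      simp

theorem sgm_k_ne {n k : ℕ} (hk : 2 * k + 2 ≤ n) (a : Fin n) (ha : a.val = k) : (sgm n k a).val ≠ k := by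
  by_cases h1 : 2 * k + 3 < n
  · rw [sgm_val_gl h1, if_pos ha]
    omega
  · rw [sgm_val_last hk (by omega), if_pos ha]
    omega

theorem sgm_fix_lt {n k : ℕ} (a : Fin n) (ha : a.val < k) : (sgm n k a).val = a.val := by
  have := a.isLt
  by_cases h1 : 2 * k + 3 < n
  · rw [sgm_val_gl h1]
    split_ifs <;> omega
  · by_cases h2 : 2 * k + 2 ≤ n
    · rw [sgm_val_last h2 (by omega)]
      split_ifs <;> omega
    · rw [sgm_none (by omega)]
      rfl

theorem sgm_inj {n k k' : ℕ} (hk : 2 * k + 2 ≤ n) (hk' : 2 * k' + 2 ≤ n) (h : sgm n k = sgm n k') : k = k' := by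
  rcases lt_trichotomy k k' with h1 | h1 | h1
  · exfalso
    have h2 := sgm_k_ne hk ⟨k, by omega⟩ rfl
    rw [h, sgm_fix_lt _ (by exact h1)] at h2
    exact h2 rfl
  · exact h1
  · exfalso
    have h2 := sgm_k_ne hk' ⟨k', by omega⟩ rfl
    rw [← h, sgm_fix_lt _ (by exact h1)] at h2
    exact h2 rfl

theorem sign_gl {n k : ℕ} (hk : 2 * k + 3 < n) : Equiv.Perm.sign (sgm n k) = 1 := by
  unfold sgm
  rw [dif_pos hk, Equiv.Perm.sign_mul, Equiv.Perm.sign_swap, Equiv.Perm.sign_swap]
  · rfl
  · intro h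
    have := congrArg Fin.val h
    simp only [Fin.val_rev] at this
    omega
  · intro h
    have := congrArg Fin.val h
    simp only at this
    omega

theorem sign_last {n k : ℕ} (hk : 2 * k + 2 ≤ n) (hk' : n ≤ 2 * k + 3) : Equiv.Perm.sign (sgm n k) = -1 := by
  unfold sgm
  rw [dif_neg (by omega), dif_pos hk, Equiv.Perm.sign_swap]
  intro h
  have := congrArg Fin.val h
  simp only [Fin.val_rev] at this
  omega

end Cfsg.Agent.Lib.H49SuSgm
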