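import Mathlib
import Cfsg.Agent.Lib.H49SmDefs
import Cfsg.Agent.Lib.H49SmGrp
import Cfsg.Agent.Lib.H49SmQF
import Cfsg.Agent.Lib.H49SmQFn
import Cfsg.Agent.Lib.H49SmStar
import Cfsg.Agent.Lib.H49SuSgm

set_option autoImplicit false

/-! Project 2549 (Steinberg character of `POmega-_{2m+2}(q)`), piece `Perm` (35m).

Permutation matrices of admissible permutations.  `mt_pm`: `Star.mk` (or directly: `QM (pMat π *ᵥ v) = QM (v ∘ π⁻¹) = QM v` by reindexing the sum with `π`; the unit `⟨pMat π, pMat π⁻¹, _, _⟩`), then `dif_pos`, `choose_spec`.  `pm_mul`: `mt_inj`, `pMat (π * ρ) = pMat π * pMat ρ`.  `Adm_sgB`: `H49SuSgm.sgm_rev`, `sgm_val_gl`. -/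

namespace Cfsg.Agent.Lib.H49SmPerm

open Matrix Cfsg.Agent.Lib.H49SmDefs
open Cfsg.Agent.Lib.H49SuDefs (sgm Inv)
open Cfsg.Agent.Lib.H49SmGrp Cfsg.Agent.Lib.H49SmQF Cfsg.Agent.Lib.H49SmQFn Cfsg.Agent.Lib.H49SmStar

variable {n : ℕ} {F : Type*} [Field F] {a b : F}

theorem pMat_mulVec (π : Equiv.Perm (Fin n)) (v : Fin n → F) :
    pMat F π *ᵥ v = fun x => v (π⁻¹ x) := by
  funext x
  simp only [Matrix.mulVec, dotProduct, pMat]
  rw [Finset.sum_eq_single (π⁻¹ x)]
  · simp
  · intro y _ hy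
    rw [if_neg, zero_mul]
    intro h; apply hy; rw [h]; simp
  · intro h; exact absurd (Finset.mem_univ _) h

theorem pMat_mul (π ρ : Equiv.Perm (Fin n)) : pMat F (π * ρ) = pMat F π * pMat F ρ := by
  ext x y
  simp only [Matrix.mul_apply, pMat]
  rw [Finset.sum_eq_single (ρ y)]
  · by_cases h : x = π (ρ y) <;> simp [h]
  · intro z _ hz
    simp [hz]
  · intro h; exact absurd (Finset.mem_univ _) h

theorem pMat_one : pMat F (1 : Equiv.Perm (Fin n)) = 1 := by
  ext x y
  by_cases h : x = y <;> simp [pMat, Matrix.one_apply, h]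

theorem nmd_of {ρ : Equiv.Perm (Fin n)} (hρ : Adm n ρ) {i : Fin n} (hi : ¬ md n i) :
    ¬ md n (ρ i) := by
  intro h
  have h1 := hρ.2 _ h
  have h2 := ρ.injective h1
  rw [h2] at h; exact hi h

theorem QM_comp (h2 : n % 2 = 0) {ρ : Equiv.Perm (Fin n)} (hρ : Adm n ρ) (v : Fin n → F) :
    QM n F a b (fun x => v (ρ x)) = QM n F a b v := by
  classical
  set e : Fin n → Fin n := fun i =>
    if (i.val + 1 < n / 2 ↔ (ρ i).val + 1 < n / 2) then ρ i else Fin.rev (ρ i) with he
  have key : ∀ i j : Fin n, (i.val + 1 < n / 2 ↔ (ρ i).val + 1 < n / 2) →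
      ¬ (j.val + 1 < n / 2 ↔ (ρ j).val + 1 < n / 2) → ρ i ≠ Fin.rev (ρ j) := by
    intro i j ci cj hij
    rw [← hρ.1] at hij
    have hi := ρ.injective hij
    subst hi
    rw [hρ.1, Fin.val_rev, Fin.val_rev] at ci
    have hm : ¬ md n j := by
      intro hm
      apply cj
      rw [hρ.2 _ hm]
    have hm' := nmd_of hρ hm
    unfold md at hm hm'
    have := j.isLt
    have := (ρ j).isLt
    omega
  have hinj : Function.Injective e := by
    intro i j hij
    simp only [he] at hij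
    by_cases ci : (i.val + 1 < n / 2 ↔ (ρ i).val + 1 < n / 2) <;>
      by_cases cj : (j.val + 1 < n / 2 ↔ (ρ j).val + 1 < n / 2)
    · rw [if_pos ci, if_pos cj] at hij
      exact ρ.injective hij
    · rw [if_pos ci, if_neg cj] at hij
      exact absurd hij (key i j ci cj)
    · rw [if_neg ci, if_pos cj] at hij
      exact absurd hij.symm (key j i cj ci)
    · rw [if_neg ci, if_neg cj] at hij
      exact ρ.injective (Fin.rev_injective hij)
  have hb : Function.Bijective e := Finite.injective_iff_bijective.mp hinj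
  unfold QM
  refine Eq.trans ?_ (hb.sum_comp _)
  apply Finset.sum_congr rfl
  intro i _
  by_cases hm : md n i
  · have h1 : ρ i = i := hρ.2 _ hm
    have hei : e i = i := by simp [he, h1]
    have h3 : ρ (Fin.rev i) = Fin.rev i := by rw [hρ.1, h1]
    rw [hei]
    simp only [h1, h3]
  · have hm' := nmd_of hρ hm
    unfold md at hm hm'
    have := i.isLt
    have := (ρ i).isLt
    simp only [hρ.1 i]
    by_cases c : (i.val + 1 < n / 2 ↔ (ρ i).val + 1 < n / 2)
    · have hei : e i = ρ i := if_pos c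
      rw [hei]
      by_cases A : i.val + 1 < n / 2
      · rw [if_pos A, if_pos (c.mp A)]
      · have B : ¬ (ρ i).val + 1 < n / 2 := fun h => A (c.mpr h)
        rw [if_neg A, if_neg (by omega), if_neg B, if_neg (by omega)]
    · have hei : e i = Fin.rev (ρ i) := if_neg c
      rw [hei, Fin.rev_rev]
      by_cases A : i.val + 1 < n / 2
      · have B : (Fin.rev (ρ i)).val + 1 < n / 2 := by rw [Fin.val_rev]; omega
        rw [if_pos A, if_pos B, mul_comm]
      · have B : ¬ (Fin.rev (ρ i)).val + 1 < n / 2 := by rw [Fin.val_rev]; omega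
        have B' : ¬ (Fin.rev (ρ i)).val + 1 = n / 2 := by rw [Fin.val_rev]; omega
        rw [if_neg A, if_neg (by omega), if_neg B, if_neg B']

theorem Adm_mul {π ρ : Equiv.Perm (Fin n)} (hπ : Adm n π) (hρ : Adm n ρ) : Adm n (π * ρ) := by
  refine ⟨fun x => ?_, fun x hx => ?_⟩
  · rw [Equiv.Perm.mul_apply, Equiv.Perm.mul_apply, hρ.1, hπ.1]
  · rw [Equiv.Perm.mul_apply, hρ.2 x hx, hπ.2 x hx]

theorem Adm_inv {π : Equiv.Perm (Fin n)} (hπ : Adm n π) : Adm n π⁻¹ := by
  refine ⟨fun x => ?_, fun x hx => ?_⟩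
  · apply π.injective
    rw [hπ.1]
    simp
  · apply π.injective
    rw [hπ.2 x hx]
    simp

theorem Adm_one : Adm n 1 := ⟨fun _ => rfl, fun _ _ => rfl⟩

theorem mt_pm (h2 : n % 2 = 0) {π : Equiv.Perm (Fin n)} (hπ : Adm n π) : mt (pm n F a b π) = pMat F π := by
  have hex : ∃ s : GM n F a b, mt s = pMat F π := by
    have h1 : pMat F π * pMat F π⁻¹ = 1 := by rw [← pMat_mul, mul_inv_cancel, pMat_one]
    have h2' : pMat F π⁻¹ * pMat F π = 1 := by rw [← pMat_mul, inv_mul_cancel, pMat_one]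
    refine ⟨⟨⟨pMat F π, pMat F π⁻¹, h1, h2'⟩, ?_⟩, rfl⟩
    intro u _
    show QM n F a b (pMat F π *ᵥ u) = QM n F a b u
    rw [pMat_mulVec]
    exact QM_comp h2 (Adm_inv hπ) u
  unfold pm
  rw [dif_pos hex]
  exact hex.choose_spec

theorem pm_mul (h2 : n % 2 = 0) {π ρ : Equiv.Perm (Fin n)} (hπ : Adm n π) (hρ : Adm n ρ) :
    pm n F a b (π * ρ) = pm n F a b π * pm n F a b ρ := by
  apply mt_inj
  rw [mt_mul, mt_pm h2 hπ, mt_pm h2 hρ, mt_pm h2 (Adm_mul hπ hρ), pMat_mul]

theorem pm_one : pm n F a b 1 = 1 := by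
  have hex : ∃ s : GM n F a b, mt s = pMat F (1 : Equiv.Perm (Fin n)) := ⟨1, by rw [mt_one, pMat_one]⟩
  apply mt_inj
  unfold pm
  rw [dif_pos hex, hex.choose_spec, mt_one, pMat_one]

theorem pm_inv (h2 : n % 2 = 0) {π : Equiv.Perm (Fin n)} (hπ : Adm n π) : (pm n F a b π)⁻¹ = pm n F a b π⁻¹ := by
  rw [inv_eq_iff_mul_eq_one, ← pm_mul h2 hπ (Adm_inv hπ), mul_inv_cancel, pm_one]

theorem Adm_sgB (h2 : n % 2 = 0) (k : ℕ) : Adm n (sgB n k) := by
  unfold sgB
  split_ifs with h1 h3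
  · refine ⟨fun x => Cfsg.Agent.Lib.H49SuSgm.sgm_rev n k x, fun x hx => ?_⟩
    apply Fin.ext
    rw [Cfsg.Agent.Lib.H49SuSgm.sgm_val_gl (by omega)]
    unfold md at hx
    have := x.isLt
    split_ifs <;> omega
  · refine ⟨fun x => ?_, fun x hx => ?_⟩
    · by_cases hx1 : x = ⟨k, by omega⟩
      · subst hx1
        rw [Equiv.swap_apply_right, Equiv.swap_apply_left, Fin.rev_rev]
      · by_cases hx2 : x = Fin.rev ⟨k, by omega⟩
        · subst hx2
          rw [Fin.rev_rev, Equiv.swap_apply_right, Equiv.swap_apply_left]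
        · rw [Equiv.swap_apply_of_ne_of_ne hx1 hx2, Equiv.swap_apply_of_ne_of_ne]
          · intro h; apply hx2; rw [← h, Fin.rev_rev]
          · intro h; exact hx1 (Fin.rev_injective h)
    · unfold md at hx
      apply Equiv.swap_apply_of_ne_of_ne
      · intro h; rw [h] at hx; simp only at hx; omega
      · intro h; rw [h, Fin.val_rev] at hx; simp only at hx; omega
  · exact Adm_one

theorem sgB_mul_self (k : ℕ) : sgB n k * sgB n k = 1 := by
  unfold sgB
  split_ifs with h1 h3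
  · exact Cfsg.Agent.Lib.H49SuSgm.sgm_mul_self n k
  · exact Equiv.swap_mul_self _ _
  · exact one_mul 1

/-- conjugation by a permutation matrix permutes the entries -/
theorem conj_apply (h2 : n % 2 = 0) {π : Equiv.Perm (Fin n)} (hπ : Adm n π) (g : GM n F a b) (x y : Fin n) :
    mt (pm n F a b π * g * (pm n F a b π)⁻¹) (π x) (π y) = mt g x y := by
  rw [pm_inv h2 hπ, mt_mul, mt_mul, mt_pm h2 hπ, mt_pm h2 (Adm_inv hπ), Matrix.mul_apply]
  rw [Finset.sum_eq_single y]
  · rw [Matrix.mul_apply, Finset.sum_eq_single x]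
    · simp [pMat]
    · intro z _ hz
      have : π x ≠ π z := fun h => hz (π.injective h).symm
      simp [pMat, this]
    · intro h; exact absurd (Finset.mem_univ _) h
  · intro z _ hz
    simp [pMat, hz]
  · intro h; exact absurd (Finset.mem_univ _) h

end Cfsg.Agent.Lib.H49SmPerm
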