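import Mathlib
import Cfsg.Agent.Lib.H49SmDefs
import Cfsg.Agent.Lib.H49SmGrp
import Cfsg.Agent.Lib.H49SmQF
import Cfsg.Agent.Lib.H49SmQFn
import Cfsg.Agent.Lib.H49SmStar
import Cfsg.Agent.Lib.H49SmInv
import Cfsg.Agent.Lib.H49SmMem
import Cfsg.Agent.Lib.H49SmPerm

set_option autoImplicit false

/-! Project 2549 (Steinberg character of `POmega-_{2m+2}(q)`), piece `A2` (30m).

ADAPT the landed `H49SpA2`: by `conj_apply`, the entry of `s c s⁻¹` at `(σ x, σ y)` is `c x y`; if `σ y < σ x` (not both middle) and `c x y ≠ 0` then `x ≤ y`-block-wise, so `x < y` and `InvB n k x y`, contradiction with `h0`. -/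

namespace Cfsg.Agent.Lib.H49SmA2

open Matrix Cfsg.Agent.Lib.H49SmDefs
open Cfsg.Agent.Lib.H49SuDefs (sgm Inv)
open Cfsg.Agent.Lib.H49SmGrp Cfsg.Agent.Lib.H49SmQF Cfsg.Agent.Lib.H49SmQFn Cfsg.Agent.Lib.H49SmStar Cfsg.Agent.Lib.H49SmInv Cfsg.Agent.Lib.H49SmMem Cfsg.Agent.Lib.H49SmPerm

variable {n : ℕ} {F : Type*} [Field F] {a b : F}

theorem conj_mem_BB [Finite F] (h2 : n % 2 = 0) (hn : 2 ≤ n) (hab : Ani a b) {k : ℕ} {c : GM n F a b} (hc : c ∈ BB n F a b)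
    (h0 : ∀ x y, InvB n k x y → mt c x y = 0) :
    pm n F a b (sgB n k) * c * (pm n F a b (sgB n k))⁻¹ ∈ BB n F a b := by
  rw [mem_BB h2 hn hab]
  intro x y hxy hmd
  have hcT : BTri (mt c) := (mem_BB h2 hn hab).1 hc
  have hA : Adm n (sgB n k) := Adm_sgB h2 k
  obtain ⟨x', hx'⟩ : ∃ x', x' = (sgB n k)⁻¹ x := ⟨_, rfl⟩
  obtain ⟨y', hy'⟩ : ∃ y', y' = (sgB n k)⁻¹ y := ⟨_, rfl⟩
  have ex : x = sgB n k x' := by rw [hx']; simp
  have ey : y = sgB n k y' := by rw [hy']; simp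
  have key : mt c x' y' = 0 := by
    rcases lt_trichotomy y' x' with h1 | h1 | h1
    · apply hcT x' y' h1
      rintro ⟨m1, m2⟩
      apply hmd
      rw [ex, ey, hA.2 x' m1, hA.2 y' m2]
      exact ⟨m1, m2⟩
    · exfalso
      rw [ex, ey, h1] at hxy
      exact lt_irrefl _ hxy
    · apply h0
      refine ⟨h1, ?_⟩
      rw [← ex, ← ey]; exact hxy
  rw [ex, ey, conj_apply h2 hA]
  exact key

end Cfsg.Agent.Lib.H49SmA2
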