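import Mathlib
import Cfsg.Agent.Lib.H49SmDefs
import Cfsg.Agent.Lib.H49SmGrp
import Cfsg.Agent.Lib.H49SmQF
import Cfsg.Agent.Lib.H49SmQFn
import Cfsg.Agent.Lib.H49SmStar
import Cfsg.Agent.Lib.H49SmInv
import Cfsg.Agent.Lib.H49SmMem
import Cfsg.Agent.Lib.H49SmPerm

set_option autoImplicit false

/-! Project 2549 (Steinberg character of `POmega-_{2m+2}(q)`), piece `Form` (35m).

Normal form of `NN = closure SB ⊔ TT`.  `pm_conj_TT`: by `conj_apply` and `mem_TT` (`π` maps middle to middle and non-middle to non-middle).  `NN_form`: the set `{pm π * t | Adm π, t ∈ TT}` is a subgroup (`pm π t pm ρ t' = pm (π ρ) ((pm ρ)⁻¹ t pm ρ) t'`) containing `SB` and `TT` (`sup_le`, `Subgroup.closure_le`). -/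

namespace Cfsg.Agent.Lib.H49SmForm

open Matrix Cfsg.Agent.Lib.H49SmDefs
open Cfsg.Agent.Lib.H49SuDefs (sgm Inv)
open Cfsg.Agent.Lib.H49SmGrp Cfsg.Agent.Lib.H49SmQF Cfsg.Agent.Lib.H49SmQFn Cfsg.Agent.Lib.H49SmStar Cfsg.Agent.Lib.H49SmInv Cfsg.Agent.Lib.H49SmMem Cfsg.Agent.Lib.H49SmPerm

variable {n : ℕ} {F : Type*} [Field F] {a b : F}

theorem pm_conj_TT [Finite F] (h2 : n % 2 = 0) (hn : 2 ≤ n) (hab : Ani a b) {π : Equiv.Perm (Fin n)} (hπ : Adm n π)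
    {t : GM n F a b} (ht : t ∈ TT n F a b) : pm n F a b π * t * (pm n F a b π)⁻¹ ∈ TT n F a b := by
  rw [mem_TT h2 hn hab] at ht ⊢
  intro x y hxy hm
  have hx : π (π⁻¹ x) = x := by simp
  have hy : π (π⁻¹ y) = y := by simp
  have h := conj_apply (a := a) (b := b) h2 hπ t (π⁻¹ x) (π⁻¹ y)
  rw [hx, hy] at h
  rw [h]
  apply ht
  · intro e
    apply hxy
    rw [← hx, ← hy, e]
  · rintro ⟨m1, m2⟩
    apply hm
    have e1 := hπ.2 _ m1
    have e2 := hπ.2 _ m2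
    rw [hx] at e1
    rw [hy] at e2
    constructor
    · rw [e1]; exact m1
    · rw [e2]; exact m2

theorem Adm_one_form : Adm n (1 : Equiv.Perm (Fin n)) := ⟨fun _ => rfl, fun _ _ => rfl⟩

/-- the subgroup of the normal forms -/
def formSub [Finite F] (h2 : n % 2 = 0) (hn : 2 ≤ n) (hab : Ani a b) : Subgroup (GM n F a b) where
  carrier := {g | ∃ π, Adm n π ∧ ∃ t ∈ TT n F a b, g = pm n F a b π * t}
  one_mem' := ⟨1, Adm_one_form, 1, (TT n F a b).one_mem, by rw [pm_one, mul_one]⟩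
  mul_mem' := by
    rintro g h ⟨π, hπ, t, ht, rfl⟩ ⟨ρ, hρ, t', ht', rfl⟩
    refine ⟨π * ρ, Adm_mul hπ hρ, (pm n F a b ρ⁻¹ * t * (pm n F a b ρ⁻¹)⁻¹) * t',
      (TT n F a b).mul_mem (pm_conj_TT h2 hn hab (Adm_inv hρ) ht) ht', ?_⟩
    rw [pm_mul h2 hπ hρ, ← pm_inv h2 hρ, inv_inv]
    group
  inv_mem' := by
    rintro g ⟨π, hπ, t, ht, rfl⟩
    refine ⟨π⁻¹, Adm_inv hπ, pm n F a b π * t⁻¹ * (pm n F a b π)⁻¹,
      pm_conj_TT h2 hn hab hπ ((TT n F a b).inv_mem ht), ?_⟩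
    rw [← pm_inv h2 hπ]
    group

theorem NN_form [Finite F] (h2 : n % 2 = 0) (hn : 2 ≤ n) (hab : Ani a b) {g : GM n F a b} (hg : g ∈ NN n F a b) :
    ∃ π, Adm n π ∧ ∃ t ∈ TT n F a b, g = pm n F a b π * t := by
  have hle : NN n F a b ≤ formSub h2 hn hab := by
    apply sup_le
    · rw [Subgroup.closure_le]
      rintro s ⟨k, _, rfl⟩
      exact ⟨sgB n k, Adm_sgB h2 k, 1, (TT n F a b).one_mem, by rw [mul_one]⟩
    · intro t ht
      exact ⟨1, Adm_one_form, t, ht, by rw [pm_one, one_mul]⟩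
  exact hle hg

theorem NN_conj_TT [Finite F] (h2 : n % 2 = 0) (hn : 2 ≤ n) (hab : Ani a b) {g t : GM n F a b} (hg : g ∈ NN n F a b)
    (ht : t ∈ TT n F a b) : g * t * g⁻¹ ∈ TT n F a b := by
  obtain ⟨π, hπ, t0, ht0, rfl⟩ := NN_form h2 hn hab hg
  have h := pm_conj_TT h2 hn hab hπ
    ((TT n F a b).mul_mem ((TT n F a b).mul_mem ht0 ht) ((TT n F a b).inv_mem ht0))
  have e : pm n F a b π * t0 * t * (pm n F a b π * t0)⁻¹
      = pm n F a b π * (t0 * t * t0⁻¹) * (pm n F a b π)⁻¹ := by group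
  rw [e]
  exact h

end Cfsg.Agent.Lib.H49SmForm
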