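import Mathlib
import Cfsg.Agent.Lib.H49SmDefs
import Cfsg.Agent.Lib.H49SmGrp
import Cfsg.Agent.Lib.H49SmQF
import Cfsg.Agent.Lib.H49SmQFn
import Cfsg.Agent.Lib.H49SmStar
import Cfsg.Agent.Lib.H49SmInv
import Cfsg.Agent.Lib.H49SmMem
import Cfsg.Agent.Lib.H49SmPerm
import Cfsg.Agent.Lib.H49SmForm

set_option autoImplicit false

/-! Project 2549 (Steinberg character of `POmega-_{2m+2}(q)`), piece `BNT` (30m).

`pm_BB`: a block upper triangular permutation matrix of an admissible `π` is `1`: `pMat π (π y) y = 1 ≠ 0` so `¬ (y < π y)` for non-middle `y`, i.e. `π y ≤ y` for all `y`, hence `π = 1` (finite order argument: `π y ≤ y` for all `y` implies `π = 1`, strong induction on `y`).  `BB_inf_NN`: `g = pm π * t ∈ BB` gives `pm π ∈ BB`.  `inj`: `(pm σ)⁻¹ * pm σ' = pm (σ⁻¹ σ') ∈ BB` gives `σ = σ'`; `sgB n k = sgB n k' → k = k'` (evaluate at `k`, `k'`; compare `H49SuSgm.sgm_inj`). -/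

namespace Cfsg.Agent.Lib.H49SmBNT

open Matrix Cfsg.Agent.Lib.H49SmDefs
open Cfsg.Agent.Lib.H49SuDefs (sgm Inv)
open Cfsg.Agent.Lib.H49SmGrp Cfsg.Agent.Lib.H49SmQF Cfsg.Agent.Lib.H49SmQFn Cfsg.Agent.Lib.H49SmStar Cfsg.Agent.Lib.H49SmInv Cfsg.Agent.Lib.H49SmMem Cfsg.Agent.Lib.H49SmPerm Cfsg.Agent.Lib.H49SmForm

variable {n : ℕ} {F : Type*} [Field F] {a b : F}

theorem pm_BB [Finite F] (h2 : n % 2 = 0) (hn : 2 ≤ n) (hab : Ani a b) {π : Equiv.Perm (Fin n)} (hπ : Adm n π)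
    (h : pm n F a b π ∈ BB n F a b) : π = 1 := by
  have hB : BTri (pMat F π) := by
    rw [← mt_pm (F := F) (a := a) (b := b) h2 hπ]
    exact h.1
  have hle : ∀ y, π y ≤ y := by
    intro y
    by_cases hm : md n y
    · rw [hπ.2 y hm]
    · by_contra hlt
      have h1 := hB (π y) y (not_le.1 hlt) (fun hh => hm hh.2)
      have h3 : pMat F π (π y) y = 1 := by simp [pMat]
      rw [h3] at h1
      exact one_ne_zero h1
  have key : ∀ (m : ℕ) (y : Fin n), y.val = m → π y = y := by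
    intro m
    induction m using Nat.strong_induction_on with
    | _ m ih =>
      intro y hy
      rcases lt_or_eq_of_le (hle y) with hlt | heq
      · have h1 := ih (π y).val (by rw [← hy]; exact hlt) (π y) rfl
        exact π.injective h1
      · exact heq
  exact Equiv.ext (fun y => key y.val y rfl)

theorem BB_inf_NN [Finite F] (h2 : n % 2 = 0) (hn : 2 ≤ n) (hab : Ani a b) : BB n F a b ⊓ NN n F a b = TT n F a b := by
  apply le_antisymm
  · rintro g ⟨hgB, hgN⟩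
    obtain ⟨π, hπ, t, ht, rfl⟩ := NN_form h2 hn hab hgN
    have h1 : pm n F a b π ∈ BB n F a b := by
      have e : pm n F a b π = (pm n F a b π * t) * t⁻¹ := by group
      rw [e]
      exact (BB n F a b).mul_mem hgB ((BB n F a b).inv_mem (TT_le_BB ht))
    have h3 := pm_BB h2 hn hab hπ h1
    rw [h3, pm_one, one_mul]
    exact ht
  · exact le_inf TT_le_BB le_sup_right

theorem inj [Finite F] (h2 : n % 2 = 0) (hn : 2 ≤ n) (hab : Ani a b) :
    ∀ s ∈ SB n F a b, ∀ s' ∈ SB n F a b, s⁻¹ * s' ∈ BB n F a b → s = s' := by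
  rintro s ⟨k, hk, rfl⟩ s' ⟨k', hk', rfl⟩ h
  rw [pm_inv h2 (Adm_sgB h2 k), ← pm_mul h2 (Adm_inv (Adm_sgB h2 k)) (Adm_sgB h2 k')] at h
  have h1 := pm_BB h2 hn hab (Adm_mul (Adm_inv (Adm_sgB h2 k)) (Adm_sgB h2 k')) h
  have h3 : sgB n k = sgB n k' := by rwa [inv_mul_eq_one] at h1
  rw [h3]

end Cfsg.Agent.Lib.H49SmBNT
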