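import Mathlib
import Cfsg.Agent.Lib.H49SuDefs
import Cfsg.Agent.Lib.H49SuSgm

set_option autoImplicit false

/-! Project 2546 (Steinberg character of `PSU_n(q)`), piece `InvD` (30m).

The inversions of `sgm n k` in the three cases (unfold `Inv`, `Fin.lt_def`, use `sgm_val_gl`, `sgm_val_last`, `split_ifs`, `omega`). -/

namespace Cfsg.Agent.Lib.H49SuInvD

open Matrix Cfsg.Agent.Lib.H49SuDefs
open Cfsg.Agent.Lib.H49SuSgm

variable {n : ℕ} {F : Type*} [Field F] {q : ℕ}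

theorem Inv_gl {n k : ℕ} (hk : 2 * k + 3 < n) (a b : Fin n) :
    Inv n k a b ↔ (a.val = k ∧ b.val = k + 1) ∨ (a.val + k + 2 = n ∧ b.val + k + 1 = n) := by
  have := a.isLt
  have := b.isLt
  unfold H49SuDefs.Inv
  rw [Fin.lt_def, Fin.lt_def, sgm_val_gl hk, sgm_val_gl hk]
  split_ifs <;> omega

theorem Inv_even {n k : ℕ} (hk : 2 * k + 2 = n) (a b : Fin n) : Inv n k a b ↔ (a.val = k ∧ b.val = k + 1) := by
  have := a.isLt
  have := b.isLt
  unfold H49SuDefs.Inv
  rw [Fin.lt_def, Fin.lt_def, sgm_val_last (by omega) (by omega), sgm_val_last (by omega) (by omega)]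
  split_ifs <;> omega

theorem Inv_odd {n k : ℕ} (hk : 2 * k + 3 = n) (a b : Fin n) :
    Inv n k a b ↔ (a.val = k ∧ b.val = k + 1) ∨ (a.val = k ∧ b.val = k + 2) ∨ (a.val = k + 1 ∧ b.val = k + 2) := by
  have := a.isLt
  have := b.isLt
  unfold H49SuDefs.Inv
  rw [Fin.lt_def, Fin.lt_def, sgm_val_last (by omega) (by omega), sgm_val_last (by omega) (by omega)]
  split_ifs <;> omega

theorem Inv_none {n k : ℕ} (hk : n < 2 * k + 2) (a b : Fin n) : ¬ Inv n k a b := by
  unfold H49SuDefs.Inv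
  have h1 : sgm n k = 1 := by
    unfold sgm
    rw [dif_neg (by omega), dif_neg (by omega)]
  rw [h1]
  rintro ⟨h2, h3⟩
  exact absurd h2 (not_lt.2 (le_of_lt h3))

end Cfsg.Agent.Lib.H49SuInvD
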