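import Mathlib
import Cfsg.Agent.Lib.H49SmDefs
import Cfsg.Agent.Lib.H49SmGrp
import Cfsg.Agent.Lib.H49SmQF
import Cfsg.Agent.Lib.H49SmQFn
import Cfsg.Agent.Lib.H49SmStar
import Cfsg.Agent.Lib.H49SmInv
import Cfsg.Agent.Lib.H49SmMem
import Cfsg.Agent.Lib.H49SmPerm
import Cfsg.Agent.Lib.H49SuInvD

set_option autoImplicit false

/-! Project 2549 (Steinberg character of `POmega-_{2m+2}(q)`), piece `ClearGL` (40m).

ADAPT the landed `H49SpClearGL`/`H49SpRootGL`.  `i = k`, `j = k+1` (both `< n/2 - 1`).  `x = EE a b i (t • e_{rev j})` has matrix `1 + t E_{i j} - t E_{rev j, rev i}` (`EE_apply`), lies in `XX k`; `t = g i j / g i i`... choose `t` so that `c = g * x⁻¹` has `c i j = 0`; the dual entry `c (rev j) (rev i) = 0` by `inv_apply` applied to `c⁻¹`.  `InvB n k` = `{(i, j), (rev j, rev i)}` (`H49SuInvD.Inv_gl`). -/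

namespace Cfsg.Agent.Lib.H49SmClearGL

open Matrix Cfsg.Agent.Lib.H49SmDefs
open Cfsg.Agent.Lib.H49SuDefs (sgm Inv)
open Cfsg.Agent.Lib.H49SmGrp Cfsg.Agent.Lib.H49SmQF Cfsg.Agent.Lib.H49SmQFn Cfsg.Agent.Lib.H49SmStar Cfsg.Agent.Lib.H49SmInv Cfsg.Agent.Lib.H49SmMem Cfsg.Agent.Lib.H49SmPerm

variable {n : ℕ} {F : Type*} [Field F] {a b : F}

theorem cgl_diag_ne_zero {c : GM n F a b} (hc : c ∈ BB n F a b) (i : Fin n) (hi : ¬ md n i) :
    mt c i i ≠ 0 := by
  have h1 : (mt c * mt c⁻¹) i i = 1 := by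
    rw [← mt_mul, mul_inv_cancel, mt_one, Matrix.one_apply_eq]
  rw [Matrix.mul_apply, Finset.sum_eq_single i] at h1
  · intro h0
    rw [h0, zero_mul] at h1
    exact zero_ne_one h1
  · intro z _ hz
    rcases lt_or_gt_of_ne hz with h | h
    · rw [hc.1 i z h (fun e => hi e.1), zero_mul]
    · rw [hc.2 z i h (fun e => hi e.2), mul_zero]
  · intro h
    exact absurd (Finset.mem_univ i) h

theorem cgl_dual_entry (h2 : n % 2 = 0) {c : GM n F a b} (hc : c ∈ BB n F a b)
    (i j : Fin n) (hij : j.val = i.val + 1) (hi : ¬ md n i) (hj : ¬ md n j) (h0 : mt c i j = 0) :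
    mt c (Fin.rev j) (Fin.rev i) = 0 := by
  have hne : i ≠ j := by
    intro e
    rw [e] at hij
    omega
  have h1 : (mt c * mt c⁻¹) i j = 0 := by
    rw [← mt_mul, mul_inv_cancel, mt_one, Matrix.one_apply_ne hne]
  rw [Matrix.mul_apply, Finset.sum_eq_single i] at h1
  · have h3 : mt c⁻¹ i j = 0 := by
      rcases mul_eq_zero.1 h1 with h | h
      · exact absurd h (cgl_diag_ne_zero hc i hi)
      · exact h
    rw [inv_apply h2 c i j hi hj] at h3
    exact h3
  · intro z _ hz
    rcases lt_or_gt_of_ne hz with h | h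
    · rw [hc.1 i z h (fun e => hi e.1), zero_mul]
    · by_cases hzj : z = j
      · rw [hzj, h0, zero_mul]
      · have : j < z := by
          rw [Fin.lt_def] at h ⊢
          have : z.val ≠ j.val := fun e => hzj (Fin.ext e)
          omega
        rw [hc.2 z j this (fun e => hj e.2), mul_zero]
  · intro h
    exact absurd (Finset.mem_univ i) h

theorem cgl_InvB {k : ℕ} (hk : 2 * k + 5 < n) (x y : Fin n) : InvB n k x y ↔ Inv n k x y := by
  unfold InvB sgB
  rw [if_pos hk]
  rfl

theorem cgl_exists_x [Finite F] (h2 : n % 2 = 0) (hab : Ani a b) {k : ℕ} (hk : 2 * k + 5 < n) (i j : Fin n)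
    (hi : i.val = k) (hj : j.val = k + 1) (t : F) :
    ∃ x ∈ XX n F a b k, x ∈ BB n F a b ∧
      mt x = 1 + Matrix.single i j t - Matrix.single (Fin.rev j) (Fin.rev i) t := by
  have hri : (Fin.rev i).val = n - 1 - k := by rw [Fin.val_rev]; omega
  have hrj : (Fin.rev j).val = n - 2 - k := by rw [Fin.val_rev]; omega
  have hmi : ¬ md n i := by unfold md; omega
  have hmrj : ¬ md n (Fin.rev j) := by unfold md; omega
  have h1 : i ≠ j := fun e => by have := congrArg Fin.val e; omega
  have h4 : Fin.rev i ≠ Fin.rev j := fun e => by have := congrArg Fin.val e; omega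
  have hw0 : (t • (Pi.single (Fin.rev j) 1 : Fin n → F)) (Fin.rev i) = 0 := by
    simp [Pi.single_apply, h4]
  have hwe : (t • (Pi.single (Fin.rev j) 1 : Fin n → F)) = Pi.single (Fin.rev j) t := by
    ext z
    simp [Pi.single_apply]
  have hQ : QM n F a b (t • (Pi.single (Fin.rev j) 1 : Fin n → F)) = 0 := by
    rw [hwe]; exact QM_single h2 _ hmrj t
  have hB : ∀ v : Fin n → F, BM n F a b v (t • (Pi.single (Fin.rev j) 1 : Fin n → F)) = t * v j := by
    intro v
    rw [← polar_QF h2, QuadraticMap.polar_smul_right, polar_QF h2, BM_single_right h2 _ hmrj,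
      Fin.rev_rev, smul_eq_mul]
  have hxm : mt (EE a b i (t • (Pi.single (Fin.rev j) 1 : Fin n → F))) =
      1 + Matrix.single i j t - Matrix.single (Fin.rev j) (Fin.rev i) t := by
    ext r c
    have h5 := congrFun (EE_apply (a := a) (b := b) h2 i hmi _ hw0 (Pi.single c 1)) r
    rw [Matrix.mulVec_single_one, hB, hQ] at h5
    simp only [Matrix.col_apply, Pi.add_apply, Pi.sub_apply, Pi.smul_apply, smul_eq_mul, zero_mul,
      sub_zero] at h5
    rw [h5]
    simp only [Matrix.sub_apply, Matrix.add_apply, Matrix.one_apply, Matrix.single_apply,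
      Pi.single_apply]
    by_cases e1 : r = c <;> by_cases e2 : j = c <;> by_cases e3 : i = r <;>
      by_cases e4 : Fin.rev i = c <;> by_cases e5 : Fin.rev j = r <;>
      first
        | (simp [e1, e2, e3, e4, e5, eq_comm]; done)
        | (simp [e1, e2, e3, e4, e5, eq_comm]; tauto)
        | (simp [e1, e2, e3, e4, e5, eq_comm]; split_ifs <;> first | rfl | (exfalso; tauto))
  have hXX : EE a b i (t • (Pi.single (Fin.rev j) 1 : Fin n → F)) ∈ XX n F a b k := by
    refine ⟨fun z => ?_, fun z z' hzz h => ?_⟩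
    · rw [hxm, Matrix.sub_apply, Matrix.add_apply, Matrix.one_apply_eq,
        Matrix.single_apply_of_ne _ _ _ _ _ (fun e => h1 (e.1.trans e.2.symm)),
        Matrix.single_apply_of_ne _ _ _ _ _ (fun e => h4 (e.2.trans e.1.symm))]
      simp
    · rw [cgl_InvB hk, Cfsg.Agent.Lib.H49SuInvD.Inv_gl (by omega)]
      rw [hxm, Matrix.sub_apply, Matrix.add_apply, Matrix.one_apply_ne hzz, zero_add] at h
      by_cases e1 : i = z ∧ j = z'
      · left
        rw [← e1.1, ← e1.2]
        exact ⟨hi, hj⟩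
      · rw [Matrix.single_apply_of_ne _ _ _ _ _ e1, zero_sub] at h
        by_cases e2 : Fin.rev j = z ∧ Fin.rev i = z'
        · right
          rw [← e2.1, ← e2.2, hri, hrj]
          omega
        · rw [Matrix.single_apply_of_ne _ _ _ _ _ e2, neg_zero] at h
          exact absurd rfl h
  refine ⟨_, hXX, ?_, hxm⟩
  rw [mem_BB h2 (by omega) hab]
  intro z z' hlt _
  by_contra hne
  have hI := hXX.2 z z' (ne_of_gt hlt) hne
  exact absurd hI.1 (not_lt.2 hlt.le)

theorem clear [Finite F] (h2 : n % 2 = 0) (hab : Ani a b) {k : ℕ} (hk : 2 * k + 5 < n) {g : GM n F a b} (hg : g ∈ BB n F a b) :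
    ∃ c ∈ BB n F a b, ∃ x ∈ XX n F a b k, (∀ x' y', InvB n k x' y' → mt c x' y' = 0) ∧ g = c * x := by
  let i : Fin n := ⟨k, by omega⟩
  let j : Fin n := ⟨k + 1, by omega⟩
  have hmi : ¬ md n i := by unfold md; simp only [i]; omega
  have hmj : ¬ md n j := by unfold md; simp only [j]; omega
  obtain ⟨x, hx, hxB, hxm⟩ := cgl_exists_x (a := a) (b := b) h2 hab hk i j rfl rfl (mt g i j / mt g i i)
  have hcB : g * x⁻¹ ∈ BB n F a b := (BB n F a b).mul_mem hg ((BB n F a b).inv_mem hxB)
  have hgc : g = g * x⁻¹ * x := by rw [inv_mul_cancel_right]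
  have hm : mt g = mt (g * x⁻¹) * mt x := by rw [← mt_mul, ← hgc]
  have hra : Fin.rev i ≠ i := by
    intro e
    have := congrArg Fin.val e
    simp only [Fin.val_rev, i] at this
    omega
  have hrab : Fin.rev i ≠ j := by
    intro e
    have := congrArg Fin.val e
    simp only [Fin.val_rev, i, j] at this
    omega
  have hij : i ≠ j := by
    intro e
    have := congrArg Fin.val e
    simp only [i, j] at this
    omega
  have haa : mt g i i = mt (g * x⁻¹) i i := by
    conv_lhs => rw [hm, hxm]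
    rw [Matrix.mul_sub, Matrix.mul_add, Matrix.mul_one, Matrix.sub_apply, Matrix.add_apply,
      Matrix.mul_single_apply_of_ne _ _ _ _ _ hij, Matrix.mul_single_apply_of_ne _ _ _ _ _ hra.symm,
      add_zero, sub_zero]
  have hab' : mt g i j = mt (g * x⁻¹) i j + mt (g * x⁻¹) i i * (mt g i j / mt g i i) := by
    conv_lhs => rw [hm, hxm]
    rw [Matrix.mul_sub, Matrix.mul_add, Matrix.mul_one, Matrix.sub_apply, Matrix.add_apply,
      Matrix.mul_single_apply_same, Matrix.mul_single_apply_of_ne _ _ _ _ _ hrab.symm, sub_zero]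
  have h0 : mt (g * x⁻¹) i j = 0 := by
    rw [← haa, mul_div_cancel₀ _ (cgl_diag_ne_zero hg i hmi)] at hab'
    exact (left_eq_add.mp (by rw [add_comm]; exact hab'))
  refine ⟨g * x⁻¹, hcB, x, hx, ?_, hgc⟩
  intro a' b' hI
  rw [cgl_InvB hk] at hI
  rcases (Cfsg.Agent.Lib.H49SuInvD.Inv_gl (by omega) a' b').1 hI with ⟨h1, h3⟩ | ⟨h1, h3⟩
  · have ea : a' = i := Fin.ext h1
    have eb : b' = j := Fin.ext h3
    rw [ea, eb]
    exact h0
  · have ea : a' = Fin.rev j := by
      apply Fin.ext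
      simp only [Fin.val_rev, j]
      omega
    have eb : b' = Fin.rev i := by
      apply Fin.ext
      simp only [Fin.val_rev, i]
      omega
    rw [ea, eb]
    exact cgl_dual_entry h2 hcB i j rfl hmi hmj h0

end Cfsg.Agent.Lib.H49SmClearGL
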