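import Mathlib
import Cfsg.Agent.Lib.H49SmDefs
import Cfsg.Agent.Lib.H49SmGrp
import Cfsg.Agent.Lib.H49SmQF
import Cfsg.Agent.Lib.H49SmQFn
import Cfsg.Agent.Lib.H49SmStar
import Cfsg.Agent.Lib.H49SmInv
import Cfsg.Agent.Lib.H49SmMem
import Cfsg.Agent.Lib.H49SmPerm

set_option autoImplicit false

/-! Project 2549 (Steinberg character of `POmega-_{2m+2}(q)`), piece `ClearL` (50m).

The last root, `2k+4 = n`, `i = k`, middle `k+1, k+2`, `rev i = k+3`.  For `g ∈ BB` let `v = g⁻¹`-free approach: want `x = EE a b i w`, `w` supported on the middle, with `c = g * x⁻¹` vanishing at `(i, k+1), (i, k+2), (i, k+3), (k+1, k+3), (k+2, k+3)`.  `x e_{k+3} = e_{k+3} - QM w e_i - w`, `x w' = w' + BM w' w e_i`.  Choose `w` with `g`-column: `(g e_{k+3})` has middle part `g_W(-w)·`...: take `w = - g_W⁻¹ (middle part of column k+3 of g) / g_{k+3,k+3}`... equivalently define `x` by `x e_{k+3} = g⁻¹ (g_{k+3,k+3} e_{k+3} + lower-index terms)`.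
Then `c e_{k+3}` has zero middle part; `c (i, k+3) = 0` from `QM (c e_{k+3}) = 0`; `c (i, middle) = 0` from `BM (c e_{k+3}) (c w') = 0`. -/

namespace Cfsg.Agent.Lib.H49SmClearL

open Matrix Cfsg.Agent.Lib.H49SmDefs
open Cfsg.Agent.Lib.H49SuDefs (sgm Inv)
open Cfsg.Agent.Lib.H49SmGrp Cfsg.Agent.Lib.H49SmQF Cfsg.Agent.Lib.H49SmQFn Cfsg.Agent.Lib.H49SmStar Cfsg.Agent.Lib.H49SmInv Cfsg.Agent.Lib.H49SmMem Cfsg.Agent.Lib.H49SmPerm

variable {n : ℕ} {F : Type*} [Field F] {a b : F}

theorem invB_iff_L {k : ℕ} (hk : 2 * k + 4 = n) (x y : Fin n) :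
    InvB n k x y ↔ (x.val = k ∧ (y.val = k + 1 ∨ y.val = k + 2 ∨ y.val = k + 3)) ∨
      ((x.val = k + 1 ∨ x.val = k + 2) ∧ y.val = k + 3) := by
  have hσ : sgB n k = Equiv.swap (⟨k, by omega⟩ : Fin n) (Fin.rev ⟨k, by omega⟩) := by
    unfold sgB
    rw [if_neg (by omega), dif_pos hk]
  unfold InvB
  rw [hσ, Equiv.swap_apply_def, Equiv.swap_apply_def]
  have hr : (Fin.rev (⟨k, by omega⟩ : Fin n)).val = k + 3 := by
    rw [Fin.val_rev]
    simp only
    omega
  split_ifs with h1 h2 h3 h4 <;> simp only [Fin.lt_def, Fin.ext_iff] at * <;> omega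

theorem col_L (M : Matrix (Fin n) (Fin n) F) (y z : Fin n) : (M *ᵥ Pi.single y 1) z = M z y := by
  rw [Matrix.mulVec_single_one]
  rfl

theorem clear [Finite F] (h2 : n % 2 = 0) (hab : Ani a b) {k : ℕ} (hk : 2 * k + 4 = n) {g : GM n F a b} (hg : g ∈ BB n F a b) :
    ∃ c ∈ BB n F a b, ∃ x ∈ XX n F a b k, (∀ x' y', InvB n k x' y' → mt c x' y' = 0) ∧ g = c * x := by
  classical
  have hn : 2 ≤ n := by omega
  obtain ⟨i, hiv⟩ : ∃ i : Fin n, i.val = k := ⟨⟨k, by omega⟩, rfl⟩
  obtain ⟨r, hr⟩ : ∃ r : Fin n, r = Fin.rev i := ⟨_, rfl⟩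
  have hrev : ∀ z : Fin n, (Fin.rev z).val = n - 1 - z.val := fun z => by rw [Fin.val_rev]; omega
  have hrv : r.val = k + 3 := by rw [hr, hrev]; omega
  have hmd : ∀ z : Fin n, md n z ↔ z.val = k + 1 ∨ z.val = k + 2 := by
    intro z
    unfold md
    omega
  have hmdi : ¬ md n i := by rw [hmd]; omega
  have hmdr : ¬ md n r := by rw [hmd]; omega
  have hir : i ≠ r := by intro h; rw [h] at hiv; omega
  have hgT : BTri (mt g) := hg.1
  have hhT : BTri (mt g⁻¹) := hg.2
  obtain ⟨lam, hlamdef⟩ : ∃ lam, lam = mt g⁻¹ r r := ⟨_, rfl⟩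
  have hlam : lam ≠ 0 := by
    have e : mt g⁻¹ * mt g = 1 := by rw [← mt_mul, inv_mul_cancel, mt_one]
    have e1 := congrFun (congrFun e r) r
    rw [Matrix.mul_apply, Matrix.one_apply_eq, Finset.sum_eq_single r] at e1
    · rw [hlamdef]; exact left_ne_zero_of_mul_eq_one e1
    · intro z _ hz
      rcases lt_or_gt_of_ne hz with h | h
      · rw [hhT r z h (fun hh => hmdr hh.1), zero_mul]
      · rw [hgT z r h (fun hh => hmdr hh.2), mul_zero]
    · intro h; exact absurd (Finset.mem_univ _) h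
  obtain ⟨w, hwdef⟩ : ∃ w : Fin n → F, w = fun z => if md n z then mt g⁻¹ z r / lam else 0 := ⟨_, rfl⟩
  have hwm : ∀ z, md n z → w z = mt g⁻¹ z r / lam := fun z hz => by rw [hwdef]; exact if_pos hz
  have hwn : ∀ z, ¬ md n z → w z = 0 := fun z hz => by rw [hwdef]; exact if_neg hz
  have hx := fun u => EE_apply (a := a) (b := b) h2 i hmdi w (by rw [← hr]; exact hwn r hmdr) u
  rw [← hr] at hx
  obtain ⟨x, hxdef⟩ : ∃ x : GM n F a b, x = EE a b i w := ⟨_, rfl⟩
  rw [← hxdef] at hx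
  have hBn : ∀ y, ¬ md n y → BM n F a b (Pi.single y 1) w = 0 := by
    intro y hy
    rw [BM_single_left h2 y hy]
    apply hwn
    rw [hmd] at hy ⊢
    rw [hrev]
    omega
  have hent : ∀ z y, mt x z y = (Pi.single y 1 : Fin n → F) z
      + (BM n F a b (Pi.single y 1) w - QM n F a b w * (Pi.single y 1 : Fin n → F) r) * (Pi.single i 1 : Fin n → F) z
      - (Pi.single y 1 : Fin n → F) r * w z := by
    intro z y
    rw [← col_L (mt x) y z, hx]
    simp only [Pi.add_apply, Pi.sub_apply, Pi.smul_apply, smul_eq_mul]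
  have hxXX : x ∈ XX n F a b k := by
    constructor
    · intro y
      rw [hent, Pi.single_eq_same]
      by_cases hy : y = i
      · subst hy
        rw [hBn y hmdi, Pi.single_eq_of_ne (Ne.symm hir)]
        simp
      · rw [Pi.single_eq_of_ne hy]
        by_cases hyr : y = r
        · subst hyr
          rw [hwn y hmdr]; simp
        · rw [Pi.single_eq_of_ne (Ne.symm hyr)]; simp
    · intro z y hzy hne
      rw [hent, Pi.single_eq_of_ne hzy] at hne
      rw [invB_iff_L hk]
      by_cases hyr : y = r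
      · subst hyr
        by_cases hz : z = i
        · left; rw [hz]; exact ⟨hiv, Or.inr (Or.inr hrv)⟩
        · right
          rw [Pi.single_eq_of_ne hz] at hne
          have : md n z := by
            by_contra hmz
            apply hne
            rw [hwn z hmz]; simp
          exact ⟨(hmd z).1 this, hrv⟩
      · rw [Pi.single_eq_of_ne (Ne.symm hyr)] at hne
        left
        have hz : z = i := by
          by_contra hz
          apply hne
          rw [Pi.single_eq_of_ne hz]; simp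
        have hy : md n y := by
          by_contra hmy
          apply hne
          rw [hBn y hmy]; simp
        rw [hz]
        refine ⟨hiv, ?_⟩
        rcases (hmd y).1 hy with h | h
        · exact Or.inl h
        · exact Or.inr (Or.inl h)
  have hxBB : x ∈ BB n F a b := by
    rw [mem_BB h2 hn hab]
    intro z y hyz _
    by_contra hne
    have := (invB_iff_L hk z y).1 (hxXX.2 z y (ne_of_gt hyz) hne)
    rw [Fin.lt_def] at hyz
    omega
  have hcBB : g * x⁻¹ ∈ BB n F a b := mul_mem hg (inv_mem hxBB)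
  have hcinv : (g * x⁻¹)⁻¹ = x * g⁻¹ := by rw [_root_.mul_inv_rev, inv_inv]
  -- the column `r` of `c⁻¹`
  have hu : ∀ z, mt (x * g⁻¹) z r = mt g⁻¹ z r
      + (BM n F a b (mt g⁻¹ *ᵥ Pi.single r 1) w - QM n F a b w * lam) * (Pi.single i 1 : Fin n → F) z - lam * w z := by
    intro z
    rw [← col_L (mt (x * g⁻¹)) r z, mt_mul, ← Matrix.mulVec_mulVec, hx]
    simp only [Pi.add_apply, Pi.sub_apply, Pi.smul_apply, smul_eq_mul, col_L, ← hlamdef]
  have U1 : ∀ z, md n z → mt (x * g⁻¹) z r = 0 := by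
    intro z hz
    have hzi : z ≠ i := by rintro rfl; exact hmdi hz
    rw [hu, Pi.single_eq_of_ne hzi, hwm z hz]
    field_simp
    ring
  have U2 : ∀ z, r < z → mt (x * g⁻¹) z r = 0 := by
    intro z hz
    have hzv : k + 3 < z.val := by rw [← hrv]; exact hz
    have hzi : z ≠ i := by rintro rfl; omega
    have hzm : ¬ md n z := by rw [hmd]; omega
    rw [hu, Pi.single_eq_of_ne hzi, hwn z hzm, hhT z r hz (fun hh => hmdr hh.2)]
    ring
  have U3 : mt (x * g⁻¹) r r = lam := by
    rw [hu, Pi.single_eq_of_ne (Ne.symm hir), hwn r hmdr, ← hlamdef]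
    ring
  have U4 : mt (x * g⁻¹) i r = 0 := by
    have hQ := QM_mulVec (x * g⁻¹) (Pi.single r 1)
    rw [QM_single h2 r hmdr] at hQ
    obtain ⟨u, hudef⟩ : ∃ u : Fin n → F, u = mt (x * g⁻¹) *ᵥ Pi.single r 1 := ⟨_, rfl⟩
    have huz : ∀ z, u z = mt (x * g⁻¹) z r := by intro z; rw [hudef, col_L]
    rw [← hudef] at hQ
    unfold QM at hQ
    rw [Finset.sum_eq_single i] at hQ
    · rw [if_pos (by omega), huz, huz, ← hr, U3] at hQ
      exact (mul_eq_zero.1 hQ).resolve_right hlam
    · intro j _ hj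
      have hjv : j.val ≠ k := fun h => hj (Fin.ext (h.trans hiv.symm))
      split_ifs with h1 h3
      · rw [huz, huz, U2 (Fin.rev j) (by rw [Fin.lt_def, hrv, hrev]; omega), mul_zero]
      · rw [huz, huz, U1 j (by rw [hmd]; omega), U1 (Fin.rev j) (by rw [hmd, hrev]; omega)]
        ring
      · rfl
    · intro h; exact absurd (Finset.mem_univ _) h
  have C1 : mt (g * x⁻¹) i r = 0 := by
    have h := inv_apply h2 (x * g⁻¹) i r hmdi hmdr
    rw [← hcinv, inv_inv, hcinv, ← hr, hr, Fin.rev_rev, ← hr] at h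
    rw [h, U4]
  have C2 : ∀ m, md n m → mt (g * x⁻¹) i m = 0 := by
    intro m hm
    have h := inv_row h2 (x * g⁻¹) i hmdi (Pi.single m 1)
    rw [← hcinv, inv_inv, hcinv, col_L, ← hr] at h
    rw [h]
    unfold BM
    apply Finset.sum_eq_zero
    intro j _
    by_cases hj : j = m
    · subst hj
      have h1 : mt (x * g⁻¹) j r = 0 := U1 j hm
      have h3 : mt (x * g⁻¹) (Fin.rev j) r = 0 := U1 _ (by rw [hmd] at hm ⊢; rw [hrev]; omega)
      split_ifs <;> simp [h1, h3]
    · rw [Pi.single_eq_of_ne hj]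
      split_ifs <;> simp
  have C3 : ∀ m, md n m → mt (g * x⁻¹) m r = 0 := by
    intro m hm
    have e : mt (g * x⁻¹) * mt (x * g⁻¹) = 1 := by
      rw [← mt_mul, ← hcinv, mul_inv_cancel, mt_one]
    have hmr : m ≠ r := by rintro rfl; exact hmdr hm
    have e1 := congrFun (congrFun e m) r
    rw [Matrix.mul_apply, Matrix.one_apply_ne hmr, Finset.sum_eq_single r, U3] at e1
    · exact (mul_eq_zero.1 e1).resolve_right hlam
    · intro z _ hz
      have hzv : z.val ≠ k + 3 := fun h => hz (Fin.ext (h.trans hrv.symm))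
      by_cases h1 : r < z
      · rw [U2 z h1, mul_zero]
      by_cases h3 : md n z
      · rw [U1 z h3, mul_zero]
      by_cases h4 : z = i
      · rw [h4, U4, mul_zero]
      · have hzi : z.val ≠ k := fun h => h4 (Fin.ext (h.trans hiv.symm))
        rw [Fin.lt_def, hrv] at h1
        rw [hmd] at h3 hm
        rw [hcBB.1 m z (by rw [Fin.lt_def]; omega) (fun hh => by have := (hmd z).1 hh.2; omega), zero_mul]
    · intro h; exact absurd (Finset.mem_univ _) h
  refine ⟨g * x⁻¹, hcBB, x, hxXX, ?_, (inv_mul_cancel_right g x).symm⟩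
  intro x' y' hI
  rcases (invB_iff_L hk x' y').1 hI with ⟨h1, h3⟩ | ⟨h1, h3⟩
  · have hx' : x' = i := Fin.ext (h1.trans hiv.symm)
    rw [hx']
    rcases h3 with h3 | h3 | h3
    · exact C2 y' ((hmd y').2 (Or.inl h3))
    · exact C2 y' ((hmd y').2 (Or.inr h3))
    · rw [show y' = r from Fin.ext (h3.trans hrv.symm)]; exact C1
  · rw [show y' = r from Fin.ext (h3.trans hrv.symm)]
    exact C3 x' ((hmd x').2 h1)

end Cfsg.Agent.Lib.H49SmClearL
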