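import Mathlib
import Cfsg.Agent.Lib.H49SmDefs
import Cfsg.Agent.Lib.H49SmGrp
import Cfsg.Agent.Lib.H49SmQF
import Cfsg.Agent.Lib.H49SmQFn
import Cfsg.Agent.Lib.H49SmStar
import Cfsg.Agent.Lib.H49SmInv
import Cfsg.Agent.Lib.H49SmMem

set_option autoImplicit false

/-! Project 2549 (Steinberg character of `POmega-_{2m+2}(q)`), piece `Dec` (45m).

`B = U T`.  `t` = the block diagonal part of `g` (`M x y = if x = y ∨ (md x ∧ md y) then mt g x y else 0`); it is an isometry (`Star.mk`: `BM`/`QM` of its columns: for non-middle `i`: `g i i * g (rev i) (rev i) = 1` from `BM (g e_i) (g e_{rev i}) = 1`; for the middle columns: `g w' = t w' + (terms in e_j, j < n/2-1)`, which are singular and orthogonal to everything involved, so `QM (t w') = QM (g w') = QM w'`, same for `BM`).  `u = g * t⁻¹` is `UTm`. -/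

namespace Cfsg.Agent.Lib.H49SmDec

open Matrix Cfsg.Agent.Lib.H49SmDefs
open Cfsg.Agent.Lib.H49SuDefs (sgm Inv)
open Cfsg.Agent.Lib.H49SmGrp Cfsg.Agent.Lib.H49SmQF Cfsg.Agent.Lib.H49SmQFn Cfsg.Agent.Lib.H49SmStar Cfsg.Agent.Lib.H49SmInv Cfsg.Agent.Lib.H49SmMem

variable {n : ℕ} {F : Type*} [Field F] {a b : F}

theorem BB_decomp [Finite F] (h2 : n % 2 = 0) (hn : 2 ≤ n) (hab : Ani a b) {g : GM n F a b} (hg : g ∈ BB n F a b) :
    ∃ u ∈ UU n F a b, ∃ t ∈ TT n F a b, g = u * t := by
  classical
  have hT : BTri (mt g) := hg.1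
  have hT' : BTri (mt g⁻¹) := hg.2
  obtain ⟨M, hM⟩ : ∃ M : Matrix (Fin n) (Fin n) F, ∀ x y, M x y = if x = y ∨ (md n x ∧ md n y) then mt g x y else 0 :=
    ⟨fun x y => if x = y ∨ (md n x ∧ md n y) then mt g x y else 0, fun _ _ => rfl⟩
  have hrev : ∀ j : Fin n, ¬ md n j → ¬ md n (Fin.rev j) := by
    intro j hj; unfold md at *; rw [Fin.val_rev]; omega
  have hdiag : ∀ j : Fin n, ¬ md n j → mt g j j * mt g (Fin.rev j) (Fin.rev j) = 1 := by
    intro j hj
    have h1 : (mt g * mt g⁻¹) j j = 1 := by
      rw [← mt_mul, mul_inv_cancel, mt_one, Matrix.one_apply_eq]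
    rw [Matrix.mul_apply, Finset.sum_eq_single j] at h1
    · rwa [inv_apply h2 g j j hj hj] at h1
    · intro z _ hz
      rcases lt_or_gt_of_ne hz with h | h
      · rw [hT j z h (fun hh => hj hh.1), zero_mul]
      · rw [hT' z j h (fun hh => hj hh.2), mul_zero]
    · intro h; exact absurd (Finset.mem_univ _) h
  have hcol : ∀ i, (fun x => mt g x i) = mt g *ᵥ Pi.single i 1 := by
    intro i; funext x; simp [Matrix.mulVec, dotProduct, Pi.single_apply]
  have hMcol : ∀ i, ¬ md n i → (fun x => M x i) = (mt g i i) • (Pi.single i 1 : Fin n → F) := by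
    intro i hi; funext x
    rw [hM]
    by_cases hx : x = i
    · subst hx; simp
    · rw [if_neg (by rintro (h | h); exact hx h; exact hi h.2)]
      simp [Pi.single_apply, hx]
  have hBr : ∀ (u v : Fin n → F) (c : F), BM n F a b u (c • v) = c * BM n F a b u v := by
    intro u v c
    rw [← polar_QF h2, ← polar_QF h2, QuadraticMap.polar_smul_right, smul_eq_mul]
  have hBl : ∀ (u v : Fin n → F) (c : F), BM n F a b (c • u) v = c * BM n F a b u v := by
    intro u v c
    rw [← polar_QF h2, ← polar_QF h2, QuadraticMap.polar_smul_left, smul_eq_mul]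
  have hQmid : ∀ i, md n i → QM n F a b (fun x => M x i) = QM n F a b (fun x => mt g x i) := by
    intro i hi
    unfold QM
    apply Finset.sum_congr rfl
    intro x _
    beta_reduce
    by_cases h1 : x.val + 1 < n / 2
    · rw [if_pos h1, if_pos h1]
      have e1 : M x i = 0 := by
        rw [hM, if_neg]
        unfold md at *
        rw [Fin.ext_iff]
        omega
      have e2 : mt g (Fin.rev x) i = 0 :=
        hT _ _ (by rw [Fin.lt_def, Fin.val_rev]; unfold md at hi; omega)
          (by unfold md; rw [Fin.val_rev]; omega)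
      rw [e1, e2, zero_mul, mul_zero]
    · rw [if_neg h1, if_neg h1]
      by_cases h3 : x.val + 1 = n / 2
      · rw [if_pos h3, if_pos h3]
        have e1 : M x i = mt g x i := by rw [hM, if_pos (Or.inr ⟨Or.inl h3, hi⟩)]
        have e2 : M (Fin.rev x) i = mt g (Fin.rev x) i := by
          rw [hM, if_pos (Or.inr ⟨Or.inr (by rw [Fin.val_rev]; omega), hi⟩)]
        rw [e1, e2]
      · rw [if_neg h3, if_neg h3]
  have hBmid : ∀ i j, md n i → md n j →
      BM n F a b (fun x => M x i) (fun x => M x j) = BM n F a b (fun x => mt g x i) (fun x => mt g x j) := by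
    intro i j hi hj
    unfold BM
    apply Finset.sum_congr rfl
    intro x _
    beta_reduce
    by_cases h1 : x.val + 1 = n / 2
    · rw [if_pos h1, if_pos h1]
      have e1 : M x i = mt g x i := by rw [hM, if_pos (Or.inr ⟨Or.inl h1, hi⟩)]
      have e2 : M x j = mt g x j := by rw [hM, if_pos (Or.inr ⟨Or.inl h1, hj⟩)]
      have e3 : M (Fin.rev x) j = mt g (Fin.rev x) j := by
        rw [hM, if_pos (Or.inr ⟨Or.inr (by rw [Fin.val_rev]; omega), hj⟩)]
      rw [e1, e2, e3]
    · rw [if_neg h1, if_neg h1]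
      by_cases h3 : x.val = n / 2
      · rw [if_pos h3, if_pos h3]
        have e1 : M x i = mt g x i := by rw [hM, if_pos (Or.inr ⟨Or.inr h3, hi⟩)]
        have e2 : M x j = mt g x j := by rw [hM, if_pos (Or.inr ⟨Or.inr h3, hj⟩)]
        have e3 : M (Fin.rev x) j = mt g (Fin.rev x) j := by
          rw [hM, if_pos (Or.inr ⟨Or.inl (by rw [Fin.val_rev]; omega), hj⟩)]
        rw [e1, e2, e3]
      · rw [if_neg h3, if_neg h3]
        have e1 : M x i = 0 := by
          rw [hM, if_neg]
          unfold md at *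
          rw [Fin.ext_iff]
          omega
        rw [e1, zero_mul]
        by_cases h4 : x.val < n / 2
        · rw [hT (Fin.rev x) j (by rw [Fin.lt_def, Fin.val_rev]; unfold md at hj; omega)
            (by unfold md; rw [Fin.val_rev]; omega), mul_zero]
        · rw [hT x i (by rw [Fin.lt_def]; unfold md at hi; omega) (by unfold md; omega), zero_mul]
  obtain ⟨t, ht⟩ : ∃ t : GM n F a b, mt t = M := by
    refine mk h2 hn hab M ?_ ?_
    · intro i j
      by_cases hj : md n j
      · by_cases hi : md n i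
        · rw [hBmid i j hi hj, hcol i, hcol j, BM_mulVec h2]
        · rw [hMcol i hi, hBl, BM_single_left h2 i hi, BM_single_left h2 i hi, hM,
            if_neg (by rintro (h | h); exact hrev i hi (h ▸ hj); exact hrev i hi h.1), mul_zero,
            Pi.single_apply, if_neg (by intro h; exact hrev i hi (h ▸ hj))]
      · rw [hMcol j hj, hBr, BM_single_right h2 j hj, BM_single_right h2 j hj, hM, Pi.single_apply]
        by_cases hij : Fin.rev j = i
        · rw [if_pos (Or.inl hij), if_pos hij, ← hij]
          exact hdiag j hj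
        · rw [if_neg (by rintro (h | h); exact hij h; exact hrev j hj h.1), if_neg hij, mul_zero]
    · intro i
      by_cases hi : md n i
      · rw [hQmid i hi, hcol i, QM_mulVec]
      · rw [hMcol i hi, ← Pi.single_smul, QM_single h2 i hi, QM_single h2 i hi]
  have htT : t ∈ TT n F a b := by
    rw [mem_TT h2 hn hab, ht]
    intro x y hxy hm
    rw [hM, if_neg (by rintro (h | h); exact hxy h; exact hm h)]
  have hD : BDg (mt t⁻¹) := htT.2
  have hMT : M * mt t⁻¹ = 1 := by
    rw [← ht, ← mt_mul, mul_inv_cancel, mt_one]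
  have key : ∀ x y : Fin n, (y ≤ x ∨ (md n x ∧ md n y)) → (mt g * mt t⁻¹) x y = (1 : Matrix (Fin n) (Fin n) F) x y := by
    intro x y hxy
    rw [← hMT, Matrix.mul_apply, Matrix.mul_apply]
    apply Finset.sum_congr rfl
    intro z _
    by_cases h1 : x = z ∨ (md n x ∧ md n z)
    · rw [hM, if_pos h1]
    · rw [hM, if_neg h1, zero_mul]
      by_cases h3 : z = y
      · subst h3
        have hlt : z < x := by
          rcases hxy with h | h
          · exact lt_of_le_of_ne h (fun e => h1 (Or.inl e.symm))
          · exact absurd (Or.inr h) h1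
        rw [hT x z hlt (fun hh => h1 (Or.inr hh)), zero_mul]
      · by_cases h4 : md n z ∧ md n y
        · have hlt : z < x := by
            have hx : ¬ md n x := fun hx => h1 (Or.inr ⟨hx, h4.1⟩)
            have hyx : y ≤ x := by
              rcases hxy with h | h
              · exact h
              · exact absurd h.1 hx
            obtain ⟨hz, hy⟩ := h4
            unfold md at hx hz hy
            rw [Fin.le_def] at hyx
            rw [Fin.lt_def]
            omega
          rw [hT x z hlt (fun hh => h1 (Or.inr hh)), zero_mul]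
        · rw [hD z y h3 h4, mul_zero]
  refine ⟨g * t⁻¹, ?_, t, htT, by rw [inv_mul_cancel_right]⟩
  rw [mem_UU h2 hn hab, mt_mul]
  refine ⟨fun x y hxy => ?_, fun x => ?_, fun x y hx hy hxy => ?_⟩
  · rw [key x y (Or.inl hxy.le), Matrix.one_apply_ne (ne_of_gt hxy)]
  · rw [key x x (Or.inl le_rfl), Matrix.one_apply_eq]
  · rw [key x y (Or.inr ⟨hx, hy⟩), Matrix.one_apply_ne hxy]

end Cfsg.Agent.Lib.H49SmDec
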