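import Mathlib
import Cfsg.Agent.Lib.H49SuDefs
import Cfsg.Agent.Lib.H49SuSgm
import Cfsg.Agent.Lib.H49SuInvD

set_option autoImplicit false

/-! Project 2546 (Steinberg character of `PSU_n(q)`), piece `InvDich` (35m).

A permutation commuting with `rev` maps all inversions of `sgm n k` to increasing pairs, or all to decreasing pairs.  GL case: the two inversions are `(x, y)` and `(rev y, rev x)`, and
`π (rev y) < π (rev x) ↔ rev (π y) < rev (π x) ↔ π x < π y` (`Fin.rev_lt_rev`).  Even case: one inversion.  Odd case: `mid = k+1` is the only fixed point of `rev`, so `π mid = mid`; with `c = π k`, `π (k+2) = rev c`, and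
`c < mid ↔ mid < rev c ↔ c < rev c`. -/

namespace Cfsg.Agent.Lib.H49SuInvDich

open Matrix Cfsg.Agent.Lib.H49SuDefs
open Cfsg.Agent.Lib.H49SuSgm Cfsg.Agent.Lib.H49SuInvD

variable {n : ℕ} {F : Type*} [Field F] {q : ℕ}

theorem inv_dich (n k : ℕ) (π : Equiv.Perm (Fin n)) (hπ : ∀ a, π (Fin.rev a) = Fin.rev (π a)) :
    (∀ a b, Inv n k a b → π a < π b) ∨ (∀ a b, Inv n k a b → π b < π a) := by
  by_cases h0 : n < 2 * k + 2
  · left
    intro a b h
    exact absurd h (Inv_none h0 a b)
  have hval : ∀ a : Fin n, (π (Fin.rev a)).val = n - ((π a).val + 1) := by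
    intro a
    rw [hπ a, Fin.val_rev]
  obtain ⟨x, hx⟩ : ∃ x : Fin n, x.val = k := ⟨⟨k, by omega⟩, rfl⟩
  obtain ⟨y, hy⟩ : ∃ y : Fin n, y.val = k + 1 := ⟨⟨k + 1, by omega⟩, rfl⟩
  have hxy : (π x).val ≠ (π y).val := by
    intro h
    have h1 : x = y := π.injective (Fin.ext h)
    rw [h1] at hx
    omega
  have hπx := (π x).isLt
  have hπy := (π y).isLt
  by_cases h1 : 2 * k + 3 < n
  · -- GL type
    have key : ∀ a b, H49SuDefs.Inv n k a b → (a = x ∧ b = y) ∨ (a = Fin.rev y ∧ b = Fin.rev x) := by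
      intro a b h
      rcases (Inv_gl h1 a b).1 h with ⟨ha, hb⟩ | ⟨ha, hb⟩
      · exact Or.inl ⟨Fin.ext (by omega), Fin.ext (by omega)⟩
      · exact Or.inr ⟨Fin.ext (by rw [Fin.val_rev]; omega), Fin.ext (by rw [Fin.val_rev]; omega)⟩
    rcases lt_or_gt_of_ne hxy with h2 | h2
    · left
      intro a b h
      rcases key a b h with ⟨rfl, rfl⟩ | ⟨rfl, rfl⟩
      · exact h2
      · rw [Fin.lt_def, hval, hval]
        omega
    · right
      intro a b h
      rcases key a b h with ⟨rfl, rfl⟩ | ⟨rfl, rfl⟩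
      · exact h2
      · rw [Fin.lt_def, hval, hval]
        omega
  · by_cases h2 : 2 * k + 2 = n
    · have key : ∀ a b, H49SuDefs.Inv n k a b → (a = x ∧ b = y) := by
        intro a b h
        obtain ⟨ha, hb⟩ := (Inv_even h2 a b).1 h
        exact ⟨Fin.ext (by omega), Fin.ext (by omega)⟩
      rcases lt_or_gt_of_ne hxy with h3 | h3
      · left
        intro a b h
        obtain ⟨rfl, rfl⟩ := key a b h
        exact h3
      · right
        intro a b h
        obtain ⟨rfl, rfl⟩ := key a b h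
        exact h3
    · have h3 : 2 * k + 3 = n := by omega
      have hry : Fin.rev y = y := Fin.ext (by rw [Fin.val_rev]; omega)
      have hm : (π y).val = k + 1 := by
        have := hval y
        rw [hry] at this
        omega
      have hz := hval x
      have key : ∀ a b, H49SuDefs.Inv n k a b →
          (a = x ∧ b = y) ∨ (a = x ∧ b = Fin.rev x) ∨ (a = y ∧ b = Fin.rev x) := by
        intro a b h
        rcases (Inv_odd h3 a b).1 h with ⟨ha, hb⟩ | ⟨ha, hb⟩ | ⟨ha, hb⟩
        · exact Or.inl ⟨Fin.ext (by omega), Fin.ext (by omega)⟩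
        · exact Or.inr (Or.inl ⟨Fin.ext (by omega), Fin.ext (by rw [Fin.val_rev]; omega)⟩)
        · exact Or.inr (Or.inr ⟨Fin.ext (by omega), Fin.ext (by rw [Fin.val_rev]; omega)⟩)
      rcases lt_or_gt_of_ne hxy with h4 | h4
      · left
        intro a b h
        rcases key a b h with ⟨rfl, rfl⟩ | ⟨rfl, rfl⟩ | ⟨rfl, rfl⟩ <;> rw [Fin.lt_def] <;> omega
      · right
        intro a b h
        rcases key a b h with ⟨rfl, rfl⟩ | ⟨rfl, rfl⟩ | ⟨rfl, rfl⟩ <;> rw [Fin.lt_def] <;> omega

end Cfsg.Agent.Lib.H49SuInvDich
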