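import Mathlib
import Cfsg.Agent.Lib.H49SmDefs
import Cfsg.Agent.Lib.H49SmGrp
import Cfsg.Agent.Lib.H49SmQF
import Cfsg.Agent.Lib.H49SmQFn
import Cfsg.Agent.Lib.H49SmStar
import Cfsg.Agent.Lib.H49SmInv
import Cfsg.Agent.Lib.H49SmMem
import Cfsg.Agent.Lib.H49SmPerm
import Cfsg.Agent.Lib.H49SmForm
import Cfsg.Agent.Lib.H49SuInvDich

set_option autoImplicit false

/-! Project 2549 (Steinberg character of `POmega-_{2m+2}(q)`), piece `Dich` (45m).

The dichotomy.  `g = pm π * t` (`NN_form`), `g⁻¹ x g = t⁻¹ (pm π⁻¹ x pm π) t`, `TT ≤ BB`; so it suffices that `pm ρ * x * (pm ρ)⁻¹ ∈ BB` (`ρ = π⁻¹`).  By `conj_apply` the entry at `(ρ x', ρ y')` is `mt x x' y'`, non-zero off the diagonal only for `InvB n k x' y'`.  Combinatorics: for admissible `ρ` either `ρ x' < ρ y'` for all `InvB n k x' y'` or `ρ y' < ρ x'` for all of them: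
for `2k+5 < n` this is `H49SuInvDich.inv_dich n k ρ` (`sgB = sgm`, `InvB = Inv`); for `2k+4 = n`: `InvB` = pairs `x' < y'` in `{k, k+1, k+2, k+3}` except `(k+1, k+2)`; `ρ` fixes `k+1, k+2` and `ρ (k+3) = rev (ρ k)`; if `ρ k < n/2 - 1` all are preserved, otherwise all are reversed. -/

namespace Cfsg.Agent.Lib.H49SmDich

open Matrix Cfsg.Agent.Lib.H49SmDefs
open Cfsg.Agent.Lib.H49SuDefs (sgm Inv)
open Cfsg.Agent.Lib.H49SmGrp Cfsg.Agent.Lib.H49SmQF Cfsg.Agent.Lib.H49SmQFn Cfsg.Agent.Lib.H49SmStar Cfsg.Agent.Lib.H49SmInv Cfsg.Agent.Lib.H49SmMem Cfsg.Agent.Lib.H49SmPerm Cfsg.Agent.Lib.H49SmForm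

variable {n : ℕ} {F : Type*} [Field F] {a b : F}

theorem invB_dich_aux (h2 : n % 2 = 0) (k : ℕ) (hk : 2 * k + 4 ≤ n) (ρ : Equiv.Perm (Fin n)) (hρ : Adm n ρ) :
    (∀ x y, InvB n k x y → ρ x < ρ y) ∨ (∀ x y, InvB n k x y → ρ y < ρ x) := by
  by_cases h5 : 2 * k + 5 < n
  · have e : sgB n k = sgm n k := by unfold sgB; rw [if_pos h5]
    have := Cfsg.Agent.Lib.H49SuInvDich.inv_dich n k ρ hρ.1
    simpa only [InvB, Cfsg.Agent.Lib.H49SuDefs.Inv, e] using this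
  · have hn : 2 * k + 4 = n := by omega
    have hkn : k < n := by omega
    have e : sgB n k = Equiv.swap (⟨k, hkn⟩ : Fin n) (Fin.rev ⟨k, hkn⟩) := by
      unfold sgB; rw [if_neg h5, dif_pos hn]
    obtain ⟨K, hK⟩ : ∃ K : Fin n, K = ⟨k, hkn⟩ := ⟨_, rfl⟩
    rw [← hK] at e
    have hKv : K.val = k := by rw [hK]
    have hRv : (Fin.rev K).val = k + 3 := by rw [Fin.val_rev, hKv]; omega
    have hcl : ∀ x y, InvB n k x y →
        (x = K ∧ (md n y ∨ y = Fin.rev K)) ∨ (md n x ∧ y = Fin.rev K) := by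
      intro x y hI
      obtain ⟨hxy, hs⟩ := hI
      rw [e, Equiv.swap_apply_def, Equiv.swap_apply_def] at hs
      unfold md
      split_ifs at hs <;> simp only [Fin.lt_def, Fin.ext_iff] at * <;> omega
    have hrev : ρ (Fin.rev K) = Fin.rev (ρ K) := hρ.1 K
    have hmid : ∀ z, md n z → ρ z = z := hρ.2
    have hnmd : ¬ md n (ρ K) := by
      intro hm
      have h1 := hmid _ hm
      have h3 : ρ K = K := ρ.injective h1
      rw [h3] at hm
      unfold md at hm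
      omega
    have hrv : (Fin.rev (ρ K)).val = n - ((ρ K).val + 1) := Fin.val_rev _
    have hlt' := (ρ K).isLt
    unfold md at hnmd
    by_cases hlt : (ρ K).val < k + 1
    · left
      intro x y hI
      rcases hcl x y hI with ⟨hx, hy | hy⟩ | ⟨hx, hy⟩
      · rw [hx, hmid y hy, Fin.lt_def]; unfold md at hy; omega
      · rw [hx, hy, hrev, Fin.lt_def]; omega
      · rw [hy, hmid x hx, hrev, Fin.lt_def]; unfold md at hx; omega
    · right
      intro x y hI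
      rcases hcl x y hI with ⟨hx, hy | hy⟩ | ⟨hx, hy⟩
      · rw [hx, hmid y hy, Fin.lt_def]; unfold md at hy; omega
      · rw [hx, hy, hrev, Fin.lt_def]; omega
      · rw [hy, hmid x hx, hrev, Fin.lt_def]; unfold md at hx; omega

theorem conj_mem_BB_aux [Finite F] (h2 : n % 2 = 0) (hn : 2 ≤ n) (hab : Ani a b) {ρ : Equiv.Perm (Fin n)}
    (hρ : Adm n ρ) (x : GM n F a b) (hx : ∀ u v, u ≠ v → mt x u v ≠ 0 → ρ u < ρ v) :
    pm n F a b ρ * x * (pm n F a b ρ)⁻¹ ∈ BB n F a b := by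
  rw [mem_BB h2 hn hab]
  intro u v hvu _
  by_contra hne
  have h1 := conj_apply (F := F) (a := a) (b := b) h2 hρ x (ρ⁻¹ u) (ρ⁻¹ v)
  have eu : ρ (ρ⁻¹ u) = u := by simp
  have ev : ρ (ρ⁻¹ v) = v := by simp
  rw [eu, ev] at h1
  rw [h1] at hne
  have hne' : ρ⁻¹ u ≠ ρ⁻¹ v := fun h => (ne_of_gt hvu) (ρ⁻¹.injective h)
  have h3 := hx _ _ hne' hne
  rw [eu, ev] at h3
  exact absurd h3 (not_lt.2 hvu.le)

theorem dich [Finite F] (h2 : n % 2 = 0) (hn : 2 ≤ n) (hab : Ani a b) {g : GM n F a b} (hg : g ∈ NN n F a b) (k : ℕ)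
    (hk : 2 * k + 4 ≤ n) :
    (∀ x ∈ XX n F a b k, g⁻¹ * x * g ∈ BB n F a b) ∨ (∀ y ∈ YY n F a b k, g⁻¹ * y * g ∈ BB n F a b) := by
  obtain ⟨π, hπ, t, ht, rfl⟩ := NN_form h2 hn hab hg
  have hρ : Adm n π⁻¹ := Adm_inv hπ
  have key : ∀ x : GM n F a b, pm n F a b π⁻¹ * x * (pm n F a b π⁻¹)⁻¹ ∈ BB n F a b →
      (pm n F a b π * t)⁻¹ * x * (pm n F a b π * t) ∈ BB n F a b := by
    intro x hx
    have e : (pm n F a b π * t)⁻¹ * x * (pm n F a b π * t)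
        = t⁻¹ * ((pm n F a b π)⁻¹ * x * ((pm n F a b π)⁻¹)⁻¹) * t := by group
    rw [e, pm_inv h2 hπ]
    exact (BB n F a b).mul_mem ((BB n F a b).mul_mem ((BB n F a b).inv_mem (TT_le_BB ht)) hx)
      (TT_le_BB ht)
  rcases invB_dich_aux h2 k hk π⁻¹ hρ with h | h
  · left
    intro x hx
    exact key x (conj_mem_BB_aux h2 hn hab hρ x (fun u v huv hne => h u v (hx.2 u v huv hne)))
  · right
    intro y hy
    exact key y (conj_mem_BB_aux h2 hn hab hρ y (fun u v huv hne => h v u (hy.2 u v huv hne)))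

end Cfsg.Agent.Lib.H49SmDich
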