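import Mathlib
import Cfsg.Agent.Lib.H49SmDefs
import Cfsg.Agent.Lib.H49SmGrp
import Cfsg.Agent.Lib.H49SmQF
import Cfsg.Agent.Lib.H49SmQFn
import Cfsg.Agent.Lib.H49SmStar
import Cfsg.Agent.Lib.H49SmInv
import Cfsg.Agent.Lib.H49SmMem

set_option autoImplicit false

/-! Project 2549 (Steinberg character of `POmega-_{2m+2}(q)`), piece `ERow` (30m).

ADAPT the landed `H49SpERow` (`j ≤ n/2 - 1`, so only non-middle rows/columns are concerned; `inv_row`/`inv_apply`: row `x` of `u` = via column `rev x` of `u⁻¹`, which is trivial). -/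

namespace Cfsg.Agent.Lib.H49SmERow

open Matrix Cfsg.Agent.Lib.H49SmDefs
open Cfsg.Agent.Lib.H49SuDefs (sgm Inv)
open Cfsg.Agent.Lib.H49SmGrp Cfsg.Agent.Lib.H49SmQF Cfsg.Agent.Lib.H49SmQFn Cfsg.Agent.Lib.H49SmStar Cfsg.Agent.Lib.H49SmInv Cfsg.Agent.Lib.H49SmMem

variable {n : ℕ} {F : Type*} [Field F] {a b : F}

theorem rows (h2 : n % 2 = 0) (j : ℕ) (hj : j + 1 ≤ n / 2) {u : GM n F a b}
    (hu : ∀ x y : Fin n, n ≤ y.val + j → mt u x y = (1 : Matrix (Fin n) (Fin n) F) x y) :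
    ∀ x y : Fin n, x.val < j → mt u x y = (1 : Matrix (Fin n) (Fin n) F) x y := by
  intro x y hx
  have hinv : ∀ z c : Fin n, n ≤ c.val + j → mt u⁻¹ z c = (1 : Matrix (Fin n) (Fin n) F) z c := by
    intro z c hc
    have h1 : mt u⁻¹ * mt u = 1 := by
      rw [← mt_mul, inv_mul_cancel, mt_one]
    have h2' := congrFun (congrFun h1 z) c
    rw [Matrix.mul_apply] at h2'
    rw [← h2']
    have : ∀ k : Fin n, mt u⁻¹ z k * mt u k c = mt u⁻¹ z k * (1 : Matrix (Fin n) (Fin n) F) k c := by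
      intro k; rw [hu k c hc]
    rw [Finset.sum_congr rfl (fun k _ => this k)]
    simp [Matrix.one_apply]
  have hxl := x.isLt
  have hxm : ¬ md n x := by unfold md; omega
  have hrm : ¬ md n (Fin.rev x) := by unfold md; rw [Fin.val_rev]; omega
  have h3 := inv_row h2 u⁻¹ x hxm (Pi.single y 1)
  rw [inv_inv] at h3
  have hcol : (fun z => mt u⁻¹ z (Fin.rev x)) = Pi.single (Fin.rev x) 1 := by
    funext z
    rw [hinv z _ (by rw [Fin.val_rev]; omega), Matrix.one_apply, Pi.single_apply]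
  rw [hcol, BM_single_right h2 _ hrm, Fin.rev_rev] at h3
  have h4 : (mt u *ᵥ Pi.single y 1) x = mt u x y := by
    simp [Matrix.mulVec, dotProduct, Pi.single_apply]
  rw [h4] at h3
  rw [h3, Matrix.one_apply, Pi.single_apply]

end Cfsg.Agent.Lib.H49SmERow
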