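import Mathlib
import Cfsg.Agent.Lib.H49SmDefs

set_option autoImplicit false

/-! Project 2549 (Steinberg character of `POmega-_{2m+2}(q)`), piece `ESplit` (30m).

ADAPT the landed `H49SpESplit` (termwise comparison of the two sums defining `QM`; the middle term is the same for `v` and `-v`: squares and products). -/

namespace Cfsg.Agent.Lib.H49SmESplit

open Matrix Cfsg.Agent.Lib.H49SmDefs
open Cfsg.Agent.Lib.H49SuDefs (sgm Inv)

variable {n : ℕ} {F : Type*} [Field F] {a b : F}

theorem QM_split (h2 : n % 2 = 0) (j : Fin n) (hj : j.val + 1 < n / 2) (v w : Fin n → F)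
    (h0 : ∀ x, x < j → v x = 0) (hw0 : ∀ x, x ≤ j ∨ Fin.rev j ≤ x → w x = 0)
    (hw1 : ∀ x, j < x → x < Fin.rev j → w x = - v x) : QM n F a b v = v j * v (Fin.rev j) + QM n F a b w := by
  unfold QM
  have key : ∀ i : Fin n,
      (if i.val + 1 < n / 2 then v i * v (Fin.rev i)
        else if i.val + 1 = n / 2 then v i ^ 2 + a * v i * v (Fin.rev i) + b * v (Fin.rev i) ^ 2 else 0)
      = (if i = j then v j * v (Fin.rev j) else 0) +
        (if i.val + 1 < n / 2 then w i * w (Fin.rev i)
        else if i.val + 1 = n / 2 then w i ^ 2 + a * w i * w (Fin.rev i) + b * w (Fin.rev i) ^ 2 else 0) := by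
    intro i
    by_cases h1 : i.val + 1 < n / 2
    · rw [if_pos h1, if_pos h1]
      have hir : i < Fin.rev i := by
        rw [Fin.lt_def, Fin.val_rev]
        omega
      rcases lt_trichotomy i j with h | h | h
      · rw [if_neg (ne_of_lt h), h0 i h, hw0 i (Or.inl h.le)]
        simp
      · subst h
        rw [if_pos rfl, hw0 i (Or.inl le_rfl)]
        simp
      · rw [if_neg (ne_of_gt h)]
        have h3 : Fin.rev i < Fin.rev j := Fin.rev_lt_rev.2 h
        rw [hw1 i h (hir.trans h3), hw1 (Fin.rev i) (h.trans hir) h3]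
        ring
    · rw [if_neg h1, if_neg h1]
      have hij : i ≠ j := by
        rintro rfl
        exact h1 hj
      rw [if_neg hij]
      by_cases h4 : i.val + 1 = n / 2
      · rw [if_pos h4, if_pos h4]
        have h : j < i := by
          rw [Fin.lt_def]
          omega
        have hir : i < Fin.rev i := by
          rw [Fin.lt_def, Fin.val_rev]
          omega
        have h3 : Fin.rev i < Fin.rev j := Fin.rev_lt_rev.2 h
        rw [hw1 i h (hir.trans h3), hw1 (Fin.rev i) (h.trans hir) h3]
        ring
      · rw [if_neg h4, if_neg h4]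
        simp
  rw [Finset.sum_congr rfl (fun i _ => key i), Finset.sum_add_distrib, Finset.sum_ite_eq']
  simp

end Cfsg.Agent.Lib.H49SmESplit
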