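import Mathlib
import Cfsg.Agent.Lib.H49SmDefs
import Cfsg.Agent.Lib.H49SmGrp
import Cfsg.Agent.Lib.H49SmQF
import Cfsg.Agent.Lib.H49SmQFn
import Cfsg.Agent.Lib.H49SmStar
import Cfsg.Agent.Lib.H49SmInv
import Cfsg.Agent.Lib.H49SmMem

set_option autoImplicit false

/-! Project 2549 (Steinberg character of `POmega-_{2m+2}(q)`), piece `EU` (40m).

ADAPT the landed `H49SpEU` (now `w` may have middle components; `j` is a non-middle index `< n/2 - 1`). -/

namespace Cfsg.Agent.Lib.H49SmEU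

open Matrix Cfsg.Agent.Lib.H49SmDefs
open Cfsg.Agent.Lib.H49SuDefs (sgm Inv)
open Cfsg.Agent.Lib.H49SmGrp Cfsg.Agent.Lib.H49SmQF Cfsg.Agent.Lib.H49SmQFn Cfsg.Agent.Lib.H49SmStar Cfsg.Agent.Lib.H49SmInv Cfsg.Agent.Lib.H49SmMem

variable {n : ℕ} {F : Type*} [Field F] {a b : F}

theorem not_md_of_lt_eu (j : Fin n) (hj : j.val + 1 < n / 2) : ¬ md n j := by
  unfold md
  omega

theorem EE_col_eu (h2 : n % 2 = 0) (j : Fin n) (hj : j.val + 1 < n / 2) (w : Fin n → F) (hw0 : w (Fin.rev j) = 0) (y : Fin n) :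
    mt (EE a b j w) *ᵥ Pi.single y 1 = Pi.single y 1
      + (BM n F a b (Pi.single y 1) w - QM n F a b w * (Pi.single y 1 : Fin n → F) (Fin.rev j)) • Pi.single j 1
      - (Pi.single y 1 : Fin n → F) (Fin.rev j) • w := by
  rw [EE_apply h2 j (not_md_of_lt_eu j hj) w hw0]

theorem EE_entry_eu (h2 : n % 2 = 0) (j : Fin n) (hj : j.val + 1 < n / 2) (w : Fin n → F) (hw0 : w (Fin.rev j) = 0)
    (x y : Fin n) :
    mt (EE a b j w) x y = (Pi.single y 1 : Fin n → F) x
      + (BM n F a b (Pi.single y 1) w - QM n F a b w * (Pi.single y 1 : Fin n → F) (Fin.rev j))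
        * (Pi.single j 1 : Fin n → F) x
      - (Pi.single y 1 : Fin n → F) (Fin.rev j) * w x := by
  have h := congrFun (EE_col_eu (a := a) (b := b) h2 j hj w hw0 y) x
  have h' : (mt (EE a b j w) *ᵥ Pi.single y 1) x = mt (EE a b j w) x y := by
    rw [Matrix.mulVec_single_one]; rfl
  rw [h'] at h
  rw [h]
  simp only [Pi.add_apply, Pi.sub_apply, Pi.smul_apply, smul_eq_mul]

theorem EE_col_hi (h2 : n % 2 = 0) (j : Fin n) (hj : j.val + 1 < n / 2) (w : Fin n → F) (hw : ∀ x, x ≤ j ∨ Fin.rev j ≤ x → w x = 0)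
    (y : Fin n) (hy : Fin.rev j < y) : mt (EE a b j w) *ᵥ Pi.single y 1 = Pi.single y 1 := by
  rw [EE_col_eu h2 j hj w (hw _ (Or.inr le_rfl))]
  have h1 : (Pi.single y 1 : Fin n → F) (Fin.rev j) = 0 := Pi.single_eq_of_ne (ne_of_lt hy) _
  have h3 : Fin.rev y ≤ j := by
    have := Fin.rev_lt_rev.mpr hy
    rw [Fin.rev_rev] at this
    exact this.le
  have hmy : ¬ md n y := by
    have h4 : (Fin.rev j).val < y.val := hy
    rw [Fin.val_rev] at h4
    unfold md
    omega
  have h2' : BM n F a b (Pi.single y 1) w = 0 := by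
    rw [BM_single_left h2 y hmy]
    exact hw _ (Or.inl h3)
  rw [h1, h2']
  simp

theorem EE_col_rev (h2 : n % 2 = 0) (j : Fin n) (hj : j.val + 1 < n / 2) (w : Fin n → F) (hw : ∀ x, x ≤ j ∨ Fin.rev j ≤ x → w x = 0) :
    mt (EE a b j w) *ᵥ Pi.single (Fin.rev j) 1 = Pi.single (Fin.rev j) 1 - QM n F a b w • Pi.single j 1 - w := by
  rw [EE_col_eu h2 j hj w (hw _ (Or.inr le_rfl))]
  have h1 : (Pi.single (Fin.rev j) 1 : Fin n → F) (Fin.rev j) = 1 := Pi.single_eq_same _ _
  have hmy : ¬ md n (Fin.rev j) := by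
    unfold md
    rw [Fin.val_rev]
    omega
  have h2' : BM n F a b (Pi.single (Fin.rev j) 1) w = 0 := by
    rw [BM_single_left h2 _ hmy, Fin.rev_rev]; exact hw _ (Or.inl le_rfl)
  rw [h1, h2']
  simp [sub_eq_add_neg]

theorem EE_mem_UU [Finite F] (h2 : n % 2 = 0) (hab : Ani a b) (j : Fin n) (hj : j.val + 1 < n / 2) (w : Fin n → F)
    (hw : ∀ x, x ≤ j ∨ Fin.rev j ≤ x → w x = 0) : EE a b j w ∈ UU n F a b := by
  rw [mem_UU h2 (by omega) hab]
  have hw0 : w (Fin.rev j) = 0 := hw _ (Or.inr le_rfl)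
  have hwj : w j = 0 := hw _ (Or.inl le_rfl)
  have hjr : j < Fin.rev j := by
    rw [Fin.lt_def, Fin.val_rev]; omega
  refine ⟨?_, ?_, ?_⟩
  · intro x y hxy
    rw [EE_entry_eu h2 j hj w hw0]
    have h1 : (Pi.single y 1 : Fin n → F) x = 0 := Pi.single_eq_of_ne (ne_of_gt hxy) _
    rw [h1]
    by_cases hbj : y = Fin.rev j
    · subst hbj
      have h3 : w x = 0 := hw x (Or.inr hxy.le)
      have h4 : (Pi.single j 1 : Fin n → F) x = 0 :=
        Pi.single_eq_of_ne (ne_of_gt (lt_trans hjr hxy)) _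
      rw [h3, h4]; simp
    · have h3 : (Pi.single y 1 : Fin n → F) (Fin.rev j) = 0 :=
        Pi.single_eq_of_ne (fun e => hbj e.symm) _
      rw [h3]
      by_cases haj : x = j
      · subst haj
        have hmy : ¬ md n y := by
          have h5 : y.val < x.val := hxy
          unfold md
          omega
        have h4 : BM n F a b (Pi.single y 1) w = 0 := by
          rw [BM_single_left h2 y hmy]
          exact hw _ (Or.inr (Fin.rev_le_rev.mpr hxy.le))
        rw [h4]; simp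
      · have h4 : (Pi.single j 1 : Fin n → F) x = 0 := Pi.single_eq_of_ne haj _
        rw [h4]; simp
  · intro x
    rw [EE_entry_eu h2 j hj w hw0]
    have h1 : (Pi.single x 1 : Fin n → F) x = 1 := Pi.single_eq_same _ _
    rw [h1]
    by_cases haj : x = j
    · subst haj
      have h3 : (Pi.single x 1 : Fin n → F) (Fin.rev x) = 0 := Pi.single_eq_of_ne (ne_of_gt hjr) _
      rw [h3, BM_single_left h2 x (not_md_of_lt_eu x hj), hw0]; simp
    · have h4 : (Pi.single j 1 : Fin n → F) x = 0 := Pi.single_eq_of_ne haj _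
      rw [h4]
      by_cases har : x = Fin.rev j
      · subst har
        rw [hw0]; simp
      · have h3 : (Pi.single x 1 : Fin n → F) (Fin.rev j) = 0 :=
          Pi.single_eq_of_ne (fun e => har e.symm) _
        rw [h3]; simp
  · intro x y hx hy hxy
    rw [EE_entry_eu h2 j hj w hw0]
    have h1 : (Pi.single y 1 : Fin n → F) x = 0 := Pi.single_eq_of_ne hxy _
    have h4 : (Pi.single j 1 : Fin n → F) x = 0 := by
      apply Pi.single_eq_of_ne
      intro e
      subst e
      exact not_md_of_lt_eu x hj hx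
    have h3 : (Pi.single y 1 : Fin n → F) (Fin.rev j) = 0 := by
      apply Pi.single_eq_of_ne
      intro e
      have hv : (Fin.rev j).val = y.val := congrArg Fin.val e
      rw [Fin.val_rev] at hv
      unfold md at hy
      omega
    rw [h1, h4, h3]; simp

end Cfsg.Agent.Lib.H49SmEU
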