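import Mathlib
import Cfsg.Agent.Lib.H49SmDefs
import Cfsg.Agent.Lib.H49SmGrp
import Cfsg.Agent.Lib.H49SmQF
import Cfsg.Agent.Lib.H49SmQFn
import Cfsg.Agent.Lib.H49SmStar
import Cfsg.Agent.Lib.H49SmInv
import Cfsg.Agent.Lib.H49SmMem
import Cfsg.Agent.Lib.H49SmEU
import Cfsg.Agent.Lib.H49SmERow
import Cfsg.Agent.Lib.H49SmESplit

set_option autoImplicit false

/-! Project 2549 (Steinberg character of `POmega-_{2m+2}(q)`), piece `EStep` (40m).

Adaptation of the landed `H49SpEStep`. -/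

namespace Cfsg.Agent.Lib.H49SmEStep

open Matrix Cfsg.Agent.Lib.H49SmDefs
open Cfsg.Agent.Lib.H49SuDefs (sgm Inv)
open Cfsg.Agent.Lib.H49SmGrp Cfsg.Agent.Lib.H49SmQF Cfsg.Agent.Lib.H49SmQFn Cfsg.Agent.Lib.H49SmStar Cfsg.Agent.Lib.H49SmInv Cfsg.Agent.Lib.H49SmMem Cfsg.Agent.Lib.H49SmEU Cfsg.Agent.Lib.H49SmERow Cfsg.Agent.Lib.H49SmESplit

variable {n : ℕ} {F : Type*} [Field F] {a b : F}

theorem estep_inv_mulVec (g : GM n F a b) (x : Fin n → F) : mt g⁻¹ *ᵥ (mt g *ᵥ x) = x := by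
  rw [Matrix.mulVec_mulVec, ← mt_mul, inv_mul_cancel, mt_one, Matrix.one_mulVec]

theorem estep_col_apply (M : Matrix (Fin n) (Fin n) F) (x y : Fin n) :
    (M *ᵥ Pi.single y 1) x = M x y := by
  rw [Matrix.mulVec_single_one]; rfl

theorem estep_single_eq_one (x y : Fin n) :
    (Pi.single y 1 : Fin n → F) x = (1 : Matrix (Fin n) (Fin n) F) x y := by
  rw [Matrix.one_apply, Pi.single_apply]

theorem step [Finite F] (h2 : n % 2 = 0) (hab : Ani a b) (j : ℕ) (hj : j + 1 < n / 2) {u : GM n F a b} (hu : u ∈ UU n F a b)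
    (hcol : ∀ x y : Fin n, n ≤ y.val + j → mt u x y = (1 : Matrix (Fin n) (Fin n) F) x y) :
    ∃ w : Fin n → F, (∀ x : Fin n, x ≤ (⟨j, by omega⟩ : Fin n) ∨ Fin.rev (⟨j, by omega⟩ : Fin n) ≤ x → w x = 0) ∧
      ∀ x y : Fin n, n ≤ y.val + (j + 1) →
        mt ((EE a b (⟨j, by omega⟩ : Fin n) w)⁻¹ * u) x y = (1 : Matrix (Fin n) (Fin n) F) x y := by
  classical
  obtain ⟨jj, hjj⟩ : ∃ jj : Fin n, jj = (⟨j, by omega⟩ : Fin n) := ⟨_, rfl⟩
  rw [← hjj]
  have hjv : jj.val = j := by rw [hjj]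
  have hrv : (Fin.rev jj).val = n - (j + 1) := by rw [Fin.val_rev, hjv]
  have hjj2 : jj.val + 1 < n / 2 := by rw [hjv]; exact hj
  obtain ⟨v, hv⟩ : ∃ v : Fin n → F, v = mt u *ᵥ Pi.single (Fin.rev jj) 1 := ⟨_, rfl⟩
  have hva : ∀ x, v x = mt u x (Fin.rev jj) := by
    intro x; rw [hv, estep_col_apply]
  obtain ⟨w, hw⟩ : ∃ w : Fin n → F, w = fun x => if jj < x ∧ x < Fin.rev jj then - v x else 0 :=
    ⟨_, rfl⟩
  have hw0 : ∀ x : Fin n, x ≤ jj ∨ Fin.rev jj ≤ x → w x = 0 := by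
    intro x ha
    rw [hw]
    show (if jj < x ∧ x < Fin.rev jj then - v x else 0) = 0
    rw [if_neg]
    rintro ⟨h3, h4⟩
    rcases ha with h5 | h5
    · exact absurd h3 (not_lt.mpr h5)
    · exact absurd h4 (not_lt.mpr h5)
  have hw1 : ∀ x, jj < x → x < Fin.rev jj → w x = - v x := by
    intro x h3 h4
    rw [hw]
    show (if jj < x ∧ x < Fin.rev jj then - v x else 0) = - v x
    rw [if_pos ⟨h3, h4⟩]
  have hvr : v (Fin.rev jj) = 1 := by rw [hva]; exact hu.1.2.1 _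
  have hvhi : ∀ x, Fin.rev jj < x → v x = 0 := by
    intro x ha; rw [hva]; exact hu.1.1 x _ ha
  have hvlo : ∀ x, x < jj → v x = 0 := by
    intro x ha
    rw [hva, H49SmERow.rows h2 j (by omega) hcol x (Fin.rev jj) (by rw [← hjv]; exact ha), Matrix.one_apply,
      if_neg]
    intro e
    have h3 : x.val = n - (j + 1) := by rw [e, hrv]
    have h4 : x.val < j := by rw [← hjv]; exact ha
    omega
  have hnmd : ¬ md n (Fin.rev jj) := by
    unfold md
    rw [hrv]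
    omega
  have hQv : QM n F a b v = 0 := by rw [hv, QM_mulVec, QM_single h2 _ hnmd]
  have hsplit := H49SmESplit.QM_split (a := a) (b := b) h2 jj hjj2 v w hvlo hw0 hw1
  rw [hQv, hvr, mul_one] at hsplit
  have hvj : v jj = - QM n F a b w := by
    have : v jj + QM n F a b w = 0 := hsplit.symm
    exact eq_neg_of_add_eq_zero_left this
  have hjr : jj < Fin.rev jj := by
    rw [Fin.lt_def, hrv, hjv]; omega
  have hEv : mt (EE a b jj w) *ᵥ Pi.single (Fin.rev jj) 1 = v := by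
    rw [H49SmEU.EE_col_rev h2 jj hjj2 w hw0]
    funext x
    simp only [Pi.sub_apply, Pi.smul_apply, smul_eq_mul]
    rcases lt_trichotomy x jj with h3 | h3 | h3
    · rw [Pi.single_eq_of_ne (ne_of_lt (lt_trans h3 hjr)), Pi.single_eq_of_ne (ne_of_lt h3),
        hw0 x (Or.inl h3.le), hvlo x h3]
      simp
    · subst h3
      rw [Pi.single_eq_of_ne (ne_of_lt hjr), Pi.single_eq_same, hw0 x (Or.inl le_rfl), hvj]
      simp
    · rcases lt_trichotomy x (Fin.rev jj) with h4 | h4 | h4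
      · rw [Pi.single_eq_of_ne (ne_of_lt h4), Pi.single_eq_of_ne (ne_of_gt h3), hw1 x h3 h4]
        simp
      · rw [h4, Pi.single_eq_same, Pi.single_eq_of_ne (ne_of_gt hjr), hw0 _ (Or.inr le_rfl), hvr]
        simp
      · rw [Pi.single_eq_of_ne (ne_of_gt h4), Pi.single_eq_of_ne (ne_of_gt h3),
          hw0 x (Or.inr h4.le), hvhi x h4]
        simp
  refine ⟨w, hw0, ?_⟩
  intro x y hb
  rw [← estep_col_apply (mt ((EE a b jj w)⁻¹ * u)) x y, mt_mul, ← Matrix.mulVec_mulVec,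
    ← estep_single_eq_one]
  by_cases hbr : y = Fin.rev jj
  · rw [hbr, ← hv, ← hEv, estep_inv_mulVec]
  · have hb' : Fin.rev jj < y := by
      rw [Fin.lt_def, hrv]
      have h3 : y.val ≠ n - (j + 1) := by
        intro e
        apply hbr
        apply Fin.ext
        rw [e, hrv]
      omega
    have hub : mt u *ᵥ Pi.single y 1 = Pi.single y 1 := by
      funext a'
      rw [estep_col_apply, estep_single_eq_one]
      apply hcol
      rw [Fin.lt_def, hrv] at hb'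
      omega
    rw [hub]
    have h4 := estep_inv_mulVec (EE a b jj w) (Pi.single y 1)
    rw [H49SmEU.EE_col_hi h2 jj hjj2 w hw0 y hb'] at h4
    rw [h4]

end Cfsg.Agent.Lib.H49SmEStep
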