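import Mathlib
import Cfsg.Agent.Lib.H49SmDefs
import Cfsg.Agent.Lib.H49SmGrp
import Cfsg.Agent.Lib.H49SmQF
import Cfsg.Agent.Lib.H49SmQFn
import Cfsg.Agent.Lib.H49SmStar
import Cfsg.Agent.Lib.H49SmInv
import Cfsg.Agent.Lib.H49SmMem
import Cfsg.Agent.Lib.H49SmEU
import Cfsg.Agent.Lib.H49SmERow
import Cfsg.Agent.Lib.H49SmEStep

set_option autoImplicit false

/-! Project 2549 (Steinberg character of `POmega-_{2m+2}(q)`), piece `EInd` (40m).

ADAPT the landed `H49SpEInd`.  Induction on `n/2 - 1 - j`.  Base `j + 1 = n/2`: the columns `y > n/2` and the rows `x < n/2 - 1` are trivial, the middle block is trivial and the rest is below the diagonal (`UTm`), so `u = 1`. -/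

namespace Cfsg.Agent.Lib.H49SmEInd

open Matrix Cfsg.Agent.Lib.H49SmDefs
open Cfsg.Agent.Lib.H49SuDefs (sgm Inv)
open Cfsg.Agent.Lib.H49SmGrp Cfsg.Agent.Lib.H49SmQF Cfsg.Agent.Lib.H49SmQFn Cfsg.Agent.Lib.H49SmStar Cfsg.Agent.Lib.H49SmInv Cfsg.Agent.Lib.H49SmMem Cfsg.Agent.Lib.H49SmEU Cfsg.Agent.Lib.H49SmERow Cfsg.Agent.Lib.H49SmEStep

variable {n : ℕ} {F : Type*} [Field F] {a b : F}

theorem UU_le_aux [Finite F] (h2 : n % 2 = 0) (hn : 2 ≤ n) (hab : Ani a b) (K : Subgroup (GM n F a b))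
    (hK : ∀ (j : Fin n) (w : Fin n → F), j.val + 1 < n / 2 → (∀ x, x ≤ j ∨ Fin.rev j ≤ x → w x = 0) → EE a b j w ∈ K) :
    ∀ (d j : ℕ), n / 2 ≤ j + 1 + d → j + 1 ≤ n / 2 → ∀ u : GM n F a b, u ∈ UU n F a b →
      (∀ x y : Fin n, n ≤ y.val + j → mt u x y = (1 : Matrix (Fin n) (Fin n) F) x y) → u ∈ K := by
  intro d
  induction d with
  | zero =>
    intro j hj hj' u hu hcol
    have hrow := Cfsg.Agent.Lib.H49SmERow.rows h2 j hj' hcol
    have hUT : UTm (mt u) := (Cfsg.Agent.Lib.H49SmMem.mem_UU h2 hn hab).1 hu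
    have h1 : mt u = 1 := by
      ext x y
      by_cases hb : n ≤ y.val + j
      · exact hcol x y hb
      · by_cases ha : x.val < j
        · exact hrow x y ha
        · by_cases hxy : x = y
          · subst hxy
            rw [hUT.2.1 x, Matrix.one_apply_eq]
          · rw [Matrix.one_apply_ne hxy]
            by_cases hlt : y < x
            · exact hUT.1 x y hlt
            · have hv : x.val ≠ y.val := fun e => hxy (Fin.ext e)
              have hle : ¬ y.val < x.val := fun e => hlt (Fin.lt_def.2 e)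
              apply hUT.2.2 x y _ _ hxy
              · left; omega
              · right; omega
    have : u = 1 := mt_inj (by rw [h1, mt_one])
    rw [this]; exact K.one_mem
  | succ d ih =>
    intro j hj hj' u hu hcol
    by_cases hj2 : n / 2 ≤ j + 1 + d
    · exact ih j hj2 hj' u hu hcol
    · have hjn : j + 1 < n / 2 := by omega
      obtain ⟨w, hw, hcol'⟩ := Cfsg.Agent.Lib.H49SmEStep.step h2 hab j hjn hu hcol
      have hE : EE a b (⟨j, by omega⟩ : Fin n) w ∈ UU n F a b :=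
        Cfsg.Agent.Lib.H49SmEU.EE_mem_UU h2 hab _ hjn w hw
      have hu' : (EE a b (⟨j, by omega⟩ : Fin n) w)⁻¹ * u ∈ UU n F a b :=
        (UU n F a b).mul_mem ((UU n F a b).inv_mem hE) hu
      have hk' := ih (j + 1) (by omega) (by omega) _ hu' hcol'
      have := K.mul_mem (hK _ w hjn hw) hk'
      rwa [mul_inv_cancel_left] at this

theorem UU_le [Finite F] (h2 : n % 2 = 0) (hn : 2 ≤ n) (hab : Ani a b) (K : Subgroup (GM n F a b))
    (hK : ∀ (j : Fin n) (w : Fin n → F), j.val + 1 < n / 2 → (∀ x, x ≤ j ∨ Fin.rev j ≤ x → w x = 0) → EE a b j w ∈ K) :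
    UU n F a b ≤ K := by
  intro u hu
  refine UU_le_aux h2 hn hab K hK n 0 (by omega) (by omega) u hu ?_
  intro x y hb
  exact absurd y.isLt (by omega)

end Cfsg.Agent.Lib.H49SmEInd
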