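import Mathlib
import Cfsg.Agent.Lib.H49SmDefs
import Cfsg.Agent.Lib.H49SmQF
import Cfsg.Agent.Lib.H49SmQFn
import Cfsg.Agent.Lib.Helper49EichGen

set_option autoImplicit false

/-! Project 2549 (Steinberg character of `POmega-_{2m+2}(q)`), piece `EK` (20m). -/

namespace Cfsg.Agent.Lib.H49SmEK

open Matrix Cfsg.Agent.Lib.H49SmDefs
open Cfsg.Agent.Lib.H49SuDefs (sgm Inv)
open Cfsg.Agent.Lib.H49SmQF Cfsg.Agent.Lib.H49SmQFn

variable {n : ℕ} {F : Type*} [Field F] {a b : F}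

theorem EE_mem [Fintype F] (h2 : n % 2 = 0) (hn : 6 ≤ n) (hab : Ani a b) (j : Fin n) (hj : j.val + 1 < n / 2) (w : Fin n → F)
    (hw : ∀ x, x ≤ j ∨ Fin.rev j ≤ x → w x = 0) : EE a b j w ∈ commutator (GM n F a b) := by
  have hmd : ¬ md n j := by
    unfold md
    omega
  have he : (QF n F a b) (Pi.single j 1) = 0 := QM_single h2 j hmd 1
  have hw' : QuadraticMap.polar (⇑(QF n F a b)) (Pi.single j 1) w = 0 := by
    rw [polar_QF h2, BM_single_left h2 j hmd, hw _ (Or.inr le_rfl)]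
  show Cfsg.Agent.Lib.Helper49Eich.E (QF n F a b) (Pi.single j 1) w ∈ Cfsg.Omega F ⇑(QF n F a b)
  exact Cfsg.Agent.Lib.Helper49EichGen.E_mem_Omega (QF n F a b) (QF_nondeg h2 (by omega) hab)
    (by simp only [Fintype.card_fin]; omega) he hw'

end Cfsg.Agent.Lib.H49SmEK
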