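import Mathlib
import Cfsg.Prelude.Def_Classical
import Cfsg.Prelude.Def_LieExceptional
import Cfsg.Agent.Lib.H49SuDefs

set_option autoImplicit false

/-! Project 2547 (Steinberg character of `PΩ_{2m+1}(q)`, `q` odd): vocabulary.  `GO n F` is the full isometry group of the
quadratic form `QA n F v = ∑_{i < rev i} v i * v (rev i) + (v mid) ^ 2` on `Fin n` (`n` odd), with its BN-pair:
`BB` upper triangular, `NN` monomial, `TT` diagonal, `UU` upper unitriangular.  The matrix predicates `Tri UT Dg Mon` and the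
combinatorics `sgm n k`, `Inv n k`, `CL n` are those of `H49SuDefs`. -/

namespace Cfsg.Agent.Lib.H49SoDefs

open Matrix
open Cfsg.Agent.Lib.H49SuDefs (Tri UT Dg Mon Tri_one Tri_mul UT_one UT_mul Dg_one Dg_mul Mon_one Mon_mul Mon_uniq sgm Inv CL)

variable {n : ℕ} {F : Type*} [Field F]

/-- the quadratic form -/
def QA (n : ℕ) (F : Type*) [Field F] (v : Fin n → F) : F :=
  ∑ i : Fin n, if i < Fin.rev i then v i * v (Fin.rev i) else if i = Fin.rev i then v i ^ 2 else 0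

/-- the weights of the polar form -/
def cc (F : Type*) [Field F] {n : ℕ} (a : Fin n) : F := if a = Fin.rev a then 2 else 1

/-- the polar form -/
def BA (n : ℕ) (F : Type*) [Field F] (u v : Fin n → F) : F := ∑ i : Fin n, cc F i * u i * v (Fin.rev i)

/-- the full orthogonal group of `QA` -/
abbrev GO (n : ℕ) (F : Type*) [Field F] := ↥(Cfsg.isometryGroup F (QA n F))

/-- the matrix of an element -/
def mt (g : GO n F) : Matrix (Fin n) (Fin n) F := ((g.1 : Matrix.GeneralLinearGroup (Fin n) F) : Matrix (Fin n) (Fin n) F)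

theorem mt_one : mt (1 : GO n F) = 1 := rfl

theorem mt_mul (g h : GO n F) : mt (g * h) = mt g * mt h := rfl

theorem mt_inj {g h : GO n F} (e : mt g = mt h) : g = h := Subtype.ext (Units.ext e)

theorem mt_mul_inv_rev (g h : GO n F) : mt (g * h)⁻¹ = mt h⁻¹ * mt g⁻¹ := by
  rw [_root_.mul_inv_rev]; rfl

/-- the Borel subgroup: upper triangular matrices (see `H49SoMem.mem_BB`) -/
def BB (n : ℕ) (F : Type*) [Field F] : Subgroup (GO n F) where
  carrier := {g | Tri (mt g) ∧ Tri (mt g⁻¹)}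
  one_mem' := ⟨Tri_one, by rw [inv_one]; exact Tri_one⟩
  mul_mem' := fun {g h} hg hh => ⟨Tri_mul hg.1 hh.1, by rw [mt_mul_inv_rev]; exact Tri_mul hh.2 hg.2⟩
  inv_mem' := fun {g} hg => ⟨hg.2, by rw [inv_inv]; exact hg.1⟩

/-- the torus: diagonal matrices (see `H49SoMem.mem_TT`) -/
def TT (n : ℕ) (F : Type*) [Field F] : Subgroup (GO n F) where
  carrier := {g | Dg (mt g) ∧ Dg (mt g⁻¹)}
  one_mem' := ⟨Dg_one, by rw [inv_one]; exact Dg_one⟩
  mul_mem' := fun {g h} hg hh => ⟨Dg_mul hg.1 hh.1, by rw [mt_mul_inv_rev]; exact Dg_mul hh.2 hg.2⟩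
  inv_mem' := fun {g} hg => ⟨hg.2, by rw [inv_inv]; exact hg.1⟩

/-- the unipotent radical: upper unitriangular matrices (see `H49SoMem.mem_UU`) -/
def UU (n : ℕ) (F : Type*) [Field F] : Subgroup (GO n F) where
  carrier := {g | UT (mt g) ∧ UT (mt g⁻¹)}
  one_mem' := ⟨UT_one, by rw [inv_one]; exact UT_one⟩
  mul_mem' := fun {g h} hg hh => ⟨UT_mul hg.1 hh.1, by rw [mt_mul_inv_rev]; exact UT_mul hh.2 hg.2⟩
  inv_mem' := fun {g} hg => ⟨hg.2, by rw [inv_inv]; exact hg.1⟩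

/-- the monomial matrices (see `H49SoMem.mem_NN`) -/
def NN (n : ℕ) (F : Type*) [Field F] : Subgroup (GO n F) where
  carrier := {g | (∃ π, Mon π (mt g)) ∧ ∃ π, Mon π (mt g⁻¹)}
  one_mem' := ⟨⟨1, Mon_one⟩, ⟨1, by rw [inv_one]; exact Mon_one⟩⟩
  mul_mem' := fun {g h} hg hh => by
    obtain ⟨⟨π, h1⟩, ⟨π', h2⟩⟩ := hg
    obtain ⟨⟨ρ, h3⟩, ⟨ρ', h4⟩⟩ := hh
    exact ⟨⟨π * ρ, Mon_mul h1 h3⟩, ⟨ρ' * π', by rw [mt_mul_inv_rev]; exact Mon_mul h4 h2⟩⟩
  inv_mem' := fun {g} hg => ⟨hg.2, by rw [inv_inv]; exact hg.1⟩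

theorem UU_le_BB : UU n F ≤ BB n F := fun _ h => ⟨h.1.1, h.2.1⟩

theorem TT_le_BB : TT n F ≤ BB n F := fun _ h =>
  ⟨fun a b hab => h.1 a b (ne_of_gt hab), fun a b hab => h.2 a b (ne_of_gt hab)⟩

/-- the positive root set of the simple reflection `k` -/
def XX (n : ℕ) (F : Type*) [Field F] (k : ℕ) : Set (GO n F) :=
  {x | (∀ a, mt x a a = 1) ∧ ∀ a b, a ≠ b → mt x a b ≠ 0 → Inv n k a b}

/-- the negative root set of the simple reflection `k` -/
def YY (n : ℕ) (F : Type*) [Field F] (k : ℕ) : Set (GO n F) :=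
  {y | (∀ a, mt y a a = 1) ∧ ∀ a b, a ≠ b → mt y a b ≠ 0 → Inv n k b a}

open Classical in
/-- a representative of the simple reflection `k` (see `H49SoRefl.Mon_sk`) -/
noncomputable def sk (n : ℕ) (F : Type*) [Field F] (k : ℕ) : GO n F :=
  if h : ∃ s : GO n F, Mon (sgm n k) (mt s) then h.choose else 1

/-- the simple reflections -/
def SS (n : ℕ) (F : Type*) [Field F] : Set (GO n F) := {g | ∃ k, 2 * k + 2 ≤ n ∧ g = sk n F k}

end Cfsg.Agent.Lib.H49SoDefs
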