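import Mathlib
import Cfsg.Agent.Lib.H49SoDefs

set_option autoImplicit false

/-! Project 2547 (Steinberg character of `POmega_{2m+1}(q)`), piece `IsoO` (50m).

Reindexing.  `e : Unit ⊕ (Fin m ⊕ Fin m) ≃ Fin (2*m+1)`: `inl () ↦ m`, `inr (inl i) ↦ i`, `inr (inr i) ↦ 2m - i = rev i`.  Then `QA (2m+1) F v = quadFormOdd m F (v ∘ e)`, and `g ↦ Matrix.reindex e e g` (`Matrix.reindexAlgEquiv`/`Matrix.GeneralLinearGroup` + `Units.mapEquiv`) is an isomorphism of the isometry groups (`Matrix.reindex_apply`, `Matrix.submatrix_mulVec_equiv`).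
Search the library first: helper18 (`Helper18Transfer.isoEquiv`, `Helper18RecA`) has transports of `Cfsg.isometryGroup` between equivalent forms, possibly on different index types. -/

namespace Cfsg.Agent.Lib.H49SoIsoO

open Matrix Cfsg.Agent.Lib.H49SoDefs
open Cfsg.Agent.Lib.H49SuDefs (Tri UT Dg Mon Tri_one Tri_mul UT_one UT_mul Dg_one Dg_mul Mon_one Mon_mul Mon_uniq sgm Inv CL)

variable {n : ℕ} {F : Type*} [Field F]

theorem mem_iso {ι : Type} [Fintype ι] [DecidableEq ι] {Q : (ι → F) → F}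
    {g : Matrix.GeneralLinearGroup ι F} :
    g ∈ Cfsg.isometryGroup F Q ↔ ∀ u : ι → F, Q ((g : Matrix ι ι F) *ᵥ u) = Q u :=
  ⟨fun h u => h u u, fun h u _ => h u⟩

/-- reindexing of `GL`. -/
noncomputable def glRe {ι κ : Type} [Fintype ι] [DecidableEq ι] [Fintype κ] [DecidableEq κ] (e : ι ≃ κ) :
    Matrix.GeneralLinearGroup ι F ≃* Matrix.GeneralLinearGroup κ F :=
  Units.mapEquiv (Matrix.reindexAlgEquiv F F e).toMulEquiv

theorem iso_reindex {ι κ : Type} [Fintype ι] [DecidableEq ι] [Fintype κ] [DecidableEq κ] (e : ι ≃ κ)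
    (Q : (ι → F) → F) (Q' : (κ → F) → F) (h : ∀ v : κ → F, Q' v = Q (v ∘ e)) :
    Nonempty (Cfsg.isometryGroup F Q ≃* Cfsg.isometryGroup F Q') := by
  have hmap : (Cfsg.isometryGroup F Q).map ((glRe (F := F) e : Matrix.GeneralLinearGroup ι F ≃* Matrix.GeneralLinearGroup κ F) : Matrix.GeneralLinearGroup ι F →* Matrix.GeneralLinearGroup κ F) = Cfsg.isometryGroup F Q' := by
    rw [Subgroup.map_equiv_eq_comap_symm]
    ext g
    rw [Subgroup.mem_comap, mem_iso, mem_iso]
    have hc : (((((glRe (F := F) e).symm : Matrix.GeneralLinearGroup κ F →* Matrix.GeneralLinearGroup ι F) g : Matrix.GeneralLinearGroup ι F)) : Matrix ι ι F)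
        = (g : Matrix κ κ F).submatrix e e := rfl
    rw [hc]
    constructor
    · intro hg w
      have := hg (w ∘ e)
      rw [Matrix.submatrix_mulVec_equiv, ← h, ← h] at this
      simpa [Function.comp_assoc] using this
    · intro hg u
      rw [Matrix.submatrix_mulVec_equiv, ← h, hg, h]
      simp [Function.comp_assoc]
  exact ⟨((glRe (F := F) e).subgroupMap _).trans (MulEquiv.subgroupCongr hmap)⟩

/-- the map of index sets. -/
def ef (m : ℕ) : Unit ⊕ (Fin m ⊕ Fin m) → Fin (2 * m + 1)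
  | .inl _ => ⟨m, by omega⟩
  | .inr (.inl i) => ⟨i.1, by have := i.2; omega⟩
  | .inr (.inr i) => ⟨2 * m - i.1, by omega⟩

theorem ef_bij (m : ℕ) : Function.Bijective (ef m) := by
  rw [Fintype.bijective_iff_injective_and_card]
  constructor
  · rintro (x | x | x) (y | y | y) hxy <;> simp only [ef, Fin.mk.injEq] at hxy
    · rfl
    · have := y.2; omega
    · have := y.2; omega
    · have := x.2; omega
    · rw [Fin.ext hxy]
    · have := x.2; have := y.2; omega
    · have := x.2; omega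
    · have := x.2; have := y.2; omega
    · have h1 := x.2; have h2 := y.2
      have : x = y := Fin.ext (by omega)
      rw [this]
  · simp [Fintype.card_sum]; ring

noncomputable def ee (m : ℕ) : Unit ⊕ (Fin m ⊕ Fin m) ≃ Fin (2 * m + 1) :=
  Equiv.ofBijective (ef m) (ef_bij m)

theorem QA_eq (m : ℕ) (v : Fin (2 * m + 1) → F) :
    QA (2 * m + 1) F v = Cfsg.quadFormOdd m F (v ∘ ee m) := by
  unfold QA Cfsg.quadFormOdd
  rw [← Equiv.sum_comp (ee m), Fintype.sum_sum_type, Fintype.sum_sum_type]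
  have h0 : Fin.rev (ee m (Sum.inl ())) = ee m (Sum.inl ()) := by
    apply Fin.ext
    simp only [ee, Equiv.ofBijective_apply, ef, Fin.val_rev]
    omega
  have h1 : ∀ i : Fin m, Fin.rev (ee m (Sum.inr (Sum.inl i))) = ee m (Sum.inr (Sum.inr i)) := by
    intro i
    apply Fin.ext
    simp only [ee, Equiv.ofBijective_apply, ef, Fin.val_rev]
    have := i.2
    omega
  have h2 : ∀ i : Fin m, Fin.rev (ee m (Sum.inr (Sum.inr i))) = ee m (Sum.inr (Sum.inl i)) := by
    intro i
    rw [← h1, Fin.rev_rev]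
  have h3 : ∀ i : Fin m, ee m (Sum.inr (Sum.inl i)) < ee m (Sum.inr (Sum.inr i)) := by
    intro i
    rw [Fin.lt_def]
    simp only [ee, Equiv.ofBijective_apply, ef]
    have := i.2
    omega
  have e0 : (∑ x : Unit, (if ee m (Sum.inl x) < Fin.rev (ee m (Sum.inl x)) then
      v (ee m (Sum.inl x)) * v (Fin.rev (ee m (Sum.inl x)))
      else if ee m (Sum.inl x) = Fin.rev (ee m (Sum.inl x)) then v (ee m (Sum.inl x)) ^ 2 else 0))
      = v (ee m (Sum.inl ())) ^ 2 := by
    rw [Fintype.sum_unique]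
    show (if ee m (Sum.inl ()) < Fin.rev (ee m (Sum.inl ())) then _ else _) = _
    rw [h0, if_neg (lt_irrefl _), if_pos rfl]
  have e1 : ∀ i : Fin m, (if ee m (Sum.inr (Sum.inl i)) < Fin.rev (ee m (Sum.inr (Sum.inl i))) then
      v (ee m (Sum.inr (Sum.inl i))) * v (Fin.rev (ee m (Sum.inr (Sum.inl i))))
      else if ee m (Sum.inr (Sum.inl i)) = Fin.rev (ee m (Sum.inr (Sum.inl i))) then
        v (ee m (Sum.inr (Sum.inl i))) ^ 2 else 0)
      = v (ee m (Sum.inr (Sum.inl i))) * v (ee m (Sum.inr (Sum.inr i))) := by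
    intro i
    rw [h1, if_pos (h3 i)]
  have e2 : ∀ i : Fin m, (if ee m (Sum.inr (Sum.inr i)) < Fin.rev (ee m (Sum.inr (Sum.inr i))) then
      v (ee m (Sum.inr (Sum.inr i))) * v (Fin.rev (ee m (Sum.inr (Sum.inr i))))
      else if ee m (Sum.inr (Sum.inr i)) = Fin.rev (ee m (Sum.inr (Sum.inr i))) then
        v (ee m (Sum.inr (Sum.inr i))) ^ 2 else 0) = 0 := by
    intro i
    rw [h2, if_neg (not_lt.2 (h3 i).le), if_neg (h3 i).ne']
  rw [e0, Finset.sum_congr rfl (fun i _ => e1 i), Finset.sum_congr rfl (fun i _ => e2 i)]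
  simp

theorem iso (m : ℕ) :
    Nonempty (Cfsg.isometryGroup F (Cfsg.quadFormOdd m F) ≃* Cfsg.isometryGroup F (QA (2 * m + 1) F)) :=
  iso_reindex (ee m) _ _ (QA_eq m)

end Cfsg.Agent.Lib.H49SoIsoO
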