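import Mathlib
import Cfsg.Agent.Lib.H49SmDefs
import Cfsg.Agent.Lib.H49SoIsoO

set_option autoImplicit false

/-! Project 2549 (Steinberg character of `POmega-_{2m+2}(q)`), piece `Iso` (40m).

Reindexing (ADAPT the landed `H49SpIsoP`/`H49SoIsoO`).  `e : (Fin m ⊕ Fin m) ⊕ Fin 2 ≃ Fin (2*m+2)`: `inl (inl i) ↦ i`, `inl (inr i) ↦ 2m+1-i = rev i`, `inr 0 ↦ m`, `inr 1 ↦ m+1`. -/

namespace Cfsg.Agent.Lib.H49SmIso

open Matrix Cfsg.Agent.Lib.H49SmDefs
open Cfsg.Agent.Lib.H49SuDefs (sgm Inv)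

variable {n : ℕ} {F : Type*} [Field F] {a b : F}

/-- the map of index sets. -/
def efM (m : ℕ) : (Fin m ⊕ Fin m) ⊕ Fin 2 → Fin (2 * m + 2)
  | .inl (.inl i) => ⟨i.1, by have := i.2; omega⟩
  | .inl (.inr i) => ⟨2 * m + 1 - i.1, by have := i.2; omega⟩
  | .inr j => ⟨m + j.1, by have := j.2; omega⟩

theorem efM_bij (m : ℕ) : Function.Bijective (efM m) := by
  rw [Fintype.bijective_iff_injective_and_card]
  constructor
  · rintro ((x | x) | x) ((y | y) | y) hxy <;> simp only [efM, Fin.mk.injEq] at hxy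
    · rw [Fin.ext hxy]
    · have := x.2; have := y.2; omega
    · have := x.2; have := y.2; omega
    · have := x.2; have := y.2; omega
    · have h1 := x.2; have h2 := y.2
      have : x = y := Fin.ext (by omega)
      rw [this]
    · have := x.2; have := y.2; omega
    · have := x.2; have := y.2; omega
    · have := x.2; have := y.2; omega
    · have h1 := x.2; have h2 := y.2
      have : x = y := Fin.ext (by omega)
      rw [this]
  · simp [Fintype.card_sum]; ring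

noncomputable def eeM (m : ℕ) : (Fin m ⊕ Fin m) ⊕ Fin 2 ≃ Fin (2 * m + 2) :=
  Equiv.ofBijective (efM m) (efM_bij m)

theorem QM_eq (m : ℕ) (a b : F) (v : Fin (2 * m + 2) → F) :
    QM (2 * m + 2) F a b v = Cfsg.quadFormMinus m F a b (v ∘ eeM m) := by
  unfold QM Cfsg.quadFormMinus
  rw [← Equiv.sum_comp (eeM m), Fintype.sum_sum_type, Fintype.sum_sum_type, Fin.sum_univ_two]
  have hn : (2 * m + 2) / 2 = m + 1 := by omega
  have v1 : ∀ i : Fin m, (eeM m (Sum.inl (Sum.inl i))).val = i.val := fun i => rfl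
  have v2 : ∀ i : Fin m, (eeM m (Sum.inl (Sum.inr i))).val = 2 * m + 1 - i.val := fun i => rfl
  have v3 : (eeM m (Sum.inr 0)).val = m := rfl
  have v4 : (eeM m (Sum.inr 1)).val = m + 1 := rfl
  have h1 : ∀ i : Fin m, Fin.rev (eeM m (Sum.inl (Sum.inl i))) = eeM m (Sum.inl (Sum.inr i)) := by
    intro i
    apply Fin.ext
    rw [Fin.val_rev, v1, v2]
    have := i.2
    omega
  have h3 : Fin.rev (eeM m (Sum.inr 0)) = eeM m (Sum.inr 1) := by
    apply Fin.ext
    rw [Fin.val_rev, v3, v4]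
    omega
  have e1 : ∀ i : Fin m, (if (eeM m (Sum.inl (Sum.inl i))).val + 1 < (2 * m + 2) / 2 then
      v (eeM m (Sum.inl (Sum.inl i))) * v (Fin.rev (eeM m (Sum.inl (Sum.inl i))))
      else if (eeM m (Sum.inl (Sum.inl i))).val + 1 = (2 * m + 2) / 2 then
        v (eeM m (Sum.inl (Sum.inl i))) ^ 2
          + a * v (eeM m (Sum.inl (Sum.inl i))) * v (Fin.rev (eeM m (Sum.inl (Sum.inl i))))
          + b * v (Fin.rev (eeM m (Sum.inl (Sum.inl i)))) ^ 2 else 0)
      = v (eeM m (Sum.inl (Sum.inl i))) * v (eeM m (Sum.inl (Sum.inr i))) := by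
    intro i
    rw [h1, if_pos (by rw [v1, hn]; have := i.2; omega)]
  have e2 : ∀ i : Fin m, (if (eeM m (Sum.inl (Sum.inr i))).val + 1 < (2 * m + 2) / 2 then
      v (eeM m (Sum.inl (Sum.inr i))) * v (Fin.rev (eeM m (Sum.inl (Sum.inr i))))
      else if (eeM m (Sum.inl (Sum.inr i))).val + 1 = (2 * m + 2) / 2 then
        v (eeM m (Sum.inl (Sum.inr i))) ^ 2
          + a * v (eeM m (Sum.inl (Sum.inr i))) * v (Fin.rev (eeM m (Sum.inl (Sum.inr i))))
          + b * v (Fin.rev (eeM m (Sum.inl (Sum.inr i)))) ^ 2 else 0) = 0 := by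
    intro i
    rw [if_neg (by rw [v2, hn]; have := i.2; omega), if_neg (by rw [v2, hn]; have := i.2; omega)]
  rw [Finset.sum_congr rfl (fun i _ => e1 i), Finset.sum_congr rfl (fun i _ => e2 i)]
  rw [if_neg (by rw [v3, hn]; omega), if_pos (by rw [v3, hn]), h3,
    if_neg (by rw [v4, hn]; omega), if_neg (by rw [v4, hn]; omega)]
  simp

theorem iso (m : ℕ) (a b : F) :
    Nonempty (Cfsg.isometryGroup F (Cfsg.quadFormMinus m F a b) ≃* Cfsg.isometryGroup F (QM (2 * m + 2) F a b)) :=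
  Cfsg.Agent.Lib.H49SoIsoO.iso_reindex (eeM m) _ _ (QM_eq m a b)

end Cfsg.Agent.Lib.H49SmIso
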