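import Mathlib
import Cfsg.Agent.Lib.H49SuDefs
import Cfsg.Agent.Lib.H49SuSgm

set_option autoImplicit false

/-! Project 2546 (Steinberg character of `PSU_n(q)`), piece `W` (60m).

Pure combinatorics: every permutation of `Fin n` commuting with `rev` lies in `CL n`.  Prove by downward induction on `j`: `P j`: if `π` commutes with `rev` and fixes all `a` with `a.val < j` then `π ∈ CL n`.
If `n ≤ 2 * j + 1`, `π` fixes all `a < j`, hence all `rev a`, i.e. all `a > n - 1 - j`, and then also the middle index: `π = 1`.  Step: let `c = π j`; `j ≤ c ≤ rev j` and `c ≠ rev c`.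
Sub-lemma (induction on `c`): there is `τ ∈ CL n` fixing all `a < j` with `τ c = j`: if `c > j` one simple reflection `sgm n k` with `k ≥ j` sends `c` to a smaller index `≥ j`
(`c = k+1 ≤` middle: `sgm n k (k+1) = k`; `c = rev k`, `2k+3 ≥ n`: `sgm n k (rev k) = k`; `c = rev k`, `2k+3 < n`: `sgm n k (rev k) = rev (k+1) < rev k`), see `sgm_val_gl`, `sgm_val_last`.  Then `τ * π` fixes all `a < j + 1`. -/

namespace Cfsg.Agent.Lib.H49SuW

open Matrix Cfsg.Agent.Lib.H49SuDefs
open Cfsg.Agent.Lib.H49SuSgm

variable {n : ℕ} {F : Type*} [Field F] {q : ℕ}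

theorem base {j : ℕ} (hj : n ≤ 2 * j + 1) (π : Equiv.Perm (Fin n))
    (h : ∀ a, π (Fin.rev a) = Fin.rev (π a)) (hfix : ∀ a : Fin n, a.val < j → π a = a) : π = 1 := by
  have hfix2 : ∀ a : Fin n, a.val ≠ j → π a = a := by
    intro a ha
    rcases lt_or_gt_of_ne ha with h1 | h1
    · exact hfix a h1
    · have h2 : (Fin.rev a).val < j := by
        rw [Fin.val_rev]
        have := a.isLt
        omega
      have h3 := h (Fin.rev a)
      rw [Fin.rev_rev, hfix _ h2, Fin.rev_rev] at h3
      exact h3
  apply Equiv.ext
  intro a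
  show π a = a
  by_cases ha : a.val = j
  · by_contra hne
    have h1 : (π a).val ≠ j := fun e => hne (Fin.ext (e.trans ha.symm))
    have h2 := hfix2 (π a) h1
    exact hne (π.injective h2)
  · exact hfix2 a ha

theorem exists_tau {j : ℕ} (hj : 2 * j + 2 ≤ n) : ∀ (m : ℕ) (c : Fin n), c.val = m → j ≤ m →
    m + j + 1 ≤ n → c ≠ Fin.rev c →
    ∃ τ ∈ CL n, (∀ a, τ (Fin.rev a) = Fin.rev (τ a)) ∧ (∀ a : Fin n, a.val < j → τ a = a) ∧
      (τ c).val = j := by
  intro m
  induction m using Nat.strong_induction_on with
  | _ m ih =>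
    intro c hc hjm hmn hrev
    by_cases hmj : m = j
    · exact ⟨1, one_mem _, fun _ => rfl, fun _ _ => rfl, hc.trans hmj⟩
    · have hrev' : 2 * m + 1 ≠ n := by
        intro e
        apply hrev
        apply Fin.ext
        rw [Fin.val_rev]
        omega
      obtain ⟨k, hk1, hk2, hk3, hk4⟩ : ∃ k, j ≤ k ∧ 2 * k + 2 ≤ n ∧ j ≤ (sgm n k c).val ∧
          (sgm n k c).val < m := by
        by_cases hlow : 2 * m + 1 < n
        · refine ⟨m - 1, by omega, by omega, ?_, ?_⟩
          · rw [sgm_val_gl (by omega)]
            split_ifs <;> omega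
          · rw [sgm_val_gl (by omega)]
            split_ifs <;> omega
        · by_cases hgl : 2 * (n - 1 - m) + 3 < n
          · refine ⟨n - 1 - m, by omega, by omega, ?_, ?_⟩
            · rw [sgm_val_gl hgl]
              split_ifs <;> omega
            · rw [sgm_val_gl hgl]
              split_ifs <;> omega
          · refine ⟨n - 1 - m, by omega, by omega, ?_, ?_⟩
            · rw [sgm_val_last (by omega) (by omega)]
              split_ifs <;> omega
            · rw [sgm_val_last (by omega) (by omega)]
              split_ifs <;> omega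
      obtain ⟨τ, hτ, hτr, hτf, hτc⟩ := ih (sgm n k c).val hk4 (sgm n k c) rfl hk3 (by omega) (by
        intro e
        rw [← sgm_rev] at e
        exact hrev ((sgm n k).injective e))
      refine ⟨τ * sgm n k, mul_mem hτ (Subgroup.subset_closure ⟨k, hk2, rfl⟩), ?_, ?_, ?_⟩
      · intro a
        rw [Equiv.Perm.mul_apply, Equiv.Perm.mul_apply, sgm_rev, hτr]
      · intro a ha
        rw [Equiv.Perm.mul_apply]
        have h1 : sgm n k a = a := Fin.ext (sgm_fix_lt a (by omega))
        rw [h1, hτf a ha]
      · rw [Equiv.Perm.mul_apply]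
        exact hτc

theorem P_all : ∀ (d j : ℕ), n - j ≤ d → ∀ π : Equiv.Perm (Fin n),
    (∀ a, π (Fin.rev a) = Fin.rev (π a)) → (∀ a : Fin n, a.val < j → π a = a) → π ∈ CL n := by
  intro d
  induction d with
  | zero =>
    intro j hj π h hfix
    rw [base (by omega) π h hfix]
    exact one_mem _
  | succ d ih =>
    intro j hj π h hfix
    by_cases hb : n ≤ 2 * j + 1
    · rw [base hb π h hfix]
      exact one_mem _
    · have hj2 : 2 * j + 2 ≤ n := by omega
      obtain ⟨x, hx⟩ : ∃ x : Fin n, x.val = j := ⟨⟨j, by omega⟩, rfl⟩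
      have hc1 : j ≤ (π x).val := by
        by_contra hlt
        have hlt' : (π x).val < j := by omega
        have h1 := π.injective (hfix (π x) hlt')
        rw [h1] at hlt'
        omega
      have hc2 : (π x).val + j + 1 ≤ n := by
        by_contra hgt
        have h2 : (Fin.rev (π x)).val < j := by
          rw [Fin.val_rev]
          have := (π x).isLt
          omega
        have h3 := hfix _ h2
        rw [← h x] at h3
        have h4 := π.injective h3
        rw [h x] at h4
        have h5 := Fin.rev_injective h4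
        rw [h5] at hgt
        omega
      have hc3 : π x ≠ Fin.rev (π x) := by
        intro e
        rw [← h x] at e
        have h1 := congrArg Fin.val (π.injective e)
        rw [Fin.val_rev] at h1
        omega
      obtain ⟨τ, hτ, hτr, hτf, hτc⟩ := exists_tau hj2 _ (π x) rfl hc1 hc2 hc3
      have hmem : τ * π ∈ CL n := by
        apply ih (j + 1) (by omega)
        · intro a
          rw [Equiv.Perm.mul_apply, Equiv.Perm.mul_apply, h, hτr]
        · intro a ha
          rw [Equiv.Perm.mul_apply]
          by_cases haj : a.val < j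
          · rw [hfix a haj, hτf a haj]
          · have h1 : a = x := Fin.ext (by omega)
            rw [h1]
            exact Fin.ext (hτc.trans hx.symm)
      have e : π = τ⁻¹ * (τ * π) := by group
      rw [e]
      exact mul_mem (inv_mem hτ) hmem

theorem perm_mem (π : Equiv.Perm (Fin n)) (h : ∀ a, π (Fin.rev a) = Fin.rev (π a)) : π ∈ CL n := by
  exact P_all n 0 (by omega) π h (fun a ha => absurd ha (Nat.not_lt_zero _))

end Cfsg.Agent.Lib.H49SuW
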