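import Mathlib
import Cfsg.Agent.Lib.H49SmDefs
import Cfsg.Agent.Lib.H49SmGrp
import Cfsg.Agent.Lib.H49SmPerm
import Cfsg.Agent.Lib.H49SuW

set_option autoImplicit false

/-! Project 2549 (Steinberg character of `POmega-_{2m+2}(q)`), piece `W`. -/

namespace Cfsg.Agent.Lib.H49SmW

open Matrix Cfsg.Agent.Lib.H49SmDefs
open Cfsg.Agent.Lib.H49SuDefs (sgm Inv)
open Cfsg.Agent.Lib.H49SmGrp Cfsg.Agent.Lib.H49SmPerm
open Cfsg.Agent.Lib.H49SuSgm

variable {n : ℕ} {F : Type*} [Field F] {a b : F}

/-- the underlying function of `w0` -/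
def w0fun (n : ℕ) (x : Fin n) : Fin n := if x.val + 1 = n / 2 ∨ x.val = n / 2 then x else Fin.rev x

theorem w0fun_w0fun (h2 : n % 2 = 0) (x : Fin n) : w0fun n (w0fun n x) = x := by
  have hx := x.isLt
  unfold w0fun
  by_cases h : x.val + 1 = n / 2 ∨ x.val = n / 2
  · rw [if_pos h, if_pos h]
  · rw [if_neg h]
    have h' : ¬ ((Fin.rev x).val + 1 = n / 2 ∨ (Fin.rev x).val = n / 2) := by
      rw [Fin.val_rev]
      omega
    rw [if_neg h', Fin.rev_rev]

/-- the longest element of `W(B_m)` (`1` for odd `n`, where the formula is not a bijection) -/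
def w0 (n : ℕ) : Equiv.Perm (Fin n) :=
  if h2 : n % 2 = 0 then
    { toFun := w0fun n
      invFun := w0fun n
      left_inv := w0fun_w0fun h2
      right_inv := w0fun_w0fun h2 }
  else 1

theorem w0_apply (h2 : n % 2 = 0) (x : Fin n) :
    w0 n x = if x.val + 1 = n / 2 ∨ x.val = n / 2 then x else Fin.rev x := by
  unfold w0
  rw [dif_pos h2]
  rfl

theorem Adm_w0 (h2 : n % 2 = 0) : Adm n (w0 n) := by
  refine ⟨fun x => ?_, fun x hx => ?_⟩
  · have hx := x.isLt
    rw [w0_apply h2, w0_apply h2]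
    by_cases h : x.val + 1 = n / 2 ∨ x.val = n / 2
    · have h' : (Fin.rev x).val + 1 = n / 2 ∨ (Fin.rev x).val = n / 2 := by
        rw [Fin.val_rev]
        omega
      rw [if_pos h, if_pos h']
    · have h' : ¬ ((Fin.rev x).val + 1 = n / 2 ∨ (Fin.rev x).val = n / 2) := by
        rw [Fin.val_rev]
        omega
      rw [if_neg h, if_neg h']
  · have hx' : x.val + 1 = n / 2 ∨ x.val = n / 2 := hx
    rw [w0_apply h2, if_pos hx']

/-- the group generated by the simple reflections of type `B` -/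
def CLB (n : ℕ) : Subgroup (Equiv.Perm (Fin n)) :=
  Subgroup.closure {σ | ∃ k, 2 * k + 4 ≤ n ∧ σ = sgB n k}

theorem sgB_val_gl {k : ℕ} (hk : 2 * k + 5 < n) (x : Fin n) :
    (sgB n k x).val = if x.val = k then k + 1 else if x.val = k + 1 then k
      else if x.val + k + 1 = n then n - k - 2 else if x.val + k + 2 = n then n - k - 1 else x.val := by
  unfold sgB
  rw [if_pos hk]
  exact sgm_val_gl (by omega) x

theorem sgB_val_last {k : ℕ} (hk : 2 * k + 4 = n) (x : Fin n) :
    (sgB n k x).val = if x.val = k then n - k - 1 else if x.val + k + 1 = n then k else x.val := by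
  unfold sgB
  rw [if_neg (by omega), dif_pos hk, swap_val]
  have := x.isLt
  simp only [Fin.val_rev]
  split_ifs <;> omega

theorem sgB_fix_lt {k : ℕ} (hk : 2 * k + 4 ≤ n) (x : Fin n) (hx : x.val < k) : sgB n k x = x := by
  have := x.isLt
  apply Fin.ext
  by_cases h1 : 2 * k + 5 < n
  · rw [sgB_val_gl h1]
    split_ifs <;> omega
  · by_cases h3 : 2 * k + 4 = n
    · rw [sgB_val_last h3]
      split_ifs <;> omega
    · unfold sgB
      rw [if_neg h1, dif_neg h3]
      rfl

theorem Adm_one' : Adm n (1 : Equiv.Perm (Fin n)) := ⟨fun _ => rfl, fun _ _ => rfl⟩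

theorem baseB (h2 : n % 2 = 0) {j : ℕ} (hj : n ≤ 2 * j + 2) (π : Equiv.Perm (Fin n)) (h : Adm n π)
    (hfix : ∀ x : Fin n, x.val < j → π x = x) : π = 1 := by
  apply Equiv.ext
  intro x
  show π x = x
  have hx := x.isLt
  by_cases h1 : x.val < j
  · exact hfix x h1
  · by_cases h3 : x.val + 1 = n / 2 ∨ x.val = n / 2
    · exact h.2 x h3
    · have h4 : (Fin.rev x).val < j := by
        rw [Fin.val_rev]
        omega
      have h5 := h.1 (Fin.rev x)
      rw [Fin.rev_rev, hfix _ h4, Fin.rev_rev] at h5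
      exact h5

theorem exists_tauB (h2 : n % 2 = 0) {j : ℕ} (hj : 2 * j + 4 ≤ n) : ∀ (m : ℕ) (c : Fin n), c.val = m →
    j ≤ m → m + j + 1 ≤ n → ¬ (c.val + 1 = n / 2 ∨ c.val = n / 2) →
    ∃ τ ∈ CLB n, Adm n τ ∧ (∀ x : Fin n, x.val < j → τ x = x) ∧ (τ c).val = j := by
  intro m
  induction m using Nat.strong_induction_on with
  | _ m ih =>
    intro c hc hjm hmn hmid
    by_cases hmj : m = j
    · exact ⟨1, one_mem _, Adm_one', fun _ _ => rfl, hc.trans hmj⟩
    · obtain ⟨k, hk1, hk2, hk3, hk4, hk5⟩ : ∃ k, j ≤ k ∧ 2 * k + 4 ≤ n ∧ j ≤ (sgB n k c).val ∧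
          (sgB n k c).val < m ∧
          ¬ ((sgB n k c).val + 1 = n / 2 ∨ (sgB n k c).val = n / 2) := by
        by_cases hlow : 2 * m + 1 < n
        · refine ⟨m - 1, by omega, by omega, ?_, ?_, ?_⟩
          · rw [sgB_val_gl (by omega)]
            split_ifs <;> omega
          · rw [sgB_val_gl (by omega)]
            split_ifs <;> omega
          · rw [sgB_val_gl (by omega)]
            split_ifs <;> omega
        · by_cases hgl : 2 * (n - 1 - m) + 5 < n
          · refine ⟨n - 1 - m, by omega, by omega, ?_, ?_, ?_⟩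
            · rw [sgB_val_gl hgl]
              split_ifs <;> omega
            · rw [sgB_val_gl hgl]
              split_ifs <;> omega
            · rw [sgB_val_gl hgl]
              split_ifs <;> omega
          · refine ⟨n - 1 - m, by omega, by omega, ?_, ?_, ?_⟩
            · rw [sgB_val_last (by omega)]
              split_ifs <;> omega
            · rw [sgB_val_last (by omega)]
              split_ifs <;> omega
            · rw [sgB_val_last (by omega)]
              split_ifs <;> omega
      obtain ⟨τ, hτ, hτr, hτf, hτc⟩ := ih (sgB n k c).val hk4 (sgB n k c) rfl hk3 (by omega) hk5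
      refine ⟨τ * sgB n k, mul_mem hτ (Subgroup.subset_closure ⟨k, hk2, rfl⟩),
        Adm_mul hτr (Adm_sgB h2 k), ?_, ?_⟩
      · intro x hx
        rw [Equiv.Perm.mul_apply, sgB_fix_lt hk2 x (by omega), hτf x hx]
      · rw [Equiv.Perm.mul_apply]
        exact hτc

theorem P_allB (h2 : n % 2 = 0) : ∀ (d j : ℕ), n - j ≤ d → ∀ π : Equiv.Perm (Fin n),
    Adm n π → (∀ x : Fin n, x.val < j → π x = x) → π ∈ CLB n := by
  intro d
  induction d with
  | zero =>
    intro j hj π h hfix
    rw [baseB h2 (by omega) π h hfix]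
    exact one_mem _
  | succ d ih =>
    intro j hj π h hfix
    by_cases hb : n ≤ 2 * j + 2
    · rw [baseB h2 hb π h hfix]
      exact one_mem _
    · have hj2 : 2 * j + 4 ≤ n := by omega
      obtain ⟨x, hx⟩ : ∃ x : Fin n, x.val = j := ⟨⟨j, by omega⟩, rfl⟩
      have hc1 : j ≤ (π x).val := by
        by_contra hlt
        have hlt' : (π x).val < j := by omega
        have h1 := π.injective (hfix (π x) hlt')
        rw [h1] at hlt'
        omega
      have hc2 : (π x).val + j + 1 ≤ n := by
        by_contra hgt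
        have h3 : (Fin.rev (π x)).val < j := by
          rw [Fin.val_rev]
          have := (π x).isLt
          omega
        have h4 := hfix _ h3
        rw [← h.1 x] at h4
        have h5 := π.injective h4
        rw [h.1 x] at h5
        have h6 := Fin.rev_injective h5
        rw [h6] at hgt
        omega
      have hc3 : ¬ ((π x).val + 1 = n / 2 ∨ (π x).val = n / 2) := by
        intro e
        have h1 := h.2 (π x) e
        have h3 := π.injective h1
        rw [h3] at e
        omega
      obtain ⟨τ, hτ, hτr, hτf, hτc⟩ := exists_tauB h2 hj2 _ (π x) rfl hc1 hc2 hc3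
      have hmem : τ * π ∈ CLB n := by
        apply ih (j + 1) (by omega)
        · exact Adm_mul hτr h
        · intro y hy
          rw [Equiv.Perm.mul_apply]
          by_cases haj : y.val < j
          · rw [hfix y haj, hτf y haj]
          · have h1 : y = x := Fin.ext (by omega)
            rw [h1]
            exact Fin.ext (hτc.trans hx.symm)
      have e : π = τ⁻¹ * (τ * π) := by group
      rw [e]
      exact mul_mem (inv_mem hτ) hmem

theorem pm_mem_aux (h2 : n % 2 = 0) {π : Equiv.Perm (Fin n)} (hπ : π ∈ CLB n) :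
    Adm n π ∧ pm n F a b π ∈ Subgroup.closure (SB n F a b) := by
  unfold CLB at hπ
  induction hπ using Subgroup.closure_induction with
  | mem σ hσ =>
    obtain ⟨k, hk, rfl⟩ := hσ
    exact ⟨Adm_sgB h2 k, Subgroup.subset_closure ⟨k, hk, rfl⟩⟩
  | one => exact ⟨Adm_one', by rw [pm_one]; exact one_mem _⟩
  | mul σ ρ _ _ h1 h3 =>
    exact ⟨Adm_mul h1.1 h3.1, by rw [pm_mul h2 h1.1 h3.1]; exact mul_mem h1.2 h3.2⟩
  | inv σ _ h1 =>
    exact ⟨Adm_inv h1.1, by rw [← pm_inv h2 h1.1]; exact inv_mem h1.2⟩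

theorem pm_mem (h2 : n % 2 = 0) {π : Equiv.Perm (Fin n)} (hπ : Adm n π) : pm n F a b π ∈ Subgroup.closure (SB n F a b) :=
  (pm_mem_aux h2 (P_allB h2 n 0 (by omega) π hπ (fun x hx => absurd hx (Nat.not_lt_zero _)))).2

end Cfsg.Agent.Lib.H49SmW
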