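import Mathlib
import Cfsg.Agent.Lib.H49SmDefs
import Cfsg.Agent.Lib.H49SmGrp
import Cfsg.Agent.Lib.H49SmQF
import Cfsg.Agent.Lib.H49SmQFn
import Cfsg.Agent.Lib.H49SmStar
import Cfsg.Agent.Lib.H49SmInv
import Cfsg.Agent.Lib.H49SmMem
import Cfsg.Agent.Lib.H49SmPerm
import Cfsg.Agent.Lib.H49SmW
import Cfsg.Agent.Lib.Helper49Par

set_option autoImplicit false

/-! Project 2549 (Steinberg character of `POmega-_{2m+2}(q)`), piece `KG`. -/

namespace Cfsg.Agent.Lib.H49SmKG

open Matrix Cfsg.Agent.Lib.H49SmDefs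
open Cfsg.Agent.Lib.H49SuDefs (sgm Inv)
open Cfsg.Agent.Lib.H49SmGrp Cfsg.Agent.Lib.H49SmQF Cfsg.Agent.Lib.H49SmQFn Cfsg.Agent.Lib.H49SmStar Cfsg.Agent.Lib.H49SmInv Cfsg.Agent.Lib.H49SmMem Cfsg.Agent.Lib.H49SmPerm Cfsg.Agent.Lib.H49SmW

variable {n : ℕ} {F : Type*} [Field F] {a b : F}

/-- entries of `E(e_0, w)` -/
theorem kg_entry (h2 : n % 2 = 0) (j : Fin n) (hj : ¬ md n j) (w : Fin n → F) (hw : w (Fin.rev j) = 0)
    (x y : Fin n) :
    mt (EE a b j w) x y = (if x = y then 1 else 0)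
      + (BM n F a b (Pi.single y 1) w - QM n F a b w * (if y = Fin.rev j then 1 else 0)) * (if x = j then 1 else 0)
      - (if y = Fin.rev j then 1 else 0) * w x := by
  have h := congrFun (EE_apply (a := a) (b := b) h2 j hj w hw (Pi.single y 1)) x
  rw [Matrix.mulVec_single_one] at h
  simp only [Matrix.col_apply, Pi.add_apply, Pi.sub_apply, Pi.smul_apply, Pi.single_apply, smul_eq_mul] at h
  rw [h]
  have e1 : (Fin.rev j = y) = (y = Fin.rev j) := propext eq_comm
  simp only [e1]

theorem kg_UT [Fintype F] (h2 : n % 2 = 0) (hn : 6 ≤ n) (hab : Ani a b) (w : Fin n → F)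
    (hw : w (Fin.rev ⟨0, by omega⟩) = 0) : EE a b (⟨0, by omega⟩ : Fin n) w ∈ BB n F a b := by
  have hj : ¬ md n (⟨0, by omega⟩ : Fin n) := by
    unfold md
    simp only
    omega
  rw [mem_BB h2 (by omega) hab]
  intro x y hyx _
  rw [kg_entry h2 _ hj w hw]
  have h1 : x ≠ y := ne_of_gt hyx
  have h3 : x ≠ (⟨0, by omega⟩ : Fin n) := by
    intro h
    rw [h] at hyx
    exact absurd hyx (by simp [Fin.lt_def])
  have h4 : y ≠ Fin.rev (⟨0, by omega⟩ : Fin n) := by
    intro h
    rw [h] at hyx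
    have := x.isLt
    simp [Fin.lt_def, Fin.val_rev] at hyx
    omega
  simp [h1, h3, h4]

theorem kg_pMat_mulVec (π : Equiv.Perm (Fin n)) (w : Fin n → F) (x : Fin n) :
    (pMat F π *ᵥ w) x = w (π.symm x) := by
  unfold pMat Matrix.mulVec dotProduct
  rw [Finset.sum_eq_single (π.symm x)]
  · simp
  · intro y _ hy
    have h0 : ¬ (x = π y) := by
      intro h
      apply hy
      rw [h, Equiv.symm_apply_apply]
    simp [h0]
  · intro h
    exact absurd (Finset.mem_univ _) h

theorem comm_le [Fintype F] (h2 : n % 2 = 0) (hn : 6 ≤ n) (hab : Ani a b) :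
    commutator (GM n F a b) ≤ BB n F a b ⊔ NN n F a b := by
  have hQ := QF_nondeg (F := F) (a := a) (b := b) h2 (by omega) hab
  set j0 : Fin n := ⟨0, by omega⟩ with hj0d
  have hj : ¬ md n j0 := by
    unfold md
    simp only [hj0d]
    omega
  have hj' : ¬ md n (Fin.rev j0) := by
    unfold md
    simp only [hj0d, Fin.val_rev]
    omega
  have hQe : (QF n F a b) (Pi.single j0 1) = 0 := QM_single h2 j0 hj 1
  have hQf : (QF n F a b) (Pi.single (Fin.rev j0) 1) = 0 := QM_single h2 _ hj' 1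
  have hBB : ∀ w : Fin n → F, w (Fin.rev j0) = 0 →
      Cfsg.Agent.Lib.Helper49Eich.E (QF n F a b) (Pi.single j0 1) w ∈ BB n F a b ⊔ NN n F a b :=
    fun w hw => Subgroup.mem_sup_left (kg_UT h2 hn hab w hw)
  have he : (Pi.single j0 1 : Fin n → F) ∈ Cfsg.Agent.Lib.Helper49Par.RootSet (QF n F a b) (BB n F a b ⊔ NN n F a b) := by
    refine ⟨?_, hQe, ?_⟩
    · intro h
      have := congrFun h j0
      simp at this
    · intro w hw
      rw [polar_QF h2, BM_single_left h2 j0 hj] at hw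
      exact hBB w hw
  have hw0a : (w0 n) j0 = Fin.rev j0 := by
    rw [w0_apply h2]
    exact if_neg hj
  have hw0b : (w0 n) (Fin.rev j0) = j0 := by
    rw [w0_apply h2]
    exact (if_neg hj').trans (Fin.rev_rev j0)
  have hf : (Pi.single (Fin.rev j0) 1 : Fin n → F) ∈
      Cfsg.Agent.Lib.Helper49Par.RootSet (QF n F a b) (BB n F a b ⊔ NN n F a b) := by
    refine ⟨?_, hQf, ?_⟩
    · intro h
      have := congrFun h (Fin.rev j0)
      simp at this
    · intro w hw
      rw [polar_QF h2, BM_single_left h2 _ hj', Fin.rev_rev] at hw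
      set m : GM n F a b := pm n F a b (w0 n) with hm
      have hmt : mt m = pMat F (w0 n) := mt_pm h2 (Adm_w0 h2)
      have hmM : m ∈ BB n F a b ⊔ NN n F a b :=
        Subgroup.mem_sup_right (Subgroup.mem_sup_left (pm_mem h2 (Adm_w0 h2)))
      set w' : Fin n → F := fun x => w ((w0 n) x) with hw'
      have h1 : w' (Fin.rev j0) = 0 := by
        show w ((w0 n) (Fin.rev j0)) = 0
        rw [hw0b]; exact hw
      have hp : QuadraticMap.polar (⇑(QF n F a b)) (Pi.single j0 1) w' = 0 := by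
        rw [polar_QF h2, BM_single_left h2 j0 hj]; exact h1
      have hc := Cfsg.Agent.Lib.Helper49Eich.E_conj (Q := QF n F a b) m hQe hp
      have e1 : ((m : Matrix.GeneralLinearGroup (Fin n) F) : Matrix (Fin n) (Fin n) F) *ᵥ (Pi.single j0 1)
          = Pi.single (Fin.rev j0) 1 := by
        change mt m *ᵥ _ = _
        rw [hmt]
        funext x
        rw [kg_pMat_mulVec]
        by_cases hx : x = Fin.rev j0
        · subst hx
          rw [← hw0a, Equiv.symm_apply_apply]
          simp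
        · rw [Pi.single_apply, Pi.single_apply, if_neg hx, if_neg]
          intro h
          apply hx
          rw [← hw0a, ← h, Equiv.apply_symm_apply]
      have e2 : ((m : Matrix.GeneralLinearGroup (Fin n) F) : Matrix (Fin n) (Fin n) F) *ᵥ w' = w := by
        change mt m *ᵥ _ = _
        rw [hmt]
        funext x
        rw [kg_pMat_mulVec]
        show w ((w0 n) ((w0 n).symm x)) = w x
        rw [Equiv.apply_symm_apply]
      rw [e1, e2] at hc
      rw [← hc]
      exact Subgroup.mul_mem _ (Subgroup.mul_mem _ hmM (hBB w' h1)) (Subgroup.inv_mem _ hmM)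
  have hef : QuadraticMap.polar (⇑(QF n F a b)) (Pi.single j0 1) (Pi.single (Fin.rev j0) 1) ≠ 0 := by
    rw [polar_QF h2, BM_single_left h2 j0 hj]
    simp
  exact Cfsg.Agent.Lib.Helper49Par.Omega_le_of_pair (QF n F a b) hQ (by simpa using (by omega : 5 ≤ n)) he hf hef

end Cfsg.Agent.Lib.H49SmKG
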