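import Mathlib
import Cfsg.Agent.Lib.H49SoDefs

set_option autoImplicit false

/-! Project 2547 (Steinberg character of `POmega_{2m+1}(q)`), piece `IsoC` (20m).

Generic: an isomorphism maps the commutator subgroup onto the commutator subgroup (`Subgroup.map_commutator`, `commutator_def`, `MulEquiv.subgroupMap`, `Subgroup.map_top_of_surjective`). -/

namespace Cfsg.Agent.Lib.H49SoIsoC

open Matrix Cfsg.Agent.Lib.H49SoDefs
open Cfsg.Agent.Lib.H49SuDefs (Tri UT Dg Mon Tri_one Tri_mul UT_one UT_mul Dg_one Dg_mul Mon_one Mon_mul Mon_uniq sgm Inv CL)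

variable {n : ℕ} {F : Type*} [Field F]

theorem commEquiv {G G' : Type*} [Group G] [Group G'] (e : G ≃* G') : Nonempty (commutator G ≃* commutator G') := by
  have h : (commutator G).map e.toMonoidHom = commutator G' := by
    rw [commutator_def, commutator_def, Subgroup.map_commutator,
      Subgroup.map_top_of_surjective e.toMonoidHom e.surjective]
  exact ⟨(e.subgroupMap (commutator G)).trans (MulEquiv.subgroupCongr h)⟩

end Cfsg.Agent.Lib.H49SoIsoC
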