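import Mathlib
import Cfsg.Prelude.Def_Characters

set_option autoImplicit false

/-! Project 2548: `StP p X` = "`X` has a Steinberg-like character for the prime `p`". -/

namespace Cfsg.Agent.Lib.H49SpXDefs

/-- an irreducible character of degree `|X|_p` vanishing on the non-trivial `p`-elements -/
def StP (p : ℕ) (X : Type*) [Group X] : Prop :=
  ∃ ψ : X → ℂ, Cfsg.IsIrrCharacter X ψ ∧ ∀ Q : Sylow p X, ψ 1 = Nat.card Q ∧ ∀ x : X, x ∈ Q → x ≠ 1 → ψ x = 0

end Cfsg.Agent.Lib.H49SpXDefs
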