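import Mathlib
import Cfsg.Agent.Lib.Helper7Dih
import Cfsg.Agent.Lib.Helper7OMinus

set_option autoImplicit false

namespace Cfsg.Agent.Lib.Helper7OMinus2

open Matrix QuadraticMap Cfsg.Agent.Lib.Helper49Orth Cfsg.Agent.Lib.Helper7Norm2
  Cfsg.Agent.Lib.Helper7OMinus Cfsg.Agent.Lib.Helper7Dih

variable {F : Type*} [Field F] {a b : F}

local notation "I" => (Fin 0 ⊕ Fin 0) ⊕ Fin 2
local notation "K" => QuadraticAlgebra F (-b) a

/-- identification of the quadratic algebra with the space of the form -/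
def Th (z : K) : I → F := z.re • Pi.single (.inr 0) 1 + z.im • Pi.single (.inr 1) 1

theorem Th_add (z w : K) : Th (z + w) = Th z + Th w := by
  unfold Th
  rw [QuadraticAlgebra.re_add, QuadraticAlgebra.im_add]
  module

theorem Th_sub (z w : K) : Th (z - w) = Th z - Th w := by
  unfold Th
  rw [QuadraticAlgebra.re_sub, QuadraticAlgebra.im_sub]
  module

theorem Th_smul (c : F) (z : K) : Th (c • z) = c • Th z := by
  unfold Th
  rw [QuadraticAlgebra.re_smul, QuadraticAlgebra.im_smul]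
  simp only [smul_eq_mul]
  module

theorem Q_Th (z : K) : QM F 0 a b (Th z) = QuadraticAlgebra.norm z := by
  rw [norm_eq]
  exact Q_tail _ (Q_std0 0 a b) (Q_std1 0 a b) (polar_std01 0 a b) _ _

theorem polar_Th (z w : K) : polar (QM F 0 a b) (Th z) (Th w) = Bn z w := by
  unfold polar Bn
  rw [← Th_add, Q_Th, Q_Th, Q_Th]

theorem Th_surjective : Function.Surjective (Th : K → I → F) := by
  intro v
  refine ⟨⟨v (.inr 0), v (.inr 1)⟩, ?_⟩
  funext i
  rcases i with (i | i) | i
  · exact i.elim0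
  · exact i.elim0
  · fin_cases i <;> simp [Th]

theorem Th_injective : Function.Injective (Th : K → I → F) := by
  intro z w h
  have h0 := congrFun h (.inr 0)
  have h1 := congrFun h (.inr 1)
  simp [Th] at h0 h1
  exact QuadraticAlgebra.ext h0 h1

theorem algebraMap_Bn (z w : K) : algebraMap F K (Bn z w) = z * star w + star z * w := by
  unfold Bn
  rw [map_sub, map_sub, QuadraticAlgebra.algebraMap_norm_eq_mul_star,
    QuadraticAlgebra.algebraMap_norm_eq_mul_star, QuadraticAlgebra.algebraMap_norm_eq_mul_star,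
    star_add]
  ring

variable [Hab : Fact (∀ r : F, r ^ 2 ≠ -b + a * r)]

theorem refl_Th (v z : K) (hv : v ≠ 0) :
    Cfsg.reflectionMatrix ⇑(QM F 0 a b) (Th v) *ᵥ Th z = Th (-(v / star v) * star z) := by
  rw [refl_mulVec, Q_Th, polar_Th, ← Th_smul, ← Th_sub]
  congr 1
  have hsv : star v ≠ 0 := by
    intro h
    apply hv
    have := congrArg star h
    rwa [star_star, star_zero] at this
  rw [Algebra.smul_def, map_mul, map_inv₀, QuadraticAlgebra.algebraMap_norm_eq_mul_star,
    algebraMap_Bn]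
  field_simp
  ring

theorem Q_Th_ne (v : K) (hv : v ≠ 0) : QM F 0 a b (Th v) ≠ 0 := by
  rw [Q_Th, Ne, QuadraticAlgebra.norm_eq_zero_iff_eq_zero]
  exact hv

theorem pair_Th (v z : K) (hv : v ≠ 0) :
    (((reflO (QM F 0 a b) (Q_Th_ne v hv) * reflO (QM F 0 a b) (Q_Th_ne 1 one_ne_zero) :
      ↥(Cfsg.isometryGroup F ⇑(QM F 0 a b))) : Matrix.GeneralLinearGroup I F) : Matrix I I F)
      *ᵥ Th z = Th ((v / star v) * z) := by
  show (Cfsg.reflectionMatrix ⇑(QM F 0 a b) (Th v) * Cfsg.reflectionMatrix ⇑(QM F 0 a b) (Th 1))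
    *ᵥ Th z = _
  rw [← Matrix.mulVec_mulVec, refl_Th 1 z one_ne_zero, refl_Th v _ hv]
  congr 1
  simp

theorem pow_Th (g : ↥(Cfsg.isometryGroup F ⇑(QM F 0 a b))) (u : K)
    (hg : ∀ z, ((g : Matrix.GeneralLinearGroup I F) : Matrix I I F) *ᵥ Th z = Th (u * z)) (k : ℕ)
    (z : K) :
    (((g ^ k : ↥(Cfsg.isometryGroup F ⇑(QM F 0 a b))) : Matrix.GeneralLinearGroup I F) :
      Matrix I I F) *ᵥ Th z = Th (u ^ k * z) := by
  induction k generalizing z with
  | zero => simp
  | succ k ih =>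
    rw [pow_succ]
    show ((((g ^ k : ↥(Cfsg.isometryGroup F ⇑(QM F 0 a b))) : Matrix.GeneralLinearGroup I F) :
      Matrix I I F) * ((g : Matrix.GeneralLinearGroup I F) : Matrix I I F)) *ᵥ Th z = _
    rw [← Matrix.mulVec_mulVec, hg, ih, pow_succ, mul_assoc]

theorem orderOf_eq (g : ↥(Cfsg.isometryGroup F ⇑(QM F 0 a b))) (u : Kˣ)
    (hg : ∀ z : K, ((g : Matrix.GeneralLinearGroup I F) : Matrix I I F) *ᵥ Th z
      = Th ((u : K) * z)) :
    orderOf g = orderOf u := by
  rw [orderOf_eq_orderOf_iff]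
  intro k
  constructor
  · intro h
    have h1 := pow_Th g u hg k 1
    rw [h] at h1
    have h2 : Th (1 : K) = Th ((u : K) ^ k * 1) := by
      rw [← h1]
      show _ = (1 : Matrix I I F) *ᵥ _
      rw [Matrix.one_mulVec]
    have h3 := Th_injective h2
    rw [mul_one] at h3
    ext1
    rw [Units.val_pow_eq_pow_val, ← h3, Units.val_one]
  · intro h
    have h' : (u : K) ^ k = 1 := by
      rw [← Units.val_pow_eq_pow_val, h, Units.val_one]
    apply iso_ext
    apply Matrix.mulVec_injective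
    funext x
    obtain ⟨z, rfl⟩ := Th_surjective (a := a) (b := b) x
    rw [pow_Th g u hg k z, h', one_mul]
    show _ = (1 : Matrix I I F) *ᵥ _
    rw [Matrix.one_mulVec]

theorem dihedral [Fintype F] (hab : Aniso a b) :
    Nonempty (Cfsg.isometryGroup F (Cfsg.quadFormMinus 0 F a b)
      ≃* DihedralGroup (Fintype.card F + 1)) := by
  have hD := disc_ne_zero hab
  have hfun : ⇑(QM F 0 a b) = Cfsg.quadFormMinus 0 F a b := funext (QM_apply 0 a b)
  have hQ := Cfsg.Agent.Lib.Helper7Witt.nondegenerate_of (nondeg (F := F) 0 a b hD)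
  rw [← hfun]
  -- a generator of the norm one group
  obtain ⟨u, hu⟩ := IsCyclic.exists_generator (α := UU a b)
  have hou : orderOf u = Fintype.card F + 1 := by
    rw [orderOf_eq_card_of_forall_mem_zpowers hu, card_UU hD]
  have hmem : (u : Kˣ) ∈ (psi a b).range := by rw [range_psi hD]; exact u.2
  obtain ⟨v, hv⟩ := hmem
  have hvu : ((u : Kˣ) : K) = (v : K) / star (v : K) := by
    rw [← hv]
    show ((v * (star v)⁻¹ : Kˣ) : K) = _
    rw [Units.val_mul, Units.val_inv_eq_inv_val, Units.coe_star, div_eq_mul_inv]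
  have hfin : Finite ↥(Cfsg.isometryGroup F ⇑(QM F 0 a b)) := inferInstance
  have hord : orderOf (reflO (QM F 0 a b) (Q_Th_ne (v : K) v.ne_zero)
      * reflO (QM F 0 a b) (Q_Th_ne 1 one_ne_zero)) = Fintype.card F + 1 := by
    rw [orderOf_eq _ (u : Kˣ) (fun z => by rw [pair_Th _ _ v.ne_zero, hvu]), Subgroup.orderOf_coe, hou]
  refine dihedral_of_involutions _ _ (orderOf_reflO _ hQ _) (orderOf_reflO _ hQ _) ?_ _ hord ?_
  · intro h
    rw [h, reflO_mul_self, orderOf_one] at hord
    have : 0 < Fintype.card F := Fintype.card_pos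
    omega
  · rw [hfun, card_isometryGroup_minus 0 a b hab]
    simp

end Cfsg.Agent.Lib.Helper7OMinus2
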