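import Mathlib
import Cfsg.Agent.Lib.H49SmDefs
import Cfsg.Agent.Lib.H49SpXDefs
import Cfsg.Agent.S0306
import Cfsg.Agent.Lib.H49SoIsoC
import Cfsg.Agent.Lib.Helper82Linear

set_option autoImplicit false

/-! Project 2549 (Steinberg character of `POmega-_{2m+2}(q)`), piece `M0` (40m).

`m = 0`: by the landed `Cfsg.Agent.S0306.result`, `O ≃* DihedralGroup (q+1)`; the commutator subgroup of a dihedral group lies in the rotations, so it is commutative; hence `K ⧸ center K` is trivial (`Subsingleton`), and `StP` holds with the trivial character `ψ = 1`, `Nat.card Q = 1`. -/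

namespace Cfsg.Agent.Lib.H49SmM0

open Matrix Cfsg.Agent.Lib.H49SmDefs
open Cfsg.Agent.Lib.H49SuDefs (sgm Inv)

variable {n : ℕ} {F : Type*} [Field F] {a b : F}

/-- the sign homomorphism of a dihedral group -/
def dsgn (k : ℕ) : DihedralGroup k →* ℤˣ where
  toFun x := match x with
    | .r _ => 1
    | .sr _ => -1
  map_one' := rfl
  map_mul' x y := by
    rcases x with i | i <;> rcases y with j | j <;> simp [DihedralGroup.r_mul_r,
      DihedralGroup.r_mul_sr, DihedralGroup.sr_mul_r, DihedralGroup.sr_mul_sr]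

theorem dsgn_ker_comm (k : ℕ) (x y : DihedralGroup k) (hx : dsgn k x = 1) (hy : dsgn k y = 1) :
    x * y = y * x := by
  rcases x with i | i
  · rcases y with j | j
    · simp [DihedralGroup.r_mul_r, add_comm]
    · exact absurd (show (-1 : ℤˣ) = 1 from hy) (by decide)
  · exact absurd (show (-1 : ℤˣ) = 1 from hx) (by decide)

theorem comm_of_dihedral {O : Type*} [Group O] (k : ℕ) (e : O ≃* DihedralGroup k)
    (x y : O) (hx : x ∈ commutator O) (hy : y ∈ commutator O) : x * y = y * x := by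
  have hk : commutator O ≤ ((dsgn k).comp e.toMonoidHom).ker :=
    Abelianization.commutator_subset_ker _
  have h1 : dsgn k (e x) = 1 := hk hx
  have h2 : dsgn k (e y) = 1 := hk hy
  apply e.injective
  rw [map_mul, map_mul]
  exact dsgn_ker_comm k _ _ h1 h2

theorem stP_of_subsingleton (p : ℕ) [Fact p.Prime] (X : Type*) [Group X] (h : ∀ x : X, x = 1) :
    Cfsg.Agent.Lib.H49SpXDefs.StP p X := by
  haveI : Subsingleton X := ⟨fun x y => (h x).trans (h y).symm⟩
  refine ⟨fun _ => 1, Cfsg.Agent.Lib.Helper82Linear.isIrrCharacter_one, fun Q => ⟨?_, ?_⟩⟩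
  · have : Nat.card Q = 1 := Nat.card_eq_one_iff_unique.2 ⟨inferInstance, ⟨1⟩⟩
    simp [this]
  · intro x _ hx
    exact absurd (h x) hx

theorem st_zero [Fintype F] (p : ℕ) [Fact p.Prime] (a b : F) (hab : ∀ z₁ z₂ : F, z₁ ^ 2 + a * z₁ * z₂ + b * z₂ ^ 2 = 0 → z₁ = 0 ∧ z₂ = 0) :
    Cfsg.Agent.Lib.H49SpXDefs.StP p (Cfsg.POmega F (Cfsg.quadFormMinus 0 F a b)) := by
  obtain ⟨e⟩ := Cfsg.Agent.S0306.result (F := F) rfl a b hab
  apply stP_of_subsingleton
  intro x
  induction x using QuotientGroup.induction_on with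
  | H z =>
    rw [QuotientGroup.eq_one_iff, Subgroup.mem_center_iff]
    intro g
    apply Subtype.ext
    exact comm_of_dihedral _ e g.1 z.1 g.2 z.2

end Cfsg.Agent.Lib.H49SmM0
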