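import Mathlib
import Cfsg.Agent.Lib.H49SmDefs
import Cfsg.Agent.Lib.H49SmGrp
import Cfsg.Agent.Lib.H49SmQF
import Cfsg.Agent.Lib.H49SmQFn
import Cfsg.Agent.Lib.H49SmStar
import Cfsg.Agent.Lib.H49SmInv
import Cfsg.Agent.Lib.H49SmMem
import Cfsg.Agent.Lib.H49SmPerm
import Cfsg.Agent.Lib.H49SuSgm

set_option autoImplicit false

/-! Project 2549 (Steinberg character of `POmega-_{2m+2}(q)`), piece `Ne` (40m).

`XX_le`: `mem_UU`; `InvB x y → x < y` and `(n/2-1, n/2)` is never in `InvB`.  `exists_ne_one`: `EE a b ⟨k,_⟩ w` with `w = e_{rev (k+1)}` (`2k+5 < n`) or `w = e_{n/2-1}` (`2k+4 = n`), `EE_apply`.  `conj_not_mem`: `s * x * s = (s x s⁻¹) (s s)`, `s s = 1`; by `conj_apply` `s x s⁻¹` has a non-zero entry strictly below the block diagonal. -/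

namespace Cfsg.Agent.Lib.H49SmNe

open Matrix Cfsg.Agent.Lib.H49SmDefs
open Cfsg.Agent.Lib.H49SuDefs (sgm Inv)
open Cfsg.Agent.Lib.H49SmGrp Cfsg.Agent.Lib.H49SmQF Cfsg.Agent.Lib.H49SmQFn Cfsg.Agent.Lib.H49SmStar Cfsg.Agent.Lib.H49SmInv Cfsg.Agent.Lib.H49SmMem Cfsg.Agent.Lib.H49SmPerm

variable {n : ℕ} {F : Type*} [Field F] {a b : F}

theorem XX_le [Finite F] (h2 : n % 2 = 0) (hn : 2 ≤ n) (hab : Ani a b) {k : ℕ} {x : GM n F a b} (hx : x ∈ XX n F a b k) :
    x ∈ UU n F a b := by
  rw [mem_UU h2 hn hab]
  refine ⟨?_, hx.1, ?_⟩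
  · intro i j hji
    by_contra hne
    have h1 := hx.2 i j (ne_of_gt hji) hne
    exact absurd h1.1 (not_lt.2 hji.le)
  · intro i j hi hj hij
    by_contra hne
    have h1 := hx.2 i j hij hne
    have h3 := h1.2
    rw [(Adm_sgB h2 k).2 i hi, (Adm_sgB h2 k).2 j hj] at h3
    exact absurd h1.1 (not_lt.2 h3.le)

theorem sgB_val_ne (h2 : n % 2 = 0) {k : ℕ} (hk : 2 * k + 4 ≤ n) (x : Fin n) :
    (sgB n k x).val = if 2 * k + 5 < n then
        (if x.val = k then k + 1 else if x.val = k + 1 then k
          else if x.val + k + 1 = n then n - k - 2 else if x.val + k + 2 = n then n - k - 1 else x.val)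
      else (if x.val = k then n - k - 1 else if x.val + k + 1 = n then k else x.val) := by
  have hx := x.isLt
  unfold sgB
  by_cases h : 2 * k + 5 < n
  · rw [if_pos h, if_pos h, Cfsg.Agent.Lib.H49SuSgm.sgm_val_gl (by omega)]
  · rw [if_neg h, if_neg h, dif_pos (by omega), Cfsg.Agent.Lib.H49SuSgm.swap_val]
    simp only [Fin.val_rev]
    split_ifs <;> omega

theorem exists_ne_one [Finite F] (h2 : n % 2 = 0) (hab : Ani a b) (k : ℕ) (hk : 2 * k + 4 ≤ n) : ∃ x ∈ XX n F a b k, x ≠ 1 := by
  classical
  let j0 : Fin n := ⟨k, by omega⟩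
  let c : Fin n := if 2 * k + 5 < n then ⟨n - k - 2, by omega⟩ else ⟨k + 1, by omega⟩
  have hcv : c.val = if 2 * k + 5 < n then n - k - 2 else k + 1 := by
    simp only [c]; split_ifs <;> rfl
  let w : Fin n → F := Pi.single c 1
  have hj0 : ¬ md n j0 := by
    unfold md; simp only [j0]; omega
  have hrev : (Fin.rev j0).val = n - k - 1 := by
    simp only [j0, Fin.val_rev]; omega
  have sg : ∀ (i j : Fin n), (Pi.single j (1 : F) : Fin n → F) i = if i.val = j.val then 1 else 0 := by
    intro i j
    by_cases h : i = j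
    · subst h; simp
    · rw [Pi.single_eq_of_ne h, if_neg (fun e => h (Fin.ext e))]
  have hw : w (Fin.rev j0) = 0 := by
    simp only [w]
    rw [sg, if_neg]
    rw [hrev, hcv]; split_ifs <;> omega
  have entry : ∀ i j, mt (EE a b j0 w) i j = (Pi.single j (1:F) : Fin n → F) i
      + (BM n F a b (Pi.single j 1) w - QM n F a b w * (Pi.single j (1:F) : Fin n → F) (Fin.rev j0))
        * (Pi.single j0 (1:F) : Fin n → F) i - (Pi.single j (1:F) : Fin n → F) (Fin.rev j0) * w i := by
    intro i j
    have h := congrFun (EE_apply (a := a) (b := b) h2 j0 hj0 w hw (Pi.single j 1)) i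
    rw [Matrix.mulVec_single_one] at h
    simpa using h
  have invB : ∀ i j : Fin n, i.val < j.val → (sgB n k j).val < (sgB n k i).val → InvB n k i j :=
    fun i j h1 h3 => ⟨h1, h3⟩
  -- the coefficient
  have coef : ∀ j : Fin n, (BM n F a b (Pi.single j 1) w - QM n F a b w * (Pi.single j (1:F) : Fin n → F) (Fin.rev j0)) ≠ 0 →
      j ≠ j0 ∧ InvB n k j0 j := by
    intro j hne
    have hjl := j.isLt
    by_cases hA : 2 * k + 5 < n
    · have hc : ¬ md n c := by
        unfold md; rw [hcv, if_pos hA]; omega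
      have e1 : QM n F a b w = 0 := QM_single h2 c hc 1
      have e2 : BM n F a b (Pi.single j 1) w = (Pi.single j (1:F) : Fin n → F) (Fin.rev c) :=
        BM_single_right h2 c hc _
      rw [e1, e2, zero_mul, sub_zero, sg] at hne
      have h5 : (Fin.rev c).val = j.val := by
        by_contra h6; exact hne (if_neg h6)
      rw [Fin.val_rev, hcv, if_pos hA] at h5
      have hjv : j.val = k + 1 := by omega
      refine ⟨fun e => ?_, invB _ _ (by simp only [j0]; omega) ?_⟩
      · have := congrArg Fin.val e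
        simp only [j0] at this; omega
      · rw [sgB_val_ne h2 hk, sgB_val_ne h2 hk, if_pos hA, if_pos hA]
        simp only [j0, hjv]
        simp
    · have hn4 : n = 2 * k + 4 := by omega
      by_cases hj : md n j
      · have hjv : j.val = k + 1 ∨ j.val = k + 2 := by
          unfold md at hj; omega
        refine ⟨fun e => ?_, invB _ _ (by simp only [j0]; omega) ?_⟩
        · have := congrArg Fin.val e
          simp only [j0] at this; omega
        · rw [sgB_val_ne h2 hk, sgB_val_ne h2 hk, if_neg hA, if_neg hA]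
          simp only [j0, if_true]
          split_ifs <;> omega
      · have e2 : BM n F a b (Pi.single j 1) w = w (Fin.rev j) := BM_single_left h2 j hj _
        have e3 : w (Fin.rev j) = 0 := by
          simp only [w]
          rw [sg, if_neg]
          rw [Fin.val_rev, hcv, if_neg hA]
          unfold md at hj; omega
        rw [e2, e3, zero_sub, sg] at hne
        have h5 : (Fin.rev j0).val = j.val := by
          by_contra h6
          apply hne
          rw [if_neg h6]; simp
        rw [hrev] at h5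
        refine ⟨fun e => ?_, invB _ _ (by simp only [j0]; omega) ?_⟩
        · have := congrArg Fin.val e
          simp only [j0] at this; omega
        · rw [sgB_val_ne h2 hk, sgB_val_ne h2 hk, if_neg hA, if_neg hA]
          simp only [j0, if_true]
          split_ifs <;> omega
  have hcj0 : c.val ≠ k := by
    rw [hcv]; split_ifs <;> omega
  refine ⟨EE a b j0 w, ⟨?_, ?_⟩, ?_⟩
  · intro i
    rw [entry]
    have t1 : (BM n F a b (Pi.single i 1) w - QM n F a b w * (Pi.single i (1:F) : Fin n → F) (Fin.rev j0))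
        * (Pi.single j0 (1:F) : Fin n → F) i = 0 := by
      by_cases hi : i = j0
      · by_contra hne
        exact (coef i (left_ne_zero_of_mul hne)).1 hi
      · rw [Pi.single_eq_of_ne hi, mul_zero]
    have t2 : (Pi.single i (1:F) : Fin n → F) (Fin.rev j0) * w i = 0 := by
      by_cases hi : Fin.rev j0 = i
      · rw [← hi, hw, mul_zero]
      · rw [Pi.single_eq_of_ne hi, zero_mul]
    rw [t1, t2]; simp
  · intro i j hij hne
    rw [entry, Pi.single_eq_of_ne hij, zero_add] at hne
    by_cases hi : i = j0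
    · have t2 : w i = 0 := by
        simp only [w]
        rw [sg, if_neg]
        rw [hi]; simp only [j0]; exact fun e => hcj0 e.symm
      rw [t2, mul_zero, sub_zero] at hne
      rw [hi]
      exact (coef j (left_ne_zero_of_mul hne)).2
    · rw [Pi.single_eq_of_ne hi, mul_zero, zero_sub, neg_ne_zero] at hne
      have h5 : (Fin.rev j0).val = j.val := by
        by_contra h6
        apply hne
        rw [sg, if_neg h6, zero_mul]
      have h7 : i.val = c.val := by
        by_contra h6
        apply hne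
        simp only [w]
        rw [sg i c, if_neg h6, mul_zero]
      rw [hrev] at h5
      apply invB
      · rw [h7, hcv]; split_ifs <;> omega
      · rw [sgB_val_ne h2 hk, sgB_val_ne h2 hk]
        rw [h7, hcv, ← h5]
        split_ifs <;> omega
  · intro h1
    have h3 := entry c (Fin.rev j0)
    rw [h1, mt_one] at h3
    have hne : c ≠ Fin.rev j0 := by
      intro e
      have := congrArg Fin.val e
      rw [hrev, hcv] at this
      split_ifs at this <;> omega
    have hcj : c ≠ j0 := fun e => hcj0 (congrArg Fin.val e)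
    rw [Matrix.one_apply_ne hne, Pi.single_eq_of_ne hne, Pi.single_eq_of_ne hcj] at h3
    simp [w] at h3

theorem conj_not_mem [Finite F] (h2 : n % 2 = 0) (hab : Ani a b) {k : ℕ} (hk : 2 * k + 4 ≤ n) {x : GM n F a b}
    (hx : x ∈ XX n F a b k) (h1 : x ≠ 1) : pm n F a b (sgB n k) * x * pm n F a b (sgB n k) ∉ BB n F a b := by
  intro hB
  have hA := Adm_sgB (n := n) h2 k
  have hinv : (sgB n k)⁻¹ = sgB n k := inv_eq_of_mul_eq_one_left (sgB_mul_self k)
  have hs : (pm n F a b (sgB n k))⁻¹ = pm n F a b (sgB n k) := by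
    rw [pm_inv h2 hA, hinv]
  have hex : ∃ i j, i ≠ j ∧ mt x i j ≠ 0 := by
    by_contra hcon
    push Not at hcon
    apply h1
    apply mt_inj
    rw [mt_one]
    ext i j
    by_cases hij : i = j
    · subst hij; rw [hx.1 i, Matrix.one_apply_eq]
    · rw [hcon i j hij, Matrix.one_apply_ne hij]
  obtain ⟨i, j, hij, hne⟩ := hex
  have hI := hx.2 i j hij hne
  have h4 := conj_apply (a := a) (b := b) h2 hA x i j
  rw [hs] at h4
  have hss : ∀ y, sgB n k (sgB n k y) = y := by
    intro y
    have := congrArg (fun π : Equiv.Perm (Fin n) => π y) (sgB_mul_self (n := n) k)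
    simpa using this
  have hmd : ¬ (md n (sgB n k i) ∧ md n (sgB n k j)) := by
    rintro ⟨m1, m2⟩
    have e1 := hA.2 _ m1
    have e2 := hA.2 _ m2
    rw [hss] at e1 e2
    have h5 := hI.2
    rw [← e1, ← e2] at h5
    exact absurd hI.1 (not_lt.2 h5.le)
  have h6 := hB.1 (sgB n k i) (sgB n k j) hI.2 hmd
  rw [h4] at h6
  exact hne h6

end Cfsg.Agent.Lib.H49SmNe
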