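import Mathlib
import Cfsg.Agent.Lib.H49SmDefs
import Cfsg.Agent.Lib.H49SmGrp
import Cfsg.Agent.Lib.H49SmQF
import Cfsg.Agent.Lib.H49SmQFn
import Cfsg.Agent.Lib.H49SmStar
import Cfsg.Agent.Lib.H49SmInv
import Cfsg.Agent.Lib.H49SmMem

set_option autoImplicit false

/-! Project 2549 (Steinberg character of `POmega-_{2m+2}(q)`), piece `Nor` (35m).

`BB_conj_UU`: the map `BB → ` block diagonal part is multiplicative (for block triangular matrices the diagonal blocks multiply), and `UU` is its kernel: the block diagonal part of `b u b⁻¹` is that of `b b⁻¹ = 1`.  `UU_inf_TT`: `mt_inj`, entries. -/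

namespace Cfsg.Agent.Lib.H49SmNor

open Matrix Cfsg.Agent.Lib.H49SmDefs
open Cfsg.Agent.Lib.H49SuDefs (sgm Inv)
open Cfsg.Agent.Lib.H49SmGrp Cfsg.Agent.Lib.H49SmQF Cfsg.Agent.Lib.H49SmQFn Cfsg.Agent.Lib.H49SmStar Cfsg.Agent.Lib.H49SmInv Cfsg.Agent.Lib.H49SmMem

variable {n : ℕ} {F : Type*} [Field F] {a b : F}

/-- strictly block upper triangular -/
def SBU (M : Matrix (Fin n) (Fin n) F) : Prop := ∀ x y : Fin n, (y ≤ x ∨ (md n x ∧ md n y)) → M x y = 0

theorem SBU_left {G N : Matrix (Fin n) (Fin n) F} (hG : BTri G) (hN : SBU N) : SBU (G * N) := by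
  intro x y hxy
  rw [Matrix.mul_apply]
  apply Finset.sum_eq_zero
  intro z _
  by_cases h1 : z < x ∧ ¬ (md n x ∧ md n z)
  · rw [hG x z h1.1 h1.2, zero_mul]
  · by_cases h3 : y ≤ z ∨ (md n z ∧ md n y)
    · rw [hN z y h3, mul_zero]
    · exfalso
      unfold md at *
      rw [Fin.lt_def] at *
      rw [Fin.le_def] at *
      omega

theorem SBU_right {G N : Matrix (Fin n) (Fin n) F} (hG : BTri G) (hN : SBU N) : SBU (N * G) := by
  intro x y hxy
  rw [Matrix.mul_apply]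
  apply Finset.sum_eq_zero
  intro z _
  by_cases h1 : y < z ∧ ¬ (md n z ∧ md n y)
  · rw [hG z y h1.1 h1.2, mul_zero]
  · by_cases h3 : z ≤ x ∨ (md n x ∧ md n z)
    · rw [hN x z h3, zero_mul]
    · exfalso
      unfold md at *
      rw [Fin.lt_def] at *
      rw [Fin.le_def] at *
      omega

theorem SBU_of_UTm {M : Matrix (Fin n) (Fin n) F} (h : UTm M) : SBU (M - 1) := by
  intro x y hxy
  rw [Matrix.sub_apply]
  by_cases e : x = y
  · subst e
    rw [h.2.1, Matrix.one_apply_eq, sub_self]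
  · rw [Matrix.one_apply_ne e, sub_zero]
    rcases hxy with h1 | h1
    · exact h.1 x y (lt_of_le_of_ne h1 (Ne.symm e))
    · exact h.2.2 x y h1.1 h1.2 e

theorem UTm_of_SBU {M : Matrix (Fin n) (Fin n) F} (h : SBU (M - 1)) : UTm M := by
  have key : ∀ x y, (y ≤ x ∨ (md n x ∧ md n y)) → M x y = (1 : Matrix (Fin n) (Fin n) F) x y := by
    intro x y hxy
    have := h x y hxy
    rw [Matrix.sub_apply] at this
    exact sub_eq_zero.1 this
  refine ⟨fun x y hxy => ?_, fun x => ?_, fun x y hx hy hxy => ?_⟩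
  · rw [key x y (Or.inl hxy.le), Matrix.one_apply_ne (ne_of_gt hxy)]
  · rw [key x x (Or.inl le_rfl), Matrix.one_apply_eq]
  · rw [key x y (Or.inr ⟨hx, hy⟩), Matrix.one_apply_ne hxy]

theorem UTm_conj {G G' M : Matrix (Fin n) (Fin n) F} (hG : BTri G) (hG' : BTri G') (e : G * G' = 1) (hM : UTm M) :
    UTm (G * M * G') := by
  apply UTm_of_SBU
  have : G * M * G' - 1 = G * (M - 1) * G' := by
    rw [Matrix.mul_sub, Matrix.sub_mul, Matrix.mul_one, e]
  rw [this]
  exact SBU_right hG' (SBU_left hG (SBU_of_UTm hM))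

theorem BB_conj_UU [Finite F] (h2 : n % 2 = 0) (hn : 2 ≤ n) (hab : Ani a b) {g u : GM n F a b} (hg : g ∈ BB n F a b)
    (hu : u ∈ UU n F a b) : g * u * g⁻¹ ∈ UU n F a b := by
  have e : mt g * mt g⁻¹ = 1 := by rw [← mt_mul, mul_inv_cancel, mt_one]
  refine ⟨?_, ?_⟩
  · rw [mt_mul, mt_mul]
    exact UTm_conj hg.1 hg.2 e hu.1
  · have e2 : (g * u * g⁻¹)⁻¹ = g * u⁻¹ * g⁻¹ := by group
    rw [e2, mt_mul, mt_mul]
    exact UTm_conj hg.1 hg.2 e hu.2

theorem UU_inf_TT {g : GM n F a b} (hU : g ∈ UU n F a b) (hT : g ∈ TT n F a b) : g = 1 := by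
  apply mt_inj
  ext x y
  rw [mt_one]
  by_cases e : x = y
  · subst e
    rw [hU.1.2.1, Matrix.one_apply_eq]
  · rw [Matrix.one_apply_ne e]
    by_cases hm : md n x ∧ md n y
    · exact hU.1.2.2 x y hm.1 hm.2 e
    · exact hT.1 x y e hm

end Cfsg.Agent.Lib.H49SmNor
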