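import Mathlib
import Cfsg.Agent.Lib.H49SmDefs
import Cfsg.Agent.Lib.H49SmGrp
import Cfsg.Agent.Lib.H49SmQF
import Cfsg.Agent.Lib.H49SmQFn
import Cfsg.Agent.Lib.H49SmStar
import Cfsg.Agent.Lib.H49SmInv
import Cfsg.Agent.Lib.H49SmMem
import Cfsg.Agent.Lib.H49SmPerm
import Cfsg.Agent.Lib.H49SuSgm
import Cfsg.Agent.Lib.H49SuInvD

set_option autoImplicit false

/-! Project 2549 (Steinberg character of `POmega-_{2m+2}(q)`), piece `RankGL` (45m).

ADAPT the landed `H49SpRankGL`.  `x ∈ XX k`, `x ≠ 1`: `x = 1 + t E_{ij} - t E_{rev j, rev i}` with `t ≠ 0` (the two entries are related by `inv_apply`/`BM_mulVec`).  `y = 1 + t⁻¹ E_{ji} - t⁻¹ E_{rev i, rev j} = EE a b j (t⁻¹ • e_{rev i})`-type element of `YY k`; `g = s x y⁻¹` is upper triangular (2x2 computation `[[0,1],[1,0]] [[1,t],[0,1]] [[1,0],[-t⁻¹,1]] = [[-t⁻¹, 1],[0, t]]`). -/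

namespace Cfsg.Agent.Lib.H49SmRankGL

open Matrix Cfsg.Agent.Lib.H49SmDefs
open Cfsg.Agent.Lib.H49SuDefs (sgm Inv)
open Cfsg.Agent.Lib.H49SmGrp Cfsg.Agent.Lib.H49SmQF Cfsg.Agent.Lib.H49SmQFn Cfsg.Agent.Lib.H49SmStar Cfsg.Agent.Lib.H49SmInv Cfsg.Agent.Lib.H49SmMem Cfsg.Agent.Lib.H49SmPerm

variable {n : ℕ} {F : Type*} [Field F] {a b : F}

theorem rgl_neg (i j : Fin n) (s : F) : Matrix.single i j (-s) = - Matrix.single i j s := by
  ext x y
  by_cases h : i = x ∧ j = y
  · obtain ⟨rfl, rfl⟩ := h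
    simp
  · rw [Matrix.neg_apply, Matrix.single_apply_of_ne _ _ _ _ _ h, Matrix.single_apply_of_ne _ _ _ _ _ h, neg_zero]

theorem rgl_BM_smul (x v : Fin n → F) (c : F) : BM n F a b x (c • v) = c * BM n F a b x v := by
  unfold BM
  rw [Finset.mul_sum]
  apply Finset.sum_congr rfl
  intro i _
  simp only [Pi.smul_apply, smul_eq_mul]
  split_ifs <;> ring

theorem rgl_BM_single (h2 : n % 2 = 0) (j : Fin n) (hj : ¬ md n j) (x : Fin n → F) (c : F) :
    BM n F a b x (Pi.single j c) = c * x (Fin.rev j) := by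
  have : (Pi.single j c : Fin n → F) = c • Pi.single j 1 := by
    ext i
    by_cases h : i = j
    · subst h; simp
    · simp [Pi.single_eq_of_ne h]
  rw [this, rgl_BM_smul, BM_single_right h2 j hj]

/-- the matrix of the Eichler element -/
theorem rgl_EE (h2 : n % 2 = 0) (r p' : Fin n) (hr : ¬ md n r) (hp : ¬ md n p') (hne : p' ≠ Fin.rev r) (w : F) :
    mt (EE a b r (Pi.single p' w)) = 1 + Matrix.single r (Fin.rev p') w - Matrix.single p' (Fin.rev r) w := by
  ext i j
  have e : mt (EE a b r (Pi.single p' w)) i j = (mt (EE a b r (Pi.single p' w)) *ᵥ Pi.single j 1) i := by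
    rw [Matrix.mulVec_single_one]; rfl
  rw [e, EE_apply h2 r hr _ (Pi.single_eq_of_ne hne.symm _), rgl_BM_single h2 p' hp, QM_single h2 p' hp, zero_mul, sub_zero]
  simp only [Pi.add_apply, Pi.sub_apply, Pi.smul_apply, smul_eq_mul, Matrix.add_apply, Matrix.sub_apply,
    Matrix.one_apply, Matrix.single_apply, Pi.single_apply]
  by_cases h1 : i = j <;> by_cases h2' : Fin.rev p' = j <;> by_cases h3 : r = i <;> by_cases h4 : Fin.rev r = j <;>
    by_cases h5 : p' = i <;> simp [h1, h2', h3, h4, h5, eq_comm, ite_and]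

set_option maxHeartbeats 1000000 in
theorem rank_one [Finite F] (h2 : n % 2 = 0) (hab : Ani a b) {k : ℕ} (hk : 2 * k + 5 < n) {x : GM n F a b}
    (hx : x ∈ XX n F a b k) (h1 : x ≠ 1) : ∃ g ∈ BB n F a b, ∃ y ∈ YY n F a b k, pm n F a b (sgB n k) * x = g * y := by
  have hk3 : 2 * k + 3 < n := by omega
  have hσ : sgB n k = sgm n k := by unfold sgB; rw [if_pos hk]
  have hInvB : ∀ i j : Fin n, InvB n k i j ↔ (i.val = k ∧ j.val = k + 1) ∨ (i.val + k + 2 = n ∧ j.val + k + 1 = n) := by
    intro i j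
    rw [← Cfsg.Agent.Lib.H49SuInvD.Inv_gl hk3 i j]
    unfold InvB Cfsg.Agent.Lib.H49SuDefs.Inv
    rw [hσ]
  obtain ⟨p, hp⟩ : ∃ p : Fin n, p.val = k := ⟨⟨k, by omega⟩, rfl⟩
  obtain ⟨r, hr⟩ : ∃ r : Fin n, r.val = k + 1 := ⟨⟨k + 1, by omega⟩, rfl⟩
  obtain ⟨p', hp'⟩ : ∃ p', p' = Fin.rev p := ⟨_, rfl⟩
  obtain ⟨r', hr'⟩ : ∃ r', r' = Fin.rev r := ⟨_, rfl⟩
  have hrp : p'.val = n - 1 - k := by rw [hp', Fin.val_rev]; omega
  have hrr : r'.val = n - 2 - k := by rw [hr', Fin.val_rev]; omega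
  have hrpp : Fin.rev p' = p := by rw [hp', Fin.rev_rev]
  have hrrr : Fin.rev r' = r := by rw [hr', Fin.rev_rev]
  have hpr : p ≠ r := fun e => by have := congrArg Fin.val e; omega
  have hrr' : r ≠ r' := fun e => by have := congrArg Fin.val e; omega
  have hpp' : p' ≠ p := fun e => by have := congrArg Fin.val e; omega
  have hp'r' : p' ≠ r' := fun e => by have := congrArg Fin.val e; omega
  have hrp' : r ≠ p' := fun e => by have := congrArg Fin.val e; omega
  have hpr' : p ≠ r' := fun e => by have := congrArg Fin.val e; omega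
  have mp : ¬ md n p := by unfold md; omega
  have mr : ¬ md n r := by unfold md; omega
  have mp' : ¬ md n p' := by unfold md; omega
  have mr' : ¬ md n r' := by unfold md; omega
  obtain ⟨t, ht⟩ : ∃ t, t = mt x p r := ⟨_, rfl⟩
  obtain ⟨u, hu⟩ : ∃ u, u = mt x r' p' := ⟨_, rfl⟩
  have hxm : mt x = 1 + Matrix.single p r t + Matrix.single r' p' u := by
    ext i j
    rw [Matrix.add_apply, Matrix.add_apply]
    by_cases hij : i = j
    · subst hij
      rw [hx.1, Matrix.one_apply_eq,
        Matrix.single_apply_of_ne _ _ _ _ _ (fun e => hpr (e.1.trans e.2.symm)),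
        Matrix.single_apply_of_ne _ _ _ _ _ (fun e => hp'r' (e.2.trans e.1.symm))]
      simp
    · rw [Matrix.one_apply_ne hij, zero_add]
      by_cases e1 : p = i ∧ r = j
      · obtain ⟨rfl, rfl⟩ := e1
        rw [Matrix.single_apply_same, Matrix.single_apply_of_ne _ _ _ _ _ (fun e => hpr' e.1.symm),
          add_zero, ht]
      · rw [Matrix.single_apply_of_ne _ _ _ _ _ e1, zero_add]
        by_cases e2 : r' = i ∧ p' = j
        · obtain ⟨rfl, rfl⟩ := e2
          rw [Matrix.single_apply_same, hu]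
        · rw [Matrix.single_apply_of_ne _ _ _ _ _ e2]
          by_contra hne
          have := (hInvB i j).1 (hx.2 i j hij hne)
          rcases this with ⟨q1, q2⟩ | ⟨q1, q2⟩
          · exact e1 ⟨Fin.ext (by rw [hp, q1]), Fin.ext (by rw [hr, q2])⟩
          · exact e2 ⟨Fin.ext (by rw [hrr]; omega), Fin.ext (by rw [hrp]; omega)⟩
  have hut : u = -t := by
    have hmul : mt x * mt x⁻¹ = 1 := by rw [← mt_mul, mul_inv_cancel, mt_one]
    have h3 := congrFun (congrFun hmul p) r
    rw [hxm, Matrix.add_mul, Matrix.add_mul, Matrix.one_mul, Matrix.add_apply, Matrix.add_apply,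
      Matrix.single_mul_apply_same, Matrix.single_mul_apply_of_ne _ _ _ _ _ hpr', Matrix.one_apply_ne hpr,
      inv_apply h2 x p r mp mr, inv_apply h2 x r r mr mr, ← hr', ← hp', hx.1, ← hu] at h3
    linear_combination h3
  have ht0 : t ≠ 0 := by
    intro h0
    apply h1
    apply mt_inj
    rw [hxm, hut, h0, neg_zero, Matrix.single_zero, Matrix.single_zero, mt_one]
    simp
  obtain ⟨w, hw⟩ : ∃ w, w = t⁻¹ := ⟨_, rfl⟩
  have htw : t * w = 1 := by rw [hw, mul_inv_cancel₀ ht0]
  have hym := rgl_EE (a := a) (b := b) h2 r p' mr mp' (by rw [← hr']; exact hp'r') w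
  have hzm := rgl_EE (a := a) (b := b) h2 r p' mr mp' (by rw [← hr']; exact hp'r') (-w)
  rw [hrpp, ← hr'] at hym hzm
  rw [rgl_neg, rgl_neg, sub_neg_eq_add] at hzm
  set y := EE a b r (Pi.single p' w) with hy
  set z := EE a b r (Pi.single p' (-w)) with hz
  have hzy : z * y = 1 := by
    apply mt_inj
    rw [mt_mul, hzm, hym, mt_one]
    simp only [mul_add, add_mul, mul_sub, sub_mul, mul_neg, neg_mul, mul_one, one_mul,
      Matrix.single_mul_single_of_ne _ _ _ _ hpr, Matrix.single_mul_single_of_ne _ _ _ _ hpp'.symm,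
      Matrix.single_mul_single_of_ne _ _ _ _ hrr'.symm,
      Matrix.single_mul_single_of_ne _ _ _ _ hp'r'.symm]
    abel
  have hyY : y ∈ YY n F a b k := by
    constructor
    · intro i
      rw [hym, Matrix.sub_apply, Matrix.add_apply, Matrix.one_apply_eq,
        Matrix.single_apply_of_ne _ _ _ _ _ (fun e => hpr (e.2.trans e.1.symm)),
        Matrix.single_apply_of_ne _ _ _ _ _ (fun e => hp'r' (e.1.trans e.2.symm))]
      simp
    · intro i j hij hne
      rw [hInvB]
      rw [hym, Matrix.sub_apply, Matrix.add_apply, Matrix.one_apply_ne hij, zero_add] at hne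
      by_cases e1 : r = i ∧ p = j
      · left; rw [← e1.1, ← e1.2]; exact ⟨hp, hr⟩
      · rw [Matrix.single_apply_of_ne _ _ _ _ _ e1, zero_sub] at hne
        by_cases e2 : p' = i ∧ r' = j
        · right; rw [← e2.1, ← e2.2]; constructor <;> omega
        · rw [Matrix.single_apply_of_ne _ _ _ _ _ e2, neg_zero] at hne
          exact absurd rfl hne
  refine ⟨pm n F a b (sgB n k) * x * z, ?_, y, hyY, ?_⟩
  swap
  · rw [mul_assoc (pm n F a b (sgB n k) * x), hzy, mul_one]
  rw [mem_BB h2 (by omega) hab]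
  have hNN : mt x * mt z = 1 - Matrix.single r p w + Matrix.single p' r' w + Matrix.single p r t
      - Matrix.single p p (1 : F) - Matrix.single r' p' t - Matrix.single r' r' (1 : F) := by
    rw [hxm, hzm, hut, rgl_neg]
    simp only [mul_add, add_mul, mul_sub, sub_mul, mul_neg, neg_mul, mul_one, one_mul,
      Matrix.single_mul_single_same, htw,
      Matrix.single_mul_single_of_ne _ _ _ _ hrp', Matrix.single_mul_single_of_ne _ _ _ _ hrp'.symm]
    abel
  intro i j hji _
  rw [mul_assoc, mt_mul, mt_mul, mt_pm h2 (Adm_sgB h2 k), hNN, hσ, Matrix.mul_apply]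
  apply Finset.sum_eq_zero
  intro c _
  unfold pMat
  by_cases hic : i = sgm n k c
  swap
  · rw [if_neg hic, zero_mul]
  rw [if_pos hic, one_mul]
  have hjiv : j.val < i.val := hji
  have hsv := Cfsg.Agent.Lib.H49SuSgm.sgm_val_gl hk3 c
  rw [← hic] at hsv
  have hcl := c.isLt
  simp only [Matrix.add_apply, Matrix.sub_apply]
  by_cases c1 : c = p
  · rw [c1] at hsv ⊢
    rw [if_pos hp] at hsv
    have n1 : r ≠ j := fun e => by have := congrArg Fin.val e; omega
    by_cases n2 : p = j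
    · rw [← n2]
      simp [Matrix.single_apply, Matrix.one_apply, hpr.symm, hpp', hpr'.symm, hpr]
    · simp [Matrix.single_apply, Matrix.one_apply, hpr.symm, hpp', hpr'.symm, n1, n2]
  by_cases c2 : c = r
  · rw [c2] at hsv ⊢
    rw [if_neg (by omega), if_pos hr] at hsv
    have n1 : r ≠ j := fun e => by have := congrArg Fin.val e; omega
    have n2 : p ≠ j := fun e => by have := congrArg Fin.val e; omega
    simp [Matrix.single_apply, Matrix.one_apply, hpr, hrp'.symm, hrr'.symm, n1, n2]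
  by_cases c3 : c = p'
  · rw [c3] at hsv ⊢
    rw [if_neg (by omega), if_neg (by omega), if_pos (by omega)] at hsv
    have n1 : p' ≠ j := fun e => by have := congrArg Fin.val e; omega
    have n2 : r' ≠ j := fun e => by have := congrArg Fin.val e; omega
    simp [Matrix.single_apply, Matrix.one_apply, hrp', hpp'.symm, hp'r'.symm, n1, n2]
  by_cases c4 : c = r'
  · rw [c4] at hsv ⊢
    rw [if_neg (by omega), if_neg (by omega), if_neg (by omega), if_pos (by omega)] at hsv
    have n1 : p' ≠ j := fun e => by have := congrArg Fin.val e; omega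
    by_cases n2 : r' = j
    · rw [← n2]
      simp [Matrix.single_apply, Matrix.one_apply, hrr', hp'r', hpr']
    · simp [Matrix.single_apply, Matrix.one_apply, hrr', hp'r', hpr', n1, n2]
  · have d1 : c.val ≠ k := fun e => c1 (Fin.ext (by omega))
    have d2 : c.val ≠ k + 1 := fun e => c2 (Fin.ext (by omega))
    have d3 : ¬ c.val + k + 1 = n := fun e => c3 (Fin.ext (by omega))
    have d4 : ¬ c.val + k + 2 = n := fun e => c4 (Fin.ext (by omega))
    rw [if_neg d1, if_neg d2, if_neg d3, if_neg d4] at hsv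
    have n1 : c ≠ j := fun e => by have := congrArg Fin.val e; omega
    simp [Matrix.single_apply, Matrix.one_apply, Ne.symm c1, Ne.symm c2, Ne.symm c3, Ne.symm c4, n1]

end Cfsg.Agent.Lib.H49SmRankGL
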