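import Mathlib
import Cfsg.Agent.Lib.H49SmDefs
import Cfsg.Agent.Lib.H49SmGrp
import Cfsg.Agent.Lib.H49SmQF
import Cfsg.Agent.Lib.H49SmQFn
import Cfsg.Agent.Lib.H49SmStar
import Cfsg.Agent.Lib.H49SmInv
import Cfsg.Agent.Lib.H49SmMem
import Cfsg.Agent.Lib.H49SmPerm
import Cfsg.Agent.Lib.H49SmClearL

set_option autoImplicit false

/-! Project 2549 (Steinberg character of `POmega-_{2m+2}(q)`), piece `RankL` (55m).

The last root, `2k+4 = n`, `e = e_k`, `f = e_{k+3}`.  `x ∈ XX k`: `x f = f - QM w e - w`, `x w' = w' + BM w' w e`, `x e = e` with `w` = minus the middle part of column `k+3`; `x ≠ 1` gives `w ≠ 0`, so `QM w ≠ 0` (`Ani`).  Take `z = EE a b (rev k-index f) (w / QM w)`-type element of `YY k` (`z e = e - (1/QM w) f - w / QM w`·sign) such that `x z e ∈ F f`; then `g = s x z` maps `e` into `F e`, hence (isometry fixing the line `F e` and all `e_i`, `i < k`, up to the flag) is block upper triangular: check the columns `≤ k` and use `mem_BB` + duality (`inv_apply`),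 or compute all 4 block columns.  `y = z⁻¹ ∈ YY k`. -/

namespace Cfsg.Agent.Lib.H49SmRankL

open Matrix Cfsg.Agent.Lib.H49SmDefs
open Cfsg.Agent.Lib.H49SuDefs (sgm Inv)
open Cfsg.Agent.Lib.H49SmGrp Cfsg.Agent.Lib.H49SmQF Cfsg.Agent.Lib.H49SmQFn Cfsg.Agent.Lib.H49SmStar Cfsg.Agent.Lib.H49SmInv Cfsg.Agent.Lib.H49SmMem Cfsg.Agent.Lib.H49SmPerm

open Cfsg.Agent.Lib.H49SmClearL (invB_iff_L col_L)

variable {n : ℕ} {F : Type*} [Field F] {a b : F}

theorem QM_L {k : ℕ} (hk : 2 * k + 4 = n) (i m : Fin n) (hi : i.val = k) (hm : m.val = k + 1) (u : Fin n → F)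
    (hu : ∀ t : Fin n, t.val < k → u t = 0) :
    QM n F a b u = u i * u (Fin.rev i) + (u m ^ 2 + a * u m * u (Fin.rev m) + b * u (Fin.rev m) ^ 2) := by
  unfold QM
  rw [Finset.sum_eq_add i m (by intro h; rw [h] at hi; omega)]
  · rw [if_pos (by omega), if_neg (by omega), if_pos (by omega)]
  · intro c _ hc
    have h1 : c.val ≠ k := fun h => hc.1 (Fin.ext (h.trans hi.symm))
    have h3 : c.val ≠ k + 1 := fun h => hc.2 (Fin.ext (h.trans hm.symm))
    split_ifs with h4 h5
    · rw [hu c (by omega), zero_mul]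
    · omega
    · rfl
  · intro h; exact absurd (Finset.mem_univ _) h
  · intro h; exact absurd (Finset.mem_univ _) h

theorem rank_one [Finite F] (h2 : n % 2 = 0) (hab : Ani a b) {k : ℕ} (hk : 2 * k + 4 = n) {x : GM n F a b}
    (hx : x ∈ XX n F a b k) (h1 : x ≠ 1) : ∃ g ∈ BB n F a b, ∃ y ∈ YY n F a b k, pm n F a b (sgB n k) * x = g * y := by
  classical
  have hn : 2 ≤ n := by omega
  obtain ⟨i, hiv⟩ : ∃ i : Fin n, i.val = k := ⟨⟨k, by omega⟩, rfl⟩
  obtain ⟨m, hmv⟩ : ∃ m : Fin n, m.val = k + 1 := ⟨⟨k + 1, by omega⟩, rfl⟩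
  obtain ⟨r, hr⟩ : ∃ r : Fin n, r = Fin.rev i := ⟨_, rfl⟩
  have hri : Fin.rev r = i := by rw [hr, Fin.rev_rev]
  have hrev : ∀ z : Fin n, (Fin.rev z).val = n - 1 - z.val := fun z => by rw [Fin.val_rev]; omega
  have hrv : r.val = k + 3 := by rw [hr, hrev]; omega
  have hmd : ∀ z : Fin n, md n z ↔ z.val = k + 1 ∨ z.val = k + 2 := by
    intro z
    unfold md
    omega
  have hmdi : ¬ md n i := by rw [hmd]; omega
  have hmdr : ¬ md n r := by rw [hmd]; omega
  have hir : i ≠ r := by intro h; rw [h] at hiv; omega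
  have hσ : sgB n k = Equiv.swap i r := by
    unfold sgB
    rw [if_neg (by omega), dif_pos hk, hr]
    congr 1
    · exact Fin.ext hiv.symm
    · exact congrArg Fin.rev (Fin.ext hiv.symm)
  have hI := invB_iff_L (n := n) hk
  -- columns of `x`
  have hxz : ∀ z y, z ≠ y → ¬ InvB n k z y → mt x z y = 0 := by
    intro z y hzy hnI
    by_contra hne
    exact hnI (hx.2 z y hzy hne)
  have X0 : ∀ t : Fin n, t.val ≤ k → mt x *ᵥ Pi.single t 1 = Pi.single t 1 := by
    intro t ht
    funext z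
    rw [col_L]
    by_cases hz : z = t
    · rw [hz, hx.1, Pi.single_eq_same]
    · rw [Pi.single_eq_of_ne hz, hxz z t hz (by rw [hI]; omega)]
  -- the column `r` of `x⁻¹`
  have V1 : mt x *ᵥ (mt x⁻¹ *ᵥ Pi.single r 1) = Pi.single r 1 := by
    rw [Matrix.mulVec_mulVec, ← mt_mul, mul_inv_cancel, mt_one, Matrix.one_mulVec]
  have V2 : ∀ t, ¬ md n t → mt x⁻¹ t r = mt x i (Fin.rev t) := by
    intro t ht
    rw [inv_apply h2 x t r ht hmdr, hri]
  have Vr : mt x⁻¹ r r = 1 := by rw [V2 r hmdr, hri, hx.1]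
  have V0 : ∀ t, ¬ md n t → t ≠ i → t ≠ r → mt x⁻¹ t r = 0 := by
    intro t ht hti htr
    have h3 : t.val ≠ k := fun h => hti (Fin.ext (h.trans hiv.symm))
    have h4 : t.val ≠ k + 3 := fun h => htr (Fin.ext (h.trans hrv.symm))
    rw [hmd] at ht
    have h5 := hrev t
    have h6 := t.isLt
    rw [V2 t (by rw [hmd]; exact ht)]
    apply hxz
    · intro h; rw [h] at hiv; omega
    · rw [hI]; omega
  have hQv : mt x⁻¹ i r * 1 + (mt x⁻¹ m r ^ 2 + a * mt x⁻¹ m r * mt x⁻¹ (Fin.rev m) r + b * mt x⁻¹ (Fin.rev m) r ^ 2) = 0 := by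
    have hQ := QM_mulVec x⁻¹ (Pi.single r 1)
    rw [QM_single h2 r hmdr, QM_L hk i m hiv hmv _ (by
      intro t ht
      rw [col_L]
      exact V0 t (by rw [hmd]; omega) (by intro h; rw [h] at ht; omega) (by intro h; rw [h] at ht; omega))] at hQ
    rw [col_L, col_L, col_L, col_L, ← hr, Vr] at hQ
    exact hQ
  obtain ⟨α, hα⟩ : ∃ α, α = mt x⁻¹ i r := ⟨_, rfl⟩
  have hmm : ∀ t, md n t → t = m ∨ t = Fin.rev m := by
    intro t ht
    rcases (hmd t).1 ht with h | h
    · exact Or.inl (Fin.ext (h.trans hmv.symm))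
    · exact Or.inr (Fin.ext (by rw [h, hrev]; omega))
  have hα0 : α ≠ 0 := by
    intro h0
    rw [← hα, h0, zero_mul, zero_add] at hQv
    obtain ⟨e1, e2⟩ := hab _ _ hQv
    have hv : mt x⁻¹ *ᵥ Pi.single r 1 = Pi.single r 1 := by
      funext t
      rw [col_L]
      by_cases htr : t = r
      · rw [htr, Vr, Pi.single_eq_same]
      rw [Pi.single_eq_of_ne htr]
      by_cases hti : t = i
      · rw [hti, ← hα, h0]
      by_cases htm : md n t
      · rcases hmm t htm with h | h
        · rw [h, e1]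
        · rw [h, e2]
      · exact V0 t htm hti htr
    rw [hv] at V1
    apply h1
    apply mt_inj
    rw [mt_one]
    ext z y
    by_cases hzy : z = y
    · rw [hzy, hx.1, Matrix.one_apply_eq]
    rw [Matrix.one_apply_ne hzy]
    by_contra hne
    have hII := (hI z y).1 (hx.2 z y hzy hne)
    by_cases hyr : y = r
    · apply hne
      rw [hyr, ← col_L (mt x) r z, V1, Pi.single_eq_of_ne (by rw [← hyr]; exact hzy)]
    · have hyv : y.val ≠ k + 3 := fun h => hyr (Fin.ext (h.trans hrv.symm))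
      have hzi : z = i := Fin.ext (by omega)
      have hym : md n y := by rw [hmd]; omega
      apply hne
      have e3 := BM_mulVec (a := a) (b := b) h2 x (Pi.single y 1) (Pi.single r 1)
      rw [V1, BM_single_right h2 r hmdr, BM_single_right h2 r hmdr, hri, col_L,
        Pi.single_eq_of_ne (by rintro rfl; exact hmdi hym)] at e3
      rw [hzi, e3]
  -- Eichler transformations at `r`
  have hz := fun (w0 : Fin n → F) (hw0 : ∀ t, ¬ md n t → w0 t = 0) (u : Fin n → F) =>
    EE_apply (a := a) (b := b) h2 r hmdr w0 (by rw [hri]; exact hw0 i hmdi) u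
  rw [hri] at hz
  have hBn : ∀ (w0 : Fin n → F) (hw0 : ∀ t, ¬ md n t → w0 t = 0) (y : Fin n), ¬ md n y →
      BM n F a b (Pi.single y 1) w0 = 0 := by
    intro w0 hw0 y hy
    rw [BM_single_left h2 y hy]
    apply hw0
    rw [hmd] at hy ⊢
    rw [hrev]
    omega
  have hYY : ∀ (w0 : Fin n → F) (hw0 : ∀ t, ¬ md n t → w0 t = 0), EE a b r w0 ∈ YY n F a b k := by
    intro w0 hw0
    have hent : ∀ z y, mt (EE a b r w0) z y = (Pi.single y 1 : Fin n → F) z
        + (BM n F a b (Pi.single y 1) w0 - QM n F a b w0 * (Pi.single y 1 : Fin n → F) i) * (Pi.single r 1 : Fin n → F) z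
        - (Pi.single y 1 : Fin n → F) i * w0 z := by
      intro z y
      rw [← col_L (mt (EE a b r w0)) y z, hz w0 hw0]
      simp only [Pi.add_apply, Pi.sub_apply, Pi.smul_apply, smul_eq_mul]
    constructor
    · intro y
      rw [hent, Pi.single_eq_same]
      by_cases hy : y = r
      · subst hy
        rw [hBn w0 hw0 y hmdr, Pi.single_eq_of_ne hir]
        simp
      · rw [Pi.single_eq_of_ne hy]
        by_cases hyi : y = i
        · subst hyi
          rw [hw0 y hmdi]; simp
        · rw [Pi.single_eq_of_ne (Ne.symm hyi)]; simp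
    · intro z y hzy hne
      rw [hent, Pi.single_eq_of_ne hzy] at hne
      rw [hI]
      by_cases hyi : y = i
      · subst hyi
        left
        refine ⟨hiv, ?_⟩
        by_cases hzr : z = r
        · rw [hzr]; exact Or.inr (Or.inr hrv)
        · rw [Pi.single_eq_of_ne hzr] at hne
          have : md n z := by
            by_contra hmz
            apply hne
            rw [hw0 z hmz]; simp
          rcases (hmd z).1 this with h | h
          · exact Or.inl h
          · exact Or.inr (Or.inl h)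
      · rw [Pi.single_eq_of_ne (Ne.symm hyi)] at hne
        right
        have hzr : z = r := by
          by_contra hzr
          apply hne
          rw [Pi.single_eq_of_ne hzr]; simp
        have hy : md n y := by
          by_contra hmy
          apply hne
          rw [hBn w0 hw0 y hmy]; simp
        rw [hzr]
        exact ⟨(hmd y).1 hy, hrv⟩
  obtain ⟨w, hwdef⟩ : ∃ w : Fin n → F, w = fun t => if md n t then - mt x⁻¹ t r / α else 0 := ⟨_, rfl⟩
  have hwm : ∀ t, md n t → w t = - mt x⁻¹ t r / α := fun t ht => by rw [hwdef]; exact if_pos ht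
  have hwn : ∀ t, ¬ md n t → w t = 0 := fun t ht => by rw [hwdef]; exact if_neg ht
  have hmdm : md n m := by rw [hmd]; omega
  have hmdm' : md n (Fin.rev m) := by rw [hmd, hrev]; omega
  have hQw : QM n F a b w = - α⁻¹ := by
    rw [QM_L hk i m hiv hmv w (fun t ht => hwn t (by rw [hmd]; omega)), hwn i hmdi, hwm m hmdm, hwm _ hmdm']
    rw [← hα] at hQv
    field_simp
    linear_combination hQv
  -- `z e_i = α⁻¹ v`
  have Z1 : mt (EE a b r w) *ᵥ Pi.single i 1 = α⁻¹ • (mt x⁻¹ *ᵥ Pi.single r 1) := by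
    rw [hz w hwn, hBn w hwn i hmdi, hQw]
    funext t
    simp only [Pi.add_apply, Pi.sub_apply, Pi.smul_apply, smul_eq_mul, col_L, Pi.single_eq_same]
    by_cases hti : t = i
    · rw [hti, Pi.single_eq_same, Pi.single_eq_of_ne hir, hwn i hmdi, ← hα]
      field_simp
      ring
    rw [Pi.single_eq_of_ne hti]
    by_cases htr : t = r
    · rw [htr, Pi.single_eq_same, hwn r hmdr, Vr]
      ring
    rw [Pi.single_eq_of_ne htr]
    by_cases htm : md n t
    · rw [hwm t htm]
      field_simp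
      ring
    · rw [hwn t htm, V0 t htm hti htr]
      ring
  have Z0 : ∀ t : Fin n, t.val < k → mt (EE a b r w) *ᵥ Pi.single t 1 = Pi.single t 1 := by
    intro t ht
    rw [hz w hwn, hBn w hwn t (by rw [hmd]; omega), Pi.single_eq_of_ne (by intro h; rw [← h] at ht; omega)]
    simp
  have hs : ∀ t, mt (pm n F a b (sgB n k)) *ᵥ Pi.single t 1 = Pi.single (sgB n k t) 1 := by
    intro t
    funext z
    rw [col_L, mt_pm h2 (Adm_sgB h2 k)]
    unfold pMat
    by_cases hzt : z = sgB n k t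
    · rw [if_pos hzt, hzt, Pi.single_eq_same]
    · rw [if_neg hzt, Pi.single_eq_of_ne hzt]
  obtain ⟨g, hgdef⟩ : ∃ g : GM n F a b, g = pm n F a b (sgB n k) * x * EE a b r w := ⟨_, rfl⟩
  have G : ∀ t : Fin n, t.val ≤ k → ∃ ν : F, ν ≠ 0 ∧ mt g *ᵥ Pi.single t 1 = ν • Pi.single t 1 := by
    intro t ht
    by_cases hti : t = i
    · refine ⟨α⁻¹, inv_ne_zero hα0, ?_⟩
      rw [hti, hgdef, mt_mul, mt_mul, ← Matrix.mulVec_mulVec, ← Matrix.mulVec_mulVec, Z1, Matrix.mulVec_smul, V1,
        Matrix.mulVec_smul, hs, hσ, Equiv.swap_apply_right]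
    · have htk : t.val < k := by
        have : t.val ≠ k := fun h => hti (Fin.ext (h.trans hiv.symm))
        omega
      refine ⟨1, one_ne_zero, ?_⟩
      rw [hgdef, mt_mul, mt_mul, ← Matrix.mulVec_mulVec, ← Matrix.mulVec_mulVec, Z0 t htk, X0 t ht, hs, hσ,
        Equiv.swap_apply_of_ne_of_ne hti (by intro h; rw [h] at htk; omega), one_smul]
  have hgBB : g ∈ BB n F a b := by
    rw [mem_BB h2 hn hab]
    intro z y hyz hmzy
    rw [Fin.lt_def] at hyz
    by_cases hyk : y.val ≤ k
    · obtain ⟨ν, -, hν⟩ := G y hyk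
      rw [← col_L (mt g) y z, hν, Pi.smul_apply, Pi.single_eq_of_ne (by intro h; rw [h] at hyz; omega), smul_zero]
    · have hzv : k + 3 ≤ z.val := by
        by_contra hcon
        apply hmzy
        rw [hmd, hmd]
        omega
      have hzm : ¬ md n (Fin.rev z) := by rw [hmd, hrev]; omega
      obtain ⟨ν, hν0, hν⟩ := G (Fin.rev z) (by rw [hrev]; omega)
      have e1 := BM_mulVec (a := a) (b := b) h2 g (Pi.single y 1) (Pi.single (Fin.rev z) 1)
      rw [hν, BM_single_right h2 _ hzm, Fin.rev_rev, Pi.single_eq_of_ne (by intro h; rw [h] at hyz; omega),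
        ← polar_QF h2, QuadraticMap.polar_smul_right, polar_QF h2, BM_single_right h2 _ hzm, Fin.rev_rev, col_L,
        smul_eq_mul] at e1
      exact (mul_eq_zero.1 e1).resolve_left hν0
  have hinv : (EE a b r w)⁻¹ = EE a b r (-w) := by
    unfold EE
    apply Cfsg.Agent.Lib.Helper49Eich.E_inv
    · exact QM_single h2 r hmdr 1
    · rw [polar_QF h2, hBn w hwn r hmdr]
  refine ⟨g, hgBB, (EE a b r w)⁻¹, ?_, ?_⟩
  · rw [hinv]
    apply hYY
    intro t ht
    rw [Pi.neg_apply, hwn t ht, neg_zero]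
  · rw [hgdef, mul_inv_cancel_right]

end Cfsg.Agent.Lib.H49SmRankL
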