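import Mathlib
import Cfsg.Agent.Lib.H49SmDefs
import Cfsg.Agent.Lib.H49SmGrp
import Cfsg.Agent.Lib.H49SmQF
import Cfsg.Agent.Lib.H49SmStar
import Cfsg.Agent.Lib.H49SmInv
import Cfsg.Agent.Lib.H49SmPerm

set_option autoImplicit false

namespace Cfsg.Agent.Lib.H49SmRankLN

open Matrix Cfsg.Agent.Lib.H49SmDefs
open Cfsg.Agent.Lib.H49SuDefs (sgm Inv)
open Cfsg.Agent.Lib.H49SmGrp Cfsg.Agent.Lib.H49SmQF Cfsg.Agent.Lib.H49SmStar Cfsg.Agent.Lib.H49SmInv Cfsg.Agent.Lib.H49SmPerm

variable {n : ℕ} {F : Type*} [Field F] {a b : F}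

theorem invB_cases {k : ℕ} (hk : 2 * k + 4 = n) {u v : Fin n} (h : InvB n k u v) :
    (u.val = k ∧ k < v.val ∧ v.val ≤ k + 3) ∨ ((u.val = k + 1 ∨ u.val = k + 2) ∧ v.val = k + 3) := by
  unfold InvB sgB at h
  rw [if_neg (by omega), dif_pos hk] at h
  obtain ⟨h1, h2⟩ := h
  rw [Equiv.swap_apply_def, Equiv.swap_apply_def] at h2
  have hu := u.2
  have hv := v.2
  split_ifs at h2 <;> simp only [Fin.ext_iff, Fin.lt_def, Fin.val_rev] at * <;> omega

/-- `QM` of a vector supported on `{k, rev k}` -/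
theorem QM_supp {k : ℕ} (hk : 2 * k + 4 = n) (v : Fin n → F)
    (hv : ∀ i : Fin n, i.val ≠ k → i.val ≠ k + 3 → v i = 0) :
    QM n F a b v = v ⟨k, by omega⟩ * v (Fin.rev ⟨k, by omega⟩) := by
  unfold QM
  rw [Finset.sum_eq_single (⟨k, by omega⟩ : Fin n)]
  · rw [if_pos (by show k + 1 < n / 2; omega)]
  · intro i _ hi
    have hi' : i.val ≠ k := fun h => hi (Fin.ext h)
    have hil := i.2
    split_ifs with h1 h3
    · rw [hv i hi' (by omega), zero_mul]
    · rw [hv i hi' (by omega), hv (Fin.rev i) (by rw [Fin.val_rev]; omega) (by rw [Fin.val_rev]; omega)]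
      ring
    · rfl
  · intro h; exact absurd (Finset.mem_univ _) h

/-- `QM` of a vector supported on the middle -/
theorem QM_mid {k : ℕ} (hk : 2 * k + 4 = n) (v : Fin n → F)
    (hv : ∀ i : Fin n, ¬ md n i → v i = 0) :
    QM n F a b v = v ⟨k + 1, by omega⟩ ^ 2 + a * v ⟨k + 1, by omega⟩ * v ⟨k + 2, by omega⟩
      + b * v ⟨k + 2, by omega⟩ ^ 2 := by
  unfold QM
  rw [Finset.sum_eq_single (⟨k + 1, by omega⟩ : Fin n)]
  · rw [if_neg (by show ¬ (k + 1 + 1 < n / 2); omega), if_pos (by show k + 1 + 1 = n / 2; omega)]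
    have : Fin.rev (⟨k + 1, by omega⟩ : Fin n) = ⟨k + 2, by omega⟩ := by
      apply Fin.ext; rw [Fin.val_rev]; show n - (k + 1 + 1) = k + 2; omega
    rw [this]
  · intro i _ hi
    have hi' : i.val ≠ k + 1 := fun h => hi (Fin.ext h)
    have hil := i.2
    split_ifs with h1 h3
    · rw [hv i (by unfold md; omega), zero_mul]
    · omega
    · rfl
  · intro h; exact absurd (Finset.mem_univ _) h

theorem N_ne (h2 : n % 2 = 0) (hab : Ani a b) {k : ℕ} (hk : 2 * k + 4 = n) {x : GM n F a b}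
    (hx : x ∈ XX n F a b k) (h1 : x ≠ 1) (u : Fin n → F)
    (hu1 : ∀ i, md n i → u i = mt x i (Fin.rev ⟨k, by omega⟩)) (hu0 : ∀ i, ¬ md n i → u i = 0) :
    QM n F a b u ≠ 0 := by
  intro hN
  rw [QM_mid hk u hu0] at hN
  obtain ⟨z1, z2⟩ := hab _ _ hN
  rw [hu1 _ (by unfold md; left; show k + 1 + 1 = n / 2; omega)] at z1
  rw [hu1 _ (by unfold md; right; show k + 2 = n / 2; omega)] at z2
  set K : Fin n := ⟨k, by omega⟩ with hK
  set ff : Fin n := Fin.rev K with hff
  have hffv : ff.val = k + 3 := by rw [hff, Fin.val_rev]; show n - (k + 1) = k + 3; omega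
  have hnm : ¬ md n ff := by unfold md; omega
  -- the column `ff`
  have hcol : ∀ i : Fin n, i.val ≠ k → i.val ≠ k + 3 → mt x i ff = 0 := by
    intro i hi hi'
    by_contra hne
    have hne' : i ≠ ff := fun h => hi' (by rw [h, hffv])
    rcases invB_cases hk (hx.2 i ff hne' hne) with h | h
    · omega
    · rcases h.1 with h | h
      · have : i = ⟨k + 1, by omega⟩ := Fin.ext h
        rw [this] at hne; exact hne z1
      · have : i = ⟨k + 2, by omega⟩ := Fin.ext h
        rw [this] at hne; exact hne z2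
  have hQ : QM n F a b (mt x *ᵥ Pi.single ff 1) = 0 := by
    rw [QM_mulVec, QM_single h2 ff hnm]
  rw [Matrix.mulVec_single_one] at hQ
  have hQ' : QM n F a b (fun i => mt x i ff) = 0 := hQ
  rw [QM_supp hk _ hcol] at hQ'
  have hc0 : mt x K ff = 0 := by
    have : mt x (Fin.rev K) ff = 1 := hx.1 ff
    rw [this, mul_one] at hQ'
    exact hQ'
  have hxf : mt x *ᵥ Pi.single ff 1 = Pi.single ff 1 := by
    rw [Matrix.mulVec_single_one]
    funext i
    show mt x i ff = _
    by_cases hi : i = ff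
    · rw [hi, hx.1, Pi.single_eq_same]
    · rw [Pi.single_eq_of_ne hi]
      by_cases hik : i.val = k
      · have : i = K := Fin.ext hik
        rw [this]; exact hc0
      · exact hcol i hik (fun h => hi (Fin.ext (by rw [h, hffv])))
  apply h1
  apply mt_inj
  rw [mt_one]
  ext i j
  by_cases hij : i = j
  · rw [hij, hx.1, Matrix.one_apply_eq]
  · rw [Matrix.one_apply_ne hij]
    by_contra hne
    rcases invB_cases hk (hx.2 i j hij hne) with h | h
    · have hiK : i = K := Fin.ext h.1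
      have e1 := BM_mulVec (a := a) (b := b) h2 x (Pi.single j 1) (Pi.single ff 1)
      rw [hxf, BM_single_right h2 ff hnm, BM_single_right h2 ff hnm, Matrix.mulVec_single_one] at e1
      have e2 : mt x (Fin.rev ff) j = (Pi.single j 1 : Fin n → F) (Fin.rev ff) := e1
      rw [hff, Fin.rev_rev, ← hiK, Pi.single_eq_of_ne hij] at e2
      exact hne e2
    · have hj : j = ff := Fin.ext (by rw [h.2, hffv])
      rw [hj] at hne
      exact hne (hcol i (by omega) (by omega))

end Cfsg.Agent.Lib.H49SmRankLN
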