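import Mathlib
import Cfsg.Agent.Lib.H49SmDefs
import Cfsg.Agent.Lib.H49SmGrp
import Cfsg.Agent.Lib.H49SmQF
import Cfsg.Agent.Lib.H49SmStar
import Cfsg.Agent.Lib.H49SmInv
import Cfsg.Agent.Lib.H49SmPerm
import Cfsg.Agent.Lib.H49SmRankLN

set_option autoImplicit false

namespace Cfsg.Agent.Lib.H49SmRankLF

open Matrix Cfsg.Agent.Lib.H49SmDefs
open Cfsg.Agent.Lib.H49SuDefs (sgm Inv)
open Cfsg.Agent.Lib.H49SmGrp Cfsg.Agent.Lib.H49SmQF Cfsg.Agent.Lib.H49SmStar Cfsg.Agent.Lib.H49SmInv Cfsg.Agent.Lib.H49SmPerm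
  Cfsg.Agent.Lib.H49SmRankLN

variable {n : ℕ} {F : Type*} [Field F] {a b : F}

theorem pMat_single (σ : Equiv.Perm (Fin n)) (j : Fin n) :
    pMat F σ *ᵥ Pi.single j 1 = Pi.single (σ j) 1 := by
  rw [Matrix.mulVec_single_one]
  funext i
  show pMat F σ i j = _
  unfold pMat
  by_cases h : i = σ j
  · rw [if_pos h, h, Pi.single_eq_same]
  · rw [if_neg h, Pi.single_eq_of_ne h]

theorem QM_smul' (c : F) (u : Fin n → F) : QM n F a b (c • u) = c * c * QM n F a b u := by
  have := QuadraticMap.map_smul (QF n F a b) c u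
  rw [QF_apply', QF_apply', smul_eq_mul] at this
  exact this

theorem facts (h2 : n % 2 = 0) (hab : Ani a b) {k : ℕ} (hk : 2 * k + 4 = n) {x : GM n F a b}
    (hx : x ∈ XX n F a b k) (h1 : x ≠ 1) :
    ∃ w : Fin n → F, (∀ i, ¬ md n i → w i = 0) ∧ ∃ c : F, c ≠ 0 ∧
      (∀ j : Fin n, (j.val < k ∨ k + 3 < j.val) →
        mt (pm n F a b (sgB n k) * x * EE a b (Fin.rev ⟨k, by omega⟩) w) *ᵥ Pi.single j 1 = Pi.single j 1) ∧
      (∀ j : Fin n, j.val = k →
        mt (pm n F a b (sgB n k) * x * EE a b (Fin.rev ⟨k, by omega⟩) w) *ᵥ Pi.single j 1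
          = c • Pi.single j 1) := by
  classical
  set K : Fin n := ⟨k, by omega⟩ with hK
  set ff : Fin n := Fin.rev K with hff
  have hffv : ff.val = k + 3 := by rw [hff, Fin.val_rev]; show n - (k + 1) = k + 3; omega
  have hnm : ¬ md n ff := by unfold md; omega
  have hnK : ¬ md n K := by unfold md; show ¬ (k + 1 = n / 2 ∨ k = n / 2); omega
  have hrev : Fin.rev ff = K := by rw [hff, Fin.rev_rev]
  set u : Fin n → F := fun i => if md n i then mt x i ff else 0 with hu
  have hu1 : ∀ i, md n i → u i = mt x i ff := fun i hi => by simp [hu, hi]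
  have hu0 : ∀ i, ¬ md n i → u i = 0 := fun i hi => by simp [hu, hi]
  have hN : QM n F a b u ≠ 0 := N_ne h2 hab hk hx h1 u hu1 hu0
  set N : F := QM n F a b u with hNdef
  set w : Fin n → F := (-(1 / N)) • u with hw
  have hwi : ∀ i, w i = -(1 / N) * u i := fun i => rfl
  have hw0 : ∀ i, ¬ md n i → w i = 0 := fun i hi => by rw [hwi, hu0 i hi, mul_zero]
  have hQw : QM n F a b w = 1 / N := by
    rw [hw, QM_smul', ← hNdef]; field_simp
  have hσ : sgB n k = Equiv.swap K ff := by
    unfold sgB; rw [if_neg (by omega), dif_pos hk]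
  have hs : mt (pm n F a b (sgB n k)) = pMat F (sgB n k) := mt_pm h2 (Adm_sgB h2 k)
  have hEE := EE_apply (a := a) (b := b) h2 ff hnm w (by rw [hrev]; exact hw0 K hnK)
  have hX1 : ∀ j : Fin n, ¬ (k < j.val ∧ j.val ≤ k + 3) → mt x *ᵥ Pi.single j 1 = Pi.single j 1 := by
    intro j hj
    rw [Matrix.mulVec_single_one]
    funext i
    show mt x i j = _
    by_cases hi : i = j
    · rw [hi, hx.1, Pi.single_eq_same]
    · rw [Pi.single_eq_of_ne hi]
      by_contra hne
      rcases invB_cases hk (hx.2 i j hi hne) with h | h <;> omega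
  have hprod : ∀ v : Fin n → F, mt (pm n F a b (sgB n k) * x * EE a b ff w) *ᵥ v
      = pMat F (sgB n k) *ᵥ (mt x *ᵥ (mt (EE a b ff w) *ᵥ v)) := by
    intro v
    rw [mt_mul, mt_mul, hs, ← Matrix.mulVec_mulVec, ← Matrix.mulVec_mulVec]
  refine ⟨w, hw0, -(1 / N), by simpa using hN, ?_, ?_⟩
  · intro j hj
    have hjK : K ≠ j := fun h => by
      have : k = j.val := congrArg Fin.val h
      omega
    have hjf : j ≠ ff := fun h => by
      have : j.val = k + 3 := by rw [h, hffv]
      omega
    have hjm : ¬ md n j := by unfold md; omega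
    have hz : mt (EE a b ff w) *ᵥ Pi.single j 1 = Pi.single j 1 := by
      rw [hEE, hrev, Pi.single_eq_of_ne hjK, BM_single_left h2 j hjm, hw0 _ (not_md_rev_inv h2 hjm)]
      simp
    rw [hprod, hz, hX1 j (by omega), pMat_single, hσ,
      Equiv.swap_apply_of_ne_of_ne (fun h => hjK h.symm) hjf]
  · intro j hj
    have hjK : j = K := Fin.ext hj
    subst hjK
    have hz : mt (EE a b ff w) *ᵥ Pi.single K 1 = Pi.single K 1 + (-(1 / N)) • Pi.single ff 1 - w := by
      rw [hEE, hrev, Pi.single_eq_same, BM_single_left h2 K hnK, ← hff, hw0 ff hnm, hQw]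
      simp
    have hxw : ∀ i : Fin n, i.val ≠ k → (mt x *ᵥ w) i = w i := by
      intro i hi
      simp only [Matrix.mulVec, dotProduct]
      rw [Finset.sum_eq_single i]
      · rw [hx.1, one_mul]
      · intro j _ hji
        by_cases hm : md n j
        · have : mt x i j = 0 := by
            by_contra hne
            unfold md at hm
            rcases invB_cases hk (hx.2 i j (Ne.symm hji) hne) with h | h <;> omega
          rw [this, zero_mul]
        · rw [hw0 j hm, mul_zero]
      · intro h; exact absurd (Finset.mem_univ _) h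
    set v : Fin n → F := mt x *ᵥ (mt (EE a b ff w) *ᵥ Pi.single K 1) with hv
    have hvi : ∀ i : Fin n, i.val ≠ k →
        v i = (Pi.single K 1 : Fin n → F) i + (-(1 / N)) * mt x i ff - w i := by
      intro i hi
      rw [hv, hz, Matrix.mulVec_sub, Matrix.mulVec_add, Matrix.mulVec_smul,
        hX1 K (by show ¬ (k < k ∧ k ≤ k + 3); omega), Matrix.mulVec_single_one]
      show (Pi.single K 1 : Fin n → F) i + (-(1 / N)) * mt x i ff - (mt x *ᵥ w) i = _
      rw [hxw i hi]
    have hv0 : ∀ i : Fin n, i.val ≠ k → i.val ≠ k + 3 → v i = 0 := by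
      intro i hi hi'
      have hiK : i ≠ K := fun h => hi (congrArg Fin.val h)
      rw [hvi i hi, Pi.single_eq_of_ne hiK]
      by_cases hm : md n i
      · rw [hwi, hu1 i hm]; ring
      · have : mt x i ff = 0 := by
          by_contra hne
          unfold md at hm
          have hif : i ≠ ff := fun h => hi' (by rw [h, hffv])
          rcases invB_cases hk (hx.2 i ff hif hne) with h | h <;> omega
        rw [hw0 i hm, this]; ring
    have hvf : v ff = -(1 / N) := by
      have hfK : ff ≠ K := fun h => by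
        have : ff.val = k := congrArg Fin.val h
        omega
      rw [hvi ff (by omega), Pi.single_eq_of_ne hfK, hx.1, hw0 ff hnm]; ring
    have hQv : QM n F a b v = 0 := by
      rw [hv, QM_mulVec, QM_mulVec, QM_single h2 K hnK]
    rw [QM_supp hk v hv0] at hQv
    have hvK : v K = 0 := by
      have h3 : v K * v ff = 0 := hQv
      rw [hvf] at h3
      rcases mul_eq_zero.1 h3 with h | h
      · exact h
      · exact absurd h (by simpa using hN)
    have hvv : v = (-(1 / N)) • Pi.single ff 1 := by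
      funext i
      rw [Pi.smul_apply, smul_eq_mul]
      by_cases hif : i = ff
      · rw [hif, hvf, Pi.single_eq_same, mul_one]
      · rw [Pi.single_eq_of_ne hif, mul_zero]
        by_cases hik : i.val = k
        · have : i = K := Fin.ext hik
          rw [this]; exact hvK
        · exact hv0 i hik (fun h => hif (Fin.ext (by rw [h, hffv])))
    rw [hprod, ← hv, hvv, Matrix.mulVec_smul, pMat_single, hσ, Equiv.swap_apply_right]

end Cfsg.Agent.Lib.H49SmRankLF
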