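import Mathlib
import Cfsg.Agent.Lib.H49SmDefs
import Cfsg.Agent.Lib.H49SmGrp
import Cfsg.Agent.Lib.H49SmQF
import Cfsg.Agent.Lib.H49SmQFn
import Cfsg.Agent.Lib.H49SmStar
import Cfsg.Agent.Lib.H49SmInv
import Cfsg.Agent.Lib.H49SmMem
import Cfsg.Agent.Lib.H49SmPerm
import Cfsg.Agent.Lib.H49SmClearL

set_option autoImplicit false

/-! Project 2549, helper lemma for piece `RankL`: an element of `XX k` (`2k+4 = n`) whose column `k+3` has trivial middle part is `1`. -/

namespace Cfsg.Agent.Lib.H49SmRankLX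

open Matrix Cfsg.Agent.Lib.H49SmDefs
open Cfsg.Agent.Lib.H49SmGrp Cfsg.Agent.Lib.H49SmQF Cfsg.Agent.Lib.H49SmQFn Cfsg.Agent.Lib.H49SmStar Cfsg.Agent.Lib.H49SmInv Cfsg.Agent.Lib.H49SmMem Cfsg.Agent.Lib.H49SmPerm

variable {n : ℕ} {F : Type*} [Field F] {a b : F}

theorem eq_one_of_mid (h2 : n % 2 = 0) {k : ℕ} (hk : 2 * k + 4 = n) {x : GM n F a b}
    (hx : x ∈ XX n F a b k) (K : Fin n) (hKv : K.val = k)
    (hu : ∀ i, md n i → mt x i (Fin.rev K) = 0) : x = 1 := by
  have hRv : (Fin.rev K).val = k + 3 := by rw [Fin.val_rev, hKv]; omega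
  have hK : ¬ md n K := by unfold md; omega
  have hR : ¬ md n (Fin.rev K) := by unfold md; omega
  have hKR : K ≠ Fin.rev K := by
    intro h
    have := congrArg Fin.val h
    omega
  have hinv := Cfsg.Agent.Lib.H49SmClearL.invB_iff_L (n := n) hk
  have col := Cfsg.Agent.Lib.H49SmClearL.col_L (F := F) (n := n)
  have c1 : mt x *ᵥ Pi.single (Fin.rev K) 1 = Pi.single (Fin.rev K) 1 + Pi.single K (mt x K (Fin.rev K)) := by
    funext p
    rw [col, Pi.add_apply]
    by_cases hpR : p = Fin.rev K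
    · rw [hpR, hx.1, Pi.single_eq_same, Pi.single_eq_of_ne hKR.symm, add_zero]
    · by_cases hpK : p = K
      · rw [hpK, Pi.single_eq_same, Pi.single_eq_of_ne hKR, zero_add]
      · rw [Pi.single_eq_of_ne hpR, Pi.single_eq_of_ne hpK, add_zero]
        by_contra hne
        rcases (hinv p (Fin.rev K)).1 (hx.2 p _ hpR hne) with ⟨h3, -⟩ | ⟨h3, -⟩
        · exact hpK (Fin.ext (by rw [h3, hKv]))
        · exact hne (hu p (by unfold md; omega))
  have hα : mt x K (Fin.rev K) = 0 := by
    have h3 := QM_mulVec x (Pi.single (Fin.rev K) 1)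
    rw [c1, QM_add h2, QM_single h2 _ hR, QM_single h2 _ hK, BM_single_left h2 _ hR, Fin.rev_rev,
      Pi.single_eq_same] at h3
    simpa using h3
  rw [hα, Pi.single_zero, add_zero] at c1
  have hβ : ∀ q, md n q → mt x K q = 0 := by
    intro q hq
    have h3 := BM_mulVec (a := a) (b := b) h2 x (Pi.single q 1) (Pi.single (Fin.rev K) 1)
    have hKq : K ≠ q := by
      intro h
      rw [← h] at hq
      exact hK hq
    rw [c1, BM_single_right h2 _ hR, BM_single_right h2 _ hR, Fin.rev_rev, col,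
      Pi.single_eq_of_ne hKq] at h3
    exact h3
  apply mt_inj
  rw [mt_one]
  ext p q
  by_cases hpq : p = q
  · rw [hpq, hx.1, Matrix.one_apply_eq]
  · rw [Matrix.one_apply_ne hpq]
    by_contra hne
    rcases (hinv p q).1 (hx.2 p q hpq hne) with ⟨h3, h4⟩ | ⟨h3, h4⟩
    · have hp : p = K := Fin.ext (by rw [h3, hKv])
      rw [hp] at hne
      rcases h4 with h4 | h4 | h4
      · exact hne (hβ q (by unfold md; omega))
      · exact hne (hβ q (by unfold md; omega))
      · have hq : q = Fin.rev K := Fin.ext (by rw [h4, hRv])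
        rw [hq] at hne
        exact hne hα
    · have hq : q = Fin.rev K := Fin.ext (by rw [h4, hRv])
      rw [hq] at hne
      exact hne (hu p (by unfold md; omega))

end Cfsg.Agent.Lib.H49SmRankLX
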