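import Mathlib
import Cfsg.Agent.Lib.H49SmDefs
import Cfsg.Agent.Lib.H49SmGrp
import Cfsg.Agent.Lib.H49SmQF
import Cfsg.Agent.Lib.H49SmQFn
import Cfsg.Agent.Lib.H49SmStar
import Cfsg.Agent.Lib.H49SmInv
import Cfsg.Agent.Lib.H49SmMem
import Cfsg.Agent.Lib.H49SmPerm

set_option autoImplicit false

/-! Project 2549, helper file for piece `RankL`: the negative root elements `EE a b (rev k) w`. -/

namespace Cfsg.Agent.Lib.H49SmRankLZ

open Matrix Cfsg.Agent.Lib.H49SmDefs
open Cfsg.Agent.Lib.H49SuDefs (sgm Inv)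
open Cfsg.Agent.Lib.H49SmGrp Cfsg.Agent.Lib.H49SmQF Cfsg.Agent.Lib.H49SmQFn Cfsg.Agent.Lib.H49SmStar Cfsg.Agent.Lib.H49SmInv Cfsg.Agent.Lib.H49SmMem Cfsg.Agent.Lib.H49SmPerm

variable {n : ℕ} {F : Type*} [Field F] {a b : F}

theorem InvB_iff {k : ℕ} (hk : 2 * k + 4 = n) (x y : Fin n) :
    InvB n k x y ↔ (x.val = k ∧ (y.val = k + 1 ∨ y.val = k + 2 ∨ y.val = k + 3)) ∨
      ((x.val = k + 1 ∨ x.val = k + 2) ∧ y.val = k + 3) := by
  unfold InvB sgB
  rw [if_neg (by omega), dif_pos hk]
  rw [Equiv.swap_apply_def, Equiv.swap_apply_def]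
  have e1 : ∀ z : Fin n, z = (⟨k, by omega⟩ : Fin n) ↔ z.val = k := fun z => by
    rw [Fin.ext_iff]
  have e2 : ∀ z : Fin n, z = Fin.rev (⟨k, by omega⟩ : Fin n) ↔ z.val = k + 3 := fun z => by
    rw [Fin.ext_iff, Fin.val_rev]; constructor <;> intro h <;> simp only [] at * <;> omega
  simp only [e1, e2]
  split_ifs <;> simp only [Fin.lt_def, Fin.val_rev] <;> omega

theorem BM_eq_polar (h2 : n % 2 = 0) (u v : Fin n → F) :
    BM n F a b u v = QuadraticMap.polar (⇑(QF n F a b)) u v := (polar_QF h2 u v).symm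

theorem QM_eq (u : Fin n → F) : QM n F a b u = QF n F a b u := rfl

theorem zy (h2 : n % 2 = 0) (j : Fin n) (hj : ¬ md n j) (w : Fin n → F) (hw : w (Fin.rev j) = 0) (hwj : w j = 0) :
    EE a b j w * EE a b j (-w) = 1 := by
  apply mt_inj
  rw [mt_mul, mt_one]
  apply Matrix.ext_of_mulVec_single
  intro c
  have hjj : Fin.rev j ≠ j := by
    intro e
    apply hj
    have := congrArg Fin.val e
    rw [Fin.val_rev] at this
    unfold md
    omega
  rw [← Matrix.mulVec_mulVec, EE_apply h2 j hj (-w) (by simp [hw]), EE_apply h2 j hj w hw, Matrix.one_mulVec]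
  set v : Fin n → F := Pi.single c 1 with hv
  have q1 : QM n F a b (-w) = QM n F a b w := by
    rw [QM_eq, QM_eq, QuadraticMap.map_neg]
  have b1 : BM n F a b v (-w) = - BM n F a b v w := by
    rw [BM_eq_polar h2, BM_eq_polar h2, QuadraticMap.polar_neg_right]
  have b2 : BM n F a b (Pi.single j 1) w = 0 := by rw [BM_single_left h2 j hj, hw]
  have b3 : BM n F a b w w = 2 * QM n F a b w := by
    rw [BM_eq_polar h2, QuadraticMap.polar_self, QM_eq]; simp
  have hcoord : (v + (BM n F a b v (-w) - QM n F a b (-w) * v (Fin.rev j)) • (Pi.single j 1 : Fin n → F)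
      - v (Fin.rev j) • (-w) : Fin n → F) (Fin.rev j) = v (Fin.rev j) := by
    simp [hw, Pi.single_eq_of_ne hjj]
  rw [hcoord]
  have b4 : BM n F a b (v + (BM n F a b v (-w) - QM n F a b (-w) * v (Fin.rev j)) • (Pi.single j 1 : Fin n → F)
      - v (Fin.rev j) • (-w)) w = BM n F a b v w + 2 * QM n F a b w * v (Fin.rev j) := by
    rw [BM_eq_polar h2, QuadraticMap.polar_sub_left, QuadraticMap.polar_add_left,
      QuadraticMap.polar_smul_left, QuadraticMap.polar_smul_left, QuadraticMap.polar_neg_left,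
      ← BM_eq_polar h2, ← BM_eq_polar h2, ← BM_eq_polar h2, b2, b3]
    simp only [smul_eq_mul]
    ring
  rw [b4, b1, q1]
  ext r
  simp only [Pi.add_apply, Pi.sub_apply, Pi.smul_apply, Pi.neg_apply, smul_eq_mul]
  ring

theorem entry (h2 : n % 2 = 0) (j : Fin n) (hj : ¬ md n j) (w : Fin n → F) (hw : w (Fin.rev j) = 0) (r c : Fin n) :
    mt (EE a b j w) r c = (Pi.single c 1 : Fin n → F) r
      + (BM n F a b (Pi.single c 1) w - QM n F a b w * (Pi.single c 1 : Fin n → F) (Fin.rev j)) * (Pi.single j 1 : Fin n → F) r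
      - (Pi.single c 1 : Fin n → F) (Fin.rev j) * w r := by
  have h := congrFun (EE_apply (a := a) (b := b) h2 j hj w hw (Pi.single c 1)) r
  rw [Matrix.mulVec_single_one] at h
  simpa using h

theorem EE_mem_YY (h2 : n % 2 = 0) {k : ℕ} (hk : 2 * k + 4 = n) (ff : Fin n) (hff : ff.val = k + 3) (w : Fin n → F)
    (hw : ∀ i, ¬ md n i → w i = 0) : EE a b ff w ∈ YY n F a b k := by
  have hmf : ¬ md n ff := by unfold md; omega
  have hrv : (Fin.rev ff).val = k := by rw [Fin.val_rev]; omega
  have hmk : ¬ md n (Fin.rev ff) := by unfold md; omega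
  have hwk : w (Fin.rev ff) = 0 := hw _ hmk
  have hne : Fin.rev ff ≠ ff := fun e => by have := congrArg Fin.val e; omega
  have hBM : ∀ c : Fin n, ¬ md n c → BM n F a b (Pi.single c 1) w = 0 := by
    intro c hc
    rw [BM_single_left h2 c hc]
    apply hw
    unfold md at hc ⊢
    rw [Fin.val_rev]
    omega
  constructor
  · intro c
    rw [entry h2 ff hmf w hwk, Pi.single_eq_same]
    by_cases h1 : c = ff
    · subst h1
      rw [hBM c hmf, Pi.single_eq_of_ne hne]
      simp
    · rw [Pi.single_eq_of_ne h1]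
      by_cases h3 : c = Fin.rev ff
      · subst h3
        rw [hwk]; simp
      · rw [Pi.single_eq_of_ne (fun e => h3 e.symm)]
        simp
  · intro r c hrc hne0
    rw [entry h2 ff hmf w hwk, Pi.single_eq_of_ne hrc, zero_add] at hne0
    rw [InvB_iff hk]
    by_cases h3 : c = Fin.rev ff
    · subst h3
      left
      refine ⟨hrv, ?_⟩
      by_cases h1 : r = ff
      · right; right; rw [h1, hff]
      · rw [Pi.single_eq_of_ne h1, mul_zero, zero_sub, Pi.single_eq_same, one_mul, neg_ne_zero] at hne0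
        have hm : md n r := by
          by_contra hm
          exact hne0 (hw r hm)
        unfold md at hm
        omega
    · rw [Pi.single_eq_of_ne (fun e => h3 e.symm), mul_zero, sub_zero, zero_mul, sub_zero] at hne0
      have h1 : r = ff := by
        by_contra h1
        rw [Pi.single_eq_of_ne h1, mul_zero] at hne0
        exact hne0 rfl
      have hm : md n c := by
        by_contra hm
        rw [hBM c hm, zero_mul] at hne0
        exact hne0 rfl
      right
      unfold md at hm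
      refine ⟨by omega, by rw [h1, hff]⟩

end Cfsg.Agent.Lib.H49SmRankLZ
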