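import Mathlib
import Cfsg.Agent.Lib.H49SmDefs
import Cfsg.Agent.Lib.H49SmGrp
import Cfsg.Agent.Lib.H49SmQF
import Cfsg.Agent.Lib.H49SmQFn
import Cfsg.Agent.Lib.H49SmStar
import Cfsg.Agent.Lib.H49SmInv

set_option autoImplicit false

/-! Project 2549, auxiliary file for the piece `RankL`: block triangularity by duality. -/

namespace Cfsg.Agent.Lib.H49SmRankLa

open Matrix Cfsg.Agent.Lib.H49SmDefs
open Cfsg.Agent.Lib.H49SmGrp Cfsg.Agent.Lib.H49SmQF Cfsg.Agent.Lib.H49SmQFn Cfsg.Agent.Lib.H49SmStar Cfsg.Agent.Lib.H49SmInv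

variable {n : ℕ} {F : Type*} [Field F] {a b : F}

theorem col_apply_La (M : Matrix (Fin n) (Fin n) F) (i j : Fin n) : (M *ᵥ Pi.single j 1) i = M i j := by
  rw [Matrix.mulVec_single_one]; rfl

theorem BM_smul_right_La (h2 : n % 2 = 0) (c : F) (u v : Fin n → F) :
    BM n F a b u (c • v) = c • BM n F a b u v := by
  rw [← PBq_eq_BM h2, PBq_smul_right, PBq_eq_BM h2]

theorem btri_of_cols (h2 : n % 2 = 0) {k : ℕ} (hk : 2 * k + 4 = n) (g : GM n F a b) (c : F) (hc : c ≠ 0)
    (h1 : ∀ j : Fin n, (j.val < k ∨ k + 3 < j.val) → mt g *ᵥ Pi.single j 1 = Pi.single j 1)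
    (h3 : ∀ j : Fin n, j.val = k → mt g *ᵥ Pi.single j 1 = c • Pi.single j 1) : BTri (mt g) := by
  intro x y hyx hmd
  have hn2 : n / 2 = k + 2 := by omega
  have hlt : y.val < x.val := Fin.lt_def.1 hyx
  have hne : x ≠ y := (ne_of_lt hyx).symm
  by_cases hx : md n x
  · have hy : ¬ md n y := fun h => hmd ⟨hx, h⟩
    have hyk : y.val ≤ k := by
      unfold md at hx hy
      omega
    rw [← col_apply_La (mt g) x y]
    rcases Nat.lt_or_eq_of_le hyk with h | h
    · rw [h1 y (Or.inl h)]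
      exact Pi.single_eq_of_ne hne 1
    · rw [h3 y h, Pi.smul_apply, Pi.single_eq_of_ne hne, smul_zero]
  · have hrx : ¬ md n (Fin.rev x) := not_md_rev_inv h2 hx
    have e1 : mt g x y = BM n F a b (mt g *ᵥ Pi.single y 1) (Pi.single (Fin.rev x) 1) := by
      rw [BM_single_right h2 _ hrx, Fin.rev_rev, col_apply_La]
    by_cases hxk : x.val = k
    · rw [← col_apply_La (mt g) x y, h1 y (Or.inl (by omega))]
      exact Pi.single_eq_of_ne hne 1
    · have key : ∃ d : F, d ≠ 0 ∧ mt g *ᵥ Pi.single (Fin.rev x) 1 = d • Pi.single (Fin.rev x) 1 := by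
        by_cases hx3 : x.val = k + 3
        · exact ⟨c, hc, h3 _ (by rw [Fin.val_rev]; omega)⟩
        · refine ⟨1, one_ne_zero, ?_⟩
          rw [one_smul]
          apply h1
          rw [Fin.val_rev]
          unfold md at hx
          have := x.2
          omega
      obtain ⟨d, hd, hgd⟩ := key
      have e2 : (Pi.single (Fin.rev x) 1 : Fin n → F) = d⁻¹ • (mt g *ᵥ Pi.single (Fin.rev x) 1) := by
        rw [hgd, smul_smul, inv_mul_cancel₀ hd, one_smul]
      rw [e1, e2, BM_smul_right_La h2, BM_mulVec h2, BM_single_right h2 _ hrx, Fin.rev_rev,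
        Pi.single_eq_of_ne hne, smul_zero]

end Cfsg.Agent.Lib.H49SmRankLa
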