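import Mathlib
import Cfsg.Agent.Lib.H49SmRankLZ
import Cfsg.Agent.Lib.H49SmRankLN
import Cfsg.Agent.Lib.H49SmRankLa

set_option autoImplicit false

/-! Project 2549, auxiliary file for the piece `RankL`: `x z e = -(1/N) f`. -/

namespace Cfsg.Agent.Lib.H49SmRankLb

open Matrix Cfsg.Agent.Lib.H49SmDefs
open Cfsg.Agent.Lib.H49SmGrp Cfsg.Agent.Lib.H49SmQF Cfsg.Agent.Lib.H49SmQFn Cfsg.Agent.Lib.H49SmStar Cfsg.Agent.Lib.H49SmInv
open Cfsg.Agent.Lib.H49SmRankLZ Cfsg.Agent.Lib.H49SmRankLN Cfsg.Agent.Lib.H49SmRankLa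

variable {n : ℕ} {F : Type*} [Field F] {a b : F}

theorem xz_e (h2 : n % 2 = 0) {k : ℕ} (hk : 2 * k + 4 = n) {x : GM n F a b} (hx : x ∈ XX n F a b k)
    (u : Fin n → F) (hu1 : ∀ i, md n i → u i = mt x i (Fin.rev ⟨k, by omega⟩)) (hu0 : ∀ i, ¬ md n i → u i = 0)
    (hN : QM n F a b u ≠ 0) :
    mt x *ᵥ (mt (EE a b (Fin.rev ⟨k, by omega⟩) ((-(QM n F a b u)⁻¹) • u)) *ᵥ Pi.single ⟨k, by omega⟩ 1)
      = (-(QM n F a b u)⁻¹) • Pi.single (Fin.rev ⟨k, by omega⟩) 1 := by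
  obtain ⟨kk, hkk⟩ : ∃ kk : Fin n, kk = ⟨k, by omega⟩ := ⟨_, rfl⟩
  rw [← hkk] at hu1 ⊢
  obtain ⟨ff, hff⟩ : ∃ ff : Fin n, ff = Fin.rev kk := ⟨_, rfl⟩
  rw [← hff] at hu1 ⊢
  obtain ⟨N, hNd⟩ : ∃ N, N = QM n F a b u := ⟨_, rfl⟩
  rw [← hNd] at hN ⊢
  have hkv : kk.val = k := by rw [hkk]
  have hfv : ff.val = k + 3 := by rw [hff, Fin.val_rev, hkv]; omega
  have hn2 : n / 2 = k + 2 := by omega
  have hmk : ¬ md n kk := by unfold md; omega
  have hmf : ¬ md n ff := by unfold md; omega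
  have hrf : Fin.rev ff = kk := by rw [hff, Fin.rev_rev]
  have hkf : kk ≠ ff := fun e => by have := congrArg Fin.val e; omega
  obtain ⟨w, hw⟩ : ∃ w, w = (-N⁻¹) • u := ⟨_, rfl⟩
  rw [← hw]
  have hw0 : ∀ i, ¬ md n i → w i = 0 := fun i hi => by rw [hw, Pi.smul_apply, hu0 i hi, smul_zero]
  have hQw : QM n F a b w = N⁻¹ := by
    rw [hw, QM_eq, QuadraticMap.map_smul, ← QM_eq, ← hNd, smul_eq_mul]
    field_simp
  have hze : mt (EE a b ff w) *ᵥ Pi.single kk 1 = Pi.single kk 1 - N⁻¹ • Pi.single ff 1 - w := by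
    rw [EE_apply h2 ff hmf w (by rw [hrf]; exact hw0 _ hmk), hrf, Pi.single_eq_same,
      BM_single_left h2 kk hmk, ← hff, hw0 _ hmf, hQw, mul_one, zero_sub, one_smul, neg_smul, sub_eq_add_neg]
    abel
  have hoff : ∀ i j : Fin n, i ≠ j → ¬ InvB n k i j → mt x i j = 0 := by
    intro i j hij hI
    by_contra hne
    exact hI (hx.2 i j hij hne)
  have hxw : ∀ i : Fin n, i ≠ kk → (mt x *ᵥ w) i = w i := by
    intro i hi
    rw [Matrix.mulVec, dotProduct, Finset.sum_eq_single i]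
    · rw [hx.1 i, one_mul]
    · intro j _ hji
      by_cases hj : md n j
      · rw [hoff i j hji.symm, zero_mul]
        rw [InvB_iff hk]
        have : i.val ≠ k := fun e => hi (Fin.ext (by omega))
        unfold md at hj
        omega
      · rw [hw0 j hj, mul_zero]
    · intro h; exact absurd (Finset.mem_univ i) h
  obtain ⟨v, hv⟩ : ∃ v, v = mt x *ᵥ (mt (EE a b ff w) *ᵥ Pi.single kk 1) := ⟨_, rfl⟩
  rw [← hv]
  have hvi : ∀ i, i ≠ kk → v i = mt x i kk - N⁻¹ * mt x i ff - w i := by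
    intro i hi
    rw [hv, hze, Matrix.mulVec_sub, Matrix.mulVec_sub, Matrix.mulVec_smul, Pi.sub_apply, Pi.sub_apply,
      Pi.smul_apply, col_apply_La, col_apply_La, hxw i hi, smul_eq_mul]
  have hv0 : ∀ i : Fin n, i.val ≠ k → i.val ≠ k + 3 → v i = 0 := by
    intro i h1 h3
    have hik : i ≠ kk := fun e => h1 (by rw [e, hkv])
    have hif : i ≠ ff := fun e => h3 (by rw [e, hfv])
    rw [hvi i hik, hoff i kk hik (by rw [InvB_iff hk]; omega)]
    by_cases hi : md n i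
    · rw [← hu1 i hi, hw, Pi.smul_apply, smul_eq_mul]; ring
    · rw [hw0 i hi, hoff i ff hif (by rw [InvB_iff hk]; unfold md at hi; omega)]; ring
  have hvf : v ff = -N⁻¹ := by
    rw [hvi ff hkf.symm, hoff ff kk hkf.symm (by rw [InvB_iff hk]; omega), hx.1 ff, hw0 _ hmf]; ring
  have hQv : QM n F a b v = 0 := by
    rw [hv, QM_mulVec, QM_mulVec, QM_single h2 kk hmk]
  have hvk : v kk = 0 := by
    rw [QM_supp hk v hv0, ← hkk, ← hff, hvf] at hQv
    rcases mul_eq_zero.1 hQv with h | h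
    · exact h
    · exact absurd (neg_eq_zero.1 h) (inv_ne_zero hN)
  funext i
  rw [Pi.smul_apply, smul_eq_mul]
  by_cases hif : i = ff
  · rw [hif, hvf, Pi.single_eq_same, mul_one]
  · rw [Pi.single_eq_of_ne hif, mul_zero]
    by_cases hik : i = kk
    · rw [hik, hvk]
    · exact hv0 i (fun e => hik (Fin.ext (by omega))) (fun e => hif (Fin.ext (by omega)))

end Cfsg.Agent.Lib.H49SmRankLb
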