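import Mathlib
import Cfsg.Agent.Lib.H49SmDefs
import Cfsg.Agent.Lib.H49SmQF
import Cfsg.Agent.Lib.H49SmStar

set_option autoImplicit false

/-! Project 2549, sub-piece of `RankL`: the entries of an element of `XX n F a b k` for the last root. -/

namespace Cfsg.Agent.Lib.H49SmRankLx

open Matrix Cfsg.Agent.Lib.H49SmDefs
open Cfsg.Agent.Lib.H49SmQF Cfsg.Agent.Lib.H49SmStar

variable {n : ℕ} {F : Type*} [Field F] {a b : F}

theorem supp {k : ℕ} (hk : 2 * k + 4 = n) {r c : Fin n} (h : InvB n k r c) :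
    (r.val = k ∧ k < c.val ∧ c.val ≤ k + 3) ∨ ((r.val = k + 1 ∨ r.val = k + 2) ∧ c.val = k + 3) := by
  unfold InvB sgB at h
  rw [if_neg (by omega), dif_pos hk] at h
  obtain ⟨h1, h2⟩ := h
  rw [Equiv.swap_apply_def, Equiv.swap_apply_def] at h2
  have hr := r.2
  have hc := c.2
  rw [Fin.lt_def] at h1
  split_ifs at h2 with e1 e2 e3 e4 e5 e6 e7 e8 <;>
    simp only [Fin.ext_iff, Fin.val_rev, Fin.lt_def] at * <;> omega

theorem entry_zero {k : ℕ} (hk : 2 * k + 4 = n) {x : GM n F a b} (hx : x ∈ XX n F a b k) {r c : Fin n}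
    (hrc : r ≠ c)
    (h : ¬ ((r.val = k ∧ k < c.val ∧ c.val ≤ k + 3) ∨ ((r.val = k + 1 ∨ r.val = k + 2) ∧ c.val = k + 3))) :
    mt x r c = 0 := by
  by_contra h0
  exact h (supp hk (hx.2 r c hrc h0))

theorem entries (h2 : n % 2 = 0) {k : ℕ} (hk : 2 * k + 4 = n) {x : GM n F a b} (hx : x ∈ XX n F a b k)
    (K K1 K2 K3 : Fin n) (hK : K.val = k) (hK1 : K1.val = k + 1) (hK2 : K2.val = k + 2) (hK3 : K3.val = k + 3) :
    mt x K K3 = -((mt x K1 K3) ^ 2 + a * mt x K1 K3 * mt x K2 K3 + b * (mt x K2 K3) ^ 2) ∧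
    mt x K K1 = -(2 * mt x K1 K3 + a * mt x K2 K3) ∧
    mt x K K2 = -(2 * b * mt x K2 K3 + a * mt x K1 K3) := by
  have hmd3 : ¬ md n K3 := by unfold md; omega
  have rK : Fin.rev K = K3 := by apply Fin.ext; rw [Fin.val_rev]; omega
  have rK1 : Fin.rev K1 = K2 := by apply Fin.ext; rw [Fin.val_rev]; omega
  have rK2 : Fin.rev K2 = K1 := by apply Fin.ext; rw [Fin.val_rev]; omega
  have rK3 : Fin.rev K3 = K := by apply Fin.ext; rw [Fin.val_rev]; omega
  have d3 : mt x K3 K3 = 1 := hx.1 K3
  have d1 : mt x K1 K1 = 1 := hx.1 K1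
  have d2 : mt x K2 K2 = 1 := hx.1 K2
  have hKK1 : K ≠ K1 := by intro e; rw [Fin.ext_iff] at e; omega
  have hKK2 : K ≠ K2 := by intro e; rw [Fin.ext_iff] at e; omega
  refine ⟨?_, ?_, ?_⟩
  · have h := QM_mulVec (a := a) (b := b) x (Pi.single K3 1)
    rw [QM_single h2 K3 hmd3, Matrix.mulVec_single_one] at h
    unfold QM at h
    rw [Finset.sum_eq_add K K1 hKK1 ?_ (by simp) (by simp)] at h
    · rw [if_pos (by omega), if_neg (by omega), if_pos (by omega)] at h
      simp only [Matrix.col_apply, rK, rK1, d3] at h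
      linear_combination h
    · intro c _ hc
      have hcK : c.val ≠ k := fun e => hc.1 (Fin.ext (by omega))
      have hcK1 : c.val ≠ k + 1 := fun e => hc.2 (Fin.ext (by omega))
      split_ifs with e1 e2
      · have : mt x c K3 = 0 := entry_zero hk hx (by intro e; rw [Fin.ext_iff] at e; omega) (by omega)
        simp only [Matrix.col_apply, this, zero_mul]
      · omega
      · rfl
  · have h := BM_mulVec (a := a) (b := b) h2 x (Pi.single K1 1) (Pi.single K3 1)
    rw [BM_single_right h2 K3 hmd3, Matrix.mulVec_single_one, Matrix.mulVec_single_one, rK3,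
      Pi.single_eq_of_ne hKK1] at h
    unfold BM at h
    rw [Finset.sum_eq_add K K1 hKK1 ?_ (by simp) (by simp)] at h
    · rw [if_neg (by omega), if_neg (by omega), if_pos (by omega)] at h
      simp only [Matrix.col_apply, rK, rK1, d3, d1] at h
      linear_combination h
    · intro c _ hc
      have hcK : c.val ≠ k := fun e => hc.1 (Fin.ext (by omega))
      have hcK1 : c.val ≠ k + 1 := fun e => hc.2 (Fin.ext (by omega))
      have : mt x c K1 = 0 := entry_zero hk hx (by intro e; rw [Fin.ext_iff] at e; omega) (by omega)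
      split_ifs <;> simp only [Matrix.col_apply, this, zero_mul, mul_zero, add_zero]
  · have h := BM_mulVec (a := a) (b := b) h2 x (Pi.single K2 1) (Pi.single K3 1)
    rw [BM_single_right h2 K3 hmd3, Matrix.mulVec_single_one, Matrix.mulVec_single_one, rK3,
      Pi.single_eq_of_ne hKK2] at h
    unfold BM at h
    rw [Finset.sum_eq_add K K2 hKK2 ?_ (by simp) (by simp)] at h
    · rw [if_neg (by omega), if_neg (by omega), if_neg (by omega), if_pos (by omega)] at h
      simp only [Matrix.col_apply, rK, rK2, d3, d2] at h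
      linear_combination h
    · intro c _ hc
      have hcK : c.val ≠ k := fun e => hc.1 (Fin.ext (by omega))
      have hcK1 : c.val ≠ k + 2 := fun e => hc.2 (Fin.ext (by omega))
      have : mt x c K2 = 0 := entry_zero hk hx (by intro e; rw [Fin.ext_iff] at e; omega) (by omega)
      split_ifs <;> simp only [Matrix.col_apply, this, zero_mul, mul_zero, add_zero]

end Cfsg.Agent.Lib.H49SmRankLx
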