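import Mathlib
import Cfsg.Agent.Lib.H49SmDefs
import Cfsg.Agent.Lib.H49SmQF
import Cfsg.Agent.Lib.H49SmStar
import Cfsg.Agent.Lib.H49SmPerm
import Cfsg.Agent.Lib.H49SmRankLx

set_option autoImplicit false

/-! Project 2549, sub-piece of `RankL`: the columns of `s x z`. -/

namespace Cfsg.Agent.Lib.H49SmRankLc

open Matrix Cfsg.Agent.Lib.H49SmDefs
open Cfsg.Agent.Lib.H49SmQF Cfsg.Agent.Lib.H49SmStar Cfsg.Agent.Lib.H49SmPerm Cfsg.Agent.Lib.H49SmRankLx

variable {n : ℕ} {F : Type*} [Field F] {a b : F}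

theorem pMat_mulVec (π : Equiv.Perm (Fin n)) (v : Fin n → F) (r : Fin n) : (pMat F π *ᵥ v) r = v (π.symm r) := by
  simp only [pMat, Matrix.mulVec, dotProduct]
  rw [Finset.sum_eq_single (π.symm r)]
  · simp
  · intro y _ hy
    rw [if_neg, zero_mul]
    intro e
    apply hy
    rw [e]
    simp
  · simp

theorem cols (h2 : n % 2 = 0) (hab : Ani a b) {k : ℕ} (hk : 2 * k + 4 = n) {x : GM n F a b}
    (hx : x ∈ XX n F a b k) (hx1 : x ≠ 1) :
    ∃ w : Fin n → F, (∀ i, ¬ md n i → w i = 0) ∧ ∃ c : F, c ≠ 0 ∧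
      (∀ j : Fin n, (j.val < k ∨ k + 3 < j.val) →
        mt (pm n F a b (sgB n k) * x * EE a b (Fin.rev ⟨k, by omega⟩) w) *ᵥ Pi.single j 1 = Pi.single j 1) ∧
      (∀ j : Fin n, j.val = k →
        mt (pm n F a b (sgB n k) * x * EE a b (Fin.rev ⟨k, by omega⟩) w) *ᵥ Pi.single j 1 = c • Pi.single j 1) := by
  set K : Fin n := ⟨k, by omega⟩ with hKd
  set K1 : Fin n := ⟨k + 1, by omega⟩ with hK1d
  set K2 : Fin n := ⟨k + 2, by omega⟩ with hK2d
  set K3 : Fin n := ⟨k + 3, by omega⟩ with hK3d
  have rK : Fin.rev K = K3 := by apply Fin.ext; rw [Fin.val_rev]; simp only [hKd, hK3d]; omega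
  have rK3 : Fin.rev K3 = K := by rw [← rK, Fin.rev_rev]
  rw [rK]
  obtain ⟨E3, E1, E2⟩ := entries (a := a) (b := b) h2 hk hx K K1 K2 K3 rfl rfl rfl rfl
  set u1 := mt x K1 K3 with hu1
  set u2 := mt x K2 K3 with hu2
  set q := u1 ^ 2 + a * u1 * u2 + b * u2 ^ 2 with hq
  have hq0 : q ≠ 0 := by
    intro h0
    obtain ⟨z1, z2⟩ := hab u1 u2 h0
    apply hx1
    apply mt_inj
    rw [mt_one]
    ext r c
    by_cases hrc : r = c
    · rw [hrc, Matrix.one_apply_eq]; exact hx.1 c
    · rw [Matrix.one_apply_ne hrc]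
      by_contra hne
      rcases supp hk (hx.2 r c hrc hne) with ⟨e1, e2, e3⟩ | ⟨e1, e2⟩
      · have hr : r = K := Fin.ext e1
        have hc : c = K1 ∨ c = K2 ∨ c = K3 := by
          have : c.val = k + 1 ∨ c.val = k + 2 ∨ c.val = k + 3 := by omega
          rcases this with h | h | h
          · exact Or.inl (Fin.ext h)
          · exact Or.inr (Or.inl (Fin.ext h))
          · exact Or.inr (Or.inr (Fin.ext h))
        rcases hc with h | h | h
        · apply hne; rw [hr, h, E1, z1, z2]; ring
        · apply hne; rw [hr, h, E2, z1, z2]; ring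
        · apply hne; rw [hr, h, E3, h0]; ring
      · have hc : c = K3 := Fin.ext e2
        rcases e1 with h | h
        · apply hne; rw [hc, show r = K1 from Fin.ext h]; exact z1
        · apply hne; rw [hc, show r = K2 from Fin.ext h]; exact z2
  have hs : sgB n k = Equiv.swap K K3 := by
    unfold sgB
    rw [if_neg (by omega), dif_pos hk, rK]
  have hms : mt (pm n F a b (sgB n k)) = pMat F (Equiv.swap K K3) := by
    rw [mt_pm h2 (Adm_sgB h2 k), hs]
  have hmd3 : ¬ md n K3 := by unfold md; simp only [hK3d]; omega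
  have hmdK : ¬ md n K := by unfold md; simp only [hKd]; omega
  have n01 : K ≠ K1 := by intro e; rw [Fin.ext_iff] at e; simp only [hKd, hK1d] at e; omega
  have n02 : K ≠ K2 := by intro e; rw [Fin.ext_iff] at e; simp only [hKd, hK2d] at e; omega
  have n03 : K ≠ K3 := by intro e; rw [Fin.ext_iff] at e; simp only [hKd, hK3d] at e; omega
  have n12 : K1 ≠ K2 := by intro e; rw [Fin.ext_iff] at e; simp only [hK1d, hK2d] at e; omega
  have n13 : K1 ≠ K3 := by intro e; rw [Fin.ext_iff] at e; simp only [hK1d, hK3d] at e; omega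
  have n23 : K2 ≠ K3 := by intro e; rw [Fin.ext_iff] at e; simp only [hK2d, hK3d] at e; omega
  set w : Fin n → F := fun i => if i = K1 then -u1 / q else if i = K2 then -u2 / q else 0 with hw
  have wK1 : w K1 = -u1 / q := by simp only [hw, if_true]
  have wK2 : w K2 = -u2 / q := by simp only [hw]; rw [if_neg n12.symm]; exact if_pos trivial
  have wz : ∀ i, i ≠ K1 → i ≠ K2 → w i = 0 := by
    intro i h1 h2'
    simp only [hw]; rw [if_neg h1, if_neg h2']
  have rK1 : Fin.rev K1 = K2 := by apply Fin.ext; rw [Fin.val_rev]; simp only [hK1d, hK2d]; omega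
  have hQw : QM n F a b w = 1 / q := by
    unfold QM
    rw [Finset.sum_eq_single K1]
    · rw [if_neg (by simp only [hK1d]; omega), if_pos (by simp only [hK1d]; omega), rK1, wK1, wK2]
      field_simp
      rw [hq]; ring
    · intro c _ hc
      have hcv : c.val ≠ k + 1 := fun e => hc (Fin.ext e)
      split_ifs with e1 e2
      · rw [wz c hc (by intro e; rw [Fin.ext_iff] at e; simp only [hK2d] at e; omega), zero_mul]
      · omega
      · rfl
    · simp
  refine ⟨w, ?_, -(1 / q), by simpa using hq0, ?_, ?_⟩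
  · intro i hi
    apply wz
    · intro e; apply hi; left; rw [e]; simp only [hK1d]; omega
    · intro e; apply hi; right; rw [e]; simp only [hK2d]; omega
  · intro j hj
    have hjK : K ≠ j := by intro e; rw [Fin.ext_iff] at e; simp only [hKd] at e; omega
    have hjK3 : K3 ≠ j := by intro e; rw [Fin.ext_iff] at e; simp only [hK3d] at e; omega
    have hjm : ¬ md n j := by unfold md; omega
    have hz : mt (EE a b K3 w) *ᵥ Pi.single j 1 = Pi.single j 1 := by
      rw [EE_apply h2 K3 hmd3 w (by rw [rK3]; exact wz K n01 n02), rK3, Pi.single_eq_of_ne hjK,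
        BM_single_left h2 j hjm, wz (Fin.rev j)]
      · simp
      · intro e; rw [Fin.ext_iff, Fin.val_rev] at e; simp only [hK1d] at e; omega
      · intro e; rw [Fin.ext_iff, Fin.val_rev] at e; simp only [hK2d] at e; omega
    have hxj : mt x *ᵥ Pi.single j 1 = Pi.single j 1 := by
      rw [Matrix.mulVec_single_one]
      ext r
      rw [Matrix.col_apply]
      by_cases hr : r = j
      · rw [hr, Pi.single_eq_same]; exact hx.1 j
      · rw [Pi.single_eq_of_ne hr]
        exact entry_zero hk hx hr (by omega)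
    rw [mt_mul, mt_mul, ← Matrix.mulVec_mulVec, ← Matrix.mulVec_mulVec, hz, hxj, hms]
    ext r
    rw [pMat_mulVec, Equiv.symm_swap, Equiv.swap_apply_def]
    split_ifs with e1 e2
    · rw [e1, Pi.single_eq_of_ne hjK3, Pi.single_eq_of_ne hjK]
    · rw [e2, Pi.single_eq_of_ne hjK3, Pi.single_eq_of_ne hjK]
    · rfl
  · intro j hj
    have hjK : j = K := Fin.ext hj
    rw [hjK]
    have hz : mt (EE a b K3 w) *ᵥ Pi.single K 1 =
        Pi.single K 1 + (-(1 / q)) • Pi.single K3 1 + (u1 / q) • Pi.single K1 1 + (u2 / q) • Pi.single K2 1 := by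
      rw [EE_apply h2 K3 hmd3 w (by rw [rK3]; exact wz K n01 n02), rK3, Pi.single_eq_same,
        BM_single_left h2 K hmdK, rK, wz K3 n13.symm n23.symm, hQw]
      ext r
      simp only [Pi.add_apply, Pi.sub_apply, Pi.smul_apply, smul_eq_mul]
      by_cases r1 : r = K1
      · rw [r1, wK1, Pi.single_eq_of_ne n01.symm, Pi.single_eq_of_ne n13, Pi.single_eq_same,
          Pi.single_eq_of_ne n12]
        ring
      · by_cases r2 : r = K2
        · rw [r2, wK2, Pi.single_eq_of_ne n02.symm, Pi.single_eq_of_ne n23, Pi.single_eq_same,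
            Pi.single_eq_of_ne n12.symm]
          ring
        · rw [wz r r1 r2, Pi.single_eq_of_ne r1, Pi.single_eq_of_ne r2]
          ring
    rw [mt_mul, mt_mul, ← Matrix.mulVec_mulVec, ← Matrix.mulVec_mulVec, hz, hms]
    simp only [Matrix.mulVec_add, Matrix.mulVec_smul, Matrix.mulVec_single_one]
    ext r
    simp only [Pi.add_apply, Pi.smul_apply, smul_eq_mul, pMat_mulVec, Equiv.symm_swap, Matrix.col_apply]
    rw [Equiv.swap_apply_def]
    have d0 : mt x K K = 1 := hx.1 K
    have d1 : mt x K1 K1 = 1 := hx.1 K1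
    have d2 : mt x K2 K2 = 1 := hx.1 K2
    have d3 : mt x K3 K3 = 1 := hx.1 K3
    split_ifs with e1 e2
    · rw [e1, Pi.single_eq_same, d3,
        entry_zero hk hx n03.symm (by simp only [hKd, hK3d]; omega),
        entry_zero hk hx n13.symm (by simp only [hK1d, hK3d]; omega),
        entry_zero hk hx n23.symm (by simp only [hK2d, hK3d]; omega)]
      ring
    · rw [e2, Pi.single_eq_of_ne n03.symm, d0, E3, E1, E2]
      field_simp
      rw [hq]; ring
    · rw [Pi.single_eq_of_ne e1]
      by_cases r1 : r = K1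
      · rw [r1, d1, ← hu1, entry_zero hk hx n01.symm (by simp only [hKd, hK1d]; omega),
          entry_zero hk hx n12 (by simp only [hK1d, hK2d]; omega)]
        ring
      · by_cases r2 : r = K2
        · rw [r2, d2, ← hu2, entry_zero hk hx n02.symm (by simp only [hKd, hK2d]; omega),
            entry_zero hk hx n12.symm (by simp only [hK1d, hK2d]; omega)]
          ring
        · have v0 : r.val ≠ k := fun e => e1 (Fin.ext e)
          have v1 : r.val ≠ k + 1 := fun e => r1 (Fin.ext e)
          have v2 : r.val ≠ k + 2 := fun e => r2 (Fin.ext e)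
          rw [entry_zero hk hx e1 (by omega), entry_zero hk hx e2 (by omega),
            entry_zero hk hx r1 (by omega), entry_zero hk hx r2 (by omega)]
          ring

end Cfsg.Agent.Lib.H49SmRankLc
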