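import Mathlib
import Cfsg.Agent.Lib.H49SmDefs
import Cfsg.Agent.Lib.H49SmGrp
import Cfsg.Agent.Lib.H49SmQF
import Cfsg.Agent.Lib.H49SmQFn
import Cfsg.Agent.Lib.H49SmStar
import Cfsg.Agent.Lib.H49SmInv
import Cfsg.Agent.Lib.H49SmMem
import Cfsg.Agent.Lib.Helper49Rank

set_option autoImplicit false

/-! Project 2549 (Steinberg character of `POmega-_{2m+2}(q)`), piece `TK`. -/

namespace Cfsg.Agent.Lib.H49SmTK

open Matrix Cfsg.Agent.Lib.H49SmDefs
open Cfsg.Agent.Lib.H49SuDefs (sgm Inv)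
open Cfsg.Agent.Lib.H49SmGrp Cfsg.Agent.Lib.H49SmQF Cfsg.Agent.Lib.H49SmQFn Cfsg.Agent.Lib.H49SmStar Cfsg.Agent.Lib.H49SmInv Cfsg.Agent.Lib.H49SmMem

variable {n : ℕ} {F : Type*} [Field F] {a b : F}

theorem tk_mt_pow (g : GM n F a b) (k : ℕ) : mt (g ^ k) = (mt g) ^ k := by
  induction k with
  | zero => rw [pow_zero, pow_zero, mt_one]
  | succ k ih => rw [pow_succ, mt_mul, ih, pow_succ]

theorem tk_entry {M : Matrix (Fin n) (Fin n) F} (hM : BDg M) (h1 : ∀ x, ¬ md n x → M x x = 1)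
    (x y : Fin n) (hxy : ¬ (md n x ∧ md n y)) : (M - 1) x y = 0 := by
  rw [Matrix.sub_apply]
  by_cases h : x = y
  · subst h
    rw [h1 x (fun hx => hxy ⟨hx, hx⟩), Matrix.one_apply_eq, sub_self]
  · rw [hM x y h hxy, Matrix.one_apply_ne h, sub_self]

theorem tk_supp {M : Matrix (Fin n) (Fin n) F} (hM : BDg M) (h1 : ∀ x, ¬ md n x → M x x = 1)
    (v : Fin n → F) (x : Fin n) (hx : ¬ md n x) : ((M - 1) *ᵥ v) x = 0 := by
  show ∑ z, (M - 1) x z * v z = 0
  apply Finset.sum_eq_zero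
  intro z _
  rw [tk_entry hM h1 x z (fun h => hx h.1), zero_mul]

theorem tk_QM (h2 : n % 2 = 0) (hn : 2 ≤ n) (u : Fin n → F) (hu : ∀ x, ¬ md n x → u x = 0) :
    QM n F a b u = u ⟨n / 2 - 1, by omega⟩ ^ 2 + a * u ⟨n / 2 - 1, by omega⟩ * u ⟨n / 2, by omega⟩
      + b * u ⟨n / 2, by omega⟩ ^ 2 := by
  unfold QM
  rw [Finset.sum_eq_single (⟨n / 2 - 1, by omega⟩ : Fin n)]
  · have hrev : Fin.rev (⟨n / 2 - 1, by omega⟩ : Fin n) = ⟨n / 2, by omega⟩ := by
      apply Fin.ext
      rw [Fin.val_rev]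
      show n - (n / 2 - 1 + 1) = n / 2
      omega
    rw [if_neg (by show ¬ (n / 2 - 1 + 1 < n / 2); omega),
      if_pos (by show n / 2 - 1 + 1 = n / 2; omega), hrev]
  · intro i _ hi
    by_cases h1 : i.val + 1 < n / 2
    · rw [if_pos h1, hu i (by unfold md; omega), zero_mul]
    · rw [if_neg h1, if_neg]
      intro h3
      apply hi
      apply Fin.ext
      show i.val = n / 2 - 1
      omega
  · intro h
    exact absurd (Finset.mem_univ _) h

theorem tk_key (h2 : n % 2 = 0) (hn : 2 ≤ n) (hab : Ani a b) (h20 : (2 : F) ≠ 0) (t : GM n F a b)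
    (hs : ∀ (v : Fin n → F) (x : Fin n), ¬ md n x → ((mt t - 1) *ᵥ v) x = 0) (y : Fin n → F)
    (hu : (mt t - 1) *ᵥ ((mt t - 1) *ᵥ y) = 0) : (mt t - 1) *ᵥ y = 0 := by
  obtain ⟨u, hudef⟩ : ∃ u, u = (mt t - 1) *ᵥ y := ⟨_, rfl⟩
  rw [← hudef] at hu ⊢
  have hMy : mt t *ᵥ y = y + u := by
    rw [hudef, Matrix.sub_mulVec, Matrix.one_mulVec]; abel
  have hMu : mt t *ᵥ u = u := by
    rw [Matrix.sub_mulVec, Matrix.one_mulVec, sub_eq_zero] at hu
    exact hu
  have hB := BM_mulVec (a := a) (b := b) h2 t y u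
  rw [hMy, hMu, ← polar_QF h2, ← polar_QF h2, QuadraticMap.polar_add_left,
    QuadraticMap.polar_self] at hB
  have h3 : (2 : F) * (QF n F a b) u = 0 := by
    have h4 := add_eq_left.mp hB
    simpa [two_smul, two_mul] using h4
  have hQ : QM n F a b u = 0 := by
    rcases mul_eq_zero.mp h3 with h | h
    · exact absurd h h20
    · exact h
  have hsu : ∀ x, ¬ md n x → u x = 0 := fun x hx => by rw [hudef]; exact hs y x hx
  rw [tk_QM h2 hn u hsu] at hQ
  obtain ⟨e1, e2⟩ := hab _ _ hQ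
  ext x
  by_cases hx : md n x
  · rcases hx with hx | hx
    · have hx' : x = ⟨n / 2 - 1, by omega⟩ := Fin.ext (by show x.val = n / 2 - 1; omega)
      rw [hx']; exact e1
    · have hx' : x = ⟨n / 2, by omega⟩ := Fin.ext hx
      rw [hx']; exact e2
  · exact hsu x hx

theorem tk_desc {N : Matrix (Fin n) (Fin n) F}
    (key : ∀ y : Fin n → F, N *ᵥ (N *ᵥ y) = 0 → N *ᵥ y = 0) :
    ∀ (k : ℕ) (v : Fin n → F), (N ^ (k + 1)) *ᵥ v = 0 → N *ᵥ v = 0 := by
  intro k
  induction k with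
  | zero => intro v h; simpa using h
  | succ k ih =>
    intro v h
    have e : N * N * N ^ k = N ^ (k + 1 + 1) := by rw [pow_succ', pow_succ', mul_assoc]
    have h1 : N *ᵥ (N *ᵥ ((N ^ k) *ᵥ v)) = 0 := by
      rw [Matrix.mulVec_mulVec, Matrix.mulVec_mulVec, e]; exact h
    have h2 := key _ h1
    apply ih v
    rw [pow_succ', ← Matrix.mulVec_mulVec]; exact h2

theorem tk_diag (p : ℕ) [Fact p.Prime] [CharP F p] {M : Matrix (Fin n) (Fin n) F} (hM : BDg M)
    (hp : M ^ p = 1) (x : Fin n) (hx : ¬ md n x) : M x x = 1 := by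
  have hcol : M *ᵥ Pi.single x 1 = M x x • Pi.single x 1 := by
    ext y
    have h0 : (M *ᵥ Pi.single x 1) y = M y x := by simp
    rw [h0]
    by_cases hy : y = x
    · subst hy; simp
    · simp [hy, hM y x hy (fun h => hx h.2)]
  have hpow : ∀ k : ℕ, (M ^ k) *ᵥ Pi.single x 1 = (M x x) ^ k • Pi.single x 1 := by
    intro k
    induction k with
    | zero => rw [pow_zero, pow_zero, Matrix.one_mulVec, one_smul]
    | succ k ih =>
      rw [pow_succ, ← Matrix.mulVec_mulVec, hcol, Matrix.mulVec_smul, ih, smul_smul, pow_succ,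
        mul_comm]
  have h1 := congrFun (hpow p) x
  rw [hp] at h1
  simp at h1
  have h2 : (M x x - 1) ^ p = 0 := by rw [sub_pow_char, one_pow, ← h1, sub_self]
  exact sub_eq_zero.mp ((pow_eq_zero_iff (Fact.out : p.Prime).ne_zero).mp h2)

theorem tk_zero_of_mulVec {N : Matrix (Fin n) (Fin n) F} (h : ∀ v : Fin n → F, N *ᵥ v = 0) :
    N = 0 := by
  ext x y
  have h1 := congrFun (h (Pi.single y 1)) x
  simpa using h1

theorem tk_rank_le (h2 : n % 2 = 0) (hn : 2 ≤ n) {N : Matrix (Fin n) (Fin n) F}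
    (hN : ∀ x y, ¬ (md n x ∧ md n y) → N x y = 0) (hNN : N * N = 0) : N.rank ≤ 1 := by
  obtain ⟨c1, hc1⟩ : ∃ c1 : Fin n, c1 = ⟨n / 2 - 1, by omega⟩ := ⟨_, rfl⟩
  obtain ⟨c2, hc2⟩ : ∃ c2 : Fin n, c2 = ⟨n / 2, by omega⟩ := ⟨_, rfl⟩
  have hne : c1 ≠ c2 := by
    rw [hc1, hc2]; intro h
    have h0 := congrArg Fin.val h
    have h00 : n / 2 - 1 = n / 2 := h0
    omega
  have hmd : ∀ z : Fin n, z ≠ c1 → z ≠ c2 → ¬ md n z := by
    intro z h1 h3 hz
    rcases hz with hz | hz
    · exact h1 (by rw [hc1]; exact Fin.ext (by show z.val = n / 2 - 1; omega))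
    · exact h3 (by rw [hc2]; exact Fin.ext hz)
  have hmul : ∀ i j, N i c1 * N c1 j + N i c2 * N c2 j = 0 := by
    intro i j
    have h0 : (N * N) i j = 0 := by rw [hNN]; rfl
    rw [Matrix.mul_apply, Finset.sum_eq_add c1 c2 hne
      (fun z _ hz => by rw [hN i z (fun h => hmd z hz.1 hz.2 h.2), zero_mul])
      (fun h => absurd (Finset.mem_univ _) h) (fun h => absurd (Finset.mem_univ _) h)] at h0
    exact h0
  have hrow : ∀ x, x ≠ c1 → x ≠ c2 → ∀ y, N x y = 0 :=
    fun x h1 h3 y => hN x y (fun h => hmd x h1 h3 h.1)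
  have hcolz : ∀ y, y ≠ c1 → y ≠ c2 → ∀ x, N x y = 0 :=
    fun y h1 h3 x => hN x y (fun h => hmd y h1 h3 h.2)
  by_cases hβ : N c1 c2 = 0
  · have hα : N c1 c1 = 0 := by
      have := hmul c1 c1
      rw [hβ, zero_mul, add_zero] at this
      exact mul_self_eq_zero.mp this
    have e : N = Matrix.vecMulVec (Pi.single c2 1) (N c2) := by
      ext x y
      rw [Matrix.vecMulVec_apply]
      by_cases hx2 : x = c2
      · subst hx2; simp
      · rw [Pi.single_eq_of_ne hx2, zero_mul]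
        by_cases hx1 : x = c1
        · subst hx1
          by_cases hy1 : y = x
          · rw [hy1]; exact hα
          · by_cases hy2 : y = c2
            · rw [hy2]; exact hβ
            · exact hcolz y hy1 hy2 x
        · exact hrow x hx1 hx2 y
    rw [e]
    exact Matrix.rank_vecMulVec_le _ _
  · have hδ : N c2 c2 = - N c1 c1 := by
      have := hmul c1 c2
      have h3 : N c1 c2 * (N c1 c1 + N c2 c2) = 0 := by linear_combination this
      rcases mul_eq_zero.mp h3 with h | h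
      · exact absurd h hβ
      · linear_combination h
    have hγ : N c2 c1 = (- N c1 c1 / N c1 c2) * N c1 c1 := by
      have := hmul c1 c1
      field_simp
      linear_combination this
    have e : N = Matrix.vecMulVec
        (fun x => if x = c1 then 1 else if x = c2 then - N c1 c1 / N c1 c2 else 0) (N c1) := by
      ext x y
      rw [Matrix.vecMulVec_apply]
      by_cases hx1 : x = c1
      · subst hx1; simp
      · rw [if_neg hx1]
        by_cases hx2 : x = c2
        · subst hx2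
          rw [if_pos rfl]
          by_cases hy1 : y = c1
          · rw [hy1]; exact hγ
          · by_cases hy2 : y = x
            · rw [hy2, hδ]; field_simp
            · rw [hcolz y hy1 hy2 x, hcolz y hy1 hy2 c1, mul_zero]
        · rw [if_neg hx2, zero_mul]
          exact hrow x hx1 hx2 y
    rw [e]
    exact Matrix.rank_vecMulVec_le _ _

theorem tk_rank_zero {N : Matrix (Fin n) (Fin n) F} (h : N.rank = 0) : N = 0 := by
  unfold Matrix.rank at h
  rw [Submodule.finrank_eq_zero, LinearMap.range_eq_bot] at h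
  apply tk_zero_of_mulVec
  intro v
  have := LinearMap.congr_fun h v
  simpa using this

theorem tk_one [Fintype F] (p : ℕ) [Fact p.Prime] [CharP F p] (h2 : n % 2 = 0) (hn : 6 ≤ n)
    (hab : Ani a b) (t : GM n F a b) (hT : t ∈ TT n F a b) (hC : t ∈ commutator (GM n F a b))
    (htp : t ^ p = 1) : t = 1 := by
  have hne : Nonempty (Fin n) := ⟨⟨0, by omega⟩⟩
  have hM : BDg (mt t) := hT.1
  have hMp : (mt t) ^ p = 1 := by rw [← tk_mt_pow, htp, mt_one]
  have h1 := tk_diag p hM hMp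
  have hs := tk_supp hM h1
  have hNp : (mt t - 1) ^ p = 0 := by
    rw [sub_pow_char_of_commute p (Commute.one_right _), hMp, one_pow, sub_self]
  have hfin : mt t - 1 = 0 → t = 1 := by
    intro h
    apply mt_inj
    rw [mt_one]
    exact sub_eq_zero.mp h
  apply hfin
  by_cases hp2 : p = 2
  · subst hp2
    have hNN : (mt t - 1) * (mt t - 1) = 0 := by rw [← pow_two]; exact hNp
    have hr := tk_rank_le h2 (by omega) (tk_entry hM h1) hNN
    have hev := (Cfsg.Agent.Lib.Helper49Rank.mem_Omega_iff_even_rank (QF n F a b)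
      (QF_nondeg h2 (by omega) hab) (Or.inr (by simp; omega)) t).mp hC
    apply tk_rank_zero
    have hev' : Even (mt t - 1).rank := hev
    rcases hev' with ⟨r, hr'⟩
    omega
  · have h20 : (2 : F) ≠ 0 := by
      intro h
      have h3 : ((2 : ℕ) : F) = 0 := by exact_mod_cast h
      rw [CharP.cast_eq_zero_iff F p] at h3
      have := (Nat.prime_dvd_prime_iff_eq (Fact.out : p.Prime) Nat.prime_two).mp h3
      exact hp2 this
    apply tk_zero_of_mulVec
    intro v
    have hpos : p - 1 + 1 = p := Nat.sub_add_cancel (Fact.out : p.Prime).one_le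
    apply tk_desc (tk_key h2 (by omega) hab h20 t hs) (p - 1) v
    rw [hpos, hNp, Matrix.zero_mulVec]

theorem not_dvd [Fintype F] (p : ℕ) [Fact p.Prime] [CharP F p] (h2 : n % 2 = 0) (hn : 6 ≤ n) (hab : Ani a b) :
    ¬ p ∣ Nat.card ↥(TT n F a b ⊓ commutator (GM n F a b)) := by
  intro hdvd
  have hfinG : Finite (GM n F a b) := inferInstance
  obtain ⟨t, ht⟩ := exists_prime_orderOf_dvd_card' p hdvd
  have h1 : (t : GM n F a b) = 1 := by
    apply tk_one p h2 hn hab t.1 t.2.1 t.2.2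
    have h3 : t ^ p = 1 := by rw [← ht]; exact pow_orderOf_eq_one t
    have h4 := congrArg Subtype.val h3
    simpa using h4
  have h5 : t = 1 := Subtype.ext h1
  rw [h5, orderOf_one] at ht
  exact (Fact.out : p.Prime).one_lt.ne ht

end Cfsg.Agent.Lib.H49SmTK
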