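import Mathlib
import Cfsg.Agent.Lib.H49SmDefs
import Cfsg.Agent.Lib.H49SmGrp
import Cfsg.Agent.Lib.H49SmQF
import Cfsg.Agent.Lib.H49SmQFn
import Cfsg.Agent.Lib.H49SmStar
import Cfsg.Agent.Lib.H49SmInv
import Cfsg.Agent.Lib.H49SmMem
import Cfsg.Agent.Lib.H49SmPerm
import Cfsg.Agent.Lib.H49SmW

set_option autoImplicit false

/-! Project 2549 (Steinberg character of `POmega-_{2m+2}(q)`), piece `W0` (35m).

ADAPT the landed `H49SpW0` with `m0 = pm (w0 n)` and `conj_apply`: `w0` reverses the block order. -/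

namespace Cfsg.Agent.Lib.H49SmW0

open Matrix Cfsg.Agent.Lib.H49SmDefs
open Cfsg.Agent.Lib.H49SuDefs (sgm Inv)
open Cfsg.Agent.Lib.H49SmGrp Cfsg.Agent.Lib.H49SmQF Cfsg.Agent.Lib.H49SmQFn Cfsg.Agent.Lib.H49SmStar Cfsg.Agent.Lib.H49SmInv Cfsg.Agent.Lib.H49SmMem Cfsg.Agent.Lib.H49SmPerm Cfsg.Agent.Lib.H49SmW

variable {n : ℕ} {F : Type*} [Field F] {a b : F}

theorem smw0_val (h2 : n % 2 = 0) (x : Fin n) : ((w0 n x : Fin n) : ℕ)
    = if x.val + 1 = n / 2 ∨ x.val = n / 2 then x.val else n - 1 - x.val := by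
  rw [w0_apply h2]
  split_ifs
  · rfl
  · rw [Fin.val_rev]
    omega

theorem smw0_md (h2 : n % 2 = 0) (x : Fin n) : md n (w0 n x) ↔ md n x := by
  unfold md
  rw [smw0_val h2]
  have := x.2
  split_ifs with h <;> omega

theorem smw0_lt (h2 : n % 2 = 0) {x y : Fin n} (hxy : x < y) (hm : ¬ (md n x ∧ md n y)) :
    w0 n y < w0 n x := by
  rw [Fin.lt_def] at *
  rw [smw0_val h2, smw0_val h2]
  unfold md at hm
  have := x.2
  have := y.2
  split_ifs <;> omega

theorem smw0_ww (h2 : n % 2 = 0) (x : Fin n) : w0 n (w0 n x) = x := by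
  apply Fin.ext
  rw [smw0_val h2, smw0_val h2]
  have := x.2
  split_ifs <;> omega

theorem smw0_fix (h2 : n % 2 = 0) {x : Fin n} (hx : md n x) : w0 n x = x := by
  apply Fin.ext
  rw [smw0_val h2]
  unfold md at hx
  rw [if_pos hx]

theorem mem_TT_iff [Finite F] (h2 : n % 2 = 0) (hn : 2 ≤ n) (hab : Ani a b) {β : GM n F a b} (hβ : β ∈ BB n F a b) :
    β ∈ TT n F a b ↔ (pm n F a b (w0 n))⁻¹ * β * pm n F a b (w0 n) ∈ BB n F a b := by
  have hW : Adm n (w0 n) := Adm_w0 h2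
  have key : ∀ x y : Fin n, mt ((pm n F a b (w0 n))⁻¹ * β * pm n F a b (w0 n)) x y
      = mt β (w0 n x) (w0 n y) := by
    intro x y
    have h1 := conj_apply (F := F) (a := a) (b := b) h2 (Adm_inv hW) β (w0 n x) (w0 n y)
    rw [← pm_inv h2 hW, inv_inv] at h1
    simpa using h1
  rw [mem_TT h2 hn hab, mem_BB h2 hn hab]
  have hB : BTri (mt β) := (mem_BB h2 hn hab).1 hβ
  constructor
  · intro hD x y hxy hm
    rw [key]
    apply hD
    · intro e
      exact (ne_of_gt hxy) ((w0 n).injective e)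
    · rw [smw0_md h2, smw0_md h2]
      exact hm
  · intro hC x y hxy hm
    rcases lt_or_gt_of_ne hxy with h | h
    · have h1 := hC (w0 n x) (w0 n y) (smw0_lt h2 h hm) (by rw [smw0_md h2, smw0_md h2]; exact hm)
      rw [key, smw0_ww h2, smw0_ww h2] at h1
      exact h1
    · exact hB x y h hm

theorem conj_low [Finite F] (h2 : n % 2 = 0) (hn : 2 ≤ n) (hab : Ani a b) {k : ℕ} {y : GM n F a b} (hy : y ∈ YY n F a b k) :
    pm n F a b (w0 n) * y * (pm n F a b (w0 n))⁻¹ ∈ UU n F a b := by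
  have hW : Adm n (w0 n) := Adm_w0 h2
  have key : ∀ x z : Fin n, mt (pm n F a b (w0 n) * y * (pm n F a b (w0 n))⁻¹) x z
      = mt y (w0 n x) (w0 n z) := by
    intro x z
    have h1 := conj_apply (F := F) (a := a) (b := b) h2 hW y (w0 n x) (w0 n z)
    rw [smw0_ww h2, smw0_ww h2] at h1
    exact h1
  obtain ⟨hd, ho⟩ := hy
  have hmid : ∀ x z : Fin n, md n x → md n z → x ≠ z → mt y x z = 0 := by
    intro x z hx hz hxz
    by_contra hne
    obtain ⟨h3, h4⟩ := ho x z hxz hne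
    rw [(Adm_sgB h2 k).2 x hx, (Adm_sgB h2 k).2 z hz] at h4
    exact absurd h3 (not_lt.2 h4.le)
  rw [mem_UU h2 hn hab]
  refine ⟨?_, ?_, ?_⟩
  · intro x z hzx
    rw [key]
    by_cases hm : md n z ∧ md n x
    · rw [smw0_fix h2 hm.1, smw0_fix h2 hm.2]
      exact hmid x z hm.2 hm.1 (ne_of_gt hzx)
    · by_contra hne
      have hne' : w0 n x ≠ w0 n z := fun e => (ne_of_gt hzx) ((w0 n).injective e)
      obtain ⟨h3, -⟩ := ho _ _ hne' hne
      exact absurd h3 (not_lt.2 (smw0_lt h2 hzx hm).le)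
  · intro x
    rw [key]
    exact hd _
  · intro x z hx hz hxz
    rw [key, smw0_fix h2 hx, smw0_fix h2 hz]
    exact hmid x z hx hz hxz

end Cfsg.Agent.Lib.H49SmW0
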