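import Mathlib
import Cfsg.Agent.Lib.H49SoDefs
import Cfsg.Agent.Lib.H49SoPol
import Cfsg.Agent.Lib.H49SoStar
import Cfsg.Agent.Lib.H49SoInv
import Cfsg.Agent.Lib.H49SoMonB

set_option autoImplicit false

/-! Project 2547 (Steinberg character of `POmega_{2m+1}(q)`), piece `Mem` (20m).

COPY of the landed `H49SuMem` (for `UT`: `mt g⁻¹ a a = (cc a)⁻¹ * cc a * 1 = 1`). -/

namespace Cfsg.Agent.Lib.H49SoMem

open Matrix Cfsg.Agent.Lib.H49SoDefs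
open Cfsg.Agent.Lib.H49SuDefs (Tri UT Dg Mon Tri_one Tri_mul UT_one UT_mul Dg_one Dg_mul Mon_one Mon_mul Mon_uniq sgm Inv CL)
open Cfsg.Agent.Lib.H49SoPol Cfsg.Agent.Lib.H49SoStar Cfsg.Agent.Lib.H49SoInv Cfsg.Agent.Lib.H49SoMonB

variable {n : ℕ} {F : Type*} [Field F]

theorem Tri_inv (h2 : (2 : F) ≠ 0) {g : GO n F} (h : Tri (mt g)) : Tri (mt g⁻¹) := by
  intro a b hab
  rw [inv_apply h2, h (Fin.rev b) (Fin.rev a) (Fin.rev_lt_rev.2 hab), mul_zero]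

theorem mem_BB (h2 : (2 : F) ≠ 0) {g : GO n F} : g ∈ BB n F ↔ Tri (mt g) :=
  ⟨fun h => h.1, fun h => ⟨h, Tri_inv h2 h⟩⟩

theorem mem_TT (h2 : (2 : F) ≠ 0) {g : GO n F} : g ∈ TT n F ↔ Dg (mt g) := by
  refine ⟨fun h => h.1, fun h => ⟨h, ?_⟩⟩
  intro a b hab
  rw [inv_apply h2, h (Fin.rev b) (Fin.rev a) (fun e => hab (Fin.rev_inj.1 e).symm), mul_zero]

theorem mem_UU (h2 : (2 : F) ≠ 0) {g : GO n F} : g ∈ UU n F ↔ UT (mt g) := by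
  refine ⟨fun h => h.1, fun h => ⟨h, Tri_inv h2 h.1, ?_⟩⟩
  intro a
  rw [inv_apply h2, h.2 (Fin.rev a), mul_one, inv_mul_cancel₀ (cc_ne_zero h2 a)]

theorem mem_NN {g : GO n F} : g ∈ NN n F ↔ ∃ π, Mon π (mt g) := by
  refine ⟨fun h => h.1, fun h => ⟨h, ?_⟩⟩
  obtain ⟨π, hπ⟩ := h
  exact ⟨π⁻¹, Mon_inv hπ⟩

end Cfsg.Agent.Lib.H49SoMem
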