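import Mathlib
import Cfsg.Agent.Lib.H49SoDefs

set_option autoImplicit false

/-! Project 2547 (Steinberg character of `POmega_{2m+1}(q)`), piece `Diag` (15m).

COPY of the landed `H49SuDiag`. -/

namespace Cfsg.Agent.Lib.H49SoDiag

open Matrix Cfsg.Agent.Lib.H49SoDefs
open Cfsg.Agent.Lib.H49SuDefs (Tri UT Dg Mon Tri_one Tri_mul UT_one UT_mul Dg_one Dg_mul Mon_one Mon_mul Mon_uniq sgm Inv CL)

variable {n : ℕ} {F : Type*} [Field F]

theorem diag_mul {g h : GO n F} (hg : g ∈ BB n F) (hh : h ∈ BB n F) (a : Fin n) :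
    mt (g * h) a a = mt g a a * mt h a a := by
  rw [mt_mul, Matrix.mul_apply]
  apply Finset.sum_eq_single
  · intro c _ hc
    rcases lt_or_gt_of_ne hc with h1 | h1
    · rw [hg.1 a c h1, zero_mul]
    · rw [hh.1 c a h1, mul_zero]
  · intro h; exact absurd (Finset.mem_univ _) h

theorem diag_mul_inv {g : GO n F} (hg : g ∈ BB n F) (a : Fin n) :
    mt g a a * mt g⁻¹ a a = 1 := by
  rw [← diag_mul hg ((BB n F).inv_mem hg), mul_inv_cancel, mt_one]
  exact Matrix.one_apply_eq a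

theorem diag_ne_zero {g : GO n F} (hg : g ∈ BB n F) (a : Fin n) : mt g a a ≠ 0 := by
  intro h
  have := diag_mul_inv hg a
  rw [h, zero_mul] at this
  exact zero_ne_one this

theorem diag_inv {g : GO n F} (hg : g ∈ BB n F) (a : Fin n) : mt g⁻¹ a a = (mt g a a)⁻¹ :=
  eq_inv_of_mul_eq_one_right (diag_mul_inv hg a)

end Cfsg.Agent.Lib.H49SoDiag
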