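import Mathlib
import Cfsg.Agent.Lib.H49SoDefs
import Cfsg.Agent.Lib.H49SoPol
import Cfsg.Agent.Lib.H49SoStar
import Cfsg.Agent.Lib.H49SoInv
import Cfsg.Agent.Lib.H49SoMonB
import Cfsg.Agent.Lib.H49SoMem
import Cfsg.Agent.Lib.H49SoDiag
import Cfsg.Agent.Lib.H49SoMonMk

set_option autoImplicit false

/-! Project 2547 (Steinberg character of `POmega_{2m+1}(q)`), piece `CUT` (40m).

`C_U(T) = 1`.  For an index `e ≠ rev e` let `t_e = monMk 1 _ d` with `d = -1` at `e` and `rev e`, `1` elsewhere (`t_e ∈ TT`).  `t u = u t` gives `d a * u a b = u a b * d b`, so `u a b = 0` whenever `d a ≠ d b` (`-1 ≠ 1` by `h2`).  For `a ≠ b`, `b ≠ rev a`: one of `a, b` is not the middle index, take `e` = that one.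
For `b = rev a`, `a < b`: now all the other off-diagonal entries of `u` vanish, so `u e_b = e_b + s e_a` with `s = u a b`, and `0 = QA (e_b) = QA (u e_b) = s` (`QA_mulVec`; or `star` for the columns `(b, b)`: `2 s = 0`). -/

namespace Cfsg.Agent.Lib.H49SoCUT

open Matrix Cfsg.Agent.Lib.H49SoDefs
open Cfsg.Agent.Lib.H49SuDefs (Tri UT Dg Mon Tri_one Tri_mul UT_one UT_mul Dg_one Dg_mul Mon_one Mon_mul Mon_uniq sgm Inv CL)
open Cfsg.Agent.Lib.H49SoPol Cfsg.Agent.Lib.H49SoStar Cfsg.Agent.Lib.H49SoInv Cfsg.Agent.Lib.H49SoMonB Cfsg.Agent.Lib.H49SoMem Cfsg.Agent.Lib.H49SoDiag Cfsg.Agent.Lib.H49SoMonMk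

variable {n : ℕ} {F : Type*} [Field F]

theorem cent_eq_one (h2 : (2 : F) ≠ 0) {u : GO n F} (hu : u ∈ UU n F) (hc : ∀ t ∈ TT n F, t * u = u * t) :
    u = 1 := by
  have hUT : UT (mt u) := (mem_UU h2).1 hu
  have hneg : (-1 : F) ≠ 1 := by
    intro h
    apply h2
    linear_combination -h
  -- step 1
  have step1 : ∀ e : Fin n, e ≠ Fin.rev e → ∀ a b : Fin n,
      ((a = e ∨ a = Fin.rev e) ∧ ¬ (b = e ∨ b = Fin.rev e)) ∨
      (¬ (a = e ∨ a = Fin.rev e) ∧ (b = e ∨ b = Fin.rev e)) → mt u a b = 0 := by
    intro e he a b hab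
    let d : Fin n → F := fun a => if a = e ∨ a = Fin.rev e then -1 else 1
    have hdrev : ∀ a, d (Fin.rev a) = d a := by
      intro a
      have : (Fin.rev a = e ∨ Fin.rev a = Fin.rev e) ↔ (a = e ∨ a = Fin.rev e) := by
        constructor
        · rintro (h | h)
          · right; rw [← h, Fin.rev_rev]
          · left; exact Fin.rev_injective h
        · rintro (h | h)
          · right; rw [h]
          · left; rw [h, Fin.rev_rev]
      simp only [d, this]
    have hd : ∀ a, d a * d (Fin.rev a) = 1 := by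
      intro a
      rw [hdrev]
      simp only [d]
      split_ifs <;> ring
    obtain ⟨t, ht, -⟩ := monMk h2 1 (fun a => rfl) d hd
    have htT : t ∈ TT n F := by
      rw [mem_TT h2]
      intro a b hab
      rw [ht, if_neg (by simpa using hab)]
    have h1 : Cfsg.Agent.Lib.H49SoDefs.mt (t * u) = Cfsg.Agent.Lib.H49SoDefs.mt (u * t) := by
      rw [hc t htT]
    rw [mt_mul, mt_mul] at h1
    have h3 := congrFun (congrFun h1 a) b
    rw [Matrix.mul_apply, Matrix.mul_apply, Finset.sum_eq_single a, Finset.sum_eq_single b] at h3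
    · rw [ht, ht] at h3
      simp only [Equiv.Perm.coe_one, id_eq, if_true] at h3
      rcases hab with ⟨ha, hb⟩ | ⟨ha, hb⟩
      · simp only [d, if_pos ha, if_neg hb] at h3
        have : (2 : F) * mt u a b = 0 := by linear_combination -h3
        exact (mul_eq_zero.1 this).resolve_left h2
      · simp only [d, if_neg ha, if_pos hb] at h3
        have : (2 : F) * mt u a b = 0 := by linear_combination h3
        exact (mul_eq_zero.1 this).resolve_left h2
    · intro c _ hcb
      rw [ht, if_neg (by simpa using hcb), mul_zero]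
    · intro h'
      exact absurd (Finset.mem_univ b) h'
    · intro c _ hca
      rw [ht, if_neg (by simpa using hca.symm), zero_mul]
    · intro h'
      exact absurd (Finset.mem_univ a) h'
  -- step 2
  have step2 : ∀ a b : Fin n, a ≠ b → b ≠ Fin.rev a → mt u a b = 0 := by
    intro a b hab hbr
    by_cases ha : a = Fin.rev a
    · have hb : b ≠ Fin.rev b := by
        intro hb
        apply hab
        have h1 := congrArg Fin.val ha
        have h3 := congrArg Fin.val hb
        rw [Fin.val_rev] at h1 h3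
        apply Fin.ext
        omega
      apply step1 b hb a b
      right
      refine ⟨?_, Or.inl rfl⟩
      rintro (h | h)
      · exact hab h
      · apply hbr
        rw [h, Fin.rev_rev]
    · apply step1 a ha a b
      left
      refine ⟨Or.inl rfl, ?_⟩
      rintro (h | h)
      · exact hab h.symm
      · exact hbr h
  -- step 3
  have step3 : ∀ a : Fin n, a ≠ Fin.rev a → mt u a (Fin.rev a) = 0 := by
    intro a ha
    have hs := star u (Fin.rev a) (Fin.rev a)
    rw [Fin.rev_rev, if_neg (fun h => ha h.symm),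
      Finset.sum_eq_add a (Fin.rev a) ha] at hs
    · rw [Fin.rev_rev, hUT.2 (Fin.rev a)] at hs
      have hca : cc F a = 1 := by unfold cc; rw [if_neg ha]
      rw [cc_rev, hca] at hs
      have : (2 : F) * mt u a (Fin.rev a) = 0 := by linear_combination hs
      exact (mul_eq_zero.1 this).resolve_left h2
    · intro c _ hc'
      rw [step2 c (Fin.rev a) hc'.2 (fun h => hc'.1 (Fin.rev_injective h).symm)]
      ring
    · intro h'
      exact absurd (Finset.mem_univ _) h'
    · intro h'
      exact absurd (Finset.mem_univ _) h'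
  apply mt_inj
  rw [mt_one]
  ext a b
  by_cases hab : a = b
  · subst hab
    rw [hUT.2 a, Matrix.one_apply_eq]
  · rw [Matrix.one_apply_ne hab]
    by_cases hbr : b = Fin.rev a
    · subst hbr
      exact step3 a hab
    · exact step2 a b hab hbr

end Cfsg.Agent.Lib.H49SoCUT
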