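import Mathlib
import Cfsg.Agent.Lib.H49SoDefs
import Cfsg.Agent.Lib.H49SoPol
import Cfsg.Agent.Lib.H49SoStar
import Cfsg.Agent.Lib.H49SoInv
import Cfsg.Agent.Lib.H49SoMonB
import Cfsg.Agent.Lib.H49SoMem
import Cfsg.Agent.Lib.H49SoDiag
import Cfsg.Agent.Lib.H49SoTN
import Cfsg.Agent.Lib.H49SoBNT
import Cfsg.Agent.Lib.H49SoRefl
import Cfsg.Agent.Lib.H49SuW

set_option autoImplicit false

/-! Project 2547 (Steinberg character of `POmega_{2m+1}(q)`), piece `Cl` (30m).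

COPY of the landed `H49SuLift.exists_lift` + `H49SuCl` (`H49SuW.perm_mem` is reused as it is). -/

namespace Cfsg.Agent.Lib.H49SoCl

open Matrix Cfsg.Agent.Lib.H49SoDefs
open Cfsg.Agent.Lib.H49SuDefs (Tri UT Dg Mon Tri_one Tri_mul UT_one UT_mul Dg_one Dg_mul Mon_one Mon_mul Mon_uniq sgm Inv CL)
open Cfsg.Agent.Lib.H49SoPol Cfsg.Agent.Lib.H49SoStar Cfsg.Agent.Lib.H49SoInv Cfsg.Agent.Lib.H49SoMonB Cfsg.Agent.Lib.H49SoMem Cfsg.Agent.Lib.H49SoDiag Cfsg.Agent.Lib.H49SoTN Cfsg.Agent.Lib.H49SoBNT Cfsg.Agent.Lib.H49SoRefl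

variable {n : ℕ} {F : Type*} [Field F]

theorem exists_lift (h2 : (2 : F) ≠ 0) (π : Equiv.Perm (Fin n)) (h : π ∈ CL n) :
    ∃ g ∈ Subgroup.closure (SS n F), Mon π (mt g) := by
  unfold CL at h
  induction h using Subgroup.closure_induction with
  | mem x hx =>
    obtain ⟨k, hk, rfl⟩ := hx
    exact ⟨sk n F k, Subgroup.subset_closure ⟨k, hk, rfl⟩, Mon_sk h2 k⟩
  | one => exact ⟨1, Subgroup.one_mem _, Mon_one⟩
  | mul x y _ _ ihx ihy =>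
    obtain ⟨g, hg, hg'⟩ := ihx
    obtain ⟨k, hk, hk'⟩ := ihy
    exact ⟨g * k, Subgroup.mul_mem _ hg hk, Mon_mul hg' hk'⟩
  | inv x _ ih =>
    obtain ⟨g, hg, hg'⟩ := ih
    exact ⟨g⁻¹, Subgroup.inv_mem _ hg, Mon_inv hg'⟩

theorem closure_sup (h2 : (2 : F) ≠ 0) :
    Subgroup.closure (SS n F) ⊔ (BB n F ⊓ NN n F) = NN n F := by
  apply le_antisymm
  · exact sup_le ((Subgroup.closure_le _).2 (SS_subset h2)) inf_le_right
  · intro x hx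
    obtain ⟨π, hπ⟩ := mem_NN.1 hx
    have hCL : π ∈ CL n := Cfsg.Agent.Lib.H49SuW.perm_mem π (Mon_rev h2 hπ)
    obtain ⟨g, hg, hgπ⟩ := exists_lift (F := F) h2 π hCL
    have h1 : Mon (π⁻¹ * π) (mt (g⁻¹ * x)) := Mon_mul (Mon_inv hgπ) hπ
    rw [inv_mul_cancel] at h1
    have h3 : g⁻¹ * x ∈ BB n F ⊓ NN n F := by
      rw [BB_inf_NN h2]; exact (Mon_one_iff h2).1 h1
    have e : x = g * (g⁻¹ * x) := by group
    rw [e]
    exact Subgroup.mul_mem _ (Subgroup.mem_sup_left hg) (Subgroup.mem_sup_right h3)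

end Cfsg.Agent.Lib.H49SoCl
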