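import Mathlib
import Cfsg.Agent.Lib.H49SoDefs
import Cfsg.Agent.Lib.H49SoPol
import Cfsg.Agent.Lib.H49SoStar
import Cfsg.Agent.Lib.H49SoInv
import Cfsg.Agent.Lib.H49SoMonB
import Cfsg.Agent.Lib.H49SoMem
import Cfsg.Agent.Lib.H49SuSgm
import Cfsg.Agent.Lib.H49SuInvD
import Cfsg.Agent.Lib.Helper65SoAdj

set_option autoImplicit false

/-! Project 2547 (Steinberg character of `POmega_{2m+1}(q)`), piece `RootOdd`. -/

namespace Cfsg.Agent.Lib.H49SoRootOdd

open Matrix Cfsg.Agent.Lib.H49SoDefs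
open Cfsg.Agent.Lib.H49SuDefs (Tri UT Dg Mon Tri_one Tri_mul UT_one UT_mul Dg_one Dg_mul Mon_one Mon_mul Mon_uniq sgm Inv CL)
open Cfsg.Agent.Lib.H49SoPol Cfsg.Agent.Lib.H49SoStar Cfsg.Agent.Lib.H49SoInv Cfsg.Agent.Lib.H49SoMonB Cfsg.Agent.Lib.H49SoMem
open Cfsg.Agent.Lib.Helper65SoAdj Cfsg.Agent.Lib.H49SuInvD

variable {n : ℕ} {F : Type*} [Field F]

theorem single_neg' (i j : Fin n) (s : F) : Matrix.single i j (-s) = - Matrix.single i j s := by
  ext a b
  by_cases h : i = a ∧ j = b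
  · obtain ⟨rfl, rfl⟩ := h
    simp
  · rw [Matrix.neg_apply, Matrix.single_apply_of_ne _ _ _ _ _ h, Matrix.single_apply_of_ne _ _ _ _ _ h,
      neg_zero]

theorem exists_x (h2 : (2 : F) ≠ 0) {k : ℕ} (hk : 2 * k + 3 = n) (a b c : Fin n)
    (ha : a.val = k) (hb : b.val = k + 1) (hc : c.val = k + 2) (α : F) :
    ∃ x ∈ XX n F k, mt x = 1 - Matrix.single a b (2 * α) - Matrix.single a c (α ^ 2) + Matrix.single b c α := by
  have hra : Fin.rev a = c := by apply Fin.ext; rw [Fin.val_rev]; omega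
  have hrb : Fin.rev b = b := by apply Fin.ext; rw [Fin.val_rev]; omega
  have hrc : Fin.rev c = a := by apply Fin.ext; rw [Fin.val_rev]; omega
  have hab : a ≠ b := fun e => by have := congrArg Fin.val e; omega
  have hac : a ≠ c := fun e => by have := congrArg Fin.val e; omega
  have hbc : b ≠ c := fun e => by have := congrArg Fin.val e; omega
  have ca : cc F a = 1 := if_neg (by rw [hra]; exact hac)
  have cb : cc F b = 2 := if_pos hrb.symm
  have ccc : cc F c = 1 := if_neg (by rw [hrc]; exact hac.symm)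
  have hadj : adjO (1 - Matrix.single a b (2 * α) - Matrix.single a c (α ^ 2) + Matrix.single b c α) *
      (1 - Matrix.single a b (2 * α) - Matrix.single a c (α ^ 2) + Matrix.single b c α) = 1 := by
    rw [adjO_add, adjO_sub, adjO_sub, adjO_one h2, adjO_single, adjO_single, adjO_single,
      hra, hrb, hrc, ca, cb, ccc]
    have e1 : (2 : F)⁻¹ * 1 * (2 * α) = α := by field_simp
    have e2 : (1 : F)⁻¹ * 1 * α ^ 2 = α ^ 2 := by simp
    have e3 : (1 : F)⁻¹ * 2 * α = 2 * α := by simp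
    rw [e1, e2, e3]
    simp only [mul_add, add_mul, mul_sub, sub_mul, mul_one, one_mul, Matrix.single_mul_single_same,
      Matrix.single_mul_single_of_ne _ _ _ _ hac.symm, Matrix.single_mul_single_of_ne _ _ _ _ hbc.symm,
      Matrix.single_mul_single_of_ne _ _ _ _ hab.symm]
    have h0 : Matrix.single a c (2 * α * α) =
        Matrix.single a c (α ^ 2) + (Matrix.single a c (α ^ 2) : Matrix (Fin n) (Fin n) F) := by
      rw [← Matrix.single_add]
      congr 1
      ring
    rw [h0]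
    abel
  obtain ⟨x, hx⟩ := mk' h2 _ hadj
  refine ⟨x, ⟨fun i => ?_, fun i j hij h => ?_⟩, hx⟩
  · rw [hx, Matrix.add_apply, Matrix.sub_apply, Matrix.sub_apply, Matrix.one_apply_eq,
      Matrix.single_apply_of_ne _ _ _ _ _ (fun e => hab (e.1.trans e.2.symm)),
      Matrix.single_apply_of_ne _ _ _ _ _ (fun e => hac (e.1.trans e.2.symm)),
      Matrix.single_apply_of_ne _ _ _ _ _ (fun e => hbc (e.1.trans e.2.symm))]
    simp
  · rw [Inv_odd hk]
    rw [hx, Matrix.add_apply, Matrix.sub_apply, Matrix.sub_apply, Matrix.one_apply_ne hij,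
      zero_sub] at h
    by_cases e1 : a = i ∧ b = j
    · left
      rw [← e1.1, ← e1.2]
      exact ⟨ha, hb⟩
    · rw [Matrix.single_apply_of_ne _ _ _ _ _ e1, neg_zero, zero_sub] at h
      by_cases e2 : a = i ∧ c = j
      · right; left
        rw [← e2.1, ← e2.2]
        exact ⟨ha, hc⟩
      · rw [Matrix.single_apply_of_ne _ _ _ _ _ e2, neg_zero, zero_add] at h
        by_cases e3 : b = i ∧ c = j
        · right; right
          rw [← e3.1, ← e3.2]
          exact ⟨hb, hc⟩
        · rw [Matrix.single_apply_of_ne _ _ _ _ _ e3] at h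
          exact absurd rfl h

theorem exists_y (h2 : (2 : F) ≠ 0) {k : ℕ} (hk : 2 * k + 3 = n) (a b c : Fin n)
    (ha : a.val = k) (hb : b.val = k + 1) (hc : c.val = k + 2) (α : F) :
    ∃ y ∈ YY n F k, mt y = 1 - Matrix.single c b (2 * α) - Matrix.single c a (α ^ 2) + Matrix.single b a α := by
  have hra : Fin.rev a = c := by apply Fin.ext; rw [Fin.val_rev]; omega
  have hrb : Fin.rev b = b := by apply Fin.ext; rw [Fin.val_rev]; omega
  have hrc : Fin.rev c = a := by apply Fin.ext; rw [Fin.val_rev]; omega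
  obtain ⟨x, hx, hxm⟩ := exists_x h2 hk a b c ha hb hc α
  obtain ⟨y, hy, hym⟩ := exists_y_of_x h2 hx
  refine ⟨y, hy, ?_⟩
  rw [hym, hxm, revM_add, revM_sub, revM_sub, revM_one, revM_single, revM_single, revM_single,
    hra, hrb, hrc]

end Cfsg.Agent.Lib.H49SoRootOdd
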