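import Mathlib
import Cfsg.Agent.Lib.H49SoDefs
import Cfsg.Agent.Lib.H49SoPol
import Cfsg.Agent.Lib.H49SoStar
import Cfsg.Agent.Lib.H49SoInv
import Cfsg.Agent.Lib.H49SoMonB
import Cfsg.Agent.Lib.H49SoMem
import Cfsg.Agent.Lib.H49SoDiag
import Cfsg.Agent.Lib.H49SoB1
import Cfsg.Agent.Lib.H49SoHalf
import Cfsg.Agent.Lib.H49SoRootOdd
import Cfsg.Agent.Lib.H49SuInvD

set_option autoImplicit false

/-! Project 2547 (Steinberg character of `POmega_{2m+1}(q)`), piece `ClearOdd` (50m).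

Compare the landed `H49SuClearOdd`.  `a = k`, `b = k+1`, `c = k+2`.  `α = - g a b / (2 * g a a)`, `x = RootOdd.exists_x α`, `c' = g * x⁻¹ ∈ BB`.  From `g = c' * x`, row `a`: `g a b = c' a b - 2α c' a a`, `g a a = c' a a`, so `c' a b = 0`; `g a c = c' a c + α c' a b - α² c' a a`, so `c' a c = g a c + α² g a a`,
which is `0` because `0 = (g * g⁻¹) a c = ∑ i, g a i * ((cc i)⁻¹ * g a (rev i)) = 2 g a a g a c + g a b ^ 2 / 2` (`inv_apply`, `rev c = a`, only `i ∈ {a,b,c}` survive).  `c' b c = 0` by the dual entry argument (`c'⁻¹ a b = 0`, `inv_apply`). -/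

namespace Cfsg.Agent.Lib.H49SoClearOdd

open Matrix Cfsg.Agent.Lib.H49SoDefs
open Cfsg.Agent.Lib.H49SuDefs (Tri UT Dg Mon Tri_one Tri_mul UT_one UT_mul Dg_one Dg_mul Mon_one Mon_mul Mon_uniq sgm Inv CL)
open Cfsg.Agent.Lib.H49SoPol Cfsg.Agent.Lib.H49SoStar Cfsg.Agent.Lib.H49SoInv Cfsg.Agent.Lib.H49SoMonB Cfsg.Agent.Lib.H49SoMem Cfsg.Agent.Lib.H49SoDiag Cfsg.Agent.Lib.H49SoB1 Cfsg.Agent.Lib.H49SoHalf Cfsg.Agent.Lib.H49SoRootOdd

variable {n : ℕ} {F : Type*} [Field F]

theorem clear (h2 : (2 : F) ≠ 0) {k : ℕ} (hk : 2 * k + 3 = n) {g : GO n F} (hg : g ∈ BB n F) :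
    ∃ c ∈ BB n F, ∃ x ∈ XX n F k, (∀ a b, Inv n k a b → mt c a b = 0) ∧ g = c * x := by
  obtain ⟨a, ha⟩ : ∃ a : Fin n, a.val = k := ⟨⟨k, by omega⟩, rfl⟩
  obtain ⟨b, hb⟩ : ∃ b : Fin n, b.val = k + 1 := ⟨⟨k + 1, by omega⟩, rfl⟩
  obtain ⟨c, hc⟩ : ∃ c : Fin n, c.val = k + 2 := ⟨⟨k + 2, by omega⟩, rfl⟩
  have hra : Fin.rev a = c := Fin.ext (by rw [Fin.val_rev]; omega)
  have hrb : Fin.rev b = b := Fin.ext (by rw [Fin.val_rev]; omega)
  have hrc : Fin.rev c = a := Fin.ext (by rw [Fin.val_rev]; omega)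
  have hab : a ≠ b := fun e => by rw [e] at ha; omega
  have hac : a ≠ c := fun e => by rw [e] at ha; omega
  have hbc : b ≠ c := fun e => by rw [e] at hb; omega
  have cca : cc F a = 1 := by unfold cc; rw [hra, if_neg hac]
  have ccb : cc F b = 2 := by unfold cc; rw [hrb, if_pos rfl]
  have ccc : cc F c = 1 := by unfold cc; rw [hrc, if_neg hac.symm]
  have hsum : ∀ f : Fin n → F, (∀ i : Fin n, i.val ≠ k → i.val ≠ k + 1 → i.val ≠ k + 2 → f i = 0) →
      ∑ i, f i = f a + f b + f c := by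
    intro f hf
    rw [← Finset.sum_subset (Finset.subset_univ {a, b, c})]
    · rw [Finset.sum_insert (by simp [hab, hac]), Finset.sum_insert (by simp [hbc]),
        Finset.sum_singleton, add_assoc]
    · intro i _ hi
      simp only [Finset.mem_insert, Finset.mem_singleton, not_or] at hi
      exact hf i (fun e => hi.1 (Fin.ext (e.trans ha.symm)))
        (fun e => hi.2.1 (Fin.ext (e.trans hb.symm))) (fun e => hi.2.2 (Fin.ext (e.trans hc.symm)))
  have hA : mt g a a ≠ 0 := diag_ne_zero hg a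
  have hrel : 2 * (mt g a a * mt g a c) + mt g a b * mt g a b / 2 = 0 := by
    have h : mt (g * g⁻¹) a c = 0 := by
      rw [mul_inv_cancel, mt_one, Matrix.one_apply_ne hac]
    rw [mt_mul, Matrix.mul_apply, hsum] at h
    · rw [inv_apply h2, inv_apply h2, inv_apply h2, hra, hrb, hrc, cca, ccb, ccc] at h
      field_simp at h ⊢
      linear_combination h
    · intro i h1 h2' h3
      rcases lt_or_ge i.val k with h4 | h4
      · rw [hg.1 a i (by rw [Fin.lt_def]; omega), zero_mul]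
      · rw [inv_apply h2, hrc, hg.1 a (Fin.rev i) (by rw [Fin.lt_def, Fin.val_rev]; omega),
          mul_zero, mul_zero]
  obtain ⟨x, hx, hxm⟩ := exists_x h2 hk a b c ha hb hc (-(mt g a b) / (2 * mt g a a))
  have hc'B : g * x⁻¹ ∈ BB n F :=
    Subgroup.mul_mem _ hg (Subgroup.inv_mem _ (UU_le_BB (XX_le h2 hx)))
  obtain ⟨c', hc'⟩ : ∃ c', c' = g * x⁻¹ := ⟨_, rfl⟩
  rw [← hc'] at hc'B
  have hgc : g = c' * x := by rw [hc']; group
  obtain ⟨al, hal⟩ : ∃ al, al = -(mt g a b) / (2 * mt g a a) := ⟨_, rfl⟩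
  rw [← hal] at hxm
  have hent : ∀ α β, mt g α β = mt c' α β - (mt c' * Matrix.single a b (2 * al)) α β
      - (mt c' * Matrix.single a c (al ^ 2)) α β
      + (mt c' * Matrix.single b c al) α β := by
    intro α β
    conv_lhs => rw [hgc, mt_mul, hxm, Matrix.mul_add, Matrix.mul_sub, Matrix.mul_sub, Matrix.mul_one]
    simp only [Matrix.sub_apply, Matrix.add_apply]
  have e1 : mt g a a = mt c' a a := by
    have := hent a a
    rw [Matrix.mul_single_apply_of_ne _ _ _ _ _ hab, Matrix.mul_single_apply_of_ne _ _ _ _ _ hac,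
      Matrix.mul_single_apply_of_ne _ _ _ _ _ hac] at this
    simpa using this
  have e2 : mt c' a b = 0 := by
    have := hent a b
    rw [Matrix.mul_single_apply_same, Matrix.mul_single_apply_of_ne _ _ _ _ _ hbc,
      Matrix.mul_single_apply_of_ne _ _ _ _ _ hbc, ← e1, hal] at this
    field_simp at this
    linear_combination -this
  have e3 : mt c' a c = 0 := by
    have := hent a c
    rw [Matrix.mul_single_apply_same, Matrix.mul_single_apply_same,
      Matrix.mul_single_apply_of_ne _ _ _ _ _ hbc.symm, ← e1, e2, hal] at this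
    field_simp at this hrel
    have h4 : (4 : F) ≠ 0 := by
      have : (4 : F) = 2 * 2 := by norm_num
      rw [this]; exact mul_ne_zero h2 h2
    have h5 : 4 * mt g a a * mt c' a c = 0 := by
      linear_combination (exp := 1) hrel - this
    rcases mul_eq_zero.1 h5 with h6 | h6
    · exact absurd h6 (mul_ne_zero h4 hA)
    · exact h6
  have e4 : mt c' b c = 0 := by
    have h : mt (c' * c'⁻¹) a b = 0 := by
      rw [mul_inv_cancel, mt_one, Matrix.one_apply_ne hab]
    rw [mt_mul, Matrix.mul_apply, hsum] at h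
    · rw [e2, e3, zero_mul, zero_mul, add_zero, add_zero, inv_apply h2, hra, hrb, ← e1, cca, ccb] at h
      rcases mul_eq_zero.1 h with h | h
      · exact absurd h hA
      · rcases mul_eq_zero.1 h with h | h
        · exact absurd h (by simpa using h2)
        · exact h
    · intro i h1 h2' h3
      rcases lt_or_ge i.val k with h4 | h4
      · rw [hc'B.1 a i (by rw [Fin.lt_def]; omega), zero_mul]
      · rw [hc'B.2 i b (by rw [Fin.lt_def]; omega), mul_zero]
  refine ⟨c', hc'B, x, hx, ?_, hgc⟩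
  intro α β hαβ
  rcases (Cfsg.Agent.Lib.H49SuInvD.Inv_odd hk _ _).1 hαβ with ⟨h1, h2⟩ | ⟨h1, h2⟩ | ⟨h1, h2⟩
  · rw [show α = a from Fin.ext (h1.trans ha.symm), show β = b from Fin.ext (h2.trans hb.symm), e2]
  · rw [show α = a from Fin.ext (h1.trans ha.symm), show β = c from Fin.ext (h2.trans hc.symm), e3]
  · rw [show α = b from Fin.ext (h1.trans hb.symm), show β = c from Fin.ext (h2.trans hc.symm), e4]

end Cfsg.Agent.Lib.H49SoClearOdd
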