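import Mathlib
import Cfsg.Agent.Lib.H49SoDefs
import Cfsg.Agent.Lib.H49SoPol
import Cfsg.Agent.Lib.H49SoStar
import Cfsg.Agent.Lib.H49SoInv
import Cfsg.Agent.Lib.H49SoMonB
import Cfsg.Agent.Lib.H49SoMem
import Cfsg.Agent.Lib.H49SoHalf

set_option autoImplicit false

/-! Project 2547 (Steinberg character of `POmega_{2m+1}(q)`), piece `Col1` (35m).

COPY of the landed `H49SuCol1` (`star` with the weights `cc`, `cc_ne_zero`). -/

namespace Cfsg.Agent.Lib.H49SoCol1

open Matrix Cfsg.Agent.Lib.H49SoDefs
open Cfsg.Agent.Lib.H49SuDefs (Tri UT Dg Mon Tri_one Tri_mul UT_one UT_mul Dg_one Dg_mul Mon_one Mon_mul Mon_uniq sgm Inv CL)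
open Cfsg.Agent.Lib.H49SoPol Cfsg.Agent.Lib.H49SoStar Cfsg.Agent.Lib.H49SoInv Cfsg.Agent.Lib.H49SoMonB Cfsg.Agent.Lib.H49SoMem Cfsg.Agent.Lib.H49SoHalf

variable {n : ℕ} {F : Type*} [Field F]

theorem diag_ne (j : Fin n) (g : GO n F) (hg : ∀ a b : Fin n, b < j → b < a → mt g a b = 0) (k : ℕ) :
    ∀ y : Fin n, y.val < k → y < j → mt g y y ≠ 0 ∧ ∀ x, y < x → mt g⁻¹ x y = 0 := by
  have hmul : mt g⁻¹ * mt g = 1 := by rw [← mt_mul, inv_mul_cancel, mt_one]
  induction k with
  | zero => intro y hy; exact absurd hy (Nat.not_lt_zero _)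
  | succ k ih =>
    intro y hy hyj
    have key : ∀ x : Fin n, y ≤ x → (mt g⁻¹ * mt g) x y = mt g⁻¹ x y * mt g y y := by
      intro x hx
      rw [Matrix.mul_apply]
      apply Finset.sum_eq_single
      · intro c _ hc
        rcases lt_or_gt_of_ne hc with h | h
        · have hcv : c.val < y.val := h
          rw [(ih c (by omega) (lt_trans h hyj)).2 x (lt_of_lt_of_le h hx), zero_mul]
        · rw [hg c y hyj h, mul_zero]
      · intro h; exact absurd (Finset.mem_univ _) h
    have h1 := key y le_rfl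
    rw [hmul, Matrix.one_apply_eq] at h1
    have hne : mt g y y ≠ 0 := by
      intro h0
      rw [h0, mul_zero] at h1
      exact one_ne_zero h1
    refine ⟨hne, ?_⟩
    intro x hx
    have h2 := key x hx.le
    rw [hmul, Matrix.one_apply_ne (ne_of_gt hx)] at h2
    exact (mul_eq_zero.1 h2.symm).resolve_right hne

theorem col_perp (h2 : (2 : F) ≠ 0) (j : Fin n) (hj : 2 * j.val + 1 < n) (g : GO n F)
    (hg : ∀ a b : Fin n, b < j → b < a → mt g a b = 0) : ∀ a, Fin.rev j < a → mt g a j = 0 := by
  have main : ∀ k : ℕ, ∀ b : Fin n, b.val < k → b < j → mt g (Fin.rev b) j = 0 := by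
    intro k
    induction k with
    | zero => intro b hb; exact absurd hb (Nat.not_lt_zero _)
    | succ k ih =>
      intro b hb hbj
      have hs := star g b j
      have hne : j ≠ Fin.rev b := by
        intro h
        have h1 := congrArg Fin.val h
        rw [Fin.val_rev] at h1
        have h2 : b.val < j.val := hbj
        omega
      rw [if_neg hne] at hs
      have hsum : ∑ i, cc F i * mt g i b * mt g (Fin.rev i) j
          = cc F b * mt g b b * mt g (Fin.rev b) j := by
        apply Finset.sum_eq_single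
        · intro c _ hc
          rcases lt_or_gt_of_ne hc with h | h
          · have hcv : c.val < b.val := h
            rw [ih c (by omega) (lt_trans h hbj), mul_zero]
          · rw [hg c b hbj h, mul_zero, zero_mul]
        · intro h; exact absurd (Finset.mem_univ _) h
      rw [hsum] at hs
      have hd := (diag_ne j g hg (b.val + 1) b (Nat.lt_succ_self _) hbj).1
      exact (mul_eq_zero.1 hs).resolve_left (mul_ne_zero (cc_ne_zero h2 b) hd)
  intro a ha
  have h1 : Fin.rev a < j := by
    have := Fin.rev_lt_rev.2 ha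
    rwa [Fin.rev_rev] at this
  have := main ((Fin.rev a).val + 1) (Fin.rev a) (Nat.lt_succ_self _) h1
  rwa [Fin.rev_rev] at this

end Cfsg.Agent.Lib.H49SoCol1
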