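import Mathlib
import Cfsg.Agent.Lib.H49SoDefs
import Cfsg.Agent.Lib.H49SoPol
import Cfsg.Agent.Lib.H49SoStar
import Cfsg.Agent.Lib.H49SoInv
import Cfsg.Agent.Lib.H49SoMonB
import Cfsg.Agent.Lib.H49SoMem
import Cfsg.Agent.Lib.H49SoDiag
import Cfsg.Agent.Lib.H49SoTN
import Cfsg.Agent.Lib.H49SoMonMk

set_option autoImplicit false

/-! Project 2547 (Steinberg character of `POmega_{2m+1}(q)`), piece `Dec` (30m).

COPY of the landed `H49SuDec` (no determinant): `t = monMk 1 _ d`, `d a = mt g a a`, `d a * d (rev a) = 1` by `diag_inv` + `inv_apply`. -/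

namespace Cfsg.Agent.Lib.H49SoDec

open Matrix Cfsg.Agent.Lib.H49SoDefs
open Cfsg.Agent.Lib.H49SuDefs (Tri UT Dg Mon Tri_one Tri_mul UT_one UT_mul Dg_one Dg_mul Mon_one Mon_mul Mon_uniq sgm Inv CL)
open Cfsg.Agent.Lib.H49SoPol Cfsg.Agent.Lib.H49SoStar Cfsg.Agent.Lib.H49SoInv Cfsg.Agent.Lib.H49SoMonB Cfsg.Agent.Lib.H49SoMem Cfsg.Agent.Lib.H49SoDiag Cfsg.Agent.Lib.H49SoTN Cfsg.Agent.Lib.H49SoMonMk

variable {n : ℕ} {F : Type*} [Field F]

theorem BB_decomp (h2 : (2 : F) ≠ 0) {g : GO n F} (hg : g ∈ BB n F) :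
    ∃ u ∈ UU n F, ∃ t ∈ TT n F, g = u * t := by
  have hd : ∀ a, mt g a a * mt g (Fin.rev a) (Fin.rev a) = 1 := by
    intro a
    have e : mt g (Fin.rev a) (Fin.rev a) = mt g⁻¹ a a := by
      rw [inv_apply h2 g a a, inv_mul_cancel₀ (cc_ne_zero h2 a), one_mul]
    rw [e, diag_inv hg a]
    exact mul_inv_cancel₀ (diag_ne_zero hg a)
  obtain ⟨t, ht, htM⟩ := monMk h2 1 (fun a => rfl) (fun a => mt g a a) hd
  have htT : t ∈ TT n F := (Mon_one_iff h2).1 htM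
  have htB : t ∈ BB n F := TT_le_BB htT
  have huB : g * t⁻¹ ∈ BB n F := (BB n F).mul_mem hg ((BB n F).inv_mem htB)
  refine ⟨g * t⁻¹, ?_, t, htT, by rw [inv_mul_cancel_right]⟩
  rw [mem_UU h2]
  refine ⟨(mem_BB h2).1 huB, ?_⟩
  intro a
  rw [diag_mul hg ((BB n F).inv_mem htB) a, diag_inv htB a, ht a a]
  simp only [Equiv.Perm.one_apply, if_true]
  exact mul_inv_cancel₀ (diag_ne_zero hg a)

end Cfsg.Agent.Lib.H49SoDec
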