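import Mathlib
import Cfsg.Agent.Lib.H49SoDefs
import Cfsg.Agent.Lib.H49SoPol
import Cfsg.Agent.Lib.H49SoStar
import Cfsg.Agent.Lib.H49SoInv
import Cfsg.Agent.Lib.H49SoMonB
import Cfsg.Agent.Lib.H49SoMem

set_option autoImplicit false

/-! Project 2547 (Steinberg character of `POmega_{2m+1}(q)`), piece `NT` (10m).

COPY of the landed `H49SuNT`. -/

namespace Cfsg.Agent.Lib.H49SoNT

open Matrix Cfsg.Agent.Lib.H49SoDefs
open Cfsg.Agent.Lib.H49SuDefs (Tri UT Dg Mon Tri_one Tri_mul UT_one UT_mul Dg_one Dg_mul Mon_one Mon_mul Mon_uniq sgm Inv CL)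
open Cfsg.Agent.Lib.H49SoPol Cfsg.Agent.Lib.H49SoStar Cfsg.Agent.Lib.H49SoInv Cfsg.Agent.Lib.H49SoMonB Cfsg.Agent.Lib.H49SoMem

variable {n : ℕ} {F : Type*} [Field F]

theorem NN_conj_TT (h2 : (2 : F) ≠ 0) {g t : GO n F} (hg : g ∈ NN n F)
    (ht : t ∈ TT n F) : g * t * g⁻¹ ∈ TT n F := by
  obtain ⟨π, hπ⟩ := mem_NN.1 hg
  rw [mem_TT h2]
  intro a b hab
  have h1 := (conj_zero hπ t (π⁻¹ a) (π⁻¹ b)).2
    (ht.1 _ _ (fun e => hab (π⁻¹.injective e)))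
  rwa [show π (π⁻¹ a) = a from Equiv.apply_symm_apply π a,
    show π (π⁻¹ b) = b from Equiv.apply_symm_apply π b] at h1

end Cfsg.Agent.Lib.H49SoNT
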