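import Mathlib
import Cfsg.Agent.Lib.H49SoDefs
import Cfsg.Agent.Lib.H49SoPol
import Cfsg.Agent.Lib.H49SoStar
import Cfsg.Agent.Lib.H49SoInv
import Cfsg.Agent.Lib.H49SoMonB
import Cfsg.Agent.Lib.H49SoMem
import Cfsg.Agent.Lib.H49SoDiag
import Cfsg.Agent.Lib.H49SoTN
import Cfsg.Agent.Lib.H49SoBNT
import Cfsg.Agent.Lib.H49SuSgm

set_option autoImplicit false

/-! Project 2547 (Steinberg character of `POmega_{2m+1}(q)`), piece `Sq` (15m).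

COPY of the landed `H49SuSq`. -/

namespace Cfsg.Agent.Lib.H49SoSq

open Matrix Cfsg.Agent.Lib.H49SoDefs
open Cfsg.Agent.Lib.H49SuDefs (Tri UT Dg Mon Tri_one Tri_mul UT_one UT_mul Dg_one Dg_mul Mon_one Mon_mul Mon_uniq sgm Inv CL)
open Cfsg.Agent.Lib.H49SoPol Cfsg.Agent.Lib.H49SoStar Cfsg.Agent.Lib.H49SoInv Cfsg.Agent.Lib.H49SoMonB Cfsg.Agent.Lib.H49SoMem Cfsg.Agent.Lib.H49SoDiag Cfsg.Agent.Lib.H49SoTN Cfsg.Agent.Lib.H49SoBNT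

variable {n : ℕ} {F : Type*} [Field F]

theorem sq_mem (h2 : (2 : F) ≠ 0) {k : ℕ} {s : GO n F} (hs : Mon (sgm n k) (mt s)) :
    s * s ∈ TT n F := by
  rw [← Mon_one_iff h2, ← Cfsg.Agent.Lib.H49SuSgm.sgm_mul_self n k, mt_mul]
  exact Mon_mul hs hs

theorem inj (h2 : (2 : F) ≠ 0) {k k' : ℕ} (hk : 2 * k + 2 ≤ n) (hk' : 2 * k' + 2 ≤ n)
    {s s' : GO n F} (hs : Mon (sgm n k) (mt s)) (hs' : Mon (sgm n k') (mt s')) (hB : s⁻¹ * s' ∈ BB n F) :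
    k = k' := by
  have h1 : Mon ((sgm n k)⁻¹ * sgm n k') (mt (s⁻¹ * s')) := by
    rw [mt_mul]
    exact Mon_mul (Mon_inv hs) hs'
  have h2' : s⁻¹ * s' ∈ NN n F := mem_NN.2 ⟨_, h1⟩
  have h3 : s⁻¹ * s' ∈ TT n F := by
    rw [← BB_inf_NN h2]
    exact ⟨hB, h2'⟩
  have h4 := (Mon_one_iff h2).2 h3
  have h5 := Mon_uniq h1 h4
  apply Cfsg.Agent.Lib.H49SuSgm.sgm_inj hk hk'
  exact (inv_mul_eq_one.mp h5)

end Cfsg.Agent.Lib.H49SoSq
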