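import Mathlib
import Cfsg.Agent.Lib.H49SoDefs
import Cfsg.Agent.Lib.H49SoPol
import Cfsg.Agent.Lib.H49SoStar
import Cfsg.Agent.Lib.H49SoInv
import Cfsg.Agent.Lib.H49SoMonB
import Cfsg.Agent.Lib.H49SoMem
import Cfsg.Agent.Lib.H49SoDiag
import Cfsg.Agent.Lib.H49SoTN
import Cfsg.Agent.Lib.H49SoBNT
import Cfsg.Agent.Lib.H49SoSq
import Cfsg.Agent.Lib.H49SoRootGL
import Cfsg.Agent.Lib.H49SoRootOdd
import Cfsg.Agent.Lib.H49SuSgm
import Cfsg.Agent.Lib.H49SuInvD

set_option autoImplicit false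

/-! Project 2547 (Steinberg character of `POmega_{2m+1}(q)`), piece `Ne` (25m).

COPY of the landed `H49SuNe` (`exists_ne_one`: `RootGL.exists_x` with `t = 1`, `RootOdd.exists_x` with `α = 1`; here `n` is odd so `2k+2 ≤ n` means `2k+3 < n` or `2k+3 = n`). -/

namespace Cfsg.Agent.Lib.H49SoNe

open Matrix Cfsg.Agent.Lib.H49SoDefs
open Cfsg.Agent.Lib.H49SuDefs (Tri UT Dg Mon Tri_one Tri_mul UT_one UT_mul Dg_one Dg_mul Mon_one Mon_mul Mon_uniq sgm Inv CL)
open Cfsg.Agent.Lib.H49SoPol Cfsg.Agent.Lib.H49SoStar Cfsg.Agent.Lib.H49SoInv Cfsg.Agent.Lib.H49SoMonB Cfsg.Agent.Lib.H49SoMem Cfsg.Agent.Lib.H49SoDiag Cfsg.Agent.Lib.H49SoTN Cfsg.Agent.Lib.H49SoBNT Cfsg.Agent.Lib.H49SoSq Cfsg.Agent.Lib.H49SoRootGL Cfsg.Agent.Lib.H49SoRootOdd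

variable {n : ℕ} {F : Type*} [Field F]

theorem exists_ne_one (h2 : (2 : F) ≠ 0) (hn : n % 2 = 1) (k : ℕ) (hk : 2 * k + 2 ≤ n) :
    ∃ x ∈ XX n F k, x ≠ 1 := by
  let a : Fin n := ⟨k, by omega⟩
  let b : Fin n := ⟨k + 1, by omega⟩
  have hab : a ≠ b := by
    intro h
    have := congrArg Fin.val h
    simp [a, b] at this
  rcases lt_or_ge (2 * k + 3) n with h | h
  · obtain ⟨x, hx, hm⟩ := H49SoRootGL.exists_x h2 h a b rfl rfl (1 : F)
    refine ⟨x, hx, ?_⟩
    rintro rfl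
    have h1 := congrFun (congrFun hm a) b
    have hne : ¬ (Fin.rev b = a ∧ Fin.rev a = b) := by
      rintro ⟨h2, -⟩
      have := congrArg Fin.val h2
      simp [a, b, Fin.val_rev] at this
      omega
    rw [mt_one] at h1
    simp only [Matrix.sub_apply, Matrix.add_apply, Matrix.one_apply_ne hab, Matrix.single_apply,
      and_self, if_true, if_neg hne] at h1
    simp at h1
  · have h' : 2 * k + 3 = n := by omega
    let c : Fin n := ⟨k + 2, by omega⟩
    have hac : a ≠ c := by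
      intro h
      have := congrArg Fin.val h
      simp [a, c] at this
    have hbc : b ≠ c := by
      intro h
      have := congrArg Fin.val h
      simp [b, c] at this
    obtain ⟨x, hx, hm⟩ := H49SoRootOdd.exists_x h2 h' a b c rfl rfl rfl (1 : F)
    refine ⟨x, hx, ?_⟩
    rintro rfl
    have h1 := congrFun (congrFun hm b) c
    rw [mt_one] at h1
    simp only [Matrix.sub_apply, Matrix.add_apply, Matrix.one_apply_ne hbc, Matrix.single_apply] at h1
    simp [hab] at h1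

theorem conj_not_mem (h2 : (2 : F) ≠ 0) {k : ℕ} {s : GO n F}
    (hs : Mon (sgm n k) (mt s)) {x : GO n F} (hx : x ∈ XX n F k) (h1 : x ≠ 1) : s * x * s ∉ BB n F := by
  intro hB
  have h3 : s * x * s⁻¹ ∈ BB n F := by
    have : s * x * s⁻¹ = (s * x * s) * (s * s)⁻¹ := by group
    rw [this]
    exact (BB n F).mul_mem hB ((BB n F).inv_mem (TT_le_BB (sq_mem h2 hs)))
  have hex : ∃ a b, a ≠ b ∧ mt x a b ≠ 0 := by
    by_contra hcon
    push Not at hcon
    apply h1
    apply mt_inj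
    rw [mt_one]
    ext a b
    by_cases hab : a = b
    · subst hab; rw [hx.1 a, Matrix.one_apply_eq]
    · rw [hcon a b hab, Matrix.one_apply_ne hab]
  obtain ⟨a, b, hab, hne⟩ := hex
  have hinv := hx.2 a b hab hne
  have h4 := (mem_BB h2).1 h3 (sgm n k a) (sgm n k b) hinv.2
  exact hne ((conj_zero hs x a b).1 h4)

end Cfsg.Agent.Lib.H49SoNe
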