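import Mathlib
import Cfsg.Agent.Lib.H49SoDefs
import Cfsg.Agent.Lib.H49SoPol
import Cfsg.Agent.Lib.H49SoStar
import Cfsg.Agent.Lib.H49SoInv
import Cfsg.Agent.Lib.H49SoMonB
import Cfsg.Agent.Lib.H49SoMem
import Cfsg.Agent.Lib.H49SoDiag

set_option autoImplicit false

/-! Project 2547 (Steinberg character of `POmega_{2m+1}(q)`), piece `Nor` (15m).

COPY of the landed `H49SuNor`. -/

namespace Cfsg.Agent.Lib.H49SoNor

open Matrix Cfsg.Agent.Lib.H49SoDefs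
open Cfsg.Agent.Lib.H49SuDefs (Tri UT Dg Mon Tri_one Tri_mul UT_one UT_mul Dg_one Dg_mul Mon_one Mon_mul Mon_uniq sgm Inv CL)
open Cfsg.Agent.Lib.H49SoPol Cfsg.Agent.Lib.H49SoStar Cfsg.Agent.Lib.H49SoInv Cfsg.Agent.Lib.H49SoMonB Cfsg.Agent.Lib.H49SoMem Cfsg.Agent.Lib.H49SoDiag

variable {n : ℕ} {F : Type*} [Field F]

theorem BB_conj_UU (h2 : (2 : F) ≠ 0) {b u : GO n F} (hb : b ∈ BB n F)
    (hu : u ∈ UU n F) : b * u * b⁻¹ ∈ UU n F := by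
  have hu' : u ∈ BB n F := UU_le_BB hu
  have h1 : b * u * b⁻¹ ∈ BB n F :=
    (BB n F).mul_mem ((BB n F).mul_mem hb hu') ((BB n F).inv_mem hb)
  rw [mem_UU h2]
  refine ⟨h1.1, ?_⟩
  intro a
  rw [diag_mul ((BB n F).mul_mem hb hu') ((BB n F).inv_mem hb), diag_mul hb hu', hu.1.2 a, mul_one,
    diag_inv hb]
  exact mul_inv_cancel₀ (diag_ne_zero hb a)

theorem UU_inf_TT {g : GO n F} (hU : g ∈ UU n F) (hT : g ∈ TT n F) : g = 1 := by
  apply mt_inj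
  rw [mt_one]
  ext a b
  by_cases h : a = b
  · subst h
    rw [hU.1.2 a, Matrix.one_apply_eq]
  · rw [hT.1 a b h, Matrix.one_apply_ne h]

end Cfsg.Agent.Lib.H49SoNor
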