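import Mathlib
import Cfsg.Agent.Lib.H49SoDefs
import Cfsg.Agent.Lib.H49SoPol
import Cfsg.Agent.Lib.H49SoStar
import Cfsg.Agent.Lib.H49SoInv
import Cfsg.Agent.Lib.H49SoMonB
import Cfsg.Agent.Lib.H49SoMem
import Cfsg.Agent.Lib.H49SoDiag
import Cfsg.Agent.Lib.H49SoB1
import Cfsg.Agent.Lib.H49SoHalf
import Cfsg.Agent.Lib.H49SoRootOdd
import Cfsg.Agent.Lib.H49SuSgm
import Cfsg.Agent.Lib.H49SuInvD
import Cfsg.Agent.Lib.Helper65SoAdj

set_option autoImplicit false

/-! Project 2547 (Steinberg character of `POmega_{2m+1}(q)`), piece `RankOdd` (60m).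

Compare the landed `H49SuRankOdd`.  `a = k`, `b = k+1`, `c = k+2`.  For `x ∈ XX` put `α = x b c`.  By `inv_apply`, `x⁻¹ e_c = (x a c) e_a + (x a b / 2) e_b + e_c`; by `star`/`x x⁻¹ = 1`: `x a b = -2α`, `x a c = -α²`; `x ≠ 1` forces `α ≠ 0`.  So `x⁻¹ e_c = -α² e_a - α e_b + e_c`.
Take `z = RootOdd.exists_y α⁻¹`: `z e_a = e_a + α⁻¹ e_b - α⁻² e_c = -α⁻² x⁻¹ e_c`, so `x z e_a = -α⁻² e_c`.  `y = z⁻¹ = exists_y (-α⁻¹)` (or show `z⁻¹ ∈ YY` by `inv_apply`).  `g = s * x * z ∈ BB` by `half`: only the columns `e ≤ a` matter; `x z e_e = e_e` for `e < a`, and `s e_c ∈ F e_a`. -/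

namespace Cfsg.Agent.Lib.H49SoRankOdd

open Matrix Cfsg.Agent.Lib.H49SoDefs
open Cfsg.Agent.Lib.H49SuDefs (Tri UT Dg Mon Tri_one Tri_mul UT_one UT_mul Dg_one Dg_mul Mon_one Mon_mul Mon_uniq sgm Inv CL)
open Cfsg.Agent.Lib.H49SoPol Cfsg.Agent.Lib.H49SoStar Cfsg.Agent.Lib.H49SoInv Cfsg.Agent.Lib.H49SoMonB Cfsg.Agent.Lib.H49SoMem Cfsg.Agent.Lib.H49SoDiag Cfsg.Agent.Lib.H49SoB1 Cfsg.Agent.Lib.H49SoHalf Cfsg.Agent.Lib.H49SoRootOdd

open Cfsg.Agent.Lib.Helper65SoAdj Cfsg.Agent.Lib.H49SuInvD Cfsg.Agent.Lib.H49SuSgm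

variable {n : ℕ} {F : Type*} [Field F]

theorem rank_one (h2 : (2 : F) ≠ 0) {k : ℕ} (hk : 2 * k + 3 = n) {s : GO n F}
    (hs : Mon (sgm n k) (mt s)) {x : GO n F} (hx : x ∈ XX n F k) (h1 : x ≠ 1) :
    ∃ g ∈ BB n F, ∃ y ∈ YY n F k, s * x = g * y := by
  obtain ⟨a, ha⟩ : ∃ a : Fin n, a.val = k := ⟨⟨k, by omega⟩, rfl⟩
  obtain ⟨b, hb⟩ : ∃ b : Fin n, b.val = k + 1 := ⟨⟨k + 1, by omega⟩, rfl⟩
  obtain ⟨c, hc⟩ : ∃ c : Fin n, c.val = k + 2 := ⟨⟨k + 2, by omega⟩, rfl⟩
  have hra : Fin.rev a = c := by apply Fin.ext; rw [Fin.val_rev]; omega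
  have hrb : Fin.rev b = b := by apply Fin.ext; rw [Fin.val_rev]; omega
  have hrc : Fin.rev c = a := by apply Fin.ext; rw [Fin.val_rev]; omega
  have hab : a ≠ b := fun e => by have := congrArg Fin.val e; omega
  have hac : a ≠ c := fun e => by have := congrArg Fin.val e; omega
  have hbc : b ≠ c := fun e => by have := congrArg Fin.val e; omega
  have ca : cc F a = 1 := if_neg (by rw [hra]; exact hac)
  have cb : cc F b = 2 := if_pos hrb.symm
  have ccc : cc F c = 1 := if_neg (by rw [hrc]; exact hac.symm)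
  obtain ⟨p, hp⟩ : ∃ p, p = mt x a b := ⟨_, rfl⟩
  obtain ⟨r, hr⟩ : ∃ r, r = mt x a c := ⟨_, rfl⟩
  obtain ⟨α, hα⟩ : ∃ α, α = mt x b c := ⟨_, rfl⟩
  have hxm : mt x = 1 + Matrix.single a b p + Matrix.single a c r + Matrix.single b c α := by
    ext i j
    rw [Matrix.add_apply, Matrix.add_apply, Matrix.add_apply]
    by_cases hij : i = j
    · subst hij
      rw [hx.1, Matrix.one_apply_eq,
        Matrix.single_apply_of_ne _ _ _ _ _ (fun e => hab (e.1.trans e.2.symm)),
        Matrix.single_apply_of_ne _ _ _ _ _ (fun e => hac (e.1.trans e.2.symm)),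
        Matrix.single_apply_of_ne _ _ _ _ _ (fun e => hbc (e.1.trans e.2.symm))]
      simp
    · rw [Matrix.one_apply_ne hij, zero_add]
      by_cases e1 : a = i ∧ b = j
      · obtain ⟨rfl, rfl⟩ := e1
        rw [Matrix.single_apply_same, Matrix.single_apply_of_ne _ _ _ _ _ (fun e => hbc e.2.symm),
          Matrix.single_apply_of_ne _ _ _ _ _ (fun e => hab e.1.symm), add_zero, add_zero, hp]
      · rw [Matrix.single_apply_of_ne _ _ _ _ _ e1, zero_add]
        by_cases e2 : a = i ∧ c = j
        · obtain ⟨rfl, rfl⟩ := e2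
          rw [Matrix.single_apply_same, Matrix.single_apply_of_ne _ _ _ _ _ (fun e => hab e.1.symm),
            add_zero, hr]
        · rw [Matrix.single_apply_of_ne _ _ _ _ _ e2, zero_add]
          by_cases e3 : b = i ∧ c = j
          · obtain ⟨rfl, rfl⟩ := e3
            rw [Matrix.single_apply_same, hα]
          · rw [Matrix.single_apply_of_ne _ _ _ _ _ e3]
            by_contra hne
            have := (Inv_odd hk i j).1 (hx.2 i j hij hne)
            rcases this with ⟨h1, h2⟩ | ⟨h1, h2⟩ | ⟨h1, h2⟩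
            · exact e1 ⟨Fin.ext (by omega), Fin.ext (by omega)⟩
            · exact e2 ⟨Fin.ext (by omega), Fin.ext (by omega)⟩
            · exact e3 ⟨Fin.ext (by omega), Fin.ext (by omega)⟩
  have hrel : p = -(2 * α) ∧ r = -(α ^ 2) := by
    have h := adjO_mul_self h2 x
    rw [hxm, adjO_add, adjO_add, adjO_add, adjO_one h2, adjO_single, adjO_single, adjO_single,
      hra, hrb, hrc, ca, cb, ccc] at h
    simp only [mul_add, add_mul, mul_one, one_mul, Matrix.single_mul_single_same,
      Matrix.single_mul_single_of_ne _ _ _ _ hac.symm, Matrix.single_mul_single_of_ne _ _ _ _ hbc.symm,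
      Matrix.single_mul_single_of_ne _ _ _ _ hab.symm] at h
    have h3 := congrFun (congrFun h a) b
    have h4 := congrFun (congrFun h a) c
    simp only [Matrix.add_apply, Matrix.one_apply_ne hab, Matrix.single_apply_same,
      Matrix.single_apply_of_ne _ _ _ _ _ (fun e : a = a ∧ c = b => hbc e.2.symm),
      Matrix.single_apply_of_ne _ _ _ _ _ (fun e : b = a ∧ c = b => hab e.1.symm),
      Matrix.zero_apply, add_zero, zero_add] at h3
    simp only [Matrix.add_apply, Matrix.one_apply_ne hac, Matrix.single_apply_same,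
      Matrix.single_apply_of_ne _ _ _ _ _ (fun e : a = a ∧ b = c => hbc e.2),
      Matrix.single_apply_of_ne _ _ _ _ _ (fun e : b = a ∧ c = c => hab e.1.symm),
      Matrix.zero_apply, add_zero, zero_add] at h4
    have h5 : p = -(2 * α) := by
      simp only [inv_one, one_mul] at h3
      linear_combination h3
    refine ⟨h5, ?_⟩
    simp only [inv_one, one_mul] at h4
    have h6 : 2 * (r + α ^ 2) = 0 := by linear_combination h4
    have h7 := (mul_eq_zero.1 h6).resolve_left h2
    linear_combination h7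
  obtain ⟨hp2, hr2⟩ := hrel
  have hα0 : α ≠ 0 := by
    intro h0
    apply h1
    apply mt_inj
    rw [hxm, hp2, hr2, h0, mt_one]
    simp
  obtain ⟨β, hβ⟩ : ∃ β, β = α⁻¹ := ⟨_, rfl⟩
  have hαβ : α * β = 1 := by rw [hβ, mul_inv_cancel₀ hα0]
  obtain ⟨z, hz, hzm⟩ := exists_y h2 hk a b c ha hb hc β
  obtain ⟨y, hy, hym⟩ := exists_y h2 hk a b c ha hb hc (-β)
  have hzy : z * y = 1 := by
    apply mt_inj
    rw [mt_mul, hzm, hym, mt_one]
    have e1 : (2 : F) * -β = -(2 * β) := by ring
    have e2 : (-β) ^ 2 = β ^ 2 := by ring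
    rw [e1, e2, single_neg', single_neg']
    simp only [mul_add, add_mul, mul_sub, sub_mul, mul_neg, neg_mul, mul_one, one_mul,
      Matrix.single_mul_single_same,
      Matrix.single_mul_single_of_ne _ _ _ _ hab, Matrix.single_mul_single_of_ne _ _ _ _ hac,
      Matrix.single_mul_single_of_ne _ _ _ _ hbc]
    have h0 : Matrix.single c a (2 * β * β) =
        Matrix.single c a (β ^ 2) + (Matrix.single c a (β ^ 2) : Matrix (Fin n) (Fin n) F) := by
      rw [← Matrix.single_add]
      congr 1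
      ring
    rw [h0]
    abel
  refine ⟨s * x * z, ?_, y, hy, ?_⟩
  swap
  · rw [mul_assoc (s * x), hzy, mul_one]
  apply half h2
  intro i j hji hj
  have hjb : b ≠ j := fun e => by have := congrArg Fin.val e; omega
  have hjc : c ≠ j := fun e => by have := congrArg Fin.val e; omega
  have hN : ∀ d, (mt x * mt z) d j = (1 : Matrix (Fin n) (Fin n) F) d j
      - Matrix.single c a (β ^ 2) d j + Matrix.single b a β d j
      - Matrix.single a a (2 * α * β) d j + Matrix.single a a (α ^ 2 * β ^ 2) d j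
      - Matrix.single b a (α * β ^ 2) d j := by
    intro d
    rw [hxm, hzm, hp2, hr2, single_neg', single_neg']
    simp only [mul_add, add_mul, mul_sub, sub_mul, mul_neg, neg_mul, mul_one, one_mul,
      Matrix.single_mul_single_same,
      Matrix.single_mul_single_of_ne _ _ _ _ hbc, Matrix.single_mul_single_of_ne _ _ _ _ hbc.symm]
    simp only [Matrix.add_apply, Matrix.neg_apply, Matrix.sub_apply, Matrix.zero_apply,
      Matrix.single_apply_of_col_ne _ _ hjb, Matrix.single_apply_of_col_ne _ _ hjc]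
    ring
  have hσc : sgm n k c = a := by
    apply Fin.ext
    rw [sgm_val_last (by omega) (by omega), if_neg (by omega), if_pos (by omega), ha]
  rw [mul_assoc, mt_mul, mt_mul, Matrix.mul_apply]
  apply Finset.sum_eq_zero
  intro d _
  by_contra hne
  have hs1 : mt s i d ≠ 0 := left_ne_zero_of_mul hne
  have hN1 : (mt x * mt z) d j ≠ 0 := right_ne_zero_of_mul hne
  have hi : i = sgm n k d := (hs i d).1 hs1
  rw [hN] at hN1
  by_cases hja : j = a
  · subst hja
    by_cases hdc : d = c
    · subst hdc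
      rw [hσc] at hi
      exact absurd hji (by rw [hi]; exact lt_irrefl _)
    · apply hN1
      by_cases hda : d = j
      · subst hda
        rw [Matrix.one_apply_eq, Matrix.single_apply_same, Matrix.single_apply_same,
          Matrix.single_apply_of_ne _ _ _ _ _ (fun e => hac e.1.symm),
          Matrix.single_apply_of_ne _ _ _ _ _ (fun e => hab e.1.symm),
          Matrix.single_apply_of_ne _ _ _ _ _ (fun e => hab e.1.symm)]
        linear_combination (α * β - 1) * hαβ
      · by_cases hdb : d = b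
        · subst hdb
          rw [Matrix.one_apply_ne hda, Matrix.single_apply_same, Matrix.single_apply_same,
            Matrix.single_apply_of_ne _ _ _ _ _ (fun e => hdc e.1.symm),
            Matrix.single_apply_of_ne _ _ _ _ _ (fun e => hda e.1.symm),
            Matrix.single_apply_of_ne _ _ _ _ _ (fun e => hda e.1.symm)]
          linear_combination (-β) * hαβ
        · rw [Matrix.one_apply_ne hda,
            Matrix.single_apply_of_ne _ _ _ _ _ (fun e => hdc e.1.symm),
            Matrix.single_apply_of_ne _ _ _ _ _ (fun e => hdb e.1.symm),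
            Matrix.single_apply_of_ne _ _ _ _ _ (fun e => hda e.1.symm),
            Matrix.single_apply_of_ne _ _ _ _ _ (fun e => hda e.1.symm),
            Matrix.single_apply_of_ne _ _ _ _ _ (fun e => hdb e.1.symm)]
          ring
  · have hja' : a ≠ j := fun e => hja e.symm
    by_cases hdj : d = j
    · subst hdj
      have : sgm n k d = d := by
        apply Fin.ext
        have h1 : d.val ≠ k := fun e => hja (Fin.ext (by omega))
        rw [sgm_val_last (by omega) (by omega), if_neg h1, if_neg (by omega)]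
      rw [this] at hi
      exact absurd hji (by rw [hi]; exact lt_irrefl _)
    · apply hN1
      rw [Matrix.one_apply_ne hdj, Matrix.single_apply_of_col_ne _ _ hja',
        Matrix.single_apply_of_col_ne _ _ hja', Matrix.single_apply_of_col_ne _ _ hja',
        Matrix.single_apply_of_col_ne _ _ hja', Matrix.single_apply_of_col_ne _ _ hja']
      ring

end Cfsg.Agent.Lib.H49SoRankOdd
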