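import Mathlib
import Cfsg.Agent.Lib.H49SoDefs
import Cfsg.Agent.Lib.H49SoNor
import Cfsg.Agent.Lib.H49SoPG
import Cfsg.Agent.Lib.H49SoTP
import Cfsg.Agent.Lib.H49SoCUT
import Cfsg.Agent.S0026

set_option autoImplicit false

/-! Project 2547 (Steinberg character of `POmega_{2m+1}(q)`), piece `UK` (35m).

`U ≤ [G, G]`, by coprime action of the torus on the unipotent radical. -/

namespace Cfsg.Agent.Lib.H49SoUK

open Matrix Cfsg.Agent.Lib.H49SoDefs
open Cfsg.Agent.Lib.H49SuDefs (Tri UT Dg Mon Tri_one Tri_mul UT_one UT_mul Dg_one Dg_mul Mon_one Mon_mul Mon_uniq sgm Inv CL)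
open Cfsg.Agent.Lib.H49SoNor Cfsg.Agent.Lib.H49SoPG Cfsg.Agent.Lib.H49SoTP Cfsg.Agent.Lib.H49SoCUT

variable {n : ℕ} {F : Type*} [Field F]

theorem UU_le [Fintype F] (h2 : (2 : F) ≠ 0) (p : ℕ) [Fact p.Prime] [CharP F p] : UU n F ≤ commutator (GO n F) := by
  classical
  haveI : Finite (GO n F) := inferInstance
  have hp : p.Prime := Fact.out
  have hPG : IsPGroup p (UU n F) := isPGroup_UU p
  have hnorm : TT n F ≤ Subgroup.normalizer (UU n F : Set (GO n F)) := by
    intro t ht
    rw [Subgroup.mem_normalizer_iff]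
    intro u
    constructor
    · intro hu
      exact BB_conj_UU h2 (TT_le_BB ht) hu
    · intro hu
      have := BB_conj_UU h2 (TT_le_BB ((TT n F).inv_mem ht)) hu
      have e : t⁻¹ * (t * u * t⁻¹) * t⁻¹⁻¹ = u := by group
      rwa [e] at this
  have hcop : (Nat.card (TT n F)).Coprime (Nat.card (UU n F)) := by
    obtain ⟨k, hk⟩ := IsPGroup.iff_card.mp hPG
    rw [hk]
    apply Nat.Coprime.pow_right
    exact ((Nat.Prime.coprime_iff_not_dvd hp).mpr (not_dvd_card_TT p)).symm
  have hsolv : Group.IsSolvable (TT n F) ∨ Group.IsSolvable (UU n F) := by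
    right
    haveI := hPG.isNilpotent
    exact IsNilpotent.to_isSolvable
  have key := Cfsg.Agent.S0026.result (TT n F) (UU n F) hnorm hcop hsolv
  have hbot : UU n F ⊓ Subgroup.centralizer (TT n F : Set (GO n F)) = ⊥ := by
    rw [Subgroup.eq_bot_iff_forall]
    rintro u ⟨hu, hc⟩
    apply cent_eq_one h2 hu
    intro t ht
    exact Subgroup.mem_centralizer_iff.mp hc t ht
  rw [hbot, sup_bot_eq] at key
  rw [← key, commutator_def]
  exact Subgroup.commutator_mono le_top le_top

end Cfsg.Agent.Lib.H49SoUK
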