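import Mathlib
import Cfsg.Agent.Lib.H49SuDefs
import Cfsg.Prelude.Def_Characters
import Cfsg.Agent.Lib.Helper83Char

set_option autoImplicit false

/-! Project 2546 (Steinberg character of `PSU_n(q)`), piece `Transport` (45m).

Generic: the statement of S2544-S2549 is invariant under isomorphism.  `e` maps the centre onto the centre, so it induces `ē : G ⧸ Z(G) ≃* G' ⧸ Z(G')` (`QuotientGroup.congr _ _ e (by ...)`, `Subgroup.map_equiv_eq_comap_symm`, `MulEquiv` and `Subgroup.center`: `Subgroup.Characteristic`/`e.map_center`..).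
`χ = ψ ∘ ē`.  Irreducibility: search the library for the transport of `Cfsg.IsIrrCharacter` along a `MulEquiv` (grep `IsIrrCharacter` + `≃*` in Cfsg/Agent/Lib, e.g. helper19/helper82/helper83 files) or compose the representation with `ē`.  A Sylow subgroup `Q` of `G/Z` is mapped to the Sylow subgroup `Q.map ē` (`Sylow.comapOfInjective`/`Sylow.mapSurjective`, or `Q.comap ē.symm`), of the same cardinality. -/

namespace Cfsg.Agent.Lib.H49SuTransport

open Matrix Cfsg.Agent.Lib.H49SuDefs

variable {n : ℕ} {F : Type*} [Field F] {q : ℕ}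

theorem transport {G G' : Type*} [Group G] [Group G'] (e : G ≃* G') (p : ℕ) [Fact p.Prime]
    (h : ∃ ψ : G' ⧸ Subgroup.center G' → ℂ, Cfsg.IsIrrCharacter (G' ⧸ Subgroup.center G') ψ ∧
      ∀ Q : Sylow p (G' ⧸ Subgroup.center G'), ψ 1 = Nat.card Q ∧
        ∀ x : G' ⧸ Subgroup.center G', x ∈ Q → x ≠ 1 → ψ x = 0) :
    ∃ ψ : G ⧸ Subgroup.center G → ℂ, Cfsg.IsIrrCharacter (G ⧸ Subgroup.center G) ψ ∧
      ∀ Q : Sylow p (G ⧸ Subgroup.center G), ψ 1 = Nat.card Q ∧
        ∀ x : G ⧸ Subgroup.center G, x ∈ Q → x ≠ 1 → ψ x = 0 := by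
  obtain ⟨ψ, hirr, hψ⟩ := h
  have hmap : (Subgroup.center G).map e.toMonoidHom = Subgroup.center G' := by
    ext y
    constructor
    · rintro ⟨z, hz, rfl⟩
      replace hz : z ∈ Subgroup.center G := hz
      rw [Subgroup.mem_center_iff] at hz ⊢
      intro g'
      obtain ⟨g, rfl⟩ := e.surjective g'
      show e g * e z = e z * e g
      rw [← map_mul, ← map_mul, hz g]
    · intro hy
      refine ⟨e.symm y, ?_, by simp⟩
      show e.symm y ∈ Subgroup.center G
      rw [Subgroup.mem_center_iff] at hy ⊢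
      intro g
      apply e.injective
      rw [map_mul, map_mul, e.apply_symm_apply]
      exact hy (e g)
  let ē : G ⧸ Subgroup.center G ≃* G' ⧸ Subgroup.center G' := QuotientGroup.congr _ _ e hmap
  refine ⟨ψ ∘ ē, Cfsg.Agent.Lib.Helper83Char.irr_comp_mulEquiv ē hirr, ?_⟩
  intro Q
  let Q' : Sylow p (G' ⧸ Subgroup.center G') :=
    Q.comapOfInjective ē.symm.toMonoidHom ē.symm.injective (by
      intro x _
      exact ⟨ē x, by simp⟩)
  have hQ' : ∀ x', x' ∈ Q' ↔ ē.symm x' ∈ Q := fun x' => Iff.rfl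
  have hc : Nat.card Q' = Nat.card Q := by
    show Nat.card (Subgroup.comap ē.symm.toMonoidHom (Q : Subgroup _)) = _
    refine Nat.card_congr ⟨fun x => ⟨ē.symm x.1, x.2⟩, fun y => ⟨ē y.1, ?_⟩, ?_, ?_⟩
    · show ē.symm (ē y.1) ∈ Q
      rw [ē.symm_apply_apply]
      exact y.2
    · intro x
      apply Subtype.ext
      exact ē.apply_symm_apply x.1
    · intro y
      apply Subtype.ext
      exact ē.symm_apply_apply y.1
  obtain ⟨h1, h2⟩ := hψ Q'
  refine ⟨?_, ?_⟩
  · show ψ (ē 1) = _
    rw [map_one, h1, hc]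
  · intro x hx hx1
    show ψ (ē x) = 0
    apply h2
    · rw [hQ', ē.symm_apply_apply]
      exact hx
    · intro h
      apply hx1
      apply ē.injective
      rw [h, map_one]

end Cfsg.Agent.Lib.H49SuTransport
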