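import Mathlib
import Cfsg.Agent.Lib.H49SoDefs
import Cfsg.Agent.Lib.H49SkHub
import Cfsg.Agent.Lib.H49SuInvDich
import Cfsg.Agent.Lib.H49SuTransport
import Cfsg.Agent.Lib.H49SoMem
import Cfsg.Agent.Lib.H49SoTN
import Cfsg.Agent.Lib.H49SoBNT
import Cfsg.Agent.Lib.H49SoNT
import Cfsg.Agent.Lib.H49SoRefl
import Cfsg.Agent.Lib.H49SoSq
import Cfsg.Agent.Lib.H49SoCl
import Cfsg.Agent.Lib.H49SoA2
import Cfsg.Agent.Lib.H49SoB1
import Cfsg.Agent.Lib.H49SoClearGL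
import Cfsg.Agent.Lib.H49SoClearOdd
import Cfsg.Agent.Lib.H49SoRankGL
import Cfsg.Agent.Lib.H49SoRankOdd
import Cfsg.Agent.Lib.H49SoNe
import Cfsg.Agent.Lib.H49SoW0
import Cfsg.Agent.Lib.H49SoDec
import Cfsg.Agent.Lib.H49SoNor
import Cfsg.Agent.Lib.H49SoPG
import Cfsg.Agent.Lib.H49SoTP
import Cfsg.Agent.Lib.H49SoSup
import Cfsg.Agent.Lib.H49SoUK
import Cfsg.Agent.Lib.H49SoIsoO
import Cfsg.Agent.Lib.H49SoIsoC

set_option autoImplicit false

/-! Project 2547: the BN-pair of `O_n(F)` (`n` odd, characteristic not 2) and the Steinberg character of `PΩ_{2m+1}(q)`. -/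

namespace Cfsg.Agent.Lib.H49SoHub

open Matrix Cfsg.Agent.Lib.H49SoDefs Cfsg.Agent.Lib.H49SkDefs
open Cfsg.Agent.Lib.H49SuDefs (Tri UT Dg Mon sgm Inv CL)

variable {n : ℕ} {F : Type*} [Field F]

theorem clear (h2 : (2 : F) ≠ 0) (hn : n % 2 = 1) {k : ℕ} (hk : 2 * k + 2 ≤ n) {g : GO n F} (hg : g ∈ BB n F) :
    ∃ c ∈ BB n F, ∃ x ∈ XX n F k, (∀ a b, Inv n k a b → mt c a b = 0) ∧ g = c * x := by
  rcases Nat.lt_or_ge (2 * k + 3) n with h | h
  · exact H49SoClearGL.clear h2 h hg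
  · exact H49SoClearOdd.clear h2 (by omega) hg

theorem rank_one (h2 : (2 : F) ≠ 0) (hn : n % 2 = 1) {k : ℕ} (hk : 2 * k + 2 ≤ n) {s : GO n F}
    (hs : Mon (sgm n k) (mt s)) {x : GO n F} (hx : x ∈ XX n F k) (h1 : x ≠ 1) :
    ∃ g ∈ BB n F, ∃ y ∈ YY n F k, s * x = g * y := by
  rcases Nat.lt_or_ge (2 * k + 3) n with h | h
  · exact H49SoRankGL.rank_one h2 h hs hx h1
  · exact H49SoRankOdd.rank_one h2 (by omega) hs hx h1

/-- **The BN-pair of `O_n(F)`, `n` odd.** -/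
noncomputable def bn (h2 : (2 : F) ≠ 0) (hn : n % 2 = 1) : Cfsg.BNPair (GO n F) where
  B := BB n F
  N := NN n F
  S := SS n F
  sup_eq_top := H49SoSup.sup_eq_top h2
  conj_mem := by
    intro g hg t ht
    rw [H49SoBNT.BB_inf_NN h2] at ht
    exact TT_le_BB (H49SoNT.NN_conj_TT h2 hg ht)
  subset := H49SoRefl.SS_subset h2
  sq_mem := by
    rintro s ⟨k, hk, rfl⟩
    exact TT_le_BB (H49SoSq.sq_mem h2 (H49SoRefl.Mon_sk h2 k))
  inj := by
    rintro s ⟨k, hk, rfl⟩ s' ⟨k', hk', rfl⟩ hB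
    rw [H49SoSq.inj h2 hk hk' (H49SoRefl.Mon_sk h2 k) (H49SoRefl.Mon_sk h2 k') hB]
  closure_sup := H49SoCl.closure_sup h2
  mul_mem_union := by
    rintro s ⟨k, hk, rfl⟩ g hg β hβ
    obtain ⟨π, hπ⟩ := H49SoMem.mem_NN.1 hg
    have hπ' := H49SoMonB.Mon_inv hπ
    have hs := H49SoRefl.Mon_sk (n := n) h2 k
    refine H49SgG1.mul_mem_union (BB n F) (sk n F k) g (XX n F k) (YY n F k) ?_ ?_ ?_ β hβ
    · intro b hb
      obtain ⟨c, hc, x, hx, h0, e⟩ := clear h2 hn hk hb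
      exact ⟨c, hc, x, hx, H49SoA2.conj_mem_BB h2 hs hc h0, e⟩
    · rcases H49SuInvDich.inv_dich n k π⁻¹ (H49SoMonB.Mon_rev h2 hπ') with h | h
      · left
        intro x hx
        have := H49SoB1.conj_XX h2 hπ' h hx
        rwa [inv_inv] at this
      · right
        intro y hy
        have := H49SoB1.conj_YY h2 hπ' h hy
        rwa [inv_inv] at this
    · intro x hx
      by_cases h1 : x = 1
      · exact Or.inl h1
      · exact Or.inr (rank_one h2 hn hk hs hx h1)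
  conj_ne := by
    rintro s ⟨k, hk, rfl⟩ he
    obtain ⟨x, hx, h1⟩ := H49SoNe.exists_ne_one (F := F) h2 hn k hk
    have : sk n F k * x * sk n F k ∈ ((BB n F : Subgroup (GO n F)) : Set (GO n F)) := by
      rw [← he]
      exact ⟨_, UU_le_BB (H49SoB1.XX_le h2 hx), rfl⟩
    exact H49SoNe.conj_not_mem h2 (H49SoRefl.Mon_sk h2 k) hx h1 this

theorem steinberg_model [Fintype F] (p : ℕ) [Fact p.Prime] [CharP F p] (h2 : (2 : F) ≠ 0) (hn : n % 2 = 1) :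
    ∃ ψ : Cfsg.POmega F (QA n F) → ℂ, Cfsg.IsIrrCharacter (Cfsg.POmega F (QA n F)) ψ ∧
      ∀ Q : Sylow p (Cfsg.POmega F (QA n F)), ψ 1 = Nat.card Q ∧
        ∀ x : Cfsg.POmega F (QA n F), x ∈ Q → x ≠ 1 → ψ x = 0 := by
  have : Finite (GO n F) := inferInstance
  obtain ⟨m0, hm0, h0⟩ := H49SoRefl.nlift (F := F) h2 (Fin.revPerm : Equiv.Perm (Fin n)) (fun a => rfl)
  have hsp : Split (bn (F := F) h2 hn) (UU n F) (TT n F) m0 :=
    ⟨hm0, H49SoTN.TT_le_NN h2, TT_le_BB, fun β hβ => H49SoW0.mem_TT_iff h2 h0 hβ, UU_le_BB,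
      fun b hb u hu => H49SoNor.BB_conj_UU h2 hb hu, fun b hb => H49SoDec.BB_decomp h2 hb,
      fun g hU hT => H49SoNor.UU_inf_TT hU hT⟩
  have hUK : UU n F ≤ commutator (GO n F) := H49SoUK.UU_le h2 p
  have hnorm : (commutator (GO n F)).Normal := inferInstance
  refine H49SkHub.steinberg_of_normal hsp (commutator (GO n F)) hnorm hUK ?_ p
    (H49SoPG.isPGroup_UU p) (H49SoTP.not_dvd_card_TT p)
  rintro s ⟨k, hk, rfl⟩
  obtain ⟨x, hx, h1⟩ := H49SoNe.exists_ne_one (F := F) h2 hn k hk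
  obtain ⟨g, hg, y, hy, e⟩ := rank_one h2 hn hk (H49SoRefl.Mon_sk h2 k) hx h1
  obtain ⟨u, hu, t, ht, rfl⟩ := H49SoDec.BB_decomp h2 hg
  have hyK : y ∈ commutator (GO n F) := by
    have h3 := hUK (H49SoW0.conj_low h2 h0 hy)
    have h4 := hnorm.conj_mem _ h3 m0⁻¹
    have e2 : m0⁻¹ * (m0 * y * m0⁻¹) * m0⁻¹⁻¹ = y := by group
    rwa [e2] at h4
  have hxK : x ∈ commutator (GO n F) := hUK (H49SoB1.XX_le h2 hx)
  refine ⟨t⁻¹, (TT n F).inv_mem ht, ?_⟩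
  have e3 : sk n F k * t⁻¹ = u * (t * (y * x⁻¹) * t⁻¹) := by
    have : sk n F k = u * t * y * x⁻¹ := by rw [← e]; group
    rw [this]; group
  rw [e3]
  exact (commutator (GO n F)).mul_mem (hUK hu)
    (hnorm.conj_mem _ ((commutator (GO n F)).mul_mem hyK ((commutator (GO n F)).inv_mem hxK)) t)

/-- **The Steinberg character of `PΩ_{2m+1}(q)`, `q` odd.** -/
theorem steinberg_POmega_odd [Fintype F] (p : ℕ) [Fact p.Prime] [CharP F p] (hodd : Odd (Fintype.card F)) (m : ℕ) :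
    ∃ χ : Cfsg.POmega F (Cfsg.quadFormOdd m F) → ℂ, Cfsg.IsIrrCharacter (Cfsg.POmega F (Cfsg.quadFormOdd m F)) χ ∧
      ∀ P : Sylow p (Cfsg.POmega F (Cfsg.quadFormOdd m F)), χ 1 = Nat.card P ∧
        ∀ x : Cfsg.POmega F (Cfsg.quadFormOdd m F), x ∈ P → x ≠ 1 → χ x = 0 := by
  have h2 : (2 : F) ≠ 0 := by
    intro h
    have hc : ringChar F = 2 := by
      have := ringChar.dvd (R := F) (x := 2) (by exact_mod_cast h)
      exact ((Nat.prime_two.eq_one_or_self_of_dvd _ this).resolve_left (CharP.ringChar_ne_one)).symm ▸ rfl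
    have := FiniteField.even_card_of_char_two hc
    exact (Nat.not_even_iff_odd.2 hodd) (Nat.even_iff.2 this)
  obtain ⟨e⟩ := H49SoIsoO.iso (F := F) m
  obtain ⟨e'⟩ := H49SoIsoC.commEquiv e
  exact H49SuTransport.transport e' p (steinberg_model p h2 (by omega))

end Cfsg.Agent.Lib.H49SoHub
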