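import Mathlib
import Cfsg.Agent.Lib.H49SoDefs

set_option autoImplicit false

/-! Project 2547 (Steinberg character of `POmega_{2m+1}(q)`), piece `Pol`. The polar form of `QA`. -/

namespace Cfsg.Agent.Lib.H49SpPol

open Matrix Cfsg.Agent.Lib.H49SoDefs
open Cfsg.Agent.Lib.H49SuDefs (Tri UT Dg Mon Tri_one Tri_mul UT_one UT_mul Dg_one Dg_mul Mon_one Mon_mul Mon_uniq sgm Inv CL)

variable {n : ℕ} {F : Type*} [Field F]

theorem BA_eq (u v : Fin n → F) : BA n F u v = ∑ i : Fin n,
    ((if i < Fin.rev i then u i * v (Fin.rev i) + u (Fin.rev i) * v i else 0)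
      + (if i = Fin.rev i then 2 * u i * v i else 0)) := by
  have key : ∑ i : Fin n, (if Fin.rev i < i then u i * v (Fin.rev i) else 0)
      = ∑ i : Fin n, (if i < Fin.rev i then u (Fin.rev i) * v i else 0) := by
    rw [← Equiv.sum_comp Fin.revPerm]
    apply Finset.sum_congr rfl
    intro i _
    simp [Fin.revPerm_apply, Fin.rev_rev]
  have hBA : BA n F u v = ∑ i : Fin n, ((if i < Fin.rev i then u i * v (Fin.rev i) else 0)
      + (if i = Fin.rev i then 2 * u i * v i else 0)
      + (if Fin.rev i < i then u i * v (Fin.rev i) else 0)) := by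
    unfold BA cc
    apply Finset.sum_congr rfl
    intro i _
    rcases lt_trichotomy i (Fin.rev i) with h | h | h
    · rw [if_neg h.ne, if_pos h, if_neg h.ne, if_neg (not_lt_of_gt h)]
      ring
    · have h1 : ¬ i < Fin.rev i := by rw [← h]; exact lt_irrefl i
      have h2 : ¬ Fin.rev i < i := by rw [← h]; exact lt_irrefl i
      rw [if_pos h, if_neg h1, if_pos h, if_neg h2, ← h]
      ring
    · rw [if_neg h.ne', if_neg (not_lt_of_gt h), if_neg h.ne', if_pos h]
      ring
  rw [hBA, Finset.sum_add_distrib, key, ← Finset.sum_add_distrib]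
  apply Finset.sum_congr rfl
  intro i _
  by_cases h : i < Fin.rev i
  · simp only [if_pos h]; ring
  · simp only [if_neg h]; ring

theorem QA_add (u v : Fin n → F) : QA n F (u + v) = QA n F u + QA n F v + BA n F u v := by
  rw [BA_eq]
  unfold QA
  rw [← Finset.sum_add_distrib, ← Finset.sum_add_distrib]
  apply Finset.sum_congr rfl
  intro i _
  by_cases h : i < Fin.rev i
  · simp only [if_pos h, if_neg h.ne, Pi.add_apply]; ring
  · by_cases h' : i = Fin.rev i
    · simp only [if_neg h, if_pos h', Pi.add_apply]; ring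
    · simp only [if_neg h, if_neg h']; ring

theorem BA_self (v : Fin n → F) : BA n F v v = 2 * QA n F v := by
  rw [BA_eq]
  unfold QA
  rw [Finset.mul_sum]
  apply Finset.sum_congr rfl
  intro i _
  by_cases h : i < Fin.rev i
  · simp only [if_pos h, if_neg h.ne]; ring
  · by_cases h' : i = Fin.rev i
    · simp only [if_neg h, if_pos h']; ring
    · simp only [if_neg h, if_neg h']; ring

theorem BA_add_left (u u' v : Fin n → F) : BA n F (u + u') v = BA n F u v + BA n F u' v := by
  unfold BA
  rw [← Finset.sum_add_distrib]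
  apply Finset.sum_congr rfl
  intro i _
  simp only [Pi.add_apply]; ring

theorem BA_add_right (u v v' : Fin n → F) : BA n F u (v + v') = BA n F u v + BA n F u v' := by
  unfold BA
  rw [← Finset.sum_add_distrib]
  apply Finset.sum_congr rfl
  intro i _
  simp only [Pi.add_apply]; ring

theorem BA_smul_left (c : F) (u v : Fin n → F) : BA n F (c • u) v = c * BA n F u v := by
  unfold BA
  rw [Finset.mul_sum]
  apply Finset.sum_congr rfl
  intro i _
  simp only [Pi.smul_apply, smul_eq_mul]; ring

theorem BA_smul_right (c : F) (u v : Fin n → F) : BA n F u (c • v) = c * BA n F u v := by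
  unfold BA
  rw [Finset.mul_sum]
  apply Finset.sum_congr rfl
  intro i _
  simp only [Pi.smul_apply, smul_eq_mul]; ring

theorem BA_single (a b : Fin n) :
    BA n F (Pi.single a 1) (Pi.single b 1) = if b = Fin.rev a then cc F a else 0 := by
  unfold BA
  rw [Finset.sum_eq_single a]
  · rw [Pi.single_eq_same, Pi.single_apply, mul_one]
    by_cases h : b = Fin.rev a
    · rw [if_pos h.symm, if_pos h, mul_one]
    · rw [if_neg (fun h' => h h'.symm), if_neg h, mul_zero]
  · intro i _ hi
    rw [Pi.single_eq_of_ne hi]; ring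
  · intro h
    exact absurd (Finset.mem_univ a) h

theorem cc_rev (a : Fin n) : cc F (Fin.rev a) = cc F a := by
  unfold cc
  rw [Fin.rev_rev]
  by_cases h : a = Fin.rev a
  · rw [if_pos h.symm, if_pos h]
  · rw [if_neg (fun h' => h h'.symm), if_neg h]

theorem cc_ne_zero (h2 : n % 2 = 0) (a : Fin n) : cc F a ≠ 0 := by
  unfold cc
  split_ifs with h
  · exfalso
    have := congrArg Fin.val h
    rw [Fin.val_rev] at this
    omega
  · exact one_ne_zero

theorem cc_eq_one (h2 : n % 2 = 0) (a : Fin n) : cc F a = 1 := by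
  unfold cc
  split_ifs with h
  · exfalso
    have := congrArg Fin.val h
    rw [Fin.val_rev] at this
    omega
  · rfl

theorem QA_single (h2 : n % 2 = 0) (a : Fin n) (c : F) : QA n F (Pi.single a c) = 0 := by
  unfold QA
  apply Finset.sum_eq_zero
  intro i _
  split_ifs with h h'
  · by_cases hi : i = a
    · subst hi
      rw [Pi.single_eq_of_ne (ne_of_gt h), mul_zero]
    · rw [Pi.single_eq_of_ne hi, zero_mul]
  · exfalso
    have := congrArg Fin.val h'
    rw [Fin.val_rev] at this
    omega
  · rfl

end Cfsg.Agent.Lib.H49SpPol
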