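import Mathlib
import Cfsg.Agent.Lib.H49SoDefs
import Cfsg.Agent.Lib.H49SpPol

set_option autoImplicit false

/-! Project 2547 (Steinberg character of `POmega_{2m+1}(q)`), piece `Star`. Entry form of orthogonality. -/

namespace Cfsg.Agent.Lib.H49SpStar

open Matrix Cfsg.Agent.Lib.H49SoDefs
open Cfsg.Agent.Lib.H49SuDefs (Tri UT Dg Mon Tri_one Tri_mul UT_one UT_mul Dg_one Dg_mul Mon_one Mon_mul Mon_uniq sgm Inv CL)
open Cfsg.Agent.Lib.H49SpPol

variable {n : ℕ} {F : Type*} [Field F]

theorem QA_mulVec (g : GO n F) (v : Fin n → F) : QA n F (mt g *ᵥ v) = QA n F v := g.2 v v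

theorem BA_mulVec (g : GO n F) (u v : Fin n → F) : BA n F (mt g *ᵥ u) (mt g *ᵥ v) = BA n F u v := by
  have h1 := QA_add (mt g *ᵥ u) (mt g *ᵥ v)
  rw [← Matrix.mulVec_add, QA_mulVec, QA_mulVec, QA_mulVec, QA_add] at h1
  exact (add_left_cancel h1).symm

theorem star (g : GO n F) (a b : Fin n) :
    ∑ i, cc F i * mt g i a * mt g (Fin.rev i) b = if b = Fin.rev a then cc F a else 0 := by
  have key := BA_mulVec g (Pi.single a 1) (Pi.single b 1)
  rw [BA_single] at key
  rw [← key]
  unfold BA
  simp only [Matrix.mulVec_single_one, Matrix.col_apply]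

theorem QA_mulVec_of (h2 : n % 2 = 0) (M : Matrix (Fin n) (Fin n) F)
    (hBA : ∀ u v : Fin n → F, BA n F (M *ᵥ u) (M *ᵥ v) = BA n F u v)
    (hQ : ∀ a, QA n F (fun i => M i a) = 0) (v : Fin n → F) : QA n F (M *ᵥ v) = QA n F v := by
  classical
  have hsm : ∀ (c : F) (w : Fin n → F), QA n F (c • w) = c ^ 2 * QA n F w := by
    intro c w
    unfold QA
    rw [Finset.mul_sum]
    apply Finset.sum_congr rfl
    intro i _
    split_ifs
    · simp only [Pi.smul_apply, smul_eq_mul]; ring
    · simp only [Pi.smul_apply, smul_eq_mul]; ring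
    · ring
  have hcol : ∀ (a : Fin n) (c : F), M *ᵥ Pi.single a c = c • (fun i => M i a) := by
    intro a c
    ext i
    simp [Matrix.mulVec_single, mul_comm]
  have key : ∀ s : Finset (Fin n), QA n F (M *ᵥ (∑ a ∈ s, Pi.single a (v a)))
      = QA n F (∑ a ∈ s, Pi.single a (v a) : Fin n → F) := by
    intro s
    induction s using Finset.induction_on with
    | empty => simp
    | insert a s ha ih =>
      rw [Finset.sum_insert ha, Matrix.mulVec_add, QA_add, QA_add, hBA, ih, hcol, hsm, hQ,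
        QA_single h2]
      ring
  have hv : v = ∑ a ∈ (Finset.univ : Finset (Fin n)), Pi.single a (v a) := by
    ext i
    simp [Finset.sum_apply, Pi.single_apply]
  have := key Finset.univ
  rw [← hv] at this
  exact this

theorem mk (h2 : n % 2 = 0) (M : Matrix (Fin n) (Fin n) F)
    (hM : ∀ a b, ∑ i, cc F i * M i a * M (Fin.rev i) b = if b = Fin.rev a then cc F a else 0)
    (hQ : ∀ a, QA n F (fun i => M i a) = 0) :
    ∃ g : GO n F, mt g = M := by
  have hBA : ∀ u v : Fin n → F, BA n F (M *ᵥ u) (M *ᵥ v) = BA n F u v := by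
    intro u v
    unfold BA
    have e : ∀ i, cc F i * (M *ᵥ u) i * (M *ᵥ v) (Fin.rev i)
        = ∑ a, ∑ b, u a * v b * (cc F i * M i a * M (Fin.rev i) b) := by
      intro i
      simp only [Matrix.mulVec, dotProduct]
      rw [mul_assoc, Finset.sum_mul_sum, Finset.mul_sum]
      apply Finset.sum_congr rfl; intro a _
      rw [Finset.mul_sum]
      apply Finset.sum_congr rfl; intro b _
      ring
    simp only [e]
    rw [Finset.sum_comm]
    apply Finset.sum_congr rfl
    intro a _
    rw [Finset.sum_comm]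
    simp only [← Finset.mul_sum, hM]
    simp
    ring
  have hQA : ∀ v : Fin n → F, QA n F (M *ᵥ v) = QA n F v := by
    intro v
    exact QA_mulVec_of h2 M hBA hQ v
  let K : Matrix (Fin n) (Fin n) F := fun a i => (cc F a)⁻¹ * cc F i * M (Fin.rev i) (Fin.rev a)
  have hKM : K * M = 1 := by
    ext a b
    rw [Matrix.mul_apply]
    have e : ∀ i, K a i * M i b = (cc F a)⁻¹ * (cc F i * M i b * M (Fin.rev i) (Fin.rev a)) := by
      intro i
      simp only [K]; ring
    simp only [e]
    rw [← Finset.mul_sum, hM, Matrix.one_apply]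
    by_cases hab : a = b
    · subst hab
      rw [if_pos rfl, if_pos rfl, inv_mul_cancel₀ (cc_ne_zero h2 a)]
    · rw [if_neg (fun h' => hab (Fin.rev_injective h')), if_neg hab, mul_zero]
  have hMK : M * K = 1 := _root_.mul_eq_one_comm.1 hKM
  exact ⟨⟨⟨M, K, hMK, hKM⟩, fun u _ => hQA u⟩, rfl⟩

end Cfsg.Agent.Lib.H49SpStar
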