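import Mathlib
import Cfsg.Agent.Lib.H49SoDefs
import Cfsg.Agent.Lib.H49SpPol
import Cfsg.Agent.Lib.H49SpStar

set_option autoImplicit false

/-! Project 2547 (Steinberg character of `POmega_{2m+1}(q)`), piece `Inv` (20m).

Compare the landed `H49SuInv`.  `K a i = (cc a)⁻¹ * cc i * mt g (rev i) (rev a)` satisfies `K * mt g = 1` by `star` for the columns `(rev a, b)` after reindexing the sum by `Fin.rev` (`cc_rev`). -/

namespace Cfsg.Agent.Lib.H49SpInv

open Matrix Cfsg.Agent.Lib.H49SoDefs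
open Cfsg.Agent.Lib.H49SuDefs (Tri UT Dg Mon Tri_one Tri_mul UT_one UT_mul Dg_one Dg_mul Mon_one Mon_mul Mon_uniq sgm Inv CL)
open Cfsg.Agent.Lib.H49SpPol Cfsg.Agent.Lib.H49SpStar

variable {n : ℕ} {F : Type*} [Field F]

theorem inv_apply (h2 : n % 2 = 0) (g : GO n F) (a b : Fin n) :
    mt g⁻¹ a b = (cc F a)⁻¹ * cc F b * mt g (Fin.rev b) (Fin.rev a) := by
  obtain ⟨K, hK⟩ : ∃ K : Matrix (Fin n) (Fin n) F,
      K = Matrix.of fun a b => (cc F a)⁻¹ * cc F b * mt g (Fin.rev b) (Fin.rev a) := ⟨_, rfl⟩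
  have h1 : K * mt g = 1 := by
    ext a b
    rw [Matrix.mul_apply, hK]
    simp only [Matrix.of_apply]
    have h3 := star g (Fin.rev a) b
    rw [Fin.rev_rev, cc_rev] at h3
    rw [← Equiv.sum_comp Fin.revPerm] at h3
    simp only [Fin.revPerm_apply, Fin.rev_rev, cc_rev] at h3
    rw [Matrix.one_apply]
    have h4 : ∑ i, (cc F a)⁻¹ * cc F i * mt g (Fin.rev i) (Fin.rev a) * mt g i b
        = (cc F a)⁻¹ * ∑ i, cc F i * mt g (Fin.rev i) (Fin.rev a) * mt g i b := by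
      rw [Finset.mul_sum]
      exact Finset.sum_congr rfl fun i _ => by ring
    rw [h4, h3]
    by_cases hab : a = b
    · subst hab
      rw [if_pos rfl, if_pos rfl, inv_mul_cancel₀ (cc_ne_zero h2 a)]
    · rw [if_neg hab, if_neg (fun e => hab e.symm), mul_zero]
  have h5 : mt g * mt g⁻¹ = 1 := by rw [← mt_mul, mul_inv_cancel, mt_one]
  have h6 : K = mt g⁻¹ := by
    calc K = K * (mt g * mt g⁻¹) := by rw [h5, mul_one]
      _ = mt g⁻¹ := by rw [← mul_assoc, h1, one_mul]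
  rw [← h6, hK]
  rfl

end Cfsg.Agent.Lib.H49SpInv
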