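import Mathlib
import Cfsg.Agent.Lib.H49SoDefs
import Cfsg.Agent.Lib.H49SpPol
import Cfsg.Agent.Lib.H49SpStar
import Cfsg.Agent.Lib.H49SpInv

set_option autoImplicit false

/-! Project 2547 (Steinberg character of `POmega_{2m+1}(q)`), piece `MonB` (20m).

COPY of the landed `H49SuMonB`. -/

namespace Cfsg.Agent.Lib.H49SpMonB

open Matrix Cfsg.Agent.Lib.H49SoDefs
open Cfsg.Agent.Lib.H49SuDefs (Tri UT Dg Mon Tri_one Tri_mul UT_one UT_mul Dg_one Dg_mul Mon_one Mon_mul Mon_uniq sgm Inv CL)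
open Cfsg.Agent.Lib.H49SpPol Cfsg.Agent.Lib.H49SpStar Cfsg.Agent.Lib.H49SpInv

variable {n : ℕ} {F : Type*} [Field F]

theorem perm_apply_inv (π : Equiv.Perm (Fin n)) (x : Fin n) : π (π⁻¹ x) = x :=
  Equiv.apply_symm_apply π x

theorem Mon_eq_zero {π : Equiv.Perm (Fin n)} {M : Matrix (Fin n) (Fin n) F} (h : Mon π M) {a b : Fin n}
    (hab : a ≠ π b) : M a b = 0 := by
  by_contra h0
  exact hab ((h a b).1 h0)

theorem Mon_inv {g : GO n F} {π : Equiv.Perm (Fin n)} (h : Mon π (mt g)) : Mon π⁻¹ (mt g⁻¹) := by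
  intro a b
  have e1 : mt (g⁻¹ * g) a (π⁻¹ b) = mt g⁻¹ a b * mt g b (π⁻¹ b) := by
    rw [mt_mul, Matrix.mul_apply]
    apply Finset.sum_eq_single
    · intro x _ hx
      rw [Mon_eq_zero h (a := x) (b := π⁻¹ b) (by simpa using hx), mul_zero]
    · intro h; exact absurd (Finset.mem_univ _) h
  have e2 : mt g b (π⁻¹ b) ≠ 0 := (h _ _).2 (by simp)
  rw [inv_mul_cancel, mt_one] at e1
  constructor
  · intro h0
    by_contra hne
    rw [Matrix.one_apply_ne hne] at e1
    exact mul_ne_zero h0 e2 e1.symm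
  · intro hab h0
    rw [← hab, Matrix.one_apply_eq, h0, zero_mul] at e1
    exact one_ne_zero e1

theorem Mon_rev (h2 : n % 2 = 0) {g : GO n F} {π : Equiv.Perm (Fin n)}
    (h : Mon π (mt g)) (a : Fin n) : π (Fin.rev a) = Fin.rev (π a) := by
  have h1 : mt g⁻¹ a (π a) ≠ 0 := (Mon_inv h a (π a)).2 (by simp)
  rw [inv_apply h2] at h1
  have h3 : mt g (Fin.rev (π a)) (Fin.rev a) ≠ 0 := fun e => h1 (by rw [e, mul_zero])
  exact ((h _ _).1 h3).symm

theorem conj_apply {g : GO n F} {π : Equiv.Perm (Fin n)} (h : Mon π (mt g)) (x : GO n F) (a b : Fin n) :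
    mt (g * x * g⁻¹) (π a) (π b) = mt g (π a) a * mt x a b * mt g⁻¹ b (π b) := by
  rw [mt_mul, mt_mul, Matrix.mul_apply, Finset.sum_eq_single b]
  · rw [Matrix.mul_apply, Finset.sum_eq_single a]
    · intro y _ hy
      rw [Mon_eq_zero h (a := π a) (b := y) (fun e => hy (π.injective e).symm), zero_mul]
    · intro h; exact absurd (Finset.mem_univ _) h
  · intro y _ hy
    rw [Mon_eq_zero (Mon_inv h) (a := y) (b := π b) (by simpa using hy), mul_zero]
  · intro h; exact absurd (Finset.mem_univ _) h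

theorem conj_zero {g : GO n F} {π : Equiv.Perm (Fin n)} (h : Mon π (mt g)) (x : GO n F) (a b : Fin n) :
    mt (g * x * g⁻¹) (π a) (π b) = 0 ↔ mt x a b = 0 := by
  rw [conj_apply h]
  have h1 : mt g (π a) a ≠ 0 := (h _ _).2 rfl
  have h2 : mt g⁻¹ b (π b) ≠ 0 := (Mon_inv h _ _).2 (by simp)
  constructor
  · intro h0
    rcases mul_eq_zero.1 h0 with h3 | h3
    · rcases mul_eq_zero.1 h3 with h4 | h4
      · exact absurd h4 h1
      · exact h4
    · exact absurd h3 h2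
  · intro h0
    rw [h0, mul_zero, zero_mul]

end Cfsg.Agent.Lib.H49SpMonB
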