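import Mathlib
import Cfsg.Agent.Lib.H49SoDefs
import Cfsg.Agent.Lib.H49SpPol
import Cfsg.Agent.Lib.H49SpStar
import Cfsg.Agent.Lib.H49SpInv
import Cfsg.Agent.Lib.H49SpMonB
import Cfsg.Agent.Lib.H49SpMem

set_option autoImplicit false

/-! Project 2547 (Steinberg character of `POmega_{2m+1}(q)`), piece `A2` (15m).

COPY of the landed `H49SuA2`. -/

namespace Cfsg.Agent.Lib.H49SpA2

open Matrix Cfsg.Agent.Lib.H49SoDefs
open Cfsg.Agent.Lib.H49SuDefs (Tri UT Dg Mon Tri_one Tri_mul UT_one UT_mul Dg_one Dg_mul Mon_one Mon_mul Mon_uniq sgm Inv CL)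
open Cfsg.Agent.Lib.H49SpPol Cfsg.Agent.Lib.H49SpStar Cfsg.Agent.Lib.H49SpInv Cfsg.Agent.Lib.H49SpMonB Cfsg.Agent.Lib.H49SpMem

variable {n : ℕ} {F : Type*} [Field F]

theorem conj_mem_BB (h2 : n % 2 = 0) {k : ℕ} {s : GO n F} (hs : Mon (sgm n k) (mt s))
    {c : GO n F} (hc : c ∈ BB n F) (h0 : ∀ a b, Inv n k a b → mt c a b = 0) : s * c * s⁻¹ ∈ BB n F := by
  rw [mem_BB h2]
  intro x y hxy
  have hcT : Tri (mt c) := (mem_BB h2).1 hc
  obtain ⟨x', hx'⟩ : ∃ x', x' = (sgm n k)⁻¹ x := ⟨_, rfl⟩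
  obtain ⟨y', hy'⟩ : ∃ y', y' = (sgm n k)⁻¹ y := ⟨_, rfl⟩
  have ex : x = sgm n k x' := by rw [hx']; simp
  have ey : y = sgm n k y' := by rw [hy']; simp
  have key : mt c x' y' = 0 := by
    rcases lt_trichotomy y' x' with h1 | h1 | h1
    · exact hcT x' y' h1
    · exfalso
      rw [ex, ey, h1] at hxy
      exact lt_irrefl _ hxy
    · apply h0
      refine ⟨h1, ?_⟩
      rw [← ex, ← ey]; exact hxy
  rw [ex, ey]
  exact (conj_zero hs c x' y').2 key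

end Cfsg.Agent.Lib.H49SpA2
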