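import Mathlib
import Cfsg.Agent.Lib.H49SoDefs
import Cfsg.Agent.Lib.H49SpPol
import Cfsg.Agent.Lib.H49SpStar
import Cfsg.Agent.Lib.H49SuSgm

set_option autoImplicit false

/-! Project 2547: the adjoint `adjO M a i = (cc a)⁻¹ * cc i * M (rev i) (rev a)` for the form `BA`, and a criterion for membership
in `GO n F`: `adjO M * M = 1`;  conjugation by the reversal exchanges `XX` and `YY`. -/

namespace Cfsg.Agent.Lib.H49SpAdj

open Matrix Cfsg.Agent.Lib.H49SoDefs Cfsg.Agent.Lib.H49SpPol Cfsg.Agent.Lib.H49SpStar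
open Cfsg.Agent.Lib.H49SuDefs (sgm Inv)

variable {n : ℕ} {F : Type*} [Field F]

/-- the adjoint -/
def adjO (M : Matrix (Fin n) (Fin n) F) : Matrix (Fin n) (Fin n) F :=
  Matrix.of fun a i => (cc F a)⁻¹ * cc F i * M (Fin.rev i) (Fin.rev a)

theorem adjO_apply (M : Matrix (Fin n) (Fin n) F) (a i : Fin n) :
    adjO M a i = (cc F a)⁻¹ * cc F i * M (Fin.rev i) (Fin.rev a) := rfl

theorem adjO_one (h2 : n % 2 = 0) : adjO (1 : Matrix (Fin n) (Fin n) F) = 1 := by
  ext a b
  rw [adjO_apply]
  by_cases h : a = b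
  · subst h
    rw [Matrix.one_apply_eq, Matrix.one_apply_eq, mul_one, inv_mul_cancel₀ (cc_ne_zero h2 a)]
  · have h' : Fin.rev b ≠ Fin.rev a := fun e => h (Fin.rev_injective e).symm
    rw [Matrix.one_apply_ne h, Matrix.one_apply_ne h', mul_zero]

theorem adjO_add (M N : Matrix (Fin n) (Fin n) F) : adjO (M + N) = adjO M + adjO N := by
  ext a b
  simp only [adjO_apply, Matrix.add_apply, mul_add]

theorem adjO_neg (M : Matrix (Fin n) (Fin n) F) : adjO (-M) = - adjO M := by
  ext a b
  simp only [adjO_apply, Matrix.neg_apply, mul_neg]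

theorem adjO_sub (M N : Matrix (Fin n) (Fin n) F) : adjO (M - N) = adjO M - adjO N := by
  rw [sub_eq_add_neg, adjO_add, adjO_neg, sub_eq_add_neg]

theorem adjO_single (a b : Fin n) (t : F) :
    adjO (Matrix.single a b t) = Matrix.single (Fin.rev b) (Fin.rev a) ((cc F b)⁻¹ * cc F a * t) := by
  ext i j
  rw [adjO_apply]
  by_cases h : Fin.rev b = i ∧ Fin.rev a = j
  · obtain ⟨rfl, rfl⟩ := h
    simp [cc_rev]
  · rw [Matrix.single_apply_of_ne _ _ _ _ _ h, Matrix.single_apply_of_ne, mul_zero]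
    rintro ⟨h1, h2⟩
    apply h
    constructor
    · rw [h2, Fin.rev_rev]
    · rw [h1, Fin.rev_rev]

theorem cond_iff (h2 : n % 2 = 0) (M : Matrix (Fin n) (Fin n) F) :
    (∀ a b, ∑ i, cc F i * M i a * M (Fin.rev i) b = if b = Fin.rev a then cc F a else 0) ↔
      adjO M * M = 1 := by
  have key : ∀ a b, ∑ i, cc F i * M i a * M (Fin.rev i) b = cc F b * (adjO M * M) (Fin.rev b) a := by
    intro a b
    rw [Matrix.mul_apply, Finset.mul_sum]
    refine Finset.sum_congr rfl fun i _ => ?_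
    rw [adjO_apply, Fin.rev_rev, cc_rev]
    have := cc_ne_zero (F := F) h2 b
    field_simp
  constructor
  · intro h
    ext c a
    have := h a (Fin.rev c)
    rw [key, Fin.rev_rev, cc_rev] at this
    have hc := cc_ne_zero (F := F) h2 c
    by_cases e : c = a
    · subst e
      rw [if_pos rfl] at this
      rw [Matrix.one_apply_eq]
      exact mul_left_cancel₀ hc (by rw [this, mul_one])
    · rw [if_neg (fun e' => e (Fin.rev_injective e'))] at this
      rw [Matrix.one_apply_ne e]
      exact (mul_eq_zero.1 this).resolve_left hc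
  · intro h a b
    rw [key, h, Matrix.one_apply]
    by_cases e : b = Fin.rev a
    · subst e; simp [cc_rev]
    · rw [if_neg e, if_neg, mul_zero]
      intro e'
      apply e
      rw [← e', Fin.rev_rev]

/-- criterion -/
theorem mk' (h2 : n % 2 = 0) (M : Matrix (Fin n) (Fin n) F) (hM : adjO M * M = 1)
    (hQ : ∀ a, QA n F (fun i => M i a) = 0) :
    ∃ h : GO n F, mt h = M :=
  mk h2 M ((cond_iff h2 M).2 hM) hQ

theorem adjO_mul_self (h2 : n % 2 = 0) (h : GO n F) : adjO (mt h) * mt h = 1 :=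
  (cond_iff h2 _).1 (star h)

/-- conjugation by the reversal -/
def revM (M : Matrix (Fin n) (Fin n) F) : Matrix (Fin n) (Fin n) F :=
  Matrix.of fun a b => M (Fin.rev a) (Fin.rev b)

theorem revM_apply (M : Matrix (Fin n) (Fin n) F) (a b : Fin n) :
    revM M a b = M (Fin.rev a) (Fin.rev b) := rfl

theorem revM_one : revM (1 : Matrix (Fin n) (Fin n) F) = 1 := by
  ext a b
  rw [revM_apply]
  by_cases h : a = b
  · subst h; simp
  · rw [Matrix.one_apply_ne h, Matrix.one_apply_ne (fun e => h (Fin.rev_injective e))]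

theorem revM_add (M N : Matrix (Fin n) (Fin n) F) : revM (M + N) = revM M + revM N := rfl

theorem revM_sub (M N : Matrix (Fin n) (Fin n) F) : revM (M - N) = revM M - revM N := rfl

theorem revM_single (a b : Fin n) (t : F) :
    revM (Matrix.single a b t) = Matrix.single (Fin.rev a) (Fin.rev b) t := by
  ext i j
  rw [revM_apply]
  by_cases h : Fin.rev a = i ∧ Fin.rev b = j
  · obtain ⟨rfl, rfl⟩ := h
    simp
  · rw [Matrix.single_apply_of_ne _ _ _ _ _ h, Matrix.single_apply_of_ne]
    rintro ⟨h1, h2⟩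
    apply h
    constructor
    · rw [h1, Fin.rev_rev]
    · rw [h2, Fin.rev_rev]

theorem exists_rev (h2 : n % 2 = 0) (h : GO n F) : ∃ h' : GO n F, mt h' = revM (mt h) := by
  have hQ : ∀ a, QA n F (fun i => revM (mt h) i a) = 0 := by
    intro a
    have e1 : QA n F (fun i => revM (mt h) i a) = QA n F (fun i => mt h i (Fin.rev a)) := by
      unfold QA
      apply Finset.sum_congr rfl
      intro i _
      simp only [revM_apply, Fin.rev_rev]
      split_ifs with h1 h3
      · ring
      · rw [← h3]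
      · rfl
    have e2 : (fun i => mt h i (Fin.rev a)) = mt h *ᵥ Pi.single (Fin.rev a) 1 := by
      ext i
      simp [Matrix.mulVec_single_one]
    rw [e1, e2, QA_mulVec, QA_single h2]
  refine mk h2 _ ?_ hQ
  intro a b
  have := star h (Fin.rev a) (Fin.rev b)
  rw [← Equiv.sum_comp Fin.revPerm] at this
  simp only [Fin.revPerm_apply, Fin.rev_rev, cc_rev] at this
  simp only [revM_apply, Fin.rev_rev]
  rw [this]
  by_cases e : b = Fin.rev a
  · subst e; simp
  · rw [if_neg e, if_neg]
    intro e'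
    apply e
    rw [← e', Fin.rev_rev]

/-- the reversal exchanges `XX` and `YY`. -/
theorem exists_y_of_x (h2 : n % 2 = 0) {k : ℕ} {x : GO n F} (hx : x ∈ XX n F k) :
    ∃ y ∈ YY n F k, mt y = revM (mt x) := by
  obtain ⟨y, hy⟩ := exists_rev h2 x
  refine ⟨y, ⟨fun a => ?_, fun a b hab h => ?_⟩, hy⟩
  · rw [hy, revM_apply]; exact hx.1 _
  · rw [hy, revM_apply] at h
    have := hx.2 _ _ (fun e => hab (Fin.rev_injective e)) h
    obtain ⟨h3, h4⟩ := this
    rw [Cfsg.Agent.Lib.H49SuSgm.sgm_rev, Cfsg.Agent.Lib.H49SuSgm.sgm_rev] at h4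
    exact ⟨Fin.rev_lt_rev.1 h3, Fin.rev_lt_rev.1 h4⟩

end Cfsg.Agent.Lib.H49SpAdj
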