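import Mathlib
import Cfsg.Agent.Lib.H49SoDefs
import Cfsg.Agent.Lib.H49SpPol
import Cfsg.Agent.Lib.H49SpStar
import Cfsg.Agent.Lib.H49SpInv
import Cfsg.Agent.Lib.H49SpMonB
import Cfsg.Agent.Lib.H49SpMem

set_option autoImplicit false

/-! Project 2547 (Steinberg character of `POmega_{2m+1}(q)`), piece `B1` (15m).

COPY of the landed `H49SuB1`. -/

namespace Cfsg.Agent.Lib.H49SpB1

open Matrix Cfsg.Agent.Lib.H49SoDefs
open Cfsg.Agent.Lib.H49SuDefs (Tri UT Dg Mon Tri_one Tri_mul UT_one UT_mul Dg_one Dg_mul Mon_one Mon_mul Mon_uniq sgm Inv CL)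
open Cfsg.Agent.Lib.H49SpPol Cfsg.Agent.Lib.H49SpStar Cfsg.Agent.Lib.H49SpInv Cfsg.Agent.Lib.H49SpMonB Cfsg.Agent.Lib.H49SpMem

variable {n : ℕ} {F : Type*} [Field F]

theorem conj_XX (h2 : n % 2 = 0) {g : GO n F} {π : Equiv.Perm (Fin n)} (h : Mon π (mt g))
    {k : ℕ} (hlt : ∀ a b, Inv n k a b → π a < π b) {x : GO n F} (hx : x ∈ XX n F k) :
    g * x * g⁻¹ ∈ BB n F := by
  rw [mem_BB h2]
  intro a b hab
  have key : mt x (π⁻¹ a) (π⁻¹ b) = 0 := by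
    by_contra h0
    have hne : π⁻¹ a ≠ π⁻¹ b := fun e => by
      rw [π⁻¹.injective e] at hab; exact lt_irrefl _ hab
    have h1 := hlt _ _ (hx.2 _ _ hne h0)
    rw [perm_apply_inv, perm_apply_inv] at h1
    exact lt_asymm h1 hab
  have h1 := (conj_zero h x (π⁻¹ a) (π⁻¹ b)).2 key
  rwa [perm_apply_inv, perm_apply_inv] at h1

theorem conj_YY (h2 : n % 2 = 0) {g : GO n F} {π : Equiv.Perm (Fin n)} (h : Mon π (mt g))
    {k : ℕ} (hlt : ∀ a b, Inv n k a b → π b < π a) {y : GO n F} (hy : y ∈ YY n F k) :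
    g * y * g⁻¹ ∈ BB n F := by
  rw [mem_BB h2]
  intro a b hab
  have key : mt y (π⁻¹ a) (π⁻¹ b) = 0 := by
    by_contra h0
    have hne : π⁻¹ a ≠ π⁻¹ b := fun e => by
      rw [π⁻¹.injective e] at hab; exact lt_irrefl _ hab
    have h1 := hlt _ _ (hy.2 _ _ hne h0)
    rw [perm_apply_inv, perm_apply_inv] at h1
    exact lt_asymm h1 hab
  have h1 := (conj_zero h y (π⁻¹ a) (π⁻¹ b)).2 key
  rwa [perm_apply_inv, perm_apply_inv] at h1

theorem XX_le (h2 : n % 2 = 0) {k : ℕ} {x : GO n F} (hx : x ∈ XX n F k) : x ∈ UU n F := by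
  rw [mem_UU h2]
  refine ⟨?_, hx.1⟩
  intro a b hab
  by_contra h0
  exact lt_asymm hab (hx.2 a b (ne_of_gt hab) h0).1

end Cfsg.Agent.Lib.H49SpB1
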