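import Mathlib
import Cfsg.Agent.Lib.H49SoDefs
import Cfsg.Agent.Lib.H49SpPol
import Cfsg.Agent.Lib.H49SpStar
import Cfsg.Agent.Lib.H49SpInv
import Cfsg.Agent.Lib.H49SpMonB
import Cfsg.Agent.Lib.H49SpMem
import Cfsg.Agent.Lib.H49SpDiag

set_option autoImplicit false

/-! Project 2547 (Steinberg character of `POmega_{2m+1}(q)`), piece `TN` (10m).

COPY of the landed `H49SuTN`. -/

namespace Cfsg.Agent.Lib.H49SpTN

open Matrix Cfsg.Agent.Lib.H49SoDefs
open Cfsg.Agent.Lib.H49SuDefs (Tri UT Dg Mon Tri_one Tri_mul UT_one UT_mul Dg_one Dg_mul Mon_one Mon_mul Mon_uniq sgm Inv CL)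
open Cfsg.Agent.Lib.H49SpPol Cfsg.Agent.Lib.H49SpStar Cfsg.Agent.Lib.H49SpInv Cfsg.Agent.Lib.H49SpMonB Cfsg.Agent.Lib.H49SpMem Cfsg.Agent.Lib.H49SpDiag

variable {n : ℕ} {F : Type*} [Field F]

theorem Mon_one_iff (h2 : n % 2 = 0) {g : GO n F} : Mon 1 (mt g) ↔ g ∈ TT n F := by
  constructor
  · intro h
    rw [mem_TT h2]
    intro a b hab
    by_contra h0
    exact hab (by simpa using (h a b).1 h0)
  · intro h a b
    rw [Equiv.Perm.one_apply]
    constructor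
    · intro h0
      by_contra hab
      exact h0 (h.1 a b hab)
    · rintro rfl
      exact diag_ne_zero (TT_le_BB h) a

theorem TT_le_NN (h2 : n % 2 = 0) : TT n F ≤ NN n F :=
  fun _ h => mem_NN.2 ⟨1, (Mon_one_iff h2).2 h⟩

end Cfsg.Agent.Lib.H49SpTN
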