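import Mathlib
import Cfsg.Agent.Lib.H49SoDefs
import Cfsg.Agent.Lib.H49SpPol
import Cfsg.Agent.Lib.H49SpStar
import Cfsg.Agent.Lib.H49SpInv
import Cfsg.Agent.Lib.H49SpMonB
import Cfsg.Agent.Lib.H49SpMem
import Cfsg.Agent.Lib.H49SpDiag
import Cfsg.Agent.Lib.H49SpTN

set_option autoImplicit false

/-! Project 2547 (Steinberg character of `POmega_{2m+1}(q)`), piece `BNT` (20m).

COPY of the landed `H49SuBNT`. -/

namespace Cfsg.Agent.Lib.H49SpBNT

open Matrix Cfsg.Agent.Lib.H49SoDefs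
open Cfsg.Agent.Lib.H49SuDefs (Tri UT Dg Mon Tri_one Tri_mul UT_one UT_mul Dg_one Dg_mul Mon_one Mon_mul Mon_uniq sgm Inv CL)
open Cfsg.Agent.Lib.H49SpPol Cfsg.Agent.Lib.H49SpStar Cfsg.Agent.Lib.H49SpInv Cfsg.Agent.Lib.H49SpMonB Cfsg.Agent.Lib.H49SpMem Cfsg.Agent.Lib.H49SpDiag Cfsg.Agent.Lib.H49SpTN

variable {n : ℕ} {F : Type*} [Field F]

theorem perm_eq_one {π : Equiv.Perm (Fin n)} (h : ∀ b, (π b).val ≤ b.val) : π = 1 := by
  have key : ∀ N : ℕ, ∀ b : Fin n, b.val = N → π b = b := by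
    intro N
    induction N using Nat.strong_induction_on with
    | _ N ih =>
      intro b hb
      by_contra hne
      have h1 : (π b).val < N := by
        have h2 := h b
        have h3 : (π b).val ≠ b.val := fun e => hne (Fin.ext e)
        omega
      have h4 := ih _ h1 (π b) rfl
      exact hne (π.injective h4)
  apply Equiv.ext
  intro b
  exact key _ b rfl

theorem BB_inf_NN (h2 : n % 2 = 0) : BB n F ⊓ NN n F = TT n F := by
  apply le_antisymm
  · rintro g ⟨hB, hN⟩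
    obtain ⟨π, hπ⟩ := mem_NN.1 hN
    have h1 : π = 1 := by
      apply perm_eq_one
      intro b
      by_contra hlt
      exact (hπ (π b) b).2 rfl (hB.1 (π b) b (by rw [Fin.lt_def]; omega))
    rw [h1] at hπ
    exact (Mon_one_iff h2).1 hπ
  · exact le_inf TT_le_BB (TT_le_NN h2)

end Cfsg.Agent.Lib.H49SpBNT
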