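import Mathlib
import Cfsg.Agent.Lib.H49SoDefs
import Cfsg.Agent.Lib.H49SpPol
import Cfsg.Agent.Lib.H49SpStar

set_option autoImplicit false

/-! Project 2547 (Steinberg character of `POmega_{2m+1}(q)`), piece `MonMk` (30m).

Construction of monomial orthogonal matrices (compare the landed `H49SuMonMk`; no determinant here).  `M a b = if a = π b then d b else 0`; condition of `Star.mk`: `∑ i, cc i * M i a * M (rev i) b = cc (π a) * d a * M (rev (π a)) b`, `rev (π a) = π (rev a) = π b ↔ b = rev a`,
and `cc (π a) = cc a` since `π` commutes with `rev`. -/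

namespace Cfsg.Agent.Lib.H49SpMonMk

open Matrix Cfsg.Agent.Lib.H49SoDefs
open Cfsg.Agent.Lib.H49SuDefs (Tri UT Dg Mon Tri_one Tri_mul UT_one UT_mul Dg_one Dg_mul Mon_one Mon_mul Mon_uniq sgm Inv CL)
open Cfsg.Agent.Lib.H49SpPol Cfsg.Agent.Lib.H49SpStar

variable {n : ℕ} {F : Type*} [Field F]

theorem monMk (h2 : n % 2 = 0) (π : Equiv.Perm (Fin n))
    (hπ : ∀ a, π (Fin.rev a) = Fin.rev (π a)) (d : Fin n → F) (hd : ∀ a, d a * d (Fin.rev a) = 1) :
    ∃ s : GO n F, (∀ a b, mt s a b = if a = π b then d b else 0) ∧ Mon π (mt s) := by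
  set M : Matrix (Fin n) (Fin n) F := Matrix.of (fun a b => if a = π b then d b else 0) with hM
  have hMa : ∀ a b, M a b = if a = π b then d b else 0 := fun a b => rfl
  have hcc : ∀ a : Fin n, cc F (π a) = cc F a := by
    intro a
    unfold cc
    by_cases h : a = Fin.rev a
    · rw [if_pos h, if_pos]
      rw [← hπ, ← h]
    · rw [if_neg h, if_neg]
      intro e
      rw [← hπ] at e
      exact h (π.injective e)
  have hstar : ∀ a b, ∑ i, cc F i * M i a * M (Fin.rev i) b = if b = Fin.rev a then cc F a else 0 := by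
    intro a b
    rw [Finset.sum_eq_single (π a)]
    · rw [hMa, if_pos rfl, hMa, ← hπ, hcc]
      by_cases h : b = Fin.rev a
      · subst h
        rw [if_pos rfl, if_pos rfl, mul_assoc, hd, mul_one]
      · rw [if_neg h, if_neg, mul_zero]
        intro e
        exact h (π.injective e).symm
    · intro i _ hi
      rw [hMa, if_neg hi, mul_zero, zero_mul]
    · intro h; exact absurd (Finset.mem_univ _) h
  have hQ : ∀ a, QA n F (fun i => M i a) = 0 := by
    intro a
    have e : (fun i => M i a) = Pi.single (π a) (d a) := by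
      ext i
      rw [hMa, Pi.single_apply]
    rw [e]
    exact QA_single h2 _ _
  obtain ⟨s, hs⟩ := mk h2 M hstar hQ
  refine ⟨s, fun a b => by rw [hs, hMa], ?_⟩
  intro a b
  rw [hs, hMa]
  constructor
  · intro h
    by_contra e
    exact h (if_neg e)
  · intro e
    rw [if_pos e]
    intro h0
    have := hd b
    rw [h0, zero_mul] at this
    exact zero_ne_one this

end Cfsg.Agent.Lib.H49SpMonMk
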