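import Mathlib
import Cfsg.Agent.Lib.H49SoDefs
import Cfsg.Agent.Lib.H49SpPol
import Cfsg.Agent.Lib.H49SpStar
import Cfsg.Agent.Lib.H49SpMonMk
import Cfsg.Agent.Lib.H49SpInv
import Cfsg.Agent.Lib.H49SpMonB
import Cfsg.Agent.Lib.H49SpMem
import Cfsg.Agent.Lib.H49SuSgm

set_option autoImplicit false

/-! Project 2547 (Steinberg character of `POmega_{2m+1}(q)`), piece `Refl` (15m).

`monMk h2 (sgm n k) (H49SuSgm.sgm_rev n k) 1`.  `Mon_sk`: unfold `sk`, `dif_pos`, `Exists.choose_spec`.  `nlift`: `monMk` with `d = 1`. -/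

namespace Cfsg.Agent.Lib.H49SpRefl

open Matrix Cfsg.Agent.Lib.H49SoDefs
open Cfsg.Agent.Lib.H49SuDefs (Tri UT Dg Mon Tri_one Tri_mul UT_one UT_mul Dg_one Dg_mul Mon_one Mon_mul Mon_uniq sgm Inv CL)
open Cfsg.Agent.Lib.H49SpPol Cfsg.Agent.Lib.H49SpStar Cfsg.Agent.Lib.H49SpMonMk Cfsg.Agent.Lib.H49SpInv Cfsg.Agent.Lib.H49SpMonB Cfsg.Agent.Lib.H49SpMem

variable {n : ℕ} {F : Type*} [Field F]

theorem Mon_sk (h2 : n % 2 = 0) (k : ℕ) : Mon (sgm n k) (mt (sk n F k)) := by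
  have h : ∃ s : GO n F, Mon (sgm n k) (mt s) := by
    obtain ⟨s, -, hs⟩ := monMk (F := F) h2 (sgm n k) (Cfsg.Agent.Lib.H49SuSgm.sgm_rev n k) (fun _ => 1)
      (by intro a; simp)
    exact ⟨s, hs⟩
  unfold sk
  rw [dif_pos h]
  exact h.choose_spec

theorem SS_subset (h2 : n % 2 = 0) : SS n F ⊆ (NN n F : Set (GO n F)) := by
  rintro g ⟨k, hk, rfl⟩
  exact mem_NN.2 ⟨_, Mon_sk h2 k⟩

theorem nlift (h2 : n % 2 = 0) (π : Equiv.Perm (Fin n))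
    (h : ∀ a, π (Fin.rev a) = Fin.rev (π a)) : ∃ g ∈ NN n F, Mon π (mt g) := by
  obtain ⟨s, -, hs⟩ := monMk (F := F) h2 π h (fun _ => 1) (by intro a; simp)
  exact ⟨s, mem_NN.2 ⟨_, hs⟩, hs⟩

end Cfsg.Agent.Lib.H49SpRefl
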