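import Mathlib
import Cfsg.Agent.Lib.H49SoDefs
import Cfsg.Agent.Lib.H49SpPol
import Cfsg.Agent.Lib.H49SpStar
import Cfsg.Agent.Lib.H49SpInv
import Cfsg.Agent.Lib.H49SpMonB
import Cfsg.Agent.Lib.H49SpMem
import Cfsg.Agent.Lib.H49SuSgm
import Cfsg.Agent.Lib.H49SuInvD
import Cfsg.Agent.Lib.H49SpAdj

set_option autoImplicit false

/-! Project 2547 (Steinberg character of `POmega_{2m+1}(q)`), piece `RootGL`. -/

namespace Cfsg.Agent.Lib.H49SpRootGL

open Matrix Cfsg.Agent.Lib.H49SoDefs
open Cfsg.Agent.Lib.H49SuDefs (Tri UT Dg Mon Tri_one Tri_mul UT_one UT_mul Dg_one Dg_mul Mon_one Mon_mul Mon_uniq sgm Inv CL)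
open Cfsg.Agent.Lib.H49SpPol Cfsg.Agent.Lib.H49SpStar Cfsg.Agent.Lib.H49SpInv Cfsg.Agent.Lib.H49SpMonB Cfsg.Agent.Lib.H49SpMem
open Cfsg.Agent.Lib.H49SpAdj Cfsg.Agent.Lib.H49SuInvD

variable {n : ℕ} {F : Type*} [Field F]

theorem single_neg' (i j : Fin n) (s : F) : Matrix.single i j (-s) = - Matrix.single i j s := by
  ext a b
  by_cases h : i = a ∧ j = b
  · obtain ⟨rfl, rfl⟩ := h
    simp
  · rw [Matrix.neg_apply, Matrix.single_apply_of_ne _ _ _ _ _ h, Matrix.single_apply_of_ne _ _ _ _ _ h,
      neg_zero]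

theorem QA_two (h2 : n % 2 = 0) (c d : Fin n) (s : F) (hcd : d ≠ Fin.rev c) :
    QA n F (Pi.single c 1 + Pi.single d s) = 0 := by
  have e : (Pi.single d s : Fin n → F) = s • Pi.single d 1 := by
    ext i
    simp [Pi.single_apply]
  rw [QA_add, QA_single h2, QA_single h2, e, BA_smul_right, BA_single, if_neg hcd]
  simp

theorem exists_x (h2 : n % 2 = 0) {k : ℕ} (hk : 2 * k + 3 < n) (a b : Fin n)
    (ha : a.val = k) (hb : b.val = k + 1) (t : F) :
    ∃ x ∈ XX n F k, mt x = 1 + Matrix.single a b t - Matrix.single (Fin.rev b) (Fin.rev a) t := by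
  have hra : (Fin.rev a).val = n - 1 - k := by rw [Fin.val_rev]; omega
  have hrb : (Fin.rev b).val = n - 2 - k := by rw [Fin.val_rev]; omega
  have h1 : a ≠ b := fun e => by have := congrArg Fin.val e; omega
  have h2' : b ≠ Fin.rev b := fun e => by have := congrArg Fin.val e; omega
  have h3 : Fin.rev a ≠ a := fun e => by have := congrArg Fin.val e; omega
  have h4 : Fin.rev a ≠ Fin.rev b := fun e => by have := congrArg Fin.val e; omega
  have ca : cc F a = 1 := if_neg h3.symm
  have cb : cc F b = 1 := if_neg h2'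
  have hadj : adjO (1 + Matrix.single a b t - Matrix.single (Fin.rev b) (Fin.rev a) t) *
      (1 + Matrix.single a b t - Matrix.single (Fin.rev b) (Fin.rev a) t) = 1 := by
    rw [adjO_sub, adjO_add, adjO_one h2, adjO_single, adjO_single, Fin.rev_rev, Fin.rev_rev,
      cc_rev, cc_rev, ca, cb, inv_one, one_mul, one_mul]
    simp only [mul_add, add_mul, mul_sub, sub_mul, mul_one, one_mul,
      Matrix.single_mul_single_of_ne _ _ _ _ h2', Matrix.single_mul_single_of_ne _ _ _ _ h1.symm,
      Matrix.single_mul_single_of_ne _ _ _ _ h3, Matrix.single_mul_single_of_ne _ _ _ _ h4]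
    abel
  have hQ : ∀ c, QA n F (fun i =>
      (1 + Matrix.single a b t - Matrix.single (Fin.rev b) (Fin.rev a) t) i c) = 0 := by
    intro c
    have hrab : Fin.rev a ≠ b := fun e => by have := congrArg Fin.val e; omega
    have harb : a ≠ Fin.rev b := fun e => by have := congrArg Fin.val e; omega
    by_cases hcb : b = c
    · have e : (fun i => (1 + Matrix.single a b t - Matrix.single (Fin.rev b) (Fin.rev a) t) i c)
          = Pi.single c 1 + Pi.single a t := by
        funext i
        have h5 : Fin.rev a ≠ c := hcb ▸ hrab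
        simp only [Matrix.sub_apply, Matrix.add_apply, Matrix.one_apply, Matrix.single_apply,
          Pi.add_apply, Pi.single_apply]
        simp [hcb, h5, eq_comm]
      rw [e]
      exact QA_two h2 c a t (hcb ▸ harb)
    · by_cases hca : Fin.rev a = c
      · have e : (fun i => (1 + Matrix.single a b t - Matrix.single (Fin.rev b) (Fin.rev a) t) i c)
            = Pi.single c 1 + Pi.single (Fin.rev b) (-t) := by
          funext i
          simp only [Matrix.sub_apply, Matrix.add_apply, Matrix.one_apply, Matrix.single_apply,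
            Pi.add_apply, Pi.single_apply]
          simp [hcb, hca, eq_comm, sub_eq_add_neg]
          split_ifs <;> simp
        rw [e]
        refine QA_two h2 c (Fin.rev b) (-t) ?_
        rw [← hca, Fin.rev_rev]
        exact harb.symm
      · have e : (fun i => (1 + Matrix.single a b t - Matrix.single (Fin.rev b) (Fin.rev a) t) i c)
            = Pi.single c 1 := by
          funext i
          simp only [Matrix.sub_apply, Matrix.add_apply, Matrix.one_apply, Matrix.single_apply,
            Pi.single_apply]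
          simp [hcb, hca]
        rw [e]
        exact QA_single h2 c 1
  obtain ⟨x, hx⟩ := mk' h2 _ hadj hQ
  refine ⟨x, ⟨fun i => ?_, fun i j hij h => ?_⟩, hx⟩
  · rw [hx, Matrix.sub_apply, Matrix.add_apply, Matrix.one_apply_eq,
      Matrix.single_apply_of_ne _ _ _ _ _ (fun e => h1 (e.1.trans e.2.symm)),
      Matrix.single_apply_of_ne _ _ _ _ _ (fun e => h4 (e.2.trans e.1.symm))]
    simp
  · rw [Inv_gl hk]
    rw [hx, Matrix.sub_apply, Matrix.add_apply, Matrix.one_apply_ne hij, zero_add] at h
    by_cases e1 : a = i ∧ b = j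
    · left
      rw [← e1.1, ← e1.2]
      exact ⟨ha, hb⟩
    · rw [Matrix.single_apply_of_ne _ _ _ _ _ e1, zero_sub] at h
      by_cases e2 : Fin.rev b = i ∧ Fin.rev a = j
      · right
        rw [← e2.1, ← e2.2, hra, hrb]
        omega
      · rw [Matrix.single_apply_of_ne _ _ _ _ _ e2, neg_zero] at h
        exact absurd rfl h

theorem exists_y (h2 : n % 2 = 0) {k : ℕ} (hk : 2 * k + 3 < n) (a b : Fin n)
    (ha : a.val = k) (hb : b.val = k + 1) (t : F) :
    ∃ y ∈ YY n F k, mt y = 1 + Matrix.single b a t - Matrix.single (Fin.rev a) (Fin.rev b) t := by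
  obtain ⟨x, hx, hxm⟩ := exists_x h2 hk a b ha hb (-t)
  obtain ⟨y, hy, hym⟩ := exists_y_of_x h2 hx
  refine ⟨y, hy, ?_⟩
  rw [hym, hxm, revM_sub, revM_add, revM_one, revM_single, revM_single, Fin.rev_rev, Fin.rev_rev,
    single_neg', single_neg']
  abel

end Cfsg.Agent.Lib.H49SpRootGL
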