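import Mathlib
import Cfsg.Agent.Lib.H49SoDefs
import Cfsg.Agent.Lib.H49SpPol
import Cfsg.Agent.Lib.H49SpStar
import Cfsg.Agent.Lib.H49SpInv
import Cfsg.Agent.Lib.H49SpMonB
import Cfsg.Agent.Lib.H49SpMem
import Cfsg.Agent.Lib.H49SpDiag
import Cfsg.Agent.Lib.H49SpB1
import Cfsg.Agent.Lib.H49SpHalf
import Cfsg.Agent.Lib.H49SpRootGL
import Cfsg.Agent.Lib.H49SuInvD

set_option autoImplicit false

/-! Project 2547 (Steinberg character of `POmega_{2m+1}(q)`), piece `ClearGL` (35m).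

COPY of the landed `H49SuClearGL` (`t = mt g a b / mt g a a`, `c = g * x⁻¹`; the dual entry by `c⁻¹ a b = 0` and `inv_apply`). -/

namespace Cfsg.Agent.Lib.H49SpClearGL

open Matrix Cfsg.Agent.Lib.H49SoDefs
open Cfsg.Agent.Lib.H49SuDefs (Tri UT Dg Mon Tri_one Tri_mul UT_one UT_mul Dg_one Dg_mul Mon_one Mon_mul Mon_uniq sgm Inv CL)
open Cfsg.Agent.Lib.H49SuInvD Cfsg.Agent.Lib.H49SpPol Cfsg.Agent.Lib.H49SpStar Cfsg.Agent.Lib.H49SpInv Cfsg.Agent.Lib.H49SpMonB Cfsg.Agent.Lib.H49SpMem Cfsg.Agent.Lib.H49SpDiag Cfsg.Agent.Lib.H49SpB1 Cfsg.Agent.Lib.H49SpHalf Cfsg.Agent.Lib.H49SpRootGL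

variable {n : ℕ} {F : Type*} [Field F]

/-- if `c ∈ BB` and `c a b = 0` for consecutive `a`, `b`, then the dual entry vanishes. -/
theorem dual_entry (h2 : n % 2 = 0) {c : GO n F} (hc : c ∈ BB n F)
    (a b : Fin n) (hab : b.val = a.val + 1) (h0 : mt c a b = 0) :
    mt c (Fin.rev b) (Fin.rev a) = 0 := by
  have hne : a ≠ b := by
    intro e
    rw [e] at hab
    omega
  have h1 : (mt c * mt c⁻¹) a b = 0 := by
    rw [← mt_mul, mul_inv_cancel, mt_one, Matrix.one_apply_ne hne]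
  rw [Matrix.mul_apply, Finset.sum_eq_single a] at h1
  · have h3 : mt c⁻¹ a b = 0 := by
      rcases mul_eq_zero.1 h1 with h | h
      · exact absurd h (diag_ne_zero hc a)
      · exact h
    rw [inv_apply h2] at h3
    rcases mul_eq_zero.1 h3 with h | h
    · exact absurd h (mul_ne_zero (inv_ne_zero (cc_ne_zero h2 a)) (cc_ne_zero h2 b))
    · exact h
  · intro i _ hi
    rcases lt_or_gt_of_ne hi with h | h
    · rw [hc.1 a i h, zero_mul]
    · by_cases hib : i = b
      · rw [hib, h0, zero_mul]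
      · have : b < i := by
          rw [Fin.lt_def] at h ⊢
          have : i.val ≠ b.val := fun e => hib (Fin.ext e)
          omega
        rw [hc.2 i b this, mul_zero]
  · intro h
    exact absurd (Finset.mem_univ a) h

theorem clear (h2 : n % 2 = 0) {k : ℕ} (hk : 2 * k + 3 < n) {g : GO n F} (hg : g ∈ BB n F) :
    ∃ c ∈ BB n F, ∃ x ∈ XX n F k, (∀ a b, Inv n k a b → mt c a b = 0) ∧ g = c * x := by
  let a : Fin n := ⟨k, by omega⟩
  let b : Fin n := ⟨k + 1, by omega⟩
  obtain ⟨x, hx, hxm⟩ := exists_x h2 hk a b rfl rfl (mt g a b / mt g a a)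
  have hxB : x ∈ BB n F := UU_le_BB (XX_le h2 hx)
  have hcB : g * x⁻¹ ∈ BB n F := (BB n F).mul_mem hg ((BB n F).inv_mem hxB)
  have hgc : g = g * x⁻¹ * x := by rw [inv_mul_cancel_right]
  have hm : mt g = mt (g * x⁻¹) * mt x := by rw [← mt_mul, ← hgc]
  have hra : Fin.rev a ≠ a := by
    intro e
    have := congrArg Fin.val e
    simp only [Fin.val_rev, a] at this
    omega
  have hrab : Fin.rev a ≠ b := by
    intro e
    have := congrArg Fin.val e
    simp only [Fin.val_rev, a, b] at this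
    omega
  have hab : a ≠ b := by
    intro e
    have := congrArg Fin.val e
    simp only [a, b] at this
    omega
  have haa : mt g a a = mt (g * x⁻¹) a a := by
    conv_lhs => rw [hm, hxm]
    rw [Matrix.mul_sub, Matrix.mul_add, Matrix.mul_one, Matrix.sub_apply, Matrix.add_apply,
      Matrix.mul_single_apply_of_ne _ _ _ _ _ hab, Matrix.mul_single_apply_of_ne _ _ _ _ _ hra.symm,
      add_zero, sub_zero]
  have hab' : mt g a b = mt (g * x⁻¹) a b + mt (g * x⁻¹) a a * (mt g a b / mt g a a) := by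
    conv_lhs => rw [hm, hxm]
    rw [Matrix.mul_sub, Matrix.mul_add, Matrix.mul_one, Matrix.sub_apply, Matrix.add_apply,
      Matrix.mul_single_apply_same, Matrix.mul_single_apply_of_ne _ _ _ _ _ hrab.symm, sub_zero]
  have h0 : mt (g * x⁻¹) a b = 0 := by
    rw [← haa, mul_div_cancel₀ _ (diag_ne_zero hg a)] at hab'
    exact (left_eq_add.mp (by rw [add_comm]; exact hab'))
  refine ⟨g * x⁻¹, hcB, x, hx, ?_, hgc⟩
  intro a' b' hI
  rcases (Inv_gl hk a' b').1 hI with ⟨h1, h3⟩ | ⟨h1, h3⟩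
  · have ea : a' = a := Fin.ext h1
    have eb : b' = b := Fin.ext h3
    rw [ea, eb]
    exact h0
  · have ea : a' = Fin.rev b := by
      apply Fin.ext
      simp only [Fin.val_rev, b]
      omega
    have eb : b' = Fin.rev a := by
      apply Fin.ext
      simp only [Fin.val_rev, a]
      omega
    rw [ea, eb]
    exact dual_entry h2 hcB a b rfl h0

end Cfsg.Agent.Lib.H49SpClearGL
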