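import Mathlib
import Cfsg.Prelude.Def_Classical
import Cfsg.Prelude.Def_LieExceptional
import Cfsg.Agent.Lib.H49SuDefs
import Cfsg.Agent.Lib.H49SoDefs

set_option autoImplicit false

/-! Project 2548 (Steinberg character of `PΩ⁺_{2m}(q)`): vocabulary.  `PreBN G`: the axioms of a BN-pair without `B ⊔ N = ⊤`.
In `GO n F` (`n` even): `rr` = the middle swap, `sD = rr * sk (n/2-2) * rr⁻¹` the extra reflection of type `D`, `SD` the simple
reflections of type `D`, `ND = ⟨SD⟩ T`. -/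

namespace Cfsg.Agent.Lib.H49SpDefs

open Cfsg.Agent.Lib.H49SoDefs

/-- the axioms of a BN-pair, without `B ⊔ N = ⊤` -/
structure PreBN (G : Type*) [Group G] where
  B : Subgroup G
  N : Subgroup G
  S : Set G
  conj_mem : ∀ n ∈ N, ∀ t ∈ B ⊓ N, n * t * n⁻¹ ∈ B
  subset : S ⊆ (N : Set G)
  sq_mem : ∀ s ∈ S, s * s ∈ B
  inj : ∀ s ∈ S, ∀ s' ∈ S, s⁻¹ * s' ∈ B → s = s'
  closure_sup : Subgroup.closure S ⊔ (B ⊓ N) = N
  mul_mem_union : ∀ s ∈ S, ∀ n ∈ N, ∀ b ∈ B,
    s * b * n ∈ DoubleCoset.doubleCoset (s * n) (B : Set G) B ∪ DoubleCoset.doubleCoset n (B : Set G) B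
  conj_ne : ∀ s ∈ S, (fun b : G => s * b * s) '' (B : Set G) ≠ (B : Set G)

/-- the subgroup generated by `B` and `N` -/
def PreBN.H {G : Type*} [Group G] (P : PreBN G) : Subgroup G := P.B ⊔ P.N

/-- the distinguished generators, in `P.H` -/
def PreBN.SH {G : Type*} [Group G] (P : PreBN G) : Set P.H := {x | (x : G) ∈ P.S}

/-- the middle swap -/
noncomputable def rr (n : ℕ) (F : Type*) [Field F] : GO n F := sk n F (n / 2 - 1)

/-- the extra simple reflection of type `D` -/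
noncomputable def sD (n : ℕ) (F : Type*) [Field F] : GO n F := rr n F * sk n F (n / 2 - 2) * (rr n F)⁻¹

/-- the simple reflections of type `D` -/
def SD (n : ℕ) (F : Type*) [Field F] : Set (GO n F) :=
  {g | (∃ k, 2 * k + 3 < n ∧ g = sk n F k) ∨ (4 ≤ n ∧ g = sD n F)}

/-- the group `N` of type `D` -/
def ND (n : ℕ) (F : Type*) [Field F] : Subgroup (GO n F) := Subgroup.closure (SD n F) ⊔ TT n F

end Cfsg.Agent.Lib.H49SpDefs
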