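import Mathlib
import Cfsg.Agent.Lib.H49SoDefs
import Cfsg.Agent.Lib.H49SpDefs
import Cfsg.Agent.Lib.H49SpPol
import Cfsg.Agent.Lib.H49SpStar
import Cfsg.Agent.Lib.H49SpInv
import Cfsg.Agent.Lib.H49SpMonB
import Cfsg.Agent.Lib.H49SpMem

set_option autoImplicit false

/-! Project 2548 (Steinberg character of `POmega+_{2m}(q)`), piece `ERow` (30m).

If the last `j` columns of `u` are trivial then so are the first `j` rows.  `u e_b = e_b` gives `u⁻¹ e_b = e_b`, i.e. the last `j` columns of `u⁻¹` are trivial (`mt u⁻¹ * mt u = 1`); by `inv_apply h2` (`cc = 1`: `cc_eq_one`) `mt u⁻¹ x b = mt u (rev b) (rev x)`; `rev b` runs over the indices `< j`. -/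

namespace Cfsg.Agent.Lib.H49SpERow

open Matrix Cfsg.Agent.Lib.H49SoDefs Cfsg.Agent.Lib.H49SpDefs
open Cfsg.Agent.Lib.H49SuDefs (Tri UT Dg Mon Tri_one Tri_mul UT_one UT_mul Dg_one Dg_mul Mon_one Mon_mul Mon_uniq sgm Inv CL)
open Cfsg.Agent.Lib.H49SpPol Cfsg.Agent.Lib.H49SpStar Cfsg.Agent.Lib.H49SpInv Cfsg.Agent.Lib.H49SpMonB Cfsg.Agent.Lib.H49SpMem

variable {n : ℕ} {F : Type*} [Field F]

theorem rows (h2 : n % 2 = 0) (j : ℕ) {u : GO n F}
    (hu : ∀ a b : Fin n, n ≤ b.val + j → mt u a b = (1 : Matrix (Fin n) (Fin n) F) a b) :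
    ∀ a b : Fin n, a.val < j → mt u a b = (1 : Matrix (Fin n) (Fin n) F) a b := by
  intro a b ha
  have hinv : ∀ x c : Fin n, n ≤ c.val + j → mt u⁻¹ x c = (1 : Matrix (Fin n) (Fin n) F) x c := by
    intro x c hc
    have h1 : mt u⁻¹ * mt u = 1 := by
      rw [← mt_mul, inv_mul_cancel, mt_one]
    have h2' := congrFun (congrFun h1 x) c
    rw [Matrix.mul_apply] at h2'
    rw [← h2']
    have : ∀ k : Fin n, mt u⁻¹ x k * mt u k c = mt u⁻¹ x k * (1 : Matrix (Fin n) (Fin n) F) k c := by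
      intro k; rw [hu k c hc]
    rw [Finset.sum_congr rfl (fun k _ => this k)]
    simp [Matrix.one_apply]
  have h3 := inv_apply h2 u⁻¹ a b
  rw [inv_inv, cc_eq_one h2, cc_eq_one h2] at h3
  rw [h3, hinv _ _ (by rw [Fin.val_rev]; omega)]
  simp only [inv_one, one_mul, Matrix.one_apply, Fin.rev_inj]
  by_cases hab : a = b
  · simp [hab]
  · simp [hab, Ne.symm hab]

end Cfsg.Agent.Lib.H49SpERow
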