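import Mathlib
import Cfsg.Agent.Lib.H49SoDefs
import Cfsg.Agent.Lib.H49SpDefs
import Cfsg.Agent.Lib.H49SpPol

set_option autoImplicit false

/-! Project 2548 (Steinberg character of `POmega+_{2m}(q)`), piece `ESplit` (30m).

Pure computation with `QA` (unfold; compare the two sums termwise, `Finset.sum_eq_single j` for the difference): for `i < j`: `v i = 0 = w i`; `i = j`: `v j * v (rev j)` versus `w j = 0`; `j < i < rev i`: then `rev i < rev j` and both factors agree; `rev i ≤ i`: no contribution (`n` even: `i ≠ rev i`). -/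

namespace Cfsg.Agent.Lib.H49SpESplit

open Matrix Cfsg.Agent.Lib.H49SoDefs Cfsg.Agent.Lib.H49SpDefs
open Cfsg.Agent.Lib.H49SuDefs (Tri UT Dg Mon Tri_one Tri_mul UT_one UT_mul Dg_one Dg_mul Mon_one Mon_mul Mon_uniq sgm Inv CL)
open Cfsg.Agent.Lib.H49SpPol

variable {n : ℕ} {F : Type*} [Field F]

theorem QA_split (h2 : n % 2 = 0) (j : Fin n) (hj : 2 * j.val + 1 < n) (v w : Fin n → F)
    (h0 : ∀ a, a < j → v a = 0) (hw0 : ∀ a, a ≤ j ∨ Fin.rev j ≤ a → w a = 0)
    (hw1 : ∀ a, j < a → a < Fin.rev j → w a = - v a) : QA n F v = v j * v (Fin.rev j) + QA n F w := by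
  unfold QA
  have key : ∀ i : Fin n,
      (if i < Fin.rev i then v i * v (Fin.rev i) else if i = Fin.rev i then v i ^ 2 else 0)
      = (if i = j then v j * v (Fin.rev j) else 0) +
        (if i < Fin.rev i then w i * w (Fin.rev i) else if i = Fin.rev i then w i ^ 2 else 0) := by
    intro i
    have hne : i ≠ Fin.rev i := by
      intro e
      have h3 := congrArg Fin.val e
      rw [Fin.val_rev] at h3
      have := i.isLt
      omega
    by_cases h1 : i < Fin.rev i
    · rw [if_pos h1, if_pos h1]
      rcases lt_trichotomy i j with h | h | h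
      · rw [if_neg (ne_of_lt h), h0 i h, hw0 i (Or.inl h.le)]
        simp
      · subst h
        rw [if_pos rfl, hw0 i (Or.inl le_rfl)]
        simp
      · rw [if_neg (ne_of_gt h)]
        have h3 : Fin.rev i < Fin.rev j := Fin.rev_lt_rev.2 h
        rw [hw1 i h (h1.trans h3), hw1 (Fin.rev i) (h.trans h1) h3]
        ring
    · rw [if_neg h1, if_neg h1, if_neg hne, if_neg hne]
      have hij : i ≠ j := by
        rintro rfl
        apply h1
        rw [Fin.lt_def, Fin.val_rev]
        omega
      rw [if_neg hij]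
      simp
  rw [Finset.sum_congr rfl (fun i _ => key i), Finset.sum_add_distrib, Finset.sum_ite_eq']
  simp

end Cfsg.Agent.Lib.H49SpESplit
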