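import Mathlib
import Cfsg.Agent.Lib.H49SoDefs
import Cfsg.Agent.Lib.H49SpDefs
import Cfsg.Agent.Lib.H49SpPol
import Cfsg.Agent.Lib.H49SpStar
import Cfsg.Agent.Lib.Helper49Eich

set_option autoImplicit false

/-! Project 2548 (Steinberg character of `POmega+_{2m}(q)`), piece `QF` (45m).

`QA` as a `QuadraticForm` and the Eichler transformations `EE j w = E(e_j, w)` of helper49's old library `Helper49Eich` (sync it with its imports).  Fill the two proofs in `QF` (`QA (c • v) = c * c * QA v`: unfold, `Finset.mul_sum`; companion: the bilinear map `BA` -- `LinearMap.mk₂ F (BA n F) ..` with `BA_add_left` etc. and `QA_add`).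
`polar_QF`: `QuadraticMap.polar`, `QA_add`.  `EE_apply`: `Helper49Eich.E_apply (QF n F) he hw x` with `he : QA (e_j) = 0` (`QA_single`), `hw : polar e_j w = BA e_j w = w (rev j) = 0`; `BA x e_j = x (rev j)` (unfold `BA`, `Finset.sum_eq_single (rev j)`, `cc_eq_one`). -/

namespace Cfsg.Agent.Lib.H49SpQF

open Matrix Cfsg.Agent.Lib.H49SoDefs Cfsg.Agent.Lib.H49SpDefs
open Cfsg.Agent.Lib.H49SuDefs (Tri UT Dg Mon Tri_one Tri_mul UT_one UT_mul Dg_one Dg_mul Mon_one Mon_mul Mon_uniq sgm Inv CL)
open Cfsg.Agent.Lib.H49SpPol Cfsg.Agent.Lib.H49SpStar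

variable {n : ℕ} {F : Type*} [Field F]

/-- `QA` as a quadratic form -/
noncomputable def QF (n : ℕ) (F : Type*) [Field F] : QuadraticForm F (Fin n → F) where
  toFun := QA n F
  toFun_smul := by
    intro c v
    unfold QA
    rw [smul_eq_mul, Finset.mul_sum]
    apply Finset.sum_congr rfl
    intro i _
    simp only [Pi.smul_apply, smul_eq_mul]
    split_ifs <;> ring
  exists_companion' := by
    refine ⟨LinearMap.mk₂ F (BA n F) BA_add_left (fun c u v => BA_smul_left c u v) BA_add_right
      (fun c u v => BA_smul_right c u v), ?_⟩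
    intro u v
    rw [LinearMap.mk₂_apply]
    exact QA_add u v

theorem QF_apply (v : Fin n → F) : (QF n F) v = QA n F v := rfl

theorem polar_QF (u v : Fin n → F) : QuadraticMap.polar (⇑(QF n F)) u v = BA n F u v := by
  unfold QuadraticMap.polar
  rw [QF_apply, QF_apply, QF_apply, QA_add]
  ring

/-- the Eichler transformation `E(e_j, w)` -/
noncomputable def EE (j : Fin n) (w : Fin n → F) : GO n F := Cfsg.Agent.Lib.Helper49Eich.E (QF n F) (Pi.single j 1) w

theorem BA_single_right (h2 : n % 2 = 0) (j : Fin n) (y : Fin n → F) :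
    BA n F y (Pi.single j 1) = y (Fin.rev j) := by
  unfold BA
  rw [Finset.sum_eq_single (Fin.rev j)]
  · rw [Fin.rev_rev, Pi.single_eq_same, cc_eq_one h2]
    ring
  · intro i _ hi
    have : Fin.rev i ≠ j := by
      intro h
      apply hi
      rw [← h, Fin.rev_rev]
    rw [Pi.single_eq_of_ne this, mul_zero]
  · intro h
    exact absurd (Finset.mem_univ _) h

theorem BA_single_left (h2 : n % 2 = 0) (j : Fin n) (y : Fin n → F) :
    BA n F (Pi.single j 1) y = y (Fin.rev j) := by
  unfold BA
  rw [Finset.sum_eq_single j]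
  · rw [Pi.single_eq_same, cc_eq_one h2]
    ring
  · intro i _ hi
    rw [Pi.single_eq_of_ne hi, mul_zero, zero_mul]
  · intro h
    exact absurd (Finset.mem_univ _) h

theorem EE_apply (h2 : n % 2 = 0) (j : Fin n) (w : Fin n → F) (hw : w (Fin.rev j) = 0) (x : Fin n → F) :
    mt (EE j w) *ᵥ x = x + (BA n F x w - QA n F w * x (Fin.rev j)) • Pi.single j 1 - x (Fin.rev j) • w := by
  have he : (QF n F) (Pi.single j 1) = 0 := QA_single h2 j 1
  have hw' : QuadraticMap.polar (⇑(QF n F)) (Pi.single j 1) w = 0 := by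
    rw [polar_QF, BA_single_left h2, hw]
  have h := Cfsg.Agent.Lib.Helper49Eich.E_apply (QF n F) he hw' x
  rw [polar_QF, polar_QF, BA_single_right h2] at h
  exact h

end Cfsg.Agent.Lib.H49SpQF
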