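import Mathlib
import Cfsg.Agent.Lib.H49SoDefs
import Cfsg.Agent.Lib.H49SpDefs
import Cfsg.Agent.Lib.H49SpPol
import Cfsg.Agent.Lib.H49SpStar
import Cfsg.Agent.Lib.H49SpInv
import Cfsg.Agent.Lib.H49SpMonB
import Cfsg.Agent.Lib.H49SpMem
import Cfsg.Agent.Lib.H49SpQF

set_option autoImplicit false

/-! Project 2548 (Steinberg character of `POmega+_{2m}(q)`), piece `EU` (40m).

The matrix of `EE j w` (`w` supported on the open interval `(j, rev j)`).  Column `b` = `mt (EE j w) *ᵥ Pi.single b 1` (`Matrix.mulVec_single_one`), `EE_apply` with `x = e_b`: `x (rev j) = [b = rev j]`, `BA e_b w = w (rev b)` (unfold `BA`, `Finset.sum_eq_single b`, `cc_eq_one`).  So `E e_b = e_b + w (rev b) e_j` for `b ≠ rev j` (and `w (rev b) ≠ 0` only if `j < b < rev j`),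
`E e_{rev j} = e_{rev j} - QA w e_j - w` (`w j = 0`).  `EE_mem_UU` via `mem_UU h2`: `UT` = zero below the diagonal and ones on it (see `H49SuDefs.UT`). -/

namespace Cfsg.Agent.Lib.H49SpEU

open Matrix Cfsg.Agent.Lib.H49SoDefs Cfsg.Agent.Lib.H49SpDefs
open Cfsg.Agent.Lib.H49SuDefs (Tri UT Dg Mon Tri_one Tri_mul UT_one UT_mul Dg_one Dg_mul Mon_one Mon_mul Mon_uniq sgm Inv CL)
open Cfsg.Agent.Lib.H49SpPol Cfsg.Agent.Lib.H49SpStar Cfsg.Agent.Lib.H49SpInv Cfsg.Agent.Lib.H49SpMonB Cfsg.Agent.Lib.H49SpMem Cfsg.Agent.Lib.H49SpQF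

variable {n : ℕ} {F : Type*} [Field F]

theorem BA_single_left (h2 : n % 2 = 0) (b : Fin n) (w : Fin n → F) :
    BA n F (Pi.single b 1) w = w (Fin.rev b) := by
  unfold BA
  rw [Finset.sum_eq_single b]
  · rw [cc_eq_one h2, Pi.single_eq_same, one_mul, one_mul]
  · intro i _ hi
    rw [Pi.single_eq_of_ne hi, mul_zero, zero_mul]
  · intro h; exact absurd (Finset.mem_univ b) h

theorem EE_col (h2 : n % 2 = 0) (j : Fin n) (w : Fin n → F) (hw0 : w (Fin.rev j) = 0) (b : Fin n) :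
    mt (EE j w) *ᵥ Pi.single b 1 = Pi.single b 1
      + (w (Fin.rev b) - QA n F w * (Pi.single b 1 : Fin n → F) (Fin.rev j)) • Pi.single j 1
      - (Pi.single b 1 : Fin n → F) (Fin.rev j) • w := by
  rw [EE_apply h2 j w hw0, BA_single_left h2]

theorem EE_entry (h2 : n % 2 = 0) (j : Fin n) (w : Fin n → F) (hw0 : w (Fin.rev j) = 0)
    (a b : Fin n) :
    mt (EE j w) a b = (Pi.single b 1 : Fin n → F) a
      + (w (Fin.rev b) - QA n F w * (Pi.single b 1 : Fin n → F) (Fin.rev j))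
        * (Pi.single j 1 : Fin n → F) a
      - (Pi.single b 1 : Fin n → F) (Fin.rev j) * w a := by
  have h := congrFun (EE_col h2 j w hw0 b) a
  have h' : (mt (EE j w) *ᵥ Pi.single b 1) a = mt (EE j w) a b := by
    rw [Matrix.mulVec_single_one]; rfl
  rw [h'] at h
  rw [h]
  simp only [Pi.add_apply, Pi.sub_apply, Pi.smul_apply, smul_eq_mul]

theorem EE_col_hi (h2 : n % 2 = 0) (j : Fin n) (w : Fin n → F) (hw : ∀ a, a ≤ j ∨ Fin.rev j ≤ a → w a = 0)
    (b : Fin n) (hb : Fin.rev j < b) : mt (EE j w) *ᵥ Pi.single b 1 = Pi.single b 1 := by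
  rw [EE_col h2 j w (hw _ (Or.inr le_rfl))]
  have h1 : (Pi.single b 1 : Fin n → F) (Fin.rev j) = 0 := Pi.single_eq_of_ne (ne_of_lt hb) _
  have h3 : Fin.rev b ≤ j := by
    have := Fin.rev_lt_rev.mpr hb
    rw [Fin.rev_rev] at this
    exact this.le
  have h2' : w (Fin.rev b) = 0 := hw _ (Or.inl h3)
  rw [h1, h2']
  simp

theorem EE_col_rev (h2 : n % 2 = 0) (j : Fin n) (w : Fin n → F) (hw : ∀ a, a ≤ j ∨ Fin.rev j ≤ a → w a = 0) :
    mt (EE j w) *ᵥ Pi.single (Fin.rev j) 1 = Pi.single (Fin.rev j) 1 - QA n F w • Pi.single j 1 - w := by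
  rw [EE_col h2 j w (hw _ (Or.inr le_rfl))]
  have h1 : (Pi.single (Fin.rev j) 1 : Fin n → F) (Fin.rev j) = 1 := Pi.single_eq_same _ _
  have h2' : w (Fin.rev (Fin.rev j)) = 0 := by rw [Fin.rev_rev]; exact hw _ (Or.inl le_rfl)
  rw [h1, h2']
  simp [sub_eq_add_neg]

theorem EE_mem_UU (h2 : n % 2 = 0) (j : Fin n) (hj : 2 * j.val + 1 < n) (w : Fin n → F)
    (hw : ∀ a, a ≤ j ∨ Fin.rev j ≤ a → w a = 0) : EE j w ∈ UU n F := by
  rw [mem_UU h2]
  have hw0 : w (Fin.rev j) = 0 := hw _ (Or.inr le_rfl)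
  have hwj : w j = 0 := hw _ (Or.inl le_rfl)
  have hjr : j < Fin.rev j := by
    rw [Fin.lt_def, Fin.val_rev]; omega
  constructor
  · intro a b hab
    rw [EE_entry h2 j w hw0]
    have h1 : (Pi.single b 1 : Fin n → F) a = 0 := Pi.single_eq_of_ne (ne_of_gt hab) _
    rw [h1]
    by_cases hbj : b = Fin.rev j
    · subst hbj
      have h3 : w a = 0 := hw a (Or.inr hab.le)
      have h4 : (Pi.single j 1 : Fin n → F) a = 0 :=
        Pi.single_eq_of_ne (ne_of_gt (lt_trans hjr hab)) _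
      rw [h3, h4]; simp
    · have h3 : (Pi.single b 1 : Fin n → F) (Fin.rev j) = 0 :=
        Pi.single_eq_of_ne (fun e => hbj e.symm) _
      rw [h3]
      by_cases haj : a = j
      · subst haj
        have h4 : w (Fin.rev b) = 0 := hw _ (Or.inr (Fin.rev_le_rev.mpr hab.le))
        rw [h4]; simp
      · have h4 : (Pi.single j 1 : Fin n → F) a = 0 := Pi.single_eq_of_ne haj _
        rw [h4]; simp
  · intro a
    rw [EE_entry h2 j w hw0]
    have h1 : (Pi.single a 1 : Fin n → F) a = 1 := Pi.single_eq_same _ _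
    rw [h1]
    by_cases haj : a = j
    · subst haj
      have h3 : (Pi.single a 1 : Fin n → F) (Fin.rev a) = 0 := Pi.single_eq_of_ne (ne_of_gt hjr) _
      rw [h3, hw0]; simp
    · have h4 : (Pi.single j 1 : Fin n → F) a = 0 := Pi.single_eq_of_ne haj _
      rw [h4]
      by_cases har : a = Fin.rev j
      · subst har
        rw [hw0]; simp
      · have h3 : (Pi.single a 1 : Fin n → F) (Fin.rev j) = 0 :=
          Pi.single_eq_of_ne (fun e => har e.symm) _
        rw [h3]; simp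

end Cfsg.Agent.Lib.H49SpEU
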