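import Mathlib
import Cfsg.Agent.Lib.H49SoDefs
import Cfsg.Agent.Lib.H49SpDefs
import Cfsg.Agent.Lib.H49SpPol
import Cfsg.Agent.Lib.H49SpStar
import Cfsg.Agent.Lib.H49SpInv
import Cfsg.Agent.Lib.H49SpMonB
import Cfsg.Agent.Lib.H49SpMem
import Cfsg.Agent.Lib.H49SpQF
import Cfsg.Agent.Lib.H49SpEU
import Cfsg.Agent.Lib.H49SpERow
import Cfsg.Agent.Lib.H49SpESplit

set_option autoImplicit false

/-! Project 2548 (Steinberg character of `POmega+_{2m}(q)`), piece `EStep` (40m).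

One step of the elimination.  `jj : Fin n` with value `j`, `v = column (rev jj) of u` (`= mt u *ᵥ e_{rev jj}`), `w a = - v a` for `jj < a < rev jj`, `0` otherwise.  `v (rev jj) = 1`, `v a = 0` for `a > rev jj` (`hu.1 : UT`), `v a = 0` for `a < jj` (`ERow.rows`), `QA v = QA e = 0` (`QA_mulVec`, `QA_single`), so `v jj = - QA w` (`ESplit.QA_split`), hence
`EE jj w e_{rev jj} = e_{rev jj} - QA w e_jj - w = v` (`EU.EE_col_rev`; `funext`, cases).  Then `(EE⁻¹ * u) e_{rev jj} = EE⁻¹ v = e_{rev jj}`, and for `b > rev jj`: `u e_b = e_b`, `EE e_b = e_b` (`EU.EE_col_hi`) so `EE⁻¹ e_b = e_b`.  (`mt (g⁻¹) *ᵥ (mt g *ᵥ x) = x` from `mt_mul`, `inv_mul_cancel`, `mt_one`.) -/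

namespace Cfsg.Agent.Lib.H49SpEStep

open Matrix Cfsg.Agent.Lib.H49SoDefs Cfsg.Agent.Lib.H49SpDefs
open Cfsg.Agent.Lib.H49SuDefs (Tri UT Dg Mon Tri_one Tri_mul UT_one UT_mul Dg_one Dg_mul Mon_one Mon_mul Mon_uniq sgm Inv CL)
open Cfsg.Agent.Lib.H49SpPol Cfsg.Agent.Lib.H49SpStar Cfsg.Agent.Lib.H49SpInv Cfsg.Agent.Lib.H49SpMonB Cfsg.Agent.Lib.H49SpMem Cfsg.Agent.Lib.H49SpQF Cfsg.Agent.Lib.H49SpEU Cfsg.Agent.Lib.H49SpERow Cfsg.Agent.Lib.H49SpESplit

variable {n : ℕ} {F : Type*} [Field F]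

theorem inv_mulVec (g : GO n F) (x : Fin n → F) : mt g⁻¹ *ᵥ (mt g *ᵥ x) = x := by
  rw [Matrix.mulVec_mulVec, ← mt_mul, inv_mul_cancel, mt_one, Matrix.one_mulVec]

theorem col_apply (M : Matrix (Fin n) (Fin n) F) (a b : Fin n) :
    (M *ᵥ Pi.single b 1) a = M a b := by
  rw [Matrix.mulVec_single_one]; rfl

theorem single_eq_one (a b : Fin n) :
    (Pi.single b 1 : Fin n → F) a = (1 : Matrix (Fin n) (Fin n) F) a b := by
  rw [Matrix.one_apply, Pi.single_apply]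

theorem step (h2 : n % 2 = 0) (j : ℕ) (hj : 2 * j + 1 < n) {u : GO n F} (hu : u ∈ UU n F)
    (hcol : ∀ a b : Fin n, n ≤ b.val + j → mt u a b = (1 : Matrix (Fin n) (Fin n) F) a b) :
    ∃ w : Fin n → F, (∀ a : Fin n, a ≤ (⟨j, by omega⟩ : Fin n) ∨ Fin.rev (⟨j, by omega⟩ : Fin n) ≤ a → w a = 0) ∧
      ∀ a b : Fin n, n ≤ b.val + (j + 1) →
        mt ((EE (⟨j, by omega⟩ : Fin n) w)⁻¹ * u) a b = (1 : Matrix (Fin n) (Fin n) F) a b := by
  classical
  obtain ⟨jj, hjj⟩ : ∃ jj : Fin n, jj = (⟨j, by omega⟩ : Fin n) := ⟨_, rfl⟩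
  rw [← hjj]
  have hjv : jj.val = j := by rw [hjj]
  have hrv : (Fin.rev jj).val = n - (j + 1) := by rw [Fin.val_rev, hjv]
  obtain ⟨v, hv⟩ : ∃ v : Fin n → F, v = mt u *ᵥ Pi.single (Fin.rev jj) 1 := ⟨_, rfl⟩
  have hva : ∀ a, v a = mt u a (Fin.rev jj) := by
    intro a; rw [hv, col_apply]
  obtain ⟨w, hw⟩ : ∃ w : Fin n → F, w = fun a => if jj < a ∧ a < Fin.rev jj then - v a else 0 :=
    ⟨_, rfl⟩
  have hw0 : ∀ a : Fin n, a ≤ jj ∨ Fin.rev jj ≤ a → w a = 0 := by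
    intro a ha
    rw [hw]
    show (if jj < a ∧ a < Fin.rev jj then - v a else 0) = 0
    rw [if_neg]
    rintro ⟨h3, h4⟩
    rcases ha with h5 | h5
    · exact absurd h3 (not_lt.mpr h5)
    · exact absurd h4 (not_lt.mpr h5)
  have hw1 : ∀ a, jj < a → a < Fin.rev jj → w a = - v a := by
    intro a h3 h4
    rw [hw]
    show (if jj < a ∧ a < Fin.rev jj then - v a else 0) = - v a
    rw [if_pos ⟨h3, h4⟩]
  have hvr : v (Fin.rev jj) = 1 := by rw [hva]; exact hu.1.2 _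
  have hvhi : ∀ a, Fin.rev jj < a → v a = 0 := by
    intro a ha; rw [hva]; exact hu.1.1 a _ ha
  have hvlo : ∀ a, a < jj → v a = 0 := by
    intro a ha
    rw [hva, H49SpERow.rows h2 j hcol a (Fin.rev jj) (by rw [← hjv]; exact ha), Matrix.one_apply,
      if_neg]
    intro e
    have h3 : a.val = n - (j + 1) := by rw [e, hrv]
    have h4 : a.val < j := by rw [← hjv]; exact ha
    omega
  have hQv : QA n F v = 0 := by rw [hv, QA_mulVec, QA_single h2]
  have hsplit := H49SpESplit.QA_split h2 jj (by rw [hjv]; exact hj) v w hvlo hw0 hw1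
  rw [hQv, hvr, mul_one] at hsplit
  have hvj : v jj = - QA n F w := by
    have : v jj + QA n F w = 0 := hsplit.symm
    exact eq_neg_of_add_eq_zero_left this
  have hjr : jj < Fin.rev jj := by
    rw [Fin.lt_def, hrv, hjv]; omega
  have hEv : mt (EE jj w) *ᵥ Pi.single (Fin.rev jj) 1 = v := by
    rw [H49SpEU.EE_col_rev h2 jj w hw0]
    funext a
    simp only [Pi.sub_apply, Pi.smul_apply, smul_eq_mul]
    rcases lt_trichotomy a jj with h3 | h3 | h3
    · rw [Pi.single_eq_of_ne (ne_of_lt (lt_trans h3 hjr)), Pi.single_eq_of_ne (ne_of_lt h3),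
        hw0 a (Or.inl h3.le), hvlo a h3]
      simp
    · subst h3
      rw [Pi.single_eq_of_ne (ne_of_lt hjr), Pi.single_eq_same, hw0 a (Or.inl le_rfl), hvj]
      simp
    · rcases lt_trichotomy a (Fin.rev jj) with h4 | h4 | h4
      · rw [Pi.single_eq_of_ne (ne_of_lt h4), Pi.single_eq_of_ne (ne_of_gt h3), hw1 a h3 h4]
        simp
      · rw [h4, Pi.single_eq_same, Pi.single_eq_of_ne (ne_of_gt hjr), hw0 _ (Or.inr le_rfl), hvr]
        simp
      · rw [Pi.single_eq_of_ne (ne_of_gt h4), Pi.single_eq_of_ne (ne_of_gt h3),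
          hw0 a (Or.inr h4.le), hvhi a h4]
        simp
  refine ⟨w, hw0, ?_⟩
  intro a b hb
  rw [← col_apply (mt ((EE jj w)⁻¹ * u)) a b, mt_mul, ← Matrix.mulVec_mulVec, ← single_eq_one]
  by_cases hbr : b = Fin.rev jj
  · rw [hbr, ← hv, ← hEv, inv_mulVec]
  · have hb' : Fin.rev jj < b := by
      rw [Fin.lt_def, hrv]
      have h3 : b.val ≠ n - (j + 1) := by
        intro e
        apply hbr
        apply Fin.ext
        rw [e, hrv]
      omega
    have hub : mt u *ᵥ Pi.single b 1 = Pi.single b 1 := by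
      funext a'
      rw [col_apply, single_eq_one]
      apply hcol
      rw [Fin.lt_def, hrv] at hb'
      omega
    rw [hub]
    have h4 := inv_mulVec (EE jj w) (Pi.single b 1)
    rw [H49SpEU.EE_col_hi h2 jj w hw0 b hb'] at h4
    rw [h4]

end Cfsg.Agent.Lib.H49SpEStep
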