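import Mathlib
import Cfsg.Agent.Lib.H49SoDefs
import Cfsg.Agent.Lib.H49SpDefs
import Cfsg.Agent.Lib.H49SpPol
import Cfsg.Agent.Lib.H49SpStar
import Cfsg.Agent.Lib.H49SpInv
import Cfsg.Agent.Lib.H49SpMonB
import Cfsg.Agent.Lib.H49SpMem
import Cfsg.Agent.Lib.H49SpQF
import Cfsg.Agent.Lib.H49SpEU
import Cfsg.Agent.Lib.H49SpERow
import Cfsg.Agent.Lib.H49SpEStep

set_option autoImplicit false

/-! Project 2548 (Steinberg character of `POmega+_{2m}(q)`), piece `EInd` (35m).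

Induction.  Claim `C d`: for all `j` with `n ≤ 2 * j + d`... e.g. by induction on `d = n/2 - j`: every `u ∈ UU` whose last `j` columns are trivial lies in `K`.  If `n ≤ 2 * j`: the columns `b ≥ n/2` are trivial, the rows `a < n/2` are trivial (`ERow.rows`), and for `a ≥ n/2 > b` the entry is `0` (`UT`), so `mt u = 1`, `u = 1` (`mt_inj`).
Otherwise `EStep.step` gives `w`; `u' = EE⁻¹ * u ∈ UU` (`EU.EE_mem_UU`), `u' ∈ K` by induction, `u = EE * u'`.  Start with `j = 0`. -/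

namespace Cfsg.Agent.Lib.H49SpEInd

open Matrix Cfsg.Agent.Lib.H49SoDefs Cfsg.Agent.Lib.H49SpDefs
open Cfsg.Agent.Lib.H49SuDefs (Tri UT Dg Mon Tri_one Tri_mul UT_one UT_mul Dg_one Dg_mul Mon_one Mon_mul Mon_uniq sgm Inv CL)
open Cfsg.Agent.Lib.H49SpPol Cfsg.Agent.Lib.H49SpStar Cfsg.Agent.Lib.H49SpInv Cfsg.Agent.Lib.H49SpMonB Cfsg.Agent.Lib.H49SpMem Cfsg.Agent.Lib.H49SpQF Cfsg.Agent.Lib.H49SpEU Cfsg.Agent.Lib.H49SpERow Cfsg.Agent.Lib.H49SpEStep

variable {n : ℕ} {F : Type*} [Field F]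

theorem UU_le_aux (h2 : n % 2 = 0) (K : Subgroup (GO n F))
    (hK : ∀ (j : Fin n) (w : Fin n → F), (∀ a, a ≤ j ∨ Fin.rev j ≤ a → w a = 0) → EE j w ∈ K) :
    ∀ (d j : ℕ), n ≤ 2 * j + d → ∀ u : GO n F, u ∈ UU n F →
      (∀ a b : Fin n, n ≤ b.val + j → mt u a b = (1 : Matrix (Fin n) (Fin n) F) a b) → u ∈ K := by
  intro d
  induction d with
  | zero =>
    intro j hj u hu hcol
    have hrow := Cfsg.Agent.Lib.H49SpERow.rows h2 j hcol
    have hUT : UT (mt u) := (Cfsg.Agent.Lib.H49SpMem.mem_UU h2).1 hu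
    have h1 : mt u = 1 := by
      ext a b
      by_cases hb : n ≤ b.val + j
      · exact hcol a b hb
      · by_cases ha : a.val < j
        · exact hrow a b ha
        · have hlt : b < a := by
            rw [Fin.lt_def]; omega
          rw [hUT.1 a b hlt, Matrix.one_apply_ne (ne_of_gt hlt)]
    have : u = 1 := mt_inj (by rw [h1, mt_one])
    rw [this]; exact K.one_mem
  | succ d ih =>
    intro j hj u hu hcol
    by_cases hj2 : n ≤ 2 * j + d
    · exact ih j hj2 u hu hcol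
    · have hjn : 2 * j + 1 < n := by omega
      obtain ⟨w, hw, hcol'⟩ := Cfsg.Agent.Lib.H49SpEStep.step h2 j hjn hu hcol
      have hE : EE (⟨j, by omega⟩ : Fin n) w ∈ UU n F :=
        Cfsg.Agent.Lib.H49SpEU.EE_mem_UU h2 _ hjn w hw
      have hu' : (EE (⟨j, by omega⟩ : Fin n) w)⁻¹ * u ∈ UU n F :=
        (UU n F).mul_mem ((UU n F).inv_mem hE) hu
      have hk' := ih (j + 1) (by omega) _ hu' hcol'
      have := K.mul_mem (hK _ w hw) hk'
      rwa [mul_inv_cancel_left] at this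

theorem UU_le (h2 : n % 2 = 0) (K : Subgroup (GO n F))
    (hK : ∀ (j : Fin n) (w : Fin n → F), (∀ a, a ≤ j ∨ Fin.rev j ≤ a → w a = 0) → EE j w ∈ K) : UU n F ≤ K := by
  intro u hu
  refine UU_le_aux h2 K hK n 0 (by omega) u hu ?_
  intro a b hb
  exact absurd b.isLt (by omega)

end Cfsg.Agent.Lib.H49SpEInd
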