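import Mathlib
import Cfsg.Agent.Lib.H49SoDefs
import Cfsg.Agent.Lib.H49SpDefs
import Cfsg.Agent.Lib.H49SpPol
import Cfsg.Agent.Lib.H49SpStar
import Cfsg.Agent.Lib.H49SpQF

set_option autoImplicit false

/-! Project 2548 (Steinberg character of `POmega+_{2m}(q)`), piece `QFn` (30m).

Nondegeneracy of the polar form for `n` even: if `BA u v = 0` for all `v` then `u = 0` (take `v = Pi.single (rev a) 1`: `BA u v = u a`).  Unfold `LinearMap.BilinForm.Nondegenerate` / `LinearMap.Nondegenerate` (`SeparatingLeft`, `SeparatingRight`), `QuadraticMap.polarBilin_apply_apply`, `polar_QF`; `BA` is symmetric for `n` even (reindex by `Fin.rev`), or treat both sides directly.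
Compare `Helper49Rank.QPlus_nondegenerate`, `Helper49Gram.nondegenerate_of_det_gram_ne_zero`. -/

namespace Cfsg.Agent.Lib.H49SpQFn

open Matrix Cfsg.Agent.Lib.H49SoDefs Cfsg.Agent.Lib.H49SpDefs
open Cfsg.Agent.Lib.H49SuDefs (Tri UT Dg Mon Tri_one Tri_mul UT_one UT_mul Dg_one Dg_mul Mon_one Mon_mul Mon_uniq sgm Inv CL)
open Cfsg.Agent.Lib.H49SpPol Cfsg.Agent.Lib.H49SpStar Cfsg.Agent.Lib.H49SpQF

variable {n : ℕ} {F : Type*} [Field F]

theorem BA_single_right (h2 : n % 2 = 0) (u : Fin n → F) (a : Fin n) :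
    BA n F u (Pi.single (Fin.rev a) 1) = u a := by
  unfold BA
  rw [Finset.sum_eq_single a]
  · rw [cc_eq_one h2, Pi.single_eq_same, one_mul, mul_one]
  · intro b _ hb
    rw [Pi.single_eq_of_ne (fun h => hb (Fin.rev_injective h)), mul_zero]
  · intro h
    exact absurd (Finset.mem_univ a) h

theorem BA_single_left (h2 : n % 2 = 0) (v : Fin n → F) (a : Fin n) :
    BA n F (Pi.single (Fin.rev a) 1) v = v a := by
  unfold BA
  rw [Finset.sum_eq_single (Fin.rev a)]
  · rw [cc_eq_one h2, Pi.single_eq_same, one_mul, one_mul, Fin.rev_rev]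
  · intro b _ hb
    rw [Pi.single_eq_of_ne hb, mul_zero, zero_mul]
  · intro h
    exact absurd (Finset.mem_univ _) h

theorem QF_nondeg (h2 : n % 2 = 0) : (QuadraticMap.polarBilin (QF n F)).Nondegenerate := by
  constructor
  · intro u hu
    ext a
    have := hu (Pi.single (Fin.rev a) 1)
    rw [QuadraticMap.polarBilin_apply_apply, polar_QF, BA_single_right h2] at this
    simpa using this
  · intro v hv
    ext a
    have := hv (Pi.single (Fin.rev a) 1)
    rw [QuadraticMap.polarBilin_apply_apply, polar_QF, BA_single_left h2] at this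
    simpa using this

end Cfsg.Agent.Lib.H49SpQFn
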