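import Mathlib
import Cfsg.Agent.Lib.H49SoDefs
import Cfsg.Agent.Lib.H49SpDefs
import Cfsg.Agent.Lib.H49SpPol
import Cfsg.Agent.Lib.H49SpStar
import Cfsg.Agent.Lib.H49SpQF
import Cfsg.Agent.Lib.H49SpQFn
import Cfsg.Agent.Lib.Helper49EichGen

set_option autoImplicit false

/-! Project 2548 (Steinberg character of `POmega+_{2m}(q)`), piece `EK` (45m).

Eichler transformations are commutators.  `Cfsg.Omega F ⇑(QF n F)` is `commutator (GO n F)` by `rfl`.  Case `5 ≤ n`: `Helper49EichGen.E_mem_Omega (QF n F) (QF_nondeg h2) (by simpa using ..) he hw'`.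
Case `card F ≠ 2`: if `QA w ≠ 0`: `Helper49EichGen.E_mem_Omega_of_nonsingular _ _ (Or.inl hc) he hw' hQw`.  If `QA w = 0`: if `w = 0`, `Helper49Eich.E_zero`.  Otherwise the interval `(j, rev j)` contains `a = j+1 < rev a`; put `α = w a`, `β = w (rev a)`, `z = x e_a + y e_{rev a}`; `QA z = x y`, `QA (w - z) = QA w - (x β + y α) + x y`.
Choose `x, y ≠ 0` with `x y - x β - y α ≠ 0`, i.e. `(x - α)(y - β) ≠ α β`: if `α β ≠ 0` take `x = α`, `y = β`... (`0 ≠ αβ`); if `α β = 0` take `x ∉ {0, α}`, `y ∉ {0, β}` (possible as `card F ≥ 3`).  Then `E e w = E e (w - z) * E e z` (`Helper49Eich.E_mul`), both factors by the nonsingular case (copy the proof of `Helper49EichGen.E_mem_Omega`). -/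

namespace Cfsg.Agent.Lib.H49SpEK

open Matrix Cfsg.Agent.Lib.H49SoDefs Cfsg.Agent.Lib.H49SpDefs
open Cfsg.Agent.Lib.H49SuDefs (Tri UT Dg Mon Tri_one Tri_mul UT_one UT_mul Dg_one Dg_mul Mon_one Mon_mul Mon_uniq sgm Inv CL)
open Cfsg.Agent.Lib.H49SpPol Cfsg.Agent.Lib.H49SpStar Cfsg.Agent.Lib.H49SpQF Cfsg.Agent.Lib.H49SpQFn

variable {n : ℕ} {F : Type*} [Field F]

theorem BA_sr (h2 : n % 2 = 0) (j : Fin n) (c : F) (y : Fin n → F) :
    BA n F y (Pi.single j c) = c * y (Fin.rev j) := by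
  have e : (Pi.single j c : Fin n → F) = c • Pi.single j 1 := by
    funext i
    by_cases h : i = j
    · subst h; simp
    · simp [Pi.single_eq_of_ne h]
  rw [e, BA_smul_right, Cfsg.Agent.Lib.H49SpQF.BA_single_right h2]

theorem BA_sl (h2 : n % 2 = 0) (j : Fin n) (c : F) (y : Fin n → F) :
    BA n F (Pi.single j c) y = c * y (Fin.rev j) := by
  have e : (Pi.single j c : Fin n → F) = c • Pi.single j 1 := by
    funext i
    by_cases h : i = j
    · subst h; simp
    · simp [Pi.single_eq_of_ne h]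
  rw [e, BA_smul_left, Cfsg.Agent.Lib.H49SpQF.BA_single_left h2]

theorem exists_ne_two [Fintype F] (hc : Fintype.card F ≠ 2) (α : F) : ∃ x : F, x ≠ 0 ∧ x ≠ α := by
  classical
  by_contra hcon
  push Not at hcon
  have hle : Fintype.card F ≤ 2 := by
    calc Fintype.card F = (Finset.univ : Finset F).card := Finset.card_univ.symm
      _ ≤ ({0, α} : Finset F).card := Finset.card_le_card (fun x _ => by
          by_cases hx : x = 0
          · simp [hx]
          · simp [hcon x hx])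
      _ ≤ 2 := Finset.card_le_two
  have hge : 2 ≤ Fintype.card F := Fintype.one_lt_card
  omega

theorem EE_mem [Fintype F] (h2 : n % 2 = 0) (hc : 5 ≤ n ∨ Fintype.card F ≠ 2) (j : Fin n) (w : Fin n → F)
    (hw : ∀ a, a ≤ j ∨ Fin.rev j ≤ a → w a = 0) : EE j w ∈ commutator (GO n F) := by
  have he : (QF n F) (Pi.single j 1) = 0 := QA_single h2 j 1
  have hw' : QuadraticMap.polar (⇑(QF n F)) (Pi.single j 1) w = 0 := by
    rw [polar_QF, Cfsg.Agent.Lib.H49SpQF.BA_single_left h2, hw _ (Or.inr le_rfl)]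
  show Cfsg.Agent.Lib.Helper49Eich.E (QF n F) (Pi.single j 1) w ∈ Cfsg.Omega F ⇑(QF n F)
  rcases hc with hc | hc
  · exact Cfsg.Agent.Lib.Helper49EichGen.E_mem_Omega (QF n F) (QF_nondeg h2) (by simpa using hc) he hw'
  have hq : Fintype.card F ≠ 2 ∨ Fintype.card (Fin n) ≠ 4 := Or.inl hc
  by_cases hQw : (QF n F) w = 0
  · by_cases hw0 : w = 0
    · rw [hw0, Cfsg.Agent.Lib.Helper49Eich.E_zero]
      exact Subgroup.one_mem _
    obtain ⟨a, ha⟩ : ∃ a, w a ≠ 0 := by
      by_contra hcon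
      push Not at hcon
      exact hw0 (funext hcon)
    have haj : ¬ (a ≤ j ∨ Fin.rev j ≤ a) := fun h => ha (hw a h)
    push Not at haj
    have hne1 : Fin.rev j ≠ a := ne_of_gt haj.2
    have hne2 : Fin.rev j ≠ Fin.rev a := by
      intro h
      exact (ne_of_gt haj.1) (Fin.rev_injective h).symm
    -- choice of the coefficients
    obtain ⟨x, y, hxy, hxy2⟩ : ∃ x y : F, x * y ≠ 0 ∧ x * y - (x * w (Fin.rev a) + y * w a) ≠ 0 := by
      by_cases hβ : w (Fin.rev a) = 0
      · obtain ⟨x, hx0, hxα⟩ := exists_ne_two hc (w a)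
        refine ⟨x, 1, by simpa using hx0, ?_⟩
        rw [hβ]
        intro h
        apply hxα
        linear_combination h
      · refine ⟨w a, w (Fin.rev a), mul_ne_zero ha hβ, ?_⟩
        intro h
        apply mul_ne_zero ha hβ
        linear_combination -h
    have hz0 : QuadraticMap.polar (⇑(QF n F)) (Pi.single j 1) (Pi.single a x + Pi.single (Fin.rev a) y) = 0 := by
      rw [polar_QF, Cfsg.Agent.Lib.H49SpQF.BA_single_left h2, Pi.add_apply, Pi.single_eq_of_ne hne1, Pi.single_eq_of_ne hne2, add_zero]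
    have hQz : (QF n F) (Pi.single a x + Pi.single (Fin.rev a) y) = x * y := by
      rw [QF_apply, QA_add, QA_single h2, QA_single h2, BA_sl h2, Pi.single_eq_same]
      ring
    have hBz : QuadraticMap.polar (⇑(QF n F)) w (Pi.single a x + Pi.single (Fin.rev a) y)
        = x * w (Fin.rev a) + y * w a := by
      rw [polar_QF, BA_add_right, BA_sr h2, BA_sr h2, Fin.rev_rev]
    have h1 : QuadraticMap.polar (⇑(QF n F)) (Pi.single j 1) (w - (Pi.single a x + Pi.single (Fin.rev a) y)) = 0 := by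
      rw [QuadraticMap.polar_sub_right, hw', hz0, sub_zero]
    have h2' : (QF n F) (w - (Pi.single a x + Pi.single (Fin.rev a) y)) ≠ 0 := by
      rw [Cfsg.Agent.Lib.Helper49Orth.Q_sub, hQw, hQz, hBz, zero_add]
      exact hxy2
    have h3 : Cfsg.Agent.Lib.Helper49Eich.E (QF n F) (Pi.single j 1) w
        = Cfsg.Agent.Lib.Helper49Eich.E (QF n F) (Pi.single j 1) (w - (Pi.single a x + Pi.single (Fin.rev a) y))
          * Cfsg.Agent.Lib.Helper49Eich.E (QF n F) (Pi.single j 1) (Pi.single a x + Pi.single (Fin.rev a) y) := by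
      rw [Cfsg.Agent.Lib.Helper49Eich.E_mul (QF n F) he h1 hz0, sub_add_cancel]
    rw [h3]
    exact Subgroup.mul_mem _
      (Cfsg.Agent.Lib.Helper49EichGen.E_mem_Omega_of_nonsingular (QF n F) (QF_nondeg h2) hq he h1 h2')
      (Cfsg.Agent.Lib.Helper49EichGen.E_mem_Omega_of_nonsingular (QF n F) (QF_nondeg h2) hq he hz0
        (by rw [hQz]; exact hxy))
  · exact Cfsg.Agent.Lib.Helper49EichGen.E_mem_Omega_of_nonsingular (QF n F) (QF_nondeg h2) hq he hw' hQw

end Cfsg.Agent.Lib.H49SpEK
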