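import Mathlib
import Cfsg.Agent.Lib.H49SoDefs
import Cfsg.Agent.Lib.H49SpDefs

set_option autoImplicit false

/-! Project 2548 (Steinberg character of `POmega+_{2m}(q)`), piece `GenU` (30m).

Generic: conjugating the BN-axioms of `s` by an element `r` normalizing `B`.  `conj_union`: from `s β' g' = b₁ (s g') b₂` (or `b₁ g' b₂`) with `β' = r⁻¹ β r`, `g' = r⁻¹ g r`, conjugate by `r`: `(r s r⁻¹) β g = (r b₁ r⁻¹) ((r s r⁻¹) g) (r b₂ r⁻¹)` (`group`).  `DoubleCoset.mem_doubleCoset`.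
`conj_ne`: if the image for `r s r⁻¹` is `B` then the image for `s` is `B`: `s b s = r⁻¹ ((r s r⁻¹) (r b r⁻¹) (r s r⁻¹)) r`. -/

namespace Cfsg.Agent.Lib.H49SpGenU

open Matrix Cfsg.Agent.Lib.H49SoDefs Cfsg.Agent.Lib.H49SpDefs
open Cfsg.Agent.Lib.H49SuDefs (Tri UT Dg Mon Tri_one Tri_mul UT_one UT_mul Dg_one Dg_mul Mon_one Mon_mul Mon_uniq sgm Inv CL)

variable {n : ℕ} {F : Type*} [Field F]

theorem conj_union {G : Type*} [Group G] (B : Subgroup G) (r s g β : G) (hr : ∀ b ∈ B, r * b * r⁻¹ ∈ B)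
    (h : s * (r⁻¹ * β * r) * (r⁻¹ * g * r) ∈ DoubleCoset.doubleCoset (s * (r⁻¹ * g * r)) (B : Set G) B ∪
      DoubleCoset.doubleCoset (r⁻¹ * g * r) (B : Set G) B) :
    (r * s * r⁻¹) * β * g ∈ DoubleCoset.doubleCoset ((r * s * r⁻¹) * g) (B : Set G) B ∪ DoubleCoset.doubleCoset g (B : Set G) B := by
  have e1 : (r * s * r⁻¹) * β * g = r * (s * (r⁻¹ * β * r) * (r⁻¹ * g * r)) * r⁻¹ := by group
  rcases h with h | h
  · obtain ⟨b1, hb1, b2, hb2, e⟩ := DoubleCoset.mem_doubleCoset.1 h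
    left
    refine DoubleCoset.mem_doubleCoset.2 ⟨r * b1 * r⁻¹, hr b1 hb1, r * b2 * r⁻¹, hr b2 hb2, ?_⟩
    rw [e1, e]; group
  · obtain ⟨b1, hb1, b2, hb2, e⟩ := DoubleCoset.mem_doubleCoset.1 h
    right
    refine DoubleCoset.mem_doubleCoset.2 ⟨r * b1 * r⁻¹, hr b1 hb1, r * b2 * r⁻¹, hr b2 hb2, ?_⟩
    rw [e1, e]; group

theorem conj_ne {G : Type*} [Group G] (B : Subgroup G) (r s : G) (hr : ∀ b ∈ B, r * b * r⁻¹ ∈ B)
    (hr' : ∀ b ∈ B, r⁻¹ * b * r ∈ B) (h : (fun b : G => s * b * s) '' (B : Set G) ≠ (B : Set G)) :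
    (fun b : G => (r * s * r⁻¹) * b * (r * s * r⁻¹)) '' (B : Set G) ≠ (B : Set G) := by
  intro heq
  apply h
  ext x
  constructor
  · rintro ⟨b, hb, rfl⟩
    have h1 : (r * s * r⁻¹) * (r * b * r⁻¹) * (r * s * r⁻¹) ∈ (B : Set G) := by
      rw [← heq]
      exact ⟨r * b * r⁻¹, hr b hb, rfl⟩
    have e : s * b * s = r⁻¹ * ((r * s * r⁻¹) * (r * b * r⁻¹) * (r * s * r⁻¹)) * r := by group
    show s * b * s ∈ (B : Set G)
    rw [e]
    exact hr' _ h1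
  · intro hx
    have h1 : r * x * r⁻¹ ∈ (B : Set G) := hr x hx
    rw [← heq] at h1
    obtain ⟨b', hb', e⟩ := h1
    refine ⟨r⁻¹ * b' * r, hr' b' hb', ?_⟩
    have e2 : s * (r⁻¹ * b' * r) * s = r⁻¹ * ((r * s * r⁻¹) * b' * (r * s * r⁻¹)) * r := by group
    show s * (r⁻¹ * b' * r) * s = x
    have e' : (r * s * r⁻¹) * b' * (r * s * r⁻¹) = r * x * r⁻¹ := e
    rw [e2, e']; group

end Cfsg.Agent.Lib.H49SpGenU
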