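import Mathlib
import Cfsg.Agent.Lib.H49SoDefs
import Cfsg.Agent.Lib.H49SpDefs

set_option autoImplicit false

/-! Project 2548 (Steinberg character of `POmega+_{2m}(q)`), piece `Idx` (30m).

Generic.  `{g | g ∈ D ∨ g * r ∈ D}` is a subgroup containing `D` and `r`: e.g. `g r, h r ∈ D → g h = (g r) (r⁻¹ (h r) r) (r r)⁻¹`; `g r ∈ D, h ∈ D → g h r = (g r) (r⁻¹ h r)`; `g r ∈ D → g⁻¹ r = (r (g r)⁻¹ r⁻¹) (r r)`.  Then `sup_le` (`Subgroup.zpowers_le`). -/

namespace Cfsg.Agent.Lib.H49SpIdx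

open Matrix Cfsg.Agent.Lib.H49SoDefs Cfsg.Agent.Lib.H49SpDefs
open Cfsg.Agent.Lib.H49SuDefs (Tri UT Dg Mon Tri_one Tri_mul UT_one UT_mul Dg_one Dg_mul Mon_one Mon_mul Mon_uniq sgm Inv CL)

variable {n : ℕ} {F : Type*} [Field F]

theorem mem_or {G : Type*} [Group G] (D : Subgroup G) (r : G) (hn : ∀ d ∈ D, r * d * r⁻¹ ∈ D)
    (hn' : ∀ d ∈ D, r⁻¹ * d * r ∈ D) (h2 : r * r ∈ D) : ∀ g ∈ D ⊔ Subgroup.zpowers r, g ∈ D ∨ g * r ∈ D := by
  let K : Subgroup G :=
    { carrier := {g | g ∈ D ∨ g * r ∈ D}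
      one_mem' := Or.inl D.one_mem
      mul_mem' := by
        rintro g h (hg | hg) (hh | hh)
        · exact Or.inl (D.mul_mem hg hh)
        · right
          rw [mul_assoc]
          exact D.mul_mem hg hh
        · right
          have e : g * h * r = (g * r) * (r⁻¹ * h * r) := by group
          rw [e]
          exact D.mul_mem hg (hn' h hh)
        · left
          have e : g * h = (g * r) * (r⁻¹ * (h * r) * r) * (r * r)⁻¹ := by group
          rw [e]
          exact D.mul_mem (D.mul_mem hg (hn' _ hh)) (D.inv_mem h2)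
      inv_mem' := by
        rintro g (hg | hg)
        · exact Or.inl (D.inv_mem hg)
        · right
          have e : g⁻¹ * r = (r * (g * r)⁻¹ * r⁻¹) * (r * r) := by group
          rw [e]
          exact D.mul_mem (hn _ (D.inv_mem hg)) h2 }
  have hle : D ⊔ Subgroup.zpowers r ≤ K := by
    apply sup_le
    · intro d hd
      exact Or.inl hd
    · rw [Subgroup.zpowers_le]
      exact Or.inr h2
  intro g hg
  exact hle hg

end Cfsg.Agent.Lib.H49SpIdx
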