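import Mathlib
import Cfsg.Agent.Lib.H49SoDefs
import Cfsg.Agent.Lib.H49SpDefs
import Cfsg.Agent.Lib.H49SpPol
import Cfsg.Agent.Lib.H49SpStar
import Cfsg.Agent.Lib.H49SpInv
import Cfsg.Agent.Lib.H49SpMonB
import Cfsg.Agent.Lib.H49SpMem
import Cfsg.Agent.Lib.H49SpDiag

set_option autoImplicit false

/-! Project 2548 (Steinberg character of `POmega+_{2m}(q)`), piece `Mid` (30m).

The middle entry of an upper triangular orthogonal matrix vanishes.  `QA_mulVec g (Pi.single b 1)`, `QA_single`, `Matrix.mulVec_single_one`: `0 = QA (col b) = ∑_{i < rev i} g i b * g (rev i) b`; for `i < a`: `rev i > b`, so `g (rev i) b = 0` (`hg.1 : Tri`); for `i = a`: `rev a = b`; for `i > a`: not `i < rev i`.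
So `g a b * g b b = 0` and `g b b ≠ 0` (`diag_ne_zero`).  (`Finset.sum_eq_single a`.) -/

namespace Cfsg.Agent.Lib.H49SpMid

open Matrix Cfsg.Agent.Lib.H49SoDefs Cfsg.Agent.Lib.H49SpDefs
open Cfsg.Agent.Lib.H49SuDefs (Tri UT Dg Mon Tri_one Tri_mul UT_one UT_mul Dg_one Dg_mul Mon_one Mon_mul Mon_uniq sgm Inv CL)
open Cfsg.Agent.Lib.H49SpPol Cfsg.Agent.Lib.H49SpStar Cfsg.Agent.Lib.H49SpInv Cfsg.Agent.Lib.H49SpMonB Cfsg.Agent.Lib.H49SpMem Cfsg.Agent.Lib.H49SpDiag

variable {n : ℕ} {F : Type*} [Field F]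

theorem mid_zero (h2 : n % 2 = 0) {g : GO n F} (hg : g ∈ BB n F) (a b : Fin n) (ha : 2 * a.val + 2 = n)
    (hb : b.val = a.val + 1) : mt g a b = 0 := by
  have hrev : Fin.rev a = b := by
    apply Fin.ext
    rw [Fin.val_rev]
    omega
  have hw : mt g *ᵥ Pi.single b 1 = fun i => mt g i b := by
    funext i
    simp [Matrix.mulVec, dotProduct, Pi.single_apply]
  have h0 : QA n F (fun i => mt g i b) = 0 := by
    rw [← hw, QA_mulVec, QA_single h2]
  unfold QA at h0
  rw [Finset.sum_eq_single a] at h0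
  · have hlt : a < Fin.rev a := by
      rw [hrev, Fin.lt_def]
      omega
    rw [if_pos hlt, hrev] at h0
    have h0' : mt g a b * mt g b b = 0 := h0
    rcases mul_eq_zero.1 h0' with h | h
    · exact h
    · exact absurd h (diag_ne_zero hg b)
  · intro i _ hia
    have hia' : i.val ≠ a.val := fun h => hia (Fin.ext h)
    split_ifs with h h'
    · have h3 : i.val < (Fin.rev i).val := h
      rw [Fin.val_rev] at h3
      have h4 : b < Fin.rev i := by
        rw [Fin.lt_def, Fin.val_rev]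
        omega
      show mt g i b * mt g (Fin.rev i) b = 0
      rw [hg.1 _ _ h4, mul_zero]
    · exfalso
      have h3 : i.val = (Fin.rev i).val := congrArg Fin.val h'
      rw [Fin.val_rev] at h3
      omega
    · rfl
  · intro h
    exact absurd (Finset.mem_univ a) h

end Cfsg.Agent.Lib.H49SpMid
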