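import Mathlib
import Cfsg.Agent.Lib.H49SoDefs
import Cfsg.Agent.Lib.H49SpDefs
import Cfsg.Agent.Lib.H49SpPol
import Cfsg.Agent.Lib.H49SpStar
import Cfsg.Agent.Lib.H49SpInv
import Cfsg.Agent.Lib.H49SpMonB
import Cfsg.Agent.Lib.H49SpMem
import Cfsg.Agent.Lib.H49SpDiag
import Cfsg.Agent.Lib.H49SpRefl
import Cfsg.Agent.Lib.H49SpSq
import Cfsg.Agent.Lib.H49SpA2
import Cfsg.Agent.Lib.H49SpMid
import Cfsg.Agent.Lib.H49SuSgm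
import Cfsg.Agent.Lib.H49SuInvD

set_option autoImplicit false

/-! Project 2548 (Steinberg character of `POmega+_{2m}(q)`), piece `RB` (25m).

`rr` normalizes `BB`.  `Mon_rr = Mon_sk h2 _`.  `rr_conj_BB`: `A2.conj_mem_BB h2 (Mon_rr h2) hb` with `h0` from `H49SuInvD.Inv_even` (`2 * (n/2-1) + 2 = n`) and `Mid.mid_zero`.  `rr_inv_conj_BB`: the same with `s = rr⁻¹` (`Mon_inv`, `(sgm n k)⁻¹ = sgm n k` by `H49SuSgm.sgm_mul_self`; `inv_inv`).  `rr_sq = Sq.sq_mem`. -/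

namespace Cfsg.Agent.Lib.H49SpRB

open Matrix Cfsg.Agent.Lib.H49SoDefs Cfsg.Agent.Lib.H49SpDefs
open Cfsg.Agent.Lib.H49SuDefs (Tri UT Dg Mon Tri_one Tri_mul UT_one UT_mul Dg_one Dg_mul Mon_one Mon_mul Mon_uniq sgm Inv CL)
open Cfsg.Agent.Lib.H49SpPol Cfsg.Agent.Lib.H49SpStar Cfsg.Agent.Lib.H49SpInv Cfsg.Agent.Lib.H49SpMonB Cfsg.Agent.Lib.H49SpMem Cfsg.Agent.Lib.H49SpDiag Cfsg.Agent.Lib.H49SpRefl Cfsg.Agent.Lib.H49SpSq Cfsg.Agent.Lib.H49SpA2 Cfsg.Agent.Lib.H49SpMid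

variable {n : ℕ} {F : Type*} [Field F]

theorem Mon_rr (h2 : n % 2 = 0) : Mon (sgm n (n / 2 - 1)) (mt (rr n F)) := Mon_sk h2 _

theorem sgm_inv (n k : ℕ) : (sgm n k)⁻¹ = sgm n k :=
  inv_eq_of_mul_eq_one_left (Cfsg.Agent.Lib.H49SuSgm.sgm_mul_self n k)

theorem Mon_rr_inv (h2 : n % 2 = 0) : Mon (sgm n (n / 2 - 1)) (mt (rr n F)⁻¹) := by
  have h := Mon_inv (Mon_rr (F := F) h2)
  rwa [sgm_inv] at h

theorem zero_of_Inv (h2 : n % 2 = 0) (hn : 2 ≤ n) {b : GO n F} (hb : b ∈ BB n F) :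
    ∀ x y, Inv n (n / 2 - 1) x y → mt b x y = 0 := by
  intro x y hxy
  have hk : 2 * (n / 2 - 1) + 2 = n := by omega
  obtain ⟨h1, h3⟩ := (Cfsg.Agent.Lib.H49SuInvD.Inv_even hk x y).1 hxy
  exact mid_zero h2 hb x y (by omega) (by omega)

theorem rr_conj_BB (h2 : n % 2 = 0) (hn : 2 ≤ n) {b : GO n F} (hb : b ∈ BB n F) : rr n F * b * (rr n F)⁻¹ ∈ BB n F :=
  conj_mem_BB h2 (Mon_rr h2) hb (zero_of_Inv h2 hn hb)

theorem rr_inv_conj_BB (h2 : n % 2 = 0) (hn : 2 ≤ n) {b : GO n F} (hb : b ∈ BB n F) : (rr n F)⁻¹ * b * rr n F ∈ BB n F := by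
  have h := conj_mem_BB h2 (Mon_rr_inv (F := F) h2) hb (zero_of_Inv h2 hn hb)
  rwa [inv_inv] at h

theorem rr_sq (h2 : n % 2 = 0) : rr n F * rr n F ∈ TT n F := sq_mem h2 (Mon_rr h2)

end Cfsg.Agent.Lib.H49SpRB
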