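import Mathlib
import Cfsg.Agent.Lib.H49SoDefs
import Cfsg.Agent.Lib.H49SpDefs
import Cfsg.Agent.Lib.H49SpPol
import Cfsg.Agent.Lib.H49SpStar
import Cfsg.Agent.Lib.H49SpInv
import Cfsg.Agent.Lib.H49SpMonB
import Cfsg.Agent.Lib.H49SpMem
import Cfsg.Agent.Lib.H49SpDiag
import Cfsg.Agent.Lib.H49SpTN
import Cfsg.Agent.Lib.H49SpBNT
import Cfsg.Agent.Lib.H49SpRefl
import Cfsg.Agent.Lib.H49SpRB

set_option autoImplicit false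

/-! Project 2548 (Steinberg character of `POmega+_{2m}(q)`), piece `MonD` (25m).

`Mon_sD`: `Mon_mul (Mon_mul (Mon_rr h2) (Mon_sk h2 _)) (Mon_rr_inv h2)`.  `SD_sub`: `mem_NN`.  `ND_le_NN`: `sup_le` (`Subgroup.closure_le`), `TT_le_NN`.  `BB_inf_ND`: `≤` by `ND_le_NN` and `BB_inf_NN`; `≥` by `TT_le_BB`, `le_sup_right`. -/

namespace Cfsg.Agent.Lib.H49SpMonD

open Matrix Cfsg.Agent.Lib.H49SoDefs Cfsg.Agent.Lib.H49SpDefs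
open Cfsg.Agent.Lib.H49SuDefs (Tri UT Dg Mon Tri_one Tri_mul UT_one UT_mul Dg_one Dg_mul Mon_one Mon_mul Mon_uniq sgm Inv CL)
open Cfsg.Agent.Lib.H49SpPol Cfsg.Agent.Lib.H49SpStar Cfsg.Agent.Lib.H49SpInv Cfsg.Agent.Lib.H49SpMonB Cfsg.Agent.Lib.H49SpMem Cfsg.Agent.Lib.H49SpDiag Cfsg.Agent.Lib.H49SpTN Cfsg.Agent.Lib.H49SpBNT Cfsg.Agent.Lib.H49SpRefl Cfsg.Agent.Lib.H49SpRB

variable {n : ℕ} {F : Type*} [Field F]

theorem Mon_sD (h2 : n % 2 = 0) :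
    Mon (sgm n (n / 2 - 1) * sgm n (n / 2 - 2) * sgm n (n / 2 - 1)) (mt (sD n F)) := by
  unfold sD
  rw [mt_mul, mt_mul]
  exact Mon_mul (Mon_mul (Mon_rr h2) (Mon_sk h2 _)) (Mon_rr_inv h2)

theorem SD_sub (h2 : n % 2 = 0) : SD n F ⊆ (NN n F : Set (GO n F)) := by
  rintro g (⟨k, -, rfl⟩ | ⟨-, rfl⟩)
  · exact mem_NN.2 ⟨_, Mon_sk h2 k⟩
  · exact mem_NN.2 ⟨_, Mon_sD h2⟩

theorem ND_le_NN (h2 : n % 2 = 0) : ND n F ≤ NN n F :=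
  sup_le ((Subgroup.closure_le _).2 (SD_sub h2)) (TT_le_NN h2)

theorem BB_inf_ND (h2 : n % 2 = 0) : BB n F ⊓ ND n F = TT n F := by
  apply le_antisymm
  · rw [← BB_inf_NN h2]
    exact inf_le_inf_left _ (ND_le_NN h2)
  · exact le_inf TT_le_BB le_sup_right

end Cfsg.Agent.Lib.H49SpMonD
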