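import Mathlib
import Cfsg.Agent.Lib.H49SoDefs
import Cfsg.Agent.Lib.H49SpDefs
import Cfsg.Agent.Lib.H49SuSgm

set_option autoImplicit false

/-! Project 2548 (Steinberg character of `POmega+_{2m}(q)`), piece `SgmC` (35m).

Combinatorics of `sgm` for `n` even (`H49SuSgm.sgm_val_gl`, `sgm_val_last`, `Equiv.ext`, `Fin.ext`, `omega`).  `sgm n (n/2-1)` swaps `n/2-1` and `n/2`.  `sgm_comm`: disjoint supports.  `sgmD_ne`: the left side maps `n/2-2` to `n/2`, while `sgm n k` maps `n/2-2` into `{n/2-3, n/2-2, n/2-1}`. -/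

namespace Cfsg.Agent.Lib.H49SpSgmC

open Matrix Cfsg.Agent.Lib.H49SoDefs Cfsg.Agent.Lib.H49SpDefs
open Cfsg.Agent.Lib.H49SuDefs (Tri UT Dg Mon Tri_one Tri_mul UT_one UT_mul Dg_one Dg_mul Mon_one Mon_mul Mon_uniq sgm Inv CL)

variable {n : ℕ} {F : Type*} [Field F]

theorem sgm_comm (h2 : n % 2 = 0) {k : ℕ} (hk : 2 * k + 5 < n) :
    sgm n (n / 2 - 1) * sgm n k * sgm n (n / 2 - 1) = sgm n k := by
  ext a
  have ha := a.isLt
  rw [Equiv.Perm.mul_apply, Equiv.Perm.mul_apply]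
  have hb' := Cfsg.Agent.Lib.H49SuSgm.sgm_val_last (n := n) (k := n / 2 - 1) (by omega) (by omega) a
  generalize sgm n (n / 2 - 1) a = b at hb' ⊢
  have hc' := Cfsg.Agent.Lib.H49SuSgm.sgm_val_gl (n := n) (k := k) (by omega) b
  generalize sgm n k b = c at hc' ⊢
  have hd' := Cfsg.Agent.Lib.H49SuSgm.sgm_val_last (n := n) (k := n / 2 - 1) (by omega) (by omega) c
  generalize sgm n (n / 2 - 1) c = d at hd' ⊢
  have he' := Cfsg.Agent.Lib.H49SuSgm.sgm_val_gl (n := n) (k := k) (by omega) a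
  generalize sgm n k a = e at he' ⊢
  split_ifs at hb' <;> split_ifs at hc' <;> (try omega) <;> split_ifs at hd' <;> (try omega) <;>
    split_ifs at he' <;> omega

theorem sgmD_ne (h2 : n % 2 = 0) (h4 : 4 ≤ n) (k : ℕ) :
    sgm n (n / 2 - 1) * sgm n (n / 2 - 2) * sgm n (n / 2 - 1) ≠ sgm n k := by
  intro h
  have h1 := congrArg (fun σ : Equiv.Perm (Fin n) => (σ ⟨n / 2 - 2, by omega⟩).val) h
  simp only [Equiv.Perm.mul_apply] at h1
  have hb' := Cfsg.Agent.Lib.H49SuSgm.sgm_val_last (n := n) (k := n / 2 - 1) (by omega) (by omega)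
    ⟨n / 2 - 2, by omega⟩
  generalize sgm n (n / 2 - 1) ⟨n / 2 - 2, by omega⟩ = b at hb' h1
  have hc' := Cfsg.Agent.Lib.H49SuSgm.sgm_val_gl (n := n) (k := n / 2 - 2) (by omega) b
  generalize sgm n (n / 2 - 2) b = c at hc' h1
  have hd' := Cfsg.Agent.Lib.H49SuSgm.sgm_val_last (n := n) (k := n / 2 - 1) (by omega) (by omega) c
  generalize sgm n (n / 2 - 1) c = d at hd' h1
  simp only at hb'
  have hb : b.val = n / 2 - 2 := by
    split_ifs at hb' <;> omega
  have hc : c.val = n / 2 - 1 := by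
    split_ifs at hc' <;> omega
  have hd : d.val = n / 2 := by
    split_ifs at hd' <;> omega
  by_cases c1 : 2 * k + 3 < n
  · rw [Cfsg.Agent.Lib.H49SuSgm.sgm_val_gl c1] at h1
    simp only at h1
    split_ifs at h1 <;> omega
  · by_cases c2 : 2 * k + 2 ≤ n
    · rw [Cfsg.Agent.Lib.H49SuSgm.sgm_val_last c2 (by omega)] at h1
      simp only at h1
      split_ifs at h1 <;> omega
    · rw [Cfsg.Agent.Lib.H49SuSgm.sgm_none (by omega)] at h1
      simp only [Equiv.Perm.one_apply] at h1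
      omega

end Cfsg.Agent.Lib.H49SpSgmC
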