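import Mathlib
import Cfsg.Agent.Lib.H49SoDefs
import Cfsg.Agent.Lib.H49SpDefs
import Cfsg.Agent.Lib.H49SpPol
import Cfsg.Agent.Lib.H49SpStar
import Cfsg.Agent.Lib.H49SpInv
import Cfsg.Agent.Lib.H49SpMonB
import Cfsg.Agent.Lib.H49SpMem
import Cfsg.Agent.Lib.H49SpDiag
import Cfsg.Agent.Lib.H49SpTN
import Cfsg.Agent.Lib.H49SpBNT
import Cfsg.Agent.Lib.H49SpRefl
import Cfsg.Agent.Lib.H49SpSq
import Cfsg.Agent.Lib.H49SpRB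
import Cfsg.Agent.Lib.H49SpSgmC
import Cfsg.Agent.Lib.H49SpMonD
import Cfsg.Agent.Lib.H49SuSgm

set_option autoImplicit false

/-! Project 2548 (Steinberg character of `POmega+_{2m}(q)`), piece `InjD` (30m).

If `Mon π (mt s)`, `Mon π' (mt s')` and `s⁻¹ * s' ∈ BB` then `s⁻¹ s' ∈ BB ⊓ NN = TT`, so `Mon 1` (`Mon_one_iff`) and `Mon (π⁻¹ * π')` (`Mon_mul`, `Mon_inv`), hence `π = π'` (`Mon_uniq`).  Then `H49SuSgm.sgm_inj` (two `sk`; or directly `Sq.inj`), `SgmC.sgmD_ne` (mixed cases are impossible). -/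

namespace Cfsg.Agent.Lib.H49SpInjD

open Matrix Cfsg.Agent.Lib.H49SoDefs Cfsg.Agent.Lib.H49SpDefs
open Cfsg.Agent.Lib.H49SuDefs (Tri UT Dg Mon Tri_one Tri_mul UT_one UT_mul Dg_one Dg_mul Mon_one Mon_mul Mon_uniq sgm Inv CL)
open Cfsg.Agent.Lib.H49SpPol Cfsg.Agent.Lib.H49SpStar Cfsg.Agent.Lib.H49SpInv Cfsg.Agent.Lib.H49SpMonB Cfsg.Agent.Lib.H49SpMem Cfsg.Agent.Lib.H49SpDiag Cfsg.Agent.Lib.H49SpTN Cfsg.Agent.Lib.H49SpBNT Cfsg.Agent.Lib.H49SpRefl Cfsg.Agent.Lib.H49SpSq Cfsg.Agent.Lib.H49SpRB Cfsg.Agent.Lib.H49SpSgmC Cfsg.Agent.Lib.H49SpMonD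

variable {n : ℕ} {F : Type*} [Field F]

theorem perm_eq (h2 : n % 2 = 0) {π π' : Equiv.Perm (Fin n)} {s s' : GO n F}
    (hs : Mon π (mt s)) (hs' : Mon π' (mt s')) (hB : s⁻¹ * s' ∈ BB n F) : π = π' := by
  have h1 : Mon (π⁻¹ * π') (mt (s⁻¹ * s')) := by
    rw [mt_mul]
    exact Mon_mul (Mon_inv hs) hs'
  have h2' : s⁻¹ * s' ∈ NN n F := mem_NN.2 ⟨_, h1⟩
  have h3 : s⁻¹ * s' ∈ TT n F := by
    rw [← BB_inf_NN h2]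
    exact ⟨hB, h2'⟩
  have h4 := (Mon_one_iff h2).2 h3
  have h5 := Mon_uniq h1 h4
  exact (inv_mul_eq_one.mp h5)

theorem inj (h2 : n % 2 = 0) : ∀ s ∈ SD n F, ∀ s' ∈ SD n F, s⁻¹ * s' ∈ BB n F → s = s' := by
  rintro s (⟨k, hk, rfl⟩ | ⟨h4, rfl⟩) s' (⟨k', hk', rfl⟩ | ⟨h4', rfl⟩) hB
  · have := Cfsg.Agent.Lib.H49SpSq.inj h2 (by omega) (by omega) (Mon_sk h2 k) (Mon_sk h2 k') hB
    rw [this]
  · exact absurd (perm_eq h2 (Mon_sk h2 k) (Mon_sD h2) hB).symm (sgmD_ne h2 h4' k)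
  · exact absurd (perm_eq h2 (Mon_sD h2) (Mon_sk h2 k') hB) (sgmD_ne h2 h4 k')
  · rfl

end Cfsg.Agent.Lib.H49SpInjD
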