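import Mathlib
import Cfsg.Agent.Lib.H49SoDefs
import Cfsg.Agent.Lib.H49SpDefs
import Cfsg.Agent.Lib.H49SoIsoO

set_option autoImplicit false

/-! Project 2548 (Steinberg character of `POmega+_{2m}(q)`), piece `IsoP` (40m).

Reindexing (COPY of the landed `H49SoIsoO`).  `e : Fin m ⊕ Fin m ≃ Fin (2*m)`: `inl i ↦ i`, `inr i ↦ 2m-1-i = rev i`.  Then `QA (2m) F v = quadFormPlus m F (v ∘ e)` and `g ↦ reindex e e g` is an isomorphism of the isometry groups. -/

namespace Cfsg.Agent.Lib.H49SpIsoP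

open Matrix Cfsg.Agent.Lib.H49SoDefs Cfsg.Agent.Lib.H49SpDefs
open Cfsg.Agent.Lib.H49SuDefs (Tri UT Dg Mon Tri_one Tri_mul UT_one UT_mul Dg_one Dg_mul Mon_one Mon_mul Mon_uniq sgm Inv CL)

variable {n : ℕ} {F : Type*} [Field F]

/-- the map of index sets. -/
def ef (m : ℕ) : Fin m ⊕ Fin m → Fin (2 * m)
  | .inl i => ⟨i.1, by have := i.2; omega⟩
  | .inr i => ⟨2 * m - 1 - i.1, by have := i.2; omega⟩

theorem ef_bij (m : ℕ) : Function.Bijective (ef m) := by
  rw [Fintype.bijective_iff_injective_and_card]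
  constructor
  · rintro (x | x) (y | y) hxy <;> simp only [ef, Fin.mk.injEq] at hxy
    · rw [Fin.ext hxy]
    · have := x.2; have := y.2; omega
    · have := x.2; have := y.2; omega
    · have h1 := x.2; have h2 := y.2
      have : x = y := Fin.ext (by omega)
      rw [this]
  · simp [Fintype.card_sum]; ring

noncomputable def ee (m : ℕ) : Fin m ⊕ Fin m ≃ Fin (2 * m) :=
  Equiv.ofBijective (ef m) (ef_bij m)

theorem QA_eq (m : ℕ) (v : Fin (2 * m) → F) :
    QA (2 * m) F v = Cfsg.quadFormPlus m F (v ∘ ee m) := by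
  unfold QA Cfsg.quadFormPlus
  rw [← Equiv.sum_comp (ee m), Fintype.sum_sum_type]
  have h1 : ∀ i : Fin m, Fin.rev (ee m (Sum.inl i)) = ee m (Sum.inr i) := by
    intro i
    apply Fin.ext
    simp only [ee, Equiv.ofBijective_apply, ef, Fin.val_rev]
    have := i.2
    omega
  have h2 : ∀ i : Fin m, Fin.rev (ee m (Sum.inr i)) = ee m (Sum.inl i) := by
    intro i
    rw [← h1, Fin.rev_rev]
  have h3 : ∀ i : Fin m, ee m (Sum.inl i) < ee m (Sum.inr i) := by
    intro i
    rw [Fin.lt_def]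
    simp only [ee, Equiv.ofBijective_apply, ef]
    have := i.2
    omega
  have e1 : ∀ i : Fin m, (if ee m (Sum.inl i) < Fin.rev (ee m (Sum.inl i)) then
      v (ee m (Sum.inl i)) * v (Fin.rev (ee m (Sum.inl i)))
      else if ee m (Sum.inl i) = Fin.rev (ee m (Sum.inl i)) then
        v (ee m (Sum.inl i)) ^ 2 else 0)
      = v (ee m (Sum.inl i)) * v (ee m (Sum.inr i)) := by
    intro i
    rw [h1, if_pos (h3 i)]
  have e2 : ∀ i : Fin m, (if ee m (Sum.inr i) < Fin.rev (ee m (Sum.inr i)) then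
      v (ee m (Sum.inr i)) * v (Fin.rev (ee m (Sum.inr i)))
      else if ee m (Sum.inr i) = Fin.rev (ee m (Sum.inr i)) then
        v (ee m (Sum.inr i)) ^ 2 else 0) = 0 := by
    intro i
    rw [h2, if_neg (not_lt.2 (h3 i).le), if_neg (h3 i).ne']
  rw [Finset.sum_congr rfl (fun i _ => e1 i), Finset.sum_congr rfl (fun i _ => e2 i)]
  simp

theorem iso (m : ℕ) :
    Nonempty (Cfsg.isometryGroup F (Cfsg.quadFormPlus m F) ≃* Cfsg.isometryGroup F (QA (2 * m) F)) :=
  Cfsg.Agent.Lib.H49SoIsoO.iso_reindex (ee m) _ _ (QA_eq m)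

end Cfsg.Agent.Lib.H49SpIsoP
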