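import Mathlib
import Cfsg.Agent.Lib.H49SoDefs
import Cfsg.Agent.Lib.H49SpDefs
import Cfsg.Agent.Lib.H49SpPol
import Cfsg.Agent.Lib.H49SpStar
import Cfsg.Agent.Lib.H49SpInv
import Cfsg.Agent.Lib.H49SpMonB
import Cfsg.Agent.Lib.H49SpMem
import Cfsg.Agent.Lib.H49SpDiag
import Cfsg.Agent.Lib.H49SpTN
import Cfsg.Agent.Lib.H49SpBNT
import Cfsg.Agent.Lib.H49SpRefl
import Cfsg.Agent.Lib.H49SpCl

set_option autoImplicit false

/-! Project 2548 (Steinberg character of `POmega+_{2m}(q)`), piece `NNr` (25m).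

`Cl.closure_sup h2 : closure SS ⊔ (BB ⊓ NN) = NN`, `BB_inf_NN`.  Each `sk k` with `2k+2 ≤ n` is in `SD` (if `2k+3 < n`) or equals `rr` (`2k+2 = n`, `k = n/2-1`; `n` is even so `2k+3 = n` is impossible).  `TT ≤ ND`. -/

namespace Cfsg.Agent.Lib.H49SpNNr

open Matrix Cfsg.Agent.Lib.H49SoDefs Cfsg.Agent.Lib.H49SpDefs
open Cfsg.Agent.Lib.H49SuDefs (Tri UT Dg Mon Tri_one Tri_mul UT_one UT_mul Dg_one Dg_mul Mon_one Mon_mul Mon_uniq sgm Inv CL)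
open Cfsg.Agent.Lib.H49SpPol Cfsg.Agent.Lib.H49SpStar Cfsg.Agent.Lib.H49SpInv Cfsg.Agent.Lib.H49SpMonB Cfsg.Agent.Lib.H49SpMem Cfsg.Agent.Lib.H49SpDiag Cfsg.Agent.Lib.H49SpTN Cfsg.Agent.Lib.H49SpBNT Cfsg.Agent.Lib.H49SpRefl Cfsg.Agent.Lib.H49SpCl

variable {n : ℕ} {F : Type*} [Field F]

theorem NN_le (h2 : n % 2 = 0) : NN n F ≤ ND n F ⊔ Subgroup.zpowers (rr n F) := by
  rw [← Cfsg.Agent.Lib.H49SpCl.closure_sup (F := F) h2, Cfsg.Agent.Lib.H49SpBNT.BB_inf_NN h2]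
  refine sup_le ?_ ?_
  · rw [Subgroup.closure_le]
    rintro g ⟨k, hk, rfl⟩
    by_cases h3 : 2 * k + 3 < n
    · refine (le_sup_left : ND n F ≤ _) ?_
      refine (le_sup_left : Subgroup.closure (SD n F) ≤ ND n F) ?_
      exact Subgroup.subset_closure (Or.inl ⟨k, h3, rfl⟩)
    · refine (le_sup_right : Subgroup.zpowers (rr n F) ≤ _) ?_
      have hk' : k = n / 2 - 1 := by omega
      rw [hk']
      exact Subgroup.mem_zpowers _
  · exact (le_sup_right : TT n F ≤ ND n F).trans le_sup_left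

end Cfsg.Agent.Lib.H49SpNNr
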