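import Mathlib
import Cfsg.Agent.Lib.H49SoDefs
import Cfsg.Agent.Lib.H49SpPol
import Cfsg.Agent.Lib.H49SpStar
import Cfsg.Agent.Lib.H49SpInv
import Cfsg.Agent.Lib.H49SpMonB
import Cfsg.Agent.Lib.H49SpMem
import Cfsg.Agent.Lib.H49SpDiag
import Cfsg.Agent.Lib.H49SpTN
import Cfsg.Agent.Lib.H49SpBNT
import Cfsg.Agent.Lib.H49SpSq
import Cfsg.Agent.Lib.H49SpRootGL
import Cfsg.Agent.Lib.H49SuSgm
import Cfsg.Agent.Lib.H49SuInvD

set_option autoImplicit false

/-! Project 2547 (Steinberg character of `POmega_{2m+1}(q)`), piece `Ne` (25m).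

COPY of the landed `H49SuNe` (`exists_ne_one`: `RootGL.exists_x` with `t = 1`, `RootOdd.exists_x` with `α = 1`; here `n` is odd so `2k+2 ≤ n` means `2k+3 < n` or `2k+3 = n`). -/

namespace Cfsg.Agent.Lib.H49SpNe

open Matrix Cfsg.Agent.Lib.H49SoDefs
open Cfsg.Agent.Lib.H49SuDefs (Tri UT Dg Mon Tri_one Tri_mul UT_one UT_mul Dg_one Dg_mul Mon_one Mon_mul Mon_uniq sgm Inv CL)
open Cfsg.Agent.Lib.H49SpPol Cfsg.Agent.Lib.H49SpStar Cfsg.Agent.Lib.H49SpInv Cfsg.Agent.Lib.H49SpMonB Cfsg.Agent.Lib.H49SpMem Cfsg.Agent.Lib.H49SpDiag Cfsg.Agent.Lib.H49SpTN Cfsg.Agent.Lib.H49SpBNT Cfsg.Agent.Lib.H49SpSq Cfsg.Agent.Lib.H49SpRootGL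

variable {n : ℕ} {F : Type*} [Field F]

theorem exists_ne_one (h2 : n % 2 = 0) (k : ℕ) (hk : 2 * k + 3 < n) :
    ∃ x ∈ XX n F k, x ≠ 1 := by
  let a : Fin n := ⟨k, by omega⟩
  let b : Fin n := ⟨k + 1, by omega⟩
  have hab : a ≠ b := by
    intro h
    have := congrArg Fin.val h
    simp [a, b] at this
  rcases lt_or_ge (2 * k + 3) n with h | h
  · obtain ⟨x, hx, hm⟩ := H49SpRootGL.exists_x h2 h a b rfl rfl (1 : F)
    refine ⟨x, hx, ?_⟩
    rintro rfl
    have h1 := congrFun (congrFun hm a) b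
    have hne : ¬ (Fin.rev b = a ∧ Fin.rev a = b) := by
      rintro ⟨h2, -⟩
      have := congrArg Fin.val h2
      simp [a, b, Fin.val_rev] at this
      omega
    rw [mt_one] at h1
    simp only [Matrix.sub_apply, Matrix.add_apply, Matrix.one_apply_ne hab, Matrix.single_apply,
      and_self, if_true, if_neg hne] at h1
    simp at h1
  · omega

theorem conj_not_mem (h2 : n % 2 = 0) {k : ℕ} {s : GO n F}
    (hs : Mon (sgm n k) (mt s)) {x : GO n F} (hx : x ∈ XX n F k) (h1 : x ≠ 1) : s * x * s ∉ BB n F := by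
  intro hB
  have h3 : s * x * s⁻¹ ∈ BB n F := by
    have : s * x * s⁻¹ = (s * x * s) * (s * s)⁻¹ := by group
    rw [this]
    exact (BB n F).mul_mem hB ((BB n F).inv_mem (TT_le_BB (sq_mem h2 hs)))
  have hex : ∃ a b, a ≠ b ∧ mt x a b ≠ 0 := by
    by_contra hcon
    push Not at hcon
    apply h1
    apply mt_inj
    rw [mt_one]
    ext a b
    by_cases hab : a = b
    · subst hab; rw [hx.1 a, Matrix.one_apply_eq]
    · rw [hcon a b hab, Matrix.one_apply_ne hab]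
  obtain ⟨a, b, hab, hne⟩ := hex
  have hinv := hx.2 a b hab hne
  have h4 := (mem_BB h2).1 h3 (sgm n k a) (sgm n k b) hinv.2
  exact hne ((conj_zero hs x a b).1 h4)

end Cfsg.Agent.Lib.H49SpNe
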