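import Mathlib
import Cfsg.Agent.Lib.H49SoDefs
import Cfsg.Agent.Lib.H49SpDefs

set_option autoImplicit false

/-! Project 2548 (Steinberg character of `POmega+_{2m}(q)`), piece `Norm` (30m).

Generic.  `normal_of`: the normalizer of `H` contains `H` and `r` (`Subgroup.mem_normalizer_iff`), so it is `⊤` (`Subgroup.normalizer_eq_top_iff`).  `comm_le`: in `G ⧸ H` every element is a power of the image of `r` (the map `mk' H` sends `H ⊔ zpowers r = ⊤` onto `zpowers (mk r)`), so the quotient is commutative;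
`QuotientGroup.eq_one_iff`, `map_commutatorElement`, `Subgroup.commutator_le`, `commutator_def`.  (Or: `Abelianization`/`Subgroup.Normal.quotient_commutative_iff_commutator_le`.) -/

namespace Cfsg.Agent.Lib.H49SpNorm

open Matrix Cfsg.Agent.Lib.H49SoDefs Cfsg.Agent.Lib.H49SpDefs
open Cfsg.Agent.Lib.H49SuDefs (Tri UT Dg Mon Tri_one Tri_mul UT_one UT_mul Dg_one Dg_mul Mon_one Mon_mul Mon_uniq sgm Inv CL)

variable {n : ℕ} {F : Type*} [Field F]

theorem normal_of {G : Type*} [Group G] (H : Subgroup G) (r : G) (h1 : ∀ x ∈ H, r * x * r⁻¹ ∈ H)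
    (h1' : ∀ x ∈ H, r⁻¹ * x * r ∈ H) (ht : H ⊔ Subgroup.zpowers r = ⊤) : H.Normal := by
  rw [← Subgroup.normalizer_eq_top_iff, eq_top_iff, ← ht]
  refine sup_le Subgroup.le_normalizer ?_
  rw [Subgroup.zpowers_le, Subgroup.mem_normalizer_iff]
  intro x
  refine ⟨h1 x, fun h => ?_⟩
  have := h1' _ h
  simpa [mul_assoc] using this

theorem comm_le {G : Type*} [Group G] (H : Subgroup G) (hH : H.Normal) (r : G) (ht : H ⊔ Subgroup.zpowers r = ⊤) :
    commutator G ≤ H := by
  have hc : ∀ a b : G ⧸ H, a * b = b * a := by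
    have hz : ∀ a : G ⧸ H, a ∈ Subgroup.zpowers (QuotientGroup.mk' H r) := by
      intro a
      obtain ⟨g, rfl⟩ := QuotientGroup.mk'_surjective H a
      have hg : g ∈ H ⊔ Subgroup.zpowers r := ht ▸ Subgroup.mem_top g
      have hg' : g ∈ ((H ⊔ Subgroup.zpowers r : Subgroup G) : Set G) := hg
      rw [Subgroup.normal_mul] at hg'
      obtain ⟨x, hx, y, hy, rfl⟩ := Set.mem_mul.1 hg'
      obtain ⟨k, rfl⟩ := Subgroup.mem_zpowers_iff.1 hy
      rw [map_mul, map_zpow]
      have : QuotientGroup.mk' H x = 1 := (QuotientGroup.eq_one_iff x).2 hx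
      rw [this, one_mul]
      exact Subgroup.zpow_mem_zpowers _ _
    intro a b
    obtain ⟨k, rfl⟩ := Subgroup.mem_zpowers_iff.1 (hz a)
    obtain ⟨l, rfl⟩ := Subgroup.mem_zpowers_iff.1 (hz b)
    rw [← _root_.zpow_add, ← _root_.zpow_add, add_comm]
  rw [commutator_def, Subgroup.commutator_le]
  intro a _ b _
  rw [← QuotientGroup.eq_one_iff, ← QuotientGroup.mk'_apply, map_commutatorElement,
    commutatorElement_eq_one_iff_mul_comm]
  exact hc _ _

end Cfsg.Agent.Lib.H49SpNorm
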