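import Mathlib
import Cfsg.Agent.Lib.H49SoDefs
import Cfsg.Agent.Lib.H49SpDefs

set_option autoImplicit false

/-! Project 2548 (Steinberg character of `POmega+_{2m}(q)`), piece `PbCl` (30m).

Generic.  Apply `Subgroup.map_injective P.H.subtype_injective`; `Subgroup.map_sup`, `MonoidHom.map_closure`, `Subgroup.subgroupOf_map_subtype` (`(K.subgroupOf H).map H.subtype = K ⊓ H`), the image of `P.SH` under the inclusion is `P.S` (`P.subset`, `P.N ≤ P.H`); then `P.closure_sup`.  Compare the landed `H49SkCl`. -/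

namespace Cfsg.Agent.Lib.H49SpPbCl

open Matrix Cfsg.Agent.Lib.H49SoDefs Cfsg.Agent.Lib.H49SpDefs
open Cfsg.Agent.Lib.H49SuDefs (Tri UT Dg Mon Tri_one Tri_mul UT_one UT_mul Dg_one Dg_mul Mon_one Mon_mul Mon_uniq sgm Inv CL)

variable {n : ℕ} {F : Type*} [Field F]

theorem closure_sup {G : Type*} [Group G] (P : PreBN G) :
    Subgroup.closure P.SH ⊔ (P.B.subgroupOf P.H ⊓ P.N.subgroupOf P.H) = P.N.subgroupOf P.H := by
  have hNH : P.N ≤ P.H := le_sup_right
  apply le_antisymm
  · apply sup_le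
    · rw [Subgroup.closure_le]
      intro x hx
      exact Subgroup.mem_subgroupOf.2 (P.subset hx)
    · exact inf_le_right
  · intro x hx
    have hx' : (x : G) ∈ P.N := Subgroup.mem_subgroupOf.1 hx
    have hle : Subgroup.closure P.S ⊔ (P.B ⊓ P.N) ≤
        (Subgroup.closure P.SH ⊔ (P.B.subgroupOf P.H ⊓ P.N.subgroupOf P.H)).map P.H.subtype := by
      apply sup_le
      · rw [Subgroup.closure_le]
        intro s hs
        exact ⟨⟨s, hNH (P.subset hs)⟩, Subgroup.mem_sup_left (Subgroup.subset_closure hs), rfl⟩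
      · intro t ht
        obtain ⟨ht1, ht2⟩ := Subgroup.mem_inf.1 ht
        exact ⟨⟨t, hNH ht2⟩, Subgroup.mem_sup_right (Subgroup.mem_inf.2
          ⟨Subgroup.mem_subgroupOf.2 ht1, Subgroup.mem_subgroupOf.2 ht2⟩), rfl⟩
    rw [P.closure_sup] at hle
    obtain ⟨y, hy, hyx⟩ := hle hx'
    have e : y = x := Subtype.ext hyx
    rwa [← e]

end Cfsg.Agent.Lib.H49SpPbCl
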