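import Mathlib
import Cfsg.Agent.Lib.H49SoDefs
import Cfsg.Agent.Lib.H49SpDefs

set_option autoImplicit false

/-! Project 2548 (Steinberg character of `POmega+_{2m}(q)`), piece `PbMul` (25m).

Generic.  `P.mul_mem_union s hs n hn b hb` in `G`; `DoubleCoset.mem_doubleCoset` gives `b₁ b₂ ∈ P.B`, lift them to `P.H` (`le_sup_left`), `Subtype.ext`.  Compare the landed `H49SkMul`. -/

namespace Cfsg.Agent.Lib.H49SpPbMul

open Matrix Cfsg.Agent.Lib.H49SoDefs Cfsg.Agent.Lib.H49SpDefs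
open Cfsg.Agent.Lib.H49SuDefs (Tri UT Dg Mon Tri_one Tri_mul UT_one UT_mul Dg_one Dg_mul Mon_one Mon_mul Mon_uniq sgm Inv CL)

variable {n : ℕ} {F : Type*} [Field F]

theorem mul_mem_union {G : Type*} [Group G] (P : PreBN G) : ∀ s ∈ P.SH, ∀ n ∈ P.N.subgroupOf P.H, ∀ b ∈ P.B.subgroupOf P.H,
    s * b * n ∈ DoubleCoset.doubleCoset (s * n) ((P.B.subgroupOf P.H : Subgroup P.H) : Set P.H) (P.B.subgroupOf P.H) ∪
      DoubleCoset.doubleCoset n ((P.B.subgroupOf P.H : Subgroup P.H) : Set P.H) (P.B.subgroupOf P.H) := by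
  intro s hs n hn b hb
  have hB : P.B ≤ P.H := le_sup_left
  rw [Subgroup.mem_subgroupOf] at hn hb
  have h1 := P.mul_mem_union (s : G) hs (n : G) hn (b : G) hb
  rcases h1 with h1 | h1
  · left
    rw [DoubleCoset.mem_doubleCoset] at h1 ⊢
    obtain ⟨b₁, hb₁, b₂, hb₂, e⟩ := h1
    exact ⟨⟨b₁, hB hb₁⟩, Subgroup.mem_subgroupOf.2 hb₁, ⟨b₂, hB hb₂⟩, Subgroup.mem_subgroupOf.2 hb₂,
      Subtype.ext e⟩
  · right
    rw [DoubleCoset.mem_doubleCoset] at h1 ⊢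
    obtain ⟨b₁, hb₁, b₂, hb₂, e⟩ := h1
    exact ⟨⟨b₁, hB hb₁⟩, Subgroup.mem_subgroupOf.2 hb₁, ⟨b₂, hB hb₂⟩, Subgroup.mem_subgroupOf.2 hb₂,
      Subtype.ext e⟩

end Cfsg.Agent.Lib.H49SpPbMul
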