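import Mathlib
import Cfsg.Agent.Lib.H49SoDefs
import Cfsg.Agent.Lib.H49SpDefs

set_option autoImplicit false

/-! Project 2548 (Steinberg character of `POmega+_{2m}(q)`), piece `PbSup` (15m).

Generic.  `Subgroup.subgroupOf_sup` (or `Subgroup.sup_subgroupOf_eq`) with `le_sup_left`, `le_sup_right`, then `Subgroup.subgroupOf_self`.  `P.H = P.B ⊔ P.N` by `rfl`. -/

namespace Cfsg.Agent.Lib.H49SpPbSup

open Matrix Cfsg.Agent.Lib.H49SoDefs Cfsg.Agent.Lib.H49SpDefs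
open Cfsg.Agent.Lib.H49SuDefs (Tri UT Dg Mon Tri_one Tri_mul UT_one UT_mul Dg_one Dg_mul Mon_one Mon_mul Mon_uniq sgm Inv CL)

variable {n : ℕ} {F : Type*} [Field F]

theorem sup_top {G : Type*} [Group G] (P : PreBN G) : P.B.subgroupOf P.H ⊔ P.N.subgroupOf P.H = ⊤ := by
  have hB : P.B ≤ P.H := le_sup_left
  have hN : P.N ≤ P.H := le_sup_right
  rw [← Subgroup.subgroupOf_sup hB hN]
  exact Subgroup.subgroupOf_self _

end Cfsg.Agent.Lib.H49SpPbSup
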