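import Mathlib
import Cfsg.Agent.Lib.H49SoDefs
import Cfsg.Agent.Lib.H49SpDefs
import Cfsg.Agent.Lib.H49SpPol
import Cfsg.Agent.Lib.H49SpStar
import Cfsg.Agent.Lib.H49SpInv
import Cfsg.Agent.Lib.H49SpMonB
import Cfsg.Agent.Lib.H49SpMem
import Cfsg.Agent.Lib.H49SpDiag
import Cfsg.Agent.Lib.H49SpTN
import Cfsg.Agent.Lib.H49SpBNT
import Cfsg.Agent.Lib.H49SpNT
import Cfsg.Agent.Lib.H49SpRefl
import Cfsg.Agent.Lib.H49SpSq
import Cfsg.Agent.Lib.H49SpRB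
import Cfsg.Agent.Lib.H49SpSgmC
import Cfsg.Agent.Lib.H49SpMonD

set_option autoImplicit false

/-! Project 2548 (Steinberg character of `POmega+_{2m}(q)`), piece `RN` (45m).

`rr` normalizes `ND = closure SD ⊔ TT`.  It suffices to treat generators (`Subgroup.closure_induction` / the subgroup `ND.comap (MulAut.conj rr)`; `sup_le`, `Subgroup.closure_le`).  `t ∈ TT`: `NT.NN_conj_TT`.  `sk k` with `k = n/2-2`: `rr * sk * rr⁻¹ = sD ∈ SD`.  `sk k` with `2k+5 < n`: `rr * sk k * rr⁻¹` is `Mon (sgm n k)` by `SgmC.sgm_comm`,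
so `(sk k)⁻¹ * (rr * sk k * rr⁻¹)` is `Mon 1`, i.e. in `TT` (`Mon_one_iff`, `sgm_mul_self`).  `sD`: `rr * sD * rr⁻¹ = (rr rr) sk (rr rr)⁻¹` with `rr rr ∈ TT ≤ ND`.  Second statement: `rr⁻¹ d rr = (rr rr)⁻¹ (rr d rr⁻¹) (rr rr)`. -/

namespace Cfsg.Agent.Lib.H49SpRN

open Matrix Cfsg.Agent.Lib.H49SoDefs Cfsg.Agent.Lib.H49SpDefs
open Cfsg.Agent.Lib.H49SuDefs (Tri UT Dg Mon Tri_one Tri_mul UT_one UT_mul Dg_one Dg_mul Mon_one Mon_mul Mon_uniq sgm Inv CL)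
open Cfsg.Agent.Lib.H49SpPol Cfsg.Agent.Lib.H49SpStar Cfsg.Agent.Lib.H49SpInv Cfsg.Agent.Lib.H49SpMonB Cfsg.Agent.Lib.H49SpMem Cfsg.Agent.Lib.H49SpDiag Cfsg.Agent.Lib.H49SpTN Cfsg.Agent.Lib.H49SpBNT Cfsg.Agent.Lib.H49SpNT Cfsg.Agent.Lib.H49SpRefl Cfsg.Agent.Lib.H49SpSq Cfsg.Agent.Lib.H49SpRB Cfsg.Agent.Lib.H49SpSgmC Cfsg.Agent.Lib.H49SpMonD

variable {n : ℕ} {F : Type*} [Field F]

theorem TT_le_ND : TT n F ≤ ND n F := le_sup_right

theorem SD_mem_ND {g : GO n F} (hg : g ∈ SD n F) : g ∈ ND n F :=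
  (le_sup_left : Subgroup.closure (SD n F) ≤ ND n F) (Subgroup.subset_closure hg)

theorem rr_mem_NN (h2 : n % 2 = 0) : rr n F ∈ NN n F := mem_NN.2 ⟨_, Mon_rr h2⟩

theorem rr_conj_sk_far (h2 : n % 2 = 0) {k : ℕ} (hk : 2 * k + 5 < n) :
    rr n F * sk n F k * (rr n F)⁻¹ ∈ ND n F := by
  have h1 : Mon (sgm n k) (mt (rr n F * sk n F k * (rr n F)⁻¹)) := by
    have h := Mon_mul (Mon_mul (Mon_rr (F := F) h2) (Mon_sk (F := F) h2 k)) (Mon_rr_inv (F := F) h2)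
    rw [sgm_comm h2 hk] at h
    rw [mt_mul, mt_mul]
    exact h
  have h3 : (sk n F k)⁻¹ * (rr n F * sk n F k * (rr n F)⁻¹) ∈ TT n F := by
    rw [← Mon_one_iff h2]
    have h := Mon_mul (Mon_inv (Mon_sk (F := F) h2 k)) h1
    rw [inv_mul_cancel] at h
    rw [mt_mul]
    exact h
  have h4 : sk n F k ∈ ND n F := SD_mem_ND (Or.inl ⟨k, by omega, rfl⟩)
  have h5 := (ND n F).mul_mem h4 (TT_le_ND h3)
  rwa [mul_inv_cancel_left] at h5

theorem rr_conj_SD (h2 : n % 2 = 0) {g : GO n F} (hg : g ∈ SD n F) :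
    rr n F * g * (rr n F)⁻¹ ∈ ND n F := by
  rcases hg with ⟨k, hk, rfl⟩ | ⟨h4, rfl⟩
  · by_cases hk' : 2 * k + 5 < n
    · exact rr_conj_sk_far h2 hk'
    · have e : k = n / 2 - 2 := by omega
      subst e
      exact SD_mem_ND (Or.inr ⟨by omega, rfl⟩)
  · have h1 : rr n F * rr n F ∈ ND n F := TT_le_ND (rr_sq h2)
    have h3 : sk n F (n / 2 - 2) ∈ ND n F := SD_mem_ND (Or.inl ⟨_, by omega, rfl⟩)
    have h5 := (ND n F).mul_mem ((ND n F).mul_mem h1 h3) ((ND n F).inv_mem h1)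
    have e : rr n F * sD n F * (rr n F)⁻¹
        = rr n F * rr n F * sk n F (n / 2 - 2) * (rr n F * rr n F)⁻¹ := by
      unfold sD
      simp only [_root_.mul_inv_rev, mul_assoc]
    rw [e]
    exact h5

theorem rr_conj_ND (h2 : n % 2 = 0) {d : GO n F} (hd : d ∈ ND n F) : rr n F * d * (rr n F)⁻¹ ∈ ND n F := by
  have key : ND n F ≤ (ND n F).comap (MulAut.conj (rr n F)).toMonoidHom := by
    refine sup_le ?_ ?_
    · rw [Subgroup.closure_le]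
      intro g hg
      show (MulAut.conj (rr n F)) g ∈ ND n F
      rw [MulAut.conj_apply]
      exact rr_conj_SD h2 hg
    · intro t ht
      show (MulAut.conj (rr n F)) t ∈ ND n F
      rw [MulAut.conj_apply]
      exact TT_le_ND (NN_conj_TT h2 (rr_mem_NN h2) ht)
  have h := key hd
  have h' : (MulAut.conj (rr n F)) d ∈ ND n F := h
  rwa [MulAut.conj_apply] at h'

theorem rr_inv_conj_ND (h2 : n % 2 = 0) {d : GO n F} (hd : d ∈ ND n F) : (rr n F)⁻¹ * d * rr n F ∈ ND n F := by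
  have h1 : rr n F * rr n F ∈ ND n F := TT_le_ND (rr_sq h2)
  have h5 := (ND n F).mul_mem ((ND n F).mul_mem ((ND n F).inv_mem h1) (rr_conj_ND h2 hd)) h1
  have e : (rr n F)⁻¹ * d * rr n F
      = (rr n F * rr n F)⁻¹ * (rr n F * d * (rr n F)⁻¹) * (rr n F * rr n F) := by
    group
  rw [e]
  exact h5

end Cfsg.Agent.Lib.H49SpRN
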