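import Mathlib
import Cfsg.Agent.Lib.H49SoDefs
import Cfsg.Agent.Lib.H49SpPol
import Cfsg.Agent.Lib.H49SpStar
import Cfsg.Agent.Lib.H49SpInv
import Cfsg.Agent.Lib.H49SpMonB
import Cfsg.Agent.Lib.H49SpMem
import Cfsg.Agent.Lib.H49SpHalf
import Cfsg.Agent.Lib.H49SpCol

set_option autoImplicit false

/-! Project 2547 (Steinberg character of `POmega_{2m+1}(q)`), piece `Sup` (20m).

COPY of the landed `H49SuSup`. -/

namespace Cfsg.Agent.Lib.H49SpSup

open Matrix Cfsg.Agent.Lib.H49SoDefs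
open Cfsg.Agent.Lib.H49SuDefs (Tri UT Dg Mon Tri_one Tri_mul UT_one UT_mul Dg_one Dg_mul Mon_one Mon_mul Mon_uniq sgm Inv CL)
open Cfsg.Agent.Lib.H49SpPol Cfsg.Agent.Lib.H49SpStar Cfsg.Agent.Lib.H49SpInv Cfsg.Agent.Lib.H49SpMonB Cfsg.Agent.Lib.H49SpMem Cfsg.Agent.Lib.H49SpHalf Cfsg.Agent.Lib.H49SpCol

variable {n : ℕ} {F : Type*} [Field F]

theorem step (h2 : n % 2 = 0) (j : ℕ) : ∀ g : GO n F,
    ∃ h ∈ BB n F ⊔ NN n F, ∀ a b : Fin n, b.val < j → 2 * b.val + 1 < n → b < a → mt (h * g) a b = 0 := by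
  induction j with
  | zero =>
    intro g
    exact ⟨1, Subgroup.one_mem _, fun a b hb => absurd hb (Nat.not_lt_zero _)⟩
  | succ j ih =>
    intro g
    obtain ⟨h1, hh1, H1⟩ := ih g
    by_cases hj : 2 * j + 1 < n
    · obtain ⟨h3, hh3, H3⟩ := col h2 j hj (h1 * g) (fun a b hb hab => H1 a b hb (by omega) hab)
      refine ⟨h3 * h1, Subgroup.mul_mem _ hh3 hh1, ?_⟩
      intro a b hb _ hab
      rw [mul_assoc]
      exact H3 a b hb hab
    · refine ⟨h1, hh1, ?_⟩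
      intro a b hb hb2 hab
      exact H1 a b (by omega) hb2 hab

theorem sup_eq_top (h2 : n % 2 = 0) : BB n F ⊔ NN n F = ⊤ := by
  rw [eq_top_iff]
  intro g _
  obtain ⟨h, hh, H⟩ := step h2 n g
  have h1 : h * g ∈ BB n F := half h2 (fun a b hab hb => H a b b.2 hb hab)
  have h3 : g = h⁻¹ * (h * g) := by group
  rw [h3]
  exact Subgroup.mul_mem _ (Subgroup.inv_mem _ hh) ((le_sup_left : BB n F ≤ _) h1)

end Cfsg.Agent.Lib.H49SpSup
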