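import Mathlib
import Cfsg.Agent.Lib.H49SoDefs

set_option autoImplicit false

/-! Project 2547 (Steinberg character of `POmega_{2m+1}(q)`), piece `TP` (25m).

COPY of the landed `H49SuTP`. -/

namespace Cfsg.Agent.Lib.H49SpTP

open Matrix Cfsg.Agent.Lib.H49SoDefs
open Cfsg.Agent.Lib.H49SuDefs (Tri UT Dg Mon Tri_one Tri_mul UT_one UT_mul Dg_one Dg_mul Mon_one Mon_mul Mon_uniq sgm Inv CL)

variable {n : ℕ} {F : Type*} [Field F]

theorem mt_pow_diag {t : GO n F} (ht : t ∈ TT n F) (k : ℕ) :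
    mt (t ^ k) = Matrix.diagonal (fun a => (mt t a a) ^ k) := by
  have h1 : mt t = Matrix.diagonal (fun a => mt t a a) := by
    ext a b
    by_cases h : a = b
    · subst h; rw [Matrix.diagonal_apply_eq]
    · rw [ht.1 a b h, Matrix.diagonal_apply_ne _ h]
  induction k with
  | zero =>
    rw [pow_zero, mt_one]
    simp
  | succ k ih =>
    rw [pow_succ, mt_mul, ih]
    have h2 : (Matrix.diagonal fun a => mt t a a ^ k) * mt t =
        (Matrix.diagonal fun a => mt t a a ^ k) * Matrix.diagonal (fun a => mt t a a) := by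
      rw [← h1]
    rw [h2, Matrix.diagonal_mul_diagonal]
    congr 1
    funext i
    rw [pow_succ]

theorem diag_ne {t : GO n F} (ht : t ∈ TT n F) (a : Fin n) : mt t a a ≠ 0 := by
  intro h0
  have h1 : mt (t * t⁻¹) a a = 1 := by rw [mul_inv_cancel, mt_one, Matrix.one_apply_eq]
  rw [mt_mul, Matrix.mul_apply, Finset.sum_eq_single a, h0, zero_mul] at h1
  · exact zero_ne_one h1
  · intro c _ hc
    rw [ht.1 a c hc.symm, zero_mul]
  · intro h; exact absurd (Finset.mem_univ _) h

theorem not_dvd_card_TT [Fintype F] (p : ℕ) [Fact p.Prime] [CharP F p] : ¬ p ∣ Nat.card (TT n F) := by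
  intro hp
  obtain ⟨⟨t, ht⟩, hord⟩ := exists_prime_orderOf_dvd_card' p hp
  have h1 : t ^ (Fintype.card F - 1) = 1 := by
    apply mt_inj
    rw [mt_pow_diag ht, mt_one, ← Matrix.diagonal_one]
    congr 1
    funext a
    exact FiniteField.pow_card_sub_one_eq_one _ (diag_ne ht a)
  have h2 : p ∣ Fintype.card F - 1 := by
    rw [← hord]
    apply orderOf_dvd_of_pow_eq_one
    apply Subtype.ext
    rw [Subgroup.coe_pow]
    exact h1
  have h3 : p ∣ Fintype.card F :=
    (CharP.cast_eq_zero_iff F p _).1 (FiniteField.cast_card_eq_zero F)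
  have h4 : 1 < Fintype.card F := Fintype.one_lt_card
  have h5 : p ∣ 1 := by
    have := (Nat.dvd_sub h3 h2)
    rwa [Nat.sub_sub_self h4.le] at this
  exact (Fact.out : p.Prime).one_lt.ne' (Nat.dvd_one.1 h5)

end Cfsg.Agent.Lib.H49SpTP
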