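import Mathlib
import Cfsg.Agent.Lib.H49SoDefs
import Cfsg.Agent.Lib.H49SpPol
import Cfsg.Agent.Lib.H49SpStar
import Cfsg.Agent.Lib.H49SpInv
import Cfsg.Agent.Lib.H49SpMonB
import Cfsg.Agent.Lib.H49SpMem
import Cfsg.Agent.Lib.H49SpNT

set_option autoImplicit false

/-! Project 2547 (Steinberg character of `POmega_{2m+1}(q)`), piece `W0` (20m).

COPY of the landed `H49SuW0`.  `conj_low`: by `conj_zero h0` and `mem_UU`: the entry of `m0 y m0⁻¹` at `(rev a, rev b)` vanishes iff `mt y a b = 0`; `y` is lower unitriangular (`Inv n k b a → b < a`); for the diagonal use that `mt (m0 y m0⁻¹) (rev a) (rev a) = mt y a a`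
(`= m0 (rev a) a * y a a * m0⁻¹ a (rev a)` and the same formula for `y = 1`), or: `m0 (y) m0⁻¹ - 1 = m0 (y - 1) m0⁻¹` has zero diagonal. -/

namespace Cfsg.Agent.Lib.H49SpW0

open Matrix Cfsg.Agent.Lib.H49SoDefs
open Cfsg.Agent.Lib.H49SuDefs (Tri UT Dg Mon Tri_one Tri_mul UT_one UT_mul Dg_one Dg_mul Mon_one Mon_mul Mon_uniq sgm Inv CL)
open Cfsg.Agent.Lib.H49SpPol Cfsg.Agent.Lib.H49SpStar Cfsg.Agent.Lib.H49SpInv Cfsg.Agent.Lib.H49SpMonB Cfsg.Agent.Lib.H49SpMem Cfsg.Agent.Lib.H49SpNT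

variable {n : ℕ} {F : Type*} [Field F]

theorem revPerm_inv_apply (a : Fin n) : (Fin.revPerm : Equiv.Perm (Fin n))⁻¹ a = Fin.rev a := by
  rw [Equiv.Perm.inv_eq_iff_eq, Fin.revPerm_apply, Fin.rev_rev]

theorem mem_TT_iff (h2 : n % 2 = 0) {m0 : GO n F} (h0 : Mon Fin.revPerm (mt m0))
    {β : GO n F} (hβ : β ∈ BB n F) : β ∈ TT n F ↔ m0⁻¹ * β * m0 ∈ BB n F := by
  have hm0 : m0 ∈ NN n F := mem_NN.2 ⟨_, h0⟩
  constructor
  · intro h
    have h1 := NN_conj_TT h2 ((NN n F).inv_mem hm0) h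
    rw [inv_inv] at h1
    exact TT_le_BB h1
  · intro h
    rw [mem_TT h2]
    intro a b hab
    rcases lt_or_gt_of_ne hab with h3 | h1
    · have h4 := conj_zero (Mon_inv h0) β a b
      rw [inv_inv, revPerm_inv_apply, revPerm_inv_apply] at h4
      apply h4.1
      apply h.1
      exact Fin.rev_lt_rev.2 h3
    · exact hβ.1 a b h1

theorem conj_low (h2 : n % 2 = 0) {m0 : GO n F} (h0 : Mon Fin.revPerm (mt m0)) {k : ℕ}
    {y : GO n F} (hy : y ∈ YY n F k) : m0 * y * m0⁻¹ ∈ UU n F := by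
  rw [mem_UU h2]
  constructor
  · intro a b hab
    have key : mt y (Fin.rev a) (Fin.rev b) = 0 := by
      by_contra hne
      have h1 := (hy.2 _ _ (fun e => (ne_of_gt hab) (Fin.rev_inj.1 e)) hne).1
      exact lt_asymm hab (Fin.rev_lt_rev.1 h1)
    have h1 := (conj_zero h0 y (Fin.rev a) (Fin.rev b)).2 key
    rwa [Fin.revPerm_apply, Fin.revPerm_apply, Fin.rev_rev, Fin.rev_rev] at h1
  · intro a
    have h1 := conj_apply h0 y (Fin.rev a) (Fin.rev a)
    have h3 := conj_apply h0 (1 : GO n F) (Fin.rev a) (Fin.rev a)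
    rw [hy.1] at h1
    rw [mt_one, Matrix.one_apply_eq, ← h1, mul_one, mul_inv_cancel, mt_one, Matrix.one_apply_eq,
      Fin.revPerm_apply, Fin.rev_rev] at h3
    exact h3.symm

end Cfsg.Agent.Lib.H49SpW0
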