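import Mathlib
import Cfsg.Agent.Lib.H49SoDefs
import Cfsg.Agent.Lib.H49SpDefs
import Cfsg.Agent.Lib.H49SpXDefs
import Cfsg.Agent.Lib.H49SkHub
import Cfsg.Agent.Lib.H49SuInvDich
import Cfsg.Agent.Lib.H49SuTransport
import Cfsg.Agent.Lib.H49SoIsoC
import Cfsg.Agent.Lib.H49SpMem
import Cfsg.Agent.Lib.H49SpTN
import Cfsg.Agent.Lib.H49SpBNT
import Cfsg.Agent.Lib.H49SpNT
import Cfsg.Agent.Lib.H49SpRefl
import Cfsg.Agent.Lib.H49SpSq
import Cfsg.Agent.Lib.H49SpCl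
import Cfsg.Agent.Lib.H49SpA2
import Cfsg.Agent.Lib.H49SpB1
import Cfsg.Agent.Lib.H49SpClearGL
import Cfsg.Agent.Lib.H49SpRankGL
import Cfsg.Agent.Lib.H49SpNe
import Cfsg.Agent.Lib.H49SpW0
import Cfsg.Agent.Lib.H49SpDec
import Cfsg.Agent.Lib.H49SpNor
import Cfsg.Agent.Lib.H49SpPG
import Cfsg.Agent.Lib.H49SpTP
import Cfsg.Agent.Lib.H49SpSup
import Cfsg.Agent.Lib.H49SpPbSup
import Cfsg.Agent.Lib.H49SpPbCl
import Cfsg.Agent.Lib.H49SpPbMul
import Cfsg.Agent.Lib.H49SpPbNe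
import Cfsg.Agent.Lib.H49SpGenU
import Cfsg.Agent.Lib.H49SpIdx
import Cfsg.Agent.Lib.H49SpNorm
import Cfsg.Agent.Lib.H49SpMid
import Cfsg.Agent.Lib.H49SpRB
import Cfsg.Agent.Lib.H49SpMonD
import Cfsg.Agent.Lib.H49SpInjD
import Cfsg.Agent.Lib.H49SpRN
import Cfsg.Agent.Lib.H49SpNNr
import Cfsg.Agent.Lib.H49SpEK
import Cfsg.Agent.Lib.H49SpEInd
import Cfsg.Agent.Lib.H49SpIsoP

set_option autoImplicit false

/-! Project 2548: the BN-pair of type `D` in `O⁺_n(F)` (`n` even) and the Steinberg character of `PΩ⁺_{2m}(q)`, `(m, q) ≠ (2, 2)`. -/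

namespace Cfsg.Agent.Lib.H49SpHub

open Matrix Cfsg.Agent.Lib.H49SoDefs Cfsg.Agent.Lib.H49SkDefs Cfsg.Agent.Lib.H49SpDefs Cfsg.Agent.Lib.H49SpXDefs
open Cfsg.Agent.Lib.H49SuDefs (Tri UT Dg Mon Mon_mul sgm Inv CL)

/-- the BN-pair of `B ⊔ N` -/
def toBN {G : Type*} [Group G] (P : PreBN G) : Cfsg.BNPair P.H where
  B := P.B.subgroupOf P.H
  N := P.N.subgroupOf P.H
  S := P.SH
  sup_eq_top := H49SpPbSup.sup_top P
  conj_mem := fun n hn t ht => P.conj_mem n hn t ⟨ht.1, ht.2⟩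
  subset := fun s hs => P.subset hs
  sq_mem := fun s hs => P.sq_mem s hs
  inj := fun s hs s' hs' h => Subtype.ext (P.inj s hs s' hs' h)
  closure_sup := H49SpPbCl.closure_sup P
  mul_mem_union := H49SpPbMul.mul_mem_union P
  conj_ne := H49SpPbNe.conj_ne P

variable {n : ℕ} {F : Type*} [Field F]

theorem mul_gl (h2 : n % 2 = 0) {k : ℕ} (hk : 2 * k + 3 < n) {g : GO n F} (hg : g ∈ NN n F) {β : GO n F}
    (hβ : β ∈ BB n F) :
    sk n F k * β * g ∈ DoubleCoset.doubleCoset (sk n F k * g) (BB n F : Set (GO n F)) (BB n F) ∪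
      DoubleCoset.doubleCoset g (BB n F : Set (GO n F)) (BB n F) := by
  obtain ⟨π, hπ⟩ := H49SpMem.mem_NN.1 hg
  have hπ' := H49SpMonB.Mon_inv hπ
  have hs := H49SpRefl.Mon_sk (n := n) (F := F) h2 k
  refine H49SgG1.mul_mem_union (BB n F) (sk n F k) g (XX n F k) (YY n F k) ?_ ?_ ?_ β hβ
  · intro b hb
    obtain ⟨c, hc, x, hx, h0, e⟩ := H49SpClearGL.clear h2 hk hb
    exact ⟨c, hc, x, hx, H49SpA2.conj_mem_BB h2 hs hc h0, e⟩
  · rcases H49SuInvDich.inv_dich n k π⁻¹ (H49SpMonB.Mon_rev h2 hπ') with h | h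
    · left
      intro x hx
      have := H49SpB1.conj_XX h2 hπ' h hx
      rwa [inv_inv] at this
    · right
      intro y hy
      have := H49SpB1.conj_YY h2 hπ' h hy
      rwa [inv_inv] at this
  · intro x hx
    by_cases h1 : x = 1
    · exact Or.inl h1
    · exact Or.inr (H49SpRankGL.rank_one h2 hk hs hx h1)

theorem ne_gl (h2 : n % 2 = 0) {k : ℕ} (hk : 2 * k + 3 < n) :
    (fun b : GO n F => sk n F k * b * sk n F k) '' (BB n F : Set (GO n F)) ≠ (BB n F : Set (GO n F)) := by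
  intro he
  obtain ⟨x, hx, h1⟩ := H49SpNe.exists_ne_one (F := F) h2 k hk
  have : sk n F k * x * sk n F k ∈ ((BB n F : Subgroup (GO n F)) : Set (GO n F)) := by
    rw [← he]
    exact ⟨_, UU_le_BB (H49SpB1.XX_le h2 hx), rfl⟩
  exact H49SpNe.conj_not_mem h2 (H49SpRefl.Mon_sk h2 k) hx h1 this

theorem rr_mem_NN (h2 : n % 2 = 0) : rr n F ∈ NN n F := H49SpMem.mem_NN.2 ⟨_, H49SpRB.Mon_rr h2⟩

/-- **The BN-axioms of type `D`.** -/
noncomputable def pre (h2 : n % 2 = 0) (hn : 2 ≤ n) : PreBN (GO n F) where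
  B := BB n F
  N := ND n F
  S := SD n F
  conj_mem := by
    intro g hg t ht
    rw [H49SpMonD.BB_inf_ND h2] at ht
    exact TT_le_BB (H49SpNT.NN_conj_TT h2 (H49SpMonD.ND_le_NN h2 hg) ht)
  subset := fun s hs => (le_sup_left : Subgroup.closure (SD n F) ≤ ND n F) (Subgroup.subset_closure hs)
  sq_mem := by
    rintro s (⟨k, hk, rfl⟩ | ⟨h4, rfl⟩)
    · exact TT_le_BB (H49SpSq.sq_mem h2 (H49SpRefl.Mon_sk h2 k))
    · have h := H49SpNT.NN_conj_TT h2 (rr_mem_NN (F := F) h2)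
        (H49SpSq.sq_mem h2 (H49SpRefl.Mon_sk (F := F) h2 (n / 2 - 2)))
      have e : sD n F * sD n F = rr n F * (sk n F (n / 2 - 2) * sk n F (n / 2 - 2)) * (rr n F)⁻¹ := by
        unfold sD; group
      rw [e]
      exact TT_le_BB h
  inj := H49SpInjD.inj h2
  closure_sup := by
    rw [H49SpMonD.BB_inf_ND h2]; rfl
  mul_mem_union := by
    rintro s (⟨k, hk, rfl⟩ | ⟨h4, rfl⟩) g hg β hβ
    · exact mul_gl h2 hk (H49SpMonD.ND_le_NN h2 hg) hβ
    · refine H49SpGenU.conj_union (BB n F) (rr n F) (sk n F (n / 2 - 2)) g β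
        (fun b hb => H49SpRB.rr_conj_BB h2 hn hb) ?_
      refine mul_gl h2 (by omega) ?_ (H49SpRB.rr_inv_conj_BB h2 hn hβ)
      exact (NN n F).mul_mem ((NN n F).mul_mem ((NN n F).inv_mem (rr_mem_NN h2)) (H49SpMonD.ND_le_NN h2 hg))
        (rr_mem_NN h2)
  conj_ne := by
    rintro s (⟨k, hk, rfl⟩ | ⟨h4, rfl⟩)
    · exact ne_gl h2 hk
    · exact H49SpGenU.conj_ne (BB n F) (rr n F) (sk n F (n / 2 - 2)) (fun b hb => H49SpRB.rr_conj_BB h2 hn hb)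
        (fun b hb => H49SpRB.rr_inv_conj_BB h2 hn hb) (ne_gl h2 (by omega))

/-- `G1 = BB ⊔ ND` -/
noncomputable abbrev G1 (h2 : n % 2 = 0) (hn : 2 ≤ n) : Subgroup (GO n F) := (pre (F := F) h2 hn).H

theorem G1_sup (h2 : n % 2 = 0) (hn : 2 ≤ n) : G1 (F := F) h2 hn ⊔ Subgroup.zpowers (rr n F) = ⊤ := by
  rw [eq_top_iff, ← H49SpSup.sup_eq_top h2]
  refine sup_le ?_ ?_
  · exact le_sup_of_le_left (le_sup_left : BB n F ≤ BB n F ⊔ ND n F)
  · refine (H49SpNNr.NN_le h2).trans (sup_le ?_ le_sup_right)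
    exact le_sup_of_le_left (le_sup_right : ND n F ≤ BB n F ⊔ ND n F)

theorem rr_conj_G1 (h2 : n % 2 = 0) (hn : 2 ≤ n) : ∀ x ∈ G1 (F := F) h2 hn, rr n F * x * (rr n F)⁻¹ ∈ G1 (F := F) h2 hn := by
  have : G1 (F := F) h2 hn ≤ (G1 (F := F) h2 hn).comap (MulAut.conj (rr n F)).toMonoidHom := by
    refine sup_le ?_ ?_
    · intro b hb
      exact (le_sup_left : BB n F ≤ BB n F ⊔ ND n F) (H49SpRB.rr_conj_BB h2 hn hb)
    · intro d hd
      exact (le_sup_right : ND n F ≤ BB n F ⊔ ND n F) (H49SpRN.rr_conj_ND h2 hd)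
  exact fun x hx => this hx

theorem rr_inv_conj_G1 (h2 : n % 2 = 0) (hn : 2 ≤ n) :
    ∀ x ∈ G1 (F := F) h2 hn, (rr n F)⁻¹ * x * rr n F ∈ G1 (F := F) h2 hn := by
  have : G1 (F := F) h2 hn ≤ (G1 (F := F) h2 hn).comap (MulAut.conj (rr n F)⁻¹).toMonoidHom := by
    refine sup_le ?_ ?_
    · intro b hb
      show (rr n F)⁻¹ * b * ((rr n F)⁻¹)⁻¹ ∈ G1 (F := F) h2 hn
      rw [inv_inv]
      exact (le_sup_left : BB n F ≤ BB n F ⊔ ND n F) (H49SpRB.rr_inv_conj_BB h2 hn hb)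
    · intro d hd
      show (rr n F)⁻¹ * d * ((rr n F)⁻¹)⁻¹ ∈ G1 (F := F) h2 hn
      rw [inv_inv]
      exact (le_sup_right : ND n F ≤ BB n F ⊔ ND n F) (H49SpRN.rr_inv_conj_ND h2 hd)
  intro x hx
  have h3 : (rr n F)⁻¹ * x * ((rr n F)⁻¹)⁻¹ ∈ G1 (F := F) h2 hn := this hx
  rwa [inv_inv] at h3

theorem comm_le_G1 (h2 : n % 2 = 0) (hn : 2 ≤ n) : commutator (GO n F) ≤ G1 (F := F) h2 hn :=
  H49SpNorm.comm_le _ (H49SpNorm.normal_of _ (rr n F) (rr_conj_G1 h2 hn) (rr_inv_conj_G1 h2 hn) (G1_sup h2 hn))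
    (rr n F) (G1_sup h2 hn)

/-- the longest element -/
theorem exists_m0 (h2 : n % 2 = 0) (hn : 2 ≤ n) :
    ∃ m0 ∈ ND n F, ∀ β ∈ BB n F, β ∈ TT n F ↔ m0⁻¹ * β * m0 ∈ BB n F := by
  obtain ⟨g0, hg0, h0⟩ := H49SpRefl.nlift (F := F) h2 (Fin.revPerm : Equiv.Perm (Fin n)) (fun a => rfl)
  have hTND : TT n F ≤ ND n F := le_sup_right
  rcases H49SpIdx.mem_or (ND n F) (rr n F) (fun d hd => H49SpRN.rr_conj_ND h2 hd)
    (fun d hd => H49SpRN.rr_inv_conj_ND h2 hd) (hTND (H49SpRB.rr_sq h2)) g0 (H49SpNNr.NN_le h2 hg0) with h | h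
  · exact ⟨g0, h, fun β hβ => H49SpW0.mem_TT_iff h2 h0 hβ⟩
  · refine ⟨g0 * rr n F, h, fun β hβ => ?_⟩
    rw [H49SpW0.mem_TT_iff h2 h0 hβ]
    have e : (g0 * rr n F)⁻¹ * β * (g0 * rr n F) = (rr n F)⁻¹ * (g0⁻¹ * β * g0) * rr n F := by group
    rw [e]
    constructor
    · intro hb
      exact H49SpRB.rr_inv_conj_BB h2 hn hb
    · intro hb
      have := H49SpRB.rr_conj_BB h2 hn hb
      have e2 : rr n F * ((rr n F)⁻¹ * (g0⁻¹ * β * g0) * rr n F) * (rr n F)⁻¹ = g0⁻¹ * β * g0 := by group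
      rwa [e2] at this

theorem UU_le_comm [Fintype F] (h2 : n % 2 = 0) (hc : 5 ≤ n ∨ Fintype.card F ≠ 2) : UU n F ≤ commutator (GO n F) :=
  H49SpEInd.UU_le h2 _ (fun j w hw => H49SpEK.EE_mem h2 hc j w hw)

theorem UU_eq_bot (h2 : n = 2) : UU n F ≤ commutator (GO n F) := by
  subst h2
  intro u hu
  have : u = 1 := by
    apply mt_inj
    ext a b
    rw [mt_one]
    have h01 := H49SpMid.mid_zero (F := F) (n := 2) rfl (UU_le_BB hu) 0 1 rfl rfl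
    have hut := hu.1
    fin_cases a <;> fin_cases b
    · simpa using hut.2 0
    · simpa using h01
    · simpa using hut.1 1 0 (by decide)
    · simpa using hut.2 1
  rw [this]
  exact Subgroup.one_mem _

theorem sk_mul_mem [Fintype F] (h2 : n % 2 = 0) (hUK : UU n F ≤ commutator (GO n F)) {k : ℕ} (hk : 2 * k + 3 < n) :
    ∃ t ∈ TT n F, sk n F k * t ∈ commutator (GO n F) := by
  have hnorm : (commutator (GO n F)).Normal := inferInstance
  obtain ⟨m0, hm0, h0⟩ := H49SpRefl.nlift (F := F) h2 (Fin.revPerm : Equiv.Perm (Fin n)) (fun a => rfl)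
  obtain ⟨x, hx, h1⟩ := H49SpNe.exists_ne_one (F := F) h2 k hk
  obtain ⟨g, hg, y, hy, e⟩ := H49SpRankGL.rank_one h2 hk (H49SpRefl.Mon_sk h2 k) hx h1
  obtain ⟨u, hu, t, ht, rfl⟩ := H49SpDec.BB_decomp h2 hg
  have hyK : y ∈ commutator (GO n F) := by
    have h3 := hUK (H49SpW0.conj_low h2 h0 hy)
    have h4 := hnorm.conj_mem _ h3 m0⁻¹
    have e2 : m0⁻¹ * (m0 * y * m0⁻¹) * m0⁻¹⁻¹ = y := by group
    rwa [e2] at h4
  have hxK : x ∈ commutator (GO n F) := hUK (H49SpB1.XX_le h2 hx)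
  refine ⟨t⁻¹, (TT n F).inv_mem ht, ?_⟩
  have e3 : sk n F k * t⁻¹ = u * (t * (y * x⁻¹) * t⁻¹) := by
    have : sk n F k = u * t * y * x⁻¹ := by rw [← e]; group
    rw [this]; group
  rw [e3]
  exact (commutator (GO n F)).mul_mem (hUK hu)
    (hnorm.conj_mem _ ((commutator (GO n F)).mul_mem hyK ((commutator (GO n F)).inv_mem hxK)) t)

theorem steinberg_model [Fintype F] (p : ℕ) [Fact p.Prime] [CharP F p] (h2 : n % 2 = 0) (hn : 2 ≤ n)
    (hUK : UU n F ≤ commutator (GO n F)) :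
    ∃ ψ : Cfsg.POmega F (QA n F) → ℂ, Cfsg.IsIrrCharacter (Cfsg.POmega F (QA n F)) ψ ∧
      ∀ Q : Sylow p (Cfsg.POmega F (QA n F)), ψ 1 = Nat.card Q ∧
        ∀ x : Cfsg.POmega F (QA n F), x ∈ Q → x ≠ 1 → ψ x = 0 := by
  have : Finite (GO n F) := inferInstance
  have hnorm : (commutator (GO n F)).Normal := inferInstance
  obtain ⟨m0, hm0, h0⟩ := exists_m0 (F := F) h2 hn
  have hBG : BB n F ≤ G1 (F := F) h2 hn := le_sup_left
  have hNG : ND n F ≤ G1 (F := F) h2 hn := le_sup_right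
  have hTND : TT n F ≤ ND n F := le_sup_right
  have hsp : Split (toBN (pre (F := F) h2 hn)) ((UU n F).subgroupOf (G1 (F := F) h2 hn))
      ((TT n F).subgroupOf (G1 (F := F) h2 hn)) ⟨m0, hNG hm0⟩ :=
    ⟨hm0, fun x hx => hTND hx, fun x hx => TT_le_BB hx, fun β hβ => h0 β.1 hβ, fun x hx => UU_le_BB hx,
      fun b hb u hu => H49SpNor.BB_conj_UU h2 hb hu,
      fun b hb => by
        obtain ⟨u, hu, t, ht, e⟩ := H49SpDec.BB_decomp h2 (g := b.1) hb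
        exact ⟨⟨u, hBG (UU_le_BB hu)⟩, hu, ⟨t, hBG (TT_le_BB ht)⟩, ht, Subtype.ext e⟩,
      fun g hU hT => Subtype.ext (H49SpNor.UU_inf_TT hU hT)⟩
  have hKG := comm_le_G1 (F := F) h2 hn
  have key := H49SkHub.steinberg_of_normal hsp ((commutator (GO n F)).subgroupOf (G1 (F := F) h2 hn)) inferInstance
    (fun x hx => hUK hx) ?_ p ((H49SpPG.isPGroup_UU p).comap_of_injective (G1 (F := F) h2 hn).subtype
      (G1 (F := F) h2 hn).subtype_injective) ?_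
  · exact H49SuTransport.transport (Subgroup.subgroupOfEquivOfLe hKG).symm p key
  · rintro ⟨s, hsG⟩ (⟨k, hk, hs⟩ | ⟨h4, hs⟩)
    · obtain ⟨t, ht, h⟩ := sk_mul_mem (F := F) h2 hUK hk
      refine ⟨⟨t, hBG (TT_le_BB ht)⟩, ht, ?_⟩
      show s * t ∈ commutator (GO n F)
      have hs' : s = sk n F k := hs
      rw [hs']; exact h
    · obtain ⟨t, ht, h⟩ := sk_mul_mem (F := F) (k := n / 2 - 2) h2 hUK (by omega)
      have ht' := H49SpNT.NN_conj_TT h2 (rr_mem_NN (F := F) h2) ht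
      refine ⟨⟨_, hBG (TT_le_BB ht')⟩, ht', ?_⟩
      show s * (rr n F * t * (rr n F)⁻¹) ∈ commutator (GO n F)
      have hs' : s = sD n F := hs
      have e : s * (rr n F * t * (rr n F)⁻¹) = rr n F * (sk n F (n / 2 - 2) * t) * (rr n F)⁻¹ := by
        rw [hs']; unfold sD; group
      rw [e]
      exact hnorm.conj_mem _ h _
  · intro hd
    apply H49SpTP.not_dvd_card_TT (n := n) (F := F) p
    have h1 : Nat.card ((TT n F).subgroupOf (G1 (F := F) h2 hn)) ∣ Nat.card (TT n F) := by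
      let f : ((TT n F).subgroupOf (G1 (F := F) h2 hn)) →* TT n F :=
        { toFun := fun k => ⟨k.1.1, k.2⟩, map_one' := rfl, map_mul' := fun _ _ => rfl }
      exact Subgroup.card_dvd_of_injective f
        (fun a b hab => Subtype.ext (Subtype.ext (congrArg (fun x : TT n F => x.1) hab)))
    exact hd.trans h1

/-- **The Steinberg character of `PΩ⁺_{2m}(q)`, `(m, q) ≠ (2, 2)`.** -/
theorem steinberg_POmega_plus [Fintype F] (p : ℕ) [Fact p.Prime] [CharP F p] (m : ℕ) (hm : 1 ≤ m)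
    (hc : m ≠ 2 ∨ Fintype.card F ≠ 2) :
    ∃ χ : Cfsg.POmega F (Cfsg.quadFormPlus m F) → ℂ, Cfsg.IsIrrCharacter (Cfsg.POmega F (Cfsg.quadFormPlus m F)) χ ∧
      ∀ P : Sylow p (Cfsg.POmega F (Cfsg.quadFormPlus m F)), χ 1 = Nat.card P ∧
        ∀ x : Cfsg.POmega F (Cfsg.quadFormPlus m F), x ∈ P → x ≠ 1 → χ x = 0 := by
  obtain ⟨e⟩ := H49SpIsoP.iso (F := F) m
  obtain ⟨e'⟩ := H49SoIsoC.commEquiv e
  refine H49SuTransport.transport e' p (steinberg_model p (by omega) (by omega) ?_)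
  by_cases h1 : m = 1
  · exact UU_eq_bot (by omega)
  · apply UU_le_comm (by omega)
    rcases hc with h | h
    · left; omega
    · right; exact h

end Cfsg.Agent.Lib.H49SpHub
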