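import Mathlib
import Cfsg.Agent.Lib.H49SoDefs
import Cfsg.Agent.Lib.H49SpDefs

set_option autoImplicit false

/-! Project 2548 (Steinberg character of `POmega+_{2m}(q)`), piece `PbNe` (25m).

Generic.  If the two sets were equal in `P.H`, then also in `G` (elements of `P.B` lift to `P.H`; `s ∈ P.H`), contradicting `P.conj_ne`. -/

namespace Cfsg.Agent.Lib.H49SpPbNe

open Matrix Cfsg.Agent.Lib.H49SoDefs Cfsg.Agent.Lib.H49SpDefs
open Cfsg.Agent.Lib.H49SuDefs (Tri UT Dg Mon Tri_one Tri_mul UT_one UT_mul Dg_one Dg_mul Mon_one Mon_mul Mon_uniq sgm Inv CL)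

variable {n : ℕ} {F : Type*} [Field F]

theorem conj_ne {G : Type*} [Group G] (P : PreBN G) : ∀ s ∈ P.SH,
    (fun b : P.H => s * b * s) '' ((P.B.subgroupOf P.H : Subgroup P.H) : Set P.H) ≠ ((P.B.subgroupOf P.H : Subgroup P.H) : Set P.H) := by
  intro s hs heq
  have hBH : P.B ≤ P.H := le_sup_left
  apply P.conj_ne (s : G) hs
  ext x
  constructor
  · rintro ⟨b, hb, rfl⟩
    have h1 : s * (⟨b, hBH hb⟩ : P.H) * s ∈ (fun b : P.H => s * b * s) '' ((P.B.subgroupOf P.H : Subgroup P.H) : Set P.H) :=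
      ⟨⟨b, hBH hb⟩, Subgroup.mem_subgroupOf.mpr hb, rfl⟩
    rw [heq] at h1
    exact Subgroup.mem_subgroupOf.mp h1
  · intro hx
    have h1 : (⟨x, hBH hx⟩ : P.H) ∈ ((P.B.subgroupOf P.H : Subgroup P.H) : Set P.H) :=
      Subgroup.mem_subgroupOf.mpr hx
    rw [← heq] at h1
    obtain ⟨b, hb, hbx⟩ := h1
    exact ⟨(b : G), Subgroup.mem_subgroupOf.mp hb, congrArg Subtype.val hbx⟩

end Cfsg.Agent.Lib.H49SpPbNe
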