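import Mathlib
import Cfsg.Agent.Lib.H49SoDefs
import Cfsg.Agent.Lib.H49SpDefs
import Cfsg.Agent.Lib.H49SpXDefs
import Cfsg.Agent.Lib.Helper18Transfer

set_option autoImplicit false

/-! Project 2548 (Steinberg character of `POmega+_{2m}(q)`), piece `XField` (40m).

A field with 2 elements is `ZMod 2` (`ZMod.ringEquivOfPrime F Nat.prime_two hF : ZMod 2 ≃+* F`); a ring isomorphism `σ` induces `GL ≃* GL` (`Matrix.GeneralLinearGroup.map`, or `Units.mapEquiv (RingEquiv.mapMatrix σ).toMulEquiv`) mapping the isometry group onto the isometry group: `quadFormPlus 2 F' (σ ∘ v) = σ (quadFormPlus 2 F v)`, `(σ M) *ᵥ (σ ∘ v) = σ ∘ (M *ᵥ v)` (`RingHom.map_mulVec`/`map_sum`).  `MulEquiv.subgroupMap`/`subgroupCongr`.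
Search the library first: helper18 (`Helper18Transfer`) has transports of `Cfsg.isometryGroup`.  `two`: `CharP F p` and `card F = 2` give `p = 2` (`FiniteField.card F p`, or `CharP.cast_card_eq_zero`: `(2 : F) = 0`, `CharP.cast_eq_zero_iff F p 2`, `Nat.prime_dvd_prime_iff_eq`). -/

namespace Cfsg.Agent.Lib.H49SpXField

open Matrix Cfsg.Agent.Lib.H49SoDefs Cfsg.Agent.Lib.H49SpDefs Cfsg.Agent.Lib.H49SpXDefs
open Cfsg.Agent.Lib.H49SuDefs (Tri UT Dg Mon Tri_one Tri_mul UT_one UT_mul Dg_one Dg_mul Mon_one Mon_mul Mon_uniq sgm Inv CL)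

variable {n : ℕ} {F : Type*} [Field F]

theorem iso [Fintype F] (hF : Fintype.card F = 2) :
    Nonempty (Cfsg.isometryGroup F (Cfsg.quadFormPlus 2 F) ≃* Cfsg.isometryGroup (ZMod 2) (Cfsg.quadFormPlus 2 (ZMod 2))) := by
  haveI : Fact (Nat.Prime 2) := ⟨Nat.prime_two⟩
  let e : F ≃+* ZMod 2 := (ZMod.ringEquivOfPrime F Nat.prime_two hF).symm
  refine ⟨Cfsg.Agent.Lib.Helper18Transfer.isoEquiv e _ _ ?_⟩
  intro v
  unfold Cfsg.quadFormPlus
  rw [map_sum]
  apply Finset.sum_congr rfl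
  intro i _
  rw [map_mul]

theorem two [Fintype F] (hF : Fintype.card F = 2) (p : ℕ) [Fact p.Prime] [CharP F p] : p = 2 := by
  have h1 : ((Fintype.card F : ℕ) : F) = 0 := Nat.cast_card_eq_zero F
  rw [hF] at h1
  have h2 : p ∣ 2 := (CharP.cast_eq_zero_iff F p 2).1 h1
  exact (Nat.prime_dvd_prime_iff_eq (Fact.out : p.Prime) Nat.prime_two).1 h2

end Cfsg.Agent.Lib.H49SpXField
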