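import Mathlib
import Cfsg.Agent.Lib.H49SoDefs
import Cfsg.Agent.Lib.H49SpDefs
import Cfsg.Agent.Lib.H49SpXDefs

set_option autoImplicit false

/-! Project 2548 (Steinberg character of `POmega+_{2m}(q)`), piece `XLe` (20m).

Generic.  `Subgroup.normal_of_index_eq_two`; the quotient has order 2 (`Subgroup.index_eq_card`), so it is cyclic/commutative (`isCyclic_of_prime_card`, `IsCyclic.commGroup`); `Subgroup.Normal.quotient_commutative_iff_commutator_le` or by hand: `QuotientGroup.eq_one_iff`, `map_commutatorElement`, `commutator_def`, `Subgroup.commutator_le`. -/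

namespace Cfsg.Agent.Lib.H49SpXLe

open Matrix Cfsg.Agent.Lib.H49SoDefs Cfsg.Agent.Lib.H49SpDefs Cfsg.Agent.Lib.H49SpXDefs
open Cfsg.Agent.Lib.H49SuDefs (Tri UT Dg Mon Tri_one Tri_mul UT_one UT_mul Dg_one Dg_mul Mon_one Mon_mul Mon_uniq sgm Inv CL)

open scoped commutatorElement

variable {n : ℕ} {F : Type*} [Field F]

theorem comm_le {O : Type*} [Group O] (H : Subgroup O) (h : H.index = 2) : commutator O ≤ H := by
  have hn : H.Normal := Subgroup.normal_of_index_eq_two h
  have hcard : Nat.card (O ⧸ H) = 2 := by rw [← Subgroup.index_eq_card, h]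
  have hcyc : IsCyclic (O ⧸ H) := isCyclic_of_prime_card (p := 2) hcard
  rw [commutator_def, Subgroup.commutator_le]
  intro x _ y _
  rw [← QuotientGroup.eq_one_iff]
  have h1 : ((⁅x, y⁆ : O) : O ⧸ H) = ⁅(x : O ⧸ H), (y : O ⧸ H)⁆ :=
    map_commutatorElement (QuotientGroup.mk' H) x y
  rw [h1, commutatorElement_eq_one_iff_mul_comm]
  exact hcyc.isMulCommutative.is_comm.comm _ _

end Cfsg.Agent.Lib.H49SpXLe
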