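import Mathlib
import Cfsg.Agent.Lib.H49SoDefs
import Cfsg.Agent.Lib.H49SpDefs
import Cfsg.Agent.Lib.H49SpXDefs

set_option autoImplicit false

/-! Project 2548 (Steinberg character of `POmega+_{2m}(q)`), piece `XProj` (40m).

Generic: internal direct product of two commuting subgroups with trivial intersection.  `Φ = MonoidHom.noncommCoprod A.subtype B.subtype (commute)` `: A × B →* O` is injective (`a b = 1 → a = b⁻¹ ∈ A ⊓ B = ⊥`) with range `A ⊔ B` (`MonoidHom.noncommCoprod_range`, `Subgroup.range_subtype`).  So `A × B ≃* (A ⊔ B)` (`MonoidHom.ofInjective` + `MulEquiv.subgroupCongr`), compose the inverse with `MonoidHom.fst`, `MonoidHom.snd`. -/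

namespace Cfsg.Agent.Lib.H49SpXProj

open Matrix Cfsg.Agent.Lib.H49SoDefs Cfsg.Agent.Lib.H49SpDefs Cfsg.Agent.Lib.H49SpXDefs
open Cfsg.Agent.Lib.H49SuDefs (Tri UT Dg Mon Tri_one Tri_mul UT_one UT_mul Dg_one Dg_mul Mon_one Mon_mul Mon_uniq sgm Inv CL)

variable {n : ℕ} {F : Type*} [Field F]

theorem exists_mul {O : Type*} [Group O] (A B : Subgroup O) (hc : ∀ a ∈ A, ∀ b ∈ B, a * b = b * a) {x : O} (hx : x ∈ A ⊔ B) :
    ∃ a ∈ A, ∃ b ∈ B, x = a * b := by
  have hcomm : ∀ (a : A) (b : B), Commute (A.subtype a) (B.subtype b) := fun a b => hc a a.2 b b.2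
  have hr : (MonoidHom.noncommCoprod A.subtype B.subtype hcomm).range = A ⊔ B := by
    rw [MonoidHom.noncommCoprod_range, Subgroup.range_subtype, Subgroup.range_subtype]
  rw [← hr] at hx
  obtain ⟨⟨a, b⟩, rfl⟩ := hx
  exact ⟨a, a.2, b, b.2, rfl⟩

theorem proj {O : Type*} [Group O] (A B : Subgroup O) (hAB : A ⊓ B = ⊥) (hc : ∀ a ∈ A, ∀ b ∈ B, a * b = b * a) :
    ∃ (φA : ↥(A ⊔ B) →* A) (φB : ↥(A ⊔ B) →* B), ∀ (a : A) (b : B) (h : (a : O) * (b : O) ∈ A ⊔ B),
      φA ⟨(a : O) * b, h⟩ = a ∧ φB ⟨(a : O) * b, h⟩ = b := by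
  have hcomm : ∀ (a : A) (b : B), Commute (A.subtype a) (B.subtype b) := fun a b => hc a a.2 b b.2
  have hr : (MonoidHom.noncommCoprod A.subtype B.subtype hcomm).range = A ⊔ B := by
    rw [MonoidHom.noncommCoprod_range, Subgroup.range_subtype, Subgroup.range_subtype]
  have hinj : Function.Injective (MonoidHom.noncommCoprod A.subtype B.subtype hcomm) := by
    rw [injective_iff_map_eq_one]
    rintro ⟨a, b⟩ hab
    have h1 : (a : O) * (b : O) = 1 := hab
    have h2 : (a : O) = (b : O)⁻¹ := eq_inv_of_mul_eq_one_left h1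
    have h3 : (a : O) ∈ A ⊓ B := ⟨a.2, by rw [h2]; exact B.inv_mem b.2⟩
    rw [hAB, Subgroup.mem_bot] at h3
    have h4 : (b : O) = 1 := by rw [h3, one_mul] at h1; exact h1
    exact Prod.ext (Subtype.ext h3) (Subtype.ext h4)
  let E : A × B ≃* ↥(A ⊔ B) := (MonoidHom.ofInjective hinj).trans (MulEquiv.subgroupCongr hr)
  have hE : ∀ (a : A) (b : B) (h : (a : O) * (b : O) ∈ A ⊔ B), E (a, b) = ⟨(a : O) * b, h⟩ := by
    intro a b h
    apply Subtype.ext
    rfl
  refine ⟨(MonoidHom.fst A B).comp E.symm.toMonoidHom, (MonoidHom.snd A B).comp E.symm.toMonoidHom, ?_⟩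
  intro a b h
  rw [← hE a b h]
  simp

end Cfsg.Agent.Lib.H49SpXProj
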