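import Mathlib
import Cfsg.Agent.Lib.H49SoDefs
import Cfsg.Agent.Lib.H49SpDefs
import Cfsg.Agent.Lib.H49SpXDefs
import Cfsg.Agent.Lib.H49SpXProj
import Cfsg.Agent.Lib.H49SpXLe

set_option autoImplicit false

/-! Project 2548 (Steinberg character of `POmega+_{2m}(q)`), piece `XHom` (40m).

`ψ k = eA (φA ⟨k, XLe.comm_le _ hi k.2⟩)` (`XProj.proj`; `MonoidHom.comp` with `Subgroup.inclusion`).  Surjective: for `a ∈ A`, `k = ⁅a, g⁆ = a * (g a⁻¹ g⁻¹)` is in `commutator O` (`Subgroup.commutator_mem_commutator`, `commutator_def`), `g a⁻¹ g⁻¹ ∈ B` by `hg`, so `φA k = a`.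
Kernel: if `2 ∣ card ker` there is `k ∈ ker ψ` of order 2 (`exists_prime_orderOf_dvd_card`); `k = a b` (`XProj.exists_mul`), `φA k = a = 1`, so `k = b ∈ B` has order 2 and lies in `commutator O`: contradiction with `hinv`. -/

namespace Cfsg.Agent.Lib.H49SpXHom

open Matrix Cfsg.Agent.Lib.H49SoDefs Cfsg.Agent.Lib.H49SpDefs Cfsg.Agent.Lib.H49SpXDefs
open Cfsg.Agent.Lib.H49SuDefs (Tri UT Dg Mon Tri_one Tri_mul UT_one UT_mul Dg_one Dg_mul Mon_one Mon_mul Mon_uniq sgm Inv CL)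
open Cfsg.Agent.Lib.H49SpXProj Cfsg.Agent.Lib.H49SpXLe

open scoped commutatorElement

variable {n : ℕ} {F : Type*} [Field F]

theorem exists_hom {O : Type*} [Group O] [Finite O] (A B : Subgroup O) (eA : A ≃* Equiv.Perm (Fin 3))
    (hAB : A ⊓ B = ⊥) (hc : ∀ a ∈ A, ∀ b ∈ B, a * b = b * a) (hi : (A ⊔ B).index = 2) (g : O)
    (hg : A.map (MulAut.conj g).toMonoidHom = B) (hinv : ∀ b ∈ B, orderOf b = 2 → b ∉ commutator O) :
    ∃ ψ : commutator O →* Equiv.Perm (Fin 3), Function.Surjective ψ ∧ ¬ 2 ∣ Nat.card ψ.ker := by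
  classical
  obtain ⟨φA, φB, hφ⟩ := proj A B hAB hc
  have hle : commutator O ≤ A ⊔ B := comm_le _ hi
  refine ⟨eA.toMonoidHom.comp (φA.comp (Subgroup.inclusion hle)), ?_, ?_⟩
  · intro σ
    obtain ⟨a, rfl⟩ := eA.surjective σ
    have hb : g * (a : O)⁻¹ * g⁻¹ ∈ B := by
      rw [← hg]
      exact ⟨(a : O)⁻¹, A.inv_mem a.2, by simp [MulAut.conj_apply]⟩
    have hk : (a : O) * (g * (a : O)⁻¹ * g⁻¹) ∈ commutator O := by
      have h1 : (a : O) * (g * (a : O)⁻¹ * g⁻¹) = ⁅(a : O), g⁆ := by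
        simp [commutatorElement_def, mul_assoc]
      rw [h1, commutator_def]
      exact Subgroup.commutator_mem_commutator (Subgroup.mem_top _) (Subgroup.mem_top _)
    refine ⟨⟨_, hk⟩, ?_⟩
    show eA (φA (Subgroup.inclusion hle ⟨_, hk⟩)) = eA a
    congr 1
    exact (hφ a ⟨_, hb⟩ (hle hk)).1
  · intro h2
    have : Fact (Nat.Prime 2) := ⟨Nat.prime_two⟩
    obtain ⟨k, hk⟩ := exists_prime_orderOf_dvd_card' 2 h2
    obtain ⟨a, ha, b, hb, hab⟩ := exists_mul A B hc (hle k.1.2)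
    have h3 : eA (φA (Subgroup.inclusion hle k.1)) = 1 := k.2
    rw [map_eq_one_iff _ eA.injective] at h3
    have key : ∀ (x : O) (hx : x ∈ A ⊔ B), x = a * b → φA ⟨x, hx⟩ = ⟨a, ha⟩ := by
      intro x hx e
      subst e
      exact (hφ ⟨a, ha⟩ ⟨b, hb⟩ hx).1
    have h5 : φA (Subgroup.inclusion hle k.1) = ⟨a, ha⟩ := key _ (hle k.1.2) hab
    rw [h3] at h5
    have ha1 : a = 1 := (congrArg Subtype.val h5).symm
    rw [ha1, one_mul] at hab
    have hord : orderOf b = 2 := by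
      rw [← hab, Subgroup.orderOf_coe, Subgroup.orderOf_coe, hk]
    apply hinv b hb hord
    rw [← hab]
    exact k.1.2

end Cfsg.Agent.Lib.H49SpXHom
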