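import Mathlib
import Cfsg.Agent.Lib.H49SoDefs
import Cfsg.Agent.Lib.H49SpDefs
import Cfsg.Agent.Lib.H49SpXDefs
import Cfsg.Agent.Lib.Helper82Quot

set_option autoImplicit false

/-! Project 2548 (Steinberg character of `POmega+_{2m}(q)`), piece `XInfl`. -/

namespace Cfsg.Agent.Lib.H49SpXInfl

open Matrix Cfsg.Agent.Lib.H49SoDefs Cfsg.Agent.Lib.H49SpDefs Cfsg.Agent.Lib.H49SpXDefs
open Cfsg.Agent.Lib.H49SuDefs (Tri UT Dg Mon Tri_one Tri_mul UT_one UT_mul Dg_one Dg_mul Mon_one Mon_mul Mon_uniq sgm Inv CL)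

variable {n : ℕ} {F : Type*} [Field F]

theorem infl {X H : Type*} [Group X] [Group H] [Finite X] (f : X →* H) (hs : Function.Surjective f) (p : ℕ) [Fact p.Prime]
    (hk : ¬ p ∣ Nat.card f.ker) (h : StP p H) : StP p X := by
  obtain ⟨ψ, hψ, hQ⟩ := h
  refine ⟨ψ ∘ f, Cfsg.Agent.Lib.Helper82Quot.isIrrCharacter_comp hψ f hs, fun Q => ?_⟩
  have hfin : Finite H := Finite.of_surjective f hs
  have hQ' : ((Q.mapSurjective hs : Sylow p H) : Subgroup H) = (Q : Subgroup X).map f :=
    Sylow.coe_mapSurjective hs Q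
  have hinj : ∀ x ∈ Q, f x = 1 → x = 1 := by
    intro x hx hfx
    obtain ⟨k, hk'⟩ := Q.2 ⟨x, hx⟩
    have h1 : x ^ p ^ k = 1 := by
      have := congrArg Subtype.val hk'
      simpa using this
    have h2 : orderOf x ∣ p ^ k := orderOf_dvd_of_pow_eq_one h1
    have h3 : orderOf x ∣ Nat.card f.ker := by
      have := orderOf_dvd_natCard (⟨x, hfx⟩ : f.ker)
      rwa [← Subgroup.orderOf_coe] at this
    have hcop : Nat.Coprime (p ^ k) (Nat.card f.ker) :=
      Nat.Coprime.pow_left k ((Nat.Prime.coprime_iff_not_dvd Fact.out).2 hk)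
    have h4 : orderOf x = 1 := Nat.eq_one_of_dvd_coprimes hcop h2 h3
    exact orderOf_eq_one_iff.1 h4
  have hinj' : Function.Injective (f.comp (Q : Subgroup X).subtype) := by
    rw [injective_iff_map_eq_one]
    intro x hx
    exact Subtype.ext (hinj x x.2 hx)
  have hrange : (f.comp (Q : Subgroup X).subtype).range = (Q : Subgroup X).map f := by
    rw [MonoidHom.range_comp, Subgroup.range_subtype]
  have hcard : Nat.card (Q.mapSurjective hs : Sylow p H) = Nat.card Q := by
    have e := MonoidHom.ofInjective hinj'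
    have h1 : Nat.card (Q : Subgroup X) = Nat.card (f.comp (Q : Subgroup X).subtype).range :=
      Nat.card_congr e.toEquiv
    have h2 : Nat.card ((Q.mapSurjective hs : Sylow p H) : Subgroup H)
        = Nat.card (f.comp (Q : Subgroup X).subtype).range := by rw [hQ', hrange]
    exact h2.trans h1.symm
  obtain ⟨g1, g2⟩ := hQ (Q.mapSurjective hs)
  constructor
  · show ψ (f 1) = _
    rw [map_one, g1, hcard]
  · intro x hx hx1
    show ψ (f x) = 0
    apply g2
    · show f x ∈ ((Q.mapSurjective hs : Sylow p H) : Subgroup H)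
      rw [hQ']
      exact ⟨x, hx, rfl⟩
    · intro hfx
      exact hx1 (hinj x hx hfx)

end Cfsg.Agent.Lib.H49SpXInfl
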