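import Mathlib
import Cfsg.Agent.Lib.H49SoDefs
import Cfsg.Agent.Lib.H49SpDefs
import Cfsg.Agent.Lib.H49SpXDefs
import Cfsg.Agent.Lib.H49SpXProj
import Cfsg.Agent.Lib.H49SpXLe

set_option autoImplicit false

/-! Project 2548 (Steinberg character of `POmega+_{2m}(q)`), piece `XInvA` (50m).

THE CRUX of the exceptional case `O = O₄⁺(2) = S₃ wr 2` (RACE: pieces XInvA and XInvB have the same statement; use any method).  Method 1: `D = A ⊔ B`, `ε : D →* ℤˣ`, `ε x = sign (eA (φA x)) * sign (eB (φB x))` (`XProj.proj`).  `ε (y x y⁻¹) = ε x` for all `y : O`, `x ∈ D` (`D` is normal): clear for `y ∈ D` (`ℤˣ` commutative); for `y = g`: `g a g⁻¹ ∈ B`, `g b g⁻¹ ∈ A` (`b = g a' g⁻¹`, `g² ∈ D` by `Subgroup.sq_mem_of_index_two`.., `D` normalizes `A`),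
and `sign σ = -1 ↔ orderOf σ = 2` on `Perm (Fin 3)` (`decide`), orders are preserved by isomorphisms and conjugation; every `y ∉ D` is `g d` (index 2).  Then every commutator `⁅x, y⁆` lies in `D` with `ε = 1`: if `x ∈ D`: `x (y x⁻¹ y⁻¹)`; if `y ∈ D`: `(x y x⁻¹) y⁻¹`; if both are outside: `y = x z`, `z ∈ D`, `⁅x, x z⁆ = x ⁅x, z⁆ x⁻¹`.  So `commutator O ≤ (ker ε).map D.subtype`, while `ε b = sign (eB b) = -1`.
Method 2: `P₃ = ` the normal Sylow 3-subgroup; `O ⧸ P₃` has order 8, so its commutator subgroup is central, and the image of `b` is not central.  Method 3: transfer `MonoidHom.transfer` of `x ↦ sign (eB (φB x))`. -/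

namespace Cfsg.Agent.Lib.H49SpXInvA

open Matrix Cfsg.Agent.Lib.H49SoDefs Cfsg.Agent.Lib.H49SpDefs Cfsg.Agent.Lib.H49SpXDefs
open Cfsg.Agent.Lib.H49SuDefs (Tri UT Dg Mon Tri_one Tri_mul UT_one UT_mul Dg_one Dg_mul Mon_one Mon_mul Mon_uniq sgm Inv CL)
open Cfsg.Agent.Lib.H49SpXProj Cfsg.Agent.Lib.H49SpXLe

variable {n : ℕ} {F : Type*} [Field F]

open scoped commutatorElement

theorem sign_of_inv : ∀ σ : Equiv.Perm (Fin 3), σ ≠ 1 → σ * σ = 1 → Equiv.Perm.sign σ = -1 := by decide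

theorem not_mem {O : Type*} [Group O] [Finite O] (A B : Subgroup O) (eA : A ≃* Equiv.Perm (Fin 3)) (eB : B ≃* Equiv.Perm (Fin 3))
    (hAB : A ⊓ B = ⊥) (hc : ∀ a ∈ A, ∀ b ∈ B, a * b = b * a) (hi : (A ⊔ B).index = 2) (g : O)
    (hg : A.map (MulAut.conj g).toMonoidHom = B) (b : O) (hb : b ∈ B) (h2 : orderOf b = 2) : b ∉ commutator O := by
  haveI hDn : (A ⊔ B).Normal := Subgroup.normal_of_index_eq_two hi
  obtain ⟨φA, φB, hφ⟩ := proj A B hAB hc
  let ϕ : ↥(A ⊔ B) →* ℤˣ := (Equiv.Perm.sign.comp eB.toMonoidHom).comp φB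
  let cN : O →* MulAut ↥(A ⊔ B) := MulAut.conjNormal
  have hcN : ∀ (y : O) (x : ↥(A ⊔ B)), ((cN y x : ↥(A ⊔ B)) : O) = y * x * y⁻¹ :=
    fun y x => MulAut.conjNormal_apply y x
  let ε : ↥(A ⊔ B) →* ℤˣ := ϕ * ϕ.comp (cN g⁻¹).toMonoidHom
  have hε : ∀ x, ε x = ϕ x * ϕ (cN g⁻¹ x) := fun x => rfl
  have L1 : ∀ (ψ : ↥(A ⊔ B) →* ℤˣ) (y : O) (hy : y ∈ A ⊔ B) (x : ↥(A ⊔ B)), ψ (cN y x) = ψ x := by
    intro ψ y hy x
    have e : cN y x = ⟨y, hy⟩ * x * ⟨y, hy⟩⁻¹ := Subtype.ext (hcN y x)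
    rw [e, map_mul, map_mul, map_inv, mul_comm (ψ ⟨y, hy⟩), mul_inv_cancel_right]
  obtain ⟨a, ha, hab⟩ : ∃ a ∈ A, g * a * g⁻¹ = b := by
    rw [← hg] at hb
    obtain ⟨a, ha, h⟩ := hb
    exact ⟨a, ha, h⟩
  have hb1 : b ≠ 1 := by
    rintro rfl
    rw [orderOf_one] at h2
    exact absurd h2 (by norm_num)
  have hgD : g ∉ A ⊔ B := by
    intro hgD
    obtain ⟨a₁, ha₁, b₁, hb₁, rfl⟩ := exists_mul A B hc hgD
    have h1 : b ∈ A := by
      rw [← hab]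
      have e : a₁ * b₁ * a * (a₁ * b₁)⁻¹ = a₁ * (b₁ * a) * b₁⁻¹ * a₁⁻¹ := by group
      rw [e, ← hc a ha b₁ hb₁]
      have e2 : a₁ * (a * b₁) * b₁⁻¹ * a₁⁻¹ = a₁ * a * a₁⁻¹ := by group
      rw [e2]
      exact A.mul_mem (A.mul_mem ha₁ ha) (A.inv_mem ha₁)
    have h3 : b ∈ A ⊓ B := ⟨h1, hb⟩
    rw [hAB, Subgroup.mem_bot] at h3
    exact hb1 h3
  have hgg : g * g ∈ A ⊔ B := Subgroup.mul_self_mem_of_index_two hi g
  have Lg : ∀ x, ε (cN g x) = ε x := by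
    intro x
    rw [hε, hε]
    have e1 : cN g⁻¹ (cN g x) = x := by
      rw [← MulAut.mul_apply, ← map_mul, inv_mul_cancel, map_one, MulAut.one_apply]
    have e2 : cN g x = cN (g * g) (cN g⁻¹ x) := by
      rw [← MulAut.mul_apply, ← map_mul, mul_assoc, mul_inv_cancel, mul_one]
    rw [e1, e2, L1 ϕ _ hgg, mul_comm]
  have Lall : ∀ (y : O) x, ε (cN y x) = ε x := by
    intro y x
    by_cases hy : y ∈ A ⊔ B
    · exact L1 ε y hy x
    · have hd : g⁻¹ * y ∈ A ⊔ B := by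
        rw [Subgroup.mul_mem_iff_of_index_two hi, Subgroup.inv_mem_iff]
        exact ⟨fun h => absurd h hgD, fun h => absurd h hy⟩
      have e : cN y x = cN g (cN (g⁻¹ * y) x) := by
        rw [← MulAut.mul_apply, ← map_mul, mul_inv_cancel_left]
      rw [e, Lg, L1 ε _ hd]
  haveI hKn : (ε.ker.map (A ⊔ B).subtype).Normal := by
    constructor
    rintro _ ⟨x, hx, rfl⟩ y
    refine ⟨cN y x, ?_, hcN y x⟩
    have hx' : ε x = 1 := hx
    show ε (cN y x) = 1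
    rw [Lall, hx']
  have hbD : b ∈ A ⊔ B := (le_sup_right : B ≤ A ⊔ B) hb
  have haD : a ∈ A ⊔ B := (le_sup_left : A ≤ A ⊔ B) ha
  have hεb : ε ⟨b, hbD⟩ = -1 := by
    have e1 : φB ⟨b, hbD⟩ = ⟨b, hb⟩ := by
      have h := (hφ 1 ⟨b, hb⟩ (by simpa using hbD)).2
      have e : (⟨((1 : A) : O) * ((⟨b, hb⟩ : B) : O), by simpa using hbD⟩ : ↥(A ⊔ B)) = ⟨b, hbD⟩ :=
        Subtype.ext (by simp)
      rw [e] at h
      exact h
    have e2 : φB (cN g⁻¹ ⟨b, hbD⟩) = 1 := by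
      have h := (hφ ⟨a, ha⟩ 1 (by simpa using haD)).2
      have e : (⟨((⟨a, ha⟩ : A) : O) * ((1 : B) : O), by simpa using haD⟩ : ↥(A ⊔ B)) = cN g⁻¹ ⟨b, hbD⟩ :=
        Subtype.ext (by
          rw [hcN]
          show a * 1 = g⁻¹ * b * g⁻¹⁻¹
          rw [← hab]
          group)
      rw [e] at h
      exact h
    rw [hε]
    show Equiv.Perm.sign (eB (φB ⟨b, hbD⟩)) * Equiv.Perm.sign (eB (φB (cN g⁻¹ ⟨b, hbD⟩))) = -1
    rw [e1, e2, map_one, map_one, mul_one]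
    apply sign_of_inv
    · intro h
      have h3 := eB.injective (h.trans (map_one eB).symm)
      exact hb1 (congrArg Subtype.val h3)
    · rw [← map_mul]
      have h3 : (⟨b, hb⟩ : B) * ⟨b, hb⟩ = 1 := Subtype.ext (by
        show b * b = 1
        rw [← pow_two, ← h2, pow_orderOf_eq_one])
      rw [h3, map_one]
  have hidx : (ε.ker.map (A ⊔ B).subtype).index = 4 := by
    rw [Subgroup.index_map_subtype, hi, Subgroup.index_ker]
    have hr : ε.range = ⊤ := by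
      rw [eq_top_iff]
      intro u _
      rcases Int.units_eq_one_or u with rfl | rfl
      · exact one_mem _
      · exact ⟨_, hεb⟩
    rw [hr, Subgroup.card_top]
    simp
  have hcard : Nat.card (O ⧸ (ε.ker.map (A ⊔ B).subtype)) = 2 ^ 2 := by
    rw [← Subgroup.index_eq_card, hidx]
    norm_num
  haveI : Fact (Nat.Prime 2) := ⟨Nat.prime_two⟩
  have hcomm := IsPGroup.commutative_of_card_eq_prime_sq hcard
  have hle : commutator O ≤ ε.ker.map (A ⊔ B).subtype := by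
    rw [commutator_def, Subgroup.commutator_le]
    intro x _ y _
    rw [← QuotientGroup.eq_one_iff]
    have h3 := map_commutatorElement (QuotientGroup.mk' (ε.ker.map (A ⊔ B).subtype)) x y
    have h4 : ⁅(QuotientGroup.mk' (ε.ker.map (A ⊔ B).subtype)) x, (QuotientGroup.mk' (ε.ker.map (A ⊔ B).subtype)) y⁆ = 1 :=
      commutatorElement_eq_one_iff_mul_comm.mpr (hcomm _ _)
    rw [h4] at h3
    exact h3
  intro hbc
  obtain ⟨x, hx, hxb⟩ := hle hbc
  have hx2 : x = ⟨b, hbD⟩ := Subtype.ext hxb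
  have hx' : ε x = 1 := hx
  rw [hx2, hεb] at hx'
  exact absurd hx' (by decide)

end Cfsg.Agent.Lib.H49SpXInvA
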