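import Mathlib
import Cfsg.Agent.Lib.H49SoDefs
import Cfsg.Agent.Lib.H49SpDefs
import Cfsg.Agent.Lib.H49SpXDefs

set_option autoImplicit false

/-! Project 2548 (Steinberg character of `POmega+_{2m}(q)`), piece `XQuot`. -/

namespace Cfsg.Agent.Lib.H49SpXQuot

open Matrix Cfsg.Agent.Lib.H49SoDefs Cfsg.Agent.Lib.H49SpDefs Cfsg.Agent.Lib.H49SpXDefs
open Cfsg.Agent.Lib.H49SuDefs (Tri UT Dg Mon Tri_one Tri_mul UT_one UT_mul Dg_one Dg_mul Mon_one Mon_mul Mon_uniq sgm Inv CL)

variable {n : ℕ} {F : Type*} [Field F]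

theorem quot {K H : Type*} [Group K] [Group H] [Finite K] (ψ : K →* H) (hs : Function.Surjective ψ) (p : ℕ)
    (hk : ¬ p ∣ Nat.card ψ.ker) (hZ : Subgroup.center H = ⊥) :
    ∃ f : K ⧸ Subgroup.center K →* H ⧸ Subgroup.center H, Function.Surjective f ∧ ¬ p ∣ Nat.card f.ker := by
  have h : Subgroup.center K ≤ (Subgroup.center H).comap ψ := by
    intro z hz
    rw [Subgroup.mem_comap, Subgroup.mem_center_iff]
    intro y
    obtain ⟨k, rfl⟩ := hs y
    rw [← map_mul, ← map_mul, Subgroup.mem_center_iff.1 hz k]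
  refine ⟨QuotientGroup.map _ _ ψ h, ?_, ?_⟩
  · intro y
    obtain ⟨y', rfl⟩ := QuotientGroup.mk_surjective y
    obtain ⟨k, rfl⟩ := hs y'
    exact ⟨QuotientGroup.mk k, rfl⟩
  · have hker : (QuotientGroup.map _ _ ψ h).ker
        = ψ.ker.map (QuotientGroup.mk' (Subgroup.center K)) := by
      ext x
      obtain ⟨k, rfl⟩ := QuotientGroup.mk_surjective x
      rw [MonoidHom.mem_ker, QuotientGroup.map_mk, QuotientGroup.eq_one_iff, hZ, Subgroup.mem_bot]
      constructor
      · intro hk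
        exact ⟨k, hk, rfl⟩
      · rintro ⟨k', hk', hkk'⟩
        have h1 : k'⁻¹ * k ∈ Subgroup.center K := QuotientGroup.eq.1 hkk'
        have h2 := h h1
        rw [Subgroup.mem_comap, hZ, Subgroup.mem_bot, map_mul, map_inv,
          MonoidHom.mem_ker.1 hk'] at h2
        simpa using h2
    rw [hker]
    intro hp
    exact hk (hp.trans (Subgroup.card_map_dvd _ _))

end Cfsg.Agent.Lib.H49SpXQuot
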