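import Mathlib
import Cfsg.Agent.Lib.H49SoDefs
import Cfsg.Agent.Lib.H49SpDefs
import Cfsg.Agent.Lib.H49SpXDefs
import Cfsg.Agent.Lib.H49SgGen

set_option autoImplicit false

/-! Project 2548 (Steinberg character of `POmega+_{2m}(q)`), piece `XS3`.

The Steinberg character of `S₃ = SL₂(2)`, from the BN-pair `B = {1, (0 1)}`, `N = {1, (1 2)}`. -/

namespace Cfsg.Agent.Lib.H49SpXS3

open Matrix Cfsg.Agent.Lib.H49SoDefs Cfsg.Agent.Lib.H49SpDefs Cfsg.Agent.Lib.H49SpXDefs
open Cfsg.Agent.Lib.H49SuDefs (Tri UT Dg Mon Tri_one Tri_mul UT_one UT_mul Dg_one Dg_mul Mon_one Mon_mul Mon_uniq sgm Inv CL)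

variable {n : ℕ} {F : Type*} [Field F]

/-- the transposition `(0 1)` -/
def sa : Equiv.Perm (Fin 3) := Equiv.swap 0 1

/-- the transposition `(1 2)` -/
def sb : Equiv.Perm (Fin 3) := Equiv.swap 1 2

/-- the subgroup `{1, t}` for an involution `t` -/
def two (t : Equiv.Perm (Fin 3)) (ht : t * t = 1) : Subgroup (Equiv.Perm (Fin 3)) where
  carrier := {g | g = 1 ∨ g = t}
  one_mem' := Or.inl rfl
  mul_mem' := by
    rintro a b (rfl | rfl) (rfl | rfl)
    · left; simp
    · right; simp
    · right; simp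
    · left; exact ht
  inv_mem' := by
    rintro a (rfl | rfl)
    · left; simp
    · right; exact inv_eq_of_mul_eq_one_left ht

theorem sa_sq : sa * sa = 1 := by decide
theorem sb_sq : sb * sb = 1 := by decide

theorem mem_two {t : Equiv.Perm (Fin 3)} {ht : t * t = 1} {g : Equiv.Perm (Fin 3)} :
    g ∈ two t ht ↔ g = 1 ∨ g = t := Iff.rfl

theorem all_elts : ∀ g : Equiv.Perm (Fin 3), g = 1 ∨ g = sa ∨ g = sb ∨ g = sa * sb ∨ g = sb * sa ∨
    g = sa * sb * sa := by decide

/-- the BN-pair of `S₃` -/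
def bn : Cfsg.BNPair (Equiv.Perm (Fin 3)) where
  B := two sa sa_sq
  N := two sb sb_sq
  S := {sb}
  sup_eq_top := by
    rw [eq_top_iff]
    intro g _
    have ha : sa ∈ two sa sa_sq ⊔ two sb sb_sq := Subgroup.mem_sup_left (Or.inr rfl)
    have hb : sb ∈ two sa sa_sq ⊔ two sb sb_sq := Subgroup.mem_sup_right (Or.inr rfl)
    rcases all_elts g with rfl | rfl | rfl | rfl | rfl | rfl
    · exact Subgroup.one_mem _
    · exact ha
    · exact hb
    · exact Subgroup.mul_mem _ ha hb
    · exact Subgroup.mul_mem _ hb ha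
    · exact Subgroup.mul_mem _ (Subgroup.mul_mem _ ha hb) ha
  conj_mem := by
    intro n _ t ht
    obtain ⟨h1, h2⟩ := Subgroup.mem_inf.1 ht
    have ht1 : t = 1 := by
      rcases h1 with rfl | rfl
      · rfl
      · rcases h2 with h | h
        · exact h
        · exact absurd h (by decide)
    rw [ht1]
    left
    simp
  subset := by
    rintro s rfl
    exact Or.inr rfl
  sq_mem := by
    rintro s rfl
    exact Or.inl sb_sq
  inj := by
    rintro s rfl s' rfl _
    rfl
  closure_sup := by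
    apply le_antisymm
    · refine sup_le ?_ inf_le_right
      rw [Subgroup.closure_le]
      rintro s rfl
      exact Or.inr rfl
    · rintro g (rfl | rfl)
      · exact Subgroup.one_mem _
      · exact Subgroup.mem_sup_left (Subgroup.subset_closure rfl)
  mul_mem_union := by
    rintro s rfl n (rfl | rfl) b (rfl | rfl)
    · left
      exact DoubleCoset.mem_doubleCoset.2 ⟨1, Or.inl rfl, 1, Or.inl rfl, by simp⟩
    · left
      exact DoubleCoset.mem_doubleCoset.2 ⟨1, Or.inl rfl, sa, Or.inr rfl, by simp⟩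
    · left
      exact DoubleCoset.mem_doubleCoset.2 ⟨1, Or.inl rfl, 1, Or.inl rfl, by simp⟩
    · right
      exact DoubleCoset.mem_doubleCoset.2 ⟨sa, Or.inr rfl, sa, Or.inr rfl, by decide⟩
  conj_ne := by
    rintro s rfl h
    have h1 : sb * sa * sb ∈ (fun b : Equiv.Perm (Fin 3) => sb * b * sb) ''
        ((two sa sa_sq : Subgroup _) : Set (Equiv.Perm (Fin 3))) := ⟨sa, Or.inr rfl, rfl⟩
    rw [h] at h1
    rcases h1 with h2 | h2
    · exact absurd h2 (by decide)
    · exact absurd h2 (by decide)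

theorem st_S3 : StP 2 (Equiv.Perm (Fin 3) ⧸ Subgroup.center (Equiv.Perm (Fin 3))) := by
  haveI : Fact (Nat.Prime 2) := ⟨Nat.prime_two⟩
  unfold StP
  refine Cfsg.Agent.Lib.H49SgGen.steinberg_of_bn bn (two sa sa_sq) ⊥ sb (Or.inr rfl) bot_le bot_le
    ?_ le_rfl ?_ ?_ ?_ 2 ?_ ?_
  · rintro β (rfl | rfl)
    · constructor
      · intro _
        left
        simp
      · intro _
        exact Subgroup.one_mem _
    · constructor
      · intro h
        exact absurd (Subgroup.mem_bot.1 h) (by decide)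
      · intro h
        rcases h with h | h
        · exact absurd h (by decide)
        · exact absurd h (by decide)
  · intro b hb u hu
    exact Subgroup.mul_mem _ (Subgroup.mul_mem _ hb hu) (Subgroup.inv_mem _ hb)
  · intro b hb
    exact ⟨b, hb, 1, Subgroup.one_mem _, by simp⟩
  · intro g _ hg
    exact Subgroup.mem_bot.1 hg
  · rintro ⟨g, hg⟩
    refine ⟨1, ?_⟩
    apply Subtype.ext
    rcases hg with rfl | rfl
    · simp
    · simp only [pow_one, Subgroup.coe_pow, Subgroup.coe_one]
      rw [pow_two]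
      exact sa_sq
  · rw [Subgroup.card_bot]
    norm_num

end Cfsg.Agent.Lib.H49SpXS3
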