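import Mathlib
import Cfsg.Agent.Lib.H49SpXDefs
import Cfsg.Agent.Lib.H49SuTransport
import Cfsg.Agent.Lib.H49SoIsoC
import Cfsg.Agent.Lib.H49SpXInfl
import Cfsg.Agent.Lib.H49SpXQuot
import Cfsg.Agent.Lib.H49SpXS3
import Cfsg.Agent.Lib.H49SpXInvA
import Cfsg.Agent.Lib.H49SpXHom
import Cfsg.Agent.Lib.H49SpXField
import Cfsg.Agent.S2566

set_option autoImplicit false

/-! Project 2548: the exceptional case `PΩ⁺₄(2)`. -/

namespace Cfsg.Agent.Lib.H49SpXHub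

open Cfsg.Agent.Lib.H49SpXDefs

theorem exc {F : Type*} [Field F] [Fintype F] (hF : Fintype.card F = 2) (p : ℕ) [Fact p.Prime] [CharP F p] :
    ∃ χ : Cfsg.POmega F (Cfsg.quadFormPlus 2 F) → ℂ, Cfsg.IsIrrCharacter (Cfsg.POmega F (Cfsg.quadFormPlus 2 F)) χ ∧
      ∀ P : Sylow p (Cfsg.POmega F (Cfsg.quadFormPlus 2 F)), χ 1 = Nat.card P ∧
        ∀ x : Cfsg.POmega F (Cfsg.quadFormPlus 2 F), x ∈ P → x ≠ 1 → χ x = 0 := by
  have hp : p = 2 := H49SpXField.two hF p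
  subst hp
  obtain ⟨e⟩ := H49SpXField.iso hF
  obtain ⟨e'⟩ := H49SoIsoC.commEquiv e
  refine H49SuTransport.transport e' 2 ?_
  obtain ⟨hcard, A, B, ⟨eA⟩, ⟨eB⟩, hAB, hc, hi, g, hg⟩ := Cfsg.Agent.S2566.result
  have hfin : Finite ↥(Cfsg.isometryGroup (ZMod 2) (Cfsg.quadFormPlus 2 (ZMod 2))) :=
    Nat.finite_of_card_ne_zero (by rw [hcard]; norm_num)
  obtain ⟨ψ, hs, hk⟩ := H49SpXHom.exists_hom A B eA hAB hc hi g hg
    (fun b hb h2 => H49SpXInvA.not_mem A B eA eB hAB hc hi g hg b hb h2)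
  have hZ : Subgroup.center (Equiv.Perm (Fin 3)) = ⊥ := by
    rw [eq_bot_iff]
    intro z hz
    rw [Subgroup.mem_center_iff] at hz
    rw [Subgroup.mem_bot]
    revert z
    decide
  obtain ⟨f, hfs, hfk⟩ := H49SpXQuot.quot ψ hs 2 hk hZ
  exact H49SpXInfl.infl f hfs 2 hfk H49SpXS3.st_S3

end Cfsg.Agent.Lib.H49SpXHub
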