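import Mathlib
import Cfsg.Agent.Lib.H49SuDefs
import Cfsg.Agent.Lib.H49SuSig
import Cfsg.Agent.Lib.H49SuStar

set_option autoImplicit false

/-! Project 2546 (Steinberg character of `PSU_n(q)`), piece `Inv` (20m).

Put `K a b = (mt h (rev b) (rev a)) ^ q`.  By `star` (columns `b`, `rev a`; reindex the sum by `Fin.rev`/commute the product), `(K * mt h) a b = [a = b]`, so `K = (mt h)⁻¹ = mt h⁻¹`
(`mt h⁻¹ * mt h = mt (h⁻¹ * h) = 1`; `Matrix.inv_eq_left_inv` or multiply `K * mt h = 1` on the right by `mt h⁻¹`). -/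

namespace Cfsg.Agent.Lib.H49SuInv

open Matrix Cfsg.Agent.Lib.H49SuDefs
open Cfsg.Agent.Lib.H49SuSig Cfsg.Agent.Lib.H49SuStar

variable {n : ℕ} {F : Type*} [Field F] {q : ℕ}

theorem inv_apply [Fintype F] (hF : Fintype.card F = q ^ 2) (h : GA n F q) (a b : Fin n) :
    mt h⁻¹ a b = (mt h (Fin.rev b) (Fin.rev a)) ^ q := by
  obtain ⟨K, hK⟩ : ∃ K : Matrix (Fin n) (Fin n) F, K = Matrix.of fun a b => (mt h (Fin.rev b) (Fin.rev a)) ^ q :=
    ⟨_, rfl⟩
  have h1 : K * mt h = 1 := by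
    ext a b
    rw [Matrix.mul_apply, hK]
    simp only [Matrix.of_apply]
    have h2 := star hF h b (Fin.rev a)
    rw [Matrix.one_apply]
    have h3 : (Fin.rev a = Fin.rev b) ↔ a = b := Fin.rev_inj
    simp only [h3] at h2
    rw [← h2]
    exact Finset.sum_congr rfl (fun i _ => mul_comm _ _)
  have h2 : mt h * mt h⁻¹ = 1 := by rw [← mt_mul, mul_inv_cancel, mt_one]
  have h3 : K = mt h⁻¹ := by
    calc K = K * (mt h * mt h⁻¹) := by rw [h2, mul_one]
      _ = mt h⁻¹ := by rw [← mul_assoc, h1, one_mul]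
  rw [← h3, hK]
  rfl

end Cfsg.Agent.Lib.H49SuInv
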