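import Mathlib
import Cfsg.Agent.Lib.H49SuDefs
import Cfsg.Agent.Lib.H49SuSig
import Cfsg.Agent.Lib.H49SuStar
import Cfsg.Agent.Lib.H49SuInv
import Cfsg.Agent.Lib.H49SuMonB

set_option autoImplicit false

/-! Project 2546 (Steinberg character of `PSU_n(q)`), piece `Mem` (20m).

COPY of the landed `H49SgMem`: the condition on the inverse is automatic by `inv_apply` (`Fin.rev_lt_rev`, `Fin.rev_rev`, `zero_pow`, `one_pow`), resp. `Mon_inv`. -/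

namespace Cfsg.Agent.Lib.H49SuMem

open Matrix Cfsg.Agent.Lib.H49SuDefs
open Cfsg.Agent.Lib.H49SuSig Cfsg.Agent.Lib.H49SuStar Cfsg.Agent.Lib.H49SuInv Cfsg.Agent.Lib.H49SuMonB

variable {n : ℕ} {F : Type*} [Field F] {q : ℕ}

theorem Tri_inv [Fintype F] (hF : Fintype.card F = q ^ 2) {g : GA n F q} (h : Tri (mt g)) : Tri (mt g⁻¹) := by
  intro a b hab
  rw [inv_apply hF, h (Fin.rev b) (Fin.rev a) (Fin.rev_lt_rev.2 hab), zero_pow (q_pos hF).ne']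

theorem mem_BB [Fintype F] (hF : Fintype.card F = q ^ 2) {g : GA n F q} : g ∈ BB n F q ↔ Tri (mt g) :=
  ⟨fun h => h.1, fun h => ⟨h, Tri_inv hF h⟩⟩

theorem mem_TT [Fintype F] (hF : Fintype.card F = q ^ 2) {g : GA n F q} : g ∈ TT n F q ↔ Dg (mt g) := by
  refine ⟨fun h => h.1, fun h => ⟨h, ?_⟩⟩
  intro a b hab
  rw [inv_apply hF, h (Fin.rev b) (Fin.rev a) (fun e => hab (Fin.rev_inj.1 e).symm),
    zero_pow (q_pos hF).ne']

theorem mem_UU [Fintype F] (hF : Fintype.card F = q ^ 2) {g : GA n F q} : g ∈ UU n F q ↔ UT (mt g) := by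
  refine ⟨fun h => h.1, fun h => ⟨h, Tri_inv hF h.1, ?_⟩⟩
  intro a
  rw [inv_apply hF, h.2 (Fin.rev a), one_pow]

theorem mem_NN {g : GA n F q} : g ∈ NN n F q ↔ ∃ π, Mon π (mt g) := by
  refine ⟨fun h => h.1, fun h => ⟨h, ?_⟩⟩
  obtain ⟨π, hπ⟩ := h
  exact ⟨π⁻¹, Mon_inv hπ⟩

end Cfsg.Agent.Lib.H49SuMem
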