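import Mathlib
import Cfsg.Agent.Lib.H49SuDefs
import Cfsg.Agent.Lib.H49SuSig
import Cfsg.Agent.Lib.H49SuStar
import Cfsg.Agent.Lib.H49SuInv
import Cfsg.Agent.Lib.H49SuMonB
import Cfsg.Agent.Lib.H49SuMem

set_option autoImplicit false

/-! Project 2546 (Steinberg character of `PSU_n(q)`), piece `A2` (20m).

`mem_BB` and `conj_zero hs`: with `σ = sgm n k` one must show `mt c x y = 0` whenever `σ y < σ x`.  If `y < x`: `Tri`.  `x = y` is impossible.  If `x < y` then `Inv n k x y` by definition: `h0`. -/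

namespace Cfsg.Agent.Lib.H49SuA2

open Matrix Cfsg.Agent.Lib.H49SuDefs
open Cfsg.Agent.Lib.H49SuSig Cfsg.Agent.Lib.H49SuStar Cfsg.Agent.Lib.H49SuInv Cfsg.Agent.Lib.H49SuMonB Cfsg.Agent.Lib.H49SuMem

variable {n : ℕ} {F : Type*} [Field F] {q : ℕ}

theorem conj_mem_BB [Fintype F] (hF : Fintype.card F = q ^ 2) {k : ℕ} {s : GA n F q} (hs : Mon (sgm n k) (mt s))
    {c : GA n F q} (hc : c ∈ BB n F q) (h0 : ∀ a b, Inv n k a b → mt c a b = 0) : s * c * s⁻¹ ∈ BB n F q := by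
  rw [mem_BB hF]
  intro x y hxy
  have hcT : Tri (mt c) := (mem_BB hF).1 hc
  obtain ⟨x', hx'⟩ : ∃ x', x' = (sgm n k)⁻¹ x := ⟨_, rfl⟩
  obtain ⟨y', hy'⟩ : ∃ y', y' = (sgm n k)⁻¹ y := ⟨_, rfl⟩
  have ex : x = sgm n k x' := by rw [hx']; simp
  have ey : y = sgm n k y' := by rw [hy']; simp
  have key : mt c x' y' = 0 := by
    rcases lt_trichotomy y' x' with h1 | h1 | h1
    · exact hcT x' y' h1
    · exfalso
      rw [ex, ey, h1] at hxy
      exact lt_irrefl _ hxy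
    · apply h0
      refine ⟨h1, ?_⟩
      rw [← ex, ← ey]; exact hxy
  rw [ex, ey]
  exact (conj_zero hs c x' y').2 key

end Cfsg.Agent.Lib.H49SuA2
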