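import Mathlib
import Cfsg.Agent.Lib.H49SuDefs
import Cfsg.Agent.Lib.H49SuSig
import Cfsg.Agent.Lib.H49SuStar
import Cfsg.Agent.Lib.H49SuInv
import Cfsg.Agent.Lib.H49SuMonB
import Cfsg.Agent.Lib.H49SuMem

set_option autoImplicit false

/-! Project 2546 (Steinberg character of `PSU_n(q)`), piece `B1` (20m).

`mem_BB` and `conj_zero h`: if `π b < π a` and `mt x a b ≠ 0` then `a ≠ b`, so `Inv n k a b` (definition of `XX`), so `π a < π b`: contradiction.  Same for `YY`.  `XX_le`: take the definition, `Inv n k a b → a < b`. -/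

namespace Cfsg.Agent.Lib.H49SuB1

open Matrix Cfsg.Agent.Lib.H49SuDefs
open Cfsg.Agent.Lib.H49SuSig Cfsg.Agent.Lib.H49SuStar Cfsg.Agent.Lib.H49SuInv Cfsg.Agent.Lib.H49SuMonB Cfsg.Agent.Lib.H49SuMem

variable {n : ℕ} {F : Type*} [Field F] {q : ℕ}

theorem conj_XX [Fintype F] (hF : Fintype.card F = q ^ 2) {g : GA n F q} {π : Equiv.Perm (Fin n)} (h : Mon π (mt g))
    {k : ℕ} (hlt : ∀ a b, Inv n k a b → π a < π b) {x : GA n F q} (hx : x ∈ XX n F q k) :
    g * x * g⁻¹ ∈ BB n F q := by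
  rw [mem_BB hF]
  intro a b hab
  have key : mt x (π⁻¹ a) (π⁻¹ b) = 0 := by
    by_contra h0
    have hne : π⁻¹ a ≠ π⁻¹ b := fun e => by
      rw [π⁻¹.injective e] at hab; exact lt_irrefl _ hab
    have h1 := hlt _ _ (hx.2 _ _ hne h0)
    rw [perm_apply_inv, perm_apply_inv] at h1
    exact lt_asymm h1 hab
  have h1 := (conj_zero h x (π⁻¹ a) (π⁻¹ b)).2 key
  rwa [perm_apply_inv, perm_apply_inv] at h1

theorem conj_YY [Fintype F] (hF : Fintype.card F = q ^ 2) {g : GA n F q} {π : Equiv.Perm (Fin n)} (h : Mon π (mt g))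
    {k : ℕ} (hlt : ∀ a b, Inv n k a b → π b < π a) {y : GA n F q} (hy : y ∈ YY n F q k) :
    g * y * g⁻¹ ∈ BB n F q := by
  rw [mem_BB hF]
  intro a b hab
  have key : mt y (π⁻¹ a) (π⁻¹ b) = 0 := by
    by_contra h0
    have hne : π⁻¹ a ≠ π⁻¹ b := fun e => by
      rw [π⁻¹.injective e] at hab; exact lt_irrefl _ hab
    have h1 := hlt _ _ (hy.2 _ _ hne h0)
    rw [perm_apply_inv, perm_apply_inv] at h1
    exact lt_asymm h1 hab
  have h1 := (conj_zero h y (π⁻¹ a) (π⁻¹ b)).2 key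
  rwa [perm_apply_inv, perm_apply_inv] at h1

theorem XX_le [Fintype F] (hF : Fintype.card F = q ^ 2) {k : ℕ} {x : GA n F q} (hx : x ∈ XX n F q k) :
    x ∈ BB n F q := by
  rw [mem_BB hF]
  intro a b hab
  by_contra h0
  exact lt_asymm hab (hx.2 a b (ne_of_gt hab) h0).1

end Cfsg.Agent.Lib.H49SuB1
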