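import Mathlib
import Cfsg.Agent.Lib.H49SuDefs

set_option autoImplicit false

/-! Project 2546 (Steinberg character of `PSU_n(q)`), piece `Diag` (15m).

COPY of the landed `H49SgDiag` (no unitarity needed: use `hg.1 : Tri (mt g)`, `hg.2 : Tri (mt g⁻¹)` from the definition of `BB`). -/

namespace Cfsg.Agent.Lib.H49SuDiag

open Matrix Cfsg.Agent.Lib.H49SuDefs

variable {n : ℕ} {F : Type*} [Field F] {q : ℕ}

theorem diag_mul {g h : GA n F q} (hg : g ∈ BB n F q) (hh : h ∈ BB n F q) (a : Fin n) :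
    mt (g * h) a a = mt g a a * mt h a a := by
  rw [mt_mul, Matrix.mul_apply]
  apply Finset.sum_eq_single
  · intro c _ hc
    rcases lt_or_gt_of_ne hc with h1 | h1
    · rw [hg.1 a c h1, zero_mul]
    · rw [hh.1 c a h1, mul_zero]
  · intro h; exact absurd (Finset.mem_univ _) h

theorem diag_mul_inv {g : GA n F q} (hg : g ∈ BB n F q) (a : Fin n) :
    mt g a a * mt g⁻¹ a a = 1 := by
  rw [← diag_mul hg ((BB n F q).inv_mem hg), mul_inv_cancel, mt_one]
  exact Matrix.one_apply_eq a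

theorem diag_ne_zero {g : GA n F q} (hg : g ∈ BB n F q) (a : Fin n) : mt g a a ≠ 0 := by
  intro h
  have := diag_mul_inv hg a
  rw [h, zero_mul] at this
  exact zero_ne_one this

theorem diag_inv {g : GA n F q} (hg : g ∈ BB n F q) (a : Fin n) : mt g⁻¹ a a = (mt g a a)⁻¹ :=
  eq_inv_of_mul_eq_one_right (diag_mul_inv hg a)

end Cfsg.Agent.Lib.H49SuDiag
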