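import Mathlib
import Cfsg.Agent.Lib.H49SuDefs
import Cfsg.Agent.Lib.H49SuSig
import Cfsg.Agent.Lib.H49SuStar
import Cfsg.Agent.Lib.H49SuInv
import Cfsg.Agent.Lib.H49SuMonB
import Cfsg.Agent.Lib.H49SuMem
import Cfsg.Agent.Lib.H49SuDiag

set_option autoImplicit false

/-! Project 2546 (Steinberg character of `PSU_n(q)`), piece `TN` (10m).

COPY of the landed `H49SgTN`. -/

namespace Cfsg.Agent.Lib.H49SuTN

open Matrix Cfsg.Agent.Lib.H49SuDefs
open Cfsg.Agent.Lib.H49SuSig Cfsg.Agent.Lib.H49SuStar Cfsg.Agent.Lib.H49SuInv Cfsg.Agent.Lib.H49SuMonB Cfsg.Agent.Lib.H49SuMem Cfsg.Agent.Lib.H49SuDiag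

variable {n : ℕ} {F : Type*} [Field F] {q : ℕ}

theorem Mon_one_iff [Fintype F] (hF : Fintype.card F = q ^ 2) {g : GA n F q} : Mon 1 (mt g) ↔ g ∈ TT n F q := by
  constructor
  · intro h
    rw [mem_TT hF]
    intro a b hab
    exact Mon_eq_zero h (by rwa [Equiv.Perm.one_apply])
  · intro h a b
    rw [Equiv.Perm.one_apply]
    constructor
    · intro h0
      by_contra hab
      exact h0 (h.1 a b hab)
    · rintro rfl
      exact diag_ne_zero (TT_le_BB h) a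

theorem TT_le_NN [Fintype F] (hF : Fintype.card F = q ^ 2) : TT n F q ≤ NN n F q :=
  fun _ h => mem_NN.2 ⟨1, (Mon_one_iff hF).2 h⟩

end Cfsg.Agent.Lib.H49SuTN
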