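import Mathlib
import Cfsg.Agent.Lib.H49SuDefs
import Cfsg.Agent.Lib.H49SuSig
import Cfsg.Agent.Lib.H49SuStar
import Cfsg.Agent.Lib.H49SuMonMk
import Cfsg.Agent.Lib.H49SuSgm
import Cfsg.Agent.Lib.H49SuInv
import Cfsg.Agent.Lib.H49SuMonB
import Cfsg.Agent.Lib.H49SuMem

set_option autoImplicit false

/-! Project 2546 (Steinberg character of `PSU_n(q)`), piece `Refl` (35m).

Representatives of the simple reflections by `monMk (sgm n k) (sgm_rev n k)`.  GL case (`sign = 1`): `d = 1` except `d = -1` at the indices `k` and `rev k`.  Odd case `2k+3 = n` (`sign = -1`): `d = 1` except `d (k+1) = -1`.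
Even case `2k+2 = n` (`sign = -1`): `d k = z`, `d (k+1) = -z⁻¹` with `z ≠ 0`, `z + z ^ q = 0` (`exists_trace_zero`), `d = 1` elsewhere.  (`Finset.prod_ite_eq`, `Finset.prod_eq_mul_of ..`/`Finset.prod_eq_single`; `neg_powq`.)
`Mon_sk`: unfold `sk`, `dif_pos`, `Exists.choose_spec`. -/

namespace Cfsg.Agent.Lib.H49SuRefl

open Matrix Cfsg.Agent.Lib.H49SuDefs
open Cfsg.Agent.Lib.H49SuSig Cfsg.Agent.Lib.H49SuStar Cfsg.Agent.Lib.H49SuMonMk Cfsg.Agent.Lib.H49SuSgm Cfsg.Agent.Lib.H49SuInv Cfsg.Agent.Lib.H49SuMonB Cfsg.Agent.Lib.H49SuMem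

variable {n : ℕ} {F : Type*} [Field F] {q : ℕ}

theorem exists_refl [Fintype F] (hF : Fintype.card F = q ^ 2) (k : ℕ) (hk : 2 * k + 2 ≤ n) :
    ∃ s : GA n F q, Mon (sgm n k) (mt s) := by
  have hq := q_pos hF
  rcases lt_trichotomy (2 * k + 3) n with h | h | h
  · obtain ⟨s, -, hs⟩ := monMk hF (sgm n k) (sgm_rev n k) (fun _ => 1) (by intro a; simp)
      (by rw [sign_gl h]; simp)
    exact ⟨s, hs⟩
  · let m : Fin n := ⟨k + 1, by omega⟩
    have hm : Fin.rev m = m := by
      apply Fin.ext
      simp only [Fin.val_rev, m]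
      omega
    have hm' : ∀ a : Fin n, Fin.rev a = m ↔ a = m := by
      intro a
      constructor
      · intro h1
        rw [← Fin.rev_rev a, h1, hm]
      · rintro rfl
        exact hm
    obtain ⟨s, -, hs⟩ := monMk hF (sgm n k) (sgm_rev n k) (fun a => if a = m then -1 else 1)
      (by
        intro a
        by_cases ha : a = m
        · simp only [ha, hm, if_true]
          rw [neg_powq hF, one_pow]; ring
        · have : ¬ Fin.rev a = m := fun h1 => ha ((hm' a).1 h1)
          simp [ha, this])
      (by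
        rw [sign_last hk (by omega), Finset.prod_ite_eq']
        simp)
    exact ⟨s, hs⟩
  · obtain ⟨z, hz0, hz⟩ := exists_trace_zero hF
    have hzq : z ^ q = -z := by linear_combination hz
    let A : Fin n := ⟨k, by omega⟩
    let B : Fin n := ⟨k + 1, by omega⟩
    have hAB : A ≠ B := by
      intro h1
      have := congrArg Fin.val h1
      simp [A, B] at this
    have hrA : Fin.rev A = B := by
      apply Fin.ext
      simp only [Fin.val_rev, A, B]
      omega
    have hrB : Fin.rev B = A := by rw [← hrA, Fin.rev_rev]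
    obtain ⟨s, -, hs⟩ := monMk hF (sgm n k) (sgm_rev n k)
      (fun a => (if a = A then z else 1) * (if a = B then -z⁻¹ else 1))
      (by
        intro a
        by_cases ha : a = A
        · subst ha
          simp only [hrA, if_true, if_neg hAB, if_neg hAB.symm, mul_one, one_mul]
          rw [neg_powq hF, inv_pow, hzq]
          field_simp
        · by_cases hb : a = B
          · subst hb
            simp only [hrB, if_true, if_neg hAB, if_neg hAB.symm, mul_one, one_mul]
            rw [hzq]
            field_simp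
          · have h1 : ¬ Fin.rev a = A := by
              intro h2; apply hb; rw [← Fin.rev_rev a, h2, hrA]
            have h2 : ¬ Fin.rev a = B := by
              intro h2; apply ha; rw [← Fin.rev_rev a, h2, hrB]
            simp [ha, hb, h1, h2])
      (by
        rw [sign_last hk (by omega), Finset.prod_mul_distrib, Finset.prod_ite_eq', Finset.prod_ite_eq']
        simp only [Finset.mem_univ, if_true, Units.val_neg, Units.val_one, Int.cast_neg, Int.cast_one]
        field_simp)
    exact ⟨s, hs⟩

theorem Mon_sk [Fintype F] (hF : Fintype.card F = q ^ 2) (k : ℕ) (hk : 2 * k + 2 ≤ n) :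
    Mon (sgm n k) (mt (sk n F q k)) := by
  have h := exists_refl (F := F) hF k hk
  unfold sk
  rw [dif_pos h]
  exact h.choose_spec

theorem SS_subset [Fintype F] (hF : Fintype.card F = q ^ 2) : SS n F q ⊆ (NN n F q : Set (GA n F q)) := by
  rintro g ⟨k, hk, rfl⟩
  exact mem_NN.2 ⟨_, Mon_sk hF k hk⟩

end Cfsg.Agent.Lib.H49SuRefl
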