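import Mathlib
import Cfsg.Agent.Lib.H49SuDefs
import Cfsg.Agent.Lib.H49SuSig
import Cfsg.Agent.Lib.H49SuStar
import Cfsg.Agent.Lib.H49SuInv
import Cfsg.Agent.Lib.H49SuMonB
import Cfsg.Agent.Lib.H49SuMem
import Cfsg.Agent.Lib.H49SuRefl
import Cfsg.Agent.Lib.H49SuW

set_option autoImplicit false

/-! Project 2546 (Steinberg character of `PSU_n(q)`), piece `Lift` (20m).

COPY of the landed `H49SgLift` (`Subgroup.closure_induction`, `Mon_sk`, `Mon_one`, `Mon_mul`, `Mon_inv`); `nlift` by `perm_mem`, `exists_lift`, and `closure SS ≤ NN` (`SS_subset`). -/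

namespace Cfsg.Agent.Lib.H49SuLift

open Matrix Cfsg.Agent.Lib.H49SuDefs
open Cfsg.Agent.Lib.H49SuSig Cfsg.Agent.Lib.H49SuStar Cfsg.Agent.Lib.H49SuInv Cfsg.Agent.Lib.H49SuMonB Cfsg.Agent.Lib.H49SuMem Cfsg.Agent.Lib.H49SuRefl Cfsg.Agent.Lib.H49SuW

variable {n : ℕ} {F : Type*} [Field F] {q : ℕ}

theorem exists_lift [Fintype F] (hF : Fintype.card F = q ^ 2) (π : Equiv.Perm (Fin n)) (h : π ∈ CL n) :
    ∃ g ∈ Subgroup.closure (SS n F q), Mon π (mt g) := by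
  unfold CL at h
  induction h using Subgroup.closure_induction with
  | mem x hx =>
    obtain ⟨k, hk, rfl⟩ := hx
    exact ⟨sk n F q k, Subgroup.subset_closure ⟨k, hk, rfl⟩, Mon_sk hF k hk⟩
  | one => exact ⟨1, Subgroup.one_mem _, Mon_one⟩
  | mul x y _ _ ihx ihy =>
    obtain ⟨g, hg, hg'⟩ := ihx
    obtain ⟨k, hk, hk'⟩ := ihy
    exact ⟨g * k, Subgroup.mul_mem _ hg hk, Mon_mul hg' hk'⟩
  | inv x _ ih =>
    obtain ⟨g, hg, hg'⟩ := ih
    exact ⟨g⁻¹, Subgroup.inv_mem _ hg, Mon_inv hg'⟩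

theorem nlift [Fintype F] (hF : Fintype.card F = q ^ 2) (π : Equiv.Perm (Fin n))
    (h : ∀ a, π (Fin.rev a) = Fin.rev (π a)) : ∃ g ∈ NN n F q, Mon π (mt g) := by
  obtain ⟨g, hg, hg'⟩ := exists_lift hF π (perm_mem π h)
  exact ⟨g, (Subgroup.closure_le _).2 (SS_subset hF) hg, hg'⟩

end Cfsg.Agent.Lib.H49SuLift
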