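import Mathlib
import Cfsg.Agent.Lib.H49SuDefs
import Cfsg.Agent.Lib.H49SuSig
import Cfsg.Agent.Lib.H49SuStar
import Cfsg.Agent.Lib.H49SuInv
import Cfsg.Agent.Lib.H49SuMonB
import Cfsg.Agent.Lib.H49SuMem
import Cfsg.Agent.Lib.H49SuDiag
import Cfsg.Agent.Lib.H49SuTN
import Cfsg.Agent.Lib.H49SuBNT
import Cfsg.Agent.Lib.H49SuRefl
import Cfsg.Agent.Lib.H49SuW
import Cfsg.Agent.Lib.H49SuLift

set_option autoImplicit false

/-! Project 2546 (Steinberg character of `PSU_n(q)`), piece `Cl` (20m).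

COPY of the landed `H49SgCl` (`Mon_rev`, `perm_mem`, `exists_lift`, `Mon_one_iff`, `BB_inf_NN`, `SS_subset`). -/

namespace Cfsg.Agent.Lib.H49SuCl

open Matrix Cfsg.Agent.Lib.H49SuDefs
open Cfsg.Agent.Lib.H49SuSig Cfsg.Agent.Lib.H49SuStar Cfsg.Agent.Lib.H49SuInv Cfsg.Agent.Lib.H49SuMonB Cfsg.Agent.Lib.H49SuMem Cfsg.Agent.Lib.H49SuDiag Cfsg.Agent.Lib.H49SuTN Cfsg.Agent.Lib.H49SuBNT Cfsg.Agent.Lib.H49SuRefl Cfsg.Agent.Lib.H49SuW Cfsg.Agent.Lib.H49SuLift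

variable {n : ℕ} {F : Type*} [Field F] {q : ℕ}

theorem closure_sup [Fintype F] (hF : Fintype.card F = q ^ 2) :
    Subgroup.closure (SS n F q) ⊔ (BB n F q ⊓ NN n F q) = NN n F q := by
  apply le_antisymm
  · exact sup_le ((Subgroup.closure_le _).2 (SS_subset hF)) inf_le_right
  · intro x hx
    obtain ⟨π, hπ⟩ := mem_NN.1 hx
    have hCL : π ∈ CL n := perm_mem π (Mon_rev hF hπ)
    obtain ⟨g, hg, hgπ⟩ := exists_lift (F := F) hF π hCL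
    have h1 : Mon (π⁻¹ * π) (mt (g⁻¹ * x)) := Mon_mul (Mon_inv hgπ) hπ
    rw [inv_mul_cancel] at h1
    have h2 : g⁻¹ * x ∈ BB n F q ⊓ NN n F q := by
      rw [BB_inf_NN hF]; exact (Mon_one_iff hF).1 h1
    have e : x = g * (g⁻¹ * x) := by group
    rw [e]
    exact Subgroup.mul_mem _ (Subgroup.mem_sup_left hg) (Subgroup.mem_sup_right h2)

end Cfsg.Agent.Lib.H49SuCl
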