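import Mathlib
import Cfsg.Agent.Lib.H49SuDefs
import Cfsg.Agent.Lib.H49SuSig
import Cfsg.Agent.Lib.H49SuStar
import Cfsg.Agent.Lib.H49SuInv
import Cfsg.Agent.Lib.H49SuMonB
import Cfsg.Agent.Lib.H49SuMem

set_option autoImplicit false

/-! Project 2546 (Steinberg character of `PSU_n(q)`), piece `Half`.

A unitary matrix whose columns `b` with `2 b + 1 < n` are upper triangular is upper triangular. -/

namespace Cfsg.Agent.Lib.H49SuHalf

open Matrix Cfsg.Agent.Lib.H49SuDefs
open Cfsg.Agent.Lib.H49SuSig Cfsg.Agent.Lib.H49SuStar Cfsg.Agent.Lib.H49SuInv Cfsg.Agent.Lib.H49SuMonB Cfsg.Agent.Lib.H49SuMem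

variable {n : ℕ} {F : Type*} [Field F] {q : ℕ}

theorem half_inv {g : GA n F q} (h : ∀ a b : Fin n, b < a → 2 * b.val + 1 < n → mt g a b = 0) (j : ℕ) :
    ∀ y : Fin n, y.val < j → 2 * y.val + 1 < n → mt g y y ≠ 0 ∧ ∀ x, y < x → mt g⁻¹ x y = 0 := by
  induction j with
  | zero => intro y hy; omega
  | succ j ih =>
    intro y hyj hy
    have key : ∀ x, y ≤ x → mt g⁻¹ x y * mt g y y = if x = y then 1 else 0 := by
      intro x hx
      have e : (mt g⁻¹ * mt g) x y = (1 : Matrix (Fin n) (Fin n) F) x y := by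
        rw [← mt_mul, inv_mul_cancel, mt_one]
      rw [Matrix.mul_apply, Matrix.one_apply] at e
      rw [← e]
      symm
      apply Finset.sum_eq_single y
      · intro c _ hc
        rcases lt_or_gt_of_ne hc with hlt | hgt
        · have hlt' := Fin.lt_def.1 hlt
          have := (ih c (by omega) (by omega)).2 x (lt_of_lt_of_le hlt hx)
          rw [this, zero_mul]
        · rw [h c y hgt hy, mul_zero]
      · intro h'; exact absurd (Finset.mem_univ _) h'
    have h0 : mt g y y ≠ 0 := by
      intro h0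
      have := key y le_rfl
      rw [h0, mul_zero, if_pos rfl] at this
      exact zero_ne_one this
    refine ⟨h0, ?_⟩
    intro x hx
    have h1 := key x hx.le
    rw [if_neg (ne_of_gt hx)] at h1
    exact (mul_eq_zero.1 h1).resolve_right h0

theorem half [Fintype F] (hF : Fintype.card F = q ^ 2) {g : GA n F q}
    (h : ∀ a b : Fin n, b < a → 2 * b.val + 1 < n → mt g a b = 0) : g ∈ BB n F q := by
  rw [mem_BB hF]
  intro a b hab
  by_cases hb : 2 * b.val + 1 < n
  · exact h a b hab hb
  · have hab' := Fin.lt_def.1 hab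
    have e := inv_apply hF g (Fin.rev b) (Fin.rev a)
    rw [Fin.rev_rev, Fin.rev_rev] at e
    have hra : (Fin.rev a).val = n - (a.val + 1) := Fin.val_rev a
    have hrb : (Fin.rev b).val = n - (b.val + 1) := Fin.val_rev b
    have ha := a.2
    have h1 := (half_inv h ((Fin.rev a).val + 1) (Fin.rev a) (by omega) (by omega)).2 (Fin.rev b)
      (by rw [Fin.lt_def]; omega)
    rw [h1] at e
    exact (pow_eq_zero_iff (q_pos hF).ne').1 e.symm

end Cfsg.Agent.Lib.H49SuHalf
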