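import Mathlib
import Cfsg.Agent.Lib.H49SuDefs
import Cfsg.Agent.Lib.H49SuSig
import Cfsg.Agent.Lib.H49SuStar

set_option autoImplicit false

/-! Project 2546: the adjoint `adj M a b = (M (rev b) (rev a)) ^ q` for the antidiagonal hermitian form, and a criterion for membership
in `GA n F q`: `det M = 1` and `adj M * M = 1`. -/

namespace Cfsg.Agent.Lib.Helper65SuAdj

open Matrix Cfsg.Agent.Lib.H49SuDefs Cfsg.Agent.Lib.H49SuSig Cfsg.Agent.Lib.H49SuStar

variable {n : ℕ} {F : Type*} [Field F] {q : ℕ}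

/-- the adjoint -/
def adj (q : ℕ) (M : Matrix (Fin n) (Fin n) F) : Matrix (Fin n) (Fin n) F :=
  Matrix.of fun a b => (M (Fin.rev b) (Fin.rev a)) ^ q

theorem adj_apply (M : Matrix (Fin n) (Fin n) F) (a b : Fin n) :
    adj q M a b = (M (Fin.rev b) (Fin.rev a)) ^ q := rfl

theorem adj_one (hq : 0 < q) : adj q (1 : Matrix (Fin n) (Fin n) F) = 1 := by
  ext a b
  rw [adj_apply]
  by_cases h : a = b
  · subst h
    simp
  · have h' : Fin.rev b ≠ Fin.rev a := fun e => h (Fin.rev_injective e).symm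
    rw [Matrix.one_apply_ne h, Matrix.one_apply_ne h', zero_pow hq.ne']

theorem adj_add [Fintype F] (hF : Fintype.card F = q ^ 2) (M N : Matrix (Fin n) (Fin n) F) :
    adj q (M + N) = adj q M + adj q N := by
  ext a b
  simp only [adj_apply, Matrix.add_apply, add_powq hF]

theorem adj_neg [Fintype F] (hF : Fintype.card F = q ^ 2) (M : Matrix (Fin n) (Fin n) F) :
    adj q (-M) = - adj q M := by
  ext a b
  simp only [adj_apply, Matrix.neg_apply, neg_powq hF]

theorem adj_sub [Fintype F] (hF : Fintype.card F = q ^ 2) (M N : Matrix (Fin n) (Fin n) F) :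
    adj q (M - N) = adj q M - adj q N := by
  rw [sub_eq_add_neg, adj_add hF, adj_neg hF, sub_eq_add_neg]

theorem adj_single (hq : 0 < q) (a b : Fin n) (t : F) :
    adj q (Matrix.single a b t) = Matrix.single (Fin.rev b) (Fin.rev a) (t ^ q) := by
  ext i j
  rw [adj_apply]
  by_cases h : Fin.rev b = i ∧ Fin.rev a = j
  · obtain ⟨rfl, rfl⟩ := h
    simp
  · rw [Matrix.single_apply_of_ne _ _ _ _ _ h, Matrix.single_apply_of_ne, zero_pow hq.ne']
    rintro ⟨h1, h2⟩
    apply h
    constructor
    · rw [h2, Fin.rev_rev]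
    · rw [h1, Fin.rev_rev]

theorem adj_transpose (M : Matrix (Fin n) (Fin n) F) : adj q Mᵀ = (adj q M)ᵀ := rfl

theorem cond_iff (M : Matrix (Fin n) (Fin n) F) :
    (∀ a b, ∑ i, M i a * (M (Fin.rev i) b) ^ q = if b = Fin.rev a then 1 else 0) ↔ adj q M * M = 1 := by
  have key : ∀ a b, ∑ i, M i a * (M (Fin.rev i) b) ^ q = (adj q M * M) (Fin.rev b) a := by
    intro a b
    rw [Matrix.mul_apply]
    refine Finset.sum_congr rfl fun i _ => ?_
    rw [adj_apply, Fin.rev_rev, mul_comm]
  constructor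
  · intro h
    ext c a
    have := h a (Fin.rev c)
    rw [key, Fin.rev_rev] at this
    rw [this, Matrix.one_apply]
    by_cases e : c = a
    · subst e; simp
    · rw [if_neg e, if_neg (fun e' => e (Fin.rev_injective e'))]
  · intro h a b
    rw [key, h, Matrix.one_apply]
    by_cases e : b = Fin.rev a
    · subst e; simp
    · rw [if_neg e, if_neg]
      intro e'
      apply e
      rw [← e', Fin.rev_rev]

/-- criterion -/
theorem mk' [Fintype F] (hF : Fintype.card F = q ^ 2) (M : Matrix (Fin n) (Fin n) F) (hdet : M.det = 1)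
    (hM : adj q M * M = 1) : ∃ h : GA n F q, mt h = M :=
  mk hF M hdet ((cond_iff M).2 hM)

theorem adj_mul_self [Fintype F] (hF : Fintype.card F = q ^ 2) (h : GA n F q) :
    adj q (mt h) * mt h = 1 := (cond_iff _).1 (star hF h)

theorem det_mt (h : GA n F q) : (mt h).det = 1 := h.1.2

/-- the transpose of an element of `GA` is in `GA`. -/
theorem exists_transpose [Fintype F] (hF : Fintype.card F = q ^ 2) (h : GA n F q) :
    ∃ h' : GA n F q, mt h' = (mt h)ᵀ := by
  apply mk' hF
  · rw [Matrix.det_transpose, det_mt]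
  · rw [adj_transpose, ← Matrix.transpose_mul, _root_.mul_eq_one_comm.1 (adj_mul_self hF h),
      Matrix.transpose_one]

/-- transposition exchanges `XX` and `YY`. -/
theorem exists_y_of_x [Fintype F] (hF : Fintype.card F = q ^ 2) {k : ℕ} {x : GA n F q}
    (hx : x ∈ XX n F q k) : ∃ y ∈ YY n F q k, mt y = (mt x)ᵀ := by
  obtain ⟨y, hy⟩ := exists_transpose hF x
  refine ⟨y, ⟨fun a => ?_, fun a b hab h => ?_⟩, hy⟩
  · rw [hy, Matrix.transpose_apply]; exact hx.1 a
  · rw [hy, Matrix.transpose_apply] at h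
    exact hx.2 b a hab.symm h

end Cfsg.Agent.Lib.Helper65SuAdj
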