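import Mathlib
import Cfsg.Agent.Lib.H49SuDefs
import Cfsg.Agent.Lib.H49SuSig
import Cfsg.Agent.Lib.H49SuStar
import Cfsg.Agent.Lib.H49SuInv
import Cfsg.Agent.Lib.H49SuMonB
import Cfsg.Agent.Lib.H49SuMem
import Cfsg.Agent.Lib.H49SuSgm
import Cfsg.Agent.Lib.H49SuInvD
import Cfsg.Agent.Lib.Helper65SuAdj

set_option autoImplicit false

/-! Project 2546 (Steinberg character of `PSU_n(q)`), piece `RootEven`. -/

namespace Cfsg.Agent.Lib.H49SuRootEven

open Matrix Cfsg.Agent.Lib.H49SuDefs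
open Cfsg.Agent.Lib.H49SuSig Cfsg.Agent.Lib.H49SuStar Cfsg.Agent.Lib.H49SuInv Cfsg.Agent.Lib.H49SuMonB Cfsg.Agent.Lib.H49SuMem Cfsg.Agent.Lib.H49SuSgm Cfsg.Agent.Lib.H49SuInvD
open Cfsg.Agent.Lib.Helper65SuAdj

variable {n : ℕ} {F : Type*} [Field F] {q : ℕ}

theorem exists_x [Fintype F] (hF : Fintype.card F = q ^ 2) {k : ℕ} (hk : 2 * k + 2 = n) (a b : Fin n)
    (ha : a.val = k) (hb : b.val = k + 1) (t : F) (ht : t + t ^ q = 0) :
    ∃ x ∈ XX n F q k, mt x = 1 + Matrix.single a b t := by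
  have hq := q_pos hF
  have hra : Fin.rev a = b := by apply Fin.ext; rw [Fin.val_rev]; omega
  have hrb : Fin.rev b = a := by apply Fin.ext; rw [Fin.val_rev]; omega
  have h1 : a ≠ b := fun e => by have := congrArg Fin.val e; omega
  have hdet : (1 + Matrix.single a b t).det = 1 := Matrix.det_transvection_of_ne _ _ h1 t
  have hadj : adj q (1 + Matrix.single a b t) * (1 + Matrix.single a b t) = 1 := by
    rw [adj_add hF, adj_one hq, adj_single hq, hra, hrb]
    simp only [mul_add, add_mul, mul_one, one_mul, Matrix.single_mul_single_of_ne _ _ _ _ h1.symm]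
    rw [add_zero, add_assoc, add_comm (Matrix.single a b (t ^ q)), ← Matrix.single_add, ht,
      Matrix.single_zero, add_zero]
  obtain ⟨x, hx⟩ := mk' hF _ hdet hadj
  refine ⟨x, ⟨fun i => ?_, fun i j hij h => ?_⟩, hx⟩
  · rw [hx, Matrix.add_apply, Matrix.one_apply_eq,
      Matrix.single_apply_of_ne _ _ _ _ _ (fun e => h1 (e.1.trans e.2.symm)), add_zero]
  · rw [Inv_even hk]
    rw [hx, Matrix.add_apply, Matrix.one_apply_ne hij, zero_add] at h
    by_cases e1 : a = i ∧ b = j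
    · rw [← e1.1, ← e1.2]
      exact ⟨ha, hb⟩
    · rw [Matrix.single_apply_of_ne _ _ _ _ _ e1] at h
      exact absurd rfl h

theorem exists_y [Fintype F] (hF : Fintype.card F = q ^ 2) {k : ℕ} (hk : 2 * k + 2 = n) (a b : Fin n)
    (ha : a.val = k) (hb : b.val = k + 1) (t : F) (ht : t + t ^ q = 0) :
    ∃ y ∈ YY n F q k, mt y = 1 + Matrix.single b a t := by
  obtain ⟨x, hx, hxm⟩ := exists_x hF hk a b ha hb t ht
  obtain ⟨y, hy, hym⟩ := exists_y_of_x hF hx
  refine ⟨y, hy, ?_⟩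
  rw [hym, hxm, Matrix.transpose_add, Matrix.transpose_one, Matrix.transpose_single]

end Cfsg.Agent.Lib.H49SuRootEven
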