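import Mathlib
import Cfsg.Agent.Lib.H49SuDefs
import Cfsg.Agent.Lib.H49SuSig
import Cfsg.Agent.Lib.H49SuStar
import Cfsg.Agent.Lib.H49SuInv
import Cfsg.Agent.Lib.H49SuMonB
import Cfsg.Agent.Lib.H49SuMem
import Cfsg.Agent.Lib.H49SuDiag
import Cfsg.Agent.Lib.H49SuSgm
import Cfsg.Agent.Lib.H49SuInvD
import Cfsg.Agent.Lib.H49SuB1
import Cfsg.Agent.Lib.H49SuHalf
import Cfsg.Agent.Lib.H49SuRootEven

set_option autoImplicit false

/-! Project 2546 (Steinberg character of `PSU_n(q)`), piece `ClearEven` (40m).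

Same for `2k+2 = n`, `a = k`, `b = k+1 = rev a`.  `t = mt g a b / mt g a a` satisfies `t + t ^ q = 0`: SHORTEST: `0 = (g * g⁻¹) a b = ∑ i, g a i * (g a (rev i)) ^ q` (`inv_apply`, `rev b = a`), only `i = a, b` survive (`g` triangular):
`g a a * (g a b) ^ q + g a b * (g a a) ^ q = 0`; divide by `g a a * (g a a) ^ q`.  Then `x = RootEven.exists_x t`, `c = g * x⁻¹`, `c a b = 0`.  `Inv_even`. -/

namespace Cfsg.Agent.Lib.H49SuClearEven

open Matrix Cfsg.Agent.Lib.H49SuDefs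
open Cfsg.Agent.Lib.H49SuSig Cfsg.Agent.Lib.H49SuStar Cfsg.Agent.Lib.H49SuInv Cfsg.Agent.Lib.H49SuMonB Cfsg.Agent.Lib.H49SuMem Cfsg.Agent.Lib.H49SuDiag Cfsg.Agent.Lib.H49SuSgm Cfsg.Agent.Lib.H49SuInvD Cfsg.Agent.Lib.H49SuB1 Cfsg.Agent.Lib.H49SuHalf Cfsg.Agent.Lib.H49SuRootEven

variable {n : ℕ} {F : Type*} [Field F] {q : ℕ}

theorem clear [Fintype F] (hF : Fintype.card F = q ^ 2) {k : ℕ} (hk : 2 * k + 2 = n) {g : GA n F q}
    (hg : g ∈ BB n F q) :
    ∃ c ∈ BB n F q, ∃ x ∈ XX n F q k, (∀ a b, Inv n k a b → mt c a b = 0) ∧ g = c * x := by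
  let a : Fin n := ⟨k, by omega⟩
  let b : Fin n := ⟨k + 1, by omega⟩
  have hab : a ≠ b := by
    intro e
    have := congrArg Fin.val e
    simp only [a, b] at this
    omega
  have hrb : Fin.rev b = a := by
    apply Fin.ext
    simp only [Fin.val_rev, a, b]
    omega
  have hra : Fin.rev a = b := by
    apply Fin.ext
    simp only [Fin.val_rev, a, b]
    omega
  have hgaa : mt g a a ≠ 0 := diag_ne_zero hg a
  -- the trace condition
  have h1 : (mt g * mt g⁻¹) a b = 0 := by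
    rw [← mt_mul, mul_inv_cancel, mt_one, Matrix.one_apply_ne hab]
  have h2 : mt g a a * (mt g a b) ^ q + mt g a b * (mt g a a) ^ q = 0 := by
    rw [Matrix.mul_apply, ← Finset.add_sum_erase _ _ (Finset.mem_univ a),
      ← Finset.add_sum_erase _ _ (Finset.mem_erase.2 ⟨hab.symm, Finset.mem_univ b⟩),
      Finset.sum_eq_zero, add_zero, inv_apply hF, inv_apply hF, hrb, hra] at h1
    · exact h1
    · intro i hi
      rw [Finset.mem_erase, Finset.mem_erase] at hi
      obtain ⟨hib, hia, -⟩ := hi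
      rcases lt_or_gt_of_ne hia with h | h
      · rw [hg.1 a i h, zero_mul]
      · have : b < i := by
          rw [Fin.lt_def] at h ⊢
          have h3 : i.val ≠ b.val := fun e => hib (Fin.ext e)
          simp only [a, b] at h h3 ⊢
          omega
        rw [hg.2 i b this, mul_zero]
  have ht : mt g a b / mt g a a + (mt g a b / mt g a a) ^ q = 0 := by
    have hq : (mt g a a) ^ q ≠ 0 := pow_ne_zero _ hgaa
    rw [div_pow]
    field_simp
    linear_combination h2
  obtain ⟨x, hx, hxm⟩ := exists_x hF hk a b rfl rfl (mt g a b / mt g a a) ht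
  have hxB : x ∈ BB n F q := XX_le hF hx
  have hcB : g * x⁻¹ ∈ BB n F q := (BB n F q).mul_mem hg ((BB n F q).inv_mem hxB)
  have hgc : g = g * x⁻¹ * x := by rw [inv_mul_cancel_right]
  have hm : mt g = mt (g * x⁻¹) * mt x := by rw [← mt_mul, ← hgc]
  have haa : mt g a a = mt (g * x⁻¹) a a := by
    conv_lhs => rw [hm, hxm]
    rw [Matrix.mul_add, Matrix.mul_one, Matrix.add_apply,
      Matrix.mul_single_apply_of_ne _ _ _ _ _ hab, add_zero]
  have hab' : mt g a b = mt (g * x⁻¹) a b + mt (g * x⁻¹) a a * (mt g a b / mt g a a) := by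
    conv_lhs => rw [hm, hxm]
    rw [Matrix.mul_add, Matrix.mul_one, Matrix.add_apply, Matrix.mul_single_apply_same]
  have h0 : mt (g * x⁻¹) a b = 0 := by
    rw [← haa, mul_div_cancel₀ _ hgaa] at hab'
    exact (left_eq_add.mp (by rw [add_comm]; exact hab'))
  refine ⟨g * x⁻¹, hcB, x, hx, ?_, hgc⟩
  intro a' b' hI
  obtain ⟨h1, h2⟩ := (Inv_even hk a' b').1 hI
  have ea : a' = a := Fin.ext h1
  have eb : b' = b := Fin.ext h2
  rw [ea, eb]
  exact h0

end Cfsg.Agent.Lib.H49SuClearEven
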