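import Mathlib
import Cfsg.Agent.Lib.H49SuDefs
import Cfsg.Agent.Lib.H49SuSig
import Cfsg.Agent.Lib.H49SuStar
import Cfsg.Agent.Lib.H49SuInv
import Cfsg.Agent.Lib.H49SuMonB
import Cfsg.Agent.Lib.H49SuMem
import Cfsg.Agent.Lib.H49SuSgm
import Cfsg.Agent.Lib.H49SuInvD
import Cfsg.Agent.Lib.Helper65SuAdj

set_option autoImplicit false

/-! Project 2546 (Steinberg character of `PSU_n(q)`), piece `RootGL`. -/

namespace Cfsg.Agent.Lib.H49SuRootGL

open Matrix Cfsg.Agent.Lib.H49SuDefs
open Cfsg.Agent.Lib.H49SuSig Cfsg.Agent.Lib.H49SuStar Cfsg.Agent.Lib.H49SuInv Cfsg.Agent.Lib.H49SuMonB Cfsg.Agent.Lib.H49SuMem Cfsg.Agent.Lib.H49SuSgm Cfsg.Agent.Lib.H49SuInvD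
open Cfsg.Agent.Lib.Helper65SuAdj

variable {n : ℕ} {F : Type*} [Field F] {q : ℕ}

theorem single_neg' (i j : Fin n) (s : F) : Matrix.single i j (-s) = - Matrix.single i j s := by
  ext a b
  by_cases h : i = a ∧ j = b
  · obtain ⟨rfl, rfl⟩ := h
    simp
  · rw [Matrix.neg_apply, Matrix.single_apply_of_ne _ _ _ _ _ h, Matrix.single_apply_of_ne _ _ _ _ _ h,
      neg_zero]

theorem exists_x [Fintype F] (hF : Fintype.card F = q ^ 2) {k : ℕ} (hk : 2 * k + 3 < n) (a b : Fin n)
    (ha : a.val = k) (hb : b.val = k + 1) (t : F) :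
    ∃ x ∈ XX n F q k, mt x = 1 + Matrix.single a b t - Matrix.single (Fin.rev b) (Fin.rev a) (t ^ q) := by
  have hq := q_pos hF
  have hra : (Fin.rev a).val = n - 1 - k := by rw [Fin.val_rev]; omega
  have hrb : (Fin.rev b).val = n - 2 - k := by rw [Fin.val_rev]; omega
  have h1 : a ≠ b := fun e => by have := congrArg Fin.val e; omega
  have h2 : b ≠ Fin.rev b := fun e => by have := congrArg Fin.val e; omega
  have h3 : Fin.rev a ≠ a := fun e => by have := congrArg Fin.val e; omega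
  have h4 : Fin.rev a ≠ Fin.rev b := fun e => by have := congrArg Fin.val e; omega
  have hdet : (1 + Matrix.single a b t - Matrix.single (Fin.rev b) (Fin.rev a) (t ^ q)).det = 1 := by
    have : 1 + Matrix.single a b t - Matrix.single (Fin.rev b) (Fin.rev a) (t ^ q) =
        Matrix.transvection a b t * Matrix.transvection (Fin.rev b) (Fin.rev a) (-(t ^ q)) := by
      unfold Matrix.transvection
      rw [single_neg']
      simp only [mul_add, add_mul, mul_neg, mul_one, one_mul,
        Matrix.single_mul_single_of_ne _ _ _ _ h2]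
      abel
    rw [this, Matrix.det_mul, Matrix.det_transvection_of_ne _ _ h1,
      Matrix.det_transvection_of_ne _ _ h4.symm, one_mul]
  have hadj : adj q (1 + Matrix.single a b t - Matrix.single (Fin.rev b) (Fin.rev a) (t ^ q)) *
      (1 + Matrix.single a b t - Matrix.single (Fin.rev b) (Fin.rev a) (t ^ q)) = 1 := by
    rw [adj_sub hF, adj_add hF, adj_one hq, adj_single hq, adj_single hq, Fin.rev_rev, Fin.rev_rev,
      powq_powq hF]
    simp only [mul_add, add_mul, mul_sub, sub_mul, mul_one, one_mul,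
      Matrix.single_mul_single_of_ne _ _ _ _ h2, Matrix.single_mul_single_of_ne _ _ _ _ h1.symm,
      Matrix.single_mul_single_of_ne _ _ _ _ h3, Matrix.single_mul_single_of_ne _ _ _ _ h4]
    abel
  obtain ⟨x, hx⟩ := mk' hF _ hdet hadj
  refine ⟨x, ⟨fun i => ?_, fun i j hij h => ?_⟩, hx⟩
  · rw [hx, Matrix.sub_apply, Matrix.add_apply, Matrix.one_apply_eq,
      Matrix.single_apply_of_ne _ _ _ _ _ (fun e => h1 (e.1.trans e.2.symm)),
      Matrix.single_apply_of_ne _ _ _ _ _ (fun e => h4 (e.2.trans e.1.symm))]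
    simp
  · rw [Inv_gl hk]
    rw [hx, Matrix.sub_apply, Matrix.add_apply, Matrix.one_apply_ne hij, zero_add] at h
    by_cases e1 : a = i ∧ b = j
    · left
      rw [← e1.1, ← e1.2]
      exact ⟨ha, hb⟩
    · rw [Matrix.single_apply_of_ne _ _ _ _ _ e1, zero_sub] at h
      by_cases e2 : Fin.rev b = i ∧ Fin.rev a = j
      · right
        rw [← e2.1, ← e2.2, hra, hrb]
        omega
      · rw [Matrix.single_apply_of_ne _ _ _ _ _ e2, neg_zero] at h
        exact absurd rfl h

theorem exists_y [Fintype F] (hF : Fintype.card F = q ^ 2) {k : ℕ} (hk : 2 * k + 3 < n) (a b : Fin n)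
    (ha : a.val = k) (hb : b.val = k + 1) (t : F) :
    ∃ y ∈ YY n F q k, mt y = 1 + Matrix.single b a t - Matrix.single (Fin.rev a) (Fin.rev b) (t ^ q) := by
  obtain ⟨x, hx, hxm⟩ := exists_x hF hk a b ha hb t
  obtain ⟨y, hy, hym⟩ := exists_y_of_x hF hx
  refine ⟨y, hy, ?_⟩
  rw [hym, hxm, Matrix.transpose_sub, Matrix.transpose_add, Matrix.transpose_one,
    Matrix.transpose_single, Matrix.transpose_single]

end Cfsg.Agent.Lib.H49SuRootGL
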