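import Mathlib
import Cfsg.Agent.Lib.H49SuDefs
import Cfsg.Agent.Lib.H49SuSig
import Cfsg.Agent.Lib.H49SuStar
import Cfsg.Agent.Lib.H49SuInv
import Cfsg.Agent.Lib.H49SuMonB
import Cfsg.Agent.Lib.H49SuMem
import Cfsg.Agent.Lib.H49SuDiag
import Cfsg.Agent.Lib.H49SuSgm
import Cfsg.Agent.Lib.H49SuInvD
import Cfsg.Agent.Lib.H49SuB1
import Cfsg.Agent.Lib.H49SuHalf
import Cfsg.Agent.Lib.H49SuRootGL

set_option autoImplicit false

/-! Project 2546 (Steinberg character of `PSU_n(q)`), piece `ClearGL` (40m).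

`B = (B ∩ s⁻¹ B s) X`, GL type.  `a = k`, `b = k+1`.  Take `x` = `RootGL.exists_x` with `t = mt g a b / mt g a a` and `c = g * x⁻¹` (`x⁻¹ ∈ BB` by `XX_le`).  Then `g = c * x`, and from `mt g = mt c * mt x`: `g a b = c a b + t * c a a`, `g a a = c a a`, so `c a b = 0`.
The second inversion `(rev b, rev a)`: as in the landed `H49SgA2a.dual_entry`: `0 = (c * c⁻¹) a b = c a a * c⁻¹ a b + c a b * c⁻¹ b b` gives `c⁻¹ a b = 0`, and `c⁻¹ a b = (c (rev b) (rev a)) ^ q` by `inv_apply`.  `Inv_gl`. -/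

namespace Cfsg.Agent.Lib.H49SuClearGL

open Matrix Cfsg.Agent.Lib.H49SuDefs
open Cfsg.Agent.Lib.H49SuSig Cfsg.Agent.Lib.H49SuStar Cfsg.Agent.Lib.H49SuInv Cfsg.Agent.Lib.H49SuMonB Cfsg.Agent.Lib.H49SuMem Cfsg.Agent.Lib.H49SuDiag Cfsg.Agent.Lib.H49SuSgm Cfsg.Agent.Lib.H49SuInvD Cfsg.Agent.Lib.H49SuB1 Cfsg.Agent.Lib.H49SuHalf Cfsg.Agent.Lib.H49SuRootGL

variable {n : ℕ} {F : Type*} [Field F] {q : ℕ}

/-- if `c ∈ BB` and `c a b = 0` for consecutive `a`, `b`, then the dual entry vanishes. -/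
theorem dual_entry [Fintype F] (hF : Fintype.card F = q ^ 2) {c : GA n F q} (hc : c ∈ BB n F q)
    (a b : Fin n) (hab : b.val = a.val + 1) (h0 : mt c a b = 0) :
    mt c (Fin.rev b) (Fin.rev a) = 0 := by
  have hne : a ≠ b := by
    intro e
    rw [e] at hab
    omega
  have h1 : (mt c * mt c⁻¹) a b = 0 := by
    rw [← mt_mul, mul_inv_cancel, mt_one, Matrix.one_apply_ne hne]
  rw [Matrix.mul_apply, Finset.sum_eq_single a] at h1
  · have h2 : mt c⁻¹ a b = 0 := by
      rcases mul_eq_zero.1 h1 with h | h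
      · exact absurd h (diag_ne_zero hc a)
      · exact h
    rw [inv_apply hF] at h2
    exact pow_eq_zero_iff (q_pos hF).ne' |>.1 h2
  · intro i _ hi
    rcases lt_or_gt_of_ne hi with h | h
    · rw [hc.1 a i h, zero_mul]
    · by_cases hib : i = b
      · rw [hib, h0, zero_mul]
      · have : b < i := by
          rw [Fin.lt_def] at h ⊢
          have : i.val ≠ b.val := fun e => hib (Fin.ext e)
          omega
        rw [hc.2 i b this, mul_zero]
  · intro h
    exact absurd (Finset.mem_univ a) h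

theorem clear [Fintype F] (hF : Fintype.card F = q ^ 2) {k : ℕ} (hk : 2 * k + 3 < n) {g : GA n F q}
    (hg : g ∈ BB n F q) :
    ∃ c ∈ BB n F q, ∃ x ∈ XX n F q k, (∀ a b, Inv n k a b → mt c a b = 0) ∧ g = c * x := by
  let a : Fin n := ⟨k, by omega⟩
  let b : Fin n := ⟨k + 1, by omega⟩
  obtain ⟨x, hx, hxm⟩ := exists_x hF hk a b rfl rfl (mt g a b / mt g a a)
  have hxB : x ∈ BB n F q := XX_le hF hx
  have hcB : g * x⁻¹ ∈ BB n F q := (BB n F q).mul_mem hg ((BB n F q).inv_mem hxB)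
  have hgc : g = g * x⁻¹ * x := by rw [inv_mul_cancel_right]
  have hm : mt g = mt (g * x⁻¹) * mt x := by rw [← mt_mul, ← hgc]
  have hra : Fin.rev a ≠ a := by
    intro e
    have := congrArg Fin.val e
    simp only [Fin.val_rev, a] at this
    omega
  have hrab : Fin.rev a ≠ b := by
    intro e
    have := congrArg Fin.val e
    simp only [Fin.val_rev, a, b] at this
    omega
  have hab : a ≠ b := by
    intro e
    have := congrArg Fin.val e
    simp only [a, b] at this
    omega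
  have haa : mt g a a = mt (g * x⁻¹) a a := by
    conv_lhs => rw [hm, hxm]
    rw [Matrix.mul_sub, Matrix.mul_add, Matrix.mul_one, Matrix.sub_apply, Matrix.add_apply,
      Matrix.mul_single_apply_of_ne _ _ _ _ _ hab, Matrix.mul_single_apply_of_ne _ _ _ _ _ hra.symm,
      add_zero, sub_zero]
  have hab' : mt g a b = mt (g * x⁻¹) a b + mt (g * x⁻¹) a a * (mt g a b / mt g a a) := by
    conv_lhs => rw [hm, hxm]
    rw [Matrix.mul_sub, Matrix.mul_add, Matrix.mul_one, Matrix.sub_apply, Matrix.add_apply,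
      Matrix.mul_single_apply_same, Matrix.mul_single_apply_of_ne _ _ _ _ _ hrab.symm, sub_zero]
  have h0 : mt (g * x⁻¹) a b = 0 := by
    rw [← haa, mul_div_cancel₀ _ (diag_ne_zero hg a)] at hab'
    exact (left_eq_add.mp (by rw [add_comm]; exact hab'))
  refine ⟨g * x⁻¹, hcB, x, hx, ?_, hgc⟩
  intro a' b' hI
  rcases (Inv_gl hk a' b').1 hI with ⟨h1, h2⟩ | ⟨h1, h2⟩
  · have ea : a' = a := Fin.ext h1
    have eb : b' = b := Fin.ext h2
    rw [ea, eb]
    exact h0
  · have ea : a' = Fin.rev b := by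
      apply Fin.ext
      simp only [Fin.val_rev, b]
      omega
    have eb : b' = Fin.rev a := by
      apply Fin.ext
      simp only [Fin.val_rev, a]
      omega
    rw [ea, eb]
    exact dual_entry hF hcB a b rfl h0

end Cfsg.Agent.Lib.H49SuClearGL
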