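import Mathlib
import Cfsg.Agent.Lib.H49SuDefs
import Cfsg.Agent.Lib.H49SuSig
import Cfsg.Agent.Lib.H49SuStar
import Cfsg.Agent.Lib.H49SuInv
import Cfsg.Agent.Lib.H49SuMonB
import Cfsg.Agent.Lib.H49SuMem
import Cfsg.Agent.Lib.H49SuSgm
import Cfsg.Agent.Lib.H49SuInvD
import Cfsg.Agent.Lib.Helper65SuAdj

set_option autoImplicit false

/-! Project 2546 (Steinberg character of `PSU_n(q)`), piece `RootOdd`. -/

namespace Cfsg.Agent.Lib.H49SuRootOdd

open Matrix Cfsg.Agent.Lib.H49SuDefs
open Cfsg.Agent.Lib.H49SuSig Cfsg.Agent.Lib.H49SuStar Cfsg.Agent.Lib.H49SuInv Cfsg.Agent.Lib.H49SuMonB Cfsg.Agent.Lib.H49SuMem Cfsg.Agent.Lib.H49SuSgm Cfsg.Agent.Lib.H49SuInvD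
open Cfsg.Agent.Lib.Helper65SuAdj

variable {n : ℕ} {F : Type*} [Field F] {q : ℕ}

theorem single_neg' (i j : Fin n) (s : F) : Matrix.single i j (-s) = - Matrix.single i j s := by
  ext a b
  by_cases h : i = a ∧ j = b
  · obtain ⟨rfl, rfl⟩ := h
    simp
  · rw [Matrix.neg_apply, Matrix.single_apply_of_ne _ _ _ _ _ h, Matrix.single_apply_of_ne _ _ _ _ _ h,
      neg_zero]

theorem exists_x [Fintype F] (hF : Fintype.card F = q ^ 2) {k : ℕ} (hk : 2 * k + 3 = n) (a b c : Fin n)
    (ha : a.val = k) (hb : b.val = k + 1) (hc : c.val = k + 2) (t r : F) (hr : r + r ^ q + t * t ^ q = 0) :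
    ∃ x ∈ XX n F q k, mt x = 1 + Matrix.single a b t + Matrix.single a c r - Matrix.single b c (t ^ q) := by
  have hq := q_pos hF
  have hra : Fin.rev a = c := by apply Fin.ext; rw [Fin.val_rev]; omega
  have hrb : Fin.rev b = b := by apply Fin.ext; rw [Fin.val_rev]; omega
  have hrc : Fin.rev c = a := by apply Fin.ext; rw [Fin.val_rev]; omega
  have hab : a ≠ b := fun e => by have := congrArg Fin.val e; omega
  have hac : a ≠ c := fun e => by have := congrArg Fin.val e; omega
  have hbc : b ≠ c := fun e => by have := congrArg Fin.val e; omega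
  have hdet : (1 + Matrix.single a b t + Matrix.single a c r - Matrix.single b c (t ^ q)).det = 1 := by
    have : 1 + Matrix.single a b t + Matrix.single a c r - Matrix.single b c (t ^ q) =
        Matrix.transvection a c (r + t * t ^ q) * Matrix.transvection a b t *
          Matrix.transvection b c (-(t ^ q)) := by
      unfold Matrix.transvection
      rw [single_neg', Matrix.single_add]
      simp only [mul_add, add_mul, mul_neg, mul_one, one_mul, Matrix.single_mul_single_same,
        Matrix.single_mul_single_of_ne _ _ _ _ hac.symm, Matrix.single_mul_single_of_ne _ _ _ _ hbc.symm,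
        Matrix.single_mul_single_of_ne _ _ _ _ hab.symm, zero_mul, mul_zero]
      abel
    rw [this, Matrix.det_mul, Matrix.det_mul, Matrix.det_transvection_of_ne _ _ hac,
      Matrix.det_transvection_of_ne _ _ hab, Matrix.det_transvection_of_ne _ _ hbc, one_mul, one_mul]
  have hadj : adj q (1 + Matrix.single a b t + Matrix.single a c r - Matrix.single b c (t ^ q)) *
      (1 + Matrix.single a b t + Matrix.single a c r - Matrix.single b c (t ^ q)) = 1 := by
    rw [adj_sub hF, adj_add hF, adj_add hF, adj_one hq, adj_single hq, adj_single hq, adj_single hq,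
      hra, hrb, hrc, powq_powq hF]
    simp only [mul_add, add_mul, mul_sub, sub_mul, mul_one, one_mul, Matrix.single_mul_single_same,
      Matrix.single_mul_single_of_ne _ _ _ _ hac.symm, Matrix.single_mul_single_of_ne _ _ _ _ hbc.symm,
      Matrix.single_mul_single_of_ne _ _ _ _ hab.symm]
    have h0 : Matrix.single a c r + Matrix.single a c (r ^ q) + Matrix.single a c (t * t ^ q) =
        (0 : Matrix (Fin n) (Fin n) F) := by
      rw [← Matrix.single_add, ← Matrix.single_add, hr, Matrix.single_zero]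
    have h1 : Matrix.single a c (t * t ^ q) = - (Matrix.single a c r + Matrix.single a c (r ^ q)) :=
      eq_neg_of_add_eq_zero_right h0
    rw [h1]
    abel
  obtain ⟨x, hx⟩ := mk' hF _ hdet hadj
  refine ⟨x, ⟨fun i => ?_, fun i j hij h => ?_⟩, hx⟩
  · rw [hx, Matrix.sub_apply, Matrix.add_apply, Matrix.add_apply, Matrix.one_apply_eq,
      Matrix.single_apply_of_ne _ _ _ _ _ (fun e => hab (e.1.trans e.2.symm)),
      Matrix.single_apply_of_ne _ _ _ _ _ (fun e => hac (e.1.trans e.2.symm)),
      Matrix.single_apply_of_ne _ _ _ _ _ (fun e => hbc (e.1.trans e.2.symm))]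
    simp
  · rw [Inv_odd hk]
    rw [hx, Matrix.sub_apply, Matrix.add_apply, Matrix.add_apply, Matrix.one_apply_ne hij,
      zero_add] at h
    by_cases e1 : a = i ∧ b = j
    · left
      rw [← e1.1, ← e1.2]
      exact ⟨ha, hb⟩
    · rw [Matrix.single_apply_of_ne _ _ _ _ _ e1, zero_add] at h
      by_cases e2 : a = i ∧ c = j
      · right; left
        rw [← e2.1, ← e2.2]
        exact ⟨ha, hc⟩
      · rw [Matrix.single_apply_of_ne _ _ _ _ _ e2, zero_sub] at h
        by_cases e3 : b = i ∧ c = j
        · right; right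
          rw [← e3.1, ← e3.2]
          exact ⟨hb, hc⟩
        · rw [Matrix.single_apply_of_ne _ _ _ _ _ e3, neg_zero] at h
          exact absurd rfl h

theorem exists_y [Fintype F] (hF : Fintype.card F = q ^ 2) {k : ℕ} (hk : 2 * k + 3 = n) (a b c : Fin n)
    (ha : a.val = k) (hb : b.val = k + 1) (hc : c.val = k + 2) (t r : F) (hr : r + r ^ q + t * t ^ q = 0) :
    ∃ y ∈ YY n F q k, mt y = 1 + Matrix.single b a t + Matrix.single c a r - Matrix.single c b (t ^ q) := by
  obtain ⟨x, hx, hxm⟩ := exists_x hF hk a b c ha hb hc t r hr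
  obtain ⟨y, hy, hym⟩ := exists_y_of_x hF hx
  refine ⟨y, hy, ?_⟩
  rw [hym, hxm, Matrix.transpose_sub, Matrix.transpose_add, Matrix.transpose_add, Matrix.transpose_one,
    Matrix.transpose_single, Matrix.transpose_single, Matrix.transpose_single]

end Cfsg.Agent.Lib.H49SuRootOdd
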