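import Mathlib
import Cfsg.Agent.Lib.H49SuDefs
import Cfsg.Agent.Lib.H49SuSig
import Cfsg.Agent.Lib.H49SuStar
import Cfsg.Agent.Lib.H49SuInv
import Cfsg.Agent.Lib.H49SuMonB
import Cfsg.Agent.Lib.H49SuMem
import Cfsg.Agent.Lib.H49SuDiag
import Cfsg.Agent.Lib.H49SuSgm
import Cfsg.Agent.Lib.H49SuInvD
import Cfsg.Agent.Lib.H49SuB1
import Cfsg.Agent.Lib.H49SuHalf
import Cfsg.Agent.Lib.H49SuRootOdd

set_option autoImplicit false

/-! Project 2546 (Steinberg character of `PSU_n(q)`), piece `ClearOdd` (60m).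

Same for `2k+3 = n`, `a = k`, `b = k+1`, `c = k+2`.  Put `t = g a b / g a a`, `r = g a c / g a a`.  SHORTEST: `0 = (g * g⁻¹) a c = ∑ i, g a i * (g a (rev i)) ^ q` (`inv_apply`, `rev c = a`); only `i ∈ {a,b,c}` survive (`g` triangular):
`g a a * (g a c)^q + g a b * (g a b)^q + g a c * (g a a)^q = 0`; divide by `g a a * (g a a)^q`: `r + r^q + t * t^q = 0`.
`x = RootOdd.exists_x t r`, `c' = g * x⁻¹ ∈ BB`; from `g = c' * x`: `c' a b = 0`, `c' a c = 0` (row `a`: `g a b = c' a b + t c' a a`, `g a c = c' a c - t^q c' a b + r c' a a`), and `c' b c = 0` by the dual entry argument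
(`c'⁻¹ a b = 0` and `c'⁻¹ a b = (c' (rev b) (rev a))^q = (c' b c)^q`).  `Inv_odd`. -/

namespace Cfsg.Agent.Lib.H49SuClearOdd

open Matrix Cfsg.Agent.Lib.H49SuDefs
open Cfsg.Agent.Lib.H49SuSig Cfsg.Agent.Lib.H49SuStar Cfsg.Agent.Lib.H49SuInv Cfsg.Agent.Lib.H49SuMonB Cfsg.Agent.Lib.H49SuMem Cfsg.Agent.Lib.H49SuDiag Cfsg.Agent.Lib.H49SuSgm Cfsg.Agent.Lib.H49SuInvD Cfsg.Agent.Lib.H49SuB1 Cfsg.Agent.Lib.H49SuHalf Cfsg.Agent.Lib.H49SuRootOdd

variable {n : ℕ} {F : Type*} [Field F] {q : ℕ}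

theorem clear [Fintype F] (hF : Fintype.card F = q ^ 2) {k : ℕ} (hk : 2 * k + 3 = n) {g : GA n F q}
    (hg : g ∈ BB n F q) :
    ∃ c ∈ BB n F q, ∃ x ∈ XX n F q k, (∀ a b, Inv n k a b → mt c a b = 0) ∧ g = c * x := by
  have hq := q_pos hF
  obtain ⟨a, ha⟩ : ∃ a : Fin n, a.val = k := ⟨⟨k, by omega⟩, rfl⟩
  obtain ⟨b, hb⟩ : ∃ b : Fin n, b.val = k + 1 := ⟨⟨k + 1, by omega⟩, rfl⟩
  obtain ⟨c, hc⟩ : ∃ c : Fin n, c.val = k + 2 := ⟨⟨k + 2, by omega⟩, rfl⟩
  have hra : Fin.rev a = c := Fin.ext (by rw [Fin.val_rev]; omega)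
  have hrb : Fin.rev b = b := Fin.ext (by rw [Fin.val_rev]; omega)
  have hrc : Fin.rev c = a := Fin.ext (by rw [Fin.val_rev]; omega)
  have hab : a ≠ b := fun e => by rw [e] at ha; omega
  have hac : a ≠ c := fun e => by rw [e] at ha; omega
  have hbc : b ≠ c := fun e => by rw [e] at hb; omega
  have hsum : ∀ f : Fin n → F, (∀ i : Fin n, i.val ≠ k → i.val ≠ k + 1 → i.val ≠ k + 2 → f i = 0) →
      ∑ i, f i = f a + f b + f c := by
    intro f hf
    rw [← Finset.sum_subset (Finset.subset_univ {a, b, c})]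
    · rw [Finset.sum_insert (by simp [hab, hac]), Finset.sum_insert (by simp [hbc]),
        Finset.sum_singleton, add_assoc]
    · intro i _ hi
      simp only [Finset.mem_insert, Finset.mem_singleton, not_or] at hi
      exact hf i (fun e => hi.1 (Fin.ext (e.trans ha.symm)))
        (fun e => hi.2.1 (Fin.ext (e.trans hb.symm))) (fun e => hi.2.2 (Fin.ext (e.trans hc.symm)))
  have hA : mt g a a ≠ 0 := diag_ne_zero hg a
  have hAq : mt g a a ^ q ≠ 0 := pow_ne_zero _ hA
  have hrel : mt g a a * (mt g a c) ^ q + mt g a b * (mt g a b) ^ q + mt g a c * (mt g a a) ^ q = 0 := by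
    have h : mt (g * g⁻¹) a c = 0 := by
      rw [mul_inv_cancel, mt_one, Matrix.one_apply_ne hac]
    rw [mt_mul, Matrix.mul_apply, hsum] at h
    · rw [inv_apply hF, inv_apply hF, inv_apply hF, hra, hrb, hrc] at h
      exact h
    · intro i h1 h2 h3
      rcases lt_or_ge i.val k with h4 | h4
      · rw [hg.1 a i (by rw [Fin.lt_def]; omega), zero_mul]
      · rw [inv_apply hF, hrc, hg.1 a (Fin.rev i) (by rw [Fin.lt_def, Fin.val_rev]; omega),
          zero_pow hq.ne', mul_zero]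
  have hcond : mt g a c / mt g a a + (mt g a c / mt g a a) ^ q
      + (mt g a b / mt g a a) * (mt g a b / mt g a a) ^ q = 0 := by
    rw [div_pow, div_pow]
    field_simp
    linear_combination hrel
  obtain ⟨x, hx, hxm⟩ := exists_x hF hk a b c ha hb hc (mt g a b / mt g a a) (mt g a c / mt g a a) hcond
  have hc'B : g * x⁻¹ ∈ BB n F q := Subgroup.mul_mem _ hg (Subgroup.inv_mem _ (XX_le hF hx))
  obtain ⟨c', hc'⟩ : ∃ c', c' = g * x⁻¹ := ⟨_, rfl⟩
  rw [← hc'] at hc'B
  have hgc : g = c' * x := by rw [hc']; group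
  have hent : ∀ α β, mt g α β = mt c' α β + (mt c' * Matrix.single a b (mt g a b / mt g a a)) α β
      + (mt c' * Matrix.single a c (mt g a c / mt g a a)) α β
      - (mt c' * Matrix.single b c ((mt g a b / mt g a a) ^ q)) α β := by
    intro α β
    conv_lhs => rw [hgc, mt_mul, hxm, Matrix.mul_sub, Matrix.mul_add, Matrix.mul_add, Matrix.mul_one]
    simp only [Matrix.sub_apply, Matrix.add_apply]
  have e1 : mt g a a = mt c' a a := by
    have := hent a a
    rw [Matrix.mul_single_apply_of_ne _ _ _ _ _ hab, Matrix.mul_single_apply_of_ne _ _ _ _ _ hac,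
      Matrix.mul_single_apply_of_ne _ _ _ _ _ hac] at this
    simpa using this
  have e2 : mt c' a b = 0 := by
    have := hent a b
    rw [Matrix.mul_single_apply_same, Matrix.mul_single_apply_of_ne _ _ _ _ _ hbc,
      Matrix.mul_single_apply_of_ne _ _ _ _ _ hbc, ← e1, mul_div_cancel₀ _ hA] at this
    simpa using this
  have e3 : mt c' a c = 0 := by
    have := hent a c
    rw [Matrix.mul_single_apply_same, Matrix.mul_single_apply_same,
      Matrix.mul_single_apply_of_ne _ _ _ _ _ hbc.symm, ← e1, mul_div_cancel₀ _ hA, e2] at this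
    simpa using this
  have e4 : mt c' b c = 0 := by
    have h : mt (c' * c'⁻¹) a b = 0 := by
      rw [mul_inv_cancel, mt_one, Matrix.one_apply_ne hab]
    rw [mt_mul, Matrix.mul_apply, hsum] at h
    · rw [e2, e3, zero_mul, zero_mul, add_zero, add_zero, inv_apply hF, hra, hrb, ← e1] at h
      rcases mul_eq_zero.1 h with h | h
      · exact absurd h hA
      · exact (pow_eq_zero_iff hq.ne').1 h
    · intro i h1 h2 h3
      rcases lt_or_ge i.val k with h4 | h4
      · rw [hc'B.1 a i (by rw [Fin.lt_def]; omega), zero_mul]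
      · rw [hc'B.2 i b (by rw [Fin.lt_def]; omega), mul_zero]
  refine ⟨c', hc'B, x, hx, ?_, hgc⟩
  intro α β hαβ
  rcases (Inv_odd hk _ _).1 hαβ with ⟨h1, h2⟩ | ⟨h1, h2⟩ | ⟨h1, h2⟩
  · rw [show α = a from Fin.ext (h1.trans ha.symm), show β = b from Fin.ext (h2.trans hb.symm), e2]
  · rw [show α = a from Fin.ext (h1.trans ha.symm), show β = c from Fin.ext (h2.trans hc.symm), e3]
  · rw [show α = b from Fin.ext (h1.trans hb.symm), show β = c from Fin.ext (h2.trans hc.symm), e4]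

end Cfsg.Agent.Lib.H49SuClearOdd
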