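import Mathlib
import Cfsg.Agent.Lib.H49SuDefs
import Cfsg.Agent.Lib.H49SuSig
import Cfsg.Agent.Lib.H49SuStar
import Cfsg.Agent.Lib.H49SuInv
import Cfsg.Agent.Lib.H49SuMonB
import Cfsg.Agent.Lib.H49SuMem

set_option autoImplicit false

/-! Project 2546 (Steinberg character of `PSU_n(q)`), piece `Heis` (80m).

The unipotent radical of the stabiliser of `e_j` in the block `[j, rev j]`. -/

namespace Cfsg.Agent.Lib.H49SuHeis

open Matrix Cfsg.Agent.Lib.H49SuDefs
open Cfsg.Agent.Lib.H49SuSig Cfsg.Agent.Lib.H49SuStar Cfsg.Agent.Lib.H49SuInv Cfsg.Agent.Lib.H49SuMonB Cfsg.Agent.Lib.H49SuMem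

variable {n : ℕ} {F : Type*} [Field F] {q : ℕ}

theorem H_add_left (u u' v : Fin n → F) :
    hermA n F q (u + u') v = hermA n F q u v + hermA n F q u' v := by
  simp only [hermA, Pi.add_apply, add_mul, Finset.sum_add_distrib]

theorem H_add_right [Fintype F] (hF : Fintype.card F = q ^ 2) (u v v' : Fin n → F) :
    hermA n F q u (v + v') = hermA n F q u v + hermA n F q u v' := by
  simp only [hermA, Pi.add_apply, add_powq hF, mul_add, Finset.sum_add_distrib]

theorem H_smul_left (c : F) (u v : Fin n → F) :
    hermA n F q (c • u) v = c * hermA n F q u v := by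
  simp only [hermA, Pi.smul_apply, smul_eq_mul, Finset.mul_sum, mul_assoc]

theorem H_smul_right (c : F) (u v : Fin n → F) :
    hermA n F q u (c • v) = c ^ q * hermA n F q u v := by
  simp only [hermA, Pi.smul_apply, smul_eq_mul, Finset.mul_sum, mul_pow]
  apply Finset.sum_congr rfl
  intro i _
  ring

theorem H_single_left (a : Fin n) (w : Fin n → F) :
    hermA n F q (Pi.single a 1) w = (w (Fin.rev a)) ^ q := by
  unfold hermA
  rw [Finset.sum_eq_single a]
  · rw [Pi.single_eq_same, one_mul]
  · intro b _ hb
    rw [Pi.single_eq_of_ne hb, zero_mul]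
  · intro h
    exact absurd (Finset.mem_univ a) h

theorem H_single_right (hq : q ≠ 0) (w : Fin n → F) (b : Fin n) :
    hermA n F q w (Pi.single b 1) = w (Fin.rev b) := by
  unfold hermA
  rw [Finset.sum_eq_single (Fin.rev b)]
  · rw [Fin.rev_rev, Pi.single_eq_same, one_pow, mul_one]
  · intro c _ hc
    have : Fin.rev c ≠ b := by
      intro h
      apply hc
      rw [← h, Fin.rev_rev]
    rw [Pi.single_eq_of_ne this, zero_pow hq, mul_zero]
  · intro h
    exact absurd (Finset.mem_univ _) h

theorem H_symm [Fintype F] (hF : Fintype.card F = q ^ 2) (u v : Fin n → F) :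
    (hermA n F q u v) ^ q = hermA n F q v u := by
  unfold hermA
  rw [sum_powq hF, ← Equiv.sum_comp Fin.revPerm]
  apply Finset.sum_congr rfl
  intro i _
  rw [Fin.revPerm_apply, Fin.rev_rev, mul_pow, powq_powq hF, mul_comm]

theorem heis [Fintype F] (hF : Fintype.card F = q ^ 2) (j : Fin n) (hj : 2 * j.val + 1 < n) (v : Fin n → F)
    (hv : hermA n F q v v = 0) (h0 : ∀ a, Fin.rev j < a → v a = 0) (hβ : v (Fin.rev j) ≠ 0) :
    ∃ h ∈ UU n F q, ∀ a, j ≤ a → a < Fin.rev j → (mt h *ᵥ v) a = 0 := by
  classical
  have hq : 0 < q := q_pos hF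
  have hq0 : q ≠ 0 := hq.ne'
  obtain ⟨R, hR⟩ : ∃ R, R = Fin.rev j := ⟨_, rfl⟩
  rw [← hR] at h0 hβ ⊢
  have hRv : R.val = n - (j.val + 1) := by rw [hR, Fin.val_rev]
  have hjR : j < R := by rw [Fin.lt_def]; omega
  have hRj : Fin.rev R = j := by rw [hR, Fin.rev_rev]
  obtain ⟨β, hβd⟩ : ∃ β, β = v R := ⟨_, rfl⟩
  rw [← hβd] at hβ
  obtain ⟨w, hw⟩ : ∃ w : Fin n → F, ∀ a, w a = if j < a ∧ a < R then v a / β else 0 :=
    ⟨_, fun _ => rfl⟩
  have hw_mid : ∀ a, j < a → a < R → w a = v a / β := fun a h1 h2 => by rw [hw, if_pos ⟨h1, h2⟩]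
  have hw_out : ∀ a, ¬ (j < a ∧ a < R) → w a = 0 := fun a h => by rw [hw, if_neg h]
  have hmid_rev : ∀ a : Fin n, (j < Fin.rev a ∧ Fin.rev a < R) ↔ (j < a ∧ a < R) := by
    intro a
    have := a.isLt
    simp only [Fin.lt_def, Fin.val_rev]
    omega
  have hwj : w j = 0 := hw_out j (fun h => lt_irrefl _ h.1)
  have hwR : w R = 0 := hw_out R (fun h => lt_irrefl _ h.2)
  obtain ⟨N, hN⟩ : ∃ N, N = hermA n F q w w := ⟨_, rfl⟩
  have hNq : N ^ q = N := by rw [hN, H_symm hF]
  obtain ⟨r, hr⟩ : ∃ r, r = - (v j / β) - N := ⟨_, rfl⟩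
  -- the relation
  have hrel : v j / β + (v j / β) ^ q + N = 0 := by
    have h1 : hermA n F q v v = v j * β ^ q + β * (v j) ^ q + β * β ^ q * N := by
      have h2 : ∀ i, v i * (v (Fin.rev i)) ^ q =
          (if i = j then v j * β ^ q else 0) + (if i = R then β * (v j) ^ q else 0) +
            β * β ^ q * (w i * (w (Fin.rev i)) ^ q) := by
        intro i
        by_cases hij : i = j
        · subst hij
          rw [if_pos rfl, if_neg hjR.ne, hwj, ← hR, ← hβd]
          ring
        by_cases hiR : i = R
        · subst hiR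
          rw [if_neg hij, if_pos rfl, hwR, hRj, ← hβd]
          ring
        rw [if_neg hij, if_neg hiR]
        by_cases hm : j < i ∧ i < R
        · rw [hw_mid i hm.1 hm.2, hw_mid _ ((hmid_rev i).2 hm).1 ((hmid_rev i).2 hm).2, div_pow]
          have : β ^ q ≠ 0 := pow_ne_zero _ hβ
          field_simp
          ring
        · rw [hw_out i hm]
          have : v i = 0 ∨ v (Fin.rev i) = 0 := by
            rcases lt_or_ge R i with h | h
            · exact Or.inl (h0 i h)
            · right
              apply h0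
              have hi1 : i < j := by
                by_contra hc
                apply hm
                exact ⟨lt_of_le_of_ne (not_lt.1 hc) (Ne.symm hij), lt_of_le_of_ne h hiR⟩
              have := i.isLt
              rw [Fin.lt_def] at hi1 ⊢
              rw [Fin.val_rev]
              omega
          rcases this with h | h
          · rw [h]; ring
          · rw [h, zero_pow hq0]; ring
      unfold hermA at hN ⊢
      rw [Finset.sum_congr rfl (fun i _ => h2 i), Finset.sum_add_distrib, Finset.sum_add_distrib,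
        Finset.sum_ite_eq' Finset.univ j, Finset.sum_ite_eq' Finset.univ R, ← Finset.mul_sum, ← hN]
      simp
    rw [hv] at h1
    have hb : β ^ q ≠ 0 := pow_ne_zero _ hβ
    rw [div_pow]
    field_simp
    linear_combination -h1
  have hrr : r + r ^ q + N = 0 := by
    have : r ^ q = - (v j / β) ^ q - N := by
      rw [hr, sub_eq_add_neg, add_powq hF, neg_powq hF, neg_powq hF, hNq]
      ring
    rw [this, hr]
    linear_combination -hrel
  -- the matrix
  obtain ⟨y, hy⟩ : ∃ y : Fin n → F, ∀ b, y b = if b = R then 1 else 0 := ⟨_, fun _ => rfl⟩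
  obtain ⟨x, hx⟩ : ∃ x : Fin n → F, ∀ b, x b = (w (Fin.rev b)) ^ q + y b * r := ⟨_, fun _ => rfl⟩
  obtain ⟨col, hcol⟩ : ∃ col : Fin n → Fin n → F, ∀ b, col b =
      Pi.single b 1 + x b • Pi.single j 1 + (- y b) • w := ⟨_, fun _ => rfl⟩
  have hcol_apply : ∀ b a, col b a = (if a = b then 1 else 0) + x b * (if a = j then 1 else 0)
      - y b * w a := by
    intro b a
    rw [hcol]
    simp only [Pi.add_apply, Pi.smul_apply, smul_eq_mul, Pi.single_apply]
    ring
  obtain ⟨M, hM⟩ : ∃ M : Matrix (Fin n) (Fin n) F, ∀ a b, M a b = col b a :=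
    ⟨Matrix.of (fun a b => col b a), fun _ _ => rfl⟩
  have hyR : y R = 1 := by rw [hy, if_pos rfl]
  have hyne : ∀ b, b ≠ R → y b = 0 := fun b hb => by rw [hy, if_neg hb]
  have hUT : UT M := by
    constructor
    · intro a b hba
      rw [hM, hcol_apply, if_neg hba.ne']
      have h1 : x b * (if a = j then 1 else 0) = 0 := by
        by_cases haj : a = j
        · subst haj
          have hbR : b ≠ R := (lt_trans hba hjR).ne
          have : w (Fin.rev b) = 0 := by
            apply hw_out
            rw [hmid_rev]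
            exact fun h => lt_asymm h.1 hba
          rw [hx, this, zero_pow hq0, hyne b hbR]
          ring
        · rw [if_neg haj, mul_zero]
      have h2 : y b * w a = 0 := by
        by_cases hbR : b = R
        · subst hbR
          rw [hw_out a (fun h => lt_asymm h.2 hba), mul_zero]
        · rw [hyne b hbR, zero_mul]
      rw [h1, h2]
      ring
    · intro a
      rw [hM, hcol_apply, if_pos rfl]
      have h1 : x a * (if a = j then 1 else 0) = 0 := by
        by_cases haj : a = j
        · subst haj
          rw [hx, ← hR, hwR, zero_pow hq0, hyne a hjR.ne]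
          ring
        · rw [if_neg haj, mul_zero]
      have h2 : y a * w a = 0 := by
        by_cases hbR : a = R
        · subst hbR
          rw [hwR, mul_zero]
        · rw [hyne a hbR, zero_mul]
      rw [h1, h2]
      ring
  have hdet : M.det = 1 := by
    rw [Matrix.det_of_upperTriangular (M := M) (fun a b hab => hUT.1 a b hab)]
    exact Finset.prod_eq_one (fun a _ => hUT.2 a)
  have hstar : ∀ a b, ∑ i, M i a * (M (Fin.rev i) b) ^ q = if b = Fin.rev a then 1 else 0 := by
    intro a b
    have e1 : ∑ i, M i a * (M (Fin.rev i) b) ^ q = hermA n F q (col a) (col b) := by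
      unfold hermA
      apply Finset.sum_congr rfl
      intro i _
      rw [hM, hM]
    have e2 : hermA n F q w (col b) = w (Fin.rev b) + (- y b) ^ q * N := by
      rw [hcol b, H_add_right hF, H_add_right hF, H_smul_right, H_smul_right, H_single_right hq0,
        H_single_right hq0, ← hR, hwR, ← hN]
      ring
    have e3 : hermA n F q (col a) (col b) =
        (col b (Fin.rev a)) ^ q + x a * (col b R) ^ q - y a * (w (Fin.rev b) + (- y b) ^ q * N) := by
      conv_lhs => rw [hcol a]
      rw [H_add_left, H_add_left, H_smul_left, H_smul_left, H_single_left, H_single_left, e2, ← hR]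
      ring
    have e4 : col b R = y b := by
      rw [hcol_apply, if_neg hjR.ne', hwR, hy]
      by_cases hb : b = R
      · subst hb; simp
      · rw [if_neg hb, if_neg (Ne.symm hb)]; ring
    rw [e1, e3, e4, hcol_apply]
    by_cases ha : a = R
    · subst ha
      rw [hRj, if_pos rfl, hyR, hwj]
      by_cases hb : b = a
      · subst hb
        rw [hyR, if_neg hjR.ne, if_neg hjR.ne', hx, hRj, hwj, hyR, zero_pow hq0, neg_powq hF, one_pow]
        have : (0 + (0 + 1 * r) * 1 - 1 * 0 : F) = r := by ring
        rw [this]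
        linear_combination hrr
      · rw [hyne b hb, hx b, hyne b hb]
        have e5 : ((if j = b then (1 : F) else 0) + ((w (Fin.rev b)) ^ q + 0 * r) * 1 - 0 * 0) =
            (if j = b then (1 : F) else 0) + (w (Fin.rev b)) ^ q := by ring
        rw [e5, add_powq hF, powq_powq hF, neg_zero, zero_pow hq0]
        by_cases hbj : b = j
        · subst hbj
          rw [if_pos rfl, one_pow]; ring
        · rw [if_neg hbj, if_neg (Ne.symm hbj), zero_pow hq0]; ring
    · have haj : Fin.rev a ≠ j := by
        intro h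
        apply ha
        rw [hR, ← h, Fin.rev_rev]
      rw [hyne a ha, if_neg haj]
      by_cases hb : b = R
      · subst hb
        rw [hyR, hx a, hyne a ha, one_pow]
        have e5 : ((if Fin.rev a = b then (1 : F) else 0) + x b * 0 - 1 * w (Fin.rev a)) =
            (if Fin.rev a = b then (1 : F) else 0) + - w (Fin.rev a) := by ring
        rw [e5, add_powq hF, neg_powq hF]
        by_cases hab : b = Fin.rev a
        · rw [if_pos hab, if_pos hab.symm, one_pow]; ring
        · rw [if_neg hab, if_neg (Ne.symm hab), zero_pow hq0]; ring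
      · rw [hyne b hb, zero_pow hq0]
        have e5 : ((if Fin.rev a = b then (1 : F) else 0) + x b * 0 - 0 * w (Fin.rev a)) =
            (if Fin.rev a = b then (1 : F) else 0) := by ring
        rw [e5]
        by_cases hab : b = Fin.rev a
        · rw [if_pos hab, if_pos hab.symm, one_pow]; ring
        · rw [if_neg hab, if_neg (Ne.symm hab), zero_pow hq0]; ring
  obtain ⟨h, hh⟩ := Cfsg.Agent.Lib.H49SuStar.mk hF M hdet hstar
  refine ⟨h, (mem_UU hF).2 (by rw [hh]; exact hUT), ?_⟩
  intro a haj haR
  rw [hh]
  have e0 : (M *ᵥ v) a = ∑ b, col b a * v b := by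
    unfold Matrix.mulVec dotProduct
    apply Finset.sum_congr rfl
    intro b _
    show M a b * v b = _
    rw [hM]
  have e1 : ∀ b, col b a * v b = (if b = a then v a else 0) +
      (if a = j then 1 else 0) * (v b * (w (Fin.rev b)) ^ q) +
      (if b = R then ((if a = j then 1 else 0) * r * β - w a * β) else 0) := by
    intro b
    rw [hcol_apply, hx, hy]
    by_cases hba : b = a
    · subst hba
      simp only [if_true, if_neg haR.ne]
      ring
    · rw [if_neg hba, if_neg (Ne.symm hba)]
      by_cases hbR : b = R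
      · subst hbR
        rw [if_pos rfl, if_pos rfl, ← hβd]
        ring
      · rw [if_neg hbR, if_neg hbR]
        ring
  have e2 : ∑ b, v b * (w (Fin.rev b)) ^ q = β * N := by
    rw [hN]
    unfold hermA
    rw [Finset.mul_sum]
    apply Finset.sum_congr rfl
    intro b _
    by_cases hm : j < b ∧ b < R
    · rw [hw_mid b hm.1 hm.2]
      field_simp
    · rw [hw_out (Fin.rev b) (fun h => hm ((hmid_rev b).1 h)), zero_pow hq0]
      ring
  rw [e0, Finset.sum_congr rfl (fun b _ => e1 b), Finset.sum_add_distrib, Finset.sum_add_distrib,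
    Finset.sum_ite_eq' Finset.univ a, Finset.sum_ite_eq' Finset.univ R, ← Finset.mul_sum, e2]
  simp only [Finset.mem_univ, if_true]
  by_cases h1 : a = j
  · subst h1
    rw [if_pos rfl, hwj, hr]
    field_simp
    ring
  · rw [if_neg h1, hw_mid a (lt_of_le_of_ne haj (Ne.symm h1)) haR]
    field_simp
    ring

end Cfsg.Agent.Lib.H49SuHeis
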