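import Mathlib
import Cfsg.Agent.Lib.H49SuDefs
import Cfsg.Agent.Lib.H49SuSig
import Cfsg.Agent.Lib.H49SuStar
import Cfsg.Agent.Lib.H49SuInv
import Cfsg.Agent.Lib.H49SuMonB
import Cfsg.Agent.Lib.H49SuMem
import Cfsg.Agent.Lib.H49SuHalf
import Cfsg.Agent.Lib.H49SuRefl
import Cfsg.Agent.Lib.H49SuW
import Cfsg.Agent.Lib.H49SuLift
import Cfsg.Agent.Lib.H49SuCol1
import Cfsg.Agent.Lib.H49SuHeis

set_option autoImplicit false

/-! Project 2546 (Steinberg character of `PSU_n(q)`), piece `Col` (70m).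

One step of the elimination.  Let `j' : Fin n` be the index `j`, `v = column j'` of `g` (`v = mt g *ᵥ Pi.single j' 1`); `hermA v v = hermA e e = 0` (`herm_mulVec`, `j' ≠ rev j'`), `v a = 0` for `a > rev j'` (`col_perp`), and `v a ≠ 0` for some `a ≥ j'`
(otherwise the first `j+1` columns of the invertible `g` lie in the span of `e_0..e_{j-1}`; or: `mt g⁻¹ * mt g = 1` at `(j', j')` together with `mt g⁻¹ j' c = 0` for `c < j'` as in `half_inv`).  Let `c` be the largest index with `v c ≠ 0`.  If `c = j'` take `h = 1`.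
Otherwise `c ≠ rev c` (else `hermA v v = v c * (v c)^q ≠ 0`).  (1) `n₁ ∈ NN` (`nlift`) for a permutation commuting with `rev`, fixing all `b < j'`, with `π₁ c = rev j'` (`π₁ = swap c (rev j') * swap (rev c) j'`, or `1` if `c = rev j'`); (2) `h₂ ∈ UU` from `heis` for `n₁ v`;
(3) `n₃ ∈ NN` for `π₃ = swap j' (rev j')`.  `h = n₃ h₂ n₁`.  Left multiplication by `n₁, n₃` (monomial, fixing the indices `< j'`) and by `h₂` (upper triangular) keeps the columns `< j` upper triangular, and the column `j` of `h g` is supported on `[0, j]`. -/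

namespace Cfsg.Agent.Lib.H49SuCol

open Matrix Cfsg.Agent.Lib.H49SuDefs
open Cfsg.Agent.Lib.H49SuSig Cfsg.Agent.Lib.H49SuStar Cfsg.Agent.Lib.H49SuInv Cfsg.Agent.Lib.H49SuMonB Cfsg.Agent.Lib.H49SuMem Cfsg.Agent.Lib.H49SuHalf Cfsg.Agent.Lib.H49SuRefl Cfsg.Agent.Lib.H49SuW Cfsg.Agent.Lib.H49SuLift Cfsg.Agent.Lib.H49SuCol1 Cfsg.Agent.Lib.H49SuHeis

variable {n : ℕ} {F : Type*} [Field F] {q : ℕ}

theorem mon_apply {π : Equiv.Perm (Fin n)} {M : Matrix (Fin n) (Fin n) F} (h : Mon π M)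
    (u : Fin n → F) (c : Fin n) : (M *ᵥ u) (π c) = M (π c) c * u c := by
  show ∑ d, M (π c) d * u d = _
  apply Finset.sum_eq_single c
  · intro d _ hd
    have : M (π c) d = 0 := by
      by_contra h'
      exact hd (π.injective ((h _ _).1 h')).symm
    rw [this, zero_mul]
  · intro h'
    exact absurd (Finset.mem_univ _) h'

theorem tri_sup {M : Matrix (Fin n) (Fin n) F} (h : Tri M) {u : Fin n → F} {b : Fin n}
    (hu : ∀ c, b < c → u c = 0) : ∀ a, b < a → (M *ᵥ u) a = 0 := by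
  intro a hab
  show ∑ d, M a d * u d = 0
  apply Finset.sum_eq_zero
  intro d _
  rcases lt_or_ge d a with hd | hd
  · rw [h a d hd, zero_mul]
  · rw [hu d (lt_of_lt_of_le hab hd), mul_zero]

theorem mon_sup {π : Equiv.Perm (Fin n)} {M : Matrix (Fin n) (Fin n) F} (h : Mon π M) {j' : Fin n}
    (hπ : ∀ c, c < j' → π c = c) {u : Fin n → F} {b : Fin n} (hb : b < j')
    (hu : ∀ c, b < c → u c = 0) : ∀ a, b < a → (M *ᵥ u) a = 0 := by
  intro a hab
  obtain ⟨c, rfl⟩ := π.surjective a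
  rw [mon_apply h]
  rcases lt_or_ge b c with hc | hc
  · rw [hu c hc, mul_zero]
  · rw [hπ c (lt_of_le_of_lt hc hb)] at hab
    exact absurd hab (not_lt.2 hc)

theorem swap_rev (x : Fin n) (a : Fin n) :
    Equiv.swap x (Fin.rev x) (Fin.rev a) = Fin.rev (Equiv.swap x (Fin.rev x) a) := by
  have h := Function.Injective.swap_apply (Fin.rev_injective (n := n)) (Fin.rev x) x a
  rw [Fin.rev_rev] at h
  rw [h, Equiv.swap_comm]

theorem swap2_rev {c d : Fin n} (h1 : c ≠ Fin.rev c) (h2 : d ≠ Fin.rev d) (h3 : c ≠ Fin.rev d)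
    (a : Fin n) :
    (Equiv.swap c d * Equiv.swap (Fin.rev c) (Fin.rev d)) (Fin.rev a)
      = Fin.rev ((Equiv.swap c d * Equiv.swap (Fin.rev c) (Fin.rev d)) a) := by
  have hinj := Fin.rev_injective (n := n)
  rw [Equiv.Perm.mul_apply, Equiv.Perm.mul_apply, hinj.swap_apply]
  have e := hinj.swap_apply (Fin.rev c) (Fin.rev d) (Equiv.swap c d a)
  rw [Fin.rev_rev, Fin.rev_rev] at e
  rw [e]
  congr 1
  by_cases hcd : c = d
  · subst hcd
    simp
  · have hdis : Equiv.Perm.Disjoint (Equiv.swap c d) (Equiv.swap (Fin.rev c) (Fin.rev d)) := by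
      apply Equiv.Perm.disjoint_swap_swap
      have h4 : d ≠ Fin.rev c := fun e => h3 (by rw [e, Fin.rev_rev])
      have h5 : Fin.rev c ≠ Fin.rev d := fun e => hcd (hinj e)
      simp [hcd, h1, h2, h3, h4, h5]
    have := congrArg (fun σ : Equiv.Perm (Fin n) => σ a) hdis.commute.eq
    simpa [Equiv.Perm.mul_apply] using this.symm

theorem col [Fintype F] (hF : Fintype.card F = q ^ 2) (j : ℕ) (hj : 2 * j + 1 < n) (g : GA n F q)
    (hg : ∀ a b : Fin n, b.val < j → b < a → mt g a b = 0) :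
    ∃ h ∈ BB n F q ⊔ NN n F q, ∀ a b : Fin n, b.val < j + 1 → b < a → mt (h * g) a b = 0 := by
  have hq := q_pos hF
  obtain ⟨j', hj'⟩ : ∃ j' : Fin n, j'.val = j := ⟨⟨j, by omega⟩, rfl⟩
  have hjr : j' < Fin.rev j' := by
    rw [Fin.lt_def, Fin.val_rev]; omega
  obtain ⟨v, hv⟩ : ∃ v : Fin n → F, v = fun a => mt g a j' := ⟨_, rfl⟩
  have hcolumn : ∀ (h : GA n F q) (a b : Fin n), mt (h * g) a b = (mt h *ᵥ fun c => mt g c b) a :=
    fun h a b => rfl
  have hlt : ∀ b : Fin n, b.val < j ↔ b < j' := fun b => by rw [Fin.lt_def, hj']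
  by_cases H : ∀ a, j' < a → v a = 0
  · refine ⟨1, Subgroup.one_mem _, fun a b hb hba => ?_⟩
    rw [one_mul]
    rcases Nat.lt_succ_iff_lt_or_eq.1 hb with hb' | hb'
    · exact hg a b hb' hba
    · have : b = j' := Fin.ext (hb'.trans hj'.symm)
      subst this
      have := H a hba
      rwa [hv] at this
  push_neg at H
  obtain ⟨c₀, hc₀, hvc₀⟩ := H
  have hv0 : hermA n F q v v = 0 := by
    have := star hF g j' j'
    rw [if_neg (ne_of_lt hjr)] at this
    rw [hv]
    exact this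
  have hperp : ∀ a, Fin.rev j' < a → v a = 0 := by
    intro a ha
    rw [hv]
    exact col_perp hF j' (by omega) g (fun a b hb hba => hg a b ((hlt b).2 hb) hba) a ha
  obtain ⟨c, hc1, hc2, hc3, hc4⟩ : ∃ c, j' < c ∧ c ≤ Fin.rev j' ∧ c ≠ Fin.rev c ∧ v c ≠ 0 := by
    by_contra hno
    push_neg at hno
    have hc₀' : c₀ ≤ Fin.rev j' := by
      by_contra h
      exact hvc₀ (hperp c₀ (not_le.1 h))
    have hc₀r : c₀ = Fin.rev c₀ := by
      by_contra h
      exact hvc₀ (hno c₀ hc₀ hc₀' h)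
    have hsum : hermA n F q v v = v c₀ * (v (Fin.rev c₀)) ^ q := by
      unfold hermA
      apply Finset.sum_eq_single c₀
      · intro i _ hi
        rcases lt_trichotomy i j' with h | h | h
        · have : Fin.rev j' < Fin.rev i := Fin.rev_lt_rev.2 h
          rw [hperp _ this, zero_pow hq.ne', mul_zero]
        · subst h
          rw [hno (Fin.rev i) hjr le_rfl (by rw [Fin.rev_rev]; exact (ne_of_lt hjr).symm),
            zero_pow hq.ne', mul_zero]
        · by_cases h2 : i ≤ Fin.rev j'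
          · by_cases h3 : i = Fin.rev i
            · exfalso
              apply hi
              have e1 := congrArg Fin.val h3
              have e2 := congrArg Fin.val hc₀r
              rw [Fin.val_rev] at e1 e2
              exact Fin.ext (by omega)
            · rw [hno i h h2 h3, zero_mul]
          · rw [hperp i (not_le.1 h2), zero_mul]
      · intro h
        exact absurd (Finset.mem_univ _) h
    rw [hv0, ← hc₀r] at hsum
    exact mul_ne_zero hvc₀ (pow_ne_zero _ hvc₀) hsum.symm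
  -- the first permutation
  obtain ⟨π₁, hπ₁⟩ : ∃ π₁ : Equiv.Perm (Fin n),
      π₁ = Equiv.swap c (Fin.rev j') * Equiv.swap (Fin.rev c) (Fin.rev (Fin.rev j')) := ⟨_, rfl⟩
  have hπ₁rev : ∀ a, π₁ (Fin.rev a) = Fin.rev (π₁ a) := by
    intro a
    rw [hπ₁]
    exact swap2_rev hc3 (by rw [Fin.rev_rev]; exact (ne_of_lt hjr).symm)
      (by rw [Fin.rev_rev]; exact (ne_of_lt hc1).symm) a
  have hrc : j' ≤ Fin.rev c := by
    have := Fin.rev_le_rev.2 hc2
    rwa [Fin.rev_rev] at this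
  have hπ₁fix : ∀ b, b < j' → π₁ b = b := by
    intro b hb
    rw [hπ₁, Equiv.Perm.mul_apply, Fin.rev_rev,
      Equiv.swap_apply_of_ne_of_ne (ne_of_lt (lt_of_lt_of_le hb hrc)) (ne_of_lt hb),
      Equiv.swap_apply_of_ne_of_ne (ne_of_lt (hb.trans hc1)) (ne_of_lt (hb.trans hjr))]
  have hπ₁c : π₁ c = Fin.rev j' := by
    rw [hπ₁, Equiv.Perm.mul_apply, Fin.rev_rev,
      Equiv.swap_apply_of_ne_of_ne hc3 (ne_of_lt hc1).symm, Equiv.swap_apply_left]
  have hπ₁top : ∀ a, Fin.rev j' < a → π₁ a = a := by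
    intro a ha
    have h1 : Fin.rev a < j' := by
      have := Fin.rev_lt_rev.2 ha
      rwa [Fin.rev_rev] at this
    have h2 := hπ₁rev a
    rw [hπ₁fix _ h1] at h2
    exact (Fin.rev_injective h2).symm
  obtain ⟨m₁, hm₁N, hm₁⟩ := nlift hF π₁ hπ₁rev
  obtain ⟨v₁, hv₁⟩ : ∃ v₁ : Fin n → F, v₁ = mt m₁ *ᵥ v := ⟨_, rfl⟩
  have hv₁0 : hermA n F q v₁ v₁ = 0 := by
    rw [hv₁, herm_mulVec, hv0]
  have hv₁top : ∀ a, Fin.rev j' < a → v₁ a = 0 := by
    intro a ha
    have := mon_apply hm₁ v a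
    rw [hπ₁top a ha] at this
    rw [hv₁, this, hperp a ha, mul_zero]
  have hv₁β : v₁ (Fin.rev j') ≠ 0 := by
    have := mon_apply hm₁ v c
    rw [hπ₁c] at this
    rw [hv₁, this]
    exact mul_ne_zero ((hm₁ _ _).2 hπ₁c.symm) hc4
  obtain ⟨h₂, hh₂U, hh₂⟩ := heis hF j' (by omega) v₁ hv₁0 hv₁top hv₁β
  have hh₂T : Tri (mt h₂) := ((mem_UU hF).1 hh₂U).1
  -- the last permutation
  obtain ⟨m₃, hm₃N, hm₃⟩ := nlift hF (Equiv.swap j' (Fin.rev j')) (swap_rev j')
  have hπ₃fix : ∀ b, b < j' → Equiv.swap j' (Fin.rev j') b = b := fun b hb =>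
    Equiv.swap_apply_of_ne_of_ne (ne_of_lt hb) (ne_of_lt (hb.trans hjr))
  refine ⟨m₃ * h₂ * m₁, Subgroup.mul_mem _ (Subgroup.mul_mem _ (Subgroup.mem_sup_right hm₃N)
    (Subgroup.mem_sup_left (UU_le_BB hh₂U))) (Subgroup.mem_sup_right hm₁N), fun a b hb hba => ?_⟩
  rw [hcolumn, mt_mul, mt_mul, ← Matrix.mulVec_mulVec, ← Matrix.mulVec_mulVec]
  rcases Nat.lt_succ_iff_lt_or_eq.1 hb with hb' | hb'
  · have hbj := (hlt b).1 hb'
    exact mon_sup hm₃ hπ₃fix hbj (tri_sup hh₂T (mon_sup hm₁ hπ₁fix hbj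
      (fun c hc => hg c b hb' hc))) a hba
  · have : b = j' := Fin.ext (hb'.trans hj'.symm)
    subst this
    rw [← hv, ← hv₁]
    obtain ⟨c', rfl⟩ := (Equiv.swap b (Fin.rev b)).surjective a
    rw [mon_apply hm₃]
    have : (mt h₂ *ᵥ v₁) c' = 0 := by
      rcases lt_or_ge c' b with h | h
      · rw [hπ₃fix c' h] at hba
        exact absurd hba (not_lt.2 h.le)
      · rcases lt_trichotomy c' (Fin.rev b) with h' | h' | h'
        · exact hh₂ c' h h'
        · subst h'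
          rw [Equiv.swap_apply_right] at hba
          exact absurd hba (lt_irrefl _)
        · exact tri_sup hh₂T hv₁top c' h'
    rw [this, mul_zero]

end Cfsg.Agent.Lib.H49SuCol
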