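import Mathlib
import Cfsg.Agent.Lib.H49SuDefs
import Cfsg.Agent.Lib.H49SuSig
import Cfsg.Agent.Lib.H49SuStar
import Cfsg.Agent.Lib.H49SuInv
import Cfsg.Agent.Lib.H49SuMonB
import Cfsg.Agent.Lib.H49SuMem
import Cfsg.Agent.Lib.H49SuDiag
import Cfsg.Agent.Lib.H49SuTN
import Cfsg.Agent.Lib.H49SuMonMk

set_option autoImplicit false

/-! Project 2546 (Steinberg character of `PSU_n(q)`), piece `Dec` (35m).

`t = monMk 1 _ d` with `d a = mt g a a`: `d a * (d (rev a))^q = 1` by `diag_inv` + `inv_apply` (`mt g⁻¹ a a = (mt g (rev a) (rev a))^q = (mt g a a)⁻¹`, apply it at `rev a` or use `powq_powq`), `sign 1 = 1`, `∏ d = det (mt g) = 1`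
(`Matrix.det_of_upperTriangular`, `g.1.2 : det = 1`).  `t ∈ TT` (`Mon_one_iff`).  `u = g * t⁻¹ ∈ BB` has diagonal `1` (`diag_mul`, `diag_inv`), `mem_UU`. -/

namespace Cfsg.Agent.Lib.H49SuDec

open Matrix Cfsg.Agent.Lib.H49SuDefs
open Cfsg.Agent.Lib.H49SuSig Cfsg.Agent.Lib.H49SuStar Cfsg.Agent.Lib.H49SuInv Cfsg.Agent.Lib.H49SuMonB Cfsg.Agent.Lib.H49SuMem Cfsg.Agent.Lib.H49SuDiag Cfsg.Agent.Lib.H49SuTN Cfsg.Agent.Lib.H49SuMonMk

variable {n : ℕ} {F : Type*} [Field F] {q : ℕ}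

theorem BB_decomp [Fintype F] (hF : Fintype.card F = q ^ 2) {g : GA n F q} (hg : g ∈ BB n F q) :
    ∃ u ∈ UU n F q, ∃ t ∈ TT n F q, g = u * t := by
  have hd : ∀ a, mt g a a * (mt g (Fin.rev a) (Fin.rev a)) ^ q = 1 := by
    intro a
    rw [← inv_apply hF g a a, diag_inv hg a]
    exact mul_inv_cancel₀ (diag_ne_zero hg a)
  have hdet : (((Equiv.Perm.sign (1 : Equiv.Perm (Fin n)) : ℤˣ) : ℤ) : F) * ∏ a, mt g a a = 1 := by
    have h1 : (mt g).det = ∏ a, mt g a a := by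
      apply Matrix.det_of_upperTriangular
      intro a b hab
      exact hg.1 a b hab
    have h2 : (mt g).det = 1 := g.1.2
    rw [← h1, h2]
    simp
  obtain ⟨t, ht, htM⟩ := monMk hF 1 (fun a => rfl) (fun a => mt g a a) hd hdet
  have htT : t ∈ TT n F q := (Mon_one_iff hF).1 htM
  have htB : t ∈ BB n F q := TT_le_BB htT
  have huB : g * t⁻¹ ∈ BB n F q := (BB n F q).mul_mem hg ((BB n F q).inv_mem htB)
  refine ⟨g * t⁻¹, ?_, t, htT, by rw [inv_mul_cancel_right]⟩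
  rw [mem_UU hF]
  refine ⟨(mem_BB hF).1 huB, ?_⟩
  intro a
  rw [diag_mul hg ((BB n F q).inv_mem htB) a, diag_inv htB a, ht a a]
  simp only [Equiv.Perm.one_apply, if_true]
  exact mul_inv_cancel₀ (diag_ne_zero hg a)

end Cfsg.Agent.Lib.H49SuDec
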