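import Mathlib
import Cfsg.Agent.Lib.H49SuDefs
import Cfsg.Agent.Lib.H49SuSig
import Cfsg.Agent.Lib.H49SuStar
import Cfsg.Agent.Lib.H49SuInv
import Cfsg.Agent.Lib.H49SuMonB
import Cfsg.Agent.Lib.H49SuMem

set_option autoImplicit false

/-! Project 2546 (Steinberg character of `PSU_n(q)`), piece `NT` (10m).

COPY of the landed `H49SgNT`. -/

namespace Cfsg.Agent.Lib.H49SuNT

open Matrix Cfsg.Agent.Lib.H49SuDefs
open Cfsg.Agent.Lib.H49SuSig Cfsg.Agent.Lib.H49SuStar Cfsg.Agent.Lib.H49SuInv Cfsg.Agent.Lib.H49SuMonB Cfsg.Agent.Lib.H49SuMem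

variable {n : ℕ} {F : Type*} [Field F] {q : ℕ}

theorem NN_conj_TT [Fintype F] (hF : Fintype.card F = q ^ 2) {g t : GA n F q} (hg : g ∈ NN n F q)
    (ht : t ∈ TT n F q) : g * t * g⁻¹ ∈ TT n F q := by
  obtain ⟨π, hπ⟩ := mem_NN.1 hg
  rw [mem_TT hF]
  intro a b hab
  have h1 := (conj_zero hπ t (π⁻¹ a) (π⁻¹ b)).2
    (ht.1 _ _ (fun e => hab (π⁻¹.injective e)))
  rwa [perm_apply_inv, perm_apply_inv] at h1

end Cfsg.Agent.Lib.H49SuNT
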