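import Mathlib
import Cfsg.Agent.Lib.H49SuDefs
import Cfsg.Agent.Lib.H49SuSig
import Cfsg.Agent.Lib.H49SuStar
import Cfsg.Agent.Lib.H49SuInv
import Cfsg.Agent.Lib.H49SuMonB
import Cfsg.Agent.Lib.H49SuMem
import Cfsg.Agent.Lib.H49SuDiag
import Cfsg.Agent.Lib.H49SuTN
import Cfsg.Agent.Lib.H49SuBNT
import Cfsg.Agent.Lib.H49SuSgm

set_option autoImplicit false

/-! Project 2546 (Steinberg character of `PSU_n(q)`), piece `Sq` (15m).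

`s * s` is `Mon (sgm n k * sgm n k) = Mon 1` (`Mon_mul`, `sgm_mul_self`), `Mon_one_iff`.  `inj`: `s⁻¹ * s'` is in `BB ⊓ NN = TT`, so `Mon 1`, and `Mon ((sgm n k)⁻¹ * sgm n k')`; `Mon_uniq`, `sgm_inj`. -/

namespace Cfsg.Agent.Lib.H49SuSq

open Matrix Cfsg.Agent.Lib.H49SuDefs
open Cfsg.Agent.Lib.H49SuSig Cfsg.Agent.Lib.H49SuStar Cfsg.Agent.Lib.H49SuInv Cfsg.Agent.Lib.H49SuMonB Cfsg.Agent.Lib.H49SuMem Cfsg.Agent.Lib.H49SuDiag Cfsg.Agent.Lib.H49SuTN Cfsg.Agent.Lib.H49SuBNT Cfsg.Agent.Lib.H49SuSgm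

variable {n : ℕ} {F : Type*} [Field F] {q : ℕ}

theorem sq_mem [Fintype F] (hF : Fintype.card F = q ^ 2) {k : ℕ} {s : GA n F q} (hs : Mon (sgm n k) (mt s)) :
    s * s ∈ TT n F q := by
  rw [← Mon_one_iff hF, ← sgm_mul_self n k, mt_mul]
  exact Mon_mul hs hs

theorem inj [Fintype F] (hF : Fintype.card F = q ^ 2) {k k' : ℕ} (hk : 2 * k + 2 ≤ n) (hk' : 2 * k' + 2 ≤ n)
    {s s' : GA n F q} (hs : Mon (sgm n k) (mt s)) (hs' : Mon (sgm n k') (mt s')) (hB : s⁻¹ * s' ∈ BB n F q) :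
    k = k' := by
  have h1 : Mon ((sgm n k)⁻¹ * sgm n k') (mt (s⁻¹ * s')) := by
    rw [mt_mul]
    exact Mon_mul (Mon_inv hs) hs'
  have h2 : s⁻¹ * s' ∈ NN n F q := mem_NN.2 ⟨_, h1⟩
  have h3 : s⁻¹ * s' ∈ TT n F q := by
    rw [← BB_inf_NN hF]
    exact ⟨hB, h2⟩
  have h4 := (Mon_one_iff hF).2 h3
  have h5 := Mon_uniq h1 h4
  apply sgm_inj hk hk'
  exact (inv_mul_eq_one.mp h5)

end Cfsg.Agent.Lib.H49SuSq
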