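import Mathlib
import Cfsg.Agent.Lib.H49SuDefs
import Cfsg.Agent.Lib.H49SuSig
import Cfsg.Agent.Lib.H49SuStar
import Cfsg.Agent.Lib.H49SuInv
import Cfsg.Agent.Lib.H49SuMonB
import Cfsg.Agent.Lib.H49SuMem
import Cfsg.Agent.Lib.H49SuDiag
import Cfsg.Agent.Lib.H49SuTN
import Cfsg.Agent.Lib.H49SuBNT
import Cfsg.Agent.Lib.H49SuSgm
import Cfsg.Agent.Lib.H49SuInvD
import Cfsg.Agent.Lib.H49SuSq
import Cfsg.Agent.Lib.H49SuRootGL
import Cfsg.Agent.Lib.H49SuRootEven
import Cfsg.Agent.Lib.H49SuRootOdd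

set_option autoImplicit false

/-! Project 2546 (Steinberg character of `PSU_n(q)`), piece `Ne` (30m).

`exists_ne_one`: `RootGL.exists_x` with `t = 1`; `RootEven.exists_x` with `t = z` (`exists_trace_zero`); `RootOdd.exists_x` with `t = 0`, `r = z`.  (`x ≠ 1` since an off-diagonal entry is non zero.)
`conj_not_mem`: if `s x s ∈ BB` then `s x s⁻¹ = (s x s)(s s)⁻¹ ∈ BB` (`sq_mem`, `TT_le_BB`).  As `x ≠ 1` and the diagonal of `x` is `1` there are `a ≠ b` with `mt x a b ≠ 0`, so `Inv n k a b`: `σ b < σ a`, and by `conj_zero` the entry of `s x s⁻¹` at `(σ a, σ b)` is non zero: contradiction with `mem_BB`. -/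

namespace Cfsg.Agent.Lib.H49SuNe

open Matrix Cfsg.Agent.Lib.H49SuDefs
open Cfsg.Agent.Lib.H49SuSig Cfsg.Agent.Lib.H49SuStar Cfsg.Agent.Lib.H49SuInv Cfsg.Agent.Lib.H49SuMonB Cfsg.Agent.Lib.H49SuMem Cfsg.Agent.Lib.H49SuDiag Cfsg.Agent.Lib.H49SuTN Cfsg.Agent.Lib.H49SuBNT Cfsg.Agent.Lib.H49SuSgm Cfsg.Agent.Lib.H49SuInvD Cfsg.Agent.Lib.H49SuSq Cfsg.Agent.Lib.H49SuRootGL Cfsg.Agent.Lib.H49SuRootEven Cfsg.Agent.Lib.H49SuRootOdd

variable {n : ℕ} {F : Type*} [Field F] {q : ℕ}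

theorem exists_ne_one [Fintype F] (hF : Fintype.card F = q ^ 2) (k : ℕ) (hk : 2 * k + 2 ≤ n) :
    ∃ x ∈ XX n F q k, x ≠ 1 := by
  obtain ⟨z, hz0, hz⟩ := exists_trace_zero hF
  have hq := q_pos hF
  let a : Fin n := ⟨k, by omega⟩
  let b : Fin n := ⟨k + 1, by omega⟩
  have hab : a ≠ b := by
    intro h
    have := congrArg Fin.val h
    simp [a, b] at this
  rcases lt_trichotomy (2 * k + 3) n with h | h | h
  · obtain ⟨x, hx, hm⟩ := H49SuRootGL.exists_x hF h a b rfl rfl (1 : F)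
    refine ⟨x, hx, ?_⟩
    rintro rfl
    have h1 := congrFun (congrFun hm a) b
    have hne : ¬ (Fin.rev b = a ∧ Fin.rev a = b) := by
      rintro ⟨h2, -⟩
      have := congrArg Fin.val h2
      simp [a, b, Fin.val_rev] at this
      omega
    rw [mt_one] at h1
    simp only [Matrix.sub_apply, Matrix.add_apply, Matrix.one_apply_ne hab, Matrix.single_apply,
      true_and, and_self, if_true, if_neg hne] at h1
    simp at h1
  · let c : Fin n := ⟨k + 2, by omega⟩
    have hac : a ≠ c := by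
      intro h
      have := congrArg Fin.val h
      simp [a, c] at this
    have hbc : b ≠ c := by
      intro h
      have := congrArg Fin.val h
      simp [b, c] at this
    obtain ⟨x, hx, hm⟩ := H49SuRootOdd.exists_x hF h a b c rfl rfl rfl (0 : F) z
      (by rw [zero_mul, add_zero]; exact hz)
    refine ⟨x, hx, ?_⟩
    rintro rfl
    have h1 := congrFun (congrFun hm a) c
    rw [mt_one] at h1
    simp only [Matrix.sub_apply, Matrix.add_apply, Matrix.one_apply_ne hac, Matrix.single_apply] at h1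
    simp [hbc, hab.symm] at h1
    exact hz0 h1.symm
  · obtain ⟨x, hx, hm⟩ := H49SuRootEven.exists_x hF (by omega : 2 * k + 2 = n) a b rfl rfl z hz
    refine ⟨x, hx, ?_⟩
    rintro rfl
    have h1 := congrFun (congrFun hm a) b
    rw [mt_one] at h1
    simp only [Matrix.add_apply, Matrix.one_apply_ne hab, Matrix.single_apply] at h1
    simp at h1
    exact hz0 h1.symm

theorem conj_not_mem [Fintype F] (hF : Fintype.card F = q ^ 2) {k : ℕ} {s : GA n F q}
    (hs : Mon (sgm n k) (mt s)) {x : GA n F q} (hx : x ∈ XX n F q k) (h1 : x ≠ 1) : s * x * s ∉ BB n F q := by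
  intro hB
  have h2 : s * x * s⁻¹ ∈ BB n F q := by
    have : s * x * s⁻¹ = (s * x * s) * (s * s)⁻¹ := by group
    rw [this]
    exact (BB n F q).mul_mem hB ((BB n F q).inv_mem (TT_le_BB (sq_mem hF hs)))
  have hex : ∃ a b, a ≠ b ∧ mt x a b ≠ 0 := by
    by_contra hcon
    push Not at hcon
    apply h1
    apply mt_inj
    rw [mt_one]
    ext a b
    by_cases hab : a = b
    · subst hab; rw [hx.1 a, Matrix.one_apply_eq]
    · rw [hcon a b hab, Matrix.one_apply_ne hab]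
  obtain ⟨a, b, hab, hne⟩ := hex
  have hinv := hx.2 a b hab hne
  have h3 := (mem_BB hF).1 h2 (sgm n k a) (sgm n k b) hinv.2
  exact hne ((conj_zero hs x a b).1 h3)

end Cfsg.Agent.Lib.H49SuNe
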