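import Mathlib
import Cfsg.Agent.Lib.H49SuDefs
import Cfsg.Agent.Lib.H49SuSig
import Cfsg.Agent.Lib.H49SuStar
import Cfsg.Agent.Lib.H49SuInv
import Cfsg.Agent.Lib.H49SuMonB
import Cfsg.Agent.Lib.H49SuMem
import Cfsg.Agent.Lib.H49SuDiag

set_option autoImplicit false

/-! Project 2546 (Steinberg character of `PSU_n(q)`), piece `Nor` (15m).

COPY of the landed `H49SgNor`. -/

namespace Cfsg.Agent.Lib.H49SuNor

open Matrix Cfsg.Agent.Lib.H49SuDefs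
open Cfsg.Agent.Lib.H49SuSig Cfsg.Agent.Lib.H49SuStar Cfsg.Agent.Lib.H49SuInv Cfsg.Agent.Lib.H49SuMonB Cfsg.Agent.Lib.H49SuMem Cfsg.Agent.Lib.H49SuDiag

variable {n : ℕ} {F : Type*} [Field F] {q : ℕ}

theorem BB_conj_UU [Fintype F] (hF : Fintype.card F = q ^ 2) {b u : GA n F q} (hb : b ∈ BB n F q)
    (hu : u ∈ UU n F q) : b * u * b⁻¹ ∈ UU n F q := by
  have hu' : u ∈ BB n F q := UU_le_BB hu
  have h1 : b * u * b⁻¹ ∈ BB n F q :=
    (BB n F q).mul_mem ((BB n F q).mul_mem hb hu') ((BB n F q).inv_mem hb)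
  rw [mem_UU hF]
  refine ⟨h1.1, ?_⟩
  intro a
  rw [diag_mul ((BB n F q).mul_mem hb hu') ((BB n F q).inv_mem hb), diag_mul hb hu', hu.1.2 a, mul_one,
    diag_inv hb]
  exact mul_inv_cancel₀ (diag_ne_zero hb a)

theorem UU_inf_TT {g : GA n F q} (hU : g ∈ UU n F q) (hT : g ∈ TT n F q) : g = 1 := by
  apply mt_inj
  rw [mt_one]
  ext a b
  by_cases h : a = b
  · subst h
    rw [hU.1.2 a, Matrix.one_apply_eq]
  · rw [hT.1 a b h, Matrix.one_apply_ne h]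

end Cfsg.Agent.Lib.H49SuNor
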