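import Mathlib
import Cfsg.Agent.Lib.H49SuDefs

set_option autoImplicit false

/-! Project 2546 (Steinberg character of `PSU_n(q)`), piece `PG` (30m).

COPY of the landed `H49SgPG` (`rk := Fin.val`): `N = mt u - 1` is strictly upper triangular, `N ^ n = 0`, `(mt u) ^ (p ^ k) = 1 + N ^ (p ^ k)` in characteristic `p`.  (`mt (u ^ k) = (mt u) ^ k` by induction, `mt_inj`.) -/

namespace Cfsg.Agent.Lib.H49SuPG

open Matrix Cfsg.Agent.Lib.H49SuDefs

variable {n : ℕ} {F : Type*} [Field F] {q : ℕ}

theorem nil_pow {N : Matrix (Fin n) (Fin n) F} (hN : ∀ a b : Fin n, b ≤ a → N a b = 0) (k : ℕ) :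
    ∀ a b : Fin n, b.val < a.val + k → (N ^ k) a b = 0 := by
  induction k with
  | zero =>
    intro a b hab
    rw [pow_zero]
    exact Matrix.one_apply_ne (fun e => by rw [e] at hab; omega)
  | succ k ih =>
    intro a b hab
    rw [pow_succ, Matrix.mul_apply]
    apply Finset.sum_eq_zero
    intro c _
    rcases Nat.lt_or_ge c.val (a.val + k) with h | h
    · rw [ih a c h, zero_mul]
    · rw [hN c b (Fin.le_def.2 (by omega)), mul_zero]

theorem mt_pow (u : GA n F q) (k : ℕ) : mt (u ^ k) = (mt u) ^ k := by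
  induction k with
  | zero => rw [pow_zero, pow_zero, mt_one]
  | succ k ih => rw [pow_succ, pow_succ, mt_mul, ih]

theorem isPGroup_UU (p : ℕ) [Fact p.Prime] [CharP F p] : IsPGroup p (UU n F q) := by
  rintro ⟨u, hu⟩
  refine ⟨n, ?_⟩
  apply Subtype.ext
  rw [Subgroup.coe_pow, Subgroup.coe_one]
  apply mt_inj
  rw [mt_pow, mt_one]
  show (mt u) ^ p ^ n = 1
  rcases isEmpty_or_nonempty (Fin n) with hI | hI
  · exact Subsingleton.elim _ _
  · have hN : ∀ a b : Fin n, b ≤ a → (mt u - 1 : Matrix (Fin n) (Fin n) F) a b = 0 := by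
      intro a b hab
      rw [Matrix.sub_apply]
      rcases lt_or_eq_of_le hab with h | h
      · rw [hu.1.1 a b h, Matrix.one_apply_ne (ne_of_gt h), sub_zero]
      · subst h
        rw [hu.1.2 b, Matrix.one_apply_eq, sub_self]
    have hz : (mt u - 1 : Matrix (Fin n) (Fin n) F) ^ p ^ n = 0 := by
      ext a b
      rw [Matrix.zero_apply]
      apply nil_pow hN
      have h1 := b.2
      have h2 : n < p ^ n := Nat.lt_pow_self (Fact.out : p.Prime).one_lt
      omega
    have e1 : mt u = (mt u - 1) + 1 := by rw [sub_add_cancel]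
    rw [e1, add_pow_char_pow_of_commute p n (Commute.one_right _), hz, one_pow, zero_add]

end Cfsg.Agent.Lib.H49SuPG
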