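import Mathlib
import Cfsg.Agent.Lib.H49SuDefs
import Cfsg.Agent.Lib.H49SuSig
import Cfsg.Agent.Lib.H49SuStar
import Cfsg.Agent.Lib.H49SuInv
import Cfsg.Agent.Lib.H49SuMonB
import Cfsg.Agent.Lib.H49SuMem
import Cfsg.Agent.Lib.H49SuDiag
import Cfsg.Agent.Lib.H49SuSgm
import Cfsg.Agent.Lib.H49SuInvD
import Cfsg.Agent.Lib.H49SuB1
import Cfsg.Agent.Lib.H49SuHalf
import Cfsg.Agent.Lib.H49SuRootEven

set_option autoImplicit false

/-! Project 2546 (Steinberg character of `PSU_n(q)`), piece `RankEven`. -/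

namespace Cfsg.Agent.Lib.H49SuRankEven

open Matrix Cfsg.Agent.Lib.H49SuDefs
open Cfsg.Agent.Lib.H49SuSig Cfsg.Agent.Lib.H49SuStar Cfsg.Agent.Lib.H49SuInv Cfsg.Agent.Lib.H49SuMonB Cfsg.Agent.Lib.H49SuMem Cfsg.Agent.Lib.H49SuDiag Cfsg.Agent.Lib.H49SuSgm Cfsg.Agent.Lib.H49SuInvD Cfsg.Agent.Lib.H49SuB1 Cfsg.Agent.Lib.H49SuHalf Cfsg.Agent.Lib.H49SuRootEven

variable {n : ℕ} {F : Type*} [Field F] {q : ℕ}

theorem rank_one [Fintype F] (hF : Fintype.card F = q ^ 2) {k : ℕ} (hk : 2 * k + 2 = n) {s : GA n F q}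
    (hs : Mon (sgm n k) (mt s)) {x : GA n F q} (hx : x ∈ XX n F q k) (h1 : x ≠ 1) :
    ∃ g ∈ BB n F q, ∃ y ∈ YY n F q k, s * x = g * y := by
  have hkn : k < n := by omega
  have hkn1 : k + 1 < n := by omega
  obtain ⟨a, ha⟩ : ∃ a : Fin n, a.val = k := ⟨⟨k, hkn⟩, rfl⟩
  obtain ⟨b, hb⟩ : ∃ b : Fin n, b.val = k + 1 := ⟨⟨k + 1, hkn1⟩, rfl⟩
  have hab : a ≠ b := by
    intro h
    have := congrArg Fin.val h
    omega
  have hrev : Fin.rev a = b := by
    apply Fin.ext; rw [Fin.val_rev]; omega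
  have hrevb : Fin.rev b = a := by rw [← hrev, Fin.rev_rev]
  obtain ⟨t, ht⟩ : ∃ t, t = mt x a b := ⟨_, rfl⟩
  have hX : mt x = 1 + Matrix.single a b t := by
    ext i j
    rw [Matrix.add_apply, Matrix.one_apply, Matrix.single_apply]
    by_cases hij : i = j
    · subst hij
      rw [if_pos rfl, hx.1 i, if_neg (by rintro ⟨h1, h2⟩; exact hab (h1.trans h2.symm)), add_zero]
    · rw [if_neg hij, zero_add]
      by_cases h : a = i ∧ b = j
      · rw [if_pos h, ← h.1, ← h.2, ht]
      · rw [if_neg h]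
        by_contra h0
        have := (Inv_even hk i j).1 (hx.2 i j hij h0)
        exact h ⟨Fin.ext (by omega), Fin.ext (by omega)⟩
  have ht0 : t ≠ 0 := by
    intro h0
    apply h1
    apply mt_inj
    rw [hX, h0, mt_one]
    simp
  have htq : t + t ^ q = 0 := by
    have h2 := star hF x b b
    rw [if_neg (by rw [hrevb]; exact hab.symm)] at h2
    rw [← h2, Finset.sum_eq_add a b hab]
    · rw [hrev, hrevb, ← ht, hx.1 b, one_pow, mul_one, one_mul]
    · rintro c - ⟨hca, hcb⟩
      have : mt x c b = 0 := by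
        rw [hX, Matrix.add_apply, Matrix.one_apply, Matrix.single_apply, if_neg hcb,
          if_neg (by rintro ⟨h3, -⟩; exact hca h3.symm), add_zero]
      rw [this, zero_mul]
    · intro h'; exact absurd (Finset.mem_univ _) h'
    · intro h'; exact absurd (Finset.mem_univ _) h'
  have htinv : t⁻¹ + (t⁻¹) ^ q = 0 := by
    rw [inv_pow]
    have htq0 : t ^ q ≠ 0 := pow_ne_zero _ ht0
    have e : t⁻¹ + (t ^ q)⁻¹ = (t + t ^ q) * (t⁻¹ * (t ^ q)⁻¹) := by
      field_simp
      ring
    rw [e, htq, zero_mul]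
  have htinv' : (-t⁻¹) + (-t⁻¹) ^ q = 0 := by
    rw [neg_powq hF, ← neg_add, htinv, neg_zero]
  obtain ⟨y, hy, hyM⟩ := exists_y hF hk a b ha hb t⁻¹ htinv
  obtain ⟨y', hy', hyM'⟩ := exists_y hF hk a b ha hb (-t⁻¹) htinv'
  have hyy : y' * y = 1 := by
    apply mt_inj
    rw [mt_mul, hyM, hyM', mt_one, add_mul, mul_add, mul_add, one_mul, one_mul, mul_one,
      Matrix.single_mul_single_of_ne _ _ _ _ hab, add_zero, add_assoc, ← Matrix.single_add]
    simp
  refine ⟨s * x * y', ?_, y, hy, by rw [mul_assoc, hyy, mul_one]⟩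
  apply half hF
  intro a' e hlt he
  rw [mul_assoc, mt_mul, Matrix.mul_apply]
  apply Finset.sum_eq_zero
  intro c _
  by_cases hc : c = sgm n k e
  · have : mt s a' c = 0 := by
      by_contra h0
      have h2 := (hs a' c).1 h0
      rw [hc] at h2
      have h3 : sgm n k (sgm n k e) = e := by
        have := congrArg (fun f => f e) (sgm_mul_self n k)
        simpa using this
      rw [h3] at h2
      exact (ne_of_gt hlt) h2
    rw [this, zero_mul]
  · have : mt (x * y') c e = 0 := by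
      rw [mt_mul, hX, hyM', add_mul, mul_add, mul_add, one_mul, one_mul, mul_one,
        Matrix.single_mul_single_same]
      simp only [Matrix.add_apply, Matrix.one_apply, Matrix.single_apply]
      have hσ := sgm_val_last (n := n) (k := k) (by omega) (by omega) e
      by_cases hea : e = a
      · subst hea
        rw [if_pos ha] at hσ
        have hσb : sgm n k e = b := Fin.ext (by omega)
        rw [hσb] at hc
        by_cases hca : c = e
        · subst hca
          have e1 : ¬ (b = c ∧ c = c) := by rintro ⟨h3, -⟩; exact hab h3.symm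
          have e2 : ¬ (c = c ∧ b = c) := by rintro ⟨-, h3⟩; exact hab h3.symm
          rw [if_pos rfl, if_neg e1, if_neg e2, if_pos ⟨rfl, rfl⟩]
          field_simp
          ring
        · have e1 : ¬ (b = c ∧ e = e) := by rintro ⟨h3, -⟩; exact hc h3.symm
          have e2 : ¬ (e = c ∧ b = e) := by rintro ⟨-, h3⟩; exact hab h3.symm
          have e3 : ¬ (e = c ∧ e = e) := by rintro ⟨h3, -⟩; exact hca h3.symm
          rw [if_neg hca, if_neg e1, if_neg e2, if_neg e3]
          simp
      · have hek : e.val ≠ k := fun h3 => hea (Fin.ext (by omega))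
        rw [if_neg hek, if_neg (by omega)] at hσ
        have hσe : sgm n k e = e := Fin.ext hσ
        rw [hσe] at hc
        have e1 : ¬ (b = c ∧ a = e) := by rintro ⟨-, h3⟩; exact hea h3.symm
        have e2 : ¬ (a = c ∧ b = e) := by
          rintro ⟨-, h3⟩
          have := congrArg Fin.val h3
          omega
        have e3 : ¬ (a = c ∧ a = e) := by rintro ⟨-, h3⟩; exact hea h3.symm
        rw [if_neg hc, if_neg e1, if_neg e2, if_neg e3]
        simp
    rw [this, mul_zero]

end Cfsg.Agent.Lib.H49SuRankEven
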