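import Mathlib
import Cfsg.Agent.Lib.H49SuDefs
import Cfsg.Agent.Lib.H49SuSig
import Cfsg.Agent.Lib.H49SuStar
import Cfsg.Agent.Lib.H49SuInv
import Cfsg.Agent.Lib.H49SuMonB
import Cfsg.Agent.Lib.H49SuMem
import Cfsg.Agent.Lib.H49SuDiag
import Cfsg.Agent.Lib.H49SuSgm
import Cfsg.Agent.Lib.H49SuInvD
import Cfsg.Agent.Lib.H49SuB1
import Cfsg.Agent.Lib.H49SuHalf
import Cfsg.Agent.Lib.H49SuRootGL
import Cfsg.Agent.Lib.Helper65SuAdj

set_option autoImplicit false

/-! Project 2546 (Steinberg character of `PSU_n(q)`), piece `RankGL` (50m).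

Rank one computation, GL type, `a = k`, `b = k+1`.  `x ∈ XX`, `x ≠ 1`: its only possibly non zero off-diagonal entries are `t = x a b` and `x (rev b) (rev a)`; `t ≠ 0` (if `t = 0` then `x⁻¹ a b = 0` [`x x⁻¹ = 1`], so `x (rev b) (rev a) = 0` by `inv_apply`, and `x = 1`).
Take `y⁻¹ = z` := `RootGL.exists_y` with parameter `-t⁻¹`, more precisely choose `y ∈ YY` with parameter `t⁻¹` and check `y⁻¹` has parameter `-t⁻¹` (or: `g := s * x * y⁻¹` with `mt y⁻¹` computed by `inv_apply`).
Show `g = s * x * y⁻¹ ∈ BB` by `half`: only the columns `e` with `2 e + 1 < n` matter; `x y⁻¹ e_e = e_e` for `e ∉ {a, b}` in that range, `x y⁻¹ e_a = -t⁻¹ e_b`, `x y⁻¹ e_b = e_b + t e_a`, and `s` is monomial for `sgm n k` (which exchanges `a`, `b` and fixes the other `e` of the first half). -/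

namespace Cfsg.Agent.Lib.H49SuRankGL

open Matrix Cfsg.Agent.Lib.H49SuDefs
open Cfsg.Agent.Lib.Helper65SuAdj
open Cfsg.Agent.Lib.H49SuSig Cfsg.Agent.Lib.H49SuStar Cfsg.Agent.Lib.H49SuInv Cfsg.Agent.Lib.H49SuMonB Cfsg.Agent.Lib.H49SuMem Cfsg.Agent.Lib.H49SuDiag Cfsg.Agent.Lib.H49SuSgm Cfsg.Agent.Lib.H49SuInvD Cfsg.Agent.Lib.H49SuB1 Cfsg.Agent.Lib.H49SuHalf Cfsg.Agent.Lib.H49SuRootGL

variable {n : ℕ} {F : Type*} [Field F] {q : ℕ}

theorem rank_one [Fintype F] (hF : Fintype.card F = q ^ 2) {k : ℕ} (hk : 2 * k + 3 < n) {s : GA n F q}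
    (hs : Mon (sgm n k) (mt s)) {x : GA n F q} (hx : x ∈ XX n F q k) (h1 : x ≠ 1) :
    ∃ g ∈ BB n F q, ∃ y ∈ YY n F q k, s * x = g * y := by
  have hq := q_pos hF
  obtain ⟨a, ha⟩ : ∃ a : Fin n, a.val = k := ⟨⟨k, by omega⟩, rfl⟩
  obtain ⟨b, hb⟩ : ∃ b : Fin n, b.val = k + 1 := ⟨⟨k + 1, by omega⟩, rfl⟩
  obtain ⟨a', ha'⟩ : ∃ a', a' = Fin.rev a := ⟨_, rfl⟩
  obtain ⟨b', hb'⟩ : ∃ b', b' = Fin.rev b := ⟨_, rfl⟩
  have hra : a'.val = n - 1 - k := by rw [ha', Fin.val_rev]; omega
  have hrb : b'.val = n - 2 - k := by rw [hb', Fin.val_rev]; omega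
  have hraa : Fin.rev a' = a := by rw [ha', Fin.rev_rev]
  have hrbb : Fin.rev b' = b := by rw [hb', Fin.rev_rev]
  have hab : a ≠ b := fun e => by have := congrArg Fin.val e; omega
  have hbb' : b ≠ b' := fun e => by have := congrArg Fin.val e; omega
  have haa' : a' ≠ a := fun e => by have := congrArg Fin.val e; omega
  have ha'b' : a' ≠ b' := fun e => by have := congrArg Fin.val e; omega
  have hba' : b ≠ a' := fun e => by have := congrArg Fin.val e; omega
  have hab' : a ≠ b' := fun e => by have := congrArg Fin.val e; omega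
  obtain ⟨t, ht⟩ : ∃ t, t = mt x a b := ⟨_, rfl⟩
  obtain ⟨u, hu⟩ : ∃ u, u = mt x b' a' := ⟨_, rfl⟩
  have hxm : mt x = 1 + Matrix.single a b t + Matrix.single b' a' u := by
    ext i j
    rw [Matrix.add_apply, Matrix.add_apply]
    by_cases hij : i = j
    · subst hij
      rw [hx.1, Matrix.one_apply_eq,
        Matrix.single_apply_of_ne _ _ _ _ _ (fun e => hab (e.1.trans e.2.symm)),
        Matrix.single_apply_of_ne _ _ _ _ _ (fun e => ha'b' (e.2.trans e.1.symm))]
      simp
    · rw [Matrix.one_apply_ne hij, zero_add]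
      by_cases e1 : a = i ∧ b = j
      · obtain ⟨rfl, rfl⟩ := e1
        rw [Matrix.single_apply_same, Matrix.single_apply_of_ne _ _ _ _ _ (fun e => hab' e.1.symm),
          add_zero, ht]
      · rw [Matrix.single_apply_of_ne _ _ _ _ _ e1, zero_add]
        by_cases e2 : b' = i ∧ a' = j
        · obtain ⟨rfl, rfl⟩ := e2
          rw [Matrix.single_apply_same, hu]
        · rw [Matrix.single_apply_of_ne _ _ _ _ _ e2]
          by_contra hne
          have := (Inv_gl hk i j).1 (hx.2 i j hij hne)
          rcases this with ⟨h1, h2⟩ | ⟨h1, h2⟩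
          · exact e1 ⟨Fin.ext (by omega), Fin.ext (by omega)⟩
          · exact e2 ⟨Fin.ext (by omega), Fin.ext (by omega)⟩
  have hut : u = -(t ^ q) := by
    have h := adj_mul_self hF x
    rw [hxm, adj_add hF, adj_add hF, adj_one hq, adj_single hq, adj_single hq, hraa, hrbb, ← ha',
      ← hb'] at h
    simp only [mul_add, add_mul, mul_one, one_mul,
      Matrix.single_mul_single_of_ne _ _ _ _ hbb', Matrix.single_mul_single_of_ne _ _ _ _ hab.symm,
      Matrix.single_mul_single_of_ne _ _ _ _ haa', Matrix.single_mul_single_of_ne _ _ _ _ ha'b'] at h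
    have h2 := congrFun (congrFun h b') a'
    simp only [Matrix.add_apply, Matrix.one_apply_ne ha'b'.symm, Matrix.single_apply_same,
      Matrix.single_apply_of_ne _ _ _ _ _ (fun e : a = b' ∧ b = a' => hab' e.1),
      Matrix.zero_apply, add_zero, zero_add] at h2
    linear_combination h2
  have ht0 : t ≠ 0 := by
    intro h0
    apply h1
    apply mt_inj
    rw [hxm, hut, h0, zero_pow hq.ne', neg_zero, Matrix.single_zero, Matrix.single_zero, mt_one]
    simp
  obtain ⟨w, hw⟩ : ∃ w, w = t⁻¹ := ⟨_, rfl⟩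
  have htw : t * w = 1 := by rw [hw, mul_inv_cancel₀ ht0]
  obtain ⟨y, hy, hym⟩ := exists_y hF hk a b ha hb w
  obtain ⟨z, hz, hzm⟩ := exists_y hF hk a b ha hb (-w)
  rw [← ha', ← hb'] at hym hzm
  rw [neg_powq hF, single_neg', single_neg', sub_neg_eq_add] at hzm
  have hzy : z * y = 1 := by
    apply mt_inj
    rw [mt_mul, hzm, hym, mt_one]
    simp only [mul_add, add_mul, mul_sub, sub_mul, mul_neg, neg_mul, mul_one, one_mul,
      Matrix.single_mul_single_of_ne _ _ _ _ hab, Matrix.single_mul_single_of_ne _ _ _ _ haa'.symm,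
      Matrix.single_mul_single_of_ne _ _ _ _ hbb'.symm,
      Matrix.single_mul_single_of_ne _ _ _ _ ha'b'.symm]
    abel
  refine ⟨s * x * z, ?_, y, hy, ?_⟩
  swap
  · rw [mul_assoc (s * x), hzy, mul_one]
  apply half hF
  intro i j hji hj
  have hja' : a' ≠ j := fun e => by have := congrArg Fin.val e; omega
  have hjb' : b' ≠ j := fun e => by have := congrArg Fin.val e; omega
  have hN : ∀ c, (mt x * mt z) c j = (1 : Matrix (Fin n) (Fin n) F) c j
      - Matrix.single b a w c j + Matrix.single a b t c j - Matrix.single a a (t * w) c j := by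
    intro c
    rw [hxm, hzm, hut, single_neg']
    simp only [mul_add, add_mul, mul_neg, neg_mul, mul_one, one_mul, Matrix.single_mul_single_same,
      Matrix.single_mul_single_of_ne _ _ _ _ hba', Matrix.single_mul_single_of_ne _ _ _ _ hba'.symm]
    simp only [Matrix.add_apply, Matrix.neg_apply, Matrix.sub_apply, Matrix.zero_apply,
      Matrix.single_apply_of_col_ne _ _ hja', Matrix.single_apply_of_col_ne _ _ hjb']
    ring
  have hσa : sgm n k a = b := by
    apply Fin.ext
    rw [sgm_val_gl hk, if_pos ha, hb]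
  have hσb : sgm n k b = a := by
    apply Fin.ext
    rw [sgm_val_gl hk, if_neg (by omega), if_pos hb, ha]
  rw [mul_assoc, mt_mul, mt_mul, Matrix.mul_apply]
  apply Finset.sum_eq_zero
  intro c _
  by_contra hne
  have hs1 : mt s i c ≠ 0 := left_ne_zero_of_mul hne
  have hN1 : (mt x * mt z) c j ≠ 0 := right_ne_zero_of_mul hne
  have hi : i = sgm n k c := (hs i c).1 hs1
  rw [hN] at hN1
  by_cases hja : j = a
  · subst hja
    by_cases hcb : c = b
    · subst hcb
      rw [hσb] at hi
      exact absurd hji (by rw [hi]; exact lt_irrefl _)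
    · apply hN1
      by_cases hca : c = j
      · subst hca
        rw [Matrix.one_apply_eq, Matrix.single_apply_same, htw,
          Matrix.single_apply_of_ne _ _ _ _ _ (fun e => hab e.1.symm),
          Matrix.single_apply_of_ne _ _ _ _ _ (fun e => hab e.2.symm)]
        ring
      · rw [Matrix.one_apply_ne hca,
          Matrix.single_apply_of_ne _ _ _ _ _ (fun e => hcb e.1.symm),
          Matrix.single_apply_of_ne _ _ _ _ _ (fun e => hab e.2.symm),
          Matrix.single_apply_of_ne _ _ _ _ _ (fun e => hca e.1.symm)]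
        ring
  · by_cases hjb : j = b
    · subst hjb
      by_cases hca : c = a
      · subst hca
        rw [hσa] at hi
        exact absurd hji (by rw [hi]; exact lt_irrefl _)
      · by_cases hcb : c = j
        · subst hcb
          rw [hσb] at hi
          rw [hi] at hji
          have : c.val < a.val := hji
          omega
        · apply hN1
          rw [Matrix.one_apply_ne hcb,
            Matrix.single_apply_of_ne _ _ _ _ _ (fun e => hab e.2),
            Matrix.single_apply_of_ne _ _ _ _ _ (fun e => hca e.1.symm),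
            Matrix.single_apply_of_ne _ _ _ _ _ (fun e => hca e.1.symm)]
          ring
    · by_cases hcj : c = j
      · subst hcj
        have : sgm n k c = c := by
          apply Fin.ext
          have h1 : c.val ≠ k := fun e => hja (Fin.ext (by omega))
          have h2 : c.val ≠ k + 1 := fun e => hjb (Fin.ext (by omega))
          rw [sgm_val_gl hk, if_neg h1, if_neg h2, if_neg (by omega), if_neg (by omega)]
        rw [this] at hi
        exact absurd hji (by rw [hi]; exact lt_irrefl _)
      · apply hN1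
        rw [Matrix.one_apply_ne hcj,
          Matrix.single_apply_of_ne _ _ _ _ _ (fun e => hja e.2.symm),
          Matrix.single_apply_of_ne _ _ _ _ _ (fun e => hjb e.2.symm),
          Matrix.single_apply_of_ne _ _ _ _ _ (fun e => hja e.2.symm)]
        ring

end Cfsg.Agent.Lib.H49SuRankGL
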