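import Mathlib
import Cfsg.Agent.Lib.H49SuDefs
import Cfsg.Agent.Lib.H49SuSig
import Cfsg.Agent.Lib.H49SuStar
import Cfsg.Agent.Lib.H49SuInv
import Cfsg.Agent.Lib.H49SuMonB
import Cfsg.Agent.Lib.H49SuMem
import Cfsg.Agent.Lib.H49SuDiag
import Cfsg.Agent.Lib.H49SuSgm
import Cfsg.Agent.Lib.H49SuInvD
import Cfsg.Agent.Lib.H49SuB1
import Cfsg.Agent.Lib.H49SuHalf
import Cfsg.Agent.Lib.H49SuRootOdd

set_option autoImplicit false

/-! Project 2546 (Steinberg character of `PSU_n(q)`), piece `RankOdd` (70m).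

Same for `2k+3 = n`, `a = k`, `b = k+1`, `c = k+2`.  `x ∈ XX`: `t = x a b`, `r = x a c`; by `star`: `x b c = -(t^q)`, `r + r^q + t t^q = 0`; `x ≠ 1` forces `r ≠ 0`.  We need `z ∈ YY`-type (`z = y⁻¹`) with `x z e_a ∈ F e_c`, i.e. `z e_a = λ x⁻¹ e_c`;
by `inv_apply`, `x⁻¹ e_c = r^q e_a + t^q e_b + e_c`, so `λ = (r^q)⁻¹`, `z e_a = e_a + (t^q / r^q) e_b + (1 / r^q) e_c`: `z = RootOdd.exists_y` with `t' = t^q / r^q`, `r' = 1 / r^q` (admissible: `r' + r'^q + t' t'^q = (r + r^q + t t^q)/(r r^q) = 0`).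
Take `y = z⁻¹` (it is in `YY`: entries by `inv_apply`) or directly `y = exists_y (-t') (r'^q)` and check `y * z = 1`.  `g = s * x * z ∈ BB` by `half`: only the columns `e ≤ a` matter (`2 e + 1 < n ↔ e ≤ k`); `x z e_e = e_e` for `e < a`; `x z e_a = λ e_c` and `s e_c ∈ F e_a`. -/

namespace Cfsg.Agent.Lib.H49SuRankOdd

open Matrix Cfsg.Agent.Lib.H49SuDefs
open Cfsg.Agent.Lib.H49SuSig Cfsg.Agent.Lib.H49SuStar Cfsg.Agent.Lib.H49SuInv Cfsg.Agent.Lib.H49SuMonB Cfsg.Agent.Lib.H49SuMem Cfsg.Agent.Lib.H49SuDiag Cfsg.Agent.Lib.H49SuSgm Cfsg.Agent.Lib.H49SuInvD Cfsg.Agent.Lib.H49SuB1 Cfsg.Agent.Lib.H49SuHalf Cfsg.Agent.Lib.H49SuRootOdd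

variable {n : ℕ} {F : Type*} [Field F] {q : ℕ}

theorem YY_inv [Fintype F] (hF : Fintype.card F = q ^ 2) {k : ℕ} (hk : 2 * k + 3 = n)
    {z : GA n F q} (hz : z ∈ YY n F q k) : z⁻¹ ∈ YY n F q k := by
  refine ⟨fun a => ?_, fun a b hab h => ?_⟩
  · rw [inv_apply hF, hz.1, one_pow]
  · rw [inv_apply hF] at h
    have h1 : mt z (Fin.rev b) (Fin.rev a) ≠ 0 := fun e => h (by rw [e, zero_pow (q_pos hF).ne'])
    have h2 := hz.2 _ _ (fun e => hab (Fin.rev_injective e).symm) h1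
    rw [Inv_odd hk] at h2 ⊢
    simp only [Fin.val_rev] at h2
    have := a.2
    have := b.2
    omega

theorem rank_one [Fintype F] (hF : Fintype.card F = q ^ 2) {k : ℕ} (hk : 2 * k + 3 = n) {s : GA n F q}
    (hs : Mon (sgm n k) (mt s)) {x : GA n F q} (hx : x ∈ XX n F q k) (h1 : x ≠ 1) :
    ∃ g ∈ BB n F q, ∃ y ∈ YY n F q k, s * x = g * y := by
  have hq := q_pos hF
  obtain ⟨a, ha⟩ : ∃ a : Fin n, a.val = k := ⟨⟨k, by omega⟩, rfl⟩
  obtain ⟨b, hb⟩ : ∃ b : Fin n, b.val = k + 1 := ⟨⟨k + 1, by omega⟩, rfl⟩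
  obtain ⟨c, hc⟩ : ∃ c : Fin n, c.val = k + 2 := ⟨⟨k + 2, by omega⟩, rfl⟩
  have hra : Fin.rev a = c := Fin.ext (by rw [Fin.val_rev]; omega)
  have hrb : Fin.rev b = b := Fin.ext (by rw [Fin.val_rev]; omega)
  have hrc : Fin.rev c = a := Fin.ext (by rw [Fin.val_rev]; omega)
  have hab : a ≠ b := fun e => by rw [e] at ha; omega
  have hac : a ≠ c := fun e => by rw [e] at ha; omega
  have hbc : b ≠ c := fun e => by rw [e] at hb; omega
  obtain ⟨t, ht⟩ : ∃ t, t = mt x a b := ⟨_, rfl⟩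
  obtain ⟨r, hr⟩ : ∃ r, r = mt x a c := ⟨_, rfl⟩
  obtain ⟨w, hw⟩ : ∃ w, w = mt x b c := ⟨_, rfl⟩
  have hx0 : ∀ γ δ : Fin n, γ.val ≠ δ.val → ¬ ((γ.val = k ∧ δ.val = k + 1) ∨
      (γ.val = k ∧ δ.val = k + 2) ∨ (γ.val = k + 1 ∧ δ.val = k + 2)) → mt x γ δ = 0 := by
    intro γ δ hne h
    by_contra h'
    exact h ((Inv_odd hk _ _).1 (hx.2 _ _ (fun e => hne (congrArg Fin.val e)) h'))
  have hsum : ∀ f : Fin n → F, (∀ i : Fin n, i.val ≠ k → i.val ≠ k + 1 → i.val ≠ k + 2 → f i = 0) →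
      ∑ i, f i = f a + f b + f c := by
    intro f hf
    rw [← Finset.sum_subset (Finset.subset_univ {a, b, c})]
    · rw [Finset.sum_insert (by simp [hab, hac]), Finset.sum_insert (by simp [hbc]),
        Finset.sum_singleton, add_assoc]
    · intro i _ hi
      simp only [Finset.mem_insert, Finset.mem_singleton, not_or] at hi
      exact hf i (fun e => hi.1 (Fin.ext (e.trans ha.symm)))
        (fun e => hi.2.1 (Fin.ext (e.trans hb.symm))) (fun e => hi.2.2 (Fin.ext (e.trans hc.symm)))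
  have hs1 : t + w ^ q = 0 := by
    have h := star hF x b c
    rw [if_neg (by rw [hrb]; exact hbc.symm), hsum] at h
    · rw [hra, hrb, hrc, hx.1 c, hx.1 b, ← ht, ← hw, hx0 c b (by omega) (by omega)] at h
      simpa using h
    · intro i h1 h2 h3
      rw [hx0 i b (by omega) (by omega), zero_mul]
  have hs2 : r + w * w ^ q + r ^ q = 0 := by
    have h := star hF x c c
    rw [if_neg (by rw [hrc]; exact hac.symm), hsum] at h
    · rw [hra, hrb, hrc, hx.1 c, ← hr, ← hw] at h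
      simpa using h
    · intro i h1 h2 h3
      rw [hx0 i c (by omega) (by omega), zero_mul]
  have hwt : w = -(t ^ q) := by
    have e : w ^ q = -t := by linear_combination hs1
    rw [← powq_powq hF w, e, neg_powq hF]
  have hrt : r + r ^ q + t * t ^ q = 0 := by
    have e : w ^ q = -t := by linear_combination hs1
    rw [e, hwt] at hs2
    linear_combination hs2
  have hr0 : r ≠ 0 := by
    intro e
    rw [e, zero_pow hq.ne', add_zero, zero_add] at hrt
    have ht0 : t = 0 := by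
      rcases mul_eq_zero.1 hrt with h | h
      · exact h
      · exact pow_eq_zero_iff hq.ne' |>.1 h
    have hw0 : w = 0 := by rw [hwt, ht0, zero_pow hq.ne', neg_zero]
    apply h1
    apply mt_inj
    rw [mt_one]
    ext γ δ
    by_cases hγδ : γ = δ
    · subst hγδ
      rw [hx.1, Matrix.one_apply_eq]
    · rw [Matrix.one_apply_ne hγδ]
      by_contra h'
      rcases (Inv_odd hk _ _).1 (hx.2 _ _ hγδ h') with ⟨e1, e2⟩ | ⟨e1, e2⟩ | ⟨e1, e2⟩
      · have e3 : γ = a := Fin.ext (e1.trans ha.symm)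
        have e4 : δ = b := Fin.ext (e2.trans hb.symm)
        rw [e3, e4, ← ht] at h'
        exact h' ht0
      · have e3 : γ = a := Fin.ext (e1.trans ha.symm)
        have e4 : δ = c := Fin.ext (e2.trans hc.symm)
        rw [e3, e4, ← hr] at h'
        exact h' e
      · have e3 : γ = b := Fin.ext (e1.trans hb.symm)
        have e4 : δ = c := Fin.ext (e2.trans hc.symm)
        rw [e3, e4, ← hw] at h'
        exact h' hw0
  have hR0 : r ^ q ≠ 0 := pow_ne_zero _ hr0
  have hcond : (r ^ q)⁻¹ + ((r ^ q)⁻¹) ^ q + (t ^ q / r ^ q) * (t ^ q / r ^ q) ^ q = 0 := by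
    rw [inv_pow, div_pow, powq_powq hF, powq_powq hF]
    field_simp
    linear_combination hrt
  obtain ⟨z, hz, hzm⟩ := exists_y hF hk a b c ha hb hc (t ^ q / r ^ q) ((r ^ q)⁻¹) hcond
  refine ⟨s * x * z, half hF ?_, z⁻¹, YY_inv hF hk hz, by group⟩
  intro α β hβα hβ
  rw [mul_assoc, mt_mul, Matrix.mul_apply]
  apply Finset.sum_eq_zero
  intro γ _
  by_cases hsγ : mt s α γ = 0
  · rw [hsγ, zero_mul]
  have hα : α = sgm n k γ := (hs α γ).1 hsγ
  have hval := sgm_val_last (n := n) (k := k) (by omega) (by omega) γ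
  rw [← hα] at hval
  have hβα' : β.val < α.val := hβα
  suffices h : mt (x * z) γ β = 0 by rw [h, mul_zero]
  rw [mt_mul, hzm, Matrix.mul_sub, Matrix.mul_add, Matrix.mul_add, Matrix.mul_one]
  simp only [Matrix.sub_apply, Matrix.add_apply]
  have hβb : β ≠ b := fun e => by rw [e] at hβ; omega
  rw [Matrix.mul_single_apply_of_ne _ _ _ _ _ hβb, sub_zero]
  by_cases hβa : β = a
  · subst hβa
    rw [Matrix.mul_single_apply_same, Matrix.mul_single_apply_same]
    by_cases h1 : γ.val = k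
    · have e : γ = β := Fin.ext (h1.trans ha.symm)
      rw [e, hx.1, ← ht, ← hr]
      field_simp
      linear_combination hrt
    · by_cases h2 : γ.val = k + 1
      · have e : γ = b := Fin.ext (h2.trans hb.symm)
        rw [e, hx.1, ← hw, hx0 b β (by omega) (by omega), hwt]
        field_simp
        ring
      · by_cases h3 : γ.val = k + 2
        · exfalso
          rw [if_neg h1, if_pos (by omega)] at hval
          omega
        · rw [hx0 γ β (by omega) (by omega), hx0 γ b (by omega) (by omega),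
            hx0 γ c (by omega) (by omega)]
          simp
  · have hβk : β.val < k := by
      have : β.val ≠ k := fun e => hβa (Fin.ext (e.trans ha.symm))
      omega
    rw [Matrix.mul_single_apply_of_ne _ _ _ _ _ hβa, Matrix.mul_single_apply_of_ne _ _ _ _ _ hβa,
      add_zero, add_zero]
    apply hx0
    · intro e
      rw [if_neg (by omega), if_neg (by omega)] at hval
      omega
    · omega

end Cfsg.Agent.Lib.H49SuRankOdd
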