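import Mathlib
import Cfsg.Agent.Lib.H49SuDefs
import Cfsg.Agent.Lib.H49SuSig
import Cfsg.Agent.Lib.H49SuStar
import Cfsg.Agent.Lib.H49SuInv
import Cfsg.Agent.Lib.H49SuMonB
import Cfsg.Agent.Lib.H49SuMem
import Cfsg.Agent.Lib.H49SuHalf
import Cfsg.Agent.Lib.H49SuCol

set_option autoImplicit false

/-! Project 2546 (Steinberg character of `PSU_n(q)`), piece `Sup` (25m). -/

namespace Cfsg.Agent.Lib.H49SuSup

open Matrix Cfsg.Agent.Lib.H49SuDefs
open Cfsg.Agent.Lib.H49SuSig Cfsg.Agent.Lib.H49SuStar Cfsg.Agent.Lib.H49SuInv Cfsg.Agent.Lib.H49SuMonB Cfsg.Agent.Lib.H49SuMem Cfsg.Agent.Lib.H49SuHalf Cfsg.Agent.Lib.H49SuCol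

variable {n : ℕ} {F : Type*} [Field F] {q : ℕ}

theorem step [Fintype F] (hF : Fintype.card F = q ^ 2) (j : ℕ) : ∀ g : GA n F q,
    ∃ h ∈ BB n F q ⊔ NN n F q, ∀ a b : Fin n, b.val < j → 2 * b.val + 1 < n → b < a → mt (h * g) a b = 0 := by
  induction j with
  | zero =>
    intro g
    exact ⟨1, Subgroup.one_mem _, fun a b hb => absurd hb (Nat.not_lt_zero _)⟩
  | succ j ih =>
    intro g
    obtain ⟨h1, hh1, H1⟩ := ih g
    by_cases hj : 2 * j + 1 < n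
    · obtain ⟨h2, hh2, H2⟩ := col hF j hj (h1 * g) (fun a b hb hab => H1 a b hb (by omega) hab)
      refine ⟨h2 * h1, Subgroup.mul_mem _ hh2 hh1, ?_⟩
      intro a b hb _ hab
      rw [mul_assoc]
      exact H2 a b hb hab
    · refine ⟨h1, hh1, ?_⟩
      intro a b hb hb2 hab
      exact H1 a b (by omega) hb2 hab

theorem sup_eq_top [Fintype F] (hF : Fintype.card F = q ^ 2) : BB n F q ⊔ NN n F q = ⊤ := by
  rw [eq_top_iff]
  intro g _
  obtain ⟨h, hh, H⟩ := step hF n g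
  have h1 : h * g ∈ BB n F q := half hF (fun a b hab hb => H a b b.2 hb hab)
  have h2 : g = h⁻¹ * (h * g) := by group
  rw [h2]
  exact Subgroup.mul_mem _ (Subgroup.inv_mem _ hh) ((le_sup_left : BB n F q ≤ _) h1)

end Cfsg.Agent.Lib.H49SuSup
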