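import Mathlib
import Cfsg.Agent.Lib.H49SuDefs
import Cfsg.Agent.Lib.H49SuSig
import Cfsg.Agent.Lib.H49SuStar
import Cfsg.Agent.Lib.H49SuInv
import Cfsg.Agent.Lib.H49SuMonB
import Cfsg.Agent.Lib.H49SuMem
import Cfsg.Agent.Lib.H49SuNT

set_option autoImplicit false

/-! Project 2546 (Steinberg character of `PSU_n(q)`), piece `W0` (20m).

COPY of the landed `H49SgW0` (`ngP := Fin.revPerm`, `Fin.revPerm_apply`, `Fin.rev_lt_rev`, `Fin.rev_rev`). -/

namespace Cfsg.Agent.Lib.H49SuW0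

open Matrix Cfsg.Agent.Lib.H49SuDefs
open Cfsg.Agent.Lib.H49SuSig Cfsg.Agent.Lib.H49SuStar Cfsg.Agent.Lib.H49SuInv Cfsg.Agent.Lib.H49SuMonB Cfsg.Agent.Lib.H49SuMem Cfsg.Agent.Lib.H49SuNT

variable {n : ℕ} {F : Type*} [Field F] {q : ℕ}

theorem revPerm_inv_apply (a : Fin n) : (Fin.revPerm : Equiv.Perm (Fin n))⁻¹ a = Fin.rev a := by
  rw [Equiv.Perm.inv_eq_iff_eq, Fin.revPerm_apply, Fin.rev_rev]

theorem mem_TT_iff [Fintype F] (hF : Fintype.card F = q ^ 2) {m0 : GA n F q} (h0 : Mon Fin.revPerm (mt m0))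
    {β : GA n F q} (hβ : β ∈ BB n F q) : β ∈ TT n F q ↔ m0⁻¹ * β * m0 ∈ BB n F q := by
  have hm0 : m0 ∈ NN n F q := mem_NN.2 ⟨_, h0⟩
  constructor
  · intro h
    have h1 := NN_conj_TT hF ((NN n F q).inv_mem hm0) h
    rw [inv_inv] at h1
    exact TT_le_BB h1
  · intro h
    rw [mem_TT hF]
    intro a b hab
    rcases lt_or_gt_of_ne hab with h2 | h1
    · have h3 := conj_zero (Mon_inv h0) β a b
      rw [inv_inv, revPerm_inv_apply, revPerm_inv_apply] at h3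
      apply h3.1
      apply h.1
      exact Fin.rev_lt_rev.2 h2
    · exact hβ.1 a b h1

end Cfsg.Agent.Lib.H49SuW0
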