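import Mathlib
import Cfsg.Agent.Lib.H49SuDefs
import Cfsg.Agent.Lib.H49SgGen
import Cfsg.Agent.Lib.H49SuMem
import Cfsg.Agent.Lib.H49SuTN
import Cfsg.Agent.Lib.H49SuBNT
import Cfsg.Agent.Lib.H49SuNT
import Cfsg.Agent.Lib.H49SuInvDich
import Cfsg.Agent.Lib.H49SuRefl
import Cfsg.Agent.Lib.H49SuSq
import Cfsg.Agent.Lib.H49SuLift
import Cfsg.Agent.Lib.H49SuCl
import Cfsg.Agent.Lib.H49SuA2
import Cfsg.Agent.Lib.H49SuB1
import Cfsg.Agent.Lib.H49SuClearGL
import Cfsg.Agent.Lib.H49SuClearEven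
import Cfsg.Agent.Lib.H49SuClearOdd
import Cfsg.Agent.Lib.H49SuRankGL
import Cfsg.Agent.Lib.H49SuRankEven
import Cfsg.Agent.Lib.H49SuRankOdd
import Cfsg.Agent.Lib.H49SuNe
import Cfsg.Agent.Lib.H49SuW0
import Cfsg.Agent.Lib.H49SuDec
import Cfsg.Agent.Lib.H49SuNor
import Cfsg.Agent.Lib.H49SuPG
import Cfsg.Agent.Lib.H49SuTP
import Cfsg.Agent.Lib.H49SuSup
import Cfsg.Agent.Lib.H49SuIso
import Cfsg.Agent.Lib.H49SuTransport

set_option autoImplicit false

/-! Project 2546: the BN-pair of `SU_n(q)` (antidiagonal model `GA n F q`) and the Steinberg character of `PSU_n(q)`. -/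

namespace Cfsg.Agent.Lib.H49SuHub

open Matrix Cfsg.Agent.Lib.H49SuDefs

variable {n : ℕ} {F : Type*} [Field F] {q : ℕ}

theorem clear [Fintype F] (hF : Fintype.card F = q ^ 2) {k : ℕ} (hk : 2 * k + 2 ≤ n) {g : GA n F q}
    (hg : g ∈ BB n F q) :
    ∃ c ∈ BB n F q, ∃ x ∈ XX n F q k, (∀ a b, Inv n k a b → mt c a b = 0) ∧ g = c * x := by
  rcases Nat.lt_or_ge (2 * k + 3) n with h | h
  · exact H49SuClearGL.clear hF h hg
  · rcases Nat.eq_or_lt_of_le h with h | h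
    · exact H49SuClearOdd.clear hF h.symm hg
    · exact H49SuClearEven.clear hF (by omega) hg

theorem rank_one [Fintype F] (hF : Fintype.card F = q ^ 2) {k : ℕ} (hk : 2 * k + 2 ≤ n) {s : GA n F q}
    (hs : Mon (sgm n k) (mt s)) {x : GA n F q} (hx : x ∈ XX n F q k) (h1 : x ≠ 1) :
    ∃ g ∈ BB n F q, ∃ y ∈ YY n F q k, s * x = g * y := by
  rcases Nat.lt_or_ge (2 * k + 3) n with h | h
  · exact H49SuRankGL.rank_one hF h hs hx h1
  · rcases Nat.eq_or_lt_of_le h with h | h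
    · exact H49SuRankOdd.rank_one hF h.symm hs hx h1
    · exact H49SuRankEven.rank_one hF (by omega) hs hx h1

/-- **The BN-pair of `SU_n(q)`.** -/
noncomputable def bn [Fintype F] (hF : Fintype.card F = q ^ 2) (n : ℕ) : Cfsg.BNPair (GA n F q) where
  B := BB n F q
  N := NN n F q
  S := SS n F q
  sup_eq_top := H49SuSup.sup_eq_top hF
  conj_mem := by
    intro g hg t ht
    rw [H49SuBNT.BB_inf_NN hF] at ht
    exact TT_le_BB (H49SuNT.NN_conj_TT hF hg ht)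
  subset := H49SuRefl.SS_subset hF
  sq_mem := by
    rintro s ⟨k, hk, rfl⟩
    exact TT_le_BB (H49SuSq.sq_mem hF (H49SuRefl.Mon_sk hF k hk))
  inj := by
    rintro s ⟨k, hk, rfl⟩ s' ⟨k', hk', rfl⟩ hB
    rw [H49SuSq.inj hF hk hk' (H49SuRefl.Mon_sk hF k hk) (H49SuRefl.Mon_sk hF k' hk') hB]
  closure_sup := H49SuCl.closure_sup hF
  mul_mem_union := by
    rintro s ⟨k, hk, rfl⟩ g hg β hβ
    obtain ⟨π, hπ⟩ := H49SuMem.mem_NN.1 hg
    have hπ' := H49SuMonB.Mon_inv hπ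
    have hs := H49SuRefl.Mon_sk hF k hk
    refine H49SgG1.mul_mem_union (BB n F q) (sk n F q k) g (XX n F q k) (YY n F q k) ?_ ?_ ?_ β hβ
    · intro b hb
      obtain ⟨c, hc, x, hx, h0, e⟩ := clear hF hk hb
      exact ⟨c, hc, x, hx, H49SuA2.conj_mem_BB hF hs hc h0, e⟩
    · rcases H49SuInvDich.inv_dich n k π⁻¹ (H49SuMonB.Mon_rev hF hπ') with h | h
      · left
        intro x hx
        have := H49SuB1.conj_XX hF hπ' h hx
        rwa [inv_inv] at this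
      · right
        intro y hy
        have := H49SuB1.conj_YY hF hπ' h hy
        rwa [inv_inv] at this
    · intro x hx
      by_cases h1 : x = 1
      · exact Or.inl h1
      · exact Or.inr (rank_one hF hk hs hx h1)
  conj_ne := by
    rintro s ⟨k, hk, rfl⟩ he
    obtain ⟨x, hx, h1⟩ := H49SuNe.exists_ne_one (F := F) hF k hk
    have : sk n F q k * x * sk n F q k ∈ ((BB n F q : Subgroup (GA n F q)) : Set (GA n F q)) := by
      rw [← he]
      exact ⟨_, H49SuB1.XX_le hF hx, rfl⟩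
    exact H49SuNe.conj_not_mem hF (H49SuRefl.Mon_sk hF k hk) hx h1 this

theorem steinberg_GA [Fintype F] (p : ℕ) [Fact p.Prime] [CharP F p] (hF : Fintype.card F = q ^ 2) (n : ℕ) :
    ∃ ψ : GA n F q ⧸ Subgroup.center (GA n F q) → ℂ,
      Cfsg.IsIrrCharacter (GA n F q ⧸ Subgroup.center (GA n F q)) ψ ∧
      ∀ Q : Sylow p (GA n F q ⧸ Subgroup.center (GA n F q)), ψ 1 = Nat.card Q ∧
        ∀ x : GA n F q ⧸ Subgroup.center (GA n F q), x ∈ Q → x ≠ 1 → ψ x = 0 := by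
  have : Finite (GA n F q) := inferInstance
  obtain ⟨m0, hm0, h0⟩ := H49SuLift.nlift (F := F) hF (Fin.revPerm : Equiv.Perm (Fin n)) (fun a => rfl)
  exact H49SgGen.steinberg_of_bn (bn hF n) (UU n F q) (TT n F q) m0 hm0 (H49SuTN.TT_le_NN hF) TT_le_BB
    (fun β hβ => H49SuW0.mem_TT_iff hF h0 hβ) UU_le_BB (fun b hb u hu => H49SuNor.BB_conj_UU hF hb hu)
    (fun b hb => H49SuDec.BB_decomp hF hb) (fun g hU hT => H49SuNor.UU_inf_TT hU hT) p
    (H49SuPG.isPGroup_UU p) (H49SuTP.not_dvd_card_TT p)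

/-- **The Steinberg character of `PSU_n(q)`.** -/
theorem steinberg_PSU [Fintype F] (p : ℕ) [Fact p.Prime] [CharP F p] (n q : ℕ) (hF : Fintype.card F = q ^ 2) :
    ∃ χ : Cfsg.PSU n F q → ℂ, Cfsg.IsIrrCharacter (Cfsg.PSU n F q) χ ∧
      ∀ P : Sylow p (Cfsg.PSU n F q), χ 1 = Nat.card P ∧ ∀ x : Cfsg.PSU n F q, x ∈ P → x ≠ 1 → χ x = 0 := by
  obtain ⟨e⟩ := H49SuIso.iso (F := F) hF n
  exact H49SuTransport.transport e p (steinberg_GA p hF n)

end Cfsg.Agent.Lib.H49SuHub
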