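import Cfsg.Agent.Lib.Helper49UDefs
import Cfsg.Agent.Lib.H49SAlgTwo

/-!
# PROJECT 51 (Sp x O, part T2), piece `AlgSplit`
-/

set_option autoImplicit false
set_option linter.unusedSectionVars false
set_option linter.unusedVariables false

namespace Cfsg.Agent.Lib.H49UAlgSplit

open scoped Matrix Kronecker
open Matrix Cfsg.Agent.Lib.Helper49TDefs Cfsg.Agent.Lib.Helper49SDefs Cfsg.Agent.Lib.Helper49ODefs
  Cfsg.Agent.Lib.Helper49UDefs
open Cfsg.Agent.Lib.H49SAlgTwo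

variable {F : Type*} [Field F] {a b n : ℕ}

local notation "GLn" => Matrix.GeneralLinearGroup (Fin a × Fin b) F
local notation "Mn" => Matrix (Fin a × Fin b) (Fin a × Fin b) F
local notation "Ma" => Matrix (Fin a) (Fin a) F
local notation "Mb" => Matrix (Fin b) (Fin b) F
local notation "GLa" => Matrix.GeneralLinearGroup (Fin a) F
local notation "GLb" => Matrix.GeneralLinearGroup (Fin b) F

/-- `a = 2`: `ζ + adj ζ` is self-adjoint, so `f((ζ + adj ζ) x, x) = 0` and it is a scalar `2k` (`alg_two`); `ζ_a = ζ - k`. -/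
theorem alg_split {J : Matrix (Fin n) (Fin n) F} (hJ : IsSympMat J) (h2 : (2 : F) ≠ 0)
    (hn2 : n = 2) (ζ : Matrix (Fin n) (Fin n) F) :
    ∃ (k : F) (ζa : Matrix (Fin n) (Fin n) F), ζ = k • 1 + ζa ∧
      ∀ x y, bf J (ζa *ᵥ x) y + bf J x (ζa *ᵥ y) = 0 := by
  have h0 : ∀ u, bf J ((ζ + adjJ J ζ) *ᵥ u) u = 0 := by
    intro u
    rw [Matrix.add_mulVec, bf_add_left, hJ.bf_adjJ ζ u u, hJ.swap u]
    ring
  obtain ⟨k', hk'⟩ : ∃ k' : F, ζ + adjJ J ζ = k' • 1 := by
    by_contra hcon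
    push Not at hcon
    obtain ⟨u, hu⟩ := alg_two hJ hn2 _ hcon
    exact hu (h0 u)
  refine ⟨k' / 2, ζ - (k' / 2) • 1, by abel, ?_⟩
  intro x y
  have h1 : bf J x ((ζ + adjJ J ζ) *ᵥ y) = k' * bf J x y := by
    rw [hk', Matrix.smul_mulVec, Matrix.one_mulVec, bf_smul_right]
  rw [Matrix.add_mulVec, bf_add_right, ← hJ.bf_adjJ ζ x y] at h1
  simp only [Matrix.sub_mulVec, Matrix.smul_mulVec, Matrix.one_mulVec, bf_sub_left, bf_sub_right,
    bf_smul_left, bf_smul_right]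
  have h3 : k' / 2 * bf J x y + k' / 2 * bf J x y = k' * bf J x y := by
    field_simp
    ring
  linear_combination h1 - h3

end Cfsg.Agent.Lib.H49UAlgSplit
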