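import Cfsg.Agent.Lib.Helper49UDefs

/-!
# PROJECT 51 (Sp x O, part T2), piece `Basic`
-/

set_option autoImplicit false
set_option linter.unusedSectionVars false
set_option linter.unusedVariables false

namespace Cfsg.Agent.Lib.H49UBasic

open scoped Matrix Kronecker
open Matrix Cfsg.Agent.Lib.Helper49TDefs Cfsg.Agent.Lib.Helper49SDefs Cfsg.Agent.Lib.Helper49ODefs
  Cfsg.Agent.Lib.Helper49UDefs

variable {F : Type*} [Field F] {a b n : ℕ}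

local notation "GLn" => Matrix.GeneralLinearGroup (Fin a × Fin b) F
local notation "Mn" => Matrix (Fin a × Fin b) (Fin a × Fin b) F
local notation "Ma" => Matrix (Fin a) (Fin a) F
local notation "Mb" => Matrix (Fin b) (Fin b) F
local notation "GLa" => Matrix.GeneralLinearGroup (Fin a) F
local notation "GLb" => Matrix.GeneralLinearGroup (Fin b) F

theorem single_eq_tens (p : Fin a × Fin b) :
    (Pi.single p 1 : Fin a × Fin b → F) = tens (Pi.single p.1 1) (Pi.single p.2 1) := by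
  funext q
  obtain ⟨p1, p2⟩ := p
  obtain ⟨q1, q2⟩ := q
  simp only [tens, Pi.single_apply, Prod.mk.injEq]
  by_cases h1 : q1 = p1 <;> by_cases h2 : q2 = p2 <;> simp [h1, h2]

theorem mat_ext_tens {K K' : Mn}
    (h : ∀ x x' v v', tens x v ⬝ᵥ K *ᵥ tens x' v' = tens x v ⬝ᵥ K' *ᵥ tens x' v') : K = K' := by
  ext p q
  have h1 := h (Pi.single p.1 1) (Pi.single q.1 1) (Pi.single p.2 1) (Pi.single q.2 1)
  rw [← single_eq_tens, ← single_eq_tens] at h1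
  simpa [Matrix.mulVec_single_one] using h1

theorem dot_transpose {ι : Type*} [Fintype ι] (K : Matrix ι ι F) (x y : ι → F) :
    x ⬝ᵥ Kᵀ *ᵥ y = y ⬝ᵥ K *ᵥ x := by
  rw [Matrix.mulVec_transpose, Matrix.dotProduct_mulVec, dotProduct_comm]

theorem dot_gram {ι : Type*} [Fintype ι] (J g : Matrix ι ι F) (x y : ι → F) :
    (g *ᵥ x) ⬝ᵥ J *ᵥ (g *ᵥ y) = x ⬝ᵥ (gᵀ * J * g) *ᵥ y := by
  rw [← Matrix.mulVec_mulVec, ← Matrix.mulVec_mulVec, Matrix.dotProduct_mulVec x,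
    Matrix.vecMul_transpose]

/-- `f = f₁ ⊗ f₂` is alternating. -/
theorem f_swap (D : SoDat F a b) (x y : Fin a × Fin b → F) : D.f x y = - D.f y x := by
  have hK : (D.J₁ ⊗ₖ D.J₂)ᵀ = -(D.J₁ ⊗ₖ D.J₂) := by
    apply mat_ext_tens
    intro x x' v v'
    rw [dot_transpose, Matrix.neg_mulVec, dotProduct_neg]
    have h1 := fK_tens D.J₁ D.J₂ x' x v' v
    have h2 := fK_tens D.J₁ D.J₂ x x' v v'
    unfold fK at h1 h2
    rw [h1, h2, D.h₁.swap x' x, D.h₂.symm v' v]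
    ring
  show x ⬝ᵥ (D.J₁ ⊗ₖ D.J₂) *ᵥ y = - (y ⬝ᵥ (D.J₁ ⊗ₖ D.J₂) *ᵥ x)
  rw [← dot_transpose (D.J₁ ⊗ₖ D.J₂) x y, hK, Matrix.neg_mulVec, dotProduct_neg, neg_neg]

/-- `J₁ ⊗ J₂` is invertible -/
theorem f_nondeg (D : SoDat F a b) {x : Fin a × Fin b → F} (h : ∀ y, D.f x y = 0) : x = 0 := by
  funext p
  have h1 := h ((D.J₁⁻¹ ⊗ₖ D.J₂⁻¹) *ᵥ Pi.single p 1)
  unfold SoDat.f fK at h1
  rw [Matrix.mulVec_mulVec, ← Matrix.mul_kronecker_mul,
    Matrix.mul_nonsing_inv _ D.h₁.unit, Matrix.mul_nonsing_inv _ D.h₂.unit,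
    Matrix.one_kronecker_one, Matrix.one_mulVec] at h1
  simpa using h1

theorem SG_f (D : SoDat F a b) {g : GLn} (hg : g ∈ SG D) (x y : Fin a × Fin b → F) :
    D.f ((g : Mn) *ᵥ x) ((g : Mn) *ᵥ y) = D.f x y := hg x y

theorem SG_f_inv (D : SoDat F a b) {g : GLn} (hg : g ∈ SG D) (x y : Fin a × Fin b → F) :
    D.f (((g⁻¹ : GLn) : Mn) *ᵥ x) y = D.f x ((g : Mn) *ᵥ y) := by
  have h := hg (((g⁻¹ : GLn) : Mn) *ᵥ x) y
  rw [Matrix.mulVec_mulVec, ← Units.val_mul, mul_inv_cancel, Units.val_one, Matrix.one_mulVec] at h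
  exact h.symm

theorem f_ctr (D : SoDat F a b) (w : Fin a × Fin b → F) (u : Fin a → F) (c : Fin b → F) :
    D.f w (tens u c) = bf D.J₁ (ctr (D.J₂ *ᵥ c) w) u := fK_eq_bf_ctr _ _ _ _ _

/-- it is enough to check the isometry condition on pure tensors -/
theorem mem_SG_of_tens (D : SoDat F a b) (g : GLn)
    (h : ∀ x x' v v', D.f ((g : Mn) *ᵥ tens x v) ((g : Mn) *ᵥ tens x' v')
      = bf D.J₁ x x' * bf D.J₂ v v') : g ∈ SG D := by
  have hK : (g : Mn)ᵀ * (D.J₁ ⊗ₖ D.J₂) * (g : Mn) = D.J₁ ⊗ₖ D.J₂ := by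
    apply mat_ext_tens
    intro x x' v v'
    rw [← dot_gram]
    have h1 := h x x' v v'
    have h2 := fK_tens D.J₁ D.J₂ x x' v v'
    unfold SoDat.f fK at h1
    unfold fK at h2
    rw [h1, h2]
  intro x y
  show ((g : Mn) *ᵥ x) ⬝ᵥ (D.J₁ ⊗ₖ D.J₂) *ᵥ ((g : Mn) *ᵥ y) = x ⬝ᵥ (D.J₁ ⊗ₖ D.J₂) *ᵥ y
  rw [dot_gram, hK]

end Cfsg.Agent.Lib.H49UBasic
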