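import Cfsg.Agent.Lib.Helper49UDefs

/-!
# PROJECT 51 (Sp x O, part T2), piece `EOiso`
-/

set_option autoImplicit false
set_option linter.unusedSectionVars false
set_option linter.unusedVariables false

namespace Cfsg.Agent.Lib.H49UEOiso

open scoped Matrix Kronecker
open Matrix Cfsg.Agent.Lib.Helper49TDefs Cfsg.Agent.Lib.Helper49SDefs Cfsg.Agent.Lib.Helper49ODefs
  Cfsg.Agent.Lib.Helper49UDefs

variable {F : Type*} [Field F] {a b n : ℕ}

local notation "GLn" => Matrix.GeneralLinearGroup (Fin a × Fin b) F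
local notation "Mn" => Matrix (Fin a × Fin b) (Fin a × Fin b) F
local notation "Ma" => Matrix (Fin a) (Fin a) F
local notation "Mb" => Matrix (Fin b) (Fin b) F
local notation "GLa" => Matrix.GeneralLinearGroup (Fin a) F
local notation "GLb" => Matrix.GeneralLinearGroup (Fin b) F

theorem EO_mulVec (J : Matrix (Fin n) (Fin n) F) (c w v : Fin n → F) :
    EO J c w *ᵥ v = v + bf J v w • c - bf J v c • w - (bf J w w / 2 * bf J v c) • c := by
  simp only [EO, Matrix.sub_mulVec, Matrix.add_mulVec, Matrix.one_mulVec, NJ_mulVec,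
    Matrix.smul_mulVec, smul_smul]

theorem EO_mul_neg {J : Matrix (Fin n) (Fin n) F} (hJ : IsSymmMat J) (h2 : (2 : F) ≠ 0)
    {c w : Fin n → F} (hs : bf J c c = 0) (hw : bf J w c = 0) :
    EO J c w * EO J c (-w) = 1 := by
  have hw' : bf J c w = 0 := by rw [hJ.symm, hw]
  apply Matrix.toLin'.injective
  apply LinearMap.ext
  intro v
  simp only [Matrix.toLin'_apply, ← Matrix.mulVec_mulVec, EO_mulVec, Matrix.one_mulVec,
    bf_add_left, bf_sub_left, bf_smul_left, bf_neg_left, bf_neg_right, hs, hw, hw']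
  ext i
  simp only [Pi.add_apply, Pi.sub_apply, Pi.smul_apply, Pi.neg_apply, smul_eq_mul]
  field_simp
  ring

/-- the Eichler transformations are isometries; `E(c,w)⁻¹ = E(c,-w)` (`NJ_mul` calculus or on vectors) -/
theorem EO_iso {J : Matrix (Fin n) (Fin n) F} (hJ : IsSymmMat J) (h2 : (2 : F) ≠ 0)
    {c w : Fin n → F} (hs : bf J c c = 0) (hw : bf J w c = 0) :
    ∃ g : Matrix.GeneralLinearGroup (Fin n) F, IsIso J g ∧
      (g : Matrix (Fin n) (Fin n) F) = EO J c w ∧
      ((g⁻¹ : Matrix.GeneralLinearGroup (Fin n) F) : Matrix (Fin n) (Fin n) F) = EO J c (-w) := by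
  have hw' : bf J c w = 0 := by rw [hJ.symm, hw]
  have h1 := EO_mul_neg hJ h2 hs hw
  have h3 : EO J c (-w) * EO J c w = 1 := by
    have := EO_mul_neg hJ h2 hs (w := -w) (by rw [bf_neg_left, hw, neg_zero])
    rwa [neg_neg] at this
  refine ⟨⟨EO J c w, EO J c (-w), h1, h3⟩, ?_, rfl, rfl⟩
  intro x y
  show bf J (EO J c w *ᵥ x) (EO J c w *ᵥ y) = bf J x y
  simp only [EO_mulVec, bf_add_left, bf_sub_left, bf_smul_left, bf_add_right, bf_sub_right,
    bf_smul_right, hs, hw, hw']
  rw [hJ.symm c y, hJ.symm w y]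
  field_simp
  ring

/-- `(E(c,w) - 1)² = - f(w,w) N(c,c)` (`NJ_mul`) -/
theorem XO_sq {J : Matrix (Fin n) (Fin n) F} (hJ : IsSymmMat J)
    {c w : Fin n → F} (hs : bf J c c = 0) (hw : bf J w c = 0) :
    (EO J c w - 1) * (EO J c w - 1) = (- bf J w w) • NJ J c c := by
  have hw' : bf J c w = 0 := by rw [hJ.symm, hw]
  apply Matrix.toLin'.injective
  apply LinearMap.ext
  intro v
  simp only [Matrix.toLin'_apply, ← Matrix.mulVec_mulVec, Matrix.sub_mulVec, EO_mulVec,
    Matrix.one_mulVec, Matrix.smul_mulVec, NJ_mulVec,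
    bf_add_left, bf_sub_left, bf_smul_left, hs, hw, hw']
  ext i
  simp only [Pi.add_apply, Pi.sub_apply, Pi.smul_apply, Pi.neg_apply, smul_eq_mul]
  ring

end Cfsg.Agent.Lib.H49UEOiso
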