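import Cfsg.Agent.Lib.Helper49UDefs

/-!
# PROJECT 51 (Sp x O, part T2), piece `GeoO`
-/

set_option autoImplicit false
set_option linter.unusedSectionVars false
set_option linter.unusedVariables false

namespace Cfsg.Agent.Lib.H49UGeoO

open scoped Matrix Kronecker
open Matrix Cfsg.Agent.Lib.Helper49TDefs Cfsg.Agent.Lib.Helper49SDefs Cfsg.Agent.Lib.Helper49ODefs
  Cfsg.Agent.Lib.Helper49UDefs

variable {F : Type*} [Field F] {a b n : ℕ}

local notation "GLn" => Matrix.GeneralLinearGroup (Fin a × Fin b) F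
local notation "Mn" => Matrix (Fin a × Fin b) (Fin a × Fin b) F
local notation "Ma" => Matrix (Fin a) (Fin a) F
local notation "Mb" => Matrix (Fin b) (Fin b) F
local notation "GLa" => Matrix.GeneralLinearGroup (Fin a) F
local notation "GLb" => Matrix.GeneralLinearGroup (Fin b) F

/-- `(V₁ ⊗ c^⊥)^⊥ = V₁ ⊗ c`, in terms of contractions.  COPY of `H49SGeo.exists_tens_of_ctr` (only nondegeneracy of
`J₂` is used: `D.h₂.exists_repr`, `D.h₂.eq_zero_of_right`, ...). -/
theorem exists_tens_of_ctrO (D : SoDat F a b) {c : Fin b → F} (hc : c ≠ 0)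
    (w : Fin a × Fin b → F)
    (h : ∀ e, bf D.J₂ e c = 0 → ctr (D.J₂ *ᵥ e) w = 0) : ∃ u, w = tens u c := by
  obtain ⟨d, hd⟩ := D.h₂.exists_ne_zero hc
  have hrow : ∀ (s : Fin a) (e : Fin b → F), bf D.J₂ (fun j => w (s, j)) e
      = ctr (D.J₂ *ᵥ e) w s := fun s e => rfl
  refine ⟨fun s => bf D.J₂ (fun j => w (s, j)) d, ?_⟩
  have key : ∀ s : Fin a, (fun j => w (s, j)) - (bf D.J₂ (fun j => w (s, j)) d) • c = 0 := by
    intro s
    apply D.h₂.eq_zero_of_left
    intro v
    have he : bf D.J₂ (v - bf D.J₂ v c • d) c = 0 := by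
      rw [bf_sub_left, bf_smul_left, hd, mul_one, sub_self]
    have h1 : bf D.J₂ (fun j => w (s, j)) (v - bf D.J₂ v c • d) = 0 := by
      rw [hrow, h _ he]; rfl
    have h2 : bf D.J₂ c v = bf D.J₂ v c := D.h₂.symm c v
    rw [bf_sub_right, bf_smul_right] at h1
    rw [bf_sub_left, bf_smul_left, h2]
    linear_combination h1
  ext ⟨s, j⟩
  have := congrFun (key s) j
  simp only [Pi.sub_apply, Pi.smul_apply, smul_eq_mul, Pi.zero_apply] at this
  simp only [tens]
  linear_combination this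

/-- `x ↦ ctr φ (X (x ⊗ e))` is linear -/
theorem exists_ctr_mat (X : Mn) (φ e : Fin b → F) :
    ∃ Θ : Ma, ∀ x, ctr φ (X *ᵥ tens x e) = Θ *ᵥ x := by
  let l : (Fin a → F) →ₗ[F] (Fin a → F) :=
    { toFun := fun x => ctr φ (X *ᵥ tens x e)
      map_add' := fun x y => by rw [tens_add_left, Matrix.mulVec_add, ctr_add]
      map_smul' := fun k x => by rw [tens_smul_left, Matrix.mulVec_smul, ctr_smul]; rfl }
  refine ⟨LinearMap.toMatrix' l, fun x => ?_⟩
  rw [← Matrix.toLin'_apply (LinearMap.toMatrix' l), Matrix.toLin'_toMatrix']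
  rfl

/-- a vector of `V₁ ⊗ C` is a sum of pure tensors: `v = ∑ s, tens (Pi.single s 1) (fun j => v (s, j))` -/
theorem tsub_induction {C : Submodule F (Fin b → F)} {p : (Fin a × Fin b → F) → Prop}
    (h0 : p 0) (hadd : ∀ v w, p v → p w → p (v + w)) (ht : ∀ x, ∀ e ∈ C, p (tens x e))
    (v : Fin a × Fin b → F) (hv : v ∈ tsub a C) : p v := by
  classical
  have hsum : v = ∑ s : Fin a, tens (Pi.single s (1 : F)) (fun j => v (s, j)) := by
    ext ⟨s', j⟩
    rw [Finset.sum_apply]
    simp only [tens, Pi.single_apply]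
    simp
  have hp : ∀ S : Finset (Fin a), p (∑ s ∈ S, tens (Pi.single s (1 : F)) (fun j => v (s, j))) := by
    intro S
    induction S using Finset.induction_on with
    | empty => simpa using h0
    | insert s S hs ih =>
      rw [Finset.sum_insert hs]
      exact hadd _ _ (ht _ _ (mem_tsub.1 hv s)) ih
  rw [hsum]
  exact hp _

end Cfsg.Agent.Lib.H49UGeoO
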