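import Cfsg.Agent.Lib.Helper49UDefs
import Cfsg.Agent.Lib.H49UEOiso
import Cfsg.Agent.Lib.H49UGeoO

/-!
# PROJECT 51 (Sp x O, part T2), piece `FilB`
-/

set_option autoImplicit false
set_option linter.unusedSectionVars false
set_option linter.unusedVariables false

namespace Cfsg.Agent.Lib.H49UFilB

open scoped Matrix Kronecker
open Matrix Cfsg.Agent.Lib.Helper49TDefs Cfsg.Agent.Lib.Helper49SDefs Cfsg.Agent.Lib.Helper49ODefs
  Cfsg.Agent.Lib.Helper49UDefs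
open Cfsg.Agent.Lib.H49UEOiso
open Cfsg.Agent.Lib.H49UGeoO

variable {F : Type*} [Field F] {a b n : ℕ}

local notation "GLn" => Matrix.GeneralLinearGroup (Fin a × Fin b) F
local notation "Mn" => Matrix (Fin a × Fin b) (Fin a × Fin b) F
local notation "Ma" => Matrix (Fin a) (Fin a) F
local notation "Mb" => Matrix (Fin b) (Fin b) F
local notation "GLa" => Matrix.GeneralLinearGroup (Fin a) F
local notation "GLb" => Matrix.GeneralLinearGroup (Fin b) F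

/-- three steps down the filtration -/
theorem fil_mul3 (D : SoDat F a b) {c : Fin b → F} {X₁ X₂ X₃ : Mn} (h₁ : Fil D c X₁)
    (h₂ : Fil D c X₂) (h₃ : Fil D c X₃) : X₁ * X₂ * X₃ = 0 := by
  apply Matrix.toLin'.injective
  apply LinearMap.ext
  intro v
  simp only [Matrix.toLin'_apply, ← Matrix.mulVec_mulVec]
  obtain ⟨x, hx⟩ := h₂.mid _ (h₃.top v)
  rw [hx, h₁.bot]
  simp

/-- the product of two: image in `V₁ ⊗ c`, kills `V₁ ⊗ c^⊥` -/
theorem fil_mul2 (D : SoDat F a b) {c : Fin b → F} {X₁ X₂ : Mn} (h₁ : Fil D c X₁)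
    (h₂ : Fil D c X₂) :
    (∀ v, ∃ u, (X₁ * X₂) *ᵥ v = tens u c) ∧
      ∀ u v, bf D.J₂ v c = 0 → (X₁ * X₂) *ᵥ tens u v = 0 := by
  refine ⟨fun v => ?_, fun u v hv => ?_⟩
  · rw [← Matrix.mulVec_mulVec]
    exact h₁.mid _ (h₂.top v)
  · rw [← Matrix.mulVec_mulVec]
    obtain ⟨x, hx⟩ := h₂.mid _ (tens_mem_tsub_perpS hv u)
    rw [hx, h₁.bot]

/-- (`kron_NJ_mulVec`) -/
theorem kron_XO_mulVec (D : SoDat F a b) (c w : Fin b → F) (v : Fin a × Fin b → F) :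
    ((1 : Ma) ⊗ₖ XO D c w) *ᵥ v = tens (ctr (D.J₂ *ᵥ w) v) c - tens (ctr (D.J₂ *ᵥ c) v) w
      - (bf D.J₂ w w / 2) • tens (ctr (D.J₂ *ᵥ c) v) c := by
  have e : XO D c w = NJ D.J₂ c w + (-1 : F) • NJ D.J₂ w c
      + (-(bf D.J₂ w w / 2)) • NJ D.J₂ c c := by
    simp only [XO, EO]
    rw [neg_smul, neg_smul, one_smul]
    abel
  rw [e, Matrix.kronecker_add, Matrix.kronecker_add, Matrix.kronecker_smul, Matrix.kronecker_smul,
    Matrix.add_mulVec, Matrix.add_mulVec, Matrix.smul_mulVec, Matrix.smul_mulVec,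
    kron_NJ_mulVec, kron_NJ_mulVec, kron_NJ_mulVec, Matrix.one_mulVec, Matrix.one_mulVec,
    neg_smul, neg_smul, one_smul]
  abel

theorem kron_XO_mulVec_perp (D : SoDat F a b) (c w : Fin b → F) (v : Fin a × Fin b → F)
    (hv : v ∈ tsub a (perpS D.J₂ c)) :
    ((1 : Ma) ⊗ₖ XO D c w) *ᵥ v = tens (ctr (D.J₂ *ᵥ w) v) c := by
  rw [mem_tsub_perpS_iff] at hv
  rw [kron_XO_mulVec, hv]
  simp

theorem fil_XO (D : SoDat F a b) {c w : Fin b → F} (hs : bf D.J₂ c c = 0)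
    (hw : bf D.J₂ w c = 0) : Fil D c ((1 : Ma) ⊗ₖ XO D c w) := by
  refine ⟨fun v => ?_, fun v hv => ⟨_, kron_XO_mulVec_perp D c w v hv⟩, fun x => ?_⟩
  · rw [kron_XO_mulVec]
    exact Submodule.sub_mem _ (Submodule.sub_mem _ (tens_mem_tsub_perpS hs _)
      (tens_mem_tsub_perpS hw _)) (Submodule.smul_mem _ _ (tens_mem_tsub_perpS hs _))
  · rw [kron_XO_mulVec_perp D c w _ (tens_mem_tsub_perpS hs x), ctr_J_tens, D.h₂.symm, hw]
    simp

end Cfsg.Agent.Lib.H49UFilB
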