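import Cfsg.Agent.Lib.Helper49UDefs
import Cfsg.Agent.Lib.H49UFilB

/-!
# PROJECT 51 (Sp x O, part T2), piece `CommU`
-/

set_option autoImplicit false
set_option linter.unusedSectionVars false
set_option linter.unusedVariables false

namespace Cfsg.Agent.Lib.H49UCommU

open scoped Matrix Kronecker
open Matrix Cfsg.Agent.Lib.Helper49TDefs Cfsg.Agent.Lib.Helper49SDefs Cfsg.Agent.Lib.Helper49ODefs
  Cfsg.Agent.Lib.Helper49UDefs
open Cfsg.Agent.Lib.H49UFilB

variable {F : Type*} [Field F] {a b n : ℕ}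

local notation "GLn" => Matrix.GeneralLinearGroup (Fin a × Fin b) F
local notation "Mn" => Matrix (Fin a × Fin b) (Fin a × Fin b) F
local notation "Ma" => Matrix (Fin a) (Fin a) F
local notation "Mb" => Matrix (Fin b) (Fin b) F
local notation "GLa" => Matrix.GeneralLinearGroup (Fin a) F
local notation "GLb" => Matrix.GeneralLinearGroup (Fin b) F

/-- the commutator of two elements of the unipotent radical: with `A = g - 1`, `B = x - 1` all products of three factors
vanish (`fil_mul3`), `g⁻¹ = 1 - A + A²`, `x⁻¹ = 1 - B + B²` (`Units.inv_eq_of_mul_eq_one_right`), and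
`g x g⁻¹ x⁻¹ = 1 + AB - BA` (`noncomm_ring` after killing the words of length `≥ 3`; see `H49SComm.comm_aux`).
`(AB - BA)² = 0` (words of length 4). -/
theorem comm_mem (D : SoDat F a b) {c : Fin b → F} {H : Subgroup GLn} {g x : GLn} (hg : g ∈ H)
    (hx : x ∈ H) (hA : Fil D c ((g : Mn) - 1)) (hB : Fil D c ((x : Mn) - 1)) :
    ((g : Mn) - 1) * ((x : Mn) - 1) - ((x : Mn) - 1) * ((g : Mn) - 1) ∈ NN H := by
  obtain ⟨A, hAdef⟩ : ∃ A : Mn, A = (g : Mn) - 1 := ⟨_, rfl⟩
  obtain ⟨B, hBdef⟩ : ∃ B : Mn, B = (x : Mn) - 1 := ⟨_, rfl⟩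
  rw [← hAdef] at hA ⊢
  rw [← hBdef] at hB ⊢
  have eg : (g : Mn) = 1 + A := by rw [hAdef]; abel
  have ex : (x : Mn) = 1 + B := by rw [hBdef]; abel
  have aaa : A * A * A = 0 := fil_mul3 D hA hA hA
  have aab : A * A * B = 0 := fil_mul3 D hA hA hB
  have aba : A * B * A = 0 := fil_mul3 D hA hB hA
  have abb : A * B * B = 0 := fil_mul3 D hA hB hB
  have baa : B * A * A = 0 := fil_mul3 D hB hA hA
  have bab : B * A * B = 0 := fil_mul3 D hB hA hB
  have bba : B * B * A = 0 := fil_mul3 D hB hB hA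
  have bbb : B * B * B = 0 := fil_mul3 D hB hB hB
  have ig : ((g⁻¹ : GLn) : Mn) = 1 - A + A * A := by
    rw [Units.inv_eq_of_mul_eq_one_right]
    rw [eg]
    have : (1 + A) * (1 - A + A * A) = 1 + A * A * A := by noncomm_ring
    rw [this, aaa, add_zero]
  have ix : ((x⁻¹ : GLn) : Mn) = 1 - B + B * B := by
    rw [Units.inv_eq_of_mul_eq_one_right]
    rw [ex]
    have : (1 + B) * (1 - B + B * B) = 1 + B * B * B := by noncomm_ring
    rw [this, bbb, add_zero]
  refine ⟨?_, g * x * g⁻¹ * x⁻¹,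
    H.mul_mem (H.mul_mem (H.mul_mem hg hx) (H.inv_mem hg)) (H.inv_mem hx), ?_⟩
  · have : (A * B - B * A) * (A * B - B * A)
        = A * B * A * B - A * B * B * A - B * A * A * B + B * A * B * A := by noncomm_ring
    rw [this, aba, abb, baa, bab]
    simp
  · rw [Units.val_mul, Units.val_mul, Units.val_mul, ig, ix, eg, ex]
    have s1 : (1 + A) * (1 + B) * (1 - A + A * A)
        = 1 + B + A * B - B * A - A * B * A + A * A * A + B * A * A + A * B * A * A := by
      noncomm_ring
    rw [s1, aba, aaa, baa]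
    have s2 : (1 + B + A * B - B * A - 0 + 0 + 0 + 0 * A) * (1 - B + B * B)
        = 1 + A * B - B * A - A * B * B + B * A * B + B * B * B + A * B * B * B - B * A * B * B := by
      noncomm_ring
    rw [s2, abb, bab, bbb]
    simp only [zero_mul, sub_zero, add_zero]
    abel

end Cfsg.Agent.Lib.H49UCommU
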