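import Cfsg.Agent.Lib.H97EDefs

set_option autoImplicit false
set_option linter.unusedSectionVars false
set_option linter.unusedVariables false

namespace Cfsg.Agent.Lib.H97EHyp

open scoped Matrix Kronecker
open Matrix Cfsg.Agent.Lib.Helper49TDefs Cfsg.Agent.Lib.Helper49SDefs Cfsg.Agent.Lib.Helper49ODefs
  Cfsg.Agent.Lib.Helper95Basic Cfsg.Agent.Lib.Helper95Sp Cfsg.Agent.Lib.Helper95Cen
  Cfsg.Agent.Lib.Helper95Form Cfsg.Agent.Lib.H97EDefs

variable {F : Type*} [Field F] {a b n : ℕ}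

local notation "GLn" => Matrix.GeneralLinearGroup (Fin a × Fin b) F
local notation "Mn" => Matrix (Fin a × Fin b) (Fin a × Fin b) F
local notation "Ma" => Matrix (Fin a) (Fin a) F
local notation "Mb" => Matrix (Fin b) (Fin b) F
local notation "GLa" => Matrix.GeneralLinearGroup (Fin a) F
local notation "GLb" => Matrix.GeneralLinearGroup (Fin b) F

/-! **Piece Hyp.**  `V₁ ⊗ ⟨c,d⟩ ⊆ TT`. -/

theorem tens_sub_left (x x' : Fin a → F) (d : Fin b → F) :
    tens (x - x') d = tens x d - tens x' d := by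
  ext p
  simp [tens, sub_mul]

theorem tens_zero_left (d : Fin b → F) : tens (0 : Fin a → F) d = 0 := by
  ext p
  simp [tens]

theorem hyp_TT (D : SoDat F a b) (H : Subgroup GLn) {c d : Fin b → F} (hd : bf D.J₂ d d = 0)
    (hcd : bf D.J₂ c d ≠ 0) (h1 : ∀ x : Fin a → F, tens x c ∈ TT D H)
    (h2 : ∀ x : Fin a → F, tens x d ∈ TT D H) :
    ∀ x x' : Fin a → F, tens x c + tens x' d ∈ TT D H := by
  have key : ∀ x x' : Fin a → F, bf D.J₁ x x' ≠ 0 → tens x c + tens x' d ∈ TT D H := by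
    intro x x' hxx
    refine cen_add (h1 x) (h2 x') ?_
    rw [Bf_apply]
    show fK D.J₁ D.J₂ (tens x c) (tens x' d) ≠ 0
    rw [fK_tens]
    exact mul_ne_zero hxx hcd
  intro x x'
  by_cases hx0 : x = 0
  · subst hx0
    rw [tens_zero_left, zero_add]
    exact h2 x'
  by_cases hxx : bf D.J₁ x x' = 0
  · obtain ⟨x'', hx''⟩ := D.h₁.exists_ne_zero hx0
    have hx2 : bf D.J₁ x x'' = -1 := by rw [D.h₁.swap, hx'']
    have hA := key x x'' (by rw [hx2]; exact neg_ne_zero.2 one_ne_zero)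
    have hB := h2 (x' - x'')
    have hsum : tens x c + tens x' d = (tens x c + tens x'' d) + tens (x' - x'') d := by
      rw [tens_sub_left]; abel
    rw [hsum]
    refine cen_add hA hB ?_
    rw [Bf_apply]
    show fK D.J₁ D.J₂ (tens x c + tens x'' d) (tens (x' - x'') d) ≠ 0
    rw [fK_add_left, fK_tens, fK_tens, hd, mul_zero, add_zero, bf_sub_right, hxx, hx2]
    simpa using hcd
  · exact key x x' hxx

end Cfsg.Agent.Lib.H97EHyp
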