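import Cfsg.Agent.Lib.H97EDefs

set_option autoImplicit false
set_option linter.unusedSectionVars false
set_option linter.unusedVariables false

namespace Cfsg.Agent.Lib.H97EOrth

open scoped Matrix Kronecker
open Matrix Cfsg.Agent.Lib.Helper49TDefs Cfsg.Agent.Lib.Helper49SDefs Cfsg.Agent.Lib.Helper49ODefs
  Cfsg.Agent.Lib.Helper95Basic Cfsg.Agent.Lib.Helper95Sp Cfsg.Agent.Lib.Helper95Cen
  Cfsg.Agent.Lib.Helper95Form Cfsg.Agent.Lib.H97EDefs

variable {F : Type*} [Field F] {a b n : ℕ}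

local notation "GLn" => Matrix.GeneralLinearGroup (Fin a × Fin b) F
local notation "Mn" => Matrix (Fin a × Fin b) (Fin a × Fin b) F
local notation "Ma" => Matrix (Fin a) (Fin a) F
local notation "Mb" => Matrix (Fin b) (Fin b) F
local notation "GLa" => Matrix.GeneralLinearGroup (Fin a) F
local notation "GLb" => Matrix.GeneralLinearGroup (Fin b) F

/-- **Piece Orth.**  PURE LINEAR ALGEBRA (symmetric form, char ≠ 2).  A proper nondegenerate subspace has a nonsingular perpendicular vector.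
`B = Matrix.toBilin' J` (`Matrix.toBilin'_apply'`), `B.IsRefl` from symmetry; `(B.restrict Z).Nondegenerate` from `hZ`; `LinearMap.BilinForm.isCompl_orthogonal_of_restrict_nondegenerate` : `IsCompl Z (B.orthogonal Z)`.
`Z ≠ ⊤` ⟹ there is `y ≠ 0` in `Z^⊥`.  `J` nondegenerate ⟹ `v` with `f(y,v) ≠ 0`; write `v = z + y'`, `z ∈ Z`, `y' ∈ Z^⊥`: `f(y,y') ≠ 0`.  One of `y, y', y + y'` is nonsingular (`f(y+y',y+y') = f(y,y) + f(y',y') + 2 f(y,y')`). -/
theorem exists_orth {J : Matrix (Fin n) (Fin n) F} (hJ : IsSymmMat J) (h2 : (2 : F) ≠ 0)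
    {Z : Submodule F (Fin n → F)} (hZ : NdOn J Z) (hne : Z ≠ ⊤) :
    ∃ w, (∀ z ∈ Z, bf J w z = 0) ∧ bf J w w ≠ 0 := by
  have hB : ∀ x y, Matrix.toBilin' J x y = bf J x y := fun x y => Matrix.toBilin'_apply' _ x y
  have hsymm : (Matrix.toBilin' J).IsSymm := ⟨fun x y => by
    rw [hB, hB, hJ.symm]⟩
  have hnd : ((Matrix.toBilin' J).restrict Z).Nondegenerate := by
    constructor
    · intro x hx
      apply Subtype.ext
      apply hZ x x.2
      intro y hy
      have := hx ⟨y, hy⟩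
      rw [← hB]
      exact this
    · intro x hx
      apply Subtype.ext
      apply hZ x x.2
      intro y hy
      have := hx ⟨y, hy⟩
      rw [hJ.symm, ← hB]
      exact this
  have hc := LinearMap.BilinForm.isCompl_orthogonal_of_restrict_nondegenerate hsymm.isRefl hnd
  have hO : (Matrix.toBilin' J).orthogonal Z ≠ ⊥ := by
    intro h
    rw [h] at hc
    exact hne (by simpa using hc.sup_eq_top)
  obtain ⟨y, hyO, hy0⟩ := Submodule.exists_mem_ne_zero_of_ne_bot hO
  have hyZ : ∀ z ∈ Z, bf J y z = 0 := by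
    intro z hz
    rw [hJ.symm, ← hB]
    exact hyO z hz
  obtain ⟨v, hv⟩ := hJ.exists_ne_zero hy0
  have hvtop : v ∈ Z ⊔ (Matrix.toBilin' J).orthogonal Z := by rw [hc.sup_eq_top]; trivial
  obtain ⟨z, hz, y', hy', rfl⟩ := Submodule.mem_sup.mp hvtop
  have hy'Z : ∀ z ∈ Z, bf J y' z = 0 := by
    intro z hz
    rw [hJ.symm, ← hB]
    exact hy' z hz
  have h1 : bf J y' y = 1 := by
    rw [bf_add_left, hJ.symm z y, hyZ z hz, zero_add] at hv
    exact hv
  by_cases ha : bf J y y = 0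
  swap
  · exact ⟨y, hyZ, ha⟩
  by_cases hb : bf J y' y' = 0
  swap
  · exact ⟨y', hy'Z, hb⟩
  refine ⟨y + y', fun z hz => by rw [bf_add_left, hyZ z hz, hy'Z z hz, add_zero], ?_⟩
  simp only [bf_add_left, bf_add_right, ha, hb, h1, hJ.symm y y']
  norm_num
  exact h2

/-- `x = z + l • w` perpendicular to `Z` and to `w`: test against `w` (`l f(w,w) = 0`), then against `Z`. -/
theorem ndOn_sup {J : Matrix (Fin n) (Fin n) F} (hJ : IsSymmMat J) {Z : Submodule F (Fin n → F)}
    (hZ : NdOn J Z) {w : Fin n → F} (hwZ : ∀ z ∈ Z, bf J w z = 0) (hw : bf J w w ≠ 0) :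
    NdOn J (Z ⊔ Submodule.span F {w}) := by
  intro x hx hperp
  obtain ⟨z, hz, y, hy, rfl⟩ := Submodule.mem_sup.mp hx
  obtain ⟨l, rfl⟩ := Submodule.mem_span_singleton.mp hy
  have h1 := hperp w (Submodule.mem_sup_right (Submodule.mem_span_singleton_self w))
  rw [bf_add_left, bf_smul_left, hJ.symm z w, hwZ z hz, zero_add] at h1
  have hl : l = 0 := (mul_eq_zero.mp h1).resolve_right hw
  subst hl
  rw [zero_smul, add_zero]
  apply hZ z hz
  intro y hy
  have := hperp y (Submodule.mem_sup_left hy)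
  rwa [zero_smul, add_zero] at this

/-- `w ∉ Z` (else `f(w,w) = 0`), `Submodule.finrank_lt_finrank_of_lt`. -/
theorem finrank_sup_lt {J : Matrix (Fin n) (Fin n) F} {Z : Submodule F (Fin n → F)}
    {w : Fin n → F} (hwZ : ∀ z ∈ Z, bf J w z = 0) (hw : bf J w w ≠ 0) :
    Module.finrank F Z < Module.finrank F ↥(Z ⊔ Submodule.span F {w}) := by
  apply Submodule.finrank_lt_finrank_of_lt
  apply lt_of_le_of_ne le_sup_left
  intro h
  have hw' : w ∈ Z := by
    rw [h]
    exact Submodule.mem_sup_right (Submodule.mem_span_singleton_self w)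
  exact hw (hwZ w hw')

/-- `x = α c + β d` (`Submodule.mem_span_pair`) perpendicular to `c` and `d`: `β f(c,d) = 0 = α f(c,d)`. -/
theorem ndOn_pair {J : Matrix (Fin n) (Fin n) F} (hJ : IsSymmMat J) {c d : Fin n → F}
    (hc : bf J c c = 0) (hd : bf J d d = 0) (hcd : bf J c d ≠ 0) :
    NdOn J (Submodule.span F {c, d}) := by
  intro x hx hperp
  obtain ⟨α, β, rfl⟩ := Submodule.mem_span_pair.mp hx
  have h1 := hperp c (Submodule.subset_span (by simp))
  have h2 := hperp d (Submodule.subset_span (by simp))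
  simp only [bf_add_left, bf_smul_left, hc, hd, hJ.symm d c, mul_zero, zero_add, add_zero] at h1 h2
  have hβ : β = 0 := (mul_eq_zero.mp h1).resolve_right hcd
  have hα : α = 0 := (mul_eq_zero.mp h2).resolve_right hcd
  rw [hα, hβ]
  simp

end Cfsg.Agent.Lib.H97EOrth
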