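import Cfsg.Agent.Lib.H97EDefs

set_option autoImplicit false
set_option linter.unusedSectionVars false
set_option linter.unusedVariables false

namespace Cfsg.Agent.Lib.H97ETv

open scoped Matrix Kronecker
open Matrix Cfsg.Agent.Lib.Helper49TDefs Cfsg.Agent.Lib.Helper49SDefs Cfsg.Agent.Lib.Helper49ODefs
  Cfsg.Agent.Lib.Helper95Basic Cfsg.Agent.Lib.Helper95Sp Cfsg.Agent.Lib.Helper95Cen
  Cfsg.Agent.Lib.Helper95Form Cfsg.Agent.Lib.H97EDefs

variable {F : Type*} [Field F] {a b n : ℕ}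

local notation "GLn" => Matrix.GeneralLinearGroup (Fin a × Fin b) F
local notation "Mn" => Matrix (Fin a × Fin b) (Fin a × Fin b) F
local notation "Ma" => Matrix (Fin a) (Fin a) F
local notation "Mb" => Matrix (Fin b) (Fin b) F
local notation "GLa" => Matrix.GeneralLinearGroup (Fin a) F
local notation "GLb" => Matrix.GeneralLinearGroup (Fin b) F

theorem tvmat_mulVec (D : SoDat F a b) (u : Fin a → F) (c : Fin b → F) (k : F)
    (w : Fin a × Fin b → F) :
    (1 + (k • NJ D.J₁ u u) ⊗ₖ NJ D.J₂ c c) *ᵥ w = stv (Bf D) (Bf_isAlt D) (tens u c) k w := by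
  rw [stv_apply, Matrix.add_mulVec, Matrix.one_mulVec, kron_NJ_mulVec, Matrix.smul_mulVec,
    NJ_mulVec, Bf_apply, smul_smul, tens_smul_left]
  show _ = w + (k * fK D.J₁ D.J₂ w (tens u c)) • tens u c
  rw [fK_eq_bf_ctr]

theorem tvmat_sq (D : SoDat F a b) (u : Fin a → F) (c : Fin b → F) (k : F) :
    ((k • NJ D.J₁ u u) ⊗ₖ NJ D.J₂ c c) * ((k • NJ D.J₁ u u) ⊗ₖ NJ D.J₂ c c) = 0 := by
  rw [← Matrix.mul_kronecker_mul, Matrix.smul_mul, Matrix.mul_smul, NJ_mul, D.h₁.alt u]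
  simp

/-- **Piece Tv.**  Dictionary between `TT D H = cen (Bf_isAlt D) (pull H)` and the matrix vocabulary.
`stv_apply : stv B hA v c x = x + (c * B x v) • v`; `mem_pull`, `mkGL_mulVec`, `gl_ext`, `Bf_apply`.
`((k • NJ J₁ u u) ⊗ₖ NJ J₂ c c) *ᵥ w = (k * f(w, u ⊗ c)) • (u ⊗ c)` by `kron_NJ_mulVec`, `NJ_mulVec`, `fK_eq_bf_ctr`, `tens_smul_left`;
its square is `0` (`← Matrix.mul_kronecker_mul`, `NJ_mul`, `D.h₁.alt u`).  A matrix is determined by its `mulVec` (`Matrix.toLin'.injective`). -/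
theorem tens_mem_TT_iff (D : SoDat F a b) (H : Subgroup GLn) (u : Fin a → F) (c : Fin b → F) :
    tens u c ∈ TT D H ↔ ∀ k : F, (k • NJ D.J₁ u u) ⊗ₖ NJ D.J₂ c c ∈ NN H := by
  constructor
  · intro h k
    have h1 := h k
    rw [mem_pull] at h1
    refine ⟨tvmat_sq D u c k, _, h1, ?_⟩
    apply Matrix.toLin'.injective
    apply LinearMap.ext
    intro w
    rw [Matrix.toLin'_apply, Matrix.toLin'_apply, mkGL_mulVec, tvmat_mulVec]
  · intro h k
    obtain ⟨-, g, hg, e⟩ := h k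
    show stv (Bf D) (Bf_isAlt D) (tens u c) k ∈ pull H
    rw [mem_pull]
    have : mkGL (stv (Bf D) (Bf_isAlt D) (tens u c) k) = g := by
      apply gl_ext
      intro w
      rw [mkGL_mulVec, e, tvmat_mulVec]
    rw [this]
    exact hg

/-- `cen_map` for `glEquiv _ F g` (`glEquiv_mem_pull`, `glEquiv_apply`, `mem_IG`, `Bf_apply`). -/
theorem TT_map (D : SoDat F a b) {H : Subgroup GLn} (hH : H ≤ SG D) {g : GLn} (hg : g ∈ H)
    {y : Fin a × Fin b → F} (hy : y ∈ TT D H) : (g : Mn) *ᵥ y ∈ TT D H := by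
  have h1 := cen_map (hA := Bf_isAlt D) (M := pull H) (glEquiv _ F g)
    ((glEquiv_mem_pull H g).2 hg) (by
      intro x y
      rw [Bf_apply, Bf_apply, glEquiv_apply, glEquiv_apply]
      exact (mem_IG.1 (hH hg)) x y) hy
  rwa [glEquiv_apply] at h1

/-- `mem_of_cen (Bf_nondegenerate D)` (see `eq_sp_of_Sset` in `Helper99SubfieldSp` for the same conversion). -/
theorem eq_SG_of_TT (D : SoDat F a b) {H : Subgroup GLn} (hH : H ≤ SG D)
    (h : ∀ y, y ∈ TT D H) : H = SG D := by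
  apply le_antisymm hH
  intro g hg
  have h1 := mem_of_cen (hA := Bf_isAlt D) (M := pull H) (Bf_nondegenerate D) h (glEquiv _ F g) (by
      intro x y
      rw [Bf_apply, Bf_apply, glEquiv_apply, glEquiv_apply]
      exact (mem_IG.1 hg) x y)
  exact (glEquiv_mem_pull H g).1 h1

end Cfsg.Agent.Lib.H97ETv
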