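import Cfsg.Agent.Lib.H97EKron
import Cfsg.Agent.Lib.H97ETv
import Cfsg.Agent.Lib.H49SWitt1

set_option autoImplicit false
set_option linter.unusedSectionVars false
set_option linter.unusedVariables false

namespace Cfsg.Agent.Lib.H97EStep0

open scoped Matrix Kronecker
open Matrix Cfsg.Agent.Lib.Helper49TDefs Cfsg.Agent.Lib.Helper49SDefs Cfsg.Agent.Lib.Helper49ODefs
  Cfsg.Agent.Lib.Helper95Basic Cfsg.Agent.Lib.Helper95Sp Cfsg.Agent.Lib.Helper95Cen
  Cfsg.Agent.Lib.Helper95Form Cfsg.Agent.Lib.H97EDefs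

variable {F : Type*} [Field F] {a b n : ℕ}

local notation "GLn" => Matrix.GeneralLinearGroup (Fin a × Fin b) F
local notation "Mn" => Matrix (Fin a × Fin b) (Fin a × Fin b) F
local notation "Ma" => Matrix (Fin a) (Fin a) F
local notation "Mb" => Matrix (Fin b) (Fin b) F
local notation "GLa" => Matrix.GeneralLinearGroup (Fin a) F
local notation "GLb" => Matrix.GeneralLinearGroup (Fin b) F

open Cfsg.Agent.Lib.H97EKron Cfsg.Agent.Lib.H97ETv Cfsg.Agent.Lib.H49SWitt1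

/-- **Piece Step0.**  One transvection with centre `u ⊗ c` gives all transvections with centres `x ⊗ c`.
`S = {k | (k • N₁(u,u)) ⊗ N₂(c,c) ∈ NN H}` contains `k₀ ≠ 0`, `0`, is closed under `+`, `-` (`NN_add`, `NN_neg`: the products vanish since `N₁(u,u)² = 0`), and under `k ↦ l² k`, `l ≠ 0`:
`exists_iso_vec D.h₁` gives `g ∈ Sp(V₁)`, `g u = l • u`; conjugate with `kron1_mem` (`NN_conj`, `hMH`), `← Matrix.mul_kronecker_mul`, `NJ_conj`, `NJ_smul_left/right`.
`t = ((t+1)/2)² - ((t-1)/2)²` (`D.two`), so `S = F`; `tens_mem_TT_iff` gives `u ⊗ c ∈ TT`.  For `x ≠ 0`: `g u = x`, `TT_map` with `m = g ⊗ 1`, `kron_mulVec_tens`.  `x = 0`: `zero_mem_cen`. -/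
theorem exists_sing_TT (D : SoDat F a b) (H : Subgroup GLn) (hMH : KS a b F ⊓ SG D ≤ H)
    (hH : H ≤ SG D) (h : HasT D H) :
    ∃ c : Fin b → F, c ≠ 0 ∧ bf D.J₂ c c = 0 ∧ ∀ x : Fin a → F, tens x c ∈ TT D H := by
  obtain ⟨u, c, k₀, hu, hc0, hc, hk₀, hk⟩ := h
  refine ⟨c, hc0, hc, ?_⟩
  have h2 := D.two
  set T : Mn := NJ D.J₁ u u ⊗ₖ NJ D.J₂ c c with hT
  have hTT : T * T = 0 := by
    rw [hT, ← Matrix.mul_kronecker_mul, NJ_mul, D.h₁.alt u, zero_smul, Matrix.zero_kronecker]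
  have hsm : ∀ k : F, (k • NJ D.J₁ u u) ⊗ₖ NJ D.J₂ c c = k • T := fun k => by
    rw [hT, Matrix.smul_kronecker]
  rw [hsm] at hk
  have hzero : (0 : F) • T ∈ NN H := by
    rw [zero_smul]
    exact ⟨by simp, 1, H.one_mem, by simp⟩
  have hadd : ∀ k l : F, k • T ∈ NN H → l • T ∈ NN H → (k + l) • T ∈ NN H := by
    intro k l h1 h2
    rw [add_smul]
    apply NN_add h1 h2
    · rw [Matrix.smul_mul, Matrix.mul_smul, hTT]; simp
    · rw [Matrix.smul_mul, Matrix.mul_smul, hTT]; simp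
  have hneg : ∀ k : F, k • T ∈ NN H → (-k) • T ∈ NN H := by
    intro k h1
    rw [neg_smul]
    exact NN_neg h1
  have hsq : ∀ k l : F, k • T ∈ NN H → (l ^ 2 * k) • T ∈ NN H := by
    intro k l h1
    by_cases hl : l = 0
    · rw [hl]; simpa using hzero
    have hlu : l • u ≠ 0 := smul_ne_zero hl hu
    obtain ⟨g, hg, hgu⟩ := exists_iso_vec D.h₁ hu hlu
    obtain ⟨m, hm, hm1, hm2⟩ := kron1_mem D g hg
    have := NN_conj h1 (hMH hm)
    rw [hm1, hm2, Matrix.mul_smul, Matrix.smul_mul, hT, ← Matrix.mul_kronecker_mul,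
      ← Matrix.mul_kronecker_mul, NJ_conj hg, hgu, one_mul, mul_one, NJ_smul_left, NJ_smul_right,
      Matrix.smul_kronecker, Matrix.smul_kronecker, ← hT, smul_smul, smul_smul] at this
    have e : k * l * l = l ^ 2 * k := by ring
    rwa [e] at this
  have hall : ∀ s : F, s • T ∈ NN H := by
    intro s
    have h1 := hsq k₀ ((s / k₀ + 1) / 2) hk
    have h3 := hneg _ (hsq k₀ ((s / k₀ - 1) / 2) hk)
    have := hadd _ _ h1 h3
    have e : ((s / k₀ + 1) / 2) ^ 2 * k₀ + -(((s / k₀ - 1) / 2) ^ 2 * k₀) = s := by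
      field_simp
      ring
    rwa [e] at this
  have huc : tens u c ∈ TT D H := by
    rw [tens_mem_TT_iff]
    intro k
    rw [hsm]
    exact hall k
  intro x
  by_cases hx : x = 0
  · rw [hx, tens_zero_left']
    exact zero_mem_cen
  obtain ⟨g, hg, hgu⟩ := exists_iso_vec D.h₁ hu hx
  obtain ⟨m, hm, hm1, hm2⟩ := kron1_mem D g hg
  have := TT_map D hH (hMH hm) huc
  rwa [hm1, kron_mulVec_tens, hgu, Matrix.one_mulVec] at this

end Cfsg.Agent.Lib.H97EStep0
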