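import Cfsg.Agent.Lib.H97EExt
import Cfsg.Agent.Lib.H97EOrth
import Cfsg.Agent.Lib.H97EStep0
import Cfsg.Agent.Lib.H97EHyp

set_option autoImplicit false
set_option linter.unusedSectionVars false
set_option linter.unusedVariables false

namespace Cfsg.Agent.Lib.H97EB

open scoped Matrix Kronecker
open Matrix Cfsg.Agent.Lib.Helper49TDefs Cfsg.Agent.Lib.Helper49SDefs Cfsg.Agent.Lib.Helper49ODefs
  Cfsg.Agent.Lib.Helper95Basic Cfsg.Agent.Lib.Helper95Sp Cfsg.Agent.Lib.Helper95Cen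
  Cfsg.Agent.Lib.Helper95Form Cfsg.Agent.Lib.H97EDefs

variable {F : Type*} [Field F] {a b n : ℕ}

local notation "GLn" => Matrix.GeneralLinearGroup (Fin a × Fin b) F
local notation "Mn" => Matrix (Fin a × Fin b) (Fin a × Fin b) F
local notation "Ma" => Matrix (Fin a) (Fin a) F
local notation "Mb" => Matrix (Fin b) (Fin b) F
local notation "GLa" => Matrix.GeneralLinearGroup (Fin a) F
local notation "GLb" => Matrix.GeneralLinearGroup (Fin b) F

open Cfsg.Agent.Lib.H97ENd Cfsg.Agent.Lib.H97ESing Cfsg.Agent.Lib.H97EPureW Cfsg.Agent.Lib.H97EExt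
  Cfsg.Agent.Lib.H97EOrth Cfsg.Agent.Lib.H97EStep0 Cfsg.Agent.Lib.H97EHyp Cfsg.Agent.Lib.H97ETv

theorem all_TT_aux (D : SoDat F a b) (ha : 1 ≤ a) (H : Subgroup GLn) (hMH : KS a b F ⊓ SG D ≤ H)
    (hH : H ≤ SG D) {c d : Fin b → F} (hc : bf D.J₂ c c = 0) (hd : bf D.J₂ d d = 0)
    (hcd : bf D.J₂ c d ≠ 0) :
    ∀ (k : ℕ) (Z : Submodule F (Fin b → F)), c ∈ Z → d ∈ Z → NdOn D.J₂ Z →
      (∀ y ∈ tsub a Z, y ∈ TT D H) → b ≤ Module.finrank F Z + k → ∀ y, y ∈ TT D H := by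
  intro k
  induction k with
  | zero =>
    intro Z _ _ _ hZT hk y
    have htop : Z = ⊤ := by
      apply Submodule.eq_top_of_finrank_eq
      have h1 := Submodule.finrank_le Z
      rw [Module.finrank_fin_fun] at h1 ⊢
      omega
    apply hZT
    rw [htop]
    intro s
    exact Submodule.mem_top
  | succ k ih =>
    intro Z hcZ hdZ hZ hZT hk
    by_cases htop : Z = ⊤
    · intro y
      apply hZT
      rw [htop]
      intro s
      exact Submodule.mem_top
    · obtain ⟨w, hwZ, hw⟩ := exists_orth D.h₂ D.two hZ htop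
      refine ih (Z ⊔ Submodule.span F {w}) (Submodule.mem_sup_left hcZ) (Submodule.mem_sup_left hdZ)
        (ndOn_sup D.h₂ hZ hwZ hw) (ext_step D ha H hMH hH hc hd hcd Z hcZ hdZ hZ hZT hwZ hw) ?_
      have := finrank_sup_lt (J := D.J₂) hwZ hw
      omega

/-- **E-B**: a transvection with centre `u ⊗ c` (`c` singular) forces `H = Sp(V)`. -/
theorem eq_SG_of_hasT (D : SoDat F a b) (ha : 1 ≤ a) (H : Subgroup GLn)
    (hMH : KS a b F ⊓ SG D ≤ H) (hH : H ≤ SG D) (h : HasT D H) : H = SG D := by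
  obtain ⟨c, hc0, hc, hcT⟩ := exists_sing_TT D H hMH hH h
  obtain ⟨d, hd, hcd⟩ := exists_partner D hc0 hc
  have hcd' : bf D.J₂ c d ≠ 0 := by rw [hcd]; exact one_ne_zero
  have hdT := sing_move D H hMH hH hc hd hcd' hcT
  have hyp := hyp_TT D H hd hcd' hcT hdT
  apply eq_SG_of_TT D hH
  refine all_TT_aux D ha H hMH hH hc hd hcd' b (Submodule.span F {c, d})
    (Submodule.subset_span (by simp)) (Submodule.subset_span (by simp))
    (ndOn_pair D.h₂ hc hd hcd') ?_ (by omega)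
  intro y hy
  obtain ⟨x, x', rfl⟩ := mem_tsub_span_pair hy
  exact hyp x x'

end Cfsg.Agent.Lib.H97EB
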