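import Cfsg.Agent.Lib.Helper49UDefs
import Cfsg.Agent.Lib.H97EB

/-!
# PROJECT 51 (Sp x O, part T2), piece `End`

Thin wrapper around helper97's end game `H97EB.eq_SG_of_hasT`.
-/

set_option autoImplicit false
set_option linter.unusedSectionVars false
set_option linter.unusedVariables false

namespace Cfsg.Agent.Lib.H49UEnd

open scoped Matrix Kronecker
open Matrix Cfsg.Agent.Lib.Helper49TDefs Cfsg.Agent.Lib.Helper49SDefs Cfsg.Agent.Lib.Helper49ODefs
  Cfsg.Agent.Lib.Helper49UDefs

variable {F : Type*} [Field F] {a b n : ℕ}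

local notation "GLn" => Matrix.GeneralLinearGroup (Fin a × Fin b) F

/-- THE END GAME (architect: helper97).  `T = {y | all transvections with centre y are in H}`. -/
theorem eq_SG_of_hasT [Fintype F] (D : SoDat F a b) (ha : 2 ≤ a) (hb : 3 ≤ b) (H : Subgroup GLn)
    (hMH : KS a b F ⊓ SG D ≤ H) (hH : H ≤ SG D) (h : HasT D H) : H = SG D :=
  Cfsg.Agent.Lib.H97EB.eq_SG_of_hasT D (by omega) H hMH hH h

end Cfsg.Agent.Lib.H49UEnd
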