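import Cfsg.Agent.Lib.Helper49UDefs
import Cfsg.Agent.Lib.H49UBasic
import Cfsg.Agent.Lib.H49UGeoO

/-!
# PROJECT 51 (Sp x O, part T2), piece `FilOf`
-/

set_option autoImplicit false
set_option linter.unusedSectionVars false
set_option linter.unusedVariables false

namespace Cfsg.Agent.Lib.H49UFilOf

open scoped Matrix Kronecker
open Matrix Cfsg.Agent.Lib.Helper49TDefs Cfsg.Agent.Lib.Helper49SDefs Cfsg.Agent.Lib.Helper49ODefs
  Cfsg.Agent.Lib.Helper49UDefs
open Cfsg.Agent.Lib.H49UBasic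
open Cfsg.Agent.Lib.H49UGeoO

variable {F : Type*} [Field F] {a b n : ℕ}

local notation "GLn" => Matrix.GeneralLinearGroup (Fin a × Fin b) F
local notation "Mn" => Matrix (Fin a × Fin b) (Fin a × Fin b) F
local notation "Ma" => Matrix (Fin a) (Fin a) F
local notation "Mb" => Matrix (Fin b) (Fin b) F
local notation "GLa" => Matrix.GeneralLinearGroup (Fin a) F
local notation "GLb" => Matrix.GeneralLinearGroup (Fin b) F

/-- an isometry fixing `V₁ ⊗ c` pointwise and acting trivially on `V₁ ⊗ c^⊥ / V₁ ⊗ c`.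
`top`: `f((g-1)p, x ⊗ c) = f(g p, g (x ⊗ c)) - f(p, x ⊗ c) = 0`, `f_ctr`, `D.h₁.eq_zero_of_left`, `mem_tsub_perpS_iff`.
`mid`: `tsub_induction`. -/
theorem fil_of_iso (D : SoDat F a b) {c : Fin b → F} {g : GLn} (hg : g ∈ SG D)
    (hbot : ∀ x, (g : Mn) *ᵥ tens x c = tens x c)
    (hmid : ∀ x e, bf D.J₂ e c = 0 → ∃ x', (g : Mn) *ᵥ tens x e = tens x e + tens x' c) :
    Fil D c ((g : Mn) - 1) := by
  refine ⟨?_, ?_, ?_⟩
  · intro v
    rw [mem_tsub_perpS_iff]
    apply D.h₁.eq_zero_of_left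
    intro x
    rw [← f_ctr, Matrix.sub_mulVec, Matrix.one_mulVec]
    have h1 := hg v (tens x c)
    rw [hbot] at h1
    have h2 : D.f ((g : Mn) *ᵥ v - v) (tens x c) = D.f ((g : Mn) *ᵥ v) (tens x c) - D.f v (tens x c) :=
      fK_sub_left _ _ _ _ _
    rw [h2]
    exact sub_eq_zero.2 h1
  · intro v hv
    refine tsub_induction (C := perpS D.J₂ c) (p := fun v => ∃ x, ((g : Mn) - 1) *ᵥ v = tens x c)
      ⟨0, by simp⟩ ?_ ?_ v hv
    · rintro v w ⟨x, hx⟩ ⟨y, hy⟩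
      exact ⟨x + y, by rw [Matrix.mulVec_add, hx, hy, tens_add_left]⟩
    · intro x e he
      obtain ⟨x', hx'⟩ := hmid x e he
      exact ⟨x', by rw [Matrix.sub_mulVec, Matrix.one_mulVec, hx']; abel⟩
  · intro x
    rw [Matrix.sub_mulVec, Matrix.one_mulVec, hbot, sub_self]

end Cfsg.Agent.Lib.H49UFilOf
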