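import Cfsg.Agent.Lib.Helper49UDefs
import Cfsg.Agent.Lib.Helper42Quad

/-!
# PROJECT 51 (Sp x O, part T2), piece `Sing`
-/

set_option autoImplicit false
set_option linter.unusedSectionVars false
set_option linter.unusedVariables false

namespace Cfsg.Agent.Lib.H49USing

open scoped Matrix Kronecker
open Matrix Cfsg.Agent.Lib.Helper49TDefs Cfsg.Agent.Lib.Helper49SDefs Cfsg.Agent.Lib.Helper49ODefs
  Cfsg.Agent.Lib.Helper49UDefs

variable {F : Type*} [Field F] {a b n : ℕ}

local notation "GLn" => Matrix.GeneralLinearGroup (Fin a × Fin b) F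
local notation "Mn" => Matrix (Fin a × Fin b) (Fin a × Fin b) F
local notation "Ma" => Matrix (Fin a) (Fin a) F
local notation "Mb" => Matrix (Fin b) (Fin b) F
local notation "GLa" => Matrix.GeneralLinearGroup (Fin a) F
local notation "GLb" => Matrix.GeneralLinearGroup (Fin b) F

/-- Chevalley: a quadratic form in `≥ 3` variables over a finite field has a zero.
Use `Helper49Geo.exists_singular_sub` (with `P = ⊤`) or `Helper42Quad.exists_singular_odd` for the quadratic form
`v ↦ bf J v v` (e.g. `Matrix.toQuadraticMap'`, or `QuadraticMap.ofPolar`/`LinearMap.BilinMap.toQuadraticMap`). -/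
theorem exists_sing [Fintype F] {J : Matrix (Fin n) (Fin n) F} (hJ : IsSymmMat J) (hn : 3 ≤ n) :
    ∃ c : Fin n → F, c ≠ 0 ∧ bf J c c = 0 := by
  obtain ⟨v, hv0, hv⟩ := Cfsg.Agent.Lib.Helper42Quad.exists_singular (F := F)
    (V := Fin n → F) (Matrix.toQuadraticForm' J) (by simpa using hn)
  refine ⟨v, hv0, ?_⟩
  rw [Matrix.toQuadraticForm', LinearMap.BilinMap.toQuadraticMap_apply,
    Matrix.toLinearMap₂'_apply'] at hv
  exact hv

/-- hyperbolic partner: `x` with `f(x,c) = 1`, `d = x - (f(x,x)/2) c` -/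
theorem exists_hyp {J : Matrix (Fin n) (Fin n) F} (hJ : IsSymmMat J) (h2 : (2 : F) ≠ 0)
    {c : Fin n → F} (hc : c ≠ 0) (hs : bf J c c = 0) :
    ∃ d, bf J d d = 0 ∧ bf J d c = 1 := by
  obtain ⟨x, hx⟩ := hJ.exists_ne_zero hc
  refine ⟨x - (bf J x x / 2) • c, ?_, ?_⟩
  · simp only [bf_sub_left, bf_sub_right, bf_smul_left, bf_smul_right]
    rw [hs, hJ.symm c x, hx]
    field_simp
    ring
  · simp only [bf_sub_left, bf_smul_left]
    rw [hs, hx]
    ring

/-- `c^⊥` contains a nonsingular vector (`n ≥ 3`): with `d` from `exists_hyp`, take `e ≠ 0` orthogonal to `c, d`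
(two linear equations in `n ≥ 3` unknowns); `⟨c,d⟩^⊥` is nondegenerate, so if all its vectors were singular the form
would vanish on it (polarise, `2 ≠ 0`), and `e` would be orthogonal to everything. -/
theorem exists_ns_perp {J : Matrix (Fin n) (Fin n) F} (hJ : IsSymmMat J) (h2 : (2 : F) ≠ 0)
    (hn : 3 ≤ n) {c : Fin n → F} (hc : c ≠ 0) (hs : bf J c c = 0) :
    ∃ w, bf J w c = 0 ∧ bf J w w ≠ 0 := by
  obtain ⟨d, hdd, hdc⟩ := exists_hyp hJ h2 hc hs
  by_contra hcon
  push Not at hcon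
  -- a nonzero vector orthogonal to `c` and `d`
  let φ : (Fin n → F) →ₗ[F] (F × F) :=
    { toFun := fun v => (bf J v c, bf J v d)
      map_add' := fun x y => by simp
      map_smul' := fun k x => by simp }
  have hker : LinearMap.ker φ ≠ ⊥ :=
    LinearMap.ker_ne_bot_of_finrank_lt (by simp; omega)
  obtain ⟨e, he, he0⟩ := (Submodule.ne_bot_iff _).mp hker
  have he' : (bf J e c, bf J e d) = 0 := he
  rw [Prod.mk_eq_zero] at he'
  obtain ⟨hec, hed⟩ := he'
  apply he0
  apply hJ.eq_zero_of_left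
  intro x
  -- decompose `x = x' + (f(x,d)) c + (f(x,c)) d`
  set x' : Fin n → F := x - bf J x d • c - bf J x c • d with hx'
  have hx'c : bf J x' c = 0 := by
    simp only [hx', bf_sub_left, bf_smul_left]
    rw [hs, hdc]
    ring
  have h1 : bf J x' x' = 0 := hcon _ hx'c
  have h2' : bf J e e = 0 := hcon _ hec
  have h3 : bf J (e + x') (e + x') = 0 := hcon _ (by rw [bf_add_left, hec, hx'c, add_zero])
  simp only [bf_add_left, bf_add_right] at h3
  rw [h1, h2', hJ.symm x' e] at h3
  have h4 : bf J e x' = 0 := by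
    have : 2 * bf J e x' = 0 := by linear_combination h3
    exact (mul_eq_zero.mp this).resolve_left h2
  have h5 : bf J e x = bf J e x' + bf J x d * bf J e c + bf J x c * bf J e d := by
    simp only [hx', bf_sub_right, bf_smul_right]
    ring
  rw [h5, h4, hec, hed]
  ring

/-- the singular vectors span: if `w` is singular take `x` with `f(x,w) = 1`, `c = x - (f(x,x)/2) w`.  If `w` is
nonsingular and `c₀ ⊥ w` (else done): `x` with `f(x,c₀) = 1`, `x' = x - (f(x,w)/f(w,w)) w`,
`d' = x' - (f(x',x')/2) c₀` (singular, `⊥ w`, `f(d',c₀) = 1`), `c = w + c₀ - (f(w,w)/2) d'`. -/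
theorem exists_sing_not_perp {J : Matrix (Fin n) (Fin n) F} (hJ : IsSymmMat J) (h2 : (2 : F) ≠ 0)
    {c₀ : Fin n → F} (hc₀ : c₀ ≠ 0) (hs₀ : bf J c₀ c₀ = 0) {w : Fin n → F} (hw : w ≠ 0) :
    ∃ c, bf J c c = 0 ∧ bf J c w ≠ 0 := by
  by_cases hww : bf J w w = 0
  · obtain ⟨d, hdd, hdw⟩ := exists_hyp hJ h2 hw hww
    exact ⟨d, hdd, by rw [hdw]; exact one_ne_zero⟩
  by_cases hcw : bf J c₀ w = 0
  swap
  · exact ⟨c₀, hs₀, hcw⟩
  obtain ⟨x, hx⟩ := hJ.exists_ne_zero hc₀
  set x' : Fin n → F := x - (bf J x w / bf J w w) • w with hx'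
  have hwc : bf J w c₀ = 0 := by rw [hJ.symm, hcw]
  have hx'w : bf J x' w = 0 := by
    simp only [hx', bf_sub_left, bf_smul_left]
    field_simp
    ring
  have hx'c : bf J x' c₀ = 1 := by
    simp only [hx', bf_sub_left, bf_smul_left]
    rw [hwc, hx]
    ring
  set d' : Fin n → F := x' - (bf J x' x' / 2) • c₀ with hd'
  have hd'd' : bf J d' d' = 0 := by
    simp only [hd', bf_sub_left, bf_sub_right, bf_smul_left, bf_smul_right]
    rw [hs₀, hJ.symm c₀ x', hx'c]
    field_simp
    ring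
  have hd'w : bf J d' w = 0 := by
    simp only [hd', bf_sub_left, bf_smul_left]
    rw [hx'w, hcw]
    ring
  have hd'c : bf J d' c₀ = 1 := by
    simp only [hd', bf_sub_left, bf_smul_left]
    rw [hx'c, hs₀]
    ring
  refine ⟨w + c₀ - (bf J w w / 2) • d', ?_, ?_⟩
  · simp only [bf_sub_left, bf_sub_right, bf_add_left, bf_add_right, bf_smul_left, bf_smul_right]
    rw [hs₀, hd'd', hJ.symm w d', hd'w, hJ.symm c₀ d', hd'c, hwc, hcw]
    field_simp
    ring
  · simp only [bf_sub_left, bf_add_left, bf_smul_left]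
    rw [hcw, hd'w]
    simpa using hww

end Cfsg.Agent.Lib.H49USing
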