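import Cfsg.Agent.Lib.Helper49UDefs
import Cfsg.Agent.Lib.H49UFilB
import Cfsg.Agent.Lib.H49UGeoO
import Cfsg.Agent.Lib.H49USing
import Cfsg.Agent.Lib.H49SGeo

/-!
# PROJECT 51 (Sp x O, part T2), piece `FixS`
-/

set_option autoImplicit false
set_option linter.unusedSectionVars false
set_option linter.unusedVariables false

namespace Cfsg.Agent.Lib.H49UFixS

open scoped Matrix Kronecker
open Matrix Cfsg.Agent.Lib.Helper49TDefs Cfsg.Agent.Lib.Helper49SDefs Cfsg.Agent.Lib.Helper49ODefs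
  Cfsg.Agent.Lib.Helper49UDefs
open Cfsg.Agent.Lib.H49UFilB
open Cfsg.Agent.Lib.H49UGeoO
open Cfsg.Agent.Lib.H49USing
open Cfsg.Agent.Lib.H49SGeo

variable {F : Type*} [Field F] {a b n : ℕ}

local notation "GLn" => Matrix.GeneralLinearGroup (Fin a × Fin b) F
local notation "Mn" => Matrix (Fin a × Fin b) (Fin a × Fin b) F
local notation "Ma" => Matrix (Fin a) (Fin a) F
local notation "Mb" => Matrix (Fin b) (Fin b) F
local notation "GLa" => Matrix.GeneralLinearGroup (Fin a) F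
local notation "GLb" => Matrix.GeneralLinearGroup (Fin b) F

/-- `kron_XO_mulVec` for `w` and `-w`: the difference gives `ctr_w v ⊗ c = ctr_c v ⊗ w`.  With `w ⊥ c` nonsingular (so
independent of `c`; `exists_ns_perp`) `ctr_c v = 0`; then `ctr_w v = 0` for all `w ⊥ c`; `exists_tens_of_ctrO`. -/
theorem good_of_fixed (D : SoDat F a b) (hb : 3 ≤ b) {c : Fin b → F} (hc : c ≠ 0)
    (hs : bf D.J₂ c c = 0) (v : Fin a × Fin b → F)
    (h : ∀ w, bf D.J₂ w c = 0 → ((1 : Ma) ⊗ₖ XO D c w) *ᵥ v = 0) : ∃ u, v = tens u c := by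
  have hz : ∀ x : Fin a → F, tens x c = 0 → x = 0 := by
    intro x hx
    by_contra hne
    exact Cfsg.Agent.Lib.H49SGeo.tens_ne_zero hne hc hx
  obtain ⟨w₀, hw₀c, hw₀⟩ := exists_ns_perp D.h₂ D.two hb hc hs
  have h1 : ctr (D.J₂ *ᵥ c) v = 0 := by
    have e1 := h w₀ hw₀c
    have e2 := h (-w₀) (by rw [bf_neg_left, hw₀c, neg_zero])
    rw [kron_XO_mulVec] at e1 e2
    have e3 : ctr (D.J₂ *ᵥ (-w₀)) v = - ctr (D.J₂ *ᵥ w₀) v := by
      ext s
      simp [ctr, Matrix.mulVec_neg, Finset.sum_neg_distrib]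
    have e4 : tens (ctr (D.J₂ *ᵥ c) v) (-w₀) = - tens (ctr (D.J₂ *ᵥ c) v) w₀ := by
      ext p; simp [tens]
    have e5 : tens (- ctr (D.J₂ *ᵥ w₀) v) c = - tens (ctr (D.J₂ *ᵥ w₀) v) c := by
      ext p; simp [tens]
    rw [e3, e4, e5, bf_neg_left, bf_neg_right, neg_neg] at e2
    have e6 : (bf D.J₂ w₀ w₀) • tens (ctr (D.J₂ *ᵥ c) v) c = 0 := by
      have e7 := congrArg₂ (· + ·) e1 e2
      simp only [add_zero] at e7
      have e8 : (bf D.J₂ w₀ w₀) • tens (ctr (D.J₂ *ᵥ c) v) c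
          = (bf D.J₂ w₀ w₀ / 2) • tens (ctr (D.J₂ *ᵥ c) v) c
            + (bf D.J₂ w₀ w₀ / 2) • tens (ctr (D.J₂ *ᵥ c) v) c := by
        rw [← add_smul]
        congr 1
        have := D.two
        field_simp
        ring
      rw [e8]
      have : (bf D.J₂ w₀ w₀ / 2) • tens (ctr (D.J₂ *ᵥ c) v) c
            + (bf D.J₂ w₀ w₀ / 2) • tens (ctr (D.J₂ *ᵥ c) v) c = - 0 := by
        rw [← e7]; abel
      rw [this, neg_zero]
    rcases smul_eq_zero.1 e6 with e | e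
    · exact absurd e hw₀
    · exact hz _ e
  apply exists_tens_of_ctrO D hc
  intro e he
  have e1 := h e he
  rw [kron_XO_mulVec, h1] at e1
  simp only [tens_zero_left', smul_zero, sub_zero] at e1
  exact hz _ e1

end Cfsg.Agent.Lib.H49UFixS
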