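import Cfsg.Agent.Lib.Helper49UDefs
import Cfsg.Agent.Lib.H49UGeoO
import Cfsg.Agent.Lib.H49SGeo

/-!
# PROJECT 51 (Sp x O, part T2), piece `Form1O`
-/

set_option autoImplicit false
set_option linter.unusedSectionVars false
set_option linter.unusedVariables false

namespace Cfsg.Agent.Lib.H49UForm1O

open scoped Matrix Kronecker
open Matrix Cfsg.Agent.Lib.Helper49TDefs Cfsg.Agent.Lib.Helper49SDefs Cfsg.Agent.Lib.Helper49ODefs
  Cfsg.Agent.Lib.Helper49UDefs
open Cfsg.Agent.Lib.H49UGeoO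
open Cfsg.Agent.Lib.H49SGeo

variable {F : Type*} [Field F] {a b n : ℕ}

local notation "GLn" => Matrix.GeneralLinearGroup (Fin a × Fin b) F
local notation "Mn" => Matrix (Fin a × Fin b) (Fin a × Fin b) F
local notation "Ma" => Matrix (Fin a) (Fin a) F
local notation "Mb" => Matrix (Fin b) (Fin b) F
local notation "GLa" => Matrix.GeneralLinearGroup (Fin a) F
local notation "GLb" => Matrix.GeneralLinearGroup (Fin b) F

/-- an endomorphism with image in `V₁ ⊗ c` killing `V₁ ⊗ c^⊥` is `ζ ⊗ N(c,c)`.  COPY of `H49SForm1.form1`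
(with `e₁ = e₂ = c`): `d` with `f₂(d,c) = 1`, `ζ x` := the `u` with `X (x ⊗ d) = u ⊗ c` (linear: read a coordinate `j` with
`c j ≠ 0`), `H49SGeo.ext_tens`, `v = f₂(v,c) d + (v - f₂(v,c) d)`. -/
theorem form1O (D : SoDat F a b) {c : Fin b → F} (hc : c ≠ 0) (X : Mn)
    (hi : ∀ v, ∃ u, X *ᵥ v = tens u c)
    (hk : ∀ u v, bf D.J₂ v c = 0 → X *ᵥ tens u v = 0) : ∃ ζ : Ma, X = ζ ⊗ₖ NJ D.J₂ c c := by
  obtain ⟨d, hd⟩ := D.h₂.exists_ne_zero hc
  obtain ⟨i, hi0⟩ := Function.ne_iff.mp hc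
  simp only [Pi.zero_apply] at hi0
  let L : (Fin a → F) →ₗ[F] (Fin a → F) :=
    { toFun := fun x s => (X *ᵥ tens x d) (s, i) * (c i)⁻¹
      map_add' := by
        intro x x'
        ext s
        simp [tens_add_left, Matrix.mulVec_add, add_mul]
      map_smul' := by
        intro k x
        ext s
        simp [tens_smul_left, Matrix.mulVec_smul, mul_assoc] }
  have hL : ∀ x, X *ᵥ tens x d = tens (L x) c := by
    intro x
    obtain ⟨u, hu⟩ := hi (tens x d)
    rw [hu]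
    congr 1
    ext s
    show u s = (X *ᵥ tens x d) (s, i) * (c i)⁻¹
    rw [hu]
    simp [tens, hi0]
  refine ⟨LinearMap.toMatrix' L, ?_⟩
  apply ext_tens
  intro x v
  rw [kron_mulVec_tens, LinearMap.toMatrix'_mulVec, NJ_mulVec, tens_smul_right, ← hL]
  have hv : v = bf D.J₂ v c • d + (v - bf D.J₂ v c • d) := by abel
  conv_lhs => rw [hv]
  rw [tens_add_right, Matrix.mulVec_add, tens_smul_right, Matrix.mulVec_smul,
    hk x (v - bf D.J₂ v c • d) (by rw [bf_sub_left, bf_smul_left, hd, mul_one, sub_self]),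
    add_zero]

end Cfsg.Agent.Lib.H49UForm1O
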