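import Cfsg.Agent.Lib.Helper49UDefs
import Cfsg.Agent.Lib.H49UGeoO
import Cfsg.Agent.Lib.H49SGeo

/-!
# PROJECT 51 (Sp x O, part T2), piece `Stage2bO`
-/

set_option autoImplicit false
set_option linter.unusedSectionVars false
set_option linter.unusedVariables false

namespace Cfsg.Agent.Lib.H49UStage2bO

open scoped Matrix Kronecker
open Matrix Cfsg.Agent.Lib.Helper49TDefs Cfsg.Agent.Lib.Helper49SDefs Cfsg.Agent.Lib.Helper49ODefs
  Cfsg.Agent.Lib.Helper49UDefs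
open Cfsg.Agent.Lib.H49UGeoO
open Cfsg.Agent.Lib.H49SGeo

variable {F : Type*} [Field F] {a b n : ℕ}

local notation "GLn" => Matrix.GeneralLinearGroup (Fin a × Fin b) F
local notation "Mn" => Matrix (Fin a × Fin b) (Fin a × Fin b) F
local notation "Ma" => Matrix (Fin a) (Fin a) F
local notation "Mb" => Matrix (Fin b) (Fin b) F
local notation "GLa" => Matrix.GeneralLinearGroup (Fin a) F
local notation "GLb" => Matrix.GeneralLinearGroup (Fin b) F

theorem ctr_apply_eq_bf' (J : Matrix (Fin b) (Fin b) F) (e : Fin b → F) (w : Fin a × Fin b → F)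
    (s : Fin a) : ctr (J *ᵥ e) w s = bf J (fun j => w (s, j)) e := rfl

theorem stage2bO (D : SoDat F a b) (ha : 0 < a) (X : Mn) {c : Fin b → F} (hc : c ≠ 0)
    {α β : Ma} (hαβ : α * β = 1) (v₀ : Fin b → F)
    (h : ∀ e'', bf D.J₂ e'' c = 0 → ∃ k : F, ∀ x,
      ctr (D.J₂ *ᵥ e'') (X *ᵥ tens x v₀) = k • (α *ᵥ x)) :
    ∃ (e' : Fin b → F) (κ : Ma), ∀ x, X *ᵥ tens x v₀ = tens (α *ᵥ x) e' + tens (κ *ᵥ x) c := by
  classical
  have hβα : β * α = 1 := mul_eq_one_comm.1 hαβ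
  set x₀ : Fin a → F := Pi.single ⟨0, ha⟩ 1 with hx₀
  have hx₀0 : x₀ ≠ 0 := by
    intro h
    have := congrFun h ⟨0, ha⟩
    simp [hx₀] at this
  have hαx : α *ᵥ x₀ ≠ 0 := by
    intro h0
    apply hx₀0
    have : β *ᵥ (α *ᵥ x₀) = 0 := by rw [h0, Matrix.mulVec_zero]
    rwa [Matrix.mulVec_mulVec, hβα, Matrix.one_mulVec] at this
  obtain ⟨i, hi⟩ : ∃ i, (α *ᵥ x₀) i ≠ 0 := by
    by_contra hcon
    push Not at hcon
    exact hαx (funext hcon)
  obtain ⟨j₀, hj₀⟩ : ∃ j, c j ≠ 0 := by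
    by_contra hcon
    push Not at hcon
    exact hc (funext hcon)
  set e' : Fin b → F := ((α *ᵥ x₀) i)⁻¹ • (fun j => (X *ᵥ tens x₀ v₀) (i, j)) with he'
  have hbf : ∀ e'', bf D.J₂ e' e'' = ((α *ᵥ x₀) i)⁻¹ * ctr (D.J₂ *ᵥ e'') (X *ᵥ tens x₀ v₀) i := by
    intro e''
    rw [he', bf_smul_left, ctr_apply_eq_bf']
  have hdiff : ∀ x, ∃ u, X *ᵥ tens x v₀ - tens (α *ᵥ x) e' = tens u c := by
    intro x
    apply exists_tens_of_ctrO D hc
    intro e'' he''
    obtain ⟨k, hk'⟩ := h e'' he''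
    rw [ctr_sub, hk', ctr_J_tens, hbf, hk']
    simp only [Pi.smul_apply, smul_eq_mul]
    rw [show ((α *ᵥ x₀) i)⁻¹ * (k * (α *ᵥ x₀) i) = k by field_simp, sub_self]
  let κl : (Fin a → F) →ₗ[F] (Fin a → F) :=
    { toFun := fun x s => (X *ᵥ tens x v₀ - tens (α *ᵥ x) e') (s, j₀) * (c j₀)⁻¹
      map_add' := fun x x' => by
        funext s
        simp only [tens_add_left, Matrix.mulVec_add, Pi.add_apply, Pi.sub_apply]
        ring
      map_smul' := fun k x => by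
        funext s
        simp only [tens_smul_left, Matrix.mulVec_smul, Pi.smul_apply, Pi.sub_apply, smul_eq_mul,
          RingHom.id_apply]
        ring }
  refine ⟨e', LinearMap.toMatrix' κl, ?_⟩
  intro x
  obtain ⟨u, hu⟩ := hdiff x
  have hκ : LinearMap.toMatrix' κl *ᵥ x = u := by
    rw [← Matrix.toLin'_apply, Matrix.toLin'_toMatrix']
    funext s
    change (X *ᵥ tens x v₀ - tens (α *ᵥ x) e') (s, j₀) * (c j₀)⁻¹ = u s
    rw [hu]
    simp only [tens]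
    field_simp
  rw [hκ, ← hu]
  abel

end Cfsg.Agent.Lib.H49UStage2bO
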