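import Cfsg.Agent.Lib.Helper49UDefs
import Cfsg.Agent.Lib.H49UBasic

/-!
# PROJECT 51 (Sp x O, part T2), piece `LayInv`
-/

set_option autoImplicit false
set_option linter.unusedSectionVars false
set_option linter.unusedVariables false

namespace Cfsg.Agent.Lib.H49ULayInv

open scoped Matrix Kronecker
open Matrix Cfsg.Agent.Lib.Helper49TDefs Cfsg.Agent.Lib.Helper49SDefs Cfsg.Agent.Lib.Helper49ODefs
  Cfsg.Agent.Lib.Helper49UDefs
open Cfsg.Agent.Lib.H49UBasic

variable {F : Type*} [Field F] {a b n : ℕ}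

local notation "GLn" => Matrix.GeneralLinearGroup (Fin a × Fin b) F
local notation "Mn" => Matrix (Fin a × Fin b) (Fin a × Fin b) F
local notation "Ma" => Matrix (Fin a) (Fin a) F
local notation "Mb" => Matrix (Fin b) (Fin b) F
local notation "GLa" => Matrix.GeneralLinearGroup (Fin a) F
local notation "GLb" => Matrix.GeneralLinearGroup (Fin b) F

theorem LayO_mul_comm (D : SoDat F a b) {t : GLn} {c : Fin b → F} {α β : Ma}
    (L : LayO D t c α β) : β * α = 1 := mul_eq_one_comm.1 L.inv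

/-- `t⁻¹(x ⊗ c) = βx ⊗ c`; `f(t⁻¹ w, x ⊗ c) = f(w, t(x ⊗ c)) = f(w, αx ⊗ c) = 0` (`SG_f_inv`) -/
theorem LayO_inv (D : SoDat F a b) {t : GLn} (ht : t ∈ SG D) {c : Fin b → F} {α β : Ma}
    (L : LayO D t c α β) : LayO D t⁻¹ c β α := by
  have hβα := LayO_mul_comm D L
  have hinv' : ((t⁻¹ : GLn) : Mn) * (t : Mn) = 1 := by
    rw [← Units.val_mul, inv_mul_cancel, Units.val_one]
  refine ⟨?_, ?_, hβα⟩
  · intro x
    have h1 := L.bot (β *ᵥ x)
    rw [Matrix.mulVec_mulVec, L.inv, Matrix.one_mulVec] at h1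
    rw [← h1, Matrix.mulVec_mulVec, hinv', Matrix.one_mulVec]
  · intro w hw
    rw [mem_tsub_perpS_iff] at hw ⊢
    apply D.h₁.eq_zero_of_left
    intro u
    rw [← f_ctr, SG_f_inv D ht, L.bot, f_ctr, hw, bf_zero_left]

end Cfsg.Agent.Lib.H49ULayInv
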