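import Cfsg.Agent.Lib.Helper49UDefs
import Cfsg.Agent.Lib.H49UBasic

/-!
# PROJECT 51 (Sp x O, part T2), piece `Mem`
-/

set_option autoImplicit false
set_option linter.unusedSectionVars false
set_option linter.unusedVariables false

namespace Cfsg.Agent.Lib.H49UMem

open scoped Matrix Kronecker
open Matrix Cfsg.Agent.Lib.Helper49TDefs Cfsg.Agent.Lib.Helper49SDefs Cfsg.Agent.Lib.Helper49ODefs
  Cfsg.Agent.Lib.Helper49UDefs
open Cfsg.Agent.Lib.H49UBasic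

variable {F : Type*} [Field F] {a b n : ℕ}

local notation "GLn" => Matrix.GeneralLinearGroup (Fin a × Fin b) F
local notation "Mn" => Matrix (Fin a × Fin b) (Fin a × Fin b) F
local notation "Ma" => Matrix (Fin a) (Fin a) F
local notation "Mb" => Matrix (Fin b) (Fin b) F
local notation "GLa" => Matrix.GeneralLinearGroup (Fin a) F
local notation "GLb" => Matrix.GeneralLinearGroup (Fin b) F

theorem kron_mem (D : SoDat F a b) (A : GLa) (B : GLb) (hA : IsIso D.J₁ A) (hB : IsIso D.J₂ B) :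
    ∃ m ∈ KS a b F ⊓ SG D, (m : Mn) = (A : Ma) ⊗ₖ (B : Mb) ∧
      ((m⁻¹ : GLn) : Mn) = ((A⁻¹ : GLa) : Ma) ⊗ₖ ((B⁻¹ : GLb) : Mb) := by
  let m : GLn :=
    { val := (A : Ma) ⊗ₖ (B : Mb)
      inv := ((A⁻¹ : GLa) : Ma) ⊗ₖ ((B⁻¹ : GLb) : Mb)
      val_inv := by
        rw [← Matrix.mul_kronecker_mul, ← Units.val_mul, ← Units.val_mul, mul_inv_cancel,
          mul_inv_cancel, Units.val_one, Units.val_one, Matrix.one_kronecker_one]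
      inv_val := by
        rw [← Matrix.mul_kronecker_mul, ← Units.val_mul, ← Units.val_mul, inv_mul_cancel,
          inv_mul_cancel, Units.val_one, Units.val_one, Matrix.one_kronecker_one] }
  refine ⟨m, ⟨⟨A, B, rfl⟩, ?_⟩, rfl, rfl⟩
  apply mem_SG_of_tens
  intro x x' v v'
  show D.f (((A : Ma) ⊗ₖ (B : Mb)) *ᵥ tens x v) (((A : Ma) ⊗ₖ (B : Mb)) *ᵥ tens x' v') = _
  rw [kron_mulVec_tens, kron_mulVec_tens]
  show fK D.J₁ D.J₂ _ _ = _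
  rw [fK_tens, hA, hB]

theorem isIso_one (J : Matrix (Fin n) (Fin n) F) : IsIso J 1 := by
  intro x y
  simp

/-- `Sp(V₁) ⊗ 1 ≤ M` -/
theorem so1_mem (D : SoDat F a b) (g : GLa) (hg : IsIso D.J₁ g) :
    ∃ m ∈ KS a b F ⊓ SG D, (m : Mn) = (g : Ma) ⊗ₖ (1 : Mb) ∧
      ((m⁻¹ : GLn) : Mn) = ((g⁻¹ : GLa) : Ma) ⊗ₖ (1 : Mb) := by
  obtain ⟨m, hm, h1, h2⟩ := kron_mem D g 1 hg (isIso_one _)
  exact ⟨m, hm, by rw [h1, Units.val_one], by rw [h2, inv_one, Units.val_one]⟩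

/-- `1 ⊗ O(V₂) ≤ M` -/
theorem so2_mem (D : SoDat F a b) (g : GLb) (hg : IsIso D.J₂ g) :
    ∃ m ∈ KS a b F ⊓ SG D, (m : Mn) = (1 : Ma) ⊗ₖ (g : Mb) ∧
      ((m⁻¹ : GLn) : Mn) = (1 : Ma) ⊗ₖ ((g⁻¹ : GLb) : Mb) := by
  obtain ⟨m, hm, h1, h2⟩ := kron_mem D 1 g (isIso_one _) hg
  exact ⟨m, hm, by rw [h1, Units.val_one], by rw [h2, inv_one, Units.val_one]⟩

theorem NN_conjO1 (D : SoDat F a b) {H : Subgroup GLn}
    (hMH : KS a b F ⊓ SG D ≤ H) (g : GLa) (hg : IsIso D.J₁ g) {B : Mn} (hB : B ∈ NN H) :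
    ((g : Ma) ⊗ₖ (1 : Mb)) * B * (((g⁻¹ : GLa) : Ma) ⊗ₖ (1 : Mb)) ∈ NN H := by
  obtain ⟨m, hm, h1, h2⟩ := so1_mem D g hg
  have := NN_conj hB (hMH hm)
  rwa [h1, h2] at this

theorem NN_conjO2 (D : SoDat F a b) {H : Subgroup GLn}
    (hMH : KS a b F ⊓ SG D ≤ H) (g : GLb) (hg : IsIso D.J₂ g) {B : Mn} (hB : B ∈ NN H) :
    ((1 : Ma) ⊗ₖ (g : Mb)) * B * ((1 : Ma) ⊗ₖ ((g⁻¹ : GLb) : Mb)) ∈ NN H := by
  obtain ⟨m, hm, h1, h2⟩ := so2_mem D g hg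
  have := NN_conj hB (hMH hm)
  rwa [h1, h2] at this

end Cfsg.Agent.Lib.H49UMem
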