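import Cfsg.Agent.Lib.Helper49UDefs
import Cfsg.Agent.Lib.H49UBasic
import Cfsg.Agent.Lib.H49UFilB
import Cfsg.Agent.Lib.H49UForm1O

/-!
# PROJECT 51 (Sp x O, part T2), piece `ZetaU`
-/

set_option autoImplicit false
set_option linter.unusedSectionVars false
set_option linter.unusedVariables false

namespace Cfsg.Agent.Lib.H49UZetaU

open scoped Matrix Kronecker
open Matrix Cfsg.Agent.Lib.Helper49TDefs Cfsg.Agent.Lib.Helper49SDefs Cfsg.Agent.Lib.Helper49ODefs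
  Cfsg.Agent.Lib.Helper49UDefs
open Cfsg.Agent.Lib.H49UBasic
open Cfsg.Agent.Lib.H49UFilB
open Cfsg.Agent.Lib.H49UForm1O

variable {F : Type*} [Field F] {a b n : ℕ}

local notation "GLn" => Matrix.GeneralLinearGroup (Fin a × Fin b) F
local notation "Mn" => Matrix (Fin a × Fin b) (Fin a × Fin b) F
local notation "Ma" => Matrix (Fin a) (Fin a) F
local notation "Mb" => Matrix (Fin b) (Fin b) F
local notation "GLa" => Matrix.GeneralLinearGroup (Fin a) F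
local notation "GLb" => Matrix.GeneralLinearGroup (Fin b) F

/-- `A = g - 1`, `B = 1 ⊗ (E(c,e) - 1)`.  `AB - BA = ζ ⊗ N(c,c)` by `fil_mul2` + `form1O`.  Take `d` with `f₂(d,c) = 1`:
`AB(x ⊗ d) = -A(x ⊗ e) = -Ψx ⊗ c` (`kron_XO_mulVec`, `A` kills `V₁ ⊗ c`), `BA(x ⊗ d) = ctr_e(A(x ⊗ d)) ⊗ c`
(`kron_XO_mulVec_perp`), and `f(g(x ⊗ d), g(x' ⊗ e)) = f(x ⊗ d, x' ⊗ e)` gives
`f₁(ctr_e(A(x ⊗ d)), x') = - f₁(x, Ψ x')`  (`A(x ⊗ d) ∈ V₁ ⊗ c^⊥` is orthogonal to `Ψx' ⊗ c`). -/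
theorem zeta_formula (D : SoDat F a b) {c e : Fin b → F} (hc : c ≠ 0) (hs : bf D.J₂ c c = 0)
    (he : bf D.J₂ e c = 0) {g : GLn} (hg : g ∈ SG D) (hF : Fil D c ((g : Mn) - 1)) (Ψ : Ma)
    (hΨ : ∀ x, ((g : Mn) - 1) *ᵥ tens x e = tens (Ψ *ᵥ x) c) :
    ∃ ζ : Ma, ((g : Mn) - 1) * ((1 : Ma) ⊗ₖ XO D c e) - ((1 : Ma) ⊗ₖ XO D c e) * ((g : Mn) - 1)
        = ζ ⊗ₖ NJ D.J₂ c c ∧
      ∀ x x', bf D.J₁ (ζ *ᵥ x) x' = bf D.J₁ x (Ψ *ᵥ x') - bf D.J₁ (Ψ *ᵥ x) x' := by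
  obtain ⟨A, hAdef⟩ : ∃ A : Mn, A = (g : Mn) - 1 := ⟨_, rfl⟩
  obtain ⟨B, hBdef⟩ : ∃ B : Mn, B = (1 : Ma) ⊗ₖ XO D c e := ⟨_, rfl⟩
  have hFB : Fil D c B := by rw [hBdef]; exact fil_XO D hs he
  rw [← hAdef] at hF hΨ ⊢
  rw [← hBdef]
  have eg : (g : Mn) = 1 + A := by rw [hAdef]; abel
  obtain ⟨i1, k1⟩ := fil_mul2 D hF hFB
  obtain ⟨i2, k2⟩ := fil_mul2 D hFB hF
  obtain ⟨ζ, hζ⟩ := form1O D hc (A * B - B * A)
    (by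
      intro v
      obtain ⟨u1, hu1⟩ := i1 v
      obtain ⟨u2, hu2⟩ := i2 v
      refine ⟨u1 + (-1 : F) • u2, ?_⟩
      rw [Matrix.sub_mulVec, hu1, hu2, tens_add_left, tens_smul_left]
      simp [sub_eq_add_neg])
    (by
      intro u v hv
      rw [Matrix.sub_mulVec, k1 u v hv, k2 u v hv, sub_zero])
  refine ⟨ζ, hζ, ?_⟩
  obtain ⟨d, hd⟩ := D.h₂.exists_ne_zero hc
  intro x x'
  -- the value on `x ⊗ d`
  have hX : (A * B - B * A) *ᵥ tens x d = tens (ζ *ᵥ x) c := by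
    rw [hζ, kron_mulVec_tens, NJ_mulVec, hd, one_smul]
  have hAB : (A * B) *ᵥ tens x d = - tens (Ψ *ᵥ x) c := by
    rw [← Matrix.mulVec_mulVec, hBdef, kron_XO_mulVec, ctr_J_tens, ctr_J_tens, hd, one_smul,
      Matrix.mulVec_sub, Matrix.mulVec_sub, Matrix.mulVec_smul, hF.bot, hF.bot, hΨ]
    simp
  have hAd : A *ᵥ tens x d ∈ tsub a (perpS D.J₂ c) := hF.top _
  have hBA : (B * A) *ᵥ tens x d = tens (ctr (D.J₂ *ᵥ e) (A *ᵥ tens x d)) c := by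
    rw [← Matrix.mulVec_mulVec, hBdef, kron_XO_mulVec_perp D c e _ hAd]
  rw [Matrix.sub_mulVec, hAB, hBA] at hX
  have hz : ζ *ᵥ x = (-1 : F) • (Ψ *ᵥ x) + (-1 : F) • ctr (D.J₂ *ᵥ e) (A *ᵥ tens x d) := by
    apply Cfsg.Agent.Lib.H49SGeo.tens_left_inj hc
    rw [← hX, tens_add_left, tens_smul_left, tens_smul_left]
    simp [sub_eq_add_neg]
  have hiso := hg (tens x d) (tens x' e)
  rw [eg, Matrix.add_mulVec, Matrix.add_mulVec, Matrix.one_mulVec, Matrix.one_mulVec, hΨ] at hiso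
  simp only [fK_add_left, fK_add_right] at hiso
  have e1 : fK D.J₁ D.J₂ (tens x d) (tens (Ψ *ᵥ x') c) = bf D.J₁ x (Ψ *ᵥ x') := by
    rw [fK_tens, hd, mul_one]
  have e2 : fK D.J₁ D.J₂ (A *ᵥ tens x d) (tens (Ψ *ᵥ x') c) = 0 := by
    rw [fK_eq_bf_ctr, (mem_tsub_perpS_iff _ _ _).1 hAd, bf_zero_left]
  have e3 : fK D.J₁ D.J₂ (A *ᵥ tens x d) (tens x' e)
      = bf D.J₁ (ctr (D.J₂ *ᵥ e) (A *ᵥ tens x d)) x' := fK_eq_bf_ctr _ _ _ _ _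
  rw [e1, e2, e3] at hiso
  rw [hz, bf_add_left, bf_smul_left, bf_smul_left]
  linear_combination -hiso

end Cfsg.Agent.Lib.H49UZetaU
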