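import Cfsg.Agent.Lib.Helper49UDefs
import Cfsg.Agent.Lib.H49UMem
import Cfsg.Agent.Lib.H49UEOiso
import Cfsg.Agent.Lib.H49UFilB
import Cfsg.Agent.Lib.H49UCommU
import Cfsg.Agent.Lib.H49UZetaU
import Cfsg.Agent.Lib.H49SAlgTwo

/-!
# PROJECT 51 (Sp x O, part T2), piece `LemU`
-/

set_option autoImplicit false
set_option linter.unusedSectionVars false
set_option linter.unusedVariables false

namespace Cfsg.Agent.Lib.H49ULemU

open scoped Matrix Kronecker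
open Matrix Cfsg.Agent.Lib.Helper49TDefs Cfsg.Agent.Lib.Helper49SDefs Cfsg.Agent.Lib.Helper49ODefs
  Cfsg.Agent.Lib.Helper49UDefs
open Cfsg.Agent.Lib.H49UMem
open Cfsg.Agent.Lib.H49UEOiso
open Cfsg.Agent.Lib.H49UFilB
open Cfsg.Agent.Lib.H49UCommU
open Cfsg.Agent.Lib.H49UZetaU
open Cfsg.Agent.Lib.H49SAlgTwo

variable {F : Type*} [Field F] {a b n : ℕ}

local notation "GLn" => Matrix.GeneralLinearGroup (Fin a × Fin b) F
local notation "Mn" => Matrix (Fin a × Fin b) (Fin a × Fin b) F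
local notation "Ma" => Matrix (Fin a) (Fin a) F
local notation "Mb" => Matrix (Fin b) (Fin b) F
local notation "GLa" => Matrix.GeneralLinearGroup (Fin a) F
local notation "GLb" => Matrix.GeneralLinearGroup (Fin b) F

/-- THE KEY LEMMA.  `x_e = 1 ⊗ E(c,e) ∈ M ≤ H` (`EO_iso`, `so2_mem`), `fil_XO`, `comm_mem`, `zeta_formula`.  If `ζ ≠ 0`: `HasZ`.
If `ζ = 0`: `f₁(Ψx,x') = f₁(x,Ψx')`, so `f₁(Ψx,x) = f₁(x,Ψx) = -f₁(Ψx,x)`, `f₁(Ψx,x) = 0` for all `x`, and `Ψ` is a scalar by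
`H49SAlgTwo.alg_two` (`a = 2`). -/
theorem scalar_or_hasZ (D : SoDat F a b) (ha2 : a = 2) (H : Subgroup GLn)
    (hMH : KS a b F ⊓ SG D ≤ H) (hH : H ≤ SG D) {c e : Fin b → F} (hc : c ≠ 0)
    (hs : bf D.J₂ c c = 0) (he : bf D.J₂ e c = 0) {g : GLn} (hg : g ∈ H)
    (hF : Fil D c ((g : Mn) - 1)) (Ψ : Ma)
    (hΨ : ∀ x, ((g : Mn) - 1) *ᵥ tens x e = tens (Ψ *ᵥ x) c) :
    HasZ D H ∨ ∃ k : F, Ψ = k • 1 := by
  obtain ⟨g₂, hiso, hg₂, -⟩ := EO_iso D.h₂ D.two hs he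
  obtain ⟨m, hm, hmM, -⟩ := so2_mem D g₂ hiso
  have hm1 : (m : Mn) - 1 = (1 : Ma) ⊗ₖ XO D c e := by
    rw [hmM, hg₂]
    show (1 : Ma) ⊗ₖ EO D.J₂ c e - 1 = (1 : Ma) ⊗ₖ (EO D.J₂ c e - 1)
    have h0 : (1 : Ma) ⊗ₖ EO D.J₂ c e = (1 : Ma) ⊗ₖ (EO D.J₂ c e - 1) + (1 : Ma) ⊗ₖ (1 : Mb) := by
      rw [← Matrix.kronecker_add, sub_add_cancel]
    rw [h0, Matrix.one_kronecker_one, add_sub_cancel_right]
  have hFm : Fil D c ((m : Mn) - 1) := by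
    rw [hm1]; exact fil_XO D hs he
  have hcomm := comm_mem D hg (hMH hm) hF hFm
  obtain ⟨ζ, hζ, hζf⟩ := zeta_formula D hc hs he (hH hg) hF Ψ hΨ
  rw [hm1, hζ] at hcomm
  by_cases hζ0 : ζ = 0
  · right
    by_contra hns
    push Not at hns
    obtain ⟨u, hu⟩ := alg_two D.h₁ ha2 Ψ hns
    apply hu
    have h1 := hζf u u
    rw [hζ0, Matrix.zero_mulVec, bf_zero_left, D.h₁.swap u (Ψ *ᵥ u)] at h1
    have h2 : (2 : F) * bf D.J₁ (Ψ *ᵥ u) u = 0 := by linear_combination h1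
    exact (mul_eq_zero.1 h2).resolve_left D.two
  · left
    exact ⟨c, ζ, hc, hs, hζ0, hcomm⟩

end Cfsg.Agent.Lib.H49ULemU
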