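import Cfsg.Agent.Lib.Helper49UDefs
import Cfsg.Agent.Lib.H49ULemU
import Cfsg.Agent.Lib.H49ULayInv
import Cfsg.Agent.Lib.H49UFilB
import Cfsg.Agent.Lib.H49UGeoO
import Cfsg.Agent.Lib.H49UMem
import Cfsg.Agent.Lib.H49UEOiso

/-!
# PROJECT 51 (Sp x O, part T2), piece `StageA`
-/

set_option autoImplicit false
set_option linter.unusedSectionVars false
set_option linter.unusedVariables false

namespace Cfsg.Agent.Lib.H49UStageA

open scoped Matrix Kronecker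
open Matrix Cfsg.Agent.Lib.Helper49TDefs Cfsg.Agent.Lib.Helper49SDefs Cfsg.Agent.Lib.Helper49ODefs
  Cfsg.Agent.Lib.Helper49UDefs
open Cfsg.Agent.Lib.H49ULemU
open Cfsg.Agent.Lib.H49ULayInv
open Cfsg.Agent.Lib.H49UFilB
open Cfsg.Agent.Lib.H49UGeoO
open Cfsg.Agent.Lib.H49UMem
open Cfsg.Agent.Lib.H49UEOiso

variable {F : Type*} [Field F] {a b n : ℕ}

local notation "GLn" => Matrix.GeneralLinearGroup (Fin a × Fin b) F
local notation "Mn" => Matrix (Fin a × Fin b) (Fin a × Fin b) F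
local notation "Ma" => Matrix (Fin a) (Fin a) F
local notation "Mb" => Matrix (Fin b) (Fin b) F
local notation "GLa" => Matrix.GeneralLinearGroup (Fin a) F
local notation "GLb" => Matrix.GeneralLinearGroup (Fin b) F

/-- `g = t⁻¹ x_w t ∈ H`, `x_w = 1 ⊗ E(c,w) ∈ M`; `g - 1 = t⁻¹ (1 ⊗ XO c w) t` is `Fil` (`fil_XO`, `L`, `LayO_inv`);
`Θ` from `exists_ctr_mat`: `ctr_w(t(x ⊗ e)) = Θ x`; `(g-1)(x ⊗ e) = t⁻¹(Θx ⊗ c) = βΘx ⊗ c` (`kron_XO_mulVec_perp`).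
`scalar_or_hasZ` with `Ψ = βΘ`: `βΘ = k` gives `Θ = kα`. -/
theorem stageA (D : SoDat F a b) (ha2 : a = 2) (H : Subgroup GLn)
    (hMH : KS a b F ⊓ SG D ≤ H) (hH : H ≤ SG D) {t : GLn} (ht : t ∈ H) {c : Fin b → F}
    (hc : c ≠ 0) (hs : bf D.J₂ c c = 0) {α β : Ma} (L : LayO D t c α β) :
    HasZ D H ∨ ∀ w e, bf D.J₂ w c = 0 → bf D.J₂ e c = 0 →
      ∃ k : F, ∀ x, ctr (D.J₂ *ᵥ w) ((t : Mn) *ᵥ tens x e) = k • (α *ᵥ x) := by
  by_cases hZ : HasZ D H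
  · exact Or.inl hZ
  right
  intro w e hw he
  have Li : LayO D t⁻¹ c β α := LayO_inv D (hH ht) L
  obtain ⟨g₀, hiso, hg₀, -⟩ := EO_iso D.h₂ D.two hs hw
  obtain ⟨m, hm, hmM, -⟩ := so2_mem D g₀ hiso
  have hX : Fil D c ((1 : Ma) ⊗ₖ XO D c w) := fil_XO D hs hw
  have hmX : (m : Mn) = 1 + (1 : Ma) ⊗ₖ XO D c w := by
    have h1 : EO D.J₂ c w = 1 + XO D c w := by
      rw [XO]
      abel
    rw [hmM, hg₀, h1, Matrix.kronecker_add, Matrix.one_kronecker_one]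
  have hgH : t⁻¹ * m * t ∈ H := H.mul_mem (H.mul_mem (H.inv_mem ht) (hMH hm)) ht
  have hgX : ((t⁻¹ * m * t : GLn) : Mn) - 1
      = ((t⁻¹ : GLn) : Mn) * ((1 : Ma) ⊗ₖ XO D c w) * (t : Mn) := by
    rw [Units.val_mul, Units.val_mul, hmX, mul_add, add_mul, mul_one, ← Units.val_mul,
      inv_mul_cancel, Units.val_one]
    abel
  have hF : Fil D c (((t⁻¹ * m * t : GLn) : Mn) - 1) := by
    rw [hgX]
    refine ⟨fun v => ?_, fun v hv => ?_, fun x => ?_⟩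
    · rw [← Matrix.mulVec_mulVec, ← Matrix.mulVec_mulVec]
      exact Li.perp _ (hX.top _)
    · rw [← Matrix.mulVec_mulVec, ← Matrix.mulVec_mulVec]
      obtain ⟨x, hx⟩ := hX.mid _ (L.perp v hv)
      exact ⟨β *ᵥ x, by rw [hx, Li.bot]⟩
    · rw [← Matrix.mulVec_mulVec, ← Matrix.mulVec_mulVec, L.bot, hX.bot, Matrix.mulVec_zero]
  obtain ⟨Θ, hΘ⟩ := exists_ctr_mat (t : Mn) (D.J₂ *ᵥ w) e
  have hΨ : ∀ x, (((t⁻¹ * m * t : GLn) : Mn) - 1) *ᵥ tens x e = tens ((β * Θ) *ᵥ x) c := by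
    intro x
    rw [hgX, ← Matrix.mulVec_mulVec, ← Matrix.mulVec_mulVec,
      kron_XO_mulVec_perp D c w _ (L.perp _ (tens_mem_tsub_perpS he x)), hΘ, Li.bot,
      Matrix.mulVec_mulVec]
  rcases scalar_or_hasZ D ha2 H hMH hH hc hs he hgH hF (β * Θ) hΨ with h | ⟨k, hk⟩
  · exact absurd h hZ
  refine ⟨k, fun x => ?_⟩
  have hΘk : Θ = k • α := by
    calc Θ = (α * β) * Θ := by rw [L.inv, one_mul]
      _ = α * (β * Θ) := mul_assoc _ _ _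
      _ = k • α := by rw [hk, Matrix.mul_smul, mul_one]
  rw [hΘ, hΘk, Matrix.smul_mulVec]

end Cfsg.Agent.Lib.H49UStageA
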