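import Cfsg.Agent.Lib.Helper49UDefs

/-!
# PROJECT 51 (Sp x O, part T2), piece `Refl`
-/

set_option autoImplicit false
set_option linter.unusedSectionVars false
set_option linter.unusedVariables false

namespace Cfsg.Agent.Lib.H49URefl

open scoped Matrix Kronecker
open Matrix Cfsg.Agent.Lib.Helper49TDefs Cfsg.Agent.Lib.Helper49SDefs Cfsg.Agent.Lib.Helper49ODefs
  Cfsg.Agent.Lib.Helper49UDefs

variable {F : Type*} [Field F] {a b n : ℕ}

local notation "GLn" => Matrix.GeneralLinearGroup (Fin a × Fin b) F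
local notation "Mn" => Matrix (Fin a × Fin b) (Fin a × Fin b) F
local notation "Ma" => Matrix (Fin a) (Fin a) F
local notation "Mb" => Matrix (Fin b) (Fin b) F
local notation "GLa" => Matrix.GeneralLinearGroup (Fin a) F
local notation "GLb" => Matrix.GeneralLinearGroup (Fin b) F


/-- the reflection in a nonsingular vector -/
theorem refl_iso {J : Matrix (Fin n) (Fin n) F} (hJ : IsSymmMat J) {d : Fin n → F}
    (hd : bf J d d ≠ 0) :
    ∃ g : Matrix.GeneralLinearGroup (Fin n) F, IsIso J g ∧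
      (g : Matrix (Fin n) (Fin n) F) = 1 - (2 / bf J d d) • NJ J d d ∧
      ((g⁻¹ : Matrix.GeneralLinearGroup (Fin n) F) : Matrix (Fin n) (Fin n) F)
        = 1 - (2 / bf J d d) • NJ J d d := by
  have hRR : (1 - (2 / bf J d d) • NJ J d d) * (1 - (2 / bf J d d) • NJ J d d) = 1 := by
    rw [sub_mul, one_mul, mul_sub, mul_one, smul_mul_smul_comm, NJ_mul, smul_smul]
    have e : 2 / bf J d d * (2 / bf J d d) * bf J d d = 2 / bf J d d + 2 / bf J d d := by
      field_simp
      ring
    rw [e, add_smul]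
    abel
  refine ⟨⟨_, _, hRR, hRR⟩, ?_, rfl, rfl⟩
  intro x y
  show bf J ((1 - (2 / bf J d d) • NJ J d d) *ᵥ x) ((1 - (2 / bf J d d) • NJ J d d) *ᵥ y) = bf J x y
  simp only [Matrix.sub_mulVec, Matrix.one_mulVec, Matrix.smul_mulVec, NJ_mulVec, bf_sub_left,
    bf_sub_right, bf_smul_left, bf_smul_right]
  rw [hJ.symm d y]
  field_simp
  ring

end Cfsg.Agent.Lib.H49URefl
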