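import Cfsg.Agent.Lib.Helper49UDefs
import Cfsg.Agent.Lib.H49ULemU
import Cfsg.Agent.Lib.H49URefl
import Cfsg.Agent.Lib.H49UFilOf
import Cfsg.Agent.Lib.H49UMem
import Cfsg.Agent.Lib.H49ULayInv
import Cfsg.Agent.Lib.H49UBasic

/-!
# PROJECT 51 (Sp x O, part T2), piece `StageD`
-/

set_option autoImplicit false
set_option linter.unusedSectionVars false
set_option linter.unusedVariables false

namespace Cfsg.Agent.Lib.H49UStageD

open scoped Matrix Kronecker
open Matrix Cfsg.Agent.Lib.Helper49TDefs Cfsg.Agent.Lib.Helper49SDefs Cfsg.Agent.Lib.Helper49ODefs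
  Cfsg.Agent.Lib.Helper49UDefs
open Cfsg.Agent.Lib.H49ULemU
open Cfsg.Agent.Lib.H49URefl
open Cfsg.Agent.Lib.H49UFilOf
open Cfsg.Agent.Lib.H49UMem
open Cfsg.Agent.Lib.H49ULayInv
open Cfsg.Agent.Lib.H49UBasic

variable {F : Type*} [Field F] {a b n : ℕ}

local notation "GLn" => Matrix.GeneralLinearGroup (Fin a × Fin b) F
local notation "Mn" => Matrix (Fin a × Fin b) (Fin a × Fin b) F
local notation "Ma" => Matrix (Fin a) (Fin a) F
local notation "Mb" => Matrix (Fin b) (Fin b) F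
local notation "GLa" => Matrix.GeneralLinearGroup (Fin a) F
local notation "GLb" => Matrix.GeneralLinearGroup (Fin b) F

theorem stageD (D : SoDat F a b) (ha2 : a = 2) (H : Subgroup GLn)
    (hMH : KS a b F ⊓ SG D ≤ H) (hH : H ≤ SG D) {t : GLn} (ht : t ∈ H) {c : Fin b → F}
    (hc : c ≠ 0) (hs : bf D.J₂ c c = 0) {α β : Ma} (L : LayO D t c α β) {e e' : Fin b → F}
    {κ : Ma} (he : bf D.J₂ e c = 0) (hne : bf D.J₂ e e ≠ 0) (he' : bf D.J₂ e' c = 0)
    (hte : ∀ x, (t : Mn) *ᵥ tens x e = tens (α *ᵥ x) e' + tens (κ *ᵥ x) c) :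
    HasZ D H ∨ ∃ k : F, κ = k • α := by
  classical
  have ha0 : 0 < a := by omega
  have htS : t ∈ SG D := hH ht
  have hsym := D.h₂.symm
  have hce : bf D.J₂ c e = 0 := by rw [hsym]; exact he
  have hce' : bf D.J₂ c e' = 0 := by rw [hsym]; exact he'
  have hβα : β * α = 1 := LayO_mul_comm D L
  have Linv := LayO_inv D htS L
  -- `e'` is nonsingular
  have hne' : bf D.J₂ e' e' ≠ 0 := by
    intro h0
    let x₁ : Fin a → F := Pi.single ⟨0, ha0⟩ 1
    have hx₁ : x₁ ≠ 0 := by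
      intro h
      have := congrFun h ⟨0, ha0⟩
      simp [x₁] at this
    obtain ⟨x₀, hx₀⟩ := D.h₁.exists_ne_zero hx₁
    have := htS (tens x₀ e) (tens x₁ e)
    rw [hte, hte] at this
    simp only [fK_add_left, fK_add_right, fK_tens, h0, he', hce', hs, mul_zero, add_zero, hx₀,
      one_mul] at this
    exact hne this.symm
  set q := bf D.J₂ e e with hq
  set q' := bf D.J₂ e' e' with hq'
  obtain ⟨r, hriso, hr, -⟩ := refl_iso D.h₂ hne
  obtain ⟨r', hr'iso, hr', -⟩ := refl_iso D.h₂ hne'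
  obtain ⟨z, hzM, hz, -⟩ := so2_mem D r hriso
  obtain ⟨z', hz'M, hz', -⟩ := so2_mem D r' hr'iso
  have hgH : t * z * t⁻¹ * z' ∈ H :=
    H.mul_mem (H.mul_mem (H.mul_mem ht (hMH hzM)) (H.inv_mem ht)) (hMH hz'M)
  set g : GLn := t * z * t⁻¹ * z' with hg
  have hgact : ∀ w, (g : Mn) *ᵥ w =
      (t : Mn) *ᵥ ((z : Mn) *ᵥ (((t⁻¹ : GLn) : Mn) *ᵥ ((z' : Mn) *ᵥ w))) := by
    intro w
    rw [hg, Units.val_mul, Units.val_mul, Units.val_mul]
    simp only [Matrix.mulVec_mulVec, Matrix.mul_assoc]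
  have hzt : ∀ x v, (z : Mn) *ᵥ tens x v = tens x (v - (2 / q * bf D.J₂ v e) • e) := by
    intro x v
    rw [hz, kron_mulVec_tens, Matrix.one_mulVec, hr, Matrix.sub_mulVec, Matrix.one_mulVec,
      Matrix.smul_mulVec, NJ_mulVec, smul_smul]
  have hz't : ∀ x v, (z' : Mn) *ᵥ tens x v = tens x (v - (2 / q' * bf D.J₂ v e') • e') := by
    intro x v
    rw [hz', kron_mulVec_tens, Matrix.one_mulVec, hr', Matrix.sub_mulVec, Matrix.one_mulVec,
      Matrix.smul_mulVec, NJ_mulVec, smul_smul]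
  have hzw : ∀ w, ctr (D.J₂ *ᵥ e) w = 0 → (z : Mn) *ᵥ w = w := by
    intro w hw
    have e1 : (r : Mb) = 1 + (-(2 / q)) • NJ D.J₂ e e := by rw [hr, neg_smul, sub_eq_add_neg]
    rw [hz, e1, Matrix.kronecker_add, Matrix.one_kronecker_one, Matrix.kronecker_smul,
      Matrix.add_mulVec, Matrix.one_mulVec, Matrix.smul_mulVec, kron_NJ_mulVec, hw,
      Matrix.mulVec_zero, tens_zero_left', smul_zero, add_zero]
  have htt : ∀ w, ((t⁻¹ : GLn) : Mn) *ᵥ ((t : Mn) *ᵥ w) = w := by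
    intro w
    rw [Matrix.mulVec_mulVec, ← Units.val_mul, inv_mul_cancel, Units.val_one, Matrix.one_mulVec]
  have htt' : ∀ w, (t : Mn) *ᵥ (((t⁻¹ : GLn) : Mn) *ᵥ w) = w := by
    intro w
    rw [Matrix.mulVec_mulVec, ← Units.val_mul, mul_inv_cancel, Units.val_one, Matrix.one_mulVec]
  have hzc : ∀ x, (z : Mn) *ᵥ tens x c = tens x c := by
    intro x
    rw [hzt, hce, mul_zero, zero_smul, sub_zero]
  have hαβ : ∀ x, α *ᵥ (β *ᵥ x) = x := by
    intro x
    rw [Matrix.mulVec_mulVec, L.inv, Matrix.one_mulVec]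
  -- `g` fixes `x ⊗ c`
  have hbot : ∀ x, (g : Mn) *ᵥ tens x c = tens x c := by
    intro x
    rw [hgact, hz't, hce', mul_zero, zero_smul, sub_zero, Linv.bot, hzc, L.bot, hαβ]
  -- `g` fixes `x ⊗ e₀`
  have hfix : ∀ x e₀, bf D.J₂ e₀ c = 0 → bf D.J₂ e₀ e' = 0 →
      (g : Mn) *ᵥ tens x e₀ = tens x e₀ := by
    intro x e₀ h1 h2
    rw [hgact, hz't, h2, mul_zero, zero_smul, sub_zero]
    rw [hzw, htt']
    apply D.h₁.eq_zero_of_left
    intro x'
    rw [← f_ctr, SG_f_inv D htS, hte]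
    simp only [SoDat.f, fK_add_right, fK_tens, h1, h2, mul_zero, add_zero]
  -- `t⁻¹ (x ⊗ e')`
  have htie : ∀ x, ((t⁻¹ : GLn) : Mn) *ᵥ tens x e' =
      tens (β *ᵥ x) e - tens (β *ᵥ (κ *ᵥ (β *ᵥ x))) c := by
    intro x
    have e1 : (t : Mn) *ᵥ (tens (β *ᵥ x) e - tens (β *ᵥ (κ *ᵥ (β *ᵥ x))) c) = tens x e' := by
      rw [Matrix.mulVec_sub, hte, L.bot, hαβ, hαβ, add_sub_cancel_right]
    rw [← e1, htt]
  have hge' : ∀ x, (g : Mn) *ᵥ tens x e' = tens x e' + tens (((2 : F) • (κ * β)) *ᵥ x) c := by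
    intro x
    have e2 : e' - (2 / q' * bf D.J₂ e' e') • e' = (-1 : F) • e' := by
      rw [← hq', div_mul_cancel₀ _ hne']
      module
    have e3 : e - (2 / q * bf D.J₂ e e) • e = (-1 : F) • e := by
      rw [← hq, div_mul_cancel₀ _ hne]
      module
    have s1 : (z' : Mn) *ᵥ tens x e' = (-1 : F) • tens x e' := by
      rw [hz't, e2, tens_smul_right]
    have s2 : ((t⁻¹ : GLn) : Mn) *ᵥ ((-1 : F) • tens x e') =
        (-1 : F) • tens (β *ᵥ x) e + tens (β *ᵥ (κ *ᵥ (β *ᵥ x))) c := by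
      rw [Matrix.mulVec_smul, htie]
      module
    have s3 : (z : Mn) *ᵥ ((-1 : F) • tens (β *ᵥ x) e + tens (β *ᵥ (κ *ᵥ (β *ᵥ x))) c) =
        tens (β *ᵥ x) e + tens (β *ᵥ (κ *ᵥ (β *ᵥ x))) c := by
      rw [Matrix.mulVec_add, Matrix.mulVec_smul, hzc, hzt, e3, tens_smul_right]
      module
    have s4 : (t : Mn) *ᵥ (tens (β *ᵥ x) e + tens (β *ᵥ (κ *ᵥ (β *ᵥ x))) c) =
        tens x e' + (2 : F) • tens (κ *ᵥ (β *ᵥ x)) c := by
      rw [Matrix.mulVec_add, hte, L.bot, hαβ, hαβ]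
      module
    rw [hgact, s1, s2, s3, s4, Matrix.smul_mulVec, ← Matrix.mulVec_mulVec, tens_smul_left]
  have hmid : ∀ x e'', bf D.J₂ e'' c = 0 →
      ∃ x', (g : Mn) *ᵥ tens x e'' = tens x e'' + tens x' c := by
    intro x e'' h1
    let l : F := bf D.J₂ e'' e' / q'
    let e₀ : Fin b → F := e'' - l • e'
    have h01 : bf D.J₂ e₀ c = 0 := by
      simp only [e₀, bf_sub_left, bf_smul_left, h1, he', mul_zero, sub_zero]
    have h02 : bf D.J₂ e₀ e' = 0 := by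
      simp only [e₀, l, bf_sub_left, bf_smul_left, ← hq']
      rw [div_mul_cancel₀ _ hne', sub_self]
    have hdec : e'' = l • e' + e₀ := by
      simp only [e₀]
      abel
    refine ⟨l • (((2 : F) • (κ * β)) *ᵥ x), ?_⟩
    have hdt : tens x e'' = l • tens x e' + tens x e₀ := by
      conv_lhs => rw [hdec]
      rw [tens_add_right, tens_smul_right]
    rw [hdt, Matrix.mulVec_add, Matrix.mulVec_smul, hge', hfix x e₀ h01 h02, tens_smul_left]
    module
  have hF := fil_of_iso D (hH hgH) hbot hmid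
  rcases scalar_or_hasZ D ha2 H hMH hH hc hs he' hgH hF ((2 : F) • (κ * β)) (fun x => by
    rw [Matrix.sub_mulVec, Matrix.one_mulVec, hge', add_sub_cancel_left]) with hZ | ⟨k, hk⟩
  · left
    exact hZ
  · right
    refine ⟨k / 2, ?_⟩
    have h2 := D.two
    have h3 : κ * β = (k / 2) • 1 := by
      have h4 : (2 : F)⁻¹ • ((2 : F) • (κ * β)) = (2 : F)⁻¹ • (k • (1 : Ma)) := by rw [hk]
      rw [smul_smul, inv_mul_cancel₀ h2, one_smul, smul_smul] at h4
      rw [h4]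
      congr 1
      field_simp
    calc κ = κ * (β * α) := by rw [hβα, mul_one]
      _ = (κ * β) * α := (mul_assoc _ _ _).symm
      _ = (k / 2) • α := by rw [h3, smul_mul_assoc, one_mul]

end Cfsg.Agent.Lib.H49UStageD
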