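import Cfsg.Agent.Lib.Helper49UDefs
import Cfsg.Agent.Lib.H49UStageA
import Cfsg.Agent.Lib.H49UStage2bO
import Cfsg.Agent.Lib.H49UStageD
import Cfsg.Agent.Lib.H49USing

/-!
# PROJECT 51 (Sp x O, part T2), piece `HK`
-/

set_option autoImplicit false
set_option linter.unusedSectionVars false
set_option linter.unusedVariables false

namespace Cfsg.Agent.Lib.H49UHK

open scoped Matrix Kronecker
open Matrix Cfsg.Agent.Lib.Helper49TDefs Cfsg.Agent.Lib.Helper49SDefs Cfsg.Agent.Lib.Helper49ODefs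
  Cfsg.Agent.Lib.Helper49UDefs
open Cfsg.Agent.Lib.H49UStageA
open Cfsg.Agent.Lib.H49UStage2bO
open Cfsg.Agent.Lib.H49UStageD
open Cfsg.Agent.Lib.H49USing

variable {F : Type*} [Field F] {a b n : ℕ}

local notation "GLn" => Matrix.GeneralLinearGroup (Fin a × Fin b) F
local notation "Mn" => Matrix (Fin a × Fin b) (Fin a × Fin b) F
local notation "Ma" => Matrix (Fin a) (Fin a) F
local notation "Mb" => Matrix (Fin b) (Fin b) F
local notation "GLa" => Matrix.GeneralLinearGroup (Fin a) F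
local notation "GLb" => Matrix.GeneralLinearGroup (Fin b) F

/-- assembly.  `stageA`, then for `e ⊥ c`: `stage2bO` gives `t(x ⊗ e) = αx ⊗ e' + κx ⊗ c`, with `f₂(e',c) = 0` because
`t(x ⊗ e) ∈ V₁ ⊗ c^⊥` (`L.perp`, `ctr`).  `e` nonsingular: `stageD`, `e₁ = e' + k c`.  `e` singular: `w ⊥ c` nonsingular
(`exists_ns_perp`); `e + w` or `e - w` is nonsingular (else `f₂(w,w) = 0`), and `e = (e ± w) ∓ w`. -/
theorem hK_or_hasZ (D : SoDat F a b) (ha2 : a = 2) (hb : 3 ≤ b) (H : Subgroup GLn)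
    (hMH : KS a b F ⊓ SG D ≤ H) (hH : H ≤ SG D) {t : GLn} (ht : t ∈ H) {c : Fin b → F}
    (hc : c ≠ 0) (hs : bf D.J₂ c c = 0) {α β : Ma} (L : LayO D t c α β) :
    HasZ D H ∨ ∀ e, bf D.J₂ e c = 0 → ∃ e₁, bf D.J₂ e₁ c = 0 ∧
      ∀ x, (t : Mn) *ᵥ tens x e = tens (α *ᵥ x) e₁ := by
  classical
  by_cases hZ : HasZ D H
  · exact Or.inl hZ
  right
  have ha : 0 < a := by omega
  have hA := (stageA D ha2 H hMH hH ht hc hs L).resolve_left hZ
  have hβα : β * α = 1 := mul_eq_one_comm.1 L.inv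
  -- a vector with `α x₀ ≠ 0`
  obtain ⟨x₀, hx₀⟩ : ∃ x₀ : Fin a → F, α *ᵥ x₀ ≠ 0 := by
    refine ⟨Pi.single ⟨0, ha⟩ 1, fun h0 => ?_⟩
    have h1 : β *ᵥ (α *ᵥ (Pi.single ⟨0, ha⟩ 1 : Fin a → F)) = 0 := by
      rw [h0, Matrix.mulVec_zero]
    rw [Matrix.mulVec_mulVec, hβα, Matrix.one_mulVec] at h1
    have := congrFun h1 ⟨0, ha⟩
    simp at this
  -- the nonsingular case
  have hNS : ∀ e, bf D.J₂ e c = 0 → bf D.J₂ e e ≠ 0 → ∃ e₁, bf D.J₂ e₁ c = 0 ∧
      ∀ x, (t : Mn) *ᵥ tens x e = tens (α *ᵥ x) e₁ := by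
    intro e he hne
    obtain ⟨e', κ, hte⟩ := stage2bO D ha (t : Mn) hc L.inv e (fun e'' he'' => hA e'' e he'' he)
    have he' : bf D.J₂ e' c = 0 := by
      have h1 := L.perp _ (tens_mem_tsub_perpS he x₀)
      rw [mem_tsub_perpS_iff, hte, ctr_add, ctr_J_tens, ctr_J_tens, hs, zero_smul, add_zero] at h1
      rcases smul_eq_zero.mp h1 with h2 | h2
      · exact h2
      · exact absurd h2 hx₀
    obtain ⟨k, hk⟩ := (stageD D ha2 H hMH hH ht hc hs L he hne he' hte).resolve_left hZ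
    refine ⟨e' + k • c, by rw [bf_add_left, bf_smul_left, he', hs]; simp, fun x => ?_⟩
    rw [hte, hk, Matrix.smul_mulVec, tens_add_right, tens_smul_right, tens_smul_left]
  intro e he
  by_cases hne : bf D.J₂ e e = 0
  · obtain ⟨w, hw, hww⟩ := exists_ns_perp D.h₂ D.two hb hc hs
    obtain ⟨e₂, he₂, hte₂⟩ := hNS w hw hww
    by_cases hp : bf D.J₂ (e + w) (e + w) = 0
    · have hm : bf D.J₂ (e - w) (e - w) ≠ 0 := by
        intro hm
        apply hww
        simp only [bf_add_left, bf_add_right, bf_sub_left, bf_sub_right, hne] at hp hm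
        have h2 : (2 : F) * bf D.J₂ w w = 0 := by linear_combination hp + hm
        exact (mul_eq_zero.mp h2).resolve_left D.two
      obtain ⟨e₁, he₁, hte₁⟩ := hNS (e - w) (by rw [bf_sub_left, he, hw, sub_zero]) hm
      refine ⟨e₁ + e₂, by rw [bf_add_left, he₁, he₂, add_zero], fun x => ?_⟩
      have h1 : tens x e = tens x (e - w) + tens x w := by
        rw [← tens_add_right, sub_add_cancel]
      rw [h1, Matrix.mulVec_add, hte₁, hte₂, tens_add_right]
    · obtain ⟨e₁, he₁, hte₁⟩ := hNS (e + w) (by rw [bf_add_left, he, hw, add_zero]) hp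
      refine ⟨e₁ - e₂, by rw [bf_sub_left, he₁, he₂, sub_zero], fun x => ?_⟩
      have h1 : tens x e = tens x (e + w) - tens x w := by
        rw [tens_add_right, add_sub_cancel_right]
      have h2 : tens (α *ᵥ x) e₁ = tens (α *ᵥ x) (e₁ - e₂) + tens (α *ᵥ x) e₂ := by
        rw [← tens_add_right, sub_add_cancel]
      rw [h1, Matrix.mulVec_sub, hte₁, hte₂, h2, add_sub_cancel_right]
  · exact hNS e he hne

end Cfsg.Agent.Lib.H49UHK
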