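import Cfsg.Agent.Lib.Helper49UDefs

/-!
# PROJECT 51 (Sp x O, part T2), piece `KY1`
-/

set_option autoImplicit false
set_option linter.unusedSectionVars false
set_option linter.unusedVariables false

namespace Cfsg.Agent.Lib.H49UKY1

open scoped Matrix Kronecker
open Matrix Cfsg.Agent.Lib.Helper49TDefs Cfsg.Agent.Lib.Helper49SDefs Cfsg.Agent.Lib.Helper49ODefs
  Cfsg.Agent.Lib.Helper49UDefs

variable {F : Type*} [Field F] {a b n : ℕ}

local notation "GLn" => Matrix.GeneralLinearGroup (Fin a × Fin b) F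
local notation "Mn" => Matrix (Fin a × Fin b) (Fin a × Fin b) F
local notation "Ma" => Matrix (Fin a) (Fin a) F
local notation "Mb" => Matrix (Fin b) (Fin b) F
local notation "GLa" => Matrix.GeneralLinearGroup (Fin a) F
local notation "GLb" => Matrix.GeneralLinearGroup (Fin b) F

/-- linearity (read a coordinate `j` with `c' j ≠ 0`; if `c' = 0` take `α = 0`) -/
theorem exists_alpha (g : Mn) (c c' : Fin b → F) (h : ∀ x, ∃ x', g *ᵥ tens x c = tens x' c') :
    ∃ α : Ma, ∀ x, g *ᵥ tens x c = tens (α *ᵥ x) c' := by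
  by_cases hc' : c' = 0
  · refine ⟨0, fun x => ?_⟩
    obtain ⟨x', hx'⟩ := h x
    rw [hx', hc']
    simp
  · obtain ⟨j, hj⟩ := Function.ne_iff.1 hc'
    have hj' : c' j ≠ 0 := hj
    -- the linear map `x ↦ (c' j)⁻¹ • (i ↦ (g (x ⊗ c)) (i, j))`
    let L : (Fin a → F) →ₗ[F] (Fin a → F) :=
      { toFun := fun x i => (c' j)⁻¹ * (g *ᵥ tens x c) (i, j)
        map_add' := by
          intro x y
          funext i
          simp only [tens_add_left, Matrix.mulVec_add, Pi.add_apply]
          ring
        map_smul' := by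
          intro k x
          funext i
          simp only [tens_smul_left, Matrix.mulVec_smul, Pi.smul_apply, smul_eq_mul, RingHom.id_apply]
          ring }
    refine ⟨LinearMap.toMatrix' L, fun x => ?_⟩
    obtain ⟨x', hx'⟩ := h x
    have h1 : LinearMap.toMatrix' L *ᵥ x = x' := by
      rw [← Matrix.toLin'_apply, Matrix.toLin'_toMatrix']
      funext i
      show (c' j)⁻¹ * (g *ᵥ tens x c) (i, j) = x' i
      rw [hx']
      show (c' j)⁻¹ * (x' i * c' j) = x' i
      field_simp
    rw [h1, hx']

end Cfsg.Agent.Lib.H49UKY1
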