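import Cfsg.Agent.Lib.Helper49UDefs
import Cfsg.Agent.Lib.H49UKY1
import Cfsg.Agent.Lib.H49USing
import Cfsg.Agent.Lib.H49SGeo

/-!
# PROJECT 51 (Sp x O, part T2), piece `KY2`
-/

set_option autoImplicit false
set_option linter.unusedSectionVars false
set_option linter.unusedVariables false

namespace Cfsg.Agent.Lib.H49UKY2

open scoped Matrix Kronecker
open Matrix Cfsg.Agent.Lib.Helper49TDefs Cfsg.Agent.Lib.Helper49SDefs Cfsg.Agent.Lib.Helper49ODefs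
  Cfsg.Agent.Lib.Helper49UDefs
open Cfsg.Agent.Lib.H49UKY1
open Cfsg.Agent.Lib.H49USing
open Cfsg.Agent.Lib.H49SGeo

variable {F : Type*} [Field F] {a b n : ℕ}

local notation "GLn" => Matrix.GeneralLinearGroup (Fin a × Fin b) F
local notation "Mn" => Matrix (Fin a × Fin b) (Fin a × Fin b) F
local notation "Ma" => Matrix (Fin a) (Fin a) F
local notation "Mb" => Matrix (Fin b) (Fin b) F
local notation "GLa" => Matrix.GeneralLinearGroup (Fin a) F
local notation "GLb" => Matrix.GeneralLinearGroup (Fin b) F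

/-- a nonsingular vector orthogonal to the hyperbolic-like plane `⟨c, x⟩` -/
theorem exists_perp_ns {J : Matrix (Fin n) (Fin n) F} (hJ : IsSymmMat J) (h2 : (2 : F) ≠ 0) (hn : 3 ≤ n)
    {c x : Fin n → F} (hx : bf J x x = 0) (hcx : bf J c x ≠ 0) :
    ∃ d, bf J d d ≠ 0 ∧ bf J d c = 0 ∧ bf J d x = 0 := by
  classical
  by_contra hcon
  push Not at hcon
  have hxc : bf J x c = bf J c x := hJ.symm x c
  have hpol : ∀ d d', bf J d c = 0 → bf J d x = 0 → bf J d' c = 0 → bf J d' x = 0 → bf J d d' = 0 := by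
    intro d d' h1 h2' h3 h4
    have e1 : bf J d d = 0 := by
      by_contra h
      exact hcon d h h1 h2'
    have e2 : bf J d' d' = 0 := by
      by_contra h
      exact hcon d' h h3 h4
    have e3 : bf J (d + d') (d + d') = 0 := by
      by_contra h
      exact hcon (d + d') h (by rw [bf_add_left, h1, h3, add_zero]) (by rw [bf_add_left, h2', h4, add_zero])
    simp only [bf_add_left, bf_add_right, e1, e2, hJ.symm d' d] at e3
    have : 2 * bf J d d' = 0 := by linear_combination e3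
    exact (mul_eq_zero.mp this).resolve_left h2
  set β := bf J c x with hβ
  let A : (Fin n → F) → F := fun v => bf J v x / β
  let B : (Fin n → F) → F := fun v => (bf J v c - bf J c c * bf J v x / β) / β
  let π : (Fin n → F) → (Fin n → F) := fun v => v - A v • c - B v • x
  have hπx : ∀ v, bf J (π v) x = 0 := by
    intro v
    simp only [π, A, B, bf_sub_left, bf_smul_left, hx, ← hβ]
    field_simp
    ring
  have hπc : ∀ v, bf J (π v) c = 0 := by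
    intro v
    simp only [π, A, B, bf_sub_left, bf_smul_left, hxc]
    field_simp
    ring
  have hπ0 : ∀ v, π v = 0 := by
    intro v
    apply hJ.eq_zero_of_right
    intro w
    rw [hJ.symm]
    have hw : w = π w + (A w • c + B w • x) := by
      simp only [π]
      abel
    rw [hw, bf_add_right, bf_add_right, bf_smul_right, bf_smul_right, hπc, hπx,
      hpol _ _ (hπc v) (hπx v) (hπc w) (hπx w)]
    ring
  have hspan : (⊤ : Submodule F (Fin n → F)) ≤ Submodule.span F (({c, x} : Finset (Fin n → F)) : Set (Fin n → F)) := by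
    intro v _
    rw [Finset.coe_pair, Submodule.mem_span_pair]
    refine ⟨A v, B v, ?_⟩
    have := hπ0 v
    simp only [π] at this
    have h3 : v = A v • c + B v • x := by
      have h4 : v - A v • c - B v • x + (A v • c + B v • x) = v := by abel
      rw [this, zero_add] at h4
      exact h4.symm
    exact h3.symm
  have h5 := Submodule.finrank_mono hspan
  rw [finrank_top, Module.finrank_fin_fun] at h5
  have h6 := finrank_span_finset_le_card (R := F) ({c, x} : Finset (Fin n → F))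
  unfold Set.finrank at h6
  have h7 : ({c, x} : Finset (Fin n → F)).card ≤ 2 := Finset.card_le_two
  omega

/-- a functional separating `p` from `⟨q, r⟩` -/
theorem exists_dual_vec {p q r : Fin n → F} (h : p ∉ Submodule.span F ({q, r} : Set (Fin n → F))) :
    ∃ φ : Fin n → F, p ⬝ᵥ φ ≠ 0 ∧ q ⬝ᵥ φ = 0 ∧ r ⬝ᵥ φ = 0 := by
  classical
  obtain ⟨f, hf, hf'⟩ := Submodule.exists_dual_map_eq_bot_of_notMem h inferInstance
  have hrep : ∀ v : Fin n → F, f v = v ⬝ᵥ (fun j => f (Pi.single j 1)) := by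
    intro v
    rw [LinearMap.pi_apply_eq_sum_univ f v, dotProduct]
    refine Finset.sum_congr rfl fun i _ => ?_
    rw [smul_eq_mul]
    congr 2
    ext j
    simp [Pi.single_apply, eq_comm]
  have hz : ∀ v ∈ Submodule.span F ({q, r} : Set (Fin n → F)), f v = 0 := by
    intro v hv
    have : f v ∈ (Submodule.span F ({q, r} : Set (Fin n → F))).map f := ⟨v, hv, rfl⟩
    rw [hf'] at this
    exact this
  refine ⟨fun j => f (Pi.single j 1), ?_, ?_, ?_⟩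
  · rw [← hrep]; exact hf
  · rw [← hrep]; exact hz _ (Submodule.subset_span (by simp))
  · rw [← hrep]; exact hz _ (Submodule.subset_span (by simp))

theorem g_inj (g : GLn) {v w : Fin a × Fin b → F} (h : (g : Mn) *ᵥ v = (g : Mn) *ᵥ w) : v = w := by
  have h1 := congrArg (fun z => ((g⁻¹ : GLn) : Mn) *ᵥ z) h
  simp only [Matrix.mulVec_mulVec, ← Units.val_mul, inv_mul_cancel, Units.val_one,
    Matrix.one_mulVec] at h1
  exact h1

/-- the coefficient matrices are onto -/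
theorem alpha_surj (g : GLn) {c c' : Fin b → F} (hc : c ≠ 0) {α : Ma}
    (hα : ∀ x, (g : Mn) *ᵥ tens x c = tens (α *ᵥ x) c') : Function.Surjective α.mulVec := by
  rw [Matrix.mulVec_surjective_iff_isUnit, ← Matrix.mulVec_injective_iff_isUnit]
  intro x y hxy
  have h1 : (g : Mn) *ᵥ tens x c = (g : Mn) *ᵥ tens y c := by
    rw [hα, hα]
    show tens (α.mulVec x) c' = tens (α.mulVec y) c'
    rw [hxy]
  exact tens_left_inj hc (g_inj g h1)

/-- independence is transported by `g` -/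
theorem not_mem_span (J : Mb) (ha : 0 < a) (g : GLn) {d₁ d₂ d₃ d₁' d₂' d₃' z : Fin b → F} {A₁ A₂ A₃ : Ma}
    (h₁ : ∀ x, (g : Mn) *ᵥ tens x d₁ = tens (A₁ *ᵥ x) d₁')
    (h₂ : ∀ x, (g : Mn) *ᵥ tens x d₂ = tens (A₂ *ᵥ x) d₂')
    (h₃ : ∀ x, (g : Mn) *ᵥ tens x d₃ = tens (A₃ *ᵥ x) d₃')
    (hd₂ : d₂ ≠ 0) (hd₃ : d₃ ≠ 0)
    (hz₁ : bf J d₁ z ≠ 0) (hz₂ : bf J d₂ z = 0) (hz₃ : bf J d₃ z = 0) :
    d₁' ∉ Submodule.span F ({d₂', d₃'} : Set (Fin b → F)) := by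
  classical
  intro hmem
  rw [Submodule.mem_span_pair] at hmem
  obtain ⟨r₂, r₃, hr⟩ := hmem
  let x : Fin a → F := Pi.single ⟨0, ha⟩ 1
  have hx : x ≠ 0 := by
    intro h
    have := congrFun h ⟨0, ha⟩
    simp [x] at this
  obtain ⟨y₂, hy₂⟩ := alpha_surj g hd₂ h₂ (A₁ *ᵥ x)
  obtain ⟨y₃, hy₃⟩ := alpha_surj g hd₃ h₃ (A₁ *ᵥ x)
  have e1 : (g : Mn) *ᵥ tens x d₁ = (g : Mn) *ᵥ (r₂ • tens y₂ d₂ + r₃ • tens y₃ d₃) := by
    rw [Matrix.mulVec_add, Matrix.mulVec_smul, Matrix.mulVec_smul, h₁, h₂, h₃, ← hr]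
    show _ = r₂ • tens (A₂.mulVec y₂) d₂' + r₃ • tens (A₃.mulVec y₃) d₃'
    rw [hy₂, hy₃, tens_add_right, tens_smul_right, tens_smul_right]
  have e2 := g_inj g e1
  have e3 := congrArg (ctr (J *ᵥ z)) e2
  rw [ctr_add, ctr_smul, ctr_smul, ctr_J_tens, ctr_J_tens, ctr_J_tens, hz₂, hz₃, zero_smul,
    zero_smul, smul_zero, smul_zero, add_zero] at e3
  exact hx ((smul_eq_zero.mp e3).resolve_left hz₁)

theorem alpha_hyp [Fintype F] (D : SoDat F a b) (ha : 0 < a) (hb : 3 ≤ b) (g : GLn)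
    (h : ∀ c, bf D.J₂ c c = 0 → ∃ c', ∀ x, ∃ x', (g : Mn) *ᵥ tens x c = tens x' c')
    {c₁ c₂ c₁' : Fin b → F} (h₁ : bf D.J₂ c₁ c₁ = 0) (h₂ : bf D.J₂ c₂ c₂ = 0)
    (h12 : bf D.J₂ c₁ c₂ ≠ 0) (α : Ma) (hα : ∀ x, (g : Mn) *ᵥ tens x c₁ = tens (α *ᵥ x) c₁') :
    ∃ c₂'', ∀ x, (g : Mn) *ᵥ tens x c₂ = tens (α *ᵥ x) c₂'' := by
  classical
  have hsym := D.h₂.symm
  obtain ⟨e, hee, hec₁, hec₂⟩ := exists_perp_ns D.h₂ D.two hb h₂ h12
  set β := bf D.J₂ c₁ c₂ with hβ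
  set q := bf D.J₂ e e with hq
  have h21 : bf D.J₂ c₂ c₁ = β := hsym c₂ c₁
  have hc₁e : bf D.J₂ c₁ e = 0 := by rw [hsym]; exact hec₁
  have hc₂e : bf D.J₂ c₂ e = 0 := by rw [hsym]; exact hec₂
  have h2 := D.two
  let l : F := - q / (2 * β)
  have hl : l ≠ 0 := div_ne_zero (neg_ne_zero.mpr hee) (mul_ne_zero h2 h12)
  let c₃ : Fin b → F := c₁ + l • c₂ + e
  let c₄ : Fin b → F := c₁ + l • c₂ - e
  have hs₃ : bf D.J₂ c₃ c₃ = 0 := by
    simp only [c₃, bf_add_left, bf_add_right, bf_smul_left, bf_smul_right, h₁, h₂, h21, ← hβ, hec₁,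
      hec₂, hc₁e, hc₂e, ← hq, l]
    field_simp
    ring
  have hs₄ : bf D.J₂ c₄ c₄ = 0 := by
    simp only [c₄, bf_add_left, bf_add_right, bf_sub_left, bf_sub_right, bf_smul_left, bf_smul_right,
      h₁, h₂, h21, ← hβ, hec₁, hec₂, hc₁e, hc₂e, ← hq, l]
    field_simp
    ring
  obtain ⟨c₂', hc₂'⟩ := h c₂ h₂
  obtain ⟨c₃', hc₃'⟩ := h c₃ hs₃
  obtain ⟨c₄', hc₄'⟩ := h c₄ hs₄
  obtain ⟨α₂, hα₂⟩ := exists_alpha (g : Mn) c₂ c₂' hc₂'
  obtain ⟨α₃, hα₃⟩ := exists_alpha (g : Mn) c₃ c₃' hc₃'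
  obtain ⟨α₄, hα₄⟩ := exists_alpha (g : Mn) c₄ c₄' hc₄'
  have hc₁0 : c₁ ≠ 0 := by
    intro h0
    apply h12
    rw [hβ, h0, bf_zero_left]
  have hc₂0 : c₂ ≠ 0 := by
    intro h0
    apply h12
    rw [hβ, h0, bf_zero_right]
  have hc₃e : bf D.J₂ c₃ e = q := by
    simp only [c₃, bf_add_left, bf_smul_left, hc₁e, hc₂e, ← hq]
    ring
  have hc₃0 : c₃ ≠ 0 := by
    intro h0
    rw [h0] at hc₃e
    simp at hc₃e
    exact hee hc₃e.symm
  -- independence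
  have hi₁ : c₁' ∉ Submodule.span F ({c₂', c₃'} : Set (Fin b → F)) :=
    not_mem_span D.J₂ ha g (z := q • c₂ - β • e) hα hα₂ hα₃ hc₂0 hc₃0
      (by
        simp only [bf_sub_right, bf_smul_right, ← hβ, hc₁e, mul_zero, sub_zero]
        exact mul_ne_zero hee h12)
      (by simp only [bf_sub_right, bf_smul_right, h₂, hc₂e, mul_zero, sub_zero])
      (by
        simp only [c₃, bf_add_left, bf_smul_left, bf_sub_right, bf_smul_right, ← hβ, h₂, hc₁e, hc₂e,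
          hec₂, ← hq]
        ring)
  have hi₂ : c₂' ∉ Submodule.span F ({c₁', c₃'} : Set (Fin b → F)) :=
    not_mem_span D.J₂ ha g (z := q • c₁ - (l * β) • e) hα₂ hα hα₃ hc₁0 hc₃0
      (by
        simp only [bf_sub_right, bf_smul_right, h21, hc₂e, mul_zero, sub_zero]
        exact mul_ne_zero hee h12)
      (by simp only [bf_sub_right, bf_smul_right, h₁, hc₁e, mul_zero, sub_zero])
      (by
        simp only [c₃, bf_add_left, bf_smul_left, bf_sub_right, bf_smul_right, h21, h₁, hc₁e, hc₂e,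
          hec₁, ← hq]
        ring)
  obtain ⟨φ, hφ₁, hφ₂, hφ₃⟩ := exists_dual_vec hi₁
  obtain ⟨ψ, hψ₂, hψ₁, hψ₃⟩ := exists_dual_vec hi₂
  -- the relation
  have hrel : ∀ x, tens (α₄ *ᵥ x) c₄' =
      (2 : F) • tens (α *ᵥ x) c₁' + (2 * l) • tens (α₂ *ᵥ x) c₂' - tens (α₃ *ᵥ x) c₃' := by
    intro x
    rw [← hα₄, ← hα, ← hα₂, ← hα₃, ← Matrix.mulVec_smul, ← Matrix.mulVec_smul, ← Matrix.mulVec_add,
      ← Matrix.mulVec_sub]
    congr 1
    simp only [c₃, c₄, tens_add_right, tens_smul_right, sub_eq_add_neg]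
    have : tens x (-e) = - tens x e := by
      have := tens_smul_right (-1 : F) x e
      simpa using this
    rw [this]
    module
  have hA : ∀ x, (c₄' ⬝ᵥ φ) • (α₄ *ᵥ x) = (2 * (c₁' ⬝ᵥ φ)) • (α *ᵥ x) := by
    intro x
    have := congrArg (ctr φ) (hrel x)
    rw [ctr_sub, ctr_add, ctr_smul, ctr_smul, ctr_tens, ctr_tens, ctr_tens, ctr_tens, hφ₂, hφ₃,
      zero_smul, zero_smul, smul_zero, add_zero, sub_zero, smul_smul] at this
    exact this
  have hB : ∀ x, (c₄' ⬝ᵥ ψ) • (α₄ *ᵥ x) = (2 * l * (c₂' ⬝ᵥ ψ)) • (α₂ *ᵥ x) := by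
    intro x
    have := congrArg (ctr ψ) (hrel x)
    rw [ctr_sub, ctr_add, ctr_smul, ctr_smul, ctr_tens, ctr_tens, ctr_tens, ctr_tens, hψ₁, hψ₃,
      zero_smul, zero_smul, smul_zero, zero_add, sub_zero, smul_smul] at this
    exact this
  -- `c₄' ⬝ᵥ φ ≠ 0`
  have hμ : c₄' ⬝ᵥ φ ≠ 0 := by
    intro h0
    let x : Fin a → F := Pi.single ⟨0, ha⟩ 1
    have hx : x ≠ 0 := by
      intro h
      have := congrFun h ⟨0, ha⟩
      simp [x] at this
    have h3 := hA x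
    rw [h0, zero_smul] at h3
    have h4 : α *ᵥ x = 0 := (smul_eq_zero.mp h3.symm).resolve_left (mul_ne_zero h2 hφ₁)
    have h5 : (g : Mn) *ᵥ tens x c₁ = (g : Mn) *ᵥ 0 := by
      rw [hα, h4, Matrix.mulVec_zero, tens_zero_left']
    exact tens_ne_zero hx hc₁0 (g_inj g h5)
  have hden : 2 * l * (c₂' ⬝ᵥ ψ) ≠ 0 := mul_ne_zero (mul_ne_zero h2 hl) hψ₂
  refine ⟨((2 * l * (c₂' ⬝ᵥ ψ))⁻¹ * (c₄' ⬝ᵥ ψ) * ((c₄' ⬝ᵥ φ)⁻¹ * (2 * (c₁' ⬝ᵥ φ)))) • c₂', fun x => ?_⟩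
  have h6 : α₄ *ᵥ x = ((c₄' ⬝ᵥ φ)⁻¹ * (2 * (c₁' ⬝ᵥ φ))) • (α *ᵥ x) := by
    rw [mul_smul, ← hA, smul_smul, inv_mul_cancel₀ hμ, one_smul]
  have h7 : α₂ *ᵥ x = ((2 * l * (c₂' ⬝ᵥ ψ))⁻¹ * (c₄' ⬝ᵥ ψ)) • (α₄ *ᵥ x) := by
    rw [mul_smul, hB, smul_smul, inv_mul_cancel₀ hden, one_smul]
  rw [hα₂, h7, h6, smul_smul, tens_smul_left, tens_smul_right]

end Cfsg.Agent.Lib.H49UKY2
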