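import Cfsg.Agent.Lib.Helper96KDefs

/-!
PROJECT 196 (TKL), piece Calc.  See notes/helper96/K/README.md.
-/

set_option autoImplicit false
set_option linter.unusedSectionVars false
set_option linter.unusedVariables false
set_option linter.unusedSimpArgs false

namespace Cfsg.Agent.Lib.H96KCalc

open scoped Matrix Kronecker
open Matrix Polynomial Cfsg.Agent.Lib.Helper49TDefs Cfsg.Agent.Lib.Helper49SDefs Cfsg.Agent.Lib.Helper96KDefs


variable {F : Type*} [Field F] {a b n : ℕ}

local notation "Mn" => Matrix (Fin a × Fin b) (Fin a × Fin b) F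
local notation "GLn" => Matrix.GeneralLinearGroup (Fin a × Fin b) F
local notation "Mb" => Matrix (Fin b) (Fin b) F
local notation "Ma" => Matrix (Fin a) (Fin a) F

/-! calculus of the rectangular matrices `iota u` (`y ↦ u ⊗ y`) and `con φ` (`x ⊗ y ↦ (φ ⬝ x) y`). -/

theorem iota_mulVec (u : Fin a → F) (y : Fin b → F) :
    (iota u : Matrix (Fin a × Fin b) (Fin b) F) *ᵥ y = tens u y := by
  ext ⟨s, i⟩
  simp [iota, Matrix.mulVec, dotProduct, tens]

theorem con_mulVec_tens (φ x : Fin a → F) (y : Fin b → F) :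
    (con φ : Matrix (Fin b) (Fin a × Fin b) F) *ᵥ tens x y = (φ ⬝ᵥ x) • y := by
  ext i
  simp only [con, Matrix.mulVec, dotProduct, tens, Matrix.of_apply, Fintype.sum_prod_type, ite_mul, zero_mul,
    Finset.sum_ite_eq, Finset.mem_univ, if_true, Pi.smul_apply, smul_eq_mul, Finset.sum_mul]
  refine Finset.sum_congr rfl fun s _ => ?_
  ring

theorem iota_mul_con (u φ : Fin a → F) (σ : Mb) :
    (iota u : Matrix (Fin a × Fin b) (Fin b) F) * σ * (con φ : Matrix (Fin b) (Fin a × Fin b) F)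
      = Matrix.vecMulVec u φ ⊗ₖ σ := by
  ext ⟨s, i⟩ ⟨s', j⟩
  simp only [iota, con, Matrix.mul_apply, Matrix.of_apply, ite_mul, zero_mul, mul_ite, mul_zero,
    Finset.sum_ite_eq, Finset.sum_ite_eq', Finset.mem_univ, if_true, Matrix.kroneckerMap_apply,
    Matrix.vecMulVec_apply]
  ring

theorem con_mul_iota (φ u : Fin a → F) :
    (con φ : Matrix (Fin b) (Fin a × Fin b) F) * (iota u : Matrix (Fin a × Fin b) (Fin b) F)
      = (φ ⬝ᵥ u) • (1 : Mb) := by
  ext i j
  simp only [iota, con, Matrix.mul_apply, Matrix.of_apply, Fintype.sum_prod_type, ite_mul, zero_mul,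
    Finset.sum_ite_eq, Finset.mem_univ, if_true, Matrix.smul_apply, Matrix.one_apply, smul_eq_mul,
    dotProduct, mul_ite, mul_zero, mul_one]
  by_cases h : i = j
  · simp [h]
  · simp [h]

theorem kron_mul_iota (A : Ma) (B : Mb) (u : Fin a → F) :
    (A ⊗ₖ B) * (iota u : Matrix (Fin a × Fin b) (Fin b) F) = (iota (A *ᵥ u) : Matrix (Fin a × Fin b) (Fin b) F) * B := by
  ext ⟨s, i⟩ j
  simp only [iota, Matrix.mul_apply, Matrix.of_apply, Fintype.sum_prod_type, ite_mul, zero_mul,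
    Finset.sum_ite_eq, Finset.sum_ite_eq', Finset.mem_univ, if_true, mul_ite, mul_zero, Matrix.kroneckerMap_apply,
    Matrix.mulVec, dotProduct, Finset.sum_mul]
  refine Finset.sum_congr rfl fun s' _ => ?_
  ring

theorem con_mul_kron (φ : Fin a → F) (A : Ma) (B : Mb) :
    (con φ : Matrix (Fin b) (Fin a × Fin b) F) * (A ⊗ₖ B) = B * (con (φ ᵥ* A) : Matrix (Fin b) (Fin a × Fin b) F) := by
  ext i ⟨s, j⟩
  simp only [con, Matrix.mul_apply, Matrix.of_apply, Fintype.sum_prod_type, ite_mul, zero_mul,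
    Finset.sum_ite_eq, Finset.sum_ite_eq', Finset.mem_univ, if_true, mul_ite, mul_zero, Matrix.kroneckerMap_apply,
    Matrix.vecMul, dotProduct, Finset.mul_sum]
  refine Finset.sum_congr rfl fun s' _ => ?_
  ring

theorem con_transpose (φ : Fin a → F) :
    (con φ : Matrix (Fin b) (Fin a × Fin b) F)ᵀ = (iota φ : Matrix (Fin a × Fin b) (Fin b) F) := by
  ext ⟨s, i⟩ j
  simp only [con, iota, Matrix.transpose_apply, Matrix.of_apply, eq_comm]

theorem iota_add (u u' : Fin a → F) :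
    (iota (u + u') : Matrix (Fin a × Fin b) (Fin b) F) = iota u + iota u' := by
  ext ⟨s, i⟩ j
  simp only [iota, Matrix.of_apply, Matrix.add_apply, Pi.add_apply]
  split_ifs <;> simp

theorem iota_smul (k : F) (u : Fin a → F) :
    (iota (k • u) : Matrix (Fin a × Fin b) (Fin b) F) = k • iota u := by
  ext ⟨s, i⟩ j
  simp only [iota, Matrix.of_apply, Matrix.smul_apply, Pi.smul_apply, smul_eq_mul]
  split_ifs <;> simp

theorem con_add (u u' : Fin a → F) :
    (con (u + u') : Matrix (Fin b) (Fin a × Fin b) F) = con u + con u' := by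
  ext i ⟨s, j⟩
  simp only [con, Matrix.of_apply, Matrix.add_apply, Pi.add_apply]
  split_ifs <;> simp

theorem con_smul (k : F) (u : Fin a → F) :
    (con (k • u) : Matrix (Fin b) (Fin a × Fin b) F) = k • con u := by
  ext i ⟨s, j⟩
  simp only [con, Matrix.of_apply, Matrix.smul_apply, Pi.smul_apply, smul_eq_mul]
  split_ifs <;> simp

theorem GB_add_left (X : Mn) (ξ ξ' η : Fin a → F) : GB X (ξ + ξ') η = GB X ξ η + GB X ξ' η := by
  simp only [GB, con_add, Matrix.add_mul]

theorem GB_add_right (X : Mn) (ξ η η' : Fin a → F) : GB X ξ (η + η') = GB X ξ η + GB X ξ η' := by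
  simp only [GB, iota_add, Matrix.mul_add]

theorem GB_smul_left (X : Mn) (k : F) (ξ η : Fin a → F) : GB X (k • ξ) η = k • GB X ξ η := by
  simp only [GB, con_smul, Matrix.smul_mul]

theorem GB_smul_right (X : Mn) (k : F) (ξ η : Fin a → F) : GB X ξ (k • η) = k • GB X ξ η := by
  simp only [GB, iota_smul, Matrix.mul_smul]

theorem GB_kron (A : Ma) (B : Mb) (ξ η : Fin a → F) : GB (A ⊗ₖ B) ξ η = (ξ ⬝ᵥ A *ᵥ η) • B := by
  rw [GB, Matrix.mul_assoc, kron_mul_iota, ← Matrix.mul_assoc, con_mul_iota, Matrix.smul_mul, Matrix.one_mul]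

theorem GB_mulVec (X : Mn) (ξ η : Fin a → F) (y : Fin b → F) :
    GB X ξ η *ᵥ y = (con ξ : Matrix (Fin b) (Fin a × Fin b) F) *ᵥ (X *ᵥ tens η y) := by
  rw [GB, ← Matrix.mulVec_mulVec, ← Matrix.mulVec_mulVec, iota_mulVec]

/-- the entries of the generalised blocks at the standard basis vectors are the entries of `X` -/
theorem GB_single (X : Mn) (s s' : Fin a) (i j : Fin b) :
    GB X (Pi.single s 1) (Pi.single s' 1) i j = X (s, i) (s', j) := by
  simp only [GB, iota, con, Matrix.mul_apply, Matrix.of_apply, Fintype.sum_prod_type, ite_mul, zero_mul,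
    Finset.sum_ite_eq, Finset.sum_ite_eq', Finset.mem_univ, if_true, mul_ite, mul_zero, Pi.single_apply,
    one_mul, mul_one]

/-- if all generalised blocks are multiples of `B`, then `X = A ⊗ B` -/
theorem eq_kron_of_GB (X : Mn) (B : Mb) (h : ∀ ξ η, ∃ k : F, GB X ξ η = k • B) : ∃ A : Ma, X = A ⊗ₖ B := by
  choose k hk using h
  refine ⟨Matrix.of fun s s' => k (Pi.single s 1) (Pi.single s' 1), ?_⟩
  ext ⟨s, i⟩ ⟨s', j⟩
  rw [← GB_single X s s' i j, hk]
  simp [Matrix.kroneckerMap_apply]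

theorem Tu_kron (D : TDat F a b) (u : Fin a → F) (σ : Mb) :
    NJ D.J₁ u u ⊗ₖ σ = (iota u : Matrix (Fin a × Fin b) (Fin b) F) * σ *
      (con (D.J₁ *ᵥ u) : Matrix (Fin b) (Fin a × Fin b) F) := by
  rw [iota_mul_con]
  rfl

/-- `con ξ` is onto when `ξ ≠ 0` -/
theorem con_surj {ξ : Fin a → F} (hξ : ξ ≠ 0) (w : Fin b → F) :
    ∃ v : Fin a × Fin b → F, (con ξ : Matrix (Fin b) (Fin a × Fin b) F) *ᵥ v = w := by
  obtain ⟨s, hs⟩ : ∃ s, ξ s ≠ 0 := by
    by_contra hcon
    push Not at hcon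
    exact hξ (funext hcon)
  refine ⟨tens (Pi.single s (ξ s)⁻¹) w, ?_⟩
  rw [con_mulVec_tens]
  simp [hs]

end Cfsg.Agent.Lib.H96KCalc
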