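import Cfsg.Agent.Lib.Helper49UDefs
import Cfsg.Agent.Lib.H49UKY1
import Cfsg.Agent.Lib.H49UKY2
import Cfsg.Agent.Lib.H49USing
import Cfsg.Agent.Lib.H49SGeo
import Cfsg.Agent.Lib.H49SKronKS
import Cfsg.Agent.Lib.H96KCalc

/-!
# PROJECT 51 (Sp x O, part T2), piece `KY3`
-/

set_option autoImplicit false
set_option linter.unusedSectionVars false
set_option linter.unusedVariables false

namespace Cfsg.Agent.Lib.H49UKY3

open scoped Matrix Kronecker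
open Matrix Cfsg.Agent.Lib.Helper49TDefs Cfsg.Agent.Lib.Helper49SDefs Cfsg.Agent.Lib.Helper49ODefs
  Cfsg.Agent.Lib.Helper49UDefs
open Cfsg.Agent.Lib.H49UKY1
open Cfsg.Agent.Lib.H49UKY2
open Cfsg.Agent.Lib.H49USing
open Cfsg.Agent.Lib.H49SGeo
open Cfsg.Agent.Lib.H49SKronKS

variable {F : Type*} [Field F] {a b n : ℕ}

local notation "GLn" => Matrix.GeneralLinearGroup (Fin a × Fin b) F
local notation "Mn" => Matrix (Fin a × Fin b) (Fin a × Fin b) F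
local notation "Ma" => Matrix (Fin a) (Fin a) F
local notation "Mb" => Matrix (Fin b) (Fin b) F
local notation "GLa" => Matrix.GeneralLinearGroup (Fin a) F
local notation "GLb" => Matrix.GeneralLinearGroup (Fin b) F

/-- a vector outside two hyperplanes -/
theorem exists_off_two {J : Mb} (hJ : IsSymmMat J) {c₀ c : Fin b → F} (hc₀ : c₀ ≠ 0) (hc : c ≠ 0) :
    ∃ d, bf J d c₀ ≠ 0 ∧ bf J d c ≠ 0 := by
  obtain ⟨d₁, h₁⟩ := hJ.exists_ne_zero hc₀
  obtain ⟨d₂, h₂⟩ := hJ.exists_ne_zero hc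
  by_cases h3 : bf J d₁ c = 0
  · by_cases h4 : bf J d₂ c₀ = 0
    · refine ⟨d₁ + d₂, ?_, ?_⟩
      · rw [bf_add_left, h₁, h4, add_zero]; exact one_ne_zero
      · rw [bf_add_left, h3, h₂, zero_add]; exact one_ne_zero
    · exact ⟨d₂, h4, by rw [h₂]; exact one_ne_zero⟩
  · exact ⟨d₁, by rw [h₁]; exact one_ne_zero, h3⟩

/-- a singular vector joined to two given singular vectors -/
theorem exists_sing_link {J : Mb} (hJ : IsSymmMat J) (h2 : (2 : F) ≠ 0) {c₀ c : Fin b → F}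
    (hc₀ : c₀ ≠ 0) (hc : c ≠ 0) (hs₀ : bf J c₀ c₀ = 0) (h0 : bf J c₀ c = 0) :
    ∃ c₁, bf J c₁ c₁ = 0 ∧ bf J c₀ c₁ ≠ 0 ∧ bf J c₁ c ≠ 0 := by
  obtain ⟨d, hd₀, hd⟩ := exists_off_two hJ hc₀ hc
  refine ⟨d - (bf J d d / (2 * bf J d c₀)) • c₀, ?_, ?_, ?_⟩
  · simp only [bf_sub_left, bf_sub_right, bf_smul_left, bf_smul_right, hs₀, hJ.symm c₀ d]
    field_simp
    ring
  · simp only [bf_sub_right, bf_smul_right, hs₀, mul_zero, sub_zero, hJ.symm c₀ d]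
    exact hd₀
  · simp only [bf_sub_left, bf_smul_left, h0, mul_zero, sub_zero]
    exact hd

theorem mem_KS_of_Y [Fintype F] (D : SoDat F a b) (ha : 0 < a) (hb : 3 ≤ b) (g : GLn)
    (h : ∀ c, bf D.J₂ c c = 0 → ∃ c', ∀ x, ∃ x', (g : Mn) *ᵥ tens x c = tens x' c') :
    g ∈ KS a b F := by
  classical
  obtain ⟨c₀, hc₀, hs₀⟩ := exists_sing D.h₂ hb
  obtain ⟨c₀', hc₀'⟩ := h c₀ hs₀
  obtain ⟨α, hα⟩ := exists_alpha (g : Mn) c₀ c₀' hc₀'
  -- every singular vector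
  have hA : ∀ c, bf D.J₂ c c = 0 → ∃ c'', ∀ x, (g : Mn) *ᵥ tens x c = tens (α *ᵥ x) c'' := by
    intro c hs
    by_cases hc : c = 0
    · refine ⟨0, fun x => ?_⟩
      rw [hc]; simp
    by_cases h0 : bf D.J₂ c₀ c = 0
    · obtain ⟨c₁, hs₁, h01, h1c⟩ := exists_sing_link D.h₂ D.two hc₀ hc hs₀ h0
      obtain ⟨c₁'', hc₁''⟩ := alpha_hyp D ha hb g h hs₀ hs₁ h01 α hα
      exact alpha_hyp D ha hb g h hs₁ hs h1c α hc₁''
    · exact alpha_hyp D ha hb g h hs₀ hs h0 α hα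
  -- `α ≠ 0`
  let x₀ : Fin a → F := Pi.single ⟨0, ha⟩ 1
  have hx₀ : x₀ ≠ 0 := by
    intro h0
    have := congrFun h0 ⟨0, ha⟩
    simp [x₀] at this
  have hαx₀ : α *ᵥ x₀ ≠ 0 := by
    intro h0
    have h1 := hα x₀
    rw [h0, tens_zero_left'] at h1
    have h2 : ((g⁻¹ : GLn) : Mn) *ᵥ ((g : Mn) *ᵥ tens x₀ c₀) = 0 := by rw [h1, Matrix.mulVec_zero]
    rw [Matrix.mulVec_mulVec, ← Units.val_mul, inv_mul_cancel, Units.val_one, Matrix.one_mulVec] at h2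
    exact tens_ne_zero hx₀ hc₀ h2
  obtain ⟨s, hs⟩ := Function.ne_iff.mp hαx₀
  simp only [Pi.zero_apply] at hs
  let φ₀ : Fin a → F := Pi.single s ((α *ᵥ x₀) s)⁻¹
  have hφ₀ : φ₀ ⬝ᵥ (α *ᵥ x₀) = 1 := by
    simp [φ₀, hs]
  let B : Mb := Cfsg.Agent.Lib.Helper96KDefs.GB (g : Mn) φ₀ x₀
  have hB : ∀ c, bf D.J₂ c c = 0 → ∀ x, (g : Mn) *ᵥ tens x c = tens (α *ᵥ x) (B *ᵥ c) := by
    intro c hsc x
    obtain ⟨c'', hc''⟩ := hA c hsc
    have : B *ᵥ c = c'' := by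
      rw [Cfsg.Agent.Lib.H96KCalc.GB_mulVec, hc'', Cfsg.Agent.Lib.H96KCalc.con_mulVec_tens, hφ₀, one_smul]
    rw [this, hc'']
  let W : Submodule F (Fin b → F) :=
    { carrier := {v | ∀ x, (g : Mn) *ᵥ tens x v = tens (α *ᵥ x) (B *ᵥ v)}
      add_mem' := by
        intro v v' hv hv' x
        rw [tens_add_right, Matrix.mulVec_add, hv x, hv' x, Matrix.mulVec_add, tens_add_right]
      zero_mem' := by
        intro x
        simp
      smul_mem' := by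
        intro k v hv x
        rw [tens_smul_right, Matrix.mulVec_smul, hv x, Matrix.mulVec_smul, tens_smul_right] }
  have hW : W = ⊤ := by
    by_contra hne
    obtain ⟨f, hf0, hf⟩ := Submodule.exists_le_ker_of_lt_top W (lt_top_iff_ne_top.2 hne)
    obtain ⟨w, hw⟩ := D.h₂.exists_repr (fun i => f (fun j => if i = j then 1 else 0))
    have hfw : ∀ v, f v = bf D.J₂ v w := by
      intro v
      rw [hw, LinearMap.pi_apply_eq_sum_univ f v]
      simp [dotProduct]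
    have hw0 : w ≠ 0 := by
      intro h0
      apply hf0
      apply LinearMap.ext
      intro v
      rw [hfw, h0]
      simp
    obtain ⟨c, hsc, hcw⟩ := exists_sing_not_perp D.h₂ D.two hc₀ hs₀ hw0
    apply hcw
    rw [← hfw]
    exact hf (show c ∈ W from hB c hsc)
  have hall : ∀ x v, (g : Mn) *ᵥ tens x v = (α ⊗ₖ B) *ᵥ tens x v := by
    intro x v
    have hv : v ∈ W := by rw [hW]; trivial
    rw [kron_mulVec_tens]
    exact hv x
  exact mem_KS_of_kron g α B (ext_tens hall)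

end Cfsg.Agent.Lib.H49UKY3
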