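import Cfsg.Agent.Lib.Helper49UDefs
import Cfsg.Agent.Lib.H49USing
import Cfsg.Agent.Lib.Helper49Geo

/-!
# PROJECT 51 (Sp x O, part T2), piece `SubSing`
-/

set_option autoImplicit false
set_option linter.unusedSectionVars false
set_option linter.unusedVariables false

namespace Cfsg.Agent.Lib.H49USubSing

open scoped Matrix Kronecker
open Matrix Cfsg.Agent.Lib.Helper49TDefs Cfsg.Agent.Lib.Helper49SDefs Cfsg.Agent.Lib.Helper49ODefs
  Cfsg.Agent.Lib.Helper49UDefs
open Cfsg.Agent.Lib.H49USing

variable {F : Type*} [Field F] {a b n : ℕ}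

local notation "GLn" => Matrix.GeneralLinearGroup (Fin a × Fin b) F
local notation "Mn" => Matrix (Fin a × Fin b) (Fin a × Fin b) F
local notation "Ma" => Matrix (Fin a) (Fin a) F
local notation "Mb" => Matrix (Fin b) (Fin b) F
local notation "GLa" => Matrix.GeneralLinearGroup (Fin a) F
local notation "GLb" => Matrix.GeneralLinearGroup (Fin b) F

theorem exists_sing_pair [Fintype F] {J : Matrix (Fin n) (Fin n) F} (hJ : IsSymmMat J)
    (h2 : (2 : F) ≠ 0) (P : Submodule F (Fin n → F)) (h3 : 3 ≤ Module.finrank F P)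
    (hP : n < 2 * Module.finrank F P) :
    ∃ c ∈ P, ∃ w ∈ P, c ≠ 0 ∧ bf J c c = 0 ∧ bf J w c = 0 ∧ bf J w w ≠ 0 := by
  classical
  let B : LinearMap.BilinForm F (Fin n → F) := Matrix.toBilin' J
  have hB : ∀ x y, B x y = bf J x y := fun x y => Matrix.toBilin'_apply' J x y
  -- polarisation
  have hpolar : ∀ (S : Submodule F (Fin n → F)), (∀ x ∈ S, bf J x x = 0) →
      ∀ x ∈ S, ∀ y ∈ S, bf J x y = 0 := by
    intro S hS x hx y hy
    have e3 := hS (x + y) (S.add_mem hx hy)
    simp only [bf_add_left, bf_add_right, hS x hx, hS y hy, hJ.symm y x] at e3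
    have : 2 * bf J x y = 0 := by linear_combination e3
    exact (mul_eq_zero.mp this).resolve_left h2
  -- step 1
  have hns : ∃ w ∈ P, bf J w w ≠ 0 := by
    by_contra hcon
    push Not at hcon
    have hpol := hpolar P hcon
    have hle : P ≤ B.orthogonal P := by
      intro x hx
      rw [LinearMap.BilinForm.mem_orthogonal_iff]
      intro y hy
      rw [hB]
      exact hpol y hy x hx
    have hnd : B.Nondegenerate :=
      Matrix.Nondegenerate.toBilin' (Matrix.nondegenerate_of_det_ne_zero hJ.unit.ne_zero)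
    have h1 := LinearMap.BilinForm.finrank_orthogonal hnd P
    have h2' := Submodule.finrank_mono hle
    rw [h1, Module.finrank_fin_fun] at h2'
    omega
  obtain ⟨w₀, hw₀P, hw₀⟩ := hns
  by_cases hrad : ∃ c ∈ P, c ≠ 0 ∧ ∀ p ∈ P, bf J p c = 0
  · obtain ⟨c, hcP, hc0, hc⟩ := hrad
    exact ⟨c, hcP, w₀, hw₀P, hc0, hc c hcP, hc w₀ hw₀P, hw₀⟩
  · push Not at hrad
    obtain ⟨c, hcP, hc0, hcs⟩ := Cfsg.Agent.Lib.Helper49Geo.exists_singular_sub
      (LinearMap.BilinMap.toQuadraticMap B) h3
    rw [LinearMap.BilinMap.toQuadraticMap_apply, hB] at hcs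
    obtain ⟨d₀, hd₀P, hd₀⟩ := hrad c hcP hc0
    let d : Fin n → F := (bf J d₀ c)⁻¹ • d₀
    have hdP : d ∈ P := P.smul_mem _ hd₀P
    have hdc : bf J d c = 1 := by
      simp only [d, bf_smul_left]
      exact inv_mul_cancel₀ hd₀
    by_contra hcon
    push Not at hcon
    let S : Submodule F (Fin n → F) := P ⊓ perpS J c
    have hSs : ∀ x ∈ S, bf J x x = 0 := by
      intro x hx
      exact hcon c hcP x hx.1 hc0 hcs (mem_perpS.mp hx.2)
    have hSpol := hpolar S hSs
    have hcS : c ∈ S := ⟨hcP, mem_perpS.mpr hcs⟩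
    have hdec : ∀ p ∈ P, p - bf J p c • d ∈ S := by
      intro p hp
      refine ⟨P.sub_mem hp (P.smul_mem _ hdP), mem_perpS.mpr ?_⟩
      rw [bf_sub_left, bf_smul_left, hdc, mul_one, sub_self]
    have hSc : ∀ w ∈ S, w = bf J w d • c := by
      intro w hw
      have hw' : w - bf J w d • c ∈ S := S.sub_mem hw (S.smul_mem _ hcS)
      have h0 : w - bf J w d • c = 0 := by
        by_contra hne
        obtain ⟨p, hp, hpne⟩ := hrad _ hw'.1 hne
        apply hpne
        have hp' : p = (p - bf J p c • d) + bf J p c • d := by abel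
        rw [hp', bf_add_left, hSpol _ (hdec p hp) _ hw', bf_smul_left, bf_sub_right, bf_smul_right,
          hJ.symm d w, hdc]
        ring
      exact sub_eq_zero.mp h0
    have hspan : P ≤ Submodule.span F (({c, d} : Finset (Fin n → F)) : Set (Fin n → F)) := by
      intro p hp
      rw [Finset.coe_pair, Submodule.mem_span_pair]
      refine ⟨bf J (p - bf J p c • d) d, bf J p c, ?_⟩
      rw [← hSc _ (hdec p hp)]
      abel
    have h5 := Submodule.finrank_mono hspan
    have h6 := finrank_span_finset_le_card (R := F) ({c, d} : Finset (Fin n → F))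
    unfold Set.finrank at h6
    have h7 : ({c, d} : Finset (Fin n → F)).card ≤ 2 := Finset.card_le_two
    omega

end Cfsg.Agent.Lib.H49USubSing
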