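import Cfsg.Agent.Lib.Helper49UDefs
import Cfsg.Agent.Lib.H49USubSing
import Cfsg.Agent.Lib.H49UFilB

/-!
# PROJECT 51 (Sp x O, part T2), piece `KillO`
-/

set_option autoImplicit false
set_option linter.unusedSectionVars false
set_option linter.unusedVariables false

namespace Cfsg.Agent.Lib.H49UKillO

open scoped Matrix Kronecker
open Matrix Cfsg.Agent.Lib.Helper49TDefs Cfsg.Agent.Lib.Helper49SDefs Cfsg.Agent.Lib.Helper49ODefs
  Cfsg.Agent.Lib.Helper49UDefs
open Cfsg.Agent.Lib.H49USubSing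
open Cfsg.Agent.Lib.H49UFilB

variable {F : Type*} [Field F] {a b n : ℕ}

local notation "GLn" => Matrix.GeneralLinearGroup (Fin a × Fin b) F
local notation "Mn" => Matrix (Fin a × Fin b) (Fin a × Fin b) F
local notation "Ma" => Matrix (Fin a) (Fin a) F
local notation "Mb" => Matrix (Fin b) (Fin b) F
local notation "GLa" => Matrix.GeneralLinearGroup (Fin a) F
local notation "GLb" => Matrix.GeneralLinearGroup (Fin b) F

/-- `P := ker (v ↦ ctr (J₂ v) y) ≤ V₂` has dimension `≥ b - a` (rank-nullity), `b - a ≥ 3`, `2(b-a) > b`.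
`exists_sing_pair`, `kron_XO_mulVec`. -/
theorem exists_EO_fix [Fintype F] (D : SoDat F a b) (h1 : 2 ≤ a) (h12 : 2 * a < b)
    (y : Fin a × Fin b → F) :
    ∃ c w : Fin b → F, c ≠ 0 ∧ bf D.J₂ c c = 0 ∧ bf D.J₂ w c = 0 ∧ bf D.J₂ w w ≠ 0 ∧
      ((1 : Ma) ⊗ₖ XO D c w) *ᵥ y = 0 := by
  let Y : Matrix (Fin a) (Fin b) F := Matrix.of fun s j => y (s, j)
  have hY : ∀ φ : Fin b → F, ctr φ y = Y *ᵥ φ := by
    intro φ
    ext s
    rfl
  let L : (Fin b → F) →ₗ[F] (Fin a → F) := Matrix.mulVecLin (Y * D.J₂)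
  have hL : ∀ v, L v = ctr (D.J₂ *ᵥ v) y := by
    intro v
    rw [hY, Matrix.mulVec_mulVec]
    rfl
  have hrn := LinearMap.finrank_range_add_finrank_ker L
  have hr : Module.finrank F (LinearMap.range L) ≤ a := by
    have := Submodule.finrank_le (LinearMap.range L)
    rwa [Module.finrank_fin_fun] at this
  rw [Module.finrank_fin_fun] at hrn
  obtain ⟨c, hcP, w, hwP, hc, hs, hw, hww⟩ := exists_sing_pair D.h₂ D.two (LinearMap.ker L)
    (by omega) (by omega)
  refine ⟨c, w, hc, hs, hw, hww, ?_⟩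
  rw [LinearMap.mem_ker, hL] at hcP hwP
  rw [kron_XO_mulVec, hcP, hwP]
  simp

end Cfsg.Agent.Lib.H49UKillO
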