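import Cfsg.Agent.Lib.Helper49UDefs
import Cfsg.Agent.Lib.H49UBasic
import Cfsg.Agent.Lib.H49UGeoO
import Cfsg.Agent.Lib.H49SGeo

/-!
# PROJECT 51 (Sp x O, part T2), piece `LayersO`
-/

set_option autoImplicit false
set_option linter.unusedSectionVars false
set_option linter.unusedVariables false

namespace Cfsg.Agent.Lib.H49ULayersO

open scoped Matrix Kronecker
open Matrix Cfsg.Agent.Lib.Helper49TDefs Cfsg.Agent.Lib.Helper49SDefs Cfsg.Agent.Lib.Helper49ODefs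
  Cfsg.Agent.Lib.Helper49UDefs
open Cfsg.Agent.Lib.H49UBasic
open Cfsg.Agent.Lib.H49UGeoO
open Cfsg.Agent.Lib.H49SGeo

variable {F : Type*} [Field F] {a b n : ℕ}

local notation "GLn" => Matrix.GeneralLinearGroup (Fin a × Fin b) F
local notation "Mn" => Matrix (Fin a × Fin b) (Fin a × Fin b) F
local notation "Ma" => Matrix (Fin a) (Fin a) F
local notation "Mb" => Matrix (Fin b) (Fin b) F
local notation "GLa" => Matrix.GeneralLinearGroup (Fin a) F
local notation "GLb" => Matrix.GeneralLinearGroup (Fin b) F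

/-- as `H49SLayers.exists_layers`: `α` from `hst` (linear: read a coordinate `j` with `c j ≠ 0`); `α` is injective (`t` is),
hence invertible (`β`); `t(V₁ ⊗ c) = V₁ ⊗ c`, and for `w ∈ V₁ ⊗ c^⊥`:
`f(t w, αx ⊗ c) = f(t w, t(x ⊗ c)) = f(w, x ⊗ c) = 0` (`f_ctr`, `mem_tsub_perpS_iff`). -/
theorem exists_layO (D : SoDat F a b) {t : GLn} (ht : t ∈ SG D) {c : Fin b → F} (hc : c ≠ 0)
    (hst : ∀ x, ∃ x', (t : Mn) *ᵥ tens x c = tens x' c) :
    ∃ α β : Ma, LayO D t c α β := by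
  obtain ⟨d₀, hd₀⟩ := D.h₂.exists_ne_zero hc
  have hcd : bf D.J₂ c d₀ = 1 := by rw [D.h₂.symm, hd₀]
  obtain ⟨α, hα⟩ := exists_ctr_mat (a := a) (t : Mn) (D.J₂ *ᵥ d₀) c
  have h1 : ∀ x, (t : Mn) *ᵥ tens x c = tens (α *ᵥ x) c := by
    intro x
    obtain ⟨x', hx'⟩ := hst x
    rw [← hα, hx', ctr_J_tens, hcd, one_smul]
  have htinj : ∀ v w : Fin a × Fin b → F, (t : Mn) *ᵥ v = (t : Mn) *ᵥ w → v = w := by
    intro v w hvw
    have h2 := congrArg (fun z => ((t⁻¹ : GLn) : Mn) *ᵥ z) hvw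
    simpa [Matrix.mulVec_mulVec, ← Units.val_mul] using h2
  have hαinj : Function.Injective α.mulVec := by
    intro x y hxy
    apply tens_left_inj hc
    apply htinj
    rw [h1, h1]
    exact congrArg (fun z => tens z c) hxy
  have hαu : IsUnit α := Matrix.mulVec_injective_iff_isUnit.1 hαinj
  have hαsurj : Function.Surjective α.mulVec := Matrix.mulVec_surjective_iff_isUnit.2 hαu
  obtain ⟨αu, hαu'⟩ := hαu
  refine ⟨α, ((αu⁻¹ : Maˣ) : Ma), h1, ?_, ?_⟩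
  · intro w hw
    rw [mem_tsub_perpS_iff] at hw ⊢
    apply D.h₁.eq_zero_of_left
    intro u
    obtain ⟨u₀, hu₀⟩ := hαsurj u
    have hu₀' : α *ᵥ u₀ = u := hu₀
    rw [← f_ctr, ← hu₀', ← h1, SG_f D ht, f_ctr, hw, bf_zero_left]
  · rw [← hαu', Units.mul_inv]

end Cfsg.Agent.Lib.H49ULayersO
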