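import Cfsg.Agent.Lib.Helper49UDefs
import Cfsg.Agent.Lib.H49UBasic
import Cfsg.Agent.Lib.H49USing

/-!
# PROJECT 51 (Sp x O, part T2), piece `Sim`
-/

set_option autoImplicit false
set_option linter.unusedSectionVars false
set_option linter.unusedVariables false

namespace Cfsg.Agent.Lib.H49USim

open scoped Matrix Kronecker
open Matrix Cfsg.Agent.Lib.Helper49TDefs Cfsg.Agent.Lib.Helper49SDefs Cfsg.Agent.Lib.Helper49ODefs
  Cfsg.Agent.Lib.Helper49UDefs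
open Cfsg.Agent.Lib.H49UBasic
open Cfsg.Agent.Lib.H49USing

variable {F : Type*} [Field F] {a b n : ℕ}

local notation "GLn" => Matrix.GeneralLinearGroup (Fin a × Fin b) F
local notation "Mn" => Matrix (Fin a × Fin b) (Fin a × Fin b) F
local notation "Ma" => Matrix (Fin a) (Fin a) F
local notation "Mb" => Matrix (Fin b) (Fin b) F
local notation "GLa" => Matrix.GeneralLinearGroup (Fin a) F
local notation "GLb" => Matrix.GeneralLinearGroup (Fin b) F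

/-- `e ⊥ c` nonsingular: `f₁(αx,αy) f₂(e₁,e₁) = f₁(x,y) f₂(e,e)`; `f₂(e₁,e₁) ≠ 0` (take `f₁(x,y) ≠ 0`). -/
theorem exists_sim (D : SoDat F a b) (ha : 0 < a) (hb : 3 ≤ b) {t : GLn} (ht : t ∈ SG D)
    {c : Fin b → F} (hc : c ≠ 0) (hs : bf D.J₂ c c = 0) {α : Ma}
    (hK : ∀ e, bf D.J₂ e c = 0 → ∃ e₁, bf D.J₂ e₁ c = 0 ∧
      ∀ x, (t : Mn) *ᵥ tens x e = tens (α *ᵥ x) e₁) :
    ∃ μ : F, μ ≠ 0 ∧ ∀ x y, bf D.J₁ (α *ᵥ x) (α *ᵥ y) = μ * bf D.J₁ x y := by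
  obtain ⟨e, hec, hee⟩ := exists_ns_perp D.h₂ D.two hb hc hs
  obtain ⟨e₁, -, he₁⟩ := hK e hec
  have key : ∀ x y, bf D.J₁ (α *ᵥ x) (α *ᵥ y) * bf D.J₂ e₁ e₁ = bf D.J₁ x y * bf D.J₂ e e := by
    intro x y
    have h := SG_f D ht (tens x e) (tens y e)
    rw [he₁, he₁] at h
    simpa only [SoDat.f, fK_tens] using h
  have hw : (Pi.single (⟨0, ha⟩ : Fin a) (1 : F) : Fin a → F) ≠ 0 := by
    intro h
    have := congrFun h ⟨0, ha⟩
    simp at this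
  obtain ⟨x₀, hx₀⟩ := D.h₁.exists_ne_zero hw
  have he₁₁ : bf D.J₂ e₁ e₁ ≠ 0 := by
    intro h0
    have := key x₀ (Pi.single (⟨0, ha⟩ : Fin a) (1 : F))
    rw [h0, hx₀, mul_zero, one_mul] at this
    exact hee this.symm
  refine ⟨bf D.J₂ e e / bf D.J₂ e₁ e₁, div_ne_zero hee he₁₁, fun x y => ?_⟩
  have := key x y
  field_simp
  linear_combination this

end Cfsg.Agent.Lib.H49USim
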