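import Cfsg.Agent.Lib.Helper49UDefs
import Cfsg.Agent.Lib.H49URefl

/-!
# PROJECT 51 (Sp x O, part T2), piece `WittO`
-/

set_option autoImplicit false
set_option linter.unusedSectionVars false
set_option linter.unusedVariables false

namespace Cfsg.Agent.Lib.H49UWittO

open scoped Matrix Kronecker
open Matrix Cfsg.Agent.Lib.Helper49TDefs Cfsg.Agent.Lib.Helper49SDefs Cfsg.Agent.Lib.Helper49ODefs
  Cfsg.Agent.Lib.Helper49UDefs
open Cfsg.Agent.Lib.H49URefl

variable {F : Type*} [Field F] {a b n : ℕ}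

local notation "GLn" => Matrix.GeneralLinearGroup (Fin a × Fin b) F
local notation "Mn" => Matrix (Fin a × Fin b) (Fin a × Fin b) F
local notation "Ma" => Matrix (Fin a) (Fin a) F
local notation "Mb" => Matrix (Fin b) (Fin b) F
local notation "GLa" => Matrix.GeneralLinearGroup (Fin a) F
local notation "GLb" => Matrix.GeneralLinearGroup (Fin b) F

theorem step_sing {J : Matrix (Fin n) (Fin n) F} (hJ : IsSymmMat J) (h2 : (2 : F) ≠ 0)
    {c c' : Fin n → F} (hs : bf J c c = 0) (hs' : bf J c' c' = 0) (h : bf J c c' ≠ 0) :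
    ∃ g : Matrix.GeneralLinearGroup (Fin n) F, IsIso J g ∧
      (g : Matrix (Fin n) (Fin n) F) *ᵥ c = c' := by
  have hdd : bf J (c - c') (c - c') = -2 * bf J c c' := by
    simp only [bf_sub_left, bf_sub_right, hs, hs', hJ.symm c' c]
    ring
  have hd : bf J (c - c') (c - c') ≠ 0 := by
    rw [hdd]
    exact mul_ne_zero (neg_ne_zero.mpr h2) h
  obtain ⟨g, hg, hg1, -⟩ := refl_iso hJ hd
  refine ⟨g, hg, ?_⟩
  rw [hg1, Matrix.sub_mulVec, Matrix.one_mulVec, Matrix.smul_mulVec, NJ_mulVec, hdd, smul_smul]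
  have e : 2 / (-2 * bf J c c') * bf J c (c - c') = 1 := by
    rw [bf_sub_right, hs]
    field_simp
    ring
  rw [e, one_smul]
  abel

/-- `O(V₂)` is transitive on the nonzero singular vectors. -/
theorem exists_iso_sing {J : Matrix (Fin n) (Fin n) F} (hJ : IsSymmMat J) (h2 : (2 : F) ≠ 0)
    {c c' : Fin n → F} (hc : c ≠ 0) (hc' : c' ≠ 0) (hs : bf J c c = 0) (hs' : bf J c' c' = 0) :
    ∃ g : Matrix.GeneralLinearGroup (Fin n) F, IsIso J g ∧
      (g : Matrix (Fin n) (Fin n) F) *ᵥ c = c' := by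
  by_cases h : bf J c c' = 0
  · have hex : ∃ d, bf J d c ≠ 0 ∧ bf J d c' ≠ 0 := by
      obtain ⟨x, hx⟩ := hJ.exists_ne_zero hc
      obtain ⟨x', hx'⟩ := hJ.exists_ne_zero hc'
      by_cases h1 : bf J x c' = 0
      · by_cases h3 : bf J x' c = 0
        · refine ⟨x + x', ?_, ?_⟩
          · rw [bf_add_left, hx, h3, add_zero]; exact one_ne_zero
          · rw [bf_add_left, hx', h1, zero_add]; exact one_ne_zero
        · exact ⟨x', h3, by rw [hx']; exact one_ne_zero⟩
      · exact ⟨x, by rw [hx]; exact one_ne_zero, h1⟩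
    obtain ⟨d, hd, hd'⟩ := hex
    set c'' := d - (bf J d d / (2 * bf J d c)) • c with hc''
    have hs'' : bf J c'' c'' = 0 := by
      rw [hc'']
      simp only [bf_sub_left, bf_sub_right, bf_smul_left, bf_smul_right, hs, hJ.symm c d]
      field_simp
      ring
    have h1 : bf J c c'' ≠ 0 := by
      rw [hc'', bf_sub_right, bf_smul_right, hs, mul_zero, sub_zero, hJ.symm]
      exact hd
    have h3 : bf J c'' c' ≠ 0 := by
      rw [hc'', bf_sub_left, bf_smul_left, h, mul_zero, sub_zero]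
      exact hd'
    obtain ⟨g1, hg1, hg1'⟩ := step_sing hJ h2 hs hs'' h1
    obtain ⟨g2, hg2, hg2'⟩ := step_sing hJ h2 hs'' hs' h3
    refine ⟨g2 * g1, ?_, ?_⟩
    · intro x y
      rw [Units.val_mul, ← Matrix.mulVec_mulVec, ← Matrix.mulVec_mulVec, hg2, hg1]
    · rw [Units.val_mul, ← Matrix.mulVec_mulVec, hg1', hg2']
  · exact step_sing hJ h2 hs hs' h

end Cfsg.Agent.Lib.H49UWittO
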