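import Cfsg.Agent.Lib.Helper49UDefs
import Cfsg.Agent.Lib.H49UWittO
import Cfsg.Agent.Lib.H49UMem
import Cfsg.Agent.Lib.H49SWitt1

/-!
# PROJECT 51 (Sp x O, part T2), piece `MoveO`
-/

set_option autoImplicit false
set_option linter.unusedSectionVars false
set_option linter.unusedVariables false

namespace Cfsg.Agent.Lib.H49UMoveO

open scoped Matrix Kronecker
open Matrix Cfsg.Agent.Lib.Helper49TDefs Cfsg.Agent.Lib.Helper49SDefs Cfsg.Agent.Lib.Helper49ODefs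
  Cfsg.Agent.Lib.Helper49UDefs
open Cfsg.Agent.Lib.H49UWittO
open Cfsg.Agent.Lib.H49UMem
open Cfsg.Agent.Lib.H49SWitt1

variable {F : Type*} [Field F] {a b n : ℕ}

local notation "GLn" => Matrix.GeneralLinearGroup (Fin a × Fin b) F
local notation "Mn" => Matrix (Fin a × Fin b) (Fin a × Fin b) F
local notation "Ma" => Matrix (Fin a) (Fin a) F
local notation "Mb" => Matrix (Fin b) (Fin b) F
local notation "GLa" => Matrix.GeneralLinearGroup (Fin a) F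
local notation "GLb" => Matrix.GeneralLinearGroup (Fin b) F

/-- `H49SWitt1.exists_iso_vec` on `V₁`, `exists_iso_sing` on `V₂`, `so1_mem`, `so2_mem`, `kron_mulVec_tens` -/
theorem exists_moveO (D : SoDat F a b) {u u' : Fin a → F} {c c' : Fin b → F} (hu : u ≠ 0)
    (hu' : u' ≠ 0) (hc : c ≠ 0) (hc' : c' ≠ 0) (hs : bf D.J₂ c c = 0) (hs' : bf D.J₂ c' c' = 0) :
    ∃ m ∈ KS a b F ⊓ SG D, (m : Mn) *ᵥ tens u c = tens u' c' := by
  obtain ⟨g₁, hg₁, e₁⟩ := exists_iso_vec D.h₁ hu hu'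
  obtain ⟨g₂, hg₂, e₂⟩ := exists_iso_sing D.h₂ D.two hc hc' hs hs'
  obtain ⟨m₁, hm₁, em₁, -⟩ := so1_mem D g₁ hg₁
  obtain ⟨m₂, hm₂, em₂, -⟩ := so2_mem D g₂ hg₂
  refine ⟨m₁ * m₂, Subgroup.mul_mem _ hm₁ hm₂, ?_⟩
  rw [Units.val_mul, ← Matrix.mulVec_mulVec, em₁, em₂, kron_mulVec_tens, kron_mulVec_tens, e₂,
    Matrix.one_mulVec, Matrix.one_mulVec, e₁]

end Cfsg.Agent.Lib.H49UMoveO
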