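import Mathlib
import Cfsg.Prelude.Def_GeometricClasses

/-! Project 94 (ELU2), row S5979: ranks of Kronecker products. -/

set_option autoImplicit false

namespace Cfsg.Agent.Lib.Helper13EluT

open scoped Matrix Kronecker MatrixGroups
open Matrix Cfsg Cfsg.Geo

variable {F : Type*} [Field F] {a b : ℕ}

theorem one_kron_mulVec (M : Matrix (Fin b) (Fin b) F) (X : Fin a × Fin b → F) (s : Fin a) (i : Fin b) :
    (((1 : Matrix (Fin a) (Fin a) F) ⊗ₖ M) *ᵥ X) (s, i) = (M *ᵥ fun j => X (s, j)) i := by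
  simp [Matrix.mulVec, dotProduct, Fintype.sum_prod_type, Matrix.kroneckerMap_apply, Matrix.one_apply]

/-- `y ↦ ((s,i) ↦ y s i)` on tuples of vectors of the range of `M`. -/
def glue (M : Matrix (Fin b) (Fin b) F) :
    (Fin a → LinearMap.range M.mulVecLin) →ₗ[F] (Fin a × Fin b → F) where
  toFun y := fun p => (y p.1 : Fin b → F) p.2
  map_add' x y := by ext p; simp
  map_smul' c x := by ext p; simp

theorem glue_injective (M : Matrix (Fin b) (Fin b) F) : Function.Injective (glue (a := a) M) := by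
  intro x y h
  funext s
  apply Subtype.ext
  funext i
  exact congrFun h (s, i)

theorem range_glue (M : Matrix (Fin b) (Fin b) F) :
    LinearMap.range (glue (a := a) M) = LinearMap.range ((1 : Matrix (Fin a) (Fin a) F) ⊗ₖ M).mulVecLin := by
  apply le_antisymm
  · rintro _ ⟨y, rfl⟩
    have hy : ∀ s, ∃ x : Fin b → F, M *ᵥ x = (y s : Fin b → F) := fun s => (y s).2
    choose x hx using hy
    refine ⟨fun p => x p.1 p.2, ?_⟩
    ext ⟨s, i⟩
    rw [Matrix.mulVecLin_apply, one_kron_mulVec]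
    exact congrFun (hx s) i
  · rintro _ ⟨X, rfl⟩
    refine ⟨fun s => ⟨M *ᵥ fun j => X (s, j), ⟨_, rfl⟩⟩, ?_⟩
    ext ⟨s, i⟩
    rw [Matrix.mulVecLin_apply, one_kron_mulVec]
    rfl

theorem rank_one_kron (M : Matrix (Fin b) (Fin b) F) :
    ((1 : Matrix (Fin a) (Fin a) F) ⊗ₖ M).rank = a * M.rank := by
  rw [Matrix.rank, ← range_glue, LinearMap.finrank_range_of_inj (glue_injective M),
    Module.finrank_pi_fintype]
  simp [Matrix.rank]

/-- `(v ⊗ w)(s,i) = v s * w i`. -/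
def tv (v : Fin a → F) : (Fin b → F) →ₗ[F] (Fin a × Fin b → F) where
  toFun w := fun p => v p.1 * w p.2
  map_add' x y := by ext p; simp [mul_add]
  map_smul' c x := by ext p; simp [mul_left_comm]

theorem kron_mulVec_tv (g₁ : Matrix (Fin a) (Fin a) F) (g₂ : Matrix (Fin b) (Fin b) F)
    (v : Fin a → F) (w : Fin b → F) :
    (g₁ ⊗ₖ g₂) *ᵥ (tv v w) = tv (g₁ *ᵥ v) (g₂ *ᵥ w) := by
  ext ⟨s, i⟩
  simp only [tv, LinearMap.coe_mk, AddHom.coe_mk, Matrix.mulVec, dotProduct, Fintype.sum_prod_type,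
    Matrix.kroneckerMap_apply, Finset.sum_mul_sum]
  apply Finset.sum_congr rfl
  intro t _
  apply Finset.sum_congr rfl
  intro j _
  ring

theorem kron_rank_ge (g₁ : Matrix (Fin a) (Fin a) F) (g₂ : Matrix (Fin b) (Fin b) F)
    (hg₂ : ∀ w, g₂ *ᵥ w = 0 → w = 0) (hsc : ¬ ∃ c : F, g₁ = c • 1) (l : F) :
    b ≤ (g₁ ⊗ₖ g₂ - l • (1 : Matrix (Fin a × Fin b) (Fin a × Fin b) F)).rank := by
  have hex : ∃ v : Fin a → F, LinearIndependent F ![v, g₁ *ᵥ v] := by
    by_contra hcon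
    push Not at hcon
    obtain ⟨c, hc⟩ := LinearMap.exists_eq_smul_id_of_forall_notLinearIndependent
      (f := Matrix.toLin' g₁) (fun v => by simpa using hcon v)
    apply hsc
    refine ⟨c, ?_⟩
    apply Matrix.toLin'.injective
    rw [hc, map_smul, Matrix.toLin'_one]
    rfl
  obtain ⟨v, hv⟩ := hex
  rw [LinearIndependent.pair_iff] at hv
  let L : (Fin b → F) →ₗ[F] (Fin a × Fin b → F) :=
    (g₁ ⊗ₖ g₂ - l • (1 : Matrix (Fin a × Fin b) (Fin a × Fin b) F)).mulVecLin ∘ₗ tv v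
  have hL : Function.Injective L := by
    rw [injective_iff_map_eq_zero]
    intro w hw
    have h1 : (g₁ ⊗ₖ g₂ - l • (1 : Matrix (Fin a × Fin b) (Fin a × Fin b) F)) *ᵥ tv v w = 0 := hw
    rw [Matrix.sub_mulVec, Matrix.smul_mulVec, Matrix.one_mulVec, kron_mulVec_tv, sub_eq_zero] at h1
    apply hg₂
    ext i
    have h2 : (-(l * w i)) • v + ((g₂ *ᵥ w) i) • (g₁ *ᵥ v) = 0 := by
      ext s
      have := congrFun h1 (s, i)
      simp only [tv, LinearMap.coe_mk, AddHom.coe_mk, Pi.smul_apply, smul_eq_mul] at this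
      simp only [Pi.add_apply, Pi.smul_apply, smul_eq_mul, Pi.zero_apply]
      linear_combination this
    exact (hv _ _ h2).2
  have h1 : Module.finrank F (LinearMap.range L) = b := by
    rw [LinearMap.finrank_range_of_inj hL]; simp
  have h2 : LinearMap.range L ≤ LinearMap.range
      (g₁ ⊗ₖ g₂ - l • (1 : Matrix (Fin a × Fin b) (Fin a × Fin b) F)).mulVecLin :=
    LinearMap.range_comp_le_range _ _
  have h3 := Submodule.finrank_mono h2
  rw [h1] at h3
  exact h3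

theorem one_kron_sub (M : Matrix (Fin b) (Fin b) F) (l : F) :
    (1 : Matrix (Fin a) (Fin a) F) ⊗ₖ M - l • (1 : Matrix (Fin a × Fin b) (Fin a × Fin b) F)
      = (1 : Matrix (Fin a) (Fin a) F) ⊗ₖ (M - l • (1 : Matrix (Fin b) (Fin b) F)) := by
  rw [← Matrix.one_kronecker_one (m := Fin a) (n := Fin b), ← Matrix.kronecker_smul]
  ext ⟨s, i⟩ ⟨t, j⟩
  simp only [Matrix.sub_apply, Matrix.kroneckerMap_apply]
  ring

/-- The dichotomy. -/
theorem kron_dichotomy (g₁ : GL (Fin a) F) (g₂ : GL (Fin b) F) :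
    ((¬ ∃ c : F, (g₁ : Matrix (Fin a) (Fin a) F) = c • 1) ∧
      ∀ l : F, b ≤ ((g₁ : Matrix (Fin a) (Fin a) F) ⊗ₖ (g₂ : Matrix (Fin b) (Fin b) F)
        - l • (1 : Matrix (Fin a × Fin b) (Fin a × Fin b) F)).rank) ∨
    ∃ M : Matrix (Fin b) (Fin b) F,
      (g₁ : Matrix (Fin a) (Fin a) F) ⊗ₖ (g₂ : Matrix (Fin b) (Fin b) F)
        = (1 : Matrix (Fin a) (Fin a) F) ⊗ₖ M := by
  by_cases hsc : ∃ c : F, (g₁ : Matrix (Fin a) (Fin a) F) = c • 1
  · right
    obtain ⟨c, hc⟩ := hsc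
    exact ⟨c • (g₂ : Matrix (Fin b) (Fin b) F), by rw [hc, Matrix.smul_kronecker, Matrix.kronecker_smul]⟩
  · left
    refine ⟨hsc, fun l => kron_rank_ge _ _ ?_ hsc l⟩
    intro w hw
    have : ((g₂⁻¹ : GL (Fin b) F) : Matrix (Fin b) (Fin b) F) *ᵥ ((g₂ : Matrix (Fin b) (Fin b) F) *ᵥ w) = w := by
      rw [Matrix.mulVec_mulVec, ← Units.val_mul, inv_mul_cancel, Units.val_one, Matrix.one_mulVec]
    rw [← this, hw, Matrix.mulVec_zero]

end Cfsg.Agent.Lib.Helper13EluT
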