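import Cfsg.Agent.Lib.Helper49UDefs
import Cfsg.Agent.Lib.Helper94TRank
import Cfsg.Agent.Lib.Helper13EluT

/-!
# PROJECT 51 (Sp x O, part T2), piece `RankLt`
-/

set_option autoImplicit false
set_option linter.unusedSectionVars false
set_option linter.unusedVariables false

namespace Cfsg.Agent.Lib.H49URankLt

open scoped Matrix Kronecker
open Matrix Cfsg.Agent.Lib.Helper49TDefs Cfsg.Agent.Lib.Helper49SDefs Cfsg.Agent.Lib.Helper49ODefs
  Cfsg.Agent.Lib.Helper49UDefs
open Cfsg.Agent.Lib.Helper94TRank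

variable {F : Type*} [Field F] {a b n : ℕ}

local notation "GLn" => Matrix.GeneralLinearGroup (Fin a × Fin b) F
local notation "Mn" => Matrix (Fin a × Fin b) (Fin a × Fin b) F
local notation "Ma" => Matrix (Fin a) (Fin a) F
local notation "Mb" => Matrix (Fin b) (Fin b) F
local notation "GLa" => Matrix.GeneralLinearGroup (Fin a) F
local notation "GLb" => Matrix.GeneralLinearGroup (Fin b) F

/-- COPY of `Helper94TRank.eq_one_kron_of_rank` (its proof shows `b ≤ rank` if `g₁` is not a scalar) -/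
theorem eq_one_kron_of_rank_lt (g : GLn) (hg : g ∈ KS a b F) (hr : ((g : Mn) - 1).rank < b) :
    ∃ w : GLb, (g : Mn) = (1 : Ma) ⊗ₖ (w : Mb) := by
  obtain ⟨g₁, g₂, hgg⟩ := hg
  rcases Nat.eq_zero_or_pos a with ha | ha
  · subst ha
    refine ⟨1, ?_⟩
    ext ⟨s, _⟩
    exact s.elim0
  have : Nonempty (Fin a) := ⟨⟨0, ha⟩⟩
  by_cases hsc : ∃ l : F, (g₁ : Ma) = l • 1
  · obtain ⟨l, hl⟩ := hsc
    have hl0 : l ≠ 0 := by
      rintro rfl
      have h1 : (g₁ : Ma) * ((g₁⁻¹ : Matrix.GeneralLinearGroup (Fin a) F) : Ma) = 1 := Units.mul_inv g₁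
      rw [hl, zero_smul, zero_mul] at h1
      exact zero_ne_one h1
    refine ⟨⟨l • (g₂ : Mb), l⁻¹ • ((g₂⁻¹ : Matrix.GeneralLinearGroup (Fin b) F) : Mb), ?_, ?_⟩, ?_⟩
    · rw [smul_mul_smul_comm, mul_inv_cancel₀ hl0, Units.mul_inv, one_smul]
    · rw [smul_mul_smul_comm, inv_mul_cancel₀ hl0, Units.inv_mul, one_smul]
    · show (g : Mn) = (1 : Ma) ⊗ₖ (l • (g₂ : Mb))
      rw [hgg, hl, Matrix.smul_kronecker, Matrix.kronecker_smul]
  · exfalso
    have hex : ∃ v : Fin a → F, LinearIndependent F ![v, (g₁ : Ma) *ᵥ v] := by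
      by_contra hcon
      push Not at hcon
      obtain ⟨l, hl⟩ := LinearMap.exists_eq_smul_id_of_forall_notLinearIndependent
        (f := Matrix.toLin' (g₁ : Ma)) (fun v => by simpa using hcon v)
      apply hsc
      refine ⟨l, ?_⟩
      apply Matrix.toLin'.injective
      rw [hl, map_smul, Matrix.toLin'_one]
      rfl
    obtain ⟨v, hv⟩ := hex
    rw [LinearIndependent.pair_iff] at hv
    let L : (Fin b → F) →ₗ[F] (Fin a × Fin b → F) := ((g : Mn) - 1).mulVecLin ∘ₗ tensL v
    have hL : Function.Injective L := by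
      rw [injective_iff_map_eq_zero]
      intro w hw
      have h1 : ((g : Mn) - 1) *ᵥ tens v w = 0 := hw
      rw [Matrix.sub_mulVec, Matrix.one_mulVec, hgg, kron_mulVec_tens, sub_eq_zero] at h1
      ext i
      have h2 : (-(w i)) • v + (((g₂ : Mb) *ᵥ w) i) • ((g₁ : Ma) *ᵥ v) = 0 := by
        ext s
        have := congrFun h1 (s, i)
        simp only [tens] at this
        simp only [Pi.add_apply, Pi.smul_apply, smul_eq_mul, Pi.zero_apply]
        linear_combination this
      have := (hv _ _ h2).1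
      simpa using this
    have h1 : Module.finrank F (LinearMap.range L) = b := by
      rw [LinearMap.finrank_range_of_inj hL]; simp
    have h2 : LinearMap.range L ≤ LinearMap.range ((g : Mn) - 1).mulVecLin :=
      LinearMap.range_comp_le_range _ _
    have h3 := Submodule.finrank_mono h2
    rw [h1] at h3
    have h4 : ((g : Mn) - 1).rank = Module.finrank F (LinearMap.range ((g : Mn) - 1).mulVecLin) := rfl
    omega

theorem rank_add_le' {ι : Type*} [Fintype ι] [DecidableEq ι] (A B : Matrix ι ι F) :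
    (A + B).rank ≤ A.rank + B.rank := by
  unfold Matrix.rank
  rw [Matrix.mulVecLin_add]
  exact (Submodule.finrank_mono (LinearMap.range_add_le _ _)).trans
    (Submodule.finrank_add_le_finrank_add_finrank _ _)

/-- image in `V₁ ⊗ ⟨c,w⟩`; or `Helper13EluT.rank_one_kron` and `rank (XO) ≤ 2` -/
theorem rank_XO_le (D : SoDat F a b) (c w : Fin b → F) :
    ((1 : Ma) ⊗ₖ XO D c w).rank ≤ 2 * a := by
  rw [Cfsg.Agent.Lib.Helper13EluT.rank_one_kron]
  have h1 : XO D c w = Matrix.vecMulVec c (D.J₂ *ᵥ w - (bf D.J₂ w w / 2) • (D.J₂ *ᵥ c))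
      + Matrix.vecMulVec (-w) (D.J₂ *ᵥ c) := by
    unfold XO EO NJ
    rw [Matrix.vecMulVec_sub, Matrix.vecMulVec_smul, Matrix.neg_vecMulVec]
    abel
  have h2 : (XO D c w).rank ≤ 2 := by
    rw [h1]
    refine (rank_add_le' _ _).trans ?_
    have := Matrix.rank_vecMulVec_le c (D.J₂ *ᵥ w - (bf D.J₂ w w / 2) • (D.J₂ *ᵥ c))
    have := Matrix.rank_vecMulVec_le (-w) (D.J₂ *ᵥ c)
    omega
  calc a * (XO D c w).rank ≤ a * 2 := Nat.mul_le_mul_left _ h2
    _ = 2 * a := by ring

end Cfsg.Agent.Lib.H49URankLt
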