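import Cfsg.Agent.Lib.Helper49UDefs
import Cfsg.Agent.Lib.H49UFixS
import Cfsg.Agent.Lib.H49UMem
import Cfsg.Agent.Lib.H49UEOiso
import Cfsg.Agent.Lib.H49USing
import Cfsg.Agent.Lib.H49UBasic

/-!
# PROJECT 51 (Sp x O, part T2), piece `SylfixO`
-/

set_option autoImplicit false
set_option linter.unusedSectionVars false
set_option linter.unusedVariables false

namespace Cfsg.Agent.Lib.H49USylfixO

open scoped Matrix Kronecker
open Matrix Cfsg.Agent.Lib.Helper49TDefs Cfsg.Agent.Lib.Helper49SDefs Cfsg.Agent.Lib.Helper49ODefs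
  Cfsg.Agent.Lib.Helper49UDefs
open Cfsg.Agent.Lib.H49UFixS
open Cfsg.Agent.Lib.H49UMem
open Cfsg.Agent.Lib.H49UEOiso
open Cfsg.Agent.Lib.H49USing
open Cfsg.Agent.Lib.H49UBasic

variable {F : Type*} [Field F] {a b n : ℕ}

local notation "GLn" => Matrix.GeneralLinearGroup (Fin a × Fin b) F
local notation "Mn" => Matrix (Fin a × Fin b) (Fin a × Fin b) F
local notation "Ma" => Matrix (Fin a) (Fin a) F
local notation "Mb" => Matrix (Fin b) (Fin b) F
local notation "GLa" => Matrix.GeneralLinearGroup (Fin a) F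
local notation "GLb" => Matrix.GeneralLinearGroup (Fin b) F

theorem XO_mul' {J : Mb} (hJ : IsSymmMat J) {c w w' : Fin b → F} (hs : bf J c c = 0)
    (hw : bf J w c = 0) (hw' : bf J w' c = 0) :
    (EO J c w - 1) * (EO J c w' - 1) = (- bf J w' w) • NJ J c c := by
  have hcw : bf J c w = 0 := by rw [hJ.symm, hw]
  have e1 : EO J c w - 1 = NJ J c w - NJ J w c - (bf J w w / 2) • NJ J c c := by
    unfold EO; abel
  have e2 : EO J c w' - 1 = NJ J c w' - NJ J w' c - (bf J w' w' / 2) • NJ J c c := by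
    unfold EO; abel
  rw [e1, e2]
  simp only [sub_mul, mul_sub, smul_mul_assoc, mul_smul_comm, NJ_mul, hs, hcw, hw', zero_smul,
    smul_zero, sub_zero, zero_sub, neg_smul]

theorem XO_add' {J : Mb} (hJ : IsSymmMat J) (h2 : (2 : F) ≠ 0) (c w w' : Fin b → F) :
    (EO J c w - 1) + (EO J c w' - 1) + (- bf J w' w) • NJ J c c = EO J c (w + w') - 1 := by
  unfold EO
  simp only [NJ_add_left, NJ_add_right, bf_add_left, bf_add_right]
  rw [hJ.symm w w']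
  have : (bf J w w + bf J w' w + (bf J w' w + bf J w' w')) / 2
      = bf J w w / 2 + bf J w' w' / 2 + bf J w' w := by
    field_simp
    ring
  rw [this, add_smul, add_smul, neg_smul]
  abel

theorem EOk_mul {J : Mb} (hJ : IsSymmMat J) (h2 : (2 : F) ≠ 0) {c w w' : Fin b → F}
    (hs : bf J c c = 0) (hw : bf J w c = 0) (hw' : bf J w' c = 0) :
    ((1 : Mn) + (1 : Ma) ⊗ₖ (EO J c w - 1)) * (1 + (1 : Ma) ⊗ₖ (EO J c w' - 1))
      = 1 + (1 : Ma) ⊗ₖ (EO J c (w + w') - 1) := by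
  rw [add_mul, mul_add, mul_add, ← Matrix.mul_kronecker_mul, XO_mul' hJ hs hw hw', ← XO_add' hJ h2,
    Matrix.kronecker_add, Matrix.kronecker_add]
  simp only [mul_one, one_mul]
  abel

theorem one_add_kron (X : Mb) : (1 : Mn) + (1 : Ma) ⊗ₖ (X - 1) = (1 : Ma) ⊗ₖ X := by
  have : X = 1 + (X - 1) := by abel
  conv_rhs => rw [this, Matrix.kronecker_add, Matrix.one_kronecker_one]

theorem EO_zero' (J : Mb) (c : Fin b → F) : EO J c 0 - 1 = 0 := by
  simp [EO, NJ]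

/-- the group of the `1 ⊗ E(c,w)`, `w ⊥ c` -/
def ES {J : Mb} (hJ : IsSymmMat J) (h2 : (2 : F) ≠ 0) (c : Fin b → F) (hs : bf J c c = 0) :
    Subgroup GLn where
  carrier := {g | ∃ w : Fin b → F, bf J w c = 0 ∧ (g : Mn) = 1 + (1 : Ma) ⊗ₖ (EO J c w - 1)}
  mul_mem' := by
    rintro g h ⟨w, h1, e1⟩ ⟨w', h2', e2⟩
    refine ⟨w + w', by rw [bf_add_left, h1, h2', add_zero], ?_⟩
    rw [Units.val_mul, e1, e2, EOk_mul hJ h2 hs h1 h2']
  one_mem' := ⟨0, by simp, by rw [EO_zero']; simp⟩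
  inv_mem' := by
    rintro g ⟨w, h1, e1⟩
    refine ⟨-w, by rw [bf_neg_left, h1, neg_zero], ?_⟩
    rw [Units.inv_eq_of_mul_eq_one_right]
    rw [e1, EOk_mul hJ h2 hs h1 (by rw [bf_neg_left, h1, neg_zero]), add_neg_cancel, EO_zero']
    simp

theorem isPGroup_ES (p : ℕ) [Fact p.Prime] [CharP F p] {J : Mb} (hJ : IsSymmMat J)
    (h2 : (2 : F) ≠ 0) (c : Fin b → F) (hs : bf J c c = 0) :
    IsPGroup p (ES (a := a) hJ h2 c hs) := by
  rintro ⟨g, w, h1, e1⟩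
  refine ⟨1, ?_⟩
  apply Subtype.ext
  apply Units.ext
  have hpow : ∀ k : ℕ, ((1 : Mn) + (1 : Ma) ⊗ₖ (EO J c w - 1)) ^ k
      = 1 + (1 : Ma) ⊗ₖ (EO J c ((k : F) • w) - 1) := by
    intro k
    induction k with
    | zero => simp [EO_zero']
    | succ k ih =>
      rw [pow_succ, ih, EOk_mul hJ h2 hs (by rw [bf_smul_left, h1, mul_zero]) h1]
      congr 4
      rw [Nat.cast_succ, add_smul, one_smul]
  simp only [pow_one, Subgroup.coe_pow, Units.val_pow_eq_pow_val, Subgroup.coe_one, Units.val_one]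
  rw [e1, hpow, CharP.cast_eq_zero, zero_smul, EO_zero']
  simp

theorem ES_le (D : SoDat F a b) (c : Fin b → F) (hs : bf D.J₂ c c = 0) :
    ES (a := a) D.h₂ D.two c hs ≤ KS a b F ⊓ SG D := by
  rintro g ⟨w, h1, e1⟩
  obtain ⟨g₂, hg₂, eg₂, -⟩ := EO_iso D.h₂ D.two hs h1
  obtain ⟨m, hm, em, -⟩ := so2_mem D g₂ hg₂
  have : g = m := by
    apply Units.ext
    rw [e1, em, eg₂, one_add_kron]
  rw [this]; exact hm

/-- a `p`-subgroup of `M` of maximal order fixes only good vectors -/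
theorem card_lt_of_fixO [Fintype F] (D : SoDat F a b) (ha : 2 ≤ a) (hb : 3 ≤ b)
    (p : ℕ) [Fact p.Prime] [CharP F p] (P Q : Subgroup GLn)
    (hPmax : ∀ R : Subgroup GLn, R ≤ KS a b F ⊓ SG D → IsPGroup p R → Nat.card R ≤ Nat.card P)
    (hP : P ≤ KS a b F ⊓ SG D) (hPp : IsPGroup p P)
    (hQ : Q ≤ KS a b F ⊓ SG D) (hQp : IsPGroup p Q)
    (y : Fin a × Fin b → F) (hy : ¬ IsGood D y) (hfix : ∀ g ∈ Q, (g : Mn) *ᵥ y = y) :
    Nat.card Q < Nat.card P := by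
  classical
  rcases lt_or_eq_of_le (hPmax Q hQ hQp) with h | heq
  · exact h
  exfalso
  set M : Subgroup GLn := KS a b F ⊓ SG D with hM
  obtain ⟨c, hc, hs⟩ := exists_sing D.h₂ hb
  have hSM : ES (a := a) D.h₂ D.two c hs ≤ M := ES_le D c hs
  have hSp : IsPGroup p (ES (a := a) D.h₂ D.two c hs) := isPGroup_ES p D.h₂ D.two c hs
  obtain ⟨Q1, hQ1⟩ := IsPGroup.exists_le_sylow (hQp.comap_subtype (K := M))
  obtain ⟨S1, hS1⟩ := IsPGroup.exists_le_sylow (hSp.comap_subtype (K := M))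
  have hcard1 : Nat.card (Q1 : Subgroup M) ≤ Nat.card P := by
    have := hPmax ((Q1 : Subgroup M).map M.subtype) (Subgroup.map_subtype_le _)
      (Q1.isPGroup'.map _)
    rwa [Subgroup.card_map_of_injective M.subtype_injective] at this
  have hcard2 : Nat.card (Q.comap M.subtype) = Nat.card Q :=
    Nat.card_congr (Subgroup.subgroupOfEquivOfLe hQ).toEquiv
  have hQ1eq : Q.comap M.subtype = (Q1 : Subgroup M) :=
    Subgroup.eq_of_le_of_card_ge hQ1 (by rw [hcard2, heq]; exact hcard1)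
  obtain ⟨m, hm⟩ := MulAction.exists_smul_eq M Q1 S1
  have key : ∀ s ∈ ES (a := a) D.h₂ D.two c hs, ((m : GLn)⁻¹ * s * (m : GLn)) ∈ Q := by
    intro s hs'
    have h1 : (⟨s, hSM hs'⟩ : M) ∈ (S1 : Subgroup M) := hS1 hs'
    rw [← hm, Sylow.smul_def, Sylow.pointwise_smul_def,
      Subgroup.mem_pointwise_smul_iff_inv_smul_mem, ← hQ1eq] at h1
    simp only [MulAut.smul_def, MulAut.conj_apply, ← map_inv, inv_inv] at h1
    exact h1
  have hinv' : ((m : GLn) : Mn) * (((m : GLn)⁻¹ : GLn) : Mn) = 1 := by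
    rw [← Units.val_mul, mul_inv_cancel, Units.val_one]
  have hinv : (((m : GLn)⁻¹ : GLn) : Mn) * ((m : GLn) : Mn) = 1 := by
    rw [← Units.val_mul, inv_mul_cancel, Units.val_one]
  have hkill : ∀ w : Fin b → F, bf D.J₂ w c = 0 →
      ((1 : Ma) ⊗ₖ XO D c w) *ᵥ (((m : GLn) : Mn) *ᵥ y) = 0 := by
    intro w h1
    obtain ⟨g₂, hg₂, eg₂, -⟩ := EO_iso D.h₂ D.two hs h1
    obtain ⟨g', hg', e', -⟩ := so2_mem D g₂ hg₂
    have e'' : (g' : Mn) = 1 + (1 : Ma) ⊗ₖ (EO D.J₂ c w - 1) := by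
      rw [e', eg₂, one_add_kron]
    have hs' : g' ∈ ES (a := a) D.h₂ D.two c hs := ⟨w, h1, e''⟩
    have h3 := hfix _ (key g' hs')
    rw [Units.val_mul, Units.val_mul] at h3
    have h4 : ((m : GLn) : Mn) *ᵥ (((((m : GLn)⁻¹ : GLn) : Mn) * (g' : Mn) * ((m : GLn) : Mn)) *ᵥ y)
        = ((m : GLn) : Mn) *ᵥ y := by rw [h3]
    rw [Matrix.mulVec_mulVec, ← mul_assoc, ← mul_assoc, hinv', one_mul, ← Matrix.mulVec_mulVec,
      e'', Matrix.add_mulVec, Matrix.one_mulVec] at h4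
    exact add_eq_left.1 h4
  obtain ⟨u, hu⟩ := good_of_fixed D hb hc hs (((m : GLn) : Mn) *ᵥ y) hkill
  apply hy
  have hmM : ((m : GLn)⁻¹ : GLn) ∈ M := M.inv_mem m.2
  obtain ⟨g₁, g₂, e⟩ := hmM.1
  have hyeq : y = tens ((g₁ : Ma) *ᵥ u) ((g₂ : Mb) *ᵥ c) := by
    rw [← kron_mulVec_tens, ← e, ← hu, Matrix.mulVec_mulVec, hinv, Matrix.one_mulVec]
  by_cases hu0 : u = 0
  · refine ⟨0, 0, by simp, ?_⟩
    rw [hyeq, hu0]
    simp
  refine ⟨(g₁ : Ma) *ᵥ u, (g₂ : Mb) *ᵥ c, ?_, hyeq⟩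
  have hg1u : (g₁ : Ma) *ᵥ u ≠ 0 := by
    intro h0
    apply hu0
    have : ((g₁⁻¹ : GLa) : Ma) *ᵥ ((g₁ : Ma) *ᵥ u) = 0 := by rw [h0, Matrix.mulVec_zero]
    rwa [Matrix.mulVec_mulVec, ← Units.val_mul, inv_mul_cancel, Units.val_one, Matrix.one_mulVec] at this
  obtain ⟨z, hz⟩ := D.h₁.exists_ne_zero hg1u
  have h5 := hmM.2 (tens (((g₁⁻¹ : GLa) : Ma) *ᵥ z) c) (tens u c)
  rw [e, kron_mulVec_tens, kron_mulVec_tens, fK_tens, fK_tens, hs, mul_zero, Matrix.mulVec_mulVec,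
    ← Units.val_mul, mul_inv_cancel, Units.val_one, Matrix.one_mulVec, hz, one_mul] at h5
  exact h5

end Cfsg.Agent.Lib.H49USylfixO
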