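import Cfsg.Agent.Lib.Helper49UDefs
import Cfsg.Agent.Lib.H49URankLt
import Cfsg.Agent.Lib.H49UKillO
import Cfsg.Agent.Lib.H49USylfixO
import Cfsg.Agent.Lib.H49UMoveO
import Cfsg.Agent.Lib.H49UWittO
import Cfsg.Agent.Lib.H49UMem
import Cfsg.Agent.Lib.H49UEOiso
import Cfsg.Agent.Lib.H49UBasic
import Cfsg.Agent.Lib.Helper14TSylabs
import Cfsg.Agent.Lib.Helper14TPfix
import Cfsg.Agent.Lib.Helper95TStab
import Cfsg.Agent.Lib.Helper13TPure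

/-!
# PROJECT 51 (Sp x O, part T2), piece `StabO`
-/

set_option autoImplicit false
set_option linter.unusedSectionVars false
set_option linter.unusedVariables false

namespace Cfsg.Agent.Lib.H49UStabO

open scoped Matrix Kronecker
open Matrix Cfsg.Agent.Lib.Helper49TDefs Cfsg.Agent.Lib.Helper49SDefs Cfsg.Agent.Lib.Helper49ODefs
  Cfsg.Agent.Lib.Helper49UDefs
open Cfsg.Agent.Lib.H49URankLt
open Cfsg.Agent.Lib.H49UKillO
open Cfsg.Agent.Lib.H49USylfixO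
open Cfsg.Agent.Lib.H49UMoveO
open Cfsg.Agent.Lib.H49UWittO
open Cfsg.Agent.Lib.H49UMem
open Cfsg.Agent.Lib.H49UEOiso
open Cfsg.Agent.Lib.H49UBasic
open Cfsg.Agent.Lib.Helper14TSylabs
open Cfsg.Agent.Lib.Helper14TPfix
open Cfsg.Agent.Lib.Helper95TStab

variable {F : Type*} [Field F] {a b n : ℕ}

local notation "GLn" => Matrix.GeneralLinearGroup (Fin a × Fin b) F
local notation "Mn" => Matrix (Fin a × Fin b) (Fin a × Fin b) F
local notation "Ma" => Matrix (Fin a) (Fin a) F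
local notation "Mb" => Matrix (Fin b) (Fin b) F
local notation "GLa" => Matrix.GeneralLinearGroup (Fin a) F
local notation "GLb" => Matrix.GeneralLinearGroup (Fin b) F

/-- THE SYLOW TRICK: ADAPT `H49SStab.exists_stab2` / `Helper95TStab.exists_stab_of` (read them first).
`P` a `p`-subgroup of `M = KS ⊓ SG` of maximal order, `y₀ ≠ 0` fixed by `P` (`Helper14TPfix`), good by `card_lt_of_fixO`:
`y₀ = u₀ ⊗ c₀`.  `y = u ⊗ c` good with `y' = h y` not good; `m y₀ = y` (`exists_moveO`), `P' = (hm) P (hm)⁻¹ ≤ H ⊓ vstab y'`.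
`x = 1 ⊗ E(c₁,w) ∈ M` fixing `y'`, `f₂(w,w) ≠ 0` (`exists_EO_fix`, `EO_iso`, `so2_mem`), a `p`-element (`(x-1)³ = 0`, so `x^{p²} = 1`, or
`x^p = 1 ⊗ E(c₁, p w) = 1`).  `Helper14TSylabs.sylow_step` ⇒ `T₀ ≤ M ⊓ vstab y'`, `x ∈ T₀`, `t ∈ H ∖ M` with `t⁻¹ T₀ t ⊆ T₀`.
`x' = t⁻¹ x t ∈ KS`, `rank (x'-1) = rank (x-1) ≤ 2a < b` ⇒ `x' = 1 ⊗ s'` (`eq_one_kron_of_rank_lt`).
`t (1 ⊗ W) = (-f₂(w,w)) (1 ⊗ N(c₁,c₁)) t` with `W = (s'-1)² ≠ 0` (`XO_sq`); `c' := W v₀ ≠ 0`; `t(x ⊗ c') ∈ V₁ ⊗ c₁`, so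
`0 = f(t(x ⊗ c'), t(x' ⊗ c')) = f₁(x,x') f₂(c',c')`: `c'` singular.  `g c₁ = c'` (`exists_iso_sing`), `t · (1 ⊗ g) ∈ H ∖ KS` stabilises `V₁ ⊗ c₁`. -/
theorem exists_stabO [Fintype F] (D : SoDat F a b) (h1 : 2 ≤ a) (h12 : 2 * a < b)
    (H : Subgroup GLn) (hMH : KS a b F ⊓ SG D ≤ H) (hH : H ≤ SG D)
    (hbad : ∃ h ∈ H, ∃ y, IsGood D y ∧ ¬ IsGood D ((h : Mn) *ᵥ y)) :
    ∃ t ∈ H, t ∉ KS a b F ∧ ∃ c : Fin b → F, c ≠ 0 ∧ bf D.J₂ c c = 0 ∧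
      ∀ x, ∃ x', (t : Mn) *ᵥ tens x c = tens x' c := by
  classical
  obtain ⟨p, hpc⟩ := CharP.exists F
  have hpp : Fact p.Prime := ⟨CharP.char_is_prime F p⟩
  have hfin : Finite GLn := inferInstance
  have ha0 : 0 < a := by omega
  have hb0 : 0 < b := by omega
  have hne : Nonempty (Fin a × Fin b) := ⟨(⟨0, ha0⟩, ⟨0, hb0⟩)⟩
  have hp3 : 3 ≤ p := by
    have h2 : p ≠ 2 := by
      rintro rfl
      apply D.two
      have := CharP.cast_eq_zero F 2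
      simpa using this
    have := hpp.out.two_le
    omega
  set M : Subgroup GLn := KS a b F ⊓ SG D with hM
  -- a `p`-subgroup of `M` of maximal order
  obtain ⟨P, ⟨hPM, hPp⟩, hPmax'⟩ := Set.Finite.exists_maximalFor
    (fun R : Subgroup GLn => Nat.card R) {R : Subgroup GLn | R ≤ M ∧ IsPGroup p R}
    (Set.toFinite _) ⟨⊥, bot_le, IsPGroup.of_bot⟩
  have hPmax : ∀ R : Subgroup GLn, R ≤ M → IsPGroup p R → Nat.card R ≤ Nat.card P := by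
    intro R hR hRp
    rcases le_total (Nat.card R) (Nat.card P) with h | h
    · exact h
    · exact hPmax' ⟨hR, hRp⟩ h
  obtain ⟨y₀, hy₀, hfix₀⟩ := Cfsg.Agent.Lib.Helper14TPfix.exists_fixed p ha0 hb0 P hPp
  have hy₀p : IsGood D y₀ := by
    by_contra hcon
    exact lt_irrefl _ (card_lt_of_fixO D h1 (by omega) p P P hPmax hPM hPp hPM hPp y₀ hcon hfix₀)
  obtain ⟨u₀, c₀, hs₀, rfl⟩ := hy₀p
  have hu₀ : u₀ ≠ 0 := by
    rintro rfl
    exact hy₀ (tens_zero_left' _)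
  have hc₀ : c₀ ≠ 0 := by
    rintro rfl
    exact hy₀ (tens_zero_right' _)
  have hgood0 : IsGood D (0 : Fin a × Fin b → F) := ⟨0, 0, by simp, by simp⟩
  obtain ⟨h, hhH, y, hyp, hhy⟩ := hbad
  obtain ⟨u, c, hs, rfl⟩ := hyp
  have hu : u ≠ 0 := by
    rintro rfl
    rw [tens_zero_left', Matrix.mulVec_zero] at hhy
    exact hhy hgood0
  have hc : c ≠ 0 := by
    rintro rfl
    rw [tens_zero_right', Matrix.mulVec_zero] at hhy
    exact hhy hgood0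
  obtain ⟨m, hmM, hm⟩ := exists_moveO D hu₀ hu hc₀ hc hs₀ hs
  set g : GLn := h * m with hg
  have hgH : g ∈ H := H.mul_mem hhH (hMH hmM)
  set y' : Fin a × Fin b → F := (h : Mn) *ᵥ tens u c with hy'
  have hgy : (g : Mn) *ᵥ tens u₀ c₀ = y' := by
    rw [hg, Units.val_mul, ← Matrix.mulVec_mulVec, hm]
  set P' : Subgroup GLn := P.map (MulAut.conj g).toMonoidHom with hP'
  have hP'p : IsPGroup p P' := hPp.map _
  have hP'card : Nat.card P' = Nat.card P :=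
    Subgroup.card_map_of_injective (MulAut.conj g).injective
  have hP'le : P' ≤ H ⊓ Cfsg.Agent.Lib.Helper95TStab.vstab y' := by
    rintro _ ⟨x, hx, rfl⟩
    refine ⟨?_, ?_⟩
    · show g * x * g⁻¹ ∈ H
      exact H.mul_mem (H.mul_mem hgH (hMH (hPM hx))) (H.inv_mem hgH)
    · show ((g * x * g⁻¹ : GLn) : Mn) *ᵥ y' = y'
      rw [← hgy, Matrix.mulVec_mulVec, ← Units.val_mul, inv_mul_cancel_right, Units.val_mul,
        ← Matrix.mulVec_mulVec, hfix₀ x hx]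
  have hno : ∀ Q : Subgroup GLn, Q ≤ M ⊓ Cfsg.Agent.Lib.Helper95TStab.vstab y' → IsPGroup p Q →
      Nat.card Q < Nat.card P' := by
    intro Q hQ hQp
    rw [hP'card]
    exact card_lt_of_fixO D h1 (by omega) p P Q hPmax hPM hPp (fun x hx => (hQ hx).1) hQp y' hhy
      (fun x hx => (hQ hx).2)
  -- the root element
  obtain ⟨c₁, w, hc₁, hs₁, hwc, hww, hkill⟩ := exists_EO_fix D h1 h12 y'
  obtain ⟨e, heiso, heval, -⟩ := EO_iso D.h₂ D.two hs₁ hwc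
  obtain ⟨x, hxM, hxval, -⟩ := so2_mem D e heiso
  set B : Mn := (1 : Ma) ⊗ₖ XO D c₁ w with hB
  set k : F := - bf D.J₂ w w with hk
  have hk0 : k ≠ 0 := neg_ne_zero.2 hww
  set B2 : Mn := (1 : Ma) ⊗ₖ NJ D.J₂ c₁ c₁ with hB2
  have hxB : (x : Mn) = 1 + B := by
    rw [hxval, heval, hB]
    have e0 : (1 : Ma) ⊗ₖ (EO D.J₂ c₁ w - 1) + (1 : Ma) ⊗ₖ (1 : Mb) = (1 : Ma) ⊗ₖ EO D.J₂ c₁ w := by
      rw [← Matrix.kronecker_add, sub_add_cancel]
    rw [Matrix.one_kronecker_one] at e0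
    rw [← e0, add_comm]
  have hBB : B * B = k • B2 := by
    rw [hB, ← Matrix.mul_kronecker_mul, one_mul, XO_sq D.h₂ hs₁ hwc, Matrix.kronecker_smul]
  have hB2B : B2 * B = 0 := by
    rw [hB2, hB, ← Matrix.mul_kronecker_mul, one_mul]
    have : NJ D.J₂ c₁ c₁ * XO D c₁ w = 0 := by
      show NJ D.J₂ c₁ c₁ * (EO D.J₂ c₁ w - 1) = 0
      unfold EO
      have e1 : (1 + NJ D.J₂ c₁ w - NJ D.J₂ w c₁ - (bf D.J₂ w w / 2) • NJ D.J₂ c₁ c₁ - 1 : Mb)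
          = NJ D.J₂ c₁ w - NJ D.J₂ w c₁ - (bf D.J₂ w w / 2) • NJ D.J₂ c₁ c₁ := by abel
      rw [e1, mul_sub, mul_sub, mul_smul_comm, NJ_mul, NJ_mul, NJ_mul, hs₁, hwc]
      simp
    rw [this, Matrix.kronecker_zero]
  have hB3 : B ^ 3 = 0 := by
    rw [pow_succ, pow_two, hBB, smul_mul_assoc, hB2B, smul_zero]
  have hxS : x ∈ Cfsg.Agent.Lib.Helper95TStab.vstab y' := by
    rw [Cfsg.Agent.Lib.Helper95TStab.mem_vstab, hxB, Matrix.add_mulVec, Matrix.one_mulVec, hkill,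
      add_zero]
  have hxpow : x ^ p = 1 := by
    apply Units.ext
    rw [Units.val_pow_eq_pow_val, hxB, add_pow_char_of_commute p (Commute.one_left B), one_pow,
      Units.val_one]
    have : B ^ p = 0 := by
      obtain ⟨j, rfl⟩ := Nat.exists_eq_add_of_le hp3
      rw [pow_add, hB3, zero_mul]
    rw [this, add_zero]
  have hxp : IsPGroup p (Subgroup.zpowers x) := by
    rintro ⟨z, hz⟩
    obtain ⟨k, rfl⟩ := Subgroup.mem_zpowers_iff.1 hz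
    refine ⟨1, ?_⟩
    apply Subtype.ext
    show (x ^ k) ^ (p ^ 1) = 1
    rw [pow_one, ← zpow_natCast, ← _root_.zpow_mul, mul_comm, _root_.zpow_mul, zpow_natCast, hxpow,
      _root_.one_zpow]
  have hBr : B.rank ≤ 2 * a := rank_XO_le D c₁ w
  obtain ⟨T₀, t, hT₀, hxT, htH, htM, htn⟩ := Cfsg.Agent.Lib.Helper14TSylabs.sylow_step p H M
    (Cfsg.Agent.Lib.Helper95TStab.vstab y') P' hP'p hP'le hno x hxM (hMH hxM) hxS hxp
  -- the new end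
  have hinv' : (t : Mn) * ((t⁻¹ : GLn) : Mn) = 1 := by
    rw [← Units.val_mul, mul_inv_cancel, Units.val_one]
  have hinv : ((t⁻¹ : GLn) : Mn) * (t : Mn) = 1 := by
    rw [← Units.val_mul, inv_mul_cancel, Units.val_one]
  have hx'K : t⁻¹ * x * t ∈ KS a b F := (hT₀ (htn x hxT)).1.1
  have hx'val : ((t⁻¹ * x * t : GLn) : Mn) - 1 = ((t⁻¹ : GLn) : Mn) * B * (t : Mn) := by
    rw [Units.val_mul, Units.val_mul, hxB, mul_add, add_mul, mul_one, hinv, add_sub_cancel_left]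
  have hx'r : (((t⁻¹ * x * t : GLn) : Mn) - 1).rank < b := by
    rw [hx'val]
    exact lt_of_le_of_lt
      (((Matrix.rank_mul_le_left _ _).trans (Matrix.rank_mul_le_right _ _)).trans hBr) h12
  obtain ⟨s', hs'⟩ := eq_one_kron_of_rank_lt _ hx'K hx'r
  have e1 : (1 : Ma) ⊗ₖ ((s' : Mb) - 1) = ((t⁻¹ : GLn) : Mn) * B * (t : Mn) := by
    rw [← hx'val, hs']
    have e0 : (1 : Ma) ⊗ₖ ((s' : Mb) - 1) + (1 : Ma) ⊗ₖ (1 : Mb) = (1 : Ma) ⊗ₖ (s' : Mb) := by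
      rw [← Matrix.kronecker_add, sub_add_cancel]
    rw [Matrix.one_kronecker_one] at e0
    rw [← e0, add_sub_cancel_right]
  set W : Mb := ((s' : Mb) - 1) * ((s' : Mb) - 1) with hW
  -- `k B2 t = t (1 ⊗ W)`
  have hBt : (k • B2) * (t : Mn) = (t : Mn) * ((1 : Ma) ⊗ₖ W) := by
    have e2 : (1 : Ma) ⊗ₖ W = ((t⁻¹ : GLn) : Mn) * (B * B) * (t : Mn) := by
      have : (1 : Ma) ⊗ₖ W = ((1 : Ma) ⊗ₖ ((s' : Mb) - 1)) * ((1 : Ma) ⊗ₖ ((s' : Mb) - 1)) := by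
        rw [← Matrix.mul_kronecker_mul, one_mul]
      rw [this, e1]
      calc ((t⁻¹ : GLn) : Mn) * B * (t : Mn) * (((t⁻¹ : GLn) : Mn) * B * (t : Mn))
          = ((t⁻¹ : GLn) : Mn) * B * ((t : Mn) * ((t⁻¹ : GLn) : Mn)) * B * (t : Mn) := by
            simp only [mul_assoc]
        _ = ((t⁻¹ : GLn) : Mn) * (B * B) * (t : Mn) := by
            rw [hinv', mul_one]
            simp only [mul_assoc]
    rw [e2, ← mul_assoc, ← mul_assoc, hinv', one_mul, hBB]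
  obtain ⟨d, hd⟩ := D.h₂.exists_ne_zero hc₁
  have hW0 : W ≠ 0 := by
    intro h0
    rw [h0, Matrix.kronecker_zero, mul_zero] at hBt
    have hB0 : k • B2 = 0 := by
      have : (k • B2) * (t : Mn) * ((t⁻¹ : GLn) : Mn) = 0 := by rw [hBt, zero_mul]
      rwa [mul_assoc, hinv', mul_one] at this
    have hB0' : B2 = 0 := (smul_eq_zero.1 hB0).resolve_left hk0
    have h3 : B2 *ᵥ tens (Pi.single (⟨0, ha0⟩ : Fin a) (1 : F)) d = 0 := by
      rw [hB0', Matrix.zero_mulVec]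
    rw [hB2, kron_NJ_mulVec, ctr_J_tens, hd, one_smul, Matrix.one_mulVec] at h3
    have h4 := Cfsg.Agent.Lib.Helper13TPure.tens_eq_zero' h3 hc₁
    have := congrFun h4 ⟨0, ha0⟩
    simp at this
  obtain ⟨v₀, hv₀⟩ : ∃ v₀ : Fin b → F, W *ᵥ v₀ ≠ 0 := by
    by_contra hcon
    push Not at hcon
    apply hW0
    apply Matrix.toLin'.injective
    apply LinearMap.ext
    intro v
    rw [Matrix.toLin'_apply, hcon v]
    simp
  -- `t (z ⊗ c') ∈ V₁ ⊗ c₁`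
  have hmove : ∀ z, (t : Mn) *ᵥ tens z (W *ᵥ v₀)
      = tens (k • ctr (D.J₂ *ᵥ c₁) ((t : Mn) *ᵥ tens z v₀)) c₁ := by
    intro z
    have e2 : tens z (W *ᵥ v₀) = ((1 : Ma) ⊗ₖ W) *ᵥ tens z v₀ := by
      rw [kron_mulVec_tens, Matrix.one_mulVec]
    rw [e2, Matrix.mulVec_mulVec, ← hBt, ← Matrix.mulVec_mulVec, Matrix.smul_mulVec, hB2,
      kron_NJ_mulVec, Matrix.one_mulVec, tens_smul_left]
  have hs'' : bf D.J₂ (W *ᵥ v₀) (W *ᵥ v₀) = 0 := by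
    have hz0 : (Pi.single (⟨0, ha0⟩ : Fin a) (1 : F) : Fin a → F) ≠ 0 := by
      intro h0
      have := congrFun h0 ⟨0, ha0⟩
      simp at this
    obtain ⟨z, hz⟩ := D.h₁.exists_ne_zero hz0
    have h5 := hH htH (tens z (W *ᵥ v₀)) (tens (Pi.single (⟨0, ha0⟩ : Fin a) (1 : F)) (W *ᵥ v₀))
    rw [hmove, hmove, fK_tens, fK_tens, hs₁, mul_zero, hz, one_mul] at h5
    exact h5.symm
  obtain ⟨g₂, hg₂, hg₂c⟩ := exists_iso_sing D.h₂ D.two hc₁ hv₀ hs₁ hs''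
  obtain ⟨m₂, hm₂M, hm₂, _⟩ := so2_mem D g₂ hg₂
  refine ⟨t * m₂, H.mul_mem htH (hMH hm₂M), ?_, c₁, hc₁, hs₁, ?_⟩
  · intro hK
    apply htM
    refine ⟨?_, hH htH⟩
    have : t = (t * m₂) * m₂⁻¹ := by group
    rw [this]
    exact (KS a b F).mul_mem hK ((KS a b F).inv_mem hm₂M.1)
  · intro z
    refine ⟨k • ctr (D.J₂ *ᵥ c₁) ((t : Mn) *ᵥ tens z v₀), ?_⟩
    rw [Units.val_mul, ← Matrix.mulVec_mulVec, hm₂, kron_mulVec_tens, Matrix.one_mulVec, hg₂c]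
    exact hmove z

end Cfsg.Agent.Lib.H49UStabO
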