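import Cfsg.Agent.Lib.Helper49UDefs
import Cfsg.Agent.Lib.H49UBasic

/-!
# PROJECT 51 (Sp x O, part T2), piece `StageE`
-/

set_option autoImplicit false
set_option linter.unusedSectionVars false
set_option linter.unusedVariables false

namespace Cfsg.Agent.Lib.H49UStageE

open scoped Matrix Kronecker
open Matrix Cfsg.Agent.Lib.Helper49TDefs Cfsg.Agent.Lib.Helper49SDefs Cfsg.Agent.Lib.Helper49ODefs
  Cfsg.Agent.Lib.Helper49UDefs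
open Cfsg.Agent.Lib.H49UBasic

variable {F : Type*} [Field F] {a b n : ℕ}

local notation "GLn" => Matrix.GeneralLinearGroup (Fin a × Fin b) F
local notation "Mn" => Matrix (Fin a × Fin b) (Fin a × Fin b) F
local notation "Ma" => Matrix (Fin a) (Fin a) F
local notation "Mb" => Matrix (Fin b) (Fin b) F
local notation "GLa" => Matrix.GeneralLinearGroup (Fin a) F
local notation "GLb" => Matrix.GeneralLinearGroup (Fin b) F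

/-- `f₁(ctr_{e''}(t(x ⊗ v₀)), x'') = f(t(x ⊗ v₀), x'' ⊗ e'') = f(x ⊗ v₀, t⁻¹(x'' ⊗ e'')) = f₁(x, βx'') f₂(v₀, e)`
(`hK'`, `SG_f_inv`, `f_swap`) and `f₁(x, βx'') = μ⁻¹ f₁(αx, αβx'') = μ⁻¹ f₁(αx, x'')`.  So `k = μ⁻¹ f₂(v₀,e)`
(`D.h₁.eq_zero_of_left`). -/
theorem stageE (D : SoDat F a b) {t : GLn} (ht : t ∈ SG D) {c : Fin b → F} {α β : Ma}
    (hαβ : α * β = 1) {μ : F} (hμ : μ ≠ 0)
    (hsim : ∀ x y, bf D.J₁ (α *ᵥ x) (α *ᵥ y) = μ * bf D.J₁ x y)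
    (hK' : ∀ e, bf D.J₂ e c = 0 → ∃ e₁, bf D.J₂ e₁ c = 0 ∧
      ∀ x, ((t⁻¹ : GLn) : Mn) *ᵥ tens x e = tens (β *ᵥ x) e₁) (v₀ : Fin b → F) :
    ∀ e'', bf D.J₂ e'' c = 0 → ∃ k : F, ∀ x,
      ctr (D.J₂ *ᵥ e'') ((t : Mn) *ᵥ tens x v₀) = k • (α *ᵥ x) := by
  intro e'' he''
  obtain ⟨e₁, -, he₁⟩ := hK' e'' he''
  refine ⟨μ⁻¹ * bf D.J₂ e₁ v₀, fun x => ?_⟩
  rw [← sub_eq_zero]
  apply D.h₁.eq_zero_of_left
  intro x''
  rw [bf_sub_left, bf_smul_left, ← f_ctr, f_swap, ← SG_f_inv D ht, he₁]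
  have h1 : D.f (tens (β *ᵥ x'') e₁) (tens x v₀) = bf D.J₁ (β *ᵥ x'') x * bf D.J₂ e₁ v₀ :=
    fK_tens _ _ _ _ _ _
  have h2 := hsim x (β *ᵥ x'')
  rw [Matrix.mulVec_mulVec, hαβ, Matrix.one_mulVec] at h2
  rw [h1, h2, D.h₁.swap (β *ᵥ x'') x]
  field_simp
  ring

end Cfsg.Agent.Lib.H49UStageE
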