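import Cfsg.Agent.Lib.Helper49UDefs
import Cfsg.Agent.Lib.H49UBasic
import Cfsg.Agent.Lib.H49UGeoO
import Cfsg.Agent.Lib.H49SGeo

/-!
# PROJECT 51 (Sp x O, part T2), piece `StageF`
-/

set_option autoImplicit false
set_option linter.unusedSectionVars false
set_option linter.unusedVariables false

namespace Cfsg.Agent.Lib.H49UStageF

open scoped Matrix Kronecker
open Matrix Cfsg.Agent.Lib.Helper49TDefs Cfsg.Agent.Lib.Helper49SDefs Cfsg.Agent.Lib.Helper49ODefs
  Cfsg.Agent.Lib.Helper49UDefs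
open Cfsg.Agent.Lib.H49UBasic
open Cfsg.Agent.Lib.H49UGeoO
open Cfsg.Agent.Lib.H49SGeo

variable {F : Type*} [Field F] {a b n : ℕ}

local notation "GLn" => Matrix.GeneralLinearGroup (Fin a × Fin b) F
local notation "Mn" => Matrix (Fin a × Fin b) (Fin a × Fin b) F
local notation "Ma" => Matrix (Fin a) (Fin a) F
local notation "Mb" => Matrix (Fin b) (Fin b) F
local notation "GLa" => Matrix.GeneralLinearGroup (Fin a) F
local notation "GLb" => Matrix.GeneralLinearGroup (Fin b) F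

theorem stageF (D : SoDat F a b) (ha : 0 < a) {t : GLn} (ht : t ∈ SG D) {c : Fin b → F}
    (hc : c ≠ 0) (hs : bf D.J₂ c c = 0) {α β : Ma} (L : LayO D t c α β)
    (hK : ∀ e, bf D.J₂ e c = 0 → ∃ e₁, bf D.J₂ e₁ c = 0 ∧
      ∀ x, (t : Mn) *ᵥ tens x e = tens (α *ᵥ x) e₁)
    (d w₁ : Fin b → F) (η : Ma) (hd : bf D.J₂ d c = 1)
    (htd : ∀ x, (t : Mn) *ᵥ tens x d = tens (α *ᵥ x) w₁ + tens (η *ᵥ x) c) :
    ∃ (g : Mb) (l : F), l ≠ 0 ∧ (t : Mn) = α ⊗ₖ g + η ⊗ₖ NJ D.J₂ c c ∧
      NJ D.J₂ c c * g = l • NJ D.J₂ c c := by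
  classical
  have hβα : β * α = 1 := mul_eq_one_comm.1 L.inv
  set x₀ : Fin a → F := Pi.single ⟨0, ha⟩ 1 with hx₀
  have hx₀0 : x₀ ≠ 0 := by
    intro h
    have := congrFun h ⟨0, ha⟩
    simp [hx₀] at this
  have hαx : α *ᵥ x₀ ≠ 0 := by
    intro h0
    apply hx₀0
    have : β *ᵥ (α *ᵥ x₀) = 0 := by rw [h0, Matrix.mulVec_zero]
    rwa [Matrix.mulVec_mulVec, hβα, Matrix.one_mulVec] at this
  obtain ⟨i, hi⟩ : ∃ i, (α *ᵥ x₀) i ≠ 0 := by
    by_contra hcon
    push Not at hcon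
    exact hαx (funext hcon)
  let γ : (Fin b → F) →ₗ[F] (Fin b → F) :=
    { toFun := fun v j => ((t : Mn) *ᵥ tens x₀ v) (i, j) * ((α *ᵥ x₀) i)⁻¹
      map_add' := fun v v' => by
        funext j
        simp only [tens_add_right, Matrix.mulVec_add, Pi.add_apply, add_mul]
      map_smul' := fun k v => by
        funext j
        simp only [tens_smul_right, Matrix.mulVec_smul, Pi.smul_apply, smul_eq_mul,
          RingHom.id_apply, mul_assoc] }
  have hγe : ∀ e, bf D.J₂ e c = 0 → bf D.J₂ (γ e) c = 0 ∧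
      ∀ x, (t : Mn) *ᵥ tens x e = tens (α *ᵥ x) (γ e) := by
    intro e he
    obtain ⟨e', he'c, he'⟩ := hK e he
    have : γ e = e' := by
      funext j
      change ((t : Mn) *ᵥ tens x₀ e) (i, j) * ((α *ᵥ x₀) i)⁻¹ = e' j
      rw [he' x₀]
      simp only [tens]
      field_simp
    rw [this]
    exact ⟨he'c, he'⟩
  let gl : (Fin b → F) →ₗ[F] (Fin b → F) :=
    { toFun := fun v => γ (v - bf D.J₂ v c • d) + bf D.J₂ v c • w₁
      map_add' := fun v v' => by
        simp only [bf_add_left, add_smul]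
        rw [← add_add_add_comm, ← map_add]
        congr 2
        abel
      map_smul' := fun k v => by
        simp only [bf_smul_left, RingHom.id_apply, smul_add, ← map_smul, smul_sub, smul_smul] }
  have hgl : ∀ v, gl v = γ (v - bf D.J₂ v c • d) + bf D.J₂ v c • w₁ := fun v => rfl
  have hperp : ∀ v, bf D.J₂ (v - bf D.J₂ v c • d) c = 0 := by
    intro v
    rw [bf_sub_left, bf_smul_left, hd, mul_one, sub_self]
  refine ⟨LinearMap.toMatrix' gl, bf D.J₂ w₁ c, ?_, ?_, ?_⟩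
  · intro hl
    obtain ⟨x, hx⟩ := D.h₁.exists_ne_zero hx₀0
    have h1 := ht (tens x d) (tens x₀ c)
    rw [htd, L.bot, fK_add_left, fK_tens, fK_tens, fK_tens, hl, hs, hx, hd] at h1
    simp at h1
  · apply ext_tens
    intro x v
    rw [Matrix.add_mulVec, kron_mulVec_tens, kron_mulVec_tens, NJ_mulVec,
      ← Matrix.toLin'_apply (LinearMap.toMatrix' gl), Matrix.toLin'_toMatrix', hgl]
    have hv : v = (v - bf D.J₂ v c • d) + bf D.J₂ v c • d := by abel
    conv_lhs => rw [hv]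
    rw [tens_add_right, Matrix.mulVec_add, (hγe _ (hperp v)).2, tens_smul_right,
      Matrix.mulVec_smul, htd, tens_add_right, tens_smul_right, tens_smul_right, smul_add]
    abel
  · apply Matrix.toLin'.injective
    apply LinearMap.ext
    intro v
    simp only [Matrix.toLin'_apply, ← Matrix.mulVec_mulVec, NJ_mulVec, Matrix.smul_mulVec]
    rw [← Matrix.toLin'_apply (LinearMap.toMatrix' gl), Matrix.toLin'_toMatrix', hgl, bf_add_left,
      (hγe _ (hperp v)).1, bf_smul_left, zero_add, smul_smul, mul_comm]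

end Cfsg.Agent.Lib.H49UStageF
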