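import Cfsg.Agent.Lib.Helper49UDefs
import Cfsg.Agent.Lib.H49UBasic

/-!
# PROJECT 51 (Sp x O, part T2), piece `SkewIso`
-/

set_option autoImplicit false
set_option linter.unusedSectionVars false
set_option linter.unusedVariables false

namespace Cfsg.Agent.Lib.H49USkewIso

open scoped Matrix Kronecker
open Matrix Cfsg.Agent.Lib.Helper49TDefs Cfsg.Agent.Lib.Helper49SDefs Cfsg.Agent.Lib.Helper49ODefs
  Cfsg.Agent.Lib.Helper49UDefs
open Cfsg.Agent.Lib.H49UBasic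

variable {F : Type*} [Field F] {a b n : ℕ}

local notation "GLn" => Matrix.GeneralLinearGroup (Fin a × Fin b) F
local notation "Mn" => Matrix (Fin a × Fin b) (Fin a × Fin b) F
local notation "Ma" => Matrix (Fin a) (Fin a) F
local notation "Mb" => Matrix (Fin b) (Fin b) F
local notation "GLa" => Matrix.GeneralLinearGroup (Fin a) F
local notation "GLb" => Matrix.GeneralLinearGroup (Fin b) F

/-- `1 + ζ ⊗ N(c,c)` is an isometry if `ζ` is skew-adjoint and `c` singular (`mem_SG_of_tens`, `kron_NJ_mulVec`/`kron_mulVec_tens`) -/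
theorem skew_mem (D : SoDat F a b) {c : Fin b → F} (hs : bf D.J₂ c c = 0) (ζ : Ma)
    (hζ : ∀ x y, bf D.J₁ (ζ *ᵥ x) y + bf D.J₁ x (ζ *ᵥ y) = 0) :
    ∃ g ∈ SG D, (g : Mn) = 1 + ζ ⊗ₖ NJ D.J₂ c c ∧
      ((g⁻¹ : GLn) : Mn) = 1 - ζ ⊗ₖ NJ D.J₂ c c := by
  have h : (ζ ⊗ₖ NJ D.J₂ c c) * (ζ ⊗ₖ NJ D.J₂ c c) = 0 := by
    rw [← Matrix.mul_kronecker_mul, NJ_mul, hs, zero_smul, Matrix.kronecker_zero]
  let g : GLn :=
    { val := 1 + ζ ⊗ₖ NJ D.J₂ c c
      inv := 1 - ζ ⊗ₖ NJ D.J₂ c c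
      val_inv := by
        rw [mul_sub, add_mul, add_mul, one_mul, mul_one, one_mul, h]
        abel
      inv_val := by
        rw [mul_add, sub_mul, sub_mul, one_mul, mul_one, one_mul, h]
        abel }
  refine ⟨g, ?_, rfl, rfl⟩
  apply mem_SG_of_tens
  intro x x' v v'
  change D.f ((1 + ζ ⊗ₖ NJ D.J₂ c c) *ᵥ tens x v) ((1 + ζ ⊗ₖ NJ D.J₂ c c) *ᵥ tens x' v') = _
  simp only [Matrix.add_mulVec, Matrix.one_mulVec, kron_mulVec_tens, NJ_mulVec, fK_add_left,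
    fK_add_right, fK_tens, bf_smul_left, bf_smul_right, hs]
  have h1 := hζ x x'
  have h2 : bf D.J₂ c v' = bf D.J₂ v' c := D.h₂.symm _ _
  rw [h2]
  linear_combination (bf D.J₂ v c * bf D.J₂ v' c) * h1

/-- conversely (`d` with `f₂(d,c) = 1`, evaluate on `x ⊗ d`, `y ⊗ d`) -/
theorem skew_of_mem (D : SoDat F a b) {c : Fin b → F} (hc : c ≠ 0) (hs : bf D.J₂ c c = 0)
    (ζ : Ma) {g : GLn} (hg : g ∈ SG D) (hgz : (g : Mn) = 1 + ζ ⊗ₖ NJ D.J₂ c c) :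
    ∀ x y, bf D.J₁ (ζ *ᵥ x) y + bf D.J₁ x (ζ *ᵥ y) = 0 := by
  intro x y
  obtain ⟨d, hd⟩ := D.h₂.exists_ne_zero hc
  have h := hg (tens x d) (tens y d)
  rw [hgz] at h
  simp only [Matrix.add_mulVec, Matrix.one_mulVec, kron_mulVec_tens, NJ_mulVec, fK_add_left,
    fK_add_right, fK_tens, bf_smul_left, bf_smul_right, hs, hd] at h
  have h2 : bf D.J₂ c d = 1 := by rw [D.h₂.symm, hd]
  rw [h2] at h
  linear_combination h

end Cfsg.Agent.Lib.H49USkewIso
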