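import Cfsg.Agent.Lib.Helper49UDefs
import Cfsg.Agent.Lib.H49UAlgSplit
import Cfsg.Agent.Lib.H49USkewIso
import Cfsg.Agent.Lib.H49UBasic
import Cfsg.Agent.Lib.H49SKronKS

/-!
# PROJECT 51 (Sp x O, part T2), piece `StageG`
-/

set_option autoImplicit false
set_option linter.unusedSectionVars false
set_option linter.unusedVariables false

namespace Cfsg.Agent.Lib.H49UStageG

open scoped Matrix Kronecker
open Matrix Cfsg.Agent.Lib.Helper49TDefs Cfsg.Agent.Lib.Helper49SDefs Cfsg.Agent.Lib.Helper49ODefs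
  Cfsg.Agent.Lib.Helper49UDefs
open Cfsg.Agent.Lib.H49UAlgSplit
open Cfsg.Agent.Lib.H49USkewIso
open Cfsg.Agent.Lib.H49UBasic
open Cfsg.Agent.Lib.H49SKronKS

variable {F : Type*} [Field F] {a b n : ℕ}

local notation "GLn" => Matrix.GeneralLinearGroup (Fin a × Fin b) F
local notation "Mn" => Matrix (Fin a × Fin b) (Fin a × Fin b) F
local notation "Ma" => Matrix (Fin a) (Fin a) F
local notation "Mb" => Matrix (Fin b) (Fin b) F
local notation "GLa" => Matrix.GeneralLinearGroup (Fin a) F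
local notation "GLb" => Matrix.GeneralLinearGroup (Fin b) F

/-- `ζ := l⁻¹ • η β = k + ζ_a` (`alg_split`).  `u = 1 + ζ_a ⊗ N(c,c) ∈ SG` (`skew_mem`), and
`u⁻¹ t = (1 - ζ_a ⊗ N)(α ⊗ g + η ⊗ N) = α ⊗ g + (η - l ζ_a α) ⊗ N = α ⊗ (g + (l k) • N)` (`N² = 0`, `N g = l N`, `η = l ζ α`), so
`u⁻¹ t ∈ KS ⊓ SG ≤ H` (`H49SKronKS.mem_KS_of_kron`) and `u ∈ H`.  If `ζ_a = 0` then `t ∈ KS`; otherwise `HasZ`
(`(ζ_a ⊗ N)² = 0`). -/
theorem stageG (D : SoDat F a b) (ha2 : a = 2) (H : Subgroup GLn)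
    (hMH : KS a b F ⊓ SG D ≤ H) (hH : H ≤ SG D) {t : GLn} (ht : t ∈ H) (htK : t ∉ KS a b F)
    {c : Fin b → F} (hc : c ≠ 0) (hs : bf D.J₂ c c = 0) {α β η : Ma} (hαβ : α * β = 1) (g : Mb)
    {l : F} (hl : l ≠ 0) (hform : (t : Mn) = α ⊗ₖ g + η ⊗ₖ NJ D.J₂ c c)
    (hNg : NJ D.J₂ c c * g = l • NJ D.J₂ c c) : HasZ D H := by
  obtain ⟨k, ζa, hζ, hskew⟩ := alg_split D.h₁ D.two ha2 (l⁻¹ • (η * β))
  obtain ⟨u, huS, hu, hui⟩ := skew_mem D hs ζa hskew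
  have hβα : β * α = 1 := mul_eq_one_comm.1 hαβ
  have hNN : NJ D.J₂ c c * NJ D.J₂ c c = 0 := by rw [NJ_mul, hs, zero_smul]
  have hη : η = (l * k) • α + l • (ζa * α) := by
    have h1 : (l⁻¹ • (η * β)) * α = l⁻¹ • η := by
      rw [smul_mul_assoc, mul_assoc, hβα, mul_one]
    rw [hζ, add_mul, smul_mul_assoc, one_mul] at h1
    have h2 : l • (k • α + ζa * α) = l • (l⁻¹ • η) := by rw [h1]
    rw [smul_smul, mul_inv_cancel₀ hl, one_smul, smul_add, smul_smul] at h2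
    exact h2.symm
  have hprod : ((u⁻¹ * t : GLn) : Mn) = α ⊗ₖ (g + (l * k) • NJ D.J₂ c c) := by
    rw [Units.val_mul, hui, hform, sub_mul, one_mul, mul_add, ← Matrix.mul_kronecker_mul,
      ← Matrix.mul_kronecker_mul, hNN, hNg, Matrix.kronecker_zero, add_zero,
      Matrix.kronecker_add, Matrix.kronecker_smul, Matrix.kronecker_smul]
    conv_lhs => rw [hη]
    rw [Matrix.add_kronecker, Matrix.smul_kronecker, Matrix.smul_kronecker]
    abel
  have hK : u⁻¹ * t ∈ KS a b F := mem_KS_of_kron _ _ _ hprod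
  have hS : u⁻¹ * t ∈ SG D := (SG D).mul_mem ((SG D).inv_mem huS) (hH ht)
  have hmem : u⁻¹ * t ∈ H := hMH ⟨hK, hS⟩
  have huH : u ∈ H := by
    have h1 : t * (u⁻¹ * t)⁻¹ ∈ H := H.mul_mem ht (H.inv_mem hmem)
    have h2 : t * (u⁻¹ * t)⁻¹ = u := by group
    rwa [h2] at h1
  have hζa : ζa ≠ 0 := by
    intro h0
    apply htK
    have hu1 : u = 1 := by
      apply Units.ext
      rw [hu, h0, Matrix.zero_kronecker, add_zero, Units.val_one]
    rw [hu1, inv_one, one_mul] at hK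
    exact hK
  refine ⟨c, ζa, hc, hs, hζa, ?_, u, huH, hu⟩
  rw [← Matrix.mul_kronecker_mul, hNN, Matrix.kronecker_zero]

end Cfsg.Agent.Lib.H49UStageG
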