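import Mathlib
import Cfsg.Agent.Lib.Helper48Trunc

set_option autoImplicit false

namespace Cfsg.Agent.Lib.Helper48Chain

open Module Polynomial Cfsg.Agent.Lib.Helper48Trunc

universe u

variable {F : Type u} [Field F] {V : Type*} [AddCommGroup V] [Module F V]

/-- chain basis condition -/
def IsChainBasis {ι : Type*} (e : ι → ℕ) (N : End F V) (b : Basis (Σ i, Fin (e i)) F V) : Prop :=
  ∀ (i : ι) (j : Fin (e i)), N (b ⟨i, j⟩) = if h : (j : ℕ) + 1 < e i then b ⟨i, ⟨j + 1, h⟩⟩ else 0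

theorem dfinsupp_basis_apply {ι : Type*} [DecidableEq ι] {R : Type*} {M : ι → Type*} [Semiring R]
    [∀ i, AddCommMonoid (M i)] [∀ i, Module R (M i)] {η : ι → Type*}
    (b : ∀ i, Basis (η i) R (M i)) (i : ι) (j : η i) :
    DFinsupp.basis b ⟨i, j⟩ = DFinsupp.single i (b i j) := by
  classical
  rw [Basis.apply_eq_iff]
  ext x
  obtain ⟨i', j'⟩ := x
  by_cases h : i = i'
  · subst h
    simp [DFinsupp.basis, Finsupp.single_apply]
  · simp [DFinsupp.basis, h]

open DirectSum in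
theorem exists_chain [FiniteDimensional F V] (N : End F V) (hN : IsNilpotent N) :
    ∃ (ι : Type u) (_ : Fintype ι) (e : ι → ℕ) (b : Basis (Σ i, Fin (e i)) F V),
      IsChainBasis e N b := by
  classical
  obtain ⟨m, hm⟩ := hN
  have htors : Module.IsTorsion F[X] (Module.AEval' N) :=
    Module.AEval.isTorsion_of_finiteDimensional F V N
  obtain ⟨ι, _, p, hp, e, ⟨φ⟩⟩ := Module.equiv_directSum_of_isTorsion htors
  have hann : ∀ x : AEval' N, (X ^ m : F[X]) • x = 0 := by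
    intro x
    obtain ⟨v, rfl⟩ := (AEval.of F V N).surjective x
    rw [← AEval.of_aeval_smul]
    simp [hm]
  have hdvd : ∀ i, p i ^ e i ∣ X ^ m := by
    intro i
    have h1 := hann (φ.symm (DirectSum.lof F[X] ι (fun i => F[X] ⧸ F[X] ∙ (p i ^ e i)) i (Submodule.Quotient.mk 1)))
    have h2 := congrArg φ h1
    rw [map_smul, LinearEquiv.apply_symm_apply, map_zero, ← map_smul] at h2
    have h3 : (X ^ m : F[X]) • (Submodule.Quotient.mk 1 : F[X] ⧸ F[X] ∙ (p i ^ e i)) = 0 := by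
      apply DirectSum.of_injective (β := fun i => F[X] ⧸ F[X] ∙ (p i ^ e i)) i
      rw [map_zero]
      exact h2
    have h4 : (Submodule.Quotient.mk (X ^ m : F[X]) : F[X] ⧸ F[X] ∙ (p i ^ e i)) = 0 := by
      rw [← h3, ← Submodule.Quotient.mk_smul, smul_eq_mul, mul_one]
    rw [Submodule.Quotient.mk_eq_zero, Submodule.mem_span_singleton] at h4
    obtain ⟨a, ha⟩ := h4
    exact ⟨a, by rw [← ha, smul_eq_mul, mul_comm]⟩
  have hideal : ∀ i, F[X] ∙ (p i ^ e i) = Ideal.span {(X ^ e i : F[X])} := by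
    intro i
    rcases Nat.eq_zero_or_pos (e i) with h0 | h0
    · rw [h0, pow_zero, pow_zero]
    · have h1 : p i ∣ X ^ m := dvd_trans (dvd_pow_self _ h0.ne') (hdvd i)
      have h2 : p i ∣ X := (hp i).prime.dvd_of_dvd_pow h1
      have h3 : Associated (p i) X := (hp i).associated_of_dvd irreducible_X h2
      exact Ideal.span_singleton_eq_span_singleton.2 (h3.pow_pow)
  let ψ : ∀ i, (F[X] ⧸ F[X] ∙ (p i ^ e i)) ≃ₗ[F[X]] (F[X] ⧸ Ideal.span {(X ^ e i : F[X])}) := fun i =>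
    Submodule.quotEquivOfEq _ _ (hideal i)
  let Φ : AEval' N ≃ₗ[F[X]] ⨁ i, (F[X] ⧸ Ideal.span {(X ^ e i : F[X])}) :=
    φ.trans (DFinsupp.mapRange.linearEquiv ψ)
  let ΦF : V ≃ₗ[F] ⨁ i, (F[X] ⧸ Ideal.span {(X ^ e i : F[X])}) :=
    (AEval.of F V N).trans (Φ.restrictScalars F)
  let bq : ∀ i, Basis (Fin (e i)) F (F[X] ⧸ Ideal.span {(X ^ e i : F[X])}) := fun i => bb F (e i)
  let B : Basis (Σ i, Fin (e i)) F (⨁ i, (F[X] ⧸ Ideal.span {(X ^ e i : F[X])})) :=
    DFinsupp.basis bq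
  refine ⟨ι, inferInstance, e, B.map ΦF.symm, ?_⟩
  intro i j
  have hB : ∀ (i : ι) (j : Fin (e i)), B ⟨i, j⟩ = DFinsupp.single i (bq i j) := fun i j =>
    dfinsupp_basis_apply bq i j
  have hΦN : ∀ v, ΦF (N v) = (X : F[X]) • ΦF v := by
    intro v
    change Φ (AEval.of F V N (N v)) = (X : F[X]) • Φ (AEval.of F V N v)
    rw [← map_smul, AEval.X_smul_of]
    rfl
  rw [Basis.map_apply, hB]
  apply ΦF.injective
  rw [hΦN, LinearEquiv.apply_symm_apply]
  have hX : (X : F[X]) • (bq i j) = if h : (j : ℕ) + 1 < e i then bq i ⟨j + 1, h⟩ else 0 := by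
    have h1 : bq i j = (xx F (e i)) ^ (j : ℕ) := bb_apply F (e i) j
    have hsm : ∀ r : F[X] ⧸ Ideal.span {(X ^ e i : F[X])},
        (X : F[X]) • r = Ideal.Quotient.mk _ X * r := by
      intro r
      obtain ⟨r, rfl⟩ := Ideal.Quotient.mk_surjective r
      rfl
    have h2 : (X : F[X]) • (bq i j) = (xx F (e i)) ^ ((j : ℕ) + 1) := by
      rw [hsm, h1]
      exact (pow_succ' (xx F (e i)) j).symm
    rw [h2]
    split_ifs with h
    · exact (bb_apply F (e i) ⟨j + 1, h⟩).symm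
    · have h3 : (j : ℕ) + 1 = e i := by have := j.2; omega
      rw [h3, xx_pow]
      rfl
  rw [← DFinsupp.single_smul, hX]
  split_ifs with h
  · rw [Basis.map_apply, LinearEquiv.apply_symm_apply, hB]
  · rw [DFinsupp.single_zero, map_zero]

end Cfsg.Agent.Lib.Helper48Chain
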