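import Mathlib
import Cfsg.Agent.Lib.Helper48Chain

set_option autoImplicit false

namespace Cfsg.Agent.Lib.Helper48Chain2

open Module Cfsg.Agent.Lib.Helper48Chain

universe u

variable {F : Type u} [Field F] {V : Type*} [AddCommGroup V] [Module F V]

theorem chain_pow {ι : Type*} {e : ι → ℕ} {N : End F V} {b : Basis (Σ i, Fin (e i)) F V}
    (h : IsChainBasis e N b) (k : ℕ) (i : ι) (j : Fin (e i)) :
    (N ^ k) (b ⟨i, j⟩) = if h : (j : ℕ) + k < e i then b ⟨i, ⟨j + k, h⟩⟩ else 0 := by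
  induction k with
  | zero => simp
  | succ k ih =>
    rw [pow_succ', Module.End.mul_apply, ih]
    split_ifs with h1 h2 h2
    · rw [h i ⟨j + k, h1⟩, dif_pos (by simpa [add_assoc] using h2)]
      rfl
    · rw [h i ⟨j + k, h1⟩, dif_neg (by simpa [add_assoc] using h2)]
    · omega
    · rw [map_zero]

theorem card_filter_le {ι : Type*} [Fintype ι] (e : ι → ℕ) (k : ℕ) :
    Fintype.card {x : Σ i, Fin (e i) // k ≤ (x.2 : ℕ)} = ∑ i, (e i - k) := by
  classical
  rw [Fintype.card_subtype, Finset.card_filter, Fintype.sum_sigma]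
  apply Finset.sum_congr rfl
  intro i _
  rw [← Finset.card_filter, ← Fintype.card_subtype]
  have : Fintype.card {j : Fin (e i) // k ≤ (j : ℕ)} = Fintype.card (Fin (e i - k)) := by
    apply Fintype.card_congr
    refine ⟨fun j => ⟨j.1 - k, by have := j.1.2; have := j.2; omega⟩,
      fun j => ⟨⟨j + k, by have := j.2; omega⟩, by simp⟩, ?_, ?_⟩
    · intro j
      apply Subtype.ext; apply Fin.ext
      have := j.2
      simp only
      omega
    · intro j
      apply Fin.ext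
      simp
  rw [this, Fintype.card_fin]

theorem chain_rank {ι : Type*} [Fintype ι] {e : ι → ℕ} {N : End F V}
    {b : Basis (Σ i, Fin (e i)) F V} (h : IsChainBasis e N b) (k : ℕ) :
    finrank F (LinearMap.range (N ^ k)) = ∑ i, (e i - k) := by
  classical
  have h1 : LinearMap.range (N ^ k) =
      Submodule.span F (Set.range fun x : {x : Σ i, Fin (e i) // k ≤ (x.2 : ℕ)} => b x.1) := by
    apply le_antisymm
    · rw [LinearMap.range_eq_map, ← b.span_eq, Submodule.map_span, Submodule.span_le]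
      rintro _ ⟨_, ⟨⟨i, j⟩, rfl⟩, rfl⟩
      rw [chain_pow h]
      split_ifs with h2
      · apply Submodule.subset_span
        exact ⟨⟨⟨i, ⟨j + k, h2⟩⟩, by simp⟩, rfl⟩
      · exact zero_mem _
    · rw [Submodule.span_le]
      rintro _ ⟨⟨⟨i, j⟩, hj⟩, rfl⟩
      simp only at hj
      refine ⟨b ⟨i, ⟨j - k, by have := j.2; omega⟩⟩, ?_⟩
      rw [chain_pow h, dif_pos (by have := j.2; simp only; omega)]
      congr 2
      apply Fin.ext
      simp only
      omega
  rw [h1, finrank_span_eq_card, card_filter_le]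
  exact b.linearIndependent.comp _ Subtype.val_injective

/-- remove the chains of length zero -/
theorem exists_chain_pos [FiniteDimensional F V] (N : End F V) (hN : IsNilpotent N) :
    ∃ (ι : Type u) (_ : Fintype ι) (e : ι → ℕ) (b : Basis (Σ i, Fin (e i)) F V),
      IsChainBasis e N b ∧ ∀ i, e i ≠ 0 := by
  classical
  obtain ⟨ι, _, e, b, hb⟩ := exists_chain N hN
  let f : (Σ i : {i // e i ≠ 0}, Fin (e i.1)) → Σ i, Fin (e i) := fun x => ⟨x.1.1, x.2⟩
  have hf : Function.Bijective f := by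
    constructor
    · rintro ⟨⟨i, hi⟩, j⟩ ⟨⟨i', hi'⟩, j'⟩ h
      simp only [f, Sigma.mk.injEq] at h
      obtain ⟨rfl, h2⟩ := h
      rw [eq_of_heq h2]
    · rintro ⟨i, j⟩
      exact ⟨⟨⟨i, by have := j.2; omega⟩, j⟩, rfl⟩
  refine ⟨{i // e i ≠ 0}, inferInstance, fun i => e i.1, b.reindex (Equiv.ofBijective f hf).symm,
    ?_, fun i => i.2⟩
  intro i j
  have h1 : ∀ x, (b.reindex (Equiv.ofBijective f hf).symm) x = b (f x) := by
    intro x
    rw [Basis.reindex_apply, Equiv.symm_symm]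
    rfl
  rw [h1]
  have h2 := hb i.1 j
  change N (b ⟨i.1, j⟩) = _
  rw [h2]
  split_ifs with h3
  · rw [h1]
  · rfl

theorem exists_equiv {ι ι' : Type*} [Fintype ι] [Fintype ι'] (e : ι → ℕ) (e' : ι' → ℕ)
    (h : ∀ a, Nat.card {i // e i = a} = Nat.card {i // e' i = a}) :
    ∃ σ : ι ≃ ι', ∀ i, e' (σ i) = e i := by
  classical
  have h2 : ∀ a, Nonempty ({i // e i = a} ≃ {i // e' i = a}) := fun a =>
    Finite.card_eq.1 (h a)
  let τ : ∀ a, {i // e i = a} ≃ {i // e' i = a} := fun a => (h2 a).some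
  refine ⟨(Equiv.sigmaFiberEquiv e).symm.trans
    ((Equiv.sigmaCongrRight τ).trans (Equiv.sigmaFiberEquiv e')), ?_⟩
  intro i
  exact (τ (e i) ⟨i, rfl⟩).2

theorem conj_of_equiv {V' : Type*} [AddCommGroup V'] [Module F V'] {ι ι' : Type*} {e : ι → ℕ}
    {e' : ι' → ℕ} {N : End F V} {N' : End F V'} {b : Basis (Σ i, Fin (e i)) F V}
    {b' : Basis (Σ i, Fin (e' i)) F V'} (h : IsChainBasis e N b) (h' : IsChainBasis e' N' b')
    (σ : ι ≃ ι') (hσ : ∀ i, e' (σ i) = e i) :
    ∃ T : V ≃ₗ[F] V', ∀ v, T (N v) = N' (T v) := by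
  let ε : (Σ i, Fin (e i)) ≃ Σ i, Fin (e' i) := Equiv.sigmaCongr σ (fun i => finCongr (hσ i).symm)
  refine ⟨b.equiv b' ε, ?_⟩
  have h1 : (b.equiv b' ε).toLinearMap ∘ₗ N = N' ∘ₗ (b.equiv b' ε).toLinearMap := by
    apply b.ext
    rintro ⟨i, j⟩
    simp only [LinearMap.comp_apply, LinearEquiv.coe_coe, Basis.equiv_apply]
    rw [h i j]
    have h2 : ε ⟨i, j⟩ = ⟨σ i, ⟨j, by rw [hσ]; exact j.2⟩⟩ := rfl
    rw [h2, h' (σ i)]
    simp only [hσ]
    split_ifs with h3
    · rw [Basis.equiv_apply]; rfl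
    · rw [map_zero]
  intro v
  exact congrArg (fun f : V →ₗ[F] V' => f v) h1

end Cfsg.Agent.Lib.Helper48Chain2
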