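import Mathlib
import Cfsg.Agent.Lib.Helper48Chain2

set_option autoImplicit false

namespace Cfsg.Agent.Lib.Helper48Chain3

open Module Cfsg.Agent.Lib.Helper48Chain Cfsg.Agent.Lib.Helper48Chain2

theorem sum_sub_succ (s : Multiset ℕ) (k : ℕ) :
    (s.map (· - k)).sum = (s.map (· - (k + 1))).sum + Multiset.card (s.filter (k < ·)) := by
  induction s using Multiset.induction_on with
  | empty => simp
  | cons a s ih =>
    rw [Multiset.map_cons, Multiset.sum_cons, Multiset.map_cons, Multiset.sum_cons, ih]
    by_cases h : k < a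
    · rw [Multiset.filter_cons_of_pos (p := fun x => k < x) _ h, Multiset.card_cons]; omega
    · rw [Multiset.filter_cons_of_neg (p := fun x => k < x) _ h]; omega

theorem card_filter_succ (s : Multiset ℕ) (k : ℕ) :
    Multiset.card (s.filter (k < ·)) = Multiset.card (s.filter (k + 1 < ·)) + s.count (k + 1) := by
  induction s using Multiset.induction_on with
  | empty => simp
  | cons a s ih =>
    by_cases h : k < a
    · rw [Multiset.filter_cons_of_pos (p := fun x => k < x) _ h, Multiset.card_cons, ih]
      by_cases h2 : k + 1 < a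
      · rw [Multiset.filter_cons_of_pos (p := fun x => k + 1 < x) _ h2, Multiset.card_cons,
          Multiset.count_cons_of_ne (by omega)]
        omega
      · have h3 : a = k + 1 := by omega
        rw [Multiset.filter_cons_of_neg (p := fun x => k + 1 < x) _ h2, h3,
          Multiset.count_cons_self]
        omega
    · rw [Multiset.filter_cons_of_neg (p := fun x => k < x) _ h,
        Multiset.filter_cons_of_neg (p := fun x => k + 1 < x) _ (by omega),
        Multiset.count_cons_of_ne (by omega), ih]

theorem multiset_eq_of_sums (s s' : Multiset ℕ) (h0 : 0 ∉ s) (h0' : 0 ∉ s')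
    (h : ∀ k, (s.map (· - k)).sum = (s'.map (· - k)).sum) : s = s' := by
  have h1 : ∀ k, Multiset.card (s.filter (k < ·)) = Multiset.card (s'.filter (k < ·)) := by
    intro k
    have h2 := h k
    rw [sum_sub_succ s k, sum_sub_succ s' k, h (k + 1)] at h2
    exact Nat.add_left_cancel h2
  ext a
  rcases Nat.eq_zero_or_pos a with rfl | ha
  · rw [Multiset.count_eq_zero_of_notMem h0, Multiset.count_eq_zero_of_notMem h0']
  · obtain ⟨k, rfl⟩ : ∃ k, a = k + 1 := ⟨a - 1, by omega⟩
    have h2 := h1 k
    rw [card_filter_succ s k, card_filter_succ s' k, h1 (k + 1)] at h2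
    exact Nat.add_left_cancel h2

theorem card_fiber {ι : Type*} [Fintype ι] (e : ι → ℕ) (a : ℕ) :
    Nat.card {i // e i = a} = Multiset.count a (Finset.univ.val.map e) := by
  classical
  rw [Multiset.count_map, Nat.card_eq_fintype_card, Fintype.card_subtype, Finset.card_def,
    Finset.filter_val]
  congr 1
  apply Multiset.filter_congr
  intro i _
  exact eq_comm

universe u

variable {F : Type u} [Field F] {V : Type*} [AddCommGroup V] [Module F V]

/-- `N` has Jordan type `s` -/
def HasType (N : End F V) (s : Multiset ℕ) : Prop :=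
  ∃ (t : ℕ) (e : Fin t → ℕ) (b : Basis (Σ i, Fin (e i)) F V),
    IsChainBasis e N b ∧ (∀ i, e i ≠ 0) ∧ s = Finset.univ.val.map e

theorem reindex_chain {ι ι' : Type*} {e : ι → ℕ} {N : End F V} {b : Basis (Σ i, Fin (e i)) F V}
    (h : IsChainBasis e N b) (τ : ι' ≃ ι) :
    IsChainBasis (fun a => e (τ a)) N
      (b.reindex (Equiv.sigmaCongrLeft (β := fun i => Fin (e i)) τ).symm) := by
  intro i j
  have h1 : ∀ x : Σ a, Fin (e (τ a)),
      (b.reindex (Equiv.sigmaCongrLeft (β := fun i => Fin (e i)) τ).symm) x = b ⟨τ x.1, x.2⟩ := by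
    intro x
    rw [Basis.reindex_apply, Equiv.symm_symm]
    rfl
  rw [h1, h (τ i) j]
  split_ifs with h3
  · rw [h1]
  · rfl

theorem exists_type [FiniteDimensional F V] (N : End F V) (hN : IsNilpotent N) :
    ∃ s, HasType N s := by
  obtain ⟨ι, _, e, b, hb, he⟩ := exists_chain_pos N hN
  let τ := (Fintype.equivFin ι).symm
  exact ⟨_, Fintype.card ι, fun a => e (τ a), _, reindex_chain hb τ, fun i => he _, rfl⟩

theorem HasType.rank {N : End F V} {s : Multiset ℕ} (h : HasType N s) (k : ℕ) :
    finrank F (LinearMap.range (N ^ k)) = (s.map (· - k)).sum := by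
  obtain ⟨t, e, b, hb, -, rfl⟩ := h
  rw [chain_rank hb, Multiset.map_map]
  rfl

theorem HasType.zero_notMem {N : End F V} {s : Multiset ℕ} (h : HasType N s) : 0 ∉ s := by
  obtain ⟨t, e, b, hb, he, rfl⟩ := h
  intro h0
  obtain ⟨i, -, hi⟩ := Multiset.mem_map.1 h0
  exact he i hi

theorem HasType.sum {N : End F V} {s : Multiset ℕ} (h : HasType N s) : s.sum = finrank F V := by
  have h1 := h.rank 0
  rw [pow_zero] at h1
  have h2 : LinearMap.range (1 : End F V) = ⊤ := LinearMap.range_id
  rw [h2, finrank_top] at h1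
  rw [h1]
  simp

theorem HasType.conj {V' : Type*} [AddCommGroup V'] [Module F V'] {N : End F V} {N' : End F V'}
    {s : Multiset ℕ} (h : HasType N s) (h' : HasType N' s) :
    ∃ T : V ≃ₗ[F] V', ∀ v, T (N v) = N' (T v) := by
  obtain ⟨t, e, b, hb, -, hs⟩ := h
  obtain ⟨t', e', b', hb', -, hs'⟩ := h'
  obtain ⟨σ, hσ⟩ := exists_equiv e e' (fun a => by rw [card_fiber, card_fiber, ← hs, ← hs'])
  exact conj_of_equiv hb hb' σ hσ

theorem HasType.unique {V' : Type*} [AddCommGroup V'] [Module F V'] {N : End F V} {N' : End F V'}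
    {s s' : Multiset ℕ} (h : HasType N s) (h' : HasType N' s')
    (hr : ∀ k, finrank F (LinearMap.range (N ^ k)) = finrank F (LinearMap.range (N' ^ k))) :
    s = s' := by
  apply multiset_eq_of_sums s s' h.zero_notMem h'.zero_notMem
  intro k
  rw [← h.rank, ← h'.rank, hr]

theorem HasType.pow_eq_zero_iff {N : End F V} {s : Multiset ℕ} (h : HasType N s) (k : ℕ) :
    N ^ k = 0 ↔ ∀ a ∈ s, a ≤ k := by
  have h1 := h.rank k
  constructor
  · intro h0 a ha
    rw [h0, LinearMap.range_zero, finrank_bot] at h1
    have h2 := (Multiset.sum_eq_zero_iff.1 h1.symm) (a - k) (Multiset.mem_map_of_mem _ ha)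
    omega
  · intro hall
    have h2 : (s.map (· - k)).sum = 0 := by
      rw [Multiset.sum_eq_zero_iff]
      intro x hx
      obtain ⟨a, ha, rfl⟩ := Multiset.mem_map.1 hx
      have := hall a ha
      omega
    rw [h2] at h1
    obtain ⟨t, e, b, -, -, -⟩ := h
    have : FiniteDimensional F V := b.finiteDimensional_of_finite
    rw [Submodule.finrank_eq_zero] at h1
    exact LinearMap.range_eq_bot.1 h1

end Cfsg.Agent.Lib.Helper48Chain3
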