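import Mathlib
import Cfsg.Agent.Lib.Helper48Chain3

set_option autoImplicit false

namespace Cfsg.Agent.Lib.Helper48Chain4

open Module Matrix Cfsg.Agent.Lib.Helper48Chain Cfsg.Agent.Lib.Helper48Chain2
  Cfsg.Agent.Lib.Helper48Chain3

universe u

variable {F : Type u} [Field F]

theorem sigma_eq_iff {ι : Type*} {e : ι → ℕ} (x : Σ i, Fin (e i)) (i : ι) (k : ℕ) (h : k < e i) :
    x = ⟨i, ⟨k, h⟩⟩ ↔ x.1 = i ∧ (x.2 : ℕ) = k := by
  constructor
  · rintro rfl; exact ⟨rfl, rfl⟩
  · obtain ⟨i', j'⟩ := x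
    rintro ⟨h1, h2⟩
    simp only at h1 h2
    subst h1
    congr 1
    exact Fin.ext h2

theorem exists_matrix (s : Multiset ℕ) (h0 : 0 ∉ s) (n : ℕ) (hs : s.sum = n) :
    ∃ M : Matrix (Fin n) (Fin n) F, HasType (Matrix.toLin' M) s ∧ ∀ φ : F →+* F, M.map φ = M := by
  classical
  set l := s.toList with hl
  let e : Fin l.length → ℕ := l.get
  have hmap : s = Finset.univ.val.map e := by
    rw [Fin.univ_val_map, List.ofFn_get, hl, Multiset.coe_toList]
  have hcard : Fintype.card (Σ i, Fin (e i)) = n := by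
    rw [Fintype.card_sigma, ← hs]
    simp only [Fintype.card_fin]
    conv_rhs => rw [hmap]
    rfl
  let ε : (Σ i, Fin (e i)) ≃ Fin n := Fintype.equivFinOfCardEq hcard
  let M : Matrix (Fin n) (Fin n) F := Matrix.of fun a c =>
    if (ε.symm a).1 = (ε.symm c).1 ∧ ((ε.symm a).2 : ℕ) = ((ε.symm c).2 : ℕ) + 1 then 1 else 0
  refine ⟨M, ⟨l.length, e, (Pi.basisFun F (Fin n)).reindex ε.symm, ?_, ?_, hmap⟩, ?_⟩
  · intro i j
    have h1 : ∀ x, ((Pi.basisFun F (Fin n)).reindex ε.symm) x = Pi.single (ε x) 1 := by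
      intro x
      rw [Basis.reindex_apply, Equiv.symm_symm, Pi.basisFun_apply]
    have hcol : ∀ (a : Fin n) (x : Σ i, Fin (e i)), M a (ε x) =
        if (ε.symm a).1 = x.1 ∧ ((ε.symm a).2 : ℕ) = (x.2 : ℕ) + 1 then 1 else 0 := by
      intro a x
      simp only [M, Matrix.of_apply]
      rw [Equiv.symm_apply_apply]
    rw [h1, Matrix.toLin'_apply, Matrix.mulVec_single_one]
    split_ifs with h
    · rw [h1]
      ext a
      rw [Matrix.col_apply, hcol, Pi.single_apply]
      have h2 : a = ε ⟨i, ⟨j + 1, h⟩⟩ ↔ (ε.symm a).1 = i ∧ ((ε.symm a).2 : ℕ) = j + 1 := by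
        rw [← sigma_eq_iff, Equiv.symm_apply_eq]
      simp only [h2]
    · ext a
      rw [Matrix.col_apply, hcol, Pi.zero_apply, if_neg]
      rintro ⟨h2, h3⟩
      generalize ε.symm a = y at h2 h3
      obtain ⟨i', j'⟩ := y
      simp only at h2 h3
      subst h2
      have h4 := j'.2
      omega
  · intro i hi
    apply h0
    rw [hmap, ← hi]
    exact Multiset.mem_map_of_mem _ (Finset.mem_univ_val i)
  · intro φ
    ext a c
    simp only [Matrix.map_apply, M, Matrix.of_apply]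
    split_ifs <;> simp

end Cfsg.Agent.Lib.Helper48Chain4
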