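import Mathlib
import Cfsg.Prelude.Def_JordanBlocks

set_option autoImplicit false

namespace Cfsg.Agent.Lib.Helper48Jordan

open Module

/-- subdiagonal shift matrix -/
def shiftM (k : ℕ) (R : Type*) [Ring R] : Matrix (Fin k) (Fin k) R :=
  Matrix.of fun i j => if (i : ℕ) = (j : ℕ) + 1 then 1 else 0

theorem jordanBlock_sub_one (k : ℕ) (R : Type*) [Ring R] : Cfsg.jordanBlock k R - 1 = shiftM k R := by
  ext i j
  simp only [Cfsg.jordanBlock, shiftM, Matrix.sub_apply, Matrix.of_apply, Matrix.one_apply]
  by_cases h : i = j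
  · subst h; simp
  · have : (i : ℕ) ≠ j := fun h' => h (Fin.ext h')
    simp [h, this]

theorem jordanBlock_eq (k : ℕ) (R : Type*) [Ring R] : Cfsg.jordanBlock k R = 1 + shiftM k R := by
  rw [← jordanBlock_sub_one]; abel

variable {R : Type*} [CommRing R]

theorem shiftM_mulVec_succ (k : ℕ) (x : Fin k → R) (j : ℕ) (h : j + 1 < k) :
    ((shiftM k R).mulVec x) ⟨j + 1, h⟩ = x ⟨j, by omega⟩ := by
  simp only [Matrix.mulVec, dotProduct, shiftM, Matrix.of_apply]
  rw [Finset.sum_eq_single ⟨j, by omega⟩]
  · simp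
  · intro b _ hb
    have : j ≠ (b : ℕ) := by
      intro h'
      apply hb
      apply Fin.ext
      simp only at h' ⊢
      omega
    simp [this]
  · intro h'; exact absurd (Finset.mem_univ _) h'

theorem shiftM_mulVec_zero (k : ℕ) (x : Fin k → R) (h : 0 < k) :
    ((shiftM k R).mulVec x) ⟨0, h⟩ = 0 := by
  simp only [Matrix.mulVec, dotProduct, shiftM, Matrix.of_apply]
  apply Finset.sum_eq_zero
  intro b _
  simp

theorem shiftM_pow_mulVec (k : ℕ) (x : Fin k → R) (j : ℕ) (i : Fin k) :
    (((shiftM k R) ^ j).mulVec x) i = if h : j ≤ (i : ℕ) then x ⟨i - j, by omega⟩ else 0 := by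
  induction j generalizing i with
  | zero => simp
  | succ j ih =>
    rw [pow_succ', ← Matrix.mulVec_mulVec]
    obtain ⟨i, hi⟩ := i
    cases i with
    | zero => rw [shiftM_mulVec_zero]; simp
    | succ i =>
      rw [shiftM_mulVec_succ, ih]
      simp only [Nat.add_le_add_iff_right, Nat.add_sub_add_right]

theorem shiftM_pow_self (k : ℕ) : (shiftM k R) ^ k = 0 := by
  apply Matrix.toLin'.injective
  apply LinearMap.ext
  intro x
  ext i
  rw [Matrix.toLin'_apply, shiftM_pow_mulVec, dif_neg (by omega)]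
  simp

theorem shiftM_rank {K : Type*} [Field K] (k : ℕ) : (shiftM k K).rank = k - 1 := by
  rcases Nat.eq_zero_or_pos k with rfl | hk
  · simp [Matrix.rank, Module.finrank_zero_of_subsingleton]
  have h1 := LinearMap.finrank_range_add_finrank_ker (shiftM k K).mulVecLin
  rw [Module.finrank_fintype_fun_eq_card, Fintype.card_fin] at h1
  have h2 : finrank K (LinearMap.ker (shiftM k K).mulVecLin) = 1 := by
    rw [finrank_eq_one_iff']
    refine ⟨⟨Pi.single ⟨k - 1, by omega⟩ 1, ?_⟩, ?_, ?_⟩
    · rw [LinearMap.mem_ker, Matrix.mulVecLin_apply]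
      ext ⟨i, hi⟩
      cases i with
      | zero => rw [shiftM_mulVec_zero]; rfl
      | succ i =>
        rw [shiftM_mulVec_succ, Pi.single_apply, if_neg]
        · rfl
        · intro h; rw [Fin.mk.injEq] at h; omega
    · intro h
      have := congrArg (fun v : LinearMap.ker (shiftM k K).mulVecLin => (v : Fin k → K) ⟨k - 1, by omega⟩) h
      simp at this
    · rintro ⟨w, hw⟩
      refine ⟨w ⟨k - 1, by omega⟩, ?_⟩
      apply Subtype.ext
      ext ⟨i, hi⟩
      simp only [SetLike.mk_smul_mk, Pi.smul_apply, Pi.single_apply, smul_eq_mul, mul_ite, mul_one, mul_zero]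
      by_cases hik : i = k - 1
      · subst hik; simp
      · rw [if_neg (by rw [Fin.mk.injEq]; exact hik)]
        rw [LinearMap.mem_ker, Matrix.mulVecLin_apply] at hw
        have := congrFun hw ⟨i + 1, by omega⟩
        rw [shiftM_mulVec_succ] at this
        exact this.symm
  have h3 : (shiftM k K).rank = finrank K (LinearMap.range (shiftM k K).mulVecLin) := rfl
  omega

end Cfsg.Agent.Lib.Helper48Jordan
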