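import Mathlib
import Cfsg.Agent.Lib.Helper48Chain4
import Cfsg.Agent.Lib.Helper48Jordan
import Cfsg.Agent.Lib.Helper48RegNil

set_option autoImplicit false
set_option linter.unusedSectionVars false

namespace Cfsg.Agent.Lib.Helper48RankSeq

open Module Matrix Cfsg.Agent.Lib.Helper48Chain Cfsg.Agent.Lib.Helper48Chain2
  Cfsg.Agent.Lib.Helper48Chain3 Cfsg.Agent.Lib.Helper48Jordan Cfsg.Agent.Lib.Helper48RegNil

universe u

variable {F : Type u} [Field F] {ι κ : Type*} [Fintype ι] [DecidableEq ι] [Fintype κ]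
  [DecidableEq κ]

/-- the ranks of the powers of `A - 1` are those of the Jordan type `s` -/
def RankSeq (A : Matrix ι ι F) (s : Multiset ℕ) : Prop :=
  ∀ k, ((A - 1) ^ k).rank = (s.map (· - k)).sum

theorem sum_sub_eq_zero (s : Multiset ℕ) : (s.map (· - s.sum)).sum = 0 := by
  rw [Multiset.sum_eq_zero]
  intro x hx
  obtain ⟨a, ha, rfl⟩ := Multiset.mem_map.1 hx
  exact Nat.sub_eq_zero_of_le (Multiset.le_sum_of_mem ha)

theorem eq_zero_of_rank (M : Matrix ι ι F) (h : M.rank = 0) : M = 0 := by
  have h1 : LinearMap.range M.mulVecLin = ⊥ := Submodule.finrank_eq_zero.1 h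
  rw [LinearMap.range_eq_bot] at h1
  apply (Matrix.toLin' (R := F)).injective
  rw [map_zero]
  exact h1

theorem RankSeq.nilpotent {A : Matrix ι ι F} {s : Multiset ℕ} (h : RankSeq A s) :
    IsNilpotent (A - 1) := by
  refine ⟨s.sum, ?_⟩
  have h1 := h s.sum
  rw [sum_sub_eq_zero] at h1
  exact eq_zero_of_rank _ h1

theorem RankSeq.card {A : Matrix ι ι F} {s : Multiset ℕ} (h : RankSeq A s) :
    Fintype.card ι = s.sum := by
  have h1 := h 0
  rw [pow_zero, Matrix.rank_one] at h1
  simpa using h1

theorem conj_sub_one_pow (A P P' : Matrix ι ι F) (hPP' : P * P' = 1) (hP'P : P' * P = 1) (k : ℕ) :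
    (P * A * P' - 1) ^ k = P * (A - 1) ^ k * P' := by
  induction k with
  | zero => rw [pow_zero, pow_zero, mul_one, hPP']
  | succ k ih =>
    rw [pow_succ, ih, pow_succ]
    have h1 : P * A * P' - 1 = P * (A - 1) * P' := by rw [mul_sub, sub_mul, mul_one, hPP']
    rw [h1]
    calc P * (A - 1) ^ k * P' * (P * (A - 1) * P')
        = P * (A - 1) ^ k * (P' * P) * (A - 1) * P' := by simp only [mul_assoc]
      _ = _ := by rw [hP'P, mul_one]; simp only [mul_assoc]

theorem RankSeq.conj_units {A : Matrix ι ι F} {s : Multiset ℕ} (h : RankSeq A s)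
    (P P' : Matrix ι ι F) (hPP' : P * P' = 1) (hP'P : P' * P = 1) : RankSeq (P * A * P') s := by
  intro k
  rw [conj_sub_one_pow A P P' hPP' hP'P, Matrix.rank_mul_eq_left_of_isUnit_det,
    Matrix.rank_mul_eq_right_of_isUnit_det, h k]
  · exact (Matrix.isUnit_iff_isUnit_det _).mp (IsUnit.of_mul_eq_one _ hPP')
  · exact (Matrix.isUnit_iff_isUnit_det _).mp (IsUnit.of_mul_eq_one _ hP'P)

theorem RankSeq.of_isConj {A B : Matrix ι ι F} {s : Multiset ℕ} (h : RankSeq A s)
    (hc : IsConj A B) : RankSeq B s := by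
  obtain ⟨c, hc⟩ := hc
  have h1 : B = c.1 * A * c⁻¹.1 := by
    rw [hc.eq, mul_assoc, Units.mul_inv, mul_one]
  rw [h1]
  exact h.conj_units _ _ (Units.mul_inv c) (Units.inv_mul c)

theorem RankSeq.reindex {A : Matrix ι ι F} {s : Multiset ℕ} (h : RankSeq A s) (e : ι ≃ κ) :
    RankSeq (Matrix.reindex e e A) s := by
  intro k
  have h1 : (Matrix.reindex e e A - 1) ^ k = Matrix.reindex e e ((A - 1) ^ k) := by
    have : Matrix.reindex e e A = Matrix.reindexAlgEquiv F F e A := rfl
    rw [this, ← map_one (Matrix.reindexAlgEquiv F F e), ← map_sub, ← map_pow]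
    rfl
  rw [h1, Matrix.rank_reindex, h k]

theorem RankSeq.transpose {A : Matrix ι ι F} {s : Multiset ℕ} (h : RankSeq A s) :
    RankSeq Aᵀ s := by
  intro k
  have h1 : (Aᵀ - 1) ^ k = ((A - 1) ^ k)ᵀ := by
    rw [Matrix.transpose_pow, Matrix.transpose_sub, Matrix.transpose_one]
  rw [h1, Matrix.rank_transpose, h k]

theorem RankSeq.inv {A A' : Matrix ι ι F} {s : Multiset ℕ} (h : RankSeq A s) (hAA' : A * A' = 1) :
    RankSeq A' s := by
  intro k
  have hA'A : A' * A = 1 := mul_eq_one_comm.1 hAA'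
  have h1 : A' - 1 = (-A') * (A - 1) := by
    rw [mul_sub, neg_mul, hA'A, mul_one]; abel
  have hc : Commute (-A') (A - 1) := by
    change -A' * (A - 1) = (A - 1) * -A'
    rw [mul_sub, sub_mul, neg_mul, mul_neg, hA'A, hAA']
    simp
  rw [h1, hc.mul_pow, Matrix.rank_mul_eq_right_of_isUnit_det, h k]
  rw [← Matrix.isUnit_iff_isUnit_det]
  exact (IsUnit.of_mul_eq_one (-A) (by rw [neg_mul_neg, hA'A])).pow k

theorem finrank_submodule_prod {V W : Type*} [AddCommGroup V] [Module F V] [AddCommGroup W]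
    [Module F W] [FiniteDimensional F V] [FiniteDimensional F W] (p : Submodule F V)
    (q : Submodule F W) : finrank F (p.prod q) = finrank F p + finrank F q := by
  let e : (p.prod q) ≃ₗ[F] p × q :=
    { toFun := fun x => (⟨x.1.1, x.2.1⟩, ⟨x.1.2, x.2.2⟩)
      invFun := fun y => ⟨(y.1.1, y.2.1), ⟨y.1.2, y.2.2⟩⟩
      map_add' := fun x y => rfl
      map_smul' := fun c x => rfl
      left_inv := fun x => rfl
      right_inv := fun y => rfl }
  rw [e.finrank_eq, Module.finrank_prod]

theorem rank_fromBlocks_diag (A : Matrix κ κ F) (B : Matrix ι ι F) :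
    (fromBlocks A 0 0 B).rank = A.rank + B.rank := by
  let E : (κ ⊕ ι → F) ≃ₗ[F] (κ → F) × (ι → F) := LinearEquiv.sumArrowLequivProdArrow κ ι F F
  have h1 : (fromBlocks A 0 0 B).mulVecLin
      = E.symm.toLinearMap ∘ₗ (A.mulVecLin.prodMap B.mulVecLin) ∘ₗ E.toLinearMap := by
    apply LinearMap.ext
    intro v
    apply E.injective
    simp only [LinearMap.comp_apply, LinearEquiv.coe_coe, LinearEquiv.apply_symm_apply]
    rw [Matrix.mulVecLin_apply, Matrix.fromBlocks_mulVec]
    apply Prod.ext
    · funext i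
      change (A *ᵥ (v ∘ Sum.inl) + (0 : Matrix κ ι F) *ᵥ (v ∘ Sum.inr)) i = (A *ᵥ (v ∘ Sum.inl)) i
      simp
    · funext i
      change ((0 : Matrix ι κ F) *ᵥ (v ∘ Sum.inl) + B *ᵥ (v ∘ Sum.inr)) i = (B *ᵥ (v ∘ Sum.inr)) i
      simp
  unfold Matrix.rank
  rw [h1, LinearMap.range_comp, LinearEquiv.finrank_map_eq, LinearMap.range_comp,
    LinearEquiv.range, Submodule.map_top, LinearMap.range_prodMap, finrank_submodule_prod]

theorem fromBlocks_sub_one_pow (A : Matrix κ κ F) (B : Matrix ι ι F) (k : ℕ) :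
    (fromBlocks A 0 0 B - 1) ^ k = fromBlocks ((A - 1) ^ k) 0 0 ((B - 1) ^ k) := by
  have h0 : fromBlocks A 0 0 B - 1 = fromBlocks (A - 1) 0 0 (B - 1) := by
    ext (i | i) (j | j) <;> simp [Matrix.one_apply]
  rw [h0]
  induction k with
  | zero => rw [pow_zero, pow_zero, pow_zero, fromBlocks_one]
  | succ k ih => rw [pow_succ, ih, fromBlocks_multiply, pow_succ, pow_succ]; simp

theorem RankSeq.fromBlocks {A : Matrix κ κ F} {B : Matrix ι ι F} {s s' : Multiset ℕ}
    (h : RankSeq A s) (h' : RankSeq B s') : RankSeq (fromBlocks A 0 0 B) (s + s') := by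
  intro k
  rw [fromBlocks_sub_one_pow, rank_fromBlocks_diag, h k, h' k, Multiset.map_add, Multiset.sum_add]

/-- a regular unipotent matrix -/
theorem RankSeq.of_regular (A : Matrix ι ι F) (hnil : IsNilpotent (A - 1))
    (hrank : (A - 1).rank = Fintype.card ι - 1) : RankSeq A {Fintype.card ι} := by
  intro k
  rw [Multiset.map_singleton, Multiset.sum_singleton]
  set N : End F (ι → F) := Matrix.mulVecLin (A - 1) with hN
  have hfr : finrank F (ι → F) = Fintype.card ι := Module.finrank_fintype_fun_eq_card F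
  have hNnil : N ^ finrank F (ι → F) = 0 := by
    have h1 : IsNilpotent N := by
      obtain ⟨j, hj⟩ := hnil
      exact ⟨j, by rw [hN, ← mulVecLin_pow, hj]; simp⟩
    obtain ⟨j, hj⟩ := h1
    have h2 := Module.End.ker_pow_le_ker_pow_finrank N j
    rw [hj, LinearMap.ker_zero, top_le_iff, LinearMap.ker_eq_top] at h2
    exact h2
  have hker := matrix_ker_le_one (A - 1) hrank
  have hrk : ((A - 1) ^ k).rank = finrank F (LinearMap.range (N ^ k)) := by
    rw [hN, ← mulVecLin_pow]
    rfl
  have h3 := LinearMap.finrank_range_add_finrank_ker (N ^ k)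
  rw [hrk]
  by_cases hk : k ≤ finrank F (ι → F)
  · have h4 := finrank_ker_pow_eq N hker hNnil k hk
    omega
  · have h5 : N ^ k = 0 := by
      have : k = finrank F (ι → F) + (k - finrank F (ι → F)) := by omega
      rw [this, pow_add, hNnil, zero_mul]
    rw [h5, LinearMap.range_zero, finrank_bot]
    omega

theorem finrank_range_pow (X : Matrix ι ι F) (k : ℕ) :
    finrank F (LinearMap.range ((Matrix.toLin' X) ^ k)) = (X ^ k).rank := by
  rw [← Matrix.toLin'_pow]; rfl

theorem RankSeq.hasType {A : Matrix ι ι F} {s : Multiset ℕ} (h : RankSeq A s) (h0 : 0 ∉ s) :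
    HasType (Matrix.toLin' (A - 1)) s := by
  obtain ⟨s', hs'⟩ := exists_type (Matrix.toLin' (A - 1))
    (h.nilpotent.map (Matrix.toLinAlgEquiv' (R := F)))
  have h1 : s' = s := by
    apply multiset_eq_of_sums s' s hs'.zero_notMem h0
    intro k
    rw [← hs'.rank k, finrank_range_pow, h k]
  rwa [h1] at hs'

theorem RankSeq.isConj {A B : Matrix ι ι F} {s : Multiset ℕ} (h : RankSeq A s) (h' : RankSeq B s)
    (h0 : 0 ∉ s) : IsConj A B := by
  obtain ⟨T, hT⟩ := HasType.conj (h.hasType h0) (h'.hasType h0)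
  set P := LinearMap.toMatrix' T.toLinearMap with hP
  set P' := LinearMap.toMatrix' T.symm.toLinearMap with hP'
  have hPP' : P * P' = 1 := by
    rw [hP, hP', ← LinearMap.toMatrix'_comp, LinearEquiv.comp_symm, LinearMap.toMatrix'_id]
  have hP'P : P' * P = 1 := by
    rw [hP, hP', ← LinearMap.toMatrix'_comp, LinearEquiv.symm_comp, LinearMap.toMatrix'_id]
  have h1 : P * (A - 1) = (B - 1) * P := by
    apply (Matrix.toLin' (R := F)).injective
    rw [Matrix.toLin'_mul, Matrix.toLin'_mul, hP, Matrix.toLin'_toMatrix']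
    exact LinearMap.ext (fun v => hT v)
  refine ⟨⟨P, P', hPP', hP'P⟩, ?_⟩
  change P * A = B * P
  rw [mul_sub, sub_mul, mul_one, one_mul, sub_left_inj] at h1
  exact h1

/-- the multiplicity of a part in terms of the rank sequence -/
theorem count_eq (s : Multiset ℕ) (k : ℕ) :
    (s.map (· - k)).sum + (s.map (· - (k + 2))).sum
      = 2 * (s.map (· - (k + 1))).sum + s.count (k + 1) := by
  have h1 := sum_sub_succ s k
  have h2 := sum_sub_succ s (k + 1)
  have h3 := card_filter_succ s k
  have e : k + 1 + 1 = k + 2 := rfl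
  rw [e] at h2
  omega


theorem jordan_sub_one {t : ℕ} (d : Fin t → ℕ) :
    Cfsg.jordanTypeMatrix d F - 1 = Matrix.blockDiagonal' fun k => shiftM (d k) F := by
  rw [Cfsg.jordanTypeMatrix, ← Matrix.blockDiagonal'_one, ← Matrix.blockDiagonal'_sub]
  congr 1
  funext k
  exact jordanBlock_sub_one (d k) F

theorem chain_jordan {t : ℕ} (d : Fin t → ℕ) :
    IsChainBasis d (Matrix.toLin' (Cfsg.jordanTypeMatrix d F - 1))
      (Pi.basisFun F (Σ k, Fin (d k))) := by
  intro i j
  rw [Pi.basisFun_apply, Matrix.toLin'_apply, Matrix.mulVec_single_one, jordan_sub_one]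
  funext y
  obtain ⟨i', j'⟩ := y
  rw [Matrix.col_apply, Matrix.blockDiagonal'_apply]
  by_cases hi : i' = i
  · subst hi
    rw [dif_pos rfl]
    simp only [shiftM, Matrix.of_apply, cast_eq]
    by_cases h : (j : ℕ) + 1 < d i'
    · rw [dif_pos h, Pi.basisFun_apply, Pi.single_apply]
      by_cases h2 : (j' : ℕ) = (j : ℕ) + 1
      · rw [if_pos h2, if_pos]
        congr 1
        exact Fin.ext h2
      · rw [if_neg h2, if_neg]
        intro h3
        apply h2
        have := (Sigma.mk.inj_iff.1 h3).2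
        exact congrArg Fin.val (eq_of_heq this)
    · rw [dif_neg h, if_neg]
      · rfl
      · have := j'.2
        omega
  · rw [dif_neg hi]
    by_cases h : (j : ℕ) + 1 < d i
    · rw [dif_pos h, Pi.basisFun_apply, Pi.single_apply, if_neg]
      intro h3
      exact hi (Sigma.mk.inj_iff.1 h3).1
    · rw [dif_neg h]
      rfl

theorem rankSeq_jordan {t : ℕ} (d : Fin t → ℕ) :
    RankSeq (Cfsg.jordanTypeMatrix d F) (Finset.univ.val.map d) := by
  intro k
  rw [← finrank_range_pow, chain_rank (chain_jordan d), Multiset.map_map]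
  rfl

theorem rankSeq_jordanBlock (j : ℕ) : RankSeq (Cfsg.jordanBlock j F) {j} := by
  have h := RankSeq.of_regular (Cfsg.jordanBlock j F)
    (by rw [jordanBlock_sub_one]; exact ⟨j, shiftM_pow_self j⟩)
    (by rw [jordanBlock_sub_one, shiftM_rank, Fintype.card_fin])
  rwa [Fintype.card_fin] at h

/-- building a matrix of given Jordan type from single blocks and pairs of blocks -/
theorem exists_of_blocks (P : ∀ n : ℕ, Matrix (Fin n) (Fin n) F → Prop) (hP0 : P 0 1)
    (hsum : ∀ (n n' : ℕ) (A : Matrix (Fin n) (Fin n) F) (B : Matrix (Fin n') (Fin n') F),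
      P n A → P n' B →
        P (n + n') (Matrix.reindex finSumFinEquiv finSumFinEquiv (Matrix.fromBlocks A 0 0 B)))
    (E : ℕ → Prop)
    (hsingle : ∀ j, E j → 1 ≤ j → ∃ (n : ℕ) (A : Matrix (Fin n) (Fin n) F), P n A ∧ RankSeq A {j})
    (hpair : ∀ j, 1 ≤ j → ∃ (n : ℕ) (A : Matrix (Fin n) (Fin n) F), P n A ∧ RankSeq A {j, j})
    (s : Multiset ℕ) (h0 : 0 ∉ s) (hs : ∀ j, ¬ E j → Even (s.count j)) :
    ∃ (n : ℕ) (A : Matrix (Fin n) (Fin n) F), P n A ∧ RankSeq A s := by
  induction hn : Multiset.card s using Nat.strong_induction_on generalizing s with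
  | _ c ih =>
    by_cases hs0 : s = 0
    · subst hs0
      refine ⟨0, 1, hP0, fun k => ?_⟩
      have h1 := Matrix.rank_le_card_width (((1 : Matrix (Fin 0) (Fin 0) F) - 1) ^ k)
      simpa using h1
    · obtain ⟨a, ha⟩ := Multiset.exists_mem_of_ne_zero hs0
      have ha1 : 1 ≤ a := by
        rcases Nat.eq_zero_or_pos a with h | h
        · exact absurd (h ▸ ha) h0
        · exact h
      have hcons := Multiset.cons_erase ha
      have hcard : Multiset.card (s.erase a) + 1 = c := by
        rw [← hn, ← hcons, Multiset.card_cons, hcons]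
      by_cases hE : E a
      · obtain ⟨n', B, hB, hBs⟩ := ih (Multiset.card (s.erase a)) (by omega) (s.erase a)
          (fun h => h0 (Multiset.mem_of_mem_erase h)) (fun j hj => by
            have hja : j ≠ a := fun h => hj (by rw [h]; exact hE)
            rw [Multiset.count_erase_of_ne hja]
            exact hs j hj) rfl
        obtain ⟨n, A, hA, hAs⟩ := hsingle a hE ha1
        refine ⟨n + n', _, hsum n n' A B hA hB, ?_⟩
        have h1 := (hAs.fromBlocks hBs).reindex (finSumFinEquiv (m := n) (n := n'))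
        rwa [Multiset.singleton_add, hcons] at h1
      · have hev := hs a hE
        have hpos : 0 < s.count a := Multiset.count_pos.2 ha
        have h2 : 2 ≤ s.count a := by
          obtain ⟨b, hb⟩ := hev
          omega
        have ha' : a ∈ s.erase a := by
          rw [← Multiset.count_pos, Multiset.count_erase_self]
          omega
        have hcons' := Multiset.cons_erase ha'
        have hcard' : Multiset.card ((s.erase a).erase a) + 2 = c := by
          rw [← hcard, ← hcons', Multiset.card_cons, hcons']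
        obtain ⟨n', B, hB, hBs⟩ := ih (Multiset.card ((s.erase a).erase a)) (by omega)
          ((s.erase a).erase a)
          (fun h => h0 (Multiset.mem_of_mem_erase (Multiset.mem_of_mem_erase h))) (fun j hj => by
            by_cases hja : j = a
            · subst hja
              rw [Multiset.count_erase_self, Multiset.count_erase_self]
              obtain ⟨b, hb⟩ := hev
              exact ⟨b - 1, by omega⟩
            · rw [Multiset.count_erase_of_ne hja, Multiset.count_erase_of_ne hja]
              exact hs j hj) rfl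
        obtain ⟨n, A, hA, hAs⟩ := hpair a ha1
        refine ⟨n + n', _, hsum n n' A B hA hB, ?_⟩
        have h1 := (hAs.fromBlocks hBs).reindex (finSumFinEquiv (m := n) (n := n'))
        have h3 : ({a, a} : Multiset ℕ) + (s.erase a).erase a = s := by
          rw [Multiset.insert_eq_cons, Multiset.cons_add, Multiset.singleton_add, hcons', hcons]
        rwa [h3] at h1

end Cfsg.Agent.Lib.Helper48RankSeq
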