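import Mathlib
import Cfsg.Agent.Lib.Helper48AltForm
import Cfsg.Agent.Lib.Helper48RankSeq

set_option autoImplicit false
set_option linter.unusedSectionVars false

namespace Cfsg.Agent.Lib.Helper48UnipForm

open Module Matrix Cfsg.Agent.Lib.Helper48AltCongr Cfsg.Agent.Lib.Helper48AltForm
  Cfsg.Agent.Lib.Helper48RankSeq

variable {F : Type*} [Field F] {ι : Type*} [Fintype ι] [DecidableEq ι]

/-- an alternating matrix has even rank -/
theorem even_rank_of_alt (Y : Matrix ι ι F) (halt : ∀ x : ι → F, x ⬝ᵥ Y.mulVec x = 0) :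
    Even Y.rank := by
  have hA : (Matrix.toBilin' Y).IsAlt := fun x => by rw [Matrix.toBilin'_apply']; exact halt x
  obtain ⟨m, k, b, h1, h2, h3, h4⟩ := Cfsg.Agent.S0752.result (Matrix.toBilin' Y) hA
  have hk := finrank_ker (Matrix.toBilin' Y) b (gram_eq _ hA b h1 h2 h3 h4)
  have hker : LinearMap.ker (Matrix.toBilin' Y) = LinearMap.ker Yᵀ.mulVecLin := by
    ext x
    rw [LinearMap.mem_ker, LinearMap.mem_ker, Matrix.mulVecLin_apply, Matrix.mulVec_transpose]
    constructor
    · intro hx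
      rw [← dotProduct_eq_zero_iff]
      intro w
      have := congrArg (fun f => f w) hx
      simpa [Matrix.toBilin'_apply', Matrix.dotProduct_mulVec] using this
    · intro hx
      apply LinearMap.ext
      intro w
      rw [Matrix.toBilin'_apply', Matrix.dotProduct_mulVec, hx]
      simp
  rw [hker] at hk
  have h5 := LinearMap.finrank_range_add_finrank_ker Yᵀ.mulVecLin
  have h6 : finrank F (LinearMap.range Yᵀ.mulVecLin) = Y.rank := by
    rw [← Matrix.rank_transpose Y]
    rfl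
  have h7 := Module.finrank_eq_card_basis b
  rw [Module.finrank_fintype_fun_eq_card] at h7 h5
  simp only [Fintype.card_sum, Fintype.card_fin] at h7
  exact ⟨m, by omega⟩

theorem transpose_of_alt (Y : Matrix ι ι F) (halt : ∀ x : ι → F, x ⬝ᵥ Y.mulVec x = 0) :
    Yᵀ = -Y := by
  have hA : (Matrix.toBilin' Y).IsAlt := fun x => by rw [Matrix.toBilin'_apply']; exact halt x
  ext i j
  have h := hA.neg_eq (Pi.single i 1) (Pi.single j 1)
  simp only [Matrix.toBilin'_single] at h
  rw [Matrix.transpose_apply, Matrix.neg_apply, ← h]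

section ranks
variable (A A' Y Y' : Matrix ι ι F) (hAA' : A * A' = 1) (hYY' : Y * Y' = 1)
  (hinv : Aᵀ * Y * A = Y)

include hAA' hinv in
/-- the key identity: `Y t^k (N - ε N')` has the shape `W - Wᵀ` -/
theorem key (ε : F) (hY : Yᵀ = ε • Y) (k : ℕ) :
    ∃ W : Matrix ι ι F, Y * ((-((A - 1) * (A' - 1))) ^ k * ((A - 1) - ε • (A' - 1))) = W - Wᵀ := by
  have hA'A : A' * A = 1 := mul_eq_one_comm.1 hAA'
  have ht1 : A'ᵀ * Aᵀ = 1 := by rw [← Matrix.transpose_mul, hAA', Matrix.transpose_one]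
  have e1 : Y * A = A'ᵀ * Y := by
    calc Y * A = (A'ᵀ * Aᵀ) * Y * A := by rw [ht1, one_mul]
      _ = A'ᵀ * (Aᵀ * Y * A) := by simp only [mul_assoc]
      _ = A'ᵀ * Y := by rw [hinv]
  have e2 : Y * A' = Aᵀ * Y := by
    calc Y * A' = (Aᵀ * Y * A) * A' := by rw [hinv]
      _ = Aᵀ * Y * (A * A') := by simp only [mul_assoc]
      _ = Aᵀ * Y := by rw [hAA', mul_one]
  set N := A - 1 with hN
  set N' := A' - 1 with hN'
  have e3 : Y * N = N'ᵀ * Y := by
    rw [hN, hN', mul_sub, e1, Matrix.transpose_sub, sub_mul, Matrix.transpose_one, mul_one, one_mul]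
  have e4 : Y * N' = Nᵀ * Y := by
    rw [hN, hN', mul_sub, e2, Matrix.transpose_sub, sub_mul, Matrix.transpose_one, mul_one, one_mul]
  have hc : Commute N N' := by
    change N * N' = N' * N
    rw [hN, hN', sub_mul, mul_sub, sub_mul, mul_sub, mul_sub, mul_sub, hAA', hA'A]
    simp only [mul_one, one_mul]
    abel
  set t := -(N * N') with ht
  have e5 : Y * t = tᵀ * Y := by
    rw [ht, mul_neg, ← mul_assoc, e3, mul_assoc, e4, Matrix.transpose_neg, Matrix.transpose_mul,
      neg_mul, ← mul_assoc]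
  have e6 : ∀ j : ℕ, Y * t ^ j = (t ^ j)ᵀ * Y := by
    intro j
    induction j with
    | zero => simp
    | succ j ih =>
      rw [pow_succ, ← mul_assoc, ih, mul_assoc, e5, ← mul_assoc, Matrix.transpose_mul]
      have hcc : (t ^ j)ᵀ * tᵀ = tᵀ * (t ^ j)ᵀ := by
        rw [← Matrix.transpose_mul, ← Matrix.transpose_mul, ← pow_succ, ← pow_succ']
      rw [hcc]
  have hct : Commute N' (t ^ k) := by
    apply Commute.pow_right
    rw [ht]
    exact (hc.symm.mul_right (Commute.refl N')).neg_right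
  refine ⟨Y * t ^ k * N, ?_⟩
  rw [Matrix.transpose_mul, Matrix.transpose_mul, hY, Matrix.mul_smul, Matrix.mul_smul, ← e6,
    ← mul_assoc Nᵀ, ← e4, ← mul_assoc Y, mul_sub, Matrix.mul_smul, mul_assoc Y N',
    hct.eq, mul_assoc Y, mul_assoc Y]

include hAA' hYY' hinv in
/-- isometries of an alternating form: even powers of `A - 1` have even rank -/
theorem even_rank_alt (halt : ∀ x : ι → F, x ⬝ᵥ Y.mulVec x = 0) (k : ℕ) :
    Even (((A - 1) ^ (2 * k)).rank) := by
  have hA'A : A' * A = 1 := mul_eq_one_comm.1 hAA'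
  have hYu : IsUnit Y.det := (Matrix.isUnit_iff_isUnit_det _).mp (IsUnit.of_mul_eq_one _ hYY')
  cases k with
  | zero =>
    have h1 := even_rank_of_alt Y halt
    rw [mul_zero, pow_zero, Matrix.rank_one]
    rwa [Matrix.rank_of_isUnit Y ((Matrix.isUnit_iff_isUnit_det _).2 hYu)] at h1
  | succ k =>
    obtain ⟨W, hW⟩ := key A A' Y hAA' hinv (-1) (by rw [transpose_of_alt Y halt, neg_one_smul]) k
    have h1 := even_rank_of_alt (W - Wᵀ) (alt_sub_transpose W)
    rw [← hW, Matrix.rank_mul_eq_right_of_isUnit_det _ _ hYu] at h1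
    have e0 : (A - 1) * A' = -(A' - 1) := by rw [sub_mul, hAA', one_mul]; abel
    have e1 : -((A - 1) * (A' - 1)) = (A - 1) * (A - 1) * A' := by
      rw [mul_assoc, e0, mul_neg]
    have e2 : (A - 1) - (-1 : F) • (A' - 1) = -((A - 1) * (A' - 1)) := by
      rw [neg_one_smul, sub_mul, mul_sub, hAA']
      simp only [mul_one, one_mul]
      abel
    have hcA : Commute ((A - 1) * (A - 1)) A' := by
      have h3 : Commute (A - 1) A' := by
        change (A - 1) * A' = A' * (A - 1)
        rw [sub_mul, mul_sub, hAA', hA'A, one_mul, mul_one]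
      exact h3.mul_left h3
    rw [e2, ← pow_succ, e1, hcA.mul_pow, ← pow_two, ← pow_mul,
      Matrix.rank_mul_eq_left_of_isUnit_det] at h1
    · exact h1
    · rw [← Matrix.isUnit_iff_isUnit_det]
      exact (IsUnit.of_mul_eq_one _ hA'A).pow _

include hAA' hYY' hinv in
/-- isometries of a symmetric form: odd powers of `A - 1` have even rank -/
theorem even_rank_symm (hY : Yᵀ = Y) (hu : IsUnit (A + 1)) (k : ℕ) :
    Even (((A - 1) ^ (2 * k + 1)).rank) := by
  have hA'A : A' * A = 1 := mul_eq_one_comm.1 hAA'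
  have hYu : IsUnit Y.det := (Matrix.isUnit_iff_isUnit_det _).mp (IsUnit.of_mul_eq_one _ hYY')
  obtain ⟨W, hW⟩ := key A A' Y hAA' hinv 1 (by rw [hY, one_smul]) k
  have h1 := even_rank_of_alt (W - Wᵀ) (alt_sub_transpose W)
  rw [← hW, Matrix.rank_mul_eq_right_of_isUnit_det _ _ hYu] at h1
  have e0 : (A - 1) * A' = -(A' - 1) := by rw [sub_mul, hAA', one_mul]; abel
  have e1 : -((A - 1) * (A' - 1)) = (A - 1) * (A - 1) * A' := by
    rw [mul_assoc, e0, mul_neg]
  have e2 : (A - 1) - (1 : F) • (A' - 1) = (A - 1) * ((A + 1) * A') := by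
    rw [one_smul, add_mul, hAA', one_mul, mul_add, mul_one, e0]
    abel
  have h3 : Commute (A - 1) A' := by
    change (A - 1) * A' = A' * (A - 1)
    rw [sub_mul, mul_sub, hAA', hA'A, one_mul, mul_one]
  have hcA : Commute ((A - 1) * (A - 1)) A' := h3.mul_left h3
  have e3 : ((A - 1) * (A - 1) * A') ^ k * ((A - 1) * ((A + 1) * A'))
      = (A - 1) ^ (2 * k + 1) * (A' ^ k * ((A + 1) * A')) := by
    rw [hcA.mul_pow, ← pow_two, ← pow_mul, pow_succ, mul_assoc, mul_assoc,
      ← mul_assoc (A' ^ k) (A - 1), (h3.symm.pow_left k).eq]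
    simp only [mul_assoc]
  rw [e2, e1, e3, Matrix.rank_mul_eq_left_of_isUnit_det] at h1
  · exact h1
  · rw [← Matrix.isUnit_iff_isUnit_det]
    exact ((IsUnit.of_mul_eq_one _ hA'A).pow _).mul (hu.mul (IsUnit.of_mul_eq_one _ hA'A))

end ranks

end Cfsg.Agent.Lib.Helper48UnipForm
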