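import Cfsg.Agent.Lib.Helper49UDefs
import Cfsg.Agent.Lib.H49UMem
import Cfsg.Agent.Lib.H49UBasic
import Cfsg.Agent.Lib.H49STvIso
import Cfsg.Agent.Lib.H49SGeo
import Cfsg.Agent.Lib.Helper48UnipForm
import Cfsg.Agent.Lib.Helper13EluT

/-!
# PROJECT 51 (Sp x O, part T2), piece `Swap2b`
-/

set_option autoImplicit false
set_option linter.unusedSectionVars false
set_option linter.unusedVariables false

namespace Cfsg.Agent.Lib.H49USwap2b

open scoped Matrix Kronecker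
open Matrix Cfsg.Agent.Lib.Helper49TDefs Cfsg.Agent.Lib.Helper49SDefs Cfsg.Agent.Lib.Helper49ODefs
  Cfsg.Agent.Lib.Helper49UDefs
open Cfsg.Agent.Lib.H49UMem
open Cfsg.Agent.Lib.H49UBasic
open Cfsg.Agent.Lib.H49STvIso
open Cfsg.Agent.Lib.H49SGeo

variable {F : Type*} [Field F] {a b n : ℕ}

local notation "GLn" => Matrix.GeneralLinearGroup (Fin a × Fin b) F
local notation "Mn" => Matrix (Fin a × Fin b) (Fin a × Fin b) F
local notation "Ma" => Matrix (Fin a) (Fin a) F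
local notation "Mb" => Matrix (Fin b) (Fin b) F
local notation "GLa" => Matrix.GeneralLinearGroup (Fin a) F
local notation "GLb" => Matrix.GeneralLinearGroup (Fin b) F

/-- rank of `T_u ⊗ 1` -/
theorem rank_Tu_kron {J : Ma} (hJ : IsSympMat J) {u : Fin a → F} (hu : u ≠ 0) :
    ((NJ J u u) ⊗ₖ (1 : Mb)).rank = b := by
  classical
  let L : (Fin b → F) →ₗ[F] (Fin a × Fin b → F) :=
    { toFun := fun y => tens u y
      map_add' := fun x y => tens_add_right u x y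
      map_smul' := fun k x => tens_smul_right k u x }
  have hL : Function.Injective L := fun x y h => tens_right_inj hu h
  have hrange : LinearMap.range ((NJ J u u) ⊗ₖ (1 : Mb)).mulVecLin = LinearMap.range L := by
    apply le_antisymm
    · rintro _ ⟨w, rfl⟩
      refine ⟨fun j => ∑ s', (J *ᵥ u) s' * w (s', j), ?_⟩
      rw [Matrix.mulVecLin_apply]
      show tens u (fun j => ∑ s', (J *ᵥ u) s' * w (s', j)) = _
      unfold NJ
      generalize J *ᵥ u = φ
      ext ⟨s, j⟩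
      simp only [tens, Matrix.mulVec, dotProduct, Fintype.sum_prod_type, Matrix.kroneckerMap_apply,
        Matrix.vecMulVec_apply, Matrix.one_apply]
      rw [Finset.mul_sum]
      refine Finset.sum_congr rfl fun s' _ => ?_
      simp [mul_assoc]
    · rintro _ ⟨y, rfl⟩
      obtain ⟨x, hx⟩ := hJ.exists_ne_zero hu
      refine ⟨tens x y, ?_⟩
      rw [Matrix.mulVecLin_apply, kron_mulVec_tens, NJ_mulVec, hx, one_smul, Matrix.one_mulVec]
      rfl
  rw [Matrix.rank, hrange, LinearMap.finrank_range_of_inj hL, Module.finrank_fin_fun]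

theorem stab_of_swap (D : SoDat F a b) (ha : 2 ≤ a) (hdiv : ¬ 2 * a ∣ b) (H : Subgroup GLn)
    (hMH : KS a b F ⊓ SG D ≤ H) (hH : H ≤ SG D) {h : GLn} (hh : h ∈ H) {c : Fin b → F}
    (hc : c ≠ 0) {u : Fin a → F} (hu : u ≠ 0)
    (hsw : ∀ x, ∃ z, (h : Mn) *ᵥ tens x c = tens u z) :
    ∃ t ∈ H, t ∉ KS a b F ∧ ∀ x, (t : Mn) *ᵥ tens x c = tens x c := by
  classical
  have ha0 : 0 < a := by omega
  obtain ⟨τ₁, hτiso, hτ, hτi⟩ := tv_iso D.h₁ u 1
  obtain ⟨m, hmM, hm, hmi⟩ := so1_mem D τ₁ hτiso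
  have hmH : m ∈ H := hMH hmM
  have htH : h⁻¹ * m * h ∈ H := H.mul_mem (H.mul_mem (H.inv_mem hh) hmH) hh
  have hmfix : ∀ z, (m : Mn) *ᵥ tens u z = tens u z := by
    intro z
    rw [hm, kron_mulVec_tens, hτ, Matrix.add_mulVec, Matrix.one_mulVec, one_smul, NJ_mulVec,
      D.h₁.alt, zero_smul, add_zero, Matrix.one_mulVec]
  have htfix : ∀ x, ((h⁻¹ * m * h : GLn) : Mn) *ᵥ tens x c = tens x c := by
    intro x
    obtain ⟨z, hz⟩ := hsw x
    rw [Units.val_mul, Units.val_mul, ← Matrix.mulVec_mulVec, ← Matrix.mulVec_mulVec, hz, hmfix,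
      ← hz, Matrix.mulVec_mulVec, ← Units.val_mul, inv_mul_cancel, Units.val_one, Matrix.one_mulVec]
  refine ⟨h⁻¹ * m * h, htH, ?_, htfix⟩
  intro htK
  obtain ⟨g₁, g₂, hg⟩ := htK
  set t : GLn := h⁻¹ * m * h with ht
  have ht1 : (t : Mn) - 1 = ((h⁻¹ : GLn) : Mn) * (NJ D.J₁ u u ⊗ₖ (1 : Mb)) * (h : Mn) := by
    rw [ht, Units.val_mul, Units.val_mul, hm, hτ, one_smul, Matrix.add_kronecker,
      Matrix.one_kronecker_one, Matrix.mul_add, Matrix.add_mul, Matrix.mul_one, ← Units.val_mul,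
      inv_mul_cancel, Units.val_one, add_sub_cancel_left]
  obtain ⟨j, hj⟩ := Function.ne_iff.mp hc
  simp only [Pi.zero_apply] at hj
  let φ : Fin b → F := Pi.single j (c j)⁻¹
  have hcφ : c ⬝ᵥ φ = 1 := by
    simp only [φ, dotProduct_single]
    exact mul_inv_cancel₀ hj
  let μ : F := ((g₂ : Mb) *ᵥ c) ⬝ᵥ φ
  have hμx : ∀ x, μ • ((g₁ : Ma) *ᵥ x) = x := by
    intro x
    have := congrArg (ctr φ) (htfix x)
    rw [hg, kron_mulVec_tens, ctr_tens, ctr_tens, hcφ, one_smul] at this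
    exact this
  have hμ0 : μ ≠ 0 := by
    intro h0
    have := hμx (Pi.single ⟨0, ha0⟩ 1)
    rw [h0, zero_smul] at this
    have h1 := congrFun this ⟨0, ha0⟩
    simp at h1
  let g' : Mb := μ⁻¹ • (g₂ : Mb)
  have hg₁ : (g₁ : Ma) = μ⁻¹ • 1 := by
    apply Matrix.toLin'.injective
    apply LinearMap.ext
    intro x
    simp only [Matrix.toLin'_apply, Matrix.smul_mulVec, Matrix.one_mulVec]
    conv_rhs => rw [← hμx x]
    rw [smul_smul, inv_mul_cancel₀ hμ0, one_smul]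
  have htg : (t : Mn) = (1 : Ma) ⊗ₖ g' := by
    rw [hg, hg₁, Matrix.smul_kronecker, ← Matrix.kronecker_smul]
  let G : Mb := g' - 1
  have htG : (t : Mn) - 1 = (1 : Ma) ⊗ₖ G := by
    have e1 : g' = G + 1 := by simp only [G]; abel
    rw [htg, e1, Matrix.kronecker_add, Matrix.one_kronecker_one, add_sub_cancel_right]
  have hhh : (h : Mn) * ((h⁻¹ : GLn) : Mn) = 1 := by
    rw [← Units.val_mul, mul_inv_cancel, Units.val_one]
  have hsq : ((t : Mn) - 1) * ((t : Mn) - 1) = 0 := by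
    rw [ht1]
    calc ((h⁻¹ : GLn) : Mn) * (NJ D.J₁ u u ⊗ₖ (1 : Mb)) * (h : Mn) *
          (((h⁻¹ : GLn) : Mn) * (NJ D.J₁ u u ⊗ₖ (1 : Mb)) * (h : Mn))
        = ((h⁻¹ : GLn) : Mn) * ((NJ D.J₁ u u ⊗ₖ (1 : Mb)) * ((h : Mn) * ((h⁻¹ : GLn) : Mn)) *
            (NJ D.J₁ u u ⊗ₖ (1 : Mb))) * (h : Mn) := by simp only [Matrix.mul_assoc]
      _ = 0 := by
        rw [hhh, Matrix.mul_one, ← Matrix.mul_kronecker_mul, NJ_mul, D.h₁.alt, zero_smul,
          Matrix.zero_kronecker, Matrix.mul_zero, Matrix.zero_mul]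
  have hGG : G * G = 0 := by
    rw [htG, ← Matrix.mul_kronecker_mul, Matrix.one_mul] at hsq
    ext i k
    have := congrFun (congrFun hsq (⟨0, ha0⟩, i)) (⟨0, ha0⟩, k)
    simpa [Matrix.kroneckerMap_apply] using this
  obtain ⟨x₀, hx₀⟩ := D.h₁.exists_ne_zero hu
  have hiso : ∀ v v', bf D.J₂ (g' *ᵥ v) (g' *ᵥ v') = bf D.J₂ v v' := by
    intro v v'
    have := hH htH (tens x₀ v) (tens u v')
    rw [htg, kron_mulVec_tens, kron_mulVec_tens, fK_tens, fK_tens, Matrix.one_mulVec,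
      Matrix.one_mulVec, hx₀, one_mul, one_mul] at this
    exact this
  have hg'v : ∀ v, g' *ᵥ v = v + G *ᵥ v := by
    intro v
    simp only [G]
    rw [Matrix.sub_mulVec, Matrix.one_mulVec]
    abel
  have hGGv : ∀ v, G *ᵥ (G *ᵥ v) = 0 := by
    intro v
    rw [Matrix.mulVec_mulVec, hGG, Matrix.zero_mulVec]
  have h1 : ∀ v, bf D.J₂ (G *ᵥ v) (G *ᵥ v) = 0 := by
    intro v
    have := hiso v (G *ᵥ v)
    rw [hg'v, hg'v (G *ᵥ v), hGGv, add_zero, bf_add_left] at this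
    linear_combination this
  have h2 : ∀ v, bf D.J₂ v (G *ᵥ v) = 0 := by
    intro v
    have := hiso v v
    rw [hg'v] at this
    simp only [bf_add_left, bf_add_right, h1, D.h₂.symm (G *ᵥ v) v] at this
    have h3 : 2 * bf D.J₂ v (G *ᵥ v) = 0 := by linear_combination this
    exact (mul_eq_zero.mp h3).resolve_left D.two
  have heven : Even (D.J₂ * G).rank :=
    Cfsg.Agent.Lib.Helper48UnipForm.even_rank_of_alt _ (fun x => by
      rw [← Matrix.mulVec_mulVec]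
      exact h2 x)
  have hrk : (D.J₂ * G).rank = G.rank := Matrix.rank_mul_eq_right_of_isUnit_det _ _ D.h₂.unit
  have hr1 : ((t : Mn) - 1).rank = b := by
    rw [ht1, Matrix.rank_mul_eq_left_of_isUnit_det _ _ ((Matrix.isUnit_iff_isUnit_det _).mp h.isUnit),
      Matrix.rank_mul_eq_right_of_isUnit_det _ _ ((Matrix.isUnit_iff_isUnit_det _).mp (h⁻¹).isUnit),
      rank_Tu_kron D.h₁ hu]
  have hr2 : ((t : Mn) - 1).rank = a * G.rank := by
    rw [htG, Cfsg.Agent.Lib.Helper13EluT.rank_one_kron]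
  apply hdiv
  obtain ⟨k, hk⟩ := heven
  rw [hrk] at hk
  exact ⟨k, by rw [← hr1, hr2, hk]; ring⟩

end Cfsg.Agent.Lib.H49USwap2b
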