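import Cfsg.Agent.Lib.Helper49UDefs
import Cfsg.Agent.Lib.H49UMem
import Cfsg.Agent.Lib.H49USkewIso
import Cfsg.Agent.Lib.H49UBasic
import Cfsg.Agent.Lib.H49STvIso

/-!
# PROJECT 51 (Sp x O, part T2), piece `ZtoT`
-/

set_option autoImplicit false
set_option linter.unusedSectionVars false
set_option linter.unusedVariables false

namespace Cfsg.Agent.Lib.H49UZtoT

open scoped Matrix Kronecker
open Matrix Cfsg.Agent.Lib.Helper49TDefs Cfsg.Agent.Lib.Helper49SDefs Cfsg.Agent.Lib.Helper49ODefs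
  Cfsg.Agent.Lib.Helper49UDefs
open Cfsg.Agent.Lib.H49UMem
open Cfsg.Agent.Lib.H49USkewIso
open Cfsg.Agent.Lib.H49UBasic
open Cfsg.Agent.Lib.H49STvIso

variable {F : Type*} [Field F] {a b n : ℕ}

local notation "GLn" => Matrix.GeneralLinearGroup (Fin a × Fin b) F
local notation "Mn" => Matrix (Fin a × Fin b) (Fin a × Fin b) F
local notation "Ma" => Matrix (Fin a) (Fin a) F
local notation "Mb" => Matrix (Fin b) (Fin b) F
local notation "GLa" => Matrix.GeneralLinearGroup (Fin a) F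
local notation "GLb" => Matrix.GeneralLinearGroup (Fin b) F

/-- `ζ` is skew-adjoint (`skew_of_mem`), so `s(x,y) = f₁(ζx,y)` is a nonzero symmetric form and `f₁(ζu,u) ≠ 0` for some `u`
(polarise, `2 ≠ 0`).  `τ = 1 + T_u`, `T_u = N₁(u,u)` (`H49STvIso.tv_iso` with `l = 1` and `l = -1`), `NN_conjO1`:
`τ^{±1} ζ τ^{∓1} = ζ ± (T_u ζ - ζ T_u) - T_u ζ T_u`, `T_u ζ T_u = f₁(ζu,u) T_u`.  All products of elements `ξ ⊗ N(c,c)` vanish, so by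
`NN_add`, `NN_neg`: `(ζ₊ + ζ₋ - ζ - ζ) ⊗ N(c,c) = (-2 f₁(ζu,u)) T_u ⊗ N(c,c) ∈ NN H`. -/
theorem hasT_of_hasZ (D : SoDat F a b) (H : Subgroup GLn) (hMH : KS a b F ⊓ SG D ≤ H)
    (hH : H ≤ SG D) (h : HasZ D H) : HasT D H := by
  obtain ⟨c, ζ, hc, hs, hζ, hN⟩ := h
  obtain ⟨g, hgH, hg⟩ := hN.2
  have hskew := skew_of_mem D hc hs ζ (hH hgH) hg
  have hsymm : ∀ x y, bf D.J₁ (ζ *ᵥ x) y = bf D.J₁ (ζ *ᵥ y) x := by
    intro x y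
    have h1 := hskew x y
    rw [D.h₁.swap x (ζ *ᵥ y)] at h1
    linear_combination h1
  obtain ⟨u, hu⟩ : ∃ u, bf D.J₁ (ζ *ᵥ u) u ≠ 0 := by
    by_contra hcon
    push Not at hcon
    apply hζ
    have h0 : ∀ x, ζ *ᵥ x = 0 := by
      intro x
      apply D.h₁.eq_zero_of_left
      intro y
      have h1 := hcon (x + y)
      rw [Matrix.mulVec_add, bf_add_left, bf_add_right, bf_add_right, hcon x, hcon y,
        hsymm y x] at h1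
      have h2 : (2 : F) * bf D.J₁ (ζ *ᵥ x) y = 0 := by linear_combination h1
      exact (mul_eq_zero.1 h2).resolve_left D.two
    ext i j
    have := congrFun (h0 (Pi.single j 1)) i
    simpa using this
  have hu0 : u ≠ 0 := by
    rintro rfl
    simp at hu
  have hNN0 : NJ D.J₂ c c * NJ D.J₂ c c = 0 := by rw [NJ_mul, hs, zero_smul]
  have hprod : ∀ ξ ξ' : Ma, (ξ ⊗ₖ NJ D.J₂ c c) * (ξ' ⊗ₖ NJ D.J₂ c c) = 0 := by
    intro ξ ξ'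
    rw [← Matrix.mul_kronecker_mul, hNN0, Matrix.kronecker_zero]
  have hadd : ∀ ξ ξ' : Ma, ξ ⊗ₖ NJ D.J₂ c c ∈ NN H → ξ' ⊗ₖ NJ D.J₂ c c ∈ NN H →
      (ξ + ξ') ⊗ₖ NJ D.J₂ c c ∈ NN H := by
    intro ξ ξ' h1 h2
    rw [Matrix.add_kronecker]
    exact NN_add h1 h2 (hprod _ _) (hprod _ _)
  have hneg : ∀ ξ : Ma, ξ ⊗ₖ NJ D.J₂ c c ∈ NN H → (-ξ) ⊗ₖ NJ D.J₂ c c ∈ NN H := by
    intro ξ h1
    have := NN_neg h1
    have e : (-ξ) ⊗ₖ NJ D.J₂ c c = -(ξ ⊗ₖ NJ D.J₂ c c) := by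
      ext ⟨i, j⟩ ⟨k, l⟩
      simp [Matrix.kronecker_apply]
    rwa [e]
  obtain ⟨τ, hτ, hτ1, hτ2⟩ := tv_iso D.h₁ u (1 : F)
  obtain ⟨σ, hσ, hσ1, hσ2⟩ := tv_iso D.h₁ u (-1 : F)
  have h1 := NN_conjO1 D hMH τ hτ hN
  have h2 := NN_conjO1 D hMH σ hσ hN
  rw [← Matrix.mul_kronecker_mul, ← Matrix.mul_kronecker_mul, one_mul, mul_one] at h1 h2
  have h3 := hadd _ _ (hadd _ _ (hadd _ _ h1 h2) (hneg _ hN)) (hneg _ hN)
  have hT : NJ D.J₁ u u * ζ * NJ D.J₁ u u = bf D.J₁ (ζ *ᵥ u) u • NJ D.J₁ u u := by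
    rw [mul_assoc, mul_NJ, NJ_mul]
  refine ⟨u, c, -2 * bf D.J₁ (ζ *ᵥ u) u, hu0, hc, hs,
    mul_ne_zero (neg_ne_zero.2 D.two) hu, ?_⟩
  convert h3 using 2
  rw [hτ1, hτ2, hσ1, hσ2]
  have e1 : (1 + (1 : F) • NJ D.J₁ u u) * ζ * (1 - (1 : F) • NJ D.J₁ u u)
      + (1 + (-1 : F) • NJ D.J₁ u u) * ζ * (1 - (-1 : F) • NJ D.J₁ u u) + -ζ + -ζ
      = (-2 : F) • (NJ D.J₁ u u * ζ * NJ D.J₁ u u) := by
    simp only [one_smul, neg_smul]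
    noncomm_ring
    module
  rw [e1, hT, smul_smul]

end Cfsg.Agent.Lib.H49UZtoT
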