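import Cfsg.Agent.Lib.Helper49UDefs
import Cfsg.Agent.Lib.H49ULayersO
import Cfsg.Agent.Lib.H49ULayInv
import Cfsg.Agent.Lib.H49UHK
import Cfsg.Agent.Lib.H49USim
import Cfsg.Agent.Lib.H49UStage2bO
import Cfsg.Agent.Lib.H49UStageE
import Cfsg.Agent.Lib.H49UStageF
import Cfsg.Agent.Lib.H49UStageG
import Cfsg.Agent.Lib.H49UZtoT
import Cfsg.Agent.Lib.H49UStabO
import Cfsg.Agent.Lib.H49UKY3
import Cfsg.Agent.Lib.H49USwap2b
import Cfsg.Agent.Lib.H49UProperO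
import Cfsg.Agent.Lib.H49UEnd
import Cfsg.Agent.Lib.Helper13TPure

/-!
# PROJECT 51 (Sp x O, part T2), the assembly:
`Sp_2(q) ⊗ O_b(q)` is maximal in `Sp_{2b}(q)` for `q` odd, `b ≥ 5`, `4 ∤ b`.
-/

set_option autoImplicit false
set_option linter.unusedSectionVars false
set_option linter.unusedVariables false

namespace Cfsg.Agent.Lib.H49UMain

open scoped Matrix Kronecker
open Matrix Cfsg.Agent.Lib.Helper49TDefs Cfsg.Agent.Lib.Helper49SDefs Cfsg.Agent.Lib.Helper49ODefs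
  Cfsg.Agent.Lib.Helper49UDefs
open Cfsg.Agent.Lib.H49ULayersO Cfsg.Agent.Lib.H49ULayInv Cfsg.Agent.Lib.H49UHK
  Cfsg.Agent.Lib.H49USim Cfsg.Agent.Lib.H49UStage2bO Cfsg.Agent.Lib.H49UStageE
  Cfsg.Agent.Lib.H49UStageF Cfsg.Agent.Lib.H49UStageG Cfsg.Agent.Lib.H49UZtoT
  Cfsg.Agent.Lib.H49UStabO Cfsg.Agent.Lib.H49UKY3 Cfsg.Agent.Lib.H49USwap2b
  Cfsg.Agent.Lib.H49UProperO Cfsg.Agent.Lib.H49UEnd

variable {F : Type*} [Field F] {a b n : ℕ}

local notation "GLn" => Matrix.GeneralLinearGroup (Fin a × Fin b) F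
local notation "Mn" => Matrix (Fin a × Fin b) (Fin a × Fin b) F
local notation "Ma" => Matrix (Fin a) (Fin a) F
local notation "Mb" => Matrix (Fin b) (Fin b) F

/-- layer II -/
theorem hasT_of_stab (D : SoDat F a b) (ha2 : a = 2) (hb : 3 ≤ b) (H : Subgroup GLn)
    (hMH : KS a b F ⊓ SG D ≤ H) (hH : H ≤ SG D) {t : GLn} (ht : t ∈ H) (htK : t ∉ KS a b F)
    {c : Fin b → F} (hc : c ≠ 0) (hs : bf D.J₂ c c = 0)
    (hst : ∀ x, ∃ x', (t : Mn) *ᵥ tens x c = tens x' c) : HasT D H := by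
  have ha : 0 < a := by omega
  obtain ⟨α, β, L⟩ := exists_layO D (hH ht) hc hst
  have L' := LayO_inv D (hH ht) L
  apply hasT_of_hasZ D H hMH hH
  rcases hK_or_hasZ D ha2 hb H hMH hH ht hc hs L with hZ | hK
  · exact hZ
  rcases hK_or_hasZ D ha2 hb H hMH hH (H.inv_mem ht) hc hs L' with hZ | hK'
  · exact hZ
  obtain ⟨μ, hμ, hsim⟩ := exists_sim D ha hb (hH ht) hc hs hK
  obtain ⟨d, hd⟩ := D.h₂.exists_ne_zero hc
  obtain ⟨w₁, η, htd⟩ := stage2bO D ha (t : Mn) hc L.inv d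
    (stageE D (hH ht) L.inv hμ hsim hK' d)
  obtain ⟨g, l, hl, hform, hNg⟩ := stageF D ha (hH ht) hc hs L hK d w₁ η hd htd
  exact stageG D ha2 H hMH hH ht htK hc hs L.inv g hl hform hNg

/-- layer I -/
theorem exists_stab_all [Fintype F] (D : SoDat F a b) (h1 : 2 ≤ a) (h12 : 2 * a < b)
    (hdiv : ¬ 2 * a ∣ b) (H : Subgroup GLn) (hMH : KS a b F ⊓ SG D ≤ H) (hH : H ≤ SG D)
    (hne : ¬ H ≤ KS a b F) :
    ∃ t ∈ H, t ∉ KS a b F ∧ ∃ c : Fin b → F, c ≠ 0 ∧ bf D.J₂ c c = 0 ∧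
      ∀ x, ∃ x', (t : Mn) *ᵥ tens x c = tens x' c := by
  by_cases hbad : ∃ h ∈ H, ∃ y, IsGood D y ∧ ¬ IsGood D ((h : Mn) *ᵥ y)
  · exact exists_stabO D h1 h12 H hMH hH hbad
  push Not at hbad
  obtain ⟨h, hhH, hhK⟩ := SetLike.not_le_iff_exists.1 hne
  by_cases hY : ∀ c, bf D.J₂ c c = 0 → ∃ c', ∀ x, ∃ x', (h : Mn) *ᵥ tens x c = tens x' c'
  · exact absurd (mem_KS_of_Y D (by omega) (by omega) h hY) hhK
  push Not at hY
  obtain ⟨c, hs, hc'⟩ := hY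
  have hc : c ≠ 0 := by
    rintro rfl
    obtain ⟨x, hx⟩ := hc' 0
    exact hx 0 (by rw [tens_zero_right', tens_zero_right', Matrix.mulVec_zero])
  let A : (Fin a → F) →ₗ[F] (Fin a × Fin b → F) :=
    { toFun := fun x => (h : Mn) *ᵥ tens x c
      map_add' := fun x y => by rw [tens_add_left, Matrix.mulVec_add]
      map_smul' := fun k x => by rw [tens_smul_left, Matrix.mulVec_smul]; rfl }
  have hA : ∀ x, IsPure (A x) := by
    intro x
    obtain ⟨x', c', -, hx'⟩ := hbad h hhH (tens x c) ⟨x, c, hs, rfl⟩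
    exact ⟨x', c', hx'⟩
  rcases Cfsg.Agent.Lib.Helper13TPure.pure_range A hA with ⟨x₀, hx₀⟩ | ⟨z₀, hz₀⟩
  · have hx₀ne : x₀ ≠ 0 := by
      rintro rfl
      have hx1 : (fun _ => 1 : Fin a → F) ≠ 0 := by
        intro h0
        have := congrFun h0 ⟨0, by omega⟩
        simp at this
      obtain ⟨z, hz⟩ := hx₀ (fun _ => 1)
      rw [tens_zero_left'] at hz
      have hz' : (h : Mn) *ᵥ tens (fun _ => 1) c = 0 := hz
      have h6 : ((h⁻¹ : GLn) : Mn) *ᵥ ((h : Mn) *ᵥ tens (fun _ => 1) c) = 0 := by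
        rw [hz', Matrix.mulVec_zero]
      rw [Matrix.mulVec_mulVec, ← Units.val_mul, inv_mul_cancel, Units.val_one,
        Matrix.one_mulVec] at h6
      exact hc (Cfsg.Agent.Lib.Helper13TPure.tens_eq_zero h6 hx1)
    obtain ⟨t, ht, htK, hfix⟩ := stab_of_swap D h1 hdiv H hMH hH hhH hc hx₀ne hx₀
    exact ⟨t, ht, htK, c, hc, hs, fun x => ⟨x, hfix x⟩⟩
  · obtain ⟨x, hx⟩ := hc' z₀
    obtain ⟨x', hx'⟩ := hz₀ x
    exact absurd hx' (hx x')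

theorem core_T2 [Fintype F] (D : SoDat F a b) (ha2 : a = 2) (hb : 5 ≤ b) (hdiv : ¬ 4 ∣ b)
    (H : Subgroup GLn) (hMH : KS a b F ⊓ SG D ≤ H) (hH : H ≤ SG D) (hne : ¬ H ≤ KS a b F) :
    H = SG D := by
  obtain ⟨t, ht, htK, c, hc, hs, hst⟩ := exists_stab_all D (by omega) (by omega)
    (by subst ha2; simpa using hdiv) H hMH hH hne
  exact eq_SG_of_hasT D (by omega) (by omega) H hMH hH
    (hasT_of_stab D ha2 (by omega) H hMH hH ht htK hc hs hst)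

/-- `Sp_2(q) ⊗ O_b(q)` is maximal in `Sp_{2b}(q)` (`q` odd, `b ≥ 5`, `4 ∤ b`) -/
theorem maximal_T2 [Fintype F] (D : SoDat F a b) (ha2 : a = 2) (hb : 5 ≤ b) (hdiv : ¬ 4 ∣ b) :
    Cfsg.Geo.IsMaximalIn (SG D) (KS a b F ⊓ SG D) := by
  refine ⟨lt_of_le_of_ne inf_le_right ?_, ?_⟩
  · intro h
    exact properO D (by omega) (by omega) (h ▸ inf_le_left)
  · intro M hM hMS
    by_cases hK : M ≤ KS a b F
    · left
      exact le_antisymm (le_inf hK hMS) hM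
    · right
      exact core_T2 D ha2 hb hdiv M hM hMS hK

end Cfsg.Agent.Lib.H49UMain
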