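import Cfsg.Agent.Lib.Helper49UDefs
import Cfsg.Agent.Lib.H49USkewIso
import Cfsg.Agent.Lib.H49URankLt
import Cfsg.Agent.Lib.H49USing
import Cfsg.Agent.Lib.H49SGeo
import Cfsg.Agent.Lib.H49SProper

/-!
# PROJECT 51 (Sp x O, part T2), piece `ProperO`
-/

set_option autoImplicit false
set_option linter.unusedSectionVars false
set_option linter.unusedVariables false

namespace Cfsg.Agent.Lib.H49UProperO

open scoped Matrix Kronecker
open Matrix Cfsg.Agent.Lib.Helper49TDefs Cfsg.Agent.Lib.Helper49SDefs Cfsg.Agent.Lib.Helper49ODefs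
  Cfsg.Agent.Lib.Helper49UDefs
open Cfsg.Agent.Lib.H49USkewIso
open Cfsg.Agent.Lib.H49URankLt
open Cfsg.Agent.Lib.H49USing
open Cfsg.Agent.Lib.H49SGeo

variable {F : Type*} [Field F] {a b n : ℕ}

local notation "GLn" => Matrix.GeneralLinearGroup (Fin a × Fin b) F
local notation "Mn" => Matrix (Fin a × Fin b) (Fin a × Fin b) F
local notation "Ma" => Matrix (Fin a) (Fin a) F
local notation "Mb" => Matrix (Fin b) (Fin b) F
local notation "GLa" => Matrix.GeneralLinearGroup (Fin a) F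
local notation "GLb" => Matrix.GeneralLinearGroup (Fin b) F

/-- `c` singular, `u ≠ 0`: `g = 1 + T_u ⊗ N(c,c) ∈ SG` (`skew_mem`; `T_u = N₁(u,u)` is skew-adjoint).  `rank (g - 1) ≤ 1 < b`, so if
`g ∈ KS` then `g = 1 ⊗ w`, `T_u ⊗ N(c,c) = 1 ⊗ (w - 1)`; apply to `u ⊗ v`: `0 = u ⊗ (w-1)v`, so `w = 1`, but `T_u ⊗ N(c,c) ≠ 0`.
(Compare `H49SProper`.) -/
theorem properO [Fintype F] (D : SoDat F a b) (ha : 2 ≤ a) (hb : 3 ≤ b) :
    ¬ SG D ≤ KS a b F := by
  intro hle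
  obtain ⟨c, hc, hs⟩ := exists_sing D.h₂ hb
  obtain ⟨u, hu⟩ : ∃ u : Fin a → F, u ≠ 0 := by
    refine ⟨Pi.single ⟨0, by omega⟩ 1, ?_⟩
    intro h
    have := congrFun h ⟨0, by omega⟩
    simp at this
  have hsk : ∀ x y, bf D.J₁ (NJ D.J₁ u u *ᵥ x) y + bf D.J₁ x (NJ D.J₁ u u *ᵥ y) = 0 := by
    intro x y
    rw [NJ_mulVec, NJ_mulVec, bf_smul_left, bf_smul_right, D.h₁.swap u y]
    ring
  obtain ⟨g, hg, e, -⟩ := skew_mem D hs (NJ D.J₁ u u) hsk
  have hr : ((g : Mn) - 1).rank < b := by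
    rw [e, add_sub_cancel_left, Cfsg.Agent.Lib.H49SProper.proper_kron_NJ]
    exact lt_of_le_of_lt (Matrix.rank_vecMulVec_le _ _) (by omega)
  obtain ⟨w, hw⟩ := eq_one_kron_of_rank_lt g (hle hg) hr
  obtain ⟨d, hd⟩ := D.h₂.exists_ne_zero hc
  obtain ⟨u', hu'⟩ := D.h₁.exists_ne_zero hu
  have key : ∀ x : Fin a → F, tens x d + tens (bf D.J₁ x u • u) c = tens x ((w : Mb) *ᵥ d) := by
    intro x
    have h1 : (g : Mn) *ᵥ tens x d = tens x ((w : Mb) *ᵥ d) := by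
      rw [hw, kron_mulVec_tens, Matrix.one_mulVec]
    rw [← h1, e, Matrix.add_mulVec, Matrix.one_mulVec, kron_mulVec_tens, NJ_mulVec, NJ_mulVec, hd,
      one_smul]
  have k1 := key u
  rw [D.h₁.alt, zero_smul, tens_zero_left', add_zero] at k1
  have k2 : (w : Mb) *ᵥ d = d := by
    have h3 : tens u ((w : Mb) *ᵥ d - d) = 0 := by
      have : tens u ((w : Mb) *ᵥ d - d) = tens u ((w : Mb) *ᵥ d) - tens u d := by
        ext p; simp [tens, mul_sub]
      rw [this, ← k1, sub_self]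
    by_contra hne
    exact Cfsg.Agent.Lib.H49SGeo.tens_ne_zero hu (sub_ne_zero.2 hne) h3
  have k3 := key u'
  rw [hu', one_smul, k2] at k3
  have k4 : tens u c = 0 := by
    have := k3
    exact add_eq_left.1 this
  exact Cfsg.Agent.Lib.H49SGeo.tens_ne_zero hu hc k4

end Cfsg.Agent.Lib.H49UProperO
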