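import Mathlib
import Cfsg.Agent.Lib.Helper4DefOneDefs

/-!
# Vocabulary for project 4502 (S4502: McKay equality when `p ∥ |G|`)
`P` a Sylow `p`-subgroup, `CP P = C_G(P)`, `NP P = N_G(P)`.
-/

set_option autoImplicit false

namespace Cfsg.Agent.Lib.H4McDefs

open Cfsg Subgroup Cfsg.Agent.Lib.Helper4DefOneDefs

variable {G : Type*} [Group G] {p : ℕ} [Fact p.Prime]

/-- `C_G(P)`. -/
abbrev CP (P : Sylow p G) : Subgroup G := centralizer ((P : Subgroup G) : Set G)

/-- `N_G(P)`. -/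
abbrev NP (P : Sylow p G) : Subgroup G := normalizer ((P : Subgroup G) : Set G)

/-- `θ ∈ Irr(C_G(P))` has `P` in its kernel. -/
def Triv (P : Sylow p G) (θ : IrrCharacter (CP P)) : Prop :=
  ∀ x : CP P, (x : G) ∈ (P : Subgroup G) → (θ : CP P → ℂ) x = (θ : CP P → ℂ) 1

/-- the order of the stabilizer of `θ` in `N_G(P)`. -/
noncomputable def sc (P : Sylow p G) (θ : IrrCharacter (CP P)) : ℕ :=
  Nat.card {n : G // Stab P (θ : CP P → ℂ) n}

/-- `θ` is a canonical character of (a root of) the block `B`. -/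
def Rel (M : Ideal AlgInt) (P : Sylow p G) (B : Set (IrrCharacter G))
    (θ : IrrCharacter (CP P)) : Prop :=
  ∃ (b : Set (IrrCharacter (CP P))) (tw : (↥(P : Subgroup G) →* ℂˣ) → IrrCharacter (CP P)),
    Data p M P (CP P) B b θ tw

/-- `χ` lies in the block with canonical character `θ`. -/
def RelC (M : Ideal AlgInt) (P : Sylow p G) (χ : IrrCharacter G) (θ : IrrCharacter (CP P)) : Prop :=
  ∃ B : Set (IrrCharacter G), χ ∈ B ∧ Rel M P B θ

/-- `θ' = θ^n`. -/
def IsConjBy (P : Sylow p G) (θ θ' : IrrCharacter (CP P)) (n : G) : Prop :=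
  ∀ c c' : CP P, (c' : G) = n * c * n⁻¹ → (θ' : CP P → ℂ) c = (θ : CP P → ℂ) c'

/-- the local invariant. -/
noncomputable def wt (P : Sylow p G) (θ : IrrCharacter (CP P)) : ℕ :=
  sc P θ ^ 2 + (p - 1) * Nat.card (CP P) ^ 2

/-- the local sum. -/
noncomputable def rhs (P : Sylow p G) : ℕ :=
  ∑ᶠ θ ∈ {θ : IrrCharacter (CP P) | Triv P θ}, wt P θ

/-- `P` as a Sylow subgroup of its normalizer. -/
noncomputable def PN (P : Sylow p G) : Sylow p (NP P) := P.subtype le_normalizer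

theorem coe_PN (P : Sylow p G) : ((PN P : Sylow p (NP P)) : Subgroup (NP P)) =
    (P : Subgroup G).subgroupOf (NP P) := rfl

end Cfsg.Agent.Lib.H4McDefs
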