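import Mathlib
import Cfsg.Agent.Lib.H4McDefs
import Cfsg.Agent.Lib.Helper40DefOneRoot

/-!
# Project 4502, piece `Blk`
-/

set_option autoImplicit false
set_option linter.unusedSectionVars false

namespace Cfsg.Agent.Lib.H4McBlk

open Cfsg Subgroup Cfsg.Agent.Lib.Helper4DefOneDefs Cfsg.Agent.Lib.H4McDefs

variable {G : Type*} [Group G] [Fintype G] {p : ℕ} [Fact p.Prime] {M : Ideal AlgInt}
  {P : Sylow p G}

/-- Every block of positive defect has a canonical character (for the GIVEN Sylow subgroup `P`). -/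
theorem rel_of_block (hM : IsPModular p M) (hP : Nat.card P = p) {B : Set (IrrCharacter G)}
    (hB : IsPBlock M B) (hd : 0 < blockDefect p B) : ∃ θ, Rel M P B θ := by
  classical
  have hp : p.Prime := Fact.out
  obtain ⟨D, hD⟩ := Cfsg.Agent.Lib.Helper20Induced.exists_defectGroup hM hB
  have hDcard := Cfsg.Agent.Lib.Helper20DefCard.card_defectGroup hM hB hD
  have hfac : (Nat.card G).factorization p = 1 := by
    have h1 := P.card_eq_multiplicity
    rw [hP] at h1
    have h2 : p ^ 1 = p ^ (Nat.card G).factorization p := by rw [pow_one]; exact h1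
    exact (Nat.pow_right_injective hp.two_le h2).symm
  have hsq : ¬ p ^ 2 ∣ Nat.card G := by
    intro h
    have := (hp.pow_dvd_iff_le_factorization Nat.card_pos.ne').1 h
    omega
  have hdef1 : blockDefect p B = 1 := by
    by_contra hne
    have h2 : 2 ≤ blockDefect p B := by omega
    apply hsq
    calc p ^ 2 ∣ p ^ blockDefect p B := pow_dvd_pow p h2
      _ ∣ Nat.card G := hDcard ▸ Subgroup.card_subgroup_dvd_card D
  rw [hdef1, pow_one] at hDcard
  have hDp : IsPGroup p D := IsPGroup.of_card (n := 1) (by rw [hDcard, pow_one])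
  obtain ⟨P₀, hDP⟩ := hDp.exists_le_sylow
  have hP₀ : Nat.card P₀ = p := by
    rw [P₀.card_eq_multiplicity, hfac, pow_one]
  have hDeq : D = (P₀ : Subgroup G) := by
    apply Subgroup.eq_of_le_of_card_ge hDP
    rw [hDcard]
    exact hP₀.le
  rw [hDeq] at hD
  obtain ⟨g, hg⟩ := MulAction.exists_smul_eq G P₀ P
  have hD' := Cfsg.Agent.Lib.Helper20Induced.isDefectGroup_cj hD g
  have hcj : Cfsg.Agent.Lib.Helper87Sylow.cj g (P₀ : Subgroup G) = (P : Subgroup G) := by
    rw [← hg]
    rfl
  rw [hcj] at hD'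
  have hPH : (P : Subgroup G) ≤ centralizer ((P : Subgroup G) : Set G) :=
    Cfsg.Agent.Lib.Helper1DefOneTw.le_centralizer_of_card hP rfl
  obtain ⟨b, hb, -⟩ := Cfsg.Agent.Lib.Helper20Major.exists_block_induced_defectGroup hM
    (P := (P : Subgroup G)) (H := centralizer ((P : Subgroup G) : Set G)) P.2 hPH le_rfl
    (centralizer_le_normalizer _) hB hD' le_rfl hPH
  have hn : ((P : Subgroup G).subgroupOf (centralizer ((P : Subgroup G) : Set G))).Normal := by
    have hc := Cfsg.Agent.Lib.Helper1DefOneTw.subgroupOf_le_center (P := P)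
      (H := centralizer ((P : Subgroup G) : Set G)) rfl
    constructor
    intro n hnm g
    have h1 : g * n = n * g := (mem_center_iff.1 (hc hnm)) g
    rw [h1, mul_assoc, mul_inv_cancel, mul_one]
    exact hnm
  obtain ⟨θ, hθ, hθP⟩ := Cfsg.Agent.Lib.Helper21Cover2.exists_mem_ker hM hb.1
    (P := (P : Subgroup G).subgroupOf (centralizer ((P : Subgroup G) : Set G))) P.2.comap_subtype
  have hθP' : ∀ x : centralizer ((P : Subgroup G) : Set G), (x : G) ∈ (P : Subgroup G) →
      (θ : centralizer ((P : Subgroup G) : Set G) → ℂ) x = (θ : centralizer ((P : Subgroup G) : Set G) → ℂ) 1 :=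
    fun x hx => hθP x (mem_subgroupOf.2 hx)
  obtain ⟨tw, htw, htwb⟩ := Cfsg.Agent.Lib.Helper1DefOneTw.exists_tw hM hP rfl hb.1 hθ hθP'
  exact ⟨θ, b, tw, ⟨hM, hP, rfl, hD', hb, hθ, hθP', htw, htwb⟩⟩

end Cfsg.Agent.Lib.H4McBlk
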