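import Mathlib
import Cfsg.Agent.Lib.Helper5Galois

/-!
# Project 7, part 2, piece `gal3`: cyclotomic automorphisms of `ℂ`
-/

set_option autoImplicit false

namespace Cfsg.Agent.Lib.Helper1DefOneGal3

open Cardinal

universe u

/-- two uncountable algebraically closed extensions of the same cardinality of a countable field
are isomorphic over that field. -/
theorem exists_equiv_over {R K L : Type u} [Field R] [Field K] [Field L] [Algebra R K] [Algebra R L]
    [IsAlgClosed K] [IsAlgClosed L] (hR : #R ≤ ℵ₀) (hK : ℵ₀ < #K) (hKL : #K = #L) :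
    ∃ σ : K ≃+* L, ∀ r : R, σ (algebraMap R K r) = algebraMap R L r := by
  obtain ⟨s, hs⟩ := exists_isTranscendenceBasis R K
  obtain ⟨t, ht⟩ := exists_isTranscendenceBasis R L
  have h1 : #K = #s :=
    IsAlgClosed.cardinal_eq_cardinal_transcendence_basis_of_aleph0_lt' _ hs hR hK
  have h2 : #L = #t :=
    IsAlgClosed.cardinal_eq_cardinal_transcendence_basis_of_aleph0_lt' _ ht hR (hKL ▸ hK)
  have h3 : #s = #t := by rw [← h1, ← h2, hKL]
  obtain ⟨e⟩ := Cardinal.eq.1 h3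
  let _ := IsAlgClosed.isAlgClosure_of_transcendence_basis _ hs
  let _ := IsAlgClosed.isAlgClosure_of_transcendence_basis _ ht
  let e' : Algebra.adjoin R (Set.range ((↑) : s → K)) ≃ₐ[R]
      Algebra.adjoin R (Set.range ((↑) : t → L)) :=
    hs.1.aevalEquiv.symm.trans ((MvPolynomial.renameEquiv R e).trans ht.1.aevalEquiv)
  refine ⟨IsAlgClosure.equivOfEquiv K L e'.toRingEquiv, fun r => ?_⟩
  have h4 : algebraMap R K r = algebraMap (Algebra.adjoin R (Set.range ((↑) : s → K))) K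
      (algebraMap R _ r) := rfl
  rw [h4, IsAlgClosure.equivOfEquiv_algebraMap]
  have h5 : e'.toRingEquiv (algebraMap R _ r) = algebraMap R _ r := e'.commutes r
  rw [h5]
  rfl


/-- every ring embedding of the field of algebraic numbers into `ℂ` extends to an automorphism
of `ℂ`. -/
theorem exists_aut_extending (ψ : Helper5Galois.K →+* ℂ) :
    ∃ σ : ℂ ≃+* ℂ, ∀ x : Helper5Galois.K, σ (x : ℂ) = ψ x := by
  have hR : #Helper5Galois.K ≤ ℵ₀ := by
    have : Algebra.IsAlgebraic ℚ Helper5Galois.K := algebraicClosure.isAlgebraic ℚ ℂ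
    have := Algebra.IsAlgebraic.cardinalMk_le_max ℚ Helper5Galois.K
    simpa using this
  have hK : ℵ₀ < #ℂ := by
    rw [Cardinal.mk_complex]
    exact Cardinal.aleph0_lt_continuum
  obtain ⟨σ, hσ⟩ := @exists_equiv_over Helper5Galois.K ℂ ℂ _ _ _
    (algebraMap Helper5Galois.K ℂ).toAlgebra ψ.toAlgebra _ _ hR hK rfl
  exact ⟨σ, fun x => hσ x⟩

/-- every exponent prime to `n` is realised on the `n`-th roots of unity by an automorphism of
`ℂ`. -/
theorem exists_aut_of_coprime (n : ℕ) (hn : 0 < n) (m : ℕ) (hm : m.Coprime n) :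
    ∃ σ : ℂ ≃+* ℂ, ∀ x : ℂ, x ^ n = 1 → σ x = x ^ m := by
  obtain ⟨ψ, hψ⟩ := Helper5Galois.exists_ringHom_of_coprime n hn m hm
  obtain ⟨σ, hσ⟩ := exists_aut_extending ψ
  refine ⟨σ, fun x hx => ?_⟩
  have hx' : x ∈ Helper5Galois.K :=
    mem_algebraicClosure_iff.mpr (Helper5Galois.isAlgebraic_of_pow_eq_one hn hx)
  have := hσ ⟨x, hx'⟩
  rw [hψ ⟨x, hx'⟩ hx] at this
  exact this


/-- the root of unity of S4507. -/
noncomputable def zetaReg (G : Type*) [Group G] (p : ℕ) : ℂ :=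
  Complex.exp (2 * Real.pi * Complex.I / ((Nat.card G / p ^ (Nat.card G).factorization p) : ℕ))

/-- Galois action on linear characters. -/
noncomputable def galHom {A : Type*} [Group A] (σ : ℂ ≃+* ℂ) (l : A →* ℂˣ) : A →* ℂˣ :=
  (Units.map (σ : ℂ →* ℂ)).comp l

theorem pow_eq_of_modEq {x : ℂ} {m a b : ℕ} (hx : x ^ m = 1) (h : a ≡ b [MOD m]) :
    x ^ a = x ^ b := by
  rw [pow_eq_pow_mod a hx, pow_eq_pow_mod b hx, h]

theorem exists_gal {G : Type*} [Group G] [Finite G] {p : ℕ} [Fact p.Prime] {P : Sylow p G}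
    (hP : Nat.card P = p) (l l' : ↥(P : Subgroup G) →* ℂˣ) (hl : l ≠ 1)
    (hl' : l' ≠ 1) : ∃ σ : ℂ ≃+* ℂ, σ (zetaReg G p) = zetaReg G p ∧ galHom σ l = l' := by
  have hp : p.Prime := Fact.out
  set m := Nat.card G / p ^ (Nat.card G).factorization p with hm
  have hpm : ¬ p ∣ m := Nat.not_dvd_ordCompl hp (Nat.card_pos (α := G)).ne'
  have hm0 : m ≠ 0 := fun h0 => hpm (h0 ▸ dvd_zero p)
  have hco : m.Coprime p := ((Nat.Prime.coprime_iff_not_dvd hp).2 hpm).symm
  have hcyc : IsCyclic ↥(P : Subgroup G) := isCyclic_of_prime_card hP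
  obtain ⟨x, hx⟩ := hcyc.exists_generator
  have hxp : x ^ p = 1 := by
    have := pow_card_eq_one' (x := x)
    rwa [hP] at this
  have key : ∀ k : ↥(P : Subgroup G) →* ℂˣ, k ≠ 1 → IsPrimitiveRoot ((k x : ℂˣ) : ℂ) p := by
    intro k hk
    have h1 : (k x) ^ p = 1 := by rw [← map_pow, hxp, map_one]
    have h2 : k x ≠ 1 := by
      intro h
      apply hk
      ext y
      obtain ⟨j, rfl⟩ := hx y
      simp [map_zpow, h]
    have := IsPrimitiveRoot.orderOf (k x)
    rw [orderOf_eq_prime h1 h2] at this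
    exact IsPrimitiveRoot.coe_units_iff.2 this
  have hω := key l hl
  have hω' := key l' hl'
  have : NeZero p := ⟨hp.ne_zero⟩
  obtain ⟨i, hip, hi⟩ := hω.eq_pow_of_pow_eq_one hω'.pow_eq_one
  have hi0 : ¬ p ∣ i := by
    rintro ⟨c, rfl⟩
    rw [pow_mul, hω.pow_eq_one, one_pow] at hi
    exact hω'.ne_one hp.one_lt hi.symm
  obtain ⟨k, hk1, hk2⟩ := Nat.chineseRemainder hco 1 i
  have hkm : k.Coprime m := by
    have := hk1.gcd_eq
    rw [Nat.Coprime, this]; simp
  have hkp : k.Coprime p := by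
    have := hk2.gcd_eq
    rw [Nat.Coprime, this]
    exact ((Nat.Prime.coprime_iff_not_dvd hp).2 hi0).symm
  obtain ⟨σ, hσ⟩ := exists_aut_of_coprime (m * p) (Nat.mul_pos (Nat.pos_of_ne_zero hm0) hp.pos) k
    (Nat.Coprime.mul_right hkm hkp)
  refine ⟨σ, ?_, ?_⟩
  · have hz : (zetaReg G p) ^ m = 1 := (Complex.isPrimitiveRoot_exp m hm0).pow_eq_one
    rw [hσ _ (by rw [pow_mul, hz, one_pow]), pow_eq_of_modEq hz hk1, pow_one]
  · have hgen : galHom σ l x = l' x := by
      apply Units.ext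
      have h1 : ((l x : ℂˣ) : ℂ) ^ p = 1 := hω.pow_eq_one
      change σ ((l x : ℂˣ) : ℂ) = _
      rw [hσ _ (by rw [mul_comm, pow_mul, h1, one_pow]), pow_eq_of_modEq h1 hk2, ← hi]
    ext y
    obtain ⟨j, rfl⟩ := hx y
    rw [map_zpow, map_zpow, hgen]

end Cfsg.Agent.Lib.Helper1DefOneGal3
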