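import Mathlib
import Cfsg.Agent.Lib.Helper4DefOneDefs
import Cfsg.Agent.Lib.Helper1DefOneGal3
import Cfsg.Agent.Lib.Helper4Eigen
import Cfsg.Agent.Lib.Helper4Char4
import Cfsg.Agent.Lib.Helper82Mult
import Cfsg.Agent.Lib.Helper21Cover2
import Cfsg.Agent.Lib.Helper81Orth

/-!
# Project 7, part 2, piece `gal1` (with `zetaReg`, `galHom` of `Helper1DefOneGal3`)
-/

set_option autoImplicit false

namespace Cfsg.Agent.Lib.Helper76DefOneGal1

open Cfsg Subgroup Cfsg.Agent.Lib.Helper59BLGram Cfsg.Agent.Lib.Helper59BLTw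
  Cfsg.Agent.Lib.Helper4DefOneDefs Cfsg.Agent.Lib.Helper1DefOneGal3
open scoped ComplexConjugate

section general

variable {G : Type*} [Group G] [Finite G] {p : ℕ} [Fact p.Prime]

/-- `σ` fixes the roots of unity of order dividing the `p'`-part of `|G|`. -/
theorem fix_root (σ : ℂ ≃+* ℂ) (hσ : σ (zetaReg G p) = zetaReg G p) {μ : ℂ} {m : ℕ}
    (hm : m ∣ Nat.card G) (hpm : ¬ p ∣ m) (hμ : μ ^ m = 1) : σ μ = μ := by
  have hp : p.Prime := Fact.out
  set g' := Nat.card G / p ^ (Nat.card G).factorization p with hg'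
  have hG0 : Nat.card G ≠ 0 := (Nat.card_pos (α := G)).ne'
  have hpg : ¬ p ∣ g' := Nat.not_dvd_ordCompl hp hG0
  have hg0 : g' ≠ 0 := fun h0 => hpg (h0 ▸ dvd_zero p)
  have hmul : p ^ (Nat.card G).factorization p * g' = Nat.card G := Nat.ordProj_mul_ordCompl_eq_self _ _
  have hco : m.Coprime (p ^ (Nat.card G).factorization p) :=
    Nat.Coprime.pow_right _ ((Nat.Prime.coprime_iff_not_dvd hp).2 hpm).symm
  have hmg : m ∣ g' := by
    rw [← hmul] at hm
    exact hco.dvd_of_dvd_mul_left hm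
  have hprim : IsPrimitiveRoot (zetaReg G p) g' := Complex.isPrimitiveRoot_exp g' hg0
  have hμ' : μ ^ g' = 1 := by
    obtain ⟨c, hc⟩ := hmg
    rw [hc, pow_mul, hμ, one_pow]
  have : NeZero g' := ⟨hg0⟩
  obtain ⟨i, -, hi⟩ := hprim.eq_pow_of_pow_eq_one hμ'
  rw [← hi, map_pow, hσ]

/-- `σ` fixes the values of characters at `p`-regular elements. -/
theorem fix_char (σ : ℂ ≃+* ℂ) (hσ : σ (zetaReg G p) = zetaReg G p) {X : Type*} [Group X] [Finite X]
    {ψ : X → ℂ} (hψ : IsCharacter X ψ) (y : X) (hy : orderOf y ∣ Nat.card G)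
    (hpy : ¬ p ∣ orderOf y) : σ (ψ y) = ψ y := by
  obtain ⟨n, ρ, rfl⟩ := hψ
  obtain ⟨μ, h1, -, -, h4, -⟩ := Helper4Eigen.exists_eigenvalues ρ y
  rw [h4, map_sum]
  apply Finset.sum_congr rfl
  intro i _
  exact fix_root σ hσ hy hpy (h1 i)

omit [Finite G] [Fact p.Prime] in
/-- ring automorphisms commute with complex conjugation on character values. -/
theorem map_conj_char (σ : ℂ ≃+* ℂ) {X : Type*} [Group X] [Finite X]
    {ψ : X → ℂ} (hψ : IsCharacter X ψ) (y : X) : σ (conj (ψ y)) = conj (σ (ψ y)) := by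
  obtain ⟨n, ρ, rfl⟩ := hψ
  obtain ⟨μ, h1, h2, -, h4, -⟩ := Helper4Eigen.exists_eigenvalues ρ y
  rw [h4, map_sum, map_sum, map_sum, map_sum]
  apply Finset.sum_congr rfl
  intro i _
  have h5 : (σ (μ i)) ^ orderOf y = 1 := by rw [← map_pow, h1, map_one]
  have h6 : ‖σ (μ i)‖ = 1 := Complex.norm_eq_one_of_pow_eq_one h5 (orderOf_pos y).ne'
  rw [← Complex.inv_eq_conj (h2 i), ← Complex.inv_eq_conj h6, map_inv₀]

end general

variable {G : Type*} [Group G] [Fintype G] {p : ℕ} [Fact p.Prime] {M : Ideal AlgInt}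
  {P : Sylow p G} {H : Subgroup G} [Fintype H]
  {B : Set (IrrCharacter G)} {b : Set (IrrCharacter H)} {θ : IrrCharacter H}
  {tw : (↥(P : Subgroup G) →* ℂˣ) → IrrCharacter H}

omit [Fintype G] [Fintype H] in
/-- every element of `C_G(P)` is the product of an element of `P` and a `p`-regular element. -/
theorem exists_decomp [Finite G] (hH : H = centralizer ((P : Subgroup G) : Set G)) (c : H) :
    ∃ (x : ↥(P : Subgroup G)) (y : H), ¬ p ∣ orderOf y ∧ (c : G) = (x : G) * (y : G) := by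
  have hp : p.Prime := Fact.out
  obtain ⟨x', y, hxy, -, ⟨k, hk⟩, hy⟩ := Helper81Orth.exists_ppart hp c
  have hx'P : (x' : G) ∈ (P : Subgroup G) := by
    have hz : IsPGroup p (zpowers (x' : G)) := by
      rw [IsPGroup.iff_card]
      refine ⟨k, ?_⟩
      rw [Nat.card_zpowers, Subgroup.orderOf_coe, hk]
    have hle : zpowers (x' : G) ≤ normalizer ((P : Subgroup G) : Set G) := by
      rw [zpowers_le]
      have h1 : (x' : G) ∈ centralizer ((P : Subgroup G) : Set G) := hH ▸ x'.2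
      exact Subgroup.centralizer_le_normalizer _ h1
    have hsup : IsPGroup p (zpowers (x' : G) ⊔ (P : Subgroup G) : Subgroup G) :=
      IsPGroup.to_sup_of_normal_right' hz P.2 hle
    have := P.is_maximal' hsup le_sup_right
    rw [← this]
    exact (le_sup_left : zpowers (x' : G) ≤ _) (mem_zpowers _)
  refine ⟨⟨x', hx'P⟩, y, hy, ?_⟩
  rw [← hxy]
  rfl

/-- `σ ∘ (l × θ) = (σ l) × θ`. -/
theorem tw_gal (h : Data p M P H B b θ tw) (σ : ℂ ≃+* ℂ) (hσ : σ (zetaReg G p) = zetaReg G p)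
    (l : ↥(P : Subgroup G) →* ℂˣ) (c : H) :
    (tw (galHom σ l) : H → ℂ) c = σ ((tw l : H → ℂ) c) := by
  obtain ⟨x, y, hy, hc⟩ := exists_decomp h.hH c
  rw [h.htw (galHom σ l) x y c hy hc, h.htw l x y c hy hc, map_mul]
  congr 1
  have hoy : orderOf y ∣ Nat.card G := by
    rw [← Subgroup.orderOf_coe]
    exact orderOf_dvd_natCard _
  exact (fix_char σ hσ (Helper82Irr.irr_isCharacter θ) y hoy hy).symm

/-- [gal1] -/
theorem gal_mH (h : Data p M P H B b θ tw) (σ : ℂ ≃+* ℂ) (hσ : σ (zetaReg G p) = zetaReg G p)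
    (χ χ' : IrrCharacter G) (hχ' : (χ' : G → ℂ) = fun g => σ ((χ : G → ℂ) g)) :
    (χ ∈ B → χ' ∈ B) ∧ ∀ l, mH χ' (tw (galHom σ l)) = mH χ (tw l) := by
  have hPr := Helper81Local.IsPModular.isPrime h.hM
  constructor
  · intro hχ
    apply Helper81Block.isPBlock_mem_of_sameBlock h.hind.2.1 hχ
    apply Helper21Cover2.sameBlock_of_regular h.hM
    intro g hg
    have h1 : (χ' : G → ℂ) g = (χ : G → ℂ) g := by
      rw [hχ']
      exact fix_char σ hσ (Helper82Irr.irr_isCharacter χ) g (orderOf_dvd_natCard g) hg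
    have h2 : (χ' : G → ℂ) 1 = (χ : G → ℂ) 1 := by
      rw [hχ']
      apply fix_char σ hσ (Helper82Irr.irr_isCharacter χ) 1 (orderOf_dvd_natCard 1)
      rw [orderOf_one]
      exact (Fact.out : p.Prime).one_lt.ne' ∘ Nat.dvd_one.mp
    unfold centralChar
    rw [h1, h2, sub_self]
    exact Helper81Local.memLocalIdeal_zero
  · intro l
    obtain ⟨m, hm⟩ := Helper82Mult.exists_nat_classInner
      (Helper4Char4.IsCharacter.restrict H (Helper82Irr.irr_isCharacter χ))
      (Helper82Irr.irr_isCharacter (tw l))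
    have h1 : mH χ (tw l) = m := hm
    have h2 : mH χ' (tw (galHom σ l)) = σ (mH χ (tw l)) := by
      unfold mH classInner
      rw [map_mul, map_inv₀, map_natCast, map_sum]
      congr 1
      apply Finset.sum_congr rfl
      intro c _
      rw [map_mul, tw_gal h σ hσ, map_conj_char σ (Helper82Irr.irr_isCharacter (tw l)), hχ']
    rw [h2, h1, map_natCast]

end Cfsg.Agent.Lib.Helper76DefOneGal1
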