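import Mathlib
import Cfsg.Agent.Lib.Helper76DefOneGal1
import Cfsg.Agent.Lib.Helper19Ind

/-!
# Project 7, part 2, piece `gal2` (the value formula is a hypothesis)
-/

set_option autoImplicit false

namespace Cfsg.Agent.Lib.Helper76DefOneGal2

open Cfsg Subgroup Cfsg.Agent.Lib.Helper59BLGram Cfsg.Agent.Lib.Helper59BLTw
  Cfsg.Agent.Lib.Helper4DefOneDefs Cfsg.Agent.Lib.Helper1DefOneGal3
  Cfsg.Agent.Lib.Helper76DefOneGal1
open scoped ComplexConjugate

variable {G : Type*} [Group G] [Fintype G] {p : ℕ} [Fact p.Prime] {M : Ideal AlgInt}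
  {P : Sylow p G} {H : Subgroup G} [Fintype H]
  [Fintype (normalizer ((P : Subgroup G) : Set G))]
  {B : Set (IrrCharacter G)} {b : Set (IrrCharacter H)} {θ : IrrCharacter H}
  {tw : (↥(P : Subgroup G) →* ℂˣ) → IrrCharacter H}

omit [Fintype G] [Fintype H] [Fintype (normalizer ((P : Subgroup G) : Set G))] in
/-- the stabilizer of `θ` in `N_G(P)` is a subgroup. -/
theorem exists_T (hH : H = centralizer ((P : Subgroup G) : Set G)) (θ : H → ℂ) :
    ∃ T : Subgroup G, ∀ g, g ∈ T ↔ Stab P θ g := by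
  have hconj : ∀ m ∈ normalizer ((P : Subgroup G) : Set G), ∀ c ∈ H, m * c * m⁻¹ ∈ H := by
    intro m hm c hc
    rw [hH] at hc ⊢
    rw [mem_centralizer_iff] at hc ⊢
    intro u hu
    have h1 : m⁻¹ * u * m ∈ (P : Subgroup G) := by
      have := (mem_normalizer_iff.mp (inv_mem hm) u).mp hu
      simpa using this
    have h2 := hc _ h1
    calc u * (m * c * m⁻¹) = m * ((m⁻¹ * u * m) * c) * m⁻¹ := by group
      _ = m * (c * (m⁻¹ * u * m)) * m⁻¹ := by rw [h2]
      _ = m * c * m⁻¹ * u := by group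
  refine ⟨{ carrier := {g | Stab P θ g}
            mul_mem' := ?_
            one_mem' := ?_
            inv_mem' := ?_ }, fun g => Iff.rfl⟩
  · rintro n m ⟨hn, hn'⟩ ⟨hm, hm'⟩
    refine ⟨mul_mem hn hm, fun c c' hc => ?_⟩
    rw [hn' ⟨m * c * m⁻¹, hconj m hm c c.2⟩ c' (by rw [hc]; group), hm' c ⟨m * c * m⁻¹, hconj m hm c c.2⟩ rfl]
  · refine ⟨one_mem _, fun c c' hc => ?_⟩
    have : c' = c := Subtype.ext (by rw [hc]; group)
    rw [this]
  · rintro n ⟨hn, hn'⟩
    refine ⟨inv_mem hn, fun c c' hc => ?_⟩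
    exact (hn' c' c (by rw [hc]; group)).symm

omit [Fintype G] [Fact p.Prime] in
theorem galHom_bijective {A : Type*} [Group A] (σ : ℂ ≃+* ℂ) :
    Function.Bijective (galHom σ : (A →* ℂˣ) → (A →* ℂˣ)) := by
  constructor
  · intro l l' h
    ext z
    have h1 := congrArg (fun k : A →* ℂˣ => ((k z : ℂˣ) : ℂ)) h
    exact σ.injective h1
  · intro l
    refine ⟨galHom σ.symm l, ?_⟩
    ext z
    show σ (σ.symm ((l z : ℂˣ) : ℂ)) = _
    simp

omit [Fintype G] [Fact p.Prime] in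
theorem galHom_one {A : Type*} [Group A] (σ : ℂ ≃+* ℂ) : galHom σ (1 : A →* ℂˣ) = 1 := by
  ext z
  show σ 1 = 1
  simp

omit [Fintype H] [Fintype (normalizer ((P : Subgroup G) : Set G))] in
/-- a `p`-singular element is conjugate to `x y` with `1 ≠ x ∈ P`, `y ∈ C_G(P)` `p`-regular. -/
theorem exists_conj_decomp (hP : Nat.card P = p) (hH : H = centralizer ((P : Subgroup G) : Set G))
    (g : G) (hg : p ∣ orderOf g) :
    ∃ (t : G) (x : ↥(P : Subgroup G)) (y : H), x ≠ 1 ∧ ¬ p ∣ orderOf y ∧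
      t * g * t⁻¹ = (x : G) * (y : G) := by
  have hp : p.Prime := Fact.out
  obtain ⟨u, v, huv, hc, ⟨k, hk⟩, hv⟩ := Helper81Orth.exists_ppart hp g
  have hu1 : u ≠ 1 := by
    rintro rfl
    rw [one_mul] at huv
    rw [huv] at hv
    exact hv hg
  have hz : IsPGroup p (zpowers u) := by
    rw [IsPGroup.iff_card]
    exact ⟨k, by rw [Nat.card_zpowers, hk]⟩
  obtain ⟨Q, hQ⟩ := hz.exists_le_sylow
  obtain ⟨t, ht⟩ := MulAction.exists_smul_eq G Q P
  have hx : t * u * t⁻¹ ∈ (P : Subgroup G) := by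
    rw [← ht]
    have h1 := Subgroup.smul_mem_pointwise_smul u (MulAut.conj t) (Q : Subgroup G) (hQ (mem_zpowers u))
    exact h1
  have hx1 : (⟨t * u * t⁻¹, hx⟩ : ↥(P : Subgroup G)) ≠ 1 := by
    intro h
    apply hu1
    have h1 : t * u * t⁻¹ = 1 := congrArg Subtype.val h
    have h2 : u = t⁻¹ * (t * u * t⁻¹) * t := by group
    rw [h2, h1]
    group
  have hgen : ∀ w ∈ (P : Subgroup G), w ∈ zpowers (t * u * t⁻¹) := by
    intro w hw
    have h1 : zpowers (⟨t * u * t⁻¹, hx⟩ : ↥(P : Subgroup G)) = ⊤ :=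
      zpowers_eq_top_of_prime_card hP hx1
    have h2 : (⟨w, hw⟩ : ↥(P : Subgroup G)) ∈ zpowers (⟨t * u * t⁻¹, hx⟩ : ↥(P : Subgroup G)) := by
      rw [h1]; trivial
    obtain ⟨j, hj⟩ := mem_zpowers_iff.mp h2
    rw [mem_zpowers_iff]
    refine ⟨j, ?_⟩
    have := congrArg Subtype.val hj
    simpa using this
  have hy : t * v * t⁻¹ ∈ H := by
    rw [hH, mem_centralizer_iff]
    intro w hw
    obtain ⟨j, rfl⟩ := mem_zpowers_iff.mp (hgen w hw)
    have h1 : Commute (t * u * t⁻¹) (t * v * t⁻¹) := by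
      show t * u * t⁻¹ * (t * v * t⁻¹) = t * v * t⁻¹ * (t * u * t⁻¹)
      have : u * v = v * u := hc
      calc t * u * t⁻¹ * (t * v * t⁻¹) = t * (u * v) * t⁻¹ := by group
        _ = t * (v * u) * t⁻¹ := by rw [this]
        _ = t * v * t⁻¹ * (t * u * t⁻¹) := by group
    exact (h1.zpow_left j)
  refine ⟨t, ⟨t * u * t⁻¹, hx⟩, ⟨t * v * t⁻¹, hy⟩, hx1, ?_, ?_⟩
  · rw [← Subgroup.orderOf_coe]
    show ¬ p ∣ orderOf (t * v * t⁻¹)
    have : orderOf (t * v * t⁻¹) = orderOf v := by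
      have := orderOf_injective (MulAut.conj t).toMonoidHom (MulAut.conj t).injective v
      simpa [MulAut.conj_apply] using this
    rw [this]
    exact hv
  · rw [← huv]
    show t * (u * v) * t⁻¹ = t * u * t⁻¹ * (t * v * t⁻¹)
    group

/-- [gal2], with the value formula as a hypothesis:
`gal_fixed h σ hσ χ hχ a ha g := by obtain ⟨T, hT⟩ := exists_T h.hH θ; exact gal_fixed_of_value h σ hσ χ a ha T
  (fun x hx y hy => value_formula h T hT χ hχ x hx y hy) g`. -/
theorem gal_fixed_of_value (h : Data p M P H B b θ tw) [Fintype (↥(P : Subgroup G) →* ℂˣ)]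
    (σ : ℂ ≃+* ℂ) (hσ : σ (zetaReg G p) = zetaReg G p)
    (χ : IrrCharacter G) (a : ℂ)
    (ha : ∀ l, l ≠ 1 → mH χ (tw l) - mH χ (tw 1) = a) (T : Subgroup G)
    (hval : ∀ (x : ↥(P : Subgroup G)), x ≠ 1 → ∀ y : H, ¬ p ∣ orderOf y →
      (Nat.card T : ℂ) * (χ : G → ℂ) ((x : G) * (y : G))
      = ∑ n : normalizer ((P : Subgroup G) : Set G), ∑ l : ↥(P : Subgroup G) →* ℂˣ,
        mH χ (tw l) * ((l (actHom P n x) : ℂˣ) : ℂ)
          * extendByZero H (θ : H → ℂ) ((n : G) * (y : G) * (n : G)⁻¹)) (g : G) :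
    σ ((χ : G → ℂ) g) = (χ : G → ℂ) g := by
  by_cases hg : p ∣ orderOf g
  swap
  · exact fix_char σ hσ (Helper82Irr.irr_isCharacter χ) g (orderOf_dvd_natCard g) hg
  obtain ⟨t, x, y, hx, hy, hxy⟩ := exists_conj_decomp h.hP h.hH g hg
  have hcl : (χ : G → ℂ) g = (χ : G → ℂ) ((x : G) * (y : G)) := by
    rw [← hxy]
    exact ((Helper4Char.IsCharacter.isClassFunction (Helper82Irr.irr_isCharacter χ)) g t).symm
  rw [hcl]
  have hT0 : (Nat.card T : ℂ) ≠ 0 := by
    exact_mod_cast (Nat.card_pos (α := T)).ne'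
  have hm : ∀ l, σ (mH χ (tw l)) = mH χ (tw l) := by
    intro l
    obtain ⟨m, hm⟩ := Helper82Mult.exists_nat_classInner
      (Helper4Char4.IsCharacter.restrict H (Helper82Irr.irr_isCharacter χ))
      (Helper82Irr.irr_isCharacter (tw l))
    have h1 : mH χ (tw l) = m := hm
    rw [h1, map_natCast]
  have hmg : ∀ l, mH χ (tw (galHom σ l)) = mH χ (tw l) := by
    intro l
    by_cases hl : l = 1
    · rw [hl, galHom_one]
    · have hl' : galHom σ l ≠ 1 := by
        intro h1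
        apply hl
        apply (galHom_bijective σ).1
        rw [h1, galHom_one]
      have h1 := ha l hl
      have h2 := ha _ hl'
      linear_combination h2 - h1
  have hE : ∀ w : G, orderOf w = orderOf (y : G) →
      σ (extendByZero H (θ : H → ℂ) w) = extendByZero H (θ : H → ℂ) w := by
    intro w hw
    by_cases hwH : w ∈ H
    · rw [Helper19Ind.extendByZero_of_mem H _ hwH]
      apply fix_char σ hσ (Helper82Irr.irr_isCharacter θ)
      · rw [← Subgroup.orderOf_coe]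
        exact orderOf_dvd_natCard _
      · rw [← Subgroup.orderOf_coe]
        show ¬ p ∣ orderOf w
        rw [hw, Subgroup.orderOf_coe]
        exact hy
    · rw [Helper19Ind.extendByZero_of_not_mem H _ hwH, map_zero]
  have key : σ ((Nat.card T : ℂ) * (χ : G → ℂ) ((x : G) * (y : G))) =
      (Nat.card T : ℂ) * (χ : G → ℂ) ((x : G) * (y : G)) := by
    rw [hval x hx y hy, map_sum]
    apply Finset.sum_congr rfl
    intro n _
    rw [map_sum, ← (galHom_bijective σ).sum_comp (fun l : ↥(P : Subgroup G) →* ℂˣ =>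
        mH χ (tw l) * ((l (actHom P n x) : ℂˣ) : ℂ)
          * extendByZero H (θ : H → ℂ) ((n : G) * (y : G) * (n : G)⁻¹))]
    apply Finset.sum_congr rfl
    intro l _
    rw [map_mul, map_mul, hm, hmg, hE]
    · rfl
    · have := orderOf_injective (MulAut.conj (n : G)).toMonoidHom (MulAut.conj (n : G)).injective (y : G)
      simpa [MulAut.conj_apply] using this
  rw [map_mul, map_natCast] at key
  exact mul_left_cancel₀ hT0 key

end Cfsg.Agent.Lib.Helper76DefOneGal2
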