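import Mathlib
import Cfsg.Agent.Lib.Helper4DefOneDefs
import Cfsg.Agent.Lib.Helper59BLStruct
import Cfsg.Agent.Lib.Helper19Ind

set_option autoImplicit false
set_option linter.unusedSectionVars false

/-! PROJECT 7 part 2, piece `2-deg` (from the value formula, given as a hypothesis). -/

namespace Cfsg.Agent.Lib.Helper95DefOneDeg

open Cfsg Subgroup Cfsg.Agent.Lib.Helper59BLGram Cfsg.Agent.Lib.Helper59BLTw
  Cfsg.Agent.Lib.Helper4DefOneDefs Cfsg.Agent.Lib.Helper59BLDual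
open scoped ComplexConjugate

variable {G : Type*} [Group G] [Fintype G] {p : ℕ} [Fact p.Prime] {M : Ideal AlgInt}
  {P : Sylow p G} {H : Subgroup G} [Fintype H]
  [Fintype (normalizer ((P : Subgroup G) : Set G))]
  {B : Set (IrrCharacter G)} {b : Set (IrrCharacter H)} {θ : IrrCharacter H}
  {tw : (↥(P : Subgroup G) →* ℂˣ) → IrrCharacter H}

theorem T_le (T : Subgroup G) (hT : ∀ g, g ∈ T ↔ Stab P (θ : H → ℂ) g) :
    T ≤ normalizer ((P : Subgroup G) : Set G) := fun g hg => ((hT g).1 hg).1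

theorem le_T (h : Data p M P H B b θ tw) (T : Subgroup G)
    (hT : ∀ g, g ∈ T ↔ Stab P (θ : H → ℂ) g) : H ≤ T := by
  intro g hg
  rw [hT]
  refine ⟨centralizer_le_normalizer' (by rw [← h.hH]; exact hg), fun c c' hc => ?_⟩
  have : c' = (⟨g, hg⟩ : H) * c * (⟨g, hg⟩ : H)⁻¹ := Subtype.ext hc
  rw [this, Cfsg.Agent.Lib.Helper81Base.irr_conj]

theorem card_N_eq (h : Data p M P H B b θ tw) (T : Subgroup G)
    (hT : ∀ g, g ∈ T ↔ Stab P (θ : H → ℂ) g) (e f : ℕ) (he : H.relIndex T = e)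
    (hf : H.relIndex (normalizer ((P : Subgroup G) : Set G)) = f) :
    Nat.card (normalizer ((P : Subgroup G) : Set G)) = (f / e) * Nat.card T := by
  have h1 := relIndex_mul_relIndex H T _ (le_T h T hT) (T_le T hT)
  have h2 := relIndex_mul_relIndex ⊥ T _ bot_le (T_le T hT)
  rw [relIndex_bot_left, relIndex_bot_left] at h2
  rw [he, hf] at h1
  have he0 : 0 < e := by
    rw [← he]
    exact Nat.pos_of_ne_zero (Subgroup.index_ne_zero_of_finite)
  rw [← h1, Nat.mul_div_cancel_left _ he0, ← h2, mul_comm]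

/-- `2-deg`, from the value formula at `y = 1`. -/
theorem degree_congr_of_value (h : Data p M P H B b θ tw) [Fintype (↥(P : Subgroup G) →* ℂˣ)]
    (T : Subgroup G) (hT : ∀ g, g ∈ T ↔ Stab P (θ : H → ℂ) g) (e f : ℕ) (he : H.relIndex T = e)
    (hf : H.relIndex (normalizer ((P : Subgroup G) : Set G)) = f)
    (χ : IrrCharacter G) (D : (↥(P : Subgroup G) →* ℂˣ) → ℤ)
    (hD : ∀ l, (D l : ℂ) = mH χ (tw l) - mH χ (tw 1))
    (hval : ∀ x : ↥(P : Subgroup G), x ≠ 1 →
      (Nat.card T : ℂ) * (χ : G → ℂ) ((x : G) * ((1 : H) : G))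
        = ∑ n : normalizer ((P : Subgroup G) : Set G), ∑ l : ↥(P : Subgroup G) →* ℂˣ,
          mH χ (tw l) * ((l (actHom P n x) : ℂˣ) : ℂ)
            * extendByZero H (θ : H → ℂ) ((n : G) * ((1 : H) : G) * (n : G)⁻¹)) :
    (charDegree (χ : G → ℂ) : ℤ) ≡ ((f / e * charDegree (θ : H → ℂ) : ℕ) : ℤ) * ∑ l, D l [ZMOD p] := by
  classical
  have : Fintype ↥(P : Subgroup G) := Fintype.ofFinite _
  have hcyc : IsCyclic ↥(P : Subgroup G) := isCyclic_of_prime_card h.hP
  have hab : IsMulCommutative ↥(P : Subgroup G) := ⟨⟨fun a b => by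
    let _ := IsCyclic.commGroup (α := ↥(P : Subgroup G))
    exact mul_comm a b⟩⟩
  have hcardΛ : (Fintype.card (↥(P : Subgroup G) →* ℂˣ) : ℂ) = p := by
    rw [← Nat.card_eq_fintype_card, Cfsg.Agent.Lib.Helper59BLDual.card_hom _ hab]
    have : Nat.card ↥(P : Subgroup G) = p := h.hP
    rw [this]
  have hθ1 : (θ : H → ℂ) 1 = (charDegree (θ : H → ℂ) : ℂ) :=
    (Cfsg.Agent.Lib.Helper81Base.charDegree_eq θ).symm
  have hχ1 : (χ : G → ℂ) 1 = (charDegree (χ : G → ℂ) : ℂ) :=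
    (Cfsg.Agent.Lib.Helper81Base.charDegree_eq χ).symm
  have hval' : ∀ x : ↥(P : Subgroup G), x ≠ 1 → (Nat.card T : ℂ) * (χ : G → ℂ) (x : G)
      = (θ : H → ℂ) 1 * ∑ n : normalizer ((P : Subgroup G) : Set G),
          ∑ l : ↥(P : Subgroup G) →* ℂˣ, mH χ (tw l) * ((l (actHom P n x) : ℂˣ) : ℂ) := by
    intro x hx
    have h0 := hval x hx
    have e1 : extendByZero H (θ : H → ℂ) (1 : G) = (θ : H → ℂ) 1 :=
      Cfsg.Agent.Lib.Helper19Ind.extendByZero_coe H (θ : H → ℂ) 1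
    simp only [OneMemClass.coe_one, mul_one, mul_inv_cancel, e1] at h0
    rw [h0, Finset.mul_sum]
    refine Finset.sum_congr rfl fun n _ => ?_
    rw [Finset.mul_sum]
    refine Finset.sum_congr rfl fun l _ => ?_
    ring
  have hl : ∀ l : ↥(P : Subgroup G) →* ℂˣ, ∑ x : ↥(P : Subgroup G), ((l x : ℂˣ) : ℂ)
      = if l = 1 then (p : ℂ) else 0 := by
    intro l
    split_ifs with h1
    · subst h1
      simp only [MonoidHom.one_apply, Units.val_one, Finset.sum_const, Finset.card_univ, nsmul_eq_mul,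
        mul_one]
      rw [← Nat.card_eq_fintype_card]
      have : Nat.card ↥(P : Subgroup G) = p := h.hP
      rw [this]
    · exact sum_hom_eq_zero l h1
  have herase : ∀ (n : normalizer ((P : Subgroup G) : Set G)) (l : ↥(P : Subgroup G) →* ℂˣ),
      ∑ x ∈ Finset.univ.erase (1 : ↥(P : Subgroup G)), ((l (actHom P n x) : ℂˣ) : ℂ)
        = (if l = 1 then (p : ℂ) else 0) - 1 := by
    intro n l
    rw [Finset.sum_erase_eq_sub (Finset.mem_univ _), map_one, map_one, Units.val_one, ← hl l]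
    congr 1
    exact Equiv.sum_comp (actHom P n).toEquiv (fun x => ((l x : ℂˣ) : ℂ))
  have hinner : ∑ l : ↥(P : Subgroup G) →* ℂˣ, mH χ (tw l) * ((if l = 1 then (p : ℂ) else 0) - 1)
      = - ∑ l, (D l : ℂ) := by
    simp only [hD, mul_sub, mul_one, Finset.sum_sub_distrib, mul_ite, mul_zero, Finset.sum_ite_eq',
      Finset.mem_univ, if_true, Finset.sum_const, Finset.card_univ, nsmul_eq_mul, hcardΛ]
    ring
  -- the sum over the non-trivial elements
  have hS : (Nat.card T : ℂ) * ∑ x ∈ Finset.univ.erase (1 : ↥(P : Subgroup G)), (χ : G → ℂ) (x : G)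
      = - ((θ : H → ℂ) 1 * (Nat.card (normalizer ((P : Subgroup G) : Set G)) : ℂ) * ∑ l, (D l : ℂ)) := by
    rw [Finset.mul_sum]
    have : ∀ x ∈ Finset.univ.erase (1 : ↥(P : Subgroup G)), (Nat.card T : ℂ) * (χ : G → ℂ) (x : G)
        = (θ : H → ℂ) 1 * ∑ n : normalizer ((P : Subgroup G) : Set G),
          ∑ l : ↥(P : Subgroup G) →* ℂˣ, mH χ (tw l) * ((l (actHom P n x) : ℂˣ) : ℂ) :=
      fun x hx => hval' x (Finset.ne_of_mem_erase hx)
    rw [Finset.sum_congr rfl this, ← Finset.mul_sum, Finset.sum_comm]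
    have h2 : ∀ n : normalizer ((P : Subgroup G) : Set G),
        ∑ x ∈ Finset.univ.erase (1 : ↥(P : Subgroup G)), ∑ l : ↥(P : Subgroup G) →* ℂˣ,
          mH χ (tw l) * ((l (actHom P n x) : ℂˣ) : ℂ) = - ∑ l, (D l : ℂ) := by
      intro n
      rw [Finset.sum_comm, ← hinner]
      refine Finset.sum_congr rfl fun l _ => ?_
      rw [← Finset.mul_sum, herase]
    rw [Finset.sum_congr rfl (fun n _ => h2 n), Finset.sum_const, Finset.card_univ, nsmul_eq_mul,
      ← Nat.card_eq_fintype_card]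
    ring
  -- the multiplicity of the trivial character
  obtain ⟨k, hk⟩ := Cfsg.Agent.Lib.Helper59BLStruct.exists_nat_mu (P := P) χ 1
  have hsum : ∑ x : ↥(P : Subgroup G), (χ : G → ℂ) (x : G) = (p : ℂ) * k := by
    rw [← hk]
    unfold mu classInner
    have hp : (Nat.card ↥(P : Subgroup G) : ℂ) = p := by
      have : Nat.card ↥(P : Subgroup G) = p := h.hP
      rw [this]
    have hp0 : (p : ℂ) ≠ 0 := by exact_mod_cast (Fact.out : p.Prime).ne_zero
    rw [hp, mul_inv_cancel_left₀ hp0]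
    simp
  have hsplit : (χ : G → ℂ) 1 + ∑ x ∈ Finset.univ.erase (1 : ↥(P : Subgroup G)), (χ : G → ℂ) (x : G)
      = (p : ℂ) * k := by
    rw [← hsum, Finset.sum_erase_eq_sub (Finset.mem_univ _)]
    simp
  have hT0 : (Nat.card T : ℂ) ≠ 0 := by exact_mod_cast Nat.card_pos.ne'
  have hN := card_N_eq h T hT e f he hf
  have hfin : (charDegree (χ : G → ℂ) : ℂ)
      = (p : ℂ) * k + ((f / e * charDegree (θ : H → ℂ) : ℕ) : ℂ) * ∑ l, (D l : ℂ) := by
    apply mul_left_cancel₀ hT0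
    rw [hN] at hS
    push_cast at hS ⊢
    rw [← hχ1, ← hθ1]
    linear_combination (Nat.card T : ℂ) * hsplit - hS
  have hZ : (charDegree (χ : G → ℂ) : ℤ)
      = (p : ℤ) * k + ((f / e * charDegree (θ : H → ℂ) : ℕ) : ℤ) * ∑ l, D l := by
    have : (((charDegree (χ : G → ℂ) : ℕ) : ℤ) : ℂ)
        = (((p : ℤ) * k + ((f / e * charDegree (θ : H → ℂ) : ℕ) : ℤ) * ∑ l, D l : ℤ) : ℂ) := by
      push_cast
      push_cast at hfin
      exact hfin
    exact Int.cast_injective this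
  rw [hZ]
  exact Int.modEq_iff_dvd.2 ⟨-k, by ring⟩

end Cfsg.Agent.Lib.Helper95DefOneDeg
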