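import Mathlib
import Cfsg.Agent.Lib.H4McDefs
import Cfsg.Agent.Lib.Helper4DefOneK
import Cfsg.Agent.Lib.Helper76DefOneGal2
import Cfsg.Agent.Lib.Helper95DefOneDeg

/-!
# Project 4502, piece `CardB`
-/

set_option autoImplicit false
set_option linter.unusedSectionVars false

namespace Cfsg.Agent.Lib.H4McCardB

open Cfsg Subgroup Cfsg.Agent.Lib.Helper4DefOneDefs Cfsg.Agent.Lib.H4McDefs

variable {G : Type*} [Group G] [Fintype G] {p : ℕ} [Fact p.Prime] {M : Ideal AlgInt}
  {P : Sylow p G}

/-- `k(B) = e + (p-1)/e` in multiplied form. -/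
theorem card_block {B : Set (IrrCharacter G)} {θ : IrrCharacter (CP P)} (h : Rel M P B θ) :
    Nat.card B * (sc P θ * Nat.card (CP P)) = wt P θ := by
  classical
  obtain ⟨b, tw, d⟩ := h
  have : Fintype (CP P) := Fintype.ofFinite _
  have : Fintype (normalizer ((P : Subgroup G) : Set G)) := Fintype.ofFinite _
  obtain ⟨T, hT⟩ := Cfsg.Agent.Lib.Helper76DefOneGal2.exists_T (P := P) d.hH (θ : CP P → ℂ)
  obtain ⟨he, hcard, -⟩ := Cfsg.Agent.Lib.Helper4DefOneK.main_K d T hT _ rfl
  have hle : CP P ≤ T := Cfsg.Agent.Lib.Helper95DefOneDeg.le_T d T hT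
  have hsc : sc P θ = Nat.card T := by
    unfold sc
    exact Nat.card_congr (Equiv.subtypeEquivRight (fun g => (hT g).symm))
  have hTc : Nat.card T = (CP P).relIndex T * Nat.card (CP P) := by
    have h1 := ((CP P).subgroupOf T).card_mul_index
    have h2 : Nat.card ((CP P).subgroupOf T) = Nat.card (CP P) :=
      Nat.card_congr (Subgroup.subgroupOfEquivOfLe hle).toEquiv
    rw [h2] at h1
    rw [← h1, mul_comm]
    rfl
  obtain ⟨f, hf⟩ := he
  have he0 : 0 < (CP P).relIndex T := by
    rcases Nat.eq_zero_or_pos ((CP P).relIndex T) with h0 | h0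
    · rw [h0, zero_mul] at hTc
      exact absurd hTc Nat.card_pos.ne'
    · exact h0
  have hdiv : (p - 1) / (CP P).relIndex T = f := by
    rw [hf]
    exact Nat.mul_div_cancel_left f he0
  unfold wt
  rw [hcard, hdiv, hsc, hTc, hf]
  ring

end Cfsg.Agent.Lib.H4McCardB
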