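import Mathlib
import Cfsg.Agent.Lib.H4McDefs
import Cfsg.Agent.Lib.Helper20Ext
import Cfsg.Agent.Lib.Helper40DefOneBrange

/-!
# Project 4502, piece `Conj`
-/

set_option autoImplicit false
set_option linter.unusedSectionVars false

namespace Cfsg.Agent.Lib.H4McConj

open Cfsg Subgroup Cfsg.Agent.Lib.Helper4DefOneDefs Cfsg.Agent.Lib.H4McDefs

variable {G : Type*} [Group G] [Fintype G] {p : ℕ} [Fact p.Prime] {M : Ideal AlgInt}
  {P : Sylow p G}

theorem induced_conj' (hM : IsPModular p M) {Q L : Subgroup G}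
    (hL : L = Q ⊔ Subgroup.centralizer (Q : Set G)) {B : Set (IrrCharacter G)}
    (hP : IsDefectGroup p M B Q) {b b' : Set (IrrCharacter L)}
    (hb : IsInducedBlock M L b B) (hb' : IsInducedBlock M L b' B) :
    ∃ n ∈ Subgroup.normalizer (Q : Set G), ∀ θ ∈ b, ∃ θ' ∈ b', ∀ x : L,
      ∀ hx : n * (x : G) * n⁻¹ ∈ L, (θ' : L → ℂ) x = (θ : L → ℂ) ⟨n * (x : G) * n⁻¹, hx⟩ := by
  subst hL
  exact Cfsg.Agent.Lib.Helper20Ext.induced_conj hM hP hb hb'

theorem eq_tw_one {H : Subgroup G} {B : Set (IrrCharacter G)} {b : Set (IrrCharacter H)}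
    {θ : IrrCharacter H} {tw : (↥(P : Subgroup G) →* ℂˣ) → IrrCharacter H}
    (d : Data p M P H B b θ tw) {ψ : IrrCharacter H} (hψ : ψ ∈ b)
    (hψP : ∀ x : H, (x : G) ∈ (P : Subgroup G) → (ψ : H → ℂ) x = (ψ : H → ℂ) 1) : ψ = tw 1 := by
  classical
  have hr := Cfsg.Agent.Lib.Helper40DefOneBrange.b_eq_range d
  rw [hr] at hψ
  obtain ⟨l, rfl⟩ := hψ
  have hl : l = 1 := by
    ext x
    have hxH : (x : G) ∈ H := Cfsg.Agent.Lib.Helper40DefOneBrange.P_le_H d x.2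
    have h1 := d.htw l x 1 ⟨x, hxH⟩ (by simp [(Fact.out : p.Prime).one_lt.ne']) (by simp)
    have h0 := d.htw l 1 1 1 (by simp [(Fact.out : p.Prime).one_lt.ne']) (by simp)
    rw [hψP ⟨x, hxH⟩ x.2, h0] at h1
    have h2 := mul_right_cancel₀ (Cfsg.Agent.Lib.Helper81Base.irr_one_ne_zero θ) h1
    simpa using h2.symm
  rw [hl]

/-- Two canonical characters of the same block are conjugate under `N_G(P)` (extended first main theorem). -/
theorem rel_conj (hM : IsPModular p M) {B : Set (IrrCharacter G)} {θ θ' : IrrCharacter (CP P)}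
    (h : Rel M P B θ) (h' : Rel M P B θ') : ∃ n ∈ NP P, IsConjBy P θ θ' n := by
  classical
  obtain ⟨b, tw, d⟩ := h
  obtain ⟨b', tw', d'⟩ := h'
  have hPH := Cfsg.Agent.Lib.Helper40DefOneBrange.P_le_H d
  have hL : CP P = (P : Subgroup G) ⊔ Subgroup.centralizer ((P : Subgroup G) : Set G) :=
    (sup_eq_right.2 hPH).symm
  obtain ⟨n, hn, H⟩ := induced_conj' hM hL d.hBP d.hind d'.hind
  obtain ⟨ξ, hξ, hξx⟩ := H θ d.hθ
  have hnC : ∀ x : CP P, n * (x : G) * n⁻¹ ∈ CP P := by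
    intro x
    rw [Subgroup.mem_centralizer_iff]
    intro y hy
    have hy' : n⁻¹ * y * n⁻¹⁻¹ ∈ (P : Subgroup G) :=
      (Subgroup.mem_normalizer_iff.1 (Subgroup.inv_mem _ hn) y).1 hy
    have hx := (Subgroup.mem_centralizer_iff.1 x.2) _ hy'
    calc y * (n * (x : G) * n⁻¹) = n * ((n⁻¹ * y * n⁻¹⁻¹) * x) * n⁻¹ := by group
      _ = n * (x * (n⁻¹ * y * n⁻¹⁻¹)) * n⁻¹ := by rw [hx]
      _ = n * (x : G) * n⁻¹ * y := by group
  have hξP : ∀ x : CP P, (x : G) ∈ (P : Subgroup G) → (ξ : CP P → ℂ) x = (ξ : CP P → ℂ) 1 := by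
    intro x hx
    rw [hξx x (hnC x), hξx 1 (hnC 1)]
    rw [d.hθP _ ((Subgroup.mem_normalizer_iff.1 hn x).1 hx)]
    refine congrArg (θ : CP P → ℂ) ?_
    apply Subtype.ext
    simp
  have e1 : ξ = tw' 1 := eq_tw_one d' hξ hξP
  have e2 : θ' = tw' 1 := eq_tw_one d' d'.hθ d'.hθP
  refine ⟨n, hn, fun c c' hc => ?_⟩
  rw [e2, ← e1, hξx c (hnC c)]
  refine congrArg (θ : CP P → ℂ) ?_
  apply Subtype.ext
  exact hc.symm

end Cfsg.Agent.Lib.H4McConj
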