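import Mathlib
import Cfsg.Agent.Lib.H4McDefs
import Cfsg.Agent.Lib.Helper83Char

/-!
# Project 4502, piece `ConjEx`
-/

set_option autoImplicit false
set_option linter.unusedSectionVars false

namespace Cfsg.Agent.Lib.H4McConjEx

open Cfsg Subgroup Cfsg.Agent.Lib.Helper4DefOneDefs Cfsg.Agent.Lib.H4McDefs

variable {G : Type*} [Group G] [Fintype G] {p : ℕ} [Fact p.Prime] {M : Ideal AlgInt}
  {P : Sylow p G}

omit [Fintype G] in
theorem conj_mem {n : G} (hn : n ∈ NP P) {c : G} (hc : c ∈ CP P) : n * c * n⁻¹ ∈ CP P := by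
  rw [Subgroup.mem_centralizer_iff] at hc ⊢
  intro x hx
  have hy : n⁻¹ * x * n ∈ ((P : Subgroup G) : Set G) := by
    rw [Subgroup.mem_normalizer_iff] at hn
    have := (hn (n⁻¹ * x * n)).2 (by
      have e : n * (n⁻¹ * x * n) * n⁻¹ = x := by group
      rw [e]; exact hx)
    exact this
  have := hc _ hy
  calc x * (n * c * n⁻¹) = n * ((n⁻¹ * x * n) * c) * n⁻¹ := by group
    _ = n * (c * (n⁻¹ * x * n)) * n⁻¹ := by rw [this]
    _ = _ := by group

omit [Fintype G] in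
theorem conj_mem' {n : G} (hn : n ∈ NP P) {c : G} (hc : c ∈ CP P) : n⁻¹ * c * n ∈ CP P := by
  have := conj_mem (P := P) ((NP P).inv_mem hn) hc
  simpa using this

/-- conjugation by `n ∈ N_G(P)` on `C_G(P)`. -/
def cjE {n : G} (hn : n ∈ NP P) : ↥(CP P) ≃* ↥(CP P) where
  toFun c := ⟨n * c * n⁻¹, conj_mem hn c.2⟩
  invFun c := ⟨n⁻¹ * c * n, conj_mem' hn c.2⟩
  left_inv c := by apply Subtype.ext; simp only []; group
  right_inv c := by apply Subtype.ext; simp only []; group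
  map_mul' c d := by apply Subtype.ext; simp only [Subgroup.coe_mul]; group

omit [Fintype G] in
theorem isConjBy_iff {θ θ' : IrrCharacter (CP P)} {n : G} (hn : n ∈ NP P) :
    IsConjBy P θ θ' n ↔ ∀ c : CP P, (θ' : CP P → ℂ) c = (θ : CP P → ℂ) (cjE hn c) := by
  constructor
  · intro h c
    exact h c _ rfl
  · intro h c c' hc
    rw [h c]
    have : cjE hn c = c' := Subtype.ext hc.symm
    rw [this]

/-- Conjugate characters exist. -/
theorem exists_conj (θ : IrrCharacter (CP P)) {n : G} (hn : n ∈ NP P) :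
    ∃ θ' : IrrCharacter (CP P), IsConjBy P θ θ' n := by
  refine ⟨⟨(θ : CP P → ℂ) ∘ (cjE hn), Helper83Char.irr_comp_mulEquiv (cjE hn) θ.2⟩, ?_⟩
  rw [isConjBy_iff hn]
  intro c
  rfl

/-- the conjugate is unique. -/
theorem conj_unique {θ θ₁ θ₂ : IrrCharacter (CP P)} {n : G} (hn : n ∈ NP P)
    (h₁ : IsConjBy P θ θ₁ n) (h₂ : IsConjBy P θ θ₂ n) : θ₁ = θ₂ := by
  rw [isConjBy_iff hn] at h₁ h₂
  apply Subtype.ext
  funext c
  exact (h₁ c).trans (h₂ c).symm

/-- `θ^n = θ^m` iff `m n⁻¹` stabilizes `θ`. -/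
theorem conj_eq_iff {θ θ' : IrrCharacter (CP P)} {n m : G} (hn : n ∈ NP P) (hm : m ∈ NP P)
    (h : IsConjBy P θ θ' n) : IsConjBy P θ θ' m ↔ Stab P (θ : CP P → ℂ) (m * n⁻¹) := by
  constructor
  · intro h'
    refine ⟨(NP P).mul_mem hm ((NP P).inv_mem hn), ?_⟩
    intro c c' hc
    have e1 := h ((cjE hn).symm c) c (by
      show (c : G) = n * (n⁻¹ * c * n) * n⁻¹
      group)
    have e2 := h' ((cjE hn).symm c) c' (by
      show (c' : G) = m * (n⁻¹ * c * n) * m⁻¹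
      rw [hc]; group)
    rw [← e1, ← e2]
  · intro hs c c' hc
    have e1 := h c (cjE hn c) rfl
    have e2 := hs.2 (cjE hn c) c' (by
      show (c' : G) = m * n⁻¹ * (n * c * n⁻¹) * (m * n⁻¹)⁻¹
      rw [hc]; group)
    rw [e1, e2]

end Cfsg.Agent.Lib.H4McConjEx
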