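import Mathlib
import Cfsg.Agent.Lib.H4McDefs


/-!
# Project 4502, piece `Count`
-/

set_option autoImplicit false
set_option linter.unusedSectionVars false

namespace Cfsg.Agent.Lib.H4McCount

open Cfsg Subgroup Cfsg.Agent.Lib.Helper4DefOneDefs Cfsg.Agent.Lib.H4McDefs

variable {G : Type*} [Group G] [Fintype G] {p : ℕ} [Fact p.Prime] {M : Ideal AlgInt}
  {P : Sylow p G}

/-- Abstract double counting. -/
theorem double_count {α β : Type*} [Finite α] [Finite β] (R : α → β → Prop) (A : Set α)
    (Bs : Set β) (s w : β → ℕ) (c N : ℕ) (hR : ∀ a b, R a b → a ∈ A ∧ b ∈ Bs)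
    (h1 : ∀ a ∈ A, ∑ᶠ b ∈ {b | R a b}, s b = N)
    (h2 : ∀ b ∈ Bs, Nat.card {a // R a b} * (s b * c) = w b) :
    Nat.card A * (N * c) = ∑ᶠ b ∈ Bs, w b := by
  classical
  haveI := Fintype.ofFinite α
  haveI := Fintype.ofFinite β
  have e1 : ∑ᶠ b ∈ Bs, w b = ∑ b : β, ∑ a : α, if R a b then s b * c else 0 := by
    rw [finsum_mem_eq_finite_toFinset_sum _ (Set.toFinite Bs)]
    rw [← Finset.sum_subset (Finset.subset_univ (Set.toFinite Bs).toFinset)]
    · apply Finset.sum_congr rfl
      intro b hb
      rw [← h2 b (by simpa using hb)]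
      rw [← Finset.sum_filter, Finset.sum_const, smul_eq_mul, Nat.card_eq_fintype_card,
        Fintype.card_subtype]
    · intro b _ hb
      apply Finset.sum_eq_zero
      intro a _
      rw [if_neg]
      intro h
      exact hb (by simpa using (hR a b h).2)
  have e2 : Nat.card A * (N * c) = ∑ a : α, ∑ b : β, if R a b then s b * c else 0 := by
    rw [← Finset.sum_subset (Finset.subset_univ (Set.toFinite A).toFinset)]
    · rw [Finset.sum_congr rfl (g := fun _ => N * c)]
      · rw [Finset.sum_const, smul_eq_mul, Nat.card_eq_card_finite_toFinset (Set.toFinite A)]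
      · intro a ha
        rw [← h1 a (by simpa using ha), finsum_mem_eq_finite_toFinset_sum _ (Set.toFinite _),
          Finset.sum_mul, ← Finset.sum_filter]
        apply Finset.sum_congr _ (fun _ _ => rfl)
        ext b; simp
    · intro a _ ha
      apply Finset.sum_eq_zero
      intro b _
      rw [if_neg]
      intro h
      exact ha (by simpa using (hR a b h).1)
  rw [e1, e2, Finset.sum_comm]

end Cfsg.Agent.Lib.H4McCount
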