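import Mathlib
import Cfsg.Agent.Lib.H4McDefs
import Cfsg.Agent.Lib.Helper1DefOneTw
import Cfsg.Agent.Lib.Helper20Induced
import Cfsg.Agent.Lib.Helper20Major
import Cfsg.Agent.S0919

/-!
# Project 4502, piece `Theta`
-/

set_option autoImplicit false
set_option linter.unusedSectionVars false

namespace Cfsg.Agent.Lib.H4McTheta

open Cfsg Subgroup Cfsg.Agent.Lib.Helper4DefOneDefs Cfsg.Agent.Lib.H4McDefs
open Cfsg.Agent.Lib.Helper20Block Cfsg.Agent.Lib.Helper20Local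

variable {G : Type*} [Group G] [Fintype G] {p : ℕ} [Fact p.Prime] {M : Ideal AlgInt}
  {P : Sylow p G}

/-- Every `θ ∈ Irr(C_G(P))` with `P ≤ ker θ` is the canonical character of a block of `G`. -/
theorem rel_of_theta (hM : IsPModular p M) (hP : Nat.card P = p) {θ : IrrCharacter (CP P)}
    (hθ : Triv P θ) : ∃ B, Rel M P B θ := by
  classical
  have hPr := IsPModular.isPrime hM
  have hPH : (P : Subgroup G) ≤ CP P :=
    Cfsg.Agent.Lib.Helper1DefOneTw.le_centralizer_of_card hP rfl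
  have hb : IsPBlock M (blockOf M (θ : CP P → ℂ)) := isPBlock_blockOf θ
  have hθb : θ ∈ blockOf M (θ : CP P → ℂ) := mem_blockOf_self hPr θ
  obtain ⟨B, hind⟩ := Cfsg.Agent.S0919.result p M hM (P : Subgroup G) (CP P) P.2 hPH le_rfl
    (centralizer_le_normalizer _) _ hb
  have hD := Cfsg.Agent.Lib.Helper1DefOneTw.isDefectGroup_subgroupOf (H := CP P) hM hP rfl hb hθb hθ
  obtain ⟨E, hE, hle⟩ := Cfsg.Agent.Lib.Helper20Induced.defectGroup_le_of_induced (CP P) hM hind hD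
  have hPE : (P : Subgroup G) ≤ E := by
    intro x hx
    exact hle ⟨⟨x, hPH hx⟩, mem_subgroupOf.2 hx, rfl⟩
  obtain ⟨g, -, hS⟩ := Cfsg.Agent.Lib.Helper20Defect.isDefectGroup_iff.mp hE
  have hEp : IsPGroup p E := hS.isPGroup
  have hEP : E = (P : Subgroup G) := P.3 hEp hPE
  rw [hEP] at hE
  obtain ⟨tw, htw, htwb⟩ := Cfsg.Agent.Lib.Helper1DefOneTw.exists_tw (H := CP P) hM hP rfl hb hθb hθ
  exact ⟨B, _, tw, ⟨hM, hP, rfl, hE, hind, hθb, hθ, htw, htwb⟩⟩

end Cfsg.Agent.Lib.H4McTheta
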