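import Mathlib
import Cfsg.Agent.Lib.H4McDefs
import Cfsg.Agent.Lib.H4McTheta
import Cfsg.Agent.Lib.Helper20Major

/-!
# Project 4502, piece `OfConj`
-/

set_option autoImplicit false
set_option linter.unusedSectionVars false

namespace Cfsg.Agent.Lib.H4McOfConj

open Cfsg Subgroup Cfsg.Agent.Lib.Helper4DefOneDefs Cfsg.Agent.Lib.H4McDefs
open Cfsg.Agent.Lib.Helper20Block Cfsg.Agent.Lib.Helper20Local

variable {G : Type*} [Group G] [Fintype G] {p : ℕ} [Fact p.Prime] {M : Ideal AlgInt}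
  {P : Sylow p G}

omit [Fintype G] in
theorem conj_mem_P {n : G} (hn : n ∈ NP P) {x : G} (hx : x ∈ (P : Subgroup G)) :
    n * x * n⁻¹ ∈ (P : Subgroup G) := (mem_normalizer_iff.mp hn x).mp hx

omit [Fintype G] in
theorem conj_mem_CP {n : G} (hn : n ∈ NP P) {c : G} (hc : c ∈ CP P) :
    n * c * n⁻¹ ∈ CP P := by
  rw [mem_centralizer_iff] at hc ⊢
  intro u hu
  have h1 : n⁻¹ * u * n ∈ (P : Subgroup G) := by
    have := conj_mem_P (inv_mem hn) hu
    rwa [inv_inv] at this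
  have h2 := hc _ h1
  calc u * (n * c * n⁻¹) = n * ((n⁻¹ * u * n) * c) * n⁻¹ := by group
    _ = n * (c * (n⁻¹ * u * n)) * n⁻¹ := by rw [h2]
    _ = n * c * n⁻¹ * u := by group

omit [Fintype G] in
theorem induced_eq {θ θ' : IrrCharacter (CP P)} {n : G} (hn : n ∈ NP P)
    (hc : IsConjBy P θ θ' n) (g : G) :
    inducedCentralChar (CP P) (θ' : CP P → ℂ) g = inducedCentralChar (CP P) (θ : CP P → ℂ) g := by
  unfold inducedCentralChar
  have h1 : (θ' : CP P → ℂ) 1 = (θ : CP P → ℂ) 1 := hc 1 1 (by simp)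
  refine finsum_mem_eq_of_bijOn (fun c : CP P => (⟨n * c * n⁻¹, conj_mem_CP hn c.2⟩ : CP P))
    ⟨?_, ?_, ?_⟩ ?_
  · intro c hcc
    simp only [Set.mem_setOf_eq] at hcc ⊢
    exact hcc.trans (isConj_iff.2 ⟨n, rfl⟩)
  · intro c _ c' _ h
    have h2 : n * (c : G) * n⁻¹ = n * (c' : G) * n⁻¹ := congrArg Subtype.val h
    exact Subtype.ext (mul_left_cancel (mul_right_cancel h2))
  · intro c hcc
    simp only [Set.mem_setOf_eq] at hcc
    refine ⟨⟨n⁻¹ * c * n, ?_⟩, ?_, ?_⟩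
    · have := conj_mem_CP (inv_mem hn) c.2
      rwa [inv_inv] at this
    · simp only [Set.mem_setOf_eq]
      exact hcc.trans (isConj_iff.2 ⟨n⁻¹, by simp⟩)
    · apply Subtype.ext
      simp only
      group
  · intro c _
    rw [h1, hc c ⟨n * c * n⁻¹, conj_mem_CP hn c.2⟩ rfl]

/-- An `N_G(P)`-conjugate of a canonical character of `B` is a canonical character of `B`. -/
theorem rel_of_conj (hM : IsPModular p M) {B : Set (IrrCharacter G)} {θ θ' : IrrCharacter (CP P)}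
    (h : Rel M P B θ) {n : G} (hn : n ∈ NP P) (hc : IsConjBy P θ θ' n) : Rel M P B θ' := by
  classical
  have hPr := IsPModular.isPrime hM
  obtain ⟨b, tw, d⟩ := h
  have htriv : Triv P θ' := by
    intro x hx
    rw [hc x ⟨n * x * n⁻¹, conj_mem_CP hn x.2⟩ rfl, hc 1 1 (by simp)]
    exact d.hθP _ (conj_mem_P hn hx)
  obtain ⟨B', hB'⟩ := Cfsg.Agent.Lib.H4McTheta.rel_of_theta hM d.hP htriv
  have hB'' := hB'
  obtain ⟨b', tw', d'⟩ := hB''
  obtain ⟨χ, hχ⟩ := IsPBlock.nonempty hPr d.hind.2.1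
  obtain ⟨χ', hχ'⟩ := IsPBlock.nonempty hPr d'.hind.2.1
  have hs : SameBlock M (χ : G → ℂ) (χ' : G → ℂ) := by
    intro g
    have h1 := d'.hind.2.2 θ' d'.hθ χ' hχ' g
    rw [induced_eq hn hc] at h1
    have := liSub hPr h1 (d.hind.2.2 θ d.hθ χ hχ g)
    rwa [sub_sub_sub_cancel_left] at this
  have hBB : B = B' :=
    IsPBlock.eq_of_mem hPr d.hind.2.1 d'.hind.2.1
      (IsPBlock.mem_of_sameBlock hPr d.hind.2.1 hχ hs) hχ'
  rw [hBB]
  exact hB'

end Cfsg.Agent.Lib.H4McOfConj
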