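import Mathlib
import Cfsg.Agent.Lib.H4McDefs
import Cfsg.Agent.Lib.H4McConjEx

/-!
# Project 4502, piece `Orbit`
-/

set_option autoImplicit false
set_option linter.unusedSectionVars false

namespace Cfsg.Agent.Lib.H4McOrbit

open Cfsg Subgroup Cfsg.Agent.Lib.Helper4DefOneDefs Cfsg.Agent.Lib.H4McDefs

variable {G : Type*} [Group G] [Fintype G] {p : ℕ} [Fact p.Prime] {M : Ideal AlgInt}
  {P : Sylow p G}

/-- Orbit-stabilizer. -/
theorem card_orbit (θ : IrrCharacter (CP P)) :
    Nat.card {θ' : IrrCharacter (CP P) // ∃ n ∈ NP P, IsConjBy P θ θ' n} * sc P θ =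
      Nat.card (NP P) := by
  classical
  let F : NP P → {θ' : IrrCharacter (CP P) // ∃ n ∈ NP P, IsConjBy P θ θ' n} := fun n =>
    ⟨(H4McConjEx.exists_conj θ n.2).choose, n, n.2, (H4McConjEx.exists_conj θ n.2).choose_spec⟩
  have hF : ∀ n : NP P, IsConjBy P θ (F n).1 n := fun n =>
    (H4McConjEx.exists_conj θ n.2).choose_spec
  have hsurj : Function.Surjective F := by
    rintro ⟨θ', n, hn, h⟩
    refine ⟨⟨n, hn⟩, Subtype.ext ?_⟩
    exact H4McConjEx.conj_unique hn (hF ⟨n, hn⟩) h
  have hfin : Finite {θ' : IrrCharacter (CP P) // ∃ n ∈ NP P, IsConjBy P θ θ' n} :=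
    Finite.of_surjective F hsurj
  have := Fintype.ofFinite {θ' : IrrCharacter (CP P) // ∃ n ∈ NP P, IsConjBy P θ θ' n}
  have hfib : ∀ y, Nat.card {x : NP P // F x = y} = sc P θ := by
    rintro ⟨θ', n, hn, h⟩
    unfold sc
    have key : ∀ x : NP P, F x = ⟨θ', n, hn, h⟩ ↔ Stab P (θ : CP P → ℂ) ((x : G) * n⁻¹) := by
      intro x
      rw [← H4McConjEx.conj_eq_iff hn x.2 h]
      constructor
      · intro e
        have := hF x
        rw [e] at this
        exact this
      · intro e
        exact Subtype.ext (H4McConjEx.conj_unique x.2 (hF x) e)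
    refine Nat.card_congr
      { toFun := fun x => ⟨(x.1 : G) * n⁻¹, (key x.1).1 x.2⟩
        invFun := fun k => ⟨⟨k.1 * n, (NP P).mul_mem k.2.1 hn⟩, (key _).2 (by
          have : k.1 * n * n⁻¹ = k.1 := by group
          show Stab P (θ : CP P → ℂ) (k.1 * n * n⁻¹)
          rw [this]; exact k.2)⟩
        left_inv := fun x => by
          apply Subtype.ext; apply Subtype.ext
          show (x.1 : G) * n⁻¹ * n = x.1
          group
        right_inv := fun k => by
          apply Subtype.ext
          show k.1 * n * n⁻¹ = k.1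
          group }
  rw [← Nat.card_congr (Equiv.sigmaFiberEquiv F), Nat.card_sigma]
  simp only [hfib]
  rw [Finset.sum_const, smul_eq_mul, Finset.card_univ, Nat.card_eq_fintype_card]

end Cfsg.Agent.Lib.H4McOrbit
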