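import Mathlib
import Cfsg.Agent.Lib.H4McDefs

/-!
# Project 4502, piece `ScConj`
-/

set_option autoImplicit false
set_option linter.unusedSectionVars false

namespace Cfsg.Agent.Lib.H4McScConj

open Cfsg Subgroup Cfsg.Agent.Lib.Helper4DefOneDefs Cfsg.Agent.Lib.H4McDefs

variable {G : Type*} [Group G] [Fintype G] {p : ℕ} [Fact p.Prime] {M : Ideal AlgInt}
  {P : Sylow p G}

omit [Fintype G] in
theorem conj_mem {n : G} (hn : n ∈ NP P) {c : G} (hc : c ∈ CP P) : n * c * n⁻¹ ∈ CP P := by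
  rw [Subgroup.mem_centralizer_iff] at hc ⊢
  intro x hx
  have hy : n⁻¹ * x * n ∈ ((P : Subgroup G) : Set G) := by
    rw [Subgroup.mem_normalizer_iff] at hn
    have := (hn (n⁻¹ * x * n)).2 (by
      have e : n * (n⁻¹ * x * n) * n⁻¹ = x := by group
      rw [e]; exact hx)
    exact this
  have := hc _ hy
  calc x * (n * c * n⁻¹) = n * ((n⁻¹ * x * n) * c) * n⁻¹ := by group
    _ = n * (c * (n⁻¹ * x * n)) * n⁻¹ := by rw [this]
    _ = _ := by group

omit [Fintype G] in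
theorem conj_mem' {n : G} (hn : n ∈ NP P) {c : G} (hc : c ∈ CP P) : n⁻¹ * c * n ∈ CP P := by
  have := conj_mem (P := P) ((NP P).inv_mem hn) hc
  simpa using this

/-- Conjugate characters have stabilizers of the same order. -/
theorem sc_conj {θ θ' : IrrCharacter (CP P)} {n : G} (hn : n ∈ NP P) (h : IsConjBy P θ θ' n) :
    sc P θ' = sc P θ := by
  have f1 : ∀ k : G, Stab P (θ : CP P → ℂ) k → Stab P (θ' : CP P → ℂ) (n⁻¹ * k * n) := by
    intro k hk
    refine ⟨(NP P).mul_mem ((NP P).mul_mem ((NP P).inv_mem hn) hk.1) hn, ?_⟩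
    intro c c' hc
    have e1 := h c ⟨n * c * n⁻¹, conj_mem hn c.2⟩ rfl
    have e2 := h c' ⟨n * c' * n⁻¹, conj_mem hn c'.2⟩ rfl
    have e3 := hk.2 ⟨n * c * n⁻¹, conj_mem hn c.2⟩ ⟨n * c' * n⁻¹, conj_mem hn c'.2⟩ (by
      show n * (c' : G) * n⁻¹ = k * (n * c * n⁻¹) * k⁻¹
      rw [hc]; group)
    rw [e1, e2, e3]
  have f2 : ∀ k : G, Stab P (θ' : CP P → ℂ) k → Stab P (θ : CP P → ℂ) (n * k * n⁻¹) := by
    intro k hk
    refine ⟨(NP P).mul_mem ((NP P).mul_mem hn hk.1) ((NP P).inv_mem hn), ?_⟩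
    intro c c' hc
    have e1 := h ⟨n⁻¹ * c * n, conj_mem' hn c.2⟩ c (by
      show (c : G) = n * (n⁻¹ * c * n) * n⁻¹
      group)
    have e2 := h ⟨n⁻¹ * c' * n, conj_mem' hn c'.2⟩ c' (by
      show (c' : G) = n * (n⁻¹ * c' * n) * n⁻¹
      group)
    have e3 := hk.2 ⟨n⁻¹ * c * n, conj_mem' hn c.2⟩ ⟨n⁻¹ * c' * n, conj_mem' hn c'.2⟩ (by
      show n⁻¹ * (c' : G) * n = k * (n⁻¹ * c * n) * k⁻¹
      rw [hc]; group)
    rw [← e1, ← e2, e3]
  unfold sc
  refine Nat.card_congr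
    { toFun := fun k => ⟨n * k.1 * n⁻¹, f2 k.1 k.2⟩
      invFun := fun k => ⟨n⁻¹ * k.1 * n, f1 k.1 k.2⟩
      left_inv := fun k => by apply Subtype.ext; simp only []; group
      right_inv := fun k => by apply Subtype.ext; simp only []; group }

end Cfsg.Agent.Lib.H4McScConj
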