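import Mathlib
import Cfsg.Agent.Lib.H4McDefs
import Cfsg.Agent.Lib.H4McConj
import Cfsg.Agent.Lib.H4McOfConj
import Cfsg.Agent.Lib.H4McScConj
import Cfsg.Agent.Lib.H4McOrbit

/-!
# Project 4502, piece `Fiber`
-/

set_option autoImplicit false
set_option linter.unusedSectionVars false

namespace Cfsg.Agent.Lib.H4McFiber

open Cfsg Subgroup Cfsg.Agent.Lib.Helper4DefOneDefs Cfsg.Agent.Lib.H4McDefs

variable {G : Type*} [Group G] [Fintype G] {p : ℕ} [Fact p.Prime] {M : Ideal AlgInt}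
  {P : Sylow p G}

/-- The canonical characters of `B` form one `N_G(P)`-orbit; so their stabilizer orders add up to
`|N_G(P)|`. -/
theorem sum_fiber (hM : IsPModular p M) {B : Set (IrrCharacter G)} {θ : IrrCharacter (CP P)}
    (h : Rel M P B θ) : ∑ᶠ θ' ∈ {θ' | Rel M P B θ'}, sc P θ' = Nat.card (NP P) := by
  classical
  have hset : {θ' | Rel M P B θ'} = {θ' : IrrCharacter (CP P) | ∃ n ∈ NP P, IsConjBy P θ θ' n} := by
    ext θ'
    constructor
    · intro h'
      exact H4McConj.rel_conj hM h h'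
    · rintro ⟨n, hn, hc⟩
      exact H4McOfConj.rel_of_conj hM h hn hc
  have hfin : Finite (IrrCharacter (CP P)) := Cfsg.Agent.Lib.Helper4Char.finite_irrCharacter
  rw [hset, ← H4McOrbit.card_orbit θ]
  have hc : ∑ᶠ θ' ∈ {θ' : IrrCharacter (CP P) | ∃ n ∈ NP P, IsConjBy P θ θ' n}, sc P θ' =
      ∑ᶠ θ' ∈ {θ' : IrrCharacter (CP P) | ∃ n ∈ NP P, IsConjBy P θ θ' n}, sc P θ := by
    apply finsum_mem_congr rfl
    rintro θ' ⟨n, hn, hc⟩
    exact H4McScConj.sc_conj hn hc
  rw [hc, finsum_mem_eq_finite_toFinset_sum _ (Set.toFinite _), Finset.sum_const, smul_eq_mul,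
    ← Nat.card_eq_card_finite_toFinset]
  rfl

end Cfsg.Agent.Lib.H4McFiber
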