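import Mathlib
import Cfsg.Agent.Lib.H4McDefs
import Cfsg.Agent.S0169
import Cfsg.Agent.S0133

/-!
# Project 4502, piece `Ito`
-/

set_option autoImplicit false
set_option linter.unusedSectionVars false

namespace Cfsg.Agent.Lib.H4McIto

open Cfsg Subgroup Cfsg.Agent.Lib.Helper4DefOneDefs Cfsg.Agent.Lib.H4McDefs

variable {G : Type*} [Group G] [Fintype G] {p : ℕ} [Fact p.Prime] {M : Ideal AlgInt}
  {P : Sylow p G}

/-- All irreducible characters of `N = N_G(P)` have degree prime to `p`, so their number is `k(N)`. -/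
theorem card_irr_normalizer (hP : Nat.card P = p) :
    Nat.card {χ : IrrCharacter (NP P) // ¬ p ∣ charDegree (χ : NP P → ℂ)} =
      Nat.card (ConjClasses (NP P)) := by
  have hnorm : ((P : Subgroup G).subgroupOf (NP P)).Normal := Subgroup.normal_in_normalizer
  have hnd : ¬ p ∣ ((P : Subgroup G).subgroupOf (NP P)).index := by
    have := hnorm
    have h1 : ((PN P : Sylow p (NP P)) : Subgroup (NP P)).Normal := hnorm
    exact Sylow.not_dvd_index (PN P)
  have hcyc : IsCyclic P := isCyclic_of_prime_card hP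
  have hcomm : ∀ a ∈ (P : Subgroup G).subgroupOf (NP P), ∀ b ∈ (P : Subgroup G).subgroupOf (NP P),
      a * b = b * a := by
    intro a ha b hb
    let _ := IsCyclic.commGroup (α := P)
    have h := mul_comm (⟨a, ha⟩ : P) ⟨b, hb⟩
    apply Subtype.ext
    exact congrArg (Subtype.val : P → G) h
  have hall : ∀ χ : IrrCharacter (NP P), ¬ p ∣ charDegree (χ : NP P → ℂ) := by
    intro χ hdvd
    obtain ⟨n, ρ, hirr, hχ⟩ := χ.2
    have h1 : Module.finrank ℂ (Fin n → ℂ) ∣ ((P : Subgroup G).subgroupOf (NP P)).index :=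
      Cfsg.Agent.S0169.result ρ _ hcomm
    have h2 : charDegree (χ : NP P → ℂ) = n := by
      unfold charDegree
      rw [← hχ, Representation.char_one]
      simp
    rw [h2] at hdvd
    rw [Module.finrank_fin_fun] at h1
    exact hnd (hdvd.trans h1)
  rw [Nat.card_congr (Equiv.subtypeUnivEquiv hall)]
  exact Cfsg.Agent.S0133.result

end Cfsg.Agent.Lib.H4McIto
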