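import Mathlib
import Cfsg.Agent.Lib.H4McDefs
import Cfsg.Agent.Lib.Helper20Major
import Cfsg.Agent.Lib.Helper20DefCard
import Cfsg.Agent.Lib.Helper81Defect


/-!
# Project 4502, piece `Part`
-/

set_option autoImplicit false
set_option linter.unusedSectionVars false

namespace Cfsg.Agent.Lib.H4McPart

open Cfsg Subgroup Cfsg.Agent.Lib.Helper4DefOneDefs Cfsg.Agent.Lib.H4McDefs
open Cfsg.Agent.Lib.Helper20Block Cfsg.Agent.Lib.Helper20Local Cfsg.Agent.Lib.Helper81Defect

variable {G : Type*} [Group G] [Fintype G] {p : ℕ} [Fact p.Prime] {M : Ideal AlgInt}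
  {P : Sylow p G}

/-- `p ∤ χ(1)` iff `χ` lies in a block of positive defect (`|P| = p`). -/
theorem deg_iff (hM : IsPModular p M) (hP : Nat.card P = p) (χ : IrrCharacter G) :
    ¬ p ∣ charDegree (χ : G → ℂ) ↔
      ∃ B, IsPBlock M B ∧ 0 < blockDefect p B ∧ χ ∈ B := by
  classical
  have hp : p.Prime := Fact.out
  have hPr := IsPModular.isPrime hM
  have hfac : (Nat.card G).factorization p = 1 := by
    have h1 := P.card_eq_multiplicity
    rw [hP] at h1
    have h2 : p ^ 1 = p ^ (Nat.card G).factorization p := by rw [pow_one]; exact h1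
    exact (Nat.pow_right_injective hp.two_le h2).symm
  constructor
  · intro h
    refine ⟨blockOf M (χ : G → ℂ), isPBlock_blockOf χ, ?_, mem_blockOf_self hPr χ⟩
    have h1 := minVal_le (p := p) (mem_blockOf_self hPr χ)
    rw [Nat.factorization_eq_zero_of_not_dvd h] at h1
    rw [blockDefect_def, hfac]
    omega
  · rintro ⟨B, hB, hd, hχ⟩ hdvd
    have h1 : 1 ≤ (charDegree (χ : G → ℂ)).factorization p :=
      (hp.dvd_iff_one_le_factorization (Cfsg.Agent.Lib.Helper81Base.charDegree_pos χ).ne').1 hdvd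
    have h2 := factorization_deg_le (p := p) χ
    have h3 : (charDegree (χ : G → ℂ)).factorization p = (Nat.card G).factorization p := by omega
    have h4 := (Cfsg.Agent.Lib.Helper81Orth2.defect_zero_iff hM χ).1 ((not_dvd_div_iff hp χ).2 h3)
    have h5 : B = {χ} := by rw [IsPBlock.eq_blockOf hPr hB hχ, h4]
    have h6 := (blockDefect_eq_zero_iff hM hB).2 ⟨χ, h5⟩
    omega

/-- blocks are disjoint (`IsPBlock.eq_of_mem`). -/
theorem block_unique (hM : IsPModular p M) {B B' : Set (IrrCharacter G)} (hB : IsPBlock M B)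
    (hB' : IsPBlock M B') {χ : IrrCharacter G} (h : χ ∈ B) (h' : χ ∈ B') : B = B' :=
  IsPBlock.eq_of_mem (IsPModular.isPrime hM) hB hB' h h'

theorem rel_block {B : Set (IrrCharacter G)} {θ : IrrCharacter (CP P)} (h : Rel M P B θ) :
    IsPBlock M B ∧ 0 < blockDefect p B := by
  classical
  obtain ⟨b, tw, d⟩ := h
  have hp : p.Prime := Fact.out
  refine ⟨d.hind.2.1, ?_⟩
  have h1 := Cfsg.Agent.Lib.Helper20DefCard.card_defectGroup d.hM d.hind.2.1 d.hBP
  rcases Nat.eq_zero_or_pos (blockDefect p B) with h0 | h0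
  · rw [h0, pow_zero] at h1
    have h2 : Nat.card (P : Subgroup G) = p := d.hP
    rw [h2] at h1
    exact absurd h1 hp.one_lt.ne'
  · exact h0

theorem rel_triv {B : Set (IrrCharacter G)} {θ : IrrCharacter (CP P)} (h : Rel M P B θ) :
    Triv P θ := by
  obtain ⟨b, tw, d⟩ := h
  exact d.hθP

end Cfsg.Agent.Lib.H4McPart
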