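import Mathlib
import Cfsg.Agent.Lib.H4McDefs
import Cfsg.Agent.Lib.Helper20Major

/-!
# Project 4502, piece `Uniq`
-/

set_option autoImplicit false
set_option linter.unusedSectionVars false

namespace Cfsg.Agent.Lib.H4McUniq

open Cfsg Subgroup Cfsg.Agent.Lib.Helper4DefOneDefs Cfsg.Agent.Lib.H4McDefs
open Cfsg.Agent.Lib.Helper20Block Cfsg.Agent.Lib.Helper20Local

variable {G : Type*} [Group G] [Fintype G] {p : ℕ} [Fact p.Prime] {M : Ideal AlgInt}
  {P : Sylow p G}

/-- The block is determined by its canonical character. -/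
theorem rel_unique (hM : IsPModular p M) {B B' : Set (IrrCharacter G)} {θ : IrrCharacter (CP P)}
    (h : Rel M P B θ) (h' : Rel M P B' θ) : B = B' := by
  classical
  obtain ⟨b, tw, d⟩ := h
  obtain ⟨b', tw', d'⟩ := h'
  have hPr := IsPModular.isPrime hM
  have hbb : b = b' := IsPBlock.eq_of_mem hPr d.hind.1 d'.hind.1 d.hθ d'.hθ
  subst hbb
  exact Cfsg.Agent.Lib.Helper20Major.induced_block_unique hPr d.hind d'.hind

end Cfsg.Agent.Lib.H4McUniq
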