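import Mathlib
import Cfsg.Agent.Lib.H4McDefs
import Cfsg.Agent.Lib.H4McBlk
import Cfsg.Agent.Lib.H4McTheta
import Cfsg.Agent.Lib.H4McUniq
import Cfsg.Agent.Lib.H4McCardB
import Cfsg.Agent.Lib.H4McFiber
import Cfsg.Agent.Lib.H4McPart
import Cfsg.Agent.Lib.H4McCount
import Cfsg.Agent.Lib.Helper81Base

/-!
# Project 4502, the main counting formula
-/

set_option autoImplicit false
set_option linter.unusedSectionVars false

namespace Cfsg.Agent.Lib.H4McMain

open Cfsg Subgroup Cfsg.Agent.Lib.Helper4DefOneDefs Cfsg.Agent.Lib.H4McDefs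
  Cfsg.Agent.Lib.H4McBlk Cfsg.Agent.Lib.H4McTheta Cfsg.Agent.Lib.H4McUniq Cfsg.Agent.Lib.H4McCardB
  Cfsg.Agent.Lib.H4McFiber Cfsg.Agent.Lib.H4McPart Cfsg.Agent.Lib.H4McCount

variable {G : Type*} [Group G] [Fintype G] {p : ℕ} [Fact p.Prime] {M : Ideal AlgInt}
  {P : Sylow p G}

theorem sum_theta (hM : IsPModular p M) (hP : Nat.card P = p) (χ : IrrCharacter G)
    (hχ : ¬ p ∣ charDegree (χ : G → ℂ)) :
    ∑ᶠ θ ∈ {θ | RelC M P χ θ}, sc P θ = Nat.card (NP P) := by
  obtain ⟨B, hB, hd, hχB⟩ := (deg_iff hM hP χ).mp hχ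
  obtain ⟨θ, hθ⟩ := rel_of_block hM hP hB hd
  rw [← sum_fiber hM hθ]
  have : {θ' | RelC M P χ θ'} = {θ' | Rel M P B θ'} := by
    ext θ'
    constructor
    · rintro ⟨B', hχB', hrel⟩
      have := block_unique hM hB (rel_block hrel).1 hχB hχB'
      rw [this]
      exact hrel
    · intro hrel
      exact ⟨B, hχB, hrel⟩
  rw [this]

theorem card_chi (hM : IsPModular p M) (hP : Nat.card P = p) (θ : IrrCharacter (CP P))
    (hθ : Triv P θ) :
    Nat.card {χ : IrrCharacter G // RelC M P χ θ} * (sc P θ * Nat.card (CP P)) = wt P θ := by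
  obtain ⟨B, hB⟩ := rel_of_theta hM hP hθ
  rw [← card_block hB]
  congr 1
  apply Nat.card_congr
  apply Equiv.subtypeEquivRight
  intro χ
  constructor
  · rintro ⟨B', hχB', hrel⟩
    rw [rel_unique hM hB hrel]
    exact hχB'
  · intro h
    exact ⟨B, h, hB⟩

theorem main (hM : IsPModular p M) (hP : Nat.card P = p) :
    Nat.card {χ : IrrCharacter G // ¬ p ∣ charDegree (χ : G → ℂ)} *
      (Nat.card (NP P) * Nat.card (CP P)) = rhs P := by
  classical
  have hfinG : Finite (IrrCharacter G) := inferInstance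
  have hfinH : Finite (IrrCharacter (CP P)) := inferInstance
  have := double_count (RelC M P) {χ : IrrCharacter G | ¬ p ∣ charDegree (χ : G → ℂ)}
    {θ : IrrCharacter (CP P) | Triv P θ} (sc P) (wt P) (Nat.card (CP P)) (Nat.card (NP P))
    (by
      rintro χ θ ⟨B, hχB, hrel⟩
      exact ⟨(deg_iff hM hP χ).mpr ⟨B, (rel_block hrel).1, (rel_block hrel).2, hχB⟩, rel_triv hrel⟩)
    (fun χ hχ => sum_theta hM hP χ hχ)
    (fun θ hθ => card_chi hM hP θ hθ)
  exact this

end Cfsg.Agent.Lib.H4McMain
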