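import Mathlib
import Cfsg.Agent.Lib.H4McDefs


/-!
# Project 4502, piece `TrIso`
-/

set_option autoImplicit false
set_option linter.unusedSectionVars false

namespace Cfsg.Agent.Lib.H4McTrIso

open Cfsg Subgroup Cfsg.Agent.Lib.Helper4DefOneDefs Cfsg.Agent.Lib.H4McDefs

variable {G : Type*} [Group G] [Fintype G] {p : ℕ} [Fact p.Prime] {M : Ideal AlgInt}
  {P : Sylow p G}

/-- `C_N(P) ≅ C_G(P)` for `N = N_G(P)`. -/
theorem exists_iso (P : Sylow p G) :
    ∃ ε : ↥(CP (PN P)) ≃* ↥(CP P), ∀ x, ((ε x : CP P) : G) = ((x : NP P) : G) := by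
  have h1 : ∀ x : ↥(CP (PN P)), ((x : NP P) : G) ∈ CP P := by
    intro x
    rw [Subgroup.mem_centralizer_iff]
    intro y hy
    have hx := x.2
    rw [Subgroup.mem_centralizer_iff] at hx
    have := hx ⟨y, le_normalizer hy⟩ (by
      show _ ∈ ((PN P : Sylow p (NP P)) : Subgroup (NP P))
      rw [coe_PN, Subgroup.mem_subgroupOf]; exact hy)
    exact congrArg Subtype.val this
  have h2 : ∀ c : ↥(CP P), (c : G) ∈ NP P := fun c => centralizer_le_normalizer _ c.2
  have h3 : ∀ c : ↥(CP P), (⟨(c : G), h2 c⟩ : NP P) ∈ CP (PN P) := by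
    intro c
    rw [Subgroup.mem_centralizer_iff]
    intro y hy
    have hy' : (y : G) ∈ (P : Subgroup G) := by
      have : y ∈ ((PN P : Sylow p (NP P)) : Subgroup (NP P)) := hy
      rw [coe_PN, Subgroup.mem_subgroupOf] at this; exact this
    have hc := c.2
    rw [Subgroup.mem_centralizer_iff] at hc
    exact Subtype.ext (hc _ hy')
  refine ⟨{ toFun := fun x => ⟨((x : NP P) : G), h1 x⟩
            invFun := fun c => ⟨⟨(c : G), h2 c⟩, h3 c⟩
            left_inv := fun x => rfl
            right_inv := fun c => rfl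
            map_mul' := fun x y => rfl }, fun x => rfl⟩

/-- `N_N(P) = ⊤`, so it has the order of `N_G(P)`. -/
theorem card_NP (P : Sylow p G) : Nat.card (NP (PN P)) = Nat.card (NP P) := by
  have : NP (PN P) = ⊤ := by
    show normalizer (((PN P : Sylow p (NP P)) : Subgroup (NP P)) : Set (NP P)) = ⊤
    rw [coe_PN]
    exact Subgroup.normalizer_eq_top_iff.2 Subgroup.normal_in_normalizer
  rw [this, Subgroup.card_top]

/-- `Nat.card (PN P) = Nat.card P`. -/
theorem card_PN (P : Sylow p G) : Nat.card (PN P) = Nat.card P := by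
  show Nat.card ((PN P : Sylow p (NP P)) : Subgroup (NP P)) = _
  rw [coe_PN]
  exact Nat.card_congr (Subgroup.subgroupOfEquivOfLe le_normalizer).toEquiv

end Cfsg.Agent.Lib.H4McTrIso
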