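import Mathlib
import Cfsg.Agent.Lib.H4McDefs

/-!
# Project 4502, piece `TrSc`
-/

set_option autoImplicit false
set_option linter.unusedSectionVars false

namespace Cfsg.Agent.Lib.H4McTrSc

open Cfsg Subgroup Cfsg.Agent.Lib.Helper4DefOneDefs Cfsg.Agent.Lib.H4McDefs

variable {G : Type*} [Group G] [Fintype G] {p : ℕ} [Fact p.Prime] {M : Ideal AlgInt}
  {P : Sylow p G}

/-- Transport of `Triv` and `sc` along the isomorphism `ε`. -/
theorem transport (ε : ↥(CP (PN P)) ≃* ↥(CP P)) (hε : ∀ x, ((ε x : CP P) : G) = ((x : NP P) : G))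
    (θ : IrrCharacter (CP P)) (θ' : IrrCharacter (CP (PN P)))
    (hθ : ∀ x, (θ' : CP (PN P) → ℂ) x = (θ : CP P → ℂ) (ε x)) :
    (Triv (PN P) θ' ↔ Triv P θ) ∧ sc (PN P) θ' = sc P θ := by
  have hmem : ∀ x : NP P, x ∈ ((PN P : Sylow p (NP P)) : Subgroup (NP P)) ↔
      (x : G) ∈ (P : Subgroup G) := by
    intro x
    rw [coe_PN, Subgroup.mem_subgroupOf]
  have hs : ∀ c : CP P, (((ε.symm c : CP (PN P)) : NP P) : G) = (c : G) := by
    intro c
    rw [← hε, MulEquiv.apply_symm_apply]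
  have hθ' : ∀ c : CP P, (θ : CP P → ℂ) c = (θ' : CP (PN P) → ℂ) (ε.symm c) := by
    intro c
    rw [hθ, MulEquiv.apply_symm_apply]
  have htop : NP (PN P) = ⊤ := by
    show normalizer (((PN P : Sylow p (NP P)) : Subgroup (NP P)) : Set (NP P)) = ⊤
    rw [coe_PN]
    exact Subgroup.normalizer_eq_top_iff.2 Subgroup.normal_in_normalizer
  refine ⟨⟨?_, ?_⟩, ?_⟩
  · intro h x hx
    have := h (ε.symm x) ((hmem _).2 (by rw [hs]; exact hx))
    rw [hθ' x, this, hθ, map_one]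
  · intro h x hx
    have := h (ε x) (by rw [hε]; exact (hmem _).1 hx)
    rw [hθ, this, hθ, map_one]
  · unfold sc
    have f1 : ∀ k : NP P, Stab (PN P) (θ' : CP (PN P) → ℂ) k → Stab P (θ : CP P → ℂ) (k : G) := by
      intro k hk
      refine ⟨k.2, ?_⟩
      intro c c' hc
      have := hk.2 (ε.symm c) (ε.symm c') (by
        apply Subtype.ext
        rw [hs, Subgroup.coe_mul, Subgroup.coe_mul, Subgroup.coe_inv, hs, hc])
      rw [hθ' c, hθ' c', this]
    have f2 : ∀ (n : G) (hn : Stab P (θ : CP P → ℂ) n),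
        Stab (PN P) (θ' : CP (PN P) → ℂ) (⟨n, hn.1⟩ : NP P) := by
      intro n hn
      refine ⟨?_, ?_⟩
      · have : (⟨n, hn.1⟩ : NP P) ∈ NP (PN P) := by rw [htop]; trivial
        exact this
      · intro c c' hc
        have := hn.2 (ε c) (ε c') (by
          rw [hε, hε, hc]; rfl)
        rw [hθ, hθ, this]
    exact Nat.card_congr
      { toFun := fun k => ⟨(k.1 : G), f1 k.1 k.2⟩
        invFun := fun n => ⟨⟨n.1, n.2.1⟩, f2 n.1 n.2⟩
        left_inv := fun k => rfl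
        right_inv := fun n => rfl }

end Cfsg.Agent.Lib.H4McTrSc
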