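import Mathlib
import Cfsg.Agent.Lib.H4McDefs
import Cfsg.Agent.Lib.H4McTrIso
import Cfsg.Agent.Lib.H4McTrSc
import Cfsg.Agent.Lib.Helper83Char

/-!
# Project 4502, piece `TrSum`
-/

set_option autoImplicit false
set_option linter.unusedSectionVars false

namespace Cfsg.Agent.Lib.H4McTrSum

open Cfsg Subgroup Cfsg.Agent.Lib.Helper4DefOneDefs Cfsg.Agent.Lib.H4McDefs

variable {G : Type*} [Group G] [Fintype G] {p : ℕ} [Fact p.Prime] {M : Ideal AlgInt}
  {P : Sylow p G}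

theorem card_CP (P : Sylow p G) : Nat.card (CP (PN P)) = Nat.card (CP P) := by
  obtain ⟨ε, -⟩ := Cfsg.Agent.Lib.H4McTrIso.exists_iso P
  exact Nat.card_congr ε.toEquiv

/-- The local sum is the same for `G` and for `N_G(P)`. -/
theorem rhs_eq (P : Sylow p G) : rhs (PN P) = rhs P := by
  obtain ⟨ε, hε⟩ := Cfsg.Agent.Lib.H4McTrIso.exists_iso P
  let Φ : IrrCharacter (CP P) → IrrCharacter (CP (PN P)) := fun θ =>
    ⟨(θ : CP P → ℂ) ∘ ε, Helper83Char.irr_comp_mulEquiv ε θ.2⟩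
  have hΦ : ∀ θ, (Triv (PN P) (Φ θ) ↔ Triv P θ) ∧ sc (PN P) (Φ θ) = sc P θ := fun θ =>
    H4McTrSc.transport ε hε θ (Φ θ) (fun x => rfl)
  unfold rhs
  symm
  apply finsum_mem_eq_of_bijOn Φ
  · refine ⟨?_, ?_, ?_⟩
    · intro θ hθ
      exact (hΦ θ).1.2 hθ
    · intro θ₁ _ θ₂ _ h
      apply Subtype.ext
      funext c
      have := congrFun (congrArg Subtype.val h) (ε.symm c)
      simpa [Φ] using this
    · intro θ' hθ'
      let θ : IrrCharacter (CP P) :=
        ⟨(θ' : CP (PN P) → ℂ) ∘ ε.symm, Helper83Char.irr_comp_mulEquiv ε.symm θ'.2⟩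
      have e : Φ θ = θ' := by
        apply Subtype.ext
        funext c
        simp [Φ, θ]
      refine ⟨θ, ?_, e⟩
      have := (hΦ θ).1
      rw [e] at this
      exact this.1 hθ'
  · intro θ _
    unfold wt
    rw [(hΦ θ).2, card_CP]

end Cfsg.Agent.Lib.H4McTrSum
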