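import Mathlib

set_option autoImplicit false

namespace Cfsg.Agent.Lib.H4PgCount

theorem eq_one_of_pow {z : ℂˣ} {p s m : ℕ} (hm : Nat.Coprime m p) (h1 : z ^ m = 1)
    (h2 : z ^ (p ^ s) = 1) : z = 1 := by
  have h3 := orderOf_dvd_of_pow_eq_one h1
  have h4 := orderOf_dvd_of_pow_eq_one h2
  have h5 : Nat.Coprime m (p ^ s) := Nat.Coprime.pow_right s hm
  have h6 : orderOf z ∣ 1 := by
    rw [← h5]
    exact Nat.dvd_gcd h3 h4
  exact orderOf_eq_one_iff.1 (Nat.dvd_one.1 h6)

open Classical in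
/-- piece `Count` (PURE MATHLIB): (number of kernels) * (number of exponents) ≤ f. -/
theorem count {A : Type*} [Group A] [Finite A] (p s f : ℕ) (hp : p.Prime) (μ : Fin f → (A →* ℂˣ))
    (hs : ∀ i, Nat.card (μ i).range = p ^ s) (S : Finset ℕ)
    (hS : ∀ m ∈ S, m < p ^ s ∧ Nat.Coprime m p) (hcl : ∀ m ∈ S, ∀ i, ∃ j, μ j = (μ i) ^ m) :
    (Finset.univ.image (fun i => (μ i).ker)).card * S.card ≤ f := by
  set 𝒦 := Finset.univ.image (fun i => (μ i).ker) with h𝒦
  set T := Finset.univ.image μ with hT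
  have hTf : T.card ≤ f := by
    have := Finset.card_image_le (s := (Finset.univ : Finset (Fin f))) (f := μ)
    simpa using this
  have hpow : ∀ i x, (μ i x) ^ (p ^ s) = 1 := by
    intro i x
    have h2 : ((⟨μ i x, x, rfl⟩ : (μ i).range)) ^ (Nat.card (μ i).range) = 1 := pow_card_eq_one'
    rw [hs i] at h2
    exact congrArg Subtype.val h2
  have hgen : ∀ i, ∃ x, orderOf (μ i x) = p ^ s := by
    intro i
    have : Finite (μ i).range := by
      have : Finite (Set.range (μ i)) := Set.finite_range _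
      exact this
    obtain ⟨g, hg⟩ := IsCyclic.exists_generator (α := (μ i).range)
    obtain ⟨x, hx⟩ := g.2
    refine ⟨x, ?_⟩
    have h1 := orderOf_eq_card_of_forall_mem_zpowers hg
    rw [hs i, ← Subgroup.orderOf_coe, ← hx] at h1
    exact h1
  have hker : ∀ i, ∀ m ∈ S, ((μ i) ^ m).ker = (μ i).ker := by
    intro i m hm
    ext x
    rw [MonoidHom.mem_ker, MonoidHom.mem_ker, MonoidHom.pow_apply]
    constructor
    · intro h
      exact eq_one_of_pow (hS m hm).2 h (hpow i x)
    · intro h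
      rw [h, one_pow]
  have hfib : ∀ N ∈ 𝒦, S.card ≤ (T.filter (fun τ => τ.ker = N)).card := by
    intro N hN
    obtain ⟨i, -, rfl⟩ := Finset.mem_image.1 hN
    apply Finset.card_le_card_of_injOn (fun m => (μ i) ^ m)
    · intro m hm
      obtain ⟨j, hj⟩ := hcl m hm i
      simp only [Finset.coe_filter, Set.mem_ofPred_eq]
      exact ⟨Finset.mem_image.2 ⟨j, Finset.mem_univ _, hj⟩, hker i m hm⟩
    · intro m hm m' hm' hmm
      obtain ⟨x, hx⟩ := hgen i
      have h1 : (μ i x) ^ m = (μ i x) ^ m' := by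
        have := DFunLike.congr_fun hmm x
        simpa [MonoidHom.pow_apply] using this
      have h2 := pow_eq_pow_iff_modEq.1 h1
      rw [hx] at h2
      have h3 := Nat.ModEq.eq_of_lt_of_lt h2 (hS m hm).1 (hS m' hm').1
      exact h3
  have hsum : T.card = ∑ N ∈ 𝒦, (T.filter (fun τ => τ.ker = N)).card := by
    apply Finset.card_eq_sum_card_fiberwise
    intro τ hτ
    obtain ⟨i, -, rfl⟩ := Finset.mem_image.1 hτ
    exact Finset.mem_image.2 ⟨i, Finset.mem_univ _, rfl⟩
  have h5 := Finset.card_nsmul_le_sum 𝒦 (fun N => (T.filter (fun τ => τ.ker = N)).card) S.card hfib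
  rw [← hsum, smul_eq_mul] at h5
  exact h5.trans hTf

end Cfsg.Agent.Lib.H4PgCount
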