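import Mathlib

set_option autoImplicit false

namespace Cfsg.Agent.Lib.H4PgDeg

open IntermediateField in
/-- piece `Deg` (PURE MATHLIB): the degree of a `p^s`-th root of unity over a number field of degree `(p-1) p^t`. -/
theorem deg (p : ℕ) (hp : p.Prime) (s t : ℕ) (hs : 1 ≤ s) (ζ : ℂ) (hζ : IsPrimitiveRoot ζ (p ^ s))
    (K : IntermediateField ℚ ℂ) (hK : Module.finrank ℚ K = (p - 1) * p ^ t) :
    p ^ (s - 1) ≤ (minpoly K ζ).natDegree * p ^ t := by
  have hpos : 0 < p ^ s := pow_pos hp.pos s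
  have hp1 : 0 < p - 1 := by have := hp.two_le; omega
  have hfinK : Module.Finite ℚ K := by
    apply Module.finite_of_finrank_pos
    rw [hK]
    exact Nat.mul_pos hp1 (pow_pos hp.pos t)
  have hint : IsIntegral K ζ := (hζ.isIntegral hpos).tower_top
  have hfinL : Module.Finite K K⟮ζ⟯ := adjoin.finiteDimensional hint
  have hfin : Module.Finite ℚ K⟮ζ⟯ := Module.Finite.trans K K⟮ζ⟯
  have h1 : Module.finrank K K⟮ζ⟯ = (minpoly K ζ).natDegree := adjoin.finrank hint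
  have h2 : Module.finrank ℚ K * Module.finrank K K⟮ζ⟯ = Module.finrank ℚ K⟮ζ⟯ :=
    Module.finrank_mul_finrank ℚ K K⟮ζ⟯
  have h3 : (minpoly ℚ (AdjoinSimple.gen K ζ)).natDegree ≤ Module.finrank ℚ K⟮ζ⟯ :=
    minpoly.natDegree_le _
  have h4 : minpoly ℚ (AdjoinSimple.gen K ζ) = minpoly ℚ ζ := by
    have := minpoly.algebraMap_eq (A := ℚ) (B := K⟮ζ⟯) (B' := ℂ)
      (algebraMap K⟮ζ⟯ ℂ).injective (AdjoinSimple.gen K ζ)
    rw [← this]
    rfl
  have h5 : (minpoly ℚ ζ).natDegree = p ^ (s - 1) * (p - 1) := by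
    rw [← Polynomial.cyclotomic_eq_minpoly_rat hζ hpos, Polynomial.natDegree_cyclotomic,
      Nat.totient_prime_pow hp (by omega)]
  rw [h4, h5, ← h2, hK, h1] at h3
  have h6 : (p - 1) * p ^ (s - 1) ≤ (p - 1) * ((minpoly K ζ).natDegree * p ^ t) := by
    calc (p - 1) * p ^ (s - 1) = p ^ (s - 1) * (p - 1) := by ring
      _ ≤ (p - 1) * p ^ t * (minpoly K ζ).natDegree := h3
      _ = (p - 1) * ((minpoly K ζ).natDegree * p ^ t) := by ring
  exact Nat.le_of_mul_le_mul_left h6 hp1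

end Cfsg.Agent.Lib.H4PgDeg
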