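import Mathlib

set_option autoImplicit false

namespace Cfsg.Agent.Lib.H4PgEmbed

open Classical in
/-- piece `Embed` (PURE MATHLIB): `A` embeds in the product of the `A / ker`. -/
theorem embed {A : Type*} [Group A] [Finite A] (p s f : ℕ) (μ : Fin f → (A →* ℂˣ))
    (hs : ∀ i, Nat.card (μ i).range = p ^ s) (hinj : ∀ x, (∀ i, μ i x = 1) → x = 1) :
    Nat.card A ≤ p ^ (s * (Finset.univ.image (fun i => (μ i).ker)).card) := by
  set 𝒦 := Finset.univ.image (fun i => (μ i).ker) with h𝒦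
  let φ : A → (∀ N : 𝒦, A ⧸ N.1) := fun x N => QuotientGroup.mk x
  have hφ : Function.Injective φ := by
    intro x y hxy
    have h1 : x⁻¹ * y = 1 := by
      apply hinj
      intro i
      have h2 := congrFun hxy ⟨(μ i).ker, Finset.mem_image.2 ⟨i, Finset.mem_univ _, rfl⟩⟩
      have h3 : x⁻¹ * y ∈ (μ i).ker := QuotientGroup.eq.1 h2
      exact h3
    exact (inv_mul_eq_one.1 h1)
  have h4 := Nat.card_le_card_of_injective φ hφ
  refine h4.trans (le_of_eq ?_)
  rw [Nat.card_pi]
  have h5 : ∀ N : 𝒦, Nat.card (A ⧸ N.1) = p ^ s := by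
    rintro ⟨N, hN⟩
    obtain ⟨i, -, rfl⟩ := Finset.mem_image.1 hN
    rw [← hs i]
    exact Nat.card_congr (QuotientGroup.quotientKerEquivRange (μ i)).toEquiv
  simp only [h5, Finset.prod_const, Finset.card_univ, Fintype.card_coe]
  rw [← pow_mul]

end Cfsg.Agent.Lib.H4PgEmbed
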