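import Mathlib

set_option autoImplicit false

namespace Cfsg.Agent.Lib.H4PgNum

/-- piece `Num` (arithmetic). -/
theorem num (p s t κ c f : ℕ) (hp : 2 ≤ p) (hs : 1 ≤ s) (h1 : κ * c ≤ f)
    (h2 : p ^ (s - 1) ≤ c * p ^ t) : s * κ ≤ (t + 1) * f := by
  have hp0 : 0 < p := by omega
  have hc : 1 ≤ c := by
    rcases Nat.eq_zero_or_pos c with h | h
    · subst h
      have : 0 < p ^ (s - 1) := pow_pos hp0 _
      omega
    · exact h
  by_cases hst : s ≤ t + 1
  · calc s * κ ≤ (t + 1) * κ := Nat.mul_le_mul_right _ hst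
      _ ≤ (t + 1) * (κ * c) := Nat.mul_le_mul_left _ (Nat.le_mul_of_pos_right _ hc)
      _ ≤ (t + 1) * f := Nat.mul_le_mul_left _ h1
  · obtain ⟨j, hj⟩ : ∃ j, s = t + 1 + j := ⟨s - (t + 1), by omega⟩
    subst hj
    have e : t + 1 + j - 1 = j + t := by omega
    rw [e, pow_add] at h2
    have h3 : p ^ j ≤ c := Nat.le_of_mul_le_mul_right h2 (pow_pos hp0 t)
    have h4 : j + 1 ≤ p ^ j := by
      have h5 : j + 1 ≤ 2 ^ j := Nat.lt_two_pow_self
      exact h5.trans (Nat.pow_le_pow_left hp j)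
    have h6 : t + 1 + j ≤ (t + 1) * c := by
      calc t + 1 + j ≤ (t + 1) * (j + 1) := by nlinarith
        _ ≤ (t + 1) * c := Nat.mul_le_mul_left _ (h4.trans h3)
    calc (t + 1 + j) * κ ≤ (t + 1) * c * κ := Nat.mul_le_mul_right _ h6
      _ = (t + 1) * (κ * c) := by ring
      _ ≤ (t + 1) * f := Nat.mul_le_mul_left _ h1

end Cfsg.Agent.Lib.H4PgNum
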