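import Mathlib

set_option autoImplicit false

namespace Cfsg.Agent.Lib.H4PgPerm

/-- piece `Perm` (PURE MATHLIB, Dedekind independence of characters). -/
theorem perm {A : Type*} [Group A] (f : ℕ) (μ : Fin f → (A →* ℂˣ)) (m : ℕ)
    (h : ∀ x, ∑ i, ((μ i x : ℂˣ) : ℂ) ^ m = ∑ i, ((μ i x : ℂˣ) : ℂ)) (i : Fin f) :
    ∃ j, μ j = (μ i) ^ m := by
  classical
  by_contra hcon
  push Not at hcon
  let ι : (A →* ℂˣ) → (A →* ℂ) := fun ν => (Units.coeHom ℂ).comp ν
  have hι : Function.Injective ι := by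
    intro a b hab
    ext x
    have := DFunLike.congr_fun hab x
    simpa [ι] using this
  have hli := linearIndependent_monoidHom A ℂ
  rw [linearIndependent_iff] at hli
  let l : (A →* ℂ) →₀ ℂ :=
    ∑ i', Finsupp.single (ι ((μ i') ^ m)) 1 - ∑ j, Finsupp.single (ι (μ j)) 1
  have hl : Finsupp.linearCombination ℂ (fun f : A →* ℂ => (f : A → ℂ)) l = 0 := by
    simp only [l, map_sub, map_sum, Finsupp.linearCombination_single, one_smul]
    ext x
    simp only [Pi.sub_apply, Finset.sum_apply, Pi.zero_apply]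
    have := h x
    simp only [ι, MonoidHom.comp_apply, MonoidHom.pow_apply, Units.coeHom_apply, Units.val_pow_eq_pow_val]
    rw [this, sub_self]
  have h0 := hli l hl
  have h1 : l (ι ((μ i) ^ m)) = 0 := by rw [h0]; rfl
  simp only [l, Finsupp.sub_apply, Finsupp.finsetSum_apply, Finsupp.single_apply] at h1
  have h2 : ∑ j, (if ι (μ j) = ι ((μ i) ^ m) then (1 : ℂ) else 0) = 0 := by
    apply Finset.sum_eq_zero
    intro j _
    rw [if_neg]
    intro hj
    exact hcon j (hι hj)
  rw [h2, sub_zero, Finset.sum_boole] at h1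
  have h3 : (Finset.univ.filter (fun i' => ι ((μ i') ^ m) = ι ((μ i) ^ m))).card ≠ 0 := by
    apply Finset.card_ne_zero_of_mem (a := i)
    simp
  exact h3 (by exact_mod_cast h1)

end Cfsg.Agent.Lib.H4PgPerm
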