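import Mathlib
import Cfsg.Agent.Lib.H4PgDeg

set_option autoImplicit false

namespace Cfsg.Agent.Lib.H4PgRoots

/-- piece `Roots` (PURE MATHLIB): the conjugates of `ζ` over `K` are `ζ ^ m`, `m` in a set of `deg` exponents. -/
theorem roots (p : ℕ) (hp : p.Prime) (s : ℕ) (hs : 1 ≤ s) (ζ : ℂ) (hζ : IsPrimitiveRoot ζ (p ^ s))
    (K : IntermediateField ℚ ℂ) :
    ∃ S : Finset ℕ, (∀ m ∈ S, m < p ^ s ∧ Nat.Coprime m p ∧
      Polynomial.aeval (ζ ^ m) (minpoly K ζ) = 0) ∧ S.card = (minpoly K ζ).natDegree := by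
  classical
  have hpos : 0 < p ^ s := pow_pos hp.pos s
  have hint : IsIntegral K ζ := (hζ.isIntegral hpos).tower_top
  have hirr : Irreducible (minpoly K ζ) := minpoly.irreducible hint
  have hsep : (minpoly K ζ).Separable := hirr.separable
  have hne : minpoly K ζ ≠ 0 := hirr.ne_zero
  have hcard := Polynomial.card_rootSet_eq_natDegree (K := ℂ) hsep (IsAlgClosed.splits _)
  let S : Finset ℕ := (Finset.range (p ^ s)).filter
    (fun m => Nat.Coprime m p ∧ Polynomial.aeval (ζ ^ m) (minpoly K ζ) = 0)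
  have hS : ∀ m, m ∈ S ↔ m < p ^ s ∧ Nat.Coprime m p ∧
      Polynomial.aeval (ζ ^ m) (minpoly K ζ) = 0 := by
    intro m
    simp [S]
  refine ⟨S, fun m hm => (hS m).1 hm, ?_⟩
  rw [← hcard, ← Fintype.card_coe S]
  let φ : S → (minpoly K ζ).rootSet ℂ := fun m =>
    ⟨ζ ^ (m : ℕ), Polynomial.mem_rootSet.2 ⟨hne, ((hS m).1 m.2).2.2⟩⟩
  apply Fintype.card_of_bijective (f := φ)
  constructor
  · intro a b hab
    have h1 : ζ ^ (a : ℕ) = ζ ^ (b : ℕ) := congrArg Subtype.val hab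
    exact Subtype.ext (hζ.pow_inj ((hS a).1 a.2).1 ((hS b).1 b.2).1 h1)
  · rintro ⟨z, hz⟩
    have hz0 : Polynomial.aeval z (minpoly K ζ) = 0 := (Polynomial.mem_rootSet.1 hz).2
    have hdvd := minpoly.dvd_map_of_isScalarTower ℚ K ζ
    have h1 : Polynomial.aeval z ((minpoly ℚ ζ).map (algebraMap ℚ K)) = 0 := by
      obtain ⟨c, hc⟩ := hdvd
      rw [hc, map_mul, hz0, zero_mul]
    rw [Polynomial.aeval_map_algebraMap, ← Polynomial.cyclotomic_eq_minpoly_rat hζ hpos] at h1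
    have h2 : (Polynomial.cyclotomic (p ^ s) ℂ).IsRoot z := by
      rw [← Polynomial.map_cyclotomic (p ^ s) (algebraMap ℚ ℂ), Polynomial.IsRoot.def,
        Polynomial.eval_map_algebraMap]
      exact h1
    haveI : NeZero ((p ^ s : ℕ) : ℂ) := ⟨by exact_mod_cast hpos.ne'⟩
    have h3 : IsPrimitiveRoot z (p ^ s) := Polynomial.isRoot_cyclotomic_iff.1 h2
    haveI : NeZero (p ^ s) := ⟨hpos.ne'⟩
    obtain ⟨m, hm, hcop, rfl⟩ := (hζ.isPrimitiveRoot_iff).1 h3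
    have hcop' : Nat.Coprime m p := (Nat.coprime_pow_right_iff (by omega) m p).1 hcop
    exact ⟨⟨m, (hS m).2 ⟨hm, hcop', hz0⟩⟩, rfl⟩

end Cfsg.Agent.Lib.H4PgRoots
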