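import Mathlib

set_option autoImplicit false

namespace Cfsg.Agent.Lib.H4PgStable

open Polynomial

/-- piece `Stable` (PURE MATHLIB): a sum of linear characters with values in `K` is invariant under `ζ ↦ ζ ^ m`
for the conjugates `ζ ^ m` of `ζ` over `K`. -/
theorem stable {A : Type*} [Group A] (f : ℕ) (μ : Fin f → (A →* ℂˣ)) (n : ℕ) (hn : 0 < n) (ζ : ℂ)
    (hζ : IsPrimitiveRoot ζ n) (hpow : ∀ i x, (μ i x) ^ n = 1) (K : IntermediateField ℚ ℂ)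
    (hval : ∀ x, ∑ i, ((μ i x : ℂˣ) : ℂ) ∈ K) (m : ℕ)
    (hm : Polynomial.aeval (ζ ^ m) (minpoly K ζ) = 0) (x : A) :
    ∑ i, ((μ i x : ℂˣ) : ℂ) ^ m = ∑ i, ((μ i x : ℂˣ) : ℂ) := by
  have : NeZero n := ⟨hn.ne'⟩
  have h1 : ∀ i, ∃ e : ℕ, ζ ^ e = ((μ i x : ℂˣ) : ℂ) := by
    intro i
    have h2 : (((μ i x : ℂˣ) : ℂ)) ^ n = 1 := by
      have := congrArg (fun u : ℂˣ => (u : ℂ)) (hpow i x)
      simpa using this
    obtain ⟨e, -, he⟩ := hζ.eq_pow_of_pow_eq_one h2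
    exact ⟨e, he⟩
  choose e he using h1
  set F : K[X] := ∑ i, X ^ (e i) - C (⟨∑ i, ((μ i x : ℂˣ) : ℂ), hval x⟩ : K) with hF
  have hF0 : aeval ζ F = 0 := by
    rw [hF, map_sub, map_sum, aeval_C]
    simp only [map_pow, aeval_X, he]
    exact sub_self _
  obtain ⟨q, hq⟩ := minpoly.dvd K ζ hF0
  have hF1 : aeval (ζ ^ m) F = 0 := by
    rw [hq, map_mul, hm, zero_mul]
  rw [hF, map_sub, map_sum, aeval_C] at hF1
  simp only [map_pow, aeval_X] at hF1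
  have h3 : ∀ i, (ζ ^ m) ^ e i = ((μ i x : ℂˣ) : ℂ) ^ m := by
    intro i
    rw [← he i, ← pow_mul, ← pow_mul, mul_comm]
  simp only [h3] at hF1
  exact sub_eq_zero.1 hF1

end Cfsg.Agent.Lib.H4PgStable
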