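import Mathlib
import Cfsg.Agent.Lib.H4PgDeg
import Cfsg.Agent.Lib.H4PgRoots
import Cfsg.Agent.Lib.H4PgStable
import Cfsg.Agent.Lib.H4PgPerm
import Cfsg.Agent.Lib.H4PgCount
import Cfsg.Agent.Lib.H4PgEmbed
import Cfsg.Agent.Lib.H4PgNum

set_option autoImplicit false

namespace Cfsg.Agent.Lib.H4PgAbs

/-- the abelian part. -/
theorem abs {A : Type*} [Group A] [Finite A] (p : ℕ) (hp : p.Prime) (f s t : ℕ)
    (μ : Fin f → (A →* ℂˣ)) (hs : ∀ i, Nat.card (μ i).range = p ^ s)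
    (hinj : ∀ x, (∀ i, μ i x = 1) → x = 1) (K : IntermediateField ℚ ℂ)
    (hK : Module.finrank ℚ K = (p - 1) * p ^ t) (hval : ∀ x, ∑ i, ((μ i x : ℂˣ) : ℂ) ∈ K) :
    Nat.card A ≤ p ^ ((t + 1) * f) := by
  classical
  have h1 := H4PgEmbed.embed p s f μ hs hinj
  refine h1.trans (Nat.pow_le_pow_right hp.pos ?_)
  rcases Nat.eq_zero_or_pos s with h0 | hs1
  · subst h0
    simp
  have hn : 0 < p ^ s := pow_pos hp.pos s
  obtain ⟨ζ, hζ⟩ : ∃ ζ : ℂ, IsPrimitiveRoot ζ (p ^ s) :=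
    ⟨_, Complex.isPrimitiveRoot_exp (p ^ s) hn.ne'⟩
  obtain ⟨S, hS, hcard⟩ := H4PgRoots.roots p hp s hs1 ζ hζ K
  have hdeg := H4PgDeg.deg p hp s t hs1 ζ hζ K hK
  rw [← hcard] at hdeg
  have hpow : ∀ i x, (μ i x) ^ (p ^ s) = 1 := by
    intro i x
    have h2 : ((⟨μ i x, x, rfl⟩ : (μ i).range)) ^ (Nat.card (μ i).range) = 1 := pow_card_eq_one'
    rw [hs i] at h2
    exact congrArg Subtype.val h2
  have hcl : ∀ m ∈ S, ∀ i, ∃ j, μ j = (μ i) ^ m := by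
    intro m hm i
    exact H4PgPerm.perm f μ m
      (fun x => H4PgStable.stable f μ (p ^ s) hn ζ hζ hpow K hval m (hS m hm).2.2 x) i
  have hcount := H4PgCount.count p s f hp μ hs S (fun m hm => ⟨(hS m hm).1, (hS m hm).2.1⟩) hcl
  exact H4PgNum.num p s t _ S.card f hp.two_le hs1 hcount hdeg

end Cfsg.Agent.Lib.H4PgAbs
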