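import Mathlib

set_option autoImplicit false

namespace Cfsg.Agent.Lib.H4PgCore

/-- piece `Core` (PURE MATHLIB): the index of the core divides `f!`; Legendre. -/
theorem core_index {P : Type*} [Group P] [Finite P] (p a : ℕ) (hp : p.Prime)
    (hP : Nat.card P = p ^ a) (U : Subgroup P) (f : ℕ) (hf : U.index = f) :
    ∃ b c : ℕ, Nat.card U.normalCore = p ^ c ∧ a = b + c ∧ (p - 1) * b ≤ f - 1 := by
  classical
  have : Fact p.Prime := ⟨hp⟩
  have hmul := U.normalCore.card_mul_index
  rw [hP] at hmul
  obtain ⟨c, hca, hc⟩ := (Nat.dvd_prime_pow hp).1 (Dvd.intro _ hmul)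
  obtain ⟨b, hba, hb⟩ := (Nat.dvd_prime_pow hp).1 (Dvd.intro_left _ hmul)
  refine ⟨b, c, hc, ?_, ?_⟩
  · rw [hc, hb, ← pow_add] at hmul
    have := Nat.pow_right_injective hp.two_le hmul
    omega
  · have hdvd : U.normalCore.index ∣ f.factorial := by
      rw [Subgroup.normalCore_eq_ker, Subgroup.index_ker]
      have := Fintype.ofFinite (P ⧸ U)
      have h1 : Nat.card (MulAction.toPermHom P (P ⧸ U)).range ∣ Nat.card (Equiv.Perm (P ⧸ U)) :=
        Subgroup.card_subgroup_dvd_card _
      rw [Nat.card_eq_fintype_card (α := Equiv.Perm (P ⧸ U)), Fintype.card_perm,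
        ← Nat.card_eq_fintype_card, ← Subgroup.index, hf] at h1
      exact h1
    rw [hb] at hdvd
    have hf0 : f ≠ 0 := by rw [← hf]; exact U.index_ne_zero_of_finite
    have h2 : b ≤ padicValNat p f.factorial :=
      (padicValNat_dvd_iff_le (Nat.factorial_ne_zero f)).1 hdvd
    have h3 := sub_one_mul_padicValNat_factorial (p := p) f
    have h4 : 1 ≤ (p.digits f).sum := by
      by_contra hcon
      have h5 : (p.digits f).sum = 0 := by omega
      have h6 : ∀ d ∈ p.digits f, d = 0 := by
        intro d hd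
        have := List.single_le_sum (l := p.digits f) (by intro x _; exact Nat.zero_le x) d hd
        omega
      have h7 := Nat.getLast_digit_ne_zero p hf0
      exact h7 (h6 _ (List.getLast_mem _))
    calc (p - 1) * b ≤ (p - 1) * padicValNat p f.factorial := Nat.mul_le_mul_left _ h2
      _ = f - (p.digits f).sum := h3
      _ ≤ f - 1 := by omega

end Cfsg.Agent.Lib.H4PgCore
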