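import Mathlib
import Cfsg.Prelude.Def_Characters
import Cfsg.Agent.Lib.Helper44Ind

set_option autoImplicit false

namespace Cfsg.Agent.Lib.H4PgRestrict

open Cfsg

theorem conj_mem {P : Type*} [Group P] (U : Subgroup P) (y : P) (x : U.normalCore) :
    y⁻¹ * (x : P) * y ∈ U.normalCore := by
  have := (Subgroup.normalCore_normal U).conj_mem (x : P) x.2 y⁻¹
  rwa [inv_inv] at this

/-- the conjugate of `lam` by `y`, restricted to the core. -/
noncomputable def mu {P : Type*} [Group P] (U : Subgroup P) (lam : U →* ℂˣ) (y : P) :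
    U.normalCore →* ℂˣ where
  toFun x := lam ⟨y⁻¹ * (x : P) * y, Subgroup.normalCore_le U (conj_mem U y x)⟩
  map_one' := by
    rw [← map_one lam]
    congr 1
    apply Subtype.ext
    simp
  map_mul' a b := by
    rw [← map_mul lam]
    congr 1
    apply Subtype.ext
    simp only [Subgroup.coe_mul]
    group

theorem range_mu {P : Type*} [Group P] (U : Subgroup P) (lam : U →* ℂˣ) (y : P) :
    (mu U lam y).range = (mu U lam 1).range := by
  ext z
  constructor
  · rintro ⟨x, rfl⟩
    refine ⟨⟨y⁻¹ * (x : P) * y, conj_mem U y x⟩, ?_⟩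
    show lam _ = lam _
    congr 1
    apply Subtype.ext
    simp
  · rintro ⟨x, rfl⟩
    refine ⟨⟨y⁻¹⁻¹ * (x : P) * y⁻¹, conj_mem U y⁻¹ x⟩, ?_⟩
    show lam _ = lam _
    congr 1
    apply Subtype.ext
    simp only
    group

/-- piece `Restrict`: the restriction of a monomial character to the core of the inducing subgroup. -/
theorem restrict {P : Type*} [Group P] [Fintype P] (U : Subgroup P) (lam : U →* ℂˣ) (f : ℕ)
    (hf : U.index = f) :
    ∃ μ : Fin f → (U.normalCore →* ℂˣ),
      (∀ x : U.normalCore, indFun U (fun h => ((lam h : ℂˣ) : ℂ)) (x : P)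
        = ∑ i, ((μ i x : ℂˣ) : ℂ)) ∧
      ∀ i j, Nat.card (μ i).range = Nat.card (μ j).range := by
  classical
  have e : Fin f ≃ P ⧸ U := (Finite.equivFinOfCardEq (by rw [← hf]; rfl)).symm
  let rep : Fin f → P := fun i => Quotient.out (e i)
  have hrep : Function.Bijective (fun i => (QuotientGroup.mk (rep i) : P ⧸ U)) := by
    have : (fun i => (QuotientGroup.mk (rep i) : P ⧸ U)) = e := by
      funext i
      exact Quotient.out_eq' (e i)
    rw [this]
    exact e.bijective
  have hcl : IsClassFunction U (fun h => ((lam h : ℂˣ) : ℂ)) := by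
    intro g h
    simp only [map_mul, map_inv]
    rw [mul_comm (lam h), mul_assoc, mul_inv_cancel, mul_one]
  refine ⟨fun i => mu U lam (rep i), fun x => ?_, fun i j => ?_⟩
  · rw [Helper44Ind.indFun_transversal U _ hcl rep hrep]
    apply Finset.sum_congr rfl
    intro i _
    exact Helper19Ind.extendByZero_of_mem U _
      (Subgroup.normalCore_le U (conj_mem U (rep i) x))
  · rw [range_mu U lam (rep i), range_mu U lam (rep j)]

end Cfsg.Agent.Lib.H4PgRestrict
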