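import Mathlib
import Cfsg.Prelude.Def_Characters

/-!
# Vocabulary for project 166 (S0166, Brauer's splitting field theorem)
`F` is a field with an algebra structure `F → ℂ` (think of a subfield of `ℂ`).
-/

set_option autoImplicit false

namespace Cfsg.Agent.Lib.H4SfDefs

/-- the character of an `F`-representation, as a complex valued function. -/
noncomputable def chF {F : Type*} [Field F] [Algebra F ℂ] {G : Type*} [Group G] {V : Type*}
    [AddCommGroup V] [Module F V] (ρ : Representation F G V) : G → ℂ :=
  fun g => algebraMap F ℂ (LinearMap.trace F V (ρ g))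

/-- `ψ` is afforded by a (matrix) representation over `F`. -/
def IsFChar (F : Type*) [Field F] [Algebra F ℂ] (G : Type*) [Group G] (ψ : G → ℂ) : Prop :=
  ∃ (n : ℕ) (ρ : Representation F G (Fin n → F)), chF ρ = ψ

/-- all values of `ψ` lie in (the image of) `F`. -/
def ValuedIn (F : Type*) [Field F] [Algebra F ℂ] {X : Type*} (ψ : X → ℂ) : Prop :=
  ∀ x, ψ x ∈ Set.range (algebraMap F ℂ)

/-- the left regular representation of `G` on the functions `G → F`:
`(regF g f) x = f (g⁻¹ * x)`. -/
noncomputable def regF (F : Type*) [Field F] (G : Type*) [Group G] :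
    Representation F G (G → F) where
  toFun g := LinearMap.funLeft F F (fun x => g⁻¹ * x)
  map_one' := by
    ext f x
    simp [LinearMap.funLeft_apply]
  map_mul' g h := by
    ext f x
    simp [LinearMap.funLeft_apply, mul_assoc]

theorem regF_apply (F : Type*) [Field F] (G : Type*) [Group G] (g : G) (f : G → F) (x : G) :
    regF F G g f x = f (g⁻¹ * x) := rfl

/-- the operator `(projF H c f) x = |H|⁻¹ ∑_{h ∈ H} c h * f (x * h)` on the functions `G → F`. -/
noncomputable def projF {F : Type*} [Field F] {G : Type*} [Group G] (H : Subgroup G) [Fintype H]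
    (c : H → F) : (G → F) →ₗ[F] (G → F) :=
  (Nat.card H : F)⁻¹ • ∑ h : H, c h • LinearMap.funLeft F F (fun x : G => x * (h : G))

theorem projF_apply {F : Type*} [Field F] {G : Type*} [Group G] (H : Subgroup G) [Fintype H]
    (c : H → F) (f : G → F) (x : G) :
    projF H c f x = (Nat.card H : F)⁻¹ * ∑ h : H, c h * f (x * (h : G)) := by
  simp [projF, LinearMap.funLeft_apply, Finset.sum_apply]

end Cfsg.Agent.Lib.H4SfDefs
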