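import Mathlib
import Cfsg.Agent.Lib.H4SfDefs

/-!
# Project 166, piece `Base`
-/

set_option autoImplicit false

namespace Cfsg.Agent.Lib.H4SfBase

open Cfsg Cfsg.Agent.Lib.H4SfDefs

variable {F : Type*} [Field F] [Algebra F ℂ] {G : Type*} [Group G]

/-- Choose a basis `b : Basis (Fin n) F V` (`Module.finBasis`), transport `ρ` along
`b.equivFun : V ≃ₗ[F] Fin n → F` (`g ↦ e ∘ ρ g ∘ e.symm`); the trace does not change
(`LinearMap.trace_conj'`). -/
theorem isFChar_of_rep {V : Type*} [AddCommGroup V] [Module F V] [FiniteDimensional F V]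
    (ρ : Representation F G V) : IsFChar F G (chF ρ) := by
  let e : V ≃ₗ[F] (Fin (Module.finrank F V) → F) := (Module.finBasis F V).equivFun
  let ρ' : Representation F G (Fin (Module.finrank F V) → F) :=
    { toFun := fun g => e.conj (ρ g)
      map_one' := by
        rw [map_one]
        exact LinearEquiv.conj_id e
      map_mul' := by
        intro g h
        rw [map_mul]
        exact LinearEquiv.conj_comp e _ _ }
  refine ⟨Module.finrank F V, ρ', ?_⟩
  funext g
  simp only [chF]
  congr 1
  exact LinearMap.trace_conj' (ρ g) e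

/-- Base change of the matrices: `σ g = Matrix.toLin' ((LinearMap.toMatrix' (ρ g)).map (algebraMap F ℂ))`
(`Matrix.map_mul`, `Matrix.map_one`, `Matrix.trace_map`/`AddMonoidHom.map_trace`,
`LinearMap.trace_eq_matrix_trace` / `Matrix.trace_toLin'_eq`?).  `Representation.character σ g` is
`LinearMap.trace ℂ _ (σ g)` by definition. -/
theorem IsFChar.exists_complex {ψ : G → ℂ} (h : IsFChar F G ψ) :
    ∃ (n : ℕ) (σ : Representation ℂ G (Fin n → ℂ)), σ.character = ψ ∧
      ∀ g i j, LinearMap.toMatrix' (σ g) i j ∈ Set.range (algebraMap F ℂ) := by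
  obtain ⟨n, ρ, rfl⟩ := h
  let σ : Representation ℂ G (Fin n → ℂ) :=
    { toFun := fun g => Matrix.toLin' ((LinearMap.toMatrix' (ρ g)).map (algebraMap F ℂ))
      map_one' := by
        rw [map_one, Module.End.one_eq_id, LinearMap.toMatrix'_id,
          Matrix.map_one _ (map_zero _) (map_one _), Matrix.toLin'_one]
        rfl
      map_mul' := by
        intro g h
        rw [map_mul, LinearMap.toMatrix'_mul, Matrix.map_mul, Matrix.toLin'_mul]
        rfl }
  have hσ : ∀ g, σ g = Matrix.toLin' ((LinearMap.toMatrix' (ρ g)).map (algebraMap F ℂ)) := fun _ => rfl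
  refine ⟨n, σ, ?_, ?_⟩
  · funext g
    show LinearMap.trace ℂ _ (σ g) = _
    rw [hσ, Matrix.trace_toLin'_eq]
    simp only [chF]
    rw [LinearMap.trace_eq_matrix_trace F (Pi.basisFun F (Fin n)), LinearMap.toMatrix_eq_toMatrix',
      Matrix.trace, Matrix.trace, map_sum]
    rfl
  · intro g i j
    rw [hσ, LinearMap.toMatrix'_toLin']
    exact ⟨_, rfl⟩

theorem IsFChar.isCharacter {ψ : G → ℂ} (h : IsFChar F G ψ) : Cfsg.IsCharacter G ψ := by
  obtain ⟨n, σ, h1, -⟩ := IsFChar.exists_complex h
  exact ⟨n, σ, h1⟩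

end Cfsg.Agent.Lib.H4SfBase
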