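import Mathlib
import Cfsg.Agent.Lib.H4SfDefs
import Cfsg.Agent.Lib.H4SfBase

/-!
# Project 166, piece `Add`
-/

set_option autoImplicit false

namespace Cfsg.Agent.Lib.H4SfAdd

open Cfsg Cfsg.Agent.Lib.H4SfDefs Cfsg.Agent.Lib.H4SfBase

variable {F : Type*} [Field F] [Algebra F ℂ] {G : Type*} [Group G]

/-- the representation on `Fin 0 → F`. -/
theorem IsFChar.zero : IsFChar F G (0 : G → ℂ) := by
  refine ⟨0, 1, ?_⟩
  funext g
  simp only [chF, Pi.zero_apply]
  have : LinearMap.trace F (Fin 0 → F) ((1 : Representation F G (Fin 0 → F)) g) = 0 := by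
    rw [LinearMap.trace_eq_matrix_trace F (Pi.basisFun F (Fin 0))]
    simp [Matrix.trace]
  rw [this, map_zero]

/-- the product representation. -/
noncomputable def prodRep {V₁ V₂ : Type*} [AddCommGroup V₁] [Module F V₁] [AddCommGroup V₂]
    [Module F V₂] (ρ₁ : Representation F G V₁) (ρ₂ : Representation F G V₂) :
    Representation F G (V₁ × V₂) where
  toFun g := (ρ₁ g).prodMap (ρ₂ g)
  map_one' := by
    ext <;> simp
  map_mul' g h := by
    ext <;> simp

/-- the product representation on `V₁ × V₂`, then `isFChar_of_rep`. -/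
theorem IsFChar.add {ψ₁ ψ₂ : G → ℂ} (h₁ : IsFChar F G ψ₁) (h₂ : IsFChar F G ψ₂) :
    IsFChar F G (ψ₁ + ψ₂) := by
  obtain ⟨n₁, ρ₁, rfl⟩ := h₁
  obtain ⟨n₂, ρ₂, rfl⟩ := h₂
  have := isFChar_of_rep (prodRep ρ₁ ρ₂)
  convert this using 1
  funext g
  simp only [chF, Pi.add_apply, prodRep]
  rw [← map_add]
  congr 1
  exact (LinearMap.trace_prodMap' (ρ₁ g) (ρ₂ g)).symm

/-- induction on `n`. -/
theorem IsFChar.natMul {ψ : G → ℂ} (h : IsFChar F G ψ) (n : ℕ) :
    IsFChar F G (fun g => (n : ℂ) * ψ g) := by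
  induction n with
  | zero =>
    have : (fun g => ((0 : ℕ) : ℂ) * ψ g) = (0 : G → ℂ) := by
      funext g; simp
    rw [this]
    exact IsFChar.zero
  | succ n ih =>
    have : (fun g => ((n + 1 : ℕ) : ℂ) * ψ g) = (fun g => (n : ℂ) * ψ g) + ψ := by
      funext g; simp [add_mul]
    rw [this]
    exact IsFChar.add ih h

/-- induction on the finset. -/
theorem IsFChar.sum {ι : Type*} (s : Finset ι) {ψ : ι → G → ℂ} (h : ∀ i ∈ s, IsFChar F G (ψ i)) :
    IsFChar F G (∑ i ∈ s, ψ i) := by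
  classical
  induction s using Finset.induction_on with
  | empty => simpa using IsFChar.zero
  | insert a s ha ih =>
    rw [Finset.sum_insert ha]
    exact IsFChar.add (h a (Finset.mem_insert_self a s))
      (ih (fun i hi => h i (Finset.mem_insert_of_mem hi)))

end Cfsg.Agent.Lib.H4SfAdd
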