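import Mathlib
import Cfsg.Agent.Lib.H4SfDefs

/-!
# Project 166, piece `Hom`
-/

set_option autoImplicit false

namespace Cfsg.Agent.Lib.H4SfHom

open Cfsg Cfsg.Agent.Lib.H4SfDefs

variable {F : Type*} [Field F] [Algebra F ℂ] {G : Type*} [Group G] [Fintype G]

theorem trace_eq_sum {V : Type*} [AddCommGroup V] [Module F V] {ι : Type*} [Fintype ι]
    (b : Module.Basis ι F V) (f : V →ₗ[F] V) :
    LinearMap.trace F V f = ∑ i, b.repr (f (b i)) i := by
  classical
  rw [LinearMap.trace_eq_matrix_trace F b, Matrix.trace]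
  apply Finset.sum_congr rfl
  intro i _
  rw [Matrix.diag_apply, LinearMap.toMatrix_apply]

/-- If `∑_g ψ₁(g) ψ₂(g⁻¹) ≠ 0` there is a nonzero intertwining map. -/
theorem exists_intertwiner {V₁ V₂ : Type*} [AddCommGroup V₁] [Module F V₁] [FiniteDimensional F V₁]
    [AddCommGroup V₂] [Module F V₂] [FiniteDimensional F V₂]
    (ρ₁ : Representation F G V₁) (ρ₂ : Representation F G V₂)
    (h : ∑ g : G, chF ρ₁ g * chF ρ₂ g⁻¹ ≠ 0) :
    ∃ f : V₁ →ₗ[F] V₂, f ≠ 0 ∧ ∀ g, f ∘ₗ ρ₁ g = ρ₂ g ∘ₗ f := by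
  classical
  by_contra hcon
  push Not at hcon
  apply h
  have hav : ∀ T : V₁ →ₗ[F] V₂, ∑ g : G, ρ₂ g⁻¹ ∘ₗ T ∘ₗ ρ₁ g = 0 := by
    intro T
    by_contra hT
    obtain ⟨k, hk⟩ := hcon _ hT
    apply hk
    ext v
    simp only [LinearMap.comp_apply, LinearMap.sum_apply, map_sum]
    apply Fintype.sum_equiv (Equiv.mulRight k)
    intro g
    simp only [Equiv.coe_mulRight, _root_.mul_inv_rev, map_mul, Module.End.mul_apply]
    rw [← Module.End.mul_apply (ρ₂ k), ← map_mul, mul_inv_cancel, map_one, Module.End.one_apply]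
  let b₁ := Module.finBasis F V₁
  let b₂ := Module.finBasis F V₂
  have key : ∀ i j, ∑ g : G, b₁.repr (ρ₁ g (b₁ j)) j * b₂.repr (ρ₂ g⁻¹ (b₂ i)) i = 0 := by
    intro i j
    have h1 := hav ((b₁.coord j).smulRight (b₂ i))
    have h2 := LinearMap.congr_fun h1 (b₁ j)
    have h3 := congrArg (fun w => b₂.repr w i) h2
    simp only [LinearMap.sum_apply, LinearMap.comp_apply, LinearMap.smulRight_apply, map_smul,
      map_sum, Finsupp.coe_finsetSum, Finset.sum_apply, Finsupp.coe_smul, Pi.smul_apply,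
      smul_eq_mul, LinearMap.zero_apply, map_zero, Finsupp.coe_zero, Pi.zero_apply,
      Module.Basis.coord_apply] at h3
    exact h3
  have hF : ∑ g : G, LinearMap.trace F V₁ (ρ₁ g) * LinearMap.trace F V₂ (ρ₂ g⁻¹) = 0 := by
    simp only [trace_eq_sum b₁, trace_eq_sum b₂, Finset.sum_mul_sum]
    rw [Finset.sum_comm]
    apply Finset.sum_eq_zero
    intro j _
    rw [Finset.sum_comm]
    apply Finset.sum_eq_zero
    intro i _
    exact key i j
  have := congrArg (algebraMap F ℂ) hF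
  simpa only [map_sum, map_mul, map_zero, chF] using this

end Cfsg.Agent.Lib.H4SfHom
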