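import Mathlib
import Cfsg.Agent.Lib.H4SfDefs

/-!
# Project 166, piece `IndOp`
-/

set_option autoImplicit false

namespace Cfsg.Agent.Lib.H4SfIndOp

open Cfsg Cfsg.Agent.Lib.H4SfDefs

variable {F : Type*} [Field F] [CharZero F] {G : Type*} [Group G]

/-- `projF H c` is idempotent when `c` is multiplicative. -/
theorem projF_idem (H : Subgroup G) [Fintype H] (c : H →* F) :
    projF H c ∘ₗ projF H c = projF H c := by
  ext f x
  rw [LinearMap.comp_apply, projF_apply]
  simp only [projF_apply]
  have hn : (Nat.card H : F) ≠ 0 := by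
    have : Nat.card H ≠ 0 := Nat.card_pos.ne'
    exact_mod_cast this
  have key : ∀ h : H, c h * ((Nat.card H : F)⁻¹ * ∑ k : H, c k * f (x * (h : G) * (k : G)))
      = (Nat.card H : F)⁻¹ * ∑ k : H, c k * f (x * (k : G)) := by
    intro h
    rw [mul_left_comm, Finset.mul_sum]
    congr 1
    apply Fintype.sum_equiv (Equiv.mulLeft h)
    intro k
    simp only [Equiv.coe_mulLeft, map_mul, Subgroup.coe_mul, mul_assoc]
  rw [Finset.sum_congr rfl (fun h _ => key h)]
  rw [Finset.sum_const, Finset.card_univ, nsmul_eq_mul, ← Nat.card_eq_fintype_card, ← mul_assoc,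
    inv_mul_cancel₀ hn, one_mul]

/-- left and right translations commute (`regF_apply`, `projF_apply`, `mul_assoc`). -/
theorem projF_comm (H : Subgroup G) [Fintype H] (c : H → F) (g : G) :
    projF H c ∘ₗ regF F G g = regF F G g ∘ₗ projF H c := by
  ext f x
  simp only [LinearMap.comp_apply, projF_apply, regF_apply, mul_assoc]

end Cfsg.Agent.Lib.H4SfIndOp
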