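import Mathlib
import Cfsg.Agent.Lib.H4SfDefs

/-!
# Project 166, piece `IndTr`
-/

set_option autoImplicit false

namespace Cfsg.Agent.Lib.H4SfIndTr

open Cfsg Cfsg.Agent.Lib.H4SfDefs

variable {F : Type*} [Field F] {G : Type*} [Group G] [Fintype G]

/-- The trace formula.  `LinearMap.trace_eq_matrix_trace F (Pi.basisFun F G)` (needs
`DecidableEq G`: `classical`), `LinearMap.toMatrix_apply` / `LinearMap.toMatrix'_apply`:
the diagonal entry at `x` of `regF g ∘ projF H c` is
`(regF g (projF H c (Pi.single x 1))) x = |H|⁻¹ ∑_h c h * [g⁻¹ * x * h = x]`, and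
`g⁻¹ * x * h = x ↔ (h : G) = x⁻¹ * g * x`; so the inner sum is `c ⟨x⁻¹ g x, _⟩` if `x⁻¹ g x ∈ H`
and `0` otherwise. -/
theorem trace_regF_projF (H : Subgroup G) [Fintype H] [DecidablePred (· ∈ H)] (c : H → F) (g : G) :
    LinearMap.trace F (G → F) (regF F G g ∘ₗ projF H c) =
      (Nat.card H : F)⁻¹ * ∑ x : G, if hx : x⁻¹ * g * x ∈ H then c ⟨x⁻¹ * g * x, hx⟩ else 0 := by
  classical
  rw [LinearMap.trace_eq_matrix_trace F (Pi.basisFun F G), LinearMap.toMatrix_eq_toMatrix',
    Matrix.trace, Finset.mul_sum]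
  apply Finset.sum_congr rfl
  intro x _
  rw [Matrix.diag_apply, LinearMap.toMatrix'_apply, LinearMap.comp_apply, regF_apply, projF_apply]
  congr 1
  have key : ∀ h : H, g⁻¹ * x * (h : G) = x → (h : G) = x⁻¹ * g * x := by
    intro h he
    calc (h : G) = (g⁻¹ * x)⁻¹ * (g⁻¹ * x * h) := by group
      _ = (g⁻¹ * x)⁻¹ * x := by rw [he]
      _ = x⁻¹ * g * x := by group
  split_ifs with hx
  · rw [Finset.sum_eq_single ⟨x⁻¹ * g * x, hx⟩]
    · rw [Pi.single_apply, if_pos, mul_one]
      group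
    · intro h _ hne
      rw [Pi.single_apply, if_neg, mul_zero]
      intro he
      exact hne (Subtype.ext (key h he))
    · intro h
      exact absurd (Finset.mem_univ _) h
  · apply Finset.sum_eq_zero
    intro h _
    rw [Pi.single_apply, if_neg, mul_zero]
    intro he
    apply hx
    rw [← key h he]
    exact h.2

end Cfsg.Agent.Lib.H4SfIndTr
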