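import Mathlib
import Cfsg.Agent.Lib.H4SfDefs
import Cfsg.Agent.Lib.H4SfBase

/-!
# Project 166, piece `Range`
-/

set_option autoImplicit false

namespace Cfsg.Agent.Lib.H4SfRange

open Cfsg Cfsg.Agent.Lib.H4SfDefs Cfsg.Agent.Lib.H4SfBase

variable {F : Type*} [Field F] [Algebra F ℂ] {G : Type*} [Group G]

/-- The range of an idempotent `P` commuting with `ρ` carries a representation with character
`g ↦ tr (ρ g ∘ P)`. -/
theorem isFChar_range {V : Type*} [AddCommGroup V] [Module F V] [FiniteDimensional F V]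
    (ρ : Representation F G V) (P : V →ₗ[F] V) (hP : P ∘ₗ P = P)
    (hc : ∀ g, P ∘ₗ ρ g = ρ g ∘ₗ P) :
    IsFChar F G (fun g => algebraMap F ℂ (LinearMap.trace F V (ρ g ∘ₗ P))) := by
  set W := LinearMap.range P with hW
  let ι : W →ₗ[F] V := W.subtype
  let π : V →ₗ[F] W := P.rangeRestrict
  have hιπ : ι ∘ₗ π = P := by
    ext v; rfl
  have hPP : ∀ v, P (P v) = P v := fun v => LinearMap.congr_fun hP v
  have hcc : ∀ g v, P (ρ g v) = ρ g (P v) := fun g v => LinearMap.congr_fun (hc g) v
  have hPw : ∀ w : W, P (w : V) = w := by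
    rintro ⟨w, v, rfl⟩
    exact hPP v
  have hπι : π ∘ₗ ι = LinearMap.id := by
    ext w
    exact hPw w
  let ρW : Representation F G W :=
    { toFun := fun g => π ∘ₗ ρ g ∘ₗ ι
      map_one' := by
        ext w
        simp only [map_one]
        exact hPw w
      map_mul' := by
        intro g h
        ext w
        simp only [map_mul]
        change P (ρ g (ρ h w)) = P (ρ g (P (ρ h w)))
        rw [hcc h, hPw] }
  have := isFChar_of_rep ρW
  convert this using 1
  funext g
  simp only [chF]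
  congr 1
  change _ = LinearMap.trace F W (π ∘ₗ (ρ g ∘ₗ ι))
  rw [← LinearMap.trace_comp_comm' π (ρ g ∘ₗ ι), LinearMap.comp_assoc, hιπ]

end Cfsg.Agent.Lib.H4SfRange
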