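import Mathlib
import Cfsg.Agent.Lib.H4SfDefs
import Cfsg.Agent.Lib.H4SfBase
import Cfsg.Agent.Lib.H4SfRange
import Cfsg.Agent.Lib.H4SfIndOp
import Cfsg.Agent.Lib.H4SfIndTr

/-!
# Project 166, piece `Ind`
-/

set_option autoImplicit false

namespace Cfsg.Agent.Lib.H4SfInd

open Cfsg Cfsg.Agent.Lib.H4SfDefs Cfsg.Agent.Lib.H4SfBase Cfsg.Agent.Lib.H4SfRange
  Cfsg.Agent.Lib.H4SfIndOp Cfsg.Agent.Lib.H4SfIndTr

variable {F : Type*} [Field F] [Algebra F ℂ] {G : Type*} [Group G] [Fintype G]

/-- A character induced from a linear character with values in `F` is afforded over `F`. -/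
theorem isFChar_indFun (H : Subgroup G) (l : H →* ℂˣ)
    (hl : ∀ h, ((l h : ℂˣ) : ℂ) ∈ Set.range (algebraMap F ℂ)) :
    IsFChar F G (Cfsg.indFun H (fun e => ((l e : ℂˣ) : ℂ))) := by
  classical
  have hch : CharZero F := by
    refine ⟨fun a b hab => ?_⟩
    have := congrArg (algebraMap F ℂ) hab
    simpa using this
  have hinj : Function.Injective (algebraMap F ℂ) := (algebraMap F ℂ).injective
  choose c₀ hc₀ using hl
  let c : H →* F :=
    { toFun := c₀
      map_one' := by
        apply hinj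
        rw [hc₀, map_one, map_one, Units.val_one]
      map_mul' := by
        intro a b
        apply hinj
        rw [map_mul, hc₀, hc₀, hc₀, map_mul, Units.val_mul] }
  have h1 := isFChar_range (regF F G) (projF H c) (projF_idem H c) (projF_comm H c)
  convert h1 using 1
  funext g
  rw [trace_regF_projF, Cfsg.indFun, map_mul, map_inv₀, map_natCast, map_sum]
  congr 1
  apply Finset.sum_congr rfl
  intro x _
  by_cases hx : x⁻¹ * g * x ∈ H
  · rw [dif_pos hx]
    have : Cfsg.extendByZero H (fun e => ((l e : ℂˣ) : ℂ)) (x⁻¹ * g * x)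
        = ((l ⟨x⁻¹ * g * x, hx⟩ : ℂˣ) : ℂ) := by
      unfold Cfsg.extendByZero
      exact Function.Injective.extend_apply Subtype.val_injective _ _ (⟨x⁻¹ * g * x, hx⟩ : H)
    rw [this]
    exact (hc₀ _).symm
  · rw [dif_neg hx, map_zero]
    unfold Cfsg.extendByZero
    rw [Function.extend_apply']
    · rfl
    · rintro ⟨a, ha⟩
      exact hx (ha ▸ a.2)

end Cfsg.Agent.Lib.H4SfInd
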