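import Mathlib
import Cfsg.Agent.Lib.H4SfDefs

/-!
# Project 166, piece `Maschke`
-/

set_option autoImplicit false

namespace Cfsg.Agent.Lib.H4SfMaschke

open Cfsg Cfsg.Agent.Lib.H4SfDefs

variable {F : Type*} [Field F] [Algebra F ℂ] {G : Type*} [Group G] [Finite G]

/-- Maschke's theorem with an explicit projector. -/
theorem exists_proj {V : Type*} [AddCommGroup V] [Module F V]
    (ρ : Representation F G V) (U : Submodule F V) (hU : ∀ g, ∀ u ∈ U, ρ g u ∈ U) :
    ∃ P : V →ₗ[F] V, P ∘ₗ P = P ∧ (∀ g, P ∘ₗ ρ g = ρ g ∘ₗ P) ∧ LinearMap.range P = U := by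
  classical
  have := Fintype.ofFinite G
  have hch : CharZero F := by
    refine ⟨fun a b hab => ?_⟩
    have := congrArg (algebraMap F ℂ) hab
    simpa using this
  obtain ⟨U', hU'⟩ := Submodule.exists_isCompl U
  let π₀ : V →ₗ[F] V := U.subtype ∘ₗ Submodule.projectionOnto U U' hU'
  have hπmem : ∀ v, π₀ v ∈ U := fun v => (Submodule.projectionOnto U U' hU' v).2
  have hπu : ∀ u ∈ U, π₀ u = u := by
    intro u hu
    have := Submodule.projectionOnto_apply_left hU' ⟨u, hu⟩
    change ((Submodule.projectionOnto U U' hU' u : U) : V) = u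
    exact congrArg Subtype.val this
  have hn : (Fintype.card G : F) ≠ 0 := by
    have : Fintype.card G ≠ 0 := Fintype.card_ne_zero
    exact_mod_cast this
  let P : V →ₗ[F] V := (Fintype.card G : F)⁻¹ • ∑ g : G, ρ g ∘ₗ π₀ ∘ₗ ρ g⁻¹
  have hPapp : ∀ v, P v = (Fintype.card G : F)⁻¹ • ∑ g : G, ρ g (π₀ (ρ g⁻¹ v)) := by
    intro v
    simp [P, LinearMap.sum_apply]
  have hPmem : ∀ v, P v ∈ U := by
    intro v
    rw [hPapp]
    exact U.smul_mem _ (U.sum_mem (fun g _ => hU g _ (hπmem _)))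
  have hρρ : ∀ g v, ρ g (ρ g⁻¹ v) = v := by
    intro g v
    rw [← Module.End.mul_apply, ← map_mul, mul_inv_cancel, map_one, Module.End.one_apply]
  have hPu : ∀ u ∈ U, P u = u := by
    intro u hu
    rw [hPapp]
    have : ∀ g : G, ρ g (π₀ (ρ g⁻¹ u)) = u := by
      intro g
      rw [hπu _ (hU _ _ hu), hρρ]
    rw [Finset.sum_congr rfl (fun g _ => this g), Finset.sum_const, Finset.card_univ,
      ← Nat.cast_smul_eq_nsmul F, smul_smul, inv_mul_cancel₀ hn, one_smul]
  refine ⟨P, ?_, ?_, ?_⟩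
  · ext v
    exact hPu _ (hPmem v)
  · intro h
    ext v
    simp only [LinearMap.comp_apply]
    rw [hPapp, hPapp, map_smul, map_sum]
    congr 1
    apply Fintype.sum_equiv (Equiv.mulLeft h⁻¹)
    intro g
    simp only [Equiv.coe_mulLeft, _root_.mul_inv_rev, inv_inv, map_mul, Module.End.mul_apply]
    rw [hρρ]
  · apply le_antisymm
    · rintro _ ⟨v, rfl⟩
      exact hPmem v
    · intro u hu
      exact ⟨u, hPu u hu⟩

end Cfsg.Agent.Lib.H4SfMaschke
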