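import Mathlib
import Cfsg.Agent.Lib.H4SfDefs
import Cfsg.Agent.Lib.Helper4Char4

/-!
# Project 166, piece `Split`
-/

set_option autoImplicit false

namespace Cfsg.Agent.Lib.H4SfSplit

open Cfsg Cfsg.Agent.Lib.H4SfDefs

variable {G : Type*} [Group G] [Fintype G]

/-- If the sum of two characters is a multiple of the irreducible `χ`, both are multiples of `χ`.
Proof: `Helper4Char4.IsCharacter.eq_sum_nat` for `ψ₁`, `ψ₂` gives natural coefficients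
`m₁ j = classInner ψ₁ χ_j`, `m₂ j`; `classInner` is additive (`Helper4Char.classInner_add_left`) and
`classInner (s χ) χ_j = s δ` (`Helper4Char.classInner_irr`, `classInner_smul_left`), so
`m₁ j + m₂ j = 0` for `χ_j ≠ χ`. -/
theorem split {χ : G → ℂ} (hχ : Cfsg.IsIrrCharacter G χ) {ψ₁ ψ₂ : G → ℂ}
    (h₁ : Cfsg.IsCharacter G ψ₁) (h₂ : Cfsg.IsCharacter G ψ₂) (s : ℕ)
    (h : ∀ g, ψ₁ g + ψ₂ g = (s : ℂ) * χ g) :
    ∃ s₁ s₂ : ℕ, s₁ + s₂ = s ∧ (∀ g, ψ₁ g = (s₁ : ℂ) * χ g) ∧ (∀ g, ψ₂ g = (s₂ : ℂ) * χ g) := by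
  classical
  obtain ⟨m₁, e₁, c₁⟩ := Cfsg.Agent.Lib.Helper4Char4.IsCharacter.eq_sum_nat h₁
  obtain ⟨m₂, e₂, c₂⟩ := Cfsg.Agent.Lib.Helper4Char4.IsCharacter.eq_sum_nat h₂
  have hsum : ψ₁ + ψ₂ = (s : ℂ) • χ := by
    funext g
    simp [h g]
  have key : ∀ j : IrrCharacter G,
      ((m₁ j + m₂ j : ℕ) : ℂ) = (s : ℂ) * (if χ = (j : G → ℂ) then 1 else 0) := by
    intro j
    push_cast
    rw [← c₁ j, ← c₂ j, ← Cfsg.Agent.Lib.Helper4Char.classInner_add_left, hsum,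
      Cfsg.Agent.Lib.Helper4Char.classInner_smul_left,
      Cfsg.Agent.Lib.Helper4Char.classInner_irr hχ j.2]
  have hz : ∀ j : IrrCharacter G, j ≠ ⟨χ, hχ⟩ → m₁ j = 0 ∧ m₂ j = 0 := by
    intro j hj
    have h1 := key j
    rw [if_neg (fun h => hj (Subtype.ext h.symm)), mul_zero] at h1
    have h2 : m₁ j + m₂ j = 0 := by exact_mod_cast h1
    omega
  have h0 := key ⟨χ, hχ⟩
  rw [if_pos rfl, mul_one] at h0
  refine ⟨m₁ ⟨χ, hχ⟩, m₂ ⟨χ, hχ⟩, by exact_mod_cast h0, ?_, ?_⟩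
  · intro g
    have e := congrFun e₁ g
    rw [e, Finset.sum_apply, Finset.sum_eq_single ⟨χ, hχ⟩]
    · simp
    · intro j _ hj
      rw [(hz j hj).1]; simp
    · intro h
      exact absurd (Finset.mem_univ _) h
  · intro g
    have e := congrFun e₂ g
    rw [e, Finset.sum_apply, Finset.sum_eq_single ⟨χ, hχ⟩]
    · simp
    · intro j _ hj
      rw [(hz j hj).2]; simp
    · intro h
      exact absurd (Finset.mem_univ _) h

end Cfsg.Agent.Lib.H4SfSplit
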