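import Mathlib
import Cfsg.Agent.Lib.H4SfDefs
import Cfsg.Agent.Lib.H4SfBase
import Cfsg.Agent.Lib.H4SfRange
import Cfsg.Agent.Lib.H4SfMaschke
import Cfsg.Agent.Lib.H4SfSplit
import Cfsg.Agent.Lib.Helper4Char2

/-!
# Project 166, piece `Inj`
-/

set_option autoImplicit false

namespace Cfsg.Agent.Lib.H4SfInj

open Cfsg Cfsg.Agent.Lib.H4SfDefs Cfsg.Agent.Lib.H4SfBase Cfsg.Agent.Lib.H4SfRange
  Cfsg.Agent.Lib.H4SfMaschke Cfsg.Agent.Lib.H4SfSplit

variable {F : Type*} [Field F] [Algebra F ℂ] {G : Type*} [Group G] [Fintype G]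

/-- `W` affords `s χ` with `s` minimal: every nonzero intertwining map out of `W` is injective. -/
theorem injective_of_min {χ : G → ℂ} (hχ : Cfsg.IsIrrCharacter G χ) (s : ℕ)
    (hmin : ∀ t : ℕ, 0 < t → IsFChar F G (fun g => (t : ℂ) * χ g) → s ≤ t)
    {W U : Type*} [AddCommGroup W] [Module F W] [FiniteDimensional F W]
    [AddCommGroup U] [Module F U]
    (ρW : Representation F G W) (ρU : Representation F G U)
    (hW : ∀ g, chF ρW g = (s : ℂ) * χ g) (f : W →ₗ[F] U) (hf : f ≠ 0)
    (hfc : ∀ g, f ∘ₗ ρW g = ρU g ∘ₗ f) : Function.Injective f := by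
  classical
  have hch : CharZero F := by
    refine ⟨fun a b hab => ?_⟩
    have := congrArg (algebraMap F ℂ) hab
    simpa using this
  have hinj : Function.Injective (algebraMap F ℂ) := (algebraMap F ℂ).injective
  have hK : ∀ g, ∀ u ∈ LinearMap.ker f, ρW g u ∈ LinearMap.ker f := by
    intro g u hu
    rw [LinearMap.mem_ker] at hu ⊢
    have := LinearMap.congr_fun (hfc g) u
    simp only [LinearMap.comp_apply] at this
    rw [this, hu, map_zero]
  obtain ⟨P, hPP, hPc, hPr⟩ := exists_proj ρW (LinearMap.ker f) hK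
  set Q : W →ₗ[F] W := LinearMap.id - P with hQ
  have hQQ : Q ∘ₗ Q = Q := by
    rw [hQ, LinearMap.sub_comp, LinearMap.comp_sub, LinearMap.comp_sub, hPP]
    simp
  have hQc : ∀ g, Q ∘ₗ ρW g = ρW g ∘ₗ Q := by
    intro g
    rw [hQ, LinearMap.sub_comp, LinearMap.comp_sub, hPc g]
    simp
  have h1 := isFChar_range ρW P hPP hPc
  have h2 := isFChar_range ρW Q hQQ hQc
  obtain ⟨s₁, s₂, hs, hs1, hs2⟩ := split hχ (IsFChar.isCharacter h1) (IsFChar.isCharacter h2) s
    (by
      intro g
      rw [← hW g, ← map_add, ← map_add, ← LinearMap.comp_add, hQ]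
      simp [chF])
  have hPid : IsIdempotentElem P := hPP
  have hQid : IsIdempotentElem Q := hQQ
  have hs2pos : 0 < s₂ := by
    rcases Nat.eq_zero_or_pos s₂ with h0 | h0
    · exfalso
      have h3 := hs2 1
      rw [h0] at h3
      simp only [map_one, Nat.cast_zero, zero_mul] at h3
      have h4 : LinearMap.trace F W Q = 0 := by
        apply hinj
        rw [map_zero, ← h3]
        congr 1
      have h5 : Q = 0 := LinearMap.IsIdempotentElem.eq_zero_of_trace_eq_zero hQid h4
      apply hf
      ext w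
      have h6 : P w = w := by
        have := LinearMap.congr_fun h5 w
        rw [hQ] at this
        simp only [LinearMap.sub_apply, LinearMap.id_apply, LinearMap.zero_apply] at this
        exact (sub_eq_zero.1 this).symm
      have h7 : w ∈ LinearMap.ker f := by
        rw [← hPr]; exact ⟨w, h6⟩
      simpa using h7
    · exact h0
  have hle : s ≤ s₂ := by
    apply hmin s₂ hs2pos
    convert h2 using 1
    funext g
    exact (hs2 g).symm
  have hs10 : s₁ = 0 := by omega
  have h3 := hs1 1
  rw [hs10] at h3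
  simp only [map_one, Nat.cast_zero, zero_mul] at h3
  have h4 : LinearMap.trace F W P = 0 := by
    apply hinj
    rw [map_zero, ← h3]
    congr 1
  have h5 : P = 0 := LinearMap.IsIdempotentElem.eq_zero_of_trace_eq_zero hPid h4
  have h6 : LinearMap.ker f = ⊥ := by
    rw [← hPr, h5]
    exact LinearMap.range_zero
  exact LinearMap.ker_eq_bot.1 h6

end Cfsg.Agent.Lib.H4SfInj
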