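import Mathlib
import Cfsg.Agent.Lib.H4SfDefs
import Cfsg.Agent.Lib.H4SfBase
import Cfsg.Agent.Lib.H4SfRange
import Cfsg.Agent.Lib.H4SfMaschke

/-!
# Project 166, piece `Subtr`
-/

set_option autoImplicit false

namespace Cfsg.Agent.Lib.H4SfSubtr

open Cfsg Cfsg.Agent.Lib.H4SfDefs Cfsg.Agent.Lib.H4SfBase Cfsg.Agent.Lib.H4SfRange
  Cfsg.Agent.Lib.H4SfMaschke

variable {F : Type*} [Field F] [Algebra F ℂ] {G : Type*} [Group G] [Finite G]

/-- A subrepresentation can be subtracted.
Proof.  `R = range f` is `ρU`-invariant.  `exists_proj ρU R` gives an idempotent `P` commuting with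
`ρU` with `range P = R`.  `Q = id - P` is idempotent and commutes, so
`g ↦ tr (ρU g ∘ Q) = tr (ρU g) - tr (ρU g ∘ P)` is `IsFChar` (`isFChar_range`).  It remains to see
`tr (ρU g ∘ P) = tr (ρW g)`.  Let `e : W ≃ₗ[F] R = LinearEquiv.ofInjective f hinj` and
`f' : U → W := e.symm ∘ P.rangeRestrict` (after rewriting `range P = R`; or define `f'` by
`f' u = ` the unique `w` with `f w = P u`).  Then `f ∘ f' = P` and `f' ∘ f = id`.  Hence
`tr (ρU g ∘ f ∘ f') = tr (f' ∘ ρU g ∘ f) = tr (f' ∘ f ∘ ρW g) = tr (ρW g)`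
(`LinearMap.trace_comp_comm'`, `hfc`). -/
theorem isFChar_sub_of_injective {W U : Type*} [AddCommGroup W] [Module F W]
    [FiniteDimensional F W] [AddCommGroup U] [Module F U] [FiniteDimensional F U]
    (ρW : Representation F G W) (ρU : Representation F G U) (f : W →ₗ[F] U)
    (hinj : Function.Injective f) (hfc : ∀ g, f ∘ₗ ρW g = ρU g ∘ₗ f) :
    IsFChar F G (fun g => chF ρU g - chF ρW g) := by
  have hR : ∀ g, ∀ u ∈ LinearMap.range f, ρU g u ∈ LinearMap.range f := by
    rintro g _ ⟨w, rfl⟩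
    exact ⟨ρW g w, LinearMap.congr_fun (hfc g) w⟩
  obtain ⟨P, hPP, hPc, hPr⟩ := exists_proj ρU (LinearMap.range f) hR
  have hPP' : ∀ u, P (P u) = P u := fun u => LinearMap.congr_fun hPP u
  have hQQ : (LinearMap.id - P) ∘ₗ (LinearMap.id - P) = LinearMap.id - P := by
    ext u
    simp [hPP']
  have hQc : ∀ g, (LinearMap.id - P) ∘ₗ ρU g = ρU g ∘ₗ (LinearMap.id - P) := by
    intro g
    rw [LinearMap.sub_comp, LinearMap.comp_sub, hPc g, LinearMap.id_comp, LinearMap.comp_id]
  have h1 := isFChar_range ρU (LinearMap.id - P) hQQ hQc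
  convert h1 using 1
  funext g
  simp only [chF]
  rw [LinearMap.comp_sub, map_sub, map_sub, LinearMap.comp_id]
  congr 2
  -- the section
  have hmem : ∀ u, P u ∈ LinearMap.range f := fun u => hPr ▸ LinearMap.mem_range_self P u
  let e : W ≃ₗ[F] LinearMap.range f := LinearEquiv.ofInjective f hinj
  let f' : U →ₗ[F] W := e.symm.toLinearMap ∘ₗ (P.codRestrict (LinearMap.range f) hmem)
  have hff' : ∀ u, f (f' u) = P u := by
    intro u
    have h2 : (e (f' u) : U) = f (f' u) := LinearEquiv.ofInjective_apply f (f' u)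
    rw [← h2]
    show ((e (e.symm (P.codRestrict (LinearMap.range f) hmem u)) : LinearMap.range f) : U) = P u
    rw [LinearEquiv.apply_symm_apply]
    rfl
  have hPf : ∀ w, P (f w) = f w := by
    intro w
    have h3 : f w ∈ LinearMap.range P := hPr ▸ LinearMap.mem_range_self f w
    obtain ⟨v, hv⟩ := h3
    rw [← hv, hPP']
  have hf'f : f' ∘ₗ f = LinearMap.id := by
    ext w
    apply hinj
    rw [LinearMap.comp_apply, hff', hPf]
    rfl
  have hP : P = f ∘ₗ f' := by
    ext u
    exact (hff' u).symm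
  rw [hP, ← LinearMap.comp_assoc, LinearMap.trace_comp_comm' f' (ρU g ∘ₗ f), ← hfc g,
    ← LinearMap.comp_assoc, hf'f, LinearMap.id_comp]

end Cfsg.Agent.Lib.H4SfSubtr
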