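import Mathlib
import Cfsg.Agent.Lib.H4SfDefs
import Cfsg.Agent.Lib.H4SfBase
import Cfsg.Agent.Lib.H4SfHom
import Cfsg.Agent.Lib.H4SfInj
import Cfsg.Agent.Lib.H4SfSubtr
import Cfsg.Agent.Lib.Helper83Char

/-!
# Project 166, piece `Min`
-/

set_option autoImplicit false

namespace Cfsg.Agent.Lib.H4SfMin

open Cfsg Cfsg.Agent.Lib.H4SfDefs Cfsg.Agent.Lib.H4SfBase Cfsg.Agent.Lib.H4SfHom
  Cfsg.Agent.Lib.H4SfInj Cfsg.Agent.Lib.H4SfSubtr

variable {F : Type*} [Field F] [Algebra F ℂ] {G : Type*} [Group G] [Fintype G]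

theorem dvd_of_min {χ : G → ℂ} (hχ : Cfsg.IsIrrCharacter G χ) (s : ℕ) (hs : 0 < s)
    (hsF : IsFChar F G (fun g => (s : ℂ) * χ g))
    (hmin : ∀ t : ℕ, 0 < t → IsFChar F G (fun g => (t : ℂ) * χ g) → s ≤ t) :
    ∀ a : ℕ, IsFChar F G (fun g => (a : ℂ) * χ g) → s ∣ a := by
  intro a
  induction a using Nat.strong_induction_on with
  | _ a ih =>
    intro ha
    rcases Nat.eq_zero_or_pos a with rfl | hpos
    · exact dvd_zero s
    have hsa : s ≤ a := hmin a hpos ha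
    obtain ⟨n, ρW, hW⟩ := hsF
    obtain ⟨m, ρU, hU⟩ := ha
    have hsum : ∑ g : G, chF ρW g * chF ρU g⁻¹ ≠ 0 := by
      rw [hW, hU]
      have h1 := Cfsg.Agent.Lib.Helper83Char.irr_sum_mul_inv_self hχ
      have : ∑ g : G, (s : ℂ) * χ g * ((a : ℂ) * χ g⁻¹) = (s : ℂ) * a * ∑ g : G, χ g * χ g⁻¹ := by
        rw [Finset.mul_sum]
        exact Finset.sum_congr rfl fun g _ => by ring
      rw [this, h1]
      have hc : (Nat.card G : ℂ) ≠ 0 := Nat.cast_ne_zero.mpr Nat.card_pos.ne'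
      have hs' : (s : ℂ) ≠ 0 := Nat.cast_ne_zero.mpr hs.ne'
      have ha' : (a : ℂ) ≠ 0 := Nat.cast_ne_zero.mpr hpos.ne'
      exact mul_ne_zero (mul_ne_zero hs' ha') hc
    obtain ⟨f, hf0, hfc⟩ := exists_intertwiner ρW ρU hsum
    have hinj := injective_of_min hχ s hmin ρW ρU (fun g => congrFun hW g) f hf0 hfc
    have hsub := isFChar_sub_of_injective ρW ρU f hinj hfc
    have hsub' : IsFChar F G (fun g => ((a - s : ℕ) : ℂ) * χ g) := by
      convert hsub using 2 with g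
      rw [hW, hU, Nat.cast_sub hsa]
      ring
    have := ih (a - s) (by omega) hsub'
    have h2 : s ∣ (a - s) + s := Dvd.dvd.add this (dvd_refl s)
    rwa [Nat.sub_add_cancel hsa] at h2

end Cfsg.Agent.Lib.H4SfMin
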