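import Mathlib
import Cfsg.Agent.Lib.H4SfDefs
import Cfsg.Agent.Lib.H4SfBase
import Cfsg.Agent.Lib.H4SfRange
import Cfsg.Agent.Lib.Helper4Char4
import Cfsg.Agent.Lib.Helper83Char

/-!
# Project 166, piece `Proj`
-/

set_option autoImplicit false

namespace Cfsg.Agent.Lib.H4SfProj

open Cfsg Cfsg.Agent.Lib.H4SfDefs Cfsg.Agent.Lib.H4SfBase Cfsg.Agent.Lib.H4SfRange

variable {F : Type*} [Field F] [Algebra F ℂ] {G : Type*} [Group G] [Fintype G]

/-- The `χ`-homogeneous component of an `F`-representation is defined over `F`, when `χ` has its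
values in `F`. -/
theorem isFChar_component {χ : G → ℂ} (hχ : Cfsg.IsIrrCharacter G χ) (hv : ValuedIn F χ)
    {ψ : G → ℂ} (hψ : IsFChar F G ψ) :
    IsFChar F G (fun g => Cfsg.classInner ψ χ * χ g) := by
  classical
  have hψc : Cfsg.IsCharacter G ψ := IsFChar.isCharacter hψ
  obtain ⟨n, ρ, hρ⟩ := hψ
  have hinj : Function.Injective (algebraMap F ℂ) := (algebraMap F ℂ).injective
  have hcl := Cfsg.Agent.Lib.Helper83Char.irr_class hχ
  have hcard : (Nat.card G : ℂ) ≠ 0 := Nat.cast_ne_zero.mpr Nat.card_pos.ne'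
  have hdeg : χ 1 ≠ 0 := by
    obtain ⟨k, hk, hk1⟩ := Cfsg.Agent.Lib.Helper83Char.irr_one hχ
    rw [hk1]
    exact Nat.cast_ne_zero.mpr hk.ne'
  choose v hv' using hv
  set c : G → F := fun h => v 1 * (Nat.card G : F)⁻¹ * v h⁻¹ with hc
  have hcφ : ∀ h, algebraMap F ℂ (c h) = χ 1 * (Nat.card G : ℂ)⁻¹ * χ h⁻¹ := by
    intro h
    simp only [hc, map_mul, map_inv₀, map_natCast, hv']
  have hcomm' : ∀ a b : G, χ (a * b) = χ (b * a) := by
    intro a b
    have := hcl (a * b) b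
    rw [← this]
    congr 1
    group
  have hcclass : ∀ g h, c (g * h * g⁻¹) = c h := by
    intro g h
    apply hinj
    rw [hcφ, hcφ]
    congr 1
    have : (g * h * g⁻¹)⁻¹ = g * h⁻¹ * g⁻¹ := by group
    rw [this, hcl]
  have hconv : ∀ m, ∑ h : G, c h * c (h⁻¹ * m) = c m := by
    intro m
    apply hinj
    rw [map_sum]
    simp only [map_mul, hcφ]
    have h1 := Cfsg.Agent.Lib.Helper83Char.irr_conv_self hχ m⁻¹
    have h2 : ∀ h : G, χ 1 * (Nat.card G : ℂ)⁻¹ * χ h⁻¹ * (χ 1 * (Nat.card G : ℂ)⁻¹ * χ (h⁻¹ * m)⁻¹)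
        = (χ 1 * (Nat.card G : ℂ)⁻¹) ^ 2 * (χ h⁻¹ * χ (h * m⁻¹)) := by
      intro h
      have : (h⁻¹ * m)⁻¹ = m⁻¹ * h := by group
      rw [this, hcomm' m⁻¹ h]
      ring
    rw [Finset.sum_congr rfl fun h _ => h2 h, ← Finset.mul_sum, h1]
    field_simp
  set P : (Fin n → F) →ₗ[F] (Fin n → F) := ∑ h : G, c h • ρ h with hP
  have hPc : ∀ g, P ∘ₗ ρ g = ρ g ∘ₗ P := by
    intro g
    show P * ρ g = ρ g * P
    rw [hP, Finset.sum_mul, Finset.mul_sum]
    rw [← (MulAut.conj g).toEquiv.sum_comp]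
    apply Finset.sum_congr rfl
    intro h _
    simp only [MulEquiv.toEquiv_eq_coe, EquivLike.coe_coe, MulAut.conj_apply, hcclass]
    rw [smul_mul_assoc, mul_smul_comm]
    congr 1
    rw [← map_mul, ← map_mul]
    congr 1
    group
  have hPP : P ∘ₗ P = P := by
    show P * P = P
    have h1 : P * P = ∑ h : G, ∑ k : G, (c h * c k) • ρ (h * k) := by
      rw [hP, Finset.sum_mul]
      apply Finset.sum_congr rfl
      intro h _
      rw [Finset.mul_sum]
      apply Finset.sum_congr rfl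
      intro k _
      rw [smul_mul_assoc, mul_smul_comm, smul_smul, map_mul]
    have h2 : ∀ h : G, ∑ k : G, (c h * c k) • ρ (h * k) = ∑ m : G, (c h * c (h⁻¹ * m)) • ρ m := by
      intro h
      rw [← Equiv.sum_comp (Equiv.mulLeft h) (fun m => (c h * c (h⁻¹ * m)) • ρ m)]
      apply Finset.sum_congr rfl
      intro k _
      simp
    rw [h1, Finset.sum_congr rfl fun h _ => h2 h, Finset.sum_comm, hP]
    apply Finset.sum_congr rfl
    intro m _
    rw [← Finset.sum_smul, hconv]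
  have hmain := isFChar_range ρ P hPP hPc
  convert hmain using 2 with g
  -- the trace
  have hψg : ∀ x, algebraMap F ℂ (LinearMap.trace F (Fin n → F) (ρ x)) = ψ x := fun x =>
    congrFun hρ x
  have htr : algebraMap F ℂ (LinearMap.trace F (Fin n → F) (ρ g ∘ₗ P)) =
      ∑ h : G, χ 1 * (Nat.card G : ℂ)⁻¹ * χ h⁻¹ * ψ (g * h) := by
    have : ρ g ∘ₗ P = ∑ h : G, c h • ρ (g * h) := by
      show ρ g * P = _
      rw [hP, Finset.mul_sum]
      apply Finset.sum_congr rfl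
      intro h _
      rw [mul_smul_comm, map_mul]
    rw [this, map_sum, map_sum]
    apply Finset.sum_congr rfl
    intro h _
    rw [map_smul, smul_eq_mul, map_mul (algebraMap F ℂ), hcφ, hψg]
  rw [htr]
  obtain ⟨mu, hsum, hmu⟩ := Cfsg.Agent.Lib.Helper4Char4.IsCharacter.eq_sum_nat hψc
  have hψcl := Cfsg.Agent.Lib.Helper4Char.IsCharacter.isClassFunction hψc
  have hψcomm : ∀ a b : G, ψ (a * b) = ψ (b * a) := by
    intro a b
    have := hψcl (a * b) b
    rw [← this]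
    congr 1
    group
  have hexp : ∀ x, ψ x = ∑ χ' : Cfsg.IrrCharacter G, (mu χ' : ℂ) * (χ' : G → ℂ) x := by
    intro x
    conv_lhs => rw [hsum]
    simp [Finset.sum_apply]
  have h3 : ∑ h : G, χ h⁻¹ * ψ (h * g) = (mu ⟨χ, hχ⟩ : ℂ) * ((Nat.card G : ℂ) * χ g / χ 1) := by
    simp only [hexp, Finset.mul_sum]
    rw [Finset.sum_comm]
    rw [Finset.sum_eq_single (⟨χ, hχ⟩ : Cfsg.IrrCharacter G)]
    · have := Cfsg.Agent.Lib.Helper83Char.irr_conv_self hχ g
      rw [← this, Finset.mul_sum]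
      apply Finset.sum_congr rfl
      intro h _
      ring
    · intro χ' _ hne
      have hne' : (χ' : G → ℂ) ≠ χ := fun h => hne (Subtype.ext h)
      have := Cfsg.Agent.Lib.Helper83Char.irr_conv_ne χ'.2 hχ hne' g
      have h4 : ∑ h : G, χ h⁻¹ * ((mu χ' : ℂ) * (χ' : G → ℂ) (h * g)) =
          (mu χ' : ℂ) * ∑ h : G, χ h⁻¹ * (χ' : G → ℂ) (h * g) := by
        rw [Finset.mul_sum]
        apply Finset.sum_congr rfl
        intro h _
        ring
      rw [h4, this, mul_zero]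
    · intro h
      exact absurd (Finset.mem_univ _) h
  have h5 : ∑ h : G, χ 1 * (Nat.card G : ℂ)⁻¹ * χ h⁻¹ * ψ (g * h) =
      χ 1 * (Nat.card G : ℂ)⁻¹ * ∑ h : G, χ h⁻¹ * ψ (h * g) := by
    rw [Finset.mul_sum]
    apply Finset.sum_congr rfl
    intro h _
    rw [hψcomm g h]
    ring
  rw [h5, h3, hmu ⟨χ, hχ⟩]
  field_simp

end Cfsg.Agent.Lib.H4SfProj
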