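import Mathlib
import Cfsg.Agent.Lib.H4SfDefs
import Cfsg.Agent.Lib.Helper4Eigen

/-!
# Project 166, piece `Val`
-/

set_option autoImplicit false

namespace Cfsg.Agent.Lib.H4SfVal

open Cfsg Cfsg.Agent.Lib.H4SfDefs

variable {F : Type*} [Field F] [Algebra F ℂ] {G : Type*} [Group G] [Finite G]

/-- Character values are sums of roots of unity of order dividing the exponent:
`Helper4Eigen.exists_eigenvalues ρ g` gives `χ g = ∑ i, μ i`, `μ i ^ orderOf g = 1`;
`Monoid.order_dvd_exponent g`; the range of `algebraMap F ℂ` is closed under sums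
(`(algebraMap F ℂ).fieldRange` / `Subring.sum_mem` / induction with `map_add`). -/
theorem valuedIn_of_isCharacter
    (hF : ∀ z : ℂ, z ^ Monoid.exponent G = 1 → z ∈ Set.range (algebraMap F ℂ))
    {χ : G → ℂ} (hχ : Cfsg.IsCharacter G χ) : ValuedIn F χ := by
  obtain ⟨n, ρ, rfl⟩ := hχ
  intro g
  obtain ⟨μ, h1, -, -, h4, -⟩ := Cfsg.Agent.Lib.Helper4Eigen.exists_eigenvalues ρ g
  rw [h4]
  have hmem : ∀ i, μ i ∈ (algebraMap F ℂ).fieldRange := by
    intro i
    rw [RingHom.mem_fieldRange]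
    apply hF
    obtain ⟨k, hk⟩ := Monoid.order_dvd_exponent g
    rw [hk, pow_mul, h1, one_pow]
  have h5 : ∑ i, μ i ∈ (algebraMap F ℂ).fieldRange := sum_mem (fun i _ => hmem i)
  rw [RingHom.mem_fieldRange] at h5
  exact h5

/-- values of linear characters of subgroups: `(l h) ^ exponent G = l (h ^ exponent G) = 1`
(`Monoid.pow_exponent_eq_one` in `G`, `Subtype.ext`). -/
theorem hom_mem_range
    (hF : ∀ z : ℂ, z ^ Monoid.exponent G = 1 → z ∈ Set.range (algebraMap F ℂ))
    (H : Subgroup G) (l : H →* ℂˣ) (h : H) :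
    ((l h : ℂˣ) : ℂ) ∈ Set.range (algebraMap F ℂ) := by
  apply hF
  have h1 : h ^ Monoid.exponent G = 1 := by
    apply Subtype.ext
    rw [Subgroup.coe_pow, Subgroup.coe_one]
    exact Monoid.pow_exponent_eq_one _
  rw [← Units.val_pow_eq_pow_val, ← map_pow, h1, map_one, Units.val_one]

end Cfsg.Agent.Lib.H4SfVal
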