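import Mathlib
import Cfsg.Agent.Lib.H4SfDefs
import Cfsg.Agent.Lib.H4SfBase
import Cfsg.Agent.Lib.H4SfProj
import Cfsg.Agent.Lib.H4SfInd
import Cfsg.Agent.Lib.H4SfVal
import Cfsg.Agent.Lib.H4SfMin
import Cfsg.Agent.Lib.Helper4Char4
import Cfsg.Agent.S0163

/-!
# Project 166, piece `Irr`
-/

set_option autoImplicit false

namespace Cfsg.Agent.Lib.H4SfIrr

open Cfsg Cfsg.Agent.Lib.H4SfDefs Cfsg.Agent.Lib.H4SfBase Cfsg.Agent.Lib.H4SfProj
  Cfsg.Agent.Lib.H4SfInd Cfsg.Agent.Lib.H4SfVal Cfsg.Agent.Lib.H4SfMin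
  Cfsg.Agent.Lib.Helper4Char Cfsg.Agent.Lib.Helper4Char4

variable {F : Type*} [Field F] [Algebra F ℂ] {G : Type*} [Group G] [Fintype G]

theorem classInner_list_sum {ι : Type*} (l : List ι) (f : ι → G → ℂ) (χ : G → ℂ) :
    Cfsg.classInner (l.map f).sum χ = (l.map fun t => Cfsg.classInner (f t) χ).sum := by
  induction l with
  | nil => simp [classInner_zero_left]
  | cons a l ih => simp [classInner_add_left, ih]

theorem isFChar_irr
    (hF : ∀ z : ℂ, z ^ Monoid.exponent G = 1 → z ∈ Set.range (algebraMap F ℂ))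
    {χ : G → ℂ} (hχ : Cfsg.IsIrrCharacter G χ) : IsFChar F G χ := by
  classical
  have hχc : Cfsg.IsCharacter G χ := IsIrrCharacter.isCharacter hχ
  have hv : ValuedIn F χ := valuedIn_of_isCharacter hF hχc
  obtain ⟨l, -, hl⟩ := Cfsg.Agent.S0163.result χ hχc
  -- the induced characters
  set ψ : ((E : Subgroup G) × ((E →* ℂˣ) × ℤ)) → G → ℂ :=
    fun t => Cfsg.indFun t.1 (fun e => ((t.2.1 e : ℂˣ) : ℂ)) with hψ
  have hψF : ∀ t, IsFChar F G (ψ t) := fun t =>
    isFChar_indFun t.1 t.2.1 (fun h => hom_mem_range hF t.1 t.2.1 h)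
  have hk : ∀ t, ∃ k : ℕ, Cfsg.classInner (ψ t) χ = k := fun t =>
    IsCharacter.classInner_nat (IsFChar.isCharacter (hψF t)) hχc
  choose k hk using hk
  have hkF : ∀ t, IsFChar F G (fun g => (k t : ℂ) * χ g) := by
    intro t
    have := isFChar_component hχ hv (hψF t)
    rwa [hk t] at this
  have h1 : (1 : ℂ) = (l.map fun t => (t.2.2 : ℂ) * (k t : ℂ)).sum := by
    have h2 : Cfsg.classInner (l.map fun t => (t.2.2 : ℂ) • ψ t).sum χ = 1 := by
      rw [hψ, ← hl]
      exact classInner_irr_self hχ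
    rw [← h2, classInner_list_sum]
    congr 1
    apply List.map_congr_left
    intro t _
    rw [classInner_smul_left, ← hk t]
  -- some `k t` is positive
  have hex : ∃ s : ℕ, 0 < s ∧ IsFChar F G (fun g => (s : ℂ) * χ g) := by
    by_contra hcon
    push Not at hcon
    have hz : ∀ t, k t = 0 := by
      intro t
      by_contra hne
      exact hcon (k t) (Nat.pos_of_ne_zero hne) (hkF t)
    have : (l.map fun t => (t.2.2 : ℂ) * (k t : ℂ)).sum = 0 := by
      apply List.sum_eq_zero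
      intro x hx
      obtain ⟨t, -, rfl⟩ := List.mem_map.mp hx
      simp [hz t]
    rw [this] at h1
    exact one_ne_zero h1
  set s := Nat.find hex with hs
  have hs1 : 0 < s ∧ IsFChar F G (fun g => (s : ℂ) * χ g) := Nat.find_spec hex
  have hmin : ∀ t : ℕ, 0 < t → IsFChar F G (fun g => (t : ℂ) * χ g) → s ≤ t :=
    fun t h0 h1 => Nat.find_min' hex ⟨h0, h1⟩
  have hdvd : ∀ t, s ∣ k t := fun t => dvd_of_min hχ s hs1.1 hs1.2 hmin (k t) (hkF t)
  have hZ : ∃ z : ℤ, (l.map fun t => (t.2.2 : ℂ) * (k t : ℂ)).sum = ((s : ℤ) * z : ℤ) := by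
    clear h1 hl
    induction l with
    | nil => exact ⟨0, by simp⟩
    | cons a l ih =>
      obtain ⟨z, hz⟩ := ih
      obtain ⟨c, hc⟩ := hdvd a
      refine ⟨a.2.2 * c + z, ?_⟩
      rw [List.map_cons, List.sum_cons, hz, hc]
      push_cast
      ring
  obtain ⟨z, hz⟩ := hZ
  rw [hz] at h1
  have h3 : (1 : ℤ) = (s : ℤ) * z := by exact_mod_cast h1
  have h4 : (s : ℤ) ∣ 1 := ⟨z, h3⟩
  have h5 : s = 1 := by
    have := Int.natCast_dvd_natCast.mp (by simpa using h4 : (s : ℤ) ∣ ((1 : ℕ) : ℤ))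
    exact Nat.dvd_one.mp this
  have := hs1.2
  rw [h5] at this
  simpa using this

end Cfsg.Agent.Lib.H4SfIrr
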