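import Mathlib
import Cfsg.Prelude.Def_Characters
import Cfsg.Prelude.Def_Blocks
import Cfsg.Prelude.Def_ParabolicCharacters

/-!
# Vocabulary for project 2436 (S2436: McKay equality for `SL₂(q)`, `q` odd, every prime `ℓ`)
-/

set_option autoImplicit false

namespace Cfsg.Agent.Lib.H4SmDefs

/-- the number of irreducible characters of degree prime to `ℓ`. -/
noncomputable def cnt (ℓ : ℕ) (H : Type*) [Group H] : ℕ :=
  Nat.card {χ : Cfsg.IrrCharacter H // ¬ ℓ ∣ Cfsg.charDegree (χ : H → ℂ)}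

/-- `SL₂(F)`. -/
abbrev GG (F : Type*) [Field F] := Matrix.SpecialLinearGroup (Fin 2) F

/-- the count predicted by the degrees `1, q, q+1, q-1, (q+1)/2, (q-1)/2` with multiplicities
`1, 1, (q-3)/2, (q-1)/2, 2, 2`. -/
def Fq (q ℓ : ℕ) : ℕ :=
  (if ℓ ∣ 1 then 0 else 1) + (if ℓ ∣ q then 0 else 1) + (if ℓ ∣ q + 1 then 0 else (q - 3) / 2) +
    (if ℓ ∣ q - 1 then 0 else (q - 1) / 2) + (if ℓ ∣ (q + 1) / 2 then 0 else 2) +
    (if ℓ ∣ (q - 1) / 2 then 0 else 2)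

/-- the upper unitriangular subgroup. -/
def UU (F : Type*) [Field F] : Subgroup (GG F) where
  carrier := {g | g.1 1 0 = 0 ∧ g.1 0 0 = 1 ∧ g.1 1 1 = 1}
  one_mem' := by simp
  mul_mem' := by
    rintro a b ⟨a1, a2, a3⟩ ⟨b1, b2, b3⟩
    refine ⟨?_, ?_, ?_⟩ <;>
      simp [Matrix.SpecialLinearGroup.coe_mul, Matrix.mul_apply, Fin.sum_univ_two, a1, a2, a3, b1, b2, b3]
  inv_mem' := by
    rintro a ⟨a1, a2, a3⟩
    refine ⟨?_, ?_, ?_⟩ <;>
      simp [Matrix.SpecialLinearGroup.coe_inv, Matrix.adjugate_fin_two, a1, a2, a3]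

/-- the upper triangular subgroup (as in S2437). -/
abbrev BB (F : Type*) [Field F] : Subgroup (GG F) :=
  (Cfsg.upperTriangularGL 2 F).comap Matrix.SpecialLinearGroup.toGL

end Cfsg.Agent.Lib.H4SmDefs
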