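import Mathlib
import Cfsg.Agent.Lib.H4SmDefs

/-!
# Project 2436 (row S2436, McKay equality for SL₂(q), q odd), piece `A2`
-/

set_option autoImplicit false
set_option linter.unusedSectionVars false

namespace Cfsg.Agent.Lib.H4SmA2

open Cfsg Subgroup Cfsg.Agent.Lib.H4SmDefs

/-- (45m, PURE MATHLIB) `classical`, `Fintype.ofFinite`.  Split `∑ i, d i ^ 2` according to `d i = 1`, `d i = 3`, `2 ∣ d i` (these exhaust `ι` by `hodd`): `24 = 3 + 9 * n₃ + 4 * k` where `n₃ = Nat.card {i // d i = 3}` and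
`∑ over even d i of d i ^ 2 = 4 * k` (`Finset.sum` of multiples of `4`: `Finset.dvd_sum`).  `omega` gives `n₃ = 1`.  `{i // ¬ 2 ∣ d i}` is the disjoint union of `{d i = 1}` and `{d i = 3}`: card `3 + 1`.
(`Finset.sum_filter_add_sum_filter_not`, `Finset.card_filter`, `Finset.sum_const`.) -/
theorem count_four {ι : Type*} [Fintype ι] (d : ι → ℕ) (hsum : ∑ i, d i ^ 2 = 24)
    (h1 : Nat.card {i // d i = 1} = 3) (hodd : ∀ i, ¬ 2 ∣ d i → d i = 1 ∨ d i = 3) :
    Nat.card {i // ¬ 2 ∣ d i} = 4 := by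
  classical
  have hn1 : (∑ i, if d i = 1 then 1 else 0) = 3 := by
    rw [← h1, Nat.card_eq_fintype_card, Fintype.card_subtype, Finset.card_filter]
  have hno : Nat.card {i // ¬ 2 ∣ d i} = ∑ i, if ¬ 2 ∣ d i then 1 else 0 := by
    rw [Nat.card_eq_fintype_card, Fintype.card_subtype, Finset.card_filter]
  have hsplit : ∑ i, d i ^ 2 = (∑ i, if d i = 1 then 1 else 0) + 9 * (∑ i, if d i = 3 then 1 else 0) +
      ∑ i, (if 2 ∣ d i then d i ^ 2 else 0) := by
    rw [Finset.mul_sum, ← Finset.sum_add_distrib, ← Finset.sum_add_distrib]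
    apply Finset.sum_congr rfl
    intro i _
    by_cases he : 2 ∣ d i
    · rw [if_neg (by omega), if_neg (by omega), if_pos he]; ring
    · rcases hodd i he with h | h
      · rw [h]; norm_num
      · rw [h]; norm_num
  have hcount : (∑ i, if ¬ 2 ∣ d i then 1 else 0) = (∑ i, if d i = 1 then 1 else 0) +
      ∑ i, if d i = 3 then 1 else 0 := by
    rw [← Finset.sum_add_distrib]
    apply Finset.sum_congr rfl
    intro i _
    by_cases he : 2 ∣ d i
    · rw [if_neg (not_not.2 he), if_neg (by omega), if_neg (by omega)]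
    · rcases hodd i he with h | h
      · rw [h]; norm_num
      · rw [h]; norm_num
  have h4 : 4 ∣ ∑ i, (if 2 ∣ d i then d i ^ 2 else 0) := by
    apply Finset.dvd_sum
    intro i _
    by_cases he : 2 ∣ d i
    · rw [if_pos he]
      obtain ⟨c, hc⟩ := he
      rw [hc]
      exact ⟨c ^ 2, by ring⟩
    · rw [if_neg he]; exact dvd_zero _
  rw [hno, hcount, hn1]
  rw [hsum, hn1] at hsplit
  obtain ⟨e, he⟩ := h4
  rw [he] at hsplit
  omega

end Cfsg.Agent.Lib.H4SmA2
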