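import Mathlib
import Cfsg.Agent.Lib.H4SmDefs

/-!
# Project 2436 (row S2436, McKay equality for SL₂(q), q odd), piece `Ar2`
-/

set_option autoImplicit false
set_option linter.unusedSectionVars false

namespace Cfsg.Agent.Lib.H4SmAr2

open Cfsg Subgroup Cfsg.Agent.Lib.H4SmDefs

/-- (15m, PURE arithmetic) `q = 2k+1`: `2 ∤ 1`, `2 ∤ q`, `2 ∣ q ± 1`, and exactly one of `(q+1)/2 = k+1`, `(q-1)/2 = k` is even. -/
theorem ar2 (q : ℕ) (hq : Odd q) (h5 : 5 ≤ q) : Fq q 2 = 4 := by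
  obtain ⟨k, rfl⟩ := hq
  unfold Fq
  have e1 : (2 * k + 1 + 1) / 2 = k + 1 := by omega
  have e2 : (2 * k + 1 - 1) / 2 = k := by omega
  rw [e1, e2]
  rw [if_neg (by omega), if_neg (by omega), if_pos (by omega), if_pos (by omega)]
  by_cases hk : 2 ∣ k
  · rw [if_neg (by omega), if_pos hk]
  · rw [if_pos (by omega), if_neg hk]

end Cfsg.Agent.Lib.H4SmAr2
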