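import Mathlib
import Cfsg.Agent.Lib.H4SmDefs
import Cfsg.Agent.S0134
import Cfsg.Agent.S0135
import Cfsg.Agent.S0154
import Cfsg.Agent.Lib.Helper81Base
import Cfsg.Agent.Lib.H4SmA2
import Cfsg.Agent.Lib.Helper81BB

/-!
# Project 2436 (row S2436, McKay equality for SL₂(q), q odd), piece `Ar24`
-/

set_option autoImplicit false
set_option linter.unusedSectionVars false

namespace Cfsg.Agent.Lib.H4SmAr24

open Cfsg Subgroup Cfsg.Agent.Lib.H4SmDefs

/-- (40m) `H4SmA2.count_four` with `ι = IrrCharacter N` (`Fintype.ofFinite`; finiteness of `IrrCharacter N`: search `Finite (IrrCharacter`), `d χ = charDegree χ`.  `hsum`: S0134 (read its statement; `Helper81Base.charDegree_eq`, cast to `ℂ`/`ℕ`).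
`h1`: S0154 + `h3`.  `hodd`: `charDegree χ ∣ 24` (`Helper81Base.irr_deg_dvd`, `hN`), odd divisors of `24` are `1, 3` (`Nat.le_of_dvd`, `interval_cases`, `omega`). -/
theorem cnt_24 {N : Type*} [Group N] [Finite N] (hN : Nat.card N = 24) (h3 : (commutator N).index = 3) :
    cnt 2 N = 4 := by
  classical
  haveI : Fintype (IrrCharacter N) := Cfsg.Agent.Lib.Helper81BB.irr_fintype
  unfold cnt
  apply Cfsg.Agent.Lib.H4SmA2.count_four (fun χ : IrrCharacter N => charDegree (χ : N → ℂ))
  · have h := Cfsg.Agent.S0134.result (G := N)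
    rw [finsum_eq_sum_of_fintype, hN] at h
    have h2 : ((∑ χ : IrrCharacter N, charDegree (χ : N → ℂ) ^ 2 : ℕ) : ℂ) = ((24 : ℕ) : ℂ) := by
      rw [← h]
      push_cast
      apply Finset.sum_congr rfl
      intro χ _
      rw [Cfsg.Agent.Lib.Helper81Base.charDegree_eq]
    exact_mod_cast h2
  · rw [← h3, ← Cfsg.Agent.S0154.result]
    apply Nat.card_congr
    apply Equiv.subtypeEquivRight
    intro χ
    rw [← Cfsg.Agent.Lib.Helper81Base.charDegree_eq]
    constructor
    · intro h; rw [h]; simp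
    · intro h; exact_mod_cast h
  · intro χ hodd
    have hd := Cfsg.Agent.Lib.Helper81BB.irr_deg_dvd χ
    rw [hN] at hd
    have hle := Nat.le_of_dvd (by norm_num) hd
    obtain ⟨c, hc⟩ : ∃ c, c = charDegree (χ : N → ℂ) := ⟨_, rfl⟩
    show charDegree (χ : N → ℂ) = 1 ∨ charDegree (χ : N → ℂ) = 3
    have hodd' : ¬ 2 ∣ charDegree (χ : N → ℂ) := hodd
    rw [← hc] at hd hle hodd' ⊢
    interval_cases c <;> omega

end Cfsg.Agent.Lib.H4SmAr24
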