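import Mathlib
import Cfsg.Agent.Lib.H4SmDefs

/-!
# Project 2436 (row S2436, McKay equality for SL₂(q), q odd), piece `ArL`
-/

set_option autoImplicit false
set_option linter.unusedSectionVars false

namespace Cfsg.Agent.Lib.H4SmArL

open Cfsg Subgroup Cfsg.Agent.Lib.H4SmDefs

/-- (25m, PURE arithmetic) `ℓ` odd prime dividing `q + 1`: `ℓ ∤ 1`, `ℓ ∤ q`, `ℓ ∤ q - 1`, `ℓ ∤ (q-1)/2`, `ℓ ∣ (q+1)/2`.
`Fq = 1 + 1 + 0 + (q-1)/2 + 0 + 2`. -/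
theorem arL (q ℓ : ℕ) (hℓ : ℓ.Prime) (h2 : ℓ ≠ 2) (hq : Odd q) (h5 : 5 ≤ q) (h : ℓ ∣ q + 1) :
    2 * Fq q ℓ = (q + 1) + 6 := by
  obtain ⟨k, rfl⟩ := hq
  have e1 : (2 * k + 1 + 1) / 2 = k + 1 := by omega
  have e2 : (2 * k + 1 - 1) / 2 = k := by omega
  have e3 : 2 * k + 1 - 1 = 2 * k := by omega
  have hcop : Nat.Coprime ℓ 2 := by
    rw [Nat.Prime.coprime_iff_not_dvd hℓ]
    intro h'
    exact h2 ((Nat.prime_dvd_prime_iff_eq hℓ Nat.prime_two).1 h')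
  have n1 : ¬ ℓ ∣ 1 := hℓ.not_dvd_one
  have hk1 : ℓ ∣ k + 1 := by
    have : ℓ ∣ 2 * (k + 1) := by
      have e : 2 * (k + 1) = 2 * k + 1 + 1 := by ring
      rw [e]; exact h
    exact hcop.dvd_of_dvd_mul_left this
  have nk : ¬ ℓ ∣ k := by
    intro h'
    exact n1 ((Nat.dvd_add_right h').1 hk1)
  have nq : ¬ ℓ ∣ 2 * k + 1 := by
    intro h'
    exact n1 ((Nat.dvd_add_right h').1 h)
  have n2k : ¬ ℓ ∣ 2 * k := by
    intro h'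
    exact nk (hcop.dvd_of_dvd_mul_left h')
  unfold Fq
  rw [e1, e2, e3, if_neg n1, if_neg nq, if_pos h, if_neg n2k, if_pos hk1, if_neg nk]
  omega

end Cfsg.Agent.Lib.H4SmArL
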