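import Mathlib
import Cfsg.Agent.Lib.H4SmDefs

/-!
# Project 2436 (row S2436, McKay equality for SL₂(q), q odd), piece `ArM`
-/

set_option autoImplicit false
set_option linter.unusedSectionVars false

namespace Cfsg.Agent.Lib.H4SmArM

open Cfsg Subgroup Cfsg.Agent.Lib.H4SmDefs

/-- (25m, PURE arithmetic) `ℓ` odd prime dividing `q - 1`: `ℓ ∤ 1`, `ℓ ∤ q`, `ℓ ∤ q + 1` (else `ℓ ∣ 2`), `ℓ ∤ (q+1)/2`, `ℓ ∣ (q-1)/2` (`q - 1 = 2 * ((q-1)/2)`,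
`ℓ` coprime to `2`).  `Fq = 1 + 1 + (q-3)/2 + 0 + 2 + 0`. -/
theorem arM (q ℓ : ℕ) (hℓ : ℓ.Prime) (h2 : ℓ ≠ 2) (hq : Odd q) (h5 : 5 ≤ q) (h : ℓ ∣ q - 1) :
    2 * Fq q ℓ = (q - 1) + 6 := by
  obtain ⟨k, rfl⟩ := hq
  have hl2 : 2 ≤ ℓ := hℓ.two_le
  have hk : ℓ ∣ k := by
    have h' : ℓ ∣ 2 * k := by simpa using h
    exact (Nat.Coprime.dvd_of_dvd_mul_left ((Nat.coprime_primes hℓ Nat.prime_two).2 h2) h')
  have n1 : ¬ ℓ ∣ 1 := fun hd => by have := Nat.le_of_dvd one_pos hd; omega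
  have n2 : ¬ ℓ ∣ 2 * k + 1 := fun hd =>
    n1 ((Nat.dvd_add_right (Dvd.dvd.mul_left hk 2)).1 hd)
  have n5' : ¬ ℓ ∣ k + 1 := fun hd => n1 ((Nat.dvd_add_right hk).1 hd)
  have n3 : ¬ ℓ ∣ 2 * k + 1 + 1 := by
    intro hd
    have h3 : 2 * k + 1 + 1 = 2 * (k + 1) := by ring
    rw [h3] at hd
    exact n5' (Nat.Coprime.dvd_of_dvd_mul_left ((Nat.coprime_primes hℓ Nat.prime_two).2 h2) hd)
  have e5 : (2 * k + 1 + 1) / 2 = k + 1 := by omega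
  have e6 : (2 * k + 1 - 1) / 2 = k := by omega
  have n5 : ¬ ℓ ∣ (2 * k + 1 + 1) / 2 := by rw [e5]; exact n5'
  have p6 : ℓ ∣ (2 * k + 1 - 1) / 2 := by rw [e6]; exact hk
  unfold Fq
  rw [if_neg n1, if_neg n2, if_neg n3, if_pos h, if_neg n5, if_pos p6]
  omega

end Cfsg.Agent.Lib.H4SmArM
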