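import Mathlib
import Cfsg.Agent.Lib.H4SmDefs

/-!
# Project 2436 (row S2436, McKay equality for SL₂(q), q odd), piece `ArP`
-/

set_option autoImplicit false
set_option linter.unusedSectionVars false

namespace Cfsg.Agent.Lib.H4SmArP

open Cfsg Subgroup Cfsg.Agent.Lib.H4SmDefs

/-- (20m, PURE arithmetic) `ℓ` is odd (`ℓ ∣ q`, `q` odd), `ℓ ∤ 1`, `ℓ ∤ q ± 1` (else `ℓ ∣ 1`), so `ℓ ∤ (q ± 1)/2` (`(q±1)/2 ∣ q±1`).
`Fq = 1 + 0 + (q-3)/2 + (q-1)/2 + 2 + 2`; write `q = 2k+1`, `omega`. -/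
theorem arP (q ℓ : ℕ) (hℓ : ℓ.Prime) (hq : Odd q) (h5 : 5 ≤ q) (h : ℓ ∣ q) : Fq q ℓ = q + 3 := by
  obtain ⟨k, rfl⟩ := hq
  have hℓ2 : 2 ≤ ℓ := hℓ.two_le
  have n1 : ¬ ℓ ∣ 1 := by
    intro h1
    have := Nat.le_of_dvd one_pos h1
    omega
  have np : ¬ ℓ ∣ 2 * k + 1 + 1 := by
    intro h1
    exact n1 ((Nat.dvd_add_right h).1 h1)
  have nm : ¬ ℓ ∣ 2 * k + 1 - 1 := by
    intro h1
    apply n1
    have h2 : ℓ ∣ (2 * k + 1 - 1) + 1 := by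
      have : 2 * k + 1 - 1 + 1 = 2 * k + 1 := by omega
      rw [this]; exact h
    exact (Nat.dvd_add_right h1).1 h2
  have np2 : ¬ ℓ ∣ (2 * k + 1 + 1) / 2 := by
    intro h1
    apply np
    have : 2 * k + 1 + 1 = (2 * k + 1 + 1) / 2 * 2 := by omega
    rw [this]
    exact Dvd.dvd.mul_right h1 2
  have nm2 : ¬ ℓ ∣ (2 * k + 1 - 1) / 2 := by
    intro h1
    apply nm
    have : 2 * k + 1 - 1 = (2 * k + 1 - 1) / 2 * 2 := by omega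
    rw [this]
    exact Dvd.dvd.mul_right h1 2
  unfold Fq
  rw [if_neg n1, if_pos h, if_neg np, if_neg nm, if_neg np2, if_neg nm2]
  omega

end Cfsg.Agent.Lib.H4SmArP
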