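import Mathlib
import Cfsg.Agent.Lib.H4SmDefs

/-!
# Project 2436 (row S2436, McKay equality for SL₂(q), q odd), piece `Bot`
-/

set_option autoImplicit false
set_option linter.unusedSectionVars false

namespace Cfsg.Agent.Lib.H4SmBot

open Cfsg Subgroup Cfsg.Agent.Lib.H4SmDefs

theorem normalizer_eq_top {G : Type*} [Group G] [Finite G] (ℓ : ℕ) [Fact ℓ.Prime] (h : ¬ ℓ ∣ Nat.card G)
    (S : Sylow ℓ G) : normalizer ((S : Subgroup G) : Set G) = ⊤ := by
  have h1 : Nat.card (S : Subgroup G) = 1 := by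
    rw [S.card_eq_multiplicity, Nat.factorization_eq_zero_of_not_dvd h, pow_zero]
  have h2 : (S : Subgroup G) = ⊥ := Subgroup.card_eq_one.mp h1
  rw [h2]
  exact Subgroup.normalizer_eq_top_iff.mpr Subgroup.normal_bot

end Cfsg.Agent.Lib.H4SmBot
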