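import Mathlib
import Cfsg.Agent.Lib.H4SmDefs
import Cfsg.Agent.Lib.Helper7SL

/-!
# Project 2436 (row S2436, McKay equality for SL₂(q), q odd), piece `Card8`
-/

set_option autoImplicit false
set_option linter.unusedSectionVars false

namespace Cfsg.Agent.Lib.H4SmCard8

open Cfsg Subgroup Cfsg.Agent.Lib.H4SmDefs

theorem arith8 (q : ℕ) (h : q % 8 = 3 ∨ q % 8 = 5) : ∃ r, Odd r ∧ q * (q ^ 2 - 1) = 8 * r := by
  rcases h with h | h
  · obtain ⟨k, rfl⟩ : ∃ k, q = 8 * k + 3 := ⟨q / 8, by omega⟩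
    refine ⟨(8 * k + 3) * ((4 * k + 1) * (2 * k + 1)), ?_, ?_⟩
    · refine Odd.mul ⟨4 * k + 1, by ring⟩ (Odd.mul ⟨2 * k, by ring⟩ ⟨k, by ring⟩)
    · have : (8 * k + 3) ^ 2 - 1 = 8 * ((4 * k + 1) * (2 * k + 1)) := by
        have : (8 * k + 3) ^ 2 = 8 * ((4 * k + 1) * (2 * k + 1)) + 1 := by ring
        omega
      rw [this]; ring
  · obtain ⟨k, rfl⟩ : ∃ k, q = 8 * k + 5 := ⟨q / 8, by omega⟩
    refine ⟨(8 * k + 5) * ((2 * k + 1) * (4 * k + 3)), ?_, ?_⟩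
    · refine Odd.mul ⟨4 * k + 2, by ring⟩ (Odd.mul ⟨k, by ring⟩ ⟨2 * k + 1, by ring⟩)
    · have : (8 * k + 5) ^ 2 - 1 = 8 * ((2 * k + 1) * (4 * k + 3)) := by
        have : (8 * k + 5) ^ 2 = 8 * ((2 * k + 1) * (4 * k + 3)) + 1 := by ring
        omega
      rw [this]; ring

/-- (35m) `Nat.card (GG F) = q * (q ^ 2 - 1)` (`Helper7SL.card_SL_two`).  `q = 8 k + 3` or `8 k + 5`: `q * (q^2 - 1) = 8 * r` with `r` odd (`q^2 - 1 = (q-1)(q+1)`; give `r` explicitly, `ring`/`nlinarith`, parity by `Nat.odd_mul`..).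
`Sylow.card_eq_multiplicity`; `(8 * r).factorization 2 = 3` (`Nat.factorization_mul`, `Nat.factorization_eq_zero_of_not_dvd`, `8 = 2 ^ 3`, `Nat.Prime.factorization_pow`). -/
theorem card_eight {F : Type*} [Field F] [Fintype F]
    (h : Fintype.card F % 8 = 3 ∨ Fintype.card F % 8 = 5) (S : Sylow 2 (GG F)) : Nat.card S = 8 := by
  obtain ⟨r, hr, hq⟩ := arith8 _ h
  have hc : Nat.card (GG F) = 8 * r := by
    rw [← hq]; exact Cfsg.Agent.Lib.Helper7SL.card_SL_two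
  haveI : Fact (Nat.Prime 2) := ⟨Nat.prime_two⟩
  haveI : Finite (GG F) := Nat.finite_of_card_ne_zero (by
    rw [hc]; rcases hr with ⟨j, rfl⟩; omega)
  rw [Sylow.card_eq_multiplicity, hc]
  have hr0 : r ≠ 0 := by rcases hr with ⟨j, rfl⟩; omega
  have h2r : ¬ 2 ∣ r := by rcases hr with ⟨j, rfl⟩; omega
  rw [Nat.factorization_mul (by norm_num) hr0]
  have e8 : (8 : ℕ) = 2 ^ 3 := by norm_num
  rw [Finsupp.add_apply, Nat.factorization_eq_zero_of_not_dvd h2r, e8,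
    Nat.Prime.factorization_pow Nat.prime_two]
  simp

end Cfsg.Agent.Lib.H4SmCard8
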