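import Mathlib
import Cfsg.Agent.Lib.H4SmDefs

/-!
# Project 2436 (row S2436, McKay equality for SL₂(q), q odd), piece `CardU`
-/

set_option autoImplicit false
set_option linter.unusedSectionVars false

namespace Cfsg.Agent.Lib.H4SmCardU

open Cfsg Subgroup Cfsg.Agent.Lib.H4SmDefs

/-- (20m) `t ↦ (1 t; 0 1)` is a bijection `F ≃ UU F` (`Nat.card_congr`, `Nat.card_eq_fintype_card`; `Matrix.SpecialLinearGroup.transvection` or `⟨!![1, t; 0, 1], by simp⟩`;
an element of `UU F` is determined by its entry `0 1`: `Matrix.ext`/`Fin` cases). -/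
theorem card_UU {F : Type*} [Field F] [Fintype F] : Nat.card (UU F) = Fintype.card F := by
  rw [← Nat.card_eq_fintype_card]
  refine Nat.card_congr (Equiv.ofBijective (fun g : UU F => g.1.1 0 1) ⟨?_, ?_⟩)
  · rintro ⟨a, a1, a2, a3⟩ ⟨b, b1, b2, b3⟩ h
    simp only at h
    apply Subtype.ext
    apply Subtype.ext
    ext i j
    fin_cases i <;> fin_cases j
    · exact a2.trans b2.symm
    · exact h
    · exact a1.trans b1.symm
    · exact a3.trans b3.symm
  · intro t
    refine ⟨⟨⟨!![1, t; 0, 1], by simp [Matrix.det_fin_two]⟩, ?_⟩, ?_⟩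
    · refine ⟨?_, ?_, ?_⟩ <;> simp
    · simp

/-- (10m) entries. -/
theorem UU_comm {F : Type*} [Field F] : ∀ a ∈ UU F, ∀ b ∈ UU F, a * b = b * a := by
  rintro a ⟨a1, a2, a3⟩ b ⟨b1, b2, b3⟩
  apply Subtype.ext
  ext i j
  fin_cases i <;> fin_cases j <;>
    simp [Matrix.SpecialLinearGroup.coe_mul, Matrix.mul_apply, Fin.sum_univ_two, a1, a2, a3, b1, b2, b3, add_comm]

end Cfsg.Agent.Lib.H4SmCardU
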