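import Mathlib
import Cfsg.Agent.Lib.H4SmDefs
import Cfsg.Agent.Lib.Helper46SL2

/-!
# Project 2436 (row S2436, McKay equality for SL₂(q), q odd), piece `CenLe`
-/

set_option autoImplicit false
set_option linter.unusedSectionVars false

namespace Cfsg.Agent.Lib.H4SmCenLe

open Cfsg Subgroup Cfsg.Agent.Lib.H4SmDefs
open scoped Pointwise

/-- (30m) The centre `{1, -1}` (`Helper46SL2.mem_center_iff_eq`) is a normal `2`-subgroup, so it lies in every Sylow `2`-subgroup: `IsPGroup.exists_le_sylow` gives `Q ≥ center`,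
`S = g • Q` (`MulAction.exists_smul_eq`) and `g z g⁻¹ = z` for central `z`.  (`IsPGroup 2 (center)`: every element satisfies `z ^ 2 = 1`: `IsPGroup.of_...`/definition with `k = 1`.) -/
theorem center_le {F : Type*} [Field F] [Fintype F] (S : Sylow 2 (GG F)) :
    Subgroup.center (GG F) ≤ (S : Subgroup (GG F)) := by
  have hp : IsPGroup 2 (Subgroup.center (GG F)) := by
    intro z
    refine ⟨1, ?_⟩
    apply Subtype.ext
    rcases Cfsg.Agent.Lib.Helper46SL2.mem_center_iff_eq.mp z.2 with h | h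
    · simp [h]
    · simp [h]
  obtain ⟨Q, hQ⟩ := hp.exists_le_sylow
  obtain ⟨g, hg⟩ := MulAction.exists_smul_eq (GG F) Q S
  intro z hz
  rw [← hg, Sylow.coe_subgroup_smul, Subgroup.mem_pointwise_smul_iff_inv_smul_mem, MulAut.smul_def,
    MulAut.conj_inv_apply]
  have h1 : g⁻¹ * z * g = z := by
    rw [Subgroup.mem_center_iff] at hz
    rw [mul_assoc, ← hz g, inv_mul_cancel_left]
  rw [h1]
  exact hQ hz

end Cfsg.Agent.Lib.H4SmCenLe
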