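import Mathlib
import Cfsg.Agent.Lib.H4SmDefs
import Cfsg.Agent.S0169
import Cfsg.Agent.S0133
import Cfsg.Agent.Lib.H4McIto

/-!
# Project 2436 (row S2436, McKay equality for SL₂(q), q odd), piece `Ito`
-/

set_option autoImplicit false
set_option linter.unusedSectionVars false

namespace Cfsg.Agent.Lib.H4SmIto

open Cfsg Subgroup Cfsg.Agent.Lib.H4SmDefs

/-- (20m) COPY of the landed `H4McIto.card_irr_normalizer` (read it): by S0169 every irreducible degree divides `A.index`, so it is prime to `ℓ`;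
`Equiv.subtypeUnivEquiv`; S0133. -/
theorem cnt_eq_k {N : Type*} [Group N] [Finite N] (ℓ : ℕ) (A : Subgroup N) [A.Normal]
    (hA : ∀ a ∈ A, ∀ b ∈ A, a * b = b * a) (hℓ : ¬ ℓ ∣ A.index) :
    cnt ℓ N = Nat.card (ConjClasses N) := by
  unfold cnt
  have hall : ∀ χ : IrrCharacter N, ¬ ℓ ∣ charDegree (χ : N → ℂ) := by
    intro χ hdvd
    obtain ⟨n, ρ, hirr, hχ⟩ := χ.2
    have h1 : Module.finrank ℂ (Fin n → ℂ) ∣ A.index :=
      Cfsg.Agent.S0169.result ρ _ hA
    have h2 : charDegree (χ : N → ℂ) = n := by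
      unfold charDegree
      rw [← hχ, Representation.char_one]
      simp
    rw [h2] at hdvd
    rw [Module.finrank_fin_fun] at h1
    exact hℓ (hdvd.trans h1)
  rw [Nat.card_congr (Equiv.subtypeUnivEquiv hall)]
  exact Cfsg.Agent.S0133.result

end Cfsg.Agent.Lib.H4SmIto
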