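import Mathlib
import Cfsg.Agent.Lib.H4SmDefs
import Cfsg.Agent.Lib.Helper46Borel

/-!
# Project 2436 (row S2436, McKay equality for SL₂(q), q odd), piece `NU`
-/

set_option autoImplicit false
set_option linter.unusedSectionVars false

namespace Cfsg.Agent.Lib.H4SmNU

open Cfsg Subgroup Cfsg.Agent.Lib.H4SmDefs Cfsg.Agent.Lib.Helper46SL2

theorem normalizer_UU {F : Type*} [Field F] :
    normalizer ((UU F : Subgroup (GG F)) : Set (GG F)) = BB F := by
  have memU : ∀ g : GG F, g ∈ UU F ↔ g 1 0 = 0 ∧ g 0 0 = 1 ∧ g 1 1 = 1 := fun g => Iff.rfl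
  have key : ∀ g : GG F, g 1 0 = 0 → ∀ u ∈ UU F, g * u * g⁻¹ ∈ UU F := by
    intro g hg u hu
    obtain ⟨u1, u2, u3⟩ := (memU u).1 hu
    have hd := det2 g
    rw [hg] at hd
    rw [memU]
    simp only [mul_00, mul_01, mul_10, mul_11, inv_00, inv_01, inv_10, inv_11, hg, u1, u2, u3]
    refine ⟨by ring, ?_, ?_⟩
    · linear_combination hd
    · linear_combination hd
  ext g
  show _ ↔ g ∈ Cfsg.Agent.Lib.Helper46Borel.B F
  rw [Cfsg.Agent.Lib.Helper46Borel.mem_B]
  constructor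
  · intro hg
    have hu : mk2 (1 : F) 1 0 1 (by ring) ∈ UU F := ⟨rfl, rfl, rfl⟩
    have h1 := (mem_normalizer_iff.1 hg _).1 hu
    have h10 := ((memU _).1 h1).1
    simp only [mul_00, mul_01, mul_10, mul_11, inv_00, inv_01, inv_10, inv_11, mk2_00, mk2_01,
      mk2_10, mk2_11] at h10
    have h2 : g 1 0 ^ 2 = 0 := by linear_combination -h10
    exact (pow_eq_zero_iff two_ne_zero).1 h2
  · intro hg
    rw [mem_normalizer_iff]
    intro u
    constructor
    · exact key g hg u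
    · intro h
      have hg' : (g⁻¹) 1 0 = 0 := by rw [inv_10, hg, neg_zero]
      have h1 := key g⁻¹ hg' _ h
      have e : g⁻¹ * (g * u * g⁻¹) * g⁻¹⁻¹ = u := by group
      rwa [e] at h1

end Cfsg.Agent.Lib.H4SmNU
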