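import Mathlib
import Cfsg.Agent.Lib.H4SmDefs
import Cfsg.Agent.Lib.Helper7SL
import Cfsg.Agent.Lib.H4SmCardU

/-!
# Project 2436 (row S2436, McKay equality for SL₂(q), q odd), piece `USyl`
-/

set_option autoImplicit false
set_option linter.unusedSectionVars false

namespace Cfsg.Agent.Lib.H4SmUSyl

open Cfsg Subgroup Cfsg.Agent.Lib.H4SmDefs

theorem exists_sylow {F : Type*} [Field F] [Fintype F] (ℓ : ℕ) [Fact ℓ.Prime] (h : ℓ ∣ Fintype.card F) :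
    ∃ P0 : Sylow ℓ (GG F), (P0 : Subgroup (GG F)) = UU F := by
  obtain ⟨p, hchar⟩ := CharP.exists F
  obtain ⟨n, hp, hn⟩ := FiniteField.card F p
  have hℓ : ℓ.Prime := Fact.out
  have hℓp : ℓ = p := by
    rw [hn] at h
    exact (Nat.prime_dvd_prime_iff_eq hℓ hp).1 (hℓ.dvd_of_dvd_pow h)
  subst hℓp
  have hcard : Nat.card (UU F) = ℓ ^ (Nat.card (GG F)).factorization ℓ := by
    rw [Cfsg.Agent.Lib.H4SmCardU.card_UU, Cfsg.Agent.Lib.Helper7SL.card_SL_two, hn]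
    have hq1 : 1 < ℓ ^ (n : ℕ) := Nat.one_lt_pow n.ne_zero hℓ.one_lt
    have hq2 : 1 < (ℓ ^ (n : ℕ)) ^ 2 := Nat.one_lt_pow two_ne_zero hq1
    have hnd : ¬ ℓ ∣ (ℓ ^ (n : ℕ)) ^ 2 - 1 := by
      intro hd
      have h1 : ℓ ∣ (ℓ ^ (n : ℕ)) ^ 2 := dvd_pow (dvd_pow_self _ n.ne_zero) two_ne_zero
      have h2 : ℓ ∣ (ℓ ^ (n : ℕ)) ^ 2 - ((ℓ ^ (n : ℕ)) ^ 2 - 1) := Nat.dvd_sub h1 hd
      have h3 : (ℓ ^ (n : ℕ)) ^ 2 - ((ℓ ^ (n : ℕ)) ^ 2 - 1) = 1 := by omega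
      rw [h3] at h2
      exact hℓ.one_lt.ne' (Nat.dvd_one.1 h2)
    rw [Nat.factorization_mul (by omega) (by omega), Finsupp.add_apply, hℓ.factorization_pow,
      Finsupp.single_eq_same, Nat.factorization_eq_zero_of_not_dvd hnd, add_zero]
  exact ⟨Sylow.ofCard (UU F) hcard, rfl⟩

end Cfsg.Agent.Lib.H4SmUSyl
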