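import Mathlib
import Cfsg.Agent.Lib.H4SmDefs
import Cfsg.Agent.S2437
import Cfsg.Agent.Lib.H4SmIto
import Cfsg.Agent.Lib.H4SmUSyl
import Cfsg.Agent.Lib.H4SmNU
import Cfsg.Agent.Lib.H4SmCardU

/-!
# Project 2436 (row S2436, McKay equality for SL₂(q), q odd), piece `CntB`
-/

set_option autoImplicit false
set_option linter.unusedSectionVars false

namespace Cfsg.Agent.Lib.H4SmCntB

open Cfsg Subgroup Cfsg.Agent.Lib.H4SmDefs

theorem cnt_BB {F : Type*} [Field F] [Fintype F] (hodd : Odd (Fintype.card F)) (ℓ : ℕ) [Fact ℓ.Prime]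
    (h : ℓ ∣ Fintype.card F) : cnt ℓ (BB F) = Fintype.card F + 3 := by
  have hNU : normalizer ((UU F : Subgroup (GG F)) : Set (GG F)) = BB F :=
    Cfsg.Agent.Lib.H4SmNU.normalizer_UU
  have hle : UU F ≤ BB F := by
    rw [← hNU]; exact Subgroup.le_normalizer
  have hnorm : ((UU F).subgroupOf (BB F)).Normal := by
    constructor
    intro n hn g
    rw [Subgroup.mem_subgroupOf] at hn ⊢
    have hg : (g : GG F) ∈ normalizer ((UU F : Subgroup (GG F)) : Set (GG F)) := by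
      rw [hNU]; exact g.2
    have := (Subgroup.mem_normalizer_iff.1 hg (n : GG F)).1 hn
    simpa using this
  have hcomm : ∀ a ∈ (UU F).subgroupOf (BB F), ∀ b ∈ (UU F).subgroupOf (BB F), a * b = b * a := by
    intro a ha b hb
    rw [Subgroup.mem_subgroupOf] at ha hb
    apply Subtype.ext
    simpa using Cfsg.Agent.Lib.H4SmCardU.UU_comm (a : GG F) ha (b : GG F) hb
  have hidx : ¬ ℓ ∣ ((UU F).subgroupOf (BB F)).index := by
    obtain ⟨P0, hP0⟩ := Cfsg.Agent.Lib.H4SmUSyl.exists_sylow (F := F) ℓ h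
    have h1 : ¬ ℓ ∣ (UU F).index := by
      rw [← hP0]; exact P0.not_dvd_index
    intro hd
    apply h1
    rw [← Subgroup.relIndex_mul_index hle]
    exact Dvd.dvd.mul_right hd _
  rw [Cfsg.Agent.Lib.H4SmIto.cnt_eq_k ℓ ((UU F).subgroupOf (BB F)) hcomm hidx]
  exact Cfsg.Agent.S2437.result hodd

end Cfsg.Agent.Lib.H4SmCntB
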