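import Mathlib
import Cfsg.Agent.Lib.H4SmDefs
import Cfsg.Agent.S2430
import Cfsg.Agent.Lib.H4SmIto

/-!
# Project 2436 (row S2436, McKay equality for SL₂(q), q odd), piece `CntOdd`
-/

set_option autoImplicit false
set_option linter.unusedSectionVars false

namespace Cfsg.Agent.Lib.H4SmCntOdd

open Cfsg Subgroup Cfsg.Agent.Lib.H4SmDefs

/-- (30m) `H4SmIto.cnt_eq_k ℓ (T.subgroupOf N)` with `T = C_G(S)`, `N = N_G(S)`: normal (`Helper46Tori2.conj_mem_centralizer_of_mem_normalizer`), commutative (`IsCyclic T` from `S2430.main`),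
index `2` (cards from `S2430.main`; `Subgroup.card_mul_index`, `Nat.card (T.subgroupOf N) = Nat.card T` since `T ≤ N`), and `ℓ ∤ 2`. -/
theorem cnt_odd {F : Type*} [Field F] [Fintype F] (hodd : Odd (Fintype.card F)) (ℓ : ℕ) [Fact ℓ.Prime]
    (hℓ : ℓ ≠ 2) (S : Sylow ℓ (GG F)) (m : ℕ) (hm : m = Fintype.card F - 1 ∨ m = Fintype.card F + 1) (hℓm : ℓ ∣ m) :
    cnt ℓ (normalizer ((S : Subgroup (GG F)) : Set (GG F))) = Nat.card (ConjClasses (normalizer ((S : Subgroup (GG F)) : Set (GG F)))) := by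
  obtain ⟨hc, hcyc, hn⟩ := Cfsg.Agent.S2430.main ℓ hℓ S m hm hℓm
  set N := normalizer ((S : Subgroup (GG F)) : Set (GG F)) with hN
  set T := centralizer ((S : Subgroup (GG F)) : Set (GG F)) with hT
  have hTN : T ≤ N := by
    intro t ht
    rw [hN, Subgroup.mem_normalizer_iff]
    intro s
    rw [hT, Subgroup.mem_centralizer_iff] at ht
    constructor
    · intro hs
      have := ht s hs
      rw [← this, mul_inv_cancel_right]
      exact hs
    · intro hs
      have := ht _ hs
      have h2 : s = t * s * t⁻¹ := by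
        have h3 : t * s * t⁻¹ * t = t * (t * s * t⁻¹) := this
        rw [inv_mul_cancel_right] at h3
        exact mul_left_cancel h3
      rw [h2]
      exact hs
  have hnor : (T.subgroupOf N).Normal := by
    constructor
    intro x hx n
    rw [Subgroup.mem_subgroupOf] at hx ⊢
    exact Cfsg.Agent.Lib.Helper46Tori2.conj_mem_centralizer_of_mem_normalizer n.2 hx
  have hm0 : 0 < m := by
    rw [← hc]
    exact Nat.card_pos
  have hidx : (T.subgroupOf N).index = 2 := by
    have h1 := Subgroup.card_mul_index (T.subgroupOf N)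
    rw [Nat.card_congr (Subgroup.subgroupOfEquivOfLe hTN).toEquiv, hc, hn, mul_comm 2 m] at h1
    exact Nat.eq_of_mul_eq_mul_left hm0 h1
  apply H4SmIto.cnt_eq_k ℓ (T.subgroupOf N)
  · intro a ha b hb
    rw [Subgroup.mem_subgroupOf] at ha hb
    have := hcyc
    have hcm := (IsCyclic.commGroup (α := T)).mul_comm ⟨a, ha⟩ ⟨b, hb⟩
    apply Subtype.ext
    exact congrArg (fun z : T => (z : GG F)) hcm
  · rw [hidx]
    intro hd
    exact hℓ ((Nat.prime_dvd_prime_iff_eq Fact.out Nat.prime_two).1 hd)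

end Cfsg.Agent.Lib.H4SmCntOdd
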