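import Mathlib
import Cfsg.Agent.Lib.H4SmDefs
import Cfsg.Agent.Lib.Helper83Char

/-!
# Project 2436 (row S2436, McKay equality for SL₂(q), q odd), piece `Congr`
-/

set_option autoImplicit false
set_option linter.unusedSectionVars false

namespace Cfsg.Agent.Lib.H4SmCongr

open Cfsg Subgroup Cfsg.Agent.Lib.H4SmDefs

/-- (30m) Transport along an isomorphism.  `χ ↦ χ ∘ e.symm` is a bijection `IrrCharacter H ≃ IrrCharacter K` preserving `χ 1`, hence
`charDegree` (`charDegree χ = ⌊(χ 1).re⌋₊`, `map_one`).  SEARCH the library first: transport of `IsIrrCharacter` along a `MulEquiv` is landed in several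
files (grep "IsIrrCharacter" with "MulEquiv"/"comp"/"≃*", e.g. Helper85Transfer, Helper4Char*, H4McTrSc/H4McTrSum, Helper81*).  Then
`Nat.card_congr (Equiv.subtypeEquiv ..)`. -/
theorem cnt_congr {H K : Type*} [Group H] [Group K] [Finite H] [Finite K] (ℓ : ℕ) (e : H ≃* K) :
    cnt ℓ H = cnt ℓ K := by
  unfold cnt
  let E : IrrCharacter H ≃ IrrCharacter K :=
    { toFun := fun χ => ⟨(χ : H → ℂ) ∘ e.symm, Cfsg.Agent.Lib.Helper83Char.irr_comp_mulEquiv e.symm χ.2⟩
      invFun := fun χ => ⟨(χ : K → ℂ) ∘ e, Cfsg.Agent.Lib.Helper83Char.irr_comp_mulEquiv e χ.2⟩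
      left_inv := by
        intro χ
        apply Subtype.ext
        funext x
        simp
      right_inv := by
        intro χ
        apply Subtype.ext
        funext x
        simp }
  refine Nat.card_congr (Equiv.subtypeEquiv E ?_)
  intro χ
  have h1 : charDegree ((E χ : IrrCharacter K) : K → ℂ) = charDegree (χ : H → ℂ) := by
    unfold charDegree
    show ⌊(((χ : H → ℂ) ∘ e.symm) 1).re⌋₊ = _
    rw [Function.comp_apply, map_one]
  rw [h1]

end Cfsg.Agent.Lib.H4SmCongr
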