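import Mathlib
import Cfsg.Agent.Lib.H4SmDefs

/-!
# Project 2436 (row S2436, McKay equality for SL₂(q), q odd), piece `ConjN`
-/

set_option autoImplicit false
set_option linter.unusedSectionVars false

namespace Cfsg.Agent.Lib.H4SmConjN

open Cfsg Subgroup Cfsg.Agent.Lib.H4SmDefs

theorem normalizer_equiv {G : Type*} [Group G] [Finite G] {p : ℕ} [Fact p.Prime] (P Q : Sylow p G) :
    Nonempty (normalizer ((P : Subgroup G) : Set G) ≃* normalizer ((Q : Subgroup G) : Set G)) := by
  obtain ⟨g, rfl⟩ := MulAction.exists_smul_eq G P Q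
  have hmem : ∀ y : G, y ∈ ((g • P : Sylow p G) : Subgroup G) ↔ g⁻¹ * y * g ∈ (P : Subgroup G) := by
    intro y
    rw [Sylow.coe_subgroup_smul, Subgroup.mem_pointwise_smul_iff_inv_smul_mem]
    simp [MulAut.smul_def, mul_assoc]
  have key : (normalizer ((P : Subgroup G) : Set G)).map (MulAut.conj g).toMonoidHom
      = normalizer (((g • P : Sylow p G) : Subgroup G) : Set G) := by
    ext x
    rw [Subgroup.mem_map, Subgroup.mem_normalizer_iff]
    constructor
    · rintro ⟨n, hn, rfl⟩
      intro y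
      rw [Subgroup.mem_normalizer_iff] at hn
      rw [hmem, hmem, hn (g⁻¹ * y * g)]
      simp only [MulEquiv.coe_toMonoidHom, MulAut.conj_apply]
      have e : g⁻¹ * (g * n * g⁻¹ * y * (g * n * g⁻¹)⁻¹) * g = n * (g⁻¹ * y * g) * n⁻¹ := by group
      rw [e]
    · intro hx
      refine ⟨g⁻¹ * x * g, ?_, ?_⟩
      · rw [Subgroup.mem_normalizer_iff]
        intro y
        have := hx (g * y * g⁻¹)
        rw [hmem, hmem] at this
        have e1 : g⁻¹ * (g * y * g⁻¹) * g = y := by group
        have e2 : g⁻¹ * (x * (g * y * g⁻¹) * x⁻¹) * g = g⁻¹ * x * g * y * (g⁻¹ * x * g)⁻¹ := by group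
        rw [e1, e2] at this
        exact this
      · simp only [MulEquiv.coe_toMonoidHom, MulAut.conj_apply]
        group
  exact ⟨(Subgroup.equivMapOfInjective _ (MulAut.conj g).toMonoidHom (MulAut.conj g).injective).trans
    (MulEquiv.subgroupCongr key)⟩

end Cfsg.Agent.Lib.H4SmConjN
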