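import Mathlib
import Cfsg.Agent.Lib.H4SmDefs
import Cfsg.Agent.Lib.H4SmCntB
import Cfsg.Agent.Lib.H4SmConjN
import Cfsg.Agent.Lib.H4SmCongr
import Cfsg.Agent.Lib.H4SmUSyl
import Cfsg.Agent.Lib.H4SmNU

/-!
# Project 2436 (row S2436, McKay equality for SL₂(q), q odd), piece `CntP`
-/

set_option autoImplicit false
set_option linter.unusedSectionVars false

namespace Cfsg.Agent.Lib.H4SmCntP

open Cfsg Subgroup Cfsg.Agent.Lib.H4SmDefs

/-- (20m) `P0` from `H4SmUSyl.exists_sylow`; `e₁ : N_G(S) ≃* N_G(P0)` (`H4SmConjN.normalizer_equiv`); `N_G(P0) = BB F` (`hP0`, `H4SmNU.normalizer_UU`; `MulEquiv.subgroupCongr`);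
`H4SmCongr.cnt_congr`; `H4SmCntB.cnt_BB`. -/
theorem cnt_p {F : Type*} [Field F] [Fintype F] (hodd : Odd (Fintype.card F)) (ℓ : ℕ) [Fact ℓ.Prime]
    (h : ℓ ∣ Fintype.card F) (S : Sylow ℓ (GG F)) :
    cnt ℓ (normalizer ((S : Subgroup (GG F)) : Set (GG F))) = Fintype.card F + 3 := by
  obtain ⟨P0, hP0⟩ := H4SmUSyl.exists_sylow (F := F) ℓ h
  obtain ⟨e₁⟩ := H4SmConjN.normalizer_equiv S P0
  have h2 : normalizer ((P0 : Subgroup (GG F)) : Set (GG F)) = BB F := by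
    rw [hP0, H4SmNU.normalizer_UU]
  rw [H4SmCongr.cnt_congr ℓ (e₁.trans (MulEquiv.subgroupCongr h2))]
  exact H4SmCntB.cnt_BB hodd ℓ h

end Cfsg.Agent.Lib.H4SmCntP
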