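import Mathlib
import Cfsg.Agent.Lib.H4SmDefs
import Cfsg.Agent.S0135
import Cfsg.Agent.S0154
import Cfsg.Agent.Lib.Helper81Base
import Cfsg.Agent.Lib.Helper81BB

/-!
# Project 2436 (row S2436, McKay equality for SL₂(q), q odd), piece `CntS`
-/

set_option autoImplicit false
set_option linter.unusedSectionVars false

namespace Cfsg.Agent.Lib.H4SmCntS

open Cfsg Subgroup Cfsg.Agent.Lib.H4SmDefs

/-- (35m) In a `2`-group an irreducible character of odd degree is linear: the degree divides `Nat.card S = 2 ^ n` (S0135, or `Helper81Base.irr_deg_dvd χ : charDegree χ ∣ Nat.card G`), `(Nat.dvd_prime_pow Nat.prime_two).1`.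
So `{χ // ¬ 2 ∣ charDegree χ} ≃ {χ // χ 1 = 1}` and S0154 (read its statement) counts the latter: index of the commutator subgroup.  `Helper81Base.charDegree_eq`. -/
theorem cnt_two_group {S : Type*} [Group S] [Finite S] (hS : IsPGroup 2 S) :
    cnt 2 S = (commutator S).index := by
  rw [← Cfsg.Agent.S0154.result, cnt]
  apply Nat.card_congr
  apply Equiv.subtypeEquivRight
  intro χ
  have h1 := Cfsg.Agent.Lib.Helper81Base.charDegree_eq χ
  have h2 := Cfsg.Agent.Lib.Helper81BB.irr_deg_dvd χ
  obtain ⟨n, hn⟩ := (IsPGroup.iff_card (p := 2)).1 hS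
  rw [hn] at h2
  obtain ⟨k, hk, hk2⟩ := (Nat.dvd_prime_pow Nat.prime_two).1 h2
  constructor
  · intro h
    rw [← h1]
    rcases Nat.eq_zero_or_pos k with rfl | hk0
    · rw [hk2]; simp
    · exact absurd (hk2 ▸ dvd_pow_self 2 hk0.ne') h
  · intro h h3
    rw [h] at h1
    have : charDegree (χ : S → ℂ) = 1 := by exact_mod_cast h1
    rw [this] at h3
    omega

end Cfsg.Agent.Lib.H4SmCntS
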