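import Mathlib
import Cfsg.Agent.Lib.H4SmDefs

/-!
# Project 2436 (row S2436, McKay equality for SL₂(q), q odd), piece `D1`
-/

set_option autoImplicit false
set_option linter.unusedSectionVars false

namespace Cfsg.Agent.Lib.H4SmD1

open Cfsg Subgroup Cfsg.Agent.Lib.H4SmDefs
open scoped commutatorElement

theorem commutator_le {N : Type*} [Group N] [Finite N] (S : Subgroup N) [S.Normal] (hS : Nat.card S = 8)
    (hN : Nat.card N = 24) : commutator N ≤ S := by
  have h3 : Nat.card (N ⧸ S) = 3 := by
    have := Subgroup.card_eq_card_quotient_mul_card_subgroup S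
    rw [hS, hN] at this
    omega
  haveI : Fact (Nat.Prime 3) := ⟨by norm_num⟩
  have hcyc : IsCyclic (N ⧸ S) := isCyclic_of_prime_card h3
  rw [commutator_def, Subgroup.commutator_le]
  intro x _ y _
  rw [← QuotientGroup.eq_one_iff (N := S)]
  have hcomm : ∀ a b : N ⧸ S, a * b = b * a := fun a b => hcyc.commutative.is_comm.comm a b
  have : (QuotientGroup.mk' S) ⁅x, y⁆ = 1 := by
    rw [map_commutatorElement]
    exact commutatorElement_eq_one_iff_commute.mpr (hcomm _ _)
  exact this

end Cfsg.Agent.Lib.H4SmD1
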