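import Mathlib
import Cfsg.Agent.Lib.H4SmDefs

/-!
# Project 2436 (row S2436, McKay equality for SL₂(q), q odd), piece `D2`
-/

set_option autoImplicit false
set_option linter.unusedSectionVars false

namespace Cfsg.Agent.Lib.H4SmD2

open Cfsg Subgroup Cfsg.Agent.Lib.H4SmDefs

/-- (45m, PURE MATHLIB) Let `c ∈ S₁`, `c' = y c y⁻¹`, `c'' = y c' y⁻¹`.  Suppose `c' ≠ c`.  Then `c, c', c''` are pairwise distinct (`y ^ 3 = 1`: if `c'' = c` then `y² ` commutes with `c`, so does `y = (y²)²`;
if `c'' = c'` then `c' = c`), different from `1`, all in `S₁`; as `Nat.card S₁ ≤ 4`, `S₁ = {1, c, c', c''}` and `Nat.card S₁ = 4`.  By Cauchy (`exists_prime_orderOf_dvd_card 2`) `S₁` has an element of order `2`; it is one of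
`c, c', c''`, which are conjugate, so `c * c = 1` and `c' * c' = 1`; by `hz`, `c = z = c'`: contradiction. -/
theorem centralizes_small {N : Type*} [Group N] [Finite N] (S₁ : Subgroup N) (h4 : Nat.card S₁ ≤ 4) (z : N)
    (hz : ∀ x ∈ S₁, x * x = 1 → x = 1 ∨ x = z) (y : N) (hy : y ^ 3 = 1)
    (hn : ∀ c ∈ S₁, y * c * y⁻¹ ∈ S₁) : ∀ c ∈ S₁, y * c = c * y := by
  classical
  intro c hc
  by_contra hne
  have hy3 : y * y * y = 1 := by rw [← hy, pow_succ, pow_two]
  have hyi : y⁻¹ = y * y := by
    apply inv_eq_of_mul_eq_one_right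
    rw [← mul_assoc]; exact hy3
  set c' := y * c * y⁻¹ with hc'
  set c'' := y * c' * y⁻¹ with hc''
  have hc'm : c' ∈ S₁ := hn c hc
  have hc''m : c'' ∈ S₁ := hn c' hc'm
  have h01 : c' ≠ c := by
    intro h
    apply hne
    rw [hc'] at h
    exact mul_inv_eq_iff_eq_mul.mp h
  have h12 : c'' ≠ c' := by
    intro h
    apply h01
    have : y * c' * y⁻¹ = y * c * y⁻¹ := h
    have h2 := mul_right_cancel this
    exact mul_left_cancel h2
  have hback : y * c'' * y⁻¹ = c := by
    rw [hc'', hc']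
    have : y * (y * (y * c * y⁻¹) * y⁻¹) * y⁻¹ = (y * y * y) * c * (y * y * y)⁻¹ := by group
    rw [this, hy3]; simp
  have h02 : c'' ≠ c := by
    intro h
    apply h12
    -- c'' = c -> y c'' y⁻¹ = y c y⁻¹ -> c = c'
    have h3 : y * c'' * y⁻¹ = y * c * y⁻¹ := by rw [h]
    rw [hback] at h3
    exact absurd h3.symm h01
  have hc1 : c ≠ 1 := by
    intro h
    apply hne; rw [h]; simp
  have hc'1 : c' ≠ 1 := by
    intro h
    apply hc1
    have : y * c * y⁻¹ = 1 := h
    have h2 : y * c = y := by simpa using mul_inv_eq_iff_eq_mul.mp this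
    simpa using h2
  have hc''1 : c'' ≠ 1 := by
    intro h
    apply hc'1
    have : y * c' * y⁻¹ = 1 := h
    have h2 : y * c' = y := by simpa using mul_inv_eq_iff_eq_mul.mp this
    simpa using h2
  -- the four elements
  letI : Fintype S₁ := Fintype.ofFinite _
  let F : Finset S₁ := {⟨1, S₁.one_mem⟩, ⟨c, hc⟩, ⟨c', hc'm⟩, ⟨c'', hc''m⟩}
  have hF : F.card = 4 := by
    have e1 : (⟨c', hc'm⟩ : S₁) ∉ ({⟨c'', hc''m⟩} : Finset S₁) := by
      simp only [Finset.mem_singleton, Subtype.mk.injEq]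
      exact fun h => h12 h.symm
    have e2 : (⟨c, hc⟩ : S₁) ∉ ({⟨c', hc'm⟩, ⟨c'', hc''m⟩} : Finset S₁) := by
      simp only [Finset.mem_insert, Finset.mem_singleton, Subtype.mk.injEq, not_or]
      exact ⟨fun h => h01 h.symm, fun h => h02 h.symm⟩
    have e3 : (⟨1, S₁.one_mem⟩ : S₁) ∉ ({⟨c, hc⟩, ⟨c', hc'm⟩, ⟨c'', hc''m⟩} : Finset S₁) := by
      simp only [Finset.mem_insert, Finset.mem_singleton, Subtype.mk.injEq, not_or]
      exact ⟨fun h => hc1 h.symm, fun h => hc'1 h.symm, fun h => hc''1 h.symm⟩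
    show (insert _ (insert _ (insert _ {_})) : Finset S₁).card = 4
    rw [Finset.card_insert_of_notMem e3, Finset.card_insert_of_notMem e2,
      Finset.card_insert_of_notMem e1, Finset.card_singleton]
  have hcard : Fintype.card S₁ ≤ 4 := by rwa [Nat.card_eq_fintype_card] at h4
  have hFu : F = Finset.univ := by
    apply Finset.eq_univ_of_card
    apply le_antisymm
    · exact Finset.card_le_univ F
    · rw [hF]; exact hcard
  have hcard4 : Nat.card S₁ = 4 := by
    rw [Nat.card_eq_fintype_card, ← Finset.card_univ, ← hFu, hF]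
  have : Fact (Nat.Prime 2) := ⟨Nat.prime_two⟩
  obtain ⟨t, ht⟩ := exists_prime_orderOf_dvd_card' (G := S₁) 2 (by rw [hcard4]; norm_num)
  have ht2 : t * t = 1 := by
    have := pow_orderOf_eq_one t
    rw [ht, pow_two] at this; exact this
  have ht1 : t ≠ 1 := by
    intro h
    rw [h, orderOf_one] at ht; norm_num at ht
  have htF : t ∈ F := by rw [hFu]; exact Finset.mem_univ t
  have hconj : ∀ a : N, a * a = 1 → (y * a * y⁻¹) * (y * a * y⁻¹) = 1 := by
    intro a ha
    have : (y * a * y⁻¹) * (y * a * y⁻¹) = y * (a * a) * y⁻¹ := by group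
    rw [this, ha]; simp
  have hcc : c * c = 1 := by
    simp only [F, Finset.mem_insert, Finset.mem_singleton] at htF
    have ht2' : (t : N) * (t : N) = 1 := by
      have := congrArg Subtype.val ht2
      simpa using this
    rcases htF with h | h | h | h
    · exact absurd h ht1
    · rw [h] at ht2'; exact ht2'
    · rw [h] at ht2'
      have h1 : c' * c' = 1 := ht2'
      have h2 := hconj _ (hconj _ h1)
      rw [← hc'', hback] at h2
      exact h2
    · rw [h] at ht2'
      have h1 : c'' * c'' = 1 := ht2'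
      have h2 := hconj _ h1
      rw [hback] at h2
      exact h2
  have hcc' : c' * c' = 1 := hconj _ hcc
  have hcz : c = z := (hz c hc hcc).resolve_left hc1
  have hcz' : c' = z := (hz c' hc'm hcc').resolve_left hc'1
  exact h01 (hcz'.trans hcz.symm)

end Cfsg.Agent.Lib.H4SmD2
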