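import Mathlib
import Cfsg.Agent.Lib.H4SmDefs

/-!
# Project 2436 (row S2436, McKay equality for SL₂(q), q odd), piece `D3`
-/

set_option autoImplicit false
set_option linter.unusedSectionVars false

namespace Cfsg.Agent.Lib.H4SmD3

open Cfsg Subgroup Cfsg.Agent.Lib.H4SmDefs

theorem aux {N : Type*} [Group N] (y c s : N) (hy : y ^ 3 = 1) (hyc : y * c = c * y) (h8 : c ^ 8 = 1)
    (h1 : y * s = c * s * y) : y * s = s * y := by
  have hyc' : ∀ z, y * (c * z) = c * (y * z) := fun z => by rw [← mul_assoc, hyc, mul_assoc]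
  have h1' : ∀ z, y * (s * z) = c * (s * (y * z)) := fun z => by
    rw [← mul_assoc, h1]; simp only [mul_assoc]
  have h3 : y * (y * (y * s)) = c * c * c * s * (y * y * y) := by
    rw [h1]
    simp only [mul_assoc, hyc', h1']
  have hy3 : y * y * y = 1 := by rw [← hy, pow_succ, pow_two]
  have h4 : y * (y * (y * s)) = s := by
    rw [← mul_assoc, ← mul_assoc, hy3, one_mul]
  rw [h4, hy3, mul_one] at h3
  have hc3 : c * c * c = 1 := mul_eq_right.mp h3.symm
  have hc3' : c ^ 3 = 1 := by rw [← hc3, pow_succ, pow_two]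
  have hc1 : c = 1 := by
    have h9 : c ^ 9 = 1 := by
      rw [show 9 = 3 * 3 from rfl, pow_mul, hc3', one_pow]
    have : c ^ 9 = c ^ 8 * c := pow_succ c 8
    rw [h9, h8, one_mul] at this
    exact this.symm
  rw [hc1, one_mul] at h1
  exact h1

theorem centralizes_all {N : Type*} [Group N] (S₁ : Subgroup N) (y : N) (hy : y ^ 3 = 1)
    (hc : ∀ c ∈ S₁, y * c = c * y) (h8 : ∀ c ∈ S₁, c ^ 8 = 1) (s : N) (hs : y * s * y⁻¹ * s⁻¹ ∈ S₁) :
    y * s = s * y := by
  refine aux y (y * s * y⁻¹ * s⁻¹) s hy (hc _ hs) (h8 _ hs) ?_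
  simp

end Cfsg.Agent.Lib.H4SmD3
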