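import Mathlib
import Cfsg.Agent.Lib.H4SmDefs
import Cfsg.Agent.Lib.H4SmD1
import Cfsg.Agent.Lib.H4SmD2
import Cfsg.Agent.Lib.H4SmD3

/-!
# Project 2436 (row S2436, McKay equality for SL₂(q), q odd), piece `Der24`
-/

set_option autoImplicit false
set_option linter.unusedSectionVars false

namespace Cfsg.Agent.Lib.H4SmDer24

open Cfsg Subgroup Cfsg.Agent.Lib.H4SmDefs

/-- (40m, PURE MATHLIB + D1 D2 D3) `S₁ = commutator N ≤ S` (D1).  If `S₁ = S` then `index = 24 / 8 = 3` (`Subgroup.card_mul_index`).  Otherwise `Nat.card S₁` is a proper divisor of `8`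
(`Subgroup.card_dvd_of_le`, `Subgroup.eq_of_le_of_card_ge`), so `≤ 4`.  Take `y` of order `3` (`exists_prime_orderOf_dvd_card 3`).  `S₁` is normal, D2 (with `hz` restricted to `S₁ ≤ S`) says that `y` centralises `S₁`;
`c ^ 8 = 1` on `S₁ ≤ S` (`Subgroup.pow_card_eq_one`/`pow_card_eq_one'`); `y s y⁻¹ s⁻¹ ∈ commutator N` (`Subgroup.commutator_mem_commutator`, `commutatorElement_def`); D3: `y` centralises `S`; `hC`: `y ∈ S`, so `orderOf y = 3 ∣ 8`: absurd. -/
theorem index_commutator {N : Type*} [Group N] [Finite N] (S : Subgroup N) [S.Normal] (hS : Nat.card S = 8)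
    (hN : Nat.card N = 24) (z : N) (hz : ∀ x ∈ S, x * x = 1 → x = 1 ∨ x = z)
    (hC : ∀ y : N, (∀ s ∈ S, y * s = s * y) → y ∈ S) : (commutator N).index = 3 := by
  classical
  have hle : commutator N ≤ S := H4SmD1.commutator_le S hS hN
  by_cases hEq : commutator N = S
  · have h := Subgroup.card_mul_index (commutator N)
    rw [hEq, hS, hN] at h
    rw [hEq]
    omega
  exfalso
  have hdvd : Nat.card (commutator N) ∣ 8 := by
    rw [← hS]; exact Subgroup.card_dvd_of_le hle
  have hlt : Nat.card (commutator N) < 8 := by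
    by_contra hge
    rw [not_lt] at hge
    apply hEq
    apply Subgroup.eq_of_le_of_card_ge hle
    rw [hS]; exact hge
  have h4 : Nat.card (commutator N) ≤ 4 := by
    have hpos : 0 < Nat.card (commutator N) := Nat.card_pos
    generalize Nat.card (commutator N) = k at *
    interval_cases k <;> omega
  have : Fact (Nat.Prime 3) := ⟨Nat.prime_three⟩
  obtain ⟨y, hy⟩ := exists_prime_orderOf_dvd_card' (G := N) 3 (by rw [hN]; norm_num)
  have hy3 : y ^ 3 = 1 := by rw [← hy]; exact pow_orderOf_eq_one y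
  have hnorm : ∀ c ∈ commutator N, y * c * y⁻¹ ∈ commutator N := by
    intro c hc
    exact (inferInstance : (commutator N).Normal).conj_mem c hc y
  have hcen : ∀ c ∈ commutator N, y * c = c * y :=
    H4SmD2.centralizes_small (commutator N) h4 z (fun x hx => hz x (hle hx)) y hy3 hnorm
  have h8 : ∀ c ∈ commutator N, c ^ 8 = 1 := by
    intro c hc
    have h := pow_card_eq_one' (G := S) (x := ⟨c, hle hc⟩)
    rw [hS] at h
    have h' := congrArg Subtype.val h
    simpa using h'
  have hall : ∀ s ∈ S, y * s = s * y := by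
    intro s _
    apply H4SmD3.centralizes_all (commutator N) y hy3 hcen h8 s
    rw [_root_.commutator_def]
    exact Subgroup.commutator_mem_commutator (Subgroup.mem_top y) (Subgroup.mem_top s)
  have hyS : y ∈ S := hC y hall
  have hy8 : y ^ 8 = 1 := by
    have h := pow_card_eq_one' (G := S) (x := ⟨y, hyS⟩)
    rw [hS] at h
    have h' := congrArg Subtype.val h
    simpa using h'
  have h38 : 3 ∣ 8 := by rw [← hy]; exact orderOf_dvd_of_pow_eq_one hy8
  omega

end Cfsg.Agent.Lib.H4SmDer24
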