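import Mathlib
import Cfsg.Agent.Lib.H4SmDefs
import Cfsg.Agent.Lib.Helper7SL

/-!
# Project 2436 (row S2436, McKay equality for SL₂(q), q odd), piece `Dvd`
-/

set_option autoImplicit false
set_option linter.unusedSectionVars false

namespace Cfsg.Agent.Lib.H4SmDvd

open Cfsg Subgroup Cfsg.Agent.Lib.H4SmDefs

/-- (15m) `Helper7SL.card_SL_two`; `q ^ 2 - 1 = (q - 1) * (q + 1)` (`Nat.sq_sub_sq`-type / `q = k + 1`, `ring`); `Nat.Prime.dvd_mul`. -/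
theorem dvd_cases {F : Type*} [Field F] [Fintype F] (ℓ : ℕ) (hℓ : ℓ.Prime) (h : ℓ ∣ Nat.card (GG F)) :
    ℓ ∣ Fintype.card F ∨ ℓ ∣ Fintype.card F - 1 ∨ ℓ ∣ Fintype.card F + 1 := by
  rw [show Nat.card (GG F) = Fintype.card F * (Fintype.card F ^ 2 - 1) from
    Cfsg.Agent.Lib.Helper7SL.card_SL_two] at h
  have hq : 1 ≤ Fintype.card F := Fintype.card_pos
  obtain ⟨k, hk⟩ : ∃ k, Fintype.card F = k + 1 := ⟨Fintype.card F - 1, by omega⟩
  rw [hk] at h ⊢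
  have e : (k + 1) ^ 2 - 1 = (k + 1 - 1) * (k + 1 + 1) := by
    rw [Nat.add_sub_cancel]
    have : (k + 1) ^ 2 = k * (k + 1 + 1) + 1 := by ring
    rw [this, Nat.add_sub_cancel]
  rw [e] at h
  rcases (Nat.Prime.dvd_mul hℓ).1 h with h1 | h1
  · exact Or.inl h1
  · rcases (Nat.Prime.dvd_mul hℓ).1 h1 with h2 | h2
    · exact Or.inr (Or.inl h2)
    · exact Or.inr (Or.inr h2)

/-- (5m) -/
theorem card_GG {F : Type*} [Field F] [Fintype F] : Nat.card (GG F) = Fintype.card F * (Fintype.card F ^ 2 - 1) :=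
  Cfsg.Agent.Lib.Helper7SL.card_SL_two

end Cfsg.Agent.Lib.H4SmDvd
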