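import Mathlib
import Cfsg.Agent.Lib.H4SmDefs

/-!
# Project 2436 (row S2436, McKay equality for SL₂(q), q odd), piece `Fib`
-/

set_option autoImplicit false
set_option linter.unusedSectionVars false

namespace Cfsg.Agent.Lib.H4SmFib

open Cfsg Subgroup Cfsg.Agent.Lib.H4SmDefs

/-- (40m, PURE MATHLIB) Counting by fibres.  `classical`, `Fintype.ofFinite`; `Nat.card {i // ¬ ℓ ∣ d i} = ∑ i, if ℓ ∣ d i then 0 else 1`, and
`∑ i, f (d i) = ∑ k : Fin 6, (Nat.card {i // d i = v k}) * f (v k)` because every `d i` is exactly one `v k` (`Finset.sum_fiberwise`-type argument, or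
`Finset.card_eq_sum_card_fiberwise`, or an explicit `Equiv` to a sigma type `Σ k, {i // d i = v k ∧ ¬ ℓ ∣ v k}`). -/
theorem card_fib {ι : Type*} [Finite ι] (d : ι → ℕ) (v m : Fin 6 → ℕ) (hv : Function.Injective v)
    (hd : ∀ i, ∃ k, d i = v k) (hm : ∀ k, Nat.card {i // d i = v k} = m k) (ℓ : ℕ) :
    Nat.card {i // ¬ ℓ ∣ d i} = ∑ k : Fin 6, if ℓ ∣ v k then 0 else m k := by
  classical
  letI : Fintype ι := Fintype.ofFinite ι
  choose κ hκ using hd
  have h1 : Nat.card {i // ¬ ℓ ∣ d i} = ∑ i : ι, if ℓ ∣ d i then 0 else 1 := by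
    rw [Nat.card_eq_fintype_card, Fintype.card_subtype, Finset.card_filter]
    apply Finset.sum_congr rfl
    intro i _
    by_cases h : ℓ ∣ d i <;> simp [h]
  have h2 : ∀ k : Fin 6, m k = ∑ i : ι, if κ i = k then 1 else 0 := by
    intro k
    rw [← hm k, Nat.card_eq_fintype_card, Fintype.card_subtype, Finset.card_filter]
    apply Finset.sum_congr rfl
    intro i _
    have : d i = v k ↔ κ i = k := by
      rw [hκ i]
      exact hv.eq_iff
    by_cases h : κ i = k
    · rw [if_pos h, if_pos (this.2 h)]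
    · rw [if_neg h, if_neg (fun h' => h (this.1 h'))]
  rw [h1]
  have h3 : ∀ k : Fin 6, (if ℓ ∣ v k then 0 else m k)
      = ∑ i : ι, if κ i = k then (if ℓ ∣ d i then 0 else 1) else 0 := by
    intro k
    by_cases h : ℓ ∣ v k
    · rw [if_pos h]
      symm
      apply Finset.sum_eq_zero
      intro i _
      by_cases hk : κ i = k
      · rw [if_pos hk, hκ i, hk, if_pos h]
      · rw [if_neg hk]
    · rw [if_neg h, h2 k]
      apply Finset.sum_congr rfl
      intro i _
      by_cases hk : κ i = k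
      · rw [if_pos hk, if_pos hk, hκ i, hk, if_neg h]
      · rw [if_neg hk, if_neg hk]
  simp only [h3]
  rw [Finset.sum_comm]
  apply Finset.sum_congr rfl
  intro i _
  rw [Finset.sum_ite_eq]
  simp

end Cfsg.Agent.Lib.H4SmFib
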