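import Mathlib
import Cfsg.Agent.Lib.H4SmDefs
import Cfsg.Agent.Lib.Helper46SL2

/-!
# Project 2436 (row S2436, McKay equality for SL₂(q), q odd), piece `SLInv`
-/

set_option autoImplicit false
set_option linter.unusedSectionVars false

namespace Cfsg.Agent.Lib.H4SmSLInv

open Cfsg Subgroup Cfsg.Agent.Lib.H4SmDefs

theorem entries {F : Type*} [Field F] (h2 : (2 : F) ≠ 0) (a b c d a' b' c' d' : F)
    (du : a * d - b * c = 1) (dv : a' * d' - b' * c' = 1)
    (h00 : a * a' + b * c' = a' * a + b' * c) (h01 : a * b' + b * d' = a' * b + b' * d)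
    (h10 : c * a' + d * c' = c' * a + d' * c) (ht : a + d = a' + d') (h4 : (a + d) ^ 2 ≠ 4) :
    (a' = a ∧ b' = b ∧ c' = c ∧ d' = d) ∨ (a' = d ∧ b' = -b ∧ c' = -c ∧ d' = a) := by
  obtain ⟨Δ, hΔdef⟩ : ∃ Δ, Δ = (a + d) ^ 2 - 4 := ⟨_, rfl⟩
  obtain ⟨B, hBdef⟩ : ∃ B, B = (a - d) * (a' - d') + 4 * b * c' := ⟨_, rfl⟩
  have hΔne : Δ ≠ 0 := by rw [hΔdef]; exact sub_ne_zero.2 h4
  have hΔ : (a - d) ^ 2 + 4 * b * c = Δ := by rw [hΔdef]; linear_combination (-4) * du
  have hΔ' : (a' - d') ^ 2 + 4 * b' * c' = Δ := by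
    rw [hΔdef]; linear_combination (-4) * dv - (a + d + a' + d') * ht
  have he : Δ * (a' - d') = (a - d) * B := by
    rw [hBdef]; linear_combination (-(a' - d')) * hΔ + 4 * b * h10
  have hb : Δ * b' = b * B := by
    rw [hBdef]; linear_combination (-b') * hΔ + (a - d) * h01 - 4 * b * h00
  have hc : Δ * c' = c * B := by
    rw [hBdef]; linear_combination (-c') * hΔ - (a - d) * h10
  have h1 : Δ ^ 2 * Δ = B ^ 2 * Δ := by
    calc Δ ^ 2 * Δ = Δ ^ 2 * ((a' - d') ^ 2 + 4 * b' * c') := by rw [hΔ']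
      _ = (Δ * (a' - d')) ^ 2 + 4 * (Δ * b') * (Δ * c') := by ring
      _ = ((a - d) * B) ^ 2 + 4 * (b * B) * (c * B) := by rw [he, hb, hc]
      _ = B ^ 2 * ((a - d) ^ 2 + 4 * b * c) := by ring
      _ = B ^ 2 * Δ := by rw [hΔ]
  have h3 : Δ ^ 2 = B ^ 2 := mul_right_cancel₀ hΔne h1
  have h5 : (B - Δ) * (B + Δ) = 0 := by linear_combination -h3
  rcases mul_eq_zero.1 h5 with h6 | h6
  · left
    have hB : B = Δ := sub_eq_zero.1 h6
    rw [hB] at he hb hc
    have e1 : a' - d' = a - d := mul_left_cancel₀ hΔne (by rw [he]; ring)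
    have e2 : b' = b := mul_left_cancel₀ hΔne (by rw [hb]; ring)
    have e3 : c' = c := mul_left_cancel₀ hΔne (by rw [hc]; ring)
    have e4 : a' = a := mul_left_cancel₀ h2 (by linear_combination e1 - ht)
    have e5 : d' = d := mul_left_cancel₀ h2 (by linear_combination -e1 - ht)
    exact ⟨e4, e2, e3, e5⟩
  · right
    have hB : B = -Δ := eq_neg_of_add_eq_zero_left h6
    rw [hB] at he hb hc
    have e1 : a' - d' = -(a - d) := mul_left_cancel₀ hΔne (by rw [he]; ring)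
    have e2 : b' = -b := mul_left_cancel₀ hΔne (by rw [hb]; ring)
    have e3 : c' = -c := mul_left_cancel₀ hΔne (by rw [hc]; ring)
    have e4 : a' = d := mul_left_cancel₀ h2 (by linear_combination e1 - ht)
    have e5 : d' = a := mul_left_cancel₀ h2 (by linear_combination -e1 - ht)
    exact ⟨e4, e2, e3, e5⟩

open Cfsg.Agent.Lib.Helper46SL2 in
/-- Two commuting elements of `SL₂` with the same trace `t`, `t² ≠ 4`, are equal or inverse. -/
theorem eq_or_eq_inv {F : Type*} [Field F] (h2 : (2 : F) ≠ 0) (u v : GG F) (hc : u * v = v * u)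
    (ht : tr u = tr v) (h4 : tr u ^ 2 ≠ 4) : v = u ∨ v = u⁻¹ := by
  have h00 : (u * v) 0 0 = (v * u) 0 0 := by rw [hc]
  have h01 : (u * v) 0 1 = (v * u) 0 1 := by rw [hc]
  have h10 : (u * v) 1 0 = (v * u) 1 0 := by rw [hc]
  rw [mul_00, mul_00] at h00
  rw [mul_01, mul_01] at h01
  rw [mul_10, mul_10] at h10
  rcases entries h2 _ _ _ _ _ _ _ _ (det2 u) (det2 v) h00 h01 h10 ht h4 with
    ⟨e1, e2, e3, e4⟩ | ⟨e1, e2, e3, e4⟩
  · left
    exact ext2 e1 e2 e3 e4
  · right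
    apply ext2
    · rw [inv_00]; exact e1
    · rw [inv_01]; exact e2
    · rw [inv_10]; exact e3
    · rw [inv_11]; exact e4

end Cfsg.Agent.Lib.H4SmSLInv
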