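import Mathlib
import Cfsg.Agent.Lib.H4SmDefs
import Cfsg.Agent.Lib.Helper46Tori2

/-!
# Project 2436 (row S2436, McKay equality for SL₂(q), q odd), piece `TrNe`
-/

set_option autoImplicit false
set_option linter.unusedSectionVars false

namespace Cfsg.Agent.Lib.H4SmTrNe

open Cfsg Subgroup Cfsg.Agent.Lib.H4SmDefs

open Cfsg.Agent.Lib.Helper46SL2 in
/-- (25m) If `tr t ^ 2 = 4` then `t ^ (2 q) = 1` (`Helper46Tori2.pow_two_card_eq_one`); with `t ^ m = 1` and `Nat.gcd (2 q) m = 2` (`q` odd, `m = q ± 1`) we get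
`t ^ 2 = 1` (`pow_gcd_eq_one`), so `t = 1 ∨ t = -1` (`Helper46Tori.mul_self_eq_one_iff`; `(2 : F) ≠ 0` because `q` is odd: see how S2428/S2431 get it). -/
theorem tr_sq_ne {F : Type*} [Field F] [Fintype F] (hodd : Odd (Fintype.card F)) (m : ℕ)
    (hm : m = Fintype.card F - 1 ∨ m = Fintype.card F + 1) (t : GG F) (ht : t ^ m = 1) (h1 : t ≠ 1)
    (h2 : t ≠ -1) : tr t ^ 2 ≠ 4 := by
  intro h4
  have h2F : (2 : F) ≠ 0 := by
    intro h
    haveI : CharP F 2 := CharTwo.of_one_ne_zero_of_two_eq_zero one_ne_zero h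
    have h3 := FiniteField.even_card_of_char_two (F := F) (ringChar.eq F 2)
    rw [Nat.odd_iff] at hodd
    omega
  have h2q := Cfsg.Agent.Lib.Helper46Tori2.pow_two_card_eq_one t h4
  obtain ⟨k, hk⟩ := hodd
  rw [hk] at h2q hm
  have hsq : t ^ 2 = 1 := by
    rcases hm with rfl | rfl
    · have e : t ^ (2 * (2 * k + 1)) = (t ^ (2 * k + 1 - 1)) ^ 2 * t ^ 2 := by
        rw [← pow_mul, ← pow_add]
        congr 1
        omega
      rw [e, ht, one_pow, one_mul] at h2q
      exact h2q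
    · have e : (t ^ (2 * k + 1 + 1)) ^ 2 = t ^ (2 * (2 * k + 1)) * t ^ 2 := by
        rw [← pow_mul, ← pow_add]
        congr 1
        omega
      rw [ht, h2q, one_pow, one_mul] at e
      exact e.symm
  rw [pow_two] at hsq
  rcases (Cfsg.Agent.Lib.Helper46Tori.mul_self_eq_one_iff h2F t).1 hsq with h | h
  · exact h1 h
  · exact h2 h

/-- (10m) `q` odd implies `2 ≠ 0` in `F` (search: used in S2428, S2429, S2431). -/
theorem two_ne_zero' {F : Type*} [Field F] [Fintype F] (hodd : Odd (Fintype.card F)) : (2 : F) ≠ 0 := by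
  intro h
  haveI : CharP F 2 := CharTwo.of_one_ne_zero_of_two_eq_zero one_ne_zero h
  have h3 := FiniteField.even_card_of_char_two (F := F) (ringChar.eq F 2)
  rw [Nat.odd_iff] at hodd
  omega

end Cfsg.Agent.Lib.H4SmTrNe
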