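import Mathlib
import Cfsg.Agent.Lib.H4SmDefs
import Cfsg.Agent.S2430
import Cfsg.Agent.Lib.H4SmSLInv
import Cfsg.Agent.Lib.H4SmTrNe
import Cfsg.Agent.Lib.H4SmSLeT
import Cfsg.Agent.Lib.Helper46Tori2
import Cfsg.Agent.Lib.Helper46SL2

/-!
# Project 2436 (row S2436, McKay equality for SL₂(q), q odd), piece `Hinv`
-/

set_option autoImplicit false
set_option linter.unusedSectionVars false

namespace Cfsg.Agent.Lib.H4SmHinv

open Cfsg Subgroup Cfsg.Agent.Lib.H4SmDefs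

/-- (45m) `T = C_G(S)`, `N = N_G(S)`.  `S2430.main ℓ hℓ S m hm hℓm` gives `Nat.card T = m` and `IsCyclic T` (so `T` is commutative and `t ^ m = 1` for `t ∈ T`).
Fix `g ∈ N`, `g ∉ T`.  For `t ∈ T`: `v = g t g⁻¹ ∈ T` (`Helper46Tori2.conj_mem_centralizer_of_mem_normalizer`), `v` commutes with `t`, `tr v = tr t` (`Helper46SL2.tr_conj`).
If `t = 1` or `t = -1` then `v = t = t⁻¹`; otherwise `H4SmTrNe.tr_sq_ne` and `H4SmSLInv.eq_or_eq_inv` give `v = t ∨ v = t⁻¹`.  So `T = T₀ ∪ T₁` with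
`T₀ = {t | g t g⁻¹ = t}`, `T₁ = {t | g t g⁻¹ = t⁻¹}`, both closed under products (`T` commutative).  If some `a ∈ T` is not in `T₁` and some `b ∈ T` is not in `T₀`, then `a ∈ T₀`, `b ∈ T₁`
and `a b` is in neither: contradiction.  If `T = T₀` then `g` centralises `T ⊇ S` (`H4SmSLeT.le_centralizer`), i.e. `g ∈ centralizer S`: contradiction.  So `T = T₁`. -/
theorem inverted {F : Type*} [Field F] [Fintype F] (hodd : Odd (Fintype.card F)) (ℓ : ℕ) [Fact ℓ.Prime]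
    (hℓ : ℓ ≠ 2) (S : Sylow ℓ (GG F)) (m : ℕ) (hm : m = Fintype.card F - 1 ∨ m = Fintype.card F + 1) (hℓm : ℓ ∣ m) :
    ∀ g ∈ (normalizer ((S : Subgroup (GG F)) : Set (GG F))), g ∉ (centralizer ((S : Subgroup (GG F)) : Set (GG F))) →
      ∀ t ∈ (centralizer ((S : Subgroup (GG F)) : Set (GG F))), g * t * g⁻¹ = t⁻¹ := by
  obtain ⟨hcard, hcyc, -⟩ := Cfsg.Agent.S2430.main ℓ hℓ S m hm hℓm
  have hST := H4SmSLeT.le_centralizer hodd ℓ hℓ S m hm hℓm
  have h2 := H4SmTrNe.two_ne_zero' hodd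
  generalize hT : centralizer ((S : Subgroup (GG F)) : Set (GG F)) = T at hcard hcyc hST ⊢
  have hcomm : ∀ a ∈ T, ∀ b ∈ T, a * b = b * a := by
    intro a ha b hb
    obtain ⟨g, hg⟩ := hcyc.exists_generator
    obtain ⟨i, hi⟩ := Subgroup.mem_zpowers_iff.mp (hg ⟨a, ha⟩)
    obtain ⟨j, hj⟩ := Subgroup.mem_zpowers_iff.mp (hg ⟨b, hb⟩)
    have : (⟨a, ha⟩ : T) * ⟨b, hb⟩ = ⟨b, hb⟩ * ⟨a, ha⟩ := by
      rw [← hi, ← hj, ← zpow_add, ← zpow_add, add_comm]
    exact congrArg Subtype.val this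
  have hpow : ∀ t ∈ T, t ^ m = 1 := by
    intro t ht
    have h1 : (⟨t, ht⟩ : T) ^ Nat.card T = 1 := pow_card_eq_one'
    rw [hcard] at h1
    exact congrArg Subtype.val h1
  intro g hgN hgT
  have hconj : ∀ t ∈ T, g * t * g⁻¹ ∈ T := by
    intro t ht
    rw [← hT] at ht ⊢
    exact Cfsg.Agent.Lib.Helper46Tori2.conj_mem_centralizer_of_mem_normalizer hgN ht
  have key : ∀ t ∈ T, g * t * g⁻¹ = t ∨ g * t * g⁻¹ = t⁻¹ := by
    intro t ht
    by_cases h1 : t = 1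
    · left; rw [h1]; simp
    by_cases hm1 : t = -1
    · left; rw [hm1]; simp
    · exact H4SmSLInv.eq_or_eq_inv h2 t (g * t * g⁻¹) (hcomm t ht _ (hconj t ht))
        (Cfsg.Agent.Lib.Helper46SL2.tr_conj t g).symm (H4SmTrNe.tr_sq_ne hodd m hm t (hpow t ht) h1 hm1)
  by_contra hcon
  push Not at hcon
  obtain ⟨a, haT, ha⟩ := hcon
  have ha0 : g * a * g⁻¹ = a := (key a haT).resolve_right ha
  have hall : ∀ b ∈ T, g * b * g⁻¹ = b := by
    intro b hb
    rcases key b hb with h | h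
    · exact h
    · have hab : g * (a * b) * g⁻¹ = a * b⁻¹ := by
        calc g * (a * b) * g⁻¹ = (g * a * g⁻¹) * (g * b * g⁻¹) := by group
          _ = a * b⁻¹ := by rw [ha0, h]
      rcases key (a * b) (T.mul_mem haT hb) with h' | h'
      · rw [hab] at h'
        have : b⁻¹ = b := mul_left_cancel h'
        rw [h, this]
      · exfalso
        rw [hab, mul_inv_rev, hcomm _ (T.inv_mem hb) _ (T.inv_mem haT)] at h'
        have : a = a⁻¹ := mul_right_cancel h'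
        apply ha
        rw [ha0]
        exact this
  apply hgT
  rw [← hT, Subgroup.mem_centralizer_iff]
  intro s hs
  have h := hall s (hST hs)
  exact (mul_inv_eq_iff_eq_mul.mp h).symm

end Cfsg.Agent.Lib.H4SmHinv
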