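import Mathlib
import Cfsg.Agent.Lib.H4SmDefs
import Cfsg.Agent.Lib.Helper46Tori
import Cfsg.Agent.Lib.H4SmCenLe
import Cfsg.Agent.Lib.H4SmTrNe

/-!
# Project 2436 (row S2436, McKay equality for SL₂(q), q odd), piece `Inv1`
-/

set_option autoImplicit false
set_option linter.unusedSectionVars false

namespace Cfsg.Agent.Lib.H4SmInv1

open Cfsg Subgroup Cfsg.Agent.Lib.H4SmDefs

/-- (30m) The only element of order `2` of `GG F` is `-1` (`orderOf x = 2 → x * x = 1 ∧ x ≠ 1`; `Helper46Tori.mul_self_eq_one_iff (H4SmTrNe.two_ne_zero' hodd)`), it has order `2`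
(`Helper46Tori.neg_one_ne_one`, `orderOf_eq_prime`) and lies in `S` (`H4SmCenLe.center_le`).  So the subtype has a unique element (`Nat.card_eq_one_iff_unique`/`Nat.card_unique`); `Subgroup.orderOf_mk`/`Subgroup.orderOf_coe`. -/
theorem card_invol {F : Type*} [Field F] [Fintype F] (hodd : Odd (Fintype.card F)) (S : Sylow 2 (GG F)) :
    Nat.card {x : (S : Subgroup (GG F)) // orderOf x = 2} = 1 := by
  have h2 : (2 : F) ≠ 0 := H4SmTrNe.two_ne_zero' hodd
  have hne : (-1 : GG F) ≠ 1 := Helper46Tori.neg_one_ne_one h2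
  have hsq : (-1 : GG F) * (-1) = 1 := (Helper46Tori.mul_self_eq_one_iff h2 (-1)).2 (Or.inr rfl)
  have hcen : (-1 : GG F) ∈ Subgroup.center (GG F) := by
    rw [Subgroup.mem_center_iff]
    intro g
    simp
  have hmem : (-1 : GG F) ∈ (S : Subgroup (GG F)) := H4SmCenLe.center_le S hcen
  have hord : orderOf (-1 : GG F) = 2 := by
    have : Fact (Nat.Prime 2) := ⟨Nat.prime_two⟩
    exact orderOf_eq_prime (by rw [pow_two]; exact hsq) hne
  have huniq : ∀ x : GG F, orderOf x = 2 → x = -1 := by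
    intro x hx
    have h1 : x * x = 1 := by
      have := pow_orderOf_eq_one x
      rw [hx, pow_two] at this
      exact this
    rcases (Helper46Tori.mul_self_eq_one_iff h2 x).1 h1 with h | h
    · rw [h, orderOf_one] at hx
      omega
    · exact h
  rw [Nat.card_eq_one_iff_unique]
  refine ⟨⟨?_⟩, ⟨⟨⟨-1, hmem⟩, ?_⟩⟩⟩
  · rintro ⟨a, ha⟩ ⟨b, hb⟩
    apply Subtype.ext
    apply Subtype.ext
    rw [← Subgroup.orderOf_coe] at ha hb
    rw [huniq _ ha, huniq _ hb]
  · rw [← Subgroup.orderOf_coe]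
    exact hord

end Cfsg.Agent.Lib.H4SmInv1
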