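import Mathlib
import Cfsg.Agent.Lib.H4SmDefs
import Cfsg.Agent.S2430
import Cfsg.Agent.Lib.Helper46Tori
import Cfsg.Agent.Lib.H4SmHinv
import Cfsg.Agent.Lib.H4SmTrNe

/-!
# Project 2436 (row S2436, McKay equality for SL₂(q), q odd), piece `KOdd`
-/

set_option autoImplicit false
set_option linter.unusedSectionVars false

namespace Cfsg.Agent.Lib.H4SmKOdd

open Cfsg Subgroup Cfsg.Agent.Lib.H4SmDefs

/-- (35m) `Helper46Dicyclic.card_conjClasses_subgroup N T hTN hcomm hinv hidx (-1) _ _ _` exactly as in `Helper46Tori.card_conjClasses_normalizer_D` (read it).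
`hTN : T ≤ N` (`Subgroup.centralizer_le_normalizer`-type lemma, or by hand); `hcomm` from `IsCyclic T` (`S2430.main`); `hinv = H4SmHinv.inverted`;
`hidx : T.relIndex N = 2` from `Nat.card N = 2 * m`, `Nat.card T = m` (`Subgroup.relIndex_mul_card`-type: `(T.subgroupOf N).card_mul_index`, `m ≠ 0`);
`-1 ∈ T` (central: `Helper46SL2.mem_center_iff_eq`, `Subgroup.center_le_centralizer`); `Helper46Tori.neg_one_ne_one h2`, `Helper46Tori.mul_self_eq_one_iff h2`. -/
theorem k_odd {F : Type*} [Field F] [Fintype F] (hodd : Odd (Fintype.card F)) (ℓ : ℕ) [Fact ℓ.Prime]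
    (hℓ : ℓ ≠ 2) (S : Sylow ℓ (GG F)) (m : ℕ) (hm : m = Fintype.card F - 1 ∨ m = Fintype.card F + 1) (hℓm : ℓ ∣ m) :
    2 * Nat.card (ConjClasses (normalizer ((S : Subgroup (GG F)) : Set (GG F)))) = m + 6 := by
  obtain ⟨hT, hcyc, hN⟩ := Cfsg.Agent.S2430.main ℓ hℓ S m hm hℓm
  have h2 : (2 : F) ≠ 0 := Cfsg.Agent.Lib.H4SmTrNe.two_ne_zero' hodd
  have hq1 : 1 < Fintype.card F := Fintype.one_lt_card
  have hm0 : m ≠ 0 := by rcases hm with rfl | rfl <;> omega
  have hTN : centralizer ((S : Subgroup (GG F)) : Set (GG F)) ≤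
      normalizer ((S : Subgroup (GG F)) : Set (GG F)) := by
    intro g hg
    rw [Subgroup.mem_normalizer_iff]
    intro h
    rw [Subgroup.mem_centralizer_iff] at hg
    constructor
    · intro hh
      have := hg h hh
      have e : g * h * g⁻¹ = h := by rw [← this]; group
      rw [e]; exact hh
    · intro hh
      have := hg _ hh
      have e : g * h * g⁻¹ = h := by
        have h3 : g * h * g⁻¹ * g = g * (g * h * g⁻¹) := this
        have h4 : g * h = g * (g * h * g⁻¹) := by
          rw [← h3]; group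
        exact (mul_left_cancel h4).symm
      rw [e] at hh; exact hh
  have hidx : (centralizer ((S : Subgroup (GG F)) : Set (GG F))).relIndex
      (normalizer ((S : Subgroup (GG F)) : Set (GG F))) = 2 := by
    have := Subgroup.relIndex_mul_relIndex ⊥ _ _ bot_le hTN
    rw [Subgroup.relIndex_bot_left, Subgroup.relIndex_bot_left, hT, hN] at this
    have h5 : m * (centralizer ((S : Subgroup (GG F)) : Set (GG F))).relIndex
      (normalizer ((S : Subgroup (GG F)) : Set (GG F))) = m * 2 := by rw [this]; ring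
    exact Nat.eq_of_mul_eq_mul_left (Nat.pos_of_ne_zero hm0) h5
  have hfin : Finite (normalizer ((S : Subgroup (GG F)) : Set (GG F))) :=
    Nat.finite_of_card_ne_zero (by rw [hN]; omega)
  have hcomm : ∀ a ∈ centralizer ((S : Subgroup (GG F)) : Set (GG F)),
      ∀ b ∈ centralizer ((S : Subgroup (GG F)) : Set (GG F)), a * b = b * a := by
    intro a ha b hb
    have hc := hcyc.isMulCommutative
    have := hc.is_comm.comm ⟨a, ha⟩ ⟨b, hb⟩
    exact congrArg Subtype.val this
  rw [← hT]
  apply Cfsg.Agent.Lib.Helper46Dicyclic.card_conjClasses_subgroup _ _ hTN hcomm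
    (Cfsg.Agent.Lib.H4SmHinv.inverted hodd ℓ hℓ S m hm hℓm) hidx (-1) ?_
    (Cfsg.Agent.Lib.Helper46Tori.neg_one_ne_one h2)
    (fun t _ => Cfsg.Agent.Lib.Helper46Tori.mul_self_eq_one_iff h2 t)
  exact Subgroup.center_le_centralizer _ (Cfsg.Agent.Lib.Helper46SL2.mem_center_iff_eq.2 (Or.inr rfl))

end Cfsg.Agent.Lib.H4SmKOdd
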