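import Mathlib
import Cfsg.Agent.Lib.H4SmDefs
import Cfsg.Agent.S2431
import Cfsg.Agent.Lib.Helper7SL
import Cfsg.Agent.Lib.Helper46SL2

/-!
# Project 2436 (row S2436, McKay equality for SL₂(q), q odd), piece `NonCyc`
-/

set_option autoImplicit false
set_option linter.unusedSectionVars false

namespace Cfsg.Agent.Lib.H4SmNonCyc

open Cfsg Subgroup Cfsg.Agent.Lib.H4SmDefs

/-- (35m) If `S` is cyclic it is commutative, so `S ≤ centralizer S = center` (`(S2431.result hodd S).1`), and the centre has at most `2` elements (`Helper46SL2.mem_center_iff_eq`), so `Nat.card S ≤ 2`.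
But `4 ∣ q ^ 2 - 1 ∣ Nat.card (GG F)` (`Helper7SL.card_SL_two`, `q` odd), so `4 ∣ Nat.card S`: `Nat.card S = 2 ^ (Nat.card G).factorization 2` (`Sylow.card_eq_multiplicity`) and
`2 ≤ factorization` (`Nat.Prime.pow_dvd_iff_le_factorization`). -/
theorem not_cyclic {F : Type*} [Field F] [Fintype F] (hodd : Odd (Fintype.card F)) (S : Sylow 2 (GG F)) :
    ¬ IsCyclic (S : Subgroup (GG F)) := by
  classical
  intro hcyc
  have hcen := (Cfsg.Agent.S2431.result hodd S).1
  -- S ≤ center
  have hle : (S : Subgroup (GG F)) ≤ Subgroup.center (GG F) := by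
    rw [← hcen]
    intro x hx
    rw [Subgroup.mem_centralizer_iff]
    intro h hh
    obtain ⟨g, hg⟩ := hcyc.exists_generator
    obtain ⟨a, ha⟩ := Subgroup.mem_zpowers_iff.mp (hg ⟨x, hx⟩)
    obtain ⟨b, hb⟩ := Subgroup.mem_zpowers_iff.mp (hg ⟨h, hh⟩)
    have hx' : x = (g : GG F) ^ a := by
      have := congrArg Subtype.val ha
      simpa using this.symm
    have hh' : h = (g : GG F) ^ b := by
      have := congrArg Subtype.val hb
      simpa using this.symm
    rw [hx', hh', ← zpow_add, ← zpow_add, add_comm]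
  -- card of the centre ≤ 2
  have hc2 : Nat.card (S : Subgroup (GG F)) ≤ 2 := by
    have hsub : ((S : Subgroup (GG F)) : Set (GG F)) ⊆ (({1, -1} : Finset (GG F)) : Set (GG F)) := by
      intro x hx
      have := (Cfsg.Agent.Lib.Helper46SL2.mem_center_iff_eq (A := x)).mp (hle hx)
      simpa using this
    have h1 : Nat.card (S : Subgroup (GG F)) ≤ Nat.card ((({1, -1} : Finset (GG F)) : Set (GG F))) :=
      Nat.card_mono (Finset.finite_toSet _) hsub
    have h2 : Nat.card ((({1, -1} : Finset (GG F)) : Set (GG F))) ≤ 2 := by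
      rw [Nat.card_coe_set_eq, Set.ncard_coe_finset]
      exact Finset.card_le_two
    exact h1.trans h2
  -- 4 ∣ card S
  have hG : Nat.card (GG F) = Fintype.card F * (Fintype.card F ^ 2 - 1) :=
    Cfsg.Agent.Lib.Helper7SL.card_SL_two
  have h4G : 2 ^ 2 ∣ Nat.card (GG F) := by
    rw [hG]
    obtain ⟨k, hk⟩ := hodd
    rw [hk]
    apply Dvd.dvd.mul_left
    have : (2 * k + 1) ^ 2 - 1 = 2 ^ 2 * (k * k + k) := by
      have : (2 * k + 1) ^ 2 = 2 ^ 2 * (k * k + k) + 1 := by ring
      omega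
    rw [this]
    exact Dvd.intro _ rfl
  have hfac : 2 ≤ (Nat.card (GG F)).factorization 2 :=
    (Nat.Prime.pow_dvd_iff_le_factorization Nat.prime_two (Nat.card_pos.ne')).mp h4G
  have : Fact (Nat.Prime 2) := ⟨Nat.prime_two⟩
  have hcS : Nat.card (S : Subgroup (GG F)) = 2 ^ (Nat.card (GG F)).factorization 2 :=
    Sylow.card_eq_multiplicity S
  have h4 : 2 ^ 2 ≤ Nat.card (S : Subgroup (GG F)) := by
    rw [hcS]; exact Nat.pow_le_pow_right (by norm_num) hfac
  omega

end Cfsg.Agent.Lib.H4SmNonCyc
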