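import Mathlib
import Cfsg.Agent.Lib.H4SmDefs
import Cfsg.Agent.S2431
import Cfsg.Agent.Lib.Helper7SL
import Cfsg.Agent.Lib.H4SmCard8

/-!
# Project 2436 (row S2436, McKay equality for SL₂(q), q odd), piece `Q3`
-/

set_option autoImplicit false
set_option linter.unusedSectionVars false

namespace Cfsg.Agent.Lib.H4SmQ3

open Cfsg Subgroup Cfsg.Agent.Lib.H4SmDefs

/-- (20m) `q = 3`: `Nat.card (GG F) = 3 * (3 ^ 2 - 1) = 24` (`Helper7SL.card_SL_two`), `Nat.card S = 8` (`H4SmCard8.card_eight (Or.inl _)`), `Nat.card (normalizer S) = 3 * 8` (`(S2431.result _ S).2.2 (Or.inl _)`),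
`Subgroup.eq_top_of_card_eq`. -/
theorem normalizer_eq_top {F : Type*} [Field F] [Fintype F] (h3 : Fintype.card F = 3) (S : Sylow 2 (GG F)) :
    (normalizer ((S : Subgroup (GG F)) : Set (GG F))) = ⊤ := by
  have hodd : Odd (Fintype.card F) := by rw [h3]; decide
  have h8 : Fintype.card F % 8 = 3 ∨ Fintype.card F % 8 = 5 := Or.inl (by rw [h3])
  have hG : Nat.card (GG F) = 24 := by
    rw [show Nat.card (GG F) = Fintype.card F * (Fintype.card F ^ 2 - 1) from
      Cfsg.Agent.Lib.Helper7SL.card_SL_two, h3]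
    norm_num
  have hS : Nat.card S = 8 := H4SmCard8.card_eight h8 S
  have hN := (Cfsg.Agent.S2431.result hodd S).2.2 h8
  apply Subgroup.eq_top_of_card_eq
  rw [hN, hS, hG]

end Cfsg.Agent.Lib.H4SmQ3
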