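import Mathlib
import Cfsg.Agent.Lib.H4SmDefs
import Cfsg.Agent.S2299
import Cfsg.Agent.Lib.Helper81Base
import Cfsg.Agent.Lib.H4SmFib
import Cfsg.Agent.Lib.Helper4Char

/-!
# Project 2436 (row S2436, McKay equality for SL₂(q), q odd), piece `Split`
-/

set_option autoImplicit false
set_option linter.unusedSectionVars false

namespace Cfsg.Agent.Lib.H4SmSplit

open Cfsg Subgroup Cfsg.Agent.Lib.H4SmDefs

/-- (40m) From `S2299.result hodd` and `H4SmFib.card_fib` with `ι = IrrCharacter (GG F)`, `d χ = charDegree χ`,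
`v = ![1, q, q+1, q-1, (q+1)/2, (q-1)/2]`, `m = ![1, 1, (q-3)/2, (q-1)/2, 2, 2]` (`v` injective for `q ≥ 5` odd: `fin_cases` + `omega`).
`Helper81Base.charDegree_eq χ : ((charDegree χ : ℕ) : ℂ) = χ 1` translates `χ 1 = (q:ℂ) - 1` into `charDegree χ = q - 1` (`Nat.cast_injective`, `push_cast`,
`Nat.cast_sub`); the subtypes are equivalent by `Equiv.subtypeEquivRight`.  Finally `Fin.sum_univ_six`, `unfold Fq`, `simp`. -/
theorem cnt_split {F : Type*} [Field F] [Fintype F] (hodd : Odd (Fintype.card F)) (h5 : 5 ≤ Fintype.card F)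
    (ℓ : ℕ) : cnt ℓ (GG F) = Fq (Fintype.card F) ℓ := by
  classical
  obtain ⟨q, hq⟩ : ∃ q, q = Fintype.card F := ⟨_, rfl⟩
  obtain ⟨hdeg, hcnt⟩ := Cfsg.Agent.S2299.result hodd
  obtain ⟨c1, c2, c3, c4, c5, c6⟩ := hcnt h5
  rw [← hq] at hodd h5 hdeg c2 c3 c4 c5 c6 ⊢
  haveI : Finite (IrrCharacter (GG F)) := Cfsg.Agent.Lib.Helper4Char.finite_irrCharacter
  have key : ∀ (χ : IrrCharacter (GG F)) (k : ℕ),
      charDegree (χ : GG F → ℂ) = k ↔ (χ : GG F → ℂ) 1 = (k : ℂ) := by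
    intro χ k
    rw [← Cfsg.Agent.Lib.Helper81Base.charDegree_eq χ]
    exact Nat.cast_inj.symm
  have e3 : ((q + 1 : ℕ) : ℂ) = (q : ℂ) + 1 := by push_cast; ring
  have e4 : ((q - 1 : ℕ) : ℂ) = (q : ℂ) - 1 := by
    rw [Nat.cast_sub (by omega)]; simp
  have hcard : ∀ (k : ℕ) (z : ℂ), (k : ℂ) = z →
      Nat.card {χ : IrrCharacter (GG F) // charDegree (χ : GG F → ℂ) = k}
        = Nat.card {χ : IrrCharacter (GG F) // (χ : GG F → ℂ) 1 = z} := by
    intro k z hz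
    apply Nat.card_congr
    apply Equiv.subtypeEquivRight
    intro χ
    rw [key, hz]
  obtain ⟨k, rfl⟩ := hodd
  have hfib := Cfsg.Agent.Lib.H4SmFib.card_fib (ι := IrrCharacter (GG F))
    (fun χ => charDegree (χ : GG F → ℂ))
    ![1, 2 * k + 1, 2 * k + 1 + 1, 2 * k + 1 - 1, (2 * k + 1 + 1) / 2, (2 * k + 1 - 1) / 2]
    ![1, 1, (2 * k + 1 - 3) / 2, (2 * k + 1 - 1) / 2, 2, 2]
    (by
      intro a b hab
      fin_cases a <;> fin_cases b <;> simp at hab ⊢ <;> omega)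
    (by
      intro χ
      rcases hdeg χ.1 χ.2 with h | h | h | h | h | h
      · exact ⟨0, (key χ _).2 (by simpa using h)⟩
      · exact ⟨1, (key χ _).2 (by simpa using h)⟩
      · exact ⟨2, (key χ _).2 (by rw [h]; exact e3.symm)⟩
      · exact ⟨3, (key χ _).2 (by rw [h]; exact e4.symm)⟩
      · exact ⟨4, (key χ _).2 h⟩
      · exact ⟨5, (key χ _).2 h⟩)
    (by
      intro a
      fin_cases a
      · exact (hcard 1 1 (by simp)).trans c1
      · exact (hcard _ _ rfl).trans c2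
      · exact (hcard _ _ e3).trans c3
      · exact (hcard _ _ e4).trans c4
      · exact (hcard _ _ rfl).trans c5
      · exact (hcard _ _ rfl).trans c6) ℓ
  unfold cnt
  rw [hfib, Fin.sum_univ_six]
  unfold Fq
  rfl

end Cfsg.Agent.Lib.H4SmSplit
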