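import Mathlib
import Cfsg.Agent.Lib.H4SmDefs
import Cfsg.Agent.Lib.H4SmCongr

/-!
# Project 2436 (row S2436, McKay equality for SL₂(q), q odd), piece `Top`
-/

set_option autoImplicit false
set_option linter.unusedSectionVars false

namespace Cfsg.Agent.Lib.H4SmTop

open Cfsg Subgroup Cfsg.Agent.Lib.H4SmDefs

/-- (10m) `subst h`; `H4SmCongr.cnt_congr ℓ Subgroup.topEquiv.symm`. -/
theorem of_top {G : Type*} [Group G] [Finite G] (ℓ : ℕ) (N : Subgroup G) (h : N = ⊤) :
    cnt ℓ G = cnt ℓ N := by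
  subst h
  exact H4SmCongr.cnt_congr ℓ Subgroup.topEquiv.symm

end Cfsg.Agent.Lib.H4SmTop
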