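import Mathlib
import Cfsg.Agent.Lib.H4SmDefs
import Cfsg.Agent.S2431
import Cfsg.Agent.Lib.Helper46Tori
import Cfsg.Agent.Lib.H4SmCard8
import Cfsg.Agent.Lib.H4SmDer24
import Cfsg.Agent.Lib.H4SmAr24
import Cfsg.Agent.Lib.H4SmCenLe
import Cfsg.Agent.Lib.H4SmTrNe

/-!
# Project 2436 (row S2436, McKay equality for SL₂(q), q odd), piece `TwoB`
-/

set_option autoImplicit false
set_option linter.unusedSectionVars false

namespace Cfsg.Agent.Lib.H4SmTwoB

open Cfsg Subgroup Cfsg.Agent.Lib.H4SmDefs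

/-- (45m) `N = normalizer S` (a type), `S' = (S : Subgroup _).subgroupOf N` is normal (`Subgroup.normal_in_normalizer`), `Nat.card S' = Nat.card S = 8` (`H4SmCard8.card_eight`, `Subgroup.subgroupOfEquivOfLe le_normalizer`),
`Nat.card N = 3 * 8 = 24` (`(S2431.result hodd S).2.2 h`).  `H4SmDer24.index_commutator S' _ _ ⟨-1, _⟩ hz hC`: `hz` from `Helper46Tori.mul_self_eq_one_iff (H4SmTrNe.two_ne_zero' hodd)` (`Subtype.ext`);
`hC`: if `y : N` commutes with all of `S'` then `(y : GG F) ∈ centralizer S = center` (`(S2431.result hodd S).1`) `≤ S` (`H4SmCenLe.center_le`).  Then `H4SmAr24.cnt_24`. -/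
theorem cnt_two_B {F : Type*} [Field F] [Fintype F] (hodd : Odd (Fintype.card F))
    (h : Fintype.card F % 8 = 3 ∨ Fintype.card F % 8 = 5) (S : Sylow 2 (GG F)) :
    cnt 2 (normalizer ((S : Subgroup (GG F)) : Set (GG F))) = 4 := by
  have h8 := H4SmCard8.card_eight h S
  have hN : Nat.card (normalizer ((S : Subgroup (GG F)) : Set (GG F))) = 24 := by
    rw [(Cfsg.Agent.S2431.result hodd S).2.2 h, h8]
  have h2 := H4SmTrNe.two_ne_zero' hodd
  haveI hn : ((S : Subgroup (GG F)).subgroupOf (normalizer ((S : Subgroup (GG F)) : Set (GG F)))).Normal :=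
    Subgroup.normal_in_normalizer
  have hS' : Nat.card ((S : Subgroup (GG F)).subgroupOf (normalizer ((S : Subgroup (GG F)) : Set (GG F)))) = 8 := by
    rw [Nat.card_congr (Subgroup.subgroupOfEquivOfLe le_normalizer).toEquiv]
    exact h8
  have hm1 : (-1 : GG F) ∈ normalizer ((S : Subgroup (GG F)) : Set (GG F)) :=
    le_normalizer (H4SmCenLe.center_le S (Cfsg.Agent.Lib.Helper46SL2.mem_center_iff_eq.mpr (Or.inr rfl)))
  apply H4SmAr24.cnt_24 hN
  apply H4SmDer24.index_commutator _ hS' hN ⟨-1, hm1⟩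
  · intro x _ hxx
    have h1 : (x : GG F) * x = 1 := congrArg Subtype.val hxx
    rcases (Cfsg.Agent.Lib.Helper46Tori.mul_self_eq_one_iff h2 _).mp h1 with h | h
    · left; exact Subtype.ext h
    · right; exact Subtype.ext h
  · intro y hy
    rw [Subgroup.mem_subgroupOf]
    apply H4SmCenLe.center_le S
    rw [← (Cfsg.Agent.S2431.result hodd S).1, Subgroup.mem_centralizer_iff]
    intro s hs
    have h1 := hy ⟨s, le_normalizer hs⟩ (by rw [Subgroup.mem_subgroupOf]; exact hs)
    exact (congrArg Subtype.val h1).symm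

end Cfsg.Agent.Lib.H4SmTwoB
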