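import Cfsg.Agent.S0661
import Cfsg.Agent.S0017
import Cfsg.Agent.Lib.Helper27Core

set_option autoImplicit false

/-! Project 53 (S1481), piece `Bal`: `O_{p'}(N_L(P)) ≤ O_{p'}(L)` for solvable `L`, relative form. -/

namespace Cfsg.Agent.Lib.H53MLBal

open Subgroup Cfsg

variable {G : Type*} [Group G]

/-- type-level form: `S0661.result` needs `C(O_p(Ḡ)) ≤ O_p(Ḡ)` for `Ḡ = G ⧸ pPrimeCore p G`: this is `S0017.result p` for the solvable group `Ḡ`, with
`Cfsg.Agent.Lib.Helper27Core.pPrimeCore_quotient_eq_bot`.  `Y.subgroupOf N` (`N = normalizer P`) is normal in `↥N` of order prime to `p`, so `≤ pPrimeCore p ↥N` (`le_sSup`);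
map back by `N.subtype` and use `S0661`. -/
theorem le_pPrimeCore_type {L : Type*} [Group L] [Finite L] [Group.IsSolvable L] {p : ℕ}
    [Fact p.Prime] {P Y : Subgroup L} (hP : IsPGroup p P) (hYP : Y ≤ normalizer (P : Set L))
    (hY : (Nat.card Y).Coprime p) (hn : normalizer (P : Set L) ≤ normalizer (Y : Set L)) :
    Y ≤ pPrimeCore p L := by
  have hc : centralizer (pCore p (L ⧸ pPrimeCore p L) : Set (L ⧸ pPrimeCore p L)) ≤
      pCore p (L ⧸ pPrimeCore p L) :=
    Cfsg.Agent.S0017.result p (Cfsg.Agent.Lib.Helper27Core.pPrimeCore_quotient_eq_bot p)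
  have h1 := Cfsg.Agent.S0661.result hc P hP
  have h2 : Y.subgroupOf (normalizer (P : Set L)) ≤ pPrimeCore p ↥(normalizer (P : Set L)) := by
    apply le_sSup
    refine ⟨(normal_subgroupOf_iff_le_normalizer hYP).mpr hn, ?_⟩
    rw [Nat.card_congr (subgroupOfEquivOfLe hYP).toEquiv]
    exact hY
  have h3 := Subgroup.map_mono (f := (normalizer (P : Set L)).subtype) h2
  rw [map_subgroupOf_eq_of_le hYP, h1] at h3
  exact h3.trans inf_le_left

/-- apply `le_pPrimeCore_type` in `↥L` to `P.subgroupOf L`, `Y.subgroupOf L`. -/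
theorem le_pPrimeCore_of_normalizer [Finite G] {p : ℕ} [Fact p.Prime] {L P Y : Subgroup G}
    (hL : Group.IsSolvable L) (hPL : P ≤ L) (hP : IsPGroup p P) (hYL : Y ≤ L)
    (hYP : Y ≤ normalizer (P : Set G)) (hY : (Nat.card Y).Coprime p)
    (hn : L ⊓ normalizer (P : Set G) ≤ normalizer (Y : Set G)) :
    Y ≤ (pPrimeCore p L).map L.subtype := by
  have hmemN : ∀ (A : Subgroup G) (x : L), x ∈ normalizer ((A.subgroupOf L : Subgroup L) : Set L) →
      A ≤ L → (x : G) ∈ normalizer (A : Set G) := by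
    intro A x hx hAL
    rw [mem_normalizer_iff] at hx ⊢
    intro g
    constructor
    · intro hg
      have := (hx ⟨g, hAL hg⟩).1 (mem_subgroupOf.2 hg)
      simpa [mem_subgroupOf] using this
    · intro hg
      have hgL : g ∈ L := by
        have h1 : (x : G)⁻¹ * ((x : G) * g * (x : G)⁻¹) * (x : G) ∈ L :=
          L.mul_mem (L.mul_mem (L.inv_mem x.2) (hAL hg)) x.2
        have e : (x : G)⁻¹ * ((x : G) * g * (x : G)⁻¹) * (x : G) = g := by group
        rwa [e] at h1
      have := (hx ⟨g, hgL⟩).2 (by simpa [mem_subgroupOf] using hg)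
      simpa [mem_subgroupOf] using this
  have hmemN' : ∀ (A : Subgroup G) (x : L), (x : G) ∈ normalizer (A : Set G) →
      x ∈ normalizer ((A.subgroupOf L : Subgroup L) : Set L) := by
    intro A x hx
    rw [mem_normalizer_iff] at hx ⊢
    intro g
    have := hx (g : G)
    simpa [mem_subgroupOf] using this
  have h1 : Y.subgroupOf L ≤ pPrimeCore p L := by
    apply le_pPrimeCore_type (P := P.subgroupOf L) hP.comap_subtype
    · intro y hy
      exact hmemN' P y (hYP (mem_subgroupOf.1 hy))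
    · rw [Nat.card_congr (subgroupOfEquivOfLe hYL).toEquiv]
      exact hY
    · intro x hx
      exact hmemN' Y x (hn ⟨x.2, hmemN P x hx hPL⟩)
  have h2 := Subgroup.map_mono (f := L.subtype) h1
  rwa [map_subgroupOf_eq_of_le hYL] at h2

end Cfsg.Agent.Lib.H53MLBal
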