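import Cfsg.Agent.Lib.Helper55FF

set_option autoImplicit false

namespace Cfsg.Agent.Lib.H55GS

open Subgroup Cfsg Cfsg.Agent.Lib.Helper55FF
open scoped commutatorElement

variable {X : Type*} [Group X]

/-- piece `core` -/
theorem normalCore_centralizer (Z : Subgroup X) :
    (centralizer (Z : Set X)).normalCore = centralizer (normalClosure (Z : Set X) : Set X) := by
  apply le_antisymm
  · rw [le_centralizer_iff]
    apply normalClosure_le_normal
    intro z hz
    rw [SetLike.mem_coe, mem_centralizer_iff]
    intro a ha
    have h1 : a ∈ centralizer (Z : Set X) := normalCore_le _ ha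
    exact ((mem_centralizer_iff.1 h1) z hz).symm
  · have : (centralizer (normalClosure (Z : Set X) : Set X)).Normal := inferInstance
    apply normal_le_normalCore.2
    exact centralizer_le subset_normalClosure

end Cfsg.Agent.Lib.H55GS
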