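import Cfsg.Agent.Lib.Helper55FF

set_option autoImplicit false

namespace Cfsg.Agent.Lib.H55GS

open Subgroup Cfsg Cfsg.Agent.Lib.Helper55FF
open scoped commutatorElement

variable {X : Type*} [Group X]

/-- piece `om` -/
theorem omegaOne_props (p : ℕ) (V : Subgroup X) [hVn : V.Normal] (hV : IsMulCommutative V) :
    (omegaOne p V).Normal ∧ IsElementaryAbelian p (omegaOne p V) ∧ omegaOne p V ≤ V ∧
      ∀ v ∈ V, v ^ p = 1 → v ∈ omegaOne p V := by
  have hcomm : ∀ x ∈ V, ∀ y ∈ V, x * y = y * x := fun x hx y hy =>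
    congrArg Subtype.val ((isMulCommutative_iff.1 hV) ⟨x, hx⟩ ⟨y, hy⟩)
  refine ⟨?_, ?_, ?_, ?_⟩
  · unfold omegaOne
    constructor
    intro n hn g
    have h1 : closure {x : X | x ∈ V ∧ x ^ p = 1} ≤
        (closure {x : X | x ∈ V ∧ x ^ p = 1}).comap (MulAut.conj g).toMonoidHom := by
      rw [closure_le]
      rintro x ⟨hx, hxp⟩
      apply Subgroup.subset_closure
      refine ⟨hVn.conj_mem x hx g, ?_⟩
      show (g * x * g⁻¹) ^ p = 1
      rw [conj_pow, hxp]; group
    exact h1 hn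
  · unfold omegaOne
    apply Cfsg.Agent.Lib.Helper14ElemAb.elemAb_closure
    · rintro x ⟨hx, -⟩ y ⟨hy, -⟩
      exact hcomm x hx y hy
    · rintro x ⟨-, hx⟩
      exact hx
  · unfold omegaOne
    rw [closure_le]
    rintro x ⟨hx, -⟩
    exact hx
  · intro v hv hvp
    exact Subgroup.subset_closure ⟨hv, hvp⟩

end Cfsg.Agent.Lib.H55GS
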