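import Cfsg.Agent.Lib.H55GSodd
import Cfsg.Agent.Lib.H55GSom

set_option autoImplicit false

namespace Cfsg.Agent.Lib.H55GS

open Subgroup Cfsg Cfsg.Agent.Lib.Helper55FF
open scoped commutatorElement

variable {X : Type*} [Group X]

/-- piece `cv1` -/
theorem centralizer_omegaOne_eq [Finite X] {p : ℕ} [hp : Fact p.Prime] (V : Subgroup X) [hVn : V.Normal]
    (hV : IsMulCommutative V) (hVp : IsPGroup p V)
    (hO : pCore p (X ⧸ centralizer (V : Set X)) = ⊥) :
    centralizer (omegaOne p V : Set X) = centralizer (V : Set X) := by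
  obtain ⟨hn, -, hle, -⟩ := omegaOne_props p V hV
  apply le_antisymm _ (centralizer_le hle)
  set N : Subgroup X := centralizer (omegaOne p V : Set X) with hN
  set C : Subgroup X := centralizer (V : Set X) with hC
  have hNn : N.Normal := inferInstance
  have hkey : ∀ g ∈ N, ∃ k : ℕ, g ^ p ^ k ∈ C := by
    intro g hg
    obtain ⟨k, m, hm, hkm⟩ := Nat.exists_eq_pow_mul_and_not_dvd (orderOf_pos g).ne' p hp.out.ne_one
    refine ⟨k, ?_⟩
    have hord : orderOf (g ^ p ^ k) = m := by
      rw [orderOf_pow_of_dvd (pow_ne_zero _ hp.out.ne_zero) (hkm ▸ Dvd.intro _ rfl), hkm,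
        Nat.mul_div_cancel_left _ (pow_pos hp.out.pos _)]
    apply mem_centralizer_of_odd hV hVp
    · rw [normalizer_eq_top]; exact mem_top _
    · rw [hord]
      exact ((Nat.Prime.coprime_iff_not_dvd hp.out).2 hm).symm
    · exact N.pow_mem hg _
  have h1 : N.map (QuotientGroup.mk' C) ≤ pCore p (X ⧸ C) := by
    unfold Cfsg.pCore
    apply le_sSup
    refine ⟨hNn.map _ (QuotientGroup.mk'_surjective C), ?_⟩
    rintro ⟨_, g, hg, rfl⟩
    obtain ⟨k, hk⟩ := hkey g hg
    refine ⟨k, ?_⟩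
    apply Subtype.ext
    show (QuotientGroup.mk' C g) ^ p ^ k = 1
    rw [← map_pow]
    exact (QuotientGroup.eq_one_iff _).2 hk
  rw [hO, le_bot_iff, Subgroup.map_eq_bot_iff, QuotientGroup.ker_mk'] at h1
  exact h1

end Cfsg.Agent.Lib.H55GS
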