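import Cfsg.Prelude.Def_PLocal
import Cfsg.Agent.Lib.Helper53Syl

/-!
The abelian-version Thompson subgroup `J_A(S)` of a subgroup `S ≤ X`, described inside `X`.
-/

set_option autoImplicit false

namespace Cfsg.Agent.Lib.Helper53JA

open Cfsg Subgroup Cfsg.Agent.Lib.Helper53Rel Cfsg.Agent.Lib.Helper53Syl

variable {X : Type*} [Group X]

local notation "⟪" Q ", " g "⟫" => Subgroup.map (MulEquiv.toMonoidHom (MulAut.conj g)) Q

/-- `A` is an abelian subgroup of `S` of largest order. -/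
def MaxAbIn (A S : Subgroup X) : Prop :=
  A ≤ S ∧ IsMulCommutative A ∧
    ∀ B : Subgroup X, B ≤ S → IsMulCommutative B → Nat.card B ≤ Nat.card A

theorem card_subgroupOf {A S : Subgroup X} (hAS : A ≤ S) :
    Nat.card (A.subgroupOf S) = Nat.card A :=
  Nat.card_congr (subgroupOfEquivOfLe hAS).toEquiv

theorem maxAbIn_iff {A S : Subgroup X} (hAS : A ≤ S) :
    A.subgroupOf S ∈ maxAbelianSubgroups S ↔ MaxAbIn A S := by
  constructor
  · rintro ⟨h1, h2⟩
    refine ⟨hAS, ?_, ?_⟩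
    · refine .of_setLike_mul_comm fun a ha b hb => ?_
      have := setLike_mul_comm (s := A.subgroupOf S) (a := ⟨a, hAS ha⟩) (b := ⟨b, hAS hb⟩)
        (mem_subgroupOf.2 ha) (mem_subgroupOf.2 hb)
      exact congrArg Subtype.val this
    · intro B hBS hB
      have := h2 (B.subgroupOf S) (comap_injective_isMulCommutative B S.subtype_injective)
      rwa [card_subgroupOf hBS, card_subgroupOf hAS] at this
  · rintro ⟨-, h1, h2⟩
    refine ⟨comap_injective_isMulCommutative A S.subtype_injective, ?_⟩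
    intro B hB
    have := h2 (B.map S.subtype) (map_subtype_le B) inferInstance
    rw [card_subgroupOf hAS]
    rwa [← Nat.card_congr (B.equivMapOfInjective _ S.subtype_injective).toEquiv] at this

theorem exists_maxAbIn [Finite X] (S : Subgroup X) : ∃ A, MaxAbIn A S := by
  have hne : Nonempty {A : Subgroup X // A ≤ S ∧ IsMulCommutative A} :=
    ⟨⟨⊥, bot_le, .of_setLike_mul_comm (by
      intro a ha b hb
      rw [Subgroup.mem_bot.mp ha, Subgroup.mem_bot.mp hb])⟩⟩
  obtain ⟨⟨A, hA⟩, hmax⟩ := Finite.exists_max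
    (fun A : {A : Subgroup X // A ≤ S ∧ IsMulCommutative A} => Nat.card (A : Subgroup X))
  exact ⟨A, hA.1, hA.2, fun B hB1 hB2 => hmax ⟨B, hB1, hB2⟩⟩

theorem MaxAbIn.le_thompsonAOf {A S : Subgroup X} (h : MaxAbIn A S) :
    A ≤ thompsonSubgroupAOf S := by
  have h1 : A.subgroupOf S ≤ thompsonSubgroupA S := le_sSup ((maxAbIn_iff h.1).2 h)
  have h2 := Subgroup.map_mono (f := S.subtype) h1
  rwa [map_subgroupOf_eq_of_le h.1] at h2

theorem thompsonAOf_le {S K : Subgroup X} (h : ∀ A, MaxAbIn A S → A ≤ K) :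
    thompsonSubgroupAOf S ≤ K := by
  unfold thompsonSubgroupAOf thompsonSubgroupA
  rw [Subgroup.map_le_iff_le_comap]
  apply sSup_le
  intro A hA
  rw [← Subgroup.map_le_iff_le_comap]
  apply h
  rw [← maxAbIn_iff (map_subtype_le A), subgroupOf_map_subtype']
  exact hA

theorem thompsonAOf_le_self (S : Subgroup X) : thompsonSubgroupAOf S ≤ S := map_subtype_le _

theorem MaxAbIn.cj {A S : Subgroup X} (h : MaxAbIn A S) (g : X) : MaxAbIn ⟪A, g⟫ ⟪S, g⟫ := by
  obtain ⟨h1, h2, h3⟩ := h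
  refine ⟨cj_mono g h1, inferInstance, ?_⟩
  intro B hB hBc
  have h4 := h3 ⟪B, g⁻¹⟫ (by rw [cj_le_iff, inv_inv]; exact hB) inferInstance
  rwa [card_cj, ← card_cj A g] at h4

theorem thompsonAOf_cj_le (S : Subgroup X) (g : X) :
    ⟪thompsonSubgroupAOf S, g⟫ ≤ thompsonSubgroupAOf ⟪S, g⟫ := by
  rw [cj_le_iff]
  apply thompsonAOf_le
  intro A hA
  rw [← cj_le_iff]
  exact (hA.cj g).le_thompsonAOf

theorem thompsonAOf_cj (S : Subgroup X) (g : X) :
    thompsonSubgroupAOf ⟪S, g⟫ = ⟪thompsonSubgroupAOf S, g⟫ := by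
  apply le_antisymm _ (thompsonAOf_cj_le S g)
  have := thompsonAOf_cj_le ⟪S, g⟫ g⁻¹
  rwa [cj_inv_cj, cj_le_iff, inv_inv] at this

theorem normalizer_le_normalizer_thompsonAOf (S : Subgroup X) :
    normalizer (S : Set X) ≤ normalizer (thompsonSubgroupAOf S : Set X) := by
  intro g hg
  rw [← cj_eq_iff_mem_normalizer] at hg ⊢
  rw [← thompsonAOf_cj, hg]

/-- `J_A(D) = J_A(T)` whenever `J_A(T) ≤ D ≤ T`. -/
theorem thompsonAOf_eq_of_le [Finite X] {D T : Subgroup X} (hJD : thompsonSubgroupAOf T ≤ D)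
    (hDT : D ≤ T) : thompsonSubgroupAOf D = thompsonSubgroupAOf T := by
  obtain ⟨A0, hA0⟩ := exists_maxAbIn T
  apply le_antisymm
  · apply thompsonAOf_le
    intro A hA
    have : MaxAbIn A T := by
      refine ⟨hA.1.trans hDT, hA.2.1, fun B hB hBc => ?_⟩
      exact (hA0.2.2 B hB hBc).trans (hA.2.2 A0 (hA0.le_thompsonAOf.trans hJD) hA0.2.1)
    exact this.le_thompsonAOf
  · apply thompsonAOf_le
    intro A hA
    have : MaxAbIn A D :=
      ⟨hA.le_thompsonAOf.trans hJD, hA.2.1, fun B hB hBc => hA.2.2 B (hB.trans hDT) hBc⟩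
    exact this.le_thompsonAOf

end Cfsg.Agent.Lib.Helper53JA
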