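import Cfsg.Agent.Lib.Helper55FF
import Cfsg.Agent.Lib.Helper53JA

set_option autoImplicit false

namespace Cfsg.Agent.Lib.H55GS

open Subgroup Cfsg Cfsg.Agent.Lib.Helper55FF
open scoped commutatorElement

variable {X : Type*} [Group X]

/-- piece `frat` -/
theorem normalClosure_sup_normalizer [Finite X] {p : ℕ} [Fact p.Prime] (T : Sylow p X) :
    normalClosure (thompsonSubgroupAOf (T : Subgroup X) : Set X) ⊔
      normalizer (thompsonSubgroupAOf (T : Subgroup X) : Set X) = ⊤ := by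
  set J := thompsonSubgroupAOf (T : Subgroup X) with hJ
  set Y := normalClosure (J : Set X) with hY
  have hYn : Y.Normal := normalClosure_normal
  have hJY : J ≤ Y := le_normalClosure
  have hJT : J ≤ T := Cfsg.Agent.Lib.Helper53JA.thompsonAOf_le_self _
  have hnorm : (⊤ : Subgroup X) ≤ normalizer (Y : Set X) := by
    rw [normalizer_eq_top]
  have hsyl : Cfsg.Agent.Lib.Helper53Syl.IsSyl p ((T : Subgroup X) ⊓ Y) Y :=
    (Cfsg.Agent.Lib.Helper53Syl.isSyl_of_sylow_le T le_top).inf_normal le_top hnorm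
  have hJD : thompsonSubgroupAOf ((T : Subgroup X) ⊓ Y) = J :=
    Cfsg.Agent.Lib.Helper53JA.thompsonAOf_eq_of_le (le_inf hJT hJY) inf_le_left
  rw [eq_top_iff]
  intro g _
  obtain ⟨y, hy, m, hm, rfl⟩ := Cfsg.Agent.Lib.Helper53Syl.frattini hnorm hsyl (mem_top g)
  have hm' := Cfsg.Agent.Lib.Helper53JA.normalizer_le_normalizer_thompsonAOf _ hm
  rw [hJD] at hm'
  exact mul_mem (mem_sup_left hy) (mem_sup_right hm')

end Cfsg.Agent.Lib.H55GS
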