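import Cfsg.Agent.Lib.Helper55FF6
import Cfsg.Agent.Lib.Helper14ElemAb

set_option autoImplicit false

/-! Further consequences of the structure theorem for failure of factorization. -/

namespace Cfsg.Agent.Lib.Helper55FF

open Subgroup Cfsg.Agent.Lib.Helper55Act Cfsg.Agent.Lib.Helper55SL2
open scoped commutatorElement

variable {G : Type*} [Group G]

namespace FF

variable {p : ℕ} [hp : Fact p.Prime] {V H : Subgroup G}

namespace Base

variable {A A₁ A₂ : Subgroup G}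

theorem H_le_normalizer_R [Finite G] (h : FF p V H)
    (hS3 : H = ⨆ A : {A : Subgroup G // A ≤ H ∧ Cfsg.IsBestOffenderOn p V A}, (A : Subgroup G))
    (B : Base p V H A) : H ≤ normalizer (Rof p H A : Set G) := by
  refine (B.E_sup_eq h hS3).symm.le.trans (_root_.sup_le B.E_le_normalizer_R ?_)
  have h1 := B.commutator_E_C h hS3
  rw [commutator_eq_bot_iff_le_centralizer] at h1
  have h2 : H ⊓ centralizer ((⁅V, Eof p H A⁆ : Subgroup G) : Set G) ≤ centralizer (Rof p H A : Set G) := by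
    rw [le_centralizer_iff]
    exact (le_sup_left : Rof p H A ≤ Eof p H A).trans h1
  intro x hx
  rw [mem_normalizer_iff]
  intro y
  have h3 := mem_centralizer_iff.1 (h2 hx)
  constructor
  · intro hy
    have : x * y * x⁻¹ = y := by rw [← h3 y hy]; group
    rwa [this]
  · intro hy
    have h4 := h3 _ hy
    have : y = x * y * x⁻¹ := by
      have h5 : x * y * x⁻¹ * x = x * (x * y * x⁻¹) := h4
      have h6 : x * y = x * (x * y * x⁻¹) := by rw [← h5]; group
      exact mul_left_cancel h6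
    rwa [this]

theorem card_E_eq [Finite G] (h : FF p V H) (B : Base p V H A) :
    Nat.card ↥(Eof p H A) = Nat.card ↥(Rof p H A) * p := by
  have hAR : A ≤ normalizer (Rof p H A : Set G) :=
    (le_sup_right : A ≤ Eof p H A).trans B.E_le_normalizer_R
  have hcop : (Nat.card A).Coprime (Nat.card (Rof p H A)) :=
    coprime_card_of_isPGroup (isPGroup_of_card_prime B.hc)
      (Nat.Coprime.coprime_dvd_left (card_dvd_of_le B.R_le_Q) (card_Qof_coprime p H))
  rw [Eof, Cfsg.Agent.Lib.Helper30SZ.card_sup hAR hcop, B.hc]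

/-- `E ∩ O_{p'}(H) = R`. -/
theorem E_inf_Q [Finite G] (B : Base p V H A) : Eof p H A ⊓ Qof p H = Rof p H A := by
  apply le_antisymm _ (le_inf le_sup_left B.R_le_Q)
  rintro x ⟨hxE, hxQ⟩
  have hAR : A ≤ normalizer (Rof p H A : Set G) :=
    (le_sup_right : A ≤ Eof p H A).trans B.E_le_normalizer_R
  obtain ⟨ρ, hρ, a, ha, rfl⟩ := (Cfsg.Agent.Lib.Helper30SZ.mem_sup_iff hAR).1 hxE
  have haQ : a ∈ Qof p H := by
    have : a = ρ⁻¹ * (ρ * a) := by group
    rw [this]
    exact mul_mem (inv_mem (B.R_le_Q hρ)) hxQ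
  have ha1 : a = 1 :=
    eq_one_of_mem_of_coprime (isPGroup_of_card_prime B.hc) (card_Qof_coprime p H) ha haQ
  rw [ha1, mul_one]
  exact hρ

theorem R_eq_of_E_eq [Finite G] (B₁ : Base p V H A₁) (B₂ : Base p V H A₂)
    (hE : Eof p H A₁ = Eof p H A₂) : Rof p H A₁ = Rof p H A₂ := by
  rw [← B₁.E_inf_Q, ← B₂.E_inf_Q, hE]

/-- `[W, R] = W`. -/
theorem commutator_W_R [Finite G] (h : FF p V H) (B : Base p V H A) :
    ⁅⁅V, Eof p H A⁆, Rof p H A⁆ = ⁅V, Eof p H A⁆ := by
  set W : Subgroup G := ⁅V, Eof p H A⁆ with hW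
  have hWV : W ≤ V := B.W_le h
  haveI : IsMulCommutative W :=
    (Cfsg.Agent.Lib.Helper14ElemAb.elemAb_mono hWV h.hV).1
  have hRW : Rof p H A ≤ normalizer (W : Set G) :=
    (le_sup_left : Rof p H A ≤ Eof p H A).trans (B.E_le_normalizer_W h)
  have hcop : (Nat.card (Rof p H A)).Coprime (Nat.card W) :=
    Nat.Coprime.coprime_dvd_right (card_dvd_of_le hWV) (B.card_R_coprime h)
  obtain ⟨-, h2⟩ := Cfsg.Agent.S0055.result (Rof p H A) W hRW hcop
  have h3 : W ⊓ centralizer (Rof p H A : Set G) = ⊥ := by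
    rw [eq_bot_iff, ← B.W_inf h, ← B.centralizer_R_eq h]
    exact le_inf inf_le_left (le_inf (inf_le_left.trans hWV) inf_le_right)
  rw [h3, bot_sup_eq] at h2
  exact h2

end Base

/-- `H / O_{p'}(H)` has exponent `p`. -/
theorem pow_mem_Qof [Finite G] (h : FF p V H)
    (hS3 : H = ⨆ A : {A : Subgroup G // A ≤ H ∧ Cfsg.IsBestOffenderOn p V A}, (A : Subgroup G))
    {g : G} (hg : g ∈ H) : g ^ p ∈ Qof p H := by
  haveI hN : (Cfsg.pPrimeCore p ↥H).Normal := Cfsg.Agent.Lib.Helper40Cores.pPrimeCore_normal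
  set φ := QuotientGroup.mk' (Cfsg.pPrimeCore p ↥H) with hφ
  set 𝒮 : Set ↥H := {x | ∃ A, Base p V H A ∧ (x : G) ∈ A} with h𝒮
  have hker : ∀ x : ↥H, (x : G) ∈ Qof p H → φ x = 1 := by
    rintro x ⟨y, hy, hyx⟩
    have : y = x := Subtype.ext hyx
    rw [← this]
    exact (QuotientGroup.eq_one_iff _).2 hy
  have htop : closure 𝒮 = ⊤ := by
    rw [eq_top_iff]
    have h1 : H ≤ (closure 𝒮).map H.subtype := by
      apply h.le_of_bases hS3
      intro A B a ha
      exact ⟨⟨a, B.hAH ha⟩, subset_closure ⟨A, B, ha⟩, rfl⟩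
    intro x _
    obtain ⟨y, hy, hyx⟩ := h1 x.2
    have : y = x := Subtype.ext hyx
    rwa [← this]
  have hel : Cfsg.IsElementaryAbelian p (closure (φ '' 𝒮)) := by
    apply Cfsg.Agent.Lib.Helper14ElemAb.elemAb_closure
    · rintro _ ⟨x, ⟨A₁, B₁, hx⟩, rfl⟩ _ ⟨y, ⟨A₂, B₂, hy⟩, rfl⟩
      by_cases hW : ⁅V, Eof p H A₁⁆ = ⁅V, Eof p H A₂⁆
      · have hE := B₁.E_eq_of_W_eq h B₂ hW
        have hyE : (y : G) ∈ Eof p H A₁ := by
          rw [hE]; exact (le_sup_right : A₂ ≤ Eof p H A₂) hy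
        have hAR : A₁ ≤ normalizer (Rof p H A₁ : Set G) :=
          (le_sup_right : A₁ ≤ Eof p H A₁).trans B₁.E_le_normalizer_R
        obtain ⟨ρ, hρ, a, ha, hya⟩ := (Cfsg.Agent.Lib.Helper30SZ.mem_sup_iff hAR).1 hyE
        have hρH : ρ ∈ H := Qof_le p H (B₁.R_le_Q hρ)
        have e : y = ⟨ρ, hρH⟩ * ⟨a, B₁.hAH ha⟩ := Subtype.ext hya
        have e2 : φ y = φ ⟨a, B₁.hAH ha⟩ := by
          rw [e, map_mul, hker ⟨ρ, hρH⟩ (B₁.R_le_Q hρ), one_mul]
        rw [e2, ← map_mul, ← map_mul]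
        congr 1
        apply Subtype.ext
        exact comm_of_elemAb (h.elemAb_of_offender B₁.hAH B₁.hA) hx ha
      · have hc := B₁.commutator_E_eq_bot h B₂ hW
        rw [commutator_eq_bot_iff_le_centralizer] at hc
        have h1 := (mem_centralizer_iff.1 (hc ((le_sup_right : A₁ ≤ Eof p H A₁) hx))) (y : G)
          ((le_sup_right : A₂ ≤ Eof p H A₂) hy)
        rw [← map_mul, ← map_mul]
        congr 1
        apply Subtype.ext
        exact h1.symm
    · rintro _ ⟨x, ⟨A₁, B₁, hx⟩, rfl⟩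
      rw [← map_pow]
      have : x ^ p = 1 := by
        apply Subtype.ext
        exact (h.elemAb_of_offender B₁.hAH B₁.hA).2 _ hx
      rw [this, map_one]
  have h2 : φ ⟨g, hg⟩ ∈ closure (φ '' 𝒮) := by
    rw [← MonoidHom.map_closure, htop]
    exact ⟨_, mem_top _, rfl⟩
  have h3 := hel.2 _ h2
  rw [← map_pow] at h3
  exact ⟨_, (QuotientGroup.eq_one_iff _).1 h3, rfl⟩

end FF

end Cfsg.Agent.Lib.Helper55FF
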