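import Cfsg.Agent.Lib.H55GSsel
import Cfsg.Agent.Lib.Helper55FF7

set_option autoImplicit false

namespace Cfsg.Agent.Lib.H55GS

open Subgroup Cfsg Cfsg.Agent.Lib.Helper55FF Cfsg.Agent.Lib.Helper55Act
open scoped commutatorElement

variable {G : Type*} [Group G]

theorem kl_bot (p : ℕ) (V : Subgroup G) : IsBestOffenderOn p V ⊥ := by
  refine ⟨fun B hB => ?_, ?_, ?_⟩
  · rw [le_bot_iff.1 hB]
  · rw [commutator_bot_left]; exact bot_le
  · intro a ha
    rw [mem_bot.1 ha, one_pow]; exact one_mem _

/-- piece `kl` : in the failure-of-factorization setting for `p = 2`, every abelian 2-subgroup which is an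
offender is a best offender. -/
theorem offender_isBest_aux [Finite G] {V H : Subgroup G} (h : FF 2 V H) :
    ∀ (n : ℕ) (A : Subgroup G), Nat.card A = n → A ≤ H → IsMulCommutative A → IsPGroup 2 A →
      Nat.card V ≤ mm V A → IsBestOffenderOn 2 V A := by
  intro n
  induction n using Nat.strong_induction_on with
  | _ n ih =>
  intro A hn hAH hab h2 hoff
  by_cases hA1 : A = ⊥
  · rw [hA1]; exact kl_bot 2 V
  have hcomm : ∀ x ∈ A, ∀ y ∈ A, x * y = y * x := fun x hx y hy =>
    congrArg Subtype.val ((isMulCommutative_iff.1 hab) ⟨x, hx⟩ ⟨y, hy⟩)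
  have hfA : A ⊓ centralizer (V : Set G) = ⊥ := by
    rw [eq_bot_iff, ← h.hf]; exact inf_le_inf_right _ hAH
  obtain ⟨B, hBA, hB1, hBoff, hBmax⟩ :=
    exists_best_le h.hV (hAH.trans h.hHV) hfA hab h2 hA1 hoff
  have hmB : mm V B = Nat.card V := h.mm_eq_card _ B rfl (hBA.trans hAH) hBoff
  have hi : ∀ C ≤ A, mm V C ≤ mm V A := fun C hC => (hBmax C hC).trans (hmB ▸ hoff)
  obtain ⟨k, Bs, hBs, -, hsup⟩ := h.exists_decomp _ B rfl (hBA.trans hAH) hBoff
  have hk : 0 < k := by
    rcases Nat.eq_zero_or_pos k with rfl | hk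
    · exact absurd (by rw [← hsup]; simp) hB1
    · exact hk
  set B₁ : Subgroup G := Bs ⟨0, hk⟩ with hB₁
  have hB₁A : B₁ ≤ A := (hBs ⟨0, hk⟩).1.trans hBA
  have Bb : FF.Base 2 V H B₁ := ⟨hB₁A.trans hAH, (hBs _).2.1, (hBs _).2.2⟩
  set R : Subgroup G := Rof 2 H B₁ with hR
  set E : Subgroup G := Eof 2 H B₁ with hE
  set W : Subgroup G := ⁅V, E⁆ with hW
  have hR3 : Nat.card R = 3 := by
    have h1 := Bb.card_E_eq h
    have h2 := Bb.card_E h
    rw [card_SL2'] at h2
    rw [h2] at h1
    have h3 : Nat.card R * 2 = 6 := by rw [hR, ← h1]; norm_num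
    omega
  have hAR : A ≤ normalizer (R : Set G) :=
    Cfsg.Agent.Lib.Helper30SZ.le_normalizer_commutator (hAH.trans (le_normalizer_Qof 2 H))
      (le_normalizer_of_conj_mem fun a ha d hd => by
        rw [hcomm a ha d (hB₁A hd), mul_inv_cancel_right]; exact hd)
  obtain ⟨b, hbB, hb1⟩ := exists_ne_one_of_ne_bot (ne_bot_of_card_prime Bb.hc)
  have hB₁z : B₁ = zpowers b := eq_zpowers_of_card_prime Bb.hc hbB hb1
  have hb2 : b ^ 2 = 1 := by
    have := pow_card_eq_one' (G := B₁) (x := ⟨b, hbB⟩)
    rw [Bb.hc] at this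
    exact congrArg Subtype.val this
  have hbA : b ∈ A := hB₁A hbB
  -- `b` does not centralize `R`
  have hbR : b ∉ centralizer (R : Set G) := by
    intro hc
    have hI := (h.transvection Bb.hAH Bb.hA Bb.hc).1
    refine Bb.no_invariant_line h (I := ⁅V, B₁⁆) (commutator_mono le_rfl le_sup_right) hI ?_
    refine Cfsg.Agent.Lib.Helper30SZ.le_normalizer_commutator
      ((le_sup_left.trans Bb.E_le_H).trans h.hHV) ?_
    apply le_normalizer_of_conj_mem
    intro r hr d hd
    have h1 : B₁ ≤ centralizer (R : Set G) := by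
      rw [hB₁z]; exact zpowers_le.2 hc
    have h2 := (mem_centralizer_iff.1 (h1 hd)) r hr
    rw [h2, mul_inv_cancel_right]; exact hd
  obtain ⟨r, hrR, hr1⟩ := exists_ne_one_of_ne_bot (A := R) (by
    intro hbot
    rw [hbot] at hR3
    simp at hR3)
  have : Fact (Nat.Prime 3) := ⟨by norm_num⟩
  have hRz : R = zpowers r := eq_zpowers_of_card_prime hR3 hrR hr1
  have hr3 : r ^ 3 = 1 := by
    have := pow_card_eq_one' (G := R) (x := ⟨r, hrR⟩)
    rw [hR3] at this
    exact congrArg Subtype.val this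
  -- elements of `R`
  have hRmem : ∀ x ∈ R, x = 1 ∨ x = r ∨ x = r⁻¹ := by
    intro x hx
    rw [hRz] at hx
    obtain ⟨m, rfl⟩ := mem_zpowers_iff.1 hx
    have h3 : r ^ (3 : ℤ) = 1 := by exact_mod_cast hr3
    have hm : r ^ m = r ^ (m % 3) := by
      conv_lhs => rw [← Int.mul_ediv_add_emod m 3, zpow_add, zpow_mul, h3, one_zpow, one_mul]
    rw [hm]
    have h0 : 0 ≤ m % 3 := Int.emod_nonneg _ (by norm_num)
    have h4 : m % 3 < 3 := Int.emod_lt_of_pos _ (by norm_num)
    have : m % 3 = 0 ∨ m % 3 = 1 ∨ m % 3 = 2 := by omega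
    rcases this with h | h | h
    · left; rw [h, zpow_zero]
    · right; left; rw [h, zpow_one]
    · right; right
      rw [h]
      have : r ^ (2 : ℤ) * r = 1 := by
        have : r ^ (2 : ℤ) * r = r ^ (3 : ℤ) := by
          rw [show (3 : ℤ) = 2 + 1 by norm_num, zpow_add, zpow_one]
        rw [this, h3]
      exact eq_inv_of_mul_eq_one_left this
  have hconj : ∀ a ∈ A, a * r * a⁻¹ = r ∨ a * r * a⁻¹ = r⁻¹ := by
    intro a ha
    rcases hRmem _ (conj_mem_of_mem_normalizer (hAR ha) hrR) with h1 | h1 | h1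
    · exfalso
      apply hr1
      have : r = a⁻¹ * (a * r * a⁻¹) * a := by group
      rw [this, h1]; group
    · exact Or.inl h1
    · exact Or.inr h1
  have hcen : ∀ a : G, a * r * a⁻¹ = r → a ∈ centralizer (R : Set G) := by
    intro a ha
    have h1 : zpowers r ≤ centralizer {a} := by
      rw [zpowers_le, mem_centralizer_singleton_iff]
      symm
      calc a * r = a * r * a⁻¹ * a := by group
        _ = r * a := by rw [ha]
    rw [hRz, mem_centralizer_iff]
    intro x hx
    exact (mem_centralizer_singleton_iff.1 (h1 hx))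
  have hbr : b * r * b⁻¹ = r⁻¹ := by
    rcases hconj b hbA with h1 | h1
    · exact absurd (hcen b h1) hbR
    · exact h1
  set A₁ : Subgroup G := A ⊓ centralizer (R : Set G) with hA₁
  have hsplit : ∀ a ∈ A, a ∈ A₁ ∨ a * b ∈ A₁ := by
    intro a ha
    rcases hconj a ha with h1 | h1
    · exact Or.inl ⟨ha, hcen a h1⟩
    · refine Or.inr ⟨A.mul_mem ha hbA, hcen _ ?_⟩
      calc a * b * r * (a * b)⁻¹ = a * (b * r * b⁻¹) * a⁻¹ := by group
        _ = (a * r * a⁻¹)⁻¹ := by rw [hbr]; group
        _ = r := by rw [h1, inv_inv]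
  have hbA₁ : b ∉ A₁ := fun hc => hbR hc.2
  have hAsup : A = A₁ ⊔ zpowers b := by
    apply le_antisymm
    · intro a ha
      rcases hsplit a ha with h1 | h1
      · exact le_sup_left (a := A₁) h1
      · have : a = a * b * b⁻¹ := by group
        rw [this]
        exact mul_mem (le_sup_left (a := A₁) h1) (inv_mem (le_sup_right (a := A₁) (mem_zpowers b)))
    · exact sup_le inf_le_left (zpowers_le.2 hbA)
  have hcardA : Nat.card A = Nat.card A₁ * 2 := by
    conv_lhs => rw [hAsup]
    apply card_sup_zpowers_of_prime hb2 hbA₁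
    apply (le_normalizer_of_conj_mem (A := zpowers b) (D := A₁) _) (mem_zpowers b)
    intro x hx d hd
    have hxA : x ∈ A := (zpowers_le.2 hbA) hx
    rw [hcomm x hxA d hd.1, mul_inv_cancel_right]; exact hd
  -- `A₁` centralizes `E`
  have hA₁E : A₁ ≤ centralizer (E : Set G) := by
    rw [le_centralizer_iff]
    refine sup_le ?_ ?_
    · rw [← le_centralizer_iff]; exact inf_le_right
    · intro x hx
      rw [mem_centralizer_iff]
      intro a ha
      exact hcomm a ha.1 x (hB₁A hx)
  have hA₁V : A₁ ≤ normalizer (V : Set G) := (inf_le_left.trans hAH).trans h.hHV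
  have hA₁W : A₁ ≤ normalizer (W : Set G) := by
    refine Cfsg.Agent.Lib.Helper30SZ.le_normalizer_commutator hA₁V ?_
    apply le_normalizer_of_conj_mem
    intro a ha d hd
    have := (mem_centralizer_iff.1 (hA₁E ha)) d hd
    rw [← this, mul_inv_cancel_right]; exact hd
  have hWV : W ≤ V := Bb.W_le h
  have hVp : IsPGroup 2 V := isPGroup_of_elemAb h.hV
  have hW1 : W ≠ ⊥ := by
    intro hbot
    have := Bb.card_W h
    rw [← hE, ← hW, hbot] at this
    simp at this
  have hfix := Cfsg.Agent.Lib.Helper54Parabolic.inf_centralizer_ne_bot (h2.to_le inf_le_left)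
    (hVp.to_le hWV) hW1 hA₁W
  have hnot : ¬ V ⊓ centralizer (A₁ : Set G) ≤ centralizer (B₁ : Set G) := by
    intro hle
    apply hfix
    have h1 : V ⊓ centralizer (A₁ : Set G) ≤ V ⊓ centralizer (R : Set G) := by
      refine le_inf inf_le_left ?_
      intro v hv
      -- r v r⁻¹ is again fixed by A₁
      have hrV : r ∈ normalizer (V : Set G) := h.hHV (Bb.E_le_H (le_sup_left (a := R) hrR))
      have hrv : r * v * r⁻¹ ∈ V ⊓ centralizer (A₁ : Set G) := by
        refine mem_inf.2 ⟨conj_mem_of_mem_normalizer hrV hv.1, ?_⟩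
        rw [mem_centralizer_iff]
        intro a ha
        have e1 : a * r = r * a := ((mem_centralizer_iff.1 ha.2) r hrR).symm
        have e2 : a * v = v * a := (mem_centralizer_iff.1 hv.2) a ha
        have e3 : a * r⁻¹ = r⁻¹ * a := by
          have : r⁻¹ * (a * r) * r⁻¹ = r⁻¹ * (r * a) * r⁻¹ := by rw [e1]
          simpa [mul_assoc] using this.symm
        calc a * (r * v * r⁻¹) = (a * r) * v * r⁻¹ := by group
          _ = r * (a * v) * r⁻¹ := by rw [e1]; group
          _ = r * v * (a * r⁻¹) := by rw [e2]; group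
          _ = r * v * r⁻¹ * a := by rw [e3]; group
      have c1 : b * v = v * b := (mem_centralizer_iff.1 (hle hv)) b hbB
      have c2 : b * (r * v * r⁻¹) = r * v * r⁻¹ * b := (mem_centralizer_iff.1 (hle hrv)) b hbB
      have hbr' : b * r = r⁻¹ * b := by
        calc b * r = b * r * b⁻¹ * b := by group
          _ = r⁻¹ * b := by rw [hbr]
      have hbr'' : b * r⁻¹ = r * b := by
        have : b * r⁻¹ * b⁻¹ = r := by
          have := congrArg (·⁻¹) hbr
          simpa [mul_assoc] using this
        calc b * r⁻¹ = b * r⁻¹ * b⁻¹ * b := by group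
          _ = r * b := by rw [this]
      -- r⁻¹ v r = r v r⁻¹
      have c3 : r⁻¹ * v * r = r * v * r⁻¹ := by
        have : b * (r * v * r⁻¹) = r⁻¹ * v * r * b := by
          calc b * (r * v * r⁻¹) = (b * r) * v * r⁻¹ := by group
            _ = r⁻¹ * (b * v) * r⁻¹ := by rw [hbr']; group
            _ = r⁻¹ * v * (b * r⁻¹) := by rw [c1]; group
            _ = r⁻¹ * v * r * b := by rw [hbr'']; group
        rw [c2] at this
        exact (mul_right_cancel this).symm
      have hr2 : r * r = r⁻¹ := by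
        have : r * r * r = 1 := by rw [← hr3, pow_succ, pow_two]
        exact eq_inv_of_mul_eq_one_left this
      have c4 : r * v = v * r := by
        have e : r * r * v = v * (r * r) := by
          calc r * r * v = r * (r * v * r⁻¹) * r := by group
            _ = r * (r⁻¹ * v * r) * r := by rw [c3]
            _ = v * (r * r) := by group
        rw [hr2] at e
        calc r * v = r * (v * r⁻¹) * r := by group
          _ = r * (r⁻¹ * v) * r := by rw [e]
          _ = v * r := by group
      have h1 : zpowers r ≤ centralizer {v} := by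
        rw [zpowers_le, mem_centralizer_singleton_iff]
        exact c4
      rw [hRz, mem_centralizer_iff]
      intro x hx
      exact (mem_centralizer_singleton_iff.1 (h1 hx))
    rw [Bb.centralizer_R_eq h] at h1
    rw [eq_bot_iff, ← Bb.W_inf h]
    exact le_inf inf_le_left ((inf_le_inf_right _ hWV).trans h1)
  have hlt : V ⊓ centralizer (A : Set G) < V ⊓ centralizer (A₁ : Set G) := by
    refine lt_of_le_of_ne (inf_le_inf_left _ (centralizer_le inf_le_left)) ?_
    intro heq
    apply hnot
    rw [← heq]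
    exact inf_le_right.trans (centralizer_le hB₁A)
  have hmul := mul_card_le_of_lt (p := 2) (hVp.to_le inf_le_left) hlt
  have hoff₁ : Nat.card V ≤ mm V A₁ := by
    refine hoff.trans ?_
    unfold mm
    rw [hcardA]
    calc Nat.card A₁ * 2 * Nat.card ↥(V ⊓ centralizer (A : Set G))
        = Nat.card A₁ * (2 * Nat.card ↥(V ⊓ centralizer (A : Set G))) := by ring
      _ ≤ _ := Nat.mul_le_mul_left _ hmul
  have hlt₁ : Nat.card A₁ < n := by
    have : 0 < Nat.card A₁ := Nat.card_pos
    omega
  have hab₁ : IsMulCommutative A₁ := by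
    rw [isMulCommutative_iff]
    rintro ⟨x, hx⟩ ⟨y, hy⟩
    exact Subtype.ext (hcomm x hx.1 y hy.1)
  have hbest₁ := ih _ hlt₁ A₁ rfl (inf_le_left.trans hAH) hab₁ (h2.to_le inf_le_left) hoff₁
  refine ⟨hi, ?_, ?_⟩
  · have : ⁅A, A⁆ = ⊥ := by
      rw [commutator_eq_bot_iff_le_centralizer]
      intro x hx
      rw [mem_centralizer_iff]
      intro y hy
      exact hcomm y hy x hx
    rw [this]; exact bot_le
  · intro a ha
    rcases hsplit a ha with h1 | h1
    · exact hbest₁.2.2 a h1
    · have h3 := hbest₁.2.2 _ h1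
      have : (a * b) ^ 2 = a ^ 2 := by
        rw [(show Commute a b from hcomm a ha b hbA).mul_pow, hb2, mul_one]
      rwa [this] at h3

/-- piece `kl` -/
theorem offender_isBest [Finite G] {V H : Subgroup G} (h : FF 2 V H)
    (A : Subgroup G) (hA : A ≤ H) (hab : IsMulCommutative A) (h2 : IsPGroup 2 A)
    (hoff : Nat.card V ≤ mm V A) : IsBestOffenderOn 2 V A :=
  offender_isBest_aux h _ A rfl hA hab h2 hoff

end Cfsg.Agent.Lib.H55GS
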