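import Cfsg.Agent.Lib.Helper55FF
import Cfsg.Agent.S0600

set_option autoImplicit false

namespace Cfsg.Agent.Lib.H55GS

open Subgroup Cfsg Cfsg.Agent.Lib.Helper55FF
open Cfsg.Agent.Lib.Helper13Offender Cfsg.Agent.Lib.Helper13Basic Cfsg.Agent.Lib.Helper13Thompson Cfsg.Agent.Lib.Helper13Thompson2 Cfsg.Agent.Lib.Helper40Sylow
open scoped commutatorElement

variable {X : Type*} [Group X]

/-- piece `o2v` -/
theorem pCore_quot_centralizer_eq_bot [Finite X] {p : ℕ} [Fact p.Prime] (V : Subgroup X) [V.Normal]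
    (hgen : V = ⨆ S : Sylow p X, V ⊓ centralizer ((S : Subgroup X) : Set X)) :
    pCore p (X ⧸ centralizer (V : Set X)) = ⊥ := by
  unfold Cfsg.pCore
  rw [sSup_eq_bot]
  rintro N ⟨hNn, hNp⟩
  set C := centralizer (V : Set X) with hC
  set D := N.comap (QuotientGroup.mk' C) with hD
  haveI : D.Normal := hNn.comap _
  have hmap : D.map (QuotientGroup.mk' C) = N :=
    map_comap_eq_self_of_surjective (QuotientGroup.mk'_surjective C) N
  have hrel : ∃ k : ℕ, C.relIndex D = p ^ k := by
    obtain ⟨k, hk⟩ := IsPGroup.iff_card.mp hNp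
    refine ⟨k, ?_⟩
    have := relIndex_ker (QuotientGroup.mk' C) (K := D)
    rw [QuotientGroup.ker_mk', hmap, hk] at this
    exact this
  have hVD : V ≤ centralizer (D : Set X) := by
    rw [hgen]
    apply iSup_le
    intro S
    apply le_centralizer_of_sylow hrel S inf_le_right
    exact inf_le_left.trans (le_centralizer_iff.mp le_rfl)
  have hDC : D ≤ C := le_centralizer_iff.mp hVD
  rw [← hmap, ← le_bot_iff, map_le_iff_le_comap, MonoidHom.comap_bot, QuotientGroup.ker_mk']
  exact hDC

end Cfsg.Agent.Lib.H55GS
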