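import Cfsg.Agent.Lib.Helper55FF

set_option autoImplicit false

namespace Cfsg.Agent.Lib.H55GS

open Subgroup Cfsg Cfsg.Agent.Lib.Helper55FF
open scoped commutatorElement

variable {X : Type*} [Group X]

/-- piece `odd` -/
theorem mem_centralizer_of_odd [Finite X] {p : ℕ} [Fact p.Prime] {V : Subgroup X}
    (hV : IsMulCommutative V) (hVp : IsPGroup p V) {x : X} (hxV : x ∈ normalizer (V : Set X))
    (hx : (orderOf x).Coprime p) (hc : x ∈ centralizer (omegaOne p V : Set X)) :
    x ∈ centralizer (V : Set X) := by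
  have hcomm : ∀ a ∈ V, ∀ b ∈ V, a * b = b * a := fun a ha b hb =>
    congrArg Subtype.val (hV.is_comm.comm (⟨a, ha⟩ : V) ⟨b, hb⟩)
  have hconj : ∀ v ∈ V, x * v * x⁻¹ ∈ V := fun v hv => (Subgroup.mem_normalizer_iff.1 hxV v).1 hv
  have key : ∀ k : ℕ, ∀ v ∈ V, v ^ (p ^ k) = 1 → x * v * x⁻¹ = v := by
    intro k
    induction k with
    | zero =>
      intro v _ hv
      rw [pow_zero, pow_one] at hv
      subst hv
      simp
    | succ k ih =>
      intro v hv hvk
      obtain ⟨z, hz⟩ : ∃ z, z = x * v * x⁻¹ * v⁻¹ := ⟨_, rfl⟩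
      have hzV : z ∈ V := hz ▸ V.mul_mem (hconj v hv) (V.inv_mem hv)
      have hzp : z ^ p = 1 := by
        have h1 : (x * v * x⁻¹ * v⁻¹) ^ p = (x * v * x⁻¹) ^ p * (v⁻¹) ^ p :=
          Commute.mul_pow (hcomm _ (hconj v hv) _ (V.inv_mem hv)) p
        rw [hz, h1, conj_pow, ih (v ^ p) (V.pow_mem hv p)
          (by rw [← pow_mul, ← pow_succ']; exact hvk), inv_pow, mul_inv_cancel]
      have hzx : z * x = x * z :=
        Subgroup.mem_centralizer_iff.1 hc z (Subgroup.subset_closure ⟨hzV, hzp⟩)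
      have h3 : x * v * x⁻¹ = z * v := by rw [hz, inv_mul_cancel_right]
      have hpow : ∀ n : ℕ, x ^ n * v * (x ^ n)⁻¹ = z ^ n * v := by
        intro n
        induction n with
        | zero => simp
        | succ n ihn =>
          have h5 : x ^ (n + 1) * v * (x ^ (n + 1))⁻¹ = x * (x ^ n * v * (x ^ n)⁻¹) * x⁻¹ := by
            rw [pow_succ']
            group
          have h2 : z ^ n * x = x * z ^ n := (Commute.pow_left (show Commute z x from hzx) n).eq
          rw [h5, ihn]
          calc x * (z ^ n * v) * x⁻¹ = (x * z ^ n) * v * x⁻¹ := by simp only [mul_assoc]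
            _ = z ^ n * (x * v * x⁻¹) := by rw [← h2]; simp only [mul_assoc]
            _ = z ^ (n + 1) * v := by rw [h3, pow_succ, mul_assoc]
      have h4 := hpow (orderOf x)
      rw [pow_orderOf_eq_one, one_mul, inv_one, mul_one] at h4
      have h4' : z ^ orderOf x = 1 := by
        have := h4.symm
        rwa [mul_eq_right] at this
      have hz1 : z = 1 := by
        have h5 : orderOf z ∣ orderOf x := orderOf_dvd_of_pow_eq_one h4'
        have h6 : orderOf z ∣ p := orderOf_dvd_of_pow_eq_one hzp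
        have h7 := Nat.dvd_gcd h5 h6
        rw [Nat.Coprime.gcd_eq_one hx, Nat.dvd_one] at h7
        exact orderOf_eq_one_iff.1 h7
      rw [h3, hz1, one_mul]
  rw [Subgroup.mem_centralizer_iff]
  intro v hv
  obtain ⟨k, hk⟩ := hVp ⟨v, hv⟩
  have h1 := key k v hv (by simpa using congrArg Subtype.val hk)
  rw [mul_inv_eq_iff_eq_mul] at h1
  exact h1.symm

end Cfsg.Agent.Lib.H55GS
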