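import Cfsg.Agent.Lib.Helper55FF
import Cfsg.Agent.Lib.Helper53JA

set_option autoImplicit false

namespace Cfsg.Agent.Lib.H55GS

open Subgroup Cfsg Cfsg.Agent.Lib.Helper55FF
open scoped commutatorElement

variable {X : Type*} [Group X]

/-- auxiliary for `off`: the product formula. -/
theorem off_card_sup_mul {A B : Subgroup X} (h : B ≤ normalizer (A : Set X)) :
    Nat.card (A ⊔ B : Subgroup X) * Nat.card ↥(A ⊓ B) = Nat.card A * Nat.card B := by
  rw [Cfsg.Agent.Lib.Helper27Core.card_sup_eq h, mul_assoc, ← inf_relIndex_right,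
    mul_comm (_ : ℕ) (Nat.card ↥(A ⊓ B)),
    Cfsg.Agent.Lib.Helper27Core.card_mul_relIndex inf_le_right]

/-- piece `off` -/
theorem offender_card [Finite X] {V V₁ S A : Subgroup X} (hVn : V.Normal) (hVc : IsMulCommutative V)
    (hVS : V ≤ S) (hV₁ : V₁ ≤ V) (hC : centralizer (V₁ : Set X) = centralizer (V : Set X))
    (hAS : A ≤ S) (hA : A.subgroupOf S ∈ maxAbelianSubgroups S) :
    Nat.card V₁ * Nat.card ↥(A ⊓ centralizer (V₁ : Set X)) ≤
      Nat.card A * Nat.card ↥(V₁ ⊓ centralizer (A : Set X)) := by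
  obtain ⟨-, hAc, hAmax⟩ := (Cfsg.Agent.Lib.Helper53JA.maxAbIn_iff hAS).1 hA
  rw [hC]
  -- `B = V C_A(V)` is abelian
  have hBc : IsMulCommutative ↥(V ⊔ (A ⊓ centralizer (V : Set X)) : Subgroup X) := by
    have h : V ⊔ (A ⊓ centralizer (V : Set X)) =
        closure ((V : Set X) ∪ ((A ⊓ centralizer (V : Set X) : Subgroup X) : Set X)) := by
      rw [Subgroup.closure_union, closure_eq, closure_eq]
    rw [h]
    apply Subgroup.isMulCommutative_closure
    rintro x (hx | hx) y (hy | hy)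
    · exact setLike_mul_comm hx hy
    · exact (mem_centralizer_iff.1 hy.2) x hx
    · exact ((mem_centralizer_iff.1 hx.2) y hy).symm
    · exact setLike_mul_comm hx.1 hy.1
  have hB := hAmax _ (sup_le hVS (inf_le_left.trans hAS)) hBc
  have h1 := off_card_sup_mul (A := V) (B := A ⊓ centralizer (V : Set X))
    (by rw [normalizer_eq_top]; exact le_top)
  have h2 : Nat.card ↥(V ⊓ (A ⊓ centralizer (V : Set X))) ≤
      Nat.card ↥(V ⊓ centralizer (A : Set X)) := by
    apply Subgroup.card_le_of_le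
    refine inf_le_inf_left _ ?_
    intro x hx
    rw [mem_centralizer_iff]
    intro a ha
    exact setLike_mul_comm ha hx.1
  have hVcen : V ≤ centralizer (V₁ : Set X) := by
    intro x hx
    rw [mem_centralizer_iff]
    intro a ha
    exact setLike_mul_comm (hV₁ ha) hx
  have h3 := off_card_sup_mul (A := V₁) (B := V ⊓ centralizer (A : Set X))
    ((inf_le_left.trans hVcen).trans (Cfsg.Agent.Lib.Helper53Rel.centralizer_le_normalizer' V₁))
  have h4 : Nat.card ↥(V₁ ⊔ (V ⊓ centralizer (A : Set X)) : Subgroup X) ≤ Nat.card V :=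
    Subgroup.card_le_of_le (sup_le hV₁ inf_le_left)
  have h5 : V₁ ⊓ (V ⊓ centralizer (A : Set X)) = V₁ ⊓ centralizer (A : Set X) := by
    rw [← inf_assoc, inf_eq_left.2 hV₁]
  rw [h5] at h3
  have hpos : 0 < Nat.card V * Nat.card ↥(V ⊓ centralizer (A : Set X)) :=
    Nat.mul_pos Nat.card_pos Nat.card_pos
  apply Nat.le_of_mul_le_mul_right _ hpos
  calc Nat.card V₁ * Nat.card ↥(A ⊓ centralizer (V : Set X)) *
        (Nat.card V * Nat.card ↥(V ⊓ centralizer (A : Set X)))
      = (Nat.card V * Nat.card ↥(A ⊓ centralizer (V : Set X))) *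
        (Nat.card V₁ * Nat.card ↥(V ⊓ centralizer (A : Set X))) := by ring
    _ = (Nat.card ↥(V ⊔ (A ⊓ centralizer (V : Set X)) : Subgroup X) *
          Nat.card ↥(V ⊓ (A ⊓ centralizer (V : Set X)))) *
        (Nat.card ↥(V₁ ⊔ (V ⊓ centralizer (A : Set X)) : Subgroup X) *
          Nat.card ↥(V₁ ⊓ centralizer (A : Set X))) := by rw [h1, h3]
    _ ≤ (Nat.card A * Nat.card ↥(V ⊓ centralizer (A : Set X))) *
        (Nat.card V * Nat.card ↥(V₁ ⊓ centralizer (A : Set X))) :=
        Nat.mul_le_mul (Nat.mul_le_mul hB h2) (Nat.mul_le_mul_right _ h4)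
    _ = Nat.card A * Nat.card ↥(V₁ ⊓ centralizer (A : Set X)) *
        (Nat.card V * Nat.card ↥(V ⊓ centralizer (A : Set X))) := by ring

end Cfsg.Agent.Lib.H55GS
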