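import Cfsg.Agent.Lib.Helper55FF

set_option autoImplicit false

namespace Cfsg.Agent.Lib.H55GS

open Subgroup Cfsg Cfsg.Agent.Lib.Helper55FF
open scoped commutatorElement

variable {G : Type*} [Group G]

/-- piece `prod` -/
theorem exists_equiv_pi [Finite G] {H : Subgroup G} {ι : Type*} [Finite ι] (E : ι → Subgroup G)
    (hn : ∀ i, H ≤ normalizer (E i : Set G)) (hind : iSupIndep E) (hsup : ⨆ i, E i = H)
    (K : Type*) [Group K] (hiso : ∀ i, Nonempty (↥(E i) ≃* K)) :
    Nonempty (↥H ≃* (Fin (Nat.card ι) → K)) := by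
  classical
  have := Fintype.ofFinite ι
  have hle : ∀ i, E i ≤ H := fun i => hsup ▸ le_iSup E i
  have hcomm : Pairwise fun i j => ∀ x y : G, x ∈ E i → y ∈ E j → Commute x y := by
    intro i j hij x y hx hy
    have h1 : x * y * x⁻¹ * y⁻¹ ∈ E i := by
      have h2 : y * x⁻¹ * y⁻¹ ∈ E i :=
        (Subgroup.mem_normalizer_iff.1 (hn i (hle j hy)) _).1 ((E i).inv_mem hx)
      have h3 := (E i).mul_mem hx h2
      simpa only [mul_assoc] using h3
    have h2 : x * y * x⁻¹ * y⁻¹ ∈ E j := by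
      have h2 : x * y * x⁻¹ ∈ E j := (Subgroup.mem_normalizer_iff.1 (hn j (hle i hx)) _).1 hy
      exact (E j).mul_mem h2 ((E j).inv_mem hy)
    have h3 : x * y * x⁻¹ * y⁻¹ ∈ E i ⊓ E j := ⟨h1, h2⟩
    rw [(hind.pairwiseDisjoint hij).eq_bot, Subgroup.mem_bot] at h3
    rw [mul_inv_eq_one, mul_inv_eq_iff_eq_mul] at h3
    exact h3
  have hinj := Subgroup.injective_noncommPiCoprod_of_iSupIndep (hcomm := hcomm) hind
  have hrange : (Subgroup.noncommPiCoprod hcomm).range = H :=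
    (Subgroup.noncommPiCoprod_range (hcomm := hcomm)).trans hsup
  let e1 : (∀ i, E i) ≃* H := (MonoidHom.ofInjective hinj).trans (MulEquiv.subgroupCongr hrange)
  let e2 : (∀ i, E i) ≃* (ι → K) := MulEquiv.piCongrRight (fun i => (hiso i).some)
  let e3 : (ι → K) ≃* (Fin (Nat.card ι) → K) :=
    MulEquiv.arrowCongr (Finite.equivFin ι) (MulEquiv.refl K)
  exact ⟨e1.symm.trans (e2.trans e3)⟩

end Cfsg.Agent.Lib.H55GS
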