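import Cfsg.Agent.Lib.Helper55FF
import Cfsg.Agent.S0598
import Cfsg.Agent.Lib.Helper53Rel

set_option autoImplicit false

namespace Cfsg.Agent.Lib.H55GS

open Subgroup Cfsg Cfsg.Agent.Lib.Helper55FF
open scoped commutatorElement

variable {G : Type*} [Group G]

/-- auxiliary for `sel`: a `p`-group `Q` acting on a nontrivial `p`-group `B` satisfies `[B,Q] < B`. -/
theorem sel_eq_bot_of_commutator_eq_self [Finite G] {p : ℕ} [Fact p.Prime] {B Q : Subgroup G}
    (hB : IsPGroup p B) (hQ : IsPGroup p Q) (hQB : Q ≤ normalizer (B : Set G))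
    (h : ⁅B, Q⁆ = B) : B = ⊥ := by
  have hP : IsPGroup p (Q ⊔ B : Subgroup G) := hQ.to_sup_of_normal_right' hB hQB
  have hnil : Group.IsNilpotent (Q ⊔ B : Subgroup G) := hP.isNilpotent
  obtain ⟨n, hn⟩ := (isNilpotent_iff_lowerCentralSeries _).mp hnil
  have : ∀ n, B ≤ (Q ⊔ B).lowerCentralSeries n := by
    intro n
    induction n with
    | zero => exact le_sup_right
    | succ n ih =>
      rw [Subgroup.lowerCentralSeries_succ]
      conv_lhs => rw [← h]
      exact commutator_mono ih le_sup_left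
  rw [eq_bot_iff, ← hn]
  exact this n

/-- piece `sel` -/
theorem exists_best_le [Finite G] {p : ℕ} [Fact p.Prime] {V A : Subgroup G}
    (hV : IsElementaryAbelian p V) (hAV : A ≤ normalizer (V : Set G))
    (hf : A ⊓ centralizer (V : Set G) = ⊥) (hab : IsMulCommutative A) (hAp : IsPGroup p A)
    (hA1 : A ≠ ⊥) (hoff : Nat.card V ≤ mm V A) :
    ∃ B ≤ A, B ≠ ⊥ ∧ IsBestOffenderOn p V B ∧ ∀ C ≤ A, mm V C ≤ mm V B := by
  classical
  have hne : Nonempty {C : Subgroup G // C ≤ A} := ⟨⟨⊥, bot_le⟩⟩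
  obtain ⟨⟨C0, hC0A⟩, hC0⟩ :=
    Finite.exists_max (fun C : {C : Subgroup G // C ≤ A} => mm V (C : Subgroup G))
  have hC0' : ∀ C ≤ A, mm V C ≤ mm V C0 := fun C hC => hC0 ⟨C, hC⟩
  have hM : Nonempty {C : Subgroup G // C ≤ A ∧ C ≠ ⊥ ∧ ∀ C' ≤ A, mm V C' ≤ mm V C} := by
    by_cases h0 : C0 = ⊥
    · refine ⟨⟨A, le_rfl, hA1, fun C' hC' => ?_⟩⟩
      calc mm V C' ≤ mm V C0 := hC0' C' hC'
        _ = Nat.card V := by rw [h0, mm_bot]
        _ ≤ mm V A := hoff
    · exact ⟨⟨C0, hC0A, h0, hC0'⟩⟩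
  obtain ⟨⟨B, hBA, hB1, hBmax⟩, hBmin⟩ := Finite.exists_min
    (fun C : {C : Subgroup G // C ≤ A ∧ C ≠ ⊥ ∧ ∀ C' ≤ A, mm V C' ≤ mm V C} =>
      Nat.card (C : Subgroup G))
  have hBB : ⁅B, B⁆ ≤ centralizer (V : Set G) := by
    have : ⁅B, B⁆ = ⊥ := by
      rw [commutator_eq_bot_iff_le_centralizer]
      intro x hx
      rw [mem_centralizer_iff]
      intro y hy
      exact setLike_mul_comm (hBA hy) (hBA hx)
    rw [this]
    exact bot_le
  refine ⟨B, hBA, hB1, ⟨fun C hC => hBmax C (hC.trans hBA), hBB, ?_⟩, hBmax⟩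
  have hBV : B ≤ normalizer (V : Set G) := hBA.trans hAV
  obtain ⟨B', hB'B, hcase⟩ := Cfsg.Agent.S0598.result V B hV hBV hBB V le_rfl
  rcases hcase with hlt | ⟨hB'eq, hfix, hmm⟩
  · exact absurd hlt (not_lt.2 (hBmax B' (hB'B.trans hBA)))
  · have hWV : ⁅V, B⁆ ≤ V := Cfsg.Agent.Lib.Helper55Act.commutator_le_left hBV
    have hBW : B ≤ normalizer ((⁅V, B⁆ : Subgroup G) : Set G) :=
      Cfsg.Agent.Lib.Helper53Rel.le_normalizer_commutator hBV le_normalizer
    have hB'ne : B' ≠ ⊥ := by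
      intro h0
      have hVdec : V = ⁅V, B⁆ ⊔ (V ⊓ centralizer (B : Set G)) := by
        rw [← hfix, h0]
        symm
        rw [inf_eq_left]
        intro v _
        rw [mem_centralizer_iff]
        intro y hy
        have : y = 1 := hy
        simp [this]
      have hnorm : ⁅V, B⁆ ≤ normalizer ((V ⊓ centralizer (B : Set G) : Subgroup G) : Set G) := by
        refine le_trans ?_ (Cfsg.Agent.Lib.Helper53Rel.centralizer_le_normalizer' _)
        intro w hw
        rw [mem_centralizer_iff]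
        intro c hc
        exact comm_of_elemAb hV hc.1 (hWV hw)
      have hWW : ⁅⁅V, B⁆, B⁆ = ⁅V, B⁆ := by
        apply le_antisymm (Cfsg.Agent.Lib.Helper55Act.commutator_le_left hBW)
        rw [commutator_le]
        intro v hv b hb
        rw [hVdec] at hv
        obtain ⟨w, hw, c, hc, rfl⟩ :=
          (Cfsg.Agent.Lib.Helper53Rel.mem_sup_of_le_normalizer hnorm).1 hv
        have hcb : b * c = c * b := (mem_centralizer_iff.1 hc.2) b hb
        have : ⁅w * c, b⁆ = ⁅w, b⁆ := by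
          simp only [commutatorElement_def, mul_inv_rev]
          calc w * c * b * (c⁻¹ * w⁻¹) * b⁻¹ = w * (c * b) * c⁻¹ * w⁻¹ * b⁻¹ := by group
            _ = w * (b * c) * c⁻¹ * w⁻¹ * b⁻¹ := by rw [hcb]
            _ = w * b * w⁻¹ * b⁻¹ := by group
        rw [this]
        exact commutator_mem_commutator hw hb
      have hW0 : ⁅V, B⁆ = ⊥ :=
        sel_eq_bot_of_commutator_eq_self ((isPGroup_of_elemAb hV).to_le hWV) (hAp.to_le hBA) hBW hWW
      have h1 : B ≤ A ⊓ centralizer (V : Set G) :=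
        le_inf hBA (Cfsg.Agent.Lib.Helper55Act.commutator_eq_bot_iff.1 hW0)
      rw [hf] at h1
      exact hB1 (eq_bot_iff.2 h1)
    have hB'B' : B' = B := by
      have := hBmin ⟨B', hB'B.trans hBA, hB'ne, fun C' hC' => (hBmax C' hC').trans hmm.le⟩
      exact Subgroup.eq_of_le_of_card_ge hB'B this
    have hBC : B ≤ centralizer ((⁅V, B⁆ : Subgroup G) : Set G) :=
      inf_eq_left.1 (hB'B'.symm.trans hB'eq).symm
    intro b hb
    exact Cfsg.Agent.Lib.Helper55Act.pow_mem_centralizer_of_stab (W := ⁅V, B⁆)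
      (fun w hw => hV.2 w (hWV hw)) (fun v hv => commutator_mem_commutator hv hb) (hBC hb)

end Cfsg.Agent.Lib.H55GS
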