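import Cfsg.Agent.Lib.Helper55FF

set_option autoImplicit false

namespace Cfsg.Agent.Lib.H55GS

open Subgroup Cfsg Cfsg.Agent.Lib.Helper55FF
open scoped commutatorElement

variable {G : Type*} [Group G]

/-- the three non-zero vectors. -/
def sl2s3_enc : Fin 3 → (Fin 2 → ZMod 2) := ![![1, 0], ![0, 1], ![1, 1]]

/-- index of a non-zero vector. -/
def sl2s3_dec (v : Fin 2 → ZMod 2) : Fin 3 := if v 0 = 0 then 1 else if v 1 = 0 then 0 else 2

/-- action of a matrix on the indices. -/
def sl2s3_act (g : Matrix (Fin 2) (Fin 2) (ZMod 2)) (i : Fin 3) : Fin 3 :=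
  sl2s3_dec (g.mulVec (sl2s3_enc i))

theorem sl2s3_act_mul : ∀ (g h : Matrix.SpecialLinearGroup (Fin 2) (ZMod 2)) (i : Fin 3),
    sl2s3_act (g * h).1 i = sl2s3_act g.1 (sl2s3_act h.1 i) := by
  decide +kernel

theorem sl2s3_act_one : ∀ i : Fin 3,
    sl2s3_act (1 : Matrix.SpecialLinearGroup (Fin 2) (ZMod 2)).1 i = i := by
  decide +kernel

theorem sl2s3_act_inj : ∀ (g h : Matrix.SpecialLinearGroup (Fin 2) (ZMod 2)),
    (∀ i : Fin 3, sl2s3_act g.1 i = sl2s3_act h.1 i) → g = h := by
  decide +kernel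

theorem sl2s3_card : Fintype.card (Matrix.SpecialLinearGroup (Fin 2) (ZMod 2)) = 6 := by
  decide +kernel

/-- piece `sl2s3` -/
theorem sl2_two_equiv_perm :
    Nonempty (Matrix.SpecialLinearGroup (Fin 2) (ZMod 2) ≃* Equiv.Perm (Fin 3)) := by
  let φ : Matrix.SpecialLinearGroup (Fin 2) (ZMod 2) →* Equiv.Perm (Fin 3) :=
    { toFun := fun g => ⟨sl2s3_act g.1, sl2s3_act (g⁻¹).1,
        fun i => by rw [← sl2s3_act_mul, inv_mul_cancel, sl2s3_act_one],
        fun i => by rw [← sl2s3_act_mul, mul_inv_cancel, sl2s3_act_one]⟩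
      map_one' := by
        ext i
        exact congrArg Fin.val (sl2s3_act_one i)
      map_mul' := by
        intro g h
        ext i
        exact congrArg Fin.val (sl2s3_act_mul g h i) }
  have hinj : Function.Injective φ := by
    intro g h hgh
    exact sl2s3_act_inj g h (fun i => DFunLike.congr_fun hgh i)
  have hbij : Function.Bijective φ := by
    rw [Fintype.bijective_iff_injective_and_card]
    refine ⟨hinj, ?_⟩
    rw [sl2s3_card, Fintype.card_perm, Fintype.card_fin]
    rfl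
  exact ⟨MulEquiv.ofBijective φ hbij⟩

end Cfsg.Agent.Lib.H55GS
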