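import Cfsg.Agent.Lib.Helper55FF5

set_option autoImplicit false

/-! Failure of factorization (Kurzweil–Stellmacher 9.3.7): the structure theorem. -/

namespace Cfsg.Agent.Lib.Helper55FF

open Subgroup Cfsg.Agent.Lib.Helper55Act Cfsg.Agent.Lib.Helper55SL2
open scoped commutatorElement

variable {G : Type*} [Group G]

theorem le_normalizer_iSup {ι : Sort*} {K : Subgroup G} {W : ι → Subgroup G}
    (h : ∀ i, K ≤ normalizer (W i : Set G)) : K ≤ normalizer ((⨆ i, W i : Subgroup G) : Set G) := by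
  apply le_normalizer_of_conj_mem
  intro k hk d hd
  have h1 : (⨆ i, W i : Subgroup G).map (MulAut.conj k).toMonoidHom ≤ ⨆ i, W i := by
    rw [Subgroup.map_iSup]
    refine iSup_le fun i => le_trans ?_ (le_iSup W i)
    rintro _ ⟨w, hw, rfl⟩
    exact conj_mem_of_mem_normalizer (h i hk) hw
  exact h1 ⟨d, hd, rfl⟩

namespace FF

variable {p : ℕ} [hp : Fact p.Prime] {V H : Subgroup G}

theorem exists_base [Finite G] (h : FF p V H)
    (hS3 : H = ⨆ A : {A : Subgroup G // A ≤ H ∧ Cfsg.IsBestOffenderOn p V A}, (A : Subgroup G))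
    (hH1 : H ≠ ⊥) : ∃ A, Base p V H A := by
  by_contra hcon
  push Not at hcon
  exact hH1 (eq_bot_iff.2 (h.le_of_bases hS3 fun A B => absurd B (hcon A)))

theorem structure_thm [Finite G] (h : FF p V H)
    (hS3 : H = ⨆ A : {A : Subgroup G // A ≤ H ∧ Cfsg.IsBestOffenderOn p V A}, (A : Subgroup G))
    (hH1 : H ≠ ⊥) {ι : Type*} (E : ι → Subgroup G)
    (hE : ∀ i, ∃ A, Base p V H A ∧ E i = Eof p H A) (hinj : Function.Injective E)
    (hsurj : ∀ A, Base p V H A → ∃ i, E i = Eof p H A) :
    (p = 2 ∨ p = 3) ∧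
    (∀ i, H ≤ normalizer (E i : Set G) ∧ Nonempty (↥(E i) ≃* SL2 p) ∧
      Nat.card ↥(⁅V, E i⁆) = p ^ 2) ∧
    iSupIndep E ∧ (⨆ i, E i) = H ∧
    iSupIndep (fun o : Option ι => o.elim (V ⊓ centralizer (H : Set G)) (fun i => ⁅V, E i⁆)) ∧
    (V ⊓ centralizer (H : Set G)) ⊔ (⨆ i, ⁅V, E i⁆) = V := by
  haveI := h.hV.1
  have hEH : ∀ i, E i ≤ H := by
    intro i
    obtain ⟨A, B, hA⟩ := hE i
    rw [hA]; exact B.E_le_H
  -- distinct members centralize each other's planes
  have hcen : ∀ i j, i ≠ j → E j ≤ centralizer ((⁅V, E i⁆ : Subgroup G) : Set G) := by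
    intro i j hij
    obtain ⟨A, B, hA⟩ := hE i
    obtain ⟨A', B', hA'⟩ := hE j
    rw [hA, hA']
    apply B.le_centralizer_W_of_ne h B'
    intro hW
    apply hij
    apply hinj
    rw [hA, hA']
    exact B.E_eq_of_W_eq h B' hW
  have hsup : (⨆ i, E i) = H := by
    apply le_antisymm (iSup_le hEH)
    apply h.le_of_bases hS3
    intro A B
    obtain ⟨i, hi⟩ := hsurj A B
    exact (le_sup_right : A ≤ Eof p H A).trans (hi.symm.le.trans (le_iSup E i))
  have hQV : Qof p H ≤ normalizer (V : Set G) := (Qof_le p H).trans h.hHV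
  have hcop : (Nat.card (Qof p H)).Coprime (Nat.card V) :=
    (coprime_card_of_isPGroup (isPGroup_of_elemAb h.hV) (card_Qof_coprime p H)).symm
  obtain ⟨hd1, hd2⟩ := Cfsg.Agent.S0055.result (Qof p H) V hQV hcop
  have hWQ : ∀ i, ⁅V, E i⁆ ≤ ⁅V, Qof p H⁆ := by
    intro i
    obtain ⟨A, B, hA⟩ := hE i
    rw [hA, ← B.commutator_R_eq h]
    exact commutator_mono le_rfl B.R_le_Q
  refine ⟨?_, ?_, ?_, hsup, ?_, ?_⟩
  · obtain ⟨A, B⟩ := h.exists_base hS3 hH1
    exact (B.E_equiv h).1
  · intro i
    obtain ⟨A, B, hA⟩ := hE i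
    rw [hA]
    exact ⟨B.H_le_normalizer_E h hS3, (B.E_equiv h).2, B.card_W h⟩
  · rw [iSupIndep_def]
    intro i
    obtain ⟨A, B, hA⟩ := hE i
    have h1 : (⨆ (j) (_ : j ≠ i), E j) ≤ centralizer ((⁅V, E i⁆ : Subgroup G) : Set G) :=
      iSup₂_le fun j hj => hcen i j hj.symm
    refine Disjoint.mono_right h1 ?_
    rw [disjoint_iff, hA]
    exact B.E_faithful h
  · rw [iSupIndep_def]
    intro o
    cases o with
    | none =>
      have h1 : (⨆ (o') (_ : o' ≠ (none : Option ι)),
          o'.elim (V ⊓ centralizer (H : Set G)) (fun i => ⁅V, E i⁆)) ≤ ⁅V, Qof p H⁆ := by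
        refine iSup₂_le fun o' ho' => ?_
        cases o' with
        | none => exact absurd rfl ho'
        | some i => exact hWQ i
      refine Disjoint.mono (inf_le_inf_left _ (centralizer_le (Qof_le p H))) h1 ?_
      rw [disjoint_iff]
      exact hd1
    | some i =>
      obtain ⟨A, B, hA⟩ := hE i
      have h1 : (⨆ (o') (_ : o' ≠ some i),
          o'.elim (V ⊓ centralizer (H : Set G)) (fun i => ⁅V, E i⁆)) ≤
          V ⊓ centralizer (E i : Set G) := by
        refine iSup₂_le fun o' ho' => ?_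
        cases o' with
        | none => exact inf_le_inf_left _ (centralizer_le (hEH i))
        | some j =>
          have hji : j ≠ i := fun hji => ho' (by rw [hji])
          refine le_inf (commutator_le_left ((hEH j).trans h.hHV)) ?_
          exact le_centralizer_iff.1 (hcen j i hji)
      refine Disjoint.mono_right h1 ?_
      rw [disjoint_iff]
      show ⁅V, E i⁆ ⊓ (V ⊓ centralizer (E i : Set G)) = ⊥
      rw [hA]
      exact B.W_inf h
  · apply le_antisymm
    · exact sup_le inf_le_left (iSup_le fun i => commutator_le_left ((hEH i).trans h.hHV))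
    · set U : Subgroup G := ⨆ i, ⁅V, E i⁆ with hU
      have hHU : H ≤ normalizer (U : Set G) := by
        apply le_normalizer_iSup
        intro i
        obtain ⟨A, B, hA⟩ := hE i
        rw [hA]
        exact B.H_le_normalizer_W h hS3
      have hact : H ≤ actTriv V U := by
        refine hsup.symm.le.trans ?_
        refine iSup_le fun i => le_actTriv ((hEH i).trans hHU) (le_iSup (fun i => ⁅V, E i⁆) i)
      have h1 : ⁅V, Qof p H⁆ ≤ U :=
        (commutator_mono le_rfl (Qof_le p H)).trans (commutator_le_of_le_actTriv hact)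
      have h2 : V ⊓ centralizer (Qof p H : Set G) ≤ V ⊓ centralizer (H : Set G) := by
        refine le_inf inf_le_left ?_
        rw [le_centralizer_iff]
        refine hsup.symm.le.trans ?_
        refine iSup_le fun i => ?_
        obtain ⟨A, B, hA⟩ := hE i
        rw [hA, le_centralizer_iff]
        have h3 : V ⊓ centralizer (Qof p H : Set G) ≤ V ⊓ centralizer (Rof p H A : Set G) :=
          inf_le_inf_left _ (centralizer_le B.R_le_Q)
        rw [B.centralizer_R_eq h] at h3
        exact h3.trans inf_le_right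
      calc V = (V ⊓ centralizer (Qof p H : Set G)) ⊔ ⁅V, Qof p H⁆ := hd2.symm
        _ ≤ _ := sup_le_sup h2 h1

end FF

end Cfsg.Agent.Lib.Helper55FF
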