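import Cfsg.Agent.Lib.H55GSprod
import Cfsg.Agent.Lib.H55GSsl2s3
import Cfsg.Agent.Lib.Helper55FF7
import Cfsg.Agent.S0617

set_option autoImplicit false

namespace Cfsg.Agent.Lib.H55GS

open Subgroup Cfsg Cfsg.Agent.Lib.Helper55FF
open scoped commutatorElement

variable {G : Type*} [Group G]

/-- piece `str` : abstract end of the argument. -/
theorem exists_equiv_of_FF [Finite G] {V H : Subgroup G} (h : FF 2 V H)
    (hS3 : H = ⨆ A : {A : Subgroup G // A ≤ H ∧ IsBestOffenderOn 2 V A}, (A : Subgroup G))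
    (hH1 : H ≠ ⊥) : ∃ n : ℕ, 1 ≤ n ∧ Nonempty (↥H ≃* (Fin n → Equiv.Perm (Fin 3))) := by
  obtain ⟨-, hE, hind, hsup, -, -⟩ := Cfsg.Agent.S0617.result V H h.hV h.hHV h.hf h.hS1 hS3 hH1
  obtain ⟨e0⟩ := sl2_two_equiv_perm
  have h1 := exists_equiv_pi (H := H) _ (fun i => (hE i).1) hind hsup (Equiv.Perm (Fin 3))
    (fun i => (hE i).2.1.map (fun e => e.trans e0))
  refine ⟨_, ?_, h1⟩
  rw [Nat.succ_le_iff, Nat.card_pos_iff]
  refine ⟨?_, inferInstance⟩
  by_contra hcon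
  rw [not_nonempty_iff] at hcon
  apply hH1
  rw [← hsup, iSup_of_empty]

end Cfsg.Agent.Lib.H55GS
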