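import Cfsg.Agent.Lib.Helper55FF
import Cfsg.Agent.S0552

set_option autoImplicit false

namespace Cfsg.Agent.Lib.H55GS

open Subgroup Cfsg Cfsg.Agent.Lib.Helper55FF
open scoped commutatorElement

variable {X : Type*} [Group X]

/-- piece `vle` -/
theorem normalClosure_center_le [Finite X] [Group.IsSolvable X]
    (hF : fittingSubgroup X = pCore 2 X) (T : Sylow 2 X) :
    normalClosure (((T : Subgroup X) ⊓ centralizer ((T : Subgroup X) : Set X) : Subgroup X) : Set X) ≤
      pCore 2 X ⊓ centralizer (pCore 2 X : Set X) := by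
  have hn : (pCore 2 X).Normal := Cfsg.Agent.Lib.Helper40Cores.pCore_normal
  apply normalClosure_le_normal
  intro z hz
  have hRT : pCore 2 X ≤ (T : Subgroup X) := Cfsg.Agent.Lib.Helper40Cores.pCore_le_sylow T
  have h1 : z ∈ centralizer (pCore 2 X : Set X) := centralizer_le hRT hz.2
  have h2 := Cfsg.Agent.S0552.centralizer_fitting_le (G := X)
  rw [hF] at h2
  exact ⟨h2 h1, h1⟩

end Cfsg.Agent.Lib.H55GS
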