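import Cfsg.Agent.Lib.Helper55FF
import Cfsg.Agent.Lib.Helper53JA

set_option autoImplicit false

namespace Cfsg.Agent.Lib.H55GS

open Subgroup Cfsg Cfsg.Agent.Lib.Helper55FF
open scoped commutatorElement

variable {X : Type*} [Group X]

/-- piece `ygen` -/
theorem normalClosure_thompsonA [Finite X] {p : ℕ} [Fact p.Prime] (T : Sylow p X) :
    (∀ (S : Sylow p X) (A : Subgroup X), A ≤ S → A.subgroupOf S ∈ maxAbelianSubgroups S →
      A ≤ normalClosure (thompsonSubgroupAOf (T : Subgroup X) : Set X)) ∧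
    ∀ K : Subgroup X, (∀ (S : Sylow p X) (A : Subgroup X), A ≤ S →
      A.subgroupOf S ∈ maxAbelianSubgroups S → A ≤ K) →
      normalClosure (thompsonSubgroupAOf (T : Subgroup X) : Set X) ≤ K := by
  have hcoe : ∀ g : X, ((g • T : Sylow p X) : Subgroup X) =
      (T : Subgroup X).map (MulAut.conj g).toMonoidHom := fun g => by
    rw [Sylow.coe_subgroup_smul]
    rfl
  constructor
  · intro S A hAS hA
    obtain ⟨g, rfl⟩ := MulAction.exists_smul_eq X T S
    have h1 := ((Cfsg.Agent.Lib.Helper53JA.maxAbIn_iff hAS).1 hA).le_thompsonAOf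
    rw [hcoe, Cfsg.Agent.Lib.Helper53JA.thompsonAOf_cj] at h1
    refine h1.trans ?_
    rintro _ ⟨x, hx, rfl⟩
    exact (normalClosure_normal (s := (thompsonSubgroupAOf (T : Subgroup X) : Set X))).conj_mem x
      (le_normalClosure hx) g
  · intro K hK
    unfold normalClosure
    rw [closure_le]
    intro x hx
    obtain ⟨a, ha, hax⟩ := Group.mem_conjugatesOfSet_iff.1 hx
    obtain ⟨g, rfl⟩ := isConj_iff.1 hax
    have h1 : g * a * g⁻¹ ∈ thompsonSubgroupAOf ((g • T : Sylow p X) : Subgroup X) := by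
      rw [hcoe, Cfsg.Agent.Lib.Helper53JA.thompsonAOf_cj]
      exact ⟨a, ha, rfl⟩
    exact Cfsg.Agent.Lib.Helper53JA.thompsonAOf_le
      (fun A hA => hK (g • T) A hA.1 ((Cfsg.Agent.Lib.Helper53JA.maxAbIn_iff hA.1).2 hA)) h1

end Cfsg.Agent.Lib.H55GS
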