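import Cfsg.Agent.Lib.Helper55Sub

set_option autoImplicit false

/-! Kurzweil–Stellmacher 9.3.6: two subnormal subgroups acting irreducibly on incomparable commutators. -/

namespace Cfsg.Agent.Lib.Helper55Sub

open Subgroup Cfsg.Agent.Lib.Helper55Act Cfsg.Agent.Lib.Helper55FF Cfsg.Agent.Lib.Helper58Subnormal
open scoped commutatorElement

variable {G : Type*} [Group G]

/-- ambient data -/
structure Amb (p : ℕ) (V X : Subgroup G) : Prop where
  hV : Cfsg.IsElementaryAbelian p V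
  hN : X ≤ normalizer (V : Set G)
  hf : X ⊓ centralizer (V : Set G) = ⊥
  hO : ∀ P, Sn P X → IsPGroup p P → P = ⊥

structure Good (V X E : Subgroup G) : Prop where
  sn : Sn E X
  irr : ∀ U : Subgroup G, U ≤ ⁅V, E⁆ → E ≤ normalizer (U : Set G) → U = ⊥ ∨ U = ⁅V, E⁆
  card : 2 < Nat.card E

theorem cjg_mono (g : G) {A B : Subgroup G} (h : A ≤ B) : cjg g A ≤ cjg g B := map_mono h

theorem cjg_inv_cjg (g : G) (A : Subgroup G) : cjg g⁻¹ (cjg g A) = A := by
  rw [cjg_cjg, inv_mul_cancel]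
  ext x
  simp [cjg]

theorem cjg_cjg_inv (g : G) (A : Subgroup G) : cjg g (cjg g⁻¹ A) = A := by
  rw [cjg_cjg, mul_inv_cancel]
  ext x
  simp [cjg]

theorem cjg_bot (g : G) : cjg g (⊥ : Subgroup G) = ⊥ := Subgroup.map_bot _

theorem mem_cjg {g x : G} {A : Subgroup G} : x ∈ cjg g A ↔ g⁻¹ * x * g ∈ A := by
  constructor
  · rintro ⟨a, ha, rfl⟩
    simpa [MulAut.conj_apply, mul_assoc] using ha
  · intro h
    exact ⟨_, h, by simp [MulAut.conj_apply, mul_assoc]⟩

theorem conj_mem_cjg {g a : G} {A : Subgroup G} (ha : a ∈ A) : g * a * g⁻¹ ∈ cjg g A := ⟨a, ha, rfl⟩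

theorem cjg_le_centralizer {g : G} {A B : Subgroup G} (h : A ≤ centralizer (B : Set G)) :
    cjg g A ≤ centralizer (cjg g B : Set G) := by
  rintro _ ⟨a, ha, rfl⟩
  rw [mem_centralizer_iff]
  rintro _ ⟨b, hb, rfl⟩
  have := (mem_centralizer_iff.1 (h ha)) b hb
  simp only [MulEquiv.coe_toMonoidHom, MulAut.conj_apply]
  calc g * b * g⁻¹ * (g * a * g⁻¹) = g * (b * a) * g⁻¹ := by group
    _ = g * (a * b) * g⁻¹ := by rw [this]
    _ = _ := by group

theorem cjg_commutator_V {V : Subgroup G} {g : G} (hg : g ∈ normalizer (V : Set G)) (E : Subgroup G) :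
    ⁅V, cjg g E⁆ = cjg g ⁅V, E⁆ := by
  have h2 := cjg_commutator g V E
  rw [cjg_eq_of_mem_normalizer hg] at h2
  exact h2.symm

namespace Amb

variable {p : ℕ} {V X : Subgroup G}

theorem good_cjg (a : Amb p V X) {E : Subgroup G} (hE : Good V X E) {g : G} (hg : g ∈ X) :
    Good V X (cjg g E) where
  sn := hE.sn.conj (le_normalizer hg)
  irr := by
    intro U hU hn
    have hgV := a.hN hg
    rw [cjg_commutator_V hgV] at hU ⊢
    have h1 : cjg g⁻¹ U ≤ ⁅V, E⁆ := by
      have := cjg_mono g⁻¹ hU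
      rwa [cjg_inv_cjg] at this
    have h2 : E ≤ normalizer (cjg g⁻¹ U : Set G) := by
      have := Cfsg.Agent.Lib.Helper55Core.map_conj_le_normalizer g⁻¹ hn
      have h3 : cjg g⁻¹ (cjg g E) ≤ normalizer (cjg g⁻¹ U : Set G) := this
      rwa [cjg_inv_cjg] at h3
    rcases hE.irr _ h1 h2 with h3 | h3
    · left
      have := congrArg (cjg g) h3
      rwa [cjg_cjg_inv, cjg_bot] at this
    · right
      have := congrArg (cjg g) h3
      rwa [cjg_cjg_inv] at this
  card := by rw [card_cjg]; exact hE.card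

theorem le_X (_a : Amb p V X) {E : Subgroup G} (hE : Good V X E) : E ≤ X := hE.sn.le

theorem W_le (a : Amb p V X) {E : Subgroup G} (hE : Good V X E) : ⁅V, E⁆ ≤ V :=
  commutator_le_left (hE.sn.le.trans a.hN)

theorem le_normalizer_W (a : Amb p V X) {E : Subgroup G} (hE : Good V X E) :
    E ≤ normalizer ((⁅V, E⁆ : Subgroup G) : Set G) :=
  Cfsg.Agent.Lib.Helper30SZ.le_normalizer_commutator (hE.sn.le.trans a.hN) le_normalizer

theorem ne_bot (_a : Amb p V X) {E : Subgroup G} (hE : Good V X E) : E ≠ ⊥ := by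
  rintro rfl
  have := hE.card
  simp at this

/-- `C_E(W) = 1`. -/
theorem inf_centralizer_W (a : Amb p V X) {E : Subgroup G} (hE : Good V X E) :
    E ⊓ centralizer ((⁅V, E⁆ : Subgroup G) : Set G) = ⊥ := by
  apply a.hO
  · refine Sn.trans (NormIn.sn ⟨inf_le_left, ?_⟩) hE.sn
    exact Cfsg.Agent.Lib.Helper55Core.le_normalizer_inf_centralizer le_normalizer (a.le_normalizer_W hE)
  · exact isPGroup_of_stab' a.hV a.hf (inf_le_left.trans hE.sn.le) (a.W_le hE)
      (commutator_mono le_rfl inf_le_left) inf_le_right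

/-- `C_W(E) = 1`. -/
theorem W_inf_centralizer (a : Amb p V X) {E : Subgroup G} (hE : Good V X E) :
    ⁅V, E⁆ ⊓ centralizer (E : Set G) = ⊥ := by
  rcases hE.irr _ inf_le_left (Cfsg.Agent.Lib.Helper55Core.le_normalizer_inf_centralizer
    (a.le_normalizer_W hE) le_normalizer) with h1 | h1
  · exact h1
  · exfalso
    have h2 : E ≤ E ⊓ centralizer ((⁅V, E⁆ : Subgroup G) : Set G) :=
      le_inf le_rfl (le_centralizer_iff.1 (inf_eq_left.1 h1))
    rw [a.inf_centralizer_W hE] at h2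
    exact a.ne_bot hE (eq_bot_iff.2 h2)

theorem W_ne_bot (a : Amb p V X) {E : Subgroup G} (hE : Good V X E) : ⁅V, E⁆ ≠ ⊥ := by
  intro h
  have h1 : E ≤ X ⊓ centralizer (V : Set G) :=
    le_inf hE.sn.le (Cfsg.Agent.Lib.Helper55Act.commutator_eq_bot_iff.1 h)
  rw [a.hf] at h1
  exact a.ne_bot hE (eq_bot_iff.2 h1)

/-- the conclusion -/
def Concl (V E₁ E₂ : Subgroup G) : Prop :=
  ⁅E₁, E₂⁆ = ⊥ ∧ ⁅V, E₁⁆ ⊓ ⁅V, E₂⁆ = ⊥ ∧ E₂ ≤ centralizer ((⁅V, E₁⁆ : Subgroup G) : Set G) ∧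
    E₁ ≤ centralizer ((⁅V, E₂⁆ : Subgroup G) : Set G)

theorem Concl.symm {V E₁ E₂ : Subgroup G} (h : Concl V E₁ E₂) : Concl V E₂ E₁ :=
  ⟨by rw [commutator_comm]; exact h.1, by rw [inf_comm]; exact h.2.1, h.2.2.2, h.2.2.1⟩

/-- Step 1: the case where `E₂` normalizes `[V,E₁]`. -/
theorem concl_of_normalizes [Finite G] (a : Amb p V X) {E₁ E₂ : Subgroup G} (h₁ : Good V X E₁)
    (h₂ : Good V X E₂) (h21 : ¬ ⁅V, E₂⁆ ≤ ⁅V, E₁⁆)
    (hn : E₂ ≤ normalizer ((⁅V, E₁⁆ : Subgroup G) : Set G)) : Concl V E₁ E₂ := by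
  have hinf : ⁅V, E₁⁆ ⊓ ⁅V, E₂⁆ = ⊥ := by
    rcases h₂.irr _ inf_le_right ((le_inf hn (a.le_normalizer_W h₂)).trans
      inf_normalizer_le_normalizer_inf) with h | h
    · exact h
    · exact absurd (inf_eq_right.1 h) h21
  have hc : ⁅⁅V, E₁⁆, E₂⁆ = ⊥ := by
    rw [eq_bot_iff, ← hinf]
    exact le_inf (commutator_le_left hn) (commutator_mono (a.W_le h₁) le_rfl)
  have hcomm : ⁅E₁, E₂⁆ = ⊥ := by
    obtain ⟨P, hP, hPp, hle⟩ := commutator_le_pgroup a.hV a.hN a.hf h₁.sn h₂.sn hc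
    rw [a.hO P hP hPp] at hle
    exact eq_bot_iff.2 hle
  refine ⟨hcomm, hinf, Cfsg.Agent.Lib.Helper55Act.commutator_eq_bot_iff.1 hc, ?_⟩
  have h1 : E₁ ≤ centralizer (E₂ : Set G) := commutator_eq_bot_iff_le_centralizer.1 hcomm
  have hn' : E₁ ≤ normalizer ((⁅V, E₂⁆ : Subgroup G) : Set G) :=
    Cfsg.Agent.Lib.Helper30SZ.le_normalizer_commutator (h₁.sn.le.trans a.hN)
      (h1.trans (centralizer_le_normalizer _))
  apply Cfsg.Agent.Lib.Helper55Act.commutator_eq_bot_iff.1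
  rw [eq_bot_iff, ← hinf]
  exact le_inf (commutator_mono (a.W_le h₂) le_rfl) (commutator_le_left hn')

theorem mem_normalizer_of_cjg_eq {g : G} {W : Subgroup G} (h : cjg g W = W) :
    g ∈ normalizer (W : Set G) := by
  rw [mem_normalizer_iff]
  intro x
  constructor
  · intro hx
    rw [← h]; exact conj_mem_cjg hx
  · intro hx
    rw [← h, mem_cjg] at hx
    simpa [mul_assoc] using hx

theorem card_le_two_of_subset {E : Subgroup G} {h₀ : G} (h : ∀ y ∈ E, y = 1 ∨ y = h₀) :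
    Nat.card E ≤ 2 := by
  have h1 : (E : Set G) ⊆ {1, h₀} := fun y hy => by
    rcases h y hy with h | h
    · exact Or.inl h
    · exact Or.inr h
  have h2 : Nat.card (E : Set G) = (E : Set G).ncard := Nat.card_coe_set_eq _
  have h3 : (E : Set G).ncard ≤ ({1, h₀} : Set G).ncard := Set.ncard_le_ncard h1 (Set.toFinite _)
  have h4 : ({1, h₀} : Set G).ncard ≤ 2 := by
    have := Set.ncard_insert_le (1 : G) {h₀}
    rwa [Set.ncard_singleton] at this
  calc Nat.card E = (E : Set G).ncard := h2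
    _ ≤ 2 := h3.trans h4

/-- conjugates moving the commutator: apply the induction hypothesis. -/
theorem concl_conj [Finite G] (a : Amb p V X) {n : ℕ}
    (ih : ∀ m < n, ∀ E₁ E₂ : Subgroup G, Nat.card ↥(E₁ ⊔ E₂) = m → Good V X E₁ → Good V X E₂ →
      ¬ ⁅V, E₁⁆ ≤ ⁅V, E₂⁆ → ¬ ⁅V, E₂⁆ ≤ ⁅V, E₁⁆ → Concl V E₁ E₂)
    {F F' : Subgroup G} (hF : Good V X F) (hF' : F' ≤ X) (hn : Nat.card ↥(F ⊔ F') = n)
    (hnn : ¬ F' ≤ normalizer ((⁅V, F⁆ : Subgroup G) : Set G)) {g : G} (hg : g ∈ F ⊔ F')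
    (hgW : cjg g ⁅V, F⁆ ≠ ⁅V, F⁆) : Concl V F (cjg g F) := by
  set E : Subgroup G := F ⊔ F' with hE
  have hEX : E ≤ X := sup_le hF.sn.le hF'
  have hsn : Sn F E := hF.sn.of_le le_sup_left hEX
  have hne : F ≠ E := by
    intro h
    apply hnn
    have : F' ≤ F := by rw [h]; exact le_sup_right
    exact this.trans (a.le_normalizer_W hF)
  obtain ⟨N, hN, hFN, hNE⟩ := hsn.exists_normIn_of_ne hne
  have hcj : cjg g F ≤ N := by
    rintro _ ⟨x, hx, rfl⟩
    exact Cfsg.Agent.Lib.Helper55Act.conj_mem_of_mem_normalizer (hN.2 hg) (hFN.le hx)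
  have hlt : Nat.card ↥(F ⊔ cjg g F) < n := by
    rw [← hn]
    exact lt_of_le_of_lt (Nat.le_of_dvd Nat.card_pos (card_dvd_of_le (sup_le hFN.le hcj)))
      (card_lt_of_ne hN.1 hNE)
  have hgV : g ∈ normalizer (V : Set G) := a.hN (hEX hg)
  apply ih _ hlt F (cjg g F) rfl hF (a.good_cjg hF (hEX hg))
  · rw [cjg_commutator_V hgV]
    intro hle
    exact hgW (Subgroup.eq_of_le_of_card_ge hle (by rw [card_cjg])).symm
  · rw [cjg_commutator_V hgV]
    intro hle
    exact hgW (Subgroup.eq_of_le_of_card_ge hle (by rw [card_cjg]))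

theorem main [Finite G] (a : Amb p V X) : ∀ (n : ℕ) (E₁ E₂ : Subgroup G), Nat.card ↥(E₁ ⊔ E₂) = n →
    Good V X E₁ → Good V X E₂ → ¬ ⁅V, E₁⁆ ≤ ⁅V, E₂⁆ → ¬ ⁅V, E₂⁆ ≤ ⁅V, E₁⁆ → Concl V E₁ E₂ := by
  intro n
  induction n using Nat.strong_induction_on with
  | _ n ih =>
    intro E₁ E₂ hn h₁ h₂ h12 h21
    by_cases hn1 : E₂ ≤ normalizer ((⁅V, E₁⁆ : Subgroup G) : Set G)
    · exact a.concl_of_normalizes h₁ h₂ h21 hn1
    by_cases hn2 : E₁ ≤ normalizer ((⁅V, E₂⁆ : Subgroup G) : Set G)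
    · exact (a.concl_of_normalizes h₂ h₁ h12 hn2).symm
    exfalso
    set W₁ : Subgroup G := ⁅V, E₁⁆ with hW₁
    set W₂ : Subgroup G := ⁅V, E₂⁆ with hW₂
    have hn' : Nat.card ↥(E₂ ⊔ E₁) = n := by rw [sup_comm]; exact hn
    have hVc : ∀ {x y : G}, x ∈ V → y ∈ V → x * y = y * x := fun hx hy => comm_of_elemAb a.hV hx hy
    obtain ⟨g, hgE, hgN⟩ := SetLike.not_le_iff_exists.1 hn1
    have hgW : cjg g W₁ ≠ W₁ := fun h => hgN (mem_normalizer_of_cjg_eq h)
    have hgV : g ∈ normalizer (V : Set G) := a.hN (h₂.sn.le hgE)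
    have K1 := a.concl_conj ih h₁ h₂.sn.le hn hn1 (le_sup_right (a := E₁) hgE) hgW
    rw [Concl, cjg_commutator_V hgV] at K1
    obtain ⟨-, K1b, K1c, K1d⟩ := K1
    have inv : ∀ h ∈ E₁, h ∉ normalizer (W₂ : Set G) → ∀ w ∈ W₁, h * w * h⁻¹ = w⁻¹ := by
      intro h hhE hhN w hw
      have hhW : cjg h W₂ ≠ W₂ := fun h' => hhN (mem_normalizer_of_cjg_eq h')
      have hhV : h ∈ normalizer (V : Set G) := a.hN (h₁.sn.le hhE)
      have K2 := a.concl_conj ih h₂ h₁.sn.le hn' hn2 (le_sup_right (a := E₂) hhE) hhW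
      rw [Concl, cjg_commutator_V hhV] at K2
      obtain ⟨-, -, -, K2d⟩ := K2
      have hwV : w ∈ V := a.W_le h₁ hw
      set c : G := g * w * g⁻¹ with hc
      set b : G := h * w * h⁻¹ with hb
      have hcW : c ∈ cjg g W₁ := conj_mem_cjg hw
      have hbW : b ∈ W₁ := Cfsg.Agent.Lib.Helper55Act.conj_mem_of_mem_normalizer (a.le_normalizer_W h₁ hhE) hw
      have hcV : c ∈ V := Cfsg.Agent.Lib.Helper55Act.conj_mem_of_mem_normalizer hgV hwV
      have hbV : b ∈ V := a.W_le h₁ hbW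
      have huW : c * w⁻¹ ∈ W₂ := by
        have h1 : ⁅g, w⁆ ∈ ⁅E₂, V⁆ := commutator_mem_commutator hgE hwV
        rw [commutator_comm, commutatorElement_def] at h1
        exact h1
      have hhc : h * c * h⁻¹ = c := by
        have := (mem_centralizer_iff.1 (K1d hhE)) c hcW
        rw [← this]; group
      have hhu : h * (c * w⁻¹) * h⁻¹ = c * b⁻¹ := by
        calc h * (c * w⁻¹) * h⁻¹ = (h * c * h⁻¹) * (h * w * h⁻¹)⁻¹ := by group
          _ = c * b⁻¹ := by rw [hhc]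
      have hgu : g * (c * b⁻¹) * g⁻¹ = c * b⁻¹ := by
        have h1 : c * b⁻¹ ∈ cjg h W₂ := hhu ▸ conj_mem_cjg huW
        have := (mem_centralizer_iff.1 (K2d hgE)) _ h1
        rw [← this]; group
      set a₂ : G := g * c * g⁻¹ with ha₂
      set d : G := g * b * g⁻¹ with hd
      have ha₂V : a₂ ∈ V := Cfsg.Agent.Lib.Helper55Act.conj_mem_of_mem_normalizer hgV hcV
      have hdV : d ∈ V := Cfsg.Agent.Lib.Helper55Act.conj_mem_of_mem_normalizer hgV hbV
      have hdW : d ∈ cjg g W₁ := conj_mem_cjg hbW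
      have h1 : a₂ * d⁻¹ = c * b⁻¹ := by
        rw [← hgu, ha₂, hd]; group
      have h2 : a₂ = c * d * b⁻¹ := by
        have : a₂ = c * b⁻¹ * d := by rw [← h1]; group
        rw [this, mul_assoc, hVc (V.inv_mem hbV) hdV, ← mul_assoc]
      have ha₂' : a₂ = (g * g) * w * (g * g)⁻¹ := by rw [ha₂, hc]; group
      by_cases hgg : cjg (g * g) W₁ = W₁
      · have h3 : a₂ ∈ W₁ := by
          rw [← hgg, ha₂']; exact conj_mem_cjg hw
        have h4 : c * d ∈ W₁ ⊓ cjg g W₁ := by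
          refine ⟨?_, mul_mem hcW hdW⟩
          have : c * d = a₂ * b := by rw [h2]; group
          rw [this]
          exact W₁.mul_mem h3 hbW
        rw [K1b] at h4
        have h5 : c * d = 1 := h4
        have h6 : g * (w * b) * g⁻¹ = 1 := by
          rw [← h5, hc, hd]; group
        have h7 : w * b = 1 := by
          have : w * b = g⁻¹ * (g * (w * b) * g⁻¹) * g := by group
          rw [this, h6]; group
        exact (eq_inv_of_mul_eq_one_right h7)
      · have K3 := a.concl_conj ih h₁ h₂.sn.le hn hn1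
          (le_sup_right (a := E₁) (E₂.mul_mem hgE hgE)) hgg
        obtain ⟨-, -, K3c, -⟩ := K3
        have K4 : cjg (g * g) E₁ ≤ centralizer (cjg g W₁ : Set G) := by
          rw [← cjg_cjg]
          exact cjg_le_centralizer K1c
        have h3 : a₂ ∈ centralizer (cjg (g * g) E₁ : Set G) := by
          rw [h2]
          exact mul_mem (mul_mem (le_centralizer_iff.1 K4 hcW) (le_centralizer_iff.1 K4 hdW))
            (inv_mem (le_centralizer_iff.1 K3c hbW))
        have h4 : w ∈ W₁ ⊓ centralizer (E₁ : Set G) := by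
          refine ⟨hw, ?_⟩
          show w ∈ centralizer (E₁ : Set G)
          rw [mem_centralizer_iff]
          intro e he
          have h5 := (mem_centralizer_iff.1 h3) _ (conj_mem_cjg (g := g * g) he)
          rw [ha₂'] at h5
          have h6 : (g * g) * (e * w) * (g * g)⁻¹ = (g * g) * (w * e) * (g * g)⁻¹ := by
            calc (g * g) * (e * w) * (g * g)⁻¹
                = (g * g) * e * (g * g)⁻¹ * ((g * g) * w * (g * g)⁻¹) := by group
              _ = (g * g) * w * (g * g)⁻¹ * ((g * g) * e * (g * g)⁻¹) := h5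
              _ = _ := by group
          exact mul_left_cancel (mul_right_cancel h6)
        rw [a.W_inf_centralizer h₁] at h4
        have h5 : w = 1 := h4
        rw [hb, h5]; simp
    obtain ⟨h₀, hh₀E, hh₀N⟩ := SetLike.not_le_iff_exists.1 hn2
    have hfaith := a.inf_centralizer_W h₁
    have hcard : Nat.card E₁ ≤ 2 := by
      apply card_le_two_of_subset (h₀ := h₀)
      intro y hy
      by_cases hyN : y ∈ normalizer (W₂ : Set G)
      · left
        have h1 : h₀ * y ∉ normalizer (W₂ : Set G) := by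
          intro h
          apply hh₀N
          have := mul_mem h (inv_mem hyN)
          simpa using this
        have h2 : y ∈ E₁ ⊓ centralizer (W₁ : Set G) := by
          refine ⟨hy, ?_⟩
          show y ∈ centralizer (W₁ : Set G)
          rw [mem_centralizer_iff]
          intro w hw
          have h3 := inv _ (E₁.mul_mem hh₀E hy) h1 w hw
          have h4 := inv _ hh₀E hh₀N w hw
          have h5 : h₀ * (y * w * y⁻¹) * h₀⁻¹ = h₀ * w * h₀⁻¹ := by
            rw [h4, ← h3]; group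
          have h6 : y * w * y⁻¹ = w := mul_left_cancel (mul_right_cancel h5)
          exact (mul_inv_eq_iff_eq_mul.1 h6).symm
        rw [hfaith] at h2
        exact h2
      · right
        have h2 : h₀⁻¹ * y ∈ E₁ ⊓ centralizer (W₁ : Set G) := by
          refine ⟨E₁.mul_mem (E₁.inv_mem hh₀E) hy, ?_⟩
          show h₀⁻¹ * y ∈ centralizer (W₁ : Set G)
          rw [mem_centralizer_iff]
          intro w hw
          have h3 := inv _ hy hyN w hw
          have h4 := inv _ hh₀E hh₀N w hw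
          have h5 : y * w * y⁻¹ = h₀ * w * h₀⁻¹ := by rw [h3, h4]
          have h6 : y * w = h₀ * w * h₀⁻¹ * y := mul_inv_eq_iff_eq_mul.1 h5
          calc w * (h₀⁻¹ * y) = h₀⁻¹ * (h₀ * w * h₀⁻¹ * y) := by group
            _ = h₀⁻¹ * (y * w) := by rw [h6]
            _ = h₀⁻¹ * y * w := by group
        rw [hfaith] at h2
        have h3 : h₀⁻¹ * y = 1 := h2
        exact (inv_mul_eq_one.1 h3).symm
    exact absurd h₁.card (not_lt.2 hcard)

end Amb

end Cfsg.Agent.Lib.Helper55Sub
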