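import Cfsg.Agent.Lib.H55XFdefs
import Cfsg.Agent.Lib.Helper55SL2
import Cfsg.Agent.Lib.Helper55Sub2

set_option autoImplicit false

namespace Cfsg.Agent.Lib.H55XF

open Subgroup Cfsg Cfsg.Agent.Lib.Helper55FF Cfsg.Agent.Lib.Helper55Hol Cfsg.Agent.Lib.Helper55SL2
  Cfsg.Agent.Lib.Helper55Sub
open scoped commutatorElement

variable {G : Type*} [Group G]

theorem inf_centralizer_cjg_le {V : Subgroup G} {x : G} (hx : x ∈ normalizer (V : Set G))
    (B : Subgroup G) :
    cjg x (V ⊓ centralizer (B : Set G)) ≤ V ⊓ centralizer (cjg x B : Set G) := by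
  refine le_inf ?_ ?_
  · calc cjg x (V ⊓ centralizer (B : Set G)) ≤ cjg x V := cjg_mono x inf_le_left
      _ = V := cjg_eq_of_mem_normalizer hx
  · exact cjg_le_centralizer (inf_le_right)

theorem inf_centralizer_cjg {V : Subgroup G} {x : G} (hx : x ∈ normalizer (V : Set G))
    (B : Subgroup G) :
    V ⊓ centralizer (cjg x B : Set G) = cjg x (V ⊓ centralizer (B : Set G)) := by
  refine le_antisymm ?_ (inf_centralizer_cjg_le hx B)
  have h := inf_centralizer_cjg_le (inv_mem hx) (cjg x B)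
  rw [cjg_inv_cjg] at h
  have h2 := cjg_mono x h
  rwa [cjg_cjg_inv] at h2

theorem card_inf_centralizer_cjg {V : Subgroup G} {x : G} (hx : x ∈ normalizer (V : Set G))
    (B : Subgroup G) :
    Nat.card ↥(V ⊓ centralizer (cjg x B : Set G)) = Nat.card ↥(V ⊓ centralizer (B : Set G)) := by
  rw [inf_centralizer_cjg hx, card_cjg]

/-- piece `ocj` -/
theorem bestOffender_cjg {p : ℕ} {V A : Subgroup G} (hA : IsBestOffenderOn p V A) {x : G}
    (hx : x ∈ normalizer (V : Set G)) : IsBestOffenderOn p V (cjg x A) := by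
  obtain ⟨h1, h2, h3⟩ := hA
  refine ⟨?_, ?_, ?_⟩
  · intro B hB
    have hB' : cjg x⁻¹ B ≤ A := by
      have := cjg_mono x⁻¹ hB
      rwa [cjg_inv_cjg] at this
    have h := h1 _ hB'
    rw [card_inf_centralizer_cjg hx, card_cjg]
    rw [card_inf_centralizer_cjg (inv_mem hx), card_cjg] at h
    exact h
  · rw [← cjg_commutator]
    have := cjg_le_centralizer (g := x) h2
    rwa [cjg_eq_of_mem_normalizer hx] at this
  · rintro _ ⟨a, ha, rfl⟩
    have h4 : cjg x (zpowers (a ^ p)) ≤ centralizer (cjg x V : Set G) :=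
      cjg_le_centralizer (by rw [zpowers_le]; exact h3 a ha)
    rw [cjg_eq_of_mem_normalizer hx] at h4
    have h5 := h4 (conj_mem_cjg (g := x) (mem_zpowers (a ^ p)))
    simpa [MulAut.conj_apply, conj_pow] using h5

end Cfsg.Agent.Lib.H55XF
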