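import Cfsg.Agent.Lib.H55XFdefs
import Cfsg.Agent.Lib.Helper55SL2
import Cfsg.Agent.Lib.Helper14Upper2

set_option autoImplicit false

namespace Cfsg.Agent.Lib.H55XF

open Subgroup Cfsg Cfsg.Agent.Lib.Helper55FF Cfsg.Agent.Lib.Helper55Hol Cfsg.Agent.Lib.Helper55SL2
open scoped commutatorElement

variable {G : Type*} [Group G]

theorem conj_mem_Qof (p : ℕ) (H : Subgroup G) {x : G} (hx : x ∈ normalizer (H : Set G)) {y : G}
    (hy : y ∈ Qof p H) : x * y * x⁻¹ ∈ Qof p H := by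
  obtain ⟨z, hz, rfl⟩ := hy
  have h1 := Cfsg.Agent.Lib.Helper14Upper2.pPrimeCore_map_le p (H.normalizerMonoidHom ⟨x, hx⟩)
  have h2 : (H.normalizerMonoidHom ⟨x, hx⟩) z ∈ pPrimeCore p ↥H := h1 ⟨z, hz, rfl⟩
  exact ⟨_, h2, rfl⟩

/-- piece `qcj` -/
theorem normalizer_le_normalizer_Qof (p : ℕ) (H : Subgroup G) :
    normalizer (H : Set G) ≤ normalizer (Qof p H : Set G) := by
  intro x hx
  rw [mem_normalizer_iff]
  intro y
  refine ⟨fun hy => conj_mem_Qof p H hx hy, fun hy => ?_⟩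
  have := conj_mem_Qof p H (inv_mem hx) hy
  simpa [mul_assoc] using this

end Cfsg.Agent.Lib.H55XF
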