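import Cfsg.Agent.Lib.H55XFdefs
import Cfsg.Agent.Lib.Helper55SL2

set_option autoImplicit false

namespace Cfsg.Agent.Lib.H55XF

open Subgroup Cfsg Cfsg.Agent.Lib.Helper55FF Cfsg.Agent.Lib.Helper55Hol Cfsg.Agent.Lib.Helper55SL2
open scoped commutatorElement

variable {G : Type*} [Group G]

theorem eq_one_of_pow_coprime' {M : Type*} [Monoid M] {g : M} {m n : ℕ} (hmn : m.Coprime n)
    (h1 : g ^ m = 1) (h2 : g ^ n = 1) : g = 1 := by
  have h3 : orderOf g ∣ m := orderOf_dvd_of_pow_eq_one h1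
  have h4 : orderOf g ∣ n := orderOf_dvd_of_pow_eq_one h2
  have h5 : orderOf g ∣ 1 := by
    rw [← hmn]; exact Nat.dvd_gcd h3 h4
  exact orderOf_eq_one_iff.1 (Nat.dvd_one.1 h5)

/-- piece `triv` -/
theorem mem_centralizer_of_coprime_six [Finite G] {p : ℕ} [Fact p.Prime] (hp : p = 2 ∨ p = 3)
    {W : Subgroup G} (hW : IsElementaryAbelian p W) (hc : Nat.card W = p ^ 2) {x : G}
    (hx : x ∈ normalizer (W : Set G)) (hord : (orderOf x).Coprime 6) :
    x ∈ centralizer (W : Set G) := by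
  have := hW.1
  letI : CommGroup W := { (inferInstance : Group W) with mul_comm := fun a b => mul_comm' a b }
  have hLW : zpowers x ≤ normalizer (W : Set G) := by rw [zpowers_le]; exact hx
  let ψ : zpowers x →* MulAut W := W.normalizerMonoidHom.comp (Subgroup.inclusion hLW)
  have hψ : ∀ (h : zpowers x) (v : W), ((ψ h v : W) : G) = h * v * (h : G)⁻¹ := fun h v => rfl
  have hpow : ∀ g : zpowers x, g ^ orderOf x = 1 := by
    intro g
    rw [← Nat.card_zpowers]
    exact pow_card_eq_one'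
  have h2 : (orderOf x).Coprime 2 := Nat.Coprime.coprime_dvd_right (by norm_num) hord
  have h3 : (orderOf x).Coprime 3 := Nat.Coprime.coprime_dvd_right (by norm_num) hord
  have hpos : 0 < orderOf x := orderOf_pos x
  have hdet : ∀ (δ : zpowers x →* ZMod p) (g : zpowers x), δ g = 1 := by
    intro δ g
    have h4 : (δ g) ^ orderOf x = 1 := by rw [← map_pow, hpow, map_one]
    have h5 : δ g ≠ 0 := by
      intro h0
      rw [h0, zero_pow hpos.ne'] at h4
      exact zero_ne_one h4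
    have h6 : (δ g) ^ (p - 1) = 1 := ZMod.pow_card_sub_one_eq_one h5
    refine eq_one_of_pow_coprime' ?_ h4 h6
    rcases hp with rfl | rfl
    · simp
    · exact h2
  obtain ⟨F, hF⟩ := exists_hom_abstract p W (fun x => Subtype.ext (hW.2 x x.2)) hc (zpowers x) ψ hdet
  have hF1 : F ⟨x, mem_zpowers x⟩ = 1 := by
    have h4 : (F ⟨x, mem_zpowers x⟩) ^ orderOf x = 1 := by rw [← map_pow, hpow, map_one]
    have h5 : (F ⟨x, mem_zpowers x⟩) ^ Nat.card (SL2 p) = 1 := pow_card_eq_one'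
    refine eq_one_of_pow_coprime' ?_ h4 h5
    rw [Cfsg.Agent.Lib.Helper55FF.card_SL2']
    rcases hp with rfl | rfl
    · exact hord
    · have : 3 * (3 ^ 2 - 1) = 3 * 2 ^ 3 := by norm_num
      rw [this]
      exact Nat.Coprime.mul_right h3 (Nat.Coprime.pow_right 3 h2)
  have h1 := hF _ hF1
  rw [mem_centralizer_iff]
  intro w hw
  have h3 := hψ ⟨x, mem_zpowers x⟩ ⟨w, hw⟩
  rw [h1] at h3
  have h4 : w = x * w * x⁻¹ := h3
  rw [eq_mul_inv_iff_mul_eq] at h4
  exact h4

end Cfsg.Agent.Lib.H55XF
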