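import Cfsg.Agent.Lib.H55XFnormhom
import Cfsg.Agent.Lib.H55XFtriv
import Cfsg.Agent.Lib.H55XFqcj
import Cfsg.Agent.Lib.H55XFocj
import Cfsg.Agent.Lib.Helper55Sub2

set_option autoImplicit false

/-! Coprime operators on the failure-of-factorization setting: the conjugates of an `SL₂(p)`-factor. -/

namespace Cfsg.Agent.Lib.H55XF

open Subgroup Cfsg Cfsg.Agent.Lib.Helper55FF Cfsg.Agent.Lib.Helper55Act Cfsg.Agent.Lib.Helper55SL2
  Cfsg.Agent.Lib.Helper55Sub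
open scoped commutatorElement

variable {G : Type*} [Group G] {p : ℕ} [hp : Fact p.Prime] {V H X A : Subgroup G}

omit hp in
theorem Base_cjg (B : FF.Base p V H A) {x : G} (hxH : x ∈ normalizer (H : Set G))
    (hxV : x ∈ normalizer (V : Set G)) : FF.Base p V H (cjg x A) :=
  ⟨by rw [← cjg_eq_of_mem_normalizer hxH]; exact map_mono B.hAH, bestOffender_cjg B.hA hxV,
    by rw [card_cjg, B.hc]⟩

omit hp in
theorem Eof_cjg {x : G} (hxH : x ∈ normalizer (H : Set G)) (A : Subgroup G) :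
    Eof p H (cjg x A) = cjg x (Eof p H A) := by
  show ⁅Qof p H, cjg x A⁆ ⊔ cjg x A = cjg x (⁅Qof p H, A⁆ ⊔ A)
  rw [cjg, cjg, Subgroup.map_sup, ← cjg, ← cjg, cjg_commutator,
    cjg_eq_of_mem_normalizer (normalizer_le_normalizer_Qof p H hxH)]

namespace XF

theorem coprime_E [Finite G] (c : XF p V H X) (B : FF.Base p V H A) :
    (Nat.card X).Coprime (Nat.card (Eof p H A)) :=
  Nat.Coprime.coprime_dvd_right (card_dvd_of_le B.E_le_H) c.hcop

theorem coprime_six [Finite G] (c : XF p V H X) (B : FF.Base p V H A) {x : G} (hx : x ∈ X) :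
    (orderOf x).Coprime 6 := by
  have h1 : orderOf x ∣ Nat.card X := by
    have := orderOf_dvd_natCard (⟨x, hx⟩ : X)
    rwa [Subgroup.orderOf_mk] at this
  have h2 : 6 ∣ Nat.card (Eof p H A) := by
    rw [B.card_E c.h, card_SL2']
    rcases (B.E_equiv c.h).1 with rfl | rfl
    · norm_num
    · norm_num
  exact Nat.Coprime.coprime_dvd_left h1 (Nat.Coprime.coprime_dvd_right h2 (c.coprime_E B))

theorem mem_centralizer_W [Finite G] (c : XF p V H X) (B : FF.Base p V H A) {x : G} (hx : x ∈ X)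
    (hxE : cjg x (Eof p H A) = Eof p H A) :
    x ∈ centralizer ((⁅V, Eof p H A⁆ : Subgroup G) : Set G) := by
  apply mem_centralizer_of_coprime_six (B.E_equiv c.h).1
    (Cfsg.Agent.Lib.Helper14ElemAb.elemAb_mono (B.W_le c.h) c.h.hV) (B.card_W c.h) _
    (c.coprime_six B hx)
  apply Amb.mem_normalizer_of_cjg_eq
  rw [← cjg_commutator_V (c.hXV hx), hxE]

theorem mem_centralizer_E [Finite G] (c : XF p V H X) (B : FF.Base p V H A) {x : G} (hx : x ∈ X)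
    (hxE : cjg x (Eof p H A) = Eof p H A) : x ∈ centralizer (Eof p H A : Set G) := by
  have hxW := c.mem_centralizer_W B hx hxE
  rw [mem_centralizer_iff]
  intro e he
  have h1 : x * e * x⁻¹ ∈ Eof p H A := by
    rw [← hxE]; exact conj_mem_cjg he
  have h2 : x * e * x⁻¹ * e⁻¹ ∈ Eof p H A ⊓ centralizer ((⁅V, Eof p H A⁆ : Subgroup G) : Set G) := by
    refine mem_inf.2 ⟨mul_mem h1 (inv_mem he), ?_⟩
    rw [mem_centralizer_iff]
    intro w hw
    have hw1 : e⁻¹ * w * e ∈ ⁅V, Eof p H A⁆ :=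
      conj_mem_of_mem_normalizer' (B.E_le_normalizer_W c.h he) hw
    have e1 : (e⁻¹ * w * e) * x = x * (e⁻¹ * w * e) := (mem_centralizer_iff.1 hxW) _ hw1
    have e2 : w * x = x * w := (mem_centralizer_iff.1 hxW) _ hw
    have e3 : x⁻¹ * (e⁻¹ * w * e) = (e⁻¹ * w * e) * x⁻¹ := by
      calc x⁻¹ * (e⁻¹ * w * e) = x⁻¹ * ((e⁻¹ * w * e) * x) * x⁻¹ := by group
        _ = x⁻¹ * (x * (e⁻¹ * w * e)) * x⁻¹ := by rw [e1]
        _ = (e⁻¹ * w * e) * x⁻¹ := by group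
    calc w * (x * e * x⁻¹ * e⁻¹) = (w * x) * e * x⁻¹ * e⁻¹ := by group
      _ = x * w * e * x⁻¹ * e⁻¹ := by rw [e2]
      _ = x * e * ((e⁻¹ * w * e) * x⁻¹) * e⁻¹ := by group
      _ = x * e * (x⁻¹ * (e⁻¹ * w * e)) * e⁻¹ := by rw [e3]
      _ = x * e * x⁻¹ * e⁻¹ * w := by group
  rw [B.E_faithful c.h, mem_bot] at h2
  calc e * x = (x * e * x⁻¹ * e⁻¹)⁻¹ * (x * e) := by group
    _ = x * e := by rw [h2]; group

/-- distinct conjugates: commuting relations. -/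
theorem ne_props [Finite G] (c : XF p V H X) (B : FF.Base p V H A) {x : G} (hx : x ∈ X)
    (hne : cjg x (Eof p H A) ≠ Eof p H A) :
    cjg x (Eof p H A) ≤ centralizer (Eof p H A : Set G) ∧
    cjg x (Eof p H A) ≤ centralizer ((⁅V, Eof p H A⁆ : Subgroup G) : Set G) ∧
    cjg x ⁅V, Eof p H A⁆ ≤ V ⊓ centralizer (Eof p H A : Set G) := by
  have B' := Base_cjg B (c.hXH hx) (c.hXV hx)
  have hE' := Eof_cjg (p := p) (c.hXH hx) A
  have hW : ⁅V, Eof p H A⁆ ≠ ⁅V, Eof p H (cjg x A)⁆ := by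
    intro heq
    apply hne
    rw [← hE']
    exact (B.E_eq_of_W_eq c.h B' heq).symm
  refine ⟨?_, ?_, ?_⟩
  · have := B.commutator_E_eq_bot c.h B' hW
    rw [hE', commutator_eq_bot_iff_le_centralizer, le_centralizer_iff] at this
    exact this
  · have := B.le_centralizer_W_of_ne c.h B' hW
    rwa [hE'] at this
  · have h1 := B'.le_centralizer_W_of_ne c.h B hW.symm
    rw [hE', cjg_commutator_V (c.hXV hx), le_centralizer_iff] at h1
    refine le_inf ?_ h1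
    rw [← cjg_commutator_V (c.hXV hx), ← hE']
    exact B'.W_le c.h

theorem commute_conj [Finite G] (c : XF p V H X) (B : FF.Base p V H A) {e : G}
    (he : e ∈ Eof p H A) {x y : G} (hx : x ∈ X) (hy : y ∈ X) :
    Commute (x * e * x⁻¹) (y * e * y⁻¹) := by
  by_cases hxy : cjg (y⁻¹ * x) (Eof p H A) = Eof p H A
  · have h1 := c.mem_centralizer_E B (X.mul_mem (X.inv_mem hy) hx) hxy
    have h2 : e * (y⁻¹ * x) = y⁻¹ * x * e := (mem_centralizer_iff.1 h1) e he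
    have h3 : x * e * x⁻¹ = y * e * y⁻¹ := by
      calc x * e * x⁻¹ = y * (y⁻¹ * x * e) * x⁻¹ := by group
        _ = y * (e * (y⁻¹ * x)) * x⁻¹ := by rw [h2]
        _ = y * e * y⁻¹ := by group
    rw [h3]
  · have h1 := (c.ne_props B (X.mul_mem (X.inv_mem hy) hx) hxy).1
    have h2 : (y⁻¹ * x) * e * (y⁻¹ * x)⁻¹ ∈ centralizer (Eof p H A : Set G) := h1 (conj_mem_cjg he)
    have h3 : e * ((y⁻¹ * x) * e * (y⁻¹ * x)⁻¹) = (y⁻¹ * x) * e * (y⁻¹ * x)⁻¹ * e :=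
      (mem_centralizer_iff.1 h2) e he
    show x * e * x⁻¹ * (y * e * y⁻¹) = y * e * y⁻¹ * (x * e * x⁻¹)
    calc x * e * x⁻¹ * (y * e * y⁻¹) = y * ((y⁻¹ * x) * e * (y⁻¹ * x)⁻¹ * e) * y⁻¹ := by group
      _ = y * (e * ((y⁻¹ * x) * e * (y⁻¹ * x)⁻¹)) * y⁻¹ := by rw [h3]
      _ = y * e * y⁻¹ * (x * e * x⁻¹) := by group

/-- the "diagonal" element attached to `e₀ ∈ E`. -/
theorem exists_diag [Finite G] (c : XF p V H X) (B : FF.Base p V H A) {e₀ : G}
    (he₀ : e₀ ∈ Eof p H A) :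
    ∃ d u : G, d = e₀ ^ Nat.card ↥(X ⊓ normalizer (Eof p H A : Set G)) * u ∧ d ∈ H ∧
      d ∈ centralizer (X : Set G) ∧ u ∈ centralizer (Eof p H A : Set G) ∧
      u ∈ centralizer ((⁅V, Eof p H A⁆ : Subgroup G) : Set G) ∧
      d ∈ closure {z : G | ∃ x ∈ X, z = x * e₀ * x⁻¹} ∧ ∀ n : ℕ, e₀ ^ n = 1 → d ^ n = 1 := by
  set E := Eof p H A with hE
  set 𝒞 : Subgroup G := closure {z : G | ∃ x ∈ X, z = x * e₀ * x⁻¹} with h𝒞
  have hab : IsMulCommutative 𝒞 := by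
    apply Subgroup.isMulCommutative_closure
    rintro _ ⟨x, hx, rfl⟩ _ ⟨y, hy, rfl⟩
    exact c.commute_conj B he₀ hx hy
  have hX𝒞 : X ≤ normalizer (𝒞 : Set G) := by
    apply le_normalizer_of_conj_mem
    intro y hy d hd
    have h1 : 𝒞 ≤ 𝒞.comap (MulAut.conj y).toMonoidHom := by
      rw [h𝒞, closure_le]
      rintro _ ⟨x, hx, rfl⟩
      apply Subgroup.subset_closure
      exact ⟨y * x, X.mul_mem hy hx, by simp [MulAut.conj_apply, mul_assoc]⟩
    exact h1 hd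
  have he𝒞 : e₀ ∈ 𝒞 := Subgroup.subset_closure ⟨1, X.one_mem, by simp⟩
  have h𝒞H : 𝒞 ≤ H := by
    rw [h𝒞, closure_le]
    rintro _ ⟨x, hx, rfl⟩
    exact conj_mem_of_mem_normalizer (c.hXH hx) (B.E_le_H he₀)
  obtain ⟨N, hN1, hN2, -⟩ := exists_normHom hab hX𝒞
  obtain ⟨u, hu, hNu⟩ := hN2 ⟨e₀, he𝒞⟩ (X ⊓ normalizer (E : Set G)) inf_le_left (by
    rintro x ⟨hxX, hxE⟩
    have h1 := c.mem_centralizer_E B hxX (cjg_eq_of_mem_normalizer hxE)
    have h2 : e₀ * x = x * e₀ := (mem_centralizer_iff.1 h1) e₀ he₀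
    show x * e₀ * x⁻¹ = e₀
    rw [← h2]; group)
  have hule : closure {z : G | ∃ x ∈ X, x ∉ X ⊓ normalizer (E : Set G) ∧ z = x * e₀ * x⁻¹} ≤
      centralizer (E : Set G) ⊓ centralizer ((⁅V, E⁆ : Subgroup G) : Set G) := by
    rw [closure_le]
    rintro _ ⟨x, hx, hxn, rfl⟩
    have hne : cjg x E ≠ E := fun h => hxn ⟨hx, Amb.mem_normalizer_of_cjg_eq h⟩
    obtain ⟨h1, h2, -⟩ := c.ne_props B hx hne
    exact ⟨h1 (conj_mem_cjg he₀), h2 (conj_mem_cjg he₀)⟩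
  refine ⟨N ⟨e₀, he𝒞⟩, u, hNu, h𝒞H (hN1 _).1, (hN1 _).2, (hule hu).1, (hule hu).2, (hN1 _).1, ?_⟩
  intro n hn
  rw [← map_pow]
  have : (⟨e₀, he𝒞⟩ : 𝒞) ^ n = 1 := Subtype.ext hn
  rw [this, map_one]

/-- every `e ∈ E` is induced on `E` by an element of `C_H(X)`. -/
theorem exists_fixed_inducing [Finite G] (c : XF p V H X) (B : FF.Base p V H A) {e : G}
    (he : e ∈ Eof p H A) :
    ∃ d ∈ H ⊓ centralizer (X : Set G), ∃ r ∈ centralizer (Eof p H A : Set G), d = e * r := by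
  set m := Nat.card ↥(X ⊓ normalizer (Eof p H A : Set G)) with hm
  have hcop : m.Coprime (orderOf e) := by
    have h1 : m ∣ Nat.card X := card_dvd_of_le inf_le_left
    have h2 : orderOf e ∣ Nat.card (Eof p H A) := by
      have := orderOf_dvd_natCard (⟨e, he⟩ : Eof p H A)
      rwa [Subgroup.orderOf_mk] at this
    exact Nat.Coprime.coprime_dvd_left h1 (Nat.Coprime.coprime_dvd_right h2 (c.coprime_E B))
  obtain ⟨k, hk⟩ := exists_pow_eq_self_of_coprime hcop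
  obtain ⟨d, u, hd, hdH, hdX, huE, -, -, -⟩ := c.exists_diag B ((Eof p H A).pow_mem he k)
  refine ⟨d, ⟨hdH, hdX⟩, u, huE, ?_⟩
  rw [hd, ← hm, ← pow_mul, mul_comm k m, pow_mul, hk]

/-- `H` is generated by `C_H(X)` and any subgroup containing a conjugate of every base offender. -/
theorem le_sup [Finite G] (c : XF p V H X) {S₀ : Subgroup G}
    (hS₀ : ∀ A, FF.Base p V H A → ∃ h ∈ H, cjg h A ≤ S₀) :
    H ≤ S₀ ⊔ (H ⊓ centralizer (X : Set G)) := by
  apply c.h.le_of_bases c.hS3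
  intro A B a ha
  obtain ⟨h, hh, hle⟩ := hS₀ A B
  have hsup := B.E_sup_eq c.h c.hS3
  have hn : H ⊓ centralizer ((⁅V, Eof p H A⁆ : Subgroup G) : Set G) ≤
      normalizer (Eof p H A : Set G) := inf_le_left.trans (B.H_le_normalizer_E c.h c.hS3)
  rw [← hsup] at hh
  obtain ⟨e, he, c', hc', rfl⟩ := (Cfsg.Agent.Lib.Helper30SZ.mem_sup_iff hn).1 hh
  have hcomm := B.commutator_E_C c.h c.hS3
  rw [commutator_eq_bot_iff_le_centralizer] at hcomm
  have haE : a ∈ Eof p H A := le_sup_right (a := Rof p H A) ha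
  have h1 : c' * a = a * c' := (mem_centralizer_iff.1 (hcomm haE)) c' hc'
  have ha₁ : e * a * e⁻¹ ∈ S₀ := by
    have : e * a * e⁻¹ = (e * c') * a * (e * c')⁻¹ := by
      calc e * a * e⁻¹ = e * (a * c') * c'⁻¹ * e⁻¹ := by group
        _ = e * (c' * a) * c'⁻¹ * e⁻¹ := by rw [h1]
        _ = _ := by group
    rw [this]
    exact hle (conj_mem_cjg ha)
  obtain ⟨d, hd, r, hr, rfl⟩ := c.exists_fixed_inducing B ((Eof p H A).inv_mem he)
  have ha₁E : e * a * e⁻¹ ∈ Eof p H A := mul_mem (mul_mem he haE) (inv_mem he)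
  have h2 : (e * a * e⁻¹) * r = r * (e * a * e⁻¹) := (mem_centralizer_iff.1 hr) _ ha₁E
  have h3 : a = (e⁻¹ * r) * (e * a * e⁻¹) * (e⁻¹ * r)⁻¹ := by
    calc a = e⁻¹ * ((e * a * e⁻¹) * r) * r⁻¹ * e := by group
      _ = e⁻¹ * (r * (e * a * e⁻¹)) * r⁻¹ * e := by rw [h2]
      _ = _ := by group
  rw [h3]
  exact mul_mem (mul_mem (le_sup_right (a := S₀) hd) (le_sup_left (a := S₀) ha₁))
    (inv_mem (le_sup_right (a := S₀) hd))

end XF

end Cfsg.Agent.Lib.H55XF
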