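import Cfsg.Agent.Lib.Helper55Hol2
import Cfsg.Agent.Lib.Helper55FF7

set_option autoImplicit false

/-! Coprime operator groups on the failure-of-factorization setting (K-S 9.3.10): definitions. -/

namespace Cfsg.Agent.Lib.H55XF

open Subgroup Cfsg Cfsg.Agent.Lib.Helper55FF
open scoped commutatorElement

/-- the setting: `FF` + generation by best offenders + an operator group `X` of coprime order. -/
structure XF {G : Type*} [Group G] (p : ℕ) (V H X : Subgroup G) : Prop where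
  h : FF p V H
  hS3 : H = ⨆ A : {A : Subgroup G // A ≤ H ∧ Cfsg.IsBestOffenderOn p V A}, (A : Subgroup G)
  hXH : X ≤ normalizer (H : Set G)
  hXV : X ≤ normalizer (V : Set G)
  hcop : (Nat.card X).Coprime (Nat.card H)

/-- fixed points of a group of automorphisms. -/
def fixOf {K : Type*} [Group K] (𝒳 : Subgroup (MulAut K)) : Subgroup K where
  carrier := {k | ∀ ϕ ∈ 𝒳, ϕ k = k}
  mul_mem' := fun {a b} ha hb ϕ hϕ => by rw [map_mul, ha ϕ hϕ, hb ϕ hϕ]
  one_mem' := fun ϕ _ => map_one ϕ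
  inv_mem' := fun {a} ha ϕ hϕ => by rw [map_inv, ha ϕ hϕ]

theorem mem_fixOf {K : Type*} [Group K] {𝒳 : Subgroup (MulAut K)} {k : K} :
    k ∈ fixOf 𝒳 ↔ ∀ ϕ ∈ 𝒳, ϕ k = k := Iff.rfl

end Cfsg.Agent.Lib.H55XF
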