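import Cfsg.Agent.Lib.H55XFcore

set_option autoImplicit false

/-! Coprime operators on the failure-of-factorization setting: a diagonal `SL₂(p)` in the fixed points. -/

namespace Cfsg.Agent.Lib.H55XF

open Subgroup Cfsg Cfsg.Agent.Lib.Helper55FF Cfsg.Agent.Lib.Helper55Act Cfsg.Agent.Lib.Helper55SL2
  Cfsg.Agent.Lib.Helper55Sub
open scoped commutatorElement

variable {G : Type*} [Group G] {p : ℕ} [hp : Fact p.Prime] {V H X A : Subgroup G}

theorem eq_one_of_pow_coprime {g : G} {m n : ℕ} (hmn : m.Coprime n) (h1 : g ^ m = 1) (h2 : g ^ n = 1) :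
    g = 1 := by
  have h3 : orderOf g ∣ m := orderOf_dvd_of_pow_eq_one h1
  have h4 : orderOf g ∣ n := orderOf_dvd_of_pow_eq_one h2
  have h5 : orderOf g ∣ 1 := by
    rw [← hmn]; exact Nat.dvd_gcd h3 h4
  exact orderOf_eq_one_iff.1 (Nat.dvd_one.1 h5)

namespace XF

theorem coprime_p [Finite G] (c : XF p V H X) (B : FF.Base p V H A) {Y : Subgroup G} (hY : Y ≤ X) :
    (Nat.card Y).Coprime p := by
  have h1 : p ∣ Nat.card H := B.hc ▸ card_dvd_of_le B.hAH
  exact Nat.Coprime.coprime_dvd_left (card_dvd_of_le hY) (Nat.Coprime.coprime_dvd_right h1 c.hcop)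

/-- an element of `C_H(X)`, lying in the group generated by the conjugates of `E`, which centralizes
`[V,E]`, is trivial. -/
theorem eq_one_of_centralizes [Finite G] (c : XF p V H X) (hH1 : H ≠ ⊥) (B : FF.Base p V H A) {y : G}
    (hyH : y ∈ H) (hyX : y ∈ centralizer (X : Set G))
    (hyF : y ∈ closure {z : G | ∃ x ∈ X, ∃ e ∈ Eof p H A, z = x * e * x⁻¹})
    (hyW : y ∈ centralizer ((⁅V, Eof p H A⁆ : Subgroup G) : Set G)) : y = 1 := by
  apply c.h.eq_one_of_centralizes hyH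
  have hst := c.h.structure_thm c.hS3 hH1
    (fun E : {E : Subgroup G // ∃ A, FF.Base p V H A ∧ E = Eof p H A} => (E : Subgroup G))
    (fun E => E.2) Subtype.val_injective (fun A B => ⟨⟨_, A, B, rfl⟩, rfl⟩)
  have hV := hst.2.2.2.2.2
  have key : V ≤ centralizer {y} := by
    rw [← hV]
    refine sup_le ?_ (iSup_le ?_)
    · rintro v ⟨-, hv⟩
      rw [mem_centralizer_singleton_iff]
      exact ((mem_centralizer_iff.1 hv) y hyH).symm
    · rintro ⟨E'', A'', B'', rfl⟩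
      show ⁅V, Eof p H A''⁆ ≤ centralizer {y}
      by_cases hex : ∃ x ∈ X, cjg x (Eof p H A) = Eof p H A''
      · obtain ⟨x, hx, hxE⟩ := hex
        rw [← hxE, cjg_commutator_V (c.hXV hx)]
        rintro _ ⟨w, hw, rfl⟩
        rw [mem_centralizer_singleton_iff]
        have e1 : w * y = y * w := (mem_centralizer_iff.1 hyW) w hw
        have e2 : x * y = y * x := (mem_centralizer_iff.1 hyX) x hx
        have e3 : x⁻¹ * y = y * x⁻¹ := by
          calc x⁻¹ * y = x⁻¹ * (y * x) * x⁻¹ := by group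
            _ = x⁻¹ * (x * y) * x⁻¹ := by rw [e2]
            _ = y * x⁻¹ := by group
        show (x * w * x⁻¹) * y = y * (x * w * x⁻¹)
        calc (x * w * x⁻¹) * y = x * w * (x⁻¹ * y) := by group
          _ = x * (w * y) * x⁻¹ := by rw [e3]; group
          _ = (x * y) * w * x⁻¹ := by rw [e1]; group
          _ = y * (x * w * x⁻¹) := by rw [e2]; group
      · push Not at hex
        have h1 : closure {z : G | ∃ x ∈ X, ∃ e ∈ Eof p H A, z = x * e * x⁻¹} ≤
            centralizer ((⁅V, Eof p H A''⁆ : Subgroup G) : Set G) := by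
          rw [closure_le]
          rintro _ ⟨x, hx, e, he, rfl⟩
          have B' := Base_cjg B (c.hXH hx) (c.hXV hx)
          have hE' := Eof_cjg (p := p) (c.hXH hx) A
          have hW : ⁅V, Eof p H A''⁆ ≠ ⁅V, Eof p H (cjg x A)⁆ := by
            intro heq
            apply hex x hx
            rw [← hE']
            exact (B''.E_eq_of_W_eq c.h B' heq).symm
          have h2 := B''.le_centralizer_W_of_ne c.h B' hW
          rw [hE'] at h2
          exact h2 (conj_mem_cjg he)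
        intro w hw
        rw [mem_centralizer_singleton_iff]
        exact (mem_centralizer_iff.1 (h1 hyF)) w hw
  rw [mem_centralizer_iff]
  intro v hv
  exact mem_centralizer_singleton_iff.1 (key hv)

theorem exists_SL2 [Finite G] (c : XF p V H X) (hH1 : H ≠ ⊥) :
    (p = 2 ∨ p = 3) ∧ ∃ W' D' : Subgroup G, W' ≤ V ⊓ centralizer (X : Set G) ∧
      D' ≤ H ⊓ centralizer (X : Set G) ∧ Nat.card W' = p ^ 2 ∧ D' ≤ normalizer (W' : Set G) ∧
      D' ⊓ centralizer (W' : Set G) = ⊥ ∧ Nonempty (↥D' ≃* SL2 p) := by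
  obtain ⟨A, B⟩ := c.h.exists_base c.hS3 hH1
  refine ⟨(B.E_equiv c.h).1, ?_⟩
  set E : Subgroup G := Eof p H A with hE
  set W : Subgroup G := ⁅V, E⁆ with hW
  set X₁ : Subgroup G := X ⊓ normalizer (E : Set G) with hX₁
  set m : ℕ := Nat.card X₁ with hm
  have hmp : m.Coprime p := c.coprime_p B inf_le_left
  have hWV : W ≤ V := B.W_le c.h
  obtain ⟨A', hA', hne⟩ := B.exists_tv_ne c.h
  have hA'E : A' ≤ E := B.tv_le_E hA'
  have hAE : A ≤ E := le_sup_right
  obtain ⟨a, haA, ha1⟩ := exists_ne_one_of_ne_bot (ne_bot_of_card_prime B.hc)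
  obtain ⟨a', ha'A, ha'1⟩ := exists_ne_one_of_ne_bot (ne_bot_of_card_prime hA'.2)
  have hap : a ^ p = 1 := by
    have := pow_card_eq_one' (G := A) (x := ⟨a, haA⟩)
    rw [B.hc] at this
    exact congrArg Subtype.val this
  have ha'p : a' ^ p = 1 := by
    have := pow_card_eq_one' (G := A') (x := ⟨a', ha'A⟩)
    rw [hA'.2] at this
    exact congrArg Subtype.val this
  obtain ⟨d, u, hd, hdH, hdX, huE, huW, hdF, hdp⟩ := c.exists_diag B (hAE haA)
  obtain ⟨d', u', hd', hd'H, hd'X, hu'E, hu'W, hd'F, hd'p⟩ := c.exists_diag B (hA'E ha'A)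
  obtain ⟨N, hN1, hN2, hN3⟩ := exists_normHom c.h.hV.1 c.hXV
  -- the restriction of the norm to `W`
  set N' : ↥W →* G := N.comp (Subgroup.inclusion hWV) with hN'
  have hWp : ∀ w ∈ W, w ^ p = 1 := fun w hw => c.h.hV.2 w (hWV hw)
  have hinj : Function.Injective N' := by
    rw [injective_iff_map_eq_one]
    rintro ⟨w, hw⟩ hw1
    obtain ⟨t, ht, hNt⟩ := hN2 ⟨w, hWV hw⟩ X₁ inf_le_left (by
      rintro x ⟨hxX, hxE⟩
      have h1 := c.mem_centralizer_W B hxX (cjg_eq_of_mem_normalizer hxE)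
      have h2 : w * x = x * w := (mem_centralizer_iff.1 h1) w hw
      show x * w * x⁻¹ = w
      rw [← h2]; group)
    have htle : closure {z : G | ∃ x ∈ X, x ∉ X₁ ∧ z = x * w * x⁻¹} ≤
        V ⊓ centralizer (E : Set G) := by
      rw [closure_le]
      rintro _ ⟨x, hx, hxn, rfl⟩
      have hne : cjg x E ≠ E := fun h => hxn ⟨hx, Amb.mem_normalizer_of_cjg_eq h⟩
      exact (c.ne_props B hx hne).2.2 (conj_mem_cjg hw)
    have h3 : N ⟨w, hWV hw⟩ = 1 := hw1
    rw [h3] at hNt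
    have h4 : w ^ m = t⁻¹ := eq_inv_of_mul_eq_one_left hNt.symm
    have h5 : w ^ m ∈ W ⊓ (V ⊓ centralizer (E : Set G)) := by
      refine mem_inf.2 ⟨W.pow_mem hw m, ?_⟩
      rw [h4]
      exact inv_mem (htle ht)
    rw [B.W_inf c.h, mem_bot] at h5
    exact Subtype.ext (eq_one_of_pow_coprime hmp h5 (hWp w hw))
  set W' : Subgroup G := N'.range with hW'
  have hW'le : W' ≤ V ⊓ centralizer (X : Set G) := by
    rintro _ ⟨w, rfl⟩
    exact hN1 _
  have hcW' : Nat.card W' = p ^ 2 := by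
    rw [hW', ← B.card_W c.h]
    exact (Nat.card_congr (MonoidHom.ofInjective hinj).toEquiv).symm
  -- action of `C_H(X)` on `W'`
  have hact : ∀ y ∈ H ⊓ centralizer (X : Set G), ∀ w : ↥W, ∃ w₁ : ↥W, (w₁ : G) = y * w * y⁻¹ ∧
      y * N' w * y⁻¹ = N' w₁ := by
    rintro y ⟨hyH, hyX⟩ w
    have hw₁ : y * w * y⁻¹ ∈ W := conj_mem_of_mem_normalizer (B.H_le_normalizer_W c.h c.hS3 hyH) w.2
    exact ⟨⟨_, hw₁⟩, rfl, hN3 y hyX ⟨w, hWV w.2⟩ ⟨_, hWV hw₁⟩ rfl⟩
  have hnorm : H ⊓ centralizer (X : Set G) ≤ normalizer (W' : Set G) := by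
    apply le_normalizer_of_conj_mem
    rintro y hy _ ⟨w, rfl⟩
    obtain ⟨w₁, -, h2⟩ := hact y hy w
    exact ⟨w₁, h2.symm⟩
  set D' : Subgroup G := zpowers d ⊔ zpowers d' with hD'
  have hD'le : D' ≤ H ⊓ centralizer (X : Set G) :=
    sup_le (zpowers_le.2 ⟨hdH, hdX⟩) (zpowers_le.2 ⟨hd'H, hd'X⟩)
  have hF : ∀ e ∈ E, closure {z : G | ∃ x ∈ X, z = x * e * x⁻¹} ≤
      closure {z : G | ∃ x ∈ X, ∃ e ∈ E, z = x * e * x⁻¹} := by
    intro e he
    apply Subgroup.closure_mono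
    rintro _ ⟨x, hx, rfl⟩
    exact ⟨x, hx, e, he, rfl⟩
  have hD'F : D' ≤ closure {z : G | ∃ x ∈ X, ∃ e ∈ E, z = x * e * x⁻¹} :=
    sup_le (zpowers_le.2 (hF a (hAE haA) hdF)) (zpowers_le.2 (hF a' (hA'E ha'A) hd'F))
  have hfaith : D' ⊓ centralizer (W' : Set G) = ⊥ := by
    rw [eq_bot_iff]
    rintro y ⟨hyD, hyW'⟩
    rw [mem_bot]
    apply c.eq_one_of_centralizes hH1 B (hD'le hyD).1 (hD'le hyD).2 (hD'F hyD)
    rw [mem_centralizer_iff]
    intro w hw
    obtain ⟨w₁, h1, h2⟩ := hact y (hD'le hyD) ⟨w, hw⟩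
    have h3 : N' ⟨w, hw⟩ * y = y * N' ⟨w, hw⟩ := (mem_centralizer_iff.1 hyW') _ ⟨_, rfl⟩
    have h4 : N' w₁ = N' ⟨w, hw⟩ := by
      rw [← h2, ← h3]; group
    have h5 : w₁ = ⟨w, hw⟩ := hinj h4
    have h6 : y * w * y⁻¹ = w := by
      rw [← h1, h5]
    calc w * y = (y * w * y⁻¹) * y := by rw [h6]
      _ = y * w := by group
  refine ⟨W', D', hW'le, hD'le, hcW', hD'le.trans hnorm, hfaith, ?_⟩
  have hW'el : IsElementaryAbelian p W' :=
    Cfsg.Agent.Lib.Helper14ElemAb.elemAb_mono (hW'le.trans inf_le_left) c.h.hV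
  have hdD : d ∈ D' := le_sup_left (a := zpowers d) (mem_zpowers d)
  have hd'D : d' ∈ D' := le_sup_right (a := zpowers d) (mem_zpowers d')
  have hgen : D' ≤ closure {g | g ∈ D' ∧ g ^ p = 1} :=
    sup_le (zpowers_le.2 (Subgroup.subset_closure ⟨hdD, hdp p hap⟩))
      (zpowers_le.2 (Subgroup.subset_closure ⟨hd'D, hd'p p ha'p⟩))
  obtain ⟨F, hFinj⟩ := exists_injective_hom hW'el hcW' (hD'le.trans hnorm) hfaith hgen
  -- `d`, `d'` have order `p` and generate distinct subgroups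
  have hEW : ∀ g ∈ E, g ∈ centralizer (W : Set G) → g = 1 := by
    intro g hg hgW
    have : g ∈ E ⊓ centralizer (W : Set G) := ⟨hg, hgW⟩
    rwa [B.E_faithful c.h, mem_bot] at this
  have hd1 : d ≠ 1 := by
    intro h1
    rw [h1] at hd
    have h2 : a ^ m = u⁻¹ := eq_inv_of_mul_eq_one_left hd.symm
    have h3 := hEW (a ^ m) (E.pow_mem (hAE haA) m) (h2 ▸ inv_mem huW)
    exact ha1 (eq_one_of_pow_coprime hmp h3 hap)
  have hd'1 : d' ≠ 1 := by
    intro h1
    rw [h1] at hd'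
    have h2 : a' ^ m = u'⁻¹ := eq_inv_of_mul_eq_one_left hd'.symm
    have h3 := hEW (a' ^ m) (E.pow_mem (hA'E ha'A) m) (h2 ▸ inv_mem hu'W)
    exact ha'1 (eq_one_of_pow_coprime hmp h3 ha'p)
  have hcard : ∀ g : G, g ^ p = 1 → g ≠ 1 → Nat.card (zpowers g) = p := by
    intro g hg hg1
    rw [Nat.card_zpowers]
    exact orderOf_eq_prime hg hg1
  have hzne : zpowers d ≠ zpowers d' := by
    intro heq
    have h1 : d' ∈ zpowers d := heq ▸ mem_zpowers d'
    obtain ⟨k, hk⟩ := mem_zpowers_iff.1 h1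
    have hcu : Commute (a ^ m) u := ((mem_centralizer_iff.1 huE) _ (E.pow_mem (hAE haA) m))
    rw [hd, hcu.mul_zpow, hd'] at hk
    have h2 : ((a ^ m) ^ k)⁻¹ * a' ^ m = u ^ k * u'⁻¹ := by
      calc ((a ^ m) ^ k)⁻¹ * a' ^ m = ((a ^ m) ^ k)⁻¹ * (a' ^ m * u') * u'⁻¹ := by group
        _ = ((a ^ m) ^ k)⁻¹ * ((a ^ m) ^ k * u ^ k) * u'⁻¹ := by rw [hk]
        _ = u ^ k * u'⁻¹ := by group
    have h3 := hEW _ (E.mul_mem (E.inv_mem (E.zpow_mem (E.pow_mem (hAE haA) m) k))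
      (E.pow_mem (hA'E ha'A) m)) (h2 ▸ mul_mem (zpow_mem huW k) (inv_mem hu'W))
    have h4 : a' ^ m = (a ^ m) ^ k := by
      calc a' ^ m = (a ^ m) ^ k * (((a ^ m) ^ k)⁻¹ * a' ^ m) := by group
        _ = (a ^ m) ^ k := by rw [h3, mul_one]
    have h5 : a' ^ m ∈ A ⊓ A' := ⟨h4 ▸ A.zpow_mem (A.pow_mem haA m) k, A'.pow_mem ha'A m⟩
    have h6 : A ⊓ A' = ⊥ := by
      apply inf_eq_bot_of_card_prime B.hc
      intro hle
      exact hne (Subgroup.eq_of_le_of_card_ge hle (by rw [B.hc, hA'.2]))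
    rw [h6, mem_bot] at h5
    exact ha'1 (eq_one_of_pow_coprime hmp h5 ha'p)
  have hsurj := surjective_of_two F hFinj ((zpowers d).subgroupOf D') ((zpowers d').subgroupOf D')
    (by rw [Cfsg.Agent.Lib.Helper30SZ.card_subgroupOf_of_le le_sup_left]; exact hcard d (hdp p hap) hd1)
    (by rw [Cfsg.Agent.Lib.Helper30SZ.card_subgroupOf_of_le le_sup_right]
        exact hcard d' (hd'p p ha'p) hd'1)
    (by
      intro heq
      apply hzne
      rw [subgroupOf_inj, inf_of_le_left le_sup_left, inf_of_le_left le_sup_right] at heq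
      exact heq)
  have hFs : Function.Surjective F := by
    intro y
    have : y ∈ ((zpowers d).subgroupOf D' ⊔ (zpowers d').subgroupOf D').map F := by
      rw [hsurj]; exact mem_top y
    obtain ⟨x, -, hx⟩ := this
    exact ⟨x, hx⟩
  exact ⟨MulEquiv.ofBijective F ⟨hFinj, hFs⟩⟩

end XF

end Cfsg.Agent.Lib.H55XF
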