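import Cfsg.Agent.Lib.H55XFdefs
import Cfsg.Agent.Lib.Helper55SL2
import Cfsg.Agent.Lib.Helper13Thompson2
import Cfsg.Agent.S0604

set_option autoImplicit false

namespace Cfsg.Agent.Lib.H55XF

open Subgroup Cfsg Cfsg.Agent.Lib.Helper55FF Cfsg.Agent.Lib.Helper55Hol Cfsg.Agent.Lib.Helper55SL2
open scoped commutatorElement

variable {G : Type*} [Group G]

/-- piece `frat2` -/
theorem thompson_sup_normalizer {K : Type*} [Group K] [Finite K] {p : ℕ} [Fact p.Prime]
    (S : Sylow p K) :
    thompsonSubgroup p K ⊔ normalizer (thompsonSubgroupOf p (S : Subgroup K) : Set K) = ⊤ := by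
  rw [eq_top_iff]
  intro g _
  have : (thompsonSubgroup p K).Characteristic :=
    Cfsg.Agent.Lib.Helper13Thompson.thompson_characteristic p
  obtain ⟨c, hc, n, hn, rfl⟩ :=
    Cfsg.Agent.Lib.Helper13Thompson2.frattini_elt (thompsonSubgroup p K) S g
  refine mul_mem (mem_sup_left hc) (mem_sup_right ?_)
  have h1 := Cfsg.Agent.Lib.Helper13Thompson2.normalizer_le_normalizer_thompsonOf p _ hn
  have hJS : thompsonSubgroupOf p (S : Subgroup K) ≤ (S : Subgroup K) := by
    rintro _ ⟨x, _, rfl⟩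
    exact x.2
  have hJK : thompsonSubgroupOf p (S : Subgroup K) ≤ thompsonSubgroup p K := by
    rw [Cfsg.Agent.S0604.result (G := K) (p := p)]
    exact le_iSup (fun S : Sylow p K => thompsonSubgroupOf p (S : Subgroup K)) S
  rwa [Cfsg.Agent.Lib.Helper13Thompson2.thompsonOf_eq_of_le inf_le_left (le_inf hJS hJK)] at h1

end Cfsg.Agent.Lib.H55XF
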