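import Cfsg.Agent.Lib.H55XFdefs
import Cfsg.Agent.Lib.Helper55SL2

set_option autoImplicit false

namespace Cfsg.Agent.Lib.H55XF

open Subgroup Cfsg Cfsg.Agent.Lib.Helper55FF Cfsg.Agent.Lib.Helper55Hol Cfsg.Agent.Lib.Helper55SL2
open scoped commutatorElement

variable {G : Type*} [Group G]

/-- piece `lift` -/
theorem exists_fixed_lift {K : Type*} [Group K] [Finite K] {q : ℕ} [Fact q.Prime]
    (𝒳 : Subgroup (MulAut K)) (hq : IsPGroup q 𝒳) (hK : ¬ q ∣ Nat.card K) (M : Subgroup K)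
    (hM : ∀ ϕ ∈ 𝒳, ∀ m ∈ M, ϕ m ∈ M) (k : K) (hk : ∀ ϕ ∈ 𝒳, k⁻¹ * ϕ k ∈ M) :
    ∃ m ∈ M, k * m ∈ fixOf 𝒳 := by
  let Ω : Set K := (fun n => k * n) '' (M : Set K)
  have hcard : Nat.card Ω = Nat.card M :=
    Nat.card_image_of_injective (mul_right_injective k) _
  have hinv : ∀ ϕ ∈ 𝒳, ∀ y ∈ Ω, ϕ y ∈ Ω := by
    rintro ϕ hϕ _ ⟨n, hn, rfl⟩
    refine ⟨k⁻¹ * ϕ k * ϕ n, mul_mem (hk ϕ hϕ) (hM ϕ hϕ n hn), ?_⟩
    simp only [map_mul]; group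
  let _ : MulAction 𝒳 Ω :=
    { smul := fun a x => ⟨(a : MulAut K) x, hinv a a.2 x x.2⟩
      one_smul := fun x => Subtype.ext rfl
      mul_smul := fun a b x => Subtype.ext rfl }
  have hc : ¬ q ∣ Nat.card Ω := by
    rw [hcard]
    exact fun h => hK (h.trans (Subgroup.card_subgroup_dvd_card M))
  obtain ⟨x, hx⟩ := hq.nonempty_fixed_point_of_prime_not_dvd_card Ω hc
  obtain ⟨_, n, hn, rfl⟩ := x
  exact ⟨n, hn, fun ϕ hϕ => congrArg Subtype.val (hx ⟨ϕ, hϕ⟩)⟩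

end Cfsg.Agent.Lib.H55XF
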