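import Cfsg.Agent.Lib.H55XFdefs
import Cfsg.Agent.Lib.Helper55SL2

set_option autoImplicit false

namespace Cfsg.Agent.Lib.H55XF

open Subgroup Cfsg Cfsg.Agent.Lib.Helper55FF Cfsg.Agent.Lib.Helper55Hol Cfsg.Agent.Lib.Helper55SL2
open scoped commutatorElement

variable {G : Type*} [Group G]

/-- restriction of an automorphism to an invariant subgroup. -/
def resAut {K : Type*} [Group K] (V : Subgroup K)
    (hchar : ∀ ϕ : MulAut K, ∀ v ∈ V, ϕ v ∈ V) : MulAut K →* MulAut ↥V where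
  toFun ϕ :=
    { toFun := fun v => ⟨ϕ v, hchar ϕ v v.2⟩
      invFun := fun v => ⟨ϕ⁻¹ v, hchar ϕ⁻¹ v v.2⟩
      left_inv := fun v => Subtype.ext (by simp)
      right_inv := fun v => Subtype.ext (by simp)
      map_mul' := fun a b => Subtype.ext (by simp) }
  map_one' := by ext v; rfl
  map_mul' := fun a b => by ext v; rfl

/-- piece `rho` -/
theorem exists_rho {K : Type*} [Group K] (V : Subgroup K) [V.Normal]
    (hchar : ∀ ϕ : MulAut K, ∀ v ∈ V, ϕ v ∈ V) :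
    ∃ ρ : MulAut K →* Hol V, (∀ ϕ k, ρ ϕ * act V k * (ρ ϕ)⁻¹ = act V (ϕ k)) ∧
      (∀ ϕ (v : ↥V), ρ ϕ * il V v * (ρ ϕ)⁻¹ = il V ⟨ϕ v, hchar ϕ v v.2⟩) := by
  refine ⟨(SemidirectProduct.inr : MulAut ↥V →* Hol V).comp (resAut V hchar), ?_, ?_⟩
  · intro ϕ k
    simp only [MonoidHom.comp_apply, act]
    rw [← map_inv, ← map_mul, ← map_mul]
    congr 1
    ext v
    simp [resAut, MulAut.conjNormal_apply]
  · intro ϕ v
    have h := SemidirectProduct.inl_aut (φ := MonoidHom.id (MulAut ↥V)) (resAut V hchar ϕ) v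
    rw [map_inv] at h
    exact h.symm

end Cfsg.Agent.Lib.H55XF
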