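import Cfsg.Agent.Lib.H55XFdefs
import Cfsg.Agent.Lib.Helper55SL2
import Cfsg.Agent.Lib.Helper13Thompson

set_option autoImplicit false

namespace Cfsg.Agent.Lib.H55XF

open Subgroup Cfsg Cfsg.Agent.Lib.Helper55FF Cfsg.Agent.Lib.Helper55Hol Cfsg.Agent.Lib.Helper55SL2
open scoped commutatorElement Pointwise

variable {G : Type*} [Group G]

/-- piece `vchar` -/
theorem iSup_omega_char {K : Type*} [Group K] (p : ℕ) (ϕ : MulAut K) :
    (∀ v ∈ (⨆ S : Sylow p K, omegaOne p ((S : Subgroup K) ⊓ centralizer ((S : Subgroup K) : Set K))),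
      ϕ v ∈ (⨆ S : Sylow p K, omegaOne p ((S : Subgroup K) ⊓ centralizer ((S : Subgroup K) : Set K)))) ∧
    (∀ v ∈ thompsonSubgroup p K, ϕ v ∈ thompsonSubgroup p K) := by
  constructor
  · have key : (⨆ S : Sylow p K, omegaOne p ((S : Subgroup K) ⊓ centralizer ((S : Subgroup K) : Set K)))
        ≤ (⨆ S : Sylow p K, omegaOne p ((S : Subgroup K) ⊓
            centralizer ((S : Subgroup K) : Set K))).comap ϕ.toMonoidHom := by
      refine iSup_le fun S => ?_
      rw [omegaOne, closure_le]
      rintro x ⟨hx, hxp⟩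
      rw [mem_inf] at hx
      rw [SetLike.mem_coe, mem_comap]
      show ϕ x ∈ (⨆ S : Sylow p K, omegaOne p ((S : Subgroup K) ⊓
            centralizer ((S : Subgroup K) : Set K)))
      refine le_iSup (fun S : Sylow p K => omegaOne p ((S : Subgroup K) ⊓
            centralizer ((S : Subgroup K) : Set K))) (ϕ • S) ?_
      refine Subgroup.subset_closure ⟨mem_inf.2 ⟨?_, ?_⟩, by rw [← map_pow, hxp, map_one]⟩
      · rw [Sylow.pointwise_smul_def]
        exact Subgroup.smul_mem_pointwise_smul x ϕ _ hx.1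
      · rw [Sylow.pointwise_smul_def, mem_centralizer_iff]
        rintro _ ⟨s, hs, rfl⟩
        have := (mem_centralizer_iff.1 hx.2) s hs
        show ϕ s * ϕ x = ϕ x * ϕ s
        rw [← map_mul, this, map_mul]
    exact fun v hv => key hv
  · intro v hv
    have h := Cfsg.Agent.Lib.Helper13Thompson.thompson_characteristic (G := K) p
    rw [characteristic_iff_map_le] at h
    exact h ϕ ⟨v, hv, rfl⟩

end Cfsg.Agent.Lib.H55XF
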