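import Cfsg.Agent.Lib.H55XFcore
import Cfsg.Agent.Lib.H55XFrho
import Cfsg.Agent.Lib.H55XFlift
import Cfsg.Agent.Lib.H55XFfrat2
import Cfsg.Agent.Lib.H55XFvchar
import Cfsg.Agent.S0600
import Cfsg.Agent.S0601
import Cfsg.Agent.S0608

set_option autoImplicit false

/-! K-S 9.3.10 (a) at the level of a group `K` with a group of automorphisms. -/

namespace Cfsg.Agent.Lib.H55XF

open Subgroup Cfsg Cfsg.Agent.Lib.Helper55FF Cfsg.Agent.Lib.Helper55Act Cfsg.Agent.Lib.Helper55Hol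
  Cfsg.Agent.Lib.Helper40Sylow
open scoped commutatorElement

theorem isSylowIn_map_of_ker_le {G G' : Type*} [Group G] [Group G'] {p : ℕ} (f : G →* G')
    {T L : Subgroup G} (h : IsSylowIn p T L) (hk : f.ker ≤ L) : IsSylowIn p (T.map f) (L.map f) := by
  refine ⟨map_mono h.1, h.2.1.map f, fun hd => h.2.2 (hd.trans ?_)⟩
  rw [relIndex_map_map, sup_of_le_left hk]
  exact relIndex_dvd_of_le_left L le_sup_left

variable {K : Type*} [Group K]

/-- the normal subgroup `V = ⟨Ω₁(Z(S))⟩`. -/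
abbrev VK (p : ℕ) (K : Type*) [Group K] : Subgroup K :=
  ⨆ S : Sylow p K, omegaOne p ((S : Subgroup K) ⊓ centralizer ((S : Subgroup K) : Set K))

/-- the data extracted from a non-factorizable `K`. -/
theorem exists_setting [Finite K] {p q : ℕ} [Fact p.Prime] [Fact q.Prime]
    (𝒳 : Subgroup (MulAut K)) (hq : IsPGroup q 𝒳) (hK : ¬ q ∣ Nat.card K)
    (hsep : IsPSolvable p K) (hO : pPrimeCore p K = ⊥) (hnf : ¬ IsThompsonFactorizable p K) :
    ∃ (hVn : (VK p K).Normal) (ρ : MulAut K →* Hol (VK p K)),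
      IsElementaryAbelian p (VK p K) ∧
      (∀ ϕ k, ρ ϕ * act (VK p K) k * (ρ ϕ)⁻¹ = act (VK p K) (ϕ k)) ∧
      (∀ ϕ (v : ↥(VK p K)), ∃ hv : ϕ v ∈ VK p K,
        ρ ϕ * il (VK p K) v * (ρ ϕ)⁻¹ = il (VK p K) ⟨ϕ v, hv⟩) ∧
      XF p (VV (VK p K)) ((JC p (VK p K)).map (act (VK p K))) (𝒳.map ρ) ∧
      (JC p (VK p K)).map (act (VK p K)) ≠ ⊥ := by
  have hc := Cfsg.Agent.Lib.Helper38HH.centralizer_pCore_le hsep hO
  obtain ⟨hVn, hV, -⟩ := Cfsg.Agent.S0601.result (G := K) (p := p) hc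
  have hJ := (not_congr (Cfsg.Agent.S0608.result (G := K) (p := p) hO)).1 hnf
  set V : Subgroup K := VK p K with hVdef
  have hgen : V = ⨆ S : Sylow p K, V ⊓ centralizer ((S : Subgroup K) : Set K) := by
    apply le_antisymm
    · conv_lhs => rw [hVdef]
      refine iSup_le fun S => le_trans ?_
        (le_iSup (fun S : Sylow p K => V ⊓ centralizer ((S : Subgroup K) : Set K)) S)
      refine le_inf (le_iSup (fun S : Sylow p K =>
        omegaOne p ((S : Subgroup K) ⊓ centralizer ((S : Subgroup K) : Set K))) S) ?_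
      unfold Cfsg.omegaOne
      rw [closure_le]
      rintro x ⟨hx, -⟩
      exact hx.2
    · exact iSup_le fun S => inf_le_left
  have hOp := Cfsg.Agent.S0600.result V hV hgen
  have hchar : ∀ ϕ : MulAut K, ∀ v ∈ V, ϕ v ∈ V := fun ϕ => (iSup_omega_char p ϕ).1
  obtain ⟨ρ, hρ1, hρ2⟩ := exists_rho V hchar
  have hcharC : ∀ ϕ : MulAut K, ∀ k ∈ centralizer (V : Set K), ϕ k ∈ centralizer (V : Set K) := by
    intro ϕ k hk
    rw [mem_centralizer_iff]
    intro v hv
    have h1 : ϕ⁻¹ v ∈ V := hchar ϕ⁻¹ v hv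
    have h2 := (mem_centralizer_iff.1 hk) _ h1
    have h3 := congrArg ϕ h2
    rw [map_mul, map_mul] at h3
    have h4 : ϕ (ϕ⁻¹ v) = v := by
      rw [← MulAut.mul_apply, mul_inv_cancel, MulAut.one_apply]
    rwa [h4] at h3
  have hcharJC : ∀ ϕ : MulAut K, ∀ k ∈ JC p V, ϕ k ∈ JC p V := by
    intro ϕ k hk
    have h1 : JC p V ≤ (JC p V).comap ϕ.toMonoidHom := by
      refine sup_le ?_ ?_
      · intro x hx
        exact le_sup_left (a := thompsonSubgroup p K) ((iSup_omega_char p ϕ).2 x hx)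
      · intro x hx
        exact le_sup_right (a := thompsonSubgroup p K) (hcharC ϕ x hx)
    exact h1 hk
  refine ⟨hVn, ρ, hV, hρ1, fun ϕ v => ⟨hchar ϕ v v.2, hρ2 ϕ v⟩, ?_, map_ne_bot hJ⟩
  refine ⟨FF_thompson hsep hV hOp, hS3_thompson hV, ?_, ?_, ?_⟩
  · apply le_normalizer_of_conj_mem
    rintro _ ⟨ϕ, -, rfl⟩ _ ⟨k, hk, rfl⟩
    rw [hρ1]
    exact ⟨ϕ k, hcharJC ϕ k hk, rfl⟩
  · rw [normalizer_eq_top_iff.2 (VV_normal (V := V))]
    exact le_top
  · obtain ⟨n, hn⟩ := IsPGroup.iff_card.1 (hq.map ρ)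
    rw [hn]
    apply Nat.Coprime.pow_left
    rw [Nat.Prime.coprime_iff_not_dvd Fact.out]
    intro hd
    apply hK
    refine hd.trans ?_
    have h1 := card_map_act (V := V) (JC p V)
    exact (Dvd.intro _ h1).trans (card_subgroup_dvd_card _)

theorem K620 [Finite K] {p q : ℕ} [Fact p.Prime] [Fact q.Prime]
    (𝒳 : Subgroup (MulAut K)) (hq : IsPGroup q 𝒳) (hK : ¬ q ∣ Nat.card K)
    (hsep : IsPSolvable p K) (hO : pPrimeCore p K = ⊥) (S : Sylow p K) :
    normalizer (thompsonSubgroupOf p (S : Subgroup K) : Set K) ⊔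
      centralizer (omegaOne p ((S : Subgroup K) ⊓ centralizer ((S : Subgroup K) : Set K)) : Set K) ⊔
      fixOf 𝒳 = ⊤ := by
  set M : Subgroup K := normalizer (thompsonSubgroupOf p (S : Subgroup K) : Set K) ⊔
      centralizer (omegaOne p ((S : Subgroup K) ⊓ centralizer ((S : Subgroup K) : Set K)) : Set K) ⊔
      fixOf 𝒳 with hM
  have hNM : normalizer (thompsonSubgroupOf p (S : Subgroup K) : Set K) ≤ M :=
    le_sup_left.trans le_sup_left
  have hCM : centralizer (omegaOne p ((S : Subgroup K) ⊓ centralizer ((S : Subgroup K) : Set K)) :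
      Set K) ≤ M := le_sup_right.trans le_sup_left
  by_cases hTF : IsThompsonFactorizable p K
  · rw [eq_top_iff]
    intro g _
    obtain ⟨x, hx, c, hc, n, hn, rfl⟩ := hTF S g
    rw [hO, mem_bot] at hx
    rw [hx, one_mul]
    exact M.mul_mem (hCM hc) (hNM hn)
  obtain ⟨hVn, ρ, hV, hρ1, -, c, -⟩ := exists_setting 𝒳 hq hK hsep hO hTF
  have hCV : centralizer (VK p K : Set K) ≤ M := by
    refine le_trans (centralizer_le ?_) hCM
    exact le_iSup (fun S : Sylow p K =>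
        omegaOne p ((S : Subgroup K) ⊓ centralizer ((S : Subgroup K) : Set K))) S
  have hSM : (S : Subgroup K) ≤ M :=
    (le_normalizer.trans
      (Cfsg.Agent.Lib.Helper13Thompson2.normalizer_le_normalizer_thompsonOf p _)).trans hNM
  have hJCn : (JC p (VK p K)).Normal := JC_normal p
  have hsyl : IsSylowIn p ((S : Subgroup K) ⊓ JC p (VK p K)) (JC p (VK p K)) :=
    (isSylowIn_top S).inf_normal le_top (by rw [normalizer_eq_top]; )
  have hsyl' := isSylowIn_map_of_ker_le (act (VK p K)) hsyl (by rw [ker_act]; exact le_sup_right)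
  have hgen := c.le_sup (S₀ := ((S : Subgroup K) ⊓ JC p (VK p K)).map (act (VK p K))) (fun A B =>
    hsyl'.exists_conj_le (isPGroup_of_card_prime B.hc) B.hAH)
  have hfix : (JC p (VK p K)).map (act (VK p K)) ⊓ centralizer ((𝒳.map ρ : Subgroup (Hol (VK p K))) : Set (Hol (VK p K))) ≤
      M.map (act (VK p K)) := by
    rintro _ ⟨⟨k, -, rfl⟩, hk⟩
    have h1 : ∀ ϕ ∈ 𝒳, k⁻¹ * ϕ k ∈ centralizer (VK p K : Set K) := by
      intro ϕ hϕ
      have h2 := (mem_centralizer_iff.1 hk) (ρ ϕ) ⟨ϕ, hϕ, rfl⟩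
      have h3 := hρ1 ϕ k
      rw [h2, mul_inv_cancel_right] at h3
      rw [← act_eq_one_iff, map_mul, map_inv, ← h3, inv_mul_cancel]
    have hinv : ∀ ϕ ∈ 𝒳, ∀ m ∈ centralizer (VK p K : Set K), ϕ m ∈ centralizer (VK p K : Set K) := by
      intro ϕ _ m hm
      rw [← act_eq_one_iff] at hm ⊢
      rw [← hρ1, hm, mul_one, mul_inv_cancel]
    obtain ⟨m, hm, hkm⟩ := exists_fixed_lift 𝒳 hq hK (centralizer (VK p K : Set K)) hinv k h1
    refine ⟨k * m, (le_sup_right : fixOf 𝒳 ≤ M) hkm, ?_⟩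
    rw [map_mul, act_eq_one_iff.2 hm, mul_one]
  have hJCM : JC p (VK p K) ≤ M := by
    intro g hg
    have h1 : act (VK p K) g ∈ M.map (act (VK p K)) := by
      refine (hgen.trans (sup_le ?_ hfix)) ⟨g, hg, rfl⟩
      exact map_mono (inf_le_left.trans hSM)
    obtain ⟨m, hm, hmg⟩ := h1
    have h2 : m⁻¹ * g ∈ centralizer (VK p K : Set K) := by
      rw [← act_eq_one_iff, map_mul, map_inv, hmg, inv_mul_cancel]
    have : g = m * (m⁻¹ * g) := by group
    rw [this]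
    exact M.mul_mem hm (hCV h2)
  rw [eq_top_iff, ← thompson_sup_normalizer S]
  exact sup_le (le_sup_left.trans hJCM) hNM

end Cfsg.Agent.Lib.H55XF
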