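import Cfsg.Agent.Lib.Helper55Hol

set_option autoImplicit false

/-! Pushing subgroups of `V` into the holomorph. -/

namespace Cfsg.Agent.Lib.Helper55Hol

open Subgroup
open scoped commutatorElement

variable {G : Type*} [Group G] {V : Subgroup G} [hVn : V.Normal]

/-- the image in the holomorph of a subgroup of `V` -/
def push (V : Subgroup G) (U : Subgroup G) : Subgroup (Hol V) := (U.subgroupOf V).map (il V)

omit hVn in
theorem mem_push {U : Subgroup G} {v : V} : il V v ∈ push V U ↔ (v : G) ∈ U := by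
  constructor
  · rintro ⟨w, hw, hwv⟩
    have : w = v := SemidirectProduct.inl_injective hwv
    rw [← this]
    exact hw
  · intro h
    exact ⟨v, h, rfl⟩

omit hVn in
theorem push_mono {U U' : Subgroup G} (h : U ≤ U') : push V U ≤ push V U' := by
  rintro _ ⟨w, hw, rfl⟩
  exact mem_push.2 (h hw)

omit hVn in
theorem push_self : push V V = VV V := by
  unfold push VV
  rw [subgroupOf_self, MonoidHom.range_eq_map]

omit hVn in
theorem card_push {U : Subgroup G} (hU : U ≤ V) : Nat.card (push V U) = Nat.card U := by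
  unfold push
  rw [card_map_of_injective SemidirectProduct.inl_injective,
    Cfsg.Agent.Lib.Helper30SZ.card_subgroupOf_of_le hU]

omit hVn in
theorem le_of_push_le {U U' : Subgroup G} (hU : U ≤ V) (h : push V U ≤ push V U') : U ≤ U' := by
  intro u hu
  exact mem_push.1 (h (mem_push.2 (show ((⟨u, hU hu⟩ : V) : G) ∈ U from hu)))

omit hVn in
theorem eq_of_push_eq {U U' : Subgroup G} (hU : U ≤ V) (hU' : U' ≤ V) (h : push V U = push V U') :
    U = U' :=
  le_antisymm (le_of_push_le hU h.le) (le_of_push_le hU' h.symm.le)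

theorem il_commutator (v : V) (a : G) :
    ⁅il V v, act V a⁆ = il V ⟨⁅(v : G), a⁆, by
      have : ⁅(v : G), a⁆ = v * (a * (v : G)⁻¹ * a⁻¹) := by
        simp only [commutatorElement_def]; group
      rw [this]
      exact V.mul_mem v.2 (hVn.conj_mem _ (V.inv_mem v.2) a)⟩ := by
  have h1 := act_conj a v⁻¹
  have h2 : ⁅il V v, act V a⁆ = il V v * (act V a * il V v⁻¹ * (act V a)⁻¹) := by
    rw [commutatorElement_def, map_inv]; group
  rw [h2, h1, ← map_mul]
  congr 1
  apply Subtype.ext
  show (v : G) * (a * ((v⁻¹ : V) : G) * a⁻¹) = ⁅(v : G), a⁆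
  rw [commutatorElement_def, InvMemClass.coe_inv]
  group

theorem push_commutator {U : Subgroup G} (hU : U ≤ V) (A : Subgroup G) :
    push V ⁅U, A⁆ = ⁅push V U, A.map (act V)⁆ := by
  apply le_antisymm
  · set X : Subgroup (Hol V) := ⁅push V U, A.map (act V)⁆ with hX
    have h1 : ⁅U, A⁆ ≤ (X.comap (il V)).map V.subtype := by
      rw [commutator_le]
      intro u hu a ha
      have h2 := il_commutator (⟨u, hU hu⟩ : V) a
      have hmem : ⁅u, a⁆ ∈ V := by
        have : ⁅u, a⁆ = u * (a * u⁻¹ * a⁻¹) := by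
          simp only [commutatorElement_def]; group
        rw [this]
        exact V.mul_mem (hU hu) (hVn.conj_mem _ (V.inv_mem (hU hu)) a)
      refine ⟨⟨⁅u, a⁆, hmem⟩, ?_, rfl⟩
      show il V _ ∈ X
      rw [← h2]
      exact commutator_mem_commutator (mem_push.2 hu) ⟨a, ha, rfl⟩
    rintro _ ⟨w, hw, rfl⟩
    obtain ⟨w', hw', e⟩ := h1 hw
    have : w' = w := Subtype.ext e
    rw [← this]
    exact hw'
  · rw [commutator_le]
    rintro _ ⟨u, hu, rfl⟩ _ ⟨a, ha, rfl⟩
    rw [il_commutator]
    exact mem_push.2 (commutator_mem_commutator hu ha)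

theorem le_centralizer_of_map_le {U A : Subgroup G} (hU : U ≤ V)
    (h : A.map (act V) ≤ centralizer (push V U : Set (Hol V))) : A ≤ centralizer (U : Set G) := by
  intro a ha
  rw [mem_centralizer_iff]
  intro u hu
  have h1 := (mem_centralizer_iff.1 (h ⟨a, ha, rfl⟩)) (il V ⟨u, hU hu⟩) (mem_push.2 hu)
  have h2 := act_conj a (⟨u, hU hu⟩ : V)
  have h3 : act V a * il V ⟨u, hU hu⟩ * (act V a)⁻¹ = il V ⟨u, hU hu⟩ := by
    rw [← h1]; group
  rw [h3] at h2
  have h4 := congrArg Subtype.val (SemidirectProduct.inl_injective h2)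
  have h5 : u = a * u * a⁻¹ := h4
  calc u * a = (a * u * a⁻¹) * a := by rw [← h5]
    _ = a * u := by group

end Cfsg.Agent.Lib.Helper55Hol
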