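import Cfsg.Agent.Lib.H55XFk620
import Cfsg.Agent.Lib.H55XFdiag
import Cfsg.Agent.Lib.Helper55Hol4

set_option autoImplicit false

/-! K-S 9.3.10 (b) at the level of a group `K` with a group of automorphisms. -/

namespace Cfsg.Agent.Lib.H55XF

open Subgroup Cfsg Cfsg.Agent.Lib.Helper55FF Cfsg.Agent.Lib.Helper55Act Cfsg.Agent.Lib.Helper55Hol
  Cfsg.Agent.Lib.Helper40Sylow
open scoped commutatorElement

variable {K : Type*} [Group K]

theorem K621 [Finite K] {p q : ℕ} [Fact p.Prime] [Fact q.Prime]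
    (𝒳 : Subgroup (MulAut K)) (hq : IsPGroup q 𝒳) (hK : ¬ q ∣ Nat.card K)
    (hsep : IsPSolvable p K) (hO : pPrimeCore p K = ⊥) (hnf : ¬ IsThompsonFactorizable p K) :
    (p = 2 ∨ p = 3) ∧ ∃ W D : Subgroup K, W ≤ fixOf 𝒳 ∧ D ≤ fixOf 𝒳 ∧ IsElementaryAbelian p W ∧
      Nat.card W = p ^ 2 ∧ D ≤ normalizer (W : Set K) ∧
      ∃ hn : ((centralizer (W : Set K)).subgroupOf D).Normal,
        Nonempty ((↥D ⧸ (centralizer (W : Set K)).subgroupOf D) ≃*
          Matrix.SpecialLinearGroup (Fin 2) (ZMod p)) := by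
  obtain ⟨hVn, ρ, hV, hρ1, hρ2, c, hH1⟩ := exists_setting 𝒳 hq hK hsep hO hnf
  obtain ⟨h23, W', D', hW'le, hD'le, hcW', hD'N, hfaith, ⟨e⟩⟩ := c.exists_SL2 hH1
  refine ⟨h23, ?_⟩
  set W : Subgroup K := (W'.comap (il (VK p K))).map (VK p K).subtype with hW
  set D : Subgroup K := fixOf 𝒳 ⊓ D'.comap (act (VK p K)) with hD
  have hWV : W ≤ VK p K := map_subtype_le _
  have hmemW : ∀ v : ↥(VK p K), (v : K) ∈ W ↔ il (VK p K) v ∈ W' := by
    intro v
    constructor
    · rintro ⟨v', hv', hvv⟩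
      have : v' = v := Subtype.ext hvv
      rw [← this]; exact hv'
    · intro h
      exact ⟨v, h, rfl⟩
  have hpush : push (VK p K) W = W' := by
    apply le_antisymm
    · rintro _ ⟨v, hv, rfl⟩
      exact (hmemW v).1 hv
    · intro y hy
      obtain ⟨v, rfl⟩ := (hW'le hy).1
      exact mem_push.2 ((hmemW v).2 hy)
  have hlift : ∀ k : K, act (VK p K) k ∈ centralizer ((𝒳.map ρ : Subgroup (Hol (VK p K))) :
      Set (Hol (VK p K))) → ∃ m ∈ centralizer (VK p K : Set K), k * m ∈ fixOf 𝒳 := by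
    intro k hk
    have h1 : ∀ ϕ ∈ 𝒳, k⁻¹ * ϕ k ∈ centralizer (VK p K : Set K) := by
      intro ϕ hϕ
      have h2 := (mem_centralizer_iff.1 hk) (ρ ϕ) ⟨ϕ, hϕ, rfl⟩
      have h3 := hρ1 ϕ k
      rw [h2, mul_inv_cancel_right] at h3
      rw [← act_eq_one_iff, map_mul, map_inv, ← h3, inv_mul_cancel]
    have hinv : ∀ ϕ ∈ 𝒳, ∀ m ∈ centralizer (VK p K : Set K), ϕ m ∈ centralizer (VK p K : Set K) := by
      intro ϕ _ m hm
      rw [← act_eq_one_iff] at hm ⊢
      rw [← hρ1, hm, mul_one, mul_inv_cancel]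
    exact exists_fixed_lift 𝒳 hq hK (centralizer (VK p K : Set K)) hinv k h1
  have hWfix : W ≤ fixOf 𝒳 := by
    rintro _ ⟨v, hv, rfl⟩
    rw [mem_fixOf]
    intro ϕ hϕ
    obtain ⟨hv', h1⟩ := hρ2 ϕ v
    have h2 := (mem_centralizer_iff.1 (hW'le hv).2) (ρ ϕ) ⟨ϕ, hϕ, rfl⟩
    rw [h2, mul_inv_cancel_right] at h1
    have h3 := SemidirectProduct.inl_injective h1
    exact (congrArg Subtype.val h3).symm
  have hDN : D ≤ normalizer (W : Set K) := by
    apply le_normalizer_of_conj_mem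
    rintro k ⟨-, hk⟩ _ ⟨v, hv, rfl⟩
    have h1 := act_conj k v
    have h2 : act (VK p K) k * il (VK p K) v * (act (VK p K) k)⁻¹ ∈ W' :=
      conj_mem_of_mem_normalizer (hD'N hk) hv
    rw [h1] at h2
    exact (hmemW _).2 h2
  refine ⟨W, D, hWfix, inf_le_left, Cfsg.Agent.Lib.Helper14ElemAb.elemAb_mono hWV hV, ?_, hDN, ?_⟩
  · rw [← card_push hWV, hpush, hcW']
  let f : ↥D →* ↥D' := ((act (VK p K)).comp D.subtype).codRestrict D' (fun x => x.2.2)
  have hsurj : Function.Surjective f := by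
    rintro ⟨y, hy⟩
    obtain ⟨k, -, rfl⟩ := (hD'le hy).1
    obtain ⟨m, hm, hkm⟩ := hlift k (hD'le hy).2
    have h1 : act (VK p K) (k * m) = act (VK p K) k := by
      rw [map_mul, act_eq_one_iff.2 hm, mul_one]
    refine ⟨⟨k * m, hkm, ?_⟩, Subtype.ext h1⟩
    show act (VK p K) (k * m) ∈ D'
    rw [h1]; exact hy
  have hker : f.ker = (centralizer (W : Set K)).subgroupOf D := by
    ext x
    rw [MonoidHom.mem_ker, mem_subgroupOf]
    constructor
    · intro h
      have h1 : act (VK p K) (x : K) = 1 := congrArg Subtype.val h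
      exact centralizer_le hWV (act_eq_one_iff.1 h1)
    · intro h
      apply Subtype.ext
      show act (VK p K) (x : K) = 1
      have h1 : act (VK p K) (x : K) ∈ D' ⊓ centralizer (W' : Set (Hol (VK p K))) := by
        refine mem_inf.2 ⟨x.2.2, ?_⟩
        rw [mem_centralizer_iff]
        intro y hy
        obtain ⟨v, rfl⟩ := (hW'le hy).1
        have h2 := act_conj (x : K) v
        have h3 : (x : K) * v * (x : K)⁻¹ = v := by
          have := (mem_centralizer_iff.1 h) v ((hmemW v).2 hy)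
          rw [← this]; group
        have h4 : (⟨(x : K) * v * (x : K)⁻¹, hVn.conj_mem v v.2 x⟩ : ↥(VK p K)) = v := Subtype.ext h3
        rw [h4] at h2
        calc il (VK p K) v * act (VK p K) (x : K)
            = (act (VK p K) (x : K) * il (VK p K) v * (act (VK p K) (x : K))⁻¹) *
                act (VK p K) (x : K) := by rw [h2]
          _ = act (VK p K) (x : K) * il (VK p K) v := by group
      rw [hfaith] at h1
      exact h1
  have hn : ((centralizer (W : Set K)).subgroupOf D).Normal := hker ▸ f.normal_ker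
  refine ⟨hn, ⟨?_⟩⟩
  exact ((QuotientGroup.quotientMulEquivOfEq hker.symm).trans
    (QuotientGroup.quotientKerEquivOfSurjective f hsurj)).trans e

end Cfsg.Agent.Lib.H55XF
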