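import Cfsg.Agent.Lib.H55XFdefs
import Cfsg.Agent.Lib.Helper55SL2

set_option autoImplicit false

namespace Cfsg.Agent.Lib.H55XF

open Subgroup Cfsg Cfsg.Agent.Lib.Helper55FF Cfsg.Agent.Lib.Helper55Hol Cfsg.Agent.Lib.Helper55SL2
open scoped commutatorElement

variable {G : Type*} [Group G]

/-- piece `normhom` -/
theorem exists_normHom [Finite G] {X V : Subgroup G} (hV : IsMulCommutative V)
    (hXV : X ≤ normalizer (V : Set G)) :
    ∃ N : ↥V →* G, (∀ v, N v ∈ V ⊓ centralizer (X : Set G)) ∧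
      (∀ (v : ↥V) (X₁ : Subgroup G), X₁ ≤ X → (∀ x ∈ X₁, x * (v : G) * x⁻¹ = v) →
        ∃ u ∈ closure {z : G | ∃ x ∈ X, x ∉ X₁ ∧ z = x * (v : G) * x⁻¹},
          N v = (v : G) ^ (Nat.card X₁) * u) ∧
      (∀ d ∈ centralizer (X : Set G), ∀ v w : ↥V, d * (v : G) * d⁻¹ = w → d * N v * d⁻¹ = N w) := by
  classical
  have := hV
  let _ : CommGroup V := { (inferInstance : Group V) with mul_comm := fun a b => mul_comm' a b }
  let _ : Fintype X := Fintype.ofFinite X
  let c : X →* MulAut V := V.normalizerMonoidHom.comp (Subgroup.inclusion hXV)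
  have hc : ∀ (x : X) (v : V), ((c x v : V) : G) = x * v * (x : G)⁻¹ := fun h v => rfl
  let N₀ : V →* V := ∏ x : X, (c x).toMonoidHom
  have hN₀ : ∀ v, N₀ v = ∏ x : X, c x v := by
    intro v
    simp only [N₀, MonoidHom.finsetProd_apply]
    rfl
  refine ⟨V.subtype.comp N₀, ?_, ?_, ?_⟩
  · intro v
    refine mem_inf.2 ⟨(N₀ v).2, ?_⟩
    rw [mem_centralizer_iff]
    intro y hy
    have h1 : c ⟨y, hy⟩ (N₀ v) = N₀ v := by
      rw [hN₀, map_prod]
      have h2 : ∀ x : X, c ⟨y, hy⟩ (c x v) = c (Equiv.mulLeft (⟨y, hy⟩ : X) x) v := by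
        intro x
        rw [Equiv.coe_mulLeft, map_mul]
        rfl
      simp_rw [h2]
      exact Equiv.prod_comp (Equiv.mulLeft (⟨y, hy⟩ : X)) (fun x => c x v)
    have h3 := hc ⟨y, hy⟩ (N₀ v)
    rw [h1] at h3
    have h4 : ((N₀ v : V) : G) = y * (N₀ v : V) * y⁻¹ := h3
    exact (eq_mul_inv_iff_mul_eq.1 h4).symm
  · intro v X₁ hX₁ hfix
    have hsplit := Finset.prod_filter_mul_prod_filter_not (Finset.univ : Finset X)
      (fun x : X => (x : G) ∈ X₁) (fun x => c x v)
    have h1 : ∏ x ∈ Finset.univ.filter (fun x : X => (x : G) ∈ X₁), c x v = v ^ Nat.card X₁ := by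
      have h2 : ∀ x ∈ Finset.univ.filter (fun x : X => (x : G) ∈ X₁), c x v = v := by
        intro x hx
        rw [Finset.mem_filter] at hx
        exact Subtype.ext ((hc x v).trans (hfix x hx.2))
      rw [Finset.prod_congr rfl h2, Finset.prod_const]
      congr 1
      rw [← Nat.card_congr (subgroupOfEquivOfLe hX₁).toEquiv, ← Fintype.card_subtype,
        Nat.card_eq_fintype_card]
      rfl
    refine ⟨((∏ x ∈ Finset.univ.filter (fun x : X => ¬ (x : G) ∈ X₁), c x v : V) : G), ?_, ?_⟩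
    · have h3 : (∏ x ∈ Finset.univ.filter (fun x : X => ¬ (x : G) ∈ X₁), c x v) ∈
          (closure {z : G | ∃ x ∈ X, x ∉ X₁ ∧ z = x * (v : G) * x⁻¹}).subgroupOf V := by
        refine Subgroup.prod_mem _ fun x hx => ?_
        rw [Finset.mem_filter] at hx
        rw [mem_subgroupOf]
        exact Subgroup.subset_closure ⟨x, x.2, hx.2, hc x v⟩
      exact h3
    · show ((N₀ v : V) : G) = _
      rw [hN₀, ← hsplit, h1]
      rfl
  · intro d hd v w hvw
    have key : ∀ s : Finset X, d * ((∏ x ∈ s, c x v : V) : G) * d⁻¹ = ((∏ x ∈ s, c x w : V) : G) := by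
      intro s
      induction s using Finset.induction_on with
      | empty => simp
      | insert a s ha ih =>
        rw [Finset.prod_insert ha, Finset.prod_insert ha, Subgroup.coe_mul, Subgroup.coe_mul, ← ih,
          hc, hc, ← hvw]
        have hcomm : (a : G) * d = d * a := (mem_centralizer_iff.1 hd) a a.2
        have hcomm' : (a : G)⁻¹ * d⁻¹ = d⁻¹ * (a : G)⁻¹ := by
          rw [← mul_inv_rev, ← mul_inv_rev, hcomm]
        calc d * (↑a * ↑v * (↑a)⁻¹ * ↑(∏ x ∈ s, (c x) v)) * d⁻¹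
            = (d * ↑a) * ↑v * ((↑a)⁻¹ * d⁻¹) * (d * ↑(∏ x ∈ s, (c x) v) * d⁻¹) := by group
          _ = _ := by rw [← hcomm, hcomm']; group
    show d * ((N₀ v : V) : G) * d⁻¹ = ((N₀ w : V) : G)
    rw [hN₀, hN₀]
    exact key _

end Cfsg.Agent.Lib.H55XF
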