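import Cfsg.Agent.Lib.H55XFdefs
import Cfsg.Agent.Lib.Helper55SL2

set_option autoImplicit false

namespace Cfsg.Agent.Lib.H55XF

open Subgroup Cfsg Cfsg.Agent.Lib.Helper55FF Cfsg.Agent.Lib.Helper55Hol Cfsg.Agent.Lib.Helper55SL2
open scoped commutatorElement

variable {G : Type*} [Group G]

/-- piece `opx` : the operator group induced by `X` on `K`. -/
theorem exists_operators {K X : Subgroup G} (hXK : X ≤ normalizer (K : Set G)) {q : ℕ}
    (hX : IsElementaryAbelian q X) :
    ∃ 𝒳 : Subgroup (MulAut ↥K), IsPGroup q 𝒳 ∧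
      fixOf 𝒳 = (centralizer (X : Set G)).subgroupOf K := by
  refine ⟨((K.normalizerMonoidHom).comp (Subgroup.inclusion hXK)).range, ?_, ?_⟩
  · rintro ⟨ϕ, x, rfl⟩
    refine ⟨1, ?_⟩
    apply Subtype.ext
    have h1 : x ^ q = 1 := Subtype.ext (by simpa using hX.2 x x.2)
    simp only [pow_one, Subgroup.coe_pow, Subgroup.coe_one]
    rw [← map_pow, h1, map_one]
  · ext k
    rw [mem_fixOf, mem_subgroupOf, mem_centralizer_iff]
    constructor
    · intro h x hx
      have := h _ ⟨⟨x, hx⟩, rfl⟩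
      have h2 := congrArg Subtype.val this
      simp only [MonoidHom.comp_apply, normalizerMonoidHom_apply_apply_coe, coe_inclusion] at h2
      exact mul_inv_eq_iff_eq_mul.1 h2
    · rintro h ϕ ⟨x, rfl⟩
      apply Subtype.ext
      simp only [MonoidHom.comp_apply, normalizerMonoidHom_apply_apply_coe, coe_inclusion]
      rw [h x x.2]; simp

end Cfsg.Agent.Lib.H55XF
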