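import Cfsg.Agent.Lib.H55XFdefs
import Cfsg.Agent.Lib.Helper55SL2

set_option autoImplicit false

namespace Cfsg.Agent.Lib.H55XF

open Subgroup Cfsg Cfsg.Agent.Lib.Helper55FF Cfsg.Agent.Lib.Helper55Hol Cfsg.Agent.Lib.Helper55SL2
open scoped commutatorElement

variable {G : Type*} [Group G]

/-- piece `tr621` : transport of the conclusion of S0621 from `↥K` to `G`. -/
theorem transport621 {p : ℕ} {K C : Subgroup G} {W D : Subgroup ↥K}
    (hWC : W ≤ C.subgroupOf K) (hDC : D ≤ C.subgroupOf K) (hW : IsElementaryAbelian p W)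
    (hc : Nat.card W = p ^ 2) (hDW : D ≤ normalizer (W : Set ↥K))
    (hn : ((centralizer (W : Set ↥K)).subgroupOf D).Normal)
    (e : Nonempty ((↥D ⧸ (centralizer (W : Set ↥K)).subgroupOf D) ≃*
          Matrix.SpecialLinearGroup (Fin 2) (ZMod p))) :
    ∃ W' D' : Subgroup G, W' ≤ K ⊓ C ∧ D' ≤ K ⊓ C ∧ IsElementaryAbelian p W' ∧
      Nat.card W' = p ^ 2 ∧ D' ≤ normalizer (W' : Set G) ∧
      ∃ hn : ((centralizer (W' : Set G)).subgroupOf D').Normal,
        Nonempty ((↥D' ⧸ (centralizer (W' : Set G)).subgroupOf D') ≃*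
          Matrix.SpecialLinearGroup (Fin 2) (ZMod p)) := by
  obtain ⟨e⟩ := e
  let e0 : ↥D ≃* ↥(D.map K.subtype) := D.equivMapOfInjective K.subtype K.subtype_injective
  have he : ((centralizer (W : Set ↥K)).subgroupOf D).map e0.toMonoidHom =
      (centralizer ((W.map K.subtype : Subgroup G) : Set G)).subgroupOf (D.map K.subtype) := by
    ext ⟨_, d, hd, rfl⟩
    rw [mem_subgroupOf, mem_centralizer_iff]
    constructor
    · rintro ⟨d', hd', h⟩
      have h1 : ((d' : ↥K) : G) = (d : G) :=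
        congrArg (fun z : ↥(D.map K.subtype) => (z : G)) h
      have h2 : (d' : ↥K) = d := Subtype.ext h1
      rw [SetLike.mem_coe, mem_subgroupOf, mem_centralizer_iff, h2] at hd'
      rintro _ ⟨w, hw, rfl⟩
      exact congrArg Subtype.val (hd' w hw)
    · intro h
      refine ⟨⟨d, hd⟩, ?_, Subtype.ext rfl⟩
      rw [SetLike.mem_coe, mem_subgroupOf, mem_centralizer_iff]
      intro w hw
      exact Subtype.ext (h _ ⟨w, hw, rfl⟩)
  have hn' : ((centralizer ((W.map K.subtype : Subgroup G) : Set G)).subgroupOf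
      (D.map K.subtype)).Normal := by
    rw [← he]
    exact hn.map _ e0.surjective
  refine ⟨W.map K.subtype, D.map K.subtype, ?_, ?_, ⟨?_, ?_⟩, ?_, ?_, hn', ⟨?_⟩⟩
  · rintro _ ⟨w, hw, rfl⟩
    exact mem_inf.2 ⟨w.2, hWC hw⟩
  · rintro _ ⟨w, hw, rfl⟩
    exact mem_inf.2 ⟨w.2, hDC hw⟩
  · have := hW.1
    refine ⟨⟨?_⟩⟩
    rintro ⟨_, a, ha, rfl⟩ ⟨_, b, hb, rfl⟩
    apply Subtype.ext
    have h := mul_comm' (⟨a, ha⟩ : ↥W) ⟨b, hb⟩
    exact congrArg (fun z : ↥W => ((z : ↥K) : G)) h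
  · rintro _ ⟨w, hw, rfl⟩
    have := hW.2 w hw
    exact congrArg Subtype.val this
  · rw [card_map_of_injective K.subtype_injective, hc]
  · calc D.map K.subtype ≤ (normalizer (W : Set ↥K)).map K.subtype := map_mono hDW
      _ ≤ _ := le_normalizer_map _
  · exact (QuotientGroup.congr _ _ e0 he).symm.trans e

end Cfsg.Agent.Lib.H55XF
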