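import Mathlib
import Cfsg.Agent.Lib.Helper59BRDefs

set_option autoImplicit false
set_option linter.unusedSectionVars false
set_option linter.unusedVariables false

namespace Cfsg.Agent.Lib.H59BRSelf

open Cfsg Subgroup
open Cfsg.Agent.Lib.Helper81Base Cfsg.Agent.Lib.Helper82Linear Cfsg.Agent.Lib.Helper59BRDefs
open scoped ComplexConjugate

variable {G : Type*} [Group G] [Finite G] {p : ℕ} [Fact p.Prime]

/-- Let `S` be a Sylow `p`-subgroup containing `z`.  `Z(S) ≠ 1` centralises `z`, so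
`Z(S) ≤ ⟨z⟩`, `Z(S) = ⟨z⟩`, so `S ≤ C(z) = ⟨z⟩`. -/
theorem exists_sylow (z : G) (hz : orderOf z = p)
    (hC : centralizer ({z} : Set G) = zpowers z) :
    ∃ P : Sylow p G, (P : Subgroup G) = zpowers z := by
  have hzp : IsPGroup p (zpowers z) := by
    apply IsPGroup.of_card (n := 1)
    rw [Nat.card_zpowers, hz, pow_one]
  obtain ⟨S, hS⟩ := hzp.exists_le_sylow
  refine ⟨S, le_antisymm ?_ hS⟩
  have hzS : z ∈ (S : Subgroup G) := hS (mem_zpowers z)
  have hz1 : z ≠ 1 := by
    rintro rfl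
    rw [orderOf_one] at hz
    exact (Fact.out : p.Prime).one_lt.ne hz
  haveI : Nontrivial (S : Subgroup G) := ⟨⟨⟨z, hzS⟩, 1, fun h => hz1 (congrArg Subtype.val h)⟩⟩
  have hc := S.2.center_nontrivial
  obtain ⟨c, hc1⟩ := exists_ne (1 : center (S : Subgroup G))
  have hcz : ((c : (S : Subgroup G)) : G) ∈ zpowers z := by
    rw [← hC, mem_centralizer_singleton_iff]
    have := mem_center_iff.mp c.2 ⟨z, hzS⟩
    exact (congrArg Subtype.val this).symm
  have hc1' : ((c : (S : Subgroup G)) : G) ≠ 1 := fun h => hc1 (Subtype.ext (Subtype.ext h))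
  -- `z` is a power of `c`
  have hgen : zpowers ((c : (S : Subgroup G)) : G) = zpowers z := by
    apply eq_of_le_of_card_ge (by rwa [zpowers_le])
    rw [Nat.card_zpowers, Nat.card_zpowers, hz]
    have h1 : orderOf ((c : (S : Subgroup G)) : G) ∣ p := by
      have h0 := orderOf_dvd_of_mem_zpowers hcz
      rwa [hz] at h0
    rcases (Nat.dvd_prime (Fact.out : p.Prime)).mp h1 with h | h
    · exact absurd (orderOf_eq_one_iff.mp h) hc1'
    · exact h.ge
  intro y hy
  rw [← hC, mem_centralizer_singleton_iff]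
  have hzc : z ∈ zpowers ((c : (S : Subgroup G)) : G) := hgen ▸ mem_zpowers z
  obtain ⟨k, hk⟩ := mem_zpowers_iff.mp hzc
  have hyc : ((c : (S : Subgroup G)) : G) * y = y * ((c : (S : Subgroup G)) : G) := by
    have := mem_center_iff.mp c.2 ⟨y, hy⟩
    exact (congrArg Subtype.val this).symm
  rw [← hk]
  exact ((Commute.zpow_left hyc k).eq).symm

end Cfsg.Agent.Lib.H59BRSelf
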