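import Mathlib

/-! PIECE `TiNP`: a group generated by elements that preserve or swap two disjoint finite sets, one of them
swapping, has a commutator subgroup of even index. PURE MATHLIB. -/

set_option autoImplicit false

namespace Cfsg.Agent.Lib.H63TiNP

theorem inv_maps {Γ X : Type*} [Group Γ] [DecidableEq X] (r : X → Γ → X) (h1 : ∀ x, r x 1 = x)
    (hm : ∀ x g h, r x (g * h) = r (r x g) h) (A B : Finset X) (g : Γ)
    (hA : ∀ x ∈ A, r x g ∈ B) (hcard : B.card ≤ A.card) : ∀ y ∈ B, r y g⁻¹ ∈ A := by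
  have hinj : Function.Injective (fun x => r x g) := by
    intro x y hxy
    have h2 : r (r x g) g⁻¹ = r (r y g) g⁻¹ := by
      simp only at hxy
      rw [hxy]
    rwa [← hm, ← hm, mul_inv_cancel, h1, h1] at h2
  have himg : A.image (fun x => r x g) = B := by
    apply Finset.eq_of_subset_of_card_le
    · intro y hy
      obtain ⟨x, hx, rfl⟩ := Finset.mem_image.1 hy
      exact hA x hx
    · rw [Finset.card_image_of_injective _ hinj]
      exact hcard
  intro y hy
  rw [← himg] at hy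
  obtain ⟨x, hx, rfl⟩ := Finset.mem_image.1 hy
  rw [← hm, mul_inv_cancel, h1]
  exact hx

theorem card_le_of_maps {Γ X : Type*} [Group Γ] [DecidableEq X] (r : X → Γ → X)
    (h1 : ∀ x, r x 1 = x) (hm : ∀ x g h, r x (g * h) = r (r x g) h) (A B : Finset X) (g : Γ)
    (hA : ∀ x ∈ A, r x g ∈ B) : A.card ≤ B.card := by
  apply Finset.card_le_card_of_injOn (fun x => r x g) hA
  intro x _ y _ hxy
  have h2 : r (r x g) g⁻¹ = r (r y g) g⁻¹ := by
    simp only at hxy
    rw [hxy]
  rwa [← hm, ← hm, mul_inv_cancel, h1, h1] at h2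

theorem even_index {Γ X : Type*} [Group Γ] [DecidableEq X] (r : X → Γ → X) (h1 : ∀ x, r x 1 = x)
    (hm : ∀ x g h, r x (g * h) = r (r x g) h) (A B : Finset X) (hAB : Disjoint A B) (S : Set Γ)
    (hS : ∀ s ∈ S, ((∀ x ∈ A, r x s ∈ A) ∧ (∀ x ∈ B, r x s ∈ B)) ∨
      ((∀ x ∈ A, r x s ∈ B) ∧ (∀ x ∈ B, r x s ∈ A)))
    (s0 : Γ) (hs0 : s0 ∈ S) (x0 : X) (hx0 : x0 ∈ A) (hx0' : r x0 s0 ∈ B) :
    2 ∣ (commutator (Subgroup.closure S)).index := by
  classical
  set P : Γ → Prop := fun g => (∀ x ∈ A, r x g ∈ A) ∧ (∀ x ∈ B, r x g ∈ B) with hP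
  set Q : Γ → Prop := fun g => (∀ x ∈ A, r x g ∈ B) ∧ (∀ x ∈ B, r x g ∈ A) with hQ
  have hex : ∀ g, Q g → ¬ P g := by
    intro g hq hp
    exact (Finset.disjoint_left.1 hAB) (hp.1 x0 hx0) (hq.1 x0 hx0)
  have hPP : ∀ g h, P g → P h → P (g * h) := by
    intro g h hg hh
    exact ⟨fun x hx => by rw [hm]; exact hh.1 _ (hg.1 x hx),
      fun x hx => by rw [hm]; exact hh.2 _ (hg.2 x hx)⟩
  have hPQ : ∀ g h, P g → Q h → Q (g * h) := by
    intro g h hg hh
    exact ⟨fun x hx => by rw [hm]; exact hh.1 _ (hg.1 x hx),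
      fun x hx => by rw [hm]; exact hh.2 _ (hg.2 x hx)⟩
  have hQP : ∀ g h, Q g → P h → Q (g * h) := by
    intro g h hg hh
    exact ⟨fun x hx => by rw [hm]; exact hh.2 _ (hg.1 x hx),
      fun x hx => by rw [hm]; exact hh.1 _ (hg.2 x hx)⟩
  have hQQ : ∀ g h, Q g → Q h → P (g * h) := by
    intro g h hg hh
    exact ⟨fun x hx => by rw [hm]; exact hh.2 _ (hg.1 x hx),
      fun x hx => by rw [hm]; exact hh.1 _ (hg.2 x hx)⟩
  have hall : ∀ g ∈ Subgroup.closure S, P g ∨ Q g := by
    intro g hg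
    induction hg using Subgroup.closure_induction with
    | mem s hs => exact hS s hs
    | one => exact Or.inl ⟨fun x hx => by rw [h1]; exact hx, fun x hx => by rw [h1]; exact hx⟩
    | mul g h _ _ ihg ihh =>
      rcases ihg with ihg | ihg <;> rcases ihh with ihh | ihh
      · exact Or.inl (hPP g h ihg ihh)
      · exact Or.inr (hPQ g h ihg ihh)
      · exact Or.inr (hQP g h ihg ihh)
      · exact Or.inl (hQQ g h ihg ihh)
    | inv g _ ih =>
      rcases ih with ih | ih
      · exact Or.inl ⟨inv_maps r h1 hm A A g ih.1 le_rfl, inv_maps r h1 hm B B g ih.2 le_rfl⟩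
      · have c1 := card_le_of_maps r h1 hm A B g ih.1
        have c2 := card_le_of_maps r h1 hm B A g ih.2
        exact Or.inr ⟨inv_maps r h1 hm B A g ih.2 c1, inv_maps r h1 hm A B g ih.1 c2⟩
  let χ : Subgroup.closure S →* ℤˣ := MonoidHom.mk' (fun g => if P g.1 then 1 else -1) (by
    intro g h
    rcases hall g.1 g.2 with hg | hg <;> rcases hall h.1 h.2 with hh | hh
    · simp only [Subgroup.coe_mul, if_pos hg, if_pos hh, if_pos (hPP _ _ hg hh), mul_one]
    · simp only [Subgroup.coe_mul, if_pos hg, if_neg (hex _ hh), if_neg (hex _ (hPQ _ _ hg hh)),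
        one_mul]
    · simp only [Subgroup.coe_mul, if_pos hh, if_neg (hex _ hg), if_neg (hex _ (hQP _ _ hg hh)),
        mul_one]
    · simp only [Subgroup.coe_mul, if_neg (hex _ hh), if_neg (hex _ hg), if_pos (hQQ _ _ hg hh)]
      simp)
  have hle : commutator (Subgroup.closure S) ≤ χ.ker := Abelianization.commutator_subset_ker χ
  have hdvd := Subgroup.index_dvd_of_le hle
  refine dvd_trans ?_ hdvd
  rw [Subgroup.index_ker]
  have hs0Q : Q s0 := by
    rcases hS s0 hs0 with h | h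
    · exact absurd hx0' (fun hb => (Finset.disjoint_left.1 hAB) (h.1 x0 hx0) hb)
    · exact h
  have htop : χ.range = ⊤ := by
    rw [eq_top_iff]
    intro u _
    rcases Int.units_eq_one_or u with rfl | rfl
    · exact χ.range.one_mem
    · refine ⟨⟨s0, Subgroup.subset_closure hs0⟩, ?_⟩
      show (if P s0 then (1 : ℤˣ) else -1) = -1
      rw [if_neg (hex _ hs0Q)]
  rw [htop, Nat.card_congr Subgroup.topEquiv.toEquiv, Nat.card_eq_fintype_card]
  decide

end Cfsg.Agent.Lib.H63TiNP
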