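import Cfsg.Agent.Lib.H63TiVec
import Cfsg.Agent.Lib.H63TiNP

/-! PIECE `TiCol`: a matrix group over `ZMod 2` whose generators permute a 2-coloured list of packed vectors, preserving or
swapping the colours, one of them swapping: the commutator subgroup has even index. -/

set_option autoImplicit false

namespace Cfsg.Agent.Lib.H63TiCol

open Cfsg.Agent.Lib.Helper63TiDefs

variable {ι : Type} [Fintype ι] [DecidableEq ι]

theorem decV_inj (n : ℕ) (ix : ι → ℕ) (hsurj : ∀ k < n, ∃ i, ix i = k) {a b : ℕ}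
    (ha : a < 2 ^ n) (hb : b < 2 ^ n) (h : decV ix a = decV ix b) : a = b := by
  apply Nat.eq_of_testBit_eq
  intro k
  by_cases hk : k < n
  · obtain ⟨i, rfl⟩ := hsurj k hk
    have h1 := congrFun h i
    simp only [decV] at h1
    by_cases h2 : a.testBit (ix i) = true <;> by_cases h3 : b.testBit (ix i) = true
    · rw [h2, h3]
    · rw [if_pos h2, if_neg h3] at h1
      exact absurd h1 (by decide)
    · rw [if_neg h2, if_pos h3] at h1
      exact absurd h1 (by decide)
    · simp only [Bool.not_eq_true] at h2 h3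
      rw [h2, h3]
  · have hk' : n ≤ k := Nat.le_of_not_lt hk
    have hp : 2 ^ n ≤ 2 ^ k := Nat.pow_le_pow_right (by norm_num) hk'
    rw [Nat.testBit_eq_false_of_lt (lt_of_lt_of_le ha hp),
      Nat.testBit_eq_false_of_lt (lt_of_lt_of_le hb hp)]

theorem W_lt (NW : ℕ) (W : ℕ → ℕ) (hW : ∀ i, i + 1 < NW → W i < W (i + 1)) :
    ∀ d i, i + d + 1 < NW → W i < W (i + d + 1) := by
  intro d
  induction d with
  | zero => intro i h; exact hW i h
  | succ d ih =>
    intro i h
    have h1 := ih i (by omega)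
    have h2 := hW (i + d + 1) (by omega)
    exact lt_trans h1 h2

theorem W_inj (NW : ℕ) (W : ℕ → ℕ) (hW : ∀ i, i + 1 < NW → W i < W (i + 1)) {i j : ℕ}
    (hi : i < NW) (hj : j < NW) (h : W i = W j) : i = j := by
  rcases lt_trichotomy i j with hij | hij | hij
  · obtain ⟨d, rfl⟩ : ∃ d, j = i + d + 1 := ⟨j - i - 1, by omega⟩
    exact absurd h (ne_of_lt (W_lt NW W hW d i hj))
  · exact hij
  · obtain ⟨d, rfl⟩ : ∃ d, i = j + d + 1 := ⟨i - j - 1, by omega⟩
    exact absurd h.symm (ne_of_lt (W_lt NW W hW d j hi))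

/-- Apply `H63TiNP.even_index`. -/
theorem even_index (n : ℕ) (ix : ι → ℕ) (hinj : Function.Injective ix) (hlt : ∀ i, ix i < n)
    (hsurj : ∀ k < n, ∃ i, ix i = k) (NW : ℕ) (W : ℕ → ℕ) (col : ℕ → Bool)
    (hW : ∀ i, i + 1 < NW → W i < W (i + 1)) (hWlt : ∀ i < NW, W i < 2 ^ n)
    (S : Set (GL ι (ZMod 2)))
    (hS : ∀ s ∈ S, ∃ (c : ℕ) (π : ℕ → ℕ) (ε : Bool), RepM n ix (s : Matrix ι ι (ZMod 2)) c ∧
      ∀ i < NW, rowMul n c (W i) n = W (π i) ∧ π i < NW ∧ col (π i) = xor (col i) ε)
    (s0 : GL ι (ZMod 2)) (hs0 : s0 ∈ S) (c0 : ℕ) (hc0 : RepM n ix (s0 : Matrix ι ι (ZMod 2)) c0)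
    (i0 j0 : ℕ) (hi0 : i0 < NW) (hj0 : j0 < NW) (hcol : col i0 = false) (hcol' : col j0 = true)
    (hmove : rowMul n c0 (W i0) n = W j0) :
    2 ∣ (commutator (Subgroup.closure S)).index := by
  classical
  have key : ∀ (b : Bool) (x : ι → ZMod 2),
      x ∈ ((Finset.range NW).filter (fun i => col i = b)).image (fun i => decV ix (W i)) ↔
        ∃ i, i < NW ∧ col i = b ∧ decV ix (W i) = x := by
    intro b x
    simp only [Finset.mem_image, Finset.mem_filter, Finset.mem_range, and_assoc]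
  refine H63TiNP.even_index (Γ := GL ι (ZMod 2)) (X := ι → ZMod 2)
    (fun x g => Matrix.vecMul x (g : Matrix ι ι (ZMod 2))) ?_ ?_
    (((Finset.range NW).filter (fun i => col i = false)).image (fun i => decV ix (W i)))
    (((Finset.range NW).filter (fun i => col i = true)).image (fun i => decV ix (W i)))
    ?_ S ?_ s0 hs0 (decV ix (W i0)) ?_ ?_
  · intro x
    simp
  · intro x g h
    simp [Matrix.vecMul_vecMul]
  · rw [Finset.disjoint_left]
    intro x hx hx'
    rw [key] at hx hx'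
    obtain ⟨i, hi, hci, rfl⟩ := hx
    obtain ⟨j, hj, hcj, hij⟩ := hx'
    have h1 : W j = W i := decV_inj n ix hsurj (hWlt j hj) (hWlt i hi) hij
    have h2 : j = i := W_inj NW W hW hj hi h1
    subst h2
    rw [hci] at hcj
    exact absurd hcj (by decide)
  · intro s hs
    obtain ⟨c, π, ε, hrep, hπ⟩ := hS s hs
    have hv : ∀ i, Matrix.vecMul (decV ix (W i)) (s : Matrix ι ι (ZMod 2))
        = decV ix (rowMul n c (W i) n) := fun i =>
      H63TiVec.vecMul n ix hinj hlt hsurj hrep (W i)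
    have gen : ∀ b : Bool, ∀ x ∈ ((Finset.range NW).filter (fun i => col i = b)).image
        (fun i => decV ix (W i)),
        Matrix.vecMul x (s : Matrix ι ι (ZMod 2)) ∈
          ((Finset.range NW).filter (fun i => col i = xor b ε)).image
            (fun i => decV ix (W i)) := by
      intro b x hx
      rw [key] at hx
      obtain ⟨i, hi, hci, rfl⟩ := hx
      rw [key]
      obtain ⟨h1, h2, h3⟩ := hπ i hi
      exact ⟨π i, h2, by rw [h3, hci], by rw [hv i, h1]⟩
    cases ε with
    | false =>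
      left
      exact ⟨fun x hx => by simpa using gen false x hx, fun x hx => by simpa using gen true x hx⟩
    | true =>
      right
      exact ⟨fun x hx => by simpa using gen false x hx, fun x hx => by simpa using gen true x hx⟩
  · rw [key]
    exact ⟨i0, hi0, hcol, rfl⟩
  · show Matrix.vecMul (decV ix (W i0)) (s0 : Matrix ι ι (ZMod 2)) ∈ _
    rw [key, H63TiVec.vecMul n ix hinj hlt hsurj hc0 (W i0), hmove]
    exact ⟨j0, hj0, hcol', rfl⟩

end Cfsg.Agent.Lib.H63TiCol
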