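import Cfsg.Agent.Lib.H63TiRow

/-! PIECE `TiMul`: products of packed matrices over `ZMod 2`. -/

set_option autoImplicit false

namespace Cfsg.Agent.Lib.H63TiMul

open Cfsg.Agent.Lib.Helper63TiDefs Cfsg.Agent.Lib.H63TiRow

variable {ι : Type} [Fintype ι] [DecidableEq ι]

omit [DecidableEq ι] in
theorem sum_reindex (n : ℕ) (ix : ι → ℕ) (hinj : Function.Injective ix) (hlt : ∀ i, ix i < n)
    (hsurj : ∀ k < n, ∃ i, ix i = k) (f : ℕ → ZMod 2) :
    ∑ k ∈ Finset.range n, f k = ∑ i : ι, f (ix i) := by
  symm
  apply Finset.sum_nbij ix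
  · intro i _
    exact Finset.mem_range.mpr (hlt i)
  · intro i _ j _ h
    exact hinj h
  · intro k hk
    obtain ⟨i, hi⟩ := hsurj k (Finset.mem_range.mp hk)
    exact ⟨i, Finset.mem_coe.mpr (Finset.mem_univ i), hi⟩
  · intro i _
    rfl

theorem mulAux_succ (n a b k : ℕ) :
    mulAux n a b (k + 1) = mulAux n a b k ||| (rowMul n b (row n a k) n <<< (n * k)) := rfl

theorem mulAux_zero (n a b : ℕ) : mulAux n a b 0 = 0 := rfl

theorem mulAux_bit (n a b k i t : ℕ) (ht : t < n) :
    (mulAux n a b k).testBit (n * i + t) =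
      (decide (i < k) && (rowMul n b (row n a i) n).testBit t) := by
  induction k with
  | zero => simp [mulAux_zero]
  | succ k ih =>
    rw [mulAux_succ, Nat.testBit_or, ih, Nat.testBit_shiftLeft]
    rcases Nat.lt_trichotomy i k with h | h | h
    · have h1 : n * (i + 1) ≤ n * k := Nat.mul_le_mul_left n h
      have h2 : ¬ (n * i + t ≥ n * k) := by
        rw [Nat.mul_succ] at h1
        omega
      rw [decide_eq_true h, decide_eq_false h2, decide_eq_true (Nat.lt_succ_of_lt h)]
      simp
    · subst h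
      have h2 : n * i + t ≥ n * i := Nat.le_add_right _ _
      rw [decide_eq_false (lt_irrefl i), decide_eq_true h2, decide_eq_true (Nat.lt_succ_self i),
        Nat.add_sub_cancel_left]
      simp
    · have h1 : n * (k + 1) ≤ n * i := Nat.mul_le_mul_left n h
      have h3 : n ≤ n * i + t - n * k := by
        rw [Nat.mul_succ] at h1
        omega
      have h4 : (rowMul n b (row n a k) n).testBit (n * i + t - n * k) = false := by
        apply Nat.testBit_lt_two_pow
        exact lt_of_lt_of_le (rowMul_lt n b (row n a k) n) (Nat.pow_le_pow_right (by norm_num) h3)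
      rw [h4, decide_eq_false (by omega : ¬ i < k), decide_eq_false (by omega : ¬ i < k + 1)]
      simp

/-- Bit `n * i + t` (`t < n`) of `mulAux n a b k` is `decide (i < k) &&` bit `t` of `rowMul n b (row n a i) n`
(induction on `k`; `mulAux n a b (k+1) = mulAux n a b k ||| (rowMul .. <<< (n * k))` by `rfl`; `Nat.testBit_or`,
`Nat.testBit_shiftLeft`; the blocks do not overlap because `rowMul_lt`: for `i ≠ k` the bit `n * i + t - n * k` is either
negative (`n * i + t < n * k`) or `≥ n`).  Then `rowMul_bit`, `row_bit`, `Matrix.mul_apply`, `hM`, `hN` and the reindexing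
`∑ k ∈ Finset.range n, f k = ∑ i : ι, f (ix i)` (`Finset.sum_nbij ix` with `hinj hlt hsurj`). -/
theorem mul (n : ℕ) (ix : ι → ℕ) (hinj : Function.Injective ix) (hlt : ∀ i, ix i < n)
    (hsurj : ∀ k < n, ∃ i, ix i = k) {M N : Matrix ι ι (ZMod 2)} {a b : ℕ} (hM : RepM n ix M a)
    (hN : RepM n ix N b) : RepM n ix (M * N) (mulC n a b) := by
  intro i j
  show (M * N) i j = if (mulAux n a b n).testBit (n * ix i + ix j) = true then 1 else 0
  rw [mulAux_bit n a b n (ix i) (ix j) (hlt j), decide_eq_true (hlt i), Bool.true_and, rowMul_bit,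
    sum_reindex n ix hinj hlt hsurj, Matrix.mul_apply]
  apply Finset.sum_congr rfl
  intro k _
  rw [hM i k, hN k j, row_bit, row_bit, decide_eq_true (hlt k), decide_eq_true (hlt j),
    Bool.true_and, Bool.true_and]

end Cfsg.Agent.Lib.H63TiMul
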