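import Cfsg.Agent.Lib.Helper63TiDefs

/-! PIECE `TiOne`: identity matrix, extensionality of codes. PURE MATHLIB (`Nat.testBit`). -/

set_option autoImplicit false
set_option linter.unusedSectionVars false

namespace Cfsg.Agent.Lib.H63TiOne

open Cfsg.Agent.Lib.Helper63TiDefs

variable {ι : Type} [Fintype ι] [DecidableEq ι]

theorem bit_aux (n m : ℕ) : ∀ k : ℕ,
    (Nat.rec (motive := fun _ => ℕ) 0
      (fun i ih => Nat.lor ih (Nat.shiftLeft 1 (Nat.add (Nat.mul n i) i))) k).testBit m = true ↔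
      ∃ i < k, m = n * i + i
  | 0 => by simp
  | k + 1 => by
    have ih := bit_aux n m k
    show (Nat.lor (Nat.rec (motive := fun _ => ℕ) 0
      (fun i ih => Nat.lor ih (Nat.shiftLeft 1 (Nat.add (Nat.mul n i) i))) k)
        (Nat.shiftLeft 1 (Nat.add (Nat.mul n k) k))).testBit m = true ↔ _
    have e : ∀ a b : ℕ, (Nat.lor a b).testBit m = (a.testBit m || b.testBit m) :=
      fun a b => Nat.testBit_or a b m
    rw [e, Bool.or_eq_true, ih]
    have e2 : (Nat.shiftLeft 1 (Nat.add (Nat.mul n k) k)).testBit m = true ↔ m = n * k + k := by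
      show (1 <<< (n * k + k)).testBit m = true ↔ _
      rw [Nat.one_shiftLeft, Nat.testBit_two_pow]
      simp [eq_comm]
    rw [e2]
    constructor
    · rintro (⟨i, hi, h⟩ | h)
      · exact ⟨i, by omega, h⟩
      · exact ⟨k, by omega, h⟩
    · rintro ⟨i, hi, h⟩
      rcases Nat.lt_succ_iff_lt_or_eq.1 hi with h' | rfl
      · exact Or.inl ⟨i, h', h⟩
      · exact Or.inr h

theorem one (n : ℕ) (ix : ι → ℕ) (hinj : Function.Injective ix) (hlt : ∀ i, ix i < n) :
    RepM n ix (1 : Matrix ι ι (ZMod 2)) (oneC n) := by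
  intro i j
  have key : (oneC n).testBit (n * ix i + ix j) = true ↔ i = j := by
    unfold oneC
    rw [bit_aux]
    constructor
    · rintro ⟨t, ht, h⟩
      have hj := hlt j
      have h1 : (n * ix i + ix j) % n = (n * t + t) % n := by rw [h]
      rw [Nat.mul_add_mod, Nat.mul_add_mod, Nat.mod_eq_of_lt hj, Nat.mod_eq_of_lt ht] at h1
      have h2 : (n * ix i + ix j) / n = (n * t + t) / n := by rw [h]
      have hn : 0 < n := by omega
      rw [Nat.mul_add_div hn, Nat.mul_add_div hn, Nat.div_eq_of_lt hj, Nat.div_eq_of_lt ht] at h2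
      apply hinj
      omega
    · rintro rfl
      exact ⟨ix i, hlt i, rfl⟩
  by_cases hij : i = j
  · rw [if_pos (key.2 hij), hij, Matrix.one_apply_eq]
  · rw [if_neg (fun h => hij (key.1 h)), Matrix.one_apply_ne hij]

theorem pos_lt (n : ℕ) (ix : ι → ℕ) (hlt : ∀ i, ix i < n) (i j : ι) :
    n * ix i + ix j < n * n := by
  have h1 := hlt i
  have h2 := hlt j
  calc n * ix i + ix j < n * ix i + n := by omega
    _ = n * (ix i + 1) := by ring
    _ ≤ n * n := Nat.mul_le_mul_left _ h1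

theorem ext (n : ℕ) (ix : ι → ℕ) (hlt : ∀ i, ix i < n) {M N : Matrix ι ι (ZMod 2)} {a b : ℕ}
    (hM : RepM n ix M a) (hN : RepM n ix N b) (h : nrmC n a = nrmC n b) : M = N := by
  have h' : a % 2 ^ (n * n) = b % 2 ^ (n * n) := h
  ext i j
  rw [hM i j, hN i j]
  have hp := pos_lt n ix hlt i j
  have e1 : a.testBit (n * ix i + ix j) = (a % 2 ^ (n * n)).testBit (n * ix i + ix j) := by
    rw [Nat.testBit_mod_two_pow]; simp [hp]
  have e2 : b.testBit (n * ix i + ix j) = (b % 2 ^ (n * n)).testBit (n * ix i + ix j) := by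
    rw [Nat.testBit_mod_two_pow]; simp [hp]
  rw [e1, e2, h']

theorem inj (n : ℕ) (ix : ι → ℕ) (hsurj : ∀ k < n, ∃ i, ix i = k) {M : Matrix ι ι (ZMod 2)} {a b : ℕ}
    (hM : RepM n ix M a) (hN : RepM n ix M b) : nrmC n a = nrmC n b := by
  show a % 2 ^ (n * n) = b % 2 ^ (n * n)
  apply Nat.eq_of_testBit_eq
  intro m
  rw [Nat.testBit_mod_two_pow, Nat.testBit_mod_two_pow]
  by_cases hm : m < n * n
  · have hn : 0 < n := by
      rcases Nat.eq_zero_or_pos n with h0 | h0
      · subst h0; simp at hm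
      · exact h0
    obtain ⟨i, hi⟩ := hsurj (m / n) (Nat.div_lt_of_lt_mul hm)
    obtain ⟨j, hj⟩ := hsurj (m % n) (Nat.mod_lt _ hn)
    have e : n * ix i + ix j = m := by rw [hi, hj]; exact Nat.div_add_mod m n
    have h1 := hM i j
    have h2 := hN i j
    rw [e] at h1 h2
    rw [h1] at h2
    congr 1
    by_cases ha : a.testBit m = true <;> by_cases hb : b.testBit m = true
    · rw [ha, hb]
    · simp [ha, hb] at h2
    · simp [ha, hb] at h2
    · rw [Bool.not_eq_true] at ha hb
      rw [ha, hb]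
  · simp [hm]

end Cfsg.Agent.Lib.H63TiOne
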