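import Cfsg.Agent.Lib.Helper63TiDefs

/-! PIECE `TiRow`: the bits of `rowMul`. PURE MATHLIB (`Nat.testBit`). -/

set_option autoImplicit false

namespace Cfsg.Agent.Lib.H63TiRow

open Cfsg.Agent.Lib.Helper63TiDefs

/-- `Nat.and_one_is_mod`, `Nat.testBit`; see `Helper63TCS.tbit_eq` (landed) for a complete proof of the same statement. -/
theorem tb_eq (c k : ℕ) : tb c k = c.testBit k := by
  show Nat.beq ((c >>> k) &&& 1) 1 = c.testBit k
  rw [Nat.testBit, Nat.and_comm 1]
  have h : (c >>> k) &&& 1 = (c >>> k) % 2 := Nat.and_one_is_mod _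
  rw [h]
  rcases Nat.mod_two_eq_zero_or_one (c >>> k) with h | h <;> rw [h] <;> rfl

/-- `Nat.testBit_and`, `Nat.testBit_shiftRight`, `Nat.testBit_two_pow_sub_one` (the raw `Nat.land` etc. are `&&&` etc. by `rfl`/`show`). -/
theorem row_bit (n c i t : ℕ) : (row n c i).testBit t = (decide (t < n) && c.testBit (n * i + t)) := by
  show ((c >>> (n * i)) &&& (2 ^ n - 1)).testBit t = _
  rw [Nat.testBit_and, Nat.testBit_shiftRight, Nat.testBit_two_pow_sub_one, Bool.and_comm]

theorem rowMul_succ (n b r k : ℕ) :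
    rowMul n b r (k + 1) = rowMul n b r k ^^^ (cond (tb r k) (row n b k) 0) := rfl

theorem rowMul_zero (n b r : ℕ) : rowMul n b r 0 = 0 := rfl

/-- induction on `k`: `rowMul n b r (k+1) = rowMul n b r k ^^^ (cond (tb r k) (row n b k) 0)` by `rfl`; `Nat.testBit_xor`,
`Finset.sum_range_succ`, then case bash on the Booleans (in `ZMod 2`: `1 + 1 = 0` by `decide`/`rfl`). -/
theorem rowMul_bit (n b r k t : ℕ) :
    ((if (rowMul n b r k).testBit t = true then 1 else 0 : ZMod 2)) =
      ∑ j ∈ Finset.range k, (if r.testBit j = true then (1 : ZMod 2) else 0) *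
        (if (row n b j).testBit t = true then 1 else 0) := by
  induction k with
  | zero => simp [rowMul_zero]
  | succ k ih =>
    rw [rowMul_succ, Finset.sum_range_succ, ← ih, Nat.testBit_xor, tb_eq]
    cases h1 : (rowMul n b r k).testBit t <;> cases h2 : r.testBit k <;>
      cases h3 : (row n b k).testBit t <;> simp [h3] <;> decide

/-- all bits `t ≥ n` vanish (induction on `k` with `row_bit`), then `Nat.lt_pow_two_of_testBit` -/
theorem rowMul_lt (n b r k : ℕ) : rowMul n b r k < 2 ^ n := by
  apply Nat.lt_pow_two_of_testBit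
  intro t ht
  induction k with
  | zero => simp [rowMul_zero]
  | succ k ih =>
    rw [rowMul_succ, Nat.testBit_xor, ih]
    cases tb r k
    · simp
    · simp only [cond_true, row_bit, Bool.false_bne, Bool.and_eq_false_imp, decide_eq_true_eq]
      intro h
      omega

end Cfsg.Agent.Lib.H63TiRow
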