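import Cfsg.Agent.Lib.H63TiRow

/-! PIECE `TiVec`: a packed row vector times a packed matrix. -/

set_option autoImplicit false

namespace Cfsg.Agent.Lib.H63TiVec

open Cfsg.Agent.Lib.Helper63TiDefs Cfsg.Agent.Lib.H63TiRow

variable {ι : Type} [Fintype ι] [DecidableEq ι]

theorem sum_reindex (n : ℕ) (ix : ι → ℕ) (hinj : Function.Injective ix) (hlt : ∀ i, ix i < n)
    (hsurj : ∀ k < n, ∃ i, ix i = k) (f : ℕ → ZMod 2) :
    ∑ k ∈ Finset.range n, f k = ∑ i : ι, f (ix i) := by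
  symm
  apply Finset.sum_nbij ix
  · intro i _
    exact Finset.mem_range.mpr (hlt i)
  · intro i _ j _ h
    exact hinj h
  · intro k hk
    obtain ⟨i, hi⟩ := hsurj k (Finset.mem_range.mp hk)
    exact ⟨i, Finset.mem_coe.mpr (Finset.mem_univ i), hi⟩
  · intro i _
    rfl

/-- `funext j`; `Matrix.vecMul`/`dotProduct` unfold to `∑ i : ι, decV ix v i * M i j`; right side: `rowMul_bit n c v n (ix j)`;
`row_bit` with `ix j < n`; `hM i j`; reindex `∑ k ∈ Finset.range n, f k = ∑ i : ι, f (ix i)` (`Finset.sum_bij`/`Finset.sum_nbij ix`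
with `hinj hlt hsurj`). -/
theorem vecMul (n : ℕ) (ix : ι → ℕ) (hinj : Function.Injective ix) (hlt : ∀ i, ix i < n)
    (hsurj : ∀ k < n, ∃ i, ix i = k) {M : Matrix ι ι (ZMod 2)} {c : ℕ} (hM : RepM n ix M c) (v : ℕ) :
    Matrix.vecMul (decV ix v) M = decV ix (rowMul n c v n) := by
  funext j
  show ∑ i : ι, decV ix v i * M i j = (if (rowMul n c v n).testBit (ix j) = true then 1 else 0)
  rw [rowMul_bit, sum_reindex n ix hinj hlt hsurj]
  apply Finset.sum_congr rfl
  intro i _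
  rw [hM i j, row_bit, decide_eq_true (hlt j), Bool.true_and]
  rfl

end Cfsg.Agent.Lib.H63TiVec
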