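import Cfsg.Agent.Lib.H65DecMonApi

/-! # Project 66 (S5634), piece `A1` -/

set_option autoImplicit false
set_option linter.unusedSectionVars false
set_option linter.unusedVariables false

namespace Cfsg.Agent.Lib.H65DecA1

open Matrix Module Cfsg.Geo Cfsg.Agent.Lib.Helper95Basic Cfsg.Agent.Lib.H65DecDefs
  Cfsg.Agent.Lib.H65DecCalc Cfsg.Agent.Lib.H65DecMonA Cfsg.Agent.Lib.H65DecMonApi

variable {ι : Type} [Fintype ι] [DecidableEq ι] {F : Type*} [Field F] [Fintype F]

/-- linear algebra core: the torus `d2 j j' a` cannot permute the columns of `g` up to scalars if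
some column has non-zero coordinates at `j` and at some `i ∉ {j, j'}` -/
private lemma core (hq : 5 ≤ Fintype.card F) (g : GL ι F) (l j j' i : ι) (hjj : j ≠ j')
    (hij : i ≠ j) (hij' : i ≠ j')
    (hj : (g : Matrix ι ι F) j l ≠ 0) (hi : (g : Matrix ι ι F) i l ≠ 0)
    (h : ∀ a : Fˣ, ∃ (m : ι) (c : F), ((d2 j j' a : GL ι F) : Matrix ι ι F) *ᵥ
      ((g : Matrix ι ι F) *ᵥ e l) = c • ((g : Matrix ι ι F) *ᵥ e m)) : False := by
  classical
  choose lam c hc using h
  obtain ⟨v, hv⟩ : ∃ v : ι → F, v = (g : Matrix ι ι F) *ᵥ e l := ⟨_, rfl⟩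
  rw [← hv] at hc
  have hvj : v j ≠ 0 := by rw [hv, mulVec_e]; exact hj
  have hvi : v i ≠ 0 := by rw [hv, mulVec_e]; exact hi
  have hd : ∀ a : Fˣ, v + (((a : F) - 1) * v j) • e j + ((((a⁻¹ : Fˣ) : F) - 1) * v j') • e j'
      = c a • ((g : Matrix ι ι F) *ᵥ e (lam a)) := by
    intro a
    rw [← hc a, d2_mulVec hjj]
  have hdi : ∀ a : Fˣ, v i = c a * ((g : Matrix ι ι F) *ᵥ e (lam a)) i := by
    intro a
    have := congrFun (hd a) i
    simpa [hij, hij'] using this
  have hdj : ∀ a : Fˣ, (a : F) * v j = c a * ((g : Matrix ι ι F) *ᵥ e (lam a)) j := by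
    intro a
    have := congrFun (hd a) j
    simp [hjj] at this
    rw [← this]; ring
  have hc0 : ∀ a, c a ≠ 0 := by
    intro a h0
    have := hdi a
    rw [h0, zero_mul] at this
    exact hvi this
  have hinj : Function.Injective lam := by
    intro a a' haa
    have h1 := hdi a
    have h2 := hdi a'
    rw [← haa] at h2
    have hw : ((g : Matrix ι ι F) *ᵥ e (lam a)) i ≠ 0 := by
      intro h0
      rw [h0, mul_zero] at h1
      exact hvi h1
    have hcc : c a = c a' := by
      have : c a * ((g : Matrix ι ι F) *ᵥ e (lam a)) i = c a' * ((g : Matrix ι ι F) *ᵥ e (lam a)) i := by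
        rw [← h1, ← h2]
      exact mul_right_cancel₀ hw this
    have h3 := hdj a
    have h4 := hdj a'
    rw [← haa, ← hcc, ← h3] at h4
    have := mul_right_cancel₀ hvj h4
    exact (Units.ext this).symm
  have hLI : LinearIndependent F (fun a : Fˣ => (g : Matrix ι ι F) *ᵥ (e (lam a) : ι → F)) :=
    (linearIndependent_cols g).comp lam hinj
  have hcard := finrank_span_eq_card hLI
  have hle : Submodule.span F (Set.range (fun a : Fˣ => (g : Matrix ι ι F) *ᵥ (e (lam a) : ι → F)))
      ≤ Submodule.span F (({v, e j, e j'} : Finset (ι → F)) : Set (ι → F)) := by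
    rw [Submodule.span_le]
    rintro _ ⟨a, rfl⟩
    have : (g : Matrix ι ι F) *ᵥ (e (lam a) : ι → F) = (c a)⁻¹ •
        (v + (((a : F) - 1) * v j) • e j + ((((a⁻¹ : Fˣ) : F) - 1) * v j') • e j') := by
      rw [hd a, smul_smul, inv_mul_cancel₀ (hc0 a), one_smul]
    simp only [SetLike.mem_coe]
    rw [this]
    refine Submodule.smul_mem _ _ (Submodule.add_mem _ (Submodule.add_mem _ ?_ ?_) ?_)
    · exact Submodule.subset_span (by simp)
    · exact Submodule.smul_mem _ _ (Submodule.subset_span (by simp))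
    · exact Submodule.smul_mem _ _ (Submodule.subset_span (by simp))
  have h1 := Submodule.finrank_mono hle
  have h2 := finrank_span_finset_le_card (R := F) ({v, e j, e j'} : Finset (ι → F))
  have h3 : ({v, e j, e j'} : Finset (ι → F)).card ≤ 3 := Finset.card_le_three
  have h4 : Fintype.card Fˣ = Fintype.card F - 1 := Fintype.card_units F
  unfold Set.finrank at h2
  omega

/-- if the column `k` has zeros at `j ≠ j'` then a column which is non-zero at `j` is supported
in `{j, j'}` -/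
private lemma supp (hq : 5 ≤ Fintype.card F) (H : Subgroup (GL ι F))
    (hM : SMon ι F ≤ H) (hN : NN H) (g : GL ι F) (hg : g ∈ H) (k j j' : ι) (hjj : j ≠ j')
    (h1 : (g : Matrix ι ι F) j k = 0) (h2 : (g : Matrix ι ι F) j' k = 0) (l i : ι)
    (hij : i ≠ j) (hij' : i ≠ j') (hj : (g : Matrix ι ι F) j l ≠ 0) :
    (g : Matrix ι ι F) i l = 0 := by
  by_contra hi
  refine core hq g l j j' i hjj hij hij' hj hi (fun a => ?_)
  have ht : d2 j j' a ∈ H := hM (d2_mem hjj a)
  have hmem : g⁻¹ * d2 j j' a * g ∈ H := H.mul_mem (H.mul_mem (H.inv_mem hg) ht) hg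
  have hfix : ((d2 j j' a : GL ι F) : Matrix ι ι F) *ᵥ ((g : Matrix ι ι F) *ᵥ e k)
      = (g : Matrix ι ι F) *ᵥ e k := by
    rw [d2_mulVec hjj, mulVec_e, mulVec_e, h1, h2]
    simp
  have hmon : g⁻¹ * d2 j j' a * g ∈ Mon ι F := by
    refine hN _ hmem ⟨k, k, 1, ?_⟩
    rw [mul_mulVec, mul_mulVec, hfix, inv_mulVec_mulVec, one_smul]
  obtain ⟨σ, hσ⟩ := hmon
  obtain ⟨c, hc⟩ := hσ l
  refine ⟨σ l, c, ?_⟩
  rw [mul_mulVec, mul_mulVec] at hc
  have := congrArg (fun x => (g : Matrix ι ι F) *ᵥ x) hc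
  simp only [mulVec_inv_mulVec, Matrix.mulVec_smul] at this
  exact this

/-- **Step 2, (A1)**: a non-monomial element has at most one zero in each column -/
theorem a1 (hq : 5 ≤ Fintype.card F) (hn : 6 ≤ Fintype.card ι) (H : Subgroup (GL ι F))
    (hM : SMon ι F ≤ H) (hN : NN H) : A1 H := by
  classical
  intro g hg hgM k j j' hjj h1 h2
  obtain ⟨l, hl⟩ := exists_row_ne_zero g j
  have hsup : ∀ i, i ≠ j → i ≠ j' → (g : Matrix ι ι F) i l = 0 := fun i hi hi' =>
    supp hq H hM hN g hg k j j' hjj h1 h2 l i hi hi' hl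
  -- three further indices
  have hcard : 3 ≤ ((Finset.univ : Finset ι) \ {j, j'}).card := by
    have h3 := Finset.le_card_sdiff ({j, j'} : Finset ι) Finset.univ
    have h4 : ({j, j'} : Finset ι).card ≤ 2 := Finset.card_le_two
    rw [Finset.card_univ] at h3
    omega
  obtain ⟨s, hs, hs3⟩ := Finset.exists_subset_card_eq hcard
  obtain ⟨a, b, c, hab, hac, hbc, rfl⟩ := Finset.card_eq_three.mp hs3
  have ha : a ≠ j ∧ a ≠ j' := by
    have := hs (show a ∈ ({a, b, c} : Finset ι) by simp)
    simpa using this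
  have hb : b ≠ j ∧ b ≠ j' := by
    have := hs (show b ∈ ({a, b, c} : Finset ι) by simp)
    simpa using this
  have hc : c ≠ j ∧ c ≠ j' := by
    have := hs (show c ∈ ({a, b, c} : Finset ι) by simp)
    simpa using this
  have za := hsup a ha.1 ha.2
  have zb := hsup b hb.1 hb.2
  have zc := hsup c hc.1 hc.2
  obtain ⟨l', hl'⟩ := exists_row_ne_zero g a
  have hz : ∀ i, i ≠ a → (g : Matrix ι ι F) i l' = 0 := by
    intro i hia
    by_cases hib : i = b
    · subst hib
      exact supp hq H hM hN g hg l a c hac za zc l' i hia hbc hl'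
    · exact supp hq H hM hN g hg l a b hab za zb l' i hia hib hl'
  apply hgM
  refine hN g hg ⟨a, l', (g : Matrix ι ι F) a l', ?_⟩
  funext i
  rw [mulVec_e]
  by_cases hia : i = a
  · subst hia; simp
  · rw [hz i hia]; simp [hia]

end Cfsg.Agent.Lib.H65DecA1
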