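import Cfsg.Agent.Lib.H65DecMonApi

/-! # Project 66 (S5634), piece `A3` -/

set_option autoImplicit false
set_option linter.unusedSectionVars false
set_option linter.unusedVariables false

namespace Cfsg.Agent.Lib.H65DecA3

open Matrix Module Cfsg.Geo Cfsg.Agent.Lib.Helper95Basic Cfsg.Agent.Lib.H65DecDefs
  Cfsg.Agent.Lib.H65DecCalc Cfsg.Agent.Lib.H65DecMonA Cfsg.Agent.Lib.H65DecMonApi

variable {ι : Type} [Fintype ι] [DecidableEq ι] {F : Type*} [Field F] [Fintype F]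

/-- the identity `t f_p = f_p + (1-a) f_r + (1-c) f_s` for `a + c = 2` -/
private lemma ident (z : ι → F) {p r s : ι} (hpr : p ≠ r) (hps : p ≠ s) (hrs : r ≠ s)
    (a c : Fˣ) (hac : (a : F) + c = 2) :
    ((d2 r p a * d2 s p c : GL ι F) : Matrix ι ι F) *ᵥ (z p • e p - z)
      = (z p • e p - z) + (1 - (a : F)) • (z r • e r - z) + (1 - (c : F)) • (z s • e s - z) := by
  have hc : (c : F) = 2 - a := by linear_combination hac
  funext k
  rw [mul_mulVec]
  unfold d2
  rw [dg_apply, dg_apply]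
  by_cases hkp : k = p
  · subst hkp
    simp [hpr, hps, hc]
    ring
  · by_cases hkr : k = r
    · subst hkr
      simp [hkp, hrs, hc]
      ring
    · by_cases hks : k = s
      · subst hks
        simp [hkp, hkr, hc]
        ring
      · simp [hkp, hkr, hks, hc]
        ring

/-- **Step 2, (A3)**: the normal form is impossible -/
theorem a3 (hq : 5 ≤ Fintype.card F) (hn : 7 ≤ Fintype.card ι) (H : Subgroup (GL ι F))
    (hM : SMon ι F ≤ H) (hA : A1 H) (g : GL ι F) (hg : g ∈ H) (hnf : NF g) : False := by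
  classical
  obtain ⟨z, θ, hz, hθ⟩ := hnf
  -- three indices
  have h3 : 3 ≤ (Finset.univ : Finset ι).card := by rw [Finset.card_univ]; omega
  obtain ⟨S, -, hS3⟩ := Finset.exists_subset_card_eq h3
  obtain ⟨p, r, s, hpr, hps, hrs, -⟩ := Finset.card_eq_three.mp hS3
  -- two further indices
  have hcard : 2 ≤ ((Finset.univ : Finset ι) \ {θ p, θ r, θ s}).card := by
    have h3 := Finset.le_card_sdiff ({θ p, θ r, θ s} : Finset ι) Finset.univ
    have h4 : ({θ p, θ r, θ s} : Finset ι).card ≤ 3 := Finset.card_le_three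
    rw [Finset.card_univ] at h3
    omega
  obtain ⟨T, hT, hT2⟩ := Finset.exists_subset_card_eq hcard
  obtain ⟨k1, k2, hk12, rfl⟩ := Finset.card_eq_two.mp hT2
  have hk1 : k1 ≠ θ p ∧ k1 ≠ θ r ∧ k1 ≠ θ s := by
    have := hT (show k1 ∈ ({k1, k2} : Finset ι) by simp)
    simpa using this
  have hk2 : k2 ≠ θ p ∧ k2 ≠ θ r ∧ k2 ≠ θ s := by
    have := hT (show k2 ∈ ({k1, k2} : Finset ι) by simp)
    simpa using this
  -- the scalar
  obtain ⟨a, ha0, ha1, ha2⟩ : ∃ a : F, a ≠ 0 ∧ a ≠ 1 ∧ a ≠ 2 := by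
    by_contra hcon
    push Not at hcon
    have hsub : (Finset.univ : Finset F) ⊆ {0, 1, 2} := by
      intro k _
      by_cases h : k = 0
      · simp [h]
      · by_cases h' : k = 1
        · simp [h']
        · simp [hcon k h h']
    have h1 := Finset.card_le_card hsub
    have h2 : ({0, 1, 2} : Finset F).card ≤ 3 := Finset.card_le_three
    rw [Finset.card_univ] at h1
    omega
  have hc0 : 2 - a ≠ 0 := fun h => ha2 (by linear_combination -h)
  obtain ⟨αp, hαp, hgp⟩ := hθ p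
  obtain ⟨αr, hαr, hgr⟩ := hθ r
  obtain ⟨αs, hαs, hgs⟩ := hθ s
  have hid := ident z hpr hps hrs (Units.mk0 a ha0) (Units.mk0 (2 - a) hc0) (by simp)
  simp only [Units.val_mk0] at hid
  obtain ⟨t, ht⟩ : ∃ t : GL ι F, t = d2 r p (Units.mk0 a ha0) * d2 s p (Units.mk0 (2 - a) hc0) :=
    ⟨_, rfl⟩
  rw [← ht] at hid
  have htH : t ∈ H := by
    rw [ht]
    exact H.mul_mem (hM (d2_mem hpr.symm _)) (hM (d2_mem hps.symm _))
  have hxH : g⁻¹ * t * g ∈ H := H.mul_mem (H.mul_mem (H.inv_mem hg) htH) hg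
  have hcol : ((g⁻¹ * t * g : GL ι F) : Matrix ι ι F) *ᵥ e (θ p)
      = e (θ p) + (αp * (1 - a) * αr⁻¹) • e (θ r) + (αp * (1 - (2 - a)) * αs⁻¹) • e (θ s) := by
    rw [mul_mulVec, mul_mulVec]
    have h1 : (t : Matrix ι ι F) *ᵥ ((g : Matrix ι ι F) *ᵥ e (θ p))
        = (g : Matrix ι ι F) *ᵥ (e (θ p) + (αp * (1 - a) * αr⁻¹) • e (θ r)
          + (αp * (1 - (2 - a)) * αs⁻¹) • e (θ s)) := by
      have e1 : αp * (1 - a) * αr⁻¹ * αr = αp * (1 - a) := by field_simp
      have e2 : αp * (1 - (2 - a)) * αs⁻¹ * αs = αp * (1 - (2 - a)) := by field_simp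
      rw [Matrix.mulVec_add, Matrix.mulVec_add, Matrix.mulVec_smul, Matrix.mulVec_smul, hgp, hgr,
        hgs, Matrix.mulVec_smul, hid, smul_smul _ αr, smul_smul _ αs, e1, e2, smul_add, smul_add,
        smul_smul αp, smul_smul αp]
    rw [h1, inv_mulVec_mulVec]
  have hθpr : θ p ≠ θ r := fun h => hpr (θ.injective h)
  have hθps : θ p ≠ θ s := fun h => hps (θ.injective h)
  have hθrs : θ r ≠ θ s := fun h => hrs (θ.injective h)
  have hent : ∀ k, ((g⁻¹ * t * g : GL ι F) : Matrix ι ι F) k (θ p)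
      = (e (θ p) + (αp * (1 - a) * αr⁻¹) • e (θ r) + (αp * (1 - (2 - a)) * αs⁻¹) • e (θ s) : ι → F) k := by
    intro k
    rw [← mulVec_e, hcol]
  have hnM : g⁻¹ * t * g ∉ Mon ι F := by
    intro hmem
    apply hθpr
    refine col_unique_of_mem hmem (k := θ p) ?_ ?_
    · rw [hent]
      simp [hθpr, hθps]
    · rw [hent]
      simp [hθpr.symm, hθrs]
      exact ⟨⟨hαp, fun h => ha1 (by linear_combination -h)⟩, hαr⟩
  refine hA _ hxH hnM (θ p) k1 k2 hk12 ?_ ?_
  · rw [hent]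
    simp [hk1.1, hk1.2.1, hk1.2.2]
  · rw [hent]
    simp [hk2.1, hk2.2.1, hk2.2.2]

end Cfsg.Agent.Lib.H65DecA3
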