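import Mathlib

set_option autoImplicit false

namespace Cfsg.Agent.Lib.Helper99Bender

/-- Bender-style involution count.  Let `H` be a subgroup of the finite group `G` and `I` a
conjugation-invariant set of involutions such that (a) an element of `I ∩ H` lies in no other
conjugate of `H`, (b) a product of two elements of `I` lying in `H` and in another conjugate of
`H` is trivial.  If `H` contains two distinct elements of `I` then `H = ⊤`. -/
theorem eq_top_of_involutions {G : Type*} [Group G] [Finite G] (H : Subgroup G) (I : G → Prop)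
    (hconj : ∀ g i, I i → I (g * i * g⁻¹))
    (hinv : ∀ i, I i → i * i = 1)
    (ha : ∀ i, I i → i ∈ H → ∀ g, g * i * g⁻¹ ∈ H → g ∈ H)
    (hb : ∀ i i', I i → I i' → ∀ g, g ∉ H → i * i' ∈ H → g * (i * i') * g⁻¹ ∈ H → i = i')
    (i₁ i₂ : G) (h1 : I i₁) (h2 : I i₂) (h1H : i₁ ∈ H) (h2H : i₂ ∈ H) (hne : i₁ ≠ i₂) :
    H = ⊤ := by
  classical
  by_contra htop
  obtain ⟨g₁, hg₁⟩ : ∃ g₁ : G, g₁ ∉ H := by
    by_contra hcon
    push Not at hcon
    exact htop (by rw [eq_top_iff]; intro x _; exact hcon x)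
  have : Fintype (G ⧸ H) := Fintype.ofFinite _
  set ie : Bool → G := fun e => if e then i₁ else i₂ with hie
  have hieI : ∀ e, I (ie e) := by intro e; cases e <;> simp [hie, h1, h2]
  have hieH : ∀ e, ie e ∈ H := by intro e; cases e <;> simp [hie, h1H, h2H]
  have hieinj : ∀ e e', ie e = ie e' → e = e' := by
    intro e e' h
    cases e <;> cases e' <;> simp_all [hie]
  set f : (G ⧸ H) × Bool → G := fun p => p.1.out * ie p.2 * (p.1.out)⁻¹ with hf
  have hfI : ∀ p, I (f p) := fun p => hconj _ _ (hieI _)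
  -- fixed points
  have hfix : ∀ (p : (G ⧸ H) × Bool) (ω : G ⧸ H), f p • ω = ω → ω = p.1 := by
    intro p ω h
    obtain ⟨b, rfl⟩ := QuotientGroup.mk_surjective ω
    have h' : ((f p * b : G) : G ⧸ H) = (b : G ⧸ H) := h
    rw [QuotientGroup.eq] at h'
    have h3 : (b⁻¹ * p.1.out) * ie p.2 * (b⁻¹ * p.1.out)⁻¹ ∈ H := by
      have := H.inv_mem h'
      have e : ((f p * b)⁻¹ * b)⁻¹ = (b⁻¹ * p.1.out) * ie p.2 * (b⁻¹ * p.1.out)⁻¹ := by
        simp only [hf]; group
      rwa [e] at this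
    have h4 := ha _ (hieI _) (hieH _) _ h3
    have : (b : G ⧸ H) = ((p.1.out : G) : G ⧸ H) := by
      rw [QuotientGroup.eq]; exact h4
    rw [this, QuotientGroup.out_eq']
  have hfixself : ∀ p : (G ⧸ H) × Bool, f p • p.1 = p.1 := by
    intro p
    conv_lhs => rw [← QuotientGroup.out_eq' p.1]
    conv_rhs => rw [← QuotientGroup.out_eq' p.1]
    show ((f p * p.1.out : G) : G ⧸ H) = _
    rw [QuotientGroup.eq]
    have e : (f p * p.1.out)⁻¹ * p.1.out = (ie p.2)⁻¹ := by simp only [hf]; group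
    rw [e]
    exact H.inv_mem (hieH _)
  -- general (b)
  have hb' : ∀ j j', I j → I j' → ∀ ω ω' : G ⧸ H, ω ≠ ω' → (j * j') • ω = ω → (j * j') • ω' = ω' →
      j = j' := by
    intro j j' hj hj' ω ω' hω h h'
    obtain ⟨a, rfl⟩ := QuotientGroup.mk_surjective ω
    obtain ⟨b, rfl⟩ := QuotientGroup.mk_surjective ω'
    have h1' : ((j * j' * a : G) : G ⧸ H) = (a : G ⧸ H) := h
    have h2' : ((j * j' * b : G) : G ⧸ H) = (b : G ⧸ H) := h'
    rw [QuotientGroup.eq] at h1' h2'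
    have k1 : (a⁻¹ * j * a⁻¹⁻¹) * (a⁻¹ * j' * a⁻¹⁻¹) ∈ H := by
      have := H.inv_mem h1'
      have e : ((j * j' * a)⁻¹ * a)⁻¹ = (a⁻¹ * j * a⁻¹⁻¹) * (a⁻¹ * j' * a⁻¹⁻¹) := by group
      rwa [e] at this
    have k2 : (b⁻¹ * a) * ((a⁻¹ * j * a⁻¹⁻¹) * (a⁻¹ * j' * a⁻¹⁻¹)) * (b⁻¹ * a)⁻¹ ∈ H := by
      have := H.inv_mem h2'
      have e : ((j * j' * b)⁻¹ * b)⁻¹ =
          (b⁻¹ * a) * ((a⁻¹ * j * a⁻¹⁻¹) * (a⁻¹ * j' * a⁻¹⁻¹)) * (b⁻¹ * a)⁻¹ := by group
      rwa [e] at this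
    have k3 : b⁻¹ * a ∉ H := by
      intro hh
      apply hω
      symm
      rw [QuotientGroup.eq]; exact hh
    have := hb _ _ (hconj a⁻¹ j hj) (hconj a⁻¹ j' hj') _ k3 k1 k2
    simpa using this
  set ω₁ : G ⧸ H := (g₁ : G ⧸ H) with hω₁
  have hω₁ne : ω₁ ≠ ((1 : G) : G ⧸ H) := by
    intro h
    rw [hω₁, QuotientGroup.eq] at h
    apply hg₁
    have := H.inv_mem h
    simpa using this
  -- the counting
  set X : Finset ((G ⧸ H) × Bool) := (Finset.univ.erase ω₁) ×ˢ Finset.univ with hX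
  set Y : Finset (G ⧸ H) := Finset.univ.erase ω₁ with hY
  have hmaps : ∀ p ∈ X, f p • ω₁ ∈ Y := by
    intro p hp
    simp only [hX, hY, Finset.mem_product, Finset.mem_erase, Finset.mem_univ, and_true] at hp
    simp only [hY, Finset.mem_erase, Finset.mem_univ, and_true]
    intro h
    exact hp (hfix p ω₁ h).symm
  have hinj : Set.InjOn (fun p => f p • ω₁) (X : Set ((G ⧸ H) × Bool)) := by
    intro p hp p' hp' h
    have hp1 := hmaps p hp
    simp only [hY, Finset.mem_erase, Finset.mem_univ, and_true] at hp1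
    have h : f p • ω₁ = f p' • ω₁ := h
    have e1 : (f p * f p') • ω₁ = ω₁ := by
      rw [mul_smul, ← h, ← mul_smul, hinv _ (hfI p), one_smul]
    have e2 : (f p * f p') • (f p • ω₁) = f p • ω₁ := by
      conv_lhs => rw [h, mul_smul, ← mul_smul (f p') (f p'), hinv _ (hfI p'), one_smul]
    have e3 : f p = f p' := hb' _ _ (hfI p) (hfI p') _ _ (Ne.symm hp1) e1 e2
    have e4 : p'.1 = p.1 := by
      apply hfix p
      rw [e3]
      exact hfixself p'
    have e5 : ie p.2 = ie p'.2 := by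
      have : p.1.out * ie p.2 * (p.1.out)⁻¹ = p'.1.out * ie p'.2 * (p'.1.out)⁻¹ := e3
      rw [e4] at this
      simpa using this
    exact Prod.ext e4.symm (hieinj _ _ e5)
  have hcard := Finset.card_le_card_of_injOn _ hmaps hinj
  have hXc : X.card = Y.card * 2 := by
    rw [hX, Finset.card_product]; simp [hY]
  have hYpos : 0 < Y.card := by
    rw [Finset.card_pos]
    exact ⟨((1 : G) : G ⧸ H), by simp [hY, Ne.symm hω₁ne]⟩
  omega

end Cfsg.Agent.Lib.Helper99Bender
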