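import Cfsg.Agent.Lib.Helper99Subfield
import Cfsg.Agent.Lib.Helper99Bender

set_option autoImplicit false
set_option linter.unusedSectionVars false

namespace Cfsg.Agent.Lib.Helper99SubfieldSL

open Matrix Cfsg.Agent.Lib.Helper95Basic Cfsg.Agent.Lib.Helper95SL Cfsg.Agent.Lib.Helper99Subfield

variable {ι : Type} [Fintype ι] [DecidableEq ι] {F : Type*} [Field F]

/-- A subgroup of `GL` containing all elementary transvections contains `SL`. -/
theorem specialLinear_le_of_el [Nontrivial ι] (G : Subgroup (GL ι F))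
    (h : ∀ (a b : ι) (hab : a ≠ b) (d : F), el a b hab d ∈ G) :
    Cfsg.Geo.specialLinear ι F ≤ G := by
  intro g hg
  rw [mem_specialLinear_iff] at hg
  have hg' : g = Matrix.SpecialLinearGroup.toGL ⟨(g : Matrix ι ι F), hg⟩ := by
    apply Units.ext
    rfl
  rw [hg']
  refine Matrix.SpecialLinearGroup.diagonal_transvection_induction'
    (fun A => Matrix.SpecialLinearGroup.toGL A ∈ G) _ ?_ ?_ ?_
  · intro i j hij c hc
    show Matrix.SpecialLinearGroup.toGL _ ∈ G
    rw [toGL_diag2n]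
    exact G.mul_mem (G.mul_mem (G.mul_mem (G.mul_mem (G.mul_mem (h _ _ _ _) (h _ _ _ _)) (h _ _ _ _))
      (h _ _ _ _)) (h _ _ _ _)) (h _ _ _ _)
  · intro i j hij a
    show Matrix.SpecialLinearGroup.toGL _ ∈ G
    rw [toGL_transvection]
    exact h _ _ _ _
  · intro A B hA hB
    show Matrix.SpecialLinearGroup.toGL _ ∈ G
    rw [map_mul]
    exact G.mul_mem hA hB

lemma e_dot_e (i j : ι) : (e i : ι → F) ⬝ᵥ e j = if i = j then 1 else 0 := by
  rw [single_dotProduct, one_mul]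
  exact Pi.single_apply j 1 i

lemma e_dot_e_ne {i j : ι} (h : i ≠ j) : (e i : ι → F) ⬝ᵥ e j = 0 := by
  rw [e_dot_e, if_neg h]

lemma e_dot_e_self (i : ι) : (e i : ι → F) ⬝ᵥ e i = 1 := by
  rw [e_dot_e, if_pos rfl]

lemma e_dot_mulVec_e (A : Matrix ι ι F) (i j : ι) : (e i : ι → F) ⬝ᵥ (A *ᵥ e j) = A i j := by
  rw [single_dotProduct, one_mul, mulVec_single_one]; rfl

lemma e_vecMul_dot_e (A : Matrix ι ι F) (i j : ι) : ((e i : ι → F) ᵥ* A) ⬝ᵥ e j = A i j := by
  rw [← dotProduct_mulVec, e_dot_mulVec_e]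

lemma el_eq_T (i j : ι) (hij : i ≠ j) (c : F) (h : (e j : ι → F) ⬝ᵥ (c • e i) = 0) :
    el i j hij c = T (c • e i) (e j) h := by
  apply gl_ext
  intro x
  rw [el_mulVec, T_mulVec, single_dotProduct, one_mul, smul_smul]

section main

variable {F₀ : Subfield F} {M : Subgroup (GL ι F)}

/-- the standard subfield subgroup of `SL` -/
abbrev Hs (ι : Type) [Fintype ι] [DecidableEq ι] {F : Type*} [Field F] (F₀ : Subfield F) :
    Subgroup (GL ι F) :=
  Cfsg.Geo.subfieldSubgroup F₀ (1 : GL ι F) ⊓ Cfsg.Geo.specialLinear ι F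

lemma TM_rat (hHM : Hs ι F₀ ≤ M) {u φ : ι → F} (hu : IsRat F₀ u) (hφ : IsRat F₀ φ) (h : φ ⬝ᵥ u = 0) :
    TM M u φ := ⟨h, hHM (SL0_le (T_mem_SL0 hu hφ h))⟩

lemma TM_e (hHM : Hs ι F₀ ≤ M) {i j : ι} (hij : i ≠ j) : TM M (e i) (e j) :=
  TM_rat hHM (rat_e i) (rat_e j) (e_dot_e_ne hij.symm)

/-- the set of root parameters -/
def Cset (M : Subgroup (GL ι F)) : Set F := {c | ∀ i j : ι, i ≠ j → TM M (c • e i) (e j)}

lemma move_right (hHM : Hs ι F₀ ≤ M) {c : F} {i j l : ι} (h : TM M (c • e i) (e j)) (hli : l ≠ i)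
    (hlj : l ≠ j) : TM M (c • e i) (e l) := by
  have := TM.comm h (TM_e hHM hlj.symm) (by rw [dotProduct_smul, e_dot_e_ne hli, smul_zero])
  rwa [e_dot_e_self, one_smul] at this

lemma move_left (hHM : Hs ι F₀ ≤ M) {c : F} {i j k : ι} (h : TM M (c • e i) (e j)) (hki : k ≠ i)
    (hkj : k ≠ j) : TM M (c • e k) (e j) := by
  have := TM.comm (TM_e hHM hki) h (e_dot_e_ne hkj.symm)
  rwa [dotProduct_smul, e_dot_e_self, smul_eq_mul, mul_one] at this

lemma mem_Cset (hHM : Hs ι F₀ ≤ M) (h3 : 2 < Fintype.card ι) {c : F} {i j : ι} (hij : i ≠ j)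
    (h : TM M (c • e i) (e j)) : c ∈ Cset M := by
  intro k l hkl
  by_cases hki : k = i
  · subst hki
    by_cases hlj : l = j
    · subst hlj; exact h
    · exact move_right hHM h hkl.symm hlj
  · by_cases hkj : k = j
    · subst hkj
      obtain ⟨m, hmi, hmk⟩ := exists_ne₂ h3 i k
      have h1 := move_right hHM h hmi hmk
      have h2 := move_left hHM h1 hki hmk.symm
      by_cases hlm : l = m
      · subst hlm; exact h2
      · exact move_right hHM h2 hkl.symm hlm
    · have h1 := move_left hHM h hki hkj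
      by_cases hlj : l = j
      · subst hlj; exact h1
      · exact move_right hHM h1 hkl.symm hlj

/-- the root parameters form a subalgebra -/
def Calg (hHM : Hs ι F₀ ≤ M) (h3 : 2 < Fintype.card ι) : Subalgebra F₀ F where
  carrier := Cset M
  mul_mem' := by
    intro c d hc hd i k hik
    obtain ⟨j, hji, hjk⟩ := exists_ne₂ h3 i k
    have := TM.comm (hd i j hji.symm) (hc j k hjk)
      (by rw [dotProduct_smul, e_dot_e_ne hik.symm, smul_zero])
    rwa [dotProduct_smul, e_dot_e_self, smul_eq_mul, mul_one, smul_smul] at this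
  add_mem' := by
    intro c d hc hd i k hik
    rw [add_smul]
    exact (hc i k hik).add_left (hd i k hik)
  algebraMap_mem' := by
    intro t i k hik
    exact TM_rat hHM (IsRat.smul t.2 (rat_e i)) (rat_e k)
      (by rw [dotProduct_smul, e_dot_e_ne hik.symm, smul_zero])

lemma eq_specialLinear_of_Cset (hMS : M ≤ Cfsg.Geo.specialLinear ι F) (h3 : 2 < Fintype.card ι)
    (hC : ∀ c : F, c ∈ Cset M) : M = Cfsg.Geo.specialLinear ι F := by
  apply le_antisymm hMS
  have : Nontrivial ι := Fintype.one_lt_card_iff_nontrivial.1 (by omega)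
  apply specialLinear_le_of_el
  intro a b hab d
  obtain ⟨h1, h2⟩ := hC d a b hab
  rw [el_eq_T a b hab d h1]
  exact h2

section irr

variable (hHM : Hs ι F₀ ≤ M) (h3 : 2 < Fintype.card ι) (hC : ∀ c : F, c ∈ Cset M → c ∈ F₀)
include hHM h3 hC

lemma ratA0 {i₀ : ι} {ψ : ι → F} (h : TM M (e i₀) ψ) : IsRat F₀ ψ := by
  intro k
  by_cases hk : k = i₀
  · subst hk
    have := h.1
    rw [dotProduct_single, mul_one] at this
    rw [this]; exact F₀.zero_mem
  · obtain ⟨l, hl0, hlk⟩ := exists_ne₂ h3 i₀ k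
    have h1 := TM.comm h (TM_e hHM hlk.symm) (e_dot_e_ne hl0)
    rw [dotProduct_single, mul_one] at h1
    exact hC _ (mem_Cset hHM h3 hl0.symm h1)

lemma ratA0' {j₀ : ι} {u : ι → F} (h : TM M u (e j₀)) : IsRat F₀ u := by
  intro k
  by_cases hk : k = j₀
  · subst hk
    have := h.1
    rw [single_dotProduct, one_mul] at this
    rw [this]; exact F₀.zero_mem
  · obtain ⟨l, hl0, hlk⟩ := exists_ne₂ h3 j₀ k
    have h1 := TM.comm (TM_e hHM hlk) h (e_dot_e_ne hl0.symm)
    rw [single_dotProduct, one_mul] at h1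
    exact hC _ (mem_Cset hHM h3 hl0 h1)

lemma ratA {b ψ : ι → F} (hb : IsRat F₀ b) (hb0 : b ≠ 0) (h : TM M b ψ) : IsRat F₀ ψ := by
  obtain ⟨i₀⟩ : Nonempty ι := Fintype.card_pos_iff.1 (by omega)
  obtain ⟨g, hg, hgb⟩ := move (by omega) hb hb0 i₀
  have h1 := h.conj (hHM (SL0_le hg))
  rw [hgb] at h1
  have h2 := ratA0 hHM h3 hC h1
  have h3' := (SL0.ratM hg).vecMul h2
  rwa [vecMul_vecMul, ← Units.val_mul, inv_mul_cancel, Units.val_one, vecMul_one] at h3'

lemma ratA' {u ν : ι → F} (hν : IsRat F₀ ν) (hν0 : ν ≠ 0) (h : TM M u ν) : IsRat F₀ u := by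
  obtain ⟨i₀⟩ : Nonempty ι := Fintype.card_pos_iff.1 (by omega)
  obtain ⟨g, hg, hgb⟩ := move' (by omega) hν hν0 i₀
  have h1 := h.conj (M.inv_mem (hHM (SL0_le hg)))
  rw [inv_inv, hgb] at h1
  have h2 := ratA0' hHM h3 hC h1
  have h3' := (SL0.ratM hg).mulVec h2
  rwa [mulVec_inv_mulVec] at h3'

/-- an element of `M` with a zero entry lies in the subfield group -/
lemma mem_of_entry_zero (hMS : M ≤ Cfsg.Geo.specialLinear ι F) {g : GL ι F} (hg : g ∈ M) {i j : ι}
    (hij : (g : Matrix ι ι F) i j = 0) : g ∈ Hs ι F₀ := by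
  set gi : Matrix ι ι F := ((g⁻¹ : GL ι F) : Matrix ι ι F) with hgi
  have hmul : gi * (g : Matrix ι ι F) = 1 := by
    rw [hgi, ← Units.val_mul, inv_mul_cancel, Units.val_one]
  obtain ⟨k, l, hkj, hli, hkl⟩ : ∃ k l, k ≠ j ∧ l ≠ i ∧ gi k l ≠ 0 := by
    by_contra hcon
    push Not at hcon
    obtain ⟨k₁, hk₁, -⟩ := exists_ne₂ h3 j j
    obtain ⟨k₂, hk₂, hk₁₂⟩ := exists_ne₂ h3 j k₁
    have hrow : ∀ k, k ≠ j → ∀ m, (gi * (g : Matrix ι ι F)) k m = gi k i * (g : Matrix ι ι F) i m := by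
      intro k hk m
      rw [mul_apply]
      apply Finset.sum_eq_single i
      · intro l _ hl
        rw [hcon k l hk hl, zero_mul]
      · intro h; exact absurd (Finset.mem_univ i) h
    have e1 := hrow k₁ hk₁ k₁
    have e2 := hrow k₁ hk₁ k₂
    have e3 := hrow k₂ hk₂ k₂
    rw [hmul] at e1 e2 e3
    rw [one_apply_eq] at e1 e3
    rw [one_apply_ne hk₁₂.symm] at e2
    have e4 : gi k₁ i ≠ 0 := by
      intro h0; rw [h0, zero_mul] at e1; exact one_ne_zero e1
    have e5 : (g : Matrix ι ι F) i k₂ = 0 := by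
      rcases mul_eq_zero.1 e2.symm with h | h
      · exact absurd h e4
      · exact h
    rw [e5, mul_zero] at e3
    exact one_ne_zero e3
  set c : F := gi k l with hc
  have hT : ∀ m k' : ι, m ≠ k' → TM M ((g : Matrix ι ι F) *ᵥ e m) ((e k' : ι → F) ᵥ* gi) :=
    fun m k' hmk => (TM_e hHM hmk).conj hg
  have hne : ∀ m : ι, (g : Matrix ι ι F) *ᵥ e m ≠ 0 := by
    intro m h0
    have := inv_mulVec_mulVec g (e m)
    rw [h0, mulVec_zero] at this
    have h1 := congrFun this m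
    simp at h1
  have hne' : ∀ m : ι, (e m : ι → F) ᵥ* gi ≠ 0 := by
    intro m h0
    have : ((e m : ι → F) ᵥ* gi) ᵥ* (g : Matrix ι ι F) = e m := by
      rw [vecMul_vecMul, hmul, vecMul_one]
    rw [h0, zero_vecMul] at this
    have h1 := congrFun this m
    simp at h1
  have h1 := TM.comm (hT j k hkj.symm) (TM_e hHM hli) (by rw [e_dot_mulVec_e, hij])
  rw [e_vecMul_dot_e] at h1
  have h2 : IsRat F₀ (c • ((g : Matrix ι ι F) *ᵥ e j)) := ratA0' hHM h3 hC h1
  have h2' : c • ((g : Matrix ι ι F) *ᵥ e j) ≠ 0 := smul_ne_zero hkl (hne j)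
  have h4 : ∀ k', k' ≠ j → IsRat F₀ (c⁻¹ • ((e k' : ι → F) ᵥ* gi)) := by
    intro k' hk'
    exact ratA hHM h3 hC h2 h2' ((hT j k' hk'.symm).rescale hkl)
  have h5 : ∀ m, IsRat F₀ (c • ((g : Matrix ι ι F) *ᵥ e m)) := by
    intro m
    obtain ⟨k', hk'j, hk'm⟩ := exists_ne₂ h3 j m
    exact ratA' hHM h3 hC (h4 k' hk'j) (smul_ne_zero (inv_ne_zero hkl) (hne' k'))
      ((hT m k' hk'm.symm).rescale hkl)
  refine Subgroup.mem_inf.2 ⟨?_, hMS hg⟩
  rw [mem_subfieldSubgroup_one_iff]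
  refine ⟨c, hkl, ?_⟩
  intro a m
  have := h5 m a
  rwa [Pi.smul_apply, mulVec_single_one] at this

/-- total irrationality -/
lemma mem_of_incidence (hMS : M ≤ Cfsg.Geo.specialLinear ι F) {g : GL ι F} (hg : g ∈ M)
    {a μ : ι → F} (ha : IsRat F₀ a) (ha0 : a ≠ 0) (hμ : IsRat F₀ μ) (hμ0 : μ ≠ 0)
    (h : μ ⬝ᵥ ((g : Matrix ι ι F) *ᵥ a) = 0) : g ∈ Hs ι F₀ := by
  obtain ⟨i₀⟩ : Nonempty ι := Fintype.card_pos_iff.1 (by omega)
  obtain ⟨h₂, hh₂, e₂⟩ := move (by omega) ha ha0 i₀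
  obtain ⟨h₁, hh₁, e₁⟩ := move' (by omega) hμ hμ0 i₀
  have hh₁' := SL0_le hh₁
  have hh₂' := SL0_le hh₂
  have key : h₁⁻¹ * g * h₂⁻¹ ∈ Hs ι F₀ := by
    apply mem_of_entry_zero hHM h3 hC hMS
      (M.mul_mem (M.mul_mem (M.inv_mem (hHM hh₁')) hg) (M.inv_mem (hHM hh₂'))) (i := i₀) (j := i₀)
    have k1 : ((h₂⁻¹ : GL ι F) : Matrix ι ι F) *ᵥ e i₀ = a := by rw [← e₂, inv_mulVec_mulVec]
    have k2 : (e i₀ : ι → F) ᵥ* ((h₁⁻¹ : GL ι F) : Matrix ι ι F) = μ := by
      rw [← e₁, vecMul_vecMul, ← Units.val_mul, mul_inv_cancel, Units.val_one, vecMul_one]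
    rw [← e_dot_mulVec_e ((h₁⁻¹ * g * h₂⁻¹ : GL ι F) : Matrix ι ι F) i₀ i₀, mul_mulVec, mul_mulVec,
      k1, dotProduct_mulVec, k2]
    exact h
  have : g = h₁ * (h₁⁻¹ * g * h₂⁻¹) * h₂ := by group
  rw [this]
  exact (Hs ι F₀).mul_mem ((Hs ι F₀).mul_mem hh₁' key) hh₂'

/-- if `F` is small then `M` is the subfield group -/
lemma le_of_card_lt [Fintype F] (hMS : M ≤ Cfsg.Geo.specialLinear ι F)
    (hlt : Fintype.card F < Nat.card F₀ ^ Fintype.card ι) : M ≤ Hs ι F₀ := by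
  classical
  intro g hg
  obtain ⟨j₀⟩ : Nonempty ι := Fintype.card_pos_iff.1 (by omega)
  set u := (g : Matrix ι ι F) *ᵥ e j₀ with hu
  have hlt' : Fintype.card F < Fintype.card (ι → F₀) := by
    simpa [Nat.card_eq_fintype_card] using hlt
  obtain ⟨a, a', haa, hEq⟩ := Fintype.exists_ne_map_eq_of_card_lt
    (fun w : ι → F₀ => (fun i => (w i : F)) ⬝ᵥ u) hlt'
  refine mem_of_incidence hHM h3 hC hMS hg (rat_e j₀) ?_
    (μ := (fun i => (a i : F)) - (fun i => (a' i : F))) ?_ ?_ ?_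
  · intro h0
    have := congrFun h0 j₀
    simp at this
  · exact IsRat.sub (fun i => (a i).2) (fun i => (a' i).2)
  · intro h0
    apply haa
    ext i
    have := congrFun h0 i
    simpa [sub_eq_zero] using this
  · rw [sub_dotProduct, sub_eq_zero]
    exact hEq

end irr

/-! ### small elements -/

lemma rank_mul_sub_one_le (A B : Matrix ι ι F) : (A * B - 1).rank ≤ (A - 1).rank + (B - 1).rank := by
  have : A * B - 1 = (A - 1) * B + (B - 1) := by
    rw [sub_mul, one_mul]; abel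
  rw [this]
  exact (rank_add_le' _ _).trans (Nat.add_le_add_right (rank_mul_le_left _ _) _)

lemma rank_conj_sub_one_le (g y : GL ι F) :
    (((g * y * g⁻¹ : GL ι F) : Matrix ι ι F) - 1).rank ≤ ((y : Matrix ι ι F) - 1).rank := by
  have : ((g * y * g⁻¹ : GL ι F) : Matrix ι ι F) - 1 =
      (g : Matrix ι ι F) * ((y : Matrix ι ι F) - 1) * ((g⁻¹ : GL ι F) : Matrix ι ι F) := by
    rw [mul_sub, sub_mul, mul_one, ← Units.val_mul g g⁻¹, mul_inv_cancel, Units.val_one]
    simp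
  rw [this]
  exact (rank_mul_le_left _ _).trans (rank_mul_le_right _ _)

section final

variable [Fintype F] (r : ℕ) (hr : r.Prime) (hcard : Fintype.card F = Nat.card F₀ ^ r)
include hr hcard

/-- small elements of the subfield group are rational, or the field is small -/
lemma ratM_of_small (h5 : 5 ≤ Fintype.card ι) {y : GL ι F}
    (hy : y ∈ Cfsg.Geo.subfieldSubgroup F₀ (1 : GL ι F))
    (hrk : ((y : Matrix ι ι F) - 1).rank ≤ 4) :
    IsRatM F₀ (y : Matrix ι ι F) ∨ Fintype.card F ≤ Nat.card F₀ ^ 5 := by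
  obtain ⟨c, hc, hcy⟩ := (mem_subfieldSubgroup_one_iff y).1 hy
  obtain ⟨S, -, hS⟩ := Finset.exists_subset_card_eq (s := (Finset.univ : Finset ι)) (n := 5)
    (by simpa using h5)
  obtain ⟨v, hv, hsupp, hker⟩ := exists_kernel_supported ((y : Matrix ι ι F) - 1) S (by omega)
  have hfix : (y : Matrix ι ι F) *ᵥ v = v := by
    rw [sub_mulVec, one_mulVec, sub_eq_zero] at hker; exact hker
  rcases scalar_mem_of_fix r hr hcard hcy S hv hsupp hfix with h | h
  · left
    intro i j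
    have := F₀.mul_mem (F₀.inv_mem h) (hcy i j)
    rwa [Matrix.smul_apply, smul_eq_mul, inv_mul_cancel_left₀ hc] at this
  · right; rwa [hS] at h

lemma eq_one_of_small (hHM : Hs ι F₀ ≤ M) (hC : ∀ c : F, c ∈ Cset M → c ∈ F₀)
    (hMS : M ≤ Cfsg.Geo.specialLinear ι F) (h6 : 6 ≤ Fintype.card ι) {y g : GL ι F}
    (hy : y ∈ Hs ι F₀) (hg : g ∈ M) (hgH : g ∉ Hs ι F₀) (hy' : g⁻¹ * y * g ∈ Hs ι F₀)
    (hrk : ((y : Matrix ι ι F) - 1).rank ≤ 4) : y = 1 := by
  classical
  have h3 : 2 < Fintype.card ι := by omega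
  have hq : 1 < Nat.card F₀ := by
    rw [Nat.card_eq_fintype_card]; exact Fintype.one_lt_card
  have hbig : ¬ Fintype.card F ≤ Nat.card F₀ ^ 5 := by
    intro h
    apply hgH
    exact le_of_card_lt hHM h3 hC hMS (lt_of_le_of_lt h (Nat.pow_lt_pow_right hq (by omega))) hg
  have hrk' : (((g⁻¹ * y * g : GL ι F) : Matrix ι ι F) - 1).rank ≤ 4 := by
    have := rank_conj_sub_one_le g⁻¹ y
    rw [inv_inv] at this
    exact this.trans hrk
  have r1 : IsRatM F₀ (y : Matrix ι ι F) :=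
    (ratM_of_small r hr hcard (by omega) (Subgroup.mem_inf.1 hy).1 hrk).resolve_right hbig
  have r2 : IsRatM F₀ ((g⁻¹ * y * g : GL ι F) : Matrix ι ι F) :=
    (ratM_of_small r hr hcard (by omega) (Subgroup.mem_inf.1 hy').1 hrk').resolve_right hbig
  have hsub : ∀ A : Matrix ι ι F, IsRatM F₀ A → IsRatM F₀ (A - 1) := by
    intro A hA i j
    rw [Matrix.sub_apply, one_apply]
    refine F₀.sub_mem (hA i j) ?_
    split_ifs
    · exact F₀.one_mem
    · exact F₀.zero_mem
  by_contra hne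
  obtain ⟨v, hv, -, hker⟩ := exists_kernel_supported
    (((g⁻¹ * y * g : GL ι F) : Matrix ι ι F) - 1) Finset.univ (by rw [Finset.card_univ]; omega)
  obtain ⟨a, ha, ha0, hka⟩ := rat_kernel (hsub _ r2) hv hker
  have hfix : (y : Matrix ι ι F) *ᵥ ((g : Matrix ι ι F) *ᵥ a) = (g : Matrix ι ι F) *ᵥ a := by
    rw [sub_mulVec, one_mulVec, sub_eq_zero, mul_mulVec, mul_mulVec] at hka
    have := congrArg (fun z => (g : Matrix ι ι F) *ᵥ z) hka
    simpa only [mulVec_inv_mulVec] using this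
  obtain ⟨i, j, hij⟩ : ∃ i j, ((y : Matrix ι ι F) - 1) i j ≠ 0 := by
    by_contra hcon
    push Not at hcon
    apply hne
    apply Units.ext
    ext i j
    have := hcon i j
    rw [Matrix.sub_apply, sub_eq_zero] at this
    exact this
  apply hgH
  refine mem_of_incidence hHM h3 hC hMS hg ha ha0 (μ := fun k => ((y : Matrix ι ι F) - 1) i k)
    (fun k => hsub _ r1 i k) ?_ ?_
  · intro h0
    exact hij (congrFun h0 j)
  · have : ((y : Matrix ι ι F) - 1) *ᵥ ((g : Matrix ι ι F) *ᵥ a) = 0 := by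
      rw [sub_mulVec, one_mulVec, hfix, sub_self]
    exact congrFun this i

end final

/-! ### double transpositions -/

lemma u_dot_u {a b : ι} (hab : a ≠ b) : (e a - e b : ι → F) ⬝ᵥ (e a - e b) = 2 := by
  rw [sub_dotProduct, dotProduct_sub, dotProduct_sub, e_dot_e_self, e_dot_e_self, e_dot_e_ne hab,
    e_dot_e_ne hab.symm]
  ring

lemma u_dot_u' {a b c d : ι} (hac : a ≠ c) (had : a ≠ d) (hbc : b ≠ c) (hbd : b ≠ d) :
    (e a - e b : ι → F) ⬝ᵥ (e c - e d) = 0 := by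
  rw [sub_dotProduct, dotProduct_sub, dotProduct_sub, e_dot_e_ne hac, e_dot_e_ne had, e_dot_e_ne hbc,
    e_dot_e_ne hbd]
  ring

lemma Rf_aux {a b : ι} (hab : a ≠ b) :
    (1 - vecMulVec (e a - e b : ι → F) (e a - e b)) * (1 - vecMulVec (e a - e b : ι → F) (e a - e b))
      = 1 := by
  rw [sub_mul, mul_sub, mul_sub, vecMulVec_mul_vecMulVec, u_dot_u hab, vecMulVec_smul, two_smul]
  simp

/-- the matrix interchanging the coordinates `a` and `b` -/
def Rf (a b : ι) (hab : a ≠ b) : GL ι F where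
  val := 1 - vecMulVec (e a - e b) (e a - e b)
  inv := 1 - vecMulVec (e a - e b) (e a - e b)
  val_inv := Rf_aux hab
  inv_val := Rf_aux hab

lemma Rf_val (a b : ι) (hab : a ≠ b) :
    ((Rf a b hab : GL ι F) : Matrix ι ι F) = 1 - vecMulVec (e a - e b) (e a - e b) := rfl

lemma Rf_mul_self (a b : ι) (hab : a ≠ b) : (Rf a b hab : GL ι F) * Rf a b hab = 1 :=
  Units.ext (Rf_aux hab)

lemma Rf_det (a b : ι) (hab : a ≠ b) : ((Rf a b hab : GL ι F) : Matrix ι ι F).det = -1 := by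
  have : ((Rf a b hab : GL ι F) : Matrix ι ι F) = 1 + vecMulVec (-(e a - e b)) (e a - e b) := by
    rw [Rf_val, neg_vecMulVec, sub_eq_add_neg]
  rw [this, vecMulVec_eq Unit, det_one_add_replicateCol_mul_replicateRow, dotProduct_neg, u_dot_u hab]
  ring

lemma Rf_rank (a b : ι) (hab : a ≠ b) : (((Rf a b hab : GL ι F) : Matrix ι ι F) - 1).rank ≤ 1 := by
  have : ((Rf a b hab : GL ι F) : Matrix ι ι F) - 1 = vecMulVec (-(e a - e b)) (e a - e b) := by
    rw [Rf_val, neg_vecMulVec]; abel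
  rw [this]
  exact rank_vecMulVec_le _ _

lemma Rf_mulVec (a b : ι) (hab : a ≠ b) (x : ι → F) :
    ((Rf a b hab : GL ι F) : Matrix ι ι F) *ᵥ x = x - ((e a - e b : ι → F) ⬝ᵥ x) • (e a - e b) := by
  rw [Rf_val, sub_mulVec, one_mulVec, vecMulVec_mulVec]
  ext i
  simp [mul_comm]

lemma Rf_ratM (a b : ι) (hab : a ≠ b) : IsRatM F₀ ((Rf a b hab : GL ι F) : Matrix ι ι F) := by
  intro i j
  rw [Rf_val, Matrix.sub_apply, one_apply, vecMulVec_apply]
  refine F₀.sub_mem ?_ (F₀.mul_mem (((rat_e a).sub (rat_e b)) i) (((rat_e a).sub (rat_e b)) j))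
  split_ifs
  · exact F₀.one_mem
  · exact F₀.zero_mem

lemma Rf_comm {a b c d : ι} (hab : a ≠ b) (hcd : c ≠ d) (hac : a ≠ c) (had : a ≠ d) (hbc : b ≠ c)
    (hbd : b ≠ d) : (Rf a b hab : GL ι F) * Rf c d hcd = Rf c d hcd * Rf a b hab := by
  apply Units.ext
  rw [Units.val_mul, Units.val_mul, Rf_val, Rf_val, sub_mul, mul_sub, mul_sub, sub_mul, mul_sub,
    mul_sub, vecMulVec_mul_vecMulVec, vecMulVec_mul_vecMulVec, u_dot_u' hac had hbc hbd,
    u_dot_u' hac.symm hbc.symm had.symm hbd.symm]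
  simp
  abel

/-- a double transposition -/
def dbl (a b c d : ι) (hab : a ≠ b) (hcd : c ≠ d) : GL ι F := Rf a b hab * Rf c d hcd

lemma dbl_mul_self {a b c d : ι} (hab : a ≠ b) (hcd : c ≠ d) (hac : a ≠ c) (had : a ≠ d)
    (hbc : b ≠ c) (hbd : b ≠ d) : (dbl a b c d hab hcd : GL ι F) * dbl a b c d hab hcd = 1 := by
  unfold dbl
  calc Rf a b hab * Rf c d hcd * (Rf a b hab * Rf c d hcd)
      = Rf a b hab * (Rf c d hcd * Rf a b hab) * Rf c d hcd := by group
    _ = Rf a b hab * (Rf a b hab * Rf c d hcd) * Rf c d hcd := by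
        rw [Rf_comm hab hcd hac had hbc hbd]
    _ = (Rf a b hab * Rf a b hab) * (Rf c d hcd * Rf c d hcd) := by group
    _ = 1 := by rw [Rf_mul_self, Rf_mul_self, one_mul]

lemma dbl_mem (a b c d : ι) (hab : a ≠ b) (hcd : c ≠ d) :
    (dbl a b c d hab hcd : GL ι F) ∈ (SL0 F₀ : Subgroup (GL ι F)) := by
  refine Subgroup.mem_inf.2 ⟨?_, ?_⟩
  · exact Subgroup.mul_mem _ ((mem_range_map_iff _).2 (Rf_ratM a b hab))
      ((mem_range_map_iff _).2 (Rf_ratM c d hcd))
  · rw [mem_specialLinear_iff, dbl, Units.val_mul, det_mul, Rf_det, Rf_det]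
    ring

lemma dbl_rank (a b c d : ι) (hab : a ≠ b) (hcd : c ≠ d) :
    (((dbl a b c d hab hcd : GL ι F) : Matrix ι ι F) - 1).rank ≤ 2 := by
  rw [dbl, Units.val_mul]
  have := rank_mul_sub_one_le ((Rf a b hab : GL ι F) : Matrix ι ι F) ((Rf c d hcd : GL ι F) : Matrix ι ι F)
  have h1 := Rf_rank (F := F) a b hab
  have h2 := Rf_rank (F := F) c d hcd
  omega

lemma dbl_mulVec {a b c d : ι} (hab : a ≠ b) (hcd : c ≠ d) (hac : a ≠ c) (had : a ≠ d) :
    ((dbl a b c d hab hcd : GL ι F) : Matrix ι ι F) *ᵥ e a = e b := by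
  have h1 : ((Rf c d hcd : GL ι F) : Matrix ι ι F) *ᵥ e a = e a := by
    rw [Rf_mulVec, sub_dotProduct, e_dot_e_ne hac.symm, e_dot_e_ne had.symm]
    simp
  rw [dbl, mul_mulVec, h1, Rf_mulVec, sub_dotProduct, e_dot_e_self, e_dot_e_ne hab.symm]
  simp

lemma e_ne {a b : ι} (hab : a ≠ b) : (e a : ι → F) ≠ e b := by
  intro h
  have := congrFun h a
  simp [hab] at this

/-! ### the theorem -/

lemma exists_notMem [Fintype F] (r : ℕ) (hr : r.Prime) (hcard : Fintype.card F = Nat.card F₀ ^ r) :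
    ∃ x : F, x ∉ F₀ := by
  classical
  by_contra hcon
  push Not at hcon
  have h1 : Nat.card F₀ = Fintype.card F := by
    rw [Nat.card_eq_fintype_card]
    exact Fintype.card_congr ⟨fun x => x.1, fun x => ⟨x, hcon x⟩, fun _ => rfl, fun _ => rfl⟩
  have hq : 1 < Nat.card F₀ := by
    rw [Nat.card_eq_fintype_card]; exact Fintype.one_lt_card
  rw [← h1] at hcard
  have := Nat.pow_lt_pow_right hq hr.one_lt
  rw [pow_one] at this
  omega

theorem subfield_maximal_one [Fintype F] (r : ℕ) (hr : r.Prime)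
    (hcard : Fintype.card F = Nat.card F₀ ^ r) (h6 : 6 ≤ Fintype.card ι) :
    Cfsg.Geo.IsMaximalIn (Cfsg.Geo.specialLinear ι F) (Hs ι F₀) := by
  classical
  have h3 : 2 < Fintype.card ι := by omega
  obtain ⟨f⟩ : Nonempty (Fin 4 ↪ ι) := Function.Embedding.nonempty_of_card_le (by simpa using by omega)
  have hf : ∀ {x y : Fin 4}, x ≠ y → f x ≠ f y := fun h => f.injective.ne h
  refine ⟨lt_of_le_of_ne inf_le_right ?_, ?_⟩
  · -- properness
    intro heq
    obtain ⟨x, hx⟩ := exists_notMem (F₀ := F₀) r hr hcard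
    have h0 : (e (f 1) : ι → F) ⬝ᵥ (x • e (f 0)) = 0 := by
      rw [dotProduct_smul, e_dot_e_ne (hf (by decide)), smul_zero]
    have h1 : T _ _ h0 ∈ Hs ι F₀ := by rw [heq]; exact T_mem_specialLinear _ _ h0
    obtain ⟨c, hc, hcy⟩ := (mem_subfieldSubgroup_one_iff _).1 (Subgroup.mem_inf.1 h1).1
    have e1 := hcy (f 0) (f 0)
    have e2 := hcy (f 0) (f 1)
    rw [Matrix.smul_apply, T_apply] at e1 e2
    have hne : f 0 ≠ f 1 := hf (by decide)
    simp [hne] at e1 e2
    apply hx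
    have := F₀.mul_mem (F₀.inv_mem e1) e2
    rwa [inv_mul_cancel_left₀ hc] at this
  · intro M hHM hMS
    by_cases hC : ∀ c : F, c ∈ Cset M → c ∈ F₀
    · left
      apply le_antisymm _ hHM
      rw [← Subgroup.subgroupOf_eq_top]
      have hab : f 0 ≠ f 1 := hf (by decide)
      have hcd : f 2 ≠ f 3 := hf (by decide)
      have hac : f 0 ≠ f 2 := hf (by decide)
      have hbd : f 1 ≠ f 3 := hf (by decide)
      have had : f 0 ≠ f 3 := hf (by decide)
      have hbc : f 1 ≠ f 2 := hf (by decide)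
      have m1 : (dbl (f 0) (f 1) (f 2) (f 3) hab hcd : GL ι F) ∈ Hs ι F₀ := SL0_le (dbl_mem _ _ _ _ _ _)
      have m2 : (dbl (f 0) (f 2) (f 1) (f 3) hac hbd : GL ι F) ∈ Hs ι F₀ := SL0_le (dbl_mem _ _ _ _ _ _)
      refine Cfsg.Agent.Lib.Helper99Bender.eq_top_of_involutions ((Hs ι F₀).subgroupOf M)
        (fun i : M => (i : GL ι F) * (i : GL ι F) = 1 ∧ (i : GL ι F) ≠ 1 ∧
          (((i : GL ι F) : Matrix ι ι F) - 1).rank ≤ 2) ?_ ?_ ?_ ?_
        ⟨_, hHM m1⟩ ⟨_, hHM m2⟩ ?_ ?_ ?_ ?_ ?_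
      · -- conjugation
        rintro g i ⟨h1, h2, h3'⟩
        refine ⟨?_, ?_, ?_⟩
        · have : ((g * i * g⁻¹ : M) : GL ι F) * ((g * i * g⁻¹ : M) : GL ι F) =
              (g : GL ι F) * ((i : GL ι F) * (i : GL ι F)) * (g : GL ι F)⁻¹ := by
            simp only [Subgroup.coe_mul, Subgroup.coe_inv]; group
          rw [this, h1]; group
        · intro h
          apply h2
          have : ((g * i * g⁻¹ : M) : GL ι F) = (g : GL ι F) * (i : GL ι F) * (g : GL ι F)⁻¹ := by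
            simp only [Subgroup.coe_mul, Subgroup.coe_inv]
          rw [this] at h
          have h' : (i : GL ι F) = (g : GL ι F)⁻¹ * ((g : GL ι F) * (i : GL ι F) * (g : GL ι F)⁻¹) *
              (g : GL ι F) := by group
          rw [h', h]; group
        · have : ((g * i * g⁻¹ : M) : GL ι F) = (g : GL ι F) * (i : GL ι F) * (g : GL ι F)⁻¹ := by
            simp only [Subgroup.coe_mul, Subgroup.coe_inv]
          rw [this]
          exact (rank_conj_sub_one_le _ _).trans h3'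
      · rintro i ⟨h1, -, -⟩
        exact Subtype.ext h1
      · -- (a)
        rintro i ⟨-, h2, h3'⟩ hiH g hgi
        by_contra hg
        apply h2
        rw [Subgroup.mem_subgroupOf] at hiH hgi hg
        refine eq_one_of_small r hr hcard hHM hC hMS h6 hiH (M.inv_mem g.2)
          (fun h => hg (by simpa using (Hs ι F₀).inv_mem h)) ?_ (by omega)
        simpa only [Subgroup.coe_mul, Subgroup.coe_inv, inv_inv] using hgi
      · -- (b)
        rintro i i' ⟨h1, -, h3'⟩ ⟨h1', -, h3''⟩ g hg hii hgii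
        rw [Subgroup.mem_subgroupOf] at hii hgii hg
        have hrk : ((((i : GL ι F) * (i' : GL ι F) : GL ι F) : Matrix ι ι F) - 1).rank ≤ 4 := by
          rw [Units.val_mul]
          have := rank_mul_sub_one_le ((i : GL ι F) : Matrix ι ι F) ((i' : GL ι F) : Matrix ι ι F)
          omega
        have key : (i : GL ι F) * (i' : GL ι F) = 1 := by
          refine eq_one_of_small r hr hcard hHM hC hMS h6 (by simpa using hii) (M.inv_mem g.2)
            (fun h => hg (by simpa using (Hs ι F₀).inv_mem h)) ?_ hrk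
          simpa only [Subgroup.coe_mul, Subgroup.coe_inv, inv_inv] using hgii
        apply Subtype.ext
        calc (i : GL ι F) = (i : GL ι F) * ((i' : GL ι F) * (i' : GL ι F)) := by rw [h1', mul_one]
          _ = ((i : GL ι F) * (i' : GL ι F)) * (i' : GL ι F) := by group
          _ = (i' : GL ι F) := by rw [key, one_mul]
      · refine ⟨dbl_mul_self hab hcd hac had hbc hbd, ?_, dbl_rank _ _ _ _ _ _⟩
        intro h
        have := dbl_mulVec (F := F) hab hcd hac had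
        rw [show (dbl (f 0) (f 1) (f 2) (f 3) hab hcd : GL ι F) = 1 from h, Units.val_one,
          one_mulVec] at this
        exact e_ne hab this
      · refine ⟨dbl_mul_self hac hbd hab had hbc.symm hcd, ?_, dbl_rank _ _ _ _ _ _⟩
        intro h
        have := dbl_mulVec (F := F) hac hbd hab had
        rw [show (dbl (f 0) (f 2) (f 1) (f 3) hac hbd : GL ι F) = 1 from h, Units.val_one,
          one_mulVec] at this
        exact e_ne hac this
      · exact Subgroup.mem_subgroupOf.2 m1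
      · exact Subgroup.mem_subgroupOf.2 m2
      · intro h
        have h' : (dbl (f 0) (f 1) (f 2) (f 3) hab hcd : GL ι F) = dbl (f 0) (f 2) (f 1) (f 3) hac hbd :=
          congrArg Subtype.val h
        have e1 := dbl_mulVec (F := F) hab hcd hac had
        have e2 := dbl_mulVec (F := F) hac hbd hab had
        rw [h', e2] at e1
        exact e_ne hbc e1.symm
    · right
      push Not at hC
      obtain ⟨c, hc, hc0⟩ := hC
      have htop := subalgebra_eq_top r hr hcard (Calg hHM h3) c hc hc0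
      apply eq_specialLinear_of_Cset hMS h3
      intro d
      have : d ∈ Calg hHM h3 := by rw [htop]; exact Algebra.mem_top
      exact this

end main

end Cfsg.Agent.Lib.Helper99SubfieldSL
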