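import Cfsg.Agent.Lib.H65DecBlock0
import Cfsg.Agent.Lib.Helper99SubfieldSL

/-! # Project 66 (S5634), piece `AllTop` -/

set_option autoImplicit false
set_option linter.unusedSectionVars false
set_option linter.unusedVariables false

namespace Cfsg.Agent.Lib.H65DecAllTop

open Matrix Module Cfsg.Geo Cfsg.Agent.Lib.Helper95Basic Cfsg.Agent.Lib.H65DecDefs
  Cfsg.Agent.Lib.H65DecCalc

variable {ι : Type} [Fintype ι] [DecidableEq ι] {F : Type*} [Field F]
variable {t m : ℕ} {D : Fin t → Submodule F (ι → F)}

open Cfsg.Agent.Lib.H65DecProj Cfsg.Agent.Lib.H65DecBlock0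

/-- pure functional, arbitrary centre -/
private lemma root_pure (hD : IsMDecomposition m D) (H : Subgroup (GL ι F))
    (hM : decompositionStabilizer D ⊓ specialLinear ι F ≤ H)
    (hF : ∀ i j : Fin t, i ≠ j → Full H D i j) {i : Fin t} {u : ι → F} {φ : Dual F (ι → F)}
    (hφ : Pure D i φ) (h0 : φ u = 0) : Root H u φ := by
  have h := root_sum_left (H := H) (φ := φ) Finset.univ (fun j => prj hD j u) (by
    intro j _
    by_cases hj : j = i
    · subst hj
      refine root_block hD H hM (prj_mem hD j u) hφ ?_
      rw [← pure_apply hD hφ, h0]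
    · exact hF j i hj _ (prj_mem hD j u) φ hφ)
  rwa [sum_prj] at h

/-- centre in one member, arbitrary functional -/
private lemma root_mem (hD : IsMDecomposition m D) (H : Subgroup (GL ι F))
    (hM : decompositionStabilizer D ⊓ specialLinear ι F ≤ H)
    (hF : ∀ i j : Fin t, i ≠ j → Full H D i j) {i : Fin t} {u : ι → F} {φ : Dual F (ι → F)}
    (hu : u ∈ D i) (h0 : φ u = 0) : Root H u φ := by
  have h := root_sum_right (H := H) (u := u) Finset.univ (fun j => φ ∘ₗ prj hD j) (by
    intro j _
    by_cases hj : j = i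
    · subst hj
      refine root_block hD H hM hu (pure_comp hD j φ) ?_
      rw [LinearMap.comp_apply, prj_of_mem hD hu, h0]
    · exact hF i j (Ne.symm hj) _ hu _ (pure_comp hD j φ))
  rwa [← dual_eq_sum_pure] at h

/-- all blocks full ⇒ `SL ≤ H` -/
theorem all_top (hD : IsMDecomposition m D) (hm : 2 ≤ m) (H : Subgroup (GL ι F))
    (hM : decompositionStabilizer D ⊓ specialLinear ι F ≤ H)
    (hF : ∀ i j : Fin t, i ≠ j → Full H D i j) : specialLinear ι F ≤ H := by
  have hcard : 1 < Fintype.card ι := by
    have h1 := card_eq hD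
    have h2 := hD.two_le
    nlinarith
  haveI : Nontrivial ι := Fintype.one_lt_card_iff_nontrivial.mp hcard
  refine Cfsg.Agent.Lib.Helper95SL.specialLinear_le_of_tv H ?_
  intro a ℓ h
  have key : Root H a ℓ := by
    by_cases hall : ∀ j, ℓ (prj hD j a) = 0
    · have h1 := root_sum_left (H := H) (φ := ℓ) Finset.univ (fun j => prj hD j a) (by
        intro j _
        exact root_mem hD H hM hF (prj_mem hD j a) (hall j))
      rwa [sum_prj] at h1
    · push_neg at hall
      obtain ⟨i, hi⟩ := hall
      obtain ⟨y, hy, hyn⟩ := exists_not_mem_span hD hm i (prj hD i a)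
      set b := prj hD i a with hb
      have hbm : b ∈ D i := prj_mem hD i a
      set w := y - (ℓ y / ℓ b) • b with hw
      have hwm : w ∈ D i := (D i).sub_mem hy ((D i).smul_mem _ hbm)
      have hw0 : ℓ w = 0 := by
        rw [hw, map_sub, map_smul, smul_eq_mul, div_mul_cancel₀ _ hi, sub_self]
      have hwn : w ∉ Submodule.span F {b} := by
        intro hc
        apply hyn
        have : y = w + (ℓ y / ℓ b) • b := by rw [hw]; abel
        rw [this]
        exact Submodule.add_mem _ hc
          (Submodule.smul_mem _ _ (Submodule.mem_span_singleton_self b))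
      obtain ⟨φ, hφ, hφb, hφw⟩ := exists_pure_sep hD hbm hwm hwn
      have hφa : φ a = 0 := by rw [pure_apply hD hφ, ← hb, hφb]
      have h1 : Root H a φ := root_pure hD H hM hF hφ hφa
      have h2 : Root H w ℓ := root_mem hD H hM hF hwm hw0
      have h3 := root_comm h1 h2 h
      rwa [hφw, one_smul] at h3
  exact root_tv key

end Cfsg.Agent.Lib.H65DecAllTop
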