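import Cfsg.Agent.Lib.H65DecProj

/-! # Project 66 (S5634), piece `Bad` -/

set_option autoImplicit false
set_option linter.unusedSectionVars false
set_option linter.unusedVariables false

namespace Cfsg.Agent.Lib.H65DecBad

open Matrix Module Cfsg.Geo Cfsg.Agent.Lib.Helper95Basic Cfsg.Agent.Lib.H65DecDefs
  Cfsg.Agent.Lib.H65DecCalc

variable {ι : Type} [Fintype ι] [DecidableEq ι] {F : Type*} [Field F]
variable {t m : ℕ} {D : Fin t → Submodule F (ι → F)}

open Cfsg.Agent.Lib.H65DecProj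

/-- an element outside the stabiliser moves some vector of some block outside all blocks -/
theorem exists_bad (hD : IsMDecomposition m D) (g : GL ι F) (hg : g ∉ decompositionStabilizer D) :
    ∃ i, ∃ u ∈ D i, ∀ j, (g : Matrix ι ι F) *ᵥ u ∉ D j := by
  by_contra hcon
  push Not at hcon
  apply hg
  have key : ∀ i, ∃ j, ∀ u ∈ D i, (g : Matrix ι ι F) *ᵥ u ∈ D j := by
    intro i
    obtain ⟨x, hx, hx0⟩ := exists_ne_zero hD i
    obtain ⟨j, hj⟩ := hcon i x hx
    refine ⟨j, fun u hu => ?_⟩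
    obtain ⟨k, hk⟩ := hcon i u hu
    obtain ⟨l, hl⟩ := hcon i (x + u) ((D i).add_mem hx hu)
    rw [Matrix.mulVec_add] at hl
    by_cases hkj : k = j
    · rw [← hkj]; exact hk
    by_cases hlj : l = j
    · rw [hlj] at hl
      have := (D j).sub_mem hl hj
      rwa [add_sub_cancel_left] at this
    · exfalso
      have h1 := prj_of_mem_ne hD hlj hl
      rw [map_add, prj_of_mem hD hj, prj_of_mem_ne hD hkj hk, add_zero] at h1
      exact mulVec_ne_zero hx0 g h1
  choose σ hσ using key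
  have hsurj : Function.Surjective σ := by
    intro j
    by_contra hj
    push Not at hj
    obtain ⟨y, hy, hy0⟩ := exists_ne_zero hD j
    apply hy0
    have h1 : y = ∑ i, (g : Matrix ι ι F) *ᵥ (prj hD i (((g⁻¹ : GL ι F) : Matrix ι ι F) *ᵥ y)) := by
      rw [← Matrix.mulVec_sum, sum_prj, mulVec_inv_mulVec]
    have h2 := prj_of_mem hD hy
    rw [← h2, h1, map_sum]
    apply Finset.sum_eq_zero
    intro i _
    exact prj_of_mem_ne hD (hj i) (hσ i _ (prj_mem hD i _))
  have hbij : Function.Bijective σ := ⟨Finite.injective_iff_surjective.2 hsurj, hsurj⟩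
  exact mem_stab_of_le hD g (Equiv.ofBijective σ hbij) (fun i x hx => hσ i x hx)

/-- the stabiliser does not contain `SL` -/
theorem proper (hD : IsMDecomposition m D) :
    ∃ g ∈ specialLinear ι F, g ∉ decompositionStabilizer D := by
  have ht := hD.two_le
  let i0 : Fin t := ⟨0, by omega⟩
  let i1 : Fin t := ⟨1, by omega⟩
  have h01 : i0 ≠ i1 := by
    intro h
    have := congrArg Fin.val h
    simp [i0, i1] at this
  obtain ⟨u, hu, hu0⟩ := exists_ne_zero hD i0
  obtain ⟨y, hy, hy0⟩ := exists_ne_zero hD i1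
  obtain ⟨φ, hφ, hφy⟩ := exists_pure_eq_one hD hy hy0
  have hφu : φ u = 0 := hφ i0 h01 u hu
  refine ⟨tv u φ hφu, tv_mem_specialLinear _ _ _, ?_⟩
  rintro ⟨σ, hσ⟩
  have h1 : ((tv u φ hφu : GL ι F) : Matrix ι ι F) *ᵥ y ∈ D (σ i1) := by
    rw [← hσ i1]
    exact ⟨y, hy, by simp⟩
  rw [tv_mulVec, hφy, one_smul] at h1
  by_cases hl : σ i1 = i0
  · have hne : σ i1 ≠ i1 := by rw [hl]; exact h01
    have h2 := prj_of_mem_ne hD hne h1
    rw [map_add, prj_of_mem hD hy, prj_of_mem_ne hD h01 hu, add_zero] at h2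
    exact hy0 h2
  · have h2 := prj_of_mem_ne hD hl h1
    rw [map_add, prj_of_mem hD hu, prj_of_mem_ne hD h01.symm hy, zero_add] at h2
    exact hu0 h2

end Cfsg.Agent.Lib.H65DecBad
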