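import Cfsg.Agent.Lib.H65DecBlock0

/-! # Project 66 (S5634), piece `FullAll` -/

set_option autoImplicit false
set_option linter.unusedSectionVars false
set_option linter.unusedVariables false

namespace Cfsg.Agent.Lib.H65DecFullAll

open Matrix Module Cfsg.Geo Cfsg.Agent.Lib.Helper95Basic Cfsg.Agent.Lib.H65DecDefs
  Cfsg.Agent.Lib.H65DecCalc

variable {ι : Type} [Fintype ι] [DecidableEq ι] {F : Type*} [Field F]
variable {t m : ℕ} {D : Fin t → Submodule F (ι → F)}

open Cfsg.Agent.Lib.H65DecProj Cfsg.Agent.Lib.H65DecBlock0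

/-- a permutation with two prescribed values -/
private lemma exists_perm {α : Type*} [DecidableEq α] {i j i' j' : α} (hij : i ≠ j)
    (hij' : i' ≠ j') : ∃ σ : Equiv.Perm α, σ i' = i ∧ σ j' = j := by
  refine ⟨Equiv.swap (Equiv.swap i' i j') j * Equiv.swap i' i, ?_, ?_⟩
  · rw [Equiv.Perm.mul_apply, Equiv.swap_apply_left]
    apply Equiv.swap_apply_of_ne_of_ne _ hij
    intro h
    have : Equiv.swap i' i i' = Equiv.swap i' i j' := by rw [Equiv.swap_apply_left]; exact h
    exact hij' ((Equiv.swap i' i).injective this)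
  · rw [Equiv.Perm.mul_apply, Equiv.swap_apply_left]

/-- the block permuting linear map -/
private noncomputable def bmap (hD : IsMDecomposition m D) (σ : Equiv.Perm (Fin t)) :
    (ι → F) →ₗ[F] (ι → F) :=
  ∑ k, (D (σ k)).subtype ∘ₗ
    ((LinearEquiv.ofFinrankEq (D k) (D (σ k))
      (by rw [hD.finrank_eq, hD.finrank_eq])).toLinearMap ∘ₗ
      (prj hD k).codRestrict (D k) (prj_mem hD k))

private lemma bmap_apply (hD : IsMDecomposition m D) (σ : Equiv.Perm (Fin t)) (x : ι → F) :
    bmap hD σ x = ∑ k, (((LinearEquiv.ofFinrankEq (D k) (D (σ k))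
      (by rw [hD.finrank_eq, hD.finrank_eq])) ⟨prj hD k x, prj_mem hD k x⟩ : D (σ k)) : ι → F) := by
  simp only [bmap, LinearMap.sum_apply, LinearMap.comp_apply]
  rfl

private lemma bmap_mem (hD : IsMDecomposition m D) (σ : Equiv.Perm (Fin t)) {k : Fin t}
    {x : ι → F} (hx : x ∈ D k) : bmap hD σ x ∈ D (σ k) := by
  rw [bmap_apply, Finset.sum_eq_single k]
  · exact Subtype.property _
  · intro l _ hl
    have h0 : (⟨prj hD l x, prj_mem hD l x⟩ : D l) = 0 := by
      apply Subtype.ext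
      exact prj_of_mem_ne hD hl.symm hx
    rw [h0, map_zero]
    rfl
  · intro h
    exact absurd (Finset.mem_univ k) h

private lemma bmap_inj (hD : IsMDecomposition m D) (σ : Equiv.Perm (Fin t)) :
    LinearMap.ker (bmap hD σ) = ⊥ := by
  rw [LinearMap.ker_eq_bot']
  intro x hx
  rw [← sum_prj hD x]
  apply Finset.sum_eq_zero
  intro k _
  have h1 : prj hD (σ k) (bmap hD σ x) = 0 := by rw [hx, map_zero]
  rw [bmap_apply, map_sum, Finset.sum_eq_single k] at h1
  · rw [prj_of_mem hD (Subtype.property _)] at h1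
    have h2 : (LinearEquiv.ofFinrankEq (D k) (D (σ k))
      (by rw [hD.finrank_eq, hD.finrank_eq])) ⟨prj hD k x, prj_mem hD k x⟩ = 0 :=
      Subtype.ext h1
    rw [LinearEquiv.map_eq_zero_iff] at h2
    exact congrArg Subtype.val h2
  · intro l _ hl
    exact prj_of_mem_ne hD (fun h => hl (σ.injective h)) (Subtype.property _)
  · intro h
    exact absurd (Finset.mem_univ k) h

/-- an element of `Stab(D) ∩ SL` inducing the permutation `σ` on the blocks -/
private lemma exists_stab (hD : IsMDecomposition m D) (σ : Equiv.Perm (Fin t)) :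
    ∃ g : GL ι F, g ∈ decompositionStabilizer D ⊓ specialLinear ι F ∧
      ∀ k, ∀ x ∈ D k, (g : Matrix ι ι F) *ᵥ x ∈ D (σ k) := by
  have hdet : LinearMap.det (bmap hD σ) ≠ 0 := by
    intro h
    have := LinearMap.bot_lt_ker_of_det_eq_zero h
    rw [bmap_inj] at this
    exact lt_irrefl _ this
  have ht : 0 < t := lt_of_lt_of_le (by norm_num) hD.two_le
  obtain ⟨y, hy, hy0⟩ := exists_ne_zero hD (⟨0, ht⟩ : Fin t)
  obtain ⟨φ, hφ, hφy⟩ := exists_pure_eq_one hD hy hy0
  set a : F := (LinearMap.det (bmap hD σ))⁻¹ with ha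
  set L : (ι → F) →ₗ[F] (ι → F) := bmap hD σ ∘ₗ LinearMap.transvection φ ((a - 1) • y) with hL
  have hLdet : LinearMap.det L = 1 := by
    rw [hL, LinearMap.det_comp, LinearMap.transvection.det, map_smul, hφy, smul_eq_mul, mul_one,
      add_sub_cancel, ha, mul_inv_cancel₀ hdet]
  have hLne : LinearMap.det L ≠ 0 := by rw [hLdet]; exact one_ne_zero
  have hmap : ∀ k, ∀ x ∈ D k,
      ((mkGL (LinearMap.equivOfDetNeZero L hLne) : GL ι F) : Matrix ι ι F) *ᵥ x ∈ D (σ k) := by
    intro k x hx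
    rw [mkGL_mulVec]
    change L x ∈ D (σ k)
    rw [hL, LinearMap.comp_apply]
    apply bmap_mem hD σ
    rw [LinearMap.transvection.apply]
    by_cases hk : k = ⟨0, ht⟩
    · subst hk
      exact (D _).add_mem hx ((D _).smul_mem _ ((D _).smul_mem _ hy))
    · rw [hφ k hk x hx, zero_smul, add_zero]
      exact hx
  refine ⟨mkGL (LinearMap.equivOfDetNeZero L hLne), ⟨mem_stab_of_le hD _ σ hmap,
    (mem_specialLinear_iff _).2 ?_⟩, hmap⟩
  rw [det_mkGL]
  exact hLdet

/-- the inverse maps the blocks back -/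
private lemma inv_mem (hD : IsMDecomposition m D) (g : GL ι F) (σ : Equiv.Perm (Fin t))
    (h : ∀ k, ∀ x ∈ D k, (g : Matrix ι ι F) *ᵥ x ∈ D (σ k)) (k : Fin t) {z : ι → F}
    (hz : z ∈ D (σ k)) : ((g⁻¹ : GL ι F) : Matrix ι ι F) *ᵥ z ∈ D k := by
  set u := ((g⁻¹ : GL ι F) : Matrix ι ι F) *ᵥ z with hu
  have hgu : (g : Matrix ι ι F) *ᵥ u = z := mulVec_inv_mulVec g z
  have hzero : ∀ l, l ≠ k → prj hD l u = 0 := by
    intro l hl
    have h1 : prj hD (σ l) z = 0 := prj_of_mem_ne hD (fun h => hl (σ.injective h).symm) hz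
    rw [← hgu] at h1
    conv at h1 => rw [← sum_prj hD u]
    have h2 : (g : Matrix ι ι F) *ᵥ (∑ i, prj hD i u) = ∑ i, (g : Matrix ι ι F) *ᵥ (prj hD i u) := by
      rw [← Matrix.toLin'_apply, map_sum]
      rfl
    rw [h2, map_sum, Finset.sum_eq_single l] at h1
    · rw [prj_of_mem hD (h l _ (prj_mem hD l u))] at h1
      have h3 := inv_mulVec_mulVec g (prj hD l u)
      rw [h1, Matrix.mulVec_zero] at h3
      exact h3.symm
    · intro b _ hb
      exact prj_of_mem_ne hD (fun h' => hb (σ.injective h')) (h b _ (prj_mem hD b u))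
    · intro h'
      exact absurd (Finset.mem_univ l) h'
  rw [← sum_prj hD u, Finset.sum_eq_single k (fun l _ hl => hzero l hl)
    (fun h => absurd (Finset.mem_univ k) h)]
  exact prj_mem hD k u

/-- the stabiliser permutes the blocks 2-transitively: one full block gives all of them -/
theorem full_all (hD : IsMDecomposition m D) (H : Subgroup (GL ι F))
    (hM : decompositionStabilizer D ⊓ specialLinear ι F ≤ H) {i j : Fin t} (hij : i ≠ j)
    (hF : Full H D i j) : ∀ i' j' : Fin t, i' ≠ j' → Full H D i' j' := by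
  intro i' j' hij' x' hx' φ' hφ'
  obtain ⟨σ, hσi, hσj⟩ := exists_perm hij hij'
  obtain ⟨g, hg, hmap⟩ := exists_stab hD σ
  have hgH : g ∈ H := hM hg
  have h1 : Root H ((g : Matrix ι ι F) *ᵥ x') (pull φ' g) := by
    apply hF
    · rw [← hσi]; exact hmap i' x' hx'
    · intro k hk z hz
      rw [pull_apply]
      have hk' : σ (σ⁻¹ k) = k := by simp
      rw [← hk'] at hz
      apply hφ' (σ⁻¹ k) _ _ (inv_mem hD g σ hmap _ hz)
      intro h
      apply hk
      rw [← hk', h, hσj]
  have h2 := root_conj (H.inv_mem hgH) h1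
  rw [inv_mulVec_mulVec] at h2
  have e : pull (pull φ' g) g⁻¹ = φ' := by
    apply LinearMap.ext
    intro x
    rw [pull_apply, pull_apply, inv_inv, inv_mulVec_mulVec]
  rwa [e] at h2

end Cfsg.Agent.Lib.H65DecFullAll
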