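import Cfsg.Agent.Lib.H65DecBlock0

/-! # Project 66 (S5634), piece `Nomix3` -/

set_option autoImplicit false
set_option linter.unusedSectionVars false
set_option linter.unusedVariables false

namespace Cfsg.Agent.Lib.H65DecNomix3

open Matrix Module Cfsg.Geo Cfsg.Agent.Lib.Helper95Basic Cfsg.Agent.Lib.H65DecDefs
  Cfsg.Agent.Lib.H65DecCalc

variable {ι : Type} [Fintype ι] [DecidableEq ι] {F : Type*} [Field F]
variable {t m : ℕ} {D : Fin t → Submodule F (ι → F)}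

open Cfsg.Agent.Lib.H65DecProj Cfsg.Agent.Lib.H65DecBlock0

theorem nomix3 (hD : IsMDecomposition m D) (hm : 3 ≤ m) (H : Subgroup (GL ι F))
    (hM : decompositionStabilizer D ⊓ specialLinear ι F ≤ H) {w : ι → F} {ψ : Dual F (ι → F)}
    (hR : Root H w ψ) (hψ : ψ ≠ 0) :
    ∃ (i : Fin t) (φ : Dual F (ι → F)), Pure D i φ ∧ φ ≠ 0 ∧ Root H w φ := by
  obtain ⟨i, x, hx, hψx⟩ : ∃ i, ∃ x ∈ D i, ψ x ≠ 0 := by
    by_contra hcon
    push Not at hcon
    exact hψ (dual_eq_zero hD hcon)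
  obtain ⟨φ, hφ, hφ0, hφx, hφw⟩ := exists_pure_two hD hm i x w
  refine ⟨i, φ, hφ, hφ0, ?_⟩
  have h1 : Root H x φ := root_block hD H hM hx hφ hφx
  exact root_of_smul_left hψx (root_comm hR h1 hφw)

end Cfsg.Agent.Lib.H65DecNomix3
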