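import Cfsg.Agent.Lib.H65DecNomix2
import Cfsg.Agent.Lib.H65DecNomix3
import Cfsg.Agent.Lib.H65DecBad
import Cfsg.Agent.Lib.H65DecFullAll
import Cfsg.Agent.Lib.H65DecAllTop

/-! # Project 66 (S5634), piece `Big` -/

set_option autoImplicit false
set_option linter.unusedSectionVars false
set_option linter.unusedVariables false

namespace Cfsg.Agent.Lib.H65DecBig

open Matrix Module Cfsg.Geo Cfsg.Agent.Lib.Helper95Basic Cfsg.Agent.Lib.H65DecDefs
  Cfsg.Agent.Lib.H65DecCalc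

variable {ι : Type} [Fintype ι] [DecidableEq ι] {F : Type*} [Field F]
variable {t m : ℕ} {D : Fin t → Submodule F (ι → F)}

open Cfsg.Agent.Lib.H65DecProj Cfsg.Agent.Lib.H65DecBlock0 Cfsg.Agent.Lib.H65DecMix
  Cfsg.Agent.Lib.H65DecNomix2 Cfsg.Agent.Lib.H65DecNomix3 Cfsg.Agent.Lib.H65DecBad
  Cfsg.Agent.Lib.H65DecFullAll Cfsg.Agent.Lib.H65DecAllTop

/-- the case `m ≥ 2` -/
theorem big [Fintype F] (hD : IsMDecomposition m D) (hm : 2 ≤ m) (ht : m = 2 → 3 ≤ t)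
    (h2 : ¬ (m = 2 ∧ Fintype.card F = 2)) (H : Subgroup (GL ι F))
    (hM : decompositionStabilizer D ⊓ specialLinear ι F ≤ H)
    (hne : ¬ H ≤ decompositionStabilizer D) : specialLinear ι F ≤ H := by
  obtain ⟨g, hgH, hg⟩ := SetLike.not_le_iff_exists.1 hne
  obtain ⟨i, u, hu, hw⟩ := exists_bad hD g hg
  obtain ⟨φ₀, hp, hφ₀, h0⟩ := exists_pure_one hD hm i u
  have hR : Root H ((g : Matrix ι ι F) *ᵥ u) (pull φ₀ g) :=
    root_conj hgH (root_block hD H hM hu hp h0)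
  have hψ : pull φ₀ g ≠ 0 := pull_ne_zero hφ₀ g
  have key : ∃ i j : Fin t, i ≠ j ∧ Full H D i j := by
    rcases Nat.lt_or_ge 2 m with h3 | h3
    · obtain ⟨i', φ, hφ, hφ0, hR'⟩ := nomix3 hD h3 H hM hR hψ
      obtain ⟨j, hj, hF⟩ := mixII hD hm H hM hφ hφ0 hR' (hw i')
      exact ⟨j, i', hj, hF⟩
    · have hm2 : m = 2 := le_antisymm h3 hm
      have hq : 3 ≤ Fintype.card F := by
        have h1 : 1 < Fintype.card F := Fintype.one_lt_card
        have h4 : Fintype.card F ≠ 2 := fun h => h2 ⟨hm2, h⟩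
        omega
      exact nomix2 hD hm2 (ht hm2) hq H hM hR hψ hw
  obtain ⟨i, j, hij, hF⟩ := key
  exact all_top hD hm H hM (full_all hD H hM hij hF)

end Cfsg.Agent.Lib.H65DecBig
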