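import Cfsg.Agent.Lib.H65DecMonApi

/-! # Project 66 (S5634), piece `Blk` -/

set_option autoImplicit false
set_option linter.unusedSectionVars false
set_option linter.unusedVariables false

namespace Cfsg.Agent.Lib.H65DecBlk

open Matrix Module Cfsg.Geo Cfsg.Agent.Lib.Helper95Basic Cfsg.Agent.Lib.H65DecDefs
  Cfsg.Agent.Lib.H65DecCalc Cfsg.Agent.Lib.H65DecMonA Cfsg.Agent.Lib.H65DecMonApi

variable {ι : Type} [Fintype ι] [DecidableEq ι] {F : Type*} [Field F] [Fintype F]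

/-- `h` fixes the line of `e i0` -/
def FixL (i0 : ι) (h : GL ι F) : Prop := ∃ c : F, (h : Matrix ι ι F) *ᵥ e i0 = c • e i0

/-- `k` is the lower right block of `h` (the action of `h` on `V / ⟨e i0⟩`) -/
def IsLow (i0 : ι) (h : GL ι F) (k : GL {a : ι // a ≠ i0} F) : Prop :=
  ∀ a b, (k : Matrix {a : ι // a ≠ i0} {a : ι // a ≠ i0} F) a b = (h : Matrix ι ι F) a b

lemma fixL_iff {i0 : ι} {h : GL ι F} : FixL i0 h ↔ ∀ a, a ≠ i0 → (h : Matrix ι ι F) a i0 = 0 := by
  constructor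
  · rintro ⟨c, hc⟩ a ha
    have h1 := congrFun hc a
    rw [mulVec_e] at h1
    rw [h1]
    simp [ha]
  · intro hh
    refine ⟨(h : Matrix ι ι F) i0 i0, ?_⟩
    funext a
    rw [mulVec_e]
    by_cases ha : a = i0
    · subst ha
      simp
    · rw [hh a ha]
      simp [ha]

lemma fixL_mul {i0 : ι} {h h' : GL ι F} (hh : FixL i0 h) (hh' : FixL i0 h') : FixL i0 (h * h') := by
  obtain ⟨c, hc⟩ := hh
  obtain ⟨c', hc'⟩ := hh'
  exact ⟨c' * c, by rw [mul_mulVec, hc', Matrix.mulVec_smul, hc, smul_smul]⟩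

lemma fixL_inv {i0 : ι} {h : GL ι F} (hh : FixL i0 h) : FixL i0 h⁻¹ := by
  obtain ⟨c, hc⟩ := hh
  have h1 := inv_mulVec_mulVec h (e i0)
  rw [hc, Matrix.mulVec_smul] at h1
  have hc0 : c ≠ 0 := by
    rintro rfl
    rw [zero_smul] at h1
    have h2 := congrFun h1 i0
    simp at h2
  refine ⟨c⁻¹, ?_⟩
  conv_rhs => rw [← h1]
  rw [smul_smul, inv_mul_cancel₀ hc0, one_smul]

private lemma fixL_one (i0 : ι) : FixL i0 (1 : GL ι F) := ⟨1, by simp⟩

/-- the lower right block of a matrix -/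
private def blk (i0 : ι) (M : Matrix ι ι F) : Matrix {a : ι // a ≠ i0} {a : ι // a ≠ i0} F :=
  fun a b => M a b

private lemma blk_mul {i0 : ι} {h : GL ι F} (hh : FixL i0 h) (h' : GL ι F) :
    blk i0 ((h * h' : GL ι F) : Matrix ι ι F)
      = blk i0 (h : Matrix ι ι F) * blk i0 (h' : Matrix ι ι F) := by
  funext a b
  rw [Matrix.mul_apply]
  show ((h * h' : GL ι F) : Matrix ι ι F) a b = _
  rw [Units.val_mul, Matrix.mul_apply, Fintype.sum_eq_add_sum_subtype_ne _ i0,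
    fixL_iff.1 hh a a.2, zero_mul, zero_add]
  rfl

private lemma blk_one (i0 : ι) : blk i0 ((1 : GL ι F) : Matrix ι ι F) = 1 := by
  funext a b
  show ((1 : GL ι F) : Matrix ι ι F) a b = _
  rw [Units.val_one, Matrix.one_apply, Matrix.one_apply]
  simp [Subtype.ext_iff]

/-- the lower block as an invertible matrix -/
private def lowGL {i0 : ι} {h : GL ι F} (hh : FixL i0 h) : GL {a : ι // a ≠ i0} F :=
  ⟨blk i0 (h : Matrix ι ι F), blk i0 ((h⁻¹ : GL ι F) : Matrix ι ι F),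
    by rw [← blk_mul hh, mul_inv_cancel, blk_one],
    by rw [← blk_mul (fixL_inv hh), inv_mul_cancel, blk_one]⟩

private lemma isLow_iff {i0 : ι} {h : GL ι F} (hh : FixL i0 h) (k : GL {a : ι // a ≠ i0} F) :
    IsLow i0 h k ↔ k = lowGL hh := by
  constructor
  · intro hk
    apply Units.ext
    funext a b
    exact hk a b
  · rintro rfl a b
    rfl

private lemma isLow_mul {i0 : ι} {h h' : GL ι F} {k k' : GL {a : ι // a ≠ i0} F} (hh : FixL i0 h)
    (hh' : FixL i0 h') (hk : IsLow i0 h k) (hk' : IsLow i0 h' k') : IsLow i0 (h * h') (k * k') := by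
  rw [isLow_iff hh] at hk
  rw [isLow_iff hh'] at hk'
  rw [isLow_iff (fixL_mul hh hh'), hk, hk']
  apply Units.ext
  rw [Units.val_mul]
  exact (blk_mul hh h').symm

private lemma isLow_one (i0 : ι) : IsLow i0 (1 : GL ι F) 1 := by
  rw [isLow_iff (fixL_one i0)]
  apply Units.ext
  rw [Units.val_one]
  exact (blk_one i0).symm

private lemma isLow_inv {i0 : ι} {h : GL ι F} {k : GL {a : ι // a ≠ i0} F} (hh : FixL i0 h)
    (hk : IsLow i0 h k) : IsLow i0 h⁻¹ k⁻¹ := by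
  rw [isLow_iff hh] at hk
  rw [isLow_iff (fixL_inv hh), hk]
  apply Units.ext
  rfl

/-- the group induced on `V / ⟨e i0⟩` by the stabiliser of the line `⟨e i0⟩` in `H` -/
def lowImg (H : Subgroup (GL ι F)) (i0 : ι) : Subgroup (GL {a : ι // a ≠ i0} F) where
  carrier := {k | ∃ h ∈ H, FixL i0 h ∧ IsLow i0 h k}
  mul_mem' := by
    rintro k k' ⟨h, hH, hf, hl⟩ ⟨h', hH', hf', hl'⟩
    exact ⟨h * h', H.mul_mem hH hH', fixL_mul hf hf', isLow_mul hf hf' hl hl'⟩
  one_mem' := ⟨1, H.one_mem, fixL_one i0, isLow_one i0⟩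
  inv_mem' := by
    rintro k ⟨h, hH, hf, hl⟩
    exact ⟨h⁻¹, H.inv_mem hH, fixL_inv hf, isLow_inv hf hl⟩

lemma mem_lowImg {H : Subgroup (GL ι F)} {i0 : ι} {k : GL {a : ι // a ≠ i0} F} :
    k ∈ lowImg H i0 ↔ ∃ h ∈ H, FixL i0 h ∧ IsLow i0 h k := Iff.rfl

/-- the lower block of an element fixing the line is invertible -/
lemma exists_low {i0 : ι} {h : GL ι F} (hh : FixL i0 h) : ∃ k, IsLow i0 h k :=
  ⟨lowGL hh, (isLow_iff hh _).2 rfl⟩

lemma fixL_dg (i0 : ι) (d : ι → Fˣ) : FixL i0 (dg d : GL ι F) :=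
  ⟨(d i0 : F), by
    have := mon_e (F := F) 1 d i0
    simpa [dg] using this⟩

/-- every monomial matrix on `V / ⟨e i0⟩` is induced by a monomial matrix of determinant 1 -/
lemma exists_SMon_low (i0 : ι) {k : GL {a : ι // a ≠ i0} F} (hk : k ∈ Mon {a : ι // a ≠ i0} F) :
    ∃ m ∈ SMon ι F, FixL i0 m ∧ IsLow i0 m k := by
  obtain ⟨σ, d, rfl⟩ := exists_mon_of_mem hk
  set σ' : Equiv.Perm ι := Equiv.Perm.ofSubtype σ with hσ'
  set d' : ι → Fˣ := fun k => if h : k ≠ i0 then d ⟨k, h⟩ else 1 with hd'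
  set m0 : GL ι F := mon σ' d' with hm0
  have hdet0 : (m0 : Matrix ι ι F).det ≠ 0 := by
    have := (Matrix.isUnit_iff_isUnit_det _).1 m0.isUnit
    exact this.ne_zero
  set c : Fˣ := (Units.mk0 _ hdet0)⁻¹ with hc
  have hσi0 : σ' i0 = i0 := Equiv.Perm.ofSubtype_apply_of_not_mem σ (by simp)
  have hf0 : FixL i0 m0 := ⟨(d' i0 : F), by rw [hm0, mon_e, hσi0]⟩
  have hf1 : FixL i0 (d1 i0 c : GL ι F) := fixL_dg i0 _
  refine ⟨d1 i0 c * m0, ⟨(Mon ι F).mul_mem (d1_mem i0 c) (mon_mem _ _), ?_⟩, fixL_mul hf1 hf0, ?_⟩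
  · show d1 i0 c * m0 ∈ specialLinear ι F
    rw [mem_specialLinear_iff, Units.val_mul, Matrix.det_mul]
    have h1 : ((d1 i0 c : GL ι F) : Matrix ι ι F).det = (c : F) := by
      unfold d1 dg
      rw [det_mon]
      simp only [Equiv.Perm.sign_one, Units.val_one, Int.cast_one, one_mul]
      rw [Finset.prod_eq_single i0]
      · simp
      · intro b _ hb
        simp [hb]
      · intro h
        exact absurd (Finset.mem_univ _) h
    rw [h1, hc]
    simp [hdet0]
  · intro a b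
    rw [← mulVec_e, ← mulVec_e, mul_mulVec, d1_mulVec, mon_e, hm0, mon_e]
    have hσb : σ' b = σ b := Equiv.Perm.ofSubtype_apply_coe σ b
    have hdb : d' b = d b := by
      simp only [hd']
      rw [dif_pos b.2]
    rw [hσb, hdb]
    have hne : i0 ≠ ((σ b : {a : ι // a ≠ i0}) : ι) := fun h => (σ b).2 h.symm
    simp [Subtype.ext_iff, hne]

/-- two elements inducing the same map on `V / ⟨e i0⟩` differ by `x ↦ x + φ x • e i0` -/
lemma low_unique {i0 : ι} {h h' : GL ι F} {k : GL {a : ι // a ≠ i0} F} (hh : FixL i0 h)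
    (hh' : FixL i0 h') (hk : IsLow i0 h k) (hk' : IsLow i0 h' k) :
    ∃ φ : Dual F (ι → F), ∀ x, ((h * h'⁻¹ : GL ι F) : Matrix ι ι F) *ᵥ x = x + φ x • e i0 := by
  have hf : FixL i0 (h * h'⁻¹) := fixL_mul hh (fixL_inv hh')
  have hl : IsLow i0 (h * h'⁻¹) 1 := by
    have := isLow_mul hh (fixL_inv hh') hk (isLow_inv hh' hk')
    rwa [mul_inv_cancel] at this
  set g : GL ι F := h * h'⁻¹ with hg
  refine ⟨co i0 ∘ₗ (Matrix.toLin' (g : Matrix ι ι F) - LinearMap.id), fun x => ?_⟩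
  funext a
  by_cases ha : a = i0
  · subst ha
    simp
  · have h1 : ((g : Matrix ι ι F) *ᵥ x) a = x a := by
      rw [Matrix.mulVec, dotProduct, Fintype.sum_eq_add_sum_subtype_ne _ i0,
        fixL_iff.1 hf a ha, zero_mul, zero_add]
      have h2 : ∀ b : {b : ι // b ≠ i0}, (g : Matrix ι ι F) a b * x b
          = if b = (⟨a, ha⟩ : {b : ι // b ≠ i0}) then x a else 0 := by
        intro b
        have h3 := hl ⟨a, ha⟩ b
        rw [Units.val_one, Matrix.one_apply] at h3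
        rw [← h3]
        by_cases hb : b = (⟨a, ha⟩ : {b : ι // b ≠ i0})
        · subst hb
          simp
        · rw [if_neg (fun h => hb h.symm), if_neg hb, zero_mul]
      rw [Finset.sum_congr rfl (fun b _ => h2 b)]
      simp
    rw [h1]
    simp [ha]

lemma card_sub (i0 : ι) : Fintype.card {a : ι // a ≠ i0} = Fintype.card ι - 1 := by
  simp [Fintype.card_subtype_compl]

end Cfsg.Agent.Lib.H65DecBlk
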