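import Cfsg.Agent.Lib.H65DecProj

/-! # Project 66 (S5634), piece `Block0` -/

set_option autoImplicit false
set_option linter.unusedSectionVars false
set_option linter.unusedVariables false

namespace Cfsg.Agent.Lib.H65DecBlock0

open Matrix Module Cfsg.Geo Cfsg.Agent.Lib.Helper95Basic Cfsg.Agent.Lib.H65DecDefs
  Cfsg.Agent.Lib.H65DecCalc

variable {ι : Type} [Fintype ι] [DecidableEq ι] {F : Type*} [Field F]
variable {t m : ℕ} {D : Fin t → Submodule F (ι → F)}

open Cfsg.Agent.Lib.H65DecProj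

/-- the root subgroups inside one block -/
theorem root_block (hD : IsMDecomposition m D) (H : Subgroup (GL ι F))
    (hM : decompositionStabilizer D ⊓ specialLinear ι F ≤ H) {i : Fin t} {u : ι → F}
    {φ : Dual F (ι → F)} (hu : u ∈ D i) (hφ : Pure D i φ) (h0 : φ u = 0) : Root H u φ := by
  refine ⟨h0, fun z => ?_⟩
  have hz : φ (z • u) = 0 := by rw [map_smul, h0, smul_zero]
  rw [has_iff_tv hz]
  apply hM
  refine ⟨?_, tv_mem_specialLinear _ _ _⟩
  apply mem_stab_of_le hD _ 1
  intro j x hx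
  rw [tv_mulVec, Equiv.Perm.one_apply]
  by_cases hj : j = i
  · subst hj
    exact (D j).add_mem hx ((D j).smul_mem _ ((D j).smul_mem _ hu))
  · rw [hφ j hj x hx, zero_smul, add_zero]
    exact hx

/-- products of two dilations in different blocks, of determinant 1 -/
theorem dil_mem (hD : IsMDecomposition m D) (H : Subgroup (GL ι F))
    (hM : decompositionStabilizer D ⊓ specialLinear ι F ≤ H) {i k : Fin t} (hik : i ≠ k)
    {y y' : ι → F} {φ φ' : Dual F (ι → F)} (hy : y ∈ D i) (hφ : Pure D i φ) (h1 : φ y = 1)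
    (hy' : y' ∈ D k) (hφ' : Pure D k φ') (h1' : φ' y' = 1) (a : F) (ha : a ≠ 0) :
    ∃ g ∈ H, (∀ x, (g : Matrix ι ι F) *ᵥ x = x + ((a - 1) * φ x) • y + ((a⁻¹ - 1) * φ' x) • y') ∧
      (∀ x, ((g⁻¹ : GL ι F) : Matrix ι ι F) *ᵥ x
        = x + ((a⁻¹ - 1) * φ x) • y + ((a - 1) * φ' x) • y') := by
  have h01 : φ y' = 0 := hφ k hik.symm y' hy'
  have h10 : φ' y = 0 := hφ' i hik y hy
  let T : F → (ι → F) →ₗ[F] (ι → F) := fun b =>
    (LinearMap.transvection ((b - 1) • φ) y) ∘ₗ (LinearMap.transvection ((b⁻¹ - 1) • φ') y')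
  have hT : ∀ b x, T b x = x + ((b - 1) * φ x) • y + ((b⁻¹ - 1) * φ' x) • y' := by
    intro b x
    simp only [T, LinearMap.comp_apply, LinearMap.transvection.apply, LinearMap.smul_apply,
      map_add, map_smul, h01, smul_eq_mul, mul_zero, add_zero]
    module
  have hTT : ∀ b, b ≠ 0 → ∀ x, T b (T b⁻¹ x) = x := by
    intro b hb x
    rw [hT b, hT b⁻¹]
    simp only [map_add, map_smul, h01, h10, h1, h1', smul_eq_mul, mul_zero, add_zero, mul_one,
      zero_add, inv_inv]
    have e1 : (b - 1) * (φ x + (b⁻¹ - 1) * φ x) = - ((b⁻¹ - 1) * φ x) := by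
      field_simp; ring
    have e2 : (b⁻¹ - 1) * (φ' x + (b - 1) * φ' x) = - ((b - 1) * φ' x) := by
      field_simp; ring
    rw [e1, e2, neg_smul, neg_smul]
    abel
  let E : (ι → F) ≃ₗ[F] (ι → F) := LinearEquiv.ofLinearMap (T a) (T a⁻¹)
    (LinearMap.ext fun x => hTT a ha x)
    (LinearMap.ext fun x => by
      have := hTT a⁻¹ (inv_ne_zero ha) x
      rwa [inv_inv] at this)
  have hE : ∀ x, ((mkGL E : GL ι F) : Matrix ι ι F) *ᵥ x = T a x := fun x => by
    rw [mkGL_mulVec]; rfl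
  refine ⟨mkGL E, hM ⟨?_, ?_⟩, fun x => by rw [hE, hT], fun x => ?_⟩
  · apply mem_stab_of_le hD _ 1
    intro j x hx
    rw [hE, hT, Equiv.Perm.one_apply]
    by_cases hj : j = i
    · subst hj
      rw [hφ' j hik x hx, mul_zero, zero_smul, add_zero]
      exact (D j).add_mem hx ((D j).smul_mem _ hy)
    · rw [hφ j hj x hx, mul_zero, zero_smul, add_zero]
      by_cases hjk : j = k
      · subst hjk
        exact (D j).add_mem hx ((D j).smul_mem _ hy')
      · rw [hφ' j hjk x hx, mul_zero, zero_smul, add_zero]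
        exact hx
  · show mkGL E ∈ specialLinear ι F
    rw [mem_specialLinear_iff, det_mkGL]
    have : (E : (ι → F) →ₗ[F] (ι → F)) = T a := rfl
    rw [this]
    simp only [T]
    rw [LinearMap.det_comp, LinearMap.transvection.det, LinearMap.transvection.det]
    simp only [LinearMap.smul_apply, h1, h1', smul_eq_mul, mul_one]
    field_simp
    ring
  · have h2 := inv_mulVec_mulVec (mkGL E) (T a⁻¹ x)
    rw [hE, hTT a ha] at h2
    rw [h2, hT, inv_inv]

end Cfsg.Agent.Lib.H65DecBlock0
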