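import Cfsg.Agent.Lib.H65DecDefs

/-! # Project 66, piece `calc`: calculus of `Has`, `Root`, `Hmg` -/

set_option autoImplicit false
set_option linter.unusedSectionVars false
set_option linter.unusedVariables false

namespace Cfsg.Agent.Lib.H65DecCalc

open Matrix Module Cfsg.Geo Cfsg.Agent.Lib.Helper95Basic Cfsg.Agent.Lib.H65DecDefs

variable {ι : Type} [Fintype ι] [DecidableEq ι] {F : Type*} [Field F]
variable {H K : Subgroup (GL ι F)} {u u' w : ι → F} {φ ψ : Dual F (ι → F)} {g : GL ι F}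

lemma has_zero_left (φ : Dual F (ι → F)) : Has H 0 φ := ⟨1, H.one_mem, fun x => by simp⟩

lemma has_zero_right (u : ι → F) : Has H u 0 := ⟨1, H.one_mem, fun x => by simp⟩

lemma has_mono (hHK : H ≤ K) (h : Has H u φ) : Has K u φ := by
  obtain ⟨g, hg, h⟩ := h
  exact ⟨g, hHK hg, h⟩

lemma has_smul_iff (c : F) : Has H (c • u) φ ↔ Has H u (c • φ) := by
  constructor
  · rintro ⟨g, hg, h⟩
    refine ⟨g, hg, fun x => ?_⟩
    rw [h x, LinearMap.smul_apply, smul_smul, smul_eq_mul, mul_comm]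
  · rintro ⟨g, hg, h⟩
    refine ⟨g, hg, fun x => ?_⟩
    rw [h x, LinearMap.smul_apply, smul_smul, smul_eq_mul, mul_comm]

lemma has_conj (hg : g ∈ H) (h : Has H u φ) : Has H ((g : Matrix ι ι F) *ᵥ u) (pull φ g) := by
  obtain ⟨k, hk, h⟩ := h
  refine ⟨g * k * g⁻¹, H.mul_mem (H.mul_mem hg hk) (H.inv_mem hg), fun x => ?_⟩
  rw [mul_mulVec, mul_mulVec, h, Matrix.mulVec_add, mulVec_inv_mulVec, Matrix.mulVec_smul, pull_apply]

lemma has_add_right (h0 : φ u = 0) (h1 : Has H u φ) (h2 : Has H u ψ) : Has H u (φ + ψ) := by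
  obtain ⟨k, hk, h1⟩ := h1
  obtain ⟨l, hl, h2⟩ := h2
  refine ⟨k * l, H.mul_mem hk hl, fun x => ?_⟩
  rw [mul_mulVec, h2, h1, map_add, map_smul, h0, smul_zero, add_zero, LinearMap.add_apply, add_smul]
  abel

lemma has_add_left (h0 : φ u' = 0) (h1 : Has H u φ) (h2 : Has H u' φ) : Has H (u + u') φ := by
  obtain ⟨k, hk, h1⟩ := h1
  obtain ⟨l, hl, h2⟩ := h2
  refine ⟨k * l, H.mul_mem hk hl, fun x => ?_⟩
  rw [mul_mulVec, h2, h1, map_add, map_smul, h0, smul_zero, add_zero, smul_add]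
  abel

lemma has_neg (h0 : φ u = 0) (h : Has H u φ) : Has H (-u) φ := by
  obtain ⟨k, hk, h⟩ := h
  refine ⟨k⁻¹, H.inv_mem hk, fun x => ?_⟩
  have h1 : (k : Matrix ι ι F) *ᵥ (x + φ x • -u) = x := by
    rw [h, map_add, map_smul, map_neg, h0, neg_zero, smul_zero, add_zero, smul_neg]
    abel
  have h2 := inv_mulVec_mulVec k (x + φ x • -u)
  rw [h1] at h2
  exact h2

lemma has_iff_tv (h0 : φ u = 0) : Has H u φ ↔ tv u φ h0 ∈ H := by
  constructor
  · rintro ⟨k, hk, h⟩
    have : tv u φ h0 = k := gl_ext fun x => by rw [tv_mulVec, h]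
    rw [this]; exact hk
  · intro h
    exact ⟨_, h, fun x => tv_mulVec u φ h0 x⟩

/-- `det (x ↦ x + φ x • u) = 1 + φ u` -/
lemma has_det (hH : H ≤ specialLinear ι F) (h : Has H u φ) : φ u = 0 := by
  obtain ⟨k, hk, h⟩ := h
  have h1 := (mem_specialLinear_iff k).1 (hH hk)
  have h2 : Matrix.toLin' (k : Matrix ι ι F) = LinearMap.transvection φ u := by
    apply LinearMap.ext
    intro x
    rw [Matrix.toLin'_apply, h, LinearMap.transvection.apply]
  rw [← LinearMap.det_toLin', h2, LinearMap.transvection.det] at h1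
  linear_combination h1

lemma pull_mulVec (φ : Dual F (ι → F)) (g : GL ι F) (x : ι → F) :
    pull φ g ((g : Matrix ι ι F) *ᵥ x) = φ x := by
  rw [pull_apply, inv_mulVec_mulVec]

lemma pull_ne_zero (hφ : φ ≠ 0) (g : GL ι F) : pull φ g ≠ 0 := by
  intro h
  apply hφ
  refine LinearMap.ext fun x => ?_
  rw [← pull_mulVec φ g x, h]
  rfl

lemma mulVec_ne_zero (hu : u ≠ 0) (g : GL ι F) : (g : Matrix ι ι F) *ᵥ u ≠ 0 := by
  intro h
  apply hu
  rw [← inv_mulVec_mulVec g u, h, Matrix.mulVec_zero]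

/-- a functional is determined by its values on the standard basis -/
lemma dual_eq_sum (φ : Dual F (ι → F)) (x : ι → F) : φ x = ∑ i, φ (e i) * x i := by
  have hx : x = ∑ i, x i • (e i : ι → F) := by
    ext k
    simp [Finset.sum_apply]
  conv_lhs => rw [hx]
  rw [map_sum]
  apply Finset.sum_congr rfl
  intro i _
  rw [map_smul, smul_eq_mul, mul_comm]

lemma dual_ext (h : ∀ i, φ (e i) = ψ (e i)) : φ = ψ := by
  refine LinearMap.ext fun x => ?_
  rw [dual_eq_sum φ, dual_eq_sum ψ]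
  exact Finset.sum_congr rfl fun i _ => by rw [h i]

lemma root_zero_left (φ : Dual F (ι → F)) : Root H 0 φ :=
  ⟨map_zero φ, fun z => by rw [smul_zero]; exact has_zero_left φ⟩

lemma root_zero_right (u : ι → F) : Root H u 0 := ⟨rfl, fun z => has_zero_right _⟩

lemma root_mono (hHK : H ≤ K) (h : Root H u φ) : Root K u φ := ⟨h.1, fun z => has_mono hHK (h.2 z)⟩

lemma root_conj (hg : g ∈ H) (h : Root H u φ) : Root H ((g : Matrix ι ι F) *ᵥ u) (pull φ g) := by
  refine ⟨by rw [pull_mulVec]; exact h.1, fun z => ?_⟩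
  rw [← Matrix.mulVec_smul]
  exact has_conj hg (h.2 z)

lemma root_smul_left (c : F) (h : Root H u φ) : Root H (c • u) φ := by
  refine ⟨by rw [map_smul, h.1, smul_zero], fun z => ?_⟩
  rw [smul_smul]
  exact h.2 _

lemma root_smul_right (c : F) (h : Root H u φ) : Root H u (c • φ) := by
  refine ⟨by rw [LinearMap.smul_apply, h.1, smul_zero], fun z => ?_⟩
  rw [← has_smul_iff, smul_smul]
  exact h.2 _

lemma root_of_smul_left {c : F} (hc : c ≠ 0) (h : Root H (c • u) φ) : Root H u φ := by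
  have := root_smul_left c⁻¹ h
  rwa [smul_smul, inv_mul_cancel₀ hc, one_smul] at this

lemma root_of_smul_right {c : F} (hc : c ≠ 0) (h : Root H u (c • φ)) : Root H u φ := by
  have := root_smul_right c⁻¹ h
  rwa [smul_smul, inv_mul_cancel₀ hc, one_smul] at this

lemma root_add_right (h1 : Root H u φ) (h2 : Root H u ψ) : Root H u (φ + ψ) := by
  refine ⟨by rw [LinearMap.add_apply, h1.1, h2.1, add_zero], fun z => ?_⟩
  exact has_add_right (by rw [map_smul, h1.1, smul_zero]) (h1.2 z) (h2.2 z)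

lemma root_add_left (h1 : Root H u φ) (h2 : Root H u' φ) : Root H (u + u') φ := by
  refine ⟨by rw [map_add, h1.1, h2.1, add_zero], fun z => ?_⟩
  rw [smul_add]
  exact has_add_left (by rw [map_smul, h2.1, smul_zero]) (h1.2 z) (h2.2 z)

lemma root_sub_right (h1 : Root H u φ) (h2 : Root H u ψ) : Root H u (φ - ψ) := by
  have := root_add_right h1 (root_smul_right (-1) h2)
  have e1 : φ + (-1 : F) • ψ = φ - ψ := by
    refine LinearMap.ext fun x => ?_
    simp [sub_eq_add_neg]
  rwa [e1] at this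

lemma root_sub_left (h1 : Root H u φ) (h2 : Root H u' φ) : Root H (u - u') φ := by
  have := root_add_left h1 (root_smul_left (-1) h2)
  rwa [neg_smul, one_smul, ← sub_eq_add_neg] at this

lemma root_sum_left {α : Type*} (s : Finset α) (f : α → ι → F) (h : ∀ a ∈ s, Root H (f a) φ) :
    Root H (∑ a ∈ s, f a) φ := by
  classical
  induction s using Finset.induction_on with
  | empty => simpa using root_zero_left φ
  | insert a s ha ih =>
    rw [Finset.sum_insert ha]
    exact root_add_left (h a (Finset.mem_insert_self a s))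
      (ih fun b hb => h b (Finset.mem_insert_of_mem hb))

lemma root_sum_right {α : Type*} (s : Finset α) (f : α → Dual F (ι → F))
    (h : ∀ a ∈ s, Root H u (f a)) : Root H u (∑ a ∈ s, f a) := by
  classical
  induction s using Finset.induction_on with
  | empty => simpa using root_zero_right u
  | insert a s ha ih =>
    rw [Finset.sum_insert ha]
    exact root_add_right (h a (Finset.mem_insert_self a s))
      (ih fun b hb => h b (Finset.mem_insert_of_mem hb))

/-- commutator formula: `[1 + z u φ, 1 + w ψ] = 1 + z φ(w) u ψ` when `ψ u = 0` -/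
lemma root_comm (h1 : Root H u φ) (h2 : Root H w ψ) (h0 : ψ u = 0) : Root H (φ w • u) ψ := by
  refine ⟨by rw [map_smul, h0, smul_zero], fun z => ?_⟩
  obtain ⟨k, hk, hk'⟩ := h1.2 z
  have h3 : Has H w ψ := by simpa using h2.2 1
  have h4 := has_conj hk h3
  have h5 : pull ψ k = ψ := by
    refine LinearMap.ext fun x => ?_
    have h6 : ψ ((k : Matrix ι ι F) *ᵥ (((k⁻¹ : GL ι F) : Matrix ι ι F) *ᵥ x))
        = ψ (((k⁻¹ : GL ι F) : Matrix ι ι F) *ᵥ x) := by
      rw [hk', map_add, map_smul, map_smul, h0, smul_zero, smul_zero, add_zero]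
    rw [pull_apply, ← h6, mulVec_inv_mulVec]
  rw [h5, hk'] at h4
  have h7 : Has H (-w) ψ := by simpa using h2.2 (-1)
  have h8 := has_add_left (by rw [map_neg, h2.1, neg_zero]) h4 h7
  have h9 : w + φ w • z • u + -w = z • φ w • u := by
    rw [smul_comm]; abel
  rwa [h9] at h8

lemma root_tv (h : Root H u φ) : tv u φ h.1 ∈ H := by
  rw [← has_iff_tv]
  simpa using h.2 1

lemma hmg_conj (hg : g ∈ H) (h : Hmg H u φ) : Hmg H ((g : Matrix ι ι F) *ᵥ u) (pull φ g) := by
  refine ⟨by rw [pull_mulVec]; exact h.1, fun a ha => ?_⟩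
  rw [← Matrix.mulVec_smul]
  exact has_conj hg (h.2 a ha)

lemma hmg_mono (hHK : H ≤ K) (h : Hmg H u φ) : Hmg K u φ :=
  ⟨h.1, fun a ha => has_mono hHK (h.2 a ha)⟩

end Cfsg.Agent.Lib.H65DecCalc
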