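import Cfsg.Agent.Lib.H65DecMonApi

/-! # Project 66 (S5634), piece `Center` -/

set_option autoImplicit false
set_option linter.unusedSectionVars false
set_option linter.unusedVariables false

namespace Cfsg.Agent.Lib.H65DecCenter

open Matrix Module Cfsg.Geo Cfsg.Agent.Lib.Helper95Basic Cfsg.Agent.Lib.H65DecDefs
  Cfsg.Agent.Lib.H65DecCalc Cfsg.Agent.Lib.H65DecMonA Cfsg.Agent.Lib.H65DecMonApi

variable {ι : Type} [Fintype ι] [DecidableEq ι] {F : Type*} [Field F] [Fintype F]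

private lemma step (H : Subgroup (GL ι F)) (hM : SMon ι F ≤ H) (i : ι) (φ : Dual F (ι → F))
    (h0 : φ (e i) = 0) (h : Has H (e i) φ) {j k : ι} (hji : j ≠ i) (hki : k ≠ i) (hjk : j ≠ k)
    (a : Fˣ) :
    Has H (e i) (((((a⁻¹ : Fˣ) : F) - 1) * φ (e j)) • co j + (((a : F) - 1) * φ (e k)) • co k) := by
  have ht : d2 j k a ∈ H := hM (d2_mem hjk a)
  have h1 := has_conj ht h
  have hfix : ((d2 j k a : GL ι F) : Matrix ι ι F) *ᵥ e i = e i := by
    rw [d2_mulVec hjk]
    simp [hji, hki]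
  rw [hfix, pull_d2 hjk] at h1
  have h2 : Has H (e i) ((-1 : F) • φ) := by
    rw [← has_smul_iff]
    have := has_neg h0 h
    rwa [neg_one_smul]
  have h3 : ((-1 : F) • φ) (e i) = 0 := by simp [h0]
  have h4 := has_add_right h3 h2 h1
  have h5 : (-1 : F) • φ + (φ + ((((a⁻¹ : Fˣ) : F) - 1) * φ (e j)) • co j
      + (((a : F) - 1) * φ (e k)) • co k)
      = ((((a⁻¹ : Fˣ) : F) - 1) * φ (e j)) • co j + (((a : F) - 1) * φ (e k)) • co k := by
    module
  rwa [h5] at h4

/-- one non-trivial transvection with centre `e i` gives an elementary root subgroup -/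
theorem center_el (hq : 4 ≤ Fintype.card F) (hn : 4 ≤ Fintype.card ι) (H : Subgroup (GL ι F))
    (hM : SMon ι F ≤ H) (i : ι) (φ : Dual F (ι → F)) (hφ : φ ≠ 0) (h0 : φ (e i) = 0)
    (h : Has H (e i) φ) : HasEl H := by
  classical
  obtain ⟨j, hj⟩ : ∃ j, φ (e j) ≠ 0 := by
    by_contra hcon
    push Not at hcon
    exact hφ (dual_ext (fun k => by rw [hcon k]; simp))
  have hji : j ≠ i := by
    rintro rfl
    exact hj h0
  -- two further indices
  have hcard : 2 ≤ ((Finset.univ : Finset ι) \ {i, j}).card := by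
    have h3 := Finset.le_card_sdiff ({i, j} : Finset ι) Finset.univ
    have h4 : ({i, j} : Finset ι).card ≤ 2 := Finset.card_le_two
    rw [Finset.card_univ] at h3
    omega
  obtain ⟨T, hT, hT2⟩ := Finset.exists_subset_card_eq hcard
  obtain ⟨k, l, hkl, rfl⟩ := Finset.card_eq_two.mp hT2
  have hk : k ≠ i ∧ k ≠ j := by
    have := hT (show k ∈ ({k, l} : Finset ι) by simp)
    simpa using this
  have hl : l ≠ i ∧ l ≠ j := by
    have := hT (show l ∈ ({k, l} : Finset ι) by simp)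
    simpa using this
  obtain ⟨a, ha0, ha1⟩ : ∃ a : F, a ≠ 0 ∧ a ≠ 1 := by
    by_contra hcon
    push Not at hcon
    have hsub : (Finset.univ : Finset F) ⊆ {0, 1} := by
      intro k _
      by_cases h : k = 0
      · simp [h]
      · simp [hcon k h]
    have h1 := Finset.card_le_card hsub
    have h2 : ({0, 1} : Finset F).card ≤ 2 := Finset.card_le_two
    rw [Finset.card_univ] at h1
    omega
  have hb : a⁻¹ - 1 ≠ 0 := by
    intro h3
    exact ha1 (inv_eq_one.mp (sub_eq_zero.mp h3))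
  have s1 := step H hM i φ h0 h hji hk.1 hk.2.symm (Units.mk0 a ha0)
  obtain ⟨φ', hφ'⟩ : ∃ φ' : Dual F (ι → F), φ' =
      (((((Units.mk0 a ha0)⁻¹ : Fˣ) : F) - 1) * φ (e j)) • co j
        + ((((Units.mk0 a ha0 : Fˣ) : F) - 1) * φ (e k)) • co k := ⟨_, rfl⟩
  rw [← hφ'] at s1
  have h0' : φ' (e i) = 0 := by
    rw [hφ']; simp [hji, hk.1]
  have hj' : φ' (e j) = (a⁻¹ - 1) * φ (e j) := by
    rw [hφ']; simp [hk.2]
  have hl' : φ' (e l) = 0 := by
    rw [hφ']; simp [hl.2.symm, hkl]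
  have s2 := step H hM i φ' h0' s1 hji hl.1 hl.2.symm (Units.mk0 a ha0)
  rw [hl', hj', mul_zero, zero_smul, add_zero] at s2
  simp only [Units.val_inv_eq_inv_val, Units.val_mk0] at s2
  have hc : (a⁻¹ - 1) * ((a⁻¹ - 1) * φ (e j)) ≠ 0 := mul_ne_zero hb (mul_ne_zero hb hj)
  obtain ⟨c, hcdef⟩ : ∃ c : F, c = (a⁻¹ - 1) * ((a⁻¹ - 1) * φ (e j)) := ⟨_, rfl⟩
  rw [← hcdef] at s2 hc
  refine ⟨i, j, hji.symm, root_of_smul_right hc ⟨by simp [hji], fun r => ?_⟩⟩
  by_cases hr : r = 0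
  · subst hr
    rw [zero_smul]
    exact has_zero_left _
  · have ht : d2 i k (Units.mk0 r hr) ∈ H := hM (d2_mem hk.1.symm _)
    have h1 := has_conj ht s2
    have hmv : ((d2 i k (Units.mk0 r hr) : GL ι F) : Matrix ι ι F) *ᵥ e i = r • e i := by
      rw [d2_mulVec hk.1.symm]
      funext x
      by_cases hx : x = i
      · subst hx; simp [hk.1]
      · simp [hx, hk.1]
    rw [hmv, pull_d2 hk.1.symm] at h1
    have h2 : (c • co j : Dual F (ι → F)) (e i) = 0 := by simp [hji]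
    have h3 : (c • co j : Dual F (ι → F)) (e k) = 0 := by simp [hk.2.symm]
    rw [h2, h3] at h1
    simpa using h1

end Cfsg.Agent.Lib.H65DecCenter
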