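import Cfsg.Agent.Lib.Helper95SL

/-! # Project 66 (S5634): vocabulary

`V = ι → F`, `GL ι F` acts by `mulVec`.  `e i = Pi.single i 1`, `co j = LinearMap.proj j`. -/

set_option autoImplicit false
set_option linter.unusedSectionVars false

namespace Cfsg.Agent.Lib.H65DecDefs

open Matrix Module Cfsg.Geo Cfsg.Agent.Lib.Helper95Basic

variable {ι : Type} [Fintype ι] [DecidableEq ι] {F : Type*} [Field F]

/-- the `i`-th standard basis vector -/
def e (i : ι) : ι → F := Pi.single i 1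

/-- the `j`-th coordinate functional -/
def co (j : ι) : Dual F (ι → F) := LinearMap.proj j

@[simp] lemma e_apply (i k : ι) : (e i : ι → F) k = if k = i then 1 else 0 := by
  simp [e, Pi.single_apply]

@[simp] lemma co_apply (j : ι) (x : ι → F) : co j x = x j := rfl

lemma mulVec_e (g : GL ι F) (j i : ι) : ((g : Matrix ι ι F) *ᵥ e j) i = (g : Matrix ι ι F) i j := by
  simp [e]

/-- the functional `φ ∘ g⁻¹` -/
noncomputable def pull (φ : Dual F (ι → F)) (g : GL ι F) : Dual F (ι → F) :=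
  φ ∘ₗ Matrix.toLin' ((g⁻¹ : GL ι F) : Matrix ι ι F)

@[simp] lemma pull_apply (φ : Dual F (ι → F)) (g : GL ι F) (x : ι → F) :
    pull φ g x = φ (((g⁻¹ : GL ι F) : Matrix ι ι F) *ᵥ x) := by
  simp [pull]

/-- the map `x ↦ x + φ x • u` belongs to `H` -/
def Has (H : Subgroup (GL ι F)) (u : ι → F) (φ : Dual F (ι → F)) : Prop :=
  ∃ g ∈ H, ∀ x, (g : Matrix ι ι F) *ᵥ x = x + φ x • u

/-- `H` contains the full root subgroup `{x ↦ x + z φ x • u | z ∈ F}` (`u = 0` or `φ = 0` allowed) -/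
def Root (H : Subgroup (GL ι F)) (u : ι → F) (φ : Dual F (ι → F)) : Prop :=
  φ u = 0 ∧ ∀ z : F, Has H (z • u) φ

/-- `H` contains the full group of homologies `{x ↦ x + (a-1) φ x • u | a ≠ 0}` with centre `u`,
axis `ker φ` -/
def Hmg (H : Subgroup (GL ι F)) (u : ι → F) (φ : Dual F (ι → F)) : Prop :=
  φ u = 1 ∧ ∀ a : F, a ≠ 0 → Has H ((a - 1) • u) φ

/-- the monomial matrices -/
def Mon (ι : Type) [Fintype ι] [DecidableEq ι] (F : Type*) [Field F] : Subgroup (GL ι F) where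
  carrier := {g | ∃ σ : Equiv.Perm ι, ∀ j, ∃ c : F, (g : Matrix ι ι F) *ᵥ e j = c • e (σ j)}
  mul_mem' {a b} ha hb := by
    obtain ⟨σ, hσ⟩ := ha
    obtain ⟨τ, hτ⟩ := hb
    refine ⟨σ * τ, fun j => ?_⟩
    obtain ⟨c, hc⟩ := hτ j
    obtain ⟨c', hc'⟩ := hσ (τ j)
    refine ⟨c * c', ?_⟩
    rw [mul_mulVec, hc, Matrix.mulVec_smul, hc', smul_smul, Equiv.Perm.mul_apply]
  one_mem' := ⟨1, fun j => ⟨1, by simp⟩⟩
  inv_mem' {a} ha := by
    obtain ⟨σ, hσ⟩ := ha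
    refine ⟨σ⁻¹, fun j => ?_⟩
    obtain ⟨c, hc⟩ := hσ (σ⁻¹ j)
    have hσj : σ (σ⁻¹ j) = j := by simp
    rw [hσj] at hc
    have hc0 : c ≠ 0 := by
      rintro rfl
      rw [zero_smul] at hc
      have h1 := inv_mulVec_mulVec a (e (σ⁻¹ j))
      rw [hc, Matrix.mulVec_zero] at h1
      have h2 := congrFun h1 (σ⁻¹ j)
      simp at h2
    refine ⟨c⁻¹, ?_⟩
    have h1 := inv_mulVec_mulVec a (e (σ⁻¹ j))
    rw [hc, Matrix.mulVec_smul] at h1
    rw [← h1, smul_smul, inv_mul_cancel₀ hc0, one_smul]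

lemma mem_Mon {g : GL ι F} :
    g ∈ Mon ι F ↔ ∃ σ : Equiv.Perm ι, ∀ j, ∃ c : F, (g : Matrix ι ι F) *ᵥ e j = c • e (σ j) := Iff.rfl

/-- the monomial matrices of determinant 1 -/
def SMon (ι : Type) [Fintype ι] [DecidableEq ι] (F : Type*) [Field F] : Subgroup (GL ι F) :=
  Mon ι F ⊓ specialLinear ι F

/-- `H` contains an elementary root subgroup -/
def HasEl (H : Subgroup (GL ι F)) : Prop :=
  ∃ i j : ι, i ≠ j ∧ Root H (e i) (co j)

/-- every element of `H` mapping a coordinate line to a coordinate line is monomial -/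
def NN (H : Subgroup (GL ι F)) : Prop :=
  ∀ h ∈ H, (∃ (i j : ι) (c : F), (h : Matrix ι ι F) *ᵥ e j = c • e i) → h ∈ Mon ι F

/-- no column of a non-monomial element of `H` has two zeros -/
def A1 (H : Subgroup (GL ι F)) : Prop :=
  ∀ g ∈ H, g ∉ Mon ι F → ∀ k i i' : ι, i ≠ i' →
    (g : Matrix ι ι F) i k = 0 → (g : Matrix ι ι F) i' k = 0 → False

/-- no column of `g` has two zeros -/
def Col1 (g : GL ι F) : Prop :=
  ∀ k i i' : ι, i ≠ i' → (g : Matrix ι ι F) i k = 0 → (g : Matrix ι ι F) i' k = 0 → False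

/-- the conclusion of the 3-cycle argument for the column `k0` of `g` -/
def Tri (g : GL ι F) (k0 : ι) : Prop :=
  ∀ i1 i2 i3 : ι, i1 ≠ i2 → i1 ≠ i3 → i2 ≠ i3 →
    (g : Matrix ι ι F) i1 k0 ≠ 0 → (g : Matrix ι ι F) i2 k0 ≠ 0 → (g : Matrix ι ι F) i3 k0 ≠ 0 →
    ∃ J : Finset ι, J.card ≤ 3 ∧ k0 ∉ J ∧ ∀ k, k ∉ J →
      (((g⁻¹ : GL ι F) : Matrix ι ι F) *ᵥ
        ((g : Matrix ι ι F) i1 k0 • e i1 - (g : Matrix ι ι F) i2 k0 • e i2)) k = 0 ∧
      (((g⁻¹ : GL ι F) : Matrix ι ι F) *ᵥ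
        ((g : Matrix ι ι F) i2 k0 • e i2 - (g : Matrix ι ι F) i3 k0 • e i3)) k = 0

/-- the "star" conclusion for the column `k0` of `g` -/
def Star (g : GL ι F) (k0 : ι) : Prop :=
  ∃ (z : ι → F) (θ : ι → ι),
    (∀ i, (g : Matrix ι ι F) i k0 ≠ 0 → θ i ≠ k0 ∧
      ∃ α : F, α ≠ 0 ∧ (g : Matrix ι ι F) i k0 • e i - z = α • ((g : Matrix ι ι F) *ᵥ e (θ i))) ∧
    (∀ i i', (g : Matrix ι ι F) i k0 ≠ 0 → (g : Matrix ι ι F) i' k0 ≠ 0 → θ i = θ i' → i = i')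

/-- normal form of a foreign frame: the columns of `g` are the vectors `z l • e l - z` up to scalars -/
def NF (g : GL ι F) : Prop :=
  ∃ (z : ι → F) (θ : Equiv.Perm ι), (∀ l, z l ≠ 0) ∧
    ∀ l, ∃ α : F, α ≠ 0 ∧ (g : Matrix ι ι F) *ᵥ e (θ l) = α • (z l • e l - z)

/-! ### decompositions -/

variable {t : ℕ}

/-- `φ` vanishes on all members of `D` except `D i` -/
def Pure (D : Fin t → Submodule F (ι → F)) (i : Fin t) (φ : Dual F (ι → F)) : Prop :=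
  ∀ j, j ≠ i → ∀ x ∈ D j, φ x = 0

/-- the block `(i,j)` of root subgroups is contained in `H` -/
def Full (H : Subgroup (GL ι F)) (D : Fin t → Submodule F (ι → F)) (i j : Fin t) : Prop :=
  ∀ x ∈ D i, ∀ φ, Pure D j φ → Root H x φ

end Cfsg.Agent.Lib.H65DecDefs
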