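import Cfsg.Agent.Lib.H65DecMonApi
import Cfsg.Agent.Lib.Helper99SubfieldSL

/-! # Project 66 (S5634), piece `ElTop` -/

set_option autoImplicit false
set_option linter.unusedSectionVars false
set_option linter.unusedVariables false

namespace Cfsg.Agent.Lib.H65DecElTop

open Matrix Module Cfsg.Geo Cfsg.Agent.Lib.Helper95Basic Cfsg.Agent.Lib.H65DecDefs
  Cfsg.Agent.Lib.H65DecCalc Cfsg.Agent.Lib.H65DecMonA Cfsg.Agent.Lib.H65DecMonApi

variable {ι : Type} [Fintype ι] [DecidableEq ι] {F : Type*} [Field F] [Fintype F]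

/-- an elementary root subgroup + the monomial group generate `SL` -/
theorem el_top (h3 : 3 ≤ Fintype.card ι) (H : Subgroup (GL ι F)) (hM : SMon ι F ≤ H) (hE : HasEl H) :
    specialLinear ι F ≤ H := by
  obtain ⟨i, j, hij, hR⟩ := hE
  have : Nontrivial ι := Fintype.one_lt_card_iff_nontrivial.1 (by omega)
  apply Cfsg.Agent.Lib.Helper99SubfieldSL.specialLinear_le_of_el
  intro a b hab d
  obtain ⟨σ, dd, hm, hσi, hσj⟩ := exists_move (F := F) h3 hij hab
  have h1 := root_conj (hM hm) hR
  rw [mon_e, pull_co_mon, hσi, hσj] at h1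
  have h2 : Root H (e a) (co b) :=
    root_of_smul_right (Units.ne_zero _) (root_of_smul_left (Units.ne_zero _) h1)
  exact root_tv (root_smul_left d h2)

end Cfsg.Agent.Lib.H65DecElTop
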