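import Cfsg.Agent.Lib.H65DecDefs

/-! # Project 66 (S5634), piece `FieldL` -/

set_option autoImplicit false
set_option linter.unusedSectionVars false
set_option linter.unusedVariables false

namespace Cfsg.Agent.Lib.H65DecFieldL

open Matrix Module Cfsg.Geo Cfsg.Agent.Lib.Helper95Basic Cfsg.Agent.Lib.H65DecDefs


variable {ι : Type} [Fintype ι] [DecidableEq ι] {F : Type*} [Field F] [Fintype F]

/-- a polynomial of degree at most two with non-zero constant term has at most two roots -/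
theorem fieldL_quad (α β γ : F) (hγ : γ ≠ 0) (x1 x2 x3 : F) (h12 : x1 ≠ x2) (h13 : x1 ≠ x3)
    (h23 : x2 ≠ x3) (e1 : α * x1 ^ 2 + β * x1 + γ = 0) (e2 : α * x2 ^ 2 + β * x2 + γ = 0)
    (e3 : α * x3 ^ 2 + β * x3 + γ = 0) : False := by
  have f12 : α * (x1 + x2) + β = 0 := by
    have : (x1 - x2) * (α * (x1 + x2) + β) = 0 := by linear_combination e1 - e2
    exact (mul_eq_zero.1 this).resolve_left (sub_ne_zero.2 h12)
  have f13 : α * (x1 + x3) + β = 0 := by
    have : (x1 - x3) * (α * (x1 + x3) + β) = 0 := by linear_combination e1 - e3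
    exact (mul_eq_zero.1 this).resolve_left (sub_ne_zero.2 h13)
  have hα : α = 0 := by
    have : (x2 - x3) * α = 0 := by linear_combination f12 - f13
    exact (mul_eq_zero.1 this).resolve_left (sub_ne_zero.2 h23)
  have hβ : β = 0 := by
    rw [hα] at f12
    linear_combination f12
  apply hγ
  rw [hα, hβ] at e1
  linear_combination e1

theorem fieldL_core (hq : 5 ≤ Fintype.card F) (a b CA CB : F) (ha : a ≠ 0) (hb : b ≠ 0)
    (hCA : CA ≠ 0) :
    ∃ x y : Fˣ, a * (x : F) + b * (y : F) + CA = 0 ∧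
      a * ((x⁻¹ : Fˣ) : F) + b * ((y⁻¹ : Fˣ) : F) + CB ≠ 0 := by
  classical
  have hcard : 2 < ((Finset.univ : Finset F) \ {0, -CA / a}).card := by
    have h1 := Finset.le_card_sdiff ({0, -CA / a} : Finset F) (Finset.univ : Finset F)
    have h2 : ({0, -CA / a} : Finset F).card ≤ 2 := Finset.card_le_two
    rw [Finset.card_univ] at h1
    omega
  obtain ⟨x1, m1, x2, m2, x3, m3, h12, h13, h23⟩ := Finset.two_lt_card.1 hcard
  have hγ : -(a * CA) ≠ 0 := neg_ne_zero.2 (mul_ne_zero ha hCA)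
  obtain ⟨x, hx, hP⟩ : ∃ x ∈ ((Finset.univ : Finset F) \ {0, -CA / a}),
      (-(CB * a)) * x ^ 2 + (b ^ 2 - a ^ 2 - CA * CB) * x + (-(a * CA)) ≠ 0 := by
    by_contra hcon
    push Not at hcon
    exact fieldL_quad _ _ _ hγ x1 x2 x3 h12 h13 h23 (hcon x1 m1) (hcon x2 m2) (hcon x3 m3)
  simp only [Finset.mem_sdiff, Finset.mem_univ, true_and, Finset.mem_insert, Finset.mem_singleton,
    not_or] at hx
  obtain ⟨hx0, hx1⟩ := hx
  have hy0 : -(CA + a * x) / b ≠ 0 := by
    intro h
    rw [div_eq_zero_iff] at h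
    rcases h with h | h
    · apply hx1
      field_simp
      linear_combination -h
    · exact hb h
  refine ⟨Units.mk0 x hx0, Units.mk0 _ hy0, ?_, ?_⟩
  · simp only [Units.val_mk0]
    field_simp
    ring
  · intro hB
    apply hP
    obtain ⟨y, hy⟩ : ∃ y, y = -(CA + a * x) / b := ⟨_, rfl⟩
    simp only [Units.val_inv_eq_inv_val, Units.val_mk0, ← hy] at hB
    rw [← hy] at hy0
    have hyb : b * y = -(CA + a * x) := by
      rw [hy]
      field_simp
    have h1 : (a * x⁻¹ + b * y⁻¹ + CB) * (x * y * b) = a * (b * y) + b ^ 2 * x + CB * x * (b * y) := by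
      field_simp
    rw [hB, zero_mul, hyb] at h1
    linear_combination -h1

theorem fieldL_sum (f : ι → F) (i1 i2 : ι) (h12 : i1 ≠ i2) :
    ∑ l, f l = f i1 + f i2 + ∑ l ∈ (Finset.univ.erase i1).erase i2, f l := by
  rw [← Finset.add_sum_erase Finset.univ f (Finset.mem_univ i1),
    ← Finset.add_sum_erase (Finset.univ.erase i1) f
      (Finset.mem_erase.2 ⟨h12.symm, Finset.mem_univ i2⟩), add_assoc]

/-- pure field lemma, three non-zero coefficients -/
theorem fieldL (hq : 5 ≤ Fintype.card F) (c : ι → F) (hc : ∑ i, c i = 1) (i1 i2 i3 : ι)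
    (h12 : i1 ≠ i2) (h13 : i1 ≠ i3) (h23 : i2 ≠ i3) (h1 : c i1 ≠ 0) (h2 : c i2 ≠ 0) (h3 : c i3 ≠ 0) :
    ∃ d : ι → Fˣ, ∑ i, c i * (d i : F) = 0 ∧ ∑ i, c i * (((d i)⁻¹ : Fˣ) : F) ≠ 0 := by
  classical
  set R := (Finset.univ.erase i1).erase i2 with hR
  have hi3 : i3 ∈ R := Finset.mem_erase.2 ⟨h23.symm, Finset.mem_erase.2 ⟨h13.symm, Finset.mem_univ _⟩⟩
  -- choice of the other coordinates
  obtain ⟨d0, hd0⟩ : ∃ d0 : ι → Fˣ, ∑ l ∈ R, c l * (d0 l : F) ≠ 0 := by
    by_cases hC : ∑ l ∈ R, c l = 0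
    · obtain ⟨t, ht⟩ : ∃ t : F, t ∉ ({0, 1} : Finset F) := by
        by_contra h
        push Not at h
        have h4 : (Finset.univ : Finset F) ⊆ {0, 1} := fun x _ => h x
        have h5 := Finset.card_le_card h4
        have h6 : ({0, 1} : Finset F).card ≤ 2 := Finset.card_le_two
        rw [Finset.card_univ] at h5
        omega
      simp only [Finset.mem_insert, Finset.mem_singleton, not_or] at ht
      refine ⟨Function.update (fun _ => 1) i3 (Units.mk0 t ht.1), ?_⟩
      have h4 : ∑ l ∈ R, c l * ((Function.update (fun _ => (1 : Fˣ)) i3 (Units.mk0 t ht.1) l : Fˣ) : F)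
          = ∑ l ∈ R, c l + c i3 * (t - 1) := by
        rw [← sub_eq_iff_eq_add', ← Finset.sum_sub_distrib]
        rw [Finset.sum_eq_single i3]
        · simp
          ring
        · intro l _ hl
          simp [Function.update_of_ne hl]
        · intro h
          exact absurd hi3 h
      rw [h4, hC, zero_add]
      exact mul_ne_zero h3 (sub_ne_zero.2 ht.2)
    · exact ⟨fun _ => 1, by simpa using hC⟩
  obtain ⟨x, y, hA, hB⟩ := fieldL_core hq (c i1) (c i2) (∑ l ∈ R, c l * (d0 l : F))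
    (∑ l ∈ R, c l * (((d0 l)⁻¹ : Fˣ) : F)) h1 h2 hd0
  let d : ι → Fˣ := Function.update (Function.update d0 i1 x) i2 y
  have hd1 : d i1 = x := by
    simp only [d]
    rw [Function.update_of_ne h12, Function.update_self]
  have hd2 : d i2 = y := by
    simp only [d]
    rw [Function.update_self]
  have hdl : ∀ l ∈ R, d l = d0 l := by
    intro l hl
    rw [hR, Finset.mem_erase, Finset.mem_erase] at hl
    simp only [d]
    rw [Function.update_of_ne hl.1, Function.update_of_ne hl.2.1]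
  refine ⟨d, ?_, ?_⟩
  · rw [fieldL_sum _ i1 i2 h12, hd1, hd2, ← hR,
      Finset.sum_congr rfl (fun l hl => by rw [hdl l hl])]
    exact hA
  · rw [fieldL_sum _ i1 i2 h12, hd1, hd2, ← hR,
      Finset.sum_congr rfl (fun l hl => by rw [hdl l hl])]
    exact hB

/-- pure field lemma, two non-zero coefficients -/
theorem fieldL2 (c : ι → F) (hc : ∑ i, c i = 1) (i1 i2 : ι) (h12 : i1 ≠ i2)
    (h1 : c i1 ≠ 0) (h2 : c i2 ≠ 0) (h0 : ∀ i, i ≠ i1 → i ≠ i2 → c i = 0) (hne : c i1 ≠ c i2) :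
    ∃ d : ι → Fˣ, ∑ i, c i * (d i : F) = 0 ∧ ∑ i, c i * (((d i)⁻¹ : Fˣ) : F) ≠ 0 := by
  classical
  have hrest : ∀ f : ι → F, ∑ l ∈ (Finset.univ.erase i1).erase i2, c l * f l = 0 := by
    intro f
    apply Finset.sum_eq_zero
    intro l hl
    rw [Finset.mem_erase, Finset.mem_erase] at hl
    rw [h0 l hl.2.1 hl.1, zero_mul]
  have hsum : c i1 + c i2 = 1 := by
    have h3 := fieldL_sum c i1 i2 h12
    have h4 := hrest (fun _ => 1)
    simp only [mul_one] at h4
    rw [h4, add_zero, hc] at h3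
    exact h3.symm
  let d : ι → Fˣ := Function.update (Function.update (fun _ => 1) i1 (Units.mk0 (-c i2) (neg_ne_zero.2 h2)))
    i2 (Units.mk0 (c i1) h1)
  have hd1 : d i1 = Units.mk0 (-c i2) (neg_ne_zero.2 h2) := by
    simp only [d]
    rw [Function.update_of_ne h12, Function.update_self]
  have hd2 : d i2 = Units.mk0 (c i1) h1 := by
    simp only [d]
    rw [Function.update_self]
  refine ⟨d, ?_, ?_⟩
  · rw [fieldL_sum _ i1 i2 h12, hd1, hd2, hrest (fun l => (d l : F))]
    simp only [Units.val_mk0]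
    ring
  · rw [fieldL_sum _ i1 i2 h12, hd1, hd2, hrest (fun l => (((d l)⁻¹ : Fˣ) : F))]
    simp only [Units.val_inv_eq_inv_val, Units.val_mk0, add_zero]
    intro h
    have h5 : (c i1 * (-c i2)⁻¹ + c i2 * (c i1)⁻¹) * (c i1 * c i2) = (c i2 - c i1) * (c i1 + c i2) := by
      field_simp
      ring
    rw [h, zero_mul, hsum, mul_one] at h5
    exact hne (sub_eq_zero.1 h5.symm).symm

end Cfsg.Agent.Lib.H65DecFieldL
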