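import Cfsg.Agent.Lib.H65DecMonApi

/-! # Project 66 (S5634), piece `RootEl` -/

set_option autoImplicit false
set_option linter.unusedSectionVars false
set_option linter.unusedVariables false

namespace Cfsg.Agent.Lib.H65DecRootEl

open Matrix Module Cfsg.Geo Cfsg.Agent.Lib.Helper95Basic Cfsg.Agent.Lib.H65DecDefs
  Cfsg.Agent.Lib.H65DecCalc Cfsg.Agent.Lib.H65DecMonA Cfsg.Agent.Lib.H65DecMonApi

variable {ι : Type} [Fintype ι] [DecidableEq ι] {F : Type*} [Field F] [Fintype F]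

/-- a unit different from 1 -/
lemma exists_unit_ne_one (hq : 3 ≤ Fintype.card F) : ∃ a : Fˣ, (a : F) ≠ 1 := by
  classical
  obtain ⟨x, -, hx⟩ := Finset.exists_mem_notMem_of_card_lt_card (s := ({0, 1} : Finset F))
    (t := Finset.univ) (lt_of_le_of_lt Finset.card_le_two (by rw [Finset.card_univ]; omega))
  simp only [Finset.mem_insert, Finset.mem_singleton, not_or] at hx
  exact ⟨Units.mk0 x hx.1, hx.2⟩

lemma inv_sub_one_ne_zero {a : Fˣ} (ha : (a : F) ≠ 1) : (((a⁻¹ : Fˣ) : F) - 1) ≠ 0 := by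
  intro h
  apply ha
  have h1 : ((a⁻¹ : Fˣ) : F) = 1 := by linear_combination h
  have h2 : (a : F) * ((a⁻¹ : Fˣ) : F) = 1 := by simp
  rw [h1, mul_one] at h2
  exact h2

/-- second half: centre `e i` -/
theorem root_el_center (hq : 3 ≤ Fintype.card F) (K : Subgroup (GL ι F)) (hM : Mon ι F ≤ K)
    {i : ι} {φ : Dual F (ι → F)} (h : Root K (e i) φ) (hφ : φ ≠ 0) : HasEl K := by
  obtain ⟨a, ha⟩ := exists_unit_ne_one hq
  have hj : ∃ j, φ (e j) ≠ 0 := by
    by_contra hcon
    push Not at hcon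
    exact hφ (dual_ext fun i => by rw [hcon i]; simp)
  obtain ⟨j, hj⟩ := hj
  have hij : i ≠ j := by
    rintro rfl
    exact hj h.1
  refine ⟨i, j, hij, ?_⟩
  have h1 := root_conj (hM (d1_mem j a)) h
  rw [d1_mulVec, pull_d1] at h1
  have h2 : (e i : ι → F) j = 0 := by simp [hij.symm]
  rw [h2, mul_zero, zero_smul, add_zero] at h1
  have h3 := root_sub_right h1 h
  rw [add_sub_cancel_left] at h3
  exact root_of_smul_right (mul_ne_zero (inv_sub_one_ne_zero ha) hj) h3

/-- a root subgroup + the full monomial group give an elementary root subgroup -/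
theorem root_el (hq : 3 ≤ Fintype.card F) (K : Subgroup (GL ι F)) (hM : Mon ι F ≤ K)
    {u : ι → F} {φ : Dual F (ι → F)} (h : Root K u φ) (hu : u ≠ 0) (hφ : φ ≠ 0) : HasEl K := by
  obtain ⟨a, ha⟩ := exists_unit_ne_one hq
  have ha1 : (a : F) - 1 ≠ 0 := sub_ne_zero.2 ha
  have hi : ∃ i, u i ≠ 0 := by
    by_contra hcon
    push Not at hcon
    exact hu (funext hcon)
  obtain ⟨i, hi⟩ := hi
  have h1 := root_conj (hM (d1_mem i a)) h
  rw [d1_mulVec] at h1
  by_cases hc : φ (e i) = 0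
  · rw [pull_d1, hc, mul_zero, zero_smul, add_zero] at h1
    have h3 := root_sub_left h1 h
    rw [add_sub_cancel_left] at h3
    exact root_el_center hq K hM (root_of_smul_left (mul_ne_zero ha1 hi) h3) hφ
  · set ψ := pull φ (d1 i a) with hψ
    have hβ : ψ u = (((a⁻¹ : Fˣ) : F) - 1) * φ (e i) * u i := by
      rw [hψ, pull_d1, LinearMap.add_apply, h.1, LinearMap.smul_apply, co_apply, zero_add, smul_eq_mul]
    have hβ0 : ψ u ≠ 0 := by
      rw [hβ]
      exact mul_ne_zero (mul_ne_zero (inv_sub_one_ne_zero ha) hc) hi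
    obtain ⟨τ, hτ, hτ'⟩ := h1.2 (-(ψ u)⁻¹)
    have h4 := root_conj hτ h
    have h5 : (τ : Matrix ι ι F) *ᵥ u = (-(((a : F) - 1) * u i)) • e i := by
      rw [hτ', smul_smul, mul_neg, mul_inv_cancel₀ hβ0, neg_smul, one_smul, neg_smul]
      abel
    rw [h5] at h4
    exact root_el_center hq K hM
      (root_of_smul_left (neg_ne_zero.2 (mul_ne_zero ha1 hi)) h4) (pull_ne_zero hφ τ)

end Cfsg.Agent.Lib.H65DecRootEl
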