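import Cfsg.Agent.Lib.H65DecHmgCases
import Cfsg.Agent.Lib.H65DecRootEl
import Cfsg.Agent.Lib.H65DecElTop

/-! # Project 66 (S5634), piece `GL` -/

set_option autoImplicit false
set_option linter.unusedSectionVars false
set_option linter.unusedVariables false

namespace Cfsg.Agent.Lib.H65DecGL

open Matrix Module Cfsg.Geo Cfsg.Agent.Lib.Helper95Basic Cfsg.Agent.Lib.H65DecDefs
  Cfsg.Agent.Lib.H65DecCalc Cfsg.Agent.Lib.H65DecMonA Cfsg.Agent.Lib.H65DecMonApi

variable {ι : Type} [Fintype ι] [DecidableEq ι] {F : Type*} [Field F] [Fintype F]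

open Cfsg.Agent.Lib.H65DecHmgCases Cfsg.Agent.Lib.H65DecRootEl Cfsg.Agent.Lib.H65DecElTop

/-- **GL-theorem**: an overgroup of the full monomial group is monomial or contains `SL` -/
theorem gl_main (hq : 5 ≤ Fintype.card F) (h3 : 3 ≤ Fintype.card ι) (K : Subgroup (GL ι F))
    (hM : Mon ι F ≤ K) (hne : ¬ K ≤ Mon ι F) : specialLinear ι F ≤ K := by
  obtain ⟨g, hgK, hg⟩ := SetLike.not_le_iff_exists.1 hne
  obtain ⟨k, i, i', hii, h1, h2⟩ := exists_col_of_not_mem hg
  have hh : Hmg K ((g : Matrix ι ι F) *ᵥ e k) (pull (co k) g) := hmg_conj hgK (hmg_std hM k)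
  obtain ⟨u, φ, hR, hu, hφ⟩ := hmg_cases hq h3 K hM hh i i' hii
    (by rw [mulVec_e]; exact h1) (by rw [mulVec_e]; exact h2)
  exact el_top h3 K (inf_le_left.trans hM) (root_el (by omega) K hM hR hu hφ)

end Cfsg.Agent.Lib.H65DecGL
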