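import Cfsg.Agent.Lib.H65DecHmgRoot
import Cfsg.Agent.Lib.H65DecFieldL

/-! # Project 66 (S5634), piece `HmgCases` -/

set_option autoImplicit false
set_option linter.unusedSectionVars false
set_option linter.unusedVariables false

namespace Cfsg.Agent.Lib.H65DecHmgCases

open Matrix Module Cfsg.Geo Cfsg.Agent.Lib.Helper95Basic Cfsg.Agent.Lib.H65DecDefs
  Cfsg.Agent.Lib.H65DecCalc Cfsg.Agent.Lib.H65DecMonA Cfsg.Agent.Lib.H65DecMonApi

variable {ι : Type} [Fintype ι] [DecidableEq ι] {F : Type*} [Field F] [Fintype F]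

open Cfsg.Agent.Lib.H65DecHmgRoot Cfsg.Agent.Lib.H65DecFieldL

private lemma exists_avoid {α : Type*} [Fintype α] (s : Finset α) (h : s.card < Fintype.card α) :
    ∃ i, i ∉ s := by
  by_contra hcon
  have hcon' : ∀ i, i ∈ s := by
    intro i
    by_contra hi
    exact hcon ⟨i, hi⟩
  have : s = Finset.univ := Finset.eq_univ_iff_forall.mpr hcon'
  rw [this, Finset.card_univ] at h
  exact lt_irrefl _ h

private lemma u_ne {K : Subgroup (GL ι F)} {u : ι → F} {v : Dual F (ι → F)} (h : Hmg K u v) :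
    u ≠ 0 := by
  rintro rfl
  have := h.1
  rw [map_zero] at this
  exact zero_ne_one this

private lemma v_ne {K : Subgroup (GL ι F)} {u : ι → F} {v : Dual F (ι → F)} (h : Hmg K u v) :
    v ≠ 0 := by
  rintro rfl
  have := h.1
  rw [LinearMap.zero_apply] at this
  exact zero_ne_one this

private lemma e_ne (j : ι) : (e j : ι → F) ≠ 0 := by
  intro h
  have := congrFun h j
  simp at this

private lemma co_ne (j : ι) : (co j : Dual F (ι → F)) ≠ 0 := by
  intro h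
  have := LinearMap.congr_fun h (e j)
  simp at this

private lemma of_a (hq : 5 ≤ Fintype.card F) (K : Subgroup (GL ι F))
    (hM : Mon ι F ≤ K) {u : ι → F} {v : Dual F (ι → F)} (h : Hmg K u v) (j : ι)
    (h1 : v (e j) = 0) (h2 : u j ≠ 0) :
    ∃ (u' : ι → F) (φ' : Dual F (ι → F)), Root K u' φ' ∧ u' ≠ 0 ∧ φ' ≠ 0 :=
  ⟨e j, v, hmg_root (by omega) h (hmg_std hM j) h1 (by simpa using h2), e_ne j, v_ne h⟩

private lemma of_b (hq : 5 ≤ Fintype.card F) (K : Subgroup (GL ι F))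
    (hM : Mon ι F ≤ K) {u : ι → F} {v : Dual F (ι → F)} (h : Hmg K u v) (j : ι)
    (h1 : u j = 0) (h2 : v (e j) ≠ 0) :
    ∃ (u' : ι → F) (φ' : Dual F (ι → F)), Root K u' φ' ∧ u' ≠ 0 ∧ φ' ≠ 0 :=
  ⟨u, co j, hmg_root (by omega) (hmg_std hM j) h (by simpa using h1) h2, u_ne h, co_ne j⟩

private lemma of_d (hq : 5 ≤ Fintype.card F) (K : Subgroup (GL ι F))
    (hM : Mon ι F ≤ K) {u : ι → F} {v : Dual F (ι → F)} (h : Hmg K u v) (d : ι → Fˣ)
    (h1 : ∑ i, (v (e i) * u i) * (d i : F) = 0)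
    (h2 : ∑ i, (v (e i) * u i) * (((d i)⁻¹ : Fˣ) : F) ≠ 0) :
    ∃ (u' : ι → F) (φ' : Dual F (ι → F)), Root K u' φ' ∧ u' ≠ 0 ∧ φ' ≠ 0 := by
  have hd : dg d ∈ K := hM (dg_mem d)
  have h' := hmg_conj hd h
  refine ⟨_, v, hmg_root (by omega) h h' ?_ ?_, mulVec_ne_zero (u_ne h) _, v_ne h⟩
  · rw [dual_eq_sum, ← h1]
    refine Finset.sum_congr rfl fun i _ => ?_
    rw [dg_apply]
    ring
  · rw [pull_apply, dual_eq_sum]
    intro h0
    apply h2
    rw [← h0]
    refine Finset.sum_congr rfl fun i _ => ?_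
    rw [dg_inv_apply]
    ring

private lemma three (hq : 5 ≤ Fintype.card F) (K : Subgroup (GL ι F))
    (hM : Mon ι F ≤ K) {u : ι → F} {v : Dual F (ι → F)} (h : Hmg K u v) (i1 i2 i3 : ι)
    (h12 : i1 ≠ i2) (h13 : i1 ≠ i3) (h23 : i2 ≠ i3) (h1 : u i1 ≠ 0) (h2 : u i2 ≠ 0)
    (h3 : u i3 ≠ 0) :
    ∃ (u' : ι → F) (φ' : Dual F (ι → F)), Root K u' φ' ∧ u' ≠ 0 ∧ φ' ≠ 0 := by
  by_cases ha : ∃ j, v (e j) = 0 ∧ u j ≠ 0
  · obtain ⟨j, hj1, hj2⟩ := ha
    exact of_a hq K hM h j hj1 hj2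
  have ha' : ∀ j, u j ≠ 0 → v (e j) ≠ 0 := fun j hj h0 => ha ⟨j, h0, hj⟩
  have hc : ∑ i, v (e i) * u i = 1 := by rw [← dual_eq_sum, h.1]
  obtain ⟨d, hd1, hd2⟩ := fieldL hq (fun i => v (e i) * u i) hc i1 i2 i3 h12 h13 h23
    (mul_ne_zero (ha' _ h1) h1) (mul_ne_zero (ha' _ h2) h2) (mul_ne_zero (ha' _ h3) h3)
  exact of_d hq K hM h d hd1 hd2

/-- a group of homologies whose centre is not a coordinate vector gives a root subgroup -/
theorem hmg_cases (hq : 5 ≤ Fintype.card F) (h3 : 3 ≤ Fintype.card ι) (K : Subgroup (GL ι F))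
    (hM : Mon ι F ≤ K) {u : ι → F} {v : Dual F (ι → F)} (h : Hmg K u v) (i i' : ι) (hii : i ≠ i')
    (hi : u i ≠ 0) (hi' : u i' ≠ 0) :
    ∃ (u' : ι → F) (φ' : Dual F (ι → F)), Root K u' φ' ∧ u' ≠ 0 ∧ φ' ≠ 0 := by
  classical
  by_cases h3rd : ∃ k, k ≠ i ∧ k ≠ i' ∧ u k ≠ 0
  · obtain ⟨k, hk1, hk2, hk3⟩ := h3rd
    exact three hq K hM h i i' k hii (Ne.symm hk1) (Ne.symm hk2) hi hi' hk3
  have hu0 : ∀ k, k ≠ i → k ≠ i' → u k = 0 := by
    intro k hk1 hk2
    by_contra hk3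
    exact h3rd ⟨k, hk1, hk2, hk3⟩
  by_cases ha : ∃ j, v (e j) = 0 ∧ u j ≠ 0
  · obtain ⟨j, hj1, hj2⟩ := ha
    exact of_a hq K hM h j hj1 hj2
  have ha' : ∀ j, u j ≠ 0 → v (e j) ≠ 0 := fun j hj h0 => ha ⟨j, h0, hj⟩
  by_cases hb : ∃ j, u j = 0 ∧ v (e j) ≠ 0
  · obtain ⟨j, hj1, hj2⟩ := hb
    exact of_b hq K hM h j hj1 hj2
  have hb' : ∀ j, u j = 0 → v (e j) = 0 := by
    intro j hj
    by_contra h0
    exact hb ⟨j, hj, h0⟩
  have hc : ∑ k, v (e k) * u k = 1 := by rw [← dual_eq_sum, h.1]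
  by_cases hne : v (e i) * u i = v (e i') * u i'
  · -- the hard case
    have hc2 : v (e i) * u i + v (e i') * u i' = 1 := by
      rw [← hc]
      symm
      refine Fintype.sum_eq_add i i' hii ?_
      rintro x ⟨hx1, hx2⟩
      rw [hu0 x hx1 hx2, mul_zero]
    set c := v (e i') * u i' with hcdef
    rw [hne] at hc2
    have hc0 : c ≠ 0 := by
      intro h0
      rw [h0, add_zero] at hc2
      exact zero_ne_one hc2
    obtain ⟨l, hl⟩ := exists_avoid ({i, i'} : Finset ι)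
      (lt_of_le_of_lt Finset.card_le_two (by omega))
    simp only [Finset.mem_insert, Finset.mem_singleton, not_or] at hl
    obtain ⟨hl1, hl2⟩ := hl
    obtain ⟨a, ha0⟩ := exists_avoid ({0, 1, -1} : Finset F)
      (lt_of_le_of_lt Finset.card_le_three (by omega))
    simp only [Finset.mem_insert, Finset.mem_singleton, not_or] at ha0
    obtain ⟨ha1, ha2, ha3⟩ := ha0
    have hm : mon (Equiv.swap i l) (1 : ι → Fˣ) ∈ K := hM (mon_mem _ _)
    have h' := hmg_conj hm h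
    set u' := ((mon (Equiv.swap i l) (1 : ι → Fˣ) : GL ι F) : Matrix ι ι F) *ᵥ u with hu'
    have hu'k : ∀ k, u' k = u (Equiv.swap i l k) := by
      intro k
      rw [hu', mon_apply]
      simp
    have hvu' : v u' = c := by
      rw [dual_eq_sum]
      rw [Fintype.sum_eq_single i']
      · rw [hu'k, Equiv.swap_apply_of_ne_of_ne (Ne.symm hii) (Ne.symm hl2)]
      · intro x hx
        by_cases hx1 : x = i
        · rw [hx1, hu'k, Equiv.swap_apply_left, hu0 l hl1 hl2, mul_zero]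
        · by_cases hx2 : x = l
          · rw [hx2, hb' l (hu0 l hl1 hl2), zero_mul]
          · rw [hu'k, Equiv.swap_apply_of_ne_of_ne hx1 hx2, hu0 x hx1 hx, mul_zero]
    obtain ⟨g, hg, hgx⟩ := h.2 a ha1
    have h'' := hmg_conj hg h'
    have hgu : (g : Matrix ι ι F) *ᵥ u' = u' + c • ((a - 1) • u) := by rw [hgx, hvu']
    refine three hq K hM h'' i i' l hii (Ne.symm hl1) (Ne.symm hl2) ?_ ?_ ?_
    · rw [hgu]
      simp only [Pi.add_apply, Pi.smul_apply, smul_eq_mul]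
      rw [hu'k, Equiv.swap_apply_left, hu0 l hl1 hl2, zero_add]
      exact mul_ne_zero hc0 (mul_ne_zero (sub_ne_zero.mpr ha2) hi)
    · rw [hgu]
      simp only [Pi.add_apply, Pi.smul_apply, smul_eq_mul]
      rw [hu'k, Equiv.swap_apply_of_ne_of_ne (Ne.symm hii) (Ne.symm hl2)]
      have : u i' + c * ((a - 1) * u i') = (1 + c * (a - 1)) * u i' := by ring
      rw [this]
      refine mul_ne_zero ?_ hi'
      intro h0
      apply ha3
      have h2 : (c + c) * (1 + c * (a - 1)) = 0 := by rw [h0, mul_zero]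
      have h4 : (c + c) * (1 + c * (a - 1)) = (c + c) + c * ((c + c) * (a - 1)) := by ring
      rw [h4, hc2, one_mul] at h2
      have h5 : (c + c) * (1 + c * (a - 1)) = (c + c) + (c + c) * c * (a - 1) := by ring
      have h6 : (1 : F) + c * (a - 1) + (1 + c * (a - 1)) = 0 := by rw [h0, add_zero]
      have h7 : (1 : F) + c * (a - 1) + (1 + c * (a - 1)) = 1 + 1 + (c + c) * (a - 1) := by ring
      rw [h7, hc2] at h6
      linear_combination h6
    · rw [hgu]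
      simp only [Pi.add_apply, Pi.smul_apply, smul_eq_mul]
      rw [hu'k, Equiv.swap_apply_right, hu0 l hl1 hl2, mul_zero, mul_zero, add_zero]
      exact hi
  · obtain ⟨d, hd1, hd2⟩ := fieldL2 (fun k => v (e k) * u k) hc i i' hii
      (mul_ne_zero (ha' _ hi) hi) (mul_ne_zero (ha' _ hi') hi')
      (fun k hk1 hk2 => by simp only [hu0 k hk1 hk2, mul_zero]) hne
    exact of_d hq K hM h d hd1 hd2

end Cfsg.Agent.Lib.H65DecHmgCases
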