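import Cfsg.Agent.Lib.H65DecMonApi

/-! # Project 66 (S5634), piece `HmgRoot` -/

set_option autoImplicit false
set_option linter.unusedSectionVars false
set_option linter.unusedVariables false

namespace Cfsg.Agent.Lib.H65DecHmgRoot

open Matrix Module Cfsg.Geo Cfsg.Agent.Lib.Helper95Basic Cfsg.Agent.Lib.H65DecDefs
  Cfsg.Agent.Lib.H65DecCalc

variable {ι : Type} [Fintype ι] [DecidableEq ι] {F : Type*} [Field F] [Fintype F]

/-- an element outside a small finite set -/
lemma exists_notMem [DecidableEq F] (s : Finset F) (hs : s.card < Fintype.card F) : ∃ x, x ∉ s := by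
  obtain ⟨x, -, hx⟩ := Finset.exists_mem_notMem_of_card_lt_card (s := s) (t := Finset.univ)
    (by simpa using hs)
  exact ⟨x, hx⟩

/-- two groups of homologies in special position give a root subgroup -/
theorem hmg_root (hq : 4 ≤ Fintype.card F) {K : Subgroup (GL ι F)} {u u' : ι → F}
    {v v' : Dual F (ι → F)} (h : Hmg K u v) (h' : Hmg K u' v') (h1 : v u' = 0) (h2 : v' u ≠ 0) :
    Root K u' v := by
  classical
  refine ⟨h1, fun z => ?_⟩
  by_cases hz : z = 0
  · rw [hz, zero_smul]; exact has_zero_left v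
  set γ := v' u with hγ
  obtain ⟨α, hα⟩ := exists_notMem ({0, 1, -(z / γ)} : Finset F)
    (lt_of_le_of_lt (Finset.card_le_three) (by omega))
  simp only [Finset.mem_insert, Finset.mem_singleton, not_or] at hα
  obtain ⟨hα0, hα1, hα2⟩ := hα
  have hd1 : 1 - α ≠ 0 := fun hh => hα1 (by linear_combination -hh)
  have hd2 : α + z / γ ≠ 0 := fun hh => hα2 (by linear_combination hh)
  set b : F := 1 / (1 - α) with hb
  set a : F := α / (α + z / γ) with ha
  have hb0 : b ≠ 0 := by rw [hb]; exact one_div_ne_zero hd1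
  have ha0 : a ≠ 0 := by rw [ha]; exact div_ne_zero hα0 hd2
  have hd3 : α * γ + z ≠ 0 := by
    intro hh
    apply hd2
    field_simp
    rw [hh, mul_zero]
  have ha' : a = α * γ / (α * γ + z) := by
    rw [ha]
    field_simp
  have hrel : z * a * b = (b - 1) * (1 - a) * γ := by
    rw [hb, ha']
    field_simp
    ring
  obtain ⟨ka, hka, hka'⟩ := h.2 a ha0
  obtain ⟨kb, hkb, hkb'⟩ := h'.2 b hb0
  refine ⟨kb⁻¹ * (ka * kb * ka⁻¹), K.mul_mem (K.inv_mem hkb)
    (K.mul_mem (K.mul_mem hka hkb) (K.inv_mem hka)), fun x => ?_⟩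
  set x' := ((ka⁻¹ : GL ι F) : Matrix ι ι F) *ᵥ x with hx'
  have e1 : (ka : Matrix ι ι F) *ᵥ x' = x := mulVec_inv_mulVec ka x
  have e2 : x' + v x' • (a - 1) • u = x := by rw [← hka']; exact e1
  set s := v x' with hs
  have e3 : v x = a * s := by
    rw [← e2, map_add, map_smul, map_smul, h.1, ← hs]
    simp only [smul_eq_mul]
    ring
  have e4 : v' x = v' x' + s * (a - 1) * γ := by
    rw [← e2, map_add, map_smul, map_smul, ← hγ]
    simp only [smul_eq_mul]
    ring
  have e5 : (ka : Matrix ι ι F) *ᵥ u' = u' := by rw [hka', h1, zero_smul, add_zero]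
  have key : (kb : Matrix ι ι F) *ᵥ (x + v x • z • u')
      = ((ka * kb * ka⁻¹ : GL ι F) : Matrix ι ι F) *ᵥ x := by
    have e6 : (ka : Matrix ι ι F) *ᵥ (x' + v' x' • (b - 1) • u') = x + v' x' • (b - 1) • u' := by
      rw [Matrix.mulVec_add, e1, Matrix.mulVec_smul, Matrix.mulVec_smul, e5]
    rw [mul_mulVec, mul_mulVec, ← hx', hkb' x', e6, hkb', map_add, map_smul, map_smul, h'.1, e3, e4]
    simp only [smul_eq_mul, smul_smul, mul_one]
    rw [add_assoc, ← add_smul]
    congr 2
    linear_combination s * hrel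
  rw [mul_mulVec, ← key, inv_mulVec_mulVec]

end Cfsg.Agent.Lib.H65DecHmgRoot
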