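import Cfsg.Agent.Lib.H65DecBlock0

/-! # Project 66 (S5634), piece `Mix` -/

set_option autoImplicit false
set_option linter.unusedSectionVars false
set_option linter.unusedVariables false

namespace Cfsg.Agent.Lib.H65DecMix

open Matrix Module Cfsg.Geo Cfsg.Agent.Lib.Helper95Basic Cfsg.Agent.Lib.H65DecDefs
  Cfsg.Agent.Lib.H65DecCalc

variable {ι : Type} [Fintype ι] [DecidableEq ι] {F : Type*} [Field F]
variable {t m : ℕ} {D : Fin t → Submodule F (ι → F)}

open Cfsg.Agent.Lib.H65DecProj Cfsg.Agent.Lib.H65DecBlock0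

/-- a root subgroup with centre in `D i` whose axis does not contain `D j` fills the block `(i,j)` -/
theorem mixI (hD : IsMDecomposition m D) (hm : 2 ≤ m) (H : Subgroup (GL ι F))
    (hM : decompositionStabilizer D ⊓ specialLinear ι F ≤ H) {i j : Fin t} (hij : j ≠ i)
    {x y : ι → F} {ψ : Dual F (ι → F)} (hx : x ∈ D i) (hx0 : x ≠ 0) (hR : Root H x ψ)
    (hy : y ∈ D j) (hψy : ψ y ≠ 0) : Full H D i j := by
  -- good functionals
  have good : ∀ φ1 : Dual F (ι → F), Pure D j φ1 → ∀ y1 ∈ D j, φ1 y1 = 0 → ψ y1 ≠ 0 →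
      Root H x φ1 := by
    intro φ1 h1 y1 hy1 h0 hne
    have hb := root_block hD H hM hy1 h1 h0
    have := root_comm hR hb (h1 i hij.symm x hx)
    exact root_of_smul_left hne this
  -- a second vector
  obtain ⟨y2, hy2, hy2s⟩ := exists_not_mem_span hD hm j y
  obtain ⟨y3, hy3, hy3s, hψ3⟩ : ∃ y3 ∈ D j, y3 ∉ Submodule.span F {y} ∧ ψ y3 ≠ 0 := by
    by_cases h : ψ y2 = 0
    · refine ⟨y + y2, (D j).add_mem hy hy2, ?_, by rw [map_add, h, add_zero]; exact hψy⟩
      intro hmem
      apply hy2s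
      have := (Submodule.span F {y}).sub_mem hmem (Submodule.mem_span_singleton_self y)
      simpa using this
    · exact ⟨y2, hy2, hy2s, h⟩
  obtain ⟨α, hα, hαy, hα3⟩ := exists_pure_sep hD hy hy3 hy3s
  have all1 : ∀ φ1 : Dual F (ι → F), Pure D j φ1 → Root H x φ1 := by
    intro φ1 h1
    have hA : Root H x (φ1 + (-(φ1 y3)) • α) := by
      refine good _ (pure_add h1 (pure_smul _ hα)) y3 hy3 ?_ hψ3
      simp [hα3]
    have hB : Root H x ((φ1 y3) • α) := by
      refine good _ (pure_smul _ hα) y hy ?_ hψy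
      simp [hαy]
    have := root_add_right hA hB
    have e : φ1 + (-(φ1 y3)) • α + (φ1 y3) • α = φ1 := by
      rw [add_assoc, ← add_smul, neg_add_cancel, zero_smul, add_zero]
    rwa [e] at this
  intro x1 hx1 φ hφ
  by_cases hs : x ∈ Submodule.span F {x1}
  · obtain ⟨c, hc⟩ := Submodule.mem_span_singleton.1 hs
    have hc0 : c ≠ 0 := by
      rintro rfl
      rw [zero_smul] at hc
      exact hx0 hc.symm
    have := all1 φ hφ
    rw [← hc] at this
    exact root_of_smul_left hc0 this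
  · obtain ⟨φ1, h1, h10, h11⟩ := exists_pure_sep hD hx1 hx hs
    have hb := root_block hD H hM hx1 h1 h10
    have := root_comm hb (all1 φ hφ) (hφ i hij.symm x1 hx1)
    rw [h11, one_smul] at this
    exact this

/-- a root subgroup with pure axis whose centre is not in the block fills some block -/
theorem mixII (hD : IsMDecomposition m D) (hm : 2 ≤ m) (H : Subgroup (GL ι F))
    (hM : decompositionStabilizer D ⊓ specialLinear ι F ≤ H) {i : Fin t}
    {w : ι → F} {φ : Dual F (ι → F)} (hφ : Pure D i φ) (hφ0 : φ ≠ 0) (hR : Root H w φ)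
    (hw : w ∉ D i) : ∃ j, j ≠ i ∧ Full H D j i := by
  obtain ⟨j, hji, haj⟩ : ∃ j, j ≠ i ∧ prj hD j w ≠ 0 := by
    by_contra hcon
    push Not at hcon
    apply hw
    have h1 := sum_prj hD w
    rw [Finset.sum_eq_single i (fun b _ hb => hcon b hb) (fun h => absurd (Finset.mem_univ i) h)] at h1
    rw [← h1]
    exact prj_mem hD i w
  refine ⟨j, hji, ?_⟩
  obtain ⟨y2, hy2, hy2s⟩ := exists_not_mem_span hD hm j (prj hD j w)
  have hy20 : y2 ≠ 0 := by
    rintro rfl
    exact hy2s (Submodule.zero_mem _)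
  have hs : prj hD j w ∉ Submodule.span F {y2} := by
    intro hmem
    obtain ⟨c, hc⟩ := Submodule.mem_span_singleton.1 hmem
    have hc0 : c ≠ 0 := by
      rintro rfl
      rw [zero_smul] at hc
      exact haj hc.symm
    apply hy2s
    rw [Submodule.mem_span_singleton]
    refine ⟨c⁻¹, ?_⟩
    rw [← hc, smul_smul, inv_mul_cancel₀ hc0, one_smul]
  obtain ⟨φ1, h1, h10, h11⟩ := exists_pure_sep hD hy2 (prj_mem hD j w) hs
  have hb := root_block hD H hM hy2 h1 h10
  have h2 := root_comm hb hR (hφ j hji y2 hy2)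
  rw [pure_apply hD h1 w, h11, one_smul] at h2
  obtain ⟨x, hx, hx1⟩ := exists_mem_eq_one hD hφ hφ0
  exact mixI hD hm H hM hji.symm hy2 hy20 h2 hx (by rw [hx1]; exact one_ne_zero)

end Cfsg.Agent.Lib.H65DecMix
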