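import Cfsg.Agent.Lib.H65DecCalc

/-! # Project 66, piece `MonA`: monomial matrices -/

set_option autoImplicit false
set_option linter.unusedSectionVars false
set_option linter.unusedVariables false

namespace Cfsg.Agent.Lib.H65DecMonA

open Matrix Module Cfsg.Geo Cfsg.Agent.Lib.Helper95Basic Cfsg.Agent.Lib.H65DecDefs

variable {ι : Type} [Fintype ι] [DecidableEq ι] {F : Type*} [Field F]

/-- the monomial matrix `e j ↦ d j • e (σ j)` -/
noncomputable def mon (σ : Equiv.Perm ι) (d : ι → Fˣ) : GL ι F :=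
  mkGL ((LinearEquiv.piCongrRight (fun i => LinearEquiv.smulOfUnit (d i))).trans
    (LinearEquiv.funCongrLeft F F σ.symm))

lemma mon_apply (σ : Equiv.Perm ι) (d : ι → Fˣ) (x : ι → F) (i : ι) :
    ((mon σ d : GL ι F) : Matrix ι ι F).mulVec x i = (d (σ.symm i) : F) * x (σ.symm i) := by
  unfold mon
  rw [mkGL_mulVec]
  simp only [LinearEquiv.trans_apply, LinearEquiv.funCongrLeft_apply, LinearMap.funLeft_apply,
    LinearEquiv.piCongrRight_apply]
  rfl

lemma mon_e (σ : Equiv.Perm ι) (d : ι → Fˣ) (j : ι) :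
    ((mon σ d : GL ι F) : Matrix ι ι F) *ᵥ e j = (d j : F) • e (σ j) := by
  funext i
  rw [mon_apply]
  by_cases h : i = σ j
  · subst h
    simp
  · have h' : σ.symm i ≠ j := fun hh => h (by rw [← hh]; simp)
    simp [h, h']

lemma mon_mem (σ : Equiv.Perm ι) (d : ι → Fˣ) : mon σ d ∈ Mon ι F :=
  ⟨σ, fun j => ⟨d j, mon_e σ d j⟩⟩

lemma mon_entry (σ : Equiv.Perm ι) (d : ι → Fˣ) (i j : ι) :
    ((mon σ d : GL ι F) : Matrix ι ι F) i j = if i = σ j then (d j : F) else 0 := by
  rw [← mulVec_e, mon_e]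
  simp

lemma det_mon (σ : Equiv.Perm ι) (d : ι → Fˣ) :
    ((mon σ d : GL ι F) : Matrix ι ι F).det = ((Equiv.Perm.sign σ : ℤ) : F) * ∏ j, (d j : F) := by
  have h : ((mon σ d : GL ι F) : Matrix ι ι F)
      = (σ.symm.toPEquiv.toMatrix : Matrix ι ι F) * Matrix.diagonal (fun j => (d j : F)) := by
    ext i j
    rw [mon_entry, Matrix.mul_diagonal, PEquiv.toMatrix_apply]
    by_cases hij : i = σ j
    · subst hij
      simp
    · have h' : σ.symm i ≠ j := fun hh => hij (by rw [← hh]; simp)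
      simp [hij, h']
  rw [h, Matrix.det_mul, Matrix.det_permutation, Matrix.det_diagonal, Equiv.Perm.sign_symm]

lemma mon_mem_SMon (σ : Equiv.Perm ι) (d : ι → Fˣ)
    (h : ((Equiv.Perm.sign σ : ℤ) : F) * ∏ j, (d j : F) = 1) : mon σ d ∈ SMon ι F :=
  ⟨mon_mem σ d, (mem_specialLinear_iff _).2 (by rw [det_mon, h])⟩

lemma exists_mon_of_mem {g : GL ι F} (hg : g ∈ Mon ι F) : ∃ σ d, g = mon σ d := by
  obtain ⟨σ, hσ⟩ := hg
  choose c hc using hσ
  have hc0 : ∀ j, c j ≠ 0 := by
    intro j h0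
    have h1 := hc j
    rw [h0, zero_smul] at h1
    have h2 := inv_mulVec_mulVec g (e j)
    rw [h1, Matrix.mulVec_zero] at h2
    have h3 := congrFun h2 j
    simp at h3
  refine ⟨σ, fun j => Units.mk0 (c j) (hc0 j), ?_⟩
  apply Units.ext
  ext i j
  rw [← mulVec_e, ← mulVec_e, hc, mon_e]
  rfl

lemma mon_inv_apply (σ : Equiv.Perm ι) (d : ι → Fˣ) (x : ι → F) (i : ι) :
    (((mon σ d)⁻¹ : GL ι F) : Matrix ι ι F).mulVec x i = ((d i)⁻¹ : Fˣ) * x (σ i) := by
  have h1 : x = ((mon σ d : GL ι F) : Matrix ι ι F) *ᵥ (fun k => (((d k)⁻¹ : Fˣ) : F) * x (σ k)) := by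
    funext k
    rw [mon_apply]
    simp
  conv_lhs => rw [h1]
  rw [inv_mulVec_mulVec]

lemma pull_co_mon (σ : Equiv.Perm ι) (d : ι → Fˣ) (j : ι) :
    pull (co j) (mon σ d) = (((d j)⁻¹ : Fˣ) : F) • co (σ j) := by
  apply LinearMap.ext
  intro x
  rw [pull_apply, co_apply, mon_inv_apply]
  rfl

/-- entries of a monomial matrix -/
lemma mem_Mon_iff_entries {g : GL ι F} :
    g ∈ Mon ι F ↔ ∃ σ : Equiv.Perm ι, ∀ i j, i ≠ σ j → (g : Matrix ι ι F) i j = 0 := by
  constructor
  · rintro ⟨σ, hσ⟩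
    refine ⟨σ, fun i j hij => ?_⟩
    obtain ⟨c, hc⟩ := hσ j
    rw [← mulVec_e, hc]
    simp [hij]
  · rintro ⟨σ, hσ⟩
    refine ⟨σ, fun j => ⟨(g : Matrix ι ι F) (σ j) j, ?_⟩⟩
    funext i
    rw [mulVec_e]
    by_cases hij : i = σ j
    · subst hij
      simp
    · simp [hij, hσ i j hij]

/-- every column / row of an invertible matrix is non-zero -/
lemma exists_col_ne_zero (g : GL ι F) (k : ι) : ∃ i, (g : Matrix ι ι F) i k ≠ 0 := by
  by_contra h
  push Not at h
  have h1 : (g : Matrix ι ι F) *ᵥ e k = 0 := by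
    funext i
    rw [mulVec_e, h i]
    rfl
  have h2 := inv_mulVec_mulVec g (e k)
  rw [h1, Matrix.mulVec_zero] at h2
  have h3 := congrFun h2 k
  simp at h3

lemma exists_row_ne_zero (g : GL ι F) (i : ι) : ∃ k, (g : Matrix ι ι F) i k ≠ 0 := by
  by_contra h
  push Not at h
  have h2 := mulVec_inv_mulVec g (e i)
  have h3 := congrFun h2 i
  rw [Matrix.mulVec, dotProduct] at h3
  simp [h] at h3

/-- a non-monomial matrix has a column with two non-zero entries -/
lemma exists_col_of_not_mem {g : GL ι F} (hg : g ∉ Mon ι F) :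
    ∃ k i i', i ≠ i' ∧ (g : Matrix ι ι F) i k ≠ 0 ∧ (g : Matrix ι ι F) i' k ≠ 0 := by
  by_contra h
  push Not at h
  apply hg
  choose f hf using exists_col_ne_zero g
  have huniq : ∀ i k, (g : Matrix ι ι F) i k ≠ 0 → i = f k := by
    intro i k hik
    by_contra hne
    exact hf k (h k i (f k) hne hik)
  have hsurj : Function.Surjective f := by
    intro i
    obtain ⟨k, hk⟩ := exists_row_ne_zero g i
    exact ⟨k, (huniq i k hk).symm⟩
  have hbij : Function.Bijective f := (Finite.surjective_iff_bijective).1 hsurj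
  rw [mem_Mon_iff_entries]
  refine ⟨Equiv.ofBijective f hbij, fun i j hij => ?_⟩
  by_contra hne
  exact hij (huniq i j hne)

lemma col_unique_of_mem {g : GL ι F} (hg : g ∈ Mon ι F) {k i i' : ι}
    (h1 : (g : Matrix ι ι F) i k ≠ 0) (h2 : (g : Matrix ι ι F) i' k ≠ 0) : i = i' := by
  obtain ⟨σ, hσ⟩ := mem_Mon_iff_entries.1 hg
  have e1 : i = σ k := by
    by_contra hne
    exact h1 (hσ i k hne)
  have e2 : i' = σ k := by
    by_contra hne
    exact h2 (hσ i' k hne)
  rw [e1, e2]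

/-- the columns of an invertible matrix are linearly independent -/
lemma linearIndependent_cols (g : GL ι F) :
    LinearIndependent F (fun k => (g : Matrix ι ι F) *ᵥ (e k : ι → F)) := by
  have h1 : LinearIndependent F (fun k => (e k : ι → F)) := by
    have := (Pi.basisFun F ι).linearIndependent
    convert this using 1
    funext k
    simp [e]
  have h2 := h1.map' ((glEquiv ι F g : (ι → F) ≃ₗ[F] (ι → F)) : (ι → F) →ₗ[F] (ι → F))
    (LinearEquiv.ker _)
  exact h2

end Cfsg.Agent.Lib.H65DecMonA
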