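import Cfsg.Agent.Lib.H65DecMonA

/-! # Project 66, piece `MonApi`: diagonal matrices, special monomial matrices -/

set_option autoImplicit false
set_option linter.unusedSectionVars false
set_option linter.unusedVariables false

namespace Cfsg.Agent.Lib.H65DecMonApi

open Matrix Module Cfsg.Geo Cfsg.Agent.Lib.Helper95Basic Cfsg.Agent.Lib.H65DecDefs
  Cfsg.Agent.Lib.H65DecCalc Cfsg.Agent.Lib.H65DecMonA

variable {ι : Type} [Fintype ι] [DecidableEq ι] {F : Type*} [Field F]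

/-- diagonal matrices -/
noncomputable def dg (d : ι → Fˣ) : GL ι F := mon 1 d

lemma dg_apply (d : ι → Fˣ) (x : ι → F) (i : ι) :
    ((dg d : GL ι F) : Matrix ι ι F).mulVec x i = (d i : F) * x i := by
  rw [dg, mon_apply]
  rfl

lemma dg_inv_apply (d : ι → Fˣ) (x : ι → F) (i : ι) :
    (((dg d)⁻¹ : GL ι F) : Matrix ι ι F).mulVec x i = (((d i)⁻¹ : Fˣ) : F) * x i := by
  rw [dg, mon_inv_apply]
  simp

lemma dg_mem (d : ι → Fˣ) : dg d ∈ Mon ι F := mon_mem 1 d

lemma dg_mem_SMon (d : ι → Fˣ) (h : ∏ j, (d j : F) = 1) : dg d ∈ SMon ι F :=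
  mon_mem_SMon 1 d (by simpa using h)

private lemma dg_inv_e (d : ι → Fˣ) (j : ι) :
    (((dg d)⁻¹ : GL ι F) : Matrix ι ι F) *ᵥ e j = (((d j)⁻¹ : Fˣ) : F) • e j := by
  funext k
  rw [dg_inv_apply]
  by_cases hk : k = j
  · subst hk; simp
  · simp [hk]

lemma pull_dg_e (φ : Dual F (ι → F)) (d : ι → Fˣ) (j : ι) :
    pull φ (dg d) (e j) = (((d j)⁻¹ : Fˣ) : F) * φ (e j) := by
  rw [pull_apply, dg_inv_e, map_smul, smul_eq_mul]

/-- entries of a conjugate by a diagonal matrix -/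
lemma dg_conj_entry (d : ι → Fˣ) (h : GL ι F) (i j : ι) :
    ((dg d * h * (dg d)⁻¹ : GL ι F) : Matrix ι ι F) i j
      = (d i : F) * (h : Matrix ι ι F) i j * (((d j)⁻¹ : Fˣ) : F) := by
  rw [← mulVec_e, mul_mulVec, mul_mulVec, dg_inv_e, dg_apply, Matrix.mulVec_smul, Pi.smul_apply,
    mulVec_e, smul_eq_mul]
  ring

/-- `a` at `i`, 1 elsewhere -/
noncomputable def d1 (i : ι) (a : Fˣ) : GL ι F := dg (fun k => if k = i then a else 1)

lemma d1_mulVec (i : ι) (a : Fˣ) (x : ι → F) :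
    ((d1 i a : GL ι F) : Matrix ι ι F) *ᵥ x = x + (((a : F) - 1) * x i) • e i := by
  funext k
  rw [d1, dg_apply]
  by_cases hk : k = i
  · subst hk; simp; ring
  · simp [hk]

lemma pull_d1 (φ : Dual F (ι → F)) (i : ι) (a : Fˣ) :
    pull φ (d1 i a) = φ + ((((a⁻¹ : Fˣ) : F) - 1) * φ (e i)) • co i := by
  apply dual_ext
  intro k
  rw [d1, pull_dg_e]
  by_cases hk : k = i
  · subst hk; simp; ring
  · simp [hk, Ne.symm hk]

lemma d1_mem (i : ι) (a : Fˣ) : d1 i a ∈ Mon ι F := dg_mem _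

/-- `a` at `i`, `a⁻¹` at `j`, 1 elsewhere -/
noncomputable def d2 (i j : ι) (a : Fˣ) : GL ι F :=
  dg (fun k => if k = i then a else if k = j then a⁻¹ else 1)

lemma d2_mulVec {i j : ι} (hij : i ≠ j) (a : Fˣ) (x : ι → F) :
    ((d2 i j a : GL ι F) : Matrix ι ι F) *ᵥ x
      = x + (((a : F) - 1) * x i) • e i + ((((a⁻¹ : Fˣ) : F) - 1) * x j) • e j := by
  funext k
  rw [d2, dg_apply]
  by_cases hk : k = i
  · subst hk; simp [hij]; ring
  · by_cases hk' : k = j
    · subst hk'; simp [hk]; ring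
    · simp [hk, hk']

lemma pull_d2 {i j : ι} (hij : i ≠ j) (φ : Dual F (ι → F)) (a : Fˣ) :
    pull φ (d2 i j a) = φ + ((((a⁻¹ : Fˣ) : F) - 1) * φ (e i)) • co i
      + (((a : F) - 1) * φ (e j)) • co j := by
  apply dual_ext
  intro k
  rw [d2, pull_dg_e]
  by_cases hk : k = i
  · subst hk; simp [hij.symm]; ring
  · by_cases hk' : k = j
    · subst hk'; simp [hk, Ne.symm hk]; ring
    · simp [hk, hk', Ne.symm hk, Ne.symm hk']

lemma d2_mem {i j : ι} (hij : i ≠ j) (a : Fˣ) : d2 i j a ∈ SMon ι F := by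
  apply dg_mem_SMon
  rw [Finset.prod_eq_mul i j hij]
  · simp [hij.symm]
  · rintro c - ⟨h1, h2⟩
    simp [h1, h2]
  · intro h; exact absurd (Finset.mem_univ _) h
  · intro h; exact absurd (Finset.mem_univ _) h

/-- correction of the determinant of a permutation -/
private lemma exists_SMon_perm (σ : Equiv.Perm ι) (i : ι) :
    ∃ d : ι → Fˣ, mon σ d ∈ SMon ι F := by
  refine ⟨fun k => if k = i then Units.map (Int.castRingHom F).toMonoidHom (Equiv.Perm.sign σ)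
    else 1, ?_⟩
  apply mon_mem_SMon
  rw [Finset.prod_eq_single i]
  · simp only [if_true]
    rcases Int.units_eq_one_or (Equiv.Perm.sign σ) with h | h <;> simp [h]
  · intro b _ hb
    simp [hb]
  · intro h; exact absurd (Finset.mem_univ _) h

/-- `SMon` is 2-transitive on the coordinate lines -/
lemma exists_move (h3 : 3 ≤ Fintype.card ι) {i j i' j' : ι} (hij : i ≠ j) (hij' : i' ≠ j') :
    ∃ (σ : Equiv.Perm ι) (d : ι → Fˣ), mon σ d ∈ SMon ι F ∧ σ i = i' ∧ σ j = j' := by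
  obtain ⟨σ, h1, h2⟩ : ∃ σ : Equiv.Perm ι, σ i = i' ∧ σ j = j' := by
    refine ⟨Equiv.swap (Equiv.swap i i' j) j' * Equiv.swap i i', ?_, ?_⟩
    · rw [Equiv.Perm.mul_apply, Equiv.swap_apply_left]
      apply Equiv.swap_apply_of_ne_of_ne _ hij'
      intro h
      have : Equiv.swap i i' i = Equiv.swap i i' j := by rw [Equiv.swap_apply_left]; exact h
      exact hij ((Equiv.swap i i').injective this)
    · rw [Equiv.Perm.mul_apply, Equiv.swap_apply_left]
  obtain ⟨d, hd⟩ := exists_SMon_perm (F := F) σ i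
  exact ⟨σ, d, hd, h1, h2⟩

lemma exists_move_one (h2 : 2 ≤ Fintype.card ι) (i i' : ι) :
    ∃ (σ : Equiv.Perm ι) (d : ι → Fˣ), mon σ d ∈ SMon ι F ∧ σ i = i' := by
  obtain ⟨d, hd⟩ := exists_SMon_perm (F := F) (Equiv.swap i i') i
  exact ⟨_, d, hd, Equiv.swap_apply_left _ _⟩

/-- the homologies `d1 j a` -/
lemma hmg_std {K : Subgroup (GL ι F)} (hM : Mon ι F ≤ K) (j : ι) : Hmg K (e j) (co j) := by
  refine ⟨by simp, fun a ha => ⟨d1 j (Units.mk0 a ha), hM (d1_mem _ _), fun x => ?_⟩⟩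
  rw [d1_mulVec, co_apply, smul_smul, Units.val_mk0, mul_comm]

end Cfsg.Agent.Lib.H65DecMonApi
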