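import Cfsg.Agent.Lib.H65DecMonApi

/-! # Project 66 (S5634), piece `NF` -/

set_option autoImplicit false
set_option linter.unusedSectionVars false
set_option linter.unusedVariables false

namespace Cfsg.Agent.Lib.H65DecNF

open Matrix Module Cfsg.Geo Cfsg.Agent.Lib.Helper95Basic Cfsg.Agent.Lib.H65DecDefs
  Cfsg.Agent.Lib.H65DecCalc Cfsg.Agent.Lib.H65DecMonA Cfsg.Agent.Lib.H65DecMonApi

variable {ι : Type} [Fintype ι] [DecidableEq ι] {F : Type*} [Field F] [Fintype F]

private lemma exists_avoid (s : Finset ι) (h : s.card < Fintype.card ι) : ∃ i, i ∉ s := by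
  by_contra hcon
  have hcon' : ∀ i, i ∈ s := by
    intro i
    by_contra hi
    exact hcon ⟨i, hi⟩
  have : s = Finset.univ := Finset.eq_univ_iff_forall.mpr hcon'
  rw [this, Finset.card_univ] at h
  exact lt_irrefl _ h

/-- **Step 2, (A2c)**: normal form of a foreign frame -/
theorem nf (hn : 7 ≤ Fintype.card ι) (g : GL ι F) (hc : Col1 g) (hs : ∀ k0, Star g k0) : NF g := by
  classical
  -- Step 1: every column has a zero
  have step1 : ∀ k0, ∃ i, (g : Matrix ι ι F) i k0 = 0 := by
    intro k0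
    by_contra hcon
    have hcon' : ∀ i, (g : Matrix ι ι F) i k0 ≠ 0 := fun i hi => hcon ⟨i, hi⟩
    obtain ⟨z, θ, h1, h2⟩ := hs k0
    have hinj : Function.Injective θ := fun i i' h => h2 i i' (hcon' i) (hcon' i') h
    obtain ⟨i, hi⟩ := (Finite.injective_iff_surjective.mp hinj) k0
    exact (h1 i (hcon' i)).1 hi
  have hne : Nonempty ι := Fintype.card_pos_iff.mp (by omega)
  obtain ⟨k0⟩ := hne
  obtain ⟨j, hj⟩ := step1 k0
  have hw : ∀ i, i ≠ j → (g : Matrix ι ι F) i k0 ≠ 0 := fun i hij h => hc k0 i j hij h hj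
  obtain ⟨z, θ, h1, h2⟩ := hs k0
  -- entries of the columns `θ i`
  have ent : ∀ i, i ≠ j → ∃ α : F, α ≠ 0 ∧
      (∀ k, k ≠ i → - z k = α * (g : Matrix ι ι F) k (θ i)) ∧
      ((g : Matrix ι ι F) i k0 - z i = α * (g : Matrix ι ι F) i (θ i)) := by
    intro i hi
    obtain ⟨α, hα, hE⟩ := (h1 i (hw i hi)).2
    refine ⟨α, hα, ?_, ?_⟩
    · intro k hk
      have := congrFun hE k
      simp only [Pi.sub_apply, Pi.smul_apply, e_apply, smul_eq_mul, mulVec_e, if_neg hk, mul_zero,
        zero_sub] at this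
      exact this
    · have := congrFun hE i
      simp only [Pi.sub_apply, Pi.smul_apply, e_apply, smul_eq_mul, mulVec_e, if_true, mul_one]
        at this
      exact this
  -- the extended map
  set θ' : ι → ι := fun i => if i = j then k0 else θ i with hθ'
  have hθ'inj : Function.Injective θ' := by
    intro a b hab
    simp only [hθ'] at hab
    by_cases ha : a = j <;> by_cases hb : b = j
    · rw [ha, hb]
    · rw [if_pos ha, if_neg hb] at hab
      exact absurd hab.symm (h1 b (hw b hb)).1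
    · rw [if_neg ha, if_pos hb] at hab
      exact absurd hab (h1 a (hw a ha)).1
    · rw [if_neg ha, if_neg hb] at hab
      exact h2 a b (hw a ha) (hw b hb) hab
  have hθ'surj : Function.Surjective θ' := Finite.injective_iff_surjective.mp hθ'inj
  -- at most one zero of `z`
  have hz2 : ∀ k1 k2, k1 ≠ k2 → z k1 = 0 → z k2 = 0 → False := by
    intro k1 k2 hk h1z h2z
    obtain ⟨i, hi⟩ := exists_avoid ({k1, k2, j} : Finset ι)
      (lt_of_le_of_lt Finset.card_le_three (by omega))
    simp only [Finset.mem_insert, Finset.mem_singleton, not_or] at hi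
    obtain ⟨hi1, hi2, hi3⟩ := hi
    obtain ⟨α, hα, hE, -⟩ := ent i hi3
    have e1 := hE k1 (Ne.symm hi1)
    have e2 := hE k2 (Ne.symm hi2)
    rw [h1z, neg_zero] at e1
    rw [h2z, neg_zero] at e2
    have e1' := (mul_eq_zero.mp e1.symm).resolve_left hα
    have e2' := (mul_eq_zero.mp e2.symm).resolve_left hα
    exact hc (θ i) k1 k2 hk e1' e2'
  have hz : ∀ k, z k ≠ 0 := by
    intro k1 hk1
    by_cases hkj : k1 = j
    · subst hkj
      obtain ⟨k, hk⟩ := exists_row_ne_zero g k1
      obtain ⟨i, rfl⟩ := hθ'surj k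
      by_cases hi : i = k1
      · simp only [hθ', if_pos hi] at hk
        exact hk hj
      · simp only [hθ', if_neg hi] at hk
        obtain ⟨α, hα, hE, -⟩ := ent i hi
        have e1 := hE k1 (Ne.symm hi)
        rw [hk1, neg_zero] at e1
        exact hk ((mul_eq_zero.mp e1.symm).resolve_left hα)
    · obtain ⟨α, hα, hE, hE'⟩ := ent k1 hkj
      obtain ⟨r, hr⟩ := step1 (θ k1)
      by_cases hrk : r = k1
      · subst hrk
        rw [hr, mul_zero, hk1, sub_zero] at hE'
        exact hw r hkj hE'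
      · have e1 := hE r hrk
        rw [hr, mul_zero, neg_eq_zero] at e1
        exact hz2 r k1 hrk e1 hk1
  have hzw : ∀ i, i ≠ j → (g : Matrix ι ι F) i k0 = z i := by
    intro i hi
    obtain ⟨α, hα, hE, hE'⟩ := ent i hi
    obtain ⟨r, hr⟩ := step1 (θ i)
    by_cases hri : r = i
    · subst hri
      rw [hr, mul_zero] at hE'
      exact sub_eq_zero.mp hE'
    · have e1 := hE r hri
      rw [hr, mul_zero, neg_eq_zero] at e1
      exact absurd e1 (hz r)
  have hbij : Function.Bijective θ' := ⟨hθ'inj, hθ'surj⟩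
  refine ⟨z, Equiv.ofBijective θ' hbij, hz, ?_⟩
  intro l
  rw [Equiv.ofBijective_apply]
  by_cases hl : l = j
  · refine ⟨-1, neg_ne_zero.mpr one_ne_zero, ?_⟩
    simp only [hθ', if_pos hl]
    funext k
    rw [mulVec_e]
    simp only [Pi.sub_apply, Pi.smul_apply, e_apply, smul_eq_mul]
    by_cases hk : k = j
    · rw [hk, hl, hj]
      simp
    · rw [hzw k hk, if_neg (by rw [hl]; exact hk)]
      ring
  · obtain ⟨α, hα, hE⟩ := (h1 l (hw l hl)).2
    refine ⟨α⁻¹, inv_ne_zero hα, ?_⟩
    simp only [hθ', if_neg hl]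
    rw [← hzw l hl, hE, smul_smul, inv_mul_cancel₀ hα, one_smul]

end Cfsg.Agent.Lib.H65DecNF
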