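import Cfsg.Agent.Lib.H65DecMonApi

/-! # Project 66 (S5634), piece `Star` -/

set_option autoImplicit false
set_option linter.unusedSectionVars false
set_option linter.unusedVariables false

namespace Cfsg.Agent.Lib.H65DecStar

open Matrix Module Cfsg.Geo Cfsg.Agent.Lib.Helper95Basic Cfsg.Agent.Lib.H65DecDefs
  Cfsg.Agent.Lib.H65DecCalc Cfsg.Agent.Lib.H65DecMonA Cfsg.Agent.Lib.H65DecMonApi

variable {ι : Type} [Fintype ι] [DecidableEq ι] {F : Type*} [Field F] [Fintype F]

/-- `E i = g⁻¹ (w_i e_i)` where `w` is the column `k0` of `g`. -/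
private noncomputable def E (g : GL ι F) (k0 i : ι) : ι → F :=
  ((g⁻¹ : GL ι F) : Matrix ι ι F) *ᵥ ((g : Matrix ι ι F) i k0 • e i)

private lemma mulVec_eq_sum_e (g : GL ι F) (Y : ι → F) :
    (g : Matrix ι ι F) *ᵥ Y = ∑ k, Y k • ((g : Matrix ι ι F) *ᵥ e k) := by
  ext i
  simp only [Finset.sum_apply, Pi.smul_apply, mulVec_e, smul_eq_mul]
  simp only [Matrix.mulVec, dotProduct]
  exact Finset.sum_congr rfl (fun k _ => mul_comm _ _)

private lemma g_E_sub (g : GL ι F) (k0 i j : ι) :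
    (g : Matrix ι ι F) *ᵥ (E g k0 i - E g k0 j)
      = (g : Matrix ι ι F) i k0 • e i - (g : Matrix ι ι F) j k0 • e j := by
  unfold E
  rw [Matrix.mulVec_sub, mulVec_inv_mulVec, mulVec_inv_mulVec]

/-- (F) -/
private lemma F_T (g : GL ι F) (hc : Col1 g) (k0 : ι) (T : Finset ι)
    (hTS : ∀ i ∈ T, (g : Matrix ι ι F) i k0 ≠ 0) (hT2 : 2 ≤ T.card)
    (hTn : T.card + 2 ≤ Fintype.card ι) (t0 : ι) (ht0 : t0 ∈ T) (J : Finset ι)
    (hJ : ∀ i ∈ T, i ≠ t0 → ∀ k, k ∉ J → (E g k0 i - E g k0 t0) k = 0) : T.card ≤ J.card := by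
  classical
  by_contra hlt
  rw [not_le] at hlt
  -- two coordinates outside `T`
  have hcompl : 1 < (Finset.univ \ T).card := by
    rw [Finset.card_sdiff_of_subset (Finset.subset_univ T), Finset.card_univ]
    omega
  obtain ⟨p, hp, p', hp', hpp⟩ := Finset.one_lt_card.1 hcompl
  have hpT : p ∉ T := (Finset.mem_sdiff.1 hp).2
  have hpT' : p' ∉ T := (Finset.mem_sdiff.1 hp').2
  let T' := T.erase t0
  have hT'card : T'.card + 1 = T.card := Finset.card_erase_add_one ht0
  let v : T' → (ι → F) := fun i =>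
    (g : Matrix ι ι F) i k0 • e (i : ι) - (g : Matrix ι ι F) t0 k0 • e t0
  have hLI : LinearIndependent F v := by
    rw [Fintype.linearIndependent_iff]
    intro c hc0 j
    have hj : (j : ι) ≠ t0 := (Finset.mem_erase.1 j.2).1
    have h1 := congrFun hc0 (j : ι)
    simp only [v, Finset.sum_apply, Pi.smul_apply, Pi.sub_apply, e_apply, smul_eq_mul,
      Pi.zero_apply, if_neg hj, mul_zero, sub_zero] at h1
    rw [Finset.sum_eq_single j] at h1
    · simp only [if_true, mul_one] at h1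
      exact (mul_eq_zero.1 h1).resolve_right (hTS j (Finset.mem_of_mem_erase j.2))
    · intro i _ hij
      rw [if_neg (fun h => hij (Subtype.ext h.symm))]
      simp
    · intro h; exact absurd (Finset.mem_univ j) h
  let X : Submodule F (ι → F) := Submodule.span F (Set.range v)
  let Wj : Submodule F (ι → F) :=
    Submodule.span F ((J.image (fun a => (g : Matrix ι ι F) *ᵥ e a) : Finset (ι → F)) : Set (ι → F))
  have hXr : finrank F X = T'.card := by
    rw [finrank_span_eq_card hLI, Fintype.card_coe]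
  have hWr : finrank F Wj ≤ J.card :=
    (finrank_span_finset_le_card _).trans Finset.card_image_le
  have hXW : X ≤ Wj := by
    rw [Submodule.span_le]
    rintro _ ⟨i, rfl⟩
    have hi : (i : ι) ∈ T := Finset.mem_of_mem_erase i.2
    have hi0 : (i : ι) ≠ t0 := (Finset.mem_erase.1 i.2).1
    change v i ∈ Wj
    have : v i = (g : Matrix ι ι F) *ᵥ (E g k0 i - E g k0 t0) := (g_E_sub g k0 i t0).symm
    rw [this, mulVec_eq_sum_e]
    refine Submodule.sum_mem _ (fun k _ => ?_)
    by_cases hk : k ∈ J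
    · exact Submodule.smul_mem _ _ (Submodule.subset_span (by
        rw [Finset.coe_image]; exact ⟨k, hk, rfl⟩))
    · rw [hJ i hi hi0 k hk, zero_smul]
      exact Submodule.zero_mem _
  have hle : T'.card ≤ J.card := by
    rw [← hXr]
    exact (Submodule.finrank_mono hXW).trans hWr
  have hXeq : X = Wj := Submodule.eq_of_le_of_finrank_le hXW (by rw [hXr]; omega)
  have hJne : J.Nonempty := by
    rw [← Finset.card_pos]; omega
  obtain ⟨a, ha⟩ := hJne
  have haX : (g : Matrix ι ι F) *ᵥ e a ∈ X := by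
    rw [hXeq]
    exact Submodule.subset_span (by rw [Finset.coe_image]; exact ⟨a, ha, rfl⟩)
  have hzero : ∀ q, q ∉ T → ∀ x ∈ X, x q = 0 := by
    intro q hq x hx
    have hXq : X ≤ LinearMap.ker (LinearMap.proj q : (ι → F) →ₗ[F] F) := by
      rw [Submodule.span_le]
      rintro _ ⟨i, rfl⟩
      have hi : (i : ι) ∈ T := Finset.mem_of_mem_erase i.2
      have h1 : q ≠ (i : ι) := fun h => hq (h ▸ hi)
      have h2 : q ≠ t0 := fun h => hq (h ▸ ht0)
      simp [v, h1, h2]
    exact hXq hx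
  have h1 := hzero p hpT _ haX
  have h2 := hzero p' hpT' _ haX
  rw [mulVec_e] at h1 h2
  exact hc a p p' hpp h1 h2

section vec

variable [DecidableEq F]

private def sp (v : ι → F) : Finset ι := Finset.univ.filter (fun k => v k ≠ 0)

private lemma mem_sp {v : ι → F} {k : ι} : k ∈ sp v ↔ v k ≠ 0 := by simp [sp]

private lemma three_zero {D : ι → F} (h : (sp D).card ≤ 2) {k1 k2 k3 : ι} (h12 : k1 ≠ k2)
    (h13 : k1 ≠ k3) (h23 : k2 ≠ k3) (h1 : D k1 ≠ 0) (h2 : D k2 ≠ 0) : D k3 = 0 := by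
  by_contra h3
  have hsub : ({k1, k2, k3} : Finset ι) ⊆ sp D := by
    intro k hk
    simp only [Finset.mem_insert, Finset.mem_singleton] at hk
    rcases hk with rfl | rfl | rfl <;> rw [mem_sp] <;> assumption
  have := Finset.card_le_card hsub
  rw [Finset.card_eq_three.2 ⟨k1, k2, k3, h12, h13, h23, rfl⟩] at this
  omega

private lemma dich_half {Y1 Yi : ι → F} {a b : ι} (hab : a ≠ b) (hb : Y1 b ≠ 0)
    (hY1 : ∀ k, k ≠ a → k ≠ b → Y1 k = 0) (hcard : (sp Yi).card = 2)
    (hD : (sp (Yi - Y1)).card ≤ 2) (hib : Yi b = 0) : Yi a = Y1 a := by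
  obtain ⟨c, hc, hca⟩ : ∃ c ∈ sp Yi, c ≠ a := Finset.exists_mem_ne (by omega) a
  have hcb : c ≠ b := by rintro rfl; exact (mem_sp.1 hc) hib
  have h1 : (Yi - Y1) b ≠ 0 := by simp [hib, hb]
  have h2 : (Yi - Y1) c ≠ 0 := by simp [hY1 c hca hcb, mem_sp.1 hc]
  have h3 := three_zero hD (Ne.symm hcb) hab.symm hca h1 h2
  simpa [sub_eq_zero] using h3

private lemma dich {Y1 Yi : ι → F} {a b : ι} (hab : a ≠ b) (ha : Y1 a ≠ 0) (hb : Y1 b ≠ 0)
    (hY1 : ∀ k, k ≠ a → k ≠ b → Y1 k = 0) (hcard : (sp Yi).card = 2)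
    (hD : (sp (Yi - Y1)).card ≤ 2) (hne : ¬ (Yi a ≠ 0 ∧ Yi b ≠ 0)) :
    (Yi a = Y1 a ∧ Yi b = 0) ∨ (Yi b = Y1 b ∧ Yi a = 0) := by
  by_cases hib : Yi b = 0
  · exact Or.inl ⟨dich_half hab hb hY1 hcard hD hib, hib⟩
  · have hia : Yi a = 0 := by
      by_contra hia
      exact hne ⟨hia, hib⟩
    exact Or.inr ⟨dich_half hab.symm ha (fun k h1 h2 => hY1 k h2 h1) hcard hD hia, hia⟩

private lemma mono_of {Y : ι → F} {a k0 : ι} (hcard : (sp Y).card = 2) (hk0 : k0 ∉ sp Y)
    (ha : Y a ≠ 0) : ∃ t, t ≠ k0 ∧ ∃ α : F, α ≠ 0 ∧ Y - Y a • e a = α • e t := by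
  obtain ⟨c, hc, hca⟩ : ∃ c ∈ sp Y, c ≠ a := Finset.exists_mem_ne (by omega) a
  refine ⟨c, fun h => hk0 (h ▸ hc), Y c, mem_sp.1 hc, ?_⟩
  ext k
  simp only [Pi.sub_apply, Pi.smul_apply, e_apply, smul_eq_mul]
  by_cases hka : k = a
  · subst hka
    rw [if_pos rfl, if_neg (Ne.symm hca)]
    ring
  · by_cases hkc : k = c
    · subst hkc
      rw [if_neg hka, if_pos rfl]
      ring
    · rw [if_neg hka, if_neg hkc, three_zero hcard.le (Ne.symm hca) (Ne.symm hka) (Ne.symm hkc) ha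
        (mem_sp.1 hc)]
      ring

end vec

section main

variable [DecidableEq F]

private lemma tri' {g : GL ι F} {k0 : ι} (ht : Tri g k0) {i1 i2 i3 : ι} (h12 : i1 ≠ i2)
    (h13 : i1 ≠ i3) (h23 : i2 ≠ i3) (h1 : (g : Matrix ι ι F) i1 k0 ≠ 0)
    (h2 : (g : Matrix ι ι F) i2 k0 ≠ 0) (h3 : (g : Matrix ι ι F) i3 k0 ≠ 0) :
    ∃ J : Finset ι, J.card ≤ 3 ∧ k0 ∉ J ∧ ∀ k, k ∉ J →
      (E g k0 i1 - E g k0 i2) k = 0 ∧ (E g k0 i2 - E g k0 i3) k = 0 := by
  obtain ⟨J, hJ, hk, h⟩ := ht i1 i2 i3 h12 h13 h23 h1 h2 h3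
  refine ⟨J, hJ, hk, fun k hkJ => ?_⟩
  unfold E
  rw [← Matrix.mulVec_sub, ← Matrix.mulVec_sub]
  exact h k hkJ

private lemma card_S (g : GL ι F) (hc : Col1 g) (k0 : ι) :
    Fintype.card ι ≤ (Finset.univ.filter (fun i => (g : Matrix ι ι F) i k0 ≠ 0)).card + 1 := by
  have h1 : (Finset.univ.filter (fun i => ¬ (g : Matrix ι ι F) i k0 ≠ 0)).card ≤ 1 := by
    rw [Finset.card_le_one]
    intro a ha b hb
    by_contra hab
    simp only [Finset.mem_filter, Finset.mem_univ, true_and, not_not] at ha hb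
    exact hc k0 a b hab ha hb
  have h2 := Finset.card_filter_add_card_filter_not (s := (Finset.univ : Finset ι))
    (fun i => (g : Matrix ι ι F) i k0 ≠ 0)
  rw [Finset.card_univ] at h2
  omega

/-- two more elements of `S` outside a given small set -/
private lemma exists_two (hn : 7 ≤ Fintype.card ι) (g : GL ι F) (hc : Col1 g) (k0 : ι)
    (A : Finset ι) (hA : A.card ≤ 4) :
    ∃ l l', l ≠ l' ∧ l ∉ A ∧ l' ∉ A ∧ (g : Matrix ι ι F) l k0 ≠ 0 ∧
      (g : Matrix ι ι F) l' k0 ≠ 0 := by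
  have h1 := card_S g hc k0
  have h2 := Finset.le_card_sdiff A (Finset.univ.filter (fun i => (g : Matrix ι ι F) i k0 ≠ 0))
  have h3 : 1 < ((Finset.univ.filter (fun i => (g : Matrix ι ι F) i k0 ≠ 0)) \ A).card := by
    omega
  obtain ⟨l, hl, l', hl', hll⟩ := Finset.one_lt_card.1 h3
  simp only [Finset.mem_sdiff, Finset.mem_filter, Finset.mem_univ, true_and] at hl hl'
  exact ⟨l, l', hll, hl.2, hl'.2, hl.1, hl'.1⟩

private lemma L3 (hn : 7 ≤ Fintype.card ι) (g : GL ι F) (hc : Col1 g) (k0 : ι) (ht : Tri g k0)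
    {i i' : ι} (hii : i ≠ i') (hi : (g : Matrix ι ι F) i k0 ≠ 0)
    (hi' : (g : Matrix ι ι F) i' k0 ≠ 0) :
    (sp (E g k0 i - E g k0 i')).card = 2 ∧ k0 ∉ sp (E g k0 i - E g k0 i') := by
  obtain ⟨l, l', hll, hlA, hlA', hl, hl'⟩ := exists_two hn g hc k0 {i, i'}
    ((Finset.card_le_two).trans (by norm_num))
  simp only [Finset.mem_insert, Finset.mem_singleton, not_or] at hlA hlA'
  obtain ⟨J, hJ3, hkJ, hJ⟩ := tri' ht hii (Ne.symm hlA.1) (Ne.symm hlA.2) hi hi' hl
  obtain ⟨J', hJ3', hkJ', hJ'⟩ := tri' ht hii (Ne.symm hlA'.1) (Ne.symm hlA'.2) hi hi' hl'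
  have hsub : sp (E g k0 i - E g k0 i') ⊆ J ∩ J' := by
    intro k hk
    rw [mem_sp] at hk
    rw [Finset.mem_inter]
    constructor
    · by_contra h
      exact hk (hJ k h).1
    · by_contra h
      exact hk (hJ' k h).1
  have h2le : 2 ≤ (sp (E g k0 i - E g k0 i')).card := by
    have := F_T g hc k0 {i, i'} (by
        intro x hx
        simp only [Finset.mem_insert, Finset.mem_singleton] at hx
        rcases hx with rfl | rfl <;> assumption)
      (by rw [Finset.card_pair hii]) (by rw [Finset.card_pair hii]; omega) i' (by simp)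
      (sp (E g k0 i - E g k0 i')) (by
        intro x hx hxi k hk
        simp only [Finset.mem_insert, Finset.mem_singleton] at hx
        rcases hx with rfl | rfl
        · rw [mem_sp, not_not] at hk
          exact hk
        · exact absurd rfl hxi)
    rwa [Finset.card_pair hii] at this
  have hI : (J ∩ J').card ≤ 2 := by
    by_contra hcon
    rw [not_le] at hcon
    have e1 : J ∩ J' = J' := Finset.eq_of_subset_of_card_le Finset.inter_subset_right (by omega)
    have hJJ : J' ⊆ J := by rw [← e1]; exact Finset.inter_subset_left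
    have hT4 : ({i, i', l, l'} : Finset ι).card = 4 := by
      rw [Finset.card_insert_of_notMem, Finset.card_insert_of_notMem, Finset.card_pair hll]
      · simp only [Finset.mem_insert, Finset.mem_singleton, not_or]
        exact ⟨Ne.symm hlA.2, Ne.symm hlA'.2⟩
      · simp only [Finset.mem_insert, Finset.mem_singleton, not_or]
        exact ⟨hii, Ne.symm hlA.1, Ne.symm hlA'.1⟩
    have := F_T g hc k0 {i, i', l, l'} (by
        intro x hx
        simp only [Finset.mem_insert, Finset.mem_singleton] at hx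
        rcases hx with rfl | rfl | rfl | rfl <;> assumption)
      (by rw [hT4]; norm_num) (by rw [hT4]; omega) i' (by simp) J (by
        intro x hx hxi k hk
        simp only [Finset.mem_insert, Finset.mem_singleton] at hx
        rcases hx with rfl | rfl | rfl | rfl
        · exact (hJ k hk).1
        · exact absurd rfl hxi
        · have := (hJ k hk).2
          simp only [Pi.sub_apply] at this ⊢
          linear_combination (-1 : F) * this
        · have := (hJ' k (fun h => hk (hJJ h))).2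
          simp only [Pi.sub_apply] at this ⊢
          linear_combination (-1 : F) * this)
    rw [hT4] at this
    omega
  refine ⟨le_antisymm ((Finset.card_le_card hsub).trans hI) h2le, fun h => hkJ ?_⟩
  exact (Finset.mem_inter.1 (hsub h)).1

private lemma sub_sub_E (g : GL ι F) (k0 i j i0 : ι) :
    (E g k0 i - E g k0 i0) - (E g k0 j - E g k0 i0) = E g k0 i - E g k0 j := by abel

private lemma exists_common (hn : 7 ≤ Fintype.card ι) (g : GL ι F) (hc : Col1 g) (k0 : ι)
    (ht : Tri g k0) {i0 i1 : ι} (h01 : i1 ≠ i0) (hi0 : (g : Matrix ι ι F) i0 k0 ≠ 0)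
    (hi1 : (g : Matrix ι ι F) i1 k0 ≠ 0) :
    ∃ (a : ι) (lam : F), lam ≠ 0 ∧ a ≠ k0 ∧ ∀ i, (g : Matrix ι ι F) i k0 ≠ 0 → i ≠ i0 →
      (E g k0 i - E g k0 i0) a = lam := by
  obtain ⟨hY1c, hY1k⟩ := L3 hn g hc k0 ht h01 hi1 hi0
  obtain ⟨a, b, hab, hsp⟩ := Finset.card_eq_two.1 hY1c
  have ha : (E g k0 i1 - E g k0 i0) a ≠ 0 := by rw [← mem_sp, hsp]; simp
  have hb : (E g k0 i1 - E g k0 i0) b ≠ 0 := by rw [← mem_sp, hsp]; simp
  have hY1 : ∀ k, k ≠ a → k ≠ b → (E g k0 i1 - E g k0 i0) k = 0 := by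
    intro k hka hkb
    by_contra h
    rw [← ne_eq, ← mem_sp, hsp] at h
    simp only [Finset.mem_insert, Finset.mem_singleton] at h
    rcases h with h | h
    · exact hka h
    · exact hkb h
  have hak : a ≠ k0 := by
    rintro rfl
    exact hY1k (mem_sp.2 ha)
  have hbk : b ≠ k0 := by
    rintro rfl
    exact hY1k (mem_sp.2 hb)
  -- the dichotomy for every other index
  have hdich : ∀ i, (g : Matrix ι ι F) i k0 ≠ 0 → i ≠ i0 → i ≠ i1 →
      ((E g k0 i - E g k0 i0) a = (E g k0 i1 - E g k0 i0) a ∧ (E g k0 i - E g k0 i0) b = 0) ∨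
      ((E g k0 i - E g k0 i0) b = (E g k0 i1 - E g k0 i0) b ∧ (E g k0 i - E g k0 i0) a = 0) := by
    intro i hi hii0 hii1
    have hc2 := (L3 hn g hc k0 ht hii0 hi hi0).1
    refine dich hab ha hb hY1 hc2 ?_ ?_
    · rw [sub_sub_E]
      exact (L3 hn g hc k0 ht hii1 hi hi1).1.le
    · rintro ⟨hia, hib⟩
      have hT3 : ({i0, i1, i} : Finset ι).card = 3 :=
        Finset.card_eq_three.2 ⟨i0, i1, i, Ne.symm h01, Ne.symm hii0, Ne.symm hii1, rfl⟩
      have := F_T g hc k0 {i0, i1, i} (by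
          intro x hx
          simp only [Finset.mem_insert, Finset.mem_singleton] at hx
          rcases hx with rfl | rfl | rfl <;> assumption)
        (by rw [hT3]; norm_num) (by rw [hT3]; omega) i0 (by simp)
        (sp (E g k0 i - E g k0 i0)) (by
          intro x hx hxi k hk
          simp only [Finset.mem_insert, Finset.mem_singleton] at hx
          rcases hx with rfl | rfl | rfl
          · exact absurd rfl hxi
          · refine hY1 k ?_ ?_
            · rintro rfl
              exact hk (mem_sp.2 hia)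
            · rintro rfl
              exact hk (mem_sp.2 hib)
          · rw [mem_sp, not_not] at hk
            exact hk)
      rw [hT3, hc2] at this
      omega
  -- no mixing
  have hmix : ∀ i j, (g : Matrix ι ι F) i k0 ≠ 0 → i ≠ i0 → i ≠ i1 →
      (g : Matrix ι ι F) j k0 ≠ 0 → j ≠ i0 → j ≠ i1 →
      ((E g k0 i - E g k0 i0) a = (E g k0 i1 - E g k0 i0) a ∧ (E g k0 i - E g k0 i0) b = 0) →
      ((E g k0 j - E g k0 i0) b = (E g k0 i1 - E g k0 i0) b ∧ (E g k0 j - E g k0 i0) a = 0) →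
      False := by
    intro i j hi hii0 hii1 hj hji0 hji1 ⟨hia, hib⟩ ⟨hjb, hja⟩
    have hij : i ≠ j := by
      rintro rfl
      rw [hja] at hia
      exact ha hia.symm
    have hD := (L3 hn g hc k0 ht hij hi hj).1
    rw [← sub_sub_E g k0 i j i0] at hD
    have hDa : ((E g k0 i - E g k0 i0) - (E g k0 j - E g k0 i0)) a ≠ 0 := by
      rw [Pi.sub_apply, hia, hja, sub_zero]; exact ha
    have hDb : ((E g k0 i - E g k0 i0) - (E g k0 j - E g k0 i0)) b ≠ 0 := by
      rw [Pi.sub_apply, hib, hjb, zero_sub]; exact neg_ne_zero.2 hb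
    have hJcard : (sp (E g k0 i1 - E g k0 i0) ∪ sp (E g k0 i - E g k0 i0)).card ≤ 3 := by
      have h1 := Finset.card_union_add_card_inter (sp (E g k0 i1 - E g k0 i0))
        (sp (E g k0 i - E g k0 i0))
      have h2 : 0 < (sp (E g k0 i1 - E g k0 i0) ∩ sp (E g k0 i - E g k0 i0)).card :=
        Finset.card_pos.2 ⟨a, Finset.mem_inter.2 ⟨mem_sp.2 ha, mem_sp.2 (by rw [hia]; exact ha)⟩⟩
      rw [hY1c, (L3 hn g hc k0 ht hii0 hi hi0).1] at h1
      omega
    have hT4 : ({i0, i1, i, j} : Finset ι).card = 4 := by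
      rw [Finset.card_insert_of_notMem, Finset.card_insert_of_notMem, Finset.card_pair hij]
      · simp only [Finset.mem_insert, Finset.mem_singleton, not_or]
        exact ⟨Ne.symm hii1, Ne.symm hji1⟩
      · simp only [Finset.mem_insert, Finset.mem_singleton, not_or]
        exact ⟨Ne.symm h01, Ne.symm hii0, Ne.symm hji0⟩
    have := F_T g hc k0 {i0, i1, i, j} (by
        intro x hx
        simp only [Finset.mem_insert, Finset.mem_singleton] at hx
        rcases hx with rfl | rfl | rfl | rfl <;> assumption)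
      (by rw [hT4]; norm_num) (by rw [hT4]; omega) i0 (by simp)
      (sp (E g k0 i1 - E g k0 i0) ∪ sp (E g k0 i - E g k0 i0)) (by
        intro x hx hxi k hk
        rw [Finset.mem_union, not_or, mem_sp, mem_sp, not_not, not_not] at hk
        simp only [Finset.mem_insert, Finset.mem_singleton] at hx
        rcases hx with rfl | rfl | rfl | rfl
        · exact absurd rfl hxi
        · exact hk.1
        · exact hk.2
        · have hka : k ≠ a := by
            rintro rfl
            exact ha hk.1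
          have hkb : k ≠ b := by
            rintro rfl
            exact hb hk.1
          have h3 := three_zero hD.le hab (Ne.symm hka) (Ne.symm hkb) hDa hDb
          rw [Pi.sub_apply, hk.2, zero_sub, neg_eq_zero] at h3
          exact h3)
    rw [hT4] at this
    omega
  by_cases hB : ∃ j, (g : Matrix ι ι F) j k0 ≠ 0 ∧ j ≠ i0 ∧ j ≠ i1 ∧
      ((E g k0 j - E g k0 i0) b = (E g k0 i1 - E g k0 i0) b ∧ (E g k0 j - E g k0 i0) a = 0)
  · obtain ⟨j, hj, hji0, hji1, hjB⟩ := hB
    refine ⟨b, _, hb, hbk, fun i hi hii0 => ?_⟩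
    by_cases hii1 : i = i1
    · rw [hii1]
    · rcases hdich i hi hii0 hii1 with h | h
      · exact (hmix i j hi hii0 hii1 hj hji0 hji1 h hjB).elim
      · exact h.1
  · refine ⟨a, _, ha, hak, fun i hi hii0 => ?_⟩
    by_cases hii1 : i = i1
    · rw [hii1]
    · rcases hdich i hi hii0 hii1 with h | h
      · exact h.1
      · exact (hB ⟨i, hi, hii0, hii1, h⟩).elim

end main

/-- **Step 2, (A2b)**: pure linear algebra + combinatorics of 2-sets -/
theorem star (hn : 7 ≤ Fintype.card ι) (g : GL ι F) (hc : Col1 g) (k0 : ι) (ht : Tri g k0) :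
    Star g k0 := by
  classical
  obtain ⟨i0, i1, h01, -, -, hi0, hi1⟩ := exists_two hn g hc k0 ∅ (by simp)
  obtain ⟨a, lam, hlam, hak, hcom⟩ := exists_common hn g hc k0 ht (Ne.symm h01) hi0 hi1
  obtain ⟨z, hz⟩ : ∃ z : ι → F, z = (g : Matrix ι ι F) i0 k0 • e i0
      + lam • ((g : Matrix ι ι F) *ᵥ e a) := ⟨_, rfl⟩
  have key : ∀ i, (g : Matrix ι ι F) i k0 ≠ 0 → ∃ t, t ≠ k0 ∧
      ∃ α : F, α ≠ 0 ∧ (g : Matrix ι ι F) i k0 • e i - z = α • ((g : Matrix ι ι F) *ᵥ e t) := by
    intro i hi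
    by_cases hii0 : i = i0
    · subst hii0
      refine ⟨a, hak, -lam, neg_ne_zero.2 hlam, ?_⟩
      rw [hz, neg_smul]
      abel
    · obtain ⟨hc2, hk2⟩ := L3 hn g hc k0 ht hii0 hi hi0
      have hia := hcom i hi hii0
      obtain ⟨t, htk, α, hα, hY⟩ := mono_of hc2 hk2 (by rw [hia]; exact hlam)
      refine ⟨t, htk, α, hα, ?_⟩
      have h1 := congrArg (fun v => (g : Matrix ι ι F) *ᵥ v) hY
      simp only [Matrix.mulVec_sub, Matrix.mulVec_smul] at h1
      rw [← Matrix.mulVec_sub, g_E_sub, hia] at h1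
      rw [← h1, hz]
      abel
  choose! θ hθ using key
  refine ⟨z, θ, fun i hi => hθ i hi, ?_⟩
  intro i i' hi hi' hθe
  by_contra hne
  obtain ⟨-, α, -, h1⟩ := hθ i hi
  obtain ⟨-, α', -, h2⟩ := hθ i' hi'
  rw [← hθe] at h2
  have h3 : (g : Matrix ι ι F) *ᵥ (E g k0 i - E g k0 i') = (g : Matrix ι ι F) *ᵥ ((α - α') • e (θ i)) := by
    rw [g_E_sub, Matrix.mulVec_smul, sub_smul, ← h1, ← h2]
    abel
  have h4 : E g k0 i - E g k0 i' = (α - α') • e (θ i) := by
    have := congrArg (fun v => ((g⁻¹ : GL ι F) : Matrix ι ι F) *ᵥ v) h3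
    simpa only [inv_mulVec_mulVec] using this
  have h5 := (L3 hn g hc k0 ht hne hi hi').1
  have h6 : sp (E g k0 i - E g k0 i') ⊆ {θ i} := by
    intro k hk
    rw [mem_sp, h4] at hk
    rw [Finset.mem_singleton]
    by_contra hkt
    apply hk
    simp [hkt]
  have h7 := Finset.card_le_card h6
  rw [h5, Finset.card_singleton] at h7
  omega

end Cfsg.Agent.Lib.H65DecStar
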