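import Cfsg.Agent.Lib.H65DecMonApi

/-! # Project 66 (S5634), piece `Tri` -/

set_option autoImplicit false
set_option linter.unusedSectionVars false
set_option linter.unusedVariables false
set_option linter.unusedSimpArgs false

namespace Cfsg.Agent.Lib.H65DecTri

open Matrix Module Cfsg.Geo Cfsg.Agent.Lib.Helper95Basic Cfsg.Agent.Lib.H65DecDefs
  Cfsg.Agent.Lib.H65DecCalc Cfsg.Agent.Lib.H65DecMonA Cfsg.Agent.Lib.H65DecMonApi

variable {ι : Type} [Fintype ι] [DecidableEq ι] {F : Type*} [Field F] [Fintype F]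

/-- a permutation of order dividing three such that the vectors `c l • e (π l) - e l` span a space
of dimension at most two moves at most three points. -/
theorem tri_card (π : Equiv.Perm ι) (c : ι → Fˣ) (P R : ι → F)
    (hspan : ∀ l, (c l : F) • (e (π l) : ι → F) - e l ∈ Submodule.span F ({P, R} : Set (ι → F)))
    (h3 : ∀ l, π (π (π l)) = l) :
    (Finset.univ.filter (fun k => π k ≠ k)).card ≤ 3 := by
  classical
  by_contra hcard
  push Not at hcard
  set J := Finset.univ.filter (fun k => π k ≠ k) with hJ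
  obtain ⟨l, hl⟩ : J.Nonempty := Finset.card_pos.1 (by omega)
  have a1 : π l ≠ l := (Finset.mem_filter.1 hl).2
  obtain ⟨l', hl'J, hl'n⟩ := Finset.exists_mem_notMem_of_card_lt_card
      (lt_of_le_of_lt (Finset.card_le_three (a := l) (b := π l) (c := π (π l))) hcard)
  have a6 : π l' ≠ l' := (Finset.mem_filter.1 hl'J).2
  simp only [Finset.mem_insert, Finset.mem_singleton, not_or] at hl'n
  obtain ⟨b1, b2, b3⟩ := hl'n
  have a2 : π (π l) ≠ l := by
    intro h
    apply a1
    have := h3 l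
    rw [h] at this
    exact this
  have a4 : π l' ≠ l := by
    intro h
    apply b3
    have := h3 l'
    rw [h] at this
    exact this.symm
  have a5 : π l' ≠ π l := fun h => b1 (π.injective h)
  have a7 : π (π l) ≠ π l := fun h => a1 (π.injective h)
  let v : Fin 3 → ι → F := ![(c l : F) • (e (π l) : ι → F) - e l,
    (c (π l) : F) • (e (π (π l)) : ι → F) - e (π l), (c l' : F) • (e (π l') : ι → F) - e l']
  have hli : LinearIndependent F v := by
    rw [Fintype.linearIndependent_iff]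
    intro a ha
    rw [Fin.sum_univ_three] at ha
    have e1 := congrFun ha l
    have e2 := congrFun ha (π l)
    have e3 := congrFun ha l'
    simp [v, a1, a1.symm, a2, a2.symm, a4, a4.symm, a5, a5.symm, a6, a6.symm, a7, a7.symm,
      b1, b2, b3, Ne.symm b1, Ne.symm b2, Ne.symm b3] at e1 e2 e3
    intro i
    fin_cases i
    · exact e1
    · simpa [e1] using e2
    · exact e3
  let U := Submodule.span F ({P, R} : Set (ι → F))
  have hv : ∀ i, v i ∈ U := by
    intro i
    fin_cases i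
    · exact hspan l
    · exact hspan (π l)
    · exact hspan l'
  let v' : Fin 3 → U := fun i => ⟨v i, hv i⟩
  have hli' : LinearIndependent F v' :=
    LinearIndependent.of_comp U.subtype (by simpa [Function.comp_def, v'] using hli)
  have h1 := hli'.fintype_card_le_finrank
  have h2 : finrank F U ≤ 2 := by
    have h4 := finrank_span_finset_le_card (R := F) ({P, R} : Finset (ι → F))
    have h5 : ((({P, R} : Finset (ι → F)) : Set (ι → F))) = {P, R} := by simp
    rw [h5] at h4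
    exact le_trans h4 Finset.card_le_two
  simp at h1
  omega

/-- **Step 2, (A2a)**: the 3-cycle argument -/
theorem tri (hn : 6 ≤ Fintype.card ι) (H : Subgroup (GL ι F)) (hM : SMon ι F ≤ H) (hN : NN H)
    (hA : A1 H) (g : GL ι F) (hg : g ∈ H) (hgM : g ∉ Mon ι F) (k0 : ι) : Tri g k0 := by
  classical
  intro i1 i2 i3 h12 h13 h23 hw1 hw2 hw3
  set w : ι → F := fun i => (g : Matrix ι ι F) i k0 with hw
  have hwcol : (g : Matrix ι ι F) *ᵥ e k0 = w := funext (fun i => mulVec_e g k0 i)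
  have hw1' : w i1 ≠ 0 := hw1
  have hw2' : w i2 ≠ 0 := hw2
  have hw3' : w i3 ≠ 0 := hw3
  let a1 : Fˣ := Units.mk0 (w i1) hw1
  let a2 : Fˣ := Units.mk0 (w i2) hw2
  let a3 : Fˣ := Units.mk0 (w i3) hw3
  let σ : Equiv.Perm ι := Equiv.swap i1 i2 * Equiv.swap i2 i3
  have hσ1 : σ i1 = i2 := by
    simp [σ, Equiv.swap_apply_of_ne_of_ne h12 h13]
  have hσ2 : σ i2 = i3 := by
    simp [σ, Equiv.swap_apply_of_ne_of_ne h13.symm h23.symm]
  have hσ3 : σ i3 = i1 := by
    simp [σ]
  have hσo : ∀ k, k ≠ i1 → k ≠ i2 → k ≠ i3 → σ k = k := by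
    intro k k1 k2 k3
    simp [σ, Equiv.swap_apply_of_ne_of_ne k2 k3, Equiv.swap_apply_of_ne_of_ne k1 k2]
  have hs1 : σ.symm i2 = i1 := by rw [Equiv.symm_apply_eq, hσ1]
  have hs2 : σ.symm i3 = i2 := by rw [Equiv.symm_apply_eq, hσ2]
  have hs3 : σ.symm i1 = i3 := by rw [Equiv.symm_apply_eq, hσ3]
  have hso : ∀ k, k ≠ i1 → k ≠ i2 → k ≠ i3 → σ.symm k = k := by
    intro k k1 k2 k3
    rw [Equiv.symm_apply_eq, hσo k k1 k2 k3]
  let d : ι → Fˣ := fun k => if k = i1 then a2 * a1⁻¹ else if k = i2 then a3 * a2⁻¹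
    else if k = i3 then a1 * a3⁻¹ else 1
  have hd1 : d i1 = a2 * a1⁻¹ := by simp [d]
  have hd2 : d i2 = a3 * a2⁻¹ := by simp [d, h12.symm]
  have hd3 : d i3 = a1 * a3⁻¹ := by simp [d, h13.symm, h23.symm]
  have hdo : ∀ k, k ≠ i1 → k ≠ i2 → k ≠ i3 → d k = 1 := by
    intro k k1 k2 k3
    simp [d, k1, k2, k3]
  have hprod : ∏ j, d j = 1 := by
    have h1 : ∀ k, d k = (if k = i1 then a2 * a1⁻¹ else 1) * (if k = i2 then a3 * a2⁻¹ else 1)
        * (if k = i3 then a1 * a3⁻¹ else 1) := by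
      intro k
      by_cases k1 : k = i1
      · rw [k1]
        simp [d, h12, h13]
      by_cases k2 : k = i2
      · rw [k2]
        simp [d, h12.symm, h23]
      by_cases k3 : k = i3
      · rw [k3]
        simp [d, h13.symm, h23.symm]
      simp [d, k1, k2, k3]
    simp_rw [h1]
    rw [Finset.prod_mul_distrib, Finset.prod_mul_distrib, Finset.prod_ite_eq', Finset.prod_ite_eq',
      Finset.prod_ite_eq']
    simp only [Finset.mem_univ, if_true]
    rw [mul_comm a2, mul_comm a3, mul_comm a1]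
    group
  have hsign : Equiv.Perm.sign σ = 1 := by
    simp [σ, Equiv.Perm.sign_swap h12, Equiv.Perm.sign_swap h23]
  set s : GL ι F := mon σ d with hsdef
  have hs : s ∈ SMon ι F := by
    apply mon_mem_SMon
    rw [hsign, ← Units.coe_prod, hprod]
    simp
  -- the action of `s` on coordinates
  have hsx1 : ∀ x : ι → F, ((s : Matrix ι ι F) *ᵥ x) i1 = (w i1 / w i3) * x i3 := by
    intro x
    rw [hsdef, mon_apply, hs3, hd3]
    simp [a1, a3, div_eq_mul_inv]
  have hsx2 : ∀ x : ι → F, ((s : Matrix ι ι F) *ᵥ x) i2 = (w i2 / w i1) * x i1 := by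
    intro x
    rw [hsdef, mon_apply, hs1, hd1]
    simp [a1, a2, div_eq_mul_inv]
  have hsx3 : ∀ x : ι → F, ((s : Matrix ι ι F) *ᵥ x) i3 = (w i3 / w i2) * x i2 := by
    intro x
    rw [hsdef, mon_apply, hs2, hd2]
    simp [a2, a3, div_eq_mul_inv]
  have hsxo : ∀ (x : ι → F) (k : ι), k ≠ i1 → k ≠ i2 → k ≠ i3 →
      ((s : Matrix ι ι F) *ᵥ x) k = x k := by
    intro x k k1 k2 k3
    rw [hsdef, mon_apply, hso k k1 k2 k3, hdo k k1 k2 k3]
    simp
  have hsw : (s : Matrix ι ι F) *ᵥ w = w := by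
    funext k
    by_cases k1 : k = i1
    · rw [k1]
      rw [hsx1]
      field_simp
    by_cases k2 : k = i2
    · rw [k2]
      rw [hsx2]
      field_simp
    by_cases k3 : k = i3
    · rw [k3]
      rw [hsx3]
      field_simp
    exact hsxo w k k1 k2 k3
  have hs3' : ∀ x : ι → F, (s : Matrix ι ι F) *ᵥ ((s : Matrix ι ι F) *ᵥ ((s : Matrix ι ι F) *ᵥ x)) = x := by
    intro x
    funext k
    by_cases k1 : k = i1
    · rw [k1]
      rw [hsx1, hsx3, hsx2]
      field_simp
    by_cases k2 : k = i2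
    · rw [k2]
      rw [hsx2, hsx1, hsx3]
      field_simp
    by_cases k3 : k = i3
    · rw [k3]
      rw [hsx3, hsx2, hsx1]
      field_simp
    rw [hsxo _ k k1 k2 k3, hsxo _ k k1 k2 k3, hsxo _ k k1 k2 k3]
  -- the conjugate `μ`
  set μ : GL ι F := g⁻¹ * s * g with hμdef
  have hμH : μ ∈ H := H.mul_mem (H.mul_mem (H.inv_mem hg) (hM hs)) hg
  have hμx : ∀ x : ι → F, (μ : Matrix ι ι F) *ᵥ x =
      ((g⁻¹ : GL ι F) : Matrix ι ι F) *ᵥ ((s : Matrix ι ι F) *ᵥ ((g : Matrix ι ι F) *ᵥ x)) := by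
    intro x
    rw [hμdef, mul_mulVec, mul_mulVec]
  have hgμ : ∀ x : ι → F, (g : Matrix ι ι F) *ᵥ ((μ : Matrix ι ι F) *ᵥ x) =
      (s : Matrix ι ι F) *ᵥ ((g : Matrix ι ι F) *ᵥ x) := by
    intro x
    rw [hμx, mulVec_inv_mulVec]
  have hμk0 : (μ : Matrix ι ι F) *ᵥ e k0 = e k0 := by
    rw [hμx, hwcol, hsw, ← hwcol, inv_mulVec_mulVec]
  have hμM : μ ∈ Mon ι F := hN μ hμH ⟨k0, k0, 1, by rw [hμk0, one_smul]⟩
  obtain ⟨π, c, hπc⟩ := exists_mon_of_mem hμM
  let p : ι → F := w i2 • e i2 - w i1 • e i1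
  let r : ι → F := w i3 • e i3 - w i2 • e i2
  have hrange : ∀ x : ι → F, (s : Matrix ι ι F) *ᵥ x - x =
      (x i1 / w i1 - x i3 / w i3) • p + (x i2 / w i2 - x i3 / w i3) • r := by
    intro x
    funext k
    by_cases k1 : k = i1
    · rw [k1]
      simp only [Pi.sub_apply, hsx1, Pi.add_apply, Pi.smul_apply, p, r, e_apply, smul_eq_mul]
      simp [h12, h13]
      field_simp
      ring
    by_cases k2 : k = i2
    · rw [k2]
      simp only [Pi.sub_apply, hsx2, Pi.add_apply, Pi.smul_apply, p, r, e_apply, smul_eq_mul]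
      simp [h12.symm, h23]
      field_simp
      ring
    by_cases k3 : k = i3
    · rw [k3]
      simp only [Pi.sub_apply, hsx3, Pi.add_apply, Pi.smul_apply, p, r, e_apply, smul_eq_mul]
      simp [h13.symm, h23.symm]
      field_simp
    simp only [Pi.sub_apply, hsxo x k k1 k2 k3, Pi.add_apply, Pi.smul_apply, p, r, e_apply,
      smul_eq_mul]
    simp [k1, k2, k3]
  let P : ι → F := ((g⁻¹ : GL ι F) : Matrix ι ι F) *ᵥ p
  let R : ι → F := ((g⁻¹ : GL ι F) : Matrix ι ι F) *ᵥ r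
  have hμrange : ∀ y : ι → F, (μ : Matrix ι ι F) *ᵥ y - y ∈
      Submodule.span F ({P, R} : Set (ι → F)) := by
    intro y
    have h1 : (μ : Matrix ι ι F) *ᵥ y - y = ((g⁻¹ : GL ι F) : Matrix ι ι F) *ᵥ
        ((s : Matrix ι ι F) *ᵥ ((g : Matrix ι ι F) *ᵥ y) - (g : Matrix ι ι F) *ᵥ y) := by
      rw [Matrix.mulVec_sub, inv_mulVec_mulVec, hμx]
    rw [h1, hrange, Matrix.mulVec_add, Matrix.mulVec_smul, Matrix.mulVec_smul]
    exact add_mem (Submodule.smul_mem _ _ (Submodule.subset_span (Or.inl rfl)))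
      (Submodule.smul_mem _ _ (Submodule.subset_span (Or.inr rfl)))
  have hspan : ∀ l, (c l : F) • (e (π l) : ι → F) - e l ∈
      Submodule.span F ({P, R} : Set (ι → F)) := by
    intro l
    rw [← mon_e π c l, ← hπc]
    exact hμrange (e l)
  have hμ3 : ∀ x : ι → F, (μ : Matrix ι ι F) *ᵥ ((μ : Matrix ι ι F) *ᵥ ((μ : Matrix ι ι F) *ᵥ x)) = x := by
    intro x
    rw [hμx, hgμ, hgμ, hs3', inv_mulVec_mulVec]
  have h3 : ∀ l, π (π (π l)) = l := by
    intro l
    have h1 := hμ3 (e l)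
    rw [hπc, mon_e, Matrix.mulVec_smul, mon_e, Matrix.mulVec_smul, Matrix.mulVec_smul, mon_e] at h1
    by_contra hne
    have h2 := congrFun h1 l
    simp [Ne.symm hne] at h2
  have hcard := tri_card π c P R hspan h3
  -- fixed points of `π` carry the scalar `1`
  have hc1 : ∀ l, π l = l → (c l : F) = 1 := by
    intro l hl
    by_contra hne
    have h1 : (s : Matrix ι ι F) *ᵥ ((g : Matrix ι ι F) *ᵥ e l) =
        (c l : F) • ((g : Matrix ι ι F) *ᵥ e l) := by
      rw [← hgμ, hπc, mon_e, hl, Matrix.mulVec_smul]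
    have hz : ∀ k, k ≠ i1 → k ≠ i2 → k ≠ i3 → (g : Matrix ι ι F) k l = 0 := by
      intro k k1 k2 k3
      have h2 := congrFun h1 k
      rw [hsxo _ k k1 k2 k3, Pi.smul_apply, mulVec_e, smul_eq_mul] at h2
      have h4 : ((c l : F) - 1) * (g : Matrix ι ι F) k l = 0 := by
        rw [sub_mul, one_mul, ← h2, sub_self]
      rcases mul_eq_zero.1 h4 with h5 | h5
      · exact absurd (sub_eq_zero.1 h5) hne
      · exact h5
    have hc5 : 1 < (Finset.univ \ ({i1, i2, i3} : Finset ι)).card := by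
      have h6 := Finset.le_card_sdiff ({i1, i2, i3} : Finset ι) Finset.univ
      have h7 : ({i1, i2, i3} : Finset ι).card ≤ 3 := Finset.card_le_three
      rw [Finset.card_univ] at h6
      omega
    obtain ⟨k, hk, k', hk', hkk'⟩ := Finset.one_lt_card.1 hc5
    simp only [Finset.mem_sdiff, Finset.mem_univ, true_and, Finset.mem_insert,
      Finset.mem_singleton, not_or] at hk hk'
    exact hA g hg hgM l k k' hkk' (hz k hk.1 hk.2.1 hk.2.2) (hz k' hk'.1 hk'.2.1 hk'.2.2)
  have hfix : ∀ (y : ι → F) (k : ι), π k = k → ((μ : Matrix ι ι F) *ᵥ y - y) k = 0 := by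
    intro y k hk
    have hk' : π.symm k = k := by rw [Equiv.symm_apply_eq, hk]
    rw [Pi.sub_apply, hπc, mon_apply, hk', hc1 k hk, one_mul, sub_self]
  have hse1 : (s : Matrix ι ι F) *ᵥ (w i1 • e i1) = w i2 • e i2 := by
    rw [Matrix.mulVec_smul, hsdef, mon_e, hσ1, hd1, smul_smul]
    congr 1
    simp [a1, a2]
    field_simp
  have hse2 : (s : Matrix ι ι F) *ᵥ (w i2 • e i2) = w i3 • e i3 := by
    rw [Matrix.mulVec_smul, hsdef, mon_e, hσ2, hd2, smul_smul]
    congr 1
    simp [a2, a3]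
    field_simp
  refine ⟨Finset.univ.filter (fun k => π k ≠ k), hcard, ?_, ?_⟩
  · intro hk
    have hk1 : π k0 ≠ k0 := (Finset.mem_filter.1 hk).2
    have h1 := hμk0
    rw [hπc, mon_e] at h1
    have h2 := congrFun h1 k0
    simp [Ne.symm hk1] at h2
  · intro k hk
    have hk1 : π k = k := by
      by_contra hne
      exact hk (Finset.mem_filter.2 ⟨Finset.mem_univ _, hne⟩)
    constructor
    · have h1 := hfix (((g⁻¹ : GL ι F) : Matrix ι ι F) *ᵥ (w i1 • e i1)) k hk1
      rw [hμx, mulVec_inv_mulVec, hse1, ← Matrix.mulVec_sub] at h1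
      have h2 : (w i1 • e i1 - w i2 • e i2 : ι → F) = -(w i2 • e i2 - w i1 • e i1) := by
        rw [neg_sub]
      rw [h2, Matrix.mulVec_neg, Pi.neg_apply, h1, neg_zero]
    · have h1 := hfix (((g⁻¹ : GL ι F) : Matrix ι ι F) *ᵥ (w i2 • e i2)) k hk1
      rw [hμx, mulVec_inv_mulVec, hse2, ← Matrix.mulVec_sub] at h1
      have h2 : (w i2 • e i2 - w i3 • e i3 : ι → F) = -(w i3 • e i3 - w i2 • e i2) := by
        rw [neg_sub]
      rw [h2, Matrix.mulVec_neg, Pi.neg_apply, h1, neg_zero]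

end Cfsg.Agent.Lib.H65DecTri
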