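import Cfsg.Agent.Lib.H65DecStabMon
import Cfsg.Agent.Lib.H65DecA1
import Cfsg.Agent.Lib.H65DecTri
import Cfsg.Agent.Lib.H65DecStar
import Cfsg.Agent.Lib.H65DecNF
import Cfsg.Agent.Lib.H65DecA3

/-! # Project 66 (S5634), piece `MonMain` -/

set_option autoImplicit false
set_option linter.unusedSectionVars false
set_option linter.unusedVariables false

namespace Cfsg.Agent.Lib.H65DecMonMain

open Matrix Module Cfsg.Geo Cfsg.Agent.Lib.Helper95Basic Cfsg.Agent.Lib.H65DecDefs
  Cfsg.Agent.Lib.H65DecCalc Cfsg.Agent.Lib.H65DecMonA Cfsg.Agent.Lib.H65DecMonApi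

variable {ι : Type} [Fintype ι] [DecidableEq ι] {F : Type*} [Field F] [Fintype F]

open Cfsg.Agent.Lib.H65DecStabMon Cfsg.Agent.Lib.H65DecA1 Cfsg.Agent.Lib.H65DecTri
  Cfsg.Agent.Lib.H65DecStar Cfsg.Agent.Lib.H65DecNF Cfsg.Agent.Lib.H65DecA3 Cfsg.Agent.Lib.H65DecElTop

/-- **Step 2**: if the stabilisers of the coordinate lines are monomial, so is `H` -/
theorem caseA (hq : 5 ≤ Fintype.card F) (hn : 7 ≤ Fintype.card ι) (H : Subgroup (GL ι F))
    (hM : SMon ι F ≤ H) (hN : NN H) : H ≤ Mon ι F := by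
  intro g hg
  by_contra hgM
  have hA : A1 H := a1 hq (by omega) H hM hN
  have hc : Col1 g := hA g hg hgM
  exact a3 hq hn H hM hA g hg
    (nf hn g hc fun k0 => star hn g hc k0 (tri (by omega) H hM hN hA g hg hgM k0))

/-- the monomial group of determinant 1 is maximal in `SL` -/
theorem mon_main (hq : 5 ≤ Fintype.card F) (hn : 7 ≤ Fintype.card ι) (H : Subgroup (GL ι F))
    (hM : SMon ι F ≤ H) (hH : H ≤ specialLinear ι F) (hne : ¬ H ≤ Mon ι F) :
    specialLinear ι F ≤ H := by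
  by_contra hcon
  have hE : ¬ HasEl H := fun hE => hcon (el_top (by omega) H hM hE)
  exact hne (caseA hq hn H hM (stab_mon hq (by omega) H hM hH hE))

end Cfsg.Agent.Lib.H65DecMonMain
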