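import Cfsg.Agent.Lib.H65DecMix

/-! # Project 66 (S5634), piece `Nomix2` -/

set_option autoImplicit false
set_option linter.unusedSectionVars false
set_option linter.unusedVariables false

namespace Cfsg.Agent.Lib.H65DecNomix2

open Matrix Module Cfsg.Geo Cfsg.Agent.Lib.Helper95Basic Cfsg.Agent.Lib.H65DecDefs
  Cfsg.Agent.Lib.H65DecCalc

variable {ι : Type} [Fintype ι] [DecidableEq ι] {F : Type*} [Field F]
variable {t m : ℕ} {D : Fin t → Submodule F (ι → F)}

open Cfsg.Agent.Lib.H65DecProj Cfsg.Agent.Lib.H65DecBlock0 Cfsg.Agent.Lib.H65DecMix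

theorem nomix2 [Fintype F] (hD : IsMDecomposition m D) (hm : m = 2) (ht : 3 ≤ t)
    (hq : 3 ≤ Fintype.card F) (H : Subgroup (GL ι F))
    (hM : decompositionStabilizer D ⊓ specialLinear ι F ≤ H) {w : ι → F} {ψ : Dual F (ι → F)}
    (hR : Root H w ψ) (hψ : ψ ≠ 0) (hw : ∀ j, w ∉ D j) :
    ∃ i j : Fin t, i ≠ j ∧ Full H D i j := by
  classical
  by_contra hno
  push Not at hno
  have hm2 : 2 ≤ m := hm.ge
  -- (NM1)
  have NM1 : ∀ (i : Fin t) (x : ι → F) (ψ' : Dual F (ι → F)), x ∈ D i → x ≠ 0 → Root H x ψ' →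
      Pure D i ψ' := by
    intro i x ψ' hx hx0 hRx j hji y hy
    by_contra hy0
    exact hno i j hji.symm (mixI hD hm2 H hM hji hx hx0 hRx hy hy0)
  -- (NM2)
  have NM2 : ∀ (i : Fin t) (w' : ι → F) (φ : Dual F (ι → F)), Pure D i φ → φ ≠ 0 → Root H w' φ →
      w' ∈ D i := by
    intro i w' φ hφ hφ0 hRw
    by_contra hw'
    obtain ⟨j, hji, hF⟩ := mixII hD hm2 H hM hφ hφ0 hRw hw'
    exact hno j i hji hF
  -- (α)
  have hα : ∀ (ψ' : Dual F (ι → F)), Root H w ψ' → ∀ i, ψ' (prj hD i w) = 0 := by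
    intro ψ' hR' i
    by_contra h0
    obtain ⟨φ, hφ, hφ0, hφa⟩ := exists_pure_one hD hm2 i (prj hD i w)
    have hφw : φ w = 0 := by rw [pure_apply hD hφ, hφa]
    have h2 : Root H (prj hD i w) φ := root_block hD H hM (prj_mem hD i w) hφ hφa
    have h3 : Root H w φ := root_of_smul_left h0 (root_comm hR' h2 hφw)
    exact hw i (NM2 i w φ hφ hφ0 h3)
  -- (β)
  have hβ : ∀ (ψ' : Dual F (ι → F)), Root H w ψ' → ψ' ≠ 0 → ∀ i, prj hD i w ≠ 0 →
      ∃ x ∈ D i, ψ' x ≠ 0 := by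
    intro ψ' hR' hψ' i hai
    by_contra hcon
    push Not at hcon
    obtain ⟨x, hx, hxa⟩ := exists_not_mem_span hD hm2 i (prj hD i w)
    have hx0 : x ≠ 0 := by
      rintro rfl
      exact hxa (Submodule.zero_mem _)
    have hax : prj hD i w ∉ Submodule.span F {x} := by
      intro hmem
      obtain ⟨c, hc⟩ := Submodule.mem_span_singleton.mp hmem
      have hc0 : c ≠ 0 := by
        rintro rfl
        rw [zero_smul] at hc
        exact hai hc.symm
      apply hxa
      rw [Submodule.mem_span_singleton]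
      exact ⟨c⁻¹, by rw [← hc, smul_smul, inv_mul_cancel₀ hc0, one_smul]⟩
    obtain ⟨φ, hφ, hφx, hφa⟩ := exists_pure_sep hD hx (prj_mem hD i w) hax
    have hφw : φ w = 1 := by rw [pure_apply hD hφ, hφa]
    have h1 : Root H x φ := root_block hD H hM hx hφ hφx
    have h2 := root_comm h1 hR' (hcon x hx)
    rw [hφw, one_smul] at h2
    have h3 := NM1 i x ψ' hx hx0 h2
    apply hψ'
    refine dual_eq_zero hD (fun j y hy => ?_)
    by_cases hji : j = i
    · subst hji; exact hcon y hy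
    · exact h3 j hji y hy
  -- (γ) two non-zero components
  obtain ⟨i1, i2, h12, ha1, ha2⟩ : ∃ i1 i2 : Fin t, i1 ≠ i2 ∧ prj hD i1 w ≠ 0 ∧ prj hD i2 w ≠ 0 := by
    by_contra hcon
    push Not at hcon
    by_cases hall : ∀ i, prj hD i w = 0
    · have h0 : w = 0 := by
        rw [← sum_prj hD w]
        exact Finset.sum_eq_zero (fun i _ => hall i)
      exact hw ⟨0, by omega⟩ (h0 ▸ Submodule.zero_mem _)
    · push Not at hall
      obtain ⟨i1, hi1⟩ := hall
      have h0 : w = prj hD i1 w := by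
        conv_lhs => rw [← sum_prj hD w]
        refine Finset.sum_eq_single i1 (fun j _ hj => ?_) (fun h => absurd (Finset.mem_univ _) h)
        exact hcon i1 j hj.symm hi1
      exact hw i1 (h0 ▸ prj_mem hD i1 w)
  obtain ⟨k, hk1, hk2⟩ : ∃ k : Fin t, k ≠ i1 ∧ k ≠ i2 := by
    by_contra hcon
    push Not at hcon
    have hsub : (Finset.univ : Finset (Fin t)) ⊆ {i1, i2} := by
      intro k _
      by_cases h : k = i1
      · simp [h]
      · simp [hcon k h]
    have h1 := Finset.card_le_card hsub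
    have h2 : ({i1, i2} : Finset (Fin t)).card ≤ 2 := Finset.card_le_two
    rw [Finset.card_univ, Fintype.card_fin] at h1
    omega
  obtain ⟨y1, hy1, hy1a⟩ := exists_not_mem_span hD hm2 i1 (prj hD i1 w)
  obtain ⟨φ1, hφ1, hφ1a, hφ1y⟩ := exists_pure_sep hD (prj_mem hD i1 w) hy1 hy1a
  obtain ⟨φk, hφk, hφk0, hφka⟩ := exists_pure_one hD hm2 k (prj hD k w)
  obtain ⟨yk, hyk, hφky⟩ := exists_mem_eq_one hD hφk hφk0
  obtain ⟨a, ha0, ha1'⟩ : ∃ a : F, a ≠ 0 ∧ a ≠ 1 := by
    by_contra hcon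
    push Not at hcon
    have hsub : (Finset.univ : Finset F) ⊆ {0, 1} := by
      intro k _
      by_cases h : k = 0
      · simp [h]
      · simp [hcon k h]
    have h1 := Finset.card_le_card hsub
    have h2 : ({0, 1} : Finset F).card ≤ 2 := Finset.card_le_two
    rw [Finset.card_univ] at h1
    omega
  obtain ⟨d, hdH, hd, hdinv⟩ := dil_mem hD H hM hk1.symm hy1 hφ1 hφ1y hyk hφk hφky a ha0
  have hφ1w : φ1 w = 0 := by rw [pure_apply hD hφ1, hφ1a]
  have hφkw : φk w = 0 := by rw [pure_apply hD hφk, hφka]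
  have hdw : (d : Matrix ι ι F) *ᵥ w = w := by
    rw [hd, hφ1w, hφkw]; simp
  have hR2 : Root H w (pull ψ d) := by
    have := root_conj hdH hR
    rwa [hdw] at this
  have hR3 : Root H w (pull ψ d - ψ) := root_sub_right hR2 hR
  have hval : ∀ x, (pull ψ d - ψ) x = (a⁻¹ - 1) * φ1 x * ψ y1 + (a - 1) * φk x * ψ yk := by
    intro x
    rw [LinearMap.sub_apply, pull_apply, hdinv]
    simp only [map_add, map_smul, smul_eq_mul]
    ring
  -- ψ y1 ≠ 0
  have hψy1 : ψ y1 ≠ 0 := by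
    obtain ⟨x, hx, hψx⟩ := hβ ψ hR hψ i1 ha1
    obtain ⟨r, s, hrs⟩ := mem_span_pair hD hm (prj_mem hD i1 w) ha1 hy1 hy1a hx
    intro h0
    apply hψx
    rw [hrs, map_add, map_smul, map_smul, hα ψ hR i1, h0]
    simp
  have hne : pull ψ d - ψ ≠ 0 := by
    intro h0
    have h1 := hval y1
    rw [h0, hφ1y, hφk i1 hk1.symm y1 hy1] at h1
    simp only [LinearMap.zero_apply, mul_one, mul_zero, zero_mul, add_zero] at h1
    have h2 : a⁻¹ - 1 ≠ 0 := by
      intro h3
      apply ha1'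
      have : a⁻¹ = 1 := sub_eq_zero.mp h3
      exact inv_eq_one.mp this
    exact (mul_ne_zero h2 hψy1) h1.symm
  obtain ⟨x, hx, hx0⟩ := hβ _ hR3 hne i2 ha2
  apply hx0
  rw [hval, hφ1 i2 h12.symm x hx, hφk i2 hk2.symm x hx]
  simp

end Cfsg.Agent.Lib.H65DecNomix2
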