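import Cfsg.Agent.Lib.H65DecBlk
import Cfsg.Agent.Lib.H65DecGL
import Cfsg.Agent.Lib.H65DecCenter

/-! # Project 66 (S5634), piece `StabMon` -/

set_option autoImplicit false
set_option linter.unusedSectionVars false
set_option linter.unusedVariables false
set_option linter.unusedSimpArgs false

namespace Cfsg.Agent.Lib.H65DecStabMon

open Matrix Module Cfsg.Geo Cfsg.Agent.Lib.Helper95Basic Cfsg.Agent.Lib.H65DecDefs
  Cfsg.Agent.Lib.H65DecCalc Cfsg.Agent.Lib.H65DecMonA Cfsg.Agent.Lib.H65DecMonApi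

variable {ι : Type} [Fintype ι] [DecidableEq ι] {F : Type*} [Field F] [Fintype F]

open Cfsg.Agent.Lib.H65DecBlk Cfsg.Agent.Lib.H65DecGL Cfsg.Agent.Lib.H65DecCenter
  Cfsg.Agent.Lib.Helper95SL

/-- two elements of `H` fixing the line with the same lower block are equal -/
lemma low_eq (hq : 5 ≤ Fintype.card F) (hn : 5 ≤ Fintype.card ι) (H : Subgroup (GL ι F))
    (hM : SMon ι F ≤ H) (hH : H ≤ specialLinear ι F) (hE : ¬ HasEl H) {i0 : ι} {h h' : GL ι F}
    {k : GL {a : ι // a ≠ i0} F} (h1 : h ∈ H) (h2 : h' ∈ H) (hh : FixL i0 h)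
    (hh' : FixL i0 h') (hk : IsLow i0 h k) (hk' : IsLow i0 h' k) : h = h' := by
  obtain ⟨φ, hφ⟩ := low_unique hh hh' hk hk'
  have hHas : Has H (e i0) φ := ⟨h * h'⁻¹, H.mul_mem h1 (H.inv_mem h2), hφ⟩
  have h0 : φ (e i0) = 0 := has_det hH hHas
  have hφ0 : φ = 0 := by
    by_contra hne
    exact hE (center_el (by omega) (by omega) H hM i0 φ hne h0 hHas)
  have h3 : h * h'⁻¹ = 1 := by
    apply gl_ext
    intro x
    rw [hφ, hφ0]
    simp
  exact mul_inv_eq_one.1 h3

/-- the case where the induced group contains `SL` is impossible -/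
lemma no_sl (hq : 5 ≤ Fintype.card F) (hn : 5 ≤ Fintype.card ι) (H : Subgroup (GL ι F))
    (hM : SMon ι F ≤ H) (hH : H ≤ specialLinear ι F) (hE : ¬ HasEl H) (i0 : ι)
    (hSL : specialLinear {a : ι // a ≠ i0} F ≤ lowImg H i0) : False := by
  classical
  have hcard : Fintype.card {a : ι // a ≠ i0} = Fintype.card ι - 1 := card_sub i0
  obtain ⟨⟨a, ha⟩, ⟨b, hb⟩, hab⟩ : ∃ a b : {a : ι // a ≠ i0}, a ≠ b :=
    Fintype.one_lt_card_iff.1 (by omega)
  have hab' : a ≠ b := fun h => hab (Subtype.ext h)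
  have hel : el _ _ hab (1 : F) ∈ specialLinear {a : ι // a ≠ i0} F := tv_mem_specialLinear _ _ _
  obtain ⟨h1, h1H, h1f, h1l⟩ := hSL hel
  obtain ⟨r, hr⟩ : ∃ r : Fˣ, r ≠ 1 := by
    have h2 : 1 < Fintype.card Fˣ := by
      rw [Fintype.card_units]
      omega
    exact Fintype.exists_ne_of_one_lt_card h2 1
  have hr' : (r : F) ≠ 1 := fun h => hr (Units.ext h)
  -- the entries of the lower block
  have hent : ∀ x y : ι, x ≠ i0 → y ≠ i0 → (h1 : Matrix ι ι F) x y =
      if x = a then (if a = y then 1 else 0) + (if b = y then 1 else 0)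
      else if x = y then 1 else 0 := by
    intro x y hx hy
    have h2 := h1l ⟨x, hx⟩ ⟨y, hy⟩
    have h3 := mulVec_e (el (⟨a, ha⟩ : {a : ι // a ≠ i0}) ⟨b, hb⟩ hab (1 : F)) ⟨y, hy⟩ ⟨x, hx⟩
    rw [el_mulVec_apply] at h3
    rw [← h2, ← h3]
    simp [Subtype.ext_iff]
  have hcol0 : ∀ x, x ≠ i0 → (h1 : Matrix ι ι F) x i0 = 0 := fixL_iff.1 h1f
  -- diagonal elements with equal entries at `a`, `b` centralise `h1`
  have hcent : ∀ d : ι → Fˣ, dg d ∈ SMon ι F → d a = d b → dg d * h1 * (dg d)⁻¹ = h1 := by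
    intro d hd hdab
    refine low_eq hq hn H hM hH hE (H.mul_mem (H.mul_mem (hM hd) h1H) (H.inv_mem (hM hd))) h1H
      (fixL_mul (fixL_mul (fixL_dg i0 d) h1f) (fixL_inv (fixL_dg i0 d))) h1f ?_ h1l
    rintro ⟨x, hx⟩ ⟨y, hy⟩
    rw [dg_conj_entry, h1l ⟨x, hx⟩ ⟨y, hy⟩]
    show (h1 : Matrix ι ι F) x y = (d x : F) * (h1 : Matrix ι ι F) x y * (((d y)⁻¹ : Fˣ) : F)
    rw [hent x y hx hy]
    by_cases hxa : x = a
    · rw [hxa]
      by_cases hya : a = y
      · rw [← hya]
        simp [hab'.symm]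
      · by_cases hyb : b = y
        · rw [← hyb, hdab]
          simp [hab']
        · simp [hya, hyb]
    · by_cases hxy : x = y
      · rw [← hxy]
        simp [hxa]
      · simp [hxa, hxy]
  -- the top row vanishes
  have hz : ∀ l, l ≠ i0 → (h1 : Matrix ι ι F) i0 l = 0 := by
    intro l hl
    obtain ⟨m, -, hm⟩ := Finset.exists_mem_notMem_of_card_lt_card
      (s := ({i0, a, b, l} : Finset ι)) (t := Finset.univ)
      (lt_of_le_of_lt Finset.card_le_four (by rw [Finset.card_univ]; omega))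
    simp only [Finset.mem_insert, Finset.mem_singleton, not_or] at hm
    obtain ⟨m0, ma, mb, ml⟩ := hm
    have h2 := hcent (fun k => if k = i0 then r else if k = m then r⁻¹ else 1)
      (d2_mem (Ne.symm m0) r) (by simp [ha, hb, Ne.symm ma, Ne.symm mb])
    have h3 := dg_conj_entry (fun k => if k = i0 then r else if k = m then r⁻¹ else 1) h1 i0 l
    rw [h2] at h3
    simp only [if_true, hl, Ne.symm ml, if_false, inv_one, Units.val_one, mul_one] at h3
    have h4 : ((r : F) - 1) * (h1 : Matrix ι ι F) i0 l = 0 := by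
      rw [sub_mul, one_mul, ← h3, sub_self]
    rcases mul_eq_zero.1 h4 with h5 | h5
    · exact absurd (sub_eq_zero.1 h5) hr'
    · exact h5
  -- closed form of `h1`
  have hrow0 : ∀ y : ι → F, ((h1 : Matrix ι ι F) *ᵥ y) i0 = (h1 : Matrix ι ι F) i0 i0 * y i0 := by
    intro y
    simp only [Matrix.mulVec, dotProduct]
    rw [Finset.sum_eq_single i0]
    · intro l _ hl
      rw [hz l hl, zero_mul]
    · simp
  have hrow : ∀ (y : ι → F) (x : ι), x ≠ i0 →
      ((h1 : Matrix ι ι F) *ᵥ y) x = y x + (if x = a then y b else 0) := by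
    intro y x hx
    have hent' : ∀ l, (h1 : Matrix ι ι F) x l =
        (if l = x then 1 else 0) + (if l = b then (if x = a then 1 else 0) else 0) := by
      intro l
      by_cases hl : l = i0
      · rw [hl, hcol0 x hx]
        simp [Ne.symm hx, Ne.symm hb]
      · rw [hent x l hx hl]
        by_cases hxa : x = a
        · simp [hxa, eq_comm]
        · simp [hxa, eq_comm]
    simp only [Matrix.mulVec, dotProduct, hent', add_mul, Finset.sum_add_distrib, ite_mul, one_mul,
      zero_mul, Finset.sum_ite_eq', Finset.mem_univ, if_true]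
  -- the final commutator
  obtain ⟨l, -, hl⟩ := Finset.exists_mem_notMem_of_card_lt_card
    (s := ({i0, a, b} : Finset ι)) (t := Finset.univ)
    (lt_of_le_of_lt Finset.card_le_three (by rw [Finset.card_univ]; omega))
  simp only [Finset.mem_insert, Finset.mem_singleton, not_or] at hl
  obtain ⟨l0, la, lb⟩ := hl
  set d : ι → Fˣ := fun k => if k = a then r else if k = l then r⁻¹ else 1 with hd
  have hdS : dg d ∈ SMon ι F := d2_mem (Ne.symm la) r
  have hda : d a = r := by simp [hd]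
  have hdb : d b = 1 := by simp [hd, hab'.symm, Ne.symm lb]
  have hd0 : d i0 = 1 := by simp [hd, Ne.symm ha, Ne.symm l0]
  have hHas : Has H (e a) (((r : F) - 1) • co b) := by
    refine ⟨dg d * h1 * (dg d)⁻¹ * h1⁻¹, H.mul_mem (H.mul_mem (H.mul_mem (hM hdS) h1H)
      (H.inv_mem (hM hdS))) (H.inv_mem h1H), ?_⟩
    intro x
    obtain ⟨y, rfl⟩ : ∃ y, x = (h1 : Matrix ι ι F) *ᵥ y :=
      ⟨((h1⁻¹ : GL ι F) : Matrix ι ι F) *ᵥ x, (mulVec_inv_mulVec h1 x).symm⟩
    rw [mul_mulVec, inv_mulVec_mulVec, mul_mulVec, mul_mulVec]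
    funext k
    rw [dg_apply]
    simp only [Pi.add_apply, Pi.smul_apply, LinearMap.smul_apply, co_apply, smul_eq_mul, e_apply]
    rw [hrow y b hb]
    by_cases hk : k = i0
    · rw [hk, hrow0, hrow0, dg_inv_apply, hd0]
      simp [Ne.symm ha]
    · rw [hrow _ k hk, hrow _ k hk, dg_inv_apply, dg_inv_apply, hdb]
      by_cases hka : k = a
      · rw [hka, hda]
        simp [hab'.symm]
        rw [mul_add, ← mul_assoc, mul_inv_cancel₀ r.ne_zero]
        ring
      · simp [hka]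
  refine hE (center_el (by omega) (by omega) H hM a _ ?_ ?_ hHas)
  · intro h0
    have h2 := congrArg (fun φ : Dual F (ι → F) => φ (e b)) h0
    simp at h2
    exact hr' (sub_eq_zero.1 h2)
  · simp [hab'.symm]

/-- the stabiliser in `H` of a coordinate line is monomial -/
lemma fix_mon (hq : 5 ≤ Fintype.card F) (hn : 5 ≤ Fintype.card ι) (H : Subgroup (GL ι F))
    (hM : SMon ι F ≤ H) (hH : H ≤ specialLinear ι F) (hE : ¬ HasEl H) (i0 : ι) (h : GL ι F)
    (hh : h ∈ H) (hf : FixL i0 h) : h ∈ Mon ι F := by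
  classical
  have hMK : Mon {a : ι // a ≠ i0} F ≤ lowImg H i0 := by
    intro k hk
    obtain ⟨m, hm, hmf, hml⟩ := exists_SMon_low i0 hk
    exact ⟨m, hM hm, hmf, hml⟩
  have hcard : Fintype.card {a : ι // a ≠ i0} = Fintype.card ι - 1 := card_sub i0
  by_cases hK : lowImg H i0 ≤ Mon {a : ι // a ≠ i0} F
  · obtain ⟨k, hk⟩ := exists_low hf
    have hkK : k ∈ lowImg H i0 := ⟨h, hh, hf, hk⟩
    obtain ⟨m, hm, hmf, hml⟩ := exists_SMon_low i0 (hK hkK)
    rw [low_eq hq hn H hM hH hE hh (hM hm) hf hmf hk hml]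
    exact hm.1
  · exact (no_sl hq hn H hM hH hE i0 (gl_main hq (by omega) (lowImg H i0) hMK hK)).elim

/-- **Step 1**: if `H` contains no elementary root subgroup, the stabilisers of the coordinate lines
are monomial -/
theorem stab_mon (hq : 5 ≤ Fintype.card F) (hn : 5 ≤ Fintype.card ι) (H : Subgroup (GL ι F))
    (hM : SMon ι F ≤ H) (hH : H ≤ specialLinear ι F) (hE : ¬ HasEl H) : NN H := by
  rintro h hh ⟨i, j, c, hc⟩
  obtain ⟨σ, d, hm, hσ⟩ := exists_move_one (F := F) (by omega) i j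
  have h1 : mon σ d * h ∈ Mon ι F := by
    apply fix_mon hq hn H hM hH hE j _ (H.mul_mem (hM hm) hh)
    refine ⟨c * (d i : F), ?_⟩
    rw [mul_mulVec, hc, Matrix.mulVec_smul, mon_e, hσ, smul_smul]
  have h2 : h = (mon σ d)⁻¹ * (mon σ d * h) := by group
  rw [h2]
  exact (Mon ι F).mul_mem ((Mon ι F).inv_mem hm.1) h1

end Cfsg.Agent.Lib.H65DecStabMon
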