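import Cfsg.Agent.Lib.H66SvGen

set_option autoImplicit false

/-! Project 496 (row S0496): the kernel runs the sieve up to 1092. -/

namespace Cfsg.Agent.Lib.H66SvArith

open Cfsg.Agent.Lib.H66SvGen

theorem arith : ∀ N ∈ Finset.range 1093, Sieved N ∨
    N ∈ ({60, 168, 360, 504, 660, 1092, 120, 180, 264, 336, 420, 480, 528, 560, 612, 672, 720, 756,
      760, 792, 840, 900, 960, 1008, 1040, 1056, 1080} : Finset ℕ) := by
  decide +kernel

end Cfsg.Agent.Lib.H66SvArith
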