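import Mathlib
import Cfsg.Agent.Lib.Helper21Simple
import Cfsg.Agent.Lib.Helper4Burnside
import Cfsg.Agent.S0073

set_option autoImplicit false

/-! Project 496 (row S0496): the generic sieve for orders of non-abelian simple groups. -/

namespace Cfsg.Agent.Lib.H66SvGen

open Subgroup Cfsg.Agent.Lib.Helper21Simple

/-- What Sylow's theorem, the embedding in `A_n` and Burnside's transfer theorem say about the
number of Sylow `p`-subgroups of a non-abelian simple group. -/
theorem sylow_data {G : Type*} [Group G] [Finite G] [IsSimpleGroup G]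
    (hG : ¬ IsMulCommutative G) {p a g : ℕ} [Fact p.Prime] (ha : 1 ≤ a)
    (hcard : Nat.card G = p ^ a * g) (hg : ¬ p ∣ g) :
    ∃ n, n ∣ g ∧ n % p = 1 ∧ n ≠ 1 ∧ 2 * Nat.card G ∣ n.factorial ∧
      (a = 1 → ∃ m, m ∣ p - 1 ∧ m ≠ 1 ∧ m * n ∣ g) ∧
      (a = 2 → ∃ s, s ≠ 1 ∧ s ∣ g ∧ (p ^ 2 % s = 1 % s ∨ p ^ 2 % s = p % s)) := by
  have hp : p.Prime := Fact.out
  obtain ⟨P⟩ : Nonempty (Sylow p G) := inferInstance
  obtain ⟨hP, hidx⟩ := sylow_card_index hcard hg P
  have hpG : p ∣ Nat.card G := by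
    rw [hcard]; exact Dvd.dvd.mul_right (dvd_pow_self p (by omega)) g
  have h1 : Nat.card (Sylow p G) ≡ 1 [MOD p] := card_sylow_modEq_one p G
  have h3 : Nat.card (Sylow p G) ≠ 1 := card_sylow_ne_one hG hpG
  have h4 := card_normalizer_mul_card_sylow P
  have h5 : Nat.card (Sylow p G) ∣ g := by
    have := P.card_dvd_index
    rwa [hidx] at this
  have h6 : (normalizer ((P : Subgroup G) : Set G)).index = Nat.card (Sylow p G) :=
    (Sylow.card_eq_index_normalizer P).symm
  have h7 : normalizer ((P : Subgroup G) : Set G) ≠ ⊤ := by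
    intro h
    rw [h, Subgroup.index_top] at h6
    exact h3 h6.symm
  have h8 := two_mul_card_dvd_factorial hG _ h7
  rw [h6] at h8
  refine ⟨Nat.card (Sylow p G), h5, ?_, h3, h8, ?_, ?_⟩
  · have := h1
    unfold Nat.ModEq at this
    rw [this, Nat.mod_eq_of_lt hp.one_lt]
  · intro ha1
    subst ha1
    rw [pow_one] at hP hcard
    have hcyc : IsCyclic (P : Subgroup G) := isCyclic_of_prime_card hP
    have h9 := relIndex_dvd_card_mulAut (P : Subgroup G)
    rw [hcyc.card_mulAut, hP, Nat.totient_prime hp] at h9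
    refine ⟨_, h9, ?_, ?_⟩
    · intro h10
      rw [Subgroup.relIndex_eq_one] at h10
      exact not_normalizer_le_centralizer hG P hpG h10
    · have h10 : (centralizer ((P : Subgroup G) : Set G)).relIndex
          (normalizer ((P : Subgroup G) : Set G)) ∣
          Nat.card (normalizer ((P : Subgroup G) : Set G)) := Subgroup.relIndex_dvd_card _ _
      have h11 : (centralizer ((P : Subgroup G) : Set G)).relIndex
          (normalizer ((P : Subgroup G) : Set G)) * Nat.card (Sylow p G) ∣ p * g := by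
        rw [← hcard, ← h4]
        exact Nat.mul_dvd_mul_right h10 _
      have hc1 : Nat.Coprime ((centralizer ((P : Subgroup G) : Set G)).relIndex
          (normalizer ((P : Subgroup G) : Set G))) p := by
        apply Nat.Coprime.symm
        rw [Nat.Prime.coprime_iff_not_dvd hp]
        intro hd
        have := Nat.le_of_dvd (by have := hp.two_le; omega) (hd.trans h9)
        have := hp.two_le
        omega
      have hc2 : Nat.Coprime (Nat.card (Sylow p G)) p := by
        apply Nat.Coprime.symm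
        rw [Nat.Prime.coprime_iff_not_dvd hp]
        intro hd
        exact hg (hd.trans h5)
      exact (Nat.Coprime.mul_left hc1 hc2).dvd_of_dvd_mul_left h11
  · intro ha2
    subst ha2
    obtain ⟨s, hs, hsd, hs2⟩ := exists_prime_of_sylow_sq hG P hP
    rw [hidx] at hsd
    exact ⟨s, hs.ne_one, hsd, hs2⟩

/-- first way to kill: no admissible Sylow number -/
def Kill1 (N p a g : ℕ) : Prop :=
  ∀ n ∈ Finset.range (g + 1), n ∣ g → n % p = 1 → n ≠ 1 → (n ≤ 8 → 2 * N ∣ n.factorial) →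
    (a = 1 ∧ ∀ m ∈ Finset.range p, m ∣ p - 1 → m ≠ 1 → ¬ m * n ∣ g)

instance (N p a g : ℕ) : Decidable (Kill1 N p a g) := by
  unfold Kill1; infer_instance

/-- second way to kill: a Sylow subgroup of order `p ^ 2` without automizer -/
def Kill2 (p a g : ℕ) : Prop :=
  a = 2 ∧ ∀ s ∈ Finset.range (g + 1), s ≠ 1 → s ∣ g →
    ¬ (p ^ 2 % s = 1 % s ∨ p ^ 2 % s = p % s)

instance (p a g : ℕ) : Decidable (Kill2 p a g) := by
  unfold Kill2; infer_instance

/-- the arithmetic condition under which the prime `p` (with `N = p ^ a * g`) kills the order `N` -/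
def Kill (N p a g : ℕ) : Prop := Kill1 N p a g ∨ Kill2 p a g

instance (N p a g : ℕ) : Decidable (Kill N p a g) := by
  unfold Kill; infer_instance

theorem not_kill {G : Type*} [Group G] [Finite G] [IsSimpleGroup G]
    (hG : ¬ IsMulCommutative G) {p a g : ℕ} (hp : p.Prime) (ha : 1 ≤ a)
    (hcard : Nat.card G = p ^ a * g) (hg : ¬ p ∣ g) : ¬ Kill (Nat.card G) p a g := by
  have : Fact p.Prime := ⟨hp⟩
  have hg0 : 0 < g := by
    rcases Nat.eq_zero_or_pos g with h | h
    · exact absurd (h ▸ dvd_zero p) hg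
    · exact h
  obtain ⟨n, hn1, hn2, hn3, hn4, hn5, hn6⟩ := sylow_data hG ha hcard hg
  rintro (h | ⟨ha2, h⟩)
  · obtain ⟨ha1, h⟩ := h n (Finset.mem_range.2 (Nat.lt_succ_of_le (Nat.le_of_dvd hg0 hn1)))
      hn1 hn2 hn3 (fun _ => hn4)
    obtain ⟨m, hm1, hm2, hm3⟩ := hn5 ha1
    have hp1 : 0 < p - 1 := by have := hp.two_le; omega
    exact h m (Finset.mem_range.2 (by have := Nat.le_of_dvd hp1 hm1; omega)) hm1 hm2 hm3
  · obtain ⟨s, hs1, hs2, hs3⟩ := hn6 ha2
    exact h s (Finset.mem_range.2 (Nat.lt_succ_of_le (Nat.le_of_dvd hg0 hs2))) hs1 hs2 hs3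

/-- the disjunction checked by the kernel for every `N` -/
def Sieved (N : ℕ) : Prop :=
  N ≤ 1 ∨
  (¬ N.minFac ^ 3 ∣ N ∧ ¬ 12 ∣ N) ∨
  (∃ q ∈ ({2, 3, 5, 7, 11, 13, 17, 19, 23, 29, 31} : Finset ℕ), ∃ b ∈ Finset.range 11,
      q ^ b ∣ N ∧ ∃ a ∈ Finset.range 11, N = (N / q ^ b).minFac ^ a * q ^ b) ∨
  (∃ p ∈ Finset.range 183, p ∣ N ∧ ∃ a ∈ Finset.range 11, 1 ≤ a ∧ N = p ^ a * (N / p ^ a) ∧
      ¬ p ∣ N / p ^ a ∧ p.Prime ∧ Kill N p a (N / p ^ a))

instance (N : ℕ) : Decidable (Sieved N) := by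
  unfold Sieved; infer_instance

theorem not_sieved {G : Type*} [Group G] [Finite G] [IsSimpleGroup G]
    (hG : ¬ IsMulCommutative G) : ¬ Sieved (Nat.card G) := by
  have hns : ¬ Group.IsSolvable G := by
    intro hs
    exact hG ⟨⟨IsSimpleGroup.comm_iff_isSolvable.2 hs⟩⟩
  rintro (h | h | h | h)
  · have := Finite.one_lt_card (α := G)
    omega
  · have hxy : ∃ x y : G, x * y ≠ y * x := by
      by_contra hc
      push Not at hc
      exact hG ⟨⟨hc⟩⟩
    rcases Cfsg.Agent.S0073.result hxy with h1 | h1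
    · exact h.1 h1
    · exact h.2 h1
  · obtain ⟨q, hq, b, -, -, a, -, hn⟩ := h
    have hq' : q.Prime := by
      simp only [Finset.mem_insert, Finset.mem_singleton] at hq
      rcases hq with rfl | rfl | rfl | rfl | rfl | rfl | rfl | rfl | rfl | rfl | rfl <;> norm_num
    by_cases hm : Nat.card G / q ^ b = 1
    · rw [hm, Nat.minFac_one, one_pow] at hn
      exact hns (Cfsg.Agent.Lib.Helper4Burnside.burnside_paqb 2 q 0 b (by norm_num) hq'
        (by rw [hn]; ring))
    · exact hns (Cfsg.Agent.Lib.Helper4Burnside.burnside_paqb _ q a b (Nat.minFac_prime hm) hq' hn)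
  · obtain ⟨p, -, -, a, -, ha, hN, hg, hp, hk⟩ := h
    exact not_kill hG hp ha hN hg hk

end Cfsg.Agent.Lib.H66SvGen
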