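import Mathlib
import Cfsg.Agent.S0985
import Cfsg.Agent.Lib.Helper21Simple

set_option autoImplicit false

/-! Project 496: no simple group of order `2 ^ a * 15`, `a ≥ 4` (in particular 480 and 960). -/

namespace Cfsg.Agent.Lib.H66SvN480

theorem n2_aux : ∀ n : ℕ, n ≤ 15 → n % 2 = 1 → 15 % n = 0 → 6 ≤ n → n = 15 := by decide

theorem r_aux : ∀ r : ℕ, r ≤ 15 → ∀ j : ℕ, j ≤ 15 → r * j = 15 → 2 ≤ r → 6 ≤ j → False := by decide

theorem not_simple_pow {G : Type*} [Group G] [Finite G] [IsSimpleGroup G] (a : ℕ) (ha : 4 ≤ a) :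
    Nat.card G ≠ 2 ^ a * 15 := by
  intro h
  classical
  have : Fact (Nat.Prime 2) := ⟨by norm_num⟩
  have h16 : 16 ≤ 2 ^ a := by
    calc 16 = 2 ^ 4 := by norm_num
      _ ≤ 2 ^ a := Nat.pow_le_pow_right (by norm_num) ha
  have hnc : ¬ IsMulCommutative G :=
    Cfsg.Agent.Lib.Helper21Simple.not_comm_of_not_prime (by
      rw [h]
      exact Nat.not_prime_mul (by omega) (by norm_num))
  -- every proper subgroup has index at least 6
  have key : ∀ H : Subgroup G, H ≠ ⊤ → 6 ≤ H.index := by
    intro H hH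
    have h1 := Cfsg.Agent.Lib.Helper21Simple.two_mul_card_dvd_factorial hnc H hH
    rw [h] at h1
    by_contra hlt
    have h2 : (H.index).factorial ∣ (5 : ℕ).factorial := Nat.factorial_dvd_factorial (by omega)
    have h3 : 2 * (2 ^ a * 15) ∣ (5 : ℕ).factorial := h1.trans h2
    have h4 := Nat.le_of_dvd (by decide) h3
    have h5 : (5 : ℕ).factorial = 120 := by decide
    omega
  have hnorm : ∀ D : Subgroup G, D ≠ ⊥ → D ≠ ⊤ → Subgroup.normalizer (D : Set G) ≠ ⊤ := by
    intro D h1 h2 h3
    have hn : D.Normal := Subgroup.normalizer_eq_top_iff.mp h3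
    rcases hn.eq_bot_or_eq_top with h4 | h4
    · exact h1 h4
    · exact h2 h4
  have hcardP : ∀ P : Sylow 2 G, Nat.card (P : Subgroup G) = 2 ^ a := by
    intro P
    exact (Cfsg.Agent.Lib.Helper21Simple.sylow_card_index (p := 2) (a := a) (m := 15)
      h (by norm_num) P).1
  have hne_top : ∀ D : Subgroup G, Nat.card D ≤ 2 ^ a → D ≠ ⊤ := by
    intro D hD hT
    rw [hT, Subgroup.card_top, h] at hD
    omega
  have hne_bot : ∀ D : Subgroup G, 2 ≤ Nat.card D → D ≠ ⊥ := by
    intro D hD hT
    rw [hT, Subgroup.card_bot] at hD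
    omega
  obtain ⟨P0⟩ : Nonempty (Sylow 2 G) := inferInstance
  have hn2 : Nat.card (Sylow 2 G) = 15 := by
    have h1 : Nat.card (Sylow 2 G) ≡ 1 [MOD 2] := card_sylow_modEq_one 2 G
    have h2 : Nat.card (Sylow 2 G) ∣ (P0 : Subgroup G).index := P0.card_dvd_index
    have h3 : (P0 : Subgroup G).index = 15 :=
      (Cfsg.Agent.Lib.Helper21Simple.sylow_card_index (p := 2) (a := a) (m := 15)
        h (by norm_num) P0).2
    rw [h3] at h2
    have h4 : 6 ≤ Nat.card (Sylow 2 G) := by
      rw [P0.card_eq_index_normalizer]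
      exact key _ (hnorm _ (hne_bot _ (by rw [hcardP]; omega)) (hne_top _ (by rw [hcardP])))
    have h5 : Nat.card (Sylow 2 G) ≤ 15 := Nat.le_of_dvd (by norm_num) h2
    exact n2_aux _ h5 h1 (Nat.mod_eq_zero_of_dvd h2) h4
  have hcr : ∀ H K : Subgroup G, H ≤ K → Nat.card H * H.relIndex K = Nat.card K := by
    intro H K hHK
    have := Subgroup.relIndex_mul_relIndex ⊥ H K bot_le hHK
    rwa [Subgroup.relIndex_bot_left, Subgroup.relIndex_bot_left] at this
  obtain ⟨P, R, hPR, hidx⟩ := Cfsg.Agent.S0985.result (G := G) 2 2 (by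
    rw [hn2]; decide)
  have hidx' : (R : Subgroup G).relIndex (P : Subgroup G) ≤ 2 := by
    simpa [Subgroup.relIndex] using hidx
  have hrel1 : ∀ P R : Sylow 2 G, P ≠ R → (R : Subgroup G).relIndex (P : Subgroup G) ≠ 1 := by
    intro P R hPR h1
    have h2 : (P : Subgroup G) ≤ (R : Subgroup G) := Subgroup.relIndex_eq_one.mp h1
    apply hPR
    apply Sylow.ext
    exact Subgroup.eq_of_le_of_card_ge h2 (by rw [hcardP, hcardP])
  have hrel0 : (R : Subgroup G).relIndex (P : Subgroup G) ≠ 0 := by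
    intro h0
    have : Finite (P : Subgroup G) := inferInstance
    exact Subgroup.index_ne_zero_of_finite h0
  have hrel2 : (R : Subgroup G).relIndex (P : Subgroup G) = 2 := by
    have := hrel1 P R hPR
    omega
  set D : Subgroup G := (R : Subgroup G) ⊓ (P : Subgroup G) with hD
  have hDP : Nat.card D * 2 = 2 ^ a := by
    have h1 := hcr D (P : Subgroup G) inf_le_right
    rwa [hD, Subgroup.inf_relIndex_right, hcardP, ← hD, hrel2] at h1
  have hrel2' : (P : Subgroup G).relIndex (R : Subgroup G) = 2 := by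
    have h1 := hcr D (R : Subgroup G) inf_le_left
    rw [hD, Subgroup.inf_relIndex_left, hcardP, ← hD] at h1
    have h2 : 0 < Nat.card D := Nat.card_pos
    nlinarith
  -- a subgroup of index two is normal
  have hle : ∀ Q : Subgroup G, D ≤ Q → D.relIndex Q = 2 →
      Q ≤ Subgroup.normalizer (D : Set G) := by
    intro Q hDQ h2
    have hn : (D.subgroupOf Q).Normal := Subgroup.normal_of_index_eq_two h2
    exact (Subgroup.normal_subgroupOf_iff_le_normalizer hDQ).mp hn
  have hPN := hle P inf_le_right (by rw [hD, Subgroup.inf_relIndex_right, hrel2])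
  have hRN := hle R inf_le_left (by rw [hD, Subgroup.inf_relIndex_left, hrel2'])
  set N := Subgroup.normalizer (D : Set G) with hN
  have hNtop : N ≠ ⊤ := hnorm D (hne_bot _ (by omega)) (hne_top _ (by omega))
  have hNidx := key N hNtop
  have h1 : (R : Subgroup G).relIndex (P : Subgroup G) ≤ (R : Subgroup G).relIndex N :=
    Subgroup.relIndex_le_of_le_right hPN (by
      intro h0
      have h5 := hcr (R : Subgroup G) N hRN
      rw [h0, mul_zero] at h5
      exact Nat.card_pos.ne h5)
  have h2 : 2 ^ a * (R : Subgroup G).relIndex N = Nat.card N := by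
    have h5 := hcr (R : Subgroup G) N hRN
    rwa [hcardP] at h5
  have h3 := N.card_mul_index
  rw [h, ← h2, mul_assoc] at h3
  have h4 : (R : Subgroup G).relIndex N * N.index = 15 :=
    Nat.eq_of_mul_eq_mul_left (by omega) h3
  rw [hrel2] at h1
  have h5 : (R : Subgroup G).relIndex N ≤ 15 :=
    Nat.le_of_dvd (by norm_num) (Dvd.intro _ h4)
  have h6 : N.index ≤ 15 := Nat.le_of_dvd (by norm_num) (Dvd.intro_left _ h4)
  exact r_aux _ h5 _ h6 h4 h1 hNidx

theorem not_simple {G : Type*} [Group G] [Finite G] [IsSimpleGroup G] : Nat.card G ≠ 480 := by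
  have := not_simple_pow (G := G) 5 (by norm_num)
  simpa using this

end Cfsg.Agent.Lib.H66SvN480
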