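import Cfsg.Agent.Lib.H66SvN480

set_option autoImplicit false

/-! Project 496: no simple group of order 960. -/

namespace Cfsg.Agent.Lib.H66SvN960

theorem not_simple {G : Type*} [Group G] [Finite G] [IsSimpleGroup G] : Nat.card G ≠ 960 := by
  have := Cfsg.Agent.Lib.H66SvN480.not_simple_pow (G := G) 6 (by norm_num)
  simpa using this

end Cfsg.Agent.Lib.H66SvN960
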