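import Mathlib
import Cfsg.Agent.Lib.H67CADefs
import Cfsg.Agent.Lib.H67CATvRel
import Cfsg.Agent.Lib.Helper10BPSlgen
import Cfsg.Agent.S0249

/-! Project 3351 (CA), piece `Fin`.
A simple quotient of `SL_n(F)`, `n ≥ 3`, is `PSL_n(F)`.
-/

set_option autoImplicit false

namespace Cfsg.Agent.Lib.H67CAFin

open Matrix Cfsg.Agent.Lib.Helper43St Cfsg.Agent.Lib.Helper43Gl Cfsg.Agent.Lib.H67CADefs

theorem exists_third {n : ℕ} (hn : 3 ≤ n) (i k : Fin n) : ∃ j : Fin n, i ≠ j ∧ j ≠ k := by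
  by_contra hcon
  push Not at hcon
  have h0 := hcon ⟨0, by omega⟩
  have h1 := hcon ⟨1, by omega⟩
  have h2 := hcon ⟨2, by omega⟩
  simp only [Fin.ext_iff, ne_eq] at h0 h1 h2
  omega

theorem not_comm {G : Type*} [Group G] [Nontrivial G] {n : ℕ} (hn : 3 ≤ n) {F : Type*} [Field F]
    (Ψ : SpecialLinearGroup (Fin n) F →* G) (hΨ : Function.Surjective Ψ) :
    ¬ ∀ a b : G, a * b = b * a := by
  intro hc
  have h1 : ∀ (i k : Fin n) (t : F), i ≠ k → Ψ (tv i k t) = 1 := by
    intro i k t hik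
    obtain ⟨j, hij, hjk⟩ := exists_third hn i k
    have h2 := H67CATvRel.tv_cm i j k hij hjk hik t (1 : F)
    rw [mul_one] at h2
    rw [← h2]
    unfold cm
    rw [map_mul, map_mul, map_mul, map_inv, map_inv, hc (Ψ (tv i j t)) (Ψ (tv j k 1))]
    group
  have h2 : Ψ.ker = ⊤ := by
    rw [eq_top_iff, ← Cfsg.Agent.Lib.Helper10BPSlgen.sl_gen (by omega : 2 ≤ n) F, Subgroup.closure_le]
    rintro _ ⟨i, j, t, hij, rfl⟩
    exact h1 i j t hij
  obtain ⟨g, hg⟩ := exists_ne (1 : G)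
  obtain ⟨A, rfl⟩ := hΨ g
  apply hg
  have : A ∈ Ψ.ker := by rw [h2]; exact Subgroup.mem_top A
  exact this

theorem iso_psl {G : Type*} [Group G] [IsSimpleGroup G] {n : ℕ} (hn : 3 ≤ n) {F : Type*} [Field F]
    (Ψ : SpecialLinearGroup (Fin n) F →* G) (hΨ : Function.Surjective Ψ) :
    Nonempty (G ≃* Matrix.ProjectiveSpecialLinearGroup (Fin n) F) := by
  haveI : Nontrivial G := IsSimpleGroup.toNontrivial
  have hnc := not_comm hn Ψ hΨ
  have hZ : Subgroup.center G = ⊥ := by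
    rcases IsSimpleGroup.eq_bot_or_eq_top_of_normal (Subgroup.center G) inferInstance with h | h
    · exact h
    · exfalso
      apply hnc
      intro a b
      have hb : b ∈ Subgroup.center G := by rw [h]; exact Subgroup.mem_top b
      exact (Subgroup.mem_center_iff.mp hb a)
  have hle : Subgroup.center (SpecialLinearGroup (Fin n) F) ≤ Ψ.ker := by
    intro z hz
    have h1 : Ψ z ∈ Subgroup.center G := by
      rw [Subgroup.mem_center_iff]
      intro g
      obtain ⟨A, rfl⟩ := hΨ g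
      rw [← map_mul, ← map_mul, Subgroup.mem_center_iff.mp hz A]
    rw [hZ, Subgroup.mem_bot] at h1
    exact h1
  let Ψ' : Matrix.ProjectiveSpecialLinearGroup (Fin n) F →* G :=
    QuotientGroup.lift (Subgroup.center (SpecialLinearGroup (Fin n) F)) Ψ hle
  have hs : Function.Surjective Ψ' := by
    intro g
    obtain ⟨A, rfl⟩ := hΨ g
    exact ⟨QuotientGroup.mk A, rfl⟩
  haveI : IsSimpleGroup (Matrix.ProjectiveSpecialLinearGroup (Fin n) F) := Cfsg.Agent.S0249.result n hn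
  have hinj : Function.Injective Ψ' := by
    rw [← MonoidHom.ker_eq_bot_iff]
    rcases IsSimpleGroup.eq_bot_or_eq_top_of_normal Ψ'.ker inferInstance with h | h
    · exact h
    · exfalso
      obtain ⟨g, hg⟩ := exists_ne (1 : G)
      obtain ⟨A, rfl⟩ := hs g
      apply hg
      have : A ∈ Ψ'.ker := by rw [h]; exact Subgroup.mem_top A
      exact this
  exact ⟨(MulEquiv.ofBijective Ψ' ⟨hinj, hs⟩).symm⟩

end Cfsg.Agent.Lib.H67CAFin
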