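import Mathlib

set_option autoImplicit false

namespace Cfsg.Agent.Lib.H68SFCube

/-- PURE MATHLIB.  `Nat.find` the least `i` with `r ^ 3 ^ i ∈ C` (exists: `i = k`); `i ≠ 0` since `r ^ 3 ^ 0 = r ∉ C`; `j := i - 1`; `(r ^ 3 ^ j) ^ 3 = r ^ 3 ^ (j + 1)` (`← pow_mul`, `pow_succ`). -/
theorem exists_cube {X : Type*} [Group X] (C : Subgroup X) (r : X) (hr : ∃ k : ℕ, r ^ 3 ^ k = 1) (hC : r ∉ C) :
    ∃ j : ℕ, r ^ 3 ^ j ∉ C ∧ (r ^ 3 ^ j) ^ 3 ∈ C := by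
  classical
  obtain ⟨k, hk⟩ := hr
  have hex : ∃ i : ℕ, r ^ 3 ^ i ∈ C := ⟨k, by rw [hk]; exact C.one_mem⟩
  have hi := Nat.find_spec hex
  have hi0 : Nat.find hex ≠ 0 := by
    intro h0
    rw [h0] at hi
    simp only [pow_zero, pow_one] at hi
    exact hC hi
  obtain ⟨j, hj⟩ := Nat.exists_eq_succ_of_ne_zero hi0
  refine ⟨j, Nat.find_min hex (by omega), ?_⟩
  rw [← pow_mul, ← pow_succ, ← Nat.succ_eq_add_one, ← hj]
  exact hi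

end Cfsg.Agent.Lib.H68SFCube
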