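import Mathlib

set_option autoImplicit false

namespace Cfsg.Agent.Lib.H68SFEltsA

/-- PURE MATHLIB.  `N := (Equiv.Perm.sign.comp φ).ker` (normal), `P : Sylow 3 ↥N := default`, `R := (P : Subgroup ↥N).map N.subtype` (a `3`-group: `P.isPGroup'.map _`).
Frattini: `Sylow.normalizer_sup_eq_top P : (R).normalizer ⊔ N = ⊤`.  Choose `x` with `φ x = swap 0 1`; `x = a * n`, `a ∈ normalizer R`, `n ∈ N`
(`Subgroup.mem_sup`/`Subgroup.mul_normal`), so `sign (φ a) = -1`.  `t := a ^ m`, where `orderOf a = 2 ^ k * m`, `m` odd (`Nat.exists_eq_two_pow_mul_odd`):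
`t ^ 2 ^ k = 1`, `sign (φ t) = (-1) ^ m = -1`, and `t` normalises `R` (`Subgroup.pow_mem`, `Subgroup.mem_normalizer_iff`).
Some `r ∈ R` has `φ r ≠ 1`: otherwise `P ≤ K := (φ.comp N.subtype).ker`, and `3 ∣ K.index` (`Subgroup.index_ker`; the range of `φ.comp N.subtype` contains an element of order `3`: a preimage `y` of
the `3`-cycle `c` lies in `N` since `sign c = 1`; `orderOf_dvd_natCard`), so `3 ∣ (P : Subgroup ↥N).index` (`Subgroup.index_dvd_of_le`), contradiction with `Sylow.not_dvd_index`. -/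
theorem exists_RT {X : Type*} [Group X] [Finite X] (φ : X →* Equiv.Perm (Fin 3)) (hφ : Function.Surjective φ) :
    ∃ (R : Subgroup X) (t : X), IsPGroup 3 R ∧ (∃ r ∈ R, φ r ≠ 1) ∧ (∃ k : ℕ, t ^ 2 ^ k = 1) ∧
      (∀ x ∈ R, t * x * t⁻¹ ∈ R) ∧ Equiv.Perm.sign (φ t) = -1 := by
  classical
  have : Fact (Nat.Prime 3) := ⟨by norm_num⟩
  set N := (Equiv.Perm.sign.comp φ).ker with hN
  let P : Sylow 3 ↥N := default
  set R := (P : Subgroup ↥N).map N.subtype with hR
  have hRp : IsPGroup 3 R := P.isPGroup'.map _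
  have hfr : Subgroup.normalizer (R : Set X) ⊔ N = ⊤ := Sylow.normalizer_sup_eq_top P
  obtain ⟨x, hx⟩ := hφ (Equiv.swap 0 1)
  have hxtop : x ∈ Subgroup.normalizer (R : Set X) ⊔ N := by rw [hfr]; trivial
  obtain ⟨a, ha, n, hn, rfl⟩ := Subgroup.mem_sup_of_normal_right.1 hxtop
  have hsa : Equiv.Perm.sign (φ a) = -1 := by
    have h1 : Equiv.Perm.sign (φ (a * n)) = -1 := by
      rw [hx]; exact Equiv.Perm.sign_swap (by decide)
    have h2 : Equiv.Perm.sign (φ n) = 1 := hn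
    rw [map_mul, map_mul, h2, mul_one] at h1
    exact h1
  obtain ⟨k, m, hm, hkm⟩ := Nat.exists_eq_two_pow_mul_odd (orderOf_pos a).ne'
  refine ⟨R, a ^ m, hRp, ?_, ⟨k, ?_⟩, ?_, ?_⟩
  · by_contra hcon
    push Not at hcon
    set K := (φ.comp N.subtype).ker with hK
    have hPK : (P : Subgroup ↥N) ≤ K := by
      intro y hy
      exact hcon (y : X) ⟨y, hy, rfl⟩
    let c : Equiv.Perm (Fin 3) := Equiv.swap 0 1 * Equiv.swap 1 2
    obtain ⟨y, hy⟩ := hφ c
    have hyN : y ∈ N := by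
      show Equiv.Perm.sign (φ y) = 1
      rw [hy]; decide
    have hc3 : orderOf c = 3 := orderOf_eq_prime (by decide) (by decide)
    have hcr : c ∈ (φ.comp N.subtype).range := ⟨⟨y, hyN⟩, hy⟩
    have h3 : 3 ∣ Nat.card (φ.comp N.subtype).range := by
      have h4 := orderOf_dvd_natCard (⟨c, hcr⟩ : (φ.comp N.subtype).range)
      rwa [Subgroup.orderOf_mk, hc3] at h4
    rw [← Subgroup.index_ker] at h3
    exact P.not_dvd_index (h3.trans (Subgroup.index_dvd_of_le hPK))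
  · rw [← pow_mul, mul_comm, ← hkm, pow_orderOf_eq_one]
  · intro x hx
    have h1 : a ^ m ∈ Subgroup.normalizer (R : Set X) := Subgroup.pow_mem _ ha m
    exact (Subgroup.mem_normalizer_iff.1 h1 x).1 hx
  · rw [map_pow, map_pow, hsa]
    exact hm.neg_one_pow

end Cfsg.Agent.Lib.H68SFEltsA
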