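import Mathlib

set_option autoImplicit false

namespace Cfsg.Agent.Lib.H68SFEltsB

/-- PURE MATHLIB.  `Ω := {x : ↥R // φ x = φ r₀}`.  `x ↦ r₀⁻¹ * x` is a bijection of `Ω` onto `(φ.comp R.subtype).ker`, a subgroup of the `3`-group `R`, so `Nat.card Ω = 3 ^ m` is odd
(`IsPGroup.iff_card`, `IsPGroup.to_subgroup`).   `θ x := t * x⁻¹ * t⁻¹` maps `Ω` to `Ω`: `φ r₀ ≠ 1` has `3`-power order (so `(φ r₀) ^ 3 = 1`, all of this by `decide` over `Perm (Fin 3)`: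
`∀ c τ : Perm (Fin 3), sign c = 1 → sign τ = -1 → τ * c⁻¹ * τ⁻¹ = c`; `sign (φ r₀) = 1` because `sign` of an element of odd order is `1`).
`θ (θ x) = t ^ 2 * x * (t ^ 2)⁻¹`, hence `θ ^ (2 ^ (k + 1)) = id` (`(θ ∘ θ)^[n] x = t^(2n) x t^(-2n)`).   `Equiv.Perm.card_fixedPoints_modEq` (for `f : Function.End Ω`, `f ^ 2 ^ n = 1`):
`card Ω ≡ card (fixedPoints) [MOD 2]`, so there is a fixed point `r`: `t * r⁻¹ * t⁻¹ = r`, i.e. `t * r * t⁻¹ = r⁻¹`; `φ r = φ r₀ ≠ 1`. -/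
theorem exists_inverted {X : Type*} [Group X] [Finite X] (φ : X →* Equiv.Perm (Fin 3)) (R : Subgroup X) (t : X)
    (hR : IsPGroup 3 R) (r₀ : X) (hr₀ : r₀ ∈ R) (hφr : φ r₀ ≠ 1) (ht : ∃ k : ℕ, t ^ 2 ^ k = 1)
    (hn : ∀ x ∈ R, t * x * t⁻¹ ∈ R) (hs : Equiv.Perm.sign (φ t) = -1) :
    ∃ r ∈ R, t * r * t⁻¹ = r⁻¹ ∧ φ r ≠ 1 := by
  classical
  obtain ⟨k, hk⟩ := ht
  have : Fact (Nat.Prime 2) := ⟨Nat.prime_two⟩
  have : Fact (Nat.Prime 3) := ⟨by norm_num⟩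
  have hsr : ∀ x ∈ R, Equiv.Perm.sign (φ x) = 1 := by
    intro x hx
    obtain ⟨j, hj⟩ := hR ⟨x, hx⟩
    have hxj : x ^ 3 ^ j = 1 := by simpa using congrArg Subtype.val hj
    have h1 : (Equiv.Perm.sign (φ x)) ^ 3 ^ j = 1 := by
      rw [← map_pow, ← map_pow, hxj, map_one, map_one]
    rcases Int.units_eq_one_or (Equiv.Perm.sign (φ x)) with h | h
    · exact h
    · rw [h, Odd.neg_one_pow (Odd.pow (by decide))] at h1
      exact absurd h1 (by decide)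
  have key : ∀ c τ : Equiv.Perm (Fin 3), Equiv.Perm.sign c = 1 → Equiv.Perm.sign τ = -1 →
      τ * c⁻¹ * τ⁻¹ = c := by decide
  let Ω := {x : X // x ∈ R ∧ φ x = φ r₀}
  let θ : Function.End Ω := fun x => ⟨t * x.1⁻¹ * t⁻¹, hn _ (R.inv_mem x.2.1), by
     rw [map_mul, map_mul, map_inv, map_inv, x.2.2]; exact key _ _ (hsr r₀ hr₀) hs⟩
  have hθθ : ∀ n : ℕ, ∀ x : Ω, (((θ * θ) ^ n) x).1 = (t ^ 2) ^ n * x.1 * ((t ^ 2) ^ n)⁻¹ := by
    intro n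
    induction n with
    | zero =>
      intro x
      rw [pow_zero, pow_zero]
      show x.1 = 1 * x.1 * 1⁻¹
      simp
    | succ n ih =>
      intro x
      rw [pow_succ]
      show (((θ * θ) ^ n) (θ (θ x))).1 = _
      rw [ih]
      show (t ^ 2) ^ n * (t * (t * x.1⁻¹ * t⁻¹)⁻¹ * t⁻¹) * ((t ^ 2) ^ n)⁻¹ = _
      rw [pow_succ (t ^ 2) n]
      group
  have hθ : θ ^ 2 ^ (k + 1) = 1 := by
    funext x
    apply Subtype.ext
    rw [pow_succ, mul_comm, pow_mul, pow_two θ, hθθ, ← pow_mul, mul_comm, pow_mul, hk]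
    show 1 ^ 2 * x.1 * (1 ^ 2)⁻¹ = x.1
    simp
  set K := (φ.comp R.subtype).ker with hK
  let e : Ω ≃ K :=
    { toFun := fun x => ⟨⟨r₀⁻¹ * x.1, R.mul_mem (R.inv_mem hr₀) x.2.1⟩, by
        show φ (r₀⁻¹ * x.1) = 1
        rw [map_mul, map_inv, x.2.2, inv_mul_cancel]⟩
      invFun := fun y => ⟨r₀ * y.1.1, R.mul_mem hr₀ y.1.2, by
        have h1 : φ y.1.1 = 1 := y.2
        rw [map_mul, h1, mul_one]⟩
      left_inv := fun x => by apply Subtype.ext; simp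
      right_inv := fun y => by apply Subtype.ext; apply Subtype.ext; simp }
  obtain ⟨m, hm⟩ := IsPGroup.iff_card.1 (hR.to_subgroup K)
  have : Fintype Ω := Fintype.ofFinite Ω
  have hcard : Fintype.card Ω = 3 ^ m := by
    rw [← Nat.card_eq_fintype_card, Nat.card_congr e, hm]
  have hmod := Equiv.Perm.card_fixedPoints_modEq (f := θ) (p := 2) (n := k + 1) hθ
  by_contra hcon
  push Not at hcon
  have hemp : IsEmpty (Function.fixedPoints θ) := by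
    constructor
    rintro ⟨x, hx⟩
    have h1 : t * x.1⁻¹ * t⁻¹ = x.1 := congrArg Subtype.val hx
    have h2 : t * x.1 * t⁻¹ = x.1⁻¹ := by
      have h7 : x.1⁻¹ = (t * x.1⁻¹ * t⁻¹)⁻¹ := by rw [h1]
      rw [h7]; group
    have h3 := hcon x.1 x.2.1 h2
    rw [x.2.2] at h3
    exact hφr h3
  have h0 : Fintype.card (Function.fixedPoints θ) = 0 := Fintype.card_eq_zero
  rw [h0, hcard] at hmod
  have h5 : Odd (3 ^ m) := Odd.pow (by decide)
  rw [Nat.odd_iff] at h5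
  have h6 : 3 ^ m % 2 = 0 := hmod
  omega

end Cfsg.Agent.Lib.H68SFEltsB
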