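import Mathlib

set_option autoImplicit false

namespace Cfsg.Agent.Lib.H68SFEA

/-- PURE MATHLIB.  A minimal normal subgroup which is a `2`-group is elementary abelian.  (If `T = ⊥` trivial.)
(i) `U₁ := (Subgroup.center ↥T).map T.subtype = {a ∈ T | ∀ b ∈ T, a * b = b * a}` is normal in `L` (conjugate the defining condition, `T` normal), `≤ T`, and `≠ ⊥` when `T ≠ ⊥`
(`IsPGroup.center_nontrivial hT`), so `U₁ = T`: `T` is commutative.
(ii) `U₂ := {a ∈ T | a ^ 2 = 1}` is a subgroup (`mul_pow` for commuting elements: `Commute.mul_pow`), normal in `L` (`conj_pow`), `≠ ⊥`: take `a ∈ T`, `a ≠ 1`, `orderOf a = 2 ^ (k+1)` (`hT`, `Nat.dvd_prime_pow`), then `a ^ 2 ^ k ∈ U₂` is `≠ 1`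
(or `exists_prime_orderOf_dvd_card` in `↥T`).  So `U₂ = T`. -/
theorem ea {L : Type*} [Group L] [Finite L] (T : Subgroup L) [T.Normal] (hT : IsPGroup 2 T)
    (hmin : ∀ U : Subgroup L, U.Normal → U ≤ T → U = ⊥ ∨ U = T) :
    (∀ a ∈ T, ∀ b ∈ T, a * b = b * a) ∧ ∀ a ∈ T, a ^ 2 = 1 := by
  by_cases hbot : T = ⊥
  · subst hbot
    refine ⟨?_, ?_⟩
    · intro a ha b hb
      rw [Subgroup.mem_bot] at ha hb; rw [ha, hb]
    · intro a ha; rw [Subgroup.mem_bot] at ha; rw [ha, one_pow]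
  have hcomm : ∀ a ∈ T, ∀ b ∈ T, a * b = b * a := by
    let U₁ : Subgroup L :=
      { carrier := {a | a ∈ T ∧ ∀ b ∈ T, a * b = b * a}
        one_mem' := ⟨T.one_mem, fun b _ => by simp⟩
        mul_mem' := by
          rintro a a' ⟨ha, ha2⟩ ⟨ha', ha2'⟩
          refine ⟨T.mul_mem ha ha', fun b hb => ?_⟩
          rw [mul_assoc, ha2' b hb, ← mul_assoc, ha2 b hb, mul_assoc]
        inv_mem' := by
          rintro a ⟨ha, ha2⟩
          refine ⟨T.inv_mem ha, fun b hb => ?_⟩
          have h1 := ha2 b hb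
          calc a⁻¹ * b = a⁻¹ * (b * a) * a⁻¹ := by group
            _ = a⁻¹ * (a * b) * a⁻¹ := by rw [h1]
            _ = b * a⁻¹ := by group }
    have hn : U₁.Normal := by
      constructor
      rintro a ⟨ha, ha2⟩ g
      refine ⟨Subgroup.Normal.conj_mem inferInstance a ha g, fun b hb => ?_⟩
      have hb' : g⁻¹ * b * g ∈ T := by
        simpa using Subgroup.Normal.conj_mem (inferInstance : T.Normal) b hb g⁻¹
      have h1 := ha2 _ hb'
      calc g * a * g⁻¹ * b = g * (a * (g⁻¹ * b * g)) * g⁻¹ := by group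
        _ = g * ((g⁻¹ * b * g) * a) * g⁻¹ := by rw [h1]
        _ = b * (g * a * g⁻¹) := by group
    have hle : U₁ ≤ T := fun a ha => ha.1
    rcases hmin U₁ hn hle with h | h
    · exfalso
      haveI : Nontrivial T := (Subgroup.nontrivial_iff_ne_bot T).2 hbot
      haveI : Fact (Nat.Prime 2) := ⟨Nat.prime_two⟩
      haveI := hT.center_nontrivial
      obtain ⟨z, hz⟩ := exists_ne (1 : Subgroup.center T)
      have hz1 : ((z : T) : L) ∈ U₁ := ⟨(z : T).2, fun b hb => by
        have h1 := Subgroup.mem_center_iff.1 z.2 ⟨b, hb⟩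
        exact (congrArg Subtype.val h1).symm⟩
      rw [h, Subgroup.mem_bot] at hz1
      apply hz
      apply Subtype.ext
      apply Subtype.ext
      exact hz1
    · intro a ha b hb
      have h1 : a ∈ U₁ := by rw [h]; exact ha
      exact h1.2 b hb
  refine ⟨hcomm, ?_⟩
  let U₂ : Subgroup L :=
    { carrier := {a | a ∈ T ∧ a ^ 2 = 1}
      one_mem' := ⟨T.one_mem, one_pow 2⟩
      mul_mem' := by
        rintro a b ⟨ha, ha2⟩ ⟨hb, hb2⟩
        refine ⟨T.mul_mem ha hb, ?_⟩
        rw [(show Commute a b from hcomm a ha b hb).mul_pow, ha2, hb2, one_mul]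
      inv_mem' := by
        rintro a ⟨ha, ha2⟩
        exact ⟨T.inv_mem ha, by rw [inv_pow, ha2, inv_one]⟩ }
  have hn : U₂.Normal := by
    constructor
    rintro a ⟨ha, ha2⟩ g
    exact ⟨Subgroup.Normal.conj_mem inferInstance a ha g, by rw [conj_pow, ha2]; group⟩
  rcases hmin U₂ hn (fun a ha => ha.1) with h | h
  · exfalso
    haveI : Fact (Nat.Prime 2) := ⟨Nat.prime_two⟩
    have h2 : 2 ∣ Nat.card T := by
      obtain ⟨n, hn⟩ := IsPGroup.iff_card.1 hT
      have hn0 : n ≠ 0 := by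
        rintro rfl
        rw [pow_zero] at hn
        exact hbot (Subgroup.card_eq_one.1 hn)
      rw [hn]; exact dvd_pow_self 2 hn0
    obtain ⟨x, hx⟩ := exists_prime_orderOf_dvd_card' 2 h2
    have hx1 : (x : L) ∈ U₂ := ⟨x.2, by
      have h3 := pow_orderOf_eq_one x
      rw [hx] at h3
      exact congrArg Subtype.val h3⟩
    rw [h, Subgroup.mem_bot] at hx1
    have h4 : x = 1 := Subtype.ext hx1
    rw [h4, orderOf_one] at hx
    omega
  · intro a ha
    have h1 : a ∈ U₂ := by rw [h]; exact ha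
    exact h1.2

end Cfsg.Agent.Lib.H68SFEA
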