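import Mathlib

set_option autoImplicit false

namespace Cfsg.Agent.Lib.H68SFFixPt

/-- PURE MATHLIB.  A `2`-element normalising a non-trivial finite `2`-group fixes a non-identity element.
`f : Function.End ↥T₁ := fun w => ⟨t * w * t⁻¹, hn w w.2⟩`; `f ^ n = fun w => t ^ n * w * (t ^ n)⁻¹` (induction), so `f ^ 2 ^ k = 1`.  `Equiv.Perm.card_fixedPoints_modEq` (for `Function.End`):
`card ↥T₁ ≡ card (fixedPoints f) [MOD 2]`; `card ↥T₁ = 2 ^ (m+1)` is even (`IsPGroup.iff_card`, `T₁ ≠ ⊥`), `1` is a fixed point, so there are at least two fixed points. -/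
theorem exists_fixed {L : Type*} [Group L] [Finite L] (T₁ : Subgroup L) (hT : IsPGroup 2 T₁) (h1 : T₁ ≠ ⊥) (t : L)
    (ht : ∃ k : ℕ, t ^ 2 ^ k = 1) (hn : ∀ w ∈ T₁, t * w * t⁻¹ ∈ T₁) :
    ∃ v ∈ T₁, v ≠ 1 ∧ t * v * t⁻¹ = v := by
  classical
  obtain ⟨k, hk⟩ := ht
  have hFin : Fintype ↥T₁ := Fintype.ofFinite _
  let f : Function.End ↥T₁ := fun w => ⟨t * w * t⁻¹, hn w w.2⟩
  have hpow : ∀ (n : ℕ) (w : ↥T₁), (((f ^ n) w : ↥T₁) : L) = t ^ n * w * (t ^ n)⁻¹ := by
    intro n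
    induction n with
    | zero =>
      intro w
      simp only [pow_zero, one_mul, inv_one, mul_one]
      rfl
    | succ n ih =>
      intro w
      rw [pow_succ']
      show t * (((f ^ n) w : ↥T₁) : L) * t⁻¹ = _
      rw [ih, pow_succ']
      group
  have hf : f ^ 2 ^ k = 1 := by
    funext w
    apply Subtype.ext
    rw [hpow, hk]
    simp only [one_mul, inv_one, mul_one]
    rfl
  have hmod := Equiv.Perm.card_fixedPoints_modEq (p := 2) (n := k) hf
  obtain ⟨m, hm⟩ := IsPGroup.iff_card.1 hT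
  have hm0 : m ≠ 0 := by
    rintro rfl
    rw [pow_zero] at hm
    exact h1 (Subgroup.card_eq_one.1 hm)
  rw [Nat.card_eq_fintype_card] at hm
  have heven : Fintype.card ↥T₁ % 2 = 0 := by
    rw [hm]
    obtain ⟨m', rfl⟩ := Nat.exists_eq_succ_of_ne_zero hm0
    rw [pow_succ]
    omega
  have hmod' : Fintype.card ↥(Function.fixedPoints f) % 2 = 0 := by
    have h2 : Fintype.card ↥T₁ % 2 = Fintype.card ↥(Function.fixedPoints f) % 2 := hmod
    omega
  have hone : (1 : ↥T₁) ∈ Function.fixedPoints f := by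
    show f 1 = 1
    apply Subtype.ext
    show t * ((1 : ↥T₁) : L) * t⁻¹ = ((1 : ↥T₁) : L)
    simp
  have hpos : 0 < Fintype.card ↥(Function.fixedPoints f) := Fintype.card_pos_iff.2 ⟨⟨1, hone⟩⟩
  have hlt : 1 < Fintype.card ↥(Function.fixedPoints f) := by omega
  obtain ⟨b, hb⟩ := Fintype.exists_ne_of_one_lt_card hlt ⟨1, hone⟩
  refine ⟨b.1.1, b.1.2, ?_, ?_⟩
  · intro h
    apply hb
    apply Subtype.ext
    apply Subtype.ext
    exact h
  · have h3 : f b.1 = b.1 := b.2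
    exact congrArg Subtype.val h3

end Cfsg.Agent.Lib.H68SFFixPt
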