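import Mathlib
import Cfsg.Agent.Lib.Helper52S4

set_option autoImplicit false

namespace Cfsg.Agent.Lib.H68SFFour

theorem mem_norm {L : Type*} [Group L] {P : Subgroup L} {n : L} (h1 : ∀ y ∈ P, n * y * n⁻¹ ∈ P)
    (h2 : ∀ y ∈ P, n⁻¹ * y * n ∈ P) : n ∈ Subgroup.normalizer (P : Set L) := by
  rw [Subgroup.mem_normalizer_iff]
  intro y
  refine ⟨h1 y, fun h => ?_⟩
  have := h2 _ h
  simpa [mul_assoc] using this

theorem conj_inv' {L : Type*} [Group L] {g a b : L} (h : g * a * g⁻¹ = b) : g⁻¹ * b * g = a := by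
  rw [← h]; group

/-- the four-group `W = {1, v, v', v v'}` and the landed `Helper52S4.involves_S4`. -/
theorem four {L : Type*} [Group L] [Finite L] (v r t : L) (hv1 : v ≠ 1) (hv2 : v ^ 2 = 1)
    (hcomm : v * (r * v * r⁻¹) = (r * v * r⁻¹) * v)
    (hN : v * (r * v * r⁻¹) * (r ^ 2 * v * (r ^ 2)⁻¹) = 1) (hr3 : r ^ 3 * v = v * r ^ 3) (hne : r * v * r⁻¹ ≠ v)
    (htv : t * v * t⁻¹ = v) (hrt : t * r * t⁻¹ = r⁻¹) (hr : ∃ n : ℕ, Odd n ∧ r ^ n = 1) (ht : ∃ k : ℕ, t ^ 2 ^ k = 1) :
    Cfsg.Involves (Equiv.Perm (Fin 4)) L := by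
  classical
  obtain ⟨w, hw⟩ : ∃ w, w = r * v * r⁻¹ := ⟨_, rfl⟩
  rw [← hw] at hcomm hN hne
  have hvv : v * v = 1 := by rw [← pow_two]; exact hv2
  have hww : w * w = 1 := by
    rw [hw]
    calc r * v * r⁻¹ * (r * v * r⁻¹) = r * (v * v) * r⁻¹ := by group
      _ = 1 := by rw [hvv]; group
  have hwv : w * v = v * w := hcomm.symm
  have hvinv : v⁻¹ = v := inv_eq_of_mul_eq_one_left hvv
  have hwinv : w⁻¹ = w := inv_eq_of_mul_eq_one_left hww
  have hr2 : r ^ 2 * v * (r ^ 2)⁻¹ = v * w := by
    have := eq_inv_of_mul_eq_one_right hN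
    rw [this, mul_inv_rev, hvinv, hwinv, hwv]
  have hrv : r * v * r⁻¹ = w := hw.symm
  have hrw : r * w * r⁻¹ = v * w := by
    rw [← hr2, hw, pow_two, mul_inv_rev]
    simp only [mul_assoc]
  have T5 : w * (v * w) = v := by rw [← mul_assoc, hwv, mul_assoc, hww, mul_one]
  have T2 : v * (v * w) = w := by rw [← mul_assoc, hvv, one_mul]
  have T6 : v * w * v = w := by rw [mul_assoc, hwv, T2]
  have T7 : v * w * w = v := by rw [mul_assoc, hww, mul_one]
  have T8 : v * w * (v * w) = 1 := by rw [mul_assoc, T5, hvv]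
  have hrvw : r * (v * w) * r⁻¹ = v := by
    calc r * (v * w) * r⁻¹ = (r * v * r⁻¹) * (r * w * r⁻¹) := by group
      _ = w * (v * w) := by rw [hrv, hrw]
      _ = v := T5
  have htw : t * w * t⁻¹ = v * w := by
    have h1 : t * w * t⁻¹ = (t * r * t⁻¹) * (t * v * t⁻¹) * (t * r * t⁻¹)⁻¹ := by
      rw [hw]; group
    rw [h1, hrt, htv, inv_inv, ← hr2]
    have h3 : r ^ 3 * v * (r ^ 3)⁻¹ = v := by rw [hr3]; group
    calc r⁻¹ * v * r = r⁻¹ * (r ^ 3 * v * (r ^ 3)⁻¹) * r := by rw [h3]
      _ = r ^ 2 * v * (r ^ 2)⁻¹ := by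
        rw [pow_succ' r 2, mul_inv_rev]
        simp only [mul_assoc, inv_mul_cancel_left, inv_mul_cancel, mul_one]
  have htvw : t * (v * w) * t⁻¹ = w := by
    calc t * (v * w) * t⁻¹ = (t * v * t⁻¹) * (t * w * t⁻¹) := by group
      _ = v * (v * w) := by rw [htv, htw]
      _ = w := T2
  have hw1 : w ≠ 1 := by
    intro h
    apply hv1
    have h2 : r * v * r⁻¹ = 1 := by rw [hrv, h]
    simpa using h2
  let W : Subgroup L :=
    { carrier := {x | x = 1 ∨ x = v ∨ x = w ∨ x = v * w}
      one_mem' := Or.inl rfl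
      mul_mem' := by
        intro a b ha hb
        show a * b = 1 ∨ a * b = v ∨ a * b = w ∨ a * b = v * w
        rcases ha with h | h | h | h <;> rcases hb with h' | h' | h' | h' <;> rw [h, h'] <;>
          simp [hvv, T2, hwv, hww, T5, T6, T7, T8]
      inv_mem' := by
        intro a ha
        show a⁻¹ = 1 ∨ a⁻¹ = v ∨ a⁻¹ = w ∨ a⁻¹ = v * w
        rcases ha with h | h | h | h <;> rw [h] <;> simp [hvinv, hwinv, hwv, mul_inv_rev] }
  have hmem : ∀ x, x ∈ W ↔ x = 1 ∨ x = v ∨ x = w ∨ x = v * w := fun x => Iff.rfl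
  have hcard : Nat.card W = 4 := by
    have h0 := Nat.subtype_card ({1, v, w, v * w} : Finset L) (p := fun x => x ∈ W)
      (fun x => by simp [hmem])
    have h1 : Nat.card W = ({1, v, w, v * w} : Finset L).card := h0
    rw [h1, Finset.card_insert_of_notMem, Finset.card_insert_of_notMem,
      Finset.card_insert_of_notMem, Finset.card_singleton]
    · simp [hv1]
    · simp only [Finset.mem_insert, Finset.mem_singleton, not_or]
      exact ⟨fun h => hne h.symm, fun h => hw1 (by simpa using h)⟩
    · simp only [Finset.mem_insert, Finset.mem_singleton, not_or]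
      refine ⟨fun h => hv1 h.symm, fun h => hw1 h.symm, fun h => ?_⟩
      apply hne
      have : w = v⁻¹ := eq_inv_of_mul_eq_one_right h.symm
      rw [this, hvinv]
  have hrN : r ∈ Subgroup.normalizer (W : Set L) := by
    apply mem_norm
    · intro y hy
      rw [hmem] at hy ⊢
      rcases hy with h | h | h | h <;> rw [h]
      · left; group
      · right; right; left; exact hrv
      · right; right; right; exact hrw
      · right; left; exact hrvw
    · intro y hy
      rw [hmem] at hy ⊢
      rcases hy with h | h | h | h <;> rw [h]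
      · left; group
      · right; right; right; exact conj_inv' hrvw
      · right; left; exact conj_inv' hrv
      · right; right; left; exact conj_inv' hrw
  have htN : t ∈ Subgroup.normalizer (W : Set L) := by
    apply mem_norm
    · intro y hy
      rw [hmem] at hy ⊢
      rcases hy with h | h | h | h <;> rw [h]
      · left; group
      · right; left; exact htv
      · right; right; right; exact htw
      · right; right; left; exact htvw
    · intro y hy
      rw [hmem] at hy ⊢
      rcases hy with h | h | h | h <;> rw [h]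
      · left; group
      · right; left; exact conj_inv' htv
      · right; right; right; exact conj_inv' htvw
      · right; right; left; exact conj_inv' htw
  have hrW : r ∉ Subgroup.centralizer (W : Set L) := by
    intro h
    rw [Subgroup.mem_centralizer_iff] at h
    have h1 := h v ((hmem v).mpr (Or.inr (Or.inl rfl)))
    apply hne
    rw [← hrv, ← h1]
    group
  have htW : t ∉ Subgroup.centralizer (W : Set L) := by
    intro h
    rw [Subgroup.mem_centralizer_iff] at h
    have h1 := h w ((hmem w).mpr (Or.inr (Or.inr (Or.inl rfl))))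
    apply hv1
    have h2 : t * w * t⁻¹ = w := by rw [← h1]; group
    rw [htw] at h2
    simpa using h2
  exact Cfsg.Agent.Lib.Helper52S4.involves_S4 W hcard r t hrN htN hr hrW ht htW

end Cfsg.Agent.Lib.H68SFFour
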