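import Mathlib

set_option autoImplicit false

namespace Cfsg.Agent.Lib.H68SFNorm

/-- PURE MATHLIB.  `T₁ := {w ∈ T | w * (r * w * r⁻¹) * (r ^ 2 * w * (r ^ 2)⁻¹) = 1}` (kernel of the norm map `1 + r + r²` on the commutative group `T`).
Subgroup: all conjugates of elements of `T` lie in `T` (normal) and commute (`hab`).
`t`-invariant: for `w' := t * w * t⁻¹`: `t * (r * w * r⁻¹) * t⁻¹ = r⁻¹ * w' * r` (from `hrt`: `t * r = r⁻¹ * t`), and `r⁻¹ * w' * r = r ^ 2 * w' * (r ^ 2)⁻¹` because `r ^ 3` commutes with `w' ∈ T`; likewise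
`t * (r ^ 2 * w * (r ^ 2)⁻¹) * t⁻¹ = r⁻¹ ^ 2 * w' * r ^ 2 = r * w' * r⁻¹`; then reorder by `hab`.
`≠ ⊥`: `r ∉ centralizer T` gives `x ∈ T` with `w := r * x * r⁻¹ * x⁻¹ ≠ 1`; `w ∈ T₁`: the product telescopes, `(r x r⁻¹ x⁻¹)(r² x r⁻² · r x⁻¹ r⁻¹)(r³ x r⁻³ · r² x⁻¹ r⁻²) = 1` using `hab` and `r ^ 3 * x * (r ^ 3)⁻¹ = x`. -/
theorem exists_T1 {L : Type*} [Group L] (T : Subgroup L) [T.Normal] (hab : ∀ a ∈ T, ∀ b ∈ T, a * b = b * a) (r t : L)
    (hrt : t * r * t⁻¹ = r⁻¹) (hr3 : r ^ 3 ∈ Subgroup.centralizer (T : Set L))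
    (hrT : r ∉ Subgroup.centralizer (T : Set L)) :
    ∃ T₁ : Subgroup L, T₁ ≤ T ∧ T₁ ≠ ⊥ ∧ (∀ w ∈ T₁, t * w * t⁻¹ ∈ T₁) ∧
      ∀ w ∈ T₁, w * (r * w * r⁻¹) * (r ^ 2 * w * (r ^ 2)⁻¹) = 1 := by
  classical
  have hc : ∀ a b : T, a * b = b * a := fun a b => Subtype.ext (hab a a.2 b b.2)
  obtain ⟨σ, hσ⟩ : ∃ σ : MulAut T, ∀ w : T, ((σ w : T) : L) = r * w * r⁻¹ :=
    ⟨MulAut.conjNormal r, fun w => MulAut.conjNormal_apply r w⟩
  obtain ⟨τ, hτ⟩ : ∃ τ : MulAut T, ∀ w : T, ((τ w : T) : L) = t * w * t⁻¹ :=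
    ⟨MulAut.conjNormal t, fun w => MulAut.conjNormal_apply t w⟩
  have h3 : ∀ w ∈ T, r ^ 3 * w = w * r ^ 3 := fun w hw =>
    ((Subgroup.mem_centralizer_iff.1 hr3) w hw).symm
  have hσ3 : ∀ w : T, σ (σ (σ w)) = w := by
    intro w
    apply Subtype.ext
    rw [hσ, hσ, hσ]
    calc r * (r * (r * (w : L) * r⁻¹) * r⁻¹) * r⁻¹ = (r ^ 3 * (w : L)) * (r ^ 3)⁻¹ := by
          simp only [pow_succ, pow_zero, one_mul, mul_inv_rev, mul_assoc]
      _ = ((w : L) * r ^ 3) * (r ^ 3)⁻¹ := by rw [h3 w w.2]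
      _ = w := by rw [mul_inv_cancel_right]
  have hrt' : r * t = t * r⁻¹ := by
    have h := congrArg (fun y => y⁻¹) hrt
    simp only [mul_inv_rev, inv_inv] at h
    calc r * t = t * (r⁻¹ * t⁻¹) * t := by rw [h]
      _ = t * r⁻¹ := by simp only [mul_assoc, inv_mul_cancel, mul_one]
  have hστ : ∀ w : T, σ (τ w) = τ (σ (σ w)) := by
    intro w
    have e : ∀ w : T, σ (τ (σ w)) = τ w := by
      intro w
      apply Subtype.ext
      rw [hσ, hτ, hσ, hτ]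
      calc r * (t * (r * (w : L) * r⁻¹) * t⁻¹) * r⁻¹
          = (r * t) * r * (w : L) * r⁻¹ * (r * t)⁻¹ := by
            simp only [mul_inv_rev, mul_assoc]
        _ = t * (w : L) * t⁻¹ := by
            rw [hrt']
            simp only [mul_inv_rev, inv_inv, mul_assoc, inv_mul_cancel_left]
    have := e (σ (σ w))
    rw [hσ3] at this
    exact this
  obtain ⟨N, hN⟩ : ∃ N : T →* T, ∀ w, N w = w * σ w * σ (σ w) :=
    ⟨{ toFun := fun w => w * σ w * σ (σ w)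
       map_one' := by simp
       map_mul' := fun a b => by
        simp only [map_mul]
        calc a * b * (σ a * σ b) * (σ (σ a) * σ (σ b))
            = a * (b * σ a) * σ b * (σ (σ a) * σ (σ b)) := by simp only [mul_assoc]
          _ = a * (σ a * b) * σ b * (σ (σ a) * σ (σ b)) := by rw [hc b (σ a)]
          _ = a * σ a * ((b * σ b) * σ (σ a)) * σ (σ b) := by simp only [mul_assoc]
          _ = a * σ a * (σ (σ a) * (b * σ b)) * σ (σ b) := by rw [hc (b * σ b) (σ (σ a))]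
          _ = a * σ a * σ (σ a) * (b * σ b * σ (σ b)) := by simp only [mul_assoc] }, fun _ => rfl⟩
  refine ⟨N.ker.map T.subtype, Subgroup.map_subtype_le _, ?_, ?_, ?_⟩
  · intro hbot
    apply hrT
    rw [Subgroup.mem_centralizer_iff]
    intro x hx
    have hw : σ ⟨x, hx⟩ * (⟨x, hx⟩ : T)⁻¹ ∈ N.ker := by
      rw [MonoidHom.mem_ker, map_mul, map_inv, hN, hN, hσ3, mul_inv_eq_one]
      rw [hc (σ ⟨x, hx⟩ * σ (σ ⟨x, hx⟩)) ⟨x, hx⟩, mul_assoc]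
    have h1 : ((σ ⟨x, hx⟩ * (⟨x, hx⟩ : T)⁻¹ : T) : L) ∈ N.ker.map T.subtype :=
      Subgroup.mem_map_of_mem T.subtype hw
    rw [hbot, Subgroup.mem_bot] at h1
    have h2 : r * x * r⁻¹ * x⁻¹ = 1 := by
      have : ((σ ⟨x, hx⟩ * (⟨x, hx⟩ : T)⁻¹ : T) : L) = r * x * r⁻¹ * x⁻¹ := by
        rw [Subgroup.coe_mul, hσ]; rfl
      rw [← this]; exact h1
    calc x * r = (r * x * r⁻¹ * x⁻¹)⁻¹ * (r * x) := by
          simp only [mul_inv_rev, inv_inv, mul_assoc, inv_mul_cancel_left, inv_mul_cancel, mul_one]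
      _ = r * x := by rw [h2, inv_one, one_mul]
  · rintro _ ⟨w, hw, rfl⟩
    refine ⟨τ w, ?_, hτ w⟩
    have hw' : N w = 1 := hw
    show N (τ w) = 1
    rw [hN, hστ, hστ, hσ3, ← map_mul, ← map_mul]
    rw [hN] at hw'
    have : w * σ (σ w) * σ w = 1 := by
      rw [mul_assoc, hc (σ (σ w)) (σ w), ← mul_assoc]; exact hw'
    rw [this, map_one]
  · rintro _ ⟨w, hw, rfl⟩
    have hw' : N w = 1 := hw
    rw [hN] at hw'
    have h1 := congrArg (Subtype.val) hw'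
    simp only [Subgroup.coe_mul, hσ, Subgroup.coe_one] at h1
    have h2 : r ^ 2 * (w : L) * (r ^ 2)⁻¹ = r * (r * (w : L) * r⁻¹) * r⁻¹ := by
      simp only [pow_succ, pow_zero, one_mul, mul_inv_rev, mul_assoc]
    show (w : L) * (r * (w : L) * r⁻¹) * (r ^ 2 * (w : L) * (r ^ 2)⁻¹) = 1
    rw [h2]
    exact h1

end Cfsg.Agent.Lib.H68SFNorm
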