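import Mathlib

set_option autoImplicit false

namespace Cfsg.Agent.Lib.H68SFCent

/-- PURE MATHLIB.  An element of odd order centralising `U` and `T / U` centralises the `2`-group `T`. -/
theorem mem_centralizer {L : Type*} [Group L] (T U : Subgroup L) (hU : U ≤ T) (hT : IsPGroup 2 T) (r : L)
    (hr : ∃ n : ℕ, Odd n ∧ r ^ n = 1) (h1 : r ∈ Subgroup.centralizer (U : Set L))
    (h2 : ∀ x ∈ T, r * x * r⁻¹ * x⁻¹ ∈ U) : r ∈ Subgroup.centralizer (T : Set L) := by
  obtain ⟨n, hn, hrn⟩ := hr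
  rw [Subgroup.mem_centralizer_iff]
  intro x hx
  set u := r * x * r⁻¹ * x⁻¹ with hu
  have huU : u ∈ U := h2 x hx
  have hcomm : u * r = r * u := (Subgroup.mem_centralizer_iff.mp h1) u huU
  have hstep : r * x * r⁻¹ = u * x := by rw [hu]; group
  have hconj : r * u * r⁻¹ = u := by rw [← hcomm]; group
  have hind : ∀ i : ℕ, r ^ i * x * (r ^ i)⁻¹ = u ^ i * x := by
    intro i
    induction i with
    | zero => simp
    | succ i ih =>
      calc r ^ (i + 1) * x * (r ^ (i + 1))⁻¹ = r * (r ^ i * x * (r ^ i)⁻¹) * r⁻¹ := by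
            rw [pow_succ']; group
        _ = r * (u ^ i * x) * r⁻¹ := by rw [ih]
        _ = (r * u * r⁻¹) ^ i * (r * x * r⁻¹) := by rw [conj_pow]; group
        _ = u ^ i * (u * x) := by rw [hconj, hstep]
        _ = u ^ (i + 1) * x := by rw [pow_succ, ← mul_assoc]
  have h3 := hind n
  rw [hrn] at h3
  have h4 : u ^ n = 1 := by
    have : x = u ^ n * x := by simpa using h3
    exact mul_eq_right.mp this.symm
  obtain ⟨k, hk⟩ := hT ⟨u, hU huU⟩
  have hk' : u ^ (2 ^ k) = 1 := by
    have := congrArg Subtype.val hk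
    simpa using this
  have d1 : orderOf u ∣ n := orderOf_dvd_of_pow_eq_one h4
  have d2 : orderOf u ∣ 2 ^ k := orderOf_dvd_of_pow_eq_one hk'
  have hcop : Nat.Coprime n (2 ^ k) := Nat.Coprime.pow_right k (Nat.coprime_two_right.mpr hn)
  have h5 : orderOf u = 1 := Nat.eq_one_of_dvd_coprimes hcop d1 d2
  have h6 : u = 1 := orderOf_eq_one_iff.mp h5
  rw [h6, one_mul] at hstep
  calc x * r = (r * x * r⁻¹) * r := by rw [hstep]
    _ = r * x := by group

end Cfsg.Agent.Lib.H68SFCent
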