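import Mathlib
import Cfsg.Agent.Lib.H68SFCent

set_option autoImplicit false

namespace Cfsg.Agent.Lib.H68SFQuot

/-- Passage to `L ⧸ U`, `q := QuotientGroup.mk' U`.
(1) `hT.map q`.  (2) for `y = q x`, `x ∈ T`: `q x * q r ^ 3 = q (x * r ^ 3) = q (r ^ 3 * x)` (`Subgroup.mem_centralizer_iff`, `Subgroup.mem_map`).
(3) if `q r` centralises `T.map q` then `r * x * r⁻¹ * x⁻¹ ∈ U` for all `x ∈ T` (`QuotientGroup.eq_one_iff`), so `r ∈ centralizer T` by `H68SFCent.mem_centralizer`: contradiction.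
(4) `Nat.card (T.map q) * Nat.card U = Nat.card T`: e.g. the restriction `T →* T.map q` (`q.subgroupMap T`, surjective) has kernel `U.subgroupOf T` of the same cardinality as `U` (`Subgroup.subgroupOfEquivOfLe hU`),
`Subgroup.card_mul_index`, `Subgroup.index_ker`; `1 < Nat.card U` (`Subgroup.one_lt_card_iff_ne_bot`). -/
theorem quot {L : Type*} [Group L] [Finite L] (T U : Subgroup L) [U.Normal] (hU : U ≤ T) (hU1 : U ≠ ⊥)
    (hT : IsPGroup 2 T) (r : L) (hr : ∃ n : ℕ, Odd n ∧ r ^ n = 1)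
    (hr3 : r ^ 3 ∈ Subgroup.centralizer (T : Set L)) (hrT : r ∉ Subgroup.centralizer (T : Set L))
    (h1 : r ∈ Subgroup.centralizer (U : Set L)) :
    IsPGroup 2 (T.map (QuotientGroup.mk' U)) ∧
    (QuotientGroup.mk' U r) ^ 3 ∈ Subgroup.centralizer ((T.map (QuotientGroup.mk' U) : Subgroup (L ⧸ U)) : Set (L ⧸ U)) ∧
    QuotientGroup.mk' U r ∉ Subgroup.centralizer ((T.map (QuotientGroup.mk' U) : Subgroup (L ⧸ U)) : Set (L ⧸ U)) ∧
    Nat.card (T.map (QuotientGroup.mk' U)) < Nat.card T := by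
  obtain ⟨q, hq⟩ : ∃ q : L →* L ⧸ U, q = QuotientGroup.mk' U := ⟨_, rfl⟩
  rw [← hq]
  have hq1 : ∀ x : L, q x = 1 ↔ x ∈ U := by
    intro x
    rw [hq]
    exact QuotientGroup.eq_one_iff x
  refine ⟨hT.map q, ?_, ?_, ?_⟩
  · rw [Subgroup.mem_centralizer_iff]
    rintro y hy
    obtain ⟨x, hx, rfl⟩ := Subgroup.mem_map.1 hy
    have h2 := Subgroup.mem_centralizer_iff.1 hr3 x hx
    rw [← map_pow, ← map_mul, ← map_mul, h2]
  · intro hc
    apply hrT
    apply Cfsg.Agent.Lib.H68SFCent.mem_centralizer T U hU hT r hr h1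
    intro x hx
    have h2 := Subgroup.mem_centralizer_iff.1 hc (q x) (Subgroup.mem_map_of_mem q hx)
    rw [← hq1, map_mul, map_mul, map_mul, map_inv, map_inv, ← h2]
    group
  · have hsurj : Function.Surjective (q.subgroupMap T) := q.subgroupMap_surjective T
    have hker : (q.subgroupMap T).ker = U.subgroupOf T := by
      ext x
      rw [MonoidHom.mem_ker, Subgroup.mem_subgroupOf]
      constructor
      · intro h
        exact (hq1 _).1 (congrArg Subtype.val h)
      · intro h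
        apply Subtype.ext
        exact (hq1 _).2 h
    have h3 : Nat.card (U.subgroupOf T) * (U.subgroupOf T).index = Nat.card T :=
      Subgroup.card_mul_index _
    have h4 : (U.subgroupOf T).index = Nat.card (T.map q) := by
      rw [← hker, Subgroup.index_ker, MonoidHom.range_eq_top.2 hsurj, Subgroup.card_top]
    have h5 : Nat.card (U.subgroupOf T) = Nat.card U :=
      Nat.card_congr (Subgroup.subgroupOfEquivOfLe hU).toEquiv
    have h6 : 1 < Nat.card U := (Subgroup.one_lt_card_iff_ne_bot U).2 hU1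
    have h7 : 0 < Nat.card (T.map q) := Nat.card_pos
    rw [h4, h5] at h3
    nlinarith

end Cfsg.Agent.Lib.H68SFQuot
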