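import Mathlib
import Cfsg.Agent.Lib.Helper24Section
import Cfsg.Agent.Lib.H68SFQuot
import Cfsg.Agent.Lib.H68SFEA
import Cfsg.Agent.Lib.H68SFNorm
import Cfsg.Agent.Lib.H68SFFixPt
import Cfsg.Agent.Lib.H68SFFour

set_option autoImplicit false

universe u

namespace Cfsg.Agent.Lib.H68SFInd

open Cfsg.Agent.Lib

/-- base case: `T` elementary abelian -/
theorem base {L : Type u} [Group L] [Finite L] (T : Subgroup L) [T.Normal] (hT : IsPGroup 2 T)
    (hab : ∀ a ∈ T, ∀ b ∈ T, a * b = b * a) (h2 : ∀ a ∈ T, a ^ 2 = 1) (r t : L)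
    (hr : ∃ n : ℕ, Odd n ∧ r ^ n = 1) (ht : ∃ k : ℕ, t ^ 2 ^ k = 1) (hrt : t * r * t⁻¹ = r⁻¹)
    (hr3 : r ^ 3 ∈ Subgroup.centralizer (T : Set L)) (hrT : r ∉ Subgroup.centralizer (T : Set L)) :
    Cfsg.Involves (Equiv.Perm (Fin 4)) L := by
  obtain ⟨T₁, hT₁, hne, hinv, hN⟩ := H68SFNorm.exists_T1 T hab r t hrt hr3 hrT
  obtain ⟨v, hv, hv1, htv⟩ := H68SFFixPt.exists_fixed T₁ (hT.to_le hT₁) hne t ht hinv
  have hvT : v ∈ T := hT₁ hv
  have hn : T.Normal := inferInstance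
  have hv'T : r * v * r⁻¹ ∈ T := hn.conj_mem v hvT r
  have hv2 : v ^ 2 = 1 := h2 v hvT
  have hr3v : r ^ 3 * v = v * r ^ 3 := ((Subgroup.mem_centralizer_iff.mp hr3) v hvT).symm
  refine H68SFFour.four v r t hv1 hv2 (hab _ hvT _ hv'T) (hN v hv) hr3v ?_ htv hrt hr ht
  intro he
  have h1 := hN v hv
  have he2 : r ^ 2 * v * (r ^ 2)⁻¹ = v := by
    have : r ^ 2 * v * (r ^ 2)⁻¹ = r * (r * v * r⁻¹) * r⁻¹ := by rw [pow_two]; group
    rw [this, he, he]
  rw [he, he2] at h1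
  apply hv1
  have h3 : v ^ 3 = 1 := by rw [← h1, pow_succ, pow_two]
  calc v = v ^ 3 * (v ^ 2)⁻¹ := by group
    _ = 1 := by rw [h3, hv2]; simp

theorem main_aux (n : ℕ) : ∀ (L : Type u) [Group L] [Finite L] (T : Subgroup L) [T.Normal], Nat.card T = n → IsPGroup 2 T →
    ∀ (r t : L), (∃ n : ℕ, Odd n ∧ r ^ n = 1) → (∃ k : ℕ, t ^ 2 ^ k = 1) → t * r * t⁻¹ = r⁻¹ →
    r ^ 3 ∈ Subgroup.centralizer (T : Set L) → r ∉ Subgroup.centralizer (T : Set L) →
    Cfsg.Involves (Equiv.Perm (Fin 4)) L := by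
  induction n using Nat.strong_induction_on with
  | _ n ih =>
    intro L _ _ T _ hn hT r t hr ht hrt hr3 hrT
    by_cases hmin : ∀ U : Subgroup L, U.Normal → U ≤ T → U = ⊥ ∨ U = T
    · obtain ⟨hab, h2⟩ := H68SFEA.ea T hT hmin
      exact base T hT hab h2 r t hr ht hrt hr3 hrT
    · push_neg at hmin
      obtain ⟨U, hUn, hUT, hU1, hU2⟩ := hmin
      have hlt : U < T := lt_of_le_of_ne hUT hU2
      by_cases hrU : r ∈ Subgroup.centralizer (U : Set L)
      · obtain ⟨q1, q2, q3, q4⟩ := H68SFQuot.quot T U hUT hU1 hT r hr hr3 hrT hrU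
        haveI : (T.map (QuotientGroup.mk' U)).Normal :=
          Subgroup.Normal.map inferInstance _ (QuotientGroup.mk'_surjective U)
        have := ih (Nat.card (T.map (QuotientGroup.mk' U))) (hn ▸ q4) (L ⧸ U) (T.map (QuotientGroup.mk' U)) rfl q1
          (QuotientGroup.mk' U r) (QuotientGroup.mk' U t)
          (by obtain ⟨m, hm, hm'⟩ := hr; exact ⟨m, hm, by rw [← map_pow, hm', map_one]⟩)
          (by obtain ⟨k, hk⟩ := ht; exact ⟨k, by rw [← map_pow, hk, map_one]⟩)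
          (by rw [← map_inv, ← map_mul, ← map_mul, hrt, map_inv]) q2 q3
        exact Helper24Section.Involves.trans this (Helper24Section.involves_quotient U)
      · have hcard : Nat.card U < n := by
          rw [← hn]
          exact Set.Finite.card_lt_card (Set.toFinite _) (by exact_mod_cast hlt : (U : Set L) ⊂ (T : Set L))
        refine ih (Nat.card U) hcard L U rfl (hT.to_le hUT) r t hr ht hrt ?_ hrU
        exact Subgroup.centralizer_le (by exact_mod_cast hUT) hr3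

theorem main {L : Type u} [Group L] [Finite L] (T : Subgroup L) [T.Normal] (hT : IsPGroup 2 T) (r t : L)
    (hr : ∃ n : ℕ, Odd n ∧ r ^ n = 1) (ht : ∃ k : ℕ, t ^ 2 ^ k = 1) (hrt : t * r * t⁻¹ = r⁻¹)
    (hr3 : r ^ 3 ∈ Subgroup.centralizer (T : Set L)) (hrT : r ∉ Subgroup.centralizer (T : Set L)) :
    Cfsg.Involves (Equiv.Perm (Fin 4)) L :=
  main_aux _ L T rfl hT r t hr ht hrt hr3 hrT

end Cfsg.Agent.Lib.H68SFInd
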