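import Mathlib
import Cfsg.Agent.Lib.Helper24Section

set_option autoImplicit false

namespace Cfsg.Agent.Lib.H68SFPull

/-- `Helper24Section.involves_iff` gives `K : Subgroup (N ⧸ C)` and a surjective `f : K →* B`.  `X := K.comap (QuotientGroup.mk' C)`, `φ := f.comp ((QuotientGroup.mk' C).subgroupComap K)`;
surjective by `MonoidHom.subgroupComap_surjective_of_surjective` (+ `QuotientGroup.mk'_surjective`).  If `(x : N) ∈ C` then `(mk' C).subgroupComap K x = 1` (`Subtype.ext`, `QuotientGroup.eq_one_iff`), so `φ x = 1`. -/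
theorem pull {N B : Type*} [Group N] [Group B] (C : Subgroup N) [C.Normal] (h : Cfsg.Involves B (N ⧸ C)) :
    ∃ (X : Subgroup N) (φ : X →* B), Function.Surjective φ ∧ ∀ x : X, (x : N) ∈ C → φ x = 1 := by
  obtain ⟨K, f, hf⟩ := Cfsg.Agent.Lib.Helper24Section.involves_iff.1 h
  refine ⟨K.comap (QuotientGroup.mk' C), f.comp ((QuotientGroup.mk' C).subgroupComap K), ?_, ?_⟩
  · exact hf.comp (MonoidHom.subgroupComap_surjective_of_surjective _ K
      (QuotientGroup.mk'_surjective C))
  · intro x hx
    have h1 : (QuotientGroup.mk' C).subgroupComap K x = 1 := by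
      apply Subtype.ext
      show QuotientGroup.mk' C (x : N) = 1
      exact (QuotientGroup.eq_one_iff _).2 hx
    rw [MonoidHom.comp_apply, h1, map_one]

end Cfsg.Agent.Lib.H68SFPull
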