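import Mathlib
import Cfsg.Agent.Lib.Helper24Section
import Cfsg.Agent.Lib.Helper52S4
import Cfsg.Agent.Lib.H68SFInd
import Cfsg.Agent.Lib.H68SFPull
import Cfsg.Agent.Lib.H68SFEltsA
import Cfsg.Agent.Lib.H68SFEltsB
import Cfsg.Agent.Lib.H68SFCube

set_option autoImplicit false

namespace Cfsg.Agent.Lib.H68SFBwd

open Cfsg.Agent.Lib

theorem bwd {G : Type*} [Group G] [Finite G] (T : Subgroup G) (hT : IsPGroup 2 ↥T)
    (h : Cfsg.Involves (Equiv.Perm (Fin 3)) (↥(Subgroup.normalizer (T : Set G)) ⧸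
      (Subgroup.centralizer (T : Set G)).subgroupOf (Subgroup.normalizer (T : Set G)))) :
    Cfsg.Involves (Equiv.Perm (Fin 4)) G := by
  set N := Subgroup.normalizer (T : Set G) with hN
  obtain ⟨X, φ, hφ, hker⟩ := H68SFPull.pull _ h
  obtain ⟨R, t, hR, ⟨r₀, hr₀, hφr₀⟩, ht, hn, hs⟩ := H68SFEltsA.exists_RT φ hφ
  obtain ⟨r, hrR, hrt, hφr⟩ := H68SFEltsB.exists_inverted φ R t hR r₀ hr₀ hφr₀ ht hn hs
  have hTN : T ≤ N := Subgroup.le_normalizer
  haveI hnorm : (T.subgroupOf N).Normal := Subgroup.normal_in_normalizer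
  have hT' : IsPGroup 2 (T.subgroupOf N) := hT.comap_subtype
  -- centralizers
  have hcent : ∀ x : N, x ∈ Subgroup.centralizer ((T.subgroupOf N : Subgroup N) : Set N) ↔
      (x : G) ∈ Subgroup.centralizer (T : Set G) := by
    intro x
    rw [Subgroup.mem_centralizer_iff, Subgroup.mem_centralizer_iff]
    constructor
    · intro hx w hw
      have := hx ⟨w, hTN hw⟩ (by
        show (⟨w, hTN hw⟩ : N) ∈ T.subgroupOf N
        rw [Subgroup.mem_subgroupOf]; exact hw)
      exact congrArg Subtype.val this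
    · intro hx w hw
      apply Subtype.ext
      exact hx w (Subgroup.mem_subgroupOf.mp hw)
  have hr3k : ∃ k : ℕ, r ^ 3 ^ k = 1 := by
    obtain ⟨k, hk⟩ := hR ⟨r, hrR⟩
    exact ⟨k, by simpa using congrArg Subtype.val hk⟩
  have hrC : ((r : X) : N) ∉ Subgroup.centralizer ((T.subgroupOf N : Subgroup N) : Set N) := by
    intro hc
    apply hφr
    apply hker
    rw [Subgroup.mem_subgroupOf]
    exact (hcent _).mp hc
  have hr3k' : ∃ k : ℕ, ((r : X) : N) ^ 3 ^ k = 1 := by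
    obtain ⟨k, hk⟩ := hr3k
    exact ⟨k, by simpa using congrArg Subtype.val hk⟩
  obtain ⟨j, hj1, hj2⟩ := H68SFCube.exists_cube _ ((r : X) : N) hr3k' hrC
  have hfin : Cfsg.Involves (Equiv.Perm (Fin 4)) N := by
    refine H68SFInd.main (T.subgroupOf N) hT' (((r : X) : N) ^ 3 ^ j) ((t : X) : N) ?_ ?_ ?_ hj2 hj1
    · obtain ⟨k, hk⟩ := hr3k'
      refine ⟨3 ^ k, Odd.pow (by decide), ?_⟩
      rw [← pow_mul, mul_comm, pow_mul, hk, one_pow]
    · obtain ⟨k, hk⟩ := ht
      exact ⟨k, by simpa using congrArg Subtype.val hk⟩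
    · have h1 : ((t : X) : N) * ((r : X) : N) * ((t : X) : N)⁻¹ = ((r : X) : N)⁻¹ := by
        simpa using congrArg Subtype.val hrt
      rw [← conj_pow, h1, inv_pow]
  exact Helper52S4.involves_of_subgroup N hfin

end Cfsg.Agent.Lib.H68SFBwd
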