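import Mathlib
import Cfsg.Agent.Lib.Helper24Section

set_option autoImplicit false

namespace Cfsg.Agent.Lib.H68SFInvHom

/-- PURE MATHLIB + `Helper24Section.involves_iff` (`Involves X G ↔ ∃ (K : Subgroup G) (f : K →* X), Surjective f`).
`K := j.range`, `f := (QuotientGroup.lift j.ker g (fun x hx => hk hx)).comp (QuotientGroup.quotientKerEquivRange j).symm.toMonoidHom`;
surjective because `g` is (`QuotientGroup.lift_mk`). -/
theorem involves_of_hom {A Q B : Type*} [Group A] [Group Q] [Group B] (j : A →* Q) (g : A →* B)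
    (hg : Function.Surjective g) (hk : j.ker ≤ g.ker) : Cfsg.Involves B Q := by
  rw [Cfsg.Agent.Lib.Helper24Section.involves_iff]
  refine ⟨j.range, (QuotientGroup.lift j.ker g (fun x hx => hk hx)).comp
    (QuotientGroup.quotientKerEquivRange j).symm.toMonoidHom, ?_⟩
  intro b
  obtain ⟨a, rfl⟩ := hg b
  refine ⟨QuotientGroup.quotientKerEquivRange j (a : A ⧸ j.ker), ?_⟩
  simp

end Cfsg.Agent.Lib.H68SFInvHom
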