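import Mathlib
import Cfsg.Agent.Lib.Helper52S4

set_option autoImplicit false

namespace Cfsg.Agent.Lib.H68SFPi

set_option maxRecDepth 1000000 in
theorem ta : ∀ a b : Equiv.Perm (Fin 4), (a ^ 2 = 1 ∧ Equiv.Perm.sign a = 1) →
    (b ^ 2 = 1 ∧ Equiv.Perm.sign b = 1) →
    ((a * b) ^ 2 = 1 ∧ Equiv.Perm.sign (a * b) = 1) := by decide

set_option maxRecDepth 1000000 in
theorem tb : ∀ a b : Equiv.Perm (Fin 4), (a ^ 2 = 1 ∧ Equiv.Perm.sign a = 1) →
    (b ^ 2 = 1 ∧ Equiv.Perm.sign b = 1) → a * b = b * a := by decide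

set_option maxRecDepth 1000000 in
theorem te : ∀ g : Equiv.Perm (Fin 4),
    (∀ v : Equiv.Perm (Fin 4), v ^ 2 = 1 → Equiv.Perm.sign v = 1 → g * v = v * g) →
    (g ^ 2 = 1 ∧ Equiv.Perm.sign g = 1) := by decide

set_option maxRecDepth 1000000 in
theorem tc : Fintype.card {g : Equiv.Perm (Fin 4) // g ^ 2 = 1 ∧ Equiv.Perm.sign g = 1} = 4 := by
  decide

/-- The epimorphism `S₄ → S₃` with kernel the normal four-group `V`. -/
theorem exists_pi : ∃ (π : Equiv.Perm (Fin 4) →* Equiv.Perm (Fin 3)) (V : Subgroup (Equiv.Perm (Fin 4))),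
    Function.Surjective π ∧ V.Normal ∧ Nat.card V = 4 ∧ V ≤ π.ker ∧
      (∀ g : Equiv.Perm (Fin 4), (∀ v ∈ V, g * v = v * g) → π g = 1) := by
  let V : Subgroup (Equiv.Perm (Fin 4)) :=
    { carrier := {g | g ^ 2 = 1 ∧ Equiv.Perm.sign g = 1}
      one_mem' := by simp
      mul_mem' := fun {a b} ha hb => ta a b ha hb
      inv_mem' := by
        intro a ha
        exact ⟨by rw [inv_pow, ha.1, inv_one], by rw [Equiv.Perm.sign_inv]; exact ha.2⟩ }
  have hVn : V.Normal := ⟨fun a ha g => ⟨by rw [conj_pow, ha.1]; group, by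
    rw [Equiv.Perm.sign_mul, Equiv.Perm.sign_mul, Equiv.Perm.sign_inv, ha.2, mul_one]
    exact Int.units_mul_self _⟩⟩
  have hcard : Nat.card V = 4 := by
    show Nat.card {g : Equiv.Perm (Fin 4) // g ^ 2 = 1 ∧ Equiv.Perm.sign g = 1} = 4
    exact Nat.card_eq_fintype_card.trans tc
  let e : {w : V // w ≠ 1} ≃ Fin 3 :=
    Finite.equivFinOfCardEq (Cfsg.Agent.Lib.Helper52S4.card_ne_one V hcard)
  let π : Equiv.Perm (Fin 4) →* Equiv.Perm (Fin 3) :=
    (e.permCongrHom).toMonoidHom.comp (Cfsg.Agent.Lib.Helper52S4.sigma0 V)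
  have hker : π.ker = Subgroup.centralizer (V : Set (Equiv.Perm (Fin 4))) := by
    rw [← Cfsg.Agent.Lib.Helper52S4.sigma0_ker V]
    ext g
    rw [MonoidHom.mem_ker, MonoidHom.mem_ker]
    show e.permCongrHom (Cfsg.Agent.Lib.Helper52S4.sigma0 V g) = 1 ↔ _
    exact map_eq_one_iff e.permCongrHom e.permCongrHom.injective
  have hcent : Subgroup.centralizer (V : Set (Equiv.Perm (Fin 4))) = V := by
    ext g
    rw [Subgroup.mem_centralizer_iff]
    constructor
    · intro h
      exact te g (fun v h1 h2 => (h v ⟨h1, h2⟩).symm)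
    · intro hg v hv
      exact tb v g hv hg
  refine ⟨π, V, ?_, hVn, hcard, ?_, ?_⟩
  · rw [← MonoidHom.range_eq_top]
    apply Subgroup.eq_top_of_card_eq
    have h1 := Subgroup.card_eq_card_quotient_mul_card_subgroup π.ker
    have h2 : Nat.card (Equiv.Perm (Fin 4) ⧸ π.ker) = Nat.card π.range :=
      Nat.card_congr (QuotientGroup.quotientKerEquivRange π).toEquiv
    rw [h2, hker, hcent, hcard] at h1
    have h3 : Nat.card (Equiv.Perm (Fin 4)) = 24 := by
      rw [Nat.card_eq_fintype_card, Fintype.card_perm, Fintype.card_fin]; rfl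
    have h4 : Nat.card (Equiv.Perm (Fin 3)) = 6 := by
      rw [Nat.card_eq_fintype_card, Fintype.card_perm, Fintype.card_fin]; rfl
    rw [h4]
    omega
  · rw [hker, hcent]
  · intro g hg
    have : g ∈ π.ker := by
      rw [hker, Subgroup.mem_centralizer_iff]
      intro v hv
      exact (hg v hv).symm
    exact this

end Cfsg.Agent.Lib.H68SFPi
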