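import Mathlib

set_option autoImplicit false

namespace Cfsg.Agent.Lib.H68SFSylMap

/-- PURE MATHLIB.  A Sylow `p`-subgroup `P` of the full preimage `V.comap ψ` of a `p`-subgroup `V` maps onto `V`.
`ψ' : ↥(V.comap ψ) →* ↥V := ψ.subgroupComap V` is surjective (`MonoidHom.subgroupComap_surjective_of_surjective`); the image of a Sylow subgroup under a
surjective hom of finite groups is a Sylow subgroup (`Sylow.mapSurjective`), and the only Sylow `p`-subgroup of the `p`-group `↥V` is `⊤`
(`IsPGroup.sylow_eq_top`-style: `Sylow.is_maximal'`/`(P').is_maximal' hV.to... le_top`; or count: `Sylow.card_eq_multiplicity`). -/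
theorem exists_preimage {H B : Type*} [Group H] [Finite H] [Group B] {p : ℕ} [Fact p.Prime] (ψ : H →* B)
    (hψ : Function.Surjective ψ) (V : Subgroup B) (hV : IsPGroup p V) (P : Sylow p ↥(V.comap ψ)) :
    ∀ v ∈ V, ∃ x : ↥(V.comap ψ), x ∈ (P : Subgroup ↥(V.comap ψ)) ∧ ψ (x : H) = v := by
  intro v hv
  have hs : Function.Surjective (ψ.subgroupComap V) :=
    MonoidHom.subgroupComap_surjective_of_surjective ψ V hψ
  have htop : ((P.mapSurjective hs : Sylow p ↥V) : Subgroup ↥V) = ⊤ :=
    ((P.mapSurjective hs).is_maximal' (IsPGroup.of_equiv hV Subgroup.topEquiv.symm) le_top).symm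
  have hmem : (⟨v, hv⟩ : ↥V) ∈ ((P.mapSurjective hs : Sylow p ↥V) : Subgroup ↥V) := by
    rw [htop]
    exact Subgroup.mem_top _
  rw [Sylow.coe_mapSurjective] at hmem
  obtain ⟨x, hx, hxv⟩ := hmem
  exact ⟨x, hx, congrArg Subtype.val hxv⟩

end Cfsg.Agent.Lib.H68SFSylMap
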