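import Mathlib
import Cfsg.Agent.Lib.Helper24Section
import Cfsg.Agent.Lib.H68SFInvHom
import Cfsg.Agent.Lib.H68SFPi
import Cfsg.Agent.Lib.H68SFSylMap

set_option autoImplicit false

namespace Cfsg.Agent.Lib.H68SFFwd

open Cfsg.Agent.Lib

theorem fwd {G : Type*} [Group G] [Finite G] (h : Cfsg.Involves (Equiv.Perm (Fin 4)) G) :
    ∃ T : Subgroup G, IsPGroup 2 ↥T ∧ Cfsg.Involves (Equiv.Perm (Fin 3)) (↥(Subgroup.normalizer (T : Set G)) ⧸
      (Subgroup.centralizer (T : Set G)).subgroupOf (Subgroup.normalizer (T : Set G))) := by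
  obtain ⟨H, ψ, hψ⟩ := Helper24Section.involves_iff.mp h
  obtain ⟨π, V, hπ, hVn, hV4, hVker, hVc⟩ := H68SFPi.exists_pi
  have hV2 : IsPGroup 2 V := IsPGroup.of_card (n := 2) (by rw [hV4]; norm_num)
  haveI : (V.comap ψ).Normal := hVn.comap ψ
  let P : Sylow 2 ↥(V.comap ψ) := default
  let P₁ : Subgroup H := (P : Subgroup ↥(V.comap ψ)).map (V.comap ψ).subtype
  let T : Subgroup G := P₁.map H.subtype
  have hT : IsPGroup 2 T := (P.isPGroup'.map _).map _
  refine ⟨T, hT, ?_⟩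
  have hfr : Subgroup.normalizer (P₁ : Set H) ⊔ V.comap ψ = ⊤ := Sylow.normalizer_sup_eq_top P
  let A : Subgroup H := Subgroup.normalizer (P₁ : Set H)
  have hAN : ∀ a : A, ((a : H) : G) ∈ Subgroup.normalizer (T : Set G) := by
    intro a
    have ha := a.2
    rw [Subgroup.mem_normalizer_iff] at ha ⊢
    intro x
    constructor
    · rintro ⟨y, hy, rfl⟩
      exact ⟨(a : H) * y * (a : H)⁻¹, (ha y).mp hy, by simp⟩
    · rintro ⟨y, hy, hyx⟩
      have hxH : x ∈ H := by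
        have h1 : x = ((a : H) : G)⁻¹ * (y : G) * ((a : H) : G) := by
          have : (y : G) = ((a : H) : G) * x * ((a : H) : G)⁻¹ := hyx
          rw [this]; group
        rw [h1]
        exact H.mul_mem (H.mul_mem (H.inv_mem (a : H).2) y.2) (a : H).2
      refine ⟨⟨x, hxH⟩, ?_, rfl⟩
      apply (ha ⟨x, hxH⟩).mpr
      have : (a : H) * ⟨x, hxH⟩ * (a : H)⁻¹ = y := by
        apply Subtype.ext
        simpa using hyx.symm
      rw [this]; exact hy
  let i : A →* ↥(Subgroup.normalizer (T : Set G)) :=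
    { toFun := fun a => ⟨((a : H) : G), hAN a⟩
      map_one' := rfl
      map_mul' := fun a b => rfl }
  let j : A →* ↥(Subgroup.normalizer (T : Set G)) ⧸
      (Subgroup.centralizer (T : Set G)).subgroupOf (Subgroup.normalizer (T : Set G)) :=
    (QuotientGroup.mk' _).comp i
  let g : A →* Equiv.Perm (Fin 3) := (π.comp ψ).comp A.subtype
  apply H68SFInvHom.involves_of_hom j g
  · intro s
    obtain ⟨σ, rfl⟩ := hπ s
    obtain ⟨x, rfl⟩ := hψ σ
    have hx : x ∈ Subgroup.normalizer (P₁ : Set H) ⊔ V.comap ψ := by rw [hfr]; exact Subgroup.mem_top x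
    obtain ⟨y, hy, z, hz, rfl⟩ := Subgroup.mem_sup_of_normal_right.mp hx
    refine ⟨⟨y, hy⟩, ?_⟩
    show π (ψ y) = π (ψ (y * z))
    have hz' : π (ψ z) = 1 := hVker (Subgroup.mem_comap.mp hz)
    rw [map_mul, map_mul, hz', mul_one]
  · intro a ha
    rw [MonoidHom.mem_ker] at ha ⊢
    have ha' : i a ∈ (Subgroup.centralizer (T : Set G)).subgroupOf (Subgroup.normalizer (T : Set G)) :=
      (QuotientGroup.eq_one_iff _).mp ha
    rw [Subgroup.mem_subgroupOf, Subgroup.mem_centralizer_iff] at ha'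
    show π (ψ (a : H)) = 1
    apply hVc
    intro v hv
    obtain ⟨x, hxP, rfl⟩ := H68SFSylMap.exists_preimage ψ hψ V hV2 P v hv
    have hxT : (((x : ↥(V.comap ψ)) : H) : G) ∈ T := ⟨(x : H), ⟨x, hxP, rfl⟩, rfl⟩
    have h1 := ha' _ hxT
    have h2 : ((x : ↥(V.comap ψ)) : H) * (a : H) = (a : H) * ((x : ↥(V.comap ψ)) : H) := Subtype.ext h1
    rw [← map_mul, ← map_mul, h2]

end Cfsg.Agent.Lib.H68SFFwd
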