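import Mathlib
import Cfsg.Agent.Lib.Helper71OSDefs

/-!
# Project OS (S3421), piece `ArithN`
PURE ARITHMETIC.  `c` is the order of `N ≅ PSL(2,q')`, `d = [G : N]`.
-/

set_option autoImplicit false
set_option linter.style.haveILetI false

namespace Cfsg.Agent.Lib.H71OsArithN

open Cfsg.Agent.Lib.Helper71OS

theorem card_eq {p q m₁ m₂ p' q' c d : ℕ} (hp : p.Prime) (hp2 : p ≠ 2) (hq : ∃ f : ℕ, q = p ^ f) (hq3 : 3 < q)
    (hm1 : Even m₁) (hm2 : Odd m₂) (hsum : m₁ + m₂ = q) (hdiff : m₁ = m₂ + 1 ∨ m₂ = m₁ + 1)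
    (hp' : p'.Prime) (hq' : ∃ f : ℕ, f ≠ 0 ∧ q' = p' ^ f) (hodd : Odd q')
    (hc : 2 * c = q' * (q' - 1) * (q' + 1)) (hd : d * c = 2 * q * m₁ * m₂) (hdd : d ∣ 2 * m₁)
    (ha : 3 < q' → ((q' - 1) / 2 ∣ p ∨ (q' - 1) / 2 ∣ m₁ ∨ (q' - 1) / 2 ∣ m₂))
    (hb : 3 < q' → ((q' + 1) / 2 ∣ p ∨ (q' + 1) / 2 ∣ m₁ ∨ (q' + 1) / 2 ∣ m₂)) : q' = q := by
  obtain ⟨f, hf⟩ := hq
  obtain ⟨f', hf'0, hf'⟩ := hq'
  obtain ⟨a, haq⟩ := hodd
  have hf0 : f ≠ 0 := by
    rintro rfl
    simp at hf
    omega
  have hpq : p ∣ q := by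
    rw [hf]; exact dvd_pow_self p hf0
  have hp'q' : p' ∣ q' := by
    rw [hf']; exact dvd_pow_self p' hf'0
  have hpm1 : ¬ p ∣ m₁ := by
    intro h
    have h2 : p ∣ m₂ := by
      have := (Nat.dvd_add_right h).1 (hsum ▸ hpq)
      exact this
    have h1 : p ∣ 1 := by
      rcases hdiff with h' | h'
      · exact (Nat.dvd_add_right h2).1 (h' ▸ h)
      · exact (Nat.dvd_add_right h).1 (h' ▸ h2)
    exact hp.one_lt.ne' (Nat.dvd_one.1 h1)
  have hpm2 : ¬ p ∣ m₂ := by
    intro h2
    have h : p ∣ m₁ := by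
      have := (Nat.dvd_add_left h2).1 (hsum ▸ hpq)
      exact this
    exact hpm1 h
  have hp2' : ¬ p ∣ 2 := by
    intro h
    exact hp2 ((Nat.prime_dvd_prime_iff_eq hp Nat.prime_two).1 h)
  have hc1 : Nat.Coprime p m₁ := (Nat.Prime.coprime_iff_not_dvd hp).2 hpm1
  have hc2 : Nat.Coprime p m₂ := (Nat.Prime.coprime_iff_not_dvd hp).2 hpm2
  have hc3 : Nat.Coprime p 2 := (Nat.Prime.coprime_iff_not_dvd hp).2 hp2'
  have hq1 : Nat.Coprime q m₁ := by rw [hf]; exact Nat.Coprime.pow_left f hc1
  have hq2 : Nat.Coprime q m₂ := by rw [hf]; exact Nat.Coprime.pow_left f hc2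
  have hq3' : Nat.Coprime q 2 := by rw [hf]; exact Nat.Coprime.pow_left f hc3
  have hqd : Nat.Coprime q d := Nat.Coprime.coprime_dvd_right hdd (Nat.Coprime.mul_right hq3' hq1)
  have hqc : q ∣ c := by
    have : q ∣ d * c := by rw [hd]; exact ⟨2 * m₁ * m₂, by ring⟩
    exact hqd.dvd_of_dvd_mul_left this
  have hcval : c = 2 * (2 * a + 1) * a * (a + 1) := by
    have h1 : q' - 1 = 2 * a := by omega
    rw [h1, haq] at hc
    have : 2 * c = 2 * (2 * (2 * a + 1) * a * (a + 1)) := by rw [hc]; ring
    omega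
  have hq'2 : 2 ≤ q' := by
    have := hp'.two_le
    exact le_trans this (Nat.le_of_dvd (by omega) hp'q')
  have ha1 : 1 ≤ a := by omega
  have hdpos : 0 < d := by
    rcases Nat.eq_zero_or_pos d with h | h
    · subst h
      have : 0 < 2 * q * m₁ * m₂ := by
        have hm1pos : 0 < m₁ := by
          rcases Nat.eq_zero_or_pos m₁ with h | h
          · exact absurd (h ▸ dvd_zero p) hpm1
          · exact h
        have hm2pos : 0 < m₂ := by
          rcases Nat.eq_zero_or_pos m₂ with h | h
          · exact absurd (h ▸ dvd_zero p) hpm2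
          · exact h
        positivity
      omega
    · exact h
  have hcle : c ≤ 2 * q * m₁ * m₂ := by
    rw [← hd]; exact Nat.le_mul_of_pos_left c hdpos
  have hcdvd : c ∣ 2 * q * m₁ * m₂ := by
    rw [← hd]; exact Dvd.intro_left d rfl
  rcases Nat.eq_or_lt_of_le ha1 with ha1' | ha2
  · -- a = 1
    exfalso
    subst ha1'
    have hc12 : c = 12 := by rw [hcval]
    rw [hc12] at hqc
    have hqle : q ≤ 12 := Nat.le_of_dvd (by norm_num) hqc
    have hqodd : Odd q := by
      rw [← hsum]; exact hm1.add_odd hm2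
    obtain ⟨k, hk⟩ := hqodd
    interval_cases q <;> omega
  · have h3 : 3 < q' := by omega
    have ha' := ha h3
    have hb' := hb h3
    have e1 : (q' - 1) / 2 = a := by omega
    have e2 : (q' + 1) / 2 = a + 1 := by omega
    rw [e1] at ha'
    rw [e2] at hb'
    by_cases hpp : p' = p
    · subst hpp
      -- p ∤ a, p ∤ a+1
      have hpa : ¬ p' ∣ a := by
        intro h
        have h1 : p' ∣ 2 * a := Dvd.dvd.mul_left h 2
        have : p' ∣ 1 := (Nat.dvd_add_right h1).1 (haq ▸ hp'q')
        exact hp.one_lt.ne' (Nat.dvd_one.1 this)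
      have hpa1 : ¬ p' ∣ a + 1 := by
        intro h
        have h1 : p' ∣ 2 * (a + 1) := Dvd.dvd.mul_left h 2
        have h2 : 2 * (a + 1) = q' + 1 := by omega
        rw [h2] at h1
        have : p' ∣ 1 := (Nat.dvd_add_right hp'q').1 h1
        exact hp.one_lt.ne' (Nat.dvd_one.1 this)
      have ca : Nat.Coprime p' a := (Nat.Prime.coprime_iff_not_dvd hp).2 hpa
      have ca1 : Nat.Coprime p' (a + 1) := (Nat.Prime.coprime_iff_not_dvd hp).2 hpa1
      have cqa : Nat.Coprime q a := by rw [hf]; exact Nat.Coprime.pow_left f ca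
      have cqa1 : Nat.Coprime q (a + 1) := by rw [hf]; exact Nat.Coprime.pow_left f ca1
      have hqq' : q ∣ q' := by
        have h1 : q ∣ (2 * a * (a + 1)) * q' := by
          have : (2 * a * (a + 1)) * q' = c := by rw [hcval, haq]; ring
          rw [this]; exact hqc
        exact (Nat.Coprime.mul_right (Nat.Coprime.mul_right hq3' cqa) cqa1).dvd_of_dvd_mul_left h1
      have hq'q : q' ∣ q := by
        have h1 : q' ∣ (2 * m₁ * m₂) * q := by
          have h2 : q' ∣ c := by rw [hcval, haq]; exact ⟨2 * a * (a + 1), by ring⟩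
          have := h2.trans hcdvd
          have e : (2 * m₁ * m₂) * q = 2 * q * m₁ * m₂ := by ring
          rw [e]; exact this
        have c1 : Nat.Coprime q' m₁ := by rw [hf']; exact Nat.Coprime.pow_left f' hc1
        have c2 : Nat.Coprime q' m₂ := by rw [hf']; exact Nat.Coprime.pow_left f' hc2
        have c3 : Nat.Coprime q' 2 := by rw [hf']; exact Nat.Coprime.pow_left f' hc3
        exact (Nat.Coprime.mul_right (Nat.Coprime.mul_right c3 c1) c2).dvd_of_dvd_mul_left h1
      exact Nat.dvd_antisymm hq'q hqq'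
    · exfalso
      have cpp : Nat.Coprime p p' := (Nat.coprime_primes hp hp').2 (Ne.symm hpp)
      have cqq' : Nat.Coprime q q' := by
        rw [hf, hf']; exact Nat.Coprime.pow f f' cpp
      have hqaa : q ∣ a * (a + 1) := by
        have h1 : q ∣ (2 * q') * (a * (a + 1)) := by
          have : (2 * q') * (a * (a + 1)) = c := by rw [hcval, haq]; ring
          rw [this]; exact hqc
        exact (Nat.Coprime.mul_right hq3' cqq').dvd_of_dvd_mul_left h1
      have hpaa : p ∣ a * (a + 1) := hpq.trans hqaa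
      have hmm : 4 * (m₁ * m₂) + 1 = q * q := by
        rcases hdiff with h | h
        · subst h; rw [← hsum]; ring
        · subst h; rw [← hsum]; ring
      rcases (Nat.Prime.dvd_mul hp).1 hpaa with hpa | hpa
      · have hap : a ∣ p := by
          rcases ha' with h | h | h
          · exact h
          · exact absurd (hpa.trans h) hpm1
          · exact absurd (hpa.trans h) hpm2
        have hae : a = p := Nat.dvd_antisymm hap hpa
        have hpa1 : ¬ p ∣ a + 1 := by
          intro h
          have : p ∣ 1 := (Nat.dvd_add_right hpa).1 h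
          exact hp.one_lt.ne' (Nat.dvd_one.1 this)
        have ca1 : Nat.Coprime p (a + 1) := (Nat.Prime.coprime_iff_not_dvd hp).2 hpa1
        have cqa1 : Nat.Coprime q (a + 1) := by rw [hf]; exact Nat.Coprime.pow_left f ca1
        have hqa : q ∣ a := cqa1.dvd_of_dvd_mul_right hqaa
        have hqp : q = p := by
          rw [hae] at hqa
          rcases (Nat.dvd_prime hp).1 hqa with h | h
          · omega
          · exact h
        rw [hcval, hae, hqp] at hcle
        rw [hqp] at hmm
        have hp0 : 0 < p := hp.pos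
        have h5 : 2 * (2 * p + 1) * p * (p + 1) = p * (2 * ((2 * p + 1) * (p + 1))) := by ring
        have h6 : 2 * p * m₁ * m₂ = p * (2 * (m₁ * m₂)) := by ring
        rw [h5, h6] at hcle
        have h7 := Nat.le_of_mul_le_mul_left hcle hp0
        nlinarith
      · have hap : a + 1 ∣ p := by
          rcases hb' with h | h | h
          · exact h
          · exact absurd (hpa.trans h) hpm1
          · exact absurd (hpa.trans h) hpm2
        have hae : a + 1 = p := Nat.dvd_antisymm hap hpa
        have hpa1 : ¬ p ∣ a := by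
          intro h
          have : p ∣ 1 := (Nat.dvd_add_right h).1 hpa
          exact hp.one_lt.ne' (Nat.dvd_one.1 this)
        have ca1 : Nat.Coprime p a := (Nat.Prime.coprime_iff_not_dvd hp).2 hpa1
        have cqa1 : Nat.Coprime q a := by rw [hf]; exact Nat.Coprime.pow_left f ca1
        have hqa : q ∣ a + 1 := cqa1.dvd_of_dvd_mul_left hqaa
        have hqp : q = p := by
          rw [hae] at hqa
          rcases (Nat.dvd_prime hp).1 hqa with h | h
          · omega
          · exact h
        rw [hcval, hqp] at hcle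
        rw [hqp] at hmm
        rw [← hae] at hcle hmm
        have hp0 : 0 < a + 1 := by omega
        have h5 : 2 * (2 * a + 1) * a * (a + 1) = (a + 1) * (2 * ((2 * a + 1) * a)) := by ring
        have h6 : 2 * (a + 1) * m₁ * m₂ = (a + 1) * (2 * (m₁ * m₂)) := by ring
        rw [h5, h6] at hcle
        have h7 := Nat.le_of_mul_le_mul_left hcle hp0
        generalize m₁ * m₂ = M at h7 hmm
        have h8 : (2 * a + 1) * a = 2 * (a * a) + a := by ring
        have h9 : (a + 1) * (a + 1) = a * a + 2 * a + 1 := by ring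
        rw [h8] at h7
        rw [h9] at hmm
        have h10 : 0 < a * a := by positivity
        omega

end Cfsg.Agent.Lib.H71OsArithN
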