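import Mathlib
import Cfsg.Agent.Lib.Helper71OSDefs

/-!
# Project OS (S3421), piece `Num`  (est. 20 min)
PURE ARITHMETIC consequences of the numerical fields of `PS` (`hp hp2 hq hq3 hm1 hm2 hsum hdiff`).
`m₁, m₂` are consecutive, so coprime; `q = m₁ + m₂`, `q^2 = (m₁+m₂)^2 = 4 m₁ m₂ + (m₁-m₂)^2 = 4 m₁ m₂ + 1`; a prime dividing `q` and `m₁ m₂` divides 1.
-/

set_option autoImplicit false
set_option linter.style.haveILetI false

namespace Cfsg.Agent.Lib.H71OsNum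

open Cfsg.Agent.Lib.Helper71OS

variable {G : Type*} [Group G] {p q m₁ m₂ : ℕ}

theorem coprime_m (h : PS G p q m₁ m₂) : Nat.Coprime m₁ m₂ := by
  rcases h.hdiff with e | e <;> rw [e] <;> simp
theorem four_mul (h : PS G p q m₁ m₂) : 4 * m₁ * m₂ + 1 = q ^ 2 := by
  rw [← h.hsum]
  rcases h.hdiff with e | e <;> rw [e] <;> ring
theorem p_dvd_q (h : PS G p q m₁ m₂) : p ∣ q := by
  obtain ⟨f, hf⟩ := h.hq
  have h3 := h.hq3
  rw [hf]
  apply dvd_pow_self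
  rintro rfl
  rw [hf, pow_zero] at h3
  omega
theorem odd_q (h : PS G p q m₁ m₂) : Odd q := by
  rw [← h.hsum]
  exact h.hm1.add_odd h.hm2
theorem coprime_q_m1 (h : PS G p q m₁ m₂) : Nat.Coprime q m₁ := by
  rw [← h.hsum]
  simpa using (coprime_m h).symm
theorem coprime_q_m2 (h : PS G p q m₁ m₂) : Nat.Coprime q m₂ := by
  rw [← h.hsum]
  simpa using (coprime_m h)
theorem coprime_p_m1 (h : PS G p q m₁ m₂) : Nat.Coprime p m₁ :=
  Nat.Coprime.coprime_dvd_left (p_dvd_q h) (coprime_q_m1 h)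
theorem coprime_p_m2 (h : PS G p q m₁ m₂) : Nat.Coprime p m₂ :=
  Nat.Coprime.coprime_dvd_left (p_dvd_q h) (coprime_q_m2 h)
theorem two_le_m1 (h : PS G p q m₁ m₂) : 2 ≤ m₁ := by
  obtain ⟨k, hk⟩ := h.hm1
  have h1 := h.hsum
  have h2 := h.hq3
  have h3 := h.hdiff
  omega
theorem three_le_m2 (h : PS G p q m₁ m₂) : 3 ≤ m₂ := by
  obtain ⟨k, hk⟩ := h.hm2
  have h1 := h.hsum
  have h2 := h.hq3
  have h3 := h.hdiff
  omega
theorem two_m1_le (h : PS G p q m₁ m₂) : 2 * m₁ ≤ q + 1 := by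
  have h1 := h.hsum
  have h3 := h.hdiff
  omega
theorem m2_lt (h : PS G p q m₁ m₂) : m₂ < q := by
  have h1 := h.hsum
  have h3 := two_le_m1 h
  omega

end Cfsg.Agent.Lib.H71OsNum
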