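import Mathlib
import Cfsg.Agent.Lib.Helper71OSDefs
import Cfsg.Agent.Lib.H71OsNum

/-!
# Project OS (S3421), piece `Mix`  (est. 30 min)
KEY LEMMA: commuting non-identity elements lie in the same "class" (`∣ p`, `∣ m₁` or `∣ m₂`).
SKETCH. `p, m₁, m₂` are pairwise coprime (`H71OsNum`).  Take primes `r ∣ orderOf a`, `r' ∣ orderOf b`, and powers `a₀, b₀` of `a, b` of orders `r, r'` (`orderOf_pow_orderOf_div`); they commute.
If `r ≠ r'`, `orderOf (a₀ b₀) = r r'` (`Commute.orderOf_mul_eq_mul_orderOf_of_coprime`), which by `h.hord` divides `p` (impossible), `m₁` or `m₂`.  So `r, r'` divide the same one of `p, m₁, m₂`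
(also if `r = r'`).  `orderOf a` divides one of them by `h.hord a`, and that one is divisible by `r`; by coprimality it is the same one.  Same for `b`.
-/

set_option autoImplicit false
set_option linter.style.haveILetI false

namespace Cfsg.Agent.Lib.H71OsMix

open Cfsg.Agent.Lib.Helper71OS

variable {G : Type*} [Group G] {p q m₁ m₂ : ℕ}

theorem exists_prime_pow {a : G} (ha : a ≠ 1) (hfin : orderOf a ≠ 0) :
    ∃ (r k : ℕ), r.Prime ∧ r ∣ orderOf a ∧ orderOf (a ^ k) = r := by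
  have h1 : orderOf a ≠ 1 := fun h => ha (orderOf_eq_one_iff.1 h)
  obtain ⟨r, hr, hrd⟩ := Nat.exists_prime_and_dvd h1
  refine ⟨r, orderOf a / r, hr, hrd, ?_⟩
  exact orderOf_pow_orderOf_div hfin hrd

/-- which of `p, m₁, m₂` a prime divides determines the class of an element -/
theorem class_of_prime (h : PS G p q m₁ m₂) {a : G} {r : ℕ} (hr : r.Prime) (hra : r ∣ orderOf a) :
    (r ∣ p → orderOf a ∣ p) ∧ (r ∣ m₁ → orderOf a ∣ m₁) ∧ (r ∣ m₂ → orderOf a ∣ m₂) := by
  have c12 := Cfsg.Agent.Lib.H71OsNum.coprime_m h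
  have cp1 := Cfsg.Agent.Lib.H71OsNum.coprime_p_m1 h
  have cp2 := Cfsg.Agent.Lib.H71OsNum.coprime_p_m2 h
  have key : ∀ {x y : ℕ}, Nat.Coprime x y → r ∣ x → r ∣ y → False := by
    intro x y hxy hx hy
    have := Nat.dvd_gcd hx hy
    rw [hxy] at this
    exact hr.one_lt.ne' (Nat.dvd_one.1 this)
  refine ⟨fun hrp => ?_, fun hr1 => ?_, fun hr2 => ?_⟩
  · rcases h.hord a with h1 | h1 | h1
    · exact h1
    · exact (key cp1 hrp (hra.trans h1)).elim
    · exact (key cp2 hrp (hra.trans h1)).elim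
  · rcases h.hord a with h1 | h1 | h1
    · exact (key cp1 (hra.trans h1) hr1).elim
    · exact h1
    · exact (key c12 hr1 (hra.trans h1)).elim
  · rcases h.hord a with h1 | h1 | h1
    · exact (key cp2 (hra.trans h1) hr2).elim
    · exact (key c12 (hra.trans h1) hr2).elim
    · exact h1

theorem orderOf_ne_zero (h : PS G p q m₁ m₂) (a : G) : orderOf a ≠ 0 := by
  have h1 := Cfsg.Agent.Lib.H71OsNum.two_le_m1 h
  have h2 := Cfsg.Agent.Lib.H71OsNum.three_le_m2 h
  intro h0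
  rcases h.hord a with h3 | h3 | h3 <;> rw [h0, zero_dvd_iff] at h3
  · exact h.hp.ne_zero h3
  · omega
  · omega

theorem same_class (h : PS G p q m₁ m₂) {a b : G} (hab : Commute a b) (ha : a ≠ 1) (hb : b ≠ 1) :
    (orderOf a ∣ p ∧ orderOf b ∣ p) ∨ (orderOf a ∣ m₁ ∧ orderOf b ∣ m₁) ∨ (orderOf a ∣ m₂ ∧ orderOf b ∣ m₂) := by
  obtain ⟨r, k, hr, hra, hrk⟩ := exists_prime_pow ha (orderOf_ne_zero h a)
  obtain ⟨s, l, hs, hsb, hsl⟩ := exists_prime_pow hb (orderOf_ne_zero h b)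
  have ca := class_of_prime h hr hra
  have cb := class_of_prime h hs hsb
  by_cases hrs : r = s
  · subst hrs
    rcases h.hord a with h1 | h1 | h1
    · exact Or.inl ⟨h1, cb.1 (hra.trans h1)⟩
    · exact Or.inr (Or.inl ⟨h1, cb.2.1 (hra.trans h1)⟩)
    · exact Or.inr (Or.inr ⟨h1, cb.2.2 (hra.trans h1)⟩)
  · have hcomm : Commute (a ^ k) (b ^ l) := (hab.pow_left k).pow_right l
    have hcop : Nat.Coprime (orderOf (a ^ k)) (orderOf (b ^ l)) := by
      rw [hrk, hsl]
      exact (Nat.coprime_primes hr hs).2 hrs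
    have hord := hcomm.orderOf_mul_eq_mul_orderOf_of_coprime hcop
    rw [hrk, hsl] at hord
    rcases h.hord (a ^ k * b ^ l) with h1 | h1 | h1 <;> rw [hord] at h1
    · exfalso
      have h2 : r ∣ p := (Dvd.intro _ rfl).trans h1
      have h3 : s ∣ p := (Dvd.intro_left _ rfl).trans h1
      have h4 := (Nat.prime_dvd_prime_iff_eq hr h.hp).1 h2
      have h5 := (Nat.prime_dvd_prime_iff_eq hs h.hp).1 h3
      exact hrs (h4.trans h5.symm)
    · exact Or.inr (Or.inl ⟨ca.2.1 ((Dvd.intro _ rfl).trans h1), cb.2.1 ((Dvd.intro_left _ rfl).trans h1)⟩)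
    · exact Or.inr (Or.inr ⟨ca.2.2 ((Dvd.intro _ rfl).trans h1), cb.2.2 ((Dvd.intro_left _ rfl).trans h1)⟩)

end Cfsg.Agent.Lib.H71OsMix
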