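import Mathlib
import Cfsg.Agent.Lib.Helper71OSDefs
import Cfsg.Agent.Lib.H71OsNum
import Cfsg.Agent.Lib.H71OsMix

/-!
# Project OS (S3421), piece `Cent`  (est. 40 min)
Orders of centralizers.  SKETCH (first one): a prime `r ∣ card C(x)` gives `c ∈ C(x)` of order `r` (Cauchy `exists_prime_orderOf_dvd_card'`), commuting with `x`; by `H71OsMix.same_class` and coprimality `r ∣ m₁`.
So `card C(x)` is coprime to `q * m₂` (`Nat.Coprime` via `Nat.coprime_of_dvd`/`Nat.Coprime.symm`...), and it divides `card G = (2 m₁)(q m₂)` (`Subgroup.card_subgroup_dvd_card`): `Nat.Coprime.dvd_of_dvd_mul_right`.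
Second: same with `2 q m₁`; note `2 ∣ m₁`.  Third: every element of `C(x)` has order dividing `p`, (`IsPGroup.of_...`: `g ^ p ^ 1 = 1`).
-/

set_option autoImplicit false
set_option linter.style.haveILetI false

namespace Cfsg.Agent.Lib.H71OsCent

open Cfsg.Agent.Lib.Helper71OS

variable {G : Type*} [Group G] [Finite G] {p q m₁ m₂ : ℕ}

/-- a prime divisor of the order of `C(x)` is the order of an element commuting with `x` -/
theorem exists_commuting {x : G} {r : ℕ} (hr : r.Prime)
    (hrd : r ∣ Nat.card (Subgroup.centralizer ({x} : Set G))) : ∃ c : G, orderOf c = r ∧ Commute x c := by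
  haveI : Fact r.Prime := ⟨hr⟩
  obtain ⟨c, hc⟩ := exists_prime_orderOf_dvd_card' r hrd
  refine ⟨(c : G), by rw [Subgroup.orderOf_coe]; exact hc, ?_⟩
  have := c.2
  rw [Subgroup.mem_centralizer_singleton_iff] at this
  exact this.symm

theorem ne_one_of_prime_order {c : G} {r : ℕ} (hr : r.Prime) (hc : orderOf c = r) : c ≠ 1 := by
  intro h1
  rw [h1, orderOf_one] at hc
  exact hr.one_lt.ne hc

theorem card_dvd_m1 (h : PS G p q m₁ m₂) {x : G} (hx : x ≠ 1) (hxm : orderOf x ∣ m₁) :
    Nat.card (Subgroup.centralizer ({x} : Set G)) ∣ 2 * m₁ := by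
  have c12 := Cfsg.Agent.Lib.H71OsNum.coprime_m h
  have cp1 := Cfsg.Agent.Lib.H71OsNum.coprime_p_m1 h
  have hx1 : orderOf x ≠ 1 := fun h1 => hx (orderOf_eq_one_iff.1 h1)
  have hcop : Nat.Coprime (Nat.card (Subgroup.centralizer ({x} : Set G))) (q * m₂) := by
    apply Nat.coprime_of_dvd
    intro r hr hrd hrq
    obtain ⟨c, hc, hcomm⟩ := exists_commuting hr hrd
    have hc1 := ne_one_of_prime_order hr hc
    have hrm1 : r ∣ m₁ := by
      rcases Cfsg.Agent.Lib.H71OsMix.same_class h hcomm hx hc1 with ⟨h1, _⟩ | ⟨_, h2⟩ | ⟨h1, _⟩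
      · exfalso
        have := Nat.dvd_gcd h1 hxm
        rw [cp1] at this
        exact hx1 (Nat.dvd_one.1 this)
      · rwa [hc] at h2
      · exfalso
        have := Nat.dvd_gcd hxm h1
        rw [c12] at this
        exact hx1 (Nat.dvd_one.1 this)
    have hcq : Nat.Coprime m₁ (q * m₂) :=
      Nat.Coprime.mul_right (Cfsg.Agent.Lib.H71OsNum.coprime_q_m1 h).symm c12
    have := Nat.dvd_gcd hrm1 hrq
    rw [hcq] at this
    exact hr.one_lt.ne' (Nat.dvd_one.1 this)
  have hdvd : Nat.card (Subgroup.centralizer ({x} : Set G)) ∣ (2 * m₁) * (q * m₂) := by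
    have := Subgroup.card_subgroup_dvd_card (Subgroup.centralizer ({x} : Set G))
    rw [h.hcard] at this
    convert this using 1
    ring
  exact hcop.dvd_of_dvd_mul_right hdvd

theorem card_dvd_m2 (h : PS G p q m₁ m₂) {x : G} (hx : x ≠ 1) (hxm : orderOf x ∣ m₂) :
    Nat.card (Subgroup.centralizer ({x} : Set G)) ∣ m₂ := by
  have c12 := Cfsg.Agent.Lib.H71OsNum.coprime_m h
  have cp2 := Cfsg.Agent.Lib.H71OsNum.coprime_p_m2 h
  have hx1 : orderOf x ≠ 1 := fun h1 => hx (orderOf_eq_one_iff.1 h1)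
  have hcop : Nat.Coprime (Nat.card (Subgroup.centralizer ({x} : Set G))) (2 * q * m₁) := by
    apply Nat.coprime_of_dvd
    intro r hr hrd hrq
    obtain ⟨c, hc, hcomm⟩ := exists_commuting hr hrd
    have hc1 := ne_one_of_prime_order hr hc
    have hrm2 : r ∣ m₂ := by
      rcases Cfsg.Agent.Lib.H71OsMix.same_class h hcomm hx hc1 with ⟨h1, _⟩ | ⟨h1, _⟩ | ⟨_, h2⟩
      · exfalso
        have := Nat.dvd_gcd h1 hxm
        rw [cp2] at this
        exact hx1 (Nat.dvd_one.1 this)
      · exfalso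
        have := Nat.dvd_gcd h1 hxm
        rw [c12] at this
        exact hx1 (Nat.dvd_one.1 this)
      · rwa [hc] at h2
    have h2m : Nat.Coprime m₂ 2 := Nat.coprime_two_right.2 h.hm2
    have hcq : Nat.Coprime m₂ (2 * q * m₁) :=
      Nat.Coprime.mul_right (Nat.Coprime.mul_right h2m (Cfsg.Agent.Lib.H71OsNum.coprime_q_m2 h).symm) c12.symm
    have := Nat.dvd_gcd hrm2 hrq
    rw [hcq] at this
    exact hr.one_lt.ne' (Nat.dvd_one.1 this)
  have hdvd : Nat.card (Subgroup.centralizer ({x} : Set G)) ∣ m₂ * (2 * q * m₁) := by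
    have := Subgroup.card_subgroup_dvd_card (Subgroup.centralizer ({x} : Set G))
    rw [h.hcard] at this
    convert this using 1
    ring
  exact hcop.dvd_of_dvd_mul_right hdvd

theorem isPGroup_p (h : PS G p q m₁ m₂) {x : G} (hx : x ≠ 1) (hxm : orderOf x ∣ p) :
    IsPGroup p (Subgroup.centralizer ({x} : Set G)) := by
  have cp1 := Cfsg.Agent.Lib.H71OsNum.coprime_p_m1 h
  have cp2 := Cfsg.Agent.Lib.H71OsNum.coprime_p_m2 h
  have hx1 : orderOf x ≠ 1 := fun h1 => hx (orderOf_eq_one_iff.1 h1)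
  intro c
  refine ⟨1, ?_⟩
  rw [pow_one]
  by_cases hc1 : (c : G) = 1
  · have : c = 1 := Subtype.ext hc1
    rw [this, one_pow]
  · have hcomm : Commute x (c : G) := by
      have := c.2
      rw [Subgroup.mem_centralizer_singleton_iff] at this
      exact this.symm
    have hcp : orderOf (c : G) ∣ p := by
      rcases Cfsg.Agent.Lib.H71OsMix.same_class h hcomm hx hc1 with ⟨_, h2⟩ | ⟨h1, _⟩ | ⟨h1, _⟩
      · exact h2
      · exfalso
        have := Nat.dvd_gcd hxm h1
        rw [cp1] at this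
        exact hx1 (Nat.dvd_one.1 this)
      · exfalso
        have := Nat.dvd_gcd hxm h1
        rw [cp2] at this
        exact hx1 (Nat.dvd_one.1 this)
    apply Subtype.ext
    rw [Subgroup.coe_pow, Subgroup.coe_one]
    exact orderOf_dvd_iff_pow_eq_one.1 hcp

end Cfsg.Agent.Lib.H71OsCent
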