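import Mathlib
import Cfsg.Agent.Lib.Helper71OSDefs

/-!
# Project OS (S3421), piece `Uniq`  (est. 15 min)
A finite cyclic group has at most one involution.
SKETCH. The subgroups `zpowers a`, `zpowers b` (inside the cyclic group `W`) have the same order 2, so they are equal (in a finite cyclic group there is at most one subgroup of each order: `IsCyclic.card_pow_eq_one_le`, `IsCyclic.ext`-like lemmas; or write `a = g^i`, `b = g^j`), and `b ∈ {1, a}`.
Second lemma: `zpowers a` has even order `2^k`, `k ≥ 1`; `a^(2^(k-1))` is an involution of `W`, so it equals `t`.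
-/

set_option autoImplicit false
set_option linter.style.haveILetI false

namespace Cfsg.Agent.Lib.H71OsUniq

open Cfsg.Agent.Lib.Helper71OS

theorem eq_of_orderOf_two {T : Type*} [Group T] [Finite T] {W : Subgroup T} (hc : IsCyclic W) {a b : T} (ha : a ∈ W) (hb : b ∈ W)
    (hao : orderOf a = 2) (hbo : orderOf b = 2) : a = b := by
  classical
  have := Fintype.ofFinite W
  have hao' : orderOf (⟨a, ha⟩ : W) = 2 := by rw [Subgroup.orderOf_mk, hao]
  have hbo' : orderOf (⟨b, hb⟩ : W) = 2 := by rw [Subgroup.orderOf_mk, hbo]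
  have hd : 2 ∣ Fintype.card W := by rw [← hao']; exact orderOf_dvd_card
  have hcard := IsCyclic.card_orderOf_eq_totient (α := W) hd
  rw [Nat.totient_two] at hcard
  obtain ⟨c, hc'⟩ := Finset.card_eq_one.1 hcard
  have h1 : (⟨a, ha⟩ : W) ∈ ({c} : Finset W) := by rw [← hc']; simp [hao']
  have h2 : (⟨b, hb⟩ : W) ∈ ({c} : Finset W) := by rw [← hc']; simp [hbo']
  rw [Finset.mem_singleton] at h1 h2
  exact congrArg Subtype.val (h1.trans h2.symm)

/-- a nontrivial 2-element of a cyclic group has the involution among its powers -/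
theorem mem_zpowers_of_two_pow {T : Type*} [Group T] [Finite T] {W : Subgroup T} (hc : IsCyclic W) {a t : T} (ha : a ∈ W) (ht : t ∈ W)
    (hto : orderOf t = 2) (ha1 : a ≠ 1) (k : ℕ) (hak : orderOf a = 2 ^ k) : t ∈ Subgroup.zpowers a := by
  obtain ⟨j, rfl⟩ : ∃ j, k = j + 1 := by
    rcases k with _ | j
    · rw [pow_zero, orderOf_eq_one_iff] at hak
      exact absurd hak ha1
    · exact ⟨j, rfl⟩
  have ho : orderOf (a ^ 2 ^ j) = 2 := by
    rw [orderOf_pow_of_dvd (pow_ne_zero _ (by norm_num)) (by rw [hak]; exact pow_dvd_pow 2 (Nat.le_succ j)),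
      hak, pow_succ]
    exact Nat.mul_div_cancel_left 2 (by positivity)
  have := eq_of_orderOf_two hc ht (W.pow_mem ha (2 ^ j)) hto ho
  rw [this]
  exact Subgroup.pow_mem _ (Subgroup.mem_zpowers a) _

end Cfsg.Agent.Lib.H71OsUniq
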