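import Mathlib
import Cfsg.Agent.Lib.Helper71OSDefs
import Cfsg.Agent.Lib.H71OsNum
import Cfsg.Agent.Lib.H71OsCent
import Cfsg.Agent.Lib.H71OsUniq
import Cfsg.Agent.Lib.Helper3PGroup

/-!
# Project OS (S3421), piece `CentT`  (est. 1 h)
`t = w^(m₁/2)` is an involution and `card C(t) = 2 m₁`.
SKETCH. `card C(t) ∣ 2 m₁` (`H71OsCent.card_dvd_m1`), `zpowers w ≤ C(t)` so `m₁ ∣ card C(t)`; so it is `m₁` or `2 m₁`.  2-part: write `m₁ = 2^k * m'`, `m'` odd, `k ≥ 1`; the 2-part of `card G = 2 q m₁ m₂` is `2^(k+1)`.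
`w₂ = w^m'` has order `2^k`; `zpowers w₂` is a 2-group, inside a Sylow 2-subgroup `S` (`IsPGroup.exists_le_sylow`), `card S = 2^(k+1)` (`Sylow.card_eq_multiplicity`), so `zpowers w₂` has index 2 in `S`, so it is normalized by `S`
(`Subgroup.normal_of_index_eq_two` in `↥S`); `t ∈ zpowers w₂` is its only involution (`H71OsUniq`), so `S` centralizes `t`: `2^(k+1) ∣ card C(t)`, which excludes `card C(t) = m₁`.
-/

set_option autoImplicit false
set_option linter.style.haveILetI false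

namespace Cfsg.Agent.Lib.H71OsCentT

open Cfsg.Agent.Lib.Helper71OS

variable {G : Type*} [Group G] [Finite G] {p q m₁ m₂ : ℕ}

theorem orderOf_t (h : PS G p q m₁ m₂) {w : G} (hw : orderOf w = m₁) : orderOf (w ^ (m₁ / 2)) = 2 := by
  have h2 := Cfsg.Agent.Lib.H71OsNum.two_le_m1 h
  obtain ⟨k, hk⟩ := h.hm1
  have hk' : m₁ / 2 = k := by omega
  have hk0 : k ≠ 0 := by omega
  rw [hk', orderOf_pow_of_dvd hk0 (by rw [hw]; exact ⟨2, by omega⟩), hw]
  rw [hk, ← two_mul]
  exact Nat.mul_div_left 2 (by omega)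

theorem card_centralizer_t (h : PS G p q m₁ m₂) {w : G} (hw : orderOf w = m₁) :
    Nat.card (Subgroup.centralizer ({w ^ (m₁ / 2)} : Set G)) = 2 * m₁ := by
  classical
  haveI : Fact (Nat.Prime 2) := ⟨Nat.prime_two⟩
  set t := w ^ (m₁ / 2) with ht
  have hto : orderOf t = 2 := orderOf_t h hw
  have ht1 : t ≠ 1 := by
    intro h1
    rw [h1, orderOf_one] at hto
    omega
  have hm1 := Cfsg.Agent.Lib.H71OsNum.two_le_m1 h
  have hdvd : Nat.card (Subgroup.centralizer ({t} : Set G)) ∣ 2 * m₁ :=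
    Cfsg.Agent.Lib.H71OsCent.card_dvd_m1 h ht1 (by rw [hto]; exact even_iff_two_dvd.1 h.hm1)
  have hWle : Subgroup.zpowers w ≤ Subgroup.centralizer ({t} : Set G) := by
    rw [Subgroup.zpowers_le, Subgroup.mem_centralizer_singleton_iff]
    rw [ht, ← pow_succ', ← pow_succ]
  have hWcard : Nat.card (Subgroup.zpowers w) = m₁ := by rw [Nat.card_zpowers, hw]
  have hm1dvd : m₁ ∣ Nat.card (Subgroup.centralizer ({t} : Set G)) := by
    rw [← hWcard]
    exact Subgroup.card_dvd_of_le hWle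
  obtain ⟨a, ha⟩ := hm1dvd
  obtain ⟨b, hb⟩ := hdvd
  have hab : a * b = 2 := by
    rw [ha] at hb
    have : m₁ * 2 = m₁ * (a * b) := by rw [mul_comm m₁ 2, hb]; ring
    exact (Nat.eq_of_mul_eq_mul_left (by omega) this).symm
  have ha2 : a = 1 ∨ a = 2 := by
    have : a ∣ 2 := ⟨b, hab.symm⟩
    exact (Nat.dvd_prime Nat.prime_two).1 this
  rcases ha2 with ha1 | ha2
  swap
  · rw [ha, ha2, mul_comm]
  exfalso
  -- C(t) = W
  have hCW : Subgroup.centralizer ({t} : Set G) = Subgroup.zpowers w := by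
    symm
    apply Subgroup.eq_of_le_of_card_ge hWle
    rw [hWcard, ha, ha1, mul_one]
  -- a Sylow 2-subgroup containing t
  have hpg : IsPGroup 2 (Subgroup.zpowers t) := by
    apply IsPGroup.of_card (n := 1)
    rw [Nat.card_zpowers, hto, pow_one]
  obtain ⟨Q, hQ⟩ := hpg.exists_le_sylow
  have htQ : t ∈ (Q : Subgroup G) := hQ (Subgroup.mem_zpowers t)
  have hne : (⊤ : Subgroup (Q : Subgroup G)) ≠ ⊥ := by
    intro hbot
    have : (⟨t, htQ⟩ : (Q : Subgroup G)) ∈ (⊥ : Subgroup (Q : Subgroup G)) := hbot ▸ Subgroup.mem_top _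
    rw [Subgroup.mem_bot] at this
    exact ht1 (congrArg Subtype.val this)
  obtain ⟨z, -, hzZ, hz1, hz2⟩ := Cfsg.Agent.Lib.Helper3PGroup.exists_central_order_p Q.2 ⊤ hne
  have hzo : orderOf (z : G) = 2 := by
    rw [Subgroup.orderOf_coe]
    exact orderOf_eq_prime hz2 hz1
  have hzt : (z : G) ∈ Subgroup.centralizer ({t} : Set G) := by
    rw [Subgroup.mem_centralizer_singleton_iff]
    have := Subgroup.mem_center_iff.1 hzZ ⟨t, htQ⟩
    exact (congrArg Subtype.val this).symm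
  have hcyc : IsCyclic (Subgroup.zpowers w) := inferInstance
  have hzeq : (z : G) = t := by
    apply Cfsg.Agent.Lib.H71OsUniq.eq_of_orderOf_two hcyc (hCW ▸ hzt) _ hzo hto
    rw [ht]
    exact Subgroup.pow_mem _ (Subgroup.mem_zpowers w) _
  have hQle : (Q : Subgroup G) ≤ Subgroup.zpowers w := by
    rw [← hCW]
    intro x hx
    rw [Subgroup.mem_centralizer_singleton_iff]
    have := Subgroup.mem_center_iff.1 hzZ ⟨x, hx⟩
    have h3 := congrArg Subtype.val this
    simp only [Subgroup.coe_mul] at h3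
    rw [hzeq] at h3
    exact h3
  have hQdvd : Nat.card (Q : Subgroup G) ∣ m₁ := by
    rw [← hWcard]
    exact Subgroup.card_dvd_of_le hQle
  obtain ⟨k, hk⟩ := hQdvd
  have hidx := Q.not_dvd_index
  apply hidx
  have hmul := (Q : Subgroup G).card_mul_index
  rw [h.hcard, hk] at hmul
  have hQpos : 0 < Nat.card (Q : Subgroup G) := Nat.card_pos
  have : (Q : Subgroup G).index = 2 * (q * k * m₂) := by
    apply Nat.eq_of_mul_eq_mul_left hQpos
    rw [hmul]; ring
  exact ⟨_, this⟩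

end Cfsg.Agent.Lib.H71OsCentT
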