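import Mathlib
import Cfsg.Agent.Lib.Helper71OSDefs
import Cfsg.Agent.Lib.H71OsNum
import Cfsg.Agent.Lib.H71OsCent
import Cfsg.Agent.Lib.H71OsCentT
import Cfsg.Agent.Lib.H71OsUniq

/-!
# Project OS (S3421), piece `BSG`  (est. 1 h)
`G` itself satisfies `BS` with `t = w^(m₁/2)`, `W = zpowers w`.
SKETCH. `ht`: `H71OsCentT.orderOf_t`.  `hidx`: `card W = m₁` (`Nat.card_zpowers`), `card C(t) = 2 m₁`, `Subgroup.relIndex_mul_card`/`Subgroup.card_mul_relIndex`... .  `hsyl`: `index C(t) * (2 m₁) = 2 q m₁ m₂`, so the index is `q m₂`, odd.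
`hcent`: `x ∈ W`, `x ≠ 1`: `orderOf x ∣ m₁`, `W ≤ C(x)` (abelian), `card C(x) ∣ 2 m₁`, so `card C(x) = m₁` (then `C(x) = W`, `Subgroup.eq_of_le_of_card_ge`) or `2 m₁`; then `W` has index 2 in `C(x)`, so is normalized by it; for `c ∈ C(x)`,
`c t c⁻¹ ∈ W` is an involution, so `= t` (`H71OsUniq`): `C(x) ≤ C(t)`, equal cardinalities, so equal.
-/

set_option autoImplicit false
set_option linter.style.haveILetI false

namespace Cfsg.Agent.Lib.H71OsBSG

open Cfsg.Agent.Lib.Helper71OS

variable {G : Type*} [Group G] [Finite G] {p q m₁ m₂ : ℕ}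

theorem relIndex_eq_two {H K : Subgroup G} (hle : H ≤ K) {m : ℕ} (hm : 0 < m) (hH : Nat.card H = m)
    (hK : Nat.card K = 2 * m) : H.relIndex K = 2 := by
  have h1 := (H.subgroupOf K).card_mul_index
  rw [Nat.card_congr (Subgroup.subgroupOfEquivOfLe hle).toEquiv, hH, hK] at h1
  have : m * (H.subgroupOf K).index = m * 2 := by rw [h1]; ring
  exact Nat.eq_of_mul_eq_mul_left hm this

theorem bs_of_ps (h : PS G p q m₁ m₂) {w : G} (hw : orderOf w = m₁) :
    BS G (w ^ (m₁ / 2)) (Subgroup.zpowers w) := by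
  classical
  set t := w ^ (m₁ / 2) with ht
  have hto : orderOf t = 2 := Cfsg.Agent.Lib.H71OsCentT.orderOf_t h hw
  have hCcard := Cfsg.Agent.Lib.H71OsCentT.card_centralizer_t h hw
  rw [← ht] at hCcard
  have hm1 := Cfsg.Agent.Lib.H71OsNum.two_le_m1 h
  have htW : t ∈ Subgroup.zpowers w := Subgroup.pow_mem _ (Subgroup.mem_zpowers w) _
  have hWle : Subgroup.zpowers w ≤ Subgroup.centralizer ({t} : Set G) := by
    rw [Subgroup.zpowers_le, Subgroup.mem_centralizer_singleton_iff]
    rw [ht, ← pow_succ', ← pow_succ]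
  have hWcard : Nat.card (Subgroup.zpowers w) = m₁ := by rw [Nat.card_zpowers, hw]
  have hcyc : IsCyclic (Subgroup.zpowers w) := inferInstance
  refine ⟨hto, htW, hcyc, hWle, relIndex_eq_two hWle (by omega) hWcard hCcard, ?_, ?_⟩
  · intro x hxW hx1
    have hxm : orderOf x ∣ m₁ := by
      rw [← hWcard]
      have := orderOf_dvd_natCard (⟨x, hxW⟩ : Subgroup.zpowers w)
      rwa [← Subgroup.orderOf_coe] at this
    have hdvd := Cfsg.Agent.Lib.H71OsCent.card_dvd_m1 h hx1 hxm
    have hWx : Subgroup.zpowers w ≤ Subgroup.centralizer ({x} : Set G) := by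
      rw [Subgroup.zpowers_le, Subgroup.mem_centralizer_singleton_iff]
      obtain ⟨k, rfl⟩ := Subgroup.mem_zpowers_iff.1 hxW
      exact (Commute.zpow_right (Commute.refl w) k).eq
    have hm1dvd : m₁ ∣ Nat.card (Subgroup.centralizer ({x} : Set G)) := by
      rw [← hWcard]
      exact Subgroup.card_dvd_of_le hWx
    obtain ⟨a, ha⟩ := hm1dvd
    obtain ⟨b, hb⟩ := hdvd
    have hab : a * b = 2 := by
      rw [ha] at hb
      have : m₁ * 2 = m₁ * (a * b) := by rw [mul_comm m₁ 2, hb]; ring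
      exact (Nat.eq_of_mul_eq_mul_left (by omega) this).symm
    have ha2 : a = 1 ∨ a = 2 := by
      have : a ∣ 2 := ⟨b, hab.symm⟩
      exact (Nat.dvd_prime Nat.prime_two).1 this
    rcases ha2 with ha1 | ha2
    · left
      symm
      apply Subgroup.eq_of_le_of_card_ge hWx
      rw [hWcard, ha, ha1, mul_one]
    · right
      have hxcard : Nat.card (Subgroup.centralizer ({x} : Set G)) = 2 * m₁ := by rw [ha, ha2, mul_comm]
      have hri := relIndex_eq_two hWx (by omega) hWcard hxcard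
      haveI hn : ((Subgroup.zpowers w).subgroupOf (Subgroup.centralizer ({x} : Set G))).Normal :=
        Subgroup.normal_of_index_eq_two hri
      apply Subgroup.eq_of_le_of_card_ge
      · intro c hc
        rw [Subgroup.mem_centralizer_singleton_iff]
        have h1 : (⟨c, hc⟩ : Subgroup.centralizer ({x} : Set G)) * ⟨t, hWx htW⟩ * (⟨c, hc⟩)⁻¹ ∈
            (Subgroup.zpowers w).subgroupOf (Subgroup.centralizer ({x} : Set G)) :=
          hn.conj_mem _ (by rw [Subgroup.mem_subgroupOf]; exact htW) _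
        rw [Subgroup.mem_subgroupOf] at h1
        have h2 : c * t * c⁻¹ ∈ Subgroup.zpowers w := h1
        have h3 : orderOf (c * t * c⁻¹) = 2 := by
          rw [← hto]
          exact (MulAut.conj c).orderOf_eq t
        have h4 := Cfsg.Agent.Lib.H71OsUniq.eq_of_orderOf_two hcyc h2 htW h3 hto
        calc c * t = c * t * c⁻¹ * c := by group
          _ = t * c := by rw [h4]
      · rw [hxcard, hCcard]
  · have hmul := (Subgroup.centralizer ({t} : Set G)).card_mul_index
    rw [hCcard, h.hcard] at hmul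
    have hidx : (Subgroup.centralizer ({t} : Set G)).index = q * m₂ := by
      apply Nat.eq_of_mul_eq_mul_left (show 0 < 2 * m₁ by omega)
      rw [hmul]; ring
    rw [hidx]
    have hodd : Odd (q * m₂) := (Cfsg.Agent.Lib.H71OsNum.odd_q h).mul h.hm2
    intro h2
    exact (Nat.not_even_iff_odd.2 hodd) (even_iff_two_dvd.2 h2)

end Cfsg.Agent.Lib.H71OsBSG
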