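import Mathlib
import Cfsg.Agent.Lib.Helper71OSDefs
import Cfsg.Agent.Lib.Helper14CoreB
import Cfsg.Statements.S0508

/-!
# Project OS (S3421), piece `BswO`
The core `O(C(t))` consists of elements of odd order of `W`.
-/

set_option autoImplicit false
set_option linter.style.haveILetI false

namespace Cfsg.Agent.Lib.H71OsBswO

open Cfsg.Agent.Lib.Helper71OS

variable {T : Type*} [Group T] [Finite T] {t : T} {W : Subgroup T}

theorem oddCore_le (hBS : BS T t W) :
    ∀ y ∈ (Cfsg.oddCore (Subgroup.centralizer ({t} : Set T))).map (Subgroup.centralizer ({t} : Set T)).subtype,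
      y ∈ W ∧ Odd (orderOf y) := by
  intro y hy
  obtain ⟨z, hz, rfl⟩ := Subgroup.mem_map.mp hy
  have hcop : (Nat.card (Cfsg.oddCore (Subgroup.centralizer ({t} : Set T)))).Coprime 2 :=
    Cfsg.Agent.Lib.Helper14CoreB.card_pPrimeCore_coprime 2
  have hzo : orderOf z ∣ Nat.card (Cfsg.oddCore (Subgroup.centralizer ({t} : Set T))) := by
    have := orderOf_dvd_natCard (⟨z, hz⟩ : Cfsg.oddCore (Subgroup.centralizer ({t} : Set T)))
    rwa [← Subgroup.orderOf_coe] at this
  have hodd : Odd (orderOf ((Subgroup.centralizer ({t} : Set T)).subtype z)) := by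
    have h1 : orderOf ((Subgroup.centralizer ({t} : Set T)).subtype z) = orderOf z := by
      simp
    rw [h1]
    have h2 : (orderOf z).Coprime 2 := Nat.Coprime.coprime_dvd_left hzo hcop
    exact Nat.coprime_two_right.mp h2
  refine ⟨?_, hodd⟩
  have hidx : (W.subgroupOf (Subgroup.centralizer ({t} : Set T))).index = 2 := hBS.hidx
  have hoz : Odd (orderOf z) := by simpa using hodd
  obtain ⟨m, hm⟩ := hoz
  have h1 := Subgroup.sq_mem_of_index_two hidx (z ^ (m + 1))
  have h3 : (z ^ (m + 1)) ^ 2 = z := by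
    rw [← pow_mul]
    have : (m + 1) * 2 = orderOf z + 1 := by omega
    rw [this, pow_succ, pow_orderOf_eq_one, one_mul]
  rw [h3] at h1
  simpa [Subgroup.mem_subgroupOf] using h1

end Cfsg.Agent.Lib.H71OsBswO
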