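import Mathlib
import Cfsg.Agent.Lib.Helper71OSDefs
import Cfsg.Agent.Lib.H71OsUniq
import Cfsg.Agent.S0111

/-!
# Project OS (S3421), piece `Conj`  (est. 30 min)
Thompson transfer: an involution of `S ∖ W` is conjugate to `t`.
SKETCH. `Cfsg.Agent.S0111.result S (S ⊓ W) inf_le_left hS.hidx u hu huS (fun h => huW h.2)`.  First alternative contradicts `hR.h1`.  Second: `g u g⁻¹ ∈ W` has order 2, so `= t` (`H71OsUniq.eq_of_orderOf_two`).
-/

set_option autoImplicit false
set_option linter.style.haveILetI false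

namespace Cfsg.Agent.Lib.H71OsConj

open Cfsg.Agent.Lib.Helper71OS

variable {T : Type*} [Group T] [Finite T] {t : T} {W : Subgroup T}

theorem conj_t (hBS : BS T t W) (hR : Red T) {S : Sylow 2 T} (hS : SY t W S) {u : T} (huS : u ∈ (S : Subgroup T))
    (huW : u ∉ W) (hu : orderOf u = 2) : ∃ g : T, g * u * g⁻¹ = t := by
  rcases Cfsg.Agent.S0111.result S ((S : Subgroup T) ⊓ W) inf_le_left hS.hidx u hu huS (fun h => huW h.2) with
    ⟨M, _, hM, _⟩ | ⟨g, hg⟩
  · exact absurd hM (hR.h1 M)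
  · refine ⟨g, ?_⟩
    have ho : orderOf (g * u * g⁻¹) = 2 := by
      have : g * u * g⁻¹ = MulAut.conj g u := rfl
      rw [this, MulEquiv.orderOf_eq]; exact hu
    exact H71OsUniq.eq_of_orderOf_two hBS.hcyc hg.2 hBS.htW ho hBS.ht

end Cfsg.Agent.Lib.H71OsConj
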