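import Mathlib
import Cfsg.Agent.Lib.Helper71OSDefs
import Cfsg.Agent.Lib.H71OsUniq
import Cfsg.Agent.Lib.H71OsConj

/-!
# Project OS (S3421), piece `Four`  (est. 1.5 h)
`C_S(u)` has order 4 for an involution `u ∈ S ∖ W`.
SKETCH. `D = S ⊓ C(u)`, `D₀ = D ⊓ W`.  `u ∈ D`, `u ∉ W`, `t ∈ D₀` (`t` commutes with `u ∈ S ≤ C(t)`).
CLAIM: `a^2 = 1` for `a ∈ D₀`.  Let `g u g⁻¹ = t` (`H71OsConj`).  `g a g⁻¹ ∈ C(t)` (as `a` commutes with `u`), so `(g a g⁻¹)^2 ∈ W` (`W` has index 2 in `C(t)`: `Subgroup.sq_mem_of_index_two`/`mul_self_mem_of_index_two` in `↥C(t)`).  Suppose `b = a^2 ≠ 1`; `b` is a 2-element (in `S`) of `W`, so `t ∈ zpowers b` (`H71OsUniq.mem_zpowers_of_two_pow`);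
`g b g⁻¹ ∈ W` is a nontrivial 2-element, so `t ∈ zpowers (g b g⁻¹)`, i.e. `u = g⁻¹ t g ∈ zpowers b ≤ W`. Contradiction with `huW`.
So `D₀ ⊆ {1, t}` (an element of `W` with `a^2 = 1`, `a ≠ 1` is an involution of the cyclic group `W`), `card D₀ = 2`.  `D₀` has index 2 in `D`: for `d ∈ D ∖ W`: `d u⁻¹ ∈ W` because `[S : S ⊓ W] = 2` (`Subgroup.mul_mem_iff_of_index_two`-like in `↥S`).  So `card D = 4`; concretely `D = {1, t, u, t u}`.
-/

set_option autoImplicit false
set_option linter.style.haveILetI false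

namespace Cfsg.Agent.Lib.H71OsFour

open Cfsg.Agent.Lib.Helper71OS

variable {T : Type*} [Group T] [Finite T] {t : T} {W : Subgroup T}

theorem card_centralizer_four (hBS : BS T t W) (hR : Red T) {S : Sylow 2 T} (hS : SY t W S) {u : T}
    (huS : u ∈ (S : Subgroup T)) (huW : u ∉ W) (hu : orderOf u = 2) :
    Nat.card ((S : Subgroup T) ⊓ Subgroup.centralizer ({u} : Set T) : Subgroup T) = 4 := by
  classical
  haveI : Fact (Nat.Prime 2) := ⟨Nat.prime_two⟩
  obtain ⟨g, hg⟩ := Cfsg.Agent.Lib.H71OsConj.conj_t hBS hR hS huS huW hu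
  have ht1 : t ≠ 1 := by
    intro h0
    have := hBS.ht
    rw [h0, orderOf_one] at this
    omega
  have hu1 : u ≠ 1 := by
    intro h0
    rw [h0, orderOf_one] at hu
    omega
  have hu2 : u * u = 1 := by
    rw [← sq, ← hu, pow_orderOf_eq_one]
  have htu : t * u = u * t := by
    have := hS.hSC huS
    rw [Subgroup.mem_centralizer_singleton_iff] at this
    exact this.symm
  -- the claim
  have claim : ∀ a, a ∈ (S : Subgroup T) → a * u = u * a → a ∈ W → a ^ 2 = 1 := by
    intro a haS hau haW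
    by_contra hb1
    have hbW : a ^ 2 ∈ W := W.pow_mem haW 2
    have hbS : a ^ 2 ∈ (S : Subgroup T) := (S : Subgroup T).pow_mem haS 2
    obtain ⟨k, hk⟩ := IsPGroup.iff_orderOf.mp S.2 ⟨a ^ 2, hbS⟩
    rw [Subgroup.orderOf_mk] at hk
    have ha'C : g * a * g⁻¹ ∈ Subgroup.centralizer ({t} : Set T) := by
      rw [Subgroup.mem_centralizer_singleton_iff, ← hg]
      calc g * a * g⁻¹ * (g * u * g⁻¹) = g * (a * u) * g⁻¹ := by group
        _ = g * (u * a) * g⁻¹ := by rw [hau]
        _ = g * u * g⁻¹ * (g * a * g⁻¹) := by group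
    have hb'W : g * a ^ 2 * g⁻¹ ∈ W := by
      have h1 : (W.subgroupOf (Subgroup.centralizer ({t} : Set T))).index = 2 := hBS.hidx
      have h2 := Subgroup.sq_mem_of_index_two h1 ⟨g * a * g⁻¹, ha'C⟩
      rw [Subgroup.mem_subgroupOf] at h2
      have h3 : (g * a * g⁻¹) ^ 2 ∈ W := by simpa using h2
      rwa [conj_pow] at h3
    have hb'1 : g * a ^ 2 * g⁻¹ ≠ 1 := by
      intro h0
      apply hb1
      have : a ^ 2 = g⁻¹ * (g * a ^ 2 * g⁻¹) * g := by group
      rw [this, h0]; group
    have hb'o : orderOf (g * a ^ 2 * g⁻¹) = 2 ^ k := by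
      rw [← hk]
      exact orderOf_injective (MulAut.conj g).toMonoidHom (MulAut.conj g).injective (a ^ 2)
    have h4 := Cfsg.Agent.Lib.H71OsUniq.mem_zpowers_of_two_pow hBS.hcyc hb'W hBS.htW hBS.ht hb'1 k hb'o
    obtain ⟨n, hn⟩ := Subgroup.mem_zpowers_iff.mp h4
    rw [conj_zpow] at hn
    apply huW
    have : u = (a ^ 2) ^ n := by
      have e1 : u = g⁻¹ * t * g := by rw [← hg]; group
      rw [e1, ← hn]; group
    rw [this]
    exact W.zpow_mem hbW n
  have hD0 : ∀ a, a ∈ (S : Subgroup T) → a * u = u * a → a ∈ W → a = 1 ∨ a = t := by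
    intro a haS hau haW
    by_cases ha1 : a = 1
    · exact Or.inl ha1
    · right
      have := orderOf_eq_prime (claim a haS hau haW) ha1
      exact Cfsg.Agent.Lib.H71OsUniq.eq_of_orderOf_two hBS.hcyc haW hBS.htW this hBS.ht
  have hset : (((S : Subgroup T) ⊓ Subgroup.centralizer ({u} : Set T) : Subgroup T) : Set T) =
      {1, t, u, t * u} := by
    ext d
    simp only [SetLike.mem_coe, Subgroup.mem_inf, Subgroup.mem_centralizer_singleton_iff,
      Set.mem_insert_iff, Set.mem_singleton_iff]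
    constructor
    · rintro ⟨hdS, hdu⟩
      by_cases hdW : d ∈ W
      · rcases hD0 d hdS hdu hdW with h0 | h0
        · exact Or.inl h0
        · exact Or.inr (Or.inl h0)
      · have h1 : (((S : Subgroup T) ⊓ W).subgroupOf (S : Subgroup T)).index = 2 := hS.hidx
        have h2 := (Subgroup.mul_mem_iff_of_index_two h1 (a := ⟨d, hdS⟩) (b := ⟨u, huS⟩)).mpr (by
          simp only [Subgroup.mem_subgroupOf, Subgroup.mem_inf]
          constructor
          · intro h; exact absurd h.2 hdW
          · intro h; exact absurd h.2 huW)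
        rw [Subgroup.mem_subgroupOf, Subgroup.mem_inf] at h2
        have h3 : d * u ∈ W := h2.2
        have h4 : d * u * u = u * (d * u) := by rw [mul_assoc, hu2, mul_one, ← mul_assoc, ← hdu, mul_assoc, hu2, mul_one]
        rcases hD0 (d * u) ((S : Subgroup T).mul_mem hdS huS) h4 h3 with h0 | h0
        · right; right; left
          calc d = d * (u * u) := by rw [hu2, mul_one]
            _ = (d * u) * u := by rw [mul_assoc]
            _ = u := by rw [h0, one_mul]
        · right; right; right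
          calc d = d * (u * u) := by rw [hu2, mul_one]
            _ = (d * u) * u := by rw [mul_assoc]
            _ = t * u := by rw [h0]
    · rintro (rfl | rfl | rfl | rfl)
      · exact ⟨(S : Subgroup T).one_mem, by simp⟩
      · exact ⟨hS.htS, htu⟩
      · exact ⟨huS, rfl⟩
      · exact ⟨(S : Subgroup T).mul_mem hS.htS huS, by rw [mul_assoc, ← mul_assoc u t u, ← htu, mul_assoc]⟩
  have hcard : Nat.card ((S : Subgroup T) ⊓ Subgroup.centralizer ({u} : Set T) : Subgroup T) =
      Set.ncard (((S : Subgroup T) ⊓ Subgroup.centralizer ({u} : Set T) : Subgroup T) : Set T) := rfl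
  rw [hcard, hset]
  have htu' : t ≠ u := by
    intro h0
    exact huW (h0 ▸ hBS.htW)
  rw [Set.ncard_insert_of_notMem, Set.ncard_insert_of_notMem, Set.ncard_insert_of_notMem,
    Set.ncard_singleton]
  · simp only [Set.mem_singleton_iff]
    intro h0
    apply ht1
    calc t = t * (u * u) := by rw [hu2, mul_one]
      _ = (t * u) * u := by rw [mul_assoc]
      _ = 1 := by rw [← h0, hu2]
  · simp only [Set.mem_insert_iff, Set.mem_singleton_iff, not_or]
    refine ⟨htu', ?_⟩
    intro h0
    apply hu1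
    have : t * 1 = t * u := by rw [mul_one]; exact h0
    exact (mul_left_cancel this).symm
  · simp only [Set.mem_insert_iff, Set.mem_singleton_iff, not_or]
    refine ⟨ht1.symm, hu1.symm, ?_⟩
    intro h0
    apply htu'
    calc t = t * (u * u) := by rw [hu2, mul_one]
      _ = (t * u) * u := by rw [mul_assoc]
      _ = u := by rw [← h0, one_mul]

end Cfsg.Agent.Lib.H71OsFour
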