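import Mathlib
import Cfsg.Agent.Lib.Helper71OSDefs

/-!
# Project OS (S3421), piece `Frat`  (est. 45 min)
PURE Frattini argument: `G = N C_G(t)`, so `[G : N]` divides `card C_G(t)`.
SKETCH. For `g : G`, `g t g⁻¹ ∈ N` is an involution, so `n (g t g⁻¹) n⁻¹ = t` for some `n ∈ N`: `n g ∈ C(t)`, `g ∈ N ⊔ C(t)`.  So `N ⊔ C(t) = ⊤`; `N.index = N.relIndex (C(t))`... (`Subgroup.relIndex_eq_of_sup..`: `N.relIndex K = N.relIndex (N ⊔ K)` `Subgroup.relIndex_sup_right`), and `N.relIndex K ∣ card K` (`Subgroup.relIndex` is the index of `N.subgroupOf K`; `Subgroup.index_dvd_card`).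
-/

set_option autoImplicit false
set_option linter.style.haveILetI false

namespace Cfsg.Agent.Lib.H71OsFrat

open Cfsg.Agent.Lib.Helper71OS

theorem index_dvd {G : Type*} [Group G] [Finite G] (N : Subgroup G) [N.Normal] (t : G) (htN : t ∈ N) (ht : orderOf t = 2)
    (hconj : ∀ v : ↥N, orderOf v = 2 → ∃ g : ↥N, g * v * g⁻¹ = ⟨t, htN⟩) :
    N.index ∣ Nat.card (Subgroup.centralizer ({t} : Set G)) := by
  have htop : Subgroup.centralizer ({t} : Set G) ⊔ N = ⊤ := by
    rw [eq_top_iff]
    intro g _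
    have hm : g * t * g⁻¹ ∈ N := (inferInstance : N.Normal).conj_mem t htN g
    have ho : orderOf (⟨g * t * g⁻¹, hm⟩ : N) = 2 := by
      rw [Subgroup.orderOf_mk, ← ht]
      exact orderOf_injective (MulAut.conj g).toMonoidHom (MulAut.conj g).injective t
    obtain ⟨n, hn⟩ := hconj _ ho
    have hn' : (n : G) * (g * t * g⁻¹) * (n : G)⁻¹ = t := by
      simpa using congrArg Subtype.val hn
    have hc : (n : G) * g ∈ Subgroup.centralizer ({t} : Set G) := by
      rw [Subgroup.mem_centralizer_singleton_iff]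
      have e : (n : G) * g * t = ((n : G) * (g * t * g⁻¹) * (n : G)⁻¹) * ((n : G) * g) := by group
      rw [e, hn']
    have e2 : g = (n : G)⁻¹ * ((n : G) * g) := by group
    rw [e2]
    exact Subgroup.mul_mem _
      ((le_sup_right : N ≤ Subgroup.centralizer ({t} : Set G) ⊔ N) (N.inv_mem n.2))
      ((le_sup_left : Subgroup.centralizer ({t} : Set G) ≤ Subgroup.centralizer ({t} : Set G) ⊔ N) hc)
  rw [← Subgroup.relIndex_top_right, ← htop, Subgroup.relIndex_sup_right]
  exact Subgroup.relIndex_dvd_card _ _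

end Cfsg.Agent.Lib.H71OsFrat
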