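import Mathlib
import Cfsg.Agent.Lib.Helper71OSDefs

/-!
# Project OS (S3421), piece `Semi`  (est. 40 min)
PURE: semiregular conjugation action.  If `X` normalizes... (here `N` is normal) and no non-identity element of `X` commutes with a non-identity element of `N`, then `card X ∣ card N - 1`.
SKETCH. `X` acts on the set `{n : N // n ≠ 1}` by conjugation (`MulAut.conjNormal` or `MulAction` by hand), all stabilizers are trivial, so all orbits have `card X` elements
(`MulAction.card_orbit_mul_card_stabilizer_eq_card_group`, `MulAction.selfEquivSigmaOrbits`), or: use `Nat.card` of sigma type / `MulAction.IsPretransitive`-free counting `card_eq_sum_card_group_div_card_stabilizer`.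
-/

set_option autoImplicit false
set_option linter.style.haveILetI false

namespace Cfsg.Agent.Lib.H71OsSemi

open Cfsg.Agent.Lib.Helper71OS

theorem card_dvd_card_sub_one {G : Type*} [Group G] [Finite G] (N X : Subgroup G) [N.Normal]
    (hfree : ∀ x ∈ X, ∀ n ∈ N, x ≠ 1 → n ≠ 1 → ¬ Commute x n) : Nat.card X ∣ Nat.card N - 1 := by
  let A : MulAction X ↥((N : Set G) \ {1}) :=
    { smul := fun x n => ⟨(x : G) * n * (x : G)⁻¹,
        (inferInstance : N.Normal).conj_mem _ n.2.1 x, by
          intro h
          apply n.2.2
          rw [Set.mem_singleton_iff] at h ⊢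
          have e : (n : G) = (x : G)⁻¹ * ((x : G) * n * (x : G)⁻¹) * (x : G) := by group
          rw [e, h]; group⟩
      one_smul := by
        intro n
        apply Subtype.ext
        show ((1 : X) : G) * n * ((1 : X) : G)⁻¹ = n
        simp
      mul_smul := by
        intro x y n
        apply Subtype.ext
        show ((x * y : X) : G) * n * ((x * y : X) : G)⁻¹ = (x : G) * ((y : G) * n * (y : G)⁻¹) * (x : G)⁻¹
        rw [Subgroup.coe_mul]; group }
  have hst : ∀ b : ↥((N : Set G) \ {1}), MulAction.stabilizer X b = ⊥ := by
    intro b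
    rw [eq_bot_iff]
    intro x hx
    rw [Subgroup.mem_bot]
    by_contra hx1
    have h1 : (x : G) * b * (x : G)⁻¹ = b := congrArg Subtype.val (MulAction.mem_stabilizer_iff.1 hx)
    apply hfree x x.2 b b.2.1 (fun h => hx1 (Subtype.ext h)) (fun h => b.2.2 h)
    exact mul_inv_eq_iff_eq_mul.1 h1
  have e := MulAction.selfEquivOrbitsQuotientProd hst
  have hc := Nat.card_congr e
  rw [Nat.card_prod, Nat.card_coe_set_eq, Set.ncard_sdiff_singleton_of_mem (N.one_mem)] at hc
  have hN : (N : Set G).ncard = Nat.card N := (Nat.card_coe_set_eq _).symm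
  rw [hN] at hc
  rw [hc]
  exact Dvd.intro_left _ rfl

end Cfsg.Agent.Lib.H71OsSemi
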