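import Mathlib
import Cfsg.Agent.Lib.Helper71OSDefs
import Cfsg.Agent.Lib.H71OsNum
import Cfsg.Agent.Lib.H71OsMix
import Cfsg.Agent.Lib.H71OsSemi

/-!
# Project OS (S3421), piece `NoP`  (est. 1.5 h)
`G` has no nontrivial normal `r`-subgroup.
SKETCH. Let `N ≠ ⊥` be a normal `r`-subgroup; `card N = r^k ∣ 2 q m₁ m₂`.
* `r = p`: the elements of `N` have order `p` (class `∣ p`), so by `H71OsMix.same_class` no non-identity element of `zpowers w` (class `∣ m₁`) or `zpowers y` (class `∣ m₂`) commutes with a non-identity element of `N`;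
  `H71OsSemi`: `m₁ ∣ card N - 1`, `m₂ ∣ card N - 1`, so `m₁ m₂ ∣ card N - 1`; `card N ∣ q` (`p`-power dividing `2 q m₁ m₂`, coprimality), so `m₁ m₂ ≤ q - 1`, i.e. `q^2 - 1 ≤ 4 (q - 1)`, `q ≤ 3`. Contradiction.
* `r ≠ p`: a Sylow `p`-subgroup `P` has `card P = q` (`q = p^f` is the `p`-part of `card G`) and acts semiregularly (classes differ): `q ∣ card N - 1`, so `card N ≥ q + 1`.  `card N` divides `2 m₁` or `m₂` (prime power, `2 m₁` and `m₂` coprime), and `2 m₁ ≤ q + 1`, `m₂ < q`.
  So `card N = q + 1 = 2 m₁`, `r = 2` (CLAIM: every nontrivial normal `r`-subgroup, `r ≠ p`, has exactly `q + 1 = 2 m₁` elements and `r = 2`).  Then `m₁` is a power of 2, `N` is a normal Sylow 2-subgroup so `w ∈ N`.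
  Apply the CLAIM to `(center N).map N.subtype` (normal in `G`: characteristic; nontrivial `IsPGroup.center_nontrivial`): `N` is commutative.  Apply the CLAIM to `{x ∈ N | x^2 = 1}` (a subgroup as `N` is commutative; normal in `G`; nontrivial by Cauchy): every element of `N` has `x^2 = 1`;
  but `orderOf w = m₁ = (q+1)/2 ≥ 3`. Contradiction.
-/

set_option autoImplicit false
set_option linter.style.haveILetI false

namespace Cfsg.Agent.Lib.H71OsNoP

open Cfsg.Agent.Lib.Helper71OS

variable {G : Type*} [Group G] [Finite G] {p q m₁ m₂ : ℕ}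

theorem dvd_orderOf_of_mem {N : Subgroup G} {r : ℕ} (hr : r.Prime) (hN : IsPGroup r N) {n : G}
    (hn : n ∈ N) (hn1 : n ≠ 1) : r ∣ orderOf n := by
  haveI := Fact.mk hr
  obtain ⟨k, hk⟩ := (IsPGroup.iff_orderOf.mp hN) ⟨n, hn⟩
  rw [Subgroup.orderOf_mk] at hk
  rcases k with _ | k
  · exfalso
    rw [pow_zero, orderOf_eq_one_iff] at hk
    exact hn1 hk
  · rw [hk]
    exact dvd_pow_self r (Nat.succ_ne_zero k)

/-- an element commuting with an element of order divisible by `p` has order dividing `p` -/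
theorem dvd_p_of_commute (h : PS G p q m₁ m₂) {a b : G} (hab : Commute a b) (ha : a ≠ 1)
    (hb : b ≠ 1) (hpa : p ∣ orderOf a) : orderOf b ∣ p := by
  rcases H71OsMix.same_class h hab ha hb with h1 | h1 | h1
  · exact h1.2
  · exfalso
    have := Nat.eq_one_of_dvd_coprimes (H71OsNum.coprime_p_m1 h) dvd_rfl (hpa.trans h1.1)
    exact h.hp.one_lt.ne' this
  · exfalso
    have := Nat.eq_one_of_dvd_coprimes (H71OsNum.coprime_p_m2 h) dvd_rfl (hpa.trans h1.1)
    exact h.hp.one_lt.ne' this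

theorem claim (h : PS G p q m₁ m₂) (N : Subgroup G) [N.Normal] (r : ℕ) (hr : r.Prime)
    (hN : IsPGroup r N) (hne : N ≠ ⊥) (hrp : r ≠ p) :
    Nat.card N = q + 1 ∧ 2 * m₁ = q + 1 ∧ r = 2 := by
  haveI := Fact.mk h.hp
  haveI := Fact.mk hr
  obtain ⟨P⟩ : Nonempty (Sylow p G) := inferInstance
  obtain ⟨f, hf⟩ := h.hq
  have hqP : q ∣ Nat.card P := by
    rw [hf]
    apply P.pow_dvd_card_of_pow_dvd_card
    rw [← hf, h.hcard]
    exact ⟨2 * m₁ * m₂, by ring⟩
  have hfree : Nat.card (P : Subgroup G) ∣ Nat.card N - 1 := by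
    apply H71OsSemi.card_dvd_card_sub_one N P
    intro x hx n hn hx1 hn1 hc
    have h1 := dvd_p_of_commute h hc hx1 hn1 (dvd_orderOf_of_mem h.hp P.isPGroup' hx hx1)
    have h2 := (dvd_orderOf_of_mem hr hN hn hn1).trans h1
    exact hrp ((Nat.prime_dvd_prime_iff_eq hr h.hp).mp h2)
  have hq1 : q ∣ Nat.card N - 1 := hqP.trans hfree
  have hN2 : 1 < Nat.card N := N.one_lt_card_iff_ne_bot.mpr hne
  have hge : q ≤ Nat.card N - 1 := Nat.le_of_dvd (by omega) hq1
  obtain ⟨k, hk⟩ := IsPGroup.iff_card.mp hN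
  have hk0 : k ≠ 0 := by
    rintro rfl
    rw [pow_zero] at hk
    omega
  have hdvd : Nat.card N ∣ 2 * q * m₁ * m₂ := by
    rw [← h.hcard]
    exact Subgroup.card_subgroup_dvd_card N
  have hcop : Nat.Coprime (Nat.card N) q := by
    rw [hk, hf]
    exact Nat.Coprime.pow _ _ ((Nat.coprime_primes hr h.hp).mpr hrp)
  have hdvd2 : Nat.card N ∣ (2 * m₁) * m₂ := by
    apply hcop.dvd_of_dvd_mul_right
    have e : 2 * m₁ * m₂ * q = 2 * q * m₁ * m₂ := by ring
    rw [e]
    exact hdvd
  have hcop2 : Nat.Coprime (2 * m₁) m₂ :=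
    Nat.Coprime.mul_left (Nat.coprime_two_left.mpr h.hm2) (H71OsNum.coprime_m h)
  have hpp : IsPrimePow (Nat.card N) := by
    rw [hk]
    exact hr.isPrimePow.pow hk0
  have hm1 := H71OsNum.two_m1_le h
  have hm2 := H71OsNum.m2_lt h
  have hm1' := H71OsNum.two_le_m1 h
  have hm2' := H71OsNum.three_le_m2 h
  rcases (hcop2.isPrimePow_dvd_mul hpp).mp hdvd2 with h1 | h1
  · have h3 : Nat.card N ≤ 2 * m₁ := Nat.le_of_dvd (by omega) h1
    have h4 : Nat.card N = 2 * m₁ := by omega
    refine ⟨by omega, by omega, ?_⟩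
    have h5 : 2 ∣ r ^ k := by
      rw [← hk, h4]
      exact dvd_mul_right 2 m₁
    exact ((Nat.prime_dvd_prime_iff_eq Nat.prime_two hr).mp (Nat.prime_two.dvd_of_dvd_pow h5)).symm
  · exfalso
    have h3 : Nat.card N ≤ m₂ := Nat.le_of_dvd (by omega) h1
    omega

theorem no_normal_pgroup (h : PS G p q m₁ m₂) (N : Subgroup G) [N.Normal] (r : ℕ) (hr : r.Prime)
    (hN : IsPGroup r N) : N = ⊥ := by
  classical
  by_contra hne
  haveI := Fact.mk hr
  have hN2 : 1 < Nat.card N := N.one_lt_card_iff_ne_bot.mpr hne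
  by_cases hrp : r = p
  · subst hrp
    obtain ⟨w, hw⟩ := h.hw
    obtain ⟨y, hy⟩ := h.hy
    have hgen : ∀ (z : G) (m : ℕ), orderOf z = m → Nat.Coprime r m → m ∣ Nat.card N - 1 := by
      intro z m hz hcop
      rw [← hz, ← Nat.card_zpowers]
      apply H71OsSemi.card_dvd_card_sub_one N (Subgroup.zpowers z)
      intro x hx n hn hx1 hn1 hc
      have h1 := dvd_p_of_commute h hc.symm hn1 hx1 (dvd_orderOf_of_mem hr hN hn hn1)
      have h2 : orderOf x ∣ m := by
        rw [← hz]
        exact orderOf_dvd_of_mem_zpowers hx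
      have h3 := Nat.eq_one_of_dvd_coprimes hcop h1 h2
      exact hx1 (orderOf_eq_one_iff.mp h3)
    have hd1 := hgen w m₁ hw (H71OsNum.coprime_p_m1 h)
    have hd2 := hgen y m₂ hy (H71OsNum.coprime_p_m2 h)
    have hd := Nat.Coprime.mul_dvd_of_dvd_of_dvd (H71OsNum.coprime_m h) hd1 hd2
    obtain ⟨k, hk⟩ := IsPGroup.iff_card.mp hN
    have hdvd : Nat.card N ∣ 2 * q * m₁ * m₂ := by
      rw [← h.hcard]
      exact Subgroup.card_subgroup_dvd_card N
    have hcop : Nat.Coprime (Nat.card N) (2 * m₁ * m₂) := by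
      rw [hk]
      apply Nat.Coprime.pow_left
      exact Nat.Coprime.mul_right (Nat.Coprime.mul_right
        ((Nat.coprime_primes hr Nat.prime_two).mpr h.hp2) (H71OsNum.coprime_p_m1 h))
        (H71OsNum.coprime_p_m2 h)
    have hdq : Nat.card N ∣ q := by
      apply hcop.dvd_of_dvd_mul_right
      have e : q * (2 * m₁ * m₂) = 2 * q * m₁ * m₂ := by ring
      rw [e]
      exact hdvd
    have hq3 := h.hq3
    have hle : Nat.card N ≤ q := Nat.le_of_dvd (by omega) hdq
    have hle2 : m₁ * m₂ ≤ Nat.card N - 1 := Nat.le_of_dvd (by omega) hd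
    have h4 := H71OsNum.four_mul h
    have h5 : m₁ * m₂ ≤ q - 1 := by omega
    obtain ⟨q', rfl⟩ : ∃ q', q = q' + 1 := ⟨q - 1, by omega⟩
    simp only [Nat.add_sub_cancel] at h5
    nlinarith
  · obtain ⟨hc, hm, hr2⟩ := claim h N r hr hN hne hrp
    subst hr2
    obtain ⟨w, hw⟩ := h.hw
    -- `w ∈ N`
    have hwN : w ∈ N := by
      have h1 : orderOf (QuotientGroup.mk' N w) ∣ m₁ := by
        rw [← hw]
        exact orderOf_map_dvd _ w
      have h2 : orderOf (QuotientGroup.mk' N w) ∣ N.index := by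
        rw [Subgroup.index]
        exact orderOf_dvd_natCard _
      have h3 : N.index = q * m₂ := by
        have h4 := N.card_mul_index
        rw [h.hcard, hc, ← hm] at h4
        have h5 : 2 * m₁ * N.index = 2 * m₁ * (q * m₂) := by rw [h4]; ring
        exact Nat.eq_of_mul_eq_mul_left (by have := H71OsNum.two_le_m1 h; omega) h5
      rw [h3] at h2
      have hcop : Nat.Coprime m₁ (q * m₂) :=
        Nat.Coprime.mul_right (H71OsNum.coprime_q_m1 h).symm (H71OsNum.coprime_m h)
      have h6 := Nat.eq_one_of_dvd_coprimes hcop h1 h2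
      rw [orderOf_eq_one_iff] at h6
      exact (QuotientGroup.eq_one_iff w).mp h6
    -- the subgroup `Ω₁(Z(N))`
    let Om : Subgroup G :=
      { carrier := {x | x ∈ N ∧ (∀ n ∈ N, n * x = x * n) ∧ x ^ 2 = 1}
        mul_mem' := by
          rintro a b ⟨ha, hac, ha2⟩ ⟨hb, hbc, hb2⟩
          refine ⟨N.mul_mem ha hb, fun n hn => ?_, ?_⟩
          · rw [← mul_assoc, hac n hn, mul_assoc, hbc n hn, mul_assoc]
          · have : Commute a b := hbc a ha
            rw [this.mul_pow, ha2, hb2, one_mul]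
        one_mem' := ⟨N.one_mem, fun n _ => by simp, by simp⟩
        inv_mem' := by
          rintro a ⟨ha, hac, ha2⟩
          refine ⟨N.inv_mem ha, fun n hn => ?_, by rw [inv_pow, ha2, inv_one]⟩
          have := hac n hn
          calc n * a⁻¹ = a⁻¹ * (a * n) * a⁻¹ := by group
            _ = a⁻¹ * (n * a) * a⁻¹ := by rw [this]
            _ = a⁻¹ * n := by group }
    have hOmN : Om ≤ N := fun x hx => hx.1
    haveI hOmn : Om.Normal := by
      constructor
      rintro a ⟨ha, hac, ha2⟩ g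
      have hnorm : N.Normal := inferInstance
      refine ⟨hnorm.conj_mem a ha g, fun n hn => ?_, by rw [conj_pow, ha2]; group⟩
      have h1 := hac (g⁻¹ * n * g) (by
        have := hnorm.conj_mem n hn g⁻¹
        simpa using this)
      calc n * (g * a * g⁻¹) = g * ((g⁻¹ * n * g) * a) * g⁻¹ := by group
        _ = g * (a * (g⁻¹ * n * g)) * g⁻¹ := by rw [h1]
        _ = g * a * g⁻¹ * n := by group
    have hOmne : Om ≠ ⊥ := by
      haveI : Nontrivial ↥N := (Subgroup.nontrivial_iff_ne_bot N).mpr hne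
      haveI := hN.center_nontrivial
      have hZ : IsPGroup 2 ↥(Subgroup.center ↥N) := hN.to_subgroup _
      have h2 : 2 ∣ Nat.card ↥(Subgroup.center ↥N) := by
        rcases hZ.card_eq_or_dvd with h1 | h1
        · exfalso
          have := Finite.one_lt_card (α := ↥(Subgroup.center ↥N))
          omega
        · exact h1
      obtain ⟨z, hz⟩ := exists_prime_orderOf_dvd_card' 2 h2
      intro hbot
      have hzm : ((z : ↥N) : G) ∈ Om := by
        refine ⟨(z : ↥N).2, fun n hn => ?_, ?_⟩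
        · have := (Subgroup.mem_center_iff.mp z.2) ⟨n, hn⟩
          exact congrArg Subtype.val this
        · have h3 : z ^ 2 = 1 := by rw [← hz]; exact pow_orderOf_eq_one z
          have h4 := congrArg (fun u : ↥(Subgroup.center ↥N) => ((u : ↥N) : G)) h3
          simpa using h4
      rw [hbot, Subgroup.mem_bot] at hzm
      have hz1 : z = 1 := Subtype.ext (Subtype.ext hzm)
      rw [hz1, orderOf_one] at hz
      omega
    have hOm := claim h Om 2 hr (hN.to_le hOmN) hOmne hrp
    have hEq : Om = N := Subgroup.eq_of_le_of_card_ge hOmN (by rw [hOm.1, hc])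
    have hwOm : w ∈ Om := by rw [hEq]; exact hwN
    have hw2 : w ^ 2 = 1 := hwOm.2.2
    have h7 : m₁ ∣ 2 := by
      rw [← hw]
      exact orderOf_dvd_of_pow_eq_one hw2
    have h8 : m₁ ≤ 2 := Nat.le_of_dvd (by omega) h7
    have := h.hq3
    omega

end Cfsg.Agent.Lib.H71OsNoP
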