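import Mathlib
import Cfsg.Agent.Lib.Helper71OSDefs
import Cfsg.Agent.Lib.H71OsNoP

/-!
# Project OS (S3421), piece `NoSolv`  (est. 1 h)
`G` has no nontrivial solvable normal subgroup.
SKETCH. Strong induction on `card N`.  `⁅N, N⁆` is normal in `G` (`Subgroup.commutator_normal`), `≤ N`, solvable, and `≠ N` if `N ≠ ⊥` is solvable (`IsSolvable.commutator_lt_top_of_nontrivial` in `↥N`, transported: `Subgroup.map_subtype_commutator`/`commutator_def`); by induction `⁅N,N⁆ = ⊥`, so `N` is commutative.
Take a prime `r ∣ card N`; `M = {x ∈ N | x^r = 1}` is a subgroup (commutative), normal in `G`, an `r`-group, nontrivial by Cauchy; contradiction with `H71OsNoP.no_normal_pgroup`.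
-/

set_option autoImplicit false
set_option linter.style.haveILetI false

namespace Cfsg.Agent.Lib.H71OsNoSolv

open Cfsg.Agent.Lib.Helper71OS

variable {G : Type*} [Group G] [Finite G] {p q m₁ m₂ : ℕ}

theorem aux (h : PS G p q m₁ m₂) : ∀ N : Subgroup G, N.Normal → Group.IsSolvable ↥N → N = ⊥ := by
  intro N
  induction N using WellFoundedLT.induction with
  | ind N ih =>
    intro hNn hN
    by_contra hne
    haveI := hNn
    haveI : Nontrivial ↥N := (Subgroup.nontrivial_iff_ne_bot N).mpr hne
    have hle : ⁅N, N⁆ ≤ N := Subgroup.commutator_le_left N N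
    have hlt : ⁅N, N⁆ < N := by
      refine lt_of_le_of_ne hle ?_
      intro heq
      have h1 : _root_.commutator ↥N < ⊤ := Group.IsSolvable.commutator_lt_top_of_nontrivial ↥N
      apply h1.ne
      apply Subgroup.map_injective N.subtype_injective
      rw [Subgroup.map_subtype_commutator, heq, ← MonoidHom.range_eq_map, Subgroup.range_subtype]
    have hsol : Group.IsSolvable ↥(⁅N, N⁆) :=
      Group.isSolvable_of_isSolvable_injective (f := Subgroup.inclusion hle) (Subgroup.inclusion_injective hle)
    have hbot : ⁅N, N⁆ = ⊥ := ih _ hlt inferInstance hsol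
    have hcomm : ∀ x ∈ N, ∀ y ∈ N, x * y = y * x := by
      rw [Subgroup.commutator_eq_bot_iff_le_centralizer] at hbot
      intro x hx y hy
      exact ((Subgroup.mem_centralizer_iff.mp (hbot hx)) y hy).symm
    have hcard : Nat.card ↥N ≠ 1 := by
      intro h1
      exact hne ((Subgroup.card_eq_one).mp h1)
    obtain ⟨r, hr, hrd⟩ := Nat.exists_prime_and_dvd hcard
    haveI : Fact r.Prime := ⟨hr⟩
    let M : Subgroup G :=
      { carrier := {x | x ∈ N ∧ x ^ r = 1}
        one_mem' := ⟨N.one_mem, one_pow _⟩
        mul_mem' := by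
          rintro a b ⟨ha, ha'⟩ ⟨hb, hb'⟩
          refine ⟨N.mul_mem ha hb, ?_⟩
          have : Commute a b := hcomm a ha b hb
          rw [this.mul_pow, ha', hb', one_mul]
        inv_mem' := by
          rintro a ⟨ha, ha'⟩
          exact ⟨N.inv_mem ha, by rw [inv_pow, ha', inv_one]⟩ }
    have hMn : M.Normal := by
      refine ⟨fun x hx g => ?_⟩
      refine ⟨hNn.conj_mem x hx.1 g, ?_⟩
      rw [conj_pow, hx.2, mul_one, mul_inv_cancel]
    have hMp : IsPGroup r M := by
      intro x
      refine ⟨1, ?_⟩
      apply Subtype.ext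
      rw [pow_one]
      exact x.2.2
    haveI := hMn
    have hMb : M = ⊥ := H71OsNoP.no_normal_pgroup h M r hr hMp
    obtain ⟨x, hx⟩ := exists_prime_orderOf_dvd_card' (G := ↥N) r hrd
    have hxM : (x : G) ∈ M := by
      refine ⟨x.2, ?_⟩
      have : x ^ r = 1 := by rw [← hx]; exact pow_orderOf_eq_one x
      have h2 := congrArg (Subtype.val) this
      simpa using h2
    rw [hMb, Subgroup.mem_bot] at hxM
    have : x = 1 := Subtype.ext hxM
    rw [this, orderOf_one] at hx
    exact hr.one_lt.ne hx

theorem no_normal_solvable (h : PS G p q m₁ m₂) (N : Subgroup G) [N.Normal] (hN : Group.IsSolvable ↥N) : N = ⊥ :=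
  aux h N inferInstance hN

end Cfsg.Agent.Lib.H71OsNoSolv
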