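import Mathlib
import Cfsg.Agent.Lib.Helper71OSDefs
import Cfsg.Agent.Lib.H71OsCyc2

/-!
# Project OS (S3421), piece `Syl`
A Sylow 2-subgroup `S ≤ C(t)` with `t ∈ S` and `[S : S ∩ W] = 2`.
-/

set_option autoImplicit false
set_option linter.style.haveILetI false

namespace Cfsg.Agent.Lib.H71OsSyl

open Cfsg.Agent.Lib.Helper71OS

variable {T : Type*} [Group T] [Finite T] {t : T} {W : Subgroup T}

theorem exists_sylow (hBS : BS T t W) (h1 : ∀ H : Subgroup T, H.index ≠ 2) : ∃ S : Sylow 2 T, SY t W S := by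
  have htC : t ∈ Subgroup.centralizer ({t} : Set T) := hBS.hle hBS.htW
  have hzp : IsPGroup 2 (Subgroup.zpowers (⟨t, htC⟩ : Subgroup.centralizer ({t} : Set T))) := by
    apply IsPGroup.of_card (n := 1)
    rw [Nat.card_zpowers, pow_one, ← hBS.ht]
    exact Subgroup.orderOf_mk t htC
  obtain ⟨S₁, hS₁⟩ := hzp.exists_le_sylow
  have hP1 : IsPGroup 2 (Subgroup.map (Subgroup.centralizer ({t} : Set T)).subtype
      (S₁ : Subgroup _)) := S₁.isPGroup'.map _
  have hP2 : ¬ 2 ∣ (Subgroup.map (Subgroup.centralizer ({t} : Set T)).subtype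
      (S₁ : Subgroup _)).index := by
    rw [Subgroup.index_map_subtype]
    intro h
    rcases (Nat.Prime.dvd_mul Nat.prime_two).1 h with h | h
    · exact Sylow.not_dvd_index S₁ h
    · exact hBS.hsyl h
  have hcoe := IsPGroup.toSylow_coe hP1 hP2
  have hSC : ((hP1.toSylow hP2 : Sylow 2 T) : Subgroup T) ≤ Subgroup.centralizer ({t} : Set T) := by
    rw [hcoe]; exact Subgroup.map_subtype_le _
  have htS : t ∈ ((hP1.toSylow hP2 : Sylow 2 T) : Subgroup T) := by
    rw [hcoe]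
    exact Subgroup.mem_map.2 ⟨⟨t, htC⟩, hS₁ (Subgroup.mem_zpowers _), rfl⟩
  refine ⟨hP1.toSylow hP2, hSC, htS, ?_⟩
  rw [Subgroup.inf_relIndex_left]
  have hle : W.relIndex ((hP1.toSylow hP2 : Sylow 2 T) : Subgroup T) ≤ 2 := by
    have := Subgroup.relIndex_le_of_le_right (H := W) hSC (by rw [hBS.hidx]; norm_num)
    rwa [hBS.hidx] at this
  have hne0 : W.relIndex ((hP1.toSylow hP2 : Sylow 2 T) : Subgroup T) ≠ 0 :=
    Subgroup.index_ne_zero_of_finite
  have hne1 : W.relIndex ((hP1.toSylow hP2 : Sylow 2 T) : Subgroup T) ≠ 1 := by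
    intro h
    rw [Subgroup.relIndex_eq_one] at h
    haveI := hBS.hcyc
    have hcyc : IsCyclic ((hP1.toSylow hP2 : Sylow 2 T) : Subgroup T) := Subgroup.isCyclic_of_le h
    have hne : ((hP1.toSylow hP2 : Sylow 2 T) : Subgroup T) ≠ ⊥ := by
      intro hb
      rw [hb, Subgroup.mem_bot] at htS
      have := hBS.ht
      rw [htS, orderOf_one] at this
      omega
    obtain ⟨H, hH⟩ := H71OsCyc2.exists_index_two _ hcyc hne
    exact h1 H hH
  omega

end Cfsg.Agent.Lib.H71OsSyl
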