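import Mathlib
import Cfsg.Agent.Lib.Helper71OSDefs
import Cfsg.Agent.Lib.H71OsSyl
import Cfsg.Agent.Lib.H71OsConj
import Cfsg.Agent.Lib.H71OsUniq

/-!
# Project OS (S3421), piece `OneClass`  (est. 30 min)
All involutions of `T` are conjugate to `t`.
SKETCH. `S` from `H71OsSyl.exists_sylow hBS hR.h1`.  `zpowers v` is a 2-group, so lies in a Sylow 2-subgroup, which is conjugate to `S`: `g₁ v g₁⁻¹ ∈ S`.  If it lies in `W` it is `t` (`H71OsUniq`), otherwise use `H71OsConj.conj_t`.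
-/

set_option autoImplicit false
set_option linter.style.haveILetI false

namespace Cfsg.Agent.Lib.H71OsOneClass

open Cfsg.Agent.Lib.Helper71OS

variable {T : Type*} [Group T] [Finite T] {t : T} {W : Subgroup T}

theorem all_conj (hBS : BS T t W) (hR : Red T) (v : T) (hv : orderOf v = 2) : ∃ g : T, g * v * g⁻¹ = t := by
  obtain ⟨S, hS⟩ := H71OsSyl.exists_sylow hBS hR.h1
  haveI : Fact (Nat.Prime 2) := ⟨Nat.prime_two⟩
  have hpg : IsPGroup 2 (Subgroup.zpowers v) := by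
    apply IsPGroup.of_card (n := 1)
    rw [Nat.card_zpowers, hv, pow_one]
  obtain ⟨S', hS'⟩ := hpg.exists_le_sylow
  obtain ⟨g₁, hg₁⟩ := MulAction.exists_smul_eq T S' S
  have hvS : g₁ * v * g₁⁻¹ ∈ (S : Subgroup T) := by
    rw [← hg₁, Sylow.coe_subgroup_smul]
    exact ⟨v, hS' (Subgroup.mem_zpowers v), rfl⟩
  have ho : orderOf (g₁ * v * g₁⁻¹) = 2 := by
    have : g₁ * v * g₁⁻¹ = MulAut.conj g₁ v := rfl
    rw [this, MulEquiv.orderOf_eq]; exact hv
  by_cases hW : g₁ * v * g₁⁻¹ ∈ W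
  · exact ⟨g₁, H71OsUniq.eq_of_orderOf_two hBS.hcyc hW hBS.htW ho hBS.ht⟩
  · obtain ⟨g, hg⟩ := H71OsConj.conj_t hBS hR hS hvS hW ho
    refine ⟨g * g₁, ?_⟩
    rw [← hg]; group

end Cfsg.Agent.Lib.H71OsOneClass
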