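import Mathlib
import Cfsg.Agent.Lib.Helper71OSDefs

/-!
# Project OS (S3421), piece `RedS`  (est. 30 min)
PURE: a non-abelian simple group of even order is `Red`.
`h1`: index 2 is normal (`Subgroup.normal_of_index_eq_two`), so `⊥` (then `card T = 2`, cyclic, commutative) or `⊤` (index 1).  `h2`: `K = ⊤` would make `card T` odd.  `h3`: `center T = ⊤` means commutative.
-/

set_option autoImplicit false
set_option linter.style.haveILetI false

namespace Cfsg.Agent.Lib.H71OsRedS

open Cfsg.Agent.Lib.Helper71OS

theorem red_of_simple {T : Type*} [Group T] [Finite T] [IsSimpleGroup T] (hna : ¬ IsMulCommutative T)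
    (hev : Even (Nat.card T)) : Red T := by
  refine ⟨?_, ?_, ?_⟩
  · intro H hH
    have hn := Subgroup.normal_of_index_eq_two hH
    rcases hn.eq_bot_or_eq_top with h | h
    · rw [h, Subgroup.index_bot] at hH
      have : Fact (Nat.Prime 2) := ⟨Nat.prime_two⟩
      have hc : IsCyclic T := isCyclic_of_prime_card hH
      exact hna hc.isMulCommutative
    · rw [h, Subgroup.index_top] at hH
      norm_num at hH
  · intro K hK hodd
    rcases hK.eq_bot_or_eq_top with h | h
    · exact h
    · rw [h, Subgroup.card_top] at hodd
      exact absurd hev (Nat.not_even_iff_odd.2 hodd)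
  · rcases (inferInstance : (Subgroup.center T).Normal).eq_bot_or_eq_top with h | h
    · exact h
    · exfalso
      apply hna
      refine ⟨⟨fun a b => ?_⟩⟩
      have hb : b ∈ Subgroup.center T := h ▸ Subgroup.mem_top b
      exact (Subgroup.mem_center_iff.1 hb a)

end Cfsg.Agent.Lib.H71OsRedS
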