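import Mathlib
import Cfsg.Agent.Lib.Helper71OSDefs
import Cfsg.Agent.Lib.H71OsCyc2
import Cfsg.Agent.Lib.H71OsUniq

/-!
# Project OS (S3421), piece `Restrict`  (est. 2 h)
PURE: `BS` passes to a normal subgroup `N` of even order without subgroups of index 2.
SKETCH. `C = C_G(t)`.  `hsyl` gives a Sylow 2-subgroup `S` of `G` with `S ≤ C` (a Sylow 2-subgroup of `↥C`, mapped to `G`, has the full 2-part as order).  `S ⊓ N` "is" a Sylow 2-subgroup of `N` (`Sylow.subtype`/`Sylow.comap...`; Mathlib: `Sylow.ofCard`, or `(S.subtype ..)`; for normal `N`: card of `S ⊓ N` is the 2-part of `card N` because `S N / N` is a 2-group and `[N : S ⊓ N] = [S N : S]` is odd).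
* `t ∈ N`: `S ⊓ N ≠ ⊥`.  If `S ⊓ N ⊓ W = ⊥` then `S ⊓ N` embeds in `C / W` (order 2), so the Sylow 2-subgroup of `N` has order 2, is cyclic, `H71OsCyc2` contradicts `h1`.  So there is `1 ≠ a ∈ S ⊓ N ⊓ W`, a 2-element; `t ∈ zpowers a ≤ N` (`H71OsUniq.mem_zpowers_of_two_pow`).
* centralizers: `centralizer {(⟨x,_⟩ : ↥N)} = (centralizer {x}).subgroupOf N`.  So `hle`, `hcent` are immediate; `hcyc`: `W.subgroupOf N` is cyclic (injective hom into `W`: `isCyclic_of_injective`/`Subgroup.isCyclic`).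
* `hidx`: `(W.subgroupOf N).relIndex (C.subgroupOf N) = (W ⊓ N).relIndex (C ⊓ N)`, which is `≤ 2` and `≠ 0`; if it is 1 then `C ⊓ N ≤ W`, so the Sylow 2-subgroup `S ⊓ N` of `N` is cyclic and nontrivial: `H71OsCyc2` contradicts `h1`.
* `hsyl`: `[N : C ⊓ N]` divides `[N : S ⊓ N]`, odd.  (Or `[N : N ⊓ C] = [N C : C] ∣ [G : C]`.)
-/

set_option autoImplicit false
set_option linter.style.haveILetI false

namespace Cfsg.Agent.Lib.H71OsRestrict

open Cfsg.Agent.Lib.Helper71OS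

theorem exists_sylow_le {G : Type*} [Group G] [Finite G] (C N : Subgroup G) [N.Normal]
    (hC : ¬ 2 ∣ C.index) : ∃ P : Sylow 2 ↥N, ∀ x : ↥N, x ∈ P → (x : G) ∈ C := by
  classical
  obtain ⟨P₀⟩ : Nonempty (Sylow 2 ↥N) := inferInstance
  have hQ : IsPGroup 2 ↥((P₀ : Subgroup ↥N).map N.subtype) := P₀.isPGroup'.map _
  obtain ⟨c, hc⟩ := hQ.nonempty_fixed_point_of_prime_not_dvd_card (G ⧸ C) hC
  induction c using QuotientGroup.induction_on with
  | H g =>
    refine ⟨(MulAut.conjNormal g⁻¹ : MulAut ↥N) • P₀, fun x hx => ?_⟩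
    have hx0 : x ∈ (((MulAut.conjNormal g⁻¹ : MulAut ↥N) • P₀ : Sylow 2 ↥N) : Subgroup ↥N) := hx
    rw [Sylow.pointwise_smul_def, Subgroup.mem_pointwise_smul_iff_inv_smul_mem] at hx0
    replace hx := hx0
    have hx' : (MulAut.conjNormal g⁻¹ : MulAut ↥N)⁻¹ x ∈ (P₀ : Subgroup ↥N) := hx
    have hq : (((MulAut.conjNormal g⁻¹ : MulAut ↥N)⁻¹ x : ↥N) : G)
        ∈ (P₀ : Subgroup ↥N).map N.subtype := ⟨_, hx', rfl⟩
    have h1 := hc ⟨_, hq⟩
    have e : (((MulAut.conjNormal g⁻¹ : MulAut ↥N)⁻¹ x : ↥N) : G) = g * x * g⁻¹ := by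
      have := MulAut.conjNormal_symm_apply (H := N) g⁻¹ x
      rw [inv_inv] at this
      exact this
    have h2 : ((g * x * g⁻¹ * g : G) : G ⧸ C) = (g : G ⧸ C) := by
      rw [← e]
      exact h1
    rw [QuotientGroup.eq] at h2
    have e2 : (g * x * g⁻¹ * g)⁻¹ * g = (x : G)⁻¹ := by group
    rw [e2] at h2
    exact (C.inv_mem_iff).mp h2

theorem restrict {G : Type*} [Group G] [Finite G] {t : G} {W : Subgroup G} (hBS : BS G t W) (N : Subgroup G) [N.Normal]
    (hev : Even (Nat.card N)) (h1 : ∀ H : Subgroup ↥N, H.index ≠ 2) :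
    ∃ ht : t ∈ N, BS ↥N ⟨t, ht⟩ (W.subgroupOf N) := by
  classical
  obtain ⟨C, hCdef⟩ : ∃ C : Subgroup G, C = Subgroup.centralizer ({t} : Set G) := ⟨_, rfl⟩
  have hWC : W ≤ C := by rw [hCdef]; exact hBS.hle
  obtain ⟨P, hP⟩ := exists_sylow_le C N (by rw [hCdef]; exact hBS.hsyl)
  have hPne : (P : Subgroup ↥N) ≠ ⊥ := P.ne_bot_of_dvd_card hev.two_dvd
  have hPnc : ¬ IsCyclic (P : Subgroup ↥N) := by
    intro hc
    obtain ⟨H, hH⟩ := H71OsCyc2.exists_index_two P hc hPne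
    exact h1 H hH
  -- index two
  have hW2 : ∀ a ∈ C, ∀ b ∈ C, (a * b ∈ W ↔ (a ∈ W ↔ b ∈ W)) := by
    intro a ha b hb
    have hidx : (W.subgroupOf C).index = 2 := by
      have := hBS.hidx
      rw [← hCdef] at this
      exact this
    have := Subgroup.mul_mem_iff_of_index_two hidx (a := ⟨a, ha⟩) (b := ⟨b, hb⟩)
    simpa [Subgroup.mem_subgroupOf] using this
  -- a nontrivial element of `P ∩ W`
  obtain ⟨a, haP, ha1, haW⟩ : ∃ a : ↥N, a ∈ P ∧ a ≠ 1 ∧ (a : G) ∈ W := by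
    by_contra hcon
    push Not at hcon
    obtain ⟨a, haP, ha1⟩ : ∃ a : ↥N, a ∈ P ∧ a ≠ 1 := by
      obtain ⟨a, ha⟩ := (Subgroup.ne_bot_iff_exists_ne_one).mp hPne
      exact ⟨a.1, a.2, fun h => ha (Subtype.ext h)⟩
    have hall : ∀ b : ↥N, b ∈ P → b = 1 ∨ b = a := by
      intro b hb
      by_contra hb'
      push Not at hb'
      have h3 : a⁻¹ * b ∈ P := mul_mem (inv_mem haP) hb
      have h4 : a⁻¹ * b ≠ 1 := fun h => hb'.2 (inv_mul_eq_one.mp h).symm
      apply hcon _ h3 h4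
      have h5 : ((a⁻¹ * b : ↥N) : G) = (a : G)⁻¹ * b := rfl
      rw [h5, hW2 _ (C.inv_mem (hP a haP)) _ (hP b hb)]
      constructor
      · intro h6
        exact absurd (W.inv_mem_iff.mp h6) (hcon a haP ha1)
      · intro h6
        exact absurd h6 (hcon b hb hb'.1)
    apply hPnc
    refine ⟨⟨⟨a, haP⟩, fun b => ?_⟩⟩
    rcases hall b.1 b.2 with h | h
    · exact ⟨0, Subtype.ext (by simp [h])⟩
    · exact ⟨1, Subtype.ext (by simp [h])⟩
  -- `t ∈ N`
  have ht : t ∈ N := by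
    obtain ⟨k, hk⟩ := (IsPGroup.iff_orderOf.mp P.isPGroup') ⟨a, haP⟩
    have hk' : orderOf (a : G) = 2 ^ k := by
      rw [Subgroup.orderOf_coe, ← hk, ← Subgroup.orderOf_coe (⟨a, haP⟩ : ↥(P : Subgroup ↥N))]
    have h3 := H71OsUniq.mem_zpowers_of_two_pow hBS.hcyc haW hBS.htW hBS.ht
      (fun h => ha1 (Subtype.ext h)) k hk'
    exact (Subgroup.zpowers_le.mpr a.2) h3
  refine ⟨ht, ?_⟩
  have hcen : ∀ x : ↥N, Subgroup.centralizer ({x} : Set ↥N)
      = (Subgroup.centralizer ({(x : G)} : Set G)).subgroupOf N := by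
    intro x
    ext y
    rw [Subgroup.mem_centralizer_singleton_iff, Subgroup.mem_subgroupOf,
      Subgroup.mem_centralizer_singleton_iff, Subtype.ext_iff]
    rfl
  have hcyc : IsCyclic ↥(W.subgroupOf N) := by
    haveI := hBS.hcyc
    let f : ↥(W.subgroupOf N) →* ↥W :=
      (N.subtype.comp (W.subgroupOf N).subtype).codRestrict W (fun x => x.2)
    apply isCyclic_of_injective f
    intro x y hxy
    apply Subtype.ext
    apply Subtype.ext
    exact congrArg (fun z : ↥W => (z : G)) hxy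
  -- an element of `C ∩ N` outside `W`
  obtain ⟨b, hbC, hbW⟩ : ∃ b : ↥N, (b : G) ∈ C ∧ (b : G) ∉ W := by
    by_contra hcon
    push Not at hcon
    apply hPnc
    haveI := hcyc
    have hle : (P : Subgroup ↥N) ≤ W.subgroupOf N := fun x hx => hcon x (hP x hx)
    exact isCyclic_of_injective (Subgroup.inclusion hle) (Subgroup.inclusion_injective hle)
  refine ⟨?_, hBS.htW, hcyc, ?_, ?_, ?_, ?_⟩
  · rw [← Subgroup.orderOf_coe]
    exact hBS.ht
  · rw [hcen]
    intro x hx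
    exact hBS.hle hx
  · rw [hcen, ← hCdef]
    show ((W.subgroupOf N).subgroupOf (C.subgroupOf N)).index = 2
    rw [Subgroup.index_eq_two_iff]
    refine ⟨⟨b, hbC⟩, fun c => ?_⟩
    have hc : ((c : ↥N) : G) ∈ C := c.2
    have h3 := hW2 _ hc _ hbC
    have e1 : (c * ⟨b, hbC⟩ ∈ (W.subgroupOf N).subgroupOf (C.subgroupOf N))
        ↔ (((c : ↥N) : G) * (b : G) ∈ W) := Iff.rfl
    have e2 : (c ∈ (W.subgroupOf N).subgroupOf (C.subgroupOf N)) ↔ (((c : ↥N) : G) ∈ W) := Iff.rfl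
    rw [e1, e2, h3]
    by_cases hcW : ((c : ↥N) : G) ∈ W
    · right
      exact ⟨hcW, fun h => hbW (h.mp hcW)⟩
    · left
      exact ⟨⟨fun h => absurd h hcW, fun h => absurd h hbW⟩, hcW⟩
  · intro x hx hx1
    rw [hcen, hcen]
    rcases hBS.hcent (x : G) hx (fun h => hx1 (Subtype.ext h)) with h | h
    · left; rw [h]
    · right; rw [h]
  · rw [hcen, ← hCdef]
    intro h2
    have hle : (P : Subgroup ↥N) ≤ C.subgroupOf N := fun x hx => hP x hx
    exact P.not_dvd_index (h2.trans (Subgroup.index_dvd_of_le hle))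

end Cfsg.Agent.Lib.H71OsRestrict
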