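import Mathlib
import Cfsg.Agent.Lib.Helper71OSDefs

/-!
# Project OS (S3421), piece `Simple`  (est. 1 h)
PURE: a minimal normal subgroup `N` of `G` with one class of involutions and no nontrivial normal subgroup of odd order is simple.
SKETCH. `Nontrivial ↥N`.  Let `M ⊴ ↥N`, `M ≠ ⊥`.  By `h2`, `card M` is even, so `M` contains an involution `v` (Cauchy); every involution `v'` of `↥N` is conjugate to `t`, hence to `v`, so lies in `M`.
`I = Subgroup.closure {x : G | x ∈ N ∧ orderOf x = 2}` is normal in `G` (the generating set is conjugation invariant: `Subgroup.closure` + `Subgroup.Normal` via `Subgroup.normalClosure`/`conj_mem` induction), `≤ N`, `≠ ⊥` (contains `t`), so `I = N`.  `I ≤ M.map N.subtype`.  So `M = ⊤`.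
-/

set_option autoImplicit false
set_option linter.style.haveILetI false

namespace Cfsg.Agent.Lib.H71OsSimple

open Cfsg.Agent.Lib.Helper71OS

theorem isSimple {G : Type*} [Group G] [Finite G] (N : Subgroup G) [N.Normal] (hne : N ≠ ⊥)
    (hmin : ∀ M : Subgroup G, M.Normal → M ≤ N → M = ⊥ ∨ M = N)
    (h2 : ∀ K : Subgroup ↥N, K.Normal → Odd (Nat.card K) → K = ⊥) (t : ↥N) (ht : orderOf t = 2)
    (hconj : ∀ v : ↥N, orderOf v = 2 → ∃ g : ↥N, g * v * g⁻¹ = t) : IsSimpleGroup ↥N := by
  haveI : Nontrivial ↥N := (Subgroup.nontrivial_iff_ne_bot N).mpr hne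
  refine ⟨fun M hM => ?_⟩
  by_cases hMb : M = ⊥
  · exact Or.inl hMb
  right
  have heven : 2 ∣ Nat.card M := by
    by_contra hcon
    exact hMb (h2 M hM (Nat.odd_iff.mpr (by omega)))
  haveI : Fact (Nat.Prime 2) := ⟨Nat.prime_two⟩
  obtain ⟨v, hv⟩ := exists_prime_orderOf_dvd_card' (G := ↥M) 2 heven
  have hv' : orderOf (v : ↥N) = 2 := by rw [Subgroup.orderOf_coe]; exact hv
  -- every involution of N lies in M
  have hinv : ∀ w : ↥N, orderOf w = 2 → w ∈ M := by
    intro w hw
    obtain ⟨g, hg⟩ := hconj (v : ↥N) hv'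
    obtain ⟨g', hg'⟩ := hconj w hw
    have : w = (g'⁻¹ * g) * (v : ↥N) * (g'⁻¹ * g)⁻¹ := by
      have h1 : w = g'⁻¹ * t * g' := by rw [← hg']; group
      rw [h1, ← hg]; group
    rw [this]
    exact hM.conj_mem _ v.2 _
  set S : Set G := {x : G | x ∈ N ∧ orderOf x = 2} with hS
  have hIN : Subgroup.normalClosure S ≤ N :=
    Subgroup.normalClosure_le_normal (fun x hx => hx.1)
  have htS : (t : G) ∈ S := ⟨t.2, by rw [Subgroup.orderOf_coe]; exact ht⟩
  have hIne : Subgroup.normalClosure S ≠ ⊥ := by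
    intro hb
    have h1 : (t : G) ∈ Subgroup.normalClosure S := Subgroup.subset_normalClosure htS
    rw [hb, Subgroup.mem_bot] at h1
    have h3 : t = 1 := Subtype.ext h1
    rw [h3, orderOf_one] at ht
    omega
  have hI : Subgroup.normalClosure S = N := by
    rcases hmin _ Subgroup.normalClosure_normal hIN with h | h
    · exact absurd h hIne
    · exact h
  have hIM : Subgroup.normalClosure S ≤ M.map N.subtype := by
    unfold Subgroup.normalClosure
    rw [Subgroup.closure_le]
    intro x hx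
    rw [Group.mem_conjugatesOfSet_iff] at hx
    obtain ⟨a, ha, hax⟩ := hx
    obtain ⟨c, hc⟩ := isConj_iff.mp hax
    have hxN : x ∈ N := by
      rw [← hc]; exact ‹N.Normal›.conj_mem _ ha.1 _
    have hxo : orderOf x = 2 := by
      rw [← hc]
      have : c * a * c⁻¹ = MulAut.conj c a := rfl
      rw [this, MulEquiv.orderOf_eq]; exact ha.2
    have : (⟨x, hxN⟩ : ↥N) ∈ M := by
      apply hinv
      rw [← Subgroup.orderOf_coe]; exact hxo
    exact ⟨⟨x, hxN⟩, this, rfl⟩
  rw [eq_top_iff]
  intro x _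
  have hx : (x : G) ∈ M.map N.subtype := hIM (by rw [hI]; exact x.2)
  obtain ⟨y, hy, hyx⟩ := hx
  have : y = x := Subtype.ext hyx
  rw [← this]; exact hy

end Cfsg.Agent.Lib.H71OsSimple
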