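import Mathlib
import Cfsg.Agent.Lib.Helper92HHDefs

set_option autoImplicit false

namespace Cfsg.Agent.Lib.H75WChi

open Cfsg.Agent.Lib.Helper92HHDefs

variable {K V : Type*} [Field K] [AddCommGroup V] [Module K V]

theorem smul_unit_inj [Nontrivial V] (B : (Module.End K V)ˣ) {c c' : K}
    (h : c • (B : Module.End K V) = c' • (B : Module.End K V)) : c = c' := by
  have h1 : (c - c') • (1 : Module.End K V) = 0 := by
    have h2 : (c - c') • (B : Module.End K V) = 0 := by rw [sub_smul, h, sub_self]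
    have h3 := congrArg (fun f => f * ((B⁻¹ : (Module.End K V)ˣ) : Module.End K V)) h2
    simpa [smul_mul_assoc] using h3
  rcases smul_eq_zero.1 h1 with h2 | h2
  · exact sub_eq_zero.1 h2
  · exact absurd h2 one_ne_zero

theorem exists_chi [Nontrivial V] {Q₀ : Type*} [Group Q₀] (ρ : Q₀ →* (Module.End K V)ˣ)
    (A : (Module.End K V)ˣ)
    (hA : ∀ g : Q₀, ∃ c : K, (A : Module.End K V) * ((ρ g : (Module.End K V)ˣ) : Module.End K V)
        = c • (((ρ g : (Module.End K V)ˣ) : Module.End K V) * (A : Module.End K V))) :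
    ∃ χ : Q₀ →* Kˣ, ∀ g : Q₀, (A : Module.End K V) * ((ρ g : (Module.End K V)ˣ) : Module.End K V)
        = ((χ g : Kˣ) : K) • (((ρ g : (Module.End K V)ˣ) : Module.End K V) * (A : Module.End K V)) := by
  classical
  choose c hc using hA
  have hmul : ∀ g h, c (g * h) = c g * c h := by
    intro g h
    apply smul_unit_inj (ρ (g * h) * A)
    rw [Units.val_mul, ← hc (g * h), map_mul, Units.val_mul, ← mul_assoc, hc g, smul_mul_assoc,
      mul_assoc, hc h, mul_smul_comm, smul_smul, mul_assoc]
  have hone : c 1 = 1 := by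
    apply smul_unit_inj (ρ 1 * A)
    rw [Units.val_mul, ← hc 1, map_one, one_smul]
    simp
  let χ₀ : Q₀ →* K := { toFun := c, map_one' := hone, map_mul' := hmul }
  refine ⟨MonoidHom.toHomUnits χ₀, fun g => ?_⟩
  exact hc g

theorem map_eig {Q₀ : Type*} [Group Q₀] (ρ : Q₀ →* (Module.End K V)ˣ) (A : (Module.End K V)ˣ)
    (χ : Q₀ →* Kˣ)
    (hχ : ∀ g : Q₀, (A : Module.End K V) * ((ρ g : (Module.End K V)ˣ) : Module.End K V)
        = ((χ g : Kˣ) : K) • (((ρ g : (Module.End K V)ˣ) : Module.End K V) * (A : Module.End K V)))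
    (g : Q₀) (μ : K) (v : V) (hv : v ∈ Module.End.eigenspace (A : Module.End K V) μ) :
    ((ρ g : (Module.End K V)ˣ) : Module.End K V) v
      ∈ Module.End.eigenspace (A : Module.End K V) (((χ g : Kˣ) : K) * μ) := by
  rw [Module.End.mem_eigenspace_iff] at hv ⊢
  have h := congrArg (fun f : Module.End K V => f v) (hχ g)
  simp only [Module.End.mul_apply, LinearMap.smul_apply] at h
  rw [h, hv, map_smul, smul_smul]

end Cfsg.Agent.Lib.H75WChi
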