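import Mathlib
import Cfsg.Agent.Lib.Helper92HHDefs
import Cfsg.Agent.Lib.H92HHBurn

set_option autoImplicit false

namespace Cfsg.Agent.Lib.H75WFour

open Cfsg.Agent.Lib.Helper92HHDefs

variable {K V : Type*} [Field K] [AddCommGroup V] [Module K V]

/-- PIECE Four (Fourier inversion for an irreducible representation, any characteristic prime to `|Q₀|`).
`T b = ∑ y, ρ y * b * ρ y⁻¹` commutes with every `ρ g`, so `T b = τ b • 1` (`H92HHBurn.schur`), and taking traces
`d * τ b = |Q₀| * tr b`.  Taking `b` with `tr b = 1` (a rank one projection; `V` is nontrivial) gives `d ≠ 0` in `K`;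
put `κ = |Q₀| / d`, so `T b = (κ * tr b) • 1`.
For a rank one map `a = (w ↦ ψ w • u)`:  `(∑ y, tr (a * ρ y⁻¹) • ρ y) v = ∑ y, ψ (ρ y⁻¹ u) • ρ y v = T (w ↦ ψ w • v) u = κ * ψ v • u = κ • a v`.
Both sides are linear in `a` and rank one maps span `End V` (`dualTensorHomEquiv`, `TensorProduct.induction_on`;
`LinearMap.trace_eq_contract_apply`, or a basis and `LinearMap.toMatrix`). -/
theorem fourier [IsAlgClosed K] [FiniteDimensional K V] [Nontrivial V] {Q₀ : Type*} [Group Q₀]
    [Fintype Q₀] (ρ : Q₀ →* (Module.End K V)ˣ) (hirr : Irr ρ) (hcard : (Fintype.card Q₀ : K) ≠ 0) :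
    ((Module.finrank K V : ℕ) : K) ≠ 0 ∧ ∃ κ : K, κ ≠ 0 ∧ ∀ a : Module.End K V,
      ∑ y : Q₀, LinearMap.trace K V (a * ((ρ y⁻¹ : (Module.End K V)ˣ) : Module.End K V)) •
        ((ρ y : (Module.End K V)ˣ) : Module.End K V) = κ • a := by
  classical
  set R : Q₀ → Module.End K V := fun y => ((ρ y : (Module.End K V)ˣ) : Module.End K V) with hR
  have hRmul : ∀ x y, R (x * y) = R x * R y := by intro x y; simp [hR]
  have hRinv : ∀ y, R y * R y⁻¹ = 1 := by intro y; rw [← hRmul]; simp [hR]
  have hRinv' : ∀ y, R y⁻¹ * R y = 1 := by intro y; rw [← hRmul]; simp [hR]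
  let T : Module.End K V → Module.End K V := fun b => ∑ y, R y * b * R y⁻¹
  have hTcomm : ∀ b g, T b * R g = R g * T b := by
    intro b g
    simp only [T, Finset.sum_mul, Finset.mul_sum]
    refine Fintype.sum_equiv (Equiv.mulLeft g⁻¹) _ _ ?_
    intro y
    simp only [Equiv.coe_mulLeft, mul_inv_rev, inv_inv, hRmul, mul_assoc]
    rw [← mul_assoc (R g) (R g⁻¹), hRinv, one_mul]
  have hTsc : ∀ b, ∃ c : K, T b = c • (1 : Module.End K V) := by
    intro b
    obtain ⟨c, hc⟩ := H92HHBurn.schur ρ hirr (T b) (fun g v => by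
      have := congrArg (fun f : Module.End K V => f v) (hTcomm b g)
      simpa [hR] using this)
    exact ⟨c, LinearMap.ext fun v => by simp [hc]⟩
  have hTtr : ∀ b, LinearMap.trace K V (T b)
      = (Fintype.card Q₀ : K) * LinearMap.trace K V b := by
    intro b
    simp only [T, map_sum]
    have h1 : ∀ y, LinearMap.trace K V (R y * b * R y⁻¹) = LinearMap.trace K V b := by
      intro y
      have := LinearMap.trace_conj K b (ρ y)
      rwa [← map_inv] at this
    simp [h1]
  obtain ⟨v₀, hv₀⟩ := exists_ne (0 : V)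
  obtain ⟨ψ₀, hψ₀⟩ := Module.Projective.exists_dual_eq_one K hv₀
  have hd : ((Module.finrank K V : ℕ) : K) ≠ 0 := by
    intro h0
    obtain ⟨c, hc⟩ := hTsc (ψ₀.smulRight v₀)
    have h1 := hTtr (ψ₀.smulRight v₀)
    rw [hc, map_smul, LinearMap.trace_one, h0, LinearMap.trace_smulRight, hψ₀] at h1
    simp at h1
    exact hcard h1.symm
  refine ⟨hd, (Fintype.card Q₀ : K) / ((Module.finrank K V : ℕ) : K), div_ne_zero hcard hd, ?_⟩
  set κ : K := (Fintype.card Q₀ : K) / ((Module.finrank K V : ℕ) : K) with hκ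
  have hTκ : ∀ b, T b = (κ * LinearMap.trace K V b) • (1 : Module.End K V) := by
    intro b
    obtain ⟨c, hc⟩ := hTsc b
    have h1 := hTtr b
    rw [hc, map_smul, LinearMap.trace_one, smul_eq_mul] at h1
    rw [hc]
    congr 1
    rw [hκ]
    field_simp
    exact h1
  -- rank one maps
  have hrank1 : ∀ (ψ : Module.Dual K V) (u : V),
      ∑ y : Q₀, LinearMap.trace K V ((ψ.smulRight u : Module.End K V) * R y⁻¹) • R y
        = κ • (ψ.smulRight u : Module.End K V) := by
    intro ψ u
    apply LinearMap.ext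
    intro v
    have h1 : ∀ y : Q₀, (ψ.smulRight u : Module.End K V) * R y⁻¹
        = ((ψ.comp (R y⁻¹)).smulRight u : Module.End K V) := by
      intro y
      apply LinearMap.ext
      intro w
      simp
    have h2 := congrArg (fun f : Module.End K V => f u) (hTκ (ψ.smulRight v))
    simp only [T, LinearMap.trace_smulRight] at h2
    simp only [h1, LinearMap.trace_smulRight, LinearMap.sum_apply, LinearMap.smul_apply,
      LinearMap.comp_apply, LinearMap.smulRight_apply]
    simp only [LinearMap.sum_apply, Module.End.mul_apply, LinearMap.smulRight_apply, map_smul,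
      LinearMap.smul_apply, Module.End.one_apply] at h2
    rw [h2, mul_smul]
  intro a
  let b := Module.finBasis K V
  have ha : a = ∑ i, ((b.coord i).smulRight (a (b i)) : Module.End K V) := by
    apply LinearMap.ext
    intro v
    simp only [LinearMap.sum_apply, LinearMap.smulRight_apply, Module.Basis.coord_apply]
    conv_lhs => rw [← b.sum_repr v]
    rw [map_sum]
    simp only [map_smul]
  rw [ha]
  simp only [Finset.sum_mul, map_sum, Finset.sum_smul, Finset.smul_sum]
  rw [Finset.sum_comm]
  refine Finset.sum_congr rfl fun i _ => ?_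
  exact hrank1 _ _

end Cfsg.Agent.Lib.H75WFour
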