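import Mathlib

set_option autoImplicit false

namespace Cfsg.Agent.Lib.H75WReps

/-- PIECE Reps (pure combinatorics).  A permutation `α` with `α ^ N = 1` acting freely on an invariant set `T`:
there is a `0/1` weight `w` (the indicator of a set of orbit representatives) with `∑ k < N, w (α ^ k u) = 1` for `u ∈ T`.
Take the orbit relation of `Subgroup.zpowers α` (or the setoid `u ~ v ↔ ∃ k, α ^ k u = v`), `r u` = chosen representative of the class of `u`,
`w v = if v = r v then 1 else 0`.  For `u ∈ T`: `r u = α ^ k u` for some `k < N` (reduce the exponent mod `N`), and `k` is unique by freeness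
(`α ^ k u = α ^ k' u`, `k < k' < N` gives `α ^ (k' - k) u = u`); `r (α ^ k u) = r u`.  `Finset.sum_eq_single`. -/
theorem exists_weight {Ω : Type*} (α : Equiv.Perm Ω) (N : ℕ) (hN : 0 < N) (hα : α ^ N = 1)
    (T : Set Ω) (hfree : ∀ u ∈ T, ∀ i, 0 < i → i < N → (α ^ i) u ≠ u) :
    ∃ w : Ω → ℕ, ∀ u ∈ T, ∑ k ∈ Finset.range N, w ((α ^ k) u) = 1 := by
  classical
  let s : Setoid Ω := Equiv.Perm.SameCycle.setoid α
  let r : Ω → Ω := fun u => (Quotient.mk s u).out
  have hr1 : ∀ u, α.SameCycle (r u) u := fun u => Quotient.mk_out (s := s) u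
  have hr2 : ∀ u v, α.SameCycle u v → r u = r v := fun u v h => by
    show (Quotient.mk s u).out = (Quotient.mk s v).out
    have : Quotient.mk s u = Quotient.mk s v := Quotient.sound h
    rw [this]
  refine ⟨fun v => if v = r v then 1 else 0, fun u hu => ?_⟩
  obtain ⟨i, hi⟩ := (hr1 u).symm
  have hNz : α ^ (N : ℤ) = 1 := by rw [zpow_natCast]; exact hα
  have h1 : α ^ i = α ^ (i % (N : ℤ)) := zpow_eq_zpow_emod i hNz
  have hpos : 0 ≤ i % (N : ℤ) := Int.emod_nonneg _ (by exact_mod_cast hN.ne')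
  have hlt : i % (N : ℤ) < N := Int.emod_lt_of_pos _ (by exact_mod_cast hN)
  obtain ⟨k0, hk0⟩ := Int.eq_ofNat_of_zero_le hpos
  rw [hk0, zpow_natCast] at h1
  have hk0N : k0 < N := by rw [hk0] at hlt; exact_mod_cast hlt
  rw [h1] at hi
  have key : ∀ k k', k < k' → k' < N → (α ^ k) u ≠ (α ^ k') u := by
    intro k k' hkk' hk' h
    apply hfree u hu (k' - k) (by omega) (by omega)
    have h2 : α ^ k' = α ^ k * α ^ (k' - k) := by rw [← pow_add]; congr 1; omega
    rw [h2, Equiv.Perm.mul_apply] at h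
    exact ((α ^ k).injective h).symm
  have hfree' : ∀ k k', k < N → k' < N → (α ^ k) u = (α ^ k') u → k = k' := by
    intro k k' hk hk' h
    rcases lt_trichotomy k k' with h' | h' | h'
    · exact absurd h (key k k' h' hk')
    · exact h'
    · exact absurd h.symm (key k' k h' hk)
  have hsame : ∀ k : ℕ, r ((α ^ k) u) = r u := fun k =>
    hr2 _ _ ((Equiv.Perm.sameCycle_pow_left).2 (Equiv.Perm.SameCycle.refl _ _))
  rw [Finset.sum_eq_single k0]
  · beta_reduce
    rw [if_pos]
    rw [hsame]; exact hi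
  · intro k hk hkk0
    beta_reduce
    rw [if_neg]
    rw [hsame, ← hi]
    intro h
    exact hkk0 (hfree' k k0 (Finset.mem_range.1 hk) hk0N h)
  · intro h
    exact absurd (Finset.mem_range.2 hk0N) h

end Cfsg.Agent.Lib.H75WReps
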