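import Mathlib
import Cfsg.Agent.Lib.Helper92HHDefs
import Cfsg.Agent.Lib.H75WFour
import Cfsg.Agent.Lib.H75WReps

set_option autoImplicit false

namespace Cfsg.Agent.Lib.H75WCommTr

open Cfsg.Agent.Lib.Helper92HHDefs

variable {K V : Type*} [Field K] [AddCommGroup V] [Module K V]

/-- PIECE CommTr.  The commutant of `Y` is `K • 1 + Tr (End V)`, `Tr φ = ∑ k < N, Y ^ k * φ * Y ^ (-k)`.
`Four.fourier` (with `Fintype.ofFinite`): `κ • a = ∑ y, f y • ρ y`, `f y = tr (a * ρ y⁻¹)`; `f (α y) = f y` because `a` commutes with `Y`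
(`ρ (α y)⁻¹ = Y * ρ y⁻¹ * Y⁻¹`, `LinearMap.trace_mul_comm`/`trace_mul_cycle`).  Let `T = {u | ¬ IsSc (ρ u)}`.
The terms with `y ∉ T` add up to a scalar.  `Reps.exists_weight` for the permutation `α⁻¹` (as `Equiv.Perm Q₀`, `(α⁻¹) ^ N = 1`, free on `T` by `free`:
`(α⁻¹)^i u = u → α^i u = u`) gives `w`.  With `φ = κ⁻¹ • ∑ y ∈ T, (w y : K) • f y • ρ y`:
`∑ y ∈ T, f y • ρ y = ∑ y ∈ T, ∑ k, w (α^(-k) y) • f y • ρ y = ∑ k, ∑ y' ∈ T, w y' • f y' • ρ (α^k y')` (substitute `y = α^k y'`; `T` is `α`-invariant since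
`ρ (α u) = Y * ρ u * Y⁻¹` is scalar iff `ρ u` is) and `ρ (α^k y') = Y^k * ρ y' * Y^(-k)`. -/
theorem comm_tr [IsAlgClosed K] [FiniteDimensional K V] [Nontrivial V] {Q₀ : Type*} [Group Q₀]
    [Finite Q₀] (ρ : Q₀ →* (Module.End K V)ˣ) (hirr : Irr ρ) (hcard : (Nat.card Q₀ : K) ≠ 0)
    (α : MulAut Q₀) (Y : (Module.End K V)ˣ) (N : ℕ) (hN : 0 < N)
    (tw : ∀ u, Y * ρ u * Y⁻¹ = ρ (α u)) (apow : α ^ N = 1)
    (free : ∀ u i, 0 < i → i < N → (α ^ i) u = u →
      IsSc ((ρ u : (Module.End K V)ˣ) : Module.End K V))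
    (a : Module.End K V) (ha : a ∈ commutant (Y : Module.End K V)) :
    ∃ (c : K) (φ : Module.End K V), a = c • (1 : Module.End K V) +
      ∑ k ∈ Finset.range N, ((Y ^ k : (Module.End K V)ˣ) : Module.End K V) * φ *
        (((Y ^ k)⁻¹ : (Module.End K V)ˣ) : Module.End K V) := by
  classical
  haveI := Fintype.ofFinite Q₀
  have hcard' : (Fintype.card Q₀ : K) ≠ 0 := by rwa [← Nat.card_eq_fintype_card]
  obtain ⟨-, κ, hκ, hF⟩ := H75WFour.fourier ρ hirr hcard'
  set R : Q₀ → Module.End K V := fun y => ((ρ y : (Module.End K V)ˣ) : Module.End K V) with hR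
  have hconj : ∀ (k : ℕ) (u : Q₀), Y ^ k * ρ u * (Y ^ k)⁻¹ = ρ ((α ^ k) u) := by
    intro k
    induction k with
    | zero => intro u; simp
    | succ k ih =>
      intro u
      rw [pow_succ' Y, pow_succ' α, MulAut.mul_apply, ← tw, ← ih]
      group
  have hconjE : ∀ (k : ℕ) (u : Q₀), ((Y ^ k : (Module.End K V)ˣ) : Module.End K V) * R u *
      (((Y ^ k)⁻¹ : (Module.End K V)ˣ) : Module.End K V) = R ((α ^ k) u) := by
    intro k u
    simp only [hR]
    rw [← hconj k u, Units.val_mul, Units.val_mul]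
  have hacomm : ∀ k : ℕ, a * ((Y ^ k : (Module.End K V)ˣ) : Module.End K V)
      = ((Y ^ k : (Module.End K V)ˣ) : Module.End K V) * a := by
    intro k
    have h0 : Commute a (Y : Module.End K V) := ha
    have := h0.pow_right k
    rw [Units.val_pow_eq_pow_val]
    exact this
  let f : Q₀ → K := fun y => LinearMap.trace K V (a * R y⁻¹)
  have hf : ∀ k y, f ((α ^ k) y) = f y := by
    intro k y
    simp only [f]
    rw [← map_inv, ← hconjE k y⁻¹, ← mul_assoc, ← mul_assoc, hacomm k, mul_assoc _ a]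
    exact LinearMap.trace_conj K (a * R y⁻¹) (Y ^ k)
  have hsc1 : ∀ (U : (Module.End K V)ˣ) (r : Module.End K V), IsSc r →
      IsSc ((U : Module.End K V) * r * ((U⁻¹ : (Module.End K V)ˣ) : Module.End K V)) := by
    rintro U r ⟨c, rfl⟩
    exact ⟨c, by simp⟩
  have hsc : ∀ k y, IsSc (R ((α ^ k) y)) ↔ IsSc (R y) := by
    intro k y
    rw [← hconjE]
    constructor
    · intro h
      have := hsc1 (Y ^ k)⁻¹ _ h
      rw [inv_inv, mul_assoc, mul_assoc, Units.inv_mul, mul_one, ← mul_assoc, Units.inv_mul,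
        one_mul] at this
      exact this
    · exact hsc1 _ _
  let g : Q₀ → K := fun y => if IsSc (R y) then 0 else f y
  have hg : ∀ k y, g ((α ^ k) y) = g y := by
    intro k y
    simp only [g, hsc, hf]
  let β : Equiv.Perm Q₀ := MulAut.toPerm Q₀ α⁻¹
  have hβ : ∀ k u, (β ^ k) u = ((α ^ k)⁻¹ : MulAut Q₀) u := by
    intro k u
    simp only [β]
    rw [← map_pow, inv_pow]
    rfl
  obtain ⟨w, hw⟩ := H75WReps.exists_weight β N hN (by
      simp only [β]
      rw [← map_pow, inv_pow, apow, inv_one, map_one]) {u | ¬ IsSc (R u)} (by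
    intro u hu i hi hiN h
    apply hu
    apply free u i hi hiN
    rw [hβ] at h
    conv_lhs => rw [← h]
    simp)
  have hsplit : κ • a = ∑ y, (f y - g y) • R y + ∑ y, g y • R y := by
    rw [← hF a, ← Finset.sum_add_distrib]
    refine Finset.sum_congr rfl fun y _ => ?_
    rw [← add_smul, sub_add_cancel]
  have hS : IsSc (∑ y, (f y - g y) • R y) := by
    apply Finset.sum_induction _ IsSc
    · rintro _ _ ⟨c, rfl⟩ ⟨d, rfl⟩
      exact ⟨c + d, (add_smul _ _ _).symm⟩
    · exact ⟨0, by simp⟩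
    · intro y _
      by_cases h : IsSc (R y)
      · obtain ⟨c, hc⟩ := h
        exact ⟨(f y - g y) * c, by rw [hc, smul_smul]⟩
      · exact ⟨0, by simp [g, h]⟩
  obtain ⟨c₀, hc₀⟩ := hS
  refine ⟨κ⁻¹ * c₀, κ⁻¹ • ∑ y, (w y : K) • g y • R y, ?_⟩
  have hmain : ∑ k ∈ Finset.range N, ((Y ^ k : (Module.End K V)ˣ) : Module.End K V) *
      (∑ y, (w y : K) • g y • R y) * (((Y ^ k)⁻¹ : (Module.End K V)ˣ) : Module.End K V)
      = ∑ y, g y • R y := by
    calc _ = ∑ k ∈ Finset.range N, ∑ y, (w y : K) • g y • R ((α ^ k) y) := by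
            refine Finset.sum_congr rfl fun k _ => ?_
            rw [Finset.mul_sum, Finset.sum_mul]
            refine Finset.sum_congr rfl fun y _ => ?_
            rw [mul_smul_comm, mul_smul_comm, smul_mul_assoc, smul_mul_assoc, hconjE]
      _ = ∑ k ∈ Finset.range N, ∑ y, (w ((β ^ k) y) : K) • g y • R y := by
            refine Finset.sum_congr rfl fun k _ => ?_
            refine Fintype.sum_equiv (MulAut.toPerm Q₀ (α ^ k)) _ _ ?_
            intro y
            show _ = (w ((β ^ k) ((α ^ k) y)) : K) • g ((α ^ k) y) • R ((α ^ k) y)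
            rw [hβ, hg]
            simp
      _ = ∑ y, (∑ k ∈ Finset.range N, (w ((β ^ k) y) : K)) • g y • R y := by
            rw [Finset.sum_comm]
            refine Finset.sum_congr rfl fun y _ => ?_
            rw [Finset.sum_smul]
      _ = ∑ y, g y • R y := by
            refine Finset.sum_congr rfl fun y _ => ?_
            by_cases h : IsSc (R y)
            · simp [g, h]
            · have := hw y h
              rw [← Nat.cast_sum, this]
              simp
  calc a = κ⁻¹ • (κ • a) := by rw [smul_smul, inv_mul_cancel₀ hκ, one_smul]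
    _ = _ := by
      rw [hsplit, hc₀, smul_add, smul_smul, ← hmain, Finset.smul_sum]
      congr 1
      refine Finset.sum_congr rfl fun k _ => ?_
      rw [mul_smul_comm, smul_mul_assoc]

end Cfsg.Agent.Lib.H75WCommTr
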