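import Mathlib
import Cfsg.Agent.Lib.Helper92HHDefs
import Cfsg.Agent.Lib.H75WChi

set_option autoImplicit false

namespace Cfsg.Agent.Lib.H75WDim

open Cfsg.Agent.Lib.Helper92HHDefs

variable {K V : Type*} [Field K] [AddCommGroup V] [Module K V]

theorem sum_finrank_eig' [FiniteDimensional K V] (f : Module.End K V) (s : Finset K) :
    ∑ μ ∈ s, Module.finrank K (f.eigenspace μ) = Module.finrank K ↥(s.sup f.eigenspace) := by
  classical
  induction s using Finset.induction_on with
  | empty => rw [Finset.sum_empty, Finset.sup_empty, finrank_bot]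
  | insert a s ha ih =>
    rw [Finset.sum_insert ha, Finset.sup_insert, ih]
    have hd : Disjoint (f.eigenspace a) (s.sup f.eigenspace) :=
      (f.eigenspaces_iSupIndep.supIndep' (insert a s)) (Finset.subset_insert a s)
        (Finset.mem_insert_self a s) ha
    have := Submodule.finrank_sup_add_finrank_inf_eq (f.eigenspace a) (s.sup f.eigenspace)
    rw [hd.eq_bot, finrank_bot, add_zero] at this
    exact this.symm

theorem finrank_eq [FiniteDimensional K V] {q : ℕ} [Fact q.Prime] {Q₀ : Type*} [Group Q₀]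
    [Finite Q₀] (hQ : IsPGroup q Q₀) (ρ : Q₀ →* (Module.End K V)ˣ) (hirr : Irr ρ)
    (A : (Module.End K V)ˣ) (χ : Q₀ →* Kˣ)
    (hχ : ∀ g : Q₀, (A : Module.End K V) * ((ρ g : (Module.End K V)ˣ) : Module.End K V)
        = ((χ g : Kˣ) : K) • (((ρ g : (Module.End K V)ˣ) : Module.End K V) * (A : Module.End K V)))
    (l : K) (hl : Module.End.eigenspace (A : Module.End K V) l ≠ ⊥) :
    ∃ j : ℕ, Module.finrank K V
      = q ^ j * Module.finrank K (Module.End.eigenspace (A : Module.End K V) l) := by
  classical
  haveI : Fintype Q₀ := Fintype.ofFinite Q₀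
  set E := Module.End.eigenspace (A : Module.End K V) with hE
  -- l ≠ 0
  have hl0 : l ≠ 0 := by
    rintro rfl
    apply hl
    rw [Submodule.eq_bot_iff]
    intro v hv
    rw [hE, Module.End.mem_eigenspace_iff, zero_smul] at hv
    have := congrArg (fun w => ((A⁻¹ : (Module.End K V)ˣ) : Module.End K V) w) hv
    simpa [← Module.End.mul_apply] using this
  set s : Finset K := Finset.univ.image (fun g : Q₀ => ((χ g : Kˣ) : K) * l) with hs
  have hmem : ∀ g : Q₀, ((χ g : Kˣ) : K) * l ∈ s := fun g =>
    Finset.mem_image_of_mem _ (Finset.mem_univ g)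
  -- the sup is invariant
  have hinv : ∀ g, ∀ w ∈ s.sup E, ((ρ g : (Module.End K V)ˣ) : Module.End K V) w ∈ s.sup E := by
    intro g
    have h1 : s.sup E ≤ (s.sup E).comap ((ρ g : (Module.End K V)ˣ) : Module.End K V) := by
      apply Finset.sup_le
      intro μ hμ
      obtain ⟨h, -, rfl⟩ := Finset.mem_image.1 hμ
      intro v hv
      rw [Submodule.mem_comap]
      have h2 := H75WChi.map_eig ρ A χ hχ g _ v hv
      have h3 : ((χ g : Kˣ) : K) * (((χ h : Kˣ) : K) * l) = ((χ (g * h) : Kˣ) : K) * l := by
        rw [map_mul, Units.val_mul, mul_assoc]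
      rw [h3] at h2
      exact (Finset.le_sup (f := E) (hmem (g * h))) h2
    exact fun w hw => h1 hw
  have hUle : E l ≤ s.sup E := by
    have := Finset.le_sup (f := E) (hmem 1)
    simpa using this
  have htop : s.sup E = ⊤ := by
    rcases hirr _ hinv with h | h
    · exfalso
      apply hl
      rw [h] at hUle
      exact le_bot_iff.1 hUle
    · exact h
  -- equal dimensions
  have hle : ∀ (g : Q₀) (μ : K), Module.finrank K (E μ) ≤ Module.finrank K (E (((χ g : Kˣ) : K) * μ)) := by
    intro g μ
    let φ : E μ →ₗ[K] E (((χ g : Kˣ) : K) * μ) :=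
      LinearMap.restrict ((ρ g : (Module.End K V)ˣ) : Module.End K V)
        (fun v hv => H75WChi.map_eig ρ A χ hχ g μ v hv)
    apply LinearMap.finrank_le_finrank_of_injective (f := φ)
    intro a b hab
    have h1 : ((ρ g : (Module.End K V)ˣ) : Module.End K V) (a : V)
        = ((ρ g : (Module.End K V)ˣ) : Module.End K V) (b : V) := congrArg Subtype.val hab
    have h2 := congrArg (fun w => (((ρ g)⁻¹ : (Module.End K V)ˣ) : Module.End K V) w) h1
    apply Subtype.ext
    simpa [← Module.End.mul_apply] using h2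
  have heq : ∀ μ ∈ s, Module.finrank K (E μ) = Module.finrank K (E l) := by
    intro μ hμ
    obtain ⟨g, -, rfl⟩ := Finset.mem_image.1 hμ
    apply le_antisymm
    · have := hle g⁻¹ (((χ g : Kˣ) : K) * l)
      have h3 : ((χ g⁻¹ : Kˣ) : K) * (((χ g : Kˣ) : K) * l) = l := by
        rw [← mul_assoc, ← Units.val_mul, ← map_mul, inv_mul_cancel, map_one, Units.val_one, one_mul]
      rwa [h3] at this
    · exact hle g l
  have hsum := sum_finrank_eig' (A : Module.End K V) s
  rw [← hE, htop, finrank_top, Finset.sum_congr rfl heq, Finset.sum_const, smul_eq_mul] at hsum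
  -- the cardinality of s
  have hcard : s.card = Nat.card χ.range := by
    have h1 : s = (Finset.univ.image (fun g : Q₀ => χ g)).image (fun c : Kˣ => (c : K) * l) := by
      rw [hs, Finset.image_image]
      rfl
    rw [h1, Finset.card_image_of_injective]
    · have h2 : ((Finset.univ.image (fun g : Q₀ => χ g) : Finset Kˣ) : Set Kˣ)
          = (χ.range : Set Kˣ) := by
        ext c
        simp [MonoidHom.mem_range]
      have h3 : Nat.card ↥χ.range = Nat.card ((χ.range : Set Kˣ) : Type _) := rfl
      rw [h3, ← h2, Nat.card_coe_set_eq, Set.ncard_coe_finset]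
    · intro c c' h
      exact Units.ext (mul_right_cancel₀ hl0 h)
  obtain ⟨m, hm⟩ := (IsPGroup.iff_card).1 hQ
  have hdvd : Nat.card χ.range ∣ q ^ m := by
    rw [← hm]
    exact Subgroup.card_range_dvd χ
  obtain ⟨j, -, hj⟩ := (Nat.dvd_prime_pow (Fact.out : q.Prime)).1 hdvd
  exact ⟨j, by rw [← hsum, hcard, hj]⟩

end Cfsg.Agent.Lib.H75WDim
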