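import Mathlib

set_option autoImplicit false

namespace Cfsg.Agent.Lib.H75WGeom

theorem geom_sum_eq {K : Type*} [Field K] (p : ℕ) [Fact p.Prime] [CharP K p] {A : Type*} [Ring A]
    [Algebra K A] (n : ℕ) (X : A) :
    ∑ k ∈ Finset.range (p ^ n), X ^ k = (X - 1) ^ (p ^ n - 1) := by
  have hp : p.Prime := Fact.out
  have hpos : 0 < p ^ n := pow_pos hp.pos n
  have key : ∑ k ∈ Finset.range (p ^ n), (Polynomial.X : Polynomial K) ^ k
      = (Polynomial.X - 1) ^ (p ^ n - 1) := by
    have hne : (Polynomial.X - 1 : Polynomial K) ≠ 0 := by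
      have : (Polynomial.X - 1 : Polynomial K).Monic := by
        simpa using Polynomial.monic_X_sub_C (1 : K)
      exact this.ne_zero
    apply mul_right_cancel₀ hne
    rw [geom_sum_mul, ← pow_succ, Nat.sub_add_cancel hpos, sub_pow_char_pow, one_pow]
  have := congrArg (Polynomial.aeval X) key
  simpa using this

end Cfsg.Agent.Lib.H75WGeom
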