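import Mathlib

set_option autoImplicit false

namespace Cfsg.Agent.Lib.H75WGrp

/-- PIECE Grp (pure group theory).  In the situation of S4282, an element `u` of the `q`-group `Q` commuting with a nontrivial `y ∈ ⟨x⟩` is central.
By `hC`, `u ∈ zpowers x ⊔ center G`, so `u = t * z`, `t ∈ zpowers x`, `z` central (`Subgroup.mem_sup_of_normal_right`/`Subgroup.mul_normal`; the centre is normal).
If `t = 1` done.  Otherwise take `k` with `u ^ q ^ k = 1` (`hQ ⟨u, hu⟩`): `t` and `z` commute, `1 = t ^ q^k * z ^ q^k`, so `t' = t ^ q^k` is central;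
`t' ≠ 1` because the order of `t` is a power of `p` (`hx ⟨t, _⟩`), coprime to `q ^ k` (`orderOf_dvd_of_pow_eq_one`, `Nat.Coprime.eq_one_of_dvd`/`pow_gcd_eq_one`).
`hC t'` gives `⊤ = centralizer {t'} = zpowers x ⊔ center G`, so every element is `x^i * z`, `G` is commutative and `u` is central. -/
theorem mem_center {G : Type*} [Group G] [Finite G] (p q : ℕ) [Fact p.Prime] [Fact q.Prime]
    (hpq : p ≠ q) (Q : Subgroup G) (hQ : IsPGroup q Q) (x : G)
    (hx : IsPGroup p (Subgroup.zpowers x))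
    (hC : ∀ y ∈ Subgroup.zpowers x, y ≠ 1 → Subgroup.centralizer ({y} : Set G)
      = Subgroup.zpowers x ⊔ Subgroup.center G)
    (y : G) (hy : y ∈ Subgroup.zpowers x) (hy1 : y ≠ 1) (u : G) (hu : u ∈ Q)
    (hc : y * u = u * y) : u ∈ Subgroup.center G := by
  have hu' : u ∈ Subgroup.centralizer ({y} : Set G) := by
    rw [Subgroup.mem_centralizer_singleton_iff]
    first | exact hc | exact hc.symm
  rw [hC y hy hy1, Subgroup.mem_sup_of_normal_right] at hu'
  obtain ⟨t, ht, z, hz, rfl⟩ := hu'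
  by_cases ht1 : t = 1
  · subst ht1; rwa [one_mul]
  obtain ⟨k, hk⟩ := hQ ⟨t * z, hu⟩
  have hk' : (t * z) ^ q ^ k = 1 := by simpa using congrArg Subtype.val hk
  have hzc : ∀ g, g * z = z * g := Subgroup.mem_center_iff.1 hz
  have hcomm : Commute t z := hzc t
  rw [hcomm.mul_pow] at hk'
  have ht'c : t ^ q ^ k ∈ Subgroup.center G := by
    have : t ^ q ^ k = (z ^ q ^ k)⁻¹ := eq_inv_of_mul_eq_one_left hk'
    rw [this]
    exact Subgroup.inv_mem _ (Subgroup.pow_mem _ hz _)
  have ht'1 : t ^ q ^ k ≠ 1 := by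
    intro h
    obtain ⟨j, hj⟩ := hx ⟨t, ht⟩
    have hj' : t ^ p ^ j = 1 := by simpa using congrArg Subtype.val hj
    have h1 : orderOf t ∣ q ^ k := orderOf_dvd_of_pow_eq_one h
    have h2 : orderOf t ∣ p ^ j := orderOf_dvd_of_pow_eq_one hj'
    have hcop : Nat.Coprime (q ^ k) (p ^ j) :=
      Nat.Coprime.pow _ _ ((Nat.coprime_primes Fact.out Fact.out).2 hpq.symm)
    have := Nat.eq_one_of_dvd_coprimes hcop h1 h2
    exact ht1 (orderOf_eq_one_iff.1 this)
  have htop := hC _ (Subgroup.pow_mem _ ht _) ht'1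
  have htop' : Subgroup.centralizer ({t ^ q ^ k} : Set G) = ⊤ := by
    rw [eq_top_iff]
    intro g _
    rw [Subgroup.mem_centralizer_singleton_iff]
    exact (Subgroup.mem_center_iff.1 ht'c g)
  rw [htop'] at htop
  rw [Subgroup.mem_center_iff]
  intro g
  have hg : g ∈ Subgroup.zpowers x ⊔ Subgroup.center G := htop ▸ Subgroup.mem_top g
  rw [Subgroup.mem_sup_of_normal_right] at hg
  obtain ⟨s, hs, w, hw, rfl⟩ := hg
  have hwc := Subgroup.mem_center_iff.1 hw
  have hst : s * t = t * s := by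
    obtain ⟨i, rfl⟩ := hs
    obtain ⟨j, rfl⟩ := ht
    simp only
    rw [← zpow_add, ← zpow_add, add_comm]
  calc s * w * (t * z) = s * (w * t) * z := by group
    _ = s * (t * w) * z := by rw [hwc t]
    _ = (s * t) * (w * z) := by group
    _ = (t * s) * (z * w) := by rw [hst, hzc w]
    _ = t * (s * z) * w := by group
    _ = t * (z * s) * w := by rw [hzc s]
    _ = t * z * (s * w) := by group

end Cfsg.Agent.Lib.H75WGrp
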