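import Mathlib

set_option autoImplicit false

namespace Cfsg.Agent.Lib.H75WRank

variable {K M : Type*} [Field K] [AddCommGroup M] [Module K M]

/-- PIECE Rank (linear algebra).  `T ^ N = 0`, `N ≥ 2`, and a vector `u ∈ ker T`, `u ∉ range T`.  Then `N * rank (T^(N-1)) + 1 ≤ dim M`.
Put `r = finrank (range (T^(N-1)))`.  Show by induction on `j` (`1 ≤ j ≤ N`): `j * r + 1 ≤ finrank (ker (T^j))`.
`j = 1`: `range (T^(N-1)) ≤ ker T ⊓ range T` (as `N ≥ 2`, `T * T^(N-1) = 0`), and `u ∈ ker T` is not in it, so it is a proper subspace of `ker T`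
(`Submodule.finrank_lt_finrank_of_lt`).
Step `j → j+1 ≤ N`: the map `T^j` restricted to `ker (T^(j+1))` has kernel `ker (T^j)` and its range contains `range (T^(N-1))`
(`T^(N-1) m = T^j (T^(N-1-j) m)` and `T^(N-1-j) m ∈ ker (T^(j+1))`), so rank-nullity (`LinearMap.finrank_range_add_finrank_ker` for
`(T^j).domRestrict (ker (T^(j+1)))`) gives `finrank (ker (T^(j+1))) ≥ r + finrank (ker (T^j))`.  Finally `ker (T^N) = ⊤`. -/
theorem rank_le [FiniteDimensional K M] (T : Module.End K M) (N : ℕ) (hN : 2 ≤ N)
    (hT : T ^ N = 0) (u : M) (hu : T u = 0) (hu' : u ∉ LinearMap.range T) :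
    N * Module.finrank K (LinearMap.range (T ^ (N - 1))) + 1 ≤ Module.finrank K M := by
  set r := Module.finrank K (LinearMap.range (T ^ (N - 1))) with hr
  have key : ∀ j, 1 ≤ j → j ≤ N → j * r + 1 ≤ Module.finrank K (LinearMap.ker (T ^ j)) := by
    intro j hj
    induction j, hj using Nat.le_induction with
    | base =>
      intro _
      have hlt : LinearMap.range (T ^ (N-1)) < LinearMap.ker (T^1) := by
        rw [pow_one]
        refine lt_of_le_of_ne ?_ ?_
        · rintro _ ⟨m, rfl⟩
          rw [LinearMap.mem_ker, ← Module.End.mul_apply, ← pow_succ', Nat.sub_add_cancel (by omega), hT]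
          rfl
        · intro h
          have h1 : u ∈ LinearMap.range (T^(N-1)) := h ▸ (LinearMap.mem_ker.mpr hu)
          obtain ⟨m, hm⟩ := h1
          apply hu'
          refine ⟨(T^(N-2)) m, ?_⟩
          rw [← Module.End.mul_apply, ← pow_succ', show N - 2 + 1 = N - 1 by omega, hm]
      have := Submodule.finrank_lt_finrank_of_lt hlt
      omega
    | succ j hj ih =>
      intro hjN
      have ih' := ih (by omega)
      have h1 := LinearMap.finrank_range_add_finrank_ker
        ((T^j).domRestrict (LinearMap.ker (T^(j+1))))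
      have hle : LinearMap.ker (T^j) ≤ LinearMap.ker (T^(j+1)) := by
        intro x hx
        rw [LinearMap.mem_ker] at hx ⊢
        rw [pow_succ', Module.End.mul_apply, hx, map_zero]
      have h2 : Module.finrank K (LinearMap.ker ((T^j).domRestrict (LinearMap.ker (T^(j+1)))))
          = Module.finrank K (LinearMap.ker (T^j)) := by
        rw [LinearMap.ker_domRestrict]
        exact (Submodule.comapSubtypeEquivOfLe hle).finrank_eq
      have h3 : r ≤ Module.finrank K (LinearMap.range ((T^j).domRestrict (LinearMap.ker (T^(j+1))))) := by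
        apply Submodule.finrank_mono
        rintro _ ⟨m, rfl⟩
        refine ⟨⟨(T^(N-1-j)) m, ?_⟩, ?_⟩
        · rw [LinearMap.mem_ker, ← Module.End.mul_apply, ← pow_add,
            show j + 1 + (N - 1 - j) = N by omega, hT]
          rfl
        · rw [LinearMap.domRestrict_apply]
          show (T^j) ((T^(N-1-j)) m) = _
          rw [← Module.End.mul_apply, ← pow_add, show j + (N - 1 - j) = N - 1 by omega]
      have : (j + 1) * r = j * r + r := by ring
      omega
  have h := key N (by omega) le_rfl
  rw [hT] at h
  have h4 : Module.finrank K (LinearMap.ker (0 : Module.End K M)) = Module.finrank K M := by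
    rw [LinearMap.ker_zero, finrank_top]
  omega

end Cfsg.Agent.Lib.H75WRank
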