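import Mathlib
import Cfsg.Agent.Lib.Helper92HHDefs
import Cfsg.Agent.Lib.H75WFour
import Cfsg.Agent.Lib.H75WCommTr
import Cfsg.Agent.Lib.H75WGeom
import Cfsg.Agent.Lib.H75WRank

set_option autoImplicit false

namespace Cfsg.Agent.Lib.H75WIneq

open Cfsg.Agent.Lib.Helper92HHDefs

variable {K V : Type*} [Field K] [AddCommGroup V] [Module K V]

/-- conjugation by a unit, as an operator on `End V`. -/
def conjOp (Y : (Module.End K V)ˣ) : Module.End K (Module.End K V) :=
  (LinearMap.mulLeft K (Y : Module.End K V)) ∘ₗ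
    (LinearMap.mulRight K ((Y⁻¹ : (Module.End K V)ˣ) : Module.End K V))

theorem conjOp_apply (Y : (Module.End K V)ˣ) (φ : Module.End K V) :
    conjOp Y φ = (Y : Module.End K V) * φ * ((Y⁻¹ : (Module.End K V)ˣ) : Module.End K V) := by
  simp [conjOp, mul_assoc]

theorem conjOp_pow_apply (Y : (Module.End K V)ˣ) (k : ℕ) (φ : Module.End K V) :
    (conjOp Y ^ k) φ = ((Y ^ k : (Module.End K V)ˣ) : Module.End K V) * φ *
      (((Y ^ k)⁻¹ : (Module.End K V)ˣ) : Module.End K V) := by
  induction k generalizing φ with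
  | zero => simp
  | succ k ih =>
    rw [pow_succ', Module.End.mul_apply, ih, conjOp_apply, pow_succ', mul_inv_rev, Units.val_mul,
      Units.val_mul]
    simp only [mul_assoc]

theorem ineq [IsAlgClosed K] [FiniteDimensional K V] [Nontrivial V] (p n : ℕ) [Fact p.Prime]
    [CharP K p] (hn : 1 ≤ n) {Q₀ : Type*} [Group Q₀] [Finite Q₀]
    (ρ : Q₀ →* (Module.End K V)ˣ) (hirr : Irr ρ) (hcard : (Nat.card Q₀ : K) ≠ 0)
    (α : MulAut Q₀) (Y : (Module.End K V)ˣ)
    (tw : ∀ u, Y * ρ u * Y⁻¹ = ρ (α u)) (apow : α ^ p ^ n = 1) (pow : Y ^ p ^ n = 1)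
    (free : ∀ u i, 0 < i → i < p ^ n → (α ^ i) u = u →
      IsSc ((ρ u : (Module.End K V)ˣ) : Module.End K V)) :
    p ^ n * Module.finrank K (commutant (Y : Module.End K V))
      ≤ (Module.finrank K V) ^ 2 + (p ^ n - 1) := by
  classical
  have hpP : p.Prime := Fact.out
  have hN2 : 2 ≤ p ^ n := by
    calc 2 ≤ p := hpP.two_le
      _ = p ^ 1 := (pow_one p).symm
      _ ≤ p ^ n := Nat.pow_le_pow_right hpP.pos hn
  letI : Fintype Q₀ := Fintype.ofFinite Q₀
  have hcard' : (Fintype.card Q₀ : K) ≠ 0 := by rwa [← Nat.card_eq_fintype_card]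
  obtain ⟨hd, -⟩ := H75WFour.fourier ρ hirr hcard'
  have : CharP (Module.End K (Module.End K V)) p :=
    charP_of_injective_algebraMap (algebraMap K (Module.End K (Module.End K V))).injective p
  set X := conjOp Y with hX
  set T := X - 1 with hT
  have hXN : X ^ p ^ n = 1 := by
    ext1 φ
    rw [hX, conjOp_pow_apply, pow]
    simp
  have hTN : T ^ p ^ n = 0 := by
    rw [hT, sub_pow_char_pow_of_commute _ _ (Commute.one_right _), one_pow, hXN, sub_self]
  have hT1 : T 1 = 0 := by
    rw [hT, LinearMap.sub_apply, hX, conjOp_apply]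
    simp
  have htr : ∀ φ, LinearMap.trace K V (T φ) = 0 := by
    intro φ
    rw [hT, LinearMap.sub_apply, hX, conjOp_apply, map_sub, Module.End.one_apply,
      LinearMap.trace_mul_cycle, Units.inv_mul, one_mul, sub_self]
  have h1 : (1 : Module.End K V) ∉ LinearMap.range T := by
    rintro ⟨φ, hφ⟩
    have := htr φ
    rw [hφ, LinearMap.trace_one] at this
    exact hd this
  have hrank := H75WRank.rank_le T (p ^ n) hN2 hTN 1 hT1 h1
  have hfin : Module.finrank K (Module.End K V) = (Module.finrank K V) ^ 2 := by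
    rw [Module.finrank_linearMap, sq]
  rw [hfin] at hrank
  have hgeom : T ^ (p ^ n - 1) = ∑ k ∈ Finset.range (p ^ n), X ^ k :=
    (H75WGeom.geom_sum_eq (K := K) p n X).symm
  have hle : commutant (Y : Module.End K V)
      ≤ Submodule.span K {(1 : Module.End K V)} ⊔ LinearMap.range (T ^ (p ^ n - 1)) := by
    intro a ha
    obtain ⟨c, φ, hφ⟩ := H75WCommTr.comm_tr ρ hirr hcard α Y (p ^ n) (by omega) tw apow free a ha
    rw [hφ]
    apply Submodule.add_mem_sup
    · exact Submodule.smul_mem _ _ (Submodule.mem_span_singleton_self _)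
    · refine ⟨φ, ?_⟩
      rw [hgeom, LinearMap.sum_apply]
      apply Finset.sum_congr rfl
      intro k _
      rw [hX, conjOp_pow_apply]
  have hc : Module.finrank K (commutant (Y : Module.End K V))
      ≤ 1 + Module.finrank K (LinearMap.range (T ^ (p ^ n - 1))) := by
    calc Module.finrank K (commutant (Y : Module.End K V))
        ≤ Module.finrank K ↥(Submodule.span K {(1 : Module.End K V)} ⊔
            LinearMap.range (T ^ (p ^ n - 1))) := Submodule.finrank_mono hle
      _ ≤ Module.finrank K ↥(Submodule.span K {(1 : Module.End K V)}) +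
            Module.finrank K (LinearMap.range (T ^ (p ^ n - 1))) :=
          Submodule.finrank_add_le_finrank_add_finrank _ _
      _ = 1 + Module.finrank K (LinearMap.range (T ^ (p ^ n - 1))) := by
          rw [finrank_span_singleton one_ne_zero]
  calc p ^ n * Module.finrank K (commutant (Y : Module.End K V))
      ≤ p ^ n * (1 + Module.finrank K (LinearMap.range (T ^ (p ^ n - 1)))) :=
        Nat.mul_le_mul_left _ hc
    _ = p ^ n + p ^ n * Module.finrank K (LinearMap.range (T ^ (p ^ n - 1))) := by ring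
    _ ≤ (Module.finrank K V) ^ 2 + (p ^ n - 1) := by omega

end Cfsg.Agent.Lib.H75WIneq
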