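import Mathlib
import Cfsg.Agent.Lib.Helper92HHDefs
import Cfsg.Agent.Lib.H75WChi

set_option autoImplicit false

namespace Cfsg.Agent.Lib.H75WIrrU

open Cfsg.Agent.Lib.Helper92HHDefs

variable {K V : Type*} [Field K] [AddCommGroup V] [Module K V]

/-- PIECE IrrU (Clifford).  The eigenspace `U = E l` is irreducible under `ker χ`.
Let `W ≤ U` be `ker χ`-invariant, `W ≠ ⊥`.  `W' = ⨆ g, map (ρ g) W` is `ρ`-invariant and `≠ ⊥`, so `W' = ⊤`.
Let `R = ⨆ μ ≠ l, E μ`.  Each `map (ρ g) W ≤ W ⊔ R`: if `χ g = 1` it is `≤ W`; otherwise it is `≤ E (χ g * l)` (`Chi.map_eig`) with `χ g * l ≠ l`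
(`l ≠ 0` because `A` is a unit and `U ≠ ⊥`).  So `W ⊔ R = ⊤`.  `Disjoint U R` by `Module.End.eigenspaces_iSupIndep`.
Modular law (`W ≤ U`): `U = U ⊓ (W ⊔ R) = W ⊔ (U ⊓ R) = W` (`sup_inf_assoc_of_le`/`IsModularLattice`). -/
theorem irr_U {Q₀ : Type*} [Group Q₀] (ρ : Q₀ →* (Module.End K V)ˣ) (hirr : Irr ρ)
    (A : (Module.End K V)ˣ) (χ : Q₀ →* Kˣ)
    (hχ : ∀ g : Q₀, (A : Module.End K V) * ((ρ g : (Module.End K V)ˣ) : Module.End K V)
        = ((χ g : Kˣ) : K) • (((ρ g : (Module.End K V)ˣ) : Module.End K V) * (A : Module.End K V)))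
    (l : K) (W : Submodule K V) (hWU : W ≤ Module.End.eigenspace (A : Module.End K V) l)
    (hW : ∀ g : Q₀, χ g = 1 → ∀ w ∈ W, ((ρ g : (Module.End K V)ˣ) : Module.End K V) w ∈ W) :
    W = ⊥ ∨ W = Module.End.eigenspace (A : Module.End K V) l := by
  by_cases hW0 : W = ⊥
  · exact Or.inl hW0
  right
  -- l ≠ 0
  have hl : l ≠ 0 := by
    rintro rfl
    apply hW0
    rw [eq_bot_iff]
    intro w hw
    have h1 := hWU hw
    rw [Module.End.mem_eigenspace_iff, zero_smul] at h1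
    have h2 : ((A⁻¹ : (Module.End K V)ˣ) : Module.End K V) ((A : Module.End K V) w) = w := by
      rw [← Module.End.mul_apply, ← Units.val_mul, inv_mul_cancel, Units.val_one, Module.End.one_apply]
    rw [h1, map_zero] at h2
    rw [Submodule.mem_bot]
    exact h2.symm
  have hinv : ∀ h, ∀ w ∈ (⨆ g : Q₀, W.map ((ρ g : (Module.End K V)ˣ) : Module.End K V)),
      ((ρ h : (Module.End K V)ˣ) : Module.End K V) w
        ∈ (⨆ g : Q₀, W.map ((ρ g : (Module.End K V)ˣ) : Module.End K V)) := by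
    intro h w hw
    have h1 : (⨆ g : Q₀, W.map ((ρ g : (Module.End K V)ˣ) : Module.End K V)).map
        ((ρ h : (Module.End K V)ˣ) : Module.End K V)
        ≤ (⨆ g : Q₀, W.map ((ρ g : (Module.End K V)ˣ) : Module.End K V)) := by
      rw [Submodule.map_iSup]
      apply iSup_le
      intro g
      refine le_trans ?_ (le_iSup _ (h * g))
      rintro _ ⟨_, ⟨w, hw, rfl⟩, rfl⟩
      refine ⟨w, hw, ?_⟩
      rw [map_mul, Units.val_mul, Module.End.mul_apply]
    exact h1 ⟨w, hw, rfl⟩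
  have hWle : W ≤ (⨆ g : Q₀, W.map ((ρ g : (Module.End K V)ˣ) : Module.End K V)) := by
    refine le_trans ?_ (le_iSup _ (1 : Q₀))
    intro w hw
    exact ⟨w, hw, by simp⟩
  have htop : (⨆ g : Q₀, W.map ((ρ g : (Module.End K V)ˣ) : Module.End K V)) = ⊤ := by
    rcases hirr _ hinv with h | h
    · exfalso
      apply hW0
      rw [eq_bot_iff, ← h]
      exact hWle
    · exact h
  have hle : (⨆ g : Q₀, W.map ((ρ g : (Module.End K V)ˣ) : Module.End K V))
      ≤ W ⊔ ⨆ μ, ⨆ (_ : μ ≠ l), Module.End.eigenspace (A : Module.End K V) μ := by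
    apply iSup_le
    intro g
    by_cases hg : χ g = 1
    · refine le_trans ?_ le_sup_left
      rintro _ ⟨w, hw, rfl⟩
      exact hW g hg w hw
    · refine le_trans ?_ le_sup_right
      have hne : ((χ g : Kˣ) : K) * l ≠ l := by
        intro h
        apply hg
        have : ((χ g : Kˣ) : K) = 1 := by
          have h2 : ((χ g : Kˣ) : K) * l = 1 * l := by rw [h, one_mul]
          exact mul_right_cancel₀ hl h2
        exact Units.ext this
      refine le_trans ?_ (le_iSup₂_of_le (((χ g : Kˣ) : K) * l) hne le_rfl)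
      rintro _ ⟨w, hw, rfl⟩
      exact Cfsg.Agent.Lib.H75WChi.map_eig ρ A χ hχ g l w (hWU hw)
  rw [htop, top_le_iff] at hle
  have hdis := (Module.End.eigenspaces_iSupIndep (A : Module.End K V)) l
  have h1 := sup_inf_assoc_of_le (⨆ μ, ⨆ (_ : μ ≠ l), Module.End.eigenspace (A : Module.End K V) μ) hWU
  rw [hle, top_inf_eq, inf_comm, hdis.eq_bot, sup_bot_eq] at h1
  exact h1.symm

end Cfsg.Agent.Lib.H75WIrrU
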