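import Mathlib
import Cfsg.Agent.Lib.Helper92HHDefs
import Cfsg.Agent.Lib.H92HHBurn

set_option autoImplicit false

namespace Cfsg.Agent.Lib.H75WQa

open Cfsg.Agent.Lib.Helper92HHDefs

variable {K V : Type*} [Field K] [AddCommGroup V] [Module K V]

/-- PIECE Qa, part 1.  If every `ρ u` is scalar then every subspace is invariant, so an irreducible nontrivial `V` is a line:
take `v ≠ 0`, `W = span {v}` is invariant and `≠ ⊥`, so `= ⊤`; `finrank_span_singleton`. -/
theorem finrank_eq_one [Nontrivial V] {Q₀ : Type*} [Group Q₀] (ρ : Q₀ →* (Module.End K V)ˣ)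
    (hirr : Irr ρ) (hsc : ∀ u, IsSc ((ρ u : (Module.End K V)ˣ) : Module.End K V)) :
    Module.finrank K V = 1 := by
  obtain ⟨v, hv⟩ := exists_ne (0 : V)
  have hinv : ∀ g, ∀ w ∈ Submodule.span K {v}, ((ρ g : (Module.End K V)ˣ) : Module.End K V) w
      ∈ Submodule.span K {v} := by
    intro g w hw
    obtain ⟨c, hc⟩ := hsc g
    rw [hc, LinearMap.smul_apply, Module.End.one_apply]
    exact Submodule.smul_mem _ c hw
  rcases hirr _ hinv with h | h
  · rw [Submodule.span_singleton_eq_bot] at h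
    exact absurd h hv
  · rw [← finrank_top K V, ← h]
    exact finrank_span_singleton hv

/-- the subgroup of elements acting as scalars -/
def scGrp {Q₀ : Type*} [Group Q₀] (ρ : Q₀ →* (Module.End K V)ˣ) : Subgroup Q₀ where
  carrier := {g | IsSc ((ρ g : (Module.End K V)ˣ) : Module.End K V)}
  one_mem' := ⟨1, by simp⟩
  mul_mem' := by
    rintro a b ⟨c, hc⟩ ⟨d, hd⟩
    refine ⟨c * d, ?_⟩
    rw [map_mul, Units.val_mul, hc, hd, smul_mul_smul_comm, mul_one]
  inv_mem' := by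
    rintro a ⟨c, hc⟩
    have h1 : ((ρ a : (Module.End K V)ˣ) : Module.End K V) *
        ((ρ a⁻¹ : (Module.End K V)ˣ) : Module.End K V) = 1 := by
      rw [← Units.val_mul, ← map_mul, mul_inv_cancel, map_one, Units.val_one]
    rw [hc, smul_mul_assoc, one_mul] at h1
    refine ⟨c⁻¹, ?_⟩
    by_cases hc0 : c = 0
    · rw [hc0, zero_smul] at h1
      have : ∀ f : Module.End K V, f = 0 := fun f => by rw [← mul_one f, ← h1, mul_zero]
      exact (this _).trans (this _).symm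
    · rw [← h1, smul_smul, inv_mul_cancel₀ hc0, one_smul]

theorem mem_scGrp {Q₀ : Type*} [Group Q₀] (ρ : Q₀ →* (Module.End K V)ˣ) (g : Q₀) :
    g ∈ scGrp ρ ↔ IsSc ((ρ g : (Module.End K V)ˣ) : Module.End K V) := Iff.rfl

theorem scGrp_normal {Q₀ : Type*} [Group Q₀] (ρ : Q₀ →* (Module.End K V)ˣ) : (scGrp ρ).Normal := by
  constructor
  rintro n ⟨c, hc⟩ g
  refine ⟨c, ?_⟩
  rw [map_mul, map_mul, Units.val_mul, Units.val_mul, hc, mul_smul_comm, mul_one, smul_mul_assoc,
    ← Units.val_mul, ← map_mul, mul_inv_cancel, map_one, Units.val_one]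

/-- PIECE Qa, part 2.  `S = {g | IsSc (ρ g)}` is a normal subgroup of `Q₀` (it is the preimage under `ρ` of the centre-like subgroup of scalar units;
conjugates of scalars are the same scalars), proper by `hns`.  `Q₀ ⧸ S` is a nontrivial finite `q`-group (`IsPGroup.to_quotient`), so its centre is
nontrivial (`IsPGroup.center_nontrivial`): there is `a ∉ S` with `a * g * a⁻¹ * g⁻¹ ∈ S` for all `g`
(`QuotientGroup.eq_one_iff`, `Subgroup.mem_center_iff`).  If `ρ (a g a⁻¹ g⁻¹) = c • 1` then `ρ a * ρ g = c • (ρ g * ρ a)`. -/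
theorem exists_a {q : ℕ} [Fact q.Prime] {Q₀ : Type*} [Group Q₀] [Finite Q₀] (hQ : IsPGroup q Q₀)
    (ρ : Q₀ →* (Module.End K V)ˣ)
    (hns : ∃ u, ¬ IsSc ((ρ u : (Module.End K V)ˣ) : Module.End K V)) :
    ∃ a : Q₀, ¬ IsSc ((ρ a : (Module.End K V)ˣ) : Module.End K V) ∧
      ∀ g : Q₀, ∃ c : K, ((ρ a : (Module.End K V)ˣ) : Module.End K V) *
          ((ρ g : (Module.End K V)ˣ) : Module.End K V)
        = c • (((ρ g : (Module.End K V)ˣ) : Module.End K V) *
          ((ρ a : (Module.End K V)ˣ) : Module.End K V)) := by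
  obtain ⟨u, hu⟩ := hns
  have hn := scGrp_normal ρ
  have hnt : Nontrivial (Q₀ ⧸ scGrp ρ) :=
    ⟨⟨(u : Q₀ ⧸ scGrp ρ), 1, fun h => hu ((QuotientGroup.eq_one_iff u).1 h)⟩⟩
  have hc := (hQ.to_quotient (scGrp ρ)).center_nontrivial
  obtain ⟨abar, habar, hne⟩ := (Subgroup.nontrivial_iff_exists_ne_one _).1 hc
  obtain ⟨a, rfl⟩ := QuotientGroup.mk'_surjective (scGrp ρ) abar
  refine ⟨a, fun h => hne ((QuotientGroup.eq_one_iff a).2 h), fun g => ?_⟩
  rw [Subgroup.mem_center_iff] at habar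
  have h1 : a * g * a⁻¹ * g⁻¹ ∈ scGrp ρ := by
    rw [← QuotientGroup.eq_one_iff, ← QuotientGroup.mk'_apply, map_mul, map_mul, map_mul, map_inv,
      map_inv, ← habar (QuotientGroup.mk' (scGrp ρ) g)]
    group
  obtain ⟨c, hc⟩ := h1
  refine ⟨c, ?_⟩
  have e : a * g = (a * g * a⁻¹ * g⁻¹) * (g * a) := by group
  rw [← Units.val_mul, ← map_mul, e, map_mul, Units.val_mul, hc, smul_mul_assoc, one_mul, map_mul,
    Units.val_mul]

end Cfsg.Agent.Lib.H75WQa
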