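import Mathlib
import Cfsg.Agent.Lib.Helper92HHDefs
import Cfsg.Agent.Lib.H92HHBurn
import Cfsg.Agent.Lib.H92HHRes
import Cfsg.Agent.Lib.H75WQa
import Cfsg.Agent.Lib.H75WChi
import Cfsg.Agent.Lib.H75WDim
import Cfsg.Agent.Lib.H75WIrrU

set_option autoImplicit false

namespace Cfsg.Agent.Lib.H75WQPow

open Cfsg.Agent.Lib.Helper92HHDefs

universe u v w

theorem qpow {K : Type w} [Field K] [IsAlgClosed K] {q : ℕ} [Fact q.Prime] (n : ℕ) :
    ∀ (Q₀ : Type u) [Group Q₀] [Finite Q₀] (V : Type v) [AddCommGroup V] [Module K V]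
      [FiniteDimensional K V] [Nontrivial V] (ρ : Q₀ →* (Module.End K V)ˣ),
      Nat.card Q₀ = n → IsPGroup q Q₀ → Irr ρ → ∃ k : ℕ, Module.finrank K V = q ^ k := by
  induction n using Nat.strong_induction_on with
  | _ n ih =>
    intro Q₀ _ _ V _ _ _ _ ρ hn hQ hirr
    by_cases hsc : ∀ u, IsSc ((ρ u : (Module.End K V)ˣ) : Module.End K V)
    · exact ⟨0, by rw [pow_zero]; exact H75WQa.finrank_eq_one ρ hirr hsc⟩
    push Not at hsc
    obtain ⟨a, ha, hac⟩ := H75WQa.exists_a hQ ρ hsc
    obtain ⟨χ, hχ⟩ := H75WChi.exists_chi ρ (ρ a) hac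
    obtain ⟨l, hl⟩ := Module.End.exists_eigenvalue ((ρ a : (Module.End K V)ˣ) : Module.End K V)
    set U := Module.End.eigenspace ((ρ a : (Module.End K V)ˣ) : Module.End K V) l with hU
    have hU0 : U ≠ ⊥ := hl
    -- the kernel of χ is proper
    have hH : χ.ker ≠ ⊤ := by
      intro htop
      apply ha
      obtain ⟨c, hc⟩ := H92HHBurn.schur ρ hirr ((ρ a : (Module.End K V)ˣ) : Module.End K V) (by
        intro g v
        have h1 : χ g = 1 := by
          have : g ∈ χ.ker := by rw [htop]; exact Subgroup.mem_top g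
          exact this
        have h2 := hχ g
        rw [h1, Units.val_one, one_smul] at h2
        rw [← Module.End.mul_apply, h2, Module.End.mul_apply])
      refine ⟨c, ?_⟩
      ext v
      rw [hc v]
      simp
    have hcardlt : Nat.card χ.ker < n := by
      rw [← hn]
      rcases lt_or_eq_of_le (Subgroup.card_le_card_group χ.ker) with h | h
      · exact h
      · exact absurd (Subgroup.eq_top_of_card_eq _ h) hH
    -- invariance of U
    have hinv : ∀ h : χ.ker, ∀ u ∈ U, ((ρ (h : Q₀) : (Module.End K V)ˣ) : Module.End K V) u ∈ U := by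
      intro h u hu
      have h1 := H75WChi.map_eig ρ (ρ a) χ hχ (h : Q₀) l u hu
      have h2 : χ (h : Q₀) = 1 := h.2
      rwa [h2, Units.val_one, one_mul] at h1
    have hinv' : ∀ h : χ.ker, ∀ u ∈ U,
        (((ρ (h : Q₀))⁻¹ : (Module.End K V)ˣ) : Module.End K V) u ∈ U := by
      intro h u hu
      have := hinv h⁻¹ u hu
      rwa [Subgroup.coe_inv, map_inv] at this
    let σ : ↥χ.ker →* (Module.End K ↥U)ˣ :=
      { toFun := fun h => H92HHRes.resU (ρ (h : Q₀)) U (hinv h) (hinv' h)
        map_one' := by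
          apply Units.ext
          ext u
          rw [H92HHRes.resU_apply]
          simp
        map_mul' := by
          intro x y
          apply Units.ext
          ext u
          rw [H92HHRes.resU_apply, Units.val_mul, Module.End.mul_apply, H92HHRes.resU_apply,
            H92HHRes.resU_apply]
          simp [Module.End.mul_apply] }
    have hσ : ∀ (h : χ.ker) (u : ↥U), (((σ h : (Module.End K ↥U)ˣ) : Module.End K ↥U) u : V)
        = ((ρ (h : Q₀) : (Module.End K V)ˣ) : Module.End K V) (u : V) := fun h u => rfl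
    have hσirr : Irr σ := by
      intro W' hW'
      have h1 := H75WIrrU.irr_U ρ hirr (ρ a) χ hχ l (W'.map U.subtype)
        (by
          rintro _ ⟨w, -, rfl⟩
          exact w.2)
        (by
          rintro g hg _ ⟨w, hw, rfl⟩
          refine ⟨((σ ⟨g, hg⟩ : (Module.End K ↥U)ˣ) : Module.End K ↥U) w, hW' ⟨g, hg⟩ w hw, ?_⟩
          exact hσ ⟨g, hg⟩ w)
      rcases h1 with h | h
      · left
        rw [Submodule.eq_bot_iff]
        intro w hw
        have : (w : V) ∈ W'.map U.subtype := ⟨w, hw, rfl⟩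
        rw [h, Submodule.mem_bot] at this
        exact Subtype.ext this
      · right
        rw [Submodule.eq_top_iff']
        intro w
        have : (w : V) ∈ W'.map U.subtype := by rw [h]; exact w.2
        obtain ⟨w', hw', hww⟩ := this
        have : w' = w := Subtype.ext hww
        rwa [← this]
    haveI : Nontrivial ↥U := Submodule.nontrivial_iff_ne_bot.2 hU0
    obtain ⟨k, hk⟩ := ih _ hcardlt ↥χ.ker ↥U σ rfl (hQ.to_subgroup χ.ker) hσirr
    obtain ⟨j, hj⟩ := H75WDim.finrank_eq hQ ρ hirr (ρ a) χ hχ l hU0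
    exact ⟨j + k, by rw [hj, ← hU, hk, pow_add]⟩

end Cfsg.Agent.Lib.H75WQPow
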