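import Mathlib

set_option autoImplicit false

/-! PROJECT 175 (S3358).  Piece `Perm` (pure Mathlib): compose with an injective hom into `Perm (Fin 4)`
(trivial hom if `N = ⊤`; `DihedralGroup 2` is a Klein four group: embed it e.g. by its regular representation and `Fintype.equivFin`,
or `MulAction.toPermHom` + a bijection `DihedralGroup 2 ≃ Fin 4`; `Subgroup.subtype` for the alternating group). -/

namespace Cfsg.Agent.Lib.H75ZPerm

theorem ker_comp_inj {G H K : Type*} [Group G] [Group H] [Group K] (f : G →* H) (j : H →* K)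
    (hj : Function.Injective j) : (j.comp f).ker = f.ker := by
  ext x
  simp only [MonoidHom.mem_ker, MonoidHom.comp_apply]
  constructor
  · intro h
    exact hj (by rw [h, map_one])
  · intro h
    rw [h, map_one]

theorem exists_perm4 {G : Type*} [Group G] (N : Subgroup G)
    (h : N = ⊤ ∨
        (∃ f : G →* DihedralGroup 2, Function.Surjective f ∧ f.ker = N) ∨
        (∃ f : G →* alternatingGroup (Fin 4), Function.Surjective f ∧ f.ker = N) ∨
        (∃ f : G →* Equiv.Perm (Fin 4), Function.Surjective f ∧ f.ker = N)) :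
    ∃ f : G →* Equiv.Perm (Fin 4), f.ker = N := by
  rcases h with rfl | ⟨f, -, hf⟩ | ⟨f, -, hf⟩ | ⟨f, -, hf⟩
  · exact ⟨1, MonoidHom.ker_one⟩
  · have hc : Fintype.card (DihedralGroup 2) = 4 := by
      rw [DihedralGroup.card]
    let e : DihedralGroup 2 ≃ Fin 4 := Fintype.equivFinOfCardEq hc
    let j : DihedralGroup 2 →* Equiv.Perm (Fin 4) :=
      (e.permCongrHom.toMonoidHom).comp (MulAction.toPermHom (DihedralGroup 2) (DihedralGroup 2))
    have hj : Function.Injective j := by
      refine (e.permCongrHom.injective).comp ?_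
      exact MulAction.toPerm_injective
    exact ⟨j.comp f, by rw [ker_comp_inj f j hj, hf]⟩
  · exact ⟨(alternatingGroup (Fin 4)).subtype.comp f, by
      rw [ker_comp_inj f _ (Subgroup.subtype_injective _), hf]⟩
  · exact ⟨f, hf⟩

end Cfsg.Agent.Lib.H75ZPerm
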