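import Mathlib

set_option autoImplicit false

/-! PROJECT 175 (S3358).  Piece `PowA` (pure Mathlib).
a = x^(n/p) has order p and a⁻¹ y a = y^s, s = r^(n/p).  For a prime q ∣ m = orderOf y: b = y^(m/q) has order q, a normalises <b>,
A = <a,b> = <b><a> has order p q (p ≠ q by coprimality), so it is cyclic, a b = b a, b^s = b, s ≡ 1 mod q.  Also s^p ≡ 1 mod m (a^p = 1).
Number theory: s ≡ 1 mod every prime divisor of m, s^p ≡ 1 mod m, p ∤ m  ⟹  s ≡ 1 mod m
(for q^e ∥ m the units ≡ 1 mod q form a q-group; or: s = 1 + t, 1 + s + ... + s^(p-1) ≡ p mod q is a unit mod q^e and (s-1)(1+s+..+s^(p-1)) ≡ 0). -/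

namespace Cfsg.Agent.Lib.H75ZPowA

open Pointwise

theorem conj_mem_aux {N : Type*} [Group N] (c b : N) (h : c * b * c⁻¹ ∈ Subgroup.zpowers b) :
    ∀ g ∈ Subgroup.zpowers b, c * g * c⁻¹ ∈ Subgroup.zpowers b := by
  rintro g ⟨k, rfl⟩
  simp only
  rw [← conj_zpow]
  exact Subgroup.zpow_mem _ h k

theorem conj_pow_aux {N : Type*} [Group N] (x y : N) (r : ℕ) (hr : x⁻¹ * y * x = y ^ r) (k : ℕ) :
    (x ^ k)⁻¹ * y * x ^ k = y ^ (r ^ k) := by
  induction k with
  | zero => simp
  | succ k ih =>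
    have h1 : (x ^ (k + 1))⁻¹ * y * x ^ (k + 1) = x⁻¹ * ((x ^ k)⁻¹ * y * x ^ k) * x := by
      rw [pow_succ]; group
    rw [h1, ih]
    have h2 : x⁻¹ * y ^ (r ^ k) * x = (x⁻¹ * y * x) ^ (r ^ k) := by
      have := conj_pow (a := x⁻¹) (b := y) (i := r ^ k)
      simpa using this.symm
    rw [h2, hr, ← pow_mul, pow_succ, mul_comm]

theorem conj_pow_aux2 {N : Type*} [Group N] (a y : N) (s : ℕ) (hr : a⁻¹ * y * a = y ^ s) (k : ℕ) :
    a⁻¹ * y ^ k * a = (y ^ k) ^ s := by
  have := conj_pow (a := a⁻¹) (b := y) (i := k)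
  rw [inv_inv] at this
  rw [← this, hr, ← pow_mul, ← pow_mul, mul_comm]

theorem card_sup_aux {N : Type*} [Group N] [Finite N] (a b : N) (p q : ℕ) (hp : p.Prime) (hq : q.Prime)
    (hpq : p ≠ q) (ha : orderOf a = p) (hb : orderOf b = q)
    (hn : a ∈ Subgroup.normalizer (Subgroup.zpowers b : Set N)) :
    Nat.card (Subgroup.zpowers b ⊔ Subgroup.zpowers a : Subgroup N) = p * q := by
  have hle : Subgroup.zpowers a ≤ Subgroup.normalizer (Subgroup.zpowers b : Set N) := by
    rw [Subgroup.zpowers_le]; exact hn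
  have h1 := Subgroup.coe_mul_of_right_le_normalizer_left (Subgroup.zpowers b) (Subgroup.zpowers a) hle
  have h2 : Nat.card (Subgroup.zpowers b ⊔ Subgroup.zpowers a : Subgroup N) ≤ q * p := by
    have h3 : Nat.card (Subgroup.zpowers b ⊔ Subgroup.zpowers a : Subgroup N)
        = Nat.card ((Subgroup.zpowers b : Set N) * (Subgroup.zpowers a : Set N) : Set N) := by
      rw [← h1]; rfl
    rw [h3]
    refine (Set.natCard_mul_le).trans ?_
    have e1 : Nat.card (Subgroup.zpowers b : Set N) = q := by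
      rw [← hb]; exact Nat.card_zpowers b
    have e2 : Nat.card (Subgroup.zpowers a : Set N) = p := by
      rw [← ha]; exact Nat.card_zpowers a
    rw [e1, e2]
  have d1 : q ∣ Nat.card (Subgroup.zpowers b ⊔ Subgroup.zpowers a : Subgroup N) := by
    have := Subgroup.card_dvd_of_le (le_sup_left : Subgroup.zpowers b ≤ Subgroup.zpowers b ⊔ Subgroup.zpowers a)
    rwa [Nat.card_zpowers, hb] at this
  have d2 : p ∣ Nat.card (Subgroup.zpowers b ⊔ Subgroup.zpowers a : Subgroup N) := by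
    have := Subgroup.card_dvd_of_le (le_sup_right : Subgroup.zpowers a ≤ Subgroup.zpowers b ⊔ Subgroup.zpowers a)
    rwa [Nat.card_zpowers, ha] at this
  have d3 : p * q ∣ Nat.card (Subgroup.zpowers b ⊔ Subgroup.zpowers a : Subgroup N) :=
    Nat.Coprime.mul_dvd_of_dvd_of_dvd ((Nat.coprime_primes hp hq).2 hpq) d2 d1
  have := Nat.le_of_dvd Nat.card_pos d3
  rw [mul_comm] at h2
  omega

theorem nt_aux (m s p : ℕ) (hp : p.Prime) (hpm : ¬ p ∣ m)
    (h1 : ∀ q : ℕ, q.Prime → q ∣ m → s ≡ 1 [MOD q]) (h2 : s ^ p ≡ 1 [MOD m]) : s ≡ 1 [MOD m] := by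
  have hcop : Nat.Coprime m (∑ i ∈ Finset.range p, s ^ i) := by
    apply Nat.coprime_of_dvd
    intro q hq hqm hqs
    have e1 : ((∑ i ∈ Finset.range p, s ^ i : ℕ) : ZMod q) = 0 := (ZMod.natCast_eq_zero_iff _ _).2 hqs
    have e2 : (s : ZMod q) = 1 := by
      have := (ZMod.natCast_eq_natCast_iff _ _ _).2 (h1 q hq hqm)
      simpa using this
    push_cast at e1
    rw [e2] at e1
    simp at e1
    have e3 : q ∣ p := (ZMod.natCast_eq_zero_iff _ _).1 e1
    have e4 : q = p := (Nat.prime_dvd_prime_iff_eq hq hp).1 e3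
    exact hpm (e4 ▸ hqm)
  have h3 : (m : ℤ) ∣ (s : ℤ) ^ p - 1 := by
    have := (Nat.modEq_iff_dvd.1 h2.symm)
    simpa using this
  rw [← geom_sum_mul] at h3
  have h4 : IsCoprime (m : ℤ) (∑ i ∈ Finset.range p, (s : ℤ) ^ i) := by
    have := Nat.isCoprime_iff_coprime.2 hcop
    simpa using this
  have h5 := h4.dvd_of_dvd_mul_left h3
  apply Nat.ModEq.symm
  rw [Nat.modEq_iff_dvd]
  simpa using h5

theorem pow_prime {N : Type*} [Group N] [Finite N]
    (hpq : ∀ (A : Subgroup N) (p q : ℕ), p.Prime → q.Prime → Nat.card A = p * q → IsCyclic A)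
    (x y : N) (r : ℕ) (hcop : (orderOf x).Coprime (orderOf y)) (hr : x⁻¹ * y * x = y ^ r)
    (p : ℕ) (hp : p.Prime) (hpn : p ∣ orderOf x) :
    r ^ (orderOf x / p) % orderOf y = 1 % orderOf y := by
  have hx0 : 0 < orderOf x := orderOf_pos x
  have hy0 : 0 < orderOf y := orderOf_pos y
  have ha : orderOf (x ^ (orderOf x / p)) = p := by
    rw [orderOf_pow_of_dvd (by
      have := Nat.div_pos (Nat.le_of_dvd hx0 hpn) hp.pos
      omega) (Nat.div_dvd_of_dvd hpn)]
    exact Nat.div_div_self hpn hx0.ne'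
  have hs := conj_pow_aux x y r hr (orderOf x / p)
  generalize x ^ (orderOf x / p) = a at ha hs
  generalize r ^ (orderOf x / p) = s at hs
  have hpm : ¬ p ∣ orderOf y := by
    intro h
    have := Nat.dvd_gcd hpn h
    rw [hcop.gcd_eq_one] at this
    exact hp.one_lt.ne' (Nat.dvd_one.1 this)
  apply nt_aux _ s p hp hpm
  · intro q hq hqm
    have hb : orderOf (y ^ (orderOf y / q)) = q := by
      rw [orderOf_pow_of_dvd (by
        have := Nat.div_pos (Nat.le_of_dvd hy0 hqm) hq.pos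
        omega) (Nat.div_dvd_of_dvd hqm)]
      exact Nat.div_div_self hqm hy0.ne'
    have hsb := conj_pow_aux2 a y s hs (orderOf y / q)
    generalize y ^ (orderOf y / q) = b at hb hsb
    have hne : p ≠ q := by
      rintro rfl
      exact hpm hqm
    have hn' : a ∈ Subgroup.normalizer (Subgroup.zpowers b : Set N) := by
      have c1 : ∀ g ∈ Subgroup.zpowers b, a⁻¹ * g * a⁻¹⁻¹ ∈ Subgroup.zpowers b := by
        apply conj_mem_aux
        rw [inv_inv, hsb]
        exact Subgroup.pow_mem _ (Subgroup.mem_zpowers b) s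
      have c2 : ∀ g ∈ Subgroup.zpowers b, a * g * a⁻¹ ∈ Subgroup.zpowers b := by
        apply conj_mem_aux
        have h9 := conj_pow_aux a b s hsb (p - 1)
        have h10 : a ^ (p - 1) = a⁻¹ := by
          rw [eq_inv_iff_mul_eq_one, ← pow_succ, Nat.sub_add_cancel hp.one_lt.le, ← ha, pow_orderOf_eq_one]
        rw [h10, inv_inv] at h9
        rw [h9]
        exact Subgroup.pow_mem _ (Subgroup.mem_zpowers b) _
      rw [Subgroup.mem_normalizer_iff]
      intro g
      refine ⟨c2 g, fun hg => ?_⟩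
      have := c1 _ hg
      simpa [mul_assoc] using this
    have hcard := card_sup_aux a b p q hp hq hne ha hb hn'
    have hcyc := hpq _ p q hp hq hcard
    have hcomm : a * b = b * a := by
      have ha' : a ∈ (Subgroup.zpowers b ⊔ Subgroup.zpowers a : Subgroup N) :=
        (le_sup_right : Subgroup.zpowers a ≤ _) (Subgroup.mem_zpowers a)
      have hb' : b ∈ (Subgroup.zpowers b ⊔ Subgroup.zpowers a : Subgroup N) :=
        (le_sup_left : Subgroup.zpowers b ≤ _) (Subgroup.mem_zpowers b)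
      have := hcyc.isMulCommutative.is_comm.comm ⟨a, ha'⟩ ⟨b, hb'⟩
      exact congrArg Subtype.val this
    have h6 : b ^ s = b ^ 1 := by
      rw [← hsb, mul_assoc, ← hcomm, pow_one]; group
    rw [pow_eq_pow_iff_modEq, hb] at h6
    exact h6
  · have h7 := conj_pow_aux a y s hs p
    rw [← ha, pow_orderOf_eq_one] at h7
    simp only [inv_one, one_mul, mul_one] at h7
    have h8 : y ^ (s ^ orderOf a) = y ^ 1 := by rw [← h7, pow_one]
    rw [pow_eq_pow_iff_modEq, ha] at h8
    exact h8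

end Cfsg.Agent.Lib.H75ZPowA
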