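import Mathlib

set_option autoImplicit false

/-! PROJECT 175 (S3358).  Piece `PowB` (pure number theory).
If n = 1 use `h1`.  Otherwise r is a unit mod m; its order d divides n/p for every prime p ∣ n, hence d ∣ n / rad n
(compare p-adic valuations: v_p(d) ≤ v_p(n) - 1 for p ∣ n, and d ∣ n). -/

namespace Cfsg.Agent.Lib.H75ZPowB

theorem dvd_aux (n d : ℕ) (hn : 0 < n) (h1 : d ∣ n) (h : ∀ p : ℕ, p.Prime → p ∣ n → d ∣ n / p)
    (s : Finset ℕ) (hs : s ⊆ n.primeFactors) :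
    (∏ p ∈ s, p) ∣ n ∧ d ∣ n / ∏ p ∈ s, p := by
  induction s using Finset.induction_on with
  | empty => simpa using h1
  | insert q s hq ih =>
    obtain ⟨ih1, ih2⟩ := ih (fun x hx => hs (Finset.mem_insert_of_mem hx))
    have hqn : q ∈ n.primeFactors := hs (Finset.mem_insert_self q s)
    have hqp : q.Prime := Nat.prime_of_mem_primeFactors hqn
    have hqd : q ∣ n := Nat.dvd_of_mem_primeFactors hqn
    have hcop : Nat.Coprime q (∏ p ∈ s, p) := by
      apply Nat.Coprime.prod_right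
      intro i hi
      have hip : i.Prime := Nat.prime_of_mem_primeFactors (hs (Finset.mem_insert_of_mem hi))
      rw [Nat.coprime_primes hqp hip]
      rintro rfl
      exact hq hi
    rw [Finset.prod_insert hq]
    have hd : q * (∏ p ∈ s, p) ∣ n := Nat.Coprime.mul_dvd_of_dvd_of_dvd hcop hqd ih1
    refine ⟨hd, ?_⟩
    obtain ⟨k, hk⟩ := hd
    have hq0 : 0 < q := hqp.pos
    have hP0 : 0 < ∏ p ∈ s, p := Nat.pos_of_dvd_of_pos ih1 hn
    have e1 : n / (q * ∏ p ∈ s, p) = k := by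
      rw [hk]; exact Nat.mul_div_cancel_left k (Nat.mul_pos hq0 hP0)
    have e2 : n / q = (∏ p ∈ s, p) * k := by
      rw [hk, mul_assoc]; exact Nat.mul_div_cancel_left _ hq0
    have e3 : n / (∏ p ∈ s, p) = q * k := by
      rw [hk, mul_comm q, mul_assoc]; exact Nat.mul_div_cancel_left _ hP0
    rw [e1]
    have h2 := h q hqp hqd
    rw [e2] at h2
    rw [e3] at ih2
    have h3 := Nat.dvd_gcd ih2 h2
    rw [Nat.gcd_mul_right, hcop.gcd_eq_one, one_mul] at h3
    exact h3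

theorem pow_rad (n m r : ℕ) (hn : 0 < n) (hm : 0 < m) (h1 : r ^ n % m = 1 % m)
    (h : ∀ p : ℕ, p.Prime → p ∣ n → r ^ (n / p) % m = 1 % m) :
    r ^ (n / ∏ p ∈ n.primeFactors, p) % m = 1 % m := by
  have key : ∀ k : ℕ, r ^ k % m = 1 % m ↔ orderOf (r : ZMod m) ∣ k := by
    intro k
    rw [orderOf_dvd_iff_pow_eq_one, ← ZMod.natCast_eq_natCast_iff']
    push_cast
    rfl
  rw [key] at h1 ⊢
  exact (dvd_aux n _ hn h1 (fun p hp hpn => (key _).1 (h p hp hpn)) _ (Finset.Subset.refl _)).2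

end Cfsg.Agent.Lib.H75ZPowB
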