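import Mathlib

set_option autoImplicit false

/-! PROJECT 175 (S3358).  Piece `Pres` (pure Mathlib): the metacyclic presentation.
`PresentedGroup.toGroup` gives φ : P → N (X ↦ x, Y ↦ y), surjective by `hgen`.  In P every element is X^a Y^b with a < n, b < m
(the set of these is closed under right multiplication by X, Y and contains 1; X, Y have finite order so it is everything:
Y X = X Y^r, hence Y^b X = X Y^(r b)).  So P is finite with at most n m elements and φ is bijective. -/

namespace Cfsg.Agent.Lib.H75ZPres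

/-- generic: a group generated by `X, Y` with `X ^ n = 1 = Y ^ m`, `X⁻¹ Y X = Y ^ r` consists of the
elements `X ^ a Y ^ b`. -/
theorem normal_form {P : Type*} [Group P] (X Y : P) (n m r : ℕ) (hn : 0 < n) (hm : 0 < m)
    (hX : X ^ n = 1) (hY : Y ^ m = 1) (hr : X⁻¹ * Y * X = Y ^ r)
    (hgen : ∀ H : Subgroup P, X ∈ H → Y ∈ H → ∀ g, g ∈ H) (g : P) :
    ∃ a b : ℕ, a < n ∧ b < m ∧ g = X ^ a * Y ^ b := by
  have h1 : ∀ b : ℕ, Y ^ b * X = X * Y ^ (r * b) := by
    intro b
    have : X⁻¹ * Y ^ b * X = Y ^ (r * b) := by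
      have h2 : (X⁻¹ * Y * X) ^ b = X⁻¹ * Y ^ b * X := by
        have := conj_pow (a := X⁻¹) (b := Y) (i := b)
        rwa [inv_inv] at this
      rw [← h2, hr, pow_mul]
    calc Y ^ b * X = X * (X⁻¹ * Y ^ b * X) := by group
      _ = X * Y ^ (r * b) := by rw [this]
  have h2 : ∀ c b : ℕ, Y ^ b * X ^ c = X ^ c * Y ^ (r ^ c * b) := by
    intro c
    induction c with
    | zero => intro b; simp
    | succ c ih =>
      intro b
      calc Y ^ b * X ^ (c + 1) = (Y ^ b * X ^ c) * X := by rw [pow_succ, mul_assoc]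
        _ = X ^ c * (Y ^ (r ^ c * b) * X) := by rw [ih, mul_assoc]
        _ = X ^ c * (X * Y ^ (r * (r ^ c * b))) := by rw [h1]
        _ = X ^ (c + 1) * Y ^ (r ^ (c + 1) * b) := by
            rw [← mul_assoc, ← pow_succ]
            congr 2
            ring
  have hXinv : X⁻¹ = X ^ (n - 1) := by
    apply inv_eq_of_mul_eq_one_right
    rw [← pow_succ', Nat.sub_add_cancel hn, hX]
  have hYinv : Y⁻¹ = Y ^ (m - 1) := by
    apply inv_eq_of_mul_eq_one_right
    rw [← pow_succ', Nat.sub_add_cancel hm, hY]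
  let S : Subgroup P :=
    { carrier := {g | ∃ a b : ℕ, g = X ^ a * Y ^ b}
      one_mem' := ⟨0, 0, by simp⟩
      mul_mem' := by
        rintro _ _ ⟨a, b, rfl⟩ ⟨c, d, rfl⟩
        refine ⟨a + c, r ^ c * b + d, ?_⟩
        calc X ^ a * Y ^ b * (X ^ c * Y ^ d) = X ^ a * (Y ^ b * X ^ c) * Y ^ d := by group
          _ = X ^ a * (X ^ c * Y ^ (r ^ c * b)) * Y ^ d := by rw [h2]
          _ = X ^ (a + c) * Y ^ (r ^ c * b + d) := by rw [pow_add, pow_add]; group
      inv_mem' := by
        rintro _ ⟨a, b, rfl⟩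
        refine ⟨(n - 1) * a, r ^ ((n - 1) * a) * ((m - 1) * b), ?_⟩
        rw [mul_inv_rev, ← inv_pow, ← inv_pow, hXinv, hYinv, ← pow_mul, ← pow_mul, h2] }
  obtain ⟨a, b, rfl⟩ := hgen S ⟨1, 0, by simp⟩ ⟨0, 1, by simp⟩ g
  refine ⟨a % n, b % m, Nat.mod_lt _ hn, Nat.mod_lt _ hm, ?_⟩
  have e1 : X ^ a = X ^ (a % n) := by
    conv_lhs => rw [← Nat.div_add_mod a n, pow_add, pow_mul, hX, one_pow, one_mul]
  have e2 : Y ^ b = Y ^ (b % m) := by
    conv_lhs => rw [← Nat.div_add_mod b m, pow_add, pow_mul, hY, one_pow, one_mul]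
  rw [e1, e2]

theorem pres_iso {N : Type*} [Group N] [Finite N] (x y : N) (n m r : ℕ) (hn : 0 < n) (hm : 0 < m)
    (hx : x ^ n = 1) (hy : y ^ m = 1) (hr : x⁻¹ * y * x = y ^ r) (hgen : Subgroup.closure {x, y} = ⊤)
    (hcard : Nat.card N = n * m) :
    Nonempty (N ≃* PresentedGroup
          ({FreeGroup.of (0 : Fin 2) ^ n, FreeGroup.of (1 : Fin 2) ^ m,
            (FreeGroup.of (0 : Fin 2))⁻¹ * FreeGroup.of 1 * FreeGroup.of 0 * (FreeGroup.of (1 : Fin 2) ^ r)⁻¹} :
            Set (FreeGroup (Fin 2)))) := by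
  set rels : Set (FreeGroup (Fin 2)) :=
    {FreeGroup.of (0 : Fin 2) ^ n, FreeGroup.of (1 : Fin 2) ^ m,
      (FreeGroup.of (0 : Fin 2))⁻¹ * FreeGroup.of 1 * FreeGroup.of 0
        * (FreeGroup.of (1 : Fin 2) ^ r)⁻¹} with hrels
  have hX : (PresentedGroup.of (0 : Fin 2) : PresentedGroup rels) ^ n = 1 := by
    have := PresentedGroup.one_of_mem (rels := rels) (x := FreeGroup.of (0 : Fin 2) ^ n)
      (by rw [hrels]; simp)
    rwa [map_pow] at this
  have hY : (PresentedGroup.of (1 : Fin 2) : PresentedGroup rels) ^ m = 1 := by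
    have := PresentedGroup.one_of_mem (rels := rels) (x := FreeGroup.of (1 : Fin 2) ^ m)
      (by rw [hrels]; simp)
    rwa [map_pow] at this
  have hR : (PresentedGroup.of (0 : Fin 2) : PresentedGroup rels)⁻¹ * PresentedGroup.of 1
      * PresentedGroup.of 0 = (PresentedGroup.of (1 : Fin 2) : PresentedGroup rels) ^ r := by
    have := PresentedGroup.mk_eq_mk_of_mul_inv_mem (rels := rels)
      (x := (FreeGroup.of (0 : Fin 2))⁻¹ * FreeGroup.of 1 * FreeGroup.of 0)
      (y := FreeGroup.of (1 : Fin 2) ^ r) (by rw [hrels]; simp)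
    rwa [map_mul, map_mul, map_inv, map_pow] at this
  have hnf := normal_form (PresentedGroup.of (0 : Fin 2) : PresentedGroup rels)
    (PresentedGroup.of 1) n m r hn hm hX hY hR
    (by
      intro H h0 h1 g
      apply PresentedGroup.generated_by rels H
      intro j
      fin_cases j
      · exact h0
      · exact h1)
  have hsurj : Function.Surjective (fun q : Fin n × Fin m =>
      (PresentedGroup.of (0 : Fin 2) : PresentedGroup rels) ^ (q.1 : ℕ)
        * PresentedGroup.of 1 ^ (q.2 : ℕ)) := by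
    intro g
    obtain ⟨a, b, ha, hb, rfl⟩ := hnf g
    exact ⟨(⟨a, ha⟩, ⟨b, hb⟩), rfl⟩
  have hfin : Finite (PresentedGroup rels) := Finite.of_surjective _ hsurj
  have hle : Nat.card (PresentedGroup rels) ≤ n * m := by
    have := Nat.card_le_card_of_surjective _ hsurj
    simpa using this
  have hlift : ∀ w ∈ rels, FreeGroup.lift ![x, y] w = 1 := by
    intro w hw
    rw [hrels] at hw
    rcases hw with rfl | rfl | rfl
    · simp [hx]
    · simp [hy]
    · simp [hr]
  have hφs : Function.Surjective (PresentedGroup.toGroup hlift) := by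
    rw [← MonoidHom.range_eq_top, eq_top_iff, ← hgen, Subgroup.closure_le]
    rintro s (rfl | rfl)
    · exact ⟨PresentedGroup.of 0, by simp⟩
    · exact ⟨PresentedGroup.of 1, by simp⟩
  have hbij := hφs.bijective_of_nat_card_le (by rw [hcard]; exact hle)
  exact ⟨(MulEquiv.ofBijective _ hbij).symm⟩

end Cfsg.Agent.Lib.H75ZPres
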