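import Mathlib

set_option autoImplicit false

/-! PROJECT 175 (S3358).  Piece `Struct` (pure Mathlib): structure of a finite Z-group.
`IsZGroup.isCyclic_commutator` (y := generator of N'), `IsZGroup.isCyclic_abelianization`, `IsZGroup.coprime_commutator_index`,
`Subgroup.exists_right_complement'_of_coprime` (complement ≅ N/N' cyclic, x := generator).  x⁻¹ y x ∈ N' = <y>, so = y^r, take 1 ≤ r
(add `orderOf y` if r = 0).  `<y^(r-1)>` is normal in N with abelian quotient (generated by the images of x and y, which commute), so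
N' ≤ <y^(r-1)>, hence <y^(r-1)> = <y> and gcd(r-1, orderOf y) = 1. -/

namespace Cfsg.Agent.Lib.H75ZStruct

theorem exists_gen {N : Type*} [Group N] [Finite N] (C : Subgroup N) [IsCyclic C] :
    ∃ y : N, Subgroup.zpowers y = C ∧ orderOf y = Nat.card C := by
  obtain ⟨y0, hy0⟩ := IsCyclic.exists_generator (α := C)
  refine ⟨y0, ?_, ?_⟩
  · apply le_antisymm
    · rw [Subgroup.zpowers_le]; exact y0.2
    · intro c hc
      obtain ⟨k, hk⟩ := hy0 ⟨c, hc⟩
      exact ⟨k, by simpa using congrArg Subtype.val hk⟩
  · rw [Subgroup.orderOf_coe]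
    exact orderOf_eq_card_of_forall_mem_zpowers hy0

theorem comm_of_gen {Q : Type*} [Group Q] (S : Set Q) (hS : Subgroup.closure S = ⊤)
    (hc : ∀ a ∈ S, ∀ b ∈ S, a * b = b * a) : ∀ a b : Q, a * b = b * a := by
  have h1 : Subgroup.closure S ≤ Subgroup.centralizer S := by
    rw [Subgroup.closure_le]
    intro a ha
    rw [SetLike.mem_coe, Subgroup.mem_centralizer_iff]
    intro b hb
    exact hc b hb a ha
  have h2 : Subgroup.closure S ≤ Subgroup.center Q := by
    rw [Subgroup.closure_le]
    intro a ha
    rw [SetLike.mem_coe, Subgroup.mem_center_iff]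
    intro g
    have hg : g ∈ Subgroup.centralizer S := h1 (hS ▸ Subgroup.mem_top g)
    rw [Subgroup.mem_centralizer_iff] at hg
    exact (hg a ha).symm
  intro a b
  have ha : a ∈ Subgroup.center Q := h2 (hS ▸ Subgroup.mem_top a)
  rw [Subgroup.mem_center_iff] at ha
  exact (ha b).symm

theorem zgroup_data {N : Type*} [Group N] [Finite N] [IsZGroup N] :
    ∃ (x y : N) (r : ℕ), (orderOf x).Coprime (orderOf y) ∧ Nat.card N = orderOf x * orderOf y ∧
      x⁻¹ * y * x = y ^ r ∧ 1 ≤ r ∧ (r - 1).Coprime (orderOf y) ∧ Subgroup.closure {x, y} = ⊤ := by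
  have hcop := IsZGroup.coprime_commutator_index N
  obtain ⟨H, hH⟩ := Subgroup.exists_right_complement'_of_coprime hcop
  have h1 : Abelianization N ≃* H := hH.symm.QuotientMulEquiv
  have : IsCyclic H := isCyclic_of_surjective _ h1.surjective
  have : IsCyclic (commutator N) := IsZGroup.isCyclic_commutator N
  obtain ⟨y, hy, hyo⟩ := exists_gen (commutator N)
  obtain ⟨x, hx, hxo⟩ := exists_gen H
  have hidx : (commutator N).index = Nat.card H := hH.symm.index_eq_card
  have hmem : x⁻¹ * y * x ∈ Subgroup.zpowers y := by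
    rw [hy]
    have hyC : y ∈ commutator N := hy ▸ Subgroup.mem_zpowers y
    have := (inferInstance : (commutator N).Normal).conj_mem y hyC x⁻¹
    simpa using this
  rw [← mem_powers_iff_mem_zpowers] at hmem
  obtain ⟨k, hk⟩ := hmem
  have hk' : x⁻¹ * y * x = y ^ (k + orderOf y) := by
    rw [pow_add, pow_orderOf_eq_one, mul_one]; exact hk.symm
  have hy0 : 0 < orderOf y := orderOf_pos y
  have hgen : Subgroup.closure {x, y} = ⊤ := by
    rw [eq_top_iff, ← hH.sup_eq_top, sup_le_iff, ← hy, ← hx, Subgroup.zpowers_le, Subgroup.zpowers_le]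
    exact ⟨Subgroup.subset_closure (by simp), Subgroup.subset_closure (by simp)⟩
  refine ⟨x, y, k + orderOf y, ?_, ?_, hk', by omega, ?_, hgen⟩
  · rw [hxo, hyo, ← hidx]; exact hcop.symm
  · rw [hxo, hyo, mul_comm]; exact hH.card_mul_card.symm
  · generalize hr : k + orderOf y = r at hk'
    have hr1 : 1 ≤ r := by omega
    -- the subgroup D
    have hDn : (Subgroup.zpowers (y ^ (r - 1))).Normal := by
      constructor
      intro d hd g
      obtain ⟨j, rfl⟩ := hd
      have hyC : y ∈ commutator N := hy ▸ Subgroup.mem_zpowers y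
      have h2 : g * y * g⁻¹ ∈ Subgroup.zpowers y := by
        rw [hy]
        exact (inferInstance : (commutator N).Normal).conj_mem y hyC g
      obtain ⟨i, hi⟩ := h2
      simp only at hi ⊢
      rw [← conj_zpow, ← conj_pow, ← hi]
      refine Subgroup.zpow_mem _ ?_ j
      refine ⟨i, ?_⟩
      simp only
      rw [← zpow_natCast, ← zpow_natCast, ← zpow_mul, ← zpow_mul, mul_comm]
    have hcomm : ∀ a b : N ⧸ Subgroup.zpowers (y ^ (r - 1)), a * b = b * a := by
      apply comm_of_gen ((QuotientGroup.mk' (Subgroup.zpowers (y ^ (r - 1)))) '' {x, y})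
      · rw [← MonoidHom.map_closure, hgen]
        exact Subgroup.map_top_of_surjective _ (QuotientGroup.mk'_surjective _)
      · have hxy : (QuotientGroup.mk' (Subgroup.zpowers (y ^ (r - 1)))) x *
            (QuotientGroup.mk' (Subgroup.zpowers (y ^ (r - 1)))) y =
            (QuotientGroup.mk' (Subgroup.zpowers (y ^ (r - 1)))) y *
            (QuotientGroup.mk' (Subgroup.zpowers (y ^ (r - 1)))) x := by
          rw [← map_mul, ← map_mul]
          simp only [QuotientGroup.mk'_apply]
          rw [QuotientGroup.eq]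
          -- (x*y)⁻¹ * (y * x) = y⁻¹ x⁻¹ y x = y⁻¹ y^r = y^(r-1)
          have : (x * y)⁻¹ * (y * x) = y ^ (r - 1) := by
            have e : (x * y)⁻¹ * (y * x) = y⁻¹ * (x⁻¹ * y * x) := by group
            rw [e, hk']
            obtain ⟨t, rfl⟩ : ∃ t, r = t + 1 := ⟨r - 1, by omega⟩
            rw [Nat.add_sub_cancel, pow_succ']
            group
          rw [this]
          exact Subgroup.mem_zpowers _
        rintro a ⟨a', ha', rfl⟩ b ⟨b', hb', rfl⟩
        simp only [Set.mem_insert_iff, Set.mem_singleton_iff] at ha' hb'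
        rcases ha' with rfl | rfl <;> rcases hb' with rfl | rfl
        · rfl
        · exact hxy
        · exact hxy.symm
        · rfl
    have hle : commutator N ≤ Subgroup.zpowers (y ^ (r - 1)) := by
      rw [commutator_def, Subgroup.commutator_le]
      intro g₁ _ g₂ _
      rw [← QuotientGroup.eq_one_iff, ← QuotientGroup.mk'_apply, map_commutatorElement,
        commutatorElement_eq_one_iff_mul_comm]
      exact hcomm _ _
    have hcard : orderOf y ≤ orderOf (y ^ (r - 1)) := by
      rw [hyo, ← Nat.card_zpowers]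
      exact Nat.le_of_dvd Nat.card_pos (Subgroup.card_dvd_of_le hle)
    rw [orderOf_pow] at hcard
    have hg0 : 0 < (orderOf y).gcd (r - 1) := Nat.gcd_pos_of_pos_left _ hy0
    have hg1 : (orderOf y).gcd (r - 1) = 1 := by
      by_contra hne
      have : 2 ≤ (orderOf y).gcd (r - 1) := by omega
      have h3 : orderOf y / (orderOf y).gcd (r - 1) < orderOf y := Nat.div_lt_self hy0 this
      omega
    rw [Nat.coprime_comm]
    exact hg1

end Cfsg.Agent.Lib.H75ZStruct
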