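import Mathlib

set_option autoImplicit false

namespace Cfsg.Agent.Lib.H78AsAut

/-- piece `Aut`: an element of prime order `t` normalizing a cyclic group of prime order `s` with `t ∤ s - 1` centralizes it. -/
theorem commute_of_normalize {G : Type*} [Group G] {s t : ℕ} (hs : s.Prime) (ht : t.Prime)
    (hts : ¬ t ∣ s - 1) {x y : G} (hy : orderOf y = s) (hx : orderOf x = t)
    (hn : x * y * x⁻¹ ∈ Subgroup.zpowers y) : Commute x y := by
  haveI : Fact s.Prime := ⟨hs⟩
  have hfin : IsOfFinOrder y := orderOf_pos_iff.mp (hy ▸ hs.pos)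
  obtain ⟨k, hk⟩ := (hfin.mem_powers_iff_mem_zpowers).mpr hn
  have hk' : y ^ k = x * y * x⁻¹ := hk
  have hind : ∀ j : ℕ, x ^ j * y * (x ^ j)⁻¹ = y ^ (k ^ j) := by
    intro j
    induction j with
    | zero => simp
    | succ j ih =>
      have h1 : x ^ (j+1) * y * (x ^ (j+1))⁻¹ = x ^ j * (x * y * x⁻¹) * (x ^ j)⁻¹ := by
        rw [pow_succ]; group
      rw [h1, ← hk', ← conj_pow, ih, ← pow_mul, pow_succ]
  have hxt : x ^ t = 1 := hx ▸ pow_orderOf_eq_one x
  have h2 : y ^ (k ^ t) = y ^ 1 := by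
    rw [← hind t, hxt]; simp
  have h3 : k ^ t ≡ 1 [MOD s] := by
    have := pow_eq_pow_iff_modEq.mp h2
    rwa [hy] at this
  have h4 : ((k : ZMod s)) ^ t = 1 := by
    have := (ZMod.natCast_eq_natCast_iff _ _ _).mpr h3
    simpa using this
  have hk0 : (k : ZMod s) ≠ 0 := by
    intro h0
    rw [h0, zero_pow ht.ne_zero] at h4
    exact zero_ne_one h4
  have h5 : (k : ZMod s) ^ (s - 1) = 1 := ZMod.pow_card_sub_one_eq_one hk0
  have h6 : orderOf (k : ZMod s) ∣ t := orderOf_dvd_of_pow_eq_one h4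
  have h7 : orderOf (k : ZMod s) ∣ s - 1 := orderOf_dvd_of_pow_eq_one h5
  have h8 : orderOf (k : ZMod s) = 1 := by
    rcases (Nat.dvd_prime ht).mp h6 with h | h
    · exact h
    · exact absurd (h ▸ h7) hts
  have h9 : (k : ZMod s) = ((1 : ℕ) : ZMod s) := by
    rw [orderOf_eq_one_iff] at h8
    simpa using h8
  have h10 : k ≡ 1 [MOD s] := (ZMod.natCast_eq_natCast_iff _ _ _).mp h9
  have h11 : y ^ k = y ^ 1 := pow_eq_pow_iff_modEq.mpr (hy.symm ▸ h10)
  rw [pow_one, hk'] at h11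
  show x * y = y * x
  calc x * y = (x * y * x⁻¹) * x := by group
    _ = y * x := by rw [h11]

end Cfsg.Agent.Lib.H78AsAut
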