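import Mathlib

set_option autoImplicit false

namespace Cfsg.Agent.Lib.H78AsCBb

/-- piece `CBb`. -/
theorem factor (n : ℕ) (n_large : 2 < n) (q : ℕ) (hq1 : n < q) (hq2 : q ≤ 2 * n)
    (only : ∀ p : ℕ, p.Prime → n < p → p ≤ 2 * n → p = q) :
    Nat.centralBinom n = (∏ p ∈ Finset.range (2 * n / 3 + 1), p ^ (Nat.centralBinom n).factorization p)
      * q ^ (Nat.centralBinom n).factorization q := by
  have hq3 : q ∉ Finset.range (2 * n / 3 + 1) := by
    rw [Finset.mem_range]
    have : 2 * n / 3 ≤ n := by omega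
    omega
  rw [mul_comm, ← Finset.prod_insert (f := fun p => p ^ (Nat.centralBinom n).factorization p) hq3]
  refine (Eq.trans ?_ n.prod_pow_factorization_centralBinom).symm
  apply Finset.prod_subset
  · intro x hx
    rw [Finset.mem_insert] at hx
    rw [Finset.mem_range]
    rcases hx with rfl | hx
    · omega
    · rw [Finset.mem_range] at hx
      have : 2 * n / 3 ≤ 2 * n := Nat.div_le_self _ _
      omega
  intro x hx h2x
  rw [Finset.mem_insert, not_or] at h2x
  obtain ⟨hxq, h2x⟩ := h2x
  rw [Finset.mem_range, Nat.lt_succ_iff] at hx h2x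
  rw [not_le, Nat.div_lt_iff_lt_mul three_pos, mul_comm x] at h2x
  by_cases hxp : x.Prime
  · have hxn : x ≤ n := by
      by_contra hcon
      exact hxq (only x hxp (by omega) hx)
    rw [Nat.factorization_centralBinom_of_two_mul_self_lt_three_mul n_large hxn h2x, Nat.pow_zero]
  · rw [Nat.factorization_eq_zero_of_not_prime n.centralBinom hxp, Nat.pow_zero]

end Cfsg.Agent.Lib.H78AsCBb
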