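import Mathlib

set_option autoImplicit false

namespace Cfsg.Agent.Lib.H78AsNil

/-- piece `Nil`. -/
theorem exists_order_mul {H : Type*} [Group H] [Finite H] {p r : ℕ} (hp : p.Prime) (hr : r.Prime)
    (hne : p ≠ r) (hpH : p ∣ Nat.card H) (hrH : r ∣ Nat.card H)
    (h1 : Nat.card (Sylow p H) = 1) (h2 : Nat.card (Sylow r H) = 1) :
    ∃ h : H, orderOf h = p * r := by
  have : Fact p.Prime := ⟨hp⟩
  have : Fact r.Prime := ⟨hr⟩
  obtain ⟨x, hx⟩ := exists_prime_orderOf_dvd_card' p hpH
  obtain ⟨y, hy⟩ := exists_prime_orderOf_dvd_card' r hrH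
  have hsP : Subsingleton (Sylow p H) := (Finite.card_le_one_iff_subsingleton).1 h1.le
  have hsR : Subsingleton (Sylow r H) := (Finite.card_le_one_iff_subsingleton).1 h2.le
  have hxp : IsPGroup p (Subgroup.zpowers x) := by
    apply IsPGroup.of_card (n := 1)
    rw [Nat.card_zpowers, hx, pow_one]
  have hyr : IsPGroup r (Subgroup.zpowers y) := by
    apply IsPGroup.of_card (n := 1)
    rw [Nat.card_zpowers, hy, pow_one]
  obtain ⟨P, hP⟩ := hxp.exists_le_sylow
  obtain ⟨R, hR⟩ := hyr.exists_le_sylow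
  have hPn : (P : Subgroup H).Normal := Sylow.normal_of_subsingleton P
  have hRn : (R : Subgroup H).Normal := Sylow.normal_of_subsingleton R
  have hdis : Disjoint (P : Subgroup H) (R : Subgroup H) := IsPGroup.disjoint_of_ne p r hne _ _ P.2 R.2
  have hc : Commute x y := Subgroup.commute_of_normal_of_disjoint _ _ hPn hRn hdis x y
    (hP (Subgroup.mem_zpowers x)) (hR (Subgroup.mem_zpowers y))
  refine ⟨x * y, ?_⟩
  rw [hc.orderOf_mul_eq_mul_orderOf_of_coprime (by rw [hx, hy]; exact (Nat.coprime_primes hp hr).2 hne),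
    hx, hy]

end Cfsg.Agent.Lib.H78AsNil
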