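import Mathlib
import Cfsg.Agent.Lib.H78AsNil

set_option autoImplicit false

namespace Cfsg.Agent.Lib.H78AsPR

/-- the number of Sylow `p`-subgroups divides `m` when `|H| = p ^ a * m`, `p ∤ m`. -/
theorem card_sylow_dvd {H : Type*} [Group H] [Finite H] {p a m : ℕ} (hp : p.Prime)
    (hm : ¬ p ∣ m) (hcard : Nat.card H = p ^ a * m) : Nat.card (Sylow p H) ∣ m := by
  haveI := Fact.mk hp
  obtain ⟨P⟩ : Nonempty (Sylow p H) := inferInstance
  have h1 := P.card_dvd_index
  have h2 : (Nat.card (P : Subgroup H)) * (P : Subgroup H).index = p ^ a * m := by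
    rw [← hcard]
    exact (P : Subgroup H).card_mul_index
  have h3 : Nat.Coprime (p ^ a) (P : Subgroup H).index := by
    apply Nat.Coprime.pow_left
    exact (Nat.Prime.coprime_iff_not_dvd hp).2 P.not_dvd_index
  have h4 : (P : Subgroup H).index ∣ p ^ a * m := ⟨_, by rw [← h2, mul_comm]⟩
  exact h1.trans (h3.symm.dvd_of_dvd_mul_left h4)

/-- piece `PR`. -/
theorem of_counting {H : Type*} [Group H] [Finite H] {p r a b : ℕ} (hp : p.Prime) (hr : r.Prime)
    (hne : p ≠ r) (ha : a ≠ 0) (hb : b ≠ 0) (hcard : Nat.card H = p ^ a * r ^ b)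
    (h1 : ∀ d : ℕ, d ∣ r ^ b → d % p = 1 → d = 1) (h2 : ∀ d : ℕ, d ∣ p ^ a → d % r = 1 → d = 1) :
    ∃ h : H, orderOf h = p * r := by
  haveI := Fact.mk hp
  haveI := Fact.mk hr
  have hpr : ¬ p ∣ r ^ b := fun h => hne ((Nat.prime_dvd_prime_iff_eq hp hr).1 (hp.dvd_of_dvd_pow h))
  have hrp : ¬ r ∣ p ^ a := fun h => hne ((Nat.prime_dvd_prime_iff_eq hr hp).1 (hr.dvd_of_dvd_pow h)).symm
  apply H78AsNil.exists_order_mul hp hr hne
  · rw [hcard]
    exact Dvd.dvd.mul_right (dvd_pow_self p ha) _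
  · rw [hcard]
    exact Dvd.dvd.mul_left (dvd_pow_self r hb) _
  · apply h1 _ (card_sylow_dvd hp hpr hcard)
    have := card_sylow_modEq_one p H
    rw [Nat.ModEq, Nat.mod_eq_of_lt hp.one_lt] at this
    exact this
  · apply h2 _ (card_sylow_dvd hr hrp (by rw [hcard, mul_comm]))
    have := card_sylow_modEq_one r H
    rw [Nat.ModEq, Nat.mod_eq_of_lt hr.one_lt] at this
    exact this

end Cfsg.Agent.Lib.H78AsPR
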