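import Mathlib
import Cfsg.Agent.Lib.H78AsPR

set_option autoImplicit false

namespace Cfsg.Agent.Lib.H78AsCases

/-- piece `Cases` (30m).  `H78AsPR.of_counting` with `a = b = 1`: a divisor of the prime `r` is `1` or `r`, `r % p = r ≠ 1` (`r < p`);
a divisor of `p` is `1` or `p`, and `p % r = 1` would give `r ∣ p - 1`. -/
theorem order_pr {H : Type*} [Group H] [Finite H] {p r : ℕ} (hp : p.Prime) (hr : r.Prime)
    (hlt : r < p) (hdiv : ¬ r ∣ p - 1) (hcard : Nat.card H = p * r) :
    ∃ h : H, orderOf h = p * r := by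
  refine H78AsPR.of_counting (a := 1) (b := 1) hp hr hlt.ne' one_ne_zero one_ne_zero
    (by rw [pow_one, pow_one]; exact hcard) ?_ ?_
  · intro d hd hmod
    rw [pow_one] at hd
    rcases (Nat.dvd_prime hr).mp hd with h | h
    · exact h
    · subst h
      rw [Nat.mod_eq_of_lt hlt] at hmod
      exact hmod
  · intro d hd hmod
    rw [pow_one] at hd
    rcases (Nat.dvd_prime hp).mp hd with h | h
    · exact h
    · subst h
      exfalso
      apply hdiv
      have h1 := Nat.div_add_mod d r
      rw [hmod] at h1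
      exact ⟨d / r, by omega⟩

/-- piece `Cases`: `45 = 5 ^ 1 * 3 ^ 2`; the divisors of `9` are `1, 3, 9` (`Nat.divisors`/`(Nat.dvd_prime_pow _).mp`, `interval_cases`). -/
theorem order_45 {H : Type*} [Group H] [Finite H] (hcard : Nat.card H = 45) :
    ∃ h : H, orderOf h = 5 * 3 := by
  refine H78AsPR.of_counting (a := 1) (b := 2) (by norm_num) (by norm_num) (by norm_num)
    one_ne_zero two_ne_zero (by rw [hcard]; norm_num) ?_ ?_
  · intro d hd hmod
    have hle : d ≤ 9 := Nat.le_of_dvd (by norm_num) hd
    interval_cases d <;> simp_all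
  · intro d hd hmod
    have hle : d ≤ 5 := Nat.le_of_dvd (by norm_num) hd
    interval_cases d <;> simp_all

/-- piece `Cases`: `175 = 7 ^ 1 * 5 ^ 2`. -/
theorem order_175 {H : Type*} [Group H] [Finite H] (hcard : Nat.card H = 175) :
    ∃ h : H, orderOf h = 7 * 5 := by
  refine H78AsPR.of_counting (a := 1) (b := 2) (by norm_num) (by norm_num) (by norm_num)
    one_ne_zero two_ne_zero (by rw [hcard]; norm_num) ?_ ?_
  · intro d hd hmod
    have hle : d ≤ 25 := Nat.le_of_dvd (by norm_num) hd
    interval_cases d <;> simp_all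
  · intro d hd hmod
    have hle : d ≤ 7 := Nat.le_of_dvd (by norm_num) hd
    interval_cases d <;> simp_all

end Cfsg.Agent.Lib.H78AsCases
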