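import Mathlib

set_option autoImplicit false

namespace Cfsg.Agent.Lib.H78AsChoose

/-- piece `Choose`: a maximal normal subgroup with the property `C`. -/
theorem exists_max_normal {G : Type*} [Group G] [Finite G] (C : Subgroup G → Prop)
    (hex : ∃ N : Subgroup G, N.Normal ∧ C N) :
    ∃ N : Subgroup G, N.Normal ∧ C N ∧ ∀ L : Subgroup G, L.Normal → N < L → ¬ C L := by
  obtain ⟨N₀, hN₀⟩ := hex
  have hfin : ({N : Subgroup G | N.Normal ∧ C N}).Finite := Set.toFinite _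
  obtain ⟨N, hmax⟩ := hfin.exists_maximal ⟨N₀, hN₀⟩
  have hN := hmax.prop
  refine ⟨N, hN.1, hN.2, ?_⟩
  intro L hL hlt hC
  exact absurd (hmax.le_of_ge ⟨hL, hC⟩ hlt.le) (not_le_of_gt hlt)

/-- piece `Choose`: among the normal subgroups `L > N` (e.g. `⊤`) take a minimal one. -/
theorem exists_min_over {G : Type*} [Group G] [Finite G] (N : Subgroup G) (hN : N ≠ ⊤) :
    ∃ H : Subgroup G, H.Normal ∧ N < H ∧ ∀ L : Subgroup G, L.Normal → N < L → L ≤ H → L = H := by
  have hfin : ({L : Subgroup G | L.Normal ∧ N < L}).Finite := Set.toFinite _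
  obtain ⟨H, hmin⟩ := hfin.exists_minimal ⟨⊤, inferInstance, lt_top_iff_ne_top.2 hN⟩
  have hH := hmin.prop
  refine ⟨H, hH.1, hH.2, ?_⟩
  intro L hL hlt hle
  exact le_antisymm hle (hmin.le_of_le ⟨hL, hlt⟩ hle)

end Cfsg.Agent.Lib.H78AsChoose
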