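import Mathlib

set_option autoImplicit false

namespace Cfsg.Agent.Lib.H78AsFac

/-- piece `Fac`. -/
theorem fac_factorial {n p : ℕ} (hp : p.Prime) (h1 : p ≤ n) (h3 : n < 2 * p) :
    (n.factorial).factorization p = 1 := by
  obtain ⟨k, rfl⟩ := Nat.exists_eq_add_of_le h1
  induction k with
  | zero =>
    obtain ⟨q, rfl⟩ : ∃ q, p = q + 1 := ⟨p - 1, by have := hp.pos; omega⟩
    rw [add_zero, Nat.factorial_succ, Nat.factorization_mul (by omega) (Nat.factorial_ne_zero _)]
    have h0 : (q.factorial).factorization (q + 1) = 0 := by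
      apply Nat.factorization_eq_zero_of_not_dvd
      rw [hp.dvd_factorial]
      omega
    rw [Finsupp.add_apply, h0, hp.factorization_self]
  | succ k ih =>
    have ih' := ih (by omega) (by omega)
    rw [← add_assoc, Nat.factorial_succ, Nat.factorization_mul (by omega) (Nat.factorial_ne_zero _),
      Finsupp.add_apply, ih']
    have h0 : (p + k + 1).factorization p = 0 := by
      apply Nat.factorization_eq_zero_of_not_dvd
      rintro ⟨c, hc⟩
      have hc1 : c < 2 := by
        by_contra hcon
        have : 2 ≤ c := by omega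
        have : p * 2 ≤ p * c := Nat.mul_le_mul_left _ this
        omega
      interval_cases c <;> omega
    rw [h0]

/-- piece `Fac`. -/
theorem fac_alt {n p : ℕ} (hp : p.Prime) (h2 : p ≠ 2) (h1 : p ≤ n) (h3 : n < 2 * p) :
    (Nat.card (alternatingGroup (Fin n))).factorization p = 1 := by
  have hn2 : 2 ≤ n := hp.two_le.trans h1
  have : Nontrivial (Fin n) := Fin.nontrivial_iff_two_le.2 hn2
  have h := two_mul_card_alternatingGroup (α := Fin n)
  rw [Fintype.card_perm, Fintype.card_fin] at h
  have h4 := fac_factorial hp h1 h3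
  rw [← h, Nat.factorization_mul (by norm_num) (Fintype.card_ne_zero), Finsupp.add_apply] at h4
  have h5 : (2 : ℕ).factorization p = 0 := by
    apply Nat.factorization_eq_zero_of_not_dvd
    intro hd
    exact h2 ((Nat.prime_dvd_prime_iff_eq hp Nat.prime_two).1 hd)
  rw [h5, zero_add] at h4
  rw [Nat.card_eq_fintype_card]
  exact h4

end Cfsg.Agent.Lib.H78AsFac
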