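import Mathlib

set_option autoImplicit false

namespace Cfsg.Agent.Lib.H78AsSimB

/-- the product set `Z Z'` as a subgroup when `Z'` normalizes `Z` -/
def prodSub {G : Type*} [Group G] (Z Z' : Subgroup G) (h : ∀ x ∈ Z', ∀ y ∈ Z, x * y * x⁻¹ ∈ Z) :
    Subgroup G where
  carrier := {g | ∃ z ∈ Z, ∃ z' ∈ Z', g = z * z'}
  one_mem' := ⟨1, Z.one_mem, 1, Z'.one_mem, by simp⟩
  mul_mem' := by
    rintro _ _ ⟨a, ha, a', ha', rfl⟩ ⟨b, hb, b', hb', rfl⟩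
    exact ⟨a * (a' * b * a'⁻¹), Z.mul_mem ha (h a' ha' b hb), a' * b', Z'.mul_mem ha' hb', by group⟩
  inv_mem' := by
    rintro _ ⟨a, ha, a', ha', rfl⟩
    refine ⟨a'⁻¹ * a⁻¹ * a'⁻¹⁻¹, h a'⁻¹ (Z'.inv_mem ha') a⁻¹ (Z.inv_mem ha), a'⁻¹, Z'.inv_mem ha', by group⟩

theorem not_dvd_sup {G : Type*} [Group G] [Finite G] {s : ℕ} (hs : s.Prime) (Z Z' : Subgroup G)
    (h : ∀ x ∈ Z', ∀ y ∈ Z, x * y * x⁻¹ ∈ Z) (h1 : ¬ s ∣ Nat.card Z) (h2 : ¬ s ∣ Nat.card Z') :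
    ¬ s ∣ Nat.card (Z ⊔ Z' : Subgroup G) := by
  intro hd
  have : Fact s.Prime := ⟨hs⟩
  obtain ⟨x, hx⟩ := exists_prime_orderOf_dvd_card' s hd
  have hxo : orderOf (x : G) = s := by rw [Subgroup.orderOf_coe]; exact hx
  have hle : Z ⊔ Z' ≤ prodSub Z Z' h := by
    refine sup_le ?_ ?_
    · intro z hz; exact ⟨z, hz, 1, Z'.one_mem, by simp⟩
    · intro z hz; exact ⟨1, Z.one_mem, z, hz, by simp⟩
  obtain ⟨z, hz, z', hz', hxz⟩ := hle x.2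
  have hpow : ∀ m : ℕ, ∃ w ∈ Z, (z * z') ^ m = w * z' ^ m := by
    intro m
    induction m with
    | zero => exact ⟨1, Z.one_mem, by simp⟩
    | succ m ih =>
      obtain ⟨w, hw, hwm⟩ := ih
      refine ⟨w * (z' ^ m * z * (z' ^ m)⁻¹), Z.mul_mem hw (h _ (Z'.pow_mem hz' m) z hz), ?_⟩
      rw [pow_succ, hwm, pow_succ]
      group
  obtain ⟨w, hw, hwm⟩ := hpow (Nat.card Z')
  have hz1 : z' ^ Nat.card Z' = 1 := by
    have := pow_card_eq_one' (G := Z') (x := ⟨z', hz'⟩)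
    exact congrArg Subtype.val this
  rw [hz1, mul_one, ← hxz] at hwm
  -- `x ^ |Z'| ∈ Z`
  have hw1 : w ^ Nat.card Z = 1 := by
    have := pow_card_eq_one' (G := Z) (x := ⟨w, hw⟩)
    exact congrArg Subtype.val this
  rw [← hwm, ← pow_mul] at hw1
  have hdvd := orderOf_dvd_of_pow_eq_one hw1
  rw [hxo] at hdvd
  rcases (Nat.Prime.dvd_mul hs).1 hdvd with h3 | h3
  · exact h2 h3
  · exact h1 h3

/-- piece `SimB` (PURE Mathlib, 60m). -/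
theorem eq_bot_of_not_dvd {G : Type*} [Group G] [Finite G] (N H : Subgroup G) [N.Normal] [H.Normal]
    (hNH : N ≤ H)
    (hmin : ∀ L : Subgroup G, L.Normal → N < L → L ≤ H → L = H) {s : ℕ} (hs : s.Prime)
    (hsH : s ∣ Nat.card H) (hsN : ¬ s ∣ Nat.card N)
    (Y : Subgroup G) (hNY : N ≤ Y) (hYH : Y ≤ H) (hYn : ∀ x ∈ H, ∀ y ∈ Y, x * y * x⁻¹ ∈ Y)
    (hsY : ¬ s ∣ Nat.card Y) : Y = N := by
  classical
  let Good : Subgroup G → Prop := fun Z =>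
    N ≤ Z ∧ Z ≤ H ∧ (∀ x ∈ H, ∀ y ∈ Z, x * y * x⁻¹ ∈ Z) ∧ ¬ s ∣ Nat.card Z
  have hYg : Good Y := ⟨hNY, hYH, hYn, hsY⟩
  have : Nonempty {Z : Subgroup G // Good Z} := ⟨⟨Y, hYg⟩⟩
  obtain ⟨⟨Z₀, hZ₀⟩, hmax⟩ := Finite.exists_max (fun Z : {Z : Subgroup G // Good Z} => Nat.card Z.1)
  have hsup : ∀ Z, Good Z → Z ≤ Z₀ := by
    intro Z hZ
    have hg : Good (Z₀ ⊔ Z) := by
      refine ⟨le_sup_of_le_left hZ₀.1, sup_le hZ₀.2.1 hZ.2.1, ?_, ?_⟩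
      · intro x hx y hy
        have hmap : (Z₀ ⊔ Z).map (MulAut.conj x).toMonoidHom ≤ Z₀ ⊔ Z := by
          rw [Subgroup.map_sup]
          refine sup_le ?_ ?_
          · rintro _ ⟨y, hy, rfl⟩
            exact Subgroup.mem_sup_left (hZ₀.2.2.1 x hx y hy)
          · rintro _ ⟨y, hy, rfl⟩
            exact Subgroup.mem_sup_right (hZ.2.2.1 x hx y hy)
        exact hmap ⟨y, hy, rfl⟩
      · exact not_dvd_sup hs Z₀ Z (fun x hx y hy => hZ₀.2.2.1 x (hZ.2.1 hx) y hy) hZ₀.2.2.2 hZ.2.2.2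
    have hcard := hmax ⟨Z₀ ⊔ Z, hg⟩
    have heq : Z₀ = Z₀ ⊔ Z := Subgroup.eq_of_le_of_card_ge le_sup_left hcard
    rw [heq]
    exact le_sup_right
  have hconj : ∀ g : G, Good (Z₀.map (MulAut.conj g).toMonoidHom) := by
    intro g
    refine ⟨?_, ?_, ?_, ?_⟩
    · intro n hn
      refine ⟨g⁻¹ * n * g, hZ₀.1 ?_, ?_⟩
      · have := (inferInstance : N.Normal).conj_mem n hn g⁻¹
        simpa using this
      · simp [MulAut.conj_apply]; group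
    · rintro _ ⟨z, hz, rfl⟩
      exact (inferInstance : H.Normal).conj_mem z (hZ₀.2.1 hz) g
    · rintro x hx _ ⟨z, hz, rfl⟩
      refine ⟨(g⁻¹ * x * g) * z * (g⁻¹ * x * g)⁻¹, hZ₀.2.2.1 _ ?_ z hz, ?_⟩
      · have := (inferInstance : H.Normal).conj_mem x hx g⁻¹
        simpa using this
      · simp [MulAut.conj_apply]; group
    · rw [Subgroup.card_map_of_injective (MulAut.conj g).injective]
      exact hZ₀.2.2.2
  have hnorm : Z₀.Normal := ⟨fun n hn g => hsup _ (hconj g) ⟨n, hn, rfl⟩⟩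
  have hne : Z₀ ≠ H := by
    intro h
    exact hZ₀.2.2.2 (h ▸ hsH)
  have hZN : Z₀ = N := by
    by_contra hne'
    exact hne (hmin Z₀ hnorm (lt_of_le_of_ne hZ₀.1 (Ne.symm hne')) hZ₀.2.1)
  exact le_antisymm (hZN ▸ hsup Y hYg) hNY

end Cfsg.Agent.Lib.H78AsSimB
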