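import Mathlib
import Cfsg.Agent.Lib.H78AsAut
import Cfsg.Agent.Lib.H78AsSimB

set_option autoImplicit false

namespace Cfsg.Agent.Lib.H78AsFrat

/-- piece `Frat` (50m).  Let `R` be a Sylow `s`-subgroup of `N` (`Sylow s N`); it has order `s` (`s ∣ |N|`, `|N| ∣ |G|`, `v_s |G| = 1`), so
`R.map N.subtype = zpowers y` with `orderOf y = s`.  Frattini `Sylow.normalizer_sup_eq_top (P : Sylow p N) : (P.map N.subtype).normalizer ⊔ N = ⊤`.
So `t ∣ |N_G(R)|` as `t ∤ |N|`.  Cauchy in `N_G(R)`: `x` of order `t` normalizing `zpowers y`.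
`H78AsAut.commute_of_normalize` and `Commute.orderOf_mul_eq_mul_orderOf_of_coprime`. -/
theorem exists_order {G : Type*} [Group G] [Finite G] (N : Subgroup G) [N.Normal] {s t : ℕ}
    (hs : s.Prime) (ht : t.Prime) (hst : s ≠ t) (hs1 : (Nat.card G).factorization s = 1)
    (hsN : s ∣ Nat.card N) (htG : t ∣ Nat.card G) (htN : ¬ t ∣ Nat.card N) (hts : ¬ t ∣ s - 1) :
    ∃ g : G, orderOf g = s * t := by
  have : Fact s.Prime := ⟨hs⟩
  have : Fact t.Prime := ⟨ht⟩
  let R : Sylow s ↥N := default
  set R' : Subgroup G := Subgroup.map N.subtype (R : Subgroup ↥N) with hR'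
  have hfr : Subgroup.normalizer (R' : Set G) ⊔ N = ⊤ := Sylow.normalizer_sup_eq_top R
  -- the order of `R'`
  have hfac : (Nat.card N).factorization s = 1 := by
    have h1 : (Nat.card N).factorization s ≤ (Nat.card G).factorization s :=
      (Nat.factorization_le_iff_dvd Nat.card_pos.ne' Nat.card_pos.ne').2 (Subgroup.card_subgroup_dvd_card N) s
    have h2 : 1 ≤ (Nat.card N).factorization s :=
      (hs.dvd_iff_one_le_factorization Nat.card_pos.ne').1 hsN
    omega
  have hcardR : Nat.card R' = s := by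
    rw [hR', Subgroup.card_map_of_injective N.subtype_injective, Sylow.card_eq_multiplicity, hfac, pow_one]
  -- a generator
  obtain ⟨y, hy⟩ := exists_prime_orderOf_dvd_card' (G := R') s (by rw [hcardR])
  have hyo : orderOf (y : G) = s := by rw [Subgroup.orderOf_coe]; exact hy
  have hzp : Subgroup.zpowers (y : G) = R' := by
    apply Subgroup.eq_of_le_of_card_ge
    · rw [Subgroup.zpowers_le]; exact y.2
    · rw [Nat.card_zpowers, hyo, hcardR]
  -- `t` divides the order of the normalizer
  have htA : t ∣ Nat.card (Subgroup.normalizer (R' : Set G)) := by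
    by_contra hcon
    have := H78AsSimB.not_dvd_sup ht N (Subgroup.normalizer (R' : Set G))
      (fun x _ y hy => (inferInstance : N.Normal).conj_mem y hy x) htN hcon
    rw [sup_comm, hfr, Subgroup.card_top] at this
    exact this htG
  obtain ⟨x, hx⟩ := exists_prime_orderOf_dvd_card' (G := Subgroup.normalizer (R' : Set G)) t htA
  have hxo : orderOf (x : G) = t := by rw [Subgroup.orderOf_coe]; exact hx
  have hn : (x : G) * y * (x : G)⁻¹ ∈ Subgroup.zpowers (y : G) := by
    rw [hzp]
    exact (Subgroup.mem_normalizer_iff.1 x.2 y).1 y.2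
  have hc := H78AsAut.commute_of_normalize hs ht hts hyo hxo hn
  refine ⟨(y : G) * x, ?_⟩
  rw [hc.symm.orderOf_mul_eq_mul_orderOf_of_coprime (by rw [hyo, hxo]; exact (Nat.coprime_primes hs ht).2 hst),
    hyo, hxo]

end Cfsg.Agent.Lib.H78AsFrat
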