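import Mathlib

set_option autoImplicit false

namespace Cfsg.Agent.Lib.H78AsIneq

open Real

/-- piece `Ineq`: copy of `Bertrand.real_main_inequality` with one more concave summand. -/
theorem real_ineq {x : ℝ} (x_large : (512 : ℝ) ≤ x) :
    x * (2 * x) * (2 * x) ^ √(2 * x) * 4 ^ (2 * x / 3) ≤ 4 ^ x := by
  let f : ℝ → ℝ := fun x => log x + log (2 * x) + √(2 * x) * log (2 * x) - log 4 / 3 * x
  have hf' : ∀ x, 0 < x → 0 < x * (2 * x) * (2 * x) ^ √(2 * x) / 4 ^ (x / 3) := fun x h =>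
    div_pos (mul_pos (mul_pos h (mul_pos two_pos h)) (rpow_pos_of_pos (mul_pos two_pos h) _))
      (rpow_pos_of_pos four_pos _)
  have hf : ∀ x, 0 < x → f x = log (x * (2 * x) * (2 * x) ^ √(2 * x) / 4 ^ (x / 3)) := by
    intro x h5
    have h6 := mul_pos (zero_lt_two' ℝ) h5
    have h7 := rpow_pos_of_pos h6 (√(2 * x))
    rw [log_div (mul_pos (mul_pos h5 h6) h7).ne' (rpow_pos_of_pos four_pos _).ne',
      log_mul (mul_pos h5 h6).ne' h7.ne', log_mul h5.ne' h6.ne',
      log_rpow h6, log_rpow zero_lt_four, ← mul_div_right_comm, ← mul_div, mul_comm x]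
  have h5 : 0 < x := lt_of_lt_of_le (by norm_num1) x_large
  rw [← div_le_one (rpow_pos_of_pos four_pos x), ← div_div_eq_mul_div, ← rpow_sub four_pos, ←
    mul_div 2 x, mul_div_left_comm, ← mul_one_sub, (by norm_num1 : (1 : ℝ) - 2 / 3 = 1 / 3),
    mul_one_div, ← log_nonpos_iff (hf' x h5).le, ← hf x h5]
  have h : ConcaveOn ℝ (Set.Ioi 0.5) f := by
    apply ConcaveOn.sub
    · apply ConcaveOn.add
      · apply ConcaveOn.add
        · exact strictConcaveOn_log_Ioi.concaveOn.subset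
            (Set.Ioi_subset_Ioi (by norm_num)) (convex_Ioi 0.5)
        · have := (strictConcaveOn_log_Ioi.concaveOn.comp_linearMap ((2 : ℝ) • LinearMap.id))
          refine ConcaveOn.subset (s := Set.Ioi 0.5) (t := _) this ?_ (convex_Ioi 0.5)
          intro y hy
          simp only [Set.mem_Ioi, Set.mem_preimage, LinearMap.smul_apply,
            LinearMap.id_coe, id_eq, smul_eq_mul] at hy ⊢
          have : (0:ℝ) < 0.5 := by norm_num
          linarith
      convert!
        ((strictConcaveOn_sqrt_mul_log_Ioi.concaveOn.comp_linearMap ((2 : ℝ) • LinearMap.id)))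
        using 1
      ext x
      simp only [Set.mem_Ioi, Set.mem_preimage, LinearMap.smul_apply,
        LinearMap.id_coe, id_eq, smul_eq_mul]
      rw [← mul_lt_mul_iff_right₀ (two_pos)]
      norm_num1
      rfl
    apply ConvexOn.smul
    · refine div_nonneg (log_nonneg (by norm_num1)) (by norm_num1)
    · exact convexOn_id (convex_Ioi (0.5 : ℝ))
  suffices ∃ x1 x2, 0.5 < x1 ∧ x1 < x2 ∧ x2 ≤ x ∧ 0 ≤ f x1 ∧ f x2 ≤ 0 by
    obtain ⟨x1, x2, h1, h2, h0, h3, h4⟩ := this
    exact (h.right_le_of_le_left'' h1 ((h1.trans h2).trans_le h0) h2 h0 (h4.trans h3)).trans h4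
  refine ⟨18, 512, by norm_num1, by norm_num1, x_large, ?_, ?_⟩
  · have : √(2 * 18 : ℝ) = 6 := (sqrt_eq_iff_mul_self_eq_of_pos (by norm_num1)).mpr (by norm_num1)
    rw [hf _ (by norm_num1), log_nonneg_iff (by positivity), this, one_le_div (by norm_num1)]
    norm_num1
  · have : √(2 * 512) = 32 :=
      (sqrt_eq_iff_mul_self_eq_of_pos (by norm_num1)).mpr (by norm_num1)
    rw [hf _ (by norm_num1), log_nonpos_iff (hf' _ (by norm_num1)).le, this,
        div_le_one (by positivity)]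
    have e1 : (512 : ℝ) * (2 * 512) * (2 * 512) ^ (32 : ℝ) = (2 : ℝ) ^ ((339 : ℕ) : ℝ) := by
      rw [rpow_natCast]
      have : ((2 : ℝ) * 512) ^ (32 : ℝ) = (2 * 512) ^ (32 : ℕ) := by
        rw [← rpow_natCast]; norm_num
      rw [this]
      have a1 : (512 : ℝ) = 2 ^ 9 := by norm_num1
      have a2 : (2 : ℝ) * 512 = 2 ^ 10 := by norm_num1
      rw [a2, a1, ← pow_mul, ← pow_add, ← pow_add]
    have e2 : (4 : ℝ) ^ ((512 : ℝ) / 3) = (2 : ℝ) ^ ((2 : ℝ) * (512 / 3)) := by
      rw [rpow_mul (by norm_num), rpow_two]; norm_num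
    rw [e1, e2]
    apply rpow_le_rpow_of_exponent_le
    all_goals norm_num

/-- piece `Ineq`: copy of `bertrand_main_inequality`. -/
theorem main_ineq {n : ℕ} (n_large : 512 ≤ n) :
    n * ((2 * n) ^ Nat.sqrt (2 * n) * 4 ^ (2 * n / 3) * (2 * n)) ≤ 4 ^ n := by
  have key : n * (2 * n) * (2 * n) ^ Nat.sqrt (2 * n) * 4 ^ (2 * n / 3) ≤ 4 ^ n := by
    rw [← @Nat.cast_le ℝ]
    simp only [Nat.cast_mul, Nat.cast_pow, ← Real.rpow_natCast, Nat.cast_ofNat]
    refine _root_.trans ?_ (real_ineq (by exact_mod_cast n_large))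
    gcongr
    · have n2_pos : 0 < 2 * n := by positivity
      exact mod_cast n2_pos
    · exact_mod_cast Real.nat_sqrt_le_real_sqrt
    · norm_num1
    · exact Nat.cast_div_le.trans (by norm_cast)
  calc n * ((2 * n) ^ Nat.sqrt (2 * n) * 4 ^ (2 * n / 3) * (2 * n))
      = n * (2 * n) * (2 * n) ^ Nat.sqrt (2 * n) * 4 ^ (2 * n / 3) := by ring
    _ ≤ 4 ^ n := key

end Cfsg.Agent.Lib.H78AsIneq
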