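import Mathlib
import Cfsg.Agent.Lib.H78AsIneq
import Cfsg.Agent.Lib.H78AsCBa
import Cfsg.Agent.Lib.H78AsCBb

set_option autoImplicit false

namespace Cfsg.Agent.Lib.H78AsLarge

/-- piece `Large` (25m).  `H78AsCBb.factor`, `H78AsCBa.prod_le`, `Nat.pow_factorization_choose_le` (`q ^ _ ≤ 2 * n`; `centralBinom n = choose (2n) n`). -/
theorem centralBinom_le (n : ℕ) (n_large : 2 < n) (q : ℕ) (hq1 : n < q) (hq2 : q ≤ 2 * n)
    (only : ∀ p : ℕ, p.Prime → n < p → p ≤ 2 * n → p = q) :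
    Nat.centralBinom n ≤ (2 * n) ^ Nat.sqrt (2 * n) * 4 ^ (2 * n / 3) * (2 * n) := by
  have h1 := H78AsCBb.factor n n_large q hq1 hq2 only
  have h2 := H78AsCBa.prod_le n n_large
  have h3 : q ^ (Nat.centralBinom n).factorization q ≤ 2 * n := by
    rw [Nat.centralBinom_eq_two_mul_choose]
    exact Nat.pow_factorization_choose_le (by omega)
  calc Nat.centralBinom n = _ := h1
    _ ≤ _ := Nat.mul_le_mul h2 h3

/-- piece `Large`.  Bertrand (`Nat.exists_prime_lt_and_le_two_mul`) gives one prime `q`; if it were the only one, `centralBinom_le`,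
`Nat.four_pow_lt_mul_centralBinom` and `H78AsIneq.main_ineq` contradict each other.  Order the two primes. -/
theorem two_primes_large (n : ℕ) (h : 512 ≤ n) :
    ∃ r p : ℕ, r.Prime ∧ p.Prime ∧ n < r ∧ r < p ∧ p ≤ 2 * n := by
  obtain ⟨q, hq, hq1, hq2⟩ := Nat.exists_prime_lt_and_le_two_mul n (by omega)
  by_cases only : ∀ p : ℕ, p.Prime → n < p → p ≤ 2 * n → p = q
  · exfalso
    have h1 := centralBinom_le n (by omega) q hq1 hq2 only
    have h2 := Nat.four_pow_lt_mul_centralBinom n (by omega)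
    have h3 := H78AsIneq.main_ineq h
    have h4 : n * Nat.centralBinom n ≤
        n * ((2 * n) ^ Nat.sqrt (2 * n) * 4 ^ (2 * n / 3) * (2 * n)) := Nat.mul_le_mul_left n h1
    omega
  · push Not at only
    obtain ⟨p, hp, hp1, hp2, hpq⟩ := only
    rcases lt_or_gt_of_ne hpq with hlt | hlt
    · exact ⟨p, q, hp, hq, hp1, hlt, hq2⟩
    · exact ⟨q, p, hq, hp, hq1, hlt, hp2⟩

end Cfsg.Agent.Lib.H78AsLarge
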