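import Mathlib

set_option autoImplicit false

namespace Cfsg.Agent.Lib.H78AsNC

/-- piece `NC` (PURE Mathlib, 25m).  A commutative simple group has prime order: `IsSimpleGroup.prime_card` (for `CommGroup`; build the instance
`{ (inferInstance : Group S) with mul_comm := ... }` from `IsMulCommutative S`, i.e. `mul_comm'`/`IsMulCommutative.is_comm.comm`), and a prime has only one prime divisor
(`(Nat.prime_dvd_prime_iff_eq _ _).mp`). -/
theorem not_comm {S : Type*} [Group S] [Finite S] [IsSimpleGroup S] {p r : ℕ} (hp : p.Prime)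
    (hr : r.Prime) (hne : p ≠ r) (h1 : p ∣ Nat.card S) (h2 : r ∣ Nat.card S) :
    ¬ IsMulCommutative S := by
  intro hc
  letI : CommGroup S := { (inferInstance : Group S) with mul_comm := fun a b => hc.is_comm.comm a b }
  have hpr : (Nat.card S).Prime := IsSimpleGroup.prime_card
  have e1 := (Nat.prime_dvd_prime_iff_eq hp hpr).mp h1
  have e2 := (Nat.prime_dvd_prime_iff_eq hr hpr).mp h2
  exact hne (e1.trans e2.symm)

end Cfsg.Agent.Lib.H78AsNC
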