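import Mathlib

set_option autoImplicit false

namespace Cfsg.Agent.Lib.H78AsNoPR

theorem exists_dvd_of_dvd_lcm {p : ℕ} (hp : p.Prime) (s : Multiset ℕ) (h : p ∣ s.lcm) :
    ∃ c ∈ s, p ∣ c := by
  induction s using Multiset.induction with
  | empty =>
    rw [Multiset.lcm_zero] at h
    exact absurd (Nat.dvd_one.mp h) hp.one_lt.ne'
  | cons a s ih =>
    rw [Multiset.lcm_cons] at h
    have h2 : p ∣ a * s.lcm := h.trans (lcm_dvd_mul _ _)
    rcases (Nat.Prime.dvd_mul hp).mp h2 with h3 | h3
    · exact ⟨a, Multiset.mem_cons_self a s, h3⟩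
    · obtain ⟨c, hc, hpc⟩ := ih h3
      exact ⟨c, Multiset.mem_cons_of_mem hc, hpc⟩

/-- piece `NoPR`: no permutation of order `p r` on fewer than `p + r` points. -/
theorem no_order {n p r : ℕ} (hp : p.Prime) (hr : r.Prime) (hne : p ≠ r) (h : n < p + r)
    (σ : Equiv.Perm (Fin n)) : orderOf σ ≠ p * r := by
  intro ho
  have hl := Equiv.Perm.lcm_cycleType σ
  have hsum : σ.cycleType.sum ≤ n := by
    have := Equiv.Perm.sum_cycleType_le σ
    simpa using this
  obtain ⟨c, hc, hpc⟩ := exists_dvd_of_dvd_lcm hp σ.cycleType (by rw [hl, ho]; exact dvd_mul_right _ _)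
  obtain ⟨c', hc', hrc⟩ := exists_dvd_of_dvd_lcm hr σ.cycleType (by rw [hl, ho]; exact dvd_mul_left _ _)
  have hcpos : 0 < c := by
    have := Equiv.Perm.two_le_of_mem_cycleType hc
    omega
  have hcpos' : 0 < c' := by
    have := Equiv.Perm.two_le_of_mem_cycleType hc'
    omega
  obtain ⟨u, hu⟩ := Multiset.exists_cons_of_mem hc
  by_cases hcc : c = c'
  · subst hcc
    have hcop : Nat.Coprime p r := (Nat.coprime_primes hp hr).mpr hne
    have hd : p * r ∣ c := hcop.mul_dvd_of_dvd_of_dvd hpc hrc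
    have h1 : p * r ≤ c := Nat.le_of_dvd hcpos hd
    have h2 : c ≤ σ.cycleType.sum := by
      rw [hu, Multiset.sum_cons]; omega
    have h3 : p + r ≤ p * r := by
      have hp2 := hp.two_le
      have hr2 := hr.two_le
      nlinarith
    omega
  · have hc'u : c' ∈ u := by
      rw [hu, Multiset.mem_cons] at hc'
      rcases hc' with h0 | h0
      · exact absurd h0.symm hcc
      · exact h0
    obtain ⟨v, hv⟩ := Multiset.exists_cons_of_mem hc'u
    have h2 : c + c' ≤ σ.cycleType.sum := by
      rw [hu, hv, Multiset.sum_cons, Multiset.sum_cons]; omega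
    have h3 : p ≤ c := Nat.le_of_dvd hcpos hpc
    have h4 : r ≤ c' := Nat.le_of_dvd hcpos' hrc
    omega

/-- piece `NoPR`: the same in the alternating group. -/
theorem no_order_alt {n p r : ℕ} (hp : p.Prime) (hr : r.Prime) (hne : p ≠ r) (h : n < p + r)
    (σ : alternatingGroup (Fin n)) : orderOf σ ≠ p * r := by
  rw [← Subgroup.orderOf_coe]
  exact no_order hp hr hne h _

end Cfsg.Agent.Lib.H78AsNoPR
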