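import Mathlib

set_option autoImplicit false

namespace Cfsg.Agent.Lib.H78AsQuot

/-- piece `Quot`: correspondence theorem gives simplicity of the quotient. -/
theorem simple_quot {G : Type*} [Group G] (N H : Subgroup G) [N.Normal] (hlt : N < H)
    (h : ∀ Y : Subgroup G, N ≤ Y → Y ≤ H → (∀ x ∈ H, ∀ y ∈ Y, x * y * x⁻¹ ∈ Y) → Y = N ∨ Y = H) :
    IsSimpleGroup (↥H ⧸ N.subgroupOf H) := by
  have hne : N.subgroupOf H ≠ ⊤ := by
    intro htop
    rw [Subgroup.subgroupOf_eq_top] at htop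
    exact absurd htop (not_le_of_gt hlt)
  haveI : Nontrivial (↥H ⧸ N.subgroupOf H) := by
    rw [QuotientGroup.nontrivial_iff]
    exact hne
  refine ⟨fun Z hZ => ?_⟩
  set π := QuotientGroup.mk' (N.subgroupOf H) with hπ
  have hπs : Function.Surjective π := QuotientGroup.mk'_surjective _
  set Y : Subgroup G := (Z.comap π).map H.subtype with hY
  have hmem : ∀ g : G, g ∈ Y ↔ ∃ hg : g ∈ H, π ⟨g, hg⟩ ∈ Z := by
    intro g
    constructor
    · rintro ⟨a, ha, rfl⟩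
      exact ⟨a.2, ha⟩
    · rintro ⟨hg, hz⟩
      exact ⟨⟨g, hg⟩, hz, rfl⟩
  have h1 : N ≤ Y := by
    intro g hg
    rw [hmem]
    refine ⟨hlt.le hg, ?_⟩
    have : π ⟨g, hlt.le hg⟩ = 1 := by
      rw [hπ, QuotientGroup.mk'_apply, QuotientGroup.eq_one_iff]
      exact hg
    rw [this]; exact Z.one_mem
  have h2 : Y ≤ H := by
    intro g hg
    exact ((hmem g).mp hg).1
  have h3 : ∀ x ∈ H, ∀ y ∈ Y, x * y * x⁻¹ ∈ Y := by
    intro x hx y hy
    obtain ⟨hyH, hz⟩ := (hmem y).mp hy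
    rw [hmem]
    refine ⟨H.mul_mem (H.mul_mem hx hyH) (H.inv_mem hx), ?_⟩
    have : π ⟨x * y * x⁻¹, H.mul_mem (H.mul_mem hx hyH) (H.inv_mem hx)⟩
        = π ⟨x, hx⟩ * π ⟨y, hyH⟩ * (π ⟨x, hx⟩)⁻¹ := by
      rw [← map_inv, ← map_mul, ← map_mul]; rfl
    rw [this]
    exact hZ.conj_mem _ hz _
  rcases h Y h1 h2 h3 with hYN | hYH
  · left
    rw [eq_bot_iff]
    intro z hz
    obtain ⟨a, rfl⟩ := hπs z
    have : (a : G) ∈ Y := (hmem _).mpr ⟨a.2, hz⟩
    rw [hYN] at this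
    rw [Subgroup.mem_bot, hπ, QuotientGroup.mk'_apply, QuotientGroup.eq_one_iff]
    exact this
  · right
    rw [eq_top_iff]
    intro z _
    obtain ⟨a, rfl⟩ := hπs z
    have : (a : G) ∈ Y := by rw [hYH]; exact a.2
    obtain ⟨_, hz⟩ := (hmem _).mp this
    exact hz

/-- piece `Quot`: Lagrange. -/
theorem card_quot {G : Type*} [Group G] (N H : Subgroup G) (hle : N ≤ H) :
    Nat.card H = Nat.card (↥H ⧸ N.subgroupOf H) * Nat.card N := by
  rw [Subgroup.card_eq_card_quotient_mul_card_subgroup (N.subgroupOf H),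
    Nat.card_congr (Subgroup.subgroupOfEquivOfLe hle).toEquiv]

end Cfsg.Agent.Lib.H78AsQuot
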