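import Mathlib

set_option autoImplicit false

namespace Cfsg.Agent.Lib.H78AsSimA

open scoped Pointwise

/-- piece `SimA` (PURE Mathlib, 60m).  Cauchy: `y ∈ Y` of order `s`; `R = zpowers y` has order `s`, the full `s`-part of `|G|`.
Let `K = Subgroup.normalClosure {y}` (normal in `G`).  CLAIM `K ≤ Y`: for `g : G`, `g y g⁻¹ ∈ H` (`H` normal); `zpowers y` and `zpowers (g y g⁻¹)` are
Sylow `s`-subgroups of `H` (order `s`, `v_s |H| ≤ v_s |G| = 1`), hence conjugate by an element `h ∈ H` (Sylow's theorem in the group `↥H`,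
`Sylow.ofCard`, `MulAction.exists_smul_eq`), so `g y g⁻¹ ∈ h (zpowers y) h⁻¹ ⊆ Y` by `hYn`.  (`Subgroup.normalClosure_le_normal` does not apply as `Y` is not normal
in `G`: use `Subgroup.normalClosure = closure (conjugatesOfSet _)` and `Subgroup.closure_le`, `Group.mem_conjugatesOfSet_iff`, `isConj_iff`.)
Then `K ⊔ N` is normal in `G`, `N < K ⊔ N` (`y ∉ N` since `s ∤ |N|`: `orderOf_dvd_natCard`), `K ⊔ N ≤ Y ≤ H`, so `K ⊔ N = H` by `hmin`, and `Y = H`. -/
theorem eq_top_of_dvd {G : Type*} [Group G] [Finite G] (N H : Subgroup G) [N.Normal] [H.Normal]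
    (hmin : ∀ L : Subgroup G, L.Normal → N < L → L ≤ H → L = H) {s : ℕ} (hs : s.Prime)
    (hs1 : (Nat.card G).factorization s = 1) (hsN : ¬ s ∣ Nat.card N)
    (Y : Subgroup G) (hNY : N ≤ Y) (hYH : Y ≤ H) (hYn : ∀ x ∈ H, ∀ y ∈ Y, x * y * x⁻¹ ∈ Y)
    (hsY : s ∣ Nat.card Y) : Y = H := by
  haveI : Fact s.Prime := ⟨hs⟩
  obtain ⟨y, hy⟩ := exists_prime_orderOf_dvd_card' (G := Y) s hsY
  have hy0 : orderOf (y : G) = s := by rw [Subgroup.orderOf_coe, hy]
  have hyH : (y : G) ∈ H := hYH y.2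
  have hfac : (Nat.card H).factorization s = 1 := by
    apply le_antisymm
    · rw [← hs1]
      exact (Nat.factorization_le_iff_dvd Nat.card_pos.ne' Nat.card_pos.ne').2
        (Subgroup.card_subgroup_dvd_card H) s
    · have h1 : s ∣ Nat.card H := by
        have := orderOf_dvd_natCard (⟨(y : G), hyH⟩ : H)
        rwa [← Subgroup.orderOf_coe, hy0] at this
      exact (hs.dvd_iff_one_le_factorization Nat.card_pos.ne').1 h1
  have hclaim : ∀ g : G, g * (y : G) * g⁻¹ ∈ Y := by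
    intro g
    have hzH : g * (y : G) * g⁻¹ ∈ H := ‹H.Normal›.conj_mem _ hyH g
    have hc1 : Nat.card (Subgroup.zpowers (⟨(y : G), hyH⟩ : H))
        = s ^ (Nat.card H).factorization s := by
      rw [hfac, pow_one, Nat.card_zpowers, ← Subgroup.orderOf_coe, hy0]
    have hc2 : Nat.card (Subgroup.zpowers (⟨g * (y : G) * g⁻¹, hzH⟩ : H))
        = s ^ (Nat.card H).factorization s := by
      rw [hfac, pow_one, Nat.card_zpowers, ← Subgroup.orderOf_coe]
      show orderOf (g * (y : G) * g⁻¹) = s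
      rw [← hy0]
      exact orderOf_injective (MulAut.conj g).toMonoidHom (MulAut.conj g).injective (y : G)
    obtain ⟨h, hh⟩ := MulAction.exists_smul_eq H (Sylow.ofCard _ hc1) (Sylow.ofCard _ hc2)
    have h1 : (⟨g * (y : G) * g⁻¹, hzH⟩ : H) ∈ (Sylow.ofCard _ hc2 : Sylow s H) := by
      show _ ∈ ((Sylow.ofCard _ hc2 : Sylow s H) : Subgroup H)
      rw [Sylow.coe_ofCard]
      exact Subgroup.mem_zpowers _
    rw [← hh] at h1
    have h2 : (⟨g * (y : G) * g⁻¹, hzH⟩ : H)
        ∈ (MulAut.conj h • ((Sylow.ofCard _ hc1 : Sylow s H) : Subgroup H)) := by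
      rw [← Sylow.coe_subgroup_smul]
      exact h1
    rw [Sylow.coe_ofCard] at h2
    obtain ⟨w, hw, hwe⟩ := Subgroup.mem_smul_pointwise_iff_exists _ _ _ |>.1 h2
    obtain ⟨i, rfl⟩ := Subgroup.mem_zpowers_iff.1 hw
    have h3 := congrArg (Subtype.val) hwe
    simp only [MulAut.smul_def, MulAut.conj_apply, Subgroup.coe_mul, Subgroup.coe_zpow,
      Subgroup.coe_inv] at h3
    rw [← h3]
    exact hYn _ h.2 _ (Y.zpow_mem y.2 i)
  have hK : Subgroup.normalClosure {(y : G)} ≤ Y := by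
    unfold Subgroup.normalClosure
    rw [Subgroup.closure_le]
    intro x hx
    obtain ⟨a, ha, hax⟩ := Group.mem_conjugatesOfSet_iff.1 hx
    rw [Set.mem_singleton_iff] at ha
    subst ha
    obtain ⟨c, rfl⟩ := isConj_iff.1 hax
    exact hclaim c
  have hyN : (y : G) ∉ N := by
    intro h
    apply hsN
    have := orderOf_dvd_natCard (⟨(y : G), h⟩ : N)
    rwa [← Subgroup.orderOf_coe, hy0] at this
  have hlt : N < Subgroup.normalClosure {(y : G)} ⊔ N := by
    refine lt_of_le_of_ne le_sup_right (fun e => hyN ?_)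
    rw [e]
    exact Subgroup.mem_sup_left (Subgroup.subset_normalClosure (Set.mem_singleton _))
  have hle : Subgroup.normalClosure {(y : G)} ⊔ N ≤ Y := sup_le hK hNY
  have := hmin _ inferInstance hlt (hle.trans hYH)
  exact le_antisymm hYH (this ▸ hle)

end Cfsg.Agent.Lib.H78AsSimA
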