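import Mathlib

set_option autoImplicit false

namespace Cfsg.Agent.Lib.H78AsSmall

theorem aux (n a r p : ℕ) (hr : r.Prime) (hp : p.Prime) (h1 : a ≤ n) (h2 : n < r) (h3 : r < p)
    (h4 : p ≤ 2 * a) : ∃ r p : ℕ, r.Prime ∧ p.Prime ∧ n < r ∧ r < p ∧ p ≤ 2 * n :=
  ⟨r, p, hr, hp, h2, h3, by omega⟩

/-- piece `Small` (PURE Mathlib). -/
theorem two_primes_small (n : ℕ) (h6 : 6 ≤ n) (h : n < 512) :
    ∃ r p : ℕ, r.Prime ∧ p.Prime ∧ n < r ∧ r < p ∧ p ≤ 2 * n := by
  rcases lt_or_ge n 7 with h7 | h7
  · exact aux n 6 7 11 (by norm_num) (by norm_num) h6 h7 (by norm_num) (by norm_num)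
  rcases lt_or_ge n 11 with h11 | h11
  · exact aux n 7 11 13 (by norm_num) (by norm_num) h7 h11 (by norm_num) (by norm_num)
  rcases lt_or_ge n 13 with h13 | h13
  · exact aux n 11 13 19 (by norm_num) (by norm_num) h11 h13 (by norm_num) (by norm_num)
  rcases lt_or_ge n 19 with h19 | h19
  · exact aux n 13 19 23 (by norm_num) (by norm_num) h13 h19 (by norm_num) (by norm_num)
  rcases lt_or_ge n 23 with h23 | h23
  · exact aux n 19 23 37 (by norm_num) (by norm_num) h19 h23 (by norm_num) (by norm_num)
  rcases lt_or_ge n 37 with h37 | h37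
  · exact aux n 23 37 43 (by norm_num) (by norm_num) h23 h37 (by norm_num) (by norm_num)
  rcases lt_or_ge n 43 with h43 | h43
  · exact aux n 37 43 73 (by norm_num) (by norm_num) h37 h43 (by norm_num) (by norm_num)
  rcases lt_or_ge n 73 with h73 | h73
  · exact aux n 43 73 83 (by norm_num) (by norm_num) h43 h73 (by norm_num) (by norm_num)
  rcases lt_or_ge n 83 with h83 | h83
  · exact aux n 73 83 139 (by norm_num) (by norm_num) h73 h83 (by norm_num) (by norm_num)
  rcases lt_or_ge n 139 with h139 | h139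
  · exact aux n 83 139 163 (by norm_num) (by norm_num) h83 h139 (by norm_num) (by norm_num)
  rcases lt_or_ge n 163 with h163 | h163
  · exact aux n 139 163 277 (by norm_num) (by norm_num) h139 h163 (by norm_num) (by norm_num)
  rcases lt_or_ge n 277 with h277 | h277
  · exact aux n 163 277 317 (by norm_num) (by norm_num) h163 h277 (by norm_num) (by norm_num)
  rcases lt_or_ge n 317 with h317 | h317
  · exact aux n 277 317 547 (by norm_num) (by norm_num) h277 h317 (by norm_num) (by norm_num)
  · exact aux n 317 547 631 (by norm_num) (by norm_num) h317 (by omega) (by norm_num) (by norm_num)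

end Cfsg.Agent.Lib.H78AsSmall
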