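import Mathlib

set_option autoImplicit false

namespace Cfsg.Agent.Lib.H78AsSplit

/-- piece `Split`. -/
theorem split {m p r : ℕ} (hp : p.Prime) (hr : r.Prime) (hne : p ≠ r)
    (h1 : m.factorization p = 1) (h2 : m.factorization r = 1) :
    ∃ k : ℕ, m = p * r * k ∧ (p * r).Coprime k := by
  have hm0 : m ≠ 0 := by
    rintro rfl
    simp at h1
  have hpm : p ∣ m := Nat.dvd_of_factorization_pos (by rw [h1]; exact one_ne_zero)
  have hrm : r ∣ m := Nat.dvd_of_factorization_pos (by rw [h2]; exact one_ne_zero)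
  have hcop : p.Coprime r := (Nat.coprime_primes hp hr).2 hne
  obtain ⟨k, hk⟩ := hcop.mul_dvd_of_dvd_of_dvd hpm hrm
  refine ⟨k, hk, Nat.Coprime.mul_left ?_ ?_⟩
  · rw [hp.coprime_iff_not_dvd]
    rintro ⟨c, rfl⟩
    have h3 : p ^ 2 ∣ m := ⟨r * c, by rw [hk]; ring⟩
    have h4 := (hp.pow_dvd_iff_le_factorization hm0).1 h3
    omega
  · rw [hr.coprime_iff_not_dvd]
    rintro ⟨c, rfl⟩
    have h3 : r ^ 2 ∣ m := ⟨p * c, by rw [hk]; ring⟩
    have h4 := (hr.pow_dvd_iff_le_factorization hm0).1 h3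
    omega

end Cfsg.Agent.Lib.H78AsSplit
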