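import Mathlib
import Cfsg.Agent.Lib.H78AsLarge
import Cfsg.Agent.Lib.H78AsSmall

set_option autoImplicit false

namespace Cfsg.Agent.Lib.H78AsTwoP

/-- two primes in `(m, 2m]` for `m ≥ 6`. -/
theorem two_primes_mid (m : ℕ) (h6 : 6 ≤ m) :
    ∃ r p : ℕ, r.Prime ∧ p.Prime ∧ m < r ∧ r < p ∧ p ≤ 2 * m := by
  rcases lt_or_ge m 512 with h | h
  · exact H78AsSmall.two_primes_small m h6 h
  · exact H78AsLarge.two_primes_large m h

/-- two primes in `(n/2, n]`. -/
theorem two_primes (n : ℕ) (h5 : 5 ≤ n) (h6 : n ≠ 6) (h10 : n ≠ 10) :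
    ∃ r p : ℕ, r.Prime ∧ p.Prime ∧ n < 2 * r ∧ r < p ∧ p ≤ n := by
  rcases lt_or_ge n 12 with h | h
  · have h7 : n = 5 ∨ n = 7 ∨ n = 8 ∨ n = 9 ∨ n = 11 := by omega
    rcases h7 with rfl | rfl | rfl | rfl | rfl
    · exact ⟨3, 5, by norm_num, by norm_num, by norm_num, by norm_num, by norm_num⟩
    · exact ⟨5, 7, by norm_num, by norm_num, by norm_num, by norm_num, by norm_num⟩
    · exact ⟨5, 7, by norm_num, by norm_num, by norm_num, by norm_num, by norm_num⟩
    · exact ⟨5, 7, by norm_num, by norm_num, by norm_num, by norm_num, by norm_num⟩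
    · exact ⟨7, 11, by norm_num, by norm_num, by norm_num, by norm_num, by norm_num⟩
  · obtain ⟨r, p, hr, hp, h1, h2, h3⟩ := two_primes_mid (n / 2) (by omega)
    exact ⟨r, p, hr, hp, by omega, h2, by omega⟩

/-- `r ∤ p - 1` for primes in `(n/2, n]`. -/
theorem not_dvd {n p r : ℕ} (h5 : 5 ≤ n) (hp : p.Prime) (hr : r.Prime) (h1 : n < 2 * r)
    (h2 : p ≤ n) : ¬ r ∣ p - 1 := by
  rintro ⟨c, hc⟩
  have hp2 := hp.two_le
  rcases Nat.lt_or_ge c 2 with h | h
  · interval_cases c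
    · omega
    · -- p = r + 1
      have hpr : p = r + 1 := by omega
      rcases hr.eq_two_or_odd' with h2' | hodd
      · omega
      · have hev : Even p := by rw [hpr]; exact hodd.add_one
        have := hp.even_iff.mp hev
        omega
  · have : 2 * r ≤ r * c := by nlinarith
    omega

/-- primes in `(n/2, n]`, `n ≥ 5`, are odd. -/
theorem ne_two {n r : ℕ} (h5 : 5 ≤ n) (h1 : n < 2 * r) : r ≠ 2 := by omega

end Cfsg.Agent.Lib.H78AsTwoP
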