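import Mathlib

/-!
# Project 4647 (row S4647: a block of minimal dimension is nilpotent), vocabulary

`k` a field, `G` a finite group, `W = G → k` (the group algebra as a space of functions).
`act s t` is the action of `(s, t)` on `W` (`δ_g ↦ δ_{s g t⁻¹}`), `Lam S` the algebra of
endomorphisms of `W` which commute with `act s t` for `s t ∈ S`, `cv ε` the left multiplication
by `ε`, `dc S y = S y S`, `pr S y` the projection of `W` onto the functions supported on `S y S`.
-/

set_option autoImplicit false

namespace Cfsg.Agent.Lib.H80DMDefs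

variable {k G : Type*} [Field k] [Group G]

/-- `(act s t f) g = f (s⁻¹ * g * t)`. -/
def act (k : Type*) [Field k] (s t : G) : Module.End k (G → k) :=
  LinearMap.funLeft k k (fun g => s⁻¹ * g * t)

/-- the endomorphisms commuting with `act s t`, `s t ∈ S`. -/
def Lam (k : Type*) [Field k] (S : Subgroup G) : Subalgebra k (Module.End k (G → k)) :=
  Subalgebra.centralizer k {φ | ∃ s ∈ S, ∃ t ∈ S, φ = act k s t}

/-- left multiplication (convolution) by `ε`. -/
def cv [Fintype G] (ε : G → k) : Module.End k (G → k) where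
  toFun f := fun g => ∑ h, ε h * f (h⁻¹ * g)
  map_add' f f' := by
    funext g
    simp [mul_add, Finset.sum_add_distrib]
  map_smul' c f := by
    funext g
    simp [Finset.mul_sum, mul_left_comm]

/-- the double coset `S y S`. -/
def dc (S : Subgroup G) (y : G) : Set G := {g | ∃ s ∈ S, ∃ t ∈ S, g = s * y * t}

open Classical in
/-- the projection onto the functions supported on `S y S`. -/
noncomputable def pr (k : Type*) [Field k] (S : Subgroup G) (y : G) : Module.End k (G → k) where
  toFun f := fun g => if g ∈ dc S y then f g else 0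
  map_add' f f' := by
    funext g
    by_cases h : g ∈ dc S y <;> simp [h]
  map_smul' c f := by
    funext g
    by_cases h : g ∈ dc S y <;> simp [h]

/-- `S ∩ y S y⁻¹`. -/
def qq (S : Subgroup G) (y : G) : Subgroup G := S ⊓ (S.map (MulAut.conj y).toMonoidHom)

/-- `ε` does not vanish on `C_G(Q)`. -/
def NV (ε : G → k) (Q : Subgroup G) : Prop := ∃ c : G, (∀ u ∈ Q, c * u = u * c) ∧ ε c ≠ 0

/-- the fixed point property of the double coset `S y S`. -/
def FPP (S : Subgroup G) (ε : G → k) (y : G) : Prop :=
  ∀ (Q : Subgroup G), Q ≤ S → NV ε Q → ∀ x : G, (∀ u ∈ Q, x⁻¹ * u * x ∈ Q) →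
    ∃ g ∈ dc S y, ∀ u ∈ Q, g⁻¹ * u * g = x⁻¹ * u * x

end Cfsg.Agent.Lib.H80DMDefs
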