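import Mathlib
import Cfsg.Agent.Lib.H80DMDefs

set_option autoImplicit false

namespace Cfsg.Agent.Lib.H80DMACT
open Cfsg.Agent.Lib.H80DMDefs

variable {k G : Type*} [Field k] [Group G]

theorem act_apply (s t : G) (f : G → k) (g : G) : act k s t f g = f (s⁻¹ * g * t) := rfl

theorem act_mul (s s' t t' : G) : act k (s * s') (t * t') = act k s t * act k s' t' := by
  apply LinearMap.ext
  intro f
  funext g
  rw [Module.End.mul_apply, act_apply, act_apply, act_apply]
  congr 1
  group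

theorem act_one : act k (1 : G) 1 = 1 := by
  apply LinearMap.ext
  intro f
  funext g
  rw [act_apply]
  simp

theorem act_single [DecidableEq G] (s t g : G) (c : k) :
    act k s t (Pi.single g c) = Pi.single (s * g * t⁻¹) c := by
  funext z
  rw [act_apply]
  by_cases h : z = s * g * t⁻¹
  · subst h
    have : s⁻¹ * (s * g * t⁻¹) * t = g := by group
    rw [this]
    simp
  · have h2 : s⁻¹ * z * t ≠ g := by
      intro h3
      apply h
      rw [← h3]
      group
    rw [Pi.single_eq_of_ne h2, Pi.single_eq_of_ne h]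

theorem mem_Lam (S : Subgroup G) (φ : Module.End k (G → k)) :
    φ ∈ Lam k S ↔ ∀ s ∈ S, ∀ t ∈ S, ∀ f, φ (act k s t f) = act k s t (φ f) := by
  unfold Lam
  rw [Subalgebra.mem_centralizer_iff]
  constructor
  · intro h s hs t ht f
    have := h (act k s t) ⟨s, hs, t, ht, rfl⟩
    exact (LinearMap.congr_fun this f).symm
  · rintro h _ ⟨s, hs, t, ht, rfl⟩
    apply LinearMap.ext
    intro f
    exact (h s hs t ht f).symm

theorem cv_apply [Fintype G] (ε f : G → k) (g : G) : cv ε f g = ∑ h, ε h * f (h⁻¹ * g) := rfl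

theorem cv_mem_Lam [Fintype G] (S : Subgroup G) (ε : G → k)
    (hεc : ∀ g h, ε (h * g * h⁻¹) = ε g) : cv ε ∈ Lam k S := by
  rw [mem_Lam]
  intro s _ t _ f
  funext g
  rw [act_apply, cv_apply, cv_apply]
  refine Fintype.sum_equiv (MulAut.conj s⁻¹).toEquiv _ _ ?_
  intro h
  simp only [MulEquiv.toEquiv_eq_coe, EquivLike.coe_coe, MulAut.conj_apply, inv_inv]
  have e1 : ε (s⁻¹ * h * s) = ε h := by
    have := hεc h s⁻¹
    rwa [inv_inv] at this
  rw [act_apply, e1]
  congr 2
  group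

theorem cv_idem [Fintype G] (ε : G → k) (hεi : ∀ g, ∑ h, ε h * ε (h⁻¹ * g) = ε g) :
    cv ε * cv ε = cv ε := by
  apply LinearMap.ext
  intro f
  funext g
  rw [Module.End.mul_apply, cv_apply, cv_apply]
  simp only [cv_apply, Finset.mul_sum]
  have : ∀ u, ε u * f (u⁻¹ * g) = ∑ h, ε h * ε (h⁻¹ * u) * f (u⁻¹ * g) := by
    intro u
    rw [← Finset.sum_mul, hεi]
  simp only [this]
  rw [Finset.sum_comm (f := fun u h => ε h * ε (h⁻¹ * u) * f (u⁻¹ * g))]
  refine Finset.sum_congr rfl (fun h _ => ?_)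
  refine Fintype.sum_equiv (Equiv.mulLeft h) _ _ ?_
  intro h'
  simp only [Equiv.coe_mulLeft]
  rw [inv_mul_cancel_left, mul_inv_rev, mul_assoc, mul_assoc]

theorem cv_single [Fintype G] [DecidableEq G] (ε : G → k) (x : G) :
    cv ε (Pi.single x 1) = fun z => ε (z * x⁻¹) := by
  funext z
  rw [cv_apply, Finset.sum_eq_single (z * x⁻¹)]
  · have : (z * x⁻¹)⁻¹ * z = x := by group
    rw [this]
    simp
  · intro h _ hh
    have : h⁻¹ * z ≠ x := by
      intro h3
      apply hh
      rw [← h3]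
      group
    rw [Pi.single_eq_of_ne this, mul_zero]
  · intro h
    exact absurd (Finset.mem_univ _) h

theorem cv_ne_zero [Fintype G] (ε : G → k) (hε0 : ε ≠ 0) : cv ε ≠ 0 := by
  classical
  intro h
  apply hε0
  funext z
  have := congrFun (cv_single ε (1 : G)) z
  rw [h] at this
  simpa using this.symm

/-- `cv ε w = ∑ g, ε g • (left translate of w by g)`. -/
theorem cv_eq_sum_act [Fintype G] (ε w : G → k) : cv ε w = ∑ g, ε g • act k g 1 w := by
  funext z
  rw [cv_apply, Finset.sum_apply]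
  refine Finset.sum_congr rfl (fun g _ => ?_)
  rw [Pi.smul_apply, act_apply, mul_one, smul_eq_mul]

theorem pr_apply_mem (S : Subgroup G) (y : G) (f : G → k) {g : G} (hg : g ∈ dc S y) :
    pr k S y f g = f g := by
  classical
  show (if g ∈ dc S y then f g else 0) = f g
  rw [if_pos hg]

theorem pr_apply_not_mem (S : Subgroup G) (y : G) (f : G → k) {g : G} (hg : g ∉ dc S y) :
    pr k S y f g = 0 := by
  classical
  show (if g ∈ dc S y then f g else 0) = 0
  rw [if_neg hg]

theorem self_mem_dc (S : Subgroup G) (y : G) : y ∈ dc S y :=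
  ⟨1, S.one_mem, 1, S.one_mem, by simp⟩

theorem mul_mem_dc (S : Subgroup G) (y : G) {g s t : G} (hs : s ∈ S) (ht : t ∈ S) :
    s * g * t ∈ dc S y ↔ g ∈ dc S y := by
  constructor
  · rintro ⟨a, ha, b, hb, h⟩
    refine ⟨s⁻¹ * a, S.mul_mem (S.inv_mem hs) ha, b * t⁻¹, S.mul_mem hb (S.inv_mem ht), ?_⟩
    have : g = s⁻¹ * (s * g * t) * t⁻¹ := by group
    rw [this, h]
    group
  · rintro ⟨a, ha, b, hb, rfl⟩
    exact ⟨s * a, S.mul_mem hs ha, b * t, S.mul_mem hb ht, by group⟩

theorem dc_eq_of_mem (S : Subgroup G) {y g : G} (hg : g ∈ dc S y) : dc S g = dc S y := by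
  obtain ⟨a, ha, b, hb, rfl⟩ := hg
  ext z
  constructor
  · rintro ⟨s, hs, t, ht, rfl⟩
    exact ⟨s * a, S.mul_mem hs ha, b * t, S.mul_mem hb ht, by group⟩
  · rintro ⟨s, hs, t, ht, rfl⟩
    exact ⟨s * a⁻¹, S.mul_mem hs (S.inv_mem ha), b⁻¹ * t, S.mul_mem (S.inv_mem hb) ht, by group⟩

theorem pr_mem_Lam (S : Subgroup G) (y : G) : pr k S y ∈ Lam k S := by
  rw [mem_Lam]
  intro s hs t ht f
  funext g
  rw [act_apply]
  by_cases hg : g ∈ dc S y
  · rw [pr_apply_mem S y _ hg, pr_apply_mem S y _ ((mul_mem_dc S y (S.inv_mem hs) ht).mpr hg),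
      act_apply]
  · rw [pr_apply_not_mem S y _ hg,
      pr_apply_not_mem S y _ (fun h => hg ((mul_mem_dc S y (S.inv_mem hs) ht).mp h))]

theorem pr_idem (S : Subgroup G) (y : G) : pr k S y * pr k S y = pr k S y := by
  apply LinearMap.ext
  intro f
  funext g
  rw [Module.End.mul_apply]
  by_cases hg : g ∈ dc S y
  · rw [pr_apply_mem S y _ hg]
  · rw [pr_apply_not_mem S y _ hg, pr_apply_not_mem S y _ hg]

theorem pr_single_self [DecidableEq G] (S : Subgroup G) (y : G) :
    pr k S y (Pi.single y 1) = Pi.single y 1 := by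
  funext g
  by_cases hg : g ∈ dc S y
  · rw [pr_apply_mem S y _ hg]
  · rw [pr_apply_not_mem S y _ hg]
    have : g ≠ y := fun h => hg (h ▸ self_mem_dc S y)
    rw [Pi.single_eq_of_ne this]

theorem apply_eq_sum [Fintype G] [DecidableEq G] (φ : Module.End k (G → k)) (v : G → k) (z : G) :
    φ v z = ∑ ω, v ω * φ (Pi.single ω 1) z := by
  have h : v = ∑ ω, v ω • (Pi.single ω (1 : k) : G → k) := by
    funext g
    rw [Finset.sum_apply, Finset.sum_eq_single g]
    · simp
    · intro b _ hb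
      rw [Pi.smul_apply, Pi.single_eq_of_ne (Ne.symm hb), smul_zero]
    · intro h
      exact absurd (Finset.mem_univ _) h
  conv_lhs => rw [h]
  rw [map_sum, Finset.sum_apply]
  refine Finset.sum_congr rfl (fun ω _ => ?_)
  rw [map_smul, Pi.smul_apply, smul_eq_mul]

end Cfsg.Agent.Lib.H80DMACT
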