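import Mathlib

set_option autoImplicit false

namespace Cfsg.Agent.Lib.H80DMOS

theorem os {k R Ω : Type*} [Field k] (p : ℕ) [Fact p.Prime] [CharP k p] [Group R] [Finite R]
    (hR : IsPGroup p R) [Fintype Ω] (a : R →* Equiv.Perm Ω) (F : Ω → k)
    (hF : ∀ r ω, F (a r ω) = F ω) (hne : ∑ ω, F ω ≠ 0) :
    ∃ ω, (∀ r, a r ω = ω) ∧ F ω ≠ 0 := by
  classical
  by_contra hcon
  push Not at hcon
  apply hne
  rw [← Finset.sum_fiberwise_of_maps_to (s := Finset.univ) (t := Finset.univ.image F) (g := F)
    (f := F) (fun x _ => Finset.mem_image_of_mem _ (Finset.mem_univ _))]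
  apply Finset.sum_eq_zero
  intro c _
  rw [Finset.sum_congr rfl (fun x hx => (Finset.mem_filter.mp hx).2), Finset.sum_const]
  by_cases hc : c = 0
  · simp [hc]
  have hdvd : p ∣ (Finset.univ.filter (fun ω => F ω = c)).card := by
    let _ : MulAction R {ω // F ω = c} :=
      { smul := fun r ω => ⟨a r ω.1, by rw [hF]; exact ω.2⟩
        one_smul := fun ω => by
          apply Subtype.ext
          show a 1 ω.1 = ω.1
          rw [map_one]; rfl
        mul_smul := fun r s ω => by
          apply Subtype.ext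
          show a (r * s) ω.1 = a r (a s ω.1)
          rw [map_mul]; rfl }
    have h := hR.card_modEq_card_fixedPoints {ω // F ω = c}
    have hempty : IsEmpty (MulAction.fixedPoints R {ω // F ω = c}) :=
      ⟨fun ⟨ω, hω⟩ => hc (by
        rw [← ω.2]
        exact hcon ω.1 (fun r => congrArg Subtype.val (hω r)))⟩
    rw [@Nat.card_of_isEmpty _ hempty] at h
    have h2 := (Nat.modEq_zero_iff_dvd).mp h
    rwa [Nat.card_eq_fintype_card, Fintype.card_subtype] at h2
  obtain ⟨m, hm⟩ := hdvd
  rw [hm, nsmul_eq_mul, Nat.cast_mul, CharP.cast_eq_zero, zero_mul, zero_mul]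

end Cfsg.Agent.Lib.H80DMOS
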