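import Mathlib
import Cfsg.Agent.Lib.H80DMDefs
import Cfsg.Agent.Lib.H80DMACT
import Cfsg.Agent.Lib.H80DMOS

set_option autoImplicit false

namespace Cfsg.Agent.Lib.H80DMFP
open Cfsg.Agent.Lib.H80DMDefs Cfsg.Agent.Lib.H80DMACT

variable {k G : Type*} [Field k] [Group G]

theorem fp [Fintype G] (p : ℕ) [Fact p.Prime] [CharP k p] (S : Subgroup G) (hS : IsPGroup p S)
    (ε : G → k) (hεc : ∀ g h, ε (h * g * h⁻¹) = ε g)
    (hεi : ∀ g, ∑ h, ε h * ε (h⁻¹ * g) = ε g) (X Y : Module.End k (G → k)) (y : G)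
    (hX : X ∈ Lam k S) (hY : Y ∈ Lam k S) (hXY : X * Y = cv ε) (hYX : Y * X = pr k S y) :
    FPP S ε y := by
  classical
  intro Q hQS hNV x hx
  obtain ⟨c, hc, hc0⟩ := hNV
  have hEE : cv ε * cv ε = cv ε := cv_idem ε hεi
  set δ : G → k := Pi.single x 1 with hδ
  set v : G → k := pr k S y (Y δ) with hv
  have hXv : X v = cv ε δ := by
    have e1 : X v = ((X * Y) * (X * Y)) δ := by
      rw [hv, ← hYX]
      rfl
    rw [e1, hXY, hEE]
  have hm : (X v) (c * x) = ε c := by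
    rw [hXv, hδ, cv_single]
    simp
  let F : G → k := fun ω => v ω * (X (Pi.single ω 1)) (c * x)
  have hsum : ∑ ω, F ω = ε c := by
    rw [← hm, apply_eq_sum X v (c * x)]
  let a : ↥Q →* Equiv.Perm G :=
    { toFun := fun u => (Equiv.mulLeft (u : G)).trans (Equiv.mulRight (x⁻¹ * (u : G) * x)⁻¹)
      map_one' := by
        ext ω
        simp
      map_mul' := fun u u' => by
        ext ω
        simp only [Equiv.trans_apply, Equiv.coe_mulLeft, Equiv.coe_mulRight, Subgroup.coe_mul,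
          Equiv.Perm.coe_mul, Function.comp_apply]
        group }
  have ha : ∀ (u : ↥Q) (ω : G), a u ω = (u : G) * ω * (x⁻¹ * (u : G) * x)⁻¹ := fun u ω => rfl
  have hF : ∀ (u : ↥Q) (ω : G), F (a u ω) = F ω := by
    intro u ω
    have hu : (u : G) ∈ S := hQS u.2
    have hu' : x⁻¹ * (u : G) * x ∈ S := hQS (hx u u.2)
    rw [ha]
    have hδfix : act k (u : G) (x⁻¹ * (u : G) * x) δ = δ := by
      rw [hδ, act_single]
      congr 1
      group
    have hvfix : act k (u : G) (x⁻¹ * (u : G) * x) v = v := by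
      rw [hv, ← (mem_Lam S _).1 (pr_mem_Lam S y) _ hu _ hu', ← (mem_Lam S _).1 hY _ hu _ hu', hδfix]
    have h1 : v ((u : G) * ω * (x⁻¹ * (u : G) * x)⁻¹) = v ω := by
      have h2 := congrFun hvfix ((u : G) * ω * (x⁻¹ * (u : G) * x)⁻¹)
      rw [act_apply] at h2
      rw [← h2]
      congr 1
      group
    have h3 : (X (Pi.single ((u : G) * ω * (x⁻¹ * (u : G) * x)⁻¹) 1)) (c * x)
        = (X (Pi.single ω 1)) (c * x) := by
      rw [← act_single, (mem_Lam S _).1 hX _ hu _ hu', act_apply]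
      have h4 : (u : G)⁻¹ * (c * x) * (x⁻¹ * (u : G) * x) = (u : G)⁻¹ * (c * (u : G)) * x := by
        group
      rw [h4, hc u u.2]
      group
    show v ((u : G) * ω * (x⁻¹ * (u : G) * x)⁻¹)
      * (X (Pi.single ((u : G) * ω * (x⁻¹ * (u : G) * x)⁻¹) 1)) (c * x) = v ω * (X (Pi.single ω 1)) (c * x)
    rw [h1, h3]
  have hR : IsPGroup p ↥Q := hS.to_le hQS
  obtain ⟨ω, hω, hFω⟩ := Cfsg.Agent.Lib.H80DMOS.os p hR a F hF (by rw [hsum]; exact hc0)
  have hvω : v ω ≠ 0 := left_ne_zero_of_mul hFω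
  refine ⟨ω, ?_, ?_⟩
  · by_contra hn
    exact hvω (pr_apply_not_mem S y _ hn)
  · intro u hu
    have h1 := hω ⟨u, hu⟩
    rw [ha] at h1
    have h2 : u * ω * (x⁻¹ * u * x)⁻¹ = ω := h1
    have h3 : u * ω = ω * (x⁻¹ * u * x) := mul_inv_eq_iff_eq_mul.1 h2
    calc ω⁻¹ * u * ω = ω⁻¹ * (u * ω) := by group
      _ = x⁻¹ * u * x := by rw [h3]; group

end Cfsg.Agent.Lib.H80DMFP
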