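import Mathlib
import Cfsg.Agent.Lib.Helper80IdemDefs

set_option autoImplicit false

namespace Cfsg.Agent.Lib.H80DMHSK
open Cfsg.Agent.Lib.Helper80IdemDefs

theorem hs {k : Type*} [Field k] [IsAlgClosed k] : HS k := by
  intro f hf
  exact ⟨f.roots, (IsAlgClosed.splits f).eq_prod_roots_of_monic hf⟩

theorem mem_mA {k A : Type*} [Field k] [Ring A] [Algebra k A] (x : A) : x ∈ mA k A ↔ x = 0 := by
  unfold mA
  rw [IsLocalRing.maximalIdeal_eq_bot, Submodule.bot_smul, Submodule.mem_bot]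

end Cfsg.Agent.Lib.H80DMHSK
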