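import Mathlib

set_option autoImplicit false

namespace Cfsg.Agent.Lib.H80DMFV

theorem fv {k P V : Type*} [Field k] (p : ℕ) [Fact p.Prime] [CharP k p] [Group P] [Finite P]
    (hP : IsPGroup p P) [AddCommGroup V] [Module k V] (ρ : P →* Module.End k V)
    (U : Submodule k V) (hU : U ≠ ⊥) (hst : ∀ g, ∀ u ∈ U, ρ g u ∈ U) :
    ∃ u ∈ U, u ≠ 0 ∧ ∀ g, ρ g u = u := by
  classical
  have hpp : p.Prime := Fact.out
  obtain ⟨u0, hu0U, hu0⟩ := (Submodule.ne_bot_iff U).mp hU
  obtain ⟨X, hX⟩ : ∃ X : AddSubgroup V, X = AddSubgroup.closure (Set.range (fun g : P => ρ g u0)) :=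
    ⟨_, rfl⟩
  have hXU : X ≤ U.toAddSubgroup := by
    rw [hX, AddSubgroup.closure_le]
    rintro _ ⟨g, rfl⟩
    exact hst g u0 hu0U
  have hu0X : u0 ∈ X := by
    rw [hX]
    apply AddSubgroup.subset_closure
    exact ⟨1, by simp⟩
  have hst' : ∀ g, ∀ x ∈ X, ρ g x ∈ X := by
    intro g x hx
    rw [hX] at hx ⊢
    induction hx using AddSubgroup.closure_induction with
    | mem x hx =>
      obtain ⟨h, rfl⟩ := hx
      apply AddSubgroup.subset_closure
      exact ⟨g * h, by simp [map_mul]⟩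
    | zero => rw [map_zero]; exact AddSubgroup.zero_mem _
    | add x y _ _ hx hy => rw [map_add]; exact AddSubgroup.add_mem _ hx hy
    | neg x _ hx => rw [map_neg]; exact AddSubgroup.neg_mem _ hx
  have hp : ∀ v : V, p • v = 0 := fun v => by
    rw [← Nat.cast_smul_eq_nsmul k, CharP.cast_eq_zero, zero_smul]
  have hfin : Finite X := by
    have hfg : AddGroup.FG X := by
      rw [AddGroup.fg_iff_addSubgroup_fg]
      exact ⟨(Set.finite_range (fun g : P => ρ g u0)).toFinset, by rw [hX]; simp⟩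
    apply AddCommGroup.finite_of_fg_isAddTorsion
    intro x
    rw [isOfFinAddOrder_iff_nsmul_eq_zero]
    exact ⟨p, hpp.pos, by apply Subtype.ext; simp [hp]⟩
  let _ : MulAction P X :=
    { smul := fun g x => ⟨ρ g x.1, hst' g x.1 x.2⟩
      one_smul := fun x => by
        apply Subtype.ext
        show ρ 1 x.1 = x.1
        rw [map_one]; rfl
      mul_smul := fun g h x => by
        apply Subtype.ext
        show ρ (g * h) x.1 = ρ g (ρ h x.1)
        rw [map_mul]; rfl }
  have h := hP.card_modEq_card_fixedPoints X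
  have hdvd : p ∣ Nat.card X := by
    have h1 : addOrderOf (⟨u0, hu0X⟩ : X) = p :=
      addOrderOf_eq_prime (by apply Subtype.ext; simp [hp]) (by
        intro h0
        exact hu0 (congrArg Subtype.val h0))
    rw [← h1]
    exact addOrderOf_dvd_natCard _
  have hdvd2 : p ∣ Nat.card (MulAction.fixedPoints P X) :=
    Nat.modEq_zero_iff_dvd.mp (h.symm.trans (Nat.modEq_zero_iff_dvd.mpr hdvd))
  have hz : (0 : X) ∈ MulAction.fixedPoints P X := by
    intro g
    apply Subtype.ext
    show ρ g (0 : V) = 0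
    rw [map_zero]
  have hpos : 0 < Nat.card (MulAction.fixedPoints P X) := by
    have : Nonempty (MulAction.fixedPoints P X) := ⟨⟨0, hz⟩⟩
    exact Nat.card_pos
  have h2 : 1 < Nat.card (MulAction.fixedPoints P X) := by
    have := Nat.le_of_dvd hpos hdvd2
    have := hpp.two_le
    omega
  have hnt : Nontrivial (MulAction.fixedPoints P X) := Finite.one_lt_card_iff_nontrivial.mp h2
  obtain ⟨⟨x, hx⟩, hne⟩ := exists_ne (⟨0, hz⟩ : MulAction.fixedPoints P X)
  refine ⟨x.1, hXU x.2, ?_, fun g => congrArg Subtype.val (hx g)⟩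
  intro h0
  apply hne
  apply Subtype.ext
  apply Subtype.ext
  exact h0

end Cfsg.Agent.Lib.H80DMFV
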