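import Mathlib
import Cfsg.Agent.Lib.Helper80IdemDefs
import Cfsg.Agent.Lib.H80DMDefs
import Cfsg.Agent.Lib.H80DMACT
import Cfsg.Agent.Lib.H80DMFV

set_option autoImplicit false

namespace Cfsg.Agent.Lib.H80DMPRIM
open Cfsg.Agent.Lib.H80DMDefs Cfsg.Agent.Lib.Helper80IdemDefs Cfsg.Agent.Lib.H80DMACT
  Cfsg.Agent.Lib.H80DMFV

variable {k G : Type*} [Field k] [Group G]

/-- the action of `S × S` as a monoid homomorphism -/
def rho (k : Type*) [Field k] (S : Subgroup G) : (↥S × ↥S) →* Module.End k (G → k) where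
  toFun st := act k (st.1 : G) (st.2 : G)
  map_one' := act_one
  map_mul' _ _ := act_mul _ _ _ _

theorem isPGroup_prod_self (p : ℕ) [Fact p.Prime] (S : Subgroup G) (hS : IsPGroup p S) :
    IsPGroup p (↥S × ↥S) := by
  intro ⟨s, t⟩
  obtain ⟨a, ha⟩ := hS s
  obtain ⟨b, hb⟩ := hS t
  refine ⟨a + b, ?_⟩
  ext1
  · show s ^ (p ^ (a + b)) = 1
    rw [pow_add, pow_mul, ha, one_pow]
  · show t ^ (p ^ (a + b)) = 1
    rw [pow_add, mul_comm, pow_mul, hb, one_pow]

/-- the indicator function of the double coset -/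
noncomputable def sig (k : Type*) [Field k] (S : Subgroup G) (y : G) : G → k :=
  pr k S y (fun _ => 1)

theorem key [Finite G] (p : ℕ) [Fact p.Prime] [CharP k p] (S : Subgroup G) (hS : IsPGroup p S)
    (y : G) (φ : Module.End k (G → k)) (hφ : φ ∈ Lam k S) (hi : φ * φ = φ)
    (hp : pr k S y * φ = φ) (h0 : φ ≠ 0) : φ (sig k S y) = sig k S y := by
  have hU : LinearMap.range φ ≠ ⊥ := by
    intro h
    exact h0 (LinearMap.range_eq_bot.1 h)
  obtain ⟨v, ⟨w, rfl⟩, hv0, hfix⟩ := fv p (isPGroup_prod_self p S hS) (rho k S) (LinearMap.range φ) hU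
    (by
      rintro ⟨s, t⟩ _ ⟨w, rfl⟩
      exact ⟨act k (s : G) (t : G) w, ((mem_Lam S φ).1 hφ s s.2 t t.2 w)⟩)
  have h1 : φ (φ w) = φ w := by
    rw [← Module.End.mul_apply, hi]
  have h2 : pr k S y (φ w) = φ w := by
    rw [← Module.End.mul_apply, hp]
  have h3 : φ w = (φ w y) • sig k S y := by
    funext g
    by_cases hg : g ∈ dc S y
    · obtain ⟨s, hs, t, ht, rfl⟩ := hg
      have h4 := congrFun (hfix (⟨s⁻¹, S.inv_mem hs⟩, ⟨t, ht⟩)) y
      have h5 : rho k S (⟨s⁻¹, S.inv_mem hs⟩, ⟨t, ht⟩) (φ w) y = φ w (s * y * t) := by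
        show act k s⁻¹ t (φ w) y = _
        rw [act_apply, inv_inv]
      rw [h5] at h4
      rw [h4, Pi.smul_apply, sig, pr_apply_mem S y _ ((mul_mem_dc S y hs ht).2 (self_mem_dc S y))]
      simp
    · rw [← h2, pr_apply_not_mem S y _ hg, Pi.smul_apply, sig, pr_apply_not_mem S y _ hg]
      simp
  have h6 : φ w y ≠ 0 := by
    intro h
    rw [h, zero_smul] at h3
    exact hv0 h3
  have h7 : (φ w y) • φ (sig k S y) = (φ w y) • sig k S y := by
    rw [← map_smul, ← h3, h1]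
  exact smul_right_injective _ h6 h7

theorem prim_pr [Finite G] (p : ℕ) [Fact p.Prime] [CharP k p] (S : Subgroup G) (hS : IsPGroup p S)
    (y : G) : Prim (Lam k S) (pr k S y) := by
  classical
  refine ⟨pr_mem_Lam S y, pr_idem S y, ?_, ?_⟩
  · intro h
    have h1 := pr_single_self (k := k) S y
    rw [h] at h1
    have h2 := congrFun h1 y
    simp at h2
  · intro ψ hψ hi h1 h2
    by_contra hcon
    push Not at hcon
    obtain ⟨h0, hne⟩ := hcon
    have hA := key p S hS y ψ hψ hi h1 h0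
    have hB := key p S hS y (pr k S y - ψ) ((Lam k S).sub_mem (pr_mem_Lam S y) hψ)
      (by rw [sub_mul, mul_sub, mul_sub, pr_idem, h1, h2, hi]; abel)
      (by rw [mul_sub, pr_idem, h1]) (fun h => hne (sub_eq_zero.1 h).symm)
    have hC : pr k S y (sig k S y) = sig k S y := by
      rw [sig, ← Module.End.mul_apply, pr_idem]
    rw [LinearMap.sub_apply, hA, hC, sub_self] at hB
    have h3 := congrFun hB y
    rw [sig, pr_apply_mem S y _ (self_mem_dc S y)] at h3
    simp at h3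

end Cfsg.Agent.Lib.H80DMPRIM
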