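import Mathlib
import Cfsg.Agent.Lib.H80DMDefs
import Cfsg.Agent.Lib.H80DMACT

set_option autoImplicit false

namespace Cfsg.Agent.Lib.H80DMPRS
open Cfsg.Agent.Lib.H80DMDefs

variable {k G : Type*} [Field k] [Group G]

theorem exists_reps [Finite G] (S : Subgroup G) :
    ∃ (n : ℕ) (y : Fin n → G), ∑ i, pr k S (y i) = 1 := by
  classical
  have hfin : Finite (Set.range (dc S)) := inferInstance
  let _ : Fintype (Set.range (dc S)) := Fintype.ofFinite _
  let e := Finite.equivFin (Set.range (dc S))
  let y0 : Set.range (dc S) → G := fun D => D.2.choose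
  have hy0 : ∀ D : Set.range (dc S), dc S (y0 D) = D.1 := fun D => D.2.choose_spec
  refine ⟨Nat.card (Set.range (dc S)), fun i => y0 (e.symm i), ?_⟩
  rw [Equiv.sum_comp e.symm (fun D => pr k S (y0 D))]
  apply LinearMap.ext
  intro f
  funext g
  rw [LinearMap.sum_apply, Finset.sum_apply, Module.End.one_apply]
  rw [Finset.sum_eq_single (⟨dc S g, g, rfl⟩ : Set.range (dc S))]
  · apply H80DMACT.pr_apply_mem
    rw [hy0]
    exact H80DMACT.self_mem_dc S g
  · intro D _ hD
    apply H80DMACT.pr_apply_not_mem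
    intro hg
    apply hD
    apply Subtype.ext
    rw [← hy0 D]
    exact (H80DMACT.dc_eq_of_mem S hg).symm
  · intro h
    exact absurd (Finset.mem_univ _) h

end Cfsg.Agent.Lib.H80DMPRS
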