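import Mathlib
import Cfsg.Agent.Lib.Helper80IdemDefs
import Cfsg.Agent.Lib.Helper80StarA
import Cfsg.Agent.Lib.H80DMDefs
import Cfsg.Agent.Lib.H80DMACT
import Cfsg.Agent.Lib.H80DMHSK
import Cfsg.Agent.Lib.H80DMPRS
import Cfsg.Agent.Lib.H80DMPRIM

set_option autoImplicit false

namespace Cfsg.Agent.Lib.H80DMKS
open Cfsg.Agent.Lib.H80DMDefs Cfsg.Agent.Lib.Helper80IdemDefs

variable {k G : Type*} [Field k] [Group G]

theorem ks [Finite G] [IsAlgClosed k] (p : ℕ) [Fact p.Prime] [CharP k p] (S : Subgroup G)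
    (hS : IsPGroup p S) (ι : Module.End k (G → k)) (hι : Prim (Lam k S) ι) :
    ∃ (y : G) (X Y : Module.End k (G → k)), X ∈ Lam k S ∧ Y ∈ Lam k S ∧ X * Y = ι ∧
      Y * X = pr k S y := by
  have R := Cfsg.Agent.Lib.Helper80StarA.rosenbergP (O := k) (A := Module.End k (G → k))
    Cfsg.Agent.Lib.H80DMHSK.hs
  obtain ⟨n, y, hy⟩ := Cfsg.Agent.Lib.H80DMPRS.exists_reps (k := k) S
  have hmem : ∀ s, ι * pr k S (y s) * ι ∈ Lam k S := fun s =>
    mul_mem (mul_mem hι.mem (Cfsg.Agent.Lib.H80DMACT.pr_mem_Lam S _)) hι.mem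
  have hsum : ι - ∑ s, ι * pr k S (y s) * ι ∈ mA k (Module.End k (G → k)) := by
    rw [← Finset.sum_mul, ← Finset.mul_sum, hy, mul_one, hι.idem, sub_self]
    exact zero_mem _
  obtain ⟨i, r, hr, hιr, hrι, hrr⟩ := R (Lam k S) ι hι n _ hmem hsum
  set P := pr k S (y i) with hP
  have hPP : P * P = P := Cfsg.Agent.Lib.H80DMACT.pr_idem S _
  have hPm : P ∈ Lam k S := Cfsg.Agent.Lib.H80DMACT.pr_mem_Lam S _
  have h1 : r * P * ι = ι := by
    have e : r * (ι * (ι * P * ι) * ι) = (r * ι) * ι * P * (ι * ι) := by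
      simp only [mul_assoc]
    rw [e, hrι, hrι, hι.idem] at hrr
    exact hrr
  have hXY : (r * P) * (P * ι) = ι := by
    have e : (r * P) * (P * ι) = r * (P * P) * ι := by simp only [mul_assoc]
    rw [e, hPP, h1]
  set Z := (P * ι) * (r * P) with hZ
  have hZm : Z ∈ Lam k S := mul_mem (mul_mem hPm hι.mem) (mul_mem hr hPm)
  have hZZ : Z * Z = Z := by
    have e : Z * Z = (P * ι) * ((r * P) * (P * ι)) * (r * P) := by
      rw [hZ]; simp only [mul_assoc]
    rw [e, hXY]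
    have e2 : P * ι * ι * (r * P) = P * (ι * ι) * (r * P) := by simp only [mul_assoc]
    rw [e2, hι.idem]
  have hPZ : P * Z = Z := by
    have e : P * Z = (P * P) * ι * (r * P) := by rw [hZ]; simp only [mul_assoc]
    rw [e, hPP]
  have hZP : Z * P = Z := by
    have e : Z * P = (P * ι) * (r * (P * P)) := by rw [hZ]; simp only [mul_assoc]
    rw [e, hPP]
  have hprim := Cfsg.Agent.Lib.H80DMPRIM.prim_pr (k := k) p S hS (y i)
  refine ⟨y i, r * P, P * ι, mul_mem hr hPm, mul_mem hPm hι.mem, hXY, ?_⟩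
  rcases hprim.prim Z hZm hZZ hPZ hZP with h0 | h0
  · exfalso
    apply hι.ne
    have e : ι = (r * P) * Z * (P * ι) := by
      have e1 : (r * P) * Z * (P * ι) = ((r * P) * (P * ι)) * ((r * P) * (P * ι)) := by
        rw [hZ]; simp only [mul_assoc]
      rw [e1, hXY, hι.idem]
    rw [e, h0, mul_zero, zero_mul]
  · exact h0

end Cfsg.Agent.Lib.H80DMKS
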