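import Mathlib
import Cfsg.Agent.Lib.H80DMDefs
import Cfsg.Agent.Lib.H80DMACT

set_option autoImplicit false

namespace Cfsg.Agent.Lib.H80DMRK
open Cfsg.Agent.Lib.H80DMDefs

variable {k G : Type*} [Field k] [Group G]

theorem finrank_pr [Finite G] (S : Subgroup G) (y : G) :
    Module.finrank k (LinearMap.range (pr k S y)) = Nat.card (dc S y) := by
  classical
  let _ : Fintype (dc S y) := Fintype.ofFinite _
  let res : (G → k) →ₗ[k] (dc S y → k) := LinearMap.funLeft k k (Subtype.val)
  have hbij : Function.Bijective (res.domRestrict (LinearMap.range (pr k S y))) := by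
    constructor
    · rw [← LinearMap.ker_eq_bot, LinearMap.ker_eq_bot']
      rintro ⟨v, f, rfl⟩ h0
      apply Subtype.ext
      funext g
      by_cases hg : g ∈ dc S y
      · exact congrFun h0 ⟨g, hg⟩
      · exact H80DMACT.pr_apply_not_mem S y f hg
    · intro h
      refine ⟨⟨pr k S y (fun g => if hg : g ∈ dc S y then h ⟨g, hg⟩ else 0), ⟨_, rfl⟩⟩, ?_⟩
      funext g
      show pr k S y (fun g => if hg : g ∈ dc S y then h ⟨g, hg⟩ else 0) g.1 = h g
      rw [H80DMACT.pr_apply_mem S y _ g.2]
      simp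
  rw [(LinearEquiv.ofBijective _ hbij).finrank_eq, Module.finrank_fintype_fun_eq_card,
    Nat.card_eq_fintype_card]

private theorem finrank_range_mul_le [Finite G] (A B C : Module.End k (G → k)) :
    Module.finrank k (LinearMap.range (A * B * C)) ≤ Module.finrank k (LinearMap.range B) := by
  have h1 : LinearMap.range (A * B * C) ≤ (LinearMap.range B).map A := by
    rintro _ ⟨v, rfl⟩
    exact ⟨B (C v), ⟨_, rfl⟩, rfl⟩
  exact (Submodule.finrank_mono h1).trans (Submodule.finrank_map_le _ _)

theorem rk [Finite G] (S : Subgroup G) (y : G) (ι e X Y : Module.End k (G → k)) (hι : ι * ι = ι) (hXY : X * Y = ι)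
    (hYX : Y * X = pr k S y) (he : e * e = e) (h1 : e * ι = ι) (h2 : ι * e = ι)
    (hle : Module.finrank k (LinearMap.range e) ≤ Nat.card (dc S y)) :
    ι = e ∧ Module.finrank k (LinearMap.range e) = Nat.card (dc S y) := by
  have hpr : pr k S y = Y * ι * X := by
    rw [← H80DMACT.pr_idem, ← hYX, ← hXY]
    simp only [mul_assoc]
  have h3 : Nat.card (dc S y) ≤ Module.finrank k (LinearMap.range ι) := by
    rw [← finrank_pr (k := k) S y, hpr]
    exact finrank_range_mul_le Y ι X
  have h4 : LinearMap.range ι ≤ LinearMap.range e := by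
    rintro _ ⟨v, rfl⟩
    exact ⟨ι v, by rw [← Module.End.mul_apply, h1]⟩
  have h5 : LinearMap.range ι = LinearMap.range e :=
    Submodule.eq_of_le_of_finrank_le h4 (hle.trans h3)
  refine ⟨?_, le_antisymm hle (by rw [← h5]; exact h3)⟩
  apply LinearMap.ext
  intro v
  have h6 : e v ∈ LinearMap.range ι := by rw [h5]; exact ⟨v, rfl⟩
  obtain ⟨w, hw⟩ := h6
  have h7 : ι (e v) = e v := by
    rw [← hw, ← Module.End.mul_apply, hι]
  rw [← h7, ← Module.End.mul_apply, h2]

end Cfsg.Agent.Lib.H80DMRK
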