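import Mathlib
import Cfsg.Agent.Lib.H80DMDefs
import Cfsg.Agent.Lib.H80DMACT
import Cfsg.Agent.Lib.H80DMOS

set_option autoImplicit false

namespace Cfsg.Agent.Lib.H80DMVTX
open Cfsg.Agent.Lib.H80DMDefs Cfsg.Agent.Lib.H80DMACT

variable {k G : Type*} [Field k] [Group G]

theorem vtx [Fintype G] (p : ℕ) [Fact p.Prime] [CharP k p] (S : Subgroup G) (hS : IsPGroup p S)
    (ε : G → k) (hεc : ∀ g h, ε (h * g * h⁻¹) = ε g) (ι X Y : Module.End k (G → k)) (y : G)
    (hX : X ∈ Lam k S) (hY : Y ∈ Lam k S) (hXY : X * Y = ι) (hYX : Y * X = pr k S y)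
    (hι : cv ε * ι = ι) : NV ε (qq S y) := by
  classical
  set δ : G → k := Pi.single y 1 with hδ
  set w : G → k := X δ with hw
  have hprδ : pr k S y δ = δ := pr_single_self S y
  have hYw : Y w = δ := by
    have : Y w = (Y * X) δ := rfl
    rw [this, hYX, hprδ]
  have hιw : ι w = w := by
    have : ι w = X (Y w) := by rw [← hXY]; rfl
    rw [this, hYw]
  have hcw : cv ε w = w := by
    have : cv ε w = (cv ε * ι) w := by
      show cv ε w = cv ε (ι w)
      rw [hιw]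
    rw [this, hι, hιw]
  -- the elements of `qq S y`
  have hq' : ∀ q ∈ qq S y, q ∈ S ∧ y⁻¹ * q * y ∈ S := by
    intro q hq
    refine ⟨hq.1, ?_⟩
    obtain ⟨s, hs, hsq⟩ := hq.2
    have : q = y * s * y⁻¹ := by
      rw [← hsq]; rfl
    rw [this]
    have e : y⁻¹ * (y * s * y⁻¹) * y = s := by group
    rw [e]
    exact hs
  have hfixw : ∀ q ∈ qq S y, act k q (y⁻¹ * q * y) w = w := by
    intro q hq
    obtain ⟨h1, h2⟩ := hq' q hq
    rw [hw, ← (mem_Lam S X).1 hX q h1 _ h2 δ, hδ, act_single]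
    congr 2
    group
  have hfixw' : ∀ q ∈ qq S y, act k q⁻¹ (y⁻¹ * q * y)⁻¹ w = w := by
    intro q hq
    have h1 := hfixw q⁻¹ ((qq S y).inv_mem hq)
    have e : y⁻¹ * q⁻¹ * y = (y⁻¹ * q * y)⁻¹ := by group
    rwa [e] at h1
  let F : G → k := fun g => ε g * (Y (act k g 1 w)) y
  have hsum : ∑ g, F g = 1 := by
    have h1 : (Y (cv ε w)) y = ∑ g, F g := by
      rw [cv_eq_sum_act, map_sum, Finset.sum_apply]
      refine Finset.sum_congr rfl fun g _ => ?_
      rw [map_smul, Pi.smul_apply, smul_eq_mul]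
    rw [← h1, hcw, hYw, hδ, Pi.single_eq_same]
  let a : ↥(qq S y) →* Equiv.Perm G :=
    (MulAut.toPerm G).comp (MulAut.conj.comp (qq S y).subtype)
  have ha : ∀ (q : ↥(qq S y)) (g : G), a q g = (q : G) * g * (q : G)⁻¹ := fun q g => rfl
  have hF : ∀ (q : ↥(qq S y)) (g : G), F (a q g) = F g := by
    intro q g
    obtain ⟨h1, h2⟩ := hq' q q.2
    rw [ha]
    show ε ((q : G) * g * (q : G)⁻¹) * (Y (act k ((q : G) * g * (q : G)⁻¹) 1 w)) y
      = ε g * (Y (act k g 1 w)) y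
    rw [hεc]
    congr 1
    have e1 : act k ((q : G) * g * (q : G)⁻¹) 1 w
        = act k (q : G) (y⁻¹ * q * y) (act k g 1 w) := by
      have e2 : (1 : G) = (y⁻¹ * (q : G) * y) * 1 * (y⁻¹ * (q : G) * y)⁻¹ := by group
      conv_lhs => rw [e2]
      rw [act_mul, act_mul]
      show act k (q : G) (y⁻¹ * q * y) (act k g 1 (act k (q : G)⁻¹ (y⁻¹ * q * y)⁻¹ w)) = _
      rw [hfixw' q q.2]
    rw [e1, (mem_Lam S Y).1 hY _ h1 _ h2, act_apply]
    group
  have hR : IsPGroup p ↥(qq S y) := hS.to_le inf_le_left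
  obtain ⟨c, hc, hFc⟩ := Cfsg.Agent.Lib.H80DMOS.os p hR a F hF (by rw [hsum]; exact one_ne_zero)
  refine ⟨c, ?_, left_ne_zero_of_mul hFc⟩
  intro u hu
  have h1 := hc ⟨u, hu⟩
  rw [ha] at h1
  have h2 : u * c * u⁻¹ = c := h1
  calc c * u = (u * c * u⁻¹) * u := by rw [h2]
    _ = u * c := by group

end Cfsg.Agent.Lib.H80DMVTX
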