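import Mathlib
import Cfsg.Agent.Lib.Helper80IdemDefs
import Cfsg.Agent.Lib.Helper80StarA
import Cfsg.Agent.Lib.H80DMDefs
import Cfsg.Agent.Lib.H80DMACT
import Cfsg.Agent.Lib.H80DMKS
import Cfsg.Agent.Lib.H80DMVTX
import Cfsg.Agent.Lib.H80DMFP
import Cfsg.Agent.Lib.H80DMRK

set_option autoImplicit false

namespace Cfsg.Agent.Lib.H80DMABS
open Cfsg.Agent.Lib.H80DMDefs Cfsg.Agent.Lib.Helper80IdemDefs

variable {k G : Type*} [Field k] [Group G]

theorem abs_main [Fintype G] [IsAlgClosed k] (p : ℕ) [Fact p.Prime] [CharP k p] (S : Subgroup G)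
    (hS : IsPGroup p S) (ε : G → k) (hεc : ∀ g h, ε (h * g * h⁻¹) = ε g)
    (hεi : ∀ g, ∑ h, ε h * ε (h⁻¹ * g) = ε g) (hε0 : ε ≠ 0) (N : ℕ)
    (hN : Module.finrank k (LinearMap.range (cv ε)) ≤ N)
    (hvert : ∀ y, NV ε (qq S y) → N ≤ Nat.card (dc S y)) :
    ∃ y, Nat.card (dc S y) = N ∧ FPP S ε y := by
  classical
  have hmem := H80DMACT.cv_mem_Lam (k := k) S ε hεc
  have hidem := H80DMACT.cv_idem ε hεi
  have hne := H80DMACT.cv_ne_zero ε hε0
  obtain ⟨n, j, hj1, hj2, hj3⟩ :=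
    (Helper80StarA.decompP (O := k) (A := Module.End k (G → k))) (Lam k S) (cv ε) hmem hidem
  have hn : 0 < n := by
    rcases Nat.eq_zero_or_pos n with h | h
    · subst h
      simp at hj3
      exact absurd hj3.symm hne
    · exact h
  set ι := j ⟨0, hn⟩ with hιdef
  have hι : Prim (Lam k S) ι := hj1 _
  have h1 : cv ε * ι = ι := by
    rw [← hj3, Finset.sum_mul, Finset.sum_eq_single (⟨0, hn⟩ : Fin n)]
    · exact hι.idem
    · intro b _ hb
      exact hj2 b _ hb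
    · intro h
      exact absurd (Finset.mem_univ _) h
  have h2 : ι * cv ε = ι := by
    rw [← hj3, Finset.mul_sum, Finset.sum_eq_single (⟨0, hn⟩ : Fin n)]
    · exact hι.idem
    · intro b _ hb
      exact hj2 _ b (Ne.symm hb)
    · intro h
      exact absurd (Finset.mem_univ _) h
  obtain ⟨y, X, Y, hX, hY, hXY, hYX⟩ := H80DMKS.ks p S hS ι hι
  have hv := H80DMVTX.vtx p S hS ε hεc ι X Y y hX hY hXY hYX h1
  have hle := hvert y hv
  obtain ⟨e1, e2⟩ := H80DMRK.rk S y ι (cv ε) X Y hι.idem hXY hYX hidem h1 h2 (hN.trans hle)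
  refine ⟨y, le_antisymm (e2 ▸ hN) hle, ?_⟩
  exact H80DMFP.fp p S hS ε hεc hεi X Y y hX hY (hXY.trans e1) hYX

end Cfsg.Agent.Lib.H80DMABS
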