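import Mathlib
import Cfsg.Agent.Lib.H80DMDefs

set_option autoImplicit false

namespace Cfsg.Agent.Lib.H80DMDC
open Cfsg.Agent.Lib.H80DMDefs

variable {G : Type*} [Group G]

theorem mem_qq (S : Subgroup G) (y q : G) : q ∈ qq S y ↔ q ∈ S ∧ y⁻¹ * q * y ∈ S := by
  unfold qq
  rw [Subgroup.mem_inf, Subgroup.mem_map]
  constructor
  · rintro ⟨h1, s, hs, rfl⟩
    refine ⟨h1, ?_⟩
    simp only [MulEquiv.coe_toMonoidHom, MulAut.conj_apply]
    have : y⁻¹ * (y * s * y⁻¹) * y = s := by group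
    rwa [this]
  · rintro ⟨h1, h2⟩
    exact ⟨h1, _, h2, by simp only [MulEquiv.coe_toMonoidHom, MulAut.conj_apply]; group⟩

theorem card_dc [Finite G] (S : Subgroup G) (y : G) :
    Nat.card (dc S y) * Nat.card (qq S y) = Nat.card S ^ 2 := by
  classical
  choose! s0 hs0 t0 ht0 hg using (fun (g : G) (hg : g ∈ dc S y) => hg)
  have hq2 : ∀ q : qq S y, y⁻¹ * (q : G)⁻¹ * y ∈ S := by
    intro q
    have := S.inv_mem ((mem_qq S y _).mp q.2).2
    have e : (y⁻¹ * (q : G) * y)⁻¹ = y⁻¹ * (q : G)⁻¹ * y := by group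
    rwa [e] at this
  let f : (dc S y) × (qq S y) → S × S := fun p =>
    (⟨s0 p.1 * p.2, S.mul_mem (hs0 _ p.1.2) ((mem_qq S y _).mp p.2.2).1⟩,
     ⟨y⁻¹ * (p.2 : G)⁻¹ * y * t0 p.1, S.mul_mem (hq2 p.2) (ht0 _ p.1.2)⟩)
  have hprod : ∀ p : (dc S y) × (qq S y), ((f p).1 : G) * y * ((f p).2 : G) = p.1 := by
    intro p
    have h := hg _ p.1.2
    show s0 p.1 * p.2 * y * (y⁻¹ * (p.2 : G)⁻¹ * y * t0 p.1) = p.1
    conv_rhs => rw [h]
    group
  have key : ∀ (s t a b : G), s * y * t = a * y * b →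
      y⁻¹ * (a⁻¹ * s) * y = b * t⁻¹ ∧ y⁻¹ * (a⁻¹ * s)⁻¹ * y * b = t := by
    intro s t a b h
    constructor
    · have h1 : s * y = a * y * b * t⁻¹ := by rw [← h]; group
      calc y⁻¹ * (a⁻¹ * s) * y = y⁻¹ * a⁻¹ * (s * y) := by group
        _ = b * t⁻¹ := by rw [h1]; group
    · calc y⁻¹ * (a⁻¹ * s)⁻¹ * y * b = y⁻¹ * s⁻¹ * (a * y * b) := by group
        _ = t := by rw [← h]; group
  have hf : Function.Bijective f := by
    constructor
    · intro p p' h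
      have h1 : (p.1 : G) = p'.1 := by rw [← hprod p, ← hprod p', h]
      have h1' : p.1 = p'.1 := Subtype.ext h1
      have h2 : ((f p).1 : G) = (f p').1 := by rw [h]
      have h3 : s0 p.1 * (p.2 : G) = s0 p'.1 * (p'.2 : G) := h2
      rw [h1'] at h3
      exact Prod.ext h1' (Subtype.ext (mul_left_cancel h3))
    · rintro ⟨s, t⟩
      have hmem : (s : G) * y * t ∈ dc S y := ⟨s, s.2, t, t.2, rfl⟩
      have h := hg _ hmem
      obtain ⟨k1, k2⟩ := key _ _ _ _ h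
      have hq : (s0 ((s : G) * y * t))⁻¹ * s ∈ qq S y := by
        rw [mem_qq]
        refine ⟨S.mul_mem (S.inv_mem (hs0 _ hmem)) s.2, ?_⟩
        rw [k1]
        exact S.mul_mem (ht0 _ hmem) (S.inv_mem t.2)
      refine ⟨(⟨_, hmem⟩, ⟨_, hq⟩), ?_⟩
      apply Prod.ext
      · apply Subtype.ext
        show s0 ((s : G) * y * t) * ((s0 ((s : G) * y * t))⁻¹ * s) = s
        group
      · apply Subtype.ext
        exact k2
  rw [← Nat.card_prod, Nat.card_eq_of_bijective f hf, Nat.card_prod, pow_two]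

end Cfsg.Agent.Lib.H80DMDC
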