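import Mathlib
import Cfsg.Agent.Lib.H80DMDefs
import Cfsg.Agent.Lib.H80DMACT
import Cfsg.Agent.Lib.H80DMDC

set_option autoImplicit false

namespace Cfsg.Agent.Lib.H80DMGRP1
open Cfsg.Agent.Lib.H80DMDefs

variable {k G : Type*} [Field k] [Group G]

/-- inside `S`: every `x ∈ N_G(Q)` acts on `Q` as an element of `S`. -/
theorem grp1 [Finite G] (ε : G → k) (S : Subgroup G) (y : G) (D : Subgroup G) (hDS : D ≤ S)
    (hD : NV ε D) (hcard : Nat.card (qq S y) = Nat.card D) (hfp : FPP S ε y)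
    (Q : Subgroup G) (hQS : Q ≤ S) (hQ : NV ε Q) (x : G) (hx : ∀ u ∈ Q, x⁻¹ * u * x ∈ Q) :
    ∃ n ∈ S, ∀ u ∈ Q, n⁻¹ * u * n = x⁻¹ * u * x := by
  obtain ⟨g0, hg0, hc0⟩ := hfp D hDS hD 1 (by intro u hu; simpa using hu)
  have hc0' : ∀ u ∈ D, g0⁻¹ * u * g0 = u := by
    intro u hu
    have := hc0 u hu
    simpa using this
  have hdc : dc S g0 = dc S y := Cfsg.Agent.Lib.H80DMACT.dc_eq_of_mem S hg0
  have c1 := Cfsg.Agent.Lib.H80DMDC.card_dc S y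
  have c2 := Cfsg.Agent.Lib.H80DMDC.card_dc S g0
  rw [hdc] at c2
  have hpos : 0 < Nat.card (dc S y) := by
    have : Nonempty (dc S y) := ⟨⟨g0, hg0⟩⟩
    exact Nat.card_pos
  have hq : Nat.card (qq S g0) = Nat.card D := by
    rw [← hcard]
    exact Nat.eq_of_mul_eq_mul_left hpos (c2.trans c1.symm)
  have hle : D ≤ qq S g0 := by
    intro u hu
    rw [Cfsg.Agent.Lib.H80DMDC.mem_qq]
    exact ⟨hDS hu, by rw [hc0' u hu]; exact hDS hu⟩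
  have hDq : D = qq S g0 := Subgroup.eq_of_le_of_card_ge hle hq.le
  obtain ⟨g, hg, hgx⟩ := hfp Q hQS hQ x hx
  rw [← hdc] at hg
  obtain ⟨s, hs, t, ht, rfl⟩ := hg
  refine ⟨s * t, S.mul_mem hs ht, fun u hu => ?_⟩
  have h1 := hgx u hu
  have hS : (s * g0 * t)⁻¹ * u * (s * g0 * t) ∈ S := by
    rw [h1]; exact hQS (hx u hu)
  have h2 : g0⁻¹ * (s⁻¹ * u * s) * g0 ∈ S := by
    have := S.mul_mem (S.mul_mem ht hS) (S.inv_mem ht)
    have e : t * ((s * g0 * t)⁻¹ * u * (s * g0 * t)) * t⁻¹ = g0⁻¹ * (s⁻¹ * u * s) * g0 := by group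
    rwa [e] at this
  have h3 : s⁻¹ * u * s ∈ D := by
    rw [hDq, Cfsg.Agent.Lib.H80DMDC.mem_qq]
    exact ⟨S.mul_mem (S.mul_mem (S.inv_mem hs) (hQS hu)) hs, h2⟩
  have h4 := hc0' _ h3
  rw [← h1]
  calc (s * t)⁻¹ * u * (s * t) = t⁻¹ * (s⁻¹ * u * s) * t := by group
    _ = t⁻¹ * (g0⁻¹ * (s⁻¹ * u * s) * g0) * t := by rw [h4]
    _ = (s * g0 * t)⁻¹ * u * (s * g0 * t) := by group

end Cfsg.Agent.Lib.H80DMGRP1
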