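import Mathlib
import Cfsg.Agent.Lib.H80DMDefs

set_option autoImplicit false

namespace Cfsg.Agent.Lib.H80DMGRP2
open Cfsg.Agent.Lib.H80DMDefs

variable {k G : Type*} [Field k] [Group G]

theorem grp2 [Finite G] (p : ℕ) [Fact p.Prime] (ε : G → k) (hεc : ∀ g h, ε (h * g * h⁻¹) = ε g)
    (S : Sylow p G)
    (h1 : ∀ (Q : Subgroup G), Q ≤ (S : Subgroup G) → NV ε Q → ∀ x : G, (∀ u ∈ Q, x⁻¹ * u * x ∈ Q) →
      ∃ n ∈ (S : Subgroup G), ∀ u ∈ Q, n⁻¹ * u * n = x⁻¹ * u * x)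
    (Q : Subgroup G) (hQ : IsPGroup p Q) (hnv : NV ε Q) (x : G)
    (hx : x ∈ Subgroup.normalizer (Q : Set G)) (hreg : ¬ p ∣ orderOf x) :
    x ∈ Subgroup.centralizer (Q : Set G) := by
  obtain ⟨P, hQP⟩ := hQ.exists_le_sylow
  obtain ⟨h, hh⟩ := MulAction.exists_smul_eq G P S
  -- `h Q h⁻¹ ≤ S`
  have hmemS : ∀ u ∈ Q, h * u * h⁻¹ ∈ (S : Subgroup G) := by
    intro u hu
    rw [← hh, Sylow.coe_subgroup_smul, Subgroup.mem_pointwise_smul_iff_inv_smul_mem,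
      MulAut.smul_def, ← map_inv, MulAut.conj_apply, inv_inv]
    have e : h⁻¹ * (h * u * h⁻¹) * h = u := by group
    rw [e]
    exact hQP hu
  let Q' : Subgroup G := Q.map (MulAut.conj h).toMonoidHom
  have hQ'mem : ∀ v, v ∈ Q' ↔ h⁻¹ * v * h ∈ Q := by
    intro v
    constructor
    · rintro ⟨u, hu, rfl⟩
      have e : h⁻¹ * ((MulAut.conj h).toMonoidHom u) * h = u := by
        simp only [MulEquiv.coe_toMonoidHom, MulAut.conj_apply]; group
      rw [e]; exact hu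
    · intro hv
      exact ⟨_, hv, by simp only [MulEquiv.coe_toMonoidHom, MulAut.conj_apply]; group⟩
  have hQ'S : Q' ≤ (S : Subgroup G) := by
    intro v hv
    have := hmemS _ ((hQ'mem v).mp hv)
    have e : h * (h⁻¹ * v * h) * h⁻¹ = v := by group
    rwa [e] at this
  have hnv' : NV ε Q' := by
    obtain ⟨c, hc, hc0⟩ := hnv
    refine ⟨h * c * h⁻¹, fun v hv => ?_, by rw [hεc]; exact hc0⟩
    have := hc _ ((hQ'mem v).mp hv)
    calc h * c * h⁻¹ * v = h * (c * (h⁻¹ * v * h)) * h⁻¹ := by group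
      _ = h * ((h⁻¹ * v * h) * c) * h⁻¹ := by rw [this]
      _ = v * (h * c * h⁻¹) := by group
  have hxQ : ∀ u ∈ Q, x⁻¹ * u * x ∈ Q := by
    intro u hu
    have := (Subgroup.mem_normalizer_iff.mp (Subgroup.inv_mem _ hx) u).mp hu
    rwa [inv_inv] at this
  set x' := h * x * h⁻¹ with hx'
  have hx'Q : ∀ v ∈ Q', x'⁻¹ * v * x' ∈ Q' := by
    intro v hv
    rw [hQ'mem]
    have := hxQ _ ((hQ'mem v).mp hv)
    have e : h⁻¹ * (x'⁻¹ * v * x') * h = x⁻¹ * (h⁻¹ * v * h) * x := by rw [hx']; group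
    rwa [e]
  obtain ⟨n, hn, hnx⟩ := h1 Q' hQ'S hnv' x' hx'Q
  have hpow : ∀ j : ℕ, ∀ v ∈ Q', (n ^ j)⁻¹ * v * n ^ j = (x' ^ j)⁻¹ * v * x' ^ j ∧
      (x' ^ j)⁻¹ * v * x' ^ j ∈ Q' := by
    intro j
    induction j with
    | zero => intro v hv; simpa using hv
    | succ j ih =>
      intro v hv
      obtain ⟨e1, m1⟩ := ih v hv
      have e2 := hnx _ m1
      have a1 : (n ^ (j + 1))⁻¹ * v * n ^ (j + 1) = n⁻¹ * ((n ^ j)⁻¹ * v * n ^ j) * n := by
        rw [pow_succ]; group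
      have a2 : (x' ^ (j + 1))⁻¹ * v * x' ^ (j + 1) = x'⁻¹ * ((x' ^ j)⁻¹ * v * x' ^ j) * x' := by
        rw [pow_succ]; group
      rw [a1, a2, e1]
      exact ⟨e2, hx'Q _ m1⟩
  obtain ⟨b, hb⟩ := (S.isPGroup') ⟨n, hn⟩
  have hnb : n ^ p ^ b = 1 := by
    have := congrArg Subtype.val hb
    simpa using this
  have hcent : ∀ v ∈ Q', (x' ^ p ^ b)⁻¹ * v * x' ^ p ^ b = v := by
    intro v hv
    rw [← (hpow (p ^ b) v hv).1, hnb]
    simp
  have hord : orderOf x' = orderOf x := by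
    rw [hx']
    exact (MulAut.conj h).orderOf_eq x
  have hcop : Nat.Coprime (orderOf x') (p ^ b) := by
    rw [hord]
    exact Nat.Coprime.pow_right _ ((Nat.coprime_comm.mp ((Nat.Prime.coprime_iff_not_dvd Fact.out).mpr hreg)))
  obtain ⟨m, hm⟩ := exists_pow_eq_self_of_coprime hcop.symm
  have hcent' : ∀ v ∈ Q', x'⁻¹ * v * x' = v := by
    intro v hv
    have comm : Commute (x' ^ p ^ b) v := by
      have := hcent v hv
      show x' ^ p ^ b * v = v * x' ^ p ^ b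
      calc x' ^ p ^ b * v = x' ^ p ^ b * ((x' ^ p ^ b)⁻¹ * v * x' ^ p ^ b) := by rw [this]
        _ = v * x' ^ p ^ b := by group
    have c2 : Commute x' v := by
      rw [← hm]
      exact comm.pow_left m
    calc x'⁻¹ * v * x' = x'⁻¹ * (v * x') := by group
      _ = x'⁻¹ * (x' * v) := by rw [c2.eq]
      _ = v := by group
  rw [Subgroup.mem_centralizer_iff]
  intro u hu
  have hu' : h * u * h⁻¹ ∈ Q' := by
    rw [hQ'mem]
    have e : h⁻¹ * (h * u * h⁻¹) * h = u := by group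
    rwa [e]
  have := hcent' _ hu'
  rw [hx'] at this
  have e : (h * x * h⁻¹)⁻¹ * (h * u * h⁻¹) * (h * x * h⁻¹) = h * (x⁻¹ * u * x) * h⁻¹ := by group
  rw [e] at this
  have h3 : x⁻¹ * u * x = u := by
    have := mul_left_cancel (mul_right_cancel this)
    exact this
  calc u * x = x * (x⁻¹ * u * x) := by group
    _ = x * u := by rw [h3]

end Cfsg.Agent.Lib.H80DMGRP2
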