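import Mathlib
import Cfsg.Prelude.Def_Blocks
import Cfsg.Agent.Lib.Helper4ModRed
import Cfsg.Agent.Lib.Helper40ModRed
import Cfsg.Agent.Lib.Helper20Block
import Cfsg.Agent.S0906
import Cfsg.Agent.Lib.Helper80Stab
import Cfsg.Agent.Lib.H80DMDefs

set_option autoImplicit false

namespace Cfsg.Agent.Lib.H80DMLNK1
open Cfsg Cfsg.Agent.Lib.H80DMDefs Cfsg.Agent.Lib.Helper4ModRed Cfsg.Agent.Lib.Helper40ModRed

theorem exists_eps {M : Ideal AlgInt} [M.IsPrime] {p : ℕ} [Fact p.Prime] (hM : IsPModular p M)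
    {G : Type*} [Group G] [Fintype G] {B : Set (IrrCharacter G)} (hB : IsPBlock M B) :
    ∃ ε : G → kk M, (∀ g, Red M (blockCoeff B g) (ε g)) ∧ (∀ g h, ε (h * g * h⁻¹) = ε g) ∧
      (∀ g, ∑ h, ε h * ε (h⁻¹ * g) = ε g) ∧ ε ≠ 0 := by
  have hPr : M.IsPrime := inferInstance
  have hBsc := Cfsg.Agent.Lib.Helper20Block.isSC_blockCoeff hPr hB
  choose ε hε' using fun g => exists_red (hBsc.2 g)
  have hε : ∀ g, Red M (blockCoeff B g) (ε g) := hε'
  refine ⟨ε, hε, ?_, ?_, ?_⟩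
  · intro g h
    exact Red.unique (hε _) (by rw [hBsc.1 g h]; exact hε g)
  · intro g
    refine Red.unique (Red.sum _ (fun h _ => Red.mul (hε h) (hε (h⁻¹ * g)))) ?_
    have := congrFun (Cfsg.Agent.Lib.Helper80Stab.conv_blockCoeff_self B) g
    have e : ∑ h, blockCoeff B h * blockCoeff B (h⁻¹ * g) = blockCoeff B g := this
    rw [e]
    exact hε g
  · intro h0
    obtain ⟨g, hg⟩ := Cfsg.Agent.S0906.result p M hM B hB
    exact hg.2.1 ((Red.eq_zero_iff (hε g)).mp (by rw [h0]; rfl))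

end Cfsg.Agent.Lib.H80DMLNK1
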