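import Mathlib
import Cfsg.Prelude.Def_Blocks
import Cfsg.Agent.Lib.Helper4ModRed
import Cfsg.Agent.Lib.Helper40ModRed
import Cfsg.Agent.Lib.Helper20DefCard
import Cfsg.Agent.Lib.H80DMDefs

set_option autoImplicit false

namespace Cfsg.Agent.Lib.H80DMLNK2
open Cfsg Cfsg.Agent.Lib.H80DMDefs Cfsg.Agent.Lib.Helper4ModRed Cfsg.Agent.Lib.Helper40ModRed

variable {M : Ideal AlgInt} [M.IsPrime] {p : ℕ} [Fact p.Prime] {G : Type*} [Group G] [Finite G]

theorem card_le (hM : IsPModular p M) {B : Set (IrrCharacter G)} (hB : IsPBlock M B)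
    (ε : G → kk M) (hε : ∀ g, Red M (blockCoeff B g) (ε g)) {D : Subgroup G}
    (hD : IsDefectGroup p M B D) (Q : Subgroup G) (hQ : IsPGroup p Q) (h : NV ε Q) :
    Nat.card Q ≤ Nat.card D := by
  classical
  haveI := Fintype.ofFinite G
  have hp : p.Prime := Fact.out
  obtain ⟨c, hc, hc0⟩ := h
  have h1 : ¬ MemLocalIdeal M (blockCoeff B c) := fun h => hc0 ((Red.eq_zero_iff (hε c)).mpr h)
  obtain ⟨χ, hχ, hle⟩ := Cfsg.Agent.Lib.Helper20DefCard.exists_degree_le hM hB h1 hQ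
    (fun x hx => (hc x hx).symm)
  rw [Cfsg.Agent.Lib.Helper20DefCard.card_defectGroup hM hB hD]
  obtain ⟨n, hn⟩ := IsPGroup.iff_card.mp hQ
  rw [hn] at hle ⊢
  rw [Nat.factorization_pow, hp.factorization] at hle
  simp only [Finsupp.smul_apply, Finsupp.single_eq_same, smul_eq_mul, mul_one] at hle
  apply Nat.pow_le_pow_right hp.pos
  unfold blockDefect
  have h2 : sInf ((fun χ : IrrCharacter G => (charDegree (χ : G → ℂ)).factorization p) '' B)
      ≤ (charDegree (χ : G → ℂ)).factorization p := Nat.sInf_le ⟨χ, hχ, rfl⟩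
  omega

theorem nv_defect (hM : IsPModular p M) {B : Set (IrrCharacter G)} (hB : IsPBlock M B)
    (ε : G → kk M) (hε : ∀ g, Red M (blockCoeff B g) (ε g)) {D : Subgroup G}
    (hD : IsDefectGroup p M B D) : NV ε D := by
  obtain ⟨g, hg, P, rfl⟩ := hD
  refine ⟨g, ?_, fun h => hg.2.1 ((Red.eq_zero_iff (hε g)).mp h)⟩
  intro u hu
  obtain ⟨v, _, rfl⟩ := Subgroup.mem_map.mp hu
  have := Subgroup.mem_centralizer_iff.mp v.2 g (Set.mem_singleton g)
  exact this

theorem isPGroup_defect {B : Set (IrrCharacter G)} {D : Subgroup G}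
    (hD : IsDefectGroup p M B D) : IsPGroup p D := by
  obtain ⟨g, hg, P, rfl⟩ := hD
  exact P.isPGroup'.map _

end Cfsg.Agent.Lib.H80DMLNK2
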