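import Mathlib
import Cfsg.Prelude.Def_Blocks
import Cfsg.Prelude.Def_BrauerPairs
import Cfsg.Agent.Lib.Helper4ModRed
import Cfsg.Agent.Lib.Helper40ModRed
import Cfsg.Agent.Lib.H80DMDefs
import Cfsg.Agent.Lib.Helper80Brauer

set_option autoImplicit false

namespace Cfsg.Agent.Lib.H80DMLNK3
open Cfsg Cfsg.Agent.Lib.H80DMDefs Cfsg.Agent.Lib.Helper4ModRed

variable {M : Ideal AlgInt} [M.IsPrime] {p : ℕ} [Fact p.Prime] {G : Type*} [Group G] [Finite G]

theorem nv_pair (hM : IsPModular p M) {B : Set (IrrCharacter G)}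
    (ε : G → kk M) (hε : ∀ g, Red M (blockCoeff B g) (ε g)) (Q : Subgroup G)
    (f : Set (IrrCharacter (Subgroup.centralizer (Q : Set G))))
    (h : IsBrauerPairOf p M B Q f) : NV ε Q := by
  classical
  have := Fintype.ofFinite G
  have hPr : M.IsPrime := inferInstance
  by_contra hcon
  have hall : ∀ x ∈ Subgroup.centralizer (Q : Set G), MemLocalIdeal M (blockCoeff B x) := by
    intro x hx
    rw [← Cfsg.Agent.Lib.Helper40ModRed.Red.eq_zero_iff (hε x)]
    by_contra hne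
    refine hcon ⟨x, fun u hu => ?_, hne⟩
    exact ((Subgroup.mem_centralizer_iff.1 hx) u hu).symm
  obtain ⟨ξ, hξ⟩ := Cfsg.Agent.Lib.Helper20Block.IsPBlock.nonempty hPr h.1.2
  have h1 := h.2.2 ξ hξ
  rw [Cfsg.Agent.Lib.Helper80Brauer.brauerOmega_eq] at h1
  have h2 : MemLocalIdeal M (Cfsg.Agent.Lib.Helper80Brauer.lam (Subgroup.centralizer (Q : Set G))
      (ξ : Subgroup.centralizer (Q : Set G) → ℂ) (blockCoeff B)) :=
    Cfsg.Agent.Lib.Helper80Brauer.lam_mem_ideal _ hPr ξ.2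
      (Cfsg.Agent.Lib.Helper80Brauer.isInv_of_isClassFunction _
        (Cfsg.Agent.Lib.Helper20Block.blockCoeff_isClassFunction B)) hall
  have h3 := Cfsg.Agent.Lib.Helper20Local.liSub hPr h2 h1
  rw [sub_sub_cancel] at h3
  exact Cfsg.Agent.Lib.Helper20Local.not_memLocalIdeal_one hPr h3

end Cfsg.Agent.Lib.H80DMLNK3
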