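import Mathlib
import Cfsg.Prelude.Def_Blocks
import Cfsg.Agent.Lib.H80DMDefs
import Cfsg.Agent.Lib.H80DMACT
import Cfsg.Agent.Lib.Helper80Stab
import Cfsg.Agent.Lib.Helper81Base

set_option autoImplicit false

namespace Cfsg.Agent.Lib.H80DMRKC
open Cfsg Cfsg.Agent.Lib.H80DMDefs
open scoped ComplexConjugate

theorem finrank_cv {G : Type*} [Group G] [Fintype G] (B : Set (IrrCharacter G)) :
    Module.finrank ℂ (LinearMap.range (cv (blockCoeff B))) =
      ∑ᶠ χ ∈ B, charDegree (χ : G → ℂ) ^ 2 := by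
  classical
  set E := cv (blockCoeff B) with hE
  have hidem : E * E = E := by
    apply Cfsg.Agent.Lib.H80DMACT.cv_idem
    intro g
    exact congrFun (Cfsg.Agent.Lib.Helper80Stab.conv_blockCoeff_self B) g
  have hp : LinearMap.IsProj (LinearMap.range E) E := by
    refine ⟨fun x => LinearMap.mem_range_self _ x, ?_⟩
    rintro _ ⟨y, rfl⟩
    exact LinearMap.congr_fun hidem y
  have htr := hp.trace
  have htr2 : LinearMap.trace ℂ (G → ℂ) E = (Nat.card G : ℂ) * blockCoeff B 1 := by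
    rw [LinearMap.trace_eq_matrix_trace ℂ (Pi.basisFun ℂ G), Matrix.trace]
    have h1 : ∀ g : G, (LinearMap.toMatrix (Pi.basisFun ℂ G) (Pi.basisFun ℂ G) E).diag g
        = blockCoeff B 1 := by
      intro g
      rw [Matrix.diag_apply, LinearMap.toMatrix_apply, Pi.basisFun_apply, Pi.basisFun_repr, hE,
        Cfsg.Agent.Lib.H80DMACT.cv_single]
      show blockCoeff B (g * g⁻¹) = _
      rw [mul_inv_cancel]
    rw [Finset.sum_congr rfl (fun g _ => h1 g), Finset.sum_const, Finset.card_univ,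
      Nat.card_eq_fintype_card, nsmul_eq_mul]
  have hfin : (B : Set (IrrCharacter G)).Finite := Set.toFinite B
  have h3 : (Nat.card G : ℂ) * blockCoeff B 1
      = ((∑ᶠ χ ∈ B, charDegree (χ : G → ℂ) ^ 2 : ℕ) : ℂ) := by
    have hG : (Nat.card G : ℂ) ≠ 0 := by
      exact_mod_cast Nat.card_pos.ne'
    rw [blockCoeff, mul_inv_cancel_left₀ hG, finsum_mem_eq_finite_toFinset_sum _ hfin,
      finsum_mem_eq_finite_toFinset_sum _ hfin, Nat.cast_sum]
    refine Finset.sum_congr rfl fun χ _ => ?_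
    rw [← Cfsg.Agent.Lib.Helper81Base.charDegree_eq χ, Complex.conj_natCast, Nat.cast_pow, sq]
  rw [htr2, h3] at htr
  exact (Nat.cast_injective htr).symm

end Cfsg.Agent.Lib.H80DMRKC
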