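import Mathlib
import Cfsg.Prelude.Def_Blocks
import Cfsg.Agent.Lib.Helper4ModRed
import Cfsg.Agent.Lib.Helper40ModRed
import Cfsg.Agent.Lib.Helper40ModRL
import Cfsg.Agent.Lib.H80DMDefs
import Cfsg.Agent.Lib.H80DMACT

set_option autoImplicit false

namespace Cfsg.Agent.Lib.H80DMRKR
open Cfsg Cfsg.Agent.Lib.H80DMDefs Cfsg.Agent.Lib.Helper4ModRed Cfsg.Agent.Lib.Helper40ModRed
  Cfsg.Agent.Lib.Helper40ModRL Cfsg.Agent.Lib.H80DMACT

theorem range_eq_span {k G : Type*} [Field k] [Fintype G] [DecidableEq G]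
    (φ : Module.End k (G → k)) :
    LinearMap.range φ = Submodule.span k (Set.range fun g : G => φ (Pi.single g 1)) := by
  apply le_antisymm
  · rintro _ ⟨f, rfl⟩
    rw [pi_eq_sum_univ' f, map_sum]
    apply Submodule.sum_mem
    intro g _
    rw [map_smul]
    exact Submodule.smul_mem _ _ (Submodule.subset_span ⟨g, rfl⟩)
  · rw [Submodule.span_le]
    rintro _ ⟨g, rfl⟩
    exact ⟨_, rfl⟩

theorem finrank_le {M : Ideal AlgInt} [M.IsPrime] {G : Type*} [Group G] [Fintype G]
    (β : G → ℂ) (ε : G → kk M) (h : ∀ g, Red M (β g) (ε g)) :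
    Module.finrank (kk M) (LinearMap.range (cv ε)) ≤ Module.finrank ℂ (LinearMap.range (cv β)) := by
  classical
  obtain ⟨b, hbs, hspan, hli⟩ := exists_linearIndependent (kk M)
    (Set.range fun g : G => cv ε (Pi.single g 1))
  have hbfin : b.Finite := (Set.finite_range _).subset hbs
  have : Fintype b := hbfin.fintype
  have hcard : Module.finrank (kk M) (LinearMap.range (cv ε)) = Fintype.card b := by
    rw [range_eq_span, ← hspan, ← finrank_span_eq_card hli, Subtype.range_coe]
  have hγ : ∀ i : b, ∃ g : G, cv ε (Pi.single g 1) = (i : G → kk M) := fun i => hbs i.2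
  choose γ hγ using hγ
  obtain ⟨β', hβ'⟩ := exists_dual (fun i : b => (i : G → kk M)) hli
  obtain ⟨Fn, hFn⟩ : ∃ Fn : b → G → ℂ, Fn = fun i => cv β (Pi.single (γ i) 1) := ⟨_, rfl⟩
  have hred : ∀ (i : b) y, Red M (Fn i y) ((i : G → kk M) y) := by
    intro i y
    rw [hFn, ← hγ i]
    simp only [cv_single]
    exact h _
  obtain ⟨A, hA⟩ : ∃ A : Matrix b b ℂ, A = fun i j => ∑ y, Fn i y * lift M (β' j y) := ⟨_, rfl⟩
  have hAred : ∀ i j, Red M (A i j) ((1 : Matrix b b (kk M)) i j) := by
    intro i j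
    rw [Matrix.one_apply, ← hβ' i j, hA]
    apply Red.sum
    intro y _
    exact Red.mul (hred i y) (red_lift _)
  have hdet : A.det ≠ 0 := by
    intro h0
    have h1 := Red.det hAred
    rw [h0, Matrix.det_one] at h1
    exact one_ne_zero (Red.unique h1 red_zero)
  have hFli : LinearIndependent ℂ Fn := by
    rw [Fintype.linearIndependent_iff]
    intro c hc
    have h1 : Matrix.vecMul c A = 0 := by
      funext j
      simp only [Matrix.vecMul, dotProduct, hA, Pi.zero_apply]
      have h2 : ∑ i, c i * ∑ y, Fn i y * lift M (β' j y)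
          = ∑ y, (∑ i, c i • Fn i) y * lift M (β' j y) := by
        simp only [Finset.sum_apply, Pi.smul_apply, smul_eq_mul, Finset.mul_sum, Finset.sum_mul]
        rw [Finset.sum_comm]
        apply Finset.sum_congr rfl
        intro y _
        apply Finset.sum_congr rfl
        intro i _
        ring
      rw [h2, hc]
      simp
    have h3 : c = 0 := Matrix.eq_zero_of_vecMul_eq_zero hdet h1
    intro i
    rw [h3]; rfl
  rw [hcard, ← finrank_span_eq_card hFli]
  apply Submodule.finrank_mono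
  rw [Submodule.span_le]
  rintro _ ⟨i, rfl⟩
  rw [hFn]
  exact ⟨_, rfl⟩

end Cfsg.Agent.Lib.H80DMRKR
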