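import Cfsg.Agent.Lib.Helper80PIDefs

set_option autoImplicit false

namespace Cfsg.Agent.Lib.H80PIBij
open Cfsg
open Cfsg.Agent.Lib.Helper81CycDefs Cfsg.Agent.Lib.Helper81CycGDefs Cfsg.Agent.Lib.Helper4DefOneDefs
open Cfsg.Agent.Lib.Helper80Transport Cfsg.Agent.Lib.Helper82Quot Cfsg.Agent.Lib.Helper81Base
open Cfsg.Agent.Lib.Helper80PIDefs
open scoped ComplexConjugate

universe u v w

variable {G : Type u} [Group G] [Fintype G] {G' : Type v} [Group G'] [Fintype G'] {p e : ℕ}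
  [Fact p.Prime] {M : Ideal AlgInt} {J : Type w} [Fintype J] {j₀ : J}
  {B X : Set (IrrCharacter G)} {ζ : J → IrrCharacter G} {δ : IrrCharacter G → ℤ} {δ₀ : ℤ}
  {b : J → G → ℂ} {B' X' : Set (IrrCharacter G')} {ζ' : J → IrrCharacter G'}
  {δ' : IrrCharacter G' → ℤ} {δ₀' : ℤ} {b' : J → G' → ℂ}
  {I : IrrCharacter G' → IrrCharacter G} {ε : IrrCharacter G' → ℤ}

theorem abs_I {A A' J : Type*} (e : ℕ) (he : 0 < e) (j₀ : J) (B X : Set A) (ζ : J → A) (δ : A → ℤ)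
    (δ₀ : ℤ) (B' X' : Set A') (ζ' : J → A') (δ' : A' → ℤ) (δ₀' : ℤ)
    (hB : ∀ χ, χ ∈ B ↔ (χ ∈ X ∨ ∃ j, j ≠ j₀ ∧ ζ j = χ))
    (disj : ∀ j, j ≠ j₀ → ζ j ∉ X) (cardX : Nat.card X = e)
    (sgn : ∀ χ ∈ X, δ χ = 1 ∨ δ χ = -1) (sgn₀ : δ₀ = 1 ∨ δ₀ = -1)
    (hB' : ∀ χ, χ ∈ B' ↔ (χ ∈ X' ∨ ∃ j, j ≠ j₀ ∧ ζ' j = χ))
    (disj' : ∀ j, j ≠ j₀ → ζ' j ∉ X') (cardX' : Nat.card X' = e)
    (sgn' : ∀ χ ∈ X', δ' χ = 1 ∨ δ' χ = -1) (sgn₀' : δ₀' = 1 ∨ δ₀' = -1)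
    (hcomp : ∀ j j', j ≠ j₀ → j' ≠ j₀ → (ζ j = ζ j' ↔ ζ' j = ζ' j')) :
    ∃ (I : A' → A) (ε : A' → ℤ), Set.BijOn I B' B ∧ Set.BijOn I X' X ∧
      (∀ η ∈ B', ε η = 1 ∨ ε η = -1) ∧ (∀ η ∈ X', ε η = δ' η * δ (I η)) ∧
      (∀ j, j ≠ j₀ → I (ζ' j) = ζ j) ∧ (∀ j, j ≠ j₀ → ε (ζ' j) = δ₀' * δ₀) := by
  classical
  have hfX : Finite X := Nat.finite_of_card_ne_zero (by omega)
  have hfX' : Finite X' := Nat.finite_of_card_ne_zero (by omega)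
  have hneX : Nonempty X := by
    have : 0 < Nat.card X := by omega
    exact (Nat.card_pos_iff.mp this).1
  obtain ⟨x0⟩ := hneX
  obtain ⟨E⟩ : Nonempty (X' ≃ X) := Finite.card_eq.mp (by rw [cardX, cardX'])
  let I : A' → A := fun η =>
    if h : η ∈ X' then (E ⟨η, h⟩ : A)
    else if h2 : ∃ j, j ≠ j₀ ∧ ζ' j = η then ζ (Classical.choose h2) else (x0 : A)
  let ε : A' → ℤ := fun η => if η ∈ X' then δ' η * δ (I η) else δ₀' * δ₀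
  have IX : ∀ η (h : η ∈ X'), I η = (E ⟨η, h⟩ : A) := by
    intro η h
    simp only [I, dif_pos h]
  have IY : ∀ j, j ≠ j₀ → I (ζ' j) = ζ j := by
    intro j hj
    have h1 : ζ' j ∉ X' := disj' j hj
    have h2 : ∃ j', j' ≠ j₀ ∧ ζ' j' = ζ' j := ⟨j, hj, rfl⟩
    simp only [I, dif_neg h1, dif_pos h2]
    obtain ⟨h3, h4⟩ := Classical.choose_spec h2
    exact (hcomp _ _ h3 hj).mpr h4
  have bijX : Set.BijOn I X' X := by
    refine ⟨?_, ?_, ?_⟩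
    · intro η h
      rw [IX η h]; exact (E ⟨η, h⟩).2
    · intro η h η2 h2 heq
      rw [IX η h, IX η2 h2] at heq
      have := E.injective (Subtype.ext heq)
      exact congrArg Subtype.val this
    · intro χ hχ
      refine ⟨(E.symm ⟨χ, hχ⟩ : A'), (E.symm ⟨χ, hχ⟩).2, ?_⟩
      rw [IX _ (E.symm ⟨χ, hχ⟩).2]
      simp
  refine ⟨I, ε, ?_, bijX, ?_, ?_, IY, ?_⟩
  · refine ⟨?_, ?_, ?_⟩
    · intro η hη
      rcases (hB' η).mp hη with h | ⟨j, hj, rfl⟩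
      · exact (hB _).mpr (Or.inl (bijX.mapsTo h))
      · rw [IY j hj]; exact (hB _).mpr (Or.inr ⟨j, hj, rfl⟩)
    · intro η hη η2 hη2 heq
      rcases (hB' η).mp hη with h | ⟨j, hj, rfl⟩
      · rcases (hB' η2).mp hη2 with h2 | ⟨j2, hj2, rfl⟩
        · exact bijX.injOn h h2 heq
        · exfalso
          rw [IY j2 hj2] at heq
          exact disj j2 hj2 (heq ▸ bijX.mapsTo h)
      · rcases (hB' η2).mp hη2 with h2 | ⟨j2, hj2, rfl⟩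
        · exfalso
          rw [IY j hj] at heq
          exact disj j hj (heq.symm ▸ bijX.mapsTo h2)
        · rw [IY j hj, IY j2 hj2] at heq
          exact (hcomp _ _ hj hj2).mp heq
    · intro χ hχ
      rcases (hB χ).mp hχ with h | ⟨j, hj, rfl⟩
      · obtain ⟨η, hη, rfl⟩ := bijX.surjOn h
        exact ⟨η, (hB' _).mpr (Or.inl hη), rfl⟩
      · exact ⟨ζ' j, (hB' _).mpr (Or.inr ⟨j, hj, rfl⟩), IY j hj⟩
  · intro η _
    by_cases h : η ∈ X'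
    · simp only [ε, if_pos h]
      rcases sgn' η h with h1 | h1 <;> rcases sgn _ (bijX.mapsTo h) with h2 | h2 <;>
        rw [h1, h2] <;> norm_num
    · simp only [ε, if_neg h]
      rcases sgn₀' with h1 | h1 <;> rcases sgn₀ with h2 | h2 <;> rw [h1, h2] <;> norm_num
  · intro η h
    simp only [ε, if_pos h]
  · intro j hj
    simp only [ε, if_neg (disj' j hj)]

theorem exists_I (he : 0 < e) (hs : Side p e B j₀ X ζ δ δ₀ b) (hs' : Side p e B' j₀ X' ζ' δ' δ₀' b')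
    (hcomp : ∀ j j', j ≠ j₀ → j' ≠ j₀ → (ζ j = ζ j' ↔ ζ' j = ζ' j')) :
    ∃ (I : IrrCharacter G' → IrrCharacter G) (ε : IrrCharacter G' → ℤ),
      IsI j₀ B X ζ δ δ₀ B' X' ζ' δ' δ₀' I ε := by
  obtain ⟨I, ε, h1, h2, h3, h4, h5, h6⟩ := abs_I e he j₀ B X ζ δ δ₀ B' X' ζ' δ' δ₀'
    hs.hB hs.disj hs.cardX hs.sgn hs.sgn₀ hs'.hB hs'.disj hs'.cardX hs'.sgn hs'.sgn₀ hcomp
  exact ⟨I, ε, h1, h2, h3, h4, h5, h6⟩

end Cfsg.Agent.Lib.H80PIBij
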