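import Cfsg.Agent.Lib.Helper80PIDefs
import Cfsg.Agent.Lib.Helper84KleinE

set_option autoImplicit false

namespace Cfsg.Agent.Lib.H80PIKer
open Cfsg
open Cfsg.Agent.Lib.Helper81CycDefs Cfsg.Agent.Lib.Helper81CycGDefs Cfsg.Agent.Lib.Helper4DefOneDefs
open Cfsg.Agent.Lib.Helper80Transport Cfsg.Agent.Lib.Helper82Quot Cfsg.Agent.Lib.Helper81Base
open Cfsg.Agent.Lib.Helper80PIDefs
open scoped ComplexConjugate

universe u v w

variable {G : Type u} [Group G] [Fintype G] {G' : Type v} [Group G'] [Fintype G'] {p e : ℕ}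
  [Fact p.Prime] {M : Ideal AlgInt} {J : Type w} [Fintype J] {j₀ : J}
  {B X : Set (IrrCharacter G)} {ζ : J → IrrCharacter G} {δ : IrrCharacter G → ℤ} {δ₀ : ℤ}
  {b : J → G → ℂ} {B' X' : Set (IrrCharacter G')} {ζ' : J → IrrCharacter G'}
  {δ' : IrrCharacter G' → ℤ} {δ₀' : ℤ} {b' : J → G' → ℂ}
  {I : IrrCharacter G' → IrrCharacter G} {ε : IrrCharacter G' → ℤ}

open Classical in
/-- piece `Ker`.  Unfold `signedBijectionKernel` (finsum over `η ∈ B'`; see
`Helper84KleinE.kernel_eq` for the conversion into a `Finset` sum with `if η ∈ B'`).  Split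
`B' = X' ⊔ Y'`, `Y' = {ζ' j | j ≠ j₀}` (`hs'.hB`, `hs'.disj`).  On `X'` use `hI.epsX`.
For the second part: `∑_{j ≠ j₀} F (ζ' j) = e * ∑_{η ∈ Y'} F η` because every fibre of `ζ'` on
`J \ j₀` has `e` elements (`hs'.fib`; `Finset.sum_fiberwise` / `Finset.sum_comp`), and
`ε (ζ' j) = δ₀' δ₀`, `I (ζ' j) = ζ j` (`hI.epsY`, `hI.IY`). -/
theorem kernel_split (he : 0 < e) (hs' : Side p e B' j₀ X' ζ' δ' δ₀' b')
    (hI : IsI j₀ B X ζ δ δ₀ B' X' ζ' δ' δ₀' I ε) (g : G) (h : G') :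
    signedBijectionKernel B' I ε g h
      = (∑ η : IrrCharacter G', if η ∈ X' then
          ((δ (I η) : ℂ) * (I η : G → ℂ) g) * ((δ' η : ℂ) * (η : G' → ℂ) h) else 0)
        + (e : ℂ)⁻¹ * ∑ j, if j = j₀ then 0 else
          ((δ₀ : ℂ) * (ζ j : G → ℂ) g) * ((δ₀' : ℂ) * (ζ' j : G' → ℂ) h) := by
  rw [Helper84KleinE.kernel_eq, Finset.sum_filter]
  obtain ⟨F, hF⟩ : ∃ F : IrrCharacter G' → ℂ,
      F = fun η => (ε η : ℂ) * (I η : G → ℂ) g * (η : G' → ℂ) h := ⟨_, rfl⟩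
  have hFa : ∀ η, (ε η : ℂ) * (I η : G → ℂ) g * (η : G' → ℂ) h = F η := by
    intro η; rw [hF]
  simp only [hFa]
  have hsplit : ∀ η : IrrCharacter G', (if η ∈ B' then F η else 0)
      = (if η ∈ X' then F η else 0) + (if ∃ j, j ≠ j₀ ∧ ζ' j = η then F η else 0) := by
    intro η
    by_cases h1 : η ∈ X'
    · have h2 : ¬ ∃ j, j ≠ j₀ ∧ ζ' j = η := by
        rintro ⟨j, hj, rfl⟩
        exact hs'.disj j hj h1
      have h3 : η ∈ B' := (hs'.hB η).2 (Or.inl h1)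
      rw [if_pos h3, if_pos h1, if_neg h2, add_zero]
    · by_cases h2 : ∃ j, j ≠ j₀ ∧ ζ' j = η
      · have h3 : η ∈ B' := (hs'.hB η).2 (Or.inr h2)
        rw [if_pos h3, if_neg h1, if_pos h2, zero_add]
      · have h3 : η ∉ B' := fun h3 => ((hs'.hB η).1 h3).elim h1 h2
        rw [if_neg h3, if_neg h1, if_neg h2, zero_add]
  have hX : ∀ η : IrrCharacter G', (if η ∈ X' then F η else 0)
      = (if η ∈ X' then
          ((δ (I η) : ℂ) * (I η : G → ℂ) g) * ((δ' η : ℂ) * (η : G' → ℂ) h) else 0) := by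
    intro η
    split_ifs with h1
    · rw [← hFa, hI.epsX η h1]
      push_cast
      ring
    · rfl
  have hY : (∑ j, if j = j₀ then 0 else
        ((δ₀ : ℂ) * (ζ j : G → ℂ) g) * ((δ₀' : ℂ) * (ζ' j : G' → ℂ) h))
      = (e : ℂ) * ∑ η : IrrCharacter G', (if ∃ j, j ≠ j₀ ∧ ζ' j = η then F η else 0) := by
    have h1 : ∀ j, (if j = j₀ then 0 else
        ((δ₀ : ℂ) * (ζ j : G → ℂ) g) * ((δ₀' : ℂ) * (ζ' j : G' → ℂ) h))
        = (if j ≠ j₀ then F (ζ' j) else 0) := by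
      intro j
      by_cases hj : j = j₀
      · rw [if_pos hj, if_neg (not_not.2 hj)]
      · rw [if_neg hj, if_pos hj, ← hFa, hI.epsY j hj, hI.IY j hj]
        push_cast
        ring
    rw [Finset.sum_congr rfl fun j _ => h1 j, ← Finset.sum_filter,
      ← Finset.sum_fiberwise _ ζ', Finset.mul_sum]
    apply Finset.sum_congr rfl
    intro η _
    by_cases h2 : ∃ j, j ≠ j₀ ∧ ζ' j = η
    · rw [if_pos h2]
      obtain ⟨j, hj, rfl⟩ := h2
      have h3 : ∀ i ∈ (Finset.univ.filter (fun i : J => i ≠ j₀)).filter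
          (fun i => ζ' i = ζ' j), F (ζ' i) = F (ζ' j) := by
        intro i hi
        rw [(Finset.mem_filter.1 hi).2]
      rw [Finset.sum_congr rfl h3, Finset.sum_const, nsmul_eq_mul]
      congr 2
      rw [← hs'.fib j hj, Nat.card_eq_fintype_card, Fintype.card_subtype, Finset.filter_filter]
    · rw [if_neg h2, mul_zero]
      apply Finset.sum_eq_zero
      intro i hi
      exact absurd ⟨i, (Finset.mem_filter.1 (Finset.mem_filter.1 hi).1).2,
        (Finset.mem_filter.1 hi).2⟩ h2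
  have he' : (e : ℂ) ≠ 0 := by exact_mod_cast he.ne'
  rw [hY, ← mul_assoc, inv_mul_cancel₀ he', one_mul, Finset.sum_congr rfl fun η _ => hsplit η,
    Finset.sum_add_distrib, Finset.sum_congr rfl fun η _ => hX η]

end Cfsg.Agent.Lib.H80PIKer
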