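import Cfsg.Agent.Lib.Helper80PIDefs
import Cfsg.Agent.Lib.H80PIKer

set_option autoImplicit false

namespace Cfsg.Agent.Lib.H80PIRS
open Cfsg
open Cfsg.Agent.Lib.Helper81CycDefs Cfsg.Agent.Lib.Helper81CycGDefs Cfsg.Agent.Lib.Helper4DefOneDefs
open Cfsg.Agent.Lib.Helper80Transport Cfsg.Agent.Lib.Helper82Quot Cfsg.Agent.Lib.Helper81Base
open Cfsg.Agent.Lib.Helper80PIDefs
open scoped ComplexConjugate

universe u v w

variable {G : Type u} [Group G] [Fintype G] {G' : Type v} [Group G'] [Fintype G'] {p e : ℕ}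
  [Fact p.Prime] {M : Ideal AlgInt} {J : Type w} [Fintype J] {j₀ : J}
  {B X : Set (IrrCharacter G)} {ζ : J → IrrCharacter G} {δ : IrrCharacter G → ℤ} {δ₀ : ℤ}
  {b : J → G → ℂ} {B' X' : Set (IrrCharacter G')} {ζ' : J → IrrCharacter G'}
  {δ' : IrrCharacter G' → ℤ} {δ₀' : ℤ} {b' : J → G' → ℂ}
  {I : IrrCharacter G' → IrrCharacter G} {ε : IrrCharacter G' → ℤ}

open Classical in
theorem split_sum {J : Type w} [Fintype J] (j₀ : J) (F : J → ℂ) :
    ∑ j, F j = F j₀ + ∑ j, if j = j₀ then 0 else F j := by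
  have h1 : ∀ j, F j = (if j = j₀ then F j₀ else 0) + (if j = j₀ then 0 else F j) := by
    intro j
    by_cases h : j = j₀
    · subst h; simp
    · simp [h]
  calc ∑ j, F j = ∑ j, ((if j = j₀ then F j₀ else 0) + (if j = j₀ then 0 else F j)) :=
        Finset.sum_congr rfl (fun j _ => h1 j)
    _ = _ := by rw [Finset.sum_add_distrib, Finset.sum_ite_eq']; simp

/-- piece `RS`.  `kernel_split`; first sum: `δ' η η h = - b' j₀ h / e` (`hs'.singX`) and
`∑_{η ∈ X'} δ (I η) (I η) g = SX X δ g` (reindex by the bijection `hI.bijX`; see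
`Helper84KleinE.sum_bij` for a model); second sum: `δ₀ ζ j g = - SX X δ g` (`hs.reg`),
`δ₀' ζ' j h = b' j h` (`hs'.singY`), `∑_{j ≠ j₀} b' j h = - b' j₀ h` (`hs'.sum0`). -/
theorem kernel_rs (he : 0 < e) (hs : Side p e B j₀ X ζ δ δ₀ b) (hs' : Side p e B' j₀ X' ζ' δ' δ₀' b')
    (hI : IsI j₀ B X ζ δ δ₀ B' X' ζ' δ' δ₀' I ε) {g : G} {h : G'} (hg : ¬ p ∣ orderOf g)
    (hh : p ∣ orderOf h) :
    signedBijectionKernel B' I ε g h = 0 := by
  classical
  rw [H80PIKer.kernel_split he hs' hI g h]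
  have he0 : (e : ℂ) ≠ 0 := by exact_mod_cast he.ne'
  have h1 : ∀ η : IrrCharacter G', (if η ∈ X' then
      ((δ (I η) : ℂ) * (I η : G → ℂ) g) * ((δ' η : ℂ) * (η : G' → ℂ) h) else 0)
      = (if η ∈ X' then (δ (I η) : ℂ) * (I η : G → ℂ) g else 0) * (-(e:ℂ)⁻¹ * b' j₀ h) := by
    intro η
    by_cases hη : η ∈ X'
    · simp only [if_pos hη]
      have a2 := hs'.singX h hh η hη
      have a2' : (δ' η : ℂ) * (η : G' → ℂ) h = -(e:ℂ)⁻¹ * b' j₀ h := by
        field_simp; linear_combination a2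
      rw [a2']
    · simp only [if_neg hη, zero_mul]
  have h2 : ∀ j, (if j = j₀ then (0 : ℂ) else
      ((δ₀ : ℂ) * (ζ j : G → ℂ) g) * ((δ₀' : ℂ) * (ζ' j : G' → ℂ) h))
      = (-SX X δ g) * (if j = j₀ then 0 else b' j h) := by
    intro j
    by_cases hj : j = j₀
    · simp only [if_pos hj, mul_zero]
    · simp only [if_neg hj]
      have a2 := hs.reg g hg j hj
      have a2' : (δ₀ : ℂ) * (ζ j : G → ℂ) g = -SX X δ g := by linear_combination a2
      rw [hs'.singY h hh j hj, a2']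
  have h3 : (∑ η : IrrCharacter G', if η ∈ X' then (δ (I η) : ℂ) * (I η : G → ℂ) g else 0)
      = SX X δ g := by
    have h6 : SX X δ g = ∑ χ : IrrCharacter G, if χ ∈ X then (δ χ : ℂ) * (χ : G → ℂ) g else 0 := rfl
    rw [h6, ← Finset.sum_filter, ← Finset.sum_filter]
    apply Finset.sum_nbij I
    · intro a ha
      simp only [Finset.mem_filter, Finset.mem_univ, true_and] at ha ⊢
      exact hI.bijX.mapsTo ha
    · intro a ha a' ha' haa
      simp only [Finset.coe_filter, Finset.mem_univ, true_and, Set.mem_setOf_eq] at ha ha'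
      exact hI.bijX.injOn ha ha' haa
    · intro c hc
      simp only [Finset.coe_filter, Finset.mem_univ, true_and, Set.mem_setOf_eq] at hc
      obtain ⟨a, ha, rfl⟩ := hI.bijX.surjOn hc
      exact ⟨a, by simpa using ha, rfl⟩
    · intro a _; rfl
  have h4 := hs'.sum0 h hh
  rw [split_sum j₀ (fun j => b' j h)] at h4
  rw [Finset.sum_congr rfl (fun η _ => h1 η), Finset.sum_congr rfl (fun j _ => h2 j),
    ← Finset.mul_sum, ← Finset.sum_mul, h3]
  have h5 : (∑ j, if j = j₀ then (0:ℂ) else b' j h) = - b' j₀ h := by linear_combination h4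
  rw [h5]; ring

end Cfsg.Agent.Lib.H80PIRS
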