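import Cfsg.Agent.Lib.Helper80PIDefs

set_option autoImplicit false

namespace Cfsg.Agent.Lib.H80PIVo
open Cfsg
open Cfsg.Agent.Lib.Helper81CycDefs Cfsg.Agent.Lib.Helper81CycGDefs Cfsg.Agent.Lib.Helper4DefOneDefs
open Cfsg.Agent.Lib.Helper80Transport Cfsg.Agent.Lib.Helper82Quot Cfsg.Agent.Lib.Helper81Base
open Cfsg.Agent.Lib.Helper80PIDefs
open scoped ComplexConjugate

universe u v w

variable {G : Type u} [Group G] [Fintype G] {p : ℕ} [Fact p.Prime] {M : Ideal AlgInt}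

theorem dvd_orderOf_mul {g s : G} (hc : s * g = g * s) (hg : ¬ p ∣ orderOf g)
    (hs : ∃ k : ℕ, orderOf s = p ^ k) (hs1 : s ≠ 1) : p ∣ orderOf (g * s) := by
  have hp : p.Prime := Fact.out
  obtain ⟨k, hk⟩ := hs
  have hk0 : k ≠ 0 := by
    rintro rfl
    rw [pow_zero, orderOf_eq_one_iff] at hk
    exact hs1 hk
  have hcomm : Commute g s := hc.symm
  have hcop : Nat.Coprime (orderOf g) (orderOf s) := by
    rw [hk]
    apply Nat.Coprime.pow_right
    exact ((Nat.Prime.coprime_iff_not_dvd hp).mpr hg).symm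
  rw [hcomm.orderOf_mul_eq_mul_orderOf_of_coprime hcop, hk]
  exact Dvd.dvd.mul_left (dvd_pow_self p hk0) _

end Cfsg.Agent.Lib.H80PIVo
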