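import Cfsg.Agent.Lib.Helper80PIDefs
import Cfsg.Agent.Lib.H80PIVs
import Cfsg.Agent.Lib.Helper82Mult
import Cfsg.Agent.Lib.Helper82Irr

set_option autoImplicit false

namespace Cfsg.Agent.Lib.H80PIVr
open Cfsg
open Cfsg.Agent.Lib.Helper81CycDefs Cfsg.Agent.Lib.Helper81CycGDefs Cfsg.Agent.Lib.Helper4DefOneDefs
open Cfsg.Agent.Lib.Helper80Transport Cfsg.Agent.Lib.Helper82Quot Cfsg.Agent.Lib.Helper81Base
open Cfsg.Agent.Lib.Helper80PIDefs
open scoped ComplexConjugate

universe u v w

variable {G : Type u} [Group G] [Fintype G] {p : ℕ} [Fact p.Prime] {M : Ideal AlgInt}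

open Classical in
/-- piece `Vr`.  `A := Subgroup.centralizer {g}` contains `g` (central in `A`) and `S`.
`χ a = ∑_{lam ∈ Irr A} mH χ lam * lam a` for `a ∈ A` (expansion of the restriction; it is used in the
proof of `H81CycGINN3.van_sing_aux`), `mH χ lam ∈ ℕ` (`Helper82Mult.exists_nat_classInner`, see the
beginning of the proof of `H81CycGMAIN.main_G`).  Apply `avg_central` in the group `↥A` with
`z = ⟨g, _⟩` and `S.subgroupOf A`; a finite sum of (natural number) * (integral) is integral
(`IsIntegral.sum`, `IsIntegral.mul`, `isIntegral_natCast`...). -/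
theorem avg_integral (χ : IrrCharacter G) (g : G) (S : Subgroup G) (hS : ∀ s ∈ S, s * g = g * s) :
    IsIntegral ℤ ((Nat.card S : ℂ)⁻¹ * ∑ a : G, if a ∈ S then (χ : G → ℂ) (g * a) else 0) := by
  set A : Subgroup G := Subgroup.centralizer ({g} : Set G) with hA
  haveI : Fintype A := Fintype.ofFinite A
  have hmemA : ∀ s : G, s ∈ A ↔ s * g = g * s := by
    intro s
    rw [hA, Subgroup.mem_centralizer_iff]
    constructor
    · intro h
      exact (h g (Set.mem_singleton g)).symm
    · intro h x hx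
      rw [Set.mem_singleton_iff.1 hx]
      exact h.symm
  have hgA : g ∈ A := (hmemA g).2 rfl
  have hSA : S ≤ A := fun s hs => (hmemA s).2 (hS s hs)
  obtain ⟨m, hm, hexp⟩ := Cfsg.Agent.Lib.Helper82Mult.exists_mult
    (Cfsg.Agent.Lib.Helper82Mult.isCharacter_restrict
      (Cfsg.Agent.Lib.Helper82Irr.irr_isCharacter χ) A)
  have hval : ∀ a : A, (χ : G → ℂ) (a : G)
      = ∑ lam : IrrCharacter A, (m lam : ℂ) * (lam : A → ℂ) a := by
    intro a
    have := congrFun hexp a
    rw [Finset.sum_apply] at this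
    simpa only [Pi.smul_apply, smul_eq_mul] using this
  set z : A := ⟨g, hgA⟩ with hz0
  have hz : ∀ a : A, a * z = z * a := by
    intro a
    apply Subtype.ext
    exact (hmemA a).1 a.2
  have hcard : Nat.card (S.subgroupOf A) = Nat.card S :=
    Nat.card_congr (Subgroup.subgroupOfEquivOfLe hSA).toEquiv
  have hsum : ∑ a : G, (if a ∈ S then (χ : G → ℂ) (g * a) else 0)
      = ∑ a : A, (if a ∈ S.subgroupOf A then (χ : G → ℂ) ((z * a : A) : G) else 0) := by
    have e1 : ∑ a : G, (if a ∈ S then (χ : G → ℂ) (g * a) else 0)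
        = ∑ a ∈ Finset.univ.filter (fun a : G => a ∈ A),
            (if a ∈ S then (χ : G → ℂ) (g * a) else 0) := by
      symm
      apply Finset.sum_subset (Finset.filter_subset _ _)
      intro a _ ha
      have haA : a ∉ A := fun h => ha (Finset.mem_filter.2 ⟨Finset.mem_univ _, h⟩)
      rw [if_neg (fun h => haA (hSA h))]
    rw [e1]
    rw [Finset.sum_subtype (Finset.univ.filter (fun a : G => a ∈ A)) (p := fun a => a ∈ A)
      (by intro x; simp)]
    apply Finset.sum_congr rfl
    intro a _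
    rfl
  have key : (Nat.card S : ℂ)⁻¹ * ∑ a : G, (if a ∈ S then (χ : G → ℂ) (g * a) else 0)
      = ∑ lam : IrrCharacter A, (m lam : ℂ) * ((Nat.card (S.subgroupOf A) : ℂ)⁻¹ *
          ∑ a : A, if a ∈ S.subgroupOf A then (lam : A → ℂ) (z * a) else 0) := by
    rw [hsum, hcard]
    have e1 : ∀ a : A, (if a ∈ S.subgroupOf A then (χ : G → ℂ) ((z * a : A) : G) else 0)
        = ∑ lam : IrrCharacter A, (m lam : ℂ) *
            (if a ∈ S.subgroupOf A then (lam : A → ℂ) (z * a) else 0) := by
      intro a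
      split_ifs with h
      · exact hval (z * a)
      · simp
    simp only [e1]
    rw [Finset.sum_comm, Finset.mul_sum]
    apply Finset.sum_congr rfl
    intro lam _
    rw [← Finset.mul_sum]
    ring
  rw [key]
  apply IsIntegral.sum
  intro lam _
  exact (isIntegral_natCast (R := ℤ) (B := ℂ) (a := m lam)).mul
    (Cfsg.Agent.Lib.H80PIVs.avg_central lam z hz (S.subgroupOf A))

end Cfsg.Agent.Lib.H80PIVr
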