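import Cfsg.Agent.Lib.Helper80PIDefs
import Cfsg.Agent.Lib.H80PIVr
import Cfsg.Agent.Lib.H80PIVo
import Cfsg.Agent.Lib.Helper84KleinE

set_option autoImplicit false

namespace Cfsg.Agent.Lib.H80PIV
open Cfsg
open Cfsg.Agent.Lib.Helper81CycDefs Cfsg.Agent.Lib.Helper81CycGDefs Cfsg.Agent.Lib.Helper4DefOneDefs
open Cfsg.Agent.Lib.Helper80Transport Cfsg.Agent.Lib.Helper82Quot Cfsg.Agent.Lib.Helper81Base
open Cfsg.Agent.Lib.Helper80PIDefs
open scoped ComplexConjugate

universe u v w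

variable {G : Type u} [Group G] [Fintype G] {p : ℕ} [Fact p.Prime] {M : Ideal AlgInt}

/-- piece `V`: a local-integral combination `Θ` of irreducible characters vanishing on the
`p`-singular elements satisfies `Θ(g) / |C_G(g)| ∈ O`.
If `p ∣ orderOf g` the value is `0`.  Otherwise let `S₀` be a Sylow `p`-subgroup of
`A = Subgroup.centralizer {g}` and `S = S₀.map A.subtype`.  For `1 ≠ s ∈ S`: `p ∣ orderOf (g s)`
(`dvd_orderOf_mul`), so `|S|⁻¹ ∑_{a ∈ S} Θ(g a) = Θ(g) / |S|`; on the other hand it is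
`∑ χ, a χ * (|S|⁻¹ ∑_{a ∈ S} χ (g a))`, a local integer by `avg_integral` (an algebraic integer is
a local integer: as in `Helper84KleinE.irr_mem`).  `|A| = |S| * m` with `¬ p ∣ m`
(`Sylow.card_eq_multiplicity` / `Sylow.not_dvd_index`), and `(m : ℂ)⁻¹` is a local integer. -/
theorem lemV (hM : IsPModular p M) (a : IrrCharacter G → ℂ) (ha : ∀ χ, MemLocalRing M (a χ))
    (hv : ∀ g : G, p ∣ orderOf g → ∑ χ : IrrCharacter G, a χ * (χ : G → ℂ) g = 0) (g : G) :
    MemLocalRing M ((∑ χ : IrrCharacter G, a χ * (χ : G → ℂ) g)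
      / (Nat.card (Subgroup.centralizer ({g} : Set G)) : ℂ)) := by
  classical
  haveI hPr : M.IsPrime := hM.2.1.isPrime
  by_cases hg : p ∣ orderOf g
  · rw [hv g hg, zero_div]
    exact Cfsg.Agent.Lib.Helper20Local.memLocalRing_zero hPr
  set A : Subgroup G := Subgroup.centralizer ({g} : Set G) with hA
  let S₀ : Sylow p A := default
  set S : Subgroup G := (S₀ : Subgroup A).map A.subtype with hS
  have hScomm : ∀ s ∈ S, s * g = g * s := by
    intro s hs
    obtain ⟨x, _, rfl⟩ := Subgroup.mem_map.1 hs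
    have := Subgroup.mem_centralizer_iff.1 x.2 g (Set.mem_singleton g)
    exact this.symm
  have hSp : ∀ s ∈ S, ∃ k : ℕ, orderOf s = p ^ k := by
    intro s hs
    obtain ⟨x, hx, rfl⟩ := Subgroup.mem_map.1 hs
    obtain ⟨k, hk⟩ := (IsPGroup.iff_orderOf.1 S₀.isPGroup') ⟨x, hx⟩
    refine ⟨k, ?_⟩
    rw [← hk]
    simp
  have h1 : ∑ x : G, (if x ∈ S then (∑ χ : IrrCharacter G, a χ * (χ : G → ℂ) (g * x)) else 0)
      = ∑ χ : IrrCharacter G, a χ * (χ : G → ℂ) g := by
    rw [Finset.sum_eq_single (1 : G)]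
    · rw [if_pos S.one_mem, mul_one]
    · intro b _ hb
      split_ifs with h
      · exact hv _ (Cfsg.Agent.Lib.H80PIVo.dvd_orderOf_mul (hScomm b h) hg (hSp b h) hb)
      · rfl
    · intro h
      exact absurd (Finset.mem_univ _) h
  have h2 : (Nat.card S : ℂ)⁻¹ * (∑ χ : IrrCharacter G, a χ * (χ : G → ℂ) g)
      = ∑ χ : IrrCharacter G, a χ * ((Nat.card S : ℂ)⁻¹ *
          ∑ x : G, if x ∈ S then (χ : G → ℂ) (g * x) else 0) := by
    rw [← h1]
    have e1 : ∀ x : G, (if x ∈ S then (∑ χ : IrrCharacter G, a χ * (χ : G → ℂ) (g * x)) else 0)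
        = ∑ χ : IrrCharacter G, a χ * (if x ∈ S then (χ : G → ℂ) (g * x) else 0) := by
      intro x
      split_ifs with h
      · rfl
      · simp
    simp only [e1]
    rw [Finset.sum_comm, Finset.mul_sum]
    apply Finset.sum_congr rfl
    intro χ _
    rw [← Finset.mul_sum]
    ring
  have h3 : MemLocalRing M ((Nat.card S : ℂ)⁻¹ * (∑ χ : IrrCharacter G, a χ * (χ : G → ℂ) g)) := by
    rw [h2]
    apply Cfsg.Agent.Lib.Helper81Local.memLocalRing_sum
    intro χ _
    exact Cfsg.Agent.Lib.Helper81Local.memLocalRing_mul (ha χ)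
      (Cfsg.Agent.Lib.Helper81Local.memLocalRing_of_isIntegral
        (Cfsg.Agent.Lib.H80PIVr.avg_integral χ g S hScomm))
  have hcS : Nat.card S = Nat.card (S₀ : Subgroup A) := by
    rw [hS]
    exact Subgroup.card_map_of_injective A.subtype_injective
  have hcard : Nat.card A = Nat.card S * (S₀ : Subgroup A).index := by
    rw [hcS]
    exact ((S₀ : Subgroup A).card_mul_index).symm
  have hnd : ¬ p ∣ (S₀ : Subgroup A).index := S₀.not_dvd_index
  have h4 := Cfsg.Agent.Lib.Helper20Local.memLocalRing_inv_natCast hM hnd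
  have h5 := Cfsg.Agent.Lib.Helper81Local.memLocalRing_mul h3 h4
  convert h5 using 1
  rw [hcard]
  push_cast
  rw [div_eq_mul_inv, mul_inv]
  ring

end Cfsg.Agent.Lib.H80PIV
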