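import Cfsg.Agent.Lib.Helper80PIDefs
import Cfsg.Agent.Lib.H80PISR
import Cfsg.Agent.Lib.H80PIRS
import Cfsg.Agent.Lib.H80PIV
import Cfsg.Agent.Lib.Helper84KleinE

set_option autoImplicit false

namespace Cfsg.Agent.Lib.H80PIRR
open Cfsg
open Cfsg.Agent.Lib.Helper81CycDefs Cfsg.Agent.Lib.Helper81CycGDefs Cfsg.Agent.Lib.Helper4DefOneDefs
open Cfsg.Agent.Lib.Helper80Transport Cfsg.Agent.Lib.Helper82Quot Cfsg.Agent.Lib.Helper81Base
open Cfsg.Agent.Lib.Helper80PIDefs
open scoped ComplexConjugate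

universe u v w

variable {G : Type u} [Group G] [Fintype G] {G' : Type v} [Group G'] [Fintype G'] {p e : ℕ}
  [Fact p.Prime] {M : Ideal AlgInt} {J : Type w} [Fintype J] {j₀ : J}
  {B X : Set (IrrCharacter G)} {ζ : J → IrrCharacter G} {δ : IrrCharacter G → ℤ} {δ₀ : ℤ}
  {b : J → G → ℂ} {B' X' : Set (IrrCharacter G')} {ζ' : J → IrrCharacter G'}
  {δ' : IrrCharacter G' → ℤ} {δ₀' : ℤ} {b' : J → G' → ℂ}
  {I : IrrCharacter G' → IrrCharacter G} {ε : IrrCharacter G' → ℤ}

/-- piece `RR`. -/
theorem kernel_rr (hM : IsPModular p M) (he : 0 < e) (hs : Side p e B j₀ X ζ δ δ₀ b)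
    (hs' : Side p e B' j₀ X' ζ' δ' δ₀' b')
    (hI : IsI j₀ B X ζ δ δ₀ B' X' ζ' δ' δ₀' I ε) {g : G} {h : G'} (hg : ¬ p ∣ orderOf g)
    (hh : ¬ p ∣ orderOf h) :
    MemLocalRing M (signedBijectionKernel B' I ε g h
        / (Nat.card (Subgroup.centralizer ({g} : Set G)) : ℂ)) ∧
    MemLocalRing M (signedBijectionKernel B' I ε g h
        / (Nat.card (Subgroup.centralizer ({h} : Set G')) : ℂ)) := by
  classical
  have hPr : M.IsPrime := hM.2.1.isPrime
  constructor
  · let a : IrrCharacter G → ℂ := fun χ =>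
      ∑ η : IrrCharacter G', if η ∈ B' ∧ I η = χ then (ε η : ℂ) * (η : G' → ℂ) h else 0
    have ha : ∀ χ, MemLocalRing M (a χ) := by
      intro χ
      apply Cfsg.Agent.Lib.Helper20Local.lrSum hPr
      intro η _
      split_ifs
      · exact Cfsg.Agent.Lib.Helper20Local.lrMul hPr
          (Cfsg.Agent.Lib.Helper20Local.memLocalRing_intCast hPr _)
          (Cfsg.Agent.Lib.Helper84KleinE.irr_mem η h)
      · exact Cfsg.Agent.Lib.Helper20Local.memLocalRing_zero hPr
    have hsum : ∀ x : G, ∑ χ : IrrCharacter G, a χ * (χ : G → ℂ) x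
        = signedBijectionKernel B' I ε x h := by
      intro x
      rw [Cfsg.Agent.Lib.Helper84KleinE.kernel_eq, Finset.sum_filter]
      simp only [a, Finset.sum_mul]
      rw [Finset.sum_comm]
      apply Finset.sum_congr rfl
      intro η _
      by_cases hη : η ∈ B'
      · rw [if_pos hη, Finset.sum_eq_single (I η)]
        · rw [if_pos ⟨hη, rfl⟩]; ring
        · intro χ _ hχ
          rw [if_neg (by rintro ⟨_, h'⟩; exact hχ h'.symm), zero_mul]
        · intro h'; exact absurd (Finset.mem_univ _) h'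
      · rw [if_neg hη]
        apply Finset.sum_eq_zero
        intro χ _
        rw [if_neg (fun h' => hη h'.1), zero_mul]
    have key := H80PIV.lemV hM a ha
      (fun x hx => by rw [hsum]; exact H80PISR.kernel_sr he hs hs' hI hx hh) g
    rwa [hsum] at key
  · let a : IrrCharacter G' → ℂ := fun η =>
      if η ∈ B' then (ε η : ℂ) * (I η : G → ℂ) g else 0
    have ha : ∀ η, MemLocalRing M (a η) := by
      intro η
      simp only [a]
      split_ifs
      · exact Cfsg.Agent.Lib.Helper20Local.lrMul hPr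
          (Cfsg.Agent.Lib.Helper20Local.memLocalRing_intCast hPr _)
          (Cfsg.Agent.Lib.Helper84KleinE.irr_mem (I η) g)
      · exact Cfsg.Agent.Lib.Helper20Local.memLocalRing_zero hPr
    have hsum : ∀ y : G', ∑ η : IrrCharacter G', a η * (η : G' → ℂ) y
        = signedBijectionKernel B' I ε g y := by
      intro y
      rw [Cfsg.Agent.Lib.Helper84KleinE.kernel_eq, Finset.sum_filter]
      apply Finset.sum_congr rfl
      intro η _
      simp only [a]
      by_cases hη : η ∈ B'
      · rw [if_pos hη, if_pos hη]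
      · rw [if_neg hη, if_neg hη, zero_mul]
    have key := H80PIV.lemV hM a ha
      (fun y hy => by rw [hsum]; exact H80PIRS.kernel_rs he hs hs' hI hg hy) h
    rwa [hsum] at key

end Cfsg.Agent.Lib.H80PIRR
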