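import Cfsg.Agent.Lib.Helper80PIDefs
import Cfsg.Agent.Lib.H80PIKer

set_option autoImplicit false

namespace Cfsg.Agent.Lib.H80PISS
open Cfsg
open Cfsg.Agent.Lib.Helper81CycDefs Cfsg.Agent.Lib.Helper81CycGDefs Cfsg.Agent.Lib.Helper4DefOneDefs
open Cfsg.Agent.Lib.Helper80Transport Cfsg.Agent.Lib.Helper82Quot Cfsg.Agent.Lib.Helper81Base
open Cfsg.Agent.Lib.Helper80PIDefs
open scoped ComplexConjugate

universe u v w

variable {G : Type u} [Group G] [Fintype G] {G' : Type v} [Group G'] [Fintype G'] {p e : ℕ}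
  [Fact p.Prime] {M : Ideal AlgInt} {J : Type w} [Fintype J] {j₀ : J}
  {B X : Set (IrrCharacter G)} {ζ : J → IrrCharacter G} {δ : IrrCharacter G → ℤ} {δ₀ : ℤ}
  {b : J → G → ℂ} {B' X' : Set (IrrCharacter G')} {ζ' : J → IrrCharacter G'}
  {δ' : IrrCharacter G' → ℤ} {δ₀' : ℤ} {b' : J → G' → ℂ}
  {I : IrrCharacter G' → IrrCharacter G} {ε : IrrCharacter G' → ℤ}

open Classical in
theorem split_sum {J : Type w} [Fintype J] (j₀ : J) (F : J → ℂ) :
    ∑ j, F j = F j₀ + ∑ j, if j = j₀ then 0 else F j := by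
  have h1 : ∀ j, F j = (if j = j₀ then F j₀ else 0) + (if j = j₀ then 0 else F j) := by
    intro j
    by_cases h : j = j₀
    · subst h; simp
    · simp [h]
  calc ∑ j, F j = ∑ j, ((if j = j₀ then F j₀ else 0) + (if j = j₀ then 0 else F j)) :=
        Finset.sum_congr rfl (fun j _ => h1 j)
    _ = _ := by rw [Finset.sum_add_distrib, Finset.sum_ite_eq']; simp

/-- piece `SS`.  `kernel_split`; first sum: each factor is `- b j₀ g / e`, resp. `- b' j₀ h / e`
(`hs.singX` for `I η ∈ X` (`hI.bijX.mapsTo`), `hs'.singX`), there are `e` terms (`hs'.cardX`):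
total `b j₀ g * b' j₀ h / e`.  Second sum: `hs.singY`, `hs'.singY`.  Together: the sum over all
`j` (`Finset.sum_ite` / `Finset.sum_erase` / `Finset.add_sum_erase`). -/
theorem kernel_ss (he : 0 < e) (hs : Side p e B j₀ X ζ δ δ₀ b) (hs' : Side p e B' j₀ X' ζ' δ' δ₀' b')
    (hI : IsI j₀ B X ζ δ δ₀ B' X' ζ' δ' δ₀' I ε) {g : G} {h : G'} (hg : p ∣ orderOf g)
    (hh : p ∣ orderOf h) :
    signedBijectionKernel B' I ε g h = (e : ℂ)⁻¹ * ∑ j, b j g * b' j h := by
  classical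
  rw [H80PIKer.kernel_split he hs' hI g h]
  have he0 : (e : ℂ) ≠ 0 := by exact_mod_cast he.ne'
  have h1 : ∀ η : IrrCharacter G', (if η ∈ X' then
      ((δ (I η) : ℂ) * (I η : G → ℂ) g) * ((δ' η : ℂ) * (η : G' → ℂ) h) else 0)
      = (if η ∈ X' then (e:ℂ)⁻¹ * (e:ℂ)⁻¹ * (b j₀ g * b' j₀ h) else 0) := by
    intro η
    by_cases hη : η ∈ X'
    · simp only [if_pos hη]
      have a1 := hs.singX g hg (I η) (hI.bijX.mapsTo hη)
      have a2 := hs'.singX h hh η hη
      have a1' : (δ (I η) : ℂ) * (I η : G → ℂ) g = -(e:ℂ)⁻¹ * b j₀ g := by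
        field_simp; linear_combination a1
      have a2' : (δ' η : ℂ) * (η : G' → ℂ) h = -(e:ℂ)⁻¹ * b' j₀ h := by
        field_simp; linear_combination a2
      rw [a1', a2']; ring
    · simp only [if_neg hη]
  have hcard : (Finset.univ.filter (fun η : IrrCharacter G' => η ∈ X')).card = e := by
    rw [← hs'.cardX, Nat.card_eq_fintype_card, Fintype.card_subtype]
  have h2 : ∀ j, (if j = j₀ then (0 : ℂ) else
      ((δ₀ : ℂ) * (ζ j : G → ℂ) g) * ((δ₀' : ℂ) * (ζ' j : G' → ℂ) h))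
      = (if j = j₀ then 0 else b j g * b' j h) := by
    intro j
    by_cases hj : j = j₀
    · simp only [if_pos hj]
    · simp only [if_neg hj]
      rw [hs.singY g hg j hj, hs'.singY h hh j hj]
  rw [Finset.sum_congr rfl (fun η _ => h1 η), Finset.sum_congr rfl (fun j _ => h2 j),
    ← Finset.sum_filter, Finset.sum_const, hcard, split_sum j₀ (fun j => b j g * b' j h),
    nsmul_eq_mul]
  field_simp

end Cfsg.Agent.Lib.H80PISS
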