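import Cfsg.Agent.Lib.Helper80PIDefs
import Cfsg.Agent.Lib.H80PIBij
import Cfsg.Agent.Lib.H80PISS
import Cfsg.Agent.Lib.H80PISR
import Cfsg.Agent.Lib.H80PIRS
import Cfsg.Agent.Lib.H80PIRR
import Cfsg.Agent.Lib.Helper84KleinE

set_option autoImplicit false

namespace Cfsg.Agent.Lib.H80PIAbs
open Cfsg
open Cfsg.Agent.Lib.Helper81CycDefs Cfsg.Agent.Lib.Helper81CycGDefs Cfsg.Agent.Lib.Helper4DefOneDefs
open Cfsg.Agent.Lib.Helper80Transport Cfsg.Agent.Lib.Helper82Quot Cfsg.Agent.Lib.Helper81Base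
open Cfsg.Agent.Lib.Helper80PIDefs
open scoped ComplexConjugate

universe u v w

variable {G : Type u} [Group G] [Fintype G] {G' : Type v} [Group G'] [Fintype G'] {p e : ℕ}
  [Fact p.Prime] {M : Ideal AlgInt} {J : Type w} [Fintype J] {j₀ : J}
  {B X : Set (IrrCharacter G)} {ζ : J → IrrCharacter G} {δ : IrrCharacter G → ℤ} {δ₀ : ℤ}
  {b : J → G → ℂ} {B' X' : Set (IrrCharacter G')} {ζ' : J → IrrCharacter G'}
  {δ' : IrrCharacter G' → ℤ} {δ₀' : ℤ} {b' : J → G' → ℂ}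
  {I : IrrCharacter G' → IrrCharacter G} {ε : IrrCharacter G' → ℤ}

/-- piece `Abs` (assembly of the abstract part). -/
theorem abs (hM : IsPModular p M) (he : 0 < e) (hpe : ¬ p ∣ e) (hs : Side p e B j₀ X ζ δ δ₀ b)
    (hs' : Side p e B' j₀ X' ζ' δ' δ₀' b')
    (hcomp : ∀ j j', j ≠ j₀ → j' ≠ j₀ → (ζ j = ζ j' ↔ ζ' j = ζ' j'))
    (hint : ∀ (g : G) (h : G'), p ∣ orderOf g → p ∣ orderOf h →
      MemLocalRing M ((∑ j, b j g * b' j h) / (Nat.card (Subgroup.centralizer ({g} : Set G)) : ℂ)) ∧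
      MemLocalRing M ((∑ j, b j g * b' j h)
        / (Nat.card (Subgroup.centralizer ({h} : Set G')) : ℂ))) :
    ∃ (I : IrrCharacter G' → IrrCharacter G) (ε : IrrCharacter G' → ℤ),
      IsPerfectIsometry p M B' B I ε ∧ ∀ j, j ≠ j₀ → ε (ζ' j) = δ₀' * δ₀ := by
  have hPr : M.IsPrime := hM.2.1.isPrime
  obtain ⟨I, ε, hI⟩ := H80PIBij.exists_I he hs hs' hcomp
  refine ⟨I, ε, ⟨hI.bij, hI.sgn, ?_⟩, hI.epsY⟩
  intro g h
  by_cases hg : p ∣ orderOf g <;> by_cases hh : p ∣ orderOf h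
  · have hk := H80PISS.kernel_ss he hs hs' hI hg hh
    obtain ⟨h1, h2⟩ := hint g h hg hh
    have hinv := Cfsg.Agent.Lib.Helper20Local.memLocalRing_inv_natCast hM hpe
    refine ⟨?_, ?_, Or.inl ?_⟩
    · rw [hk, mul_div_assoc]; exact Cfsg.Agent.Lib.Helper20Local.lrMul hPr hinv h1
    · rw [hk, mul_div_assoc]; exact Cfsg.Agent.Lib.Helper20Local.lrMul hPr hinv h2
    · unfold IsPRegular; exact ⟨fun h' => absurd hg h', fun h' => absurd hh h'⟩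
  · exact Cfsg.Agent.Lib.Helper84KleinE.perfect_of_zero (H80PISR.kernel_sr he hs hs' hI hg hh) _ _ _
  · exact Cfsg.Agent.Lib.Helper84KleinE.perfect_of_zero (H80PIRS.kernel_rs he hs hs' hI hg hh) _ _ _
  · obtain ⟨h1, h2⟩ := H80PIRR.kernel_rr hM he hs hs' hI hg hh
    exact ⟨h1, h2, Or.inl ⟨fun _ => hh, fun _ => hg⟩⟩

end Cfsg.Agent.Lib.H80PIAbs
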