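import Cfsg.Agent.Lib.Helper80PIDefs
import Cfsg.Agent.Lib.Helper20Center
import Cfsg.Agent.Lib.Helper20Block

set_option autoImplicit false

namespace Cfsg.Agent.Lib.H80PIAvg
open Cfsg
open Cfsg.Agent.Lib.Helper81CycDefs Cfsg.Agent.Lib.Helper81CycGDefs Cfsg.Agent.Lib.Helper4DefOneDefs
open Cfsg.Agent.Lib.Helper80Transport Cfsg.Agent.Lib.Helper82Quot Cfsg.Agent.Lib.Helper81Base
open Cfsg.Agent.Lib.Helper80PIDefs
open scoped ComplexConjugate

universe u v w

variable {G : Type u} [Group G] [Fintype G] {p : ℕ} [Fact p.Prime] {M : Ideal AlgInt}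

/-- piece `Avg`. -/
theorem avg_class (hM : IsPModular p M) (F : G → ℂ) (hF : ∀ x c : G, F (x * c * x⁻¹) = F c)
    (hint : ∀ c : G, MemLocalRing M (F c / (Nat.card (Subgroup.centralizer ({c} : Set G)) : ℂ))) :
    MemLocalRing M ((Nat.card G : ℂ)⁻¹ * ∑ c : G, F c) := by
  have hPr : M.IsPrime := hM.2.1.isPrime
  have hcl : IsClassFunction G F := fun g h => hF h g
  rw [Cfsg.Agent.Lib.Helper4Char2.sum_eq_sum_conjClasses F hcl, Finset.mul_sum]
  apply Cfsg.Agent.Lib.Helper20Local.lrSum hPr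
  intro C _
  set r := Cfsg.Agent.Lib.Helper4Char2.rep C with hr
  rw [Cfsg.Agent.Lib.Helper4Char2.card_isConj_eq_index]
  have h2 := Subgroup.card_mul_index (Subgroup.centralizer ({r} : Set G))
  have h3 : (Nat.card (Subgroup.centralizer ({r} : Set G)) : ℂ) ≠ 0 :=
    Nat.cast_ne_zero.2 Nat.card_pos.ne'
  have h4 : ((Subgroup.centralizer ({r} : Set G)).index : ℂ) ≠ 0 :=
    Nat.cast_ne_zero.2 (Subgroup.index_ne_zero_of_finite)
  have e : (Nat.card G : ℂ)⁻¹ * (((Subgroup.centralizer ({r} : Set G)).index : ℂ) * F r)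
      = F r / (Nat.card (Subgroup.centralizer ({r} : Set G)) : ℂ) := by
    rw [← h2]
    push_cast
    field_simp
  rw [e]
  exact hint r

end Cfsg.Agent.Lib.H80PIAvg
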