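import Cfsg.Agent.Lib.Helper80PIDefs
import Cfsg.Agent.Lib.H81CycGVAN
import Cfsg.Agent.Lib.H81CycGOUT
import Cfsg.Agent.Lib.Helper20Fusion
import Cfsg.Agent.Lib.Helper81Orth

set_option autoImplicit false

namespace Cfsg.Agent.Lib.H80PICen
open Cfsg
open Cfsg.Agent.Lib.Helper81CycDefs Cfsg.Agent.Lib.Helper81CycGDefs Cfsg.Agent.Lib.Helper4DefOneDefs
open Cfsg.Agent.Lib.Helper80Transport Cfsg.Agent.Lib.Helper82Quot Cfsg.Agent.Lib.Helper81Base
open Cfsg.Agent.Lib.Helper80PIDefs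
open scoped ComplexConjugate

universe u v w

variable {G : Type u} [Group G] [Fintype G] {p : ℕ} [Fact p.Prime] {M : Ideal AlgInt}
  {D C T N : Subgroup G} [Fintype C] {t₀ x₀ : G} {e : ℕ} {f : Set (IrrCharacter C)}
  {B : Set (IrrCharacter G)} {θ : IrrCharacter C} {X : Set (IrrCharacter G)}
  {ζ : IrrCharacter C → IrrCharacter G} {δ : IrrCharacter G → ℤ} {δ₀ : ℤ}

/-- piece `Cen`.  Let `u` be the `p`-part of `c` in `↥C` (existence: grep `exists_isPPart`), `u ≠ 1`
as `p ∣ orderOf c`.  By `H81CycGVAN.van` (contrapositive, `hne`) some `x u x⁻¹` lies in `D`, so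
`Subgroup.centralizer {(u : G)} ≤ C` (`H81CycGOUT.cen_conj`).  `u` is a power of `c`
(or: everything commuting with `c` commutes with its `p`-part; grep `isPPart` + `zpowers`/`pow`),
hence `C_G(c) ≤ C_G(u) ≤ C` and `C_G(c) ≃ C_C(c)`, `g ↦ ⟨g, _⟩` (`Nat.card_congr`). -/
theorem card_cen (h : CY p M D C T N t₀ x₀ e f B) {ψ : IrrCharacter C} (hψ : ψ ∈ f) {c : C}
    (hc : p ∣ orderOf c) (hne : (ψ : C → ℂ) c ≠ 0) :
    Nat.card (Subgroup.centralizer ({(c : G)} : Set G))
      = Nat.card (Subgroup.centralizer ({c} : Set C)) := by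
  have hp : p.Prime := Fact.out
  obtain ⟨u, hu⟩ := Cfsg.Agent.Lib.Helper81Orth.exists_ppart (p := p) hp c
  have hu1 : u ≠ 1 := by
    rintro rfl
    obtain ⟨z, hz1, -, -, hz2⟩ := hu
    rw [one_mul] at hz1
    rw [hz1] at hz2
    exact hz2 hc
  have hex : ∃ x : C, ((x * u * x⁻¹ : C) : G) ∈ D := by
    by_contra hcon
    push_neg at hcon
    exact hne (Cfsg.Agent.Lib.H81CycGVAN.van h hψ hu hcon)
  obtain ⟨x, hx⟩ := hex
  have hle : Subgroup.centralizer ({(u : G)} : Set G) ≤ C := Cfsg.Agent.Lib.H81CycGOUT.cen_conj h hx hu1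
  obtain ⟨m, hm⟩ := Cfsg.Agent.Lib.Helper20Fusion.isPPart_pow hu
  have hcC : ∀ g : G, g ∈ Subgroup.centralizer ({(c : G)} : Set G) → g ∈ C := by
    intro g hg
    apply hle
    rw [Subgroup.mem_centralizer_singleton_iff] at hg ⊢
    have h1 : Commute g (c : G) := hg
    have h2 : (u : G) = (c : G) ^ m := by rw [hm]; rfl
    rw [h2]
    exact (h1.pow_right m)
  refine Nat.card_congr
    { toFun := fun g => ⟨⟨(g : G), hcC g g.2⟩, ?_⟩
      invFun := fun g => ⟨((g : C) : G), ?_⟩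
      left_inv := fun g => rfl
      right_inv := fun g => rfl }
  · have := g.2
    rw [Subgroup.mem_centralizer_singleton_iff] at this ⊢
    exact Subtype.ext this
  · have := g.2
    rw [Subgroup.mem_centralizer_singleton_iff] at this ⊢
    exact congrArg Subtype.val this

end Cfsg.Agent.Lib.H80PICen
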