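import Cfsg.Agent.Lib.Helper80PIDefs

set_option autoImplicit false

namespace Cfsg.Agent.Lib.H80PIDS
open Cfsg
open Cfsg.Agent.Lib.Helper81CycDefs Cfsg.Agent.Lib.Helper81CycGDefs Cfsg.Agent.Lib.Helper4DefOneDefs
open Cfsg.Agent.Lib.Helper80Transport Cfsg.Agent.Lib.Helper82Quot Cfsg.Agent.Lib.Helper81Base
open Cfsg.Agent.Lib.Helper80PIDefs
open scoped ComplexConjugate

universe u v w

variable {G : Type u} [Group G] [Fintype G] {p : ℕ} [Fact p.Prime] {M : Ideal AlgInt}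
  {D C T N : Subgroup G} [Fintype C] {t₀ x₀ : G} {e : ℕ} {f : Set (IrrCharacter C)}
  {B : Set (IrrCharacter G)} {θ : IrrCharacter C} {X : Set (IrrCharacter G)}
  {ζ : IrrCharacter C → IrrCharacter G} {δ : IrrCharacter G → ℤ} {δ₀ : ℤ}

/-- piece `DS` (pure algebra).  `bb ψ g - bb θ g = ∑ χ, dd θ ψ χ * χ g` (unfold `bb`, `dd`), insert
`hst.dd`, `Finset.sum_ite_eq`, unfold `SX`. -/
theorem bb_sub (hst : Str e T f θ B X ζ δ δ₀) {ψ : IrrCharacter C} (hψ : ψ ∈ f) (hne : ψ ≠ θ)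
    (g : G) : bb ψ g - bb θ g = (δ₀ : ℂ) * (ζ ψ : G → ℂ) g + SX X δ g := by
  classical
  have h1 : bb ψ g - bb θ g = ∑ χ : IrrCharacter G, dd θ ψ χ * (χ : G → ℂ) g := by
    unfold bb dd
    rw [← Finset.sum_sub_distrib]
    refine Finset.sum_congr rfl (fun χ _ => ?_)
    ring
  rw [h1]
  have h2 : ∀ χ : IrrCharacter G, dd θ ψ χ * (χ : G → ℂ) g
      = (if χ = ζ ψ then (δ₀ : ℂ) * (χ : G → ℂ) g else 0)
        + (if χ ∈ X then (δ χ : ℂ) * (χ : G → ℂ) g else 0) := by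
    intro χ
    rw [hst.dd ψ hψ hne χ, add_mul]
    congr 1
    · split_ifs <;> simp
    · split_ifs <;> simp
  simp_rw [h2]
  rw [Finset.sum_add_distrib, Finset.sum_ite_eq' Finset.univ (ζ ψ), if_pos (Finset.mem_univ _)]
  congr 1

end Cfsg.Agent.Lib.H80PIDS
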