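import Cfsg.Agent.Lib.Helper80PIDefs
import Cfsg.Agent.Lib.H81CycGGRAM2
import Cfsg.Agent.Lib.H81CycGCJB
import Cfsg.Agent.Lib.H81CycGCNT

set_option autoImplicit false

namespace Cfsg.Agent.Lib.H80PIFib
open Cfsg
open Cfsg.Agent.Lib.Helper81CycDefs Cfsg.Agent.Lib.Helper81CycGDefs Cfsg.Agent.Lib.Helper4DefOneDefs
open Cfsg.Agent.Lib.Helper80Transport Cfsg.Agent.Lib.Helper82Quot Cfsg.Agent.Lib.Helper81Base
open Cfsg.Agent.Lib.Helper80PIDefs
open scoped ComplexConjugate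

universe u v w

variable {G : Type u} [Group G] [Fintype G] {p : ℕ} [Fact p.Prime] {M : Ideal AlgInt}
  {D C T N : Subgroup G} [Fintype C] {t₀ x₀ : G} {e : ℕ} {f : Set (IrrCharacter C)}
  {B : Set (IrrCharacter G)} {θ : IrrCharacter C} {X : Set (IrrCharacter G)}
  {ζ : IrrCharacter C → IrrCharacter G} {δ : IrrCharacter G → ℤ} {δ₀ : ℤ}

/-- piece `Fib`: every `T`-orbit on `f \ {θ}` has `e` elements. -/
theorem card_class (h : CY p M D C T N t₀ x₀ e f B) (hθ : IsFix C T f θ) {ψ : IrrCharacter C}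
    (hψ : ψ ∈ f) (hne : ψ ≠ θ) :
    Nat.card {ψ' : IrrCharacter C // ψ' ∈ f ∧ ψ' ≠ θ ∧ RelC C T ψ ψ'} = e := by
  classical
  have hE := H81CycGCJB.relC_equiv h
  have hT : Nat.card T = e * Nat.card C := by
    have h1 := Subgroup.relIndex_mul_relIndex ⊥ C T bot_le h.gd.CT
    rw [Subgroup.relIndex_bot_left, Subgroup.relIndex_bot_left, h.idx] at h1
    rw [← h1, mul_comm]
  have hCpos : 0 < Nat.card C := Nat.card_pos
  have hcls : Nat.card {ψ' : IrrCharacter C // RelC C T ψ ψ'} = e := by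
    have h1 : Nat.card T = ∑ ψ' : IrrCharacter C, Nat.card {n : T // cjc C (n : G) ψ = ψ'} := by
      rw [← Nat.card_sigma]
      exact Nat.card_congr (Equiv.sigmaFiberEquiv (fun n : T => cjc C (n : G) ψ)).symm
    simp only [H81CycGGRAM2.card_conj h hθ _ hψ hne] at h1
    rw [← Finset.sum_filter, Finset.sum_const, smul_eq_mul, hT] at h1
    have h2 := Nat.eq_of_mul_eq_mul_right hCpos h1
    rw [Nat.card_eq_fintype_card, Fintype.card_subtype]
    exact h2.symm
  rw [← hcls]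
  apply Nat.card_congr
  apply Equiv.subtypeEquivRight
  intro ψ'
  constructor
  · exact fun h' => h'.2.2
  · intro h'
    refine ⟨?_, ?_, h'⟩
    · obtain ⟨n, hn, hn'⟩ := h'
      rw [← hn']
      exact H81CycGCJB.cjc_mem h hn hψ
    · intro h1
      rw [h1] at h'
      obtain ⟨n, hn, hn'⟩ := hE.symm h'
      rw [hθ.2.1 n hn] at hn'
      exact hne hn'.symm

end Cfsg.Agent.Lib.H80PIFib
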