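import Cfsg.Agent.Lib.Helper80PIDefs
import Cfsg.Agent.Lib.H81CycGTHETA
import Cfsg.Agent.Lib.H81CycGCJB

set_option autoImplicit false

namespace Cfsg.Agent.Lib.H80PIFixT
open Cfsg
open Cfsg.Agent.Lib.Helper81CycDefs Cfsg.Agent.Lib.Helper81CycGDefs Cfsg.Agent.Lib.Helper4DefOneDefs
open Cfsg.Agent.Lib.Helper80Transport Cfsg.Agent.Lib.Helper82Quot Cfsg.Agent.Lib.Helper81Base
open Cfsg.Agent.Lib.Helper80PIDefs
open scoped ComplexConjugate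

universe u v w

variable {G : Type u} [Group G] [Fintype G] {G' : Type v} [Group G'] [Fintype G'] {p : ℕ}
  [Fact p.Prime] {M : Ideal AlgInt}
  {D C T N : Subgroup G} [Fintype C] {t₀ x₀ : G} {e : ℕ} {f : Set (IrrCharacter C)}
  {B : Set (IrrCharacter G)}
  {D' C' T' N' : Subgroup G'} [Fintype C'] {t₀' x₀' : G'} {e' : ℕ} {f' : Set (IrrCharacter C')}
  {B' : Set (IrrCharacter G')}

/-- piece `FixT`.  Put `θ = irrCongr φ θ'`.  (1) `θ ∈ f`: `hlk.mem`.  (2) for `n ∈ T`: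
`cjc C n θ ∈ f` (`H81CycGCJB.cjc_mem`), `= irrCongr φ ψ₂` with `ψ₂ ∈ f'` (surjectivity of the
equivalence `irrCongr φ` + `hlk.mem`), `RelC C T θ (cjc C n θ)`, so `RelC C' T' θ' ψ₂` (`hlk.rel`),
i.e. `ψ₂ = cjc C' n' θ' = θ'` (`hθ'.2.1`).  (3) let `θ₁` be given by `H81CycGTHETA.exists_theta h`.
If `θ = θ₁` done.  Otherwise `θ ∈ f`, `θ ≠ θ₁` is fixed by every `n ∈ T` (by (2)), hence `T ≤ C`
(third part of `IsFix C T f θ₁`) and the third part of `IsFix C T f θ` is trivial. -/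
theorem fix_transfer (h : CY p M D C T N t₀ x₀ e f B) (h' : CY p M D' C' T' N' t₀' x₀' e' f' B')
    (φ : C' ≃* C) (hlk : LK T T' φ f f') {θ' : IrrCharacter C'} (hθ' : IsFix C' T' f' θ') :
    IsFix C T f (irrCongr φ θ') := by
  have h1 : irrCongr φ θ' ∈ f := (hlk.mem θ').1 hθ'.1
  have h2 : ∀ n ∈ T, cjc C n (irrCongr φ θ') = irrCongr φ θ' := by
    intro n hn
    have hm : cjc C n (irrCongr φ θ') ∈ f := H81CycGCJB.cjc_mem h hn h1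
    obtain ⟨ψ₂, hψ₂⟩ := (irrCongr φ).surjective (cjc C n (irrCongr φ θ'))
    have hψ₂f : ψ₂ ∈ f' := by
      rw [hlk.mem, hψ₂]; exact hm
    have hrel : RelC C T (irrCongr φ θ') (irrCongr φ ψ₂) := ⟨n, hn, hψ₂.symm⟩
    obtain ⟨n', hn', hn2⟩ := (hlk.rel θ' hθ'.1 ψ₂ hψ₂f).2 hrel
    rw [hθ'.2.1 n' hn'] at hn2
    rw [← hψ₂, ← hn2]
  obtain ⟨θ₁, hθ₁⟩ := H81CycGTHETA.exists_theta h
  by_cases hEq : irrCongr φ θ' = θ₁
  · rw [hEq]; exact hθ₁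
  · refine ⟨h1, h2, ?_⟩
    intro ψ _ _ n hn _
    exact hθ₁.2.2 _ h1 hEq n hn (h2 n hn)

end Cfsg.Agent.Lib.H80PIFixT
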