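import Cfsg.Agent.Lib.Helper80PIDefs
import Cfsg.Agent.Lib.H80PIFixT
import Cfsg.Agent.Lib.H80PIFib

set_option autoImplicit false

namespace Cfsg.Agent.Lib.H80PIEEq
open Cfsg
open Cfsg.Agent.Lib.Helper81CycDefs Cfsg.Agent.Lib.Helper81CycGDefs Cfsg.Agent.Lib.Helper4DefOneDefs
open Cfsg.Agent.Lib.Helper80Transport Cfsg.Agent.Lib.Helper82Quot Cfsg.Agent.Lib.Helper81Base
open Cfsg.Agent.Lib.Helper80PIDefs
open scoped ComplexConjugate

universe u v w

variable {G : Type u} [Group G] [Fintype G] {G' : Type v} [Group G'] [Fintype G'] {p : ℕ}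
  [Fact p.Prime] {M : Ideal AlgInt}
  {D C T N : Subgroup G} [Fintype C] {t₀ x₀ : G} {e : ℕ} {f : Set (IrrCharacter C)}
  {B : Set (IrrCharacter G)}
  {D' C' T' N' : Subgroup G'} [Fintype C'] {t₀' x₀' : G'} {e' : ℕ} {f' : Set (IrrCharacter C')}
  {B' : Set (IrrCharacter G')}

/-- piece `EEq`.  `|f'| = |D'| ≥ 2` (`h'.card`, `h'.D1`), so there is `ψ' ∈ f'`, `ψ' ≠ θ'`.
`e' = #{ψ'' ∈ f' \ θ' | RelC C' T' ψ' ψ''}` and `e = #{ψ ∈ f \ θ | RelC C T (irrCongr φ ψ') ψ}`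
(`H80PIFib.card_class`, `fix_transfer`), and `irrCongr φ` is a bijection between the two sets
(`hlk.mem`, `hlk.rel`, injectivity). -/
theorem e_eq (h : CY p M D C T N t₀ x₀ e f B) (h' : CY p M D' C' T' N' t₀' x₀' e' f' B')
    (φ : C' ≃* C) (hlk : LK T T' φ f f') {θ' : IrrCharacter C'} (hθ' : IsFix C' T' f' θ') :
    e' = e := by
  classical
  have hθ := H80PIFixT.fix_transfer h h' φ hlk hθ'
  -- a second member of `f'`
  obtain ⟨ψ', hψ', hne'⟩ : ∃ ψ' ∈ f', ψ' ≠ θ' := by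
    by_contra hcon
    push_neg at hcon
    have hsub : Subsingleton f' := ⟨fun a b => Subtype.ext ((hcon a a.2).trans (hcon b b.2).symm)⟩
    have hc1 : Nat.card f' ≤ 1 := Finite.card_le_one_iff_subsingleton.mpr hsub
    rw [h'.card] at hc1
    apply h'.D1
    have : Subsingleton D' := Finite.card_le_one_iff_subsingleton.mp hc1
    exact Subgroup.eq_bot_of_subsingleton D'
  have hψ : irrCongr φ ψ' ∈ f := (hlk.mem ψ').1 hψ'
  have hne : irrCongr φ ψ' ≠ irrCongr φ θ' := fun hh => hne' ((irrCongr φ).injective hh)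
  rw [← H80PIFib.card_class h' hθ' hψ' hne', ← H80PIFib.card_class h hθ hψ hne]
  refine Nat.card_congr (Equiv.ofBijective (fun x => ⟨irrCongr φ x.1, (hlk.mem _).1 x.2.1,
    fun hh => x.2.2.1 ((irrCongr φ).injective hh), (hlk.rel ψ' hψ' x.1 x.2.1).1 x.2.2.2⟩) ⟨?_, ?_⟩)
  · intro a b hab
    apply Subtype.ext
    exact (irrCongr φ).injective (congrArg Subtype.val hab)
  · rintro ⟨y, hy1, hy2, hy3⟩
    obtain ⟨x, rfl⟩ := (irrCongr φ).surjective y
    have hx1 : x ∈ f' := (hlk.mem x).2 hy1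
    exact ⟨⟨x, hx1, fun hh => hy2 (by rw [hh]), (hlk.rel ψ' hψ' x hx1).2 hy3⟩, rfl⟩

end Cfsg.Agent.Lib.H80PIEEq
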