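import Cfsg.Agent.Lib.Helper80PIDefs

set_option autoImplicit false

namespace Cfsg.Agent.Lib.H80PIGrp
open Cfsg
open Cfsg.Agent.Lib.Helper81CycDefs Cfsg.Agent.Lib.Helper81CycGDefs Cfsg.Agent.Lib.Helper4DefOneDefs
open Cfsg.Agent.Lib.Helper80Transport Cfsg.Agent.Lib.Helper82Quot Cfsg.Agent.Lib.Helper81Base
open Cfsg.Agent.Lib.Helper80PIDefs
open scoped ComplexConjugate

universe u v w

variable {G : Type u} [Group G] [Fintype G] {p : ℕ} [Fact p.Prime] {M : Ideal AlgInt}
  {K H : Subgroup G}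

theorem exists_gen {Z : Subgroup G} (hZ : Nat.card Z = p) :
    ∃ x₀ ∈ Z, orderOf x₀ = p ∧ Subgroup.zpowers x₀ = Z := by
  have hp : p.Prime := Fact.out
  have hnt : Nontrivial Z := by
    rw [← Finite.one_lt_card_iff_nontrivial, hZ]; exact hp.one_lt
  obtain ⟨⟨x, hx⟩, hx1⟩ := exists_ne (1 : Z)
  have hx1' : x ≠ 1 := fun h => hx1 (Subtype.ext h)
  have hpow : x ^ p = 1 := by
    have h5 := pow_card_eq_one' (x := (⟨x, hx⟩ : Z))
    rw [hZ] at h5
    exact congrArg Subtype.val h5
  have hord : orderOf x = p := by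
    rcases (Nat.dvd_prime hp).mp (orderOf_dvd_of_pow_eq_one hpow) with h | h
    · exact absurd (orderOf_eq_one_iff.mp h) hx1'
    · exact h
  refine ⟨x, hx, hord, ?_⟩
  apply Subgroup.eq_of_le_of_card_ge
  · rw [Subgroup.zpowers_le]; exact hx
  · rw [hZ, Nat.card_zpowers, hord]

theorem le_normalizer_zpowers {P : Subgroup G} (hcyc : IsCyclic P) {x₀ : G} (hx : x₀ ∈ P) :
    P ≤ Subgroup.normalizer ((Subgroup.zpowers x₀ : Subgroup G) : Set G) := by
  intro g hg
  have hcomm : ∀ a b : P, a * b = b * a := fun a b => (IsCyclic.commGroup (α := P)).mul_comm a b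
  have hgx : g * x₀ = x₀ * g := congrArg Subtype.val (hcomm ⟨g, hg⟩ ⟨x₀, hx⟩)
  have hc : Commute g x₀ := hgx
  rw [Subgroup.mem_normalizer_iff]
  intro h
  have key : ∀ y ∈ Subgroup.zpowers x₀, g * y * g⁻¹ = y := by
    intro y hy
    obtain ⟨k, rfl⟩ := Subgroup.mem_zpowers_iff.mp hy
    rw [(hc.zpow_right k).eq]; group
  constructor
  · intro hh
    rw [key h hh]; exact hh
  · intro hh
    have h2 := key _ hh
    have h3 : g * h * g⁻¹ = h := by
      have : g * (g * h * g⁻¹) * g⁻¹ = g * h * g⁻¹ := h2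
      have h4 : g * (g * h * g⁻¹) = g * h := by
        calc g * (g * h * g⁻¹) = (g * (g * h * g⁻¹) * g⁻¹) * g := by group
          _ = (g * h * g⁻¹) * g := by rw [this]
          _ = g * h := by group
      exact mul_left_cancel h4
    rw [← h3]; exact hh

theorem subgroupOf_facts {P : Subgroup G} (hPH : P ≤ H) (hcyc : IsCyclic P) (hP1 : P ≠ ⊥) :
    IsCyclic (P.subgroupOf H) ∧ P.subgroupOf H ≠ ⊥ ∧ Nat.card (P.subgroupOf H) = Nat.card P := by
  refine ⟨?_, ?_, ?_⟩
  · exact isCyclic_of_surjective (Subgroup.subgroupOfEquivOfLe hPH).symm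
      (Subgroup.subgroupOfEquivOfLe hPH).symm.surjective
  · intro h
    apply hP1
    rw [Subgroup.subgroupOf_eq_bot] at h
    rw [disjoint_iff, inf_eq_left.mpr hPH] at h
    exact h
  · exact Nat.card_congr (Subgroup.subgroupOfEquivOfLe hPH).toEquiv

theorem centralizer_le_normalizer' (Q : Subgroup G) :
    Subgroup.centralizer (Q : Set G) ≤ Subgroup.normalizer (Q : Set G) := by
  intro g hg
  rw [Subgroup.mem_normalizer_iff]
  intro h
  rw [Subgroup.mem_centralizer_iff] at hg
  constructor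
  · intro hh
    have := hg h hh
    rw [← this]; simpa using hh
  · intro hh
    have := hg _ hh
    have h2 : g * h * g⁻¹ = h := by
      have h3 : g * h * g⁻¹ * g = g * (g * h * g⁻¹) := this
      have h4 : g * h = g * (g * h * g⁻¹) := by simpa using h3
      exact (mul_left_cancel h4).symm
    rw [← h2]; exact hh

end Cfsg.Agent.Lib.H80PIGrp
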