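import Cfsg.Agent.Lib.Helper80PIDefs
import Cfsg.Agent.Lib.H81CycGGRAMABS

set_option autoImplicit false

namespace Cfsg.Agent.Lib.H80PIInd
open Cfsg
open Cfsg.Agent.Lib.Helper81CycDefs Cfsg.Agent.Lib.Helper81CycGDefs Cfsg.Agent.Lib.Helper4DefOneDefs
open Cfsg.Agent.Lib.Helper80Transport Cfsg.Agent.Lib.Helper82Quot Cfsg.Agent.Lib.Helper81Base
open Cfsg.Agent.Lib.Helper80PIDefs
open scoped ComplexConjugate

universe u v w

variable {G : Type u} [Group G] [Fintype G] {p : ℕ} [Fact p.Prime] {M : Ideal AlgInt}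

open Classical in
/-- piece `Ind` (formula for the induced character).  `mH χ ψ = |C|⁻¹ ∑_c χ c * conj (ψ c)`
(unfold `mH`, `classInner`), so `bb ψ g = |C|⁻¹ ∑_c conj (ψ c) ∑_χ χ c * χ g`; second orthogonality
`∑_χ χ c * conj (χ g') = |C_G(g')|` if `c ~ g'`, else `0` (see the proof of
`H81CycGGRAMABS.gram_abs` / `Helper83DefOneGram.gram_tw` for the landed form) with `g' = g⁻¹`,
`χ g = conj (χ g⁻¹)`, `conj (ψ c) = ψ c⁻¹`; reindex `c ↦ c⁻¹`. -/
theorem bb_eq (C : Subgroup G) [Fintype C] (ψ : IrrCharacter C) (g : G) :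
    bb ψ g = (Nat.card (Subgroup.centralizer ({g} : Set G)) : ℂ) * (Nat.card C : ℂ)⁻¹
      * ∑ c : C, if IsConj (c : G) g then (ψ : C → ℂ) c else 0 := by
  unfold bb mH classInner
  have h1 : ∀ χ : IrrCharacter G,
      ((Nat.card C : ℂ)⁻¹ * ∑ c : C, (χ : G → ℂ) c * conj ((ψ : C → ℂ) c)) * (χ : G → ℂ) g
        = (Nat.card C : ℂ)⁻¹ * ∑ c : C, conj ((ψ : C → ℂ) c)
            * ((χ : G → ℂ) g * conj ((χ : G → ℂ) (c : G)⁻¹)) := by
    intro χ
    rw [mul_assoc, Finset.sum_mul]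
    congr 1
    refine Finset.sum_congr rfl (fun c _ => ?_)
    rw [irr_inv, Complex.conj_conj]
    ring
  simp_rw [h1]
  rw [← Finset.mul_sum, Finset.sum_comm]
  simp_rw [← Finset.mul_sum, Cfsg.Agent.Lib.Helper4Char2.col_orth]
  rw [← Equiv.sum_comp (Equiv.inv C)]
  have h2 : ∀ c : C, conj ((ψ : C → ℂ) ((Equiv.inv C) c))
        * (if IsConj g ((((Equiv.inv C) c : C) : G))⁻¹
            then (Nat.card (Subgroup.centralizer ({g} : Set G)) : ℂ) else 0)
      = (Nat.card (Subgroup.centralizer ({g} : Set G)) : ℂ)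
        * (if IsConj (c : G) g then (ψ : C → ℂ) c else 0) := by
    intro c
    rw [Equiv.inv_apply, irr_inv, Complex.conj_conj, Subgroup.coe_inv, inv_inv]
    by_cases h : IsConj (c : G) g
    · rw [if_pos h, if_pos h.symm, mul_comm]
    · rw [if_neg h, if_neg (fun h' => h h'.symm), mul_zero, mul_zero]
  simp_rw [h2]
  rw [← Finset.mul_sum]
  ring

end Cfsg.Agent.Lib.H80PIInd
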