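import Cfsg.Agent.Lib.Helper80PIDefs
import Cfsg.Agent.Lib.H80PIOsi
import Cfsg.Agent.Lib.H80PIAvg
import Cfsg.Agent.Lib.H80PICen

set_option autoImplicit false

namespace Cfsg.Agent.Lib.H80PIIntI
open Cfsg
open Cfsg.Agent.Lib.Helper81CycDefs Cfsg.Agent.Lib.Helper81CycGDefs Cfsg.Agent.Lib.Helper4DefOneDefs
open Cfsg.Agent.Lib.Helper80Transport Cfsg.Agent.Lib.Helper82Quot Cfsg.Agent.Lib.Helper81Base
open Cfsg.Agent.Lib.Helper80PIDefs
open scoped ComplexConjugate

universe u v w

variable {G : Type u} [Group G] [Fintype G] {G' : Type v} [Group G'] [Fintype G'] {p : ℕ}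
  [Fact p.Prime] {M : Ideal AlgInt}
  {D C T N : Subgroup G} [Fintype C] {t₀ x₀ : G} {e : ℕ} {f : Set (IrrCharacter C)}
  {B : Set (IrrCharacter G)}
  {D' C' T' N' : Subgroup G'} [Fintype C'] {t₀' x₀' : G'} {e' : ℕ} {f' : Set (IrrCharacter C')}
  {B' : Set (IrrCharacter G')}

theorem card_cen_conj {K : Type*} [Group K] (t x : K) :
    Nat.card (Subgroup.centralizer ({t * x * t⁻¹} : Set K)) =
      Nat.card (Subgroup.centralizer ({x} : Set K)) := by
  apply Nat.card_congr
  refine ⟨fun g => ⟨t⁻¹ * g * t, ?_⟩, fun g => ⟨t * g * t⁻¹, ?_⟩, ?_, ?_⟩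
  · have h1 := Subgroup.mem_centralizer_singleton_iff.mp g.2
    rw [Subgroup.mem_centralizer_singleton_iff]
    calc t⁻¹ * (g : K) * t * x = t⁻¹ * ((g : K) * (t * x * t⁻¹)) * t := by group
      _ = t⁻¹ * ((t * x * t⁻¹) * (g : K)) * t := by rw [h1]
      _ = x * (t⁻¹ * (g : K) * t) := by group
  · have h1 := Subgroup.mem_centralizer_singleton_iff.mp g.2
    rw [Subgroup.mem_centralizer_singleton_iff]
    calc t * (g : K) * t⁻¹ * (t * x * t⁻¹) = t * ((g : K) * x) * t⁻¹ := by group
      _ = t * (x * (g : K)) * t⁻¹ := by rw [h1]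
      _ = t * x * t⁻¹ * (t * (g : K) * t⁻¹) := by group
  · intro g
    apply Subtype.ext
    show t * (t⁻¹ * (g : K) * t) * t⁻¹ = g
    group
  · intro g
    apply Subtype.ext
    show t⁻¹ * (t * (g : K) * t⁻¹) * t = g
    group

theorem KK_conj {K : Type u} [Group K] [Fintype K] (f : Set (IrrCharacter K)) (c x y : K) :
    KK f c (x * y * x⁻¹) = KK f c y := by
  unfold KK
  apply Finset.sum_congr rfl
  intro ψ _
  rw [Cfsg.Agent.Lib.Helper4Char.IsIrrCharacter.isClassFunction ψ.2 y x]

open Classical in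
/-- piece `IntI`.  `H80PIAvg.avg_class` in the group `↥C'` with
`F c' := (if IsConj c' g' then |C_{G'}(g')| * KK f c (φ c') else 0) / |C_C(c)|` (a class function of
`c'`: `KK f c` is a class function in the second variable, `φ` is a homomorphism).
`F c' / |C_{C'}(c')|`: zero, or `c' ~ g'` and `KK f c (φ c') ≠ 0`; then some `ψ ∈ f` has
`ψ (φ c') ≠ 0`, `ψ = irrCongr φ ψ'` with `ψ' ∈ f'` (`hmem`, `ψ' = irrCongr φ.symm ψ`), `ψ' c' ≠ 0`,
`p ∣ orderOf c'`, so `|C_{C'}(c')| = |C_{G'}(c')| = |C_{G'}(g')|` (`H80PICen.card_cen h'`, conjugate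
elements have centralizers of the same order) and the quotient is `KK f c (φ c') / |C_C(c)|`, a local
integer by `H80PIOsi.osima_int` (`h.ind.1 : IsPBlock M f`). -/
theorem inner_int (h : CY p M D C T N t₀ x₀ e f B) (h' : CY p M D' C' T' N' t₀' x₀' e' f' B')
    (φ : C' ≃* C) (hmem : ∀ ψ : IrrCharacter C', ψ ∈ f' ↔ irrCongr φ ψ ∈ f) (c : C) {g' : G'}
    (hg' : p ∣ orderOf g') :
    MemLocalRing M (((Nat.card C' : ℂ)⁻¹ * ∑ c' : C',
        if IsConj (c' : G') g' then
          (Nat.card (Subgroup.centralizer ({g'} : Set G')) : ℂ) * KK f c (φ c') else 0)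
      / (Nat.card (Subgroup.centralizer ({c} : Set C)) : ℂ)) := by
  have hM := h.hM
  have hPr : M.IsPrime := hM.2.1.isPrime
  have h00 : MemLocalRing M 0 := Cfsg.Agent.Lib.Helper20Local.memLocalRing_zero hPr
  have key := H80PIAvg.avg_class (G := C') hM
    (fun c' : C' => (if IsConj (c' : G') g' then
          (Nat.card (Subgroup.centralizer ({g'} : Set G')) : ℂ) * KK f c (φ c') else 0)
      / (Nat.card (Subgroup.centralizer ({c} : Set C)) : ℂ)) ?_ ?_
  · rw [← Finset.sum_div, ← mul_div_assoc] at key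
    exact key
  · intro x c'
    have e1 : IsConj (((x * c' * x⁻¹ : C') : G')) g' ↔ IsConj (c' : G') g' := by
      have e2 : IsConj (c' : G') ((x * c' * x⁻¹ : C') : G') :=
        isConj_iff.2 ⟨(x : G'), rfl⟩
      exact ⟨fun h1 => e2.trans h1, fun h1 => e2.symm.trans h1⟩
    simp only [e1, map_mul, map_inv, KK_conj]
  · intro c'
    by_cases hconj : IsConj (c' : G') g'
    · simp only [if_pos hconj]
      by_cases hK : KK f c (φ c') = 0
      · rw [hK, mul_zero, zero_div, zero_div]
        exact h00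
      · have hex : ∃ ψ ∈ f, (ψ : C → ℂ) (φ c') ≠ 0 := by
          by_contra hcon
          push Not at hcon
          apply hK
          unfold KK
          apply Finset.sum_eq_zero
          intro ψ _
          split_ifs with hψ
          · rw [hcon ψ hψ, mul_zero]
          · rfl
        obtain ⟨ψ, hψ, hψne⟩ := hex
        have hψ' : (irrCongr φ).symm ψ ∈ f' := by
          rw [hmem, Equiv.apply_symm_apply]
          exact hψ
        have hval : (((irrCongr φ).symm ψ : IrrCharacter C') : C' → ℂ) c' ≠ 0 := hψne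
        have hord : p ∣ orderOf c' := by
          rw [← Subgroup.orderOf_coe]
          obtain ⟨t, ht⟩ := isConj_iff.1 hconj
          have h2 : orderOf (t * (c' : G') * t⁻¹) = orderOf (c' : G') := by
            have := orderOf_injective (MulAut.conj t).toMonoidHom (MulAut.conj t).injective (c' : G')
            simpa using this
          rw [← h2, ht]
          exact hg'
        have hc1 := H80PICen.card_cen h' hψ' hord hval
        have hc2 : Nat.card (Subgroup.centralizer ({g'} : Set G')) =
            Nat.card (Subgroup.centralizer ({(c' : G')} : Set G')) := by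
          obtain ⟨t, ht⟩ := isConj_iff.1 hconj
          rw [← ht, card_cen_conj]
        rw [← hc1, ← hc2]
        have hne : (Nat.card (Subgroup.centralizer ({g'} : Set G')) : ℂ) ≠ 0 := by
          exact_mod_cast Nat.card_pos.ne'
        have h3 := H80PIOsi.osima_int hM h.ind.1 c (φ c')
        convert h3 using 1
        field_simp
    · simp only [if_neg hconj, zero_div]
      exact h00

end Cfsg.Agent.Lib.H80PIIntI
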