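import Cfsg.Agent.Lib.Helper80PIDefs
import Cfsg.Agent.Lib.H80PIIntF
import Cfsg.Agent.Lib.H80PIIntI
import Cfsg.Agent.Lib.H80PIAvg

set_option autoImplicit false

namespace Cfsg.Agent.Lib.H80PIInt
open Cfsg
open Cfsg.Agent.Lib.Helper81CycDefs Cfsg.Agent.Lib.Helper81CycGDefs Cfsg.Agent.Lib.Helper4DefOneDefs
open Cfsg.Agent.Lib.Helper80Transport Cfsg.Agent.Lib.Helper82Quot Cfsg.Agent.Lib.Helper81Base
open Cfsg.Agent.Lib.Helper80PIDefs
open scoped ComplexConjugate

universe u v w

variable {G : Type u} [Group G] [Fintype G] {G' : Type v} [Group G'] [Fintype G'] {p : ℕ}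
  [Fact p.Prime] {M : Ideal AlgInt}
  {D C T N : Subgroup G} [Fintype C] {t₀ x₀ : G} {e : ℕ} {f : Set (IrrCharacter C)}
  {B : Set (IrrCharacter G)}
  {D' C' T' N' : Subgroup G'} [Fintype C'] {t₀' x₀' : G'} {e' : ℕ} {f' : Set (IrrCharacter C')}
  {B' : Set (IrrCharacter G')}

/-- piece `Int`.  `int_formula`; cancel `|C_G(g)| ≠ 0`; `H80PIAvg.avg_class` in the group `↥C` with
`F c := if IsConj c g then (inner sum) else 0` (class function of `c`: `KK f` is a class function in
the first variable) and `inner_int`. -/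
theorem int_half (h : CY p M D C T N t₀ x₀ e f B) (h' : CY p M D' C' T' N' t₀' x₀' e' f' B')
    (φ : C' ≃* C) (hmem : ∀ ψ : IrrCharacter C', ψ ∈ f' ↔ irrCongr φ ψ ∈ f)
    {J : Type w} [Fintype J] (ι : J → IrrCharacter C)
    (ι' : J → IrrCharacter C') (hι : Function.Injective ι) (hr : Set.range ι = f)
    (hφ : ∀ j, ι j = irrCongr φ (ι' j)) {g : G} {g' : G'} (hg' : p ∣ orderOf g') :
    MemLocalRing M ((∑ j, bb (ι j) g * bb (ι' j) g')
      / (Nat.card (Subgroup.centralizer ({g} : Set G)) : ℂ)) := by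
  classical
  have hPr : M.IsPrime := h.hM.2.1.isPrime
  rw [Cfsg.Agent.Lib.H80PIIntF.int_formula φ ι ι' hι hr hφ g g']
  have h0 : (Nat.card (Subgroup.centralizer ({g} : Set G)) : ℂ) ≠ 0 := by
    exact_mod_cast Nat.card_pos.ne'
  rw [mul_div_cancel_left₀ _ h0]
  apply Cfsg.Agent.Lib.H80PIAvg.avg_class h.hM
    (fun c : C => if IsConj (c : G) g then ((Nat.card C' : ℂ)⁻¹ * ∑ c' : C',
            if IsConj (c' : G') g' then
              (Nat.card (Subgroup.centralizer ({g'} : Set G')) : ℂ) * KK f c (φ c') else 0)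
          else 0)
  · intro x c
    have e1 : IsConj (((x * c * x⁻¹ : C)) : G) g ↔ IsConj (c : G) g := by
      have : IsConj (c : G) ((x * c * x⁻¹ : C) : G) :=
        isConj_iff.2 ⟨(x : G), by simp⟩
      constructor
      · intro h1; exact this.trans h1
      · intro h1; exact this.symm.trans h1
    have e2 : ∀ y : C, KK f (x * c * x⁻¹) y = KK f c y := by
      intro y
      unfold KK
      apply Finset.sum_congr rfl
      intro ψ _
      rw [Cfsg.Agent.Lib.Helper4Char.IsIrrCharacter.isClassFunction ψ.2 c x]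
    simp only [e1, e2]
  · intro c
    by_cases hc : IsConj (c : G) g
    · simp only [if_pos hc]
      exact Cfsg.Agent.Lib.H80PIIntI.inner_int h h' φ hmem c hg'
    · simp only [if_neg hc, zero_div]
      exact Cfsg.Agent.Lib.Helper20Local.memLocalRing_zero hPr

end Cfsg.Agent.Lib.H80PIInt
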