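import Cfsg.Agent.Lib.Helper80PIDefs

set_option autoImplicit false

namespace Cfsg.Agent.Lib.H80PILkC
open Cfsg
open Cfsg.Agent.Lib.Helper81CycDefs Cfsg.Agent.Lib.Helper81CycGDefs Cfsg.Agent.Lib.Helper4DefOneDefs
open Cfsg.Agent.Lib.Helper80Transport Cfsg.Agent.Lib.Helper82Quot Cfsg.Agent.Lib.Helper81Base
open Cfsg.Agent.Lib.Helper80PIDefs
open scoped ComplexConjugate

universe u v w

variable {G : Type u} [Group G] [Fintype G] {p : ℕ} [Fact p.Prime] {M : Ideal AlgInt}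
  {K H : Subgroup G}

theorem mem_cen_iff {x₀ : G} (hx : x₀ ∈ H) (h : H) :
    h ∈ Subgroup.centralizer ((Subgroup.zpowers (⟨x₀, hx⟩ : H) : Subgroup H) : Set H) ↔
      (h : G) ∈ Subgroup.centralizer ((Subgroup.zpowers x₀ : Subgroup G) : Set G) := by
  rw [Subgroup.mem_centralizer_iff, Subgroup.mem_centralizer_iff]
  constructor
  · intro hh y hy
    obtain ⟨k, rfl⟩ := Subgroup.mem_zpowers_iff.mp hy
    have := hh ((⟨x₀, hx⟩ : H) ^ k) (Subgroup.zpow_mem_zpowers _ k)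
    have h2 := congrArg Subtype.val this
    simpa using h2
  · intro hh y hy
    obtain ⟨k, rfl⟩ := Subgroup.mem_zpowers_iff.mp hy
    have := hh (x₀ ^ k) (Subgroup.zpow_mem_zpowers _ k)
    apply Subtype.ext
    simpa using this

theorem normalizer_top {x₀ : G}
    (hH : H = Subgroup.normalizer ((Subgroup.zpowers x₀ : Subgroup G) : Set G)) (hx : x₀ ∈ H) :
    Subgroup.normalizer ((Subgroup.zpowers (⟨x₀, hx⟩ : H) : Subgroup H) : Set H) = ⊤ := by
  have hmem : ∀ y : H, y ∈ Subgroup.zpowers (⟨x₀, hx⟩ : H) ↔ (y : G) ∈ Subgroup.zpowers x₀ := by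
    intro y
    rw [Subgroup.mem_zpowers_iff, Subgroup.mem_zpowers_iff]
    constructor
    · rintro ⟨k, rfl⟩
      exact ⟨k, by simp⟩
    · rintro ⟨k, hk⟩
      exact ⟨k, Subtype.ext (by simpa using hk)⟩
  rw [eq_top_iff]
  intro g _
  rw [Subgroup.mem_normalizer_iff]
  intro y
  have hg : (g : G) ∈ Subgroup.normalizer ((Subgroup.zpowers x₀ : Subgroup G) : Set G) := by
    rw [← hH]; exact g.2
  rw [Subgroup.mem_normalizer_iff] at hg
  rw [hmem, hmem]
  simpa using hg (y : G)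

end Cfsg.Agent.Lib.H80PILkC
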