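import Cfsg.Agent.Lib.Helper80PIDefs
import Cfsg.Agent.Lib.Helper20Tower

set_option autoImplicit false

namespace Cfsg.Agent.Lib.H80PILkI
open Cfsg
open Cfsg.Agent.Lib.Helper81CycDefs Cfsg.Agent.Lib.Helper81CycGDefs Cfsg.Agent.Lib.Helper4DefOneDefs
open Cfsg.Agent.Lib.Helper80Transport Cfsg.Agent.Lib.Helper82Quot Cfsg.Agent.Lib.Helper81Base
open Cfsg.Agent.Lib.Helper80PIDefs
open scoped ComplexConjugate

universe u v w

variable {G : Type u} [Group G] [Fintype G] {p : ℕ} [Fact p.Prime] {M : Ideal AlgInt}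
  {K H : Subgroup G}

/-- piece `LkI` (transitivity of block induction). -/
theorem induced_up (hM : IsPModular p M) (hKH : K ≤ H) (C' : Subgroup H)
    (hC : ∀ h : H, h ∈ C' ↔ (h : G) ∈ K) {f' : Set (IrrCharacter C')}
    {c : Set (IrrCharacter H)} {B : Set (IrrCharacter G)} (h1 : IsInducedBlock M C' f' c)
    (h2 : IsInducedBlock M H c B) : IsInducedBlock M K (mapBlk (sig hKH C' hC) f') B := by
  classical
  have hC' : C' = K.subgroupOf H := by
    ext h
    rw [hC, Subgroup.mem_subgroupOf]
  subst hC'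
  have hs : sig hKH _ hC = Subgroup.subgroupOfEquivOfLe hKH := by
    ext x
    rfl
  rw [hs]
  have hd : Cfsg.Agent.Lib.Helper20Tower.down hKH
      (mapBlk (Subgroup.subgroupOfEquivOfLe hKH) f') = f' := by
    unfold Cfsg.Agent.Lib.Helper20Tower.down mapBlk
    rw [Set.image_image]
    have : ∀ χ : IrrCharacter (K.subgroupOf H),
        irrCongr (Subgroup.subgroupOfEquivOfLe hKH).symm
          (irrCongr (Subgroup.subgroupOfEquivOfLe hKH) χ) = χ := by
      intro χ
      apply Subtype.ext
      funext x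
      rw [irrCongr_apply, irrCongr_apply]
      simp
    simp only [this, Set.image_id']
  let _ : Fintype K := Fintype.ofFinite _
  let _ : Fintype H := Fintype.ofFinite _
  let _ : Fintype (K.subgroupOf H) := Fintype.ofFinite _
  exact Cfsg.Agent.Lib.Helper20Tower.induced_trans hKH hM.2.1.isPrime (isPBlock_mapBlk _ h1.1)
    (by rw [hd]; exact h1) h2

end Cfsg.Agent.Lib.H80PILkI
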