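import Cfsg.Agent.Lib.Helper80PIDefs
import Cfsg.Agent.Lib.H81CycGCJ

set_option autoImplicit false

namespace Cfsg.Agent.Lib.H80PILkJ
open Cfsg
open Cfsg.Agent.Lib.Helper81CycDefs Cfsg.Agent.Lib.Helper81CycGDefs Cfsg.Agent.Lib.Helper4DefOneDefs
open Cfsg.Agent.Lib.Helper80Transport Cfsg.Agent.Lib.Helper82Quot Cfsg.Agent.Lib.Helper81Base
open Cfsg.Agent.Lib.Helper80PIDefs
open scoped ComplexConjugate

universe u v w

variable {G : Type u} [Group G] [Fintype G] {p : ℕ} [Fact p.Prime] {M : Ideal AlgInt}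
  {K H : Subgroup G}

/-- piece `LkJ`, first part: `H81CycGCJ.cjc_eq`, then `ext k`, `irrCongr_apply` (everything is `rfl`
after unfolding `lkEquiv`, `MulEquiv.trans`). -/
theorem irrCongr_lk (hKH : K ≤ H) (C' : Subgroup H) (hC : ∀ h : H, h ∈ C' ↔ (h : G) ∈ K) (n : G)
    (hn : ∀ g, g ∈ K ↔ n⁻¹ * g * n⁻¹⁻¹ ∈ K) (ψ : IrrCharacter C') :
    irrCongr (lkEquiv hKH C' hC n hn) ψ = cjc K n⁻¹ (irrCongr (sig hKH C' hC) ψ) := by
  have hn' : n⁻¹ ∈ Subgroup.normalizer (K : Set G) := Subgroup.mem_normalizer_iff.2 hn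
  rw [Cfsg.Agent.Lib.H81CycGCJ.cjc_eq hn']
  apply Subtype.ext
  funext k
  rw [irrCongr_apply, irrCongr_apply, irrCongr_apply]
  rfl

/-- piece `LkJ`, second part.  `ext k`; `irrCongr_apply`, `H81CycGCJ.cjc_apply`
(`(cjc C m ψ) c = extendByZero C ψ (m⁻¹ c m)`), `extendByZero` at an element of the subgroup.
With `m = (m' : G)`: both sides are `ψ` at the element `m⁻¹ n k n⁻¹ m` of `C'`. -/
theorem cjc_link (hKH : K ≤ H) (C' : Subgroup H) (hC : ∀ h : H, h ∈ C' ↔ (h : G) ∈ K) (n : G)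
    (hn : ∀ g, g ∈ K ↔ n⁻¹ * g * n⁻¹⁻¹ ∈ K) (m' : H)
    (hm' : m' ∈ Subgroup.normalizer (C' : Set H))
    (hm : n⁻¹ * (m' : G) * n ∈ Subgroup.normalizer (K : Set G)) (ψ : IrrCharacter C') :
    irrCongr (lkEquiv hKH C' hC n hn) (cjc C' m' ψ)
      = cjc K (n⁻¹ * (m' : G) * n) (irrCongr (lkEquiv hKH C' hC n hn) ψ) := by
  rw [Cfsg.Agent.Lib.H81CycGCJ.cjc_eq hm', Cfsg.Agent.Lib.H81CycGCJ.cjc_eq hm]
  apply Subtype.ext
  funext k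
  rw [irrCongr_apply, irrCongr_apply, irrCongr_apply, irrCongr_apply]
  refine congrArg (ψ : C' → ℂ) (Subtype.ext (Subtype.ext ?_))
  change (m' : G)⁻¹ * (n⁻¹⁻¹ * (k : G) * n⁻¹) * (m' : G)
    = n⁻¹⁻¹ * ((n⁻¹ * (m' : G) * n)⁻¹ * (k : G) * (n⁻¹ * (m' : G) * n)) * n⁻¹
  group

end Cfsg.Agent.Lib.H80PILkJ
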