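import Cfsg.Agent.Lib.Helper80PIDefs
import Cfsg.Agent.Lib.H81CycGCJB
import Cfsg.Agent.Lib.H81CycGCJ

set_option autoImplicit false

namespace Cfsg.Agent.Lib.H80PILkN
open Cfsg
open Cfsg.Agent.Lib.Helper81CycDefs Cfsg.Agent.Lib.Helper81CycGDefs Cfsg.Agent.Lib.Helper4DefOneDefs
open Cfsg.Agent.Lib.Helper80Transport Cfsg.Agent.Lib.Helper82Quot Cfsg.Agent.Lib.Helper81Base
open Cfsg.Agent.Lib.Helper80PIDefs
open scoped ComplexConjugate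

universe u v w

variable {G : Type u} [Group G] [Fintype G] {p : ℕ} [Fact p.Prime] {M : Ideal AlgInt}
  {D C T N : Subgroup G} [Fintype C] {t₀ x₀ : G} {e : ℕ} {f : Set (IrrCharacter C)}
  {B : Set (IrrCharacter G)} {θ : IrrCharacter C} {X : Set (IrrCharacter G)}
  {ζ : IrrCharacter C → IrrCharacter G} {δ : IrrCharacter G → ℤ} {δ₀ : ℤ}

/-- piece `LkN`.  `h.cjB e₀ he₀` gives `n ∈ N` with `cjc C n ψ ∈ e₀` for all `ψ ∈ f`
(`H81CycGCJ.cjc_unique`, `n ∈ normalizer C` by `H81CycGCJB.le_normalizer`).  The set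
`{cjc C n ψ | ψ ∈ f} = mapBlk (cjEquiv n C C _) f` is a block (`isPBlock_mapBlk`, `cjc_eq`) with a
member in the block `e₀` (`he₀.1`; `f` is not empty), so the two are equal (`IsPBlock.eq_of_mem`; this
is the argument of the proof of `H81CycGCJB.cjc_not_mem`).  `cjc_inv` (for `n` and `n⁻¹`). -/
theorem exists_conj (h : CY p M D C T N t₀ x₀ e f B) {e₀ : Set (IrrCharacter C)}
    (he₀ : IsInducedBlock M C e₀ B) :
    ∃ n ∈ N, ∀ ψ : IrrCharacter C, ψ ∈ e₀ ↔ cjc C n⁻¹ ψ ∈ f := by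
  obtain ⟨n, hn, hcj⟩ := h.cjB e₀ he₀
  refine ⟨n, hn, ?_⟩
  have hnC := Cfsg.Agent.Lib.H81CycGCJB.le_normalizer h hn
  have hh := Subgroup.mem_normalizer_iff.mp hnC
  have hPr : M.IsPrime := h.hM.2.1.isPrime
  have hf : IsPBlock M f := h.ind.1
  have hmem : ∀ ψ ∈ f, cjc C n ψ ∈ e₀ := by
    intro ψ hψ
    obtain ⟨ψ', hψ', hc⟩ := hcj ψ hψ
    rw [← Cfsg.Agent.Lib.H81CycGCJ.cjc_unique hnC hc]
    exact hψ'
  have hne : ∃ ψ, ψ ∈ f := by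
    have h1 : 0 < Nat.card f := by rw [h.card]; exact Nat.card_pos
    obtain ⟨⟨ψ, hψ⟩⟩ := (Nat.card_pos_iff.1 h1).1
    exact ⟨ψ, hψ⟩
  obtain ⟨ψ₀, hψ₀⟩ := hne
  have h2 : mapBlk (cjEquiv n C C hh) f = e₀ :=
    Cfsg.Agent.Lib.Helper20Block.IsPBlock.eq_of_mem hPr (isPBlock_mapBlk _ hf) he₀.1
      (χ := cjc C n ψ₀)
      (by rw [Cfsg.Agent.Lib.H81CycGCJ.cjc_eq hnC, mem_mapBlk]; exact hψ₀) (hmem ψ₀ hψ₀)
  intro ψ
  have h3 : ψ = irrCongr (cjEquiv n C C hh) (cjc C n⁻¹ ψ) := by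
    have := Cfsg.Agent.Lib.H81CycGCJ.cjc_inv (Subgroup.inv_mem _ hnC) ψ
    rw [inv_inv, Cfsg.Agent.Lib.H81CycGCJ.cjc_eq hnC] at this
    exact this.symm
  rw [← h2]
  conv_lhs => rw [h3]
  rw [mem_mapBlk]

end Cfsg.Agent.Lib.H80PILkN
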