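import Cfsg.Agent.Lib.Helper80PIDefs
import Cfsg.Agent.Lib.H80PILkI
import Cfsg.Agent.Lib.H80PILkN
import Cfsg.Agent.Lib.H80PILkJ
import Cfsg.Agent.Lib.H81CycGCJB

set_option autoImplicit false

namespace Cfsg.Agent.Lib.H80PILkR
open Cfsg
open Cfsg.Agent.Lib.Helper81CycDefs Cfsg.Agent.Lib.Helper81CycGDefs Cfsg.Agent.Lib.Helper4DefOneDefs
open Cfsg.Agent.Lib.Helper80Transport Cfsg.Agent.Lib.Helper82Quot Cfsg.Agent.Lib.Helper81Base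
open Cfsg.Agent.Lib.Helper80PIDefs
open scoped ComplexConjugate

universe u v w

variable {G : Type u} [Group G] [Fintype G] {p : ℕ} [Fact p.Prime] {M : Ideal AlgInt}
  {K H : Subgroup G}

/-- piece `LkR` (the link for `H = N_G(Z)`).  `e₀ := mapBlk (sig hKH C' hC) f'` induces `B`
(`H80PILkI.induced_up h.hM hKH C' hC h'.ind hc`); `H80PILkN.exists_conj h`: `n ∈ H` with
`ψ ∈ e₀ ↔ cjc K n⁻¹ ψ ∈ f`.  `φ := lkEquiv hKH C' hC n _` (`n⁻¹ ∈ normalizer K`: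
`H81CycGCJB.le_normalizer h`, `H81CycGCJ.nrm_iff`).
`mem`: `irrCongr_lk` + `mem_mapBlk`.
`rel` (⇒): `m' ∈ T'`, `cjc C' m' ψ₁ = ψ₂`; `m̃ := n⁻¹ m' n ∈ H`; `cjc_link`:
`cjc K m̃ (φ ψ₁) = φ ψ₂ ∈ f`, so `m̃ ∈ T` (`H81CycGCJB.cjc_not_mem h`, contrapositive).
(⇐): `m̃ ∈ T ≤ H` (`h.gd.TH`), `m' := ⟨n m̃ n⁻¹, _⟩ : H`, `n⁻¹ m' n = m̃`, `cjc_link` + injectivity of
`irrCongr φ`: `cjc C' m' ψ₁ = ψ₂ ∈ f'`, so `m' ∈ T'` (`cjc_not_mem h'`, `m' ∈ N' = ⊤`).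
(`m' ∈ normalizer C'`: `le_normalizer h'`.) -/
theorem link [Fintype K] [Fintype H] (hKH : K ≤ H) {D T : Subgroup G} {t₀ x₀ : G} {e : ℕ}
    {f : Set (IrrCharacter K)} {B : Set (IrrCharacter G)} (h : CY p M D K T H t₀ x₀ e f B)
    {D' C' T' N' : Subgroup H} [Fintype C'] {t₀' x₀' : H} {e' : ℕ} {f' : Set (IrrCharacter C')}
    {c : Set (IrrCharacter H)} (hC : ∀ h : H, h ∈ C' ↔ (h : G) ∈ K)
    (h' : CY p M D' C' T' N' t₀' x₀' e' f' c) (hN' : N' = ⊤) (hc : IsInducedBlock M H c B) :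
    ∃ φ : C' ≃* K, LK T T' φ f f' := by
  have he₀ := Cfsg.Agent.Lib.H80PILkI.induced_up h.hM hKH C' hC h'.ind hc
  obtain ⟨n, hnH, hn⟩ := Cfsg.Agent.Lib.H80PILkN.exists_conj h he₀
  have hnN : n ∈ Subgroup.normalizer (K : Set G) := H81CycGCJB.le_normalizer h hnH
  have hninv : n⁻¹ ∈ Subgroup.normalizer (K : Set G) := Subgroup.inv_mem _ hnN
  have hn' : ∀ g, g ∈ K ↔ n⁻¹ * g * n⁻¹⁻¹ ∈ K := H81CycGCJ.nrm_iff hninv
  have hmem : ∀ ψ : IrrCharacter C', ψ ∈ f' ↔ irrCongr (lkEquiv hKH C' hC n hn') ψ ∈ f := by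
    intro ψ
    rw [Cfsg.Agent.Lib.H80PILkJ.irrCongr_lk, ← hn, mem_mapBlk]
  refine ⟨lkEquiv hKH C' hC n hn', hmem, ?_⟩
  intro ψ₁ hψ₁ ψ₂ hψ₂
  constructor
  · rintro ⟨m', hm'T, hm'⟩
    have hm'N : m' ∈ Subgroup.normalizer (C' : Set H) :=
      H81CycGCJB.le_normalizer h' (h'.gd.TH hm'T)
    have hmH : n⁻¹ * (m' : G) * n ∈ H := H.mul_mem (H.mul_mem (H.inv_mem hnH) m'.2) hnH
    have hmN : n⁻¹ * (m' : G) * n ∈ Subgroup.normalizer (K : Set G) :=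
      H81CycGCJB.le_normalizer h hmH
    have hlink := Cfsg.Agent.Lib.H80PILkJ.cjc_link hKH C' hC n hn' m' hm'N hmN ψ₁
    rw [hm'] at hlink
    refine ⟨n⁻¹ * (m' : G) * n, ?_, hlink.symm⟩
    by_contra hnT
    apply H81CycGCJB.cjc_not_mem h hmH hnT ((hmem ψ₁).1 hψ₁)
    rw [← hlink]
    exact (hmem ψ₂).1 hψ₂
  · rintro ⟨m, hmT, hm⟩
    have hmH : m ∈ H := h.gd.TH hmT
    have hm'H : n * m * n⁻¹ ∈ H := H.mul_mem (H.mul_mem hnH hmH) (H.inv_mem hnH)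
    have e1 : n⁻¹ * (((⟨n * m * n⁻¹, hm'H⟩ : H)) : G) * n = m := by
      show n⁻¹ * (n * m * n⁻¹) * n = m
      group
    have hm'N' : (⟨n * m * n⁻¹, hm'H⟩ : H) ∈ N' := by
      rw [hN']
      exact Subgroup.mem_top _
    have hm'N : (⟨n * m * n⁻¹, hm'H⟩ : H) ∈ Subgroup.normalizer (C' : Set H) :=
      H81CycGCJB.le_normalizer h' hm'N'
    have hmN : n⁻¹ * (((⟨n * m * n⁻¹, hm'H⟩ : H)) : G) * n ∈ Subgroup.normalizer (K : Set G) := by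
      rw [e1]
      exact H81CycGCJB.le_normalizer h hmH
    have hlink := Cfsg.Agent.Lib.H80PILkJ.cjc_link hKH C' hC n hn' ⟨n * m * n⁻¹, hm'H⟩ hm'N hmN ψ₁
    rw [e1, hm] at hlink
    have heq : cjc C' (⟨n * m * n⁻¹, hm'H⟩ : H) ψ₁ = ψ₂ :=
      (irrCongr (lkEquiv hKH C' hC n hn')).injective hlink
    refine ⟨⟨n * m * n⁻¹, hm'H⟩, ?_, heq⟩
    by_contra hnT
    apply H81CycGCJB.cjc_not_mem h' hm'N' hnT hψ₁
    rw [heq]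
    exact hψ₂

end Cfsg.Agent.Lib.H80PILkR
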