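import Cfsg.Agent.Lib.Helper80PIDefs
import Cfsg.Agent.Lib.H80PIDS
import Cfsg.Agent.Lib.H81CycGREG

set_option autoImplicit false

namespace Cfsg.Agent.Lib.H80PIRV
open Cfsg
open Cfsg.Agent.Lib.Helper81CycDefs Cfsg.Agent.Lib.Helper81CycGDefs Cfsg.Agent.Lib.Helper4DefOneDefs
open Cfsg.Agent.Lib.Helper80Transport Cfsg.Agent.Lib.Helper82Quot Cfsg.Agent.Lib.Helper81Base
open Cfsg.Agent.Lib.Helper80PIDefs
open scoped ComplexConjugate

universe u v w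

variable {G : Type u} [Group G] [Fintype G] {p : ℕ} [Fact p.Prime] {M : Ideal AlgInt}
  {D C T N : Subgroup G} [Fintype C] {t₀ x₀ : G} {e : ℕ} {f : Set (IrrCharacter C)}
  {B : Set (IrrCharacter G)} {θ : IrrCharacter C} {X : Set (IrrCharacter G)}
  {ζ : IrrCharacter C → IrrCharacter G} {δ : IrrCharacter G → ℤ} {δ₀ : ℤ}

/-- piece `RV`.  `H81CycGREG.dd_reg h hθ.1 hψ g hg : ∑ χ, dd θ ψ χ * χ g = 0` and (the proof of)
`H80PIDS.bb_sub`. -/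
theorem reg_vals (h : CY p M D C T N t₀ x₀ e f B) (hθ : IsFix C T f θ)
    (hst : Str e T f θ B X ζ δ δ₀) {g : G} (hg : ¬ p ∣ orderOf g) :
    ∀ ψ ∈ f, ψ ≠ θ → (δ₀ : ℂ) * (ζ ψ : G → ℂ) g + SX X δ g = 0 := by
  intro ψ hψ hne
  rw [← H80PIDS.bb_sub hst hψ hne g]
  have h1 := H81CycGREG.dd_reg h hθ.1 hψ g hg
  rw [← h1]
  unfold bb dd
  rw [← Finset.sum_sub_distrib]
  apply Finset.sum_congr rfl
  intro χ _
  ring

end Cfsg.Agent.Lib.H80PIRV
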