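import Cfsg.Agent.Lib.Helper80PIDefs
import Cfsg.Agent.Lib.Helper20Center

set_option autoImplicit false

namespace Cfsg.Agent.Lib.H80PIVc
open Cfsg
open Cfsg.Agent.Lib.Helper81CycDefs Cfsg.Agent.Lib.Helper81CycGDefs Cfsg.Agent.Lib.Helper4DefOneDefs
open Cfsg.Agent.Lib.Helper80Transport Cfsg.Agent.Lib.Helper82Quot Cfsg.Agent.Lib.Helper81Base
open Cfsg.Agent.Lib.Helper80PIDefs
open scoped ComplexConjugate

universe u v w

variable {G : Type u} [Group G] [Fintype G] {p : ℕ} [Fact p.Prime] {M : Ideal AlgInt}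

/-- piece `Vc`.  A central element acts as a scalar.  `lam.2 : IsIrrCharacter G lam` gives an
irreducible representation `ρ` with character `lam`; by Schur's lemma `ρ z` is the scalar
`lam z / lam 1`; take the trace of `ρ (z * x) = ρ z ∘ ρ x`. -/
theorem central_mul (lam : IrrCharacter G) (z : G) (hz : ∀ a : G, a * z = z * a) (x : G) :
    (lam : G → ℂ) (z * x) * (lam : G → ℂ) 1 = (lam : G → ℂ) z * (lam : G → ℂ) x := by
  obtain ⟨lam, n, ρ, hirr, rfl⟩ := lam
  have := hirr
  show ρ.character (z * x) * ρ.character 1 = ρ.character z * ρ.character x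
  have h1 := Cfsg.Agent.Lib.Helper4Char.schur_scalar_trace ρ (ρ z) (fun g => by
    rw [← Module.End.mul_eq_comp, ← Module.End.mul_eq_comp, ← map_mul, ← map_mul, hz])
  have hpos : (Module.finrank ℂ (Fin n → ℂ) : ℂ) ≠ 0 :=
    Nat.cast_ne_zero.mpr (Cfsg.Agent.Lib.Helper4Char.finrank_pos_of_irreducible ρ).ne'
  have h2 : ρ.character (z * x) =
      (ρ.character z / (Module.finrank ℂ (Fin n → ℂ) : ℂ)) * ρ.character x := by
    show LinearMap.trace ℂ _ (ρ (z * x)) = _
    rw [map_mul, h1]
    simp only [Module.End.mul_eq_comp, LinearMap.smul_comp, LinearMap.id_comp, map_smul, smul_eq_mul]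
    rfl
  rw [h2, Representation.char_one]
  field_simp

end Cfsg.Agent.Lib.H80PIVc
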