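import Cfsg.Agent.Lib.Helper80PIDefs
import Cfsg.Agent.Lib.H81CycGINN3
import Cfsg.Agent.Lib.H81CycGMAIN

set_option autoImplicit false

namespace Cfsg.Agent.Lib.H80PIXC
open Cfsg
open Cfsg.Agent.Lib.Helper81CycDefs Cfsg.Agent.Lib.Helper81CycGDefs Cfsg.Agent.Lib.Helper4DefOneDefs
open Cfsg.Agent.Lib.Helper80Transport Cfsg.Agent.Lib.Helper82Quot Cfsg.Agent.Lib.Helper81Base
open Cfsg.Agent.Lib.Helper80PIDefs
open scoped ComplexConjugate

universe u v w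

variable {G : Type u} [Group G] [Fintype G] {p : ℕ} [Fact p.Prime] {M : Ideal AlgInt}
  {D C T N : Subgroup G} [Fintype C] {t₀ x₀ : G} {e : ℕ} {f : Set (IrrCharacter C)}
  {B : Set (IrrCharacter G)} {θ : IrrCharacter C} {X : Set (IrrCharacter G)}
  {ζ : IrrCharacter C → IrrCharacter G} {δ : IrrCharacter G → ℤ} {δ₀ : ℤ}

/-- piece `XC`.  Copy of the last part of the proof of `H81CycGMAIN.main_G`:
`H81CycGINN3.van_sing` with `x := δ χ 1_χ - δ χ' 1_χ'`; `dd θ ψ χ = δ χ` for `χ ∈ X` (`hst.dd`,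
`hst.disj`), `dd θ θ χ = 0`, `δ χ * δ χ = 1`. -/
theorem x_const (h : CY p M D C T N t₀ x₀ e f B) (hθ : IsFix C T f θ)
    (hst : Str e T f θ B X ζ δ δ₀) {g : G} (hg : p ∣ orderOf g) :
    ∀ χ ∈ X, ∀ χ' ∈ X, (δ χ : ℂ) * (χ : G → ℂ) g = (δ χ' : ℂ) * (χ' : G → ℂ) g := by
  classical
  intro χ hχ χ' hχ'
  have hsum : ∀ F : IrrCharacter G → ℂ,
      ∑ η : IrrCharacter G, ((if η = χ then (δ χ : ℂ) else 0) - (if η = χ' then (δ χ' : ℂ) else 0)) * F η
        = (δ χ : ℂ) * F χ - (δ χ' : ℂ) * F χ' := by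
    intro F
    simp only [sub_mul, ite_mul, zero_mul, Finset.sum_sub_distrib, Finset.sum_ite_eq',
      Finset.mem_univ, if_true]
  have hsq : ∀ η ∈ X, (δ η : ℂ) * (δ η : ℂ) = 1 := by
    intro η hη
    rcases hst.sgn η hη with h1 | h1 <;> rw [h1] <;> norm_num
  have hdd : ∀ ψ ∈ f, ψ ≠ θ → ∀ η ∈ X, dd θ ψ η = (δ η : ℂ) := by
    intro ψ hψ hne η hη
    rw [hst.dd ψ hψ hne η, if_pos hη, if_neg, zero_add]
    rintro rfl
    exact hst.disj ψ hψ hne hη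
  have h1 := H81CycGINN3.van_sing h hθ.1
    (fun η => (if η = χ then (δ χ : ℂ) else 0) - (if η = χ' then (δ χ' : ℂ) else 0))
    (by
      intro η hη
      have h2 : η ≠ χ := by
        rintro rfl
        exact hη ((hst.hB _).2 (Or.inl hχ))
      have h3 : η ≠ χ' := by
        rintro rfl
        exact hη ((hst.hB _).2 (Or.inl hχ'))
      simp [h2, h3])
    (by
      intro ψ hψ
      rw [hsum]
      by_cases hne : ψ = θ
      · subst hne
        simp [dd]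
      · rw [hdd ψ hψ hne χ hχ, hdd ψ hψ hne χ' hχ', hsq χ hχ, hsq χ' hχ', sub_self])
    g hg
  rw [hsum] at h1
  exact sub_eq_zero.mp h1

end Cfsg.Agent.Lib.H80PIXC
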