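import Cfsg.Agent.Lib.Helper80PIDefs
import Cfsg.Agent.Lib.H81CycGINN3
import Cfsg.Agent.Lib.H80PIFib

set_option autoImplicit false

namespace Cfsg.Agent.Lib.H80PIXY
open Cfsg
open Cfsg.Agent.Lib.Helper81CycDefs Cfsg.Agent.Lib.Helper81CycGDefs Cfsg.Agent.Lib.Helper4DefOneDefs
open Cfsg.Agent.Lib.Helper80Transport Cfsg.Agent.Lib.Helper82Quot Cfsg.Agent.Lib.Helper81Base
open Cfsg.Agent.Lib.Helper80PIDefs
open scoped ComplexConjugate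

universe u v w

variable {G : Type u} [Group G] [Fintype G] {p : ℕ} [Fact p.Prime] {M : Ideal AlgInt}
  {D C T N : Subgroup G} [Fintype C] {t₀ x₀ : G} {e : ℕ} {f : Set (IrrCharacter C)}
  {B : Set (IrrCharacter G)} {θ : IrrCharacter C} {X : Set (IrrCharacter G)}
  {ζ : IrrCharacter C → IrrCharacter G} {δ : IrrCharacter G → ℤ} {δ₀ : ℤ}

theorem sq_one_aux {d : ℤ} (h : d = 1 ∨ d = -1) : (d : ℂ) * d = 1 := by
  rcases h with e | e <;> rw [e] <;> norm_num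

open Classical in
/-- piece `XY`.  `H81CycGINN3.van_sing` with
`x χ := (if χ ∈ X then δ χ else 0) - ∑ ψ, if (ψ ∈ f ∧ ψ ≠ θ) ∧ ζ ψ = χ then δ₀ else 0`
(zero outside `B` by `hst.hB`).  Hypothesis `h0` for `ψ₁ ∈ f`: if `ψ₁ = θ` then `dd θ θ = 0`;
otherwise by `hst.dd`: `∑_{χ ∈ X} δ χ * δ χ = e` (`hst.cardX`, `hst.sgn`; `ζ ψ₁ ∉ X`) and
`∑_ψ δ₀ * dd θ ψ₁ (ζ ψ) = ∑_ψ δ₀ δ₀ [ζ ψ = ζ ψ₁] = #{ψ | RelC C T ψ₁ ψ} = e`
(`hst.rel`, `hst.disj`, `H80PIFib.card_class`). -/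
theorem sx_eq (h : CY p M D C T N t₀ x₀ e f B) (hθ : IsFix C T f θ)
    (hst : Str e T f θ B X ζ δ δ₀) {g : G} (hg : p ∣ orderOf g) :
    SX X δ g = ∑ ψ : IrrCharacter C,
      if ψ ∈ f ∧ ψ ≠ θ then (δ₀ : ℂ) * (ζ ψ : G → ℂ) g else 0 := by
  have hgen : ∀ F : IrrCharacter G → ℂ,
      ∑ χ : IrrCharacter G, (∑ ψ : IrrCharacter C,
        if (ψ ∈ f ∧ ψ ≠ θ) ∧ ζ ψ = χ then (δ₀ : ℂ) else 0) * F χ
      = ∑ ψ : IrrCharacter C, if ψ ∈ f ∧ ψ ≠ θ then (δ₀ : ℂ) * F (ζ ψ) else 0 := by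
    intro F
    simp only [Finset.sum_mul]
    rw [Finset.sum_comm]
    apply Finset.sum_congr rfl
    intro ψ _
    rw [Finset.sum_eq_single (ζ ψ)]
    · by_cases hP : ψ ∈ f ∧ ψ ≠ θ
      · rw [if_pos ⟨hP, rfl⟩, if_pos hP]
      · rw [if_neg (fun h => hP h.1), if_neg hP, zero_mul]
    · intro χ _ hχ
      rw [if_neg (fun h => hχ h.2.symm), zero_mul]
    · intro h
      exact absurd (Finset.mem_univ _) h
  set x : IrrCharacter G → ℂ := fun χ => (if χ ∈ X then (δ χ : ℂ) else 0)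
    - ∑ ψ : IrrCharacter C, if (ψ ∈ f ∧ ψ ≠ θ) ∧ ζ ψ = χ then (δ₀ : ℂ) else 0 with hx
  have hsplit : ∀ F : IrrCharacter G → ℂ, ∑ χ : IrrCharacter G, x χ * F χ
      = (∑ χ : IrrCharacter G, if χ ∈ X then (δ χ : ℂ) * F χ else 0)
        - ∑ ψ : IrrCharacter C, if ψ ∈ f ∧ ψ ≠ θ then (δ₀ : ℂ) * F (ζ ψ) else 0 := by
    intro F
    rw [← hgen F, ← Finset.sum_sub_distrib]
    apply Finset.sum_congr rfl
    intro χ _
    simp only [hx, sub_mul, ite_mul, zero_mul]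
  have hx0 : ∀ χ, χ ∉ B → x χ = 0 := by
    intro χ hχ
    have h1 : χ ∉ X := fun h' => hχ ((hst.hB χ).2 (Or.inl h'))
    have h2 : ∀ ψ : IrrCharacter C, ¬ ((ψ ∈ f ∧ ψ ≠ θ) ∧ ζ ψ = χ) := fun ψ h' =>
      hχ ((hst.hB χ).2 (Or.inr ⟨ψ, h'.1.1, h'.1.2, h'.2⟩))
    simp only [hx, if_neg h1, if_neg (h2 _), Finset.sum_const_zero, sub_zero]
  have h0 : ∀ ψ₁ ∈ f, ∑ χ : IrrCharacter G, x χ * dd θ ψ₁ χ = 0 := by
    intro ψ₁ hψ₁
    by_cases hne : ψ₁ = θ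
    · apply Finset.sum_eq_zero
      intro χ _
      rw [hne]
      unfold dd
      rw [sub_self, mul_zero]
    · rw [hsplit]
      have hA : (∑ χ : IrrCharacter G, if χ ∈ X then (δ χ : ℂ) * dd θ ψ₁ χ else 0) = (e : ℂ) := by
        have e1 : ∀ χ : IrrCharacter G, (if χ ∈ X then (δ χ : ℂ) * dd θ ψ₁ χ else 0)
            = if χ ∈ X then (1 : ℂ) else 0 := by
          intro χ
          by_cases hχ : χ ∈ X
          · rw [if_pos hχ, if_pos hχ, hst.dd ψ₁ hψ₁ hne χ, if_pos hχ,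
              if_neg (fun h' : χ = ζ ψ₁ => hst.disj ψ₁ hψ₁ hne (h' ▸ hχ)), zero_add]
            exact sq_one_aux (hst.sgn χ hχ)
          · rw [if_neg hχ, if_neg hχ]
        simp only [e1]
        rw [Finset.sum_boole]
        have : Nat.card X = (Finset.univ.filter (fun χ : IrrCharacter G => χ ∈ X)).card :=
          Nat.subtype_card _ (by intro y; simp)
        rw [← this, hst.cardX]
      have hB' : (∑ ψ : IrrCharacter C,
          if ψ ∈ f ∧ ψ ≠ θ then (δ₀ : ℂ) * dd θ ψ₁ (ζ ψ) else 0) = (e : ℂ) := by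
        have e1 : ∀ ψ : IrrCharacter C,
            (if ψ ∈ f ∧ ψ ≠ θ then (δ₀ : ℂ) * dd θ ψ₁ (ζ ψ) else 0)
            = if (ψ ∈ f ∧ ψ ≠ θ ∧ RelC C T ψ₁ ψ) then (1 : ℂ) else 0 := by
          intro ψ
          by_cases hP : ψ ∈ f ∧ ψ ≠ θ
          · rw [if_pos hP, hst.dd ψ₁ hψ₁ hne (ζ ψ), if_neg (hst.disj ψ hP.1 hP.2), add_zero]
            have hrel := hst.rel ψ₁ hψ₁ hne ψ hP.1 hP.2
            by_cases hR : RelC C T ψ₁ ψ
            · rw [if_pos (hrel.2 hR).symm, if_pos ⟨hP.1, hP.2, hR⟩]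
              exact sq_one_aux hst.sgn₀
            · rw [if_neg (fun h' => hR (hrel.1 h'.symm)), if_neg (fun h' => hR h'.2.2), mul_zero]
          · rw [if_neg hP, if_neg (fun h' => hP ⟨h'.1, h'.2.1⟩)]
        simp only [e1]
        rw [Finset.sum_boole]
        have : Nat.card {ψ' : IrrCharacter C // ψ' ∈ f ∧ ψ' ≠ θ ∧ RelC C T ψ₁ ψ'}
            = (Finset.univ.filter
                (fun ψ' : IrrCharacter C => ψ' ∈ f ∧ ψ' ≠ θ ∧ RelC C T ψ₁ ψ')).card :=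
          Nat.subtype_card _ (by intro y; simp)
        rw [← this, Cfsg.Agent.Lib.H80PIFib.card_class h hθ hψ₁ hne]
      rw [hA, hB', sub_self]
  have h1 := Cfsg.Agent.Lib.H81CycGINN3.van_sing h hθ.1 x hx0 h0 g hg
  rw [hsplit (fun χ => (χ : G → ℂ) g)] at h1
  exact sub_eq_zero.1 h1

end Cfsg.Agent.Lib.H80PIXY
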