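import Cfsg.Agent.Lib.Helper81CycGDefs
import Cfsg.Agent.Lib.Helper81Orth2
import Cfsg.Agent.Lib.Helper81Second3
import Cfsg.Agent.Lib.Helper81Part
import Cfsg.Agent.Lib.Helper54DefOneComb
import Cfsg.Agent.Lib.Helper4DefOneK
import Cfsg.Agent.Lib.Helper78IndPair
import Cfsg.Agent.Lib.Helper80Conj
import Cfsg.Agent.Lib.Helper80Full2

set_option autoImplicit false

namespace Cfsg.Agent.Lib.H81CycGBHYP
open Cfsg
open Cfsg.Agent.Lib.Helper81CycDefs Cfsg.Agent.Lib.Helper81CycGDefs Cfsg.Agent.Lib.Helper4DefOneDefs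
open Cfsg.Agent.Lib.Helper80Transport Cfsg.Agent.Lib.Helper82Quot Cfsg.Agent.Lib.Helper81Base
open Cfsg.Agent.Lib.Helper80Trace Cfsg.Agent.Lib.Helper80Incl
open scoped ComplexConjugate

universe u

variable {G : Type u} [Group G] [Fintype G] {p : ℕ} [Fact p.Prime] {M : Ideal AlgInt}

/-- piece `G-BHYP`: the hypotheses of S4695 / S4696. -/
theorem max_of_hyp (hM : IsPModular p M) {D : Subgroup G} {B : Set (IrrCharacter G)}
    (hBD : IsDefectGroup p M B D)
    {b : Set (IrrCharacter (Subgroup.centralizer (D : Set G)))}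
    (hind : IsInducedBlock M (Subgroup.centralizer (D : Set G)) b B) {T : Subgroup G}
    (hT : ∀ g : G, g ∈ T ↔ (g ∈ Subgroup.normalizer (D : Set G) ∧ ∀ θ ∈ b,
      ∀ θ' : IrrCharacter (Subgroup.centralizer (D : Set G)),
      (∀ h h' : Subgroup.centralizer (D : Set G), (h' : G) = g * h * g⁻¹ →
        (θ' : Subgroup.centralizer (D : Set G) → ℂ) h'
          = (θ : Subgroup.centralizer (D : Set G) → ℂ) h) → θ' ∈ b)) :
    IsMaximalBrauerPair p M B D b ∧ T = pstab D b := by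
  classical
  have hPr : M.IsPrime := hM.2.1.isPrime
  have hP : IsPGroup p D := by
    obtain ⟨g, -, hS⟩ := Cfsg.Agent.Lib.Helper20Defect.isDefectGroup_iff.mp hBD
    exact hS.isPGroup
  have hpair := Cfsg.Agent.Lib.Helper78IndPair.isBrauerPairOf_of_induced hM hP hind
  refine ⟨⟨hpair, ?_⟩, ?_⟩
  · intro R g hRg hle
    have hle' : PLE p M ⟨D, b⟩ ⟨R, g⟩ := hle
    have hDR : D ≤ R := hle'.le
    obtain ⟨b', hb1, hb2⟩ := Cfsg.Agent.Lib.Helper80Conj.exists_maximal_above (p := p) (M := M)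
      _ ⟨R, g⟩ rfl hRg
    have hRb : R ≤ b'.1 := hb1.le
    obtain ⟨y, hy⟩ := Cfsg.Agent.Lib.Helper80Conj.defectGroup_conj hM hind.2.1 hBD
      (isDefectGroup_of_maximal hM hb2)
    have hc : Nat.card D = Nat.card b'.1 := by
      rw [hy]
      exact Cfsg.Agent.Lib.Helper87Sylow.card_cj _ _
    symm
    apply Subgroup.eq_of_le_of_card_ge hDR
    rw [hc]
    exact Subgroup.card_le_of_le hRb
  · apply Cfsg.Agent.Lib.Helper80Full2.eq_pstab hPr hind.1
    intro y
    rw [hT]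
    apply and_congr_right
    intro hy
    have hyN := Cfsg.Agent.Lib.Helper80Pairs.normalizer_le_normalizer_centralizer D hy
    have h := Subgroup.mem_normalizer_iff.mp hyN
    constructor
    · intro hs
      refine ⟨hyN, fun χ hχ => ?_⟩
      refine ⟨irrCongr (cjEquiv y _ _ h) χ, ?_, (isConjCharOf_iff h _ _).mpr rfl⟩
      apply hs χ hχ
      exact (isConjCharOf_iff h χ _).mpr rfl
    · rintro ⟨-, hs⟩ θ hθ θ' hθ'
      obtain ⟨χ', hχ', hc⟩ := hs θ hθ
      rw [isConjCharOf_iff h] at hc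
      have h2 : θ' = irrCongr (cjEquiv y _ _ h) θ := (isConjCharOf_iff h θ θ').mp hθ'
      rw [h2, ← hc]
      exact hχ'

end Cfsg.Agent.Lib.H81CycGBHYP
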