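import Cfsg.Agent.Lib.Helper81CycGDefs
import Cfsg.Agent.Lib.Helper81Orth2
import Cfsg.Agent.Lib.Helper81Second3
import Cfsg.Agent.Lib.Helper81Part
import Cfsg.Agent.Lib.Helper54DefOneComb
import Cfsg.Agent.Lib.Helper4DefOneK
import Cfsg.Agent.Lib.Helper78IndPair
import Cfsg.Agent.Lib.Helper80Conj
import Cfsg.Agent.Lib.Helper80Full2
import Cfsg.Agent.Lib.Helper77Glaub

set_option autoImplicit false

namespace Cfsg.Agent.Lib.H81CycGDEG
open Cfsg
open Cfsg.Agent.Lib.Helper81CycDefs Cfsg.Agent.Lib.Helper81CycGDefs Cfsg.Agent.Lib.Helper4DefOneDefs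
open Cfsg.Agent.Lib.Helper80Transport Cfsg.Agent.Lib.Helper82Quot Cfsg.Agent.Lib.Helper81Base
open Cfsg.Agent.Lib.Helper80Trace Cfsg.Agent.Lib.Helper80Incl
open scoped ComplexConjugate

universe u

variable {G : Type u} [Group G]

/-- piece `G-DEG`: a difference of characters vanishing on the `p`-singular elements. -/
theorem deg_congr [Fintype G] (p : ℕ) [Fact p.Prime] (χ χ' : IrrCharacter G) (a a' : ℤ)
    (hv : ∀ g : G, p ∣ orderOf g → (a : ℂ) * (χ : G → ℂ) g = (a' : ℂ) * (χ' : G → ℂ) g) :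
    a * (charDegree (χ : G → ℂ) : ℤ) ≡ a' * (charDegree (χ' : G → ℂ) : ℤ)
      [ZMOD (p : ℤ) ^ (Nat.card G).factorization p] := by
  classical
  obtain ⟨S⟩ : Nonempty (Sylow p G) := inferInstance
  have hcard : Nat.card S = p ^ (Nat.card G).factorization p := S.card_eq_multiplicity
  have : Fintype (S : Subgroup G) := Fintype.ofFinite _
  set ι : (S : Subgroup G) →* G := (S : Subgroup G).subtype with hι
  have h1 := Cfsg.Agent.Lib.Helper77Glaub.mlt_spec ι
    (Cfsg.Agent.Lib.Helper4Char.IsIrrCharacter.isCharacter χ.2)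
    (Cfsg.Agent.Lib.Helper4Char4.IsCharacter.one (G := (S : Subgroup G)))
  have h2 := Cfsg.Agent.Lib.Helper77Glaub.mlt_spec ι
    (Cfsg.Agent.Lib.Helper4Char.IsIrrCharacter.isCharacter χ'.2)
    (Cfsg.Agent.Lib.Helper4Char4.IsCharacter.one (G := (S : Subgroup G)))
  set m := Cfsg.Agent.Lib.Helper77Glaub.mlt ι χ.1 (1 : ((S : Subgroup G) : Type u) → ℂ) with hm
  set m' := Cfsg.Agent.Lib.Helper77Glaub.mlt ι χ'.1 (1 : ((S : Subgroup G) : Type u) → ℂ) with hm'
  have hS0 : (Nat.card (S : Subgroup G) : ℂ) ≠ 0 := by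
    exact_mod_cast Nat.card_pos.ne'
  unfold classInner at h1 h2
  have e1 : ∑ c : (S : Subgroup G), χ.1 (ι c) = (Nat.card (S : Subgroup G) : ℂ) * m := by
    rw [← h1, mul_inv_cancel_left₀ hS0]
    simp
  have e2 : ∑ c : (S : Subgroup G), χ'.1 (ι c) = (Nat.card (S : Subgroup G) : ℂ) * m' := by
    rw [← h2, mul_inv_cancel_left₀ hS0]
    simp
  have e3 : ∑ c : (S : Subgroup G), ((a : ℂ) * χ.1 (ι c) - (a' : ℂ) * χ'.1 (ι c))
      = (a : ℂ) * χ.1 1 - (a' : ℂ) * χ'.1 1 := by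
    rw [Finset.sum_eq_single (1 : (S : Subgroup G))]
    · rw [map_one]
    · intro c _ hc
      have hpc : p ∣ orderOf (ι c) := by
        obtain ⟨k, hk⟩ := (IsPGroup.iff_orderOf.mp S.2 c)
        rw [hι, Subgroup.coe_subtype, Subgroup.orderOf_coe, hk]
        apply dvd_pow_self
        rintro rfl
        rw [pow_zero, orderOf_eq_one_iff] at hk
        exact hc hk
      rw [hv _ hpc, sub_self]
    · intro h
      exact absurd (Finset.mem_univ _) h
  rw [Finset.sum_sub_distrib, ← Finset.mul_sum, ← Finset.mul_sum, e1, e2,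
    ← Cfsg.Agent.Lib.Helper81Base.charDegree_eq, ← Cfsg.Agent.Lib.Helper81Base.charDegree_eq,
    hcard] at e3
  have e4 : (a * (((p ^ (Nat.card G).factorization p : ℕ) : ℤ) * m)
      - a' * (((p ^ (Nat.card G).factorization p : ℕ) : ℤ) * m') : ℤ)
      = a * (charDegree (χ : G → ℂ) : ℤ) - a' * (charDegree (χ' : G → ℂ) : ℤ) := by
    exact_mod_cast e3
  apply Int.ModEq.symm
  rw [Int.modEq_iff_dvd, ← e4]
  refine ⟨a * m - a' * m', ?_⟩
  push_cast
  ring

end Cfsg.Agent.Lib.H81CycGDEG
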