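import Cfsg.Agent.Lib.Helper81CycGDefs
import Cfsg.Agent.Lib.Helper81Orth2
import Cfsg.Agent.Lib.Helper81Second3
import Cfsg.Agent.Lib.Helper81Part
import Cfsg.Agent.Lib.Helper54DefOneComb
import Cfsg.Agent.Lib.Helper4DefOneK
import Cfsg.Agent.Lib.Helper78IndPair
import Cfsg.Agent.Lib.Helper80Conj
import Cfsg.Agent.Lib.Helper80Full2

import Cfsg.Agent.Lib.H81CycGINN3
import Cfsg.Agent.Lib.Helper81Defect
import Cfsg.Agent.Lib.Helper20DefCard

set_option autoImplicit false

namespace Cfsg.Agent.Lib.H81CycGDZ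
open Cfsg
open Cfsg.Agent.Lib.Helper81CycDefs Cfsg.Agent.Lib.Helper81CycGDefs Cfsg.Agent.Lib.Helper4DefOneDefs
open Cfsg.Agent.Lib.Helper80Transport Cfsg.Agent.Lib.Helper82Quot Cfsg.Agent.Lib.Helper81Base
open Cfsg.Agent.Lib.Helper80Trace Cfsg.Agent.Lib.Helper80Incl
open scoped ComplexConjugate

universe u

variable {G : Type u} [Group G] [Fintype G] {p : ℕ} [Fact p.Prime] {M : Ideal AlgInt}
  {D C T N : Subgroup G} [Fintype C] {t₀ x₀ : G} {e : ℕ} {f : Set (IrrCharacter C)}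
  {B : Set (IrrCharacter G)}

/-- piece `G-DZ`: every member of `B` occurs. -/
theorem exists_dd_ne (h : CY p M D C T N t₀ x₀ e f B) {θ : IrrCharacter C} (hθ : θ ∈ f)
    {χ : IrrCharacter G} (hχ : χ ∈ B) : ∃ ψ ∈ f, ψ ≠ θ ∧ dd θ ψ χ ≠ 0 := by
  classical
  have hp : p.Prime := Fact.out
  have hPr : M.IsPrime := h.hM.2.1.isPrime
  by_contra hcon
  push Not at hcon
  have hall : ∀ ψ ∈ f, dd θ ψ χ = 0 := by
    intro ψ hψ
    by_cases hψθ : ψ = θ
    · rw [hψθ]; unfold dd; rw [sub_self]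
    · exact hcon ψ hψ hψθ
  have hv : ∀ y : G, p ∣ orderOf y → (χ : G → ℂ) y = 0 := by
    intro y hy
    have h1 := Cfsg.Agent.Lib.H81CycGINN3.van_sing h hθ (fun χ' => if χ' = χ then 1 else 0)
      (by
        intro χ' hχ'
        rw [if_neg]
        rintro rfl
        exact hχ' hχ)
      (by
        intro ψ hψ
        simp only [ite_mul, one_mul, zero_mul, Finset.sum_ite_eq', Finset.mem_univ, if_true]
        exact hall ψ hψ) y hy
    simpa only [ite_mul, one_mul, zero_mul, Finset.sum_ite_eq', Finset.mem_univ, if_true] using h1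
  have h1 := Cfsg.Agent.Lib.Helper81Orth2.not_dvd_card_div_of_vanish hp χ hv
  have h2 : blockOf M (χ : G → ℂ) = {χ} := (Cfsg.Agent.Lib.Helper81Orth2.defect_zero_iff h.hM χ).mp h1
  have h3 : (charDegree (χ : G → ℂ)).factorization p = (Nat.card G).factorization p :=
    (Cfsg.Agent.Lib.Helper81Defect.not_dvd_div_iff hp χ).mp h1
  have hB : IsPBlock M B := h.ind.2.1
  have hBχ : B = {χ} := by
    rw [← h2]
    exact Cfsg.Agent.Lib.Helper20Block.IsPBlock.eq_blockOf hPr hB hχ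
  have hdef : blockDefect p B = 0 := by
    unfold blockDefect
    rw [hBχ, Set.image_singleton, csInf_singleton, h3, Nat.sub_self]
  have hcard := Cfsg.Agent.Lib.Helper20DefCard.card_defectGroup h.hM hB h.dB
  rw [hdef, pow_zero] at hcard
  exact h.D1 (Subgroup.card_eq_one.mp hcard)

end Cfsg.Agent.Lib.H81CycGDZ
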