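import Cfsg.Agent.Lib.Helper81CycGDefs
import Cfsg.Agent.Lib.Helper81Orth2
import Cfsg.Agent.Lib.Helper81Second3
import Cfsg.Agent.Lib.Helper81Part
import Cfsg.Agent.Lib.Helper54DefOneComb
import Cfsg.Agent.Lib.Helper4DefOneK
import Cfsg.Agent.Lib.Helper78IndPair
import Cfsg.Agent.Lib.Helper80Conj
import Cfsg.Agent.Lib.Helper80Full2
import Cfsg.Agent.Lib.Helper81Defect
import Cfsg.Agent.Lib.Helper20DefCard

set_option autoImplicit false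

namespace Cfsg.Agent.Lib.H81CycGFIN
open Cfsg
open Cfsg.Agent.Lib.Helper81CycDefs Cfsg.Agent.Lib.Helper81CycGDefs Cfsg.Agent.Lib.Helper4DefOneDefs
open Cfsg.Agent.Lib.Helper80Transport Cfsg.Agent.Lib.Helper82Quot Cfsg.Agent.Lib.Helper81Base
open Cfsg.Agent.Lib.Helper80Trace Cfsg.Agent.Lib.Helper80Incl
open scoped ComplexConjugate

universe u

/-- the congruence for the exceptional degree, pure arithmetic. -/
theorem arith_core {ι : Type*} (m : ℤ) (e : ℕ) (X : Finset ι) (hX : X.card = e) (δ d : ι → ℤ)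
    (δ₀ y : ℤ) (hδ₀ : δ₀ = 1 ∨ δ₀ = -1) (hrel : δ₀ * y + ∑ χ ∈ X, δ χ * d χ = 0)
    (hcong : ∀ χ ∈ X, ∀ χ' ∈ X, δ χ * d χ ≡ δ χ' * d χ' [ZMOD m]) (χ : ι) (hχ : χ ∈ X) :
    y ≡ -((e : ℤ) * δ₀ * δ χ * d χ) [ZMOD m] := by
  have h1 : m ∣ (∑ χ' ∈ X, δ χ' * d χ') - (e : ℤ) * (δ χ * d χ) := by
    have : (∑ χ' ∈ X, δ χ' * d χ') - (e : ℤ) * (δ χ * d χ) =
        ∑ χ' ∈ X, (δ χ' * d χ' - δ χ * d χ) := by
      rw [Finset.sum_sub_distrib, Finset.sum_const, hX, nsmul_eq_mul]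
    rw [this]
    apply Finset.dvd_sum
    intro χ' hχ'
    exact (Int.modEq_iff_dvd.mp (hcong χ hχ χ' hχ'))
  have hsq : δ₀ * δ₀ = 1 := by rcases hδ₀ with h | h <;> rw [h] <;> norm_num
  rw [Int.modEq_iff_dvd]
  obtain ⟨c, hc⟩ := h1
  refine ⟨δ₀ * c, ?_⟩
  have h2 : ∑ χ' ∈ X, δ χ' * d χ' = -(δ₀ * y) := by linear_combination hrel
  rw [h2] at hc
  linear_combination δ₀ * hc + y * hsq

theorem dvd_sign_mul {k δ x : ℤ} (hδ : δ = 1 ∨ δ = -1) : k ∣ δ * x ↔ k ∣ x := by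
  rcases hδ with h | h
  · rw [h, one_mul]
  · rw [h, neg_one_mul, dvd_neg]

variable {G : Type u} [Group G] [Fintype G] {p : ℕ} [Fact p.Prime] {M : Ideal AlgInt}

/-- piece `G-FIN`: arithmetic of the degrees (heights and congruences). -/
theorem fin_arith (hM : IsPModular p M) {D : Subgroup G} {a : ℕ} (ha : 1 ≤ a)
    (hDa : Nat.card D = p ^ a) {B : Set (IrrCharacter G)} (hB : IsPBlock M B)
    (hBD : IsDefectGroup p M B D) {e : ℕ} (he : e ∣ p - 1) {X Y : Set (IrrCharacter G)}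
    {δ : IrrCharacter G → ℤ} {δ₀ : ℤ} (hXY : B = X ∪ Y) (hX : Nat.card X = e)
    (hδ : ∀ χ ∈ X, δ χ = 1 ∨ δ χ = -1) (hδ₀ : δ₀ = 1 ∨ δ₀ = -1)
    (hrel : ∀ ψ ∈ Y, (δ₀ : ℤ) * (charDegree (ψ : G → ℂ) : ℤ)
      + ∑ᶠ χ ∈ X, δ χ * (charDegree (χ : G → ℂ) : ℤ) = 0)
    (hcong : ∀ χ ∈ X, ∀ χ' ∈ X, δ χ * (charDegree (χ : G → ℂ) : ℤ)
      ≡ δ χ' * (charDegree (χ' : G → ℂ) : ℤ) [ZMOD (p : ℤ) ^ (Nat.card G).factorization p]) :
    (∀ χ ∈ B, blockHeight p B (χ : G → ℂ) = 0) ∧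
    (∀ χ ∈ X, ∀ χ' ∈ X, δ χ * (charDegree (χ : G → ℂ) : ℤ)
      ≡ δ χ' * (charDegree (χ' : G → ℂ) : ℤ) [ZMOD (p : ℤ) ^ a]) ∧
    (∀ ψ ∈ Y, ∀ χ ∈ X, (charDegree (ψ : G → ℂ) : ℤ)
      ≡ -((e : ℤ) * δ₀ * δ χ * (charDegree (χ : G → ℂ) : ℤ)) [ZMOD (p : ℤ) ^ a]) := by
  classical
  have hp : p.Prime := Fact.out
  set n := (Nat.card G).factorization p with hn
  set h₀ := Cfsg.Agent.Lib.Helper81Defect.minVal p B with hh₀
  have hdef : a = n - h₀ := by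
    have h1 := Cfsg.Agent.Lib.Helper20DefCard.card_defectGroup hM hB hBD
    rw [hDa, Cfsg.Agent.Lib.Helper81Defect.blockDefect_def] at h1
    exact Nat.pow_right_injective hp.two_le h1
  have han : a ≤ n := by omega
  have hh₀n : h₀ + 1 ≤ n := by omega
  have hfin : X.Finite := Set.toFinite X
  have hcardX : hfin.toFinset.card = e := by
    rw [← hX, Nat.card_coe_set_eq, Set.ncard_eq_toFinset_card X hfin]
  have he0 : e ≠ 0 := by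
    intro h
    rw [h, zero_dvd_iff] at he
    have := hp.two_le
    omega
  have hep : Nat.Coprime e p := by
    have h1 : Nat.Coprime (p - 1) p := by
      have := hp.two_le
      have h2 : Nat.Coprime (p - 1) (p - 1 + 1) := (Nat.coprime_self_add_right).mpr (Nat.coprime_one_right _)
      rwa [Nat.sub_add_cancel (by omega)] at h2
    exact Nat.Coprime.coprime_dvd_left he h1
  -- the strong congruence
  have key : ∀ ψ ∈ Y, ∀ χ ∈ X, (charDegree (ψ : G → ℂ) : ℤ)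
      ≡ -((e : ℤ) * δ₀ * δ χ * (charDegree (χ : G → ℂ) : ℤ)) [ZMOD (p : ℤ) ^ n] := by
    intro ψ hψ χ hχ
    have h1 := hrel ψ hψ
    rw [finsum_mem_eq_finite_toFinset_sum _ hfin] at h1
    exact arith_core ((p : ℤ) ^ n) e hfin.toFinset hcardX δ
      (fun χ => (charDegree (χ : G → ℂ) : ℤ)) δ₀ _ hδ₀ h1
      (fun χ hχ χ' hχ' => hcong χ (hfin.mem_toFinset.mp hχ) χ' (hfin.mem_toFinset.mp hχ')) χ
      (hfin.mem_toFinset.mpr hχ)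
  have hpa : (p : ℤ) ^ a ∣ (p : ℤ) ^ n := pow_dvd_pow _ han
  have hpk : (p : ℤ) ^ (h₀ + 1) ∣ (p : ℤ) ^ n := pow_dvd_pow _ hh₀n
  refine ⟨?_, fun χ hχ χ' hχ' => (hcong χ hχ χ' hχ').of_dvd hpa,
    fun ψ hψ χ hχ => (key ψ hψ χ hχ).of_dvd hpa⟩
  -- heights
  let Pr : IrrCharacter G → Prop := fun χ => (p : ℤ) ^ (h₀ + 1) ∣ (charDegree (χ : G → ℂ) : ℤ)
  obtain ⟨χ₁, hχ₁⟩ : ∃ χ₁, χ₁ ∈ X := by
    have : hfin.toFinset.Nonempty := by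
      rw [← Finset.card_pos, hcardX]; omega
    obtain ⟨χ₁, h⟩ := this
    exact ⟨χ₁, hfin.mem_toFinset.mp h⟩
  have hXX : ∀ χ ∈ X, (Pr χ ↔ Pr χ₁) := by
    intro χ hχ
    have h1 := (hcong χ hχ χ₁ hχ₁).of_dvd hpk
    have h2 := h1.dvd_iff
    rw [dvd_sign_mul (hδ χ hχ), dvd_sign_mul (hδ χ₁ hχ₁)] at h2
    exact h2
  have hcop : IsCoprime ((p : ℤ) ^ (h₀ + 1)) (e : ℤ) := by
    apply IsCoprime.pow_left
    exact (Nat.isCoprime_iff_coprime.mpr hep).symm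
  have hYX : ∀ ψ ∈ Y, (Pr ψ ↔ Pr χ₁) := by
    intro ψ hψ
    have h1 := (key ψ hψ χ₁ hχ₁).of_dvd hpk
    have h2 := h1.dvd_iff
    have h3 : ∀ w : ℤ, (p : ℤ) ^ (h₀ + 1) ∣ (e : ℤ) * w ↔ (p : ℤ) ^ (h₀ + 1) ∣ w :=
      fun w => ⟨fun hw => hcop.dvd_of_dvd_mul_left hw, fun hw => Dvd.dvd.mul_left hw _⟩
    rw [dvd_neg, mul_assoc, mul_assoc, h3, dvd_sign_mul hδ₀,
      dvd_sign_mul (hδ χ₁ hχ₁)] at h2
    exact h2
  have hall : ∀ χ ∈ B, (Pr χ ↔ Pr χ₁) := by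
    intro χ hχ
    rw [hXY] at hχ
    rcases hχ with h | h
    · exact hXX χ h
    · exact hYX χ h
  have hPiff : ∀ χ : IrrCharacter G, Pr χ ↔ h₀ + 1 ≤ (charDegree (χ : G → ℂ)).factorization p := by
    intro χ
    rw [← Nat.Prime.pow_dvd_iff_le_factorization hp (charDegree_pos χ).ne']
    show (p : ℤ) ^ (h₀ + 1) ∣ (charDegree (χ : G → ℂ) : ℤ) ↔ _
    rw [← Int.natCast_pow, Int.natCast_dvd_natCast]
  obtain ⟨χm, hχm, hmin⟩ := Cfsg.Agent.Lib.Helper81Defect.exists_minVal (p := p) (B := B)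
    ⟨χ₁, by rw [hXY]; exact Or.inl hχ₁⟩
  have hnot : ¬ Pr χ₁ := by
    rw [← hall χm hχm, hPiff, hmin]
    omega
  intro χ hχ
  rw [Cfsg.Agent.Lib.Helper81Defect.blockHeight_def]
  have h1 : ¬ Pr χ := by rw [hall χ hχ]; exact hnot
  rw [hPiff] at h1
  omega

end Cfsg.Agent.Lib.H81CycGFIN
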