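import Mathlib
import Cfsg.Agent.Lib.Helper83Klein3
import Cfsg.Agent.S4733

set_option autoImplicit false

namespace Cfsg.Agent.Lib.Helper83Klein4

open Cfsg
open Cfsg.Agent.Lib.Helper20Local
open Cfsg.Agent.Lib.Helper20Center Cfsg.Agent.Lib.Helper20Block
open Cfsg.Agent.Lib.Helper80Brauer Cfsg.Agent.Lib.Helper80Transport
open Cfsg.Agent.Lib.Helper80Pairs Cfsg.Agent.Lib.Helper87Sylow
open Cfsg.Agent.Lib.Helper80Stab Cfsg.Agent.Lib.Helper80Trace Cfsg.Agent.Lib.Helper80Incl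
open Cfsg.Agent.Lib.Helper80Conj Cfsg.Agent.Lib.Helper80Full Cfsg.Agent.Lib.Helper80Full2
open Cfsg.Agent.Lib.Helper80Up Cfsg.Agent.Lib.Helper80BFus Cfsg.Agent.Lib.Helper80Abel
open Cfsg.Agent.Lib.Helper80Sat
open Cfsg.Agent.Lib.Helper20Major Cfsg.Agent.Lib.Helper83Klein Cfsg.Agent.Lib.Helper83Klein2
  Cfsg.Agent.Lib.Helper83Klein3
open Cfsg.Agent.Lib.Helper81Count Cfsg.Agent.Lib.Helper81Subsec
open scoped ComplexConjugate

variable {M : Ideal Cfsg.AlgInt}
variable {G : Type*} [Group G] [Fintype G]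

/-- idempotent functions of the blocks of `C_G(x)` inducing `B`. -/
def Phi (M : Ideal Cfsg.AlgInt) (B : Set (IrrCharacter G)) (x : G) : Set (G → ℂ) :=
  {φ | ∃ b : Set (IrrCharacter (Subgroup.centralizer ({x} : Set G))),
    IsInducedBlock M (Subgroup.centralizer ({x} : Set G)) b B ∧
      φ = ext (Subgroup.centralizer ({x} : Set G)) (blockCoeff b)}

omit [Fintype G] in
theorem phi_eq_image (B : Set (IrrCharacter G)) (x : G) : Phi M B x =
    (fun b : Set (IrrCharacter (Subgroup.centralizer ({x} : Set G))) =>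
      ext (Subgroup.centralizer ({x} : Set G)) (blockCoeff b)) ''
      {b | IsInducedBlock M (Subgroup.centralizer ({x} : Set G)) b B} := by
  ext φ
  constructor
  · rintro ⟨b, hb, rfl⟩
    exact ⟨b, hb, rfl⟩
  · rintro ⟨b, hb, rfl⟩
    exact ⟨b, hb, rfl⟩

theorem phi_finite (B : Set (IrrCharacter G)) (x : G) : (Phi M B x).Finite := by
  rw [phi_eq_image]
  exact (Set.toFinite _).image _

theorem rank_overSet_eq_ncard (hM : IsPModular 2 M) {B : Set (IrrCharacter G)} (hB : IsPBlock M B)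
    {P : Subgroup G} (hP : IsDefectGroup 2 M B P) (hcard : Nat.card P = 4)
    (hexp : ∀ d ∈ P, d * d = 1) {x : G} (hx : ∃ k : ℕ, orderOf x = 2 ^ k) (hx1 : x ≠ 1) :
    blockRank 2 (overSet M x B) = (Phi M B x).ncard := by
  classical
  have hMp := hM.2.1.isPrime
  let _ : Fintype (Subgroup.centralizer ({x} : Set G)) := Fintype.ofFinite _
  rw [blockRank_union hM (isBlockUnion_overSet x B)]
  have hset : {b : Set (IrrCharacter (Subgroup.centralizer ({x} : Set G))) |
      IsPBlock M b ∧ b ⊆ overSet M x B}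
      = {b | IsInducedBlock M (Subgroup.centralizer ({x} : Set G)) b B} := by
    ext b
    constructor
    · rintro ⟨hb, hsub⟩
      obtain ⟨ψ, hψ⟩ := Cfsg.Agent.Lib.Helper81Block.isPBlock_nonempty hb
      have := hsub hψ
      show IsInducedBlock M _ b B
      rw [Cfsg.Agent.Lib.Helper81Block.isPBlock_eq_blockOf hb hψ]
      exact this
    · intro hind
      refine ⟨hind.1, ?_⟩
      intro ψ hψ
      show IsInducedBlock M _ (blockOf M _) B
      rw [← Cfsg.Agent.Lib.Helper81Block.isPBlock_eq_blockOf hind.1 hψ]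
      exact hind
  rw [hset]
  have h1 : ∑ᶠ b ∈ {b : Set (IrrCharacter (Subgroup.centralizer ({x} : Set G))) |
      IsInducedBlock M (Subgroup.centralizer ({x} : Set G)) b B}, blockRank 2 b
      = ∑ᶠ b ∈ {b : Set (IrrCharacter (Subgroup.centralizer ({x} : Set G))) |
      IsInducedBlock M (Subgroup.centralizer ({x} : Set G)) b B}, 1 :=
    finsum_mem_congr rfl (fun b hb => (local_rank_one hM hB hP hcard hexp hx hx1 hb).1)
  rw [h1, finsum_one, phi_eq_image, Set.ncard_image_of_injective]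
  intro b b' h
  exact blockCoeff_injective (ext_injective h)

open scoped Classical in
/-- the basic count. -/
theorem four_eq (hM : IsPModular 2 M) {B : Set (IrrCharacter G)} (hB : IsPBlock M B)
    {P : Subgroup G} (hP : IsDefectGroup 2 M B P) (hcard : Nat.card P = 4)
    (hexp : ∀ d ∈ P, d * d = 1) (X : Finset G) (hX : ∀ x ∈ X, ∃ k : ℕ, orderOf x = 2 ^ k)
    (hXrep : ∀ g : G, (∃ k : ℕ, orderOf g = 2 ^ k) → ∃! x, x ∈ X ∧ IsConj g x) :
    4 = blockRank 2 B + ∑ x ∈ X.erase 1, (Phi M B x).ncard := by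
  classical
  have : Fact (Nat.Prime 2) := ⟨Nat.prime_two⟩
  have h4 := card_eq_four_of_klein hM hB hP hcard hexp
  have hk := card_block_eq hM hB X hX hXrep
  have h1X : (1 : G) ∈ X := by
    obtain ⟨x, ⟨hx, hcx⟩, -⟩ := hXrep 1 ⟨0, by simp⟩
    obtain ⟨t, ht⟩ := isConj_iff.1 hcx
    have : x = 1 := by rw [← ht]; group
    rwa [this] at hx
  rw [h4, ← Finset.add_sum_erase X _ h1X, rank_overSet_central hM hB 1 ⟨0, by simp⟩ (by simp)] at hk
  rw [hk]
  congr 1
  apply Finset.sum_congr rfl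
  intro x hx
  exact rank_overSet_eq_ncard hM hB hP hcard hexp (hX x (Finset.mem_of_mem_erase hx))
    (Finset.ne_of_mem_erase hx)

theorem pairFun_mem_phi (hM : IsPModular 2 M) {B : Set (IrrCharacter G)} {x : G}
    (hx : ∃ k : ℕ, orderOf x = 2 ^ k) (a : BrauerPairIdx G) (h1 : a.1 = Subgroup.zpowers x)
    (ha : IsBrauerPairOf 2 M B a.1 a.2) : pairFun a ∈ Phi M B x := by
  have : Fact (Nat.Prime 2) := ⟨Nat.prime_two⟩
  obtain ⟨Q, f⟩ := a
  simp only at h1
  subst h1
  obtain ⟨b, hb, hbe⟩ := exists_subsection_of_pair hM hx ha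
  exact ⟨b, hb, hbe.symm⟩

theorem exists_pair_of_mem_phi (hM : IsPModular 2 M) {B : Set (IrrCharacter G)} {x : G}
    (hx : ∃ k : ℕ, orderOf x = 2 ^ k) {φ : G → ℂ} (hφ : φ ∈ Phi M B x) :
    ∃ a : BrauerPairIdx G, a.1 = Subgroup.zpowers x ∧ IsBrauerPairOf 2 M B a.1 a.2 ∧
      pairFun a = φ := by
  have : Fact (Nat.Prime 2) := ⟨Nat.prime_two⟩
  obtain ⟨b, hb, rfl⟩ := hφ
  obtain ⟨f, hf, hfe⟩ := exists_pair_of_subsection hM hx hb
  exact ⟨⟨_, f⟩, rfl, hf, hfe⟩

theorem cjf_eq_of_mem_phi {B : Set (IrrCharacter G)} {x : G} {φ : G → ℂ} (hφ : φ ∈ Phi M B x)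
    {h : G} (hh : h * x = x * h) : cjf h φ = φ := by
  classical
  obtain ⟨b, hb, rfl⟩ := hφ
  let _ : Fintype (Subgroup.centralizer ({x} : Set G)) := Fintype.ofFinite _
  exact isInv_iff_cjf.1 (isInv_ext_self (blockCoeff_isClassFunction b)) h
    (Subgroup.mem_centralizer_singleton_iff.2 hh)

end Cfsg.Agent.Lib.Helper83Klein4
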