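import Mathlib
import Cfsg.Agent.Lib.Helper83Klein4

set_option autoImplicit false

namespace Cfsg.Agent.Lib.Helper83Klein5

open Cfsg
open Cfsg.Agent.Lib.Helper20Local
open Cfsg.Agent.Lib.Helper20Center Cfsg.Agent.Lib.Helper20Block
open Cfsg.Agent.Lib.Helper80Brauer Cfsg.Agent.Lib.Helper80Transport
open Cfsg.Agent.Lib.Helper80Pairs Cfsg.Agent.Lib.Helper87Sylow
open Cfsg.Agent.Lib.Helper80Stab Cfsg.Agent.Lib.Helper80Trace Cfsg.Agent.Lib.Helper80Incl
open Cfsg.Agent.Lib.Helper80Conj Cfsg.Agent.Lib.Helper80Full Cfsg.Agent.Lib.Helper80Full2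
open Cfsg.Agent.Lib.Helper80Up Cfsg.Agent.Lib.Helper80BFus Cfsg.Agent.Lib.Helper80Abel
open Cfsg.Agent.Lib.Helper80Sat
open Cfsg.Agent.Lib.Helper20Major Cfsg.Agent.Lib.Helper83Klein Cfsg.Agent.Lib.Helper83Klein2
  Cfsg.Agent.Lib.Helper83Klein3 Cfsg.Agent.Lib.Helper83Klein4
open Cfsg.Agent.Lib.Helper81Count Cfsg.Agent.Lib.Helper81Subsec
open scoped ComplexConjugate

variable {M : Ideal Cfsg.AlgInt}
variable {G : Type*} [Group G] [Fintype G]

/-- every nontrivial subsection is conjugate to the one at `u₀` when the inertial group is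
transitive. -/
theorem exists_conj_of_trans (hM : IsPModular 2 M) {B : Set (IrrCharacter G)}
    {P : Subgroup G} {c : Set (IrrCharacter (Subgroup.centralizer (P : Set G)))}
    (hmax : IsMaximalBrauerPair 2 M B P c)
    (htr : ∀ u ∈ P, ∀ u' ∈ P, u ≠ 1 → u' ≠ 1 → ∃ t ∈ pstab P c, t * u * t⁻¹ = u')
    {u₀ : G} (hu₀ : u₀ ∈ P) (hu₀1 : u₀ ≠ 1) {a₀ : BrauerPairIdx G}
    (ha₀ : PLE 2 M a₀ ⟨P, c⟩) (ha₀1 : a₀.1 = Subgroup.zpowers u₀)
    {x : G} (hx : ∃ k : ℕ, orderOf x = 2 ^ k) (hx1 : x ≠ 1) {φ : G → ℂ} (hφ : φ ∈ Phi M B x) :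
    ∃ g : G, g * x * g⁻¹ = u₀ ∧ cjf g φ = pairFun a₀ := by
  classical
  have : Fact (Nat.Prime 2) := ⟨Nat.prime_two⟩
  have hPr := IsPModular.isPrime hM
  obtain ⟨a, ha1, haB, rfl⟩ := exists_pair_of_mem_phi hM hx hφ
  obtain ⟨g, hg⟩ := exists_conj_le_maximal hM hmax haB
  have h1 : g * x * g⁻¹ ∈ P := by
    have h2 : (cjPair g a).1 ≤ P := hg.le
    rw [cjPair_fst, ha1, cj_zpowers] at h2
    exact h2 (Subgroup.mem_zpowers _)
  have h3 : g * x * g⁻¹ ≠ 1 := by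
    intro h
    apply hx1
    have : x = g⁻¹ * (g * x * g⁻¹) * g := by group
    rw [this, h]; group
  obtain ⟨t, ht, htu⟩ := htr _ h1 _ hu₀ h3 hu₀1
  have h4 : PLE 2 M (cjPair (t * g) a) ⟨P, c⟩ := by
    have := ple_cj hPr hg t
    rw [mem_pstab_iff.1 ht, ← cjPair_mul] at this
    exact this
  have h5 : t * g * x * (t * g)⁻¹ = u₀ := by
    rw [← htu]; group
  have h6 : cjPair (t * g) a = a₀ := by
    apply eq_of_ple_of_fst_eq hM hmax.1.1 h4 ha₀
    rw [cjPair_fst, ha1, cj_zpowers, h5, ha₀1]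
  refine ⟨t * g, h5, ?_⟩
  rw [← pairFun_cjPair, h6]

open scoped Classical in
theorem rank_three_of_trans (hM : IsPModular 2 M) {B : Set (IrrCharacter G)} (hB : IsPBlock M B)
    {P : Subgroup G} (hP : IsDefectGroup 2 M B P) (hcard : Nat.card P = 4)
    (hexp : ∀ d ∈ P, d * d = 1) {c : Set (IrrCharacter (Subgroup.centralizer (P : Set G)))}
    (hmax : IsMaximalBrauerPair 2 M B P c)
    (htr : ∀ u ∈ P, ∀ u' ∈ P, u ≠ 1 → u' ≠ 1 → ∃ t ∈ pstab P c, t * u * t⁻¹ = u') :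
    blockRank 2 B = 3 := by
  have : Fact (Nat.Prime 2) := ⟨Nat.prime_two⟩
  obtain ⟨X, hX, hXrep⟩ := exists_reps (G := G) 2
  have h4 := four_eq hM hB hP hcard hexp X hX hXrep
  obtain ⟨u₀, hu₀, hu₀1, -⟩ := exists_third hcard 1
  obtain ⟨f₀, hf₀⟩ := exists_le' hM hmax.1.1 (Q := Subgroup.zpowers u₀)
    (by rw [Subgroup.zpowers_le]; exact hu₀)
  have key : ∀ x ∈ X.erase 1, ∀ x' ∈ X.erase 1, ∀ φ ∈ Phi M B x, ∀ φ' ∈ Phi M B x',
      x = x' ∧ φ = φ' := by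
    intro x hx x' hx' φ hφ φ' hφ'
    have hxk := hX x (Finset.mem_of_mem_erase hx)
    have hxk' := hX x' (Finset.mem_of_mem_erase hx')
    obtain ⟨g, hg1, hg2⟩ := exists_conj_of_trans hM hmax htr hu₀ hu₀1 hf₀ rfl hxk
      (Finset.ne_of_mem_erase hx) hφ
    obtain ⟨g', hg1', hg2'⟩ := exists_conj_of_trans hM hmax htr hu₀ hu₀1 hf₀ rfl hxk'
      (Finset.ne_of_mem_erase hx') hφ'
    have hconj : g'⁻¹ * g * x * (g'⁻¹ * g)⁻¹ = x' := by
      have : x' = g'⁻¹ * (g' * x' * g'⁻¹) * g' := by group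
      rw [this, hg1', ← hg1]; group
    have hxx : x = x' := by
      obtain ⟨y, -, hy⟩ := hXrep x hxk
      rw [hy x ⟨Finset.mem_of_mem_erase hx, IsConj.refl x⟩,
        hy x' ⟨Finset.mem_of_mem_erase hx', isConj_iff.2 ⟨_, hconj⟩⟩]
    subst hxx
    refine ⟨rfl, ?_⟩
    have h5 : cjf (g'⁻¹ * g) φ = φ := by
      apply cjf_eq_of_mem_phi hφ
      calc g'⁻¹ * g * x = (g'⁻¹ * g * x * (g'⁻¹ * g)⁻¹) * (g'⁻¹ * g) := by group
        _ = x * (g'⁻¹ * g) := by rw [hconj]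
    rw [← h5, cjf_mul, hg2, ← hg2', cjf_inv_cjf]
  have hle : ∑ x ∈ X.erase 1, (Phi M B x).ncard ≤ 1 := by
    by_cases hemp : ∀ x ∈ X.erase 1, Phi M B x = ∅
    · rw [Finset.sum_eq_zero (fun x hx => by rw [hemp x hx, Set.ncard_empty])]
      exact Nat.zero_le _
    · push Not at hemp
      obtain ⟨x₀, hx₀, φ₀, hφ₀⟩ := hemp
      rw [Finset.sum_eq_single x₀]
      · have : Phi M B x₀ = {φ₀} := by
          ext φ
          constructor
          · intro hφ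
            exact (key x₀ hx₀ x₀ hx₀ φ hφ φ₀ hφ₀).2
          · rintro rfl
            exact hφ₀
        rw [this, Set.ncard_singleton]
      · intro x hx hne
        have : Phi M B x = ∅ := by
          by_contra hne'
          obtain ⟨φ, hφ⟩ := Set.nonempty_iff_ne_empty.2 hne'
          exact hne (key x hx x₀ hx₀ φ hφ φ₀ hφ₀).1
        rw [this, Set.ncard_empty]
      · intro h; exact absurd hx₀ h
  have h7 := Cfsg.Agent.S4733.result 2 M hM B hB
  have h8 := card_eq_four_of_klein hM hB hP hcard hexp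
  have h9 := defect_two_of_card hM hB hP hcard
  have h10 : blockRank 2 B ≠ 4 := by
    intro h
    have := h7.2.2.2 (by rw [h8, h])
    omega
  omega

end Cfsg.Agent.Lib.Helper83Klein5
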