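import Mathlib
import Cfsg.Agent.Lib.Helper83Klein4

set_option autoImplicit false

namespace Cfsg.Agent.Lib.Helper83Klein6

open Cfsg
open Cfsg.Agent.Lib.Helper20Local
open Cfsg.Agent.Lib.Helper20Center Cfsg.Agent.Lib.Helper20Block
open Cfsg.Agent.Lib.Helper80Brauer Cfsg.Agent.Lib.Helper80Transport
open Cfsg.Agent.Lib.Helper80Pairs Cfsg.Agent.Lib.Helper87Sylow
open Cfsg.Agent.Lib.Helper80Stab Cfsg.Agent.Lib.Helper80Trace Cfsg.Agent.Lib.Helper80Incl
open Cfsg.Agent.Lib.Helper80Conj Cfsg.Agent.Lib.Helper80Full Cfsg.Agent.Lib.Helper80Full2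
open Cfsg.Agent.Lib.Helper80Up Cfsg.Agent.Lib.Helper80BFus Cfsg.Agent.Lib.Helper80Abel
open Cfsg.Agent.Lib.Helper80Sat
open Cfsg.Agent.Lib.Helper20Major Cfsg.Agent.Lib.Helper83Klein Cfsg.Agent.Lib.Helper83Klein2
  Cfsg.Agent.Lib.Helper83Klein3 Cfsg.Agent.Lib.Helper83Klein4
open Cfsg.Agent.Lib.Helper81Count Cfsg.Agent.Lib.Helper81Subsec
open scoped ComplexConjugate

variable {M : Ideal Cfsg.AlgInt}
variable {G : Type*} [Group G] [Fintype G]

open scoped Classical in
theorem rank_one_of_trivial (hM : IsPModular 2 M) {B : Set (IrrCharacter G)} (hB : IsPBlock M B)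
    {P : Subgroup G} (hP : IsDefectGroup 2 M B P) (hcard : Nat.card P = 4)
    (hexp : ∀ d ∈ P, d * d = 1) {c : Set (IrrCharacter (Subgroup.centralizer (P : Set G)))}
    (hmax : IsMaximalBrauerPair 2 M B P c)
    (htriv : pstab P c ≤ Subgroup.centralizer (P : Set G)) :
    blockRank 2 B = 1 := by
  have : Fact (Nat.Prime 2) := ⟨Nat.prime_two⟩
  have hPr := IsPModular.isPrime hM
  obtain ⟨X, hX, hXrep⟩ := exists_reps (G := G) 2
  have h4 := four_eq hM hB hP hcard hexp X hX hXrep
  have hab := comm_of_exp hexp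
  -- data attached to the involutions of `P`
  have hdata : ∀ u : G, u ∈ P → u ≠ 1 → ∃ (a : BrauerPairIdx G) (g : G), PLE 2 M a ⟨P, c⟩ ∧
      a.1 = Subgroup.zpowers u ∧ g * u * g⁻¹ ∈ X.erase 1 ∧
      pairFun (cjPair g a) ∈ Phi M B (g * u * g⁻¹) := by
    intro u hu hu1
    have hu2 : orderOf u = 2 := orderOf_eq_prime (by rw [pow_two]; exact hexp u hu) hu1
    have huk : ∃ k : ℕ, orderOf u = 2 ^ k := ⟨1, by rw [hu2, pow_one]⟩
    obtain ⟨f, hf⟩ := exists_le' hM hmax.1.1 (Q := Subgroup.zpowers u)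
      (by rw [Subgroup.zpowers_le]; exact hu)
    obtain ⟨x, ⟨hxX, hcx⟩, -⟩ := hXrep u huk
    obtain ⟨g, hg⟩ := isConj_iff.1 hcx
    have hx1 : x ≠ 1 := by
      rintro rfl
      apply hu1
      have : u = g⁻¹ * (g * u * g⁻¹) * g := by group
      rw [this, hg]; group
    refine ⟨⟨_, f⟩, g, hf, rfl, ?_, ?_⟩
    · rw [hg]; exact Finset.mem_erase.2 ⟨hx1, hxX⟩
    · apply pairFun_mem_phi hM (by rw [hg]; exact hX x hxX)
      · rw [cjPair_fst, cj_zpowers]
      · exact isBrauerPairOf_cj ((isBrauerPairOf_iff_of_le hM hB hf).1 hmax.1) g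
  choose! a g ha1 ha2 ha3 ha4 using hdata
  set I : Finset G := Finset.univ.filter (fun u => u ∈ P ∧ u ≠ 1) with hI
  have hIcard : I.card = 3 := by
    have h1 : I = (Finset.univ.filter (fun u => u ∈ P)).erase 1 := by
      ext u
      simp only [hI, Finset.mem_filter, Finset.mem_univ, true_and, Finset.mem_erase]
      tauto
    have h2 : (Finset.univ.filter (fun u => u ∈ P)).card = 4 := by
      rw [← hcard, Nat.card_eq_fintype_card, Fintype.card_subtype]
    rw [h1, Finset.card_erase_of_mem (by simp [P.one_mem]), h2]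
  have hmaps : ∀ u ∈ I, g u * u * (g u)⁻¹ ∈ X.erase 1 := by
    intro u hu
    have := (Finset.mem_filter.1 hu).2
    exact ha3 u this.1 this.2
  have hfib := Finset.card_eq_sum_card_fiberwise hmaps
  have hle : ∀ x ∈ X.erase 1, (I.filter (fun u => g u * u * (g u)⁻¹ = x)).card
      ≤ (Phi M B x).ncard := by
    intro x _
    rw [Set.ncard_eq_toFinset_card _ (phi_finite B x)]
    apply Finset.card_le_card_of_injOn (fun u => pairFun (cjPair (g u) (a u)))
    · intro u hu
      have hu' := Finset.mem_filter.1 hu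
      have hu'' := (Finset.mem_filter.1 hu'.1).2
      simp only [Set.Finite.coe_toFinset]
      rw [← hu'.2]
      exact ha4 u hu''.1 hu''.2
    · intro u hu u' hu' heq
      have hu1 := Finset.mem_filter.1 (Finset.mem_coe.1 hu)
      have hu2 := (Finset.mem_filter.1 hu1.1).2
      have hu1' := Finset.mem_filter.1 (Finset.mem_coe.1 hu')
      have hu2' := (Finset.mem_filter.1 hu1'.1).2
      simp only at heq
      have hpair : cjPair (g u) (a u) = cjPair (g u') (a u') := by
        apply pair_ext _ heq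
        rw [cjPair_fst, cjPair_fst, ha2 u hu2.1 hu2.2, ha2 u' hu2'.1 hu2'.2, cj_zpowers,
          cj_zpowers, hu1.2, hu1'.2]
      have hpair2 : cjPair ((g u')⁻¹ * g u) (a u) = a u' := by
        rw [cjPair_mul, hpair, ← cjPair_mul, inv_mul_cancel, cjPair_one]
      obtain ⟨y, hy, z, hz, hyz⟩ := control_of_abelian hM hmax hab (ha1 u hu2.1 hu2.2)
        (ha1 u' hu2'.1 hu2'.2) hpair2
      rw [ha2 u hu2.1 hu2.2] at hz
      have hz' : z * u = u * z := by
        have := Subgroup.mem_centralizer_iff.1 hz u (Subgroup.mem_zpowers u)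
        exact this.symm
      have hy' : y * u = u * y := by
        have := Subgroup.mem_centralizer_iff.1 (htriv hy) u hu2.1
        exact this.symm
      have e1 : (g u')⁻¹ * g u * u * ((g u')⁻¹ * g u)⁻¹ = u' := by
        have h9 : (g u')⁻¹ * (g u' * u' * (g u')⁻¹) * g u' = u' := by group
        have h10 : (g u')⁻¹ * g u * u * ((g u')⁻¹ * g u)⁻¹
            = (g u')⁻¹ * (g u * u * (g u)⁻¹) * g u' := by group
        rw [h10, hu1.2, ← hu1'.2, h9]
      rw [hyz] at e1
      rw [← e1]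
      calc u = u * y * y⁻¹ := by group
        _ = y * u * y⁻¹ := by rw [hy']
        _ = y * (u * z * z⁻¹) * y⁻¹ := by group
        _ = y * (z * u * z⁻¹) * y⁻¹ := by rw [hz']
        _ = y * z * u * (y * z)⁻¹ := by group
  have hsum : 3 ≤ ∑ x ∈ X.erase 1, (Phi M B x).ncard := by
    rw [← hIcard, hfib]
    exact Finset.sum_le_sum hle
  obtain ⟨χ, hχ⟩ := IsPBlock.nonempty hPr hB
  have h6 := blockRank_pos (p := 2) Nat.prime_two hχ
  omega

end Cfsg.Agent.Lib.Helper83Klein6
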