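import Mathlib
import Cfsg.Agent.Lib.Helper83Klein2
import Cfsg.Agent.Lib.Helper80Nil

set_option autoImplicit false

namespace Cfsg.Agent.Lib.Helper83Klein7

open Cfsg Cfsg.Agent.Lib.Helper83Klein2

variable {G : Type*} [Group G] [Finite G]

theorem four_elems {P : Subgroup G} (hcard : Nat.card P = 4) (hexp : ∀ d ∈ P, d * d = 1)
    {u v : G} (hu : u ∈ P) (hv : v ∈ P) (hu1 : u ≠ 1) (hv1 : v ≠ 1) (hvu : v ≠ u) :
    ∀ w ∈ P, w = 1 ∨ w = u ∨ w = v ∨ w = u * v := by
  classical
  have := Fintype.ofFinite G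
  have h2 : (Finset.univ.filter (fun u => u ∈ P)).card = 4 := by
    rw [← hcard, Nat.card_eq_fintype_card, Fintype.card_subtype]
  have huv1 : u * v ≠ 1 := by
    intro h
    apply hvu
    calc v = (u * u) * v := by rw [hexp u hu, one_mul]
      _ = u * (u * v) := by group
      _ = u := by rw [h, mul_one]
  have huvu : u * v ≠ u := by
    intro h
    exact hv1 (mul_left_cancel (h.trans (mul_one u).symm))
  have huvv : u * v ≠ v := by
    intro h
    exact hu1 (mul_right_cancel (h.trans (one_mul v).symm))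
  have h3 : ({1, u, v, u * v} : Finset G).card = 4 := by
    rw [Finset.card_insert_of_notMem, Finset.card_insert_of_notMem, Finset.card_insert_of_notMem,
      Finset.card_singleton]
    · simp [huvv.symm]
    · simp [hvu.symm, huvu.symm]
    · simp [hu1.symm, hv1.symm, huv1.symm]
  have hsub : ({1, u, v, u * v} : Finset G) ⊆ Finset.univ.filter (fun u => u ∈ P) := by
    intro w hw
    simp only [Finset.mem_insert, Finset.mem_singleton] at hw
    simp only [Finset.mem_filter, Finset.mem_univ, true_and]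
    rcases hw with rfl | rfl | rfl | rfl
    · exact P.one_mem
    · exact hu
    · exact hv
    · exact P.mul_mem hu hv
  have heq := Finset.eq_of_subset_of_card_le hsub (by rw [h2, h3])
  intro w hw
  have : w ∈ ({1, u, v, u * v} : Finset G) := by
    rw [heq]; simp [hw]
  simpa using this

/-- the structure of an odd group of automorphisms of a four group. -/
theorem inertial_dichotomy {P T : Subgroup G} (hcard : Nat.card P = 4)
    (hexp : ∀ d ∈ P, d * d = 1) (hCT : Subgroup.centralizer (P : Set G) ≤ T)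
    (hTN : T ≤ Subgroup.normalizer (P : Set G))
    (hodd : ¬ 2 ∣ (Subgroup.centralizer (P : Set G)).relIndex T) :
    ((Subgroup.centralizer (P : Set G)).relIndex T = 1 ∧ T ≤ Subgroup.centralizer (P : Set G)) ∨
    ((Subgroup.centralizer (P : Set G)).relIndex T = 3 ∧
      ∀ u ∈ P, ∀ u' ∈ P, u ≠ 1 → u' ≠ 1 → ∃ t ∈ T, t * u * t⁻¹ = u') := by
  classical
  have : Fact (Nat.Prime 2) := ⟨Nat.prime_two⟩
  set C := Subgroup.centralizer (P : Set G) with hC
  have hnorm : (C.subgroupOf T).Normal := by
    rw [Subgroup.normal_subgroupOf_iff_le_normalizer hCT]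
    intro t ht
    have htN := hTN ht
    rw [Subgroup.mem_normalizer_iff] at htN ⊢
    have hinv : ∀ s : G, (∀ h, h ∈ P ↔ s * h * s⁻¹ ∈ P) → ∀ c ∈ C, s * c * s⁻¹ ∈ C := by
      intro s hs c hc
      rw [hC, Subgroup.mem_centralizer_iff] at hc ⊢
      intro h hh
      have h1 : s⁻¹ * h * s ∈ P := by
        rw [hs]; simpa [mul_assoc] using hh
      have h2 := hc _ h1
      calc h * (s * c * s⁻¹) = s * ((s⁻¹ * h * s) * c) * s⁻¹ := by group
        _ = s * (c * (s⁻¹ * h * s)) * s⁻¹ := by rw [h2]
        _ = s * c * s⁻¹ * h := by group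
    intro c
    constructor
    · exact hinv t htN c
    · intro hc
      have h1 : ∀ h, h ∈ P ↔ t⁻¹ * h * t⁻¹⁻¹ ∈ P := by
        intro h
        rw [htN (t⁻¹ * h * t⁻¹⁻¹)]
        simp [mul_assoc]
      have := hinv t⁻¹ h1 _ hc
      simpa [mul_assoc] using this
  have hsq : ∀ t ∈ T, t * t ∈ C → t ∈ C := by
    intro t ht h2
    have := Cfsg.Agent.Lib.Helper80Nil.mem_of_pow_mem_of_not_dvd_index (p := 2) (C.subgroupOf T)
      hodd (r := ⟨t, ht⟩) (k := 1) (by
        rw [pow_one, pow_two]
        exact h2)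
    exact this
  have hconjP : ∀ t ∈ T, ∀ w ∈ P, t * w * t⁻¹ ∈ P := by
    intro t ht w hw
    exact (Subgroup.mem_normalizer_iff.1 (hTN ht) w).1 hw
  have hconj1 : ∀ t w : G, w ≠ 1 → t * w * t⁻¹ ≠ 1 := by
    intro t w hw h
    apply hw
    have : w = t⁻¹ * (t * w * t⁻¹) * t := by group
    rw [this, h]; group
  have hconjinj : ∀ t w w' : G, t * w * t⁻¹ = t * w' * t⁻¹ → w = w' := by
    intro t w w' h
    exact mul_left_cancel (mul_right_cancel h)
  have hcen2 : ∀ t : G, ∀ u ∈ P, ∀ v ∈ P, u ≠ 1 → v ≠ 1 → v ≠ u → t * u * t⁻¹ = u →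
      t * v * t⁻¹ = v → t ∈ C := by
    intro t u hu v hv hu1 hv1 hvu h1 h2
    rw [hC, Subgroup.mem_centralizer_iff]
    intro w hw
    have e1 : u * t = t * u := by
      calc u * t = (t * u * t⁻¹) * t := by rw [h1]
        _ = t * u := by group
    have e2 : v * t = t * v := by
      calc v * t = (t * v * t⁻¹) * t := by rw [h2]
        _ = t * v := by group
    rcases four_elems hcard hexp hu hv hu1 hv1 hvu w hw with rfl | rfl | rfl | rfl
    · simp
    · exact e1
    · exact e2
    · rw [mul_assoc, e2, ← mul_assoc, e1, mul_assoc]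
  have hfree : ∀ t ∈ T, ∀ u ∈ P, u ≠ 1 → t * u * t⁻¹ = u → t ∈ C := by
    intro t ht u hu hu1 htu
    obtain ⟨v, hv, hv1, hvu⟩ := exists_third hcard u
    have h1 := hconjP t ht v hv
    rcases four_elems hcard hexp hu hv hu1 hv1 hvu _ h1 with h | h | h | h
    · exact absurd h (hconj1 t v hv1)
    · exact absurd (hconjinj t v u (h.trans htu.symm)) hvu
    · exact hcen2 t u hu v hv hu1 hv1 hvu htu h
    · apply hsq t ht
      apply hcen2 (t * t) u hu v hv hu1 hv1 hvu
      · calc t * t * u * (t * t)⁻¹ = t * (t * u * t⁻¹) * t⁻¹ := by group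
          _ = u := by rw [htu, htu]
      · calc t * t * v * (t * t)⁻¹ = t * (t * v * t⁻¹) * t⁻¹ := by group
          _ = t * (u * v) * t⁻¹ := by rw [h]
          _ = (t * u * t⁻¹) * (t * v * t⁻¹) := by group
          _ = u * (u * v) := by rw [htu, h]
          _ = (u * u) * v := by group
          _ = v := by rw [hexp u hu, one_mul]
  by_cases hTC : T ≤ C
  · left
    exact ⟨Subgroup.relIndex_eq_one.2 hTC, hTC⟩
  · right
    obtain ⟨t, ht, htC⟩ := SetLike.not_le_iff_exists.1 hTC
    have ht2 : t * t ∈ T := T.mul_mem ht ht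
    have ht2C : t * t ∉ C := fun h => htC (hsq t ht h)
    -- the orbit of w
    have horb : ∀ w ∈ P, w ≠ 1 → ∀ w' ∈ P, w' ≠ 1 →
        w' = w ∨ w' = t * w * t⁻¹ ∨ w' = t * t * w * (t * t)⁻¹ := by
      intro w hw hw1 w' hw' hw'1
      have a1 : t * w * t⁻¹ ≠ w := fun h => htC (hfree t ht w hw hw1 h)
      have a2 : t * t * w * (t * t)⁻¹ ≠ w := fun h => ht2C (hfree _ ht2 w hw hw1 h)
      have a3 : t * t * w * (t * t)⁻¹ ≠ t * w * t⁻¹ := by
        intro h
        apply a1
        apply hconjinj t
        have h5 : t * (t * w * t⁻¹) * t⁻¹ = t * t * w * (t * t)⁻¹ := by group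
        rw [h5, h]
      have b1 := hconjP t ht w hw
      have b2 := hconjP _ ht2 w hw
      have c1 := hconj1 t w hw1
      have c2 := hconj1 (t * t) w hw1
      have e1 := four_elems hcard hexp hw b1 hw1 c1 a1
      rcases e1 _ b2 with h | h | h | h
      · exact absurd h c2
      · exact absurd h a2
      · exact absurd h a3
      · rcases e1 w' hw' with h' | h' | h' | h'
        · exact absurd h' hw'1
        · left; exact h'
        · right; left; exact h'
        · right; right; rw [h', h]
    constructor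
    · -- index three
      obtain ⟨u, hu, hu1, -⟩ := exists_third hcard 1
      have hle : C.relIndex T ≤ 3 := by
        have hsurj : Function.Surjective (fun i : Fin 3 =>
            (QuotientGroup.mk ((⟨t, ht⟩ : T) ^ (i : ℕ)) : T ⧸ C.subgroupOf T)) := by
          intro q
          obtain ⟨s, rfl⟩ := QuotientGroup.mk_surjective q
          have hs := hconjP s s.2 u hu
          have hs1 := hconj1 s u hu1
          have hmem : ∀ r : T, (r : G) * u * (r : G)⁻¹ = (s : G) * u * (s : G)⁻¹ →
              (QuotientGroup.mk r : T ⧸ C.subgroupOf T) = QuotientGroup.mk s := by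
            intro r hr
            rw [QuotientGroup.eq]
            show ((r⁻¹ * s : T) : G) ∈ C
            apply hfree _ (r⁻¹ * s).2 u hu hu1
            simp only [Subgroup.coe_mul, Subgroup.coe_inv]
            calc (r : G)⁻¹ * s * u * ((r : G)⁻¹ * s)⁻¹ = (r : G)⁻¹ * (s * u * (s : G)⁻¹) * r := by group
              _ = (r : G)⁻¹ * (r * u * (r : G)⁻¹) * r := by rw [hr]
              _ = u := by group
          rcases horb u hu hu1 _ hs hs1 with h | h | h
          · refine ⟨0, hmem _ ?_⟩
            simp [h]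
          · refine ⟨1, hmem _ ?_⟩
            simp [h]
          · refine ⟨2, hmem _ ?_⟩
            simp [h, pow_two]
        have := Nat.card_le_card_of_surjective _ hsurj
        simpa [Subgroup.relIndex, Subgroup.index] using this
      have hne1 : C.relIndex T ≠ 1 := fun h => hTC (Subgroup.relIndex_eq_one.1 h)
      have hne0 : C.relIndex T ≠ 0 := (C.subgroupOf T).index_ne_zero_of_finite
      omega
    · intro w hw w' hw' hw1 hw'1
      rcases horb w hw hw1 w' hw' hw'1 with h | h | h
      · exact ⟨1, T.one_mem, by simp [h]⟩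
      · exact ⟨t, ht, h.symm⟩
      · exact ⟨t * t, ht2, h.symm⟩

end Cfsg.Agent.Lib.Helper83Klein7
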