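import Mathlib
import Cfsg.Prelude.Def_BrauerPairs
import Cfsg.Agent.Lib.Helper80Corr
import Cfsg.Agent.Lib.Helper80IQ
import Cfsg.Agent.Lib.Helper83Klein5
import Cfsg.Agent.Lib.Helper83Klein6
import Cfsg.Agent.Lib.Helper83Klein7

/-!
A block with Klein four defect groups and its Brauer correspondent have the same number of
Brauer characters.
-/

set_option autoImplicit false
set_option linter.unusedSectionVars false

namespace Cfsg.Agent.Lib.Helper84KleinF

open Cfsg Module Representation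
open Cfsg.Agent.Lib.Helper4Char Cfsg.Agent.Lib.Helper4Char2 Cfsg.Agent.Lib.Helper20Local
open Cfsg.Agent.Lib.Helper20Center Cfsg.Agent.Lib.Helper20Block Cfsg.Agent.Lib.Helper20Orbit
open Cfsg.Agent.Lib.Helper20Ideal Cfsg.Agent.Lib.Helper20Defect Cfsg.Agent.Lib.Helper20Brauer
open Cfsg.Agent.Lib.Helper20Induced Cfsg.Agent.Lib.Helper20ModHom Cfsg.Agent.Lib.Helper20BrMap
open Cfsg.Agent.Lib.Helper80Brauer Cfsg.Agent.Lib.Helper82Quot Cfsg.Agent.Lib.Helper80Transport
open Cfsg.Agent.Lib.Helper80Pairs Cfsg.Agent.Lib.Helper80Supp Cfsg.Agent.Lib.Helper87Sylow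
open Cfsg.Agent.Lib.Helper80Stab Cfsg.Agent.Lib.Helper80Trace Cfsg.Agent.Lib.Helper80Incl
open Cfsg.Agent.Lib.Helper80Conj Cfsg.Agent.Lib.Helper80Full Cfsg.Agent.Lib.Helper80Full2
open Cfsg.Agent.Lib.Helper80Up Cfsg.Agent.Lib.Helper80Abel Cfsg.Agent.Lib.Helper80Corr
open scoped ComplexConjugate

variable {M : Ideal Cfsg.AlgInt} {p : ℕ} [Fact p.Prime]
variable {G : Type*} [Group G] [Fintype G] {H : Subgroup G} [Fintype H]

/-- a pair of the block `c` of `H` goes up to a pair of the induced block. -/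
theorem pairOf_up_of_induced (hM : IsPModular p M) {Z : Subgroup H}
    (hC : Subgroup.centralizer ((upS Z : Subgroup G) : Set G) ≤ H)
    {e₀ : Set (IrrCharacter (Subgroup.centralizer (Z : Set H)))}
    {c : Set (IrrCharacter H)} (hc : IsBrauerPairOf p M c Z e₀) {B : Set (IrrCharacter G)}
    (hind : IsInducedBlock M H c B) : IsBrauerPairOf p M B (upS Z) (upBlk Z e₀) := by
  classical
  have hPr := IsPModular.isPrime hM
  have hpair : IsBrauerPair p M Z e₀ := (isBrauerPairOf_iff.1 hc).1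
  obtain ⟨ξ₀, hξ₀⟩ := IsPBlock.nonempty hPr hpair.2
  obtain ⟨η, hη⟩ := IsPBlock.nonempty hPr hind.1
  have hsc := isSC_blockCoeff hPr hind.2.1
  have hscH : IsSC M (res H (blockCoeff B)) := ⟨res_isClassFunction H hsc.1, fun k => hsc.2 k⟩
  apply isBrauerPairOf_of_lam hM hind.2.1 ((isBrauerPair_up hC).2 hpair)
    (ξ := irrCongr (cenUp Z hC) ξ₀)
  · rw [upBlk_eq Z e₀ hC]
    exact ⟨ξ₀, hξ₀, rfl⟩
  · have e1 : lam (Subgroup.centralizer ((upS Z : Subgroup G) : Set G))
        ((irrCongr (cenUp Z hC) ξ₀ : IrrCharacter _) : _ → ℂ) (blockCoeff B)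
        = lam (Subgroup.centralizer (Z : Set H)) (ξ₀ : Subgroup.centralizer (Z : Set H) → ℂ)
          (res H (blockCoeff B)) := by
      rw [← lam_up Z hC ξ₀ (res H (blockCoeff B))]
      apply lam_congr_on
      intro x hx
      rw [ext_mem _ (hC hx)]
      rfl
    rw [e1]
    have h1 := lam_congr_of_pairOf hM hc hξ₀ hη hscH
    have h2 := Cfsg.Agent.Lib.Helper83Klein3.lam_of_induced hM hind η hη
    have := liAdd hPr h1 h2
    convert this using 1
    unfold lam
    ring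

theorem coe_mem_pstab_up {Z : Subgroup H}
    (hC : Subgroup.centralizer ((upS Z : Subgroup G) : Set G) ≤ H)
    {e₀ : Set (IrrCharacter (Subgroup.centralizer (Z : Set H)))} {x : H} :
    (x : G) ∈ pstab (upS Z) (upBlk Z e₀) ↔ x ∈ pstab Z e₀ := by
  rw [mem_pstab_iff, mem_pstab_iff]
  constructor
  · intro h
    exact cjPair_eq_of_up (a := ⟨Z, e₀⟩) (a₀ := ⟨Z, e₀⟩) hC x h
  · intro h
    have := up_cjPair x (⟨Z, e₀⟩ : BrauerPairIdx H) hC
    rw [h] at this
    exact this.symm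

theorem rank_cases (hM : IsPModular 2 M) {Z : Subgroup H}
    (hN : Subgroup.normalizer ((upS Z : Subgroup G) : Set G) ≤ H)
    {c : Set (IrrCharacter H)} {B : Set (IrrCharacter G)} (hind : IsInducedBlock M H c B)
    (hDB : IsDefectGroup 2 M B (upS Z)) (hDc : IsDefectGroup 2 M c Z)
    (hcard : Nat.card Z = 4) (hexp : ∀ d ∈ Z, d * d = 1) :
    (blockRank 2 B = 1 ∧ blockRank 2 c = 1) ∨ (blockRank 2 B = 3 ∧ blockRank 2 c = 3) := by
  classical
  have : Fact (Nat.Prime 2) := ⟨Nat.prime_two⟩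
  have hPr := IsPModular.isPrime hM
  have hC : Subgroup.centralizer ((upS Z : Subgroup G) : Set G) ≤ H :=
    (Subgroup.centralizer_le_normalizer _).trans hN
  obtain ⟨e₀, hmaxc⟩ := exists_maximal_of_defectGroup hM hind.1 hDc
  have hBpair := pairOf_up_of_induced hM hC hmaxc.1 hind
  have hmaxB := isMaximal_up hM hN hmaxc hBpair
  have hcardG : Nat.card (upS Z) = 4 := by
    rw [← hcard]
    exact Nat.card_congr (Subgroup.equivMapOfInjective Z H.subtype H.subtype_injective).symm.toEquiv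
  have hexpG : ∀ d ∈ upS Z, d * d = 1 := by
    rintro _ ⟨z, hz, rfl⟩
    exact congrArg Subtype.val (hexp z hz)
  have hab := Cfsg.Agent.Lib.Helper83Klein2.comm_of_exp hexp
  have hPC : Z ≤ Subgroup.centralizer (Z : Set H) := by
    intro x hx
    rw [Subgroup.mem_centralizer_iff]
    intro y hy
    exact hab y hy x hx
  have hodd := Cfsg.Agent.Lib.Helper80IQ.not_dvd_index_of_maximal hM hmaxc
  rw [sup_eq_right.2 hPC] at hodd
  have hdich := Cfsg.Agent.Lib.Helper83Klein7.inertial_dichotomy hcard hexp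
    (centralizer_le_pstab Z e₀) (pstab_le Z e₀) hodd
  rcases hdich with ⟨-, h2⟩ | ⟨-, h2⟩
  · left
    refine ⟨?_, Cfsg.Agent.Lib.Helper83Klein6.rank_one_of_trivial hM hind.1 hDc hcard hexp hmaxc h2⟩
    apply Cfsg.Agent.Lib.Helper83Klein6.rank_one_of_trivial hM hind.2.1 hDB hcardG hexpG hmaxB
    intro g hg
    have hgH : g ∈ H := hN (pstab_le _ _ hg)
    have h3 : (⟨g, hgH⟩ : H) ∈ pstab Z e₀ := (coe_mem_pstab_up hC (x := ⟨g, hgH⟩)).1 hg
    exact (coe_mem_centralizer_upS (c := ⟨g, hgH⟩)).2 (h2 h3)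
  · right
    refine ⟨?_, Cfsg.Agent.Lib.Helper83Klein5.rank_three_of_trans hM hind.1 hDc hcard hexp hmaxc h2⟩
    apply Cfsg.Agent.Lib.Helper83Klein5.rank_three_of_trans hM hind.2.1 hDB hcardG hexpG hmaxB
    rintro _ ⟨u, hu, rfl⟩ _ ⟨u', hu', rfl⟩ hu1 hu1'
    obtain ⟨t, ht, e⟩ := h2 u hu u' hu' (fun h => hu1 (by rw [h]; rfl)) (fun h => hu1' (by rw [h]; rfl))
    exact ⟨(t : G), (coe_mem_pstab_up hC).2 ht, congrArg Subtype.val e⟩

end Cfsg.Agent.Lib.Helper84KleinF
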