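import Cfsg.Agent.Lib.Helper81CycPDefs
import Cfsg.Agent.Lib.H81CycGVAN
import Cfsg.Agent.Lib.H81CycGOUT
import Cfsg.Agent.Lib.H81CycGGRAMABS
import Cfsg.Agent.Lib.H81CycGLI
import Cfsg.Agent.Lib.H81CycGNULL
import Cfsg.Agent.Lib.H81CycGMAIN
import Cfsg.Agent.Lib.H81CycGBCY
import Cfsg.Agent.Lib.H81CycRK
import Cfsg.Agent.Lib.Helper84KleinF
import Cfsg.Agent.Lib.Helper84KleinE

set_option autoImplicit false

namespace Cfsg.Agent.Lib.H81CycPVAN
open Cfsg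
open Cfsg.Agent.Lib.Helper81CycDefs Cfsg.Agent.Lib.Helper81CycGDefs Cfsg.Agent.Lib.Helper81CycPDefs
open Cfsg.Agent.Lib.Helper81Base Cfsg.Agent.Lib.Helper80Trace Cfsg.Agent.Lib.Helper80Up
open scoped ComplexConjugate

universe u

variable {G : Type u} [Group G] [Fintype G] {p : ℕ} [Fact p.Prime] {M : Ideal AlgInt}
  {P H : Subgroup G} [Fintype H] {c : Set (IrrCharacter H)} {B : Set (IrrCharacter G)}
  {X Y : Set (IrrCharacter H)} {δ : IrrCharacter H → ℤ} {δ₀ : ℤ} {e : ℕ}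

theorem ppart_ne_one {K : Type*} [Group K] {y u : K} (hu : IsPPart p y u) (hy : p ∣ orderOf y) :
    u ≠ 1 := by
  rintro rfl
  obtain ⟨z, hz1, -, -, hz2⟩ := hu
  rw [one_mul] at hz1
  rw [hz1] at hz2
  exact hz2 hy

/-- piece `P-VAN`: vanishing off the good elements. -/
theorem van_H (h : PH p M P H c B) {η : IrrCharacter H} (hη : η ∈ c) {y : H}
    (hy : p ∣ orderOf y) (hg : ¬ Good p P H y) : (η : H → ℂ) y = 0 := by
  have hp : p.Prime := Fact.out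
  obtain ⟨u, hu⟩ := Cfsg.Agent.Lib.Helper81Orth.exists_ppart hp y
  have hu1 : u ≠ 1 := ppart_ne_one hu hy
  apply Cfsg.Agent.Lib.H81CycGVAN.van_gen h.hM h.ind.1 h.dc hη hu
  intro x hx
  exact hg ⟨u, x, hu, hu1, Subgroup.mem_subgroupOf.1 hx⟩

/-- piece `P-VAN` -/
theorem van_G (h : PH p M P H c B) {χ : IrrCharacter G} (hχ : χ ∈ B) {x : G}
    (hx : p ∣ orderOf x) (hg : ∀ (g : G) (y : H), Good p P H y → g * x * g⁻¹ ≠ (y : G)) :
    (χ : G → ℂ) x = 0 := by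
  have hp : p.Prime := Fact.out
  obtain ⟨u, hu⟩ := Cfsg.Agent.Lib.Helper81Orth.exists_ppart hp x
  have hu1 : u ≠ 1 := ppart_ne_one hu hx
  apply Cfsg.Agent.Lib.H81CycGVAN.van_gen h.hM h.ind.2.1 h.dB hχ hu
  intro g hgu
  have hne : g * u * g⁻¹ ≠ 1 := by
    intro hc
    apply hu1
    have h2 : u = g⁻¹ * (g * u * g⁻¹) * g := by group
    rw [h2, hc]
    group
  have hconj := Cfsg.Agent.Lib.Helper81Second2.isPPart_conj hu g
  have hcomm := Cfsg.Agent.Lib.Helper81Second2.isPPart_commute hconj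
  have hmem : g * x * g⁻¹ ∈ H := by
    apply h.cen _ hgu hne
    rw [Subgroup.mem_centralizer_singleton_iff]
    exact hcomm.eq.symm
  obtain ⟨u', hu', hpp⟩ := Cfsg.Agent.Lib.Helper20Fusion.isPPart_subgroup
    (H := H) (g := ⟨g * x * g⁻¹, hmem⟩) hconj
  refine hg g ⟨g * x * g⁻¹, hmem⟩ ⟨u', 1, hpp, ?_, ?_⟩ rfl
  · rintro rfl
    exact hne hu'.symm
  · simpa [hu'] using hgu

end Cfsg.Agent.Lib.H81CycPVAN
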