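import Cfsg.Agent.Lib.Helper81CycPDefs
import Cfsg.Agent.Lib.H81CycGVAN
import Cfsg.Agent.Lib.H81CycGOUT
import Cfsg.Agent.Lib.H81CycGGRAMABS
import Cfsg.Agent.Lib.H81CycGLI
import Cfsg.Agent.Lib.H81CycGNULL
import Cfsg.Agent.Lib.H81CycGMAIN
import Cfsg.Agent.Lib.H81CycGBCY
import Cfsg.Agent.Lib.H81CycRK
import Cfsg.Agent.Lib.Helper84KleinF
import Cfsg.Agent.Lib.Helper84KleinE
import Cfsg.Agent.Lib.H81CycPVAN

set_option autoImplicit false

namespace Cfsg.Agent.Lib.H81CycPAL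
open Cfsg
open Cfsg.Agent.Lib.Helper81CycDefs Cfsg.Agent.Lib.Helper81CycGDefs Cfsg.Agent.Lib.Helper81CycPDefs
open Cfsg.Agent.Lib.Helper81Base Cfsg.Agent.Lib.Helper80Trace Cfsg.Agent.Lib.Helper80Up
open scoped ComplexConjugate

universe u

variable {G : Type u} [Group G] [Fintype G] {p : ℕ} [Fact p.Prime] {M : Ideal AlgInt}
  {P H : Subgroup G} [Fintype H] {c : Set (IrrCharacter H)} {B : Set (IrrCharacter G)}
  {X Y : Set (IrrCharacter H)} {δ : IrrCharacter H → ℤ} {δ₀ : ℤ} {e : ℕ}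

/-- piece `P-AL`: the functions `α_ψ`. -/
theorem alpha_good (h : PH p M P H c B) (sd : SD p c X Y δ δ₀ e) {ψ : IrrCharacter H} (hψ : ψ ∈ Y)
    {y : H} (hy : alphaF X δ δ₀ ψ y ≠ 0) : Good p P H y := by
  classical
  by_contra hg
  apply hy
  by_cases hreg : p ∣ orderOf y
  · unfold alphaF
    have hψc : ψ ∈ c := by rw [sd.un]; exact Or.inr hψ
    rw [Cfsg.Agent.Lib.H81CycPVAN.van_H h hψc hreg hg, mul_zero, zero_add]
    apply Finset.sum_eq_zero
    intro χ _
    split_ifs with hχ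
    · rw [Cfsg.Agent.Lib.H81CycPVAN.van_H h (by rw [sd.un]; exact Or.inl hχ) hreg hg, mul_zero]
    · rfl
  · exact sd.rel ψ hψ y hreg

/-- piece `P-AL` -/
theorem alpha_class (ψ : IrrCharacter H) : IsClassFunction H (alphaF X δ δ₀ ψ) := by
  have hcl : ∀ η : IrrCharacter H, IsClassFunction H (η : H → ℂ) := fun η =>
    Cfsg.Agent.Lib.Helper4Char.IsCharacter.isClassFunction
      (Cfsg.Agent.Lib.Helper82Irr.irr_isCharacter η)
  intro g k
  unfold alphaF
  rw [hcl ψ g k]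
  congr 1
  apply Finset.sum_congr rfl
  intro η _
  rw [hcl η g k]

/-- piece `P-AL` -/
theorem DD_int (ψ : IrrCharacter H) (χ : IrrCharacter G) :
    ∃ z : ℤ, DD (alphaF X δ δ₀ ψ) χ = z := by
  classical
  have hχ : IsCharacter H (fun h : H => (χ : G → ℂ) h) :=
    Cfsg.Agent.Lib.Helper4Char4.IsCharacter.comp H.subtype
      (Cfsg.Agent.Lib.Helper82Irr.irr_isCharacter χ)
  choose m hm using fun η : IrrCharacter H =>
    Cfsg.Agent.Lib.Helper82Mult.exists_nat_classInner hχ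
      (Cfsg.Agent.Lib.Helper82Irr.irr_isCharacter η)
  refine ⟨δ₀ * m ψ + ∑ η : IrrCharacter H, (if η ∈ X then δ η * m η else 0), ?_⟩
  have e : alphaF X δ δ₀ ψ = (δ₀ : ℂ) • (ψ : H → ℂ)
      + ∑ η ∈ (Finset.univ : Finset (IrrCharacter H)),
          (if η ∈ X then (δ η : ℂ) else 0) • (η : H → ℂ) := by
    funext g
    simp only [alphaF, Pi.add_apply, Pi.smul_apply, Finset.sum_apply, smul_eq_mul]
    congr 1
    apply Finset.sum_congr rfl
    intro η _
    split_ifs <;> simp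
  unfold DD
  rw [e, Cfsg.Agent.Lib.Helper4Char.classInner_add_right,
    Cfsg.Agent.Lib.Helper4Char.classInner_smul_right,
    Cfsg.Agent.Lib.Helper4Char.classInner_sum_right]
  simp only [Cfsg.Agent.Lib.Helper4Char.classInner_smul_right, hm]
  push_cast
  congr 1
  · simp
  · apply Finset.sum_congr rfl
    intro η _
    split_ifs <;> simp

end Cfsg.Agent.Lib.H81CycPAL
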