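import Cfsg.Agent.Lib.Helper81CycPDefs
import Cfsg.Agent.Lib.H81CycGVAN
import Cfsg.Agent.Lib.H81CycGOUT
import Cfsg.Agent.Lib.H81CycPAL

set_option autoImplicit false

namespace Cfsg.Agent.Lib.H81CycPOUT
open Cfsg
open Cfsg.Agent.Lib.Helper81CycDefs Cfsg.Agent.Lib.Helper81CycGDefs Cfsg.Agent.Lib.Helper81CycPDefs
open Cfsg.Agent.Lib.Helper81Base Cfsg.Agent.Lib.Helper80Trace Cfsg.Agent.Lib.Helper80Up
open Cfsg.Agent.Lib.Helper4DefOneDefs Cfsg.Agent.Lib.Helper80DefOneVal Cfsg.Agent.Lib.Helper80DefOneInn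
open scoped ComplexConjugate

universe u

variable {G : Type u} [Group G] [Fintype G] {p : ℕ} [Fact p.Prime] {M : Ideal AlgInt}
  {P H : Subgroup G} [Fintype H] {c : Set (IrrCharacter H)} {B : Set (IrrCharacter G)}
  {X Y : Set (IrrCharacter H)} {δ : IrrCharacter H → ℤ} {δ₀ : ℤ} {e : ℕ}

/-- the centralizer of a `p`-element of `H` with a nontrivial conjugate in `P` lies in `H`. -/
theorem cen_conj' (h : PH p M P H c B) {u x : H} (hx : ((x * u * x⁻¹ : H) : G) ∈ P)
    (hu : u ≠ 1) : Subgroup.centralizer ({(u : G)} : Set G) ≤ H := by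
  intro g hg
  rw [Subgroup.mem_centralizer_singleton_iff] at hg
  have h1 : ((x * u * x⁻¹ : H) : G) ≠ 1 := by
    intro hc
    apply hu
    have : x * u * x⁻¹ = 1 := Subtype.ext hc
    have h2 : u = x⁻¹ * (x * u * x⁻¹) * x := by group
    rw [h2, this]; group
  have h2 : (x : G) * g * (x : G)⁻¹ ∈ H := by
    apply h.cen _ hx h1
    rw [Subgroup.mem_centralizer_singleton_iff]
    push_cast
    calc (x : G) * g * (x : G)⁻¹ * ((x : G) * (u : G) * (x : G)⁻¹)
        = (x : G) * (g * (u : G)) * (x : G)⁻¹ := by group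
      _ = (x : G) * ((u : G) * g) * (x : G)⁻¹ := by rw [hg]
      _ = (x : G) * (u : G) * (x : G)⁻¹ * ((x : G) * g * (x : G)⁻¹) := by group
  have h3 : g = (x : G)⁻¹ * ((x : G) * g * (x : G)⁻¹) * (x : G) := by group
  rw [h3]
  exact H.mul_mem (H.mul_mem (H.inv_mem x.2) h2) x.2

open Classical in
/-- linearity in `α_ψ`. -/
theorem sum_mul_conj_alpha (F : H → ℂ) (ψ : IrrCharacter H) :
    ∑ y : H, F y * conj (alphaF X δ δ₀ ψ y)
      = (δ₀ : ℂ) * ∑ y : H, F y * conj ((ψ : H → ℂ) y)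
        + ∑ η : IrrCharacter H, (if η ∈ X then (δ η : ℂ) * ∑ y : H, F y * conj ((η : H → ℂ) y) else 0) := by
  have e1 : ∀ y : H, F y * conj (alphaF X δ δ₀ ψ y)
      = (δ₀ : ℂ) * (F y * conj ((ψ : H → ℂ) y))
        + ∑ η : IrrCharacter H, (if η ∈ X then (δ η : ℂ) * (F y * conj ((η : H → ℂ) y)) else 0) := by
    intro y
    unfold alphaF
    rw [map_add, map_mul, map_sum, mul_add, Finset.mul_sum, map_intCast]
    congr 1
    · ring
    · apply Finset.sum_congr rfl
      intro η _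
      split_ifs
      · rw [map_mul, map_intCast]; ring
      · simp
  rw [Finset.sum_congr rfl (fun y _ => e1 y), Finset.sum_add_distrib, ← Finset.mul_sum,
    Finset.sum_comm]
  congr 1
  apply Finset.sum_congr rfl
  intro η _
  split_ifs
  · rw [Finset.mul_sum]
  · simp

/-- piece `P-OUT`: characters outside `B`. -/
theorem DD_out (h : PH p M P H c B) (sd : SD p c X Y δ δ₀ e) {ψ : IrrCharacter H} (hψ : ψ ∈ Y)
    {χ : IrrCharacter G} (hχ : χ ∉ B) : DD (alphaF X δ δ₀ ψ) χ = 0 := by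
  classical
  have hp : p.Prime := Fact.out
  have hne : (Nat.card H : ℂ) ≠ 0 := by
    exact_mod_cast Nat.card_pos.ne'
  have key : ∀ η ∈ c, ∑ y : H, part (χ : G → ℂ) c (y : G) * conj ((η : H → ℂ) y)
      = ∑ y : H, (χ : G → ℂ) (y : G) * conj ((η : H → ℂ) y) := by
    intro η hη
    rw [sum_part_conj χ c hη]
    unfold mH classInner
    rw [← mul_assoc, mul_inv_cancel₀ hne, one_mul]
  have hψc : ψ ∈ c := by rw [sd.un]; exact Or.inr hψ
  have hXc : ∀ η ∈ X, η ∈ c := fun η hη => by rw [sd.un]; exact Or.inl hη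
  have e1 : ∑ y : H, part (χ : G → ℂ) c (y : G) * conj (alphaF X δ δ₀ ψ y)
      = ∑ y : H, (χ : G → ℂ) (y : G) * conj (alphaF X δ δ₀ ψ y) := by
    rw [sum_mul_conj_alpha (fun y : H => part (χ : G → ℂ) c (y : G)) ψ,
      sum_mul_conj_alpha (fun y : H => (χ : G → ℂ) (y : G)) ψ, key ψ hψc]
    congr 1
    apply Finset.sum_congr rfl
    intro η _
    split_ifs with hη
    · rw [key η (hXc η hη)]
    · rfl
  have e2 : ∑ y : H, part (χ : G → ℂ) c (y : G) * conj (alphaF X δ δ₀ ψ y) = 0 := by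
    apply Finset.sum_eq_zero
    intro y _
    by_cases hy : alphaF X δ δ₀ ψ y = 0
    · rw [hy, map_zero, mul_zero]
    · obtain ⟨u, x, hu, hu1, hx⟩ := Cfsg.Agent.Lib.H81CycPAL.alpha_good h sd hψ hy
      have : part (χ : G → ℂ) c (y : G) = 0 := by
        have key2 := Cfsg.Agent.S0922.result p M h.hM H c B h.ind y (by
          intro z hz
          have hz' : IsPPart p (y : G) (u : G) := by
            obtain ⟨w, hy1, hy2, ⟨k, hk⟩, hy3⟩ := hu
            refine ⟨(w : G), ?_, ?_, ⟨k, ?_⟩, ?_⟩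
            · rw [← hy1]; rfl
            · have := congrArg Subtype.val hy2.eq
              exact this
            · rw [Subgroup.orderOf_coe]; exact hk
            · rw [Subgroup.orderOf_coe]; exact hy3
          rw [Cfsg.Agent.Lib.Helper81Section.isPPart_unique hp hz hz']
          exact cen_conj' h hx hu1) χ hχ
        rw [finsum_eq_sum_of_fintype] at key2
        exact key2
      rw [this, zero_mul]
  unfold DD classInner
  rw [← e1, e2, mul_zero]

end Cfsg.Agent.Lib.H81CycPOUT
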