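import Cfsg.Agent.Lib.Helper81CycPDefs
import Cfsg.Agent.Lib.H81CycGVAN
import Cfsg.Agent.Lib.H81CycGOUT
import Cfsg.Agent.Lib.H81CycGGRAMABS
import Cfsg.Agent.Lib.H81CycGLI
import Cfsg.Agent.Lib.H81CycGNULL
import Cfsg.Agent.Lib.H81CycGMAIN
import Cfsg.Agent.Lib.H81CycGBCY
import Cfsg.Agent.Lib.H81CycRK
import Cfsg.Agent.Lib.Helper84KleinF
import Cfsg.Agent.Lib.Helper84KleinE

set_option autoImplicit false

namespace Cfsg.Agent.Lib.H81CycPREG
open Cfsg
open Cfsg.Agent.Lib.Helper81CycDefs Cfsg.Agent.Lib.Helper81CycGDefs Cfsg.Agent.Lib.Helper81CycPDefs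
open Cfsg.Agent.Lib.Helper81Base Cfsg.Agent.Lib.Helper80Trace Cfsg.Agent.Lib.Helper80Up
open scoped ComplexConjugate

universe u

variable {G : Type u} [Group G] [Fintype G] {p : ℕ} [Fact p.Prime] {M : Ideal AlgInt}
  {P H : Subgroup G} [Fintype H] {c : Set (IrrCharacter H)} {B : Set (IrrCharacter G)}
  {X Y : Set (IrrCharacter H)} {δ : IrrCharacter H → ℤ} {δ₀ : ℤ} {e : ℕ}

/-- piece `P-REG`: the induced `α_ψ` vanishes on the `p`-regular elements. -/
theorem DD_reg (h : PH p M P H c B) (sd : SD p c X Y δ δ₀ e) {ψ : IrrCharacter H} (hψ : ψ ∈ Y)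
    (g : G) (hg : ¬ p ∣ orderOf g) :
    ∑ χ : IrrCharacter G, DD (alphaF X δ δ₀ ψ) χ * (χ : G → ℂ) g = 0 := by
  classical
  have e1 : ∀ χ : IrrCharacter G, DD (alphaF X δ δ₀ ψ) χ * (χ : G → ℂ) g
      = (Nat.card H : ℂ)⁻¹ * ∑ c : H, conj (alphaF X δ δ₀ ψ c) *
          ((χ : G → ℂ) c * conj ((χ : G → ℂ) g⁻¹)) := by
    intro χ
    unfold DD
    rw [Cfsg.Agent.Lib.Helper81Base.irr_inv, Complex.conj_conj]
    unfold classInner
    rw [mul_assoc, Finset.sum_mul]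
    congr 1
    apply Finset.sum_congr rfl
    intro c _
    ring
  simp only [e1]
  rw [← Finset.mul_sum, Finset.sum_comm]
  rw [Finset.sum_eq_zero, mul_zero]
  intro c _
  rw [← Finset.mul_sum, Cfsg.Agent.Lib.Helper77Glaub.col_orth_count]
  by_cases hc : p ∣ orderOf c
  · rw [Finset.sum_eq_zero, mul_zero]
    intro x _
    rw [if_neg]
    intro hx
    apply hg
    rw [← orderOf_inv, ← hx]
    have : orderOf (x * (c : G) * x⁻¹) = orderOf (c : G) := (MulAut.conj x).orderOf_eq (c : G)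
    rw [this, Subgroup.orderOf_coe]
    exact hc
  · have h0 : alphaF X δ δ₀ ψ c = 0 := by
      unfold alphaF
      convert sd.rel ψ hψ c hc
    rw [h0, map_zero, zero_mul]

end Cfsg.Agent.Lib.H81CycPREG
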