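import Cfsg.Agent.Lib.Helper81CycPDefs
import Cfsg.Agent.Lib.Helper81Second2
import Cfsg.Agent.Lib.Helper81Section
import Cfsg.Agent.Lib.Helper20Fusion
import Cfsg.Agent.Lib.Helper81Orth

set_option autoImplicit false

namespace Cfsg.Agent.Lib.H81CycPFUS
open Cfsg
open Cfsg.Agent.Lib.Helper81CycPDefs
open scoped ComplexConjugate

universe u

variable {G : Type u} [Group G] [Fintype G] {p : ℕ} [Fact p.Prime] {M : Ideal AlgInt}
  {P H : Subgroup G} [Fintype H] {c : Set (IrrCharacter H)} {B : Set (IrrCharacter G)}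

theorem isPPart_coe {y u : H} (hu : IsPPart p y u) : IsPPart p (y : G) (u : G) := by
  obtain ⟨z, hxy, hc', ⟨k, hk⟩, hy⟩ := hu
  exact ⟨z, by rw [← hxy]; rfl, congrArg Subtype.val hc',
    ⟨k, by rw [Subgroup.orderOf_coe]; exact hk⟩, by rw [Subgroup.orderOf_coe]; exact hy⟩

theorem conj_ne_one {u x : H} (hu : u ≠ 1) : ((x * u * x⁻¹ : H) : G) ≠ 1 := by
  intro hc
  apply hu
  have : x * u * x⁻¹ = 1 := Subtype.ext hc
  have h2 : u = x⁻¹ * (x * u * x⁻¹) * x := by group
  rw [h2, this]; group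

/-- piece `P-FUS`: `H` controls the fusion of the good elements. -/
theorem good_fus (h : PH p M P H c B) {y y' : H} {g : G} (hy : Good p P H y)
    (hy' : Good p P H y') (hg : (y' : G) = g * y * g⁻¹) : g ∈ H := by
  have hp : p.Prime := Fact.out
  obtain ⟨u, x, hu, hu1, hx⟩ := hy
  obtain ⟨u', x', hu', hu1', hx'⟩ := hy'
  have h1 : IsPPart p (y' : G) (g * u * g⁻¹) := by
    rw [hg]; exact Cfsg.Agent.Lib.Helper81Second2.isPPart_conj (isPPart_coe hu) g
  have h2 : (u' : G) = g * u * g⁻¹ :=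
    Cfsg.Agent.Lib.Helper81Section.isPPart_unique hp (isPPart_coe hu') h1
  have h3 : (x' : G) * g * (x : G)⁻¹ ∈ H := by
    apply h.TI _ hx (conj_ne_one hu1)
    have e : (x' : G) * g * (x : G)⁻¹ * ((x * u * x⁻¹ : H) : G) * ((x' : G) * g * (x : G)⁻¹)⁻¹ =
        ((x' * u' * x'⁻¹ : H) : G) := by
      rw [Subgroup.coe_mul, Subgroup.coe_mul, Subgroup.coe_mul, Subgroup.coe_mul,
        Subgroup.coe_inv, Subgroup.coe_inv, h2]
      group
    rw [e]; exact hx'
  have : g = (x' : G)⁻¹ * ((x' : G) * g * (x : G)⁻¹) * x := by group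
  rw [this]
  exact H.mul_mem (H.mul_mem (H.inv_mem x'.2) h3) x.2

/-- the centralizer of the `p`-part of a good element lies in `H`. -/
theorem ppart_cen (h : PH p M P H c B) {u x : H} (hu1 : u ≠ 1) (hx : ((x * u * x⁻¹ : H) : G) ∈ P) :
    Subgroup.centralizer ({(u : G)} : Set G) ≤ H := by
  intro g hg
  rw [Subgroup.mem_centralizer_singleton_iff] at hg
  have h2 : (x : G) * g * (x : G)⁻¹ ∈ H := by
    apply h.cen _ hx (conj_ne_one hu1)
    rw [Subgroup.mem_centralizer_singleton_iff]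
    push_cast
    calc (x : G) * g * (x : G)⁻¹ * ((x : G) * (u : G) * (x : G)⁻¹)
        = (x : G) * (g * (u : G)) * (x : G)⁻¹ := by group
      _ = (x : G) * ((u : G) * g) * (x : G)⁻¹ := by rw [hg]
      _ = (x : G) * (u : G) * (x : G)⁻¹ * ((x : G) * g * (x : G)⁻¹) := by group
  have h3 : g = (x : G)⁻¹ * ((x : G) * g * (x : G)⁻¹) * (x : G) := by group
  rw [h3]
  exact H.mul_mem (H.mul_mem (H.inv_mem x.2) h2) x.2

/-- piece `P-FUS` -/
theorem good_cen (h : PH p M P H c B) {y : H} (hy : Good p P H y) :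
    Subgroup.centralizer ({(y : G)} : Set G) ≤ H := by
  obtain ⟨u, x, hu, hu1, hx⟩ := hy
  refine le_trans ?_ (ppart_cen h hu1 hx)
  intro g hg
  rw [Subgroup.mem_centralizer_singleton_iff] at hg ⊢
  obtain ⟨m, hm⟩ := Cfsg.Agent.Lib.Helper20Fusion.isPPart_pow (isPPart_coe hu)
  rw [hm]
  have : Commute g (y : G) := hg
  exact (this.pow_right m).eq

/-- piece `P-FUS` -/
theorem good_sing {y : H} (hy : Good p P H y) : p ∣ orderOf y := by
  have hp : p.Prime := Fact.out
  obtain ⟨u, x, hu, hu1, -⟩ := hy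
  by_contra hreg
  apply hu1
  have h1 : IsPPart p y 1 := ⟨y, one_mul y, Commute.one_left y, ⟨0, by simp⟩, hreg⟩
  exact Cfsg.Agent.Lib.Helper81Section.isPPart_unique hp hu h1

end Cfsg.Agent.Lib.H81CycPFUS
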