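import Cfsg.Agent.Lib.Helper81CycPDefs
import Cfsg.Agent.Lib.H81CycGVAN
import Cfsg.Agent.Lib.H81CycGOUT
import Cfsg.Agent.Lib.H81CycGGRAMABS
import Cfsg.Agent.Lib.H81CycGLI
import Cfsg.Agent.Lib.H81CycGNULL
import Cfsg.Agent.Lib.H81CycGMAIN
import Cfsg.Agent.Lib.H81CycGBCY
import Cfsg.Agent.Lib.H81CycRK
import Cfsg.Agent.Lib.Helper84KleinF
import Cfsg.Agent.Lib.Helper84KleinE
import Cfsg.Agent.Lib.H81CycPAL
import Cfsg.Agent.Lib.H81CycPFUS

set_option autoImplicit false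

namespace Cfsg.Agent.Lib.H81CycPGRAM
open Cfsg
open Cfsg.Agent.Lib.Helper81CycDefs Cfsg.Agent.Lib.Helper81CycGDefs Cfsg.Agent.Lib.Helper81CycPDefs
open Cfsg.Agent.Lib.Helper81Base Cfsg.Agent.Lib.Helper80Trace Cfsg.Agent.Lib.Helper80Up
open scoped ComplexConjugate

universe u

variable {G : Type u} [Group G] [Fintype G] {p : ℕ} [Fact p.Prime] {M : Ideal AlgInt}
  {P H : Subgroup G} [Fintype H] {c : Set (IrrCharacter H)} {B : Set (IrrCharacter G)}
  {X Y : Set (IrrCharacter H)} {δ : IrrCharacter H → ℤ} {δ₀ : ℤ} {e : ℕ}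

theorem inner_comb {K : Type u} [Group K] [Fintype K] (a b : IrrCharacter K → ℂ) :
    classInner (∑ η : IrrCharacter K, b η • (η : K → ℂ)) (∑ η : IrrCharacter K, a η • (η : K → ℂ))
      = ∑ η : IrrCharacter K, b η * conj (a η) := by
  classical
  rw [Cfsg.Agent.Lib.Helper4Char.classInner_sum_left]
  apply Finset.sum_congr rfl
  intro η _
  rw [Cfsg.Agent.Lib.Helper4Char.classInner_smul_left,
    Cfsg.Agent.Lib.Helper4Char.classInner_sum_right, Finset.sum_eq_single η]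
  · rw [Cfsg.Agent.Lib.Helper4Char.classInner_smul_right,
      Cfsg.Agent.Lib.Helper4Char.classInner_irr_self η.2, mul_one]
  · intro η' _ hne
    rw [Cfsg.Agent.Lib.Helper4Char.classInner_smul_right,
      Cfsg.Agent.Lib.Helper4Char.classInner_irr_ne η.2 η'.2
        (fun hh => hne (Subtype.ext hh).symm), mul_zero]
  · intro hh
    exact absurd (Finset.mem_univ _) hh

open Classical in
theorem alpha_eq_comb (ψ : IrrCharacter H) :
    alphaF X δ δ₀ ψ = ∑ η : IrrCharacter H,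
      ((if η = ψ then (δ₀ : ℂ) else 0) + (if η ∈ X then (δ η : ℂ) else 0)) • (η : H → ℂ) := by
  funext g
  rw [Finset.sum_apply]
  simp only [Pi.smul_apply, smul_eq_mul, add_mul, Finset.sum_add_distrib, ite_mul, zero_mul]
  rw [Finset.sum_ite_eq' Finset.univ ψ, if_pos (Finset.mem_univ _)]
  rfl

open Classical in
/-- piece `P-GRAM`: the Gram matrix of the induced `α_ψ`. -/
theorem gramP (h : PH p M P H c B) (sd : SD p c X Y δ δ₀ e) {ψ ψ' : IrrCharacter H} (hψ : ψ ∈ Y)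
    (hψ' : ψ' ∈ Y) :
    ∑ χ : IrrCharacter G, DD (alphaF X δ δ₀ ψ) χ * conj (DD (alphaF X δ δ₀ ψ') χ)
      = (e : ℂ) + if ψ = ψ' then 1 else 0 := by
  have hfus : ∀ (y y' : H) (g : G), (y' : G) = g * y * g⁻¹ → alphaF X δ δ₀ ψ y ≠ 0 →
      alphaF X δ δ₀ ψ' y' ≠ 0 → g ∈ H := by
    intro y y' g hg h1 h2
    exact H81CycPFUS.good_fus h (H81CycPAL.alpha_good h sd hψ h1)
      (H81CycPAL.alpha_good h sd hψ' h2) hg
  have hgram := H81CycGGRAMABS.gram_abs H H le_rfl Subgroup.le_normalizer (alphaF X δ δ₀ ψ)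
    (alphaF X δ δ₀ ψ') hfus
  unfold DD
  rw [hgram]
  have hterm : ∀ n : H, classInner (fun y : H => extendByZero H (alphaF X δ δ₀ ψ')
        ((n : G) * y * (n : G)⁻¹)) (alphaF X δ δ₀ ψ)
      = classInner (alphaF X δ δ₀ ψ') (alphaF X δ δ₀ ψ) := by
    intro n
    congr 1
    funext y
    have e1 : (n : G) * y * (n : G)⁻¹ = ((n * y * n⁻¹ : H) : G) := by simp
    rw [e1, H81CycGGRAMABS.ext_coe]
    exact H81CycPAL.alpha_class ψ' y n
  have hne : (Nat.card H : ℂ) ≠ 0 := by exact_mod_cast Nat.card_pos.ne'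
  rw [Finset.sum_congr rfl (fun n _ => hterm n), Finset.sum_const, Finset.card_univ, nsmul_eq_mul,
    ← Nat.card_eq_fintype_card, ← mul_assoc, inv_mul_cancel₀ hne, one_mul]
  rw [alpha_eq_comb ψ, alpha_eq_comb ψ', inner_comb]
  have hYX : ∀ η ∈ Y, η ∉ X := fun η h1 h2 => Set.disjoint_left.1 sd.dj h2 h1
  have hpt : ∀ η : IrrCharacter H,
      ((if η = ψ' then (δ₀ : ℂ) else 0) + (if η ∈ X then (δ η : ℂ) else 0))
        * conj ((if η = ψ then (δ₀ : ℂ) else 0) + (if η ∈ X then (δ η : ℂ) else 0))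
      = (if η ∈ X then 1 else 0) + (if η = ψ then (if ψ = ψ' then 1 else 0) else 0) := by
    intro η
    by_cases hX : η ∈ X
    · have n1 : η ≠ ψ := fun hh => hYX ψ hψ (hh ▸ hX)
      have n2 : η ≠ ψ' := fun hh => hYX ψ' hψ' (hh ▸ hX)
      simp only [if_neg n1, if_neg n2, if_pos hX, zero_add, add_zero]
      rcases sd.sX η hX with h1 | h1 <;> rw [h1] <;> simp
    · rw [if_neg hX, if_neg hX, add_zero, add_zero, zero_add]
      by_cases h1 : η = ψ
      · subst h1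
        rw [if_pos rfl, if_pos rfl]
        by_cases h2 : η = ψ'
        · rw [if_pos h2, if_pos h2]
          rcases sd.s0 with h3 | h3 <;> rw [h3] <;> simp
        · rw [if_neg h2, if_neg h2, zero_mul]
      · rw [if_neg h1, if_neg h1, map_zero, mul_zero]
  rw [Finset.sum_congr rfl (fun η _ => hpt η), Finset.sum_add_distrib, Finset.sum_boole,
    Finset.sum_ite_eq' Finset.univ ψ, if_pos (Finset.mem_univ _)]
  congr 2
  rw [← sd.cX, Nat.card_eq_fintype_card, Fintype.card_subtype]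

end Cfsg.Agent.Lib.H81CycPGRAM
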