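import Cfsg.Agent.Lib.Helper81CycPDefs
import Cfsg.Agent.Lib.H81CycGVAN
import Cfsg.Agent.Lib.H81CycGOUT
import Cfsg.Agent.Lib.H81CycGGRAMABS
import Cfsg.Agent.Lib.H81CycGLI
import Cfsg.Agent.Lib.H81CycGNULL
import Cfsg.Agent.Lib.H81CycGMAIN
import Cfsg.Agent.Lib.H81CycGBCY
import Cfsg.Agent.Lib.H81CycRK
import Cfsg.Agent.Lib.Helper84KleinF
import Cfsg.Agent.Lib.Helper84KleinE
import Cfsg.Agent.Lib.H81CycPGRAM
import Cfsg.Agent.Lib.H81CycPOUT
import Cfsg.Agent.Lib.H81CycPREG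

set_option autoImplicit false

namespace Cfsg.Agent.Lib.H81CycPSUPP
open Cfsg
open Cfsg.Agent.Lib.Helper81CycDefs Cfsg.Agent.Lib.Helper81CycGDefs Cfsg.Agent.Lib.Helper81CycPDefs
open Cfsg.Agent.Lib.Helper81Base Cfsg.Agent.Lib.Helper80Trace Cfsg.Agent.Lib.Helper80Up
open scoped ComplexConjugate

universe u

variable {G : Type u} [Group G] [Fintype G] {p : ℕ} [Fact p.Prime] {M : Ideal AlgInt}
  {P H : Subgroup G} [Fintype H] {c : Set (IrrCharacter H)} {B : Set (IrrCharacter G)}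
  {X Y : Set (IrrCharacter H)} {δ : IrrCharacter H → ℤ} {δ₀ : ℤ} {e : ℕ}

/-- piece `P-SUPP`: every member of `B` occurs. -/
theorem DD_supp (h : PH p M P H c B) (sd : SD p c X Y δ δ₀ e) {X' Y' : Set (IrrCharacter G)}
    {δ' : IrrCharacter G → ℤ} {δ₀' : ℤ} (sdG : SD p B X' Y' δ' δ₀' e)
    (hY : Nat.card Y = Nat.card Y') (hY0 : Y'.Nonempty) {χ : IrrCharacter G} (hχ : χ ∈ B) :
    ∃ ψ ∈ Y, DD (alphaF X δ δ₀ ψ) χ ≠ 0 := by
  classical
  by_contra hcon
  push Not at hcon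
  have : Fintype Y := Fintype.ofFinite Y
  -- the vectors `v_ψ`
  let v : Y → IrrCharacter G → ℂ := fun ψ => DD (alphaF X δ δ₀ (ψ : IrrCharacter H))
  have hvli : LinearIndependent ℂ v := by
    apply H81CycGLI.li_of_gram e v
    intro i j
    have := H81CycPGRAM.gramP h sd i.2 j.2
    rw [this]
    congr 1
    by_cases hij : i = j
    · simp [hij]
    · have : (i : IrrCharacter H) ≠ j := fun h' => hij (Subtype.ext h')
      simp [hij, this]
  -- the extra vector
  obtain ⟨φ, hφ, hφχ⟩ : ∃ φ ∈ Y', (χ = φ ∨ χ ∈ X') := by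
    rw [sdG.un] at hχ
    rcases hχ with h1 | h1
    · obtain ⟨φ, hφ⟩ := hY0
      exact ⟨φ, hφ, Or.inr h1⟩
    · exact ⟨χ, h1, Or.inl rfl⟩
  have hφX : φ ∉ X' := fun h1 => Set.disjoint_left.1 sdG.dj h1 hφ
  let β : IrrCharacter G → ℂ := fun η => (if η = φ then (δ₀' : ℂ) else 0) + (if η ∈ X' then (δ' η : ℂ) else 0)
  have hβχ : β χ ≠ 0 := by
    rcases hφχ with h1 | h1
    · subst h1
      have : β χ = (δ₀' : ℂ) := by simp [β, hφX]
      rw [this]
      rcases sdG.s0 with h2 | h2 <;> simp [h2]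
    · have hne : χ ≠ φ := fun h2 => hφX (h2 ▸ h1)
      have : β χ = (δ' χ : ℂ) := by simp [β, hne, h1]
      rw [this]
      rcases sdG.sX χ h1 with h2 | h2 <;> simp [h2]
  have hβspan : β ∉ Submodule.span ℂ (Set.range v) := by
    intro hmem
    have hle : Submodule.span ℂ (Set.range v) ≤
        LinearMap.ker (LinearMap.proj (R := ℂ) (φ := fun _ : IrrCharacter G => ℂ) χ) := by
      rw [Submodule.span_le]
      rintro _ ⟨ψ, rfl⟩
      exact hcon ψ.1 ψ.2
    exact hβχ (hle hmem)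
  have hli := hvli.option hβspan
  have hnull := H81CycGNULL.null_abs p B (fun o : Option Y => Option.casesOn' o β v) ?_ ?_ hli
  · rw [sdG.rk, Fintype.card_option, ← Nat.card_eq_fintype_card, hY] at hnull
    have hB : Nat.card B = Nat.card X' + Nat.card Y' := by
      rw [sdG.un, Nat.card_coe_set_eq, Nat.card_coe_set_eq, Nat.card_coe_set_eq]
      exact Set.ncard_union_eq sdG.dj (Set.toFinite _) (Set.toFinite _)
    rw [hB, sdG.cX] at hnull
    omega
  · intro o η hη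
    cases o with
    | none =>
      show β η = 0
      have h1 : η ≠ φ := fun h2 => hη (by rw [sdG.un, h2]; exact Or.inr hφ)
      have h2 : η ∉ X' := fun h2 => hη (by rw [sdG.un]; exact Or.inl h2)
      simp [β, h1, h2]
    | some ψ => exact H81CycPOUT.DD_out h sd ψ.2 hη
  · intro o g hg
    cases o with
    | none =>
      show ∑ η : IrrCharacter G, β η * (η : G → ℂ) g = 0
      have h1 := sdG.rel φ hφ g hg
      rw [← h1]
      simp only [β, add_mul, Finset.sum_add_distrib, ite_mul, zero_mul]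
      congr 1
      simp
    | some ψ => exact H81CycPREG.DD_reg h sd ψ.2 g hg

end Cfsg.Agent.Lib.H81CycPSUPP
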