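import Cfsg.Agent.Lib.Helper81CycPDefs
import Cfsg.Agent.Lib.H81CycGVAN
import Cfsg.Agent.Lib.H81CycGOUT
import Cfsg.Agent.Lib.H81CycGGRAMABS
import Cfsg.Agent.Lib.H81CycGLI
import Cfsg.Agent.Lib.H81CycGNULL
import Cfsg.Agent.Lib.H81CycGMAIN
import Cfsg.Agent.Lib.H81CycGBCY
import Cfsg.Agent.Lib.H81CycRK
import Cfsg.Agent.Lib.Helper84KleinF
import Cfsg.Agent.Lib.Helper84KleinE
import Cfsg.Agent.Lib.Helper54DefOneComb
import Cfsg.Agent.Lib.H81CycPAL
import Cfsg.Agent.Lib.H81CycPGRAM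
import Cfsg.Agent.Lib.H81CycPREG
import Cfsg.Agent.Lib.H81CycPOUT
import Cfsg.Agent.Lib.H81CycPSUPP

set_option autoImplicit false

namespace Cfsg.Agent.Lib.H81CycPCOMB
open Cfsg
open Cfsg.Agent.Lib.Helper81CycDefs Cfsg.Agent.Lib.Helper81CycGDefs Cfsg.Agent.Lib.Helper81CycPDefs
open Cfsg.Agent.Lib.Helper81Base Cfsg.Agent.Lib.Helper80Trace Cfsg.Agent.Lib.Helper80Up
open scoped ComplexConjugate

universe u

variable {G : Type u} [Group G] [Fintype G] {p : ℕ} [Fact p.Prime] {M : Ideal AlgInt}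
  {P H : Subgroup G} [Fintype H] {c : Set (IrrCharacter H)} {B : Set (IrrCharacter G)}
  {X Y : Set (IrrCharacter H)} {δ : IrrCharacter H → ℤ} {δ₀ : ℤ} {e : ℕ}

open Classical in
/-- piece `P-COMB`: the combinatorial lemma. -/
theorem combP (h : PH p M P H c B) (sd : SD p c X Y δ δ₀ e) {X' Y' : Set (IrrCharacter G)}
    {δ' : IrrCharacter G → ℤ} {δ₀' : ℤ} (sdG : SD p B X' Y' δ' δ₀' e)
    (hY : Nat.card Y = Nat.card Y') (hY0 : Y'.Nonempty) (he : 0 < e) :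
    ∃ (ε : ℤ) (ζ : IrrCharacter H → IrrCharacter G) (a : IrrCharacter G → ℤ)
      (X₁ : Set (IrrCharacter G)), Set.InjOn ζ Y ∧ SD p B X₁ (ζ '' Y) a ε e ∧
      (∀ ψ ∈ Y, ∀ ψ' ∈ Y, DD (alphaF X δ δ₀ ψ') (ζ ψ) = (ε : ℂ) * if ψ = ψ' then 1 else 0) ∧
      (∀ χ ∈ X₁, ∀ ψ ∈ Y, DD (alphaF X δ δ₀ ψ) χ = (a χ : ℂ)) := by
  have hp : p.Prime := Fact.out
  have hint : ∀ (ψ : IrrCharacter H) (χ : IrrCharacter G), ∃ z : ℤ, DD (alphaF X δ δ₀ ψ) χ = z :=
    fun ψ χ => H81CycPAL.DD_int ψ χ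
  choose nD hnD using hint
  set Λ' := {ψ : IrrCharacter H // ψ ∈ Y} with hΛ'
  set R : Λ' → Λ' → Prop := fun l l' => l = l' with hR
  have hRe : Equivalence R := ⟨fun l => rfl, fun h' => h'.symm, fun h' h'' => h'.trans h''⟩
  set D0 : Λ' → IrrCharacter G → ℤ := fun l χ => nD l.1 χ with hD0
  have hDc : ∀ l χ, (D0 l χ : ℂ) = DD (alphaF X δ δ₀ l.1) χ := by
    intro l χ
    simp only [hD0, hnD]
  have hRiff : ∀ l l' : Λ', R l l' ↔ l.1 = l'.1 := fun l l' => Subtype.ext_iff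
  have hgram : ∀ l l', ∑ χ, D0 l χ * D0 l' χ
      = (e : ℤ) + @ite ℤ (R l l') (Classical.propDecidable _) 1 0 := by
    intro l l'
    have h1 := H81CycPGRAM.gramP h sd l.2 l'.2
    have h2 : ((∑ χ, D0 l χ * D0 l' χ : ℤ) : ℂ)
        = (((e : ℤ) + @ite ℤ (R l l') (Classical.propDecidable _) 1 0 : ℤ) : ℂ) := by
      push_cast
      have e1 : ∑ χ : IrrCharacter G, (D0 l χ : ℂ) * (D0 l' χ : ℂ)
          = ∑ χ : IrrCharacter G, DD (alphaF X δ δ₀ l.1) χ * conj (DD (alphaF X δ δ₀ l'.1) χ) := by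
        apply Finset.sum_congr rfl
        intro χ _
        rw [← hDc, ← hDc, map_intCast]
      rw [e1, h1]
      by_cases hl : l = l'
      · rw [if_pos ((hRiff l l').mp hl), if_pos hl]
      · rw [if_neg (fun h' => hl ((hRiff l l').mpr h')), if_neg hl]
    exact_mod_cast h2
  have hrel : ∀ l l', R l l' → D0 l = D0 l' := by
    intro l l' hl
    rw [show l = l' from hl]
  have hp1 : ¬ p ∣ orderOf (1 : G) := by
    rw [orderOf_one]; exact hp.one_lt.ne' ∘ Nat.dvd_one.mp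
  have h0 : ∀ l l', ∑ χ, (D0 l χ - D0 l' χ) * (charDegree (χ : G → ℂ) : ℤ) = 0 := by
    intro l l'
    have a1 := H81CycPREG.DD_reg h sd l.2 1 hp1
    have a2 := H81CycPREG.DD_reg h sd l'.2 1 hp1
    have h3 : ((∑ χ, (D0 l χ - D0 l' χ) * (charDegree (χ : G → ℂ) : ℤ) : ℤ) : ℂ) = ((0 : ℤ) : ℂ) := by
      push_cast
      have : (0 : ℂ) = ∑ χ : IrrCharacter G, DD (alphaF X δ δ₀ l.1) χ * (χ : G → ℂ) 1
          - ∑ χ : IrrCharacter G, DD (alphaF X δ δ₀ l'.1) χ * (χ : G → ℂ) 1 := by rw [a1, a2]; ring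
      rw [this, ← Finset.sum_sub_distrib]
      apply Finset.sum_congr rfl
      intro χ _
      rw [hDc, hDc, charDegree_eq]
      ring
    exact_mod_cast h3
  have hsupp : ∀ χ : IrrCharacter G, (∃ l, D0 l χ ≠ 0) ↔ χ ∈ B := by
    intro χ
    constructor
    · rintro ⟨l, hl⟩
      by_contra hχ
      apply hl
      have := hDc l χ
      rw [H81CycPOUT.DD_out h sd l.2 hχ] at this
      exact_mod_cast this
    · intro hχ
      obtain ⟨ψ, hψ, hd⟩ := H81CycPSUPP.DD_supp h sd sdG hY hY0 hχ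
      refine ⟨⟨ψ, hψ⟩, fun h' => hd ?_⟩
      have := hDc ⟨ψ, hψ⟩ χ
      rw [h'] at this
      simp only [Int.cast_zero] at this
      exact this.symm
  set t := Nat.card (Quotient (⟨R, hRe⟩ : Setoid Λ')) with ht
  have htY : t = Nat.card Y := by
    rw [ht]
    apply Nat.card_congr
    refine (Equiv.ofBijective (fun l : Λ' => (Quotient.mk (⟨R, hRe⟩ : Setoid Λ') l)) ⟨?_, ?_⟩).symm
    · intro l l' hl
      exact Quotient.exact hl
    · intro q
      induction q using Quotient.inductionOn with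
      | h l => exact ⟨l, rfl⟩
  have hne : Nonempty Λ' := by
    have h1 : 0 < Nat.card Y := by
      rw [hY]
      have : Nonempty Y' := hY0.to_subtype
      exact Nat.card_pos
    exact (Nat.card_pos_iff.1 h1).1
  have hcB0 : Nat.card B = e + t := by
    rw [sdG.un, Nat.card_coe_set_eq, Set.ncard_union_eq sdG.dj (Set.toFinite _) (Set.toFinite _),
      ← Nat.card_coe_set_eq, ← Nat.card_coe_set_eq, sdG.cX, htY, hY]
  have hcard : e + t ≤ Nat.card {χ : IrrCharacter G // ∃ l, D0 l χ ≠ 0} := by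
    have : Nat.card {χ : IrrCharacter G // ∃ l, D0 l χ ≠ 0} = Nat.card B :=
      Nat.card_congr (Equiv.subtypeEquivRight hsupp)
    rw [this]; omega
  obtain ⟨ε, ζ, a, hε, hζ, hDζ, hDa, ha, hcardX⟩ :=
    Cfsg.Agent.Lib.Helper54DefOneComb.comb R hRe e t he ht.symm D0
    (fun χ => (charDegree (χ : G → ℂ) : ℤ)) (fun χ => by exact_mod_cast charDegree_pos χ)
    hrel hgram h0 hcard
  have hε0 : ε ≠ 0 := by rcases hε with h' | h' <;> rw [h'] <;> norm_num
  have hζB : ∀ l, ζ l ∈ B := by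
    intro l
    rw [← hsupp]
    refine ⟨l, ?_⟩
    rw [hDζ l l, if_pos (hRe.refl l), mul_one]
    exact hε0
  obtain ⟨l₀⟩ := hne
  set ζ' : IrrCharacter H → IrrCharacter G := fun ψ => if hψ : ψ ∈ Y then ζ ⟨ψ, hψ⟩ else ζ l₀ with hζ'
  have hζ'l : ∀ l : Λ', ζ' l.1 = ζ l := by
    intro l
    simp only [hζ']
    rw [dif_pos l.2]
  have himg : ζ' '' Y = Set.range ζ := by
    ext χ
    constructor
    · rintro ⟨ψ, hψ, rfl⟩
      exact ⟨⟨ψ, hψ⟩, (hζ'l ⟨ψ, hψ⟩).symm⟩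
    · rintro ⟨l, rfl⟩
      exact ⟨l.1, l.2, hζ'l l⟩
  set X₁ : Set (IrrCharacter G) := {χ | χ ∈ B ∧ ∀ l, χ ≠ ζ l} with hX₁
  have hBXY : B = X₁ ∪ Set.range ζ := by
    ext χ
    constructor
    · intro hχ
      by_cases hc : ∃ l, ζ l = χ
      · exact Or.inr hc
      · push Not at hc
        exact Or.inl ⟨hχ, fun l h' => hc l h'.symm⟩
    · rintro (h' | ⟨l, rfl⟩)
      · exact h'.1
      · exact hζB l
  have hdisj : Disjoint X₁ (Set.range ζ) := by
    rw [Set.disjoint_left]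
    rintro χ ⟨_, h1⟩ ⟨l, rfl⟩
    exact h1 l rfl
  have hcX : Nat.card X₁ = e := by
    rw [← hcardX]
    apply Nat.card_congr
    exact Equiv.subtypeEquivRight (fun χ => by rw [hsupp]; rfl)
  refine ⟨ε, ζ', a, X₁, ?_, ?_, ?_, ?_⟩
  · intro ψ hψ ψ' hψ' hh
    have h1 := hζ'l ⟨ψ, hψ⟩
    have h2 := hζ'l ⟨ψ', hψ'⟩
    simp only at h1 h2
    rw [h1, h2] at hh
    exact (hRiff _ _).mp ((hζ _ _).mp hh)
  · rw [himg]
    refine ⟨hBXY, hdisj, hcX, sdG.rk, ?_, hε, ?_⟩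
    · intro χ hχ
      exact ha χ hχ.2 ((hsupp χ).2 hχ.1)
    · rintro ψ ⟨l, rfl⟩ g hg
      have h1 := H81CycPREG.DD_reg h sd l.2 g hg
      have hpt : ∀ χ : IrrCharacter G, DD (alphaF X δ δ₀ l.1) χ
          = (if χ = ζ l then (ε : ℂ) else 0) + (if χ ∈ X₁ then (a χ : ℂ) else 0) := by
        intro χ
        rw [← hDc]
        by_cases h1 : χ = ζ l
        · subst h1
          have hnX : ζ l ∉ X₁ := fun h' => h'.2 l rfl
          rw [if_pos rfl, if_neg hnX, hDζ l l, if_pos (hRe.refl l)]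
          simp
        · rw [if_neg h1]
          by_cases h2 : ∃ l', χ = ζ l'
          · obtain ⟨l', rfl⟩ := h2
            have hnX : ζ l' ∉ X₁ := fun h' => h'.2 l' rfl
            have hnR : ¬ R l' l := fun h' => h1 ((hζ l' l).2 h')
            rw [if_neg hnX, hDζ l' l, if_neg hnR]
            simp
          · push Not at h2
            by_cases h3 : χ ∈ B
            · have hXm : χ ∈ X₁ := ⟨h3, h2⟩
              rw [if_pos hXm, hDa χ h2 l]
              simp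
            · have hnX : χ ∉ X₁ := fun h' => h3 h'.1
              rw [if_neg hnX]
              have : D0 l χ = 0 := by
                by_contra h4
                exact h3 ((hsupp χ).1 ⟨l, h4⟩)
              rw [this]
              simp
      have h2 : ∑ χ : IrrCharacter G, DD (alphaF X δ δ₀ l.1) χ * (χ : G → ℂ) g
          = (ε : ℂ) * (ζ l : G → ℂ) g
          + ∑ χ : IrrCharacter G, (if χ ∈ X₁ then (a χ : ℂ) * (χ : G → ℂ) g else 0) := by
        simp only [hpt, add_mul, Finset.sum_add_distrib, ite_mul, zero_mul, Finset.sum_ite_eq',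
          Finset.mem_univ, if_true]
      convert h2.symm.trans h1
  · intro ψ hψ ψ' hψ'
    have h1 := hζ'l ⟨ψ, hψ⟩
    simp only at h1
    rw [h1]
    have h2 := hDc ⟨ψ', hψ'⟩ (ζ ⟨ψ, hψ⟩)
    simp only at h2
    rw [← h2, hDζ ⟨ψ, hψ⟩ ⟨ψ', hψ'⟩]
    by_cases hh : ψ = ψ'
    · subst hh
      rw [if_pos (hRe.refl _), if_pos rfl]
      simp
    · rw [if_neg (fun h' => hh ((hRiff _ _).mp h')), if_neg hh]
      simp
  · intro χ hχ ψ hψ
    have h2 := hDc ⟨ψ, hψ⟩ χ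
    simp only at h2
    rw [← h2, hDa χ hχ.2 ⟨ψ, hψ⟩]

end Cfsg.Agent.Lib.H81CycPCOMB
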