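import Cfsg.Agent.Lib.Helper81CycPDefs
import Cfsg.Agent.Lib.H81CycGVAN
import Cfsg.Agent.Lib.H81CycGOUT
import Cfsg.Agent.Lib.H81CycGGRAMABS
import Cfsg.Agent.Lib.H81CycGLI
import Cfsg.Agent.Lib.H81CycGNULL
import Cfsg.Agent.Lib.H81CycGMAIN
import Cfsg.Agent.Lib.H81CycGBCY
import Cfsg.Agent.Lib.H81CycRK
import Cfsg.Agent.Lib.Helper84KleinF
import Cfsg.Agent.Lib.Helper84KleinE

set_option autoImplicit false

namespace Cfsg.Agent.Lib.H81CycPSS
open Cfsg
open Cfsg.Agent.Lib.Helper81CycDefs Cfsg.Agent.Lib.Helper81CycGDefs Cfsg.Agent.Lib.Helper81CycPDefs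
open Cfsg.Agent.Lib.Helper81Base Cfsg.Agent.Lib.Helper80Trace Cfsg.Agent.Lib.Helper80Up
open scoped ComplexConjugate

universe u

variable {K : Type u} [Group K] [Fintype K] {p : ℕ} [Fact p.Prime] {M : Ideal AlgInt}

theorem sum_ite_sub {ι : Type*} [Fintype ι] (X : Set ι) [Fintype X] [DecidablePred (· ∈ X)]
    (f : ι → ℂ) : ∑ χ, (if χ ∈ X then f χ else 0) = ∑ η : X, f η := by
  rw [← Finset.sum_filter]
  exact Finset.sum_subtype _ (by simp) f

open Classical in
/-- an exceptional character is a combination of the non exceptional ones on the regular elements -/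
theorem exc_eq {b X Y : Set (IrrCharacter K)} {δ : IrrCharacter K → ℤ}
    {δ₀ : ℤ} {e : ℕ} (sd : SD p b X Y δ δ₀ e) {ψ : IrrCharacter K} (hψ : ψ ∈ Y) {g : K}
    (hg : ¬ p ∣ orderOf g) :
    (ψ : K → ℂ) g = - (δ₀ : ℂ) * ∑ χ : IrrCharacter K,
      (if χ ∈ X then (δ χ : ℂ) * (χ : K → ℂ) g else 0) := by
  have h1 := sd.rel ψ hψ g hg
  have h2 : (δ₀ : ℂ) * (δ₀ : ℂ) = 1 := by
    rcases sd.s0 with h | h <;> simp [h]
  linear_combination (δ₀ : ℂ) * h1 - ((ψ : K → ℂ) g) * h2

/-- the regular parts of the non exceptional characters are linearly independent -/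
theorem li_X {b X Y : Set (IrrCharacter K)} {δ : IrrCharacter K → ℤ}
    {δ₀ : ℤ} {e : ℕ} (sd : SD p b X Y δ δ₀ e) :
    LinearIndependent ℂ (fun χ : X => pRegularPart p ((χ : IrrCharacter K) : K → ℂ)) := by
  classical
  have : Fintype X := Fintype.ofFinite X
  rw [linearIndependent_iff_card_eq_finrank_span, ← Nat.card_eq_fintype_card, sd.cX, ← sd.rk]
  unfold blockRank Set.finrank
  have hspan : Submodule.span ℂ ((fun χ : IrrCharacter K => pRegularPart p (χ : K → ℂ)) '' b)
      = Submodule.span ℂ (Set.range fun χ : X => pRegularPart p ((χ : IrrCharacter K) : K → ℂ)) := ?_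
  · rw [hspan]
  apply le_antisymm
  · rw [Submodule.span_le]
    rintro _ ⟨χ, hχ, rfl⟩
    rw [sd.un] at hχ
    rcases hχ with hχ | hχ
    · exact Submodule.subset_span ⟨⟨χ, hχ⟩, rfl⟩
    · have h1 : pRegularPart p (χ : K → ℂ) = ∑ η : X, (- (δ₀ : ℂ) * (δ η : ℂ)) •
          pRegularPart p ((η : IrrCharacter K) : K → ℂ) := by
        funext g
        rw [Finset.sum_apply]
        simp only [Pi.smul_apply, smul_eq_mul, pRegularPart]
        by_cases hg : IsPRegular p g
        · simp only [if_pos hg]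
          rw [exc_eq sd hχ hg, sum_ite_sub X (fun η => (δ η : ℂ) * (η : K → ℂ) g), Finset.mul_sum]
          refine Finset.sum_congr rfl fun η _ => ?_
          ring
        · simp only [if_neg hg, mul_zero, Finset.sum_const_zero]
      show pRegularPart p (χ : K → ℂ) ∈ _
      rw [h1]
      exact Submodule.sum_mem _ fun η _ => Submodule.smul_mem _ _ (Submodule.subset_span ⟨η, rfl⟩)
  · rw [Submodule.span_le]
    rintro _ ⟨χ, rfl⟩
    exact Submodule.subset_span ⟨χ.1, by rw [sd.un]; exact Or.inl χ.2, rfl⟩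

open Classical in
/-- piece `P-SS`: on the `p`-singular elements a non exceptional character is, up to sign, the sum of
the exceptional ones. -/
theorem sing_sum (hM : IsPModular p M) {b X Y : Set (IrrCharacter K)} {δ : IrrCharacter K → ℤ}
    {δ₀ : ℤ} {e : ℕ} (hb : IsPBlock M b) (sd : SD p b X Y δ δ₀ e) {y : K} (hy : p ∣ orderOf y)
    {χ : IrrCharacter K} (hχ : χ ∈ X) :
    (δ χ : ℂ) * (χ : K → ℂ) y
      = (δ₀ : ℂ) * ∑ ψ : IrrCharacter K, (if ψ ∈ Y then (ψ : K → ℂ) y else 0) := by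
  have : Fintype X := Fintype.ofFinite X
  set S : ℂ := ∑ ψ : IrrCharacter K, (if ψ ∈ Y then conj ((ψ : K → ℂ) y) else 0) with hS
  have hli := li_X sd
  rw [Fintype.linearIndependent_iff] at hli
  have hzero : ∑ η : X, (conj (((η : IrrCharacter K) : K → ℂ) y) - (δ₀ : ℂ) * (δ η : ℂ) * S) •
      pRegularPart p ((η : IrrCharacter K) : K → ℂ) = 0 := by
    funext x
    rw [Finset.sum_apply]
    simp only [Pi.smul_apply, smul_eq_mul, pRegularPart, Pi.zero_apply]
    by_cases hx : IsPRegular p x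
    · simp only [if_pos hx]
      have h1 := Helper81Orth.weak_block_orth hM hb hx hy
      have h2 : ∀ η : IrrCharacter K, (if η ∈ b then (η : K → ℂ) x * conj ((η : K → ℂ) y) else 0)
          = (if η ∈ X then (η : K → ℂ) x * conj ((η : K → ℂ) y) else 0)
            + (if η ∈ Y then (η : K → ℂ) x * conj ((η : K → ℂ) y) else 0) := by
        intro η
        have hd : η ∈ X → η ∉ Y := fun h => Set.disjoint_left.1 sd.dj h
        rw [sd.un]
        by_cases h3 : η ∈ X
        · have h4 : η ∉ Y := hd h3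
          simp [h3, h4]
        · by_cases h4 : η ∈ Y
          · simp [h3, h4]
          · simp [h3, h4]
      rw [Finset.sum_congr rfl (fun η _ => h2 η), Finset.sum_add_distrib] at h1
      have h5 : ∑ η : IrrCharacter K, (if η ∈ Y then (η : K → ℂ) x * conj ((η : K → ℂ) y) else 0)
          = (- (δ₀ : ℂ) * ∑ χ : IrrCharacter K,
              (if χ ∈ X then (δ χ : ℂ) * (χ : K → ℂ) x else 0)) * S := by
        rw [hS, Finset.mul_sum]
        refine Finset.sum_congr rfl fun η _ => ?_
        by_cases h4 : η ∈ Y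
        · rw [if_pos h4, if_pos h4, exc_eq sd h4 hx]
        · rw [if_neg h4, if_neg h4, mul_zero]
      rw [h5, sum_ite_sub X (fun η => (η : K → ℂ) x * conj ((η : K → ℂ) y)),
        sum_ite_sub X (fun η => (δ η : ℂ) * (η : K → ℂ) x)] at h1
      clear_value S
      rw [Finset.mul_sum, Finset.sum_mul, ← Finset.sum_add_distrib] at h1
      rw [← h1]
      refine Finset.sum_congr rfl fun η _ => ?_
      ring
    · simp only [if_neg hx, mul_zero, Finset.sum_const_zero]
  have hc := hli _ hzero ⟨χ, hχ⟩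
  simp only at hc
  have hd2 : (δ χ : ℂ) * (δ χ : ℂ) = 1 := by
    rcases sd.sX χ hχ with h | h <;> simp [h]
  have hc' := congrArg conj hc
  have hSc : conj S = ∑ ψ : IrrCharacter K, (if ψ ∈ Y then (ψ : K → ℂ) y else 0) := by
    rw [hS, map_sum]
    refine Finset.sum_congr rfl fun η _ => ?_
    by_cases h4 : η ∈ Y
    · simp [h4]
    · simp [h4]
  simp only [map_sub, map_mul, Complex.conj_conj, map_intCast, map_zero] at hc'
  rw [hSc] at hc'
  linear_combination (δ χ : ℂ) * hc' + (δ₀ : ℂ) * (∑ ψ : IrrCharacter K, (if ψ ∈ Y then (ψ : K → ℂ) y else 0)) * hd2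

end Cfsg.Agent.Lib.H81CycPSS
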