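import Cfsg.Agent.Lib.Helper81CycPDefs
import Cfsg.Agent.Lib.H81CycGVAN
import Cfsg.Agent.Lib.H81CycGOUT
import Cfsg.Agent.Lib.H81CycGGRAMABS
import Cfsg.Agent.Lib.H81CycGLI
import Cfsg.Agent.Lib.H81CycGNULL
import Cfsg.Agent.Lib.H81CycGMAIN
import Cfsg.Agent.Lib.H81CycGBCY
import Cfsg.Agent.Lib.H81CycRK
import Cfsg.Agent.Lib.Helper84KleinF
import Cfsg.Agent.Lib.Helper84KleinE
import Cfsg.Agent.Lib.H81CycPSS
import Cfsg.Agent.Lib.H81CycPOUT
import Cfsg.Agent.Lib.H81CycPIND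

set_option autoImplicit false

namespace Cfsg.Agent.Lib.H81CycPMATCH
open Cfsg
open Cfsg.Agent.Lib.Helper81CycDefs Cfsg.Agent.Lib.Helper81CycGDefs Cfsg.Agent.Lib.Helper81CycPDefs
open Cfsg.Agent.Lib.Helper81Base Cfsg.Agent.Lib.Helper80Trace Cfsg.Agent.Lib.Helper80Up
open scoped ComplexConjugate

universe u

variable {G : Type u} [Group G] [Fintype G] {p : ℕ} [Fact p.Prime] {M : Ideal AlgInt}
  {P H : Subgroup G} [Fintype H] {c : Set (IrrCharacter H)} {B : Set (IrrCharacter G)}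
  {X Y : Set (IrrCharacter H)} {δ : IrrCharacter H → ℤ} {δ₀ : ℤ} {e : ℕ}

theorem good_sing {y : H} (hy : Good p P H y) : p ∣ orderOf y := by
  obtain ⟨u, x, hu, hu1, -⟩ := hy
  obtain ⟨m, hm⟩ := Cfsg.Agent.Lib.Helper20Fusion.isPPart_pow hu
  obtain ⟨z, -, -, ⟨k, hk⟩, -⟩ := hu
  have hk0 : k ≠ 0 := by
    rintro rfl
    rw [pow_zero, orderOf_eq_one_iff] at hk
    exact hu1 hk
  have h1 : p ∣ orderOf u := by
    rw [hk]
    exact dvd_pow_self p hk0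
  refine h1.trans ?_
  rw [hm]
  exact orderOf_pow_dvd m

open Classical in
/-- piece `P-MATCH`: the values on the good elements. -/
theorem matchP (h : PH p M P H c B) (sd : SD p c X Y δ δ₀ e) {ε : ℤ}
    {ζ : IrrCharacter H → IrrCharacter G} {a : IrrCharacter G → ℤ} {X₁ : Set (IrrCharacter G)}
    (hinj : Set.InjOn ζ Y) (sd₁ : SD p B X₁ (ζ '' Y) a ε e)
    (h1 : ∀ ψ ∈ Y, ∀ ψ' ∈ Y, DD (alphaF X δ δ₀ ψ') (ζ ψ) = (ε : ℂ) * if ψ = ψ' then 1 else 0)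
    (h2 : ∀ χ ∈ X₁, ∀ ψ ∈ Y, DD (alphaF X δ δ₀ ψ) χ = (a χ : ℂ)) (hY0 : Y.Nonempty) {y : H}
    (hy : Good p P H y) :
    (∀ ψ ∈ Y, (ε : ℂ) * (ζ ψ : G → ℂ) (y : G) = (δ₀ : ℂ) * (ψ : H → ℂ) y) ∧
    (∀ χ ∈ X₁, ∀ η ∈ X, (a χ : ℂ) * (χ : G → ℂ) (y : G) = (δ η : ℂ) * (η : H → ℂ) y) := by
  have hyH : p ∣ orderOf y := good_sing hy
  have hyG : p ∣ orderOf (y : G) := by
    rw [Subgroup.orderOf_coe]
    exact hyH
  set SG : ℂ := ∑ φ : IrrCharacter G, (if φ ∈ ζ '' Y then (φ : G → ℂ) (y : G) else 0) with hSG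
  set SH : ℂ := ∑ ψ : IrrCharacter H, (if ψ ∈ Y then (ψ : H → ℂ) y else 0) with hSH
  have sG : ∀ χ ∈ X₁, (a χ : ℂ) * (χ : G → ℂ) (y : G) = (ε : ℂ) * SG := fun χ hχ =>
    Cfsg.Agent.Lib.H81CycPSS.sing_sum h.hM h.ind.2.1 sd₁ hyG hχ
  have sH : ∀ η ∈ X, (δ η : ℂ) * (η : H → ℂ) y = (δ₀ : ℂ) * SH := fun η hη =>
    Cfsg.Agent.Lib.H81CycPSS.sing_sum h.hM h.ind.1 sd hyH hη
  have cX : ((Finset.univ.filter (fun η : IrrCharacter H => η ∈ X)).card : ℂ) = (e : ℂ) := by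
    rw [← sd.cX]
    congr 1
    rw [Nat.card_eq_fintype_card, Fintype.card_subtype]
  have cX₁ : ((Finset.univ.filter (fun χ : IrrCharacter G => χ ∈ X₁)).card : ℂ) = (e : ℂ) := by
    rw [← sd₁.cX]
    congr 1
    rw [Nat.card_eq_fintype_card, Fintype.card_subtype]
  have star : ∀ ψ ∈ Y, (ε : ℂ) * (ζ ψ : G → ℂ) (y : G) + (e : ℂ) * ((ε : ℂ) * SG)
      = (δ₀ : ℂ) * (ψ : H → ℂ) y + (e : ℂ) * ((δ₀ : ℂ) * SH) := by
    intro ψ hψ
    have h3 := Cfsg.Agent.Lib.H81CycPIND.DD_ind h sd hψ hy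
    have hR : alphaF X δ δ₀ ψ y = (δ₀ : ℂ) * (ψ : H → ℂ) y + (e : ℂ) * ((δ₀ : ℂ) * SH) := by
      unfold alphaF
      congr 1
      have e1 : ∀ χ : IrrCharacter H, (if χ ∈ X then (δ χ : ℂ) * (χ : H → ℂ) y else 0)
          = if χ ∈ X then (δ₀ : ℂ) * SH else 0 := by
        intro χ
        split_ifs with hχ
        · exact sH χ hχ
        · rfl
      simp_rw [e1]
      rw [← Finset.sum_filter, Finset.sum_const, nsmul_eq_mul, cX]
    have hL : ∑ χ : IrrCharacter G, conj (DD (alphaF X δ δ₀ ψ) χ) * (χ : G → ℂ) (y : G)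
        = (ε : ℂ) * (ζ ψ : G → ℂ) (y : G) + (e : ℂ) * ((ε : ℂ) * SG) := by
      have ht : ∀ χ : IrrCharacter G, conj (DD (alphaF X δ δ₀ ψ) χ) * (χ : G → ℂ) (y : G)
          = (if χ = ζ ψ then (ε : ℂ) * (ζ ψ : G → ℂ) (y : G) else 0)
            + (if χ ∈ X₁ then (ε : ℂ) * SG else 0) := by
        intro χ
        by_cases hB : χ ∈ B
        · rw [sd₁.un] at hB
          rcases hB with hX | ⟨ψ'', hψ'', rfl⟩
          · have hne : χ ≠ ζ ψ := fun e => Set.disjoint_left.mp sd₁.dj hX ⟨ψ, hψ, e.symm⟩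
            rw [if_neg hne, if_pos hX, h2 χ hX ψ hψ, zero_add, map_intCast, sG χ hX]
          · have hnX : ζ ψ'' ∉ X₁ := fun hX => Set.disjoint_left.mp sd₁.dj hX ⟨ψ'', hψ'', rfl⟩
            rw [if_neg hnX, add_zero, h1 ψ'' hψ'' ψ hψ]
            by_cases he : ψ'' = ψ
            · subst he
              simp
            · have hne : ζ ψ'' ≠ ζ ψ := fun e => he (hinj hψ'' hψ e)
              rw [if_neg he, if_neg hne]
              simp
        · have hne : χ ≠ ζ ψ := by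
            rintro rfl
            apply hB
            rw [sd₁.un]
            exact Or.inr ⟨ψ, hψ, rfl⟩
          have hnX : χ ∉ X₁ := by
            intro hX
            apply hB
            rw [sd₁.un]
            exact Or.inl hX
          rw [Cfsg.Agent.Lib.H81CycPOUT.DD_out h sd hψ hB, if_neg hne, if_neg hnX]
          simp
      simp_rw [ht]
      rw [Finset.sum_add_distrib, Finset.sum_ite_eq' Finset.univ (ζ ψ), if_pos (Finset.mem_univ _),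
        ← Finset.sum_filter, Finset.sum_const, nsmul_eq_mul, cX₁]
    rw [← hL, ← hR]
    exact h3
  set T : Finset (IrrCharacter H) := Finset.univ.filter (fun ψ => ψ ∈ Y) with hT
  have hSH' : SH = ∑ ψ ∈ T, (ψ : H → ℂ) y := by
    rw [hSH, hT, Finset.sum_filter]
  have hSG' : SG = ∑ ψ ∈ T, (ζ ψ : G → ℂ) (y : G) := by
    rw [hSG, ← Finset.sum_filter]
    have e1 : Finset.univ.filter (fun φ : IrrCharacter G => φ ∈ ζ '' Y) = T.image ζ := by
      ext φ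
      simp only [Finset.mem_filter, Finset.mem_univ, true_and, Finset.mem_image, hT, Set.mem_image]
    rw [e1, Finset.sum_image]
    intro a ha b hb hab
    rw [hT, Finset.mem_coe, Finset.mem_filter] at ha hb
    exact hinj ha.2 hb.2 hab
  have hsum : ∑ ψ ∈ T, ((ε : ℂ) * (ζ ψ : G → ℂ) (y : G) + (e : ℂ) * ((ε : ℂ) * SG))
      = ∑ ψ ∈ T, ((δ₀ : ℂ) * (ψ : H → ℂ) y + (e : ℂ) * ((δ₀ : ℂ) * SH)) := by
    apply Finset.sum_congr rfl
    intro ψ hψ
    rw [hT, Finset.mem_filter] at hψ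
    exact star ψ hψ.2
  rw [Finset.sum_add_distrib, Finset.sum_add_distrib, Finset.sum_const, Finset.sum_const,
    nsmul_eq_mul, nsmul_eq_mul, ← Finset.mul_sum, ← Finset.mul_sum, ← hSG', ← hSH'] at hsum
  have hne : (1 + (T.card : ℂ) * (e : ℂ)) ≠ 0 := by
    have h5 : (1 + T.card * e : ℕ) ≠ 0 := by positivity
    have : ((1 + T.card * e : ℕ) : ℂ) ≠ 0 := Nat.cast_ne_zero.mpr h5
    push_cast at this
    exact this
  have hkey : (ε : ℂ) * SG = (δ₀ : ℂ) * SH := by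
    have : (1 + (T.card : ℂ) * (e : ℂ)) * ((ε : ℂ) * SG - (δ₀ : ℂ) * SH) = 0 := by
      linear_combination hsum
    rcases mul_eq_zero.mp this with h4 | h4
    · exact absurd h4 hne
    · exact sub_eq_zero.mp h4
  refine ⟨fun ψ hψ => ?_, fun χ hχ η hη => ?_⟩
  · have := star ψ hψ
    rw [hkey] at this
    exact add_right_cancel this
  · rw [sG χ hχ, sH η hη, hkey]

end Cfsg.Agent.Lib.H81CycPMATCH
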