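import Cfsg.Agent.Lib.Helper81CycPDefs
import Cfsg.Agent.Lib.H81CycPCOMB
import Cfsg.Agent.Lib.H81CycPMATCH

set_option autoImplicit false

namespace Cfsg.Agent.Lib.H81CycPBIJ
open Cfsg
open Cfsg.Agent.Lib.Helper81CycDefs Cfsg.Agent.Lib.Helper81CycGDefs Cfsg.Agent.Lib.Helper81CycPDefs
open Cfsg.Agent.Lib.Helper81Base
open scoped ComplexConjugate

universe u

variable {G : Type u} [Group G] [Fintype G] {p : ℕ} [Fact p.Prime] {M : Ideal AlgInt}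
  {P H : Subgroup G} [Fintype H] {c : Set (IrrCharacter H)} {B : Set (IrrCharacter G)}
  {X Y : Set (IrrCharacter H)} {δ : IrrCharacter H → ℤ} {δ₀ : ℤ} {e : ℕ}

theorem sq_of_sign {z : ℤ} (hz : z = 1 ∨ z = -1) : ((z : ℂ)) * (z : ℂ) = 1 := by
  rcases hz with rfl | rfl <;> simp

theorem sign_mul {z w : ℤ} (hz : z = 1 ∨ z = -1) (hw : w = 1 ∨ w = -1) : z * w = 1 ∨ z * w = -1 := by
  rcases hz with rfl | rfl <;> rcases hw with rfl | rfl <;> simp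

/-- piece `P-BIJ`: the bijection with signs. -/
theorem exists_mt (h : PH p M P H c B) (sd : SD p c X Y δ δ₀ e) {X' Y' : Set (IrrCharacter G)}
    {δ' : IrrCharacter G → ℤ} {δ₀' : ℤ} (sdG : SD p B X' Y' δ' δ₀' e)
    (hY : Nat.card Y = Nat.card Y') (hY0 : Y'.Nonempty) (he : 0 < e) :
    ∃ (I : IrrCharacter H → IrrCharacter G) (εs : IrrCharacter H → ℤ), MT p M P H c B I εs := by
  classical
  obtain ⟨ε, ζ, a, X₁, hinj, sd₁, h1, h2⟩ := H81CycPCOMB.combP h sd sdG hY hY0 he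
  have hYne : Y.Nonempty := by
    have : Nonempty Y' := hY0.to_subtype
    have h0 : 0 < Nat.card Y' := Nat.card_pos
    rw [← hY] at h0
    have := (Nat.card_pos_iff.1 h0).1
    exact Set.nonempty_coe_sort.1 this
  have hm := fun (y : H) (hy : Good p P H y) => H81CycPMATCH.matchP h sd hinj sd₁ h1 h2 hYne (y := y) hy
  obtain ⟨f⟩ : Nonempty (X ≃ X₁) := Finite.card_eq.1 (sd.cX.trans sd₁.cX.symm)
  let I : IrrCharacter H → IrrCharacter G :=
    fun η => if hη : η ∈ X then (f ⟨η, hη⟩ : IrrCharacter G) else ζ η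
  let εs : IrrCharacter H → ℤ := fun η => if η ∈ X then a (I η) * δ η else ε * δ₀
  have hXY : ∀ η, η ∈ X → η ∈ Y → False := fun η h1 h2 => Set.disjoint_left.1 sd.dj h1 h2
  have hXY₁ : ∀ χ, χ ∈ X₁ → χ ∈ ζ '' Y → False := fun η h1 h2 => Set.disjoint_left.1 sd₁.dj h1 h2
  have hIX : ∀ η (hη : η ∈ X), I η = (f ⟨η, hη⟩ : IrrCharacter G) := fun η hη => dif_pos hη
  have hIY : ∀ η, η ∈ Y → I η = ζ η := fun η hη => dif_neg (fun h' => hXY η h' hη)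
  have hIX₁ : ∀ η, η ∈ X → I η ∈ X₁ := fun η hη => by rw [hIX η hη]; exact (f ⟨η, hη⟩).2
  have hIY₁ : ∀ η, η ∈ Y → I η ∈ ζ '' Y := fun η hη => by rw [hIY η hη]; exact ⟨η, hη, rfl⟩
  have hεX : ∀ η, η ∈ X → εs η = a (I η) * δ η := fun η hη => if_pos hη
  have hεY : ∀ η, η ∈ Y → εs η = ε * δ₀ := fun η hη => if_neg (fun h' => hXY η h' hη)
  refine ⟨I, εs, h, ⟨?_, ?_, ?_⟩, ?_, ?_⟩
  · intro η hη
    rw [sd.un] at hη
    rw [sd₁.un]
    rcases hη with hη | hη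
    · exact Or.inl (hIX₁ η hη)
    · exact Or.inr (hIY₁ η hη)
  · intro η hη η' hη' hEq
    rw [sd.un] at hη hη'
    rcases hη with hη | hη <;> rcases hη' with hη' | hη'
    · rw [hIX η hη, hIX η' hη'] at hEq
      have := f.injective (Subtype.ext hEq)
      exact congrArg Subtype.val this
    · exact (hXY₁ _ (hIX₁ η hη) (hEq ▸ hIY₁ η' hη')).elim
    · exact (hXY₁ _ (hIX₁ η' hη') (hEq ▸ hIY₁ η hη)).elim
    · rw [hIY η hη, hIY η' hη'] at hEq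
      exact hinj hη hη' hEq
  · intro χ hχ
    rw [sd₁.un] at hχ
    rw [sd.un]
    rcases hχ with hχ | ⟨ψ, hψ, rfl⟩
    · refine ⟨(f.symm ⟨χ, hχ⟩ : IrrCharacter H), Or.inl (f.symm ⟨χ, hχ⟩).2, ?_⟩
      rw [hIX _ (f.symm ⟨χ, hχ⟩).2]
      simp
    · exact ⟨ψ, Or.inr hψ, hIY ψ hψ⟩
  · intro η hη
    rw [sd.un] at hη
    rcases hη with hη | hη
    · rw [hεX η hη]
      exact sign_mul (sd₁.sX _ (hIX₁ η hη)) (sd.sX η hη)
    · rw [hεY η hη]
      exact sign_mul sd₁.s0 sd.s0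
  · intro η hη y hy
    rw [sd.un] at hη
    obtain ⟨hm1, hm2⟩ := hm y hy
    rcases hη with hη | hη
    · rw [hεX η hη]
      have h3 := hm2 (I η) (hIX₁ η hη) η hη
      push_cast
      calc (a (I η) : ℂ) * (δ η : ℂ) * (I η : G → ℂ) (y : G)
          = (δ η : ℂ) * ((a (I η) : ℂ) * (I η : G → ℂ) (y : G)) := by ring
        _ = ((δ η : ℂ) * (δ η : ℂ)) * (η : H → ℂ) y := by rw [h3]; ring
        _ = (η : H → ℂ) y := by rw [sq_of_sign (sd.sX η hη), one_mul]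
    · rw [hεY η hη, hIY η hη]
      have h3 := hm1 η hη
      push_cast
      calc (ε : ℂ) * (δ₀ : ℂ) * (ζ η : G → ℂ) (y : G)
          = (δ₀ : ℂ) * ((ε : ℂ) * (ζ η : G → ℂ) (y : G)) := by ring
        _ = ((δ₀ : ℂ) * (δ₀ : ℂ)) * (η : H → ℂ) y := by rw [h3]; ring
        _ = (η : H → ℂ) y := by rw [sq_of_sign sd.s0, one_mul]

end Cfsg.Agent.Lib.H81CycPBIJ
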