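import Cfsg.Agent.Lib.Helper81CycPDefs
import Cfsg.Agent.Lib.H81CycGVAN
import Cfsg.Agent.Lib.H81CycGOUT
import Cfsg.Agent.Lib.H81CycGGRAMABS
import Cfsg.Agent.Lib.H81CycGLI
import Cfsg.Agent.Lib.H81CycGNULL
import Cfsg.Agent.Lib.H81CycGMAIN
import Cfsg.Agent.Lib.H81CycGBCY
import Cfsg.Agent.Lib.H81CycRK
import Cfsg.Agent.Lib.Helper84KleinF
import Cfsg.Agent.Lib.Helper84KleinE

set_option autoImplicit false

namespace Cfsg.Agent.Lib.H81CycPDINT
open Cfsg
open Cfsg.Agent.Lib.Helper81CycDefs Cfsg.Agent.Lib.Helper81CycGDefs Cfsg.Agent.Lib.Helper81CycPDefs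
open Cfsg.Agent.Lib.Helper81Base Cfsg.Agent.Lib.Helper80Trace Cfsg.Agent.Lib.Helper80Up
open scoped ComplexConjugate

universe u

variable {K : Type u} [Group K] [Fintype K] {p : ℕ} [Fact p.Prime] {M : Ideal AlgInt}

open Classical in
theorem conv_key (b : Set (IrrCharacter K)) (x y : K) :
    Cfsg.Agent.Lib.Helper20Center.conv (Cfsg.Agent.Lib.Helper20Center.classInd y) (blockCoeff b) x⁻¹
      = (∑ η : IrrCharacter K, (if η ∈ b then (η : K → ℂ) x * (η : K → ℂ) y else 0))
      / (Nat.card (Subgroup.centralizer ({y} : Set K)) : ℂ) := by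
  have h1 : ∀ k : K, blockCoeff b (k⁻¹ * x⁻¹) = (Nat.card K : ℂ)⁻¹ * ∑ η : IrrCharacter K,
      (if η ∈ b then (η : K → ℂ) 1 * (η : K → ℂ) (k * x) else 0) := by
    intro k
    rw [Cfsg.Agent.Lib.Helper20Block.blockCoeff_eq_sum]
    congr 1
    apply Finset.sum_congr rfl
    intro η _
    by_cases hη : η ∈ b
    · rw [if_pos hη, if_pos hη, ← irr_inv]
      congr 1
      have e1 : (k⁻¹ * x⁻¹)⁻¹ = x * k := by group
      have e2 : k * x = k * (x * k) * k⁻¹ := by group
      rw [e1, e2, irr_conj]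
    · rw [if_neg hη, if_neg hη]
  have h2 : ∀ η : IrrCharacter K, ∑ k : K, Cfsg.Agent.Lib.Helper20Center.classInd y k
      * (η : K → ℂ) (k * x) = ((Subgroup.centralizer ({y} : Set K)).index : ℂ) * (η : K → ℂ) y
        * (η : K → ℂ) x / (η : K → ℂ) 1 := by
    intro η
    rw [irr_sum_classfn η _ (fun g h => Cfsg.Agent.Lib.Helper20Center.classInd_isClassFunction y g h) x]
    congr 2
    rw [← Cfsg.Agent.Lib.Helper81Block.sum_conj_classfn (fun g h => irr_conj η g h) y]
    apply Finset.sum_congr rfl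
    intro k _
    simp only [Cfsg.Agent.Lib.Helper20Center.classInd, ite_mul, one_mul, zero_mul]
  have hC := Cfsg.Agent.Lib.Helper81Block.card_centralizer_mul_index y
  have hC0 : (Nat.card (Subgroup.centralizer ({y} : Set K)) : ℂ) ≠ 0 := by
    exact_mod_cast Nat.card_pos.ne'
  have hK0 : (Nat.card K : ℂ) ≠ 0 := card_ne_zero
  unfold Cfsg.Agent.Lib.Helper20Center.conv
  simp only [h1]
  have h3 : ∑ k : K, Cfsg.Agent.Lib.Helper20Center.classInd y k * ((Nat.card K : ℂ)⁻¹ *
      ∑ η : IrrCharacter K, (if η ∈ b then (η : K → ℂ) 1 * (η : K → ℂ) (k * x) else 0))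
      = (Nat.card K : ℂ)⁻¹ * ∑ η : IrrCharacter K, (if η ∈ b then (η : K → ℂ) 1 *
        ∑ k : K, Cfsg.Agent.Lib.Helper20Center.classInd y k * (η : K → ℂ) (k * x) else 0) := by
    rw [Finset.mul_sum]
    simp only [Finset.mul_sum]
    rw [Finset.sum_comm]
    apply Finset.sum_congr rfl
    intro η _
    by_cases hη : η ∈ b
    · simp only [if_pos hη, Finset.mul_sum]
      apply Finset.sum_congr rfl
      intro k _
      ring
    · simp only [if_neg hη, mul_zero, Finset.sum_const_zero]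
  rw [h3]
  simp only [h2]
  rw [eq_div_iff hC0, ← hC, Finset.mul_sum, Finset.sum_mul]
  apply Finset.sum_congr rfl
  intro η _
  by_cases hη : η ∈ b
  · simp only [if_pos hη]
    have h1' := irr_one_ne_zero η
    have hI0 : ((Subgroup.centralizer ({y} : Set K)).index : ℂ) ≠ 0 := by
      intro h0
      rw [h0, mul_zero] at hC
      exact hK0 hC.symm
    field_simp
  · simp only [if_neg hη, mul_zero, zero_mul]

open Classical in
/-- piece `P-DINT`: integrality of the kernel of the identity of a block. -/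
theorem delta_int (hM : IsPModular p M) {b : Set (IrrCharacter K)} (hb : IsPBlock M b) (x y : K) :
    MemLocalRing M ((∑ η : IrrCharacter K, (if η ∈ b then (η : K → ℂ) x * (η : K → ℂ) y else 0))
      / (Nat.card (Subgroup.centralizer ({y} : Set K)) : ℂ)) := by
  have hPr := Cfsg.Agent.Lib.Helper20Local.IsPModular.isPrime hM
  have hA := (Cfsg.Agent.Lib.Helper20Block.IsSC.conv hPr
    (Cfsg.Agent.Lib.Helper20Block.isSC_classInd hPr y)
    (Cfsg.Agent.Lib.Helper20Block.isSC_blockCoeff hPr hb)).2 x⁻¹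
  rw [conv_key] at hA
  exact hA

end Cfsg.Agent.Lib.H81CycPDINT
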