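import Cfsg.Agent.Lib.Helper81CycPDefs
import Cfsg.Agent.Lib.Helper84KleinF
import Cfsg.Agent.Lib.Helper84KleinE
import Cfsg.Agent.Lib.Helper80Corr

set_option autoImplicit false

namespace Cfsg.Agent.Lib.H81CycPIDX
open Cfsg
open Cfsg.Agent.Lib.Helper81CycDefs Cfsg.Agent.Lib.Helper81CycGDefs Cfsg.Agent.Lib.Helper81CycPDefs
open Cfsg.Agent.Lib.Helper81Base Cfsg.Agent.Lib.Helper80Trace Cfsg.Agent.Lib.Helper80Up
open scoped ComplexConjugate

universe u

variable {G : Type u} [Group G] [Fintype G] {p : ℕ} [Fact p.Prime] {M : Ideal AlgInt}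

/-- piece `P-IDX`: going up from `H ≥ N_G(P)`: the maximal pair and the inertial index. -/
theorem idx_up (hM : IsPModular p M) {H : Subgroup G} [Fintype H] {Z : Subgroup H}
    (hN : Subgroup.normalizer ((upS Z : Subgroup G) : Set G) ≤ H)
    {e₀ : Set (IrrCharacter (Subgroup.centralizer (Z : Set H)))}
    {c : Set (IrrCharacter H)} (hmax : IsMaximalBrauerPair p M c Z e₀)
    {B : Set (IrrCharacter G)} (hind : IsInducedBlock M H c B) :
    IsMaximalBrauerPair p M B (upS Z) (upBlk Z e₀) ∧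
    (Subgroup.centralizer ((upS Z : Subgroup G) : Set G)).relIndex (pstab (upS Z) (upBlk Z e₀))
      = (Subgroup.centralizer (Z : Set H)).relIndex (pstab Z e₀) := by
  have hC : Subgroup.centralizer ((upS Z : Subgroup G) : Set G) ≤ H :=
    (Subgroup.centralizer_le_normalizer _).trans hN
  refine ⟨Cfsg.Agent.Lib.Helper80Corr.isMaximal_up hM hN hmax
    (Cfsg.Agent.Lib.Helper84KleinF.pairOf_up_of_induced hM hC hmax.1 hind), ?_⟩
  have h1 : pstab (upS Z) (upBlk Z e₀) = (pstab Z e₀).map H.subtype := by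
    ext g
    constructor
    · intro hg
      have hgH : g ∈ H := hN (pstab_le _ _ hg)
      exact ⟨⟨g, hgH⟩, (Cfsg.Agent.Lib.Helper84KleinF.coe_mem_pstab_up hC (x := ⟨g, hgH⟩)).1 hg, rfl⟩
    · rintro ⟨x, hx, rfl⟩
      exact (Cfsg.Agent.Lib.Helper84KleinF.coe_mem_pstab_up hC).2 hx
  have h2 : (Subgroup.centralizer ((upS Z : Subgroup G) : Set G)).comap H.subtype
      = Subgroup.centralizer (Z : Set H) := by
    ext x
    rw [Subgroup.mem_comap]
    exact coe_mem_centralizer_upS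
  rw [h1, ← Subgroup.relIndex_comap, h2]

end Cfsg.Agent.Lib.H81CycPIDX
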