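import Cfsg.Agent.Lib.Helper81CycPDefs
import Cfsg.Agent.Lib.Helper81Subsec
import Cfsg.Agent.Lib.Helper82Mult
import Cfsg.Agent.Lib.Helper82Linear
import Cfsg.Agent.Lib.Helper20Block

set_option autoImplicit false

namespace Cfsg.Agent.Lib.H81CycPPINT1
open Cfsg
open Cfsg.Agent.Lib.Helper81CycPDefs Cfsg.Agent.Lib.Helper81Base Cfsg.Agent.Lib.Helper20Local
open scoped ComplexConjugate

universe u

variable {K : Type u} [Group K] [Fintype K] {p : ℕ} [Fact p.Prime] {M : Ideal AlgInt}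

/-- the sum of a character over a subgroup. -/
theorem sum_subgroup_nat {A : Type*} [Group A] {S : Type*} [Group S] [Fintype S] (j : S →* A)
    (ψ : IrrCharacter A) : ∃ n : ℕ, ∑ s : S, (ψ : A → ℂ) (j s) = (Nat.card S : ℂ) * n := by
  have h1 : IsCharacter S ((ψ : A → ℂ) ∘ j) :=
    Cfsg.Agent.Lib.Helper82Quot.isCharacter_comp (Cfsg.Agent.Lib.Helper82Irr.irr_isCharacter ψ) j
  obtain ⟨n, hn⟩ := Cfsg.Agent.Lib.Helper82Mult.exists_nat_classInner h1
    (Cfsg.Agent.Lib.Helper82Irr.irr_isCharacter (Cfsg.Agent.Lib.Helper82Linear.irrOne S))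
  refine ⟨n, ?_⟩
  rw [← hn]
  unfold classInner
  have hne : (Nat.card S : ℂ) ≠ 0 := by exact_mod_cast Nat.card_pos.ne'
  rw [mul_inv_cancel_left₀ hne]
  apply Finset.sum_congr rfl
  intro s _
  simp [Cfsg.Agent.Lib.Helper82Linear.irrOne]

/-- piece `P-PINT1`: the sum of a character over `x S`, `S` a subgroup of `C(x)`. -/
theorem sum_coset_int (hM : IsPModular p M) (χ : IrrCharacter K) (x : K) (S : Subgroup K) [Fintype S]
    (hS : S ≤ Subgroup.centralizer ({x} : Set K)) :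
    MemLocalRing M ((∑ s : S, (χ : K → ℂ) (x * (s : K))) / (Nat.card S : ℂ)) := by
  classical
  have hPr := hM.2.1.isPrime
  set A : Subgroup K := Subgroup.centralizer ({x} : Set K) with hA
  have hxA : x ∈ A := by
    rw [hA, Subgroup.mem_centralizer_singleton_iff]
  let xt : A := ⟨x, hxA⟩
  have hcen : ∀ g : A, g * xt = xt * g := by
    intro g
    apply Subtype.ext
    exact Subgroup.mem_centralizer_singleton_iff.1 g.2
  obtain ⟨m, -, hm⟩ := Cfsg.Agent.Lib.Helper82Mult.exists_mult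
    (Cfsg.Agent.Lib.Helper82Mult.isCharacter_restrict
      (Cfsg.Agent.Lib.Helper82Irr.irr_isCharacter χ) A)
  let j : S →* A := Subgroup.inclusion hS
  have h1 : ∀ s : S, (χ : K → ℂ) (x * (s : K))
      = ∑ ψ : IrrCharacter A, (m ψ : ℂ) * ((ψ : A → ℂ) xt / (ψ : A → ℂ) 1) * (ψ : A → ℂ) (j s) := by
    intro s
    have h2 := congrFun hm (xt * j s)
    have h3 : (χ : K → ℂ) (x * (s : K)) = (χ : K → ℂ) ((xt * j s : A) : K) := rfl
    rw [h3, h2, Finset.sum_apply]
    apply Finset.sum_congr rfl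
    intro ψ _
    rw [Pi.smul_apply, smul_eq_mul, Cfsg.Agent.Lib.Helper81Subsec.irr_central_mul ψ hcen]
    ring
  simp only [h1]
  rw [Finset.sum_comm]
  simp only [← Finset.mul_sum]
  rw [Finset.sum_div]
  apply lrSum hPr
  intro ψ _
  obtain ⟨n, hn⟩ := sum_subgroup_nat j ψ
  rw [hn]
  have hne : (Nat.card S : ℂ) ≠ 0 := by exact_mod_cast Nat.card_pos.ne'
  have e : (m ψ : ℂ) * ((ψ : A → ℂ) xt / (ψ : A → ℂ) 1) * ((Nat.card S : ℂ) * n) / (Nat.card S : ℂ)
      = (m ψ : ℂ) * ((ψ : A → ℂ) xt / (ψ : A → ℂ) 1) * n := by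
    field_simp
  rw [e]
  apply lrMul hPr (lrMul hPr (memLocalRing_natCast hPr _) ?_) (memLocalRing_natCast hPr _)
  have h4 := Cfsg.Agent.Lib.Helper20Block.centralChar_mem hPr ψ.2 xt
  have h5 : centralChar (ψ : A → ℂ) xt = (ψ : A → ℂ) xt / (ψ : A → ℂ) 1 := by
    unfold centralChar
    have : Subgroup.centralizer ({xt} : Set A) = ⊤ := by
      rw [eq_top_iff]
      intro g _
      rw [Subgroup.mem_centralizer_singleton_iff]
      exact hcen g
    rw [this, Subgroup.index_top]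
    simp
  rwa [h5] at h4

end Cfsg.Agent.Lib.H81CycPPINT1
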