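import Cfsg.Agent.Lib.Helper81CycPDefs
import Cfsg.Agent.Lib.H81CycGVAN
import Cfsg.Agent.Lib.H81CycGOUT
import Cfsg.Agent.Lib.H81CycGGRAMABS
import Cfsg.Agent.Lib.H81CycGLI
import Cfsg.Agent.Lib.H81CycGNULL
import Cfsg.Agent.Lib.H81CycGMAIN
import Cfsg.Agent.Lib.H81CycGBCY
import Cfsg.Agent.Lib.H81CycRK
import Cfsg.Agent.Lib.Helper84KleinF
import Cfsg.Agent.Lib.Helper84KleinE
import Cfsg.Agent.Lib.H81CycPPINT1

set_option autoImplicit false

namespace Cfsg.Agent.Lib.H81CycPPINT
open Cfsg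
open Cfsg.Agent.Lib.Helper81CycDefs Cfsg.Agent.Lib.Helper81CycGDefs Cfsg.Agent.Lib.Helper81CycPDefs
open Cfsg.Agent.Lib.Helper81Base Cfsg.Agent.Lib.Helper80Trace Cfsg.Agent.Lib.Helper80Up
open scoped ComplexConjugate

universe u

variable {K : Type u} [Group K] [Fintype K] {p : ℕ} [Fact p.Prime] {M : Ideal AlgInt}

/-- piece `P-PINT`: a local integral combination of characters vanishing on the `p`-singular
elements. -/
theorem proj_int (hM : IsPModular p M) (cf : IrrCharacter K → ℂ) (hc : ∀ χ, MemLocalRing M (cf χ))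
    (hv : ∀ g : K, p ∣ orderOf g → ∑ χ : IrrCharacter K, cf χ * (χ : K → ℂ) g = 0) (x : K) :
    MemLocalRing M ((∑ χ : IrrCharacter K, cf χ * (χ : K → ℂ) x)
      / (Nat.card (Subgroup.centralizer ({x} : Set K)) : ℂ)) := by
  classical
  have hp : p.Prime := Fact.out
  have hPr : M.IsPrime := hM.2.1.isPrime
  by_cases hx : p ∣ orderOf x
  · rw [hv x hx, zero_div]
    exact Cfsg.Agent.Lib.Helper20Local.memLocalRing_zero hPr
  -- a Sylow subgroup of the centralizer
  obtain ⟨S₀⟩ : Nonempty (Sylow p (Subgroup.centralizer ({x} : Set K))) := inferInstance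
  obtain ⟨S, hSdef⟩ : ∃ S : Subgroup K,
      S = (S₀ : Subgroup (Subgroup.centralizer ({x} : Set K))).map
        (Subgroup.centralizer ({x} : Set K)).subtype := ⟨_, rfl⟩
  have hSle : S ≤ Subgroup.centralizer ({x} : Set K) := by
    rw [hSdef]
    exact Subgroup.map_subtype_le _
  have hSp : IsPGroup p S := by
    rw [hSdef]
    exact S₀.2.map _
  have hScard : Nat.card S = Nat.card (S₀ : Subgroup (Subgroup.centralizer ({x} : Set K))) := by
    rw [hSdef]
    exact Subgroup.card_map_of_injective (Subgroup.subtype_injective _)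
  have hidx : ¬ p ∣ (S₀ : Subgroup (Subgroup.centralizer ({x} : Set K))).index := S₀.not_dvd_index
  have hmul : Nat.card S * (S₀ : Subgroup (Subgroup.centralizer ({x} : Set K))).index
      = Nat.card (Subgroup.centralizer ({x} : Set K)) := by
    rw [hScard]
    exact Subgroup.card_mul_index _
  have hS0 : (Nat.card S : ℂ) ≠ 0 := by
    exact_mod_cast (Nat.card_pos (α := S)).ne'
  -- singular elements
  have hsing : ∀ s : S, s ≠ 1 → p ∣ orderOf (x * (s : K)) := by
    intro s hs
    have hcomm : Commute x (s : K) := by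
      have := Subgroup.mem_centralizer_iff.1 (hSle s.2) x (Set.mem_singleton x)
      exact this
    obtain ⟨k, hk⟩ := (IsPGroup.iff_orderOf.1 hSp) s
    rw [← Subgroup.orderOf_coe] at hk
    have hk0 : k ≠ 0 := by
      rintro rfl
      rw [pow_zero, orderOf_eq_one_iff] at hk
      exact hs (Subtype.ext hk)
    have hcop : (orderOf x).Coprime (orderOf (s : K)) := by
      rw [hk]
      exact Nat.Coprime.pow_right k (Nat.Coprime.symm ((Nat.Prime.coprime_iff_not_dvd hp).2 hx))
    rw [hcomm.orderOf_mul_eq_mul_orderOf_of_coprime hcop, hk]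
    exact Dvd.dvd.mul_left (dvd_pow_self p hk0) _
  have hsum : ∑ s : S, ∑ χ : IrrCharacter K, cf χ * (χ : K → ℂ) (x * (s : K))
      = ∑ χ : IrrCharacter K, cf χ * (χ : K → ℂ) x := by
    rw [Finset.sum_eq_single (1 : S)]
    · simp
    · intro s _ hs
      exact hv _ (hsing s hs)
    · intro h
      exact absurd (Finset.mem_univ _) h
  have h1 : MemLocalRing M ((∑ χ : IrrCharacter K, cf χ * (χ : K → ℂ) x) / (Nat.card S : ℂ)) := by
    rw [← hsum, Finset.sum_comm, Finset.sum_div]
    apply Cfsg.Agent.Lib.Helper81Local.memLocalRing_sum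
    intro χ _
    rw [← Finset.mul_sum, mul_div_assoc]
    exact Cfsg.Agent.Lib.Helper81Local.memLocalRing_mul (hc χ)
      (Cfsg.Agent.Lib.H81CycPPINT1.sum_coset_int hM χ x S hSle)
  have h2 := Cfsg.Agent.Lib.Helper20Local.memLocalRing_inv_natCast hM hidx
  have h3 := Cfsg.Agent.Lib.Helper81Local.memLocalRing_mul h1 h2
  have e : (∑ χ : IrrCharacter K, cf χ * (χ : K → ℂ) x)
      / (Nat.card (Subgroup.centralizer ({x} : Set K)) : ℂ)
      = (∑ χ : IrrCharacter K, cf χ * (χ : K → ℂ) x) / (Nat.card S : ℂ)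
        * ((S₀ : Subgroup (Subgroup.centralizer ({x} : Set K))).index : ℂ)⁻¹ := by
    rw [← hmul, Nat.cast_mul, div_mul_eq_div_div, div_eq_mul_inv _
      (((S₀ : Subgroup (Subgroup.centralizer ({x} : Set K))).index : ℂ))]
  rw [e]
  exact h3

end Cfsg.Agent.Lib.H81CycPPINT
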