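import Cfsg.Agent.Lib.Helper81CycPDefs
import Cfsg.Agent.Lib.H81CycGVAN
import Cfsg.Agent.Lib.H81CycGOUT
import Cfsg.Agent.Lib.H81CycGGRAMABS
import Cfsg.Agent.Lib.H81CycGLI
import Cfsg.Agent.Lib.H81CycGNULL
import Cfsg.Agent.Lib.H81CycGMAIN
import Cfsg.Agent.Lib.H81CycGBCY
import Cfsg.Agent.Lib.H81CycRK
import Cfsg.Agent.Lib.Helper84KleinF
import Cfsg.Agent.Lib.Helper84KleinE

set_option autoImplicit false

namespace Cfsg.Agent.Lib.H81CycPMU0
open Cfsg
open Cfsg.Agent.Lib.Helper81CycDefs Cfsg.Agent.Lib.Helper81CycGDefs Cfsg.Agent.Lib.Helper81CycPDefs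
open Cfsg.Agent.Lib.Helper81Base Cfsg.Agent.Lib.Helper80Trace Cfsg.Agent.Lib.Helper80Up
open scoped ComplexConjugate

universe u

variable {G : Type u} [Group G] [Fintype G] {p : ℕ} [Fact p.Prime] {M : Ideal AlgInt}
  {P H : Subgroup G} [Fintype H] {c : Set (IrrCharacter H)} {B : Set (IrrCharacter G)}
  {X Y : Set (IrrCharacter H)} {δ : IrrCharacter H → ℤ} {δ₀ : ℤ} {e : ℕ}

variable {I : IrrCharacter H → IrrCharacter G} {εs : IrrCharacter H → ℤ}

/-- piece `P-MU0`: the kernel. -/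
theorem kernel_eq_muF (x : G) (y : H) : signedBijectionKernel c I εs x y = muF c I εs x y := by
  classical
  rw [Cfsg.Agent.Lib.Helper84KleinE.kernel_eq, Finset.sum_filter]
  unfold muF
  apply Finset.sum_congr rfl
  intro η _
  congr

/-- piece `P-MU0` -/
theorem muF_conj (g x : G) (y : H) : muF c I εs (g * x * g⁻¹) y = muF c I εs x y := by
  unfold muF
  apply Finset.sum_congr rfl
  intro η _
  rw [irr_conj]

end Cfsg.Agent.Lib.H81CycPMU0
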