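import Cfsg.Agent.Lib.Helper81CycPDefs
import Cfsg.Agent.Lib.H81CycGVAN
import Cfsg.Agent.Lib.H81CycGOUT
import Cfsg.Agent.Lib.H81CycGGRAMABS
import Cfsg.Agent.Lib.H81CycGLI
import Cfsg.Agent.Lib.H81CycGNULL
import Cfsg.Agent.Lib.H81CycGMAIN
import Cfsg.Agent.Lib.H81CycGBCY
import Cfsg.Agent.Lib.H81CycRK
import Cfsg.Agent.Lib.Helper84KleinF
import Cfsg.Agent.Lib.Helper84KleinE

set_option autoImplicit false

namespace Cfsg.Agent.Lib.H81CycPMU1
open Cfsg
open Cfsg.Agent.Lib.Helper81CycDefs Cfsg.Agent.Lib.Helper81CycGDefs Cfsg.Agent.Lib.Helper81CycPDefs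
open Cfsg.Agent.Lib.Helper81Base Cfsg.Agent.Lib.Helper80Trace Cfsg.Agent.Lib.Helper80Up
open scoped ComplexConjugate

universe u

variable {G : Type u} [Group G] [Fintype G] {p : ℕ} [Fact p.Prime] {M : Ideal AlgInt}
  {P H : Subgroup G} [Fintype H] {c : Set (IrrCharacter H)} {B : Set (IrrCharacter G)}
  {X Y : Set (IrrCharacter H)} {δ : IrrCharacter H → ℤ} {δ₀ : ℤ} {e : ℕ}

variable {I : IrrCharacter H → IrrCharacter G} {εs : IrrCharacter H → ℤ}

open Classical in
/-- piece `P-MU1`: the kernel at a good element of `H` in the first variable. -/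
theorem muF_good (mt : MT p M P H c B I εs) {y' : H} (hy' : Good p P H y') (y : H) :
    muF c I εs (y' : G) y
      = ∑ η : IrrCharacter H, (if η ∈ c then (η : H → ℂ) y' * (η : H → ℂ) y else 0) := by
  unfold muF
  apply Finset.sum_congr rfl
  intro η _
  by_cases hη : η ∈ c
  · rw [if_pos hη, if_pos hη, mt.mt η hη y' hy']
  · rw [if_neg hη, if_neg hη]

end Cfsg.Agent.Lib.H81CycPMU1
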