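import Cfsg.Agent.Lib.Helper81CycPDefs
import Cfsg.Agent.Lib.H81CycGVAN
import Cfsg.Agent.Lib.H81CycGOUT
import Cfsg.Agent.Lib.H81CycGGRAMABS
import Cfsg.Agent.Lib.H81CycGLI
import Cfsg.Agent.Lib.H81CycGNULL
import Cfsg.Agent.Lib.H81CycGMAIN
import Cfsg.Agent.Lib.H81CycGBCY
import Cfsg.Agent.Lib.H81CycRK
import Cfsg.Agent.Lib.Helper84KleinF
import Cfsg.Agent.Lib.Helper84KleinE
import Cfsg.Agent.Lib.H81CycPVAN
import Cfsg.Agent.Lib.H81CycPMU0
import Cfsg.Agent.Lib.H81CycPMU1
import Cfsg.Agent.Lib.H81CycPMU2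
import Cfsg.Agent.Lib.H81CycPFUS

set_option autoImplicit false

namespace Cfsg.Agent.Lib.H81CycPSEP
open Cfsg
open Cfsg.Agent.Lib.Helper81CycDefs Cfsg.Agent.Lib.Helper81CycGDefs Cfsg.Agent.Lib.Helper81CycPDefs
open Cfsg.Agent.Lib.Helper81Base Cfsg.Agent.Lib.Helper80Trace Cfsg.Agent.Lib.Helper80Up
open scoped ComplexConjugate

universe u

variable {G : Type u} [Group G] [Fintype G] {p : ℕ} [Fact p.Prime] {M : Ideal AlgInt}
  {P H : Subgroup G} [Fintype H] {c : Set (IrrCharacter H)} {B : Set (IrrCharacter G)}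
  {X Y : Set (IrrCharacter H)} {δ : IrrCharacter H → ℤ} {δ₀ : ℤ} {e : ℕ}

variable {I : IrrCharacter H → IrrCharacter G} {εs : IrrCharacter H → ℤ}

/-- piece `P-SEP`: separation. -/
theorem muF_sep (mt : MT p M P H c B I εs) (x : G) (y : H)
    (hxy : ¬ (IsPRegular p x ↔ IsPRegular p y)) : muF c I εs x y = 0 := by
  classical
  have hM := mt.ph.hM
  have hc : IsPBlock M c := mt.ph.ind.1
  have hB : IsPBlock M B := mt.ph.ind.2.1
  by_cases hx : p ∣ orderOf x
  · -- `x` singular, so `y` regular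
    have hy : ¬ p ∣ orderOf y := by
      intro hy
      apply hxy
      unfold IsPRegular
      exact ⟨fun h => absurd hx h, fun h => absurd hy h⟩
    by_cases hg : ∀ (g : G) (y' : H), Good p P H y' → g * x * g⁻¹ ≠ (y' : G)
    · unfold muF
      apply Finset.sum_eq_zero
      intro η _
      split_ifs with hη
      · rw [H81CycPVAN.van_G mt.ph (mt.bij.mapsTo hη) hx hg]; simp
      · rfl
    · push Not at hg
      obtain ⟨g, y', hy', hgx⟩ := hg
      rw [← H81CycPMU0.muF_conj g x y, hgx, H81CycPMU1.muF_good mt hy' y]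
      have hs : p ∣ orderOf y'⁻¹ := by
        rw [orderOf_inv]; exact H81CycPFUS.good_sing hy'
      have := Cfsg.Agent.Lib.Helper81Orth.weak_block_orth hM hc hy hs
      refine Eq.trans ?_ this
      apply Finset.sum_congr rfl
      intro η _
      split_ifs
      · rw [irr_inv, Complex.conj_conj, mul_comm]
      · rfl
  · have hy : p ∣ orderOf y := by
      by_contra hy
      apply hxy
      unfold IsPRegular
      exact ⟨fun _ => hy, fun _ => hx⟩
    by_cases hg : Good p P H y
    · rw [H81CycPMU2.muF_good' mt x hg]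
      have hs : p ∣ orderOf (y : G)⁻¹ := by
        rw [orderOf_inv, Subgroup.orderOf_coe]; exact hy
      have := Cfsg.Agent.Lib.Helper81Orth.weak_block_orth hM hB hx hs
      refine Eq.trans ?_ this
      apply Finset.sum_congr rfl
      intro χ _
      split_ifs
      · rw [irr_inv, Complex.conj_conj]
      · rfl
    · unfold muF
      apply Finset.sum_eq_zero
      intro η _
      split_ifs with hη
      · rw [H81CycPVAN.van_H mt.ph hη hy hg]; simp
      · rfl

end Cfsg.Agent.Lib.H81CycPSEP
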