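import Cfsg.Agent.Lib.Helper81CycPDefs
import Cfsg.Agent.Lib.H81CycGVAN
import Cfsg.Agent.Lib.H81CycGOUT
import Cfsg.Agent.Lib.H81CycGGRAMABS
import Cfsg.Agent.Lib.H81CycGLI
import Cfsg.Agent.Lib.H81CycGNULL
import Cfsg.Agent.Lib.H81CycGMAIN
import Cfsg.Agent.Lib.H81CycGBCY
import Cfsg.Agent.Lib.H81CycRK
import Cfsg.Agent.Lib.Helper84KleinF
import Cfsg.Agent.Lib.Helper84KleinE
import Cfsg.Agent.Lib.H81CycPSEP
import Cfsg.Agent.Lib.H81CycPPINT

set_option autoImplicit false

namespace Cfsg.Agent.Lib.H81CycPINT2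
open Cfsg
open Cfsg.Agent.Lib.Helper81CycDefs Cfsg.Agent.Lib.Helper81CycGDefs Cfsg.Agent.Lib.Helper81CycPDefs
open Cfsg.Agent.Lib.Helper81Base Cfsg.Agent.Lib.Helper80Trace Cfsg.Agent.Lib.Helper80Up
open scoped ComplexConjugate

universe u

variable {G : Type u} [Group G] [Fintype G] {p : ℕ} [Fact p.Prime] {M : Ideal AlgInt}
  {P H : Subgroup G} [Fintype H] {c : Set (IrrCharacter H)} {B : Set (IrrCharacter G)}
  {X Y : Set (IrrCharacter H)} {δ : IrrCharacter H → ℤ} {δ₀ : ℤ} {e : ℕ}

variable {I : IrrCharacter H → IrrCharacter G} {εs : IrrCharacter H → ℤ}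

/-- piece `P-INT2`: integrality, both elements `p`-regular. -/
theorem muF_int_reg (mt : MT p M P H c B I εs) (x : G) (y : H) (hx : ¬ p ∣ orderOf x)
    (hy : ¬ p ∣ orderOf y) :
    MemLocalRing M (muF c I εs x y / (Nat.card (Subgroup.centralizer ({x} : Set G)) : ℂ)) ∧
    MemLocalRing M (muF c I εs x y / (Nat.card (Subgroup.centralizer ({y} : Set H)) : ℂ)) := by
  classical
  have hPr : M.IsPrime := mt.ph.hM.2.1.isPrime
  constructor
  · -- in `G`
    set cf : IrrCharacter G → ℂ := fun χ =>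
      ∑ η : IrrCharacter H, (if η ∈ c ∧ I η = χ then (εs η : ℂ) * (η : H → ℂ) y else 0) with hcf
    have hexp : ∀ g : G, ∑ χ : IrrCharacter G, cf χ * (χ : G → ℂ) g = muF c I εs g y := by
      intro g
      simp only [hcf, Finset.sum_mul]
      rw [Finset.sum_comm]
      unfold muF
      apply Finset.sum_congr rfl
      intro η _
      by_cases hη : η ∈ c
      · rw [if_pos hη, Finset.sum_eq_single (I η)]
        · rw [if_pos ⟨hη, rfl⟩]
          ring
        · intro χ _ hχ
          rw [if_neg (fun h => hχ h.2.symm), zero_mul]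
        · intro h
          exact absurd (Finset.mem_univ _) h
      · rw [if_neg hη]
        apply Finset.sum_eq_zero
        intro χ _
        rw [if_neg (fun h => hη h.1), zero_mul]
    have hc : ∀ χ, MemLocalRing M (cf χ) := by
      intro χ
      apply Cfsg.Agent.Lib.Helper81Local.memLocalRing_sum
      intro η _
      split_ifs
      · exact Cfsg.Agent.Lib.Helper81Local.memLocalRing_mul
          (Cfsg.Agent.Lib.Helper81Local.memLocalRing_intCast _)
          (Cfsg.Agent.Lib.Helper84KleinE.irr_mem η y)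
      · exact Cfsg.Agent.Lib.Helper20Local.memLocalRing_zero hPr
    have hv : ∀ g : G, p ∣ orderOf g → ∑ χ : IrrCharacter G, cf χ * (χ : G → ℂ) g = 0 := by
      intro g hg
      rw [hexp]
      apply Cfsg.Agent.Lib.H81CycPSEP.muF_sep mt
      intro hiff
      exact (hiff.2 hy) hg
    have := Cfsg.Agent.Lib.H81CycPPINT.proj_int mt.ph.hM cf hc hv x
    rwa [hexp] at this
  · -- in `H`
    set cf : IrrCharacter H → ℂ := fun η =>
      if η ∈ c then (εs η : ℂ) * (I η : G → ℂ) x else 0 with hcf
    have hexp : ∀ z : H, ∑ η : IrrCharacter H, cf η * (η : H → ℂ) z = muF c I εs x z := by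
      intro z
      unfold muF
      apply Finset.sum_congr rfl
      intro η _
      simp only [hcf]
      by_cases hη : η ∈ c
      · rw [if_pos hη, if_pos hη]
      · rw [if_neg hη, if_neg hη, zero_mul]
    have hc : ∀ η, MemLocalRing M (cf η) := by
      intro η
      simp only [hcf]
      split_ifs
      · exact Cfsg.Agent.Lib.Helper81Local.memLocalRing_mul
          (Cfsg.Agent.Lib.Helper81Local.memLocalRing_intCast _)
          (Cfsg.Agent.Lib.Helper84KleinE.irr_mem (I η) x)
      · exact Cfsg.Agent.Lib.Helper20Local.memLocalRing_zero hPr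
    have hv : ∀ z : H, p ∣ orderOf z → ∑ η : IrrCharacter H, cf η * (η : H → ℂ) z = 0 := by
      intro z hz
      rw [hexp]
      apply Cfsg.Agent.Lib.H81CycPSEP.muF_sep mt
      intro hiff
      exact (hiff.1 hx) hz
    have := Cfsg.Agent.Lib.H81CycPPINT.proj_int mt.ph.hM cf hc hv y
    rwa [hexp] at this

end Cfsg.Agent.Lib.H81CycPINT2
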