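import Cfsg.Agent.Lib.Helper81CycPDefs
import Cfsg.Agent.Lib.H81CycGVAN
import Cfsg.Agent.Lib.H81CycGOUT
import Cfsg.Agent.Lib.H81CycGGRAMABS
import Cfsg.Agent.Lib.H81CycGLI
import Cfsg.Agent.Lib.H81CycGNULL
import Cfsg.Agent.Lib.H81CycGMAIN
import Cfsg.Agent.Lib.H81CycGBCY
import Cfsg.Agent.Lib.H81CycRK
import Cfsg.Agent.Lib.Helper84KleinF
import Cfsg.Agent.Lib.Helper84KleinE
import Cfsg.Agent.Lib.H81CycPMU0
import Cfsg.Agent.Lib.H81CycPSEP
import Cfsg.Agent.Lib.H81CycPINT1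
import Cfsg.Agent.Lib.H81CycPINT2

set_option autoImplicit false

namespace Cfsg.Agent.Lib.H81CycPPERF
open Cfsg
open Cfsg.Agent.Lib.Helper81CycDefs Cfsg.Agent.Lib.Helper81CycGDefs Cfsg.Agent.Lib.Helper81CycPDefs
open Cfsg.Agent.Lib.Helper81Base Cfsg.Agent.Lib.Helper80Trace Cfsg.Agent.Lib.Helper80Up
open scoped ComplexConjugate

universe u

variable {G : Type u} [Group G] [Fintype G] {p : ℕ} [Fact p.Prime] {M : Ideal AlgInt}
  {P H : Subgroup G} [Fintype H] {c : Set (IrrCharacter H)} {B : Set (IrrCharacter G)}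
  {X Y : Set (IrrCharacter H)} {δ : IrrCharacter H → ℤ} {δ₀ : ℤ} {e : ℕ}

variable {I : IrrCharacter H → IrrCharacter G} {εs : IrrCharacter H → ℤ}

/-- piece `P-PERF`: the isometry is perfect. -/
theorem perfect_of_mt (mt : MT p M P H c B I εs) : IsPerfectIsometry p M c B I εs := by
  refine ⟨mt.bij, mt.sg, ?_⟩
  intro x y
  rw [Cfsg.Agent.Lib.H81CycPMU0.kernel_eq_muF]
  have hPr : M.IsPrime := mt.ph.hM.2.1.isPrime
  by_cases hxy : (IsPRegular p x ↔ IsPRegular p y)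
  · by_cases hx : p ∣ orderOf x
    · have hy : p ∣ orderOf y := by
        by_contra hy
        exact (hxy.2 hy) hx
      obtain ⟨h1, h2⟩ := Cfsg.Agent.Lib.H81CycPINT1.muF_int_sing mt x y hx hy
      exact ⟨h1, h2, Or.inl hxy⟩
    · have hy : ¬ p ∣ orderOf y := hxy.1 hx
      obtain ⟨h1, h2⟩ := Cfsg.Agent.Lib.H81CycPINT2.muF_int_reg mt x y hx hy
      exact ⟨h1, h2, Or.inl hxy⟩
  · exact Cfsg.Agent.Lib.Helper84KleinE.perfect_of_zero
      (Cfsg.Agent.Lib.H81CycPSEP.muF_sep mt x y hxy) _ _ _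

end Cfsg.Agent.Lib.H81CycPPERF
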