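import Cfsg.Agent.Lib.Helper81CycPDefs
import Cfsg.Agent.Lib.H81CycGVAN
import Cfsg.Agent.Lib.H81CycGOUT
import Cfsg.Agent.Lib.H81CycGGRAMABS
import Cfsg.Agent.Lib.H81CycGLI
import Cfsg.Agent.Lib.H81CycGNULL
import Cfsg.Agent.Lib.H81CycGMAIN
import Cfsg.Agent.Lib.H81CycGBCY
import Cfsg.Agent.Lib.H81CycRK
import Cfsg.Agent.Lib.Helper84KleinF
import Cfsg.Agent.Lib.Helper84KleinE

set_option autoImplicit false

namespace Cfsg.Agent.Lib.H81CycPSD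
open Cfsg
open Cfsg.Agent.Lib.Helper81CycDefs Cfsg.Agent.Lib.Helper81CycGDefs Cfsg.Agent.Lib.Helper81CycPDefs
open Cfsg.Agent.Lib.Helper81Base Cfsg.Agent.Lib.Helper80Trace Cfsg.Agent.Lib.Helper80Up
open scoped ComplexConjugate

universe u

variable {K : Type u} [Group K] [Fintype K] {p : ℕ} [Fact p.Prime] {M : Ideal AlgInt}

/-- piece `P-SD`: the sign data of a block with cyclic defect group. -/
theorem sd_of_max (hM : IsPModular p M) {B : Set (IrrCharacter K)} {P : Subgroup K}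
    {c : Set (IrrCharacter (Subgroup.centralizer (P : Set K)))}
    (hmax : IsMaximalBrauerPair p M B P c) (hcyc : IsCyclic P) (hP1 : P ≠ ⊥) :
    ∃ (X Y : Set (IrrCharacter K)) (δ : IrrCharacter K → ℤ) (δ₀ : ℤ),
      SD p B X Y δ δ₀ ((Subgroup.centralizer (P : Set K)).relIndex (pstab P c)) ∧
      (Subgroup.centralizer (P : Set K)).relIndex (pstab P c) * Nat.card Y + 1 = Nat.card P := by
  classical
  have hPr : M.IsPrime := hM.2.1.isPrime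
  obtain ⟨-, x₀, t₀, T, f, hcy⟩ := Cfsg.Agent.Lib.H81CycGBCY.cy_of_max hM hmax hcyc hP1
  have hrk := Cfsg.Agent.Lib.H81CycRK.rank_ge_cyc hM hmax hcyc hP1
  obtain ⟨h1, X, Y, δ, δ₀, hun, hdj, hcX, hcY, hsX, hs0, hrel, -⟩ :=
    Cfsg.Agent.Lib.H81CycGMAIN.main_G hcy hrk
  exact ⟨X, Y, δ, δ₀, ⟨hun, hdj, hcX, h1, hsX, hs0, hrel⟩, hcY⟩

end Cfsg.Agent.Lib.H81CycPSD
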