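import Cfsg.Agent.Lib.Helper81CycPDefs
import Cfsg.Agent.Lib.H81CycGVAN
import Cfsg.Agent.Lib.H81CycGOUT
import Cfsg.Agent.Lib.H81CycGGRAMABS
import Cfsg.Agent.Lib.H81CycGLI
import Cfsg.Agent.Lib.H81CycGNULL
import Cfsg.Agent.Lib.H81CycGMAIN
import Cfsg.Agent.Lib.H81CycGBCY
import Cfsg.Agent.Lib.H81CycRK
import Cfsg.Agent.Lib.Helper84KleinF
import Cfsg.Agent.Lib.Helper84KleinE
import Cfsg.Agent.Lib.H81CycPSD
import Cfsg.Agent.Lib.H81CycPIDX
import Cfsg.Agent.Lib.H81CycPPH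
import Cfsg.Agent.Lib.H81CycPPERF
import Cfsg.Agent.Lib.H81CycPBIJ

set_option autoImplicit false

namespace Cfsg.Agent.Lib.H81CycPFINAL
open Cfsg
open Cfsg.Agent.Lib.Helper81CycDefs Cfsg.Agent.Lib.Helper81CycGDefs Cfsg.Agent.Lib.Helper81CycPDefs
open Cfsg.Agent.Lib.Helper81Base Cfsg.Agent.Lib.Helper80Trace Cfsg.Agent.Lib.Helper80Up
open scoped ComplexConjugate

universe u

variable {G : Type u} [Group G] [Fintype G] {p : ℕ} [Fact p.Prime] {M : Ideal AlgInt}

/-- piece `P-FINAL`: S4635 for `H = N_G(Z)`. -/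
theorem final_P (hM : IsPModular p M) {B : Set (IrrCharacter G)} {P : Subgroup G}
    (hPD : IsDefectGroup p M B P) (hP1 : P ≠ ⊥) (hcyc : IsCyclic P) {Z : Subgroup G} (hZ : Z ≤ P)
    (hZcard : Nat.card Z = p) {c : Set (IrrCharacter (Subgroup.normalizer (Z : Set G)))}
    (hcD : IsDefectGroup p M c (P.subgroupOf (Subgroup.normalizer (Z : Set G))))
    (hc : IsInducedBlock M (Subgroup.normalizer (Z : Set G)) c B) :
    Nat.card c = Nat.card B ∧ blockRank p c = blockRank p B ∧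
      ∃ (I : IrrCharacter (Subgroup.normalizer (Z : Set G)) → IrrCharacter G)
        (ε : IrrCharacter (Subgroup.normalizer (Z : Set G)) → ℤ), IsPerfectIsometry p M c B I ε := by
  classical
  have hp : p.Prime := Fact.out
  obtain ⟨ph, hNP⟩ := Cfsg.Agent.Lib.H81CycPPH.ph_of_hyp hM hPD hcyc hZ hZcard hcD hc
  have hPH : P ≤ Subgroup.normalizer (Z : Set G) := ph.le
  obtain ⟨e₀, hmax⟩ := Cfsg.Agent.Lib.Helper80Corr.exists_maximal_of_defectGroup hM hc.1 hcD
  have hup : upS (P.subgroupOf (Subgroup.normalizer (Z : Set G))) = P := upS_subgroupOf hPH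
  have hN : Subgroup.normalizer
      ((upS (P.subgroupOf (Subgroup.normalizer (Z : Set G))) : Subgroup G) : Set G)
      ≤ Subgroup.normalizer (Z : Set G) := by
    rw [hup]
    exact hNP
  obtain ⟨hmaxG, hidx⟩ := Cfsg.Agent.Lib.H81CycPIDX.idx_up hM hN hmax hc
  have hcyc' : IsCyclic (P.subgroupOf (Subgroup.normalizer (Z : Set G))) :=
    isCyclic_of_surjective (Subgroup.subgroupOfEquivOfLe hPH).symm
      (Subgroup.subgroupOfEquivOfLe hPH).symm.surjective
  have hP1' : P.subgroupOf (Subgroup.normalizer (Z : Set G)) ≠ ⊥ := by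
    intro h
    rw [Subgroup.subgroupOf_eq_bot, disjoint_iff, inf_eq_left.2 hPH] at h
    exact hP1 h
  have hcycG : IsCyclic (upS (P.subgroupOf (Subgroup.normalizer (Z : Set G)))) := by
    rw [hup]
    exact hcyc
  have hP1G : upS (P.subgroupOf (Subgroup.normalizer (Z : Set G))) ≠ ⊥ := by
    rw [hup]
    exact hP1
  obtain ⟨X, Y, δ, δ₀, sd, hcardY⟩ := Cfsg.Agent.Lib.H81CycPSD.sd_of_max hM hmax hcyc' hP1'
  obtain ⟨X', Y', δ', δ₀', sdG, hcardY'⟩ :=
    Cfsg.Agent.Lib.H81CycPSD.sd_of_max hM hmaxG hcycG hP1G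
  rw [hidx] at sdG hcardY'
  have hc1 : Nat.card (P.subgroupOf (Subgroup.normalizer (Z : Set G))) = Nat.card P :=
    Nat.card_congr (Subgroup.subgroupOfEquivOfLe hPH).toEquiv
  have hc2 : Nat.card (upS (P.subgroupOf (Subgroup.normalizer (Z : Set G)))) = Nat.card P := by
    rw [hup]
  rw [hc1] at hcardY
  rw [hc2] at hcardY'
  obtain ⟨e, he⟩ : ∃ e : ℕ, e = (Subgroup.centralizer
      ((P.subgroupOf (Subgroup.normalizer (Z : Set G)) :
        Subgroup (Subgroup.normalizer (Z : Set G))) : Set (Subgroup.normalizer (Z : Set G)))).relIndex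
      (pstab (P.subgroupOf (Subgroup.normalizer (Z : Set G))) e₀) := ⟨_, rfl⟩
  rw [← he] at sd sdG hcardY hcardY'
  have hP2 : 2 ≤ Nat.card P := by
    have : Nontrivial P := (Subgroup.nontrivial_iff_ne_bot P).2 hP1
    exact Finite.one_lt_card
  have he0 : 0 < e := by
    rcases Nat.eq_zero_or_pos e with h | h
    · rw [h, zero_mul] at hcardY
      omega
    · exact h
  have hY : Nat.card Y = Nat.card Y' := by
    have h1 : e * Nat.card Y = e * Nat.card Y' := by omega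
    exact Nat.eq_of_mul_eq_mul_left he0 h1
  have hY0 : Y'.Nonempty := by
    have h1 : Nat.card Y' ≠ 0 := by
      intro h
      rw [h, mul_zero] at hcardY'
      omega
    have h2 : Nonempty Y' := (Nat.card_pos_iff.1 (Nat.pos_of_ne_zero h1)).1
    obtain ⟨y⟩ := h2
    exact ⟨y.1, y.2⟩
  obtain ⟨I, εs, mt⟩ := Cfsg.Agent.Lib.H81CycPBIJ.exists_mt ph sd sdG hY hY0 he0
  refine ⟨?_, ?_, I, εs, Cfsg.Agent.Lib.H81CycPPERF.perfect_of_mt mt⟩
  · exact Nat.card_congr (Set.BijOn.equiv I mt.bij)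
  · rw [sd.rk, sdG.rk]

end Cfsg.Agent.Lib.H81CycPFINAL
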