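import Cfsg.Agent.Lib.Helper81CycPDefs
import Cfsg.Agent.Lib.Helper77Glaub
import Cfsg.Agent.Lib.H81CycPAL
import Cfsg.Agent.Lib.H81CycPFUS

set_option autoImplicit false

namespace Cfsg.Agent.Lib.H81CycPIND
open Cfsg
open Cfsg.Agent.Lib.Helper81CycDefs Cfsg.Agent.Lib.Helper81CycGDefs Cfsg.Agent.Lib.Helper81CycPDefs
open Cfsg.Agent.Lib.Helper81Base
open scoped ComplexConjugate

universe u

variable {G : Type u} [Group G] [Fintype G] {p : ℕ} [Fact p.Prime] {M : Ideal AlgInt}
  {P H : Subgroup G} [Fintype H] {c : Set (IrrCharacter H)} {B : Set (IrrCharacter G)}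
  {X Y : Set (IrrCharacter H)} {δ : IrrCharacter H → ℤ} {δ₀ : ℤ} {e : ℕ}

/-- piece `P-IND`: the induced `α_ψ` on the good elements. -/
theorem DD_ind (h : PH p M P H c B) (sd : SD p c X Y δ δ₀ e) {ψ : IrrCharacter H} (hψ : ψ ∈ Y)
    {y : H} (hy : Good p P H y) :
    ∑ χ : IrrCharacter G, conj (DD (alphaF X δ δ₀ ψ) χ) * (χ : G → ℂ) (y : G)
      = alphaF X δ δ₀ ψ y := by
  classical
  have hcl : IsClassFunction H (alphaF X δ δ₀ ψ) := Cfsg.Agent.Lib.H81CycPAL.alpha_class ψ
  have hgood : ∀ k : H, alphaF X δ δ₀ ψ k ≠ 0 → Good p P H k := fun k hk =>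
    Cfsg.Agent.Lib.H81CycPAL.alpha_good h sd hψ hk
  generalize alphaF X δ δ₀ ψ = α at hcl hgood ⊢
  have h1 : ∀ χ : IrrCharacter G, conj (DD α χ) * (χ : G → ℂ) (y : G)
      = (Nat.card H : ℂ)⁻¹ *
        ∑ k : H, α k * ((χ : G → ℂ) (y : G) * conj ((χ : G → ℂ) (k : G))) := by
    intro χ
    unfold DD classInner
    rw [map_mul, map_inv₀, Complex.conj_natCast, map_sum, mul_assoc, Finset.sum_mul]
    congr 1
    refine Finset.sum_congr rfl fun k _ => ?_
    rw [map_mul, Complex.conj_conj]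
    ring
  rw [Finset.sum_congr rfl fun χ _ => h1 χ, ← Finset.mul_sum, Finset.sum_comm]
  have h2 : ∀ k : H,
      ∑ χ : IrrCharacter G, α k * ((χ : G → ℂ) (y : G) * conj ((χ : G → ℂ) (k : G)))
      = ∑ x : G, if x * (y : G) * x⁻¹ = (k : G) then α k else 0 := by
    intro k
    rw [← Finset.mul_sum, Cfsg.Agent.Lib.Helper77Glaub.col_orth_count, Finset.mul_sum]
    refine Finset.sum_congr rfl fun x _ => ?_
    split_ifs <;> simp
  rw [Finset.sum_congr rfl fun k _ => h2 k, Finset.sum_comm]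
  have h3 : ∀ x : G, (∑ k : H, if x * (y : G) * x⁻¹ = (k : G) then α k else 0)
      = if x ∈ H then α y else 0 := by
    intro x
    by_cases hx : x ∈ H
    · rw [if_pos hx]
      rw [Finset.sum_eq_single ((⟨x, hx⟩ : H) * y * (⟨x, hx⟩ : H)⁻¹)]
      · rw [if_pos (by simp)]
        exact hcl y ⟨x, hx⟩
      · intro k _ hk
        rw [if_neg]
        intro e
        apply hk
        apply Subtype.ext
        rw [← e]
        simp
      · intro hh
        exact absurd (Finset.mem_univ _) hh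
    · rw [if_neg hx]
      refine Finset.sum_eq_zero fun k _ => ?_
      split_ifs with e
      · by_contra hne
        exact hx (Cfsg.Agent.Lib.H81CycPFUS.good_fus h hy (hgood k hne) e.symm)
      · rfl
  rw [Finset.sum_congr rfl fun x _ => h3 x]
  have h4 : (∑ x : G, if x ∈ H then α y else 0) = (Nat.card H : ℂ) * α y := by
    rw [← Finset.sum_filter, Finset.sum_const, nsmul_eq_mul]
    congr 2
    exact (Nat.subtype_card _ (by simp)).symm
  rw [h4, inv_mul_cancel_left₀]
  exact_mod_cast Nat.card_pos.ne'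

end Cfsg.Agent.Lib.H81CycPIND
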