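import Cfsg.Agent.Lib.Helper81CycPDefs
import Cfsg.Agent.Lib.H81CycGVAN
import Cfsg.Agent.Lib.H81CycGOUT
import Cfsg.Agent.Lib.H81CycGGRAMABS
import Cfsg.Agent.Lib.H81CycGLI
import Cfsg.Agent.Lib.H81CycGNULL
import Cfsg.Agent.Lib.H81CycGMAIN
import Cfsg.Agent.Lib.H81CycGBCY
import Cfsg.Agent.Lib.H81CycRK
import Cfsg.Agent.Lib.Helper84KleinF
import Cfsg.Agent.Lib.Helper84KleinE
import Cfsg.Agent.Lib.H81CycPMU0
import Cfsg.Agent.Lib.H81CycPMU1
import Cfsg.Agent.Lib.H81CycPVAN
import Cfsg.Agent.Lib.H81CycPFUS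
import Cfsg.Agent.Lib.H81CycPDINT
import Cfsg.Agent.Lib.H81CycTR

set_option autoImplicit false

namespace Cfsg.Agent.Lib.H81CycPINT1
open Cfsg
open Cfsg.Agent.Lib.Helper81CycDefs Cfsg.Agent.Lib.Helper81CycGDefs Cfsg.Agent.Lib.Helper81CycPDefs
open Cfsg.Agent.Lib.Helper81Base Cfsg.Agent.Lib.Helper80Trace Cfsg.Agent.Lib.Helper80Up
open scoped ComplexConjugate

universe u

variable {G : Type u} [Group G] [Fintype G] {p : ℕ} [Fact p.Prime] {M : Ideal AlgInt}
  {P H : Subgroup G} [Fintype H] {c : Set (IrrCharacter H)} {B : Set (IrrCharacter G)}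
  {X Y : Set (IrrCharacter H)} {δ : IrrCharacter H → ℤ} {δ₀ : ℤ} {e : ℕ}

variable {I : IrrCharacter H → IrrCharacter G} {εs : IrrCharacter H → ℤ}

omit [Fintype G] [Fintype H] in
theorem card_cen_sub {y' : H} (hle : Subgroup.centralizer ({(y' : G)} : Set G) ≤ H) :
    Nat.card (Subgroup.centralizer ({y'} : Set H))
      = Nat.card (Subgroup.centralizer ({(y' : G)} : Set G)) := by
  have e : Subgroup.centralizer ({y'} : Set H)
      = (Subgroup.centralizer ({(y' : G)} : Set G)).subgroupOf H := by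
    ext z
    rw [Subgroup.mem_subgroupOf, Subgroup.mem_centralizer_singleton_iff,
      Subgroup.mem_centralizer_singleton_iff]
    constructor
    · intro h
      exact congrArg Subtype.val h
    · intro h
      exact Subtype.ext h
  rw [e]
  exact Nat.card_congr (Subgroup.subgroupOfEquivOfLe hle).toEquiv

/-- piece `P-INT1`: integrality, both elements `p`-singular. -/
theorem muF_int_sing (mt : MT p M P H c B I εs) (x : G) (y : H) (hx : p ∣ orderOf x)
    (hy : p ∣ orderOf y) :
    MemLocalRing M (muF c I εs x y / (Nat.card (Subgroup.centralizer ({x} : Set G)) : ℂ)) ∧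
    MemLocalRing M (muF c I εs x y / (Nat.card (Subgroup.centralizer ({y} : Set H)) : ℂ)) := by
  classical
  have hPr : M.IsPrime := mt.ph.hM.2.1.isPrime
  by_cases hg : ∀ (g : G) (y' : H), Good p P H y' → g * x * g⁻¹ ≠ (y' : G)
  · have h0 : muF c I εs x y = 0 := by
      unfold muF
      apply Finset.sum_eq_zero
      intro η _
      by_cases hη : η ∈ c
      · rw [if_pos hη, Cfsg.Agent.Lib.H81CycPVAN.van_G mt.ph (mt.bij.mapsTo hη) hx hg]
        ring
      · rw [if_neg hη]
    have := Cfsg.Agent.Lib.Helper84KleinE.perfect_of_zero (M := M) h0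
      (Nat.card (Subgroup.centralizer ({x} : Set G)) : ℂ)
      (Nat.card (Subgroup.centralizer ({y} : Set H)) : ℂ) True
    exact ⟨this.1, this.2.1⟩
  · push Not at hg
    obtain ⟨g, y', hy', hgx⟩ := hg
    have hμ : muF c I εs x y
        = ∑ η : IrrCharacter H, (if η ∈ c then (η : H → ℂ) y' * (η : H → ℂ) y else 0) := by
      rw [← Cfsg.Agent.Lib.H81CycPMU0.muF_conj g x y, hgx,
        Cfsg.Agent.Lib.H81CycPMU1.muF_good mt hy' y]
    have hcb : IsPBlock M c := mt.ph.ind.1
    constructor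
    · have h1 := Cfsg.Agent.Lib.H81CycPDINT.delta_int mt.ph.hM hcb y y'
      have hcard : Nat.card (Subgroup.centralizer ({x} : Set G))
          = Nat.card (Subgroup.centralizer ({y'} : Set H)) := by
        rw [card_cen_sub (Cfsg.Agent.Lib.H81CycPFUS.good_cen mt.ph hy'), ← hgx,
          Cfsg.Agent.Lib.H81CycTR.card_centralizer_conj]
      rw [hμ, hcard]
      have hsw : (∑ η : IrrCharacter H, (if η ∈ c then (η : H → ℂ) y' * (η : H → ℂ) y else 0))
          = ∑ η : IrrCharacter H, (if η ∈ c then (η : H → ℂ) y * (η : H → ℂ) y' else 0) := by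
        apply Finset.sum_congr rfl
        intro η _
        by_cases hη : η ∈ c
        · rw [if_pos hη, if_pos hη, mul_comm]
        · rw [if_neg hη, if_neg hη]
      rw [hsw]
      exact h1
    · rw [hμ]
      exact Cfsg.Agent.Lib.H81CycPDINT.delta_int mt.ph.hM hcb y' y

end Cfsg.Agent.Lib.H81CycPINT1
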