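import Cfsg.Agent.Lib.Helper81CycPDefs
import Cfsg.Agent.Lib.H81CycGVAN
import Cfsg.Agent.Lib.H81CycGOUT
import Cfsg.Agent.Lib.H81CycGGRAMABS
import Cfsg.Agent.Lib.H81CycGLI
import Cfsg.Agent.Lib.H81CycGNULL
import Cfsg.Agent.Lib.H81CycGMAIN
import Cfsg.Agent.Lib.H81CycGBCY
import Cfsg.Agent.Lib.H81CycRK
import Cfsg.Agent.Lib.Helper84KleinF
import Cfsg.Agent.Lib.Helper84KleinE

set_option autoImplicit false

namespace Cfsg.Agent.Lib.H81CycPMU2
open Cfsg
open Cfsg.Agent.Lib.Helper81CycDefs Cfsg.Agent.Lib.Helper81CycGDefs Cfsg.Agent.Lib.Helper81CycPDefs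
open Cfsg.Agent.Lib.Helper81Base Cfsg.Agent.Lib.Helper80Trace Cfsg.Agent.Lib.Helper80Up
open scoped ComplexConjugate

universe u

variable {G : Type u} [Group G] [Fintype G] {p : ℕ} [Fact p.Prime] {M : Ideal AlgInt}
  {P H : Subgroup G} [Fintype H] {c : Set (IrrCharacter H)} {B : Set (IrrCharacter G)}
  {X Y : Set (IrrCharacter H)} {δ : IrrCharacter H → ℤ} {δ₀ : ℤ} {e : ℕ}

variable {I : IrrCharacter H → IrrCharacter G} {εs : IrrCharacter H → ℤ}

open Classical in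
/-- piece `P-MU2`: the kernel at a good element in the second variable. -/
theorem muF_good' (mt : MT p M P H c B I εs) (x : G) {y : H} (hy : Good p P H y) :
    muF c I εs x y
      = ∑ χ : IrrCharacter G, (if χ ∈ B then (χ : G → ℂ) x * (χ : G → ℂ) (y : G) else 0) := by
  rw [← Cfsg.Agent.Lib.Helper84KleinE.sum_bij mt.bij (fun χ => (χ : G → ℂ) x * (χ : G → ℂ) (y : G)),
    Finset.sum_filter]
  unfold muF
  apply Finset.sum_congr rfl
  intro η _
  by_cases hη : η ∈ c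
  · rw [if_pos hη, if_pos hη, ← mt.mt η hη y hy]
    have h2 : (εs η : ℂ) * (εs η : ℂ) = 1 := by
      rcases mt.sg η hη with h | h <;> rw [h] <;> simp
    linear_combination ((I η : G → ℂ) x * (I η : G → ℂ) (y : G)) * h2
  · rw [if_neg hη, if_neg hη]

end Cfsg.Agent.Lib.H81CycPMU2
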