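import Cfsg.Agent.Lib.Helper81CycPDefs
import Cfsg.Agent.Lib.H81CycGD2

set_option autoImplicit false

namespace Cfsg.Agent.Lib.H81CycPPH
open Cfsg
open Cfsg.Agent.Lib.Helper81CycDefs Cfsg.Agent.Lib.Helper81CycGDefs Cfsg.Agent.Lib.Helper81CycPDefs
open Cfsg.Agent.Lib.Helper81Base
open scoped ComplexConjugate

universe u

variable {G : Type u} [Group G] [Fintype G] {p : ℕ} [Fact p.Prime] {M : Ideal AlgInt}

/-- piece `P-PH`: the situation of S4635. -/
theorem ph_of_hyp (hM : IsPModular p M) {B : Set (IrrCharacter G)} {P : Subgroup G}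
    (hPD : IsDefectGroup p M B P) (hcyc : IsCyclic P) {Z : Subgroup G} (hZ : Z ≤ P)
    (hZcard : Nat.card Z = p) {c : Set (IrrCharacter (Subgroup.normalizer (Z : Set G)))}
    (hcD : IsDefectGroup p M c (P.subgroupOf (Subgroup.normalizer (Z : Set G))))
    (hc : IsInducedBlock M (Subgroup.normalizer (Z : Set G)) c B) :
    PH p M P (Subgroup.normalizer (Z : Set G)) c B ∧
      Subgroup.normalizer (P : Set G) ≤ Subgroup.normalizer (Z : Set G) := by
  have hp : p.Prime := Fact.out
  have hP : IsPGroup p P := by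
    obtain ⟨g, hg, Q, h⟩ := hPD
    rw [h]
    exact Q.isPGroup'.map _
  have hZc : IsCyclic Z := isCyclic_of_prime_card hZcard
  obtain ⟨z, hz⟩ := hZc.exists_generator
  have hZe : Z = Subgroup.zpowers (z : G) := by
    apply le_antisymm
    · intro y hy
      obtain ⟨k, hk⟩ := Subgroup.mem_zpowers_iff.1 (hz ⟨y, hy⟩)
      refine Subgroup.mem_zpowers_iff.2 ⟨k, ?_⟩
      have := congrArg Subtype.val hk
      simpa using this
    · exact (Subgroup.zpowers_le).2 z.2
  have ho : orderOf (z : G) = p := by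
    rw [Subgroup.orderOf_coe, orderOf_eq_card_of_forall_mem_zpowers hz, hZcard]
  have hzP : (z : G) ∈ P := hZ z.2
  have hz1 : (z : G) ≠ 1 := by
    intro h
    rw [h, orderOf_one] at ho
    exact hp.one_lt.ne ho
  have TI : ∀ d ∈ P, d ≠ 1 → ∀ g : G, g * d * g⁻¹ ∈ P → g ∈ Subgroup.normalizer (Z : Set G) := by
    intro d hd hd1 g hg
    by_contra hcon
    rw [hZe] at hcon
    exact hd1 (H81CycGD2.cyclic_TI p hP hcyc hzP ho g hcon d hd hg)
  have hcomm : ∀ x ∈ P, ∀ y ∈ P, x * y = y * x := by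
    intro x hx y hy
    have := hcyc.commGroup.mul_comm (⟨x, hx⟩ : P) ⟨y, hy⟩
    exact congrArg Subtype.val this
  refine ⟨⟨hM, hc, hPD, hcD, ?_, TI, ?_⟩, ?_⟩
  · intro g hg
    apply TI (z : G) hzP hz1
    rw [hcomm g hg _ hzP]
    simpa using hzP
  · intro d hd hd1 g hg
    apply TI d hd hd1
    have := Subgroup.mem_centralizer_iff.1 hg d (Set.mem_singleton d)
    rw [← this]
    simpa using hd
  · intro g hg
    apply TI (z : G) hzP hz1
    exact (Subgroup.mem_normalizer_iff.1 hg _).1 hzP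

end Cfsg.Agent.Lib.H81CycPPH
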