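import Cfsg.Agent.Lib.H82AltDefs

set_option autoImplicit false

namespace Cfsg.Agent.Lib.H82AltAFour

open Cfsg.Agent.Lib.H82AltDefs

/-- abstract computation: `v_i ^ 2 = a` central, `v2 v3 v1 = 1` gives `v1 v2 = a⁻³ v2 v1`. -/
theorem tw {Γ : Type*} [Group Γ] {a v1 v2 v3 : Γ} (C : ∀ g, Commute a g) (s1 : v1 * v1 = a)
    (s2 : v2 * v2 = a) (s3 : v3 * v3 = a) (h : v2 * v3 * v1 = 1) :
    v1 * v2 = a⁻¹ * a⁻¹ * a⁻¹ * (v2 * v1) := by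
  have e3 : v3 = v2⁻¹ * v1⁻¹ := by
    calc v3 = v2⁻¹ * (v2 * v3 * v1) * v1⁻¹ := by group
      _ = _ := by rw [h]; group
  have sq : v1 * v2 * (v1 * v2) = a⁻¹ := by
    have : (v1 * v2 * (v1 * v2))⁻¹ = a := by
      rw [← s3, e3]; group
    rw [← this, inv_inv]
  have i1 : v1⁻¹ = a⁻¹ * v1 := by
    rw [← s1]; group
  have i2 : v2⁻¹ = a⁻¹ * v2 := by
    rw [← s2]; group
  calc v1 * v2 = (v1 * v2 * (v1 * v2)) * (v2⁻¹ * v1⁻¹) := by group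
    _ = a⁻¹ * (a⁻¹ * v2 * (a⁻¹ * v1)) := by rw [sq, i1, i2]
    _ = a⁻¹ * (a⁻¹ * (v2 * a⁻¹) * v1) := by group
    _ = a⁻¹ * (a⁻¹ * (a⁻¹ * v2) * v1) := by rw [← ((C v2).inv_left).eq]
    _ = _ := by group

/-- `a ^ 6 = 1` -/
theorem six {Γ : Type*} [Group Γ] {a v1 v2 z : Γ} (C : ∀ g, Commute a g) (hz : ∀ g, Commute z g)
    (s1 : v1 * v1 = a) (K : v1 * v2 = z * (v2 * v1)) : z * z = 1 := by
  have k1 : v1 * v2 * v1⁻¹ = z * v2 := by rw [K]; group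
  have k2 : v1 * (v1 * v2 * v1⁻¹) * v1⁻¹ = v2 := by
    calc v1 * (v1 * v2 * v1⁻¹) * v1⁻¹ = (v1 * v1) * v2 * (v1 * v1)⁻¹ := by group
      _ = a * v2 * a⁻¹ := by rw [s1]
      _ = v2 := by rw [(C v2).eq]; group
  rw [k1] at k2
  have k3 : v1 * (z * v2) * v1⁻¹ = z * (v1 * v2 * v1⁻¹) := by
    rw [← mul_assoc, ← (hz v1).eq]; group
  rw [k3, k1, ← mul_assoc] at k2
  exact mul_eq_right.1 k2

/-- PIECE AFour (45 min, pure Mathlib).  `a = y ^ 2` central.  `v1 = y`, `v2 = x y x⁻¹`, `v3 = x⁻¹ y x = x^2 y x^(-2)`; `v_i ^ 2 = a`;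
`x v1 x⁻¹ = v2`, `x v2 x⁻¹ = v3`, `x v3 x⁻¹ = v1`.  `1 = (x y) ^ 3 = v2 v3 v1 x ^ 3 = v2 v3 v1`.  So `v3 = v2⁻¹ v1⁻¹ = v2 v1 a^(-2)`;
`a = v3 ^ 2 = (v2 v1) ^ 2 a^(-4)`, i.e. `v2 v1 v2 v1 = a ^ 5`, which gives `v1 v2 = v2 v1 a ^ 3`, i.e. `v1 v2 v1⁻¹ = v2 a ^ 3`.
Conjugating twice: `v2 = v1 ^ 2 v2 v1 ^ (-2) = v2 a ^ 6`, so `(a ^ 2) ^ 3 = 1`, `a ^ 2 = 1`, `a ^ 3 = a`.
Conjugating `v1 v2 = v2 v1 a` by `x`: `v2 v3 = v3 v2 a`, so `v3 v2 v1 = v2 v3 v1 a⁻¹ = a⁻¹ = a`. -/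
theorem a4 {Γ : Type*} [Group Γ] (Z : Subgroup Γ) (hZc : Z ≤ Subgroup.center Γ)
    (h3 : NoTor Z 3) (x y : Γ) (hx : x ^ 3 = 1) (hxy : (x * y) ^ 3 = 1) (hy : y ^ 2 ∈ Z) :
    (y ^ 2) ^ 2 = 1 ∧ (x⁻¹ * y * x) * (x * y * x⁻¹) * y = y ^ 2 := by
  have C : ∀ g : Γ, Commute (y ^ 2) g := fun g => (Subgroup.mem_center_iff.1 (hZc hy) g).symm
  have s1 : y * y = y ^ 2 := (pow_two y).symm
  have s2 : (x * y * x⁻¹) * (x * y * x⁻¹) = y ^ 2 := by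
    calc (x * y * x⁻¹) * (x * y * x⁻¹) = x * y ^ 2 * x⁻¹ := by rw [pow_two]; group
      _ = y ^ 2 := by rw [← (C x).eq]; group
  have s3 : (x⁻¹ * y * x) * (x⁻¹ * y * x) = y ^ 2 := by
    calc (x⁻¹ * y * x) * (x⁻¹ * y * x) = x⁻¹ * y ^ 2 * x := by rw [pow_two]; group
      _ = y ^ 2 := by rw [← (C x⁻¹).eq]; group
  have hx2 : x⁻¹ * x⁻¹ = x := by
    calc x⁻¹ * x⁻¹ = x⁻¹ * x⁻¹ * x ^ 3 := by rw [hx, mul_one]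
      _ = x := by group
  have h : (x * y * x⁻¹) * (x⁻¹ * y * x) * y = 1 := by
    calc (x * y * x⁻¹) * (x⁻¹ * y * x) * y = x * y * (x⁻¹ * x⁻¹) * y * x * y := by group
      _ = x * y * x * y * x * y := by rw [hx2]
      _ = (x * y) ^ 3 := by rw [pow_succ, pow_two]; group
      _ = 1 := hxy
  have K := tw C s1 s2 s3 h
  have hz : ∀ g : Γ, Commute ((y ^ 2)⁻¹ * (y ^ 2)⁻¹ * (y ^ 2)⁻¹) g := fun g =>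
    (((C g).inv_left).mul_left ((C g).inv_left)).mul_left ((C g).inv_left)
  have hzz := six C hz s1 K
  have ha2 : (y ^ 2) ^ 2 = 1 := by
    apply h3 _ (Z.pow_mem hy 2)
    calc ((y ^ 2) ^ 2) ^ 3
        = (((y ^ 2)⁻¹ * (y ^ 2)⁻¹ * (y ^ 2)⁻¹) * ((y ^ 2)⁻¹ * (y ^ 2)⁻¹ * (y ^ 2)⁻¹))⁻¹ := by group
      _ = 1 := by rw [hzz, inv_one]
  refine ⟨ha2, ?_⟩
  have h' : (x⁻¹ * y * x) * y * (x * y * x⁻¹) = 1 := by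
    calc (x⁻¹ * y * x) * y * (x * y * x⁻¹)
        = (x * y * x⁻¹)⁻¹ * ((x * y * x⁻¹) * (x⁻¹ * y * x) * y) * (x * y * x⁻¹) := by group
      _ = 1 := by rw [h]; group
  have K' := tw C s2 s3 s1 h'
  calc (x⁻¹ * y * x) * (x * y * x⁻¹) * y
      = ((y ^ 2)⁻¹ * (y ^ 2)⁻¹ * (y ^ 2)⁻¹)⁻¹ *
        (((y ^ 2)⁻¹ * (y ^ 2)⁻¹ * (y ^ 2)⁻¹) * ((x⁻¹ * y * x) * (x * y * x⁻¹))) * y := by group
    _ = ((y ^ 2)⁻¹ * (y ^ 2)⁻¹ * (y ^ 2)⁻¹)⁻¹ * ((x * y * x⁻¹) * (x⁻¹ * y * x) * y) := by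
        rw [← K']; group
    _ = (y ^ 2) ^ 2 * y ^ 2 := by rw [h]; group
    _ = y ^ 2 := by rw [ha2, one_mul]

end Cfsg.Agent.Lib.H82AltAFour
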