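import Cfsg.Agent.Lib.H82AltDefs

set_option autoImplicit false

namespace Cfsg.Agent.Lib.H82AltBZero

open Cfsg.Agent.Lib.H82AltDefs

theorem aux {Γ : Type*} [Group Γ] (v2 v3 y b : Γ) (hv2 : v2 * v2 = 1) (hv3 : v3 * v3 = 1)
    (hyy : y * y = 1) (hb : ∀ g, g * b = b * g) (hexp : b = v2 * v3 * y) :
    (b * b) * (b * b) = 1 := by
  have hw : v2 * v3 = b * y := by
    rw [hexp]
    calc v2 * v3 = v2 * v3 * (y * y) := by rw [hyy, mul_one]
      _ = v2 * v3 * y * y := by group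
  have hw2 : (v2 * v3) * (v2 * v3) = b * b := by
    rw [hw]
    calc b * y * (b * y) = b * (y * b) * y := by group
      _ = b * (b * y) * y := by rw [hb y]
      _ = b * b * (y * y) := by group
      _ = b * b := by rw [hyy, mul_one]
  have hw3 : (v3 * v2) * (v3 * v2) = b * b := by
    calc (v3 * v2) * (v3 * v2) = (v2 * v2) * (v3 * v2) * (v3 * v2) := by rw [hv2, one_mul]
      _ = v2 * ((v2 * v3) * (v2 * v3)) * v2 := by group
      _ = v2 * (b * b) * v2 := by rw [hw2]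
      _ = (v2 * b) * b * v2 := by group
      _ = (b * v2) * b * v2 := by rw [hb v2]
      _ = b * (v2 * b) * v2 := by group
      _ = b * (b * v2) * v2 := by rw [hb v2]
      _ = b * b * (v2 * v2) := by group
      _ = b * b := by rw [hv2, mul_one]
  calc (b * b) * (b * b) = ((v2 * v3) * (v2 * v3)) * ((v3 * v2) * (v3 * v2)) := by rw [hw2, hw3]
    _ = v2 * v3 * v2 * (v3 * v3) * v2 * v3 * v2 := by group
    _ = v2 * v3 * (v2 * v2) * v3 * v2 := by rw [hv3]; group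
    _ = v2 * (v3 * v3) * v2 := by rw [hv2]; group
    _ = 1 := by rw [hv3, mul_one, hv2]

/-- PIECE BZero (25 min, pure Mathlib).  `v1 = y`, `v2 = x y x⁻¹`, `v3 = x^2 y x^(-2)` are involutions and
`(x y) ^ 3 = v2 v3 v1 x ^ 3 = v2 v3 v1 =: b ∈ Z`.  So `v2 v3 = b v1`, `(v2 v3) ^ 2 = b ^ 2`; conjugation by `v2` inverts `v2 v3`, so
`b ^ 2 = b ^ (-2)`, `(b ^ 2) ^ 2 = 1`, `b ^ 2 = 1`, `b = 1`. -/
theorem b0 {Γ : Type*} [Group Γ] (Z : Subgroup Γ) (hZc : Z ≤ Subgroup.center Γ)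
    (h2 : NoTor Z 2) (x y : Γ) (hx : x ^ 3 = 1) (hy : y ^ 2 = 1) (h : (x * y) ^ 3 ∈ Z) :
    (x * y) ^ 3 = 1 := by
  have hyy : y * y = 1 := by rw [← sq]; exact hy
  have hb : ∀ g, g * (x * y) ^ 3 = (x * y) ^ 3 * g := Subgroup.mem_center_iff.1 (hZc h)
  have hexp : (x * y) ^ 3 = (x * y * x⁻¹) * (x ^ 2 * y * (x ^ 2)⁻¹) * y := by
    calc (x * y) ^ 3 = (x * y * x⁻¹) * (x ^ 2 * y * (x ^ 2)⁻¹) * (x ^ 3 * y * (x ^ 3)⁻¹) * x ^ 3 := by
          simp only [pow_succ, pow_zero, one_mul, mul_inv_rev]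
          group
      _ = (x * y * x⁻¹) * (x ^ 2 * y * (x ^ 2)⁻¹) * y := by
          rw [hx, one_mul, inv_one, mul_one, mul_one]
  have hv2 : (x * y * x⁻¹) * (x * y * x⁻¹) = 1 := by
    calc (x * y * x⁻¹) * (x * y * x⁻¹) = x * (y * y) * x⁻¹ := by group
      _ = 1 := by rw [hyy, mul_one, mul_inv_cancel]
  have hv3 : (x ^ 2 * y * (x ^ 2)⁻¹) * (x ^ 2 * y * (x ^ 2)⁻¹) = 1 := by
    calc (x ^ 2 * y * (x ^ 2)⁻¹) * (x ^ 2 * y * (x ^ 2)⁻¹) = x ^ 2 * (y * y) * (x ^ 2)⁻¹ := by group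
      _ = 1 := by rw [hyy, mul_one, mul_inv_cancel]
  have h4 := aux _ _ y _ hv2 hv3 hyy hb hexp
  apply h2 _ h
  apply h2 _ (Subgroup.pow_mem _ h 2)
  rw [sq, sq]
  exact h4

end Cfsg.Agent.Lib.H82AltBZero
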