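import Cfsg.Agent.Lib.H82AltDefs

set_option autoImplicit false

namespace Cfsg.Agent.Lib.H82AltBraid

open Cfsg.Agent.Lib.H82AltDefs

theorem sq_aux {Γ : Type*} [Group Γ] (y y' a a' : Γ) (ha : y * y = a) (ha' : y' * y' = a')
    (hac : ∀ g, g * a = a * g) (ha'c : ∀ g, g * a' = a' * g) :
    (y * y' * y) * (y * y' * y) = a * a * a' := by
  calc (y * y' * y) * (y * y' * y) = y * y' * (y * y) * y' * y := by group
    _ = y * (y' * a) * y' * y := by rw [ha]; group
    _ = y * (a * y') * y' * y := by rw [hac y']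
    _ = (y * a) * (y' * y') * y := by group
    _ = (a * y) * a' * y := by rw [hac y, ha']
    _ = a * (y * a') * y := by group
    _ = a * (a' * y) * y := by rw [ha'c y]
    _ = a * a' * (y * y) := by group
    _ = a * (a' * a) := by rw [ha]; group
    _ = a * (a * a') := by rw [hac a']
    _ = a * a * a' := by group

/-- PIECE Braid (25 min, pure Mathlib).  `a = y ^ 2`, `a' = y' ^ 2` central.  `(y y') ^ 3 = 1` gives `y y' y = y'⁻¹ y⁻¹ y'⁻¹`.
Squares: `(y y' y) ^ 2 = y y' a y' y = a ^ 2 a'` and `(y'⁻¹ y⁻¹ y'⁻¹) ^ 2 = a⁻¹ a' ^ (-2)`.  So `(a a') ^ 3 = 1`, `a a' = 1`. -/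
theorem braid_sq {Γ : Type*} [Group Γ] (Z : Subgroup Γ) (hZc : Z ≤ Subgroup.center Γ)
    (h3 : NoTor Z 3) (y y' : Γ) (hy : y ^ 2 ∈ Z) (hy' : y' ^ 2 ∈ Z) (h : (y * y') ^ 3 = 1) :
    y' ^ 2 = (y ^ 2)⁻¹ := by
  have hac : ∀ g, g * y ^ 2 = y ^ 2 * g := Subgroup.mem_center_iff.1 (hZc hy)
  have ha'c : ∀ g, g * y' ^ 2 = y' ^ 2 * g := Subgroup.mem_center_iff.1 (hZc hy')
  have s1 := sq_aux y y' (y ^ 2) (y' ^ 2) (sq y).symm (sq y').symm hac ha'c
  have s2 := sq_aux y' y (y' ^ 2) (y ^ 2) (sq y').symm (sq y).symm ha'c hac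
  have hZ : y ^ 2 * y' ^ 2 ∈ Z := Subgroup.mul_mem _ hy hy'
  have e1 : (y * y' * y) * (y' * y * y') = 1 := by
    calc (y * y' * y) * (y' * y * y') = (y * y') ^ 3 := by
          simp only [pow_succ, pow_zero, one_mul, mul_assoc]
      _ = 1 := h
  have e1' : (y' * y * y') * (y * y' * y) = 1 := by
    rw [mul_eq_one_iff_eq_inv] at e1 ⊢
    rw [e1, inv_inv]
  have e2 : ((y * y' * y) * (y * y' * y)) * ((y' * y * y') * (y' * y * y')) = 1 := by
    calc ((y * y' * y) * (y * y' * y)) * ((y' * y * y') * (y' * y * y'))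
        = (y * y' * y) * ((y * y' * y) * (y' * y * y')) * (y' * y * y') := by group
      _ = 1 := by rw [e1, mul_one, e1]
  rw [s1, s2] at e2
  have key : y ^ 2 * y' ^ 2 = 1 := by
    apply h3 _ hZ
    generalize y ^ 2 = a at hac e2
    generalize y' ^ 2 = a' at ha'c e2
    have hcomm : Commute a a' := ha'c a
    rw [hcomm.mul_pow]
    calc a ^ 3 * a' ^ 3 = a * a * (a * a') * a' * a' := by
          simp only [pow_succ, pow_zero, one_mul, mul_assoc]
      _ = a * a * (a' * a) * a' * a' := by rw [hcomm.eq]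
      _ = a * a * a' * (a * a') * a' := by group
      _ = a * a * a' * (a' * a) * a' := by rw [hcomm.eq]
      _ = a * a * a' * a' * (a * a') := by group
      _ = a * a * a' * a' * (a' * a) := by rw [hcomm.eq]
      _ = a * a * a' * (a' * a' * a) := by group
      _ = 1 := e2
  exact (eq_inv_of_mul_eq_one_right key)

end Cfsg.Agent.Lib.H82AltBraid
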