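import Cfsg.Agent.Lib.H82AltDefs

set_option autoImplicit false

namespace Cfsg.Agent.Lib.H82AltCZero

open Cfsg.Agent.Lib.H82AltDefs

/-- PIECE CZero (20 min, pure Mathlib).  `c = (x y) ^ 2`, `a = y ^ 2` central.  `x y x y = c` gives `y x y⁻¹ = x⁻¹ d` with `d = c a⁻¹ ∈ Z`.
Cubing: `1 = y x ^ 3 y⁻¹ = x ^ (-3) d ^ 3 = d ^ 3`, so `d = 1`. -/
theorem c0 {Γ : Type*} [Group Γ] (Z : Subgroup Γ) (hZc : Z ≤ Subgroup.center Γ)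
    (h3 : NoTor Z 3) (x y : Γ) (hx : x ^ 3 = 1) (hy : y ^ 2 ∈ Z) (h : (x * y) ^ 2 ∈ Z) :
    (x * y) ^ 2 = y ^ 2 ∧ y * x * y⁻¹ = x⁻¹ := by
  have hdZ : (x * y) ^ 2 * (y ^ 2)⁻¹ ∈ Z := Subgroup.mul_mem _ h (Subgroup.inv_mem _ hy)
  have hd : ∀ g, g * ((x * y) ^ 2 * (y ^ 2)⁻¹) = ((x * y) ^ 2 * (y ^ 2)⁻¹) * g :=
    Subgroup.mem_center_iff.1 (hZc hdZ)
  have e1 : y * x * y⁻¹ = x⁻¹ * ((x * y) ^ 2 * (y ^ 2)⁻¹) := by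
    simp only [pow_succ, pow_zero, one_mul, mul_inv_rev]
    group
  have key : (x * y) ^ 2 * (y ^ 2)⁻¹ = 1 := by
    apply h3 _ hdZ
    generalize (x * y) ^ 2 * (y ^ 2)⁻¹ = d at hd e1
    have e2 : (y * x * y⁻¹) ^ 3 = 1 := by rw [conj_pow, hx, mul_one, mul_inv_cancel]
    rw [e1] at e2
    have hcomm : Commute x⁻¹ d := hd x⁻¹
    rw [hcomm.mul_pow, inv_pow, hx, inv_one, one_mul] at e2
    exact e2
  refine ⟨?_, ?_⟩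
  · exact mul_inv_eq_one.1 key
  · rw [e1, key, mul_one]

end Cfsg.Agent.Lib.H82AltCZero
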