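import Cfsg.Agent.Lib.H82AltDefs

set_option autoImplicit false

namespace Cfsg.Agent.Lib.H82AltComb

open Cfsg.Agent.Lib.H82AltDefs

/-- PIECE Comb (20 min, pure combinatorics).  First `c i j = c 1 j` by induction on `i` (downwards use of `hl`: for `1 ≤ i' < i`,
`i' + 3 ≤ j`), then `c 1 j = c 1 3` by induction on `j` (`hr`). -/
theorem eps_all {α : Type*} (m : ℕ) (c : ℕ → ℕ → α)
    (hr : ∀ i j, 1 ≤ i → i + 2 ≤ j → j + 1 < m → c i j = c i (j + 1))
    (hl : ∀ i j, 1 ≤ i → i + 3 ≤ j → j < m → c i j = c (i + 1) j) :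
    ∀ i j, 1 ≤ i → i + 2 ≤ j → j < m → c i j = c 1 3 := by
  have s1 : ∀ i j, 1 ≤ i → i + 2 ≤ j → j < m → c i j = c 1 j := by
    intro i
    induction i with
    | zero => intro j h; omega
    | succ i ih =>
      intro j h1 h2 h3
      rcases Nat.eq_zero_or_pos i with rfl | hi
      · rfl
      · rw [← hl i j hi (by omega) h3]
        exact ih j hi (by omega) h3
  have s2 : ∀ j, 3 ≤ j → j < m → c 1 j = c 1 3 := by
    intro j
    induction j with
    | zero => intro h; omega
    | succ j ih =>
      intro h1 h2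
      rcases Nat.lt_or_ge j 3 with h | h
      · have : j = 2 := by omega
        subst this; rfl
      · rw [← hr 1 j le_rfl (by omega) h2]
        exact ih h (by omega)
  intro i j h1 h2 h3
  rw [s1 i j h1 h2 h3, s2 j (by omega) h3]

end Cfsg.Agent.Lib.H82AltComb
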