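import Mathlib

/-!
# Project 892 (row S0892): a stem extension of `A_n` (`n ≥ 4`, `n ≠ 6, 7`) has kernel of order `≤ 2`.

Vocabulary.  `m = n - 2` is the number of generators of the Coxeter–Moser presentation (row S3335)
`⟨s_0, …, s_{m-1} | s_0^3, s_i^2 (i ≥ 1), (s_i s_{i+1})^3, (s_i s_j)^2 (i + 1 < j)⟩` of `A_n`.
-/

set_option autoImplicit false

namespace Cfsg.Agent.Lib.H82AltDefs

/-- All relators of the presentation, evaluated at `t 0, …, t (m-1)`, lie in the subgroup `Z`. -/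
structure Rel {Γ : Type*} [Group Γ] (Z : Subgroup Γ) (m : ℕ) (t : ℕ → Γ) : Prop where
  a0 : 0 < m → t 0 ^ 3 ∈ Z
  a : ∀ i, 1 ≤ i → i < m → t i ^ 2 ∈ Z
  b : ∀ i, i + 1 < m → (t i * t (i + 1)) ^ 3 ∈ Z
  c : ∀ i j, i + 1 < j → j < m → (t i * t j) ^ 2 ∈ Z

/-- `t'` differs from `t` by elements of `Z`. -/
def Same {Γ : Type*} [Group Γ] (Z : Subgroup Γ) (t t' : ℕ → Γ) : Prop :=
  ∀ i, (t i)⁻¹ * t' i ∈ Z

/-- `Z` has no `k`-torsion. -/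
def NoTor {Γ : Type*} [Group Γ] (Z : Subgroup Γ) (k : ℕ) : Prop :=
  ∀ z ∈ Z, z ^ k = 1 → z = 1

/-- `Z` is `k`-divisible. -/
def Divis {Γ : Type*} [Group Γ] (Z : Subgroup Γ) (k : ℕ) : Prop :=
  ∀ z ∈ Z, ∃ w ∈ Z, w ^ k = z

end Cfsg.Agent.Lib.H82AltDefs
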