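import Cfsg.Agent.Lib.H82AltDefs

set_option autoImplicit false

namespace Cfsg.Agent.Lib.H82AltDiv

open Cfsg.Agent.Lib.H82AltDefs

/-- PIECE Div (10 min, pure Mathlib).  `z ↦ z ^ k` is a bijection of a finite group of order prime to `k`
(`powCoprime`, `pow_eq_one_iff...`, `orderOf_dvd_natCard`). -/
theorem noTor {Γ : Type*} [Group Γ] (Z : Subgroup Γ) [Finite Z] (k : ℕ)
    (h : (Nat.card Z).Coprime k) : NoTor Z k := by
  intro z hz hk
  have h1 : orderOf (⟨z, hz⟩ : Z) ∣ k := by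
    apply orderOf_dvd_of_pow_eq_one
    exact Subtype.ext hk
  have h2 : orderOf (⟨z, hz⟩ : Z) ∣ Nat.card Z := orderOf_dvd_natCard _
  have h3 : orderOf (⟨z, hz⟩ : Z) = 1 := Nat.eq_one_of_dvd_coprimes h h2 h1
  have h4 := orderOf_eq_one_iff.mp h3
  exact congrArg Subtype.val h4

theorem divis {Γ : Type*} [Group Γ] (Z : Subgroup Γ) [Finite Z] (k : ℕ)
    (h : (Nat.card Z).Coprime k) : Divis Z k := by
  intro z hz
  obtain ⟨w, hw⟩ := (powCoprime h).surjective ⟨z, hz⟩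
  refine ⟨w.1, w.2, ?_⟩
  have := congrArg Subtype.val hw
  simpa using this

end Cfsg.Agent.Lib.H82AltDiv
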