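import Cfsg.Agent.Lib.H82AltDefs

set_option autoImplicit false

namespace Cfsg.Agent.Lib.H82AltEps

open Cfsg.Agent.Lib.H82AltDefs

/-- PIECE Eps (45 min, pure Mathlib).  For `k = 1, 2` put `ε_k = y y_k y⁻¹ y_k⁻¹ = (y y_k) ^ 2 (y ^ 2)⁻¹ (y_k ^ 2)⁻¹ ∈ Z` (central).
`y (y1 y2) y⁻¹ = y1 y2 ε_1 ε_2`, so `1 = y (y1 y2) ^ 3 y⁻¹ = (ε_1 ε_2) ^ 3`, `ε_1 ε_2 = 1`.  `y y1 ^ 2 y⁻¹ = y1 ^ 2 ε_1 ^ 2` and `y1 ^ 2` is central so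
`ε_1 ^ 2 = 1`.  Hence `ε_2 = ε_1`, and `(y y1) ^ 2 = ε_1 y^2 y1^2 = ε_2 y^2 y2^2 = (y y2) ^ 2`. -/
theorem eps_right {Γ : Type*} [Group Γ] (Z : Subgroup Γ) (hZc : Z ≤ Subgroup.center Γ)
    (h3 : NoTor Z 3) (y y1 y2 : Γ) (hy : y ^ 2 ∈ Z) (h1 : y1 ^ 2 ∈ Z) (h2 : y2 ^ 2 = y1 ^ 2)
    (hc1 : (y * y1) ^ 2 ∈ Z) (hc2 : (y * y2) ^ 2 ∈ Z) (h12 : (y1 * y2) ^ 3 = 1) :
    (y * y1) ^ 2 = (y * y2) ^ 2 := by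
  have cen : ∀ z ∈ Z, ∀ g : Γ, Commute z g := fun z hz g =>
    (Subgroup.mem_center_iff.1 (hZc hz) g).symm
  have key : ∀ w : Γ, y * w * y⁻¹ = ((y * w) ^ 2 * (y ^ 2)⁻¹ * (w ^ 2)⁻¹) * w := by
    intro w
    have hh : Commute (y ^ 2)⁻¹ w := cen _ (Z.inv_mem hy) w
    calc y * w * y⁻¹ = y * w * y * ((y ^ 2)⁻¹ * w) * (w ^ 2)⁻¹ * w := by group
      _ = y * w * y * (w * (y ^ 2)⁻¹) * (w ^ 2)⁻¹ * w := by rw [hh.eq]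
      _ = _ := by rw [pow_two (y * w)]; group
  obtain ⟨e1, he1⟩ : ∃ e1, e1 = (y * y1) ^ 2 * (y ^ 2)⁻¹ * (y1 ^ 2)⁻¹ := ⟨_, rfl⟩
  obtain ⟨e2, he2⟩ : ∃ e2, e2 = (y * y2) ^ 2 * (y ^ 2)⁻¹ * (y2 ^ 2)⁻¹ := ⟨_, rfl⟩
  have m1 : e1 ∈ Z := by
    rw [he1]; exact Z.mul_mem (Z.mul_mem hc1 (Z.inv_mem hy)) (Z.inv_mem h1)
  have m2 : e2 ∈ Z := by
    rw [he2, h2]; exact Z.mul_mem (Z.mul_mem hc2 (Z.inv_mem hy)) (Z.inv_mem h1)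
  have k1 : y * y1 * y⁻¹ = e1 * y1 := by rw [he1]; exact key y1
  have k2 : y * y2 * y⁻¹ = e2 * y2 := by rw [he2]; exact key y2
  have kA : y * (y1 * y2) * y⁻¹ = (e1 * e2) * (y1 * y2) := by
    calc y * (y1 * y2) * y⁻¹ = (y * y1 * y⁻¹) * (y * y2 * y⁻¹) := by group
      _ = e1 * (y1 * e2) * y2 := by rw [k1, k2]; group
      _ = e1 * (e2 * y1) * y2 := by rw [(cen e2 m2 y1).eq]
      _ = _ := by group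
  have kB : (e1 * e2) ^ 3 = 1 := by
    have hB : (y * (y1 * y2) * y⁻¹) ^ 3 = 1 := by
      rw [conj_pow, h12]; group
    rw [kA, (cen _ (Z.mul_mem m1 m2) (y1 * y2)).mul_pow, h12, mul_one] at hB
    exact hB
  have kB' : e1 * e2 = 1 := h3 _ (Z.mul_mem m1 m2) kB
  have kC : e1 ^ 2 = 1 := by
    have hC : (y * y1 * y⁻¹) ^ 2 = y1 ^ 2 := by
      rw [conj_pow, ← (cen _ h1 y).eq]; group
    rw [k1, (cen _ m1 y1).mul_pow] at hC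
    exact mul_eq_right.1 hC
  have kD : e2 = e1 := by
    have : e1 * e2 = e1 * e1 := by rw [kB', ← pow_two, kC]
    exact mul_left_cancel this
  rw [he1, he2, h2] at kD
  exact (mul_right_cancel (mul_right_cancel kD)).symm

/-- `(y_k y) ^ 2 = y⁻¹ (y y_k) ^ 2 y`; it is in `Z` iff `(y y_k)^2` is, and then they are equal; reduce to `eps_right`. -/
theorem eps_left {Γ : Type*} [Group Γ] (Z : Subgroup Γ) (hZc : Z ≤ Subgroup.center Γ)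
    (h3 : NoTor Z 3) (y y1 y2 : Γ) (hy : y ^ 2 ∈ Z) (h1 : y1 ^ 2 ∈ Z) (h2 : y2 ^ 2 = y1 ^ 2)
    (hc1 : (y1 * y) ^ 2 ∈ Z) (hc2 : (y2 * y) ^ 2 ∈ Z) (h12 : (y1 * y2) ^ 3 = 1) :
    (y1 * y) ^ 2 = (y2 * y) ^ 2 := by
  have cen : ∀ z ∈ Z, ∀ g : Γ, Commute z g := fun z hz g =>
    (Subgroup.mem_center_iff.1 (hZc hz) g).symm
  have swap : ∀ w : Γ, (w * y) ^ 2 ∈ Z → (y * w) ^ 2 = (w * y) ^ 2 := by
    intro w hw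
    have : (y * w) ^ 2 = y * (w * y) ^ 2 * y⁻¹ := by rw [pow_two, pow_two]; group
    rw [this, ← (cen _ hw y).eq]
    group
  have s1 := swap y1 hc1
  have s2 := swap y2 hc2
  rw [← s1, ← s2]
  exact eps_right Z hZc h3 y y1 y2 hy h1 h2 (s1 ▸ hc1) (s2 ▸ hc2) h12

end Cfsg.Agent.Lib.H82AltEps
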