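import Cfsg.Agent.Lib.H82AltDefs

set_option autoImplicit false

namespace Cfsg.Agent.Lib.H82AltEpsA

open Cfsg.Agent.Lib.H82AltDefs

/-- PIECE EpsA (40 min, pure Mathlib).  `ε = (y1 y3) ^ 2 ∈ Z` central.  `y1 y3 y1 y3 = ε` gives
`y3 y1 y3⁻¹ = y1⁻¹ ε (y3 ^ 2)⁻¹ = y1 ε a^(-2) = y1 ε`; conjugating twice (`y3 ^ 2 = a` central) `ε ^ 2 = 1`.
With `v1 = y1`, `v2 = x y1 x⁻¹`, `v3 = x⁻¹ y1 x` and `y3 x y3⁻¹ = x⁻¹`: `y3 v1 y3⁻¹ = v1 ε`, `y3 v2 y3⁻¹ = v3 ε`, `y3 v3 y3⁻¹ = v2 ε`.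
`v2 v3 v1 = (x y1) ^ 3 x ^ (-3) = 1` (use `x⁻¹ = x ^ 2`).  Conjugating by `y3`: `v3 v2 v1 ε ^ 3 = 1`, i.e. (`hv`) `a ε ^ 3 = 1`, so
`ε = ε ^ 3 = a⁻¹ = a`. -/
theorem eps_a {Γ : Type*} [Group Γ] (Z : Subgroup Γ) (hZc : Z ≤ Subgroup.center Γ)
    (x y1 y3 a : Γ) (ha : a ∈ Z) (ha2 : a ^ 2 = 1) (hx : x ^ 3 = 1) (hxy : (x * y1) ^ 3 = 1)
    (h1 : y1 ^ 2 = a) (h3 : y3 ^ 2 = a) (hinv : y3 * x * y3⁻¹ = x⁻¹)
    (hv : (x⁻¹ * y1 * x) * (x * y1 * x⁻¹) * y1 = a) (hc : (y1 * y3) ^ 2 ∈ Z) :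
    (y1 * y3) ^ 2 = a := by
  have hac : ∀ g, g * a = a * g := Subgroup.mem_center_iff.1 (hZc ha)
  have hec : ∀ g, g * (y1 * y3) ^ 2 = (y1 * y3) ^ 2 * g := Subgroup.mem_center_iff.1 (hZc hc)
  have haa : a * a = 1 := by rw [← sq]; exact ha2
  have h11 : y1 * y1 = a := by rw [← sq]; exact h1
  have h33 : y3 * y3 = a := by rw [← sq]; exact h3
  -- y3 y1 y3⁻¹ = y1 ε
  have e0 : y3 * y1 * y3⁻¹ = y1⁻¹ * (y1 * y3) ^ 2 * (y3 * y3)⁻¹ := by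
    simp only [pow_succ, pow_zero, one_mul, mul_inv_rev]
    group
  generalize (y1 * y3) ^ 2 = ε at hec e0 ⊢
  have hy1i : y1⁻¹ = y1 * a := by
    rw [inv_eq_iff_mul_eq_one, ← mul_assoc, h11, haa]
  have hai : a⁻¹ = a := inv_eq_of_mul_eq_one_right haa
  have e1 : y3 * y1 * y3⁻¹ = y1 * ε := by
    rw [e0, h33, hai, hy1i]
    calc y1 * a * ε * a = y1 * (a * ε) * a := by group
      _ = y1 * (ε * a) * a := by rw [hec a]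
      _ = y1 * ε * (a * a) := by group
      _ = y1 * ε := by rw [haa, mul_one]
  have hinv' : y3 * x⁻¹ * y3⁻¹ = x := by
    have : y3 * x⁻¹ * y3⁻¹ = (y3 * x * y3⁻¹)⁻¹ := by group
    rw [this, hinv, inv_inv]
  -- ε ^ 2 = 1
  have e2 : ε * ε = 1 := by
    have t1 : y3 * (y3 * y1 * y3⁻¹) * y3⁻¹ = y1 * ε * ε := by
      rw [e1]
      calc y3 * (y1 * ε) * y3⁻¹ = y3 * y1 * (ε * y3⁻¹) := by group
        _ = y3 * y1 * (y3⁻¹ * ε) := by rw [hec y3⁻¹]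
        _ = (y3 * y1 * y3⁻¹) * ε := by group
        _ = y1 * ε * ε := by rw [e1]
    have t2 : y3 * (y3 * y1 * y3⁻¹) * y3⁻¹ = y1 := by
      calc y3 * (y3 * y1 * y3⁻¹) * y3⁻¹ = (y3 * y3) * y1 * (y3 * y3)⁻¹ := by group
        _ = a * y1 * a⁻¹ := by rw [h33]
        _ = y1 * a * a⁻¹ := by rw [hac y1]
        _ = y1 := by group
    rw [t2] at t1
    apply mul_left_cancel (a := y1)
    rw [mul_one, ← mul_assoc]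
    exact t1.symm
  -- v2 v3 v1 = 1
  have hxi : x⁻¹ * x⁻¹ = x := by
    have : x⁻¹ * x⁻¹ = (x ^ 3)⁻¹ * x := by
      simp only [pow_succ, pow_zero, one_mul, mul_inv_rev]
      group
    rw [this, hx, inv_one, one_mul]
  have e3 : (x * y1 * x⁻¹) * (x⁻¹ * y1 * x) * y1 = 1 := by
    calc (x * y1 * x⁻¹) * (x⁻¹ * y1 * x) * y1 = x * y1 * (x⁻¹ * x⁻¹) * y1 * x * y1 := by group
      _ = x * y1 * x * y1 * x * y1 := by rw [hxi]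
      _ = (x * y1) ^ 3 := by simp only [pow_succ, pow_zero, one_mul, mul_assoc]
      _ = 1 := hxy
  -- conjugates
  have c2 : y3 * (x * y1 * x⁻¹) * y3⁻¹ = (x⁻¹ * y1 * x) * ε := by
    calc y3 * (x * y1 * x⁻¹) * y3⁻¹
        = (y3 * x * y3⁻¹) * (y3 * y1 * y3⁻¹) * (y3 * x⁻¹ * y3⁻¹) := by group
      _ = x⁻¹ * (y1 * ε) * x := by rw [hinv, e1, hinv']
      _ = x⁻¹ * y1 * (ε * x) := by group
      _ = x⁻¹ * y1 * (x * ε) := by rw [hec x]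
      _ = (x⁻¹ * y1 * x) * ε := by group
  have c3 : y3 * (x⁻¹ * y1 * x) * y3⁻¹ = (x * y1 * x⁻¹) * ε := by
    calc y3 * (x⁻¹ * y1 * x) * y3⁻¹
        = (y3 * x⁻¹ * y3⁻¹) * (y3 * y1 * y3⁻¹) * (y3 * x * y3⁻¹) := by group
      _ = x * (y1 * ε) * x⁻¹ := by rw [hinv, e1, hinv']
      _ = x * y1 * (ε * x⁻¹) := by group
      _ = x * y1 * (x⁻¹ * ε) := by rw [hec x⁻¹]
      _ = (x * y1 * x⁻¹) * ε := by group
  have e4 : ((x⁻¹ * y1 * x) * ε) * ((x * y1 * x⁻¹) * ε) * (y1 * ε) = 1 := by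
    rw [← c2, ← c3, ← e1]
    calc y3 * (x * y1 * x⁻¹) * y3⁻¹ * (y3 * (x⁻¹ * y1 * x) * y3⁻¹) * (y3 * y1 * y3⁻¹)
        = y3 * ((x * y1 * x⁻¹) * (x⁻¹ * y1 * x) * y1) * y3⁻¹ := by group
      _ = 1 := by rw [e3, mul_one, mul_inv_cancel]
  generalize x⁻¹ * y1 * x = v3 at hv e4
  generalize x * y1 * x⁻¹ = v2 at hv e4
  have e5 : (v3 * ε) * (v2 * ε) * (y1 * ε) = (v3 * v2 * y1) * ε * (ε * ε) := by
    calc (v3 * ε) * (v2 * ε) * (y1 * ε) = v3 * (ε * v2) * (ε * y1) * ε := by group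
      _ = v3 * (v2 * ε) * (y1 * ε) * ε := by rw [hec v2, hec y1]
      _ = v3 * v2 * (ε * y1) * ε * ε := by group
      _ = v3 * v2 * (y1 * ε) * ε * ε := by rw [hec y1]
      _ = (v3 * v2 * y1) * ε * (ε * ε) := by group
  rw [e5, hv, e2, mul_one] at e4
  -- a * ε = 1
  have : ε = a⁻¹ := eq_inv_of_mul_eq_one_right e4
  rw [this, hai]

end Cfsg.Agent.Lib.H82AltEpsA
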