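import Cfsg.Agent.Lib.H82AltDefs

set_option autoImplicit false

namespace Cfsg.Agent.Lib.H82AltFar

open Cfsg.Agent.Lib.H82AltDefs

/-- PIECE Far (25 min, pure Mathlib).  `y x y⁻¹ = x⁻¹` (from `y ^ 2 = 1`, `(x y) ^ 2 = 1`), so the central element `x ^ 3`
equals its inverse. -/
theorem cube_eq_one {Γ : Type*} [Group Γ] (Z : Subgroup Γ) (hZc : Z ≤ Subgroup.center Γ)
    (h2 : NoTor Z 2) (x y : Γ) (hy : y ^ 2 = 1) (hxy : (x * y) ^ 2 = 1) (hx : x ^ 3 ∈ Z) :
    x ^ 3 = 1 := by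
  have hyy : y * y = 1 := by rw [← sq]; exact hy
  have hyi : y⁻¹ = y := inv_eq_of_mul_eq_one_right hyy
  have hxyxy : x * y * (x * y) = 1 := by rw [← sq]; exact hxy
  have h1 : y * x * y⁻¹ = x⁻¹ := by
    rw [hyi]
    calc y * x * y = x⁻¹ * (x * y * (x * y)) := by group
      _ = x⁻¹ := by rw [hxyxy, mul_one]
  have h2' : y * x ^ 3 * y⁻¹ = (x ^ 3)⁻¹ := by rw [← conj_pow, h1, inv_pow]
  have h3 : y * x ^ 3 = x ^ 3 * y := (Subgroup.mem_center_iff.1 (hZc hx)) y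
  rw [h3, mul_inv_cancel_right] at h2'
  apply h2 _ hx
  rw [sq]
  calc x ^ 3 * x ^ 3 = (x ^ 3)⁻¹ * x ^ 3 := by rw [← h2']
    _ = 1 := inv_mul_cancel _

/-- Put `c = (x y') ^ 2 ∈ Z`.  Then `y' x y' = x⁻¹ c`, `y x y = x⁻¹`; `u = y y'` has `u ^ 2 = 1` and
`u x u⁻¹ = y (y' x y') y = x c`; so `x = u ^ 2 x u ^ (-2) = x c ^ 2`, `c ^ 2 = 1`, `c = 1`. -/
theorem c0_far {Γ : Type*} [Group Γ] (Z : Subgroup Γ) (hZc : Z ≤ Subgroup.center Γ)
    (h2 : NoTor Z 2) (x y y' : Γ) (hy : y ^ 2 = 1) (hy' : y' ^ 2 = 1) (hxy : (x * y) ^ 2 = 1)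
    (hyy' : (y * y') ^ 2 = 1) (h : (x * y') ^ 2 ∈ Z) : (x * y') ^ 2 = 1 := by
  have hyy : y * y = 1 := by rw [← sq]; exact hy
  have hy'y' : y' * y' = 1 := by rw [← sq]; exact hy'
  have hyi : y⁻¹ = y := inv_eq_of_mul_eq_one_right hyy
  have hy'i : y'⁻¹ = y' := inv_eq_of_mul_eq_one_right hy'y'
  have hxyxy : x * y * (x * y) = 1 := by rw [← sq]; exact hxy
  have huu : y * y' * (y * y') = 1 := by rw [← sq]; exact hyy'
  have hc : ∀ g, g * (x * y') ^ 2 = (x * y') ^ 2 * g := Subgroup.mem_center_iff.1 (hZc h)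
  apply h2 _ h
  have e1 : y' * x * y' = x⁻¹ * (x * y') ^ 2 := by rw [sq]; group
  generalize (x * y') ^ 2 = c at hc e1 ⊢
  have e2 : y * x * y = x⁻¹ := by
    calc y * x * y = x⁻¹ * (x * y * (x * y)) := by group
      _ = x⁻¹ := by rw [hxyxy, mul_one]
  have e3 : y * x⁻¹ * y = x := by
    rw [← e2]
    calc y * (y * x * y) * y = (y * y) * x * (y * y) := by group
      _ = x := by rw [hyy, one_mul, mul_one]
  have e4 : (y * y') * x * (y' * y) = x * c := by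
    calc (y * y') * x * (y' * y) = y * (y' * x * y') * y := by group
      _ = y * (x⁻¹ * c) * y := by rw [e1]
      _ = y * x⁻¹ * (c * y) := by group
      _ = y * x⁻¹ * (y * c) := by rw [hc y]
      _ = (y * x⁻¹ * y) * c := by group
      _ = x * c := by rw [e3]
  have hi : (y * y')⁻¹ = y' * y := by rw [mul_inv_rev, hyi, hy'i]
  have e5 : (y' * y) * (y' * y) = 1 := by
    rw [← hi, ← mul_inv_rev, huu, inv_one]
  have e6 : x = x * c * c := by
    calc x = (y * y' * (y * y')) * x * ((y' * y) * (y' * y)) := by rw [huu, e5, one_mul, mul_one]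
      _ = (y * y') * ((y * y') * x * (y' * y)) * (y' * y) := by group
      _ = (y * y') * (x * c) * (y' * y) := by rw [e4]
      _ = (y * y') * x * (c * (y' * y)) := by group
      _ = (y * y') * x * ((y' * y) * c) := by rw [hc (y' * y)]
      _ = ((y * y') * x * (y' * y)) * c := by group
      _ = x * c * c := by rw [e4]
  rw [sq]
  apply mul_left_cancel (a := x)
  rw [mul_one, ← mul_assoc]
  exact e6.symm

end Cfsg.Agent.Lib.H82AltFar
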