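import Cfsg.Agent.Lib.H82AltDefs

set_option autoImplicit false

namespace Cfsg.Agent.Lib.H82AltFour

open Cfsg.Agent.Lib.H82AltDefs

/-- the four group `{1, v1, v2, v3}` -/
def V4 {Γ : Type*} [Group Γ] (v1 v2 v3 : Γ) (q1 : v1 * v1 = 1) (q2 : v2 * v2 = 1) (q3 : v3 * v3 = 1)
    (t12 : v1 * v2 = v3) (t21 : v2 * v1 = v3) (t13 : v1 * v3 = v2) (t31 : v3 * v1 = v2)
    (t23 : v2 * v3 = v1) (t32 : v3 * v2 = v1) : Subgroup Γ where
  carrier := {g | g = 1 ∨ g = v1 ∨ g = v2 ∨ g = v3}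
  one_mem' := Or.inl rfl
  mul_mem' := by
    rintro a b (rfl | rfl | rfl | rfl) (rfl | rfl | rfl | rfl) <;>
      simp [q1, q2, q3, t12, t21, t13, t31, t23, t32]
  inv_mem' := by
    rintro a (rfl | rfl | rfl | rfl)
    · simp
    · rw [inv_eq_of_mul_eq_one_left q1]; simp
    · rw [inv_eq_of_mul_eq_one_left q2]; simp
    · rw [inv_eq_of_mul_eq_one_left q3]; simp

/-- PIECE Four (60 min, pure Mathlib).  The case `n = 4`, odd kernel.  `a = x ^ 3` is central.  `v1 = y`, `v2 = x y x⁻¹`,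
`v3 = x^2 y x^(-2)` are involutions (or `1`), `x v1 x⁻¹ = v2`, `x v2 x⁻¹ = v3`, `x v3 x⁻¹ = a y a⁻¹ = v1`, and
`(x y) ^ 3 = v2 v3 v1 a`, so `b := v2 v3 v1 ∈ Z`.  As in piece BZero `b = 1` (`v2 v3 = b v1`, `(v2 v3)^2 = b^2` is inverted by `v2`).
Hence `v2 v3 = v1`, the `v_i` commute pairwise and `V = {1, v1, v2, v3}` is a subgroup, all of whose elements satisfy `v ^ 2 = 1`;
it is normalised by `x` and contains `y`, so it is normal in `Γ = ⟨x, y⟩`, and `Γ ⧸ V` is generated by the image of `x`, so it is commutative: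
`commutator Γ ≤ V`.  Every `z ∈ Z ≤ commutator Γ ≤ V` has `z ^ 2 = 1`, so `z = 1`. -/
theorem odd_four {Γ : Type*} [Group Γ] (Z : Subgroup Γ) (hZc : Z ≤ Subgroup.center Γ)
    (hZd : Z ≤ commutator Γ) (h2 : NoTor Z 2) (x y : Γ) (hy : y ^ 2 = 1) (hx : x ^ 3 ∈ Z)
    (hxy : (x * y) ^ 3 ∈ Z) (hgen : Subgroup.closure {x, y} = ⊤) : Z = ⊥ := by
  have cen : ∀ z ∈ Z, ∀ g : Γ, Commute z g := fun z hz g =>
    (Subgroup.mem_center_iff.1 (hZc hz) g).symm
  obtain ⟨v2, hv2⟩ : ∃ v2, v2 = x * y * x⁻¹ := ⟨_, rfl⟩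
  obtain ⟨v3, hv3⟩ : ∃ v3, v3 = x * v2 * x⁻¹ := ⟨_, rfl⟩
  have q1 : y * y = 1 := by rw [← pow_two]; exact hy
  have q2 : v2 * v2 = 1 := by
    rw [hv2]
    calc x * y * x⁻¹ * (x * y * x⁻¹) = x * (y * y) * x⁻¹ := by group
      _ = 1 := by rw [q1]; group
  have q3 : v3 * v3 = 1 := by
    rw [hv3]
    calc x * v2 * x⁻¹ * (x * v2 * x⁻¹) = x * (v2 * v2) * x⁻¹ := by group
      _ = 1 := by rw [q2]; group
  have i1 : y⁻¹ = y := inv_eq_of_mul_eq_one_left q1
  have i2 : v2⁻¹ = v2 := inv_eq_of_mul_eq_one_left q2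
  have i3 : v3⁻¹ = v3 := inv_eq_of_mul_eq_one_left q3
  have hcy : x ^ 3 * y * (x ^ 3)⁻¹ = y := by
    rw [(cen _ hx y).eq]; group
  have c3 : x * v3 * x⁻¹ = y := by
    rw [hv3, hv2]
    calc x * (x * (x * y * x⁻¹) * x⁻¹) * x⁻¹ = x ^ 3 * y * (x ^ 3)⁻¹ := by
          rw [pow_succ, pow_two]; group
      _ = y := hcy
  -- `b`
  obtain ⟨b, hb⟩ : ∃ b, b = v2 * v3 * y := ⟨_, rfl⟩
  have hbZ : b ∈ Z := by
    have : b = (x * y) ^ 3 * (x ^ 3)⁻¹ := by
      have e : (x * y) ^ 3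
          = (x * y * x⁻¹) * (x * (x * y * x⁻¹) * x⁻¹) * (x ^ 3 * y * (x ^ 3)⁻¹) * x ^ 3 := by
        rw [pow_succ (x * y), pow_two (x * y)]; group
      rw [e, hcy, hb, hv3, hv2]; group
    rw [this]
    exact Z.mul_mem hxy (Z.inv_mem hx)
  have e23 : v2 * v3 = b * y := by
    rw [hb, mul_assoc (v2 * v3), q1, mul_one]
  have sq23 : (v2 * v3) * (v2 * v3) = b * b := by
    rw [e23]
    calc b * y * (b * y) = b * (y * b) * y := by group
      _ = b * (b * y) * y := by rw [(cen b hbZ y).eq]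
      _ = b * b * (y * y) := by group
      _ = b * b := by rw [q1, mul_one]
  have hinv : b * b = (b * b)⁻¹ := by
    have h1 : v2 * ((v2 * v3) * (v2 * v3)) * v2⁻¹ = ((v2 * v3) * (v2 * v3))⁻¹ := by
      calc v2 * ((v2 * v3) * (v2 * v3)) * v2⁻¹ = (v2 * v2) * v3 * v2 * v3 * v2⁻¹ := by group
        _ = v3⁻¹ * v2⁻¹ * v3⁻¹ * v2⁻¹ := by rw [q2, i2, i3, one_mul]
        _ = _ := by group
    rw [sq23, ← (cen _ (Z.mul_mem hbZ hbZ) v2).eq] at h1
    rw [← h1]; group
  have hbb : b * b = 1 := by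
    apply h2 _ (Z.mul_mem hbZ hbZ)
    rw [pow_two]
    nth_rewrite 1 [hinv]
    exact inv_mul_cancel _
  have hb1 : b = 1 := h2 _ hbZ (by rw [pow_two]; exact hbb)
  have t23 : v2 * v3 = y := by rw [e23, hb1, one_mul]
  have t32 : v3 * v2 = y := by
    have : (v2 * v3)⁻¹ = y⁻¹ := by rw [t23]
    rwa [mul_inv_rev, i2, i3, i1] at this
  have t12 : y * v2 = v3 := by rw [← t32, mul_assoc, q2, mul_one]
  have t21 : v2 * y = v3 := by rw [← t23, ← mul_assoc, q2, one_mul]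
  have t13 : y * v3 = v2 := by rw [← t23, mul_assoc, q3, mul_one]
  have t31 : v3 * y = v2 := by rw [← t32, ← mul_assoc, q3, one_mul]
  let V := V4 y v2 v3 q1 q2 q3 t12 t21 t13 t31 t23 t32
  have hVmem : ∀ g, g ∈ V ↔ g = 1 ∨ g = y ∨ g = v2 ∨ g = v3 := fun g => Iff.rfl
  have hxN : x ∈ Subgroup.normalizer (V : Set Γ) := by
    rw [Subgroup.mem_normalizer_iff]
    intro h
    rw [hVmem, hVmem]
    constructor
    · rintro (rfl | rfl | rfl | rfl)
      · left; group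
      · right; right; left; exact hv2.symm
      · right; right; right; exact hv3.symm
      · right; left; exact c3
    · have cancel : ∀ u w : Γ, x * u * x⁻¹ = x * w * x⁻¹ → u = w := fun u w huw =>
        mul_left_cancel (mul_right_cancel huw)
      rintro (h1 | h1 | h1 | h1)
      · left
        apply cancel
        rw [h1]; group
      · right; right; right
        apply cancel
        rw [h1, c3]
      · right; left
        apply cancel
        rw [h1, hv2]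
      · right; right; left
        apply cancel
        rw [h1, hv3]
  have hyV : y ∈ V := (hVmem y).2 (Or.inr (Or.inl rfl))
  have hNtop : ∀ g : Γ, g ∈ Subgroup.normalizer (V : Set Γ) := by
    intro g
    have hle : Subgroup.closure {x, y} ≤ Subgroup.normalizer (V : Set Γ) := by
      rw [Subgroup.closure_le]
      rintro w (rfl | rfl)
      · exact hxN
      · exact Subgroup.le_normalizer hyV
    rw [hgen] at hle
    exact hle trivial
  haveI hVn : V.Normal := ⟨fun n hn g => (Subgroup.mem_normalizer_iff.1 (hNtop g) n).1 hn⟩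
  have hsup : V ⊔ Subgroup.zpowers x = ⊤ := by
    rw [eq_top_iff, ← hgen, Subgroup.closure_le]
    rintro w (rfl | rfl)
    · exact Subgroup.mem_sup_right (Subgroup.mem_zpowers _)
    · exact Subgroup.mem_sup_left hyV
  have hcomm : commutator Γ ≤ V :=
    Subgroup.Normal.commutator_le_of_self_sup_commutative_eq_top hsup inferInstance
  rw [eq_bot_iff]
  intro z hz
  rw [Subgroup.mem_bot]
  apply h2 z hz
  rw [pow_two]
  rcases (hVmem z).1 (hcomm (hZd hz)) with rfl | rfl | rfl | rfl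
  · simp
  · exact q1
  · exact q2
  · exact q3

end Cfsg.Agent.Lib.H82AltFour
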