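import Cfsg.Agent.Lib.H82AltDefs

set_option autoImplicit false

namespace Cfsg.Agent.Lib.H82AltInv

open Cfsg.Agent.Lib.H82AltDefs

/-- PIECE Inv (15 min, pure Mathlib).  `x (x y) x⁻¹ = y x = (x y)⁻¹` since `x, y` are involutions; so the central element
`c = (x y) ^ k` satisfies `c = x c x⁻¹ = c⁻¹`, `c ^ 2 = 1`, `c = 1`. -/
theorem inv_pow_eq_one {Γ : Type*} [Group Γ] (Z : Subgroup Γ) (hZc : Z ≤ Subgroup.center Γ)
    (h2 : NoTor Z 2) (x y : Γ) (hx : x ^ 2 = 1) (hy : y ^ 2 = 1) (k : ℕ) (h : (x * y) ^ k ∈ Z) :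
    (x * y) ^ k = 1 := by
  apply h2 _ h
  have hc := Subgroup.mem_center_iff.mp (hZc h)
  have hxi : x⁻¹ = x := by
    rw [inv_eq_iff_mul_eq_one, ← pow_two, hx]
  have hyi : y⁻¹ = y := by
    rw [inv_eq_iff_mul_eq_one, ← pow_two, hy]
  have e1 : x * (x * y) * x⁻¹ = (x * y)⁻¹ := by
    rw [mul_inv_rev, hxi, hyi, ← mul_assoc, ← pow_two, hx, one_mul]
  have e2 : x * (x * y) ^ k * x⁻¹ = ((x * y) ^ k)⁻¹ := by
    rw [← conj_pow, e1, inv_pow]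
  have e3 : x * (x * y) ^ k * x⁻¹ = (x * y) ^ k := by
    rw [hc x, mul_inv_cancel_right]
  rw [e3] at e2
  rw [pow_two]
  nth_rewrite 1 [e2]
  exact inv_mul_cancel _

end Cfsg.Agent.Lib.H82AltInv
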