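import Cfsg.Agent.Lib.H82AltDefs

set_option autoImplicit false

namespace Cfsg.Agent.Lib.H82AltNormOdd

open Cfsg.Agent.Lib.H82AltDefs

/-- PIECE NormOdd (30 min, pure Mathlib).  For `1 ≤ i < m` pick `w_i ∈ Z` with `w_i ^ 2 = (t i ^ 2)⁻¹` and put
`t' i = t i * w_i` (`t' i = t i` otherwise); `w_i` is central so `(t i * w_i) ^ 2 = t i ^ 2 * w_i ^ 2 = 1`. -/
theorem norm_sq {Γ : Type*} [Group Γ] (Z : Subgroup Γ) (hZc : Z ≤ Subgroup.center Γ)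
    (d2 : Divis Z 2) (m : ℕ) (t : ℕ → Γ) (ht : Rel Z m t) :
    ∃ t', Same Z t t' ∧ ∀ i, 1 ≤ i → i < m → t' i ^ 2 = 1 := by
  have hcomm : ∀ z ∈ Z, ∀ g : Γ, Commute g z := fun z hz g =>
    (Subgroup.mem_center_iff.mp (hZc hz) g)
  have key : ∀ i, ∃ w ∈ Z, (1 ≤ i → i < m → (t i * w) ^ 2 = 1) := by
    intro i
    by_cases hi : 1 ≤ i ∧ i < m
    · obtain ⟨w, hw, hw2⟩ := d2 _ (Z.inv_mem (ht.a i hi.1 hi.2))
      refine ⟨w, hw, fun _ _ => ?_⟩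
      rw [(hcomm w hw (t i)).mul_pow, hw2, mul_inv_cancel]
    · exact ⟨1, Z.one_mem, fun h1 h2 => absurd ⟨h1, h2⟩ hi⟩
  choose w hw1 hw2 using key
  refine ⟨fun i => t i * w i, fun i => ?_, fun i h1 h2 => hw2 i h1 h2⟩
  show (t i)⁻¹ * (t i * w i) ∈ Z
  rw [inv_mul_cancel_left]
  exact hw1 i

/-- As `norm_sq`; moreover replace `t 0` by `t 0 * w` with `w ∈ Z`, `w ^ 2 = ((t 0 * t' 2) ^ 2)⁻¹`
(note `(t 0 * t' 2) ^ 2 ∈ Z` because `t' 2 = t 2 * w_2`), so that `(t 0 * w * t' 2) ^ 2 = (t 0 * t' 2) ^ 2 * w ^ 2 = 1`. -/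
theorem norm_odd {Γ : Type*} [Group Γ] (Z : Subgroup Γ) (hZc : Z ≤ Subgroup.center Γ)
    (d2 : Divis Z 2) (m : ℕ) (hm : 3 ≤ m) (t : ℕ → Γ) (ht : Rel Z m t) :
    ∃ t', Same Z t t' ∧ (∀ i, 1 ≤ i → i < m → t' i ^ 2 = 1) ∧ (t' 0 * t' 2) ^ 2 = 1 := by
  have hcomm : ∀ z ∈ Z, ∀ g : Γ, Commute g z := fun z hz g =>
    (Subgroup.mem_center_iff.mp (hZc hz) g)
  obtain ⟨t1, hs1, hsq⟩ := norm_sq Z hZc d2 m t ht
  -- `(t1 0 * t1 2) ^ 2 ∈ Z`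
  have hmem : (t1 0 * t1 2) ^ 2 ∈ Z := by
    have h0 := hs1 0
    have h2 := hs1 2
    have e : t1 0 * t1 2 = (t 0 * t 2) * (((t 0)⁻¹ * t1 0) * ((t 2)⁻¹ * t1 2)) := by
      have c1 := (hcomm _ h0 (t 2)).eq
      calc t1 0 * t1 2 = t 0 * ((t 0)⁻¹ * t1 0) * t 2 * ((t 2)⁻¹ * t1 2) := by group
        _ = t 0 * (((t 0)⁻¹ * t1 0) * t 2) * ((t 2)⁻¹ * t1 2) := by group
        _ = t 0 * (t 2 * ((t 0)⁻¹ * t1 0)) * ((t 2)⁻¹ * t1 2) := by rw [c1]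
        _ = _ := by group
    rw [e, (hcomm _ (Z.mul_mem h0 h2) (t 0 * t 2)).mul_pow]
    exact Z.mul_mem (ht.c 0 2 (by norm_num) (by omega)) (Z.pow_mem (Z.mul_mem h0 h2) 2)
  obtain ⟨w, hw, hw2⟩ := d2 _ (Z.inv_mem hmem)
  refine ⟨Function.update t1 0 (t1 0 * w), ?_, ?_, ?_⟩
  · intro i
    by_cases hi : i = 0
    · subst hi
      rw [Function.update_self, ← mul_assoc]
      exact Z.mul_mem (hs1 0) hw
    · rw [Function.update_of_ne hi]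
      exact hs1 i
  · intro i h1 h2
    rw [Function.update_of_ne (by omega)]
    exact hsq i h1 h2
  · rw [Function.update_self, Function.update_of_ne (by norm_num)]
    have e : t1 0 * w * t1 2 = (t1 0 * t1 2) * w := by
      rw [mul_assoc, ← (hcomm w hw (t1 2)).eq, mul_assoc]
    rw [e, (hcomm w hw (t1 0 * t1 2)).mul_pow, hw2, mul_inv_cancel]

end Cfsg.Agent.Lib.H82AltNormOdd
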