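import Cfsg.Agent.Lib.H82AltDefs

set_option autoImplicit false

namespace Cfsg.Agent.Lib.H82AltNormThree

open Cfsg.Agent.Lib.H82AltDefs

/-- PIECE NormThree (45 min, pure Mathlib).  Induction on `k`: there is `t'` with `Same Z t t'`, `t' 0 ^ 3 = 1` and
`(t' i * t' (i+1)) ^ 3 = 1` for all `i + 1 < m` with `i + 1 ≤ k`.  Start: `t' = update t 0 (t 0 * w)`, `w ^ 3 = (t 0 ^ 3)⁻¹`.
Step: `update t' (k+1) (t' (k+1) * w)` with `w ∈ Z`, `w ^ 3 = ((t' k * t' (k+1)) ^ 3)⁻¹` (this element is in `Z` since the relators of
`t'` are still in `Z`: `t' i = t i * z_i`, `z_i` central); the earlier relators do not involve the index `k+1`.  Finally take `k = m`. -/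
theorem norm_three {Γ : Type*} [Group Γ] (Z : Subgroup Γ) (hZc : Z ≤ Subgroup.center Γ)
    (d3 : Divis Z 3) (m : ℕ) (hm : 1 ≤ m) (t : ℕ → Γ) (ht : Rel Z m t) :
    ∃ t', Same Z t t' ∧ t' 0 ^ 3 = 1 ∧ ∀ i, i + 1 < m → (t' i * t' (i + 1)) ^ 3 = 1 := by
  have cen : ∀ z ∈ Z, ∀ g : Γ, Commute z g := fun z hz g =>
    (Subgroup.mem_center_iff.1 (hZc hz) g).symm
  have key : ∀ k : ℕ, ∃ t', Same Z t t' ∧ t' 0 ^ 3 = 1 ∧
      ∀ i, i + 1 < m → i + 1 ≤ k → (t' i * t' (i + 1)) ^ 3 = 1 := by
    intro k
    induction k with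
    | zero =>
      obtain ⟨w, hw, hw3⟩ := d3 _ (Z.inv_mem (ht.a0 (by omega)))
      refine ⟨Function.update t 0 (t 0 * w), ?_, ?_, ?_⟩
      · intro i
        by_cases hi : i = 0
        · subst hi
          rw [Function.update_self, inv_mul_cancel_left]
          exact hw
        · rw [Function.update_of_ne hi, inv_mul_cancel]
          exact Z.one_mem
      · rw [Function.update_self, ((cen w hw (t 0)).symm).mul_pow, hw3, mul_inv_cancel]
      · intro i _ hi
        omega
    | succ k ih =>
      obtain ⟨t', hS, h0, hk⟩ := ih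
      by_cases hkm : k + 1 < m
      · have hr : (t' k * t' (k + 1)) ^ 3 ∈ Z := by
          have e : t' k * t' (k + 1)
              = ((t k)⁻¹ * t' k * ((t (k + 1))⁻¹ * t' (k + 1))) * (t k * t (k + 1)) := by
            have c1 := cen _ (hS k) (t k)
            have c2 := cen _ (hS (k + 1)) (t k * t (k + 1))
            calc t' k * t' (k + 1)
                = t k * ((t k)⁻¹ * t' k) * t (k + 1) * ((t (k + 1))⁻¹ * t' (k + 1)) := by group
              _ = ((t k)⁻¹ * t' k) * (t k * t (k + 1) * ((t (k + 1))⁻¹ * t' (k + 1))) := by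
                  rw [← c1.eq]; group
              _ = ((t k)⁻¹ * t' k) * (((t (k + 1))⁻¹ * t' (k + 1)) * (t k * t (k + 1))) := by
                  rw [← c2.eq]
              _ = _ := by group
          rw [e, (cen _ (Z.mul_mem (hS k) (hS (k + 1))) _).mul_pow]
          exact Z.mul_mem (Z.pow_mem (Z.mul_mem (hS k) (hS (k + 1))) 3) (ht.b k hkm)
        obtain ⟨w, hw, hw3⟩ := d3 _ (Z.inv_mem hr)
        refine ⟨Function.update t' (k + 1) (t' (k + 1) * w), ?_, ?_, ?_⟩
        · intro i
          by_cases hi : i = k + 1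
          · subst hi
            rw [Function.update_self, ← mul_assoc]
            exact Z.mul_mem (hS _) hw
          · rw [Function.update_of_ne hi]
            exact hS i
        · rw [Function.update_of_ne (by omega)]
          exact h0
        · intro i him hik
          by_cases hi : i = k
          · subst hi
            rw [Function.update_self, Function.update_of_ne (by omega), ← mul_assoc,
              ((cen w hw _).symm).mul_pow, hw3, mul_inv_cancel]
          · rw [Function.update_of_ne (by omega), Function.update_of_ne (by omega)]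
            exact hk i him (by omega)
      · exact ⟨t', hS, h0, fun i him _ => hk i him (by omega)⟩
  obtain ⟨t', hS, h0, hk⟩ := key m
  exact ⟨t', hS, h0, fun i hi => hk i hi (by omega)⟩

end Cfsg.Agent.Lib.H82AltNormThree
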