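import Cfsg.Agent.Lib.H82AltDefs

set_option autoImplicit false

namespace Cfsg.Agent.Lib.H82AltQuot

open Cfsg.Agent.Lib.H82AltDefs

/-- PIECE Quot (60 min, pure Mathlib).  Let `Z1 ≤ Z` be (the image in `Γ` of) a Sylow 2-subgroup of `Z`; it is central in `Γ`, hence normal.
`Γ' = Γ ⧸ Z1`, `Z' = Z.map (mk' Z1)`.  `Z'` is central and contained in the commutator subgroup (images of central elements /
commutators under a surjection: `Subgroup.map_commutator`, `commutator_def`), `Γ' ⧸ Z' ≃* Γ ⧸ Z ≃* A`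
(`QuotientGroup.quotientQuotientEquivQuotient`), `|Z'| * |Z1| = |Z|`, `|Z1| = 2 ^ k` is the full 2-part of `|Z|`
(`Sylow.card_eq_multiplicity`), so `|Z'|` is odd. -/
theorem quot_two.{u, v} {Γ : Type u} [Group Γ] [Finite Γ] (Z : Subgroup Γ) [Z.Normal]
    (hZc : Z ≤ Subgroup.center Γ) (hZd : Z ≤ commutator Γ) {A : Type v} [Group A] (e : Γ ⧸ Z ≃* A) :
    ∃ (k : ℕ) (Γ' : Type u) (_ : Group Γ') (_ : Finite Γ') (Z' : Subgroup Γ') (_ : Z'.Normal),
      Z' ≤ Subgroup.center Γ' ∧ Z' ≤ commutator Γ' ∧ Nonempty (Γ' ⧸ Z' ≃* A) ∧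
      Odd (Nat.card Z') ∧ Nat.card Z' * 2 ^ k = Nat.card Z := by
  classical
  have : Fact (Nat.Prime 2) := ⟨Nat.prime_two⟩
  let P : Sylow 2 Z := Classical.arbitrary _
  let Z1 : Subgroup Γ := (P : Subgroup Z).map Z.subtype
  have hZ1 : Z1 ≤ Z := by
    rintro _ ⟨z, _, rfl⟩
    exact z.2
  have hcardZ1 : Nat.card Z1 = 2 ^ (Nat.card Z).factorization 2 := by
    rw [← Sylow.card_eq_multiplicity P]
    exact Nat.card_congr
      ((P : Subgroup Z).equivMapOfInjective Z.subtype Z.subtype_injective).symm.toEquiv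
  have hN1 : Z1.Normal := ⟨fun z hz g => by
    have := Subgroup.mem_center_iff.mp (hZc (hZ1 hz)) g
    rw [this, mul_inv_cancel_right]
    exact hz⟩
  have hsurj : Function.Surjective (QuotientGroup.mk' Z1) := QuotientGroup.mk'_surjective Z1
  let Z' : Subgroup (Γ ⧸ Z1) := Z.map (QuotientGroup.mk' Z1)
  have hN' : Z'.Normal := Subgroup.Normal.map inferInstance _ hsurj
  let E : (Γ ⧸ Z1) ⧸ Z' ≃* Γ ⧸ Z := QuotientGroup.quotientQuotientEquivQuotient Z1 Z hZ1
  have hcard : Nat.card Z' * 2 ^ (Nat.card Z).factorization 2 = Nat.card Z := by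
    have h1 := Subgroup.card_eq_card_quotient_mul_card_subgroup Z1
    have h2 := Subgroup.card_eq_card_quotient_mul_card_subgroup Z'
    have h3 := Subgroup.card_eq_card_quotient_mul_card_subgroup Z
    rw [Nat.card_congr E.toEquiv] at h2
    rw [h2, h3, hcardZ1, mul_assoc] at h1
    exact (Nat.eq_of_mul_eq_mul_left Nat.card_pos h1).symm
  refine ⟨(Nat.card Z).factorization 2, Γ ⧸ Z1, inferInstance, inferInstance, Z', hN', ?_, ?_,
    ⟨E.trans e⟩, ?_, hcard⟩
  · rintro _ ⟨z, hz, rfl⟩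
    rw [Subgroup.mem_center_iff]
    intro g'
    obtain ⟨g, rfl⟩ := hsurj g'
    rw [← map_mul, ← map_mul, Subgroup.mem_center_iff.mp (hZc hz) g]
  · have h1 : commutator (Γ ⧸ Z1) = (commutator Γ).map (QuotientGroup.mk' Z1) := by
      rw [commutator_def, commutator_def, Subgroup.map_commutator,
        Subgroup.map_top_of_surjective _ hsurj]
    rw [h1]
    exact Subgroup.map_mono hZd
  · have hne : Nat.card Z ≠ 0 := Nat.card_pos.ne'
    have h1 := Nat.not_dvd_ordCompl Nat.prime_two hne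
    have h2 : Nat.card Z / 2 ^ (Nat.card Z).factorization 2 = Nat.card Z' :=
      Nat.div_eq_of_eq_mul_left (pow_pos (by norm_num) _) hcard.symm
    rw [h2] at h1
    rw [← Nat.not_even_iff_odd, even_iff_two_dvd]
    exact h1

end Cfsg.Agent.Lib.H82AltQuot
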