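import Cfsg.Agent.Lib.H82AltDefs

set_option autoImplicit false

namespace Cfsg.Agent.Lib.H82AltSame

open Cfsg.Agent.Lib.H82AltDefs

/-- PIECE Same (20 min, pure Mathlib).  Changing the lifts by central elements of `Z` keeps the relators in `Z`:
if `t' i = t i * z_i` with `z_i ∈ Z` central then `(t' i) ^ k = (t i) ^ k * z_i ^ k` and
`(t' i * t' j) ^ k = (t i * t j) ^ k * (z_i * z_j) ^ k` (`Commute.mul_pow`). -/
theorem rel_same {Γ : Type*} [Group Γ] (Z : Subgroup Γ) (hZc : Z ≤ Subgroup.center Γ) (m : ℕ)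
    (t t' : ℕ → Γ) (h : Rel Z m t) (hs : Same Z t t') : Rel Z m t' := by
  have hz : ∀ i, ∃ z ∈ Z, t' i = t i * z := fun i => ⟨_, hs i, by group⟩
  have hcomm : ∀ z ∈ Z, ∀ g : Γ, Commute g z := fun z hz g =>
    (Subgroup.mem_center_iff.mp (hZc hz) g)
  have one : ∀ i k, t i ^ k ∈ Z → t' i ^ k ∈ Z := by
    intro i k hk
    obtain ⟨z, hz1, hz2⟩ := hz i
    rw [hz2, (hcomm z hz1 (t i)).mul_pow]
    exact Z.mul_mem hk (Z.pow_mem hz1 k)
  have two : ∀ i j k, (t i * t j) ^ k ∈ Z → (t' i * t' j) ^ k ∈ Z := by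
    intro i j k hk
    obtain ⟨z, hz1, hz2⟩ := hz i
    obtain ⟨w, hw1, hw2⟩ := hz j
    have e : t' i * t' j = (t i * t j) * (z * w) := by
      rw [hz2, hw2, mul_assoc, ← mul_assoc z, ← (hcomm z hz1 (t j)).eq, mul_assoc, mul_assoc]
    rw [e, (hcomm (z * w) (Z.mul_mem hz1 hw1) (t i * t j)).mul_pow]
    exact Z.mul_mem hk (Z.pow_mem (Z.mul_mem hz1 hw1) k)
  exact ⟨fun h0 => one 0 3 (h.a0 h0), fun i h1 h2 => one i 2 (h.a i h1 h2),
    fun i h1 => two i (i + 1) 3 (h.b i h1), fun i j h1 h2 => two i j 2 (h.c i j h1 h2)⟩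

theorem same_refl {Γ : Type*} [Group Γ] (Z : Subgroup Γ) (t : ℕ → Γ) : Same Z t t := by
  intro i
  rw [inv_mul_cancel]
  exact Z.one_mem

theorem same_trans {Γ : Type*} [Group Γ] (Z : Subgroup Γ) (t t' t'' : ℕ → Γ)
    (h : Same Z t t') (h' : Same Z t' t'') : Same Z t t'' := by
  intro i
  have : (t i)⁻¹ * t'' i = ((t i)⁻¹ * t' i) * ((t' i)⁻¹ * t'' i) := by group
  rw [this]
  exact Z.mul_mem (h i) (h' i)

end Cfsg.Agent.Lib.H82AltSame
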