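import Cfsg.Agent.Lib.H82AltDefs

set_option autoImplicit false

namespace Cfsg.Agent.Lib.H82AltThree

open Cfsg.Agent.Lib.H82AltDefs

/-- PIECE Three (30 min, pure Mathlib).  THE place where `n ≥ 8` is used.  Put `c = (x y3) ^ 2 ∈ Z`, `u = y2 y3`, `w = y2 y5`.
`y3 x y3 = x⁻¹ c`, `y2 x y2 = x⁻¹`, `y5 x y5 = x⁻¹`; hence `u x u⁻¹ = x c` and `w x w⁻¹ = x`.
`y5` commutes with `y2` and `y3` (involutions with `(y y5)^2 = 1`), so `w u w⁻¹ = y2 (y2 y3) y2 = y3 y2 = u⁻¹`.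
Conjugating `u x u⁻¹ = x c` by `w`: `u⁻¹ x u = x c`; but `u x u⁻¹ = x c` also gives `u⁻¹ x u = x c⁻¹`.
So `c ^ 2 = 1`, `c = 1`. -/
theorem c0_three {Γ : Type*} [Group Γ] (Z : Subgroup Γ) (hZc : Z ≤ Subgroup.center Γ)
    (h2 : NoTor Z 2) (x y2 y3 y5 : Γ) (hy2 : y2 ^ 2 = 1) (hy3 : y3 ^ 2 = 1) (hy5 : y5 ^ 2 = 1)
    (hx2 : (x * y2) ^ 2 = 1) (hx5 : (x * y5) ^ 2 = 1) (h25 : (y2 * y5) ^ 2 = 1)
    (h35 : (y3 * y5) ^ 2 = 1) (h : (x * y3) ^ 2 ∈ Z) : (x * y3) ^ 2 = 1 := by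
  apply h2 _ h
  set c := (x * y3) ^ 2 with hc
  have hcc : ∀ g : Γ, g * c = c * g := Subgroup.mem_center_iff.mp (hZc h)
  have hci : ∀ g : Γ, g * c⁻¹ = c⁻¹ * g := by
    intro g
    calc g * c⁻¹ = c⁻¹ * (c * g) * c⁻¹ := by group
      _ = c⁻¹ * (g * c) * c⁻¹ := by rw [hcc g]
      _ = c⁻¹ * g := by group
  have s2 : y2 * y2 = 1 := by rw [← pow_two, hy2]
  have s5 : y5 * y5 = 1 := by rw [← pow_two, hy5]
  have i2 : y2⁻¹ = y2 := by rw [inv_eq_iff_mul_eq_one, s2]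
  have i3 : y3⁻¹ = y3 := by rw [inv_eq_iff_mul_eq_one, ← pow_two, hy3]
  have i5 : y5⁻¹ = y5 := by rw [inv_eq_iff_mul_eq_one, s5]
  have E1 : y2 * x * y2 = x⁻¹ := by
    have h1 : x * y2 * (x * y2) = 1 := by rw [← pow_two, hx2]
    calc y2 * x * y2 = x⁻¹ * (x * y2 * (x * y2)) := by group
      _ = x⁻¹ := by rw [h1, mul_one]
  have E5 : y5 * x * y5 = x⁻¹ := by
    have h1 : x * y5 * (x * y5) = 1 := by rw [← pow_two, hx5]
    calc y5 * x * y5 = x⁻¹ * (x * y5 * (x * y5)) := by group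
      _ = x⁻¹ := by rw [h1, mul_one]
  have E3 : y3 * x * y3 = x⁻¹ * c := by
    calc y3 * x * y3 = x⁻¹ * (x * y3 * (x * y3)) := by group
      _ = x⁻¹ * c := by rw [hc, pow_two]
  have E1' : y2 * x⁻¹ * y2 = x := by
    calc y2 * x⁻¹ * y2 = (y2⁻¹ * x * y2⁻¹)⁻¹ := by group
      _ = (y2 * x * y2)⁻¹ := by rw [i2]
      _ = x := by rw [E1, inv_inv]
  have C25 : y5 * y2 = y2 * y5 := by
    have h1 : y2 * y5 * (y2 * y5) = 1 := by rw [← pow_two, h25]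
    calc y5 * y2 = y5⁻¹ * y2⁻¹ := by rw [i5, i2]
      _ = y5⁻¹ * y2⁻¹ * (y2 * y5 * (y2 * y5)) := by rw [h1, mul_one]
      _ = y2 * y5 := by group
  have C35 : y5 * y3 = y3 * y5 := by
    have h1 : y3 * y5 * (y3 * y5) = 1 := by rw [← pow_two, h35]
    calc y5 * y3 = y5⁻¹ * y3⁻¹ := by rw [i5, i3]
      _ = y5⁻¹ * y3⁻¹ * (y3 * y5 * (y3 * y5)) := by rw [h1, mul_one]
      _ = y3 * y5 := by group
  have U1 : y2 * y3 * x * (y3 * y2) = x * c := by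
    calc y2 * y3 * x * (y3 * y2) = y2 * (y3 * x * y3) * y2 := by group
      _ = y2 * (x⁻¹ * c) * y2 := by rw [E3]
      _ = y2 * x⁻¹ * (c * y2) := by group
      _ = y2 * x⁻¹ * (y2 * c) := by rw [hcc y2]
      _ = (y2 * x⁻¹ * y2) * c := by group
      _ = x * c := by rw [E1']
  have U2 : y3 * y2 * x * (y2 * y3) = x * c⁻¹ := by
    calc y3 * y2 * x * (y2 * y3) = y3 * (y2 * x * y2) * y3 := by group
      _ = y3 * x⁻¹ * y3 := by rw [E1]
      _ = (y3⁻¹ * x * y3⁻¹)⁻¹ := by group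
      _ = (y3 * x * y3)⁻¹ := by rw [i3]
      _ = c⁻¹ * x := by rw [E3]; group
      _ = x * c⁻¹ := (hci x).symm
  have W1 : y2 * y5 * x * (y5 * y2) = x := by
    calc y2 * y5 * x * (y5 * y2) = y2 * (y5 * x * y5) * y2 := by group
      _ = y2 * x⁻¹ * y2 := by rw [E5]
      _ = x := E1'
  have hwu : y2 * y5 * (y2 * y3) * (y5 * y2) = y3 * y2 := by
    calc y2 * y5 * (y2 * y3) * (y5 * y2) = y2 * (y5 * y2) * (y3 * y5) * y2 := by group
      _ = y2 * (y2 * y5) * (y5 * y3) * y2 := by rw [C25, C35]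
      _ = (y2 * y2) * (y5 * y5) * y3 * y2 := by group
      _ = y3 * y2 := by rw [s2, s5]; group
  have hwu' : y2 * y5 * (y3 * y2) * (y5 * y2) = y2 * y3 := by
    calc y2 * y5 * (y3 * y2) * (y5 * y2) = y2 * (y5 * y3) * (y2 * y5) * y2 := by group
      _ = y2 * (y3 * y5) * (y5 * y2) * y2 := by rw [C35, C25]
      _ = y2 * y3 * (y5 * y5) * (y2 * y2) := by group
      _ = y2 * y3 := by rw [s2, s5]; group
  have hww : (y5 * y2) * (y2 * y5) = 1 := by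
    calc (y5 * y2) * (y2 * y5) = y5 * (y2 * y2) * y5 := by group
      _ = 1 := by rw [s2, mul_one, s5]
  have U3 : y3 * y2 * x * (y2 * y3) = x * c := by
    calc y3 * y2 * x * (y2 * y3)
        = (y2 * y5 * (y2 * y3) * (y5 * y2)) * (y2 * y5 * x * (y5 * y2)) *
            (y2 * y5 * (y3 * y2) * (y5 * y2)) := by rw [hwu, W1, hwu']
      _ = y2 * y5 * (y2 * y3) * ((y5 * y2) * (y2 * y5)) * x * ((y5 * y2) * (y2 * y5)) *
            (y3 * y2) * (y5 * y2) := by group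
      _ = y2 * y5 * (y2 * y3 * x * (y3 * y2)) * (y5 * y2) := by rw [hww]; group
      _ = y2 * y5 * (x * c) * (y5 * y2) := by rw [U1]
      _ = y2 * y5 * x * (c * (y5 * y2)) := by group
      _ = y2 * y5 * x * ((y5 * y2) * c) := by rw [hcc (y5 * y2)]
      _ = (y2 * y5 * x * (y5 * y2)) * c := by group
      _ = x * c := by rw [W1]
  have hfin : c = c⁻¹ := mul_left_cancel (U3.symm.trans U2)
  rw [pow_two]
  nth_rewrite 1 [hfin]
  exact inv_mul_cancel c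

end Cfsg.Agent.Lib.H82AltThree
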