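import Cfsg.Agent.Lib.H82OSDefs

set_option autoImplicit false

namespace Cfsg.Agent.Lib.H82OSAut

open Cfsg.Agent.Lib.H82OSDefs

/-- PIECE Aut (60 min, pure Mathlib).  If `Lk D i j` the rule `x i ↦ x j` (`x ∈ D`) is a well defined homomorphism `T → T`
(well defined: `x i = y i → (x⁻¹ y) i = 1 → (x⁻¹ y) j = 1`; defined everywhere and onto by `Subd D`; e.g. define `f t = (choose x) j`).
Its kernel is a normal subgroup `≠ ⊤` (it is onto and `T` is non-trivial) so it is `⊥`: `f` is injective, hence bijective. -/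
theorem exists_aut {T : Type*} [Group T] [IsSimpleGroup T] {m : ℕ} (D : Subgroup (Fin m → T))
    (hS : Subd D) (i j : Fin m) (h : Lk D i j) : ∃ α : MulAut T, ∀ x ∈ D, x j = α (x i) := by
  classical
  choose c hcD hci using hS i
  have key : ∀ x ∈ D, x j = c (x i) j := by
    intro x hx
    have h1 : x⁻¹ * c (x i) ∈ D := D.mul_mem (D.inv_mem hx) (hcD _)
    have h2 : (x⁻¹ * c (x i)) i = 1 := by
      rw [Pi.mul_apply, Pi.inv_apply, hci, inv_mul_cancel]
    have h3 := h _ h1 h2
    rw [Pi.mul_apply, Pi.inv_apply, inv_mul_eq_one] at h3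
    exact h3
  let f : T →* T := MonoidHom.mk' (fun t => c t j) (by
    intro s t
    have h1 := key (c s * c t) (D.mul_mem (hcD s) (hcD t))
    rw [Pi.mul_apply, Pi.mul_apply, hci, hci] at h1
    exact h1.symm)
  have hf : ∀ t, f t = c t j := fun _ => rfl
  have hsurj : Function.Surjective f := by
    intro t
    obtain ⟨x, hx, hxj⟩ := hS j t
    exact ⟨x i, by rw [hf, ← key x hx, hxj]⟩
  have hinj : Function.Injective f := by
    rw [← MonoidHom.ker_eq_bot_iff]
    rcases (inferInstance : f.ker.Normal).eq_bot_or_eq_top with h0 | h0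
    · exact h0
    · exfalso
      obtain ⟨t, ht⟩ := exists_ne (1 : T)
      obtain ⟨s, hs⟩ := hsurj t
      have : s ∈ f.ker := by rw [h0]; exact Subgroup.mem_top s
      rw [MonoidHom.mem_ker, hs] at this
      exact ht this
  refine ⟨MulEquiv.ofBijective f ⟨hinj, hsurj⟩, fun x hx => ?_⟩
  exact key x hx

theorem lk_symm {T : Type*} [Group T] [IsSimpleGroup T] {m : ℕ} (D : Subgroup (Fin m → T))
    (hS : Subd D) (i j : Fin m) (h : Lk D i j) : Lk D j i := by
  obtain ⟨α, hα⟩ := exists_aut D hS i j h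
  intro x hx hxj
  rw [hα x hx] at hxj
  exact (map_eq_one_iff α α.injective).mp hxj

end Cfsg.Agent.Lib.H82OSAut
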