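import Cfsg.Agent.Lib.H82OSDefs

set_option autoImplicit false

namespace Cfsg.Agent.Lib.H82OSProj

open Cfsg.Agent.Lib.H82OSDefs

theorem mem_C {T : Type*} [Group T] {m : ℕ} (i : Fin m) (x : Fin m → T) :
    x ∈ C T m i ↔ x i = 1 := by
  unfold C
  rw [MonoidHom.mem_ker]
  rfl

instance normal_C {T : Type*} [Group T] {m : ℕ} (i : Fin m) : (C T m i).Normal := by
  unfold C
  infer_instance

theorem mem_sup_iff {T : Type*} [Group T] {m : ℕ} (D : Subgroup (Fin m → T)) (i : Fin m)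
    (x : Fin m → T) : x ∈ D ⊔ C T m i ↔ ∃ d ∈ D, d i = x i := by
  constructor
  · intro hx
    have : (x : Fin m → T) ∈ ((D ⊔ C T m i : Subgroup (Fin m → T)) : Set (Fin m → T)) := hx
    rw [Subgroup.mul_normal] at this
    obtain ⟨d, hd, c, hc, rfl⟩ := this
    refine ⟨d, hd, ?_⟩
    have hc' : c i = 1 := (mem_C i c).1 hc
    simp [hc']
  · rintro ⟨d, hd, hdx⟩
    have h1 : d⁻¹ * x ∈ C T m i := by
      rw [mem_C]
      simp [hdx]
    have h2 : x = d * (d⁻¹ * x) := by group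
    rw [h2]
    exact Subgroup.mul_mem _ (Subgroup.mem_sup_left hd) (Subgroup.mem_sup_right h1)

theorem sub_of_top {T : Type*} [Group T] {m : ℕ} (D : Subgroup (Fin m → T))
    (h : ∀ i, D ⊔ C T m i = ⊤) : Subd D := by
  intro i t
  have h1 : (Pi.mulSingle i t : Fin m → T) ∈ D ⊔ C T m i := by
    rw [h i]; exact Subgroup.mem_top _
  obtain ⟨d, hd, hdx⟩ := (mem_sup_iff D i _).1 h1
  exact ⟨d, hd, by rw [hdx]; simp⟩

end Cfsg.Agent.Lib.H82OSProj
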