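import Cfsg.Agent.Lib.H82OSDefs

set_option autoImplicit false
set_option linter.unusedSectionVars false

namespace Cfsg.Agent.Lib.H82OSPerm

open Cfsg.Agent.Lib.H82OSDefs
open scoped commutatorElement

section aux

variable {T : Type*} [Group T] [IsSimpleGroup T] {m : ℕ}

theorem exists_noncomm (hna : ¬ IsMulCommutative T) {y : T} (hy : y ≠ 1) : ∃ t : T, ⁅y, t⁆ ≠ 1 := by
  by_contra hcon
  push Not at hcon
  have hyZ : y ∈ Subgroup.center T := by
    rw [Subgroup.mem_center_iff]
    intro g
    exact (commutatorElement_eq_one_iff_mul_comm.1 (hcon g)).symm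
  rcases (inferInstance : (Subgroup.center T).Normal).eq_bot_or_eq_top with h | h
  · rw [h] at hyZ
    exact hy (Subgroup.mem_bot.1 hyZ)
  · apply hna
    exact ⟨⟨fun a b => by
      have hb : b ∈ Subgroup.center T := h ▸ Subgroup.mem_top b
      exact Subgroup.mem_center_iff.1 hb a⟩⟩

theorem mem_C {i : Fin m} {x : Fin m → T} : x ∈ C T m i ↔ x i = 1 := Iff.rfl

theorem single_mem (hna : ¬ IsMulCommutative T) {L : Subgroup (Fin m → T)} (hL : L.Normal)
    {x : Fin m → T} (hx : x ∈ L) {k : Fin m} (hk : x k ≠ 1) (s : T) : Pi.mulSingle k s ∈ L := by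
  obtain ⟨t, ht⟩ := exists_noncomm hna hk
  have hR : (L.comap (MonoidHom.mulSingle (fun _ : Fin m => T) k)).Normal := hL.comap _
  have hmem : ⁅x k, t⁆ ∈ L.comap (MonoidHom.mulSingle (fun _ : Fin m => T) k) := by
    rw [Subgroup.mem_comap]
    have e : MonoidHom.mulSingle (fun _ : Fin m => T) k ⁅x k, t⁆ = ⁅x, Pi.mulSingle k t⁆ := by
      ext j
      by_cases hj : j = k
      · subst hj
        simp [commutatorElement_def]
      · simp [commutatorElement_def, hj]
    rw [e, commutatorElement_def]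
    have := L.mul_mem hx (hL.conj_mem _ (L.inv_mem hx) (Pi.mulSingle k t))
    simpa [mul_assoc] using this
  rcases hR.eq_bot_or_eq_top with h | h
  · rw [h] at hmem
    exact absurd (Subgroup.mem_bot.1 hmem) ht
  · have : s ∈ L.comap (MonoidHom.mulSingle (fun _ : Fin m => T) k) := h ▸ Subgroup.mem_top s
    exact this

theorem le_C_of_ne_top (hna : ¬ IsMulCommutative T) {L : Subgroup (Fin m → T)} (hL : L.Normal)
    (hne : L ≠ ⊤) : ∃ k, L ≤ C T m k := by
  by_contra hcon
  push Not at hcon
  apply hne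
  rw [eq_top_iff, ← Subgroup.pi_top (Set.univ), Subgroup.pi_le_iff]
  intro k
  obtain ⟨x, hx, hxk⟩ := SetLike.not_le_iff_exists.1 (hcon k)
  rintro _ ⟨s, -, rfl⟩
  exact single_mem hna hL hx hxk s

theorem C_max {L : Subgroup (Fin m → T)} (hL : L.Normal) {i : Fin m} (hle : C T m i ≤ L) :
    L = C T m i ∨ L = ⊤ := by
  have hn : (L.map (Pi.evalMonoidHom (fun _ : Fin m => T) i)).Normal :=
    hL.map _ (fun t => ⟨fun _ => t, rfl⟩)
  rcases hn.eq_bot_or_eq_top with h | h
  · left
    apply le_antisymm _ hle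
    intro x hx
    have h1 : x i ∈ L.map (Pi.evalMonoidHom (fun _ : Fin m => T) i) := ⟨x, hx, rfl⟩
    rw [h] at h1
    exact Subgroup.mem_bot.1 h1
  · right
    rw [eq_top_iff]
    intro x _
    have h1 : x i ∈ L.map (Pi.evalMonoidHom (fun _ : Fin m => T) i) := h ▸ Subgroup.mem_top _
    obtain ⟨y, hy, hyx⟩ := h1
    have hyx' : y i = x i := hyx
    have h2 : y⁻¹ * x ∈ C T m i := by
      rw [mem_C, Pi.mul_apply, Pi.inv_apply, hyx', inv_mul_cancel]
    have := L.mul_mem hy (hle h2)
    rwa [mul_inv_cancel_left] at this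

theorem C_ne_top (i : Fin m) : C T m i ≠ ⊤ := by
  intro h
  obtain ⟨t, ht⟩ := exists_ne (1 : T)
  have h2 : Pi.mulSingle i t ∈ C T m i := h ▸ Subgroup.mem_top _
  rw [mem_C, Pi.mulSingle_eq_same] at h2
  exact ht h2

end aux

/-- PIECE Perm (75 min, pure Mathlib).  An automorphism of `M = T^m` (`T` non-abelian simple) permutes the kernels `C i` of the projections.
Put `T_i = range (MonoidHom.mulSingle _ i)`.  (1) `Z(T) = 1` (the centre is normal and `≠ ⊤`), hence `C i = centralizer (T_i)`.
(2) every minimal normal subgroup `L ≠ ⊥` of `M` is some `T_j`: pick `x ∈ L`, `x j ≠ 1`, and `t` with `⁅x j, t⁆ ≠ 1`; then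
`⁅x, mulSingle j t⁆ = mulSingle j ⁅x j, t⁆ ∈ L ⊓ T_j` is `≠ 1`; the set `{s | mulSingle j s ∈ L}` is a non-trivial normal subgroup of `T`, so it is `⊤`
and `T_j ≤ L`.  In particular for `L = φ (T_i)` (normal; if `T_j ≤ φ(T_i)` then `φ⁻¹(T_j) ≤ T_i` is a non-trivial normal subgroup of `M` inside `T_i ≅ T`, so equality).
(3) so `φ (T_i) = T_{σ i}`; `σ` is injective (`T_i ≠ T_j` for `i ≠ j`, `φ` injective), hence a permutation of `Fin m`
(`Equiv.ofBijective`, `Finite.injective_iff_bijective`), and `φ (C i) = φ (centralizer T_i) = centralizer (φ T_i) = C (σ i)`. -/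
theorem exists_perm {T : Type*} [Group T] [IsSimpleGroup T] (hna : ¬ IsMulCommutative T) {m : ℕ}
    (φ : MulAut (Fin m → T)) :
    ∃ σ : Equiv.Perm (Fin m), ∀ i, (C T m i).map φ.toMonoidHom = C T m (σ i) := by
  have step : ∀ i, ∃ k, (C T m i).map φ.toMonoidHom = C T m k := by
    intro i
    have hCn : (C T m i).Normal := MonoidHom.normal_ker _
    have hn : ((C T m i).map φ.toMonoidHom).Normal := hCn.map _ φ.surjective
    have hne : (C T m i).map φ.toMonoidHom ≠ ⊤ := by
      intro h
      apply C_ne_top (T := T) i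
      have := congrArg (Subgroup.comap φ.toMonoidHom) h
      rwa [Subgroup.comap_map_eq_self_of_injective φ.injective, Subgroup.comap_top] at this
    obtain ⟨k, hk⟩ := le_C_of_ne_top hna hn hne
    refine ⟨k, ?_⟩
    have hle : C T m i ≤ (C T m k).comap φ.toMonoidHom := Subgroup.map_le_iff_le_comap.1 hk
    have hn2 : ((C T m k).comap φ.toMonoidHom).Normal :=
      (MonoidHom.normal_ker _ : (C T m k).Normal).comap _
    rcases C_max hn2 hle with h | h
    · rw [← h, Subgroup.map_comap_eq_self_of_surjective φ.surjective]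
    · exfalso
      apply C_ne_top (T := T) k
      have := congrArg (Subgroup.map φ.toMonoidHom) h
      rwa [Subgroup.map_comap_eq_self_of_surjective φ.surjective,
        Subgroup.map_top_of_surjective _ φ.surjective] at this
  choose σ hσ using step
  have hinj : Function.Injective σ := by
    intro i j hij
    have h1 : (C T m i).map φ.toMonoidHom = (C T m j).map φ.toMonoidHom := by rw [hσ, hσ, hij]
    have h2 : C T m i = C T m j := Subgroup.map_injective φ.injective h1
    by_contra hne
    obtain ⟨t, ht⟩ := exists_ne (1 : T)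
    have h3 : Pi.mulSingle j t ∈ C T m i := by
      rw [mem_C]
      exact Pi.mulSingle_eq_of_ne (M := fun _ : Fin m => T) hne t
    rw [h2, mem_C, Pi.mulSingle_eq_same] at h3
    exact ht h3
  exact ⟨Equiv.ofBijective σ (Finite.injective_iff_bijective.1 hinj), fun i => by
    rw [Equiv.ofBijective_apply]; exact hσ i⟩

end Cfsg.Agent.Lib.H82OSPerm
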