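import Cfsg.Agent.Lib.H82OSDefs
import Cfsg.Agent.Lib.H82OSPerm

set_option autoImplicit false

namespace Cfsg.Agent.Lib.H82OSTrans

open Cfsg.Agent.Lib.H82OSDefs

theorem mem_C {T : Type*} [Group T] {m : ℕ} {j : Fin m} {x : Fin m → T} :
    x ∈ C T m j ↔ x j = 1 := Iff.rfl

/-- PIECE Trans (60 min; uses piece Perm = `Cfsg.Agent.Lib.H82OSPerm.exists_perm`, stub in notes).  Fix `i`, let `O = {j | ∃ φ ∈ A, (C i).map φ = C j}` and
`L = ⨅ j ∈ O, C j`.  `L` is normal.  `L` is `A`-invariant: for `ψ ∈ A` with permutation `τ` (Perm), `τ` maps `O` into `O`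
(`(C i).map (ψ * φ) = C (τ j)`), and so does the permutation of `ψ⁻¹`, so `τ O = O` and `L.map ψ = ⨅ j ∈ O, C (τ j) = L`
(an automorphism commutes with infima: `Subgroup.map_iInf`/ elementwise).  `L ≠ ⊤` since `i ∈ O` (`φ = 1`) and `C i ≠ ⊤` (`T` non-trivial).
So `L = ⊥` by `h.min`; if `j ∉ O` then `Pi.mulSingle j t ∈ L` for all `t`, contradiction. -/
theorem trans {T : Type*} [Group T] [IsSimpleGroup T] (hna : ¬ IsMulCommutative T) {m : ℕ}
    (A : Subgroup (MulAut (Fin m → T))) (D : Subgroup (Fin m → T)) (h : Hyp T m A D) (i j : Fin m) :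
    ∃ φ ∈ A, (C T m i).map φ.toMonoidHom = C T m j := by
  classical
  let O : Set (Fin m) := {j | ∃ φ ∈ A, (C T m i).map φ.toMonoidHom = C T m j}
  let L : Subgroup (Fin m → T) :=
    { carrier := {x | ∀ j ∈ O, x j = 1}
      mul_mem' := by
        intro a b ha hb j hj
        rw [Pi.mul_apply, ha j hj, hb j hj, one_mul]
      one_mem' := fun j _ => rfl
      inv_mem' := by
        intro a ha j hj
        rw [Pi.inv_apply, ha j hj, inv_one] }
  have hmemL : ∀ x, x ∈ L ↔ ∀ j ∈ O, x j = 1 := fun _ => Iff.rfl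
  have hLn : L.Normal := by
    refine ⟨fun x hx g => ?_⟩
    rw [hmemL] at hx ⊢
    intro j hj
    rw [Pi.mul_apply, Pi.mul_apply, hx j hj, Pi.inv_apply, mul_one, mul_inv_cancel]
  have hle : ∀ ψ ∈ A, L.map ψ.toMonoidHom ≤ L := by
    rintro ψ hψ _ ⟨x, hx, rfl⟩
    rw [hmemL]
    intro j hj
    obtain ⟨φ, hφ, hφj⟩ := hj
    obtain ⟨σ, hσ⟩ := Cfsg.Agent.Lib.H82OSPerm.exists_perm hna (ψ⁻¹ * φ)
    have hO : σ i ∈ O := ⟨ψ⁻¹ * φ, A.mul_mem (A.inv_mem hψ) hφ, hσ i⟩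
    have h1 : x ∈ C T m (σ i) := mem_C.mpr (hx _ hO)
    rw [← hσ i] at h1
    obtain ⟨c, hc, hcx⟩ := h1
    have h2 : ψ x = φ c := by
      rw [← hcx]
      show ψ ((ψ⁻¹ * φ) c) = φ c
      rw [MulAut.mul_apply, MulAut.apply_inv_self]
    have h3 : φ c ∈ C T m j := by
      rw [← hφj]
      exact ⟨c, hc, rfl⟩
    show (ψ x) j = 1
    rw [h2]
    exact mem_C.mp h3
  have hLinv : Invt A L := by
    intro ψ hψ
    apply le_antisymm (hle ψ hψ)
    intro x hx
    have h1 := hle ψ⁻¹ (A.inv_mem hψ) ⟨x, hx, rfl⟩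
    refine ⟨ψ⁻¹ x, h1, ?_⟩
    show ψ (ψ⁻¹ x) = x
    rw [MulAut.apply_inv_self]
  obtain ⟨t, ht⟩ := exists_ne (1 : T)
  have hiO : i ∈ O := by
    refine ⟨1, A.one_mem, ?_⟩
    ext x
    constructor
    · rintro ⟨y, hy, rfl⟩
      exact hy
    · intro hx
      exact ⟨x, hx, rfl⟩
  rcases h.min L hLn hLinv with h0 | h0
  · by_contra hj
    have hjO : j ∉ O := hj
    have h1 : Pi.mulSingle j t ∈ L := by
      rw [hmemL]
      intro j' hj'
      have : j' ≠ j := by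
        rintro rfl
        exact hjO hj'
      rw [Pi.mulSingle_eq_of_ne this]
    rw [h0, Subgroup.mem_bot] at h1
    have h2 := congrFun h1 j
    rw [Pi.mulSingle_eq_same] at h2
    exact ht h2
  · exfalso
    have h1 : (fun _ : Fin m => t) ∈ L := by rw [h0]; exact Subgroup.mem_top _
    exact ht (h1 i hiO)

end Cfsg.Agent.Lib.H82OSTrans
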