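import Cfsg.Agent.Lib.H82OSDefs
import Cfsg.Agent.Lib.H82OSTrans
import Cfsg.Agent.Lib.H82OSProj

set_option autoImplicit false

namespace Cfsg.Agent.Lib.H82OSCaseA

open Cfsg.Agent.Lib.H82OSDefs

theorem caseA {T : Type*} [Group T] [IsSimpleGroup T] (hna : ¬ IsMulCommutative T) {m : ℕ}
    (A : Subgroup (MulAut (Fin m → T))) (D : Subgroup (Fin m → T)) (h : Hyp T m A D)
    (hX : (⨅ i, D ⊔ C T m i) = D) :
    ∃ K : Fin m → Subgroup T, (∀ i, K i ≠ ⊤) ∧ ∀ x : Fin m → T, x ∈ D ↔ ∀ i, x i ∈ K i := by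
  refine ⟨fun i => D.map (Pi.evalMonoidHom (fun _ : Fin m => T) i), ?_, ?_⟩
  · intro i hi
    replace hi : D.map (Pi.evalMonoidHom (fun _ : Fin m => T) i) = ⊤ := hi
    apply h.ne_top
    have htop : D ⊔ C T m i = ⊤ := by
      rw [eq_top_iff]
      intro x _
      rw [Cfsg.Agent.Lib.H82OSProj.mem_sup_iff]
      have : x i ∈ D.map (Pi.evalMonoidHom (fun _ : Fin m => T) i) := by
        rw [hi]; exact Subgroup.mem_top _
      obtain ⟨d, hd, hdx⟩ := this
      exact ⟨d, hd, hdx⟩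
    rw [← hX, eq_top_iff]
    apply le_iInf
    intro j
    obtain ⟨φ, hφ, hφC⟩ := Cfsg.Agent.Lib.H82OSTrans.trans hna A D h i j
    have h1 : (D ⊔ C T m i).map φ.toMonoidHom = D ⊔ C T m j := by
      rw [Subgroup.map_sup, h.inv φ hφ, hφC]
    rw [← h1, htop]
    intro x _
    exact ⟨φ.symm x, Subgroup.mem_top _, by simp⟩
  · intro x
    constructor
    · intro hx i
      exact ⟨x, hx, rfl⟩
    · intro hx
      rw [← hX, Subgroup.mem_iInf]
      intro i
      rw [Cfsg.Agent.Lib.H82OSProj.mem_sup_iff]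
      obtain ⟨d, hd, hdx⟩ := hx i
      exact ⟨d, hd, hdx⟩

end Cfsg.Agent.Lib.H82OSCaseA
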