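import Cfsg.Agent.Lib.H82OSDefs

set_option autoImplicit false

namespace Cfsg.Agent.Lib.H82OSCongr

open Cfsg.Agent.Lib.H82OSDefs

/-- PIECE Congr. -/
theorem congr {M : Type*} [Group M] {T : Type*} [Group T] {m : ℕ} (e : M ≃* (Fin m → T))
    (A : Subgroup (MulAut M)) (D : Subgroup M) (h : HypG M A D) :
    ∃ A' : Subgroup (MulAut (Fin m → T)), Hyp T m A' (D.map e.toMonoidHom) := by
  refine ⟨A.map (MulAut.congr e).toMonoidHom, ?_⟩
  have hsurj : Function.Surjective e.toMonoidHom := e.surjective
  have hinj : Function.Injective e.toMonoidHom := e.injective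
  -- invariance is transported
  have hinv : ∀ X : Subgroup M, Invt A X →
      Invt (A.map (MulAut.congr e).toMonoidHom) (X.map e.toMonoidHom) := by
    intro X hX ψ hψ
    obtain ⟨φ, hφ, rfl⟩ := hψ
    have h1 := hX φ hφ
    rw [Subgroup.map_map]
    conv_rhs => rw [← h1]
    rw [Subgroup.map_map]
    congr 1
    ext x
    simp [MulAut.congr]
  have hinv' : ∀ X' : Subgroup (Fin m → T), Invt (A.map (MulAut.congr e).toMonoidHom) X' →
      Invt A (X'.comap e.toMonoidHom) := by
    intro X' hX' φ hφ
    have h1 := hX' (MulAut.congr e φ) ⟨φ, hφ, rfl⟩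
    apply Subgroup.map_injective hinj
    rw [Subgroup.map_comap_eq_self_of_surjective hsurj, Subgroup.map_map]
    conv_rhs => rw [← h1]
    conv_rhs => rw [← Subgroup.map_comap_eq_self_of_surjective hsurj X']
    rw [Subgroup.map_map]
    congr 1
    ext x
    simp [MulAut.congr]
  refine ⟨hinv D h.inv, ?_, ?_, ?_⟩
  · intro hD
    apply h.ne_top
    apply Subgroup.map_injective hinj
    rw [hD, ← MonoidHom.range_eq_map, MonoidHom.range_eq_top.2 hsurj]
  · intro X' hDX hX'
    have hle : D ≤ X'.comap e.toMonoidHom := Subgroup.map_le_iff_le_comap.1 hDX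
    rcases h.max _ hle (hinv' X' hX') with h1 | h1
    · left
      rw [← h1, Subgroup.map_comap_eq_self_of_surjective hsurj]
    · right
      rw [← Subgroup.map_comap_eq_self_of_surjective hsurj X', h1, ← MonoidHom.range_eq_map,
        MonoidHom.range_eq_top.2 hsurj]
  · intro L hL hLi
    have hn : (L.comap e.toMonoidHom).Normal := hL.comap _
    rcases h.min _ hn (hinv' L hLi) with h1 | h1
    · left
      rw [← Subgroup.map_comap_eq_self_of_surjective hsurj L, h1, Subgroup.map_bot]
    · right
      rw [← Subgroup.map_comap_eq_self_of_surjective hsurj L, h1, ← MonoidHom.range_eq_map,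
        MonoidHom.range_eq_top.2 hsurj]

end Cfsg.Agent.Lib.H82OSCongr
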