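import Mathlib

/-!
# Project 723 (row S0723): the point stabiliser in the non-abelian socle of a primitive group
(the core of the O'Nan–Scott theorem).  Vocabulary for the abstract part: `M = Fin m → T`.
-/

set_option autoImplicit false

namespace Cfsg.Agent.Lib.H82OSDefs

/-- kernel of the `i`-th projection of `Fin m → T`. -/
def C (T : Type*) [Group T] (m : ℕ) (i : Fin m) : Subgroup (Fin m → T) :=
  (Pi.evalMonoidHom (fun _ : Fin m => T) i).ker

/-- `X` is invariant under the group `A` of automorphisms. -/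
def Invt {M : Type*} [Group M] (A : Subgroup (MulAut M)) (X : Subgroup M) : Prop :=
  ∀ φ ∈ A, X.map φ.toMonoidHom = X

/-- the abstract hypotheses: `D` is a maximal proper `A`-invariant subgroup of `M = T^m` and
`M` has no proper non-trivial `A`-invariant normal subgroup. -/
structure Hyp (T : Type*) [Group T] (m : ℕ) (A : Subgroup (MulAut (Fin m → T)))
    (D : Subgroup (Fin m → T)) : Prop where
  inv : Invt A D
  ne_top : D ≠ ⊤
  max : ∀ X : Subgroup (Fin m → T), D ≤ X → Invt A X → X = D ∨ X = ⊤
  min : ∀ L : Subgroup (Fin m → T), L.Normal → Invt A L → L = ⊥ ∨ L = ⊤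

/-- the same hypotheses for an arbitrary group `M`. -/
structure HypG (M : Type*) [Group M] (A : Subgroup (MulAut M)) (D : Subgroup M) : Prop where
  inv : Invt A D
  ne_top : D ≠ ⊤
  max : ∀ X : Subgroup M, D ≤ X → Invt A X → X = D ∨ X = ⊤
  min : ∀ L : Subgroup M, L.Normal → Invt A L → L = ⊥ ∨ L = ⊤

/-- `D` projects onto every coordinate. -/
def Subd {T : Type*} [Group T] {m : ℕ} (D : Subgroup (Fin m → T)) : Prop :=
  ∀ (i : Fin m) (t : T), ∃ x ∈ D, x i = t

/-- the coordinates `i`, `j` are linked in `D`. -/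
def Lk {T : Type*} [Group T] {m : ℕ} (D : Subgroup (Fin m → T)) (i j : Fin m) : Prop :=
  ∀ x ∈ D, x i = 1 → x j = 1

end Cfsg.Agent.Lib.H82OSDefs
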