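import Cfsg.Agent.Lib.H82OSDefs
import Cfsg.Agent.Lib.H82OSPerm

set_option autoImplicit false

namespace Cfsg.Agent.Lib.H82OSDich

open Cfsg.Agent.Lib.H82OSDefs

theorem dich {T : Type*} [Group T] [IsSimpleGroup T] (hna : ¬ IsMulCommutative T) {m : ℕ}
    (A : Subgroup (MulAut (Fin m → T))) (D : Subgroup (Fin m → T)) (h : Hyp T m A D) :
    (⨅ i, D ⊔ C T m i) = D ∨ ∀ i, D ⊔ C T m i = ⊤ := by
  have hle : D ≤ ⨅ i, D ⊔ C T m i := le_iInf fun i => le_sup_left
  have hinv : Invt A (⨅ i, D ⊔ C T m i) := by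
    intro φ hφ
    obtain ⟨σ, hσ⟩ := Cfsg.Agent.Lib.H82OSPerm.exists_perm hna φ
    have hmap : ∀ i, (D ⊔ C T m i).map φ.toMonoidHom = D ⊔ C T m (σ i) := by
      intro i
      rw [Subgroup.map_sup, h.inv φ hφ, hσ i]
    apply le_antisymm
    · apply le_iInf
      intro j
      have : (⨅ i, D ⊔ C T m i) ≤ D ⊔ C T m (σ.symm j) := iInf_le _ _
      have h2 := Subgroup.map_mono (f := φ.toMonoidHom) this
      rw [hmap, Equiv.apply_symm_apply] at h2
      exact h2
    · intro x hx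
      refine ⟨φ.symm x, ?_, by simp⟩
      rw [SetLike.mem_coe, Subgroup.mem_iInf]
      intro i
      have hx' : x ∈ D ⊔ C T m (σ i) := (Subgroup.mem_iInf.1 hx) (σ i)
      rw [← hmap i] at hx'
      obtain ⟨y, hy, rfl⟩ := hx'
      simpa using hy
  rcases h.max _ hle hinv with h1 | h1
  · exact Or.inl h1
  · right
    intro i
    exact top_le_iff.1 (h1 ▸ iInf_le _ i)

end Cfsg.Agent.Lib.H82OSDich
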