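import Cfsg.Agent.Lib.H82OSDefs
import Cfsg.Agent.Lib.H82OSTrans
import Cfsg.Agent.Lib.H82OSPerm

set_option autoImplicit false

namespace Cfsg.Agent.Lib.H82OSFibre

open Cfsg.Agent.Lib.H82OSDefs

/-- PIECE Fibre (75 min; uses pieces Perm, Trans — stubs in notes).  `Lk D i j ↔ D ⊓ C i ≤ C j`.  For `φ ∈ A` with permutation `σ` (Perm): applying `map φ` (an order isomorphism of the
subgroup lattice, `D.map φ = D`) gives `Lk D i j ↔ Lk D (σ i) (σ j)`.  Hence `σ` maps `{i' | Lk D i i'}` bijectively onto `{i' | Lk D (σ i) i'}`.  By Trans for all `i, j` there is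
such a `σ` with `σ i = j` (`C (σ i) = C j → σ i = j` since `T` is non-trivial: `Pi.mulSingle`).  So all classes have the same cardinality. -/
theorem fibre {T : Type*} [Group T] [IsSimpleGroup T] (hna : ¬ IsMulCommutative T) {m : ℕ}
    (A : Subgroup (MulAut (Fin m → T))) (D : Subgroup (Fin m → T)) (h : Hyp T m A D) (i j : Fin m) :
    Nat.card {i' : Fin m // Lk D i i'} = Nat.card {j' : Fin m // Lk D j j'} := by
  obtain ⟨φ, hφA, hφ⟩ := Cfsg.Agent.Lib.H82OSTrans.trans hna A D h i j
  obtain ⟨σ, hσ⟩ := Cfsg.Agent.Lib.H82OSPerm.exists_perm hna φ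
  have hD : D.map φ.toMonoidHom = D := h.inv φ hφA
  -- `σ i = j`
  have hij : σ i = j := by
    have h1 : C T m (σ i) = C T m j := by rw [← hσ, hφ]
    by_contra hne
    obtain ⟨t, ht⟩ := exists_ne (1 : T)
    have h3 : Pi.mulSingle j t ∈ C T m (σ i) := by
      show (Pi.mulSingle j t : Fin m → T) (σ i) = 1
      exact Pi.mulSingle_eq_of_ne (M := fun _ : Fin m => T) hne t
    rw [h1] at h3
    have h4 : (Pi.mulSingle j t : Fin m → T) j = 1 := h3
    rw [Pi.mulSingle_eq_same] at h4
    exact ht h4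
  have key : ∀ (k : Fin m) (x : Fin m → T), (φ x) (σ k) = 1 ↔ x k = 1 := by
    intro k x
    have h1 : φ.toMonoidHom x ∈ (C T m k).map φ.toMonoidHom ↔ x ∈ C T m k :=
      Subgroup.mem_map_iff_mem φ.injective
    rw [hσ] at h1
    exact h1
  have hLk : ∀ k l, Lk D k l ↔ Lk D (σ k) (σ l) := by
    intro k l
    constructor
    · intro hkl y hy hyk
      rw [← hD] at hy
      obtain ⟨x, hx, rfl⟩ := hy
      exact (key l x).2 (hkl x hx ((key k x).1 hyk))
    · intro hkl x hx hxk
      have hy : φ.toMonoidHom x ∈ D := by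
        rw [← hD]; exact Subgroup.mem_map_of_mem _ hx
      exact (key l x).1 (hkl _ hy ((key k x).2 hxk))
  exact Nat.card_congr (σ.subtypeEquiv (fun a => by rw [← hij]; exact hLk i a))

end Cfsg.Agent.Lib.H82OSFibre
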