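import Cfsg.Agent.Lib.H82OSDefs

set_option autoImplicit false

namespace Cfsg.Agent.Lib.H82OSSupp

open Cfsg.Agent.Lib.H82OSDefs

/-- in a non-abelian simple group, for `a, b ≠ 1` some conjugate of `b` does not commute with `a` -/
theorem exists_conj_ne {T : Type*} [Group T] [IsSimpleGroup T] (hna : ¬ IsMulCommutative T)
    (a b : T) (ha : a ≠ 1) (hb : b ≠ 1) : ∃ t : T, a * (t * b * t⁻¹) * a⁻¹ * (t * b * t⁻¹)⁻¹ ≠ 1 := by
  by_contra hcon
  push Not at hcon
  -- `a` centralises the normal closure of `b`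
  have h1 : Subgroup.normalClosure {b} ≤ Subgroup.centralizer {a} := by
    unfold Subgroup.normalClosure
    rw [Subgroup.closure_le]
    intro x hx
    rw [Group.mem_conjugatesOfSet_iff] at hx
    obtain ⟨y, hy, hyx⟩ := hx
    rw [Set.mem_singleton_iff] at hy
    subst hy
    obtain ⟨t, rfl⟩ := isConj_iff.1 hyx
    rw [SetLike.mem_coe, Subgroup.mem_centralizer_iff]
    intro z hz
    rw [Set.mem_singleton_iff] at hz
    subst hz
    have := hcon t
    rw [mul_inv_eq_one, mul_inv_eq_iff_eq_mul] at this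
    exact this
  have h2 : Subgroup.normalClosure {b} = ⊤ := by
    rcases (Subgroup.normalClosure_normal (s := {b})).eq_bot_or_eq_top with h | h
    · exfalso
      apply hb
      have : b ∈ Subgroup.normalClosure {b} := Subgroup.subset_normalClosure rfl
      rw [h] at this
      exact Subgroup.mem_bot.1 this
    · exact h
  rw [h2] at h1
  have h3 : a ∈ Subgroup.center T := by
    rw [Subgroup.mem_center_iff]
    intro g
    have := h1 (Subgroup.mem_top g)
    rw [Subgroup.mem_centralizer_iff] at this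
    exact (this a rfl).symm
  rcases (inferInstance : (Subgroup.center T).Normal).eq_bot_or_eq_top with h | h
  · rw [h] at h3
    exact ha (Subgroup.mem_bot.1 h3)
  · apply hna
    constructor
    constructor
    intro x y
    have : x ∈ Subgroup.center T := by rw [h]; trivial
    exact (Subgroup.mem_center_iff.1 this y).symm

theorem exists_supp {T : Type*} [Group T] [IsSimpleGroup T] (hna : ¬ IsMulCommutative T) {m : ℕ}
    (D : Subgroup (Fin m → T)) (hS : Subd D) (i : Fin m) :
    ∃ y ∈ D, y i ≠ 1 ∧ ∀ j, ¬ Lk D j i → y j = 1 := by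
  classical
  have key : ∀ Fs : Finset (Fin m), (∀ j ∈ Fs, ¬ Lk D j i) →
      ∃ y ∈ D, y i ≠ 1 ∧ ∀ j ∈ Fs, y j = 1 := by
    intro Fs
    induction Fs using Finset.induction_on with
    | empty =>
      intro _
      obtain ⟨t, ht⟩ := exists_ne (1 : T)
      obtain ⟨x, hx, hxi⟩ := hS i t
      exact ⟨x, hx, by rw [hxi]; exact ht, by simp⟩
    | insert j₀ Fs _ ih =>
      intro hF
      obtain ⟨y, hy, hyi, hyF⟩ := ih (fun j hj => hF j (Finset.mem_insert_of_mem hj))
      have hj₀ := hF j₀ (Finset.mem_insert_self _ _)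
      unfold Lk at hj₀
      push Not at hj₀
      obtain ⟨x, hx, hx0, hxi⟩ := hj₀
      obtain ⟨t, ht⟩ := exists_conj_ne hna (y i) (x i) hyi hxi
      obtain ⟨d, hd, hdi⟩ := hS i t
      refine ⟨y * (d * x * d⁻¹) * y⁻¹ * (d * x * d⁻¹)⁻¹, ?_, ?_, ?_⟩
      · have h1 : d * x * d⁻¹ ∈ D := D.mul_mem (D.mul_mem hd hx) (D.inv_mem hd)
        exact D.mul_mem (D.mul_mem (D.mul_mem hy h1) (D.inv_mem hy)) (D.inv_mem h1)
      · have : (y * (d * x * d⁻¹) * y⁻¹ * (d * x * d⁻¹)⁻¹ : Fin m → T) i =
            y i * (t * x i * t⁻¹) * (y i)⁻¹ * (t * x i * t⁻¹)⁻¹ := by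
          simp only [Pi.mul_apply, Pi.inv_apply, hdi]
        rw [this]
        exact ht
      · intro j hj
        rcases Finset.mem_insert.1 hj with rfl | hj
        · simp [hx0]
        · simp [hyF j hj]
  obtain ⟨y, hy, hyi, hyF⟩ := key (Finset.univ.filter (fun j => ¬ Lk D j i)) (by simp)
  exact ⟨y, hy, hyi, fun j hj => hyF j (by simp [hj])⟩

end Cfsg.Agent.Lib.H82OSSupp
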