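import Cfsg.Agent.Lib.H82OSDefs
import Cfsg.Agent.Lib.H82OSSupp

set_option autoImplicit false

namespace Cfsg.Agent.Lib.H82OSFull

open Cfsg.Agent.Lib.H82OSDefs

/-- PIECE Full. -/
theorem full {T : Type*} [Group T] [IsSimpleGroup T] (hna : ¬ IsMulCommutative T) {m : ℕ}
    (D : Subgroup (Fin m → T)) (hS : Subd D) (i : Fin m) (t : T) :
    ∃ y ∈ D, y i = t ∧ ∀ j, ¬ Lk D j i → y j = 1 := by
  -- the subgroup of the values at `i`
  let K : Subgroup T :=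
    { carrier := {t | ∃ y ∈ D, y i = t ∧ ∀ j, ¬ Lk D j i → y j = 1}
      one_mem' := ⟨1, D.one_mem, rfl, fun _ _ => rfl⟩
      mul_mem' := by
        rintro a b ⟨y, hy, rfl, hy1⟩ ⟨z, hz, rfl, hz1⟩
        exact ⟨y * z, D.mul_mem hy hz, rfl, fun j hj => by
          rw [Pi.mul_apply, hy1 j hj, hz1 j hj, one_mul]⟩
      inv_mem' := by
        rintro a ⟨y, hy, rfl, hy1⟩
        exact ⟨y⁻¹, D.inv_mem hy, rfl, fun j hj => by rw [Pi.inv_apply, hy1 j hj, inv_one]⟩ }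
  have hK : K.Normal := by
    constructor
    rintro a ⟨y, hy, rfl, hy1⟩ g
    obtain ⟨d, hd, rfl⟩ := hS i g
    exact ⟨d * y * d⁻¹, D.mul_mem (D.mul_mem hd hy) (D.inv_mem hd), rfl, fun j hj => by
      rw [Pi.mul_apply, Pi.mul_apply, hy1 j hj, mul_one, Pi.inv_apply, mul_inv_cancel]⟩
  rcases hK.eq_bot_or_eq_top with h | h
  · exfalso
    obtain ⟨y, hy, hyi, hy1⟩ := Cfsg.Agent.Lib.H82OSSupp.exists_supp hna D hS i
    have : y i ∈ K := ⟨y, hy, rfl, hy1⟩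
    rw [h] at this
    exact hyi (Subgroup.mem_bot.1 this)
  · have : t ∈ K := by rw [h]; trivial
    exact this

end Cfsg.Agent.Lib.H82OSFull
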