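import Cfsg.Agent.Lib.H82OSDefs

set_option autoImplicit false

namespace Cfsg.Agent.Lib.H82OSNorm

open Cfsg.Agent.Lib.H82OSDefs

theorem pretrans {α : Type*} [Finite α] (H : Subgroup (Equiv.Perm α))
    [MulAction.IsPreprimitive H α] (N : Subgroup H) [N.Normal] (hN : N ≠ ⊥) :
    MulAction.IsPretransitive N α := by
  apply MulAction.IsQuasiPreprimitive.isPretransitive_of_normal (G := H)
  intro hfix
  apply hN
  rw [eq_bot_iff]
  intro n hn
  rw [Subgroup.mem_bot]
  apply Subtype.ext
  apply Equiv.ext
  intro x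
  have hx : x ∈ MulAction.fixedPoints N α := by rw [hfix]; exact Set.mem_univ x
  exact hx ⟨n, hn⟩

/-- PIECE Norm (60 min, pure Mathlib).  `N ≠ ⊥` is normal in the primitive group `H`, hence transitive on `α`
(`MulAction.IsPreprimitive.isQuasiPreprimitive`, `MulAction.IsQuasiPreprimitive.isPretransitive_of_normal`; `N` does not act trivially because
`H ≤ Perm α` acts faithfully).  If `stabilizer H a ⊓ N = N` then `N` fixes `a`; being transitive, `α = {a}`, so `Perm α` and `N` are trivial: contradiction. -/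
theorem stab_inf_ne {α : Type*} [Finite α] (H : Subgroup (Equiv.Perm α))
    [MulAction.IsPreprimitive H α] (N : Subgroup H) [N.Normal] (hN : N ≠ ⊥) (a : α) :
    MulAction.stabilizer H a ⊓ N ≠ N := by
  intro h
  have hle : N ≤ MulAction.stabilizer H a := inf_eq_right.mp h
  have ht := pretrans H N hN
  apply hN
  rw [eq_bot_iff]
  intro n hn
  rw [Subgroup.mem_bot]
  apply Subtype.ext
  apply Equiv.ext
  intro x
  have hall : ∀ z : α, z = a := by
    intro z
    obtain ⟨g, hg⟩ := ht.exists_smul_eq a z
    have := hle g.2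
    rw [MulAction.mem_stabilizer_iff] at this
    rw [← hg]
    exact this
  show (n : Equiv.Perm α) x = x
  rw [hall x, hall ((n : Equiv.Perm α) a)]

/-- `N` transitive gives `H = N * stabilizer H a`: for `h : H` pick `n ∈ N` with `n • a = h • a`, then `n⁻¹ * h` fixes `a`.
So every `h` normalises `X`. -/
theorem normal_of_inv {α : Type*} [Finite α] (H : Subgroup (Equiv.Perm α))
    [MulAction.IsPreprimitive H α] (N : Subgroup H) [N.Normal] (hN : N ≠ ⊥) (a : α)
    (X : Subgroup H) (hXN : N ≤ Subgroup.normalizer (X : Set H))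
    (hXK : MulAction.stabilizer H a ≤ Subgroup.normalizer (X : Set H)) : X.Normal := by
  have ht := pretrans H N hN
  rw [← Subgroup.normalizer_eq_top_iff, eq_top_iff]
  intro h _
  obtain ⟨n, hn⟩ := ht.exists_smul_eq a (h • a)
  have h1 : (n : H)⁻¹ * h ∈ MulAction.stabilizer H a := by
    rw [MulAction.mem_stabilizer_iff, mul_smul, ← hn]
    exact inv_smul_smul (n : H) a
  have h2 := Subgroup.mul_mem _ (hXN n.2) (hXK h1)
  simpa using h2

end Cfsg.Agent.Lib.H82OSNorm
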