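import Cfsg.Agent.Lib.H82OSDefs
import Cfsg.Agent.Lib.H82OSNorm
import Cfsg.Agent.S0722

set_option autoImplicit false

namespace Cfsg.Agent.Lib.H82OSHypN

open Cfsg.Agent.Lib.H82OSDefs

theorem invt_of_le {M : Type*} [Group M] (A : Subgroup (MulAut M)) (X : Subgroup M)
    (h : ∀ φ ∈ A, ∀ x ∈ X, φ x ∈ X) : Invt A X := by
  intro φ hφ
  apply le_antisymm
  · rintro _ ⟨x, hx, rfl⟩
    exact h φ hφ x hx
  · intro x hx
    exact ⟨φ⁻¹ x, h φ⁻¹ (inv_mem hφ) x hx, MulAut.apply_inv_self _ φ x⟩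

theorem le_normalizer_of {G : Type*} [Group G] (K X : Subgroup G)
    (h : ∀ k ∈ K, ∀ x ∈ X, k * x * k⁻¹ ∈ X) : K ≤ Subgroup.normalizer (X : Set G) := by
  intro k hk
  rw [Subgroup.mem_normalizer_iff]
  intro g
  constructor
  · exact h k hk g
  · intro hg
    have := h k⁻¹ (inv_mem hk) _ hg
    simpa [mul_assoc] using this

theorem eq_top_of_map {G : Type*} [Group G] {N : Subgroup G} {X : Subgroup N}
    (h : X.map N.subtype = N) : X = ⊤ := by
  rw [eq_top_iff]
  intro n _
  have h1 : (n : G) ∈ X.map N.subtype := by rw [h]; exact n.2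
  obtain ⟨x, hx, hxn⟩ := h1
  have : x = n := Subtype.ext hxn
  rwa [← this]

/-- PIECE HypN (90 min; uses piece Norm — stub in notes — and the landed row `Cfsg.Agent.S0722.result`).  `K = stabilizer H a`, `A = K.map (MulAut.conjNormal : H →* MulAut N)`
(so `φ ∈ A` is `n ↦ k n k⁻¹`, `MulAut.conjNormal_apply`).  A subgroup `X` of `N` is `A`-invariant iff `K` normalises `X.map N.subtype`.
* `inv`: `K` normalises `K ⊓ N`.   * `ne_top`: `Norm.stab_inf_ne`.
* `max`: `S0722.result H N hN hmin a (X.map N.subtype) ..` (translate `X.map N.subtype = K ⊓ N ∨ = N` back to `X = K.subgroupOf N ∨ X = ⊤`).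
* `min`: `L` normal in `N` and `A`-invariant → `L.map N.subtype` is normalised by `N` and `K` → normal in `H` (`Norm.normal_of_inv`) → `⊥` or `N` by `hmin`. -/
theorem hypN {α : Type*} [Finite α] (H : Subgroup (Equiv.Perm α)) [MulAction.IsPreprimitive H α]
    (N : Subgroup H) [N.Normal] (hN : N ≠ ⊥)
    (hmin : ∀ M : Subgroup H, M.Normal → M ≤ N → M = ⊥ ∨ M = N) (a : α) :
    ∃ A : Subgroup (MulAut N), HypG N A ((MulAction.stabilizer H a).subgroupOf N) := by
  set K := MulAction.stabilizer H a with hK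
  refine ⟨K.map (MulAut.conjNormal : H →* MulAut N), ?_⟩
  -- invariance in terms of `K`
  have hinv : ∀ X : Subgroup N, Invt (K.map (MulAut.conjNormal : H →* MulAut N)) X →
      K ≤ Subgroup.normalizer ((X.map N.subtype : Subgroup H) : Set H) := by
    intro X hX
    apply le_normalizer_of
    rintro k hk _ ⟨x, hx, rfl⟩
    have h1 := hX (MulAut.conjNormal k) (Subgroup.mem_map_of_mem _ hk)
    have h2 : (MulAut.conjNormal k : MulAut N) x ∈ X := by
      rw [← h1]; exact Subgroup.mem_map_of_mem _ hx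
    exact ⟨_, h2, MulAut.conjNormal_apply k x⟩
  refine ⟨?_, ?_, ?_, ?_⟩
  · apply invt_of_le
    rintro _ ⟨k, hk, rfl⟩ x hx
    rw [Subgroup.mem_subgroupOf] at hx ⊢
    rw [MulAut.conjNormal_apply]
    exact mul_mem (mul_mem hk hx) (inv_mem hk)
  · intro h
    rw [Subgroup.subgroupOf_eq_top] at h
    exact Cfsg.Agent.Lib.H82OSNorm.stab_inf_ne H N hN a (inf_eq_right.2 h)
  · intro X hDX hX
    rcases Cfsg.Agent.S0722.result H N hN hmin a (X.map N.subtype) (Subgroup.map_subtype_le X) (by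
      rintro h ⟨hhK, hhN⟩
      exact ⟨⟨h, hhN⟩, hDX (Subgroup.mem_subgroupOf.2 hhK), rfl⟩) (hinv X hX) with h1 | h1
    · left
      apply le_antisymm _ hDX
      intro x hx
      have h2 : (x : H) ∈ X.map N.subtype := ⟨x, hx, rfl⟩
      rw [h1] at h2
      exact Subgroup.mem_subgroupOf.2 h2.1
    · right
      exact eq_top_of_map h1
  · intro L hL hLA
    have hn : (L.map N.subtype).Normal := by
      apply Cfsg.Agent.Lib.H82OSNorm.normal_of_inv H N hN a _ _ (hinv L hLA)
      apply le_normalizer_of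
      rintro n hn _ ⟨x, hx, rfl⟩
      exact ⟨⟨n, hn⟩ * x * ⟨n, hn⟩⁻¹, hL.conj_mem x hx ⟨n, hn⟩, rfl⟩
    rcases hmin _ hn (Subgroup.map_subtype_le L) with h1 | h1
    · left
      exact (Subgroup.map_eq_bot_iff_of_injective L N.subtype_injective).1 h1
    · right
      exact eq_top_of_map h1

end Cfsg.Agent.Lib.H82OSHypN
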