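import Cfsg.Agent.Lib.H82OSDefs
import Cfsg.Agent.Lib.H82OSAut
import Cfsg.Agent.Lib.H82OSFull

set_option autoImplicit false

namespace Cfsg.Agent.Lib.H82OSStruct

open Cfsg.Agent.Lib.H82OSDefs

/-- PIECE Struct = Scott's lemma. -/
theorem struct {T : Type*} [Group T] [IsSimpleGroup T] (hna : ¬ IsMulCommutative T) {m : ℕ}
    (D : Subgroup (Fin m → T)) (hS : Subd D) :
    ∃ (c : Fin m → Fin m) (α : Fin m → MulAut T), (∀ i j, c i = c j ↔ Lk D i j) ∧
      (∀ i, c (c i) = c i) ∧ (∀ i, α (c i) = 1) ∧
      ∀ x : Fin m → T, x ∈ D ↔ ∀ i, x i = α i (x (c i)) := by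
  classical
  let s : Setoid (Fin m) :=
    { r := Lk D
      iseqv :=
        { refl := fun i x _ h => h
          symm := fun {i j} h => Cfsg.Agent.Lib.H82OSAut.lk_symm D hS i j h
          trans := fun {i j k} h1 h2 x hx h => h2 x hx (h1 x hx h) } }
  let c : Fin m → Fin m := fun i => (Quotient.mk s i).out
  have hc1 : ∀ i j, c i = c j ↔ Lk D i j := by
    intro i j
    constructor
    · intro h
      have h' : Quotient.mk s i = Quotient.mk s j := by
        have := congrArg (Quotient.mk s) h
        simpa only [c, Quotient.out_eq] using this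
      exact Quotient.exact h'
    · intro h
      have h' : Quotient.mk s i = Quotient.mk s j := Quotient.sound h
      simp only [c, h']
  have hc2 : ∀ i, c (c i) = c i := by
    intro i
    simp only [c, Quotient.out_eq]
  have hc3 : ∀ i, Lk D (c i) i := fun i => (hc1 (c i) i).1 (hc2 i)
  let α : Fin m → MulAut T := fun i =>
    if h : c i = i then 1 else Classical.choose (Cfsg.Agent.Lib.H82OSAut.exists_aut D hS (c i) i (hc3 i))
  have hα1 : ∀ i, α (c i) = 1 := fun i => dif_pos (hc2 i)
  have hα2 : ∀ i, ∀ x ∈ D, x i = α i (x (c i)) := by
    intro i x hx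
    by_cases h : c i = i
    · have : α i = 1 := dif_pos h
      rw [this, h]; rfl
    · have : α i = Classical.choose (Cfsg.Agent.Lib.H82OSAut.exists_aut D hS (c i) i (hc3 i)) :=
        dif_neg h
      rw [this]
      exact Classical.choose_spec (Cfsg.Agent.Lib.H82OSAut.exists_aut D hS (c i) i (hc3 i)) x hx
  refine ⟨c, α, hc1, hc2, hα1, fun x => ⟨fun hx i => hα2 i x hx, fun hx => ?_⟩⟩
  -- one class
  have hone : ∀ r, (fun j => if c j = r then x j else 1) ∈ D := by
    intro r
    by_cases hr : c r = r
    · obtain ⟨y, hy, hyr, hy1⟩ := Cfsg.Agent.Lib.H82OSFull.full hna D hS r (x r)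
      have : (fun j => if c j = r then x j else 1) = y := by
        funext j
        by_cases hj : c j = r
        · rw [if_pos hj, hα2 j y hy, hj, hyr, hx j, hj]
        · rw [if_neg hj, hy1 j]
          intro hl
          apply hj
          rw [(hc1 j r).2 hl, hr]
      rw [this]
      exact hy
    · have : (fun j => if c j = r then x j else 1) = (1 : Fin m → T) := by
        funext j
        rw [if_neg]
        · rfl
        · intro hj
          apply hr
          rw [← hj, hc2]
      rw [this]
      exact D.one_mem
  have key : ∀ R : Finset (Fin m), (fun j => if c j ∈ R then x j else 1) ∈ D := by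
    intro R
    induction R using Finset.induction_on with
    | empty =>
      have : (fun j => if c j ∈ (∅ : Finset (Fin m)) then x j else 1) = (1 : Fin m → T) := by
        funext j; simp
      rw [this]
      exact D.one_mem
    | insert r R hr ih =>
      have : (fun j => if c j ∈ insert r R then x j else 1) =
          (fun j => if c j ∈ R then x j else 1) * (fun j => if c j = r then x j else 1) := by
        funext j
        rw [Pi.mul_apply]
        by_cases h1 : c j = r
        · have h2 : c j ∉ R := by rw [h1]; exact hr
          simp [h1, hr]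
        · by_cases h2 : c j ∈ R
          · simp [h1, h2]
          · simp [h1, h2]
      rw [this]
      exact D.mul_mem ih (hone r)
  have := key Finset.univ
  simpa using this

end Cfsg.Agent.Lib.H82OSStruct
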