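import Cfsg.Agent.Lib.H85DSq

set_option autoImplicit false
set_option linter.unusedSectionVars false

namespace Cfsg.Agent.Lib.H85DBig

open Cfsg Cfsg.Agent.Lib.Helper85RankOne Cfsg.Agent.Lib.Helper85Special

variable {G : Type*} [Group G] {A B : Subgroup G}

open Cfsg.Agent.Lib.H85DSq

/-- a subgroup with more than 6 elements has an element outside any 6 given ones. -/
theorem exists_ne6 {A : Subgroup G} (h : 6 < ENat.card A) (u₁ u₂ u₃ u₄ u₅ u₆ : G) :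
    ∃ x ∈ A, x ≠ u₁ ∧ x ≠ u₂ ∧ x ≠ u₃ ∧ x ≠ u₄ ∧ x ≠ u₅ ∧ x ≠ u₆ := by
  classical
  by_contra hcon
  push Not at hcon
  have hsub : (A : Set G) ⊆ (({u₁, u₂, u₃, u₄, u₅, u₆} : Finset G) : Set G) := by
    intro x hx
    simp only [Finset.coe_insert, Finset.coe_singleton, Set.mem_insert_iff, Set.mem_singleton_iff]
    by_contra hne
    push Not at hne
    exact hne.2.2.2.2.2 (hcon x hx hne.1 hne.2.1 hne.2.2.1 hne.2.2.2.1 hne.2.2.2.2.1)
  have h1 : (A : Set G).encard ≤ 6 := by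
    refine (Set.encard_le_encard hsub).trans ?_
    rw [Set.encard_coe_eq_coe_finsetCard]
    have : ({u₁, u₂, u₃, u₄, u₅, u₆} : Finset G).card ≤ 6 := Finset.card_le_six
    exact_mod_cast this
  have h2 : (A : Set G).encard = ENat.card A := rfl
  rw [h2] at h1
  exact absurd h (not_lt.mpr h1)

theorem add_aux {M : Type*} [AddCommGroup M] (x c a0 : M) :
    c + c = ((x + c) + (x + c) + -a0) + -(x + x + -a0) := by abel

theorem mul_aux {M : Type*} [CommGroup M] (x c a0 : M) :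
    c * c = ((x * c) * (x * c) * a0⁻¹) * (x * x * a0⁻¹)⁻¹ :=
  add_aux (M := Additive M) x c a0

theorem sub_aux (hab : ∀ x ∈ A, ∀ y ∈ A, x * y = y * x) {x c a0 : G} (hx : x ∈ A)
    (hc : c ∈ A) (ha0 : a0 ∈ A) :
    c * c = ((x * c) * (x * c) * a0⁻¹) * (x * x * a0⁻¹)⁻¹ := by
  let _ : CommGroup A :=
    { (inferInstance : Group A) with
      mul_comm := fun u v => Subtype.ext (hab u.1 u.2 v.1 v.2) }
  exact congrArg Subtype.val (mul_aux (M := A) ⟨x, hx⟩ ⟨c, hc⟩ ⟨a0, ha0⟩)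

/-- PIECE D.Big. -/
theorem le_of_six (hs : IsSpecialRankOnePair A B) (hab : ∀ x ∈ A, ∀ y ∈ A, x * y = y * x) (h6 : 6 < ENat.card A) :
    A ≤ ⁅A, rankOneDiagonal A B⁆ := by
  intro a₀ ha₀
  by_cases h1 : a₀ = 1
  · rw [h1]; exact Subgroup.one_mem _
  obtain ⟨u, v, huv⟩ := sq_mem hs hab ha₀ h1
  have hsq : ∀ c ∈ A, c * c ∈ ⁅A, rankOneDiagonal A B⁆ := by
    intro c hc
    obtain ⟨x, hx, n1, n2, n3, n4, n5, n6⟩ := exists_ne6 h6 1 u v c⁻¹ (u * c⁻¹) (v * c⁻¹)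
    have m1 := huv x hx n1 n2 n3
    have m2 := huv (x * c) (A.mul_mem hx hc) (fun e => n4 (eq_inv_of_mul_eq_one_left e))
      (fun e => n5 (eq_mul_inv_of_mul_eq e)) (fun e => n6 (eq_mul_inv_of_mul_eq e))
    rw [sub_aux hab hx hc ha₀]
    exact Subgroup.mul_mem _ m2 (Subgroup.inv_mem _ m1)
  obtain ⟨x, hx, n1, n2, n3, -⟩ := exists_ne6 h6 1 u v 1 1 1
  have m1 := huv x hx n1 n2 n3
  have m2 := hsq x hx
  have : a₀ = (x * x * a₀⁻¹)⁻¹ * (x * x) := by group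
  rw [this]
  exact Subgroup.mul_mem _ (Subgroup.inv_mem _ m1) m2

/-- exponent 2. -/
theorem le_of_two (hs : IsSpecialRankOnePair A B) (hab : ∀ x ∈ A, ∀ y ∈ A, x * y = y * x) (h3 : 3 < ENat.card A)
    (h2 : ∀ a ∈ A, a ^ 2 = 1) : A ≤ ⁅A, rankOneDiagonal A B⁆ := by
  intro a₀ ha₀
  by_cases h1 : a₀ = 1
  · rw [h1]; exact Subgroup.one_mem _
  obtain ⟨u, v, huv⟩ := sq_mem hs hab ha₀ h1
  obtain ⟨x, hx, n1, n2, n3⟩ := exists_ne3 h3 1 u v
  have m1 := huv x hx n1 n2 n3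
  have hxx : x * x = 1 := by rw [← pow_two]; exact h2 x hx
  rw [hxx, one_mul] at m1
  simpa using Subgroup.inv_mem _ m1

end Cfsg.Agent.Lib.H85DBig
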