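import Cfsg.Agent.Lib.H85DDiag

set_option autoImplicit false
set_option linter.unusedSectionVars false

namespace Cfsg.Agent.Lib.H85DCube

open Cfsg Cfsg.Agent.Lib.Helper85RankOne Cfsg.Agent.Lib.Helper85Special

variable {G : Type*} [Group G] {A B : Subgroup G}

open Cfsg.Agent.Lib.H85DDiag

/-- PIECE D.Cube.  a ≠ 1; let b be the partner of a and c the partner of a² (`exists_partner_left`); `partner_pow 2`: c² = b.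
n₁ = a b⁻¹ a, n₂ = a² c⁻¹ a².  `Partner.conj_n`: n₁⁻¹ a n₁ = b⁻¹ and n₂⁻¹ a² n₂ = c⁻¹, so n₂⁻¹ a⁴ n₂ = c⁻² = b⁻¹ = n₁⁻¹ a n₁.
With h = n₂ n₁⁻¹ ∈ H (`mem_diag'`): h⁻¹ a⁴ h = a.  `diag_comm_mem` with x = (a⁴)⁻¹: h⁻¹ a⁴ h (a⁴)⁻¹ = a⁻³ ∈ ⁅A, H⁆; take the inverse. -/
theorem cube_mem (hs : IsSpecialRankOnePair A B) {a : G} (ha : a ∈ A) (h2 : a ^ 2 ≠ 1) :
    a ^ 3 ∈ ⁅A, rankOneDiagonal A B⁆ := by
  have ha1 : a ≠ 1 := by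
    rintro rfl
    simp at h2
  obtain ⟨b, hb⟩ := exists_partner_left hs.1 ha ha1
  obtain ⟨c, hc⟩ := exists_partner_left hs.1 (A.pow_mem ha 2) h2
  have hcb : c ^ 2 = b := partner_pow 2 (by norm_num) A B hs a b c hb hc
  set n₁ := a * b⁻¹ * a with hn₁
  set n₂ := a ^ 2 * c⁻¹ * a ^ 2 with hn₂
  have e1 : n₁⁻¹ * a * n₁ = b⁻¹ := hb.conj_n hs
  have e2 : n₂⁻¹ * a ^ 2 * n₂ = c⁻¹ := hc.conj_n hs
  have e3 : n₂⁻¹ * a ^ 4 * n₂ = b⁻¹ := by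
    have : n₂⁻¹ * a ^ 4 * n₂ = (n₂⁻¹ * a ^ 2 * n₂) * (n₂⁻¹ * a ^ 2 * n₂) := by
      have : a ^ 4 = a ^ 2 * a ^ 2 := by rw [← pow_add]
      rw [this]; group
    rw [this, e2, ← hcb, pow_two, mul_inv_rev]
  have hh : n₂ * n₁⁻¹ ∈ rankOneDiagonal A B := mem_diag' hs hc hb
  have e4 : (n₂ * n₁⁻¹)⁻¹ * a ^ 4 * (n₂ * n₁⁻¹) = a := by
    calc (n₂ * n₁⁻¹)⁻¹ * a ^ 4 * (n₂ * n₁⁻¹) = n₁ * (n₂⁻¹ * a ^ 4 * n₂) * n₁⁻¹ := by group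
      _ = n₁ * (n₁⁻¹ * a * n₁) * n₁⁻¹ := by rw [e3, e1]
      _ = a := by group
  have h5 := diag_comm_mem hh (A.inv_mem (A.pow_mem ha 4))
  rw [inv_inv, e4] at h5
  have h6 : a * (a ^ 4)⁻¹ = (a ^ 3)⁻¹ := by
    rw [eq_inv_iff_mul_eq_one]
    have : a ^ 4 = a ^ 3 * a := by rw [← pow_succ]
    rw [this]; group
  rw [h6] at h5
  exact (Subgroup.inv_mem_iff _).1 h5

end Cfsg.Agent.Lib.H85DCube
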