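import Cfsg.Agent.Lib.Helper85Special

set_option autoImplicit false
set_option linter.unusedSectionVars false

namespace Cfsg.Agent.Lib.H85DDiag

open Cfsg Cfsg.Agent.Lib.Helper85RankOne Cfsg.Agent.Lib.Helper85Special

variable {G : Type*} [Group G] {A B : Subgroup G}

/-! PIECE D.Diag: API of the diagonal subgroup `rankOneDiagonal A B = (A ⊔ B) ⊓ N(A) ⊓ N(B)`.
`rc A g = conjBy A g⁻¹ = g⁻¹ A g` (`Helper85Special.rc`, `mem_rc : x ∈ rc A g ↔ g * x * g⁻¹ ∈ A`, `rc_rc`, `rc_eq_iff`).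
`Subgroup.mem_normalizer_iff : g ∈ normalizer H ↔ ∀ x, x ∈ H ↔ g * x * g⁻¹ ∈ H`. -/

theorem mem_normalizer_iff_rc {C : Subgroup G} {g : G} : g ∈ Subgroup.normalizer (C : Set G) ↔ rc C g = C := by
  rw [Subgroup.mem_normalizer_iff]
  constructor
  · intro h
    ext x
    rw [mem_rc]
    exact (h x).symm
  · intro h x
    rw [← mem_rc, h]

theorem diag_rc_left {h : G} (hh : h ∈ rankOneDiagonal A B) : rc A h = A := by
  exact mem_normalizer_iff_rc.1 hh.1.2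

theorem diag_rc_right {h : G} (hh : h ∈ rankOneDiagonal A B) : rc B h = B := by
  exact mem_normalizer_iff_rc.1 hh.2

theorem diag_conj_mem {h : G} (hh : h ∈ rankOneDiagonal A B) {x : G} (hx : x ∈ A) : h⁻¹ * x * h ∈ A := by
  have := conj_mem_rc hx h
  rwa [diag_rc_left hh] at this

/-- `h⁻¹ x⁻¹ h x = ⁅h⁻¹, x⁻¹⁆` lies in `⁅H, A⁆ = ⁅A, H⁆` (`Subgroup.commutator_mem_commutator`, `Subgroup.commutator_comm`). -/
theorem diag_comm_mem {h : G} (hh : h ∈ rankOneDiagonal A B) {x : G} (hx : x ∈ A) :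
    h⁻¹ * x⁻¹ * h * x ∈ ⁅A, rankOneDiagonal A B⁆ := by
  rw [Subgroup.commutator_comm]
  have := Subgroup.commutator_mem_commutator ((rankOneDiagonal A B).inv_mem hh) (A.inv_mem hx)
  rw [commutatorElement_def, inv_inv, inv_inv] at this
  exact this

/-- `n(a)⁻¹ n(a')` normalises `A` and `B`: `Partner.rc_n_left`, `Partner.rc_n_right`, `rc_rc`, `rc_eq_iff`. -/
theorem mem_diag (hs : IsSpecialRankOnePair A B) {a b a' b' : G} (h : Partner A B a b) (h' : Partner A B a' b') :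
    (a * b⁻¹ * a)⁻¹ * (a' * b'⁻¹ * a') ∈ rankOneDiagonal A B := by
  have hn : ∀ {a b : G}, Partner A B a b → a * b⁻¹ * a ∈ A ⊔ B := fun {a b} h =>
    (A ⊔ B).mul_mem ((A ⊔ B).mul_mem (Subgroup.mem_sup_left h.memA) ((A ⊔ B).inv_mem (Subgroup.mem_sup_right h.memB)))
      (Subgroup.mem_sup_left h.memA)
  refine ⟨⟨(A ⊔ B).mul_mem ((A ⊔ B).inv_mem (hn h)) (hn h'), ?_⟩, ?_⟩
  · apply mem_normalizer_iff_rc.2
    rw [← rc_rc, h.rc_n_inv_left hs, h'.rc_n_right hs]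
  · have e : rc B (a * b⁻¹ * a)⁻¹ = A := by
      have := h.rc_n_left hs
      rw [rc_eq_iff] at this
      exact this.symm
    apply mem_normalizer_iff_rc.2
    rw [← rc_rc, e, h'.rc_n_left hs]

theorem mem_diag' (hs : IsSpecialRankOnePair A B) {a b a' b' : G} (h : Partner A B a b) (h' : Partner A B a' b') :
    (a * b⁻¹ * a) * (a' * b'⁻¹ * a')⁻¹ ∈ rankOneDiagonal A B := by
  have hn : ∀ {a b : G}, Partner A B a b → a * b⁻¹ * a ∈ A ⊔ B := fun {a b} h =>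
    (A ⊔ B).mul_mem ((A ⊔ B).mul_mem (Subgroup.mem_sup_left h.memA) ((A ⊔ B).inv_mem (Subgroup.mem_sup_right h.memB)))
      (Subgroup.mem_sup_left h.memA)
  refine ⟨⟨(A ⊔ B).mul_mem (hn h) ((A ⊔ B).inv_mem (hn h')), ?_⟩, ?_⟩
  · have e : rc B (a' * b'⁻¹ * a')⁻¹ = A := by
      have := h'.rc_n_left hs
      rw [rc_eq_iff] at this
      exact this.symm
    apply mem_normalizer_iff_rc.2
    rw [← rc_rc, h.rc_n_left hs, e]
  · apply mem_normalizer_iff_rc.2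
    rw [← rc_rc, h.rc_n_right hs, h'.rc_n_inv_left hs]

end Cfsg.Agent.Lib.H85DDiag
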