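import Cfsg.Agent.Lib.H85DDiag

set_option autoImplicit false
set_option linter.unusedSectionVars false

namespace Cfsg.Agent.Lib.H85DK1

open Cfsg Cfsg.Agent.Lib.Helper85RankOne Cfsg.Agent.Lib.Helper85Special

variable {G : Type*} [Group G] {A B : Subgroup G}

open Cfsg.Agent.Lib.H85DDiag

/-- `n(x)` maps the point `B^x` to `B^(x⁻¹)`. -/
theorem rc_n_self (hs : IsSpecialRankOnePair A B) {x b : G} (h : Partner A B x b) :
    rc B (x * (x * b⁻¹ * x)) = rc B x⁻¹ := by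
  calc rc B (x * (x * b⁻¹ * x)) = rc (rc B x) (b⁻¹ * x * b⁻¹) := by rw [rc_rc, h.braid hs]
    _ = rc (rc A b) (b⁻¹ * x * b⁻¹) := by rw [h.eq]
    _ = rc A (x * b⁻¹) := by rw [rc_rc]; congr 1; group
    _ = rc A b⁻¹ := rc_mul_of_mem h.memA _
    _ = rc B x⁻¹ := (h.inv hs).eq

/-- PIECE D.K1. -/
theorem k1 (hs : IsSpecialRankOnePair A B) {α β x : G} (h : Partner A B α β) (hx : x ∈ A) (hx1 : x ≠ 1) :
    ∃ y ∈ A, rc B (x * (α * β⁻¹ * α)) = rc B y ∧ y * x ∈ ⁅A, rankOneDiagonal A B⁆ := by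
  obtain ⟨b', hb'⟩ := exists_partner_left hs.1 hx hx1
  set t : G := (x * b'⁻¹ * x)⁻¹ * (α * β⁻¹ * α) with ht
  have htH : t ∈ rankOneDiagonal A B := mem_diag hs hb' h
  refine ⟨t⁻¹ * x⁻¹ * t, diag_conj_mem htH (A.inv_mem hx), ?_, diag_comm_mem htH hx⟩
  calc rc B (x * (α * β⁻¹ * α)) = rc (rc B (x * (x * b'⁻¹ * x))) t := by
        rw [rc_rc, ht]; congr 1; group
    _ = rc (rc B x⁻¹) t := by rw [rc_n_self hs hb']
    _ = rc (rc B t) (t⁻¹ * x⁻¹ * t) := by rw [rc_rc, rc_rc]; congr 1; group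
    _ = rc B (t⁻¹ * x⁻¹ * t) := by rw [diag_rc_right htH]

end Cfsg.Agent.Lib.H85DK1
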