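import Mathlib
import Cfsg.Prelude.Def_RootSubgroups

set_option autoImplicit false

namespace Cfsg.Agent.Lib.Helper85RankOne

open Cfsg

variable {G : Type*} [Group G]

/-! ### conjugation of subgroups -/

theorem mem_conjBy {A : Subgroup G} {g x : G} : x ∈ conjBy A g ↔ g⁻¹ * x * g ∈ A := by
  rw [Subgroup.mem_map_equiv, MulAut.conj_symm_apply]

theorem conj_mem_conjBy {A : Subgroup G} {a : G} (ha : a ∈ A) (g : G) :
    g * a * g⁻¹ ∈ conjBy A g := by
  rw [mem_conjBy]; simpa [mul_assoc] using ha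

theorem conjBy_conjBy (A : Subgroup G) (g h : G) : conjBy (conjBy A g) h = conjBy A (h * g) := by
  ext x
  simp only [mem_conjBy, mul_inv_rev, mul_assoc]

@[simp] theorem conjBy_one (A : Subgroup G) : conjBy A 1 = A := by
  ext x
  simp

theorem conjBy_of_mem {A : Subgroup G} {g : G} (hg : g ∈ A) : conjBy A g = A := by
  ext x
  rw [mem_conjBy]
  constructor
  · intro h
    have : x = g * (g⁻¹ * x * g) * g⁻¹ := by group
    rw [this]
    exact A.mul_mem (A.mul_mem hg h) (A.inv_mem hg)
  · intro h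
    exact A.mul_mem (A.mul_mem (A.inv_mem hg) h) hg

theorem conjBy_inv_conjBy (A : Subgroup G) (g : G) : conjBy (conjBy A g) g⁻¹ = A := by
  rw [conjBy_conjBy]; simp

theorem conjBy_conjBy_inv (A : Subgroup G) (g : G) : conjBy (conjBy A g⁻¹) g = A := by
  rw [conjBy_conjBy]; simp

theorem conjBy_injective (g : G) : Function.Injective (fun A : Subgroup G => conjBy A g) := by
  intro A B h
  have := congrArg (fun C => conjBy C g⁻¹) h
  simpa [conjBy_inv_conjBy] using this

theorem conjBy_inj {A B : Subgroup G} {g : G} : conjBy A g = conjBy B g ↔ A = B :=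
  (conjBy_injective g).eq_iff

theorem conjBy_eq_iff {A B : Subgroup G} {g : G} : conjBy A g = B ↔ A = conjBy B g⁻¹ := by
  constructor
  · rintro rfl; rw [conjBy_inv_conjBy]
  · rintro rfl; rw [conjBy_conjBy_inv]

theorem conjBy_mono {A B : Subgroup G} (h : A ≤ B) (g : G) : conjBy A g ≤ conjBy B g :=
  Subgroup.map_mono h

theorem conjBy_le_iff {A B : Subgroup G} {g : G} : conjBy A g ≤ conjBy B g ↔ A ≤ B := by
  constructor
  · intro h
    have := conjBy_mono h g⁻¹
    simpa [conjBy_inv_conjBy] using this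
  · intro h; exact conjBy_mono h g

theorem conjBy_sup (A B : Subgroup G) (g : G) : conjBy (A ⊔ B) g = conjBy A g ⊔ conjBy B g :=
  Subgroup.map_sup _ _ _

theorem conjBy_inf (A B : Subgroup G) (g : G) : conjBy (A ⊓ B) g = conjBy A g ⊓ conjBy B g := by
  ext x
  simp only [mem_conjBy, Subgroup.mem_inf]

@[simp] theorem conjBy_bot (g : G) : conjBy (⊥ : Subgroup G) g = ⊥ := Subgroup.map_bot _

theorem conjBy_eq_bot_iff {A : Subgroup G} {g : G} : conjBy A g = ⊥ ↔ A = ⊥ := by
  rw [conjBy_eq_iff, conjBy_bot]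

theorem conjBy_commutator (A B : Subgroup G) (g : G) :
    conjBy ⁅A, B⁆ g = ⁅conjBy A g, conjBy B g⁆ :=
  Subgroup.map_commutator _ _ _

theorem conjBy_le_of_le {A X : Subgroup G} (h : A ≤ X) {g : G} (hg : g ∈ X) : conjBy A g ≤ X := by
  calc conjBy A g ≤ conjBy X g := conjBy_mono h g
    _ = X := conjBy_of_mem hg

theorem conjBy_eq_self_iff {A : Subgroup G} {g : G} :
    conjBy A g = A ↔ g ∈ Subgroup.normalizer (A : Set G) :=
  Subgroup.mem_normalizer_iff_map_conj_eq.symm

theorem conjBy_inv_eq_self {A : Subgroup G} {g : G} (h : conjBy A g = A) : conjBy A g⁻¹ = A := by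
  rw [conjBy_eq_iff, inv_inv, h]

theorem conjBy_mul_eq_self {A : Subgroup G} {g k : G} (h : conjBy A g = A) (h' : conjBy A k = A) :
    conjBy A (g * k) = A := by
  rw [← conjBy_conjBy, h', h]

/-- The group isomorphism from `A` onto a conjugate. -/
noncomputable def conjByEquiv (A : Subgroup G) (g : G) : A ≃* conjBy A g :=
  A.equivMapOfInjective _ (MulAut.conj g).injective

theorem isNilpotent_conjBy {A : Subgroup G} (h : Group.IsNilpotent A) (g : G) :
    Group.IsNilpotent (conjBy A g) :=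
  (Group.isNilpotent_congr (conjByEquiv A g)).mp h

theorem isMulCommutative_iff {A : Subgroup G} :
    IsMulCommutative A ↔ ∀ a ∈ A, ∀ b ∈ A, a * b = b * a := by
  constructor
  · intro h a ha b hb
    have := h.is_comm.comm ⟨a, ha⟩ ⟨b, hb⟩
    exact congrArg Subtype.val this
  · intro h
    exact ⟨⟨fun a b => Subtype.ext (h a a.2 b b.2)⟩⟩

theorem isMulCommutative_conjBy {A : Subgroup G} (h : IsMulCommutative A) (g : G) :
    IsMulCommutative (conjBy A g) := by
  rw [isMulCommutative_iff] at h ⊢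
  intro a ha b hb
  rw [mem_conjBy] at ha hb
  have := h _ ha _ hb
  have h2 : g * ((g⁻¹ * a * g) * (g⁻¹ * b * g)) * g⁻¹ = g * ((g⁻¹ * b * g) * (g⁻¹ * a * g)) * g⁻¹ := by
    rw [this]
  simpa [mul_assoc] using h2

/-- Induction on a join of two subgroups. -/
theorem sup_induction {A B : Subgroup G} {P : G → Prop} (hA : ∀ a ∈ A, P a) (hB : ∀ b ∈ B, P b)
    (hmul : ∀ x y, P x → P y → P (x * y)) : ∀ x ∈ A ⊔ B, P x := by
  intro x hx
  rw [Subgroup.sup_eq_closure] at hx
  have key : P x ∧ P x⁻¹ := by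
    induction hx using Subgroup.closure_induction with
    | mem y hy =>
      rcases hy with hy | hy
      · exact ⟨hA y hy, hA _ (A.inv_mem hy)⟩
      · exact ⟨hB y hy, hB _ (B.inv_mem hy)⟩
    | one => simpa using hA 1 A.one_mem
    | mul y z _ _ hy hz =>
      refine ⟨hmul _ _ hy.1 hz.1, ?_⟩
      rw [mul_inv_rev]
      exact hmul _ _ hz.2 hy.2
    | inv y _ hy => exact ⟨hy.2, by simpa using hy.1⟩
  exact key.1

/-- An element commuting with `A` and `B` commutes with the join. -/
theorem commute_sup {A B : Subgroup G} {z : G} (hA : ∀ a ∈ A, z * a = a * z)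
    (hB : ∀ b ∈ B, z * b = b * z) : ∀ x ∈ A ⊔ B, z * x = x * z := by
  apply sup_induction hA hB
  intro x y hx hy
  rw [← mul_assoc, hx, mul_assoc, hy, mul_assoc]

/-- An element commuting with `B` normalizes it. -/
theorem conjBy_eq_of_commute {B : Subgroup G} {a : G} (h : ∀ b ∈ B, a * b = b * a) :
    conjBy B a = B := by
  ext x
  rw [mem_conjBy]
  constructor
  · intro hx
    have h1 := h _ hx
    have h2 : a⁻¹ * x * a = x := by
      have : a * (a⁻¹ * x * a) = x * a := by group
      rw [this] at h1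
      have h3 : x = a⁻¹ * x * a := mul_right_cancel h1
      exact h3.symm
    rwa [h2] at hx
  · intro hx
    have h1 := h _ hx
    have h2 : a⁻¹ * x * a = x := by
      rw [mul_assoc, ← h1]; group
    rwa [h2]

/-! ### rank one pairs -/

theorem rankOneCondition_left_form {A B : Subgroup G} (h : RankOneCondition A B) :
    ∀ a ∈ A, a ≠ 1 → ∃ b ∈ B, b ≠ 1 ∧ conjBy A b = conjBy B a := by
  intro a ha ha1
  obtain ⟨b, hb, hb1, hab⟩ := h a⁻¹ (A.inv_mem ha) (by simpa using ha1)
  refine ⟨b⁻¹, B.inv_mem hb, by simpa using hb1, ?_⟩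
  simpa using hab

theorem rankOneCondition_conj {A B : Subgroup G} (h : RankOneCondition A B) (g : G) :
    RankOneCondition (conjBy A g) (conjBy B g) := by
  intro a ha ha1
  rw [mem_conjBy] at ha
  obtain ⟨b, hb, hb1, hab⟩ := h _ ha (by
    intro h1
    apply ha1
    have : a = g * (g⁻¹ * a * g) * g⁻¹ := by group
    rw [this, h1]; simp)
  refine ⟨g * b * g⁻¹, conj_mem_conjBy hb g, ?_, ?_⟩
  · intro h1
    apply hb1
    have : b = g⁻¹ * (g * b * g⁻¹) * g := by group
    rw [this, h1]; simp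
  · rw [conjBy_conjBy, conjBy_conjBy]
    have e1 : (g * b * g⁻¹)⁻¹ * g = g * b⁻¹ := by group
    have e2 : a⁻¹ * g = g * (g⁻¹ * a * g)⁻¹ := by group
    rw [e1, e2, ← conjBy_conjBy, ← conjBy_conjBy, hab]

theorem isRankOnePair_conj {A B : Subgroup G} (h : IsRankOnePair A B) (g : G) :
    IsRankOnePair (conjBy A g) (conjBy B g) where
  ne := fun e => h.ne (conjBy_inj.mp e)
  nilpotent_left := isNilpotent_conjBy h.nilpotent_left g
  nilpotent_right := isNilpotent_conjBy h.nilpotent_right g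
  cond_left := rankOneCondition_conj h.cond_left g
  cond_right := rankOneCondition_conj h.cond_right g

theorem exists_ne_one_of_ne_bot {A : Subgroup G} (h : A ≠ ⊥) : ∃ a ∈ A, a ≠ 1 := by
  obtain ⟨a, ha⟩ := (Subgroup.ne_bot_iff_exists_ne_one).mp h
  exact ⟨a.1, a.2, by simpa using ha⟩

section pair

variable {A B : Subgroup G}

theorem partner_left (h : IsRankOnePair A B) {a : G} (ha : a ∈ A) (ha1 : a ≠ 1) :
    ∃ b ∈ B, b ≠ 1 ∧ conjBy A b = conjBy B a :=
  rankOneCondition_left_form h.cond_left a ha ha1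

theorem partner_right (h : IsRankOnePair A B) {b : G} (hb : b ∈ B) (hb1 : b ≠ 1) :
    ∃ a ∈ A, a ≠ 1 ∧ conjBy B a = conjBy A b :=
  rankOneCondition_left_form h.cond_right b hb hb1

/-- No non-identity element of `A` normalizes `B`. -/
theorem norm_left (h : IsRankOnePair A B) {a : G} (ha : a ∈ A) (hn : conjBy B a = B) : a = 1 := by
  by_contra ha1
  obtain ⟨b, hb, -, hab⟩ := partner_left h ha ha1
  rw [hn] at hab
  apply h.ne
  rw [conjBy_eq_iff, conjBy_of_mem (B.inv_mem hb)] at hab
  exact hab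

theorem norm_right (h : IsRankOnePair A B) {b : G} (hb : b ∈ B) (hn : conjBy A b = A) : b = 1 :=
  norm_left (RankOnePair_symm h) hb hn

theorem left_ne_bot (h : IsRankOnePair A B) : A ≠ ⊥ := by
  intro hA
  have hB : B ≠ ⊥ := fun hB => h.ne (hA.trans hB.symm)
  obtain ⟨b, hb, hb1⟩ := exists_ne_one_of_ne_bot hB
  obtain ⟨a, ha, ha1, -⟩ := h.cond_right b hb hb1
  rw [hA, Subgroup.mem_bot] at ha
  exact ha1 ha

theorem right_ne_bot (h : IsRankOnePair A B) : B ≠ ⊥ := left_ne_bot (RankOnePair_symm h)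

theorem exists_left (h : IsRankOnePair A B) : ∃ a ∈ A, a ≠ 1 :=
  exists_ne_one_of_ne_bot (left_ne_bot h)

theorem exists_right (h : IsRankOnePair A B) : ∃ b ∈ B, b ≠ 1 := exists_left (RankOnePair_symm h)

/-- `A` and `B` do not commute elementwise. -/
theorem not_commute (h : IsRankOnePair A B) : ¬ ∀ a ∈ A, ∀ b ∈ B, a * b = b * a := by
  intro hc
  obtain ⟨a, ha, ha1⟩ := exists_left h
  exact ha1 (norm_left h ha (conjBy_eq_of_commute (hc a ha)))

/-- `B` is a conjugate of `A` inside `A ⊔ B`. -/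
theorem exists_conj_eq_right (h : IsRankOnePair A B) : ∃ x ∈ A ⊔ B, conjBy A x = B := by
  obtain ⟨a, ha, ha1⟩ := exists_left h
  obtain ⟨b, hb, -, hab⟩ := partner_left h ha ha1
  refine ⟨a⁻¹ * b, (A ⊔ B).mul_mem ((A ⊔ B).inv_mem (Subgroup.mem_sup_left ha))
    (Subgroup.mem_sup_right hb), ?_⟩
  rw [← conjBy_conjBy, hab, conjBy_inv_conjBy]

theorem left_mem_unipotent : A ∈ unipotentSubgroups A B := ⟨1, Subgroup.one_mem _, by simp⟩

theorem right_mem_unipotent (h : IsRankOnePair A B) : B ∈ unipotentSubgroups A B := by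
  obtain ⟨x, hx, hxB⟩ := exists_conj_eq_right h
  exact ⟨x, hx, hxB.symm⟩

theorem conj_mem_unipotent {C : Subgroup G} (hC : C ∈ unipotentSubgroups A B) {x : G}
    (hx : x ∈ A ⊔ B) : conjBy C x ∈ unipotentSubgroups A B := by
  obtain ⟨y, hy, rfl⟩ := hC
  exact ⟨x * y, (A ⊔ B).mul_mem hx hy, conjBy_conjBy _ _ _⟩

/-- The members of `Ω` are `A` and the `A`-conjugates of `B`. -/
theorem mem_unipotent_iff (h : IsRankOnePair A B) {C : Subgroup G} :
    C ∈ unipotentSubgroups A B ↔ C = A ∨ ∃ a ∈ A, C = conjBy B a := by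
  constructor
  · rintro ⟨x, hx, rfl⟩
    have key : ∀ x ∈ A ⊔ B, ∀ C : Subgroup G, (C = A ∨ ∃ a ∈ A, C = conjBy B a) →
        (conjBy C x = A ∨ ∃ a ∈ A, conjBy C x = conjBy B a) := by
      apply sup_induction
      · rintro a ha C (rfl | ⟨a', ha', rfl⟩)
        · left; exact conjBy_of_mem ha
        · right; exact ⟨a * a', A.mul_mem ha ha', conjBy_conjBy _ _ _⟩
      · rintro b hb C (rfl | ⟨a', ha', rfl⟩)
        · by_cases hb1 : b = 1
          · left; rw [hb1, conjBy_one]
          · right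
            obtain ⟨a, ha, -, hab⟩ := partner_right h hb hb1
            exact ⟨a, ha, hab.symm⟩
        · by_cases ha1 : a' = 1
          · right
            exact ⟨1, A.one_mem, by rw [ha1, conjBy_one, conjBy_of_mem hb]⟩
          · obtain ⟨b', hb', -, hab⟩ := partner_left h ha' ha1
            rw [← hab, conjBy_conjBy]
            by_cases hbb : b * b' = 1
            · left; rw [hbb, conjBy_one]
            · right
              obtain ⟨a, ha, -, hab'⟩ := partner_right h (B.mul_mem hb hb') hbb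
              exact ⟨a, ha, hab'.symm⟩
      · intro x y hx hy C hC
        rw [← conjBy_conjBy]
        exact hx _ (hy C hC)
    exact key x hx A (Or.inl rfl)
  · rintro (rfl | ⟨a, ha, rfl⟩)
    · exact left_mem_unipotent
    · exact conj_mem_unipotent (right_mem_unipotent h) (Subgroup.mem_sup_left ha)

/-- Double transitivity in a convenient form. -/
theorem exists_conj_pair (h : IsRankOnePair A B) {C D : Subgroup G}
    (hC : C ∈ unipotentSubgroups A B) (hD : D ∈ unipotentSubgroups A B) (hCD : C ≠ D) :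
    ∃ x ∈ A ⊔ B, conjBy A x = C ∧ conjBy B x = D := by
  obtain ⟨y, hy, rfl⟩ := hC
  have hD' : conjBy D y⁻¹ ∈ unipotentSubgroups A B := conj_mem_unipotent hD ((A ⊔ B).inv_mem hy)
  rcases (mem_unipotent_iff h).mp hD' with h1 | ⟨a, ha, h1⟩
  · exfalso
    apply hCD
    rw [conjBy_eq_iff, inv_inv] at h1
    exact h1.symm
  · refine ⟨y * a, (A ⊔ B).mul_mem hy (Subgroup.mem_sup_left ha), ?_, ?_⟩
    · rw [← conjBy_conjBy, conjBy_of_mem ha]
    · rw [← conjBy_conjBy, ← h1, conjBy_conjBy_inv]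

/-- Any two different members of `Ω` form a rank one pair generating the same group. -/
theorem pair_of_mem (h : IsRankOnePair A B) {C D : Subgroup G}
    (hC : C ∈ unipotentSubgroups A B) (hD : D ∈ unipotentSubgroups A B) (hCD : C ≠ D) :
    IsRankOnePair C D ∧ C ⊔ D = A ⊔ B := by
  obtain ⟨x, hx, rfl, rfl⟩ := exists_conj_pair h hC hD hCD
  exact ⟨isRankOnePair_conj h x, by rw [← conjBy_sup, conjBy_of_mem hx]⟩

theorem unipotent_eq_of_mem (h : IsRankOnePair A B) {C D : Subgroup G}
    (hC : C ∈ unipotentSubgroups A B) (hD : D ∈ unipotentSubgroups A B) (hCD : C ≠ D) :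
    unipotentSubgroups C D = unipotentSubgroups A B := by
  have hsup := (pair_of_mem h hC hD hCD).2
  obtain ⟨y, hy, rfl⟩ := hC
  ext E
  constructor
  · rintro ⟨x, hx, rfl⟩
    rw [hsup] at hx
    exact ⟨x * y, (A ⊔ B).mul_mem hx hy, conjBy_conjBy _ _ _⟩
  · rintro ⟨x, hx, rfl⟩
    refine ⟨x * y⁻¹, ?_, ?_⟩
    · rw [hsup]; exact (A ⊔ B).mul_mem hx ((A ⊔ B).inv_mem hy)
    · rw [conjBy_conjBy]; simp [mul_assoc]

theorem unipotent_symm (h : IsRankOnePair A B) :
    unipotentSubgroups B A = unipotentSubgroups A B :=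
  unipotent_eq_of_mem h (right_mem_unipotent h) left_mem_unipotent h.ne.symm

theorem le_sup_of_mem_unipotent {C : Subgroup G} (hC : C ∈ unipotentSubgroups A B) :
    C ≤ A ⊔ B := by
  obtain ⟨y, hy, rfl⟩ := hC
  exact conjBy_le_of_le le_sup_left hy

/-- An element normalizing every member of `Ω` centralizes `A ⊔ B`. -/
theorem central_of_normalizes (h : IsRankOnePair A B) {x : G}
    (hx : ∀ C ∈ unipotentSubgroups A B, conjBy C x = C) : ∀ y ∈ A ⊔ B, x * y = y * x := by
  have aux : ∀ {A B : Subgroup G}, IsRankOnePair A B →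
      (∀ C ∈ unipotentSubgroups A B, conjBy C x = C) → ∀ a ∈ A, x * a = a * x := by
    intro A B h hx a ha
    have hA : conjBy A x = A := hx A left_mem_unipotent
    have hB : conjBy B x = B := hx B (right_mem_unipotent h)
    have hBa : conjBy (conjBy B a⁻¹) x = conjBy B a⁻¹ :=
      hx _ (conj_mem_unipotent (right_mem_unipotent h) (Subgroup.mem_sup_left (A.inv_mem ha)))
    have h1 : x * a * x⁻¹ ∈ A := by
      have := conj_mem_conjBy ha x
      rwa [hA] at this
    have h2 : a * x * a⁻¹ * x⁻¹ = 1 := by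
      apply norm_left h
      · have : a * x * a⁻¹ * x⁻¹ = a * (x * a * x⁻¹)⁻¹ := by group
        rw [this]
        exact A.mul_mem ha (A.inv_mem h1)
      · have e : a * x * a⁻¹ * x⁻¹ = a * (x * (a⁻¹ * x⁻¹)) := by group
        rw [e, ← conjBy_conjBy, ← conjBy_conjBy, ← conjBy_conjBy, conjBy_inv_eq_self hB, hBa,
          conjBy_conjBy_inv]
    have h3 : a * x = x * a := by
      have : a * x = (a * x * a⁻¹ * x⁻¹) * (x * a) := by group
      rw [this, h2, one_mul]
    exact h3.symm
  apply commute_sup (aux h hx)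
  apply aux (RankOnePair_symm h)
  rw [unipotent_symm h]
  exact hx

/-- `B` acts semiregularly on the conjugates of `A`. -/
theorem conj_inj_right (h : IsRankOnePair A B) {b b' : G} (hb : b ∈ B) (hb' : b' ∈ B)
    (e : conjBy A b = conjBy A b') : b = b' := by
  have h1 : b'⁻¹ * b = 1 := by
    apply norm_right h (B.mul_mem (B.inv_mem hb') hb)
    rw [← conjBy_conjBy, e, conjBy_inv_conjBy]
  calc b = b' * (b'⁻¹ * b) := by group
    _ = b' := by rw [h1, mul_one]

theorem conj_inj_left (h : IsRankOnePair A B) {a a' : G} (ha : a ∈ A) (ha' : a' ∈ A)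
    (e : conjBy B a = conjBy B a') : a = a' :=
  conj_inj_right (RankOnePair_symm h) ha ha' e

/-- A subgroup of `A ⊔ B` normalized by `A ⊔ B` is central or supplements `A`. -/
theorem normal_dichotomy (h : IsRankOnePair A B) {N : Subgroup G} (hN : N ≤ A ⊔ B)
    (hnorm : ∀ x ∈ A ⊔ B, conjBy N x = N) :
    A ⊔ B ≤ N ⊔ A ∨ ∀ n ∈ N, ∀ y ∈ A ⊔ B, n * y = y * n := by
  by_cases hfix : ∀ n ∈ N, ∀ C ∈ unipotentSubgroups A B, conjBy C n = C
  · right
    intro n hn
    exact central_of_normalizes h (hfix n hn)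
  · left
    push Not at hfix
    obtain ⟨n, hn, C, ⟨y, hy, rfl⟩, hne⟩ := hfix
    have hn' : y⁻¹ * n * y ∈ N := by
      have := hnorm y hy
      rw [← this, mem_conjBy] at hn
      exact hn
    have hD : conjBy A (y⁻¹ * n * y) ∈ unipotentSubgroups A B :=
      conj_mem_unipotent left_mem_unipotent (hN hn')
    have hDA : conjBy A (y⁻¹ * n * y) ≠ A := by
      intro e
      apply hne
      rw [mul_assoc, ← conjBy_conjBy, ← conjBy_conjBy, conjBy_eq_iff, inv_inv] at e
      exact e
    rcases (mem_unipotent_iff h).mp hD with h1 | ⟨a, ha, h1⟩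
    · exact absurd h1 hDA
    · have hB : B = conjBy A (a⁻¹ * (y⁻¹ * n * y)) := by
        rw [← conjBy_conjBy, h1, conjBy_inv_conjBy]
      refine sup_le le_sup_right ?_
      rw [hB]
      apply conjBy_le_of_le le_sup_right
      exact (N ⊔ A).mul_mem ((N ⊔ A).inv_mem (Subgroup.mem_sup_right ha)) (Subgroup.mem_sup_left hn')

/-- The second centre of `A ⊔ B` equals its centre, elementwise form. -/
theorem central_of_commutator_central (h : IsRankOnePair A B) {z : G} (hz : z ∈ A ⊔ B)
    (hc : ∀ x ∈ A ⊔ B, ∀ y ∈ A ⊔ B, (z * x * z⁻¹ * x⁻¹) * y = y * (z * x * z⁻¹ * x⁻¹)) :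
    ∀ y ∈ A ⊔ B, z * y = y * z := by
  apply central_of_normalizes h
  intro C hC
  by_contra hne
  have hD : conjBy C z ∈ unipotentSubgroups A B := conj_mem_unipotent hC hz
  have hp := (pair_of_mem h hC hD (Ne.symm hne)).1
  obtain ⟨c, hc1, hc2⟩ := exists_left hp
  apply hc2
  apply norm_left hp hc1
  have hcX : c ∈ A ⊔ B := le_sup_of_mem_unipotent hC hc1
  have e : c * z = (z * c * z⁻¹ * c⁻¹)⁻¹ * (z * c) := by group
  rw [conjBy_conjBy, e, ← conjBy_conjBy, ← conjBy_conjBy, conjBy_of_mem hc1]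
  apply conjBy_inv_eq_self
  apply conjBy_eq_of_commute
  intro d hd
  exact hc c hcX d (le_sup_of_mem_unipotent hD hd)

/-- A rank one group is not nilpotent. -/
theorem not_isNilpotent (h : IsRankOnePair A B) : ¬ Group.IsNilpotent ↥(A ⊔ B) := by
  rw [Subgroup.isNilpotent_iff_lowerCentralSeries]
  rintro ⟨n, hn⟩
  have step : ∀ k, (∀ z ∈ (A ⊔ B).lowerCentralSeries (k + 1), ∀ y ∈ A ⊔ B, z * y = y * z) →
      (∀ z ∈ (A ⊔ B).lowerCentralSeries k, ∀ y ∈ A ⊔ B, z * y = y * z) := by
    intro k hk z hz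
    apply central_of_commutator_central h (Subgroup.lowerCentralSeries_le_self _ _ hz)
    intro x hx y hy
    apply hk _ _ y hy
    rw [Subgroup.lowerCentralSeries_succ, ← commutatorElement_def]
    exact Subgroup.commutator_mem_commutator hz hx
  have all : ∀ j, ∀ z ∈ (A ⊔ B).lowerCentralSeries (n - j), ∀ y ∈ A ⊔ B, z * y = y * z := by
    intro j
    induction j with
    | zero =>
      intro z hz y _
      rw [Nat.sub_zero, hn, Subgroup.mem_bot] at hz
      rw [hz, one_mul, mul_one]
    | succ j ih =>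
      by_cases hj : n - j = 0
      · have : n - (j + 1) = n - j := by omega
        rw [this]; exact ih
      · apply step
        have : n - (j + 1) + 1 = n - j := by omega
        rw [this]; exact ih
  have h0 := all n
  rw [Nat.sub_self, Subgroup.lowerCentralSeries_zero] at h0
  exact not_commute h (fun a ha b hb => h0 a (Subgroup.mem_sup_left ha) b (Subgroup.mem_sup_right hb))

/-- A rank one pair does not lie in a nilpotent subgroup. -/
theorem not_le_of_isNilpotent (h : IsRankOnePair A B) {K : Subgroup G} (hK : Group.IsNilpotent K) :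
    ¬ (A ⊔ B ≤ K) := by
  intro hle
  apply not_isNilpotent h
  rw [Subgroup.isNilpotent_iff_lowerCentralSeries] at hK ⊢
  obtain ⟨n, hn⟩ := hK
  refine ⟨n, ?_⟩
  rw [eq_bot_iff, ← hn]
  exact Subgroup.lowerCentralSeries_mono n hle

/-- `A` and `B` meet trivially. -/
theorem inf_eq_bot (h : IsRankOnePair A B) : A ⊓ B = ⊥ := by
  rw [eq_bot_iff]
  rintro x ⟨hxA, hxB⟩
  rw [Subgroup.mem_bot]
  apply norm_right h hxB
  exact conjBy_of_mem hxA

end pair

end Cfsg.Agent.Lib.Helper85RankOne
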