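import Mathlib
import Cfsg.Prelude.Def_RootSubgroups
import Cfsg.Agent.Lib.Helper85RankOne

set_option autoImplicit false

namespace Cfsg.Agent.Lib.Helper85Special

open Cfsg Cfsg.Agent.Lib.Helper85RankOne

variable {G : Type*} [Group G]

/-- Right conjugation `g⁻¹ A g`. -/
def rc (A : Subgroup G) (g : G) : Subgroup G := conjBy A g⁻¹

theorem rc_def (A : Subgroup G) (g : G) : rc A g = conjBy A g⁻¹ := rfl

theorem conjBy_eq_rc (A : Subgroup G) (g : G) : conjBy A g = rc A g⁻¹ := by rw [rc_def, inv_inv]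

theorem mem_rc {A : Subgroup G} {g x : G} : x ∈ rc A g ↔ g * x * g⁻¹ ∈ A := by
  rw [rc_def, mem_conjBy, inv_inv]

theorem conj_mem_rc {A : Subgroup G} {a : G} (ha : a ∈ A) (g : G) : g⁻¹ * a * g ∈ rc A g := by
  rw [mem_rc]; simpa [mul_assoc] using ha

theorem rc_rc (A : Subgroup G) (g h : G) : rc (rc A g) h = rc A (g * h) := by
  rw [rc_def, rc_def, rc_def, conjBy_conjBy, mul_inv_rev]

@[simp] theorem rc_one (A : Subgroup G) : rc A 1 = A := by rw [rc_def, inv_one, conjBy_one]

theorem rc_of_mem {A : Subgroup G} {g : G} (hg : g ∈ A) : rc A g = A :=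
  conjBy_of_mem (A.inv_mem hg)

theorem rc_inj {A B : Subgroup G} {g : G} : rc A g = rc B g ↔ A = B := conjBy_inj

theorem rc_eq_iff {A B : Subgroup G} {g : G} : rc A g = B ↔ A = rc B g⁻¹ := by
  rw [rc_def, rc_def, conjBy_eq_iff]

theorem rc_mul_of_mem {A : Subgroup G} {a : G} (ha : a ∈ A) (g : G) : rc A (a * g) = rc A g := by
  rw [← rc_rc, rc_of_mem ha]

theorem rc_mem_unipotent {A B C : Subgroup G} (hC : C ∈ unipotentSubgroups A B) {x : G}
    (hx : x ∈ A ⊔ B) : rc C x ∈ unipotentSubgroups A B :=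
  conj_mem_unipotent hC ((A ⊔ B).inv_mem hx)

/-- `b = b(a)`: the partner relation `A^b = B^a` for non-identity `a ∈ A`, `b ∈ B`. -/
structure Partner (A B : Subgroup G) (a b : G) : Prop where
  memA : a ∈ A
  neA : a ≠ 1
  memB : b ∈ B
  neB : b ≠ 1
  eq : rc A b = rc B a

theorem Partner.symm {A B : Subgroup G} {a b : G} (h : Partner A B a b) : Partner B A b a :=
  ⟨h.memB, h.neB, h.memA, h.neA, h.eq.symm⟩

section pair

variable {A B : Subgroup G}

theorem exists_partner_left (h : IsRankOnePair A B) {a : G} (ha : a ∈ A) (ha1 : a ≠ 1) :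
    ∃ b, Partner A B a b := by
  obtain ⟨b, hb, hb1, e⟩ := h.cond_left a ha ha1
  exact ⟨b, ha, ha1, hb, hb1, e⟩

theorem exists_partner_right (h : IsRankOnePair A B) {b : G} (hb : b ∈ B) (hb1 : b ≠ 1) :
    ∃ a, Partner A B a b := by
  obtain ⟨a, ha, ha1, e⟩ := h.cond_right b hb hb1
  exact ⟨a, ha, ha1, hb, hb1, e.symm⟩

theorem rc_inj_right (h : IsRankOnePair A B) {b b' : G} (hb : b ∈ B) (hb' : b' ∈ B)
    (e : rc A b = rc A b') : b = b' := by
  have := conj_inj_right h (B.inv_mem hb) (B.inv_mem hb') e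
  simpa using this

theorem rc_inj_left (h : IsRankOnePair A B) {a a' : G} (ha : a ∈ A) (ha' : a' ∈ A)
    (e : rc B a = rc B a') : a = a' :=
  rc_inj_right (RankOnePair_symm h) ha ha' e

theorem Partner.unique_right (h : IsRankOnePair A B) {a b b' : G} (h1 : Partner A B a b)
    (h2 : Partner A B a b') : b = b' :=
  rc_inj_right h h1.memB h2.memB (h1.eq.trans h2.eq.symm)

theorem Partner.unique_left (h : IsRankOnePair A B) {a a' b : G} (h1 : Partner A B a b)
    (h2 : Partner A B a' b) : a = a' :=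
  rc_inj_left h h1.memA h2.memA (h1.eq.symm.trans h2.eq)

/-- Constructor for partners needing only one non-triviality. -/
theorem Partner.mk_left (h : IsRankOnePair A B) {a b : G} (ha : a ∈ A) (hb : b ∈ B) (ha1 : a ≠ 1)
    (e : rc A b = rc B a) : Partner A B a b := by
  refine ⟨ha, ha1, hb, ?_, e⟩
  rintro rfl
  rw [rc_one, eq_comm, rc_eq_iff, rc_of_mem (A.inv_mem ha)] at e
  exact h.ne e.symm

theorem Partner.mk_right (h : IsRankOnePair A B) {a b : G} (ha : a ∈ A) (hb : b ∈ B) (hb1 : b ≠ 1)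
    (e : rc A b = rc B a) : Partner A B a b :=
  (Partner.mk_left (RankOnePair_symm h) hb ha hb1 e.symm).symm

/-- Regularity: a non-identity element of `A` fixes no other member of `Ω`. -/
theorem eq_left_of_rc_eq (h : IsRankOnePair A B) {C : Subgroup G}
    (hC : C ∈ unipotentSubgroups A B) {a : G} (ha : a ∈ A) (ha1 : a ≠ 1) (e : rc C a = C) :
    C = A := by
  by_contra hne
  have hp := (pair_of_mem h left_mem_unipotent hC (Ne.symm hne)).1
  have := norm_left hp (A.inv_mem ha) e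
  exact ha1 (by simpa using this)

end pair

section special

variable {A B : Subgroup G}

theorem special_symm (hs : IsSpecialRankOnePair A B) : IsSpecialRankOnePair B A := by
  refine ⟨RankOnePair_symm hs.1, ?_⟩
  intro b hb hb1 a ha ha1 e
  have := hs.2 a ha ha1 b hb hb1 e.symm
  have h2 := congrArg (fun x => x⁻¹) this
  simp only [mul_inv_rev, inv_inv] at h2
  rw [mul_assoc, mul_assoc]
  exact h2.symm

theorem Partner.special_eq (hs : IsSpecialRankOnePair A B) {a b : G} (h : Partner A B a b) :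
    b⁻¹ * a * b = a⁻¹ * b⁻¹ * a :=
  hs.2 a h.memA h.neA b h.memB h.neB h.eq

theorem Partner.braid (hs : IsSpecialRankOnePair A B) {a b : G} (h : Partner A B a b) :
    a * b⁻¹ * a = b⁻¹ * a * b⁻¹ := by
  have := h.special_eq hs
  calc a * b⁻¹ * a = a * (b⁻¹ * a * b) * b⁻¹ := by group
    _ = a * (a⁻¹ * b⁻¹ * a) * b⁻¹ := by rw [this]
    _ = b⁻¹ * a * b⁻¹ := by group

/-- `b(a⁻¹) = b(a)⁻¹` in a special rank one group. -/
theorem Partner.inv (hs : IsSpecialRankOnePair A B) {a b : G} (h : Partner A B a b) :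
    Partner A B a⁻¹ b⁻¹ := by
  have hbr := h.braid hs
  have hbr' : a⁻¹ * b * a⁻¹ = b * a⁻¹ * b := by
    have := congrArg (fun x => x⁻¹) hbr
    simp only [mul_inv_rev, inv_inv] at this
    rw [mul_assoc, mul_assoc]
    exact this
  have haX : a ∈ A ⊔ B := Subgroup.mem_sup_left h.memA
  have hbX : b ∈ A ⊔ B := Subgroup.mem_sup_right h.memB
  have hC : rc B (a⁻¹ * b) ∈ unipotentSubgroups A B :=
    rc_mem_unipotent (right_mem_unipotent hs.1) ((A ⊔ B).mul_mem ((A ⊔ B).inv_mem haX) hbX)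
  have hfix : rc (rc B (a⁻¹ * b)) a⁻¹ = rc B (a⁻¹ * b) := by
    rw [rc_rc, hbr', mul_assoc, rc_mul_of_mem h.memB]
  have hCA := eq_left_of_rc_eq hs.1 hC (A.inv_mem h.memA) (by simpa using h.neA) hfix
  refine ⟨A.inv_mem h.memA, by simpa using h.neA, B.inv_mem h.memB, by simpa using h.neB, ?_⟩
  rw [← rc_rc, rc_eq_iff] at hCA
  exact hCA.symm

/-- The element `n(a) = a b(a)⁻¹ a` interchanges `A` and `B`. -/
theorem Partner.rc_n_left (hs : IsSpecialRankOnePair A B) {a b : G} (h : Partner A B a b) :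
    rc A (a * b⁻¹ * a) = B := by
  rw [mul_assoc, rc_mul_of_mem h.memA, ← rc_rc, (h.inv hs).eq, rc_rc]
  simp

theorem Partner.rc_n_right (hs : IsSpecialRankOnePair A B) {a b : G} (h : Partner A B a b) :
    rc B (a * b⁻¹ * a) = A := by
  rw [h.braid hs, mul_assoc, rc_mul_of_mem (B.inv_mem h.memB), ← rc_rc, ← h.eq, rc_rc]
  simp

theorem Partner.rc_n_inv_left (hs : IsSpecialRankOnePair A B) {a b : G} (h : Partner A B a b) :
    rc A (a * b⁻¹ * a)⁻¹ = B := by
  have := h.rc_n_right hs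
  rw [rc_eq_iff] at this
  exact this.symm

/-- `a^{n(a)} = b(a)⁻¹`. -/
theorem Partner.conj_n (hs : IsSpecialRankOnePair A B) {a b : G} (h : Partner A B a b) :
    (a * b⁻¹ * a)⁻¹ * a * (a * b⁻¹ * a) = b⁻¹ := by
  have hbr := h.braid hs
  calc (a * b⁻¹ * a)⁻¹ * a * (a * b⁻¹ * a) = (a * b⁻¹ * a)⁻¹ * a * (b⁻¹ * a * b⁻¹) := by rw [← hbr]
    _ = b⁻¹ := by group

/-- Under a homomorphism to a commutative group, `b(a)` maps to the inverse of the image of `a`. -/
theorem Partner.map_eq (hs : IsSpecialRankOnePair A B) {M : Type*} [CommGroup M] (π : G →* M)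
    {a b : G} (h : Partner A B a b) : π b = (π a)⁻¹ := by
  have := congrArg π (h.special_eq hs)
  simp only [map_mul, map_inv] at this
  have h2 : (π b)⁻¹ * π a * π b = π a := by
    rw [mul_comm (π b)⁻¹, mul_assoc, inv_mul_cancel, mul_one]
  have h3 : (π a)⁻¹ * (π b)⁻¹ * π a = (π b)⁻¹ := by
    rw [mul_comm (π a)⁻¹, mul_assoc, inv_mul_cancel, mul_one]
  rw [h2, h3] at this
  rw [this, inv_inv]

/-- The basic identity: `x² a` is killed by every homomorphism to a commutative group. -/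
theorem map_sq_mul (hs : IsSpecialRankOnePair A B) {M : Type*} [CommGroup M] (π : G →* M)
    {a x : G} (ha : a ∈ A) (ha1 : a ≠ 1) (hx : x ∈ A) (hx1 : x ≠ 1) (hxa : x * a ≠ 1) :
    π x * π x * π a = 1 := by
  obtain ⟨b, hb⟩ := exists_partner_left hs.1 ha ha1
  obtain ⟨b₁, hb₁⟩ := exists_partner_left hs.1 (A.mul_mem hx ha) hxa
  have hne : b₁ * b⁻¹ ≠ 1 := by
    intro e
    have hbb : b₁ = b := mul_inv_eq_one.mp e
    rw [hbb] at hb₁
    have := Partner.unique_left hs.1 hb₁ hb
    exact hx1 (by simpa using this)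
  obtain ⟨y, hy⟩ := exists_partner_right hs.1 (B.mul_mem hb₁.memB (B.inv_mem hb.memB)) hne
  set n := a * b⁻¹ * a with hn
  have hxn : n⁻¹ * x * n ∈ B := by
    have := conj_mem_rc hx n
    rwa [hb.rc_n_left hs] at this
  have hxn1 : n⁻¹ * x * n ≠ 1 := by
    intro e
    apply hx1
    have : x = n * (n⁻¹ * x * n) * n⁻¹ := by group
    rw [this, e]; simp
  have key : rc A (n⁻¹ * x * n) = rc B (y * a) := by
    calc rc A (n⁻¹ * x * n) = rc (rc A n⁻¹) (x * n) := by rw [rc_rc, mul_assoc]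
      _ = rc B (x * n) := by rw [hb.rc_n_inv_left hs]
      _ = rc (rc B (x * a)) (b⁻¹ * a) := by rw [rc_rc, hn]; congr 1; group
      _ = rc (rc A b₁) (b⁻¹ * a) := by rw [hb₁.eq]
      _ = rc (rc A (b₁ * b⁻¹)) a := by rw [rc_rc, rc_rc]; congr 1; group
      _ = rc (rc B y) a := by rw [hy.eq]
      _ = rc B (y * a) := by rw [rc_rc]
  have hP : Partner A B (y * a) (n⁻¹ * x * n) :=
    Partner.mk_right hs.1 (A.mul_mem hy.memA ha) hxn hxn1 key
  have e1 := hP.map_eq hs π
  have e2 := hy.map_eq hs π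
  have e3 := hb.map_eq hs π
  have e4 := hb₁.map_eq hs π
  simp only [map_mul, map_inv] at e1 e2 e4
  rw [e3, e4] at e2
  have e5 : (π n)⁻¹ * π x * π n = π x := by
    rw [mul_comm (π n)⁻¹, mul_assoc, inv_mul_cancel, mul_one]
  rw [e5] at e1
  -- `π x = (π y π a)⁻¹` and `(π x π a)⁻¹ π a = (π y)⁻¹`
  have e6 : π y = π x := by
    have : (π y)⁻¹ = (π x)⁻¹ := by
      rw [← e2]; simp
    exact inv_injective this
  rw [e6] at e1
  calc π x * π x * π a = π x * (π x * π a) := by rw [mul_assoc]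
    _ = (π x * π a)⁻¹ * (π x * π a) := by rw [← e1]
    _ = 1 := inv_mul_cancel _

theorem exists_ne3 {A : Subgroup G} (h : 3 < ENat.card A) (u v w : G) :
    ∃ x ∈ A, x ≠ u ∧ x ≠ v ∧ x ≠ w := by
  by_contra hcon
  push Not at hcon
  have hsub : (A : Set G) ⊆ {u, v, w} := by
    intro x hx
    by_cases h1 : x = u
    · left; exact h1
    by_cases h2 : x = v
    · right; left; exact h2
    · right; right; exact hcon x hx h1 h2
  have h1 : (A : Set G).encard ≤ 3 := by
    refine (Set.encard_le_encard hsub).trans ?_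
    refine (Set.encard_insert_le _ _).trans ?_
    have h2 : ({v, w} : Set G).encard ≤ 2 := by
      refine (Set.encard_insert_le _ _).trans ?_
      rw [Set.encard_singleton]; norm_num
    calc ({v, w} : Set G).encard + 1 ≤ 2 + 1 := by gcongr
      _ = 3 := by norm_num
  have h2 : (A : Set G).encard = ENat.card A := rfl
  rw [h2] at h1
  exact absurd h (not_lt.mpr h1)

/-- In a special rank one group with `|A| > 3`, `A` is killed by every homomorphism to a
commutative group. -/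
theorem map_eq_one (hs : IsSpecialRankOnePair A B) (hcard : 3 < ENat.card A) {M : Type*}
    [CommGroup M] (π : G →* M) : ∀ a ∈ A, π a = 1 := by
  have claim1 : ∀ a ∈ A, a ≠ 1 → ∀ a' ∈ A, a' ≠ 1 → π a = π a' := by
    intro a ha ha1 a' ha' ha'1
    obtain ⟨x, hx, hx1, hxa, hxa'⟩ := exists_ne3 hcard 1 a⁻¹ a'⁻¹
    have h1 := map_sq_mul hs π ha ha1 hx hx1 (fun e => hxa (eq_inv_of_mul_eq_one_left e))
    have h2 := map_sq_mul hs π ha' ha'1 hx hx1 (fun e => hxa' (eq_inv_of_mul_eq_one_left e))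
    exact mul_left_cancel (h1.trans h2.symm)
  intro a ha
  by_cases ha1 : a = 1
  · rw [ha1, map_one]
  obtain ⟨c, hc, hc1, hca, -⟩ := exists_ne3 hcard 1 a⁻¹ 1
  have hac : c * a ≠ 1 := fun e => hca (eq_inv_of_mul_eq_one_left e)
  have h1 := claim1 (c * a) (A.mul_mem hc ha) hac a ha ha1
  have h2 := claim1 c hc hc1 a ha ha1
  rw [map_mul, h2] at h1
  exact mul_eq_right.mp h1 |> fun e => e

/-- Consequently `A` lies in the commutator subgroup. -/
theorem le_commutator (hs : IsSpecialRankOnePair A B) (hcard : 3 < ENat.card A) :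
    A ≤ commutator G := by
  intro a ha
  have := map_eq_one hs hcard (Abelianization.of (G := G)) a ha
  rwa [← MonoidHom.mem_ker, Abelianization.ker_of] at this

/-- Powers: `a⁻¹ b^m a = b⁻¹ a^{-m} b`. -/
theorem Partner.pow_eq (hs : IsSpecialRankOnePair A B) {a b : G} (h : Partner A B a b) (m : ℕ) :
    a⁻¹ * b ^ m * a = b⁻¹ * (a ^ m)⁻¹ * b := by
  have h1 : a⁻¹ * b * a = b⁻¹ * a⁻¹ * b := by
    have := congrArg (fun x => x⁻¹) (h.special_eq hs)
    simp only [mul_inv_rev, inv_inv] at this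
    rw [mul_assoc, mul_assoc]
    exact this.symm
  have e1 : a⁻¹ * b ^ m * a = (a⁻¹ * b * a) ^ m := by
    have := conj_pow (a := a⁻¹) (b := b) (i := m)
    rw [inv_inv] at this
    exact this.symm
  have e2 : b⁻¹ * (a ^ m)⁻¹ * b = (b⁻¹ * a⁻¹ * b) ^ m := by
    have := conj_pow (a := b⁻¹) (b := a⁻¹) (i := m)
    rw [inv_inv, inv_pow] at this
    exact this.symm
  rw [e1, e2, h1]

/-- Timmesfeld I (5.2): `b(a^m)^m = b(a)`. -/
theorem partner_pow (m : ℕ) (hm : 1 ≤ m) : ∀ (A B : Subgroup G), IsSpecialRankOnePair A B →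
    ∀ a b c : G, Partner A B a b → Partner A B (a ^ m) c → c ^ m = b := by
  induction m, hm using Nat.le_induction with
  | base =>
    intro A B hs a b c h1 h2
    rw [pow_one] at h2 ⊢
    exact Partner.unique_right hs.1 h2 h1
  | succ m hm ih =>
    intro A B hs a b c h1 h2
    by_cases hbm : b ^ m = 1
    · have ham : a ^ m = 1 := by
        have := h1.pow_eq hs m
        rw [hbm] at this
        have h3 : b⁻¹ * (a ^ m)⁻¹ * b = 1 := by rw [← this]; group
        have h4 : (a ^ m)⁻¹ = 1 := by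
          have : (a ^ m)⁻¹ = b * (b⁻¹ * (a ^ m)⁻¹ * b) * b⁻¹ := by group
          rw [this, h3]; group
        exact inv_eq_one.mp h4
      rw [pow_succ, ham, one_mul] at h2
      rw [Partner.unique_right hs.1 h2 h1, pow_succ, hbm, one_mul]
    · obtain ⟨u, hu⟩ := exists_partner_right hs.1 (B.pow_mem h1.memB m) hbm
      have hum : u ^ m = a := ih B A (special_symm hs) b a u h1.symm hu.symm
      have hua : u * a = u ^ (m + 1) := by rw [← hum, pow_succ']
      have hpow : (u ^ (m + 1)) ^ m = a ^ (m + 1) := by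
        rw [← hum, ← pow_mul, ← pow_mul, mul_comm]
      have hne : u ^ (m + 1) ≠ 1 := by
        intro e
        rw [e, one_pow] at hpow
        exact h2.neA hpow.symm
      have key : rc A (c⁻¹ * b) = rc B (u * a) := by
        have e1 : rc A (a⁻¹ * b ^ m * a) = rc B (u * a) := by
          rw [mul_assoc, rc_mul_of_mem (A.inv_mem h1.memA), ← rc_rc, hu.eq, rc_rc]
        have e2 : rc A (b⁻¹ * (a ^ m)⁻¹ * b) = rc A (c⁻¹ * b) := by
          calc rc A (b⁻¹ * (a ^ m)⁻¹ * b) = rc (rc A b⁻¹) ((a ^ m)⁻¹ * b) := by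
                rw [rc_rc, mul_assoc]
            _ = rc (rc B a⁻¹) ((a ^ m)⁻¹ * b) := by rw [(h1.inv hs).eq]
            _ = rc (rc B (a ^ (m + 1))⁻¹) b := by
                rw [rc_rc, rc_rc]; congr 1
                rw [pow_succ, mul_inv_rev, mul_assoc]
            _ = rc (rc A c⁻¹) b := by rw [(h2.inv hs).eq]
            _ = rc A (c⁻¹ * b) := by rw [rc_rc]
        rw [← e2, ← h1.pow_eq hs m, e1]
      have hP : Partner A B (u ^ (m + 1)) (c⁻¹ * b) := by
        rw [← hua]
        refine Partner.mk_left hs.1 (A.mul_mem hu.memA h1.memA) (B.mul_mem (B.inv_mem h2.memB) h1.memB)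
          (by rw [hua]; exact hne) key
      have hfin := ih A B hs (u ^ (m + 1)) (c⁻¹ * b) c hP (by rw [hpow]; exact h2)
      rw [pow_succ', hfin]; group

end special

end Cfsg.Agent.Lib.Helper85Special
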