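import Cfsg.Agent.Lib.H85DBig
import Cfsg.Agent.Lib.H85DCube
import Cfsg.Agent.S5021

set_option autoImplicit false
set_option linter.unusedSectionVars false

namespace Cfsg.Agent.Lib.H85DLe

open Cfsg Cfsg.Agent.Lib.Helper85RankOne Cfsg.Agent.Lib.Helper85Special

variable {G : Type*} [Group G] {A B : Subgroup G}

open Cfsg.Agent.Lib.H85DBig Cfsg.Agent.Lib.H85DCube

/-- an elementary abelian 3-group with more than 3 elements has more than 6: infinite (`ENat.card_eq_top_of_infinite`), or finite of order 3^k
(`IsPGroup.exists_card_eq`, `IsPGroup` from a ^ 3 = 1), k ≥ 2. -/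
theorem six_of_three {A : Subgroup G} (h3 : 3 < ENat.card A) (hA : ∀ a ∈ A, a ^ 3 = 1) : 6 < ENat.card A := by
  rcases finite_or_infinite A with hf | hi
  · haveI : Fact (Nat.Prime 3) := ⟨Nat.prime_three⟩
    have hp : IsPGroup 3 A := by
      intro a
      exact ⟨1, Subtype.ext (by simpa using hA a.1 a.2)⟩
    obtain ⟨k, hk⟩ := hp.exists_card_eq
    have hc : ENat.card A = (Nat.card A : ℕ∞) := (ENat.card_eq_coe_natCard A)
    rw [hc, hk] at h3 ⊢
    have h3' : 3 < 3 ^ k := by exact_mod_cast h3
    have hk2 : 2 ≤ k := by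
      by_contra hlt
      have : k = 0 ∨ k = 1 := by omega
      rcases this with rfl | rfl <;> norm_num at h3'
    have : 9 ≤ 3 ^ k := by
      calc 9 = 3 ^ 2 := by norm_num
        _ ≤ 3 ^ k := Nat.pow_le_pow_right (by norm_num) hk2
    have h6 : 6 < 3 ^ k := by omega
    exact_mod_cast h6
  · rw [ENat.card_eq_top_of_infinite]
    exact ENat.natCast_lt_top 6

/-- PIECE D.Le. -/
theorem le_comm (h : IsRankOneGroup G A B) (hs : IsSpecialRankOnePair A B) (hab : HasAbelianUnipotents A B)
    (h3 : 3 < ENat.card A) : A ≤ ⁅A, rankOneDiagonal A B⁆ := by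
  have hcomm : ∀ x ∈ A, ∀ y ∈ A, x * y = y * x := isMulCommutative_iff.1 hab.1
  rcases Cfsg.Agent.S5021.result h hs hab with ⟨p, hp, -, hexp⟩ | ⟨htf, hdiv⟩
  · by_cases h2 : p = 2
    · subst h2
      exact le_of_two hs hcomm h3 hexp
    by_cases h3' : p = 3
    · subst h3'
      exact le_of_six hs hcomm (six_of_three h3 hexp)
    · -- p ≥ 5
      have hp5 : 5 ≤ p := by
        have h2' := hp.two_le
        by_contra hlt
        have : p = 4 := by omega
        subst this
        exact absurd hp (by norm_num)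
      intro a ha
      by_cases ha1 : a = 1
      · rw [ha1]; exact Subgroup.one_mem _
      haveI : Fact p.Prime := ⟨hp⟩
      have hord : orderOf a = p := orderOf_eq_prime (hexp a ha) ha1
      have ha2 : a ^ 2 ≠ 1 := by
        intro h0
        have := orderOf_dvd_of_pow_eq_one h0
        rw [hord] at this
        have := Nat.le_of_dvd (by norm_num) this
        omega
      have hcube := cube_mem hs ha ha2
      have hcop : Nat.Coprime 3 p := by
        rw [Nat.coprime_primes Nat.prime_three hp]
        exact fun h => h3' h.symm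
      obtain ⟨k, -, hk⟩ := Nat.exists_mul_mod_eq_one_of_coprime hcop (by omega : 1 < p)
      have : a = (a ^ 3) ^ k := by
        rw [← pow_mul, ← pow_mod_orderOf, hord, hk, pow_one]
      rw [this]
      exact Subgroup.pow_mem _ hcube k
  · intro a ha
    by_cases ha1 : a = 1
    · rw [ha1]; exact Subgroup.one_mem _
    obtain ⟨c, hc, rfl⟩ := hdiv a ha 3 (by norm_num)
    have hc1 : c ≠ 1 := by
      rintro rfl
      exact ha1 (one_pow 3)
    have hc2 : c ^ 2 ≠ 1 := by
      intro h0
      exact htf c hc hc1 (isOfFinOrder_iff_pow_eq_one.2 ⟨2, by norm_num, h0⟩)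
    exact cube_mem hs hc hc2

/-- from `le_comm`. -/
theorem card_comm (h : IsRankOneGroup G A B) (hs : IsSpecialRankOnePair A B) (hab : HasAbelianUnipotents A B)
    (h3 : 3 < ENat.card A) : 3 < ENat.card ↥(⁅A, rankOneDiagonal A B⁆ : Subgroup G) := by
  have hle := le_comm h hs hab h3
  exact lt_of_lt_of_le h3 (ENat.card_le_card_of_injective (Subgroup.inclusion_injective hle))

end Cfsg.Agent.Lib.H85DLe
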