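import Mathlib
import Cfsg.Prelude.Def_RootSubgroups
import Cfsg.Agent.Lib.Helper85Special

set_option autoImplicit false

namespace Cfsg.Agent.Lib.Helper85Transfer

open Cfsg Cfsg.Agent.Lib.Helper85RankOne Cfsg.Agent.Lib.Helper85Special

variable {G H : Type*} [Group G] [Group H]

theorem map_conjBy (f : H →* G) (A : Subgroup H) (x : H) :
    (conjBy A x).map f = conjBy (A.map f) (f x) := by
  ext y
  constructor
  · rintro ⟨z, hz, rfl⟩
    rw [SetLike.mem_coe, mem_conjBy] at hz
    rw [mem_conjBy]
    exact ⟨_, hz, by simp⟩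
  · intro hy
    rw [mem_conjBy] at hy
    obtain ⟨a, ha, hay⟩ := hy
    refine ⟨x * a * x⁻¹, conj_mem_conjBy ha x, ?_⟩
    rw [map_mul, map_mul, hay, map_inv]; group

theorem rankOneCondition_of_map {f : H →* G} (hf : Function.Injective f) {A B : Subgroup H}
    (h : RankOneCondition (A.map f) (B.map f)) : RankOneCondition A B := by
  intro a ha ha1
  obtain ⟨_, ⟨b, hb, rfl⟩, hb1, e⟩ := h (f a) (Subgroup.mem_map_of_mem f ha)
    (fun e => ha1 (hf (by rw [e, map_one])))
  refine ⟨b, hb, fun e => hb1 (by rw [e, map_one]), ?_⟩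
  apply Subgroup.map_injective hf
  rw [map_conjBy, map_conjBy, map_inv, map_inv]
  exact e

theorem isRankOnePair_of_map {f : H →* G} (hf : Function.Injective f) {A B : Subgroup H}
    (h : IsRankOnePair (A.map f) (B.map f)) : IsRankOnePair A B where
  ne := fun e => h.ne (by rw [e])
  nilpotent_left := (Group.isNilpotent_congr (A.equivMapOfInjective f hf)).mpr h.nilpotent_left
  nilpotent_right := (Group.isNilpotent_congr (B.equivMapOfInjective f hf)).mpr h.nilpotent_right
  cond_left := rankOneCondition_of_map hf h.cond_left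
  cond_right := rankOneCondition_of_map hf h.cond_right

theorem isSpecial_of_map {f : H →* G} (hf : Function.Injective f) {A B : Subgroup H}
    (h : IsSpecialRankOnePair (A.map f) (B.map f)) : IsSpecialRankOnePair A B := by
  refine ⟨isRankOnePair_of_map hf h.1, ?_⟩
  intro a ha ha1 b hb hb1 e
  apply hf
  have := h.2 (f a) (Subgroup.mem_map_of_mem f ha) (fun e => ha1 (hf (by rw [e, map_one])))
    (f b) (Subgroup.mem_map_of_mem f hb) (fun e => hb1 (hf (by rw [e, map_one])))
    (by rw [← map_inv, ← map_inv, ← map_conjBy, ← map_conjBy, e])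
  simpa using this

theorem subgroupOf_map {A X : Subgroup G} (h : A ≤ X) : (A.subgroupOf X).map X.subtype = A := by
  rw [Subgroup.subgroupOf_map_subtype, inf_eq_left.mpr h]

theorem isRankOnePair_subgroupOf {A B X : Subgroup G} (hA : A ≤ X) (hB : B ≤ X)
    (h : IsRankOnePair A B) : IsRankOnePair (A.subgroupOf X) (B.subgroupOf X) := by
  apply isRankOnePair_of_map X.subtype_injective
  rwa [subgroupOf_map hA, subgroupOf_map hB]

theorem isSpecial_subgroupOf {A B X : Subgroup G} (hA : A ≤ X) (hB : B ≤ X)
    (h : IsSpecialRankOnePair A B) : IsSpecialRankOnePair (A.subgroupOf X) (B.subgroupOf X) := by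
  apply isSpecial_of_map X.subtype_injective
  rwa [subgroupOf_map hA, subgroupOf_map hB]

theorem sup_subgroupOf_eq_top (A B : Subgroup G) :
    A.subgroupOf (A ⊔ B) ⊔ B.subgroupOf (A ⊔ B) = ⊤ := by
  apply Subgroup.map_injective (A ⊔ B).subtype_injective
  rw [Subgroup.map_sup, subgroupOf_map le_sup_left, subgroupOf_map le_sup_right,
    ← MonoidHom.range_eq_map, Subgroup.range_subtype]

theorem isRankOneGroup_subgroupOf {A B : Subgroup G} (h : IsRankOnePair A B) :
    IsRankOneGroup ↥(A ⊔ B) (A.subgroupOf (A ⊔ B)) (B.subgroupOf (A ⊔ B)) :=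
  ⟨sup_subgroupOf_eq_top A B, isRankOnePair_subgroupOf le_sup_left le_sup_right h⟩

theorem card_subgroupOf {A X : Subgroup G} (h : A ≤ X) :
    ENat.card (A.subgroupOf X) = ENat.card A :=
  ENat.card_congr (Subgroup.subgroupOfEquivOfLe h).toEquiv

/-- In a special rank one group with `|A| > 3`, `A` lies in the commutator subgroup of `A ⊔ B`. -/
theorem le_commutator_sup {A B : Subgroup G} (hs : IsSpecialRankOnePair A B)
    (hcard : 3 < ENat.card A) : A ≤ ⁅A ⊔ B, A ⊔ B⁆ := by
  have hs' := isSpecial_subgroupOf (X := A ⊔ B) le_sup_left le_sup_right hs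
  have h1 := le_commutator hs' (by rw [card_subgroupOf le_sup_left]; exact hcard)
  have h2 := Subgroup.map_mono (f := (A ⊔ B).subtype) h1
  rwa [subgroupOf_map le_sup_left, Subgroup.map_subtype_commutator] at h2

/-! ### quasisimple groups -/

theorem map_center_equiv (e : H ≃* G) : (Subgroup.center H).map e.toMonoidHom = Subgroup.center G := by
  ext y
  constructor
  · rintro ⟨z, hz, rfl⟩
    rw [SetLike.mem_coe, Subgroup.mem_center_iff] at hz
    rw [Subgroup.mem_center_iff]
    intro g
    obtain ⟨h, rfl⟩ := e.surjective g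
    have := congrArg e (hz h)
    simpa using this
  · intro hy
    rw [Subgroup.mem_center_iff] at hy
    refine ⟨e.symm y, ?_, by simp⟩
    rw [SetLike.mem_coe, Subgroup.mem_center_iff]
    intro h
    apply e.injective
    have := hy (e h)
    simpa using this

theorem isQuasisimple_of_equiv (e : H ≃* G) (h : IsQuasisimple G) : IsQuasisimple H := by
  obtain ⟨hp, hsimple⟩ := h
  refine ⟨Group.IsPerfect.ofSurjective (f := e.symm.toMonoidHom) e.symm.surjective, ?_⟩
  exact (QuotientGroup.congr (Subgroup.center H) (Subgroup.center G) e (map_center_equiv e)).isSimpleGroup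

/-- A criterion for simplicity of the central quotient. -/
theorem isSimpleGroup_quotient_center (hne : Subgroup.center G ≠ ⊤)
    (h : ∀ N : Subgroup G, N.Normal → N ≤ Subgroup.center G ∨ N = ⊤) :
    IsSimpleGroup (G ⧸ Subgroup.center G) := by
  have hnt : Nontrivial (G ⧸ Subgroup.center G) := by
    by_contra hnt
    rw [not_nontrivial_iff_subsingleton] at hnt
    exact hne (QuotientGroup.subgroup_eq_top_of_subsingleton _ hnt)
  refine ⟨fun M hM => ?_⟩
  have hNn : (M.comap (QuotientGroup.mk' (Subgroup.center G))).Normal := hM.comap _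
  rcases h _ hNn with h1 | h1
  · left
    rw [eq_bot_iff]
    intro q hq
    obtain ⟨x, rfl⟩ := QuotientGroup.mk'_surjective _ q
    have hx : x ∈ Subgroup.center G := h1 hq
    rw [Subgroup.mem_bot]
    exact (QuotientGroup.eq_one_iff x).mpr hx
  · right
    rw [eq_top_iff]
    intro q _
    obtain ⟨x, rfl⟩ := QuotientGroup.mk'_surjective _ q
    have hx : x ∈ M.comap (QuotientGroup.mk' (Subgroup.center G)) := by rw [h1]; trivial
    exact hx

end Cfsg.Agent.Lib.Helper85Transfer
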