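import Cfsg.Agent.Lib.Helper85Special
import Cfsg.Agent.S5017
import Cfsg.Agent.Lib.Helper85Transfer

set_option autoImplicit false
set_option linter.unusedSectionVars false

namespace Cfsg.Agent.Lib.H85DQS

open Cfsg Cfsg.Agent.Lib.Helper85RankOne Cfsg.Agent.Lib.Helper85Special

variable {G : Type*} [Group G] {A B : Subgroup G}

/-- PIECE D.QS.  `Helper85Special.le_commutator hs h3 : A ≤ commutator G`, and the same for `B` (`special_symm hs`; `ENat.card B = ENat.card A` because
B is a conjugate of A: `Helper85RankOne.exists_conj_eq_right`, conjBy = map of `MulAut.conj`).  As `A ⊔ B = ⊤` (`h.1`), `commutator G = ⊤`, i.e. G is perfect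
(`Group.IsPerfect`: see its definition in the Prelude / Mathlib), so G is quasisimple by `(Cfsg.Agent.S5017.result h).2`; transport `IsQuasisimple` along
`G ≃* (⊤ : Subgroup G)` (`Subgroup.topEquiv`) after rewriting `commutator G = ⊤`. -/
theorem quasi (h : IsRankOneGroup G A B) (hs : IsSpecialRankOnePair A B) (h3 : 3 < ENat.card A) :
    commutator G ⊔ A = ⊤ ∧ IsQuasisimple (commutator G) := by
  have hA : A ≤ commutator G := le_commutator hs h3
  have hB : B ≤ commutator G := by
    obtain ⟨x, -, hx⟩ := exists_conj_eq_right hs.1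
    intro b hb
    rw [← hx, mem_conjBy] at hb
    have h1 := hA hb
    have h2 : b = x * (x⁻¹ * b * x) * x⁻¹ := by group
    rw [h2]
    exact (inferInstance : (commutator G).Normal).conj_mem _ h1 x
  have htop : commutator G = ⊤ := by
    rw [eq_top_iff, ← h.1]
    exact sup_le hA hB
  have hperf : Group.IsPerfect G := ⟨htop⟩
  have hq := (Cfsg.Agent.S5017.result h).2 hperf
  refine ⟨by rw [htop, top_sup_eq], ?_⟩
  rw [htop]
  exact Cfsg.Agent.Lib.Helper85Transfer.isQuasisimple_of_equiv Subgroup.topEquiv hq

end Cfsg.Agent.Lib.H85DQS
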