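import Cfsg.Agent.Lib.Helper85PS

set_option autoImplicit false
set_option linter.unusedSectionVars false

namespace Cfsg.Agent.Lib.H85DSmall

open Cfsg Cfsg.Agent.Lib.Helper85RankOne Cfsg.Agent.Lib.Helper85Special

variable {G : Type*} [Group G] {A B : Subgroup G}

local notation "SL2" => Matrix.SpecialLinearGroup (Fin 2)
local notation "PSL2" => Matrix.ProjectiveSpecialLinearGroup (Fin 2)

theorem center_two : Subgroup.center (SL2 (ZMod 2)) = ⊥ := by
  rw [eq_bot_iff]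
  intro g hg
  rw [Matrix.SpecialLinearGroup.mem_center_iff] at hg
  obtain ⟨r, hr, e⟩ := hg
  have hr1 : r = 1 := by
    clear e
    revert hr
    revert r
    decide
  rw [Subgroup.mem_bot]
  apply Subtype.ext
  rw [← e, hr1]
  simp

/-- the centre of `SL₂(𝔽₂)` is trivial, so `PSL₂(𝔽₂) ≃* SL₂`. -/
theorem psl_two : Nonempty (PSL2 (ZMod 2) ≃* SL2 (ZMod 2)) :=
  ⟨(QuotientGroup.quotientMulEquivOfEq center_two).trans QuotientGroup.quotientBot⟩

/-- `A ≠ ⊥`, so `Nat.card A ∈ {2, 3}`. -/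
theorem card_small (h : IsRankOnePair A B) (h3 : ENat.card A ≤ 3) : Nat.card A = 2 ∨ Nat.card A = 3 := by
  have hfin : Finite A := by
    rw [← ENat.card_lt_top]
    exact lt_of_le_of_lt h3 (by exact ENat.natCast_lt_top 3)
  have h3' : Nat.card A ≤ 3 := by
    rw [ENat.card_eq_coe_natCard] at h3
    exact_mod_cast h3
  have h0 : Nat.card A ≠ 0 := Nat.card_pos.ne'
  have h1 : Nat.card A ≠ 1 := by
    intro e
    exact left_ne_bot h (Subgroup.card_eq_one.mp e)
  omega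

theorem eq_zpowers {C : Subgroup G} {p : ℕ} [Fact p.Prime] (hp : Nat.card C = p) {c : G} (hc : c ∈ C)
    (hc1 : c ≠ 1) : C = Subgroup.zpowers c := by
  apply le_antisymm
  · intro y hy
    have h1 : (⟨c, hc⟩ : C) ≠ 1 := fun e => hc1 (congrArg Subtype.val e)
    have := mem_zpowers_of_prime_card (g := (⟨c, hc⟩ : C)) (g' := ⟨y, hy⟩) hp h1
    obtain ⟨k, hk⟩ := Subgroup.mem_zpowers_iff.mp this
    exact Subgroup.mem_zpowers_iff.mpr ⟨k, by simpa using congrArg Subtype.val hk⟩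
  · exact Subgroup.zpowers_le.mpr hc

theorem closure_pair (h : IsRankOnePair A B) {p : ℕ} [Fact p.Prime] (hp : Nat.card A = p) {a b : G} (hab : Partner A B a b) :
    Subgroup.closure ({a, b} : Set G) = A ⊔ B := by
  have hB : Nat.card B = p := by
    obtain ⟨x, -, hx⟩ := exists_conj_eq_right h
    rw [← hp, ← hx]
    exact (Nat.card_congr (conjByEquiv A x).toEquiv).symm
  rw [Set.insert_eq, Subgroup.closure_union, ← Subgroup.zpowers_eq_closure, ← Subgroup.zpowers_eq_closure,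
    ← eq_zpowers hp hab.memA hab.neA, ← eq_zpowers hB hab.memB hab.neB]

theorem iso_aux (h : IsRankOneGroup G A B) (hs : IsSpecialRankOnePair A B) {p : ℕ} [Fact p.Prime]
    (hp : Nat.card A = p) :
    Nonempty (G ≃* SL2 (ZMod p)) ∨ Nonempty (G ≃* PSL2 (ZMod p)) := by
  have hA : ∀ a ∈ A, a ^ p = 1 := by
    intro a ha
    have := pow_card_eq_one' (x := (⟨a, ha⟩ : A))
    rw [hp] at this
    simpa using congrArg Subtype.val this
  obtain ⟨a, ha, ha1⟩ := exists_left hs.1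
  obtain ⟨b, hab⟩ := exists_partner_left hs.1 ha ha1
  have hcl : Subgroup.closure ({a, b} : Set G) = ⊤ := by rw [closure_pair hs.1 hp hab, h.1]
  have e : G ≃* ↥(Subgroup.closure ({a, b} : Set G)) :=
    (Subgroup.topEquiv (G := G)).symm.trans (MulEquiv.subgroupCongr hcl.symm)
  rcases Cfsg.Agent.Lib.Helper85PS.main hs hA hab with ⟨⟨f⟩⟩ | ⟨⟨f⟩⟩
  · exact Or.inl ⟨e.trans f⟩
  · exact Or.inr ⟨e.trans f⟩

/-- PIECE D.Small. -/
theorem small (h : IsRankOneGroup G A B) (hs : IsSpecialRankOnePair A B) (h3 : ENat.card A ≤ 3) :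
    Nonempty (G ≃* SL2 (ZMod 2)) ∨ Nonempty (G ≃* SL2 (ZMod 3)) ∨ Nonempty (G ≃* PSL2 (ZMod 3)) := by
  rcases card_small hs.1 h3 with h2 | h3'
  · have : Fact (Nat.Prime 2) := ⟨Nat.prime_two⟩
    rcases iso_aux h hs h2 with ⟨⟨f⟩⟩ | ⟨⟨f⟩⟩
    · exact Or.inl ⟨f⟩
    · obtain ⟨g⟩ := psl_two
      exact Or.inl ⟨f.trans g⟩
  · have : Fact (Nat.Prime 3) := ⟨Nat.prime_three⟩
    exact Or.inr (iso_aux h hs h3')

end Cfsg.Agent.Lib.H85DSmall
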