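import Cfsg.Agent.Lib.H85DK1

set_option autoImplicit false
set_option linter.unusedSectionVars false

namespace Cfsg.Agent.Lib.H85DSq

open Cfsg Cfsg.Agent.Lib.Helper85RankOne Cfsg.Agent.Lib.Helper85Special

variable {G : Type*} [Group G] {A B : Subgroup G}

open Cfsg.Agent.Lib.H85DDiag Cfsg.Agent.Lib.H85DK1

theorem add_aux {M : Type*} [AddCommGroup M] (x y1 y3 a0 al : M) :
    x + x + -a0 = (y3 + (x + -al)) + (y1 + x) + -((y3 + -al) + (y1 + a0)) := by abel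

theorem mul_aux {M : Type*} [CommGroup M] (x y1 y3 a0 al : M) :
    x * x * a0⁻¹ = (y3 * (x * al⁻¹)) * (y1 * x) * ((y3 * al⁻¹) * (y1 * a0))⁻¹ :=
  add_aux (M := Additive M) x y1 y3 a0 al

theorem sub_aux (hab : ∀ x ∈ A, ∀ y ∈ A, x * y = y * x) {x y1 y3 a0 al : G} (hx : x ∈ A)
    (hy1 : y1 ∈ A) (hy3 : y3 ∈ A) (ha0 : a0 ∈ A) (hal : al ∈ A) :
    x * x * a0⁻¹ = (y3 * (x * al⁻¹)) * (y1 * x) * ((y3 * al⁻¹) * (y1 * a0))⁻¹ := by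
  letI : CommGroup A :=
    { (inferInstance : Group A) with
      mul_comm := fun u v => Subtype.ext (hab u.1 u.2 v.1 v.2) }
  exact congrArg Subtype.val (mul_aux (M := A) ⟨x, hx⟩ ⟨y1, hy1⟩ ⟨y3, hy3⟩ ⟨a0, ha0⟩ ⟨al, hal⟩)

/-- PIECE D.Sq (the main computation). -/
theorem sq_mem (hs : IsSpecialRankOnePair A B) (hab : ∀ x ∈ A, ∀ y ∈ A, x * y = y * x) {a₀ : G} (ha₀ : a₀ ∈ A)
    (h1 : a₀ ≠ 1) :
    ∃ u v : G, ∀ x ∈ A, x ≠ 1 → x ≠ u → x ≠ v → x * x * a₀⁻¹ ∈ ⁅A, rankOneDiagonal A B⁆ := by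
  obtain ⟨b, hP⟩ := exists_partner_left hs.1 ha₀ h1
  set τ : G := a₀ * b⁻¹ * a₀ with hτ
  have hτinv : a₀⁻¹ * b⁻¹⁻¹ * a₀⁻¹ = τ⁻¹ := by rw [hτ]; group
  set β : G := τ⁻¹ * a₀ * τ with hβ
  have hβB : β ∈ B := by
    have := conj_mem_rc ha₀ τ
    rwa [hP.rc_n_left hs] at this
  have hβ1 : β ≠ 1 := by
    intro e
    apply h1
    have : a₀ = τ * β * τ⁻¹ := by rw [hβ]; group
    rw [this, e]; simp
  obtain ⟨α, hα⟩ := exists_partner_right hs.1 (B.inv_mem hβB) (by simpa using hβ1)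
  obtain ⟨x₀, hx₀, ex₀, -⟩ := k1 hs hP (A.inv_mem ha₀) (by simpa using h1)
  refine ⟨α, x₀, ?_⟩
  intro x hx hx1 hxα hxx₀
  obtain ⟨y₁, hy₁, e₁, m₁⟩ := k1 hs (hP.inv hs) hx hx1
  rw [hτinv] at e₁
  have hy₁a : y₁ * a₀ ≠ 1 := by
    intro e
    have hy : y₁ = a₀⁻¹ := eq_inv_of_mul_eq_one_left e
    rw [hy] at e₁
    have e2 := congrArg (fun C => rc C τ) e₁
    simp only [rc_rc] at e2
    rw [ex₀, mul_assoc, inv_mul_cancel, mul_one] at e2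
    exact hxx₀ (rc_inj_left hs.1 hx hx₀ e2)
  obtain ⟨y₂, hy₂, e₂, m₂⟩ := k1 hs hP (A.mul_mem hy₁ ha₀) hy₁a
  have hxα1 : x * α⁻¹ ≠ 1 := fun e => hxα (mul_inv_eq_one.mp e)
  obtain ⟨y₃, hy₃, e₃, m₃⟩ := k1 hs hα (A.mul_mem hx (A.inv_mem hα.memA)) hxα1
  have E1 : rc B (x * β) = rc B y₂ := by
    calc rc B (x * β) = rc (rc B (x * τ⁻¹)) (a₀ * τ) := by
          rw [rc_rc, hβ]; congr 1; group
      _ = rc (rc B y₁) (a₀ * τ) := by rw [e₁]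
      _ = rc B (y₁ * a₀ * τ) := by rw [rc_rc, mul_assoc]
      _ = rc B y₂ := e₂
  have E2 : rc B (x * β) = rc B (y₃ * α⁻¹) := by
    calc rc B (x * β) = rc (rc B (x * α⁻¹ * (α * β⁻¹⁻¹ * α))) α⁻¹ := by
          rw [rc_rc]; congr 1; group
      _ = rc (rc B y₃) α⁻¹ := by rw [e₃]
      _ = rc B (y₃ * α⁻¹) := by rw [rc_rc]
  have hy : y₂ = y₃ * α⁻¹ :=
    rc_inj_left hs.1 hy₂ (A.mul_mem hy₃ (A.inv_mem hα.memA)) (E1.symm.trans E2)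
  rw [hy] at m₂
  rw [sub_aux hab hx hy₁ hy₃ ha₀ hα.memA]
  exact Subgroup.mul_mem _ (Subgroup.mul_mem _ m₃ m₁) (Subgroup.inv_mem _ m₂)

end Cfsg.Agent.Lib.H85DSq
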