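import Cfsg.Agent.Lib.H85OForm

set_option autoImplicit false
set_option linter.unusedSectionVars false

namespace Cfsg.Agent.Lib.H85OIso

open Matrix Cfsg Cfsg.Agent.Lib.Helper85LRDefs Cfsg.Agent.Lib.H85ODefs Cfsg.Agent.Lib.H85OForm

variable {F : Type*} [Field F] {m : ℕ}

local notation "EE" => Module.End F (V F m)
local notation "GLV" => LinearMap.GeneralLinearGroup F (V F m)

/-! PIECE O.Iso: API of the isometry group (`Cfsg.isometryGroup F Q = Cfsg.preserving (Units.coeHom _) (fun u _ => Q u)`;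
membership unfolds to `∀ u v, Q (g *ᵥ u) = Q u`; see `Helper17Orth2.mem_isometryGroup_iff`). -/

theorem QQ_map (g : OG F m) (v : V F m) : QQ (((rho F m g : GLV) : EE) v) = QQ v :=
  g.2 v v

/-- from `QQ_map`, `map_add` and the definition of `BB`. -/
theorem BB_map (g : OG F m) (u v : V F m) : BB (((rho F m g : GLV) : EE) u) (((rho F m g : GLV) : EE) v) = BB u v := by
  unfold BB
  rw [← map_add, QQ_map, QQ_map, QQ_map]

theorem rho_inv_apply (g : OG F m) (v : V F m) : ((rho F m g⁻¹ : GLV) : EE) (((rho F m g : GLV) : EE) v) = v := by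
  rw [← Module.End.mul_apply, ← Units.val_mul, ← map_mul, inv_mul_cancel, map_one]
  rfl

theorem rho_apply_inv (g : OG F m) (v : V F m) : ((rho F m g : GLV) : EE) (((rho F m g⁻¹ : GLV) : EE) v) = v := by
  rw [← Module.End.mul_apply, ← Units.val_mul, ← map_mul, mul_inv_cancel, map_one]
  rfl

/-- an invertible endomorphism preserving `Q` comes from the isometry group: take the matrices `LinearMap.toMatrix' f`,
`LinearMap.toMatrix' f'` (a unit of the matrix ring), `Matrix.toLin'_toMatrix'`, `H85ODefs.rho_apply`. -/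
theorem exists_of_end (f f' : EE) (h1 : f * f' = 1) (h2 : f' * f = 1) (hQ : ∀ v, QQ (f v) = QQ v) :
    ∃ g : OG F m, ((rho F m g : GLV) : EE) = f := by
  have e1 : LinearMap.toMatrix' f * LinearMap.toMatrix' f' = 1 := by
    rw [← LinearMap.toMatrix'_mul, h1, LinearMap.toMatrix'_one]
  have e2 : LinearMap.toMatrix' f' * LinearMap.toMatrix' f = 1 := by
    rw [← LinearMap.toMatrix'_mul, h2, LinearMap.toMatrix'_one]
  let u : Matrix.GeneralLinearGroup (Fin (m + 3) ⊕ Fin (m + 3)) F := ⟨LinearMap.toMatrix' f, LinearMap.toMatrix' f', e1, e2⟩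
  have hu : ∀ v : V F m, (u : Matrix (II m) (II m) F) *ᵥ v = f v := by
    intro v
    show LinearMap.toMatrix' f *ᵥ v = f v
    rw [← Matrix.toLin'_apply, Matrix.toLin'_toMatrix']
  have hmem : u ∈ Cfsg.isometryGroup F (Cfsg.quadFormPlus (m + 3) F) := by
    intro x _
    show Cfsg.quadFormPlus (m + 3) F ((u : Matrix (II m) (II m) F) *ᵥ x) = _
    rw [hu]
    exact hQ x
  refine ⟨⟨u, hmem⟩, ?_⟩
  apply LinearMap.ext
  intro v
  rw [rho_apply]
  exact hu v

end Cfsg.Agent.Lib.H85OIso
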