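import Cfsg.Agent.Lib.H85OCalc
import Cfsg.Agent.Lib.H85OIso

set_option autoImplicit false
set_option linter.unusedSectionVars false

namespace Cfsg.Agent.Lib.H85OAct

open Matrix Cfsg Cfsg.Agent.Lib.Helper85LRDefs Cfsg.Agent.Lib.H85ODefs Cfsg.Agent.Lib.H85OForm

variable (F : Type*) [Field F] (m : ℕ)

/-- PIECE O.Act. -/
theorem surj : ∀ X ∈ XX F m, ∃ g : OG F m,
    ((rho F m g : LinearMap.GeneralLinearGroup F (V F m)) : Module.End F (V F m)) = 1 + X := by
  rintro X ⟨p, r, h, c, hc, rfl⟩
  have hsq : (c • mkX p r) * (c • mkX p r) = 0 := by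
    rw [smul_mul_assoc, mul_smul_comm, H85OCalc.sq h, smul_zero, smul_zero]
  apply H85OIso.exists_of_end (1 + c • mkX p r) (1 - c • mkX p r)
  · rw [add_mul, one_mul, mul_sub, mul_one, hsq]
    abel
  · rw [sub_mul, one_mul, mul_add, mul_one, hsq]
    abel
  · intro v
    have e : (1 + c • mkX p r) v = v + ((-(c * BB v r)) • p + (c * BB v p) • r) := by
      rw [LinearMap.add_apply, Module.End.one_apply, LinearMap.smul_apply, mkX_apply, smul_sub,
        smul_smul, smul_smul, neg_smul]
      abel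
    rw [e, QQ_add, SL.sing h, BB_add_right, BB_smul_right, BB_smul_right]
    ring

theorem conj : ∀ g : OG F m, ∀ X ∈ XX F m,
    ((rho F m g : LinearMap.GeneralLinearGroup F (V F m)) : Module.End F (V F m)) * X *
      ((rho F m g⁻¹ : LinearMap.GeneralLinearGroup F (V F m)) : Module.End F (V F m)) ∈ XX F m := by
  rintro g X ⟨p, r, h, c, hc, rfl⟩
  set σ : Module.End F (V F m) :=
    ((rho F m g : LinearMap.GeneralLinearGroup F (V F m)) : Module.End F (V F m)) with hσ
  set σ' : Module.End F (V F m) :=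
    ((rho F m g⁻¹ : LinearMap.GeneralLinearGroup F (V F m)) : Module.End F (V F m)) with hσ'
  have hker : LinearMap.ker σ = ⊥ := by
    rw [LinearMap.ker_eq_bot]
    intro a b hab
    have := congrArg σ' hab
    rwa [hσ, hσ', H85OIso.rho_inv_apply, H85OIso.rho_inv_apply] at this
  refine ⟨σ p, σ r, ⟨?_, ?_, ?_, ?_⟩, c, hc, ?_⟩
  · have := h.1.map' σ hker
    have e : (⇑σ ∘ ![p, r]) = ![σ p, σ r] := by
      funext i
      fin_cases i <;> rfl
    rw [e] at this
    exact this
  · rw [hσ, H85OIso.QQ_map]; exact h.2.1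
  · rw [hσ, H85OIso.QQ_map]; exact h.2.2.1
  · rw [← map_add, hσ, H85OIso.QQ_map]; exact h.2.2.2
  · apply LinearMap.ext
    intro v
    have e1 : ∀ u : V F m, BB (σ' v) u = BB v (σ u) := by
      intro u
      have := H85OIso.BB_map g (σ' v) u
      rw [hσ', H85OIso.rho_apply_inv] at this
      exact this.symm
    rw [Module.End.mul_apply, Module.End.mul_apply, LinearMap.smul_apply, LinearMap.smul_apply,
      mkX_apply, mkX_apply, map_smul, map_sub, map_smul, map_smul, e1, e1]

end Cfsg.Agent.Lib.H85OAct
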