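import Cfsg.Agent.Lib.H85OForm

set_option autoImplicit false
set_option linter.unusedSectionVars false

namespace Cfsg.Agent.Lib.H85OCalc

open Matrix Cfsg Cfsg.Agent.Lib.Helper85LRDefs Cfsg.Agent.Lib.H85ODefs Cfsg.Agent.Lib.H85OForm

variable {F : Type*} [Field F] {m : ℕ}

/-! PIECE O.Calc: products of the `mkX` (pure bilinear algebra from `H85OForm.mkX_apply`, `BB_*`; `LinearMap.ext`, `module`). -/

theorem mul_apply (p r p' r' v : V F m) : (mkX p r * mkX p' r') v =
    (BB r' p * BB v p' - BB p' p * BB v r') • r - (BB r' r * BB v p' - BB p' r * BB v r') • p := by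
  rw [Module.End.mul_apply, mkX_apply p' r' v, mkX_apply, BB_sub_left, BB_sub_left, BB_smul_left,
    BB_smul_left, BB_smul_left, BB_smul_left]
  congr 2 <;> ring

theorem sq {p r : V F m} (h : SL p r) : mkX p r * mkX p r = 0 := by
  apply LinearMap.ext
  intro v
  have h1 : BB p r = 0 := SL.perp h
  have h2 : BB p p = 0 := by rw [BB_self, h.2.1, mul_zero]
  have h3 : BB r r = 0 := by rw [BB_self, h.2.2.1, mul_zero]
  rw [mul_apply, BB_comm r p, h1, h2, h3]
  simp

/-- `X Y X = -(det Γ) X`, `Γ` the Gram matrix of the two pairs (needs `B(p,p) = B(p,r) = B(r,r) = 0`). -/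
theorem triple {p r : V F m} (h : SL p r) (p' r' : V F m) : mkX p r * mkX p' r' * mkX p r =
    (BB p r' * BB r p' - BB p p' * BB r r') • mkX p r := by
  apply LinearMap.ext
  intro v
  rw [Module.End.mul_apply, mul_apply, LinearMap.smul_apply, mkX_apply, BB_sub_left, BB_sub_left,
    BB_smul_left, BB_smul_left, BB_smul_left, BB_smul_left, BB_comm r' p, BB_comm p' p,
    BB_comm r' r, BB_comm p' r, smul_sub, smul_smul, smul_smul]
  congr 2 <;> ring

/-- if `mkX p r = 0` then `B(v,p) r - B(v,r) p = 0` for all `v`, so `B(v,p) = 0` for all `v` (independence) and `p = 0`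
(`H85OForm.nondeg`, `BB_comm`), against independence. -/
theorem ne_zero' {p r : V F m} (h : LinearIndependent F ![p, r]) : mkX p r ≠ 0 := by
  intro h0
  have hp : p ≠ 0 := h.ne_zero 0
  apply hp
  apply nondeg
  intro w
  have h1 : mkX p r w = 0 := by rw [h0]; rfl
  rw [mkX_apply] at h1
  have h2 := (LinearIndependent.pair_iff.1 h) (-(BB w r)) (BB w p) (by
    rw [neg_smul, ← h1]; abel)
  rw [BB_comm]
  exact h2.2

theorem ne_zero {p r : V F m} (h : SL p r) : mkX p r ≠ 0 := ne_zero' h.1

/-- antisymmetry. -/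
theorem swap (p r : V F m) : mkX r p = - mkX p r := by
  apply LinearMap.ext
  intro v
  rw [LinearMap.neg_apply, mkX_apply, mkX_apply]
  abel

theorem SL_swap {p r : V F m} (h : SL p r) : SL r p := by
  refine ⟨?_, h.2.2.1, h.2.1, by rw [add_comm]; exact h.2.2.2⟩
  rw [LinearIndependent.pair_iff]
  intro s t hst
  have := (LinearIndependent.pair_iff.1 h.1) t s (by rw [add_comm]; exact hst)
  exact ⟨this.2, this.1⟩

end Cfsg.Agent.Lib.H85OCalc
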