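import Cfsg.Agent.Lib.H85ORk1

set_option autoImplicit false
set_option linter.unusedSectionVars false

namespace Cfsg.Agent.Lib.H85OConnA

open Matrix Cfsg Cfsg.Agent.Lib.Helper85LRDefs Cfsg.Agent.Lib.H85ODefs Cfsg.Agent.Lib.H85OForm

private theorem exists_avoid {m : ℕ} (a b c : II m) :
    ∃ x : II m, x ≠ a ∧ x ≠ b ∧ x ≠ c := by
  by_contra hcon
  push Not at hcon
  have hs : (Finset.univ : Finset (II m)) ⊆ {a, b, c} := by
    intro x _
    simp only [Finset.mem_insert, Finset.mem_singleton]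
    by_cases h1 : x = a
    · exact Or.inl h1
    by_cases h2 : x = b
    · exact Or.inr (Or.inl h2)
    · exact Or.inr (Or.inr (hcon x h1 h2))
  have h1 := Finset.card_le_card hs
  have h2 : ({a, b, c} : Finset (II m)).card ≤ 3 := Finset.card_le_three
  rw [Finset.card_univ, Fintype.card_sum, Fintype.card_fin] at h1
  omega

private theorem ring_aux {R : Type*} [Ring R] {A B : R} (h : A * B = B * A) (hA : A * A = 0) :
    A * B * A = 0 := by
  rw [h, mul_assoc, hA, mul_zero]

/-- commuting with `mkX e_i e_j` forces a dependence. -/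
private theorem dep {F : Type*} [Field F] {m : ℕ} {p r : V F m} (h : SL p r) {i j : II m}
    (ha : BB p (ee i) ≠ 0) (hc : mkX p r * mkX (ee i) (ee j) = mkX (ee i) (ee j) * mkX p r) :
    ∃ s t : F, t ≠ 0 ∧ s • (BB r (ee i) • p - BB p (ee i) • r)
      + t • (BB p (ee j) • (ee i : V F m) - BB p (ee i) • ee j) = 0 := by
  have h0 := ring_aux hc (H85OCalc.sq h)
  rw [H85OCalc.triple h] at h0
  have hdet : BB p (ee j) * BB r (ee i) - BB p (ee i) * BB r (ee j) = 0 :=
    (smul_eq_zero.1 h0).resolve_right (H85OCalc.ne_zero h)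
  have hce := H85ORk1.comm_eq (p := p) (r := r) (p' := ee i) (r' := ee j)
    (by linear_combination -hdet) ha
  rw [hc, sub_self] at hce
  have hX : mkX (BB r (ee i) • p - BB p (ee i) • r)
      (BB p (ee j) • (ee i : V F m) - BB p (ee i) • ee j) = 0 :=
    (smul_eq_zero.1 hce.symm).resolve_left (inv_ne_zero ha)
  have hnli : ¬ LinearIndependent F ![BB r (ee i) • p - BB p (ee i) • r,
      BB p (ee j) • (ee i : V F m) - BB p (ee i) • ee j] := fun hli => H85OCalc.ne_zero' hli hX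
  rw [LinearIndependent.pair_iff] at hnli
  push Not at hnli
  obtain ⟨s, t, hst, hne⟩ := hnli
  refine ⟨s, t, ?_, hst⟩
  intro ht
  rw [ht, zero_smul, add_zero] at hst
  have hs : s ≠ 0 := fun hs => hne hs ht
  have hu : BB r (ee i) • p - BB p (ee i) • r = 0 := (smul_eq_zero.1 hst).resolve_left hs
  have := (LinearIndependent.pair_iff.1 h.1) (BB r (ee i)) (-(BB p (ee i))) (by
    rw [neg_smul, ← sub_eq_add_neg]; exact hu)
  exact ha (neg_eq_zero.1 this.2)

variable (F : Type*) [Field F] (m : ℕ)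

theorem connA : ∀ X ∈ XX F m, ∃ i j : II m, Good m i j ∧ ¬ TyC X (mkX (ee i) (ee j)) := by
  rintro X ⟨p, r, h, x, hx, rfl⟩
  have hp : p ≠ 0 := h.1.ne_zero 0
  obtain ⟨k, hk⟩ : ∃ k, p k ≠ 0 := by
    by_contra hcon
    push Not at hcon
    exact hp (funext hcon)
  have ha : BB p (ee (Sum.swap k)) ≠ 0 := by rw [BB_ee, Sum.swap_swap]; exact hk
  set i := Sum.swap k with hi
  obtain ⟨j₁, n1, n2, _⟩ := exists_avoid i (Sum.swap i) i
  obtain ⟨j₂, n3, n4, n5⟩ := exists_avoid i (Sum.swap i) j₁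
  by_contra hcon
  push Not at hcon
  have key : ∀ j, Good m i j → mkX p r * mkX (ee i) (ee j) = mkX (ee i) (ee j) * mkX p r := by
    intro j hj
    have := hcon i j hj
    unfold TyC at this
    rw [smul_mul_assoc, mul_smul_comm] at this
    exact smul_right_injective _ hx this
  obtain ⟨s₁, t₁, ht₁, e₁⟩ := dep h ha (key j₁ ⟨n1.symm, n2⟩)
  obtain ⟨s₂, t₂, ht₂, e₂⟩ := dep h ha (key j₂ ⟨n3.symm, n4⟩)
  set u := BB r (ee i) • p - BB p (ee i) • r with hu
  have E1 := congrFun e₁ j₂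
  have E2 := congrFun e₁ j₁
  have E3 := congrFun e₂ j₂
  simp only [Pi.add_apply, Pi.smul_apply, Pi.sub_apply, ee, Pi.single_apply, smul_eq_mul,
    Pi.zero_apply] at E1 E2 E3
  rw [if_neg n3, if_neg n5] at E1
  rw [if_neg n1] at E2
  rw [if_neg n3] at E3
  simp only [if_true, mul_zero, sub_zero, add_zero, mul_one, zero_sub] at E1 E2 E3
  have hs₁ : s₁ ≠ 0 := by
    rintro rfl
    rw [zero_mul, zero_add] at E2
    rcases mul_eq_zero.1 E2 with h' | h'
    · exact ht₁ h'
    · exact ha (neg_eq_zero.1 h')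
  have hu2 : u j₂ = 0 := (mul_eq_zero.1 E1).resolve_left hs₁
  rw [hu2, mul_zero, zero_add] at E3
  rcases mul_eq_zero.1 E3 with h' | h'
  · exact ht₂ h'
  · exact ha (neg_eq_zero.1 h')

end Cfsg.Agent.Lib.H85OConnA
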