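import Cfsg.Agent.Lib.H85OStep

set_option autoImplicit false
set_option linter.unusedSectionVars false

namespace Cfsg.Agent.Lib.H85OConnB

open Matrix Cfsg Cfsg.Agent.Lib.Helper85LRDefs Cfsg.Agent.Lib.H85ODefs Cfsg.Agent.Lib.H85OForm

variable (F : Type*) [Field F] (m : ℕ)

private theorem exists_avoid {m : ℕ} (a b c d : II m) :
    ∃ x : II m, x ≠ a ∧ x ≠ b ∧ x ≠ c ∧ x ≠ d := by
  by_contra hcon
  push Not at hcon
  have hs : (Finset.univ : Finset (II m)) ⊆ {a, b, c, d} := by
    intro x _
    simp only [Finset.mem_insert, Finset.mem_singleton]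
    by_cases h1 : x = a
    · exact Or.inl h1
    by_cases h2 : x = b
    · exact Or.inr (Or.inl h2)
    by_cases h3 : x = c
    · exact Or.inr (Or.inr (Or.inl h3))
    · exact Or.inr (Or.inr (Or.inr (hcon x h1 h2 h3)))
  have h1 := Finset.card_le_card hs
  have h2 : ({a, b, c, d} : Finset (II m)).card ≤ 4 := Finset.card_le_four
  rw [Finset.card_univ, Fintype.card_sum, Fintype.card_fin] at h1
  omega

private theorem rtg_symm {X Y : Module.End F (V F m)}
    (h : Relation.ReflTransGen (NAdj F m) X Y) : Relation.ReflTransGen (NAdj F m) Y X := by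
  induction h with
  | refl => exact Relation.ReflTransGen.refl
  | tail _ hbc ih => exact Relation.ReflTransGen.head (H85OStep.nadj_symm F m hbc) ih

/-- (1) change of the second index. -/
private theorem conn1 {i j j2 : II m} (h : Good m i j) (h2 : Good m i j2) :
    Relation.ReflTransGen (NAdj F m) (mkX (ee i) (ee j)) (mkX (ee i) (ee j2)) := by
  obtain ⟨j1, n1, n2, n3, n4⟩ := exists_avoid i (Sum.swap i) j j2
  have hg : Good m (Sum.swap i) j1 := ⟨n2.symm, by rw [Sum.swap_swap]; exact n1⟩
  have s1 := H85OStep.step F m h hg n3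
  have s2 := H85OStep.step F m h2 hg n4
  exact Relation.ReflTransGen.tail (Relation.ReflTransGen.single s1) (H85OStep.nadj_symm F m s2)

/-- (2) exchange of the two indices. -/
private theorem conn2 {i j : II m} (h : Good m i j) :
    Relation.ReflTransGen (NAdj F m) (mkX (ee i) (ee j)) (mkX (ee j) (ee i)) := by
  obtain ⟨j1, n1, n2, n3, _⟩ := exists_avoid i (Sum.swap i) j j
  have hg : Good m (Sum.swap i) j1 := ⟨n2.symm, by rw [Sum.swap_swap]; exact n1⟩
  have s1 := H85OStep.step F m h hg n3
  exact Relation.ReflTransGen.tail (Relation.ReflTransGen.single s1)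
    (H85OStep.nadj_symm F m (H85OStep.nadj_swap F m s1))

theorem connB {i j i2 j2 : II m} (h : Good m i j) (h2 : Good m i2 j2) :
    Relation.ReflTransGen (NAdj F m) (mkX (ee i) (ee j)) (mkX (ee i2) (ee j2)) := by
  by_cases e1 : i2 = i
  · subst e1
    exact conn1 F m h h2
  by_cases e2 : i2 = Sum.swap i
  · subst e2
    obtain ⟨j1, n1, n2, n3, _⟩ := exists_avoid i (Sum.swap i) j j
    have hg : Good m (Sum.swap i) j1 := ⟨n2.symm, by rw [Sum.swap_swap]; exact n1⟩
    have s1 := H85OStep.step F m h hg n3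
    exact Relation.ReflTransGen.head s1 (conn1 F m hg h2)
  · have hg : Good m i i2 := ⟨fun e => e1 e.symm, e2⟩
    have hg' : Good m i2 i := ⟨e1, fun e => e2 (by rw [e, Sum.swap_swap])⟩
    exact ((conn1 F m h hg).trans (conn2 F m hg)).trans (conn1 F m hg' h2)

end Cfsg.Agent.Lib.H85OConnB
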