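import Cfsg.Agent.Lib.Helper85LRDefs
import Cfsg.Prelude.Def_Classical

/-!
Project 85 (linear root data), instance `O⁺_{2(m+3)}(F)` (row S5072): vocabulary.
-/

set_option autoImplicit false
set_option linter.unusedSectionVars false

namespace Cfsg.Agent.Lib.H85ODefs

open Matrix Cfsg Cfsg.Agent.Lib.Helper85LRDefs

variable (F : Type*) [Field F] (m : ℕ)

/-- the index set. -/
abbrev II := Fin (m + 3) ⊕ Fin (m + 3)

/-- the natural module. -/
abbrev V := Fin (m + 3) ⊕ Fin (m + 3) → F

/-- the isometry group. -/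
abbrev OG := ↥(Cfsg.isometryGroup F (Cfsg.quadFormPlus (m + 3) F))

/-- the coercion to matrices as a homomorphism. -/
def jj : OG F m →* Matrix (II m) (II m) F where
  toFun g := ((g : Matrix.GeneralLinearGroup (Fin (m + 3) ⊕ Fin (m + 3)) F) : Matrix (II m) (II m) F)
  map_one' := rfl
  map_mul' _ _ := rfl

theorem jj_injective : Function.Injective (jj F m) := fun _ _ h => Subtype.ext (Units.ext h)

/-- the natural representation. -/
def rho : OG F m →* LinearMap.GeneralLinearGroup F (V F m) := rhoOf F (jj F m)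

variable {F m}

theorem rho_apply (g : OG F m) (v : V F m) :
    ((rho F m g : LinearMap.GeneralLinearGroup F (V F m)) : Module.End F (V F m)) v =
      ((g : Matrix.GeneralLinearGroup (Fin (m + 3) ⊕ Fin (m + 3)) F) : Matrix (II m) (II m) F) *ᵥ v := rfl

/-- the quadratic form. -/
abbrev QQ (v : V F m) : F := Cfsg.quadFormPlus (m + 3) F v

/-- the polar form, as written in the row. -/
def BB (u v : V F m) : F := QQ (u + v) - QQ u - QQ v

/-- `p, r` span a singular line. -/
def SL (p r : V F m) : Prop := LinearIndependent F ![p, r] ∧ QQ p = 0 ∧ QQ r = 0 ∧ QQ (p + r) = 0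

/-- the endomorphism `v ↦ B(v,p) r - B(v,r) p` (see `H85OForm.mkX_apply`). -/
def mkX (p r : V F m) : Module.End F (V F m) :=
  Matrix.toLin' (Matrix.vecMulVec r (p ∘ Sum.swap) - Matrix.vecMulVec p (r ∘ Sum.swap))

/-- the coordinate vectors. -/
def ee (i : II m) : V F m := Pi.single i 1

variable (F m)

/-- the family of the row S5072. -/
def SS : Set (Subgroup (OG F m)) :=
  {A : Subgroup ↥(Cfsg.isometryGroup F (Cfsg.quadFormPlus (m + 3) F)) | ∃ p r : Fin (m + 3) ⊕ Fin (m + 3) → F, LinearIndependent F ![p, r] ∧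
          Cfsg.quadFormPlus (m + 3) F p = 0 ∧ Cfsg.quadFormPlus (m + 3) F r = 0 ∧
          Cfsg.quadFormPlus (m + 3) F (p + r) = 0 ∧
          A = Subgroup.closure {σ : ↥(Cfsg.isometryGroup F (Cfsg.quadFormPlus (m + 3) F)) | ∀ v : Fin (m + 3) ⊕ Fin (m + 3) → F,
            Cfsg.quadFormPlus (m + 3) F (v + p) - Cfsg.quadFormPlus (m + 3) F v - Cfsg.quadFormPlus (m + 3) F p = 0 →
            Cfsg.quadFormPlus (m + 3) F (v + r) - Cfsg.quadFormPlus (m + 3) F v - Cfsg.quadFormPlus (m + 3) F r = 0 →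
              ((σ : Matrix.GeneralLinearGroup (Fin (m + 3) ⊕ Fin (m + 3)) F) : Matrix (Fin (m + 3) ⊕ Fin (m + 3)) (Fin (m + 3) ⊕ Fin (m + 3)) F) *ᵥ v = v}}

/-- the linear root datum: the non-zero multiples of the `mkX p r`, `⟨p, r⟩` a singular line. -/
def XX : Set (Module.End F (V F m)) := {X | ∃ p r : V F m, SL p r ∧ ∃ c : F, c ≠ 0 ∧ X = c • mkX p r}

/-- non-commuting adjacency. -/
def NAdj (X Y : Module.End F (V F m)) : Prop := X ∈ XX F m ∧ Y ∈ XX F m ∧ ¬ TyC X Y

/-- `e_i, e_j` span a singular (coordinate) line. -/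
def Good (i j : II m) : Prop := i ≠ j ∧ j ≠ Sum.swap i

end Cfsg.Agent.Lib.H85ODefs
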