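import Cfsg.Agent.Lib.H85OForm

set_option autoImplicit false
set_option linter.unusedSectionVars false

namespace Cfsg.Agent.Lib.H85ODual

open Matrix Cfsg Cfsg.Agent.Lib.Helper85LRDefs Cfsg.Agent.Lib.H85ODefs Cfsg.Agent.Lib.H85OForm

variable {F : Type*} [Field F] {m : ℕ}

private theorem half {p r : V F m} (h : LinearIndependent F ![p, r]) : ∃ w : V F m, BB w p = 1 ∧ BB w r = 0 := by
  rw [LinearIndependent.pair_iff] at h
  have hr : r ≠ 0 := by
    intro e
    have := h 0 1 (by rw [e]; simp)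
    exact one_ne_zero this.2
  by_contra hcon
  have hcon' : ∀ w : V F m, BB w r = 0 → BB w p = 0 := by
    intro w hw
    by_contra hne
    apply hcon
    refine ⟨(BB w p)⁻¹ • w, ?_, ?_⟩
    · rw [BB_smul_left, inv_mul_cancel₀ hne]
    · rw [BB_smul_left, hw, mul_zero]
  -- pick `w₀` with `B(w₀, r) = 1`
  have : ∃ w₀ : V F m, BB w₀ r ≠ 0 := by
    by_contra hc
    push_neg at hc
    exact hr (nondeg (fun w => by rw [BB_comm]; exact hc w))
  obtain ⟨w₀, hw₀⟩ := this
  -- then `p - (B(w₀,p)/B(w₀,r)) r` is perpendicular to everything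
  have hz : p - (BB w₀ p * (BB w₀ r)⁻¹) • r = 0 := by
    apply nondeg
    intro w
    have h1 := hcon' (w - (BB w r * (BB w₀ r)⁻¹) • w₀) (by
      rw [BB_sub_left, BB_smul_left, mul_assoc, inv_mul_cancel₀ hw₀, mul_one, sub_self])
    rw [BB_sub_left, BB_smul_left] at h1
    rw [BB_sub_left, BB_smul_left, BB_comm p w, BB_comm r w]
    linear_combination h1
  have := h 1 (-(BB w₀ p * (BB w₀ r)⁻¹)) (by rw [one_smul, neg_smul, ← sub_eq_add_neg]; exact hz)
  exact one_ne_zero this.1

/-- PIECE O.Dual.  The linear map `w ↦ (B(w,p), B(w,r))`, `V → F²`, is surjective when `p, r` are independent: otherwise some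
non-trivial combination `a B(.,p) + b B(.,r) = B(., a p + b r)` vanishes, so `a p + b r = 0` by `H85OForm.nondeg`.
(E.g.: pick w with B(w,p) ≠ 0, normalise; then r' = r - B(w,r) p ≠ 0 ... or use `LinearMap.range`/dual space arguments,
`Module.Dual`, `LinearMap.BilinForm` nondegenerate ⇒ `toDual` bijective.) -/
theorem exists_dual {p r : V F m} (h : LinearIndependent F ![p, r]) :
    ∃ w₁ w₂ : V F m, BB w₁ p = 1 ∧ BB w₁ r = 0 ∧ BB w₂ p = 0 ∧ BB w₂ r = 1 := by
  have h2 : LinearIndependent F ![r, p] := by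
    rw [LinearIndependent.pair_iff] at h ⊢
    intro s t hst
    have := h t s (by rw [add_comm]; exact hst)
    exact ⟨this.2, this.1⟩
  obtain ⟨w₁, a1, a2⟩ := half h
  obtain ⟨w₂, b1, b2⟩ := half h2
  exact ⟨w₁, w₂, a1, a2, b2, b1⟩

end Cfsg.Agent.Lib.H85ODual
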