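import Cfsg.Agent.Lib.H85ODual
import Cfsg.Agent.Lib.H85OIso

set_option autoImplicit false
set_option linter.unusedSectionVars false

namespace Cfsg.Agent.Lib.H85OFix

open Matrix Cfsg Cfsg.Agent.Lib.Helper85LRDefs Cfsg.Agent.Lib.H85ODefs Cfsg.Agent.Lib.H85OForm

variable {F : Type*} [Field F] {m : ℕ}

local notation "EE" => Module.End F (V F m)
local notation "GLV" => LinearMap.GeneralLinearGroup F (V F m)

/-- a vector perpendicular to `⟨p, r⟩^⊥` lies in `⟨p, r⟩`. -/
private theorem mem_span_of_perp {p r w₁ w₂ x : V F m}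
    (h11 : BB w₁ p = 1) (h12 : BB w₁ r = 0) (h21 : BB w₂ p = 0) (h22 : BB w₂ r = 1)
    (hx : ∀ y : V F m, BB y p = 0 → BB y r = 0 → BB x y = 0) :
    x = BB x w₁ • p + BB x w₂ • r := by
  have hz : x - BB x w₁ • p - BB x w₂ • r = 0 := by
    apply nondeg
    intro w
    have hw : w = (w - BB w p • w₁ - BB w r • w₂) + BB w p • w₁ + BB w r • w₂ := by abel
    have h0p : BB (w - BB w p • w₁ - BB w r • w₂) p = 0 := by
      rw [BB_sub_left, BB_sub_left, BB_smul_left, BB_smul_left, h11, h21]; ring
    have h0r : BB (w - BB w p • w₁ - BB w r • w₂) r = 0 := by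
      rw [BB_sub_left, BB_sub_left, BB_smul_left, BB_smul_left, h12, h22]; ring
    set w₀ := w - BB w p • w₁ - BB w r • w₂ with hw₀
    rw [hw, BB_add_right, BB_add_right, BB_smul_right, BB_smul_right]
    have e0 : BB (x - BB x w₁ • p - BB x w₂ • r) w₀ = 0 := by
      rw [BB_sub_left, BB_sub_left, BB_smul_left, BB_smul_left, hx w₀ h0p h0r, BB_comm p w₀,
        BB_comm r w₀, h0p, h0r]; ring
    have e1 : BB (x - BB x w₁ • p - BB x w₂ • r) w₁ = 0 := by
      rw [BB_sub_left, BB_sub_left, BB_smul_left, BB_smul_left, BB_comm p w₁, BB_comm r w₁, h11,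
        h12]; ring
    have e2 : BB (x - BB x w₁ • p - BB x w₂ • r) w₂ = 0 := by
      rw [BB_sub_left, BB_sub_left, BB_smul_left, BB_smul_left, BB_comm p w₂, BB_comm r w₂, h21,
        h22]; ring
    rw [e0, e1, e2]; ring
  have : x = (x - BB x w₁ • p - BB x w₂ • r) + BB x w₁ • p + BB x w₂ • r := by abel
  rw [hz, zero_add] at this
  exact this

theorem fix_iff {p r : V F m} (h : SL p r) (g : OG F m) :
    (∀ v : V F m, BB v p = 0 → BB v r = 0 → ((rho F m g : GLV) : EE) v = v) ↔
      ∃ c : F, ((rho F m g : GLV) : EE) = 1 + c • mkX p r := by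
  constructor
  · intro hfix
    obtain ⟨w₁, w₂, h11, h12, h21, h22⟩ := H85ODual.exists_dual h.1
    set σ : EE := ((rho F m g : GLV) : EE) with hσ
    -- the displacement vectors
    have hperp : ∀ w y : V F m, BB y p = 0 → BB y r = 0 → BB (σ w - w) y = 0 := by
      intro w y hy1 hy2
      rw [BB_sub_left]
      have := H85OIso.BB_map g w y
      rw [← hσ, hfix y hy1 hy2] at this
      rw [this, sub_self]
    have hx1 := mem_span_of_perp h11 h12 h21 h22 (hperp w₁)
    have hx2 := mem_span_of_perp h11 h12 h21 h22 (hperp w₂)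
    set a₁ := BB (σ w₁ - w₁) w₁ with ha₁
    set a₂ := BB (σ w₁ - w₁) w₂ with ha₂
    set b₁ := BB (σ w₂ - w₂) w₁ with hb₁
    set b₂ := BB (σ w₂ - w₂) w₂ with hb₂
    have hs1 : σ w₁ = w₁ + (a₁ • p + a₂ • r) := by rw [← hx1]; abel
    have hs2 : σ w₂ = w₂ + (b₁ • p + b₂ • r) := by rw [← hx2]; abel
    have hform : ∀ v : V F m, σ v = v + ((BB v p * a₁ + BB v r * b₁) • p
        + (BB v p * a₂ + BB v r * b₂) • r) := by
      intro v
      have h0p : BB (v - BB v p • w₁ - BB v r • w₂) p = 0 := by
        rw [BB_sub_left, BB_sub_left, BB_smul_left, BB_smul_left, h11, h21]; ring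
      have h0r : BB (v - BB v p • w₁ - BB v r • w₂) r = 0 := by
        rw [BB_sub_left, BB_sub_left, BB_smul_left, BB_smul_left, h12, h22]; ring
      have h0 := hfix _ h0p h0r
      rw [map_sub, map_sub, map_smul, map_smul, hs1, hs2] at h0
      have : σ v = (v - BB v p • w₁ - BB v r • w₂) + BB v p • (w₁ + (a₁ • p + a₂ • r))
          + BB v r • (w₂ + (b₁ • p + b₂ • r)) := by
        rw [← h0]; abel
      rw [this]
      simp only [smul_add, smul_smul, add_smul]
      abel
    have hQ : ∀ v : V F m, (BB v p * a₁ + BB v r * b₁) * BB v p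
        + (BB v p * a₂ + BB v r * b₂) * BB v r = 0 := by
      intro v
      have h1 := H85OIso.QQ_map g v
      rw [← hσ, hform v, QQ_add, SL.sing h, BB_add_right, BB_smul_right, BB_smul_right] at h1
      linear_combination h1
    have e1 : a₁ = 0 := by
      have := hQ w₁
      rw [h11, h12] at this
      linear_combination this
    have e2 : b₂ = 0 := by
      have := hQ w₂
      rw [h21, h22] at this
      linear_combination this
    have e3 : b₁ = -a₂ := by
      have := hQ (w₁ + w₂)
      rw [BB_add_left, BB_add_left, h11, h12, h21, h22, e1, e2] at this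
      linear_combination this
    refine ⟨a₂, ?_⟩
    apply LinearMap.ext
    intro v
    rw [hform v, e1, e2, e3, LinearMap.add_apply, LinearMap.smul_apply, mkX_apply]
    simp only [Module.End.one_apply, smul_sub, smul_smul, mul_zero, zero_add, add_zero, mul_neg,
      neg_smul]
    rw [mul_comm (BB v r) a₂, mul_comm (BB v p) a₂]
    abel
  · rintro ⟨c, hc⟩ v hv1 hv2
    rw [hc, LinearMap.add_apply, LinearMap.smul_apply, mkX_apply, hv1, hv2]
    simp

end Cfsg.Agent.Lib.H85OFix
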