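import Cfsg.Agent.Lib.H85ODefs

set_option autoImplicit false
set_option linter.unusedSectionVars false

namespace Cfsg.Agent.Lib.H85OForm

open Matrix Cfsg Cfsg.Agent.Lib.Helper85LRDefs Cfsg.Agent.Lib.H85ODefs

variable {F : Type*} [Field F] {m : ℕ}

/-! PIECE O.Form: API of the polar form `BB` of `quadFormPlus`. -/

theorem BB_eq (u v : V F m) : BB u v = u ⬝ᵥ (v ∘ Sum.swap) := by
  unfold BB QQ Cfsg.quadFormPlus dotProduct
  rw [Fintype.sum_sum_type, ← Finset.sum_sub_distrib, ← Finset.sum_sub_distrib, ← Finset.sum_add_distrib]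
  apply Finset.sum_congr rfl
  intro i _
  simp only [Pi.add_apply, Function.comp_apply, Sum.swap_inl, Sum.swap_inr]
  ring

theorem BB_comm (u v : V F m) : BB u v = BB v u := by
  unfold BB
  rw [add_comm u v]
  ring

theorem BB_add_left (u u' v : V F m) : BB (u + u') v = BB u v + BB u' v := by
  rw [BB_eq, BB_eq, BB_eq, add_dotProduct]

theorem BB_smul_left (a : F) (u v : V F m) : BB (a • u) v = a * BB u v := by
  rw [BB_eq, BB_eq, smul_dotProduct, smul_eq_mul]

theorem BB_add_right (u v v' : V F m) : BB u (v + v') = BB u v + BB u v' := by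
  rw [BB_comm, BB_add_left, BB_comm v, BB_comm v']

theorem BB_smul_right (a : F) (u v : V F m) : BB u (a • v) = a * BB u v := by
  rw [BB_comm, BB_smul_left, BB_comm v]

theorem BB_sub_left (u u' v : V F m) : BB (u - u') v = BB u v - BB u' v := by
  rw [BB_eq, BB_eq, BB_eq, sub_dotProduct]

theorem BB_sub_right (u v v' : V F m) : BB u (v - v') = BB u v - BB u v' := by
  rw [BB_comm, BB_sub_left, BB_comm v, BB_comm v']

theorem QQ_add (u v : V F m) : QQ (u + v) = QQ u + QQ v + BB u v := by
  unfold BB
  ring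

theorem QQ_smul (a : F) (u : V F m) : QQ (a • u) = a ^ 2 * QQ u := by
  unfold QQ Cfsg.quadFormPlus
  rw [Finset.mul_sum]
  apply Finset.sum_congr rfl
  intro i _
  simp only [Pi.smul_apply, smul_eq_mul]
  ring

theorem BB_self (u : V F m) : BB u u = 2 * QQ u := by
  have h : u + u = (2 : F) • u := by rw [two_smul]
  unfold BB
  rw [h, QQ_smul]
  ring

theorem BB_ee (v : V F m) (i : II m) : BB v (ee i) = v (Sum.swap i) := by
  rw [BB_eq]
  have : ((ee i : V F m) ∘ Sum.swap) = Pi.single (Sum.swap i) 1 := by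
    funext j
    unfold ee
    simp only [Function.comp_apply, Pi.single_apply]
    by_cases h : j = Sum.swap i
    · subst h; simp
    · have : Sum.swap j ≠ i := by
        intro e; apply h; rw [← e, Sum.swap_swap]
      simp [h, this]
  rw [this, dotProduct_single, mul_one]

theorem QQ_ee (i : II m) : QQ (ee i : V F m) = 0 := by
  unfold QQ Cfsg.quadFormPlus ee
  apply Finset.sum_eq_zero
  intro j _
  rcases i with i | i
  · simp
  · simp

theorem nondeg {v : V F m} (h : ∀ w, BB v w = 0) : v = 0 := by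
  funext i
  have := h (ee (Sum.swap i))
  rw [BB_ee, Sum.swap_swap] at this
  exact this

theorem mkX_apply (p r v : V F m) : mkX p r v = BB v p • r - BB v r • p := by
  unfold mkX
  rw [Matrix.toLin'_apply, Matrix.sub_mulVec, Matrix.vecMulVec_mulVec, Matrix.vecMulVec_mulVec, BB_eq, BB_eq,
    dotProduct_comm v, dotProduct_comm v]
  funext i
  simp [mul_comm]

/-- consequences of `SL p r`. -/
theorem SL.perp {p r : V F m} (h : SL p r) : BB p r = 0 := by
  unfold BB
  rw [h.2.2.2, h.2.1, h.2.2.1]
  ring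

/-- every vector of a singular line is singular. -/
theorem SL.sing {p r : V F m} (h : SL p r) (a b : F) : QQ (a • p + b • r) = 0 := by
  rw [QQ_add, QQ_smul, QQ_smul, BB_smul_left, BB_smul_right, SL.perp h, h.2.1, h.2.2.1]
  ring

end Cfsg.Agent.Lib.H85OForm
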