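import Cfsg.Agent.Lib.H85OFix
import Cfsg.Agent.Lib.H85OCalc

set_option autoImplicit false
set_option linter.unusedSectionVars false

namespace Cfsg.Agent.Lib.H85OIs

open Matrix Cfsg Cfsg.Agent.Lib.Helper85LRDefs Cfsg.Agent.Lib.H85ODefs Cfsg.Agent.Lib.H85OForm

variable (F : Type*) [Field F] (m : ℕ)

/-- PIECE O.Is. -/
theorem is_closure {p r : V F m} (h : SL p r) : Is (rho F m)
    (Subgroup.closure {σ : OG F m | ∀ v : V F m, BB v p = 0 → BB v r = 0 →
      ((σ : Matrix.GeneralLinearGroup (Fin (m + 3) ⊕ Fin (m + 3)) F) : Matrix (II m) (II m) F) *ᵥ v = v}) (mkX p r) := by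
  have hsq := H85OCalc.sq h
  intro g
  constructor
  · intro hg
    induction hg using Subgroup.closure_induction with
    | mem x hx => exact (H85OFix.fix_iff h x).1 hx
    | one => exact ⟨0, by rw [map_one, zero_smul, add_zero]; rfl⟩
    | mul a b _ _ ha hb =>
      obtain ⟨c, hc⟩ := ha
      obtain ⟨c', hc'⟩ := hb
      refine ⟨c + c', ?_⟩
      rw [map_mul, Units.val_mul, hc, hc', add_mul, one_mul, mul_add, mul_one, smul_mul_assoc,
        mul_smul_comm, hsq, smul_zero, smul_zero, add_smul]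
      abel
    | inv a _ ha =>
      obtain ⟨c, hc⟩ := ha
      refine ⟨-c, ?_⟩
      have e1 : ((rho F m a : LinearMap.GeneralLinearGroup F (V F m)) : Module.End F (V F m)) *
          (1 + (-c) • mkX p r) = 1 := by
        rw [hc, add_mul, one_mul, mul_add, mul_one, smul_mul_assoc, mul_smul_comm, hsq, smul_zero,
          smul_zero]
        module
      have e2 : ((rho F m a⁻¹ : LinearMap.GeneralLinearGroup F (V F m)) : Module.End F (V F m)) *
          ((rho F m a : LinearMap.GeneralLinearGroup F (V F m)) : Module.End F (V F m)) = 1 := by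
        rw [← Units.val_mul, ← map_mul, inv_mul_cancel, map_one]
        rfl
      calc ((rho F m a⁻¹ : LinearMap.GeneralLinearGroup F (V F m)) : Module.End F (V F m))
          = ((rho F m a⁻¹ : LinearMap.GeneralLinearGroup F (V F m)) : Module.End F (V F m)) *
            (((rho F m a : LinearMap.GeneralLinearGroup F (V F m)) : Module.End F (V F m)) *
              (1 + (-c) • mkX p r)) := by rw [e1, mul_one]
        _ = 1 + (-c) • mkX p r := by rw [← mul_assoc, e2, one_mul]
  · intro hg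
    exact Subgroup.subset_closure ((H85OFix.fix_iff h g).2 hg)

/-- rescaling -/
theorem is_smul {A : Subgroup (OG F m)} {X : Module.End F (V F m)} (h : Is (rho F m) A X) (c : F)
    (hc : c ≠ 0) : Is (rho F m) A (c • X) := by
  intro g
  rw [h g]
  constructor
  · rintro ⟨c', hc'⟩
    exact ⟨c' / c, by rw [hc', smul_smul, div_mul_cancel₀ _ hc]⟩
  · rintro ⟨c', hc'⟩
    exact ⟨c' * c, by rw [hc', smul_smul]⟩

/-- X = 1 • mkX p r. -/
theorem mem : ∀ A ∈ SS F m, ∃ X ∈ XX F m, Is (rho F m) A X := by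
  rintro A ⟨p, r, h1, h2, h3, h4, rfl⟩
  have h : SL p r := ⟨h1, h2, h3, h4⟩
  exact ⟨mkX p r, ⟨p, r, h, 1, one_ne_zero, (one_smul _ _).symm⟩, is_closure F m h⟩

theorem ex : ∀ X ∈ XX F m, ∃ A ∈ SS F m, Is (rho F m) A X := by
  rintro X ⟨p, r, h, c, hc, rfl⟩
  exact ⟨_, ⟨p, r, h.1, h.2.1, h.2.2.1, h.2.2.2, rfl⟩, is_smul F m (is_closure F m h) c hc⟩

end Cfsg.Agent.Lib.H85OIs
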