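import Cfsg.Agent.Lib.H85ORk1

set_option autoImplicit false
set_option linter.unusedSectionVars false

namespace Cfsg.Agent.Lib.H85OLrd

open Matrix Cfsg Cfsg.Agent.Lib.Helper85LRDefs Cfsg.Agent.Lib.H85ODefs Cfsg.Agent.Lib.H85OForm

section aux

private theorem ring_aux1 {R : Type*} [Ring R] {A B : R} (h : A * -B = -B * A) : A * B = B * A := by
  rw [mul_neg, neg_mul] at h
  exact neg_injective h

private theorem ring_aux2 {R : Type*} [Ring R] (A B : R) :
    A * -B - -B * A = -(A * B - B * A) := by
  rw [mul_neg, neg_mul]; abel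

private theorem ring_aux3 {R : Type*} [Ring R] {A B : R} (h : -A * B = B * -A) : A * B = B * A := by
  rw [mul_neg, neg_mul] at h
  exact neg_injective h

private theorem ring_aux4 {R : Type*} [Ring R] (A B : R) :
    -A * B - B * -A = -(A * B - B * A) := by
  rw [mul_neg, neg_mul]; abel

variable {F : Type*} [Field F] {m : ℕ}

local notation "EE" => Module.End F (V F m)

/-- commuting, or the commutator is a multiple of some `mkX u u'`. -/
private def Gd (A B : EE) : Prop :=
  A * B = B * A ∨ ∃ u u' : V F m, SL u u' ∧ ∃ e : F, e ≠ 0 ∧ A * B - B * A = e • mkX u u'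

private theorem Gd_neg_right {A B : EE} (h : Gd A (-B)) : Gd A B := by
  rcases h with h | ⟨u, u', hs, e, he, h⟩
  · left
    exact ring_aux1 h
  · right
    refine ⟨u, u', hs, -e, neg_ne_zero.2 he, ?_⟩
    have h2 : A * -B - -B * A = -(A * B - B * A) := ring_aux2 A B
    linear_combination (norm := module) (-1 : F) • h + h2

private theorem Gd_neg_left {A B : EE} (h : Gd (-A) B) : Gd A B := by
  rcases h with h | ⟨u, u', hs, e, he, h⟩
  · left
    exact ring_aux3 h
  · right
    refine ⟨u, u', hs, -e, neg_ne_zero.2 he, ?_⟩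
    have h2 : -A * B - B * -A = -(A * B - B * A) := ring_aux4 A B
    linear_combination (norm := module) (-1 : F) • h + h2

private theorem gd {p r p' r' : V F m} (h : SL p r) (h' : SL p' r')
    (hdet : BB p r' * BB r p' - BB p p' * BB r r' = 0) : Gd (mkX p r) (mkX p' r') := by
  by_cases ha : BB p p' = 0
  · by_cases hb : BB p r' = 0
    · by_cases hc : BB r p' = 0
      · by_cases hd : BB r r' = 0
        · left
          have e1 : mkX p r * mkX p' r' = 0 := by
            apply LinearMap.ext
            intro v
            rw [H85OCalc.mul_apply, BB_comm r' p, BB_comm p' p, BB_comm r' r, BB_comm p' r, ha, hb,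
              hc, hd]
            simp
          have e2 : mkX p' r' * mkX p r = 0 := by
            apply LinearMap.ext
            intro v
            rw [H85OCalc.mul_apply, ha, hb, hc, hd]
            simp
          rw [e1, e2]
        · apply Gd_neg_left
          apply Gd_neg_right
          rw [← H85OCalc.swap, ← H85OCalc.swap]
          exact H85ORk1.rank_one (H85OCalc.SL_swap h) (H85OCalc.SL_swap h')
            (by linear_combination -hdet) hd
      · apply Gd_neg_left
        rw [← H85OCalc.swap]
        exact H85ORk1.rank_one (H85OCalc.SL_swap h) h' (by linear_combination hdet) hc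
    · apply Gd_neg_right
      rw [← H85OCalc.swap]
      exact H85ORk1.rank_one h (H85OCalc.SL_swap h') (by linear_combination hdet) hb
  · exact H85ORk1.rank_one h h' (by linear_combination -hdet) ha

end aux

variable (F : Type*) [Field F] (m : ℕ)

theorem lrd : LRD (XX F m) := by
  refine ⟨?_, ?_, ?_, ?_⟩
  · rintro X ⟨p, r, h, c, hc, rfl⟩
    rw [smul_mul_smul_comm, H85OCalc.sq h, smul_zero]
  · rintro X ⟨p, r, h, c, hc, rfl⟩
    exact smul_ne_zero hc (H85OCalc.ne_zero h)
  · rintro X ⟨p, r, h, c, hc, rfl⟩ c' hc'
    exact ⟨p, r, h, c' * c, mul_ne_zero hc' hc, by rw [smul_smul]⟩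
  · rintro X ⟨p, r, h, x, hx, rfl⟩ Y ⟨p', r', h', y, hy, rfl⟩
    have t1 := H85OCalc.triple h p' r'
    have t2 := H85OCalc.triple h' p r
    rw [BB_comm p' r, BB_comm r' p, BB_comm p' p, BB_comm r' r, mul_comm (BB r p')] at t2
    set δ := BB p r' * BB r p' - BB p p' * BB r r' with hδ
    have s1 : x • mkX p r * y • mkX p' r' * x • mkX p r = (x * y * δ) • (x • mkX p r) := by
      rw [smul_mul_smul_comm, smul_mul_smul_comm, t1, smul_smul, smul_smul]
      congr 1; ring
    have s2 : y • mkX p' r' * x • mkX p r * y • mkX p' r' = (x * y * δ) • (y • mkX p' r') := by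
      rw [smul_mul_smul_comm, smul_mul_smul_comm, t2, smul_smul, smul_smul]
      congr 1; ring
    by_cases hd : δ = 0
    · rcases gd h h' hd with hg | ⟨u, u', hs, e, he, hg⟩
      · left
        unfold TyC
        rw [smul_mul_smul_comm, smul_mul_smul_comm, hg, mul_comm x y]
      · right; right
        refine ⟨by rw [s1, hd, mul_zero, zero_smul], by rw [s2, hd, mul_zero, zero_smul],
          u, u', hs, x * y * e, mul_ne_zero (mul_ne_zero hx hy) he, ?_⟩
        rw [smul_mul_smul_comm, smul_mul_smul_comm, mul_comm y x]
        linear_combination (norm := module) (x * y) • hg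
    · right; left
      exact ⟨x * y * δ, mul_ne_zero (mul_ne_zero hx hy) hd, s1, s2⟩

end Cfsg.Agent.Lib.H85OLrd
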