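import Cfsg.Agent.Lib.H85ODual
import Cfsg.Agent.Lib.H85OCalc

set_option autoImplicit false
set_option linter.unusedSectionVars false

namespace Cfsg.Agent.Lib.H85OOpp

open Matrix Cfsg Cfsg.Agent.Lib.Helper85LRDefs Cfsg.Agent.Lib.H85ODefs Cfsg.Agent.Lib.H85OForm

variable (F : Type*) [Field F] (m : ℕ)

/-- PIECE O.Opp. -/
theorem opp : ∀ X ∈ XX F m, ∃ Y ∈ XX F m, TyR X Y := by
  rintro X ⟨p, r, h, x, hx, rfl⟩
  obtain ⟨w₁, w₂, h11, h12, h21, h22⟩ := H85ODual.exists_dual h.1
  have hpr : BB p r = 0 := SL.perp h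
  have hrp : BB r p = 0 := by rw [BB_comm]; exact hpr
  have hpp : BB p p = 0 := by rw [BB_self, h.2.1, mul_zero]
  have hrr : BB r r = 0 := by rw [BB_self, h.2.2.1, mul_zero]
  have k11 : BB p w₁ = 1 := by rw [BB_comm]; exact h11
  have k12 : BB r w₁ = 0 := by rw [BB_comm]; exact h12
  have k21 : BB p w₂ = 0 := by rw [BB_comm]; exact h21
  have k22 : BB r w₂ = 1 := by rw [BB_comm]; exact h22
  set ps : V F m := w₁ + ((-QQ w₁) • p + (-BB w₁ w₂) • r) with hps
  set rs : V F m := w₂ + ((0 : F) • p + (-QQ w₂) • r) with hrs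
  have Qps : QQ ps = 0 := by
    rw [hps, QQ_add, SL.sing h, BB_add_right, BB_smul_right, BB_smul_right, h11, h12]
    ring
  have Qrs : QQ rs = 0 := by
    rw [hrs, QQ_add, SL.sing h, BB_add_right, BB_smul_right, BB_smul_right, h21, h22]
    ring
  have g11 : BB p ps = 1 := by
    rw [hps, BB_add_right, BB_add_right, BB_smul_right, BB_smul_right, k11, hpp, hpr]; ring
  have g12 : BB p rs = 0 := by
    rw [hrs, BB_add_right, BB_add_right, BB_smul_right, BB_smul_right, k21, hpp, hpr]; ring
  have g21 : BB r ps = 0 := by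
    rw [hps, BB_add_right, BB_add_right, BB_smul_right, BB_smul_right, k12, hrp, hrr]; ring
  have g22 : BB r rs = 1 := by
    rw [hrs, BB_add_right, BB_add_right, BB_smul_right, BB_smul_right, k22, hrp, hrr]; ring
  have Bsr : BB ps rs = 0 := by
    have e1 : BB w₁ rs = BB w₁ w₂ := by
      rw [hrs, BB_add_right, BB_add_right, BB_smul_right, BB_smul_right, h11, h12]; ring
    rw [hps, BB_add_left, BB_add_left, BB_smul_left, BB_smul_left, g12, g22, e1]
    ring
  have hSL : SL ps rs := by
    refine ⟨?_, Qps, Qrs, by rw [QQ_add, Qps, Qrs, Bsr]; ring⟩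
    rw [LinearIndependent.pair_iff]
    intro s t hst
    have e1 : BB p (s • ps + t • rs) = s := by
      rw [BB_add_right, BB_smul_right, BB_smul_right, g11, g12]; ring
    have e2 : BB r (s • ps + t • rs) = t := by
      rw [BB_add_right, BB_smul_right, BB_smul_right, g21, g22]; ring
    have z : ∀ u : V F m, BB u (0 : V F m) = 0 := by
      intro u
      have := BB_smul_right (0 : F) u (0 : V F m)
      rwa [zero_smul, zero_mul] at this
    rw [hst, z] at e1 e2
    exact ⟨e1.symm, e2.symm⟩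
  refine ⟨mkX ps rs, ⟨ps, rs, hSL, 1, one_ne_zero, (one_smul _ _).symm⟩, -x, neg_ne_zero.2 hx, ?_, ?_⟩
  · have := H85OCalc.triple h ps rs
    rw [g12, g21, g11, g22] at this
    rw [smul_mul_assoc, mul_smul_comm, smul_mul_assoc, this]
    simp only [smul_smul]
    congr 1
    ring
  · have := H85OCalc.triple hSL p r
    rw [BB_comm ps r, BB_comm rs p, BB_comm ps p, BB_comm rs r, g12, g21, g11, g22] at this
    rw [mul_smul_comm, smul_mul_assoc, this]
    simp only [smul_smul]
    congr 1
    ring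

end Cfsg.Agent.Lib.H85OOpp
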