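import Cfsg.Agent.Lib.H85OCalc

set_option autoImplicit false
set_option linter.unusedSectionVars false

namespace Cfsg.Agent.Lib.H85ORk1

open Matrix Cfsg Cfsg.Agent.Lib.Helper85LRDefs Cfsg.Agent.Lib.H85ODefs Cfsg.Agent.Lib.H85OForm

variable {F : Type*} [Field F] {m : ℕ}

theorem comm_eq {p r p' r' : V F m} (hdet : BB p p' * BB r r' = BB p r' * BB r p') (ha : BB p p' ≠ 0) :
    mkX p r * mkX p' r' - mkX p' r' * mkX p r =
      (BB p p')⁻¹ • mkX (BB r p' • p - BB p p' • r) (BB p r' • p' - BB p p' • r') := by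
  apply LinearMap.ext
  intro v
  rw [LinearMap.sub_apply, LinearMap.smul_apply, H85OCalc.mul_apply, H85OCalc.mul_apply, mkX_apply,
    BB_sub_right, BB_sub_right, BB_smul_right, BB_smul_right, BB_smul_right, BB_smul_right,
    BB_comm r' p, BB_comm p' p, BB_comm r' r, BB_comm p' r]
  rw [eq_inv_smul_iff₀ ha]
  linear_combination (norm := module) (- BB v p') • hdet • p + (BB v p) • hdet • p'

private theorem mkX_eq_zero_of_dep {u u' : V F m} (h : ¬ LinearIndependent F ![u, u']) :
    mkX u u' = 0 := by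
  rw [LinearIndependent.pair_iff] at h
  push Not at h
  obtain ⟨s, t, hst, hne⟩ := h
  apply LinearMap.ext
  intro v
  rw [mkX_apply, LinearMap.zero_apply]
  by_cases ht : t = 0
  · have hs : s ≠ 0 := fun hs => hne hs ht
    rw [ht, zero_smul, add_zero] at hst
    have hu : u = 0 := (smul_eq_zero.1 hst).resolve_left hs
    have h0 : BB v (0 : V F m) = 0 := by
      have := BB_smul_right (0 : F) v (0 : V F m)
      rwa [zero_smul, zero_mul] at this
    rw [hu, h0, zero_smul, smul_zero, sub_zero]
  · have hu' : u' = (-(t⁻¹ * s)) • u := by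
      have h1 : t • u' = -(s • u) := by
        rw [eq_neg_iff_add_eq_zero, add_comm]; exact hst
      have h2 : u' = t⁻¹ • (t • u') := by rw [smul_smul, inv_mul_cancel₀ ht, one_smul]
      rw [h2, h1, smul_neg, smul_smul, neg_smul]
    rw [hu', BB_smul_right, smul_smul, mul_comm, sub_self]

theorem rank_one {p r p' r' : V F m} (h : SL p r) (h' : SL p' r')
    (hdet : BB p p' * BB r r' = BB p r' * BB r p') (ha : BB p p' ≠ 0) :
    mkX p r * mkX p' r' = mkX p' r' * mkX p r ∨
      ∃ u u' : V F m, SL u u' ∧ ∃ e : F, e ≠ 0 ∧ mkX p r * mkX p' r' - mkX p' r' * mkX p r = e • mkX u u' := by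
  have hc := comm_eq hdet ha
  set u := BB r p' • p - BB p p' • r with hu
  set u' := BB p r' • p' - BB p p' • r' with hu'
  by_cases hli : LinearIndependent F ![u, u']
  · right
    have hQu : QQ u = 0 := by
      have := SL.sing h (BB r p') (-(BB p p'))
      rwa [neg_smul, ← sub_eq_add_neg] at this
    have hQu' : QQ u' = 0 := by
      have := SL.sing h' (BB p r') (-(BB p p'))
      rwa [neg_smul, ← sub_eq_add_neg] at this
    have hB : BB u u' = 0 := by
      rw [hu, hu', BB_sub_left, BB_sub_right, BB_sub_right, BB_smul_left, BB_smul_left,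
        BB_smul_left, BB_smul_left, BB_smul_right, BB_smul_right, BB_smul_right, BB_smul_right]
      linear_combination (BB p p') * hdet
    refine ⟨u, u', ⟨hli, hQu, hQu', ?_⟩, (BB p p')⁻¹, inv_ne_zero ha, hc⟩
    rw [QQ_add, hQu, hQu', hB]; ring
  · left
    rw [mkX_eq_zero_of_dep hli, smul_zero] at hc
    exact sub_eq_zero.1 hc

end Cfsg.Agent.Lib.H85ORk1
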