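import Cfsg.Agent.Lib.H85OCalc

set_option autoImplicit false
set_option linter.unusedSectionVars false

namespace Cfsg.Agent.Lib.H85OStep

open Matrix Cfsg Cfsg.Agent.Lib.Helper85LRDefs Cfsg.Agent.Lib.H85ODefs Cfsg.Agent.Lib.H85OForm

variable (F : Type*) [Field F] (m : ℕ)

private theorem BB_ee_ee {F : Type*} [Field F] {m : ℕ} (a b : II m) :
    BB (ee a : V F m) (ee b) = if Sum.swap b = a then 1 else 0 := by
  rw [BB_ee, ee, Pi.single_apply]

private theorem swap_ne {α : Type*} {a b : α ⊕ α} (h : a ≠ Sum.swap b) : Sum.swap a ≠ b := by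
  intro h'
  apply h
  rw [← h', Sum.swap_swap]

theorem good_mem {i j : II m} (h : Good m i j) : mkX (ee i) (ee j) ∈ XX F m := by
  refine ⟨ee i, ee j, ⟨?_, QQ_ee i, QQ_ee j, ?_⟩, 1, one_ne_zero, (one_smul _ _).symm⟩
  · rw [LinearIndependent.pair_iff]
    intro s t hst
    have h1 := congrFun hst i
    have h2 := congrFun hst j
    simp only [ee, Pi.add_apply, Pi.smul_apply, Pi.single_apply, smul_eq_mul, Pi.zero_apply] at h1 h2
    rw [if_neg h.1] at h1
    rw [if_neg h.1.symm] at h2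
    constructor
    · simpa using h1
    · simpa using h2
  · rw [QQ_add, QQ_ee, QQ_ee, BB_ee_ee, if_neg (swap_ne h.2)]
    ring

theorem step {i j j' : II m} (h : Good m i j) (h' : Good m (Sum.swap i) j') (hj : j' ≠ j) :
    NAdj F m (mkX (ee i) (ee j)) (mkX (ee (Sum.swap i)) (ee j')) := by
  refine ⟨good_mem F m h, good_mem F m h', ?_⟩
  intro hc
  have hji : j' ≠ i := by
    have := h'.2
    rwa [Sum.swap_swap] at this
  have h1 := congrArg (fun f : Module.End F (V F m) => f (ee (Sum.swap j')) j) hc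
  simp only [H85OCalc.mul_apply, BB_ee_ee, Sum.swap_swap] at h1
  have f1 : ¬ (i = Sum.swap j') := fun e => h'.1 (by rw [e, Sum.swap_swap])
  have f2 : ¬ (Sum.swap j = Sum.swap i) := fun e => h.1 (Sum.swap_leftInverse.injective e).symm
  have f3 : ¬ (Sum.swap i = Sum.swap j') := fun e => hji (Sum.swap_leftInverse.injective e).symm
  have f4 : ¬ (Sum.swap j = Sum.swap j') := fun e => hj (Sum.swap_leftInverse.injective e).symm
  simp [f1, f2, f3, f4, ee] at h1

theorem nadj_symm {X Y : Module.End F (V F m)} (h : NAdj F m X Y) : NAdj F m Y X :=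
  ⟨h.2.1, h.1, fun hc => h.2.2 hc.symm⟩

private theorem ring_aux {R : Type*} [Ring R] {A B : R} (h : -A * B = B * -A) : A * B = B * A := by
  rw [mul_neg, neg_mul] at h
  exact neg_injective h

theorem nadj_swap {i j : II m} {Z : Module.End F (V F m)} (h : NAdj F m (mkX (ee i) (ee j)) Z) :
    NAdj F m (mkX (ee j) (ee i)) Z := by
  obtain ⟨⟨p, r, hs, c, hc, he⟩, hZ, hn⟩ := h
  refine ⟨⟨p, r, hs, -c, neg_ne_zero.2 hc, ?_⟩, hZ, ?_⟩
  · rw [H85OCalc.swap, he]
    module
  · intro hcom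
    apply hn
    unfold TyC at hcom ⊢
    rw [H85OCalc.swap] at hcom
    exact ring_aux hcom

end Cfsg.Agent.Lib.H85OStep
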