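import Cfsg.Agent.Lib.H85SUDefs
import Cfsg.Agent.Lib.Helper17SUPrim

set_option autoImplicit false
set_option linter.unusedSectionVars false

namespace Cfsg.Agent.Lib.H85SUAct

open Matrix Cfsg Cfsg.Agent.Lib.Helper85LRDefs Cfsg.Agent.Lib.H85SUDefs

variable {F : Type*} [Field F] [Fintype F] {q : ℕ} (n : ℕ) (hF : Fintype.card F = q ^ 2)
variable {L : Type} [Field L] [Algebra L F] (hL : IsFix F q L)

include hF hL

/-- PIECE SU.Act.  Unitary transvections lie in SU: on main `Cfsg.Agent.Lib.Helper17SUPrim.TSU hF v z hv hz` with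
`Th_TSU : Th n F q (TSU hF v z hv hz) x = x + (z * H x v) • v`. -/
theorem surj : ∀ X ∈ XX F q n L, ∃ g : SUn F q n,
    ((rho F q n L g : LinearMap.GeneralLinearGroup L (V F n)) : Module.End L (V F n)) = 1 + X := by
  rintro X ⟨p, hp, hpp, c, hc0, hc, hX⟩
  have hz : c + Cfsg.Agent.Lib.Helper17HermC.sig hF c = 0 := by
    rw [Cfsg.Agent.Lib.Helper17HermC.sig_apply]; exact hc
  refine ⟨Cfsg.Agent.Lib.Helper17SUPrim.TSU hF p c hpp hz, ?_⟩
  apply LinearMap.ext
  intro v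
  rw [rho_apply, LinearMap.add_apply, Module.End.one_apply, hX]
  exact Cfsg.Agent.Lib.Helper17SUPrim.Th_TSU hF p c hpp hz v

/-- `g X_p g⁻¹ = X_{g p}` because `g` preserves `h` (membership in `Cfsg.SU` = `Cfsg.preserving ..` unfolds to this). -/
theorem conj : ∀ g : SUn F q n, ∀ X ∈ XX F q n L,
    ((rho F q n L g : LinearMap.GeneralLinearGroup L (V F n)) : Module.End L (V F n)) * X *
      ((rho F q n L g⁻¹ : LinearMap.GeneralLinearGroup L (V F n)) : Module.End L (V F n)) ∈ XX F q n L := by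
  rintro g X ⟨p, hp, hpp, c, hc0, hc, hX⟩
  refine ⟨Cfsg.Agent.S0780.Th (n + 2) F q g p, ?_, ?_, c, hc0, hc, ?_⟩
  · intro h
    apply hp
    have := Cfsg.Agent.Lib.Helper17SUPrim.Th_inv_apply g p
    rw [h, map_zero] at this
    exact this.symm
  · rw [Cfsg.Agent.Lib.Helper17SUPrim.Th_isom, hpp]
  · intro v
    rw [Module.End.mul_apply, Module.End.mul_apply, hX, rho_apply, rho_apply, Matrix.mulVec_smul]
    have h1 : Cfsg.hermForm (n + 2) F q
        (((g⁻¹ : SUn F q n) : Matrix.SpecialLinearGroup (Fin (n + 2)) F).1 *ᵥ v) p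
        = Cfsg.hermForm (n + 2) F q v (Cfsg.Agent.S0780.Th (n + 2) F q g p) := by
      have h2 := Cfsg.Agent.Lib.Helper17SUPrim.Th_isom g (Cfsg.Agent.S0780.Th (n + 2) F q g⁻¹ v) p
      rw [Cfsg.Agent.Lib.Helper17SUPrim.Th_apply_inv] at h2
      exact h2.symm
    rw [h1]
    rfl

end Cfsg.Agent.Lib.H85SUAct
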