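import Cfsg.Agent.Lib.H85SUDefs
import Cfsg.Agent.Lib.Helper17SUPrim
import Cfsg.Agent.Lib.Helper95SUStd

set_option autoImplicit false
set_option linter.unusedSectionVars false

namespace Cfsg.Agent.Lib.H85SUConn

open Matrix Cfsg Cfsg.Agent.Lib.Helper85LRDefs Cfsg.Agent.Lib.H85SUDefs
open Cfsg.Agent.Lib.Helper95Herm Cfsg.Agent.Lib.Helper95SUStd

variable {F : Type*} [Field F] [Fintype F] {q : ℕ} (n : ℕ) (hF : Fintype.card F = q ^ 2)
variable {L : Type} [Field L] [Algebra L F] (hL : IsFix F q L)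

include hF in
private lemma comp_apply {X Y : Module.End L (V F n)} {p r : V F n} {c d : F}
    (hX : ∀ v, X v = (c * Cfsg.hermForm (n + 2) F q v p) • p)
    (hY : ∀ v, Y v = (d * Cfsg.hermForm (n + 2) F q v r) • r) (v : V F n) :
    X (Y v) = (c * d * Cfsg.hermForm (n + 2) F q r p * Cfsg.hermForm (n + 2) F q v r) • p := by
  rw [hX, hY, (herm_std hF (n + 2)).smul_left]
  congr 1
  ring

include hF hL in
private lemma tyR_of_not_perp {X Y : Module.End L (V F n)} {p r : V F n} {c d : F}
    (hc : c ≠ 0) (hcq : c + c ^ q = 0) (hd : d ≠ 0) (hdq : d + d ^ q = 0)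
    (hX : ∀ v, X v = (c * Cfsg.hermForm (n + 2) F q v p) • p)
    (hY : ∀ v, Y v = (d * Cfsg.hermForm (n + 2) F q v r) • r)
    (h0 : Cfsg.hermForm (n + 2) F q p r ≠ 0) : TyR X Y := by
  have hh := herm_std hF (n + 2)
  have h0' := hh.swap_ne h0
  set a := Cfsg.hermForm (n + 2) F q p r with ha
  set b := Cfsg.hermForm (n + 2) F q r p with hb
  have hab : a ^ q = b := by
    have := hh.herm r p
    rw [sig_apply] at this
    exact this.symm
  have hba : b ^ q = a := by
    have := hh.herm p r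
    rw [sig_apply] at this
    exact this.symm
  have hlam : (c * d * a * b) ^ q = c * d * a * b := by
    rw [mul_pow, mul_pow, mul_pow, hab, hba]
    have h1 : c ^ q = -c := by linear_combination hcq
    have h2 : d ^ q = -d := by linear_combination hdq
    rw [h1, h2]
    ring
  obtain ⟨l, hl⟩ := (hL _).mp hlam
  have hl0 : l ≠ 0 := by
    rintro rfl
    rw [map_zero] at hl
    exact (mul_ne_zero (mul_ne_zero (mul_ne_zero hc hd) h0) h0') hl.symm
  refine ⟨l, hl0, ?_, ?_⟩
  · refine LinearMap.ext fun v => ?_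
    rw [Module.End.mul_apply, Module.End.mul_apply, comp_apply n hF hX hY, LinearMap.smul_apply,
      ← algebraMap_smul F l (X v), hl, hX v, hh.smul_left, smul_smul]
    congr 1
    rw [← ha, ← hb]
    ring
  · refine LinearMap.ext fun v => ?_
    rw [Module.End.mul_apply, Module.End.mul_apply, comp_apply n hF hY hX, LinearMap.smul_apply,
      ← algebraMap_smul F l (Y v), hl, hY v, hh.smul_left, smul_smul]
    congr 1
    rw [← ha, ← hb]
    ring

include hF hL

/-- PIECE SU.Conn. -/
theorem conn : ∀ X ∈ XX F q n L, ∀ Y ∈ XX F q n L, Relation.ReflTransGen (RAdj (XX F q n L)) X Y := by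
  intro X hXX Y hYY
  have hh := herm_std hF (n + 2)
  obtain ⟨p, hp, hpp, c, hc, hcq, hX⟩ := id hXX
  obtain ⟨r, hr, hrr, d, hd, hdq, hY⟩ := id hYY
  obtain ⟨s, hss, hsp, hsr⟩ := Cfsg.Agent.Lib.Helper17SUPrim.exists_iso_both hh p r hp hr hpp hrr
  have hs : s ≠ 0 := by
    rintro rfl
    exact hsp (hh.zero_left p)
  set Z : Module.End L (V F n) := (((c • hh.fl s).smulRight s).restrictScalars L) with hZdef
  have hZ : ∀ v, Z v = (c * Cfsg.hermForm (n + 2) F q v s) • s := by
    intro v
    simp [hZdef]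
  have hZZ : Z ∈ XX F q n L := ⟨s, hs, hss, c, hc, hcq, hZ⟩
  have h1 : RAdj (XX F q n L) X Z :=
    ⟨hXX, hZZ, tyR_of_not_perp n hF hL hc hcq hc hcq hX hZ (hh.swap_ne hsp)⟩
  have h2 : RAdj (XX F q n L) Z Y :=
    ⟨hZZ, hYY, tyR_of_not_perp n hF hL hc hcq hd hdq hZ hY hsr⟩
  exact Relation.ReflTransGen.tail (Relation.ReflTransGen.single h1) h2

omit hL in
/-- an isotropic vector exists -/
theorem nonempty : (SS F q n).Nonempty := by
  have hh := herm_std hF (n + 2)
  obtain ⟨c, hc⟩ := hh.norm_surj (-1) (by rw [map_neg, map_one])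
  rw [sig_apply] at hc
  set p : V F n := fun i => if i = 0 then 1 else if i = 1 then c else 0 with hp
  have hp0 : p ≠ 0 := by
    intro h0
    have := congrFun h0 0
    simp [hp] at this
  have hpp : Cfsg.hermForm (n + 2) F q p p = 0 := by
    unfold Cfsg.hermForm
    rw [Fin.sum_univ_succ, Fin.sum_univ_succ]
    have h1 : p 0 = 1 := by simp [hp]
    have h2 : p (Fin.succ 0) = c := by
      simp [hp]
    have h3 : ∀ i : Fin n, p (Fin.succ (Fin.succ i)) = 0 := by
      intro i
      have e1 : (Fin.succ (Fin.succ i) : Fin (n + 2)) ≠ 0 := Fin.succ_ne_zero _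
      have e2 : (Fin.succ (Fin.succ i) : Fin (n + 2)) ≠ 1 := by
        intro h
        have := congrArg Fin.val h
        simp at this
      simp only [hp, if_neg e1, if_neg e2]
    rw [h1, h2]
    simp only [h3, zero_mul, Finset.sum_const_zero, add_zero, one_pow, one_mul]
    rw [hc]
    ring
  exact ⟨_, p, hp0, hpp, rfl⟩

end Cfsg.Agent.Lib.H85SUConn
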