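import Cfsg.Agent.Lib.Helper85LRDefs
import Cfsg.Prelude.Def_Classical

/-!
Project 85 (linear root data), instance `SU_{n+2}(q)` (row S5071): vocabulary.
-/

set_option autoImplicit false
set_option linter.unusedSectionVars false

namespace Cfsg.Agent.Lib.H85SUDefs

open Matrix Cfsg Cfsg.Agent.Lib.Helper85LRDefs

variable (F : Type*) [Field F] [Fintype F] (q n : ℕ)

/-- the natural module. -/
abbrev V := Fin (n + 2) → F

/-- the special unitary group. -/
abbrev SUn := ↥(Cfsg.SU (n + 2) F q)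

/-- the coercion to matrices as a homomorphism. -/
def jj : SUn F q n →* Matrix (Fin (n + 2)) (Fin (n + 2)) F where
  toFun g := ((g : Matrix.SpecialLinearGroup (Fin (n + 2)) F) : Matrix (Fin (n + 2)) (Fin (n + 2)) F)
  map_one' := rfl
  map_mul' _ _ := rfl

theorem jj_injective : Function.Injective (jj F q n) := fun _ _ h => Subtype.ext (Subtype.ext h)

/-- the family of the row S5071. -/
def SS : Set (Subgroup (SUn F q n)) :=
  {A : Subgroup ↥(Cfsg.SU (n + 2) F q) | ∃ p : Fin (n + 2) → F, p ≠ 0 ∧ Cfsg.hermForm (n + 2) F q p p = 0 ∧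
          A = Subgroup.closure {g : ↥(Cfsg.SU (n + 2) F q) |
            (∀ v : Fin (n + 2) → F, ∃ c : F, ((g : Matrix.SpecialLinearGroup (Fin (n + 2)) F) : Matrix (Fin (n + 2)) (Fin (n + 2)) F) *ᵥ v = v + c • p) ∧
            ∀ v : Fin (n + 2) → F, Cfsg.hermForm (n + 2) F q v p = 0 →
              ((g : Matrix.SpecialLinearGroup (Fin (n + 2)) F) : Matrix (Fin (n + 2)) (Fin (n + 2)) F) *ᵥ v = v}}

variable (L : Type) [Field L] [Algebra L F]

/-- the natural representation, over the subfield `L`. -/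
def rho : SUn F q n →* LinearMap.GeneralLinearGroup L (V F n) := rhoOf L (jj F q n)

variable {F q n L}

theorem rho_apply (g : SUn F q n) (v : V F n) :
    ((rho F q n L g : LinearMap.GeneralLinearGroup L (V F n)) : Module.End L (V F n)) v =
      ((g : Matrix.SpecialLinearGroup (Fin (n + 2)) F) : Matrix (Fin (n + 2)) (Fin (n + 2)) F) *ᵥ v := rfl

variable (F q n L)

/-- the linear root datum: the `L`-linear maps `v ↦ c h(v, p) p`, `p ≠ 0` isotropic, `c ≠ 0`, `c + c^q = 0`. -/
def XX : Set (Module.End L (V F n)) :=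
  {X | ∃ p : V F n, p ≠ 0 ∧ Cfsg.hermForm (n + 2) F q p p = 0 ∧ ∃ c : F, c ≠ 0 ∧ c + c ^ q = 0 ∧
    ∀ v, X v = (c * Cfsg.hermForm (n + 2) F q v p) • p}

/-- `L` is (a copy of) the subfield of order `q` of `F`. -/
def IsFix : Prop := ∀ x : F, x ^ q = x ↔ ∃ l : L, algebraMap L F l = x

end Cfsg.Agent.Lib.H85SUDefs
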