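import Cfsg.Agent.Lib.H85SUDefs
import Cfsg.Agent.Lib.Helper23FF

set_option autoImplicit false
set_option linter.unusedSectionVars false

namespace Cfsg.Agent.Lib.H85SUField

open Matrix Cfsg Cfsg.Agent.Lib.Helper85LRDefs Cfsg.Agent.Lib.H85SUDefs

variable {F : Type*} [Field F] [Fintype F] {q : ℕ}

/-- PIECE SU.Field (pure Mathlib, finite fields).  `F` has `q²` elements, so `q = p^e` is a prime power (p = char F).  Take
`L = GaloisField p e` (a `Type`); it embeds in `F` (`FiniteField.nonempty_algHom_of_finrank_dvd`).
The image of `L` consists of roots of `X^q - X` (`FiniteField.pow_card`) and has `q` elements, so it is all of them. -/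
theorem exists_L (hF : Fintype.card F = q ^ 2) :
    ∃ (L : Type) (_ : Field L) (_ : Fintype L) (_ : Algebra L F), Fintype.card L = q ∧ IsFix F q L := by
  classical
  set p := ringChar F with hp
  haveI : Fact p.Prime := ⟨CharP.char_is_prime F p⟩
  letI : Algebra (ZMod p) F := ZMod.algebra F p
  obtain ⟨m, hpp, hm⟩ := FiniteField.card F p
  have hq2 : 2 ≤ q := by
    have h1 : 1 < Fintype.card F := Fintype.one_lt_card
    rw [hF] at h1
    by_contra hcon
    have : q ≤ 1 := by omega
    have : q ^ 2 ≤ 1 := by nlinarith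
    omega
  obtain ⟨e, -, he⟩ := (Nat.dvd_prime_pow hpp).mp (show q ∣ p ^ (m : ℕ) by
    rw [← hm, hF]; exact Dvd.intro_left (q ^ 1) (by ring))
  have he0 : e ≠ 0 := by
    rintro rfl
    rw [pow_zero] at he
    omega
  have hme : (m : ℕ) = 2 * e := by
    have h1 : p ^ (m : ℕ) = p ^ (2 * e) := by
      rw [← hm, hF, he]; ring
    exact Nat.pow_right_injective hpp.two_le h1
  have hfF : Module.finrank (ZMod p) F = 2 * e := by
    have h1 := FiniteField.pow_finrank_eq_card p F
    rw [hm, hme] at h1
    exact Nat.pow_right_injective hpp.two_le h1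
  obtain ⟨f⟩ := FiniteField.nonempty_algHom_of_finrank_dvd (F := ZMod p) (K := GaloisField p e) (L := F)
    (by rw [GaloisField.finrank p he0, hfF]; exact Dvd.intro_left 2 rfl)
  letI : Fintype (GaloisField p e) := Fintype.ofFinite _
  have hcard : Fintype.card (GaloisField p e) = q := by
    rw [← Nat.card_eq_fintype_card, GaloisField.card p e he0, he]
  refine ⟨GaloisField p e, inferInstance, inferInstance, f.toRingHom.toAlgebra, hcard, ?_⟩
  have hfix : ∀ l : GaloisField p e, (f l) ^ q = f l := by
    intro l
    rw [← map_pow, ← hcard, FiniteField.pow_card]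
  let φ : GaloisField p e → {a : F // a ^ q = a} := fun l => ⟨f l, hfix l⟩
  have hinj : Function.Injective φ := by
    intro a b hab
    exact f.toRingHom.injective (congrArg Subtype.val hab)
  have hbij : Function.Bijective φ := by
    apply hinj.bijective_of_nat_card_le
    rw [Cfsg.Agent.Lib.Helper23FF.card_fixed hq2 hF, Nat.card_eq_fintype_card, hcard]
  intro x
  constructor
  · intro hx
    obtain ⟨l, hl⟩ := hbij.2 ⟨x, hx⟩
    exact ⟨l, congrArg Subtype.val hl⟩
  · rintro ⟨l, rfl⟩
    exact hfix l

end Cfsg.Agent.Lib.H85SUField
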