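import Cfsg.Agent.Lib.H85SUDefs
import Cfsg.Agent.Lib.Helper95SUStd

set_option autoImplicit false
set_option linter.unusedSectionVars false

namespace Cfsg.Agent.Lib.H85SUIs

open Matrix Cfsg Cfsg.Agent.Lib.Helper85LRDefs Cfsg.Agent.Lib.H85SUDefs
open Cfsg.Agent.Lib.Helper95Herm Cfsg.Agent.Lib.Helper95SUStd

variable {F : Type*} [Field F] [Fintype F] {q : ℕ} (n : ℕ) (hF : Fintype.card F = q ^ 2)
variable {L : Type} [Field L] [Algebra L F] (hL : IsFix F q L)

/-- the transvection property -/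
private def PP (p : V F n) (g : SUn F q n) : Prop :=
  ∃ c : F, c + c ^ q = 0 ∧ ∀ v : V F n, jj F q n g *ᵥ v = v + (c * Cfsg.hermForm (n + 2) F q v p) • p

/-- the generating set in the definition of `SS` -/
private def TT (p : V F n) : Set (SUn F q n) :=
  {g : ↥(Cfsg.SU (n + 2) F q) |
            (∀ v : Fin (n + 2) → F, ∃ c : F, ((g : Matrix.SpecialLinearGroup (Fin (n + 2)) F) : Matrix (Fin (n + 2)) (Fin (n + 2)) F) *ᵥ v = v + c • p) ∧
            ∀ v : Fin (n + 2) → F, Cfsg.hermForm (n + 2) F q v p = 0 →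
              ((g : Matrix.SpecialLinearGroup (Fin (n + 2)) F) : Matrix (Fin (n + 2)) (Fin (n + 2)) F) *ᵥ v = v}

include hF in
private lemma PP_of_TT {p : V F n} (hp : p ≠ 0) (hpp : Cfsg.hermForm (n + 2) F q p p = 0)
    {g : SUn F q n} (hg : g ∈ TT n p) : PP n p g := by
  have hh := herm_std hF (n + 2)
  obtain ⟨h1, h2⟩ := hg
  obtain ⟨w, hwp⟩ : ∃ w : V F n, Cfsg.hermForm (n + 2) F q w p = 1 := by
    obtain ⟨x, hx⟩ := hh.nondeg p hp
    exact ⟨(Cfsg.hermForm (n + 2) F q x p)⁻¹ • x, by rw [hh.smul_left, inv_mul_cancel₀ hx]⟩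
  have hpw : Cfsg.hermForm (n + 2) F q p w = 1 := by
    rw [hh.herm p w, hwp, map_one]
  obtain ⟨c, hc⟩ := h1 w
  change jj F q n g *ᵥ w = w + c • p at hc
  refine ⟨c, ?_, ?_⟩
  · have h3 : Cfsg.hermForm (n + 2) F q (jj F q n g *ᵥ w) (jj F q n g *ᵥ w)
        = Cfsg.hermForm (n + 2) F q w w := g.2 w w
    rw [hc, hh.add_left, hh.add_right, hh.add_right, hh.smul_left, hh.smul_left, hh.smul_right,
      hh.smul_right, hpp, hwp, hpw, sig_apply] at h3
    linear_combination h3
  · intro v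
    have h4 : Cfsg.hermForm (n + 2) F q (v - Cfsg.hermForm (n + 2) F q v p • w) p = 0 := by
      rw [hh.sub_left, hh.smul_left, hwp, mul_one, sub_self]
    have h5 := h2 _ h4
    change jj F q n g *ᵥ _ = _ at h5
    rw [Matrix.mulVec_sub, Matrix.mulVec_smul, hc] at h5
    have h6 : jj F q n g *ᵥ v = (v - Cfsg.hermForm (n + 2) F q v p • w)
        + Cfsg.hermForm (n + 2) F q v p • (w + c • p) := by
      rw [← h5]; abel
    rw [h6]
    module

private lemma TT_of_PP {p : V F n} {g : SUn F q n} (hg : PP n p g) : g ∈ TT n p := by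
  obtain ⟨c, hc, hv⟩ := hg
  refine ⟨fun v => ⟨_, hv v⟩, fun v h0 => ?_⟩
  have := hv v
  rw [h0, mul_zero, zero_smul, add_zero] at this
  exact this

include hF in
private lemma PP_of_closure {p : V F n} (hp : p ≠ 0) (hpp : Cfsg.hermForm (n + 2) F q p p = 0)
    {g : SUn F q n} (hg : g ∈ Subgroup.closure (TT n p)) : PP n p g := by
  have hh := herm_std hF (n + 2)
  induction hg using Subgroup.closure_induction with
  | mem x hx => exact PP_of_TT n hF hp hpp hx
  | one =>
    refine ⟨0, ?_, fun v => ?_⟩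
    · have hq : q ≠ 0 := by
        rintro rfl
        have := Fintype.card_pos (α := F)
        rw [hF] at this
        simp at this
      rw [zero_pow hq, add_zero]
    · rw [map_one, Matrix.one_mulVec, zero_mul, zero_smul, add_zero]
  | mul x y _ _ hx hy =>
    obtain ⟨c1, hc1, h1⟩ := hx
    obtain ⟨c2, hc2, h2⟩ := hy
    refine ⟨c1 + c2, ?_, fun v => ?_⟩
    · have : (c1 + c2) ^ q = c1 ^ q + c2 ^ q := by
        rw [← sig_apply hF, ← sig_apply hF, ← sig_apply hF, map_add]
      rw [this]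
      linear_combination hc1 + hc2
    · rw [map_mul, ← Matrix.mulVec_mulVec, h2, h1, hh.add_left, hh.smul_left, hpp]
      module
  | inv x _ hx =>
    obtain ⟨c, hc, h1⟩ := hx
    refine ⟨-c, ?_, fun v => ?_⟩
    · have : (-c) ^ q = - c ^ q := by
        rw [← sig_apply hF, ← sig_apply hF, map_neg]
      rw [this]
      linear_combination -hc
    · have h2 := h1 (v + (-c * Cfsg.hermForm (n + 2) F q v p) • p)
      rw [hh.add_left, hh.smul_left, hpp, mul_zero, add_zero] at h2
      have h3 : jj F q n x *ᵥ (v + (-c * Cfsg.hermForm (n + 2) F q v p) • p) = v := by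
        rw [h2]; module
      have h4 : jj F q n x⁻¹ *ᵥ (jj F q n x *ᵥ (v + (-c * Cfsg.hermForm (n + 2) F q v p) • p))
          = v + (-c * Cfsg.hermForm (n + 2) F q v p) • p := by
        rw [Matrix.mulVec_mulVec, ← map_mul, inv_mul_cancel, map_one, Matrix.one_mulVec]
      rw [h3] at h4
      exact h4

include hF hL in
private lemma core {p : V F n} (hp : p ≠ 0) (hpp : Cfsg.hermForm (n + 2) F q p p = 0)
    {c₀ : F} (hc₀ : c₀ ≠ 0) (hc₀q : c₀ + c₀ ^ q = 0) {X : Module.End L (V F n)}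
    (hX : ∀ v, X v = (c₀ * Cfsg.hermForm (n + 2) F q v p) • p) :
    Is (rho F q n L) (Subgroup.closure (TT n p)) X := by
  intro g
  constructor
  · intro hg
    obtain ⟨c, hc, hv⟩ := PP_of_closure n hF hp hpp hg
    have hfix : (c / c₀) ^ q = c / c₀ := by
      have h1 : c ^ q = -c := by linear_combination hc
      have h2 : c₀ ^ q = -c₀ := by linear_combination hc₀q
      rw [div_pow, h1, h2, neg_div_neg_eq]
    obtain ⟨l, hl⟩ := (hL _).mp hfix
    refine ⟨l, LinearMap.ext fun v => ?_⟩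
    rw [rho_apply, LinearMap.add_apply, Module.End.one_apply, LinearMap.smul_apply,
      ← algebraMap_smul F l (X v), hl, hX, smul_smul]
    have := hv v
    change _ = _ at this
    rw [show ((g : Matrix.SpecialLinearGroup (Fin (n + 2)) F) :
      Matrix (Fin (n + 2)) (Fin (n + 2)) F) = jj F q n g from rfl, this]
    congr 2
    field_simp
  · rintro ⟨l, hl⟩
    apply Subgroup.subset_closure
    apply TT_of_PP
    have ha : (algebraMap L F l) ^ q = algebraMap L F l := (hL _).mpr ⟨l, rfl⟩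
    refine ⟨algebraMap L F l * c₀, ?_, fun v => ?_⟩
    · rw [mul_pow, ha]
      linear_combination (algebraMap L F l) * hc₀q
    · have h1 := LinearMap.congr_fun hl v
      rw [rho_apply, LinearMap.add_apply, Module.End.one_apply, LinearMap.smul_apply,
        ← algebraMap_smul F l (X v), hX, smul_smul] at h1
      rw [show jj F q n g = ((g : Matrix.SpecialLinearGroup (Fin (n + 2)) F) :
        Matrix (Fin (n + 2)) (Fin (n + 2)) F) from rfl, h1, mul_assoc]

include hF hL

/-- PIECE SU.Is -/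
theorem mem : ∀ A ∈ SS F q n, ∃ X ∈ XX F q n L, Is (rho F q n L) A X := by
  rintro A ⟨p, hp, hpp, rfl⟩
  have hh := herm_std hF (n + 2)
  obtain ⟨z, hz0, hz⟩ := hh.exists_z
  rw [sig_apply] at hz
  set X : Module.End L (V F n) := (((z • hh.fl p).smulRight p).restrictScalars L) with hXdef
  have hX : ∀ v, X v = (z * Cfsg.hermForm (n + 2) F q v p) • p := by
    intro v
    simp [hXdef]
  exact ⟨X, ⟨p, hp, hpp, z, hz0, hz, hX⟩, core n hF hL hp hpp hz0 hz hX⟩

theorem ex : ∀ X ∈ XX F q n L, ∃ A ∈ SS F q n, Is (rho F q n L) A X := by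
  rintro X ⟨p, hp, hpp, c, hc, hcq, hX⟩
  exact ⟨Subgroup.closure (TT n p), ⟨p, hp, hpp, rfl⟩, core n hF hL hp hpp hc hcq hX⟩

end Cfsg.Agent.Lib.H85SUIs
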