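import Cfsg.Agent.Lib.H85SUDefs
import Cfsg.Agent.Lib.Helper95SUStd

set_option autoImplicit false
set_option linter.unusedSectionVars false

namespace Cfsg.Agent.Lib.H85SULrd

open Matrix Cfsg Cfsg.Agent.Lib.Helper85LRDefs Cfsg.Agent.Lib.H85SUDefs
open Cfsg.Agent.Lib.Helper95Herm Cfsg.Agent.Lib.Helper95SUStd

variable {F : Type*} [Field F] [Fintype F] {q : ℕ} (n : ℕ) (hF : Fintype.card F = q ^ 2)
variable {L : Type} [Field L] [Algebra L F] (hL : IsFix F q L)

include hF in
private lemma comp_apply {X Y : Module.End L (V F n)} {p r : V F n} {c d : F}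
    (hX : ∀ v, X v = (c * Cfsg.hermForm (n + 2) F q v p) • p)
    (hY : ∀ v, Y v = (d * Cfsg.hermForm (n + 2) F q v r) • r) (v : V F n) :
    X (Y v) = (c * d * Cfsg.hermForm (n + 2) F q r p * Cfsg.hermForm (n + 2) F q v r) • p := by
  rw [hX, hY, (herm_std hF (n + 2)).smul_left]
  congr 1
  ring

include hF in
private lemma xx_ne {X : Module.End L (V F n)} (hX : X ∈ XX F q n L) : X ≠ 0 := by
  obtain ⟨p, hp, hpp, c, hc, hcq, hXv⟩ := hX
  obtain ⟨x, hx⟩ := (herm_std hF (n + 2)).nondeg p hp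
  intro h0
  have h1 := hXv x
  rw [h0, LinearMap.zero_apply] at h1
  exact (smul_ne_zero (mul_ne_zero hc hx) hp) h1.symm

include hF in
private lemma comm_of_perp {X Y : Module.End L (V F n)} {p r : V F n} {c d : F}
    (hX : ∀ v, X v = (c * Cfsg.hermForm (n + 2) F q v p) • p)
    (hY : ∀ v, Y v = (d * Cfsg.hermForm (n + 2) F q v r) • r)
    (h0 : Cfsg.hermForm (n + 2) F q p r = 0) : X * Y = 0 ∧ Y * X = 0 := by
  have h0' := (herm_std hF (n + 2)).swap_zero h0
  constructor
  · refine LinearMap.ext fun v => ?_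
    rw [Module.End.mul_apply, comp_apply n hF hX hY, h0']
    simp
  · refine LinearMap.ext fun v => ?_
    rw [Module.End.mul_apply, comp_apply n hF hY hX, h0]
    simp

include hF hL in
private lemma tyR_of_not_perp {X Y : Module.End L (V F n)} {p r : V F n} {c d : F}
    (hc : c ≠ 0) (hcq : c + c ^ q = 0) (hd : d ≠ 0) (hdq : d + d ^ q = 0)
    (hX : ∀ v, X v = (c * Cfsg.hermForm (n + 2) F q v p) • p)
    (hY : ∀ v, Y v = (d * Cfsg.hermForm (n + 2) F q v r) • r)
    (h0 : Cfsg.hermForm (n + 2) F q p r ≠ 0) : TyR X Y := by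
  have hh := herm_std hF (n + 2)
  have h0' := hh.swap_ne h0
  set a := Cfsg.hermForm (n + 2) F q p r with ha
  set b := Cfsg.hermForm (n + 2) F q r p with hb
  have hab : a ^ q = b := by
    have := hh.herm r p
    rw [sig_apply] at this
    exact this.symm
  have hba : b ^ q = a := by
    have := hh.herm p r
    rw [sig_apply] at this
    exact this.symm
  have hlam : (c * d * a * b) ^ q = c * d * a * b := by
    rw [mul_pow, mul_pow, mul_pow, hab, hba]
    have h1 : c ^ q = -c := by linear_combination hcq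
    have h2 : d ^ q = -d := by linear_combination hdq
    rw [h1, h2]
    ring
  obtain ⟨l, hl⟩ := (hL _).mp hlam
  have hl0 : l ≠ 0 := by
    rintro rfl
    rw [map_zero] at hl
    exact (mul_ne_zero (mul_ne_zero (mul_ne_zero hc hd) h0) h0') hl.symm
  refine ⟨l, hl0, ?_, ?_⟩
  · refine LinearMap.ext fun v => ?_
    rw [Module.End.mul_apply, Module.End.mul_apply, comp_apply n hF hX hY, LinearMap.smul_apply,
      ← algebraMap_smul F l (X v), hl, hX v, hh.smul_left, smul_smul]
    congr 1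
    rw [← ha, ← hb]
    ring
  · refine LinearMap.ext fun v => ?_
    rw [Module.End.mul_apply, Module.End.mul_apply, comp_apply n hF hY hX, LinearMap.smul_apply,
      ← algebraMap_smul F l (Y v), hl, hY v, hh.smul_left, smul_smul]
    congr 1
    rw [← ha, ← hb]
    ring

include hF hL

/-- PIECE SU.Lrd. -/
theorem lrd : LRD (XX F q n L) where
  sq := by
    rintro X ⟨p, hp, hpp, c, hc, hcq, hXv⟩
    refine LinearMap.ext fun v => ?_
    rw [Module.End.mul_apply, comp_apply n hF hXv hXv, hpp]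
    simp
  ne := fun X hX => xx_ne n hF hX
  smul := by
    rintro X ⟨p, hp, hpp, c, hc, hcq, hXv⟩ l hl
    have ha : (algebraMap L F l) ^ q = algebraMap L F l := (hL _).mpr ⟨l, rfl⟩
    refine ⟨p, hp, hpp, algebraMap L F l * c, mul_ne_zero ?_ hc, ?_, ?_⟩
    · intro h0
      exact hl ((map_eq_zero (algebraMap L F)).mp h0)
    · rw [mul_pow, ha]
      linear_combination (algebraMap L F l) * hcq
    · intro v
      rw [LinearMap.smul_apply, ← algebraMap_smul F l (X v), hXv, smul_smul, mul_assoc]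
  tri := by
    rintro X ⟨p, hp, hpp, c, hc, hcq, hXv⟩ Y ⟨r, hr, hrr, d, hd, hdq, hYv⟩
    by_cases h0 : Cfsg.hermForm (n + 2) F q p r = 0
    · left
      obtain ⟨h1, h2⟩ := comm_of_perp n hF hXv hYv h0
      show X * Y = Y * X
      rw [h1, h2]
    · right; left
      exact tyR_of_not_perp n hF hL hc hcq hd hdq hXv hYv h0

theorem noK : ∀ X ∈ XX F q n L, ∀ Y ∈ XX F q n L, ¬ TyK (XX F q n L) X Y := by
  intro X hX Y hY
  have hXne := xx_ne n hF hX
  obtain ⟨p, hp, hpp, c, hc, hcq, hXv⟩ := hX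
  obtain ⟨r, hr, hrr, d, hd, hdq, hYv⟩ := hY
  rintro ⟨h1, h2, h3⟩
  by_cases h0 : Cfsg.hermForm (n + 2) F q p r = 0
  · obtain ⟨e1, e2⟩ := comm_of_perp n hF hXv hYv h0
    rw [e1, e2, sub_zero] at h3
    exact xx_ne n hF h3 rfl
  · obtain ⟨l, hl, e1, e2⟩ := tyR_of_not_perp n hF hL hc hcq hd hdq hXv hYv h0
    rw [h1] at e1
    exact (smul_ne_zero hl hXne) e1.symm

end Cfsg.Agent.Lib.H85SULrd
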