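import Cfsg.Agent.Lib.Helper86TRDefs
import Cfsg.Agent.Lib.Helper87Fusion3
import Cfsg.Agent.Lib.Helper87Split
import Cfsg.Agent.Lib.Helper87Closed
import Cfsg.Agent.Lib.Helper86Sub
import Cfsg.Agent.Lib.Helper86Fusion3
import Cfsg.Agent.Lib.Helper88Normal


set_option autoImplicit false

namespace Cfsg.Agent.Lib.H86TRChain

open Cfsg Cfsg.FusionSystem Cfsg.Agent.Lib.Helper87Fusion Cfsg.Agent.Lib.Helper87Fusion2
open Cfsg.Agent.Lib.Helper87Fusion3 Cfsg.Agent.Lib.Helper86TRDefs

variable {Ω : Type*} [Group Ω] {S T : Subgroup Ω}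

/-- PIECE Chain (40m, pure order theory on `Fin`).  Induction on `h`.  `bot`: `n = 0`, `Qs = fun _ => ⊥` (`Fin 0` is empty: `Fin.elim0`/`i.elim0`).
`step` (`A ≤ B`): from `(n, Qs)` for `A` take `n + 1` and `Fin.snoc Qs B` (as a non dependent function `Fin (n+1+1) → Subgroup Ω`): `Fin.snoc_castSucc`, `Fin.snoc_last`;
value at `0 = (0 : Fin (n+1)).castSucc`; monotone: `Fin.lastCases` on both arguments (`Qs i ≤ Qs (Fin.last n) = A ≤ B`); steps: for `i : Fin (n+1)` use `Fin.lastCases`:
`i = Fin.last n`: `i.succ = Fin.last (n+1)`, `i.castSucc = (Fin.last n).castSucc`: the new step; `i = k.castSucc`: `i.succ = k.succ.castSucc` (`Fin.succ_castSucc`), old step. -/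
theorem chain_of_reach {F : FusionSystem S} {R B : Subgroup Ω} (h : Reach F R B) :
    ∃ (n : ℕ) (Qs : Fin (n + 1) → Subgroup Ω), Qs 0 = ⊥ ∧ Qs (Fin.last n) = B ∧ Monotone Qs ∧
      ∀ i : Fin n, F.StronglyClosed (Qs i.succ) ∧ ⁅R, Qs i.succ⁆ ≤ Qs (Fin.castSucc i) := by
  induction h with
  | bot =>
    exact ⟨0, fun _ => ⊥, rfl, rfl, fun _ _ _ => le_rfl, fun i => i.elim0⟩
  | @step A B _ hAB hsc hcomm ih =>
    obtain ⟨n, Qs, h0, hlast, hmono, hstep⟩ := ih
    refine ⟨n + 1, Fin.snoc (α := fun _ => Subgroup Ω) Qs B, ?_, ?_, ?_, ?_⟩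
    · have : (0 : Fin (n + 1 + 1)) = (0 : Fin (n + 1)).castSucc := rfl
      rw [this, Fin.snoc_castSucc, h0]
    · rw [Fin.snoc_last]
    · intro i j hij
      induction j using Fin.lastCases with
      | last =>
        rw [Fin.snoc_last]
        induction i using Fin.lastCases with
        | last => rw [Fin.snoc_last]
        | cast i =>
          rw [Fin.snoc_castSucc]
          exact (hmono (Fin.le_last i)).trans (hlast ▸ hAB)
      | cast j =>
        induction i using Fin.lastCases with
        | last =>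
          exfalso
          have h1 : (Fin.last (n + 1)).val ≤ (j.castSucc).val := hij
          have h2 := j.isLt
          simp only [Fin.val_last, Fin.val_castSucc] at h1
          omega
        | cast i =>
          rw [Fin.snoc_castSucc, Fin.snoc_castSucc]
          exact hmono (Fin.castSucc_le_castSucc_iff.1 hij)
    · intro i
      induction i using Fin.lastCases with
      | last =>
        have e1 : (Fin.last n).succ = Fin.last (n + 1) := rfl
        rw [e1, Fin.snoc_last, Fin.snoc_castSucc, hlast]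
        exact ⟨hsc, hcomm⟩
      | cast k =>
        rw [Fin.succ_castSucc, Fin.snoc_castSucc, Fin.snoc_castSucc]
        exact hstep k

end Cfsg.Agent.Lib.H86TRChain
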