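import Cfsg.Agent.Lib.Helper86TRDefs
import Cfsg.Agent.Lib.Helper87Fusion3
import Cfsg.Agent.Lib.Helper87Split
import Cfsg.Agent.Lib.Helper87Closed
import Cfsg.Agent.Lib.Helper86Sub
import Cfsg.Agent.Lib.Helper86Fusion3
import Cfsg.Agent.Lib.Helper88Normal
import Cfsg.Agent.S5106

set_option autoImplicit false

namespace Cfsg.Agent.Lib.H86TRNorCrit

open Cfsg Cfsg.FusionSystem Cfsg.Agent.Lib.Helper87Fusion Cfsg.Agent.Lib.Helper87Fusion2
open Cfsg.Agent.Lib.Helper87Fusion3 Cfsg.Agent.Lib.Helper86TRDefs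

variable {Ω : Type*} [Group Ω] {S T : Subgroup Ω}

/-- PIECE NorCrit (35m).  `S5106.result` in the IsMap calculus.
(→) `f` on `P`: `obtain ⟨φ, hφ, hφf⟩ := hf` (`IsMap F P f = ∃ φ ∈ F.Hom P, ∀ x : P, φ x = f x`, see `Helper87Fusion`); S5106 gives `α ∈ F.autGroup R`; `a := ` total map of `α`
(`Helper88Normal.isMap_of_mem_autGroup hRS hα` gives an IsMap statement for it; look at its exact form; image `= R` because `α` is bijective).
(←) `φ ∈ F.Hom P`: `isMap_tot hφ`; get `a`; `IsMap.exists_aut ha haR` gives `α ∈ F.autGroup R` with `α x = a x`; `tot_apply`. -/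
theorem isNormal_iff_ext [Finite S] {p : ℕ} [Fact p.Prime] (hS : IsPGroup p S) (F : FusionSystem S)
    (hF : F.IsSaturated p) (R : Subgroup Ω) (hRS : R ≤ S) :
    F.IsNormal R ↔ ∀ (P : Subgroup Ω) (f : Ω → Ω), P ≤ R → IsMap F P f →
      ∃ a, IsMap F R a ∧ a '' (R : Set Ω) = (R : Set Ω) ∧ ∀ x ∈ P, a x = f x := by
  rw [Cfsg.Agent.S5106.result p hS F hF R hRS]
  constructor
  · intro H P f hPR hf
    obtain ⟨φ, hφ, hφf⟩ := hf
    obtain ⟨α, hα, hαφ⟩ := H P hPR φ hφ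
    obtain ⟨h1, h2⟩ := Cfsg.Agent.Lib.Helper88Normal.isMap_of_mem_autGroup hRS hα
    refine ⟨_, h1, h2, ?_⟩
    intro x hx
    rw [tot_of_mem _ (hPR hx)]
    have := hαφ ⟨x, hx⟩
    rw [hφf] at this
    exact this
  · intro H P hPR φ hφ
    obtain ⟨a, ha, haR, hax⟩ := H P (tot φ) hPR (isMap_tot hφ)
    obtain ⟨α, hα, hαa⟩ := ha.exists_aut haR
    refine ⟨α, hα, fun x => ?_⟩
    rw [hαa]
    show a (x : Ω) = _
    rw [hax x x.2, tot_apply]

end Cfsg.Agent.Lib.H86TRNorCrit
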