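import Cfsg.Agent.Lib.Helper86TRDefs
import Cfsg.Agent.Lib.Helper87Fusion3
import Cfsg.Agent.Lib.Helper87Split
import Cfsg.Agent.Lib.Helper87Closed
import Cfsg.Agent.Lib.Helper86Sub
import Cfsg.Agent.Lib.Helper86Fusion3
import Cfsg.Agent.Lib.Helper88Normal
import Cfsg.Agent.Lib.H86TRNorCrit
import Cfsg.Agent.S5145
import Cfsg.Agent.Lib.Helper87Hyperfocal

set_option autoImplicit false

namespace Cfsg.Agent.Lib.H86TRCoreInv

open Cfsg Cfsg.FusionSystem Cfsg.Agent.Lib.Helper87Fusion Cfsg.Agent.Lib.Helper87Fusion2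
open Cfsg.Agent.Lib.Helper87Fusion3 Cfsg.Agent.Lib.Helper86TRDefs

variable {Ω : Type*} [Group Ω] {S T : Subgroup Ω}

/-- PIECE CoreInv (60m, START FIRST).  `O_p(E)` is invariant under `Aut_F(T)` when `E` is invariant in `F`.
`T ≤ S` (`Helper87Hyperfocal.subsystem_le hinv.1`), so `Finite T`, `IsPGroup p T`.  `Q := E.core`; `E.IsNormal Q` (`S5145.result E`), `Q ≤ T`.
`obtain ⟨Q', hQ'⟩ := ha.exists_image_of_le (Q ≤ T)`; `obtain ⟨a', ha', h1, h2, h3⟩ := ha.inv haT` (`a' (a x) = x`, `a (a' y) = y` on `T`, `a' '' T = T`).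
CLAIM `E.IsNormal Q'` by `(H86TRNorCrit.isNormal_iff_ext hT E hE Q' _).2`: let `P ≤ Q'`, `f` an `E`-map on `P`.  `P₀ := a' '' P` (`exists_image_of_le`), `P₀ ≤ Q`.
 `d y := a' (f (a y))` is an `E`-map on `P₀`: `Helper88Normal.conj_aut hinv (P := P) (P' := P₀) _ hf ha' h3 _ (fun x hx => by rw [h2 ..])`.
 Normality of `Q` (`isNormal_iff_ext .. .1`): `β`, an `E`-map on `Q`, `β '' Q = Q`, `β = d` on `P₀`.
 `β' y := a (β (a' y))` is an `E`-map on `Q'`: `conj_aut hinv (P := Q) (P' := Q') _ hβ ha haT hQ' (fun x hx => by rw [h1 ..])`; its image is `Q'`; on `P`: `β' x = a (d (a' x)) = a (a' (f x)) = f x`.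
Then `Q' ≤ E.core` (`le_sSup`), and `Nat.card Q' = Nat.card Q` (`IsMap.card_image`), so `Q' = Q` (`Subgroup.eq_of_le_of_card_ge`). -/
theorem core_inv [Finite S] {p : ℕ} [Fact p.Prime] (hS : IsPGroup p S) {E : FusionSystem T}
    {F : FusionSystem S} (hE : E.IsSaturated p) (hinv : E.IsInvariantIn F) {a : Ω → Ω}
    (ha : IsMap F T a) (haT : a '' (T : Set Ω) = (T : Set Ω)) :
    a '' (E.core : Set Ω) = (E.core : Set Ω) := by
  have hTS : T ≤ S := Cfsg.Agent.Lib.Helper87Hyperfocal.subsystem_le hinv.1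
  haveI : Finite T := Finite.of_injective (Subgroup.inclusion hTS) (Subgroup.inclusion_injective hTS)
  have hT : IsPGroup p T := hS.to_le hTS
  have hQn : E.IsNormal E.core := Cfsg.Agent.S5145.result E
  have hQT : E.core ≤ T := hQn.1
  obtain ⟨Q', hQ'⟩ := ha.exists_image_of_le hQT
  obtain ⟨a', ha', h1, h2, h3⟩ := ha.inv haT
  have hQ'T : Q' ≤ T := by
    intro y hy
    obtain ⟨x, hx, rfl⟩ := IsMap.exists_of_mem_image hQ' hy
    exact IsMap.mem_image haT (hQT hx)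
  have hnorm : E.IsNormal Q' := by
    refine (Cfsg.Agent.Lib.H86TRNorCrit.isNormal_iff_ext hT E hE Q' hQ'T).2 ?_
    intro P f hPQ' hf
    have hPT : P ≤ T := hPQ'.trans hQ'T
    obtain ⟨P₀, hP₀⟩ := ha'.exists_image_of_le hPT
    have hP₀Q : P₀ ≤ E.core := by
      intro y hy
      obtain ⟨x, hx, rfl⟩ := IsMap.exists_of_mem_image hP₀ hy
      obtain ⟨z, hz, rfl⟩ := IsMap.exists_of_mem_image hQ' (hPQ' hx)
      rw [h1 z (hQT hz)]; exact hz
    have hd : IsMap E P₀ (fun y => a' (f (a y))) :=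
      Cfsg.Agent.Lib.Helper88Normal.conj_aut hinv hPT hf ha' h3 hP₀
        (fun x hx => by rw [h2 x (hPT hx)])
    obtain ⟨β, hβ, hβQ, hβd⟩ :=
      (Cfsg.Agent.Lib.H86TRNorCrit.isNormal_iff_ext hT E hE E.core hQT).1 hQn P₀ _ hP₀Q hd
    have hβ' : IsMap E Q' (fun y => a (β (a' y))) :=
      Cfsg.Agent.Lib.Helper88Normal.conj_aut hinv hQT hβ ha haT hQ'
        (fun x hx => by rw [h1 x (hQT hx)])
    refine ⟨_, hβ', ?_, ?_⟩
    · ext y
      constructor
      · rintro ⟨x, hx, rfl⟩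
        obtain ⟨z, hz, rfl⟩ := IsMap.exists_of_mem_image hQ' hx
        simp only
        rw [h1 z (hQT hz)]
        exact IsMap.mem_image hQ' (IsMap.mem_image hβQ hz)
      · intro hy
        obtain ⟨w, hw, rfl⟩ := IsMap.exists_of_mem_image hQ' hy
        obtain ⟨z, hz, rfl⟩ := IsMap.exists_of_mem_image hβQ hw
        refine ⟨a z, IsMap.mem_image hQ' hz, ?_⟩
        simp only
        rw [h1 z (hQT hz)]
    · intro x hx
      rw [hβd (a' x) (IsMap.mem_image hP₀ hx)]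
      rw [h2 x (hPT hx), h2 (f x) (hf.mem hx)]
  have hle : Q' ≤ E.core := le_sSup hnorm
  have hcard : Nat.card Q' = Nat.card E.core := (ha.restrict hQT).card_image hQ'
  haveI : Finite E.core :=
    Finite.of_injective (Subgroup.inclusion hQT) (Subgroup.inclusion_injective hQT)
  have heq : Q' = E.core := Subgroup.eq_of_le_of_card_ge hle hcard.ge
  rw [hQ', heq]

end Cfsg.Agent.Lib.H86TRCoreInv
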