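import Cfsg.Agent.Lib.Helper86TRDefs
import Cfsg.Agent.Lib.Helper87Fusion3
import Cfsg.Agent.Lib.Helper87Split
import Cfsg.Agent.Lib.Helper87Closed
import Cfsg.Agent.Lib.Helper86Sub
import Cfsg.Agent.Lib.Helper86Fusion3
import Cfsg.Agent.Lib.Helper88Normal
import Cfsg.Agent.Lib.H86TRNorCrit
import Cfsg.Agent.Lib.H86TRCoreInv
import Cfsg.Agent.S5145
import Cfsg.Agent.Lib.Helper87Hyperfocal

set_option autoImplicit false

namespace Cfsg.Agent.Lib.H86TRCoreNor

open Cfsg Cfsg.FusionSystem Cfsg.Agent.Lib.Helper87Fusion Cfsg.Agent.Lib.Helper87Fusion2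
open Cfsg.Agent.Lib.Helper87Fusion3 Cfsg.Agent.Lib.Helper86TRDefs

variable {Ω : Type*} [Group Ω] {S T : Subgroup Ω}

/-- PIECE CoreNor (40m).  `O_p(E)` is normal in `F` when `E` is saturated and invariant in the saturated system `F`.
`Q := E.core ≤ T ≤ S`.  `(H86TRNorCrit.isNormal_iff_ext hS F hF Q _).2`: `P ≤ Q`, `f` an `F`-map on `P`.  `Helper88Normal.frattini hinv (P ≤ T) hf`: `f x = a (c x)`, `a` an `F`-map on `T` with image `T`, `c` an `E`-map on `P`.
`E.IsNormal Q` (`S5145.result E`, `Finite T`) and `isNormal_iff_ext` for `E` over `T`: `β`, `E`-map on `Q`, image `Q`, `β = c` on `P`.  `β` is an `F`-map (`Helper88Normal.isMap_of_subsystem hinv.1`).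
`fun x => a (β x)` is an `F`-map on `Q` (`IsMap.comp hβF ha`), its image is `a '' Q = Q` (`H86TRCoreInv.core_inv`; `Set.image_image`/`Set.image_comp`), and it equals `f` on `P`. -/
theorem core_normal [Finite S] {p : ℕ} [Fact p.Prime] (hS : IsPGroup p S) {E : FusionSystem T}
    {F : FusionSystem S} (hE : E.IsSaturated p) (hF : F.IsSaturated p)
    (hinv : E.IsInvariantIn F) : F.IsNormal E.core := by
  have hTS : T ≤ S := Cfsg.Agent.Lib.Helper87Hyperfocal.subsystem_le hinv.1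
  haveI : Finite T := Finite.of_injective (Subgroup.inclusion hTS) (Subgroup.inclusion_injective hTS)
  have hT : IsPGroup p T := hS.to_le hTS
  have hQn : E.IsNormal E.core := Cfsg.Agent.S5145.result E
  have hQT : E.core ≤ T := hQn.1
  rw [Cfsg.Agent.Lib.H86TRNorCrit.isNormal_iff_ext hS F hF E.core (hQT.trans hTS)]
  intro P f hP hf
  obtain ⟨a, c, ha, haT, hc, hac⟩ := Cfsg.Agent.Lib.Helper88Normal.frattini hinv (hP.trans hQT) hf
  obtain ⟨β, hβ, hβQ, hβc⟩ :=
    (Cfsg.Agent.Lib.H86TRNorCrit.isNormal_iff_ext hT E hE E.core hQT).1 hQn P c hP hc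
  have hβF : IsMap F E.core β := Cfsg.Agent.Lib.Helper88Normal.isMap_of_subsystem hinv.1 hβ
  refine ⟨fun x => a (β x), hβF.comp ha (fun x hx => hQT (IsMap.mem_image hβQ hx)), ?_,
    fun x hx => ?_⟩
  · rw [← Set.image_image a β, hβQ]
    exact Cfsg.Agent.Lib.H86TRCoreInv.core_inv hS hE hinv ha haT
  · show a (β x) = f x
    rw [hβc x hx, hac x hx]

end Cfsg.Agent.Lib.H86TRCoreNor
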