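import Cfsg.Agent.Lib.Helper86TRDefs
import Cfsg.Agent.Lib.Helper87Fusion3
import Cfsg.Agent.Lib.Helper87Split
import Cfsg.Agent.Lib.Helper87Closed
import Cfsg.Agent.Lib.Helper86Sub
import Cfsg.Agent.Lib.Helper86Fusion3
import Cfsg.Agent.Lib.Helper88Normal
import Cfsg.Agent.S5140
import Cfsg.Agent.Lib.Helper86ResLim

set_option autoImplicit false

namespace Cfsg.Agent.Lib.H86TRNorPP

open Cfsg Cfsg.FusionSystem Cfsg.Agent.Lib.Helper87Fusion Cfsg.Agent.Lib.Helper87Fusion2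
open Cfsg.Agent.Lib.Helper87Fusion3 Cfsg.Agent.Lib.Helper86TRDefs Cfsg.Agent.Lib.H37PrDefs

variable {Ω : Type*} [Group Ω] {S T : Subgroup Ω}

/-- PIECE NorPP: the `p'`-residual is normal. -/
theorem normal_pprime [Finite S] {p : ℕ} [Fact p.Prime] (hS : IsPGroup p S) (F E : FusionSystem S)
    (hF : F.IsSaturated p) (hE : F.IsPPrimeResidual p E) : E.IsNormalIn F p := by
  have hG := Cfsg.Agent.Lib.H37PrK0.good F p
  have hEx := Cfsg.Agent.Lib.H37PrK0.ext F p
  have hStop : F.IsCentric S := by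
    refine ⟨le_rfl, fun Q hQ => ?_⟩
    have hQS : Q ≤ S := isConj_le_right hQ
    have hcard : Nat.card Q = Nat.card S := isConj_card_eq hQ
    have : Q = S := Subgroup.eq_of_le_of_card_ge hQS hcard.ge
    rw [this]
    exact centralizerIn_le S S
  obtain ⟨F₀, hsat, hnor, hidx, -, hmin⟩ := Cfsg.Agent.Lib.Helper89GT.gt hS F hF
    {P | F.IsCentric P} (K0 F p)
    (fun P hP => hP.1)
    (fun P hP Q hQ => Cfsg.Agent.Lib.Helper87Fusion2.isCentric_of_isConj hP hQ)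
    (fun P hP Q hPQ hQ => Cfsg.Agent.Lib.Helper87Fusion2.isCentric_of_le hP hPQ hQ)
    hStop
    (fun P hP => hP.1)
    hG.congr hG.conj hG.comp hG.inv
    (fun P P' f hP hPP' hf hK => hEx P P' f hP hPP' hf hK)
    (fun P f _ hf => Cfsg.Agent.Lib.H37PrL.frattini hS hF hG hf)
    hG.invar
    (fun P hP hPn => absurd hP hPn)
  have hres : F.IsPPrimeResidual p F₀ := by
    refine ⟨hsat, hidx, fun D hD hDi => ?_⟩
    have hDF := Cfsg.Agent.Lib.H37PrBridge.le hDi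
    have hgen := Cfsg.Agent.Lib.H37PrBridge.gen hDi
    exact hmin D (fun P _ f _ hK => Cfsg.Agent.Lib.H37PrCore.self
      (Cfsg.Agent.Lib.H37PrK0.le (Cfsg.Agent.Lib.H37PrCore.good hDF hgen)
        (Cfsg.Agent.Lib.H37PrExt.ext hS hF hDF hD hgen) hK))
  rw [Cfsg.Agent.Lib.Helper86ResLim.pPrimeResidual_unique hE hres]
  exact hnor

end Cfsg.Agent.Lib.H86TRNorPP
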