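import Cfsg.Agent.Lib.Helper86TRDefs
import Cfsg.Agent.Lib.Helper87Split
import Cfsg.Agent.Lib.Helper86Sub
import Cfsg.Agent.Lib.Helper86Fusion3
import Cfsg.Agent.Lib.H86TRCoreNor
import Cfsg.Agent.Lib.H86TRNorPP

set_option autoImplicit false

namespace Cfsg.Agent.Lib.H86TRConPP

open Cfsg Cfsg.FusionSystem Cfsg.Agent.Lib.Helper87Fusion Cfsg.Agent.Lib.Helper86TRDefs

variable {Ω : Type*} [Group Ω] {S : Subgroup Ω}

/-- the core of a constrained system is self-centralizing. -/
theorem core_centric {p : ℕ} {E : FusionSystem S} (hc : E.IsConstrained p) :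
    centralizerIn S E.core ≤ E.core := by
  obtain ⟨-, Q₁, hn, hcen⟩ := hc
  have hle : Q₁ ≤ E.core := le_sSup hn
  intro c hc
  apply hle
  apply hcen.2 Q₁ (isConj_refl E hcen.1)
  exact ⟨hc.1, Subgroup.centralizer_le (SetLike.coe_subset_coe.2 hle) hc.2⟩

/-- a normal self-centralizing subgroup makes a saturated system constrained. -/
theorem constrained_of_normal [Finite S] {p : ℕ} [Fact p.Prime] (hS : IsPGroup p S)
    (F : FusionSystem S) (hF : F.IsSaturated p) {R : Subgroup Ω} (hn : F.IsNormal R)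
    (hc : centralizerIn S R ≤ R) : F.IsConstrained p := by
  obtain ⟨-, h₁, h₂⟩ := Cfsg.Agent.Lib.Helper86Fusion2.saturated_fullyNormalized hS hF
    (Cfsg.Agent.Lib.Helper87Split.fullyNormalized_of_stronglyClosed
      (Cfsg.Agent.Lib.Helper86Sub.normal_stronglyClosed hn))
  exact ⟨hF, R, hn, Cfsg.Agent.Lib.Helper86Fusion3.centric_of_centralizerIn_le hS F _ h₁ h₂ hc⟩

theorem con_pprime [Finite S] {p : ℕ} [Fact p.Prime] (hS : IsPGroup p S) (F E : FusionSystem S)
    (hF : F.IsSaturated p) (hE : F.IsPPrimeResidual p E) (hc : E.IsConstrained p) :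
    F.IsConstrained p := by
  have hnor := H86TRNorPP.normal_pprime hS F E hF hE
  exact constrained_of_normal hS F hF (H86TRCoreNor.core_normal hS hE.1 hF hnor.1.2.2)
    (core_centric hc)

end Cfsg.Agent.Lib.H86TRConPP
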