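import Cfsg.Agent.Lib.Helper86TRDefs
import Cfsg.Agent.Lib.Helper1Fitting

set_option autoImplicit false

namespace Cfsg.Agent.Lib.H86TRM1

open Cfsg

/-- PIECE M1.  Normal subgroups of groups of characteristic `p` have characteristic `p`. -/
theorem char_p_normal {G : Type*} [Group G] [Finite G] {p : ℕ} [Fact p.Prime]
    (hG : Subgroup.centralizer ((pCore p G : Subgroup G) : Set G) ≤ pCore p G)
    (N : Subgroup G) [N.Normal] :
    Subgroup.centralizer ((pCore p N : Subgroup N) : Set N) ≤ pCore p N := by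
  have hpp : p.Prime := Fact.out
  haveI hQn : (pCore p G).Normal := Helper1Fitting.pCore_normal p
  have hQp : IsPGroup p (pCore p G) := Helper1Fitting.pCore_isPGroup p
  haveI hQNn : (pCore p N).Normal := Helper1Fitting.pCore_normal p
  have hle : (pCore p G).subgroupOf N ≤ pCore p N := by
    apply Helper1Fitting.le_pCore
    · infer_instance
    · exact hQp.comap_subtype
  have one_of : ∀ g : G, g ∈ pCore p G → ∀ k : ℕ, k.Coprime p → g ^ k = 1 → g = 1 := by
    intro g hg k hk hgk
    obtain ⟨j, hj⟩ := hQp ⟨g, hg⟩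
    have hj' : g ^ (p ^ j) = 1 := by
      have := congrArg Subtype.val hj
      simpa using this
    have h1 : orderOf g ∣ k := orderOf_dvd_of_pow_eq_one hgk
    have h2 : orderOf g ∣ p ^ j := orderOf_dvd_of_pow_eq_one hj'
    have h3 : Nat.Coprime k (p ^ j) := Nat.Coprime.pow_right j hk
    have h4 : orderOf g = 1 := Nat.eq_one_of_dvd_coprimes h3 h1 h2
    exact orderOf_eq_one_iff.mp h4
  have key : ∀ x : N, x ∈ Subgroup.centralizer ((pCore p N : Subgroup N) : Set N) →
      (orderOf x).Coprime p → x = 1 := by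
    intro x hx hxo
    have hxo' : (orderOf (x : G)).Coprime p := by rwa [Subgroup.orderOf_coe]
    have hcent : (x : G) ∈ Subgroup.centralizer ((pCore p G : Subgroup G) : Set G) := by
      rw [Subgroup.mem_centralizer_iff]
      intro q hq
      have hq' : q ∈ pCore p G := hq
      set c : G := q⁻¹ * (x : G) * q * (x : G)⁻¹ with hc
      have hcQ : c ∈ pCore p G := by
        have h1 : (x : G) * q * (x : G)⁻¹ ∈ pCore p G := hQn.conj_mem q hq' x
        have : c = q⁻¹ * ((x : G) * q * (x : G)⁻¹) := by rw [hc]; group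
        rw [this]
        exact (pCore p G).mul_mem ((pCore p G).inv_mem hq') h1
      have hcN : c ∈ N := by
        have h1 : q⁻¹ * (x : G) * q⁻¹⁻¹ ∈ N := ‹N.Normal›.conj_mem x x.2 q⁻¹
        have : c = (q⁻¹ * (x : G) * q⁻¹⁻¹) * (x : G)⁻¹ := by rw [hc]; group
        rw [this]
        exact N.mul_mem h1 (N.inv_mem x.2)
      have hcQN : (⟨c, hcN⟩ : N) ∈ pCore p N := hle (Subgroup.mem_subgroupOf.mpr hcQ)
      have hcomm : c * (x : G) = (x : G) * c := by
        have := (Subgroup.mem_centralizer_iff.mp hx) ⟨c, hcN⟩ hcQN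
        exact congrArg Subtype.val this
      have hstep : (x : G) * q * (x : G)⁻¹ = q * c := by rw [hc]; group
      have hcommk : ∀ k : ℕ, (x : G) * c ^ k * (x : G)⁻¹ = c ^ k := by
        intro k
        have h1 : (x : G) * c * (x : G)⁻¹ = c := by rw [← hcomm]; group
        rw [← conj_pow, h1]
      have hind : ∀ k : ℕ, (x : G) ^ k * q * ((x : G) ^ k)⁻¹ = q * c ^ k := by
        intro k
        induction k with
        | zero => simp
        | succ k ih =>
          calc (x : G) ^ (k + 1) * q * ((x : G) ^ (k + 1))⁻¹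
              = (x : G) * ((x : G) ^ k * q * ((x : G) ^ k)⁻¹) * (x : G)⁻¹ := by
                rw [pow_succ']; group
            _ = (x : G) * (q * c ^ k) * (x : G)⁻¹ := by rw [ih]
            _ = ((x : G) * q * (x : G)⁻¹) * ((x : G) * c ^ k * (x : G)⁻¹) := by group
            _ = q * c * c ^ k := by rw [hstep, hcommk]
            _ = q * c ^ (k + 1) := by rw [pow_succ', mul_assoc]
      have h2 := hind (orderOf (x : G))
      rw [pow_orderOf_eq_one] at h2
      have h3 : c ^ orderOf (x : G) = 1 := by
        have : q = q * c ^ orderOf (x : G) := by simpa using h2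
        exact (mul_eq_left.mp this.symm)
      have hc1 : c = 1 := one_of c hcQ _ hxo' h3
      rw [hc1, mul_one] at hstep
      calc q * (x : G) = ((x : G) * q * (x : G)⁻¹) * x := by rw [hstep]
        _ = (x : G) * q := by group
    have hxQ : (x : G) ∈ pCore p G := hG hcent
    have : (x : G) = 1 := one_of _ hxQ _ hxo' (pow_orderOf_eq_one _)
    exact Subtype.ext this
  apply Helper1Fitting.le_pCore
  · infer_instance
  · intro y
    have hy0 : orderOf (y : N) ≠ 0 := (orderOf_pos _).ne'
    obtain ⟨a, b, hb, hab⟩ := Nat.exists_eq_pow_mul_and_not_dvd hy0 p hpp.ne_one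
    refine ⟨a, ?_⟩
    have h1 : ((y : N) ^ (p ^ a)) ∈ Subgroup.centralizer ((pCore p N : Subgroup N) : Set N) :=
      Subgroup.pow_mem _ y.2 _
    have h2 : orderOf ((y : N) ^ (p ^ a)) = b := by
      rw [orderOf_pow_of_dvd (pow_ne_zero _ hpp.ne_zero) (hab ▸ dvd_mul_right _ _), hab]
      exact Nat.mul_div_cancel_left _ (pow_pos hpp.pos _)
    have h3 := key _ h1 (by rw [h2]; exact ((Nat.Prime.coprime_iff_not_dvd hpp).mpr hb).symm)
    exact Subtype.ext (by simpa using h3)

end Cfsg.Agent.Lib.H86TRM1
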