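import Cfsg.Agent.Lib.Helper86TRDefs

set_option autoImplicit false

namespace Cfsg.Agent.Lib.H86TROpp

open Cfsg Cfsg.Agent.Lib.Helper86TRDefs

variable {G : Type*} [Group G]

/-- PIECE Opp, 1. -/
theorem Opp_normal (p : ℕ) : (Opp p G).Normal := by
  constructor
  intro n hn g
  have hmap : (Opp p G).map (MulAut.conj g).toMonoidHom ≤ Opp p G := by
    unfold Opp
    rw [MonoidHom.map_closure, Subgroup.closure_le]
    rintro _ ⟨x, ⟨k, hk⟩, rfl⟩
    apply Subgroup.subset_closure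
    refine ⟨k, ?_⟩
    rw [← hk]
    exact orderOf_injective (MulAut.conj g).toMonoidHom (MulAut.conj g).injective x
  exact hmap ⟨n, hn, rfl⟩

/-- PIECE Opp, 2. -/
theorem Opp_index_coprime [Finite G] (p : ℕ) [Fact p.Prime] : (Opp p G).index.Coprime p := by
  have hp : p.Prime := Fact.out
  haveI := Opp_normal (G := G) p
  rw [Nat.coprime_comm, Nat.Prime.coprime_iff_not_dvd hp]
  intro hdvd
  rw [Subgroup.index_eq_card] at hdvd
  obtain ⟨xb, hx⟩ := exists_prime_orderOf_dvd_card' p hdvd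
  obtain ⟨x, rfl⟩ := QuotientGroup.mk_surjective xb
  obtain ⟨a, b, hb, hab⟩ := Nat.exists_eq_pow_mul_and_not_dvd (orderOf_pos x).ne' p hp.ne_one
  have hb0 : b ≠ 0 := by
    rintro rfl
    exact hb (dvd_zero _)
  have ho : orderOf (x ^ b) = p ^ a := by
    rw [orderOf_pow_of_dvd hb0 ⟨p ^ a, by rw [hab, mul_comm]⟩, hab,
      Nat.mul_div_cancel _ (Nat.pos_of_ne_zero hb0)]
  have hmem : x ^ b ∈ Opp p G := Subgroup.subset_closure ⟨a, ho⟩
  rw [← QuotientGroup.eq_one_iff, QuotientGroup.mk_pow, ← orderOf_dvd_iff_pow_eq_one, hx] at hmem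
  exact hb hmem

/-- PIECE Opp, 3. -/
theorem Opp_Opp (p : ℕ) : Opp p (Opp p G) = ⊤ := by
  rw [eq_top_iff]
  rintro ⟨x, hx⟩ _
  have key : ∀ y (hy : y ∈ Subgroup.closure {g : G | ∃ k : ℕ, orderOf g = p ^ k}),
      ∀ hy' : y ∈ Opp p G, (⟨y, hy'⟩ : Opp p G) ∈ Opp p (Opp p G) := by
    intro y hy
    induction hy using Subgroup.closure_induction with
    | mem w hw =>
      intro hy'
      obtain ⟨k, hk⟩ := hw
      apply Subgroup.subset_closure
      refine ⟨k, ?_⟩
      rw [← hk, Subgroup.orderOf_mk]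
    | one => intro hy'; exact Subgroup.one_mem _
    | mul u v hu hv ihu ihv =>
      intro hy'
      exact Subgroup.mul_mem _ (ihu hu) (ihv hv)
    | inv u hu ihu =>
      intro hy'
      exact Subgroup.inv_mem _ (ihu hu)
  exact key x hx hx

/-- PIECE Opp, 4 (with `[Fact p.Prime]`: the statement is false for composite `p`, e.g. `p = 6`, `G = Z/2`). -/
theorem mem_Opp_of_isPGroup {p : ℕ} [Fact p.Prime] {R : Subgroup G} (hR : IsPGroup p R) :
    R ≤ Opp p G := by
  intro x hx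
  have hp : p.Prime := Fact.out
  obtain ⟨k, hk⟩ := hR ⟨x, hx⟩
  have hk' : x ^ p ^ k = 1 := by simpa using congrArg Subtype.val hk
  obtain ⟨j, -, hj⟩ := (Nat.dvd_prime_pow hp).1 (orderOf_dvd_of_pow_eq_one hk')
  exact Subgroup.subset_closure ⟨j, hj⟩

end Cfsg.Agent.Lib.H86TROpp
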