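import Cfsg.Agent.Lib.Helper86TRDefs
import Cfsg.Agent.Lib.Helper80PSolv

set_option autoImplicit false

namespace Cfsg.Agent.Lib.H86TRPSBot

open Cfsg

/-- PIECE PSBot.  Extension at the bottom. -/
theorem psolv_of_quot {G : Type*} [Group G] {p : ℕ} (L : Subgroup G) [L.Normal]
    (hL : (∃ m : ℕ, Nat.card L = p ^ m) ∨ (Nat.card L).Coprime p)
    (h : IsPSolvable p (G ⧸ L)) : IsPSolvable p G := by
  obtain ⟨n, H, h0, hn, hmono, hnorm, hfac⟩ := h
  refine ⟨n + 1, Fin.cons ⊥ (fun i => (H i).comap (QuotientGroup.mk' L)), ?_, ?_, ?_, ?_, ?_⟩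
  · rfl
  · have e : Fin.last (n + 1) = (Fin.last n).succ := rfl
    rw [e, Fin.cons_succ, hn, Subgroup.comap_top]
  · intro i j hij
    induction i using Fin.cases with
    | zero => rw [Fin.cons_zero]; exact bot_le
    | succ i =>
      induction j using Fin.cases with
      | zero => exact absurd hij (by simp [Fin.le_def])
      | succ j =>
        rw [Fin.cons_succ, Fin.cons_succ]
        exact Subgroup.comap_mono (hmono (Fin.succ_le_succ_iff.1 hij))
  · intro i
    induction i using Fin.cases with
    | zero => rw [Fin.cons_zero]; infer_instance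
    | succ i => rw [Fin.cons_succ]; exact (hnorm i).comap _
  · intro i
    induction i using Fin.cases with
    | zero =>
      have e1 : (Fin.castSucc (0 : Fin (n + 1))) = 0 := rfl
      rw [e1, Fin.cons_zero, Fin.cons_succ, Subgroup.relIndex_bot_left, h0, MonoidHom.comap_bot,
        QuotientGroup.ker_mk']
      exact hL
    | succ i =>
      have e1 : (Fin.castSucc (Fin.succ i)) = Fin.succ (Fin.castSucc i) := rfl
      rw [e1, Fin.cons_succ, Fin.cons_succ, Subgroup.relIndex_comap,
        Subgroup.map_comap_eq_self_of_surjective (QuotientGroup.mk'_surjective L)]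
      exact hfac i

end Cfsg.Agent.Lib.H86TRPSBot
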