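import Cfsg.Agent.Lib.Helper86TRDefs
import Cfsg.Agent.Lib.Helper80PSolv

set_option autoImplicit false

namespace Cfsg.Agent.Lib.H86TRPSSub

open Cfsg

/-- PIECE PSSub.  Subgroups of `p`-solvable groups are `p`-solvable. -/
theorem psolv_subgroup {G : Type*} [Group G] {p : ℕ} (hp : p.Prime) (h : IsPSolvable p G)
    (K : Subgroup G) : IsPSolvable p K := by
  obtain ⟨n, H, h0, hn, hmono, hnorm, hfac⟩ := h
  refine ⟨n, fun i => (H i).subgroupOf K, ?_, ?_, ?_, ?_, ?_⟩
  · simp [h0]
  · simp [hn]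
  · intro i j hij
    exact Subgroup.comap_mono (hmono hij)
  · intro i
    exact (hnorm i).subgroupOf K
  · intro i
    have := hnorm i.castSucc
    have e : ((H i.castSucc).subgroupOf K).relIndex ((H i.succ).subgroupOf K) =
        (H i.castSucc).relIndex (H i.succ ⊓ K) := by
      have h1 : (H i.succ).subgroupOf K = (H i.succ ⊓ K).subgroupOf K := by
        rw [Subgroup.inf_subgroupOf_right]
      rw [h1, Subgroup.relIndex_subgroupOf inf_le_right]
    have hd : (H i.castSucc).relIndex (H i.succ ⊓ K) ∣ (H i.castSucc).relIndex (H i.succ) :=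
      Cfsg.Agent.Lib.Helper80PSolv.relIndex_dvd_of_le_right' inf_le_left
    show (∃ m : ℕ, ((H i.castSucc).subgroupOf K).relIndex ((H i.succ).subgroupOf K) = p ^ m) ∨
      (((H i.castSucc).subgroupOf K).relIndex ((H i.succ).subgroupOf K)).Coprime p
    rw [e]
    rcases hfac i with ⟨m, hm⟩ | hc
    · left
      rw [hm] at hd
      obtain ⟨j, _, hj⟩ := (Nat.dvd_prime_pow hp).mp hd
      exact ⟨j, hj⟩
    · right
      exact Nat.Coprime.coprime_dvd_left hd hc

end Cfsg.Agent.Lib.H86TRPSSub
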