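import Cfsg.Agent.Lib.Helper86TRDefs
import Cfsg.Agent.Lib.Helper80PSolv
import Cfsg.Agent.Lib.H86TRPSBot
import Cfsg.Agent.Lib.Helper1Fitting
import Cfsg.Agent.Lib.Helper14PConstr

set_option autoImplicit false

namespace Cfsg.Agent.Lib.H86TRPSTop

open Cfsg

universe u

theorem isPSolvable_of_surjective {G G' : Type*} [Group G] [Group G'] {p : ℕ} (hp : p.Prime)
    (h : IsPSolvable p G) (f : G →* G') (hf : Function.Surjective f) : IsPSolvable p G' := by
  obtain ⟨n, H, h0, hn, hmono, hnorm, hfac⟩ := h
  refine ⟨n, fun i => (H i).map f, ?_, ?_, ?_, ?_, ?_⟩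
  · simp [h0]
  · simp only [hn]
    exact Subgroup.map_top_of_surjective _ hf
  · intro i j hij
    exact Subgroup.map_mono (hmono hij)
  · intro i
    exact (hnorm i).map _ hf
  · intro i
    have := hnorm i.castSucc
    have hd := Helper80PSolv.relIndex_map_dvd f
      (hmono (Fin.castSucc_le_succ i) : H i.castSucc ≤ H i.succ)
    rcases hfac i with ⟨m, hm⟩ | hc
    · left
      rw [hm] at hd
      obtain ⟨j, _, hj⟩ := (Nat.dvd_prime_pow hp).mp hd
      exact ⟨j, hj⟩
    · right
      exact Nat.Coprime.coprime_dvd_left hd hc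

theorem isPSolvable_of_subsingleton {G : Type*} [Group G] [Subsingleton G] (p : ℕ) :
    IsPSolvable p G :=
  ⟨0, fun _ => ⊥, rfl, Subsingleton.elim _ _, fun _ _ _ => le_rfl, fun _ => inferInstance,
    fun i => i.elim0⟩

theorem psolv_aux {p : ℕ} [Fact p.Prime] : ∀ (n : ℕ) (G : Type u) [Group G] [Finite G]
    (K : Subgroup G) [K.Normal], Nat.card G = n → IsPSolvable p K →
    ((∃ m : ℕ, K.index = p ^ m) ∨ K.index.Coprime p) → IsPSolvable p G := by
  intro n
  induction n using Nat.strong_induction_on with
  | _ n ih =>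
    intro G _ _ K _ hn hK hidx
    have hpp : p.Prime := Fact.out
    by_cases hbot : K = ⊥
    · subst hbot
      rw [Subgroup.index_bot] at hidx
      apply H86TRPSBot.psolv_of_quot (⊤ : Subgroup G)
      · rwa [Subgroup.card_top]
      · haveI : Subsingleton (G ⧸ (⊤ : Subgroup G)) := QuotientGroup.subsingleton_quotient_top
        exact isPSolvable_of_subsingleton p
    · haveI : Nontrivial K := (Subgroup.nontrivial_iff_ne_bot K).mpr hbot
      obtain ⟨N₀, hN₀n, hN₀, hN₀c⟩ := Helper80PSolv.exists_normal_of_isPSolvable hK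
      obtain ⟨L₀, hchar, hL₀, hL₀c⟩ : ∃ L₀ : Subgroup K, L₀.Characteristic ∧ L₀ ≠ ⊥ ∧
          ((∃ m : ℕ, Nat.card L₀ = p ^ m) ∨ (Nat.card L₀).Coprime p) := by
        rcases hN₀c with ⟨m, hm⟩ | hc
        · refine ⟨pCore p K, inferInstance, ?_, Or.inl ?_⟩
          · intro h
            have := Helper1Fitting.le_pCore hN₀n (IsPGroup.of_card hm)
            rw [h, le_bot_iff] at this
            exact hN₀ this
          · exact IsPGroup.iff_card.mp (Helper1Fitting.pCore_isPGroup p)
        · refine ⟨pPrimeCore p K, inferInstance, ?_, Or.inr ?_⟩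
          · intro h
            have := Helper1Fitting.le_pPrimeCore hN₀n hc
            rw [h, le_bot_iff] at this
            exact hN₀ this
          · exact Helper1Fitting.card_pPrimeCore_coprime p
      set L : Subgroup G := L₀.map K.subtype with hL
      haveI hLn : L.Normal := ConjAct.normal_of_characteristic_of_normal
      have hLcard : Nat.card L = Nat.card L₀ :=
        Subgroup.card_map_of_injective K.subtype_injective
      have hLK : L ≤ K := by
        rintro _ ⟨a, _, rfl⟩
        exact a.2
      have hL1 : 1 < Nat.card L := by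
        rw [hLcard]
        exact (Subgroup.one_lt_card_iff_ne_bot L₀).mpr hL₀
      have hlt : Nat.card (G ⧸ L) < n := by
        have h1 := Subgroup.card_eq_card_quotient_mul_card_subgroup L
        have h2 : 0 < Nat.card (G ⧸ L) := Nat.card_pos
        rw [← hn, h1]
        nlinarith
      have hsurj : Function.Surjective (QuotientGroup.mk' L) := QuotientGroup.mk'_surjective L
      haveI hK'n : (K.map (QuotientGroup.mk' L)).Normal := ‹K.Normal›.map _ hsurj
      have hK' : IsPSolvable p (K.map (QuotientGroup.mk' L)) :=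
        isPSolvable_of_surjective hpp hK ((QuotientGroup.mk' L).subgroupMap K)
          ((QuotientGroup.mk' L).subgroupMap_surjective K)
      have hidx' : (K.map (QuotientGroup.mk' L)).index = K.index :=
        Subgroup.index_map_eq K hsurj (by rw [QuotientGroup.ker_mk']; exact hLK)
      have hq : IsPSolvable p (G ⧸ L) :=
        ih _ hlt (G ⧸ L) (K.map (QuotientGroup.mk' L)) rfl hK' (by rw [hidx']; exact hidx)
      exact H86TRPSBot.psolv_of_quot L (by rw [hLcard]; exact hL₀c) hq

/-- PIECE PSTop.  Extension at the top. -/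
theorem psolv_of_normal {G : Type*} [Group G] [Finite G] {p : ℕ} [Fact p.Prime] (K : Subgroup G)
    [K.Normal] (hK : IsPSolvable p K)
    (hidx : (∃ m : ℕ, K.index = p ^ m) ∨ K.index.Coprime p) : IsPSolvable p G :=
  psolv_aux _ G K rfl hK hidx

end Cfsg.Agent.Lib.H86TRPSTop
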