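import Cfsg.Agent.Lib.Helper86TRDefs

set_option autoImplicit false

namespace Cfsg.Agent.Lib.H86TRPSTriv

open Cfsg Cfsg.Agent.Lib.Helper86TRDefs

/-- PIECE PSTriv (45m, pure group theory).  A `p`-solvable group generated by its `p`-elements and also by its `p'`-elements is trivial.
Let `(n, H)` be the chain.  Show by DOWNWARD induction (`Fin.reverseInduction` / induction on `n - i`) that `H i = ⊤` for all `i`; then `⊥ = H 0 = ⊤`.
Step: `H i.succ = ⊤`, so `(H i.castSucc).relIndex ⊤ = (H i.castSucc).index` is `p ^ m` or prime to `p`; `N := H i.castSucc` is normal.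
 * index `p ^ m`: every `g` of order prime to `p` lies in `N` (its image in `G ⧸ N` has order dividing `orderOf g` and `Nat.card (G ⧸ N) = p ^ m`:
   `orderOf_map_dvd`, `orderOf_dvd_natCard`, `Nat.Coprime`…, `QuotientGroup.eq_one_iff`), so `⊤ = pResidual p G ≤ N` (`Subgroup.closure_le`).
 * index prime to `p`: every `g` of order `p ^ k` lies in `N`, so `⊤ = Opp p G ≤ N`. -/
theorem trivial_of_top {G : Type*} [Group G] [Finite G] {p : ℕ} [Fact p.Prime] (h : IsPSolvable p G)
    (h1 : Opp p G = ⊤) (h2 : pResidual p G = ⊤) : ∀ g : G, g = 1 := by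
  have hp : p.Prime := Fact.out
  obtain ⟨n, H, h0, hlast, hmono, hnorm, hstep⟩ := h
  have key : ∀ i : Fin (n + 1), H i = ⊤ := by
    intro i
    induction i using Fin.reverseInduction with
    | last => exact hlast
    | cast i ih =>
      have hN := hnorm i.castSucc
      have hs := hstep i
      rw [ih, Subgroup.relIndex_top_right] at hs
      have hmem : ∀ (g : G) (a : ℕ), orderOf g = a → Nat.Coprime a (H i.castSucc).index →
          g ∈ H i.castSucc := by
        intro g a hga hcop
        have h3 : orderOf (QuotientGroup.mk' (H i.castSucc) g) ∣ a := by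
          rw [← hga]
          exact orderOf_map_dvd (QuotientGroup.mk' _) g
        have h4 : orderOf (QuotientGroup.mk' (H i.castSucc) g) ∣ (H i.castSucc).index := by
          rw [Subgroup.index_eq_card]
          exact orderOf_dvd_natCard _
        have h5 : orderOf (QuotientGroup.mk' (H i.castSucc) g) = 1 := by
          have h6 := Nat.dvd_gcd h3 h4
          rw [show Nat.gcd a (H i.castSucc).index = 1 from hcop] at h6
          exact Nat.dvd_one.1 h6
        exact (QuotientGroup.eq_one_iff g).1 (orderOf_eq_one_iff.1 h5)
      rcases hs with ⟨m, hm⟩ | hc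
      · rw [eq_top_iff, ← h2]
        unfold pResidual
        rw [Subgroup.closure_le]
        intro g hg
        exact hmem g _ rfl (by rw [hm]; exact Nat.Coprime.pow_right m hg)
      · rw [eq_top_iff, ← h1]
        unfold Opp
        rw [Subgroup.closure_le]
        rintro g ⟨k, hk⟩
        exact hmem g _ hk (Nat.Coprime.pow_left k hc.symm)
  intro g
  have : g ∈ H 0 := by
    rw [key 0]
    trivial
  rw [h0] at this
  exact Subgroup.mem_bot.1 this

end Cfsg.Agent.Lib.H86TRPSTriv
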