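import Cfsg.Agent.Lib.Helper86TRDefs
import Cfsg.Agent.Lib.Helper87Fusion3
import Cfsg.Agent.Lib.Helper87Split
import Cfsg.Agent.Lib.Helper87Closed
import Cfsg.Agent.Lib.Helper86Sub
import Cfsg.Agent.Lib.Helper86Fusion3
import Cfsg.Agent.Lib.Helper88Normal
import Cfsg.Agent.Lib.Helper86PPowerN
import Cfsg.Agent.S5088

set_option autoImplicit false

namespace Cfsg.Agent.Lib.H86TRReachQ

open Cfsg Cfsg.FusionSystem Cfsg.Agent.Lib.Helper87Fusion Cfsg.Agent.Lib.Helper87Fusion2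
open Cfsg.Agent.Lib.Helper87Fusion3 Cfsg.Agent.Lib.Helper86TRDefs
open scoped commutatorElement

variable {Ω : Type*} [Group Ω] {S T : Subgroup Ω}

/-- PIECE ReachQ (40m).  `(S5088.result p hS E hE Q).1 hQ` gives `n, Qs` with `Qs 0 = ⊥`, `Qs (Fin.last n) = Q`, monotone, `Qs i.succ` strongly closed, `⁅Q, Qs i.succ⁆ ≤ Qs i.castSucc`.
Show `∀ i, Reach E R (Qs i)` by `Fin.induction` (`R := Q ⊔ centralizerIn S Q`): `zero`: `Reach.bot`; `succ`: `Reach.step ih (hmono (Fin.castSucc_le_succ i)) hsc ?_`.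
`⁅R, X⁆ ≤ A` for `X = Qs i.succ ≤ Q` (`hmono (Fin.le_last _)`), given `⁅Q, X⁆ ≤ A`: `Subgroup.commutator_le.2`: for `g ∈ R`, `x ∈ X`: `Helper86PPowerN.mem_QC_iff` gives `q ∈ Q` with
`g * x * g⁻¹ = q * x * q⁻¹` (`x ∈ Q`), so `⁅g, x⁆ = g x g⁻¹ x⁻¹ = ⁅q, x⁆ ∈ ⁅Q, X⁆` (`Subgroup.commutator_mem_commutator`, `commutatorElement_def`). -/
theorem reach_Q [Finite S] {p : ℕ} [Fact p.Prime] (hS : IsPGroup p S) (E : FusionSystem S)
    (hE : E.IsSaturated p) (Q : Subgroup Ω) (hQ : E.IsNormal Q) :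
    Reach E (Q ⊔ centralizerIn S Q) Q := by
  obtain ⟨n, Qs, h0, hlast, hmono, hstep⟩ := (Cfsg.Agent.S5088.result p hS E hE Q).1 hQ
  have hQS : Q ≤ S := hQ.1
  have key : ∀ i : Fin (n + 1), Reach E (Q ⊔ centralizerIn S Q) (Qs i) := by
    intro i
    induction i using Fin.induction with
    | zero =>
      rw [h0]
      exact Reach.bot
    | succ i ih =>
      refine Reach.step ih (hmono (Fin.castSucc_le_succ i)) (hstep i).1 ?_
      rw [Subgroup.commutator_le]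
      intro g hg x hx
      have hxQ : x ∈ Q := hlast ▸ hmono (Fin.le_last _) hx
      obtain ⟨-, q, hq, hqy⟩ := (Cfsg.Agent.Lib.Helper86PPowerN.mem_QC_iff hQS).1 hg
      apply (hstep i).2
      have e : ⁅g, x⁆ = ⁅q, x⁆ := by
        rw [commutatorElement_def, commutatorElement_def, hqy x hxQ]
      rw [e]
      exact Subgroup.commutator_mem_commutator hq hx
  have := key (Fin.last n)
  rwa [hlast] at this

end Cfsg.Agent.Lib.H86TRReachQ
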