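import Cfsg.Agent.Lib.Helper12Hall
import Cfsg.Agent.Lib.Helper30SZ

/-!
Project 3788 (row S3788), piece Compl: Schur-Zassenhaus + Frattini argument.
-/

set_option autoImplicit false

namespace Cfsg.Agent.Lib.H87CNCompl

theorem exists_compl {X : Type*} [Group X] [Finite X] {p : ℕ} [Fact p.Prime]
    (E R : Subgroup X) [hEn : E.Normal] [hRn : R.Normal] (hER : E ≤ R) (hE : IsPGroup p E)
    (hcop : (E.relIndex R).Coprime p) :
    ∃ L : Subgroup X, L ≤ R ∧ L ⊓ E = ⊥ ∧ (Nat.card L).Coprime p ∧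
      (∀ r ∈ R, ∃ e ∈ E, ∃ l ∈ L, r = e * l) ∧
      ∀ g : X, ∃ v ∈ E, ∀ l ∈ L, (g * v) * l * (g * v)⁻¹ ∈ L := by
  obtain ⟨k, hk⟩ := IsPGroup.iff_card.1 hE
  have hcard : Nat.card R = E.relIndex R * Nat.card E := by
    have := Subgroup.relIndex_mul_relIndex ⊥ E R bot_le hER
    rw [Subgroup.relIndex_bot_left, Subgroup.relIndex_bot_left] at this
    rw [← this, mul_comm]
  have hcop2 : (E.relIndex R).Coprime (Nat.card E) := by
    rw [hk]; exact Nat.Coprime.pow_right k hcop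
  obtain ⟨L, hLR, hLc, hLsup⟩ := Helper12Hall.sz_exists E R hER (E.relIndex R) hcard hcop2
  have hLN : L ≤ Subgroup.normalizer (E : Set X) := by
    rw [Subgroup.normalizer_eq_top]; exact le_top
  have hcopL : (Nat.card L).Coprime (Nat.card E) := by rw [hLc]; exact hcop2
  refine ⟨L, hLR, ?_, by rw [hLc]; exact hcop, ?_, ?_⟩
  · exact (Subgroup.disjoint_of_coprime_natCard hcopL).eq_bot
  · intro r hr
    rw [← hLsup, sup_comm] at hr
    exact (Helper30SZ.mem_sup_iff hLN).1 hr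
  · intro g
    have hsolv : Group.IsSolvable E := by
      have : Group.IsNilpotent E := hE.isNilpotent
      infer_instance
    have hB : L.map (MulAut.conj g).toMonoidHom ≤ E ⊔ L := by
      rw [sup_comm, hLsup]
      rintro _ ⟨l, hl, rfl⟩
      exact hRn.conj_mem l (hLR hl) g
    have hBc : Nat.card (L.map (MulAut.conj g).toMonoidHom) = Nat.card L :=
      Subgroup.card_map_of_injective (MulAut.conj g).injective
    obtain ⟨n, hn, hx⟩ := Helper30SZ.sz_conj hLN hcopL (Or.inr hsolv) hB hBc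
    refine ⟨g⁻¹ * n⁻¹ * g, ?_, ?_⟩
    · have := hEn.conj_mem _ (E.inv_mem hn) g⁻¹
      rwa [inv_inv] at this
    · intro l hl
      have h1 : g * l * g⁻¹ ∈ L.map (MulAut.conj g).toMonoidHom := ⟨l, hl, rfl⟩
      have h2 := (hx _).1 h1
      have e : g * (g⁻¹ * n⁻¹ * g) * l * (g * (g⁻¹ * n⁻¹ * g))⁻¹ = n⁻¹ * (g * l * g⁻¹) * n := by group
      rw [e]
      exact h2

end Cfsg.Agent.Lib.H87CNCompl
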