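import Cfsg.Agent.Lib.Helper11SmallExp

/-!
Project 3788 (row S3788), piece MulPow.
-/

set_option autoImplicit false

namespace Cfsg.Agent.Lib.H87CNMulPow

/-- `p` odd, `E` normal elementary abelian, `v ∈ E`, `[a,v]` a power of `a`. Then `(a v)^p = a^p`.
Proof: `c = v a v⁻¹ a⁻¹ = (a v a⁻¹ v⁻¹)⁻¹` lies in `E` and in `zpowers a`, so it commutes with `a` and with `v`, and
`v * a = c * a * v`. `Helper11SmallExp.mul_pow_of_class_two a v c _ _ _ p` :
`(a v)^p = a^p v^p c^(p.choose 2)`; `v^p = 1`; `p ∣ p.choose 2` (p odd: `Nat.Prime.dvd_choose_self`), `c^p = 1`. -/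
theorem mul_pow_eq {X : Type*} [Group X] {p : ℕ} [Fact p.Prime] (hp : p ≠ 2) (E : Subgroup X) [E.Normal]
    (hab : ∀ x ∈ E, ∀ y ∈ E, x * y = y * x) (hexp : ∀ x ∈ E, x ^ p = 1)
    (a v : X) (hv : v ∈ E) (h : a * v * a⁻¹ * v⁻¹ ∈ Subgroup.zpowers a) : (a * v) ^ p = a ^ p := by
  have hpp : p.Prime := Fact.out
  obtain ⟨c, hc⟩ : ∃ c, c = v * a * v⁻¹ * a⁻¹ := ⟨_, rfl⟩
  have hci : c = (a * v * a⁻¹ * v⁻¹)⁻¹ := by rw [hc]; group
  have hcE : c ∈ E := by
    rw [hc]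
    have h1 : a * v⁻¹ * a⁻¹ ∈ E := ‹E.Normal›.conj_mem _ (E.inv_mem hv) a
    have := E.mul_mem hv h1
    simpa [mul_assoc] using this
  have hcz : c ∈ Subgroup.zpowers a := by
    rw [hci]; exact Subgroup.inv_mem _ h
  have hca : Commute c a := by
    obtain ⟨k, hk⟩ := Subgroup.mem_zpowers_iff.mp hcz
    rw [← hk]
    exact (Commute.refl a).zpow_left k
  have hcv : Commute c v := hab c hcE v hv
  have hva : v * a = c * a * v := by rw [hc]; group
  rw [Cfsg.Agent.Lib.Helper11SmallExp.mul_pow_of_class_two a v c hva hca hcv p, hexp v hv, mul_one]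
  have hdvd : p ∣ p.choose 2 := by
    apply hpp.dvd_choose_self (by norm_num)
    have := hpp.two_le
    omega
  obtain ⟨m, hm⟩ := hdvd
  rw [hm, pow_mul, hexp c hcE, one_pow, mul_one]

end Cfsg.Agent.Lib.H87CNMulPow
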