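import Mathlib

/-!
Project 3788 (row S3788), piece Odd.  PURE MATHLIB.
-/

set_option autoImplicit false

namespace Cfsg.Agent.Lib.H87CNOdd

theorem conj_pow' {X : Type*} [Group X] (g w z : X) (hz : g * w * g⁻¹ = z * w) (hc : g * z = z * g)
    (k : ℕ) : g ^ k * w * (g ^ k)⁻¹ = z ^ k * w := by
  induction k with
  | zero => simp
  | succ k ih =>
    have e : g ^ (k + 1) * w * (g ^ (k + 1))⁻¹ = g * (g ^ k * w * (g ^ k)⁻¹) * g⁻¹ := by
      rw [pow_succ']; group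
    have hck : g * z ^ k = z ^ k * g := (Commute.pow_right (show Commute g z from hc) k).eq
    rw [e, ih]
    calc g * (z ^ k * w) * g⁻¹ = (g * z ^ k) * w * g⁻¹ := by group
      _ = z ^ k * (g * w * g⁻¹) := by rw [hck]; group
      _ = z ^ (k + 1) * w := by rw [hz, pow_succ]; group

theorem comm_eq_one {X : Type*} [Group X] [Finite X] {p : ℕ} [Fact p.Prime] (E L : Subgroup X) [hE : E.Normal]
    (hab : ∀ x ∈ E, ∀ y ∈ E, x * y = y * x) (hexp : ∀ x ∈ E, x ^ p = 1)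
    (hC : Subgroup.centralizer (E : Set X) ≤ E)
    (hLE : L ⊓ E = ⊥) (hL : (Nat.card L).Coprime p)
    (n : X) (hn : ∀ l ∈ L, n * l * n⁻¹ ∈ L) (hb : n ^ p ∈ E)
    (hcomm : ∀ w ∈ E, n * w * n⁻¹ * w⁻¹ ∈ Subgroup.zpowers (n ^ p)) :
    ∀ l ∈ L, n * l * n⁻¹ = l := by
  obtain ⟨b, hbdef⟩ : ∃ b, b = n ^ p := ⟨_, rfl⟩
  rw [← hbdef] at hb hcomm
  have hbn : Commute n b := by rw [hbdef]; exact Commute.self_pow n p
  -- powers of `n` normalise `L`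
  have hnk : ∀ k : ℕ, ∀ l ∈ L, n ^ k * l * (n ^ k)⁻¹ ∈ L := by
    intro k
    induction k with
    | zero => intro l hl; simpa using hl
    | succ k ih =>
      intro l hl
      have e : n ^ (k + 1) * l * (n ^ (k + 1))⁻¹ = n * (n ^ k * l * (n ^ k)⁻¹) * n⁻¹ := by
        rw [pow_succ']; group
      rw [e]
      exact hn _ (ih l hl)
  have hbl : ∀ l ∈ L, Commute l b := by
    intro l hl
    have h1 : b * l * b⁻¹ * l⁻¹ ∈ L := L.mul_mem (by rw [hbdef]; exact hnk p l hl) (L.inv_mem hl)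
    have h2 : b * l * b⁻¹ * l⁻¹ ∈ E := by
      have e : b * l * b⁻¹ * l⁻¹ = b * (l * b⁻¹ * l⁻¹) := by group
      rw [e]
      exact E.mul_mem hb (hE.conj_mem _ (E.inv_mem hb) l)
    have h3 : b * l * b⁻¹ * l⁻¹ ∈ L ⊓ E := ⟨h1, h2⟩
    rw [hLE, Subgroup.mem_bot] at h3
    have h4 : b * l = l * b := by
      have := mul_inv_eq_one.1 h3
      exact mul_inv_eq_iff_eq_mul.1 this
    exact h4.symm
  have hzE : Subgroup.zpowers b ≤ E := by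
    rw [Subgroup.zpowers_le]; exact hb
  have hzn : ∀ β ∈ Subgroup.zpowers b, Commute n β := by
    intro β hβ
    obtain ⟨j, rfl⟩ := Subgroup.mem_zpowers_iff.1 hβ
    exact hbn.zpow_right j
  have hzl : ∀ l ∈ L, ∀ β ∈ Subgroup.zpowers b, Commute l β := by
    intro l hl β hβ
    obtain ⟨j, rfl⟩ := Subgroup.mem_zpowers_iff.1 hβ
    exact (hbl l hl).zpow_right j
  intro l hl
  obtain ⟨m, hm⟩ : ∃ m, m = n * l * n⁻¹ * l⁻¹ := ⟨_, rfl⟩
  have hmL : m ∈ L := by rw [hm]; exact L.mul_mem (hn l hl) (L.inv_mem hl)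
  have key : ∀ w ∈ E, ∃ γ ∈ Subgroup.zpowers b, m * w * m⁻¹ = γ * w := by
    intro w hw
    have hw1 : l⁻¹ * w * l ∈ E := by
      have := hE.conj_mem w hw l⁻¹
      rwa [inv_inv] at this
    have hw' : n⁻¹ * (l⁻¹ * w * l) * n ∈ E := by
      have := hE.conj_mem _ hw1 n⁻¹
      rwa [inv_inv] at this
    have hβ := hcomm _ hw'
    have hβ2 := hcomm w hw
    obtain ⟨β, hβd⟩ : ∃ β, β = n * (n⁻¹ * (l⁻¹ * w * l) * n) * n⁻¹ * (n⁻¹ * (l⁻¹ * w * l) * n)⁻¹ :=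
      ⟨_, rfl⟩
    obtain ⟨β₂, hβ₂d⟩ : ∃ β₂, β₂ = n * w * n⁻¹ * w⁻¹ := ⟨_, rfl⟩
    rw [← hβd] at hβ
    rw [← hβ₂d] at hβ2
    refine ⟨β⁻¹ * β₂, (Subgroup.zpowers b).mul_mem ((Subgroup.zpowers b).inv_mem hβ) hβ2, ?_⟩
    -- `n⁻¹ w₁ n = β⁻¹ w₁`
    have e1 : n⁻¹ * (l⁻¹ * w * l) * n = β⁻¹ * (l⁻¹ * w * l) := by
      rw [hβd]; group
    have c1 : l * β⁻¹ = β⁻¹ * l := ((hzl l hl β hβ).inv_right).eq
    have c2 : n * β⁻¹ = β⁻¹ * n := ((hzn β hβ).inv_right).eq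
    have e2 : n * w * n⁻¹ = β₂ * w := by rw [hβ₂d]; group
    calc m * w * m⁻¹ = n * (l * (n⁻¹ * (l⁻¹ * w * l) * n) * l⁻¹) * n⁻¹ := by rw [hm]; group
      _ = n * (l * β⁻¹ * (l⁻¹ * w * l) * l⁻¹) * n⁻¹ := by rw [e1]; group
      _ = n * β⁻¹ * w * n⁻¹ := by rw [c1]; group
      _ = β⁻¹ * (n * w * n⁻¹) := by rw [c2]; group
      _ = β⁻¹ * β₂ * w := by rw [e2]; group
  have hmp : m ^ p ∈ Subgroup.centralizer (E : Set X) := by
    rw [Subgroup.mem_centralizer_iff]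
    intro w hw
    obtain ⟨γ, hγ, hγw⟩ := key w hw
    have h1 := conj_pow' m w γ hγw (hzl m hmL γ hγ).eq p
    rw [hexp γ (hzE hγ), one_mul] at h1
    exact (mul_inv_eq_iff_eq_mul.1 h1).symm
  have hmp1 : m ^ p = 1 := by
    have h3 : m ^ p ∈ L ⊓ E := ⟨L.pow_mem hmL p, hC hmp⟩
    rwa [hLE, Subgroup.mem_bot] at h3
  have hmc : m ^ Nat.card L = 1 := by
    have := pow_card_eq_one' (G := L) (x := ⟨m, hmL⟩)
    exact congrArg Subtype.val this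
  have hm1 : m = 1 := by
    have := pow_gcd_eq_one.2 ⟨hmc, hmp1⟩
    rwa [Nat.Coprime.gcd_eq_one hL, pow_one] at this
  rw [hm] at hm1
  exact mul_inv_eq_one.1 hm1

end Cfsg.Agent.Lib.H87CNOdd
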