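import Mathlib

/-!
Project 3788 (row S3788), piece TwoA.  PURE MATHLIB.
-/

set_option autoImplicit false

namespace Cfsg.Agent.Lib.H87CNTwoA

theorem comm_mem_closure {X : Type*} [Group X] (E : Subgroup X) [hE : E.Normal]
    (a b r : X) (hb : b ∈ E)
    (hA : ∀ w ∈ E, a * w * a⁻¹ * w⁻¹ ∈ Subgroup.zpowers b) :
    (∀ w ∈ E, a * w * a⁻¹ * w⁻¹ ∈ Subgroup.closure {b, r * b * r⁻¹}) ∧
    (∀ w ∈ E, (r * a * r⁻¹) * w * (r * a * r⁻¹)⁻¹ * w⁻¹ ∈ Subgroup.closure {b, r * b * r⁻¹}) ∧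
    (∀ w ∈ E, (a * r * a⁻¹ * r⁻¹) * w * (a * r * a⁻¹ * r⁻¹)⁻¹ * w⁻¹ ∈ Subgroup.closure {b, r * b * r⁻¹}) := by
  have hbU : b ∈ Subgroup.closure {b, r * b * r⁻¹} := Subgroup.subset_closure (by simp)
  have hbU' : r * b * r⁻¹ ∈ Subgroup.closure {b, r * b * r⁻¹} := Subgroup.subset_closure (by simp)
  have h1 : ∀ w ∈ E, a * w * a⁻¹ * w⁻¹ ∈ Subgroup.closure {b, r * b * r⁻¹} := by
    intro w hw
    exact (Subgroup.zpowers_le.2 hbU) (hA w hw)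
  have h2 : ∀ w ∈ E, (r * a * r⁻¹) * w * (r * a * r⁻¹)⁻¹ * w⁻¹ ∈
      Subgroup.closure {b, r * b * r⁻¹} := by
    intro w hw
    have hw1 : r⁻¹ * w * r ∈ E := by
      have := hE.conj_mem w hw r⁻¹
      rwa [inv_inv] at this
    obtain ⟨k, hk⟩ := Subgroup.mem_zpowers_iff.1 (hA _ hw1)
    have e : (r * a * r⁻¹) * w * (r * a * r⁻¹)⁻¹ * w⁻¹ =
        r * (a * (r⁻¹ * w * r) * a⁻¹ * (r⁻¹ * w * r)⁻¹) * r⁻¹ := by group
    rw [e, ← hk, ← conj_zpow]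
    exact Subgroup.zpow_mem _ hbU' k
  refine ⟨h1, h2, ?_⟩
  intro w hw
  have hw2 : (r * a * r⁻¹)⁻¹ * w * (r * a * r⁻¹) ∈ E := by
    have := hE.conj_mem w hw (r * a * r⁻¹)⁻¹
    rwa [inv_inv] at this
  have k1 := h2 _ hw2
  have k2 := h1 _ hw2
  have e : (a * r * a⁻¹ * r⁻¹) * w * (a * r * a⁻¹ * r⁻¹)⁻¹ * w⁻¹ =
      (a * ((r * a * r⁻¹)⁻¹ * w * (r * a * r⁻¹)) * a⁻¹ * ((r * a * r⁻¹)⁻¹ * w * (r * a * r⁻¹))⁻¹) *
      ((r * a * r⁻¹) * ((r * a * r⁻¹)⁻¹ * w * (r * a * r⁻¹)) * (r * a * r⁻¹)⁻¹ *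
        ((r * a * r⁻¹)⁻¹ * w * (r * a * r⁻¹))⁻¹)⁻¹ := by group
  rw [e]
  exact Subgroup.mul_mem _ k2 (Subgroup.inv_mem _ k1)

/-- two commuting elements of order dividing 2 generate a group of order at most 4 (dividing 4). -/
theorem card_closure_dvd {X : Type*} [Group X] (b b' : X) (h1 : b ^ 2 = 1) (h2 : b' ^ 2 = 1)
    (hc : b * b' = b' * b) : Nat.card (Subgroup.closure {b, b'}) ∣ 4 := by
  have hcomm : ∀ (m : Subgroup.zpowers b) (n : Subgroup.zpowers b'),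
      Commute ((Subgroup.zpowers b).subtype m) ((Subgroup.zpowers b').subtype n) := by
    rintro ⟨m, hm⟩ ⟨n, hn⟩
    obtain ⟨i, rfl⟩ := Subgroup.mem_zpowers_iff.1 hm
    obtain ⟨j, rfl⟩ := Subgroup.mem_zpowers_iff.1 hn
    exact Commute.zpow_zpow (show Commute b b' from hc) i j
  have hr : (MonoidHom.noncommCoprod _ _ hcomm).range = Subgroup.closure {b, b'} := by
    rw [MonoidHom.noncommCoprod_range, Subgroup.range_subtype, Subgroup.range_subtype,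
      Subgroup.zpowers_eq_closure, Subgroup.zpowers_eq_closure, ← Subgroup.closure_union]
    rfl
  rw [← hr]
  refine (Subgroup.card_range_dvd _).trans ?_
  rw [Nat.card_prod, Nat.card_zpowers, Nat.card_zpowers]
  exact mul_dvd_mul (orderOf_dvd_of_pow_eq_one h1) (orderOf_dvd_of_pow_eq_one h2)

end Cfsg.Agent.Lib.H87CNTwoA
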