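import Mathlib

/-!
Project 3788 (row S3788), piece TwoB.  PURE MATHLIB.
-/

set_option autoImplicit false

namespace Cfsg.Agent.Lib.H87CNTwoB

theorem conj_pow'' {X : Type*} [Group X] (g w z : X) (hz : g * w * g⁻¹ = z * w) (hc : g * z = z * g)
    (k : ℕ) : g ^ k * w * (g ^ k)⁻¹ = z ^ k * w := by
  induction k with
  | zero => simp
  | succ k ih =>
    have e : g ^ (k + 1) * w * (g ^ (k + 1))⁻¹ = g * (g ^ k * w * (g ^ k)⁻¹) * g⁻¹ := by
      rw [pow_succ']; group
    have hck : g * z ^ k = z ^ k * g := (Commute.pow_right (show Commute g z from hc) k).eq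
    rw [e, ih]
    calc g * (z ^ k * w) * g⁻¹ = (g * z ^ k) * w * g⁻¹ := by group
      _ = z ^ k * (g * w * g⁻¹) := by rw [hck]; group
      _ = z ^ (k + 1) * w := by rw [hz, pow_succ]; group

theorem card_eq_four {X : Type*} [Group X] [Finite X] (E U : Subgroup X) [E.Normal] (hUE : U ≤ E)
    (hexp : ∀ x ∈ E, x ^ 2 = 1) (hU : Nat.card U ∣ 4)
    (d : X) (hd : ∃ n : ℕ, Odd n ∧ d ^ n = 1) (hdE : ∀ w ∈ E, d * w * d⁻¹ * w⁻¹ ∈ U)
    (hdC : d ∉ Subgroup.centralizer (E : Set X)) :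
    Nat.card U = 4 ∧ d ∈ Subgroup.normalizer (U : Set X) ∧ d ∉ Subgroup.centralizer (U : Set X) := by
  obtain ⟨n, hn, hdn⟩ := hd
  have hconj : ∀ u ∈ U, d * u * d⁻¹ ∈ U := by
    intro u hu
    have e : d * u * d⁻¹ = (d * u * d⁻¹ * u⁻¹) * u := by group
    rw [e]
    exact U.mul_mem (hdE u (hUE hu)) hu
  have hconjk : ∀ k : ℕ, ∀ u ∈ U, d ^ k * u * (d ^ k)⁻¹ ∈ U := by
    intro k
    induction k with
    | zero => intro u hu; simpa using hu
    | succ k ih =>
      intro u hu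
      have e : d ^ (k + 1) * u * (d ^ (k + 1))⁻¹ = d * (d ^ k * u * (d ^ k)⁻¹) * d⁻¹ := by
        rw [pow_succ']; group
      rw [e]
      exact hconj _ (ih u hu)
  have hnorm : d ∈ Subgroup.normalizer (U : Set X) := by
    rw [Subgroup.mem_normalizer_iff]
    intro h
    constructor
    · intro hh; exact hconj h hh
    · intro hh
      obtain ⟨k, rfl⟩ : ∃ k, n = k + 1 := by
        rcases hn with ⟨k, rfl⟩
        exact ⟨2 * k, rfl⟩
      have h3 := hconjk k _ hh
      have hdk : d ^ k = d⁻¹ := by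
        rw [pow_succ] at hdn
        exact eq_inv_of_mul_eq_one_left hdn
      rw [hdk] at h3
      have e : d⁻¹ * (d * h * d⁻¹) * d⁻¹⁻¹ = h := by group
      rwa [e] at h3
  have hncen : d ∉ Subgroup.centralizer (U : Set X) := by
    intro hcen
    apply hdC
    rw [Subgroup.mem_centralizer_iff] at hcen ⊢
    intro w hw
    have hγ := hdE w hw
    have hc := hcen _ hγ
    have h1 := conj_pow'' d w (d * w * d⁻¹ * w⁻¹) (by group) hc.symm n
    rw [hdn] at h1
    have h2 : (d * w * d⁻¹ * w⁻¹) ^ n = 1 := by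
      have : w = (d * w * d⁻¹ * w⁻¹) ^ n * w := by simpa using h1
      exact (mul_eq_right.1 this.symm)
    have h3 : (d * w * d⁻¹ * w⁻¹) ^ 2 = 1 := hexp _ (hUE hγ)
    have h4 := pow_gcd_eq_one.2 ⟨h2, h3⟩
    have h5 : Nat.gcd n 2 = 1 := by
      rcases hn with ⟨k, rfl⟩
      simp
    rw [h5, pow_one] at h4
    have h6 := mul_inv_eq_one.1 h4
    exact (mul_inv_eq_iff_eq_mul.1 h6).symm
  refine ⟨?_, hnorm, hncen⟩
  by_contra hne
  apply hncen
  rw [Subgroup.mem_centralizer_iff]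
  intro u hu
  have hle : Nat.card U ≤ 4 := Nat.le_of_dvd (by norm_num) hU
  have hpos : 0 < Nat.card U := Nat.card_pos
  have hcases : Nat.card U = 1 ∨ Nat.card U = 2 := by
    interval_cases h : Nat.card U
    · left; rfl
    · right; rfl
    · omega
    · exact absurd rfl hne
  rcases hcases with h1 | h2
  · have hbot : U = ⊥ := Subgroup.card_eq_one.1 h1
    rw [SetLike.mem_coe, hbot, Subgroup.mem_bot] at hu
    rw [hu]; simp
  · by_cases hu1 : u = 1
    · rw [hu1]; simp
    obtain ⟨y, _, hy⟩ := (Nat.card_eq_two_iff' (1 : U)).1 h2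
    have e1 := hy ⟨u, hu⟩ (by intro h; exact hu1 (congrArg Subtype.val h))
    have e2 := hy ⟨d * u * d⁻¹, hconj u hu⟩ (by
      intro h
      have h' : d * u * d⁻¹ = 1 := congrArg Subtype.val h
      apply hu1
      have : u = d⁻¹ * (d * u * d⁻¹) * d := by group
      rw [this, h']; group)
    have e3 : d * u * d⁻¹ = u := by
      have := e2.trans e1.symm
      exact congrArg Subtype.val this
    exact (mul_inv_eq_iff_eq_mul.1 e3).symm

end Cfsg.Agent.Lib.H87CNTwoB
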