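import Mathlib

/-!
Project 3788 (row S3788), piece TwoC.  PURE MATHLIB.
-/

set_option autoImplicit false

namespace Cfsg.Agent.Lib.H87CNTwoC

/-- `E ≤ R`, `E` normal, `|R : E|` odd, `c ∈ R \ E`. Some power `d = c ^ j` has odd order and is not in `E`.
Proof: `orderOf c = 2^i * s`, `s` odd (`Nat.exists_eq_pow_mul_and_not_dvd`), `d = c^(2^i)`, `d^s = 1`.
If `d ∈ E`: the image `c̄` of `c` in `X ⧸ E` satisfies `c̄^(2^i) = 1`; also `c̄ ^ m = 1` with `m = E.relIndex R` odd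
(`c̄` lies in `R.map (mk' E)`, of order `E.relIndex R`; or: `c ^ (E.relIndex R) ∈ E` by
`Subgroup.pow_mem_of_relIndex_ne_zero_of_dvd`-type lemmas / Lagrange in `R ⧸ E.subgroupOf R`), so `c̄ = 1`, `c ∈ E`. -/
theorem exists_odd_pow {X : Type*} [Group X] [Finite X] (E R : Subgroup X) [E.Normal] (hER : E ≤ R)
    (hcop : (E.relIndex R).Coprime 2) (c : X) (hc : c ∈ R) (hcE : c ∉ E) :
    ∃ j : ℕ, (∃ n : ℕ, Odd n ∧ (c ^ j) ^ n = 1) ∧ c ^ j ∉ E := by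
  have ho : orderOf c ≠ 0 := (orderOf_pos c).ne'
  obtain ⟨i, s, hs, hos⟩ := Nat.exists_eq_pow_mul_and_not_dvd ho 2 (by norm_num)
  refine ⟨2 ^ i, ⟨s, ?_, ?_⟩, ?_⟩
  · exact Nat.odd_iff.mpr (by omega)
  · rw [← pow_mul, ← hos, pow_orderOf_eq_one]
  · intro hd
    -- c ^ relIndex ∈ E
    have h1 : c ^ (E.relIndex R) ∈ E := by
      have hN : (E.subgroupOf R).Normal := inferInstance
      have h2 : ((QuotientGroup.mk (⟨c, hc⟩ : R) : R ⧸ E.subgroupOf R)) ^ (E.relIndex R) = 1 := by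
        have : Nat.card (R ⧸ E.subgroupOf R) = E.relIndex R := rfl
        rw [← this]
        exact pow_card_eq_one'
      rw [← QuotientGroup.mk_pow, QuotientGroup.eq_one_iff, Subgroup.mem_subgroupOf] at h2
      simpa using h2
    have hc2 : Nat.Coprime (E.relIndex R) (2 ^ i) := Nat.Coprime.pow_right i hcop
    apply hcE
    have h3 : c ^ (Nat.gcd (E.relIndex R) (2 ^ i) : ℤ) ∈ E := by
      rw [Nat.gcd_eq_gcd_ab, zpow_add, zpow_mul, zpow_mul]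
      exact E.mul_mem (E.zpow_mem (by rw [zpow_natCast]; exact h1) _) (E.zpow_mem (by rw [zpow_natCast]; exact hd) _)
    rw [hc2] at h3
    simpa using h3

/-- If `[c, E] ⊆ U ≤ E` (`E` normal) then `[c^j, E] ⊆ U`.
Proof: induction on `j`: `c^(j+1) w c^-(j+1) w⁻¹ = c (c^j w c^-j w⁻¹) c⁻¹ (c^j w c^-j w⁻¹)⁻¹ * (c^j w c^-j w⁻¹) * (c w c⁻¹ w⁻¹)`-type
identity; precisely with `u = c^j w c^-j w⁻¹ ∈ U ≤ E`: `c^(j+1) w c^-(j+1) w⁻¹ = (c u c⁻¹ u⁻¹) * u * (c w c⁻¹ w⁻¹)`. -/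
theorem pow_comm_mem {X : Type*} [Group X] (E U : Subgroup X) (hUE : U ≤ E)
    (c : X) (hc : ∀ w ∈ E, c * w * c⁻¹ * w⁻¹ ∈ U) (j : ℕ) :
    ∀ w ∈ E, c ^ j * w * (c ^ j)⁻¹ * w⁻¹ ∈ U := by
  induction j with
  | zero => intro w _; simp
  | succ j ih =>
    intro w hw
    have hu := ih w hw
    have h1 := hc _ (hUE hu)
    have h2 := hc w hw
    have e : c ^ (j + 1) * w * (c ^ (j + 1))⁻¹ * w⁻¹ =
        (c * (c ^ j * w * (c ^ j)⁻¹ * w⁻¹) * c⁻¹ * (c ^ j * w * (c ^ j)⁻¹ * w⁻¹)⁻¹) *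
          (c ^ j * w * (c ^ j)⁻¹ * w⁻¹) * (c * w * c⁻¹ * w⁻¹) := by
      rw [pow_succ']
      group
    rw [e]
    exact U.mul_mem (U.mul_mem h1 hu) h2

end Cfsg.Agent.Lib.H87CNTwoC
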