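import Mathlib

/-!
Project 3788 (row S3788), piece TwoD.  PURE MATHLIB.
-/

set_option autoImplicit false

namespace Cfsg.Agent.Lib.H87CNTwoD

private theorem conj_inv_mem {X : Type*} [Group X] [Finite X] (U : Subgroup X) (a : X)
    (h : ∀ u ∈ U, a * u * a⁻¹ ∈ U) : ∀ u ∈ U, a⁻¹ * u * a ∈ U := by
  have hk : ∀ k : ℕ, ∀ u ∈ U, a ^ k * u * (a ^ k)⁻¹ ∈ U := by
    intro k
    induction k with
    | zero => intro u hu; simpa using hu
    | succ k ih =>
      intro u hu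
      have := h _ (ih u hu)
      rw [pow_succ']
      convert this using 1
      group
  intro u hu
  have := hk (orderOf a - 1) u hu
  have e : a ^ (orderOf a - 1) = a⁻¹ := by
    rw [eq_inv_iff_mul_eq_one, ← pow_succ, Nat.sub_add_cancel (orderOf_pos a), pow_orderOf_eq_one]
  rw [e, inv_inv] at this
  exact this

/-- `E` normal abelian, `U ≤ E`, `a, a'` with `[a,E] ⊆ U`, `[a',E] ⊆ U`, `a'^2 ∈ E`; `c = a a'⁻¹`; `d = c^j` of odd order does not
centralise `U`. Then `a` normalises `U` and does not centralise `U`.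
Proof: `a u a⁻¹ = (a u a⁻¹ u⁻¹) u ∈ U` (X finite, so `a ∈ normalizer U`); the same for `a'`, so also `a'⁻¹ u a' ∈ U`.
Suppose `a` centralises `U`. For `u ∈ U`: `c u c⁻¹ = a (a'⁻¹ u a') a⁻¹ = a'⁻¹ u a'`, hence `c^2 u c^-2 = a'^-2 u a'^2 = u`
(`a'^2 ∈ E`, `E` abelian, `u ∈ E`). So `c^2 ∈ C(U)`, `d^2 = (c^2)^j ∈ C(U)`; `d^n = 1` with `n = 2k+1`: `d = (d^2)^(-k)`... i.e.
`d * (d^2)^k = 1`, so `d ∈ C(U)`: contradiction. -/
theorem not_centralizes {X : Type*} [Group X] [Finite X] (E U : Subgroup X) [E.Normal] (hUE : U ≤ E)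
    (hab : ∀ x ∈ E, ∀ y ∈ E, x * y = y * x)
    (a a' : X) (ha : ∀ w ∈ E, a * w * a⁻¹ * w⁻¹ ∈ U) (ha' : ∀ w ∈ E, a' * w * a'⁻¹ * w⁻¹ ∈ U)
    (hsq : a' ^ 2 ∈ E) (j : ℕ) (hd : ∃ n : ℕ, Odd n ∧ ((a * a'⁻¹) ^ j) ^ n = 1)
    (hdU : (a * a'⁻¹) ^ j ∉ Subgroup.centralizer (U : Set X)) :
    a ∈ Subgroup.normalizer (U : Set X) ∧ a ∉ Subgroup.centralizer (U : Set X) := by
  have hn : ∀ u ∈ U, a * u * a⁻¹ ∈ U := fun u hu => by
    have := U.mul_mem (ha u (hUE hu)) hu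
    simpa using this
  have hn' : ∀ u ∈ U, a' * u * a'⁻¹ ∈ U := fun u hu => by
    have := U.mul_mem (ha' u (hUE hu)) hu
    simpa using this
  have hi := conj_inv_mem U a hn
  have hi' := conj_inv_mem U a' hn'
  refine ⟨?_, ?_⟩
  · rw [Subgroup.mem_normalizer_iff]
    intro u
    refine ⟨fun hu => hn u hu, fun hu => ?_⟩
    have := hi _ hu
    simpa [mul_assoc] using this
  · intro hc
    rw [Subgroup.mem_centralizer_iff] at hc
    apply hdU
    obtain ⟨n, ⟨k, rfl⟩, hdn⟩ := hd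
    obtain ⟨c, hcdef⟩ : ∃ c, c = a * a'⁻¹ := ⟨_, rfl⟩
    rw [← hcdef] at hdn hdU ⊢
    have hc2 : c ^ 2 ∈ Subgroup.centralizer (U : Set X) := by
      rw [Subgroup.mem_centralizer_iff]
      intro u hu
      have hu' : u ∈ U := hu
      -- c u c⁻¹ = a'⁻¹ u a'
      have h1 : ∀ w ∈ U, c * w = a'⁻¹ * w * a' * c := by
        intro w hw
        have h2 := hc _ (hi' w hw)
        rw [hcdef]
        calc a * a'⁻¹ * w = a * (a'⁻¹ * w * a') * a'⁻¹ := by group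
          _ = (a'⁻¹ * w * a') * a * a'⁻¹ := by rw [← h2]
          _ = _ := by group
      have h3 : a' ^ 2 * u = u * a' ^ 2 := hab _ hsq _ (hUE hu')
      have h4 : a'⁻¹ * (a'⁻¹ * u * a') * a' = u := by
        calc a'⁻¹ * (a'⁻¹ * u * a') * a' = (a' ^ 2)⁻¹ * (u * a' ^ 2) := by
              simp only [pow_two, mul_inv_rev, mul_assoc]
          _ = u := by rw [← h3, inv_mul_cancel_left]
      calc u * c ^ 2 = a'⁻¹ * (a'⁻¹ * u * a') * a' * c * c := by rw [h4, pow_two, mul_assoc]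
        _ = c * (a'⁻¹ * u * a') * c := by rw [← h1 _ (hi' u hu')]
        _ = c * (a'⁻¹ * u * a' * c) := by simp only [mul_assoc]
        _ = c * (c * u) := by rw [← h1 u hu']
        _ = c ^ 2 * u := by rw [pow_two, mul_assoc]
    have hd2 : (c ^ j) ^ 2 ∈ Subgroup.centralizer (U : Set X) := by
      rw [← pow_mul, mul_comm, pow_mul]
      exact Subgroup.pow_mem _ hc2 _
    have e : c ^ j = (((c ^ j) ^ 2) ^ k)⁻¹ := by
      rw [eq_inv_iff_mul_eq_one, ← pow_mul, ← pow_succ']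
      exact hdn
    rw [e]
    exact Subgroup.inv_mem _ (Subgroup.pow_mem _ hd2 _)

end Cfsg.Agent.Lib.H87CNTwoD
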