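import Cfsg.Agent.Lib.H87CNPow
import Cfsg.Agent.Lib.H87CNCompl
import Cfsg.Agent.Lib.H87CNMulPow
import Cfsg.Agent.Lib.H87CNOdd
import Cfsg.Agent.Lib.H87CNTwoA
import Cfsg.Agent.Lib.H87CNTwoB
import Cfsg.Agent.Lib.H87CNTwoC
import Cfsg.Agent.Lib.H87CNTwoD
import Cfsg.Agent.Lib.Helper52S4

/-!
Project 3788 (row S3788), assembly Core: the theorem in a group `X` with a self-centralising normal elementary abelian
`p`-subgroup `E`.
-/

set_option autoImplicit false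

namespace Cfsg.Agent.Lib.H87CNCore

open Cfsg.Agent.Lib

theorem odd_case {X : Type*} [Group X] [Finite X] {p : ℕ} [Fact p.Prime] (hp : p ≠ 2)
    (E R : Subgroup X) [E.Normal] [R.Normal] (hER : E ≤ R)
    (hab : ∀ x ∈ E, ∀ y ∈ E, x * y = y * x) (hexp : ∀ x ∈ E, x ^ p = 1)
    (hC : Subgroup.centralizer (E : Set X) ≤ E)
    (hcop : (E.relIndex R).Coprime p)
    (a : X) (hA : ∀ w ∈ E, a * w * a⁻¹ * w⁻¹ ∈ Subgroup.zpowers a) :
    ∀ r ∈ R, a * r * a⁻¹ * r⁻¹ ∈ E := by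
  intro r hr
  have hEn : E.Normal := inferInstance
  by_cases haE : a ∈ E
  · have h1 : r * a⁻¹ * r⁻¹ ∈ E := hEn.conj_mem _ (E.inv_mem haE) r
    have : a * r * a⁻¹ * r⁻¹ = a * (r * a⁻¹ * r⁻¹) := by group
    rw [this]; exact E.mul_mem haE h1
  have hap : a ^ p ∈ E := H87CNPow.pow_mem E hexp hC a hA
  have hEp : IsPGroup p E := by
    intro x
    refine ⟨1, ?_⟩
    apply Subtype.ext
    simpa using hexp x x.2
  obtain ⟨L, hLR, hLE, hLc, hdec, hfr⟩ := H87CNCompl.exists_compl E R hER hEp hcop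
  obtain ⟨v, hv, hn⟩ := hfr a
  have hnp : (a * v) ^ p = a ^ p := H87CNMulPow.mul_pow_eq hp E hab hexp a v hv (hA v hv)
  have hcomm : ∀ w ∈ E, (a * v) * w * (a * v)⁻¹ * w⁻¹ ∈ Subgroup.zpowers ((a * v) ^ p) := by
    intro w hw
    rw [hnp]
    have h1 : (a * v) * w * (a * v)⁻¹ * w⁻¹ = a * w * a⁻¹ * w⁻¹ := by
      have : v * w * v⁻¹ = w := by rw [hab v hv w hw]; group
      calc (a * v) * w * (a * v)⁻¹ * w⁻¹ = a * (v * w * v⁻¹) * a⁻¹ * w⁻¹ := by group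
        _ = a * w * a⁻¹ * w⁻¹ := by rw [this]
    rw [h1]
    have h2 : a * w * a⁻¹ * w⁻¹ ∈ E := E.mul_mem (hEn.conj_mem _ hw a) (E.inv_mem hw)
    exact H87CNPow.comm_mem E a hap haE _ h2 (hA w hw)
  have key := H87CNOdd.comm_eq_one E L hab hexp hC hLE hLc (a * v) hn (by rw [hnp]; exact hap) hcomm
  obtain ⟨e, he, l, hl, rfl⟩ := hdec r hr
  rw [← QuotientGroup.eq_one_iff]
  have h1 : ((a * v : X) : X ⧸ E) = (a : X ⧸ E) := by
    rw [QuotientGroup.mk_mul, (QuotientGroup.eq_one_iff v).2 hv, mul_one]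
  have h2 : ((e * l : X) : X ⧸ E) = (l : X ⧸ E) := by
    rw [QuotientGroup.mk_mul, (QuotientGroup.eq_one_iff e).2 he, one_mul]
  have h3 : (((a * v) * l * (a * v)⁻¹ : X) : X ⧸ E) = (l : X ⧸ E) := by rw [key l hl]
  simp only [QuotientGroup.mk_mul, QuotientGroup.mk_inv] at h1 h2 h3 ⊢
  rw [h2]
  rw [h1] at h3
  rw [h3, mul_inv_cancel]

theorem two_case {X : Type*} [Group X] [Finite X]
    (E R : Subgroup X) [E.Normal] [R.Normal] (hER : E ≤ R)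
    (hab : ∀ x ∈ E, ∀ y ∈ E, x * y = y * x) (hexp : ∀ x ∈ E, x ^ 2 = 1)
    (hC : Subgroup.centralizer (E : Set X) ≤ E)
    (hcop : (E.relIndex R).Coprime 2)
    (a : X) (ha : ∃ k : ℕ, a ^ 2 ^ k = 1)
    (hA : ∀ w ∈ E, a * w * a⁻¹ * w⁻¹ ∈ Subgroup.zpowers a)
    (r : X) (hr : r ∈ R) (hra : a * r * a⁻¹ * r⁻¹ ∉ E) :
    Cfsg.Involves (Equiv.Perm (Fin 4)) X := by
  have hEn : E.Normal := inferInstance
  have hRn : R.Normal := inferInstance
  have : Fact (Nat.Prime 2) := ⟨Nat.prime_two⟩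
  have haE : a ∉ E := by
    intro haE
    apply hra
    have h1 : r * a⁻¹ * r⁻¹ ∈ E := hEn.conj_mem _ (E.inv_mem haE) r
    have : a * r * a⁻¹ * r⁻¹ = a * (r * a⁻¹ * r⁻¹) := by group
    rw [this]; exact E.mul_mem haE h1
  have hap : a ^ 2 ∈ E := H87CNPow.pow_mem E hexp hC a hA
  set b := a ^ 2 with hb
  have hA' : ∀ w ∈ E, a * w * a⁻¹ * w⁻¹ ∈ Subgroup.zpowers b := by
    intro w hw
    have h2 : a * w * a⁻¹ * w⁻¹ ∈ E := E.mul_mem (hEn.conj_mem _ hw a) (E.inv_mem hw)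
    exact H87CNPow.comm_mem E a hap haE _ h2 (hA w hw)
  set b' := r * b * r⁻¹ with hb'
  have hb'E : b' ∈ E := hEn.conj_mem _ hap r
  set U := Subgroup.closure {b, b'} with hU
  obtain ⟨h1, h2, h3⟩ := H87CNTwoA.comm_mem_closure E a b r hap hA'
  have hUE : U ≤ E := by
    rw [hU, Subgroup.closure_le]
    rintro x (rfl | rfl)
    · exact hap
    · exact hb'E
  have hUc : Nat.card U ∣ 4 :=
    H87CNTwoA.card_closure_dvd b b' (hexp b hap) (hexp b' hb'E) (hab b hap b' hb'E)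
  set c := a * r * a⁻¹ * r⁻¹ with hc
  have hcR : c ∈ R := by
    have h4 : a * r * a⁻¹ ∈ R := hRn.conj_mem _ hr a
    exact R.mul_mem h4 (R.inv_mem hr)
  obtain ⟨j, hodd, hjE⟩ := H87CNTwoC.exists_odd_pow E R hER hcop c hcR hra
  have hdE := H87CNTwoC.pow_comm_mem E U hUE c h3 j
  have hdC : c ^ j ∉ Subgroup.centralizer (E : Set X) := fun h => hjE (hC h)
  obtain ⟨hcard, hdN, hdU⟩ := H87CNTwoB.card_eq_four E U hUE hexp hUc (c ^ j) hodd hdE hdC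
  have hca : c = a * (r * a * r⁻¹)⁻¹ := by rw [hc]; group
  have hsq : (r * a * r⁻¹) ^ 2 ∈ E := by
    have : (r * a * r⁻¹) ^ 2 = r * a ^ 2 * r⁻¹ := by rw [conj_pow]
    rw [this]; exact hb'E
  obtain ⟨haN, haU⟩ := H87CNTwoD.not_centralizes E U hUE hab a (r * a * r⁻¹) h1 h2 hsq j
    (by rw [← hca]; exact hodd) (by rw [← hca]; exact hdU)
  exact Helper52S4.involves_S4 U hcard (c ^ j) a hdN haN hodd hdU ha haU

/-- **Core**. -/
theorem core {X : Type*} [Group X] [Finite X] {p : ℕ} [Fact p.Prime]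
    (E R : Subgroup X) [E.Normal] [R.Normal] (hER : E ≤ R)
    (hab : ∀ x ∈ E, ∀ y ∈ E, x * y = y * x) (hexp : ∀ x ∈ E, x ^ p = 1)
    (hC : Subgroup.centralizer (E : Set X) ≤ E)
    (hcop : (E.relIndex R).Coprime p)
    (a : X) (ha : ∃ k : ℕ, a ^ p ^ k = 1)
    (hA : ∀ w ∈ E, a * w * a⁻¹ * w⁻¹ ∈ Subgroup.zpowers a)
    (h : p ≠ 2 ∨ ¬ Cfsg.Involves (Equiv.Perm (Fin 4)) X) :
    ∀ r ∈ R, a * r * a⁻¹ * r⁻¹ ∈ E := by
  by_cases hp : p = 2
  · subst hp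
    intro r hr
    by_contra hra
    rcases h with h | h
    · exact h rfl
    · exact h (two_case E R hER hab hexp hC hcop a ha hA r hr hra)
  · exact odd_case hp E R hER hab hexp hC hcop a hA

end Cfsg.Agent.Lib.H87CNCore
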