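import Cfsg.Agent.Lib.Helper55HH
import Cfsg.Agent.Lib.Helper67Kazarin3
import Cfsg.Agent.Lib.Helper38PSolv
import Cfsg.Agent.Lib.Helper60Core

/-!
Project 3788 (row S3788), piece Fin.
-/

set_option autoImplicit false

namespace Cfsg.Agent.Lib.H87CNFin

open Cfsg

/-- A `p`-element `a` of a `p`-solvable group `H` centralising `O_{p'}(H / O_p(H))` lies in `O_p(H)`.
Proof: `Hb = H ⧸ pCore p H` is `p`-solvable (`Helper38PSolv.isPSolvable_quotient`), `pCore p Hb = ⊥`
(`Helper67Kazarin3.pCore_quotient_pCore`), so `Helper55HH.centralizer_pPrimeCore_le` applies: `mk a ∈ pPrimeCore p Hb`,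
whose order is prime to `p` (`Helper60Core.card_pPrimeCore_coprime`); `(mk a)^(p^k) = 1`; so `mk a = 1`. -/
theorem mem_pCore {H : Type*} [Group H] [Finite H] {p : ℕ} [Fact p.Prime] (hs : IsPSolvable p H)
    (a : H) (ha : ∃ k : ℕ, a ^ p ^ k = 1)
    (hK : ∀ r ∈ (pPrimeCore p (H ⧸ pCore p H)).comap (QuotientGroup.mk' (pCore p H)),
      a * r * a⁻¹ * r⁻¹ ∈ pCore p H) : a ∈ pCore p H := by
  have hs' : IsPSolvable p (H ⧸ pCore p H) :=
    Cfsg.Agent.Lib.Helper38PSolv.isPSolvable_quotient (pCore p H) hs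
  have hb : pCore p (H ⧸ pCore p H) = ⊥ := Cfsg.Agent.Lib.Helper67Kazarin3.pCore_quotient_pCore p
  have hle := Cfsg.Agent.Lib.Helper55HH.centralizer_pPrimeCore_le hs' hb
  have hmem : (QuotientGroup.mk' (pCore p H) a) ∈ pPrimeCore p (H ⧸ pCore p H) := by
    apply hle
    rw [Subgroup.mem_centralizer_iff]
    intro y hy
    obtain ⟨r, rfl⟩ := QuotientGroup.mk'_surjective (pCore p H) y
    have h1 := hK r (by rw [Subgroup.mem_comap]; exact hy)
    rw [← QuotientGroup.eq_one_iff] at h1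
    have h2 : (QuotientGroup.mk' (pCore p H) a) * (QuotientGroup.mk' (pCore p H) r) *
        (QuotientGroup.mk' (pCore p H) a)⁻¹ * (QuotientGroup.mk' (pCore p H) r)⁻¹ = 1 := h1
    rw [mul_inv_eq_one, mul_inv_eq_iff_eq_mul] at h2
    exact h2.symm
  have hcop := Cfsg.Agent.Lib.Helper60Core.card_pPrimeCore_coprime (G := H ⧸ pCore p H) p
  obtain ⟨k, hk⟩ := ha
  have h3 : (QuotientGroup.mk' (pCore p H) a) ^ p ^ k = 1 := by
    rw [← map_pow, hk, map_one]
  have h4 : orderOf (QuotientGroup.mk' (pCore p H) a) ∣ p ^ k := orderOf_dvd_of_pow_eq_one h3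
  have h5 : orderOf (QuotientGroup.mk' (pCore p H) a) ∣ Nat.card (pPrimeCore p (H ⧸ pCore p H)) := by
    have := orderOf_dvd_natCard (⟨_, hmem⟩ : pPrimeCore p (H ⧸ pCore p H))
    rwa [Subgroup.orderOf_mk] at this
  have h6 : orderOf (QuotientGroup.mk' (pCore p H) a) = 1 :=
    Nat.eq_one_of_dvd_coprimes (Nat.Coprime.pow_right k hcop) h5 h4
  rw [orderOf_eq_one_iff] at h6
  exact (QuotientGroup.eq_one_iff a).mp h6

/-- `|K : O_p(H)|` is prime to `p` for the preimage `K` of `O_{p'}(H / O_p(H))`.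
(`Helper60Core.card_pPrimeCore_coprime`; `relIndex` of comaps: `Subgroup.relIndex_comap`, or cards:
`Helper60Core.card_comap_of_surjective`, `Helper60Core.card_mul_relIndex`.) -/
theorem relIndex_coprime {H : Type*} [Group H] [Finite H] {p : ℕ} [Fact p.Prime] :
    ((pCore p H).relIndex ((pPrimeCore p (H ⧸ pCore p H)).comap (QuotientGroup.mk' (pCore p H)))).Coprime p := by
  have hcop := Cfsg.Agent.Lib.Helper60Core.card_pPrimeCore_coprime (G := H ⧸ pCore p H) p
  have hle : pCore p H ≤ (pPrimeCore p (H ⧸ pCore p H)).comap (QuotientGroup.mk' (pCore p H)) := by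
    intro x hx
    rw [Subgroup.mem_comap]
    have : QuotientGroup.mk' (pCore p H) x = 1 := (QuotientGroup.eq_one_iff x).mpr hx
    rw [this]
    exact Subgroup.one_mem _
  have h1 := Cfsg.Agent.Lib.Helper60Core.card_mul_relIndex hle
  have h2 := Cfsg.Agent.Lib.Helper60Core.card_comap_of_surjective
    (QuotientGroup.mk'_surjective (pCore p H)) (pPrimeCore p (H ⧸ pCore p H))
  rw [QuotientGroup.ker_mk'] at h2
  rw [h2] at h1
  have h3 : 0 < Nat.card (pCore p H) := Nat.card_pos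
  have h4 := Nat.eq_of_mul_eq_mul_left h3 h1
  rw [h4]
  exact hcop

end Cfsg.Agent.Lib.H87CNFin
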