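import Cfsg.Agent.Lib.H87CNRel
import Cfsg.Agent.Lib.H87CNFin
import Cfsg.Agent.S4218
import Cfsg.Agent.S0012

/-!
Project 3788 (row S3788), assembly Main: the theorem when `O_{p'}(H) = 1`.
-/

set_option autoImplicit false

namespace Cfsg.Agent.Lib.H87CNMain

open Cfsg Cfsg.Agent.Lib

theorem main {H : Type*} [Group H] [Finite H] {p : ℕ} [Fact p.Prime] (hs : IsPSolvable p H)
    (h0 : pPrimeCore p H = ⊥) (a : H) (ha : ∃ k : ℕ, a ^ p ^ k = 1)
    (hA : ∀ w ∈ pCore p H, a * w * a⁻¹ * w⁻¹ ∈ Subgroup.zpowers a)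
    (h : p ≠ 2 ∨ ¬ Involves (Equiv.Perm (Fin 4)) H) : a ∈ pCore p H := by
  set V := pCore p H with hV
  have hVn : V.Normal := inferInstance
  have hVp : IsPGroup p V := Helper60Core.pCore_isPGroup p
  set Φ := (frattini V).map V.subtype with hΦ
  have hΦn : Φ.Normal := ConjAct.normal_of_characteristic_of_normal
  set K := (pPrimeCore p (H ⧸ V)).comap (QuotientGroup.mk' V) with hK
  have hKn : K.Normal := inferInstance
  have hΦV : Φ ≤ V := Subgroup.map_subtype_le _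
  have hVK : V ≤ K := by
    intro x hx
    rw [hK, Subgroup.mem_comap]
    have : QuotientGroup.mk' V x = 1 := (QuotientGroup.eq_one_iff x).2 hx
    rw [this]; exact Subgroup.one_mem _
  obtain ⟨hc, hpw⟩ := Cfsg.Agent.S0012.result p hVp
  have hab : ∀ x ∈ V, ∀ y ∈ V, x * y * x⁻¹ * y⁻¹ ∈ Φ := by
    intro x hx y hy
    refine Subgroup.mem_map.2 ⟨(⟨x, hx⟩ : V) * ⟨y, hy⟩ * (⟨x, hx⟩ : V)⁻¹ * (⟨y, hy⟩ : V)⁻¹, ?_, rfl⟩
    apply hc
    have := Subgroup.commutator_mem_commutator (Subgroup.mem_top (⟨x, hx⟩ : V))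
      (Subgroup.mem_top (⟨y, hy⟩ : V))
    rwa [commutatorElement_def] at this
  have hexp : ∀ x ∈ V, x ^ p ∈ Φ := by
    intro x hx
    exact Subgroup.mem_map.2 ⟨(⟨x, hx⟩ : V) ^ p, hpw _, rfl⟩
  have hC : ∀ g : H, (∀ w ∈ V, g * w * g⁻¹ * w⁻¹ ∈ Φ) → g ∈ V :=
    fun g hg => Cfsg.Agent.S4218.core hs h0 g hg
  have key := H87CNRel.rel Φ V K hΦV hVK hab hexp hC H87CNFin.relIndex_coprime a ha hA h
  exact H87CNFin.mem_pCore hs a ha key

end Cfsg.Agent.Lib.H87CNMain
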