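import Mathlib

/-!
Project 3788 (row S3788), piece Pow.  PURE MATHLIB.
-/

set_option autoImplicit false

namespace Cfsg.Agent.Lib.H87CNPow

theorem conj_pow {X : Type*} [Group X] (g w z : X) (hz : g * w * g⁻¹ = z * w) (hc : g * z = z * g)
    (k : ℕ) : g ^ k * w * (g ^ k)⁻¹ = z ^ k * w := by
  induction k with
  | zero => simp
  | succ k ih =>
    have e : g ^ (k + 1) * w * (g ^ (k + 1))⁻¹ = g * (g ^ k * w * (g ^ k)⁻¹) * g⁻¹ := by
      rw [pow_succ']; group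
    have hck : g * z ^ k = z ^ k * g := (Commute.pow_right (show Commute g z from hc) k).eq
    rw [e, ih]
    calc g * (z ^ k * w) * g⁻¹ = (g * z ^ k) * w * g⁻¹ := by group
      _ = z ^ k * (g * w * g⁻¹) := by rw [hck]; group
      _ = z ^ (k + 1) * w := by rw [hz, pow_succ]; group

/-- `E` normal of exponent `p`, self-centralising; all `[a,w]`, `w ∈ E`, are powers of `a`. Then `a ^ p ∈ E`. -/
theorem pow_mem {X : Type*} [Group X] {p : ℕ} (E : Subgroup X) [hE : E.Normal]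
    (hexp : ∀ x ∈ E, x ^ p = 1) (hC : Subgroup.centralizer (E : Set X) ≤ E)
    (a : X) (hA : ∀ w ∈ E, a * w * a⁻¹ * w⁻¹ ∈ Subgroup.zpowers a) : a ^ p ∈ E := by
  apply hC
  rw [Subgroup.mem_centralizer_iff]
  intro w hw
  have hzE : a * w * a⁻¹ * w⁻¹ ∈ E := E.mul_mem (hE.conj_mem w hw a) (E.inv_mem hw)
  obtain ⟨j, hj⟩ := Subgroup.mem_zpowers_iff.1 (hA w hw)
  have hc : a * (a * w * a⁻¹ * w⁻¹) = (a * w * a⁻¹ * w⁻¹) * a := by
    rw [← hj]
    exact ((Commute.refl a).zpow_right j).eq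
  have h1 := conj_pow a w (a * w * a⁻¹ * w⁻¹) (by group) hc p
  rw [hexp _ hzE, one_mul] at h1
  exact (mul_inv_eq_iff_eq_mul.1 h1).symm

/-- If `a ∉ E`, `a ^ p ∈ E`, then every power of `a` lying in `E` is a power of `a ^ p`. -/
theorem comm_mem {X : Type*} [Group X] {p : ℕ} [hp : Fact p.Prime] (E : Subgroup X)
    (a : X) (hap : a ^ p ∈ E) (haE : a ∉ E) (z : X) (hz : z ∈ E)
    (h : z ∈ Subgroup.zpowers a) : z ∈ Subgroup.zpowers (a ^ p) := by
  obtain ⟨j, rfl⟩ := Subgroup.mem_zpowers_iff.1 h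
  by_cases hd : (p : ℤ) ∣ j
  · obtain ⟨k, rfl⟩ := hd
    rw [Subgroup.mem_zpowers_iff]
    exact ⟨k, by rw [zpow_mul, zpow_natCast]⟩
  · exfalso
    apply haE
    have hcop : IsCoprime (p : ℤ) j :=
      ((Nat.prime_iff_prime_int.1 hp.out).coprime_iff_not_dvd).2 hd
    obtain ⟨u, v, huv⟩ := hcop
    have e : a = (a ^ p) ^ u * (a ^ j) ^ v := by
      rw [← zpow_natCast, ← zpow_mul, ← zpow_mul, ← zpow_add, mul_comm (p : ℤ) u, mul_comm j v, huv,
        zpow_one]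
    rw [e]
    exact E.mul_mem (E.zpow_mem hap u) (E.zpow_mem hz v)

end Cfsg.Agent.Lib.H87CNPow
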