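import Cfsg.Agent.Lib.H87CNCore
import Cfsg.Agent.Lib.Helper24Section
import Cfsg.Agent.Lib.Helper80PSolv

/-!
Project 3788 (row S3788), piece Rel: the relative form of `H87CNCore.core` (pass to `G ⧸ Φ`).
-/

set_option autoImplicit false

namespace Cfsg.Agent.Lib.H87CNRel

theorem rel {G : Type*} [Group G] [Finite G] {p : ℕ} [Fact p.Prime]
    (Φ V K : Subgroup G) [hΦ : Φ.Normal] [hV : V.Normal] [hK : K.Normal] (hΦV : Φ ≤ V) (hVK : V ≤ K)
    (hab : ∀ x ∈ V, ∀ y ∈ V, x * y * x⁻¹ * y⁻¹ ∈ Φ) (hexp : ∀ x ∈ V, x ^ p ∈ Φ)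
    (hC : ∀ g : G, (∀ w ∈ V, g * w * g⁻¹ * w⁻¹ ∈ Φ) → g ∈ V)
    (hcop : (V.relIndex K).Coprime p)
    (a : G) (ha : ∃ k : ℕ, a ^ p ^ k = 1)
    (hA : ∀ w ∈ V, a * w * a⁻¹ * w⁻¹ ∈ Subgroup.zpowers a)
    (h : p ≠ 2 ∨ ¬ Cfsg.Involves (Equiv.Perm (Fin 4)) G) :
    ∀ r ∈ K, a * r * a⁻¹ * r⁻¹ ∈ V := by
  have hsurj := QuotientGroup.mk'_surjective Φ
  have hEn : (V.map (QuotientGroup.mk' Φ)).Normal := hV.map _ hsurj
  have hRn : (K.map (QuotientGroup.mk' Φ)).Normal := hK.map _ hsurj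
  have hmem : ∀ g : G, QuotientGroup.mk' Φ g ∈ V.map (QuotientGroup.mk' Φ) → g ∈ V := by
    intro g hg
    obtain ⟨v, hv, hvg⟩ := hg
    have h1 : v⁻¹ * g ∈ Φ := by
      rw [← QuotientGroup.eq_one_iff]
      have : QuotientGroup.mk' Φ (v⁻¹ * g) = 1 := by rw [map_mul, map_inv, hvg, inv_mul_cancel]
      exact this
    have : g = v * (v⁻¹ * g) := by group
    rw [this]
    exact V.mul_mem hv (hΦV h1)
  have key := H87CNCore.core (p := p) (V.map (QuotientGroup.mk' Φ)) (K.map (QuotientGroup.mk' Φ))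
    (Subgroup.map_mono hVK) ?_ ?_ ?_ ?_ (QuotientGroup.mk' Φ a) ?_ ?_ ?_
  · intro r hr
    apply hmem
    have := key _ (Subgroup.mem_map_of_mem _ hr)
    simpa only [map_mul, map_inv] using this
  · rintro _ ⟨x, hx, rfl⟩ _ ⟨y, hy, rfl⟩
    have h1 : QuotientGroup.mk' Φ (x * y * x⁻¹ * y⁻¹) = 1 :=
      (QuotientGroup.eq_one_iff _).2 (hab x hx y hy)
    rw [map_mul, map_mul, map_mul, map_inv, map_inv] at h1
    have h2 := mul_inv_eq_one.1 h1
    exact mul_inv_eq_iff_eq_mul.1 h2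
  · rintro _ ⟨x, hx, rfl⟩
    rw [← map_pow]
    exact (QuotientGroup.eq_one_iff _).2 (hexp x hx)
  · intro x hx
    obtain ⟨g, rfl⟩ := hsurj x
    apply Subgroup.mem_map_of_mem
    apply hC
    intro w hw
    rw [Subgroup.mem_centralizer_iff] at hx
    have h1 := hx _ (Subgroup.mem_map_of_mem (QuotientGroup.mk' Φ) hw)
    rw [← QuotientGroup.eq_one_iff]
    show QuotientGroup.mk' Φ (g * w * g⁻¹ * w⁻¹) = 1
    rw [map_mul, map_mul, map_mul, map_inv, map_inv, ← h1]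
    group
  · exact Nat.Coprime.coprime_dvd_left (Helper80PSolv.relIndex_map_dvd _ hVK) hcop
  · obtain ⟨k, hk⟩ := ha
    exact ⟨k, by rw [← map_pow, hk, map_one]⟩
  · rintro _ ⟨w, hw, rfl⟩
    obtain ⟨j, hj⟩ := Subgroup.mem_zpowers_iff.1 (hA w hw)
    rw [Subgroup.mem_zpowers_iff]
    refine ⟨j, ?_⟩
    rw [← map_zpow, hj]
    simp only [map_mul, map_inv]
  · rcases h with h | h
    · exact Or.inl h
    · right
      intro hinv
      exact h (Helper24Section.Involves.trans hinv (Helper24Section.involves_quotient Φ))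

end Cfsg.Agent.Lib.H87CNRel
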