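import Cfsg.Agent.Lib.Helper92HHDefs
import Cfsg.Agent.Lib.H92HHWeight

/-!
Project 3789: three conjugate joint eigenspaces `wt S l`, `d (wt S l)`, `d² (wt S l)` are independent
(`d` of odd order normalising `S`, not fixing the weight `l`).
-/

set_option autoImplicit false

namespace Cfsg.Agent.Lib.Helper30DLThree

open Cfsg.Agent.Lib.Helper92HHDefs

variable {K V : Type*} [Field K] [AddCommGroup V] [Module K V]

/-- `e⁻¹ s e` -/
def cjE (e : (Module.End K V)ˣ) (s : Module.End K V) : Module.End K V :=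
  ((e⁻¹ : (Module.End K V)ˣ) : Module.End K V) * s * (e : Module.End K V)

theorem cjE_mul (e f : (Module.End K V)ˣ) (s : Module.End K V) : cjE (e * f) s = cjE f (cjE e s) := by
  unfold cjE
  rw [mul_inv_rev, Units.val_mul, Units.val_mul]
  noncomm_ring

theorem cjE_one (s : Module.End K V) : cjE (1 : (Module.End K V)ˣ) s = s := by
  unfold cjE
  simp

theorem mul_cjE (e : (Module.End K V)ˣ) (s : Module.End K V) :
    (e : Module.End K V) * cjE e s = s * (e : Module.End K V) := by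
  unfold cjE
  rw [← mul_assoc, ← mul_assoc, Units.mul_inv, one_mul]

theorem stab_pow {S : Set (Module.End K V)} {e : (Module.End K V)ˣ} (h : ∀ s ∈ S, cjE e s ∈ S) (j : ℕ) :
    ∀ s ∈ S, cjE (e ^ j) s ∈ S := by
  induction j with
  | zero => intro s hs; rw [pow_zero, cjE_one]; exact hs
  | succ j ih => intro s hs; rw [pow_succ, cjE_mul]; exact h _ (ih s hs)

theorem map_wt {S : Set (Module.End K V)} {l : Module.End K V → K} {e : (Module.End K V)ˣ}
    (h : ∀ s ∈ S, cjE e s ∈ S) {u : V} (hu : u ∈ wt S l) :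
    (e : Module.End K V) u ∈ wt S (fun s => l (cjE e s)) := by
  rw [mem_wt] at hu ⊢
  intro s hs
  have h1 := hu _ (h s hs)
  have h2 : s ((e : Module.End K V) u) = (e : Module.End K V) (cjE e s u) := by
    have := congrArg (fun T : Module.End K V => T u) (mul_cjE e s)
    exact this.symm
  rw [h2, h1, map_smul]

/-- stability under `s ↦ d s d⁻¹` and `d ^ N = 1`, `N ≥ 1` give stability under `s ↦ d⁻¹ s d` -/
theorem stab_of_conj {S : Set (Module.End K V)} {d : (Module.End K V)ˣ} {N : ℕ} (hN : 1 ≤ N)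
    (hd : d ^ N = 1)
    (hdS : ∀ s ∈ S, (d : Module.End K V) * s * ((d⁻¹ : (Module.End K V)ˣ) : Module.End K V) ∈ S) :
    (∀ s ∈ S, cjE d s ∈ S) ∧ (∀ s ∈ S, cjE d⁻¹ s ∈ S) := by
  have h1 : ∀ s ∈ S, cjE d⁻¹ s ∈ S := by
    intro s hs
    have := hdS s hs
    unfold cjE
    rwa [inv_inv]
  refine ⟨?_, h1⟩
  have e : d = d⁻¹ ^ (N - 1) := by
    have h2 : d ^ (N - 1) * d = 1 := by rw [← pow_succ, Nat.sub_add_cancel hN, hd]
    rw [inv_pow]
    exact (inv_eq_of_mul_eq_one_right h2).symm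
  intro s hs
  rw [e]
  exact stab_pow h1 _ s hs

theorem three_zero {S : Set (Module.End K V)} {l : Module.End K V → K} {d : (Module.End K V)ˣ} {N : ℕ}
    (hN : Odd N) (hd : d ^ N = 1)
    (hdS : ∀ s ∈ S, (d : Module.End K V) * s * ((d⁻¹ : (Module.End K V)ˣ) : Module.End K V) ∈ S)
    (hne : ∃ s ∈ S, l (cjE d s) ≠ l s) {a0 a1 a2 : V} (h0 : a0 ∈ wt S l)
    (h1 : a1 ∈ wt S (fun s => l (cjE d s))) (h2 : a2 ∈ wt S (fun s => l (cjE (d ^ 2) s)))
    (hsum : a0 + a1 + a2 = 0) : a0 = 0 := by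
  obtain ⟨st, st'⟩ := stab_of_conj hN.pos hd hdS
  obtain ⟨s₀, hs₀, hs₀ne⟩ := hne
  have A12 : ∃ s ∈ S, l (cjE d s) ≠ l (cjE (d ^ 2) s) := by
    by_contra hcon
    push Not at hcon
    have := hcon _ (st' s₀ hs₀)
    rw [← cjE_mul, ← cjE_mul, inv_mul_cancel, cjE_one, pow_two, ← mul_assoc, inv_mul_cancel, one_mul] at this
    exact hs₀ne this.symm
  have A02 : ∃ s ∈ S, l s ≠ l (cjE (d ^ 2) s) := by
    by_contra hcon
    push Not at hcon
    have st2 : ∀ s ∈ S, cjE (d ^ 2) s ∈ S := stab_pow st 2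
    have ind : ∀ j : ℕ, ∀ s ∈ S, l s = l (cjE ((d ^ 2) ^ j) s) := by
      intro j
      induction j with
      | zero => intro s _; rw [pow_zero, cjE_one]
      | succ j ih =>
        intro s hs
        rw [pow_succ, cjE_mul, ← hcon _ (stab_pow st2 j s hs)]
        exact ih s hs
    obtain ⟨r, hr⟩ := hN
    have e : (d ^ 2) ^ (r + 1) = d := by
      rw [← pow_mul]
      have : 2 * (r + 1) = N + 1 := by omega
      rw [this, pow_succ, hd, one_mul]
    have := ind (r + 1) s₀ hs₀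
    rw [e] at this
    exact hs₀ne this.symm
  obtain ⟨s₁, hs₁, hs₁ne⟩ := A12
  obtain ⟨s₂, hs₂, hs₂ne⟩ := A02
  have hind := Cfsg.Agent.Lib.H92HHWeight.wt_indep S
    (![l, fun s => l (cjE d s), fun s => l (cjE (d ^ 2) s)] : Fin 3 → Module.End K V → K) (by
      intro i j hij
      fin_cases i <;> fin_cases j
      · exact absurd rfl hij
      · exact ⟨s₀, hs₀, hs₀ne.symm⟩
      · exact ⟨s₂, hs₂, hs₂ne⟩
      · exact ⟨s₀, hs₀, hs₀ne⟩
      · exact absurd rfl hij
      · exact ⟨s₁, hs₁, hs₁ne⟩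
      · exact ⟨s₂, hs₂, hs₂ne.symm⟩
      · exact ⟨s₁, hs₁, hs₁ne.symm⟩
      · exact absurd rfl hij)
  rw [iSupIndep_iff_finsetSum_eq_zero_imp_eq_zero] at hind
  have := hind Finset.univ ![a0, a1, a2] (by
    intro i _
    fin_cases i
    · exact h0
    · exact h1
    · exact h2) (by rw [Fin.sum_univ_three]; exact hsum) 0 (Finset.mem_univ _)
  exact this

end Cfsg.Agent.Lib.Helper30DLThree
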