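import Cfsg.Agent.Lib.Helper87DLDefs
import Cfsg.Agent.Lib.H92HHWeight
import Cfsg.Agent.Lib.Helper30DLThree

/-!
Project 3789 (row S3789), piece AbD.
-/

set_option autoImplicit false

namespace Cfsg.Agent.Lib.H87DLAbD

open Cfsg.Agent.Lib.Helper92HHDefs Cfsg.Agent.Lib.Helper87DLDefs Cfsg.Agent.Lib.Helper30DLThree

variable {K V : Type*} [Field K] [AddCommGroup V] [Module K V]

/-- `Q = [Q,x]` cannot act as an abelian group on a nonzero `Q`-invariant subspace `U` with `C_U(Q) = 0` if `(x-1)^2 = 0`, `x^p = 1`, `p` odd.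

Proof. `H92HHWeight.exists_weight` (S = operators of `Q`, on `U`): `m ∈ U`, `m ≠ 0`, `g m = μ g • m` for all `g ∈ Q`. `μ` is multiplicative on `Q`
(`m ≠ 0`). As `C_U(Q) = 0` some `μ g₀ ≠ 1`; by `hM.gen` (`Q` is generated by the `x u x⁻¹ u⁻¹`; note `x ^ p ^ (1-1) = x`) and multiplicativity some
`u ∈ Q` has `μ (x u x⁻¹) ≠ μ u`.  The vector `x^i m` is a joint eigenvector with weight `μ_i g = μ (x^-i g x^i)` (`hM.norm`: `Q` is `x`-invariant; `x⁻¹ = x^(p-1)`).
`μ_0, μ_1, μ_2` are pairwise distinct on `Q`: `μ_i = μ_j` (`0 ≤ i < j ≤ 2 < p`... `j - i ∈ {1,2}`) gives `μ_{j-i} = μ_0`, hence `μ_{(j-i) t} = μ_0` for all `t`, and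
`(j-i) t ≡ 1 mod p` for a suitable `t` (`p` odd prime), `x^p = 1`: `μ_1 = μ_0`, i.e. `μ (x⁻¹ g x) = μ g` for all `g ∈ Q`: contradiction with `g = x u x⁻¹`.
`wt_indep` (Fin 3): `m - 2 x m + x^2 m = (x-1)^2 m = 0` forces `m = 0`. Contradiction. -/
theorem not_abelian_on [IsAlgClosed K] [FiniteDimensional K V] (p q : ℕ) [Fact p.Prime] (hp2 : p ≠ 2)
    (Q : Subgroup (Module.End K V)ˣ) (x : (Module.End K V)ˣ) (hM : MinData' p q 1 Q x)
    (U : Submodule K V) (hU : U ≠ ⊥) (hQU : ∀ g ∈ Q, ∀ u ∈ U, (g : Module.End K V) u ∈ U)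
    (hfix : ∀ v ∈ U, (∀ g ∈ Q, (g : Module.End K V) v = v) → v = 0)
    (hquad : ((x : Module.End K V) - 1) * ((x : Module.End K V) - 1) = 0)
    (hab : ∀ b ∈ Q, ∀ g ∈ Q, ∀ u ∈ U, (b : Module.End K V) ((g : Module.End K V) u)
      = (g : Module.End K V) ((b : Module.End K V) u)) : False := by
  have hN : Odd p := (Fact.out : p.Prime).odd_of_ne_two hp2
  have hxp : x ^ p = 1 := by
    have := hM.pow
    rwa [pow_one] at this
  set S : Set (Module.End K V) := {s | ∃ g ∈ Q, s = (g : Module.End K V)} with hS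
  obtain ⟨l, m, hmU, hm0, hml⟩ := Cfsg.Agent.Lib.H92HHWeight.exists_weight S U hU
    (by rintro s ⟨g, hg, rfl⟩ u hu; exact hQU g hg u hu)
    (by rintro s ⟨g, hg, rfl⟩ s' ⟨g', hg', rfl⟩ u hu; exact hab g hg g' hg' u hu)
  have hmw : m ∈ wt S l := mem_wt.mpr hml
  have hμ : ∀ g ∈ Q, (g : Module.End K V) m = l (g : Module.End K V) • m := fun g hg => hml _ ⟨g, hg, rfl⟩
  have hdS : ∀ s ∈ S, (x : Module.End K V) * s * ((x⁻¹ : (Module.End K V)ˣ) : Module.End K V) ∈ S := by
    rintro s ⟨g, hg, rfl⟩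
    exact ⟨x * g * x⁻¹, hM.norm g hg, by simp only [Units.val_mul]⟩
  obtain ⟨st, st'⟩ := stab_of_conj hN.pos hxp hdS
  have hne : ∃ s ∈ S, l (cjE x s) ≠ l s := by
    by_contra h
    push Not at h
    apply hm0
    apply hfix m hmU
    have hle : Q ≤ MulAction.stabilizer (Module.End K V)ˣ m := by
      refine hM.gen.trans ?_
      rw [Subgroup.closure_le]
      rintro w ⟨u, hu, rfl⟩
      simp only [Nat.sub_self, pow_zero, pow_one]
      rw [SetLike.mem_coe, MulAction.mem_stabilizer_iff, Units.smul_def, Module.End.smul_def]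
      have hc := hM.norm u hu
      have h1 := h _ ⟨x * u * x⁻¹, hc, rfl⟩
      have e1 : cjE x ((x * u * x⁻¹ : (Module.End K V)ˣ) : Module.End K V) = (u : Module.End K V) := by
        unfold cjE
        rw [← Units.val_mul, ← Units.val_mul]
        congr 1
        group
      rw [e1] at h1
      have a1 := hμ _ (Q.inv_mem hu)
      have a2 := hμ _ hc
      have a3 := hμ _ hu
      have e2 : ((x * u * x⁻¹ * u⁻¹ : (Module.End K V)ˣ) : Module.End K V) m =
          ((x * u * x⁻¹ : (Module.End K V)ˣ) : Module.End K V) (((u⁻¹ : (Module.End K V)ˣ) : Module.End K V) m) := by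
        rw [Units.val_mul (x * u * x⁻¹) u⁻¹]
        rfl
      rw [e2, a1, map_smul, a2, ← h1, ← a3, ← map_smul, ← a1]
      have : (u : Module.End K V) (((u⁻¹ : (Module.End K V)ˣ) : Module.End K V) m) =
          ((u * u⁻¹ : (Module.End K V)ˣ) : Module.End K V) m := by
        rw [Units.val_mul]; rfl
      rw [this, mul_inv_cancel]
      rfl
    intro g hg
    have := hle hg
    rw [MulAction.mem_stabilizer_iff, Units.smul_def, Module.End.smul_def] at this
    exact this
  have h1 := (wt S (fun s => l (cjE x s))).smul_mem (-2 : K) (map_wt st hmw)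
  have h2 := map_wt (stab_pow st 2) hmw
  have hsum : m + (-2 : K) • ((x : Module.End K V) m) +
      (((x ^ 2 : (Module.End K V)ˣ) : Module.End K V) m) = 0 := by
    have := congrArg (fun T : Module.End K V => T m) hquad
    simp only [Module.End.mul_apply, LinearMap.sub_apply, Module.End.one_apply, LinearMap.zero_apply,
      map_sub] at this
    have e : ((x ^ 2 : (Module.End K V)ˣ) : Module.End K V) m = (x : Module.End K V) ((x : Module.End K V) m) := by
      rw [pow_two, Units.val_mul]; rfl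
    rw [e, neg_smul, two_smul, ← this]
    abel
  exact hm0 (three_zero hN hxp hdS hne hmw h1 h2 hsum)

end Cfsg.Agent.Lib.H87DLAbD
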