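import Cfsg.Agent.Lib.Helper31PLength
import Cfsg.Agent.Lib.Helper60Core

/-!
Project 3789 (row S3789), piece Base.
-/

set_option autoImplicit false

namespace Cfsg.Agent.Lib.H87DLBase

open Cfsg

/-- If a Sylow `p`-subgroup is trivial then `G = O_{p'}(G)` and the `p`-length is `0`.
Proof: `derivedSeries P 0 = ⊤` (`derivedSeries_zero`), so `↥P` is trivial, `Nat.card P = 1`, hence `p ∤ |G|` (`Sylow.card_eq_multiplicity` / `Sylow.dvd_card_of_dvd_card` / `P.card_coprime_index`
with `card_mul_index`). `⊤` is normal of order prime to `p`: `Helper60Core.le_pPrimeCore`. `PLengthLE p 0 G` unfolds to `(upperPSeries p G 1).1 = ⊤`;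
`Helper31PLength.ups_one : (upperPSeries p G 1).1 = pPrimeCore p G`. -/
theorem base {G : Type*} [Group G] [Finite G] {p : ℕ} [Fact p.Prime] (P : Sylow p G)
    (hd : derivedSeries ↥(P : Subgroup G) 0 = ⊥) : PLengthLE p 0 G := by
  rw [derivedSeries_zero] at hd
  have hcard : Nat.card (P : Subgroup G) = 1 := by
    have h1 : Nat.card (⊤ : Subgroup ↥(P : Subgroup G)) = 1 := by rw [hd]; simp
    rwa [Subgroup.card_top] at h1
  have hcop : (Nat.card G).Coprime p := by
    have h2 := Subgroup.card_mul_index (P : Subgroup G)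
    rw [hcard, one_mul] at h2
    rw [← h2]
    exact ((Nat.Prime.coprime_iff_not_dvd Fact.out).2 P.not_dvd_index).symm
  show (upperPSeries p G (2 * 0 + 1)).1 = ⊤
  rw [show 2 * 0 + 1 = 1 from rfl, Cfsg.Agent.Lib.Helper31PLength.ups_one, eq_top_iff]
  apply Cfsg.Agent.Lib.Helper60Core.le_pPrimeCore inferInstance
  rw [Subgroup.card_top]
  exact hcop

end Cfsg.Agent.Lib.H87DLBase
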