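import Cfsg.Agent.Lib.Helper87DLDefs
import Cfsg.Agent.Lib.H87DLAbD

/-!
Project 3789 (row S3789), piece CenD.
-/

set_option autoImplicit false

namespace Cfsg.Agent.Lib.H87DLCenD

open Cfsg.Agent.Lib.Helper92HHDefs Cfsg.Agent.Lib.Helper87DLDefs

variable {K V : Type*} [Field K] [AddCommGroup V] [Module K V]

/-- the elements of `Q` commuting with `Q` as operators on `U`. -/
def cenOn (Q : Subgroup (Module.End K V)ˣ) (U : Submodule K V)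
    (hQU : ∀ g ∈ Q, ∀ u ∈ U, g • u ∈ U) : Subgroup (Module.End K V)ˣ where
  carrier := {b | b ∈ Q ∧ ∀ g ∈ Q, ∀ u ∈ U, b • g • u = g • b • u}
  one_mem' := ⟨one_mem _, fun g _ u _ => by rw [one_smul, one_smul]⟩
  mul_mem' := by
    rintro b b' ⟨hb, hbc⟩ ⟨hb', hbc'⟩
    refine ⟨mul_mem hb hb', fun g hg u hu => ?_⟩
    rw [mul_smul, mul_smul, hbc' g hg u hu, hbc g hg _ (hQU b' hb' u hu)]
  inv_mem' := by
    rintro b ⟨hb, hbc⟩
    refine ⟨inv_mem hb, fun g hg u hu => ?_⟩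
    have h1 := hbc g hg (b⁻¹ • u) (hQU _ (inv_mem hb) u hu)
    rw [smul_inv_smul] at h1
    rw [← h1, inv_smul_smul]

theorem commute_of_central [IsAlgClosed K] [FiniteDimensional K V] (p q : ℕ) [Fact p.Prime] (hp2 : p ≠ 2)
    (D Q : Subgroup (Module.End K V)ˣ) (x : (Module.End K V)ˣ) (hM : MinData' p q 1 Q x)
    (hDQ : ∀ d ∈ D, ∀ u ∈ Q, d * u * d⁻¹ ∈ Q)
    (mini : ∀ Q₂ : Subgroup (Module.End K V)ˣ, Q₂ ≤ Q → (∀ d ∈ D, ∀ u ∈ Q₂, d * u * d⁻¹ ∈ Q₂) → Q₂ ≠ Q →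
        ∀ u ∈ Q₂, Commute x u)
    (U : Submodule K V) (hU : U ≠ ⊥) (hQU : ∀ g ∈ Q, ∀ u ∈ U, (g : Module.End K V) u ∈ U)
    (hDU : ∀ d ∈ D, ∀ u ∈ U, (d : Module.End K V) u ∈ U)
    (hfix : ∀ v ∈ U, (∀ g ∈ Q, (g : Module.End K V) v = v) → v = 0)
    (hsc : ∀ z ∈ Q, Commute x z → IsScOn (z : Module.End K V) U)
    (hquad : ((x : Module.End K V) - 1) * ((x : Module.End K V) - 1) = 0)
    (U' : Submodule K V) (hU'U : U' ≤ U) (hU' : U' ≠ ⊥)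
    (hQU' : ∀ g ∈ Q, ∀ u ∈ U', (g : Module.End K V) u ∈ U')
    (b : (Module.End K V)ˣ) (hb : b ∈ Q)
    (hbc : ∀ g ∈ Q, ∀ u ∈ U', (b : Module.End K V) ((g : Module.End K V) u)
      = (g : Module.End K V) ((b : Module.End K V) u)) : Commute x b := by
  have sQU : ∀ g ∈ Q, ∀ u ∈ U, g • u ∈ U := hQU
  have sDU : ∀ d ∈ D, ∀ u ∈ U, d • u ∈ U := hDU
  have sQU' : ∀ g ∈ Q, ∀ u ∈ U', g • u ∈ U' := hQU'
  have sbc : ∀ g ∈ Q, ∀ u ∈ U', b • g • u = g • b • u := hbc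
  have hle : cenOn Q U sQU ≤ Q := fun z hz => hz.1
  have hDinv : ∀ d ∈ D, ∀ z ∈ cenOn Q U sQU, d * z * d⁻¹ ∈ cenOn Q U sQU := by
    rintro d hd z ⟨hz, hzc⟩
    refine ⟨hDQ d hd z hz, fun g hg u hu => ?_⟩
    have hg' : d⁻¹ * g * d ∈ Q := by
      have := hDQ d⁻¹ (inv_mem hd) g hg
      rwa [inv_inv] at this
    have h1 := hzc _ hg' (d⁻¹ • u) (sDU _ (inv_mem hd) u hu)
    simp only [mul_smul, smul_inv_smul] at h1 ⊢
    rw [h1, smul_inv_smul]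
  have hne : cenOn Q U sQU ≠ Q := by
    intro heq
    refine H87DLAbD.not_abelian_on p q hp2 Q x hM U hU hQU hfix hquad ?_
    intro b' hb' g hg u hu
    have : b' ∈ cenOn Q U sQU := by rw [heq]; exact hb'
    exact this.2 g hg u hu
  apply mini _ hle hDinv hne
  refine ⟨hb, fun g hg u hu => ?_⟩
  have hcQ : b * g * b⁻¹ * g⁻¹ ∈ Q := mul_mem (mul_mem (mul_mem hb hg) (inv_mem hb)) (inv_mem hg)
  have hcx : Commute x (b * g * b⁻¹ * g⁻¹) := by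
    have := hM.der b hb g hg
    simpa using this
  obtain ⟨κ, hκ⟩ := hsc _ hcQ hcx
  have sκ : ∀ u ∈ U, (b * g * b⁻¹ * g⁻¹) • u = κ • u := hκ
  obtain ⟨w, hw, hw0⟩ := Submodule.exists_mem_ne_zero_of_ne_bot hU'
  have hcw : (b * g * b⁻¹ * g⁻¹) • w = w := by
    have h1 := sbc g hg (b⁻¹ • g⁻¹ • w) (sQU' _ (inv_mem hb) _ (sQU' _ (inv_mem hg) w hw))
    simp only [mul_smul]
    rw [h1, smul_inv_smul, smul_inv_smul]
  have hκ1 : κ = 1 := by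
    have h1 := sκ w (hU'U hw)
    rw [hcw] at h1
    have h2 : (κ - 1) • w = 0 := by rw [sub_smul, one_smul, ← h1, sub_self]
    rcases smul_eq_zero.1 h2 with h3 | h3
    · exact sub_eq_zero.1 h3
    · exact absurd h3 hw0
  have h2 := sκ (g • b • u) (sQU g hg _ (sQU b hb u hu))
  rw [hκ1, one_smul] at h2
  simp only [mul_smul, inv_smul_smul] at h2
  exact h2

end Cfsg.Agent.Lib.H87DLCenD
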