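import Mathlib
import Cfsg.Agent.Lib.Helper3PGroup

/-!
Project 3789 (row S3789), piece CenDer.  PURE MATHLIB.
-/

set_option autoImplicit false

namespace Cfsg.Agent.Lib.H87DLCenDer

/-- In a finite `p`-group `C` with `C' ≠ 1` there is `x ∈ C' ∩ Z(C)` of order `p`.
Proof: `C` acts by conjugation on the set `N = ⁅C, C⁆` (normal in `C`), `|N|` is a power of `p` greater than `1`; the number of fixed points is `≡ |N| ≡ 0 mod p`
(`IsPGroup.card_modEq_card_fixedPoints`) and `1` is a fixed point, so there is a fixed point `y ≠ 1`; `orderOf y = p^(k+1)`, `x = y^(p^k)`.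
(Or: `Subgroup.Normal`/nilpotent lemmas: a nontrivial normal subgroup of a nilpotent group meets the centre.) -/
theorem exists_central {H : Type*} [Group H] {p : ℕ} [Fact p.Prime] (C : Subgroup H) [Finite C]
    (hC : IsPGroup p C) (hne : ⁅C, C⁆ ≠ ⊥) :
    ∃ x ∈ ⁅C, C⁆, x ≠ 1 ∧ x ^ p = 1 ∧ ∀ c ∈ C, Commute c x := by
  have hmap : (commutator C).map C.subtype = ⁅C, C⁆ := Subgroup.map_subtype_commutator C
  have hne' : commutator C ≠ ⊥ := by
    intro h
    rw [h, Subgroup.map_bot] at hmap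
    exact hne hmap.symm
  obtain ⟨x, hxN, hxZ, hx1, hxp⟩ :=
    Cfsg.Agent.Lib.Helper3PGroup.exists_central_order_p hC (commutator C) hne'
  refine ⟨x, hmap ▸ ⟨x, hxN, rfl⟩, fun h => hx1 (Subtype.ext h), ?_, fun c hc => ?_⟩
  · have := congrArg Subtype.val hxp
    simpa using this
  · rw [Subgroup.mem_center_iff] at hxZ
    exact congrArg Subtype.val (hxZ ⟨c, hc⟩)

end Cfsg.Agent.Lib.H87DLCenDer
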