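import Mathlib
import Cfsg.Agent.Lib.Helper87DLDefs
import Cfsg.Agent.Lib.H92HHRes
import Cfsg.Agent.Lib.H87DLHeisOn
import Cfsg.Agent.Lib.H92HHATrick
import Cfsg.Agent.Lib.H92HHCrit
import Cfsg.Agent.Lib.H92HHBurn
import Cfsg.Agent.Lib.H92HHBasis

set_option autoImplicit false

namespace Cfsg.Agent.Lib.H87DLCritOn

open Polynomial Cfsg.Agent.Lib.Helper92HHDefs Cfsg.Agent.Lib.Helper87DLDefs

variable {K V : Type*} [Field K] [AddCommGroup V] [Module K V]

theorem conj_pow_mem {Γ : Type*} [Group Γ] {Q : Subgroup Γ} {X : Γ}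
    (h : ∀ u ∈ Q, X * u * X⁻¹ ∈ Q) (k : ℕ) : ∀ u ∈ Q, X ^ k * u * (X ^ k)⁻¹ ∈ Q := by
  induction k with
  | zero => intro u hu; simpa using hu
  | succ k ih =>
    intro u hu
    have := h _ (ih u hu)
    have e : X ^ (k + 1) * u * (X ^ (k + 1))⁻¹ = X * (X ^ k * u * (X ^ k)⁻¹) * X⁻¹ := by
      rw [pow_succ']; group
    rw [e]; exact this

theorem pow_mem_of_mem (Z : (Module.End K V)ˣ) (U : Submodule K V)
    (h : ∀ u ∈ U, (Z : Module.End K V) u ∈ U) (k : ℕ) :
    ∀ u ∈ U, ((Z ^ k : (Module.End K V)ˣ) : Module.End K V) u ∈ U := by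
  induction k with
  | zero => intro u hu; simpa using hu
  | succ k ih =>
    intro u hu
    rw [pow_succ', Units.val_mul, Module.End.mul_apply]
    exact h _ (ih u hu)

theorem isSc_of_finrank_eq_one (h : Module.finrank K V = 1) (T : Module.End K V) : IsSc T := by
  obtain ⟨v, hv, hspan⟩ := finrank_eq_one_iff'.1 h
  obtain ⟨c, hc⟩ := hspan (T v)
  refine ⟨c, ?_⟩
  ext w
  obtain ⟨b, rfl⟩ := hspan w
  rw [map_smul, ← hc, LinearMap.smul_apply, Module.End.one_apply, smul_comm]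

/-- PIECE CritOn (assembly).  `Res.exists_res` (with `Z = X^(p^a)`; `Z⁻¹` is a power of `Z`), `HeisOn.heis_on`, `ATrick.irr_of_irr`, `Crit.crit`,
`Burn.span_eq_top` + `Basis.card_eq`; transfer `minDegOn _ ⊤` on `↥U` to `minDegOn _ U` on `V` with `Res.aeval_res`;
`scSub ρ ≃ {u ∈ Q | IsScOn u U}`; `Q` is not abelian because otherwise every `b ∈ Q` is central on `U`, hence scalar, against `Heis.nonsc`;
`2 ≤ dim U` because on a space of dimension `≤ 1` every operator is scalar, against `Heis.nonsc`. -/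
theorem crit_on [IsAlgClosed K] [FiniteDimensional K V] (p q n : ℕ) [Fact p.Prime] [Fact q.Prime]
    (hpq : p ≠ q) (hq : (q : K) ≠ 0) (Q : Subgroup (Module.End K V)ˣ) (X : (Module.End K V)ˣ)
    (hM : MinData' p q n Q X) (U : Submodule K V) (a : ℕ) (ha : a < n) (hC : CritSit p Q X U a) :
    formF p n X U a ∨
      (Module.finrank K U = p ^ (n - a) - 1 ∧ 2 ≤ Module.finrank K U ∧
        minDegOn ((X ^ p ^ a : (Module.End K V)ˣ) : Module.End K V) U (p ^ (n - a) - 1) ∧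
        (Module.finrank K U) ^ 2 *
          Nat.card {u : (Module.End K V)ˣ // u ∈ Q ∧ IsScOn (u : Module.End K V) U} = Nat.card Q ∧
        ∃ u ∈ Q, ∃ v ∈ Q, ¬ Commute u v) := by
  obtain ⟨⟨hU0, hQU, hZU, hfix⟩, hcen, hirrU⟩ := hC
  have hC' : CritSit p Q X U a := ⟨⟨hU0, hQU, hZU, hfix⟩, hcen, hirrU⟩
  set Z : (Module.End K V)ˣ := X ^ p ^ a with hZdef
  have hppos : 0 < p ^ (n - a) := pow_pos (Fact.out : p.Prime).pos _
  have hZpow : Z ^ (p ^ (n - a)) = 1 := by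
    rw [hZdef, ← pow_mul, ← pow_add, Nat.add_sub_cancel' ha.le, hM.pow]
  have hZinv : Z⁻¹ = Z ^ (p ^ (n - a) - 1) := by
    rw [inv_eq_iff_mul_eq_one, ← pow_succ', Nat.sub_add_cancel hppos, hZpow]
  have hZi : ∀ u ∈ U, ((Z⁻¹ : (Module.End K V)ˣ) : Module.End K V) u ∈ U := by
    rw [hZinv]
    exact pow_mem_of_mem Z U hZU _
  have hn : ∀ u ∈ Q, Z * u * Z⁻¹ ∈ Q := conj_pow_mem hM.norm _
  have hn' : ∀ u ∈ Q, Z⁻¹ * u * Z ∈ Q := by
    intro u hu
    have h := conj_pow_mem hn (p ^ (n - a) - 1) u hu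
    rwa [← hZinv, inv_inv] at h
  obtain ⟨ρ, α, Y, h1, h2, h3⟩ := H92HHRes.exists_res Q Z U hQU hZU hZi hn hn'
  obtain ⟨hH, hirrY⟩ := H87DLHeisOn.heis_on p q n hpq Q X hM U a ha hC' ρ α Y h1 h2 h3
  have hnt : Nontrivial ↥U := Submodule.nontrivial_iff_ne_bot.2 hU0
  have hirr : Irr ρ := H92HHATrick.irr_of_irr hq hH hirrY
  have htrans : ∀ s : ℕ, minDegOn (Y : Module.End K ↥U) ⊤ s → minDegOn (Z : Module.End K V) U s := by
    intro s hs f hf hkill
    refine hs f hf (fun u _ => ?_)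
    apply Subtype.ext
    rw [H92HHRes.aeval_res (Z : Module.End K V) U (Y : Module.End K ↥U) h2 f u]
    exact hkill u u.2
  have hsc : ∀ z : ↥Q, IsSc ((ρ z : (Module.End K ↥U)ˣ) : Module.End K ↥U) ↔
      IsScOn ((z : (Module.End K V)ˣ) : Module.End K V) U := by
    intro z
    constructor
    · rintro ⟨c, hc⟩
      refine ⟨c, fun u hu => ?_⟩
      rw [← h1 z ⟨u, hu⟩, hc]
      rfl
    · rintro ⟨c, hc⟩
      refine ⟨c, ?_⟩
      ext u
      rw [h1 z u, hc u u.2]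
      rfl
  rcases H92HHCrit.crit hq hH hirr with h | ⟨hd, hmin⟩
  · exact Or.inl (htrans _ h)
  · right
    refine ⟨hd, ?_, htrans _ hmin, ?_, ?_⟩
    · by_contra hlt
      have hpos : 0 < Module.finrank K ↥U := Module.finrank_pos
      have h1' : Module.finrank K ↥U = 1 := by omega
      obtain ⟨u, hu⟩ := hH.nonsc
      exact hu (isSc_of_finrank_eq_one h1' _)
    · have hcard := H92HHBasis.card_eq hq hH (H92HHBurn.span_eq_top ρ hirr)
      rw [← hcard]
      congr 1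
      refine Nat.card_congr
        { toFun := fun u => ⟨⟨u.1, u.2.1⟩, (hsc ⟨u.1, u.2.1⟩).2 u.2.2⟩
          invFun := fun z => ⟨z.1.1, z.1.2, (hsc z.1).1 z.2⟩
          left_inv := fun u => rfl
          right_inv := fun z => rfl }
    · by_contra hcon
      push Not at hcon
      obtain ⟨u, hu⟩ := hH.nonsc
      apply hu
      rw [hsc]
      refine hcen u.1 u.2 (fun g hg w _ => ?_)
      have hc : (u.1 * g : (Module.End K V)ˣ) = g * u.1 := hcon u.1 u.2 g hg
      have := congrArg (fun t : (Module.End K V)ˣ => (t : Module.End K V) w) hc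
      simpa using this

end Cfsg.Agent.Lib.H87DLCritOn
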