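import Cfsg.Agent.Lib.Helper92HHDefs
import Cfsg.Agent.Lib.H92HHWeight
import Cfsg.Agent.Lib.Helper30DLThree

/-!
Project 3789 (row S3789), piece FixWt.  Linear algebra (uses only `H92HHWeight.wt_indep`).
-/

set_option autoImplicit false

namespace Cfsg.Agent.Lib.H87DLFixWt

open Cfsg.Agent.Lib.Helper92HHDefs Cfsg.Agent.Lib.Helper30DLThree

variable {K V : Type*} [Field K] [AddCommGroup V] [Module K V]

/-- `S` a set of operators stable under conjugation by `d`, `d` of order a power of the ODD prime `p`; `x` commutes with `S`;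
`(x - 1)(d - 1)^2 = 0`; `x` is not the identity on the joint eigenspace `wt S l`. Then `d` preserves `wt S l`.

Proof. `d⁻¹ = d^(p^k - 1)`, so `S` is stable under conjugation by all `d^i`, `d^-i`. Put `l_i s = l (d^-i s d^i)`; then `d^i` maps `wt S l` into `wt S l_i`
(`s d^i u = d^i (d^-i s d^i) u`). Suppose some `u ∈ wt S l` has `d u ∉ wt S l`; as `d u ∈ wt S l_1`, there is `s ∈ S` with `l_1 s ≠ l_0 s`
(and `d u ≠ 0`).  Claim: `l_0, l_1, l_2` are pairwise different on `S`.  If `l_1 = l_2` on `S`, substituting `s ↦ d s d⁻¹` gives `l_0 = l_1`.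
If `l_2 = l_0` on `S`, then `l_{2j} = l_0` for all `j`; choose `j` with `2 j ≡ 1 mod p^k` (`p` odd: `j = (p^k+1)/2`), `d^(2j) = d`: `l_1 = l_0`.
By `H92HHWeight.wt_indep` (index type `Fin 3`) the three spaces are independent. `x` preserves each `wt S l_i` (it commutes with `S`).
`0 = (x-1)(d-1)^2 m = (x-1) m - 2 (x-1) d m + (x-1) d^2 m` with the three terms in the three spaces: so `(x-1) m = 0`, contradiction. -/
theorem fix_wt (p : ℕ) [Fact p.Prime] (hp2 : p ≠ 2) (S : Set (Module.End K V))
    (l : Module.End K V → K) (d x : (Module.End K V)ˣ) (k : ℕ) (hd : d ^ p ^ k = 1)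
    (hdS : ∀ s ∈ S, (d : Module.End K V) * s * ((d⁻¹ : (Module.End K V)ˣ) : Module.End K V) ∈ S)
    (hxS : ∀ s ∈ S, (x : Module.End K V) * s = s * (x : Module.End K V))
    (hxd : ((x : Module.End K V) - 1) * ((d : Module.End K V) - 1) * ((d : Module.End K V) - 1) = 0)
    (m : V) (hm : m ∈ wt S l) (hxm : (x : Module.End K V) m ≠ m) :
    ∀ u ∈ wt S l, (d : Module.End K V) u ∈ wt S l := by
  have hN : Odd (p ^ k) := ((Fact.out : p.Prime).odd_of_ne_two hp2).pow
  obtain ⟨st, st'⟩ := stab_of_conj hN.pos hd hdS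
  by_contra hcon
  push Not at hcon
  obtain ⟨u, hu, hdu⟩ := hcon
  have hne : ∃ s ∈ S, l (cjE d s) ≠ l s := by
    by_contra h
    push Not at h
    apply hdu
    have h1 := map_wt st hu
    rw [mem_wt] at h1 ⊢
    intro s hs
    rw [h1 s hs, h s hs]
  -- `x - 1` preserves the weight spaces
  have hpres : ∀ (l' : Module.End K V → K) (v : V), v ∈ wt S l' →
      ((x : Module.End K V) - 1) v ∈ wt S l' := by
    intro l' v hv
    rw [mem_wt] at hv ⊢
    intro s hs
    have h1 : s ((x : Module.End K V) v) = (x : Module.End K V) (s v) := by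
      have := congrArg (fun T : Module.End K V => T v) (hxS s hs)
      exact this.symm
    rw [LinearMap.sub_apply, Module.End.one_apply, map_sub, h1, hv s hs, map_smul, smul_sub]
  have h0 := hpres _ _ hm
  have h1 := hpres _ _ (map_wt st hm)
  have h2 := hpres _ _ (map_wt (stab_pow st 2) hm)
  have h1' := (wt S (fun s => l (cjE d s))).smul_mem (-2 : K) h1
  have hsum : ((x : Module.End K V) - 1) m + (-2 : K) • ((x : Module.End K V) - 1) ((d : Module.End K V) m) +
      ((x : Module.End K V) - 1) (((d ^ 2 : (Module.End K V)ˣ) : Module.End K V) m) = 0 := by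
    have := congrArg (fun T : Module.End K V => T m) hxd
    simp only [Module.End.mul_apply, LinearMap.sub_apply, Module.End.one_apply, LinearMap.zero_apply,
      map_sub] at this
    simp only [LinearMap.sub_apply, Module.End.one_apply, Units.val_pow_eq_pow_val, pow_two,
      Module.End.mul_apply, neg_smul, two_smul, smul_sub]
    rw [← this]
    abel
  have := three_zero hN hd hdS hne h0 h1' h2 hsum
  apply hxm
  rw [LinearMap.sub_apply, Module.End.one_apply] at this
  exact sub_eq_zero.mp this

end Cfsg.Agent.Lib.H87DLFixWt
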