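import Mathlib

/-!
Project 3789 (row S3789), piece Four.  PURE MATHLIB group theory.
-/

set_option autoImplicit false

namespace Cfsg.Agent.Lib.H87DLFour

/-- A `3`-group `D` normalising `Z ≤ Q` with `|Q : Z| = 4`, `Z` normal in `Q`: the commutator subgroup of `D` acts trivially on `Q/Z`.

Proof. `D` acts on the 4 cosets `Q ⧸ Z.subgroupOf Q` by `d • (u Z) = (d u d⁻¹) Z`: a homomorphism `φ : D →* Equiv.Perm (↥Q ⧸ Z.subgroupOf Q)`.
Its range is a `3`-group whose order divides `4! = 24`, so it has order `1` or `3`, hence is cyclic, hence commutative; so `φ` kills `⁅D, D⁆`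
(e.g. `Subgroup.commutator_le` / closure induction on commutators). For `x ∈ ⁅D,D⁆`, `u ∈ Q`: `u⁻¹ (x u x⁻¹) ∈ Z`; conjugating by `u` (normality of `Z` in `Q`):
`(x u x⁻¹) u⁻¹ ∈ Z`. -/
theorem comm_mem {Γ : Type*} [Group Γ] (D Q Z : Subgroup Γ) [Finite Q] (hZQ : Z ≤ Q)
    (hcard : 4 * Nat.card Z = Nat.card Q) (hD : IsPGroup 3 D)
    (hDQ : ∀ d ∈ D, ∀ u ∈ Q, d * u * d⁻¹ ∈ Q) (hDZ : ∀ d ∈ D, ∀ u ∈ Z, d * u * d⁻¹ ∈ Z)
    (hZn : ∀ u ∈ Q, ∀ z ∈ Z, u * z * u⁻¹ ∈ Z) (x : Γ) (hx : x ∈ ⁅D, D⁆) :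
    ∀ u ∈ Q, x * u * x⁻¹ * u⁻¹ ∈ Z := by
  classical
  have : Fact (Nat.Prime 3) := ⟨Nat.prime_three⟩
  let N : Subgroup ↥Q := Z.subgroupOf Q
  let cj : ↥D → ↥Q → ↥Q := fun d u => ⟨d * u * (d : Γ)⁻¹, hDQ d d.2 u u.2⟩
  have hwd : ∀ (d : ↥D) (u v : ↥Q), QuotientGroup.leftRel N u v →
      QuotientGroup.leftRel N (cj d u) (cj d v) := by
    intro d u v h
    rw [QuotientGroup.leftRel_apply] at h ⊢
    have h' : (u : Γ)⁻¹ * v ∈ Z := h
    show ((d : Γ) * u * (d : Γ)⁻¹)⁻¹ * ((d : Γ) * v * (d : Γ)⁻¹) ∈ Z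
    have := hDZ d d.2 _ h'
    have e : ((d : Γ) * u * (d : Γ)⁻¹)⁻¹ * ((d : Γ) * v * (d : Γ)⁻¹) = d * ((u : Γ)⁻¹ * v) * (d : Γ)⁻¹ := by
      group
    rwa [e]
  let act : ↥D → (↥Q ⧸ N) → (↥Q ⧸ N) := fun d => Quotient.map' (cj d) (hwd d)
  have act_mk : ∀ (d : ↥D) (u : ↥Q), act d (QuotientGroup.mk u) = QuotientGroup.mk (cj d u) := fun _ _ => rfl
  have act_mul : ∀ (d e : ↥D) (c : ↥Q ⧸ N), act (d * e) c = act d (act e c) := by
    intro d e c
    induction c using QuotientGroup.induction_on with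
    | H u =>
      rw [act_mk, act_mk, act_mk]
      congr 1
      apply Subtype.ext
      show ((d * e : ↥D) : Γ) * u * ((d * e : ↥D) : Γ)⁻¹ = d * (e * u * (e : Γ)⁻¹) * (d : Γ)⁻¹
      rw [Subgroup.coe_mul]
      group
  have act_one : ∀ (c : ↥Q ⧸ N), act 1 c = c := by
    intro c
    induction c using QuotientGroup.induction_on with
    | H u =>
      rw [act_mk]
      congr 1
      apply Subtype.ext
      show ((1 : ↥D) : Γ) * u * ((1 : ↥D) : Γ)⁻¹ = u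
      simp
  let φ : ↥D →* Equiv.Perm (↥Q ⧸ N) :=
    { toFun := fun d => ⟨act d, act d⁻¹, fun c => by rw [← act_mul, inv_mul_cancel, act_one],
        fun c => by rw [← act_mul, mul_inv_cancel, act_one]⟩
      map_one' := by ext c; exact act_one c
      map_mul' := fun d e => by ext c; exact act_mul d e c }
  have hφ : ∀ (d : ↥D) (c : ↥Q ⧸ N), φ d c = act d c := fun _ _ => rfl
  -- the number of cosets
  have hc4 : Nat.card (↥Q ⧸ N) = 4 := by
    have h1 := Subgroup.card_eq_card_quotient_mul_card_subgroup N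
    have h2 : Nat.card N = Nat.card Z := Nat.card_congr (Subgroup.subgroupOfEquivOfLe hZQ).toEquiv
    rw [h2, ← hcard] at h1
    have hZpos : 0 < Nat.card Z := by
      have : Finite Z := Finite.of_injective (Subgroup.inclusion hZQ) (Subgroup.inclusion_injective hZQ)
      exact Nat.card_pos
    exact (Nat.eq_of_mul_eq_mul_right hZpos h1).symm
  have hfin : Finite (↥Q ⧸ N) := Nat.finite_of_card_ne_zero (by rw [hc4]; norm_num)
  have hperm : Nat.card (Equiv.Perm (↥Q ⧸ N)) = 24 := by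
    rw [Nat.card_perm, hc4]; rfl
  have hr3 : IsPGroup 3 φ.range := hD.of_surjective φ.rangeRestrict φ.rangeRestrict_surjective
  obtain ⟨k, hk⟩ := IsPGroup.iff_card.mp hr3
  have hdvd : Nat.card φ.range ∣ 24 := by
    rw [← hperm]; exact Subgroup.card_subgroup_dvd_card _
  have hk1 : k ≤ 1 := by
    by_contra hcon
    push Not at hcon
    have : 3 ^ 2 ∣ 3 ^ k := pow_dvd_pow 3 hcon
    rw [← hk] at this
    have := this.trans hdvd
    norm_num at this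
  have hd3 : Nat.card φ.range ∣ 3 := by
    rw [hk]
    exact (pow_dvd_pow 3 hk1).trans (by norm_num)
  have hcyc : IsCyclic φ.range := isCyclic_of_card_dvd_prime hd3
  have hcomm : ∀ d e : ↥D, φ d * φ e = φ e * φ d := by
    intro d e
    have := (IsCyclic.isMulCommutative (α := φ.range)).is_comm.comm (⟨φ d, d, rfl⟩ : φ.range) ⟨φ e, e, rfl⟩
    exact congrArg Subtype.val this
  have hle : ⁅D, D⁆ ≤ (φ.ker).map D.subtype := by
    rw [Subgroup.commutator_le]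
    intro g₁ h₁ g₂ h₂
    refine ⟨(⟨g₁, h₁⟩ : ↥D) * ⟨g₂, h₂⟩ * (⟨g₁, h₁⟩ : ↥D)⁻¹ * (⟨g₂, h₂⟩ : ↥D)⁻¹, ?_, rfl⟩
    rw [SetLike.mem_coe, MonoidHom.mem_ker, map_mul, map_mul, map_mul, map_inv, map_inv, hcomm]
    group
  obtain ⟨d, hd, rfl⟩ := hle hx
  intro u hu
  have h1 : φ d (QuotientGroup.mk ⟨u, hu⟩) = QuotientGroup.mk ⟨u, hu⟩ := by
    rw [MonoidHom.mem_ker.mp hd]; rfl
  rw [hφ, act_mk, QuotientGroup.eq] at h1
  have h2 : ((d : Γ) * u * (d : Γ)⁻¹)⁻¹ * u ∈ Z := h1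
  have h3 := hZn u hu _ (Z.inv_mem h2)
  have e : u * (((d : Γ) * u * (d : Γ)⁻¹)⁻¹ * u)⁻¹ * u⁻¹ = (d : Γ) * u * (d : Γ)⁻¹ * u⁻¹ := by group
  rw [e] at h3
  exact h3

end Cfsg.Agent.Lib.H87DLFour
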