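import Cfsg.Agent.Lib.Helper87DLDefs

/-!
Project 3789 (row S3789), piece InitD: port of `H92HHInit.exists_sit` (helper36) to a group `D` of operators.
-/

set_option autoImplicit false

namespace Cfsg.Agent.Lib.H87DLInitD

variable {K V : Type*} [Field K] [AddCommGroup V] [Module K V]

theorem exists_init (q : ℕ) [Fact q.Prime] (hq : (q : K) ≠ 0) (D Q : Subgroup (Module.End K V)ˣ)
    [Finite Q] (hQ : IsPGroup q Q) (hDQ : ∀ d ∈ D, ∀ u ∈ Q, d * u * d⁻¹ ∈ Q) (hne : ∃ u ∈ Q, u ≠ 1) :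
    ∃ U : Submodule K V, U ≠ ⊥ ∧ (∀ g ∈ Q, ∀ u ∈ U, (g : Module.End K V) u ∈ U) ∧
      (∀ d ∈ D, ∀ u ∈ U, (d : Module.End K V) u ∈ U) ∧
      (∀ v ∈ U, (∀ g ∈ Q, (g : Module.End K V) v = v) → v = 0) := by
  classical
  letI : Fintype ↥Q := Fintype.ofFinite _
  set S : Module.End K V := ∑ g : ↥Q, ((g : (Module.End K V)ˣ) : Module.End K V) with hS
  have hSv : ∀ v, S v = ∑ g : ↥Q, ((g : (Module.End K V)ˣ) : Module.End K V) v := by
    intro v
    rw [hS, LinearMap.sum_apply]
  -- `S ∘ g = S`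
  have hSg : ∀ g ∈ Q, ∀ v, S ((g : Module.End K V) v) = S v := by
    intro g hg v
    rw [hSv, hSv]
    refine Fintype.sum_equiv (Equiv.mulRight (⟨g, hg⟩ : ↥Q)) _ _ (fun h => ?_)
    simp [Module.End.mul_apply]
  have hSX : ∀ X ∈ D, ∀ v, S ((X : Module.End K V) v) = (X : Module.End K V) (S v) := by
    intro X hX v
    have hbij : Function.Bijective (fun h : ↥Q => (⟨X * h * X⁻¹, hDQ X hX h h.2⟩ : ↥Q)) := by
      apply Finite.injective_iff_bijective.1
      intro a b hab
      have := congrArg Subtype.val hab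
      simp only at this
      apply Subtype.ext
      simpa using this
    rw [hSv, hSv, map_sum]
    symm
    refine Fintype.sum_equiv (Equiv.ofBijective _ hbij) _ _ (fun h => ?_)
    simp only [Equiv.ofBijective_apply, Units.val_mul, Module.End.mul_apply]
    congr 2
    rw [← Module.End.mul_apply, Units.inv_mul, Module.End.one_apply]
  refine ⟨LinearMap.ker S, ?_, ?_, ?_, ?_⟩
  · intro hbot
    have hinj : Function.Injective S := LinearMap.ker_eq_bot.1 hbot
    obtain ⟨u, hu, hnc⟩ := hne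
    apply hnc
    apply Units.ext
    ext v
    exact hinj (hSg u hu v)
  · intro g hg u hu
    rw [LinearMap.mem_ker] at hu ⊢
    rw [hSg g hg, hu]
  · intro d hd u hu
    rw [LinearMap.mem_ker] at hu ⊢
    rw [hSX d hd, hu, map_zero]
  · intro v hv hfix
    rw [LinearMap.mem_ker, hSv] at hv
    have h1 : ∑ g : ↥Q, ((g : (Module.End K V)ˣ) : Module.End K V) v = (Fintype.card ↥Q : K) • v := by
      rw [Finset.sum_congr rfl (fun g _ => hfix g.1 g.2), Finset.sum_const, Finset.card_univ,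
        Nat.cast_smul_eq_nsmul]
    rw [h1] at hv
    obtain ⟨s, hs⟩ := (IsPGroup.iff_card (p := q) (G := ↥Q)).1 hQ
    rw [Nat.card_eq_fintype_card] at hs
    rw [hs, Nat.cast_pow] at hv
    exact (smul_eq_zero.1 hv).resolve_left (pow_ne_zero _ hq)

end Cfsg.Agent.Lib.H87DLInitD
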