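import Cfsg.Agent.Lib.H87DLLOp
import Cfsg.Agent.Lib.H87DLPsolD
import Cfsg.Agent.Lib.H87DLCenDer

/-!
Project 3789 (row S3789), assembly KH.
-/

set_option autoImplicit false

namespace Cfsg.Agent.Lib.H87DLKH

open Cfsg Cfsg.Agent.Lib

variable {K V : Type*} [Field K] [AddCommGroup V] [Module K V]

theorem kh [IsAlgClosed K] [FiniteDimensional K V] {p : ℕ} [Fact p.Prime] [CharP K p] (hp2 : p ≠ 2)
    {H : Type*} [Group H] [Finite H] (hsol : IsPSolvable p H) (hOp : pCore p H = ⊥)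
    (j : H →* (Module.End K V)ˣ) (hj : Function.Injective j) (C : Subgroup H) (hC : IsPGroup p C)
    (h1 : ∀ b ∈ ⁅C, C⁆,
      (((j b : (Module.End K V)ˣ) : Module.End K V) - 1) * (((j b : (Module.End K V)ˣ) : Module.End K V) - 1) = 0)
    (h2 : ∀ b ∈ ⁅C, C⁆, ∀ c ∈ C, (((j b : (Module.End K V)ˣ) : Module.End K V) - 1)
      * (((j c : (Module.End K V)ˣ) : Module.End K V) - 1)
      * (((j c : (Module.End K V)ˣ) : Module.End K V) - 1) = 0) : ⁅C, C⁆ = ⊥ := by
  by_contra hne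
  obtain ⟨x, hx, hx1, hxp, hxc⟩ := H87DLCenDer.exists_central C hC hne
  have hxC : x ∈ C := Subgroup.commutator_le_self C hx
  obtain ⟨q, Q, hq, hqp, hQ, hDQ, u, hu, hcu⟩ := H87DLPsolD.exists_q p hsol hOp C hC x hxC hx1
  have : Fact q.Prime := ⟨hq⟩
  have hp : p.Prime := Fact.out
  have hqK : (q : K) ≠ 0 := by
    intro h0
    have := (CharP.cast_eq_zero_iff K p q).1 h0
    exact hqp ((Nat.prime_dvd_prime_iff_eq hp hq).1 this).symm
  have hfin : Finite (Q.map j) := by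
    have : Finite ((Q.map j : Subgroup (Module.End K V)ˣ) : Set (Module.End K V)ˣ) := by
      rw [Subgroup.coe_map]; exact Set.Finite.image _ (Set.toFinite _)
    exact this
  have key := H87DLLOp.lop p q hp2 (Ne.symm hqp) hqK (C.map j) (Q.map j) (hQ.map j) (hC.map j)
    (by
      rintro _ ⟨d, hd, rfl⟩ _ ⟨u, hu, rfl⟩
      exact ⟨d * u * d⁻¹, hDQ d hd u hu, by simp⟩)
    (j x) ⟨x, hxC, rfl⟩
    (by
      rintro _ ⟨d, hd, rfl⟩
      exact (hxc d hd).map j)
    (by rw [← map_pow, hxp, map_one])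
    (by rw [← Subgroup.map_commutator]; exact ⟨x, hx, rfl⟩)
    (h1 x hx)
    (by
      rintro _ ⟨d, hd, rfl⟩
      exact h2 x hx d hd)
    (j u) ⟨u, hu, rfl⟩
  apply hcu
  exact hj (by rw [map_mul, map_mul]; exact key.eq)

end Cfsg.Agent.Lib.H87DLKH
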