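import Cfsg.Agent.Lib.H87DLKH
import Cfsg.Agent.Lib.H87DLAct
import Cfsg.Agent.Lib.Helper67Kazarin3
import Cfsg.Agent.Lib.Helper38PSolv

/-!
Project 3789 (row S3789), assembly KH1.
-/

set_option autoImplicit false

namespace Cfsg.Agent.Lib.H87DLKH1

open Cfsg Cfsg.Agent.Lib

theorem conj_mem_commutator {H : Type*} [Group H] (C : Subgroup H) (v : H)
    (hv : ∀ c ∈ C, v * c * v⁻¹ ∈ C) : ∀ b ∈ ⁅C, C⁆, v * b * v⁻¹ ∈ ⁅C, C⁆ := by
  intro w hw
  have hm : C.map (MulAut.conj v).toMonoidHom ≤ C := by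
    rintro _ ⟨u, hu, rfl⟩
    exact hv u hu
  have h1 : (MulAut.conj v).toMonoidHom w ∈ (⁅C, C⁆).map (MulAut.conj v).toMonoidHom :=
    Subgroup.mem_map_of_mem _ hw
  rw [Subgroup.map_commutator] at h1
  exact Subgroup.commutator_mono hm hm h1

theorem kh1 {H₁ : Type*} [Group H₁] [Finite H₁] {p : ℕ} [Fact p.Prime] (hp2 : p ≠ 2)
    (hs : IsPSolvable p H₁) (h0 : pPrimeCore p H₁ = ⊥) (C : Subgroup H₁) (hC : IsPGroup p C)
    (hVC : ∀ v ∈ pCore p H₁, ∀ c ∈ C, v * c * v⁻¹ ∈ C)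
    (hab : ∀ b ∈ ⁅C, C⁆, ∀ b' ∈ ⁅C, C⁆, Commute b b') : ⁅C, C⁆ ≤ pCore p H₁ := by
  obtain ⟨d, φ, hker, hq2, hq3⟩ := H87DLAct.exists_act hs h0 (AlgebraicClosure (ZMod p))
  set V := pCore p H₁ with hV
  let j : H₁ ⧸ V →* (Module.End (AlgebraicClosure (ZMod p)) (Fin d → AlgebraicClosure (ZMod p)))ˣ :=
    QuotientGroup.lift V φ (fun g hg => (hker g).2 hg)
  have hjmk : ∀ g : H₁, j (QuotientGroup.mk' V g) = φ g := fun g => rfl
  have hj : Function.Injective j := by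
    rw [injective_iff_map_eq_one]
    intro a ha
    obtain ⟨g, rfl⟩ := QuotientGroup.mk'_surjective V a
    rw [hjmk] at ha
    exact (QuotientGroup.eq_one_iff g).2 ((hker g).1 ha)
  have hcomm : ⁅C.map (QuotientGroup.mk' V), C.map (QuotientGroup.mk' V)⁆
      = (⁅C, C⁆).map (QuotientGroup.mk' V) := (Subgroup.map_commutator _ _ _).symm
  have key := H87DLKH.kh (K := AlgebraicClosure (ZMod p)) hp2
    (Helper38PSolv.isPSolvable_quotient V hs) (Helper67Kazarin3.pCore_quotient_pCore p) j hj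
    (C.map (QuotientGroup.mk' V)) (hC.map _)
    (by
      rw [hcomm]
      rintro _ ⟨b, hb, rfl⟩
      rw [hjmk]
      apply hq2
      intro v hv
      apply hab b hb
      have h1 := conj_mem_commutator C v (hVC v hv) b⁻¹ (Subgroup.inv_mem _ hb)
      have : b * v * b⁻¹ * v⁻¹ = b * (v * b⁻¹ * v⁻¹) := by group
      rw [this]; exact Subgroup.mul_mem _ hb h1)
    (by
      rw [hcomm]
      rintro _ ⟨b, hb, rfl⟩ _ ⟨c, hc, rfl⟩
      rw [hjmk, hjmk]
      apply hq3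
      intro v hv
      apply hab b hb
      have hw : c * v * c⁻¹ * v⁻¹ ∈ C := by
        have h1 := hVC v hv c⁻¹ (C.inv_mem hc)
        have : c * v * c⁻¹ * v⁻¹ = c * (v * c⁻¹ * v⁻¹) := by group
        rw [this]; exact C.mul_mem hc h1
      have := Subgroup.commutator_mem_commutator hc hw
      rwa [commutatorElement_def] at this)
  rw [hcomm] at key
  intro b hb
  have : QuotientGroup.mk' V b ∈ (⁅C, C⁆).map (QuotientGroup.mk' V) := ⟨b, hb, rfl⟩
  rw [key, Subgroup.mem_bot] at this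
  exact (QuotientGroup.eq_one_iff b).1 this

end Cfsg.Agent.Lib.H87DLKH1
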