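import Mathlib

/-!
B-G Theorem 3.4 project (S3769): shared tools on invariant subspaces.
-/

set_option autoImplicit false

namespace Cfsg.Agent.Lib.Helper27BG34T

variable {F V : Type*} [Field F] [AddCommGroup V] [Module F V]

/-- restriction of a representation to an invariant subspace -/
def resRep {Q : Type*} [Monoid Q] (ρ : Q →* Module.End F V) (W : Submodule F V)
    (h : ∀ t, ∀ w ∈ W, ρ t w ∈ W) : Q →* Module.End F W where
  toFun t := (ρ t).restrict (h t)
  map_one' := by ext w; simp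
  map_mul' := by intro a b; ext w; simp

@[simp] theorem resRep_apply {Q : Type*} [Monoid Q] (ρ : Q →* Module.End F V) (W : Submodule F V)
    (h : ∀ t, ∀ w ∈ W, ρ t w ∈ W) (t : Q) (w : W) : ((resRep ρ W h t w : W) : V) = ρ t w := rfl

/-- a minimal nonzero invariant subspace inside a nonzero invariant subspace -/
theorem exists_min_invariant [FiniteDimensional F V] (S : Set (Module.End F V))
    (V₁ : Submodule F V) (h1 : V₁ ≠ ⊥) (hinv : ∀ s ∈ S, ∀ v ∈ V₁, s v ∈ V₁) :
    ∃ W : Submodule F V, W ≤ V₁ ∧ W ≠ ⊥ ∧ (∀ s ∈ S, ∀ w ∈ W, s w ∈ W) ∧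
      ∀ W' : Submodule F V, W' ≤ W → W' ≠ ⊥ → (∀ s ∈ S, ∀ w ∈ W', s w ∈ W') → W' = W := by
  let 𝒲 : Set (Submodule F V) := {W | W ≤ V₁ ∧ W ≠ ⊥ ∧ ∀ s ∈ S, ∀ w ∈ W, s w ∈ W}
  have hne : 𝒲.Nonempty := ⟨V₁, le_rfl, h1, hinv⟩
  obtain ⟨W, hW, hmin⟩ := (wellFounded_lt (α := Submodule F V)).has_min 𝒲 hne
  refine ⟨W, hW.1, hW.2.1, hW.2.2, fun W' hle h0 hi => ?_⟩
  by_contra hne'
  exact hmin W' ⟨hle.trans hW.1, h0, hi⟩ (lt_of_le_of_ne hle hne')

/-- Schur's lemma relative to a minimal invariant subspace: an endomorphism preserving `W` and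
commuting with `S` is a scalar on `W`. -/
theorem schur_on [IsAlgClosed F] [FiniteDimensional F V] (S : Set (Module.End F V))
    (W : Submodule F V) (h0 : W ≠ ⊥) (hinv : ∀ s ∈ S, ∀ w ∈ W, s w ∈ W)
    (hmin : ∀ W' : Submodule F V, W' ≤ W → W' ≠ ⊥ → (∀ s ∈ S, ∀ w ∈ W', s w ∈ W') → W' = W)
    (z : Module.End F V) (hzW : ∀ w ∈ W, z w ∈ W) (hz : ∀ s ∈ S, ∀ w ∈ W, z (s w) = s (z w)) :
    ∃ c : F, ∀ w ∈ W, z w = c • w := by
  have : Nontrivial W := Submodule.nontrivial_iff_ne_bot.mpr h0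
  obtain ⟨c, hc⟩ := Module.End.exists_eigenvalue (z.restrict hzW)
  obtain ⟨v, hv⟩ := hc.exists_hasEigenvector
  refine ⟨c, ?_⟩
  let W' : Submodule F V := W ⊓ LinearMap.ker (z - c • (1 : Module.End F V))
  have hmem : ∀ w, w ∈ W' ↔ w ∈ W ∧ z w = c • w := by
    intro w
    simp only [W', Submodule.mem_inf, LinearMap.mem_ker, LinearMap.sub_apply, LinearMap.smul_apply,
      Module.End.one_apply, sub_eq_zero]
  have hvW' : (v : V) ∈ W' := by
    rw [hmem]
    refine ⟨v.2, ?_⟩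
    have := hv.apply_eq_smul
    exact congrArg Subtype.val this
  have hW'0 : W' ≠ ⊥ := by
    intro h
    rw [h, Submodule.mem_bot] at hvW'
    exact hv.2 (Subtype.ext hvW')
  have hW' : W' = W := by
    apply hmin W' inf_le_left hW'0
    intro s hs w hw
    rw [hmem] at hw ⊢
    refine ⟨hinv s hs w hw.1, ?_⟩
    rw [hz s hs w hw.1, hw.2, map_smul]
  intro w hw
  rw [← hW', hmem] at hw
  exact hw.2

/-- an operator of order prime to the characteristic has no fixed vector in `range (z - 1)` -/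
theorem eq_zero_of_mem_range_sub_one (z : Module.End F V) (m : ℕ) (hm : (m : F) ≠ 0)
    (hz : z ^ m = 1) (w : V) (hw : w ∈ LinearMap.range (z - 1)) (hfix : z w = w) : w = 0 := by
  obtain ⟨v, rfl⟩ := hw
  set w := (z - 1) v with hwdef
  have h1 : (∑ i ∈ Finset.range m, z ^ i) * (z - 1) = z ^ m - 1 := geom_sum_mul z m
  have h2 : (∑ i ∈ Finset.range m, z ^ i) w = 0 := by
    have := congrArg (fun f : Module.End F V => f v) h1
    rw [hz, sub_self] at this
    exact this
  have h3 : ∀ i : ℕ, (z ^ i) w = w := by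
    intro i
    induction i with
    | zero => simp
    | succ i ih => rw [pow_succ, Module.End.mul_apply, hfix, ih]
  have h4 : (∑ i ∈ Finset.range m, z ^ i) w = (m : F) • w := by
    rw [LinearMap.sum_apply, Finset.sum_congr rfl (fun i _ => h3 i)]
    simp [Nat.cast_smul_eq_nsmul]
  rw [h4] at h2
  exact (smul_eq_zero.mp h2).resolve_left hm

end Cfsg.Agent.Lib.Helper27BG34T
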