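import Cfsg.Agent.Lib.Helper87DLDefs
import Cfsg.Agent.Lib.H87DLMinQD
import Cfsg.Agent.Lib.H87DLInitD
import Cfsg.Agent.Lib.H87DLFixWt
import Cfsg.Agent.Lib.H87DLCenD
import Cfsg.Agent.Lib.H87DLFour
import Cfsg.Agent.Lib.H87DLCritOn
import Cfsg.Agent.Lib.Helper27BG34T

/-!
Project 3789 (row S3789), assembly LOp: the operator form.
-/

set_option autoImplicit false

namespace Cfsg.Agent.Lib.H87DLLOp

open Polynomial Cfsg.Agent.Lib.Helper92HHDefs Cfsg.Agent.Lib.Helper87DLDefs Cfsg.Agent.Lib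

variable {K V : Type*} [Field K] [AddCommGroup V] [Module K V]

/-- a quadratic operator has "minimal polynomial of degree ≤ 2". -/
theorem le_two_of_quad (y : Module.End K V) (U : Submodule K V) (s : ℕ)
    (hquad : (y - 1) * (y - 1) = 0) (h : minDegOn y U s) : s ≤ 2 := by
  have h1 := h ((X - C 1) ^ 2) (pow_ne_zero _ (X_sub_C_ne_zero 1)) (by
    intro u _
    have : aeval y ((X - C (1 : K)) ^ 2) = (y - 1) * (y - 1) := by
      simp [sq]
    rw [this, hquad]; rfl)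
  rwa [natDegree_pow, natDegree_X_sub_C, mul_one] at h1

theorem lop [IsAlgClosed K] [FiniteDimensional K V] (p q : ℕ) [Fact p.Prime] [Fact q.Prime]
    (hp2 : p ≠ 2) (hpq : p ≠ q) (hq : (q : K) ≠ 0) (D Q : Subgroup (Module.End K V)ˣ) [Finite Q]
    (hQ : IsPGroup q Q) (hD : IsPGroup p D) (hDQ : ∀ d ∈ D, ∀ u ∈ Q, d * u * d⁻¹ ∈ Q)
    (x : (Module.End K V)ˣ) (hxD : x ∈ D) (hxc : ∀ d ∈ D, Commute d x) (hxp : x ^ p = 1)
    (hx' : x ∈ ⁅D, D⁆)
    (hquad : ((x : Module.End K V) - 1) * ((x : Module.End K V) - 1) = 0)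
    (hDD : ∀ d ∈ D, ((x : Module.End K V) - 1) * ((d : Module.End K V) - 1)
      * ((d : Module.End K V) - 1) = 0) : ∀ u ∈ Q, Commute x u := by
  by_contra hcon
  push Not at hcon
  obtain ⟨Q₁, hQ₁Q, hM, hDQ₁, hne₁, mini⟩ := H87DLMinQD.exists_min p q hpq D Q hQ x hxD hxc hDQ hxp hcon
  have hfinQ₁ : Finite Q₁ := hM.fin
  have hx1 : x ^ p ^ (1 - 1) = x := by simp
  have cent := hM.cent
  have lift := hM.lift
  have gen := hM.gen
  rw [hx1] at cent lift gen
  obtain ⟨U₀, hU₀, hQU₀, hDU₀, hfix₀⟩ := H87DLInitD.exists_init q hq D Q₁ hM.pgrp hDQ₁ (by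
    obtain ⟨u, hu, hc⟩ := hne₁
    exact ⟨u, hu, fun h => hc (by rw [h]; exact Commute.one_right x)⟩)
  set S : Set (Module.End K V) := {s | ∃ z ∈ Q₁, Commute x z ∧ s = (z : Module.End K V)} with hS
  obtain ⟨l, v, hvU, hv0, hvl⟩ := H92HHWeight.exists_weight S U₀ hU₀
    (by rintro _ ⟨z, hz, -, rfl⟩ u hu; exact hQU₀ z hz u hu)
    (by
      rintro _ ⟨z, hz, hzc, rfl⟩ _ ⟨z', hz', -, rfl⟩ u _
      have h := cent z hz hzc z' hz'
      have h2 : (z : Module.End K V) * (z' : Module.End K V) = (z' : Module.End K V) * z := by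
        rw [← Units.val_mul, ← Units.val_mul, h.eq]
      exact congrArg (fun f : Module.End K V => f u) h2)
  set U₁ : Submodule K V := U₀ ⊓ wt S l with hU₁
  have hvU₁ : v ∈ U₁ := ⟨hvU, mem_wt.2 hvl⟩
  have hU₁0 : U₁ ≠ ⊥ := fun h => hv0 (by rw [h] at hvU₁; exact (Submodule.mem_bot K).1 hvU₁)
  have hQU₁ : ∀ g ∈ Q₁, ∀ u ∈ U₁, (g : Module.End K V) u ∈ U₁ := by
    intro g hg u hu
    refine ⟨hQU₀ g hg u hu.1, mem_wt.2 ?_⟩
    rintro _ ⟨z, hz, hzc, rfl⟩
    have h := cent z hz hzc g hg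
    have h2 : (z : Module.End K V) * (g : Module.End K V) = (g : Module.End K V) * z := by
      rw [← Units.val_mul, ← Units.val_mul, h.eq]
    have h3 := congrArg (fun f : Module.End K V => f u) h2
    simp only [Module.End.mul_apply] at h3
    rw [h3, (mem_wt.1 hu.2) _ ⟨z, hz, hzc, rfl⟩, map_smul]
  have hfix₁ : ∀ v ∈ U₁, (∀ g ∈ Q₁, (g : Module.End K V) v = v) → v = 0 :=
    fun v hv h => hfix₀ v hv.1 h
  -- `x` is not trivial on `U₁`
  have hxnt : ∃ m ∈ U₁, (x : Module.End K V) m ≠ m := by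
    by_contra hall
    push Not at hall
    let Fx : Subgroup (Module.End K V)ˣ :=
      { carrier := {g | ∀ u ∈ U₁, (g : Module.End K V) u = u}
        one_mem' := by intro u _; simp
        mul_mem' := by
          intro a b ha hb u hu
          rw [Units.val_mul, Module.End.mul_apply, hb u hu, ha u hu]
        inv_mem' := by
          intro a ha u hu
          have := ha u hu
          calc ((a⁻¹ : (Module.End K V)ˣ) : Module.End K V) u
              = ((a⁻¹ : (Module.End K V)ˣ) : Module.End K V) ((a : Module.End K V) u) := by rw [this]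
            _ = u := by rw [← Module.End.mul_apply, ← Units.val_mul, inv_mul_cancel]; simp }
    have hxF : x ∈ Fx := hall
    have hle : Q₁ ≤ Fx := by
      refine gen.trans ?_
      rw [Subgroup.closure_le]
      rintro _ ⟨u, hu, rfl⟩
      intro w hw
      have hu' : ((u⁻¹ : (Module.End K V)ˣ) : Module.End K V) w ∈ U₁ := hQU₁ _ (Q₁.inv_mem hu) w hw
      have hxi : ∀ w ∈ U₁, ((x⁻¹ : (Module.End K V)ˣ) : Module.End K V) w = w := Fx.inv_mem hxF
      simp only [Units.val_mul, Module.End.mul_apply]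
      rw [hxi _ hu', hall _ (by
        rw [← Module.End.mul_apply, ← Units.val_mul, mul_inv_cancel]; simpa using hw)]
      rw [← Module.End.mul_apply, ← Units.val_mul, mul_inv_cancel]; simp
    exact hv0 (hfix₁ v hvU₁ (fun g hg => hle hg v hvU₁))
  obtain ⟨m, hmU, hxm⟩ := hxnt
  have hDU₁ : ∀ d ∈ D, ∀ u ∈ U₁, (d : Module.End K V) u ∈ U₁ := by
    intro d hd u hu
    refine ⟨hDU₀ d hd u hu.1, ?_⟩
    obtain ⟨k, hk⟩ := hD ⟨d, hd⟩
    have hk' : d ^ p ^ k = 1 := by
      have := congrArg Subtype.val hk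
      simpa using this
    refine H87DLFixWt.fix_wt p hp2 S l d x k hk' ?_ ?_ (hDD d hd) m hmU.2 hxm u hu.2
    · rintro _ ⟨z, hz, hzc, rfl⟩
      refine ⟨d * z * d⁻¹, hDQ₁ d hd z hz, ?_, by simp⟩
      have h1 : Commute x d := (hxc d hd).symm
      exact (h1.mul_right hzc).mul_right h1.inv_right
    · rintro _ ⟨z, hz, hzc, rfl⟩
      rw [← Units.val_mul, ← Units.val_mul, hzc.eq]
  have hsc : ∀ z ∈ Q₁, Commute x z → IsScOn (z : Module.End K V) U₁ :=
    fun z hz hzc => ⟨l z, fun u hu => (mem_wt.1 hu.2) _ ⟨z, hz, hzc, rfl⟩⟩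
  -- minimal subspace
  obtain ⟨U', hU'U, hU'0, hU'inv, hU'min⟩ := Helper27BG34T.exists_min_invariant
    ({s | (∃ g ∈ Q₁, s = (g : Module.End K V)) ∨ s = (x : Module.End K V)}) U₁ hU₁0 (by
      rintro s (⟨g, hg, rfl⟩ | rfl) u hu
      · exact hQU₁ g hg u hu
      · exact hDU₁ x hxD u hu)
  have hQU' : ∀ g ∈ Q₁, ∀ u ∈ U', (g : Module.End K V) u ∈ U' :=
    fun g hg u hu => hU'inv _ (Or.inl ⟨g, hg, rfl⟩) u hu
  have hxU' : ∀ u ∈ U', (x : Module.End K V) u ∈ U' := fun u hu => hU'inv _ (Or.inr rfl) u hu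
  have hx0 : x ^ p ^ 0 = x := by simp
  have hcen : ∀ b ∈ Q₁, (∀ g ∈ Q₁, ∀ u ∈ U', (b : Module.End K V) ((g : Module.End K V) u)
      = (g : Module.End K V) ((b : Module.End K V) u)) → Commute x b :=
    fun b hb hbc => H87DLCenD.commute_of_central p q hp2 D Q₁ x hM hDQ₁ mini U₁ hU₁0 hQU₁ hDU₁ hfix₁
      hsc hquad U' hU'U hU'0 hQU' b hb hbc
  have hC : CritSit p Q₁ x U' 0 := by
    refine ⟨⟨hU'0, hQU', by rw [hx0]; exact hxU', fun v hv h => hfix₁ v (hU'U hv) h⟩, ?_, ?_⟩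
    · intro b hb hbc
      obtain ⟨c, hc⟩ := hsc b hb (hcen b hb hbc)
      exact ⟨c, fun u hu => hc u (hU'U hu)⟩
    · intro W hWU hQW hxW
      by_cases hW : W = ⊥
      · exact Or.inl hW
      · refine Or.inr (hU'min W hWU hW ?_)
        rintro s (⟨g, hg, rfl⟩ | rfl) u hu
        · exact hQW g hg u hu
        · have := hxW u hu
          rwa [hx0] at this
  have hp : p.Prime := Fact.out
  rcases H87DLCritOn.crit_on p q 1 hpq hq Q₁ x hM U' 0 (by norm_num) hC with h | ⟨hd, -, hmin, hcard, -⟩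
  · have h1 : minDegOn (x : Module.End K V) U' (p ^ (1 - 0)) := by
      have := h
      unfold formF at this
      rwa [hx0] at this
    have h2 := le_two_of_quad _ _ _ hquad h1
    simp only [Nat.sub_zero, pow_one] at h2
    exact hp2 (le_antisymm h2 hp.two_le)
  · rw [hx0] at hmin
    have h2 := le_two_of_quad _ _ _ hquad hmin
    simp only [Nat.sub_zero, pow_one] at h2 hd
    have hp3 : p = 3 := by
      have := hp.two_le
      omega
    subst hp3
    set Z : Subgroup (Module.End K V)ˣ := Q₁ ⊓ Subgroup.centralizer {x} with hZ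
    have hmemZ : ∀ u, u ∈ Z ↔ u ∈ Q₁ ∧ Commute x u := by
      intro u
      rw [hZ, Subgroup.mem_inf, Subgroup.mem_centralizer_singleton_iff]
      exact and_congr_right (fun _ => ⟨fun h => h.symm, fun h => h.symm⟩)
    have hcardZ : Nat.card {u : (Module.End K V)ˣ // u ∈ Q₁ ∧ IsScOn (u : Module.End K V) U'}
        = Nat.card Z := by
      apply Nat.card_congr
      refine Equiv.subtypeEquivRight (fun u => ?_)
      rw [hmemZ]
      constructor
      · rintro ⟨hu, c, hc⟩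
        refine ⟨hu, hcen u hu (fun g hg w hw => ?_)⟩
        rw [hc _ (hQU' g hg w hw), hc w hw, map_smul]
      · rintro ⟨hu, huc⟩
        obtain ⟨c, hc⟩ := hsc u hu huc
        exact ⟨hu, c, fun w hw => hc w (hU'U hw)⟩
    rw [hcardZ, hd] at hcard
    have hZQ : Z ≤ Q₁ := inf_le_left
    have hZn : ∀ u ∈ Q₁, ∀ z ∈ Z, u * z * u⁻¹ ∈ Z := by
      intro u hu z hz
      obtain ⟨hz1, hz2⟩ := (hmemZ z).1 hz
      have h := cent z hz1 hz2 u hu
      have : u * z * u⁻¹ = z := by rw [← h.eq]; group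
      rw [this]; exact hz
    have hDZ : ∀ d ∈ D, ∀ u ∈ Z, d * u * d⁻¹ ∈ Z := by
      intro d hd u hu
      obtain ⟨hu1, hu2⟩ := (hmemZ u).1 hu
      refine (hmemZ _).2 ⟨hDQ₁ d hd u hu1, ?_⟩
      have h1 : Commute x d := (hxc d hd).symm
      exact (h1.mul_right hu2).mul_right h1.inv_right
    have key := H87DLFour.comm_mem D Q₁ Z hZQ (by rw [← hcard]; norm_num) hD hDQ₁ hDZ hZn x hx'
    obtain ⟨u, hu, hcu⟩ := hne₁
    obtain ⟨d, hd1, hd2, hd3⟩ := lift Z hZQ hZn (fun m hm => hDZ x hxD m hm) u hu (key u hu)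
    apply hcu
    have h4 := ((hmemZ _).1 hd3).2
    have : u = (u * d⁻¹) * d := by group
    rw [this]
    exact h4.mul_right hd2

end Cfsg.Agent.Lib.H87DLLOp
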