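import Mathlib

/-!
Project 3789 (row S3789), piece Quot.  PURE MATHLIB.
-/

set_option autoImplicit false

namespace Cfsg.Agent.Lib.H87DLQuot

theorem aux {G : Type*} [Group G] (N : Subgroup G) [N.Normal] (d : ℕ) (P : Subgroup G)
    (hN : (derivedSeries ↥P d).map P.subtype ≤ N) (Q : Subgroup (G ⧸ N))
    (hQ : Q = P.map (QuotientGroup.mk' N)) : derivedSeries ↥Q d = ⊥ := by
  subst hQ
  rw [← map_derivedSeries_eq ((QuotientGroup.mk' N).subgroupMap_surjective P) d, eq_bot_iff]
  rintro _ ⟨x, hx, rfl⟩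
  rw [Subgroup.mem_bot]
  apply Subtype.ext
  have hxN : (x : G) ∈ N := hN ⟨x, hx, rfl⟩
  exact (QuotientGroup.eq_one_iff _).2 hxN

/-- If `N` is normal in `G` and contains the `d`-th derived subgroup of every Sylow `p`-subgroup of `G`, the Sylow `p`-subgroups of `G ⧸ N` have derived length `≤ d`.
Proof. Let `P₁ : Sylow p (G ⧸ N)`, `P : Sylow p G` arbitrary; `P.mapSurjective (mk'_surjective N)` is a Sylow `p`-subgroup of `G ⧸ N`, conjugate to `P₁`
(`MulAction.exists_smul_eq (G ⧸ N)`): `P₁ = ḡ • P̄`; lifting `ḡ = mk g` and replacing `P` by `g • P` we get `(P₁ : Subgroup _) = (P : Subgroup G).map (mk' N)`.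
The restriction `f : ↥P →* ↥P₁` of `mk' N` is surjective, so `derivedSeries ↥P₁ d = (derivedSeries ↥P d).map f` (`map_derivedSeries_eq`), and `f` kills
`derivedSeries ↥P d` since its image in `G` lies in `N`. -/
theorem quot {G : Type*} [Group G] [Finite G] {p : ℕ} [Fact p.Prime] (N : Subgroup G) [N.Normal] (d : ℕ)
    (hN : ∀ P : Sylow p G, (derivedSeries ↥(P : Subgroup G) d).map (P : Subgroup G).subtype ≤ N) :
    ∀ P₁ : Sylow p (G ⧸ N), derivedSeries ↥(P₁ : Subgroup (G ⧸ N)) d = ⊥ := by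
  intro P₁
  obtain ⟨P⟩ : Nonempty (Sylow p G) := inferInstance
  obtain ⟨gbar, hg⟩ := MulAction.exists_smul_eq (G ⧸ N)
    (P.mapSurjective (QuotientGroup.mk'_surjective N)) P₁
  obtain ⟨g, rfl⟩ := QuotientGroup.mk'_surjective N gbar
  apply aux N d ((g • P : Sylow p G) : Subgroup G) (hN (g • P))
  rw [← hg, Sylow.smul_def, Sylow.pointwise_smul_def, Sylow.smul_def, Sylow.pointwise_smul_def,
    Sylow.coe_mapSurjective]
  ext y
  constructor
  · intro hy
    rw [Subgroup.mem_pointwise_smul_iff_inv_smul_mem] at hy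
    obtain ⟨x, hx, hxy⟩ := hy
    refine ⟨g * x * g⁻¹, ?_, ?_⟩
    · have := Subgroup.smul_mem_pointwise_smul x (MulAut.conj g) (P : Subgroup G) hx
      rw [MulAut.smul_def, MulAut.conj_apply] at this
      exact this
    · rw [map_mul, map_mul, hxy, map_inv]
      simp [MulAut.smul_def, mul_assoc]
  · rintro ⟨x', hx', rfl⟩
    rw [SetLike.mem_coe, Subgroup.mem_pointwise_smul_iff_inv_smul_mem] at hx'
    rw [Subgroup.mem_pointwise_smul_iff_inv_smul_mem]
    refine ⟨_, hx', ?_⟩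
    simp [MulAut.smul_def, mul_assoc]

end Cfsg.Agent.Lib.H87DLQuot
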