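import Cfsg.Agent.Lib.H87DLKH1
import Cfsg.Agent.Lib.Helper38HH
import Cfsg.Agent.Lib.Helper60Core
import Cfsg.Agent.Lib.Helper31PLength

/-!
Project 3789 (row S3789), piece Top.
-/

set_option autoImplicit false

namespace Cfsg.Agent.Lib.H87DLTop

open Cfsg

/-- The last nontrivial term of the derived series of a Sylow `p`-subgroup lies in `O_{p',p}(G)` (`p` odd, `G` `p`-solvable).

Proof. `N = pPrimeCore p G`, `H₁ = G ⧸ N`, `π = mk' N`; `H₁` is `p`-solvable (`Helper38PSolv.isPSolvable_quotient`), `pPrimeCore p H₁ = ⊥`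
(`Helper60Core.pPrimeCore_quotient_eq_bot`), `V = pCore p H₁ ≤ P.map π` (see the proof of `Helper31PLength.pPrimePCore_le_sup`:
`(pCore_isPGroup p).le_sylow_of_normal (P.mapSurjective hsurj)`); `pPrimePCore p G = V.comap π` by definition. For a subgroup `T` of `↥P` write `T̄ = (T.map P.subtype).map π`.
* `d = 0`: `derivedSeries P 1 = ⁅⊤,⊤⁆ = ⊥`, so `P` is commutative, `P̄ ≥ V` is commutative, `P̄ ≤ C(V) ≤ V` (`Helper38HH.centralizer_pCore_le`).
* `d = k + 1`: `C = (derivedSeries P k)‾`, a `p`-group. `⁅C, C⁆ = (derivedSeries P (k+1))‾` (`Subgroup.map_commutator` twice, `derivedSeries_succ`). It is commutative because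
  `⁅derivedSeries P (k+1), derivedSeries P (k+1)⁆ = derivedSeries P (k+2) = ⊥`. `V` normalises `C`: `v = π u`, `u ∈ P`, and `derivedSeries P k` is normal in `↥P`
  (`derivedSeries_normal`). Apply `H87DLKH1.kh1`. -/
theorem top {G : Type*} [Group G] [Finite G] {p : ℕ} [Fact p.Prime] (hp : p ≠ 2)
    (hG : IsPSolvable p G) (P : Sylow p G) (d : ℕ)
    (hd : derivedSeries ↥(P : Subgroup G) (d + 1) = ⊥) :
    (derivedSeries ↥(P : Subgroup G) d).map (P : Subgroup G).subtype ≤ pPrimePCore p G := by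
  have hsurj := QuotientGroup.mk'_surjective (pPrimeCore p G)
  have hs : IsPSolvable p (G ⧸ pPrimeCore p G) :=
    Cfsg.Agent.Lib.Helper38PSolv.isPSolvable_quotient _ hG
  have h0 : pPrimeCore p (G ⧸ pPrimeCore p G) = ⊥ :=
    Cfsg.Agent.Lib.Helper60Core.pPrimeCore_quotient_eq_bot p
  have hV : pCore p (G ⧸ pPrimeCore p G) ≤
      (P : Subgroup G).map (QuotientGroup.mk' (pPrimeCore p G)) :=
    (Cfsg.Agent.Lib.Helper60Core.pCore_isPGroup p).le_sylow_of_normal (P.mapSurjective hsurj)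
  set π := QuotientGroup.mk' (pPrimeCore p G) with hπ
  set ψ : ↥(P : Subgroup G) →* (G ⧸ pPrimeCore p G) := π.comp (P : Subgroup G).subtype with hψ
  show _ ≤ (pCore p (G ⧸ pPrimeCore p G)).comap π
  rw [← Subgroup.map_le_iff_le_comap, Subgroup.map_map, ← hψ]
  have hVex : ∀ v ∈ pCore p (G ⧸ pPrimeCore p G), ∃ u : ↥(P : Subgroup G), ψ u = v := by
    intro v hv
    obtain ⟨u, hu, rfl⟩ := Subgroup.mem_map.1 (hV hv)
    exact ⟨⟨u, hu⟩, rfl⟩
  have hcomm : ∀ a ∈ derivedSeries ↥(P : Subgroup G) d, ∀ b ∈ derivedSeries ↥(P : Subgroup G) d,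
      a * b = b * a := by
    rw [derivedSeries_succ, Subgroup.commutator_eq_bot_iff_le_centralizer] at hd
    intro a ha b hb
    exact (Subgroup.mem_centralizer_iff.1 (hd ha) b hb).symm
  rcases d with _ | k
  · refine le_trans ?_ (Cfsg.Agent.Lib.Helper38HH.centralizer_pCore_le hs h0)
    rintro _ ⟨a, ha, rfl⟩
    rw [Subgroup.mem_centralizer_iff]
    intro v hv
    obtain ⟨u, rfl⟩ := hVex v hv
    rw [← map_mul, ← map_mul, hcomm u (by rw [derivedSeries_zero]; trivial) a ha]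
  · rw [derivedSeries_succ, Subgroup.map_commutator]
    apply Cfsg.Agent.Lib.H87DLKH1.kh1 hp hs h0
    · exact (P.isPGroup'.to_subgroup _).map ψ
    · rintro v hv _ ⟨c, hc, rfl⟩
      obtain ⟨u, rfl⟩ := hVex v hv
      rw [← map_inv, ← map_mul, ← map_mul]
      exact Subgroup.mem_map_of_mem _ ((derivedSeries_normal _ k).conj_mem c hc u)
    · rw [← Subgroup.map_commutator, ← derivedSeries_succ]
      rintro _ ⟨b, hb, rfl⟩ _ ⟨b', hb', rfl⟩
      show ψ b * ψ b' = ψ b' * ψ b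
      rw [← map_mul, ← map_mul, hcomm b hb b' hb']

end Cfsg.Agent.Lib.H87DLTop
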