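import Cfsg.Agent.Lib.H87WRNu
import Cfsg.Agent.Lib.H92HHLin
import Cfsg.Agent.Lib.Helper60Core
import Cfsg.Agent.S4218
import Cfsg.Agent.S0012

/-!
Project 3787 (row S3787), piece ActN (a variant of piece Act of project 3789: see `Cfsg/Agent/Lib/H87DLAct.lean` once it is landed; the construction is the same, only the last property differs).
-/

set_option autoImplicit false

namespace Cfsg.Agent.Lib.H87WRActN

open Cfsg Cfsg.Agent.Lib
open scoped commutatorElement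

/-- `exists_lin` combined with `prod_conj`, commutative version. -/
theorem linC (r : ℕ) [Fact r.Prime] (A : Type*) [CommGroup A] [Finite A]
    (hA : ∀ x : A, x ^ r = 1) (K : Type*) [Field K] [CharP K r] (Y : Type*) [Group Y]
    (ι : A →* Y) (hι : Function.Injective ι) :
    ∃ (d : ℕ) (L : MulAut A →* (Module.End K (Fin d → K))ˣ), Function.Injective L ∧
      ∀ (c : MulAut A) (x : Y) (N : ℕ), (∀ a, ι (c a) = x * ι a * x⁻¹) →
        (∀ v : A, (ι v * x) ^ N * (x ^ N)⁻¹ = 1) →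
        ∑ i ∈ Finset.range N,
          ((L c : (Module.End K (Fin d → K))ˣ) : Module.End K (Fin d → K)) ^ i = 0 := by
  obtain ⟨d, L, hL, hN⟩ := H92HHLin.exists_lin r A hA K
  refine ⟨d, L, hL, ?_⟩
  intro c x N hc hv
  apply hN
  intro v
  apply hι
  rw [H87WRNu.prod_conj ι c x hc v N, hv, map_one]

/-- the same for a group with a commutativity hypothesis -/
theorem linG (r : ℕ) [Fact r.Prime] (A : Type*) [Group A] [Finite A]
    (hc : ∀ a b : A, a * b = b * a)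
    (hA : ∀ x : A, x ^ r = 1) (K : Type*) [Field K] [CharP K r] (Y : Type*) [Group Y]
    (ι : A →* Y) (hι : Function.Injective ι) :
    ∃ (d : ℕ) (L : MulAut A →* (Module.End K (Fin d → K))ˣ), Function.Injective L ∧
      ∀ (c : MulAut A) (x : Y) (N : ℕ), (∀ a, ι (c a) = x * ι a * x⁻¹) →
        (∀ v : A, (ι v * x) ^ N * (x ^ N)⁻¹ = 1) →
        ∑ i ∈ Finset.range N,
          ((L c : (Module.End K (Fin d → K))ˣ) : Module.End K (Fin d → K)) ^ i = 0 :=
  @linC r _ A { (inferInstance : Group A) with mul_comm := hc } _ hA K _ _ Y _ ι hι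

/-- The action of a `p`-solvable group `H₁` with `O_{p'}(H₁) = 1` on `V/Φ(V)`, `V = O_p(H₁)`, as a linear representation over `K` (char `p`) with kernel `V`, with the norm property. -/
theorem exists_actN {H₁ : Type*} [Group H₁] [Finite H₁] {p : ℕ} [Fact p.Prime]
    (hs : IsPSolvable p H₁) (h0 : pPrimeCore p H₁ = ⊥) (K : Type*) [Field K] [CharP K p] :
    ∃ (d : ℕ) (φ : H₁ →* (Module.End K (Fin d → K))ˣ), (∀ g, φ g = 1 ↔ g ∈ pCore p H₁) ∧
      ∀ (x : H₁) (N : ℕ),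
        (∀ v ∈ pCore p H₁,
          (v * x) ^ N * (x ^ N)⁻¹ ∈ (frattini ↥(pCore p H₁)).map (pCore p H₁).subtype) →
        ∑ i ∈ Finset.range N,
          ((φ x : (Module.End K (Fin d → K))ˣ) : Module.End K (Fin d → K)) ^ i = 0 := by
  obtain ⟨V, hVdef⟩ : ∃ V : Subgroup H₁, V = pCore p H₁ := ⟨_, rfl⟩
  have hVn : V.Normal := by rw [hVdef]; infer_instance
  have hVp : IsPGroup p V := by rw [hVdef]; exact Cfsg.Agent.Lib.Helper60Core.pCore_isPGroup p
  obtain ⟨Φ, hΦdef⟩ : ∃ Φ : Subgroup H₁, Φ = (frattini V).map V.subtype := ⟨_, rfl⟩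
  have hΦn : Φ.Normal := by rw [hΦdef]; exact ConjAct.normal_of_characteristic_of_normal
  obtain ⟨hfc, hfp⟩ := Cfsg.Agent.S0012.result p hVp
  have hcommΦ : ∀ a ∈ V, ∀ b ∈ V, a * b * a⁻¹ * b⁻¹ ∈ Φ := by
    intro a ha b hb
    rw [hΦdef]
    refine Subgroup.mem_map.2 ⟨⁅(⟨a, ha⟩ : V), ⟨b, hb⟩⁆, hfc
      (Subgroup.commutator_mem_commutator (Subgroup.mem_top _) (Subgroup.mem_top _)), ?_⟩
    rw [commutatorElement_def]
    rfl
  have hpowΦ : ∀ a ∈ V, a ^ p ∈ Φ := by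
    intro a ha
    rw [hΦdef]
    exact Subgroup.mem_map.2 ⟨(⟨a, ha⟩ : V) ^ p, hfp _, rfl⟩
  obtain ⟨E, hEdef⟩ : ∃ E : Subgroup (H₁ ⧸ Φ), E = V.map (QuotientGroup.mk' Φ) := ⟨_, rfl⟩
  have hEn : E.Normal := by
    rw [hEdef]; exact hVn.map _ (QuotientGroup.mk'_surjective Φ)
  have hEex : ∀ e : E, ∃ v ∈ V, (e : H₁ ⧸ Φ) = QuotientGroup.mk' Φ v := by
    intro e
    have : (e : H₁ ⧸ Φ) ∈ V.map (QuotientGroup.mk' Φ) := hEdef ▸ e.2
    obtain ⟨v, hv, hve⟩ := Subgroup.mem_map.1 this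
    exact ⟨v, hv, hve.symm⟩
  have hEc : ∀ a b : E, a * b = b * a := by
    intro a b
    obtain ⟨v, hv, hva⟩ := hEex a
    obtain ⟨w, hw, hwb⟩ := hEex b
    apply Subtype.ext
    rw [Subgroup.coe_mul, Subgroup.coe_mul, hva, hwb, ← map_mul, ← map_mul]
    apply QuotientGroup.eq.2
    have := hcommΦ w⁻¹ (V.inv_mem hw) v⁻¹ (V.inv_mem hv)
    convert this using 1
    group
  have hEp : ∀ a : E, a ^ p = 1 := by
    intro a
    obtain ⟨v, hv, hva⟩ := hEex a
    apply Subtype.ext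
    rw [Subgroup.coe_pow, hva, ← map_pow]
    exact (QuotientGroup.eq_one_iff _).2 (hpowΦ v hv)
  obtain ⟨d, L, hLinj, hLN⟩ := linG p ↥E hEc hEp K (H₁ ⧸ Φ) E.subtype E.subtype_injective
  let c : (H₁ ⧸ Φ) →* MulAut ↥E := MulAut.conjNormal
  have hval : ∀ (a : H₁) (e : E), ((c (QuotientGroup.mk' Φ a) e : E) : H₁ ⧸ Φ) =
      QuotientGroup.mk' Φ a * e * (QuotientGroup.mk' Φ a)⁻¹ := fun a e =>
    MulAut.conjNormal_apply _ _
  -- difference
  have hdiff : ∀ (g v : H₁) (e : E), (e : H₁ ⧸ Φ) = QuotientGroup.mk' Φ v →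
      ((c (QuotientGroup.mk' Φ g) e * e⁻¹ : E) : H₁ ⧸ Φ) =
        QuotientGroup.mk' Φ (g * v * g⁻¹ * v⁻¹) := by
    intro g v e he
    rw [Subgroup.coe_mul, Subgroup.coe_inv, hval, he]
    simp only [map_mul, map_inv]
  refine ⟨d, L.comp (c.comp (QuotientGroup.mk' Φ)), ?_, ?_⟩
  · intro g
    rw [← hVdef]
    show L (c (QuotientGroup.mk' Φ g)) = 1 ↔ _
    rw [map_eq_one_iff L hLinj]
    constructor
    · intro h1
      rw [hVdef]
      apply Cfsg.Agent.S4218.core hs h0 g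
      rw [← hVdef, ← hΦdef]
      intro x hx
      have hxE : QuotientGroup.mk' Φ x ∈ E := by
        rw [hEdef]; exact Subgroup.mem_map_of_mem _ hx
      have h2 := hdiff g x ⟨_, hxE⟩ rfl
      rw [h1, MulAut.one_apply, mul_inv_cancel] at h2
      exact (QuotientGroup.eq_one_iff _).1 h2.symm
    · intro hg
      ext e
      obtain ⟨v, hv, hve⟩ := hEex e
      have h2 := hdiff g v e hve
      have h2' : QuotientGroup.mk' Φ (g * v * g⁻¹ * v⁻¹) = 1 :=
        (QuotientGroup.eq_one_iff _).2 (hcommΦ g hg v hv)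
      rw [h2'] at h2
      have h3 : c (QuotientGroup.mk' Φ g) e * e⁻¹ = 1 := Subtype.ext h2
      rw [mul_inv_eq_one] at h3
      rw [h3]
      rfl
  · intro x N hx
    rw [← hVdef, ← hΦdef] at hx
    show ∑ i ∈ Finset.range N,
      ((L (c (QuotientGroup.mk' Φ x)) : (Module.End K (Fin d → K))ˣ) :
        Module.End K (Fin d → K)) ^ i = 0
    apply hLN (c (QuotientGroup.mk' Φ x)) (QuotientGroup.mk' Φ x) N
    · intro a
      exact hval x a
    · intro e
      obtain ⟨v, hv, hve⟩ := hEex e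
      show ((e : H₁ ⧸ Φ) * _) ^ N * _ = 1
      rw [hve, ← map_mul, ← map_pow, ← map_pow, ← map_inv, ← map_mul]
      exact (QuotientGroup.eq_one_iff _).2 (hx v hv)

end Cfsg.Agent.Lib.H87WRActN
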