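import Cfsg.Agent.Lib.H87WRNu

/-!
Project 3787 (row S3787), piece Adjust.  PURE MATHLIB.
-/

set_option autoImplicit false

namespace Cfsg.Agent.Lib.H87WRAdjust

open Cfsg.Agent.Lib

/-- Replace `x` by a suitable element `y` of the coset `E x` such that the norm of `e` avoids `⟨y^p⟩`. -/
theorem adjust (p : ℕ) [Fact p.Prime] {Y : Type*} [Group Y] (E : Subgroup Y)
    (hc : ∀ a ∈ E, ∀ b ∈ E, a * b = b * a) (hexp : ∀ a ∈ E, a ^ p = 1) (x : Y)
    (hn : ∀ a ∈ E, x * a * x⁻¹ ∈ E) (hxp : x ^ p ∈ E) (e : Y) (he : e ∈ E)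
    (hne : (e * x) ^ p ≠ x ^ p) :
    ∃ y e' : Y, (∀ a ∈ E, y * a * y⁻¹ ∈ E) ∧ y ^ p ∈ E ∧ e' ∈ E ∧
      (e' * y) ^ p * (y ^ p)⁻¹ ∉ Subgroup.zpowers (y ^ p) := by
  have hp : p.Prime := Fact.out
  have hνe : (e * x) ^ p * (x ^ p)⁻¹ ≠ 1 := by
    intro h
    exact hne (mul_inv_eq_one.1 h)
  by_cases hA : ∃ w ∈ E, (w * x) ^ p * (x ^ p)⁻¹ = x ^ p
  · obtain ⟨w, hw, hwx⟩ := hA
    have hyp : (w⁻¹ * x) ^ p = 1 := by
      have h1 := H87WRNu.nu_inv E hc x hn p w hw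
      rw [hwx] at h1
      exact mul_inv_eq_iff_eq_mul.1 h1 |>.trans (by simp)
    refine ⟨w⁻¹ * x, e, ?_, ?_, he, ?_⟩
    · intro a ha
      have h1 := E.mul_mem (E.mul_mem (E.inv_mem hw) (hn a ha)) hw
      have : w⁻¹ * x * a * (w⁻¹ * x)⁻¹ = w⁻¹ * (x * a * x⁻¹) * w := by
        simp only [mul_inv_rev, inv_inv, mul_assoc]
      rw [this]; exact h1
    · rw [hyp]; exact E.one_mem
    · rw [hyp, Subgroup.zpowers_one_eq_bot, Subgroup.mem_bot, inv_one, mul_one]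
      intro h
      apply hνe
      have h1 := H87WRNu.nu_mul E hc x hn p e w⁻¹ he (E.inv_mem hw)
      rw [H87WRNu.nu_inv E hc x hn p w hw, hwx] at h1
      have h2 : (e * w⁻¹ * x) ^ p = 1 := by rw [mul_assoc]; exact h
      rw [h2, one_mul] at h1
      exact (mul_eq_right.1 h1.symm)
  · push Not at hA
    refine ⟨x, e, hn, hxp, he, ?_⟩
    intro hmem
    set u := x ^ p with hu
    set ν := (e * x) ^ p * u⁻¹ with hν
    have hup : u ^ p = 1 := hexp u hxp
    have hu1 : u ≠ 1 := by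
      intro h
      apply hA 1 E.one_mem
      rw [H87WRNu.nu_one, h]
    have hord : orderOf u = p := orderOf_eq_prime hup hu1
    have hcard : Nat.card (Subgroup.zpowers u) = p := by rw [Nat.card_zpowers, hord]
    have hgen : (⟨u, Subgroup.mem_zpowers u⟩ : Subgroup.zpowers u)
        ∈ Subgroup.zpowers (⟨ν, hmem⟩ : Subgroup.zpowers u) :=
      mem_zpowers_of_prime_card hcard (fun h => hνe (congrArg Subtype.val h))
    have hfin : IsOfFinOrder (⟨ν, hmem⟩ : Subgroup.zpowers u) := by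
      have : Finite (Subgroup.zpowers u) := Nat.finite_of_card_ne_zero (by rw [hcard]; exact hp.ne_zero)
      exact isOfFinOrder_of_finite _
    rw [← hfin.mem_powers_iff_mem_zpowers] at hgen
    obtain ⟨k, hk⟩ := hgen
    have hk' : ν ^ k = u := congrArg Subtype.val hk
    apply hA (e ^ k) (E.pow_mem he k)
    rw [H87WRNu.nu_pow E hc x hn p k e he]
    exact hk'

end Cfsg.Agent.Lib.H87WRAdjust
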