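import Mathlib

/-!
Project 3787 (row S3787), piece LinInd.  PURE MATHLIB (linear algebra over `ZMod p`).
-/

set_option autoImplicit false

namespace Cfsg.Agent.Lib.H87WRLinInd

open Polynomial in
theorem sub_one_pow_eq_zero (p : ℕ) [Fact p.Prime] {M : Type*} [AddCommGroup M]
    [Module (ZMod p) M] (S : M →ₗ[ZMod p] M) (hS : S ^ p = 1) : (S - 1) ^ p = 0 := by
  have h := congrArg (Polynomial.aeval S) (sub_pow_char (X : (ZMod p)[X]) 1 (p := p))
  simp only [map_pow, map_sub, aeval_X, map_one, one_pow] at h
  rw [h, hS, sub_self]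

theorem sum_val_eq (p : ℕ) [Fact p.Prime] {M : Type*} [AddCommMonoid M] (g : ℕ → M) :
    ∑ i : ZMod p, g i.val = ∑ i ∈ Finset.range p, g i := by
  refine Finset.sum_bij (fun i _ => i.val) ?_ ?_ ?_ ?_
  · intro i _
    exact Finset.mem_range.2 (ZMod.val_lt i)
  · intro i _ j _ h
    exact ZMod.val_injective p h
  · intro b hb
    exact ⟨(b : ZMod p), Finset.mem_univ _, ZMod.val_natCast_of_lt (Finset.mem_range.1 hb)⟩
  · intro i _
    rfl

/-- If `τ^p = 1` and `(1 + τ + ... + τ^(p-1)) e ≠ 0` then `e, τ e, ..., τ^(p-1) e` are linearly independent over `F_p`. -/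
theorem lin_ind (p : ℕ) [Fact p.Prime] {M : Type*} [AddCommGroup M] [Module (ZMod p) M]
    (τ : M →ₗ[ZMod p] M) (hτ : τ ^ p = 1) (e : M)
    (he : ∑ i ∈ Finset.range p, (τ ^ i) e ≠ 0) (f : ZMod p → ZMod p)
    (hf : ∑ i : ZMod p, f i • (τ ^ i.val) e = 0) : f = 0 := by
  classical
  let S : (ZMod p → ZMod p) →ₗ[ZMod p] (ZMod p → ZMod p) :=
    LinearMap.funLeft (ZMod p) (ZMod p) (fun i => i - 1)
  have hS : ∀ f i, S f i = f (i - 1) := fun _ _ => rfl
  have hSk : ∀ (k : ℕ) f i, (S ^ k) f i = f (i - k) := by
    intro k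
    induction k with
    | zero => intro f i; simp
    | succ k ih =>
      intro f i
      rw [pow_succ, Module.End.mul_apply, ih, hS]
      congr 1
      push_cast
      ring
  have hSp : S ^ p = 1 := by
    apply LinearMap.ext
    intro f
    funext i
    rw [hSk, ZMod.natCast_self, sub_zero]
    rfl
  have hD : (S - 1) ^ p = 0 := sub_one_pow_eq_zero p S hSp
  let β : (ZMod p → ZMod p) →ₗ[ZMod p] M :=
    Fintype.linearCombination (ZMod p) (fun i : ZMod p => (τ ^ i.val) e)
  have hβ : ∀ f, β f = ∑ i : ZMod p, f i • (τ ^ i.val) e := fun f =>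
    Fintype.linearCombination_apply _ _ _
  have h1 : ∀ f, τ (β f) = β (S f) := by
    intro f
    rw [hβ, hβ, map_sum]
    refine Fintype.sum_equiv (Equiv.addRight (1 : ZMod p)) _ _ ?_
    intro i
    rw [map_smul, hS]
    simp only [Equiv.coe_addRight, add_sub_cancel_right]
    congr 1
    rw [ZMod.val_add, ZMod.val_one, ← pow_eq_pow_mod _ hτ, pow_succ', Module.End.mul_apply]
  have h3 : ∀ (k : ℕ) f, ((S - 1) ^ k) f = 0 → β f = 0 → f = 0 := by
    intro k
    induction k with
    | zero => intro f h _; simpa using h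
    | succ k ih =>
      intro f hk hb
      have hg : (S - 1) f = 0 := by
        apply ih
        · rw [← Module.End.mul_apply, ← pow_succ]; exact hk
        · rw [LinearMap.sub_apply, map_sub, ← h1, hb, Module.End.one_apply, hb, map_zero,
            sub_zero]
      have hSf : S f = f := by
        rw [LinearMap.sub_apply, Module.End.one_apply, sub_eq_zero] at hg
        exact hg
      have hSkf : ∀ k : ℕ, (S ^ k) f = f := by
        intro k
        induction k with
        | zero => simp
        | succ k ih => rw [pow_succ, Module.End.mul_apply, hSf, ih]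
      have hconst : ∀ i, f i = f 0 := by
        intro i
        have := hSk i.val f i
        rw [hSkf, ZMod.natCast_zmod_val, sub_self] at this
        exact this
      have hb2 : β f = f 0 • ∑ i ∈ Finset.range p, (τ ^ i) e := by
        rw [hβ, ← sum_val_eq p (fun i => (τ ^ i) e), Finset.smul_sum]
        exact Finset.sum_congr rfl (fun i _ => by rw [hconst i])
      rw [hb] at hb2
      have h0 : f 0 = 0 := (smul_eq_zero.1 hb2.symm).resolve_right he
      funext i
      rw [hconst i, h0]
      rfl
  apply h3 p f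
  · rw [hD]; rfl
  · rw [hβ]; exact hf

end Cfsg.Agent.Lib.H87WRLinInd
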