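import Cfsg.Agent.Lib.Helper87WRDefs
import Cfsg.Agent.Lib.H87WRLinInd

/-!
Project 3787 (row S3787), piece EmbA.  PURE MATHLIB.
-/

set_option autoImplicit false

namespace Cfsg.Agent.Lib.H87WREmbA

open Cfsg.Agent.Lib.Helper87WRDefs

theorem embA_aux (p : ℕ) [Fact p.Prime] {A : Type*} [CommGroup A]
    [Module (ZMod p) (Additive A)]
    (c : MulAut A) (hc : c ^ p = 1) (e : A) (he : ∏ i ∈ Finset.range p, (c ^ i) e ≠ 1) :
    ∃ β : Multiplicative (ZMod p → ZMod p) →* A, Function.Injective β ∧
      ∀ (s : ZMod p) (f : Multiplicative (ZMod p → ZMod p)),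
        β (shift p (Multiplicative.ofAdd s) f) = (c ^ s.val) (β f) := by
  classical
  let τ : Additive A →ₗ[ZMod p] Additive A :=
    AddMonoidHom.toZModLinearMap p (MulEquiv.toAdditive c).toAddMonoidHom
  have hτ1 : ∀ a : A, τ (Additive.ofMul a) = Additive.ofMul (c a) := fun _ => rfl
  have hτk : ∀ (k : ℕ) (a : A), (τ ^ k) (Additive.ofMul a) = Additive.ofMul ((c ^ k) a) := by
    intro k
    induction k with
    | zero => intro a; simp
    | succ k ih =>
      intro a
      rw [pow_succ', Module.End.mul_apply, ih, hτ1, pow_succ', MulAut.mul_apply]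
  have hτp : τ ^ p = 1 := by
    apply LinearMap.ext
    intro a
    induction a using Additive.rec with
    | _ a => rw [hτk, hc]; rfl
  have hne : ∑ i ∈ Finset.range p, (τ ^ i) (Additive.ofMul e) ≠ 0 := by
    intro h
    apply he
    have h2 : ∑ i ∈ Finset.range p, (τ ^ i) (Additive.ofMul e)
        = Additive.ofMul (∏ i ∈ Finset.range p, (c ^ i) e) := by
      rw [ofMul_prod]
      exact Finset.sum_congr rfl (fun i _ => hτk i e)
    rw [h2] at h
    exact Additive.ofMul.injective h
  let β₀ : (ZMod p → ZMod p) →ₗ[ZMod p] Additive A :=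
    Fintype.linearCombination (ZMod p) (fun i : ZMod p => (τ ^ i.val) (Additive.ofMul e))
  have hβ₀ : ∀ f, β₀ f = ∑ i : ZMod p, f i • (τ ^ i.val) (Additive.ofMul e) := fun f =>
    Fintype.linearCombination_apply _ _ _
  let β : Multiplicative (ZMod p → ZMod p) →* A :=
    AddMonoidHom.toMultiplicativeLeft β₀.toAddMonoidHom
  have hβ : ∀ f : Multiplicative (ZMod p → ZMod p),
      Additive.ofMul (β f) = β₀ (Multiplicative.toAdd f) := fun _ => rfl
  refine ⟨β, ?_, ?_⟩
  · rw [injective_iff_map_eq_one]
    intro f hf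
    have h1 : β₀ (Multiplicative.toAdd f) = 0 := by
      rw [← hβ, hf]; rfl
    rw [hβ₀] at h1
    have := H87WRLinInd.lin_ind p τ hτp (Additive.ofMul e) hne _ h1
    exact Multiplicative.toAdd.injective this
  · intro s f
    apply Additive.ofMul.injective
    rw [← hτk, hβ, hβ]
    induction f using Multiplicative.rec with
    | _ f =>
      rw [shift_apply]
      show β₀ (fun i => f (i - s)) = (τ ^ s.val) (β₀ f)
      rw [hβ₀, hβ₀, map_sum]
      refine Fintype.sum_equiv (Equiv.subRight s) _ _ ?_
      intro i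
      rw [map_smul]
      simp only [Equiv.subRight_apply]
      congr 1
      rw [← Module.End.mul_apply, ← pow_add]
      have h1 : i.val = (s.val + (i - s).val) % p := by
        rw [← ZMod.val_add, add_sub_cancel]
      rw [pow_eq_pow_mod (s.val + (i - s).val) hτp, ← h1]

/-- The base group of `Wr p` embeds equivariantly. -/
theorem embA (p : ℕ) [Fact p.Prime] {A : Type*} [CommGroup A] (hexp : ∀ a : A, a ^ p = 1)
    (c : MulAut A) (hc : c ^ p = 1) (e : A) (he : ∏ i ∈ Finset.range p, (c ^ i) e ≠ 1) :
    ∃ β : Multiplicative (ZMod p → ZMod p) →* A, Function.Injective β ∧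
      ∀ (s : ZMod p) (f : Multiplicative (ZMod p → ZMod p)),
        β (shift p (Multiplicative.ofAdd s) f) = (c ^ s.val) (β f) := by
  letI : Module (ZMod p) (Additive A) := AddCommGroup.zmodModule (n := p) (fun x => by
    induction x using Additive.rec with
    | _ x => rw [← ofMul_pow, hexp]; rfl)
  exact embA_aux p c hc e he

end Cfsg.Agent.Lib.H87WREmbA
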