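import Mathlib

/-!
Project 3787 (row S3787), piece Nu.  PURE MATHLIB (inductions on `n`).
The "norm" `ν_n(a) = a · xax⁻¹ · x²ax⁻² ⋯ x^(n-1)ax^-(n-1)` is written as `(a * x)^n * (x^n)⁻¹`.
-/

set_option autoImplicit false

namespace Cfsg.Agent.Lib.H87WRNu

variable {Y : Type*} [Group Y]

theorem nu_succ (a x : Y) (n : ℕ) :
    (a * x) ^ (n + 1) * (x ^ (n + 1))⁻¹ = ((a * x) ^ n * (x ^ n)⁻¹) * (x ^ n * a * (x ^ n)⁻¹) := by
  rw [pow_succ (a * x), pow_succ x]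
  simp only [mul_inv_rev, mul_assoc, inv_mul_cancel_left, mul_inv_cancel_left]

theorem conj_pow_mem (E : Subgroup Y) (x : Y) (hn : ∀ a ∈ E, x * a * x⁻¹ ∈ E) (n : ℕ) (a : Y)
    (ha : a ∈ E) : x ^ n * a * (x ^ n)⁻¹ ∈ E := by
  induction n with
  | zero => simpa using ha
  | succ n ih =>
    have := hn _ ih
    have h2 : x ^ (n + 1) * a * (x ^ (n + 1))⁻¹ = x * (x ^ n * a * (x ^ n)⁻¹) * x⁻¹ := by
      rw [pow_succ' x]
      simp only [mul_inv_rev, mul_assoc]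
    rw [h2]; exact this

theorem nu_mem (E : Subgroup Y) (x : Y) (hn : ∀ a ∈ E, x * a * x⁻¹ ∈ E) (n : ℕ) (a : Y)
    (ha : a ∈ E) : (a * x) ^ n * (x ^ n)⁻¹ ∈ E := by
  induction n with
  | zero => simp
  | succ n ih =>
    rw [nu_succ]
    exact E.mul_mem ih (conj_pow_mem E x hn n a ha)

theorem nu_mul (E : Subgroup Y) (hc : ∀ a ∈ E, ∀ b ∈ E, a * b = b * a) (x : Y)
    (hn : ∀ a ∈ E, x * a * x⁻¹ ∈ E) (n : ℕ) (a b : Y) (ha : a ∈ E) (hb : b ∈ E) :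
    (a * b * x) ^ n * (x ^ n)⁻¹ = ((a * x) ^ n * (x ^ n)⁻¹) * ((b * x) ^ n * (x ^ n)⁻¹) := by
  induction n with
  | zero => simp
  | succ n ih =>
    rw [nu_succ, nu_succ a, nu_succ b, ih]
    have h1 : x ^ n * (a * b) * (x ^ n)⁻¹ = (x ^ n * a * (x ^ n)⁻¹) * (x ^ n * b * (x ^ n)⁻¹) := by
      simp only [mul_assoc, inv_mul_cancel_left]
    rw [h1]
    have hA := conj_pow_mem E x hn n a ha
    have hB := nu_mem E x hn n b hb
    generalize (a * x) ^ n * (x ^ n)⁻¹ = s at *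
    generalize (b * x) ^ n * (x ^ n)⁻¹ = t at *
    generalize x ^ n * a * (x ^ n)⁻¹ = u at *
    generalize x ^ n * b * (x ^ n)⁻¹ = w at *
    have := hc t hB u hA
    calc s * t * (u * w) = s * (t * u) * w := by simp only [mul_assoc]
      _ = s * (u * t) * w := by rw [this]
      _ = s * u * (t * w) := by simp only [mul_assoc]

theorem nu_one (x : Y) (n : ℕ) : ((1 : Y) * x) ^ n * (x ^ n)⁻¹ = 1 := by
  simp

theorem nu_inv (E : Subgroup Y) (hc : ∀ a ∈ E, ∀ b ∈ E, a * b = b * a) (x : Y)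
    (hn : ∀ a ∈ E, x * a * x⁻¹ ∈ E) (n : ℕ) (a : Y) (ha : a ∈ E) :
    (a⁻¹ * x) ^ n * (x ^ n)⁻¹ = ((a * x) ^ n * (x ^ n)⁻¹)⁻¹ := by
  have h := nu_mul E hc x hn n a⁻¹ a (E.inv_mem ha) ha
  rw [inv_mul_cancel, nu_one] at h
  exact eq_inv_of_mul_eq_one_left h.symm

theorem nu_pow (E : Subgroup Y) (hc : ∀ a ∈ E, ∀ b ∈ E, a * b = b * a) (x : Y)
    (hn : ∀ a ∈ E, x * a * x⁻¹ ∈ E) (n k : ℕ) (a : Y) (ha : a ∈ E) :
    (a ^ k * x) ^ n * (x ^ n)⁻¹ = ((a * x) ^ n * (x ^ n)⁻¹) ^ k := by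
  induction k with
  | zero => simp
  | succ k ih =>
    rw [pow_succ a, nu_mul E hc x hn n _ _ (E.pow_mem ha k) ha, ih, pow_succ]

theorem prod_conj {A : Type*} [CommGroup A] (ι : A →* Y) (c : MulAut A) (x : Y)
    (h : ∀ a, ι (c a) = x * ι a * x⁻¹) (v : A) (n : ℕ) :
    ι (∏ i ∈ Finset.range n, (c ^ i) v) = (ι v * x) ^ n * (x ^ n)⁻¹ := by
  have hk : ∀ k : ℕ, ι ((c ^ k) v) = x ^ k * ι v * (x ^ k)⁻¹ := by
    intro k
    induction k with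
    | zero => simp
    | succ k ih =>
      rw [pow_succ' c, MulAut.mul_apply, h, ih, pow_succ' x]
      simp only [mul_inv_rev, mul_assoc]
  induction n with
  | zero => simp
  | succ n ih =>
    rw [Finset.prod_range_succ, map_mul, ih, hk, nu_succ]

end Cfsg.Agent.Lib.H87WRNu
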