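import Cfsg.Agent.Lib.H87WREmbA
import Cfsg.Agent.Lib.H87WRNu

/-!
Project 3787 (row S3787), piece EmbB.  PURE MATHLIB.
-/

set_option autoImplicit false

namespace Cfsg.Agent.Lib.H87WREmbB

open Cfsg.Agent.Lib.Helper87WRDefs Cfsg.Agent.Lib

theorem embB_aux (p : ℕ) [Fact p.Prime] {Y : Type*} [Group Y] {A : Type*} [CommGroup A]
    (ι : A →* Y) (hι : Function.Injective ι) (hexp : ∀ a : A, a ^ p = 1) (t : Y) (ht : t ^ p = 1)
    (c : MulAut A) (hct : ∀ a, ι (c a) = t * ι a * t⁻¹) (e : A) (hne : (ι e * t) ^ p ≠ 1) :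
    ∃ F : Wr p →* Y, Function.Injective F := by
  classical
  have hck : ∀ (k : ℕ) (a : A), ι ((c ^ k) a) = t ^ k * ι a * (t ^ k)⁻¹ := by
    intro k
    induction k with
    | zero => intro a; simp
    | succ k ih =>
      intro a
      rw [pow_succ' c, MulAut.mul_apply, hct, ih, pow_succ' t]
      simp only [mul_inv_rev, mul_assoc]
  have hcp : c ^ p = 1 := by
    apply MulEquiv.ext
    intro a
    apply hι
    rw [hck, ht]
    simp
  have hprod : ∏ i ∈ Finset.range p, (c ^ i) e ≠ 1 := by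
    intro h
    apply hne
    have := H87WRNu.prod_conj ι c t hct e p
    rw [h, map_one, ht, inv_one, mul_one] at this
    exact this.symm
  obtain ⟨β, hβi, hβe⟩ := H87WREmbA.embA p hexp c hcp e hprod
  let f₂ : Multiplicative (ZMod p) →* Y :=
    MonoidHom.mk' (fun s => t ^ (Multiplicative.toAdd s).val) (by
      intro a b
      show t ^ (Multiplicative.toAdd a + Multiplicative.toAdd b).val = _
      rw [ZMod.val_add, ← pow_eq_pow_mod _ ht, pow_add])
  have hf₂ : ∀ s, f₂ s = t ^ (Multiplicative.toAdd s).val := fun _ => rfl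
  let F : Wr p →* Y := SemidirectProduct.lift (ι.comp β) f₂ (by
    intro g
    apply MonoidHom.ext
    intro f
    show ι (β (shift p g f)) = f₂ g * ι (β f) * (f₂ g)⁻¹
    have := hβe (Multiplicative.toAdd g) f
    rw [ofAdd_toAdd] at this
    rw [this, hck, hf₂])
  have hF : ∀ w : Wr p, F w = ι (β w.left) * t ^ (Multiplicative.toAdd w.right).val :=
    fun _ => rfl
  refine ⟨F, ?_⟩
  rw [injective_iff_map_eq_one]
  intro w hw
  rw [hF] at hw
  set s : ZMod p := Multiplicative.toAdd w.right with hs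
  have hs0 : s = 0 := by
    by_contra hs0
    apply hne
    have h1 : t ^ s.val = ι ((β w.left)⁻¹) := by
      rw [map_inv]
      exact (inv_eq_of_mul_eq_one_right hw).symm
    have h2 : (s.val * (s⁻¹).val) % p = 1 := by
      rw [← ZMod.val_mul, mul_inv_cancel₀ hs0, ZMod.val_one]
    have h3 : t = ι (((β w.left)⁻¹) ^ (s⁻¹).val) := by
      rw [map_pow, ← h1, ← pow_mul, pow_eq_pow_mod _ ht, h2, pow_one]
    rw [h3, ← map_mul, ← map_pow, hexp, map_one]
  rw [hs0, ZMod.val_zero, pow_zero, mul_one] at hw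
  have hl : w.left = 1 := by
    apply hβi
    apply hι
    rw [hw, map_one, map_one]
  have hr : w.right = 1 := by
    apply Multiplicative.toAdd.injective
    rw [← hs, hs0]
    rfl
  exact SemidirectProduct.ext hl hr

theorem embB_aux2 (p : ℕ) [Fact p.Prime] {Y : Type*} [Group Y] {A : Type*} [Group A]
    (hcomm : ∀ a b : A, a * b = b * a)
    (ι : A →* Y) (hι : Function.Injective ι) (hexp : ∀ a : A, a ^ p = 1) (t : Y) (ht : t ^ p = 1)
    (c : MulAut A) (hct : ∀ a, ι (c a) = t * ι a * t⁻¹) (e : A) (hne : (ι e * t) ^ p ≠ 1) :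
    ∃ F : Wr p →* Y, Function.Injective F :=
  @embB_aux p _ Y _ A { (inferInstance : Group A) with mul_comm := hcomm } ι hι hexp t ht c hct e
    hne

/-- `C_p ≀ C_p` embeds in `Y` as soon as `Y` has an abelian subgroup `E` of exponent `p` normalised by `t`, `t^p = 1`, and `e ∈ E` with `(e t)^p ≠ 1` (`(e t)^p` is the norm of `e`). -/
theorem embB (p : ℕ) [Fact p.Prime] {Y : Type*} [Group Y] (E : Subgroup Y)
    (hc : ∀ a ∈ E, ∀ b ∈ E, a * b = b * a) (hexp : ∀ a ∈ E, a ^ p = 1) (t : Y) (ht : t ^ p = 1)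
    (hn : ∀ a ∈ E, t * a * t⁻¹ ∈ E) (e : Y) (he : e ∈ E) (hne : (e * t) ^ p ≠ 1) :
    ∃ F : Wr p →* Y, Function.Injective F := by
  have hp : 0 < p := (Fact.out : p.Prime).pos
  have hn' : ∀ a ∈ E, t⁻¹ * a * t ∈ E := by
    intro a ha
    have h1 := H87WRNu.conj_pow_mem E t hn (p - 1) a ha
    have h2 : t ^ (p - 1) = t⁻¹ := by
      apply eq_inv_of_mul_eq_one_left
      rw [← pow_succ, Nat.sub_add_cancel hp, ht]
    rw [h2, inv_inv] at h1
    exact h1
  let c : MulAut ↥E :=
    { toFun := fun a => ⟨t * a * t⁻¹, hn a a.2⟩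
      invFun := fun a => ⟨t⁻¹ * a * t, hn' a a.2⟩
      left_inv := by
        intro a
        apply Subtype.ext
        simp [mul_assoc]
      right_inv := by
        intro a
        apply Subtype.ext
        simp [mul_assoc]
      map_mul' := by
        intro a b
        apply Subtype.ext
        simp [mul_assoc] }
  exact embB_aux2 p (fun a b => Subtype.ext (hc a a.2 b b.2)) E.subtype E.subtype_injective
    (fun a => Subtype.ext (hexp a a.2)) t ht c (fun _ => rfl) ⟨e, he⟩ hne

end Cfsg.Agent.Lib.H87WREmbB
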