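import Cfsg.Agent.Lib.Helper87WRDefs

/-!
Project 3787 (row S3787), piece Model.  PURE MATHLIB.
-/

set_option autoImplicit false

namespace Cfsg.Agent.Lib.H87WRModel

open Cfsg.Agent.Lib.Helper87WRDefs

/-- `Wr p` is finite. -/
theorem finite_wr (p : ℕ) [Fact p.Prime] : Finite (Wr p) := by
  have : Finite (Multiplicative (ZMod p → ZMod p)) :=
    inferInstanceAs (Finite (ZMod p → ZMod p))
  have : Finite (Multiplicative (ZMod p)) := inferInstanceAs (Finite (ZMod p))
  exact Finite.of_equiv _ (SemidirectProduct.equivProd (φ := shift p)).symm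

theorem card_base (p : ℕ) [Fact p.Prime] : Nat.card (Multiplicative (ZMod p → ZMod p)) = p ^ p := by
  show Nat.card (ZMod p → ZMod p) = p ^ p
  rw [Nat.card_fun, Nat.card_zmod]

/-- The eight properties of the model `Wr p = (C_p)^p ⋊ C_p`. -/
theorem model (p : ℕ) [Fact p.Prime] :
    ∃ (B : Subgroup (Wr p)) (t : Wr p), B.Normal ∧ IsMulCommutative B ∧ (∀ b ∈ B, b ^ p = 1) ∧
      Nat.card B = p ^ p ∧ orderOf t = p ∧ t ∉ B ∧ Nat.card (Wr p) = p ^ (p + 1) ∧
      Nat.card ↥(B ⊓ Subgroup.centralizer ({t} : Set (Wr p))) = p := by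
  classical
  let inl' : Multiplicative (ZMod p → ZMod p) →* Wr p := SemidirectProduct.inl
  let inr' : Multiplicative (ZMod p) →* Wr p := SemidirectProduct.inr
  have hinj : Function.Injective inl' := SemidirectProduct.inl_injective
  refine ⟨inl'.range, inr' (Multiplicative.ofAdd 1), ?_, ?_, ?_, ?_, ?_, ?_, ?_, ?_⟩
  · show (SemidirectProduct.inl (φ := shift p)).range.Normal
    rw [SemidirectProduct.range_inl_eq_ker_rightHom]
    infer_instance
  · refine ⟨⟨?_⟩⟩
    rintro ⟨_, a, rfl⟩ ⟨_, b, rfl⟩
    apply Subtype.ext
    show inl' a * inl' b = inl' b * inl' a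
    rw [← map_mul, ← map_mul, mul_comm]
  · rintro _ ⟨a, rfl⟩
    rw [← map_pow]
    have : a ^ p = 1 := by
      apply Multiplicative.toAdd.injective
      rw [toAdd_pow]
      funext i
      simp
    rw [this, map_one]
  · rw [← Nat.card_congr (MonoidHom.ofInjective hinj).toEquiv, card_base]
  · rw [orderOf_injective inr' SemidirectProduct.inr_injective, orderOf_ofAdd_eq_addOrderOf,
      ZMod.addOrderOf_one]
  · intro h
    have h2 : inr' (Multiplicative.ofAdd 1) ∈ (SemidirectProduct.inl (φ := shift p)).range := h
    rw [SemidirectProduct.range_inl_eq_ker_rightHom, MonoidHom.mem_ker] at h2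
    have h3 : Multiplicative.ofAdd (1 : ZMod p) = 1 := by
      rw [← h2]; exact (SemidirectProduct.rightHom_inr _).symm
    have h4 : (1 : ZMod p) = 0 := Multiplicative.ofAdd.injective h3
    exact one_ne_zero h4
  · rw [SemidirectProduct.card, card_base]
    have : Nat.card (Multiplicative (ZMod p)) = p := Nat.card_zmod p
    rw [this, pow_succ]
  · -- the centraliser
    have hcomm : ∀ f : ZMod p → ZMod p,
        inl' (Multiplicative.ofAdd f) ∈ Subgroup.centralizer
          ({inr' (Multiplicative.ofAdd 1)} : Set (Wr p)) ↔ ∀ i, f (i - 1) = f i := by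
      intro f
      rw [Subgroup.mem_centralizer_singleton_iff]
      have h1 : inl' (shift p (Multiplicative.ofAdd 1) (Multiplicative.ofAdd f)) =
          inr' (Multiplicative.ofAdd 1) * inl' (Multiplicative.ofAdd f) *
            inr' (Multiplicative.ofAdd 1)⁻¹ := SemidirectProduct.inl_aut _ _
      rw [shift_apply, map_inv] at h1
      constructor
      · intro h i
        have h2 : inl' (Multiplicative.ofAdd fun i => f (i - 1)) = inl' (Multiplicative.ofAdd f) := by
          rw [h1]
          first
            | rw [h, mul_inv_cancel_right]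
            | rw [← h, mul_inv_cancel_right]
        have h3 := Multiplicative.ofAdd.injective (hinj h2)
        exact congrFun h3 i
      · intro h
        have h2 : (fun i => f (i - 1)) = f := funext h
        rw [h2] at h1
        first
          | exact (eq_mul_inv_iff_mul_eq.1 h1)
          | exact (eq_mul_inv_iff_mul_eq.1 h1).symm
    have hconst : ∀ f : ZMod p → ZMod p, (∀ i, f (i - 1) = f i) → ∀ i, f i = f 0 := by
      intro f hf
      have hk : ∀ (k : ℕ) i, f (i - k) = f i := by
        intro k
        induction k with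
        | zero => intro i; simp
        | succ k ih =>
          intro i
          have : i - ((k + 1 : ℕ) : ZMod p) = (i - k) - 1 := by push_cast; ring
          rw [this, hf, ih]
      intro i
      have := hk i.val i
      rw [ZMod.natCast_zmod_val, sub_self] at this
      exact this.symm
    have hmem : ∀ c : ZMod p, inl' (Multiplicative.ofAdd fun _ => c) ∈
        inl'.range ⊓ Subgroup.centralizer ({inr' (Multiplicative.ofAdd 1)} : Set (Wr p)) :=
      fun c => ⟨⟨_, rfl⟩, (hcomm _).2 (fun _ => rfl)⟩
    let Ψ : ZMod p → ↥(inl'.range ⊓ Subgroup.centralizer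
        ({inr' (Multiplicative.ofAdd 1)} : Set (Wr p))) := fun c => ⟨_, hmem c⟩
    have hΨ : Function.Bijective Ψ := by
      constructor
      · intro c c' h
        have h1 : inl' (Multiplicative.ofAdd fun _ : ZMod p => c) =
            inl' (Multiplicative.ofAdd fun _ : ZMod p => c') := congrArg Subtype.val h
        have h2 := Multiplicative.ofAdd.injective (hinj h1)
        exact congrFun h2 0
      · rintro ⟨_, ⟨a, rfl⟩, h2⟩
        induction a using Multiplicative.rec with
        | _ f =>
          refine ⟨f 0, ?_⟩
          apply Subtype.ext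
          show inl' (Multiplicative.ofAdd fun _ => f 0) = inl' (Multiplicative.ofAdd f)
          congr 2
          funext i
          exact (hconst f ((hcomm f).1 h2) i).symm
    rw [← Nat.card_congr (Equiv.ofBijective Ψ hΨ), Nat.card_zmod]

end Cfsg.Agent.Lib.H87WRModel
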