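import Cfsg.Agent.Lib.H87WRActN
import Cfsg.Agent.Lib.H92HHPsol
import Cfsg.Agent.Lib.H92HHKey
import Cfsg.Agent.Lib.Helper67Kazarin3
import Cfsg.Agent.Lib.Helper38PSolv

/-!
Project 3787 (row S3787), assemblies KB and NB.
-/

set_option autoImplicit false

namespace Cfsg.Agent.Lib.H87WRNB

open Cfsg Cfsg.Agent.Lib Cfsg.Agent.Lib.Helper92HHDefs Polynomial

theorem kb {K V : Type*} [Field K] [AddCommGroup V] [Module K V] [IsAlgClosed K]
    [FiniteDimensional K V] {p : ℕ} [Fact p.Prime] [CharP K p] (hp2 : p ≠ 2)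
    (hnf : ¬ ∃ k : ℕ, p = 2 ^ k + 1)
    {H : Type*} [Group H] [Finite H] (hsol : IsPSolvable p H) (hOp : pCore p H = ⊥)
    (j : H →* (Module.End K V)ˣ) (hj : Function.Injective j) (x : H) (hx : orderOf x = p) :
    minDegOn ((j x : (Module.End K V)ˣ) : Module.End K V) ⊤ p := by
  have hp : p.Prime := Fact.out
  obtain ⟨q, Q, hq, hqp, hQ, hxQ, u, hu, hcu⟩ :=
    H92HHPsol.exists_q p hsol hOp x 1 le_rfl (by rw [hx, pow_one])
  have : Fact q.Prime := ⟨hq⟩
  have hqK : (q : K) ≠ 0 := by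
    intro h0
    have := (CharP.cast_eq_zero_iff K p q).1 h0
    exact hqp ((Nat.prime_dvd_prime_iff_eq hp hq).1 this).symm
  have hfin : Finite (Q.map j) := by
    have : Finite ((Q.map j : Subgroup (Module.End K V)ˣ) : Set (Module.End K V)ˣ) := by
      rw [Subgroup.coe_map]; exact Set.Finite.image _ (Set.toFinite _)
    exact this
  have hkey := H92HHKey.key p q 1 (Ne.symm hqp) hqK (Q.map j) (hQ.map j) (j x)
    (by
      rintro _ ⟨g, hg, rfl⟩
      exact ⟨x * g * x⁻¹, hxQ g hg, by simp⟩)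
    (by rw [← map_pow, pow_one, ← hx, pow_orderOf_eq_one, map_one]) le_rfl
    ⟨j u, ⟨u, hu, rfl⟩, fun hc => hcu (by
      apply hj
      rw [map_mul, map_mul, map_pow]
      exact hc)⟩
  rcases hkey with h | ⟨-, n₀, m, h1, h2, h3, h4, -⟩
  · rwa [pow_one] at h
  · exfalso
    have hn0 : n₀ = 1 := le_antisymm h2 h1
    subst hn0
    rw [pow_one] at h4
    have hodd : Odd p := hp.odd_of_ne_two hp2
    have heven : 2 ∣ q ^ m := by
      rw [← h4]
      obtain ⟨k, hk⟩ := hodd
      exact ⟨k, by omega⟩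
    have h2q : 2 ∣ q := Nat.Prime.dvd_of_dvd_pow Nat.prime_two heven
    have hq2 : q = 2 := ((Nat.prime_dvd_prime_iff_eq Nat.prime_two hq).1 h2q).symm
    apply hnf
    refine ⟨m, ?_⟩
    rw [hq2] at h4
    have := hp.two_le
    omega

theorem nb {H₁ : Type*} [Group H₁] [Finite H₁] {p : ℕ} [Fact p.Prime] (hp2 : p ≠ 2)
    (hnf : ¬ ∃ k : ℕ, p = 2 ^ k + 1)
    (hs : IsPSolvable p H₁) (h0 : pPrimeCore p H₁ = ⊥) (x : H₁) (hx : x ∉ pCore p H₁)
    (hxp : x ^ p ∈ pCore p H₁) :
    ∃ v ∈ pCore p H₁,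
      (v * x) ^ p * (x ^ p)⁻¹ ∉ (frattini ↥(pCore p H₁)).map (pCore p H₁).subtype := by
  by_contra hcon
  push Not at hcon
  have hp : p.Prime := Fact.out
  obtain ⟨d, φ, hker, hN⟩ := H87WRActN.exists_actN hs h0 (AlgebraicClosure (ZMod p))
  have hsum := hN x p hcon
  set V := pCore p H₁ with hV
  let j : H₁ ⧸ V →* (Module.End (AlgebraicClosure (ZMod p)) (Fin d → AlgebraicClosure (ZMod p)))ˣ :=
    QuotientGroup.lift V φ (fun g hg => (hker g).2 hg)
  have hjmk : ∀ g : H₁, j (QuotientGroup.mk' V g) = φ g := fun g => rfl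
  have hj : Function.Injective j := by
    rw [injective_iff_map_eq_one]
    intro a ha
    obtain ⟨g, rfl⟩ := QuotientGroup.mk'_surjective V a
    rw [hjmk] at ha
    exact (QuotientGroup.eq_one_iff g).2 ((hker g).1 ha)
  have hord : orderOf (QuotientGroup.mk' V x) = p := by
    apply orderOf_eq_prime
    · rw [← map_pow]
      exact (QuotientGroup.eq_one_iff _).2 hxp
    · intro h
      exact hx ((QuotientGroup.eq_one_iff x).1 h)
  have key := kb (K := AlgebraicClosure (ZMod p)) hp2 hnf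
    (Helper38PSolv.isPSolvable_quotient V hs) (Helper67Kazarin3.pCore_quotient_pCore p) j hj
    (QuotientGroup.mk' V x) hord
  rw [hjmk] at key
  -- the polynomial `∑ X^i`
  set f : (AlgebraicClosure (ZMod p))[X] := ∑ i ∈ Finset.range p, X ^ i with hf
  have hdeg : f.natDegree ≤ p - 1 := by
    apply Polynomial.natDegree_sum_le_of_forall_le
    intro i hi
    rw [Finset.mem_range] at hi
    rw [natDegree_X_pow]
    omega
  have hne : f ≠ 0 := by
    intro h
    have h1 : f.coeff 0 = 1 := by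
      rw [hf, Polynomial.finsetSum_coeff]
      rw [Finset.sum_eq_single 0]
      · simp
      · intro b _ hb
        rw [coeff_X_pow, if_neg (Ne.symm hb)]
      · intro h'
        exact absurd (Finset.mem_range.2 hp.pos) h'
    rw [h] at h1
    simp at h1
  have := key f hne (by
    intro w _
    rw [hf, map_sum]
    simp only [map_pow, aeval_X]
    rw [hsum]
    rfl)
  have := hp.two_le
  omega

end Cfsg.Agent.Lib.H87WRNB
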