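import Mathlib
import Cfsg.Agent.Lib.Helper86Sub
import Cfsg.Agent.Lib.Helper89Fusion2
import Cfsg.Agent.Lib.Helper88Normal
import Cfsg.Agent.Lib.Helper87Split
import Cfsg.Agent.Lib.Helper87Mk
import Cfsg.Agent.Lib.Helper87Fusion3
import Cfsg.Agent.Lib.Helper87Fusion2
import Cfsg.Agent.Lib.Helper86Fusion2
import Cfsg.Agent.Lib.H37PrDefs

set_option autoImplicit false

/-! Vocabulary of project 5141 (row S5141): `F` saturated over `S`, `E` weakly normal in `F` over `T`.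
Aim: the `p'`-residual of `E` is NORMAL in `F`.   `C := centralizerIn S T = C_S(T)`. -/

namespace Cfsg.Agent.Lib.H88YDefs

open Cfsg Cfsg.FusionSystem Cfsg.Agent.Lib.Helper87Fusion

variable {Ω : Type*} [Group Ω] {S T : Subgroup Ω}

/-- The standing hypotheses. -/
structure Hyp (p : ℕ) (F : FusionSystem S) (E : FusionSystem T) : Prop where
  hS : IsPGroup p S
  hF : F.IsSaturated p
  hE : E.IsSaturated p
  hEi : E.IsInvariantIn F

namespace Hyp

variable {p : ℕ} {F : FusionSystem S} {E : FusionSystem T}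

theorem hT (h : Hyp p F E) : F.StronglyClosed T := h.hEi.2.1
theorem hTS (h : Hyp p F E) : T ≤ S := h.hEi.2.1.1
theorem hTp (h : Hyp p F E) : IsPGroup p T := h.hS.to_le h.hTS
theorem finT [Finite S] (h : Hyp p F E) : Finite T :=
  Cfsg.Agent.Lib.Helper86Fusion.finite_of_le h.hTS
theorem subE (h : Hyp p F E) {P : Subgroup Ω} {f : Ω → Ω} (hf : IsMap E P f) : IsMap F P f :=
  Cfsg.Agent.Lib.Helper88Normal.isMap_of_subsystem h.hEi.1 hf
/-- values of `F`-maps at elements of `T` are in `T` -/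
theorem memT (h : Hyp p F E) {M : Subgroup Ω} {f : Ω → Ω} (hf : IsMap F M f) {x : Ω} (hxM : x ∈ M)
    (hx : x ∈ T) : f x ∈ T :=
  Cfsg.Agent.Lib.Helper87Fusion3.StronglyClosed_mem h.hT hf hxM hx

end Hyp

/-- `f` (on `P ≤ T`) extends to an `F`-map `g` on `P C_S(T)` which is the identity modulo `T` on `C_S(T)`. -/
def KK (F : FusionSystem S) (T P : Subgroup Ω) (f : Ω → Ω) : Prop :=
  ∃ g : Ω → Ω, IsMap F (P ⊔ centralizerIn S T) g ∧ (∀ x ∈ P, g x = f x) ∧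
    ∀ c ∈ centralizerIn S T, c⁻¹ * g c ∈ T

/-- the class of maps used for the extension condition (no condition on non-centric subgroups). -/
def K1 (F : FusionSystem S) (E : FusionSystem T) (P : Subgroup Ω) (f : Ω → Ω) : Prop :=
  E.IsCentric P → KK F T P f

/-- `σ` is an `F`-automorphism of `R C_S(T)` which is the identity on `R`. -/
def Sg (F : FusionSystem S) (T R : Subgroup Ω) (σ : Ω → Ω) : Prop :=
  IsMap F (R ⊔ centralizerIn S T) σ ∧
    σ '' ((R ⊔ centralizerIn S T : Subgroup Ω) : Set Ω) = ((R ⊔ centralizerIn S T : Subgroup Ω) : Set Ω) ∧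
    ∀ x ∈ R, σ x = x

/-- abstract configuration for the extension step: `σ ∈ Aut_F(U)` trivial on `U ∩ T`, `P' ≤ T` acts on `U` trivially modulo `U ∩ T`. -/
structure Cfg (F : FusionSystem S) (T U P' : Subgroup Ω) (σ : Ω → Ω) : Prop where
  hP'T : P' ≤ T
  hRP' : U ⊓ T ≤ P'
  hnorm : ∀ x ∈ P', ∀ u ∈ U, u⁻¹ * (x * u * x⁻¹) ∈ U ⊓ T
  hcen : ∀ R₁ : Subgroup Ω, F.IsConj (U ⊓ T) R₁ → centralizerIn T R₁ ≤ R₁
  hσ : IsMap F U σ
  hσU : σ '' (U : Set Ω) = (U : Set Ω)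
  hσR : ∀ x ∈ U ⊓ T, σ x = x

/-- conclusion of the extension step. -/
def Ccl (F : FusionSystem S) (T U P' : Subgroup Ω) (σ : Ω → Ω) : Prop :=
  ∃ σ₁ : Ω → Ω, IsMap F (P' ⊔ U) σ₁ ∧ (∀ u ∈ U, σ₁ u = σ u) ∧ ∀ x ∈ P', x⁻¹ * σ₁ x ∈ U ⊓ T

/-- the `Aut_F(T)`-core of the class `K0 E p`. -/
def K2 (F : FusionSystem S) (E : FusionSystem T) (p : ℕ) (P : Subgroup Ω) (f : Ω → Ω) : Prop :=
  P ≤ T ∧ ∀ (α α' : Ω → Ω) (P' : Subgroup Ω), IsMap F T α → IsMap F T α' → (∀ x ∈ T, α' (α x) = x) →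
    α '' (P : Set Ω) = (P' : Set Ω) → Cfsg.Agent.Lib.H37PrDefs.K0 E p P' (fun x => α (f (α' x)))

end Cfsg.Agent.Lib.H88YDefs
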