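import Mathlib
import Cfsg.Agent.Lib.H88YDefs

set_option autoImplicit false

namespace Cfsg.Agent.Lib.H88YIter

open Cfsg Cfsg.FusionSystem Cfsg.Agent.Lib.Helper87Fusion Cfsg.Agent.Lib.H88YDefs
  Cfsg.Agent.Lib.H37PrDefs

variable {Ω : Type*} [Group Ω] {S T : Subgroup Ω} {p : ℕ} {F : FusionSystem S}
  {E : FusionSystem T}

/-- PIECE Iter (20 min).  Iterates of an automorphism.  Induction on `k` (`Function.iterate_succ_apply'`, `IsMap.comp`, `isMap_id'`, `Set.image_image`/`ext`). -/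
theorem iter {W : Subgroup Ω} {f : Ω → Ω} (hf : IsMap F W f) (hW : f '' (W : Set Ω) = (W : Set Ω))
    (k : ℕ) : IsMap F W (f^[k]) ∧ (f^[k]) '' (W : Set Ω) = (W : Set Ω) := by
  induction k with
  | zero =>
    refine ⟨isMap_id F hf.le, by simp⟩
  | succ k ih =>
    obtain ⟨h1, h2⟩ := ih
    have hmem : ∀ x ∈ W, f^[k] x ∈ W := fun x hx => by
      have h3 : f^[k] x ∈ (f^[k]) '' (W : Set Ω) := ⟨x, hx, rfl⟩
      rw [h2] at h3; exact h3
    refine ⟨?_, ?_⟩
    · exact (h1.comp hf hmem).congr (fun x _ => (Function.iterate_succ_apply' f k x).symm)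
    · rw [Function.iterate_succ' f k, Set.image_comp, h2, hW]

/-- if `f` and `g` agree on `U` and `g` maps `U` to `U`, the iterates agree on `U`. -/
theorem iter_congr {U : Subgroup Ω} {f g : Ω → Ω} (hfg : ∀ u ∈ U, f u = g u) (hg : ∀ u ∈ U, g u ∈ U)
    (k : ℕ) : ∀ u ∈ U, f^[k] u = g^[k] u ∧ g^[k] u ∈ U := by
  induction k with
  | zero => intro u hu; exact ⟨rfl, hu⟩
  | succ k ih =>
    intro u hu
    obtain ⟨h1, h2⟩ := ih u hu
    rw [Function.iterate_succ_apply', Function.iterate_succ_apply', h1]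
    exact ⟨hfg _ h2, hg _ h2⟩

/-- if `f^[r] = id` on `U` (`f` maps `U` to `U`) and `m ≡ 1 [MOD r]` then `f^[m] = f` on `U`.  (`m = 1 + r * q` as `1 ≤ m` or `r = 1`...: use `Nat.ModEq`, write `m % r = 1 % r`,
`m = r * (m / r) + m % r`; `Function.iterate_add_apply`, `Function.iterate_mul`; the case `r = 1`: `f u = u`.) -/
theorem iter_modEq_one {U : Subgroup Ω} {f : Ω → Ω} (hU : ∀ u ∈ U, f u ∈ U) {r m : ℕ}
    (hr : ∀ u ∈ U, f^[r] u = u) (hm : m ≡ 1 [MOD r]) : ∀ u ∈ U, f^[m] u = f u := by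
  have hdvd : ∀ q : ℕ, ∀ u ∈ U, f^[r * q] u = u := by
    intro q u hu
    rw [Function.iterate_mul]
    exact Function.iterate_fixed (hr u hu) q
  intro u hu
  by_cases h1 : r = 1
  · subst h1
    have hfu : f u = u := hr u hu
    rw [Function.iterate_fixed hfu, hfu]
  · have h2 : 1 % r = 1 := by
      rcases Nat.eq_zero_or_pos r with h0 | h0
      · subst h0; rfl
      · exact Nat.mod_eq_of_lt (by omega)
    have h3 : m % r = 1 := by rw [← h2]; exact hm
    have h4 : m = r * (m / r) + 1 := by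
      have := Nat.div_add_mod m r; omega
    rw [h4, Function.iterate_add_apply, Function.iterate_one]
    exact hdvd _ (f u) (hU u hu)

/-- if `f^[r] = id` on `U` and `r ∣ m` then `f^[m] = id` on `U`. -/
theorem iter_dvd {U : Subgroup Ω} {f : Ω → Ω} {r m : ℕ}
    (hr : ∀ u ∈ U, f^[r] u = u) (hm : r ∣ m) : ∀ u ∈ U, f^[m] u = u := by
  obtain ⟨q, rfl⟩ := hm
  intro u hu
  rw [Function.iterate_mul]
  exact Function.iterate_fixed (hr u hu) q

end Cfsg.Agent.Lib.H88YIter
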