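import Mathlib
import Cfsg.Agent.Lib.H88YDefs
import Cfsg.Agent.Lib.H12YCentAut

set_option autoImplicit false

namespace Cfsg.Agent.Lib.H88YTc

open Cfsg Cfsg.FusionSystem Cfsg.Agent.Lib.Helper87Fusion Cfsg.Agent.Lib.H88YDefs
  Cfsg.Agent.Lib.H37PrDefs

variable {Ω : Type*} [Group Ω] {S T : Subgroup Ω} {p : ℕ} {F : FusionSystem S}
  {E : FusionSystem T}

/-- PIECE Tc (25 min).  `F`-conjugates of `E`-centric subgroups are `E`-centric.
SKETCH (same as the landed `H88ZCen.centric`): `isConj_iff.1 hc` gives an `F`-map `φ` on `R`, `φ '' R = R₁`.  `Helper88Normal.frattini h.hEi hR.1 hφ`: `φ = a ∘ c` on `R`, `a` an `F`-map on `T`, `c` an `E`-map on `R`.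
`R₂ := c '' R` is `E`-conjugate to `R`, so `E`-centric (`Helper87Fusion2.isCentric_of_isConj`); `a '' R₂ = R₁`; `H12YCentAut.centric_aut h.hEi hR₂ ha _`. -/
theorem centric_conj [Finite S] (h : Hyp p F E) {R R₁ : Subgroup Ω} (hR : E.IsCentric R)
    (hc : F.IsConj R R₁) : E.IsCentric R₁ := by
  obtain ⟨φ, hφ, hφR⟩ := isConj_iff.1 hc
  obtain ⟨a, c, ha, _, hc', hac⟩ := Helper88Normal.frattini h.hEi hR.1 hφ
  obtain ⟨R₂, hR₂⟩ := hc'.exists_image
  have hR₂c : E.IsCentric R₂ :=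
    Helper87Fusion2.isCentric_of_isConj hR (isConj_iff.2 ⟨c, hc', hR₂⟩)
  have haR : a '' (R₂ : Set Ω) = (R₁ : Set Ω) := by
    rw [← hR₂, ← hφR]
    ext y
    constructor
    · rintro ⟨_, ⟨x, hx, rfl⟩, rfl⟩
      exact ⟨x, hx, hac x hx⟩
    · rintro ⟨x, hx, rfl⟩
      exact ⟨c x, ⟨x, hx, rfl⟩, (hac x hx).symm⟩
  exact H12YCentAut.centric_aut h.hEi hR₂c ha haR

/-- apply `(centric_conj h hR hc).2 R₁ (isConj_refl E _)`. -/
theorem tc [Finite S] (h : Hyp p F E) {R R₁ : Subgroup Ω} (hR : E.IsCentric R)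
    (hc : F.IsConj R R₁) : centralizerIn T R₁ ≤ R₁ :=
  (centric_conj h hR hc).2 R₁ (isConj_refl E (centric_conj h hR hc).1)

end Cfsg.Agent.Lib.H88YTc
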