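import Mathlib
import Cfsg.Agent.Lib.H88YDefs
import Cfsg.Agent.Lib.H88YTc

set_option autoImplicit false

namespace Cfsg.Agent.Lib.H88YMeet

open Cfsg Cfsg.FusionSystem Cfsg.Agent.Lib.Helper87Fusion Cfsg.Agent.Lib.H88YDefs
  Cfsg.Agent.Lib.H37PrDefs

variable {Ω : Type*} [Group Ω] {S T : Subgroup Ω} {p : ℕ} {F : FusionSystem S}
  {E : FusionSystem T}

theorem mem_sup_rc {R : Subgroup Ω} (hRT : R ≤ T) {x : Ω} (hx : x ∈ R ⊔ centralizerIn S T) :
    ∃ r ∈ R, ∃ c ∈ centralizerIn S T, x = r * c := by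
  have hcomm : ∀ r ∈ R, ∀ c ∈ centralizerIn S T, r * c = c * r :=
    fun r hr c hc => (mem_centralizerIn.1 hc).2 r (hRT hr)
  rw [Subgroup.sup_eq_closure] at hx
  induction hx using Subgroup.closure_induction with
  | mem x hx =>
    rcases hx with hx | hx
    · exact ⟨x, hx, 1, one_mem _, by simp⟩
    · exact ⟨1, one_mem _, x, hx, by simp⟩
  | one => exact ⟨1, one_mem _, 1, one_mem _, by simp⟩
  | mul x y _ _ hx hy =>
    obtain ⟨r, hr, c, hc, rfl⟩ := hx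
    obtain ⟨r', hr', c', hc', rfl⟩ := hy
    refine ⟨r * r', mul_mem hr hr', c * c', mul_mem hc hc', ?_⟩
    calc r * c * (r' * c') = r * (c * r') * c' := by group
      _ = r * (r' * c) * c' := by rw [hcomm r' hr' c hc]
      _ = r * r' * (c * c') := by group
  | inv x _ hx =>
    obtain ⟨r, hr, c, hc, rfl⟩ := hx
    refine ⟨r⁻¹, inv_mem hr, c⁻¹, inv_mem hc, ?_⟩
    rw [mul_inv_rev, hcomm r⁻¹ (inv_mem hr) c⁻¹ (inv_mem hc)]

/-- PIECE Meet (35 min).  `(R C_S(T)) ∩ T = R` for `E`-centric `R`, and the configuration for `P' = N_T(R)`.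
SKETCH meet: `≥` clear.  `≤`: `C := centralizerIn S T` is normalized by `R` (even centralized), so every element of `R ⊔ C` is `r * c` (`Subgroup.mem_sup` after `Subgroup.sup_eq_closure_mul`/`Subgroup.mul_normal`-style; or `Subgroup.closure_induction`; elements of `R` and `C` commute);
 if `r c ∈ T` then `c ∈ T ⊓ C`, so `c ∈ centralizerIn T R ≤ R` (`hR.2 R (isConj_refl E hR.1)`). -/
theorem meet [Finite S] (h : Hyp p F E) {R : Subgroup Ω} (hR : E.IsCentric R) :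
    (R ⊔ centralizerIn S T) ⊓ T = R := by
  apply le_antisymm
  · rintro x ⟨hx, hxT⟩
    obtain ⟨r, hr, c, hc, rfl⟩ := mem_sup_rc hR.1 hx
    have hcT : c ∈ T := by
      have h1 : c = r⁻¹ * (r * c) := by group
      rw [h1]; exact T.mul_mem (T.inv_mem (hR.1 hr)) hxT
    have hcR : c ∈ centralizerIn T R :=
      mem_centralizerIn.2 ⟨hcT, fun y hy => (mem_centralizerIn.1 hc).2 y (hR.1 hy)⟩
    exact R.mul_mem hr (hR.2 R (isConj_refl E hR.1) hcR)
  · exact le_inf le_sup_left hR.1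

/-- SKETCH: rewrite `U ⊓ T = R` by `meet`.  hP'T: `normalizerIn_le`.  hRP': `le_normalizerIn hR.1`.  hnorm: `u = r c`; `x c x⁻¹ = c`, so `u⁻¹ (x u x⁻¹) = c⁻¹ (r⁻¹ x r x⁻¹) c = r⁻¹ (x r x⁻¹) ∈ R` (`c` centralizes `T`; `x` normalizes `R`: `mem_normalizerIn`).
 (Alternative without `u = r c`: the set of `u` with `u⁻¹ (x u x⁻¹) ∈ R` and ... use `Subgroup.closure_induction` carefully.)  hcen: `H88YTc.tc h hR`.  The rest from `hσ`. -/
theorem cfg [Finite S] (h : Hyp p F E) {R : Subgroup Ω} (hR : E.IsCentric R) {σ : Ω → Ω}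
    (hσ : Sg F T R σ) : Cfg F T (R ⊔ centralizerIn S T) (normalizerIn T R) σ := by
  have hm := meet h hR
  refine ⟨normalizerIn_le T R, ?_, ?_, ?_, hσ.1, hσ.2.1, ?_⟩
  · rw [hm]; exact le_normalizerIn hR.1
  · intro x hx u hu
    rw [hm]
    obtain ⟨r, hr, c, hc, rfl⟩ := mem_sup_rc hR.1 hu
    obtain ⟨hxT, hxN⟩ := mem_normalizerIn.1 hx
    have hc' := (mem_centralizerIn.1 hc).2
    have h1 : r⁻¹ * (x * r * x⁻¹) ∈ R := R.mul_mem (R.inv_mem hr) ((hxN r).1 hr)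
    have h2 : (r * c)⁻¹ * (x * (r * c) * x⁻¹) = r⁻¹ * (x * r * x⁻¹) := by
      have e1 : x⁻¹ * c = c * x⁻¹ := hc' x⁻¹ (T.inv_mem hxT)
      have e2 : (r⁻¹ * (x * r * x⁻¹)) * c = c * (r⁻¹ * (x * r * x⁻¹)) := hc' _ (hR.1 h1)
      calc (r * c)⁻¹ * (x * (r * c) * x⁻¹) = c⁻¹ * (r⁻¹ * (x * r)) * (c * x⁻¹) := by group
        _ = c⁻¹ * (r⁻¹ * (x * r)) * (x⁻¹ * c) := by rw [e1]
        _ = c⁻¹ * ((r⁻¹ * (x * r * x⁻¹)) * c) := by group
        _ = c⁻¹ * (c * (r⁻¹ * (x * r * x⁻¹))) := by rw [e2]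
        _ = r⁻¹ * (x * r * x⁻¹) := by group
    rw [h2]; exact h1
  · intro R₁ hc
    rw [hm] at hc
    exact Cfsg.Agent.Lib.H88YTc.tc h hR hc
  · intro x hx
    rw [hm] at hx
    exact hσ.2.2 x hx

end Cfsg.Agent.Lib.H88YMeet
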