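import Mathlib
import Cfsg.Agent.Lib.H88YDefs

set_option autoImplicit false

namespace Cfsg.Agent.Lib.H88YDx

open Cfsg Cfsg.FusionSystem Cfsg.Agent.Lib.Helper87Fusion Cfsg.Agent.Lib.H88YDefs
  Cfsg.Agent.Lib.H37PrDefs

variable {Ω : Type*} [Group Ω] {S T : Subgroup Ω} {p : ℕ} {F : FusionSystem S}
  {E : FusionSystem T}

/-- PIECE Dx.  The commutator `δ = σ c_x σ⁻¹ c_x⁻¹` of `σ` with `x ∈ P'` is trivial on `R := U ∩ T` and modulo `R`. -/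
theorem dx [Finite S] (h : Hyp p F E) {U P' : Subgroup Ω} {σ σ' : Ω → Ω} (c : Cfg F T U P' σ)
    (hσ' : IsMap F U σ') (h1 : ∀ u ∈ U, σ' (σ u) = u) (h2 : ∀ u ∈ U, σ (σ' u) = u)
    (hσ'U : σ' '' (U : Set Ω) = (U : Set Ω)) {x : Ω} (hx : x ∈ P') :
    ∃ δ : Ω → Ω, IsMap F U δ ∧ δ '' (U : Set Ω) = (U : Set Ω) ∧ (∀ y ∈ U ⊓ T, δ y = y) ∧
      (∀ u ∈ U, u⁻¹ * δ u ∈ U ⊓ T) ∧ ∀ u ∈ U, σ (x * u * x⁻¹) = δ (x * σ u * x⁻¹) := by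
  have hUS : U ≤ S := c.hσ.le
  have hxT : x ∈ T := c.hP'T hx
  have hxS : x ∈ S := h.hTS hxT
  have hxi : x⁻¹ ∈ P' := P'.inv_mem hx
  have hxiS : x⁻¹ ∈ S := S.inv_mem hxS
  -- normalisation
  have hn : ∀ z ∈ P', ∀ u ∈ U, z * u * z⁻¹ ∈ U := by
    intro z hz u hu
    have h3 := (c.hnorm z hz u hu).1
    have h4 : z * u * z⁻¹ = u * (u⁻¹ * (z * u * z⁻¹)) := by group
    rw [h4]
    exact U.mul_mem hu h3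
  have hnT : ∀ z ∈ P', ∀ u ∈ T, z * u * z⁻¹ ∈ T := by
    intro z hz u hu
    exact T.mul_mem (T.mul_mem (c.hP'T hz) hu) (T.inv_mem (c.hP'T hz))
  have hσmem : ∀ u ∈ U, σ u ∈ U := fun u hu => IsMap.mem_image c.hσU hu
  have hσ'mem : ∀ u ∈ U, σ' u ∈ U := fun u hu => IsMap.mem_image hσ'U hu
  have hcx : IsMap F U (fun u => x * u * x⁻¹) := isMap_conj F hUS hxS
  have hcxi : IsMap F U (fun u => x⁻¹ * u * x⁻¹⁻¹) := isMap_conj F hUS hxiS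
  have hσ'R : ∀ y ∈ U ⊓ T, σ' y = y := by
    intro y hy
    have h3 := h1 y hy.1
    rw [c.hσR y hy] at h3
    exact h3
  have hm1 : IsMap F U (fun u => σ' (x⁻¹ * u * x⁻¹⁻¹)) :=
    hcxi.comp hσ' (fun u hu => hn _ hxi u hu)
  have hm1mem : ∀ u ∈ U, σ' (x⁻¹ * u * x⁻¹⁻¹) ∈ U := fun u hu => hσ'mem _ (hn _ hxi u hu)
  have hm2 : IsMap F U (fun u => x * σ' (x⁻¹ * u * x⁻¹⁻¹) * x⁻¹) :=
    hm1.comp hcx hm1mem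
  have hm2mem : ∀ u ∈ U, x * σ' (x⁻¹ * u * x⁻¹⁻¹) * x⁻¹ ∈ U :=
    fun u hu => hn _ hx _ (hm1mem u hu)
  have hm3 : IsMap F U (fun u => σ (x * σ' (x⁻¹ * u * x⁻¹⁻¹) * x⁻¹)) :=
    hm2.comp c.hσ hm2mem
  have hm3mem : ∀ u ∈ U, σ (x * σ' (x⁻¹ * u * x⁻¹⁻¹) * x⁻¹) ∈ U :=
    fun u hu => hσmem _ (hm2mem u hu)
  refine ⟨_, hm3, Cfsg.Agent.Lib.Helper88Normal.image_eq_of_maps_to hm3 hm3mem, ?_, ?_, ?_⟩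
  · intro y hy
    have h3 : x⁻¹ * y * x⁻¹⁻¹ ∈ U ⊓ T := ⟨hn _ hxi y hy.1, hnT _ hxi y hy.2⟩
    show σ (x * σ' (x⁻¹ * y * x⁻¹⁻¹) * x⁻¹) = y
    rw [hσ'R _ h3]
    have h4 : x * (x⁻¹ * y * x⁻¹⁻¹) * x⁻¹ = y := by group
    rw [h4]
    exact c.hσR y hy
  · intro u hu
    show u⁻¹ * σ (x * σ' (x⁻¹ * u * x⁻¹⁻¹) * x⁻¹) ∈ U ⊓ T
    set v := σ' (x⁻¹ * u * x⁻¹⁻¹) with hv
    have hvU : v ∈ U := hm1mem u hu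
    have hr1 := c.hnorm x hx v hvU
    have hr2 := c.hnorm x⁻¹ hxi u hu
    have h3 : x * v * x⁻¹ = v * (v⁻¹ * (x * v * x⁻¹)) := by group
    rw [h3, c.hσ.map_mul hvU hr1.1, c.hσR _ hr1, hv, h2 _ (hn _ hxi u hu), ← mul_assoc]
    exact (U ⊓ T).mul_mem hr2 hr1
  · intro u hu
    show σ (x * u * x⁻¹) = σ (x * σ' (x⁻¹ * (x * σ u * x⁻¹) * x⁻¹⁻¹) * x⁻¹)
    have h3 : x⁻¹ * (x * σ u * x⁻¹) * x⁻¹⁻¹ = σ u := by group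
    rw [h3, h1 u hu]

end Cfsg.Agent.Lib.H88YDx
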