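import Mathlib
import Cfsg.Agent.Lib.H88YDefs

set_option autoImplicit false

namespace Cfsg.Agent.Lib.H88YOp

open Cfsg Cfsg.FusionSystem Cfsg.Agent.Lib.Helper87Fusion Cfsg.Agent.Lib.H88YDefs
  Cfsg.Agent.Lib.H37PrDefs

variable {Ω : Type*} [Group Ω] {S T : Subgroup Ω} {p : ℕ} {F : FusionSystem S}
  {E : FusionSystem T}

theorem normal_le_sylow' {X : Type*} [Group X] [Finite X] [Fact p.Prime] {N : Subgroup X}
    (hN : N.Normal) (hp : IsPGroup p N) (R : Sylow p X) : N ≤ R := by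
  obtain ⟨R', hR'⟩ := hp.exists_le_sylow
  obtain ⟨g, rfl⟩ := MulAction.exists_smul_eq X R' R
  intro x hx
  rw [Sylow.coe_subgroup_smul, Subgroup.mem_pointwise_smul_iff_inv_smul_mem]
  apply hR'
  have := hN.conj_mem x hx g⁻¹
  simpa [MulAut.smul_def] using this

/-- PIECE Op.  For `U` fully normalized, an `F`-automorphism `δ` of `U` trivial on `U ∩ T` and on `U / (U ∩ T)` is induced by an element of `N_S(U)`. -/
theorem op [Finite S] [Fact p.Prime] (h : Hyp p F E) {U : Subgroup Ω} (hU : F.IsFullyNormalized U)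
    {δ : Ω → Ω} (hδ : IsMap F U δ) (hδU : δ '' (U : Set Ω) = (U : Set Ω))
    (h1 : ∀ x ∈ U ⊓ T, δ x = x) (h2 : ∀ u ∈ U, u⁻¹ * δ u ∈ U ⊓ T) :
    ∃ s ∈ normalizerIn S U, ∀ u ∈ U, δ u = s * u * s⁻¹ := by
  classical
  have hfinU : Finite U := Cfsg.Agent.Lib.Helper86Fusion.finite_of_le hU.1
  obtain ⟨r, hrA, hrδ⟩ := hδ.exists_aut hδU
  let D : ℕ → Subgroup U := fun n =>
    match n with
    | 0 => ⊥
    | 1 => (U ⊓ T).subgroupOf U
    | _ + 2 => ⊤
  have hA : ∀ γ ∈ F.autGroup U, ∀ j, ∀ x ∈ D j, γ x ∈ D j := by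
    intro γ hγ j x hx
    match j, hx with
    | 0, hx =>
      have hx' : x = 1 := (Subgroup.mem_bot).mp hx
      rw [hx', map_one]
      exact one_mem _
    | 1, hx =>
      have hx' : (x : Ω) ∈ U ⊓ T := Subgroup.mem_subgroupOf.mp hx
      have hm := h.memT (Cfsg.Agent.Lib.Helper88Normal.isMap_of_mem_autGroup hU.1 hγ).1 x.2 hx'.2
      rw [tot_apply] at hm
      exact Subgroup.mem_subgroupOf.mpr ⟨(γ x).2, hm⟩
    | _ + 2, _ => exact Subgroup.mem_top _
  have hr : ∀ j, ∀ x ∈ D (j + 1), x⁻¹ * r x ∈ D j := by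
    intro j x hx
    match j, hx with
    | 0, hx =>
      have hx' : (x : Ω) ∈ U ⊓ T := Subgroup.mem_subgroupOf.mp hx
      have : r x = x := Subtype.ext (by rw [hrδ, h1 _ hx'])
      rw [this, inv_mul_cancel]
      exact one_mem _
    | 1, _ =>
      apply Subgroup.mem_subgroupOf.mpr
      have := h2 x x.2
      rw [← hrδ] at this
      simpa using this
    | _ + 2, _ => exact Subgroup.mem_top _
  have hcore := Cfsg.Agent.Lib.Helper89Fusion2.mem_pCore_of_stabChain h.hS hU.1 D rfl 2 rfl hA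
    hrA hr
  obtain ⟨r', hr', hr'r⟩ := hcore
  obtain ⟨-, R, hR⟩ := (Cfsg.Agent.Lib.Helper86Fusion2.saturated_fullyNormalized h.hS h.hF hU).2.1
  have hle := normal_le_sylow' (Cfsg.Agent.Lib.Helper87Fusion3.pCore_normal p (F.autGroup U))
    (Cfsg.Agent.Lib.Helper87Fusion3.pCore_isPGroup p (F.autGroup U)) R
  have hmem : r' ∈ (R : Subgroup (F.autGroup U)) := hle hr'
  rw [hR, Subgroup.mem_subgroupOf] at hmem
  have hmem' : r ∈ autInducedBy S U := by
    rw [← hr'r]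
    exact hmem
  obtain ⟨s, hs, hsr⟩ := (mem_autInducedBy_iff S U r).mp hmem'
  have hsδ : ∀ u ∈ U, δ u = s * u * s⁻¹ := fun u hu => by
    rw [← hsr ⟨u, hu⟩, hrδ]
  refine ⟨s, ?_, hsδ⟩
  rw [mem_normalizerIn]
  refine ⟨hs, fun x => ⟨fun hx => ?_, fun hx => ?_⟩⟩
  · rw [← hsδ x hx]
    exact IsMap.mem_image hδU hx
  · obtain ⟨y, hy, hyx⟩ := IsMap.exists_of_mem_image hδU hx
    rw [hsδ y hy] at hyx
    have : y = x := by
      have := mul_left_cancel (mul_right_cancel hyx)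
      exact this
    rw [← this]
    exact hy

end Cfsg.Agent.Lib.H88YOp
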