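import Mathlib
import Cfsg.Agent.Lib.H88YDefs
import Cfsg.Agent.Lib.H88YOp
import Cfsg.Agent.Lib.H88YDx

set_option autoImplicit false

namespace Cfsg.Agent.Lib.H88YStepFn

open Cfsg Cfsg.FusionSystem Cfsg.Agent.Lib.Helper87Fusion Cfsg.Agent.Lib.H88YDefs
  Cfsg.Agent.Lib.H37PrDefs

variable {Ω : Type*} [Group Ω] {S T : Subgroup Ω} {p : ℕ} {F : FusionSystem S}
  {E : FusionSystem T}

/-- PIECE StepFn.  The extension step when `U` is fully normalized. -/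
theorem step_fn [Finite S] [Fact p.Prime] (h : Hyp p F E) {U P' : Subgroup Ω} {σ : Ω → Ω}
    (hU : F.IsFullyNormalized U) (c : Cfg F T U P' σ) : Ccl F T U P' σ := by
  have hrec := (Cfsg.Agent.Lib.Helper86Fusion2.saturated_fullyNormalized h.hS h.hF hU).2.2
  obtain ⟨σ', hσ', hs1, hs2, hσ'U⟩ := c.hσ.inv c.hσU
  obtain ⟨φ, hφ, hφσ⟩ := id c.hσ
  have hUS : U ≤ S := hU.1
  have hxU : ∀ x ∈ P', ∀ u ∈ U, x * u * x⁻¹ ∈ U := by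
    intro x hx u hu
    have h3 := U.mul_mem hu (c.hnorm x hx u hu).1
    rwa [mul_inv_cancel_left] at h3
  have hP'ext : P' ≤ extender S U φ := by
    intro x hx
    rw [mem_extender_iff' φ hφσ]
    refine ⟨h.hTS (c.hP'T hx), ?_, ?_⟩
    · exact Cfsg.Agent.Lib.Helper86Fusion.mem_normalizer_of_conj_mem (hxU x hx) (fun y hy => by
        have := hxU x⁻¹ (inv_mem hx) y hy
        rwa [inv_inv] at this)
    · obtain ⟨δ, hδ, hδU, hd1, hd2, hd3⟩ := Cfsg.Agent.Lib.H88YDx.dx h c hσ' hs1 hs2 hσ'U hx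
      obtain ⟨s, hs, hsδ⟩ := Cfsg.Agent.Lib.H88YOp.op h hU hδ hδU hd1 hd2
      refine ⟨s * x, mul_mem (normalizerIn_le S U hs) (h.hTS (c.hP'T hx)), fun u hu => ?_⟩
      have hσu : σ u ∈ U := IsMap.mem_image c.hσU hu
      rw [hd3 u hu, hsδ _ (hxU x hx _ hσu)]
      group
  have hle : P' ⊔ U ≤ extender S U φ := sup_le hP'ext (le_extender hφ)
  obtain ⟨σ₁, hσ₁, hσ₁U⟩ := isReceptive_extend hrec c.hσ c.hσU (N := P' ⊔ U)
    (fun g hg => (mem_extender_iff' φ hφσ g).1 (hle hg))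
  refine ⟨σ₁, hσ₁, hσ₁U, fun x hx => ?_⟩
  have hxM : x ∈ P' ⊔ U := (le_sup_left : P' ≤ P' ⊔ U) hx
  have hxT : x ∈ T := c.hP'T hx
  have hσ₁xT : σ₁ x ∈ T := h.memT hσ₁ hxM hxT
  apply c.hcen (U ⊓ T) (isConj_refl F (inf_le_left.trans hUS))
  rw [mem_centralizerIn]
  refine ⟨T.mul_mem (T.inv_mem hxT) hσ₁xT, fun r hr => ?_⟩
  have hrM : r ∈ P' ⊔ U := (le_sup_right : U ≤ P' ⊔ U) hr.1
  have hxr : x * r * x⁻¹ ∈ U ⊓ T :=
    ⟨hxU x hx r hr.1, T.mul_mem (T.mul_mem hxT hr.2) (T.inv_mem hxT)⟩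
  have e1 : σ₁ (x * r * x⁻¹) = x * r * x⁻¹ := by
    rw [hσ₁U _ hxr.1, c.hσR _ hxr]
  have e2 : σ₁ (x * r * x⁻¹) = σ₁ x * r * (σ₁ x)⁻¹ := by
    rw [hσ₁.map_mul (mul_mem hxM hrM) (inv_mem hxM), hσ₁.map_mul hxM hrM, hσ₁.map_inv hxM,
      hσ₁U r hr.1, c.hσR r hr]
  have key : σ₁ x * r = x * r * x⁻¹ * σ₁ x := by
    rw [← e1, e2]
    group
  calc r * (x⁻¹ * σ₁ x) = x⁻¹ * (x * r * x⁻¹ * σ₁ x) := by group
    _ = x⁻¹ * (σ₁ x * r) := by rw [key]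
    _ = x⁻¹ * σ₁ x * r := by group

end Cfsg.Agent.Lib.H88YStepFn
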