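import Mathlib
import Cfsg.Agent.Lib.H88YDefs
import Cfsg.Agent.Lib.H88YStepFn

set_option autoImplicit false

namespace Cfsg.Agent.Lib.H88YStepTr

open Cfsg Cfsg.FusionSystem Cfsg.Agent.Lib.Helper87Fusion Cfsg.Agent.Lib.H88YDefs
  Cfsg.Agent.Lib.H37PrDefs

variable {Ω : Type*} [Group Ω] {S T : Subgroup Ω} {p : ℕ} {F : FusionSystem S}
  {E : FusionSystem T}

/-- PIECE StepTr (75 min, START FIRST).  The extension step for arbitrary `U`, by transport to a fully normalized conjugate.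
SKETCH: `U ≤ S` (`c.hσ.le`).  `Helper86Fusion2.exists_fullyNormalized_conj F hUS` gives `Us`, fully normalized; `saturated_fullyNormalized` + `Helper86Fusion.exists_normalizer_map h.hS F Us U h₁ h₂ hconj` give an `F`-map `l` on `N := normalizerIn S U` with `l '' U = Us`.
`P' ⊔ U ≤ N` (`hnorm` as in StepFn; `le_normalizerIn`).  `M := l '' (P' ⊔ U)`, `l'` the inverse of `l` on `M` (restrict `l` to `P' ⊔ U` first).  `Ps := l '' P'`;  `M = Ps ⊔ Us` (`Helper87Mk.IsMap_image_sup`).  `σs := fun y => l (σ (l' y))`.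
`Cfg F T Us Ps σs`: `Us ⊓ T = l '' (U ⊓ T)` (`Helper87Fusion3.StronglyClosed_mem_iff h.hT`), so it is `F`-conjugate to `U ⊓ T` and `hcen` transports by `isConj_trans`/`isConj_symm`; `hnorm`: apply `l` to `u⁻¹ (x u x⁻¹)` (`map_mul`, `map_inv`); the rest is routine.
`H88YStepFn.step_fn h hUs` gives `τ` on `Ps ⊔ Us`, `τ = σs` on `Us`, `y⁻¹ τ y ∈ Us ⊓ T`.  `τ` maps `Ps ⊔ Us` into itself (`IsMap_sup_mem`: `τ y = y (y⁻¹ τ y)`, `Us ⊓ T ≤ Ps`).  `σ₁ := fun x => l' (τ (l x))`. -/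
theorem step_tr [Finite S] [Fact p.Prime] (h : Hyp p F E) {U P' : Subgroup Ω} {σ : Ω → Ω}
    (c : Cfg F T U P' σ) : Ccl F T U P' σ := by
  have hUS : U ≤ S := c.hσ.le
  obtain ⟨Us, hconj, hUs⟩ := Helper86Fusion2.exists_fullyNormalized_conj F hUS
  obtain ⟨-, hfa, hrec⟩ := Helper86Fusion2.saturated_fullyNormalized h.hS h.hF hUs
  obtain ⟨l, hl₀, hlU, -⟩ := Helper86Fusion.exists_normalizer_map h.hS F Us U hfa hrec hconj
  have hP'S : P' ≤ S := c.hP'T.trans h.hTS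
  have hxU : ∀ x ∈ P', ∀ u ∈ U, x * u * x⁻¹ ∈ U := fun x hx u hu => by
    have h1 := (c.hnorm x hx u hu).1
    have e : x * u * x⁻¹ = u * (u⁻¹ * (x * u * x⁻¹)) := by group
    rw [e]
    exact U.mul_mem hu h1
  have hP'N : P' ≤ normalizerIn S U := by
    intro x hx
    refine mem_normalizerIn.2 ⟨hP'S hx, fun u => ⟨fun hu => hxU x hx u hu, fun hu => ?_⟩⟩
    have h1 := hxU x⁻¹ (P'.inv_mem hx) _ hu
    have e : x⁻¹ * (x * u * x⁻¹) * x⁻¹⁻¹ = u := by group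
    rwa [e] at h1
  have hWN : P' ⊔ U ≤ normalizerIn S U := sup_le hP'N (le_normalizerIn hUS)
  have hl : IsMap F (P' ⊔ U) l := hl₀.restrict hWN
  have hP'W : P' ≤ P' ⊔ U := le_sup_left
  have hUW : U ≤ P' ⊔ U := le_sup_right
  obtain ⟨Ps, hPs⟩ := hl.exists_image_of_le hP'W
  have hM : l '' ((P' ⊔ U : Subgroup Ω) : Set Ω) = ((Ps ⊔ Us : Subgroup Ω) : Set Ω) :=
    Helper87Mk.IsMap_image_sup hl hPs hlU
  obtain ⟨l', hl', e1, e2, hl'M⟩ := hl.inv hM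
  have hPsM : Ps ≤ Ps ⊔ Us := le_sup_left
  have hUsM : Us ≤ Ps ⊔ Us := le_sup_right
  -- elements of `Us ⊓ T`
  have hmeet : ∀ y ∈ Us ⊓ T, ∃ x ∈ U ⊓ T, l x = y := by
    rintro y ⟨hy1, hy2⟩
    obtain ⟨x, hx, rfl⟩ := IsMap.exists_of_mem_image hlU hy1
    exact ⟨x, ⟨hx, (Helper87Fusion3.StronglyClosed_mem_iff h.hT hl (hUW hx)).1 hy2⟩, rfl⟩
  have hmeet' : ∀ x ∈ U ⊓ T, l x ∈ Us ⊓ T := by
    rintro x ⟨hx1, hx2⟩
    exact ⟨IsMap.mem_image hlU hx1, h.memT hl (hUW hx1) hx2⟩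
  have hl'U : ∀ y ∈ Us, l' y ∈ U := by
    intro y hy
    obtain ⟨x, hx, rfl⟩ := IsMap.exists_of_mem_image hlU hy
    rw [e1 x (hUW hx)]
    exact hx
  have hσmem : ∀ u ∈ U, σ u ∈ U := fun u hu => IsMap.mem_image c.hσU hu
  have hσs : IsMap F Us (fun y => l (σ (l' y))) :=
    ((hl'.restrict hUsM).comp c.hσ hl'U).comp (hl.restrict hUW) (fun y hy => hσmem _ (hl'U y hy))
  have hcs : Cfg F T Us Ps (fun y => l (σ (l' y))) := by
    refine ⟨?_, ?_, ?_, ?_, hσs, ?_, ?_⟩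
    · intro y hy
      obtain ⟨x, hx, rfl⟩ := IsMap.exists_of_mem_image hPs hy
      exact h.memT hl (hP'W hx) (c.hP'T hx)
    · intro y hy
      obtain ⟨x, hx, rfl⟩ := hmeet y hy
      exact IsMap.mem_image hPs (c.hRP' hx)
    · intro y hy v hv
      obtain ⟨x, hx, rfl⟩ := IsMap.exists_of_mem_image hPs hy
      obtain ⟨u, hu, rfl⟩ := IsMap.exists_of_mem_image hlU hv
      have h1 := hmeet' _ (c.hnorm x hx u hu)
      have hxW := hP'W hx
      have huW := hUW hu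
      have e : l (u⁻¹ * (x * u * x⁻¹)) = (l u)⁻¹ * (l x * l u * (l x)⁻¹) := by
        rw [hl.map_mul ((P' ⊔ U).inv_mem huW)
          ((P' ⊔ U).mul_mem ((P' ⊔ U).mul_mem hxW huW) ((P' ⊔ U).inv_mem hxW)),
          hl.map_inv huW, hl.map_conj hxW huW]
      rwa [e] at h1
    · intro R₁ hR₁
      refine c.hcen R₁ (isConj_trans (isConj_iff.2 ⟨l, hl.restrict (inf_le_left.trans hUW), ?_⟩) hR₁)
      ext y
      constructor
      · rintro ⟨x, hx, rfl⟩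
        exact hmeet' x hx
      · intro hy
        obtain ⟨x, hx, rfl⟩ := hmeet y hy
        exact ⟨x, hx, rfl⟩
    · exact Helper88Normal.image_eq_of_maps_to hσs
        (fun y hy => IsMap.mem_image hlU (hσmem _ (hl'U y hy)))
    · intro y hy
      obtain ⟨x, hx, rfl⟩ := hmeet y hy
      show l (σ (l' (l x))) = l x
      rw [e1 x (hUW hx.1), c.hσR x hx]
  obtain ⟨τ, hτ, hτU, hτP⟩ := H88YStepFn.step_fn h hUs hcs
  have hτM : ∀ y ∈ Ps ⊔ Us, τ y ∈ Ps ⊔ Us := by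
    refine Helper87Mk.IsMap_sup_mem hτ (fun y hy => ?_) (fun v hv => ?_)
    · have h1 := hτP y hy
      have e : τ y = y * (y⁻¹ * τ y) := by group
      rw [e]
      exact (Ps ⊔ Us).mul_mem (hPsM hy) (hUsM h1.1)
    · rw [hτU v hv]
      exact hUsM (IsMap.mem_image hlU (hσmem _ (hl'U v hv)))
  refine ⟨fun x => l' (τ (l x)), (hl.comp hτ (fun x hx => IsMap.mem_image hM hx)).comp hl'
    (fun x hx => hτM _ (IsMap.mem_image hM hx)), fun u hu => ?_, fun x hx => ?_⟩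
  · show l' (τ (l u)) = σ u
    rw [hτU _ (IsMap.mem_image hlU hu)]
    show l' (l (σ (l' (l u)))) = σ u
    rw [e1 u (hUW hu), e1 _ (hUW (hσmem u hu))]
  · show x⁻¹ * l' (τ (l x)) ∈ U ⊓ T
    obtain ⟨w, hw, hwz⟩ := hmeet _ (hτP (l x) (IsMap.mem_image hPs hx))
    have e : τ (l x) = l (x * w) := by
      rw [hl.map_mul (hP'W hx) (hUW hw.1), hwz]
      group
    rw [e, e1 _ ((P' ⊔ U).mul_mem (hP'W hx) (hUW hw.1))]
    have e' : x⁻¹ * (x * w) = w := by group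
    rw [e']
    exact hw

end Cfsg.Agent.Lib.H88YStepTr
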