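import Mathlib
import Cfsg.Agent.Lib.H88YDefs
import Cfsg.Agent.Lib.H88YStepTr
import Cfsg.Agent.Lib.H88YMeet
import Cfsg.Agent.Lib.H88YIter

set_option autoImplicit false

namespace Cfsg.Agent.Lib.H88YStep

open Cfsg Cfsg.FusionSystem Cfsg.Agent.Lib.Helper87Fusion Cfsg.Agent.Lib.H88YDefs
  Cfsg.Agent.Lib.H37PrDefs

variable {Ω : Type*} [Group Ω] {S T : Subgroup Ω} {p : ℕ} {F : FusionSystem S}
  {E : FusionSystem T}

/-- PIECE Step (60 min).  A `p'`-automorphism of `R C_S(T)` trivial on `R` extends to one of `N_T(R) C_S(T)` trivial on `N_T(R)`.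
SKETCH: `U := R ⊔ C`, `P' := normalizerIn T R`, `W := P' ⊔ C`.  `P' ⊔ U = W` (`R ≤ P'`; `sup_assoc`, `sup_eq_left`...).  `H88YStepTr.step_tr h (H88YMeet.cfg h hR hσ)` gives `σ₁` on `P' ⊔ U`, `σ₁ = σ` on `U`, `z_x := x⁻¹ σ₁ x ∈ U ⊓ T = R` (`H88YMeet.meet`).
`σ₁` maps `W` into `W`, so onto (`IsMap_sup_mem`, `Helper88Normal.image_eq_of_maps_to`).  `σ₁^[k] x = x * z_x ^ k` for `x ∈ P'` (induction: `σ₁ (x z^k) = σ₁ x * σ₁ (z^k) = x z z^k`, `σ₁ = σ = id` on `R`), so with `q := Nat.card T` (a power of `p`: `h.hTp`, `IsPGroup.iff_card`), `σ₁^[q] x = x` (`pow_card_eq_one'` in `T`).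
`q.Coprime r`; `Nat.chineseRemainder` : `m ≡ 0 [MOD q]`, `m ≡ 1 [MOD r]`.   `σ' := σ₁^[m]` : `F`-automorphism of `W` (`H88YIter.iter`); `= id` on `P'` (`iter_dvd`); on `U`: `σ₁^[m] u = σ^[m] u = σ u` (`iter_congr`, `iter_modEq_one`).
`σ'^[r] = id` on `W`: it is an `F`-map on `P' ⊔ U` (`iter`), equal to `id` on `P'` and on `U` (`(σ')^[r] u = σ^[r] u = u` by `iter_congr`), conclude with `Helper87Mk.IsMap_sup_ext _ (isMap_id' F _)`. -/
theorem step [Finite S] [Fact p.Prime] (h : Hyp p F E) {R : Subgroup Ω} (hR : E.IsCentric R)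
    {σ : Ω → Ω} (hσ : Sg F T R σ) {r : ℕ} (hr : r.Coprime p)
    (hσr : ∀ u ∈ R ⊔ centralizerIn S T, σ^[r] u = u) :
    ∃ σ' : Ω → Ω, Sg F T (normalizerIn T R) σ' ∧ (∀ u ∈ R ⊔ centralizerIn S T, σ' u = σ u) ∧
      ∀ u ∈ normalizerIn T R ⊔ centralizerIn S T, σ'^[r] u = u := by
  haveI := h.finT
  have hRle : R ≤ normalizerIn T R := le_normalizerIn hR.1
  have hW : normalizerIn T R ⊔ (R ⊔ centralizerIn S T) = normalizerIn T R ⊔ centralizerIn S T := by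
    rw [← sup_assoc, sup_eq_left.2 hRle]
  obtain ⟨σ₁, hσ₁, hσ₁U, hσ₁P⟩ := H88YStepTr.step_tr h (H88YMeet.cfg h hR hσ)
  rw [H88YMeet.meet h hR] at hσ₁P
  rw [hW] at hσ₁
  have hUW : R ⊔ centralizerIn S T ≤ normalizerIn T R ⊔ centralizerIn S T :=
    sup_le_sup_right hRle _
  have hPW : normalizerIn T R ≤ normalizerIn T R ⊔ centralizerIn S T := le_sup_left
  have hCU : centralizerIn S T ≤ R ⊔ centralizerIn S T := le_sup_right
  have hRU : R ≤ R ⊔ centralizerIn S T := le_sup_left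
  have hσmem : ∀ u ∈ R ⊔ centralizerIn S T, σ u ∈ R ⊔ centralizerIn S T :=
    fun u hu => IsMap.mem_image hσ.2.1 hu
  have hmaps : ∀ x ∈ normalizerIn T R ⊔ centralizerIn S T,
      σ₁ x ∈ normalizerIn T R ⊔ centralizerIn S T := by
    refine Helper87Mk.IsMap_sup_mem hσ₁ (fun x hx => ?_) (fun c hc => ?_)
    · have e : σ₁ x = x * (x⁻¹ * σ₁ x) := by group
      rw [e]
      exact Subgroup.mul_mem _ (hPW hx) (hPW (hRle (hσ₁P x hx)))
    · rw [hσ₁U c (hCU hc)]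
      exact hUW (hσmem c (hCU hc))
  have hσ₁W := Helper88Normal.image_eq_of_maps_to hσ₁ hmaps
  have hfix : ∀ z ∈ R, σ₁ z = z := fun z hz => by rw [hσ₁U z (hRU hz), hσ.2.2 z hz]
  have hpow : ∀ (k : ℕ), ∀ x ∈ normalizerIn T R, σ₁^[k] x = x * (x⁻¹ * σ₁ x) ^ k := by
    intro k
    induction k with
    | zero => intro x _; simp
    | succ k ih =>
      intro x hx
      have hz := hσ₁P x hx
      have hzk : (x⁻¹ * σ₁ x) ^ k ∈ R := R.pow_mem hz k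
      rw [Function.iterate_succ_apply', ih x hx, hσ₁.map_mul (hPW hx) (hPW (hRle hzk)), hfix _ hzk,
        pow_succ', ← mul_assoc, ← mul_assoc, mul_inv_cancel, one_mul]
  have hq : ∀ x ∈ normalizerIn T R, σ₁^[Nat.card T] x = x := by
    intro x hx
    rw [hpow _ x hx]
    have hzT : x⁻¹ * σ₁ x ∈ T := hR.1 (hσ₁P x hx)
    have h1 : ((⟨x⁻¹ * σ₁ x, hzT⟩ : T) ^ Nat.card T) = 1 := pow_card_eq_one'
    have h2 : (x⁻¹ * σ₁ x) ^ Nat.card T = 1 := by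
      have h3 : (((⟨x⁻¹ * σ₁ x, hzT⟩ : T) ^ Nat.card T : T) : Ω) = ((1 : T) : Ω) := by rw [h1]
      rwa [Subgroup.coe_pow, Subgroup.coe_one] at h3
    rw [h2, mul_one]
  obtain ⟨n, hn⟩ := (IsPGroup.iff_card).1 h.hTp
  have hco : (Nat.card T).Coprime r := by
    rw [hn]
    exact Nat.Coprime.pow_left n hr.symm
  obtain ⟨m, hm0, hm1⟩ := Nat.chineseRemainder hco 0 1
  have hdvd : Nat.card T ∣ m := (Nat.modEq_zero_iff_dvd).1 hm0
  have hit := H88YIter.iter hσ₁ hσ₁W m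
  have hP : ∀ x ∈ normalizerIn T R, σ₁^[m] x = x := H88YIter.iter_dvd hq hdvd
  have hU : ∀ u ∈ R ⊔ centralizerIn S T, σ₁^[m] u = σ u := by
    intro u hu
    rw [(H88YIter.iter_congr hσ₁U hσmem m u hu).1]
    exact H88YIter.iter_modEq_one hσmem hσr hm1 u hu
  refine ⟨σ₁^[m], ⟨hit.1, hit.2, hP⟩, hU, ?_⟩
  have hit2 := H88YIter.iter hit.1 hit.2 r
  refine Helper87Mk.IsMap_sup_ext hit2.1 (isMap_id' F hσ₁.le) (fun x hx => ?_) (fun c hc => ?_)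
  · exact Function.iterate_fixed (hP x hx) r
  · rw [(H88YIter.iter_congr hU hσmem r c (hCU hc)).1]
    exact hσr c (hCU hc)

end Cfsg.Agent.Lib.H88YStep
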