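import Mathlib
import Cfsg.Agent.Lib.H88YDefs
import Cfsg.Agent.Lib.H88YStep

set_option autoImplicit false

namespace Cfsg.Agent.Lib.H88YChain

open Cfsg Cfsg.FusionSystem Cfsg.Agent.Lib.Helper87Fusion Cfsg.Agent.Lib.H88YDefs
  Cfsg.Agent.Lib.H37PrDefs

variable {Ω : Type*} [Group Ω] {S T : Subgroup Ω} {p : ℕ} {F : FusionSystem S}
  {E : FusionSystem T}

/-- PIECE Chain (35 min).  Going up the normalizer tower to `T`.
SKETCH: induction on `n`, generalizing `R σ`.  If `R = T` take `κ := σ`.  Otherwise (`haveI := h.finT`) `R < normalizerIn T R` (`Helper88Normal.lt_normalizerIn h.hTp hR.1 hne`, a statement over `T`), `normalizerIn T R` is `E`-centric (`Helper87Fusion2.isCentric_of_le hR _ (normalizerIn_le T R)`),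
 its cardinality is bigger (`Helper87Fusion2.card_lt_of_lt`), so `card T - card (N_T R) ≤ n`; `H88YStep.step` + induction hypothesis; `κ c = σ' c = σ c` for `c ∈ C ≤ R ⊔ C`.   For `n = 0`: `card R ≥ card T` gives `R = T` (`Subgroup.eq_of_le_of_card_ge`). -/
theorem chain [Finite S] [Fact p.Prime] (h : Hyp p F E) {r : ℕ} (hr : r.Coprime p) (n : ℕ) :
    ∀ (R : Subgroup Ω), E.IsCentric R → Nat.card T - Nat.card R ≤ n → ∀ σ : Ω → Ω, Sg F T R σ →
      (∀ u ∈ R ⊔ centralizerIn S T, σ^[r] u = u) →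
      ∃ κ : Ω → Ω, Sg F T T κ ∧ ∀ c ∈ centralizerIn S T, κ c = σ c := by
  haveI := h.finT
  induction n with
  | zero =>
    intro R hR hn σ hσ hσr
    have hRT : R = T := Subgroup.eq_of_le_of_card_ge hR.1 (by omega)
    exact ⟨σ, hRT ▸ hσ, fun c _ => rfl⟩
  | succ n ih =>
    intro R hR hn σ hσ hσr
    by_cases hRT : R = T
    · exact ⟨σ, hRT ▸ hσ, fun c _ => rfl⟩
    · have hlt : R < normalizerIn T R :=
        Cfsg.Agent.Lib.Helper88Normal.lt_normalizerIn h.hTp hR.1 hRT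
      have hcen : E.IsCentric (normalizerIn T R) :=
        Cfsg.Agent.Lib.Helper87Fusion2.isCentric_of_le hR hlt.le (normalizerIn_le T R)
      haveI : Finite (normalizerIn T R) :=
        Cfsg.Agent.Lib.Helper86Fusion.finite_of_le (normalizerIn_le T R)
      have hcard : Nat.card R < Nat.card (normalizerIn T R) :=
        Cfsg.Agent.Lib.Helper87Fusion2.card_lt_of_lt hlt
      obtain ⟨σ', hσ', hσσ, hσ'r⟩ := Cfsg.Agent.Lib.H88YStep.step h hR hσ hr hσr
      obtain ⟨κ, hκ, hκc⟩ := ih (normalizerIn T R) hcen (by omega) σ' hσ' hσ'r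
      exact ⟨κ, hκ, fun c hc => (hκc c hc).trans (hσσ c (Subgroup.mem_sup_right hc))⟩

end Cfsg.Agent.Lib.H88YChain
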