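import Mathlib
import Cfsg.Agent.Lib.H88YDefs
import Cfsg.Agent.Lib.H88YTc

set_option autoImplicit false

namespace Cfsg.Agent.Lib.H88YVal

open Cfsg Cfsg.FusionSystem Cfsg.Agent.Lib.Helper87Fusion Cfsg.Agent.Lib.H88YDefs
  Cfsg.Agent.Lib.H37PrDefs

variable {Ω : Type*} [Group Ω] {S T : Subgroup Ω} {p : ℕ} {F : FusionSystem S}
  {E : FusionSystem T}

/-- PIECE Val.  Values of an extension `g` on `C_S(T)`. -/
theorem val [Finite S] (h : Hyp p F E) {P P₁ : Subgroup Ω} (hP : E.IsCentric P) {g : Ω → Ω}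
    (hg : IsMap F (P ⊔ centralizerIn S T) g) (hP₁ : g '' (P : Set Ω) = (P₁ : Set Ω))
    (hc : ∀ c ∈ centralizerIn S T, c⁻¹ * g c ∈ T) :
    (∀ c ∈ centralizerIn S T, c⁻¹ * g c ∈ P₁) ∧
      g '' ((P ⊔ centralizerIn S T : Subgroup Ω) : Set Ω) =
        ((P₁ ⊔ centralizerIn S T : Subgroup Ω) : Set Ω) := by
  have hPT : P ≤ T := hP.1
  have hPle : P ≤ P ⊔ centralizerIn S T := le_sup_left
  have hCle : centralizerIn S T ≤ P ⊔ centralizerIn S T := le_sup_right
  have hP₁T : P₁ ≤ T := by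
    intro y hy
    obtain ⟨x, hx, rfl⟩ := IsMap.exists_of_mem_image hP₁ hy
    exact h.memT hg (hPle hx) (hPT hx)
  have hconj : F.IsConj P P₁ := isConj_iff.2 ⟨g, hg.restrict hPle, hP₁⟩
  have htc := Cfsg.Agent.Lib.H88YTc.tc h hP hconj
  have key : ∀ c ∈ centralizerIn S T, c⁻¹ * g c ∈ P₁ := by
    intro c hcC
    apply htc
    rw [mem_centralizerIn]
    refine ⟨hc c hcC, fun y hy => ?_⟩
    obtain ⟨x, hx, rfl⟩ := IsMap.exists_of_mem_image hP₁ hy
    have hcT := (mem_centralizerIn.1 hcC).2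
    have e1 : g x * g c = g c * g x := by
      rw [← hg.map_mul (hPle hx) (hCle hcC), ← hg.map_mul (hCle hcC) (hPle hx), hcT x (hPT hx)]
    have e2 : g x * c = c * g x := hcT _ (hP₁T hy)
    have e3 : g x * c⁻¹ = c⁻¹ * g x := by
      calc g x * c⁻¹ = c⁻¹ * (c * g x) * c⁻¹ := by group
        _ = c⁻¹ * (g x * c) * c⁻¹ := by rw [e2]
        _ = c⁻¹ * g x := by group
    calc g x * (c⁻¹ * g c) = (g x * c⁻¹) * g c := by group
      _ = c⁻¹ * (g x * g c) := by rw [e3]; group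
      _ = c⁻¹ * g c * g x := by rw [e1]; group
  refine ⟨key, ?_⟩
  obtain ⟨C₁, hC₁⟩ := (hg.restrict hCle).exists_image
  rw [Cfsg.Agent.Lib.Helper87Mk.IsMap_image_sup hg hP₁ hC₁]
  congr 1
  apply le_antisymm
  · refine sup_le le_sup_left ?_
    intro y hy
    obtain ⟨c, hcC, rfl⟩ := IsMap.exists_of_mem_image hC₁ hy
    have : g c = c * (c⁻¹ * g c) := by group
    rw [this]
    exact Subgroup.mul_mem _ (Subgroup.mem_sup_right hcC) (Subgroup.mem_sup_left (key c hcC))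
  · refine sup_le le_sup_left ?_
    intro c hcC
    have : c = g c * (c⁻¹ * g c)⁻¹ := by group
    rw [this]
    exact Subgroup.mul_mem _ (Subgroup.mem_sup_right (IsMap.mem_image hC₁ hcC))
      (Subgroup.inv_mem _ (Subgroup.mem_sup_left (key c hcC)))

end Cfsg.Agent.Lib.H88YVal
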