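import Mathlib
import Cfsg.Agent.Lib.H88YDefs
import Cfsg.Agent.Lib.H88YVal

set_option autoImplicit false

namespace Cfsg.Agent.Lib.H88YComp

open Cfsg Cfsg.FusionSystem Cfsg.Agent.Lib.Helper87Fusion Cfsg.Agent.Lib.H88YDefs
  Cfsg.Agent.Lib.H37PrDefs

variable {Ω : Type*} [Group Ω] {S T : Subgroup Ω} {p : ℕ} {F : FusionSystem S}
  {E : FusionSystem T}

/-- PIECE Comp.  `K1` is closed under composition. -/
theorem comp [Finite S] (h : Hyp p F E) (P Q : Subgroup Ω) (f g : Ω → Ω) (hf : IsMap E P f)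
    (hg : IsMap E Q g) (hPQ : ∀ x ∈ P, f x ∈ Q) (h1 : K1 F E P f) (h2 : K1 F E Q g) :
    K1 F E P (fun x => g (f x)) := by
  intro hPc
  obtain ⟨P₁, hP₁⟩ := hf.exists_image
  have hconj : E.IsConj P P₁ := isConj_iff.2 ⟨f, hf, hP₁⟩
  have hP₁c := Cfsg.Agent.Lib.Helper87Fusion2.isCentric_of_isConj hPc hconj
  have hP₁Q : P₁ ≤ Q := by
    intro y hy
    have hy' : y ∈ f '' (P : Set Ω) := by rw [hP₁]; exact hy
    obtain ⟨x, hx, rfl⟩ := hy'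
    exact hPQ x hx
  have hQc : E.IsCentric Q := Cfsg.Agent.Lib.Helper87Fusion2.isCentric_of_le hP₁c hP₁Q hg.le
  obtain ⟨f', hf', hf'P, hf'c⟩ := h1 hPc
  obtain ⟨g', hg', hg'Q, hg'c⟩ := h2 hQc
  have himg : f' '' (P : Set Ω) = (P₁ : Set Ω) := by
    rw [← hP₁]; exact Set.image_congr hf'P
  obtain ⟨hv1, hv2⟩ := Cfsg.Agent.Lib.H88YVal.val h hPc hf' himg hf'c
  refine ⟨fun x => g' (f' x), hf'.comp hg' ?_, ?_, ?_⟩
  · intro x hx
    have h3 : f' x ∈ ((P₁ ⊔ centralizerIn S T : Subgroup Ω) : Set Ω) := by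
      rw [← hv2]; exact Set.mem_image_of_mem f' hx
    exact (sup_le_sup_right hP₁Q _) h3
  · intro x hx
    show g' (f' x) = g (f x)
    rw [hf'P x hx, hg'Q _ (hPQ x hx)]
  · intro c hc
    have htP₁ : c⁻¹ * f' c ∈ P₁ := hv1 c hc
    have hfc : f' c = c * (c⁻¹ * f' c) := by group
    show c⁻¹ * g' (f' c) ∈ T
    rw [hfc, hg'.map_mul (Subgroup.mem_sup_right hc) (Subgroup.mem_sup_left (hP₁Q htP₁)),
      hg'Q _ (hP₁Q htP₁), ← mul_assoc]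
    exact T.mul_mem (hg'c c hc) (hg.mem (hP₁Q htP₁))

end Cfsg.Agent.Lib.H88YComp
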