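import Mathlib
import Cfsg.Agent.Lib.H88YDefs

set_option autoImplicit false

namespace Cfsg.Agent.Lib.H88YConj

open Cfsg Cfsg.FusionSystem Cfsg.Agent.Lib.Helper87Fusion Cfsg.Agent.Lib.H88YDefs
  Cfsg.Agent.Lib.H37PrDefs

variable {Ω : Type*} [Group Ω] {S T : Subgroup Ω} {p : ℕ} {F : FusionSystem S}
  {E : FusionSystem T}

/-- PIECE Conj.  `T`-conjugations are in `KK`. -/
theorem conj (h : Hyp p F E) (P : Subgroup Ω) (t : Ω) (hP : P ≤ T) (ht : t ∈ T) :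
    KK F T P (fun x => t * x * t⁻¹) := by
  refine ⟨fun x => t * x * t⁻¹,
    isMap_conj F (sup_le (hP.trans h.hTS) (centralizerIn_le S T)) (h.hTS ht), fun _ _ => rfl, ?_⟩
  intro c hc
  have h1 := (mem_centralizerIn.1 hc).2 t ht
  have h2 : t * c * t⁻¹ = c := by
    first
      | (rw [h1]; group)
      | (rw [← h1]; group)
  show c⁻¹ * (t * c * t⁻¹) ∈ T
  rw [h2, inv_mul_cancel]
  exact T.one_mem

/-- restriction: restrict `g` to `P₁ ⊔ C ≤ P ⊔ C` (`sup_le_sup_right`). -/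
theorem restrict {P P₁ : Subgroup Ω} {f : Ω → Ω} (hK : KK F T P f) (hle : P₁ ≤ P) : KK F T P₁ f := by
  obtain ⟨g, hg, h1, h2⟩ := hK
  exact ⟨g, hg.restrict (sup_le_sup_right hle _), fun x hx => h1 x (hle hx), h2⟩

/-- congruence. -/
theorem congr {P : Subgroup Ω} {f f' : Ω → Ω} (hK : KK F T P f) (hff : ∀ x ∈ P, f x = f' x) :
    KK F T P f' := by
  obtain ⟨g, hg, h1, h2⟩ := hK
  exact ⟨g, hg, fun x hx => (h1 x hx).trans (hff x hx), h2⟩

end Cfsg.Agent.Lib.H88YConj
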