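import Mathlib
import Cfsg.Agent.Lib.H88ZDefs
import Cfsg.Agent.Lib.H37PrDefs

set_option autoImplicit false

/-! Vocabulary of project 5142 (row S5142).  `F` saturated over `S`; `E` and `D₂` two saturated `F`-invariant subsystems over the
SAME strongly closed subgroup `T`.  Aim: the `p'`-residual of `E` is contained in `D₂`. -/

namespace Cfsg.Agent.Lib.H88ZVoc

open Cfsg Cfsg.FusionSystem Cfsg.Agent.Lib.Helper87Fusion

variable {Ω : Type*} [Group Ω] {S T : Subgroup Ω}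

/-- The standing hypotheses. -/
structure Hyp (p : ℕ) (F : FusionSystem S) (E D₂ : FusionSystem T) : Prop where
  hS : IsPGroup p S
  hF : F.IsSaturated p
  hE : E.IsSaturated p
  hD : D₂.IsSaturated p
  hEi : E.IsInvariantIn F
  hDi : D₂.IsInvariantIn F

namespace Hyp

variable {p : ℕ} {F : FusionSystem S} {E D₂ : FusionSystem T}

theorem hT (h : Hyp p F E D₂) : F.StronglyClosed T := h.hEi.2.1
theorem hTS (h : Hyp p F E D₂) : T ≤ S := h.hEi.2.1.1
theorem hTp (h : Hyp p F E D₂) : IsPGroup p T := h.hS.to_le h.hTS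
theorem finT [Finite S] (h : Hyp p F E D₂) : Finite T :=
  Cfsg.Agent.Lib.Helper86Fusion.finite_of_le h.hTS
theorem subE (h : Hyp p F E D₂) {P : Subgroup Ω} {f : Ω → Ω} (hf : IsMap E P f) : IsMap F P f :=
  Cfsg.Agent.Lib.Helper88Normal.isMap_of_subsystem h.hEi.1 hf
theorem subD (h : Hyp p F E D₂) {P : Subgroup Ω} {f : Ω → Ω} (hf : IsMap D₂ P f) : IsMap F P f :=
  Cfsg.Agent.Lib.Helper88Normal.isMap_of_subsystem h.hDi.1 hf

end Hyp

/-- the product maps `a ∘ f₀`, `a ∈ Aut_E(T)`, `f₀` a map of `D₂` with source `P`. -/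
def PM (E D₂ : FusionSystem T) (P : Subgroup Ω) (f : Ω → Ω) : Prop :=
  ∃ a f₀ : Ω → Ω, IsMap E T a ∧ IsMap D₂ P f₀ ∧ ∀ x ∈ P, f x = a (f₀ x)

end Cfsg.Agent.Lib.H88ZVoc
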