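import Mathlib
import Cfsg.Agent.Lib.H88ZVoc
import Cfsg.Agent.Lib.H38GTPFn

set_option autoImplicit false

namespace Cfsg.Agent.Lib.H88ZPFn

open Cfsg Cfsg.FusionSystem Cfsg.Agent.Lib.Helper87Fusion Cfsg.Agent.Lib.H88ZVoc
  Cfsg.Agent.Lib.H88ZDefs Cfsg.Agent.Lib.H37PrDefs

universe u

variable {Ω : Type u} [Group Ω] {S T : Subgroup Ω} {p : ℕ} {F : FusionSystem S}
  {E D₂ : FusionSystem T}

/-- PIECE PFn (45 min).  If `P` is fully automized in `E`, every `E`-automorphism of `P` of `p`-power order is a map of `D₂`.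
SKETCH: copy the beginning of `H38GTPFn.pelt_fn` (LANDED, same situation).  `obtain ⟨α, hα, hαf⟩ := hf.exists_aut hfP` (`α ∈ E.autGroup P`, `α x = f x`); `α ^ p ^ k = 1` from `hk`
(`MulAut` power = iterate: prove `∀ n (x : P), ((α ^ n) x : Ω) = f^[n] x` by induction, `Function.iterate_succ_apply'`, `pow_succ'`).
`hP = ⟨hPT, R, hR⟩`, `R` a Sylow `p`-subgroup of `E.autGroup P` equal to `autInducedBy T P`; `H38GTPFn.exists_conj_mem_sylow R ⟨α, hα⟩ k _` gives `β` with `β α β⁻¹ ∈ R`,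
so (`mem_autInducedBy_iff`) `β α β⁻¹ = c_t` on `P` for some `t ∈ T`.   Put `g := totA β⁻¹` (an `E`-map on `P` with image `P`, so an `F`-map: `h.subE`).
`c_t` is a map of `D₂` on `P` (`isMap_conj D₂ hPT ht`), with values in `P`.  `f (g x) = g (c_t x)` for `x ∈ P`.
`Helper88Normal.conj_map h.hDi (le_refl P) hPT (isMap_conj D₂ hPT ht) _ (h.subE hg) hgP _ : IsMap D₂ P f`. -/
theorem pelt_fn [Finite S] [Fact p.Prime] (h : Hyp p F E D₂) {P : Subgroup Ω}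
    (hP : E.IsFullyAutomized p P) {f : Ω → Ω} {k : ℕ} (hf : IsMap E P f)
    (hfP : f '' (P : Set Ω) = (P : Set Ω)) (hk : ∀ x ∈ P, f^[p ^ k] x = x) : IsMap D₂ P f := by
  obtain ⟨hPT, R, hR⟩ := hP
  obtain ⟨α, hα, hαf⟩ := hf.exists_aut hfP
  have hiter : ∀ (n : ℕ) (y : P), (((α ^ n) y : P) : Ω) = f^[n] y := by
    intro n
    induction n with
    | zero => intro y; simp
    | succ n ih =>
      intro y
      rw [pow_succ', MulAut.mul_apply, hαf, ih, Function.iterate_succ_apply']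
  have hpow : α ^ p ^ k = 1 := by
    ext y
    rw [hiter, hk _ y.2]
    simp
  have hpow' : (⟨α, hα⟩ : E.autGroup P) ^ p ^ k = 1 := Subtype.ext hpow
  have : Finite P := Cfsg.Agent.Lib.Helper86Fusion.finite_of_le (hPT.trans h.hTS)
  have : Finite (MulAut P) := Finite.of_injective (fun a : MulAut P => (a : P → P))
    (fun a b h => MulEquiv.ext (congrFun h))
  obtain ⟨β, hβ⟩ := Cfsg.Agent.Lib.Helper87Fusion2.exists_conj_mem_sylow R ⟨α, hα⟩ k hpow'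
  have hβ' : β * ⟨α, hα⟩ * β⁻¹ ∈ (R : Subgroup (E.autGroup P)) := hβ
  rw [hR, Subgroup.mem_subgroupOf] at hβ'
  obtain ⟨t, ht, htβ⟩ := (mem_autInducedBy_iff T P _).1 hβ'
  have hct : IsMap D₂ P (fun x => t * x * t⁻¹) := isMap_conj D₂ hPT ht
  have hctmem : ∀ x ∈ P, t * x * t⁻¹ ∈ P := by
    intro x hx
    rw [← htβ ⟨x, hx⟩]
    exact Subtype.coe_prop _
  have hβi : IsMap F P (Cfsg.Agent.Lib.Helper87Fusion2.totA ((β⁻¹ : E.autGroup P) : MulAut P)) :=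
    h.subE ((Cfsg.Agent.Lib.Helper87Fusion2.mem_autGroup_iff_totA E hPT _).1 (β⁻¹).2)
  refine Cfsg.Agent.Lib.Helper88Normal.conj_map h.hDi le_rfl hPT hct hctmem hβi
    (Cfsg.Agent.Lib.Helper87Fusion2.totA_image _) (fun x hx => ?_)
  rw [Cfsg.Agent.Lib.Helper87Fusion2.totA_of_mem _ hx,
    Cfsg.Agent.Lib.Helper87Fusion2.totA_of_mem _ (hctmem x hx), ← hαf]
  have e := htβ ⟨x, hx⟩
  have e2 : (⟨t * x * t⁻¹, hctmem x hx⟩ : P) =
      ((β * ⟨α, hα⟩ * β⁻¹ : E.autGroup P) : MulAut P) ⟨x, hx⟩ := Subtype.ext e.symm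
  rw [e2]
  show _ = ((((β⁻¹ : E.autGroup P) : MulAut P)
    ((β : MulAut P) (α (((β⁻¹ : E.autGroup P) : MulAut P) ⟨x, hx⟩))) : P) : Ω)
  simp

end Cfsg.Agent.Lib.H88ZPFn
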