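import Mathlib
import Cfsg.Agent.Lib.H88YDefs
import Cfsg.Agent.Lib.H38GTPFn
import Cfsg.Agent.Lib.H88ZPFn

set_option autoImplicit false

namespace Cfsg.Agent.Lib.H88YDecFa

open Cfsg Cfsg.FusionSystem Cfsg.Agent.Lib.Helper87Fusion Cfsg.Agent.Lib.H88YDefs
  Cfsg.Agent.Lib.H37PrDefs

variable {Ω : Type*} [Group Ω] {S T : Subgroup Ω} {p : ℕ} {F : FusionSystem S}
  {E : FusionSystem T}

/-- PIECE DecFa.  A `p`-element of `Aut_E(P)`, `P` fully automized in `E`, is `Aut_E(P)`-conjugate to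
some `c_t`, `t ∈ N_T(P)`. -/
theorem dec_fa [Finite S] [Fact p.Prime] (h : Hyp p F E) {P : Subgroup Ω}
    (hP : E.IsFullyAutomized p P) {f : Ω → Ω} {k : ℕ} (hf : IsMap E P f)
    (hfP : f '' (P : Set Ω) = (P : Set Ω)) (hk : ∀ x ∈ P, f^[p ^ k] x = x) :
    ∃ (g g' : Ω → Ω) (t : Ω), IsMap E P g ∧ g '' (P : Set Ω) = (P : Set Ω) ∧ IsMap E P g' ∧
      g' '' (P : Set Ω) = (P : Set Ω) ∧ (∀ x ∈ P, g (g' x) = x) ∧ (∀ x ∈ P, g' (g x) = x) ∧ t ∈ T ∧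
      (∀ y ∈ P, t * y * t⁻¹ ∈ P) ∧ ∀ x ∈ P, f x = g (t * g' x * t⁻¹) := by
  obtain ⟨hPT, R, hR⟩ := hP
  obtain ⟨α, hα, hαf⟩ := hf.exists_aut hfP
  have hiter : ∀ (n : ℕ) (y : P), (((α ^ n) y : P) : Ω) = f^[n] y := by
    intro n
    induction n with
    | zero => intro y; simp
    | succ n ih =>
      intro y
      rw [pow_succ', MulAut.mul_apply, hαf, ih, Function.iterate_succ_apply']
  have hpow : α ^ p ^ k = 1 := by
    ext y
    rw [hiter, hk _ y.2]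
    simp
  have hpow' : (⟨α, hα⟩ : E.autGroup P) ^ p ^ k = 1 := Subtype.ext hpow
  have : Finite P := Cfsg.Agent.Lib.Helper86Fusion.finite_of_le (hPT.trans h.hTS)
  have : Finite (MulAut P) := Finite.of_injective (fun a : MulAut P => (a : P → P))
    (fun a b h => MulEquiv.ext (congrFun h))
  obtain ⟨β, hβ⟩ := Cfsg.Agent.Lib.Helper87Fusion2.exists_conj_mem_sylow R ⟨α, hα⟩ k hpow'
  have hβ' : β * ⟨α, hα⟩ * β⁻¹ ∈ (R : Subgroup (E.autGroup P)) := hβ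
  rw [hR, Subgroup.mem_subgroupOf] at hβ'
  obtain ⟨t, ht, htβ⟩ := (mem_autInducedBy_iff T P _).1 hβ'
  have hctmem : ∀ x ∈ P, t * x * t⁻¹ ∈ P := by
    intro x hx
    rw [← htβ ⟨x, hx⟩]
    exact Subtype.coe_prop _
  have hβi : IsMap E P (Cfsg.Agent.Lib.Helper87Fusion2.totA ((β⁻¹ : E.autGroup P) : MulAut P)) :=
    (Cfsg.Agent.Lib.Helper87Fusion2.mem_autGroup_iff_totA E hPT _).1 (β⁻¹).2
  have hβm : IsMap E P (Cfsg.Agent.Lib.Helper87Fusion2.totA ((β : E.autGroup P) : MulAut P)) :=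
    (Cfsg.Agent.Lib.Helper87Fusion2.mem_autGroup_iff_totA E hPT _).1 β.2
  refine ⟨_, _, t, hβi, Cfsg.Agent.Lib.Helper87Fusion2.totA_image _, hβm,
    Cfsg.Agent.Lib.Helper87Fusion2.totA_image _, fun x hx => ?_, fun x hx => ?_, ht, hctmem,
    fun x hx => ?_⟩
  · rw [Cfsg.Agent.Lib.Helper87Fusion2.totA_of_mem _ hx,
      Cfsg.Agent.Lib.Helper87Fusion2.totA_apply]
    simp
  · rw [Cfsg.Agent.Lib.Helper87Fusion2.totA_of_mem _ hx,
      Cfsg.Agent.Lib.Helper87Fusion2.totA_apply]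
    simp
  · rw [Cfsg.Agent.Lib.Helper87Fusion2.totA_of_mem _ hx]
    have e := htβ ((β : MulAut P) ⟨x, hx⟩)
    rw [← e, Cfsg.Agent.Lib.Helper87Fusion2.totA_apply, ← hαf ⟨x, hx⟩]
    show _ = ((((β⁻¹ : E.autGroup P) : MulAut P)
      ((β : MulAut P) (α (((β⁻¹ : E.autGroup P) : MulAut P) ((β : MulAut P) ⟨x, hx⟩)))) : P) : Ω)
    simp

end Cfsg.Agent.Lib.H88YDecFa
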