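import Mathlib
import Cfsg.Agent.Lib.H88YDefs

set_option autoImplicit false

namespace Cfsg.Agent.Lib.H88YExtQ

open Cfsg Cfsg.FusionSystem Cfsg.Agent.Lib.Helper87Fusion Cfsg.Agent.Lib.H88YDefs
  Cfsg.Agent.Lib.H37PrDefs

variable {Ω : Type*} [Group Ω] {S T : Subgroup Ω} {p : ℕ} {F : FusionSystem S}
  {E : FusionSystem T}

/-- PIECE ExtQ.  Every `F`-automorphism of `T` extends to an `F`-automorphism of `Q := T C_S(T)`
preserving `C_S(T)`. -/
theorem extQ [Finite S] [Fact p.Prime] (h : Hyp p F E) {a : Ω → Ω} (ha : IsMap F T a) :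
    ∃ b b' : Ω → Ω, IsMap F (T ⊔ centralizerIn S T) b ∧ IsMap F (T ⊔ centralizerIn S T) b' ∧
      (∀ x ∈ T, b x = a x) ∧ (∀ x ∈ T ⊔ centralizerIn S T, b' (b x) = x) ∧
      (∀ x ∈ T ⊔ centralizerIn S T, b (b' x) = x) ∧
      b '' ((T ⊔ centralizerIn S T : Subgroup Ω) : Set Ω) = ((T ⊔ centralizerIn S T : Subgroup Ω) : Set Ω) ∧
      b' '' ((T ⊔ centralizerIn S T : Subgroup Ω) : Set Ω) = ((T ⊔ centralizerIn S T : Subgroup Ω) : Set Ω) ∧
      (∀ c ∈ centralizerIn S T, b c ∈ centralizerIn S T) ∧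
      (∀ c ∈ centralizerIn S T, b' c ∈ centralizerIn S T) := by
  have hfn := Helper87Split.fullyNormalized_of_stronglyClosed h.hT
  have hrec := (Helper86Fusion2.saturated_fullyNormalized h.hS h.hF hfn).2.2
  have haT : a '' (T : Set Ω) = (T : Set Ω) := Helper87Split.image_of_stronglyClosed h.hT ha le_rfl
  obtain ⟨φ, hφ, hφa⟩ := id ha
  have hle : T ⊔ centralizerIn S T ≤ extender S T φ := by
    refine sup_le ?_ ?_
    · intro t ht
      rw [mem_extender_iff' φ hφa]
      refine ⟨h.hTS ht, Subgroup.le_normalizer ht, a t, ha.mem ht, fun x hx => ?_⟩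
      exact ha.map_conj ht hx
    · intro c hc
      rw [mem_extender_iff' φ hφa]
      obtain ⟨hcS, hcc⟩ := mem_centralizerIn.1 hc
      have hcx : ∀ x ∈ T, c * x * c⁻¹ = x := by
        intro x hx
        rw [← hcc x hx, mul_inv_cancel_right]
      refine ⟨hcS, ?_, 1, S.one_mem, fun x hx => ?_⟩
      · rw [Subgroup.mem_normalizer_iff]
        intro x
        constructor
        · intro hx
          rw [hcx x hx]; exact hx
        · intro hx
          have h2 := hcc _ hx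
          have h3 : c * x * c⁻¹ * c = c * x := by group
          rw [h3] at h2
          have h4 : x = c * x * c⁻¹ := mul_left_cancel h2
          rw [h4]; exact hx
      · rw [hcx x hx]; simp
  obtain ⟨b, hb, hba⟩ := isReceptive_extend hrec ha haT (N := T ⊔ centralizerIn S T)
    (fun g hg => (mem_extender_iff' φ hφa g).1 (hle hg))
  have hTQ : T ≤ T ⊔ centralizerIn S T := le_sup_left
  have hCQ : centralizerIn S T ≤ T ⊔ centralizerIn S T := le_sup_right
  have hbC : ∀ c ∈ centralizerIn S T, b c ∈ centralizerIn S T := by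
    intro c hc
    obtain ⟨hcS, hcc⟩ := mem_centralizerIn.1 hc
    refine mem_centralizerIn.2 ⟨hb.mem (hCQ hc), fun y hy => ?_⟩
    obtain ⟨x, hx, rfl⟩ := IsMap.exists_of_mem_image haT hy
    rw [← hba x hx, ← hb.map_mul (hTQ hx) (hCQ hc), ← hb.map_mul (hCQ hc) (hTQ hx), hcc x hx]
  have hbQ : ∀ x ∈ T ⊔ centralizerIn S T, b x ∈ T ⊔ centralizerIn S T :=
    Helper87Mk.IsMap_sup_mem hb
      (fun x hx => hTQ (by rw [hba x hx]; exact IsMap.mem_image haT hx))
      (fun c hc => hCQ (hbC c hc))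
  have himg := Helper88Normal.image_eq_of_maps_to hb hbQ
  obtain ⟨b', hb', h1, h2, h3⟩ := hb.inv himg
  refine ⟨b, b', hb, hb', hba, h1, h2, himg, h3, hbC, ?_⟩
  intro c hc
  obtain ⟨hcS, hcc⟩ := mem_centralizerIn.1 hc
  refine mem_centralizerIn.2 ⟨hb'.mem (hCQ hc), fun y hy => ?_⟩
  have hby : b y ∈ T := by rw [hba y hy]; exact IsMap.mem_image haT hy
  have h4 := hcc (b y) hby
  have h5 : b' (b y * c) = b' (c * b y) := by rw [h4]
  rw [hb'.map_mul (hTQ hby) (hCQ hc), hb'.map_mul (hCQ hc) (hTQ hby), h1 y (hTQ hy)] at h5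
  exact h5

end Cfsg.Agent.Lib.H88YExtQ
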