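import Mathlib
import Cfsg.Agent.Lib.H88YDefs
import Cfsg.Agent.Lib.H37PrK0
import Cfsg.Agent.Lib.H12YCentAut

set_option autoImplicit false

namespace Cfsg.Agent.Lib.H88YK2Ext

open Cfsg Cfsg.FusionSystem Cfsg.Agent.Lib.Helper87Fusion Cfsg.Agent.Lib.H88YDefs
  Cfsg.Agent.Lib.H37PrDefs

variable {Ω : Type*} [Group Ω] {S T : Subgroup Ω} {p : ℕ} {F : FusionSystem S}
  {E : FusionSystem T}

/-- PIECE K2Ext.  `K2` has the extension property. -/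
theorem k2_ext [Finite S] (h : Hyp p F E) : Ext E (K2 F E p) := by
  intro P P₁ f hP hPP₁ hf hK
  refine ⟨hf.le, fun α α' Q₁ hα hα' hαα' hQ₁ => ?_⟩
  obtain ⟨Q, hQ⟩ := (hα.restrict hP.1).exists_image
  have hQc : E.IsCentric Q := Cfsg.Agent.Lib.H12YCentAut.centric_aut h.hEi hP hα hQ
  have hQQ₁ : Q ≤ Q₁ := by
    intro y hy
    have h1 : y ∈ (Q : Set Ω) := hy
    rw [← hQ] at h1
    obtain ⟨x, hx, rfl⟩ := h1
    have h2 : α x ∈ α '' (P₁ : Set Ω) := ⟨x, hPP₁ hx, rfl⟩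
    rw [hQ₁] at h2
    exact h2
  have hαT : α '' (T : Set Ω) = (T : Set Ω) :=
    Cfsg.Agent.Lib.Helper87Split.image_of_stronglyClosed h.hT hα le_rfl
  have hm : IsMap E Q₁ (fun x => α (f (α' x))) :=
    Cfsg.Agent.Lib.Helper88Normal.conj_aut h.hEi hf.le hf hα hαT hQ₁
      (fun x hx => by rw [hαα' x (hf.le hx)])
  exact Cfsg.Agent.Lib.H37PrK0.ext E p Q Q₁ _ hQc hQQ₁ hm (hK.2 α α' Q hα hα' hαα' hQ)

end Cfsg.Agent.Lib.H88YK2Ext
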