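import Mathlib
import Cfsg.Agent.Lib.H88YDefs
import Cfsg.Agent.Lib.H37PrK0
import Cfsg.Agent.Lib.H37PrCore

set_option autoImplicit false

namespace Cfsg.Agent.Lib.H88YK2Good

open Cfsg Cfsg.FusionSystem Cfsg.Agent.Lib.Helper87Fusion Cfsg.Agent.Lib.H88YDefs
  Cfsg.Agent.Lib.H37PrDefs

variable {Ω : Type*} [Group Ω] {S T : Subgroup Ω} {p : ℕ} {F : FusionSystem S}
  {E : FusionSystem T}

theorem imgT [Finite S] (h : Hyp p F E) {α : Ω → Ω} (hα : IsMap F T α) :
    α '' (T : Set Ω) = (T : Set Ω) :=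
  Cfsg.Agent.Lib.Helper87Split.image_of_stronglyClosed h.hT hα le_rfl

theorem rinv [Finite S] (h : Hyp p F E) {α α' : Ω → Ω} (hα : IsMap F T α)
    (haa : ∀ x ∈ T, α' (α x) = x) : ∀ x ∈ T, α (α' x) = x := by
  intro x hx
  obtain ⟨y, hy, rfl⟩ := IsMap.exists_of_mem_image (imgT h hα) hx
  rw [haa y hy]

theorem leT (h : Hyp p F E) {α : Ω → Ω} (hα : IsMap F T α) {P P' : Subgroup Ω} (hP : P ≤ T)
    (hP' : α '' (P : Set Ω) = (P' : Set Ω)) : P' ≤ T := by
  intro x hx
  obtain ⟨y, hy, rfl⟩ := IsMap.exists_of_mem_image hP' hx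
  exact h.memT hα (hP hy) (hP hy)

theorem conjE [Finite S] (h : Hyp p F E) {α α' : Ω → Ω} (hα : IsMap F T α)
    (haa : ∀ x ∈ T, α' (α x) = x) {P P' : Subgroup Ω} {f : Ω → Ω} (hf : IsMap E P f)
    (hP' : α '' (P : Set Ω) = (P' : Set Ω)) : IsMap E P' (fun x => α (f (α' x))) :=
  Cfsg.Agent.Lib.Helper88Normal.conj_aut h.hEi hf.le hf hα (imgT h hα) hP' (fun x hx => by
    show α (f (α' (α x))) = α (f x)
    rw [haa x (hf.le hx)])

/-- PIECE K2Good.  The `Aut_F(T)`-core `K2` of `K0 E p` is a `Good` class for `E`. -/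
theorem k2_good [Finite S] [Fact p.Prime] (h : Hyp p F E) : Good E p (K2 F E p) := by
  have hG := Cfsg.Agent.Lib.H37PrK0.good E p
  have hfin : Finite T := h.finT
  exact
  { congr := fun P f g hfg hK => ⟨hK.1, fun α α' P' hα hα' haa hP' =>
      hG.congr P' _ _ (fun x hx => by
        show α (f (α' x)) = α (g (α' x))
        rw [hfg _ (Cfsg.Agent.Lib.H37PrCore.inv_mem hK.1 haa hP' x hx)])
        (hK.2 α α' P' hα hα' haa hP')⟩
    conj := fun P g hP hg => ⟨hP, fun α α' P' hα hα' haa hP' => by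
      have hP'T : P' ≤ T := leT h hα hP hP'
      refine hG.congr P' _ _ (fun x hx => ?_) (hG.conj P' (α g) hP'T (h.memT hα hg hg))
      show α g * x * (α g)⁻¹ = α (g * α' x * g⁻¹)
      have hx' : α' x ∈ T := hP (Cfsg.Agent.Lib.H37PrCore.inv_mem hP haa hP' x hx)
      rw [hα.map_conj hg hx', rinv h hα haa x (hP'T hx)]⟩
    comp := fun P Q f g hf hg hfQ h1 h2 => ⟨hf.le, fun α α' P' hα hα' haa hP' => by
      obtain ⟨Q', hQ'⟩ := (hα.restrict hg.le).exists_image
      have k1 := h1.2 α α' P' hα hα' haa hP'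
      have k2 := h2.2 α α' Q' hα hα' haa hQ'
      refine hG.congr P' _ _ (fun x hx => ?_) (hG.comp P' Q' _ _ (conjE h hα haa hf hP')
        (conjE h hα haa hg hQ') (fun x hx => IsMap.mem_image hQ'
          (hfQ _ (Cfsg.Agent.Lib.H37PrCore.inv_mem hf.le haa hP' x hx))) k1 k2)
      show α (g (α' (α (f (α' x))))) = α (g (f (α' x)))
      rw [haa _ (hf.mem (Cfsg.Agent.Lib.H37PrCore.inv_mem hf.le haa hP' x hx))]⟩
    inv := fun P Q f g hf hQ hg hgf hK => ⟨hg.le, fun α α' Q' hα hα' haa hQ' => by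
      obtain ⟨P', hP'⟩ := (hα.restrict hf.le).exists_image
      have k := hK.2 α α' P' hα hα' haa hP'
      have himg : (fun x => α (f (α' x))) '' (P' : Set Ω) = (Q' : Set Ω) := by
        rw [← hQ', ← hQ, ← hP', Set.image_image, Set.image_image]
        exact Set.image_congr (fun x hx => by
          show α (f (α' (α x))) = α (f x)
          rw [haa x (hf.le hx)])
      refine hG.inv P' Q' _ _ (conjE h hα haa hf hP') himg (conjE h hα haa hg hQ')
        (fun x hx => ?_) k
      show α (g (α' (α (f (α' x))))) = x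
      have hx' := Cfsg.Agent.Lib.H37PrCore.inv_mem hf.le haa hP' x hx
      rw [haa _ (hf.mem hx'), hgf _ hx', rinv h hα haa x (leT h hα hf.le hP' hx)]⟩
    invar := fun P P₁ a a' f ha ha' hbb hP₁ hf hK =>
      ⟨(ha.restrict hf.le).image_le hP₁, fun α α' P₂ hα hα' haa hP₂ => by
        have hP₁T : P₁ ≤ T := (ha.restrict hf.le).image_le hP₁
        obtain ⟨P', hP'⟩ := (hα.restrict hf.le).exists_image
        have k := hK.2 α α' P' hα hα' haa hP'
        have hA := conjE h hα haa ha (imgT h hα)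
        have hA' := conjE h hα haa ha' (imgT h hα)
        have hα'T : ∀ x ∈ T, α' x ∈ T := fun x hx => h.memT hα' hx hx
        have hAA : ∀ x ∈ T, (fun x => α (a' (α' x))) ((fun x => α (a (α' x))) x) = x := by
          intro x hx
          show α (a' (α' (α (a (α' x))))) = x
          rw [haa _ (ha.mem (hα'T x hx)), hbb _ (hα'T x hx), rinv h hα haa x hx]
        have hAP : (fun x => α (a (α' x))) '' (P' : Set Ω) = (P₂ : Set Ω) := by
          rw [← hP₂, ← hP₁, ← hP', Set.image_image, Set.image_image]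
          exact Set.image_congr (fun x hx => by
            show α (a (α' (α x))) = α (a x)
            rw [haa x (hf.le hx)])
        refine hG.congr P₂ _ _ (fun x hx => ?_)
          (hG.invar P' P₂ _ _ _ hA hA' hAA hAP (conjE h hα haa hf hP') k)
        show α (a (α' (α (f (α' (α (a' (α' x)))))))) = α (a (f (a' (α' x))))
        have hx1 : α' x ∈ P₁ := Cfsg.Agent.Lib.H37PrCore.inv_mem hP₁T haa hP₂ x hx
        have hx2 : a' (α' x) ∈ P := Cfsg.Agent.Lib.H37PrCore.inv_mem hf.le hbb hP₁ _ hx1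
        rw [haa _ (hf.le hx2), haa _ (hf.mem hx2)]⟩
    gen := fun P f k hf hfP hk => ⟨hf.le, fun α α' P' hα hα' haa hP' => by
      have hF := conjE h hα haa hf hP'
      have hP'T : P' ≤ T := leT h hα hf.le hP'
      have hmem : ∀ x ∈ P', α (f (α' x)) ∈ P' := fun x hx =>
        IsMap.mem_image hP' (IsMap.mem_image hfP
          (Cfsg.Agent.Lib.H37PrCore.inv_mem hf.le haa hP' x hx))
      have himg : (fun x => α (f (α' x))) '' (P' : Set Ω) = (P' : Set Ω) :=
        Cfsg.Agent.Lib.Helper86Fusion2.image_eq_of_card_le hF hP'T hmem le_rfl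
      have hfn : ∀ n : ℕ, ∀ y ∈ P, f^[n] y ∈ P := by
        intro n
        induction n with
        | zero => intro y hy; exact hy
        | succ n ih =>
          intro y hy
          rw [Function.iterate_succ_apply']
          exact IsMap.mem_image hfP (ih y hy)
      have hiter : ∀ n : ℕ, ∀ x ∈ P', (fun x => α (f (α' x)))^[n] x = α (f^[n] (α' x)) := by
        intro n
        induction n with
        | zero =>
          intro x hx
          exact (rinv h hα haa x (hP'T hx)).symm
        | succ n ih =>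
          intro x hx
          rw [Function.iterate_succ_apply', ih x hx, Function.iterate_succ_apply']
          show α (f (α' (α (f^[n] (α' x))))) = _
          rw [haa _ (hf.le (hfn n _ (Cfsg.Agent.Lib.H37PrCore.inv_mem hf.le haa hP' x hx)))]
      refine hG.gen P' _ k hF himg (fun x hx => ?_)
      rw [hiter _ x hx, hk _ (Cfsg.Agent.Lib.H37PrCore.inv_mem hf.le haa hP' x hx),
        rinv h hα haa x (hP'T hx)]⟩ }

end Cfsg.Agent.Lib.H88YK2Good
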