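import Mathlib
import Cfsg.Agent.Lib.H88YDefs
import Cfsg.Agent.Lib.H37PrK0
import Cfsg.Agent.Lib.H12YCentAut
import Cfsg.Agent.Lib.H88YK2Good
import Cfsg.Agent.Lib.H88YK2Ext

set_option autoImplicit false

namespace Cfsg.Agent.Lib.H88YF0Inv

open Cfsg Cfsg.FusionSystem Cfsg.Agent.Lib.Helper87Fusion Cfsg.Agent.Lib.H88YDefs
  Cfsg.Agent.Lib.H37PrDefs

variable {Ω : Type*} [Group Ω] {S T : Subgroup Ω} {p : ℕ} {F : FusionSystem S}
  {E : FusionSystem T}

private theorem inv_mem' {P P' : Subgroup Ω} {a a' : Ω → Ω} (hP : P ≤ T)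
    (h : ∀ x ∈ T, a' (a x) = x)
    (hP' : a '' (P : Set Ω) = (P' : Set Ω)) : ∀ x ∈ P', a' x ∈ P := by
  intro x hx
  obtain ⟨y, hy, rfl⟩ := IsMap.exists_of_mem_image hP' hx
  rw [h y (hP hy)]
  exact hy

/-- PIECE F0Inv.  The subsystem `F₀` (generated by the `K0`-maps on `E`-centric subgroups) is
invariant under `Aut_F(T)`. -/
theorem f0_inv [Finite S] [Fact p.Prime] (h : Hyp p F E) {F₀ : FusionSystem T}
    (hsat : F₀.IsSaturated p)
    (hiff : ∀ P : Subgroup Ω, E.IsCentric P → ∀ f : Ω → Ω, IsMap F₀ P f ↔ IsMap E P f ∧ K0 E p P f)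
    (hcen : ∀ P : Subgroup Ω, F₀.IsCentric P → E.IsCentric P)
    (P P' : Subgroup Ω) (α α' f : Ω → Ω) (hα : IsMap F T α) (hα' : IsMap F T α')
    (hαα' : ∀ x ∈ T, α' (α x) = x) (hP' : α '' (P : Set Ω) = (P' : Set Ω)) (hf : IsMap F₀ P f) :
    IsMap F₀ P' (fun x => α (f (α' x))) := by
  haveI := h.finT
  have haT : ∀ {a : Ω → Ω}, IsMap F T a → a '' (T : Set Ω) = (T : Set Ω) :=
    fun ha => Helper87Split.image_of_stronglyClosed h.hT ha le_rfl
  have rinv : ∀ {a a' : Ω → Ω}, IsMap F T a → (∀ x ∈ T, a' (a x) = x) →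
      ∀ x ∈ T, a (a' x) = x := by
    intro a a' ha haa x hx
    obtain ⟨y, hy, rfl⟩ := IsMap.exists_of_mem_image (haT ha) hx
    rw [haa y hy]
  have hleT : ∀ {P P' : Subgroup Ω} {a : Ω → Ω}, P ≤ T → IsMap F T a →
      a '' (P : Set Ω) = (P' : Set Ω) → P' ≤ T := by
    intro P P' a hP ha hP' y hy
    obtain ⟨x, hx, rfl⟩ := IsMap.exists_of_mem_image hP' hy
    exact h.memT ha (hP hx) (hP hx)
  have key := Helper86Sub.alperin_induction h.hTp F₀ hsat
    (fun P f => P ≤ T ∧ ∀ (a a' : Ω → Ω) (P' : Subgroup Ω), IsMap F T a → IsMap F T a' →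
      (∀ x ∈ T, a' (a x) = x) → a '' (P : Set Ω) = (P' : Set Ω) →
      IsMap F₀ P' (fun x => a (f (a' x))))
    ?_ ?_ ?_ ?_ ?_ hf
  · exact key.2 α α' P' hα hα' hαα' hP'
  · -- congr
    intro P f g hfg h1
    exact ⟨h1.1, fun a a' P' ha ha' haa hP' =>
      (h1.2 a a' P' ha ha' haa hP').congr (fun x hx => by
        show a (f (a' x)) = a (g (a' x))
        rw [hfg _ (inv_mem' h1.1 haa hP' x hx)])⟩
  · -- conj
    intro P g hP hg
    refine ⟨hP, fun a a' P' ha ha' haa hP' => ?_⟩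
    have hP'T : P' ≤ T := hleT hP ha hP'
    refine (isMap_conj F₀ hP'T (h.memT ha hg hg)).congr (fun x hx => ?_)
    show a g * x * (a g)⁻¹ = a (g * a' x * g⁻¹)
    have hx' : a' x ∈ T := hP (inv_mem' hP haa hP' x hx)
    rw [ha.map_conj hg hx', rinv ha haa x (hP'T hx)]
  · -- comp
    intro P Q f g hf hg hfQ h1 h2
    refine ⟨hf.le, fun a a' P' ha ha' haa hP' => ?_⟩
    obtain ⟨Q', hQ'⟩ := (ha.restrict hg.le).exists_image
    have k1 := h1.2 a a' P' ha ha' haa hP'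
    have k2 := h2.2 a a' Q' ha ha' haa hQ'
    refine (k1.comp k2 (fun x hx => IsMap.mem_image hQ' (hfQ _ (inv_mem' hf.le haa hP' x hx)))).congr
      (fun x hx => ?_)
    show a (g (a' (a (f (a' x))))) = a (g (f (a' x)))
    rw [haa _ (hf.mem (inv_mem' hf.le haa hP' x hx))]
  · -- inv
    intro P Q f g hf hQ hg hgf h1
    refine ⟨hg.le, fun a a' Q' ha ha' haa hQ' => ?_⟩
    obtain ⟨P', hP'⟩ := (ha.restrict hf.le).exists_image
    have k := h1.2 a a' P' ha ha' haa hP'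
    have himg : (fun x => a (f (a' x))) '' (P' : Set Ω) = (Q' : Set Ω) := by
      rw [← hQ', ← hQ, ← hP', Set.image_image, Set.image_image]
      exact Set.image_congr (fun x hx => by
        show a (f (a' (a x))) = a (f x)
        rw [haa x (hf.le hx)])
    obtain ⟨k', hk', hk'k, -, -⟩ := k.inv himg
    refine hk'.congr (fun y hy => ?_)
    obtain ⟨x, hx, rfl⟩ := IsMap.exists_of_mem_image himg hy
    rw [hk'k x hx]
    show x = a (g (a' (a (f (a' x)))))
    have hx' := inv_mem' hf.le haa hP' x hx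
    rw [haa _ (hf.mem hx'), hgf _ hx', rinv ha haa x (hleT hf.le ha hP' hx)]
  · -- aut
    intro P f hP hf hfP
    have hPc : F₀.IsCentric P := by
      rcases hP with hPT | hP
      · rw [hPT]
        refine ⟨le_rfl, fun Q hQ => ?_⟩
        have hQS : Q ≤ T := isConj_le_right hQ
        have hcard : Nat.card Q = Nat.card T := isConj_card_eq hQ
        have : Q = T := Subgroup.eq_of_le_of_card_ge hQS hcard.ge
        rw [this]
        exact centralizerIn_le T T
      · exact hP.1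
    have hPE := hcen P hPc
    obtain ⟨hfE, hK0⟩ := (hiff P hPE f).1 hf
    have hK2 : K2 F E p P f :=
      H37PrK0.le (H88YK2Good.k2_good h) (H88YK2Ext.k2_ext h) hK0
    refine ⟨hPE.1, fun a a' P' ha ha' haa hP' => ?_⟩
    have hP'c : E.IsCentric P' := H12YCentAut.centric_aut h.hEi hPE ha hP'
    refine (hiff P' hP'c _).2 ⟨?_, hK2.2 a a' P' ha ha' haa hP'⟩
    exact Helper88Normal.conj_aut h.hEi hPE.1 hfE ha (haT ha) hP' (fun x hx => by
      show a (f (a' (a x))) = a (f x)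
      rw [haa x (hPE.1 hx)])

end Cfsg.Agent.Lib.H88YF0Inv
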