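import Mathlib
import Cfsg.Agent.Lib.H88YDefs
import Cfsg.Agent.Lib.H88YTc

set_option autoImplicit false

namespace Cfsg.Agent.Lib.H88YGen

open Cfsg Cfsg.FusionSystem Cfsg.Agent.Lib.Helper87Fusion Cfsg.Agent.Lib.H88YDefs
  Cfsg.Agent.Lib.H37PrDefs

variable {Ω : Type*} [Group Ω] {S T : Subgroup Ω} {p : ℕ} {F : FusionSystem S}
  {E : FusionSystem T}

/-- PIECE Gen.  `θ c_t θ⁻¹` is in `KK`. -/
theorem gen_of_dec [Finite S] [Fact p.Prime] (h : Hyp p F E) {P P' : Subgroup Ω} {θ θ' f : Ω → Ω}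
    {t : Ω} (hPc : E.IsCentric P) (hP' : F.IsFullyNormalized P') (hθ' : IsMap F P θ')
    (hθ'P : θ' '' (P : Set Ω) = (P' : Set Ω)) (hθ : IsMap F P' θ) (hθθ' : ∀ x ∈ P, θ (θ' x) = x)
    (ht : t ∈ T) (htP : ∀ y ∈ P', t * y * t⁻¹ ∈ P') (hf : ∀ x ∈ P, f x = θ (t * θ' x * t⁻¹)) :
    KK F T P f := by
  have hPT : P ≤ T := hPc.1
  have hPS : P ≤ S := hPT.trans h.hTS
  have hconj : F.IsConj P P' := isConj_iff.2 ⟨θ', hθ', hθ'P⟩
  have hP'ex : ∀ y ∈ P', ∃ x ∈ P, θ' x = y := fun y hy => IsMap.exists_of_mem_image hθ'P hy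
  have hP'T : P' ≤ T := by
    intro y hy
    obtain ⟨x, hx, rfl⟩ := hP'ex y hy
    exact h.memT hθ' hx (hPT hx)
  have hcen : centralizerIn T P' ≤ P' := H88YTc.tc h hPc hconj
  have hrec : F.IsReceptive P' :=
    (Cfsg.Agent.Lib.Helper86Fusion2.saturated_fullyNormalized h.hS h.hF hP').2.2
  have hCcomm : ∀ c ∈ centralizerIn S T, ∀ x ∈ T, x * c = c * x :=
    fun c hc => (mem_centralizerIn.1 hc).2
  have hCS : ∀ c ∈ centralizerIn S T, c ∈ S := fun c hc => (mem_centralizerIn.1 hc).1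
  -- (1) the extension
  have hN : ∀ g ∈ P ⊔ centralizerIn S T, g ∈ S ∧ g ∈ Subgroup.normalizer (P : Set Ω) ∧
      ∃ k ∈ S, ∀ x ∈ P, θ' (g * x * g⁻¹) = k * θ' x * k⁻¹ := by
    obtain ⟨φ, hφ, hφf⟩ := id hθ'
    have hle : P ⊔ centralizerIn S T ≤ extender S P φ := by
      refine sup_le (fun g hg => ?_) (fun g hg => ?_)
      · refine (mem_extender_iff' φ hφf g).2 ⟨hPS hg, Subgroup.le_normalizer hg, θ' g,
          hθ'.mem hg, fun x hx => hθ'.map_conj hg hx⟩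
      · have hgx : ∀ x ∈ P, g * x * g⁻¹ = x := by
          intro x hx
          rw [← hCcomm g hg x (hPT hx), mul_inv_cancel_right]
        refine (mem_extender_iff' φ hφf g).2 ⟨hCS g hg, ?_, 1, S.one_mem, fun x hx => ?_⟩
        · rw [Subgroup.mem_normalizer_iff]
          intro x
          constructor
          · intro hx
            rw [hgx x hx]; exact hx
          · intro hx
            have h1 := hgx _ hx
            have h2 : g * x * g⁻¹ = x := by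
              have h3 : g * (g * x * g⁻¹) * g⁻¹ = g * x * g⁻¹ := h1
              have h4 : g⁻¹ * (g * (g * x * g⁻¹) * g⁻¹) * g = g⁻¹ * (g * x * g⁻¹) * g := by rw [h3]
              simpa [mul_assoc] using h4
            rw [← h2]; exact hx
        · rw [hgx x hx]; simp
    exact fun g hg => (mem_extender_iff' φ hφf g).1 (hle hg)
  obtain ⟨η', hη', hη'P⟩ := isReceptive_extend hrec hθ' hθ'P hN
  obtain ⟨Z, hZ⟩ := hη'.exists_image
  obtain ⟨η, hη, hηη', hη'η, hηZ⟩ := hη'.inv hZ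
  have hZS : Z ≤ S := hη'.image_le hZ
  have hPle : P ≤ P ⊔ centralizerIn S T := le_sup_left
  have hCle : centralizerIn S T ≤ P ⊔ centralizerIn S T := le_sup_right
  have hP'Z : P' ≤ Z := by
    intro y hy
    obtain ⟨x, hx, rfl⟩ := hP'ex y hy
    rw [← hη'P x hx]
    exact IsMap.mem_image hZ (hPle hx)
  have hηθ : ∀ y ∈ P', η y = θ y := by
    intro y hy
    obtain ⟨x, hx, rfl⟩ := hP'ex y hy
    rw [hθθ' x hx, ← hη'P x hx, hηη' x (hPle hx)]
  -- `t⁻¹` normalizes `P'`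
  have hfinP' : Finite P' := Cfsg.Agent.Lib.Helper86Fusion.finite_of_le hP'.1
  have htP' : ∀ y ∈ P', ∃ y' ∈ P', t * y' * t⁻¹ = y := by
    let c : P' → P' := fun y => ⟨t * y * t⁻¹, htP y y.2⟩
    have hinj : Function.Injective c := by
      intro a b hab
      have h1 : t * (a : Ω) * t⁻¹ = t * (b : Ω) * t⁻¹ := congrArg Subtype.val hab
      apply Subtype.ext
      simpa using h1
    have hsurj := Finite.surjective_of_injective hinj
    intro y hy
    obtain ⟨y', hy'⟩ := hsurj ⟨y, hy⟩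
    exact ⟨y', y'.2, congrArg Subtype.val hy'⟩
  -- (2)
  have key : ∀ c ∈ centralizerIn S T, t * η' c * t⁻¹ * (η' c)⁻¹ ∈ P' := by
    intro c hc
    have hwS : η' c ∈ S := hη'.mem (hCle hc)
    have hw : ∀ y ∈ P', Commute (η' c) y := by
      intro y hy
      obtain ⟨x, hx, rfl⟩ := hP'ex y hy
      show η' c * θ' x = θ' x * η' c
      rw [← hη'P x hx, ← hη'.map_mul (hCle hc) (hPle hx), ← hη'.map_mul (hPle hx) (hCle hc),
        hCcomm c hc x (hPT hx)]
    apply hcen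
    rw [mem_centralizerIn]
    constructor
    · have h1 : η' c * t⁻¹ * (η' c)⁻¹ ∈ T :=
        h.memT (isMap_conj F h.hTS hwS) (T.inv_mem ht) (T.inv_mem ht)
      have h2 : t * η' c * t⁻¹ * (η' c)⁻¹ = t * (η' c * t⁻¹ * (η' c)⁻¹) := by group
      rw [h2]
      exact T.mul_mem ht h1
    · intro y hy
      obtain ⟨y', hy', rfl⟩ := htP' y hy
      have h1 : Commute (t * η' c * t⁻¹) (t * y' * t⁻¹) := (Commute.conj_iff t).2 (hw y' hy')
      have h2 : Commute (η' c)⁻¹ (t * y' * t⁻¹) := (hw _ (htP y' hy')).inv_left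
      exact ((h1.mul_left h2).eq).symm
  have hmap1 : IsMap F (P ⊔ centralizerIn S T) (fun x => t * η' x * t⁻¹) :=
    hη'.comp (isMap_conj F hZS (h.hTS ht)) (fun x hx => IsMap.mem_image hZ hx)
  have hmem : ∀ x ∈ P ⊔ centralizerIn S T, t * η' x * t⁻¹ ∈ Z := by
    refine Cfsg.Agent.Lib.Helper87Mk.IsMap_sup_mem hmap1 (fun x hx => ?_) (fun c hc => ?_)
    · rw [hη'P x hx]
      exact hP'Z (htP _ (IsMap.mem_image hθ'P hx))
    · have h1 : t * η' c * t⁻¹ = (t * η' c * t⁻¹ * (η' c)⁻¹) * η' c := by group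
      rw [h1]
      exact Z.mul_mem (hP'Z (key c hc)) (IsMap.mem_image hZ (hCle hc))
  refine ⟨fun x => η (t * η' x * t⁻¹), hmap1.comp hη hmem, fun x hx => ?_, fun c hc => ?_⟩
  · show η (t * η' x * t⁻¹) = f x
    rw [hf x hx, hη'P x hx]
    exact hηθ _ (htP _ (IsMap.mem_image hθ'P hx))
  · show c⁻¹ * η (t * η' c * t⁻¹) ∈ T
    have h1 : t * η' c * t⁻¹ = (t * η' c * t⁻¹ * (η' c)⁻¹) * η' c := by group
    have hq := key c hc
    rw [h1, hη.map_mul (hP'Z hq) (IsMap.mem_image hZ (hCle hc)), hηη' c (hCle hc), hηθ _ hq]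
    obtain ⟨x₀, hx₀, hx₀q⟩ := hP'ex _ hq
    rw [← hx₀q, hθθ' x₀ hx₀, hCcomm c hc x₀ (hPT hx₀), inv_mul_cancel_left]
    exact hPT hx₀

end Cfsg.Agent.Lib.H88YGen
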