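import Mathlib
import Cfsg.Agent.Lib.H88YDefs
import Cfsg.Agent.Lib.H88YVal

set_option autoImplicit false

namespace Cfsg.Agent.Lib.H88YInv

open Cfsg Cfsg.FusionSystem Cfsg.Agent.Lib.Helper87Fusion Cfsg.Agent.Lib.H88YDefs
  Cfsg.Agent.Lib.H37PrDefs

variable {Ω : Type*} [Group Ω] {S T : Subgroup Ω} {p : ℕ} {F : FusionSystem S}
  {E : FusionSystem T}

/-- PIECE Inv.  `K1` is closed under inverses. -/
theorem inv [Finite S] (h : Hyp p F E) (P Q : Subgroup Ω) (f g : Ω → Ω) (hf : IsMap E P f)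
    (hQ : f '' (P : Set Ω) = (Q : Set Ω)) (hg : IsMap E Q g) (hgf : ∀ x ∈ P, g (f x) = x)
    (h1 : K1 F E P f) : K1 F E Q g := by
  intro hQc
  have hconj : E.IsConj P Q := isConj_iff.2 ⟨f, hf, hQ⟩
  have hPc : E.IsCentric P := Cfsg.Agent.Lib.Helper87Fusion2.isCentric_of_isConj hQc (isConj_symm hconj)
  obtain ⟨f', hf', hf'P, hf'c⟩ := h1 hPc
  have himg : f' '' (P : Set Ω) = (Q : Set Ω) := by
    rw [← hQ]; exact Set.image_congr hf'P
  obtain ⟨hv1, hv2⟩ := Cfsg.Agent.Lib.H88YVal.val h hPc hf' himg hf'c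
  obtain ⟨g', hg', k1, k2, k3⟩ := hf'.inv hv2
  have hgQ : ∀ y ∈ Q, g' y = g y := by
    intro y hy
    have hy' : y ∈ f '' (P : Set Ω) := by rw [hQ]; exact hy
    obtain ⟨x, hx, rfl⟩ := hy'
    rw [hgf x hx, ← hf'P x hx, k1 x (Subgroup.mem_sup_left hx)]
  refine ⟨g', hg', hgQ, ?_⟩
  intro c hc
  have htQ : c⁻¹ * f' c ∈ Q := hv1 c hc
  have hfc : f' c = c * (c⁻¹ * f' c) := by group
  have h3 : g' (f' c) = c := k1 c (Subgroup.mem_sup_right hc)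
  rw [hfc, hg'.map_mul (Subgroup.mem_sup_right hc) (Subgroup.mem_sup_left htQ), hgQ _ htQ] at h3
  have h4 : g' c = c * (g (c⁻¹ * f' c))⁻¹ := eq_mul_inv_of_mul_eq h3
  rw [h4, ← mul_assoc, inv_mul_cancel, one_mul]
  exact T.inv_mem (hg.mem htQ)

end Cfsg.Agent.Lib.H88YInv
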