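import Mathlib
import Cfsg.Agent.Lib.H88YDefs
import Cfsg.Agent.Lib.H88YExtQ

set_option autoImplicit false

namespace Cfsg.Agent.Lib.H88YInvar

open Cfsg Cfsg.FusionSystem Cfsg.Agent.Lib.Helper87Fusion Cfsg.Agent.Lib.H88YDefs
  Cfsg.Agent.Lib.H37PrDefs

variable {Ω : Type*} [Group Ω] {S T : Subgroup Ω} {p : ℕ} {F : FusionSystem S}
  {E : FusionSystem T}

/-- PIECE Invar.  `K1` is invariant under conjugation by `Aut_E(T)`. -/
theorem invar [Finite S] [Fact p.Prime] (h : Hyp p F E) (P P' : Subgroup Ω) (a a' f : Ω → Ω)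
    (ha : IsMap E T a) (ha' : IsMap E T a') (haa : ∀ x ∈ T, a' (a x) = x)
    (hP' : a '' (P : Set Ω) = (P' : Set Ω)) (hf : IsMap E P f) (hK : K1 F E P f) :
    K1 F E P' (fun x => a (f (a' x))) := by
  intro hP'c
  haveI := h.finT
  have hPT : P ≤ T := hf.le
  have hP'T : P' ≤ T := hP'c.1
  have haT : a '' (T : Set Ω) = (T : Set Ω) := image_S ha
  have haa' : ∀ y ∈ T, a (a' y) = y := right_inv_S ha haa
  have hconj : E.IsConj P P' := isConj_iff.2 ⟨a, ha.restrict hPT, hP'⟩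
  have hPc : E.IsCentric P :=
    Cfsg.Agent.Lib.Helper87Fusion2.isCentric_of_isConj hP'c (isConj_symm hconj)
  obtain ⟨g, hg, hgP, hgc⟩ := hK hPc
  obtain ⟨b, b', hb, hb', hbT, h1, h2, hbQ, hb'Q, hbC, hb'C⟩ :=
    Cfsg.Agent.Lib.H88YExtQ.extQ h (h.subE ha)
  have hTQ : T ≤ T ⊔ centralizerIn S T := le_sup_left
  have hCQ : centralizerIn S T ≤ T ⊔ centralizerIn S T := le_sup_right
  have hb'T : ∀ y ∈ T, b' y = a' y := by
    intro y hy
    have hy' : a' y ∈ T := ha'.mem hy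
    have e : y = b (a' y) := by rw [hbT _ hy', haa' y hy]
    conv_lhs => rw [e]
    exact h1 _ (hTQ hy')
  have ha'P : ∀ y ∈ P', a' y ∈ P := by
    intro y hy
    obtain ⟨x, hx, rfl⟩ := IsMap.exists_of_mem_image hP' hy
    rw [haa x (hPT hx)]
    exact hx
  have hb'r : IsMap F (P' ⊔ centralizerIn S T) b' := hb'.restrict (sup_le_sup_right hP'T _)
  have hb'm : ∀ x ∈ P' ⊔ centralizerIn S T, b' x ∈ P ⊔ centralizerIn S T := by
    refine Cfsg.Agent.Lib.Helper87Mk.IsMap_sup_mem hb'r ?_ ?_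
    · intro x hx
      rw [hb'T x (hP'T hx)]
      exact (le_sup_left : P ≤ _) (ha'P x hx)
    · intro c hc
      exact (le_sup_right : _ ≤ P ⊔ centralizerIn S T) (hb'C c hc)
  have hgm : ∀ x ∈ P ⊔ centralizerIn S T, g x ∈ T ⊔ centralizerIn S T := by
    refine Cfsg.Agent.Lib.Helper87Mk.IsMap_sup_mem hg ?_ ?_
    · intro x hx
      rw [hgP x hx]
      exact hTQ (hf.mem hx)
    · intro c hc
      have e : g c = c * (c⁻¹ * g c) := by group
      rw [e]
      exact Subgroup.mul_mem _ (hCQ hc) (hTQ (hgc c hc))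
  have hm1 : IsMap F (P' ⊔ centralizerIn S T) (fun x => g (b' x)) := hb'r.comp hg hb'm
  have hm2 : IsMap F (P' ⊔ centralizerIn S T) (fun x => b (g (b' x))) :=
    hm1.comp hb (fun x hx => hgm _ (hb'm x hx))
  refine ⟨_, hm2, ?_, ?_⟩
  · intro x hx
    show b (g (b' x)) = a (f (a' x))
    rw [hb'T x (hP'T hx), hgP _ (ha'P x hx), hbT _ (hf.mem (ha'P x hx))]
  · intro c hc
    show c⁻¹ * b (g (b' c)) ∈ T
    have hc' := hb'C c hc
    have ht := hgc _ hc'
    have e : g (b' c) = b' c * ((b' c)⁻¹ * g (b' c)) := by group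
    rw [e, hb.map_mul (hCQ hc') (hTQ ht), h2 c (hCQ hc), inv_mul_cancel_left, hbT _ ht]
    exact ha.mem ht

end Cfsg.Agent.Lib.H88YInvar
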