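import Mathlib
import Cfsg.Agent.Lib.H88YDefs

set_option autoImplicit false

namespace Cfsg.Agent.Lib.H88YModT

open Cfsg Cfsg.FusionSystem Cfsg.Agent.Lib.Helper87Fusion Cfsg.Agent.Lib.H88YDefs
  Cfsg.Agent.Lib.H37PrDefs

variable {Ω : Type*} [Group Ω] {S T : Subgroup Ω} {p : ℕ} {F : FusionSystem S}
  {E : FusionSystem T}

/-- PIECE ModT (35 min).  If `σ ≡ b'` modulo `T` on `U = R C_S(T)` then the iterates are congruent modulo `T`.
SKETCH: induction on `k` (`Function.iterate_succ_apply'`).  `v := σ^[k] u ∈ U` (σ maps `U` to `U`: `hσ.2.1`), `w := b'^[k] u ∈ Q := T ⊔ C` (`b'` maps `Q` to `Q`; `U ≤ Q` by `sup_le_sup_right hR`), `t := w⁻¹ v ∈ T`.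
`(b' w)⁻¹ * σ v = ((b' w)⁻¹ * b' v) * ((b' v)⁻¹ * σ v) = b' t * (…)`, `b' t ∈ T` (`h.memT hb'`), second factor in `T` by `hrel`. -/
theorem modT (h : Hyp p F E) {R : Subgroup Ω} (hR : R ≤ T) {σ b' : Ω → Ω} (hσ : Sg F T R σ)
    (hb' : IsMap F (T ⊔ centralizerIn S T) b')
    (hb'Q : b' '' ((T ⊔ centralizerIn S T : Subgroup Ω) : Set Ω) = ((T ⊔ centralizerIn S T : Subgroup Ω) : Set Ω))
    (hrel : ∀ u ∈ R ⊔ centralizerIn S T, (b' u)⁻¹ * σ u ∈ T) (k : ℕ) :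
    ∀ u ∈ R ⊔ centralizerIn S T, (b'^[k] u)⁻¹ * σ^[k] u ∈ T := by
  have hUQ : R ⊔ centralizerIn S T ≤ T ⊔ centralizerIn S T := sup_le_sup_right hR _
  have hTQ : T ≤ T ⊔ centralizerIn S T := le_sup_left
  have hσU : ∀ v ∈ R ⊔ centralizerIn S T, σ v ∈ R ⊔ centralizerIn S T := by
    intro v hv
    have : σ v ∈ σ '' ((R ⊔ centralizerIn S T : Subgroup Ω) : Set Ω) := ⟨v, hv, rfl⟩
    rw [hσ.2.1] at this
    exact this
  have hbQ : ∀ w ∈ T ⊔ centralizerIn S T, b' w ∈ T ⊔ centralizerIn S T := by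
    intro w hw
    have : b' w ∈ b' '' ((T ⊔ centralizerIn S T : Subgroup Ω) : Set Ω) := ⟨w, hw, rfl⟩
    rw [hb'Q] at this
    exact this
  have key : ∀ k : ℕ, ∀ u ∈ R ⊔ centralizerIn S T,
      σ^[k] u ∈ R ⊔ centralizerIn S T ∧ b'^[k] u ∈ T ⊔ centralizerIn S T ∧
        (b'^[k] u)⁻¹ * σ^[k] u ∈ T := by
    intro k
    induction k with
    | zero =>
      intro u hu
      refine ⟨hu, hUQ hu, ?_⟩
      simp
    | succ k ih =>
      intro u hu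
      obtain ⟨hv, hw, ht⟩ := ih u hu
      rw [Function.iterate_succ_apply', Function.iterate_succ_apply']
      set v := σ^[k] u with hvdef
      set w := b'^[k] u with hwdef
      refine ⟨hσU v hv, hbQ w hw, ?_⟩
      have hvQ : v ∈ T ⊔ centralizerIn S T := hUQ hv
      have h1 : b' (w⁻¹ * v) = (b' w)⁻¹ * b' v := by
        rw [hb'.map_mul (Subgroup.inv_mem _ hw) hvQ, hb'.map_inv hw]
      have h2 : b' (w⁻¹ * v) ∈ T := h.memT hb' (hTQ ht) ht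
      have h3 : (b' w)⁻¹ * σ v = ((b' w)⁻¹ * b' v) * ((b' v)⁻¹ * σ v) := by group
      rw [h3, ← h1]
      exact T.mul_mem h2 (hrel v hv)
  intro u hu
  exact (key k u hu).2.2

end Cfsg.Agent.Lib.H88YModT
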