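import Mathlib
import Cfsg.Agent.Lib.H88YDefs
import Cfsg.Agent.Lib.H88YIter

set_option autoImplicit false

namespace Cfsg.Agent.Lib.H88YPer

open Cfsg Cfsg.FusionSystem Cfsg.Agent.Lib.Helper87Fusion Cfsg.Agent.Lib.H88YDefs
  Cfsg.Agent.Lib.H37PrDefs

variable {Ω : Type*} [Group Ω] {S T : Subgroup Ω} {p : ℕ} {F : FusionSystem S}
  {E : FusionSystem T}

open Nat in
theorem period {Ω : Type*} (W : Set Ω) [Finite W] (f : Ω → Ω) (hW : f '' W = W) (N : ℕ)
    (hN : (Nat.card W)! ∣ N) : ∀ x ∈ W, f^[N] x = x := by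
  classical
  have hmaps : ∀ x ∈ W, f x ∈ W := by
    intro x hx
    rw [← hW]; exact ⟨x, hx, rfl⟩
  let g : W → W := fun x => ⟨f x.1, hmaps x.1 x.2⟩
  have hsurj : Function.Surjective g := by
    rintro ⟨y, hy⟩
    rw [← hW] at hy
    obtain ⟨x, hx, rfl⟩ := hy
    exact ⟨⟨x, hx⟩, rfl⟩
  have hbij : Function.Bijective g := Finite.surjective_iff_bijective.mp hsurj
  let σ : Equiv.Perm W := Equiv.ofBijective g hbij
  have hσ : ∀ (n : ℕ) (x : W), (((σ ^ n) x : W) : Ω) = f^[n] x.1 := by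
    intro n
    induction n with
    | zero => intro x; rfl
    | succ n ih =>
      intro x
      rw [pow_succ, Equiv.Perm.mul_apply, ih, Function.iterate_succ_apply]
      rfl
  have hcard : Nat.card (Equiv.Perm W) = (Nat.card W)! := by
    have := Fintype.ofFinite W
    rw [Nat.card_eq_fintype_card, Fintype.card_perm, Nat.card_eq_fintype_card]
  have hpow : σ ^ N = 1 := by
    obtain ⟨q, rfl⟩ := hN
    rw [pow_mul, ← hcard, pow_card_eq_one', one_pow]
  intro x hx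
  have := hσ N ⟨x, hx⟩
  rw [hpow] at this
  exact this.symm

theorem per_dvd {Ω : Type*} (W : Set Ω) (f : Ω → Ω) {N M : ℕ} (hr : ∀ x ∈ W, f^[N] x = x)
    (hm : N ∣ M) : ∀ x ∈ W, f^[M] x = x := by
  obtain ⟨q, rfl⟩ := hm
  intro x hx
  rw [Function.iterate_mul]
  exact Function.iterate_fixed (hr x hx) q

theorem per_modEq {Ω : Type*} (W : Set Ω) (f : Ω → Ω) (hmaps : ∀ x ∈ W, f x ∈ W) {N M : ℕ}
    (hr : ∀ x ∈ W, f^[N] x = x) (hm : M ≡ 1 [MOD N]) : ∀ x ∈ W, f^[M] x = f x := by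
  intro x hx
  rcases Nat.eq_zero_or_pos M with h0 | hpos
  · subst h0
    have h1 : N ∣ 1 := (Nat.modEq_zero_iff_dvd.mp hm.symm)
    have h2 : N = 1 := Nat.dvd_one.mp h1
    subst h2
    exact (hr x hx).symm
  · have h1 : N ∣ M - 1 := (Nat.modEq_iff_dvd' hpos).mp hm.symm
    have h2 : M = (M - 1) + 1 := by omega
    rw [h2, Function.iterate_succ_apply]
    exact per_dvd W f hr h1 (f x) (hmaps x hx)

theorem arith (p N : ℕ) (hp : p.Prime) (hN : N ≠ 0) :
    ∃ m m₂ r e : ℕ, r.Coprime p ∧ N ∣ m * r ∧ N ∣ m₂ * p ^ e ∧ m + m₂ ≡ 1 [MOD N] := by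
  obtain ⟨e, r, hr, hNe⟩ := Nat.exists_eq_pow_mul_and_not_dvd hN p hp.ne_one
  have hcop : r.Coprime p := ((Nat.Prime.coprime_iff_not_dvd hp).mpr hr).symm
  have hcop2 : (p ^ e).Coprime r := (hcop.symm).pow_left e
  obtain ⟨m, hm1, hm2⟩ := Nat.chineseRemainder hcop2 0 1
  obtain ⟨m₂, hn1, hn2⟩ := Nat.chineseRemainder hcop2 1 0
  refine ⟨m, m₂, r, e, hcop, ?_, ?_, ?_⟩
  · rw [hNe]
    exact Nat.mul_dvd_mul_right (Nat.modEq_zero_iff_dvd.mp hm1) r
  · rw [hNe, mul_comm m₂]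
    exact Nat.mul_dvd_mul_left _ (Nat.modEq_zero_iff_dvd.mp hn2)
  · rw [hNe, ← Nat.modEq_and_modEq_iff_modEq_mul hcop2]
    constructor
    · simpa using hm1.add hn1
    · simpa using hm2.add hn2

theorem split [Finite S] (p : ℕ) [Fact p.Prime] :
    ∃ m m₂ r e : ℕ, r.Coprime p ∧ ∀ (F : FusionSystem S) (W : Subgroup Ω) (f : Ω → Ω), IsMap F W f →
      f '' (W : Set Ω) = (W : Set Ω) →
      (∀ x ∈ W, (f^[m])^[r] x = x) ∧ (∀ x ∈ W, (f^[m₂])^[p ^ e] x = x) ∧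
      (∀ x ∈ W, f^[m] (f^[m₂] x) = f x) := by
  obtain ⟨m, m₂, r, e, hcop, h1, h2, h3⟩ :=
    arith p (Nat.card S).factorial Fact.out (Nat.factorial_ne_zero _)
  refine ⟨m, m₂, r, e, hcop, ?_⟩
  intro F W f hf hW
  have hle : W ≤ S := hf.le
  have hfin : Finite (W : Set Ω) := Finite.of_injective (Subgroup.inclusion hle)
    (Subgroup.inclusion_injective hle)
  have hcard : Nat.card (W : Set Ω) ≤ Nat.card S := Subgroup.card_le_of_le hle
  have hper := period (W : Set Ω) f hW (Nat.card S).factorial (Nat.factorial_dvd_factorial hcard)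
  have hmaps : ∀ x ∈ (W : Set Ω), f x ∈ (W : Set Ω) := by
    intro x hx
    rw [← hW]; exact ⟨x, hx, rfl⟩
  refine ⟨?_, ?_, ?_⟩
  · intro x hx
    rw [← Function.iterate_mul]
    exact per_dvd _ f hper h1 x hx
  · intro x hx
    rw [← Function.iterate_mul]
    exact per_dvd _ f hper h2 x hx
  · intro x hx
    rw [← Function.iterate_add_apply]
    exact per_modEq _ f hmaps hper h3 x hx

end Cfsg.Agent.Lib.H88YPer
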