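import Mathlib
import Cfsg.Agent.Lib.H88YDefs
import Cfsg.Agent.Lib.H88YVal
import Cfsg.Agent.Lib.H88YExtQ

set_option autoImplicit false

namespace Cfsg.Agent.Lib.H88YSig

open Cfsg Cfsg.FusionSystem Cfsg.Agent.Lib.Helper87Fusion Cfsg.Agent.Lib.H88YDefs
  Cfsg.Agent.Lib.H37PrDefs

variable {Ω : Type*} [Group Ω] {S T : Subgroup Ω} {p : ℕ} {F : FusionSystem S}
  {E : FusionSystem T}

/-- PIECE Sig.  From an extension `g` of `a|R` (identity mod `T` on `C`) and an extension `b` of `a` to `Q = T C`, the automorphism `σ := b' ∘ g` of `R C`. -/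
theorem sig [Finite S] (h : Hyp p F E) {R : Subgroup Ω} (hR : E.IsCentric R) {a g b b' : Ω → Ω}
    (ha : IsMap F T a) (hg : IsMap F (R ⊔ centralizerIn S T) g) (hgR : ∀ x ∈ R, g x = a x)
    (hgc : ∀ c ∈ centralizerIn S T, c⁻¹ * g c ∈ T)
    (hb : IsMap F (T ⊔ centralizerIn S T) b) (hb' : IsMap F (T ⊔ centralizerIn S T) b')
    (hbT : ∀ x ∈ T, b x = a x) (h1 : ∀ x ∈ T ⊔ centralizerIn S T, b' (b x) = x)
    (hb'C : ∀ c ∈ centralizerIn S T, b' c ∈ centralizerIn S T) :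
    Sg F T R (fun x => b' (g x)) ∧
      ∀ u ∈ R ⊔ centralizerIn S T, (b' u)⁻¹ * b' (g u) ∈ T := by
  have hRT : R ≤ T := hR.1
  have hgRm : IsMap F R g := hg.restrict le_sup_left
  obtain ⟨R₁, hR₁⟩ := hgRm.exists_image
  obtain ⟨hv1, hv2⟩ := Cfsg.Agent.Lib.H88YVal.val h hR hg hR₁ hgc
  have hR₁T : R₁ ≤ T := by
    intro y hy
    obtain ⟨x, hx, rfl⟩ := IsMap.exists_of_mem_image hR₁ hy
    exact h.memT hgRm hx (hRT hx)
  have hTQ : T ≤ T ⊔ centralizerIn S T := le_sup_left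
  have hCQ : centralizerIn S T ≤ T ⊔ centralizerIn S T := le_sup_right
  have hRM : R ≤ R ⊔ centralizerIn S T := le_sup_left
  have hCM : centralizerIn S T ≤ R ⊔ centralizerIn S T := le_sup_right
  have hMQ : R ⊔ centralizerIn S T ≤ T ⊔ centralizerIn S T := sup_le_sup_right hRT _
  have hgQ : ∀ x ∈ R ⊔ centralizerIn S T, g x ∈ T ⊔ centralizerIn S T := by
    intro x hx
    have : g x ∈ R₁ ⊔ centralizerIn S T := IsMap.mem_image hv2 hx
    exact (sup_le_sup_right hR₁T _) this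
  have hσ : IsMap F (R ⊔ centralizerIn S T) (fun x => b' (g x)) := hg.comp hb' hgQ
  have hσR : ∀ x ∈ R, b' (g x) = x := by
    intro x hx
    rw [hgR x hx, ← hbT x (hRT hx), h1 x (hTQ (hRT hx))]
  have hσmem : ∀ x ∈ R ⊔ centralizerIn S T, b' (g x) ∈ R ⊔ centralizerIn S T := by
    refine Cfsg.Agent.Lib.Helper87Mk.IsMap_sup_mem hσ ?_ ?_
    · intro x hx
      show b' (g x) ∈ _
      rw [hσR x hx]
      exact hRM hx
    · intro c hc
      show b' (g c) ∈ _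
      obtain ⟨y, hy, hyt⟩ := IsMap.exists_of_mem_image hR₁ (hv1 c hc)
      have e : g c = c * g y := by rw [hyt]; group
      rw [e, hb'.map_mul (hCQ hc) (hgQ y (hRM hy)), hσR y hy]
      exact Subgroup.mul_mem _ (hCM (hb'C c hc)) (hRM hy)
  -- u⁻¹ g u ∈ T
  have hTn : ∀ s ∈ S, ∀ t ∈ T, s * t * s⁻¹ ∈ T := by
    intro s hs t ht
    exact h.memT (isMap_conj F h.hTS hs) ht ht
  have hmod : ∀ u ∈ R ⊔ centralizerIn S T, u⁻¹ * g u ∈ T := by
    have hMS : R ⊔ centralizerIn S T ≤ S := hg.le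
    let K : Subgroup Ω :=
      { carrier := {u | u ∈ R ⊔ centralizerIn S T ∧ u⁻¹ * g u ∈ T}
        one_mem' := by
          refine ⟨Subgroup.one_mem _, ?_⟩
          rw [hg.map_one]
          simp
        mul_mem' := by
          rintro u v ⟨hu, hu'⟩ ⟨hv, hv'⟩
          refine ⟨Subgroup.mul_mem _ hu hv, ?_⟩
          rw [hg.map_mul hu hv]
          have e : (u * v)⁻¹ * (g u * g v) = (v⁻¹ * (u⁻¹ * g u) * v⁻¹⁻¹) * (v⁻¹ * g v) := by group
          rw [e]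
          exact T.mul_mem (hTn _ (S.inv_mem (hMS hv)) _ hu') hv'
        inv_mem' := by
          rintro u ⟨hu, hu'⟩
          refine ⟨Subgroup.inv_mem _ hu, ?_⟩
          rw [hg.map_inv hu]
          have e : u⁻¹⁻¹ * (g u)⁻¹ = u * (u⁻¹ * g u)⁻¹ * u⁻¹ := by group
          rw [e]
          exact hTn _ (hMS hu) _ (T.inv_mem hu') }
    have hK : R ⊔ centralizerIn S T ≤ K := by
      refine sup_le ?_ ?_
      · intro x hx
        refine ⟨hRM hx, ?_⟩
        exact T.mul_mem (T.inv_mem (hRT hx)) (h.memT hgRm hx (hRT hx))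
      · intro c hc
        exact ⟨hCM hc, hgc c hc⟩
    intro u hu
    exact (hK hu).2
  refine ⟨⟨hσ, Cfsg.Agent.Lib.Helper88Normal.image_eq_of_maps_to hσ hσmem, hσR⟩, ?_⟩
  intro u hu
  have e : (b' u)⁻¹ * b' (g u) = b' (u⁻¹ * g u) := by
    rw [hb'.map_mul (Subgroup.inv_mem _ (hMQ hu)) (hgQ u hu), hb'.map_inv (hMQ hu)]
  rw [e]
  exact h.memT hb' (hTQ (hmod u hu)) (hmod u hu)

end Cfsg.Agent.Lib.H88YSig
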