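import Mathlib
import Cfsg.Agent.Lib.H88ZVoc
import Cfsg.Agent.Lib.H12YCentAut
import Cfsg.Agent.Lib.Helper87Fusion2

set_option autoImplicit false

namespace Cfsg.Agent.Lib.H88ZCen

open Cfsg Cfsg.FusionSystem Cfsg.Agent.Lib.Helper87Fusion Cfsg.Agent.Lib.H88ZVoc
  Cfsg.Agent.Lib.H88ZDefs Cfsg.Agent.Lib.H37PrDefs

universe u

variable {Ω : Type u} [Group Ω] {S T : Subgroup Ω} {p : ℕ} {F : FusionSystem S}
  {E D₂ : FusionSystem T}

/-- PIECE Cen (25 min).  `E`-centric subgroups are `D₂`-centric.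
SKETCH: `refine ⟨hR.1, fun R₁ hR₁ => ?_⟩`; `isConj_iff.1 hR₁` gives a `D₂`-map `φ` on `R` with `φ '' R = R₁`; it is an `F`-map (`h.subD`).
`Helper88Normal.frattini h.hEi hR.1 _` : `φ = a ∘ c` on `R`, `a` an `F`-map on `T`, `c` an `E`-map on `R`.  `R₂ := c '' R` (`exists_image`) is `E`-conjugate to `R`, so `E`-centric
(`Helper87Fusion2.isCentric_of_isConj`); `a '' R₂ = R₁`; `H12YCentAut.centric_aut h.hEi hR₂ ha _ : E.IsCentric R₁`; apply its second component to `isConj_refl E _`. -/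
theorem centric [Finite S] (h : Hyp p F E D₂) {R : Subgroup Ω} (hR : E.IsCentric R) :
    D₂.IsCentric R := by
  refine ⟨hR.1, fun R₁ hR₁ => ?_⟩
  obtain ⟨φ, hφ, hφR⟩ := isConj_iff.1 hR₁
  obtain ⟨a, c, ha, _, hc, hac⟩ := Helper88Normal.frattini h.hEi hR.1 (h.subD hφ)
  obtain ⟨R₂, hR₂⟩ := hc.exists_image
  have hR₂c : E.IsCentric R₂ :=
    Helper87Fusion2.isCentric_of_isConj hR (isConj_iff.2 ⟨c, hc, hR₂⟩)
  have haR : a '' (R₂ : Set Ω) = (R₁ : Set Ω) := by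
    rw [← hR₂, ← hφR]
    ext y
    constructor
    · rintro ⟨_, ⟨x, hx, rfl⟩, rfl⟩
      exact ⟨x, hx, hac x hx⟩
    · rintro ⟨x, hx, rfl⟩
      exact ⟨c x, ⟨x, hx, rfl⟩, (hac x hx).symm⟩
  have hR₁c : E.IsCentric R₁ := H12YCentAut.centric_aut h.hEi hR₂c ha haR
  exact hR₁c.2 R₁ (isConj_refl E hR₁c.1)

end Cfsg.Agent.Lib.H88ZCen
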