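import Mathlib
import Cfsg.Agent.Lib.H88ZVoc
import Cfsg.Agent.Lib.Helper87Fusion2

set_option autoImplicit false

namespace Cfsg.Agent.Lib.H88ZNrm

open Cfsg Cfsg.FusionSystem Cfsg.Agent.Lib.Helper87Fusion Cfsg.Agent.Lib.H88ZVoc
  Cfsg.Agent.Lib.H88ZDefs Cfsg.Agent.Lib.H37PrDefs

universe u

variable {Ω : Type u} [Group Ω] {S T : Subgroup Ω} {p : ℕ} {F : FusionSystem S}
  {E D₂ : FusionSystem T}

/-- PIECE Nrm (30 min).  `Aut_{D₂}(T)` is a normal subgroup of `Aut_{F'}(T)` (for any system `F'` over `T` in which `D₂` is invariant).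
SKETCH: `le`: `hinv.1 : D₂.IsSubsystemOf F'`; `α ∈ D₂.autGroup T ↔ IsMap D₂ T (totA α)`-type lemma (`mem_autGroup_iff_isMap`, `Helper86…mem_autGroup_iff_totA`), `Helper88Normal.isMap_of_subsystem`.
`normal`: `refine ⟨fun n hn g => ?_⟩`, `Subgroup.mem_subgroupOf`; `g n g⁻¹` : use `Helper88Normal.conj_aut hinv le_rfl (map of n) (map of g) (image = T) (image = T) (fun x hx => _)`. -/
theorem le_aut [Finite T] {F' : FusionSystem T} (hinv : D₂.IsInvariantIn F') :
    D₂.autGroup T ≤ F'.autGroup T := by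
  intro α hα
  rw [Helper87Fusion2.mem_autGroup_iff_totA _ le_rfl] at hα ⊢
  exact Helper88Normal.isMap_of_subsystem hinv.1 hα

theorem normal [Finite T] {F' : FusionSystem T} (hinv : D₂.IsInvariantIn F') :
    ((D₂.autGroup T).subgroupOf (F'.autGroup T)).Normal := by
  refine ⟨fun n hn g => ?_⟩
  rw [Subgroup.mem_subgroupOf] at hn ⊢
  have hn' : IsMap D₂ T (Helper87Fusion2.totA (n : MulAut T)) :=
    (Helper87Fusion2.mem_autGroup_iff_totA _ le_rfl _).1 hn
  have hg' : IsMap F' T (Helper87Fusion2.totA (g : MulAut T)) :=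
    (Helper87Fusion2.mem_autGroup_iff_totA _ le_rfl _).1 g.2
  rw [Helper87Fusion2.mem_autGroup_iff_totA _ le_rfl]
  refine Helper88Normal.conj_aut hinv le_rfl hn' hg' (Helper87Fusion2.totA_image _)
    (Helper87Fusion2.totA_image _) (fun x hx => ?_)
  rw [Helper87Fusion2.totA_of_mem _ hx, Helper87Fusion2.totA_apply, Helper87Fusion2.totA_of_mem _ hx,
    Helper87Fusion2.totA_apply]
  simp

end Cfsg.Agent.Lib.H88ZNrm
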