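import Mathlib
import Cfsg.Agent.Lib.H88ZVoc

set_option autoImplicit false

namespace Cfsg.Agent.Lib.H88ZPPow2

open Cfsg Cfsg.FusionSystem Cfsg.Agent.Lib.Helper87Fusion Cfsg.Agent.Lib.H88ZVoc
  Cfsg.Agent.Lib.H88ZDefs Cfsg.Agent.Lib.H37PrDefs Cfsg.Agent.Lib.Helper87Fusion2

universe u

variable {Ω : Type u} [Group Ω] {S T : Subgroup Ω} {p : ℕ} {F : FusionSystem S}
  {E D₂ : FusionSystem T}

/-- abstract group theory: `N` normalised by `A ∋ α = b n`, `α ^ p ^ k ∈ N`, `b ^ m ∈ N`, `m` prime to `p`. -/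
theorem abs_mem {X : Type*} [Group X] (A N : Subgroup X) (hNA : N ≤ A)
    (hnor : ∀ a ∈ A, ∀ n ∈ N, a * n * a⁻¹ ∈ N) (α : X) (hα : α ∈ A) (q m : ℕ) (hqm : Nat.Coprime q m)
    (n : X) (hn : n ∈ N) (hq : α ^ q ∈ N) (hm : (α * n) ^ m ∈ N) : α ∈ N := by
  haveI : (N.subgroupOf A).Normal := by
    refine ⟨fun x hx g => ?_⟩
    rw [Subgroup.mem_subgroupOf] at hx ⊢
    exact hnor g g.2 x hx
  have h1 : (QuotientGroup.mk (⟨α, hα⟩ : A) : A ⧸ N.subgroupOf A) ^ q = 1 := by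
    rw [← QuotientGroup.mk_pow, QuotientGroup.eq_one_iff, Subgroup.mem_subgroupOf]
    exact hq
  have h2 : (QuotientGroup.mk (⟨α, hα⟩ : A) : A ⧸ N.subgroupOf A) ^ m = 1 := by
    have h3 : (QuotientGroup.mk (⟨α, hα⟩ : A) : A ⧸ N.subgroupOf A) =
        QuotientGroup.mk (⟨α, hα⟩ * ⟨n, hNA hn⟩ : A) := by
      rw [QuotientGroup.mk_mul]
      have : (QuotientGroup.mk (⟨n, hNA hn⟩ : A) : A ⧸ N.subgroupOf A) = 1 := by
        rw [QuotientGroup.eq_one_iff, Subgroup.mem_subgroupOf]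
        exact hn
      rw [this, mul_one]
    rw [h3, ← QuotientGroup.mk_pow, QuotientGroup.eq_one_iff, Subgroup.mem_subgroupOf]
    exact hm
  have h4 : orderOf (QuotientGroup.mk (⟨α, hα⟩ : A) : A ⧸ N.subgroupOf A) ∣ Nat.gcd q m :=
    Nat.dvd_gcd (orderOf_dvd_of_pow_eq_one h1) (orderOf_dvd_of_pow_eq_one h2)
  rw [hqm, Nat.dvd_one, orderOf_eq_one_iff, QuotientGroup.eq_one_iff, Subgroup.mem_subgroupOf] at h4
  exact h4

theorem syl [Finite S] (h : Hyp p F E D₂) : ∃ R : Sylow p (E.autGroup T),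
    (R : Subgroup (E.autGroup T)) = (autInducedBy T T).subgroupOf (E.autGroup T) := by
  haveI := h.finT
  obtain ⟨Q, hQ, ⟨-, R, hR⟩, -⟩ := h.hE T le_rfl
  have hQT : Q = T :=
    Subgroup.eq_of_le_of_card_ge (isConj_le_right hQ) (isConj_card_eq hQ).ge
  subst hQT
  exact ⟨R, hR⟩

theorem ppow [Finite S] [Fact p.Prime] (h : Hyp p F E D₂) {F' : FusionSystem T}
    (hF' : ∀ (P : Subgroup Ω) (f : Ω → Ω), IsMap F' P f ↔ PM E D₂ P f)
    (hinv : D₂.IsInvariantIn F') (α : MulAut T) (hα : α ∈ F'.autGroup T) (k : ℕ)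
    (hk : α ^ p ^ k ∈ D₂.autGroup T) : α ∈ D₂.autGroup T := by
  haveI := h.finT
  -- decomposition
  obtain ⟨a, f₀, ha, hf₀, haf⟩ := (hF' T _).1 ((mem_autGroup_iff_totA F' le_rfl α).1 hα)
  obtain ⟨b, hb, hba⟩ := ha.exists_aut (image_S ha)
  obtain ⟨n, hn, hnf⟩ := hf₀.exists_aut (image_S hf₀)
  have hαbn : α = b * n := by
    ext x
    rw [MulAut.mul_apply, hba, hnf, ← haf x x.2, totA_apply]
  -- `N ≤ A`
  have hNA : D₂.autGroup T ≤ F'.autGroup T := by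
    intro ν hν
    rw [mem_autGroup_iff_totA F' le_rfl, hF']
    exact ⟨id, totA ν, isMap_id E le_rfl, (mem_autGroup_iff_totA D₂ le_rfl ν).1 hν, fun x _ => rfl⟩
  -- normality
  have hnor : ∀ a ∈ F'.autGroup T, ∀ ν ∈ D₂.autGroup T, a * ν * a⁻¹ ∈ D₂.autGroup T := by
    intro β hβ ν hν
    rw [mem_autGroup_iff_totA D₂ le_rfl]
    have hβm := (mem_autGroup_iff_totA F' le_rfl β).1 hβ
    refine Cfsg.Agent.Lib.Helper88Normal.conj_aut hinv le_rfl
      ((mem_autGroup_iff_totA D₂ le_rfl ν).1 hν) hβm (image_S hβm) (image_S hβm) ?_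
    intro x hx
    rw [totA_of_mem β hx, totA_apply, totA_of_mem ν hx, totA_apply]
    simp
  -- the Sylow subgroup
  obtain ⟨R, hR⟩ := syl h
  haveI hnI : ((autInducedBy T T).subgroupOf (E.autGroup T)).Normal := by
    refine ⟨fun x hx g => ?_⟩
    rw [Subgroup.mem_subgroupOf] at hx ⊢
    obtain ⟨t, ht, hxt⟩ := (mem_autInducedBy_iff T T _).1 hx
    rw [mem_autInducedBy_iff]
    refine ⟨(((g : MulAut T) ⟨t, ht⟩ : T) : Ω), ((g : MulAut T) ⟨t, ht⟩ : T).2, fun y => ?_⟩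
    have e1 : (x : MulAut T) ((g : MulAut T)⁻¹ y) = ⟨t, ht⟩ * ((g : MulAut T)⁻¹ y) * ⟨t, ht⟩⁻¹ := by
      apply Subtype.ext
      rw [hxt]
      rfl
    show ((((g : MulAut T) * (x : MulAut T) * (g : MulAut T)⁻¹) y : T) : Ω) = _
    rw [MulAut.mul_apply, MulAut.mul_apply, e1, map_mul, map_mul, map_inv, MulAut.apply_inv_self]
    rfl
  have hm : ¬ p ∣ ((autInducedBy T T).subgroupOf (E.autGroup T)).index := by
    rw [← hR]
    exact R.not_dvd_index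
  have hbm : b ^ ((autInducedBy T T).subgroupOf (E.autGroup T)).index ∈ D₂.autGroup T := by
    have h1 := Subgroup.pow_index_mem ((autInducedBy T T).subgroupOf (E.autGroup T)) ⟨b, hb⟩
    rw [Subgroup.mem_subgroupOf] at h1
    exact autInducedBy_le_autGroup D₂ le_rfl h1
  refine abs_mem (F'.autGroup T) (D₂.autGroup T) hNA hnor α hα (p ^ k)
    ((autInducedBy T T).subgroupOf (E.autGroup T)).index ?_ n⁻¹ (inv_mem hn) hk ?_
  · exact Nat.Coprime.pow_left k ((Nat.Prime.coprime_iff_not_dvd Fact.out).2 hm)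
  · rw [hαbn, mul_inv_cancel_right]
    exact hbm

end Cfsg.Agent.Lib.H88ZPPow2
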