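import Mathlib
import Cfsg.Agent.Lib.H88ZVoc
import Cfsg.Agent.Lib.H88ZMkC
import Cfsg.Agent.Lib.H88ZNrm
import Cfsg.Agent.Lib.H88ZPPow2

set_option autoImplicit false

namespace Cfsg.Agent.Lib.H88ZChi

open Cfsg Cfsg.FusionSystem Cfsg.Agent.Lib.Helper87Fusion Cfsg.Agent.Lib.H88ZVoc
  Cfsg.Agent.Lib.H88ZDefs Cfsg.Agent.Lib.H37PrDefs

universe u

variable {Ω : Type u} [Group Ω] {S T : Subgroup Ω} {p : ℕ} {F : FusionSystem S}
  {E D₂ : FusionSystem T}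

/-- the character `Aut_{F'}(T) → Aut_{F'}(T) / Aut_{D₂}(T)` as a function on total maps. -/
theorem exists_c [Finite S] [Fact p.Prime] (h : Hyp p F E D₂) {F' : FusionSystem T}
    (hF' : ∀ (P : Subgroup Ω) (f : Ω → Ω), IsMap F' P f ↔ PM E D₂ P f)
    (hinv : D₂.IsInvariantIn F') :
    ∃ (Δ : Type u) (_ : Group Δ) (c : (Ω → Ω) → Δ), Ctx p F' D₂ c ∧
      ∀ a : Ω → Ω, IsMap F' T a → c a = 1 → IsMap D₂ T a := by
  haveI := h.finT
  haveI hN := H88ZNrm.normal hinv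
  have hpow : ∀ (d : ↥(F'.autGroup T) ⧸ (D₂.autGroup T).subgroupOf (F'.autGroup T)) (k : ℕ),
      d ^ p ^ k = 1 → d = 1 := by
    intro d k hd
    obtain ⟨α, rfl⟩ := QuotientGroup.mk_surjective d
    rw [← QuotientGroup.mk_pow, QuotientGroup.eq_one_iff, Subgroup.mem_subgroupOf] at hd
    rw [QuotientGroup.eq_one_iff, Subgroup.mem_subgroupOf]
    exact H88ZPPow2.ppow h hF' hinv α α.2 k (by simpa using hd)
  obtain ⟨c, hc, hkey⟩ := H88ZMkC.exists_c (F := F') (E := D₂) h.hTp h.hD hinv hpow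
    (QuotientGroup.mk' ((D₂.autGroup T).subgroupOf (F'.autGroup T)))
    (by rw [QuotientGroup.ker_mk'])
  refine ⟨_, inferInstance, c, hc, fun a ha hca => ?_⟩
  obtain ⟨α, hα, hαa⟩ := ha.exists_aut (image_S ha)
  rw [hkey ⟨α, hα⟩ a hαa] at hca
  have h1 : (⟨α, hα⟩ : ↥(F'.autGroup T)) ∈ (D₂.autGroup T).subgroupOf (F'.autGroup T) :=
    (QuotientGroup.eq_one_iff _).1 hca
  exact (mem_autGroup_iff_isMap D₂ le_rfl α hαa).1 (Subgroup.mem_subgroupOf.1 h1)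

end Cfsg.Agent.Lib.H88ZChi
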