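import Mathlib
import Cfsg.Agent.Lib.H88ZDefs

set_option autoImplicit false

namespace Cfsg.Agent.Lib.H88ZTh

open Cfsg Cfsg.FusionSystem Cfsg.Agent.Lib.Helper87Fusion Cfsg.Agent.Lib.H88ZDefs

variable {Ω : Type*} [Group Ω] {S T : Subgroup Ω} {Δ : Type*} [Group Δ]
  {p : ℕ} {F : FusionSystem S} {E : FusionSystem T} {c : (Ω → Ω) → Δ}

/-- `id` is a map of `E` on `T`: `h.c_E _ (isMap_id' E le_rfl)`. -/
theorem c_id (h : Ctx p F E c) : c (fun x => x) = 1 := by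
  exact h.c_E _ (isMap_id' E le_rfl)

/-- `c (a' ∘ a) = c a' * c a` (`h.c_mul`), `a' ∘ a = id` on `T` (`h.c_congr`), `c_id`. -/
theorem c_inv (h : Ctx p F E c) {a a' : Ω → Ω} (ha : IsMap F T a) (ha' : IsMap F T a')
    (hh : ∀ x ∈ T, a' (a x) = x) : c a' = (c a)⁻¹ := by
  have h1 := h.c_mul a' a ha' ha
  have h2 : c (fun x => a' (a x)) = c (fun x => x) := h.c_congr _ _ hh
  rw [h2, c_id h] at h1
  exact eq_inv_of_mul_eq_one_left h1.symm

theorem th_congr {R : Subgroup Ω} {f g : Ω → Ω} {d : Δ} (hf : Th F E c R f d)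
    (hfg : ∀ x ∈ R, f x = g x) : Th F E c R g d := by
  obtain ⟨a, f₀, h1, h2, h3, h4⟩ := hf
  exact ⟨a, f₀, h1, h2, h3, fun x hx => by rw [← hfg x hx, h4 x hx]⟩

theorem th_restrict {R R' : Subgroup Ω} {f : Ω → Ω} {d : Δ} (hf : Th F E c R f d) (hR : R' ≤ R) :
    Th F E c R' f d := by
  obtain ⟨a, f₀, h1, h2, h3, h4⟩ := hf
  exact ⟨a, f₀, h1, h2.restrict hR, h3, fun x hx => h4 x (hR hx)⟩

/-- take `a = id` (an `F`-map on `T`, `isMap_id' F h.hTS`), `c_id`. -/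
theorem th_of_E (h : Ctx p F E c) {R : Subgroup Ω} {f : Ω → Ω} (hf : IsMap E R f) :
    Th F E c R f 1 := by
  exact ⟨fun x => x, f, isMap_id' F h.hTS, hf, c_id h, fun _ _ => rfl⟩

/-- take `f₀ = id` (`isMap_id' E hR`). -/
theorem th_of_aut {R : Subgroup Ω} (hR : R ≤ T) {a : Ω → Ω} (ha : IsMap F T a) :
    Th F E c R a (c a) := by
  exact ⟨a, fun x => x, ha, isMap_id' E hR, rfl, fun _ _ => rfl⟩

/-- Frattini condition: `Cfsg.Agent.Lib.Helper88Normal.frattini h.hinv hR hf`. -/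
theorem th_exists (h : Ctx p F E c) {R : Subgroup Ω} (hR : R ≤ T) {f : Ω → Ω} (hf : IsMap F R f) :
    ∃ d : Δ, Th F E c R f d := by
  obtain ⟨a, c', ha, -, hc, hb⟩ := Cfsg.Agent.Lib.Helper88Normal.frattini h.hinv hR hf
  exact ⟨c a, a, c', ha, hc, rfl, hb⟩

end Cfsg.Agent.Lib.H88ZTh
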