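import Mathlib
import Cfsg.Agent.Lib.H88ZDefs
import Cfsg.Agent.Lib.H88ZTh

set_option autoImplicit false

namespace Cfsg.Agent.Lib.H88ZThComp

open Cfsg Cfsg.FusionSystem Cfsg.Agent.Lib.Helper87Fusion Cfsg.Agent.Lib.H88ZDefs

variable {Ω : Type*} [Group Ω] {S T : Subgroup Ω} {Δ : Type*} [Group Δ]
  {p : ℕ} {F : FusionSystem S} {E : FusionSystem T} {c : (Ω → Ω) → Δ}

/-- `(a₂ g₀)(a₁ f₀) = (a₂ a₁)(a₁⁻¹ g₀ a₁) f₀`.  COPY the proof of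
`Cfsg.Agent.Lib.Helper87Invariant.Fr.comp` (same statement without `c`); instead of `hSI` use
`Cfsg.Agent.Lib.Helper88Normal.conj_aut h.hinv` (or `conj_map`) applied to the inverse `ai` of `a₁` on `T`
(`a₁ '' T = T` by `Cfsg.Agent.Lib.Helper87Split.image_of_stronglyClosed h.hT h1 le_rfl`);
`c (a₂ ∘ a₁) = c a₂ * c a₁ = e * d` by `h.c_mul`. -/
theorem th_comp [Finite S] (h : Ctx p F E c) {R R₁ : Subgroup Ω} {f g : Ω → Ω} {d e : Δ}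
    (hf : Th F E c R f d) (hg : Th F E c R₁ g e) (hfR : ∀ x ∈ R, f x ∈ R₁) :
    Th F E c R (fun x => g (f x)) (e * d) := by
  obtain ⟨a₁, f₀, h1, h2, hc1, h3⟩ := hf
  obtain ⟨a₂, g₀, k1, k2, hc2, k3⟩ := hg
  have ha₁T := Cfsg.Agent.Lib.Helper87Split.image_of_stronglyClosed h.hT h1 le_rfl
  obtain ⟨ai, hai, i1, i2, i3⟩ := h1.inv ha₁T
  obtain ⟨P₁', hP₁'⟩ := hai.exists_image_of_le k2.le
  have hd : IsMap E P₁' (fun y => ai (g₀ (a₁ y))) :=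
    Cfsg.Agent.Lib.Helper88Normal.conj_aut h.hinv k2.le k2 hai i3 hP₁'
      (fun x hx => by rw [i2 x (k2.le hx)])
  have hf₀ : ∀ x ∈ R, f₀ x = ai (f x) := fun x hx => by
    rw [h3 x hx, i1 _ (h2.mem hx)]
  refine ⟨fun x => a₂ (a₁ x), fun x => ai (g₀ (a₁ (f₀ x))),
    h1.comp k1 (fun x hx => IsMap.mem_image ha₁T hx),
    h2.comp hd (fun x hx => by rw [hf₀ x hx]; exact IsMap.mem_image hP₁' (hfR x hx)), ?_,
    fun x hx => ?_⟩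
  · rw [h.c_mul a₂ a₁ k1 h1, hc1, hc2]
  · show g (f x) = a₂ (a₁ (ai (g₀ (a₁ (f₀ x)))))
    rw [← h3 x hx, i2 _ (k2.mem (hfR x hx)), k3 _ (hfR x hx)]

end Cfsg.Agent.Lib.H88ZThComp
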