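import Mathlib
import Cfsg.Agent.Lib.H88ZDefs
import Cfsg.Agent.Lib.H88ZTh
import Cfsg.Agent.Lib.H88ZThComp

set_option autoImplicit false

namespace Cfsg.Agent.Lib.H88ZPPow

open Cfsg Cfsg.FusionSystem Cfsg.Agent.Lib.Helper87Fusion Cfsg.Agent.Lib.H88ZDefs

variable {Ω : Type*} [Group Ω] {S T : Subgroup Ω} {Δ : Type*} [Group Δ]
  {p : ℕ} {F : FusionSystem S} {E : FusionSystem T} {c : (Ω → Ω) → Δ}

/-- An automorphism `ρ ∈ Aut_F(Q)` centralising `R` and `Q/R` has value `1`.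
`th_exists` gives `d` with `Th Q ρ d`.  By induction on `k` (`H88ZThComp.th_comp`, `hρQ`):
`Th Q (ρ^[k]) (d ^ k)` and `ρ^[k] x = x * (x⁻¹ * ρ x) ^ k` for `x ∈ Q` (`ρ (x z) = ρ x * z` for `z ∈ R`, `IsMap.map_mul`).
`R` is a finite `p`-group (`R ≤ T ≤ S`), `Nat.card R = p ^ m` (`IsPGroup.exists_card_eq`/`IsPGroup.iff_card`), so
`ρ^[p^m] = id` on `Q` (`pow_card_eq_one'`), `Th Q id (d ^ p ^ m)` (`th_congr`) and `Th Q id 1` (`th_of_E`, `isMap_id'`);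
`huniq` gives `d ^ p ^ m = 1`, `h.c_pow` gives `d = 1`. -/
theorem ppow [Finite S] [Fact p.Prime] (h : Ctx p F E c) {Q R : Subgroup Ω} (hRQ : R ≤ Q) (hQT : Q ≤ T)
    (huniq : ∀ (f : Ω → Ω) (d d' : Δ), Th F E c Q f d → Th F E c Q f d' → d = d')
    {ρ : Ω → Ω} (hρ : IsMap F Q ρ) (hρQ : ρ '' (Q : Set Ω) = (Q : Set Ω))
    (hfix : ∀ x ∈ R, ρ x = x) (hmod : ∀ x ∈ Q, x⁻¹ * ρ x ∈ R) : Th F E c Q ρ 1 := by
  obtain ⟨d, hd⟩ := H88ZTh.th_exists h hQT hρ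
  have key : ∀ k : ℕ, Th F E c Q (ρ^[k]) (d ^ k) ∧ ∀ x ∈ Q, ρ^[k] x = x * (x⁻¹ * ρ x) ^ k := by
    intro k
    induction k with
    | zero =>
      refine ⟨?_, fun x _ => by simp⟩
      rw [pow_zero]
      exact H88ZTh.th_congr (H88ZTh.th_of_E h (isMap_id' E hQT)) (fun x _ => rfl)
    | succ k ih =>
      obtain ⟨ih1, ih2⟩ := ih
      have hQk : ∀ x ∈ Q, ρ^[k] x ∈ Q := fun x hx => by
        rw [ih2 x hx]
        exact Q.mul_mem hx (Q.pow_mem (hRQ (hmod x hx)) k)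
      constructor
      · have := H88ZThComp.th_comp h ih1 hd hQk
        rw [pow_succ']
        exact H88ZTh.th_congr this (fun x _ => by rw [Function.iterate_succ_apply'])
      · intro x hx
        rw [Function.iterate_succ_apply', ih2 x hx,
          hρ.map_mul hx (Q.pow_mem (hRQ (hmod x hx)) k), hfix _ (R.pow_mem (hmod x hx) k),
          pow_succ', ← mul_assoc, mul_inv_cancel_left]
  have hRT : R ≤ T := hRQ.trans hQT
  have : Finite T := h.finT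
  have : Finite R := Cfsg.Agent.Lib.Helper86Fusion.finite_of_le hRT
  have hRp : IsPGroup p R := h.hTp.to_le hRT
  obtain ⟨m, hm⟩ := IsPGroup.iff_card.1 hRp
  have hz : ∀ z ∈ R, z ^ p ^ m = 1 := by
    intro z hz
    have h1 := pow_card_eq_one' (G := R) (x := ⟨z, hz⟩)
    rw [hm] at h1
    exact congrArg Subtype.val h1
  have h1 : Th F E c Q (fun x => x) (d ^ p ^ m) :=
    H88ZTh.th_congr (key (p ^ m)).1 (fun x hx => by
      rw [(key (p ^ m)).2 x hx, hz _ (hmod x hx), mul_one])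
  have h2 : Th F E c Q (fun x => x) 1 := H88ZTh.th_of_E h (isMap_id' E hQT)
  have h3 : d = 1 := h.c_pow d m (huniq _ _ _ h1 h2)
  rw [← h3]
  exact hd

end Cfsg.Agent.Lib.H88ZPPow
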