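import Mathlib
import Cfsg.Agent.Lib.H88ZDefs
import Cfsg.Agent.Lib.H88ZTh
import Cfsg.Agent.Lib.H88ZThComp
import Cfsg.Agent.Lib.H88ZPPow
import Cfsg.Agent.Lib.H88ZExt

set_option autoImplicit false

namespace Cfsg.Agent.Lib.H88ZExtTh

open Cfsg Cfsg.FusionSystem Cfsg.Agent.Lib.Helper87Fusion Cfsg.Agent.Lib.H88ZDefs

variable {Ω : Type*} [Group Ω] {S T : Subgroup Ω} {Δ : Type*} [Group Δ]
  {p : ℕ} {F : FusionSystem S} {E : FusionSystem T} {c : (Ω → Ω) → Δ}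

/-- `H88ZExt.ext` gives `b', ρ`.  `Th Q₁ ρ 1` (`H88ZPPow.ppow`, `Q₁ ≤ T` from `hQN`), `Th Q₁ b' 1` (`th_of_E`),
`Th Q₁ b1 e` for some `e` (`th_exists`), so `Th Q₁ (b1 ∘ ρ) (e * 1)` (`th_comp`, `ρ` maps `Q₁` to `Q₁`), which is `b'` on `Q₁`
(`th_congr`); `huniq` gives `e * 1 = 1`. -/
theorem ext_th [Finite S] [Fact p.Prime] (h : Ctx p F E c) {Rs Q₁ : Subgroup Ω} (hrec : E.IsReceptive Rs)
    (hcen : E.IsCentric Rs) (hRQ : Rs ≤ Q₁) (hQN : Q₁ ≤ normalizerIn T Rs)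
    (huniq : ∀ (f : Ω → Ω) (d d' : Δ), Th F E c Q₁ f d → Th F E c Q₁ f d' → d = d') {b1 : Ω → Ω}
    (hb1 : IsMap F Q₁ b1) (hb1E : IsMap E Rs b1) (hb1Rs : b1 '' (Rs : Set Ω) = (Rs : Set Ω)) :
    Th F E c Q₁ b1 1 := by
  have hQT : Q₁ ≤ T := hQN.trans (normalizerIn_le T Rs)
  obtain ⟨b', ρ, hb', hρ, hρQ, hfix, hmod, hb'ρ⟩ :=
    Cfsg.Agent.Lib.H88ZExt.ext h.hinv hrec hcen hRQ hQN hb1 hb1E hb1Rs
  have t1 : Th F E c Q₁ ρ 1 := Cfsg.Agent.Lib.H88ZPPow.ppow h hRQ hQT huniq hρ hρQ hfix hmod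
  have t2 : Th F E c Q₁ b' 1 := Cfsg.Agent.Lib.H88ZTh.th_of_E h hb'
  obtain ⟨e, he⟩ := Cfsg.Agent.Lib.H88ZTh.th_exists h hQT hb1
  have t3 : Th F E c Q₁ (fun x => b1 (ρ x)) (e * 1) :=
    Cfsg.Agent.Lib.H88ZThComp.th_comp h t1 he (fun x hx => IsMap.mem_image hρQ hx)
  have t4 : Th F E c Q₁ b' (e * 1) :=
    Cfsg.Agent.Lib.H88ZTh.th_congr t3 (fun x hx => (hb'ρ x hx).symm)
  have e1 : e * 1 = 1 := huniq _ _ _ t4 t2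
  rw [mul_one] at e1
  rwa [e1] at he

end Cfsg.Agent.Lib.H88ZExtTh
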