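import Mathlib
import Cfsg.Agent.Lib.H88ZVoc

set_option autoImplicit false

namespace Cfsg.Agent.Lib.H88ZInvar

open Cfsg Cfsg.FusionSystem Cfsg.Agent.Lib.Helper87Fusion Cfsg.Agent.Lib.H88ZVoc
  Cfsg.Agent.Lib.H88ZDefs Cfsg.Agent.Lib.H37PrDefs

universe u

variable {Ω : Type u} [Group Ω] {S T : Subgroup Ω} {p : ℕ} {F : FusionSystem S}
  {E D₂ : FusionSystem T}

/-- PIECE Invar (15 min).  `D₂` is invariant under conjugation by `Aut_E(T)`.
SKETCH: `P ≤ T` is `hf.le`.  `a` is an `F`-map on `T` (`h.subE ha`), `a '' T = T` (`H37PrDefs.image_S ha` after `haveI := h.finT`; it is a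
statement about `E` over `T`).  Apply `Helper88Normal.conj_aut h.hDi hf.le hf (h.subE ha) haT hP' (fun x hx => ?_)`; the last goal is
`a (f (a' (a x))) = a (f x)`: `rw [haa x (hf.le hx)]`. -/
theorem invar [Finite S] (h : Hyp p F E D₂) (P P' : Subgroup Ω) (a a' f : Ω → Ω) (ha : IsMap E T a)
    (ha' : IsMap E T a') (haa : ∀ x ∈ T, a' (a x) = x) (hP' : a '' (P : Set Ω) = (P' : Set Ω))
    (hf : IsMap D₂ P f) : IsMap D₂ P' (fun x => a (f (a' x))) := by
  haveI := h.finT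
  have haT : a '' (T : Set Ω) = (T : Set Ω) := image_S ha
  refine Helper88Normal.conj_aut h.hDi hf.le hf (h.subE ha) haT hP' (fun x hx => ?_)
  show a (f (a' (a x))) = a (f x)
  rw [haa x (hf.le hx)]

end Cfsg.Agent.Lib.H88ZInvar
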