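import Mathlib
import Cfsg.Agent.Lib.H88ZVoc
import Cfsg.Agent.Lib.H88ZInvar
import Cfsg.Agent.Lib.Helper87Mk

set_option autoImplicit false

namespace Cfsg.Agent.Lib.H88ZProd

open Cfsg Cfsg.FusionSystem Cfsg.Agent.Lib.Helper87Fusion Cfsg.Agent.Lib.H88ZVoc
  Cfsg.Agent.Lib.H88ZDefs Cfsg.Agent.Lib.H37PrDefs

universe u

variable {Ω : Type u} [Group Ω] {S T : Subgroup Ω} {p : ℕ} {F : FusionSystem S}
  {E D₂ : FusionSystem T}

/-- PIECE Prod (60 min).  The product maps `a ∘ f₀` (`a ∈ Aut_E(T)`, `f₀ ∈ D₂`) form a fusion system over `T`.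
SKETCH: `Helper87Mk.MapData.toFusion` with `M := PM E D₂`, then `Helper87Mk.isMap_toFusion`.  Fields (`haveI := h.finT`; for `a` an `E`-map on `T`: `image_S`, `exists_inv_S`, `right_inv_S` of `H37PrDefs`):
congr: same `a f₀`.   le: `P ≤ T` by `hf₀.le`, values `ha.mem (hf₀.mem hx)`.   inj: `ha.inj`, `hf₀.inj`.   hom: `hf₀.map_mul`, `ha.map_mul`.
conj: `a := id` (`isMap_id' E le_rfl`), `f₀ := c_g` (`isMap_conj D₂`).
comp: `f = a f₀` on `P`, `g = b g₀` on `Q`, `f P ⊆ Q`.  Let `P₁ := f₀ P` (`exists_image`), `a' :=` inverse of `a`.  `Q₀ := a' '' Q` hmm -- simpler: restrict `g₀` to `P₂ := a '' P₁ ≤ Q` (`(ha.restrict _).exists_image`),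
 `g₁ := fun y => a' (g₀ (a y))` is a `D₂`-map on `P₁` by `H88ZInvar.invar h P₂ P₁ a' a g₀ ha' ha (right inverse) (a' '' P₂ = P₁) (hg₀.restrict _)`;  then `g (f x) = (b ∘ a) ((g₁ ∘ f₀) x)`; `b ∘ a` is an `E`-map on `T` (`ha.comp hb`).
inv: `f = a f₀` on `P`, `f '' P = P'`.  `P₁ := f₀ P`, `f₀'` the `D₂`-inverse on `P₁`; `a '' P₁ = P'`.  The inverse of `f` on `P'` is `y ↦ f₀' (a' y) = a' ((a f₀' a') y)`, where `a f₀' a'` is a `D₂`-map on `P'` by `invar`. -/
theorem exists_prod [Finite S] (h : Hyp p F E D₂) :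
    ∃ F' : FusionSystem T, ∀ (P : Subgroup Ω) (f : Ω → Ω), IsMap F' P f ↔ PM E D₂ P f := by
  have := h.finT
  let D : Cfsg.Agent.Lib.Helper87Mk.MapData T :=
    { M := PM E D₂
      congr := by
        rintro P f g ⟨a, f₀, ha, hf₀, hf⟩ hfg
        exact ⟨a, f₀, ha, hf₀, fun x hx => (hfg x hx).symm.trans (hf x hx)⟩
      le := by
        rintro P f ⟨a, f₀, ha, hf₀, hf⟩
        exact ⟨hf₀.le, fun x hx => by rw [hf x hx]; exact ha.mem (hf₀.mem hx)⟩
      inj := by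
        rintro P f ⟨a, f₀, ha, hf₀, hf⟩ x hx y hy hxy
        rw [hf x hx, hf y hy] at hxy
        exact hf₀.inj hx hy (ha.inj (hf₀.mem hx) (hf₀.mem hy) hxy)
      hom := by
        rintro P f ⟨a, f₀, ha, hf₀, hf⟩ x hx y hy
        rw [hf x hx, hf y hy, hf _ (P.mul_mem hx hy), hf₀.map_mul hx hy,
          ha.map_mul (hf₀.mem hx) (hf₀.mem hy)]
      conj := by
        intro P g hP hg
        exact ⟨fun x => x, fun x => g * x * g⁻¹, isMap_id' E le_rfl, isMap_conj D₂ hP hg,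
          fun _ _ => rfl⟩
      comp := by
        rintro P Q f g ⟨a, f₀, ha, hf₀, hf⟩ ⟨b, g₀, hb, hg₀, hg⟩ hPQ
        obtain ⟨a', ha', ha'a, haa', -⟩ := exists_inv_S ha
        obtain ⟨P₁, hP₁⟩ := hf₀.exists_image
        have hP₁T : P₁ ≤ T := hf₀.image_le hP₁
        obtain ⟨P₂, hP₂⟩ := (ha.restrict hP₁T).exists_image
        have hP₂Q : P₂ ≤ Q := by
          intro y hy
          obtain ⟨z, hz, rfl⟩ := IsMap.exists_of_mem_image hP₂ hy
          obtain ⟨x, hx, rfl⟩ := IsMap.exists_of_mem_image hP₁ hz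
          rw [← hf x hx]
          exact hPQ x hx
        have hback : a' '' (P₂ : Set Ω) = (P₁ : Set Ω) := by
          ext y
          constructor
          · rintro ⟨z, hz, rfl⟩
            obtain ⟨w, hw, rfl⟩ := IsMap.exists_of_mem_image hP₂ hz
            rw [ha'a w (hP₁T hw)]
            exact hw
          · intro hy
            exact ⟨a y, IsMap.mem_image hP₂ hy, ha'a y (hP₁T hy)⟩
        have hg₁ := H88ZInvar.invar h P₂ P₁ a' a g₀ ha' ha haa' hback (hg₀.restrict hP₂Q)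
        refine ⟨fun x => b (a x), fun x => a' (g₀ (a (f₀ x))),
          ha.comp hb (fun x hx => ha.mem hx),
          hf₀.comp hg₁ (fun x hx => IsMap.mem_image hP₁ hx), fun x hx => ?_⟩
        have h1 : a (f₀ x) ∈ Q := by rw [← hf x hx]; exact hPQ x hx
        show g (f x) = b (a (a' (g₀ (a (f₀ x)))))
        rw [haa' _ (hg₀.mem h1), hf x hx, hg _ h1]
      inv := by
        rintro P P' f ⟨a, f₀, ha, hf₀, hf⟩ hP'
        obtain ⟨a', ha', ha'a, haa', -⟩ := exists_inv_S ha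
        obtain ⟨P₁, hP₁⟩ := hf₀.exists_image
        have hP₁T : P₁ ≤ T := hf₀.image_le hP₁
        obtain ⟨f₀', hf₀', hl, hr, -⟩ := hf₀.inv hP₁
        have haP : a '' (P₁ : Set Ω) = (P' : Set Ω) := by
          rw [← hP', ← hP₁]
          ext y
          constructor
          · rintro ⟨z, ⟨x, hx, rfl⟩, rfl⟩
            exact ⟨x, hx, hf x hx⟩
          · rintro ⟨x, hx, rfl⟩
            exact ⟨f₀ x, ⟨x, hx, rfl⟩, (hf x hx).symm⟩
        have hk := H88ZInvar.invar h P₁ P' a a' f₀' ha ha' ha'a haP hf₀'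
        refine ⟨fun y => f₀' (a' y), ⟨a', fun x => a (f₀' (a' x)), ha', hk, fun y hy => ?_⟩,
          fun x hx => ?_⟩
        · obtain ⟨z, hz, rfl⟩ := IsMap.exists_of_mem_image haP hy
          show f₀' (a' (a z)) = a' (a (f₀' (a' (a z))))
          rw [ha'a z (hP₁T hz), ha'a _ (hf₀'.mem hz)]
        · show f₀' (a' (f x)) = x
          rw [hf x hx, ha'a _ (hf₀.mem hx), hl x hx] }
  exact ⟨D.toFusion, fun P f => Cfsg.Agent.Lib.Helper87Mk.isMap_toFusion D⟩

end Cfsg.Agent.Lib.H88ZProd
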