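import Mathlib
import Cfsg.Agent.Lib.H88ZVoc
import Cfsg.Agent.Lib.H88ZInvar
import Cfsg.Agent.Lib.Helper90NormalCrit

set_option autoImplicit false

namespace Cfsg.Agent.Lib.H88ZProdInv

open Cfsg Cfsg.FusionSystem Cfsg.Agent.Lib.Helper87Fusion Cfsg.Agent.Lib.H88ZVoc
  Cfsg.Agent.Lib.H88ZDefs Cfsg.Agent.Lib.H37PrDefs

universe u

variable {Ω : Type u} [Group Ω] {S T : Subgroup Ω} {p : ℕ} {F : FusionSystem S}
  {E D₂ : FusionSystem T}

/-- PIECE ProdInv (40 min).  `D₂` is invariant in the product system `F'`.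
SKETCH: `haveI := h.finT`; `Helper90NormalCrit.isInvariantIn_of` (with `S := T`, `F := F'`, `E := D₂`):
hsub: a `D₂`-map `f` is `id ∘ f` (`(hF' P f).2 ⟨fun x => x, f, isMap_id' E le_rfl, hf, fun _ _ => rfl⟩`).
hT: `⟨le_rfl, fun R _ φ hφ x => (F'.le_of_mem hφ).2 x⟩` (as in `H38GTNor.normalIn`).
hinv: `a` an `F'`-map on `T`: `a = a₁ ∘ n` on `T`, `a₁ ∈ Aut_E(T)`, `n` a `D₂`-map on `T` (onto `T`: `image_S`).  For a `D₂`-map `f` on `P`: `P₁ := n '' P`, `f₁ := n f n'` is a `D₂`-map on `P₁` (compose, `n'` the `D₂`-inverse of `n`),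
 then `f' := a₁ f₁ a₁'` is a `D₂`-map on `a₁ '' P₁ = P'` by `H88ZInvar.invar`; check `f' (a x) = a (f x)` for `x ∈ P`.
hfrat: `f = a ∘ f₀` (`(hF' P f).1`), and `a` is an `F'`-map on `T` (`a = a ∘ id`, `isMap_id' D₂ le_rfl`). -/
theorem prod_inv [Finite S] (h : Hyp p F E D₂) {F' : FusionSystem T}
    (hF' : ∀ (P : Subgroup Ω) (f : Ω → Ω), IsMap F' P f ↔ PM E D₂ P f) : D₂.IsInvariantIn F' := by
  haveI := h.finT
  refine Helper90NormalCrit.isInvariantIn_of (S := T) ?_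
    ⟨le_rfl, fun R _ φ hφ x => (F'.le_of_mem hφ).2 x⟩ ?_ ?_
  · intro P f hf
    exact (hF' P f).2 ⟨fun x => x, f, isMap_id' E le_rfl, hf, fun _ _ => rfl⟩
  · intro P P' f a hf ha hPP'
    obtain ⟨a₁, n, ha₁, hn, han⟩ := (hF' T a).1 ha
    obtain ⟨n', hn', hn1, hn2, hn3⟩ := exists_inv_S hn
    obtain ⟨a₁', ha₁', h11, h12, h13⟩ := exists_inv_S ha₁
    have hPT : P ≤ T := hf.le
    obtain ⟨P₁, hP₁⟩ := hn.exists_image_of_le hPT
    have hP₁T : P₁ ≤ T := (hn.restrict hPT).image_le hP₁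
    have hf₁ : IsMap D₂ P₁ (fun x => n (f (n' x))) := by
      have s1 : IsMap D₂ P₁ n' := hn'.restrict hP₁T
      have s2 : IsMap D₂ P₁ (fun x => f (n' x)) := s1.comp hf (fun x hx => by
        obtain ⟨y, hy, rfl⟩ := IsMap.exists_of_mem_image hP₁ hx
        rw [hn1 y (hPT hy)]
        exact hy)
      exact s2.comp hn (fun x hx => s2.mem hx)
    have hP' : a₁ '' (P₁ : Set Ω) = (P' : Set Ω) := by
      rw [← hPP', ← hP₁, Set.image_image]
      apply Set.image_congr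
      intro x hx
      exact (han x (hPT hx)).symm
    refine ⟨_, H88ZInvar.invar h P₁ P' a₁ a₁' _ ha₁ ha₁' h11 hP' hf₁, fun x hx => ?_⟩
    show a₁ (n (f (n' (a₁' (a x))))) = a (f x)
    rw [han x (hPT hx), h11 _ (hn.mem (hPT hx)), hn1 x (hPT hx), han _ (hf.mem hx)]
  · intro P f hPT hf
    obtain ⟨a, f₀, ha, hf₀, hff⟩ := (hF' P f).1 hf
    exact ⟨a, f₀, (hF' T a).2 ⟨a, fun x => x, ha, isMap_id' D₂ le_rfl, fun _ _ => rfl⟩, hf₀, hff⟩

end Cfsg.Agent.Lib.H88ZProdInv
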