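import Mathlib
import Cfsg.Agent.Lib.H88ZDefs
import Cfsg.Agent.Lib.H88ZTh
import Cfsg.Agent.Lib.H88ZThComp
import Cfsg.Agent.Lib.H88ZUniq
import Cfsg.Agent.Lib.H88ZExtTh
import Cfsg.Agent.Lib.H88ZGeo

set_option autoImplicit false

namespace Cfsg.Agent.Lib.H88ZWStep

open Cfsg Cfsg.FusionSystem Cfsg.Agent.Lib.Helper87Fusion Cfsg.Agent.Lib.H88ZDefs

variable {Ω : Type*} [Group Ω] {S T : Subgroup Ω} {Δ : Type*} [Group Δ]
  {p : ℕ} {F : FusionSystem S} {E : FusionSystem T} {c : (Ω → Ω) → Δ}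

/-- INDUCTION STEP of (W).  Let `R` be `E`-centric with `n ≤ |R|`, `b` as in `WP`.  If `n + 1 ≤ |R|` use `hW`.  If `R = T` use `h.c_E`.
Otherwise `N := normalizerIn T R > R` (`Helper88Normal.lt_normalizerIn h.hTp`, with the fusion-free statement over `T`), so
`n + 1 ≤ |N|` (`Helper87Fusion2.card_lt_of_lt`); `N` is `E`-centric (`isCentric_of_le`).  `H88ZGeo.geo` gives `Rs Q₁ Q₂ b1 κ l`;
`|Q₁| = |N|` (`IsMap.card_image`), `Q₁` is `E`-centric (contains `Rs`).  Uniqueness on `Q₁` and on `N` by `H88ZUniq.uniq h hW`.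
`Th Q₁ b1 1` (`H88ZExtTh.ext_th`), `Th N κ 1`, `Th Q₂ l 1` (`th_of_E`), so `Th N (l ∘ b1 ∘ κ) (1 * (1 * 1))` (`th_comp` twice), i.e.
`Th N b 1` (`th_congr`); also `Th N b (c b)` (`th_of_aut`).  Uniqueness: `c b = 1`. -/
theorem wstep [Finite S] [Fact p.Prime] (h : Ctx p F E c) {n : ℕ} (hW : WP F E c (n + 1)) :
    WP F E c n := by
  intro R hR hn b hb hbR
  by_cases hn1 : n + 1 ≤ Nat.card R
  · exact hW R hR hn1 b hb hbR
  by_cases hRT : R = T
  · rw [hRT] at hbR
    exact h.c_E b hbR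
  haveI := h.finT
  have hRle : R ≤ T := hR.1
  have hlt : R < normalizerIn T R := Helper88Normal.lt_normalizerIn h.hTp hRle hRT
  have hNT : normalizerIn T R ≤ T := normalizerIn_le T R
  haveI : Finite (normalizerIn T R) := Helper86Fusion.finite_of_le hNT
  have hcN : n + 1 ≤ Nat.card (normalizerIn T R) := by
    have := Helper87Fusion2.card_lt_of_lt hlt
    omega
  have hNc : E.IsCentric (normalizerIn T R) := Helper87Fusion2.isCentric_of_le hR hlt.le hNT
  obtain ⟨Rs, Q₁, Q₂, b1, κ, l, hrec, hcen, hRQ, hQN, hb1, hb1E, hb1Rs, hb1Q, hκ, hκN, hl, hfac⟩ :=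
    H88ZGeo.geo h.hS h.hE h.hinv hR hb hbR
  have hQ₁T : Q₁ ≤ T := hQN.trans (normalizerIn_le T Rs)
  have hcQ₁ : Nat.card Q₁ = Nat.card (normalizerIn T R) := hκ.card_image hκN
  have hQ₁c : E.IsCentric Q₁ := Helper87Fusion2.isCentric_of_le hcen hRQ hQ₁T
  have hu1 : ∀ (f : Ω → Ω) (d d' : Δ), Th F E c Q₁ f d → Th F E c Q₁ f d' → d = d' :=
    fun f d d' h1 h2 => H88ZUniq.uniq h hW hQ₁c (by omega) h1 h2
  have t1 : Th F E c Q₁ b1 1 := H88ZExtTh.ext_th h hrec hcen hRQ hQN hu1 hb1 hb1E hb1Rs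
  have t2 : Th F E c (normalizerIn T R) κ 1 := H88ZTh.th_of_E h hκ
  have t3 : Th F E c Q₂ l 1 := H88ZTh.th_of_E h hl
  have t4 : Th F E c (normalizerIn T R) (fun x => b1 (κ x)) (1 * 1) :=
    H88ZThComp.th_comp h t2 t1 (fun x hx => IsMap.mem_image hκN hx)
  have t5 : Th F E c (normalizerIn T R) (fun x => l (b1 (κ x))) (1 * (1 * 1)) :=
    H88ZThComp.th_comp h t4 t3 (fun x hx => IsMap.mem_image hb1Q (IsMap.mem_image hκN hx))
  have t6 : Th F E c (normalizerIn T R) b (1 * (1 * 1)) :=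
    H88ZTh.th_congr t5 (fun x hx => (hfac x hx).symm)
  have t7 : Th F E c (normalizerIn T R) b (c b) := H88ZTh.th_of_aut hNT hb
  have := H88ZUniq.uniq h hW hNc hcN t7 t6
  simpa using this

/-- (W).  `WP (Nat.card T + 1)` is vacuous (`R ≤ T` from `hR.1`, `Subgroup.card_le_of_le`, `h.finT`);
go down with `wstep` (`Nat.decreasingInduction` or induction on `k` in `WP (Nat.card T + 1 - k)`). -/
theorem w [Finite S] [Fact p.Prime] (h : Ctx p F E c) : WP F E c 0 := by
  have hvac : WP F E c (Nat.card T + 1) := by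
    intro R hR hn
    haveI := h.finT
    have := Subgroup.card_le_of_le hR.1
    omega
  have hall : ∀ k, WP F E c (Nat.card T + 1 - k) := by
    intro k
    induction k with
    | zero => exact hvac
    | succ k ih =>
      by_cases hk : k < Nat.card T + 1
      · have e : Nat.card T + 1 - k = (Nat.card T + 1 - (k + 1)) + 1 := by omega
        rw [e] at ih
        exact wstep h ih
      · have e : Nat.card T + 1 - (k + 1) = Nat.card T + 1 - k := by omega
        rw [e]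
        exact ih
  have := hall (Nat.card T + 1)
  simpa using this

end Cfsg.Agent.Lib.H88ZWStep
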