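import Mathlib
import Cfsg.Agent.Lib.H88ZVoc
import Cfsg.Agent.Lib.H88ZWStep
import Cfsg.Agent.Lib.H88ZProd
import Cfsg.Agent.Lib.H88ZProdInv
import Cfsg.Agent.Lib.H88ZChi
import Cfsg.Agent.Lib.H88ZCen

set_option autoImplicit false

namespace Cfsg.Agent.Lib.H88ZW

open Cfsg Cfsg.FusionSystem Cfsg.Agent.Lib.Helper87Fusion Cfsg.Agent.Lib.H88ZVoc
  Cfsg.Agent.Lib.H88ZDefs Cfsg.Agent.Lib.H37PrDefs

universe u

variable {Ω : Type u} [Group Ω] {S T : Subgroup Ω} {p : ℕ} {F : FusionSystem S}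
  {E D₂ : FusionSystem T}

/-- (W'): an element of `Aut_E(T)` whose restriction to some `E`-centric subgroup is a map of `D₂` lies in `Aut_{D₂}(T)`. -/
theorem wprime [Finite S] [Fact p.Prime] (h : Hyp p F E D₂) {R : Subgroup Ω} (hR : E.IsCentric R)
    {a : Ω → Ω} (ha : IsMap E T a) (haR : IsMap D₂ R a) : IsMap D₂ T a := by
  haveI := h.finT
  obtain ⟨F', hF'⟩ := H88ZProd.exists_prod h
  have hinv := H88ZProdInv.prod_inv h hF'
  obtain ⟨Δ, _, c, hc, hc1⟩ := H88ZChi.exists_c h hF' hinv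
  have hW := H88ZWStep.w hc
  have haF' : IsMap F' T a :=
    (hF' T a).2 ⟨a, fun x => x, ha, isMap_id' D₂ le_rfl, fun _ _ => rfl⟩
  exact hc1 a haF' (hW R (H88ZCen.centric h hR) (Nat.zero_le _) a haF' haR)

end Cfsg.Agent.Lib.H88ZW
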