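import Mathlib
import Cfsg.Agent.Lib.H89TrBasic

set_option autoImplicit false

namespace Cfsg.Agent.Lib.H89TrBrAut

open Cfsg Cfsg.FusionSystem Cfsg.Agent.Lib.Helper87Fusion Cfsg.Agent.Lib.H89TrDefs
  Cfsg.Agent.Lib.H89TrBasic

variable {Ω : Type*} [Group Ω]

/-- carrier of `imageAlong`. -/
theorem coe_imageAlong {S : Subgroup Ω} (α : S ≃* S) {t : Ω → Ω} (ht : ∀ x : S, t x = α x)
    {P : Subgroup Ω} (hP : P ≤ S) :
    ((imageAlong (S.subtype.comp α.toMonoidHom) P : Subgroup Ω) : Set Ω) = t '' (P : Set Ω) := by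
  ext y
  constructor
  · rintro ⟨z, hz, rfl⟩
    exact ⟨z, Subgroup.mem_subgroupOf.1 hz, by rw [ht z]; rfl⟩
  · rintro ⟨x, hx, rfl⟩
    exact ⟨⟨x, hP hx⟩, Subgroup.mem_subgroupOf.2 hx, by rw [ht ⟨x, hP hx⟩]; rfl⟩

theorem push_of {S : Subgroup Ω} (F : FusionSystem S) (α : S ≃* S)
    (hα : F.IsMorphism F (S.subtype.comp α.toMonoidHom)) {t s : Ω → Ω} (ht : ∀ x : S, t x = α x)
    (hs : ∀ x : S, s x = α.symm x) : Push t s F F := by
  intro P P' f hf hPP'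
  obtain ⟨φ, hφ, hφf⟩ := hf
  have hP : P ≤ S := (F.le_of_mem hφ).1
  obtain ⟨φ', hφ', hPS, hφS, hP', hind⟩ := hα.2 P φ hφ
  have himg : imageAlong (S.subtype.comp α.toMonoidHom) P = P' :=
    SetLike.coe_injective (by rw [coe_imageAlong α ht hP, hPP'])
  subst himg
  refine ⟨φ', hφ', ?_⟩
  rintro ⟨y, z, hz, rfl⟩
  have hzP : (z : Ω) ∈ P := Subgroup.mem_subgroupOf.1 hz
  have h1 := hind ⟨z, hzP⟩
  have h2 : s ((S.subtype.comp α.toMonoidHom) z) = z := by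
    show s ((α z : S) : Ω) = z
    rw [hs, MulEquiv.symm_apply_apply]
  have h3 : t (φ ⟨z, hzP⟩) = (S.subtype.comp α.toMonoidHom) ⟨φ ⟨z, hzP⟩, hφS _⟩ := ht ⟨_, hφS _⟩
  show _ = t (f (s ((S.subtype.comp α.toMonoidHom) z)))
  rw [h2, ← hφf ⟨z, hzP⟩, h3, ← h1]

/-- an automorphism `α` of `S` that is (with its inverse) a morphism `F → F`, as a `Corr`. -/
theorem exists_ts {S : Subgroup Ω} (F : FusionSystem S) (α : S ≃* S)
    (hα : F.IsMorphism F (S.subtype.comp α.toMonoidHom))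
    (hα' : F.IsMorphism F (S.subtype.comp α.symm.toMonoidHom)) :
    ∃ t s : Ω → Ω, (∀ x : S, t x = α x) ∧ Corr t s F F := by
  classical
  obtain ⟨t, ht⟩ : ∃ t : Ω → Ω, ∀ x : S, t x = α x :=
    ⟨fun x => if h : x ∈ S then α ⟨x, h⟩ else 1, fun x => by simp⟩
  obtain ⟨s, hs⟩ : ∃ s : Ω → Ω, ∀ x : S, s x = α.symm x :=
    ⟨fun x => if h : x ∈ S then α.symm ⟨x, h⟩ else 1, fun x => by simp⟩
  refine ⟨t, s, ht, ?_, push_of F α hα ht hs, push_of F α.symm hα' hs (by simpa using ht)⟩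
  constructor
  · intro x hx
    rw [ht ⟨x, hx⟩]; exact (α _).2
  · intro y hy
    rw [hs ⟨y, hy⟩]; exact (α.symm _).2
  · intro x hx
    rw [ht ⟨x, hx⟩, hs, MulEquiv.symm_apply_apply]
  · intro y hy
    rw [hs ⟨y, hy⟩, ht, MulEquiv.apply_symm_apply]
  · intro x hx y hy
    have h1 := ht (⟨x, hx⟩ * ⟨y, hy⟩)
    rw [map_mul] at h1
    rw [ht ⟨x, hx⟩, ht ⟨y, hy⟩]
    exact h1

end Cfsg.Agent.Lib.H89TrBrAut
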