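import Mathlib

set_option autoImplicit false
set_option linter.unusedSectionVars false

/-! Row S2533 (project 2533): a group of order `2 p ^ 3` embeds in `PSL (2 k + 1, p)` (`k ≥ 3` odd) with trivial centralizer.

`GD p` = generalized dihedral group of `(ZMod p) ^ 3`.  On `F ^ k ⊕ F ^ (k + 1)` the element `(a, s)` acts by the block matrix
`[[1, 0], [a 0 • X + a 1 • Y + a 2 • Z, s]]`; `(X, Y)` is the preprojective Kronecker module of dimension `(k, k + 1)`, whose only
endomorphisms are the scalars. -/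

namespace Cfsg.Agent.Lib.H90BkDefs

/-- the generalized dihedral group of `(ZMod p) ^ 3` -/
@[ext] structure GD (p : ℕ) : Type where
  v : Fin 3 → ZMod p
  s : ℤˣ

variable {p : ℕ}

instance : Mul (GD p) := ⟨fun x y => ⟨x.v + (x.s : ℤ) • y.v, x.s * y.s⟩⟩
instance : One (GD p) := ⟨⟨0, 1⟩⟩
instance : Inv (GD p) := ⟨fun x => ⟨-((x.s : ℤ) • x.v), x.s⟩⟩

@[simp] theorem mul_v (x y : GD p) : (x * y).v = x.v + (x.s : ℤ) • y.v := rfl
@[simp] theorem mul_s (x y : GD p) : (x * y).s = x.s * y.s := rfl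
@[simp] theorem one_v : (1 : GD p).v = 0 := rfl
@[simp] theorem one_s : (1 : GD p).s = 1 := rfl
@[simp] theorem inv_v (x : GD p) : (x⁻¹).v = -((x.s : ℤ) • x.v) := rfl
@[simp] theorem inv_s (x : GD p) : (x⁻¹).s = x.s := rfl

instance : Group (GD p) where
  mul_assoc x y z := by
    ext1
    · simp only [mul_v, mul_s, smul_add, Units.val_mul, mul_smul, add_assoc]
    · simp only [mul_s, mul_assoc]
  one_mul x := by
    ext1
    · simp
    · simp
  mul_one x := by
    ext1
    · simp
    · simp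
  inv_mul_cancel x := by
    ext1
    · simp
    · simp [Int.units_mul_self]

/-- the index set `k + (k + 1)` -/
abbrev Idx (k : ℕ) : Type := Fin k ⊕ Fin (k + 1)

variable (k : ℕ) (R : Type*) [CommRing R]

/-- `e_j ↦ f_j` -/
def X : Matrix (Fin (k + 1)) (Fin k) R := Matrix.of fun i j => if i = j.castSucc then 1 else 0

/-- `e_j ↦ f_{j+1}` -/
def Y : Matrix (Fin (k + 1)) (Fin k) R := Matrix.of fun i j => if i = j.succ then 1 else 0

/-- `e_0 ↦ f_k`, the other `e_j ↦ 0` -/
def Z : Matrix (Fin (k + 1)) (Fin k) R :=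
  Matrix.of fun i j => if i = Fin.last k ∧ (j : ℕ) = 0 then 1 else 0

variable {R}

/-- the lower left block -/
def M (a : Fin 3 → R) : Matrix (Fin (k + 1)) (Fin k) R := a 0 • X k R + a 1 • Y k R + a 2 • Z k R

/-- the matrix of an element of `GD p` -/
def mat (x : GD p) : Matrix (Idx k) (Idx k) (ZMod p) :=
  Matrix.fromBlocks 1 0 (M k x.v) ((((x.s : ℤˣ) : ℤ) : ZMod p) • (1 : Matrix (Fin (k + 1)) (Fin (k + 1)) (ZMod p)))

/-- the translations -/
def tr (a : Fin 3 → ZMod p) : GD p := ⟨a, 1⟩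

/-- the reflection -/
def rf : GD p := ⟨0, -1⟩

/-- the two properties of a homomorphism `ψ : H →* S` that make `H → S / Z(S)` an embedding with trivial centralizer -/
def Good {H S : Type*} [Group H] [Group S] (ψ : H →* S) : Prop :=
  (∀ h, ψ h ∈ Subgroup.center S → h = 1) ∧
    ∀ g : S, (∀ h, g * ψ h * g⁻¹ * (ψ h)⁻¹ ∈ Subgroup.center S) → g ∈ Subgroup.center S

end Cfsg.Agent.Lib.H90BkDefs
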