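import Mathlib
import Cfsg.Agent.Lib.H90BkDefs

set_option autoImplicit false
set_option linter.unusedSectionVars false

namespace Cfsg.Agent.Lib.H90BkBrick

open Cfsg.Agent.Lib.H90BkDefs

/-! Row S2533, piece Brick: the Kronecker module `(X, Y)` has only scalar endomorphisms. -/

theorem brick {F : Type*} [Field F] (k : ℕ) (A : Matrix (Fin k) (Fin k) F)
    (D : Matrix (Fin (k + 1)) (Fin (k + 1)) F) (hX : D * X k F = X k F * A) (hY : D * Y k F = Y k F * A) :
    ∃ c : F, A = Matrix.scalar (Fin k) c ∧ D = Matrix.scalar (Fin (k + 1)) c := by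
  have DX : ∀ i j, (D * X k F) i j = D i j.castSucc := by
    intro i j
    rw [Matrix.mul_apply]
    simp [X]
  have DY : ∀ i j, (D * Y k F) i j = D i j.succ := by
    intro i j
    rw [Matrix.mul_apply]
    simp [Y]
  have XA1 : ∀ i' j, (X k F * A) (Fin.castSucc i') j = A i' j := by
    intro i' j
    rw [Matrix.mul_apply]
    simp [X]
  have XA2 : ∀ j, (X k F * A) (Fin.last k) j = 0 := by
    intro j
    rw [Matrix.mul_apply]
    apply Finset.sum_eq_zero
    intro l _
    have : Fin.last k ≠ l.castSucc := (Fin.castSucc_lt_last l).ne'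
    simp [X, this]
  have YA1 : ∀ i' j, (Y k F * A) (Fin.succ i') j = A i' j := by
    intro i' j
    rw [Matrix.mul_apply]
    simp [Y]
  have YA2 : ∀ j, (Y k F * A) 0 j = 0 := by
    intro j
    rw [Matrix.mul_apply]
    apply Finset.sum_eq_zero
    intro l _
    have : (0 : Fin (k + 1)) ≠ l.succ := (Fin.succ_ne_zero l).symm
    simp [Y, this]
  have a : ∀ i' j : Fin k, D i'.castSucc j.castSucc = A i' j := fun i' j => by
    rw [← DX, hX, XA1]
  have b : ∀ j : Fin k, D (Fin.last k) j.castSucc = 0 := fun j => by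
    rw [← DX, hX, XA2]
  have c : ∀ i' j : Fin k, D i'.succ j.succ = A i' j := fun i' j => by
    rw [← DY, hY, YA1]
  have d : ∀ j : Fin k, D 0 j.succ = 0 := fun j => by
    rw [← DY, hY, YA2]
  have T : ∀ (i j : ℕ) (hi : i < k) (hj : j < k),
      D ⟨i, by omega⟩ ⟨j, by omega⟩ = D ⟨i + 1, by omega⟩ ⟨j + 1, by omega⟩ := by
    intro i j hi hj
    exact (a ⟨i, hi⟩ ⟨j, hj⟩).trans (c ⟨i, hi⟩ ⟨j, hj⟩).symm
  have C1 : ∀ (i j : ℕ) (hij : i < j) (hj : j < k + 1), D ⟨i, by omega⟩ ⟨j, hj⟩ = 0 := by
    intro i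
    induction i with
    | zero =>
      intro j hij hj
      obtain ⟨j', rfl⟩ : ∃ j', j = j' + 1 := ⟨j - 1, by omega⟩
      exact d ⟨j', by omega⟩
    | succ i ih =>
      intro j hij hj
      obtain ⟨j', rfl⟩ : ∃ j', j = j' + 1 := ⟨j - 1, by omega⟩
      rw [← T i j' (by omega) (by omega)]
      exact ih j' (by omega) (by omega)
  have C2 : ∀ (n i j : ℕ) (hn : i + n = k) (hij : j < i), D ⟨i, by omega⟩ ⟨j, by omega⟩ = 0 := by
    intro n
    induction n with
    | zero =>
      intro i j hn hij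
      have hik : i = k := by omega
      subst hik
      exact b ⟨j, hij⟩
    | succ n ih =>
      intro i j hn hij
      rw [T i j (by omega) (by omega)]
      exact ih (i + 1) (j + 1) (by omega) (by omega)
  have C3 : ∀ (i : ℕ) (hi : i < k + 1), D ⟨i, hi⟩ ⟨i, hi⟩ = D 0 0 := by
    intro i
    induction i with
    | zero => intro _; rfl
    | succ i ih =>
      intro hi
      rw [← T i i (by omega) (by omega)]
      exact ih (by omega)
  have hD : ∀ i j : Fin (k + 1), D i j = if i = j then D 0 0 else 0 := by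
    rintro ⟨i, hi⟩ ⟨j, hj⟩
    rcases lt_trichotomy i j with h | h | h
    · rw [if_neg (by simp; omega)]
      exact C1 i j h hj
    · subst h
      rw [if_pos rfl]
      exact C3 i hi
    · rw [if_neg (by simp; omega)]
      exact C2 (k - i) i j (by omega) h
  refine ⟨D 0 0, ?_, ?_⟩
  · ext i j
    rw [← a, hD, Matrix.scalar_apply, Matrix.diagonal_apply]
    simp only [Fin.castSucc_inj]
  · ext i j
    rw [hD, Matrix.scalar_apply, Matrix.diagonal_apply]

end Cfsg.Agent.Lib.H90BkBrick
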