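import Mathlib
import Cfsg.Agent.Lib.H90BkDefs

set_option autoImplicit false
set_option linter.unusedSectionVars false

namespace Cfsg.Agent.Lib.H90BkCard

open Cfsg.Agent.Lib.H90BkDefs

/-! Row S2533, piece Card: `GD p ≃ (Fin 3 → ZMod p) × ℤˣ`; `ZMod.card`, `Fintype.card_units_int`, `Fintype.card_fun` / `Fintype.card_pi`. -/

/-- the underlying pair -/
def equivProd (p : ℕ) : GD p ≃ (Fin 3 → ZMod p) × ℤˣ where
  toFun x := (x.v, x.s)
  invFun y := ⟨y.1, y.2⟩
  left_inv _ := rfl
  right_inv _ := rfl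

theorem finite_GD (p : ℕ) [NeZero p] : Finite (GD p) :=
  Finite.of_equiv _ (equivProd p).symm

theorem card_GD (p : ℕ) [NeZero p] : Nat.card (GD p) = 2 * p ^ 3 := by
  rw [Nat.card_congr (equivProd p), Nat.card_prod, Nat.card_eq_fintype_card, Nat.card_eq_fintype_card,
    Fintype.card_units_int, Fintype.card_fun, ZMod.card, Fintype.card_fin, mul_comm]

end Cfsg.Agent.Lib.H90BkCard
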