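import Mathlib
import Cfsg.Agent.Lib.H90BkDefs

set_option autoImplicit false
set_option linter.unusedSectionVars false

namespace Cfsg.Agent.Lib.H90BkDiag

open Cfsg.Agent.Lib.H90BkDefs

/-! Row S2533, piece Diag. -/

variable {p : ℕ}

theorem mat_rf (k : ℕ) : mat k (rf : GD p) = Matrix.fromBlocks 1 0 0 (-1) := by
  simp [mat, rf, M]

theorem mat_tr' (k : ℕ) (a : Fin 3 → ZMod p) : mat k (tr a) = Matrix.fromBlocks 1 0 (M k a) 1 := by
  simp [mat, tr]

theorem eq_zero_of_eq_neg [Fact p.Prime] (hp : p ≠ 2) {m n : Type*} (B : Matrix m n (ZMod p)) (h : -B = B) :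
    B = 0 := by
  ext i j
  have h1 := congrFun (congrFun h i) j
  simp only [Matrix.neg_apply] at h1
  have h2 : (2 : ZMod p) * B i j = 0 := by
    calc (2 : ZMod p) * B i j = B i j + B i j := by ring
      _ = B i j + - B i j := by rw [h1]
      _ = 0 := by ring
  have h3 : (2 : ZMod p) ≠ 0 := by
    intro h2
    have h3 : ((2 : ℕ) : ZMod p) = 0 := by exact_mod_cast h2
    rw [ZMod.natCast_eq_zero_iff] at h3
    exact hp ((Nat.prime_dvd_prime_iff_eq (Fact.out : p.Prime) Nat.prime_two).mp h3)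
  rcases mul_eq_zero.mp h2 with h | h
  · exact absurd h h3
  · simpa using h

/-- `G = fromBlocks A B C D`, `t = fromBlocks 1 0 0 (-1)`: `G * t = fromBlocks A (-B) C (-D)`, `t * G = fromBlocks A B (-C) (-D)`;
so `B = -B`, `C = -C`, hence `B = 0`, `C = 0` (`p ≠ 2`). -/
theorem diag [Fact p.Prime] (hp : p ≠ 2) (k : ℕ) (G : Matrix (Idx k) (Idx k) (ZMod p))
    (h : G * mat k rf = mat k rf * G) :
    ∃ (A : Matrix (Fin k) (Fin k) (ZMod p)) (D : Matrix (Fin (k + 1)) (Fin (k + 1)) (ZMod p)),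
      G = Matrix.fromBlocks A 0 0 D := by
  refine ⟨G.toBlocks₁₁, G.toBlocks₂₂, ?_⟩
  rw [mat_rf] at h
  conv at h => rw [← Matrix.fromBlocks_toBlocks G]
  rw [Matrix.fromBlocks_multiply, Matrix.fromBlocks_multiply, Matrix.fromBlocks_inj] at h
  obtain ⟨-, h12, h21, -⟩ := h
  simp only [Matrix.mul_zero, zero_add, Matrix.mul_neg, Matrix.mul_one, Matrix.one_mul, Matrix.zero_mul, add_zero,
    Matrix.neg_mul] at h12 h21
  have hB := eq_zero_of_eq_neg hp _ h12
  have hC := eq_zero_of_eq_neg hp _ h21.symm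
  conv_lhs => rw [← Matrix.fromBlocks_toBlocks G]
  rw [hB, hC]

/-- lower left blocks: `D * M k a = M k a * A`; take `a = ![1, 0, 0]` and `a = ![0, 1, 0]`. -/
theorem comm (k : ℕ) (A : Matrix (Fin k) (Fin k) (ZMod p)) (D : Matrix (Fin (k + 1)) (Fin (k + 1)) (ZMod p))
    (h : ∀ a : Fin 3 → ZMod p,
      Matrix.fromBlocks A 0 0 D * mat k (tr a) = mat k (tr a) * Matrix.fromBlocks A 0 0 D) :
    D * X k (ZMod p) = X k (ZMod p) * A ∧ D * Y k (ZMod p) = Y k (ZMod p) * A := by
  have key : ∀ a : Fin 3 → ZMod p, D * M k a = M k a * A := by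
    intro a
    have := h a
    rw [mat_tr', Matrix.fromBlocks_multiply, Matrix.fromBlocks_multiply, Matrix.fromBlocks_inj] at this
    obtain ⟨-, -, h21, -⟩ := this
    simpa using h21
  constructor
  · have := key ![1, 0, 0]
    simpa [M] using this
  · have := key ![0, 1, 0]
    simpa [M] using this

end Cfsg.Agent.Lib.H90BkDiag
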