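import Mathlib
import Cfsg.Agent.Lib.H90BkDefs

set_option autoImplicit false
set_option linter.unusedSectionVars false

namespace Cfsg.Agent.Lib.H90BkRef

open Cfsg.Agent.Lib.H90BkDefs

/-! Row S2533, piece Ref. -/

variable {p : ℕ}

theorem no_right_inv {F : Type*} [Field F] (k : ℕ) (C : Matrix (Fin (k + 1)) (Fin k) F)
    (B : Matrix (Fin k) (Fin (k + 1)) F) : C * B ≠ 1 := by
  intro h
  have h1 := Matrix.rank_mul_le_left C B
  have h2 := Matrix.rank_le_width C
  rw [h, Matrix.rank_one, Fintype.card_fin] at h1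
  omega

theorem mat_rf (k : ℕ) : mat k (rf : GD p) = Matrix.fromBlocks 1 0 0 (-1) := by
  unfold mat M rf
  simp

theorem refl_one [Fact p.Prime] (hp : p ≠ 2) (k : ℕ) (G G' : Matrix (Idx k) (Idx k) (ZMod p)) (h1 : G * G' = 1)
    (r : ZMod p) (h : G * mat k rf = r • (mat k rf * G)) : r = 1 := by
  by_contra hr
  have hr' : (1 - r) ≠ 0 := sub_ne_zero.2 (Ne.symm hr)
  rw [← Matrix.fromBlocks_toBlocks G, mat_rf, Matrix.fromBlocks_multiply, Matrix.fromBlocks_multiply,
    Matrix.fromBlocks_smul] at h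
  obtain ⟨e11, -, -, e22⟩ := Matrix.fromBlocks_inj.1 h
  have hA : G.toBlocks₁₁ = 0 := by
    have e : (1 - r) • G.toBlocks₁₁ = 0 := by
      rw [sub_smul, one_smul, sub_eq_zero]
      simpa using e11
    exact (smul_eq_zero.1 e).resolve_left hr'
  have hD : G.toBlocks₂₂ = 0 := by
    have e : (1 - r) • G.toBlocks₂₂ = 0 := by
      rw [sub_smul, one_smul, sub_eq_zero]
      simpa using e22
    exact (smul_eq_zero.1 e).resolve_left hr'
  rw [← Matrix.fromBlocks_toBlocks G, ← Matrix.fromBlocks_toBlocks G', Matrix.fromBlocks_multiply,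
    ← Matrix.fromBlocks_one] at h1
  obtain ⟨-, -, -, f22⟩ := Matrix.fromBlocks_inj.1 h1
  rw [hD, zero_mul, add_zero] at f22
  exact no_right_inv k _ _ f22

end Cfsg.Agent.Lib.H90BkRef
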