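import Mathlib
import Cfsg.Agent.Lib.H90BkDefs

set_option autoImplicit false
set_option linter.unusedSectionVars false

namespace Cfsg.Agent.Lib.H90BkUni

open Cfsg.Agent.Lib.H90BkDefs

/-! Row S2533, piece Uni.  `u := mat k (tr a) = fromBlocks 1 0 (M k a) 1`, `(u - 1) * (u - 1) = 0`.
From `G * u = r • (u * G)`: `G * (u - 1) = (r • u - 1) * G`, so `(r • u - 1) * (r • u - 1) * G = G * ((u - 1) * (u - 1)) = 0`, and multiplying by `G'`:
`(r • u - 1) * (r • u - 1) = 0`.  Its entry `(inl 0, inl 0)` is `(r - 1) ^ 2` (`r • u - 1 = fromBlocks ((r - 1) • 1) 0 (r • M k a) ((r - 1) • 1)`). -/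

variable {p : ℕ}

theorem mat_tr (k : ℕ) (a : Fin 3 → ZMod p) : mat k (tr a) = Matrix.fromBlocks 1 0 (M k a) 1 := by
  simp [mat, tr]

theorem uni [Fact p.Prime] (k : ℕ) (hk : 1 ≤ k) (G G' : Matrix (Idx k) (Idx k) (ZMod p)) (h1 : G * G' = 1)
    (a : Fin 3 → ZMod p) (r : ZMod p) (h : G * mat k (tr a) = r • (mat k (tr a) * G)) : r = 1 := by
  obtain ⟨k', rfl⟩ : ∃ k', k = k' + 1 := ⟨k - 1, by omega⟩
  set u := mat (k' + 1) (tr a) with hu
  have hN : (u - 1) * (u - 1) = 0 := by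
    have : u - 1 = Matrix.fromBlocks 0 0 (M (k' + 1) a) 0 := by
      rw [hu, mat_tr, sub_eq_iff_eq_add, ← Matrix.fromBlocks_one, Matrix.fromBlocks_add]
      simp
    rw [this, Matrix.fromBlocks_multiply]
    simp
  have hW : G * (u - 1) = (r • u - 1) * G := by
    rw [mul_sub, sub_mul, h, mul_one, one_mul, Matrix.smul_mul]
  have hWW : (r • u - 1) * (r • u - 1) = 0 := by
    have h2 : (r • u - 1) * (r • u - 1) * G = 0 := by
      rw [mul_assoc, ← hW, ← mul_assoc, ← hW, mul_assoc, hN, mul_zero]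
    calc (r • u - 1) * (r • u - 1) = (r • u - 1) * (r • u - 1) * (G * G') := by rw [h1, mul_one]
      _ = ((r • u - 1) * (r • u - 1) * G) * G' := by rw [mul_assoc, mul_assoc, mul_assoc]
      _ = 0 := by rw [h2, zero_mul]
  have hform : r • u - 1 = Matrix.fromBlocks ((r - 1) • (1 : Matrix (Fin (k' + 1)) (Fin (k' + 1)) (ZMod p))) 0
      (r • M (k' + 1) a) ((r - 1) • (1 : Matrix (Fin (k' + 1 + 1)) (Fin (k' + 1 + 1)) (ZMod p))) := by
    rw [hu, mat_tr, Matrix.fromBlocks_smul, sub_eq_iff_eq_add, ← Matrix.fromBlocks_one, Matrix.fromBlocks_add]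
    simp [sub_smul]
  rw [hform, Matrix.fromBlocks_multiply] at hWW
  have e := congrFun (congrFun hWW (Sum.inl 0)) (Sum.inl 0)
  simp only [Matrix.fromBlocks_apply₁₁, Matrix.zero_mul, add_zero, Matrix.smul_mul, Matrix.mul_smul, mul_one,
    Matrix.smul_apply, Matrix.one_apply_eq, smul_eq_mul, Matrix.zero_apply, smul_zero, Matrix.add_apply] at e
  have : r - 1 = 0 := by
    rcases mul_eq_zero.mp e with h | h <;> exact h
  exact sub_eq_zero.mp this

end Cfsg.Agent.Lib.H90BkUni
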