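import Mathlib
import Cfsg.Agent.Lib.H90BkDefs
import Cfsg.Agent.Lib.H90BkBrick
import Cfsg.Agent.Lib.H90BkUni
import Cfsg.Agent.Lib.H90BkRef
import Cfsg.Agent.Lib.H90BkDiag

set_option autoImplicit false
set_option linter.unusedSectionVars false

namespace Cfsg.Agent.Lib.H90BkCen

open Cfsg.Agent.Lib.H90BkDefs Cfsg.Agent.Lib.H90BkBrick Cfsg.Agent.Lib.H90BkUni Cfsg.Agent.Lib.H90BkRef Cfsg.Agent.Lib.H90BkDiag

/-! Row S2533, piece Cen (assembly at the level of matrices): `refl_one` + `diag` give `G = fromBlocks A 0 0 D`; `uni` + `comm` + `brick` give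
`A = scalar c`, `D = scalar c`; `fromBlocks (scalar c) 0 0 (scalar c) = scalar c` (ext on `Sum`, or `Matrix.fromBlocks_diagonal`-like simp). -/

variable {p : ℕ}

theorem scalar_of_comm [Fact p.Prime] (hp : p ≠ 2) (k : ℕ) (hk : 1 ≤ k) (G G' : Matrix (Idx k) (Idx k) (ZMod p))
    (h1 : G * G' = 1) (h : ∀ x : GD p, ∃ r : ZMod p, G * mat k x = r • (mat k x * G)) :
    ∃ c : ZMod p, G = Matrix.scalar (Idx k) c := by
  obtain ⟨r, hr⟩ := h rf
  have hr1 := refl_one hp k G G' h1 r hr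
  rw [hr1, one_smul] at hr
  obtain ⟨A, D, hG⟩ := diag hp k G hr
  have hcomm : ∀ a : Fin 3 → ZMod p,
      Matrix.fromBlocks A 0 0 D * mat k (tr a) = mat k (tr a) * Matrix.fromBlocks A 0 0 D := by
    intro a
    obtain ⟨r, hr⟩ := h (tr a)
    have hr1 := uni k hk G G' h1 a r hr
    rw [hr1, one_smul, hG] at hr
    exact hr
  obtain ⟨hX, hY⟩ := comm k A D hcomm
  obtain ⟨c, hA, hD⟩ := brick k A D hX hY
  refine ⟨c, ?_⟩
  rw [hG, hA, hD]
  ext i j
  rcases i with i | i <;> rcases j with j | j <;> simp [Matrix.scalar_apply, Matrix.diagonal_apply]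

end Cfsg.Agent.Lib.H90BkCen
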