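import Mathlib
import Cfsg.Agent.Lib.H90BkDefs

set_option autoImplicit false
set_option linter.unusedSectionVars false

namespace Cfsg.Agent.Lib.H90BkInj

open Cfsg.Agent.Lib.H90BkDefs

/-! Row S2533, piece Inj.  Compare entries of `mat k x = scalar r`: entry `(inl 0, inl 0)`: `r = 1`; entry `(inr 0, inr 0)`:
`(s : ZMod p) = 1`, so `s = 1` (`Int.units_eq_one_or`, `-1 ≠ 1` in `ZMod p` as `p ≠ 2`); entries `(inr 0, inl 0)`, `(inr 1, inl 0)`,
`(inr (last k), inl 0)` of the lower left block `M k x.v` are `x.v 0`, `x.v 1`, `x.v 2` (here `2 ≤ k`), all `0`. -/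

variable {p : ℕ}

theorem eq_one_of_scalar [Fact p.Prime] (hp : p ≠ 2) (k : ℕ) (hk : 2 ≤ k) (x : GD p) (r : ZMod p)
    (h : mat k x = Matrix.scalar (Idx k) r) : x = 1 := by
  obtain ⟨k', rfl⟩ : ∃ k', k = k' + 2 := ⟨k - 2, by omega⟩
  have e1 := congrFun (congrFun h (Sum.inl 0)) (Sum.inl 0)
  have e2 := congrFun (congrFun h (Sum.inr 0)) (Sum.inr 0)
  have e3 := congrFun (congrFun h (Sum.inr 0)) (Sum.inl 0)
  have e4 := congrFun (congrFun h (Sum.inr 1)) (Sum.inl 0)
  have e5 := congrFun (congrFun h (Sum.inr (Fin.last (k' + 2)))) (Sum.inl 0)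
  simp only [mat, Matrix.fromBlocks_apply₁₁, Matrix.one_apply_eq, Matrix.scalar_apply,
    Matrix.diagonal_apply_eq] at e1
  simp only [mat, Matrix.fromBlocks_apply₂₂, Matrix.smul_apply, Matrix.one_apply_eq, smul_eq_mul, mul_one,
    Matrix.scalar_apply, Matrix.diagonal_apply_eq] at e2
  have hne : ∀ (i : Fin (k' + 2 + 1)) (j : Fin (k' + 2)),
      (Matrix.scalar (Idx (k' + 2)) r) (Sum.inr i) (Sum.inl j) = 0 := by
    intro i j
    simp [Matrix.scalar_apply, Matrix.diagonal_apply]
  rw [hne] at e3 e4 e5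
  simp only [mat, Matrix.fromBlocks_apply₂₁, M, X, Y, Z, Matrix.add_apply, Matrix.smul_apply, Matrix.of_apply,
    smul_eq_mul] at e3 e4 e5
  have c1 : (0 : Fin (k' + 2 + 1)) = (0 : Fin (k' + 2)).castSucc := rfl
  have c2 : (0 : Fin (k' + 2 + 1)) ≠ (0 : Fin (k' + 2)).succ := by
    intro hh; simpa using congrArg Fin.val hh
  have c3 : (0 : Fin (k' + 2 + 1)) ≠ Fin.last (k' + 2) := by
    intro hh; simpa using congrArg Fin.val hh
  have c4 : (1 : Fin (k' + 2 + 1)) ≠ (0 : Fin (k' + 2)).castSucc := by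
    intro hh; simpa using congrArg Fin.val hh
  have c5 : (1 : Fin (k' + 2 + 1)) = (0 : Fin (k' + 2)).succ := rfl
  have c6 : (1 : Fin (k' + 2 + 1)) ≠ Fin.last (k' + 2) := by
    intro hh
    have := congrArg Fin.val hh
    simp at this
  have c7 : Fin.last (k' + 2) ≠ (0 : Fin (k' + 2)).castSucc := by
    intro hh; simpa using congrArg Fin.val hh
  have c8 : Fin.last (k' + 2) ≠ (0 : Fin (k' + 2)).succ := by
    intro hh
    have := congrArg Fin.val hh
    simp at this
  rw [if_pos c1, if_neg c2, if_neg (fun hh => c3 hh.1)] at e3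
  rw [if_neg c4, if_pos c5, if_neg (fun hh => c6 hh.1)] at e4
  rw [if_neg c7, if_neg c8, if_pos (by simp)] at e5
  simp only [mul_one, mul_zero, add_zero, zero_add] at e3 e4 e5
  have hs : x.s = 1 := by
    rcases Int.units_eq_one_or x.s with hs | hs
    · exact hs
    · exfalso
      rw [hs, ← e1] at e2
      have h2 : (2 : ZMod p) = 0 := by
        have : (-1 : ZMod p) = 1 := by simpa using e2
        calc (2 : ZMod p) = 1 + 1 := by norm_num
          _ = 1 + -1 := by rw [this]
          _ = 0 := by ring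
      have h3 : ((2 : ℕ) : ZMod p) = 0 := by exact_mod_cast h2
      rw [ZMod.natCast_eq_zero_iff] at h3
      have := (Nat.prime_dvd_prime_iff_eq (Fact.out : p.Prime) Nat.prime_two).mp h3
      exact hp this
  ext1
  · funext i
    fin_cases i
    · exact e3
    · exact e4
    · exact e5
  · exact hs

end Cfsg.Agent.Lib.H90BkInj
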