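import Mathlib
import Cfsg.Agent.Lib.H90BkDefs
import Cfsg.Agent.Lib.H90BkInj
import Cfsg.Agent.Lib.H90BkCen

set_option autoImplicit false
set_option linter.unusedSectionVars false

namespace Cfsg.Agent.Lib.H90BkGood

open Cfsg.Agent.Lib.H90BkDefs Cfsg.Agent.Lib.H90BkInj Cfsg.Agent.Lib.H90BkCen

/-! Row S2533, piece Good. -/

variable {p : ℕ}

theorem good [Fact p.Prime] (hp : p ≠ 2) (k : ℕ) (hk : 2 ≤ k)
    (ψ : GD p →* Matrix.SpecialLinearGroup (Idx k) (ZMod p))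
    (hψ : ∀ x, (ψ x : Matrix (Idx k) (Idx k) (ZMod p)) = mat k x) : Good ψ := by
  constructor
  · intro h hh
    obtain ⟨r, -, hr⟩ := Matrix.SpecialLinearGroup.mem_center_iff.1 hh
    exact eq_one_of_scalar hp k hk h r (by rw [hr, hψ])
  · intro g hg
    have h1 : (g : Matrix (Idx k) (Idx k) (ZMod p)) *
        ((g⁻¹ : Matrix.SpecialLinearGroup (Idx k) (ZMod p)) : Matrix (Idx k) (Idx k) (ZMod p)) = 1 := by
      rw [← Matrix.SpecialLinearGroup.coe_mul, mul_inv_cancel, Matrix.SpecialLinearGroup.coe_one]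
    have h2 : ∀ x : GD p, ∃ r : ZMod p, (g : Matrix (Idx k) (Idx k) (ZMod p)) * mat k x =
        r • (mat k x * (g : Matrix (Idx k) (Idx k) (ZMod p))) := by
      intro x
      obtain ⟨r, -, hr⟩ := Matrix.SpecialLinearGroup.mem_center_iff.1 (hg x)
      refine ⟨r, ?_⟩
      have e : g * ψ x = (g * ψ x * g⁻¹ * (ψ x)⁻¹) * (ψ x * g) := by group
      have e' : ((g * ψ x : Matrix.SpecialLinearGroup (Idx k) (ZMod p)) :
          Matrix (Idx k) (Idx k) (ZMod p)) =
          (((g * ψ x * g⁻¹ * (ψ x)⁻¹) * (ψ x * g) : Matrix.SpecialLinearGroup (Idx k) (ZMod p)) :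
          Matrix (Idx k) (Idx k) (ZMod p)) := by rw [← e]
      rw [Matrix.SpecialLinearGroup.coe_mul, Matrix.SpecialLinearGroup.coe_mul (g * ψ x * g⁻¹ * (ψ x)⁻¹),
        ← hr, Matrix.SpecialLinearGroup.coe_mul (ψ x) g, hψ] at e'
      rw [e', Matrix.scalar_apply, ← Matrix.smul_eq_diagonal_mul]
    obtain ⟨c, hc⟩ := scalar_of_comm hp k (by omega) _ _ h1 h2
    refine Matrix.SpecialLinearGroup.mem_center_iff.2 ⟨c, ?_, hc.symm⟩
    have hdet := g.det_coe
    rw [hc, Matrix.scalar_apply, Matrix.det_diagonal, Finset.prod_const, Finset.card_univ] at hdet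
    exact hdet

end Cfsg.Agent.Lib.H90BkGood
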