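import Mathlib
import Cfsg.Agent.Lib.H90BkDefs

set_option autoImplicit false
set_option linter.unusedSectionVars false

namespace Cfsg.Agent.Lib.H90BkHom

open Cfsg.Agent.Lib.H90BkDefs

/-! Row S2533, piece Hom: `mat k` is multiplicative, of determinant `s ^ (k + 1) = 1` for `k` odd. -/

variable {p : ℕ}

theorem M_add (k : ℕ) (a b : Fin 3 → ZMod p) : M k (a + b) = M k a + M k b := by
  unfold M
  simp only [Pi.add_apply, add_smul]
  abel

theorem M_zsmul (k : ℕ) (n : ℤ) (a : Fin 3 → ZMod p) : M k (n • a) = (n : ZMod p) • M k a := by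
  unfold M
  simp only [Pi.smul_apply, zsmul_eq_mul, smul_add, smul_smul]

theorem mat_one (k : ℕ) : mat k (1 : GD p) = 1 := by
  unfold mat M
  simp [Matrix.fromBlocks_one]

/-- `Matrix.fromBlocks_multiply`; lower left block: `M x.v * 1 + (s • 1) * M y.v = M (x.v + s • y.v)`. -/
theorem mat_mul (k : ℕ) (x y : GD p) : mat k (x * y) = mat k x * mat k y := by
  unfold mat
  rw [Matrix.fromBlocks_multiply, mul_v, mul_s, M_add, M_zsmul]
  congr 1
  · simp
  · simp
  · simp
  · simp [smul_smul, mul_comm]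

/-- `Matrix.det_fromBlocks_zero₁₂`, `Matrix.det_smul`, `Fintype.card_fin`; `s ^ (k + 1) = 1` as `k + 1` is even
(`Int.units_eq_one_or`). -/
theorem det_mat (k : ℕ) (hk : Odd k) (x : GD p) : (mat k x).det = 1 := by
  unfold mat
  rw [Matrix.det_fromBlocks_zero₁₂, Matrix.det_one, Matrix.det_smul, Matrix.det_one, Fintype.card_fin,
    one_mul, mul_one]
  have hev : Even (k + 1) := hk.add_one
  rcases Int.units_eq_one_or x.s with h | h
  · rw [h]; simp
  · rw [h]
    simp [hev.neg_one_pow]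

theorem exists_hom (k : ℕ) (hk : Odd k) :
    ∃ ψ : GD p →* Matrix.SpecialLinearGroup (Idx k) (ZMod p),
      ∀ x, (ψ x : Matrix (Idx k) (Idx k) (ZMod p)) = mat k x := by
  refine ⟨MonoidHom.mk' (fun x => ⟨mat k x, det_mat k hk x⟩) ?_, fun x => rfl⟩
  intro x y
  apply Subtype.ext
  exact mat_mul k x y

end Cfsg.Agent.Lib.H90BkHom
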