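import Mathlib
import Cfsg.Agent.Lib.H90BkDefs

set_option autoImplicit false
set_option linter.unusedSectionVars false

namespace Cfsg.Agent.Lib.H90BkQuot

open Cfsg.Agent.Lib.H90BkDefs

/-! Row S2533, piece Quot (abstract group theory). -/

/-- injective: `mk (ψ h) = 1 ↔ ψ h ∈ center` (`QuotientGroup.eq_one_iff`, `injective_iff_map_eq_one`).  Centralizer: `x = mk g` (`QuotientGroup.mk_surjective`)
commutes with all `mk (ψ h)` iff all `g * ψ h * g⁻¹ * (ψ h)⁻¹ ∈ center` (`QuotientGroup.eq_one_iff` applied to the image of the commutator). -/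
theorem quot {H S : Type*} [Group H] [Group S] (ψ : H →* S) (h : Good ψ) :
    Function.Injective ((QuotientGroup.mk' (Subgroup.center S)).comp ψ) ∧
      Subgroup.centralizer
        ((((QuotientGroup.mk' (Subgroup.center S)).comp ψ).range : Subgroup (S ⧸ Subgroup.center S)) :
          Set (S ⧸ Subgroup.center S)) = ⊥ := by
  constructor
  · rw [injective_iff_map_eq_one]
    intro a ha
    apply h.1
    rw [MonoidHom.comp_apply, QuotientGroup.mk'_apply, QuotientGroup.eq_one_iff] at ha
    exact ha
  · rw [eq_bot_iff]
    intro x hx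
    obtain ⟨g, rfl⟩ := QuotientGroup.mk_surjective x
    rw [Subgroup.mem_bot, QuotientGroup.eq_one_iff]
    apply h.2
    intro a
    rw [← QuotientGroup.eq_one_iff]
    have h1 := (Subgroup.mem_centralizer_iff.mp hx)
      (((QuotientGroup.mk' (Subgroup.center S)).comp ψ) a) ⟨a, rfl⟩
    rw [MonoidHom.comp_apply, QuotientGroup.mk'_apply] at h1
    rw [QuotientGroup.mk_mul, QuotientGroup.mk_mul, QuotientGroup.mk_mul, ← h1, QuotientGroup.mk_inv,
      QuotientGroup.mk_inv]
    group

theorem mem_center_congr {S S' : Type*} [Group S] [Group S'] (e : S ≃* S') (x : S) :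
    e x ∈ Subgroup.center S' ↔ x ∈ Subgroup.center S := by
  rw [Subgroup.mem_center_iff, Subgroup.mem_center_iff]
  constructor
  · intro h g
    apply e.injective
    rw [map_mul, map_mul]
    exact h (e g)
  · intro h g
    obtain ⟨g', rfl⟩ := e.surjective g
    rw [← map_mul, ← map_mul, h g']

/-- `x ∈ center S ↔ e x ∈ center S'` (`Subgroup.mem_center_iff` and surjectivity of `e`). -/
theorem good_congr {H S S' : Type*} [Group H] [Group S] [Group S'] (e : S ≃* S') (ψ : H →* S) (h : Good ψ) :
    Good (e.toMonoidHom.comp ψ) := by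
  constructor
  · intro a ha
    apply h.1
    exact (mem_center_congr e _).mp ha
  · intro g hg
    obtain ⟨g', rfl⟩ := e.surjective g
    rw [mem_center_congr]
    apply h.2
    intro a
    rw [← mem_center_congr e]
    have := hg a
    simpa using this

end Cfsg.Agent.Lib.H90BkQuot
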