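import Mathlib
import Cfsg.Agent.Lib.H90BkDefs

set_option autoImplicit false
set_option linter.unusedSectionVars false

namespace Cfsg.Agent.Lib.H90BkReidx

open Cfsg.Agent.Lib.H90BkDefs

/-! Row S2533, piece Reidx: `A ↦ Matrix.reindex e e A` (`Matrix.det_reindex_self`, `Matrix.reindexAlgEquiv` / `Matrix.submatrix_mul_equiv`). -/

theorem exists_equiv {m n : Type*} [Fintype m] [DecidableEq m] [Fintype n] [DecidableEq n] (R : Type*) [CommRing R]
    (e : m ≃ n) : Nonempty (Matrix.SpecialLinearGroup m R ≃* Matrix.SpecialLinearGroup n R) := by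
  refine ⟨{ toFun := fun A => ⟨Matrix.reindex e e A.1, by rw [Matrix.det_reindex_self]; exact A.2⟩
            invFun := fun A => ⟨Matrix.reindex e.symm e.symm A.1, by
              rw [Matrix.det_reindex_self]; exact A.2⟩
            left_inv := ?_
            right_inv := ?_
            map_mul' := ?_ }⟩
  · intro A
    apply Subtype.ext
    ext i j
    simp
  · intro A
    apply Subtype.ext
    ext i j
    simp
  · intro A B
    apply Subtype.ext
    change Matrix.reindex e e (A.1 * B.1) = Matrix.reindex e e A.1 * Matrix.reindex e e B.1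
    simp only [Matrix.reindex_apply]
    rw [Matrix.submatrix_mul_equiv]

end Cfsg.Agent.Lib.H90BkReidx
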