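import Mathlib
set_option autoImplicit false
open Module

namespace Cfsg.Agent.Lib.Helper7EluC1

section model
variable {F : Type*} [Field F] {E : Type*} [Field E] [Algebra F E]

/-- multiplication by `ζ` on the first factor, identity on the second -/
def fM (a b : ℕ) (ζ : E) : Module.End F ((Fin a → E) × (Fin b → F)) where
  toFun x := (ζ • x.1, x.2)
  map_add' x y := by simp [smul_add]
  map_smul' c x := by simp [smul_comm ζ c]

theorem fM_pow (a b : ℕ) (ζ : E) (k : ℕ) (x : (Fin a → E) × (Fin b → F)) :
    ((fM (F := F) a b ζ) ^ k) x = (ζ ^ k • x.1, x.2) := by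
  induction k with
  | zero => simp
  | succ k ih =>
    rw [pow_succ', Module.End.mul_apply, ih]
    show (ζ • (ζ ^ k • x.1), x.2) = _
    rw [smul_smul, pow_succ']

theorem eig_fM (a b : ℕ) (ζ : E) (hζ : ζ ≠ 1) :
    Module.End.eigenspace (fM (F := F) a b ζ) 1 = LinearMap.range (LinearMap.inr F (Fin a → E) (Fin b → F)) := by
  ext x
  rw [Module.End.mem_eigenspace_iff, one_smul, LinearMap.mem_range]
  constructor
  · intro h
    refine ⟨x.2, ?_⟩
    have h1 : ζ • x.1 = x.1 := congrArg Prod.fst h
    have h2 : x.1 = 0 := by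
      funext j
      have := congrFun h1 j
      simp only [Pi.smul_apply, smul_eq_mul] at this
      have h3 : (ζ - 1) * x.1 j = 0 := by linear_combination this
      exact (mul_eq_zero.1 h3).resolve_left (sub_ne_zero.2 hζ)
    ext j
    · simp [h2]
    · simp
  · rintro ⟨y, rfl⟩
    show (ζ • (0 : Fin a → E), y) = (0, y)
    rw [smul_zero]

end model

variable {F : Type*} [Field F] [Fintype F]

theorem exists_end_max (r : ℕ) [Fact r.Prime] (hr : ¬ r ∣ Fintype.card F) (n : ℕ) :
    ∃ f : Module.End F (Fin n → F), f ^ r = 1 ∧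
      finrank F ↥(Module.End.eigenspace f 1) = n % orderOf (Fintype.card F : ZMod r) := by
  classical
  set q := Fintype.card F with hq
  set i := orderOf (q : ZMod r) with hi
  have hrp : r.Prime := Fact.out
  have hq0 : (q : ZMod r) ≠ 0 := by
    rw [Ne, ZMod.natCast_eq_zero_iff]
    exact hr
  have hipos : 0 < i := by
    rw [hi, orderOf_pos_iff, isOfFinOrder_iff_pow_eq_one]
    exact ⟨r - 1, Nat.sub_pos_of_lt hrp.one_lt, ZMod.pow_card_sub_one_eq_one hq0⟩
  have : NeZero i := ⟨hipos.ne'⟩
  obtain ⟨p, hp⟩ := CharP.exists F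
  have : Fact p.Prime := ⟨CharP.char_is_prime F p⟩
  let E := FiniteField.Extension F p i
  have : Fintype E := Fintype.ofFinite E
  have hcardE : Fintype.card E = q ^ i := by
    rw [Fintype.card_eq_nat_card, FiniteField.natCard_extension, Nat.card_eq_fintype_card]
  have hq1 : 1 ≤ q ^ i := Nat.one_le_pow _ _ Fintype.card_pos
  have hdvd : r ∣ Fintype.card Eˣ := by
    rw [Fintype.card_units, hcardE, ← ZMod.natCast_eq_zero_iff, Nat.cast_sub hq1]
    push_cast
    rw [hi, pow_orderOf_eq_one, sub_self]
  obtain ⟨ζ, hζ⟩ := exists_prime_orderOf_dvd_card r hdvd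
  have hζ1 : (ζ : E) ≠ 1 := by
    intro h
    have : ζ = 1 := Units.ext h
    rw [this, orderOf_one] at hζ
    exact hrp.one_lt.ne hζ
  have hζr : (ζ : E) ^ r = 1 := by
    have := pow_orderOf_eq_one ζ
    rw [hζ] at this
    have h2 := congrArg Units.val this
    simpa using h2
  have hfin : finrank F ((Fin (n / i) → E) × (Fin (n % i) → F)) = finrank F (Fin n → F) := by
    rw [Module.finrank_prod, Module.finrank_pi_fintype, Module.finrank_fintype_fun_eq_card,
      Module.finrank_fintype_fun_eq_card]
    simp only [FiniteField.finrank_extension, Finset.sum_const, Finset.card_univ, Fintype.card_fin,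
      smul_eq_mul, E]
    rw [mul_comm]
    exact Nat.div_add_mod n i
  let e : ((Fin (n / i) → E) × (Fin (n % i) → F)) ≃ₗ[F] (Fin n → F) := LinearEquiv.ofFinrankEq _ _ hfin
  let f' := fM (F := F) (n / i) (n % i) (ζ : E)
  refine ⟨e.conjRingEquiv f', ?_, ?_⟩
  · rw [← map_pow]
    have : f' ^ r = 1 := by
      ext x <;> simp [f', fM_pow, hζr]
    rw [this, map_one]
  · have h1 : Module.End.eigenspace (e.conjRingEquiv f') 1
        = (Module.End.eigenspace f' 1).map e.toLinearMap := by
      ext x
      rw [Module.End.mem_eigenspace_iff, one_smul, Submodule.mem_map]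
      constructor
      · intro h
        refine ⟨e.symm x, ?_, by simp⟩
        rw [Module.End.mem_eigenspace_iff, one_smul]
        apply e.injective
        simpa using h
      · rintro ⟨y, hy, rfl⟩
        rw [Module.End.mem_eigenspace_iff, one_smul] at hy
        simp [hy]
    rw [h1, LinearEquiv.finrank_map_eq, eig_fM _ _ _ hζ1,
      LinearMap.finrank_range_of_inj LinearMap.inr_injective, Module.finrank_fintype_fun_eq_card,
      Fintype.card_fin]

end Cfsg.Agent.Lib.Helper7EluC1
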