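import Mathlib
set_option autoImplicit false
open Module

namespace Cfsg.Agent.Lib.Helper7EluC3

variable {F : Type*} [Field F] [Fintype F]

theorem core (r : ℕ) [Fact r.Prime] (hr : r ∣ Fintype.card F - 1) (n : ℕ) (hn : 0 < n) :
    (∃ c : F, (∀ d : F, d ^ r ≠ c) ∧ r ∣ n ∧ c ^ (n / r) = 1) ↔
      padicValNat r (Fintype.card F - 1) < padicValNat r n := by
  classical
  have hrp : r.Prime := Fact.out
  set q := Fintype.card F with hq
  have hq1 : q - 1 ≠ 0 := by
    have : 1 < q := Fintype.one_lt_card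
    omega
  set e := padicValNat r (q - 1) with he
  obtain ⟨γ, hγ⟩ := IsCyclic.exists_generator (α := Fˣ)
  have hord : orderOf γ = q - 1 := by
    rw [orderOf_eq_card_of_forall_mem_zpowers hγ, Nat.card_eq_fintype_card, Fintype.card_units]
  have hpow : ∀ u : Fˣ, ∃ t : ℕ, γ ^ t = u := by
    intro u
    have := (mem_powers_iff_mem_zpowers (x := γ) (y := u)).2 (hγ u)
    exact Submonoid.mem_powers_iff _ _ |>.1 this
  have hre : r ^ e ∣ q - 1 := pow_padicValNat_dvd
  constructor
  · rintro ⟨c, hc, hrn, hcn⟩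
    have hc0 : c ≠ 0 := by
      rintro rfl
      exact hc 0 (zero_pow hrp.ne_zero)
    obtain ⟨t, ht⟩ := hpow (Units.mk0 c hc0)
    have hrt : ¬ r ∣ t := by
      rintro ⟨t', rfl⟩
      apply hc ((γ ^ t' : Fˣ) : F)
      have := congrArg Units.val ht
      rw [Units.val_mk0] at this
      rw [← this, ← Units.val_pow_eq_pow_val, ← pow_mul, mul_comm]
    have h1 : γ ^ (t * (n / r)) = 1 := by
      rw [pow_mul, ht]
      apply Units.ext
      simpa using hcn
    have h2 : q - 1 ∣ t * (n / r) := hord ▸ orderOf_dvd_of_pow_eq_one h1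
    have h3 : r ^ e ∣ n / r := by
      have hcop : Nat.Coprime (r ^ e) t :=
        Nat.Coprime.pow_left e ((Nat.Prime.coprime_iff_not_dvd hrp).2 hrt)
      exact hcop.dvd_of_dvd_mul_left (hre.trans h2)
    have h4 : r ^ (e + 1) ∣ n := by
      obtain ⟨n', rfl⟩ := hrn
      rw [Nat.mul_div_cancel_left _ hrp.pos] at h3
      rw [pow_succ']
      exact Nat.mul_dvd_mul_left r h3
    exact (padicValNat_dvd_iff_le hn.ne').1 h4
  · intro hlt
    have h4 : r ^ (e + 1) ∣ n := (padicValNat_dvd_iff_le hn.ne').2 hlt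
    have hrn : r ∣ n := (dvd_pow_self r (Nat.succ_ne_zero e)).trans h4
    have h3 : r ^ e ∣ n / r := by
      obtain ⟨n', rfl⟩ := hrn
      rw [Nat.mul_div_cancel_left _ hrp.pos]
      rw [pow_succ'] at h4
      exact Nat.dvd_of_mul_dvd_mul_left hrp.pos h4
    obtain ⟨m, hm⟩ := hre
    have hrm : ¬ r ∣ m := by
      rintro ⟨m', rfl⟩
      have : r ^ (e + 1) ∣ q - 1 := ⟨m', by rw [hm, pow_succ]; ring⟩
      exact pow_succ_padicValNat_not_dvd hq1 this
    refine ⟨((γ ^ m : Fˣ) : F), ?_, hrn, ?_⟩
    · intro d hd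
      have hd0 : d ≠ 0 := by
        rintro rfl
        rw [zero_pow hrp.ne_zero] at hd
        exact (Units.ne_zero _) hd.symm
      obtain ⟨s, hs⟩ := hpow (Units.mk0 d hd0)
      have h5 : γ ^ (s * r) = γ ^ m := by
        rw [pow_mul, hs]
        apply Units.ext
        simpa using hd
      rw [pow_eq_pow_iff_modEq, hord] at h5
      exact hrm ((h5.dvd_iff hr).1 (Dvd.intro_left s rfl))
    · rw [← Units.val_pow_eq_pow_val, ← pow_mul]
      have : γ ^ (m * (n / r)) = 1 := by
        rw [← orderOf_dvd_iff_pow_eq_one, hord, hm, mul_comm]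
        exact Nat.mul_dvd_mul_left m h3
      rw [this, Units.val_one]

theorem exists_c_iff (r : ℕ) [Fact r.Prime] (hr : r ∣ Fintype.card F - 1) (n : ℕ) (hn : 0 < n) :
    (∃ c : F, (∀ d : F, d ^ r ≠ c) ∧ r ∣ n ∧ ((-1) ^ (r + 1) * c) ^ (n / r) = 1) ↔
      ¬ (padicValNat r n ≤ padicValNat r (Fintype.card F - 1) ∧
          (r = 2 → Even n → Fintype.card F % 4 = 1)) := by
  have hrp : r.Prime := Fact.out
  have hq1 : 1 < Fintype.card F := Fintype.one_lt_card
  by_cases hr2 : r = 2
  · subst hr2
    have hodd : Fintype.card F % 2 = 1 := by omega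
    by_cases h4 : Fintype.card F % 4 = 1
    · have hsq : IsSquare (-1 : F) := FiniteField.isSquare_neg_one_iff.2 (by omega)
      obtain ⟨i, hi⟩ := hsq
      have key : (∃ c : F, (∀ d : F, d ^ 2 ≠ c) ∧ 2 ∣ n ∧ ((-1) ^ (2 + 1) * c) ^ (n / 2) = 1) ↔
          (∃ c : F, (∀ d : F, d ^ 2 ≠ c) ∧ 2 ∣ n ∧ c ^ (n / 2) = 1) := by
        constructor
        · rintro ⟨c, hc, h2n, hcn⟩
          refine ⟨-c, ?_, h2n, ?_⟩
          · intro d hd
            apply hc (i * d)
            rw [mul_pow, hd, pow_two, ← hi]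
            ring
          · have : ((-1 : F) ^ (2 + 1) * c) = -c := by ring
            rwa [this] at hcn
        · rintro ⟨c, hc, h2n, hcn⟩
          refine ⟨-c, ?_, h2n, ?_⟩
          · intro d hd
            apply hc (i * d)
            rw [mul_pow, hd, pow_two, ← hi]
            ring
          · have : ((-1 : F) ^ (2 + 1) * -c) = c := by ring
            rwa [this]
      rw [key, core 2 hr n hn]
      simp only [h4, implies_true, and_true, not_le]
    · have h43 : Fintype.card F % 4 = 3 := by omega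
      have hns : ¬ IsSquare (-1 : F) := by
        rw [FiniteField.isSquare_neg_one_iff]
        omega
      have hv : padicValNat 2 (Fintype.card F - 1) = 1 := by
        have h1 : (2 : ℕ) ^ 1 ∣ Fintype.card F - 1 := by omega
        have h2 : ¬ (2 : ℕ) ^ 2 ∣ Fintype.card F - 1 := by omega
        have hne : Fintype.card F - 1 ≠ 0 := by omega
        rw [padicValNat_dvd_iff_le hne] at h1 h2
        omega
      constructor
      · rintro ⟨c, hc, h2n, hcn⟩ ⟨-, h⟩
        exact h4 (h rfl (even_iff_two_dvd.2 h2n))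
      · intro h
        have hev : Even n := by
          by_contra hne
          apply h
          refine ⟨?_, fun _ he => absurd he hne⟩
          rw [hv]
          have : ¬ (2 : ℕ) ^ 1 ∣ n := by
            rw [pow_one]
            exact fun hd => hne (even_iff_two_dvd.2 hd)
          rw [padicValNat_dvd_iff_le hn.ne'] at this
          omega
        refine ⟨-1, ?_, even_iff_two_dvd.1 hev, ?_⟩
        · intro d hd
          exact hns ⟨d, by rw [← hd, pow_two]⟩
        · have : ((-1 : F) ^ (2 + 1) * -1) = 1 := by ring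
          rw [this, one_pow]
  · have hodd : Odd r := hrp.odd_of_ne_two hr2
    have h1 : ((-1 : F)) ^ (r + 1) = 1 := Even.neg_one_pow hodd.add_one
    simp only [h1, one_mul]
    rw [core r hr n hn]
    simp [hr2]

end Cfsg.Agent.Lib.Helper7EluC3
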