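import Mathlib
set_option autoImplicit false
open Module

namespace Cfsg.Agent.Lib.Helper87EluA5

variable {F : Type*} [Field F]

theorem card_congr_of_linearEquiv {V V' : Type*} [AddCommGroup V] [Module F V] [AddCommGroup V'] [Module F V']
    (e : V ≃ₗ[F] V') (m : ℕ) :
    Nat.card {W : Submodule F V // finrank F W = m} = Nat.card {W : Submodule F V' // finrank F W = m} := by
  apply Nat.card_congr
  refine Equiv.subtypeEquiv (Submodule.orderIsoMapComap e).toEquiv fun W => ?_
  have : finrank F ↥(W.map (e : V →ₗ[F] V')) = finrank F W := LinearEquiv.finrank_map_eq e W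
  constructor
  · intro h; rw [← h]; exact this
  · intro h; rw [← h]; exact this.symm

variable {V : Type*} [AddCommGroup V] [Module F V] [FiniteDimensional F V]

/-- A5 -/
theorem card_finrank_compl (m : ℕ) (hm : m ≤ finrank F V) :
    Nat.card {W : Submodule F V // finrank F W = finrank F V - m}
      = Nat.card {W : Submodule F V // finrank F W = m} := by
  have e : V ≃ₗ[F] Dual F V := LinearEquiv.ofFinrankEq _ _ Subspace.dual_finrank_eq.symm
  rw [card_congr_of_linearEquiv e m]
  apply Nat.card_congr
  refine Equiv.subtypeEquiv ((Subspace.orderIsoFiniteDimensional (K := F) (V := V)).toEquiv.trans OrderDual.ofDual) fun W => ?_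
  have h := Subspace.finrank_add_finrank_dualAnnihilator_eq W
  have h2 : ((Subspace.orderIsoFiniteDimensional (K := F) (V := V)).toEquiv.trans OrderDual.ofDual) W = W.dualAnnihilator := rfl
  rw [h2]
  have h3 : finrank F W ≤ finrank F V := Submodule.finrank_le W
  omega

end Cfsg.Agent.Lib.Helper87EluA5
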