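import Cfsg.Agent.Lib.Helper87EluA1
import Cfsg.Agent.Lib.Helper87EluA5
set_option autoImplicit false
open Module

namespace Cfsg.Agent.Lib.Helper87EluA4

open Cfsg.Agent.Lib.Helper87EluA1 Cfsg.Agent.Lib.Helper87EluA5

variable {F : Type*} [Field F] [Fintype F] {V : Type*} [AddCommGroup V] [Module F V] [FiniteDimensional F V]

/-- subspaces of `V` inside `W` versus subspaces of `W` -/
noncomputable def belowEquiv (W : Submodule F V) (a : ℕ) :
    {U : Submodule F V // U ≤ W ∧ finrank F U = a} ≃ {U : Submodule F W // finrank F U = a} where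
  toFun U := ⟨(Submodule.MapSubtype.orderIso W).symm ⟨U.1, U.2.1⟩, by
    have h : ((Submodule.MapSubtype.orderIso W) ((Submodule.MapSubtype.orderIso W).symm ⟨U.1, U.2.1⟩)).1 = U.1 := by
      rw [OrderIso.apply_symm_apply]
    have h2 := LinearEquiv.finrank_eq (Submodule.equivMapOfInjective W.subtype W.injective_subtype
      ((Submodule.MapSubtype.orderIso W).symm ⟨U.1, U.2.1⟩))
    exact h2.trans ((congrArg (fun X : Submodule F V => finrank F X) h).trans U.2.2)⟩
  invFun U := ⟨U.1.map W.subtype, Submodule.map_subtype_le W U.1,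
    (LinearEquiv.finrank_eq (Submodule.equivMapOfInjective W.subtype W.injective_subtype U.1)).symm.trans U.2⟩
  left_inv U := by
    apply Subtype.ext
    have h := congrArg Subtype.val ((Submodule.MapSubtype.orderIso W).apply_symm_apply ⟨U.1, U.2.1⟩)
    exact h
  right_inv U := by
    apply Subtype.ext
    exact (Submodule.MapSubtype.orderIso W).symm_apply_apply U.1

/-- A4 -/
theorem dvd_flags (r : ℕ) (hr : r.Prime) (a b : ℕ)
    (h : r ∣ Nat.card {P : Submodule F V × Submodule F V //
        P.1 ≤ P.2 ∧ finrank F P.1 = a ∧ finrank F P.2 = b}) :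
    r ∣ Nat.card {W : Submodule F V // finrank F W = b} ∨
      ∃ W : Submodule F V, finrank F W = b ∧ r ∣ Nat.card {U : Submodule F W // finrank F U = a} := by
  classical
  have hfinS : Finite (Submodule F V) := finite_submodule
  by_cases hne : Nonempty {W : Submodule F V // finrank F W = b}
  swap
  · left
    rw [not_nonempty_iff] at hne
    rw [Nat.card_of_isEmpty]
    exact dvd_zero r
  obtain ⟨W₀⟩ := hne
  have e : {P : Submodule F V × Submodule F V // P.1 ≤ P.2 ∧ finrank F P.1 = a ∧ finrank F P.2 = b} ≃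
      Σ W : {W : Submodule F V // finrank F W = b}, {U : Submodule F V // U ≤ W.1 ∧ finrank F U = a} :=
    { toFun := fun P => ⟨⟨P.1.2, P.2.2.2⟩, ⟨P.1.1, P.2.1, P.2.2.1⟩⟩
      invFun := fun x => ⟨(x.2.1, x.1.1), x.2.2.1, x.2.2.2, x.1.2⟩
      left_inv := fun P => rfl
      right_inv := fun x => rfl }
  have : Fintype {W : Submodule F V // finrank F W = b} := Fintype.ofFinite _
  rw [Nat.card_congr e, Nat.card_sigma] at h
  have hfib : ∀ W : {W : Submodule F V // finrank F W = b},
      Nat.card {U : Submodule F V // U ≤ W.1 ∧ finrank F U = a}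
        = Nat.card {U : Submodule F W₀.1 // finrank F U = a} := by
    intro W
    rw [Nat.card_congr (belowEquiv W.1 a)]
    exact card_congr_of_linearEquiv (LinearEquiv.ofFinrankEq _ _ (by rw [W.2, W₀.2])) a
  simp only [hfib, Finset.sum_const, Finset.card_univ, smul_eq_mul] at h
  rcases (Nat.Prime.dvd_mul hr).mp h with h1 | h1
  · left; rwa [Nat.card_eq_fintype_card]
  · right; exact ⟨W₀.1, W₀.2, h1⟩

end Cfsg.Agent.Lib.Helper87EluA4
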