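import Mathlib
set_option autoImplicit false
open Module

namespace Cfsg.Agent.Lib.Helper87EluB1

variable {F : Type*} [Field F] {V : Type*} [AddCommGroup V] [Module F V] [FiniteDimensional F V]

/-- B1 -/
theorem finrank_congr [Fintype F] (r : ℕ) [Fact r.Prime] (hr : ¬ r ∣ Fintype.card F)
    (f : Module.End F V) (hf : f ^ r = 1) (W : Submodule F V) (hW : W.map f ≤ W) :
    ∃ k, finrank F W = finrank F ↥(W ⊓ Module.End.eigenspace f 1)
        + orderOf (Fintype.card F : ZMod r) * k := by
  classical
  have hW' : ∀ x ∈ W, f x ∈ W := fun x hx => hW (Submodule.mem_map_of_mem hx)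
  let g : Module.End F W := f.restrict hW'
  have hg : g ^ r = 1 := by
    ext x
    simp only [g]
    rw [Module.End.pow_restrict r hW']
    simp [hf]
  have : Finite V := Module.finite_of_finite F
  have : Fintype W := Fintype.ofFinite _
  have : Fintype ↥(W ⊓ Module.End.eigenspace f 1) := Fintype.ofFinite _
  let φ : Function.End W := (g : W → W)
  have hφ : φ ^ r ^ 1 = 1 := by
    rw [pow_one]
    funext x
    have h0 : ∀ (k : ℕ) (y : W), (φ ^ k) y = φ^[k] y := by
      intro k
      induction k with
      | zero => intro y; rfl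
      | succ k ih => intro y; rw [pow_succ, Function.iterate_succ_apply]; exact ih (φ y)
    have h1 : (φ ^ r) x = (g ^ r) x := by
      rw [Module.End.pow_apply]
      exact h0 r x
    rw [h1, hg]; rfl
  have hmod := Equiv.Perm.card_fixedPoints_modEq (p := r) (n := 1) hφ
  have e : ↥(Function.fixedPoints φ) ≃ ↥(W ⊓ Module.End.eigenspace f 1) :=
    { toFun := fun x => ⟨x.1.1, Submodule.mem_inf.mpr ⟨x.1.2, Module.End.mem_eigenspace_iff.mpr (by
        rw [one_smul]
        exact congrArg Subtype.val x.2)⟩⟩
      invFun := fun y => ⟨⟨y.1, (Submodule.mem_inf.mp y.2).1⟩, by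
        have h2 := Module.End.mem_eigenspace_iff.mp (Submodule.mem_inf.mp y.2).2
        rw [one_smul] at h2
        exact Subtype.ext h2⟩
      left_inv := fun x => rfl
      right_inv := fun y => rfl }
  rw [Fintype.card_congr e, Module.card_eq_pow_finrank (K := F) (V := W),
    Module.card_eq_pow_finrank (K := F) (V := ↥(W ⊓ Module.End.eigenspace f 1))] at hmod
  have hle : finrank F ↥(W ⊓ Module.End.eigenspace f 1) ≤ finrank F W := Submodule.finrank_mono inf_le_left
  generalize finrank F ↥(W ⊓ Module.End.eigenspace f 1) = b at *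
  generalize finrank F W = a at *
  have hq0 : (Fintype.card F : ZMod r) ≠ 0 := by
    rw [Ne, ZMod.natCast_eq_zero_iff]; exact hr
  have h3 : (Fintype.card F : ZMod r) ^ a = (Fintype.card F : ZMod r) ^ b := by
    have := (ZMod.natCast_eq_natCast_iff _ _ r).mpr hmod
    push_cast at this
    exact this
  have h4 : (Fintype.card F : ZMod r) ^ (a - b) = 1 := by
    have h5 : (Fintype.card F : ZMod r) ^ (a - b) * (Fintype.card F : ZMod r) ^ b
        = 1 * (Fintype.card F : ZMod r) ^ b := by
      rw [← pow_add, Nat.sub_add_cancel hle, one_mul, h3]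
    exact mul_right_cancel₀ (pow_ne_zero _ hq0) h5
  obtain ⟨k, hk⟩ := orderOf_dvd_of_pow_eq_one h4
  exact ⟨k, by omega⟩

end Cfsg.Agent.Lib.Helper87EluB1
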