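import Cfsg.Agent.Lib.Helper87EluB1
set_option autoImplicit false
open Module Polynomial

namespace Cfsg.Agent.Lib.Helper87EluB2

variable {F : Type*} [Field F] {V : Type*} [AddCommGroup V] [Module F V]

theorem aeval_mem (f : Module.End F V) (D : Submodule F V) (hD : D.map f ≤ D) (P : F[X]) (x : V)
    (hx : x ∈ D) : aeval f P x ∈ D := by
  have hD' : ∀ x ∈ D, f x ∈ D := fun x hx => hD (Submodule.mem_map_of_mem hx)
  rw [Polynomial.aeval_eq_sum_range, LinearMap.sum_apply]
  refine Submodule.sum_mem _ fun j _ => ?_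
  rw [LinearMap.smul_apply]
  exact Submodule.smul_mem _ _ (Module.End.pow_apply_mem_of_forall_mem j hD' x hx)

/-- an annihilated non zero vector yields a non zero vector annihilated by an irreducible factor -/
theorem exists_irreducible_factor (f : Module.End F V) (D : Submodule F V) (hD : D.map f ≤ D) (P : F[X])
    (hP : P ≠ 0) : ∀ v ∈ D, v ≠ 0 → aeval f P v = 0 →
      ∃ g : F[X], Irreducible g ∧ g ∣ P ∧ ∃ w ∈ D, w ≠ 0 ∧ aeval f g w = 0 := by
  induction P using WfDvdMonoid.induction_on_irreducible with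
  | zero => exact absurd rfl hP
  | unit u hu =>
    intro v _ hv0 hv
    exfalso
    obtain ⟨c, hc, rfl⟩ := Polynomial.isUnit_iff.mp hu
    rw [aeval_C, Module.algebraMap_end_apply] at hv
    exact hv0 ((smul_eq_zero.mp hv).resolve_left hc.ne_zero)
  | mul P g hP0 hg ih =>
    intro v hvD hv0 hv
    by_cases h : aeval f P v = 0
    · obtain ⟨g', hg', hdvd, w, hw⟩ := ih hP0 v hvD hv0 h
      exact ⟨g', hg', Dvd.dvd.mul_left hdvd g, w, hw⟩
    · refine ⟨g, hg, Dvd.intro _ rfl, aeval f P v, aeval_mem f D hD P v hvD, h, ?_⟩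
      rw [← Module.End.mul_apply, ← map_mul]
      exact hv

/-- the cyclic subspace generated by a vector killed by `g` -/
theorem exists_cyclic [FiniteDimensional F V] (f : Module.End F V) (D : Submodule F V) (hD : D.map f ≤ D) (g : F[X]) (hg : g ≠ 0)
    (w : V) (hwD : w ∈ D) (hw : aeval f g w = 0) :
    ∃ Z ≤ D, Z.map f ≤ Z ∧ w ∈ Z ∧ finrank F Z ≤ g.natDegree := by
  let ψ : F[X] →ₗ[F] V := (LinearMap.applyₗ w).comp (aeval f).toLinearMap
  have hψ : ∀ P, ψ P = aeval f P w := fun P => rfl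
  refine ⟨LinearMap.range ψ, ?_, ?_, ⟨1, by rw [hψ, map_one]; rfl⟩, ?_⟩
  · rintro _ ⟨P, rfl⟩
    exact aeval_mem f D hD P w hwD
  · rintro _ ⟨_, ⟨P, rfl⟩, rfl⟩
    refine ⟨X * P, ?_⟩
    rw [hψ, hψ, map_mul, aeval_X, Module.End.mul_apply]
  · have h1 : LinearMap.range ψ ≤ (degreeLT F g.natDegree).map ψ := by
      rintro _ ⟨P, rfl⟩
      refine ⟨P % g, ?_, ?_⟩
      · rw [SetLike.mem_coe, mem_degreeLT, ← degree_eq_natDegree hg]
        exact EuclideanDomain.mod_lt P hg
      · conv_rhs => rw [← EuclideanDomain.div_add_mod P g]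
        rw [hψ, hψ, map_add, LinearMap.add_apply, mul_comm, map_mul, Module.End.mul_apply, hw, map_zero,
          zero_add]
    have h2 : finrank F (degreeLT F g.natDegree) = g.natDegree := by
      rw [(degreeLTEquiv F g.natDegree).finrank_eq, finrank_fin_fun]
    have : FiniteDimensional F (degreeLT F g.natDegree) :=
      (degreeLTEquiv F g.natDegree).symm.finiteDimensional
    calc finrank F (LinearMap.range ψ) ≤ finrank F ((degreeLT F g.natDegree).map ψ) :=
          Submodule.finrank_mono h1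
      _ ≤ finrank F (degreeLT F g.natDegree) := Submodule.finrank_map_le _ _
      _ = g.natDegree := h2

/-- B2 -/
theorem exists_block [FiniteDimensional F V] [Fintype F] (r : ℕ) [Fact r.Prime] (hr : ¬ r ∣ Fintype.card F)
    (f : Module.End F V) (hf : f ^ r = 1) (D : Submodule F V) (hD : D.map f ≤ D) (hD0 : D ≠ ⊥)
    (hDC : D ⊓ Module.End.eigenspace f 1 = ⊥) :
    ∃ B ≤ D, B.map f ≤ B ∧ finrank F B = orderOf (Fintype.card F : ZMod r) := by
  have hrp : r.Prime := Fact.out
  obtain ⟨k, hp, hk⟩ := FiniteField.card F (ringChar F)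
  have : Fact (ringChar F).Prime := ⟨hp⟩
  have hcop : (ringChar F).Coprime r := by
    rw [Nat.coprime_primes hp hrp]
    rintro h
    apply hr
    rw [hk, ← h]
    exact dvd_pow_self _ k.ne_zero
  obtain ⟨v, hvD, hv0⟩ := (Submodule.ne_bot_iff D).mp hD0
  have hΦ : aeval f (cyclotomic r F) v = 0 := by
    have h1 : aeval f (cyclotomic r F) v ∈ D := aeval_mem f D hD _ v hvD
    have h2 : aeval f (cyclotomic r F) v ∈ Module.End.eigenspace f 1 := by
      rw [Module.End.mem_eigenspace_iff, one_smul]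
      have h3 : aeval f ((X - 1) * cyclotomic r F) = 0 := by
        rw [mul_comm, cyclotomic_prime_mul_X_sub_one]
        simp [hf]
      have h4 := congrArg (fun T : Module.End F V => T v) h3
      simp only [map_mul, map_sub, aeval_X, map_one, Module.End.mul_apply, LinearMap.sub_apply,
        Module.End.one_apply, LinearMap.zero_apply] at h4
      exact sub_eq_zero.mp h4
    have h5 : aeval f (cyclotomic r F) v ∈ D ⊓ Module.End.eigenspace f 1 := ⟨h1, h2⟩
    rw [hDC] at h5
    exact (Submodule.mem_bot F).mp h5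
  obtain ⟨g, hg, hgdvd, w, hwD, hw0, hw⟩ :=
    exists_irreducible_factor f D hD (cyclotomic r F) (cyclotomic_ne_zero r F) v hvD hv0 hΦ
  have hdeg := natDegree_of_dvd_cyclotomic_of_irreducible hk hcop hgdvd hg
  have hord : orderOf (ZMod.unitOfCoprime _ (hcop.pow_left k)) = orderOf (Fintype.card F : ZMod r) := by
    rw [← orderOf_units, ZMod.coe_unitOfCoprime, hk]
  rw [hord] at hdeg
  obtain ⟨Z, hZD, hZ, hwZ, hZdeg⟩ := exists_cyclic f D hD g hg.ne_zero w hwD hw
  refine ⟨Z, hZD, hZ, ?_⟩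
  obtain ⟨j, hj⟩ := Cfsg.Agent.Lib.Helper87EluB1.finrank_congr r hr f hf Z hZ
  have h6 : Z ⊓ Module.End.eigenspace f 1 = ⊥ := by
    rw [eq_bot_iff, ← hDC]
    exact inf_le_inf_right _ hZD
  rw [h6, finrank_bot, zero_add] at hj
  have h7 : 0 < finrank F Z := by
    rw [Module.finrank_pos_iff_exists_ne_zero]
    exact ⟨⟨w, hwZ⟩, fun h => hw0 (congrArg Subtype.val h)⟩
  rw [hdeg] at hZdeg
  have hj0 : j ≠ 0 := by
    rintro rfl
    omega
  have := Nat.le_mul_of_pos_right (orderOf (Fintype.card F : ZMod r)) (Nat.pos_of_ne_zero hj0)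
  omega

end Cfsg.Agent.Lib.Helper87EluB2
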