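import Mathlib
set_option autoImplicit false
open Module Polynomial

namespace Cfsg.Agent.Lib.Helper87EluB3

variable {F : Type*} [Field F] {V : Type*} [AddCommGroup V] [Module F V] [FiniteDimensional F V]

/-- B3 -/
theorem exists_rel_compl (r : ℕ) (hr : (r : F) ≠ 0) (g : Module.End F V) (c : F) (hc : c ≠ 0)
    (hg : g ^ r = c • 1) (X Q : Submodule F V) (hXQ : X ≤ Q) (hX : X.map g ≤ X) (hQ : Q.map g ≤ Q) :
    ∃ Y ≤ Q, Y.map g ≤ Y ∧ X ⊓ Y = ⊥ ∧ X ⊔ Y = Q := by
  have hsep : (Polynomial.X ^ r - C c : F[X]).Separable := separable_X_pow_sub_C c hr hc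
  have hss : g.IsSemisimple := by
    apply Module.End.isSemisimple_of_squarefree_aeval_eq_zero hsep.squarefree
    simp [hg, Algebra.algebraMap_eq_smul_one]
  obtain ⟨Y₀, hY₀, hc₀⟩ := (Module.End.isSemisimple_iff.mp hss) X
    (by rw [Module.End.mem_invtSubmodule]; exact Submodule.map_le_iff_le_comap.mp hX)
  rw [Module.End.mem_invtSubmodule] at hY₀
  have hY₀' : Y₀.map g ≤ Y₀ := Submodule.map_le_iff_le_comap.mpr hY₀
  refine ⟨Y₀ ⊓ Q, inf_le_right, ?_, ?_, ?_⟩
  · exact le_inf ((Submodule.map_mono inf_le_left).trans hY₀') ((Submodule.map_mono inf_le_right).trans hQ)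
  · rw [← inf_assoc, hc₀.inf_eq_bot, bot_inf_eq]
  · rw [← sup_inf_assoc_of_le _ hXQ, hc₀.sup_eq_top, top_inf_eq]

/-- B5 -/
theorem dvd_finrank_of_not_pow (r : ℕ) (hr : r.Prime) (g : Module.End F V) (c : F)
    (hg : g ^ r = c • 1) (hc : ∀ d : F, d ^ r ≠ c) (W : Submodule F V) (hW : W.map g ≤ W) :
    r ∣ finrank F W := by
  have hW' : ∀ x ∈ W, g x ∈ W := fun x hx => hW (Submodule.mem_map_of_mem hx)
  have hc0 : c ≠ 0 := fun h => hc 0 (by rw [h, zero_pow hr.ne_zero])
  let h : Module.End F W := g.restrict hW'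
  have hh : h ^ r = c • 1 := by
    ext x
    simp only [h]
    rw [Module.End.pow_restrict r hW']
    simp [hg]
  have hdet : (LinearMap.det h) ^ r = c ^ finrank F W := by
    rw [← map_pow, hh, LinearMap.det_smul, map_one, mul_one]
  by_contra hnd
  have hcop : Nat.Coprime (finrank F W) r := ((Nat.Prime.coprime_iff_not_dvd hr).mpr hnd).symm
  obtain ⟨a, ha⟩ := Nat.exists_mul_mod_eq_one_of_coprime hcop hr.one_lt
  -- finrank * a = 1 + r * b
  have hb : finrank F W * a = 1 + r * (finrank F W * a / r) := by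
    have := Nat.mod_add_div (finrank F W * a) r
    omega
  generalize finrank F W * a / r = b at hb
  apply hc ((LinearMap.det h) ^ a / c ^ b)
  rw [div_pow, ← pow_mul, mul_comm a r, pow_mul, hdet, ← pow_mul, hb, ← pow_mul, pow_add, pow_one,
    mul_comm b r, mul_div_assoc, div_self (pow_ne_zero _ hc0), mul_one]

end Cfsg.Agent.Lib.Helper87EluB3
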