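import Mathlib
set_option autoImplicit false
open Module

namespace Cfsg.Agent.Lib.Helper87EluB4

variable {F : Type*} [Field F] {V : Type*} [AddCommGroup V] [Module F V] [FiniteDimensional F V]

theorem exists_le_finrank_eq (S : Submodule F V) (m : ℕ) (hm : m ≤ finrank F S) :
    ∃ W ≤ S, finrank F W = m := by
  let b := Module.finBasis F S
  have hli : LinearIndependent F (fun j : Fin m => ((b (Fin.castLE hm j) : S) : V)) := by
    have h1 : LinearIndependent F (fun j : Fin m => b (Fin.castLE hm j)) :=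
      b.linearIndependent.comp _ (Fin.castLE_injective hm)
    exact h1.map' S.subtype (Submodule.ker_subtype S)
  refine ⟨Submodule.span F (Set.range fun j : Fin m => ((b (Fin.castLE hm j) : S) : V)), ?_, ?_⟩
  · rw [Submodule.span_le]
    rintro _ ⟨j, rfl⟩
    exact (b (Fin.castLE hm j)).2
  · rw [finrank_span_eq_card hli, Fintype.card_fin]

theorem finrank_sup_of_disjoint (A B : Submodule F V) (h : A ⊓ B = ⊥) :
    finrank F ↥(A ⊔ B) = finrank F A + finrank F B := by
  have := Submodule.finrank_sup_add_finrank_inf_eq A B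
  rw [h, finrank_bot, add_zero] at this
  exact this

/-- B4 (abstract: pure lattice + dimension argument) -/
theorem exists_invariant_le (i : ℕ) (hi : 0 < i) (f : Module.End F V)
    (h1 : ∀ W : Submodule F V, W.map f ≤ W →
      ∃ k, finrank F W = finrank F ↥(W ⊓ Module.End.eigenspace f 1) + i * k)
    (h2 : ∀ D : Submodule F V, D.map f ≤ D → D ≠ ⊥ → D ⊓ Module.End.eigenspace f 1 = ⊥ →
      ∃ B ≤ D, B.map f ≤ B ∧ finrank F B = i)
    (h3 : ∀ X Q : Submodule F V, X ≤ Q → X.map f ≤ X → Q.map f ≤ Q →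
      ∃ Y ≤ Q, Y.map f ≤ Y ∧ X ⊓ Y = ⊥ ∧ X ⊔ Y = Q)
    (m : ℕ) (Q : Submodule F V) (hQ : Q.map f ≤ Q) (hm : m ≤ finrank F Q)
    (hmod : m % i ≤ finrank F Q % i) : ∃ W ≤ Q, W.map f ≤ W ∧ finrank F W = m := by
  have hfix : ∀ W : Submodule F V, W ≤ Module.End.eigenspace f 1 → W.map f ≤ W := by
    rintro W hW _ ⟨x, hx, rfl⟩
    have := Module.End.mem_eigenspace_iff.mp (hW hx)
    rw [one_smul] at this
    rw [this]; exact hx
  induction m using Nat.strong_induction_on generalizing Q with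
  | _ m ih =>
    obtain ⟨k, hk⟩ := h1 Q hQ
    have hCle : finrank F Q % i ≤ finrank F ↥(Q ⊓ Module.End.eigenspace f 1) := by
      rw [hk, Nat.add_mul_mod_self_left]
      exact Nat.mod_le _ _
    by_cases hmi : m < i
    · rw [Nat.mod_eq_of_lt hmi] at hmod
      obtain ⟨W, hW, hWm⟩ := exists_le_finrank_eq (Q ⊓ Module.End.eigenspace f 1) m (hmod.trans hCle)
      exact ⟨W, hW.trans inf_le_left, hfix W (hW.trans inf_le_right), hWm⟩
    · push Not at hmi
      -- an invariant `B ≤ Q` of dimension `i`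
      obtain ⟨B, hBQ, hB, hBi⟩ : ∃ B ≤ Q, B.map f ≤ B ∧ finrank F B = i := by
        by_cases hCi : i ≤ finrank F ↥(Q ⊓ Module.End.eigenspace f 1)
        · obtain ⟨W, hW, hWm⟩ := exists_le_finrank_eq (Q ⊓ Module.End.eigenspace f 1) i hCi
          exact ⟨W, hW.trans inf_le_left, hfix W (hW.trans inf_le_right), hWm⟩
        · push Not at hCi
          obtain ⟨D, hDQ, hD, hdis, hsup⟩ := h3 (Q ⊓ Module.End.eigenspace f 1) Q inf_le_left
            (hfix _ inf_le_right) hQ
          have hD0 : D ≠ ⊥ := by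
            rintro rfl
            rw [sup_bot_eq] at hsup
            rw [hsup] at hCi
            omega
          have hDC : D ⊓ Module.End.eigenspace f 1 = ⊥ := by
            rw [eq_bot_iff, ← hdis]
            exact le_inf (le_inf (inf_le_left.trans hDQ) inf_le_right) inf_le_left
          obtain ⟨B, hBD, hB, hBi⟩ := h2 D hD hD0 hDC
          exact ⟨B, hBD.trans hDQ, hB, hBi⟩
      obtain ⟨Q', hQ'Q, hQ', hdis, hsup⟩ := h3 B Q hBQ hB hQ
      have hdim : finrank F Q = i + finrank F Q' := by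
        rw [← hsup, finrank_sup_of_disjoint B Q' hdis, hBi]
      obtain ⟨W', hW'Q', hW', hW'm⟩ := ih (m - i) (by omega) Q' hQ' (by omega) (by
        have e1 : m % i = (m - i) % i := by
          conv_lhs => rw [← Nat.sub_add_cancel hmi]
          rw [Nat.add_mod_right]
        have e2 : finrank F Q % i = finrank F Q' % i := by
          rw [hdim, Nat.add_mod_left]
        rw [← e1, ← e2]; exact hmod)
      refine ⟨B ⊔ W', sup_le hBQ (hW'Q'.trans hQ'Q), ?_, ?_⟩
      · rw [Submodule.map_sup]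
        exact sup_le_sup hB hW'
      · rw [finrank_sup_of_disjoint B W' (by
          rw [eq_bot_iff, ← hdis]; exact inf_le_inf_left _ hW'Q'), hBi, hW'm]
        omega

/-- B6 (abstract) -/
theorem exists_invariant_le_of_dvd (r : ℕ) (hr : 0 < r) (g : Module.End F V) (c : F)
    (hg : g ^ r = c • 1)
    (h5 : ∀ W : Submodule F V, W.map g ≤ W → r ∣ finrank F W)
    (h3 : ∀ X Q : Submodule F V, X ≤ Q → X.map g ≤ X → Q.map g ≤ Q →
      ∃ Y ≤ Q, Y.map g ≤ Y ∧ X ⊓ Y = ⊥ ∧ X ⊔ Y = Q)
    (m : ℕ) (Q : Submodule F V) (hQ : Q.map g ≤ Q) (hm : m ≤ finrank F Q) (hrm : r ∣ m) :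
    ∃ W ≤ Q, W.map g ≤ W ∧ finrank F W = m := by
  induction m using Nat.strong_induction_on generalizing Q with
  | _ m ih =>
    by_cases hm0 : m = 0
    · subst hm0
      exact ⟨⊥, bot_le, by simp, finrank_bot F V⟩
    have hrm' : r ≤ m := Nat.le_of_dvd (Nat.pos_of_ne_zero hm0) hrm
    have hQ' : ∀ x ∈ Q, g x ∈ Q := fun x hx => hQ (Submodule.mem_map_of_mem hx)
    have hQ0 : Q ≠ ⊥ := by
      rintro rfl
      rw [finrank_bot] at hm
      omega
    obtain ⟨v, hvQ, hv0⟩ := (Submodule.ne_bot_iff Q).mp hQ0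
    let B : Submodule F V := Submodule.span F (Set.range fun j : Fin r => (g ^ (j : ℕ)) v)
    have hBQ : B ≤ Q := by
      rw [Submodule.span_le]
      rintro _ ⟨j, rfl⟩
      exact Module.End.pow_apply_mem_of_forall_mem j hQ' v hvQ
    have hB : B.map g ≤ B := by
      rw [Submodule.map_span, Submodule.span_le]
      rintro _ ⟨_, ⟨j, rfl⟩, rfl⟩
      by_cases hj : (j : ℕ) + 1 < r
      · apply Submodule.subset_span
        refine ⟨⟨j + 1, hj⟩, ?_⟩
        show (g ^ ((j : ℕ) + 1)) v = g ((g ^ (j : ℕ)) v)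
        rw [pow_succ', Module.End.mul_apply]
      · have hj' : (j : ℕ) + 1 = r := by have := j.2; omega
        have : g ((g ^ (j : ℕ)) v) = c • v := by
          rw [← Module.End.mul_apply, ← pow_succ', hj', hg]; rfl
        rw [SetLike.mem_coe, this]
        apply Submodule.smul_mem
        apply Submodule.subset_span
        exact ⟨⟨0, hr⟩, by simp⟩
    have hvB : v ∈ B := Submodule.subset_span ⟨⟨0, hr⟩, by simp⟩
    have hBle : finrank F B ≤ r := by
      have := finrank_range_le_card (R := F) (fun j : Fin r => (g ^ (j : ℕ)) v)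
      rwa [Fintype.card_fin] at this
    have hBpos : 0 < finrank F B := by
      rw [Module.finrank_pos_iff_exists_ne_zero]
      exact ⟨⟨v, hvB⟩, fun h => hv0 (congrArg Subtype.val h)⟩
    have hBr : finrank F B = r := le_antisymm hBle (Nat.le_of_dvd hBpos (h5 B hB))
    obtain ⟨Q', hQ'Q, hQ'i, hdis, hsup⟩ := h3 B Q hBQ hB hQ
    have hdim : finrank F Q = r + finrank F Q' := by
      rw [← hsup, finrank_sup_of_disjoint B Q' hdis, hBr]
    obtain ⟨W', hW'Q', hW', hW'm⟩ := ih (m - r) (by omega) Q' hQ'i (by omega)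
      (Nat.dvd_sub hrm (dvd_refl r))
    refine ⟨B ⊔ W', sup_le hBQ (hW'Q'.trans hQ'Q), ?_, ?_⟩
    · rw [Submodule.map_sup]
      exact sup_le_sup hB hW'
    · rw [finrank_sup_of_disjoint B W' (by
        rw [eq_bot_iff, ← hdis]; exact inf_le_inf_left _ hW'Q'), hBr, hW'm]
      omega

end Cfsg.Agent.Lib.Helper87EluB4
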