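import Mathlib
set_option autoImplicit false
open Module

namespace Cfsg.Agent.Lib.Helper87EluB7

section
variable {F : Type*} [Field F] {V : Type*} [AddCommGroup V] [Module F V] [FiniteDimensional F V]

/-- B7a -/
theorem det_cyclic (r : ℕ) (hr : 0 < r) (g : Module.End F V) (c : F) (hg : g ^ r = c • 1) (v : V)
    (hfin : finrank F V = r) (hspan : Submodule.span F (Set.range fun j : Fin r => (g ^ (j : ℕ)) v) = ⊤) :
    LinearMap.det g = (-1) ^ (r + 1) * c := by
  classical
  obtain ⟨k, rfl⟩ : ∃ k, r = k + 1 := ⟨r - 1, by omega⟩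
  let b : Basis (Fin (k + 1)) F V := basisOfTopLeSpanOfCardEqFinrank (fun j : Fin (k + 1) => (g ^ (j : ℕ)) v)
    (le_of_eq hspan.symm) (by rw [Fintype.card_fin, hfin])
  have hb : ∀ j, b j = (g ^ (j : ℕ)) v := fun j => by
    simp only [b, coe_basisOfTopLeSpanOfCardEqFinrank]
  let σ : Equiv.Perm (Fin (k + 1)) := finRotate (k + 1)
  let d : Fin (k + 1) → F := fun j => if j = Fin.last k then c else 1
  have hgb : ∀ j, g (b j) = d j • b (σ j) := by
    intro j
    by_cases hj : j = Fin.last k
    · subst hj
      simp only [d, σ, if_true, finRotate_last, hb]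
      rw [← Module.End.mul_apply, ← pow_succ', Fin.val_last, hg]
      simp
    · have hjlt : (j : ℕ) < k := by
        have := j.2
        have h2 : (j : ℕ) ≠ k := fun h => hj (Fin.ext (by simpa using h))
        omega
      have hσ : σ j = ⟨j + 1, by omega⟩ := by
        have := finRotate_of_lt hjlt
        simpa [σ] using this
      simp only [d, if_neg hj, one_smul, hσ, hb]
      rw [← Module.End.mul_apply, ← pow_succ']
  have hM : LinearMap.toMatrix b b g = (σ.permMatrix F).transpose * Matrix.diagonal d := by
    ext a j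
    rw [LinearMap.toMatrix_apply, hgb, Matrix.mul_diagonal, Matrix.transpose_apply]
    simp only [map_smul, Basis.repr_self, Finsupp.smul_apply, smul_eq_mul, Equiv.Perm.permMatrix,
      PEquiv.toMatrix_apply, Equiv.toPEquiv_apply, Option.mem_def, Option.some.injEq]
    rw [Finsupp.single_apply, mul_comm]
  rw [← LinearMap.det_toMatrix b, hM, Matrix.det_mul, Matrix.det_transpose, Matrix.det_permutation,
    Matrix.det_diagonal, sign_finRotate]
  have hprod : ∏ j, d j = c := by
    rw [Finset.prod_eq_single (Fin.last k)]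
    · simp [d]
    · intro j _ hj; simp [d, hj]
    · intro h; exact absurd (Finset.mem_univ _) h
  rw [hprod]
  congr 1
  simp only [Nat.add_sub_cancel]
  push_cast
  rw [pow_add, pow_add]
  simp

end

/-- B7 -/
theorem det_eq.{u, v} {F : Type v} [Field F] (r : ℕ) (hr : r.Prime) (c : F) (hc : ∀ d : F, d ^ r ≠ c)
    (h5 : ∀ (V : Type u) [AddCommGroup V] [Module F V] [FiniteDimensional F V] (g : Module.End F V),
      g ^ r = c • 1 → ∀ W : Submodule F V, W.map g ≤ W → r ∣ finrank F W)
    (h7a : ∀ (V : Type u) [AddCommGroup V] [Module F V] [FiniteDimensional F V] (g : Module.End F V),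
      g ^ r = c • 1 → ∀ v : V, finrank F V = r →
      Submodule.span F (Set.range fun j : Fin r => (g ^ (j : ℕ)) v) = ⊤ →
      LinearMap.det g = (-1) ^ (r + 1) * c)
    (V : Type u) [AddCommGroup V] [Module F V] [FiniteDimensional F V] (g : Module.End F V)
    (hg : g ^ r = c • 1) : LinearMap.det g = ((-1) ^ (r + 1) * c) ^ (finrank F V / r) := by
  induction hn : finrank F V using Nat.strong_induction_on generalizing V with
  | _ n ih =>
    by_cases hn0 : n = 0
    · subst hn0
      have : Subsingleton V := Module.finrank_zero_iff.mp hn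
      have h1 : g = 1 := Subsingleton.elim _ _
      rw [h1, map_one, Nat.zero_div, pow_zero]
    have : Nontrivial V := Module.nontrivial_of_finrank_pos (R := F) (by omega)
    obtain ⟨v, hv0⟩ := exists_ne (0 : V)
    let B : Submodule F V := Submodule.span F (Set.range fun j : Fin r => (g ^ (j : ℕ)) v)
    have hB : B.map g ≤ B := by
      rw [Submodule.map_span, Submodule.span_le]
      rintro _ ⟨_, ⟨j, rfl⟩, rfl⟩
      by_cases hj : (j : ℕ) + 1 < r
      · apply Submodule.subset_span
        refine ⟨⟨j + 1, hj⟩, ?_⟩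
        show (g ^ ((j : ℕ) + 1)) v = g ((g ^ (j : ℕ)) v)
        rw [pow_succ', Module.End.mul_apply]
      · have hj' : (j : ℕ) + 1 = r := by have := j.2; omega
        have : g ((g ^ (j : ℕ)) v) = c • v := by
          rw [← Module.End.mul_apply, ← pow_succ', hj', hg]; rfl
        rw [SetLike.mem_coe, this]
        apply Submodule.smul_mem
        apply Submodule.subset_span
        exact ⟨⟨0, hr.pos⟩, by simp⟩
    have hB' : B ≤ B.comap g := Submodule.map_le_iff_le_comap.mp hB
    have hvB : v ∈ B := Submodule.subset_span ⟨⟨0, hr.pos⟩, by simp⟩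
    have hBle : finrank F B ≤ r := by
      have := finrank_range_le_card (R := F) (fun j : Fin r => (g ^ (j : ℕ)) v)
      rwa [Fintype.card_fin] at this
    have hBpos : 0 < finrank F B := by
      rw [Module.finrank_pos_iff_exists_ne_zero]
      exact ⟨⟨v, hvB⟩, fun h => hv0 (congrArg Subtype.val h)⟩
    have hBr : finrank F B = r := le_antisymm hBle (Nat.le_of_dvd hBpos (h5 V g hg B hB))
    have hrn : r ∣ n := by
      have := h5 V g hg ⊤ le_top
      rwa [finrank_top, hn] at this
    have hB'' : ∀ x ∈ B, g x ∈ B := hB'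
    have key : LinearMap.det g = LinearMap.det (g.restrict hB'') * LinearMap.det (B.mapQ B g hB') :=
      LinearMap.det_eq_det_mul_det B g hB'
    rw [key]
    -- the restriction
    have hres : (g.restrict hB'') ^ r = c • 1 := by
      ext x
      rw [Module.End.pow_restrict r hB'']
      simp [hg]
    have hpow : ∀ (j : ℕ) (x : B), (((g.restrict hB'') ^ j) x : V) = (g ^ j) x := by
      intro j x
      rw [Module.End.pow_restrict j hB'']
      rfl
    have hspanB : Submodule.span F (Set.range fun j : Fin r => ((g.restrict hB'') ^ (j : ℕ)) ⟨v, hvB⟩) = ⊤ := by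
      apply Submodule.map_injective_of_injective B.injective_subtype
      rw [Submodule.map_span, Submodule.map_top, Submodule.range_subtype, ← Set.range_comp]
      show Submodule.span F (Set.range fun j : Fin r => (((g.restrict hB'') ^ (j : ℕ)) ⟨v, hvB⟩ : V)) = B
      simp only [hpow]
      rfl
    rw [h7a B (g.restrict hB'') hres ⟨v, hvB⟩ hBr hspanB]
    -- the quotient
    have hquot : (B.mapQ B g hB') ^ r = c • 1 := by
      rw [← Submodule.mapQ_pow]
      ext x
      simp [hg]
    have hfq : finrank F (V ⧸ B) = n - r := by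
      have := Submodule.finrank_quotient_add_finrank B
      omega
    have hle : r ≤ n := Nat.le_of_dvd (Nat.pos_of_ne_zero hn0) hrn
    rw [ih (n - r) (by have := hr.pos; omega) (V ⧸ B) (B.mapQ B g hB') hquot hfq, ← pow_succ']
    congr 1
    obtain ⟨t, rfl⟩ := hrn
    have ht : 0 < t := Nat.pos_of_ne_zero (by rintro rfl; simp at hn0)
    rw [Nat.mul_div_cancel_left _ hr.pos]
    have : r * t - r = r * (t - 1) := by rw [Nat.mul_sub, mul_one]
    rw [this, Nat.mul_div_cancel_left _ hr.pos]
    omega

end Cfsg.Agent.Lib.Helper87EluB7
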