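import Mathlib
set_option autoImplicit false
open Module Polynomial

namespace Cfsg.Agent.Lib.Helper87EluC2

/-- C2 (any field) -/
theorem exists_end_pow {F : Type*} [Field F] (r n : ℕ) (hr : 0 < r) (hrn : r ∣ n) (c : F) :
    ∃ g : Module.End F (Fin n → F), g ^ r = c • 1 := by
  have hmonic : (X ^ r - C c : F[X]).Monic := monic_X_pow_sub_C c hr.ne'
  let E := AdjoinRoot (X ^ r - C c : F[X])
  let pb := AdjoinRoot.powerBasis' hmonic
  have hE : finrank F E = r := by
    rw [pb.finrank, AdjoinRoot.powerBasis'_dim, natDegree_X_pow_sub_C]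
  have : FiniteDimensional F E := pb.finite
  have hξ : (AdjoinRoot.root (X ^ r - C c : F[X])) ^ r = algebraMap F E c := by
    have h := AdjoinRoot.eval₂_root (X ^ r - C c : F[X])
    rw [eval₂_sub, eval₂_pow, eval₂_X, eval₂_C, sub_eq_zero] at h
    exact h
  let g' : Module.End F (Fin (n / r) → E) := Algebra.lsmul F F (Fin (n / r) → E) (AdjoinRoot.root _ : E)
  have hg' : g' ^ r = c • 1 := by
    simp only [g']
    rw [← map_pow, hξ]
    refine LinearMap.ext fun x => ?_
    rw [Algebra.lsmul_coe]
    show (algebraMap F E) c • x = c • x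
    exact algebraMap_smul E c x
  have hfin : finrank F (Fin (n / r) → E) = n := by
    rw [Module.finrank_pi_fintype]
    simp only [hE, Finset.sum_const, Finset.card_univ, Fintype.card_fin, smul_eq_mul]
    exact Nat.div_mul_cancel hrn
  let e : (Fin (n / r) → E) ≃ₗ[F] (Fin n → F) := LinearEquiv.ofFinrankEq _ _ (by rw [hfin, finrank_fin_fun])
  refine ⟨LinearEquiv.conjAlgEquiv F e g', ?_⟩
  rw [← map_pow, hg', map_smul, map_one]

end Cfsg.Agent.Lib.Helper87EluC2
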