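import Mathlib
set_option autoImplicit false
open Module

namespace Cfsg.Agent.Lib.Helper87EluD

/-- D1 -/
theorem exists_root {F : Type*} [Field F] [Fintype F] (r : ℕ) [Fact r.Prime]
    (hr : ¬ r ∣ Fintype.card F - 1) (c : F) : ∃ d : F, d ^ r = c := by
  have hrp : r.Prime := Fact.out
  by_cases hc : c = 0
  · exact ⟨0, by rw [hc, zero_pow hrp.ne_zero]⟩
  have hq : 1 < Fintype.card F := Fintype.one_lt_card
  by_cases hq2 : Fintype.card F - 1 = 1
  · have h1 := FiniteField.pow_card_sub_one_eq_one c hc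
    rw [hq2, pow_one] at h1
    exact ⟨1, by rw [one_pow, h1]⟩
  have hcop : Nat.Coprime r (Fintype.card F - 1) := (Nat.Prime.coprime_iff_not_dvd hrp).mpr hr
  obtain ⟨a, ha⟩ := Nat.exists_mul_mod_eq_one_of_coprime hcop (by omega)
  have hb : r * a = 1 + (Fintype.card F - 1) * (r * a / (Fintype.card F - 1)) := by
    have := Nat.mod_add_div (r * a) (Fintype.card F - 1)
    omega
  refine ⟨c ^ a, ?_⟩
  rw [← pow_mul, mul_comm a r, hb, pow_add, pow_one, pow_mul, FiniteField.pow_card_sub_one_eq_one c hc,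
    one_pow, mul_one]

/-- D2 (pure number theory) -/
theorem orderOf_facts (q r : ℕ) [Fact r.Prime] (hq : 0 < q) (hr : ¬ r ∣ q) :
    0 < orderOf (q : ZMod r) ∧ (orderOf (q : ZMod r) = 1 ↔ r ∣ q - 1) := by
  have hq0 : (q : ZMod r) ≠ 0 := by
    rw [Ne, ZMod.natCast_eq_zero_iff]; exact hr
  constructor
  · have : IsOfFinOrder (Units.mk0 (q : ZMod r) hq0) := isOfFinOrder_of_finite _
    have h2 := this.orderOf_pos
    rwa [← orderOf_units, Units.val_mk0] at h2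
  · rw [orderOf_eq_one_iff]
    constructor
    · intro h
      have h1 : ((q - 1 : ℕ) : ZMod r) = 0 := by
        rw [Nat.cast_sub hq, h]; simp
      exact (ZMod.natCast_eq_zero_iff _ _).mp h1
    · intro h
      have h1 : ((q - 1 : ℕ) : ZMod r) = 0 := (ZMod.natCast_eq_zero_iff _ _).mpr h
      rw [Nat.cast_sub hq, Nat.cast_one] at h1
      exact sub_eq_zero.mp h1

theorem dvd_pow_sub_one_iff (q r k : ℕ) [Fact r.Prime] (hq : 0 < q) :
    r ∣ q ^ k - 1 ↔ orderOf (q : ZMod r) ∣ k := by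
  rw [orderOf_dvd_iff_pow_eq_one, ← ZMod.natCast_eq_zero_iff, Nat.cast_sub (Nat.one_le_pow _ _ hq)]
  push_cast
  exact sub_eq_zero

/-- A2 (pure number theory) -/
theorem not_dvd_prod (q r n m : ℕ) [Fact r.Prime] (hr : ¬ r ∣ q)
    (hm : m ≤ n % orderOf (q : ZMod r)) : ¬ r ∣ ∏ j : Fin m, (q ^ n - q ^ (j : ℕ)) := by
  have hrp : r.Prime := Fact.out
  have hq : 0 < q := Nat.pos_of_ne_zero (by rintro rfl; exact hr (dvd_zero r))
  obtain ⟨hi, -⟩ := orderOf_facts q r hq hr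
  intro h
  obtain ⟨j, -, hj⟩ := (Prime.dvd_finsetProd_iff hrp.prime _).mp h
  have hjm : (j : ℕ) < m := j.2
  have hmn : n % orderOf (q : ZMod r) ≤ n := Nat.mod_le _ _
  have h1 : q ^ n - q ^ (j : ℕ) = q ^ (j : ℕ) * (q ^ (n - j) - 1) := by
    rw [Nat.mul_sub, ← pow_add, mul_one, Nat.add_sub_cancel' (by omega)]
  rw [h1] at hj
  rcases (Nat.Prime.dvd_mul hrp).mp hj with h2 | h2
  · exact hr (hrp.dvd_of_dvd_pow h2)
  · rw [dvd_pow_sub_one_iff q r _ hq] at h2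
    generalize orderOf (q : ZMod r) = i at *
    have h3 : (n - j) % i = 0 := Nat.mod_eq_zero_of_dvd h2
    have h4 : n - j = (n % i - j) + i * (n / i) := by
      have := Nat.mod_add_div n i
      omega
    rw [h4, Nat.add_mul_mod_self_left, Nat.mod_eq_of_lt (by have := Nat.mod_lt n hi; omega)] at h3
    omega

theorem prod_split (q k m : ℕ) (hm : m ≤ k) :
    ∏ j : Fin m, (q ^ k - q ^ (j : ℕ)) = (∏ j : Fin m, q ^ (j : ℕ)) * ∏ j : Fin m, (q ^ (k - j) - 1) := by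
  rw [← Finset.prod_mul_distrib]
  refine Finset.prod_congr rfl fun j _ => ?_
  have hj : (j : ℕ) < m := j.2
  rw [Nat.mul_sub, ← pow_add, mul_one, Nat.add_sub_cancel' (by omega)]

/-- A3 (pure number theory) -/
theorem not_dvd_of_mul_prod (p q n m c : ℕ) (hp : p.Prime) (hq : p ∣ q) (hq0 : 0 < q) (hm : m ≤ n)
    (h : c * ∏ j : Fin m, (q ^ m - q ^ (j : ℕ)) = ∏ j : Fin m, (q ^ n - q ^ (j : ℕ))) : ¬ p ∣ c := by
  rw [prod_split q m m le_rfl, prod_split q n m hm] at h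
  have hpos : 0 < ∏ j : Fin m, q ^ (j : ℕ) := Finset.prod_pos fun j _ => pow_pos hq0 _
  have h' : c * ∏ j : Fin m, (q ^ (m - j) - 1) = ∏ j : Fin m, (q ^ (n - j) - 1) := by
    apply Nat.eq_of_mul_eq_mul_left hpos
    rw [← h]; ring
  intro hc
  have h2 : p ∣ ∏ j : Fin m, (q ^ (n - j) - 1) := h' ▸ Dvd.dvd.mul_right hc _
  obtain ⟨j, -, hj⟩ := (Prime.dvd_finsetProd_iff hp.prime _).mp h2
  have hjm : (j : ℕ) < m := j.2
  have h3 : p ∣ q ^ (n - j) := Dvd.dvd.trans hq (dvd_pow_self q (by omega))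
  have h4 : 1 ≤ q ^ (n - j) := Nat.one_le_pow _ _ hq0
  have h5 : p ∣ 1 := by
    have := (Nat.dvd_sub h3 hj)
    rwa [Nat.sub_sub_self h4] at this
  exact hp.one_lt.ne' (Nat.dvd_one.mp h5)

end Cfsg.Agent.Lib.Helper87EluD
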