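import Cfsg.Agent.Lib.Helper87EluA1
import Cfsg.Agent.Lib.Helper87EluA4
import Cfsg.Agent.Lib.Helper87EluA5
import Cfsg.Agent.Lib.Helper87EluB1
import Cfsg.Agent.Lib.Helper87EluB2
import Cfsg.Agent.Lib.Helper87EluB3
import Cfsg.Agent.Lib.Helper87EluB4
import Cfsg.Agent.Lib.Helper87EluB7
import Cfsg.Agent.Lib.Helper87EluC2
import Cfsg.Agent.Lib.Helper87EluD
import Cfsg.Agent.Lib.Helper7EluC1
import Cfsg.Agent.Lib.Helper7EluC3
set_option autoImplicit false
open Module Cfsg.Agent.Lib.Helper87EluA1 Cfsg.Agent.Lib.Helper87EluA4 Cfsg.Agent.Lib.Helper87EluA5 Cfsg.Agent.Lib.Helper87EluB1 Cfsg.Agent.Lib.Helper87EluB2 Cfsg.Agent.Lib.Helper87EluB3 Cfsg.Agent.Lib.Helper87EluB4 Cfsg.Agent.Lib.Helper87EluB7 Cfsg.Agent.Lib.Helper87EluC2 Cfsg.Agent.Lib.Helper87EluD Cfsg.Agent.Lib.Helper7EluC1 Cfsg.Agent.Lib.Helper7EluC3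

namespace Cfsg.Agent.Lib.Helper87EluTools

variable {F : Type*} [Field F] [Fintype F]

section tools
variable {V : Type*} [AddCommGroup V] [Module F V] [FiniteDimensional F V]

/-- Tool P: `g ^ r` is the scalar `d ^ r`. -/
theorem inv_of_pow (r : ℕ) [Fact r.Prime] (hr : ¬ r ∣ Fintype.card F) (hrF : (r : F) ≠ 0)
    (g : Module.End F V) (d : F) (hd : d ≠ 0) (hg : g ^ r = (d ^ r) • 1)
    (m : ℕ) (Q : Submodule F V) (hQ : Q.map g ≤ Q) (hm : m ≤ finrank F Q)
    (hmod : m % orderOf (Fintype.card F : ZMod r) ≤ finrank F Q % orderOf (Fintype.card F : ZMod r)) :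
    ∃ W ≤ Q, W.map g ≤ W ∧ finrank F W = m := by
  set f : Module.End F V := d⁻¹ • g with hf
  have hmap : ∀ W : Submodule F V, W.map f = W.map g := fun W =>
    Submodule.map_smul g W d⁻¹ (inv_ne_zero hd)
  have hfr : f ^ r = 1 := by
    rw [hf, smul_pow, hg, smul_smul, inv_pow, inv_mul_cancel₀ (pow_ne_zero _ hd), one_smul]
  have hfr' : f ^ r = (1 : F) • 1 := by rw [hfr, one_smul]
  have hi : 0 < orderOf (Fintype.card F : ZMod r) :=
    (orderOf_facts (Fintype.card F) r Fintype.card_pos hr).1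
  obtain ⟨W, hWQ, hW, hWm⟩ := exists_invariant_le (orderOf (Fintype.card F : ZMod r)) hi f
    (fun W hW => finrank_congr r hr f hfr W hW)
    (fun D hD hD0 hDC => exists_block r hr f hfr D hD hD0 hDC)
    (fun X Q hXQ hX hQ => exists_rel_compl r hrF f 1 one_ne_zero hfr' X Q hXQ hX hQ)
    m Q (by rw [hmap]; exact hQ) hm hmod
  exact ⟨W, hWQ, by rw [← hmap]; exact hW, hWm⟩

/-- Tool N: `g ^ r = c` with `c` not an `r`-th power. -/
theorem inv_of_not_pow (r : ℕ) [Fact r.Prime] (hrF : (r : F) ≠ 0)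
    (g : Module.End F V) (c : F) (hc : ∀ d : F, d ^ r ≠ c) (hg : g ^ r = c • 1)
    (m : ℕ) (Q : Submodule F V) (hQ : Q.map g ≤ Q) (hm : m ≤ finrank F Q) (hrm : r ∣ m) :
    ∃ W ≤ Q, W.map g ≤ W ∧ finrank F W = m := by
  have hr : r.Prime := Fact.out
  have hc0 : c ≠ 0 := fun h => hc 0 (by rw [h, zero_pow hr.ne_zero])
  exact exists_invariant_le_of_dvd r hr.pos g c hg
    (fun W hW => dvd_finrank_of_not_pow r hr g c hg hc W hW)
    (fun X Q hXQ hX hQ => exists_rel_compl r hrF g c hc0 hg X Q hXQ hX hQ) m Q hQ hm hrm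

/-- the determinant formula -/
theorem det_of_not_pow (r : ℕ) [Fact r.Prime] (g : Module.End F V) (c : F) (hc : ∀ d : F, d ^ r ≠ c)
    (hg : g ^ r = c • 1) : LinearMap.det g = ((-1) ^ (r + 1) * c) ^ (finrank F V / r) := by
  have hr : r.Prime := Fact.out
  exact det_eq r hr c hc
    (fun V _ _ _ g hg W hW => dvd_finrank_of_not_pow r hr g c hg hc W hW)
    (fun V _ _ _ g hg v hfin hspan => det_cyclic r hr.pos g c hg v hfin hspan) V g hg

theorem not_dvd_count (r : ℕ) [Fact r.Prime] (hr : ¬ r ∣ Fintype.card F) (m : ℕ)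
    (hm : m ≤ finrank F V % orderOf (Fintype.card F : ZMod r)) :
    ¬ r ∣ Nat.card {W : Submodule F V // finrank F W = m} := by
  intro h
  have h1 := count_mul (F := F) (V := V) m (hm.trans (Nat.mod_le _ _))
  exact not_dvd_prod (Fintype.card F) r (finrank F V) m hr hm (h1 ▸ Dvd.dvd.mul_right h _)

theorem not_dvd_count_char (p : ℕ) [Fact p.Prime] [CharP F p] (m : ℕ) (hm : m ≤ finrank F V) :
    ¬ p ∣ Nat.card {W : Submodule F V // finrank F W = m} := by
  have h1 := count_mul (F := F) (V := V) m hm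
  have hp : p ∣ Fintype.card F := by
    obtain ⟨k, _, hk⟩ := FiniteField.card F p
    rw [hk]; exact dvd_pow_self p k.ne_zero
  exact not_dvd_of_mul_prod p (Fintype.card F) (finrank F V) m _ Fact.out hp Fintype.card_pos hm h1

end tools

section sl
variable {n : ℕ}

/-- the number theoretic condition -/
def NT (F : Type*) [Fintype F] (r n : ℕ) : Prop :=
  padicValNat r n ≤ padicValNat r (Fintype.card F - 1) ∧ (r = 2 → Even n → Fintype.card F % 4 = 1)

theorem toLin_pow_eq (x : Matrix.SpecialLinearGroup (Fin n) F) (r : ℕ) (c : F)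
    (h : ((x ^ r : Matrix.SpecialLinearGroup (Fin n) F) : Matrix (Fin n) (Fin n) F) = c • 1) :
    (Matrix.toLin' (x : Matrix (Fin n) (Fin n) F) : Module.End F (Fin n → F)) ^ r = c • 1 := by
  rw [← Matrix.toLin'_pow, ← Matrix.SpecialLinearGroup.coe_pow, h, map_smul, Matrix.toLin'_one]
  rfl

theorem exists_sl_of_end (g : Module.End F (Fin n → F)) (hdet : LinearMap.det g = 1) (r : ℕ) (c : F)
    (hg : g ^ r = c • 1) :
    ∃ x : Matrix.SpecialLinearGroup (Fin n) F, Matrix.toLin' (x : Matrix (Fin n) (Fin n) F) = g ∧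
      ((x ^ r : Matrix.SpecialLinearGroup (Fin n) F) : Matrix (Fin n) (Fin n) F) = c • 1 := by
  let x : Matrix.SpecialLinearGroup (Fin n) F :=
    ⟨LinearMap.toMatrix' g, by rw [LinearMap.det_toMatrix']; exact hdet⟩
  have hx : Matrix.toLin' (x : Matrix (Fin n) (Fin n) F) = g := Matrix.toLin'_toMatrix' g
  refine ⟨x, hx, ?_⟩
  apply Matrix.toLin'.injective
  rw [Matrix.SpecialLinearGroup.coe_pow, Matrix.toLin'_pow, hx, map_smul, Matrix.toLin'_one, hg]
  rfl

theorem scalar_ne_zero (hn : 0 < n) (x : Matrix.SpecialLinearGroup (Fin n) F) (r : ℕ) (c : F)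
    (h : ((x ^ r : Matrix.SpecialLinearGroup (Fin n) F) : Matrix (Fin n) (Fin n) F) = c • 1) : c ≠ 0 := by
  rintro rfl
  have h1 := (x ^ r).det_coe
  rw [h, zero_smul] at h1
  have : Nonempty (Fin n) := ⟨⟨0, hn⟩⟩
  rw [Matrix.det_zero] at h1
  exact zero_ne_one h1

/-- Tool X -/
theorem pow_or (hn : 0 < n) (r : ℕ) [Fact r.Prime] (x : Matrix.SpecialLinearGroup (Fin n) F) (c : F)
    (h : ((x ^ r : Matrix.SpecialLinearGroup (Fin n) F) : Matrix (Fin n) (Fin n) F) = c • 1) :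
    (∃ d : F, d ≠ 0 ∧ d ^ r = c) ∨ ((∀ d : F, d ^ r ≠ c) ∧ r ∣ Fintype.card F - 1 ∧ r ∣ n ∧ ¬ NT F r n) := by
  have hr : r.Prime := Fact.out
  have hc0 := scalar_ne_zero hn x r c h
  by_cases hd : ∃ d : F, d ^ r = c
  · obtain ⟨d, hd⟩ := hd
    refine Or.inl ⟨d, ?_, hd⟩
    rintro rfl
    rw [zero_pow hr.ne_zero] at hd
    exact hc0 hd.symm
  · push Not at hd
    have hq : r ∣ Fintype.card F - 1 := by
      by_contra hq
      obtain ⟨d, hd'⟩ := exists_root r hq c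
      exact hd d hd'
    have hg := toLin_pow_eq x r c h
    have hrn : r ∣ n := by
      have := dvd_finrank_of_not_pow r hr _ c hg hd ⊤ le_top
      simpa using this
    have hdet := det_of_not_pow r _ c hd hg
    rw [LinearMap.det_toLin', x.det_coe, finrank_fin_fun] at hdet
    exact Or.inr ⟨hd, hq, hrn, (exists_c_iff r hq n hn).mp ⟨c, hd, hrn, hdet.symm⟩⟩

/-- Tool Dc -/
theorem exists_derangement_c (hn : 0 < n) (r : ℕ) [Fact r.Prime] (hq : r ∣ Fintype.card F - 1)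
    (hNT : ¬ NT F r n) :
    ∃ x : Matrix.SpecialLinearGroup (Fin n) F,
      (∃ c : F, ((x ^ r : Matrix.SpecialLinearGroup (Fin n) F) : Matrix (Fin n) (Fin n) F) = c • 1) ∧
      (∀ c : F, (x : Matrix (Fin n) (Fin n) F) ≠ c • 1) ∧
      ∀ W : Submodule F (Fin n → F), W.map (Matrix.toLin' (x : Matrix (Fin n) (Fin n) F)) ≤ W →
        r ∣ finrank F W := by
  have hr : r.Prime := Fact.out
  obtain ⟨c, hc, hrn, hcn⟩ := (exists_c_iff r hq n hn).mpr hNT
  obtain ⟨g, hg⟩ := exists_end_pow r n hr.pos hrn c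
  have hdet := det_of_not_pow r g c hc hg
  rw [finrank_fin_fun, hcn] at hdet
  obtain ⟨x, hx, hxr⟩ := exists_sl_of_end g hdet r c hg
  refine ⟨x, ⟨c, hxr⟩, ?_, ?_⟩
  · intro z hz
    apply hc z
    have h1 : ((x ^ r : Matrix.SpecialLinearGroup (Fin n) F) : Matrix (Fin n) (Fin n) F) = (z ^ r) • 1 := by
      rw [Matrix.SpecialLinearGroup.coe_pow, hz, smul_pow, one_pow]
    rw [hxr] at h1
    have h2 := congrFun (congrFun h1 ⟨0, hn⟩) ⟨0, hn⟩
    simpa using h2.symm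
  · intro W hW
    rw [hx] at hW
    exact dvd_finrank_of_not_pow r hr g c hg hc W hW

theorem eq_one_of_pow (r : ℕ) [Fact r.Prime] (hq : ¬ r ∣ Fintype.card F - 1) (u : F) (hu : u ^ r = 1) :
    u = 1 := by
  have hr : r.Prime := Fact.out
  have hu0 : u ≠ 0 := by
    rintro rfl
    rw [zero_pow hr.ne_zero] at hu
    exact zero_ne_one hu
  have h1 : u ^ (Fintype.card F - 1) = 1 := FiniteField.pow_card_sub_one_eq_one u hu0
  have h2 : u ^ Nat.gcd r (Fintype.card F - 1) = 1 := pow_gcd_eq_one.mpr ⟨hu, h1⟩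
  rwa [(Nat.Prime.coprime_iff_not_dvd hr).mpr hq, pow_one] at h2

/-- Tool Dmax -/
theorem exists_derangement_max (r : ℕ) [Fact r.Prime] (hr : ¬ r ∣ Fintype.card F)
    (hq : ¬ r ∣ Fintype.card F - 1) (hin : orderOf (Fintype.card F : ZMod r) ≤ n) :
    ∃ x : Matrix.SpecialLinearGroup (Fin n) F,
      ((x ^ r : Matrix.SpecialLinearGroup (Fin n) F) : Matrix (Fin n) (Fin n) F) = (1 : F) • 1 ∧
      (∀ c : F, (x : Matrix (Fin n) (Fin n) F) ≠ c • 1) ∧
      finrank F ↥(Module.End.eigenspace (Matrix.toLin' (x : Matrix (Fin n) (Fin n) F)) 1)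
        = n % orderOf (Fintype.card F : ZMod r) := by
  have hi : 0 < orderOf (Fintype.card F : ZMod r) :=
    (orderOf_facts (Fintype.card F) r Fintype.card_pos hr).1
  have hn : 0 < n := lt_of_lt_of_le hi hin
  obtain ⟨f, hf, hfix⟩ := exists_end_max (F := F) r hr n
  have hdet : LinearMap.det f = 1 := by
    apply eq_one_of_pow r hq
    rw [← map_pow, hf, map_one]
  obtain ⟨x, hx, hxr⟩ := exists_sl_of_end f hdet r 1 (by rw [hf, one_smul])
  refine ⟨x, hxr, ?_, by rw [hx]; exact hfix⟩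
  intro z hz
  have h1 : ((x ^ r : Matrix.SpecialLinearGroup (Fin n) F) : Matrix (Fin n) (Fin n) F) = (z ^ r) • 1 := by
    rw [Matrix.SpecialLinearGroup.coe_pow, hz, smul_pow, one_pow]
  rw [hxr] at h1
  have h2 := congrFun (congrFun h1 ⟨0, hn⟩) ⟨0, hn⟩
  have hz1 : z = 1 := eq_one_of_pow r hq z (by simpa using h2.symm)
  have hf1 : f = 1 := by
    rw [← hx, hz, hz1, one_smul, Matrix.toLin'_one]; rfl
  rw [hf1] at hfix
  have h3 : Module.End.eigenspace (1 : Module.End F (Fin n → F)) 1 = ⊤ := by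
    ext v; simp [Module.End.mem_eigenspace_iff]
  rw [h3, finrank_top, finrank_fin_fun] at hfix
  have := Nat.mod_lt n hi
  omega

end sl

end Cfsg.Agent.Lib.Helper87EluTools
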