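import Mathlib
import Cfsg.Prelude.Def_GeometricClasses
import Cfsg.Prelude.Def_ClassicalGeometry
import Cfsg.Agent.Lib.Helper99Symp
import Cfsg.Agent.Lib.Helper87EluTools

set_option autoImplicit false
set_option linter.unusedSectionVars false

/-! Row S5961 (project 94, wave 4; proof: notes/helper94/ELU5.md): vocabulary and arithmetic. -/

namespace Cfsg.Agent.Lib.H90SwDefs

open Module Cfsg.Agent.Lib.Helper99Symp

variable {F V : Type*} [Field F] [AddCommGroup V] [Module F V]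

/-- the part of `Q` orthogonal to `W` -/
def perpIn (B : LinearMap.BilinForm F V) (W Q : Submodule F V) : Submodule F V where
  carrier := {u | u ∈ Q ∧ ∀ w ∈ W, B u w = 0}
  add_mem' := by
    rintro a b ⟨ha, ha'⟩ ⟨hb, hb'⟩
    exact ⟨Q.add_mem ha hb, fun w hw => by
      rw [map_add, LinearMap.add_apply, ha' w hw, hb' w hw, add_zero]⟩
  zero_mem' := ⟨Q.zero_mem, fun w _ => by simp⟩
  smul_mem' := by
    rintro c a ⟨ha, ha'⟩
    exact ⟨Q.smul_mem c ha, fun w hw => by
      rw [map_smul, LinearMap.smul_apply, ha' w hw, smul_zero]⟩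

theorem mem_perpIn {B : LinearMap.BilinForm F V} {W Q : Submodule F V} {u : V} :
    u ∈ perpIn B W Q ↔ u ∈ Q ∧ ∀ w ∈ W, B u w = 0 := Iff.rfl

/-- `W` and `W'` are orthogonal -/
def Orth (B : LinearMap.BilinForm F V) (W W' : Submodule F V) : Prop := ∀ u ∈ W, ∀ v ∈ W', B u v = 0

/-- `c = i` if `i` is even, `2 i` otherwise -/
def cOf (i : ℕ) : ℕ := if Even i then i else 2 * i

/-- the number `c` attached to `q = |F|` and `r` -/
noncomputable def cc (F : Type*) [Fintype F] (r : ℕ) : ℕ := cOf (orderOf (Fintype.card F : ZMod r))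

/-- standing hypotheses of §0 of ELU5.md: `g` is an isometry of the alternating form `B` with `g ^ r = 1`,
`r` an odd prime not dividing `|F|`. -/
structure Ctx [Fintype F] (B : LinearMap.BilinForm F V) (r : ℕ) (g : Module.End F V) : Prop where
  alt : ∀ v, B v v = 0
  pow : g ^ r = 1
  pres : ∀ u v, B (g u) (g v) = B u v
  prime : r.Prime
  odd : r ≠ 2
  ndvd : ¬ r ∣ Fintype.card F
  ne0 : (r : F) ≠ 0

theorem even_cOf (i : ℕ) : Even (cOf i) := by
  unfold cOf
  split_ifs with h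
  · exact h
  · exact even_two_mul i

theorem dvd_cOf (i : ℕ) : i ∣ cOf i := by
  unfold cOf
  split_ifs with h
  · exact dvd_rfl
  · exact Dvd.intro_left 2 rfl

theorem cOf_dvd {i m : ℕ} (h2 : 2 ∣ m) (hi : i ∣ m) : cOf i ∣ m := by
  unfold cOf
  split_ifs with h
  · exact hi
  · have hodd : Odd i := Nat.not_even_iff_odd.mp h
    exact Nat.Coprime.mul_dvd_of_dvd_of_dvd (Nat.coprime_two_left.mpr hodd) h2 hi

theorem cOf_pos {i : ℕ} (hi : 0 < i) : 0 < cOf i := by
  unfold cOf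
  split_ifs with h <;> omega

section cc
variable (F) [Fintype F] (r : ℕ)

theorem even_cc : Even (cc F r) := even_cOf _

theorem ord_dvd_cc : orderOf (Fintype.card F : ZMod r) ∣ cc F r := dvd_cOf _

variable {F r}

theorem cc_dvd {m : ℕ} (h2 : 2 ∣ m) (hi : orderOf (Fintype.card F : ZMod r) ∣ m) : cc F r ∣ m :=
  cOf_dvd h2 hi

theorem cc_pos [Fact r.Prime] (hr : ¬ r ∣ Fintype.card F) : 0 < cc F r :=
  cOf_pos (Cfsg.Agent.Lib.Helper87EluD.orderOf_facts (Fintype.card F) r Fintype.card_pos hr).1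

theorem cc_le [Fact r.Prime] (hr2 : r ≠ 2) (hr : ¬ r ∣ Fintype.card F) : cc F r ≤ r - 1 := by
  have hrP : r.Prime := Fact.out
  have h1 : orderOf (Fintype.card F : ZMod r) ∣ r - 1 := by
    apply ZMod.orderOf_dvd_card_sub_one
    intro h0
    exact hr ((ZMod.natCast_eq_zero_iff _ _).mp h0)
  have h2 : 2 ∣ r - 1 := by
    have := hrP.eq_two_or_odd'.resolve_left hr2
    obtain ⟨k, hk⟩ := this
    exact ⟨k, by omega⟩
  exact Nat.le_of_dvd (by have := hrP.two_le; omega) (cc_dvd h2 h1)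

theorem Ctx.cc_pos {B : LinearMap.BilinForm F V} {g : Module.End F V} (h : Ctx B r g) : 0 < cc F r :=
  haveI : Fact r.Prime := ⟨h.prime⟩
  H90SwDefs.cc_pos h.ndvd

end cc

/-- the decompositions of row S5961 -/
def IsX {F : Type*} [Field F] (d a : ℕ) {t : ℕ} (D : Fin t → Submodule F (Fin d ⊕ Fin d → F)) : Prop :=
  Cfsg.Geo.IsMDecomposition a D ∧ (∀ j, ∀ u ∈ D j, u ≠ 0 → ∃ v ∈ D j, Cfsg.sympForm d F u v ≠ 0) ∧
    (∀ j j', j ≠ j' → ∀ u ∈ D j, ∀ v ∈ D j', Cfsg.sympForm d F u v = 0)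

end Cfsg.Agent.Lib.H90SwDefs
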