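import Mathlib
import Cfsg.Agent.Lib.H90SwDefs

set_option autoImplicit false
set_option linter.unusedSectionVars false

/-! Row S5961, piece Adj = (ADJ) inside (P6), case `i` even, of notes/helper94/ELU5.md. -/

namespace Cfsg.Agent.Lib.H90SwAdj

open Module Polynomial Cfsg.Agent.Lib.Helper99Symp Cfsg.Agent.Lib.H90SwDefs

variable {F V : Type*} [Field F] [Fintype F] [AddCommGroup V] [Module F V] [FiniteDimensional F V]
variable {B : LinearMap.BilinForm F V} {r : ℕ} {g : Module.End F V}

theorem expand_card_pow (m : ℕ) (f : F[X]) :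
    expand F (Fintype.card F ^ m) f = f ^ (Fintype.card F ^ m) := by
  induction m with
  | zero => simp
  | succ m ih =>
    rw [pow_succ, Polynomial.expand_mul, FiniteField.expand_card, map_pow, ih, ← pow_mul]

theorem aeval_pow_card (m : ℕ) (P : F[X]) :
    aeval (g ^ (Fintype.card F ^ m)) P = (aeval g P) ^ (Fintype.card F ^ m) := by
  rw [← Polynomial.expand_aeval, expand_card_pow, map_pow]

/-- `N = q ^ (i / 2)`: the adjoint of `P(g)` is `P(g⁻¹) = P(g ^ N) = P(g) ^ N`. -/
theorem adj (h : Ctx B r g) (heven : Even (orderOf (Fintype.card F : ZMod r))) :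
    ∃ N : ℕ, 0 < N ∧ ∀ (P : F[X]) (u w : V), B (aeval g P u) w = B u (((aeval g P) ^ N) w) := by
  have : Fact r.Prime := ⟨h.prime⟩
  obtain ⟨m, hm⟩ := heven
  have hi0 : 0 < orderOf (Fintype.card F : ZMod r) :=
    (Cfsg.Agent.Lib.Helper87EluD.orderOf_facts (Fintype.card F) r Fintype.card_pos h.ndvd).1
  have hm0 : 0 < m := by omega
  refine ⟨Fintype.card F ^ m, pow_pos Fintype.card_pos m, ?_⟩
  -- `q ^ m = -1` in `ZMod r`
  have h1 : ((Fintype.card F : ZMod r) ^ m) * ((Fintype.card F : ZMod r) ^ m) = 1 := by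
    rw [← pow_add, ← hm, pow_orderOf_eq_one]
  have h2 : (Fintype.card F : ZMod r) ^ m ≠ 1 := by
    intro h3
    have := orderOf_le_of_pow_eq_one hm0 h3
    omega
  have h3 : (Fintype.card F : ZMod r) ^ m = -1 := (mul_self_eq_one_iff.1 h1).resolve_left h2
  have h4 : r ∣ Fintype.card F ^ m + 1 := by
    rw [← ZMod.natCast_eq_zero_iff]
    push_cast
    rw [h3]; ring
  have h5 : g ^ (Fintype.card F ^ m + 1) = 1 := by
    obtain ⟨k, hk⟩ := h4
    rw [hk, pow_mul, h.pow, one_pow]
  set N := Fintype.card F ^ m with hN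
  have h6 : ∀ u w : V, B (g u) w = B u ((g ^ N) w) := by
    intro u w
    have h7 : g ((g ^ N) w) = w := by
      have : (g ^ (N + 1)) w = w := by rw [h5]; rfl
      rwa [pow_succ'] at this
    conv_lhs => rw [← h7]
    exact h.pres _ _
  have h8 : ∀ (k : ℕ) (u w : V), B ((g ^ k) u) w = B u (((g ^ N) ^ k) w) := by
    intro k
    induction k with
    | zero => intro u w; simp
    | succ k ih =>
      intro u w
      rw [pow_succ', Module.End.mul_apply, h6, ih, pow_succ, Module.End.mul_apply]
  intro P u w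
  rw [hN, ← aeval_pow_card, ← hN]
  induction P using Polynomial.induction_on' with
  | add p q hp hq =>
    simp only [map_add, LinearMap.add_apply]
    rw [hp, hq]
  | monomial k a =>
    simp only [Polynomial.aeval_monomial, Module.algebraMap_end_eq_smul_id]
    simp only [LinearMap.smul_apply, Module.End.mul_apply, LinearMap.id_apply, map_smul]
    rw [h8]

end Cfsg.Agent.Lib.H90SwAdj
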