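import Mathlib
import Cfsg.Prelude.Def_ClassicalGeometry
import Cfsg.Agent.Lib.Helper7SpFrame

set_option autoImplicit false

/-! PROJECT 94, row S5963, piece P-ELT: small elements of prime order in `Sp_{2d}(F)`. -/

namespace Cfsg.Agent.Lib.Helper94PolELT

open Cfsg Matrix

variable {F : Type*} [Field F]

/-- the index equivalence for the block embedding `Sp_{2j} → Sp_{2d}` -/
def eqv {j d : ℕ} (hj : j ≤ d) :
    (Fin j ⊕ Fin j) ⊕ (Fin (d - j) ⊕ Fin (d - j)) ≃ Fin d ⊕ Fin d :=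
  (Equiv.sumSumSumComm _ _ _ _).trans
    (Equiv.sumCongr (finSumFinEquiv.trans (finCongr (by omega : j + (d - j) = d)))
      (finSumFinEquiv.trans (finCongr (by omega : j + (d - j) = d))))

theorem J_submatrix {α β γ : Type*} [DecidableEq α] [DecidableEq β] [DecidableEq γ]
    (e : α ⊕ β ≃ γ) :
    (Matrix.J γ F).submatrix ((Equiv.sumSumSumComm _ _ _ _).trans (Equiv.sumCongr e e))
      ((Equiv.sumSumSumComm _ _ _ _).trans (Equiv.sumCongr e e))
      = Matrix.fromBlocks (Matrix.J α F) 0 0 (Matrix.J β F) := by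
  ext ((a | a) | (a | a)) ((b | b) | (b | b) ) <;>
    simp [Matrix.J, Matrix.one_apply]

/-- block embedding of matrices -/
def blk {j d : ℕ} (hj : j ≤ d) (A : Matrix (Fin j ⊕ Fin j) (Fin j ⊕ Fin j) F) :
    Matrix (Fin d ⊕ Fin d) (Fin d ⊕ Fin d) F :=
  Matrix.reindex (eqv hj) (eqv hj)
    (Matrix.fromBlocks A 0 0 (1 : Matrix (Fin (d - j) ⊕ Fin (d - j)) (Fin (d - j) ⊕ Fin (d - j)) F))

theorem blk_mul {j d : ℕ} (hj : j ≤ d) (A B : Matrix (Fin j ⊕ Fin j) (Fin j ⊕ Fin j) F) :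
    blk hj (A * B) = blk hj A * blk hj B := by
  unfold blk
  simp only [Matrix.reindex_apply]
  rw [Matrix.submatrix_mul_equiv, Matrix.fromBlocks_multiply]
  simp

theorem blk_one {j d : ℕ} (hj : j ≤ d) :
    blk hj (1 : Matrix (Fin j ⊕ Fin j) (Fin j ⊕ Fin j) F) = 1 := by
  unfold blk
  rw [Matrix.fromBlocks_one, Matrix.reindex_apply, Matrix.submatrix_one_equiv]

theorem blk_pow {j d : ℕ} (hj : j ≤ d) (A : Matrix (Fin j ⊕ Fin j) (Fin j ⊕ Fin j) F) (k : ℕ) :
    blk hj (A ^ k) = blk hj A ^ k := by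
  induction k with
  | zero => simp [blk_one]
  | succ k ih => rw [pow_succ, pow_succ, blk_mul, ih]

theorem blk_injective {j d : ℕ} (hj : j ≤ d) : Function.Injective (blk (F := F) hj) := by
  intro A B h
  unfold blk at h
  have h1 := (Matrix.reindex _ _).injective h
  exact (Matrix.fromBlocks_inj.mp h1).1

theorem J_eq {j d : ℕ} (hj : j ≤ d) :
    Matrix.J (Fin d) F = Matrix.reindex (eqv hj) (eqv hj)
      (Matrix.fromBlocks (Matrix.J (Fin j) F) 0 0 (Matrix.J (Fin (d - j)) F)) := by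
  rw [← J_submatrix (F := F) (finSumFinEquiv.trans (finCongr (by omega : j + (d - j) = d)))]
  change _ = Matrix.reindex (eqv hj) (eqv hj) ((Matrix.J (Fin d) F).submatrix (eqv hj) (eqv hj))
  ext a b
  simp only [Matrix.reindex_apply, Matrix.submatrix_apply, Equiv.apply_symm_apply]

theorem blk_mem {j d : ℕ} (hj : j ≤ d) (A : Matrix (Fin j ⊕ Fin j) (Fin j ⊕ Fin j) F)
    (hA : A ∈ Matrix.symplecticGroup (Fin j) F) :
    blk hj A ∈ Matrix.symplecticGroup (Fin d) F := by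
  rw [SymplecticGroup.mem_iff] at hA ⊢
  rw [J_eq hj]
  unfold blk
  simp only [Matrix.reindex_apply]
  rw [Matrix.transpose_submatrix, Matrix.submatrix_mul_equiv, Matrix.submatrix_mul_equiv,
    Matrix.fromBlocks_transpose, Matrix.fromBlocks_multiply, Matrix.fromBlocks_multiply]
  simp [hA]

theorem blk_rank {j d : ℕ} (hj : j ≤ d) (A : Matrix (Fin j ⊕ Fin j) (Fin j ⊕ Fin j) F) :
    (blk hj A - 1).rank ≤ 2 * j := by
  have h1 : blk hj A - 1 = Matrix.reindex (eqv hj) (eqv hj)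
      (Matrix.fromBlocks (A - 1) 0 0
        (0 : Matrix (Fin (d - j) ⊕ Fin (d - j)) (Fin (d - j) ⊕ Fin (d - j)) F)) := by
    rw [← blk_one hj]
    unfold blk
    rw [Matrix.reindex_apply, Matrix.reindex_apply, Matrix.reindex_apply]
    have h0 : Matrix.fromBlocks (A - 1) 0 0
          (0 : Matrix (Fin (d - j) ⊕ Fin (d - j)) (Fin (d - j) ⊕ Fin (d - j)) F)
        = Matrix.fromBlocks A 0 0 1 - Matrix.fromBlocks 1 0 0 1 := by
      ext (a | a) (b | b) <;> simp [Matrix.one_apply]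
    rw [h0]
    rfl
  rw [h1, Matrix.rank_reindex]
  have h2 : Matrix.fromBlocks (A - 1) 0 0
        (0 : Matrix (Fin (d - j) ⊕ Fin (d - j)) (Fin (d - j) ⊕ Fin (d - j)) F)
      = Matrix.fromRows (A - 1) (0 : Matrix (Fin (d - j) ⊕ Fin (d - j)) (Fin j ⊕ Fin j) F)
        * Matrix.fromCols (1 : Matrix (Fin j ⊕ Fin j) (Fin j ⊕ Fin j) F)
          (0 : Matrix (Fin j ⊕ Fin j) (Fin (d - j) ⊕ Fin (d - j)) F) := by
    rw [Matrix.fromRows_mul_fromCols]
    simp
  rw [h2]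
  refine le_trans (Matrix.rank_mul_le_left _ _) ?_
  have := Matrix.rank_le_card_width
    (Matrix.fromRows (A - 1) (0 : Matrix (Fin (d - j) ⊕ Fin (d - j)) (Fin j ⊕ Fin j) F))
  simp only [Fintype.card_sum, Fintype.card_fin] at this
  omega

/- piece P-ELT -/
theorem exists_small_sp [Fintype F] {d j r : ℕ} [Fact r.Prime] (hj0 : 0 < j) (hj : j ≤ d)
    (h1 : r ∣ Fintype.card F ^ (2 * j) - 1) :
    ∃ x : Matrix.symplecticGroup (Fin d) F, x ^ r = 1 ∧ x ≠ 1 ∧
      ((x : Matrix (Fin d ⊕ Fin d) (Fin d ⊕ Fin d) F) - 1).rank ≤ 2 * j := by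
  have hp : r.Prime := Fact.out
  have hdvd : r ∣ Nat.card (Matrix.symplecticGroup (Fin j) F) := by
    rw [Cfsg.Agent.Lib.Helper7SpFrame.card_symplecticGroup]
    refine Dvd.dvd.mul_left ?_ _
    refine Dvd.dvd.trans ?_ (Finset.dvd_prod_of_mem _ (Finset.mem_range.mpr (by omega : j - 1 < j)))
    have e : j - 1 + 1 = j := by omega
    rw [e]
    exact h1
  obtain ⟨A, hA⟩ := exists_prime_orderOf_dvd_card' r hdvd
  refine ⟨⟨blk hj (A : Matrix (Fin j ⊕ Fin j) (Fin j ⊕ Fin j) F), blk_mem hj _ A.2⟩, ?_, ?_, ?_⟩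
  · have h4 : A ^ r = 1 := by rw [← hA]; exact pow_orderOf_eq_one A
    have h5 : (A : Matrix (Fin j ⊕ Fin j) (Fin j ⊕ Fin j) F) ^ r = 1 := by
      have := congrArg (Subtype.val) h4
      simpa using this
    apply Subtype.ext
    show (blk hj (A : Matrix (Fin j ⊕ Fin j) (Fin j ⊕ Fin j) F)) ^ r = 1
    rw [← blk_pow, h5, blk_one]
  · intro hx1
    have h6 : blk hj (A : Matrix (Fin j ⊕ Fin j) (Fin j ⊕ Fin j) F) = 1 :=
      congrArg Subtype.val hx1
    rw [← blk_one hj] at h6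
    have h7 : A = 1 := Subtype.ext (blk_injective hj h6)
    rw [h7, orderOf_one] at hA
    exact hp.one_lt.ne hA
  · exact blk_rank hj _

end Cfsg.Agent.Lib.Helper94PolELT
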