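import Mathlib
import Cfsg.Agent.Lib.Helper94PolELT

set_option autoImplicit false
set_option linter.unusedSectionVars false

/-! Row S5961, piece Blk: the block sum `Sp_{2j} × Sp_{2(d-j)} → Sp_{2d}` (ELTMAX of
notes/helper94/ELU5.md).  Model: `blk`, `blk_mul`, `blk_mem`, `blk_rank`, `J_eq` of Helper94PolELT. -/

namespace Cfsg.Agent.Lib.H90SwBlk

open Matrix Cfsg.Agent.Lib.Helper94PolELT

variable {F : Type*} [Field F]

def blk2 {j d : ℕ} (hj : j ≤ d) (A : Matrix (Fin j ⊕ Fin j) (Fin j ⊕ Fin j) F)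
    (A' : Matrix (Fin (d - j) ⊕ Fin (d - j)) (Fin (d - j) ⊕ Fin (d - j)) F) :
    Matrix (Fin d ⊕ Fin d) (Fin d ⊕ Fin d) F :=
  Matrix.reindex (eqv hj) (eqv hj) (Matrix.fromBlocks A 0 0 A')

theorem finrank_prod_aux {V W : Type*} [AddCommGroup V] [Module F V] [AddCommGroup W]
    [Module F W] [FiniteDimensional F V] [FiniteDimensional F W] (p : Submodule F V)
    (q : Submodule F W) : Module.finrank F (p.prod q) = Module.finrank F p + Module.finrank F q := by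
  let e : (p.prod q) ≃ₗ[F] p × q :=
    { toFun := fun x => (⟨x.1.1, x.2.1⟩, ⟨x.1.2, x.2.2⟩)
      invFun := fun y => ⟨(y.1.1, y.2.1), ⟨y.1.2, y.2.2⟩⟩
      map_add' := fun x y => rfl
      map_smul' := fun c x => rfl
      left_inv := fun x => rfl
      right_inv := fun y => rfl }
  rw [e.finrank_eq, Module.finrank_prod]

theorem rank_diag_aux {ι κ : Type*} [Fintype ι] [DecidableEq ι] [Fintype κ] [DecidableEq κ]
    (A : Matrix κ κ F) (B : Matrix ι ι F) :
    (fromBlocks A 0 0 B).rank = A.rank + B.rank := by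
  let E : (κ ⊕ ι → F) ≃ₗ[F] (κ → F) × (ι → F) := LinearEquiv.sumArrowLequivProdArrow κ ι F F
  have h1 : (fromBlocks A 0 0 B).mulVecLin
      = E.symm.toLinearMap ∘ₗ (A.mulVecLin.prodMap B.mulVecLin) ∘ₗ E.toLinearMap := by
    apply LinearMap.ext
    intro v
    apply E.injective
    simp only [LinearMap.comp_apply, LinearEquiv.coe_coe, LinearEquiv.apply_symm_apply]
    rw [Matrix.mulVecLin_apply, Matrix.fromBlocks_mulVec]
    apply Prod.ext
    · funext i
      change (A *ᵥ (v ∘ Sum.inl) + (0 : Matrix κ ι F) *ᵥ (v ∘ Sum.inr)) i = (A *ᵥ (v ∘ Sum.inl)) i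
      simp
    · funext i
      change ((0 : Matrix ι κ F) *ᵥ (v ∘ Sum.inl) + B *ᵥ (v ∘ Sum.inr)) i = (B *ᵥ (v ∘ Sum.inr)) i
      simp
  unfold Matrix.rank
  rw [h1, LinearMap.range_comp, LinearEquiv.finrank_map_eq, LinearMap.range_comp,
    LinearEquiv.range, Submodule.map_top, LinearMap.range_prodMap, finrank_prod_aux]

theorem blk2_mem {j d : ℕ} (hj : j ≤ d) (A : Matrix (Fin j ⊕ Fin j) (Fin j ⊕ Fin j) F)
    (A' : Matrix (Fin (d - j) ⊕ Fin (d - j)) (Fin (d - j) ⊕ Fin (d - j)) F)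
    (hA : A ∈ Matrix.symplecticGroup (Fin j) F) (hA' : A' ∈ Matrix.symplecticGroup (Fin (d - j)) F) :
    blk2 hj A A' ∈ Matrix.symplecticGroup (Fin d) F := by
  rw [SymplecticGroup.mem_iff] at hA hA' ⊢
  rw [J_eq hj]
  unfold blk2
  simp only [Matrix.reindex_apply]
  rw [Matrix.transpose_submatrix, Matrix.submatrix_mul_equiv, Matrix.submatrix_mul_equiv,
    Matrix.fromBlocks_transpose, Matrix.fromBlocks_multiply, Matrix.fromBlocks_multiply]
  simp [hA, hA']

theorem blk2_mul {j d : ℕ} (hj : j ≤ d) (A B : Matrix (Fin j ⊕ Fin j) (Fin j ⊕ Fin j) F)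
    (A' B' : Matrix (Fin (d - j) ⊕ Fin (d - j)) (Fin (d - j) ⊕ Fin (d - j)) F) :
    blk2 hj (A * B) (A' * B') = blk2 hj A A' * blk2 hj B B' := by
  unfold blk2
  simp only [Matrix.reindex_apply]
  rw [Matrix.submatrix_mul_equiv, Matrix.fromBlocks_multiply]
  simp

theorem blk2_one {j d : ℕ} (hj : j ≤ d) :
    blk2 (F := F) hj 1 1 = 1 := by
  unfold blk2
  rw [Matrix.fromBlocks_one, Matrix.reindex_apply, Matrix.submatrix_one_equiv]

theorem blk2_pow {j d : ℕ} (hj : j ≤ d) (A : Matrix (Fin j ⊕ Fin j) (Fin j ⊕ Fin j) F)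
    (A' : Matrix (Fin (d - j) ⊕ Fin (d - j)) (Fin (d - j) ⊕ Fin (d - j)) F) (k : ℕ) :
    blk2 hj A A' ^ k = blk2 hj (A ^ k) (A' ^ k) := by
  induction k with
  | zero => simp [blk2_one]
  | succ k ih => rw [pow_succ, pow_succ, pow_succ, blk2_mul, ih]

theorem blk2_rank {j d : ℕ} (hj : j ≤ d) (A : Matrix (Fin j ⊕ Fin j) (Fin j ⊕ Fin j) F)
    (A' : Matrix (Fin (d - j) ⊕ Fin (d - j)) (Fin (d - j) ⊕ Fin (d - j)) F) :
    (blk2 hj A A' - 1).rank = (A - 1).rank + (A' - 1).rank := by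
  have h1 : blk2 hj A A' - 1 = Matrix.reindex (eqv hj) (eqv hj)
      (Matrix.fromBlocks (A - 1) 0 0 (A' - 1)) := by
    rw [← blk2_one hj]
    unfold blk2
    rw [Matrix.reindex_apply, Matrix.reindex_apply, Matrix.reindex_apply]
    have h0 : Matrix.fromBlocks (A - 1) 0 0 (A' - 1)
        = Matrix.fromBlocks A 0 0 A' - Matrix.fromBlocks 1 0 0 1 := by
      ext (a | a) (b | b) <;> simp [Matrix.one_apply]
    rw [h0]
    rfl
  rw [h1, Matrix.rank_reindex, rank_diag_aux]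

end Cfsg.Agent.Lib.H90SwBlk
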