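import Mathlib
import Cfsg.Agent.Lib.H90SwDefs
import Cfsg.Agent.Lib.Helper99SympForm
import Cfsg.Agent.Lib.Helper7SpFrame

set_option autoImplicit false
set_option linter.unusedSectionVars false

/-! Row S5961, piece C1a: a frame adapted to a decomposition ((C1) of notes/helper94/ELU5.md). -/

namespace Cfsg.Agent.Lib.H90SwC1a

open Module Cfsg.Agent.Lib.Helper99Symp Cfsg.Agent.Lib.H90SwDefs Cfsg.Agent.Lib.Helper99SympForm
  Cfsg.Agent.Lib.Helper7SpFrame

section general

variable {F V : Type*} [Field F] [AddCommGroup V] [Module F V] [FiniteDimensional F V]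
variable {B : LinearMap.BilinForm F V}

theorem finrank_span_hyp (hB : ∀ v, B v v = 0) {e f : V} (hef : B e f ≠ 0) :
    finrank F (Submodule.span F {e, f}) = 2 := by
  have hli : LinearIndependent F ![e, f] := by
    rw [LinearIndependent.pair_iff]
    intro s t hst
    have h1 : B (s • e + t • f) f = 0 := by rw [hst]; simp
    have h2 : B (s • e + t • f) e = 0 := by rw [hst]; simp
    simp only [map_add, map_smul, LinearMap.add_apply, LinearMap.smul_apply, hB, smul_eq_mul,
      mul_zero, add_zero, zero_add] at h1 h2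
    rw [skew hB f e] at h2
    constructor
    · exact (mul_eq_zero.1 h1).resolve_right hef
    · exact (mul_eq_zero.1 h2).resolve_right (neg_ne_zero.2 hef)
  have h := finrank_span_eq_card hli
  have hr : Set.range ![e, f] = {e, f} := by
    ext x
    simp [eq_comm, or_comm]
  rw [hr] at h
  simpa using h

theorem span_inf_perpPair (hB : ∀ v, B v v = 0) {U : Submodule F V} {e f : V} (hef : B e f ≠ 0) :
    Submodule.span F {e, f} ⊓ perpPair B U e f = ⊥ := by
  rw [eq_bot_iff]
  rintro x ⟨hx1, hx2⟩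
  obtain ⟨s, t, rfl⟩ := Submodule.mem_span_pair.1 hx1
  obtain ⟨-, h2, h1⟩ := mem_perpPair.1 hx2
  simp only [map_add, map_smul, LinearMap.add_apply, LinearMap.smul_apply, hB, smul_eq_mul,
    mul_zero, add_zero, zero_add] at h1 h2
  rw [skew hB f e] at h2
  have hs : s = 0 := (mul_eq_zero.1 h1).resolve_right hef
  have ht : t = 0 := (mul_eq_zero.1 h2).resolve_right (neg_ne_zero.2 hef)
  simp [hs, ht]

theorem finrank_perpPair (hB : ∀ v, B v v = 0) {U : Submodule F V} {e f : V} (he : e ∈ U)
    (hf : f ∈ U) (hef : B e f ≠ 0) : finrank F (perpPair B U e f) + 2 = finrank F U := by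
  have h := Submodule.finrank_sup_add_finrank_inf_eq (Submodule.span F {e, f}) (perpPair B U e f)
  rw [perpPair_sup hB he hf hef, span_inf_perpPair hB hef, finrank_bot, finrank_span_hyp hB hef] at h
  omega

end general

variable {F : Type*} [Field F] {d : ℕ}

/-- a nondegenerate subspace of dimension `2 a'` is spanned by a frame (induction on `a'` with
`perpPair`, `perpPair_nondeg`, `perpPair_sup`; rescale `f` so that the form is `1` on the pair). -/
theorem exists_frame_of_nondeg (a' : ℕ) (W : Submodule F (Fin d ⊕ Fin d → F))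
    (hW : ∀ u ∈ W, u ≠ 0 → ∃ v ∈ W, Cfsg.sympForm d F u v ≠ 0) (hfin : finrank F W = 2 * a') :
    ∃ ψ : Fin a' → (Fin d ⊕ Fin d → F) × (Fin d ⊕ Fin d → F), IsFrame ψ ∧
      W = Submodule.span F {v | ∃ k, v = (ψ k).1 ∨ v = (ψ k).2} := by
  have hB : ∀ v, sympB (F := F) d v v = 0 := fun v => by rw [sympB_apply]; exact sympForm_self d v
  induction a' generalizing W with
  | zero =>
    refine ⟨fun k => k.elim0, ⟨fun i => i.elim0, fun i => i.elim0⟩, ?_⟩
    have h1 : W = ⊥ := Submodule.finrank_eq_zero.1 (by simpa using hfin)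
    rw [h1]
    symm
    rw [Submodule.span_eq_bot]
    rintro x ⟨k, -⟩
    exact k.elim0
  | succ a' ih =>
    have hne : W ≠ ⊥ := by
      rintro rfl
      rw [finrank_bot] at hfin
      omega
    obtain ⟨e, he, he0⟩ := Submodule.exists_mem_ne_zero_of_ne_bot hne
    obtain ⟨f₀, hf₀, hef₀⟩ := hW e he he0
    set f := (Cfsg.sympForm d F e f₀)⁻¹ • f₀ with hfdef
    have hf : f ∈ W := W.smul_mem _ hf₀
    have hef1 : sympB d e f = 1 := by
      rw [hfdef, map_smul, smul_eq_mul, sympB_apply, inv_mul_cancel₀ hef₀]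
    have hef : sympB d e f ≠ 0 := by rw [hef1]; exact one_ne_zero
    have hWn : NondegOn (sympB d) W := by
      intro u hu hu0
      obtain ⟨v, hv, huv⟩ := hW u hu hu0
      exact ⟨v, hv, by rw [sympB_apply]; exact huv⟩
    have hUn := perpPair_nondeg hB he hf hef hWn
    have hUf : finrank F (perpPair (sympB d) W e f) = 2 * a' := by
      have := finrank_perpPair hB he hf hef
      omega
    obtain ⟨ψ, hψ, hspan⟩ := ih (perpPair (sympB d) W e f) (by
      intro u hu hu0
      obtain ⟨v, hv, huv⟩ := hUn u hu hu0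
      exact ⟨v, hv, by rw [← sympB_apply]; exact huv⟩) hUf
    have hmem : ∀ k, (ψ k).1 ∈ perpPair (sympB d) W e f ∧ (ψ k).2 ∈ perpPair (sympB d) W e f := by
      intro k
      rw [hspan]
      exact ⟨Submodule.subset_span ⟨k, Or.inl rfl⟩, Submodule.subset_span ⟨k, Or.inr rfl⟩⟩
    have hpe : Perp ψ e := by
      intro k
      constructor
      · show Cfsg.sympForm d F e (ψ k).1 = 0
        rw [← sympB_apply, skew hB, (mem_perpPair.1 (hmem k).1).2.1, neg_zero]
      · show Cfsg.sympForm d F e (ψ k).2 = 0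
        rw [← sympB_apply, skew hB, (mem_perpPair.1 (hmem k).2).2.1, neg_zero]
    have hpf : Perp ψ f := by
      intro k
      constructor
      · show Cfsg.sympForm d F f (ψ k).1 = 0
        rw [← sympB_apply, skew hB, (mem_perpPair.1 (hmem k).1).2.2, neg_zero]
      · show Cfsg.sympForm d F f (ψ k).2 = 0
        rw [← sympB_apply, skew hB, (mem_perpPair.1 (hmem k).2).2.2, neg_zero]
    have hhyp : IsHyp ((e, f) : (Fin d ⊕ Fin d → F) × (Fin d ⊕ Fin d → F)) := by
      show Cfsg.sympForm d F e f = 1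
      rw [← sympB_apply]; exact hef1
    refine ⟨Fin.snoc (α := fun _ => (Fin d ⊕ Fin d → F) × (Fin d ⊕ Fin d → F)) ψ (e, f),
      isFrame_snoc hψ hhyp hpe hpf, ?_⟩
    have hset : {v | ∃ k, v = (Fin.snoc (α := fun _ => (Fin d ⊕ Fin d → F) × (Fin d ⊕ Fin d → F))
        ψ (e, f) k).1 ∨ v = (Fin.snoc (α := fun _ => (Fin d ⊕ Fin d → F) × (Fin d ⊕ Fin d → F))
        ψ (e, f) k).2} = {e, f} ∪ {v | ∃ k, v = (ψ k).1 ∨ v = (ψ k).2} := by
      ext v
      simp only [Set.mem_ofPred_eq, Set.mem_union, Set.mem_insert_iff, Set.mem_singleton_iff]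
      constructor
      · rintro ⟨k, hk⟩
        revert hk
        refine Fin.lastCases ?_ (fun k' => ?_) k
        · intro hk
          left
          simpa using hk
        · intro hk
          right
          exact ⟨k', by simpa using hk⟩
      · rintro (hv | ⟨k, hk⟩)
        · exact ⟨Fin.last a', by simpa using hv⟩
        · exact ⟨k.castSucc, by simpa using hk⟩
    rw [hset, Submodule.span_union, ← hspan, perpPair_sup hB he hf hef]

theorem exists_frame {a' t : ℕ} (e : Fin t × Fin a' ≃ Fin d)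
    (D : Fin t → Submodule F (Fin d ⊕ Fin d → F)) (hD : IsX d (2 * a') D) :
    ∃ φ : Fin d → (Fin d ⊕ Fin d → F) × (Fin d ⊕ Fin d → F), IsFrame φ ∧
      ∀ j, D j = Submodule.span F {v | ∃ k, v = (φ (e (j, k))).1 ∨ v = (φ (e (j, k))).2} := by
  obtain ⟨hdec, hnd, hor⟩ := hD
  choose ψ hψ hspan using fun j => exists_frame_of_nondeg a' (D j) (hnd j) (hdec.finrank_eq j)
  have hmem : ∀ j k, (ψ j k).1 ∈ D j ∧ (ψ j k).2 ∈ D j := by
    intro j k
    rw [hspan j]
    exact ⟨Submodule.subset_span ⟨k, Or.inl rfl⟩, Submodule.subset_span ⟨k, Or.inr rfl⟩⟩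
  refine ⟨fun i => ψ (e.symm i).1 (e.symm i).2, ⟨fun i => (hψ _).1 _, ?_⟩, ?_⟩
  · intro i i' hii
    by_cases hj : (e.symm i).1 = (e.symm i').1
    · have hk : (e.symm i).2 ≠ (e.symm i').2 := by
        intro hk
        exact hii (e.symm.injective (Prod.ext hj hk))
      have := (hψ (e.symm i).1).2 _ _ hk
      simp only
      rw [← hj]
      exact this
    · exact ⟨⟨hor _ _ hj _ (hmem _ _).1 _ (hmem _ _).1, hor _ _ hj _ (hmem _ _).1 _ (hmem _ _).2⟩,
        ⟨hor _ _ hj _ (hmem _ _).2 _ (hmem _ _).1, hor _ _ hj _ (hmem _ _).2 _ (hmem _ _).2⟩⟩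
  · intro j
    simp only [Equiv.symm_apply_apply]
    exact hspan j

end Cfsg.Agent.Lib.H90SwC1a
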