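import Mathlib
import Cfsg.Agent.Lib.H90SwDefs
import Cfsg.Agent.Lib.H90SwC1a

set_option autoImplicit false
set_option linter.unusedSectionVars false

/-! Row S5961, piece C1b: `Sp` is transitive on the decompositions ((C1) of notes/helper94/ELU5.md):
`A := matOf φ' * (matOf φ)⁻¹` (`matOf_mem`, `matOf_inl`, `matOf_inr` of Helper7SpFrame). -/

namespace Cfsg.Agent.Lib.H90SwC1b

open Module Cfsg.Agent.Lib.Helper99Symp Cfsg.Agent.Lib.H90SwDefs Cfsg.Agent.Lib.Helper99SympForm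
  Cfsg.Agent.Lib.Helper7SpFrame Cfsg.Agent.Lib.H90SwC1a

variable {F : Type*} [Field F] {d : ℕ}

theorem x_trans {a t : ℕ} (hat : 2 * d = a * t) (hae : Even a)
    (D D' : Fin t → Submodule F (Fin d ⊕ Fin d → F)) (hD : IsX d a D) (hD' : IsX d a D') :
    ∃ A : Matrix.symplecticGroup (Fin d) F,
      ∀ j, (D j).map (Matrix.toLin' (A : Matrix (Fin d ⊕ Fin d) (Fin d ⊕ Fin d) F)) = D' j := by
  obtain ⟨a', ha'⟩ := hae
  have ha2 : a = 2 * a' := by omega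
  subst ha2
  have hd : t * a' = d := by
    have : 2 * d = 2 * (t * a') := by rw [hat]; ring
    omega
  let e : Fin t × Fin a' ≃ Fin d := finProdFinEquiv.trans (finCongr hd)
  obtain ⟨φ, hφ, hDφ⟩ := exists_frame e D hD
  obtain ⟨φ', hφ', hDφ'⟩ := exists_frame e D' hD'
  let M : Matrix.symplecticGroup (Fin d) F := ⟨matOf φ, matOf_mem φ hφ⟩
  let M' : Matrix.symplecticGroup (Fin d) F := ⟨matOf φ', matOf_mem φ' hφ'⟩
  have hinv : ((M⁻¹ : Matrix.symplecticGroup (Fin d) F) : Matrix (Fin d ⊕ Fin d) (Fin d ⊕ Fin d) F) * matOf φ = 1 := by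
    have := congrArg Subtype.val (inv_mul_cancel M)
    exact this
  have hcoe : ((M' * M⁻¹ : Matrix.symplecticGroup (Fin d) F) : Matrix (Fin d ⊕ Fin d) (Fin d ⊕ Fin d) F)
      = matOf φ' * ((M⁻¹ : Matrix.symplecticGroup (Fin d) F) : Matrix (Fin d ⊕ Fin d) (Fin d ⊕ Fin d) F) := rfl
  have h1 : ∀ i, Matrix.toLin' ((M' * M⁻¹ : Matrix.symplecticGroup (Fin d) F) : Matrix (Fin d ⊕ Fin d) (Fin d ⊕ Fin d) F)
      (φ i).1 = (φ' i).1 := by
    intro i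
    rw [Matrix.toLin'_apply, hcoe, ← matOf_inr φ i, Matrix.mulVec_mulVec, Matrix.mul_assoc, hinv,
      Matrix.mul_one, matOf_inr]
  have h2 : ∀ i, Matrix.toLin' ((M' * M⁻¹ : Matrix.symplecticGroup (Fin d) F) : Matrix (Fin d ⊕ Fin d) (Fin d ⊕ Fin d) F)
      (φ i).2 = (φ' i).2 := by
    intro i
    rw [Matrix.toLin'_apply, hcoe, ← matOf_inl φ i, Matrix.mulVec_mulVec, Matrix.mul_assoc, hinv,
      Matrix.mul_one, matOf_inl]
  refine ⟨M' * M⁻¹, fun j => ?_⟩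
  rw [hDφ j, hDφ' j, Submodule.map_span]
  congr 1
  ext v
  constructor
  · rintro ⟨w, ⟨k, rfl | rfl⟩, rfl⟩
    · exact ⟨k, Or.inl (h1 _)⟩
    · exact ⟨k, Or.inr (h2 _)⟩
  · rintro ⟨k, rfl | rfl⟩
    · exact ⟨_, ⟨k, Or.inl rfl⟩, h1 _⟩
    · exact ⟨_, ⟨k, Or.inr rfl⟩, h2 _⟩

end Cfsg.Agent.Lib.H90SwC1b
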