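import Mathlib
import Cfsg.Agent.Lib.H90SwDefs
import Cfsg.Agent.Lib.H90SwC1b

set_option autoImplicit false
set_option linter.unusedSectionVars false

/-! Row S5961, piece C1c: `|X|` divides `|Sp|` ((C1) of notes/helper94/ELU5.md; model:
Helper76ImpC1C.card_dec_dvd).  `X ≠ ∅`: `Helper99Symp.orth_decomp` with `X = id`, `z = 1`. -/

namespace Cfsg.Agent.Lib.H90SwC1c

open Module Cfsg.Agent.Lib.Helper99Symp Cfsg.Agent.Lib.H90SwDefs Cfsg.Agent.Lib.Helper99SympForm
  Cfsg.Agent.Lib.H90SwC1b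

variable {F : Type*} [Field F] {d : ℕ}

/-- the linear equivalence of a symplectic matrix -/
noncomputable def spEquiv (A : Matrix.symplecticGroup (Fin d) F) :
    (Fin d ⊕ Fin d → F) ≃ₗ[F] (Fin d ⊕ Fin d → F) :=
  Matrix.toLin'OfInv (M := ((A⁻¹ : Matrix.symplecticGroup (Fin d) F) :
      Matrix (Fin d ⊕ Fin d) (Fin d ⊕ Fin d) F))
    (M' := (A : Matrix (Fin d ⊕ Fin d) (Fin d ⊕ Fin d) F))
    (by rw [← Submonoid.coe_mul, inv_mul_cancel]; rfl)
    (by rw [← Submonoid.coe_mul, mul_inv_cancel]; rfl)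

theorem spEquiv_coe (A : Matrix.symplecticGroup (Fin d) F) :
    Matrix.toLin' (A : Matrix (Fin d ⊕ Fin d) (Fin d ⊕ Fin d) F)
      = ((spEquiv A : (Fin d ⊕ Fin d → F) ≃ₗ[F] (Fin d ⊕ Fin d → F)) :
          (Fin d ⊕ Fin d → F) →ₗ[F] (Fin d ⊕ Fin d → F)) := by
  apply LinearMap.ext
  intro x
  rfl

theorem isX_map {a t : ℕ} (A : Matrix.symplecticGroup (Fin d) F)
    (D : Fin t → Submodule F (Fin d ⊕ Fin d → F)) (hD : IsX d a D) :
    IsX d a (fun j => (D j).map (Matrix.toLin' (A : Matrix (Fin d ⊕ Fin d) (Fin d ⊕ Fin d) F))) := by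
  obtain ⟨hM, hN, hO⟩ := hD
  refine ⟨?_, ?_, ?_⟩
  · rw [spEquiv_coe]
    refine ⟨hM.two_le, hM.pos, fun j => ?_, ?_, ?_⟩
    · rw [LinearEquiv.finrank_map_eq, hM.finrank_eq]
    · exact hM.indep.map_orderIso (Submodule.orderIsoMapComap (spEquiv A))
    · rw [← Submodule.map_iSup, hM.iSup_eq_top, Submodule.map_top, LinearMap.range_eq_top]
      exact (spEquiv A).surjective
  · rintro j _ ⟨u, hu, rfl⟩ hne
    have hu0 : u ≠ 0 := by
      rintro rfl
      exact hne (map_zero _)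
    obtain ⟨v, hv, hne'⟩ := hN j u hu hu0
    refine ⟨_, ⟨v, hv, rfl⟩, ?_⟩
    rw [Matrix.toLin'_apply, Matrix.toLin'_apply, sympForm_mulVec d A.2]
    exact hne'
  · rintro j j' hjj _ ⟨u, hu, rfl⟩ _ ⟨v, hv, rfl⟩
    rw [Matrix.toLin'_apply, Matrix.toLin'_apply, sympForm_mulVec d A.2]
    exact hO j j' hjj u hu v hv

theorem exists_isX {a t : ℕ} (hat : 2 * d = a * t) (hae : Even a) (ha : 2 ≤ a) (ht : 2 ≤ t) :
    ∃ D : Fin t → Submodule F (Fin d ⊕ Fin d → F), IsX d a D := by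
  obtain ⟨a', ha'⟩ := hae
  have ha2 : a = 2 * a' := by omega
  obtain ⟨D, h1, h2, h3, h4, h5, _⟩ := orth_decomp (B := sympB (F := F) d) (X := LinearMap.id) (z := 1)
    (fun v => by rw [sympB_apply]; exact sympForm_self d v)
    (fun u hu => by
      obtain ⟨v, hv⟩ := sympForm_nondeg d u hu
      exact ⟨v, by rw [sympB_apply]; exact hv⟩)
    (fun u v => rfl) (one_mul 1) (fun v => by simp) a' t (by omega)
    (by rw [Module.finrank_pi, Fintype.card_sum, Fintype.card_fin, ← ha2, ← hat]; ring)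
  refine ⟨D, ⟨ht, by omega, fun j => by rw [h1 j, ha2], h2, h3⟩, ?_, ?_⟩
  · intro j u hu hu0
    obtain ⟨v, hv, hne⟩ := h4 j u hu hu0
    exact ⟨v, hv, by rw [← sympB_apply]; exact hne⟩
  · intro j j' hjj u hu v hv
    rw [← sympB_apply]
    exact h5 j j' hjj u hu v hv

/-- the action of `Sp` on families of subspaces -/
@[instance_reducible] noncomputable def act (t : ℕ) :
    MulAction (Matrix.symplecticGroup (Fin d) F) (Fin t → Submodule F (Fin d ⊕ Fin d → F)) where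
  smul g D := fun j => (D j).map (Matrix.toLin' (g : Matrix (Fin d ⊕ Fin d) (Fin d ⊕ Fin d) F))
  one_smul D := by
    funext j
    show (D j).map (Matrix.toLin' ((1 : Matrix.symplecticGroup (Fin d) F) :
      Matrix (Fin d ⊕ Fin d) (Fin d ⊕ Fin d) F)) = D j
    rw [Submonoid.coe_one, Matrix.toLin'_one, Submodule.map_id]
  mul_smul g h D := by
    funext j
    show (D j).map (Matrix.toLin' ((g * h : Matrix.symplecticGroup (Fin d) F) :
        Matrix (Fin d ⊕ Fin d) (Fin d ⊕ Fin d) F))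
      = ((D j).map (Matrix.toLin' (h : Matrix (Fin d ⊕ Fin d) (Fin d ⊕ Fin d) F))).map
          (Matrix.toLin' (g : Matrix (Fin d ⊕ Fin d) (Fin d ⊕ Fin d) F))
    rw [Submonoid.coe_mul, Matrix.toLin'_mul, Submodule.map_comp]

theorem card_x_dvd [Fintype F] {a t : ℕ} (hat : 2 * d = a * t) (hae : Even a) (ha : 2 ≤ a)
    (ht : 2 ≤ t) :
    Nat.card {D : Fin t → Submodule F (Fin d ⊕ Fin d → F) // IsX d a D}
      ∣ Nat.card (Matrix.symplecticGroup (Fin d) F) := by
  classical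
  let _ := act (F := F) (d := d) t
  obtain ⟨D₀, hD₀⟩ := exists_isX (F := F) hat hae ha ht
  have h1 : Nat.card {D : Fin t → Submodule F (Fin d ⊕ Fin d → F) // IsX d a D}
      = Nat.card (MulAction.orbit (Matrix.symplecticGroup (Fin d) F) D₀) := by
    apply Nat.card_congr
    apply Equiv.subtypeEquivRight
    intro D
    constructor
    · intro hD
      obtain ⟨g, hg⟩ := x_trans hat hae D₀ D hD₀ hD
      exact ⟨g, funext hg⟩
    · rintro ⟨g, rfl⟩
      exact isX_map g D₀ hD₀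
  rw [h1, Nat.card_coe_set_eq, ← MulAction.index_stabilizer]
  exact Subgroup.index_dvd_card _

end Cfsg.Agent.Lib.H90SwC1c
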