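import Mathlib
import Cfsg.Agent.Lib.H90SwDefs
import Cfsg.Agent.Lib.H90SwL
import Cfsg.Agent.Lib.Helper7SpFrame

set_option autoImplicit false
set_option linter.unusedSectionVars false

/-! Row S5961, piece C23 = (C2) + (C3) of notes/helper94/ELU5.md. -/

namespace Cfsg.Agent.Lib.H90SwC23

open Module Cfsg.Agent.Lib.H90SwDefs Cfsg.Agent.Lib.H90SwL

variable {F : Type*} [Field F] {d : ℕ}

theorem isX_comp {a t : ℕ} {D : Fin t → Submodule F (Fin d ⊕ Fin d → F)} (hD : IsX d a D)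
    (σ : Equiv.Perm (Fin t)) : IsX d a (fun j => D (σ j)) := by
  refine ⟨?_, fun j => hD.2.1 (σ j), fun j j' hjj' => hD.2.2 (σ j) (σ j') (fun h => hjj' (σ.injective h))⟩
  exact
    { two_le := hD.1.two_le
      pos := hD.1.pos
      finrank_eq := fun i => hD.1.finrank_eq _
      indep := hD.1.indep.comp σ.injective
      iSup_eq_top := by
        rw [← hD.1.iSup_eq_top]
        exact Equiv.iSup_comp (g := D) σ }

/-- (C2) -/
theorem factorial_dvd_card_x [Fintype F] (a t : ℕ) :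
    t.factorial ∣ Nat.card {D : Fin t → Submodule F (Fin d ⊕ Fin d → F) // IsX d a D} := by
  classical
  let _ : MulAction (Equiv.Perm (Fin t))
      {D : Fin t → Submodule F (Fin d ⊕ Fin d → F) // IsX d a D} :=
    { smul := fun σ D => ⟨fun j => D.1 (σ⁻¹ j), isX_comp D.2 σ⁻¹⟩
      one_smul := fun D => Subtype.ext (funext fun j => rfl)
      mul_smul := fun σ τ D => Subtype.ext (funext fun j => by
        show D.1 ((σ * τ)⁻¹ j) = D.1 (τ⁻¹ (σ⁻¹ j))
        rw [mul_inv_rev, Equiv.Perm.mul_apply]) }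
  have hfree : ∀ D : {D : Fin t → Submodule F (Fin d ⊕ Fin d → F) // IsX d a D},
      MulAction.stabilizer (Equiv.Perm (Fin t)) D = ⊥ := by
    intro D
    rw [eq_bot_iff]
    intro σ hσ
    rw [MulAction.mem_stabilizer_iff] at hσ
    rw [Subgroup.mem_bot]
    have h1 : ∀ j, D.1 (σ⁻¹ j) = D.1 j := fun j => congrFun (congrArg Subtype.val hσ) j
    have h2 : σ⁻¹ = 1 := by
      ext j
      rw [dec_injective D.1 D.2.1 (h1 j)]
      rfl
    exact inv_eq_one.1 h2
  have h := Nat.card_congr (MulAction.selfEquivOrbitsQuotientProd hfree)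
  rw [Nat.card_prod, Nat.card_perm, Nat.card_fin] at h
  rw [h]
  exact Dvd.intro_left _ rfl

/-- (C3) -/
theorem cc_le_of_dvd [Fintype F] {r : ℕ} [Fact r.Prime] (hr : ¬ r ∣ Fintype.card F)
    (h : r ∣ Nat.card (Matrix.symplecticGroup (Fin d) F)) : cc F r ≤ 2 * d := by
  have hrP : r.Prime := Fact.out
  rw [Cfsg.Agent.Lib.Helper7SpFrame.card_symplecticGroup] at h
  rcases (Nat.Prime.dvd_mul hrP).1 h with h1 | h1
  · exact absurd (hrP.dvd_of_dvd_pow h1) hr
  · obtain ⟨j, hj, hjr⟩ := (Prime.dvd_finsetProd_iff hrP.prime _).1 h1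
    rw [Finset.mem_range] at hj
    rw [Cfsg.Agent.Lib.Helper87EluD.dvd_pow_sub_one_iff _ _ _ Fintype.card_pos] at hjr
    have h2 : cc F r ∣ 2 * (j + 1) := cc_dvd (Dvd.intro _ rfl) hjr
    have := Nat.le_of_dvd (by omega) h2
    omega

end Cfsg.Agent.Lib.H90SwC23
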