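import Mathlib
import Cfsg.Agent.Lib.H90SwDefs
import Cfsg.Agent.Lib.Helper99SympForm

set_option autoImplicit false
set_option linter.unusedSectionVars false

/-! Row S5961, piece Mat: from symplectic matrices to the abstract setting (§2 of notes/helper94/ELU5.md). -/

namespace Cfsg.Agent.Lib.H90SwMat

open Module Cfsg.Agent.Lib.Helper99Symp Cfsg.Agent.Lib.H90SwDefs Cfsg.Agent.Lib.Helper99SympForm

variable {F : Type*} [Field F] {d : ℕ}

theorem nondegOn_top : NondegOn (sympB (F := F) d) ⊤ := by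
  intro u _ hu0
  obtain ⟨v, hv⟩ := sympForm_nondeg d u hu0
  exact ⟨v, trivial, by rwa [sympB_apply]⟩

theorem toLin_pow (x : Matrix.symplecticGroup (Fin d) F) (r : ℕ) :
    (Matrix.toLin' (x : Matrix (Fin d ⊕ Fin d) (Fin d ⊕ Fin d) F) :
      Module.End F (Fin d ⊕ Fin d → F)) ^ r
      = Matrix.toLin' ((x ^ r : ↥(Matrix.symplecticGroup (Fin d) F)) :
        Matrix (Fin d ⊕ Fin d) (Fin d ⊕ Fin d) F) := by
  rw [← Matrix.toLin'_pow]
  rfl

theorem ctx_of_sp [Fintype F] {r : ℕ} [Fact r.Prime] (hr2 : r ≠ 2) (hr : ¬ r ∣ Fintype.card F)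
    (hrF : (r : F) ≠ 0) (x : Matrix.symplecticGroup (Fin d) F) (hx : x ^ r = 1) :
    Ctx (sympB d) r (Matrix.toLin' (x : Matrix (Fin d ⊕ Fin d) (Fin d ⊕ Fin d) F)) where
  alt v := by rw [sympB_apply]; exact sympForm_self d v
  pow := by
    rw [toLin_pow, hx]
    exact Matrix.toLin'_one
  pres u v := by
    rw [sympB_apply, sympB_apply, Matrix.toLin'_apply, Matrix.toLin'_apply]
    exact sympForm_mulVec d x.2 u v
  prime := Fact.out
  odd := hr2
  ndvd := hr
  ne0 := hrF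

/-- §2: `x ^ r = z • 1` gives `z ^ 2 = 1`, and `z • x` has order dividing `r` (`r + 1` is even). -/
theorem ctx_of_scalar [Fintype F] {r : ℕ} [Fact r.Prime] (hr2 : r ≠ 2) (hr : ¬ r ∣ Fintype.card F)
    (hrF : (r : F) ≠ 0) (hd : 0 < d) (x : Matrix.symplecticGroup (Fin d) F) (z : F)
    (hz : ((x ^ r : ↥(Matrix.symplecticGroup (Fin d) F)) : Matrix (Fin d ⊕ Fin d) (Fin d ⊕ Fin d) F)
      = z • (1 : Matrix (Fin d ⊕ Fin d) (Fin d ⊕ Fin d) F)) :
    z ≠ 0 ∧ Ctx (sympB d) r (z • Matrix.toLin' (x : Matrix (Fin d ⊕ Fin d) (Fin d ⊕ Fin d) F)) := by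
  have hrP : r.Prime := Fact.out
  have hzz : z * z = 1 := by
    have hu : (Pi.single (Sum.inl ⟨0, hd⟩) 1 : Fin d ⊕ Fin d → F) ≠ 0 := by
      intro h
      have := congrFun h (Sum.inl ⟨0, hd⟩)
      simp at this
    obtain ⟨v, hv⟩ := sympForm_nondeg d _ hu
    have h1 := sympForm_mulVec d (x ^ r).2 (Pi.single (Sum.inl ⟨0, hd⟩) 1) v
    rw [hz] at h1
    simp only [Matrix.smul_mulVec, Matrix.one_mulVec] at h1
    rw [← sympB_apply, ← sympB_apply, map_smul, map_smul, LinearMap.smul_apply, smul_eq_mul,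
      smul_eq_mul, ← mul_assoc] at h1
    rw [← sympB_apply] at hv
    exact mul_right_cancel₀ hv (by rw [h1, one_mul])
  have hz0 : z ≠ 0 := by
    rintro rfl
    simp at hzz
  refine ⟨hz0, ?_⟩
  refine ⟨fun v => by rw [sympB_apply]; exact sympForm_self d v, ?_, fun u v => ?_, hrP, hr2, hr, hrF⟩
  · rw [_root_.smul_pow, toLin_pow, hz, map_smul, smul_smul, Matrix.toLin'_one]
    obtain ⟨m, hm⟩ := hrP.eq_two_or_odd'.resolve_left hr2
    have h2 : z ^ r * z = 1 := by
      rw [hm, ← pow_succ, show 2 * m + 1 + 1 = 2 * (m + 1) by ring, pow_mul, pow_two, hzz, one_pow]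
    rw [h2, one_smul]
    rfl
  · rw [LinearMap.smul_apply, LinearMap.smul_apply, map_smul, map_smul, LinearMap.smul_apply,
      smul_eq_mul, smul_eq_mul, ← mul_assoc, hzz, one_mul, sympB_apply, sympB_apply,
      Matrix.toLin'_apply, Matrix.toLin'_apply]
    exact sympForm_mulVec d x.2 u v

theorem finrank_eigen_add_rank (A : Matrix (Fin d ⊕ Fin d) (Fin d ⊕ Fin d) F) :
    finrank F ↥(Module.End.eigenspace (Matrix.toLin' A) 1) + (A - 1).rank = 2 * d := by
  have h1 : Module.End.eigenspace (Matrix.toLin' A) 1 = LinearMap.ker (Matrix.toLin' (A - 1)) := by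
    ext v
    rw [Module.End.mem_eigenspace_iff, LinearMap.mem_ker, map_sub, LinearMap.sub_apply,
      Matrix.toLin'_one, one_smul, sub_eq_zero]
    rfl
  have h2 := LinearMap.finrank_range_add_finrank_ker (Matrix.toLin' (A - 1))
  rw [Module.finrank_fintype_fun_eq_card] at h2
  have h3 : (A - 1).rank = finrank F ↥(LinearMap.range (Matrix.toLin' (A - 1))) := rfl
  rw [h1, h3, add_comm, h2]
  simp
  ring

end Cfsg.Agent.Lib.H90SwMat
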