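import Mathlib
import Cfsg.Agent.Lib.H90SwDefs

set_option autoImplicit false
set_option linter.unusedSectionVars false

/-! Row S5961, piece P12 = (P1) + (P2) of notes/helper94/ELU5.md. -/

namespace Cfsg.Agent.Lib.H90SwP12

open Module Cfsg.Agent.Lib.Helper99Symp Cfsg.Agent.Lib.H90SwDefs

variable {F V : Type*} [Field F] [AddCommGroup V] [Module F V] [FiniteDimensional F V]
variable {B : LinearMap.BilinForm F V}

theorem perpIn_le (W Q : Submodule F V) : perpIn B W Q ≤ Q := fun _ hu => hu.1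

theorem orth_symm (alt : ∀ v, B v v = 0) {W W' : Submodule F V} (h : Orth B W W') : Orth B W' W :=
  fun u hu v hv => by rw [skew alt, h v hv u hu, neg_zero]

theorem orth_perpIn (alt : ∀ v, B v v = 0) (W Q : Submodule F V) : Orth B W (perpIn B W Q) :=
  orth_symm alt (fun _ hu w hw => hu.2 w hw)

/-- an invariant subspace is mapped onto itself -/
theorem map_eq [Fintype F] {r : ℕ} {g : Module.End F V} (h : Ctx B r g) {W : Submodule F V}
    (hW : W.map g ≤ W) : W.map g = W := by
  apply le_antisymm hW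
  have hk : ∀ k : ℕ, ∀ w ∈ W, (g ^ k) w ∈ W := by
    intro k
    induction k with
    | zero => intro w hw; simpa using hw
    | succ k ih =>
      intro w hw
      rw [pow_succ', Module.End.mul_apply]
      exact hW ⟨_, ih w hw, rfl⟩
  intro w hw
  refine ⟨(g ^ (r - 1)) w, hk _ w hw, ?_⟩
  have h1 : g * g ^ (r - 1) = 1 := by
    rw [← pow_succ', Nat.sub_add_cancel h.prime.one_lt.le, h.pow]
  have := congrArg (fun f : Module.End F V => f w) h1
  simpa using this

/-- (P1) -/
theorem perpIn_inv [Fintype F] {r : ℕ} {g : Module.End F V} (h : Ctx B r g) {W Q : Submodule F V}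
    (hW : W.map g ≤ W) (hQ : Q.map g ≤ Q) : (perpIn B W Q).map g ≤ perpIn B W Q := by
  rintro _ ⟨u, hu, rfl⟩
  refine ⟨hQ ⟨u, hu.1, rfl⟩, ?_⟩
  intro w hw
  rw [← map_eq h hW] at hw
  obtain ⟨w', hw', rfl⟩ := hw
  rw [h.pres]
  exact hu.2 w' hw'

/-- every functional on a nondegenerate subspace is represented -/
theorem exists_repr {W : Submodule F V} (hW : NondegOn B W) (ψ : Module.Dual F W) :
    ∃ w ∈ W, ∀ w' : W, B w w' = ψ w' := by
  let φ : W →ₗ[F] Module.Dual F W :=
    { toFun := fun w => (B w).comp W.subtype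
      map_add' := fun a b => by ext; simp
      map_smul' := fun c a => by ext; simp }
  have hinj : Function.Injective φ := by
    rw [← LinearMap.ker_eq_bot, LinearMap.ker_eq_bot']
    intro w hw
    by_contra hne
    have hne' : (w : V) ≠ 0 := fun h => hne (Subtype.ext h)
    obtain ⟨v, hv, hwv⟩ := hW w w.2 hne'
    apply hwv
    have := congrArg (fun f : Module.Dual F W => f ⟨v, hv⟩) hw
    simpa [φ] using this
  have hsurj : Function.Surjective φ :=
    (LinearMap.injective_iff_surjective_of_finrank_eq_finrank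
      (Subspace.dual_finrank_eq (K := F) (V := W)).symm).1 hinj
  obtain ⟨w, hw⟩ := hsurj ψ
  refine ⟨w, w.2, fun w' => ?_⟩
  rw [← hw]
  rfl

/-- (P2) -/
theorem perpIn_inf {W : Submodule F V} (Q : Submodule F V) (hW : NondegOn B W) :
    W ⊓ perpIn B W Q = ⊥ := by
  rw [eq_bot_iff]
  rintro u ⟨hu1, hu2⟩
  rw [Submodule.mem_bot]
  by_contra hne
  obtain ⟨v, hv, huv⟩ := hW u hu1 hne
  exact huv (hu2.2 v hv)

theorem perpIn_sup (alt : ∀ v, B v v = 0) {W Q : Submodule F V} (hWQ : W ≤ Q) (hW : NondegOn B W) :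
    W ⊔ perpIn B W Q = Q := by
  apply le_antisymm (sup_le hWQ (perpIn_le W Q))
  intro u hu
  obtain ⟨w, hw, hrep⟩ := exists_repr hW ((B u).comp W.subtype)
  have h1 : u - w ∈ perpIn B W Q := by
    refine ⟨Q.sub_mem hu (hWQ hw), fun w' hw' => ?_⟩
    have := hrep ⟨w', hw'⟩
    simp only [LinearMap.comp_apply, Submodule.subtype_apply] at this
    rw [map_sub, LinearMap.sub_apply, this, sub_self]
  have : u = w + (u - w) := by abel
  rw [this]
  exact Submodule.add_mem_sup hw h1

theorem finrank_perpIn (alt : ∀ v, B v v = 0) {W Q : Submodule F V} (hWQ : W ≤ Q)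
    (hW : NondegOn B W) : finrank F W + finrank F (perpIn B W Q) = finrank F Q := by
  have := Submodule.finrank_sup_add_finrank_inf_eq W (perpIn B W Q)
  rw [perpIn_sup alt hWQ hW, perpIn_inf Q hW, finrank_bot, add_zero] at this
  exact this.symm

theorem perpIn_nondeg (alt : ∀ v, B v v = 0) {W Q : Submodule F V} (hWQ : W ≤ Q)
    (hW : NondegOn B W) (hQ : NondegOn B Q) : NondegOn B (perpIn B W Q) := by
  intro u hu hu0
  obtain ⟨v, hv, huv⟩ := hQ u hu.1 hu0
  rw [← perpIn_sup alt hWQ hW] at hv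
  obtain ⟨w, hw, v', hv', rfl⟩ := Submodule.mem_sup.1 hv
  refine ⟨v', hv', ?_⟩
  rw [map_add, hu.2 w hw, zero_add] at huv
  exact huv

theorem nondeg_sup (alt : ∀ v, B v v = 0) {W W' : Submodule F V} (hW : NondegOn B W)
    (hW' : NondegOn B W') (h : Orth B W W') : NondegOn B (W ⊔ W') := by
  intro u hu hu0
  obtain ⟨a, ha, b, hb, rfl⟩ := Submodule.mem_sup.1 hu
  by_cases ha0 : a = 0
  · have hb0 : b ≠ 0 := by
      intro hb0; apply hu0; rw [ha0, hb0, add_zero]
    obtain ⟨v, hv, hbv⟩ := hW' b hb hb0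
    refine ⟨v, Submodule.mem_sup_right hv, ?_⟩
    rw [map_add, LinearMap.add_apply, h a ha v hv, zero_add]
    exact hbv
  · obtain ⟨v, hv, hav⟩ := hW a ha ha0
    refine ⟨v, Submodule.mem_sup_left hv, ?_⟩
    rw [map_add, LinearMap.add_apply, orth_symm alt h b hb v hv, add_zero]
    exact hav

/-- orthogonal nondegenerate subspaces meet trivially -/
theorem inf_eq_bot_of_orth {W W' : Submodule F V} (hW : NondegOn B W) (h : Orth B W W') :
    W ⊓ W' = ⊥ := by
  rw [eq_bot_iff]
  rintro u ⟨hu1, hu2⟩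
  rw [Submodule.mem_bot]
  have h1 : (⟨u, hu1⟩ : W) = 0 := by
    rw [← Module.forall_dual_apply_eq_zero_iff F]
    intro ψ
    obtain ⟨w, hw, hrep⟩ := exists_repr hW ψ
    rw [← hrep]
    exact h w hw u hu2
  exact congrArg Subtype.val h1

end Cfsg.Agent.Lib.H90SwP12
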