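import Mathlib
import Cfsg.Agent.Lib.H90SwDefs
import Cfsg.Agent.Lib.H90SwP12

set_option autoImplicit false
set_option linter.unusedSectionVars false

/-! Row S5961, piece P37 = (P3) + (P7) of notes/helper94/ELU5.md. -/

namespace Cfsg.Agent.Lib.H90SwP37

open Module Cfsg.Agent.Lib.Helper99Symp Cfsg.Agent.Lib.H90SwDefs

variable {F V : Type*} [Field F] [AddCommGroup V] [Module F V] [FiniteDimensional F V]
variable {B : LinearMap.BilinForm F V}

open Cfsg.Agent.Lib.H90SwP12

/-- a hyperbolic plane in a nonzero nondegenerate subspace -/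
theorem exists_plane (alt : ∀ v, B v v = 0) {U : Submodule F V} (hU : NondegOn B U) (hne : U ≠ ⊥) :
    ∃ H ≤ U, NondegOn B H ∧ finrank F H = 2 := by
  obtain ⟨e, he, he0⟩ := Submodule.exists_mem_ne_zero_of_ne_bot hne
  obtain ⟨f, hf, hef⟩ := hU e he he0
  have hfe : B f e = - B e f := skew alt f e
  refine ⟨Submodule.span F {e, f}, ?_, ?_, ?_⟩
  · rw [Submodule.span_le]
    rintro x (rfl | rfl)
    · exact he
    · exact hf
  · intro u hu hu0
    obtain ⟨α, β, rfl⟩ := Submodule.mem_span_pair.1 hu
    by_cases hα : α = 0
    · have hβ : β ≠ 0 := by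
        intro hβ; apply hu0; rw [hα, hβ]; simp
      refine ⟨e, Submodule.subset_span (by simp), ?_⟩
      simp only [map_add, map_smul, LinearMap.add_apply, LinearMap.smul_apply, smul_eq_mul, alt, hfe,
        mul_zero, zero_add]
      exact mul_ne_zero hβ (neg_ne_zero.2 hef)
    · refine ⟨f, Submodule.subset_span (by simp), ?_⟩
      simp only [map_add, map_smul, LinearMap.add_apply, LinearMap.smul_apply, smul_eq_mul, alt,
        mul_zero, add_zero]
      exact mul_ne_zero hα hef
  · have hli : LinearIndependent F ![e, f] := by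
      rw [LinearIndependent.pair_iff]
      intro s t hst
      constructor
      · have := congrArg (fun z => B z f) hst
        simp only [map_add, map_smul, LinearMap.add_apply, LinearMap.smul_apply, smul_eq_mul, alt,
          mul_zero, add_zero, map_zero, LinearMap.zero_apply] at this
        exact (mul_eq_zero.1 this).resolve_right hef
      · have := congrArg (fun z => B e z) hst
        simp only [map_add, map_smul, smul_eq_mul, alt, mul_zero, zero_add, map_zero] at this
        exact (mul_eq_zero.1 this).resolve_right hef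
    have := finrank_span_eq_card hli
    have hr : Set.range ![e, f] = {e, f} := by
      ext x
      simp only [Set.mem_range, Set.mem_insert_iff, Set.mem_singleton_iff]
      constructor
      · rintro ⟨i, rfl⟩
        fin_cases i
        · left; rfl
        · right; rfl
      · rintro (rfl | rfl)
        · exact ⟨0, rfl⟩
        · exact ⟨1, rfl⟩
    rw [hr] at this
    simpa using this

/-- (P3) -/
theorem even_finrank (alt : ∀ v, B v v = 0) {W : Submodule F V} (hW : NondegOn B W) :
    Even (finrank F W) := by
  induction hn : finrank F W using Nat.strong_induction_on generalizing W with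
  | _ n ih =>
    by_cases hne : W = ⊥
    · rw [hne, finrank_bot] at hn
      rw [← hn]; exact Even.zero
    · obtain ⟨H, hHW, hH, hH2⟩ := exists_plane alt hW hne
      have h1 := finrank_perpIn alt hHW hH
      have h2 := perpIn_nondeg alt hHW hH hW
      have h3 := ih (finrank F (perpIn B H W)) (by omega) h2 rfl
      rw [← hn, ← h1, hH2]
      exact Even.add even_two h3

/-- (P7) -/
theorem exists_nondeg_le (alt : ∀ v, B v v = 0) {C : Submodule F V} (hC : NondegOn B C) (e : ℕ)
    (he : Even e) (hle : e ≤ finrank F C) : ∃ C' ≤ C, NondegOn B C' ∧ finrank F C' = e := by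
  obtain ⟨k, rfl⟩ := he
  induction k with
  | zero =>
    refine ⟨⊥, bot_le, ?_, by simp⟩
    intro u hu hu0
    exact absurd ((Submodule.mem_bot F).1 hu) hu0
  | succ k ih =>
    obtain ⟨C'', hC''C, hC'', hfr⟩ := ih (by omega)
    have h1 := finrank_perpIn alt hC''C hC''
    have h2 := perpIn_nondeg alt hC''C hC'' hC
    have hne : perpIn B C'' C ≠ ⊥ := by
      intro hb
      rw [hb, finrank_bot] at h1
      omega
    obtain ⟨H, hHle, hH, hH2⟩ := exists_plane alt h2 hne
    have horth : Orth B C'' H := fun u hu v hv => orth_perpIn alt C'' C u hu v (hHle hv)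
    refine ⟨C'' ⊔ H, sup_le hC''C (hHle.trans (perpIn_le _ _)), nondeg_sup alt hC'' hH horth, ?_⟩
    have := Submodule.finrank_sup_add_finrank_inf_eq C'' H
    rw [inf_eq_bot_of_orth hC'' horth, finrank_bot, add_zero] at this
    rw [this, hfr, hH2]
    omega

end Cfsg.Agent.Lib.H90SwP37
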