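import Mathlib
import Cfsg.Agent.Lib.H90SwDefs
import Cfsg.Agent.Lib.H90SwP12
import Cfsg.Agent.Lib.H90SwP37

set_option autoImplicit false
set_option linter.unusedSectionVars false

/-! Row S5961, piece P45 = (P4) + (P5) of notes/helper94/ELU5.md. -/

namespace Cfsg.Agent.Lib.H90SwP45

open Module Cfsg.Agent.Lib.Helper99Symp Cfsg.Agent.Lib.H90SwDefs Cfsg.Agent.Lib.H90SwP12
  Cfsg.Agent.Lib.H90SwP37

variable {F V : Type*} [Field F] [Fintype F] [AddCommGroup V] [Module F V] [FiniteDimensional F V]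
variable {B : LinearMap.BilinForm F V} {r : ℕ} {g : Module.End F V}

/-- (P4) -/
theorem exists_fixfree (h : Ctx B r g) {Q : Submodule F V} (hQ : Q.map g ≤ Q) (hN : NondegOn B Q) :
    ∃ M ≤ Q, M.map g ≤ M ∧ NondegOn B M ∧ M ⊓ Module.End.eigenspace g 1 = ⊥ ∧
      Orth B M (Q ⊓ Module.End.eigenspace g 1) ∧ (Q ⊓ Module.End.eigenspace g 1) ⊓ M = ⊥ ∧
      (Q ⊓ Module.End.eigenspace g 1) ⊔ M = Q ∧ NondegOn B (Q ⊓ Module.End.eigenspace g 1) := by
  have hfix : ∀ e ∈ Q ⊓ Module.End.eigenspace g 1, g e = e := by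
    intro e he
    have := Module.End.mem_eigenspace_iff.1 he.2
    simpa using this
  have hX : (Q ⊓ Module.End.eigenspace g 1).map g ≤ Q ⊓ Module.End.eigenspace g 1 := by
    rintro _ ⟨e, he, rfl⟩
    rw [hfix e he]; exact he
  obtain ⟨M, hMQ, hM, hXM, hsup⟩ := Cfsg.Agent.Lib.Helper87EluB3.exists_rel_compl r h.ne0 g 1 one_ne_zero
    (by rw [h.pow, one_smul]) (Q ⊓ Module.End.eigenspace g 1) Q inf_le_left hX hQ
  have hME : M ⊓ Module.End.eigenspace g 1 = ⊥ := by
    rw [eq_bot_iff, ← hXM]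
    intro x hx
    exact ⟨⟨hMQ hx.1, hx.2⟩, hx.1⟩
  have hgM : ∀ x ∈ M, g x ∈ M := fun x hx => hM ⟨x, hx, rfl⟩
  have hres : ∀ x ∈ M, (g - 1) x ∈ M := by
    intro x hx
    simpa using M.sub_mem (hgM x hx) hx
  have hinj : Function.Injective ((g - 1).restrict hres) := by
    rw [← LinearMap.ker_eq_bot, LinearMap.ker_eq_bot']
    intro x hx
    have h1 : (g - 1) (x : V) = 0 := by
      have := congrArg Subtype.val hx
      simpa using this
    have h2 : (x : V) ∈ M ⊓ Module.End.eigenspace g 1 := by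
      refine ⟨x.2, Module.End.mem_eigenspace_iff.2 ?_⟩
      rw [one_smul]
      have : g (x : V) - (x : V) = 0 := by simpa using h1
      exact sub_eq_zero.1 this
    rw [hME] at h2
    exact Subtype.ext ((Submodule.mem_bot F).1 h2)
  have hsurj : Function.Surjective ((g - 1).restrict hres) := LinearMap.injective_iff_surjective.1 hinj
  have horth : Orth B M (Q ⊓ Module.End.eigenspace g 1) := by
    intro y hy e he
    obtain ⟨y', hy'⟩ := hsurj ⟨y, hy⟩
    have h1 : g (y' : V) - (y' : V) = y := by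
      have := congrArg Subtype.val hy'
      simpa using this
    rw [← h1, map_sub, LinearMap.sub_apply]
    conv_lhs => rw [← hfix e he]
    rw [h.pres, hfix e he, sub_self]
  refine ⟨M, hMQ, hM, ?_, hME, horth, hXM, hsup, ?_⟩
  · intro u hu hu0
    obtain ⟨v, hv, hv0⟩ := hN u (hMQ hu) hu0
    rw [← hsup] at hv
    obtain ⟨e, he, m, hm, rfl⟩ := Submodule.mem_sup.1 hv
    refine ⟨m, hm, ?_⟩
    rw [map_add, horth u hu e he, zero_add] at hv0
    exact hv0
  · intro u hu hu0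
    obtain ⟨v, hv, hv0⟩ := hN u hu.1 hu0
    rw [← hsup] at hv
    obtain ⟨e, he, m, hm, rfl⟩ := Submodule.mem_sup.1 hv
    refine ⟨e, he, ?_⟩
    rw [map_add, skew h.alt u m, horth m hm u hu, neg_zero, add_zero] at hv0
    exact hv0

/-- (P5) -/
theorem finrank_congr_c (h : Ctx B r g) {Q : Submodule F V} (hQ : Q.map g ≤ Q) (hN : NondegOn B Q) :
    ∃ k, finrank F Q = finrank F ↥(Q ⊓ Module.End.eigenspace g 1) + cc F r * k := by
  haveI : Fact r.Prime := ⟨h.prime⟩
  obtain ⟨M, -, -, -, -, -, -, -, hNX⟩ := exists_fixfree h hQ hN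
  obtain ⟨k', hk'⟩ := Cfsg.Agent.Lib.Helper87EluB1.finrank_congr r h.ndvd g h.pow Q hQ
  have e1 := even_finrank h.alt hN
  have e2 := even_finrank h.alt hNX
  have h2 : 2 ∣ orderOf (Fintype.card F : ZMod r) * k' := by
    obtain ⟨a, ha⟩ := e1
    obtain ⟨b, hb⟩ := e2
    exact ⟨a - b, by omega⟩
  obtain ⟨k, hk⟩ := cc_dvd h2 (Dvd.intro _ rfl)
  exact ⟨k, by rw [hk', hk]⟩

end Cfsg.Agent.Lib.H90SwP45
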