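import Mathlib
import Cfsg.Agent.Lib.H90SwDefs
import Cfsg.Agent.Lib.H90SwMat
import Cfsg.Agent.Lib.H90SwP45
import Cfsg.Agent.Lib.Helper94PolELT

set_option autoImplicit false
set_option linter.unusedSectionVars false

/-! Row S5961, piece Elt0 (ELT1 of notes/helper94/ELU5.md with `2 d = c`). -/

namespace Cfsg.Agent.Lib.H90SwElt0

open Module Cfsg.Agent.Lib.Helper99Symp Cfsg.Agent.Lib.H90SwDefs Cfsg.Agent.Lib.Helper99SympForm
  Cfsg.Agent.Lib.H90SwMat Cfsg.Agent.Lib.H90SwP45 Cfsg.Agent.Lib.Helper94PolELT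

variable {F : Type*} [Field F] [Fintype F]

theorem elt0 {r j : ℕ} [Fact r.Prime] (hr2 : r ≠ 2) (hr : ¬ r ∣ Fintype.card F) (hrF : (r : F) ≠ 0)
    (hj : cc F r = 2 * j) :
    ∃ y : Matrix.symplecticGroup (Fin j) F, y ^ r = 1 ∧
      ((y : Matrix (Fin j ⊕ Fin j) (Fin j ⊕ Fin j) F) - 1).rank = 2 * j := by
  have hcpos : 0 < cc F r := cc_pos hr
  have hj0 : 0 < j := by omega
  have h1 : r ∣ Fintype.card F ^ (2 * j) - 1 := by
    rw [Cfsg.Agent.Lib.Helper87EluD.dvd_pow_sub_one_iff _ _ _ Fintype.card_pos, ← hj]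
    exact ord_dvd_cc F r
  obtain ⟨y, hy, hy1, -⟩ := exists_small_sp (F := F) hj0 le_rfl h1
  refine ⟨y, hy, ?_⟩
  have hctx := ctx_of_sp hr2 hr hrF y hy
  obtain ⟨k, hk⟩ := finrank_congr_c hctx (Q := ⊤) le_top nondegOn_top
  rw [top_inf_eq, finrank_top, Module.finrank_fintype_fun_eq_card, Fintype.card_sum, Fintype.card_fin, hj] at hk
  have hsum := finrank_eigen_add_rank (y : Matrix (Fin j ⊕ Fin j) (Fin j ⊕ Fin j) F)
  have hrk : ((y : Matrix (Fin j ⊕ Fin j) (Fin j ⊕ Fin j) F) - 1).rank ≠ 0 := by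
    intro h0
    apply hy1
    apply Subtype.ext
    have h2 : ((y : Matrix (Fin j ⊕ Fin j) (Fin j ⊕ Fin j) F) - 1) = 0 := by
      have h3 : LinearMap.range ((y : Matrix (Fin j ⊕ Fin j) (Fin j ⊕ Fin j) F) - 1).mulVecLin = ⊥ :=
        Submodule.finrank_eq_zero.1 h0
      rw [LinearMap.range_eq_bot] at h3
      apply (Matrix.toLin' (R := F)).injective
      rw [map_zero]
      exact h3
    exact sub_eq_zero.1 h2
  rcases Nat.eq_zero_or_pos k with rfl | hkpos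
  · omega
  · have : 2 * j ≤ 2 * j * k := Nat.le_mul_of_pos_right _ hkpos
    omega

end Cfsg.Agent.Lib.H90SwElt0
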