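import Mathlib
import Cfsg.Agent.Lib.H90SwDefs
import Cfsg.Agent.Lib.H90SwElt0
import Cfsg.Agent.Lib.H90SwBlk

set_option autoImplicit false
set_option linter.unusedSectionVars false

/-! Row S5961, piece Elt (ELT1 and ELTMAX of notes/helper94/ELU5.md together): induction on `k`,
`x := blk2 y x'` with `y` from `elt0` (`j = c / 2`) and `x'` from the induction hypothesis for `d - j`. -/

namespace Cfsg.Agent.Lib.H90SwElt

open Module Cfsg.Agent.Lib.H90SwDefs Cfsg.Agent.Lib.H90SwElt0 Cfsg.Agent.Lib.H90SwBlk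

variable {F : Type*} [Field F] [Fintype F]

theorem elt {r : ℕ} [Fact r.Prime] (hr2 : r ≠ 2) (hr : ¬ r ∣ Fintype.card F) (hrF : (r : F) ≠ 0) :
    ∀ k d : ℕ, cc F r * k ≤ 2 * d → ∃ x : Matrix.symplecticGroup (Fin d) F, x ^ r = 1 ∧
      ((x : Matrix (Fin d ⊕ Fin d) (Fin d ⊕ Fin d) F) - 1).rank = cc F r * k := by
  obtain ⟨j, hj⟩ := even_cc F r
  have hj' : cc F r = 2 * j := by omega
  obtain ⟨y, hy, hyr⟩ := elt0 hr2 hr hrF hj'
  intro k
  induction k with
  | zero =>
    intro d _
    exact ⟨1, one_pow _, by simp⟩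
  | succ k ih =>
    intro d hd
    have hjd : j ≤ d := by
      rw [hj'] at hd
      have : 2 * j * (k + 1) = 2 * j * k + 2 * j := by ring
      have h0 : 0 ≤ 2 * j * k := Nat.zero_le _
      omega
    have hd' : cc F r * k ≤ 2 * (d - j) := by
      have : cc F r * (k + 1) = cc F r * k + cc F r := by ring
      omega
    obtain ⟨x', hx', hxr'⟩ := ih (d - j) hd'
    refine ⟨⟨blk2 hjd y.1 x'.1, blk2_mem hjd _ _ y.2 x'.2⟩, ?_, ?_⟩
    · apply Subtype.ext
      show (blk2 hjd y.1 x'.1) ^ r = 1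
      have h1 : (y.1) ^ r = 1 := by
        have := congrArg Subtype.val hy
        simpa using this
      have h2 : (x'.1) ^ r = 1 := by
        have := congrArg Subtype.val hx'
        simpa using this
      rw [blk2_pow, h1, h2, blk2_one]
    · show (blk2 hjd y.1 x'.1 - 1).rank = _
      rw [blk2_rank, hyr, hxr', ← hj']
      ring

end Cfsg.Agent.Lib.H90SwElt
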