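import Cfsg.Prelude.Def_GeometricClasses

set_option autoImplicit false

/-! PROJECT 5 = ASCH-O, piece `blocksplus`. -/

namespace Cfsg.Agent.Lib.Helper76OBlocksplus

open Cfsg Cfsg.Geo Matrix
open scoped MatrixGroups

variable {ι : Type} [Fintype ι] [DecidableEq ι] {F : Type*} [Field F]
variable {Q : (ι → F) → F}

theorem finrank_iSup_of_indep {t : ℕ} (U : Fin t → Submodule F (ι → F)) (hU : iSupIndep U) :
    Module.finrank F (⨆ i, U i : Submodule F (ι → F)) = ∑ i, Module.finrank F (U i) := by
  classical
  have hinj : Function.Injective (DirectSum.coeLinearMap U) := hU.dfinsupp_lsum_injective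
  rw [← DirectSum.range_coeLinearMap, LinearMap.finrank_range_of_inj hinj, Module.finrank_directSum]

/-- [blocksplus] orthogonal sum of blocks of plus type. -/
theorem plus_of_blocks (hQ : IsNondegenerateQuadraticForm Q) {t k : ℕ}
    {D : Fin t → Submodule F (ι → F)} (hD : IsNondegenerateMDecomposition (QuadraticMap.polar Q) k D)
    (hplus : ∀ i, IsPlusTypeOn Q (D i)) : IsPlusTypeOn Q ⊤ := by
  classical
  choose U hUD hUs hUr using hplus
  have hb := hQ.polar_bilinear
  have hQ0 : Q 0 = 0 := by
    have := hQ.smul 0 0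
    simpa using this
  have hpol0 : ∀ i j, ∀ x ∈ U i, ∀ y ∈ U j, QuadraticMap.polar Q x y = 0 := by
    intro i j x hx y hy
    by_cases hij : i = j
    · subst hij
      unfold QuadraticMap.polar
      rw [hUs i _ ((U i).add_mem hx hy), hUs i x hx, hUs i y hy]
      simp
    · exact hD.orthogonal i j hij x (hUD i hx) y (hUD j hy)
  have hzl : ∀ y, QuadraticMap.polar Q 0 y = 0 := by
    intro y
    have := hb.smul_left 0 0 y
    simpa using this
  have hzr : ∀ y, QuadraticMap.polar Q y 0 = 0 := by
    intro y
    have := hb.smul_right 0 y 0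
    simpa using this
  have hpol1 : ∀ j, ∀ y ∈ U j, ∀ x ∈ (⨆ i, U i : Submodule F (ι → F)), QuadraticMap.polar Q x y = 0 := by
    intro j y hy x hx
    induction hx using Submodule.iSup_induction' with
    | mem i x hx => exact hpol0 i j x hx y hy
    | zero => exact hzl y
    | add a b _ _ ha hb' => rw [hb.add_left, ha, hb', add_zero]
  have hpol2 : ∀ x ∈ (⨆ i, U i : Submodule F (ι → F)), ∀ y ∈ (⨆ i, U i : Submodule F (ι → F)),
      QuadraticMap.polar Q x y = 0 := by
    intro x hx y hy
    induction hy using Submodule.iSup_induction' with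
    | mem j y hy => exact hpol1 j y hy x hx
    | zero => exact hzr x
    | add a b _ _ ha hb' => rw [hb.add_right, ha, hb', add_zero]
  refine ⟨⨆ i, U i, le_top, ?_, ?_⟩
  · intro x hx
    induction hx using Submodule.iSup_induction' with
    | mem i x hx => exact hUs i x hx
    | zero => exact hQ0
    | add a b ha' hb' ha hb'' =>
      have h1 := hpol2 a ha' b hb'
      unfold QuadraticMap.polar at h1
      rw [ha, hb''] at h1
      simpa using h1
  · rw [finrank_iSup_of_indep U (hD.decomp.indep.mono hUD), Finset.mul_sum,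
      Finset.sum_congr rfl (fun i _ => hUr i), ← finrank_iSup_of_indep D hD.decomp.indep,
      hD.decomp.iSup_eq_top]

theorem plus_of_isometric {W W' : Submodule F (ι → F)} (h : AreIsometricFor Q W W')
    (hW : IsPlusTypeOn Q W) : IsPlusTypeOn Q W' := by
  obtain ⟨e, he⟩ := h
  obtain ⟨U, hUW, hUs, hUr⟩ := hW
  let L : W →ₗ[F] (ι → F) := W'.subtype ∘ₗ (e : W →ₗ[F] W')
  have hL : Function.Injective L := by
    intro a b hab
    exact e.injective (Subtype.ext hab)
  refine ⟨(U.comap W.subtype).map L, ?_, ?_, ?_⟩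
  · rintro _ ⟨w, _, rfl⟩
    exact (e w).2
  · rintro _ ⟨w, hw, rfl⟩
    show Q ((e w : W') : ι → F) = 0
    rw [he]
    exact hUs _ hw
  · rw [← e.finrank_eq, ← hUr]
    congr 1
    rw [LinearEquiv.finrank_eq (Submodule.equivMapOfInjective L hL (U.comap W.subtype)).symm]
    exact (Submodule.comapSubtypeEquivOfLe hUW).finrank_eq

end Cfsg.Agent.Lib.Helper76OBlocksplus
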