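import Mathlib
import Cfsg.Agent.Lib.H90SwDefs
import Cfsg.Agent.Lib.H90SwP45
import Cfsg.Agent.Lib.Helper99SympForm
import Cfsg.Agent.Lib.Helper76OBlocksplus

set_option autoImplicit false
set_option linter.unusedSectionVars false

/-! Row S5961, piece L1 = (L1') of notes/helper94/ELU5.md.  Model: Helper76ImpL1.l1, with
`finrank_congr_c` instead of `finrank_congr`. -/

namespace Cfsg.Agent.Lib.H90SwL1

open Module Cfsg.Agent.Lib.Helper99Symp Cfsg.Agent.Lib.H90SwDefs Cfsg.Agent.Lib.Helper99SympForm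
  Cfsg.Agent.Lib.H90SwP45

variable {F : Type*} [Field F] [Fintype F] {d : ℕ}

theorem nondegOn_of_isX {a t : ℕ} {D : Fin t → Submodule F (Fin d ⊕ Fin d → F)} (hD : IsX d a D)
    (j : Fin t) : NondegOn (sympB d) (D j) := by
  intro u hu hu0
  obtain ⟨v, hv, huv⟩ := hD.2.1 j u hu hu0
  exact ⟨v, hv, by rwa [sympB_apply]⟩

theorem l1' {a t r : ℕ} {g : Module.End F (Fin d ⊕ Fin d → F)} (h : Ctx (sympB d) r g)
    (D : Fin t → Submodule F (Fin d ⊕ Fin d → F)) (hD : IsX d a D) (hinv : ∀ j, (D j).map g ≤ D j) :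
    t * (a % cc F r) ≤ finrank F ↥(Module.End.eigenspace g 1) := by
  classical
  have hind : iSupIndep (fun j => D j ⊓ Module.End.eigenspace g 1) :=
    hD.1.indep.mono (fun j => inf_le_left)
  have h1 := Cfsg.Agent.Lib.Helper76OBlocksplus.finrank_iSup_of_indep _ hind
  have h2 : (⨆ j, D j ⊓ Module.End.eigenspace g 1) ≤ Module.End.eigenspace g 1 :=
    iSup_le fun j => inf_le_right
  have h3 := Submodule.finrank_mono h2
  rw [h1] at h3
  refine le_trans ?_ h3
  have h4 : ∀ j ∈ (Finset.univ : Finset (Fin t)), a % cc F r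
      ≤ finrank F ↥(D j ⊓ Module.End.eigenspace g 1) := by
    intro j _
    obtain ⟨k, hk⟩ := finrank_congr_c h (hinv j) (nondegOn_of_isX hD j)
    rw [hD.1.finrank_eq] at hk
    rw [hk, Nat.add_mul_mod_self_left]
    exact Nat.mod_le _ _
  have h5 := Finset.card_nsmul_le_sum _ _ _ h4
  simpa using h5

/-- corollary of (P5) -/
theorem le_eigenspace {a t r : ℕ} {g : Module.End F (Fin d ⊕ Fin d → F)} (h : Ctx (sympB d) r g)
    (D : Fin t → Submodule F (Fin d ⊕ Fin d → F)) (hD : IsX d a D) (hinv : ∀ j, (D j).map g ≤ D j)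
    (hac : a < cc F r) : Module.End.eigenspace g 1 = ⊤ := by
  rw [eq_top_iff, ← hD.1.iSup_eq_top]
  refine iSup_le fun j => ?_
  obtain ⟨k, hk⟩ := finrank_congr_c h (hinv j) (nondegOn_of_isX hD j)
  have hk0 : k = 0 := by
    by_contra hne
    have h1 := Nat.le_mul_of_pos_right (cc F r) (Nat.pos_of_ne_zero hne)
    rw [hD.1.finrank_eq] at hk
    omega
  rw [hk0, mul_zero, add_zero] at hk
  have h2 : D j ⊓ Module.End.eigenspace g 1 = D j :=
    Submodule.eq_of_le_of_finrank_eq inf_le_left hk.symm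
  exact inf_eq_left.mp h2

end Cfsg.Agent.Lib.H90SwL1
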