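import Mathlib
import Cfsg.Agent.Lib.H90SwDefs
import Cfsg.Agent.Lib.H90SwP12
import Cfsg.Agent.Lib.H90SwP37
import Cfsg.Agent.Lib.H90SwP45
import Cfsg.Agent.Lib.H90SwAdj

set_option autoImplicit false
set_option linter.unusedSectionVars false

/-! Row S5961, piece P6e = (P6), case `i` even, of notes/helper94/ELU5.md. -/

namespace Cfsg.Agent.Lib.H90SwP6e

open Module Polynomial Cfsg.Agent.Lib.Helper99Symp Cfsg.Agent.Lib.H90SwDefs Cfsg.Agent.Lib.H90SwP12
  Cfsg.Agent.Lib.H90SwP37 Cfsg.Agent.Lib.H90SwP45 Cfsg.Agent.Lib.H90SwAdj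
open Cfsg.Agent.Lib.Helper87EluB2 Cfsg.Agent.Lib.Helper87EluB3

variable {F V : Type*} [Field F] [Fintype F] [AddCommGroup V] [Module F V] [FiniteDimensional F V]
variable {B : LinearMap.BilinForm F V} {r : ℕ} {g : Module.End F V}

theorem exists_irr (r : ℕ) [Fact r.Prime] (hr : ¬ r ∣ Fintype.card F)
    (f : Module.End F V) (hf : f ^ r = 1) (D : Submodule F V) (hD : D.map f ≤ D) (hD0 : D ≠ ⊥)
    (hDC : D ⊓ Module.End.eigenspace f 1 = ⊥) :
    ∃ P : F[X], P ≠ 0 ∧ P.natDegree = orderOf (Fintype.card F : ZMod r) ∧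
      ∃ w ∈ D, w ≠ 0 ∧ aeval f P w = 0 := by
  have hrp : r.Prime := Fact.out
  obtain ⟨k, hp, hk⟩ := FiniteField.card F (ringChar F)
  have : Fact (ringChar F).Prime := ⟨hp⟩
  have hcop : (ringChar F).Coprime r := by
    rw [Nat.coprime_primes hp hrp]
    rintro h
    apply hr
    rw [hk, ← h]
    exact dvd_pow_self _ k.ne_zero
  obtain ⟨v, hvD, hv0⟩ := (Submodule.ne_bot_iff D).mp hD0
  have hΦ : aeval f (cyclotomic r F) v = 0 := by
    have h1 : aeval f (cyclotomic r F) v ∈ D := aeval_mem f D hD _ v hvD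
    have h2 : aeval f (cyclotomic r F) v ∈ Module.End.eigenspace f 1 := by
      rw [Module.End.mem_eigenspace_iff, one_smul]
      have h3 : aeval f ((X - 1) * cyclotomic r F) = 0 := by
        rw [mul_comm, cyclotomic_prime_mul_X_sub_one]
        simp [hf]
      have h4 := congrArg (fun T : Module.End F V => T v) h3
      simp only [map_mul, map_sub, aeval_X, map_one, Module.End.mul_apply, LinearMap.sub_apply,
        Module.End.one_apply, LinearMap.zero_apply] at h4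
      exact sub_eq_zero.mp h4
    have h5 : aeval f (cyclotomic r F) v ∈ D ⊓ Module.End.eigenspace f 1 := ⟨h1, h2⟩
    rw [hDC] at h5
    exact (Submodule.mem_bot F).mp h5
  obtain ⟨g, hg, hgdvd, w, hwD, hw0, hw⟩ :=
    exists_irreducible_factor f D hD (cyclotomic r F) (cyclotomic_ne_zero r F) v hvD hv0 hΦ
  have hdeg := natDegree_of_dvd_cyclotomic_of_irreducible hk hcop hgdvd hg
  have hord : orderOf (ZMod.unitOfCoprime _ (hcop.pow_left k)) = orderOf (Fintype.card F : ZMod r) := by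
    rw [← orderOf_units, ZMod.coe_unitOfCoprime, hk]
  rw [hord] at hdeg
  exact ⟨g, hg.ne_zero, hdeg, w, hwD, hw0, hw⟩

theorem ti_sup (alt : ∀ v, B v v = 0) {K Y : Submodule F V} (hK : Orth B K K) (hY : Orth B Y Y)
    (hYK : Orth B Y K) : Orth B (K ⊔ Y) (K ⊔ Y) := by
  intro u hu v hv
  obtain ⟨k, hk, y, hy, rfl⟩ := Submodule.mem_sup.mp hu
  obtain ⟨k', hk', y', hy', rfl⟩ := Submodule.mem_sup.mp hv
  simp only [map_add, LinearMap.add_apply]
  rw [hK k hk k' hk', hY y hy y' hy', hYK y hy k' hk', skew alt k y', hYK y' hy' k hk]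
  simp

theorem lt_of_ne {B' Bs : Submodule F V} (hle : B' ≤ Bs) (hne : B' ≠ Bs) :
    finrank F B' < finrank F Bs :=
  Submodule.finrank_lt_finrank_of_lt (lt_of_le_of_ne hle hne)

theorem nondeg_min (h : Ctx B r g) {Bs : Submodule F V} (hB : Bs.map g ≤ Bs)
    (hnT : ¬ Orth B Bs Bs)
    (hmin : ∀ B' ≤ Bs, B'.map g ≤ B' → finrank F B' < finrank F Bs → Orth B B' B') :
    NondegOn B Bs := by
  have hR : (perpIn B Bs Bs).map g ≤ perpIn B Bs Bs := perpIn_inv h hB hB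
  obtain ⟨Y, hYB, hY, hRY, hsup⟩ := exists_rel_compl r h.ne0 g 1 one_ne_zero
    (by rw [h.pow, one_smul]) (perpIn B Bs Bs) Bs (perpIn_le _ _) hR hB
  have hYeq : Y = Bs := by
    by_contra hne
    have hYT := hmin Y hYB hY (lt_of_ne hYB hne)
    apply hnT
    rw [← hsup]
    apply ti_sup h.alt _ hYT _
    · intro u hu v hv
      exact hu.2 v hv.1
    · intro y hy u hu
      rw [skew h.alt, hu.2 y (hYB hy), neg_zero]
  intro u hu hu0
  by_contra hcon
  push Not at hcon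
  have h1 : u ∈ perpIn B Bs Bs ⊓ Y := ⟨⟨hu, hcon⟩, hYeq ▸ hu⟩
  rw [hRY] at h1
  exact hu0 ((Submodule.mem_bot F).mp h1)

theorem aeval_zero_min (h : Ctx B r g) {Bs : Submodule F V} (hB : Bs.map g ≤ Bs)
    (hnT : ¬ Orth B Bs Bs)
    (hmin : ∀ B' ≤ Bs, B'.map g ≤ B' → finrank F B' < finrank F Bs → Orth B B' B')
    (N : ℕ) (hN : 0 < N)
    (hadj : ∀ (P : F[X]) (u w : V), B (aeval g P u) w = B u (((aeval g P) ^ N) w))
    (P : F[X]) (w : V) (hw : w ∈ Bs) (hw0 : w ≠ 0) (hPw : aeval g P w = 0) :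
    ∀ u ∈ Bs, aeval g P u = 0 := by
  obtain ⟨K, hK⟩ : ∃ K : Submodule F V, K = Bs ⊓ LinearMap.ker (aeval g P) := ⟨_, rfl⟩
  have hmemK : ∀ u, u ∈ K ↔ u ∈ Bs ∧ aeval g P u = 0 := by
    intro u
    rw [hK, Submodule.mem_inf, LinearMap.mem_ker]
  have hKB : K ≤ Bs := fun u hu => ((hmemK u).mp hu).1
  have hKinv : K.map g ≤ K := by
    rintro _ ⟨u, hu, rfl⟩
    obtain ⟨hu1, hu2⟩ := (hmemK u).mp hu
    refine (hmemK _).mpr ⟨hB (Submodule.mem_map_of_mem hu1), ?_⟩
    have h1 : aeval g (P * X) = aeval g (X * P) := by rw [mul_comm]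
    rw [map_mul, map_mul, aeval_X] at h1
    have h2 : aeval g P (g u) = g (aeval g P u) := congrArg (fun T : Module.End F V => T u) h1
    rw [h2, hu2, map_zero]
  by_contra hcon
  have hKne : K ≠ Bs := by
    intro heq
    apply hcon
    intro u hu
    exact ((hmemK u).mp (heq ▸ hu)).2
  obtain ⟨Y, hYB, hY, hKY, hsup⟩ := exists_rel_compl r h.ne0 g 1 one_ne_zero
    (by rw [h.pow, one_smul]) K Bs hKB hKinv hB
  have hYne : Y ≠ Bs := by
    intro heq
    have h1 : w ∈ K ⊓ Y := ⟨(hmemK w).mpr ⟨hw, hPw⟩, heq ▸ hw⟩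
    rw [hKY] at h1
    exact hw0 ((Submodule.mem_bot F).mp h1)
  have hKT := hmin K hKB hKinv (lt_of_ne hKB hKne)
  have hYT := hmin Y hYB hY (lt_of_ne hYB hYne)
  have hPY : ∀ y ∈ Y, aeval g P y ∈ Y := fun y hy => aeval_mem g Y hY P y hy
  let T : Y →ₗ[F] Y := (aeval g P).restrict hPY
  have hTinj : Function.Injective T := by
    rw [← LinearMap.ker_eq_bot, LinearMap.ker_eq_bot']
    intro y hy
    have h1 : aeval g P (y : V) = 0 := congrArg Subtype.val hy
    have h2 : (y : V) ∈ K ⊓ Y := ⟨(hmemK _).mpr ⟨hYB y.2, h1⟩, y.2⟩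
    rw [hKY] at h2
    exact Subtype.ext ((Submodule.mem_bot F).mp h2)
  have hTsurj : Function.Surjective T := LinearMap.injective_iff_surjective.mp hTinj
  have hYK : Orth B Y K := by
    intro y hy u hu
    obtain ⟨y', hy'⟩ := hTsurj ⟨y, hy⟩
    have h1 : aeval g P (y' : V) = y := congrArg Subtype.val hy'
    rw [← h1, hadj]
    have h2 : ((aeval g P) ^ N) u = 0 := by
      obtain ⟨N', rfl⟩ := Nat.exists_eq_succ_of_ne_zero hN.ne'
      rw [pow_succ, Module.End.mul_apply, ((hmemK u).mp hu).2, map_zero]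
    rw [h2, map_zero]
  apply hnT
  rw [← hsup]
  exact ti_sup h.alt hKT hYT hYK

theorem finrank_le_min (h : Ctx B r g) {Bs : Submodule F V} (hB : Bs.map g ≤ Bs)
    (hmin : ∀ B' ≤ Bs, B'.map g ≤ B' → finrank F B' < finrank F Bs → Orth B B' B')
    (hND : NondegOn B Bs) (hE : Bs ⊓ Module.End.eigenspace g 1 = ⊥) (hne : Bs ≠ ⊥)
    (P : F[X]) (hP0 : P ≠ 0) (hP : ∀ u ∈ Bs, aeval g P u = 0) : finrank F Bs ≤ P.natDegree := by
  by_contra hlt
  push Not at hlt
  have hgB : ∀ v ∈ Bs, g v ∈ Bs := fun v hv => hB (Submodule.mem_map_of_mem hv)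
  have h1 : ∀ v ∈ Bs, B v (g v) = 0 := by
    intro v hv
    obtain ⟨Z, hZB, hZ, hvZ, hZdeg⟩ := exists_cyclic g Bs hB P hP0 v hv (hP v hv)
    exact hmin Z hZB hZ (by omega) v hvZ (g v) (hZ (Submodule.mem_map_of_mem hvZ))
  have h2 : ∀ v ∈ Bs, ∀ w ∈ Bs, B v (g w) + B w (g v) = 0 := by
    intro v hv w hw
    have h3 := h1 (v + w) (Bs.add_mem hv hw)
    simp only [map_add, LinearMap.add_apply, h1 v hv, h1 w hw] at h3
    linear_combination h3
  have h3 : ∀ w ∈ Bs, g (g w) = w := by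
    intro w hw
    by_contra hne'
    have hx : g (g w) - w ∈ Bs := Bs.sub_mem (hgB _ (hgB _ hw)) hw
    obtain ⟨v, hv, hv0⟩ := hND _ hx (sub_ne_zero.mpr hne')
    apply hv0
    have e1 := h2 (g w) (hgB _ hw) v hv
    rw [h.pres] at e1
    rw [map_sub, LinearMap.sub_apply, skew h.alt (g (g w)) v]
    linear_combination -e1
  have h4 : ∀ w ∈ Bs, ∀ m : ℕ, (g ^ (2 * m)) w = w := by
    intro w hw m
    induction m with
    | zero => simp
    | succ m ih =>
      rw [show 2 * (m + 1) = 2 * m + 1 + 1 by ring, pow_succ, pow_succ, Module.End.mul_apply,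
        Module.End.mul_apply, h3 w hw, ih]
  apply hne
  rw [eq_bot_iff, ← hE]
  intro w hw
  refine ⟨hw, ?_⟩
  show w ∈ Module.End.eigenspace g 1
  rw [Module.End.mem_eigenspace_iff, one_smul]
  obtain ⟨m, hm⟩ := h.prime.eq_two_or_odd'.resolve_left h.odd
  have h5 : (g ^ r) w = w := by rw [h.pow]; rfl
  rw [hm, pow_succ', Module.End.mul_apply, h4 w hw] at h5
  exact h5

theorem exists_block_even (h : Ctx B r g) (heven : Even (orderOf (Fintype.card F : ZMod r)))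
    {M : Submodule F V} (hM : M.map g ≤ M) (hN : NondegOn B M) (h0 : M ≠ ⊥)
    (hE : M ⊓ Module.End.eigenspace g 1 = ⊥) :
    ∃ M₁ ≤ M, M₁.map g ≤ M₁ ∧ NondegOn B M₁ ∧ finrank F M₁ = cc F r := by
  classical
  have : Fact r.Prime := ⟨h.prime⟩
  obtain ⟨N, hN0, hadj⟩ := adj h heven
  have hcc : cc F r = orderOf (Fintype.card F : ZMod r) := by
    unfold cc cOf
    rw [if_pos heven]
  have hMnT : ¬ Orth B M M := by
    intro hT
    obtain ⟨v, hv, hv0⟩ := (Submodule.ne_bot_iff M).mp h0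
    obtain ⟨w, hw, hvw⟩ := hN v hv hv0
    exact hvw (hT v hv w hw)
  have hex : ∃ n, ∃ B' ≤ M, B'.map g ≤ B' ∧ ¬ Orth B B' B' ∧ finrank F B' = n :=
    ⟨_, M, le_rfl, hM, hMnT, rfl⟩
  obtain ⟨Bs, hBM, hB, hnT, hfin⟩ := Nat.find_spec hex
  have hmin : ∀ B' ≤ Bs, B'.map g ≤ B' → finrank F B' < finrank F Bs → Orth B B' B' := by
    intro B' hle hinv hlt
    by_contra hcon
    exact Nat.find_min hex (hfin ▸ hlt) ⟨B', hle.trans hBM, hinv, hcon, rfl⟩
  have hND := nondeg_min h hB hnT hmin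
  have hBE : Bs ⊓ Module.End.eigenspace g 1 = ⊥ := by
    rw [eq_bot_iff, ← hE]
    exact inf_le_inf_right _ hBM
  have hBne : Bs ≠ ⊥ := by
    rintro rfl
    apply hnT
    intro u hu v _
    rw [(Submodule.mem_bot F).mp hu]
    simp
  obtain ⟨P, hP0, hPdeg, w, hw, hw0, hPw⟩ := exists_irr r h.ndvd g h.pow Bs hB hBne hBE
  have hPz := aeval_zero_min h hB hnT hmin N hN0 hadj P w hw hw0 hPw
  have hle := finrank_le_min h hB hmin hND hBE hBne P hP0 hPz
  obtain ⟨k, hk⟩ := finrank_congr_c h hB hND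
  rw [hBE, finrank_bot, zero_add] at hk
  have hpos : 0 < finrank F Bs := by
    rw [Module.finrank_pos_iff_exists_ne_zero]
    exact ⟨⟨w, hw⟩, fun h => hw0 (congrArg Subtype.val h)⟩
  refine ⟨Bs, hBM, hB, hND, ?_⟩
  rw [hPdeg, ← hcc] at hle
  rcases k with _ | k
  · rw [mul_zero] at hk
    omega
  · have h6 : cc F r * (k + 1) = cc F r * k + cc F r := by ring
    omega

end Cfsg.Agent.Lib.H90SwP6e
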