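import Mathlib
import Cfsg.Agent.Lib.H90SwDefs
import Cfsg.Agent.Lib.H90SwP12
import Cfsg.Agent.Lib.H90SwP37
import Cfsg.Agent.Lib.H90SwP45

set_option autoImplicit false
set_option linter.unusedSectionVars false

/-! Row S5961, piece P6o = (P6), case `i` odd, of notes/helper94/ELU5.md. -/

namespace Cfsg.Agent.Lib.H90SwP6o

open Module Cfsg.Agent.Lib.Helper99Symp Cfsg.Agent.Lib.H90SwDefs Cfsg.Agent.Lib.H90SwP12
  Cfsg.Agent.Lib.H90SwP37 Cfsg.Agent.Lib.H90SwP45

variable {F V : Type*} [Field F] [Fintype F] [AddCommGroup V] [Module F V] [FiniteDimensional F V]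
variable {B : LinearMap.BilinForm F V} {r : ℕ} {g : Module.End F V}

theorem exists_block_odd (h : Ctx B r g) (hodd : ¬ Even (orderOf (Fintype.card F : ZMod r)))
    {M : Submodule F V} (hM : M.map g ≤ M) (hN : NondegOn B M) (h0 : M ≠ ⊥)
    (hE : M ⊓ Module.End.eigenspace g 1 = ⊥) :
    ∃ M₁ ≤ M, M₁.map g ≤ M₁ ∧ NondegOn B M₁ ∧ finrank F M₁ = cc F r := by
  haveI : Fact r.Prime := ⟨h.prime⟩
  set i := orderOf (Fintype.card F : ZMod r) with hi
  have hcc : cc F r = 2 * i := by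
    unfold cc cOf
    rw [if_neg hodd]
  have hipos : 0 < i := by
    rcases Nat.eq_zero_or_pos i with h1 | h1
    · exact absurd (h1 ▸ Even.zero) hodd
    · exact h1
  obtain ⟨B₁, hB₁M, hB₁, hB₁r⟩ := Cfsg.Agent.Lib.Helper87EluB2.exists_block r h.ndvd g h.pow M hM h0 hE
  have hP : (perpIn B B₁ M).map g ≤ perpIn B B₁ M := perpIn_inv h hB₁ hM
  obtain ⟨Y, hYM, hY, hPY, hsup⟩ := Cfsg.Agent.Lib.Helper87EluB3.exists_rel_compl r h.ne0 g 1 one_ne_zero
    (by rw [h.pow, one_smul]) (perpIn B B₁ M) M (perpIn_le _ _) hP hM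
  -- `B₁` is totally isotropic
  have hTI : B₁ ≤ perpIn B B₁ M := by
    have hR : (B₁ ⊓ perpIn B B₁ M).map g ≤ B₁ ⊓ perpIn B B₁ M := by
      rintro _ ⟨x, hx, rfl⟩
      exact ⟨hB₁ ⟨x, hx.1, rfl⟩, hP ⟨x, hx.2, rfl⟩⟩
    obtain ⟨k, hk⟩ := Cfsg.Agent.Lib.Helper87EluB1.finrank_congr r h.ndvd g h.pow _ hR
    have hRE : (B₁ ⊓ perpIn B B₁ M) ⊓ Module.End.eigenspace g 1 = ⊥ := by
      rw [eq_bot_iff, ← hE]
      intro x hx
      exact ⟨hB₁M hx.1.1, hx.2⟩
    rw [hRE, finrank_bot, zero_add] at hk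
    have hle : finrank F ↥(B₁ ⊓ perpIn B B₁ M) ≤ finrank F B₁ := Submodule.finrank_mono inf_le_left
    rcases Nat.eq_zero_or_pos k with rfl | hkpos
    · exfalso
      rw [mul_zero, Submodule.finrank_eq_zero] at hk
      have hND : NondegOn B B₁ := by
        intro u hu hu0
        by_contra hcon
        push Not at hcon
        have : u ∈ B₁ ⊓ perpIn B B₁ M := ⟨hu, hB₁M hu, hcon⟩
        rw [hk] at this
        exact hu0 ((Submodule.mem_bot F).1 this)
      have := even_finrank h.alt hND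
      rw [hB₁r] at this
      exact hodd this
    · have hge : finrank F B₁ ≤ finrank F ↥(B₁ ⊓ perpIn B B₁ M) := by
        rw [hk, hB₁r]
        exact Nat.le_mul_of_pos_right _ hkpos
      have := Submodule.eq_of_le_of_finrank_le (inf_le_left : B₁ ⊓ perpIn B B₁ M ≤ B₁) hge
      intro x hx
      rw [← this] at hx
      exact hx.2
  have hBY : B₁ ⊓ Y = ⊥ := by
    rw [eq_bot_iff, ← hPY]
    intro x hx
    exact ⟨hTI hx.1, hx.2⟩
  -- `finrank Y ≤ i`
  have hYr : finrank F Y ≤ i := by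
    let φ : Y →ₗ[F] Module.Dual F B₁ := B.domRestrict₁₂ Y B₁
    have hφ : Function.Injective φ := by
      rw [← LinearMap.ker_eq_bot, LinearMap.ker_eq_bot']
      intro y hy
      have h1 : (y : V) ∈ perpIn B B₁ M ⊓ Y := by
        refine ⟨⟨hYM y.2, ?_⟩, y.2⟩
        intro w hw
        have := LinearMap.congr_fun hy ⟨w, hw⟩
        exact this
      rw [hPY] at h1
      exact Subtype.ext ((Submodule.mem_bot F).1 h1)
    have := LinearMap.finrank_le_finrank_of_injective hφ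
    rw [Subspace.dual_finrank_eq, hB₁r] at this
    exact this
  have hHM : B₁ ⊔ Y ≤ M := sup_le hB₁M hYM
  have hH : (B₁ ⊔ Y).map g ≤ B₁ ⊔ Y := by
    rw [Submodule.map_sup]
    exact sup_le_sup hB₁ hY
  have hND : NondegOn B (B₁ ⊔ Y) := by
    intro u hu hu0
    by_contra hcon
    push Not at hcon
    obtain ⟨b, hb, y, hy, rfl⟩ := Submodule.mem_sup.1 hu
    have hy0 : y = 0 := by
      have h1 : y ∈ perpIn B B₁ M ⊓ Y := by
        refine ⟨⟨hYM hy, ?_⟩, hy⟩
        intro w hw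
        have h2 := hcon w (Submodule.mem_sup_left hw)
        rw [map_add, LinearMap.add_apply, (hTI hb).2 w hw, zero_add] at h2
        exact h2
      rw [hPY] at h1
      exact (Submodule.mem_bot F).1 h1
    subst hy0
    rw [add_zero] at hcon hu0
    obtain ⟨v, hv, hv0⟩ := hN b (hB₁M hb) hu0
    rw [← hsup] at hv
    obtain ⟨w, hw, y, hy, rfl⟩ := Submodule.mem_sup.1 hv
    apply hv0
    rw [map_add, hcon y (Submodule.mem_sup_right hy), add_zero, skew h.alt, hw.2 b hb, neg_zero]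
  have hHE : (B₁ ⊔ Y) ⊓ Module.End.eigenspace g 1 = ⊥ := by
    rw [eq_bot_iff, ← hE]
    intro x hx
    exact ⟨hHM hx.1, hx.2⟩
  obtain ⟨k, hk⟩ := finrank_congr_c h hH hND
  rw [hHE, finrank_bot, zero_add, hcc] at hk
  have hsum := Cfsg.Agent.Lib.Helper87EluB4.finrank_sup_of_disjoint B₁ Y hBY
  refine ⟨B₁ ⊔ Y, hHM, hH, hND, ?_⟩
  rw [hcc]
  rw [hB₁r] at hsum
  rcases Nat.eq_zero_or_pos k with rfl | hkpos
  · omega
  · have : 2 * i ≤ 2 * i * k := Nat.le_mul_of_pos_right _ hkpos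
    omega

end Cfsg.Agent.Lib.H90SwP6o
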