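import Mathlib
import Cfsg.Agent.Lib.H90SwDefs
import Cfsg.Agent.Lib.H90SwP12
import Cfsg.Agent.Lib.H90SwP37
import Cfsg.Agent.Lib.H90SwP45
import Cfsg.Agent.Lib.H90SwP6o
import Cfsg.Agent.Lib.H90SwP6e

set_option autoImplicit false
set_option linter.unusedSectionVars false

/-! Row S5961, piece P68 = (P6') + (P8) of notes/helper94/ELU5.md. -/

namespace Cfsg.Agent.Lib.H90SwP68

open Module Cfsg.Agent.Lib.Helper99Symp Cfsg.Agent.Lib.H90SwDefs Cfsg.Agent.Lib.H90SwP12
  Cfsg.Agent.Lib.H90SwP37 Cfsg.Agent.Lib.H90SwP45 Cfsg.Agent.Lib.H90SwP6o Cfsg.Agent.Lib.H90SwP6e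

variable {F V : Type*} [Field F] [Fintype F] [AddCommGroup V] [Module F V] [FiniteDimensional F V]
variable {B : LinearMap.BilinForm F V} {r : ℕ} {g : Module.End F V}

/-- (P6) -/
theorem exists_block (h : Ctx B r g) {M : Submodule F V} (hM : M.map g ≤ M) (hN : NondegOn B M)
    (h0 : M ≠ ⊥) (hE : M ⊓ Module.End.eigenspace g 1 = ⊥) :
    ∃ M₁ ≤ M, M₁.map g ≤ M₁ ∧ NondegOn B M₁ ∧ finrank F M₁ = cc F r := by
  by_cases hev : Even (orderOf (Fintype.card F : ZMod r))
  · exact exists_block_even h hev hM hN h0 hE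
  · exact exists_block_odd h hev hM hN h0 hE

/-- orthogonal sum of two invariant nondegenerate subspaces -/
theorem sup_facts (alt : ∀ v, B v v = 0) {W W' Q : Submodule F V} (hWQ : W ≤ Q) (hW'Q : W' ≤ Q)
    (hW : W.map g ≤ W) (hW' : W'.map g ≤ W') (hN : NondegOn B W) (hN' : NondegOn B W')
    (ho : Orth B W W') :
    W ⊔ W' ≤ Q ∧ (W ⊔ W').map g ≤ W ⊔ W' ∧ NondegOn B (W ⊔ W') ∧
      finrank F ↥(W ⊔ W') = finrank F W + finrank F W' := by
  refine ⟨sup_le hWQ hW'Q, ?_, nondeg_sup alt hN hN' ho, ?_⟩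
  · rw [Submodule.map_sup]
    exact sup_le_sup hW hW'
  · have h1 := Submodule.finrank_sup_add_finrank_inf_eq W W'
    rw [inf_eq_bot_of_orth hN ho, finrank_bot, add_zero] at h1
    exact h1

/-- (P6') -/
theorem exists_block_mul (h : Ctx B r g) {M : Submodule F V} (hM : M.map g ≤ M) (hN : NondegOn B M)
    (hE : M ⊓ Module.End.eigenspace g 1 = ⊥) (k : ℕ) (hk : cc F r * k ≤ finrank F M) :
    ∃ M' ≤ M, M'.map g ≤ M' ∧ NondegOn B M' ∧ finrank F M' = cc F r * k := by
  induction k with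
  | zero =>
    refine ⟨⊥, bot_le, by simp, ?_, by simp⟩
    intro u hu hu0
    exact absurd ((Submodule.mem_bot F).1 hu) hu0
  | succ k ih =>
    have hc := h.cc_pos
    obtain ⟨M', hM'M, hM'i, hM'N, hM'f⟩ := ih (le_trans (Nat.mul_le_mul_left _ (Nat.le_succ k)) hk)
    have h1 := finrank_perpIn h.alt hM'M hM'N
    have h2 : perpIn B M' M ≠ ⊥ := by
      intro h3
      rw [h3, finrank_bot, hM'f] at h1
      rw [Nat.mul_succ] at hk
      omega
    have h3 : perpIn B M' M ⊓ Module.End.eigenspace g 1 = ⊥ := by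
      rw [eq_bot_iff, ← hE]
      exact inf_le_inf_right _ (perpIn_le M' M)
    obtain ⟨M₁, hM₁P, hM₁i, hM₁N, hM₁f⟩ := exists_block h (perpIn_inv h hM'i hM)
      (perpIn_nondeg h.alt hM'M hM'N hN) h2 h3
    have ho : Orth B M' M₁ := fun u hu v hv => orth_perpIn h.alt M' M u hu v (hM₁P hv)
    obtain ⟨a1, a2, a3, a4⟩ := sup_facts h.alt hM'M (hM₁P.trans (perpIn_le M' M)) hM'i hM₁i hM'N hM₁N ho
    refine ⟨M' ⊔ M₁, a1, a2, a3, ?_⟩
    rw [a4, hM'f, hM₁f, Nat.mul_succ]

/-- (P8) -/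
theorem exists_inv_nondeg (h : Ctx B r g) {a t n : ℕ} (hae : Even a)
    (hmod : n % cc F r = t * (a % cc F r)) {s : ℕ} (hs : s < t) {Q : Submodule F V}
    (hQ : Q.map g ≤ Q) (hN : NondegOn B Q) (hfin : finrank F Q = a * (s + 1)) :
    ∃ W ≤ Q, W.map g ≤ W ∧ NondegOn B W ∧ finrank F W = a := by
  have hc := h.cc_pos
  have hce : Even (cc F r) := even_cc F r
  obtain ⟨M, hMQ, hMi, hMN, hME, hMo, hCM, hsup, hCN⟩ := exists_fixfree h hQ hN
  obtain ⟨k, hk⟩ := finrank_congr_c h hMi hMN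
  rw [hME, finrank_bot, zero_add] at hk
  have hsum : finrank F ↥(Q ⊓ Module.End.eigenspace g 1) + finrank F M = a * (s + 1) := by
    have h1 := Submodule.finrank_sup_add_finrank_inf_eq (Q ⊓ Module.End.eigenspace g 1) M
    rw [hCM, hsup, finrank_bot, add_zero, hfin] at h1
    exact h1.symm
  rw [hk] at hsum
  set c := cc F r with hcdef
  set fC := finrank F ↥(Q ⊓ Module.End.eigenspace g 1) with hfC
  have hlt : t * (a % c) < c := by
    rw [← hmod]; exact Nat.mod_lt _ hc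
  have hdm : c * (a / c) + a % c = a := Nat.div_add_mod a c
  have hY : (a % c) * (s + 1) < c := by
    have : (a % c) * (s + 1) ≤ t * (a % c) := by
      rw [mul_comm]; exact Nat.mul_le_mul_right _ hs
    omega
  have hexp : a * (s + 1) = c * ((a / c) * (s + 1)) + (a % c) * (s + 1) := by
    conv_lhs => rw [← hdm]
    ring
  have hkX : k ≤ (a / c) * (s + 1) := by
    by_contra hcon
    push Not at hcon
    have : c * ((a / c) * (s + 1) + 1) ≤ c * k := Nat.mul_le_mul_left _ hcon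
    rw [Nat.mul_succ] at this
    omega
  have hfCge : a % c ≤ fC := by
    have h1 : c * k ≤ c * ((a / c) * (s + 1)) := Nat.mul_le_mul_left _ hkX
    have h2 : a % c ≤ (a % c) * (s + 1) := Nat.le_mul_of_pos_right _ (Nat.succ_pos s)
    omega
  have hinvC : ∀ C' : Submodule F V, C' ≤ Q ⊓ Module.End.eigenspace g 1 → C'.map g ≤ C' := by
    rintro C' hC' _ ⟨x, hx, rfl⟩
    have := (Submodule.mem_inf.1 (hC' hx)).2
    rw [Module.End.mem_eigenspace_iff, one_smul] at this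
    rw [this]; exact hx
  by_cases hak : a / c ≤ k
  · obtain ⟨M', hM'M, hM'i, hM'N, hM'f⟩ := exists_block_mul h hMi hMN hME (a / c)
      (by rw [hk]; exact Nat.mul_le_mul_left _ hak)
    have hev : Even (a % c) := by
      rw [Nat.even_iff, Nat.mod_mod_of_dvd a hce.two_dvd, ← Nat.even_iff]
      exact hae
    obtain ⟨C', hC'C, hC'N, hC'f⟩ := exists_nondeg_le h.alt hCN (a % c) hev hfCge
    have ho : Orth B M' C' := fun u hu v hv => hMo u (hM'M hu) v (hC'C hv)
    obtain ⟨a1, a2, a3, a4⟩ := sup_facts h.alt (hM'M.trans hMQ) (hC'C.trans inf_le_left) hM'i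
      (hinvC C' hC'C) hM'N hC'N ho
    exact ⟨M' ⊔ C', a1, a2, a3, by rw [a4, hM'f, hC'f]; exact hdm⟩
  · push Not at hak
    have hck : c * k ≤ a := by
      have : c * k ≤ c * (a / c) := Nat.mul_le_mul_left _ hak.le
      omega
    have hev : Even (a - c * k) := by
      rw [Nat.even_sub hck]
      exact iff_of_true hae (hce.mul_right k)
    have hle : a - c * k ≤ fC := by
      have : a ≤ a * (s + 1) := Nat.le_mul_of_pos_right _ (Nat.succ_pos s)
      omega
    obtain ⟨C', hC'C, hC'N, hC'f⟩ := exists_nondeg_le h.alt hCN (a - c * k) hev hle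
    have ho : Orth B M C' := fun u hu v hv => hMo u hu v (hC'C hv)
    obtain ⟨a1, a2, a3, a4⟩ := sup_facts h.alt hMQ (hC'C.trans inf_le_left) hMi
      (hinvC C' hC'C) hMN hC'N ho
    exact ⟨M ⊔ C', a1, a2, a3, by rw [a4, hk, hC'f]; omega⟩

end Cfsg.Agent.Lib.H90SwP68
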