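import Mathlib
import Cfsg.Prelude.Def_GeometricClasses

set_option autoImplicit false

/-! Vocabulary for row S5958 (project 94, wave 3). -/

namespace Cfsg.Agent.Lib.Helper76ImpDefs

/-- `g` permutes the members of some decomposition of `F^n` into `t` subspaces of dimension `a` -/
def Stab {F : Type*} [Field F] {n : ℕ} (a t : ℕ) (g : Module.End F (Fin n → F)) : Prop :=
  ∃ D : Fin t → Submodule F (Fin n → F), Cfsg.Geo.IsMDecomposition a D ∧
    ∃ σ : Equiv.Perm (Fin t), ∀ j, (D j).map g = D (σ j)

end Cfsg.Agent.Lib.Helper76ImpDefs
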