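import Mathlib
import Cfsg.Prelude.Def_GeometricClasses
import Cfsg.Agent.Lib.Helper76ImpDefs

set_option autoImplicit false

/-! Project 94 wave 3 (S5958), piece I-DEC. -/

namespace Cfsg.Agent.Lib.Helper53ImpDEC

open Module Cfsg.Geo Cfsg.Agent.Lib.Helper76ImpDefs

variable {F : Type*} [Field F] {n : ℕ}

theorem iSupIndep_cons {V : Type*} [AddCommGroup V] [Module F V] {s : ℕ} {W Y : Submodule F V}
    {D' : Fin s → Submodule F V} (hD' : iSupIndep D') (hY : iSup D' ≤ Y) (hWY : Disjoint W Y) :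
    iSupIndep (Fin.cons W D' : Fin (s + 1) → Submodule F V) := by
  intro j
  refine Fin.cases ?_ (fun j' => ?_) j
  · simp only [Fin.cons_zero]
    refine hWY.mono_right ?_
    refine iSup₂_le fun k hk => ?_
    obtain ⟨k', rfl⟩ := Fin.exists_succ_eq.2 hk
    rw [Fin.cons_succ]
    exact (le_iSup D' k').trans hY
  · simp only [Fin.cons_succ]
    have h1 : (⨆ (k) (_ : k ≠ j'.succ), (Fin.cons W D' : Fin (s + 1) → Submodule F V) k) ≤
        (⨆ (k') (_ : k' ≠ j'), D' k') ⊔ W := by
      refine iSup₂_le fun k => ?_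
      refine Fin.cases ?_ (fun k' => ?_) k
      · intro _
        rw [Fin.cons_zero]
        exact le_sup_right
      · intro hk
        rw [Fin.cons_succ]
        have hk' : k' ≠ j' := fun h => hk (by rw [h])
        exact le_trans (le_iSup₂ (f := fun (k' : Fin s) (_ : k' ≠ j') => D' k') k' hk') le_sup_left
    refine Disjoint.mono_right h1 ?_
    apply Disjoint.disjoint_sup_right_of_disjoint_sup_left (hD' j')
    refine (hWY.symm).mono_left ?_
    exact sup_le ((le_iSup D' j').trans hY) (iSup₂_le fun k _ => (le_iSup D' k).trans hY)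

theorem iSup_cons {V : Type*} [AddCommGroup V] [Module F V] {s : ℕ} (W : Submodule F V)
    (D' : Fin s → Submodule F V) :
    iSup (Fin.cons W D' : Fin (s + 1) → Submodule F V) = W ⊔ iSup D' := by
  apply le_antisymm
  · refine iSup_le fun k => ?_
    refine Fin.cases ?_ (fun k' => ?_) k
    · rw [Fin.cons_zero]; exact le_sup_left
    · rw [Fin.cons_succ]; exact (le_iSup D' k').trans le_sup_right
  · refine sup_le ?_ (iSup_le fun k => ?_)
    · have := le_iSup (Fin.cons W D' : Fin (s + 1) → Submodule F V) 0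
      rwa [Fin.cons_zero] at this
    · have := le_iSup (Fin.cons W D' : Fin (s + 1) → Submodule F V) k.succ
      rwa [Fin.cons_succ] at this

/- piece I-DEC -/
theorem stab_of_inv (g : Module.End F (Fin n → F)) (hinj : Function.Injective g) (a t : ℕ)
    (ha : 1 ≤ a) (ht : 2 ≤ t) (hn : n = a * t)
    (h3 : ∀ X Q : Submodule F (Fin n → F), X ≤ Q → X.map g ≤ X → Q.map g ≤ Q →
      ∃ Y ≤ Q, Y.map g ≤ Y ∧ X ⊓ Y = ⊥ ∧ X ⊔ Y = Q)
    (hA : ∀ (s : ℕ) (Q : Submodule F (Fin n → F)), s < t → Q.map g ≤ Q →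
      finrank F Q = a * (s + 1) → ∃ W ≤ Q, W.map g ≤ W ∧ finrank F W = a) :
    Stab a t g := by
  have key : ∀ s : ℕ, s ≤ t → ∀ Q : Submodule F (Fin n → F), Q.map g ≤ Q → finrank F Q = a * s →
      ∃ D : Fin s → Submodule F (Fin n → F), (∀ j, (D j).map g ≤ D j) ∧
        (∀ j, finrank F (D j) = a) ∧ iSupIndep D ∧ iSup D = Q := by
    intro s
    induction s with
    | zero =>
      intro _ Q _ hQ
      rw [mul_zero, Submodule.finrank_eq_zero] at hQ
      refine ⟨fun j => j.elim0, fun j => j.elim0, fun j => j.elim0, fun j => j.elim0, ?_⟩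
      rw [hQ, iSup_of_empty]
    | succ s ih =>
      intro hs Q hQinv hQ
      obtain ⟨W, hWQ, hWinv, hW⟩ := hA s Q hs hQinv hQ
      obtain ⟨Y, hYQ, hYinv, hWY, hsup⟩ := h3 W Q hWQ hWinv hQinv
      have hY : finrank F Y = a * s := by
        have h1 := Submodule.finrank_sup_add_finrank_inf_eq W Y
        rw [hsup, hWY, finrank_bot, hQ, hW] at h1
        rw [mul_add, mul_one] at h1
        omega
      obtain ⟨D', h1, h2, h3', h4⟩ := ih (by omega) Y hYinv hY
      refine ⟨Fin.cons W D', ?_, ?_, ?_, ?_⟩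
      · intro j
        refine Fin.cases ?_ (fun j' => ?_) j
        · simpa using hWinv
        · simpa using h1 j'
      · intro j
        refine Fin.cases ?_ (fun j' => ?_) j
        · exact hW
        · exact h2 j'
      · exact iSupIndep_cons h3' h4.le (disjoint_iff.2 hWY)
      · rw [iSup_cons, h4, hsup]
  obtain ⟨D, h1, h2, h3', h4⟩ := key t le_rfl ⊤ le_top (by
    rw [finrank_top, Module.finrank_fin_fun, hn])
  refine ⟨D, ⟨ht, ha, h2, h3', h4⟩, 1, fun j => ?_⟩
  rw [Equiv.Perm.one_apply]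
  apply Submodule.eq_of_le_of_finrank_eq (h1 j)
  exact (Submodule.equivMapOfInjective g hinj (D j)).finrank_eq.symm

end Cfsg.Agent.Lib.Helper53ImpDEC
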