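import Mathlib
import Cfsg.Agent.Lib.H90SwDefs
import Cfsg.Agent.Lib.H90SwP12
import Cfsg.Agent.Lib.H90SwP68
import Cfsg.Agent.Lib.Helper53ImpDEC

set_option autoImplicit false
set_option linter.unusedSectionVars false

/-! Row S5961, piece P9 of notes/helper94/ELU5.md (model: Helper53ImpDEC.stab_of_inv; `iSupIndep_cons`
and `iSup_cons` there are stated for a general space). -/

namespace Cfsg.Agent.Lib.H90SwP9

open Module Cfsg.Agent.Lib.Helper99Symp Cfsg.Agent.Lib.H90SwDefs Cfsg.Agent.Lib.H90SwP12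
  Cfsg.Agent.Lib.H90SwP68 Cfsg.Agent.Lib.Helper53ImpDEC

variable {F V : Type*} [Field F] [Fintype F] [AddCommGroup V] [Module F V] [FiniteDimensional F V]
variable {B : LinearMap.BilinForm F V} {r : ℕ} {g : Module.End F V}

theorem exists_decomp (h : Ctx B r g) {a t n : ℕ} (hae : Even a)
    (hmod : n % cc F r = t * (a % cc F r)) :
    ∀ s ≤ t, ∀ Q : Submodule F V, Q.map g ≤ Q → NondegOn B Q → finrank F Q = a * s →
      ∃ D : Fin s → Submodule F V, (∀ j, (D j).map g ≤ D j) ∧ (∀ j, NondegOn B (D j)) ∧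
        (∀ j, finrank F (D j) = a) ∧ (∀ j j', j ≠ j' → Orth B (D j) (D j')) ∧ iSupIndep D ∧
        iSup D = Q := by
  intro s
  induction s with
  | zero =>
    intro _ Q _ _ hQ
    rw [mul_zero, Submodule.finrank_eq_zero] at hQ
    refine ⟨fun j => j.elim0, fun j => j.elim0, fun j => j.elim0, fun j => j.elim0,
      fun j => j.elim0, fun j => j.elim0, ?_⟩
    rw [hQ, iSup_of_empty]
  | succ s ih =>
    intro hs Q hQ hN hfin
    obtain ⟨W, hWQ, hWinv, hWN, hWfin⟩ := exists_inv_nondeg h hae hmod (Nat.lt_of_succ_le hs) hQ hN hfin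
    have hYinv := perpIn_inv h hWinv hQ
    have hYN := perpIn_nondeg h.alt hWQ hWN hN
    have hYfin : finrank F (perpIn B W Q) = a * s := by
      have := finrank_perpIn h.alt hWQ hWN
      rw [hWfin, hfin] at this
      have e : a * (s + 1) = a + a * s := by ring
      omega
    obtain ⟨D', h1, h2, h3, h4, h5, h6⟩ := ih (Nat.le_of_succ_le hs) _ hYinv hYN hYfin
    have hle : ∀ j, D' j ≤ perpIn B W Q := fun j => h6 ▸ le_iSup D' j
    refine ⟨Fin.cons W D', fun j => ?_, fun j => ?_, fun j => ?_, fun j j' => ?_, ?_, ?_⟩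
    · refine Fin.cases ?_ (fun j' => ?_) j
      · exact hWinv
      · exact h1 j'
    · refine Fin.cases ?_ (fun j' => ?_) j
      · exact hWN
      · exact h2 j'
    · refine Fin.cases ?_ (fun j' => ?_) j
      · exact hWfin
      · exact h3 j'
    · refine Fin.cases ?_ (fun i => ?_) j
      · refine Fin.cases ?_ (fun i' => ?_) j'
        · intro hne; exact absurd rfl hne
        · intro _ u hu v hv
          exact orth_perpIn h.alt W Q u hu v (hle i' hv)
      · refine Fin.cases ?_ (fun i' => ?_) j'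
        · intro _ u hu v hv
          exact (hle i hu).2 v hv
        · intro hne
          exact h4 i i' (fun he => hne (congrArg Fin.succ he))
    · exact iSupIndep_cons h5 h6.le (disjoint_iff.2 (perpIn_inf Q hWN))
    · rw [iSup_cons, h6, perpIn_sup h.alt hWQ hWN]

end Cfsg.Agent.Lib.H90SwP9
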