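import Mathlib

set_option autoImplicit false

namespace Cfsg.Agent.Lib.H92DDefs

/-- the four-subgroup `{1, r n, sr i, sr (i+n)}` of `DihedralGroup (2n)`, defined as `C(sr i)`. -/
def W (m : ℕ) (i : ZMod m) : Subgroup (DihedralGroup m) :=
  Subgroup.centralizer {DihedralGroup.sr i}

/-- transport of a subgroup of `D` to a subgroup of `X` contained in `S`, along `e : S ≃* D`. -/
def Phi {X D : Type*} [Group X] [Group D] (S : Subgroup X) (e : S ≃* D) (V : Subgroup D) :
    Subgroup X :=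
  (V.comap e.toMonoidHom).map S.subtype

theorem mem_Phi {X D : Type*} [Group X] [Group D] (S : Subgroup X) (e : S ≃* D) (V : Subgroup D)
    (x : X) : x ∈ Phi S e V ↔ ∃ h : x ∈ S, e ⟨x, h⟩ ∈ V := by
  unfold Phi
  constructor
  · rintro ⟨y, hy, rfl⟩
    exact ⟨y.2, hy⟩
  · rintro ⟨h, hx⟩
    exact ⟨⟨x, h⟩, hx, rfl⟩

theorem Phi_le {X D : Type*} [Group X] [Group D] (S : Subgroup X) (e : S ≃* D) (V : Subgroup D) :
    Phi S e V ≤ S := fun x hx => ((mem_Phi S e V x).1 hx).1

end Cfsg.Agent.Lib.H92DDefs
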