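import Mathlib
import Cfsg.Agent.Lib.H92DDefs

set_option autoImplicit false

namespace Cfsg.Agent.Lib.H92DMemW

open Cfsg.Agent.Lib.H92DDefs DihedralGroup

theorem two_tors (m n : ℕ) (hmn : m = 2 * n) (hn : 0 < n) (j : ZMod m) :
    j + j = 0 ↔ j = 0 ∨ j = (n : ZMod m) := by
  subst hmn
  have : NeZero (2 * n) := ⟨by omega⟩
  constructor
  · intro h
    have hj : ((j.val + j.val : ℕ) : ZMod (2 * n)) = 0 := by
      push_cast
      rw [ZMod.natCast_zmod_val]; exact h
    rw [ZMod.natCast_eq_zero_iff] at hj
    have hlt := ZMod.val_lt j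
    obtain ⟨c, hc⟩ := hj
    have hc2 : c = 0 ∨ c = 1 := by
      rcases c with _ | _ | c
      · left; rfl
      · right; rfl
      · exfalso; nlinarith
    rcases hc2 with rfl | rfl
    · left
      have h0 : j.val = 0 := by omega
      exact (ZMod.val_eq_zero j).1 h0
    · right
      have h0 : j.val = n := by omega
      have h1 := ZMod.natCast_zmod_val j
      rw [h0] at h1
      exact h1.symm
  · rintro (rfl | rfl)
    · simp
    · rw [← Nat.cast_add, ZMod.natCast_eq_zero_iff]
      exact ⟨1, by ring⟩

/-- elements of `W m i = C(sr i)` in `DihedralGroup (2n)`. -/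
theorem mem_W (m n : ℕ) (hmn : m = 2 * n) (hn : 0 < n) (i : ZMod m) (g : DihedralGroup m) :
    g ∈ W m i ↔ g = 1 ∨ g = r (n : ZMod m) ∨ g = sr i ∨ g = sr (i + (n : ZMod m)) := by
  unfold W
  rw [Subgroup.mem_centralizer_singleton_iff]
  rcases g with j | j
  · rw [r_mul_sr, sr_mul_r, one_def]
    simp only [sr.injEq, r.injEq, reduceCtorEq, or_false]
    rw [← two_tors m n hmn hn j]
    constructor
    · intro h
      have : j + j = (i + j) - (i - j) := by ring
      rw [this, h]; ring
    · intro h
      have : i - j = i + j - (j + j) := by ring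
      rw [this, h]; ring
  · rw [sr_mul_sr, sr_mul_sr, one_def]
    simp only [sr.injEq, r.injEq, reduceCtorEq, false_or]
    have h2 := two_tors m n hmn hn (j - i)
    constructor
    · intro h
      have h3 : (j - i) + (j - i) = 0 := by
        have : (j - i) + (j - i) = (j - i) - (i - j) := by ring
        rw [this, h]; ring
      rcases h2.1 h3 with h4 | h4
      · left; exact sub_eq_zero.1 h4
      · right; rw [← h4]; ring
    · intro h
      have h3 : (j - i) + (j - i) = 0 := by
        apply h2.2
        rcases h with h | h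
        · left; rw [h]; ring
        · right; rw [h]; ring
      have : i - j = (j - i) - ((j - i) + (j - i)) := by ring
      rw [this, h3]; ring

end Cfsg.Agent.Lib.H92DMemW
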