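import Mathlib
import Cfsg.Agent.Lib.H92DDefs
import Cfsg.Agent.Lib.H92DMemW

set_option autoImplicit false

namespace Cfsg.Agent.Lib.H92DKleinW

open Cfsg.Agent.Lib.H92DDefs DihedralGroup

/-- `W m i` is a Klein four group (use `H92DMemW.mem_W`: four distinct elements, each of square 1;
`(n : ZMod (2n)) ≠ 0`, `n + n = 0`). -/
theorem klein_W (m n : ℕ) (hmn : m = 2 * n) (hn : 0 < n) (i : ZMod m) : IsKleinFour (W m i) := by
  have hmem := H92DMemW.mem_W m n hmn hn i
  have hn0 : (n : ZMod m) ≠ 0 := by
    intro h
    rw [ZMod.natCast_eq_zero_iff] at h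
    have := Nat.le_of_dvd hn h
    omega
  have hnn : (n : ZMod m) + n = 0 := by
    have : ((n + n : ℕ) : ZMod m) = 0 := by
      rw [ZMod.natCast_eq_zero_iff]
      exact ⟨1, by omega⟩
    simpa using this
  have hset : ((W m i : Subgroup (DihedralGroup m)) : Set (DihedralGroup m)) =
      (({1, r (n : ZMod m), sr i, sr (i + (n : ZMod m))} : Finset (DihedralGroup m)) :
        Set (DihedralGroup m)) := by
    ext g
    simp only [SetLike.mem_coe, hmem, Finset.coe_insert, Finset.coe_singleton,
      Set.mem_insert_iff, Set.mem_singleton_iff]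
  have hcard : Nat.card (W m i) = 4 := by
    have h1 : Nat.card (W m i) = Nat.card ((W m i : Subgroup (DihedralGroup m)) :
      Set (DihedralGroup m)) := rfl
    rw [h1, hset, Nat.card_coe_set_eq, Set.ncard_coe_finset]
    have a1 : (1 : DihedralGroup m) ≠ r (n : ZMod m) := by
      rw [DihedralGroup.one_def]
      intro h
      exact hn0 (r.inj h).symm
    have a2 : (1 : DihedralGroup m) ≠ sr i := by
      rw [DihedralGroup.one_def]; intro h; cases h
    have a3 : (1 : DihedralGroup m) ≠ sr (i + (n : ZMod m)) := by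
      rw [DihedralGroup.one_def]; intro h; cases h
    have a4 : r (n : ZMod m) ≠ sr i := by intro h; cases h
    have a5 : r (n : ZMod m) ≠ sr (i + (n : ZMod m)) := by intro h; cases h
    have a6 : sr i ≠ sr (i + (n : ZMod m)) := by
      intro h
      have := sr.inj h
      exact hn0 (by simpa using this)
    rw [Finset.card_insert_of_notMem, Finset.card_insert_of_notMem,
      Finset.card_insert_of_notMem, Finset.card_singleton]
    · simpa using a6
    · simp [a4, a5]
    · simp [a1, a2, a3]
  refine ⟨hcard, ?_⟩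
  have hsq : ∀ g : W m i, g ^ 2 = 1 := by
    rintro ⟨g, hg⟩
    apply Subtype.ext
    simp only [Subgroup.coe_pow, Subgroup.coe_one]
    rcases (hmem g).1 hg with rfl | rfl | rfl | rfl
    · simp
    · rw [pow_two, r_mul_r, hnn, DihedralGroup.one_def]
    · rw [pow_two, sr_mul_sr, sub_self, DihedralGroup.one_def]
    · rw [pow_two, sr_mul_sr, sub_self, DihedralGroup.one_def]
  have hd : Monoid.exponent (W m i) ∣ 2 := Monoid.exponent_dvd_of_forall_pow_eq_one hsq
  rcases (Nat.dvd_prime Nat.prime_two).1 hd with h | h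
  · exfalso
    have hsub : Subsingleton (W m i) := Monoid.exp_eq_one_iff.1 h
    have : Nat.card (W m i) = 1 := Nat.card_unique
    omega
  · exact h

end Cfsg.Agent.Lib.H92DKleinW
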