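import Mathlib
import Cfsg.Agent.Lib.H92DDefs
import Cfsg.Agent.Lib.H92DKleinW

set_option autoImplicit false

namespace Cfsg.Agent.Lib.H92DEqW

open Cfsg.Agent.Lib.H92DDefs DihedralGroup

/-- a Klein four subgroup containing `sr i` IS `W m i`: it is commutative (exponent 2), so `V ≤ C(sr i) = W m i`, and both have
4 elements (`H92DKleinW.klein_W`, `IsKleinFour.card_four`, `Subgroup.eq_of_le_of_card_ge`). -/
theorem eq_W (m n : ℕ) (hmn : m = 2 * n) (hn : 0 < n) (V : Subgroup (DihedralGroup m))
    (hV : IsKleinFour V) (i : ZMod m) (hi : sr i ∈ V) : V = W m i := by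
  have hW := H92DKleinW.klein_W m n hmn hn i
  have hm : NeZero m := ⟨by omega⟩
  have hsq : ∀ g : V, g * g = 1 := by
    intro g
    have := Monoid.pow_exponent_eq_one g
    rw [hV.exponent_two, pow_two] at this
    exact this
  have hcomm : ∀ a b : V, a * b = b * a := by
    intro a b
    have h1 := hsq (a * b)
    have ha := hsq a
    have hb := hsq b
    have : a * b = (a * b)⁻¹ := eq_inv_of_mul_eq_one_left h1
    rw [this, mul_inv_rev, ← eq_inv_of_mul_eq_one_left ha, ← eq_inv_of_mul_eq_one_left hb]
  have hle : V ≤ W m i := by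
    intro g hg
    unfold W
    rw [Subgroup.mem_centralizer_singleton_iff]
    have := hcomm ⟨g, hg⟩ ⟨sr i, hi⟩
    exact congrArg Subtype.val this
  apply Subgroup.eq_of_le_of_card_ge hle
  rw [hW.card_four, hV.card_four]

end Cfsg.Agent.Lib.H92DEqW
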