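import Mathlib
import Cfsg.Agent.Lib.H92DDefs

set_option autoImplicit false

namespace Cfsg.Agent.Lib.H92DExSr

open Cfsg.Agent.Lib.H92DDefs DihedralGroup

/-- `j + j = 0` in `ZMod (2n)` forces `j = 0` or `j = n`. -/
theorem two_tors (m n : ℕ) (hmn : m = 2 * n) (hn : 0 < n) (j : ZMod m) (hj : j + j = 0) :
    j = 0 ∨ j = (n : ZMod m) := by
  have : NeZero m := ⟨by omega⟩
  have hlt := ZMod.val_lt j
  have h1 : ((j.val + j.val : ℕ) : ZMod m) = 0 := by
    push_cast
    rw [ZMod.natCast_zmod_val]
    exact hj
  rw [ZMod.natCast_eq_zero_iff] at h1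
  obtain ⟨k, hk⟩ := h1
  have hk2 : k < 2 := by
    by_contra h
    have : 2 ≤ k := by omega
    have : m * 2 ≤ m * k := Nat.mul_le_mul_left m this
    omega
  interval_cases k
  · left
    have : j.val = 0 := by omega
    exact (ZMod.val_eq_zero j).1 this
  · right
    have : j.val = n := by omega
    rw [← this, ZMod.natCast_zmod_val]

/-- a Klein four subgroup of `DihedralGroup (2n)` contains a reflection: otherwise all its elements are `r j` with
`(r j)^2 = 1`, i.e. `j + j = 0`, i.e. `j ∈ {0, n}`: at most 2 elements, but it has 4. -/
theorem exists_sr (m n : ℕ) (hmn : m = 2 * n) (hn : 0 < n) (V : Subgroup (DihedralGroup m))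
    (hV : IsKleinFour V) : ∃ i : ZMod m, sr i ∈ V := by
  by_contra hno
  push Not at hno
  have hsub : ∀ g : V, g = 1 ∨ (g : DihedralGroup m) = r (n : ZMod m) := by
    rintro ⟨g, hg⟩
    cases g with
    | sr i => exact absurd hg (hno i)
    | r j =>
      have h2 : (⟨r j, hg⟩ : V) * ⟨r j, hg⟩ = 1 := IsKleinFour.mul_self _
      have h3 : (r j : DihedralGroup m) * r j = 1 := congrArg Subtype.val h2
      rw [r_mul_r, one_def] at h3
      rcases two_tors m n hmn hn j (r.inj h3) with h | h
      · left
        apply Subtype.ext
        show r j = 1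
        rw [h, one_def]
      · right
        show r j = _
        rw [h]
  have hcard : Nat.card V ≤ 2 := by
    have : Finite V := Nat.finite_of_card_ne_zero (by rw [hV.card_four]; norm_num)
    let f : V → Bool := fun g => decide (g = 1)
    have hf : Function.Injective f := by
      intro a b hab
      by_cases ha : a = 1
      · have hb : b = 1 := by
          have : f b = true := by rw [← hab]; simp [f, ha]
          simpa [f] using this
        rw [ha, hb]
      · have hb : b ≠ 1 := by
          intro hb
          have : f a = true := by rw [hab]; simp [f, hb]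
          exact ha (by simpa [f] using this)
        apply Subtype.ext
        rw [(hsub a).resolve_left ha, (hsub b).resolve_left hb]
    have := Nat.card_le_card_of_injective f hf
    simpa using this
  rw [hV.card_four] at hcard
  omega

end Cfsg.Agent.Lib.H92DExSr
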