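import Mathlib
import Cfsg.Agent.Lib.H92DDefs
import Cfsg.Agent.Lib.H92DMemW
import Cfsg.Agent.Lib.H92DKleinW
import Cfsg.Agent.Lib.H92DExSr
import Cfsg.Agent.Lib.H92DEqW

set_option autoImplicit false

namespace Cfsg.Agent.Lib.H92DCard

open Cfsg.Agent.Lib.H92DDefs DihedralGroup
open Cfsg.Agent.Lib.H92DMemW Cfsg.Agent.Lib.H92DKleinW Cfsg.Agent.Lib.H92DExSr Cfsg.Agent.Lib.H92DEqW

/-- there are exactly `n` Klein four subgroups in `DihedralGroup (2n)`.
Double count: `(Σ V : {V // IsKleinFour V}, {i : ZMod m // sr i ∈ V.1}) ≃ ZMod m` (inverse `i ↦ ⟨W m i, i⟩`, by `eq_W`), each fibre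
`{i // sr i ∈ V}` has exactly 2 elements (`V = W m j` by `exists_sr`, `eq_W`; then `mem_W`: `i = j ∨ i = j + n`), so `2 * card = m = 2 n`. -/
theorem card_klein (m n : ℕ) (hmn : m = 2 * n) (hn : 0 < n) :
    Nat.card {V : Subgroup (DihedralGroup m) // IsKleinFour V} = n := by
  classical
  haveI : NeZero m := ⟨by omega⟩
  haveI : Fintype {V : Subgroup (DihedralGroup m) // IsKleinFour V} := Fintype.ofFinite _
  let f : ZMod m → {V : Subgroup (DihedralGroup m) // IsKleinFour V} :=
    fun i => ⟨W m i, klein_W m n hmn hn i⟩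
  have hn0 : (n : ZMod m) ≠ 0 := by
    intro h
    rw [ZMod.natCast_eq_zero_iff] at h
    have := Nat.le_of_dvd hn h
    omega
  have hfib : ∀ V, Fintype.card {i // f i = V} = 2 := by
    intro V
    obtain ⟨j, hj⟩ := exists_sr m n hmn hn V.1 V.2
    have hV : V.1 = W m j := eq_W m n hmn hn V.1 V.2 j hj
    have hiff : ∀ i, f i = V ↔ i = j ∨ i = j + n := by
      intro i
      constructor
      · intro h
        have h1 : W m i = W m j := by
          rw [← hV, ← h]
        have h2 : sr i ∈ W m j := by
          rw [← h1, mem_W m n hmn hn]; right; right; left; rfl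
        rw [mem_W m n hmn hn] at h2
        rcases h2 with h2 | h2 | h2 | h2
        · rw [DihedralGroup.one_def] at h2
          exact absurd h2 (by intro h; cases h)
        · exact absurd h2 (by intro h; cases h)
        · left; exact DihedralGroup.sr.inj h2
        · right; exact DihedralGroup.sr.inj h2
      · rintro (rfl | rfl)
        · exact Subtype.ext hV.symm
        · apply Subtype.ext
          show W m (j + n) = V.1
          have h3 : sr (j + (n : ZMod m)) ∈ V.1 := by
            rw [hV, mem_W m n hmn hn]; right; right; right; rfl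
          exact (eq_W m n hmn hn V.1 V.2 _ h3).symm
    rw [Fintype.card_subtype]
    have : (Finset.univ.filter fun i => f i = V) = {j, j + (n : ZMod m)} := by
      ext i; simp [hiff]
    rw [this, Finset.card_pair]
    intro h
    apply hn0
    simpa using h.symm
  have h1 : Fintype.card (ZMod m) = Fintype.card (Σ V, {i // f i = V}) :=
    Fintype.card_congr (Equiv.sigmaFiberEquiv f).symm
  rw [Fintype.card_sigma, ZMod.card] at h1
  simp only [hfib, Finset.sum_const, Finset.card_univ, smul_eq_mul] at h1
  rw [Nat.card_eq_fintype_card]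
  omega

end Cfsg.Agent.Lib.H92DCard
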