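import Mathlib
import Cfsg.Agent.Lib.H92DDefs

set_option autoImplicit false

namespace Cfsg.Agent.Lib.H92DConj

open Cfsg.Agent.Lib.H92DDefs DihedralGroup

theorem map_cent {G : Type*} [Group G] (g x : G) :
    (Subgroup.centralizer {x}).map (MulAut.conj g).toMonoidHom
      = Subgroup.centralizer {g * x * g⁻¹} := by
  ext y
  simp only [Subgroup.mem_map, Subgroup.mem_centralizer_iff, Set.mem_singleton_iff, forall_eq]
  constructor
  · rintro ⟨z, hz, rfl⟩
    show g * x * g⁻¹ * (g * z * g⁻¹) = g * z * g⁻¹ * (g * x * g⁻¹)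
    calc g * x * g⁻¹ * (g * z * g⁻¹) = g * (x * z) * g⁻¹ := by group
      _ = g * (z * x) * g⁻¹ := by rw [hz]
      _ = g * z * g⁻¹ * (g * x * g⁻¹) := by group
  · intro hy
    refine ⟨g⁻¹ * y * g, ?_, ?_⟩
    · calc x * (g⁻¹ * y * g) = g⁻¹ * (g * x * g⁻¹ * y) * g := by group
        _ = g⁻¹ * (y * (g * x * g⁻¹)) * g := by rw [hy]
        _ = g⁻¹ * y * g * x := by group
    · show g * (g⁻¹ * y * g) * g⁻¹ = y
      group

/-- every `W m i` is conjugate to `W m 0` or `W m 1`.  General: `(centralizer {x}).map (conj g) = centralizer {g x g⁻¹}`;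
`r k * sr i * (r k)⁻¹ = sr (i - 2k)`; every `i : ZMod (2n)` is `2k` or `2k+1` (take `k = i.val / 2`). -/
theorem conj01 (m n : ℕ) (hmn : m = 2 * n) (hn : 0 < n) (i : ZMod m) :
    ∃ g : DihedralGroup m, (W m i).map (MulAut.conj g).toMonoidHom = W m 0 ∨
      (W m i).map (MulAut.conj g).toMonoidHom = W m 1 := by
  haveI : NeZero m := ⟨by omega⟩
  have hi : i = ((i.val / 2 : ℕ) : ZMod m) + ((i.val / 2 : ℕ) : ZMod m) + ((i.val % 2 : ℕ) : ZMod m) := by
    conv_lhs => rw [← ZMod.natCast_zmod_val i]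
    rw [← Nat.cast_add, ← Nat.cast_add]
    congr 1
    omega
  set k : ZMod m := ((i.val / 2 : ℕ) : ZMod m) with hk
  refine ⟨r k, ?_⟩
  have hc : r k * sr i * (r k)⁻¹ = sr (i - k - k) := by
    rw [r_mul_sr, inv_r, sr_mul_r]
    congr 1
    ring
  unfold W
  rw [map_cent, hc]
  rcases Nat.mod_two_eq_zero_or_one i.val with h | h
  · left
    rw [h] at hi
    have : i - k - k = 0 := by
      conv_lhs => rw [hi]
      push_cast
      ring
    rw [this]
  · right
    rw [h] at hi
    have : i - k - k = 1 := by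
      conv_lhs => rw [hi]
      push_cast
      ring
    rw [this]

end Cfsg.Agent.Lib.H92DConj
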