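import Mathlib
import Cfsg.Agent.Lib.H92DDefs

set_option autoImplicit false

namespace Cfsg.Agent.Lib.H92DCount

open Cfsg.Agent.Lib.H92DDefs DihedralGroup

/-- counting a union of fibres, each fibre being a coset of `H`. -/
theorem card_fib {X B : Type*} [Group X] (H : Subgroup X) (φ : X → B)
    (hφ : ∀ g g', φ g = φ g' ↔ g⁻¹ * g' ∈ H) (Kp : B → Prop) (hK : ∀ b, Kp b → ∃ g, φ g = b) :
    Nat.card {g : X // Kp (φ g)} = Nat.card {b : B // Kp b} * Nat.card H := by
  classical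
  let rep : B → X := fun b => if h : ∃ g, φ g = b then h.choose else 1
  have hrep : ∀ b, Kp b → φ (rep b) = b := by
    intro b hb
    have h := hK b hb
    simp only [rep, dif_pos h]
    exact h.choose_spec
  have hmul : ∀ (g : X) (n : H), φ (g * n) = φ g := by
    intro g n
    rw [eq_comm, hφ]
    simp
  rw [← Nat.card_prod]
  refine Nat.card_congr
    { toFun := fun g => (⟨φ g.1, g.2⟩, ⟨(rep (φ g.1))⁻¹ * g.1, (hφ _ _).1 (hrep _ g.2)⟩)
      invFun := fun bn => ⟨rep bn.1.1 * bn.2.1, by rw [hmul, hrep _ bn.1.2]; exact bn.1.2⟩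
      left_inv := ?_
      right_inv := ?_ }
  · rintro ⟨g, hg⟩
    simp
  · rintro ⟨⟨b, hb⟩, n⟩
    have h1 : φ (rep b * n) = b := by rw [hmul, hrep _ hb]
    apply Prod.ext
    · exact Subtype.ext h1
    · apply Subtype.ext
      show (rep (φ (rep b * n)))⁻¹ * (rep b * n) = n
      rw [h1]
      simp

theorem mem_map_conj {X : Type*} [Group X] (U : Subgroup X) (g x : X) :
    x ∈ U.map (MulAut.conj g).toMonoidHom ↔ g⁻¹ * x * g ∈ U := by
  constructor
  · rintro ⟨u, hu, rfl⟩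
    have : g⁻¹ * (MulAut.conj g).toMonoidHom u * g = u := by
      show g⁻¹ * (g * u * g⁻¹) * g = u
      group
    rw [this]; exact hu
  · intro h
    refine ⟨_, h, ?_⟩
    show g * (g⁻¹ * x * g) * g⁻¹ = x
    group

theorem map_conj_eq_iff {X : Type*} [Group X] (U : Subgroup X) (g g' : X) :
    U.map (MulAut.conj g).toMonoidHom = U.map (MulAut.conj g').toMonoidHom ↔
      g⁻¹ * g' ∈ Subgroup.normalizer (U : Set X) := by
  rw [Subgroup.mem_normalizer_iff]
  constructor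
  · intro h x
    have h1 := SetLike.ext_iff.1 h (g' * x * g'⁻¹)
    rw [mem_map_conj, mem_map_conj] at h1
    have e1 : g'⁻¹ * (g' * x * g'⁻¹) * g' = x := by group
    have e2 : g⁻¹ * (g' * x * g'⁻¹) * g = g⁻¹ * g' * x * (g⁻¹ * g')⁻¹ := by group
    rw [e1, e2] at h1
    exact h1.symm
  · intro h
    ext x
    rw [mem_map_conj, mem_map_conj]
    have h1 := h (g'⁻¹ * x * g')
    have e2 : g⁻¹ * g' * (g'⁻¹ * x * g') * (g⁻¹ * g')⁻¹ = g⁻¹ * x * g := by group
    rw [e2] at h1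
    exact h1.symm

/-- GENERAL COUNT (pure Mathlib).  `S` Sylow `p`, `U` a `p`-subgroup, `K` = the set of `X`-conjugates of `U`
that lie in `S`.  Then `|K| * |N_X(U)| = f * |S|` with `p ∤ f`. -/
theorem count {X : Type*} [Group X] [Finite X] {p : ℕ} [Fact p.Prime] (S : Sylow p X)
    (U : Subgroup X) (hU : IsPGroup p U) :
    ∃ f : ℕ, ¬ p ∣ f ∧
      Nat.card {W' : Subgroup X // W' ≤ S ∧ ∃ g : X, U.map (MulAut.conj g).toMonoidHom = W'} *
        Nat.card (Subgroup.normalizer (U : Set X)) = f * Nat.card S := by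
  refine ⟨Nat.card (MulAction.fixedPoints U (X ⧸ (S : Subgroup X))), ?_, ?_⟩
  · intro hd
    have h1 := hU.card_modEq_card_fixedPoints (X ⧸ (S : Subgroup X))
    have h2 : p ∣ Nat.card (X ⧸ (S : Subgroup X)) := (Nat.modEq_zero_iff_dvd.1
      (h1.trans (Nat.modEq_zero_iff_dvd.2 hd)))
    exact S.not_dvd_index h2
  · have ha := card_fib (Subgroup.normalizer (U : Set X))
      (fun g : X => U.map (MulAut.conj g).toMonoidHom) (map_conj_eq_iff U)
      (fun W' => W' ≤ S ∧ ∃ g : X, U.map (MulAut.conj g).toMonoidHom = W') (fun b hb => hb.2)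
    have hb := card_fib (S : Subgroup X) (fun g : X => (g : X ⧸ (S : Subgroup X)))
      (fun g g' => QuotientGroup.eq)
      (fun c => c ∈ MulAction.fixedPoints U (X ⧸ (S : Subgroup X)))
      (fun b _ => QuotientGroup.mk_surjective b)
    have hb' : Nat.card {b : X ⧸ (S : Subgroup X) // b ∈ MulAction.fixedPoints U (X ⧸ (S : Subgroup X))}
        = Nat.card (MulAction.fixedPoints U (X ⧸ (S : Subgroup X))) := rfl
    rw [← ha, ← hb', ← hb]
    refine Nat.card_congr (Equiv.subtypeEquiv (Equiv.inv X) ?_)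
    intro g
    constructor
    · rintro ⟨h, -⟩ u
      show ((u : X) * g⁻¹ : X) = ((g⁻¹ : X) : X ⧸ (S : Subgroup X))
      rw [QuotientGroup.eq]
      have : g * (u : X)⁻¹ * g⁻¹ ∈ (S : Subgroup X) :=
        h ⟨(u : X)⁻¹, U.inv_mem u.2, rfl⟩
      have e : ((u : X) * g⁻¹)⁻¹ * g⁻¹ = g * (u : X)⁻¹ * g⁻¹ := by group
      rw [e]; exact this
    · intro h
      refine ⟨?_, g, rfl⟩
      rintro _ ⟨u, hu, rfl⟩
      have h1 := h ⟨u⁻¹, U.inv_mem hu⟩
      have h2 : ((u⁻¹ * g⁻¹ : X) : X ⧸ (S : Subgroup X)) = ((g⁻¹ : X) : X ⧸ (S : Subgroup X)) := h1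
      rw [QuotientGroup.eq] at h2
      have e : (u⁻¹ * g⁻¹)⁻¹ * g⁻¹ = g * u * g⁻¹ := by group
      rw [e] at h2
      exact h2

end Cfsg.Agent.Lib.H92DCount
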