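import Mathlib
import Cfsg.Agent.Lib.H92DDefs

set_option autoImplicit false

namespace Cfsg.Agent.Lib.H92DEight

open Cfsg.Agent.Lib.H92DDefs DihedralGroup

/-- GENERAL: `S` a 2-group (Sylow), `U ≤ S` of order 4, `a ∈ S` normalising `U`, `a ∉ U`.  Then `8 ∣ |N_X(U)|`.
Proof: `T = N_X(U) ⊓ S` is a 2-group (subgroup of `S`), contains `U` properly, so `|T| = 2^k > 4`, so `8 ∣ |T| ∣ |N_X(U)|`
(`Subgroup.card_dvd_of_le`). -/
theorem eight {X : Type*} [Group X] [Finite X] (S : Sylow 2 X) (U : Subgroup X) (hUS : U ≤ S)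
    (hU : Nat.card U = 4) (a : X) (haS : a ∈ (S : Subgroup X))
    (haN : U.map (MulAut.conj a).toMonoidHom = U) (haU : a ∉ U) :
    8 ∣ Nat.card (Subgroup.normalizer (U : Set X)) := by
  set T : Subgroup X := Subgroup.normalizer (U : Set X) ⊓ S with hT
  have hTp : IsPGroup 2 T := S.2.to_le inf_le_right
  obtain ⟨k, hk⟩ := hTp.exists_card_eq
  have hUT : U ≤ T := le_inf Subgroup.le_normalizer hUS
  have haT : a ∈ T := by
    refine Subgroup.mem_inf.2 ⟨?_, haS⟩
    rw [Subgroup.mem_normalizer_iff_map_conj_eq]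
    exact haN
  have hlt : U < T := lt_of_le_of_ne hUT (fun h => haU (h ▸ haT))
  have hcard : Nat.card U < Nat.card T := by
    by_contra hge
    exact hlt.ne (Subgroup.eq_of_le_of_card_ge hUT (not_lt.1 hge))
  rw [hU, hk] at hcard
  have hk3 : 3 ≤ k := by
    by_contra hlt3
    have : k ≤ 2 := by omega
    have := Nat.pow_le_pow_right (n := 2) (by norm_num) this
    omega
  have h8 : 8 ∣ Nat.card T := by
    rw [hk]
    exact pow_dvd_pow 2 hk3
  exact h8.trans (Subgroup.card_dvd_of_le inf_le_left)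

end Cfsg.Agent.Lib.H92DEight
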