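import Mathlib
import Cfsg.Agent.Lib.H92DDefs

set_option autoImplicit false

namespace Cfsg.Agent.Lib.H92DSyl

open Cfsg.Agent.Lib.H92DDefs DihedralGroup

/-- a Klein four subgroup is conjugate into the Sylow 2-subgroup `S` (`IsPGroup.of_card` with card `4 = 2^2`,
`IsPGroup.exists_le_sylow`, Sylow conjugacy `MulAction.exists_smul_eq`, `Sylow.smul_def`/`Subgroup.pointwise_smul_def`). -/
theorem conj_into {X : Type*} [Group X] [Finite X] (S : Sylow 2 X) (V : Subgroup X) (hV : IsKleinFour V) :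
    ∃ x : X, V.map (MulAut.conj x).toMonoidHom ≤ S := by
  have hp : IsPGroup 2 V := IsPGroup.of_card (n := 2) (by rw [hV.card_four]; norm_num)
  obtain ⟨P, hP⟩ := hp.exists_le_sylow
  obtain ⟨x, hx⟩ := MulAction.exists_smul_eq X P S
  refine ⟨x, ?_⟩
  rintro _ ⟨v, hv, rfl⟩
  have h1 : (MulAut.conj x) v ∈ ((MulAut.conj x • P : Sylow 2 X) : Subgroup X) := by
    exact ⟨v, hP hv, rfl⟩
  rw [← Sylow.smul_def, hx] at h1
  exact h1

end Cfsg.Agent.Lib.H92DSyl
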