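import Mathlib
import Cfsg.Agent.Lib.H92DDefs
import Cfsg.Agent.Lib.H92DSyl

set_option autoImplicit false

namespace Cfsg.Agent.Lib.H92DFour

open Cfsg.Agent.Lib.H92DDefs DihedralGroup

theorem onto {X : Type*} [Group X] [Finite X] (S : Sylow 2 X) (hS : Nat.card S = 4) (U : Subgroup X)
    (hU : IsKleinFour U) : ∃ x : X, U.map (MulAut.conj x).toMonoidHom = S := by
  obtain ⟨x, hx⟩ := H92DSyl.conj_into S U hU
  refine ⟨x, Subgroup.eq_of_le_of_card_ge hx ?_⟩
  rw [Subgroup.card_map_of_injective (MulAut.conj x).injective, hU.card_four]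
  exact hS.le

/-- if `|S| = 4`, any two Klein four subgroups are conjugate. -/
theorem four {X : Type*} [Group X] [Finite X] (S : Sylow 2 X) (hS : Nat.card S = 4) (U V : Subgroup X)
    (hU : IsKleinFour U) (hV : IsKleinFour V) : ∃ x : X, U.map (MulAut.conj x).toMonoidHom = V := by
  obtain ⟨x, hx⟩ := onto S hS U hU
  obtain ⟨y, hy⟩ := onto S hS V hV
  refine ⟨y⁻¹ * x, ?_⟩
  have h1 : (MulAut.conj (y⁻¹ * x)).toMonoidHom
      = (MulAut.conj y⁻¹).toMonoidHom.comp (MulAut.conj x).toMonoidHom := by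
    ext z; simp [MulAut.conj_apply, mul_assoc]
  rw [h1, ← Subgroup.map_map, hx, ← hy, Subgroup.map_map]
  have h2 : (MulAut.conj y⁻¹).toMonoidHom.comp (MulAut.conj y).toMonoidHom = MonoidHom.id X := by
    ext z; simp [MulAut.conj_apply, mul_assoc]
  rw [h2, Subgroup.map_id]

end Cfsg.Agent.Lib.H92DFour
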