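import Mathlib
import Cfsg.Agent.Lib.H92DDefs
import Cfsg.Agent.Lib.H92DMemW

set_option autoImplicit false

namespace Cfsg.Agent.Lib.H92DNorm

open Cfsg.Agent.Lib.H92DDefs DihedralGroup

/-- if `m = 4 l` then `r l` normalises `W m 0` (it maps `sr 0` to `sr (-2l) = sr (0 + 2l)`, and `C(sr (2l)) = C(sr 0)` by `mem_W` with `n = 2l`)
and `r l ∉ W m 0`. Stated with `map conj`. -/
theorem norm_W (m l : ℕ) (hml : m = 4 * l) (hl : 0 < l) :
    (W m 0).map (MulAut.conj (r (l : ZMod m))).toMonoidHom = W m 0 ∧ r (l : ZMod m) ∉ W m 0 := by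
  have hmem := Cfsg.Agent.Lib.H92DMemW.mem_W m (2 * l) (by omega) (by omega) (0 : ZMod m)
  have hz : (l : ZMod m) + l + l + l = 0 := by
    have h := ZMod.natCast_self m
    rw [hml] at h ⊢
    push_cast at h
    linear_combination h
  have hn : ((2 * l : ℕ) : ZMod m) = (l : ZMod m) + l := by push_cast; ring
  have hl0 : (l : ZMod m) ≠ 0 := by
    intro h
    rw [ZMod.natCast_eq_zero_iff] at h
    have := Nat.le_of_dvd hl h
    omega
  have hc : ∀ h : DihedralGroup m, (MulAut.conj (r (l : ZMod m))).toMonoidHom h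
      = r (l : ZMod m) * h * (r (l : ZMod m))⁻¹ := fun h => rfl
  constructor
  · ext g
    rw [Subgroup.mem_map]
    constructor
    · rintro ⟨h, hh, rfl⟩
      rw [hmem] at hh ⊢
      rw [hc]
      rcases hh with rfl | rfl | rfl | rfl
      · left; simp
      · right; left; simp
      · right; right; right
        rw [r_mul_sr, inv_r, sr_mul_r, hn]
        congr 1
        linear_combination -hz
      · right; right; left
        rw [r_mul_sr, inv_r, sr_mul_r, hn]
        congr 1
        ring
    · intro hg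
      rw [hmem] at hg
      rcases hg with rfl | rfl | rfl | rfl
      · exact ⟨1, one_mem _, by simp⟩
      · exact ⟨r ((2 * l : ℕ) : ZMod m), (hmem _).2 (Or.inr (Or.inl rfl)), by rw [hc]; simp⟩
      · refine ⟨sr (0 + ((2 * l : ℕ) : ZMod m)), (hmem _).2 (Or.inr (Or.inr (Or.inr rfl))), ?_⟩
        rw [hc, r_mul_sr, inv_r, sr_mul_r, hn]
        congr 1
        ring
      · refine ⟨sr 0, (hmem _).2 (Or.inr (Or.inr (Or.inl rfl))), ?_⟩
        rw [hc, r_mul_sr, inv_r, sr_mul_r, hn]
        congr 1
        linear_combination -hz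
  · intro h
    rw [hmem] at h
    rcases h with h | h | h | h
    · rw [one_def] at h
      exact hl0 (r.inj h)
    · have := r.inj h
      rw [hn] at this
      apply hl0
      linear_combination -this
    · cases h
    · cases h

end Cfsg.Agent.Lib.H92DNorm
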