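import Mathlib
import Cfsg.Agent.Lib.H92DDefs

set_option autoImplicit false

namespace Cfsg.Agent.Lib.H92DPhiC

open Cfsg.Agent.Lib.H92DDefs DihedralGroup

/-- `Phi` is injective and turns `D`-conjugacy into `X`-conjugacy (use `mem_Phi`, ext). -/
theorem Phi_inj {X D : Type*} [Group X] [Group D] (S : Subgroup X) (e : S ≃* D) :
    Function.Injective (Phi S e) := by
  intro V V' h
  ext d
  have key : ∀ W : Subgroup D, d ∈ W ↔ ((e.symm d : S) : X) ∈ Phi S e W := by
    intro W
    rw [mem_Phi]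
    constructor
    · intro hd
      exact ⟨(e.symm d).2, by simpa using hd⟩
    · rintro ⟨_, hd⟩
      simpa using hd
  rw [key V, key V', h]

theorem Phi_conj {X D : Type*} [Group X] [Group D] (S : Subgroup X) (e : S ≃* D) (V : Subgroup D) (g : D) :
    Phi S e (V.map (MulAut.conj g).toMonoidHom) =
      (Phi S e V).map (MulAut.conj ((e.symm g : S) : X)).toMonoidHom := by
  ext x
  rw [mem_Phi]
  constructor
  · rintro ⟨hx, v, hv, hvx⟩
    refine ⟨((e.symm v : S) : X), ?_, ?_⟩
    · exact (mem_Phi S e V _).2 ⟨(e.symm v).2, by simpa using hv⟩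
    · have h1 : e.symm (e ⟨x, hx⟩) = e.symm ((MulAut.conj g).toMonoidHom v) := by rw [hvx]
      rw [MulEquiv.symm_apply_apply] at h1
      have h2 : (⟨x, hx⟩ : S) = e.symm g * e.symm v * (e.symm g)⁻¹ := by
        rw [h1]; simp [MulAut.conj_apply]
      have h3 := congrArg (Subtype.val) h2
      simp only [MulEquiv.coe_toMonoidHom, MulAut.conj_apply]
      simpa using h3.symm
  · rintro ⟨y, hy, rfl⟩
    obtain ⟨hyS, hyV⟩ := (mem_Phi S e V y).1 hy
    have hmem : (MulAut.conj ((e.symm g : S) : X)).toMonoidHom y ∈ S := by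
      simp only [MulEquiv.coe_toMonoidHom, MulAut.conj_apply]
      exact S.mul_mem (S.mul_mem (e.symm g).2 hyS) (S.inv_mem (e.symm g).2)
    refine ⟨hmem, e ⟨y, hyS⟩, hyV, ?_⟩
    have h2 : (⟨(MulAut.conj ((e.symm g : S) : X)).toMonoidHom y, hmem⟩ : S)
        = e.symm g * ⟨y, hyS⟩ * (e.symm g)⁻¹ := by
      ext; simp [MulAut.conj_apply]
    rw [h2]
    simp [MulAut.conj_apply]

end Cfsg.Agent.Lib.H92DPhiC
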