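import Mathlib
import Cfsg.Agent.Lib.H92DDefs

set_option autoImplicit false

namespace Cfsg.Agent.Lib.H92DPhiK

open Cfsg.Agent.Lib.H92DDefs DihedralGroup

/-- `Phi` preserves Klein four (there is a `MulEquiv V ≃* Phi S e V`; card and exponent transfer:
`Nat.card_congr`, `Monoid.exponent_eq_of_mulEquiv`). -/
theorem Phi_klein {X D : Type*} [Group X] [Group D] (S : Subgroup X) (e : S ≃* D) (V : Subgroup D)
    (hV : IsKleinFour V) : IsKleinFour (Phi S e V) := by
  have e1 : (V.comap e.toMonoidHom) ≃* Phi S e V :=
    Subgroup.equivMapOfInjective _ S.subtype S.subtype_injective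
  have e2 : (V.comap e.toMonoidHom) ≃* V := by
    have h : (V.comap e.toMonoidHom).map e.toMonoidHom = V :=
      Subgroup.map_comap_eq_self_of_surjective e.surjective V
    exact (Subgroup.equivMapOfInjective _ e.toMonoidHom e.injective).trans (MulEquiv.subgroupCongr h)
  have e3 : V ≃* Phi S e V := e2.symm.trans e1
  exact ⟨by rw [← Nat.card_congr e3.toEquiv]; exact hV.card_four,
    by rw [← Monoid.exponent_eq_of_mulEquiv e3]; exact hV.exponent_two⟩

end Cfsg.Agent.Lib.H92DPhiK
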