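import Mathlib
import Cfsg.Agent.Lib.H92DDefs

set_option autoImplicit false

namespace Cfsg.Agent.Lib.H92DPhiS

open Cfsg.Agent.Lib.H92DDefs DihedralGroup

theorem kleinFour_of_mulEquiv {A B : Type*} [Group A] [Group B] (f : A ≃* B) (hA : IsKleinFour A) :
    IsKleinFour B where
  card_four := by rw [← Nat.card_congr f.toEquiv]; exact hA.card_four
  exponent_two := by rw [← Monoid.exponent_eq_of_mulEquiv f]; exact hA.exponent_two

/-- every Klein four subgroup `U ≤ S` is `Phi S e V` with `V = (U.subgroupOf S).map e` Klein four. -/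
theorem Phi_surj {X D : Type*} [Group X] [Group D] (S : Subgroup X) (e : S ≃* D) (U : Subgroup X)
    (hUS : U ≤ S) (hU : IsKleinFour U) : ∃ V : Subgroup D, IsKleinFour V ∧ Phi S e V = U := by
  refine ⟨(U.subgroupOf S).map e.toMonoidHom, ?_, ?_⟩
  · have f1 : U ≃* (U.subgroupOf S) := (Subgroup.subgroupOfEquivOfLe hUS).symm
    have f2 : (U.subgroupOf S) ≃* ((U.subgroupOf S).map e.toMonoidHom) :=
      (U.subgroupOf S).equivMapOfInjective e.toMonoidHom e.injective
    exact kleinFour_of_mulEquiv (f1.trans f2) hU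
  · ext x
    rw [mem_Phi]
    constructor
    · rintro ⟨hx, y, hy, hyx⟩
      have : y = ⟨x, hx⟩ := e.injective hyx
      subst this
      exact hy
    · intro hx
      exact ⟨hUS hx, ⟨x, hUS hx⟩, hx, rfl⟩

end Cfsg.Agent.Lib.H92DPhiS
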