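import Mathlib
import Cfsg.Agent.Lib.Helper92HHDefs
import Cfsg.Agent.Lib.Helper73HHSc

/-!
# Vocabulary of PROJECT 92G (Gross's theorem on fixed point free automorphisms of order `2^n`)
-/

set_option autoImplicit false

namespace Cfsg.Agent.Lib.Helper92GRDefs

open Polynomial Cfsg.Agent.Lib.Helper92HHDefs Cfsg.Agent.Lib.Helper73HHSc

variable {K V : Type*} [Field K] [AddCommGroup V] [Module K V]

/-- weak Heisenberg pair: `Heis` without freeness. -/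
structure HeisW (q : ℕ) {Q₀ : Type*} [Group Q₀] (ρ : Q₀ →* (Module.End K V)ˣ) (α : MulAut Q₀)
    (Y : (Module.End K V)ˣ) (N : ℕ) : Prop where
  fin : Finite Q₀
  pgrp : IsPGroup q Q₀
  tw : ∀ u, Y * ρ u * Y⁻¹ = ρ (α u)
  pow : Y ^ N = 1
  apow : α ^ N = 1
  comm_sc : ∀ u v, IsSc ((ρ (u * v * u⁻¹ * v⁻¹) : (Module.End K V)ˣ) : Module.End K V)
  nondeg : ∀ b, (∀ g, Commute (ρ b) (ρ g)) → IsSc ((ρ b : (Module.End K V)ˣ) : Module.End K V)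

theorem Heis.toW {q : ℕ} {Q₀ : Type*} [Group Q₀] {ρ : Q₀ →* (Module.End K V)ˣ} {α : MulAut Q₀}
    {Y : (Module.End K V)ˣ} {N : ℕ} (h : Heis q ρ α Y N) : HeisW q ρ α Y N :=
  ⟨h.fin, h.pgrp, h.tw, h.pow, h.apow, h.comm_sc, h.nondeg⟩

/-- The two-step configuration: an `s`-group `D = [D, τ]` acting on a `q`-group `Q = [Q, D]` of class
at most 2, `D` centralising `Q'`, `Q / Z(Q)` of exponent `q`; everything normalised by `X`,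
`X ^ p ^ n = 1`, `τ = X ^ p ^ (n-1)`. -/
structure GrData {Γ : Type*} [Group Γ] (p q s n : ℕ) (Q D : Subgroup Γ) (X : Γ) : Prop where
  finQ : Finite Q
  finD : Finite D
  pQ : IsPGroup q Q
  pD : IsPGroup s D
  normQ : ∀ u ∈ Q, X * u * X⁻¹ ∈ Q
  normD : ∀ d ∈ D, X * d * X⁻¹ ∈ D
  act : ∀ d ∈ D, ∀ u ∈ Q, d * u * d⁻¹ ∈ Q
  pow : X ^ p ^ n = 1
  npos : 1 ≤ n
  cl2 : ∀ u ∈ Q, ∀ v ∈ Q, ∀ w ∈ Q, Commute (u * v * u⁻¹ * v⁻¹) w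
  expq : ∀ u ∈ Q, ∀ w ∈ Q, Commute (u ^ q) w
  dcen : ∀ d ∈ D, ∀ u ∈ Q, ∀ v ∈ Q, Commute d (u * v * u⁻¹ * v⁻¹)
  genQ : Q ≤ Subgroup.closure {w | ∃ d ∈ D, ∃ u ∈ Q, w = d * u * d⁻¹ * u⁻¹}
  genD : D ≤ Subgroup.closure
    {w | ∃ d ∈ D, w = X ^ p ^ (n - 1) * d * (X ^ p ^ (n - 1))⁻¹ * d⁻¹}
  ne : ∃ u ∈ Q, u ≠ 1

/-- `C_U(Q') = 0`. -/
def NoFixC (Q : Subgroup (Module.End K V)ˣ) (U : Submodule K V) : Prop :=
  ∀ v ∈ U, (∀ u ∈ Q, ∀ w ∈ Q,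
    ((u * w * u⁻¹ * w⁻¹ : (Module.End K V)ˣ) : Module.End K V) v = v) → v = 0

/-- a chain of normal subgroups of length `m` with nilpotent factors. -/
def HasChain (m : ℕ) (G : Type*) [Group G] : Prop :=
  ∃ F : Fin (m + 1) → Subgroup G, F 0 = ⊥ ∧ F (Fin.last m) = ⊤ ∧ Monotone F ∧
    (∀ i, (F i).Normal) ∧
    ∀ i : Fin m, ∃ k : ℕ, (F i.succ).lowerCentralSeries k ≤ F i.castSucc

end Cfsg.Agent.Lib.Helper92GRDefs
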