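import Mathlib
import Cfsg.Agent.Lib.Helper92HHDefs
import Cfsg.Agent.Lib.Helper92GRDefs

set_option autoImplicit false

namespace Cfsg.Agent.Lib.H92GREStep1

open Polynomial Cfsg.Agent.Lib.Helper92HHDefs Cfsg.Agent.Lib.Helper92GRDefs Cfsg.Agent.Lib.Helper73HHSc

variable {K V : Type*} [Field K] [AddCommGroup V] [Module K V]

theorem mem_normalizer_of_finite {Γ : Type*} [Group Γ] (R : Subgroup Γ) [Finite R] (g : Γ)
    (h : ∀ r ∈ R, g * r * g⁻¹ ∈ R) : g ∈ Subgroup.normalizer (R : Set Γ) := by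
  rw [Subgroup.mem_normalizer_iff]
  intro r
  refine ⟨h r, fun hr => ?_⟩
  let f : R → R := fun x => ⟨g * x.1 * g⁻¹, h x.1 x.2⟩
  have hinj : Function.Injective f := by
    intro x y hxy
    have := congrArg Subtype.val hxy
    simp only [f] at this
    exact Subtype.ext (by simpa using this)
  have hsurj := Finite.injective_iff_surjective.1 hinj
  obtain ⟨x, hx⟩ := hsurj ⟨_, hr⟩
  have := congrArg Subtype.val hx
  simp only [f] at this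
  have e : x.1 = r := by simpa using this
  rw [← e]; exact x.2

/-- the kernel of the action on `Q / R`. -/
def kerQR {Γ : Type*} [Group Γ] (Q R : Subgroup Γ) : Subgroup Γ where
  carrier := {g | g ∈ Subgroup.normalizer (Q : Set Γ) ∧ g ∈ Subgroup.normalizer (R : Set Γ) ∧
    ∀ u ∈ Q, g * u * g⁻¹ * u⁻¹ ∈ R}
  one_mem' := ⟨one_mem _, one_mem _, fun u _ => by simp⟩
  mul_mem' := by
    rintro g h ⟨g1, g2, g3⟩ ⟨h1, h2, h3⟩
    refine ⟨mul_mem g1 h1, mul_mem g2 h2, fun u hu => ?_⟩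
    have a1 := (Subgroup.mem_normalizer_iff.1 g2 _).1 (h3 u hu)
    have a2 := g3 u hu
    have e : g * h * u * (g * h)⁻¹ * u⁻¹ = g * (h * u * h⁻¹ * u⁻¹) * g⁻¹ * (g * u * g⁻¹ * u⁻¹) := by
      group
    rw [e]; exact mul_mem a1 a2
  inv_mem' := by
    rintro g ⟨g1, g2, g3⟩
    refine ⟨inv_mem g1, inv_mem g2, fun u hu => ?_⟩
    have hu' : g⁻¹ * u * g⁻¹⁻¹ ∈ Q := (Subgroup.mem_normalizer_iff.1 (inv_mem g1) _).1 hu
    have a1 := inv_mem (g3 _ hu')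
    have e : (g * (g⁻¹ * u * g⁻¹⁻¹) * g⁻¹ * (g⁻¹ * u * g⁻¹⁻¹)⁻¹)⁻¹ = g⁻¹ * u * g⁻¹⁻¹ * u⁻¹ := by
      group
    rw [e] at a1; exact a1

theorem kerQR_conj {Γ : Type*} [Group Γ] (Q R : Subgroup Γ) (d t : Γ)
    (d1 : d ∈ Subgroup.normalizer (Q : Set Γ)) (d2 : d ∈ Subgroup.normalizer (R : Set Γ))
    (ht : t ∈ kerQR Q R) : d * t * d⁻¹ ∈ kerQR Q R := by
  obtain ⟨t1, t2, t3⟩ := ht
  refine ⟨mul_mem (mul_mem d1 t1) (inv_mem d1), mul_mem (mul_mem d2 t2) (inv_mem d2),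
    fun u hu => ?_⟩
  have hu' : d⁻¹ * u * d⁻¹⁻¹ ∈ Q := (Subgroup.mem_normalizer_iff.1 (inv_mem d1) _).1 hu
  have a1 := (Subgroup.mem_normalizer_iff.1 d2 _).1 (t3 _ hu')
  have e : d * (t * (d⁻¹ * u * d⁻¹⁻¹) * t⁻¹ * (d⁻¹ * u * d⁻¹⁻¹)⁻¹) * d⁻¹
      = d * t * d⁻¹ * u * (d * t * d⁻¹)⁻¹ * u⁻¹ := by group
  rw [e] at a1; exact a1


/-- PIECE EStep1 (pure group theory).  `τ = X^(p^(n-1))` acts nontrivially on `Q / R`.
Suppose `τ u τ⁻¹ u⁻¹ ∈ R` for all `u ∈ Q`.  Let `𝒩` = the elements `g` such that `g` and `g⁻¹` normalise `Q` and `R` (a subgroup; contains `D`, `X^(p^a)` and its powers, in particular `τ = (X^(p^a))^(p^(n-a-1))`), and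
`T = {g ∈ 𝒩 | ∀ u ∈ Q, g u g⁻¹ u⁻¹ ∈ R}`, a NORMAL subgroup of `𝒩` (kernel of the action on `Q/R`; `R` is normal in `Q`).  `τ ∈ T`, so `τ d τ⁻¹ d⁻¹ = τ (d τ⁻¹ d⁻¹) ∈ T` for `d ∈ D`; by `genD`, `D ≤ T`; by `genQ`, `Q ≤ R`. -/
theorem estep1 {Γ : Type*} [Group Γ] (p q s n : ℕ) (Q D : Subgroup Γ) (X : Γ)
    (hG : GrData p q s n Q D X) (a : ℕ) (ha : a < n) (R : Subgroup Γ) (hRQ : R ≤ Q)
    (hQR : ∀ u ∈ Q, ∀ r ∈ R, u * r * u⁻¹ ∈ R) (hDR : ∀ d ∈ D, ∀ r ∈ R, d * r * d⁻¹ ∈ R)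
    (hYR : ∀ r ∈ R, X ^ p ^ a * r * (X ^ p ^ a)⁻¹ ∈ R) (hne : ∃ u ∈ Q, u ∉ R) :
    ∃ u ∈ Q, X ^ p ^ (n - 1) * u * (X ^ p ^ (n - 1))⁻¹ * u⁻¹ ∉ R := by
  by_contra hcon
  push Not at hcon
  have := hG.finQ
  have : Finite R := Finite.of_injective (Subgroup.inclusion hRQ) (Subgroup.inclusion_injective hRQ)
  have hXQ : X ∈ Subgroup.normalizer (Q : Set Γ) := mem_normalizer_of_finite Q X hG.normQ
  have hYR' : X ^ p ^ a ∈ Subgroup.normalizer (R : Set Γ) := mem_normalizer_of_finite R _ hYR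
  have hτ : X ^ p ^ (n - 1) = (X ^ p ^ a) ^ p ^ (n - 1 - a) := by
    rw [← pow_mul, ← pow_add]
    congr 2
    omega
  have hτQ : X ^ p ^ (n - 1) ∈ Subgroup.normalizer (Q : Set Γ) := pow_mem hXQ _
  have hτR : X ^ p ^ (n - 1) ∈ Subgroup.normalizer (R : Set Γ) := by
    rw [hτ]; exact pow_mem hYR' _
  have hτT : X ^ p ^ (n - 1) ∈ kerQR Q R := ⟨hτQ, hτR, hcon⟩
  have hDQ : ∀ d ∈ D, d ∈ Subgroup.normalizer (Q : Set Γ) :=
    fun d hd => mem_normalizer_of_finite Q d (hG.act d hd)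
  have hDR' : ∀ d ∈ D, d ∈ Subgroup.normalizer (R : Set Γ) :=
    fun d hd => mem_normalizer_of_finite R d (hDR d hd)
  have hDT : D ≤ kerQR Q R := by
    refine hG.genD.trans ?_
    rw [Subgroup.closure_le]
    rintro w ⟨d, hd, rfl⟩
    have h1 := kerQR_conj Q R d _ (hDQ d hd) (hDR' d hd) (inv_mem hτT)
    have h2 := mul_mem hτT h1
    have e : X ^ p ^ (n - 1) * (d * (X ^ p ^ (n - 1))⁻¹ * d⁻¹)
        = X ^ p ^ (n - 1) * d * (X ^ p ^ (n - 1))⁻¹ * d⁻¹ := by group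
    rw [e] at h2; exact h2
  have hQR' : Q ≤ R := by
    refine hG.genQ.trans ?_
    rw [Subgroup.closure_le]
    rintro w ⟨d, hd, u, hu, rfl⟩
    exact (hDT hd).2.2 u hu
  obtain ⟨u, hu, hu'⟩ := hne
  exact hu' (hQR' hu)

end Cfsg.Agent.Lib.H92GREStep1
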