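import Mathlib
import Cfsg.Agent.Lib.Helper92HHDefs
import Cfsg.Agent.Lib.Helper92GRDefs

set_option autoImplicit false

namespace Cfsg.Agent.Lib.H92GREArith

open Polynomial Cfsg.Agent.Lib.Helper92HHDefs Cfsg.Agent.Lib.Helper92GRDefs Cfsg.Agent.Lib.Helper73HHSc

variable {K V : Type*} [Field K] [AddCommGroup V] [Module K V]

/-- PIECE EArith (pure number theory).  `q ≥ 3`, so `3^j ≤ (2^k - 1)² < 4^k ≤ 9^k`, `j < 2k`, `j + 1 ≤ 2k`.
First alternative: `2^k ≤ 2k` forces `k ≤ 2`; `k = 1`: `q^j = 1`, `j = 0`, `2 ≤ 1`; `k = 2`: `q^j = 9`, `j ≤ 2`, `4 ≤ 3`.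
Second: `n₀ = 1` gives `s^m = 1`, impossible; `n₀ ≥ 2`: `2^(k-n₀) (2^n₀ - 1) = 2^k - 2^(k-n₀) ≥ 3·2^(k-2)`, so `3·2^(k-2) ≤ 2k`, `k ≤ 3`.  `k = 3`: `q^j = 49`, `q = 7`, `j = 2`, `6 ≤ 3` false.
`k = 2`: `n₀ = 2`, `s^m = 3`, `s = 3`; `q^j = 9`, `3 ≤ j + 1`, so `j = 2`, `q = 3 = s`.  Contradiction. -/
theorem earith (q s k j : ℕ) (hq : q.Prime) (hq2 : q ≠ 2) (hs : s.Prime) (hsq : s ≠ q)
    (hk : 1 ≤ k) (h : (2 ^ k - 1) ^ 2 = q ^ j)
    (h2 : 2 ^ k ≤ j + 1 ∨ ∃ n₀ m : ℕ, 1 ≤ n₀ ∧ n₀ ≤ k ∧ 1 ≤ m ∧ 2 ^ n₀ - 1 = s ^ m ∧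
      2 ^ (k - n₀) * (2 ^ n₀ - 1) ≤ j + 1) : False := by
  have hq3 : 3 ≤ q := by
    have := hq.two_le
    omega
  have hpos : 1 ≤ 2 ^ k := Nat.one_le_two_pow
  have hj : j + 1 ≤ 2 * k := by
    have h1 : 3 ^ j ≤ q ^ j := Nat.pow_le_pow_left hq3 j
    have h2 : (2 ^ k - 1) ^ 2 < (2 ^ k) ^ 2 := Nat.pow_lt_pow_left (by omega) (by norm_num)
    have h3 : (2 ^ k) ^ 2 ≤ 3 ^ (2 * k) := by
      rw [← pow_mul, mul_comm k 2]
      exact Nat.pow_le_pow_left (by norm_num) _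
    have h4 : 3 ^ j < 3 ^ (2 * k) := by omega
    exact (Nat.pow_lt_pow_iff_right (by norm_num)).mp h4
  have hbig : ∀ k, 5 ≤ k → 2 * k < 2 ^ (k - 1) := by
    intro k hk
    induction k, hk using Nat.le_induction with
    | base => norm_num
    | succ n hn ih =>
      have : 2 ^ (n + 1 - 1) = 2 * 2 ^ (n - 1) := by
        rw [← pow_succ']
        congr 1
        omega
      omega
  have hqj : ∀ j', j' ≤ j → 3 ^ j' ≤ q ^ j := fun j' hj' =>
    (Nat.pow_le_pow_right (by norm_num) hj').trans (Nat.pow_le_pow_left hq3 j)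
  rcases h2 with h2 | ⟨n₀, m, hn1, hnk, hm, hsm, h2⟩
  · have hk4 : k ≤ 4 := by
      by_contra hcon
      have h5 := hbig k (by omega)
      have h6 : 2 ^ (k - 1) ≤ 2 ^ k := Nat.pow_le_pow_right (by norm_num) (by omega)
      omega
    interval_cases k
    · have h7 := hqj 1 (by omega)
      norm_num at h h7
      omega
    · have h7 := hqj 3 (by omega)
      norm_num at h h7
      omega
    · norm_num at h2
      omega
    · norm_num at h2
      omega
  · have hs2 : 2 ≤ s ^ m := by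
      calc 2 ≤ s := hs.two_le
        _ = s ^ 1 := (pow_one s).symm
        _ ≤ s ^ m := Nat.pow_le_pow_right hs.pos hm
    have hk4 : k ≤ 4 := by
      by_contra hcon
      have h5 := hbig k (by omega)
      have h6 : 2 ^ (n₀ - 1) ≤ 2 ^ n₀ - 1 := by
        have : 2 ^ n₀ = 2 * 2 ^ (n₀ - 1) := by
          rw [← pow_succ']
          congr 1
          omega
        have : 1 ≤ 2 ^ (n₀ - 1) := Nat.one_le_two_pow
        omega
      have h7 : 2 ^ (k - 1) ≤ 2 ^ (k - n₀) * (2 ^ n₀ - 1) := by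
        calc 2 ^ (k - 1) = 2 ^ (k - n₀) * 2 ^ (n₀ - 1) := by
              rw [← pow_add]
              congr 1
              omega
          _ ≤ 2 ^ (k - n₀) * (2 ^ n₀ - 1) := Nat.mul_le_mul_left _ h6
      omega
    interval_cases k <;> interval_cases n₀ <;> norm_num at h2 hsm hj <;> try omega
    · -- `k = 2`, `n₀ = 2`
      have hs3 : s = 3 := by
        have : s ∣ 3 := by
          rw [hsm]
          exact dvd_pow_self s (by omega)
        exact (Nat.prime_dvd_prime_iff_eq hs Nat.prime_three).mp this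
      have hj2 : j = 2 ∨ j = 3 := by omega
      rcases hj2 with rfl | rfl
      · have hq3' : q = 3 := by
          norm_num at h
          nlinarith
        exact hsq (hs3.trans hq3'.symm)
      · have h7 := hqj 3 le_rfl
        norm_num at h h7
        omega
    · -- `k = 3`
      have h7 := hqj 5 (by omega)
      norm_num at h h7
      omega

end Cfsg.Agent.Lib.H92GREArith
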