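import Mathlib
import Cfsg.Agent.Lib.Helper92HHDefs
import Cfsg.Agent.Lib.Helper92GRDefs

set_option autoImplicit false

namespace Cfsg.Agent.Lib.H92GRQAct

open Polynomial Cfsg.Agent.Lib.Helper92HHDefs Cfsg.Agent.Lib.Helper92GRDefs Cfsg.Agent.Lib.Helper73HHSc

variable {K V : Type*} [Field K] [AddCommGroup V] [Module K V]

/-- conjugation by `g` on `↥Q` -/
def cjHom {Γ : Type*} [Group Γ] (Q : Subgroup Γ) (g : Γ) (h : ∀ u ∈ Q, g * u * g⁻¹ ∈ Q) : ↥Q →* ↥Q where
  toFun u := ⟨g * u * g⁻¹, h u u.2⟩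
  map_one' := by ext; simp
  map_mul' a b := by ext; simp [mul_assoc]

/-- PIECE QAct (plumbing, pure group theory).  The elementary abelian quotient `E = Q / R` with the conjugation action of a subgroup `𝒩` normalising `Q` and `R`.
`E = ↥Q ⧸ R.subgroupOf Q` (normal: `u r u⁻¹ = (u r u⁻¹ r⁻¹) r`), `CommGroup` from `hab`, `π = QuotientGroup.mk'`; `φ g = QuotientGroup.congr _ _ (conjugation by g on ↥Q) _` (inverse from `g⁻¹ ∈ 𝒩`). -/
theorem exists_act.{u} {Γ : Type u} [Group Γ] (q : ℕ) (Q R 𝒩 : Subgroup Γ) [Finite Q]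
    (hRQ : R ≤ Q) (hab : ∀ u ∈ Q, ∀ v ∈ Q, u * v * u⁻¹ * v⁻¹ ∈ R) (hexp : ∀ u ∈ Q, u ^ q ∈ R)
    (hNQ : ∀ g ∈ 𝒩, ∀ u ∈ Q, g * u * g⁻¹ ∈ Q) (hNR : ∀ g ∈ 𝒩, ∀ r ∈ R, g * r * g⁻¹ ∈ R) :
    ∃ (E : Type u) (_ : CommGroup E) (_ : Finite E) (π : ↥Q →* E) (φ : ↥𝒩 →* MulAut E),
      Function.Surjective π ∧ (∀ u, π u = 1 ↔ (u : Γ) ∈ R) ∧ (∀ e : E, e ^ q = 1) ∧
      ∀ (g : ↥𝒩) (u u' : ↥Q), (u' : Γ) = g * u * (g : Γ)⁻¹ → φ g (π u) = π u' := by
  have hn : (R.subgroupOf Q).Normal := by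
    refine ⟨fun r hr u => ?_⟩
    rw [Subgroup.mem_subgroupOf] at hr ⊢
    have h1 := hab u u.2 r r.2
    have h2 := R.mul_mem h1 hr
    simpa using h2
  let cg : CommGroup (↥Q ⧸ R.subgroupOf Q) :=
    { (QuotientGroup.Quotient.group (R.subgroupOf Q)) with
      mul_comm := by
        intro a b
        induction a using QuotientGroup.induction_on with
        | H a =>
        induction b using QuotientGroup.induction_on with
        | H b =>
        rw [← QuotientGroup.mk_mul, ← QuotientGroup.mk_mul, QuotientGroup.eq,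
          Subgroup.mem_subgroupOf]
        have h1 := hab (b⁻¹ : Q) (b⁻¹ : Q).2 (a⁻¹ : Q) (a⁻¹ : Q).2
        simpa [mul_assoc] using h1 }
  have hle : ∀ g : ↥𝒩, R.subgroupOf Q ≤
      (R.subgroupOf Q).comap (cjHom Q (g : Γ) (hNQ g g.2)) := by
    intro g r hr
    rw [Subgroup.mem_comap, Subgroup.mem_subgroupOf]
    exact hNR g g.2 r hr
  let act : MulDistribMulAction ↥𝒩 (↥Q ⧸ R.subgroupOf Q) :=
    { smul := fun g e => QuotientGroup.map _ _ (cjHom Q (g : Γ) (hNQ g g.2)) (hle g) e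
      one_smul := by
        intro e
        induction e using QuotientGroup.induction_on with
        | H e =>
        show QuotientGroup.map _ _ (cjHom Q ((1 : ↥𝒩) : Γ) _) _ (e : ↥Q ⧸ R.subgroupOf Q) = _
        rw [QuotientGroup.map_mk]
        congr 1
        ext
        simp [cjHom]
      mul_smul := by
        intro g h e
        induction e using QuotientGroup.induction_on with
        | H e =>
        show QuotientGroup.map _ _ (cjHom Q ((g * h : ↥𝒩) : Γ) _) _ (e : ↥Q ⧸ R.subgroupOf Q) =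
          QuotientGroup.map _ _ (cjHom Q (g : Γ) _) _
            (QuotientGroup.map _ _ (cjHom Q (h : Γ) _) _ (e : ↥Q ⧸ R.subgroupOf Q))
        rw [QuotientGroup.map_mk, QuotientGroup.map_mk, QuotientGroup.map_mk]
        congr 1
        ext
        simp [cjHom, mul_assoc]
      smul_mul := fun g a b => map_mul (QuotientGroup.map _ _ (cjHom Q (g : Γ) (hNQ g g.2)) (hle g)) a b
      smul_one := fun g => map_one (QuotientGroup.map _ _ (cjHom Q (g : Γ) (hNQ g g.2)) (hle g)) }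
  refine ⟨↥Q ⧸ R.subgroupOf Q, cg, inferInstance, QuotientGroup.mk' _,
    MulDistribMulAction.toMulAut ↥𝒩 (↥Q ⧸ R.subgroupOf Q), QuotientGroup.mk'_surjective _, ?_, ?_, ?_⟩
  · intro u
    show (QuotientGroup.mk u : ↥Q ⧸ R.subgroupOf Q) = 1 ↔ _
    rw [QuotientGroup.eq_one_iff, Subgroup.mem_subgroupOf]
  · intro e
    induction e using QuotientGroup.induction_on with
    | H e =>
    have : ((e ^ q : ↥Q) : ↥Q ⧸ R.subgroupOf Q) = 1 := by
      rw [QuotientGroup.eq_one_iff, Subgroup.mem_subgroupOf]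
      simpa using hexp e e.2
    exact this
  · intro g u u' h
    show QuotientGroup.map _ _ (cjHom Q (g : Γ) (hNQ g g.2)) (hle g) (u : ↥Q ⧸ R.subgroupOf Q) = _
    rw [QuotientGroup.map_mk]
    show _ = (QuotientGroup.mk u' : ↥Q ⧸ R.subgroupOf Q)
    congr 1
    ext
    simp [cjHom, h]

end Cfsg.Agent.Lib.H92GRQAct
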