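import Mathlib
import Cfsg.Agent.Lib.Helper92HHDefs
import Cfsg.Agent.Lib.Helper92GRDefs

set_option autoImplicit false

namespace Cfsg.Agent.Lib.H92GRLinA

open Polynomial Cfsg.Agent.Lib.Helper92HHDefs Cfsg.Agent.Lib.Helper92GRDefs Cfsg.Agent.Lib.Helper73HHSc

variable {K V : Type*} [Field K] [AddCommGroup V] [Module K V]

theorem pow_res' {F W : Type*} [Field F] [AddCommGroup W] [Module F W]
    (Z : Module.End F W) (U : Submodule F W) (Y : Module.End F ↥U)
    (h : ∀ u : ↥U, ((Y u : ↥U) : W) = Z (u : W)) (n : ℕ) (u : ↥U) :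
    (((Y ^ n) u : ↥U) : W) = (Z ^ n) (u : W) := by
  induction n generalizing u with
  | zero => simp
  | succ n ih => rw [pow_succ, pow_succ, Module.End.mul_apply, Module.End.mul_apply, ih, h]

theorem aeval_res' {F W : Type*} [Field F] [AddCommGroup W] [Module F W]
    (Z : Module.End F W) (U : Submodule F W) (Y : Module.End F ↥U)
    (h : ∀ u : ↥U, ((Y u : ↥U) : W) = Z (u : W)) (f : F[X]) (u : ↥U) :
    ((aeval Y f u : ↥U) : W) = aeval Z f (u : W) := by
  induction f using Polynomial.induction_on' with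
  | add p q hp hq => simp [map_add, hp, hq]
  | monomial n a =>
    rw [aeval_monomial, aeval_monomial, Module.End.mul_apply, Module.End.mul_apply,
      Module.algebraMap_end_apply, Module.algebraMap_end_apply, Submodule.coe_smul,
      pow_res' Z U Y h]

/-- PIECE LinA (pure Mathlib).  An operator `T` with `rank (T - 1) ≤ j` is killed by a monic polynomial of degree `≤ j + 1`.
`W = range (T - 1)` is `T`-invariant; `g = charpoly (T.restrict _)` on `W`, monic of degree `finrank W ≤ j`, `g(T) = 0` on `W` (`LinearMap.aeval_self_charpoly`, `Module.End.aeval_restrict_apply`-type lemma or `H92HHRes.aeval_res`);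
`f = g * (X - 1)`: `aeval T f = aeval T g ∘ (T - 1) = 0`. -/
theorem exists_poly {F W : Type*} [Field F] [AddCommGroup W] [Module F W] [FiniteDimensional F W]
    (T : Module.End F W) (j : ℕ) (h : Module.finrank F (LinearMap.range (T - 1)) ≤ j) :
    ∃ f : F[X], f.Monic ∧ f.natDegree ≤ j + 1 ∧ aeval T f = 0 := by
  classical
  set R : Submodule F W := LinearMap.range (T - 1) with hR
  have hinv : ∀ u ∈ R, T u ∈ R := by
    rintro _ ⟨w, rfl⟩
    refine ⟨T w, ?_⟩
    simp [LinearMap.sub_apply, map_sub]
  let Y : Module.End F ↥R := T.restrict hinv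
  have hY : ∀ u : ↥R, ((Y u : ↥R) : W) = T (u : W) := fun u => rfl
  let g : F[X] := Y.charpoly
  have hgm : g.Monic := LinearMap.charpoly_monic Y
  have hgd : g.natDegree = Module.finrank F ↥R := LinearMap.charpoly_natDegree Y
  have hg0 : aeval Y g = 0 := LinearMap.aeval_self_charpoly Y
  refine ⟨g * (X - 1), hgm.mul (monic_X_sub_C (1 : F) |> fun h => by simpa using h), ?_, ?_⟩
  · have h1 : (X - 1 : F[X]).natDegree = 1 := by
      have := natDegree_X_sub_C (1 : F)
      simpa using this
    calc (g * (X - 1)).natDegree ≤ g.natDegree + (X - 1 : F[X]).natDegree := natDegree_mul_le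
      _ ≤ j + 1 := by rw [h1, hgd]; omega
  · apply LinearMap.ext
    intro w
    rw [map_mul, Module.End.mul_apply]
    have h2 : aeval T (X - 1 : F[X]) w = (T - 1) w := by simp
    rw [h2]
    have h3 := aeval_res' T R Y hY g ⟨(T - 1) w, ⟨w, rfl⟩⟩
    rw [hg0] at h3
    simpa using h3.symm

end Cfsg.Agent.Lib.H92GRLinA
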