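import Mathlib
import Cfsg.Agent.Lib.Helper92HHDefs
import Cfsg.Agent.Lib.Helper92GRDefs
import Cfsg.Agent.Lib.H92GRLinA
import Cfsg.Agent.Lib.H92HHLin
import Cfsg.Agent.Lib.H92HHBase

set_option autoImplicit false

namespace Cfsg.Agent.Lib.H92GRLin2

open Polynomial Cfsg.Agent.Lib.Helper92HHDefs Cfsg.Agent.Lib.Helper92GRDefs Cfsg.Agent.Lib.Helper73HHSc

variable {K V : Type*} [Field K] [AddCommGroup V] [Module K V]

theorem aeval_base {F W : Type*} [Field F] [AddCommGroup W] [Module F W]
    {K : Type*} [Field K] [Algebra F K] {d : ℕ}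
    (Φ : Module.End F W →+* Module.End K (Fin d → K))
    (hΦc : ∀ c : F, Φ (c • (1 : Module.End F W)) = (algebraMap F K c) • (1 : Module.End K (Fin d → K)))
    (T : Module.End F W) (f : F[X]) :
    aeval (Φ T) (f.map (algebraMap F K)) = Φ (aeval T f) := by
  induction f using Polynomial.induction_on' with
  | add p q hp hq => rw [Polynomial.map_add, map_add, map_add, map_add, hp, hq]
  | monomial n a =>
    rw [Polynomial.map_monomial, aeval_monomial, aeval_monomial, map_mul, map_pow]
    congr 1
    rw [Algebra.algebraMap_eq_smul_one (A := Module.End F W), hΦc,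
      Algebra.algebraMap_eq_smul_one (A := Module.End K (Fin d → K))]

theorem exists_lin2_aux (r : ℕ) [Fact r.Prime] (A : Type*) [CommGroup A] [Finite A]
    [Module (ZMod r) (Additive A)] (K : Type*) [Field K] [CharP K r] :
    ∃ (d : ℕ) (L : MulAut A →* (Module.End K (Fin d → K))ˣ), Function.Injective L ∧
      ∀ (x : MulAut A) (B : Subgroup A) (j : ℕ), (∀ v : A, x v * v⁻¹ ∈ B) → Nat.card B = r ^ j →
        ∀ t : ℕ, minDegOn ((L x : (Module.End K (Fin d → K))ˣ) : Module.End K (Fin d → K)) ⊤ t →
          t ≤ j + 1 := by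
  classical
  letI : Algebra (ZMod r) K := ZMod.algebra K r
  haveI : Module.Finite (ZMod r) (Additive A) := Module.Finite.of_finite
  obtain ⟨d, Φ, hΦ, hΦc⟩ := Cfsg.Agent.Lib.H92HHBase.exists_base (F := ZMod r) (V := Additive A) K
  let ρ₀ : MulAut A →* Module.End (ZMod r) (Additive A) :=
    { toFun := fun h => AddMonoidHom.toZModLinearMap r (MonoidHom.toAdditive h.toMonoidHom)
      map_one' := by
        apply LinearMap.ext; intro x
        simp
      map_mul' := by
        intro g h
        apply LinearMap.ext; intro x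
        simp }
  have hρ₀ : ∀ (h : MulAut A) (v : Additive A), ρ₀ h v = Additive.ofMul (h v.toMul) := fun _ _ => rfl
  let M : MulAut A →* Module.End K (Fin d → K) := Φ.toMonoidHom.comp ρ₀
  have hM : ∀ x, M x = Φ (ρ₀ x) := fun _ => rfl
  have hMinj : Function.Injective M := by
    intro g h hgh
    have h1 : ρ₀ g = ρ₀ h := hΦ hgh
    ext v
    have := congrArg (fun f : Module.End (ZMod r) (Additive A) => (f (Additive.ofMul v)).toMul) h1
    simpa [hρ₀] using this
  refine ⟨d, M.toHomUnits, ?_, ?_⟩
  · intro g h hgh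
    apply hMinj
    have := congrArg (fun u : (Module.End K (Fin d → K))ˣ => (u : Module.End K (Fin d → K))) hgh
    simpa using this
  · intro x B j hB hcard t ht
    have h1 : ((M.toHomUnits x : (Module.End K (Fin d → K))ˣ) : Module.End K (Fin d → K)) = Φ (ρ₀ x) := rfl
    rw [h1] at ht
    let B' : Submodule (ZMod r) (Additive A) :=
      AddSubgroup.toZModSubmodule r (Subgroup.toAddSubgroup B)
    have hmem : ∀ v : Additive A, v ∈ B' ↔ v.toMul ∈ B := fun v => Iff.rfl
    have hrange : LinearMap.range (ρ₀ x - 1) ≤ B' := by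
      rintro _ ⟨v, rfl⟩
      rw [hmem]
      have := hB v.toMul
      rw [LinearMap.sub_apply, hρ₀]
      simpa [div_eq_mul_inv] using this
    have hcB : Nat.card B' = Nat.card B := rfl
    have hfr : Module.finrank (ZMod r) B' = j := by
      have h2 := Module.natCard_eq_pow_finrank (K := ZMod r) (V := B')
      rw [hcB, hcard, Nat.card_zmod] at h2
      exact (Nat.pow_right_injective (Fact.out : r.Prime).two_le h2).symm
    have h3 : Module.finrank (ZMod r) (LinearMap.range (ρ₀ x - 1)) ≤ j :=
      (Submodule.finrank_mono hrange).trans_eq hfr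
    obtain ⟨f, hfm, hfd, hf0⟩ := Cfsg.Agent.Lib.H92GRLinA.exists_poly (ρ₀ x) j h3
    have hf'm : (f.map (algebraMap (ZMod r) K)).Monic := hfm.map _
    have hdeg : (f.map (algebraMap (ZMod r) K)).natDegree = f.natDegree := hfm.natDegree_map _
    have h4 := ht (f.map (algebraMap (ZMod r) K)) hf'm.ne_zero (fun u _ => by
      rw [aeval_base Φ hΦc, hf0, map_zero]; rfl)
    omega

/-- PIECE Lin2.  Linearisation of `MulAut A` with a rank clause. -/
theorem exists_lin2 (r : ℕ) [Fact r.Prime] (A : Type*) [CommGroup A] [Finite A]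
    (hA : ∀ x : A, x ^ r = 1) (K : Type*) [Field K] [CharP K r] :
    ∃ (d : ℕ) (L : MulAut A →* (Module.End K (Fin d → K))ˣ), Function.Injective L ∧
      ∀ (x : MulAut A) (B : Subgroup A) (j : ℕ), (∀ v : A, x v * v⁻¹ ∈ B) → Nat.card B = r ^ j →
        ∀ t : ℕ, minDegOn ((L x : (Module.End K (Fin d → K))ˣ) : Module.End K (Fin d → K)) ⊤ t →
          t ≤ j + 1 := by
  letI : Module (ZMod r) (Additive A) := AddCommGroup.zmodModule (n := r) (fun x => by
    induction x using Additive.rec with
    | _ x => rw [← ofMul_pow, hA]; rfl)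
  exact exists_lin2_aux r A K

end Cfsg.Agent.Lib.H92GRLin2
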