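import Mathlib
import Cfsg.Agent.Lib.Helper92HHDefs
import Cfsg.Agent.Lib.Helper92GRDefs
import Cfsg.Agent.Lib.H92GRLin2
import Cfsg.Agent.Lib.H92HHKey

set_option autoImplicit false

namespace Cfsg.Agent.Lib.H92GRSmallComm

open Polynomial Cfsg.Agent.Lib.Helper92HHDefs Cfsg.Agent.Lib.Helper92GRDefs Cfsg.Agent.Lib.Helper73HHSc

variable {K V : Type*} [Field K] [AddCommGroup V] [Module K V]

/-- PIECE SmallComm.  An automorphism `y` of `p`-power order of an elementary abelian `q`-group `E`, normalising an `s`-group `Db` of automorphisms not centralised by `y^(p^(k-1))`, has a large commutator `[E, y]`.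
`K = AlgebraicClosure (ZMod q)` (`CharP K q`; `(s : K) ≠ 0` since `s ≠ q`), `L` from `Lin2.exists_lin2`; `H92HHKey.key` with `p`, `q := s`, `n := k`, `Q := Db.map L` (finite, an `s`-group), `X := L y`
(non-commutation is preserved by the injective `L`); both alternatives give `minDegOn (L y) ⊤ t`, and the rank clause gives `t ≤ j + 1`. -/
theorem small_comm (p q s k : ℕ) [Fact p.Prime] [Fact q.Prime] [Fact s.Prime] (hps : p ≠ s)
    (hsq : s ≠ q) (hk : 1 ≤ k) (E : Type*) [CommGroup E] [Finite E] (hE : ∀ e : E, e ^ q = 1)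
    (y : MulAut E) (hy : y ^ p ^ k = 1) (Db : Subgroup (MulAut E)) (hD : IsPGroup s Db)
    (hn : ∀ d ∈ Db, y * d * y⁻¹ ∈ Db) (hne : ∃ d ∈ Db, ¬ Commute (y ^ p ^ (k - 1)) d)
    (B : Subgroup E) (hB : ∀ e, y e * e⁻¹ ∈ B) (j : ℕ) (hj : Nat.card B = q ^ j) :
    p ^ k ≤ j + 1 ∨ ∃ n₀ m : ℕ, 1 ≤ n₀ ∧ n₀ ≤ k ∧ 1 ≤ m ∧ p ^ n₀ - 1 = s ^ m ∧
      p ^ (k - n₀) * (p ^ n₀ - 1) ≤ j + 1 := by
  have hcp : CharP (AlgebraicClosure (ZMod q)) q :=
    charP_of_injective_algebraMap (algebraMap (ZMod q) (AlgebraicClosure (ZMod q))).injective q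
  have hsK : (s : AlgebraicClosure (ZMod q)) ≠ 0 := by
    intro h
    have h1 := (CharP.cast_eq_zero_iff (AlgebraicClosure (ZMod q)) q s).1 h
    exact hsq ((Nat.prime_dvd_prime_iff_eq Fact.out Fact.out).1 h1).symm
  obtain ⟨d, L, hLinj, hrank⟩ := H92GRLin2.exists_lin2 q E hE (AlgebraicClosure (ZMod q))
  have hfinA : Finite (MulAut E) := Finite.of_injective (fun f : MulAut E => (f : E → E))
    (fun f g h => MulEquiv.ext (congrFun h))
  have hfin : Finite (Db.map L) := by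
    have : Finite Db := inferInstance
    exact Finite.of_surjective (fun x : Db => (⟨L x, Subgroup.mem_map_of_mem L x.2⟩ : Db.map L))
      (by
        rintro ⟨_, x, hx, rfl⟩
        exact ⟨⟨x, hx⟩, rfl⟩)
  have hpg : IsPGroup s (Db.map L) := hD.map L
  have hkey := H92HHKey.key p s k hps hsK (Db.map L) hpg (L y)
    (by
      rintro _ ⟨x, hx, rfl⟩
      exact ⟨y * x * y⁻¹, hn x hx, by simp⟩)
    (by rw [← map_pow, hy, map_one]) hk
    (by
      obtain ⟨x, hx, hc⟩ := hne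
      refine ⟨L x, ⟨x, hx, rfl⟩, fun h => hc ?_⟩
      apply hLinj
      rw [map_mul, map_mul, map_pow]
      exact h)
  rcases hkey with h | ⟨-, n₀, m, h1, h2, h3, h4, h5⟩
  · left
    exact hrank y B j hB hj _ h
  · right
    exact ⟨n₀, m, h1, h2, h3, h4, hrank y B j hB hj _ h5⟩

end Cfsg.Agent.Lib.H92GRSmallComm
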