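import Mathlib
import Cfsg.Agent.Lib.Helper92HHDefs
import Cfsg.Agent.Lib.Helper92GRDefs
import Cfsg.Agent.Lib.H92GRQAct
import Cfsg.Agent.Lib.H92GRSmallComm
import Cfsg.Agent.Lib.H92GREArith

set_option autoImplicit false

namespace Cfsg.Agent.Lib.H92GREStep2

open Polynomial Cfsg.Agent.Lib.Helper92HHDefs Cfsg.Agent.Lib.Helper92GRDefs Cfsg.Agent.Lib.Helper73HHSc

variable {K V : Type*} [Field K] [AddCommGroup V] [Module K V]

theorem conj_pow_mem {Γ : Type*} [Group Γ] (S : Subgroup Γ) (g : Γ) (h : ∀ u ∈ S, g * u * g⁻¹ ∈ S)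
    (j : ℕ) : ∀ u ∈ S, g ^ j * u * (g ^ j)⁻¹ ∈ S := by
  induction j with
  | zero => intro u hu; simpa using hu
  | succ j ih =>
    intro u hu
    have e : g ^ (j + 1) * u * (g ^ (j + 1))⁻¹ = g * (g ^ j * u * (g ^ j)⁻¹) * g⁻¹ := by
      rw [pow_succ']; group
    rw [e]
    exact h _ (ih u hu)

/-- PIECE EStep2.  The exceptional structure is incompatible with `D`. -/
theorem estep2 {Γ : Type*} [Group Γ] (q s n : ℕ) [Fact q.Prime] [Fact s.Prime] (hq2 : q ≠ 2)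
    (hs2 : s ≠ 2) (hsq : s ≠ q) (Q D : Subgroup Γ) (X : Γ) (hG : GrData 2 q s n Q D X) (a : ℕ)
    (ha : a < n) (R : Subgroup Γ) (hRQ : R ≤ Q) (hDR : ∀ d ∈ D, ∀ r ∈ R, d * r * d⁻¹ ∈ R)
    (hYR : ∀ r ∈ R, X ^ 2 ^ a * r * (X ^ 2 ^ a)⁻¹ ∈ R)
    (hab : ∀ u ∈ Q, ∀ v ∈ Q, u * v * u⁻¹ * v⁻¹ ∈ R) (hexp : ∀ u ∈ Q, u ^ q ∈ R)
    (hne : ∃ u ∈ Q, u ∉ R) (B : Subgroup Γ) (hRB : R ≤ B) (hBQ : B ≤ Q)
    (hB : ∀ u ∈ Q, X ^ 2 ^ a * u * (X ^ 2 ^ a)⁻¹ * u⁻¹ ∈ B)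
    (hcard : Nat.card B = (2 ^ (n - a) - 1) ^ 2 * Nat.card R) : False := by
  classical
  have hfQ : Finite Q := hG.finQ
  have hfQ' : Finite (Q : Set Γ) := hfQ
  have hfR : Finite R := Finite.of_injective (Subgroup.inclusion hRQ) (Subgroup.inclusion_injective hRQ)
  have hfR' : Finite (R : Set Γ) := hfR
  have hfB : Finite B := Finite.of_injective (Subgroup.inclusion hBQ) (Subgroup.inclusion_injective hBQ)
  have h2p : Fact (Nat.Prime 2) := ⟨Nat.prime_two⟩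
  set Y : Γ := X ^ 2 ^ a with hY
  set k : ℕ := n - a with hk
  have hk1 : 1 ≤ k := by omega
  set 𝒩 : Subgroup Γ := Subgroup.normalizer (Q : Set Γ) ⊓ Subgroup.normalizer (R : Set Γ) with h𝒩
  have hD𝒩 : D ≤ 𝒩 := fun d hd =>
    ⟨Subgroup.mem_normalizer_fintype (fun u hu => hG.act d hd u hu),
      Subgroup.mem_normalizer_fintype (fun r hr => hDR d hd r hr)⟩
  have hYQ : ∀ u ∈ Q, Y * u * Y⁻¹ ∈ Q := conj_pow_mem Q X hG.normQ _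
  have hYD : ∀ d ∈ D, Y * d * Y⁻¹ ∈ D := conj_pow_mem D X hG.normD _
  have hY𝒩 : Y ∈ 𝒩 :=
    ⟨Subgroup.mem_normalizer_fintype (fun u hu => hYQ u hu),
      Subgroup.mem_normalizer_fintype (fun r hr => hYR r hr)⟩
  have hNQ : ∀ g ∈ 𝒩, ∀ u ∈ Q, g * u * g⁻¹ ∈ Q := fun g hg u hu =>
    (Subgroup.mem_normalizer_iff.1 hg.1 u).1 hu
  have hNR : ∀ g ∈ 𝒩, ∀ r ∈ R, g * r * g⁻¹ ∈ R := fun g hg u hu =>
    (Subgroup.mem_normalizer_iff.1 hg.2 u).1 hu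
  obtain ⟨E, instE, finE, π, φ, hπs, hπk, hEq, hφ⟩ :=
    Cfsg.Agent.Lib.H92GRQAct.exists_act q Q R 𝒩 hRQ hab hexp hNQ hNR
  set Y' : ↥𝒩 := ⟨Y, hY𝒩⟩ with hY'
  set y : MulAut E := φ Y' with hy
  have hYpow : Y ^ 2 ^ k = 1 := by
    rw [hY, ← pow_mul, ← pow_add, hk, Nat.add_sub_cancel' ha.le]
    exact hG.pow
  have hypow : y ^ 2 ^ k = 1 := by
    rw [hy, ← map_pow]
    have : Y' ^ 2 ^ k = 1 := Subtype.ext (by simpa [hY'] using hYpow)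
    rw [this, map_one]
  have hτ : Y ^ 2 ^ (k - 1) = X ^ 2 ^ (n - 1) := by
    rw [hY, ← pow_mul, ← pow_add]
    congr 2
    omega
  set Db : Subgroup (MulAut E) := (D.subgroupOf 𝒩).map φ with hDb
  have hDbp : IsPGroup s Db := (hG.pD.comap_subtype (K := 𝒩)).map φ
  have hn : ∀ d ∈ Db, y * d * y⁻¹ ∈ Db := by
    rintro _ ⟨d, hd, rfl⟩
    refine ⟨Y' * d * Y'⁻¹, ?_, by simp [hy]⟩
    exact hYD d.1 hd
  have hne' : ∃ d ∈ Db, ¬ Commute (y ^ 2 ^ (k - 1)) d := by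
    by_contra hcon
    push Not at hcon
    -- `φ` kills `D`
    have hker : D ≤ (φ.ker).map 𝒩.subtype := by
      refine hG.genD.trans ?_
      rw [Subgroup.closure_le]
      rintro _ ⟨d, hd, rfl⟩
      have hc := hcon (φ ⟨d, hD𝒩 hd⟩) ⟨⟨d, hD𝒩 hd⟩, hd, rfl⟩
      refine ⟨Y' ^ 2 ^ (k - 1) * ⟨d, hD𝒩 hd⟩ * (Y' ^ 2 ^ (k - 1))⁻¹ * (⟨d, hD𝒩 hd⟩ : ↥𝒩)⁻¹, ?_, ?_⟩
      · rw [SetLike.mem_coe, MonoidHom.mem_ker, map_mul, map_mul, map_mul, map_inv, map_inv, map_pow,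
          ← hy, hc.eq]
        group
      · simp [hY', hτ]
    have hQR : Q ≤ R := by
      refine hG.genQ.trans ?_
      rw [Subgroup.closure_le]
      rintro _ ⟨d, hd, u, hu, rfl⟩
      obtain ⟨d', hd', hdd⟩ := hker hd
      have hd1 : φ d' = 1 := hd'
      have h1 := hφ d' ⟨u, hu⟩ ⟨d * u * d⁻¹, hG.act d hd u hu⟩ (by
        have : (d' : Γ) = d := hdd
        simp [this])
      rw [hd1, MulAut.one_apply] at h1
      have h2 : π (⟨d * u * d⁻¹, hG.act d hd u hu⟩ * (⟨u, hu⟩ : ↥Q)⁻¹) = 1 := by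
        rw [map_mul, map_inv, ← h1, mul_inv_cancel]
      exact (hπk _).1 h2
    obtain ⟨u, hu, huR⟩ := hne
    exact huR (hQR hu)
  set ψ : ↥B →* E := π.comp (Subgroup.inclusion hBQ) with hψ
  have hB' : ∀ e, y e * e⁻¹ ∈ ψ.range := by
    intro e
    obtain ⟨u, rfl⟩ := hπs e
    have h1 := hφ Y' u ⟨Y * u * Y⁻¹, hYQ u.1 u.2⟩ rfl
    refine ⟨⟨Y * u * Y⁻¹ * (u : Γ)⁻¹, hB u.1 u.2⟩, ?_⟩
    rw [hy, h1, ← map_inv, ← map_mul]
    rfl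
  have hkerc : Nat.card ψ.ker = Nat.card R := by
    refine Nat.card_congr
      { toFun := fun b => ⟨b.1.1, (hπk _).1 b.2⟩
        invFun := fun r => ⟨⟨r.1, hRB r.2⟩, (hπk _).2 r.2⟩
        left_inv := fun b => rfl
        right_inv := fun r => rfl }
  have hc1 : Nat.card ψ.range * Nat.card R = Nat.card B := by
    rw [← Subgroup.index_ker, ← hkerc]
    exact Subgroup.index_mul_card _
  have hc2 : Nat.card ψ.range = (2 ^ k - 1) ^ 2 := by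
    rw [hcard] at hc1
    exact Nat.eq_of_mul_eq_mul_right Nat.card_pos hc1
  have hEp : IsPGroup q E := fun e => ⟨1, by rw [pow_one]; exact hEq e⟩
  obtain ⟨j, hj⟩ := (hEp.to_subgroup ψ.range).exists_card_eq
  have h2 := Cfsg.Agent.Lib.H92GRSmallComm.small_comm 2 q s k (Ne.symm hs2) hsq hk1 E hEq y hypow Db
    hDbp hn hne' ψ.range hB' j hj
  exact Cfsg.Agent.Lib.H92GREArith.earith q s k j Fact.out hq2 Fact.out hsq hk1 (hc2.symm.trans hj) h2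

end Cfsg.Agent.Lib.H92GREStep2
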