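import Mathlib
import Cfsg.Agent.Lib.Helper92HHDefs
import Cfsg.Agent.Lib.Helper92GRDefs
import Cfsg.Agent.Lib.H92GRGAv
import Cfsg.Agent.Lib.H92HHATrick

set_option autoImplicit false

namespace Cfsg.Agent.Lib.H92GRGATrick

open Polynomial Cfsg.Agent.Lib.Helper92HHDefs Cfsg.Agent.Lib.Helper92GRDefs Cfsg.Agent.Lib.Helper73HHSc

variable {K V : Type*} [Field K] [AddCommGroup V] [Module K V]

/-- PIECE GATrick.  `ATrick` without freeness.  COPY the proof of `H92HHATrick.irr_of_irr` (file `Cfsg/Agent/Lib/H92HHATrick.lean`), `A = ∑_u ρ (α u * u⁻¹)`; the only change is in `A ≠ 0`: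
`∑_v ρ v A ρ v⁻¹ = ∑_u ∑_v ρ (v (α u u⁻¹) v⁻¹)`; by `GAv.gav_eq_zero` only the `u` in `Fix = {u | α u * u⁻¹ ∈ scG ρ}` survive.  For such `u`, `ρ (α u) = c • ρ u`; conjugating by `Y` repeatedly (`tw`; `Y` commutes with scalars)
`ρ (α^i u) = c^i • ρ u`, so `c^(p^k) = 1` (`apow`); also `ρ (α u * u⁻¹) = c • 1` and `α u * u⁻¹` has order a power of `q`, so `c^(q^j) = 1`; coprimality gives `c = 1`, `ρ (α u * u⁻¹) = 1`.
So the sum is `|Q₀| · |Fix| • 1`; `Fix` is a subgroup (`u ↦ c_u` argument, or: `scG ρ` is normal, `α`-invariant and `Q₀ / scG ρ` is abelian by `comm_sc`), so `|Fix|` is a power of `q`, nonzero in `K` (it is enough that `|Fix|` divides... use `Subgroup`+`IsPGroup.to_subgroup`+`cast_card_ne_zero`). -/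
theorem irr_of_irr [IsAlgClosed K] [FiniteDimensional K V] [Nontrivial V] {p q k : ℕ}
    [Fact p.Prime] [Fact q.Prime] (hpq : p ≠ q)
    (hq : (q : K) ≠ 0) {Q₀ : Type*} [Group Q₀] {ρ : Q₀ →* (Module.End K V)ˣ} {α : MulAut Q₀}
    {Y : (Module.End K V)ˣ} (h : HeisW q ρ α Y (p ^ k))
    (hirr : ∀ W : Submodule K V,
      (∀ g, ∀ w ∈ W, ((ρ g : (Module.End K V)ˣ) : Module.End K V) w ∈ W) →
      (∀ w ∈ W, (Y : Module.End K V) w ∈ W) → W = ⊥ ∨ W = ⊤) : Irr ρ := by
  classical
  haveI := h.fin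
  haveI : Fintype Q₀ := Fintype.ofFinite Q₀
  set R : Q₀ → Module.End K V := fun u => ((ρ u : (Module.End K V)ˣ) : Module.End K V) with hR
  have hRmul : ∀ a b, R (a * b) = R a * R b := by
    intro a b
    simp only [hR, map_mul, Units.val_mul]
  set A : Module.End K V := ∑ u : Q₀, R (α u * u⁻¹) with hA
  have hYR : ∀ x, (Y : Module.End K V) * R x = R (α x) * (Y : Module.End K V) := by
    intro x
    have := h.tw x
    rw [mul_inv_eq_iff_eq_mul] at this
    have h2 := congrArg (fun g : (Module.End K V)ˣ => (g : Module.End K V)) this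
    simpa only [Units.val_mul] using h2
  have hA1 : ∀ g, R (α g) * A = A * R g := by
    intro g
    rw [hA, Finset.mul_sum, Finset.sum_mul]
    refine Fintype.sum_equiv (Equiv.mulLeft g) _ _ (fun u => ?_)
    rw [← hRmul, ← hRmul]
    congr 1
    simp only [Equiv.coe_mulLeft, map_mul, mul_inv_rev]
    group
  have hA2 : (Y : Module.End K V) * A = A * (Y : Module.End K V) := by
    rw [hA, Finset.mul_sum, Finset.sum_mul]
    refine Fintype.sum_equiv α.toEquiv _ _ (fun u => ?_)
    rw [hYR]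
    congr 2
    simp
  have hnormal : ∀ (g z : Q₀), z ∈ scG ρ → g * z * g⁻¹ ∈ scG ρ := by
    intro g z hz
    rw [mem_scG, map_mul, map_mul, map_inv, conj_sc (ρ g) (ρ z) hz]
    exact hz
  let Fx : Subgroup Q₀ :=
    { carrier := {u | α u * u⁻¹ ∈ scG ρ}
      one_mem' := by simp [(scG ρ).one_mem]
      mul_mem' := by
        intro a b ha hb
        have e : α (a * b) * (a * b)⁻¹ = (α a * a⁻¹) * (a * (α b * b⁻¹) * a⁻¹) := by
          rw [map_mul]; group
        show α (a * b) * (a * b)⁻¹ ∈ scG ρ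
        rw [e]
        exact (scG ρ).mul_mem ha (hnormal a _ hb)
      inv_mem' := by
        intro a ha
        have e : α a⁻¹ * a⁻¹⁻¹ = a⁻¹ * (α a * a⁻¹)⁻¹ * a⁻¹⁻¹ := by
          rw [map_inv]; group
        show α a⁻¹ * a⁻¹⁻¹ ∈ scG ρ
        rw [e]
        exact hnormal a⁻¹ _ ((scG ρ).inv_mem ha) }
  have hFx : ∀ u, u ∈ Fx ↔ α u * u⁻¹ ∈ scG ρ := fun u => Iff.rfl
  have hone : ∀ u, α u * u⁻¹ ∈ scG ρ → ρ (α u * u⁻¹) = 1 := by
    intro u hu
    have hfix : Y * ρ (α u * u⁻¹) * Y⁻¹ = ρ (α u * u⁻¹) := conj_sc Y _ hu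
    have hαu : ρ (α u) = ρ (α u * u⁻¹) * ρ u := by rw [← map_mul, inv_mul_cancel_right]
    have hi : ∀ i : ℕ, ρ ((α ^ i) u) = ρ (α u * u⁻¹) ^ i * ρ u := by
      intro i
      induction i with
      | zero => simp
      | succ i ih =>
        rw [pow_succ', MulAut.mul_apply, ← h.tw, ih]
        have e : Y * (ρ (α u * u⁻¹) ^ i * ρ u) * Y⁻¹
            = (Y * ρ (α u * u⁻¹) * Y⁻¹) ^ i * (Y * ρ u * Y⁻¹) := by
          rw [conj_pow]; group
        rw [e, hfix, h.tw, hαu, pow_succ]
        group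
    have h1 : ρ (α u * u⁻¹) ^ p ^ k = 1 := by
      have := hi (p ^ k)
      rw [h.apow, MulAut.one_apply] at this
      exact (mul_eq_right.mp this.symm)
    obtain ⟨j, hj⟩ := h.pgrp (α u * u⁻¹)
    have h2 : ρ (α u * u⁻¹) ^ q ^ j = 1 := by rw [← map_pow, hj, map_one]
    have h3 := orderOf_dvd_of_pow_eq_one h1
    have h4 := orderOf_dvd_of_pow_eq_one h2
    have hcop : Nat.Coprime (p ^ k) (q ^ j) :=
      Nat.Coprime.pow _ _ ((Nat.coprime_primes Fact.out Fact.out).2 hpq)
    have h5 : orderOf (ρ (α u * u⁻¹)) = 1 := Nat.eq_one_of_dvd_coprimes hcop h3 h4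
    exact orderOf_eq_one_iff.mp h5
  have hA0 : A ≠ 0 := by
    intro h0
    have h1 : ∑ v : Q₀, R v * A * R v⁻¹ = 0 := by
      rw [h0]; simp
    have h2 : ∑ v : Q₀, R v * A * R v⁻¹ =
        ∑ u : Q₀, if u ∈ Fx then (Fintype.card Q₀ : K) • (1 : Module.End K V) else 0 := by
      rw [hA]
      simp only [Finset.mul_sum, Finset.sum_mul]
      rw [Finset.sum_comm]
      refine Finset.sum_congr rfl (fun u _ => ?_)
      split_ifs with hu
      · have e : ∀ v, R v * R (α u * u⁻¹) * R v⁻¹ = 1 := by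
          intro v
          have e1 : R (α u * u⁻¹) = 1 := by
            simp only [hR]
            rw [hone u hu, Units.val_one]
          rw [e1, mul_one, ← hRmul, mul_inv_cancel]
          simp only [hR, map_one, Units.val_one]
        rw [Finset.sum_congr rfl (fun v _ => e v), Finset.sum_const, Finset.card_univ,
          Nat.cast_smul_eq_nsmul]
      · have hns : ¬ IsSc ((ρ (α u * u⁻¹) : (Module.End K V)ˣ) : Module.End K V) := by
          intro hsc
          exact hu hsc
        rw [← Cfsg.Agent.Lib.H92GRGAv.gav_eq_zero h _ hns]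
        refine Finset.sum_congr rfl (fun v _ => ?_)
        rw [← hRmul, ← hRmul]
    rw [h2, ← Finset.sum_filter, Finset.sum_const, ← Nat.cast_smul_eq_nsmul K, smul_smul] at h1
    rcases smul_eq_zero.1 h1 with h3 | h3
    · rcases mul_eq_zero.1 h3 with h4 | h4
      · rw [← Fintype.card_subtype] at h4
        have : Fintype.card {x // x ∈ Fx} = Nat.card Fx :=
          (Nat.card_eq_fintype_card).symm
        rw [this] at h4
        exact cast_card_ne_zero hq (h.pgrp.to_subgroup Fx) h4
      · rw [← Nat.card_eq_fintype_card] at h4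
        exact cast_card_ne_zero hq h.pgrp h4
    · exact one_ne_zero h3
  have hinj : Function.Injective A := by
    rw [← LinearMap.ker_eq_bot]
    rcases hirr (LinearMap.ker A) (fun g w hw => by
      rw [LinearMap.mem_ker] at hw ⊢
      have : A (R g w) = (R (α g) * A) w := by rw [hA1]; rfl
      show A (R g w) = 0
      rw [this, Module.End.mul_apply, hw, map_zero]) (fun w hw => by
      rw [LinearMap.mem_ker] at hw ⊢
      have : A ((Y : Module.End K V) w) = ((Y : Module.End K V) * A) w := by rw [hA2]; rfl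
      rw [this, Module.End.mul_apply, hw, map_zero]) with h1 | h1
    · exact h1
    · exact absurd (LinearMap.ker_eq_top.1 h1) hA0
  set e := LinearEquiv.ofInjectiveEndo A hinj with he
  obtain ⟨μ, hμ⟩ := Module.End.exists_eigenvalue
    ((e.symm : V →ₗ[K] V) ∘ₗ (Y : Module.End K V) : Module.End K V)
  obtain ⟨w, hw⟩ := hμ.exists_hasEigenvector
  have hw1 : (Y : Module.End K V) w = μ • A w := by
    have h1 := hw.apply_eq_smul
    rw [LinearMap.comp_apply, LinearEquiv.coe_coe, LinearEquiv.symm_apply_eq] at h1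
    rw [h1, map_smul]
    rfl
  have hYA : (Y : Module.End K V) = μ • A := by
    have hB1 : ∀ g, ((Y : Module.End K V) - μ • A) * R g = R (α g) * ((Y : Module.End K V) - μ • A) := by
      intro g
      rw [sub_mul, mul_sub, smul_mul_assoc, mul_smul_comm, hYR, hA1]
    have hB2 : ((Y : Module.End K V) - μ • A) * (Y : Module.End K V) =
        (Y : Module.End K V) * ((Y : Module.End K V) - μ • A) := by
      rw [sub_mul, mul_sub, smul_mul_assoc, mul_smul_comm, hA2]
    rcases hirr (LinearMap.ker ((Y : Module.End K V) - μ • A)) (fun g x hx => by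
      rw [LinearMap.mem_ker] at hx ⊢
      have : ((Y : Module.End K V) - μ • A) (R g x) =
        (R (α g) * ((Y : Module.End K V) - μ • A)) x := by rw [← hB1]; rfl
      show ((Y : Module.End K V) - μ • A) (R g x) = 0
      rw [this, Module.End.mul_apply, hx, map_zero]) (fun x hx => by
      rw [LinearMap.mem_ker] at hx ⊢
      have : ((Y : Module.End K V) - μ • A) ((Y : Module.End K V) x) =
        ((Y : Module.End K V) * ((Y : Module.End K V) - μ • A)) x := by rw [← hB2]; rfl
      rw [this, Module.End.mul_apply, hx, map_zero]) with h1 | h1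
    · exfalso
      apply hw.2
      have : w ∈ LinearMap.ker ((Y : Module.End K V) - μ • A) := by
        rw [LinearMap.mem_ker, LinearMap.sub_apply, LinearMap.smul_apply, hw1, sub_self]
      rw [h1] at this
      exact this
    · exact sub_eq_zero.1 (LinearMap.ker_eq_top.1 h1)
  intro W hW
  refine hirr W hW (fun x hx => ?_)
  rw [hYA, LinearMap.smul_apply, hA, LinearMap.sum_apply]
  exact W.smul_mem _ (Submodule.sum_mem _ (fun u _ => hW _ x hx))

end Cfsg.Agent.Lib.H92GRGATrick
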