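import Mathlib
import Cfsg.Agent.Lib.Helper92HHDefs
import Cfsg.Agent.Lib.Helper92GRDefs

set_option autoImplicit false

namespace Cfsg.Agent.Lib.H92GRGArith

open Polynomial Cfsg.Agent.Lib.Helper92HHDefs Cfsg.Agent.Lib.Helper92GRDefs Cfsg.Agent.Lib.Helper73HHSc

variable {K V : Type*} [Field K] [AddCommGroup V] [Module K V]

/-- PIECE GArith (pure arithmetic).  `G = P (N-1)²`; `d² z = P (N-1)²`; `d² ≤ (N-1) c` gives `P (N-1) ≤ c z`; then `h5` gives `P (N-1) N + P + z N ≤ P (N-1)² + N P`, i.e. `z N ≤ 0`.  (Write `N = m + 1`, `nlinarith`.) -/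
theorem garith (N d c cl z P M G t : ℕ) (hN : 2 ≤ N) (hz : 0 < z) (h1 : d ^ 2 * z = G)
    (h2 : P * M = G * z) (h3 : M = (N - 1) ^ 2 * z) (h4 : c ≤ cl)
    (h5 : cl * (z * N) + P + z * N ≤ G + N * P) (h6 : d ^ 2 ≤ t * c) (h7 : t ≤ N - 1) : False := by
  obtain ⟨m, rfl⟩ : ∃ m, N = m + 1 := ⟨N - 1, by omega⟩
  simp only [Nat.add_sub_cancel] at h3 h7
  have hm : 1 ≤ m := by omega
  subst h3
  have hG : G = P * m ^ 2 := by
    have : P * m ^ 2 * z = G * z := by rw [← h2]; ring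
    exact (Nat.eq_of_mul_eq_mul_right hz this).symm
  subst hG
  have h8 : d ^ 2 ≤ m * c := h6.trans (Nat.mul_le_mul_right c h7)
  have h9 : P * m ^ 2 ≤ m * c * z := by
    rw [← h1]; exact Nat.mul_le_mul_right z h8
  have h10 : P * m ≤ c * z := by
    have : m * (P * m) ≤ m * (c * z) := by nlinarith
    exact Nat.le_of_mul_le_mul_left this (by omega)
  have h11 : c * z ≤ cl * z := Nat.mul_le_mul_right z h4
  nlinarith

end Cfsg.Agent.Lib.H92GRGArith
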