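import Mathlib
import Cfsg.Agent.Lib.Helper92HHDefs
import Cfsg.Agent.Lib.Helper92GRDefs
import Cfsg.Agent.Lib.H92GRGAv
import Cfsg.Agent.Lib.H92HHBasis

set_option autoImplicit false

namespace Cfsg.Agent.Lib.H92GRGBasis

open Polynomial Cfsg.Agent.Lib.Helper92HHDefs Cfsg.Agent.Lib.Helper92GRDefs Cfsg.Agent.Lib.Helper73HHSc

variable {K V : Type*} [Field K] [AddCommGroup V] [Module K V]

/-- PIECE GBasis.  COPY of `H92HHBasis.card_eq` (file `Cfsg/Agent/Lib/H92HHBasis.lean`) with `HeisW` (+ `Nontrivial V`) instead of `Heis`, `GAv.gav_eq_zero` instead of `Av.av_eq_zero`. -/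
theorem card_eq [FiniteDimensional K V] [Nontrivial V] {q : ℕ} [Fact q.Prime] (hq : (q : K) ≠ 0)
    {Q₀ : Type*} [Group Q₀] {ρ : Q₀ →* (Module.End K V)ˣ} {α : MulAut Q₀}
    {Y : (Module.End K V)ˣ} {N : ℕ} (h : HeisW q ρ α Y N)
    (hspan : Submodule.span K
      (Set.range fun u : Q₀ => ((ρ u : (Module.End K V)ˣ) : Module.End K V)) = ⊤) :
    (Module.finrank K V) ^ 2 * Nat.card (scG ρ) = Nat.card Q₀ := by
  classical
  haveI := h.fin
  haveI : Fintype Q₀ := Fintype.ofFinite Q₀
  haveI : Fintype (Q₀ ⧸ scG ρ) := Fintype.ofFinite _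
  set e : Q₀ ⧸ scG ρ → Module.End K V :=
    fun c => ((ρ c.out : (Module.End K V)ˣ) : Module.End K V) with he
  have hli : LinearIndependent K e := by
    rw [Fintype.linearIndependent_iff]
    intro t ht c₀
    have h1 : ∑ c, t c • ((ρ (c₀.out⁻¹ * c.out) : (Module.End K V)ˣ) : Module.End K V) = 0 := by
      have := congrArg (fun T => ((ρ c₀.out⁻¹ : (Module.End K V)ˣ) : Module.End K V) * T) ht
      simp only [Finset.mul_sum, mul_zero, mul_smul_comm, he] at this
      rw [← this]
      refine Finset.sum_congr rfl (fun c _ => ?_)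
      rw [map_mul, Units.val_mul]
    have h2 : ∑ c, t c • ∑ v : Q₀,
        ((ρ (v * (c₀.out⁻¹ * c.out) * v⁻¹) : (Module.End K V)ˣ) : Module.End K V) = 0 := by
      have : ∑ v : Q₀, ((ρ v : (Module.End K V)ˣ) : Module.End K V) *
          (∑ c, t c • ((ρ (c₀.out⁻¹ * c.out) : (Module.End K V)ˣ) : Module.End K V)) *
          ((ρ v⁻¹ : (Module.End K V)ˣ) : Module.End K V) = 0 := by
        rw [h1]
        simp
      rw [← this]
      simp only [Finset.mul_sum, Finset.sum_mul, Finset.smul_sum]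
      rw [Finset.sum_comm]
      refine Finset.sum_congr rfl (fun v _ => Finset.sum_congr rfl (fun c _ => ?_))
      rw [map_mul, map_mul, Units.val_mul, Units.val_mul, mul_smul_comm, smul_mul_assoc]
    rw [Finset.sum_eq_single c₀] at h2
    · rw [inv_mul_cancel] at h2
      simp only [mul_one, mul_inv_cancel, map_one, Units.val_one, Finset.sum_const,
        Finset.card_univ] at h2
      rw [← Nat.cast_smul_eq_nsmul K, smul_smul] at h2
      rcases smul_eq_zero.1 h2 with h3 | h3
      · rcases mul_eq_zero.1 h3 with h4 | h4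
        · exact h4
        · rw [← Nat.card_eq_fintype_card] at h4
          exact absurd h4 (cast_card_ne_zero hq h.pgrp)
      · exact absurd h3 one_ne_zero
    · intro c _ hc
      rw [Cfsg.Agent.Lib.H92GRGAv.gav_eq_zero h, smul_zero]
      intro hsc
      apply hc
      have : (c₀.out : Q₀ ⧸ scG ρ) = (c.out : Q₀ ⧸ scG ρ) := QuotientGroup.eq.2 hsc
      rw [QuotientGroup.out_eq', QuotientGroup.out_eq'] at this
      exact this.symm
    · intro hc
      exact absurd (Finset.mem_univ _) hc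
  have hsp : ⊤ ≤ Submodule.span K (Set.range e) := by
    rw [← hspan, Submodule.span_le]
    rintro _ ⟨u, rfl⟩
    have hz : ((u : Q₀ ⧸ scG ρ).out)⁻¹ * u ∈ scG ρ := by
      apply QuotientGroup.eq.1
      rw [QuotientGroup.out_eq']
    obtain ⟨a, ha⟩ := hz
    have e1 : ρ u = ρ (u : Q₀ ⧸ scG ρ).out * ρ (((u : Q₀ ⧸ scG ρ).out)⁻¹ * u) := by
      rw [← map_mul, mul_inv_cancel_left]
    simp only
    rw [e1, Units.val_mul, ha, mul_smul_comm, mul_one]
    exact Submodule.smul_mem _ _ (Submodule.subset_span ⟨_, rfl⟩)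
  have hfr := Module.finrank_eq_card_basis (Module.Basis.mk hli hsp)
  rw [Module.finrank_linearMap] at hfr
  rw [sq, hfr, ← Nat.card_eq_fintype_card,
    ← Subgroup.card_eq_card_quotient_mul_card_subgroup]

end Cfsg.Agent.Lib.H92GRGBasis
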