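import Mathlib
import Cfsg.Agent.Lib.Helper92HHDefs
import Cfsg.Agent.Lib.Helper92GRDefs
import Cfsg.Agent.Lib.H92HHComm
import Cfsg.Agent.Lib.H92HHDimLe

set_option autoImplicit false

namespace Cfsg.Agent.Lib.H92GRGComm

open Cfsg.Agent.Lib.H92HHComm Polynomial Cfsg.Agent.Lib.Helper92HHDefs Cfsg.Agent.Lib.Helper92GRDefs Cfsg.Agent.Lib.Helper73HHSc

variable {K V : Type*} [Field K] [AddCommGroup V] [Module K V]

/-- PIECE GComm.  `dim C(Y) ≤` number of classes of any equivalence relation finer than `u ~ z α^i(u)`.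
COPY of the first half of `H92HHComm.comm_le` (file `Cfsg/Agent/Lib/H92HHComm.lean`; `coef`, `eq_zero_of_trace` there are reusable): `a T u = trace (ρ u⁻¹ * T)` is injective on `End V` (`hspan`);
for `T ∈ C(Y)`: `a T (z * α^i u) = c_z⁻¹ a T u`, so vanishing propagates along `r`; `DimLe.finrank_le`. -/
theorem comm_le [FiniteDimensional K V] {q : ℕ} {Q₀ : Type*} [Group Q₀]
    {ρ : Q₀ →* (Module.End K V)ˣ} {α : MulAut Q₀} {Y : (Module.End K V)ˣ} {N : ℕ}
    (h : HeisW q ρ α Y N)
    (hspan : Submodule.span K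
      (Set.range fun u : Q₀ => ((ρ u : (Module.End K V)ˣ) : Module.End K V)) = ⊤)
    (r : Setoid Q₀) (hr : ∀ u u', r u u' → ∃ z ∈ scG ρ, ∃ i : ℕ, u' = z * (α ^ i) u) :
    Module.finrank K (commutant (Y : Module.End K V)) ≤ Nat.card (Quotient r) := by
  haveI := h.fin
  have hinj : Function.Injective (coef ρ) := by
    rw [injective_iff_map_eq_zero]
    intro T hT
    apply eq_zero_of_trace
    have hle : Submodule.span K
        (Set.range fun u : Q₀ => ((ρ u : (Module.End K V)ˣ) : Module.End K V)) ≤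
        LinearMap.ker ((LinearMap.trace K V) ∘ₗ (LinearMap.mulRight K T)) := by
      rw [Submodule.span_le]
      rintro _ ⟨u, rfl⟩
      have := congrFun hT u⁻¹
      rw [coef_apply, inv_inv] at this
      simpa using this
    intro A
    have : A ∈ LinearMap.ker ((LinearMap.trace K V) ∘ₗ (LinearMap.mulRight K T)) := by
      apply hle
      rw [hspan]
      trivial
    simpa using this
  have hα : ∀ T ∈ commutant (Y : Module.End K V), ∀ u, coef ρ T (α u) = coef ρ T u := by
    intro T hT u
    rw [mem_commutant] at hT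
    rw [coef_apply, coef_apply, ← map_inv, ← h.tw, Units.val_mul, Units.val_mul, mul_assoc,
      mul_assoc, LinearMap.trace_mul_comm, mul_assoc, mul_assoc, hT, ← mul_assoc _ (Y : Module.End K V),
      Units.inv_mul, one_mul]
  have hαi : ∀ T ∈ commutant (Y : Module.End K V), ∀ (i : ℕ) u,
      coef ρ T ((α ^ i) u) = coef ρ T u := by
    intro T hT i
    induction i with
    | zero => intro u; simp
    | succ i ih =>
      intro u
      rw [pow_succ', MulAut.mul_apply, hα T hT, ih]
  have hz : ∀ T : Module.End K V, ∀ z ∈ scG ρ, ∀ u, coef ρ T u = 0 → coef ρ T (z * u) = 0 := by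
    intro T z hz u hu
    obtain ⟨c, hc⟩ := (scG ρ).inv_mem hz
    rw [coef_apply, mul_inv_rev, map_mul ρ, Units.val_mul, hc, mul_smul_comm, mul_one,
      smul_mul_assoc, map_smul, ← coef_apply, hu, smul_zero]
  have hdim := Cfsg.Agent.Lib.H92HHDimLe.finrank_le r
    ((commutant (Y : Module.End K V)).map (coef ρ)) (by
      rintro _ ⟨T, hT, rfl⟩ x y hxy hx
      obtain ⟨z, hzZ, i, rfl⟩ := hr x y hxy
      apply hz T z hzZ
      rw [hαi T hT]
      exact hx)
  rw [← (Submodule.equivMapOfInjective (coef ρ) hinj _).finrank_eq] at hdim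
  exact hdim

end Cfsg.Agent.Lib.H92GRGComm
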