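import Mathlib
import Cfsg.Agent.Lib.Helper92HHDefs
import Cfsg.Agent.Lib.Helper92GRDefs
import Cfsg.Agent.Lib.H92HHOrb

set_option autoImplicit false

namespace Cfsg.Agent.Lib.H92GRGOrb

open Polynomial Cfsg.Agent.Lib.Helper92HHDefs Cfsg.Agent.Lib.Helper92GRDefs Cfsg.Agent.Lib.Helper73HHSc

variable {K V : Type*} [Field K] [AddCommGroup V] [Module K V]

/-- PIECE GOrb (pure group theory / counting; model: `Cfsg/Agent/Lib/H92HHOrb.lean`).  The relation `u ~ z α^i(u)`.  `P ⊇ Z` is `α`-invariant, a union of classes.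
Outside `P` the classes have exactly `|Z| N` elements (`(z, i) ↦ z α^i(u)`, `i < N`, is injective for `u ∉ P`, by `hfree` and the `α`-invariance of `P`): there are `(|Q₀| - |P|) / (|Z| N)` of them.
Inside `P` every class contains a coset `Z u` (`≥ |Z|` elements) and the class of `u₀` contains the two distinct cosets `Z u₀`, `Z α(u₀)`: `#in · |Z| + |Z| ≤ |P|`. -/
theorem gorb {Q₀ : Type*} [Group Q₀] [Finite Q₀] (α : MulAut Q₀) (N : ℕ) (hN : 0 < N)
    (hα : α ^ N = 1) (Z P : Subgroup Q₀) (hZ : ∀ z ∈ Z, α z ∈ Z) (hZP : Z ≤ P)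
    (hP : ∀ u ∈ P, α u ∈ P)
    (hfree : ∀ u i, 0 < i → i < N → (α ^ i) u * u⁻¹ ∈ Z → u ∈ P)
    (u₀ : Q₀) (hu₀ : u₀ ∈ P) (hu₀' : α u₀ * u₀⁻¹ ∉ Z) :
    ∃ r : Setoid Q₀, (∀ u u', r u u' ↔ ∃ z ∈ Z, ∃ i : ℕ, u' = z * (α ^ i) u) ∧
      Nat.card (Quotient r) * (Nat.card Z * N) + Nat.card P + Nat.card Z * N
        ≤ Nat.card Q₀ + N * Nat.card P := by
  classical
  have hZpow : ∀ (j : ℕ) z, z ∈ Z → (α ^ j) z ∈ Z := by
    intro j
    induction j with
    | zero => intro z hz; simpa using hz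
    | succ j ih =>
      intro z hz
      rw [pow_succ', MulAut.mul_apply]
      exact hZ _ (ih z hz)
  have hPpow : ∀ (j : ℕ) z, z ∈ P → (α ^ j) z ∈ P := by
    intro j
    induction j with
    | zero => intro z hz; simpa using hz
    | succ j ih =>
      intro z hz
      rw [pow_succ', MulAut.mul_apply]
      exact hP _ (ih z hz)
  have hinv : ∀ (i : ℕ) u, (α ^ ((N - 1) * i)) ((α ^ i) u) = u := by
    intro i u
    rw [← MulAut.mul_apply, ← pow_add]
    have : (N - 1) * i + i = N * i := by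
      obtain ⟨m, rfl⟩ : ∃ m, N = m + 1 := ⟨N - 1, by omega⟩
      simp only [Nat.add_sub_cancel]
      ring
    rw [this, pow_mul, hα, one_pow]
    rfl
  have hback : ∀ (i : ℕ) u, (α ^ i) u ∈ P → u ∈ P := by
    intro i u h
    have := hPpow ((N - 1) * i) _ h
    rwa [hinv] at this
  let r : Setoid Q₀ :=
    { r := fun u u' => ∃ z ∈ Z, ∃ i : ℕ, u' = z * (α ^ i) u
      iseqv := by
        refine ⟨fun u => ⟨1, Z.one_mem, 0, by simp⟩, ?_, ?_⟩
        · rintro u u' ⟨z, hz, i, rfl⟩
          refine ⟨(α ^ ((N - 1) * i)) z⁻¹, hZpow _ _ (Z.inv_mem hz), (N - 1) * i, ?_⟩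
          rw [← map_mul, inv_mul_cancel_left, hinv]
        · rintro u u' u'' ⟨z, hz, i, rfl⟩ ⟨z', hz', j, rfl⟩
          refine ⟨z' * (α ^ j) z, Z.mul_mem hz' (hZpow _ _ hz), j + i, ?_⟩
          rw [map_mul, pow_add, MulAut.mul_apply, mul_assoc] }
  have hr : ∀ u u', r u u' ↔ ∃ z ∈ Z, ∃ i : ℕ, u' = z * (α ^ i) u := fun u u' => Iff.rfl
  refine ⟨r, hr, ?_⟩
  have : Fintype (Quotient r) := Fintype.ofFinite _
  have hsumQ : Nat.card Q₀ = ∑ c : Quotient r, Nat.card {u // Quotient.mk r u = c} := by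
    rw [← Nat.card_sigma]
    exact Nat.card_congr (Equiv.sigmaFiberEquiv (Quotient.mk r)).symm
  have hsumP : Nat.card P = ∑ c : Quotient r, Nat.card {u : P // Quotient.mk r (u : Q₀) = c} := by
    rw [← Nat.card_sigma]
    exact Nat.card_congr (Equiv.sigmaFiberEquiv (fun u : P => Quotient.mk r (u : Q₀))).symm
  -- `P` is a union of classes
  have hPcls : ∀ u u', r u u' → u' ∈ P → u ∈ P := by
    rintro u u' ⟨z, hz, i, rfl⟩ h
    apply hback i
    have := P.mul_mem (P.inv_mem (hZP hz)) h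
    rwa [inv_mul_cancel_left] at this
  -- injectivity
  have haux : ∀ (u : Q₀) (z z' : Q₀), z ∈ Z → z' ∈ Z → ∀ i j : ℕ, i < j → j < N →
      z * (α ^ i) u = z' * (α ^ j) u → u ∈ P := by
    intro u z z' hz hz' i j hij hj h
    apply hback i
    apply hfree _ (j - i) (by omega) (by omega)
    rw [← MulAut.mul_apply, ← pow_add, Nat.sub_add_cancel hij.le]
    have : (α ^ j) u * ((α ^ i) u)⁻¹ = z'⁻¹ * z := by
      rw [mul_inv_eq_iff_eq_mul, mul_assoc, h, inv_mul_cancel_left]
    rw [this]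
    exact Z.mul_mem (Z.inv_mem hz') hz
  have hfib2 : ∀ u, u ∉ P → Nat.card {u' // Quotient.mk r u' = Quotient.mk r u} =
      Nat.card Z * N := by
    intro u hu
    have hmem : ∀ x : Z × Fin N, Quotient.mk r ((x.1 : Q₀) * (α ^ (x.2 : ℕ)) u) =
        Quotient.mk r u := by
      intro x
      rw [eq_comm, Quotient.eq, hr]
      exact ⟨x.1, x.1.2, x.2, rfl⟩
    let f : Z × Fin N → {u' // Quotient.mk r u' = Quotient.mk r u} :=
      fun x => ⟨(x.1 : Q₀) * (α ^ (x.2 : ℕ)) u, hmem x⟩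
    have hf : Function.Bijective f := by
      constructor
      · rintro ⟨z, i⟩ ⟨z', j⟩ h
        have h' : (z : Q₀) * (α ^ (i : ℕ)) u = (z' : Q₀) * (α ^ (j : ℕ)) u :=
          congrArg Subtype.val h
        have hij : (i : ℕ) = j := by
          rcases lt_trichotomy (i : ℕ) j with h1 | h1 | h1
          · exact absurd (haux u z z' z.2 z'.2 i j h1 j.2 h') hu
          · exact h1
          · exact absurd (haux u z' z z'.2 z.2 j i h1 i.2 h'.symm) hu
        have hij' : i = j := Fin.ext hij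
        subst hij'
        have : (z : Q₀) = z' := mul_right_cancel h'
        rw [Subtype.ext this]
      · rintro ⟨u', hu'⟩
        rw [eq_comm, Quotient.eq, hr] at hu'
        obtain ⟨z, hz, i, rfl⟩ := hu'
        refine ⟨(⟨z, hz⟩, ⟨i % N, Nat.mod_lt _ hN⟩), ?_⟩
        apply Subtype.ext
        show z * (α ^ (i % N)) u = z * (α ^ i) u
        rw [pow_eq_pow_mod i hα]
    rw [← Nat.card_congr (Equiv.ofBijective f hf), Nat.card_prod, Nat.card_eq_fintype_card (α := Fin N),
      Fintype.card_fin]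
  -- outside `P`: no element of `P` in the class
  have hg0 : ∀ u, u ∉ P → Nat.card {u' : P // Quotient.mk r (u' : Q₀) = Quotient.mk r u} = 0 := by
    intro u hu
    have : IsEmpty {u' : P // Quotient.mk r (u' : Q₀) = Quotient.mk r u} := by
      constructor
      rintro ⟨u', hu'⟩
      rw [eq_comm, Quotient.eq] at hu'
      exact hu (hPcls _ _ hu' u'.2)
    exact Nat.card_of_isEmpty
  -- `g ≤ f`
  have hgf : ∀ c : Quotient r, Nat.card {u' : P // Quotient.mk r (u' : Q₀) = c} ≤
      Nat.card {u' // Quotient.mk r u' = c} := by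
    intro c
    apply Nat.card_le_card_of_injective
      (fun y : {u' : P // Quotient.mk r (u' : Q₀) = c} =>
        (⟨(y.1 : Q₀), y.2⟩ : {u' // Quotient.mk r u' = c}))
    intro y y' h
    apply Subtype.ext
    apply Subtype.ext
    exact congrArg (fun w : {u' // Quotient.mk r u' = c} => (w : Q₀)) h
  -- inside `P`: at least `|Z|`
  have hgZ : ∀ u, u ∈ P → Nat.card Z ≤
      Nat.card {u' : P // Quotient.mk r (u' : Q₀) = Quotient.mk r u} := by
    intro u hu
    have hmem : ∀ z : Z, Quotient.mk r ((z : Q₀) * u) = Quotient.mk r u := by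
      intro z
      rw [eq_comm, Quotient.eq, hr]
      exact ⟨z, z.2, 0, by simp⟩
    apply Nat.card_le_card_of_injective
      (fun z : Z => (⟨⟨(z : Q₀) * u, P.mul_mem (hZP z.2) hu⟩, hmem z⟩ :
        {u' : P // Quotient.mk r (u' : Q₀) = Quotient.mk r u}))
    intro z z' h
    have h' : (z : Q₀) * u = (z' : Q₀) * u := congrArg (fun y => ((y.1 : P) : Q₀)) h
    exact Subtype.ext (mul_right_cancel h')
  -- the class of `u₀`
  have hg2 : Nat.card Z * 2 ≤
      Nat.card {u' : P // Quotient.mk r (u' : Q₀) = Quotient.mk r u₀} := by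
    have hmem : ∀ x : Z × Fin 2, Quotient.mk r ((x.1 : Q₀) * (α ^ (x.2 : ℕ)) u₀) =
        Quotient.mk r u₀ := by
      intro x
      rw [eq_comm, Quotient.eq, hr]
      exact ⟨x.1, x.1.2, x.2, rfl⟩
    have hcard : Nat.card (Z × Fin 2) = Nat.card Z * 2 := by
      rw [Nat.card_prod, Nat.card_eq_fintype_card (α := Fin 2), Fintype.card_fin]
    rw [← hcard]
    apply Nat.card_le_card_of_injective
      (fun x : Z × Fin 2 => (⟨⟨(x.1 : Q₀) * (α ^ (x.2 : ℕ)) u₀,
        P.mul_mem (hZP x.1.2) (hPpow _ _ hu₀)⟩, hmem x⟩ :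
        {u' : P // Quotient.mk r (u' : Q₀) = Quotient.mk r u₀}))
    have key : ∀ z z' : Z, (z : Q₀) * u₀ ≠ (z' : Q₀) * α u₀ := by
      intro z z' h
      apply hu₀'
      have : α u₀ * u₀⁻¹ = (z' : Q₀)⁻¹ * z := by
        rw [mul_inv_eq_iff_eq_mul, mul_assoc, h, inv_mul_cancel_left]
      rw [this]
      exact Z.mul_mem (Z.inv_mem z'.2) z.2
    rintro ⟨z, i⟩ ⟨z', j⟩ h
    have h' : (z : Q₀) * (α ^ (i : ℕ)) u₀ = (z' : Q₀) * (α ^ (j : ℕ)) u₀ :=
      congrArg (fun y => ((y.1 : P) : Q₀)) h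
    have hij : i = j := by
      fin_cases i <;> fin_cases j
      · rfl
      · exact absurd (by simpa using h') (key z z')
      · exact absurd (by simpa using h'.symm) (key z' z)
      · rfl
    subst hij
    have : (z : Q₀) = z' := mul_right_cancel h'
    rw [Subtype.ext this]
  -- the pointwise inequality
  have hpt : ∀ c : Quotient r, Nat.card Z * N +
      Nat.card {u' : P // Quotient.mk r (u' : Q₀) = c} +
      (if c = Quotient.mk r u₀ then Nat.card Z * N else 0) ≤
      Nat.card {u' // Quotient.mk r u' = c} +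
        N * Nat.card {u' : P // Quotient.mk r (u' : Q₀) = c} := by
    intro c
    obtain ⟨u, rfl⟩ := Quotient.exists_rep c
    by_cases hu : u ∈ P
    · have h1 := hgf (Quotient.mk r u)
      have h2 := hgZ u hu
      split_ifs with hc
      · have h3 := hg2
        rw [← hc] at h3
        nlinarith [Nat.mul_le_mul_left N h3]
      · nlinarith [Nat.mul_le_mul_left N h2]
    · have hc : Quotient.mk r u ≠ Quotient.mk r u₀ := by
        intro hc
        rw [Quotient.eq] at hc
        exact hu (hPcls _ _ hc hu₀)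
      rw [if_neg hc, hg0 u hu, hfib2 u hu]
      simp
  have hsum := Finset.sum_le_sum (fun c (_ : c ∈ (Finset.univ : Finset (Quotient r))) => hpt c)
  have hm : ∑ c : Quotient r, N * Nat.card {u' : P // Quotient.mk r (u' : Q₀) = c} =
      N * Nat.card P := by
    rw [hsumP, Finset.mul_sum]
  rw [Finset.sum_add_distrib, Finset.sum_add_distrib, Finset.sum_add_distrib, hm,
    ← hsumP, ← hsumQ, Finset.sum_const, Finset.card_univ, Finset.sum_ite_eq' , if_pos (Finset.mem_univ _),
    smul_eq_mul, ← Nat.card_eq_fintype_card] at hsum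
  exact hsum

end Cfsg.Agent.Lib.H92GRGOrb
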