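import Mathlib
import Cfsg.Agent.Lib.Helper92HHDefs
import Cfsg.Agent.Lib.Helper92GRDefs
import Cfsg.Agent.Lib.H92HHHeisOn

set_option autoImplicit false

namespace Cfsg.Agent.Lib.H92GRHeisSub

open Polynomial Cfsg.Agent.Lib.Helper92HHDefs Cfsg.Agent.Lib.Helper92GRDefs Cfsg.Agent.Lib.Helper73HHSc

variable {K V : Type*} [Field K] [AddCommGroup V] [Module K V]

/-- PIECE HeisSub.  The pair restricted to `M` (= preimage of `[E, τ]`) is of Heisenberg type (with freeness).  `τ = α^(p^(k-1))`. -/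
theorem heis_sub {p q k : ℕ} [Fact p.Prime] [Fact q.Prime] (hk : 1 ≤ k) {Q₀ : Type*} [Group Q₀]
    {ρ : Q₀ →* (Module.End K V)ˣ} {α : MulAut Q₀} {Y : (Module.End K V)ˣ}
    (h : HeisW q ρ α Y (p ^ k)) (M : Subgroup Q₀) (hZM : scG ρ ≤ M) (hαM : ∀ u ∈ M, α u ∈ M)
    (hPM : ∀ u ∈ M, (α ^ p ^ (k - 1)) u * u⁻¹ ∈ scG ρ → u ∈ scG ρ)
    (hcomm : ∀ a, (α ^ p ^ (k - 1)) a * a⁻¹ ∈ scG ρ → ∀ b ∈ M, Commute (ρ a) (ρ b))
    (hprod : ∀ u, ∃ a b, (α ^ p ^ (k - 1)) a * a⁻¹ ∈ scG ρ ∧ b ∈ M ∧ u = a * b)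
    (hne : ∃ u ∈ M, u ∉ scG ρ) :
    ∃ α' : MulAut ↥M, (∀ u : ↥M, ((α' u : ↥M) : Q₀) = α u) ∧
      Heis q (ρ.comp M.subtype) α' Y (p ^ k) := by
  have hp : p.Prime := Fact.out
  have hpowM : ∀ (n : ℕ), ∀ u ∈ M, (α ^ n) u ∈ M := by
    intro n
    induction n with
    | zero => intro u hu; simpa using hu
    | succ n ih =>
      intro u hu
      rw [pow_succ, MulAut.mul_apply]
      exact ih _ (hαM u hu)
  have hpos : 0 < p ^ k := pow_pos hp.pos k
  have hinv : α⁻¹ = α ^ (p ^ k - 1) := by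
    rw [inv_eq_iff_mul_eq_one, ← pow_succ', Nat.sub_add_cancel hpos, h.apow]
  have hinvM : ∀ u ∈ M, α⁻¹ u ∈ M := by
    intro u hu
    rw [hinv]
    exact hpowM _ u hu
  let α' : MulAut ↥M :=
    { toFun := fun u => ⟨α u, hαM u u.2⟩
      invFun := fun u => ⟨α⁻¹ u, hinvM u u.2⟩
      left_inv := fun u => Subtype.ext (by simp)
      right_inv := fun u => Subtype.ext (by simp)
      map_mul' := fun u v => Subtype.ext (by simp) }
  have hα' : ∀ u : ↥M, ((α' u : ↥M) : Q₀) = α u := fun u => rfl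
  have hα'pow : ∀ (n : ℕ) (u : ↥M), (((α' ^ n) u : ↥M) : Q₀) = (α ^ n) u := by
    intro n
    induction n with
    | zero => intro u; simp
    | succ n ih =>
      intro u
      rw [pow_succ, pow_succ, MulAut.mul_apply, MulAut.mul_apply, ih, hα']
  have hscα : ∀ z ∈ scG ρ, α z ∈ scG ρ := by
    intro z hz
    rw [mem_scG] at hz ⊢
    rw [← h.tw z, conj_sc Y _ hz]
    exact hz
  have hscpow : ∀ (n : ℕ), ∀ z ∈ scG ρ, (α ^ n) z ∈ scG ρ := by
    intro n
    induction n with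
    | zero => intro z hz; simpa using hz
    | succ n ih =>
      intro z hz
      rw [pow_succ, MulAut.mul_apply]
      exact ih _ (hscα z hz)
  have : Finite Q₀ := h.fin
  refine ⟨α', hα', ⟨inferInstance, h.pgrp.to_subgroup M, fun u => h.tw u, h.pow, ?_, ?_,
    fun u v => h.comm_sc u v, ?_, ?_, ?_⟩⟩
  · apply MulEquiv.ext
    intro u
    apply Subtype.ext
    rw [hα'pow, h.apow]
    rfl
  · calc 2 ≤ p := hp.two_le
      _ = p ^ 1 := (pow_one p).symm
      _ ≤ p ^ k := Nat.pow_le_pow_right hp.pos hk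
  · intro b hb
    apply h.nondeg
    intro u
    obtain ⟨a, b', ha, hb', rfl⟩ := hprod u
    rw [map_mul]
    exact ((hcomm a ha b b.2).symm).mul_right (hb ⟨b', hb'⟩)
  · rintro u i hi hiN ⟨c, hc⟩
    have hc' : ((ρ ((α ^ i) (u : Q₀)) : (Module.End K V)ˣ) : Module.End K V)
        = c • ((ρ (u : Q₀) : (Module.End K V)ˣ) : Module.End K V) := by
      have := hc
      simp only [MonoidHom.comp_apply, Subgroup.subtype_apply, hα'pow] at this
      exact this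
    have hw : (α ^ i) (u : Q₀) * (u : Q₀)⁻¹ ∈ scG ρ := by
      rw [mem_scG]
      refine ⟨c, ?_⟩
      rw [map_mul, Units.val_mul, hc', smul_mul_assoc, map_inv, Units.mul_inv]
    have hall : ∀ j : ℕ, ((α ^ i) ^ j) (u : Q₀) * (u : Q₀)⁻¹ ∈ scG ρ := by
      intro j
      induction j with
      | zero => simp
      | succ j ih =>
        have e : ((α ^ i) ^ (j + 1)) (u : Q₀) * (u : Q₀)⁻¹ =
            (α ^ i) (((α ^ i) ^ j) (u : Q₀) * (u : Q₀)⁻¹) * ((α ^ i) (u : Q₀) * (u : Q₀)⁻¹) := by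
          rw [pow_succ', MulAut.mul_apply, map_mul, map_inv]
          group
        rw [e]
        exact (scG ρ).mul_mem (hscpow i _ ih) hw
    obtain ⟨j, hj⟩ := Cfsg.Agent.Lib.H92HHHeisOn.exists_pow_eq α p (k - 1) i
      (by rw [Nat.sub_add_cancel hk]; exact h.apow) hi (by rw [Nat.sub_add_cancel hk]; exact hiN)
    have h3 := hall j
    rw [hj] at h3
    exact hPM u u.2 h3
  · obtain ⟨u, hu, hu'⟩ := hne
    exact ⟨⟨u, hu⟩, hu'⟩

end Cfsg.Agent.Lib.H92GRHeisSub
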