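import Mathlib
import Cfsg.Agent.Lib.Helper92HHDefs
import Cfsg.Agent.Lib.Helper92GRDefs

set_option autoImplicit false

namespace Cfsg.Agent.Lib.H92GRSplitA

open Polynomial Cfsg.Agent.Lib.Helper92HHDefs Cfsg.Agent.Lib.Helper92GRDefs Cfsg.Agent.Lib.Helper73HHSc

variable {K V : Type*} [Field K] [AddCommGroup V] [Module K V]

/-- the abelian case: `C_E(τ) ∩ [E, τ] = 1`. -/
theorem disjoint_ker_range {E : Type*} [CommGroup E] [Finite E] (p : ℕ) [hpp : Fact p.Prime]
    (hp : ¬ p ∣ Nat.card E) (τ : E →* E) (hτ : ∀ e, τ^[p] e = e) :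
    Disjoint (τ / MonoidHom.id E).ker (τ / MonoidHom.id E).range := by
  rw [Subgroup.disjoint_def]
  intro e hker hrange
  obtain ⟨f, rfl⟩ := hrange
  rw [MonoidHom.mem_ker, MonoidHom.div_apply, MonoidHom.id_apply, div_eq_one] at hker
  set e := (τ / MonoidHom.id E) f with he
  have hef : e = τ f / f := by rw [he, MonoidHom.div_apply, MonoidHom.id_apply]
  have hν : ∀ g : E, ∏ i ∈ Finset.range p, τ^[i] (τ g) = ∏ i ∈ Finset.range p, τ^[i] g := by
    intro g
    have h1 : ∏ i ∈ Finset.range (p + 1), τ^[i] g = (∏ i ∈ Finset.range p, τ^[i + 1] g) * τ^[0] g :=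
      Finset.prod_range_succ' _ _
    have h2 : ∏ i ∈ Finset.range (p + 1), τ^[i] g = (∏ i ∈ Finset.range p, τ^[i] g) * τ^[p] g :=
      Finset.prod_range_succ _ _
    rw [h2, hτ g] at h1
    simp only [Function.iterate_zero, id_eq] at h1
    have h3 := mul_right_cancel h1
    rw [h3]
    exact Finset.prod_congr rfl (fun i _ => (Function.iterate_succ_apply τ i g).symm)
  have h1 : ∏ i ∈ Finset.range p, τ^[i] e = e ^ p := by
    rw [Finset.prod_congr rfl (fun i _ => Function.iterate_fixed hker i), Finset.prod_const,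
      Finset.card_range]
  have h2 : ∏ i ∈ Finset.range p, τ^[i] e = 1 := by
    rw [hef, Finset.prod_congr rfl (fun i _ => iterate_map_div τ i (τ f) f),
      Finset.prod_div_distrib, hν f, div_self']
  have h3 : e ^ p = 1 := h1.symm.trans h2
  have h4 : orderOf e ∣ p := orderOf_dvd_of_pow_eq_one h3
  rcases (Nat.dvd_prime hpp.out).1 h4 with h5 | h5
  · exact orderOf_eq_one_iff.mp h5
  · exact absurd (h5 ▸ orderOf_dvd_natCard e) hp

theorem split_aux {G E : Type*} [Group G] [Finite G] [CommGroup E] (π : G →* E)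
    (hπ : Function.Surjective π) (p : ℕ) [Fact p.Prime] (hp : ¬ p ∣ Nat.card G)
    (Z : Subgroup G) (hker : ∀ u, π u = 1 ↔ u ∈ Z) (t : MulAut G) (ht : t ^ p = 1)
    (τ : E →* E) (hτ : ∀ u, τ (π u) = π (t u)) :
    ∃ P M : Subgroup G, (∀ u, u ∈ P ↔ t u * u⁻¹ ∈ Z) ∧ Z ≤ M ∧ (∀ v, t v * v⁻¹ ∈ M) ∧
      (∀ u ∈ M, ∃ v, u * (t v * v⁻¹)⁻¹ ∈ Z) ∧ (∀ u ∈ M, t u * u⁻¹ ∈ Z → u ∈ Z) ∧
      (∀ u, ∃ a ∈ P, ∃ b ∈ M, u = a * b) ∧
      Nat.card P * Nat.card M = Nat.card G * Nat.card Z ∧
      (∀ β : MulAut G, Commute β t → (∀ z ∈ Z, β z ∈ Z) →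
        (∀ u ∈ P, β u ∈ P) ∧ ∀ u ∈ M, β u ∈ M) := by
  classical
  have : Finite E := Finite.of_surjective π hπ
  have hcardE : Nat.card E ∣ Nat.card G := Subgroup.card_dvd_of_surjective π hπ
  have hpE : ¬ p ∣ Nat.card E := fun h => hp (h.trans hcardE)
  have hit : ∀ (k : ℕ) (u : G), τ^[k] (π u) = π ((t ^ k) u) := by
    intro k
    induction k with
    | zero => intro u; simp
    | succ k ih =>
      intro u
      rw [Function.iterate_succ_apply', ih, hτ, pow_succ', MulAut.mul_apply]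
  have hτp : ∀ e, τ^[p] e = e := by
    intro e
    obtain ⟨u, rfl⟩ := hπ e
    rw [hit, ht, MulAut.one_apply]
  set δ : E →* E := τ / MonoidHom.id E with hδ
  have hδπ : ∀ u, δ (π u) = π (t u * u⁻¹) := by
    intro u
    rw [hδ, MonoidHom.div_apply, MonoidHom.id_apply, hτ, map_mul, map_inv, div_eq_mul_inv]
  have hdis : Disjoint δ.ker δ.range := disjoint_ker_range p hpE τ hτp
  have hcard : Nat.card δ.ker * Nat.card δ.range = Nat.card E := by
    rw [← Subgroup.index_ker δ, mul_comm]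
    exact Subgroup.index_mul_card _
  have hcompl : Subgroup.IsComplement' δ.ker δ.range :=
    Subgroup.isComplement'_of_card_mul_and_disjoint hcard hdis
  have hP : ∀ u, u ∈ δ.ker.comap π ↔ t u * u⁻¹ ∈ Z := by
    intro u
    rw [Subgroup.mem_comap, MonoidHom.mem_ker, hδπ, hker]
  have hZM : Z ≤ δ.range.comap π := by
    intro z hz
    rw [Subgroup.mem_comap, (hker z).2 hz]
    exact Subgroup.one_mem _
  have hM3 : ∀ v, t v * v⁻¹ ∈ δ.range.comap π := by
    intro v
    rw [Subgroup.mem_comap, ← hδπ]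
    exact ⟨π v, rfl⟩
  have hM4 : ∀ u ∈ δ.range.comap π, ∃ v, u * (t v * v⁻¹)⁻¹ ∈ Z := by
    intro u hu
    obtain ⟨e, he⟩ := hu
    obtain ⟨v, rfl⟩ := hπ e
    refine ⟨v, ?_⟩
    rw [← hker, map_mul, map_inv, ← hδπ, he, mul_inv_cancel]
  refine ⟨δ.ker.comap π, δ.range.comap π, hP, hZM, hM3, hM4, ?_, ?_, ?_, ?_⟩
  · intro u hu huZ
    have h1 : π u ∈ δ.ker := (hP u).2 huZ
    have h2 : π u ∈ δ.range := hu
    exact (hker u).1 (Subgroup.disjoint_def.mp hdis h1 h2)
  · intro u
    obtain ⟨⟨⟨k, hk⟩, ⟨r, hr⟩⟩, hkr, -⟩ := hcompl.existsUnique (π u)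
    simp only at hkr
    obtain ⟨b, rfl⟩ := hπ r
    refine ⟨u * b⁻¹, ?_, b, hr, by group⟩
    rw [Subgroup.mem_comap, map_mul, map_inv, ← hkr, mul_inv_cancel_right]
    exact hk
  · have i1 : (δ.ker.comap π).index = Nat.card δ.range := by
      rw [Subgroup.index_comap_of_surjective _ hπ, Subgroup.index_ker]
    have i2 : (δ.range.comap π).index = δ.range.index := Subgroup.index_comap_of_surjective _ hπ
    have c1 : (δ.ker.comap π).index * Nat.card (δ.ker.comap π) = Nat.card G := Subgroup.index_mul_card _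
    have c2 : (δ.range.comap π).index * Nat.card (δ.range.comap π) = Nat.card G :=
      Subgroup.index_mul_card _
    have c3 : δ.range.index * Nat.card δ.range = Nat.card E := Subgroup.index_mul_card _
    have hZker : Z = π.ker := by
      ext u
      rw [MonoidHom.mem_ker, hker]
    have c4 : Nat.card E * Nat.card Z = Nat.card G := by
      have h1 : π.ker.index = Nat.card E := by
        rw [Subgroup.index_ker, MonoidHom.range_eq_top.2 hπ, Subgroup.card_top]
      rw [hZker, ← h1]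
      exact Subgroup.index_mul_card _
    rw [i1] at c1
    rw [i2] at c2
    have hE0 : 0 < Nat.card E := Nat.card_pos
    have key : Nat.card E * (Nat.card (δ.ker.comap π) * Nat.card (δ.range.comap π)) =
        Nat.card E * (Nat.card G * Nat.card Z) := by
      calc Nat.card E * (Nat.card (δ.ker.comap π) * Nat.card (δ.range.comap π))
          = (δ.range.index * Nat.card δ.range) *
            (Nat.card (δ.ker.comap π) * Nat.card (δ.range.comap π)) := by rw [c3]
        _ = (Nat.card δ.range * Nat.card (δ.ker.comap π)) *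
            (δ.range.index * Nat.card (δ.range.comap π)) := by ring
        _ = Nat.card G * Nat.card G := by rw [c1, c2]
        _ = Nat.card G * (Nat.card E * Nat.card Z) := by rw [c4]
        _ = Nat.card E * (Nat.card G * Nat.card Z) := by ring
    exact Nat.eq_of_mul_eq_mul_left hE0 key
  · intro β hβ hβZ
    have hβt : ∀ u, β (t u) = t (β u) := by
      intro u
      have := congrArg (fun f : MulAut G => f u) hβ.eq
      simpa [MulAut.mul_apply] using this
    constructor
    · intro u hu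
      rw [hP] at hu ⊢
      have := hβZ _ hu
      rwa [map_mul, map_inv, hβt] at this
    · intro u hu
      obtain ⟨v, hv⟩ := hM4 u hu
      have e : β u = β (u * (t v * v⁻¹)⁻¹) * (t (β v) * (β v)⁻¹) := by
        rw [← hβt, ← map_inv, ← map_mul, ← map_mul]
        congr 1
        group
      rw [e]
      exact Subgroup.mul_mem _ (hZM (hβZ _ hv)) (hM3 _)

/-- PIECE SplitA (pure group theory).  Coprime decomposition `G/Z = C(t) × [G/Z, t]` of the abelian group `G/Z`, pulled back to `G`. -/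
theorem split {G : Type*} [Group G] [Finite G] (p : ℕ) [Fact p.Prime] (hp : ¬ p ∣ Nat.card G)
    (Z : Subgroup G) (hab : ∀ u v : G, u * v * u⁻¹ * v⁻¹ ∈ Z) (t : MulAut G) (ht : t ^ p = 1)
    (hZ : ∀ z ∈ Z, t z ∈ Z) :
    ∃ P M : Subgroup G, (∀ u, u ∈ P ↔ t u * u⁻¹ ∈ Z) ∧ Z ≤ M ∧ (∀ v, t v * v⁻¹ ∈ M) ∧
      (∀ u ∈ M, ∃ v, u * (t v * v⁻¹)⁻¹ ∈ Z) ∧ (∀ u ∈ M, t u * u⁻¹ ∈ Z → u ∈ Z) ∧
      (∀ u, ∃ a ∈ P, ∃ b ∈ M, u = a * b) ∧
      Nat.card P * Nat.card M = Nat.card G * Nat.card Z ∧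
      (∀ β : MulAut G, Commute β t → (∀ z ∈ Z, β z ∈ Z) →
        (∀ u ∈ P, β u ∈ P) ∧ ∀ u ∈ M, β u ∈ M) := by
  have hZn : Z.Normal := by
    constructor
    intro z hz u
    have : u * z * u⁻¹ = (u * z * u⁻¹ * z⁻¹) * z := by group
    rw [this]
    exact Z.mul_mem (hab u z) hz
  let _ : CommGroup (G ⧸ Z) :=
    { (inferInstance : Group (G ⧸ Z)) with
      mul_comm := by
        intro a b
        induction a using QuotientGroup.induction_on with
        | H u =>
          induction b using QuotientGroup.induction_on with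
          | H v =>
            rw [← QuotientGroup.mk_mul, ← QuotientGroup.mk_mul, QuotientGroup.eq]
            have := hab v⁻¹ u⁻¹
            have e : (u * v)⁻¹ * (v * u) = v⁻¹ * u⁻¹ * v⁻¹⁻¹ * u⁻¹⁻¹ := by group
            rw [e]
            exact this }
  exact split_aux (QuotientGroup.mk' Z) (QuotientGroup.mk'_surjective Z) p hp Z
    (fun u => QuotientGroup.eq_one_iff u) t ht
    (QuotientGroup.map Z Z t.toMonoidHom (fun z hz => hZ z hz)) (fun u => rfl)

end Cfsg.Agent.Lib.H92GRSplitA
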