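import Mathlib
import Cfsg.Agent.Lib.Helper92HHDefs
import Cfsg.Agent.Lib.Helper92GRDefs

set_option autoImplicit false

namespace Cfsg.Agent.Lib.H92GRSplitB

open Polynomial Cfsg.Agent.Lib.Helper92HHDefs Cfsg.Agent.Lib.Helper92GRDefs Cfsg.Agent.Lib.Helper73HHSc

variable {K V : Type*} [Field K] [AddCommGroup V] [Module K V]

/-- PIECE SplitB.  The two halves commute.  Let `t = α^j`, `T = Y^j` (`T ρ u T⁻¹ = ρ (t u)` by `tw`).  `ρ (t a) = c • ρ a`.  `ρ a ρ v (ρ a)⁻¹ (ρ v)⁻¹ = β • 1` (`comm_sc`); conjugating by `T` (which fixes scalars, `conj_sc`):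
`ρ (t a) ρ (t v) ρ (t a)⁻¹ ρ (t v)⁻¹ = β • 1`, and the `c` cancels: `ρ a ρ (t v) (ρ a)⁻¹ = β • ρ (t v)`, `ρ a ρ v (ρ a)⁻¹ = β • ρ v`.  So `ρ a` commutes with `ρ (t v) (ρ v)⁻¹`, and with scalars. -/
theorem commute_of {q : ℕ} {Q₀ : Type*} [Group Q₀] {ρ : Q₀ →* (Module.End K V)ˣ}
    {α : MulAut Q₀} {Y : (Module.End K V)ˣ} {N : ℕ} (h : HeisW q ρ α Y N) (j : ℕ) (a b : Q₀)
    (ha : (α ^ j) a * a⁻¹ ∈ scG ρ) (hb : ∃ v, b * ((α ^ j) v * v⁻¹)⁻¹ ∈ scG ρ) :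
    Commute (ρ a) (ρ b) := by
  obtain ⟨v, hv⟩ := hb
  have hcen : ∀ g : (Module.End K V)ˣ, IsSc (g : Module.End K V) →
      ∀ x : (Module.End K V)ˣ, x * g = g * x := by
    intro g hg x
    have := conj_sc x g hg
    rw [mul_inv_eq_iff_eq_mul] at this
    exact this
  have hconj : ∀ (k : ℕ) (u : Q₀), Y ^ k * ρ u * (Y ^ k)⁻¹ = ρ ((α ^ k) u) := by
    intro k
    induction k with
    | zero => intro u; simp
    | succ k ih =>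
      intro u
      rw [pow_succ' Y, pow_succ' α, MulAut.mul_apply, ← h.tw, ← ih]
      group
  have c1 := hcen _ (mem_scG.mp ha)
  have cβ := hcen _ (h.comm_sc a v)
  have c2 := hcen _ (mem_scG.mp hv)
  have hz1 : ρ ((α ^ j) a) = ρ ((α ^ j) a * a⁻¹) * ρ a := by
    rw [← map_mul]
    simp
  have hβ : ρ (a * v * a⁻¹ * v⁻¹) = ρ a * ρ v * (ρ a)⁻¹ * (ρ v)⁻¹ := by
    simp only [map_mul, map_inv]
  have hβ' : Y ^ j * ρ (a * v * a⁻¹ * v⁻¹) * (Y ^ j)⁻¹ = ρ (a * v * a⁻¹ * v⁻¹) :=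
    conj_sc _ _ (h.comm_sc a v)
  have hβ'' : Y ^ j * ρ (a * v * a⁻¹ * v⁻¹) * (Y ^ j)⁻¹
      = ρ ((α ^ j) a) * ρ ((α ^ j) v) * (ρ ((α ^ j) a))⁻¹ * (ρ ((α ^ j) v))⁻¹ := by
    rw [hconj]
    simp only [map_mul, map_inv]
  have hb2 : ρ b = ρ (b * ((α ^ j) v * v⁻¹)⁻¹) * (ρ ((α ^ j) v) * (ρ v)⁻¹) := by
    simp only [map_mul, map_inv, mul_inv_rev, inv_inv]
    group
  generalize ρ ((α ^ j) a * a⁻¹) = z at *
  generalize ρ (a * v * a⁻¹ * v⁻¹) = β at *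
  generalize ρ (b * ((α ^ j) v * v⁻¹)⁻¹) = z2 at *
  generalize ρ ((α ^ j) v) = W' at *
  generalize ρ v = W at *
  generalize ρ a = A at *
  rw [hb2]
  have e3 : β = A * W' * A⁻¹ * W'⁻¹ := by
    rw [← hβ', hβ'', hz1]
    calc (z * A) * W' * (z * A)⁻¹ * W'⁻¹ = z * (A * W' * A⁻¹) * z⁻¹ * W'⁻¹ := by group
      _ = (A * W' * A⁻¹) * z * z⁻¹ * W'⁻¹ := by rw [← c1 (A * W' * A⁻¹)]
      _ = A * W' * A⁻¹ * W'⁻¹ := by group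
  have e1 : A * W' * A⁻¹ = β * W' := by rw [e3]; group
  have e2 : A * W * A⁻¹ = β * W := by rw [hβ]; group
  have e4 : A * (W' * W⁻¹) * A⁻¹ = W' * W⁻¹ := by
    calc A * (W' * W⁻¹) * A⁻¹ = (A * W' * A⁻¹) * (A * W * A⁻¹)⁻¹ := by group
      _ = β * (W' * W⁻¹) * β⁻¹ := by rw [e1, e2]; group
      _ = W' * W⁻¹ := by rw [← cβ (W' * W⁻¹)]; group
  have e5 : A * (W' * W⁻¹) = (W' * W⁻¹) * A := by
    rw [mul_inv_eq_iff_eq_mul] at e4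
    exact e4
  show A * (z2 * (W' * W⁻¹)) = z2 * (W' * W⁻¹) * A
  rw [← mul_assoc, c2 A, mul_assoc, e5]
  group

end Cfsg.Agent.Lib.H92GRSplitB
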