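import Mathlib
import Cfsg.Agent.Lib.Helper92HHDefs
import Cfsg.Agent.Lib.Helper92GRDefs

set_option autoImplicit false

namespace Cfsg.Agent.Lib.H92GRHeisRes

open Polynomial Cfsg.Agent.Lib.Helper92HHDefs Cfsg.Agent.Lib.Helper92GRDefs Cfsg.Agent.Lib.Helper73HHSc

variable {K V : Type*} [Field K] [AddCommGroup V] [Module K V]

/-- PIECE HeisRes.  A Heisenberg pair restricted to a nonzero invariant subspace is a Heisenberg pair with the same scalar elements. -/
theorem heis_res {q : ℕ} {Q₀ : Type*} [Group Q₀] {ρ : Q₀ →* (Module.End K V)ˣ} {α : MulAut Q₀}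
    {Y : (Module.End K V)ˣ} {N : ℕ} (h : Heis q ρ α Y N) (U : Submodule K V) (hU : U ≠ ⊥)
    (ρ' : Q₀ →* (Module.End K ↥U)ˣ) (Y' : (Module.End K ↥U)ˣ)
    (h1 : ∀ (g : Q₀) (u : ↥U), (((ρ' g : (Module.End K ↥U)ˣ) : Module.End K ↥U) u : V)
        = ((ρ g : (Module.End K V)ˣ) : Module.End K V) (u : V))
    (h2 : ∀ u : ↥U, (((Y' : Module.End K ↥U) u : ↥U) : V) = (Y : Module.End K V) (u : V)) :
    Heis q ρ' α Y' N ∧ ∀ u, IsSc ((ρ' u : (Module.End K ↥U)ˣ) : Module.End K ↥U) ↔
      IsSc ((ρ u : (Module.End K V)ˣ) : Module.End K V) := by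
  obtain ⟨x, hxU, hx0⟩ := (Submodule.ne_bot_iff U).1 hU
  -- scalars restrict
  have down : ∀ u, IsSc ((ρ u : (Module.End K V)ˣ) : Module.End K V) →
      IsSc ((ρ' u : (Module.End K ↥U)ˣ) : Module.End K ↥U) := by
    rintro u ⟨c, hc⟩
    refine ⟨c, LinearMap.ext fun y => Subtype.ext ?_⟩
    rw [h1, hc]
    simp
  -- key fact
  have key : ∀ b, (∀ g, Commute (ρ' b) (ρ' g)) →
      IsSc ((ρ b : (Module.End K V)ˣ) : Module.End K V) := by
    intro b hb
    apply h.nondeg
    intro g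
    obtain ⟨β, hβ⟩ := h.comm_sc b g
    have e1 : ρ' (b * g * b⁻¹ * g⁻¹) = 1 := by
      rw [map_mul, map_mul, map_mul, map_inv, map_inv, (hb g).eq]
      group
    have e2 := h1 (b * g * b⁻¹ * g⁻¹) ⟨x, hxU⟩
    rw [e1, hβ] at e2
    have e3 : x = β • x := by simpa using e2
    have hβ1 : β = 1 := by
      have : (β - 1) • x = 0 := by rw [sub_smul, one_smul, ← e3, sub_self]
      rcases smul_eq_zero.1 this with h0 | h0
      · exact sub_eq_zero.1 h0
      · exact absurd h0 hx0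
    rw [hβ1, one_smul] at hβ
    have e4 : ρ (b * g * b⁻¹ * g⁻¹) = 1 := Units.ext hβ
    rw [map_mul, map_mul, map_mul, map_inv, map_inv] at e4
    show ρ b * ρ g = ρ g * ρ b
    calc ρ b * ρ g = (ρ b * ρ g * (ρ b)⁻¹ * (ρ g)⁻¹) * (ρ g * ρ b) := by group
      _ = ρ g * ρ b := by rw [e4, one_mul]
  have up : ∀ u, IsSc ((ρ' u : (Module.End K ↥U)ˣ) : Module.End K ↥U) →
      IsSc ((ρ u : (Module.End K V)ˣ) : Module.End K V) := by
    intro u hu
    apply key
    intro g
    exact Units.ext (isSc_comm hu _)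
  have hYpow : ∀ (n : ℕ) (u : ↥U), ((((Y' ^ n : (Module.End K ↥U)ˣ) : Module.End K ↥U) u : ↥U) : V)
      = ((Y ^ n : (Module.End K V)ˣ) : Module.End K V) (u : V) := by
    intro n
    induction n with
    | zero => intro u; simp
    | succ n ih =>
      intro u
      rw [pow_succ, pow_succ, Units.val_mul, Units.val_mul, Module.End.mul_apply,
        Module.End.mul_apply, ih, h2]
  refine ⟨⟨h.fin, h.pgrp, ?_, ?_, h.apow, h.two_le, fun u v => down _ (h.comm_sc u v),
    fun b hb => down _ (key b hb), ?_, ?_⟩, fun u => ⟨up u, down u⟩⟩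
  · intro u
    rw [mul_inv_eq_iff_eq_mul]
    apply Units.ext
    apply LinearMap.ext
    intro y
    apply Subtype.ext
    rw [Units.val_mul, Units.val_mul, Module.End.mul_apply, Module.End.mul_apply, h2, h1, h1, h2]
    have e := h.tw u
    rw [mul_inv_eq_iff_eq_mul] at e
    have e' := congrArg (fun z : (Module.End K V)ˣ => (z : Module.End K V) (y : V)) e
    simpa using e'
  · apply Units.ext
    apply LinearMap.ext
    intro y
    apply Subtype.ext
    rw [hYpow, h.pow]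
    simp
  · rintro u i hi hiN ⟨c, hc⟩
    apply down
    apply h.free u i hi hiN
    have e1 : IsSc ((ρ' ((α ^ i) u * u⁻¹) : (Module.End K ↥U)ˣ) : Module.End K ↥U) := by
      refine ⟨c, ?_⟩
      rw [map_mul, Units.val_mul, hc, smul_mul_assoc, map_inv, Units.mul_inv]
    obtain ⟨c', hc'⟩ := up _ e1
    refine ⟨c', ?_⟩
    rw [map_mul, Units.val_mul, map_inv] at hc'
    calc ((ρ ((α ^ i) u) : (Module.End K V)ˣ) : Module.End K V)
        = (((ρ ((α ^ i) u) : (Module.End K V)ˣ) : Module.End K V) *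
            (((ρ u)⁻¹ : (Module.End K V)ˣ) : Module.End K V)) *
            ((ρ u : (Module.End K V)ˣ) : Module.End K V) := by
          rw [mul_assoc, Units.inv_mul, mul_one]
      _ = c' • ((ρ u : (Module.End K V)ˣ) : Module.End K V) := by
          rw [hc', smul_mul_assoc, one_mul]
  · obtain ⟨u, hu⟩ := h.nonsc
    exact ⟨u, fun hu' => hu (up u hu')⟩

end Cfsg.Agent.Lib.H92GRHeisRes
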