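import Mathlib
import Cfsg.Agent.Lib.Helper92HHDefs
import Cfsg.Agent.Lib.Helper92GRDefs
import Cfsg.Agent.Lib.H92HHRes

set_option autoImplicit false

namespace Cfsg.Agent.Lib.H92GRResPair

open Polynomial Cfsg.Agent.Lib.Helper92HHDefs Cfsg.Agent.Lib.Helper92GRDefs Cfsg.Agent.Lib.Helper73HHSc

variable {K V : Type*} [Field K] [AddCommGroup V] [Module K V]

/-- PIECE ResPair (plumbing).  Restriction of a representation and of an operator to an invariant subspace (`H92HHRes.resU`, `resU_apply`; `(ρ g)⁻¹ = ρ g⁻¹`). -/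
theorem exists_res {Q₀ : Type*} [Group Q₀] (ρ : Q₀ →* (Module.End K V)ˣ) (Y : (Module.End K V)ˣ)
    (U : Submodule K V)
    (hρ : ∀ g, ∀ u ∈ U, ((ρ g : (Module.End K V)ˣ) : Module.End K V) u ∈ U)
    (hY : ∀ u ∈ U, (Y : Module.End K V) u ∈ U)
    (hYi : ∀ u ∈ U, ((Y⁻¹ : (Module.End K V)ˣ) : Module.End K V) u ∈ U) :
    ∃ (ρ' : Q₀ →* (Module.End K ↥U)ˣ) (Y' : (Module.End K ↥U)ˣ),
      (∀ (g : Q₀) (u : ↥U), (((ρ' g : (Module.End K ↥U)ˣ) : Module.End K ↥U) u : V)
        = ((ρ g : (Module.End K V)ˣ) : Module.End K V) (u : V)) ∧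
      (∀ u : ↥U, (((Y' : Module.End K ↥U) u : ↥U) : V) = (Y : Module.End K V) (u : V)) := by
  have hρi : ∀ g, ∀ u ∈ U, (((ρ g)⁻¹ : (Module.End K V)ˣ) : Module.End K V) u ∈ U := by
    intro g u hu
    rw [← map_inv]
    exact hρ g⁻¹ u hu
  let ρ' : Q₀ →* (Module.End K ↥U)ˣ :=
    { toFun := fun g => H92HHRes.resU (ρ g) U (hρ g) (hρi g)
      map_one' := by
        apply Units.ext
        ext u
        rw [H92HHRes.resU_apply]
        simp
      map_mul' := by
        intro a b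
        apply Units.ext
        ext u
        rw [H92HHRes.resU_apply, Units.val_mul, Module.End.mul_apply, H92HHRes.resU_apply,
          H92HHRes.resU_apply]
        simp [Module.End.mul_apply] }
  exact ⟨ρ', H92HHRes.resU Y U hY hYi, fun g u => rfl, fun u => rfl⟩

end Cfsg.Agent.Lib.H92GRResPair
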