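import Mathlib
import Cfsg.Agent.Lib.Helper92HHDefs
import Cfsg.Agent.Lib.Helper92GRDefs
import Cfsg.Agent.Lib.H92GRResPair
import Cfsg.Agent.Lib.H92GRHeisRes
import Cfsg.Agent.Lib.H92HHATrick
import Cfsg.Agent.Lib.H92HHCrit
import Cfsg.Agent.Lib.H92HHBurn
import Cfsg.Agent.Lib.H92HHBasis
import Cfsg.Agent.Lib.H92HHRes
import Cfsg.Agent.Lib.H92HHImprim

set_option autoImplicit false

namespace Cfsg.Agent.Lib.H92GRSubCrit

open Polynomial Cfsg.Agent.Lib.Helper92HHDefs Cfsg.Agent.Lib.Helper92GRDefs Cfsg.Agent.Lib.Helper73HHSc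

variable {K V : Type*} [Field K] [AddCommGroup V] [Module K V]

/-- PIECE SubCrit (assembly).  The critical lemma for a Heisenberg pair on a possibly reducible space.
`V ≠ 0` (`one_ne_zero_of_heis`).  Choose `U ≠ ⊥` of minimal dimension among the nonzero subspaces invariant under all `ρ g` and `Y` (`Y⁻¹ = Y^(N-1)` preserves it too).  `ResPair.exists_res`, `HeisRes.heis_res`: a Heisenberg pair on `↥U`,
irreducible under `ρ'` and `Y'` (a proper invariant `W ≤ ↥U` gives `W.map U.subtype`).  `ATrick.irr_of_irr`, `Crit.crit`: either `minDegOn Y' ⊤ N`, which transfers to `minDegOn Y U N` (`H92HHRes.aeval_res`) and to `⊤` (`H92HHImprim.mono`),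
or `finrank ↥U = N - 1`; then `Burn.span_eq_top` + `Basis.card_eq` give `(N-1)² |scSub ρ'| = |Q₀|` and `scSub ρ' = scSub ρ` as sets. -/
theorem sub_crit [IsAlgClosed K] [FiniteDimensional K V] {q : ℕ} [Fact q.Prime]
    (hq : (q : K) ≠ 0) {Q₀ : Type*} [Group Q₀] {ρ : Q₀ →* (Module.End K V)ˣ} {α : MulAut Q₀}
    {Y : (Module.End K V)ˣ} {N : ℕ} (h : Heis q ρ α Y N) :
    minDegOn (Y : Module.End K V) ⊤ N ∨ (N - 1) ^ 2 * Nat.card (scSub ρ) = Nat.card Q₀ := by
  classical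
  have hV : (⊤ : Submodule K V) ≠ ⊥ := by
    intro htb
    obtain ⟨u, hu⟩ := h.nonsc
    apply hu
    refine ⟨0, LinearMap.ext fun v => ?_⟩
    have hv : v = 0 := by
      have : v ∈ (⊤ : Submodule K V) := Submodule.mem_top
      rwa [htb, Submodule.mem_bot] at this
    rw [hv]; simp
  have hex : ∃ n, ∃ U : Submodule K V, (U ≠ ⊥ ∧
      (∀ g, ∀ u ∈ U, ((ρ g : (Module.End K V)ˣ) : Module.End K V) u ∈ U) ∧
      (∀ u ∈ U, (Y : Module.End K V) u ∈ U)) ∧ Module.finrank K U = n :=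
    ⟨_, ⊤, ⟨hV, fun _ _ _ => Submodule.mem_top, fun _ _ => Submodule.mem_top⟩, rfl⟩
  obtain ⟨U, ⟨hU0, hUρ, hUY⟩, hn⟩ := Nat.find_spec hex
  have hmin : ∀ W : Submodule K V, W ≠ ⊥ →
      (∀ g, ∀ u ∈ W, ((ρ g : (Module.End K V)ˣ) : Module.End K V) u ∈ W) →
      (∀ u ∈ W, (Y : Module.End K V) u ∈ W) → Module.finrank K U ≤ Module.finrank K W := by
    intro W h1 h2 h3
    rw [hn]
    exact Nat.find_min' hex ⟨W, ⟨h1, h2, h3⟩, rfl⟩
  have hpowU : ∀ k : ℕ, ∀ u ∈ U, ((Y : Module.End K V) ^ k) u ∈ U := by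
    intro k
    induction k with
    | zero => intro u hu; simpa using hu
    | succ k ih =>
      intro u hu
      rw [pow_succ, Module.End.mul_apply]
      exact ih _ (hUY u hu)
  have hYinv : Y⁻¹ = Y ^ (N - 1) := by
    symm
    apply eq_inv_of_mul_eq_one_left
    rw [← pow_succ]
    have : N - 1 + 1 = N := by have := h.two_le; omega
    rw [this, h.pow]
  have hUYi : ∀ u ∈ U, ((Y⁻¹ : (Module.End K V)ˣ) : Module.End K V) u ∈ U := by
    intro u hu
    rw [hYinv, Units.val_pow_eq_pow_val]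
    exact hpowU _ u hu
  obtain ⟨ρ', Y', h1, h2⟩ := H92GRResPair.exists_res ρ Y U hUρ hUY hUYi
  obtain ⟨hH', hsc⟩ := H92GRHeisRes.heis_res h U hU0 ρ' Y' h1 h2
  have hnt : Nontrivial ↥U := Submodule.nontrivial_iff_ne_bot.2 hU0
  have hirr' : ∀ W : Submodule K ↥U,
      (∀ g, ∀ w ∈ W, ((ρ' g : (Module.End K ↥U)ˣ) : Module.End K ↥U) w ∈ W) →
      (∀ w ∈ W, (Y' : Module.End K ↥U) w ∈ W) → W = ⊥ ∨ W = ⊤ := by
    intro W hWρ hWY
    by_cases hW0 : W = ⊥
    · exact Or.inl hW0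
    right
    have hle := hmin (W.map U.subtype)
      (by
        intro hb
        apply hW0
        rw [eq_bot_iff]
        intro w hw
        have hw' : (w : V) ∈ W.map U.subtype := ⟨w, hw, rfl⟩
        rw [hb, Submodule.mem_bot] at hw'
        rw [Submodule.mem_bot]
        exact Subtype.ext hw')
      (by
        rintro g _ ⟨w, hw, rfl⟩
        exact ⟨_, hWρ g w hw, h1 g w⟩)
      (by
        rintro _ ⟨w, hw, rfl⟩
        exact ⟨_, hWY w hw, h2 w⟩)
    rw [Submodule.finrank_map_subtype_eq] at hle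
    exact Submodule.eq_top_of_finrank_eq (le_antisymm (Submodule.finrank_le W) hle)
  have hIrr := H92HHATrick.irr_of_irr hq hH' hirr'
  rcases H92HHCrit.crit hq hH' hIrr with hA | ⟨hB, -⟩
  · left
    apply H92HHImprim.mono (le_top : U ≤ ⊤)
    intro f hf hvan
    apply hA f hf
    intro u _
    apply Subtype.ext
    rw [H92HHRes.aeval_res (Y : Module.End K V) U (Y' : Module.End K ↥U) h2 f u]
    exact hvan u u.2
  · right
    have hc := H92HHBasis.card_eq hq hH' (H92HHBurn.span_eq_top ρ' hIrr)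
    rw [hB] at hc
    have hset : scSub ρ' = scSub ρ := Set.ext fun u => hsc u
    rw [hset] at hc
    exact hc

end Cfsg.Agent.Lib.H92GRSubCrit
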