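import Mathlib
import Cfsg.Agent.Lib.Helper92HHDefs
import Cfsg.Agent.Lib.Helper92GRDefs
import Cfsg.Agent.Lib.H92GRGATrick
import Cfsg.Agent.Lib.H92GRGBasis
import Cfsg.Agent.Lib.H92GRGComm
import Cfsg.Agent.Lib.H92GRGOrb
import Cfsg.Agent.Lib.H92GRSplitA
import Cfsg.Agent.Lib.H92GRSplitB
import Cfsg.Agent.Lib.H92GRHeisSub
import Cfsg.Agent.Lib.H92GRSubCrit
import Cfsg.Agent.Lib.H92GRGArith
import Cfsg.Agent.Lib.H92HHBurn
import Cfsg.Agent.Lib.H92HHLA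
import Cfsg.Agent.Lib.H92HHHeisOn

set_option autoImplicit false

namespace Cfsg.Agent.Lib.H92GRGCrit

open Polynomial Cfsg.Agent.Lib.Helper92HHDefs Cfsg.Agent.Lib.Helper92GRDefs Cfsg.Agent.Lib.Helper73HHSc

variable {K V : Type*} [Field K] [AddCommGroup V] [Module K V]

theorem alpha_mem_sc {q N : ℕ} {Q₀ : Type*} [Group Q₀] {ρ : Q₀ →* (Module.End K V)ˣ} {α : MulAut Q₀}
    {Y : (Module.End K V)ˣ} (h : HeisW q ρ α Y N) {z : Q₀} (hz : z ∈ scG ρ) : α z ∈ scG ρ := by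
  rw [mem_scG, ← h.tw, conj_sc Y _ hz]
  exact hz

theorem pow_mem_of {G : Type*} [Group G] (Z : Subgroup G) (γ : MulAut G) (hγ : ∀ z ∈ Z, γ z ∈ Z)
    (j : ℕ) : ∀ z ∈ Z, (γ ^ j) z ∈ Z := by
  induction j with
  | zero => intro z hz; simpa using hz
  | succ j ih =>
    intro z hz
    rw [pow_succ', MulAut.mul_apply]
    exact hγ _ (ih z hz)

theorem pow_comm_mem {G : Type*} [Group G] (Z : Subgroup G) (γ : MulAut G) (hγ : ∀ z ∈ Z, γ z ∈ Z)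
    {u : G} (hu : γ u * u⁻¹ ∈ Z) (j : ℕ) : (γ ^ j) u * u⁻¹ ∈ Z := by
  induction j with
  | zero => simp
  | succ j ih =>
    have e : (γ ^ (j + 1)) u * u⁻¹ = γ ((γ ^ j) u * u⁻¹) * (γ u * u⁻¹) := by
      rw [pow_succ', MulAut.mul_apply, map_mul, map_inv]
      group
    rw [e]
    exact Z.mul_mem (hγ _ ih) hu

/-- PIECE GCrit (assembly): the GENERALISED critical lemma (no freeness). -/
theorem gcrit [IsAlgClosed K] [FiniteDimensional K V] [Nontrivial V] {p q k : ℕ} [Fact p.Prime]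
    [Fact q.Prime] (hpq : p ≠ q) (hq : (q : K) ≠ 0) (hk : 1 ≤ k) {Q₀ : Type*} [Group Q₀]
    {ρ : Q₀ →* (Module.End K V)ˣ} {α : MulAut Q₀} {Y : (Module.End K V)ˣ}
    (h : HeisW q ρ α Y (p ^ k))
    (hirr : ∀ W : Submodule K V,
      (∀ g, ∀ w ∈ W, ((ρ g : (Module.End K V)ˣ) : Module.End K V) w ∈ W) →
      (∀ w ∈ W, (Y : Module.End K V) w ∈ W) → W = ⊥ ∨ W = ⊤)
    (hne : ∃ u, (α ^ p ^ (k - 1)) u * u⁻¹ ∉ scG ρ) :
    minDegOn (Y : Module.End K V) ⊤ (p ^ k) ∨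
      ∃ B : Subgroup Q₀, scG ρ ≤ B ∧ (∀ u, α u * u⁻¹ ∈ B) ∧
        Nat.card B = (p ^ k - 1) ^ 2 * Nat.card (scG ρ) := by
  classical
  have hfin : Finite Q₀ := h.fin
  have hpp : p.Prime := Fact.out
  have hqp : q.Prime := Fact.out
  have hab : ∀ u v : Q₀, u * v * u⁻¹ * v⁻¹ ∈ scG ρ := h.comm_sc
  have hαZ : ∀ z ∈ scG ρ, α z ∈ scG ρ := fun z hz => alpha_mem_sc h hz
  have hτZ : ∀ z ∈ scG ρ, (α ^ p ^ (k - 1)) z ∈ scG ρ := pow_mem_of _ α hαZ _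
  have hkk : k - 1 + 1 = k := by omega
  have hτp : (α ^ p ^ (k - 1)) ^ p = 1 := by
    rw [← pow_mul, ← pow_succ, hkk]
    exact h.apow
  have hpQ : ¬ p ∣ Nat.card Q₀ := by
    obtain ⟨n, hn⟩ := h.pgrp.exists_card_eq
    rw [hn]
    intro hd
    exact hpq ((Nat.prime_dvd_prime_iff_eq hpp hqp).1 (hpp.dvd_of_dvd_pow hd))
  obtain ⟨P, M, hP, hZM, hM3, hM4, hM5, hPM, hcard, hβ⟩ :=
    Cfsg.Agent.Lib.H92GRSplitA.split p hpQ (scG ρ) hab (α ^ p ^ (k - 1)) hτp hτZ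
  obtain ⟨hαP, hαM⟩ := hβ α ((Commute.refl α).pow_right _) hαZ
  have hneM : ∃ u ∈ M, u ∉ scG ρ := by
    obtain ⟨u, hu⟩ := hne
    exact ⟨_, hM3 u, hu⟩
  obtain ⟨α', hα', hHeis⟩ := Cfsg.Agent.Lib.H92GRHeisSub.heis_sub hk h M hZM hαM hM5
    (fun a ha b hb => Cfsg.Agent.Lib.H92GRSplitB.commute_of h (p ^ (k - 1)) a b ha (hM4 b hb))
    (fun u => by
      obtain ⟨a, ha, b, hb, e⟩ := hPM u
      exact ⟨a, b, (hP a).1 ha, hb, e⟩) hneM
  have hcardsc : Nat.card (scSub (ρ.comp M.subtype)) = Nat.card (scG ρ) := by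
    refine Nat.card_congr
      { toFun := fun z => ⟨z.1.1, z.2⟩
        invFun := fun z => ⟨⟨z.1, hZM z.2⟩, z.2⟩
        left_inv := fun z => rfl
        right_inv := fun z => rfl }
  rcases Cfsg.Agent.Lib.H92GRSubCrit.sub_crit hq hHeis with hdone | hM
  · exact Or.inl hdone
  rw [hcardsc] at hM
  by_cases hcase : ∀ a ∈ P, α a * a⁻¹ ∈ scG ρ
  · right
    refine ⟨M, hZM, ?_, hM.symm⟩
    intro u
    obtain ⟨a, ha, b, hb, rfl⟩ := hPM u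
    have hb' : α b * b⁻¹ ∈ M := M.mul_mem (hαM b hb) (M.inv_mem hb)
    have e : α (a * b) * (a * b)⁻¹ =
        (α a * a⁻¹) * ((a * (α b * b⁻¹) * a⁻¹ * (α b * b⁻¹)⁻¹) * (α b * b⁻¹)) := by
      rw [map_mul]; group
    rw [e]
    exact M.mul_mem (hZM (hcase a ha)) (M.mul_mem (hZM (hab _ _)) hb')
  · left
    push Not at hcase
    obtain ⟨u₀, hu₀, hu₀'⟩ := hcase
    intro f hf hfY
    by_contra hlt
    have haeval : aeval (Y : Module.End K V) f = 0 :=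
      LinearMap.ext fun v => hfY v Submodule.mem_top
    have hirrρ : Irr ρ := Cfsg.Agent.Lib.H92GRGATrick.irr_of_irr hpq hq h hirr
    have hspan := Cfsg.Agent.Lib.H92HHBurn.span_eq_top ρ hirrρ
    have h1 := Cfsg.Agent.Lib.H92GRGBasis.card_eq hq h hspan
    have hN0 : 0 < p ^ k := pow_pos hpp.pos k
    have hN2 : 2 ≤ p ^ k := by
      calc 2 ≤ p := hpp.two_le
        _ = p ^ 1 := (pow_one p).symm
        _ ≤ p ^ k := Nat.pow_le_pow_right hpp.pos hk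
    have hZP : scG ρ ≤ P := by
      intro z hz
      rw [hP]
      exact (scG ρ).mul_mem (hτZ z hz) ((scG ρ).inv_mem hz)
    have hfree : ∀ u i, 0 < i → i < p ^ k → (α ^ i) u * u⁻¹ ∈ scG ρ → u ∈ P := by
      intro u i hi0 hi hu
      obtain ⟨j, hj⟩ := Cfsg.Agent.Lib.H92HHHeisOn.exists_pow_eq α p (k - 1) i
        (by rw [hkk]; exact h.apow) hi0 (by rw [hkk]; exact hi)
      rw [hP, ← hj]
      exact pow_comm_mem _ (α ^ i) (pow_mem_of _ α hαZ i) hu j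
    obtain ⟨r, hr, h5⟩ := Cfsg.Agent.Lib.H92GRGOrb.gorb α (p ^ k) hN0 h.apow (scG ρ) P hαZ hZP hαP
      hfree u₀ hu₀ hu₀'
    have h4 := Cfsg.Agent.Lib.H92GRGComm.comm_le h hspan r (fun u u' hh => (hr u u').1 hh)
    have h6 := Cfsg.Agent.Lib.H92HHLA.sq_finrank_le (Y : Module.End K V) f hf haeval
    exact Cfsg.Agent.Lib.H92GRGArith.garith (p ^ k) (Module.finrank K V)
      (Module.finrank K (commutant (Y : Module.End K V))) (Nat.card (Quotient r))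
      (Nat.card (scG ρ)) (Nat.card P) (Nat.card M) (Nat.card Q₀) f.natDegree hN2 Nat.card_pos h1
      hcard hM.symm h4 h5 h6 (by omega)

end Cfsg.Agent.Lib.H92GRGCrit
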