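import Mathlib
import Cfsg.Agent.Lib.Helper92HHDefs
import Cfsg.Agent.Lib.Helper92GRDefs
import Cfsg.Agent.Lib.H92HHHeisOn

set_option autoImplicit false

namespace Cfsg.Agent.Lib.H92GRHeisWOn

open Polynomial Cfsg.Agent.Lib.Helper92HHDefs Cfsg.Agent.Lib.Helper92GRDefs Cfsg.Agent.Lib.Helper73HHSc
open Cfsg.Agent.Lib.H92HHHeisOn

variable {K V : Type*} [Field K] [AddCommGroup V] [Module K V]

/-- PIECE HeisWOn.  In a critical situation for a `q`-group `Q` of class at most 2 the restricted twisted pair is a weak Heisenberg pair, irreducible under `ρ` and `Y`.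
COPY the corresponding parts (`tw, pow, apow, fin, pgrp, comm_sc, nondeg`, irreducibility) of `H92HHHeisOn.heis_on` (file `Cfsg/Agent/Lib/H92HHHeisOn.lean`, lemmas `Cmp.*` reusable).
`comm_sc`: `u v u⁻¹ v⁻¹` is central in `Q` (`hcl2`), so central on `U`, so scalar on `U` (`CritSit`).  `nondeg`: `ρ b` commuting with all `ρ g` means `b` central on `U`. -/
theorem heisw_on (p q n : ℕ) [Fact p.Prime] [Fact q.Prime]
    (Q : Subgroup (Module.End K V)ˣ) [Finite Q] (hQ : IsPGroup q Q) (X : (Module.End K V)ˣ)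
    (hpow : X ^ p ^ n = 1)
    (hcl2 : ∀ u ∈ Q, ∀ v ∈ Q, ∀ w ∈ Q, Commute (u * v * u⁻¹ * v⁻¹) w)
    (U : Submodule K V) (a : ℕ) (ha : a < n) (hC : CritSit p Q X U a)
    (ρ : ↥Q →* (Module.End K ↥U)ˣ) (α : MulAut ↥Q) (Y : (Module.End K ↥U)ˣ)
    (h1 : ∀ (g : ↥Q) (u : ↥U), (((ρ g : (Module.End K ↥U)ˣ) : Module.End K ↥U) u : V)
        = ((g : (Module.End K V)ˣ) : Module.End K V) (u : V))
    (h2 : ∀ u : ↥U, (((Y : Module.End K ↥U) u : ↥U) : V)
        = ((X ^ p ^ a : (Module.End K V)ˣ) : Module.End K V) (u : V))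
    (h3 : ∀ g : ↥Q, ((α g : ↥Q) : (Module.End K V)ˣ) = X ^ p ^ a * g * (X ^ p ^ a)⁻¹) :
    HeisW q ρ α Y (p ^ (n - a)) ∧
    (∀ W : Submodule K ↥U,
      (∀ g, ∀ w ∈ W, ((ρ g : (Module.End K ↥U)ˣ) : Module.End K ↥U) w ∈ W) →
      (∀ w ∈ W, (Y : Module.End K ↥U) w ∈ W) → W = ⊥ ∨ W = ⊤) := by
  have c1 : ∀ g : Q, Cmp U (ρ g) (g : (Module.End K V)ˣ) := h1
  have c2 : Cmp U Y (X ^ p ^ a) := h2
  have hXN : (X ^ p ^ a) ^ (p ^ (n - a)) = 1 := by
    rw [← pow_mul, ← pow_add, Nat.add_sub_cancel' ha.le, hpow]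
  have hα : ∀ (k : ℕ) (g : Q), (((α ^ k) g : Q) : (Module.End K V)ˣ)
      = (X ^ p ^ a) ^ k * g * ((X ^ p ^ a) ^ k)⁻¹ := by
    intro k
    induction k with
    | zero => intro g; simp
    | succ k ih =>
      intro g
      rw [pow_succ', MulAut.mul_apply, h3, ih, pow_succ']
      group
  have tw' : ∀ (k : ℕ) (u : Q), Y ^ k * ρ u * (Y ^ k)⁻¹ = ρ ((α ^ k) u) := by
    intro k u
    exact Cmp.ext (((c2.pow k).mul (c1 u)).mul (c2.pow k).inv) (hα k u ▸ c1 _)
  have hYN : Y ^ (p ^ (n - a)) = 1 := by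
    have := c2.pow (p ^ (n - a))
    rw [hXN] at this
    exact Cmp.ext this (Cmp.one U)
  have hαN : α ^ (p ^ (n - a)) = 1 := by
    ext g
    rw [hα, hXN]
    simp
  have L1 : ∀ b : Q, IsScOn ((b : (Module.End K V)ˣ) : Module.End K V) U →
      IsSc ((ρ b : (Module.End K ↥U)ˣ) : Module.End K ↥U) := by
    rintro b ⟨c, hc⟩
    refine ⟨c, LinearMap.ext fun w => Subtype.ext ?_⟩
    rw [h1 b w, hc _ w.2]
    simp
  have L2 : ∀ b : Q, (∀ g, Commute (ρ b) (ρ g)) →
      IsSc ((ρ b : (Module.End K ↥U)ˣ) : Module.End K ↥U) := by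
    intro b hb
    apply L1
    apply hC.2.1 b b.2
    intro g hg u hu
    have e1 := ((c1 b).mul (c1 ⟨g, hg⟩)) ⟨u, hu⟩
    have e2 := ((c1 ⟨g, hg⟩).mul (c1 b)) ⟨u, hu⟩
    rw [(hb ⟨g, hg⟩).eq, e2] at e1
    simpa [Units.val_mul, Module.End.mul_apply] using e1.symm
  refine ⟨?_, ?_⟩
  · refine
      { fin := inferInstance
        pgrp := hQ
        tw := ?_
        pow := hYN
        apow := hαN
        comm_sc := ?_
        nondeg := L2 }
    · intro u
      have := tw' 1 u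
      simpa using this
    · intro u v
      apply L2
      intro g
      have : Commute (u * v * u⁻¹ * v⁻¹) g := Subtype.ext (hcl2 u u.2 v v.2 g g.2).eq
      exact this.map ρ
  · intro W hW1 hW2
    have := hC.2.2 (W.map U.subtype) (Submodule.map_subtype_le _ _)
      (by
        rintro g hg _ ⟨w, hw, rfl⟩
        refine ⟨_, hW1 ⟨g, hg⟩ w hw, ?_⟩
        exact h1 ⟨g, hg⟩ w)
      (by
        rintro _ ⟨w, hw, rfl⟩
        exact ⟨_, hW2 w hw, h2 w⟩)
    rcases this with h | h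
    · left
      rw [Submodule.eq_bot_iff]
      intro w hw
      have : (w : V) ∈ W.map U.subtype := ⟨w, hw, rfl⟩
      rw [h, Submodule.mem_bot] at this
      exact Subtype.ext this
    · right
      rw [Submodule.eq_top_iff']
      intro x
      have : (x : V) ∈ W.map U.subtype := by rw [h]; exact x.2
      obtain ⟨w, hw, hwx⟩ := this
      have : w = x := Subtype.ext hwx
      rw [← this]; exact hw

end Cfsg.Agent.Lib.H92GRHeisWOn
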