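import Mathlib
import Cfsg.Agent.Lib.Helper92HHDefs
import Cfsg.Agent.Lib.Helper92GRDefs
import Cfsg.Agent.Lib.H92GRHeisWOn
import Cfsg.Agent.Lib.H92GRGCrit
import Cfsg.Agent.Lib.H92HHRes
import Cfsg.Agent.Lib.H92HHCritOn

set_option autoImplicit false

namespace Cfsg.Agent.Lib.H92GRGCritOn

open Polynomial Cfsg.Agent.Lib.Helper92HHDefs Cfsg.Agent.Lib.Helper92GRDefs Cfsg.Agent.Lib.Helper73HHSc

variable {K V : Type*} [Field K] [AddCommGroup V] [Module K V]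

/-- PIECE GCritOn (assembly; model: `Cfsg/Agent/Lib/H92HHCritOn.lean`).  `Res.exists_res` (`Z = X^(p^a)`), `HeisWOn.heisw_on`, `GCrit.gcrit` (`k = n - a`, `↥U` nontrivial); `α^(p^(k-1))` is conjugation by
`(X^(p^a))^(p^(n-a-1)) = X^(p^(n-1))`; `u ∈ scG ρ ↔ IsScOn u U`; transfer `minDegOn _ ⊤` on `↥U` to `minDegOn _ U` with `Res.aeval_res`; `B := B₀.map Q.subtype` (same cardinality);
`scG ρ ≃ {u // u ∈ Q ∧ IsScOn u U}`. -/
theorem gcrit_on [IsAlgClosed K] [FiniteDimensional K V] (p q n : ℕ) [Fact p.Prime]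
    [Fact q.Prime] (hpq : p ≠ q) (hq : (q : K) ≠ 0) (Q : Subgroup (Module.End K V)ˣ) [Finite Q]
    (hQ : IsPGroup q Q) (X : (Module.End K V)ˣ) (hnorm : ∀ u ∈ Q, X * u * X⁻¹ ∈ Q)
    (hpow : X ^ p ^ n = 1)
    (hcl2 : ∀ u ∈ Q, ∀ v ∈ Q, ∀ w ∈ Q, Commute (u * v * u⁻¹ * v⁻¹) w)
    (U : Submodule K V) (a : ℕ) (ha : a < n) (hC : CritSit p Q X U a)
    (hne : ∃ u ∈ Q, ¬ IsScOn ((X ^ p ^ (n - 1) * u * (X ^ p ^ (n - 1))⁻¹ * u⁻¹ :
      (Module.End K V)ˣ) : Module.End K V) U) :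
    formF p n X U a ∨ ∃ B : Subgroup (Module.End K V)ˣ, B ≤ Q ∧
      (∀ u ∈ Q, IsScOn (u : Module.End K V) U → u ∈ B) ∧
      (∀ u ∈ Q, X ^ p ^ a * u * (X ^ p ^ a)⁻¹ * u⁻¹ ∈ B) ∧
      Nat.card B = (p ^ (n - a) - 1) ^ 2 *
        Nat.card {u : (Module.End K V)ˣ // u ∈ Q ∧ IsScOn (u : Module.End K V) U} := by
  obtain ⟨⟨hU0, hQU, hZU, hfix⟩, hcen, hirrU⟩ := hC
  have hC' : CritSit p Q X U a := ⟨⟨hU0, hQU, hZU, hfix⟩, hcen, hirrU⟩
  set Z : (Module.End K V)ˣ := X ^ p ^ a with hZdef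
  have hppos : 0 < p ^ (n - a) := pow_pos (Fact.out : p.Prime).pos _
  have hZpow : Z ^ (p ^ (n - a)) = 1 := by
    rw [hZdef, ← pow_mul, ← pow_add, Nat.add_sub_cancel' ha.le, hpow]
  have hZinv : Z⁻¹ = Z ^ (p ^ (n - a) - 1) := by
    rw [inv_eq_iff_mul_eq_one, ← pow_succ', Nat.sub_add_cancel hppos, hZpow]
  have hZi : ∀ u ∈ U, ((Z⁻¹ : (Module.End K V)ˣ) : Module.End K V) u ∈ U := by
    rw [hZinv]
    exact H92HHCritOn.pow_mem_of_mem Z U hZU _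
  have hn : ∀ u ∈ Q, Z * u * Z⁻¹ ∈ Q := H92HHCritOn.conj_pow_mem hnorm _
  have hn' : ∀ u ∈ Q, Z⁻¹ * u * Z ∈ Q := by
    intro u hu
    have h := H92HHCritOn.conj_pow_mem hn (p ^ (n - a) - 1) u hu
    rwa [← hZinv, inv_inv] at h
  obtain ⟨ρ, α, Y, h1, h2, h3⟩ := H92HHRes.exists_res Q Z U hQU hZU hZi hn hn'
  obtain ⟨hW, hirrY⟩ := H92GRHeisWOn.heisw_on p q n Q hQ X hpow hcl2 U a ha hC' ρ α Y h1 h2 h3
  have hnt : Nontrivial ↥U := Submodule.nontrivial_iff_ne_bot.2 hU0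
  have htrans : ∀ s : ℕ, minDegOn (Y : Module.End K ↥U) ⊤ s → minDegOn (Z : Module.End K V) U s := by
    intro s hs f hf hkill
    refine hs f hf (fun u _ => ?_)
    apply Subtype.ext
    rw [H92HHRes.aeval_res (Z : Module.End K V) U (Y : Module.End K ↥U) h2 f u]
    exact hkill u u.2
  have hsc : ∀ z : ↥Q, IsSc ((ρ z : (Module.End K ↥U)ˣ) : Module.End K ↥U) ↔
      IsScOn ((z : (Module.End K V)ˣ) : Module.End K V) U := by
    intro z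
    constructor
    · rintro ⟨c, hc⟩
      refine ⟨c, fun u hu => ?_⟩
      rw [← h1 z ⟨u, hu⟩, hc]
      rfl
    · rintro ⟨c, hc⟩
      refine ⟨c, ?_⟩
      ext u
      rw [h1 z u, hc u u.2]
      rfl
  have hαpow : ∀ (j : ℕ) (g : ↥Q), (((α ^ j) g : ↥Q) : (Module.End K V)ˣ) = Z ^ j * g * (Z ^ j)⁻¹ := by
    intro j
    induction j with
    | zero => intro g; simp
    | succ j ih =>
      intro g
      rw [pow_succ', MulAut.mul_apply, h3, ih, pow_succ']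
      group
  have hk : 1 ≤ n - a := by omega
  have hZX : Z ^ p ^ (n - a - 1) = X ^ p ^ (n - 1) := by
    rw [hZdef, ← pow_mul, ← pow_add]
    congr 2
    omega
  have hne' : ∃ u, (α ^ p ^ (n - a - 1)) u * u⁻¹ ∉ scG ρ := by
    obtain ⟨u, hu, hns⟩ := hne
    refine ⟨⟨u, hu⟩, fun hmem => hns ?_⟩
    have := (hsc _).1 (mem_scG.1 hmem)
    rw [Subgroup.coe_mul, hαpow, hZX] at this
    exact this
  rcases H92GRGCrit.gcrit hpq hq hk hW hirrY hne' with h | ⟨B₀, hB1, hB2, hB3⟩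
  · exact Or.inl (htrans _ h)
  · right
    refine ⟨B₀.map Q.subtype, ?_, ?_, ?_, ?_⟩
    · rintro _ ⟨x, _, rfl⟩
      exact x.2
    · intro u hu hs
      exact ⟨⟨u, hu⟩, hB1 (mem_scG.2 ((hsc ⟨u, hu⟩).2 hs)), rfl⟩
    · intro u hu
      refine ⟨_, hB2 ⟨u, hu⟩, ?_⟩
      rw [Subgroup.coe_subtype, Subgroup.coe_mul, h3]
      rfl
    · rw [Subgroup.card_map_of_injective Q.subtype_injective, hB3]
      congr 1
      refine Nat.card_congr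
        { toFun := fun z => ⟨z.1.1, z.1.2, (hsc z.1).1 z.2⟩
          invFun := fun u => ⟨⟨u.1, u.2.1⟩, (hsc ⟨u.1, u.2.1⟩).2 u.2.2⟩
          left_inv := fun u => rfl
          right_inv := fun z => rfl }

end Cfsg.Agent.Lib.H92GRGCritOn
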