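import Mathlib
import Cfsg.Agent.Lib.Helper92HHDefs
import Cfsg.Agent.Lib.Helper92GRDefs

set_option autoImplicit false

namespace Cfsg.Agent.Lib.H92GRRSub

open Polynomial Cfsg.Agent.Lib.Helper92HHDefs Cfsg.Agent.Lib.Helper92GRDefs Cfsg.Agent.Lib.Helper73HHSc

variable {K V : Type*} [Field K] [AddCommGroup V] [Module K V]

theorem act_inv (g : (Module.End K V)ˣ) (v : V) :
    (g : Module.End K V) (((g⁻¹ : (Module.End K V)ˣ) : Module.End K V) v) = v := by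
  rw [← Module.End.mul_apply, Units.mul_inv, Module.End.one_apply]

theorem inv_act (g : (Module.End K V)ˣ) (v : V) :
    ((g⁻¹ : (Module.End K V)ˣ) : Module.End K V) ((g : Module.End K V) v) = v := by
  rw [← Module.End.mul_apply, Units.inv_mul, Module.End.one_apply]

/-- the elements of `Q` which are scalar on `U` -/
def scOnSub (Q : Subgroup (Module.End K V)ˣ) (U : Submodule K V) : Subgroup (Module.End K V)ˣ where
  carrier := {u | u ∈ Q ∧ IsScOn (u : Module.End K V) U}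
  one_mem' := ⟨Q.one_mem, 1, fun u _ => by simp⟩
  mul_mem' := by
    rintro g h ⟨hg, c, hc⟩ ⟨hh, d, hd⟩
    refine ⟨Q.mul_mem hg hh, d * c, fun u hu => ?_⟩
    rw [Units.val_mul, Module.End.mul_apply, hd u hu, map_smul, hc u hu, smul_smul]
  inv_mem' := by
    rintro g ⟨hg, c, hc⟩
    refine ⟨Q.inv_mem hg, c⁻¹, fun u hu => ?_⟩
    have h1 : u = c • ((g⁻¹ : (Module.End K V)ˣ) : Module.End K V) u := by
      rw [← map_smul, ← hc u hu, inv_act]
    by_cases h0 : c = 0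
    · rw [h0, zero_smul] at h1
      rw [h1, map_zero, smul_zero]
    · conv_rhs => rw [h1]
      rw [smul_smul, inv_mul_cancel₀ h0, one_smul]

theorem exists_R (p q s n : ℕ) (Q D : Subgroup (Module.End K V)ˣ) (X : (Module.End K V)ˣ)
    (hG : GrData p q s n Q D X) (U : Submodule K V) (a : ℕ) (ha : a < n)
    (hC : CritSit p Q X U a) (hU : NoFixC Q U) :
    ∃ R : Subgroup (Module.End K V)ˣ, (∀ u, u ∈ R ↔ u ∈ Q ∧ IsScOn (u : Module.End K V) U) ∧
      (∀ u ∈ Q, ∀ r ∈ R, u * r * u⁻¹ ∈ R) ∧ (∀ d ∈ D, ∀ r ∈ R, d * r * d⁻¹ ∈ R) ∧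
      (∀ r ∈ R, X ^ p ^ a * r * (X ^ p ^ a)⁻¹ ∈ R) ∧
      (∀ u ∈ Q, ∀ v ∈ Q, u * v * u⁻¹ * v⁻¹ ∈ R) ∧ (∀ u ∈ Q, u ^ q ∈ R) ∧ ∃ u ∈ Q, u ∉ R := by
  obtain ⟨⟨hU0, hQU, hXU, hfix⟩, hcs, hirr⟩ := hC
  have hsc_cen : ∀ b : (Module.End K V)ˣ, IsScOn (b : Module.End K V) U → ∀ g ∈ Q, ∀ x ∈ U,
      (b : Module.End K V) ((g : Module.End K V) x) = (g : Module.End K V) ((b : Module.End K V) x) := by
    rintro b ⟨c, hc⟩ g hg x hx
    rw [hc _ (hQU g hg x hx), hc x hx, map_smul]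
  have hcomm_triv : ∀ b ∈ Q, (∀ g ∈ Q, ∀ x ∈ U,
      (b : Module.End K V) ((g : Module.End K V) x) = (g : Module.End K V) ((b : Module.End K V) x)) →
      ∀ g ∈ Q, ∀ v ∈ U, ((b * g * b⁻¹ * g⁻¹ : (Module.End K V)ˣ) : Module.End K V) v = v := by
    intro b hb hcen g hg v hv
    simp only [Units.val_mul, Module.End.mul_apply]
    have hx : ((b⁻¹ : (Module.End K V)ˣ) : Module.End K V)
        (((g⁻¹ : (Module.End K V)ˣ) : Module.End K V) v) ∈ U :=
      hQU _ (Q.inv_mem hb) _ (hQU _ (Q.inv_mem hg) _ hv)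
    rw [hcen g hg _ hx, act_inv, act_inv]
  have hcen_of_comm : ∀ z : (Module.End K V)ˣ, (∀ w ∈ Q, Commute z w) → ∀ g ∈ Q, ∀ x ∈ U,
      (z : Module.End K V) ((g : Module.End K V) x) = (g : Module.End K V) ((z : Module.End K V) x) := by
    intro z hz g hg x _
    have h1 := congrArg (fun y : (Module.End K V)ˣ => (y : Module.End K V) x) (hz g hg).eq
    simpa only [Units.val_mul, Module.End.mul_apply] using h1
  -- `Y = X ^ p ^ a`
  obtain ⟨Y, hY⟩ : ∃ Y : (Module.End K V)ˣ, Y = X ^ p ^ a := ⟨_, rfl⟩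
  rw [← hY] at hXU hirr ⊢
  have hXk : ∀ k : ℕ, ∀ u ∈ Q, X ^ k * u * (X ^ k)⁻¹ ∈ Q := by
    intro k
    induction k with
    | zero => intro u hu; simpa using hu
    | succ k ih =>
      intro u hu
      have e : X ^ (k + 1) * u * (X ^ (k + 1))⁻¹ = X * (X ^ k * u * (X ^ k)⁻¹) * X⁻¹ := by
        rw [pow_succ']; group
      rw [e]
      exact hG.normQ _ (ih u hu)
  have hYQ : ∀ u ∈ Q, Y * u * Y⁻¹ ∈ Q := by
    intro u hu
    rw [hY]
    exact hXk _ u hu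
  have hYsurj : ∀ g ∈ Q, ∃ g' ∈ Q, g = Y * g' * Y⁻¹ := by
    haveI := hG.finQ
    let cj : Q → Q := fun u => ⟨Y * u * Y⁻¹, hYQ u u.2⟩
    have hinj : Function.Injective cj := by
      intro u v huv
      have h1 : Y * (u : (Module.End K V)ˣ) * Y⁻¹ = Y * v * Y⁻¹ := congrArg Subtype.val huv
      apply Subtype.ext
      exact mul_left_cancel (mul_right_cancel h1)
    have hsurj := Finite.injective_iff_surjective.mp hinj
    intro g hg
    obtain ⟨g', hg'⟩ := hsurj ⟨g, hg⟩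
    exact ⟨g', g'.2, (congrArg Subtype.val hg').symm⟩
  have hYinvU : ∀ v ∈ U, ((Y⁻¹ : (Module.End K V)ˣ) : Module.End K V) v ∈ U := by
    have hW := hirr (U.map (Y : Module.End K V)) (by
      rintro _ ⟨u, hu, rfl⟩
      exact hXU u hu) (by
      rintro g hg _ ⟨u, hu, rfl⟩
      obtain ⟨g', hg', rfl⟩ := hYsurj g hg
      refine ⟨(g' : Module.End K V) u, hQU g' hg' u hu, ?_⟩
      simp only [Units.val_mul, Module.End.mul_apply]
      rw [inv_act]) (by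
      rintro _ ⟨u, hu, rfl⟩
      exact ⟨_, hXU u hu, rfl⟩)
    rcases hW with hW | hW
    · exfalso
      apply hU0
      rw [eq_bot_iff]
      intro u hu
      have h1 : (Y : Module.End K V) u ∈ U.map (Y : Module.End K V) := ⟨u, hu, rfl⟩
      rw [hW, Submodule.mem_bot] at h1
      have h2 := inv_act Y u
      rw [h1, map_zero] at h2
      rw [Submodule.mem_bot]
      exact h2.symm
    · intro v hv
      rw [← hW] at hv
      obtain ⟨u, hu, rfl⟩ := hv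
      rw [inv_act]
      exact hu
  refine ⟨scOnSub Q U, fun u => Iff.rfl, ?_, ?_, ?_, ?_, ?_, ?_⟩
  · rintro u hu r ⟨hr, c, hc⟩
    refine ⟨Q.mul_mem (Q.mul_mem hu hr) (Q.inv_mem hu), c, fun v hv => ?_⟩
    simp only [Units.val_mul, Module.End.mul_apply]
    rw [hc _ (hQU _ (Q.inv_mem hu) v hv), map_smul, act_inv]
  · rintro d hd b ⟨hb, hbsc⟩
    have hb' : d * b * d⁻¹ ∈ Q := hG.act d hd b hb
    refine ⟨hb', hcs _ hb' ?_⟩
    intro g hg x hx
    have hg₁ : d⁻¹ * g * d⁻¹⁻¹ ∈ Q := hG.act d⁻¹ (D.inv_mem hd) g hg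
    obtain ⟨g₁, hg₁e⟩ : ∃ g₁ : (Module.End K V)ˣ, g₁ = d⁻¹ * g * d⁻¹⁻¹ := ⟨_, rfl⟩
    rw [← hg₁e] at hg₁
    obtain ⟨κ, hκ⟩ : ∃ κ : (Module.End K V)ˣ, κ = b * g₁ * b⁻¹ * g₁⁻¹ := ⟨_, rfl⟩
    have hcomm : Commute d κ := by
      rw [hκ]
      exact hG.dcen d hd b hb g₁ hg₁
    have hκU : ∀ v ∈ U, (κ : Module.End K V) v = v := by
      rw [hκ]
      exact hcomm_triv b hb (hsc_cen b hbsc) g₁ hg₁
    have h1 : d * κ * d⁻¹ = κ := by rw [hcomm.eq, mul_inv_cancel_right]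
    have e : d * b * d⁻¹ * g = κ * (g * (d * b * d⁻¹)) := by
      rw [← h1, hκ, hg₁e]
      group
    have h2 := congrArg (fun y : (Module.End K V)ˣ => (y : Module.End K V) x) e
    simp only [Units.val_mul (d * b * d⁻¹) g, Units.val_mul κ, Units.val_mul g,
      Module.End.mul_apply] at h2
    rw [h2]
    exact hκU _ (hQU g hg _ (hQU _ hb' x hx))
  · rintro r ⟨hr, c, hc⟩
    refine ⟨hYQ r hr, c, fun v hv => ?_⟩
    simp only [Units.val_mul, Module.End.mul_apply]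
    rw [hc _ (hYinvU v hv), map_smul, act_inv]
  · intro u hu v hv
    have hmem : u * v * u⁻¹ * v⁻¹ ∈ Q :=
      Q.mul_mem (Q.mul_mem (Q.mul_mem hu hv) (Q.inv_mem hu)) (Q.inv_mem hv)
    exact ⟨hmem, hcs _ hmem (hcen_of_comm _ (fun w hw => hG.cl2 u hu v hv w hw))⟩
  · intro u hu
    have hmem : u ^ q ∈ Q := Q.pow_mem hu q
    exact ⟨hmem, hcs _ hmem (hcen_of_comm _ (fun w hw => hG.expq u hu w hw))⟩
  · by_contra hcon
    push Not at hcon
    apply hU0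
    rw [eq_bot_iff]
    intro v hv
    rw [Submodule.mem_bot]
    apply hU v hv
    intro u hu w hw
    exact hcomm_triv u hu (hsc_cen u (hcon u hu).2) w hw v hv

end Cfsg.Agent.Lib.H92GRRSub
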