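import Mathlib
import Cfsg.Agent.Lib.Helper92HHDefs
import Cfsg.Agent.Lib.Helper92GRDefs
import Cfsg.Agent.Lib.H92GRRSub
import Cfsg.Agent.Lib.H92GREStep1
import Cfsg.Agent.Lib.H92GREStep2
import Cfsg.Agent.Lib.H92GRGCritOn

set_option autoImplicit false

namespace Cfsg.Agent.Lib.H92GRCritG

open Polynomial Cfsg.Agent.Lib.Helper92HHDefs Cfsg.Agent.Lib.Helper92GRDefs Cfsg.Agent.Lib.Helper73HHSc

variable {K V : Type*} [Field K] [AddCommGroup V] [Module K V]

/-- PIECE CritG (assembly).  In the two-step configuration there is no exception in a critical situation with `C_U(Q') = 0`.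
`RSub.exists_R` gives `R`; `EStep1.estep1` gives `u ∈ Q` with `τ u τ⁻¹ u⁻¹ ∉ R`, i.e. (it lies in `Q`) not scalar on `U`; `GCritOn.gcrit_on` gives `formF` or `B`; in the second case `R ≤ B` and
`Nat.card R = Nat.card {u // u ∈ Q ∧ IsScOn u U}` (same set), and `EStep2.estep2` is a contradiction. -/
theorem critG [IsAlgClosed K] [FiniteDimensional K V] (q s n : ℕ) [Fact q.Prime] [Fact s.Prime]
    (hq2 : q ≠ 2) (hs2 : s ≠ 2) (hsq : s ≠ q) (hq : (q : K) ≠ 0)
    (Q D : Subgroup (Module.End K V)ˣ) (X : (Module.End K V)ˣ) (hG : GrData 2 q s n Q D X)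
    (U : Submodule K V) (a : ℕ) (ha : a < n) (hC : CritSit 2 Q X U a) (hU : NoFixC Q U) :
    formF 2 n X U a := by
  have := hG.finQ
  obtain ⟨R, hR, hQR, hDR, hYR, hab, hexp, hne⟩ := H92GRRSub.exists_R 2 q s n Q D X hG U a ha hC hU
  have hRQ : R ≤ Q := fun u hu => ((hR u).1 hu).1
  obtain ⟨u, hu, hu'⟩ := H92GREStep1.estep1 2 q s n Q D X hG a ha R hRQ hQR hDR hYR hne
  have hpowmem : ∀ (i : ℕ), ∀ w ∈ Q, X ^ i * w * (X ^ i)⁻¹ ∈ Q := by
    intro i
    induction i with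
    | zero => intro w hw; simpa using hw
    | succ i ih =>
      intro w hw
      have h1 := hG.normQ _ (ih w hw)
      have e : X ^ (i + 1) * w * (X ^ (i + 1))⁻¹ = X * (X ^ i * w * (X ^ i)⁻¹) * X⁻¹ := by
        rw [pow_succ']; group
      rw [e]; exact h1
  have hmem : X ^ 2 ^ (n - 1) * u * (X ^ 2 ^ (n - 1))⁻¹ * u⁻¹ ∈ Q :=
    Q.mul_mem (hpowmem _ u hu) (Q.inv_mem hu)
  rcases H92GRGCritOn.gcrit_on 2 q n (Ne.symm hq2) hq Q hG.pQ X hG.normQ hG.pow hG.cl2 U a ha hC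
    ⟨u, hu, fun hsc => hu' ((hR _).2 ⟨hmem, hsc⟩)⟩ with h | ⟨B, hBQ, hscB, hB, hcard⟩
  · exact h
  · exfalso
    have hRB : R ≤ B := fun r hr => hscB r ((hR r).1 hr).1 ((hR r).1 hr).2
    have hcR : Nat.card {u : (Module.End K V)ˣ // u ∈ Q ∧ IsScOn (u : Module.End K V) U}
        = Nat.card R := by
      apply Nat.card_congr
      exact Equiv.subtypeEquivRight (fun u => (hR u).symm)
    rw [hcR] at hcard
    exact H92GREStep2.estep2 q s n hq2 hs2 hsq Q D X hG a ha R hRQ hDR hYR hab hexp hne B hRB hBQ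
      hB hcard

end Cfsg.Agent.Lib.H92GRCritG
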