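import Mathlib
import Cfsg.Agent.Lib.Helper92HHDefs
import Cfsg.Agent.Lib.Helper92GRDefs
import Cfsg.Agent.Lib.H92HHInit

set_option autoImplicit false

namespace Cfsg.Agent.Lib.H92GRGInit

open Polynomial Cfsg.Agent.Lib.Helper92HHDefs Cfsg.Agent.Lib.Helper92GRDefs Cfsg.Agent.Lib.Helper73HHSc

variable {K V : Type*} [Field K] [AddCommGroup V] [Module K V]

/-- PIECE GInit (model: `Cfsg/Agent/Lib/H92HHInit.lean`).  `C` = the subgroup generated by the commutators of `Q` (`C ≤ Q`, finite `q`-group, normalised by `Q` and `X`, `C ≠ 1`).  `U = ker (∑_{c ∈ C} c)` is invariant under `Q` and `X`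
(`g (∑ c) = (∑ g c g⁻¹) g = (∑ c) g`, reindexing), `NoFixC`: a vector of `U` fixed by all commutators is fixed by `C`, so `|C| v = 0`, `v = 0` (`|C|` a power of `q`); `C_U(Q) = 0` follows; `U ≠ 0`: otherwise `S = ∑ c` is injective,
`S (c v - v) = 0` gives `c v = v` for all `v`, `C = 1`, `Q` abelian. -/
theorem exists_sit (p q : ℕ) [Fact q.Prime] (hq : (q : K) ≠ 0)
    (Q : Subgroup (Module.End K V)ˣ) [Finite Q] (hQ : IsPGroup q Q) (X : (Module.End K V)ˣ)
    (hnorm : ∀ u ∈ Q, X * u * X⁻¹ ∈ Q) (hna : ∃ u ∈ Q, ∃ v ∈ Q, ¬ Commute u v) :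
    ∃ U : Submodule K V, Sit p Q X U 0 ∧ NoFixC Q U := by
  classical
  set C : Subgroup (Module.End K V)ˣ :=
    Subgroup.closure {c | ∃ u ∈ Q, ∃ w ∈ Q, c = u * w * u⁻¹ * w⁻¹} with hC
  have hgen : ∀ u ∈ Q, ∀ w ∈ Q, u * w * u⁻¹ * w⁻¹ ∈ C := fun u hu w hw =>
    Subgroup.subset_closure ⟨u, hu, w, hw, rfl⟩
  have hCQ : C ≤ Q := by
    rw [hC, Subgroup.closure_le]
    rintro _ ⟨u, hu, w, hw, rfl⟩
    exact Q.mul_mem (Q.mul_mem (Q.mul_mem hu hw) (Q.inv_mem hu)) (Q.inv_mem hw)
  haveI : Finite ↥C := Finite.of_injective _ (Subgroup.inclusion_injective hCQ)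
  letI : Fintype ↥C := Fintype.ofFinite _
  have hCp : IsPGroup q ↥C := hQ.to_le hCQ
  have hconj : ∀ g : (Module.End K V)ˣ, (∀ u ∈ Q, g * u * g⁻¹ ∈ Q) → ∀ c ∈ C, g * c * g⁻¹ ∈ C := by
    intro g hg c hc
    induction hc using Subgroup.closure_induction with
    | mem x hx =>
      obtain ⟨u, hu, w, hw, rfl⟩ := hx
      have := hgen _ (hg u hu) _ (hg w hw)
      have e : g * (u * w * u⁻¹ * w⁻¹) * g⁻¹
          = g * u * g⁻¹ * (g * w * g⁻¹) * (g * u * g⁻¹)⁻¹ * (g * w * g⁻¹)⁻¹ := by group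
      rw [e]; exact this
    | one => simp
    | mul x y _ _ hx hy =>
      have e : g * (x * y) * g⁻¹ = (g * x * g⁻¹) * (g * y * g⁻¹) := by group
      rw [e]; exact C.mul_mem hx hy
    | inv x _ hx =>
      have e : g * x⁻¹ * g⁻¹ = (g * x * g⁻¹)⁻¹ := by group
      rw [e]; exact C.inv_mem hx
  set S : Module.End K V := ∑ g : ↥C, ((g : (Module.End K V)ˣ) : Module.End K V) with hS
  have hSv : ∀ v, S v = ∑ g : ↥C, ((g : (Module.End K V)ˣ) : Module.End K V) v := by
    intro v
    rw [hS, LinearMap.sum_apply]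
  have hSg : ∀ g ∈ C, ∀ v, S ((g : Module.End K V) v) = S v := by
    intro g hg v
    rw [hSv, hSv]
    refine Fintype.sum_equiv (Equiv.mulRight (⟨g, hg⟩ : ↥C)) _ _ (fun h => ?_)
    simp [Module.End.mul_apply]
  have hSX : ∀ g : (Module.End K V)ˣ, (∀ u ∈ Q, g * u * g⁻¹ ∈ Q) →
      ∀ v, S ((g : Module.End K V) v) = (g : Module.End K V) (S v) := by
    intro g hg v
    have hbij : Function.Bijective (fun h : ↥C => (⟨g * h * g⁻¹, hconj g hg h h.2⟩ : ↥C)) := by
      apply Finite.injective_iff_bijective.1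
      intro a b hab
      have := congrArg Subtype.val hab
      simp only at this
      apply Subtype.ext
      simpa using this
    rw [hSv, hSv, map_sum]
    symm
    refine Fintype.sum_equiv (Equiv.ofBijective _ hbij) _ _ (fun h => ?_)
    simp only [Equiv.ofBijective_apply, Units.val_mul, Module.End.mul_apply]
    congr 2
    rw [← Module.End.mul_apply, Units.inv_mul, Module.End.one_apply]
  have hQn : ∀ g ∈ Q, ∀ u ∈ Q, g * u * g⁻¹ ∈ Q := fun g hg u hu =>
    Q.mul_mem (Q.mul_mem hg hu) (Q.inv_mem hg)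
  have hnofix : NoFixC Q (LinearMap.ker S) := by
    intro v hv hfix
    have hfixC : ∀ c ∈ C, (c : Module.End K V) v = v := by
      intro c hc
      induction hc using Subgroup.closure_induction with
      | mem x hx =>
        obtain ⟨u, hu, w, hw, rfl⟩ := hx
        exact hfix u hu w hw
      | one => simp
      | mul x y _ _ hx hy =>
        rw [Units.val_mul, Module.End.mul_apply, hy, hx]
      | inv x _ hx =>
        have h1 : ((x⁻¹ : (Module.End K V)ˣ) : Module.End K V) ((x : Module.End K V) v) = v := by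
          rw [← Module.End.mul_apply, Units.inv_mul, Module.End.one_apply]
        rw [hx] at h1
        exact h1
    rw [LinearMap.mem_ker, hSv] at hv
    have h1 : ∑ g : ↥C, ((g : (Module.End K V)ˣ) : Module.End K V) v = (Fintype.card ↥C : K) • v := by
      rw [Finset.sum_congr rfl (fun g _ => hfixC g.1 g.2), Finset.sum_const, Finset.card_univ,
        Nat.cast_smul_eq_nsmul]
    rw [h1] at hv
    obtain ⟨s, hs⟩ := (IsPGroup.iff_card (p := q) (G := ↥C)).1 hCp
    rw [Nat.card_eq_fintype_card] at hs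
    rw [hs, Nat.cast_pow] at hv
    exact (smul_eq_zero.1 hv).resolve_left (pow_ne_zero _ hq)
  refine ⟨LinearMap.ker S, ⟨?_, ?_, ?_, ?_⟩, hnofix⟩
  · intro hbot
    have hinj : Function.Injective S := LinearMap.ker_eq_bot.1 hbot
    obtain ⟨u, hu, w, hw, hnc⟩ := hna
    apply hnc
    have : u * w * u⁻¹ * w⁻¹ = 1 := by
      apply Units.ext
      ext v
      exact hinj (hSg _ (hgen u hu w hw) v)
    show u * w = w * u
    calc u * w = (u * w * u⁻¹ * w⁻¹) * (w * u) := by group
      _ = w * u := by rw [this, one_mul]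
  · intro g hg u hu
    rw [LinearMap.mem_ker] at hu ⊢
    rw [hSX g (hQn g hg), hu, map_zero]
  · intro u hu
    rw [LinearMap.mem_ker] at hu ⊢
    rw [pow_zero, pow_one, hSX X hnorm, hu, map_zero]
  · intro v hv hfix
    apply hnofix v hv
    intro u hu w hw
    exact hfix _ (hCQ (hgen u hu w hw))

end Cfsg.Agent.Lib.H92GRGInit
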