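import Mathlib
import Cfsg.Agent.Lib.Helper92HHDefs
import Cfsg.Agent.Lib.Helper92GRDefs
import Cfsg.Agent.S0023

set_option autoImplicit false

namespace Cfsg.Agent.Lib.H92GRGT1b

open Polynomial Cfsg.Agent.Lib.Helper92HHDefs Cfsg.Agent.Lib.Helper92GRDefs Cfsg.Agent.Lib.Helper73HHSc

variable {K V : Type*} [Field K] [AddCommGroup V] [Module K V]

/-- PIECE GT1b (pure group theory).  An `x`-invariant Sylow `s`-subgroup `S` of `L`, with `L = F S`.
`zpowers x` (a `p`-group) acts by conjugation on the set of Sylow `s`-subgroups of `↥L`, whose cardinality divides `|L|`, so is prime to `p`: there is a fixed point (`IsPGroup.nonempty_fixed_point_of_prime_not_dvd_card`;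
or cite `Cfsg.Agent.S0023.result` as in `H92HHPsol`).  `F S` is a subgroup (`F` normal in `L`) whose index in `L` divides `|L : S|` (prime to `s`) and `|L : F|` (a power of `s` because `L/F` is an `s`-group by `hLF`): `L = F S`.
If `w a w⁻¹ a⁻¹ ∈ F` for all `a ∈ S` (`w = x^j`) then for `l = f a`: `w l w⁻¹ l⁻¹ = (w f w⁻¹) (w a w⁻¹ a⁻¹) f⁻¹ ∈ F`... (`(w a w⁻¹ a⁻¹)` conjugated suitably; `F` is normal in `L` and `x`-invariant), against `hne`. -/
theorem exists_S {Γ : Type*} [Group Γ] [Finite Γ] (p n s : ℕ) [Fact p.Prime] [Fact s.Prime]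
    (x : Γ) (hx : x ^ p ^ n = 1) (F L : Subgroup Γ) (hFL : F ≤ L)
    (hFn : ∀ l ∈ L, ∀ f ∈ F, l * f * l⁻¹ ∈ F) (hFx : ∀ f ∈ F, x * f * x⁻¹ ∈ F)
    (hLx : ∀ l ∈ L, x * l * x⁻¹ ∈ L) (hp : ¬ p ∣ Nat.card L)
    (hLF : ∀ l ∈ L, ∃ k : ℕ, l ^ s ^ k ∈ F) (j : ℕ)
    (hne : ∃ l ∈ L, x ^ j * l * (x ^ j)⁻¹ * l⁻¹ ∉ F) :
    ∃ S : Subgroup Γ, S ≤ L ∧ IsPGroup s S ∧ (∀ a ∈ S, x * a * x⁻¹ ∈ S) ∧
      (∀ l ∈ L, ∃ f ∈ F, ∃ a ∈ S, l = f * a) ∧ ∃ a ∈ S, x ^ j * a * (x ^ j)⁻¹ * a⁻¹ ∉ F := by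
  classical
  have hpp : p.Prime := Fact.out
  have hs : s.Prime := Fact.out
  have hpowinv : ∀ (H : Subgroup Γ), (∀ a ∈ H, x * a * x⁻¹ ∈ H) →
      ∀ i : ℕ, ∀ a ∈ H, x ^ i * a * (x ^ i)⁻¹ ∈ H := by
    intro H hH i
    induction i with
    | zero => intro a ha; simpa using ha
    | succ i ih =>
      intro a ha
      have : x ^ (i + 1) * a * (x ^ (i + 1))⁻¹ = x * (x ^ i * a * (x ^ i)⁻¹) * x⁻¹ := by
        rw [pow_succ']; group
      rw [this]; exact hH _ (ih a ha)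
  have hxN : x ∈ Subgroup.normalizer (L : Set Γ) := by
    rw [Subgroup.mem_normalizer_iff]
    intro h
    constructor
    · exact hLx h
    · intro hh
      have h1 : x⁻¹ = x ^ (p ^ n - 1) := by
        symm
        apply eq_inv_of_mul_eq_one_left
        rw [← pow_succ, Nat.sub_add_cancel (Nat.one_le_pow _ _ hpp.pos), hx]
      have := hpowinv L hLx (p ^ n - 1) _ hh
      rw [← h1] at this
      simpa [mul_assoc] using this
  have hAL : Subgroup.zpowers x ≤ Subgroup.normalizer (L : Set Γ) := Subgroup.zpowers_le.2 hxN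
  have hcop : (Nat.card (Subgroup.zpowers x)).Coprime (Nat.card L) := by
    rw [Nat.card_zpowers]
    have h1 : orderOf x ∣ p ^ n := orderOf_dvd_of_pow_eq_one hx
    have h2 : Nat.Coprime (p ^ n) (Nat.card L) :=
      Nat.Coprime.pow_left n ((Nat.Prime.coprime_iff_not_dvd hpp).2 hp)
    exact Nat.Coprime.coprime_dvd_left h1 h2
  have hAsol : Group.IsSolvable (Subgroup.zpowers x) := inferInstance
  obtain ⟨P, hP⟩ := Cfsg.Agent.S0023.result (Subgroup.zpowers x) L hAL hcop (Or.inl hAsol) s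
  have hfac : ∀ l ∈ L, ∃ f ∈ F, ∃ a ∈ (P : Subgroup L).map L.subtype, l = f * a := by
    have hnorm : (F.subgroupOf L).Normal := by
      constructor
      intro f hf l
      rw [Subgroup.mem_subgroupOf] at hf ⊢
      exact hFn l.1 l.2 f.1 hf
    have hPG : IsPGroup s (↥L ⧸ F.subgroupOf L) := by
      intro g
      obtain ⟨l, rfl⟩ := QuotientGroup.mk_surjective g
      obtain ⟨k, hk⟩ := hLF l.1 l.2
      refine ⟨k, ?_⟩
      rw [← QuotientGroup.mk_pow, QuotientGroup.eq_one_iff, Subgroup.mem_subgroupOf]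
      simpa using hk
    obtain ⟨k, hk⟩ := IsPGroup.iff_card.1 hPG
    have hidxF : (F.subgroupOf L).index = s ^ k := by
      rw [Subgroup.index_eq_card]; exact hk
    have h1 : (F.subgroupOf L ⊔ (P : Subgroup L)).index ∣ s ^ k := by
      rw [← hidxF]; exact Subgroup.index_dvd_of_le le_sup_left
    have h2 : (F.subgroupOf L ⊔ (P : Subgroup L)).index ∣ (P : Subgroup L).index :=
      Subgroup.index_dvd_of_le le_sup_right
    obtain ⟨i, _, hi⟩ := (Nat.dvd_prime_pow hs).1 h1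
    have hi0 : i = 0 := by
      by_contra hne0
      apply P.not_dvd_index
      refine dvd_trans ?_ h2
      rw [hi]
      exact dvd_pow_self s hne0
    rw [hi0, pow_zero, Subgroup.index_eq_one] at hi
    intro l hl
    have hmem : (⟨l, hl⟩ : L) ∈ ((F.subgroupOf L ⊔ (P : Subgroup L) : Subgroup L) : Set L) := by
      rw [hi]; trivial
    rw [Subgroup.normal_mul] at hmem
    obtain ⟨f, hf, a, ha, hfa⟩ := Set.mem_mul.1 hmem
    refine ⟨f.1, hf, a.1, ⟨a, ha, rfl⟩, ?_⟩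
    have := congrArg Subtype.val hfa
    simpa using this.symm
  refine ⟨(P : Subgroup L).map L.subtype, Subgroup.map_subtype_le _, P.2.map _, ?_, hfac, ?_⟩
  · intro v hv
    have hxN' := hP (Subgroup.mem_zpowers x)
    exact (Subgroup.mem_normalizer_iff.mp hxN' v).mp hv
  · by_contra hcon
    push Not at hcon
    obtain ⟨l, hl, hlF⟩ := hne
    apply hlF
    obtain ⟨f, hf, a, ha, rfl⟩ := hfac l hl
    have e : x ^ j * (f * a) * (x ^ j)⁻¹ * (f * a)⁻¹
        = (x ^ j * f * (x ^ j)⁻¹) * (x ^ j * a * (x ^ j)⁻¹ * a⁻¹) * f⁻¹ := by group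
    rw [e]
    exact F.mul_mem (F.mul_mem (hpowinv F hFx j f hf) (hcon a ha)) (F.inv_mem hf)

end Cfsg.Agent.Lib.H92GRGT1b
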