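import Mathlib
import Cfsg.Agent.Lib.Helper92HHDefs
import Cfsg.Agent.Lib.Helper92GRDefs

set_option autoImplicit false

namespace Cfsg.Agent.Lib.H92GRGT2a

open Polynomial Cfsg.Agent.Lib.Helper92HHDefs Cfsg.Agent.Lib.Helper92GRDefs Cfsg.Agent.Lib.Helper73HHSc

variable {K V : Type*} [Field K] [AddCommGroup V] [Module K V]

theorem eq_one_of_pow_coprime {Γ : Type*} [Group Γ] {c : Γ} {a b : ℕ} (hab : Nat.Coprime a b)
    (ha : c ^ a = 1) (hb : c ^ b = 1) : c = 1 := by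
  have := Nat.dvd_gcd (orderOf_dvd_of_pow_eq_one ha) (orderOf_dvd_of_pow_eq_one hb)
  rw [hab.gcd_eq_one, Nat.dvd_one, orderOf_eq_one_iff] at this
  exact this

theorem conj_closure_mem {Γ : Type*} [Group Γ] {S : Set Γ} {g : Γ}
    (h : ∀ w ∈ S, g * w * g⁻¹ ∈ Subgroup.closure S) :
    ∀ w ∈ Subgroup.closure S, g * w * g⁻¹ ∈ Subgroup.closure S := by
  intro w hw
  induction hw using Subgroup.closure_induction with
  | mem w hw => exact h w hw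
  | one => simp
  | mul a b _ _ iha ihb =>
    have : g * (a * b) * g⁻¹ = (g * a * g⁻¹) * (g * b * g⁻¹) := by group
    rw [this]; exact Subgroup.mul_mem _ iha ihb
  | inv a _ iha =>
    have : g * a⁻¹ * g⁻¹ = (g * a * g⁻¹)⁻¹ := by group
    rw [this]; exact Subgroup.inv_mem _ iha

theorem abs_lemma {G : Type*} [Group G] (T A : G) (p : ℕ) (hT : T ^ p = 1)
    (hc : Commute T (T * A * T⁻¹ * A⁻¹)) : (T * A * T⁻¹ * A⁻¹) ^ p = 1 := by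
  set C := T * A * T⁻¹ * A⁻¹ with hC
  have hpow : ∀ i : ℕ, T ^ i * A * (T ^ i)⁻¹ = C ^ i * A := by
    intro i
    induction i with
    | zero => simp
    | succ i ih =>
      have e1 : T ^ (i + 1) * A * (T ^ (i + 1))⁻¹ = T * (T ^ i * A * (T ^ i)⁻¹) * T⁻¹ := by
        rw [pow_succ']; group
      have e2 : T * (C ^ i * A) * T⁻¹ = (T * C ^ i * T⁻¹) * (T * A * T⁻¹ * A⁻¹) * A := by group
      rw [e1, ih, e2, (hc.pow_right i).eq, mul_inv_cancel_right, ← hC, pow_succ]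
  have := hpow p
  rw [hT] at this
  simpa using this.symm

/-- PIECE GT2a (pure group theory).  Choose `D ≤ S` of minimal order among the `x`-invariant subgroups `D` with `∃ a ∈ D, ∃ u ∈ Q₀, ¬ Commute (τ a τ⁻¹ a⁻¹) u` (`τ = x^(p^(n-1))`, `τ^p = 1`).
`D₁ = closure {τ d τ⁻¹ d⁻¹ | d ∈ D} ≤ D` is `x`-invariant.  If `D₁ ≠ D`, by minimality `τ c τ⁻¹ c⁻¹` centralises `Q₀` for all `c ∈ D₁`.  Pass to the images in
`MulAut ↥Q₀`: for `a ∈ D`, `c̄ = [τ̄, ā]` commutes with `τ̄`, so `τ̄^i ā τ̄^-i = c̄^i ā`, `c̄^p = 1`; `c̄` is an `s`-element, `s ≠ p`: `c̄ = 1`,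
i.e. `τ a τ⁻¹ a⁻¹` centralises `Q₀` for all `a ∈ D`: contradiction.  So `D = D₁`.  Last clause: `d = τ a τ⁻¹ a⁻¹ ∈ D`. -/
theorem exists_D {Γ : Type*} [Group Γ] (p s n : ℕ) [Fact p.Prime] [Fact s.Prime] (hsp : s ≠ p)
    (x : Γ) (hx : x ^ p ^ n = 1) (hn : 1 ≤ n) (Q₀ S : Subgroup Γ) [Finite S] (hS : IsPGroup s S)
    (hSx : ∀ a ∈ S, x * a * x⁻¹ ∈ S) (hQx : ∀ u ∈ Q₀, x * u * x⁻¹ ∈ Q₀)
    (hSQ : ∀ a ∈ S, ∀ u ∈ Q₀, a * u * a⁻¹ ∈ Q₀)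
    (hne : ∃ a ∈ S, ∃ u ∈ Q₀, ¬ Commute (x ^ p ^ (n - 1) * a * (x ^ p ^ (n - 1))⁻¹ * a⁻¹) u) :
    ∃ D : Subgroup Γ, D ≤ S ∧ (∀ d ∈ D, x * d * x⁻¹ ∈ D) ∧
      D ≤ Subgroup.closure {w | ∃ d ∈ D, w = x ^ p ^ (n - 1) * d * (x ^ p ^ (n - 1))⁻¹ * d⁻¹} ∧
      ∃ d ∈ D, ∃ u ∈ Q₀, ¬ Commute d u := by
  classical
  have hp : p.Prime := Fact.out
  have hs : s.Prime := Fact.out
  set τ := x ^ p ^ (n - 1) with hτ
  have hτp : τ ^ p = 1 := by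
    rw [hτ, ← pow_mul, ← pow_succ, Nat.sub_add_cancel hn, hx]
  have hxτ : Commute x τ := (Commute.refl x).pow_right _
  have hpowinv : ∀ (H : Subgroup Γ), (∀ a ∈ H, x * a * x⁻¹ ∈ H) →
      ∀ i : ℕ, ∀ a ∈ H, x ^ i * a * (x ^ i)⁻¹ ∈ H := by
    intro H hH i
    induction i with
    | zero => intro a ha; simpa using ha
    | succ i ih =>
      intro a ha
      have : x ^ (i + 1) * a * (x ^ (i + 1))⁻¹ = x * (x ^ i * a * (x ^ i)⁻¹) * x⁻¹ := by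
        rw [pow_succ']; group
      rw [this]; exact hH _ (ih a ha)
  let 𝒮 : Set (Subgroup Γ) := {D | D ≤ S ∧ (∀ d ∈ D, x * d * x⁻¹ ∈ D) ∧
    ∃ a ∈ D, ∃ u ∈ Q₀, ¬ Commute (τ * a * τ⁻¹ * a⁻¹) u}
  obtain ⟨D, hD𝒮, hDmin⟩ := WellFounded.has_min
    (InvImage.wf (fun D : Subgroup Γ => Nat.card D) Nat.lt_wfRel.wf) 𝒮 ⟨S, le_refl _, hSx, hne⟩
  obtain ⟨hDS, hDx, a, ha, u, hu, hau⟩ := hD𝒮
  have hfinD : Finite D := Finite.of_injective (Subgroup.inclusion hDS)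
    (Subgroup.inclusion_injective hDS)
  have hDτ : ∀ d ∈ D, τ * d * τ⁻¹ ∈ D := hpowinv D hDx _
  refine ⟨D, hDS, hDx, ?_, τ * a * τ⁻¹ * a⁻¹, D.mul_mem (hDτ a ha) (D.inv_mem ha), u, hu, hau⟩
  set D₁ := Subgroup.closure {w | ∃ d ∈ D, w = τ * d * τ⁻¹ * d⁻¹} with hD₁
  have hD₁le : D₁ ≤ D := by
    rw [hD₁, Subgroup.closure_le]
    rintro _ ⟨d, hd, rfl⟩
    exact D.mul_mem (hDτ d hd) (D.inv_mem hd)
  by_contra hnle
  have hneq : D₁ ≠ D := fun h => hnle (h ▸ le_refl _)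
  have hx1 : ∀ d ∈ D₁, x * d * x⁻¹ ∈ D₁ := by
    apply conj_closure_mem
    rintro _ ⟨d, hd, rfl⟩
    apply Subgroup.subset_closure
    refine ⟨x * d * x⁻¹, hDx d hd, ?_⟩
    have hc : x * τ * x⁻¹ = τ := by rw [hxτ.eq, mul_inv_cancel_right]
    calc x * (τ * d * τ⁻¹ * d⁻¹) * x⁻¹
        = (x * τ * x⁻¹) * (x * d * x⁻¹) * (x * τ * x⁻¹)⁻¹ * (x * d * x⁻¹)⁻¹ := by group
      _ = τ * (x * d * x⁻¹) * τ⁻¹ * (x * d * x⁻¹)⁻¹ := by rw [hc]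
  have hcenD₁ : ∀ c ∈ D₁, ∀ u ∈ Q₀, Commute (τ * c * τ⁻¹ * c⁻¹) u := by
    intro c hc u hu
    by_contra hcon
    have hmem : D₁ ∈ 𝒮 := ⟨hD₁le.trans hDS, hx1, c, hc, u, hu, hcon⟩
    exact hneq (Subgroup.eq_of_le_of_card_ge hD₁le (not_lt.1 (hDmin D₁ hmem)))
  have hinvN : ∀ g : Γ, (∀ u ∈ Q₀, g * u * g⁻¹ ∈ Q₀) → (∀ u ∈ Q₀, g⁻¹ * u * g ∈ Q₀) →
      g ∈ Subgroup.normalizer (Q₀ : Set Γ) := by
    intro g h1 h2
    rw [Subgroup.mem_normalizer_iff]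
    intro h
    constructor
    · exact h1 h
    · intro hh
      have := h2 _ hh
      simpa [mul_assoc] using this
  have hτN : τ ∈ Subgroup.normalizer (Q₀ : Set Γ) := by
    apply hinvN τ (hpowinv Q₀ hQx _)
    intro u hu
    have h1 : τ⁻¹ = x ^ (p ^ (n - 1) * (p - 1)) := by
      rw [pow_mul, ← hτ]
      symm
      apply eq_inv_of_mul_eq_one_left
      rw [← pow_succ, Nat.sub_add_cancel hp.one_lt.le, hτp]
    have := hpowinv Q₀ hQx (p ^ (n - 1) * (p - 1)) u hu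
    rw [← h1, inv_inv] at this
    exact this
  have haN : a ∈ Subgroup.normalizer (Q₀ : Set Γ) := by
    apply hinvN a (hSQ a (hDS ha))
    intro u hu
    have := hSQ a⁻¹ (S.inv_mem (hDS ha)) u hu
    rwa [inv_inv] at this
  let φ : ↥(Subgroup.normalizer (Q₀ : Set Γ)) →*
      MulAut ↥(Q₀.subgroupOf (Subgroup.normalizer (Q₀ : Set Γ))) := MulAut.conjNormal
  have hker1 : ∀ g : ↥(Subgroup.normalizer (Q₀ : Set Γ)), φ g = 1 → ∀ u ∈ Q₀, Commute g.1 u := by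
    intro g hg u hu
    have h1 := congrArg (fun f => ((f ⟨⟨u, Subgroup.le_normalizer hu⟩, hu⟩ :
      ↥(Q₀.subgroupOf (Subgroup.normalizer (Q₀ : Set Γ)))) : ↥(Subgroup.normalizer (Q₀ : Set Γ))).1) hg
    simp only [φ, MulAut.conjNormal_apply, MulAut.one_apply] at h1
    have h2 : g.1 * u * g.1⁻¹ = u := by simpa using h1
    calc g.1 * u = g.1 * u * g.1⁻¹ * g.1 := by group
      _ = u * g.1 := by rw [h2]
  have hker2 : ∀ g : ↥(Subgroup.normalizer (Q₀ : Set Γ)), (∀ u ∈ Q₀, Commute g.1 u) → φ g = 1 := by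
    intro g hg
    ext v
    simp only [φ, MulAut.conjNormal_apply, MulAut.one_apply]
    have := hg v.1.1 v.2
    simp only [Subgroup.coe_mul, Subgroup.coe_inv]
    rw [this.eq, mul_inv_cancel_right]
  set T : ↥(Subgroup.normalizer (Q₀ : Set Γ)) := ⟨τ, hτN⟩ with hT
  set A : ↥(Subgroup.normalizer (Q₀ : Set Γ)) := ⟨a, haN⟩ with hA
  have hcD₁ : τ * a * τ⁻¹ * a⁻¹ ∈ D₁ := Subgroup.subset_closure ⟨a, ha, rfl⟩
  have h1 : φ (T * (T * A * T⁻¹ * A⁻¹) * T⁻¹ * (T * A * T⁻¹ * A⁻¹)⁻¹) = 1 := by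
    apply hker2
    intro u hu
    exact hcenD₁ _ hcD₁ u hu
  have hcomm : Commute (φ T) (φ T * φ A * (φ T)⁻¹ * (φ A)⁻¹) := by
    simp only [map_mul, map_inv] at h1
    have h2 := mul_inv_eq_one.1 h1
    have h3 := mul_inv_eq_iff_eq_mul.1 h2
    exact h3
  have hp1 := abs_lemma (φ T) (φ A) p (by rw [← map_pow]; rw [show T ^ p = 1 from Subtype.ext hτp, map_one]) hcomm
  obtain ⟨k, hk⟩ := hS ⟨τ * a * τ⁻¹ * a⁻¹, hDS (hD₁le hcD₁)⟩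
  have hck : (τ * a * τ⁻¹ * a⁻¹) ^ s ^ k = 1 := by
    have := congrArg Subtype.val hk
    simpa using this
  have hs1 : (φ T * φ A * (φ T)⁻¹ * (φ A)⁻¹) ^ s ^ k = 1 := by
    have e : φ T * φ A * (φ T)⁻¹ * (φ A)⁻¹ = φ (T * A * T⁻¹ * A⁻¹) := by
      simp only [map_mul, map_inv]
    rw [e, ← map_pow, show (T * A * T⁻¹ * A⁻¹) ^ s ^ k = 1 from Subtype.ext hck, map_one]
  have hcop : Nat.Coprime p (s ^ k) :=
    Nat.Coprime.pow_right _ ((Nat.coprime_primes hp hs).2 (Ne.symm hsp))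
  have hone := eq_one_of_pow_coprime hcop hp1 hs1
  have e : φ T * φ A * (φ T)⁻¹ * (φ A)⁻¹ = φ (T * A * T⁻¹ * A⁻¹) := by
    simp only [map_mul, map_inv]
  rw [e] at hone
  exact hau (hker1 _ hone u hu)

end Cfsg.Agent.Lib.H92GRGT2a
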