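import Mathlib
import Cfsg.Agent.Lib.Helper92HHDefs
import Cfsg.Agent.Lib.Helper92GRDefs

set_option autoImplicit false

namespace Cfsg.Agent.Lib.H92GRGT2b

open Polynomial Cfsg.Agent.Lib.Helper92HHDefs Cfsg.Agent.Lib.Helper92GRDefs Cfsg.Agent.Lib.Helper73HHSc

variable {K V : Type*} [Field K] [AddCommGroup V] [Module K V]

theorem eq_one_of_pow_coprime {Γ : Type*} [Group Γ] {c : Γ} {a b : ℕ} (hab : Nat.Coprime a b)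
    (ha : c ^ a = 1) (hb : c ^ b = 1) : c = 1 := by
  have := Nat.dvd_gcd (orderOf_dvd_of_pow_eq_one ha) (orderOf_dvd_of_pow_eq_one hb)
  rw [hab.gcd_eq_one, Nat.dvd_one, orderOf_eq_one_iff] at this
  exact this

theorem conj_closure_mem {Γ : Type*} [Group Γ] {S : Set Γ} {g : Γ}
    (h : ∀ w ∈ S, g * w * g⁻¹ ∈ Subgroup.closure S) :
    ∀ w ∈ Subgroup.closure S, g * w * g⁻¹ ∈ Subgroup.closure S := by
  intro w hw
  induction hw using Subgroup.closure_induction with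
  | mem w hw => exact h w hw
  | one => simp
  | mul a b _ _ iha ihb =>
    have : g * (a * b) * g⁻¹ = (g * a * g⁻¹) * (g * b * g⁻¹) := by group
    rw [this]; exact Subgroup.mul_mem _ iha ihb
  | inv a _ iha =>
    have : g * a⁻¹ * g⁻¹ = (g * a * g⁻¹)⁻¹ := by group
    rw [this]; exact Subgroup.inv_mem _ iha

/-- PIECE GT2b (pure group theory).  Choose `Q ≤ Q₀` of minimal order among the subgroups invariant under `x` and `D` and not centralised by `D`.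
`Q₁ = closure {d u d⁻¹ u⁻¹ | d ∈ D, u ∈ Q} ≤ Q` is invariant under `x` (`x [d,u] x⁻¹ = [x d x⁻¹, x u x⁻¹]`) and `D`.  If `Q₁ ≠ Q`, `D` centralises `Q₁`: for `d ∈ D`, `u ∈ Q`: `d u d⁻¹ = c u` with `c ∈ Q₁` commuting with `d`, so `d^i u d^-i = c^i u`;
with `i` = the order of `d` (a power of `s`): `c^i = 1`; `c` is a `q`-element, `q ≠ s`: `c = 1`.  So `D` centralises `Q`: contradiction. -/
theorem exists_Q {Γ : Type*} [Group Γ] (q s : ℕ) [Fact q.Prime] [Fact s.Prime] (hsq : s ≠ q)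
    (x : Γ) (Q₀ D : Subgroup Γ) [Finite Q₀] [Finite D] (hQ₀ : IsPGroup q Q₀) (hD : IsPGroup s D)
    (hQx : ∀ u ∈ Q₀, x * u * x⁻¹ ∈ Q₀) (hDx : ∀ d ∈ D, x * d * x⁻¹ ∈ D)
    (hDQ : ∀ d ∈ D, ∀ u ∈ Q₀, d * u * d⁻¹ ∈ Q₀) (hne : ∃ d ∈ D, ∃ u ∈ Q₀, ¬ Commute d u) :
    ∃ Q : Subgroup Γ, Q ≤ Q₀ ∧ (∀ u ∈ Q, x * u * x⁻¹ ∈ Q) ∧ (∀ d ∈ D, ∀ u ∈ Q, d * u * d⁻¹ ∈ Q) ∧
      (∃ d ∈ D, ∃ u ∈ Q, ¬ Commute d u) ∧
      Q ≤ Subgroup.closure {w | ∃ d ∈ D, ∃ u ∈ Q, w = d * u * d⁻¹ * u⁻¹} ∧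
      ∀ Q₁ : Subgroup Γ, Q₁ ≤ Q → (∀ u ∈ Q₁, x * u * x⁻¹ ∈ Q₁) →
        (∀ d ∈ D, ∀ u ∈ Q₁, d * u * d⁻¹ ∈ Q₁) → Q₁ ≠ Q → ∀ d ∈ D, ∀ u ∈ Q₁, Commute d u := by
  classical
  have hq : q.Prime := Fact.out
  have hs : s.Prime := Fact.out
  let 𝒮 : Set (Subgroup Γ) := {Q | Q ≤ Q₀ ∧ (∀ u ∈ Q, x * u * x⁻¹ ∈ Q) ∧
    (∀ d ∈ D, ∀ u ∈ Q, d * u * d⁻¹ ∈ Q) ∧ (∃ d ∈ D, ∃ u ∈ Q, ¬ Commute d u)}
  have hne𝒮 : 𝒮.Nonempty := ⟨Q₀, le_refl _, hQx, hDQ, hne⟩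
  obtain ⟨Q, hQ𝒮, hQmin⟩ := WellFounded.has_min
    (InvImage.wf (fun Q : Subgroup Γ => Nat.card Q) Nat.lt_wfRel.wf) 𝒮 hne𝒮
  obtain ⟨hQle, hQx', hQD, hQne⟩ := hQ𝒮
  have hfinQ : Finite Q := Finite.of_injective (Subgroup.inclusion hQle)
    (Subgroup.inclusion_injective hQle)
  have hmin : ∀ Q₁ : Subgroup Γ, Q₁ ≤ Q → (∀ u ∈ Q₁, x * u * x⁻¹ ∈ Q₁) →
        (∀ d ∈ D, ∀ u ∈ Q₁, d * u * d⁻¹ ∈ Q₁) → Q₁ ≠ Q → ∀ d ∈ D, ∀ u ∈ Q₁, Commute d u := by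
    intro Q₁ h1 h2 h3 h4 d hd u hu
    by_contra hcon
    have hmem : Q₁ ∈ 𝒮 := ⟨h1.trans hQle, h2, h3, d, hd, u, hu, hcon⟩
    have hnlt := hQmin Q₁ hmem
    apply h4
    apply Subgroup.eq_of_le_of_card_ge h1
    exact not_lt.1 hnlt
  refine ⟨Q, hQle, hQx', hQD, hQne, ?_, hmin⟩
  set Q₁ := Subgroup.closure {w | ∃ d ∈ D, ∃ u ∈ Q, w = d * u * d⁻¹ * u⁻¹} with hQ₁
  have hQ₁le : Q₁ ≤ Q := by
    rw [hQ₁, Subgroup.closure_le]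
    rintro _ ⟨d, hd, u, hu, rfl⟩
    exact Q.mul_mem (hQD d hd u hu) (Q.inv_mem hu)
  by_contra hnle
  have hneq : Q₁ ≠ Q := fun h => hnle (h ▸ le_refl _)
  have hx1 : ∀ u ∈ Q₁, x * u * x⁻¹ ∈ Q₁ := by
    apply conj_closure_mem
    rintro _ ⟨d, hd, u, hu, rfl⟩
    apply Subgroup.subset_closure
    refine ⟨x * d * x⁻¹, hDx d hd, x * u * x⁻¹, hQx' u hu, ?_⟩
    group
  have hD1 : ∀ e ∈ D, ∀ u ∈ Q₁, e * u * e⁻¹ ∈ Q₁ := by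
    intro e he
    apply conj_closure_mem
    rintro _ ⟨d, hd, u, hu, rfl⟩
    apply Subgroup.subset_closure
    refine ⟨e * d * e⁻¹, D.mul_mem (D.mul_mem he hd) (D.inv_mem he), e * u * e⁻¹, hQD e he u hu, ?_⟩
    group
  have hcen := hmin Q₁ hQ₁le hx1 hD1 hneq
  obtain ⟨d, hd, u, hu, hdu⟩ := hQne
  apply hdu
  set c := d * u * d⁻¹ * u⁻¹ with hc
  have hcQ₁ : c ∈ Q₁ := Subgroup.subset_closure ⟨d, hd, u, hu, rfl⟩
  have hdc : Commute d c := hcen d hd c hcQ₁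
  have hpow : ∀ i : ℕ, d ^ i * u * (d ^ i)⁻¹ = c ^ i * u := by
    intro i
    induction i with
    | zero => simp
    | succ i ih =>
      have e1 : d ^ (i + 1) * u * (d ^ (i + 1))⁻¹ = d * (d ^ i * u * (d ^ i)⁻¹) * d⁻¹ := by
        rw [pow_succ']; group
      have e2 : d * (c ^ i * u) * d⁻¹ = (d * c ^ i * d⁻¹) * (d * u * d⁻¹ * u⁻¹) * u := by group
      rw [e1, ih, e2, (hdc.pow_right i).eq, mul_inv_cancel_right, ← hc, pow_succ]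
  obtain ⟨k, hk⟩ := hD ⟨d, hd⟩
  have hdk : d ^ s ^ k = 1 := by
    have := congrArg Subtype.val hk
    simpa using this
  obtain ⟨l, hl⟩ := hQ₀ ⟨c, hQle (hQ₁le hcQ₁)⟩
  have hcl : c ^ q ^ l = 1 := by
    have := congrArg Subtype.val hl
    simpa using this
  have hck : c ^ s ^ k = 1 := by
    have := hpow (s ^ k)
    rw [hdk] at this
    simpa using this.symm
  have hcop : Nat.Coprime (s ^ k) (q ^ l) :=
    Nat.Coprime.pow _ _ ((Nat.coprime_primes hs hq).2 hsq)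
  have hc1 : c = 1 := eq_one_of_pow_coprime hcop hck hcl
  have : d * u = u * d := by
    calc d * u = (d * u * d⁻¹ * u⁻¹) * u * d := by group
      _ = u * d := by rw [← hc, hc1, one_mul]
  exact this

end Cfsg.Agent.Lib.H92GRGT2b
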