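import Mathlib
import Cfsg.Agent.Lib.Helper92HHDefs
import Cfsg.Agent.Lib.Helper92GRDefs

set_option autoImplicit false

namespace Cfsg.Agent.Lib.H92GRGT2c

open Polynomial Cfsg.Agent.Lib.Helper92HHDefs Cfsg.Agent.Lib.Helper92GRDefs Cfsg.Agent.Lib.Helper73HHSc

variable {K V : Type*} [Field K] [AddCommGroup V] [Module K V]

theorem conj_closure_mem {Γ : Type*} [Group Γ] {S : Set Γ} {g : Γ}
    (h : ∀ w ∈ S, g * w * g⁻¹ ∈ Subgroup.closure S) :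
    ∀ w ∈ Subgroup.closure S, g * w * g⁻¹ ∈ Subgroup.closure S := by
  intro w hw
  induction hw using Subgroup.closure_induction with
  | mem w hw => exact h w hw
  | one => simp
  | mul a b _ _ iha ihb =>
    have : g * (a * b) * g⁻¹ = (g * a * g⁻¹) * (g * b * g⁻¹) := by group
    rw [this]; exact Subgroup.mul_mem _ iha ihb
  | inv a _ iha =>
    have : g * a⁻¹ * g⁻¹ = (g * a * g⁻¹)⁻¹ := by group
    rw [this]; exact Subgroup.inv_mem _ iha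

/-- a nontrivial finite `q`-group has a proper subgroup containing all `q`-th powers and commutators -/
theorem exists_proper {P : Type*} [Group P] [Finite P] [Nontrivial P] (q : ℕ) [Fact q.Prime]
    (hP : IsPGroup q P) :
    ∃ M : Subgroup P, M ≠ ⊤ ∧ (∀ u : P, u ^ q ∈ M) ∧ ∀ u v : P, u * v * u⁻¹ * v⁻¹ ∈ M := by
  classical
  have hq : q.Prime := Fact.out
  obtain ⟨n, hn⟩ := IsPGroup.iff_card.1 hP
  have hn0 : n ≠ 0 := by
    rintro rfl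
    rw [pow_zero] at hn
    have := Finite.one_lt_card (α := P)
    omega
  obtain ⟨k, rfl⟩ := Nat.exists_eq_succ_of_ne_zero hn0
  obtain ⟨M, hM⟩ := Sylow.exists_subgroup_card_pow_prime (G := P) q (n := k)
    (by rw [hn]; exact pow_dvd_pow q (Nat.le_succ k))
  have hidx : M.index = q := by
    have h1 := M.card_mul_index
    rw [hM, hn, pow_succ] at h1
    exact Nat.eq_of_mul_eq_mul_left (pow_pos hq.pos k) h1
  have hnorm : M.Normal := by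
    apply Subgroup.normal_of_index_eq_minFac_card
    rw [hidx, hn, hq.pow_minFac (Nat.succ_ne_zero k)]
  have hcard : Nat.card (P ⧸ M) = q := by
    rw [← Subgroup.index_eq_card]; exact hidx
  have hcyc : IsCyclic (P ⧸ M) := isCyclic_of_prime_card hcard
  refine ⟨M, ?_, ?_, ?_⟩
  · intro h
    rw [h, Subgroup.index_top] at hidx
    exact hq.one_lt.ne hidx
  · intro u
    rw [← QuotientGroup.eq_one_iff, QuotientGroup.mk_pow, ← hcard]
    exact pow_card_eq_one'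
  · intro u v
    rw [← QuotientGroup.eq_one_iff]
    have hc : ∀ a b : P ⧸ M, a * b = b * a := fun a b => (IsCyclic.commGroup).mul_comm a b
    simp only [QuotientGroup.mk_mul, QuotientGroup.mk_inv]
    rw [hc (u : P ⧸ M) v]
    group

/-- PIECE GT2c (pure group theory).  Structure of the minimal `Q`.
`N₂ = closure ({u^q | u ∈ Q} ∪ {u v u⁻¹ v⁻¹ | u v ∈ Q}) ≤ Q` is invariant under `x`, `D` and conjugation by `Q` (the generating set is).  `N₂ ≠ Q`: `Q ≠ 1` is a finite `q`-group, so it has a subgroup `M₁` of index `q`,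
normal, `Q/M₁` has order `q`, so is abelian of exponent `q`: `N₂ ≤ M₁`.
By `hmin`, `D` centralises `N₂` (third claim).  The generators `d u d⁻¹ u⁻¹` of `Q` centralise `N₂`. -/
theorem props {Γ : Type*} [Group Γ] (q : ℕ) [Fact q.Prime] (x : Γ) (Q D : Subgroup Γ) [Finite Q]
    (hQ : IsPGroup q Q) (hQx : ∀ u ∈ Q, x * u * x⁻¹ ∈ Q) (hDQ : ∀ d ∈ D, ∀ u ∈ Q, d * u * d⁻¹ ∈ Q)
    (hne : ∃ d ∈ D, ∃ u ∈ Q, ¬ Commute d u)
    (hgen : Q ≤ Subgroup.closure {w | ∃ d ∈ D, ∃ u ∈ Q, w = d * u * d⁻¹ * u⁻¹})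
    (hmin : ∀ Q₁ : Subgroup Γ, Q₁ ≤ Q → (∀ u ∈ Q₁, x * u * x⁻¹ ∈ Q₁) →
        (∀ d ∈ D, ∀ u ∈ Q₁, d * u * d⁻¹ ∈ Q₁) → Q₁ ≠ Q → ∀ d ∈ D, ∀ u ∈ Q₁, Commute d u) :
    (∀ u ∈ Q, ∀ v ∈ Q, ∀ w ∈ Q, Commute (u * v * u⁻¹ * v⁻¹) w) ∧
    (∀ u ∈ Q, ∀ w ∈ Q, Commute (u ^ q) w) ∧
    (∀ d ∈ D, ∀ u ∈ Q, ∀ v ∈ Q, Commute d (u * v * u⁻¹ * v⁻¹)) := by
  classical
  have hq : q.Prime := Fact.out
  set gens : Set Γ := {w | ∃ u ∈ Q, w = u ^ q} ∪ {w | ∃ u ∈ Q, ∃ v ∈ Q, w = u * v * u⁻¹ * v⁻¹}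
    with hgens
  set N₂ := Subgroup.closure gens with hN₂
  have hN₂le : N₂ ≤ Q := by
    rw [hN₂, Subgroup.closure_le]
    rintro w (⟨u, hu, rfl⟩ | ⟨u, hu, v, hv, rfl⟩)
    · exact Q.pow_mem hu q
    · exact Q.mul_mem (Q.mul_mem (Q.mul_mem hu hv) (Q.inv_mem hu)) (Q.inv_mem hv)
  have hinv : ∀ g : Γ, (∀ u ∈ Q, g * u * g⁻¹ ∈ Q) → ∀ z ∈ N₂, g * z * g⁻¹ ∈ N₂ := by
    intro g hg
    apply conj_closure_mem
    rintro w (⟨u, hu, rfl⟩ | ⟨u, hu, v, hv, rfl⟩)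
    · apply Subgroup.subset_closure; left
      exact ⟨g * u * g⁻¹, hg u hu, by rw [conj_pow]⟩
    · apply Subgroup.subset_closure; right
      exact ⟨g * u * g⁻¹, hg u hu, g * v * g⁻¹, hg v hv, by group⟩
  have hneq : N₂ ≠ Q := by
    obtain ⟨d, hd, u, hu, hdu⟩ := hne
    have hu1 : u ≠ 1 := by rintro rfl; exact hdu (Commute.one_right d)
    have : Nontrivial Q := ⟨⟨⟨u, hu⟩, 1, fun h => hu1 (congrArg Subtype.val h)⟩⟩
    obtain ⟨M, hM, hMp, hMc⟩ := exists_proper q hQ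
    intro heq
    apply hM
    rw [eq_top_iff]
    intro w _
    have hle : N₂ ≤ M.map Q.subtype := by
      rw [hN₂, Subgroup.closure_le]
      rintro w (⟨u, hu, rfl⟩ | ⟨u, hu, v, hv, rfl⟩)
      · exact ⟨⟨u, hu⟩ ^ q, hMp ⟨u, hu⟩, by simp⟩
      · exact ⟨_, hMc ⟨u, hu⟩ ⟨v, hv⟩, by simp⟩
    have hw : w.1 ∈ N₂ := by rw [heq]; exact w.2
    obtain ⟨w', hw', hww⟩ := hle hw
    have : w' = w := Subtype.ext hww
    exact this ▸ hw'
  have hDcen := hmin N₂ hN₂le (hinv x hQx) (fun d hd => hinv d (hDQ d hd)) hneq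
  have hQcen : Q ≤ Subgroup.centralizer (N₂ : Set Γ) := by
    refine hgen.trans ?_
    rw [Subgroup.closure_le]
    rintro _ ⟨d, hd, u, hu, rfl⟩
    rw [SetLike.mem_coe, Subgroup.mem_centralizer_iff]
    intro z' hz'
    have hz : u⁻¹ * z' * u ∈ N₂ := by
      have := hinv u⁻¹ (fun v hv =>
        Q.mul_mem (Q.mul_mem (Q.inv_mem hu) hv) (Q.inv_mem (Q.inv_mem hu))) z' hz'
      simpa using this
    have h1 : Commute d (u⁻¹ * z' * u) := hDcen d hd _ hz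
    have h2 : Commute d z' := hDcen d hd _ hz'
    calc z' * (d * u * d⁻¹ * u⁻¹) = (z' * d) * u * d⁻¹ * u⁻¹ := by group
      _ = (d * z') * u * d⁻¹ * u⁻¹ := by rw [h2.eq]
      _ = d * u * ((u⁻¹ * z' * u) * d⁻¹) * u⁻¹ := by group
      _ = d * u * (d⁻¹ * (u⁻¹ * z' * u)) * u⁻¹ := by rw [← (h1.inv_left).eq]
      _ = d * u * d⁻¹ * u⁻¹ * z' := by group
  refine ⟨?_, ?_, ?_⟩
  · intro u hu v hv w hw
    have hz : u * v * u⁻¹ * v⁻¹ ∈ N₂ := Subgroup.subset_closure (Or.inr ⟨u, hu, v, hv, rfl⟩)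
    exact Subgroup.mem_centralizer_iff.1 (hQcen hw) _ hz
  · intro u hu w hw
    have hz : u ^ q ∈ N₂ := Subgroup.subset_closure (Or.inl ⟨u, hu, rfl⟩)
    exact Subgroup.mem_centralizer_iff.1 (hQcen hw) _ hz
  · intro d hd u hu v hv
    exact hDcen d hd _ (Subgroup.subset_closure (Or.inr ⟨u, hu, v, hv, rfl⟩))

end Cfsg.Agent.Lib.H92GRGT2c
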