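import Mathlib
import Cfsg.Agent.Lib.Helper92HHDefs
import Cfsg.Agent.Lib.Helper92GRDefs
import Cfsg.Agent.Lib.H92GRGT2a
import Cfsg.Agent.Lib.H92GRGT2b
import Cfsg.Agent.Lib.H92GRGT2c

set_option autoImplicit false

namespace Cfsg.Agent.Lib.H92GRGT2

open Polynomial Cfsg.Agent.Lib.Helper92HHDefs Cfsg.Agent.Lib.Helper92GRDefs Cfsg.Agent.Lib.Helper73HHSc

variable {K V : Type*} [Field K] [AddCommGroup V] [Module K V]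

/-- PIECE GT2 (assembly).  `GT2a.exists_D`, `GT2b.exists_Q`, `GT2c.props`; fill the fields of `GrData`. -/
theorem exists_data {Γ : Type*} [Group Γ] [Finite Γ] (p q s n : ℕ) [Fact p.Prime] [Fact q.Prime]
    [Fact s.Prime] (hsp : s ≠ p) (hsq : s ≠ q) (x : Γ) (hx : x ^ p ^ n = 1) (hn : 1 ≤ n)
    (Q₀ S : Subgroup Γ) (hQ₀ : IsPGroup q Q₀) (hS : IsPGroup s S)
    (hSx : ∀ a ∈ S, x * a * x⁻¹ ∈ S) (hQx : ∀ u ∈ Q₀, x * u * x⁻¹ ∈ Q₀)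
    (hSQ : ∀ a ∈ S, ∀ u ∈ Q₀, a * u * a⁻¹ ∈ Q₀)
    (hne : ∃ a ∈ S, ∃ u ∈ Q₀, ¬ Commute (x ^ p ^ (n - 1) * a * (x ^ p ^ (n - 1))⁻¹ * a⁻¹) u) :
    ∃ Q D : Subgroup Γ, Q ≤ Q₀ ∧ D ≤ S ∧ GrData p q s n Q D x := by
  obtain ⟨D, hDS, hDx, hDgen, hDne⟩ := H92GRGT2a.exists_D p s n hsp x hx hn Q₀ S hS hSx hQx hSQ hne
  have hDp : IsPGroup s D := hS.to_le hDS
  obtain ⟨Q, hQQ₀, hQx', hDQ, hne', hQgen, hmin⟩ := H92GRGT2b.exists_Q q s hsq x Q₀ D hQ₀ hDp hQx hDx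
    (fun d hd u hu => hSQ d (hDS hd) u hu) hDne
  have hQp : IsPGroup q Q := hQ₀.to_le hQQ₀
  obtain ⟨h1, h2, h3⟩ := H92GRGT2c.props q x Q D hQp hQx' hDQ hne' hQgen hmin
  refine ⟨Q, D, hQQ₀, hDS, ⟨inferInstance, inferInstance, hQp, hDp, hQx', hDx, hDQ, hx, hn, h1, h2, h3,
    hQgen, hDgen, ?_⟩⟩
  obtain ⟨d, hd, u, hu, hdu⟩ := hne'
  refine ⟨u, hu, ?_⟩
  rintro rfl
  exact hdu (Commute.one_right d)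

end Cfsg.Agent.Lib.H92GRGT2
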