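import Mathlib
import Cfsg.Agent.Lib.Helper92HHDefs
import Cfsg.Agent.Lib.Helper92GRDefs
import Cfsg.Agent.Lib.H92GRCritG
import Cfsg.Agent.Lib.H92GRGInit
import Cfsg.Agent.Lib.H92HHRec
import Cfsg.Agent.Lib.H92HHForms
import Cfsg.Agent.Lib.H92HHKey
import Cfsg.Agent.Lib.H92HHImprim

set_option autoImplicit false

namespace Cfsg.Agent.Lib.H92GRGrLin

open Polynomial Cfsg.Agent.Lib.Helper92HHDefs Cfsg.Agent.Lib.Helper92GRDefs Cfsg.Agent.Lib.Helper73HHSc

variable {K V : Type*} [Field K] [AddCommGroup V] [Module K V]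

/-- PIECE GrLin (assembly): in the two-step configuration `X` has minimal polynomial of full degree `2^n`.
(a) `τ` does not centralise `Q`: otherwise `τ d τ⁻¹ d⁻¹` centralises `Q` for `d ∈ D` (`act`), so `D` does (`genD`), so `Q = 1` (`genQ`), against `ne`.
(b) `Q` abelian: `H92HHKey.key` (`p = 2`); the exceptional alternative needs two non commuting elements.
(c) `Q` not abelian: `GInit.exists_sit` gives `U`; `H92HHRec.rec_main` with `C U a := NoFixC Q U → formF 2 n X U a`; `himp`: `NoFixC` passes to subspaces, then `H92HHForms.himpF`; `hcrit`: `CritG.critG`.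
Finally `a = 0`, `X^(2^0) = X`, `H92HHImprim.mono le_top` (see the end of `H92HHKey.key_fpf`). -/
theorem gr_lin [IsAlgClosed K] [FiniteDimensional K V] (q s n : ℕ) [Fact q.Prime] [Fact s.Prime]
    (hq2 : q ≠ 2) (hs2 : s ≠ 2) (hsq : s ≠ q) (hq : (q : K) ≠ 0)
    (Q D : Subgroup (Module.End K V)ˣ) (X : (Module.End K V)ˣ) (hG : GrData 2 q s n Q D X) :
    minDegOn (X : Module.End K V) ⊤ (2 ^ n) := by
  have := hG.finQ
  -- (a) τ does not centralise Q
  have hτ : ∃ u ∈ Q, ¬ Commute (X ^ 2 ^ (n - 1)) u := by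
    by_contra hcon
    push Not at hcon
    have hD : D ≤ Subgroup.centralizer (Q : Set (Module.End K V)ˣ) := by
      refine hG.genD.trans ?_
      rw [Subgroup.closure_le]
      rintro w ⟨d, hd, rfl⟩
      rw [SetLike.mem_coe, Subgroup.mem_centralizer_iff]
      intro u hu
      have h1 : d⁻¹ * u * d ∈ Q := by
        have := hG.act d⁻¹ (D.inv_mem hd) u hu
        simpa using this
      have h2 := (hcon _ h1).eq
      have h3 := (hcon _ hu).eq
      -- τ d τ⁻¹ d⁻¹ u = u τ d τ⁻¹ d⁻¹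
      set τ := X ^ 2 ^ (n - 1) with hτdef
      have h4 : τ⁻¹ * (d⁻¹ * u * d) = (d⁻¹ * u * d) * τ⁻¹ := by
        rw [inv_mul_eq_iff_eq_mul, ← mul_assoc, h2, mul_inv_cancel_right]
      calc u * (τ * d * τ⁻¹ * d⁻¹) = (u * τ) * d * τ⁻¹ * d⁻¹ := by group
        _ = (τ * u) * d * τ⁻¹ * d⁻¹ := by rw [h3]
        _ = τ * d * ((d⁻¹ * u * d) * τ⁻¹) * d⁻¹ := by group
        _ = τ * d * (τ⁻¹ * (d⁻¹ * u * d)) * d⁻¹ := by rw [h4]
        _ = τ * d * τ⁻¹ * d⁻¹ * u := by group
    have hQ1 : Q ≤ ⊥ := by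
      refine hG.genQ.trans ?_
      rw [Subgroup.closure_le]
      rintro w ⟨d, hd, u, hu, rfl⟩
      rw [SetLike.mem_coe, Subgroup.mem_bot]
      have := Subgroup.mem_centralizer_iff.mp (hD hd) u hu
      rw [← this]; group
    obtain ⟨u, hu, hu1⟩ := hG.ne
    exact hu1 (by simpa using hQ1 hu)
  by_cases hna : ∃ u ∈ Q, ∃ v ∈ Q, ¬ Commute u v
  · obtain ⟨U, hU, hNF⟩ := H92GRGInit.exists_sit 2 q hq Q hG.pQ X hG.normQ hna
    have hmain := H92HHRec.rec_main 2 n Q X hG.normQ hG.pow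
      (fun U a => NoFixC Q U → formF 2 n X U a)
      (fun W U a c hWU hW hac hind h hNU =>
        H92HHForms.himpF 2 n Q X hG.pow W U a c hWU hW hac hind
          (fun hlt => ⟨(h hlt).1, (h hlt).2 (fun v hv hfix => hNU v (hWU hv) hfix)⟩))
      (fun U a ha hC hNU => H92GRCritG.critG q s n hq2 hs2 hsq hq Q D X hG U a ha hC hNU)
      U 0 (by have := hG.npos; omega) hU hNF
    have hX : ((X ^ 2 ^ 0 : (Module.End K V)ˣ) : Module.End K V) = (X : Module.End K V) := by
      rw [pow_zero, pow_one]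
    unfold formF at hmain
    rw [hX, Nat.sub_zero] at hmain
    exact H92HHImprim.mono le_top hmain
  · rcases H92HHKey.key 2 q n (Ne.symm hq2) hq Q hG.pQ X hG.normQ hG.pow hG.npos hτ with h | h
    · exact h
    · exact absurd h.1 hna

end Cfsg.Agent.Lib.H92GRGrLin
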