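import Mathlib
import Cfsg.Agent.Lib.Helper92HHDefs
import Cfsg.Agent.Lib.Helper92GRDefs

set_option autoImplicit false

namespace Cfsg.Agent.Lib.H92GRGrMap

open Polynomial Cfsg.Agent.Lib.Helper92HHDefs Cfsg.Agent.Lib.Helper92GRDefs Cfsg.Agent.Lib.Helper73HHSc

variable {K V : Type*} [Field K] [AddCommGroup V] [Module K V]

/-- PIECE GrMap (plumbing).  `GrData` is transported by an injective homomorphism (`Subgroup.mem_map`, `map_mul`, `map_inv`, `map_pow`; `Commute.map`; `IsPGroup.map`; `Subgroup.map_le_iff_le_comap` +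
`Subgroup.closure_le`/`MonoidHom.map_closure` for `genQ`, `genD`; injectivity only for `ne`). -/
theorem map {Γ Γ' : Type*} [Group Γ] [Group Γ'] (L : Γ →* Γ') (hL : Function.Injective L)
    {p q s n : ℕ} {Q D : Subgroup Γ} {X : Γ} (h : GrData p q s n Q D X) :
    GrData p q s n (Q.map L) (D.map L) (L X) := by
  haveI := h.finQ
  haveI := h.finD
  refine
    { finQ := ?_, finD := ?_, pQ := h.pQ.map L, pD := h.pD.map L, normQ := ?_, normD := ?_,
      act := ?_, pow := ?_, npos := h.npos, cl2 := ?_, expq := ?_, dcen := ?_, genQ := ?_,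
      genD := ?_, ne := ?_ }
  · exact Set.Finite.to_subtype ((Set.toFinite (Q : Set Γ)).image L)
  · exact Set.Finite.to_subtype ((Set.toFinite (D : Set Γ)).image L)
  · rintro _ ⟨u, hu, rfl⟩
    exact ⟨X * u * X⁻¹, h.normQ u hu, by simp⟩
  · rintro _ ⟨u, hu, rfl⟩
    exact ⟨X * u * X⁻¹, h.normD u hu, by simp⟩
  · rintro _ ⟨d, hd, rfl⟩ _ ⟨u, hu, rfl⟩
    exact ⟨d * u * d⁻¹, h.act d hd u hu, by simp⟩
  · rw [← map_pow, h.pow, map_one]
  · rintro _ ⟨u, hu, rfl⟩ _ ⟨v, hv, rfl⟩ _ ⟨w, hw, rfl⟩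
    have := (h.cl2 u hu v hv w hw).map L
    simpa using this
  · rintro _ ⟨u, hu, rfl⟩ _ ⟨w, hw, rfl⟩
    have := (h.expq u hu w hw).map L
    simpa using this
  · rintro _ ⟨d, hd, rfl⟩ _ ⟨u, hu, rfl⟩ _ ⟨v, hv, rfl⟩
    have := (h.dcen d hd u hu v hv).map L
    simpa using this
  · refine (Subgroup.map_mono h.genQ).trans ?_
    rw [MonoidHom.map_closure]
    apply Subgroup.closure_mono
    rintro _ ⟨_, ⟨d, hd, u, hu, rfl⟩, rfl⟩
    exact ⟨L d, ⟨d, hd, rfl⟩, L u, ⟨u, hu, rfl⟩, by simp⟩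
  · refine (Subgroup.map_mono h.genD).trans ?_
    rw [MonoidHom.map_closure]
    apply Subgroup.closure_mono
    rintro _ ⟨_, ⟨d, hd, rfl⟩, rfl⟩
    exact ⟨L d, ⟨d, hd, rfl⟩, by simp⟩
  · obtain ⟨u, hu, hu1⟩ := h.ne
    refine ⟨L u, ⟨u, hu, rfl⟩, ?_⟩
    intro h1
    rw [← map_one L] at h1
    exact hu1 (hL h1)

end Cfsg.Agent.Lib.H92GRGrMap
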