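import Mathlib
import Cfsg.Agent.Lib.Helper92HHDefs
import Cfsg.Agent.Lib.H92HHPsol
import Cfsg.Agent.Lib.H92HHBase
import Cfsg.Agent.Lib.H92HHKey

set_option autoImplicit false

namespace Cfsg.Agent.Lib.H92HHThmB

open Polynomial Cfsg.Agent.Lib.Helper92HHDefs

/-- PIECE ThmB (= the row S0633 in terms of `(x - 1)^r = 0`).  `n = 0` is excluded here.
`Psol.exists_q` (for the group `↥H`) gives `q`, `Q`.  `K = AlgebraicClosure F` (`CharP K p`, `(q : K) ≠ 0`), `Φ` from `Base.exists_base`; `ι : (V ≃ₗ[F] V) →* (End_K (K^d))ˣ`, `ι = Units.map Φ ∘ (LinearMap.GeneralLinearGroup.generalLinearEquiv F V).symm`, injective.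
`Key.key` for the image of `Q` and `X = ι x`.  With `f = (T - 1)^r ≠ 0`: `aeval X f = Φ ((x - 1)^r) = 0`, `natDegree f = r`.  A Sylow `q`-subgroup of `H` contains a conjugate of `Q`, which is not abelian. -/
theorem thmB {F : Type*} [Field F] {p : ℕ} [Fact p.Prime] [CharP F p] {V : Type*} [AddCommGroup V]
    [Module F V] [FiniteDimensional F V] (H : Subgroup (V ≃ₗ[F] V)) [Finite H]
    (hsol : Cfsg.IsPSolvable p H) (hOp : Cfsg.pCore p H = ⊥) (x : V ≃ₗ[F] V) (hx : x ∈ H) (n : ℕ)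
    (hn1 : 1 ≤ n) (hn : orderOf x = p ^ n) (r : ℕ)
    (hr : ((x : Module.End F V) - 1) ^ r = 0) :
    p ^ n ≤ r ∨ ∃ n₀ q m : ℕ, 1 ≤ n₀ ∧ n₀ ≤ n ∧ q.Prime ∧ 1 ≤ m ∧ p ^ n₀ - 1 = q ^ m ∧
      (∀ Q : Sylow q H, ¬ IsMulCommutative Q) ∧ p ^ (n - n₀) * (p ^ n₀ - 1) ≤ r := by
  have hx' : orderOf (⟨x, hx⟩ : ↥H) = p ^ n := by
    rw [← hn]
    exact Subgroup.orderOf_mk x hx
  obtain ⟨q, Q, hqp, hqne, hQp, hxQ, u, hu, hcu⟩ :=
    H92HHPsol.exists_q p hsol hOp (⟨x, hx⟩ : ↥H) n hn1 hx'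
  have hqF : Fact q.Prime := ⟨hqp⟩
  obtain ⟨d, Φ, hΦinj, -⟩ := H92HHBase.exists_base (F := F) (V := V) (AlgebraicClosure F)
  have hqK : (q : AlgebraicClosure F) ≠ 0 := by
    intro h0
    rw [CharP.cast_eq_zero_iff (AlgebraicClosure F) p q] at h0
    exact hqne ((Nat.prime_dvd_prime_iff_eq (Fact.out : p.Prime) hqp).1 h0).symm
  let ι : ↥H →* (Module.End (AlgebraicClosure F) (Fin d → AlgebraicClosure F))ˣ :=
    (Units.map Φ.toMonoidHom).comp
      ((LinearMap.GeneralLinearGroup.generalLinearEquiv F V).symm.toMonoidHom.comp H.subtype)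
  have hι : ∀ g : ↥H, ((ι g : (Module.End (AlgebraicClosure F) (Fin d → AlgebraicClosure F))ˣ) :
      Module.End (AlgebraicClosure F) (Fin d → AlgebraicClosure F))
      = Φ (((g : V ≃ₗ[F] V) : Module.End F V)) := fun g => rfl
  have hιinj : Function.Injective ι := by
    intro g g' h
    have h1 := congrArg (fun t : (Module.End (AlgebraicClosure F) (Fin d → AlgebraicClosure F))ˣ =>
      (t : Module.End (AlgebraicClosure F) (Fin d → AlgebraicClosure F))) h
    simp only [hι] at h1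
    exact Subtype.ext (LinearEquiv.toLinearMap_injective (hΦinj h1))
  have hfinQ : Finite ↥(Q.map ι) := by
    have hs : (ι '' (Q : Set ↥H)).Finite := (Set.toFinite (Q : Set ↥H)).image ι
    exact hs.to_subtype
  have hkey := H92HHKey.key p q n hqne.symm hqK (Q.map ι) (hQp.map ι) (ι ⟨x, hx⟩)
    (by
      rintro _ ⟨g, hg, rfl⟩
      exact ⟨⟨x, hx⟩ * g * (⟨x, hx⟩ : ↥H)⁻¹, hxQ g hg, by simp⟩)
    (by rw [← map_pow, ← hx', pow_orderOf_eq_one, map_one]) hn1
    ⟨ι u, ⟨u, hu, rfl⟩, fun hc => hcu (by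
      apply hιinj
      rw [map_mul, map_mul, map_pow]
      exact hc)⟩
  -- the polynomial `(T - 1) ^ r`
  have hmon : (X - C 1 : (AlgebraicClosure F)[X]).Monic := monic_X_sub_C 1
  have hdeg : ((X - C 1 : (AlgebraicClosure F)[X]) ^ r).natDegree = r := by
    rw [hmon.natDegree_pow, natDegree_X_sub_C, mul_one]
  have hkill : ∀ w ∈ (⊤ : Submodule (AlgebraicClosure F) (Fin d → AlgebraicClosure F)),
      aeval ((ι ⟨x, hx⟩ : (Module.End (AlgebraicClosure F) (Fin d → AlgebraicClosure F))ˣ) :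
        Module.End (AlgebraicClosure F) (Fin d → AlgebraicClosure F))
        ((X - C 1 : (AlgebraicClosure F)[X]) ^ r) w = 0 := by
    intro w _
    have : aeval ((ι ⟨x, hx⟩ : (Module.End (AlgebraicClosure F) (Fin d → AlgebraicClosure F))ˣ) :
        Module.End (AlgebraicClosure F) (Fin d → AlgebraicClosure F))
        ((X - C 1 : (AlgebraicClosure F)[X]) ^ r) = 0 := by
      rw [map_pow, map_sub, aeval_X, aeval_C, map_one, hι, ← map_one Φ, ← map_sub, ← map_pow]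
      change Φ (((x : Module.End F V) - 1) ^ r) = 0
      rw [hr, map_zero]
    rw [this]
    rfl
  have hbound : ∀ s : ℕ, minDegOn ((ι ⟨x, hx⟩ :
      (Module.End (AlgebraicClosure F) (Fin d → AlgebraicClosure F))ˣ) :
        Module.End (AlgebraicClosure F) (Fin d → AlgebraicClosure F)) ⊤ s → s ≤ r := by
    intro s hs
    have := hs _ (pow_ne_zero r hmon.ne_zero) hkill
    rwa [hdeg] at this
  rcases hkey with h | ⟨⟨_, ⟨a, ha, rfl⟩, _, ⟨b, hb, rfl⟩, hab⟩, n₀, m, h1, h2, h3, h4, h5⟩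
  · exact Or.inl (hbound _ h)
  · right
    refine ⟨n₀, q, m, h1, h2, hqp, h3, h4, ?_, hbound _ h5⟩
    intro S hS
    obtain ⟨P, hQP⟩ := hQp.exists_le_sylow
    obtain ⟨g, hg⟩ := MulAction.exists_smul_eq ↥H P S
    have hconj : ∀ c ∈ P, g * c * g⁻¹ ∈ S := by
      intro c hc
      rw [← hg]
      have h := Subgroup.smul_mem_pointwise_smul c (MulAut.conj g) (P : Subgroup ↥H) hc
      rw [MulAut.smul_def, MulAut.conj_apply] at h
      exact h
    have hcomm := hS.is_comm.comm ⟨g * a * g⁻¹, hconj a (hQP ha)⟩ ⟨g * b * g⁻¹, hconj b (hQP hb)⟩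
    have hcomm' : (g * a * g⁻¹) * (g * b * g⁻¹) = (g * b * g⁻¹) * (g * a * g⁻¹) :=
      congrArg Subtype.val hcomm
    apply hab
    have hab' : a * b = b * a := by
      have e1 : (g * a * g⁻¹) * (g * b * g⁻¹) = g * (a * b) * g⁻¹ := by group
      have e2 : (g * b * g⁻¹) * (g * a * g⁻¹) = g * (b * a) * g⁻¹ := by group
      rw [e1, e2] at hcomm'
      exact mul_left_cancel (mul_right_cancel hcomm')
    change ι a * ι b = ι b * ι a
    rw [← map_mul, ← map_mul, hab']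

end Cfsg.Agent.Lib.H92HHThmB
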