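import Mathlib

/-!
# Vocabulary of PROJECT 92K (Higman - Kreknin - Kostrikin: class bound for groups with a
fixed point free automorphism of prime order)
-/

set_option autoImplicit false

namespace Cfsg.Agent.Lib.Helper92KDefs

/-- lower central series of a Lie ring, as additive subgroups; `Lcs M 0 = ⊤`
(so `Lcs M c = ⊥` means class at most `c`). -/
def Lcs (M : Type*) [LieRing M] : ℕ → AddSubgroup M
  | 0 => ⊤
  | k + 1 => AddSubgroup.closure {z | ∃ x ∈ Lcs M k, ∃ y : M, z = ⁅x, y⁆}

variable {M : Type*} [LieRing M] {n : ℕ}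

/-- a family of additive subgroups indexed by `ZMod n`, closed under brackets, with zero
component of degree `0`.  (No directness and no spanning condition.) -/
structure IsGr (F : ZMod n → AddSubgroup M) : Prop where
  lie : ∀ (i j : ZMod n) (x y : M), x ∈ F i → y ∈ F j → ⁅x, y⁆ ∈ F (i + j)
  zero : F 0 = ⊥

/-- the derived family. -/
def dF (F : ZMod n → AddSubgroup M) : ZMod n → AddSubgroup M := fun k =>
  AddSubgroup.closure {z | ∃ (i j : ZMod n) (x y : M), i + j = k ∧ x ∈ F i ∧ y ∈ F j ∧ z = ⁅x, y⁆}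

/-- the lower central families: `lF F 0 = F`. -/
def lF (F : ZMod n → AddSubgroup M) : ℕ → ZMod n → AddSubgroup M
  | 0 => F
  | t + 1 => fun k => AddSubgroup.closure
      {z | ∃ (i j : ZMod n) (x y : M), i + j = k ∧ x ∈ lF F t i ∧ y ∈ F j ∧ z = ⁅x, y⁆}

/-- `HS F k i x`: `x` is a homogeneous element of degree `i` of the Lie subring generated by the
components `F j` with `k ≤ j.val`. -/
inductive HS (F : ZMod n → AddSubgroup M) (k : ℕ) : ZMod n → M → Prop
  | gen (j : ZMod n) (x : M) : k ≤ j.val → x ∈ F j → HS F k j x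
  | zero (j : ZMod n) : HS F k j 0
  | add (j : ZMod n) (x y : M) : HS F k j x → HS F k j y → HS F k j (x + y)
  | neg (j : ZMod n) (x : M) : HS F k j x → HS F k j (-x)
  | lie (i j : ZMod n) (x y : M) : HS F k i x → HS F k j y → HS F k (i + j) ⁅x, y⁆

/-- iterated bracket `⁅⁅⁅x, y₁⁆, y₂⁆, …⁆` along a list of (degree, element) pairs. -/
def adL (x : M) (l : List (ZMod n × M)) : M := l.foldl (fun z e => ⁅z, e.2⁆) x

/-- the Higman - Kreknin - Kostrikin bound. -/
def hkkBound (p : ℕ) : ℕ := ∑ i ∈ Finset.range (2 ^ (p - 1) - 1), (p - 1) ^ i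

end Cfsg.Agent.Lib.Helper92KDefs
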