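import Mathlib
import Cfsg.Agent.Lib.Helper92KDefs

set_option autoImplicit false

namespace Cfsg.Agent.Lib.H92KAdL

open Cfsg.Agent.Lib.Helper92KDefs

variable {M : Type*} [LieRing M] {n : ℕ}

/-- PIECE AdL (20m): elementary properties of `adL x l = l.foldl (fun z e => ⁅z, e.2⁆) x`.  All by induction on `l` generalising `x`. -/
theorem adL_nil (x : M) : adL x ([] : List (ZMod n × M)) = x := rfl

theorem adL_cons (x : M) (e : ZMod n × M) (l : List (ZMod n × M)) : adL x (e :: l) = adL ⁅x, e.2⁆ l := rfl

theorem adL_append (x : M) (l l' : List (ZMod n × M)) : adL x (l ++ l') = adL (adL x l) l' := by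
  unfold adL
  rw [List.foldl_append]

theorem adL_zero (l : List (ZMod n × M)) : adL (0 : M) l = 0 := by
  induction l with
  | nil => rfl
  | cons e l ih => rw [adL_cons, zero_lie, ih]

theorem adL_sub (x y : M) (l : List (ZMod n × M)) : adL (x - y) l = adL x l - adL y l := by
  induction l generalizing x y with
  | nil => rfl
  | cons e l ih => rw [adL_cons, adL_cons, adL_cons, sub_lie, ih]

/-- if some entry is `0` the whole bracket vanishes. -/
theorem adL_zero_entry (x : M) (l : List (ZMod n × M)) (h : ∃ e ∈ l, e.2 = 0) : adL x l = 0 := by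
  induction l generalizing x with
  | nil =>
    obtain ⟨e, he, _⟩ := h
    exact absurd he (List.not_mem_nil)
  | cons e l ih =>
    obtain ⟨e', he', h0⟩ := h
    rw [adL_cons]
    rcases List.mem_cons.mp he' with rfl | h1
    · rw [h0, lie_zero, adL_zero]
    · exact ih _ ⟨e', h1, h0⟩

end Cfsg.Agent.Lib.H92KAdL
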