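import Mathlib
import Cfsg.Agent.Lib.Helper92KDefs

set_option autoImplicit false

namespace Cfsg.Agent.Lib.H92KBasic

open Cfsg.Agent.Lib.Helper92KDefs

variable {M : Type*} [LieRing M] {n : ℕ}

/-- PIECE Basic (15m, pure Mathlib + Defs).  `AddSubgroup.closure_le` / `closure_induction`; every generator `⁅x,y⁆` lies in `F (i+j)` by `hF.lie`. -/
theorem dF_le (F : ZMod n → AddSubgroup M) (hF : IsGr F) (k : ZMod n) : dF F k ≤ F k := by
  unfold dF
  rw [AddSubgroup.closure_le]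
  rintro z ⟨i, j, x, y, rfl, hx, hy, rfl⟩
  exact hF.lie i j x y hx hy

/-- `lie`: `x ∈ dF F i ≤ F i`, `y ∈ dF F j ≤ F j`, so `⁅x,y⁆` is a generator of `dF F (i+j)`… careful: of `dF (dF F)`? NO: we need `⁅x,y⁆ ∈ dF F (i+j)`, and it is a generator because `x ∈ F i`, `y ∈ F j`.  `zero`: `dF F 0 ≤ F 0 = ⊥`. -/
theorem dF_isGr (F : ZMod n → AddSubgroup M) (hF : IsGr F) : IsGr (dF F) := by
  refine ⟨fun i j x y hx hy => ?_, ?_⟩
  · exact AddSubgroup.subset_closure ⟨i, j, x, y, rfl, dF_le F hF i hx, dF_le F hF j hy, rfl⟩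
  · rw [eq_bot_iff, ← hF.zero]
    exact dF_le F hF 0

/-- induction on `s` (`Function.iterate_succ_apply'`). -/
theorem iter_isGr (F : ZMod n → AddSubgroup M) (hF : IsGr F) (s : ℕ) :
    IsGr (dF^[s] F) ∧ ∀ k, (dF^[s] F) k ≤ F k := by
  induction s with
  | zero => exact ⟨hF, fun k => le_rfl⟩
  | succ s ih =>
    rw [Function.iterate_succ_apply']
    exact ⟨dF_isGr _ ih.1, fun k => (dF_le _ ih.1 k).trans (ih.2 k)⟩

end Cfsg.Agent.Lib.H92KBasic
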