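import Mathlib
import Cfsg.Agent.Lib.Helper92KDefs
import Cfsg.Agent.Lib.H92KBasic

set_option autoImplicit false

namespace Cfsg.Agent.Lib.H92KIdeal

open Cfsg.Agent.Lib.Helper92KDefs

variable {M : Type*} [LieRing M] {n : ℕ}

/-- PIECE Ideal.  `E` an ideal family of the graded family `F`.  The lower central families of `E` are stable under brackets with `F`. -/
theorem lF_stable (F E : ZMod n → AddSubgroup M)
    (hEF : ∀ (i j : ZMod n) (x y : M), x ∈ E i → y ∈ F j → ⁅x, y⁆ ∈ E (i + j)) (t : ℕ) :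
    ∀ (i j : ZMod n) (x y : M), x ∈ lF E t i → y ∈ F j → ⁅x, y⁆ ∈ lF E t (i + j) := by
  induction t with
  | zero => exact hEF
  | succ t ih =>
    intro i j x y hx hy
    change x ∈ AddSubgroup.closure _ at hx
    induction hx using AddSubgroup.closure_induction with
    | mem z hz =>
      obtain ⟨a, b, u, e, hab, hu, he, rfl⟩ := hz
      have hJ : ⁅⁅u, e⁆, y⁆ = ⁅⁅u, y⁆, e⁆ + ⁅u, ⁅e, y⁆⁆ := by
        rw [lie_lie u e y]
        have h1 : ⁅e, ⁅u, y⁆⁆ = -⁅⁅u, y⁆, e⁆ := (lie_skew _ _).symm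
        rw [h1]; abel
      rw [hJ]
      apply AddSubgroup.add_mem
      · apply AddSubgroup.subset_closure
        exact ⟨a + j, b, ⁅u, y⁆, e, by rw [← hab]; abel, ih a j u y hu hy, he, rfl⟩
      · apply AddSubgroup.subset_closure
        exact ⟨a, b + j, u, ⁅e, y⁆, by rw [← hab]; abel, hu, hEF b j e y he hy, rfl⟩
    | zero => rw [zero_lie]; exact AddSubgroup.zero_mem _
    | add a b _ _ ha hb => rw [add_lie]; exact AddSubgroup.add_mem _ ha hb
    | neg a _ ha => rw [neg_lie]; exact AddSubgroup.neg_mem _ ha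

/-- induction on `t`, closure induction. -/
theorem lF_le (F E : ZMod n → AddSubgroup M) (hF : IsGr F) (hE : ∀ i, E i ≤ F i) (t : ℕ) (i : ZMod n) :
    lF E t i ≤ F i := by
  induction t generalizing i with
  | zero => exact hE i
  | succ t ih =>
    change AddSubgroup.closure _ ≤ _
    rw [AddSubgroup.closure_le]
    rintro z ⟨a, b, u, e, hab, hu, he, rfl⟩
    rw [← hab]
    exact hF.lie a b u e (ih a hu) (hE b he)

/-- `dF F` is an ideal family of `F`. -/
theorem dF_ideal (F : ZMod n → AddSubgroup M) (hF : IsGr F) (i j : ZMod n) (x y : M)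
    (hx : x ∈ dF F i) (hy : y ∈ F j) : ⁅x, y⁆ ∈ dF F (i + j) := by
  apply AddSubgroup.subset_closure
  exact ⟨i, j, x, y, rfl, H92KBasic.dF_le F hF i hx, hy, rfl⟩

end Cfsg.Agent.Lib.H92KIdeal
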