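import Mathlib
import Cfsg.Agent.Lib.Helper92KDefs
import Cfsg.Agent.Lib.H92KAdL
import Cfsg.Agent.Lib.H92KIdeal

set_option autoImplicit false

namespace Cfsg.Agent.Lib.H92KAdMem

open Cfsg.Agent.Lib.Helper92KDefs

variable {M : Type*} [LieRing M] {n : ℕ}

/-- PIECE AdMem (20m).  Induction on `l` generalising `x i`, with `Ideal.lF_stable`; `List.map_cons, List.sum_cons, add_assoc`. -/
theorem adL_mem (F E : ZMod n → AddSubgroup M)
    (hEF : ∀ (i j : ZMod n) (x y : M), x ∈ E i → y ∈ F j → ⁅x, y⁆ ∈ E (i + j)) (t : ℕ)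
    (l : List (ZMod n × M)) (hl : ∀ e ∈ l, e.2 ∈ F e.1) (i : ZMod n) (x : M) (hx : x ∈ lF E t i) :
    adL x l ∈ lF E t (i + (l.map Prod.fst).sum) := by
  induction l generalizing x i with
  | nil =>
    rw [List.map_nil, List.sum_nil, add_zero]
    exact hx
  | cons e l ih =>
    rw [H92KAdL.adL_cons, List.map_cons, List.sum_cons, ← add_assoc]
    apply ih (fun e' he' => hl e' (List.mem_cons_of_mem _ he'))
    exact H92KIdeal.lF_stable F E hEF t i e.1 x e.2 hx (hl e List.mem_cons_self)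

end Cfsg.Agent.Lib.H92KAdMem
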