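import Mathlib

set_option autoImplicit false

namespace Cfsg.Agent.Lib.H92KCop

theorem coprime_card {G : Type*} [Group G] [Finite G] {p : ℕ} (hp : p.Prime) (α : MulAut G)
    (hα : orderOf α = p) (hfpf : ∀ g : G, α g = g → g = 1) : (Nat.card G).Coprime p := by
  classical
  haveI : Fact p.Prime := ⟨hp⟩
  have hP : IsPGroup p (Subgroup.zpowers α) := by
    apply IsPGroup.of_card (n := 1)
    rw [Nat.card_zpowers, hα, pow_one]
  have h1 := hP.card_modEq_card_fixedPoints G
  have h2 : MulAction.fixedPoints (Subgroup.zpowers α) G = {1} := by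
    ext g
    simp only [MulAction.mem_fixedPoints, Set.mem_singleton_iff]
    constructor
    · intro h
      exact hfpf g (h ⟨α, Subgroup.mem_zpowers α⟩)
    · rintro rfl ⟨β, _⟩
      exact map_one β
  rw [h2] at h1
  have h3 : Nat.card ({1} : Set G) = 1 := by simp
  rw [h3] at h1
  rw [Nat.coprime_comm, Nat.Prime.coprime_iff_not_dvd hp]
  intro hd
  have h4 : Nat.card G ≡ 0 [MOD p] := (Nat.modEq_zero_iff_dvd).mpr hd
  have h5 : 1 ≡ 0 [MOD p] := h1.symm.trans h4
  have h6 := (Nat.modEq_zero_iff_dvd).mp h5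
  exact hp.one_lt.ne' (Nat.dvd_one.mp h6)

end Cfsg.Agent.Lib.H92KCop
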