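import Mathlib
import Cfsg.Agent.Lib.Helper92KDefs
import Cfsg.Agent.Lib.H92KAdL
import Cfsg.Agent.Lib.H92KIdeal
import Cfsg.Agent.Lib.H92KAdMem
import Cfsg.Agent.Lib.H92KBasic

set_option autoImplicit false

namespace Cfsg.Agent.Lib.H92KPerm

open Cfsg.Agent.Lib.Helper92KDefs

variable {M : Type*} [LieRing M] {n : ℕ}

/-- PIECE Perm.  Modulo the next term of the lower central family of `E = dF F`, the operators `ad y` (`y ∈ F`) commute. -/
theorem perm (F : ZMod n → AddSubgroup M) (hF : IsGr F) (t : ℕ) (l l' : List (ZMod n × M)) (hp : l.Perm l')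
    (hl : ∀ e ∈ l, e.2 ∈ F e.1) (i : ZMod n) (x : M) (hx : x ∈ lF (dF F) t i) :
    adL x l - adL x l' ∈ lF (dF F) (t + 1) (i + (l.map Prod.fst).sum) := by
  have hEF := H92KIdeal.dF_ideal F hF
  induction hp generalizing x i with
  | nil => rw [sub_self]; exact AddSubgroup.zero_mem _
  | cons e hp ih =>
    rw [H92KAdL.adL_cons, H92KAdL.adL_cons, List.map_cons, List.sum_cons, ← add_assoc]
    apply ih (fun e' he' => hl e' (List.mem_cons_of_mem _ he'))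
    exact H92KIdeal.lF_stable F (dF F) hEF t i e.1 x e.2 hx (hl e (List.mem_cons_self))
  | swap a b l =>
    have hb : b.2 ∈ F b.1 := hl b (List.mem_cons_self)
    have ha : a.2 ∈ F a.1 := hl a (List.mem_cons_of_mem _ (List.mem_cons_self))
    rw [H92KAdL.adL_cons, H92KAdL.adL_cons, H92KAdL.adL_cons, H92KAdL.adL_cons, ← H92KAdL.adL_sub]
    have hJ : ⁅⁅x, b.2⁆, a.2⁆ - ⁅⁅x, a.2⁆, b.2⁆ = ⁅x, ⁅b.2, a.2⁆⁆ := by
      rw [leibniz_lie x b.2 a.2, ← lie_skew b.2 ⁅x, a.2⁆]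
      abel
    rw [hJ]
    have h1 : ⁅b.2, a.2⁆ ∈ dF F (b.1 + a.1) :=
      AddSubgroup.subset_closure ⟨b.1, a.1, b.2, a.2, rfl, hb, ha, rfl⟩
    have h2 : ⁅x, ⁅b.2, a.2⁆⁆ ∈ lF (dF F) (t + 1) (i + (b.1 + a.1)) :=
      AddSubgroup.subset_closure ⟨i, b.1 + a.1, x, ⁅b.2, a.2⁆, rfl, hx, h1, rfl⟩
    have h3 := H92KAdMem.adL_mem F (dF F) hEF (t + 1) l
      (fun e he => hl e (List.mem_cons_of_mem _ (List.mem_cons_of_mem _ he))) _ _ h2
    rw [List.map_cons, List.map_cons, List.sum_cons, List.sum_cons]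
    have hidx : i + (b.1 + (a.1 + (l.map Prod.fst).sum)) = i + (b.1 + a.1) + (l.map Prod.fst).sum := by
      abel
    rw [hidx]
    exact h3
  | trans h₁ h₂ ih₁ ih₂ =>
    rename_i l₁ l₂ l₃
    have e1 := ih₁ hl i x hx
    have e2 := ih₂ (fun e he => hl e (h₁.mem_iff.mpr he)) i x hx
    rw [← (h₁.map Prod.fst).sum_eq] at e2
    have := AddSubgroup.add_mem _ e1 e2
    rwa [sub_add_sub_cancel] at this

end Cfsg.Agent.Lib.H92KPerm
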