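import Mathlib
import Cfsg.Agent.Lib.Helper92KDefs

set_option autoImplicit false

namespace Cfsg.Agent.Lib.H92KSubsetSum

open Cfsg.Agent.Lib.Helper92KDefs

variable {M : Type*} [LieRing M] {n : ℕ}

open Classical in
/-- the set of sub-sums -/
noncomputable def SS {α : Type*} (p : ℕ) [Fact p.Prime] (w : α → ZMod p) (l : List α) : Finset (ZMod p) :=
  Finset.univ.filter (fun a => ∃ l₁ l₂ : List α, l.Perm (l₁ ++ l₂) ∧ (l₁.map w).sum = a)

theorem mem_SS {α : Type*} (p : ℕ) [Fact p.Prime] (w : α → ZMod p) (l : List α) (a : ZMod p) :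
    a ∈ SS p w l ↔ ∃ l₁ l₂ : List α, l.Perm (l₁ ++ l₂) ∧ (l₁.map w).sum = a := by
  unfold SS
  simp

open Pointwise in
theorem card_SS {α : Type*} (p : ℕ) [Fact p.Prime] (w : α → ZMod p) (l : List α)
    (hw : ∀ e ∈ l, w e ≠ 0) : min p (l.length + 1) ≤ (SS p w l).card := by
  have hp : p.Prime := Fact.out
  induction l with
  | nil =>
    have h0 : (0 : ZMod p) ∈ SS p w [] := (mem_SS p w [] 0).2 ⟨[], [], by simp, by simp⟩
    have : 0 < (SS p w []).card := Finset.card_pos.2 ⟨0, h0⟩
    simp only [List.length_nil]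
    omega
  | cons c l ih =>
    have ih' := ih (fun e he => hw e (List.mem_cons_of_mem _ he))
    have hc : w c ≠ 0 := hw c List.mem_cons_self
    have hne : (SS p w l).Nonempty := by
      apply Finset.card_pos.1
      have := hp.pos
      omega
    have hcd := ZMod.cauchy_davenport hp hne (t := {0, w c}) ⟨0, by simp⟩
    have h2 : ({0, w c} : Finset (ZMod p)).card = 2 := Finset.card_pair hc.symm
    have hsub : SS p w l + {0, w c} ⊆ SS p w (c :: l) := by
      intro x hx
      obtain ⟨a, ha, b, hb, rfl⟩ := Finset.mem_add.1 hx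
      obtain ⟨l₁, l₂, hl, hs⟩ := (mem_SS p w l a).1 ha
      rw [mem_SS]
      rw [Finset.mem_insert, Finset.mem_singleton] at hb
      rcases hb with rfl | rfl
      · refine ⟨l₁, c :: l₂, ?_, by rw [hs, add_zero]⟩
        exact (List.Perm.cons c hl).trans List.perm_middle.symm
      · refine ⟨c :: l₁, l₂, ?_, ?_⟩
        · exact List.Perm.cons c hl
        · rw [List.map_cons, List.sum_cons, hs, add_comm]
    have h3 := Finset.card_le_card hsub
    rw [h2] at hcd
    simp only [List.length_cons]
    omega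

/-- PIECE SubsetSum.  The sub-sums of `p - 1` non-zero residues mod `p` fill `ZMod p`. -/
theorem subset_sum {α : Type*} (p : ℕ) [Fact p.Prime] (w : α → ZMod p) (l : List α) (hlen : l.length = p - 1)
    (hw : ∀ e ∈ l, w e ≠ 0) (a : ZMod p) :
    ∃ l₁ l₂ : List α, l.Perm (l₁ ++ l₂) ∧ (l₁.map w).sum = a := by
  have hp : p.Prime := Fact.out
  have h1 := card_SS p w l hw
  have h2 : (SS p w l).card ≤ p := by
    have := Finset.card_le_univ (SS p w l)
    rwa [ZMod.card] at this
  have h3 : (SS p w l).card = Fintype.card (ZMod p) := by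
    rw [ZMod.card]
    have := hp.pos
    omega
  have h4 : SS p w l = Finset.univ := (Finset.card_eq_iff_eq_univ _).1 h3
  exact (mem_SS p w l a).1 (by rw [h4]; exact Finset.mem_univ a)

end Cfsg.Agent.Lib.H92KSubsetSum
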