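import Mathlib
import Cfsg.Agent.Lib.Helper92KDefs
import Cfsg.Agent.Lib.H92KAdL
import Cfsg.Agent.Lib.H92KIdeal
import Cfsg.Agent.Lib.H92KAdMem
import Cfsg.Agent.Lib.H92KPerm
import Cfsg.Agent.Lib.H92KSubsetSum
import Cfsg.Agent.Lib.H92KBasic

set_option autoImplicit false

namespace Cfsg.Agent.Lib.H92KKey

open Cfsg.Agent.Lib.Helper92KDefs

variable {M : Type*} [LieRing M] {n : ℕ}

/-- PIECE Key.  `p - 1` brackets with elements of `F` push `lF (dF F) t` into `lF (dF F) (t+1)`. -/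
theorem key (p : ℕ) [Fact p.Prime] (F : ZMod p → AddSubgroup M) (hF : IsGr F) (t : ℕ)
    (l : List (ZMod p × M)) (hlen : l.length = p - 1) (hl : ∀ e ∈ l, e.2 ∈ F e.1) (i : ZMod p) (x : M)
    (hx : x ∈ lF (dF F) t i) : adL x l ∈ lF (dF F) (t + 1) (i + (l.map Prod.fst).sum) := by
  by_cases h0 : ∃ e ∈ l, e.1 = 0
  · obtain ⟨e, he, he0⟩ := h0
    have h1 : e.2 = 0 := by
      have := hl e he
      rw [he0, hF.zero] at this
      exact (AddSubgroup.mem_bot).1 this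
    rw [H92KAdL.adL_zero_entry x l ⟨e, he, h1⟩]
    exact AddSubgroup.zero_mem _
  · push_neg at h0
    obtain ⟨l₁, l₂, hp, hs⟩ := H92KSubsetSum.subset_sum p Prod.fst l hlen h0 (-i)
    have hl1 : ∀ e ∈ l₁, e.2 ∈ F e.1 := fun e he =>
      hl e ((hp.mem_iff).2 (List.mem_append_left _ he))
    have h1 : adL x l₁ ∈ lF (dF F) t (i + (l₁.map Prod.fst).sum) :=
      H92KAdMem.adL_mem F (dF F) (H92KIdeal.dF_ideal F hF) t l₁ hl1 i x hx
    rw [hs, add_neg_cancel] at h1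
    have h2 : adL x l₁ = 0 := by
      have := H92KIdeal.lF_le F (dF F) hF (H92KBasic.dF_le F hF) t 0 h1
      rw [hF.zero] at this
      exact (AddSubgroup.mem_bot).1 this
    have h3 : adL x (l₁ ++ l₂) = 0 := by
      rw [H92KAdL.adL_append, h2, H92KAdL.adL_zero]
    have h4 := H92KPerm.perm F hF t l (l₁ ++ l₂) hp hl i x hx
    rwa [h3, sub_zero] at h4

end Cfsg.Agent.Lib.H92KKey
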