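import Mathlib
import Cfsg.Agent.Lib.Helper92KDefs
import Cfsg.Agent.Lib.H92KAdL

set_option autoImplicit false

namespace Cfsg.Agent.Lib.H92KLFAdd

open Cfsg.Agent.Lib.Helper92KDefs

variable {M : Type*} [LieRing M] {n : ℕ}

/-- PIECE LFAdd (40m).  `lF F (a + m)` is spanned by the `m`-fold brackets of elements of `lF F a` with homogeneous elements of `F`.
Induction on `m` (for all `k`).  `m = 0`: `z = adL z []`.  `m+1`: `lF F (a + m + 1) k` is the closure of the `⁅u,y⁆`, `u ∈ lF F (a+m) i'`, `y ∈ F j`, `i'+j = k`; for fixed `y` do `AddSubgroup.closure_induction` on `u` (in the closure given by IH):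
`⁅adL x l, y⁆ = adL x (l ++ [(j, y)])` (`AdL.adL_append`), `zero_lie, add_lie, neg_lie`. -/
theorem lF_add (F : ZMod n → AddSubgroup M) (a m : ℕ) (k : ZMod n) :
    lF F (a + m) k ≤ AddSubgroup.closure {z | ∃ (i : ZMod n) (x : M) (l : List (ZMod n × M)),
      x ∈ lF F a i ∧ l.length = m ∧ (∀ e ∈ l, e.2 ∈ F e.1) ∧ i + (l.map Prod.fst).sum = k ∧ z = adL x l} := by
  induction m generalizing k with
  | zero =>
    intro z hz
    exact AddSubgroup.subset_closure ⟨k, z, [], hz, rfl, by simp, by simp, rfl⟩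
  | succ m ih =>
    show AddSubgroup.closure {z | ∃ (i j : ZMod n) (x y : M), i + j = k ∧ x ∈ lF F (a + m) i ∧ y ∈ F j ∧
      z = ⁅x, y⁆} ≤ _
    rw [AddSubgroup.closure_le]
    rintro _ ⟨i', j, u, y, rfl, hu, hy, rfl⟩
    have hu' := ih i' hu
    refine AddSubgroup.closure_induction (p := fun u _ => ⁅u, y⁆ ∈
      AddSubgroup.closure {z | ∃ (i : ZMod n) (x : M) (l : List (ZMod n × M)),
        x ∈ lF F a i ∧ l.length = m + 1 ∧ (∀ e ∈ l, e.2 ∈ F e.1) ∧ i + (l.map Prod.fst).sum = i' + j ∧
        z = adL x l}) ?_ ?_ ?_ ?_ hu'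
    · rintro _ ⟨i, x, l, hx, hlen, hl, hsum, rfl⟩
      apply AddSubgroup.subset_closure
      refine ⟨i, x, l ++ [(j, y)], hx, by simp [hlen], ?_, ?_, ?_⟩
      · intro e he
        rw [List.mem_append] at he
        rcases he with he | he
        · exact hl e he
        · simp only [List.mem_singleton] at he
          subst he
          exact hy
      · simp [← hsum, add_assoc]
      · rw [H92KAdL.adL_append]; rfl
    · rw [zero_lie]; exact zero_mem _
    · intro a b _ _ ha hb
      rw [add_lie]; exact add_mem ha hb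
    · intro a _ ha
      rw [neg_lie]; exact neg_mem ha

end Cfsg.Agent.Lib.H92KLFAdd
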