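import Mathlib
import Cfsg.Agent.Lib.Helper92KDefs
import Cfsg.Agent.Lib.H92KKey
import Cfsg.Agent.Lib.H92KLFAdd

set_option autoImplicit false

namespace Cfsg.Agent.Lib.H92KDescend

open Cfsg.Agent.Lib.Helper92KDefs

variable {M : Type*} [LieRing M] {n : ℕ}

/-- PIECE Descend (30m).  Induction on `t`.  `t = 0`: `lF F 1 k` and `dF F k = lF (dF F) 0 k` are closures of the same set (`le_of_eq`, `congrArg`, or `AddSubgroup.closure_mono` after unfolding).
`t+1`: `1 + (p-1)*(t+1) = (1 + (p-1)*t) + (p-1)`; `LFAdd.lF_add F (1 + (p-1)*t) (p-1) k`, `AddSubgroup.closure_le`; a generator `adL x l` with `x ∈ lF F (1+(p-1)t) i ≤ lF (dF F) t i` (IH) lies in `lF (dF F) (t+1) k` by `Key.key`. -/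
theorem descend (p : ℕ) [Fact p.Prime] (F : ZMod p → AddSubgroup M) (hF : IsGr F) (t : ℕ) (k : ZMod p) :
    lF F (1 + (p - 1) * t) k ≤ lF (dF F) t k := by
  induction t generalizing k with
  | zero =>
    rw [mul_zero, add_zero]
    exact le_refl _
  | succ t ih =>
    have e : 1 + (p - 1) * (t + 1) = (1 + (p - 1) * t) + (p - 1) := by ring
    rw [e]
    refine (H92KLFAdd.lF_add F _ (p - 1) k).trans ?_
    rw [AddSubgroup.closure_le]
    rintro _ ⟨i, x, l, hx, hlen, hl, rfl, rfl⟩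
    exact H92KKey.key p F hF t l hlen hl i x (ih i hx)

end Cfsg.Agent.Lib.H92KDescend
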