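import Mathlib
import Cfsg.Agent.Lib.Helper92KDefs

set_option autoImplicit false

/-! Generic layer for the associated Lie ring (project 3779): a graded non-associative product on `⨁ d, A d`
whose homogeneous elements satisfy the Lie identities gives a `LieRing`; graded endomorphisms. -/

namespace Cfsg.Agent.Lib.H92KGGen

open DirectSum

universe u

variable (A : ℕ → Type u) [∀ d, AddCommGroup (A d)] [DirectSum.GNonUnitalNonAssocSemiring A]

/-- skew-symmetry extends from homogeneous elements -/
theorem skew (hskew : ∀ (a b : ℕ) (u : A a) (v : A b), of A a u * of A b v + of A b v * of A a u = 0)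
    (x y : ⨁ d, A d) : x * y + y * x = 0 := by
  induction x using DirectSum.induction_on with
  | zero => simp
  | of a u =>
    induction y using DirectSum.induction_on with
    | zero => simp
    | of b v => exact hskew a b u v
    | add y y' hy hy' =>
      rw [mul_add, add_mul]
      calc of A a u * y + of A a u * y' + (y * of A a u + y' * of A a u)
          = (of A a u * y + y * of A a u) + (of A a u * y' + y' * of A a u) := by abel
        _ = 0 := by rw [hy, hy', add_zero]
  | add x x' hx hx' =>
    rw [mul_add, add_mul]
    calc x * y + x' * y + (y * x + y * x') = (x * y + y * x) + (x' * y + y * x') := by abel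
      _ = 0 := by rw [hx, hx', add_zero]

theorem self (hself : ∀ (a : ℕ) (u : A a), of A a u * of A a u = 0)
    (hskew : ∀ (a b : ℕ) (u : A a) (v : A b), of A a u * of A b v + of A b v * of A a u = 0)
    (x : ⨁ d, A d) : x * x = 0 := by
  induction x using DirectSum.induction_on with
  | zero => simp
  | of a u => exact hself a u
  | add x x' hx hx' =>
    rw [mul_add, add_mul, add_mul, hx, hx', zero_add, add_zero, add_comm]
    exact skew A hskew x x'

theorem leibniz
    (hjac : ∀ (a b c : ℕ) (u : A a) (v : A b) (w : A c),
      of A a u * (of A b v * of A c w) = (of A a u * of A b v) * of A c w + of A b v * (of A a u * of A c w))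
    (x y z : ⨁ d, A d) : x * (y * z) = (x * y) * z + y * (x * z) := by
  induction x using DirectSum.induction_on with
  | zero => simp
  | add x x' hx hx' =>
    rw [add_mul, add_mul, add_mul, add_mul, mul_add, hx, hx']; abel
  | of a u =>
    induction y using DirectSum.induction_on with
    | zero => simp
    | add y y' hy hy' =>
      rw [add_mul, mul_add, mul_add, add_mul, add_mul, hy, hy']; abel
    | of b v =>
      induction z using DirectSum.induction_on with
      | zero => simp
      | add z z' hz hz' =>
        rw [mul_add, mul_add, mul_add, mul_add, mul_add, hz, hz']; abel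
      | of c w => exact hjac a b c u v w

/-- THE LIE RING. (Use it as a local instance or through a type synonym.) -/
@[reducible] def lieRing (hself : ∀ (a : ℕ) (u : A a), of A a u * of A a u = 0)
    (hskew : ∀ (a b : ℕ) (u : A a) (v : A b), of A a u * of A b v + of A b v * of A a u = 0)
    (hjac : ∀ (a b c : ℕ) (u : A a) (v : A b) (w : A c),
      of A a u * (of A b v * of A c w) = (of A a u * of A b v) * of A c w + of A b v * (of A a u * of A c w)) :
    LieRing (⨁ d, A d) where
  bracket x y := x * y
  add_lie x y z := add_mul x y z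
  lie_add x y z := mul_add x y z
  lie_self x := self A hself hskew x
  leibniz_lie x y z := leibniz A hjac x y z

/-! ### graded endomorphisms -/

variable (f : ∀ d, A d →+ A d)

/-- the endomorphism of `⨁ d, A d` induced by a family of endomorphisms -/
def Phi : (⨁ d, A d) →+ (⨁ d, A d) := DirectSum.map f

theorem Phi_of (d : ℕ) (u : A d) : Phi A f (of A d u) = of A d (f d u) := by
  simp [Phi]

theorem Phi_apply (x : ⨁ d, A d) (d : ℕ) : Phi A f x d = f d (x d) := by
  simp [Phi]

theorem Phi_mul
    (hf : ∀ (a b : ℕ) (u : A a) (v : A b),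
      f (a + b) (GradedMonoid.GMul.mul u v) = GradedMonoid.GMul.mul (f a u) (f b v))
    (x y : ⨁ d, A d) : Phi A f (x * y) = Phi A f x * Phi A f y := by
  induction x using DirectSum.induction_on with
  | zero => simp
  | add x x' hx hx' => rw [add_mul, map_add, map_add, add_mul, hx, hx']
  | of a u =>
    induction y using DirectSum.induction_on with
    | zero => simp
    | add y y' hy hy' => rw [mul_add, map_add, map_add, mul_add, hy, hy']
    | of b v => rw [of_mul_of, Phi_of, Phi_of, Phi_of, of_mul_of, hf]

theorem Phi_iter_apply (k : ℕ) (x : ⨁ d, A d) (d : ℕ) : ((Phi A f)^[k] x) d = (f d)^[k] (x d) := by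
  induction k generalizing x with
  | zero => rfl
  | succ k ih => rw [Function.iterate_succ_apply, Function.iterate_succ_apply, ih, Phi_apply]

theorem Phi_iter (p : ℕ) (hp : ∀ (d : ℕ) (u : A d), (f d)^[p] u = u) (x : ⨁ d, A d) :
    (Phi A f)^[p] x = x := by
  apply DFinsupp.ext
  intro d
  exact (Phi_iter_apply A f p x d).trans (hp d _)

theorem Phi_fix (hfix : ∀ (d : ℕ) (u : A d), f d u = u → u = 0) (x : ⨁ d, A d)
    (hx : Phi A f x = x) : x = 0 := by
  apply DFinsupp.ext
  intro d
  apply hfix d
  rw [← Phi_apply, hx]

theorem tors (N : ℕ) (h : ∀ (d : ℕ) (u : A d), N • u = 0) (x : ⨁ d, A d) : N • x = 0 := by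
  induction x using DirectSum.induction_on with
  | zero => simp
  | add x x' hx hx' => rw [smul_add, hx, hx', add_zero]
  | of a u => rw [← map_nsmul, h, map_zero]

/-! ### class -/

open Cfsg.Agent.Lib.Helper92KDefs in
/-- if every component `A (d+1)`, `d ≥ 1`, is additively generated by the products `A d * A 1`, then `A (d+1) ⊆ Lcs d`;
so class `≤ c` kills `A (c+1)`. -/
theorem of_mem_Lcs (hself : ∀ (a : ℕ) (u : A a), of A a u * of A a u = 0)
    (hskew : ∀ (a b : ℕ) (u : A a) (v : A b), of A a u * of A b v + of A b v * of A a u = 0)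
    (hjac : ∀ (a b c : ℕ) (u : A a) (v : A b) (w : A c),
      of A a u * (of A b v * of A c w) = (of A a u * of A b v) * of A c w + of A b v * (of A a u * of A c w))
    (hgen : ∀ d : ℕ, 1 ≤ d → ∀ w : A (d + 1), of A (d + 1) w ∈
      AddSubgroup.closure {z : ⨁ d, A d | ∃ (u : A d) (v : A 1), z = of A d u * of A 1 v})
    (c : ℕ) (w : A (c + 1)) :
    of A (c + 1) w ∈ @Lcs (⨁ d, A d) (lieRing A hself hskew hjac) c := by
  letI := lieRing A hself hskew hjac
  induction c with
  | zero => exact AddSubgroup.mem_top _
  | succ k ih =>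
    have h1 := hgen (k + 1) (by omega) w
    refine (AddSubgroup.closure_le _).2 ?_ h1
    rintro z ⟨u, v, rfl⟩
    exact AddSubgroup.subset_closure ⟨of A (k + 1) u, ih u, of A 1 v, rfl⟩

open Cfsg.Agent.Lib.Helper92KDefs in
theorem eq_zero_of_Lcs (hself : ∀ (a : ℕ) (u : A a), of A a u * of A a u = 0)
    (hskew : ∀ (a b : ℕ) (u : A a) (v : A b), of A a u * of A b v + of A b v * of A a u = 0)
    (hjac : ∀ (a b c : ℕ) (u : A a) (v : A b) (w : A c),
      of A a u * (of A b v * of A c w) = (of A a u * of A b v) * of A c w + of A b v * (of A a u * of A c w))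
    (hgen : ∀ d : ℕ, 1 ≤ d → ∀ w : A (d + 1), of A (d + 1) w ∈
      AddSubgroup.closure {z : ⨁ d, A d | ∃ (u : A d) (v : A 1), z = of A d u * of A 1 v})
    (c : ℕ) (h : @Lcs (⨁ d, A d) (lieRing A hself hskew hjac) c = ⊥) (w : A (c + 1)) : w = 0 := by
  have h1 := of_mem_Lcs A hself hskew hjac hgen c w
  rw [h, AddSubgroup.mem_bot] at h1
  exact DirectSum.of_injective (β := A) (c + 1) (by rw [h1, map_zero])

end Cfsg.Agent.Lib.H92KGGen
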