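import Mathlib
import Cfsg.Agent.Lib.Helper73HallPetrescu

/-!
# Project 3779 (HKK), sub-project GroupLie: the pure group theory of the lower central filtration

`Gam G d = γ_d(G)` with `Gam G 0 = Gam G 1 = ⊤`.  `Cg k u v`: `u ≡ v` modulo `Gam G k`
(in the form `u⁻¹ * v ∈ Gam G k` of `QuotientGroup.eq`).
-/

set_option autoImplicit false

namespace Cfsg.Agent.Lib.H92KGGrp

open scoped commutatorElement

/-- `γ_d(G)`, with `Gam G 0 = Gam G 1 = ⊤`. -/
def Gam (G : Type*) [Group G] (d : ℕ) : Subgroup G := (⊤ : Subgroup G).lowerCentralSeries (d - 1)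

variable {G : Type*} [Group G]

instance gam_characteristic (d : ℕ) : (Gam G d).Characteristic := by
  unfold Gam; infer_instance

instance gam_normal (d : ℕ) : (Gam G d).Normal := inferInstance

theorem gam_zero : Gam G 0 = ⊤ := rfl

theorem gam_one : Gam G 1 = ⊤ := rfl

theorem gam_succ (d : ℕ) : Gam G (d + 1) = (⊤ : Subgroup G).lowerCentralSeries d := rfl

theorem gam_anti {a b : ℕ} (h : a ≤ b) : Gam G b ≤ Gam G a :=
  Subgroup.lowerCentralSeries_antitone _ (Nat.sub_le_sub_right h 1)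

theorem gam_char (φ : MulAut G) {d : ℕ} {x : G} (hx : x ∈ Gam G d) : φ x ∈ Gam G d := by
  have h := (gam_characteristic (G := G) d).fixed φ
  rw [← h] at hx
  exact hx

theorem conj_mem {d : ℕ} {x : G} (hx : x ∈ Gam G d) (g : G) : g * x * g⁻¹ ∈ Gam G d :=
  (gam_normal d).conj_mem x hx g

/-- valid for ALL `k`, including `k = 0`. -/
theorem comm_top {k : ℕ} {w : G} (hw : w ∈ Gam G k) (g : G) : ⁅w, g⁆ ∈ Gam G (k + 1) := by
  cases k with
  | zero => rw [gam_one]; exact Subgroup.mem_top _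
  | succ k =>
    rw [gam_succ, Subgroup.lowerCentralSeries_succ]
    exact Subgroup.commutator_mem_commutator hw (Subgroup.mem_top g)

theorem comm_top' {k : ℕ} {w : G} (hw : w ∈ Gam G k) (g : G) : ⁅g, w⁆ ∈ Gam G (k + 1) := by
  rw [← commutatorElement_inv]
  exact (Gam G (k + 1)).inv_mem (comm_top hw g)

theorem comm_mem {a b : ℕ} {x y : G} (hx : x ∈ Gam G a) (hy : y ∈ Gam G b) : ⁅x, y⁆ ∈ Gam G (a + b) := by
  cases a with
  | zero =>
    rw [zero_add, commutatorElement_def]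
    exact (Gam G b).mul_mem (conj_mem hy x) ((Gam G b).inv_mem hy)
  | succ a =>
    cases b with
    | zero =>
      rw [add_zero, commutatorElement_def, mul_assoc, mul_assoc]
      refine (Gam G (a + 1)).mul_mem hx ?_
      rw [← mul_assoc]
      exact conj_mem ((Gam G (a + 1)).inv_mem hx) y
    | succ b =>
      have h := Cfsg.Agent.Lib.Helper73HallPetrescu.top_lcs_comm G b a
      have h2 : ⁅x, y⁆ ∈ (⊤ : Subgroup G).lowerCentralSeries (a + b + 1) :=
        h (Subgroup.commutator_mem_commutator hx hy)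
      have e : a + 1 + (b + 1) = (a + b + 1) + 1 := by omega
      rw [e, gam_succ]
      exact h2

/-- congruence modulo `Gam G k`. -/
def Cg (k : ℕ) (u v : G) : Prop := u⁻¹ * v ∈ Gam G k

theorem cg_iff {k : ℕ} {u v : G} : Cg k u v ↔ (QuotientGroup.mk u : G ⧸ Gam G k) = QuotientGroup.mk v :=
  QuotientGroup.eq.symm

theorem cg_refl (k : ℕ) (u : G) : Cg k u u := cg_iff.mpr rfl

theorem cg_symm {k : ℕ} {u v : G} (h : Cg k u v) : Cg k v u := cg_iff.mpr (cg_iff.mp h).symm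

theorem cg_trans {k : ℕ} {u v w : G} (h : Cg k u v) (h' : Cg k v w) : Cg k u w :=
  cg_iff.mpr ((cg_iff.mp h).trans (cg_iff.mp h'))

theorem cg_mul {k : ℕ} {u v u' v' : G} (h : Cg k u u') (h' : Cg k v v') : Cg k (u * v) (u' * v') := by
  rw [cg_iff, QuotientGroup.mk_mul, QuotientGroup.mk_mul, cg_iff.mp h, cg_iff.mp h']

theorem cg_inv {k : ℕ} {u v : G} (h : Cg k u v) : Cg k u⁻¹ v⁻¹ := by
  rw [cg_iff, QuotientGroup.mk_inv, QuotientGroup.mk_inv, cg_iff.mp h]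

theorem cg_one_iff {k : ℕ} {u : G} : Cg k 1 u ↔ u ∈ Gam G k := by
  unfold Cg; simp

theorem cg_one_iff' {k : ℕ} {u : G} : Cg k u 1 ↔ u ∈ Gam G k := by
  unfold Cg; simp

theorem cg_mono {a b : ℕ} (h : a ≤ b) {u v : G} (h' : Cg b u v) : Cg a u v := gam_anti h h'

theorem cg_of_mul_inv {k : ℕ} {u v : G} (h : u * v⁻¹ ∈ Gam G k) : Cg k u v := by
  rw [cg_iff]
  have := (QuotientGroup.eq_one_iff (N := Gam G k) (u * v⁻¹)).mpr h
  rw [QuotientGroup.mk_mul, QuotientGroup.mk_inv, mul_inv_eq_one] at this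
  exact this

theorem mem_of_cg {k d : ℕ} (hdk : d ≤ k) {u v : G} (h : Cg k u v) (hu : u ∈ Gam G d) : v ∈ Gam G d := by
  have : v = u * (u⁻¹ * v) := by group
  rw [this]
  exact (Gam G d).mul_mem hu (gam_anti hdk h)

/-- conjugation is trivial on `Gam k / Gam (k+1)`. -/
theorem cg_conj {k : ℕ} {w : G} (hw : w ∈ Gam G k) (g : G) : Cg (k + 1) (g * w * g⁻¹) w := by
  apply cg_of_mul_inv
  have := comm_top' hw g
  rwa [commutatorElement_def] at this

/-- `Gam k / Gam (k+1)` is commutative. -/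
theorem cg_comm {k : ℕ} {u : G} (hu : u ∈ Gam G k) (v : G) : Cg (k + 1) (u * v) (v * u) := by
  apply cg_of_mul_inv
  have := comm_top hu v
  rw [commutatorElement_def] at this
  rw [mul_inv_rev, ← mul_assoc]
  exact this

theorem comm_mul_left (x x' y : G) : ⁅x * x', y⁆ = x * ⁅x', y⁆ * x⁻¹ * ⁅x, y⁆ := by
  simp only [commutatorElement_def]; group

theorem comm_mul_right (x y y' : G) : ⁅x, y * y'⁆ = ⁅x, y⁆ * (y * ⁅x, y'⁆ * y⁻¹) := by
  simp only [commutatorElement_def]; group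

/-- additivity on the left. -/
theorem bil_left {a b : ℕ} {x x' y : G} (hx : x ∈ Gam G a) (hx' : x' ∈ Gam G a) (hy : y ∈ Gam G b) :
    Cg (a + b + 1) ⁅x * x', y⁆ (⁅x, y⁆ * ⁅x', y⁆) := by
  rw [comm_mul_left]
  have h1 : Cg (a + b + 1) (x * ⁅x', y⁆ * x⁻¹) ⁅x', y⁆ := cg_conj (comm_mem hx' hy) x
  exact cg_trans (cg_mul h1 (cg_refl _ _)) (cg_comm (comm_mem hx' hy) _)

/-- additivity on the right. -/
theorem bil_right {a b : ℕ} {x y y' : G} (hx : x ∈ Gam G a) (hy : y ∈ Gam G b) (hy' : y' ∈ Gam G b) :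
    Cg (a + b + 1) ⁅x, y * y'⁆ (⁅x, y⁆ * ⁅x, y'⁆) := by
  rw [comm_mul_right]
  exact cg_mul (cg_refl _ _) (cg_conj (comm_mem hx hy') y)

/-- the class of `⁅x, y⁆` depends only on the class of `x`. -/
theorem congr_left {a b : ℕ} {x x' y : G} (hx : x ∈ Gam G a) (hxx : Cg (a + 1) x x') (hy : y ∈ Gam G b) :
    Cg (a + b + 1) ⁅x, y⁆ ⁅x', y⁆ := by
  have e : x' = x * (x⁻¹ * x') := by group
  have hu : ⁅x⁻¹ * x', y⁆ ∈ Gam G (a + b + 1) := by
    have := comm_mem (a := a + 1) (b := b) hxx hy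
    rwa [show a + 1 + b = a + b + 1 by omega] at this
  rw [e, comm_mul_left]
  apply cg_symm
  have h1 : Cg (a + b + 1) (x * ⁅x⁻¹ * x', y⁆ * x⁻¹) 1 := cg_one_iff'.mpr (conj_mem hu x)
  have := cg_mul h1 (cg_refl (a + b + 1) ⁅x, y⁆)
  rwa [one_mul] at this

/-- the class of `⁅x, y⁆` depends only on the class of `y`. -/
theorem congr_right {a b : ℕ} {x y y' : G} (hx : x ∈ Gam G a) (hy : y ∈ Gam G b) (hyy : Cg (b + 1) y y') :
    Cg (a + b + 1) ⁅x, y⁆ ⁅x, y'⁆ := by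
  have e : y' = y * (y⁻¹ * y') := by group
  have hu : ⁅x, y⁻¹ * y'⁆ ∈ Gam G (a + b + 1) := comm_mem (a := a) (b := b + 1) hx hyy
  rw [e, comm_mul_right]
  apply cg_symm
  have h1 : Cg (a + b + 1) (y * ⁅x, y⁻¹ * y'⁆ * y⁻¹) 1 := cg_one_iff'.mpr (conj_mem hu y)
  have := cg_mul (cg_refl (a + b + 1) ⁅x, y⁆) h1
  rwa [mul_one] at this

theorem skew (x y : G) : ⁅x, y⁆ * ⁅y, x⁆ = 1 := by
  simp only [commutatorElement_def]; group

theorem comm_self (x : G) : ⁅x, x⁆ = 1 := commutatorElement_self x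

/-- the Hall-Witt identity for `⁅a, b⁆ = a b a⁻¹ b⁻¹`. -/
theorem hall_witt (x y z : G) :
    (x * ⁅y, ⁅x⁻¹, z⁆⁆ * x⁻¹) * (z * ⁅x, ⁅z⁻¹, y⁆⁆ * z⁻¹) * (y * ⁅z, ⁅y⁻¹, x⁆⁆ * y⁻¹) = 1 := by
  simp only [commutatorElement_def]; group

/-- fixed points in the factors. -/
theorem fix [Finite G] (φ : MulAut G) (hfpf : ∀ g : G, φ g = g → g = 1) {k : ℕ} {g : G}
    (hg : g⁻¹ * φ g ∈ Gam G k) : g ∈ Gam G k := by
  have key : ∀ u v : G, u⁻¹ * φ u = v⁻¹ * φ v → u = v := by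
    intro u v h
    have h1 : φ (v * u⁻¹) = v * u⁻¹ := by
      rw [map_mul, map_inv]
      have h2 : φ u = u * (v⁻¹ * φ v) := by rw [← h]; group
      rw [h2]; group
    have := hfpf _ h1
    exact (mul_inv_eq_one.mp this).symm
  let f : Gam G k → Gam G k := fun u =>
    ⟨(u : G)⁻¹ * φ u, (Gam G k).mul_mem ((Gam G k).inv_mem u.2) (gam_char φ u.2)⟩
  have hinj : Function.Injective f := by
    intro u v h
    exact Subtype.ext (key _ _ (congrArg Subtype.val h))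
  obtain ⟨u, hu⟩ := (Finite.injective_iff_surjective.mp hinj) ⟨_, hg⟩
  have := key _ _ (congrArg Subtype.val hu)
  rw [← this]
  exact u.2

/-- induction principle for `Gam (d+2) = ⁅Gam (d+1), ⊤⁆`. -/
theorem gam_induction {d : ℕ} {P : G → Prop} (hc : ∀ u ∈ Gam G (d + 1), ∀ g : G, P ⁅u, g⁆) (h1 : P 1)
    (hm : ∀ u v : G, u ∈ Gam G (d + 2) → v ∈ Gam G (d + 2) → P u → P v → P (u * v))
    (hi : ∀ u : G, u ∈ Gam G (d + 2) → P u → P u⁻¹) {w : G} (hw : w ∈ Gam G (d + 2)) : P w := by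
  have hw' : w ∈ Subgroup.closure {x : G | ∃ p ∈ (⊤ : Subgroup G).lowerCentralSeries d,
      ∃ q ∈ (⊤ : Subgroup G), ⁅p, q⁆ = x} := hw
  clear hw
  induction hw' using Subgroup.closure_induction with
  | mem x hx =>
    obtain ⟨p, hp, q, _, rfl⟩ := hx
    exact hc p hp q
  | one => exact h1
  | mul u v hu hv ihu ihv => exact hm u v hu hv ihu ihv
  | inv u hu ihu => exact hi u hu ihu

end Cfsg.Agent.Lib.H92KGGrp
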