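import Mathlib
import Cfsg.Agent.Lib.Helper92KDefs
import Cfsg.Agent.Lib.H92KDescend
import Cfsg.Agent.Lib.H92KBasic

set_option autoImplicit false

namespace Cfsg.Agent.Lib.H92KHkk

open Cfsg.Agent.Lib.Helper92KDefs

variable {M : Type*} [LieRing M] {n : ℕ}

/-- PIECE Hkk (30m).  Induction on `s` for all `F`.  `s = 0`: `F i = ⊥` and the sum is `0`.
`s+1`: `E := dF F` is graded (`Basic.dF_isGr`), `dF^[s] E = dF^[s+1] F` (`Function.iterate_succ_apply`), IH: `lF E c = ⊥`, `c = ∑ i<s, (p-1)^i`; `Descend.descend`: `lF F (1 + (p-1)*c) k ≤ lF E c k = ⊥`;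
`∑ i<s+1, (p-1)^i = 1 + (p-1) * c` (`Finset.sum_range_succ'`, `Finset.mul_sum`, `pow_succ'`). -/
theorem hkk (p : ℕ) [Fact p.Prime] (s : ℕ) : ∀ (F : ZMod p → AddSubgroup M), IsGr F →
    (∀ i, (dF^[s] F) i = ⊥) → ∀ i, lF F (∑ j ∈ Finset.range s, (p - 1) ^ j) i = ⊥ := by
  induction s with
  | zero =>
    intro F hF h i
    rw [Finset.range_zero, Finset.sum_empty]
    exact h i
  | succ s ih =>
    intro F hF h i
    have h1 := ih (dF F) (H92KBasic.dF_isGr F hF) (fun i => by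
      rw [← Function.iterate_succ_apply]; exact h i)
    have e : ∑ j ∈ Finset.range (s + 1), (p - 1) ^ j = 1 + (p - 1) * ∑ j ∈ Finset.range s, (p - 1) ^ j := by
      rw [Finset.sum_range_succ', Finset.mul_sum, add_comm]
      simp [pow_succ']
    rw [e, eq_bot_iff, ← h1 i]
    exact H92KDescend.descend p F hF _ i

end Cfsg.Agent.Lib.H92KHkk
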