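import Mathlib
import Cfsg.Agent.Lib.Helper92KDefs

set_option autoImplicit false

namespace Cfsg.Agent.Lib.H92KHSMem

open Cfsg.Agent.Lib.Helper92KDefs

variable {M : Type*} [LieRing M] {n : ℕ}

/-- PIECE HSMem (10m).  Induction on `HS`. -/
theorem hs_mem (F : ZMod n → AddSubgroup M) (hF : IsGr F) (k : ℕ) (i : ZMod n) (x : M)
    (h : HS F k i x) : x ∈ F i := by
  induction h with
  | gen j x _ hx => exact hx
  | zero j => exact (F j).zero_mem
  | add j x y _ _ hx hy => exact (F j).add_mem hx hy
  | neg j x _ hx => exact (F j).neg_mem hx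
  | lie i j x y _ _ hx hy => exact hF.lie i j x y hx hy

/-- Induction on `HS`: the constructor `gen` is impossible because `j.val < n` (`ZMod.val_lt`). -/
theorem hs_top [NeZero n] (F : ZMod n → AddSubgroup M) (i : ZMod n) (x : M) (h : HS F n i x) : x = 0 := by
  induction h with
  | gen j x hj _ => exact absurd (ZMod.val_lt j) (not_lt.2 hj)
  | zero j => rfl
  | add j x y _ _ hx hy => rw [hx, hy, add_zero]
  | neg j x _ hx => rw [hx, neg_zero]
  | lie i j x y _ _ hx hy => rw [hx, zero_lie]

end Cfsg.Agent.Lib.H92KHSMem
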