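import Mathlib
import Cfsg.Agent.Lib.Helper92KDefs

set_option autoImplicit false

namespace Cfsg.Agent.Lib.H92KLift

open Cfsg.Agent.Lib.Helper92KDefs

variable {M : Type*} [LieRing M] {n : ℕ}

/-- PIECE Lift (10m).  Induction on `HS`. -/
theorem lift (T F : ZMod n → AddSubgroup M) (k : ℕ)
    (hT : ∀ (j : ZMod n) (x : M), x ∈ T j → k ≤ j.val → HS F (k + 1) j x)
    (i : ZMod n) (x : M) (h : HS T k i x) : HS F (k + 1) i x := by
  induction h with
  | gen j x hj hx => exact hT j x hx hj
  | zero j => exact HS.zero j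
  | add j x y _ _ hx hy => exact HS.add j x y hx hy
  | neg j x _ hx => exact HS.neg j x hx
  | lie i j x y _ _ hx hy => exact HS.lie i j x y hx hy

end Cfsg.Agent.Lib.H92KLift
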