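import Mathlib
import Cfsg.Agent.Lib.Helper92KDefs
import Cfsg.Agent.Lib.H92KHSMem

set_option autoImplicit false

namespace Cfsg.Agent.Lib.H92KQ

open Cfsg.Agent.Lib.Helper92KDefs

variable {M : Type*} [LieRing M] {n : ℕ}

theorem hs_cast {F : ZMod n → AddSubgroup M} {k : ℕ} {i j : ZMod n} {x : M} (h : HS F k i x)
    (e : i = j) : HS F k j x := e ▸ h

/-- PIECE Q = the heart of Kreknin's theorem.  A bracket of total degree `k` of two homogeneous elements of the subring generated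
by the components of degree `≥ k` lies in the subring generated by the components of degree `≥ k+1`. -/
theorem q_main [NeZero n] (F : ZMod n → AddSubgroup M) (hF : IsGr F) (k : ℕ) (hk : k < n)
    (i j : ZMod n) (u v : M) (hu : HS F k i u) (hv : HS F k j v) (hij : i + j = (k : ZMod n)) :
    HS F (k + 1) (i + j) ⁅u, v⁆ := by
  induction hu generalizing j v with
  | gen t a ht ha =>
    have hvF : v ∈ F j := Cfsg.Agent.Lib.H92KHSMem.hs_mem F hF k j v hv
    rcases Nat.eq_or_lt_of_le ht with h1 | h1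
    · have e1 : t = (k : ZMod n) := by rw [h1, ZMod.natCast_zmod_val]
      have e2 : j = 0 := by
        rw [e1] at hij
        exact add_eq_left.1 hij
      rw [e2, hF.zero, AddSubgroup.mem_bot] at hvF
      rw [hvF, lie_zero]
      exact HS.zero _
    · have h2 : (t + j).val = k := by rw [hij, ZMod.val_natCast, Nat.mod_eq_of_lt hk]
      rw [ZMod.val_add] at h2
      have h3 := ZMod.val_lt t
      have h4 := ZMod.val_lt j
      have h5 : k + 1 ≤ j.val := by
        rcases Nat.lt_or_ge (t.val + j.val) n with h6 | h6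
        · rw [Nat.mod_eq_of_lt h6] at h2; omega
        · have h7 : (t.val + j.val) % n = t.val + j.val - n := by
            rw [Nat.mod_eq_sub_mod h6, Nat.mod_eq_of_lt (by omega)]
          omega
      exact HS.lie _ _ _ _ (HS.gen _ _ h1 ha) (HS.gen _ _ h5 hvF)
  | zero t =>
    rw [zero_lie]; exact HS.zero _
  | add t x y _ _ ihx ihy =>
    rw [add_lie]; exact HS.add _ _ _ (ihx j v hv hij) (ihy j v hv hij)
  | neg t x _ ih =>
    rw [neg_lie]; exact HS.neg _ _ (ih j v hv hij)
  | lie i₁ i₂ u₁ u₂ h₁ h₂ ih₁ ih₂ =>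
    have e : ⁅⁅u₁, u₂⁆, v⁆ = ⁅u₁, ⁅u₂, v⁆⁆ + -⁅u₂, ⁅u₁, v⁆⁆ := by
      rw [lie_lie]; abel
    rw [e]
    have a1 := ih₁ (i₂ + j) ⁅u₂, v⁆ (HS.lie _ _ _ _ h₂ hv) (by rw [← add_assoc]; exact hij)
    have a2 := ih₂ (i₁ + j) ⁅u₁, v⁆ (HS.lie _ _ _ _ h₁ hv)
      (by rw [add_left_comm, ← add_assoc]; exact hij)
    exact HS.add _ _ _ (hs_cast a1 (by rw [add_assoc]))
      (HS.neg _ _ (hs_cast a2 (by rw [add_left_comm, add_assoc])))

end Cfsg.Agent.Lib.H92KQ
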