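import Mathlib
import Cfsg.Agent.Lib.Helper92KDefs
import Cfsg.Agent.Lib.H92KBasic
import Cfsg.Agent.Lib.H92KHSMem
import Cfsg.Agent.Lib.H92KQ
import Cfsg.Agent.Lib.H92KLift

set_option autoImplicit false

namespace Cfsg.Agent.Lib.H92KP

open Cfsg.Agent.Lib.Helper92KDefs

variable {M : Type*} [LieRing M] {n : ℕ}

/-- PIECE P = Kreknin's induction. -/
theorem p_main [NeZero n] (k : ℕ) (hk : k < n) : ∀ (F : ZMod n → AddSubgroup M), IsGr F →
    ∀ (i : ZMod n) (x : M), x ∈ (dF^[2 ^ k - 1] F) i → HS F (k + 1) i x := by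
  induction k with
  | zero =>
    intro F hF i x hx
    have hx' : x ∈ F i := hx
    by_cases hi : i = 0
    · subst hi
      rw [hF.zero, AddSubgroup.mem_bot] at hx'
      rw [hx']
      exact HS.zero 0
    · apply HS.gen i x _ hx'
      have : i.val ≠ 0 := fun h => hi ((ZMod.val_eq_zero i).mp h)
      omega
  | succ k ih =>
    intro F hF i x hx
    have ih' := ih (by omega)
    set a := 2 ^ k - 1 with ha
    have hpow : 2 ^ (k + 1) - 1 = a + (1 + a) := by
      have : 0 < 2 ^ k := by positivity
      rw [pow_succ]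
      omega
    rw [hpow, Function.iterate_add_apply, Function.iterate_add_apply, Function.iterate_one] at hx
    set N := dF^[a] F with hN
    have hNgr : IsGr N := (H92KBasic.iter_isGr F hF a).1
    have hNle : ∀ j, N j ≤ F j := (H92KBasic.iter_isGr F hF a).2
    have hTgr : IsGr (dF N) := H92KBasic.dF_isGr N hNgr
    have hTle : ∀ j, dF N j ≤ N j := H92KBasic.dF_le N hNgr
    have h1 : HS (dF N) (k + 1) i x := ih' (dF N) hTgr i x hx
    apply H92KLift.lift (dF N) F (k + 1) _ i x h1
    intro j y hy hj
    by_cases hlt : k + 1 < j.val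
    · exact HS.gen j y (by omega) (hNle j (hTle j hy))
    · have hjv : j.val = k + 1 := by omega
      have hjc : ((k + 1 : ℕ) : ZMod n) = j := by
        rw [← hjv]; exact ZMod.natCast_zmod_val j
      have hy' : y ∈ AddSubgroup.closure {z | ∃ (i' j' : ZMod n) (x y : M), i' + j' = j ∧ x ∈ N i' ∧
          y ∈ N j' ∧ z = ⁅x, y⁆} := hy
      induction hy' using AddSubgroup.closure_induction with
      | mem z hz =>
        obtain ⟨a', b', u, v, hab, hu, hv, rfl⟩ := hz
        have hu' := ih' F hF a' u hu
        have hv' := ih' F hF b' v hv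
        have := H92KQ.q_main F hF (k + 1) hk a' b' u v hu' hv' (by rw [hab, hjc])
        rwa [hab] at this
      | zero => exact HS.zero j
      | add p q _ _ hp hq =>
        exact HS.add j p q (hp (by assumption)) (hq (by assumption))
      | neg p _ hp => exact HS.neg j p (hp (by assumption))

end Cfsg.Agent.Lib.H92KP
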