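import Mathlib
import Cfsg.Agent.Lib.Helper92KDefs
import Cfsg.Agent.Lib.H92KP
import Cfsg.Agent.Lib.H92KHSMem

set_option autoImplicit false

namespace Cfsg.Agent.Lib.H92KKreknin

open Cfsg.Agent.Lib.Helper92KDefs

variable {M : Type*} [LieRing M] {n : ℕ}

/-- PIECE Kreknin (10m).  `p_main (n-1)` and `hs_top` (`n - 1 + 1 = n` as `n ≠ 0`). -/
theorem kreknin [NeZero n] (F : ZMod n → AddSubgroup M) (hF : IsGr F) (i : ZMod n) :
    (dF^[2 ^ (n - 1) - 1] F) i = ⊥ := by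
  have hn : n ≠ 0 := NeZero.ne n
  rw [eq_bot_iff]
  intro x hx
  have h1 := Cfsg.Agent.Lib.H92KP.p_main (n - 1) (by omega) F hF i x hx
  have e : n - 1 + 1 = n := by omega
  rw [e] at h1
  rw [AddSubgroup.mem_bot]
  exact Cfsg.Agent.Lib.H92KHSMem.hs_top F i x h1

end Cfsg.Agent.Lib.H92KKreknin
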