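import Mathlib
import Cfsg.Agent.Lib.Helper92KDefs

set_option autoImplicit false

namespace Cfsg.Agent.Lib.H92KLcsLe

open Cfsg.Agent.Lib.Helper92KDefs

variable {M : Type*} [LieRing M] {n : ℕ}

/-- PIECE LcsLe (30m).  Induction on `c`.  `c+1`: `AddSubgroup.closure_le`; for a generator `⁅x,y⁆` with `x ∈ Lcs M c ≤ ⨆ k, lF F c k` and `y ∈ ⊤ = ⨆ j, F j` use `AddSubgroup.iSup_induction` (or `AddSubgroup.closure_induction` after `AddSubgroup.iSup_eq_closure`) twice (`add_lie, lie_add, zero_lie, lie_zero`);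
for `x ∈ lF F c i`, `y ∈ F j` the bracket is a generator of `lF F (c+1) (i+j) ≤ ⨆`. -/
theorem lcs_le (F : ZMod n → AddSubgroup M) (hspan : ⨆ i, F i = ⊤) (c : ℕ) :
    Lcs M c ≤ ⨆ k, lF F c k := by
  induction c with
  | zero =>
    show (⊤ : AddSubgroup M) ≤ ⨆ k, F k
    rw [hspan]
  | succ c ih =>
    show AddSubgroup.closure {z | ∃ x ∈ Lcs M c, ∃ y : M, z = ⁅x, y⁆} ≤ _
    rw [AddSubgroup.closure_le]
    rintro _ ⟨x, hx, y, rfl⟩
    have hx' := ih hx
    have hy : y ∈ ⨆ j, F j := by rw [hspan]; trivial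
    show ⁅x, y⁆ ∈ ⨆ k, lF F (c + 1) k
    refine AddSubgroup.iSup_induction (fun k => lF F c k) (C := fun x => ⁅x, y⁆ ∈ ⨆ k, lF F (c + 1) k) hx' ?_ ?_ ?_
    · intro i x hxi
      refine AddSubgroup.iSup_induction F (C := fun y => ⁅x, y⁆ ∈ ⨆ k, lF F (c + 1) k) hy ?_ ?_ ?_
      · intro j y hyj
        exact AddSubgroup.mem_iSup_of_mem (i + j)
          (AddSubgroup.subset_closure ⟨i, j, x, y, rfl, hxi, hyj, rfl⟩)
      · rw [lie_zero]; exact zero_mem _
      · intro a b ha hb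
        rw [lie_add]; exact add_mem ha hb
    · rw [zero_lie]; exact zero_mem _
    · intro a b ha hb
      rw [add_lie]; exact add_mem ha hb

end Cfsg.Agent.Lib.H92KLcsLe
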