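import Mathlib
import Cfsg.Agent.Lib.Helper92KDefs

set_option autoImplicit false

namespace Cfsg.Agent.Lib.H92KThree

open Cfsg.Agent.Lib.Helper92KDefs

variable {M : Type*} [LieRing M] {n : ℕ}

theorem cases3 : ∀ a b l : ZMod 3, a = 0 ∨ b = 0 ∨ l = 0 ∨ a + b = 0 ∨ a + b + l = 0 ∨
    (a + l = 0 ∧ b + l = 0) := by decide

theorem triple (F : ZMod 3 → AddSubgroup M) (hF : IsGr F) (a b l : ZMod 3) (x y z : M)
    (hx : x ∈ F a) (hy : y ∈ F b) (hz : z ∈ F l) : ⁅⁅x, y⁆, z⁆ = 0 := by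
  have h0 : ∀ w, w ∈ F 0 → w = 0 := by
    intro w hw
    rw [hF.zero] at hw
    exact AddSubgroup.mem_bot.1 hw
  rcases cases3 a b l with h | h | h | h | h | ⟨h1, h2⟩
  · subst h; rw [h0 x hx]; simp
  · subst h; rw [h0 y hy]; simp
  · subst h; rw [h0 z hz]; simp
  · have := hF.lie a b x y hx hy
    rw [h] at this
    rw [h0 _ this]; simp
  · have := hF.lie (a + b) l _ z (hF.lie a b x y hx hy) hz
    rw [h] at this
    exact h0 _ this
  · have e1 := hF.lie a l x z hx hz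
    have e2 := hF.lie b l y z hy hz
    rw [h1] at e1
    rw [h2] at e2
    rw [lie_lie, h0 _ e1, h0 _ e2]
    simp

/-- PIECE Three. -/
theorem three (F : ZMod 3 → AddSubgroup M) (hF : IsGr F) (k : ZMod 3) : lF F 2 k = ⊥ := by
  have h1 : ∀ (i : ZMod 3) (w : M), w ∈ lF F 1 i → ∀ (l : ZMod 3) (z : M), z ∈ F l → ⁅w, z⁆ = 0 := by
    intro i w hw l z hz
    have hw' : w ∈ AddSubgroup.closure
      {z | ∃ (a b : ZMod 3) (x y : M), a + b = i ∧ x ∈ lF F 0 a ∧ y ∈ F b ∧ z = ⁅x, y⁆} := hw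
    clear hw
    induction hw' using AddSubgroup.closure_induction with
    | mem w hw2 =>
      obtain ⟨a, b, x, y, -, hx, hy, rfl⟩ := hw2
      exact triple F hF a b l x y z hx hy hz
    | zero => simp
    | add u v _ _ hu hv => rw [add_lie, hu, hv, add_zero]
    | neg u _ hu => rw [neg_lie, hu, neg_zero]
  rw [eq_bot_iff]
  show AddSubgroup.closure
      {z | ∃ (i j : ZMod 3) (x y : M), i + j = k ∧ x ∈ lF F 1 i ∧ y ∈ F j ∧ z = ⁅x, y⁆} ≤ ⊥
  rw [AddSubgroup.closure_le]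
  rintro _ ⟨i, j, x, y, -, hx, hy, rfl⟩
  exact AddSubgroup.mem_bot.2 (h1 i x hx j y hy)

end Cfsg.Agent.Lib.H92KThree
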