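import Mathlib
import Cfsg.Agent.Lib.Helper92KDefs
import Cfsg.Agent.Lib.H92KKreknin
import Cfsg.Agent.Lib.H92KHkk
import Cfsg.Agent.Lib.H92KLcsLe
import Cfsg.Agent.Lib.H92KThree

set_option autoImplicit false

namespace Cfsg.Agent.Lib.H92KGraded

open Cfsg.Agent.Lib.Helper92KDefs

/-- INTERFACE I (Kreknin + Higman-Kreknin-Kostrikin for graded Lie rings). -/
theorem graded_main {M : Type*} [LieRing M] (p : ℕ) [Fact p.Prime] (F : ZMod p → AddSubgroup M)
    (hF : IsGr F) (hspan : ⨆ i, F i = ⊤) :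
    Lcs M (hkkBound p) = ⊥ ∧ (p = 3 → Lcs M 2 = ⊥) := by
  have hp : NeZero p := ⟨(Fact.out : p.Prime).ne_zero⟩
  constructor
  · have h1 := Cfsg.Agent.Lib.H92KKreknin.kreknin F hF
    have h2 := Cfsg.Agent.Lib.H92KHkk.hkk p (2 ^ (p - 1) - 1) F hF h1
    have h3 := Cfsg.Agent.Lib.H92KLcsLe.lcs_le F hspan (hkkBound p)
    rw [eq_bot_iff]
    refine h3.trans ?_
    apply iSup_le
    intro k
    exact (h2 k).le
  · intro h
    subst h
    have h2 := Cfsg.Agent.Lib.H92KThree.three F hF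
    have h3 := Cfsg.Agent.Lib.H92KLcsLe.lcs_le F hspan 2
    rw [eq_bot_iff]
    refine h3.trans ?_
    apply iSup_le
    intro k
    exact (h2 k).le

end Cfsg.Agent.Lib.H92KGraded
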