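import Mathlib
import Cfsg.Agent.Lib.H92KGGrp

set_option autoImplicit false

/-! Quotient layer of the associated Lie ring: `A d = Γ_d / Γ_(d+1)` (additively), classes `cl`, bracket `brk`,
the graded product. -/

namespace Cfsg.Agent.Lib.H97KGQuot

open Cfsg.Agent.Lib.H92KGGrp
open scoped commutatorElement

universe u

variable (G : Type u) [Group G]

/-- `Γ_d / Γ_(d+1)` -/
abbrev Q (d : ℕ) : Type u := ↥(Gam G d) ⧸ (Gam G (d + 1)).subgroupOf (Gam G d)

variable {G}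

theorem mk_eq_iff {d : ℕ} (x y : ↥(Gam G d)) :
    (QuotientGroup.mk x : Q G d) = QuotientGroup.mk y ↔ x.1⁻¹ * y.1 ∈ Gam G (d + 1) := by
  rw [QuotientGroup.eq, Subgroup.mem_subgroupOf]
  rfl

theorem Q_comm {d : ℕ} (u v : Q G d) : u * v = v * u := by
  induction u using QuotientGroup.induction_on with
  | H x =>
    induction v using QuotientGroup.induction_on with
    | H y =>
      rw [← QuotientGroup.mk_mul, ← QuotientGroup.mk_mul, mk_eq_iff]
      have h := comm_top' (inv_mem x.2) (y.1⁻¹)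
      have e : (x * y).1⁻¹ * (y * x).1 = ⁅y.1⁻¹, x.1⁻¹⁆ := by
        simp only [Subgroup.coe_mul, commutatorElement_def]; group
      rw [e]; exact h

instance (d : ℕ) : CommGroup (Q G d) :=
  { (inferInstance : Group (Q G d)) with mul_comm := Q_comm }

variable (G) in
/-- the homogeneous component, additively -/
abbrev A (d : ℕ) : Type u := Additive (Q G d)

/-- the class of `g ∈ Γ_d` -/
def cl (d : ℕ) (g : G) (hg : g ∈ Gam G d) : A G d := Additive.ofMul (QuotientGroup.mk ⟨g, hg⟩)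

theorem exists_rep {d : ℕ} (u : A G d) : ∃ (g : G) (hg : g ∈ Gam G d), u = cl d g hg := by
  obtain ⟨x, hx⟩ := QuotientGroup.mk_surjective (Additive.toMul u)
  exact ⟨x.1, x.2, by rw [cl]; exact (congrArg Additive.ofMul hx).symm⟩

theorem cl_eq_iff {d : ℕ} {g h : G} (hg : g ∈ Gam G d) (hh : h ∈ Gam G d) :
    cl d g hg = cl d h hh ↔ g⁻¹ * h ∈ Gam G (d + 1) := by
  rw [cl, cl, Additive.ofMul.apply_eq_iff_eq, mk_eq_iff]

theorem cl_add {d : ℕ} {g h : G} (hg : g ∈ Gam G d) (hh : h ∈ Gam G d) :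
    cl d g hg + cl d h hh = cl d (g * h) (mul_mem hg hh) := rfl

theorem cl_one (d : ℕ) : cl d (1 : G) (one_mem _) = 0 := rfl

theorem cl_eq_zero_iff {d : ℕ} {g : G} (hg : g ∈ Gam G d) : cl d g hg = 0 ↔ g ∈ Gam G (d + 1) := by
  rw [← cl_one, cl_eq_iff, mul_one, inv_mem_iff]

theorem cl_neg {d : ℕ} {g : G} (hg : g ∈ Gam G d) : - cl d g hg = cl d g⁻¹ (inv_mem hg) := rfl

/-- useful form: `g h⁻¹ ∈ Γ_(d+1)` -/
theorem cl_eq_of_mul_inv {d : ℕ} {g h : G} (hg : g ∈ Gam G d) (hh : h ∈ Gam G d)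
    (H : g * h⁻¹ ∈ Gam G (d + 1)) : cl d g hg = cl d h hh := by
  rw [cl_eq_iff]
  have h1 : g⁻¹ * h = g⁻¹ * (g * h⁻¹)⁻¹ * g⁻¹⁻¹ := by group
  rw [h1]
  exact (gam_normal (d + 1)).conj_mem _ (inv_mem H) _

/-- the bracket of representatives is well defined -/
theorem brk_wd {a b : ℕ} {x x' y y' : G} (hx : x ∈ Gam G a) (hx' : x' ∈ Gam G a) (hy : y ∈ Gam G b)
    (hy' : y' ∈ Gam G b) (h1 : x⁻¹ * x' ∈ Gam G (a + 1)) (h2 : y⁻¹ * y' ∈ Gam G (b + 1)) :
    cl (a + b) ⁅x, y⁆ (comm_mem hx hy) = cl (a + b) ⁅x', y'⁆ (comm_mem hx' hy') := by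
  rw [cl_eq_iff]
  exact cg_trans (congr_left hx h1 hy) (congr_right hx' hy h2)

/-- the bracket `A a → A b → A (a+b)` -/
noncomputable def brk {a b : ℕ} (u : A G a) (v : A G b) : A G (a + b) :=
  cl (a + b) ⁅(exists_rep u).choose, (exists_rep v).choose⁆
    (comm_mem (exists_rep u).choose_spec.choose (exists_rep v).choose_spec.choose)

theorem brk_cl {a b : ℕ} {x y : G} (hx : x ∈ Gam G a) (hy : y ∈ Gam G b) :
    brk (cl a x hx) (cl b y hy) = cl (a + b) ⁅x, y⁆ (comm_mem hx hy) := by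
  have h1 := (exists_rep (cl a x hx)).choose_spec.choose_spec
  have h2 := (exists_rep (cl b y hy)).choose_spec.choose_spec
  rw [cl_eq_iff] at h1 h2
  exact (brk_wd hx (exists_rep (cl a x hx)).choose_spec.choose hy
    (exists_rep (cl b y hy)).choose_spec.choose h1 h2).symm

noncomputable instance : DirectSum.GNonUnitalNonAssocSemiring (A G) where
  mul := brk
  mul_zero := by
    intro i j u
    obtain ⟨x, hx, rfl⟩ := exists_rep u
    rw [← cl_one, brk_cl, cl_eq_zero_iff]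
    simp
  zero_mul := by
    intro i j v
    obtain ⟨y, hy, rfl⟩ := exists_rep v
    rw [← cl_one, brk_cl, cl_eq_zero_iff]
    simp
  mul_add := by
    intro i j u v w
    obtain ⟨x, hx, rfl⟩ := exists_rep u
    obtain ⟨y, hy, rfl⟩ := exists_rep v
    obtain ⟨z, hz, rfl⟩ := exists_rep w
    rw [cl_add, brk_cl, brk_cl, brk_cl, cl_add]
    exact (cl_eq_iff _ _).2 (bil_right hx hy hz)
  add_mul := by
    intro i j u v w
    obtain ⟨x, hx, rfl⟩ := exists_rep u
    obtain ⟨y, hy, rfl⟩ := exists_rep v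
    obtain ⟨z, hz, rfl⟩ := exists_rep w
    rw [cl_add, brk_cl, brk_cl, brk_cl, cl_add]
    exact (cl_eq_iff _ _).2 (bil_left hx hy hz)

end Cfsg.Agent.Lib.H97KGQuot
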