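import Mathlib
import Cfsg.Agent.Lib.H97KGQuot
import Cfsg.Agent.Lib.H92KGGen

set_option autoImplicit false

/-! Homogeneous identities in `⨁ d, A G d`, the induced automorphism. -/

namespace Cfsg.Agent.Lib.H97KGHom

open Cfsg.Agent.Lib.H92KGGrp Cfsg.Agent.Lib.H97KGQuot DirectSum
open scoped commutatorElement

universe u

variable {G : Type u} [Group G]

/-- the class of `g ∈ Γ_d` in the direct sum -/
noncomputable def cls (d : ℕ) (g : G) (hg : g ∈ Gam G d) : ⨁ d, A G d := of (A G) d (cl d g hg)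

theorem cls_cast {d d' : ℕ} (h : d = d') {g : G} (hg : g ∈ Gam G d) (hg' : g ∈ Gam G d') :
    cls d g hg = cls d' g hg' := by
  subst h; rfl

theorem cls_mul {a b : ℕ} {x y : G} (hx : x ∈ Gam G a) (hy : y ∈ Gam G b) :
    cls a x hx * cls b y hy = cls (a + b) ⁅x, y⁆ (comm_mem hx hy) := by
  rw [cls, cls, of_mul_of, cls]
  congr 1
  exact brk_cl hx hy

theorem cls_add {d : ℕ} {x y : G} (hx : x ∈ Gam G d) (hy : y ∈ Gam G d) :
    cls d x hx + cls d y hy = cls d (x * y) (mul_mem hx hy) := by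
  rw [cls, cls, ← map_add, cl_add, cls]

theorem cls_zero_of_mem {d : ℕ} {x : G} (hx : x ∈ Gam G d) (h : x ∈ Gam G (d + 1)) : cls d x hx = 0 := by
  rw [cls, (cl_eq_zero_iff hx).2 h, map_zero]

theorem hself (a : ℕ) (u : A G a) : of (A G) a u * of (A G) a u = 0 := by
  obtain ⟨x, hx, rfl⟩ := exists_rep u
  have := cls_mul hx hx
  rw [cls, cls] at this
  rw [this]
  apply cls_zero_of_mem
  simp

theorem hskew (a b : ℕ) (u : A G a) (v : A G b) :
    of (A G) a u * of (A G) b v + of (A G) b v * of (A G) a u = 0 := by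
  obtain ⟨x, hx, rfl⟩ := exists_rep u
  obtain ⟨y, hy, rfl⟩ := exists_rep v
  have h1 := cls_mul hx hy
  have h2 := cls_mul hy hx
  rw [cls, cls] at h1 h2
  rw [h1, h2, cls_cast (add_comm b a) (comm_mem hy hx) (by rw [add_comm]; exact comm_mem hy hx), cls_add]
  apply cls_zero_of_mem
  rw [skew]; exact one_mem _

theorem cls_conj {d : ℕ} {w : G} (hw : w ∈ Gam G d) (g : G) :
    cls d (g * w * g⁻¹) (conj_mem hw g) = cls d w hw := by
  rw [cls, cls, (cl_eq_iff _ _).2 (cg_conj hw g)]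

theorem cls_inv_add {d : ℕ} {x : G} (hx : x ∈ Gam G d) : cls d x⁻¹ (inv_mem hx) + cls d x hx = 0 := by
  rw [cls_add]
  apply cls_zero_of_mem
  simp

/-- one term of Hall-Witt -/
theorem hw_term {a b c n : ℕ} (hn : b + (a + c) = n) {x y z : G} (hx : x ∈ Gam G a) (hy : y ∈ Gam G b)
    (hz : z ∈ Gam G c) (hm : x * ⁅y, ⁅x⁻¹, z⁆⁆ * x⁻¹ ∈ Gam G n) :
    cls n (x * ⁅y, ⁅x⁻¹, z⁆⁆ * x⁻¹) hm + cls b y hy * (cls a x hx * cls c z hz) = 0 := by
  subst hn
  rw [cls_conj (comm_mem hy (comm_mem (inv_mem hx) hz)) x, ← cls_mul hy (comm_mem (inv_mem hx) hz),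
    ← cls_mul (inv_mem hx) hz, ← mul_add, ← add_mul, cls_inv_add, zero_mul, mul_zero]

/-- cyclic form of the Jacobi identity -/
theorem hcyc {a b c : ℕ} {x y z : G} (hx : x ∈ Gam G a) (hy : y ∈ Gam G b) (hz : z ∈ Gam G c) :
    cls b y hy * (cls a x hx * cls c z hz) + cls a x hx * (cls c z hz * cls b y hy)
      + cls c z hz * (cls b y hy * cls a x hx) = 0 := by
  have e1 : b + (a + c) = a + b + c := by omega
  have e2 : a + (c + b) = a + b + c := by omega
  have e3 : c + (b + a) = a + b + c := by omega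
  have m1 : x * ⁅y, ⁅x⁻¹, z⁆⁆ * x⁻¹ ∈ Gam G (a + b + c) := by
    rw [← e1]; exact conj_mem (comm_mem hy (comm_mem (inv_mem hx) hz)) x
  have m2 : z * ⁅x, ⁅z⁻¹, y⁆⁆ * z⁻¹ ∈ Gam G (a + b + c) := by
    rw [← e2]; exact conj_mem (comm_mem hx (comm_mem (inv_mem hz) hy)) z
  have m3 : y * ⁅z, ⁅y⁻¹, x⁆⁆ * y⁻¹ ∈ Gam G (a + b + c) := by
    rw [← e3]; exact conj_mem (comm_mem hz (comm_mem (inv_mem hy) hx)) y
  have t1 := hw_term e1 hx hy hz m1
  have t2 := hw_term e2 hz hx hy m2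
  have t3 := hw_term e3 hy hz hx m3
  have hP : cls _ _ m1 + cls _ _ m2 + cls _ _ m3 = 0 := by
    rw [cls_add, cls_add]
    apply cls_zero_of_mem
    rw [hall_witt]; exact one_mem _
  set A1 := cls b y hy * (cls a x hx * cls c z hz)
  set A2 := cls a x hx * (cls c z hz * cls b y hy)
  set A3 := cls c z hz * (cls b y hy * cls a x hx)
  have : (A1 + A2 + A3) + (cls _ _ m1 + cls _ _ m2 + cls _ _ m3) = 0 := by
    calc (A1 + A2 + A3) + (cls _ _ m1 + cls _ _ m2 + cls _ _ m3)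
        = (cls _ _ m1 + A1) + (cls _ _ m2 + A2) + (cls _ _ m3 + A3) := by abel
      _ = 0 := by rw [t1, t2, t3]; simp
  rwa [hP, add_zero] at this

theorem hjac (a b c : ℕ) (u : A G a) (v : A G b) (w : A G c) :
    of (A G) a u * (of (A G) b v * of (A G) c w)
      = (of (A G) a u * of (A G) b v) * of (A G) c w + of (A G) b v * (of (A G) a u * of (A G) c w) := by
  obtain ⟨x, hx, rfl⟩ := exists_rep u
  obtain ⟨y, hy, rfl⟩ := exists_rep v
  obtain ⟨z, hz, rfl⟩ := exists_rep w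
  have h := hcyc hx hy hz
  simp only [cls] at h
  set X := of (A G) a (cl a x hx)
  set Y := of (A G) b (cl b y hy)
  set Z := of (A G) c (cl c z hz)
  -- h : Y * (X * Z) + X * (Z * Y) + Z * (Y * X) = 0
  have sk := H92KGGen.skew (A G) hskew
  have t1 : X * (Y * Z) + X * (Z * Y) = 0 := by rw [← mul_add, sk, mul_zero]
  have t2 : (X * Y) * Z + (Y * X) * Z = 0 := by rw [← add_mul, sk, zero_mul]
  have t3 : Z * (Y * X) + (Y * X) * Z = 0 := sk _ _
  have t4 : Z * (Y * X) = (X * Y) * Z := add_right_cancel (t3.trans t2.symm)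
  rw [t4] at h
  have t5 : (X * Y * Z + Y * (X * Z)) + X * (Z * Y) = 0 := by rw [← h]; abel
  exact add_right_cancel (t1.trans t5.symm)

/-! ### the induced automorphism -/

variable (φ : MulAut G)

/-- `φ` restricted to `Γ_d` -/
def res (d : ℕ) : ↥(Gam G d) →* ↥(Gam G d) where
  toFun x := ⟨φ x.1, gam_char φ x.2⟩
  map_one' := Subtype.ext (map_one φ)
  map_mul' x y := Subtype.ext (map_mul φ x.1 y.1)

/-- the map induced on `Γ_d / Γ_(d+1)` -/
def fq (d : ℕ) : Q G d →* Q G d :=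
  QuotientGroup.map _ _ (res φ d) (by
    intro x hx
    rw [Subgroup.mem_comap, Subgroup.mem_subgroupOf]
    rw [Subgroup.mem_subgroupOf] at hx
    exact gam_char φ hx)

/-- additively -/
def fa (d : ℕ) : A G d →+ A G d := MonoidHom.toAdditive (fq φ d)

theorem fa_cl (d : ℕ) (g : G) (hg : g ∈ Gam G d) : fa φ d (cl d g hg) = cl d (φ g) (gam_char φ hg) := rfl

theorem fa_mul (a b : ℕ) (u : A G a) (v : A G b) :
    fa φ (a + b) (GradedMonoid.GMul.mul u v) = GradedMonoid.GMul.mul (fa φ a u) (fa φ b v) := by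
  obtain ⟨x, hx, rfl⟩ := exists_rep u
  obtain ⟨y, hy, rfl⟩ := exists_rep v
  show fa φ (a + b) (brk _ _) = brk _ _
  rw [brk_cl, fa_cl, fa_cl, fa_cl, brk_cl]
  congr 1
  simp [commutatorElement_def]

theorem fa_iter_cl (d k : ℕ) (g : G) (hg : g ∈ Gam G d) :
    (fa φ d)^[k] (cl d g hg) = cl d ((φ ^ k) g) (gam_char (φ ^ k) hg) := by
  induction k with
  | zero => rfl
  | succ k ih =>
    rw [Function.iterate_succ_apply', ih, fa_cl]
    congr 1
    rw [pow_succ', MulAut.mul_apply]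

theorem fa_iter (p : ℕ) (hφ : φ ^ p = 1) (d : ℕ) (u : A G d) : (fa φ d)^[p] u = u := by
  obtain ⟨x, hx, rfl⟩ := exists_rep u
  rw [fa_iter_cl]
  congr 1
  rw [hφ]; rfl

theorem fa_fix [Finite G] (hfpf : ∀ g : G, φ g = g → g = 1) (d : ℕ) (u : A G d) (h : fa φ d u = u) : u = 0 := by
  obtain ⟨x, hx, rfl⟩ := exists_rep u
  rw [fa_cl, eq_comm, cl_eq_iff] at h
  rw [cl_eq_zero_iff]
  exact fix φ hfpf h

theorem A_tors [Finite G] (d : ℕ) (u : A G d) : Nat.card G • u = 0 := by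
  obtain ⟨x, hx, rfl⟩ := exists_rep u
  have : Nat.card G • cl d x hx = cl d (x ^ Nat.card G) (pow_mem hx _) := rfl
  rw [this, cl_eq_zero_iff, pow_card_eq_one']
  exact one_mem _

end Cfsg.Agent.Lib.H97KGHom
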