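import Mathlib
import Cfsg.Agent.Lib.Helper92KDefs
import Cfsg.Agent.Lib.H97KGHom

set_option autoImplicit false

namespace Cfsg.Agent.Lib.H92KGroupLie

open Cfsg.Agent.Lib.Helper92KDefs
open Cfsg.Agent.Lib.H92KGGrp Cfsg.Agent.Lib.H97KGQuot Cfsg.Agent.Lib.H97KGHom DirectSum
open scoped commutatorElement

universe u

theorem hgen {G : Type u} [Group G] (d : ℕ) (hd : 1 ≤ d) (w : A G (d + 1)) :
    of (A G) (d + 1) w ∈
      AddSubgroup.closure {z : ⨁ d, A G d | ∃ (u : A G d) (v : A G 1), z = of (A G) d u * of (A G) 1 v} := by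
  obtain ⟨g, hg, rfl⟩ := exists_rep w
  obtain ⟨e, rfl⟩ : ∃ e, d = e + 1 := ⟨d - 1, by omega⟩
  have key : ∀ g : G, g ∈ Gam G (e + 2) → ∀ hg : g ∈ Gam G (e + 1 + 1), cls (e + 1 + 1) g hg ∈
      AddSubgroup.closure {z : ⨁ d, A G d | ∃ (u : A G (e + 1)) (v : A G 1),
        z = of (A G) (e + 1) u * of (A G) 1 v} := by
    intro g hg
    refine gam_induction (d := e) (P := fun g => ∀ hg : g ∈ Gam G (e + 1 + 1), cls (e + 1 + 1) g hg ∈
      AddSubgroup.closure {z : ⨁ d, A G d | ∃ (u : A G (e + 1)) (v : A G 1),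
        z = of (A G) (e + 1) u * of (A G) 1 v}) ?_ ?_ ?_ ?_ hg
    · intro u hu g hz'
      have h1 : g ∈ Gam G 1 := Subgroup.mem_top g
      apply AddSubgroup.subset_closure
      exact ⟨cl (e + 1) u hu, cl 1 g h1, (cls_mul hu h1).symm⟩
    · intro h
      rw [cls_zero_of_mem h (one_mem _)]
      exact AddSubgroup.zero_mem _
    · intro x y hx' hy' ihx ihy h
      rw [← cls_add hx' hy']
      exact AddSubgroup.add_mem _ (ihx hx') (ihy hy')
    · intro x hx' ihx h
      have : cls (e + 1 + 1) x⁻¹ h = - cls (e + 1 + 1) x hx' :=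
        eq_neg_of_add_eq_zero_left (cls_inv_add hx')
      rw [this]
      exact AddSubgroup.neg_mem _ (ihx hx')
  exact key g hg hg

/-- INTERFACE III (associated Lie ring of the lower central series). -/
theorem exists_lie {G : Type u} [Group G] [Finite G] (p : ℕ) (φ : MulAut G) (hφ : φ ^ p = 1)
    (hfpf : ∀ g : G, φ g = g → g = 1) :
    ∃ (L : Type u) (_ : LieRing L) (Φ : L →+ L),
      (∀ x y : L, Φ ⁅x, y⁆ = ⁅Φ x, Φ y⁆) ∧ (∀ x : L, Φ^[p] x = x) ∧ (∀ x : L, Φ x = x → x = 0) ∧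
      (∀ x : L, Nat.card G • x = 0) ∧
      ∀ c : ℕ, Lcs L c = ⊥ →
        (⊤ : Subgroup G).lowerCentralSeries c = (⊤ : Subgroup G).lowerCentralSeries (c + 1) := by
  refine ⟨⨁ d, A G d, H92KGGen.lieRing (A G) hself hskew hjac, H92KGGen.Phi (A G) (fa φ), ?_, ?_, ?_, ?_, ?_⟩
  · intro x y
    exact H92KGGen.Phi_mul (A G) (fa φ) (fa_mul φ) x y
  · intro x
    exact H92KGGen.Phi_iter (A G) (fa φ) p (fa_iter φ p hφ) x
  · intro x hx
    exact H92KGGen.Phi_fix (A G) (fa φ) (fa_fix φ hfpf) x hx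
  · intro x
    exact H92KGGen.tors (A G) (Nat.card G) A_tors x
  · intro c hc
    have h0 := H92KGGen.eq_zero_of_Lcs (A G) hself hskew hjac hgen c hc
    apply le_antisymm
    · intro g hg
      have hg' : g ∈ Gam G (c + 1) := hg
      have := h0 (cl (c + 1) g hg')
      rw [cl_eq_zero_iff] at this
      exact this
    · exact Subgroup.lowerCentralSeries_antitone _ (Nat.le_succ c)

end Cfsg.Agent.Lib.H92KGroupLie
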