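import Mathlib
import Cfsg.Agent.Lib.Helper92KDefs

set_option autoImplicit false

/-! Project 3779 (S3779), interface II, abstract part: eigenspace grading of a Lie algebra over a commutative ring `A` with respect to
an `A`-linear Lie automorphism `Ψ` of order `p` and an additive character `χ : ZMod p → A` with `∑ χ = 0`. -/

namespace Cfsg.Agent.Lib.H92KTAbs

open Cfsg.Agent.Lib.Helper92KDefs

variable {A M : Type*} [CommRing A] [LieRing M] [LieAlgebra A M] {p : ℕ} [Fact p.Prime]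

/-- the eigenspaces -/
def FF (Ψ : M →ₗ[A] M) (χ : AddChar (ZMod p) A) (i : ZMod p) : AddSubgroup M :=
  (LinearMap.ker (Ψ - χ i • LinearMap.id)).toAddSubgroup

theorem mem_FF (Ψ : M →ₗ[A] M) (χ : AddChar (ZMod p) A) (i : ZMod p) (y : M) :
    y ∈ FF Ψ χ i ↔ Ψ y = χ i • y := by
  unfold FF
  rw [Submodule.mem_toAddSubgroup, LinearMap.mem_ker, LinearMap.sub_apply, LinearMap.smul_apply,
    LinearMap.id_apply, sub_eq_zero]

theorem isGr (Ψ : M →ₗ[A] M) (χ : AddChar (ZMod p) A) (hlie : ∀ y z, Ψ ⁅y, z⁆ = ⁅Ψ y, Ψ z⁆)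
    (hfix : ∀ y, Ψ y = y → y = 0) : IsGr (FF Ψ χ) where
  lie := by
    intro i j x y hx hy
    rw [mem_FF] at hx hy ⊢
    rw [hlie, hx, hy, smul_lie, lie_smul, smul_smul, AddChar.map_add_eq_mul]
  zero := by
    rw [eq_bot_iff]
    intro y hy
    rw [mem_FF, AddChar.map_zero_eq_one, one_smul] at hy
    exact AddSubgroup.mem_bot.mpr (hfix y hy)

theorem span (Ψ : M →ₗ[A] M) (χ : AddChar (ZMod p) A) (hpow : Ψ ^ p = 1) (hχ : ∑ j, χ j = 0)
    (N : ℕ) (hN : N.Coprime p) (htor : ∀ y : M, N • y = 0) : ⨆ i, FF Ψ χ i = ⊤ := by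
  classical
  have hp : p.Prime := Fact.out
  have : Fact (1 < p) := ⟨hp.one_lt⟩
  let P : ZMod p → (M →ₗ[A] M) := fun s => Ψ ^ s.val
  have hP : ∀ (s : ZMod p) (y : M), Ψ (P s y) = P (s + 1) y := by
    intro s y
    show Ψ ((Ψ ^ s.val) y) = (Ψ ^ (s + 1).val) y
    rw [← Module.End.mul_apply, ← pow_succ', ZMod.val_add, ZMod.val_one, ← pow_eq_pow_mod _ hpow]
  let e : ZMod p → M → M := fun i y => ∑ s, χ (-(i * s)) • P s y
  have he : ∀ i y, e i y ∈ FF Ψ χ i := by
    intro i y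
    rw [mem_FF]
    show Ψ (∑ s, χ (-(i * s)) • P s y) = χ i • ∑ s, χ (-(i * s)) • P s y
    rw [map_sum, Finset.smul_sum]
    simp only [map_smul, hP]
    rw [← Equiv.sum_comp (Equiv.addRight (1 : ZMod p)) (fun s => χ i • χ (-(i * s)) • P s y)]
    apply Finset.sum_congr rfl
    intro s _
    simp only [Equiv.coe_addRight]
    rw [smul_smul, ← AddChar.map_add_eq_mul]
    congr 2
    ring
  have hsum : ∀ y, ∑ i, e i y = p • y := by
    intro y
    show ∑ i, ∑ s, χ (-(i * s)) • P s y = p • y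
    rw [Finset.sum_comm]
    simp only [← Finset.sum_smul]
    rw [Finset.sum_eq_single (0 : ZMod p)]
    · simp only [mul_zero, neg_zero, AddChar.map_zero_eq_one, Finset.sum_const, Finset.card_univ,
        ZMod.card, nsmul_eq_mul, mul_one]
      show (p : A) • (Ψ ^ (0 : ZMod p).val) y = p • y
      rw [ZMod.val_zero, pow_zero, Module.End.one_apply, Nat.cast_smul_eq_nsmul]
    · intro s _ hs
      have h1 : ∑ i, χ (-(i * s)) = ∑ j, χ j := by
        rw [← Equiv.sum_comp (Equiv.mulLeft₀ (-s) (neg_ne_zero.mpr hs)) (fun j => χ j)]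
        apply Finset.sum_congr rfl
        intro i _
        show χ (-(i * s)) = χ (-s * i)
        congr 1
        ring
      rw [h1, hχ, zero_smul]
    · intro h
      exact absurd (Finset.mem_univ _) h
  rw [eq_top_iff]
  intro y _
  obtain ⟨a, b, hab⟩ := Nat.isCoprime_iff_coprime.mpr hN
  have h1 : y = b • (p • y) := by
    have h2 : (a * (N : ℤ) + b * (p : ℤ)) • y = y := by rw [hab, one_smul]
    rw [add_smul, mul_smul, mul_smul, natCast_zsmul, natCast_zsmul, htor, smul_zero, zero_add] at h2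
    exact h2.symm
  rw [h1, ← hsum]
  apply AddSubgroup.zsmul_mem
  apply AddSubgroup.sum_mem
  intro i _
  exact AddSubgroup.mem_iSup_of_mem i (he i y)

end Cfsg.Agent.Lib.H92KTAbs
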