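import Mathlib
import Cfsg.Agent.Lib.Helper92KDefs
import Cfsg.Agent.Lib.H92KTAbs

set_option autoImplicit false

namespace Cfsg.Agent.Lib.H92KTensor

open Cfsg.Agent.Lib.Helper92KDefs Cfsg.Agent.Lib.H92KTAbs
open scoped TensorProduct

universe u

/-- the ring `ℤ[ω]` -/
abbrev AA (p : ℕ) : Type := AdjoinRoot (Polynomial.cyclotomic p ℤ)

/-- the root of unity -/
noncomputable abbrev om (p : ℕ) : AA p := AdjoinRoot.root (Polynomial.cyclotomic p ℤ)

theorem sum_om (p : ℕ) [Fact p.Prime] : ∑ k ∈ Finset.range p, (om p) ^ k = 0 := by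
  have h := AdjoinRoot.eval₂_root (Polynomial.cyclotomic p ℤ)
  have h2 : Polynomial.eval₂ (AdjoinRoot.of (Polynomial.cyclotomic p ℤ)) (om p)
      (∑ i ∈ Finset.range p, (Polynomial.X : Polynomial ℤ) ^ i) = 0 := by
    rw [← Polynomial.cyclotomic_prime ℤ p]; exact h
  rw [Polynomial.eval₂_finsetSum] at h2
  simpa only [Polynomial.eval₂_pow, Polynomial.eval₂_X] using h2

theorem om_pow (p : ℕ) [Fact p.Prime] : (om p) ^ p = 1 := by
  have h := geom_sum_mul (om p) p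
  rw [sum_om, zero_mul] at h
  exact (sub_eq_zero.mp h.symm)

/-- the character `k ↦ ω ^ k` -/
noncomputable def chi (p : ℕ) [Fact p.Prime] : AddChar (ZMod p) (AA p) :=
  AddChar.zmodChar p (om_pow p)

theorem sum_chi (p : ℕ) [Fact p.Prime] : ∑ j, chi p j = 0 := by
  rw [← sum_om p]
  apply Finset.sum_bij (fun (j : ZMod p) _ => j.val)
  · intro j _
    exact Finset.mem_range.mpr (ZMod.val_lt j)
  · intro i _ j _ h
    exact ZMod.val_injective p h
  · intro k hk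
    exact ⟨(k : ZMod p), Finset.mem_univ _, ZMod.val_cast_of_lt (Finset.mem_range.mp hk)⟩
  · intro j _
    rfl

/-- a `ℤ`-linear retraction of `ℤ → ℤ[ω]` -/
theorem exists_retraction (p : ℕ) [Fact p.Prime] : ∃ r : AA p →ₗ[ℤ] ℤ, r 1 = 1 := by
  have hp : p.Prime := Fact.out
  have hmonic : (Polynomial.cyclotomic p ℤ).Monic := Polynomial.cyclotomic.monic p ℤ
  let pb := AdjoinRoot.powerBasis' hmonic
  have hdim : 0 < pb.dim := by
    rw [AdjoinRoot.powerBasis'_dim, Polynomial.natDegree_cyclotomic, Nat.totient_prime hp]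
    have := hp.two_le
    omega
  refine ⟨pb.basis.coord ⟨0, hdim⟩, ?_⟩
  have h1 : (1 : AA p) = pb.basis ⟨0, hdim⟩ := by
    rw [PowerBasis.basis_eq_pow]
    simp
  rw [h1, Module.Basis.coord_apply, Module.Basis.repr_self, Finsupp.single_eq_same]

section main

variable {L : Type u} [LieRing L] (p : ℕ) [Fact p.Prime] (Φ : L →+ L)

/-- the extended automorphism -/
noncomputable def Psi : (AA p ⊗[ℤ] L) →ₗ[AA p] (AA p ⊗[ℤ] L) :=
  LinearMap.baseChange (AA p) Φ.toIntLinearMap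

theorem Psi_tmul (a : AA p) (x : L) : Psi p Φ (a ⊗ₜ[ℤ] x) = a ⊗ₜ[ℤ] Φ x := by
  unfold Psi
  rw [LinearMap.baseChange_tmul]
  rfl

theorem Psi_pow_tmul (k : ℕ) (a : AA p) (x : L) :
    ((Psi p Φ) ^ k) (a ⊗ₜ[ℤ] x) = a ⊗ₜ[ℤ] (Φ^[k] x) := by
  induction k with
  | zero => simp
  | succ k ih =>
    rw [pow_succ', Module.End.mul_apply, ih, Psi_tmul, Function.iterate_succ_apply']

theorem Psi_lie (hlie : ∀ x y : L, Φ ⁅x, y⁆ = ⁅Φ x, Φ y⁆) (y z : AA p ⊗[ℤ] L) :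
    Psi p Φ ⁅y, z⁆ = ⁅Psi p Φ y, Psi p Φ z⁆ := by
  have hla : ∀ (y z₁ z₂ : AA p ⊗[ℤ] L), ⁅y, z₁ + z₂⁆ = ⁅y, z₁⁆ + ⁅y, z₂⁆ :=
    fun y z₁ z₂ => lie_add y z₁ z₂
  have hl0 : ∀ (y : AA p ⊗[ℤ] L), ⁅y, (0 : AA p ⊗[ℤ] L)⁆ = 0 := fun y => lie_zero y
  induction y using TensorProduct.induction_on with
  | zero => simp
  | add y₁ y₂ h₁ h₂ => rw [add_lie, map_add, map_add, add_lie, h₁, h₂]
  | tmul a x =>
    induction z using TensorProduct.induction_on with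
    | zero => rw [hl0, map_zero, hl0]
    | add z₁ z₂ h₁ h₂ => rw [hla, map_add, map_add, hla, h₁, h₂]
    | tmul b x' =>
      rw [LieAlgebra.ExtendScalars.bracket_tmul, Psi_tmul, Psi_tmul, Psi_tmul,
        LieAlgebra.ExtendScalars.bracket_tmul, hlie]

theorem Psi_pow (hpow : ∀ x : L, Φ^[p] x = x) : (Psi p Φ) ^ p = 1 := by
  apply LinearMap.ext
  intro y
  induction y using TensorProduct.induction_on with
  | zero => simp
  | add y₁ y₂ h₁ h₂ => rw [map_add, map_add, h₁, h₂]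
  | tmul a x => rw [Psi_pow_tmul, hpow, Module.End.one_apply]

theorem tor (N : ℕ) (htor : ∀ x : L, N • x = 0) (y : AA p ⊗[ℤ] L) : N • y = 0 := by
  induction y using TensorProduct.induction_on with
  | zero => simp
  | add y₁ y₂ h₁ h₂ => rw [smul_add, h₁, h₂, add_zero]
  | tmul a x =>
    rw [← Nat.cast_smul_eq_nsmul ℤ, ← TensorProduct.tmul_smul, Nat.cast_smul_eq_nsmul, htor,
      TensorProduct.tmul_zero]

theorem sum_Phi (hpow : ∀ x : L, Φ^[p] x = x) (hfix : ∀ x : L, Φ x = x → x = 0) (x : L) :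
    ∑ s ∈ Finset.range p, Φ^[s] x = 0 := by
  apply hfix
  rw [map_sum]
  have h1 : ∑ s ∈ Finset.range p, Φ (Φ^[s] x) = ∑ s ∈ Finset.range p, Φ^[s + 1] x := by
    apply Finset.sum_congr rfl
    intro s _
    rw [Function.iterate_succ_apply']
  rw [h1]
  have h2 := Finset.sum_range_succ (fun s => Φ^[s] x) p
  have h3 := Finset.sum_range_succ' (fun s => Φ^[s] x) p
  rw [h2, hpow] at h3
  simp only [Function.iterate_zero, id_eq] at h3
  exact (add_right_cancel h3).symm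

theorem sum_Psi (hpow : ∀ x : L, Φ^[p] x = x) (hfix : ∀ x : L, Φ x = x → x = 0)
    (y : AA p ⊗[ℤ] L) : ∑ s ∈ Finset.range p, ((Psi p Φ) ^ s) y = 0 := by
  induction y using TensorProduct.induction_on with
  | zero => simp
  | add y₁ y₂ h₁ h₂ =>
    simp only [map_add]
    rw [Finset.sum_add_distrib, h₁, h₂, add_zero]
  | tmul a x =>
    simp only [Psi_pow_tmul]
    rw [← TensorProduct.tmul_sum, sum_Phi p Φ hpow hfix, TensorProduct.tmul_zero]

theorem Psi_fix (hpow : ∀ x : L, Φ^[p] x = x) (hfix : ∀ x : L, Φ x = x → x = 0) (N : ℕ)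
    (hN : N.Coprime p) (htor : ∀ x : L, N • x = 0) (y : AA p ⊗[ℤ] L) (hy : Psi p Φ y = y) :
    y = 0 := by
  have h1 : ∀ s : ℕ, ((Psi p Φ) ^ s) y = y := by
    intro s
    induction s with
    | zero => simp
    | succ s ih => rw [pow_succ', Module.End.mul_apply, ih, hy]
  have h2 := sum_Psi p Φ hpow hfix y
  simp only [h1, Finset.sum_const, Finset.card_range] at h2
  obtain ⟨a, b, hab⟩ := Nat.isCoprime_iff_coprime.mpr hN
  have h3 : (a * (N : ℤ) + b * (p : ℤ)) • y = y := by rw [hab, one_smul]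
  rw [add_smul, mul_smul, mul_smul, natCast_zsmul, natCast_zsmul, tor p N htor, h2, smul_zero,
    smul_zero, zero_add] at h3
  exact h3.symm

end main

/-- INTERFACE II (extension of scalars by a primitive `p`-th root of unity, eigenspace grading). -/
theorem exists_graded {L : Type u} [LieRing L] (p : ℕ) [Fact p.Prime] (Φ : L →+ L)
    (hlie : ∀ x y : L, Φ ⁅x, y⁆ = ⁅Φ x, Φ y⁆) (hpow : ∀ x : L, Φ^[p] x = x)
    (hfix : ∀ x : L, Φ x = x → x = 0) (N : ℕ) (hN : N.Coprime p) (htor : ∀ x : L, N • x = 0) :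
    ∃ (M : Type u) (_ : LieRing M) (F : ZMod p → AddSubgroup M) (ι : L →+ M),
      IsGr F ∧ (⨆ i, F i = ⊤) ∧ Function.Injective ι ∧ ∀ x y : L, ι ⁅x, y⁆ = ⁅ι x, ι y⁆ := by
  refine ⟨AA p ⊗[ℤ] L, inferInstance, FF (Psi p Φ) (chi p),
    (TensorProduct.mk ℤ (AA p) L 1).toAddMonoidHom, ?_, ?_, ?_, ?_⟩
  · exact isGr _ _ (Psi_lie p Φ hlie) (Psi_fix p Φ hpow hfix N hN htor)
  · exact span _ _ (Psi_pow p Φ hpow) (sum_chi p) N hN (tor p N htor)
  · obtain ⟨r, hr⟩ := exists_retraction p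
    let ρ : AA p ⊗[ℤ] L →ₗ[ℤ] L := (TensorProduct.lid ℤ L).toLinearMap ∘ₗ LinearMap.rTensor L r
    intro x y hxy
    have h1 : ∀ x : L, ρ ((1 : AA p) ⊗ₜ[ℤ] x) = x := by
      intro x
      show (TensorProduct.lid ℤ L) (LinearMap.rTensor L r ((1 : AA p) ⊗ₜ[ℤ] x)) = x
      rw [LinearMap.rTensor_tmul, hr, TensorProduct.lid_tmul, one_smul]
    have h2 : (1 : AA p) ⊗ₜ[ℤ] x = (1 : AA p) ⊗ₜ[ℤ] y := hxy
    rw [← h1 x, h2, h1]
  · intro x y
    show (1 : AA p) ⊗ₜ[ℤ] ⁅x, y⁆ = ⁅(1 : AA p) ⊗ₜ[ℤ] x, (1 : AA p) ⊗ₜ[ℤ] y⁆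
    rw [LieAlgebra.ExtendScalars.bracket_tmul, one_mul]

end Cfsg.Agent.Lib.H92KTensor
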