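import Cfsg.Agent.Lib.H93MiDefs

/-! Project 4220 (row S4220), piece BCent. -/

set_option autoImplicit false
open scoped commutatorElement

namespace Cfsg.Agent.H93Mi

variable {α : Type*} [Fintype α] [DecidableEq α]

theorem comm_cent {Γ : Type*} [Group Γ] (P : Subgroup Γ) (x₀ : Γ) (hx₀ : x₀ ∈ P)
    (hgen : ∀ q ∈ P, ∃ i : ℕ, q = x₀ ^ i) (g h : Γ)
    (hg : g ∈ Subgroup.normalizer (P : Set Γ)) (hh : h ∈ Subgroup.normalizer (P : Set Γ)) :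
    ⁅g, h⁆ * x₀ = x₀ * ⁅g, h⁆ := by
  have hg' := Subgroup.inv_mem _ hg
  have hh' := Subgroup.inv_mem _ hh
  obtain ⟨i, e1⟩ := hgen _ ((Subgroup.mem_normalizer_iff.mp hg' x₀).mp hx₀)
  obtain ⟨j, e2⟩ := hgen _ ((Subgroup.mem_normalizer_iff.mp hh' x₀).mp hx₀)
  have E1 : g⁻¹ * (h⁻¹ * x₀ * h⁻¹⁻¹) * g⁻¹⁻¹ = x₀ ^ (i * j) := by
    rw [e2, ← conj_pow, e1, ← pow_mul]
  have E2 : h⁻¹ * (g⁻¹ * x₀ * g⁻¹⁻¹) * h⁻¹⁻¹ = x₀ ^ (i * j) := by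
    rw [e1, ← conj_pow, e2, ← pow_mul, mul_comm]
  have E : g⁻¹ * (h⁻¹ * x₀ * h⁻¹⁻¹) * g⁻¹⁻¹ = h⁻¹ * (g⁻¹ * x₀ * g⁻¹⁻¹) * h⁻¹⁻¹ := E1.trans E2.symm
  rw [commutatorElement_def]
  calc g * h * g⁻¹ * h⁻¹ * x₀
      = g * h * (g⁻¹ * (h⁻¹ * x₀ * h⁻¹⁻¹) * g⁻¹⁻¹) * (g⁻¹ * h⁻¹) := by group
    _ = g * h * (h⁻¹ * (g⁻¹ * x₀ * g⁻¹⁻¹) * h⁻¹⁻¹) * (g⁻¹ * h⁻¹) := by rw [E]
    _ = x₀ * (g * h * g⁻¹ * h⁻¹) := by group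

end Cfsg.Agent.H93Mi
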