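import Cfsg.Agent.Lib.H93MiDefs

/-! Project 4220 (row S4220), piece BPow. -/

set_option autoImplicit false
open scoped commutatorElement

namespace Cfsg.Agent.H93Mi

variable {α : Type*} [Fintype α] [DecidableEq α]

theorem pow_fix (x₀ u : Equiv.Perm α) (p : ℕ) (hx : x₀ ^ p = 1) (hc : u * x₀ = x₀ * u) (a : α)
    (i : ℕ) (h : u a = (x₀ ^ i) a) : (u ^ p) a = a := by
  have hcomm : Commute u x₀ := hc
  have hind : ∀ m : ℕ, (u ^ m) a = (x₀ ^ (i * m)) a := by
    intro m
    induction m with
    | zero => simp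
    | succ m ih =>
      rw [pow_succ', Equiv.Perm.mul_apply, ih]
      have h1 : u ((x₀ ^ (i * m)) a) = (x₀ ^ (i * m)) (u a) := by
        have := congrArg (fun f : Equiv.Perm α => f a) (hcomm.pow_right (i * m)).eq
        simpa [Equiv.Perm.mul_apply] using this
      rw [h1, h, ← Equiv.Perm.mul_apply, ← pow_add]
      congr 2
  rw [hind p, mul_comm, pow_mul, hx, one_pow]
  rfl

end Cfsg.Agent.H93Mi
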