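import Cfsg.Agent.Lib.H93MiDefs

/-! Project 4220 (row S4220), piece COrb. -/

set_option autoImplicit false
open scoped commutatorElement

namespace Cfsg.Agent.H93Mi

variable {α : Type*} [Fintype α] [DecidableEq α]

/-- The `Q`-orbit of a moved point has exactly `p` elements: its size is a power of `p`
(`IsPGroup.card_orbit`), it is `> 1`, and it is `< p²` because the orbit avoids `Φ`
(a point of `Φ` is fixed by `Q`, so it is not in the orbit of a moved point). -/
theorem orb_card (p : ℕ) [Fact p.Prime] (Q : Subgroup (Equiv.Perm α)) (Φ : Finset α)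
    (hpQ : IsPGroup p Q) (hfix : ∀ q ∈ Q, ∀ a ∈ Φ, q a = a)
    (hlt : Fintype.card α < p * p + Φ.card) (a : α) (ha : ∃ q ∈ Q, q a ≠ a) :
    Set.ncard {b | ∃ q ∈ Q, q a = b} = p := by
  classical
  have hp : p.Prime := Fact.out
  set O : Set α := {b | ∃ q ∈ Q, q a = b} with hO
  have hOeq : O = MulAction.orbit Q a := by
    ext b
    constructor
    · rintro ⟨q, hq, rfl⟩
      exact ⟨⟨q, hq⟩, rfl⟩
    · rintro ⟨q, rfl⟩
      exact ⟨q.1, q.2, rfl⟩
  obtain ⟨n, hn⟩ := hpQ.card_orbit a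
  have hcard : O.ncard = p ^ n := by
    rw [hOeq, ← Nat.card_coe_set_eq]
    exact hn
  have haΦ : a ∉ Φ := by
    obtain ⟨q, hq, hqa⟩ := ha
    intro h
    exact hqa (hfix q hq a h)
  have hsub : O ⊆ ((Φ : Set α))ᶜ := by
    rintro b ⟨q, hq, rfl⟩ hb
    have h1 : q⁻¹ (q a) = q a := hfix q⁻¹ (inv_mem hq) _ hb
    have h0 : q⁻¹ (q a) = a := by simp
    rw [h0] at h1
    apply haΦ
    rw [h1]
    exact hb
  have hle : O.ncard ≤ Fintype.card α - Φ.card := by
    calc O.ncard ≤ ((Φ : Set α)ᶜ).ncard := Set.ncard_le_ncard hsub (Set.toFinite _)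
      _ = Fintype.card α - Φ.card := by
        rw [Set.ncard_compl, Set.ncard_coe_finset, Nat.card_eq_fintype_card]
  have hn0 : n ≠ 0 := by
    rintro rfl
    rw [pow_zero, Set.ncard_eq_one] at hcard
    obtain ⟨x, hx⟩ := hcard
    obtain ⟨q, hq, hqa⟩ := ha
    have h1 : a ∈ O := ⟨1, one_mem _, rfl⟩
    have h2 : q a ∈ O := ⟨q, hq, rfl⟩
    rw [hx, Set.mem_singleton_iff] at h1 h2
    exact hqa (h2.trans h1.symm)
  have hn2 : n < 2 := by
    have : p ^ n < p ^ 2 := by
      rw [← hcard, sq]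
      have h3 := Finset.card_le_univ Φ
      omega
    exact (Nat.pow_lt_pow_iff_right hp.one_lt).1 this
  have hn1 : n = 1 := by omega
  rw [hcard, hn1, pow_one]

end Cfsg.Agent.H93Mi
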