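import Cfsg.Agent.Lib.H93MiDefs
import Cfsg.Agent.Lib.H93MiCOrb

/-! Project 4220 (row S4220), piece CComm. -/

set_option autoImplicit false
open scoped commutatorElement

namespace Cfsg.Agent.H93Mi

variable {α : Type*} [Fintype α] [DecidableEq α]

/-- `Q` is abelian.  For every `a`: the stabiliser `Q_a` has index `1` or `p` in the `p`-group `Q`
(`orb_card`, orbit-stabiliser), so it is normal with abelian quotient
(`Subgroup.normal_of_index_eq_minFac_card`, `isCyclic_of_prime_card`), hence `⁅q, q'⁆` fixes `a`.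
As this holds for all `a`, `⁅q, q'⁆ = 1`. -/
theorem cfg_comm (p : ℕ) [Fact p.Prime] (Q : Subgroup (Equiv.Perm α)) (Φ : Finset α)
    (hpQ : IsPGroup p Q) (hfix : ∀ q ∈ Q, ∀ a ∈ Φ, q a = a)
    (hlt : Fintype.card α < p * p + Φ.card) : ∀ q ∈ Q, ∀ q' ∈ Q, q * q' = q' * q := by
  classical
  have hp : p.Prime := Fact.out
  intro q hq q' hq'
  ext a
  by_cases ha : ∃ x ∈ Q, x a ≠ a
  · have hc := orb_card p Q Φ hpQ hfix hlt a ha
    have hOeq : {b | ∃ x ∈ Q, x a = b} = MulAction.orbit Q a := by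
      ext b
      constructor
      · rintro ⟨x, hx, rfl⟩
        exact ⟨⟨x, hx⟩, rfl⟩
      · rintro ⟨x, rfl⟩
        exact ⟨x.1, x.2, rfl⟩
    rw [hOeq, ← MulAction.index_stabilizer] at hc
    obtain ⟨m, hm⟩ := (IsPGroup.iff_card).1 hpQ
    have hm0 : m ≠ 0 := by
      rintro rfl
      rw [pow_zero] at hm
      have hd := Subgroup.index_dvd_card (MulAction.stabilizer Q a)
      rw [hc, hm] at hd
      exact hp.one_lt.ne' (Nat.dvd_one.1 hd)
    have hmin : (MulAction.stabilizer Q a).index = (Nat.card Q).minFac := by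
      rw [hc, hm, hp.pow_minFac hm0]
    have hnor : (MulAction.stabilizer Q a).Normal := Subgroup.normal_of_index_eq_minFac_card hmin
    have hcardq : Nat.card (Q ⧸ MulAction.stabilizer Q a) = p := hc
    have hcyc : IsCyclic (Q ⧸ MulAction.stabilizer Q a) := isCyclic_of_prime_card hcardq
    have hcomm : (QuotientGroup.mk' (MulAction.stabilizer Q a)) (⟨q', hq'⟩ * ⟨q, hq⟩)
        = (QuotientGroup.mk' (MulAction.stabilizer Q a)) (⟨q, hq⟩ * ⟨q', hq'⟩) := by
      rw [map_mul, map_mul]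
      have hmc : IsMulCommutative (Q ⧸ MulAction.stabilizer Q a) := IsCyclic.isMulCommutative
      exact hmc.is_comm.comm _ _
    have h1 := QuotientGroup.eq.1 hcomm
    rw [MulAction.mem_stabilizer_iff] at h1
    have h2 : ((q' * q)⁻¹ * (q * q')) a = a := h1
    rw [Equiv.Perm.mul_apply, Equiv.Perm.inv_eq_iff_eq] at h2
    exact h2
  · push Not at ha
    rw [Equiv.Perm.mul_apply, Equiv.Perm.mul_apply, ha q' hq', ha q hq, ha q' hq']

end Cfsg.Agent.H93Mi
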