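import Cfsg.Agent.Lib.H93MiDefs
import Cfsg.Agent.Lib.H93MiCOrb

/-! Project 4220 (row S4220), piece CPow. -/

set_option autoImplicit false
open scoped commutatorElement

namespace Cfsg.Agent.H93Mi

variable {α : Type*} [Fintype α] [DecidableEq α]

/-- Every `q ∈ Q` has `q ^ p = 1`: `orderOf q` is a power of `p` and it is the lcm of the cycle
lengths (`Equiv.Perm.lcm_cycleType`); each cycle length divides the order (so is a power of `p`)
and is `≤ q.support.card ≤ |α| - |Φ| < p²`, so it is `p`.  (Or: apply `orb_card` to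
`Subgroup.zpowers q`.) -/
theorem cfg_pow (p : ℕ) [Fact p.Prime] (Q : Subgroup (Equiv.Perm α)) (Φ : Finset α)
    (hpQ : IsPGroup p Q) (hfix : ∀ q ∈ Q, ∀ a ∈ Φ, q a = a)
    (hlt : Fintype.card α < p * p + Φ.card) : ∀ q ∈ Q, q ^ p = 1 := by
  classical
  intro q hq
  have hle : Subgroup.zpowers q ≤ Q := Subgroup.zpowers_le.2 hq
  have hpZ : IsPGroup p (Subgroup.zpowers q) := hpQ.to_le hle
  ext a
  rw [Equiv.Perm.one_apply]
  by_cases hqa : q a = a
  · have : ∀ n : ℕ, (q ^ n) a = a := by
      intro n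
      induction n with
      | zero => rfl
      | succ n ih => rw [pow_succ, Equiv.Perm.mul_apply, hqa, ih]
    exact this p
  · have hc := orb_card p (Subgroup.zpowers q) Φ hpZ (fun x hx b hb => hfix x (hle hx) b hb) hlt a
      ⟨q, Subgroup.mem_zpowers q, hqa⟩
    have hOeq : {b | ∃ x ∈ Subgroup.zpowers q, x a = b} = MulAction.orbit (Subgroup.zpowers q) a := by
      ext b
      constructor
      · rintro ⟨x, hx, rfl⟩
        exact ⟨⟨x, hx⟩, rfl⟩
      · rintro ⟨x, rfl⟩
        exact ⟨x.1, x.2, rfl⟩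
    rw [hOeq, ← MulAction.index_stabilizer] at hc
    have hmem := Subgroup.pow_index_mem (MulAction.stabilizer (Subgroup.zpowers q) a)
      (⟨q, Subgroup.mem_zpowers q⟩ : Subgroup.zpowers q)
    rw [hc, MulAction.mem_stabilizer_iff] at hmem
    exact hmem

end Cfsg.Agent.H93Mi
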