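import Cfsg.Agent.Lib.H93MiDefs
import Cfsg.Agent.Lib.H93MiCOrb
import Cfsg.Agent.Lib.H93MiCPow

/-! Project 4220 (row S4220), piece CGen. -/

set_option autoImplicit false
open scoped commutatorElement

namespace Cfsg.Agent.H93Mi

variable {α : Type*} [Fintype α] [DecidableEq α]

/-- If `c ∈ Q` moves `a` then the `Q`-orbit of `a` is `{c ^ i a}`: both
`{b | ∃ q ∈ zpowers c, q a = b}` and `{b | ∃ q ∈ Q, q a = b}` have `p` elements by `orb_card`
(applied to `Subgroup.zpowers c` and to `Q`) and the first is contained in the second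
(`Set.eq_of_subset_of_ncard_le`).  Turn the integer exponent into a natural one with `c ^ p = 1`
(`cfg_pow`) or `orderOf`. -/
theorem cfg_gen (p : ℕ) [Fact p.Prime] (Q : Subgroup (Equiv.Perm α)) (Φ : Finset α)
    (hpQ : IsPGroup p Q) (hfix : ∀ q ∈ Q, ∀ a ∈ Φ, q a = a)
    (hlt : Fintype.card α < p * p + Φ.card) :
    ∀ a, a ∉ Φ → ∀ c ∈ Q, c a ≠ a → ∀ q ∈ Q, ∃ i : ℕ, q a = (c ^ i) a := by
  intro a ha c hc hca q hq
  have h1 : Set.ncard {b | ∃ q ∈ Q, q a = b} = p :=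
    orb_card p Q Φ hpQ hfix hlt a ⟨c, hc, hca⟩
  have hle : Subgroup.zpowers c ≤ Q := (Subgroup.zpowers_le).2 hc
  have h2 : Set.ncard {b | ∃ q ∈ Subgroup.zpowers c, q a = b} = p :=
    orb_card p (Subgroup.zpowers c) Φ (hpQ.to_le hle) (fun q hq => hfix q (hle hq)) hlt a
      ⟨c, Subgroup.mem_zpowers c, hca⟩
  have hsub : {b | ∃ q ∈ Subgroup.zpowers c, q a = b} ⊆ {b | ∃ q ∈ Q, q a = b} := by
    rintro b ⟨q, hq, rfl⟩
    exact ⟨q, hle hq, rfl⟩
  have heq := Set.eq_of_subset_of_ncard_le hsub (by rw [h1, h2]) (Set.toFinite _)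
  have hmem : q a ∈ {b | ∃ q ∈ Q, q a = b} := ⟨q, hq, rfl⟩
  rw [← heq] at hmem
  obtain ⟨q', hq', hq'a⟩ := hmem
  obtain ⟨i, hi⟩ := (mem_powers_iff_mem_zpowers.2 hq')
  exact ⟨i, by rw [← hq'a]; exact congrArg (fun f : Equiv.Perm α => f a) hi.symm⟩

end Cfsg.Agent.H93Mi
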