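import Cfsg.Agent.Lib.H93MiDefs

/-! Project 4220 (row S4220), piece CLab. -/

set_option autoImplicit false
open scoped commutatorElement

namespace Cfsg.Agent.H93Mi

variable {α : Type*} [Fintype α] [DecidableEq α]

/-- Label the orbits outside `Φ`.  On `X = {a // a ∉ Φ}` take the equivalence relation
`a ~ b ↔ ∃ q ∈ Q, q a = b`; `k` = number of classes, `lab` = class map followed by a bijection
with `Fin k` (on `Φ` use any value: `k > 0` by `hne`).  All classes have `p` elements, so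
`|X| = k p` (`Finset.card_eq_sum_card_fiberwise` / `Fintype.card_congr (Equiv.sigmaFiberEquiv _)`),
and `|α| = |X| + |Φ|`. -/
theorem cfg_lab (p : ℕ) (Q : Subgroup (Equiv.Perm α)) (Φ : Finset α)
    (hfix : ∀ q ∈ Q, ∀ a ∈ Φ, q a = a) (hne : ∃ a, a ∉ Φ)
    (horb : ∀ a, a ∉ Φ → Set.ncard {b | ∃ q ∈ Q, q a = b} = p) :
    ∃ (k : ℕ) (lab : α → Fin k),
      (∀ a, a ∉ Φ → ∀ b, b ∉ Φ → (lab a = lab b ↔ ∃ q ∈ Q, q a = b)) ∧
      (∀ i, ∃ a, a ∉ Φ ∧ lab a = i) ∧ Fintype.card α = k * p + Φ.card := by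
  classical
  obtain ⟨a0, ha0⟩ := hne
  let s : Setoid {a // a ∉ Φ} :=
    { r := fun a b => ∃ q ∈ Q, q (a : α) = (b : α)
      iseqv := ⟨fun a => ⟨1, Q.one_mem, rfl⟩,
        fun {a b} ⟨q, hq, h⟩ => ⟨q⁻¹, Q.inv_mem hq, by rw [Equiv.Perm.inv_eq_iff_eq, h]⟩,
        fun {a b c} ⟨q, hq, h⟩ ⟨q', hq', h'⟩ => ⟨q' * q, Q.mul_mem hq' hq, by
          rw [Equiv.Perm.mul_apply, h, h']⟩⟩ }
  let e : Quotient s ≃ Fin (Fintype.card (Quotient s)) := Fintype.equivFin _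
  let lab : α → Fin (Fintype.card (Quotient s)) := fun a =>
    if h : a ∉ Φ then e (Quotient.mk s ⟨a, h⟩) else e (Quotient.mk s ⟨a0, ha0⟩)
  have hlab : ∀ a (h : a ∉ Φ), lab a = e (Quotient.mk s ⟨a, h⟩) := fun a h => dif_pos h
  have h1 : ∀ a, a ∉ Φ → ∀ b, b ∉ Φ → (lab a = lab b ↔ ∃ q ∈ Q, q a = b) := by
    intro a ha b hb
    rw [hlab a ha, hlab b hb, e.apply_eq_iff_eq, Quotient.eq]
    rfl
  have h2 : ∀ i, ∃ a, a ∉ Φ ∧ lab a = i := by
    intro i
    obtain ⟨x, hx⟩ := Quotient.exists_rep (e.symm i)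
    refine ⟨x.1, x.2, ?_⟩
    rw [hlab x.1 x.2]
    show e (Quotient.mk s x) = i
    rw [hx, e.apply_symm_apply]
  refine ⟨_, lab, h1, h2, ?_⟩
  have h3 : Φᶜ.card = ∑ i : Fin (Fintype.card (Quotient s)), (Φᶜ.filter (fun a => lab a = i)).card :=
    Finset.card_eq_sum_card_fiberwise (fun a _ => Finset.mem_coe.2 (Finset.mem_univ _))
  have h4 : ∀ i : Fin (Fintype.card (Quotient s)), (Φᶜ.filter (fun a => lab a = i)).card = p := by
    intro i
    obtain ⟨a, ha, rfl⟩ := h2 i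
    rw [← horb a ha, ← Set.ncard_coe_finset]
    congr 1
    ext b
    simp only [Finset.coe_filter, Finset.mem_compl, Set.mem_setOf_eq]
    constructor
    · rintro ⟨hb, hab⟩
      exact (h1 a ha b hb).1 hab.symm
    · rintro ⟨q, hq, rfl⟩
      have hb : q a ∉ Φ := by
        intro hqa
        have h5 := hfix q⁻¹ (Q.inv_mem hq) _ hqa
        have h6 : q⁻¹ (q a) = a := by simp
        rw [h6] at h5
        exact ha (h5 ▸ hqa)
      exact ⟨hb, ((h1 a ha _ hb).2 ⟨q, hq, rfl⟩).symm⟩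
  rw [Finset.sum_congr rfl (fun i _ => h4 i), Finset.sum_const, Finset.card_univ, Fintype.card_fin,
    smul_eq_mul] at h3
  rw [← h3, add_comm, Finset.card_add_card_compl]

end Cfsg.Agent.H93Mi
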