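import Mathlib

/-! Vocabulary for project 4220 (row S4220: a permutation group of degree `k p + r`
(`k < p`, `k < r`) which is `(r+1)`-fold transitive contains the alternating group). -/

set_option autoImplicit false

namespace Cfsg.Agent.H93Mi

variable {α : Type*} [Fintype α] [DecidableEq α]

/-- elementwise `t`-fold transitivity of a permutation group -/
def Tr (G : Subgroup (Equiv.Perm α)) (t : ℕ) : Prop :=
  ∀ x y : Fin t ↪ α, ∃ g ∈ G, ∀ i, g (x i) = y i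

/-- the normaliser of `Q` in `G` -/
def NG (G Q : Subgroup (Equiv.Perm α)) : Subgroup (Equiv.Perm α) :=
  G ⊓ Subgroup.normalizer (Q : Set (Equiv.Perm α))

/-- the group of permutations of `Φ` induced by the elements of `M` (only those elements of `M`
which agree on `Φ` with a permutation of `Φ` count). -/
def Ind (M : Subgroup (Equiv.Perm α)) (Φ : Finset α) : Subgroup (Equiv.Perm Φ) where
  carrier := {σ | ∃ g ∈ M, ∀ x : Φ, g (x : α) = (σ x : α)}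
  one_mem' := ⟨1, M.one_mem, fun _ => rfl⟩
  mul_mem' := by
    rintro σ τ ⟨g, hg, hgσ⟩ ⟨h, hh, hhτ⟩
    refine ⟨g * h, M.mul_mem hg hh, fun x => ?_⟩
    rw [Equiv.Perm.mul_apply, hhτ x, hgσ (τ x), Equiv.Perm.mul_apply]
  inv_mem' := by
    rintro σ ⟨g, hg, hgσ⟩
    refine ⟨g⁻¹, M.inv_mem hg, fun x => ?_⟩
    rw [Equiv.Perm.inv_eq_iff_eq, hgσ (σ⁻¹ x)]; simp

/-- the pointwise stabiliser of `S` in `G` -/
def FxG (G : Subgroup (Equiv.Perm α)) (S : Finset α) : Subgroup (Equiv.Perm α) where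
  carrier := {g | g ∈ G ∧ ∀ a ∈ S, g a = a}
  one_mem' := ⟨G.one_mem, fun _ _ => rfl⟩
  mul_mem' := by
    rintro g h ⟨hg, hg'⟩ ⟨hh, hh'⟩
    exact ⟨G.mul_mem hg hh, fun a ha => by rw [Equiv.Perm.mul_apply, hh' a ha, hg' a ha]⟩
  inv_mem' := by
    rintro g ⟨hg, hg'⟩
    exact ⟨G.inv_mem hg, fun a ha => by rw [Equiv.Perm.inv_eq_iff_eq, hg' a ha]⟩

/-- `Q` is a Sylow `p`-subgroup of the pointwise stabiliser of `S` in `G` (maximality form). -/
def SylFix (p : ℕ) (G Q : Subgroup (Equiv.Perm α)) (S : Finset α) : Prop :=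
  Q ≤ G ∧ (∀ q ∈ Q, ∀ a ∈ S, q a = a) ∧ IsPGroup p Q ∧
    ∀ R : Subgroup (Equiv.Perm α), R ≤ G → (∀ q ∈ R, ∀ a ∈ S, q a = a) → IsPGroup p R →
      Q ≤ R → R = Q

/-- `Q` fixes exactly the points of `Φ`; its other orbits are labelled bijectively by `Fin k`
via `lab`; `Q` is elementary abelian and every orbit outside `Φ` is the orbit of any single
element of `Q` moving a point of it (i.e. the orbits have length `p`). -/
structure Cfg (p k : ℕ) (Q : Subgroup (Equiv.Perm α)) (Φ : Finset α) (lab : α → Fin k) :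
    Prop where
  fix : ∀ q ∈ Q, ∀ a ∈ Φ, q a = a
  mov : ∀ a, a ∉ Φ → ∃ q ∈ Q, q a ≠ a
  lab_iff : ∀ a, a ∉ Φ → ∀ b, b ∉ Φ → (lab a = lab b ↔ ∃ q ∈ Q, q a = b)
  surj : ∀ i, ∃ a, a ∉ Φ ∧ lab a = i
  pow : ∀ q ∈ Q, q ^ p = 1
  comm : ∀ q ∈ Q, ∀ q' ∈ Q, q * q' = q' * q
  gen : ∀ a, a ∉ Φ → ∀ c ∈ Q, c a ≠ a → ∀ q ∈ Q, ∃ i : ℕ, q a = (c ^ i) a

/-- `w` acts on every `Q`-orbit outside `Φ` like an element of `Q`. -/
def TrP (Q : Subgroup (Equiv.Perm α)) (Φ : Finset α) (w : Equiv.Perm α) : Prop :=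
  ∀ a, a ∉ Φ → ∃ q ∈ Q, ∀ q' ∈ Q, w (q' a) = q (q' a)

/-- `g` maps every `Q`-orbit outside `Φ` to itself. -/
def FixO (Q : Subgroup (Equiv.Perm α)) (Φ : Finset α) (g : Equiv.Perm α) : Prop :=
  ∀ a, a ∉ Φ → ∃ q ∈ Q, g a = q a

end Cfsg.Agent.H93Mi
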