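import Cfsg.Agent.Lib.H93MiDefs

/-! Project 4220 (row S4220), piece Fin. -/

set_option autoImplicit false
open scoped commutatorElement

namespace Cfsg.Agent.H93Mi

variable {α : Type*} [Fintype α] [DecidableEq α]

theorem fin (G : Subgroup (Equiv.Perm α)) (hprim : MulAction.IsPreprimitive G α)
    (w : Equiv.Perm α) (hw : w ∈ G) (h1 : w ≠ 1) (hs : w.support.card ≤ 3) :
    alternatingGroup α ≤ G := by
  have h0 : w.support.card ≠ 0 := fun h => h1 (Equiv.Perm.card_support_eq_zero.mp h)
  have h1' : w.support.card ≠ 1 := Equiv.Perm.card_support_ne_one w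
  have h23 : w.support.card = 2 ∨ w.support.card = 3 := by omega
  rcases h23 with h | h
  · have := Equiv.Perm.subgroup_eq_top_of_isPreprimitive_of_isSwap_mem hprim w
      (Equiv.Perm.card_support_eq_two.mp h) hw
    rw [this]; exact le_top
  · exact Equiv.Perm.alternatingGroup_le_of_isPreprimitive_of_isThreeCycle_mem hprim
      (card_support_eq_three_iff.mp h) hw

end Cfsg.Agent.H93Mi
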