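import Cfsg.Agent.Lib.H93MiDefs

/-! Project 4220 (row S4220), piece Gen. -/

set_option autoImplicit false
open scoped commutatorElement

namespace Cfsg.Agent.H93Mi

variable {α : Type*} [Fintype α] [DecidableEq α]

theorem gen (p k : ℕ) (P : Subgroup (Equiv.Perm α)) (Δ : Finset α) (lab : α → Fin k)
    (hC : Cfg p k P Δ lab) (γ : α) (hγ : γ ∉ Δ) (hst : ∀ q ∈ P, q γ = γ → q = 1) :
    ∃ x₀ ∈ P, ∀ q ∈ P, ∃ i : ℕ, q = x₀ ^ i := by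
  obtain ⟨x₀, hx₀, hmov⟩ := hC.mov γ hγ
  refine ⟨x₀, hx₀, ?_⟩
  intro q hq
  obtain ⟨i, hi⟩ := hC.gen γ hγ x₀ hx₀ hmov q hq
  refine ⟨i, ?_⟩
  have h1 : (x₀ ^ i)⁻¹ * q = 1 := by
    apply hst _ (P.mul_mem (P.inv_mem (P.pow_mem hx₀ i)) hq)
    rw [Equiv.Perm.mul_apply, hi, Equiv.Perm.inv_eq_iff_eq]
  exact (inv_mul_eq_one.mp h1).symm

end Cfsg.Agent.H93Mi
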