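import Cfsg.Agent.Lib.H93MiDefs

/-! Project 4220 (row S4220), piece IndTop. -/

set_option autoImplicit false
open scoped commutatorElement

namespace Cfsg.Agent.H93Mi

variable {α : Type*} [Fintype α] [DecidableEq α]

/-- If `M` is `|Δ|`-transitive on `Δ` then `M` induces every permutation of `Δ`:
take `a = ` an enumeration of `Δ` (`Δ.equivFin.symm` followed by the inclusion), `b = σ ∘ a`. -/
theorem ind_top (M : Subgroup (Equiv.Perm α)) (Δ : Finset α)
    (h : ∀ a b : Fin Δ.card ↪ α, (∀ i, a i ∈ Δ) → (∀ i, b i ∈ Δ) → ∃ g ∈ M, ∀ i, g (a i) = b i) :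
    ∀ σ : Equiv.Perm Δ, ∃ g ∈ M, ∀ x : Δ, g (x : α) = (σ x : α) := by
  intro σ
  let e : Fin Δ.card ≃ Δ := Δ.equivFin.symm
  let a : Fin Δ.card ↪ α := ⟨fun i => (e i : α), fun i j h => e.injective (Subtype.ext h)⟩
  let b : Fin Δ.card ↪ α :=
    ⟨fun i => (σ (e i) : α), fun i j h => e.injective (σ.injective (Subtype.ext h))⟩
  obtain ⟨g, hg, hgab⟩ := h a b (fun i => (e i).2) (fun i => (σ (e i)).2)
  refine ⟨g, hg, fun x => ?_⟩
  have h1 : g ((e (e.symm x) : Δ) : α) = ((σ (e (e.symm x)) : Δ) : α) := hgab (e.symm x)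
  rwa [e.apply_symm_apply] at h1

end Cfsg.Agent.H93Mi
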