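import Cfsg.Agent.Lib.H93MiDefs

/-! Project 4220 (row S4220), piece KAff. -/

set_option autoImplicit false
open scoped commutatorElement

namespace Cfsg.Agent.H93Mi

variable {α : Type*} [Fintype α] [DecidableEq α]

theorem kaff_pres (p k : ℕ) (Q : Subgroup (Equiv.Perm α)) (Φ : Finset α)
    (lab : α → Fin k) (hC : Cfg p k Q Φ lab) (x : Equiv.Perm α)
    (hx : x ∈ Subgroup.normalizer (Q : Set (Equiv.Perm α))) (b : α) (hb : b ∈ Φ) : x b ∈ Φ := by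
  by_contra hxb
  obtain ⟨q, hq, hne⟩ := hC.mov (x b) hxb
  have h1 : x⁻¹ * q * x ∈ Q := (Subgroup.mem_normalizer_iff''.mp hx q).mp hq
  have h2 := hC.fix _ h1 b hb
  apply hne
  simp only [Equiv.Perm.mul_apply] at h2
  rw [Equiv.Perm.inv_eq_iff_eq] at h2
  exact h2

theorem kaff_inv (p k : ℕ) (Q : Subgroup (Equiv.Perm α)) (Φ : Finset α)
    (lab : α → Fin k) (hC : Cfg p k Q Φ lab) (x : Equiv.Perm α)
    (hx : x ∈ Subgroup.normalizer (Q : Set (Equiv.Perm α))) (hx0 : FixO Q Φ x) :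
    FixO Q Φ x⁻¹ := by
  intro b hb
  have h1 : x⁻¹ b ∉ Φ := by
    intro h
    have := kaff_pres p k Q Φ lab hC x hx _ h
    simp at this
    exact hb this
  obtain ⟨q, hq, he⟩ := hx0 _ h1
  refine ⟨q⁻¹, Q.inv_mem hq, ?_⟩
  simp at he
  rw [eq_comm, Equiv.Perm.inv_eq_iff_eq]
  exact he

theorem kaff_nmem (p k : ℕ) (Q : Subgroup (Equiv.Perm α)) (Φ : Finset α)
    (lab : α → Fin k) (hC : Cfg p k Q Φ lab) (q : Equiv.Perm α) (hq : q ∈ Q) (a : α)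
    (ha : a ∉ Φ) : q a ∉ Φ := by
  intro h
  have h1 := hC.fix q⁻¹ (Q.inv_mem hq) _ h
  simp at h1
  exact ha (h1 ▸ h)

/-- every element of `Q` acts on the orbit of `a` as a power of `c`. -/
theorem kaff_F1 (p k : ℕ) (Q : Subgroup (Equiv.Perm α)) (Φ : Finset α)
    (lab : α → Fin k) (hC : Cfg p k Q Φ lab) (a : α) (ha : a ∉ Φ) (c : Equiv.Perm α)
    (hc : c ∈ Q) (hca : c a ≠ a) (q : Equiv.Perm α) (hq : q ∈ Q) :
    ∃ i : ℕ, ∀ m : ℕ, q ((c ^ m) a) = (c ^ (i + m)) a := by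
  obtain ⟨i, hi⟩ := hC.gen a ha c hc hca q hq
  refine ⟨i, fun m => ?_⟩
  have h1 : q * c ^ m = c ^ m * q := hC.comm q hq _ (Q.pow_mem hc m)
  calc q ((c ^ m) a) = (q * c ^ m) a := rfl
    _ = (c ^ m * q) a := by rw [h1]
    _ = (c ^ m) ((c ^ i) a) := by rw [Equiv.Perm.mul_apply, hi]
    _ = (c ^ (i + m)) a := by rw [add_comm, pow_add]; rfl

/-- the elements of the normaliser preserving the orbits are "affine". -/
theorem kaff_F2 (p k : ℕ) (Q : Subgroup (Equiv.Perm α)) (Φ : Finset α)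
    (lab : α → Fin k) (hC : Cfg p k Q Φ lab) (a : α) (ha : a ∉ Φ) (c : Equiv.Perm α)
    (hc : c ∈ Q) (hca : c a ≠ a) (x : Equiv.Perm α)
    (hx : x ∈ Subgroup.normalizer (Q : Set (Equiv.Perm α))) (hx0 : FixO Q Φ x) :
    ∃ s i : ℕ, ∀ m : ℕ, x ((c ^ m) a) = (c ^ (s + i * m)) a := by
  obtain ⟨q, hq, hqa⟩ := hx0 a ha
  obtain ⟨s, hs⟩ := hC.gen a ha c hc hca q hq
  have h1 : x * c * x⁻¹ ∈ Q := (Subgroup.mem_normalizer_iff.mp hx c).mp hc
  obtain ⟨i, hi⟩ := kaff_F1 p k Q Φ lab hC a ha c hc hca _ h1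
  refine ⟨s, i, fun m => ?_⟩
  induction m with
  | zero => simp [hqa, hs]
  | succ m ih =>
    have h2 : x ((c ^ (m + 1)) a) = (x * c * x⁻¹) (x ((c ^ m) a)) := by
      rw [pow_succ']
      simp
    rw [h2, ih, hi]
    congr 2
    ring

/-- Commutators of "affine" maps are "translations".  Fix `a ∉ Φ`, `O = Q a`; pick `c ∈ Q` with
`c a ≠ a` (`hC.mov`).  Every `q ∈ Q` acts on `O` as a power of `c` (`hC.gen` at `a`, then
`hC.comm` to move to `q' a`).  Write `u =_O v` for `∀ q' ∈ Q, u (q' a) = v (q' a)`.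
`A = g⁻¹`, `B = h⁻¹` normalise `Q` and preserve `O`, so `A c A⁻¹ =_O c^i`, `B c B⁻¹ =_O c^j`, hence
`(A B) c (A B)⁻¹ =_O c^(i j) =_O (B A) c (B A)⁻¹`, so `w = ⁅g, h⁆ = (B A)⁻¹ (A B)` satisfies
`w c =_O c w`.  `w` preserves `O`: `w a = c^s a`; then `w (c^m a) = c^m (w a) = c^s (c^m a)`, and
every point of `O` is some `c^m a`.  So `q = c^s` works. -/
theorem comm_trp (p k : ℕ) [Fact p.Prime] (Q : Subgroup (Equiv.Perm α)) (Φ : Finset α)
    (lab : α → Fin k) (hC : Cfg p k Q Φ lab) (g h : Equiv.Perm α)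
    (hg : g ∈ Subgroup.normalizer (Q : Set (Equiv.Perm α)))
    (hh : h ∈ Subgroup.normalizer (Q : Set (Equiv.Perm α)))
    (hg0 : FixO Q Φ g) (hh0 : FixO Q Φ h) : TrP Q Φ ⁅g, h⁆ := by
  intro a ha
  obtain ⟨c, hc, hca⟩ := hC.mov a ha
  obtain ⟨s, i, hgi⟩ := kaff_F2 p k Q Φ lab hC a ha c hc hca g hg hg0
  obtain ⟨t, j, hhj⟩ := kaff_F2 p k Q Φ lab hC a ha c hc hca h hh hh0
  refine ⟨c ^ (s + i * t) * (c ^ (t + j * s))⁻¹,
    Q.mul_mem (Q.pow_mem hc _) (Q.inv_mem (Q.pow_mem hc _)), fun q' hq' => ?_⟩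
  -- write `q' a = h (g (c ^ m a))`
  have hy : q' a ∉ Φ := kaff_nmem p k Q Φ lab hC q' hq' a ha
  obtain ⟨q1, hq1, he1⟩ := kaff_inv p k Q Φ lab hC h hh hh0 _ hy
  have hy1 : q1 (q' a) ∉ Φ := kaff_nmem p k Q Φ lab hC q1 hq1 _ hy
  obtain ⟨q2, hq2, he2⟩ := kaff_inv p k Q Φ lab hC g hg hg0 _ hy1
  obtain ⟨m, hm⟩ := hC.gen a ha c hc hca (q2 * q1 * q') (Q.mul_mem (Q.mul_mem hq2 hq1) hq')
  have hym : q' a = h (g ((c ^ m) a)) := by
    rw [← hm]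
    simp only [Equiv.Perm.mul_apply]
    rw [← he2, ← he1]
    simp
  have hw : ⁅g, h⁆ (h (g ((c ^ m) a))) = g (h ((c ^ m) a)) := by
    rw [commutatorElement_def]
    simp
  rw [hym, hw, hhj, hgi, hgi, hhj]
  have e1 : c ^ (t + j * (s + i * m)) = c ^ (t + j * s) * c ^ (j * i * m) := by
    rw [← pow_add]; congr 1; ring
  have e2 : c ^ (s + i * (t + j * m)) = c ^ (s + i * t) * c ^ (j * i * m) := by
    rw [← pow_add]; congr 1; ring
  rw [e1, e2]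
  simp

end Cfsg.Agent.H93Mi
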