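import Cfsg.Agent.Lib.H93MiDefs

/-! Project 4220 (row S4220), piece KCard. -/

set_option autoImplicit false
open scoped commutatorElement

namespace Cfsg.Agent.H93Mi

variable {α : Type*} [Fintype α] [DecidableEq α]

theorem card_lt (k : ℕ) (Φ : Finset α) (hk : k < Φ.card) (h5 : 5 ≤ Φ.card) :
    Nat.card (Equiv.Perm (Fin k)) < Nat.card (alternatingGroup Φ) := by
  have hnt : Nontrivial Φ := by
    rw [← Fintype.one_lt_card_iff_nontrivial, Fintype.card_coe]; omega
  have h1 := two_mul_nat_card_alternatingGroup (α := Φ)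
  have h2 : Nat.card (Equiv.Perm Φ) = (Φ.card).factorial := by
    rw [Nat.card_eq_fintype_card, Fintype.card_perm, Fintype.card_coe]
  have h3 : Nat.card (Equiv.Perm (Fin k)) = k.factorial := by
    rw [Nat.card_eq_fintype_card, Fintype.card_perm, Fintype.card_fin]
  rw [h2] at h1
  rw [h3]
  obtain ⟨m, hm⟩ : ∃ m, Φ.card = m + 1 := ⟨Φ.card - 1, by omega⟩
  rw [hm, Nat.factorial_succ] at h1
  have h4 : k.factorial ≤ m.factorial := Nat.factorial_le (by omega)
  have h5' : 0 < m.factorial := Nat.factorial_pos m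
  have h6 : 5 * m.factorial ≤ (m + 1) * m.factorial := Nat.mul_le_mul_right _ (by omega)
  omega

end Cfsg.Agent.H93Mi
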