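import Cfsg.Agent.Lib.H93MiDefs

/-! Project 4220 (row S4220), piece KDC. -/

set_option autoImplicit false
open scoped commutatorElement

namespace Cfsg.Agent.H93Mi

variable {α : Type*} [Fintype α] [DecidableEq α]

theorem three_dc_five : ∃ a₁ ∈ alternatingGroup (Fin 5), ∃ a₂ ∈ alternatingGroup (Fin 5),
    ∃ a₃ ∈ alternatingGroup (Fin 5), ∃ a₄ ∈ alternatingGroup (Fin 5),
    (⁅⁅a₁, a₂⁆, ⁅a₃, a₄⁆⁆ : Equiv.Perm (Fin 5)).IsThreeCycle := by
  have h3 : ∀ a b c : Fin 5, a ≠ b → a ≠ c → b ≠ c →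
      Equiv.swap a b * Equiv.swap a c ∈ alternatingGroup (Fin 5) := fun a b c h1 h2 h3 =>
    (Equiv.Perm.isThreeCycle_swap_mul_swap_same h1 h2 h3).mem_alternatingGroup
  refine ⟨Equiv.swap (0 : Fin 5) 1 * Equiv.swap (0 : Fin 5) 2, h3 _ _ _ (by decide) (by decide) (by decide),
    Equiv.swap (0 : Fin 5) 1 * Equiv.swap (0 : Fin 5) 3, h3 _ _ _ (by decide) (by decide) (by decide),
    Equiv.swap (0 : Fin 5) 1 * Equiv.swap (0 : Fin 5) 2, h3 _ _ _ (by decide) (by decide) (by decide),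
    Equiv.swap (0 : Fin 5) 1 * Equiv.swap (0 : Fin 5) 4, h3 _ _ _ (by decide) (by decide) (by decide), ?_⟩
  have h : (⁅⁅Equiv.swap (0 : Fin 5) 1 * Equiv.swap (0 : Fin 5) 2,
        Equiv.swap (0 : Fin 5) 1 * Equiv.swap (0 : Fin 5) 3⁆,
      ⁅Equiv.swap (0 : Fin 5) 1 * Equiv.swap (0 : Fin 5) 2,
        Equiv.swap (0 : Fin 5) 1 * Equiv.swap (0 : Fin 5) 4⁆⁆ : Equiv.Perm (Fin 5))
      = Equiv.swap (4 : Fin 5) 3 * Equiv.swap (4 : Fin 5) 2 := by
    set_option maxRecDepth 100000 in decide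
  rw [h]
  exact Equiv.Perm.isThreeCycle_swap_mul_swap_same (by decide) (by decide) (by decide)

/-- On at least 5 points some 3-cycle is a double commutator of even permutations.
Find explicit `a₁ … a₄ : Equiv.Perm (Fin 5)` (3-cycles) by `decide`, then transport along an
embedding of `Fin 5` with `Equiv.Perm.extendDomainHom` / `Equiv.Perm.viaEmbeddingHom`
(`Equiv.Perm.sign_extendDomain`, `Equiv.Perm.cycleType_extendDomain`, `map_commutatorElement`). -/
theorem three_dc (β : Type*) [Fintype β] [DecidableEq β] (h5 : 5 ≤ Fintype.card β) :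
    ∃ a₁ ∈ alternatingGroup β, ∃ a₂ ∈ alternatingGroup β, ∃ a₃ ∈ alternatingGroup β,
      ∃ a₄ ∈ alternatingGroup β, (⁅⁅a₁, a₂⁆, ⁅a₃, a₄⁆⁆ : Equiv.Perm β).IsThreeCycle := by
  classical
  obtain ⟨e⟩ : Nonempty (Fin 5 ↪ β) := Function.Embedding.nonempty_of_card_le (by simpa using h5)
  let f : Fin 5 ≃ {x // x ∈ Set.range e} := Equiv.ofInjective e e.injective
  have hsign : ∀ a : Equiv.Perm (Fin 5), a ∈ alternatingGroup (Fin 5) →
      Equiv.Perm.extendDomainHom f a ∈ alternatingGroup β := by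
    intro a ha
    rw [Equiv.Perm.mem_alternatingGroup] at ha ⊢
    rw [Equiv.Perm.extendDomainHom_apply, Equiv.Perm.sign_extendDomain, ha]
  obtain ⟨a₁, h1, a₂, h2, a₃, h3, a₄, h4, h⟩ := three_dc_five
  refine ⟨Equiv.Perm.extendDomainHom f a₁, hsign _ h1, Equiv.Perm.extendDomainHom f a₂, hsign _ h2,
    Equiv.Perm.extendDomainHom f a₃, hsign _ h3, Equiv.Perm.extendDomainHom f a₄, hsign _ h4, ?_⟩
  rw [← map_commutatorElement, ← map_commutatorElement, ← map_commutatorElement,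
    Equiv.Perm.extendDomainHom_apply]
  unfold Equiv.Perm.IsThreeCycle at h ⊢
  rw [Equiv.Perm.cycleType_extendDomain]
  exact h

end Cfsg.Agent.H93Mi
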