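import Cfsg.Agent.Lib.H93MiDefs

/-! Project 4220 (row S4220), piece NGpres. -/

set_option autoImplicit false
open scoped commutatorElement

namespace Cfsg.Agent.H93Mi

variable {α : Type*} [Fintype α] [DecidableEq α]

/-- The normaliser of `Q` preserves the fixed point set `Φ` of `Q`.
If `x ∈ Φ` and `g x ∉ Φ`, some `q ∈ Q` moves `g x`, but `g⁻¹ q g ∈ Q` fixes `x`. Same for `g⁻¹`. -/
theorem ng_pres (Q : Subgroup (Equiv.Perm α)) (Φ : Finset α)
    (hfix : ∀ q ∈ Q, ∀ a ∈ Φ, q a = a) (hmov : ∀ a, a ∉ Φ → ∃ q ∈ Q, q a ≠ a)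
    (g : Equiv.Perm α) (hg : g ∈ Subgroup.normalizer (Q : Set (Equiv.Perm α))) (x : α) :
    g x ∈ Φ ↔ x ∈ Φ := by
  have key : ∀ (g : Equiv.Perm α), g ∈ Subgroup.normalizer (Q : Set (Equiv.Perm α)) →
      ∀ x, x ∈ Φ → g x ∈ Φ := by
    intro g hg x hx
    by_contra hgx
    obtain ⟨q, hq, hqx⟩ := hmov _ hgx
    have h1 : g⁻¹ * q * g ∈ Q := by
      have := (Subgroup.mem_normalizer_iff.1 (inv_mem hg) q).1 hq
      rwa [inv_inv] at this
    have h2 := hfix _ h1 x hx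
    apply hqx
    have h3 : g ((g⁻¹ * q * g) x) = q (g x) := by simp [Equiv.Perm.mul_apply]
    rw [← h3, h2]
  constructor
  · intro h
    have := key g⁻¹ (inv_mem hg) _ h
    simpa using this
  · exact key g hg x

end Cfsg.Agent.H93Mi
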