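import Cfsg.Agent.Lib.H93MiDefs
import Cfsg.Agent.Lib.H93MiNGpres

/-! Project 4220 (row S4220), piece KHom. -/

set_option autoImplicit false
open scoped commutatorElement

namespace Cfsg.Agent.H93Mi

variable {α : Type*} [Fintype α] [DecidableEq α]

/-- `M` normalises `Q`, so it permutes the `k` labelled `Q`-orbits outside `Φ`.
`F g i := lab (g a)` for any `a ∉ Φ` with `lab a = i` (`hC.surj`, choose); well defined:
`b = q a ⇒ g b = (g q g⁻¹) (g a)`, and `g a ∉ Φ` (`ng_pres`).  Inverse: `F g⁻¹`.  `F` is a hom.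
If `F g = 1` then `lab (g a) = lab a`, i.e. `g a = q a` for some `q ∈ Q` (`hC.lab_iff`). -/
theorem orb_hom (p k : ℕ) (M Q : Subgroup (Equiv.Perm α)) (Φ : Finset α) (lab : α → Fin k)
    (hC : Cfg p k Q Φ lab) (hM : M ≤ Subgroup.normalizer (Q : Set (Equiv.Perm α))) :
    ∃ F : M →* Equiv.Perm (Fin k), ∀ g : M, F g = 1 → FixO Q Φ (g : Equiv.Perm α) := by
  classical
  have hsurj := hC.surj
  choose rep hrepΦ hreplab using hsurj
  have hpres : ∀ g : M, ∀ a, a ∉ Φ → (g : Equiv.Perm α) a ∉ Φ := by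
    intro g a ha hga
    exact ha ((ng_pres Q Φ hC.fix hC.mov g (hM g.2) a).1 hga)
  have key : ∀ g : M, ∀ a, a ∉ Φ → lab ((g : Equiv.Perm α) a) = lab ((g : Equiv.Perm α) (rep (lab a))) := by
    intro g a ha
    have h1 : lab (rep (lab a)) = lab a := hreplab (lab a)
    obtain ⟨q, hq, hqa⟩ := (hC.lab_iff _ (hrepΦ (lab a)) a ha).1 h1
    refine ((hC.lab_iff _ (hpres g _ (hrepΦ (lab a))) _ (hpres g a ha)).2 ?_).symm
    refine ⟨(g : Equiv.Perm α) * q * (g : Equiv.Perm α)⁻¹,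
      ((Subgroup.mem_normalizer_iff.1 (hM g.2)) q).1 hq, ?_⟩
    simp [hqa]
  let act : MulAction M (Fin k) :=
    { smul := fun g i => lab ((g : Equiv.Perm α) (rep i))
      one_smul := fun i => hreplab i
      mul_smul := fun g h i => by
        show lab ((g : Equiv.Perm α) ((h : Equiv.Perm α) (rep i))) =
          lab ((g : Equiv.Perm α) (rep (lab ((h : Equiv.Perm α) (rep i)))))
        exact key g _ (hpres h _ (hrepΦ i)) }
  refine ⟨@MulAction.toPermHom M (Fin k) _ act, ?_⟩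
  intro g hg a ha
  have h1 : (@MulAction.toPermHom M (Fin k) _ act g) (lab a) = lab a := by rw [hg]; rfl
  have h2 : lab ((g : Equiv.Perm α) (rep (lab a))) = lab a := h1
  rw [← key g a ha] at h2
  obtain ⟨q, hq, hqa⟩ := (hC.lab_iff a ha _ (hpres g a ha)).1 h2.symm
  exact ⟨q, hq, hqa.symm⟩

end Cfsg.Agent.H93Mi
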