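import Cfsg.Agent.Lib.H93MiDefs

/-! Project 4220 (row S4220), piece KInd. -/

set_option autoImplicit false
open scoped commutatorElement

namespace Cfsg.Agent.H93Mi

variable {α : Type*} [Fintype α] [DecidableEq α]

theorem ind_inv (Φ : Finset α) (g : Equiv.Perm α) (σ : Equiv.Perm Φ)
    (h1 : ∀ x : Φ, g (x : α) = (σ x : α)) : ∀ x : Φ, g⁻¹ (x : α) = (σ⁻¹ x : α) := by
  intro x
  rw [Equiv.Perm.inv_eq_iff_eq, h1 (σ⁻¹ x)]
  simp

theorem kind_mul (Φ : Finset α) (g h : Equiv.Perm α) (σ τ : Equiv.Perm Φ)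
    (h1 : ∀ x : Φ, g (x : α) = (σ x : α)) (h2 : ∀ x : Φ, h (x : α) = (τ x : α)) :
    ∀ x : Φ, (g * h) (x : α) = ((σ * τ) x : α) := by
  intro x
  rw [Equiv.Perm.mul_apply, h2 x, h1 (τ x), Equiv.Perm.mul_apply]

theorem ind_comm (Φ : Finset α) (g h : Equiv.Perm α) (σ τ : Equiv.Perm Φ)
    (h1 : ∀ x : Φ, g (x : α) = (σ x : α)) (h2 : ∀ x : Φ, h (x : α) = (τ x : α)) :
    ∀ x : Φ, ⁅g, h⁆ (x : α) = (⁅σ, τ⁆ x : α) := by
  rw [commutatorElement_def, commutatorElement_def]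
  exact kind_mul Φ _ _ _ _ (kind_mul Φ _ _ _ _ (kind_mul Φ _ _ _ _ h1 h2) (ind_inv Φ g σ h1))
    (ind_inv Φ h τ h2)

theorem ind_pow (Φ : Finset α) (g : Equiv.Perm α) (σ : Equiv.Perm Φ)
    (h1 : ∀ x : Φ, g (x : α) = (σ x : α)) (m : ℕ) :
    ∀ x : Φ, (g ^ m) (x : α) = ((σ ^ m) x : α) := by
  induction m with
  | zero => intro x; simp
  | succ m ih =>
    rw [pow_succ, pow_succ]
    exact kind_mul Φ _ _ _ _ ih h1

end Cfsg.Agent.H93Mi
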