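import Cfsg.Agent.Lib.H93MiDefs

/-! Project 4220 (row S4220), piece KPig. -/

set_option autoImplicit false
open scoped commutatorElement

namespace Cfsg.Agent.H93Mi

variable {α : Type*} [Fintype α] [DecidableEq α]

/-- Pigeonhole + simplicity of `Alt(Φ)`.  Let `A = alternatingGroup Φ` and
`B = {σ ∈ A | ∃ g : M, F g = 1 ∧ g = σ on Φ}`.  `B` is a subgroup of `A`, normal in `A` (a lift
`h ∈ M` of `τ ∈ A` exists by `hAlt`, and `F (h g h⁻¹) = 1`).  If `B = 1`: choose a lift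
`g_σ : M` for every `σ ∈ A`; `σ ↦ F g_σ` is injective (`F g_σ = F g_τ ⇒ g_σ g_τ⁻¹` lifts
`σ τ⁻¹ ∈ B`), contradicting `hcard`.  So `B = A` by `alternatingGroup.isSimpleGroup`
(`IsSimpleGroup.eq_bot_or_eq_top_of_normal`). -/
theorem pigeon (M : Subgroup (Equiv.Perm α)) (Φ : Finset α) {H : Type} [Group H] [Finite H]
    (F : M →* H) (hcard : Nat.card H < Nat.card (alternatingGroup Φ)) (h5 : 5 ≤ Φ.card)
    (hAlt : alternatingGroup Φ ≤ Ind M Φ) :
    ∀ σ ∈ alternatingGroup Φ, ∃ g : M, F g = 1 ∧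
      ∀ x : Φ, (g : Equiv.Perm α) (x : α) = (σ x : α) := by
  classical
  haveI : IsSimpleGroup (alternatingGroup Φ) :=
    alternatingGroup.isSimpleGroup (by rw [Nat.card_eq_fintype_card, Fintype.card_coe]; exact h5)
  let B : Subgroup (alternatingGroup Φ) :=
    { carrier := {σ | ∃ g : M, F g = 1 ∧ ∀ x : Φ, (g : Equiv.Perm α) (x : α) = ((σ : Equiv.Perm Φ) x : α)}
      one_mem' := ⟨1, map_one F, fun _ => rfl⟩
      mul_mem' := by
        rintro σ τ ⟨g, hg, hgσ⟩ ⟨h, hh, hhτ⟩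
        refine ⟨g * h, by rw [map_mul, hg, hh, one_mul], fun x => ?_⟩
        show (g : Equiv.Perm α) ((h : Equiv.Perm α) (x : α)) = _
        rw [hhτ x, hgσ]
        rfl
      inv_mem' := by
        rintro σ ⟨g, hg, hgσ⟩
        refine ⟨g⁻¹, by rw [map_inv, hg, inv_one], fun x => ?_⟩
        show ((g : Equiv.Perm α)⁻¹) (x : α) = _
        rw [Equiv.Perm.inv_eq_iff_eq, hgσ]
        show (x : α) = (((σ : Equiv.Perm Φ) ((σ : Equiv.Perm Φ)⁻¹ x) : Φ) : α)
        simp }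
  have hBn : B.Normal := by
    constructor
    rintro σ ⟨g, hg, hgσ⟩ τ
    obtain ⟨h, hhM, hh⟩ := hAlt τ.2
    refine ⟨⟨h, hhM⟩ * g * ⟨h, hhM⟩⁻¹, by rw [map_mul, map_mul, hg, mul_one, map_inv, mul_inv_cancel],
      fun x => ?_⟩
    show h ((g : Equiv.Perm α) (h⁻¹ (x : α))) = _
    have h1 : h⁻¹ (x : α) = (((τ : Equiv.Perm Φ)⁻¹ x : Φ) : α) := by
      rw [Equiv.Perm.inv_eq_iff_eq, hh]; simp
    rw [h1, hgσ, hh]
    rfl
  rcases hBn.eq_bot_or_eq_top with hB | hB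
  · exfalso
    have hl : ∀ σ : alternatingGroup Φ, ∃ g : M, ∀ x : Φ,
        (g : Equiv.Perm α) (x : α) = ((σ : Equiv.Perm Φ) x : α) := by
      intro σ
      obtain ⟨h, hhM, hh⟩ := hAlt σ.2
      exact ⟨⟨h, hhM⟩, hh⟩
    choose L hL using hl
    have hinj : Function.Injective (fun σ : alternatingGroup Φ => F (L σ)) := by
      intro σ τ hστ
      have hστ' : F (L σ) = F (L τ) := hστ
      have hmem : σ * τ⁻¹ ∈ B := by
        refine ⟨L σ * (L τ)⁻¹, by rw [map_mul, map_inv, hστ', mul_inv_cancel], fun x => ?_⟩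
        show (L σ : Equiv.Perm α) (((L τ : Equiv.Perm α)⁻¹) (x : α)) = _
        have h1 : ((L τ : Equiv.Perm α)⁻¹) (x : α) = (((τ : Equiv.Perm Φ)⁻¹ x : Φ) : α) := by
          rw [Equiv.Perm.inv_eq_iff_eq, hL]; simp
        rw [h1, hL]
        rfl
      rw [hB, Subgroup.mem_bot] at hmem
      exact mul_inv_eq_one.1 hmem
    have := Nat.card_le_card_of_injective _ hinj
    omega
  · intro σ hσ
    have hmem : (⟨σ, hσ⟩ : alternatingGroup Φ) ∈ B := by rw [hB]; exact Subgroup.mem_top _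
    exact hmem

end Cfsg.Agent.H93Mi
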