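import Cfsg.Agent.Lib.H93MiDefs

/-! Project 4220 (row S4220), piece KTT. -/

set_option autoImplicit false
open scoped commutatorElement

namespace Cfsg.Agent.H93Mi

variable {α : Type*} [Fintype α] [DecidableEq α]

/-- Two "translations" commute outside `Φ`.  With `w = q`, `w' = q'` on the orbit of `a`:
`w'⁻¹ a = q'⁻¹ a`, `w⁻¹ (q'⁻¹ a) = q⁻¹ q'⁻¹ a`, ... so `⁅w, w'⁆ a = q q' q⁻¹ q'⁻¹ a = a`
by `hC.comm`. -/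
theorem trp_comm (p k : ℕ) (Q : Subgroup (Equiv.Perm α)) (Φ : Finset α)
    (lab : α → Fin k) (hC : Cfg p k Q Φ lab) (w w' : Equiv.Perm α)
    (hw : TrP Q Φ w) (hw' : TrP Q Φ w') : ∀ a, a ∉ Φ → ⁅w, w'⁆ a = a := by
  intro a ha
  obtain ⟨q, hq, hqw⟩ := hw a ha
  obtain ⟨q', hq', hqw'⟩ := hw' a ha
  have e1 : w'⁻¹ a = q'⁻¹ a := by
    rw [Equiv.Perm.inv_eq_iff_eq, hqw' q'⁻¹ (Q.inv_mem hq')]
    simp
  have e2 : w⁻¹ (q'⁻¹ a) = (q⁻¹ * q'⁻¹) a := by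
    rw [Equiv.Perm.inv_eq_iff_eq, hqw (q⁻¹ * q'⁻¹) (Q.mul_mem (Q.inv_mem hq) (Q.inv_mem hq'))]
    simp
  have e3 : w' ((q⁻¹ * q'⁻¹) a) = (q' * (q⁻¹ * q'⁻¹)) a := by
    rw [hqw' (q⁻¹ * q'⁻¹) (Q.mul_mem (Q.inv_mem hq) (Q.inv_mem hq'))]
    rfl
  have e4 : w ((q' * (q⁻¹ * q'⁻¹)) a) = (q * (q' * (q⁻¹ * q'⁻¹))) a := by
    rw [hqw (q' * (q⁻¹ * q'⁻¹)) (Q.mul_mem hq' (Q.mul_mem (Q.inv_mem hq) (Q.inv_mem hq')))]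
    rfl
  have e5 : q * (q' * (q⁻¹ * q'⁻¹)) = 1 := by
    have hc := hC.comm q hq q' hq'
    rw [← mul_assoc, ← mul_assoc, hc]
    group
  rw [commutatorElement_def]
  simp only [Equiv.Perm.mul_apply]
  rw [e1, e2, e3, e4, e5]
  rfl

end Cfsg.Agent.H93Mi
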