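import Cfsg.Agent.Lib.H93MiDefs

/-! Project 4220 (row S4220), piece KThree. -/

set_option autoImplicit false
open scoped commutatorElement

namespace Cfsg.Agent.H93Mi

variable {α : Type*} [Fintype α] [DecidableEq α]

/-- `g = Equiv.Perm.ofSubtype σ`, and `Equiv.Perm.cycleType_ofSubtype`. -/
theorem three_of_ind (Φ : Finset α) (g : Equiv.Perm α) (σ : Equiv.Perm Φ) (hσ : σ.IsThreeCycle)
    (h1 : ∀ x : Φ, g (x : α) = (σ x : α)) (h2 : ∀ a, a ∉ Φ → g a = a) : g.IsThreeCycle := by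
  have hg : g = Equiv.Perm.ofSubtype (p := fun a => a ∈ Φ) σ := by
    ext a
    by_cases ha : a ∈ Φ
    · rw [Equiv.Perm.ofSubtype_apply_of_mem σ ha]
      exact h1 ⟨a, ha⟩
    · rw [Equiv.Perm.ofSubtype_apply_of_not_mem σ ha]
      exact h2 a ha
  rw [hg, Equiv.Perm.IsThreeCycle, Equiv.Perm.cycleType_ofSubtype]
  exact hσ

end Cfsg.Agent.H93Mi
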