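import Cfsg.Agent.Lib.H93MiDefs

/-! Project 4220 (row S4220), piece Prim. -/

set_option autoImplicit false
open scoped commutatorElement

namespace Cfsg.Agent.H93Mi

variable {α : Type*} [Fintype α] [DecidableEq α]

/-- translation of `Tr G t` into Mathlib's multiple pretransitivity -/
theorem prim_mpt_of_tr (G : Subgroup (Equiv.Perm α)) (t : ℕ) (h : Tr G t) :
    MulAction.IsMultiplyPretransitive G α t := by
  rw [MulAction.isMultiplyPretransitive_iff]
  intro x y
  obtain ⟨g, hg, hgx⟩ := h x y
  refine ⟨⟨g, hg⟩, ?_⟩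
  ext i
  exact hgx i

/-- 2-transitive implies primitive. -/
theorem prim (G : Subgroup (Equiv.Perm α)) (h : Tr G 2) : MulAction.IsPreprimitive G α :=
  MulAction.isPreprimitive_of_is_two_pretransitive (prim_mpt_of_tr G 2 h)

end Cfsg.Agent.H93Mi
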