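import Cfsg.Agent.Lib.H93MiDefs

/-! Project 4220 (row S4220), piece SS. -/

set_option autoImplicit false
open scoped commutatorElement

namespace Cfsg.Agent.H93Mi

variable {α : Type*} [Fintype α] [DecidableEq α]

/-- Small support lemma.  `v ≠ 1` moves some `c`, `c ∈ Δ`; pick `e ∉ Δ` (`hlt`).  By `hG` (enumerate
`Δ`) there is `g ∈ G` fixing every point of `Δ \ {c}` with `g c = e`.  Put `v' = g v g⁻¹`,
`w = v⁻¹ v'`.  If `y ∉ {c, e, v⁻¹ c}` then `w y = y`  (for `y ∉ Δ ∪ {e}`: `g⁻¹ y ∉ Δ`, so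
`v' y = y = v y`; for `y ∈ Δ`, `y ≠ c`, `v y ≠ c`: `g⁻¹ y = y`, `v y ∈ Δ \ {c}`, `v' y = v y`).
And `w e ≠ e`: `v' e = g (v c)` with `v c ≠ c`, so `v' e ≠ e = v e`. -/
theorem ss (G : Subgroup (Equiv.Perm α)) (Δ : Finset α) (hG : Tr G Δ.card)
    (hlt : Δ.card < Fintype.card α) (v : Equiv.Perm α) (hv : v ∈ G) (h1 : v ≠ 1)
    (hfix : ∀ y, y ∉ Δ → v y = y) : ∃ w ∈ G, w ≠ 1 ∧ w.support.card ≤ 3 := by
  classical
  -- a moved point
  obtain ⟨c, hc⟩ : ∃ c, v c ≠ c := by
    by_contra hcon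
    push Not at hcon
    exact h1 (Equiv.ext hcon)
  have hcΔ : c ∈ Δ := by
    by_contra h
    exact hc (hfix c h)
  -- a point outside Δ
  obtain ⟨e, he⟩ : ∃ e, e ∉ Δ := by
    by_contra hcon
    push Not at hcon
    have : Δ = Finset.univ := Finset.eq_univ_iff_forall.mpr hcon
    rw [this, Finset.card_univ] at hlt
    exact lt_irrefl _ hlt
  -- enumerations
  let x : Fin Δ.card ↪ α :=
    ⟨fun i => (Δ.equivFin.symm i : α), fun i j h => Δ.equivFin.symm.injective (Subtype.ext h)⟩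
  have hxΔ : ∀ i, x i ∈ Δ := fun i => (Δ.equivFin.symm i).2
  have hxsurj : ∀ a ∈ Δ, ∃ i, x i = a := fun a ha =>
    ⟨Δ.equivFin ⟨a, ha⟩, by
      show ((Δ.equivFin.symm (Δ.equivFin ⟨a, ha⟩) : Δ) : α) = a
      rw [Equiv.symm_apply_apply]⟩
  let y : Fin Δ.card ↪ α :=
    ⟨fun i => if x i = c then e else x i, by
      intro i j h
      dsimp only at h
      by_cases hi : x i = c <;> by_cases hj : x j = c
      · exact x.injective (hi.trans hj.symm)
      · rw [if_pos hi, if_neg hj] at h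
        exact absurd (h ▸ hxΔ j) he
      · rw [if_neg hi, if_pos hj] at h
        exact absurd (h ▸ hxΔ i) he
      · rw [if_neg hi, if_neg hj] at h
        exact x.injective h⟩
  obtain ⟨g, hgG, hg⟩ := hG x y
  have hgc : g c = e := by
    obtain ⟨i, hi⟩ := hxsurj c hcΔ
    have := hg i
    rw [hi] at this
    rw [this]
    show (if x i = c then e else x i) = e
    rw [if_pos hi]
  have hgfix : ∀ a ∈ Δ, a ≠ c → g a = a := by
    intro a ha hac
    obtain ⟨i, hi⟩ := hxsurj a ha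
    have := hg i
    rw [hi] at this
    rw [this]
    show (if x i = c then e else x i) = a
    rw [if_neg (by rw [hi]; exact hac), hi]
  have hvΔ : ∀ a ∈ Δ, v a ∈ Δ := by
    intro a ha
    by_contra h
    have h2 := hfix (v a) h
    have h3 : v a = a := v.injective h2
    rw [h3] at h
    exact h ha
  refine ⟨v⁻¹ * (g * v * g⁻¹), G.mul_mem (G.inv_mem hv) (G.mul_mem (G.mul_mem hgG hv) (G.inv_mem hgG)),
    ?_, ?_⟩
  · intro hw
    have h2 : (v⁻¹ * (g * v * g⁻¹)) e = e := by rw [hw]; rfl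
    simp only [Equiv.Perm.mul_apply] at h2
    have h3 : g⁻¹ e = c := by rw [Equiv.Perm.inv_eq_iff_eq]; exact hgc.symm
    rw [h3, Equiv.Perm.inv_eq_iff_eq, hfix e he, ← hgc] at h2
    exact hc (g.injective h2)
  · have hsub : (v⁻¹ * (g * v * g⁻¹)).support ⊆ {c, e, v⁻¹ c} := by
      intro z hz
      rw [Equiv.Perm.mem_support] at hz
      by_contra hzn
      simp only [Finset.mem_insert, Finset.mem_singleton, not_or] at hzn
      obtain ⟨hz1, hz2, hz3⟩ := hzn
      apply hz
      simp only [Equiv.Perm.mul_apply]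
      rw [Equiv.Perm.inv_eq_iff_eq]
      by_cases hzΔ : z ∈ Δ
      · have h4 : g⁻¹ z = z := by rw [Equiv.Perm.inv_eq_iff_eq]; exact (hgfix z hzΔ hz1).symm
        rw [h4]
        apply hgfix _ (hvΔ z hzΔ)
        intro h5
        apply hz3
        rw [← h5]; simp
      · have h4 : g⁻¹ z ∉ Δ := by
          intro h5
          by_cases h6 : g⁻¹ z = c
          · apply hz2
            rw [← hgc, ← h6]; simp
          · have h7 := hgfix _ h5 h6
            have h8 : g (g⁻¹ z) = z := by simp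
            rw [h8] at h7
            rw [← h7] at h5
            exact hzΔ h5
        rw [hfix _ h4, hfix z hzΔ]; simp
    exact (Finset.card_le_card hsub).trans Finset.card_le_three

end Cfsg.Agent.H93Mi
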