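import Cfsg.Agent.Lib.H93MiDefs

/-! Project 4220 (row S4220), piece TrLe. -/

set_option autoImplicit false
open scoped commutatorElement

namespace Cfsg.Agent.H93Mi

variable {α : Type*} [Fintype α] [DecidableEq α]

/-- `t`-fold transitive implies `s`-fold transitive for `s ≤ t ≤ |α|`. -/
theorem tr_le (G : Subgroup (Equiv.Perm α)) (s t : ℕ) (hst : s ≤ t) (ht : t ≤ Fintype.card α)
    (h : Tr G t) : Tr G s := by
  have h1 : MulAction.IsMultiplyPretransitive G α t := by
    rw [MulAction.isMultiplyPretransitive_iff]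
    intro x y
    obtain ⟨g, hg, hgx⟩ := h x y
    refine ⟨⟨g, hg⟩, ?_⟩
    ext i
    exact hgx i
  have h2 : MulAction.IsMultiplyPretransitive G α s :=
    MulAction.isMultiplyPretransitive_of_le hst (by rw [Nat.card_eq_fintype_card]; exact ht)
  rw [MulAction.isMultiplyPretransitive_iff] at h2
  intro x y
  obtain ⟨g, hg⟩ := h2 x y
  refine ⟨g.1, g.2, fun i => ?_⟩
  have := DFunLike.congr_fun hg i
  exact this

end Cfsg.Agent.H93Mi
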