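import Cfsg.Agent.Lib.H93MiDefs
import Cfsg.Agent.Lib.H93MiSS
import Cfsg.Agent.Lib.H93MiFin
import Cfsg.Agent.Lib.H93MiPrim
import Cfsg.Agent.Lib.H93MiTrLe
import Cfsg.Agent.S0713

/-! Project 4220 (row S4220), piece NineA. -/

set_option autoImplicit false
open scoped commutatorElement

namespace Cfsg.Agent.H93Mi

variable {α : Type*} [Fintype α] [DecidableEq α]

theorem nine_a_small (G : Subgroup (Equiv.Perm α)) (h9 : Fintype.card α = 9) (hG : Tr G 4)
    (v : Equiv.Perm α) (hv : v ∈ G) (h1 : v ≠ 1) (hs : v.support.card ≤ 4) :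
    alternatingGroup α ≤ G := by
  obtain ⟨w, hw, hw1, hws⟩ := ss G v.support (tr_le G _ 4 hs (by omega) hG) (by omega) v hv h1
    (fun y hy => Equiv.Perm.notMem_support.1 hy)
  exact fin G (prim G (tr_le G 2 4 (by omega) (by omega) hG)) w hw hw1 hws

/-- Degree 9, 4-transitive, a nonidentity element `v` with at most 5 moved points. -/
theorem nine_a (G : Subgroup (Equiv.Perm α)) (h9 : Fintype.card α = 9) (hG : Tr G 4)
    (v : Equiv.Perm α) (hv : v ∈ G) (h1 : v ≠ 1) (hs : v.support.card ≤ 5) :
    alternatingGroup α ≤ G := by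
  by_cases h4 : v.support.card ≤ 4
  · exact nine_a_small G h9 hG v hv h1 h4
  have h5 : v.support.card = 5 := by omega
  by_cases hc : v.IsCycle
  · exact Cfsg.Agent.S0713.result G (prim G (tr_le G 2 4 (by omega) (by omega) hG))
      (p := 5) (by norm_num) (by omega) (by omega) hc h5 hv
  -- not a cycle
  obtain ⟨a, ha⟩ : ∃ a, a ∈ v.support := by
    apply Finset.card_pos.1
    omega
  set c := v.cycleOf a with hcdef
  have hcm : c ∈ v.cycleFactorsFinset := Equiv.Perm.cycleOf_mem_cycleFactorsFinset_iff.2 ha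
  have hcc : c.IsCycle := (Equiv.Perm.mem_cycleFactorsFinset_iff.1 hcm).1
  set d := v * c⁻¹ with hddef
  have hdis : Equiv.Perm.Disjoint d c := Equiv.Perm.disjoint_mul_inv_of_mem_cycleFactorsFinset hcm
  have hvd : v = d * c := by rw [hddef]; group
  have hd1 : d ≠ 1 := by
    intro h
    apply hc
    rw [hvd, h, one_mul]
    exact hcc
  have hcard : d.support.card + c.support.card = 5 := by
    rw [← hdis.card_support_mul, ← hvd, h5]
  have hc2 : 2 ≤ c.support.card := hcc.two_le_card_support
  have hd2 : 2 ≤ d.support.card := Equiv.Perm.two_le_card_support_of_ne_one hd1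
  have hpow : ∀ m : ℕ, c ^ m = 1 → v ^ m = d ^ m := by
    intro m hm
    rw [hvd, hdis.commute.mul_pow, hm, mul_one]
  have hco : c ^ c.support.card = 1 := by
    rw [← hcc.orderOf]
    exact pow_orderOf_eq_one c
  have hfin : ∀ m : ℕ, c ^ m = 1 → d ^ m ≠ 1 → alternatingGroup α ≤ G := by
    intro m hm hdm
    apply nine_a_small G h9 hG (v ^ m) (G.pow_mem hv m)
    · rw [hpow m hm]; exact hdm
    · rw [hpow m hm]
      calc (d ^ m).support.card ≤ d.support.card := Finset.card_le_card (Equiv.Perm.support_pow_le d m)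
        _ ≤ 4 := by omega
  have hcases : c.support.card = 2 ∨ c.support.card = 3 := by omega
  rcases hcases with h | h
  · -- d is a 3-cycle
    have hd3 : d.support.card = 3 := by omega
    have h3 : d.IsThreeCycle := card_support_eq_three_iff.1 hd3
    apply hfin 2 (by rw [← h]; exact hco)
    intro hd
    have := orderOf_dvd_of_pow_eq_one hd
    rw [h3.orderOf] at this
    omega
  · have hd3 : d.support.card = 2 := by omega
    have h3 : d.IsSwap := Equiv.Perm.card_support_eq_two.1 hd3
    apply hfin 3 (by rw [← h]; exact hco)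
    intro hd
    have := orderOf_dvd_of_pow_eq_one hd
    rw [h3.orderOf] at this
    omega

end Cfsg.Agent.H93Mi
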