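import Cfsg.Agent.Lib.H93MiDefs

/-! Project 4220 (row S4220), piece NineB. -/

set_option autoImplicit false
set_option linter.unusedSectionVars false
open scoped commutatorElement

namespace Cfsg.Agent.H93Mi

variable {α : Type*} [Fintype α] [DecidableEq α]

/-- a fixed-point-free involution of an invariant finite set: even cardinality -/
theorem nb_even (s : Finset α) (σ : Equiv.Perm α) (h2 : ∀ x, σ (σ x) = x)
    (hinv : ∀ x ∈ s, σ x ∈ s) (hfree : ∀ x ∈ s, σ x ≠ x) : Even s.card := by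
  have h := Finset.sum_involution (s := s) (f := fun _ => (1 : ZMod 2)) (fun a _ => σ a)
    (fun _ _ => by decide) (fun a ha _ => hfree a ha) (fun a ha => hinv a ha) (fun a _ => h2 a)
  rw [Finset.sum_const, nsmul_eq_mul, mul_one] at h
  exact ZMod.natCast_eq_zero_iff_even.1 h

/-- the set of fixed points -/
def nbFx (v : Equiv.Perm α) : Finset α := Finset.univ.filter (fun x => v x = x)

theorem nb_mem {v : Equiv.Perm α} {x : α} : x ∈ nbFx v ↔ v x = x := by simp [nbFx]

theorem nb_card (v : Equiv.Perm α) : (nbFx v).card + v.support.card = Fintype.card α := by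
  have : nbFx v = v.supportᶜ := by
    ext x; simp [nbFx, Equiv.Perm.mem_support]
  rw [this]; exact Finset.card_compl_add_card _

theorem nb_tr4 (G : Subgroup (Equiv.Perm α)) (hG : Tr G 4) (x0 x1 x2 x3 y0 y1 y2 y3 : α)
    (hx : [x0, x1, x2, x3].Nodup) (hy : [y0, y1, y2, y3].Nodup) :
    ∃ g ∈ G, g x0 = y0 ∧ g x1 = y1 ∧ g x2 = y2 ∧ g x3 = y3 := by
  obtain ⟨g, hg, h⟩ := hG
    ⟨fun i : Fin 4 => [x0, x1, x2, x3].get i, List.nodup_iff_injective_get.1 hx⟩
    ⟨fun i : Fin 4 => [y0, y1, y2, y3].get i, List.nodup_iff_injective_get.1 hy⟩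
  exact ⟨g, hg, h 0, h 1, h 2, h 3⟩

theorem nine_b (G : Subgroup (Equiv.Perm α)) (h9 : Fintype.card α = 9) (hG : Tr G 4)
    (hsharp : ∀ v ∈ G, v ≠ 1 → 6 ≤ v.support.card) : False := by
  classical
  have fix4 : ∀ v ∈ G, ∀ l : List α, l.Nodup → 4 ≤ l.length → (∀ x ∈ l, v x = x) → v = 1 := by
    intro v hv l hl h4 hfix
    by_contra h1
    have h6 := hsharp v hv h1
    have hsub : l.toFinset ⊆ nbFx v := fun x hx => nb_mem.2 (hfix x (List.mem_toFinset.1 hx))
    have h7 := Finset.card_le_card hsub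
    rw [List.toFinset_card_of_nodup hl] at h7
    have h8 := nb_card v
    omega
  have inv3 : ∀ v ∈ G, v ≠ 1 → (∀ x, v (v x) = x) → ∀ x y, x ≠ y → v x = x → v y = y →
      (nbFx v).card = 3 := by
    intro v hv h1 h2 x y hxy hx hy
    have h6 := hsharp v hv h1
    have hsq : v ^ 2 = 1 := by
      ext z; simp [pow_two, h2]
    have hd := Equiv.Perm.two_dvd_card_support hsq
    have hc := nb_card v
    have h2le : 2 ≤ (nbFx v).card := by
      have hs : ({x, y} : Finset α) ⊆ nbFx v := by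
        intro z hz
        simp only [Finset.mem_insert, Finset.mem_singleton] at hz
        rcases hz with rfl | rfl
        · exact nb_mem.2 hx
        · exact nb_mem.2 hy
      have h := Finset.card_le_card hs
      rwa [Finset.card_pair hxy] at h
    omega
  have invol : ∀ v : Equiv.Perm α, v * v = 1 → ∀ x, v (v x) = x := by
    intro v hv x
    have := congrArg (fun w : Equiv.Perm α => w x) hv
    simpa using this
  obtain ⟨e⟩ : Nonempty (Fin 9 ≃ α) := ⟨(Fintype.equivFinOfCardEq h9).symm⟩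
  obtain ⟨e1, he1⟩ : ∃ z, z = e 0 := ⟨_, rfl⟩
  obtain ⟨e2, he2⟩ : ∃ z, z = e 1 := ⟨_, rfl⟩
  obtain ⟨a, ha⟩ : ∃ z, z = e 2 := ⟨_, rfl⟩
  obtain ⟨a', ha'⟩ : ∃ z, z = e 3 := ⟨_, rfl⟩
  have hnd1 : [e1, e2, a, a'].Nodup := by
    rw [he1, he2, ha, ha']
    exact List.Nodup.map e.injective (by decide : [(0 : Fin 9), 1, 2, 3].Nodup)
  have hnd1' : [e1, e2, a', a].Nodup := by
    rw [he1, he2, ha, ha']
    exact List.Nodup.map e.injective (by decide : [(0 : Fin 9), 1, 3, 2].Nodup)
  have h12 : e1 ≠ e2 := by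
    rw [he1, he2]; exact e.injective.ne (by decide)
  have haa : a ≠ a' := by
    rw [ha, ha']; exact e.injective.ne (by decide)
  obtain ⟨t, ht, t1, t2, t3, t4⟩ := nb_tr4 G hG e1 e2 a a' e1 e2 a' a hnd1 hnd1'
  have tt : t * t = 1 := by
    apply fix4 (t * t) (G.mul_mem ht ht) [e1, e2, a, a'] hnd1 (le_refl _)
    intro x hx
    simp only [List.mem_cons, List.not_mem_nil, or_false] at hx
    rcases hx with rfl | rfl | rfl | rfl <;> simp [t1, t2, t3, t4]
  have t2' := invol t tt
  have tne : t ≠ 1 := by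
    intro h
    rw [h] at t3
    exact haa t3
  have cardA : (nbFx t).card = 3 := inv3 t ht tne t2' e1 e2 h12 t1 t2
  have hsupp : t.support.card = 6 := by
    have := nb_card t
    omega
  obtain ⟨b, hb⟩ : (t.support \ {a, a'}).Nonempty := by
    rw [← Finset.card_pos]
    have h := Finset.le_card_sdiff ({a, a'} : Finset α) t.support
    rw [Finset.card_pair haa, hsupp] at h
    omega
  rw [Finset.mem_sdiff, Equiv.Perm.mem_support] at hb
  obtain ⟨hbt, hb2⟩ := hb
  simp only [Finset.mem_insert, Finset.mem_singleton, not_or] at hb2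
  obtain ⟨hba, hba'⟩ := hb2
  have hb'a : t b ≠ a := by
    intro h
    apply hba'
    rw [← t2' b, h, t3]
  have hb'a' : t b ≠ a' := by
    intro h
    apply hba
    rw [← t2' b, h, t4]
  have hnd2 : [a, a', b, t b].Nodup := by
    simp [haa, Ne.symm hba, Ne.symm hba', Ne.symm hb'a, Ne.symm hb'a', Ne.symm hbt]
  have hnd2' : [a', a, b, t b].Nodup := by
    simp [Ne.symm haa, Ne.symm hba, Ne.symm hba', Ne.symm hb'a, Ne.symm hb'a', Ne.symm hbt]
  obtain ⟨g, hg, g1, g2, g3, g4⟩ := nb_tr4 G hG a a' b (t b) a' a b (t b) hnd2 hnd2'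
  have gg : g * g = 1 := by
    apply fix4 (g * g) (G.mul_mem hg hg) [a, a', b, t b] hnd2 (le_refl _)
    intro x hx
    simp only [List.mem_cons, List.not_mem_nil, or_false] at hx
    rcases hx with rfl | rfl | rfl | rfl <;> simp [g1, g2, g3, g4]
  have g2' := invol g gg
  have gne : g ≠ 1 := by
    intro h
    rw [h] at g1
    exact haa g1
  have hu : t * g ∈ G := G.mul_mem ht hg
  have uu : (t * g) * (t * g) = 1 := by
    apply fix4 _ (G.mul_mem hu hu) [a, a', b, t b] hnd2 (le_refl _)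
    intro x hx
    simp only [List.mem_cons, List.not_mem_nil, or_false] at hx
    rcases hx with rfl | rfl | rfl | rfl <;> simp [g1, g2, g3, g4, t3, t4, t2']
  have u2' : ∀ x, t (g (t (g x))) = x := fun x => invol (t * g) uu x
  have une : t * g ≠ 1 := by
    intro h
    have := congrArg (fun w : Equiv.Perm α => w b) h
    simp only [Equiv.Perm.mul_apply, g3, Equiv.Perm.one_apply] at this
    exact hbt this
  have cardC : (nbFx (t * g)).card = 3 :=
    inv3 (t * g) hu une (invol _ uu) a a' haa (by simp [g1, t4]) (by simp [g2, t3])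
  have cardB : (nbFx g).card = 3 := inv3 g hg gne g2' b (t b) (Ne.symm hbt) g3 g4
  have comm : ∀ x, t (g x) = g (t x) := by
    intro x
    have h1 : g (t (g x)) = t x := by
      calc g (t (g x)) = t (t (g (t (g x)))) := (t2' _).symm
        _ = t x := by rw [u2' x]
    calc t (g x) = g (g (t (g x))) := (g2' _).symm
      _ = g (t x) := by rw [h1]
  -- the counting
  have hEven : Even (nbFx t \ nbFx g).card := by
    apply nb_even _ g g2'
    · intro x hx
      rw [Finset.mem_sdiff, nb_mem, nb_mem] at hx ⊢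
      refine ⟨by rw [comm, hx.1], fun h => hx.2 (g.injective h)⟩
    · intro x hx
      rw [Finset.mem_sdiff, nb_mem, nb_mem] at hx
      exact hx.2
  have hsplit := Finset.card_sdiff_add_card_inter (nbFx t) (nbFx g)
  have hD3 : (nbFx t ∩ nbFx g).card ≠ 3 := by
    intro h3
    have hEq : nbFx t ∩ nbFx g = nbFx g :=
      Finset.eq_of_subset_of_card_le Finset.inter_subset_right (by rw [h3, cardB])
    have hbB : b ∈ nbFx g := nb_mem.2 g3
    rw [← hEq, Finset.mem_inter, nb_mem] at hbB
    exact hbt hbB.1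
  have hD1 : (nbFx t ∩ nbFx g).card = 1 := by
    obtain ⟨r, hr⟩ := hEven
    omega
  have hABC : (nbFx t ∪ nbFx g) ∩ nbFx (t * g) = nbFx t ∩ nbFx g := by
    ext x
    simp only [Finset.mem_inter, Finset.mem_union, nb_mem, Equiv.Perm.mul_apply]
    constructor
    · rintro ⟨h1 | h1, h2⟩
      · refine ⟨h1, ?_⟩
        calc g x = t (t (g x)) := (t2' _).symm
          _ = t x := by rw [h2]
          _ = x := h1
      · refine ⟨?_, h1⟩
        rw [h1] at h2
        exact h2
    · rintro ⟨h1, h2⟩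
      exact ⟨Or.inl h1, by rw [h2, h1]⟩
  have hAB := Finset.card_union_add_card_inter (nbFx t) (nbFx g)
  have hABC' := Finset.card_union_add_card_inter (nbFx t ∪ nbFx g) (nbFx (t * g))
  rw [hABC] at hABC'
  have hR : ((nbFx t ∪ nbFx g) ∪ nbFx (t * g))ᶜ.card = 2 := by
    rw [Finset.card_compl, h9]
    omega
  have memR : ∀ x, x ∈ ((nbFx t ∪ nbFx g) ∪ nbFx (t * g))ᶜ ↔ t x ≠ x ∧ g x ≠ x ∧ t (g x) ≠ x := by
    intro x
    simp only [Finset.mem_compl, Finset.mem_union, nb_mem, Equiv.Perm.mul_apply, not_or]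
    tauto
  obtain ⟨c, hc⟩ : ((nbFx t ∪ nbFx g) ∪ nbFx (t * g))ᶜ.Nonempty := by
    rw [← Finset.card_pos, hR]; norm_num
  have hc' := (memR c).1 hc
  obtain ⟨c1, c2, c3⟩ := hc'
  by_cases hgt : g c = t c
  · apply c3
    rw [hgt, t2']
  · have m1 : t c ∈ ((nbFx t ∪ nbFx g) ∪ nbFx (t * g))ᶜ := by
      rw [memR]
      refine ⟨fun h => c1 (t.injective h), fun h => ?_, fun h => ?_⟩
      · rw [← comm] at h
        exact c2 (t.injective h)
      · rw [← comm, t2'] at h
        exact hgt h
    have m2 : g c ∈ ((nbFx t ∪ nbFx g) ∪ nbFx (t * g))ᶜ := by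
      rw [memR]
      refine ⟨fun h => ?_, fun h => c2 (g.injective h), fun h => ?_⟩
      · rw [comm] at h
        exact c1 (g.injective h)
      · rw [g2'] at h
        exact hgt h.symm
    have hs : ({c, t c, g c} : Finset α) ⊆ ((nbFx t ∪ nbFx g) ∪ nbFx (t * g))ᶜ := by
      intro z hz
      simp only [Finset.mem_insert, Finset.mem_singleton] at hz
      rcases hz with rfl | rfl | rfl
      · exact hc
      · exact m1
      · exact m2
    have h3 : ({c, t c, g c} : Finset α).card = 3 := by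
      rw [Finset.card_eq_three]
      exact ⟨c, t c, g c, Ne.symm c1, Ne.symm c2, Ne.symm hgt, rfl⟩
    have := Finset.card_le_card hs
    omega

end Cfsg.Agent.H93Mi
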