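import Cfsg.Agent.Lib.H93MiDefs
import Cfsg.Agent.Lib.H93MiCOrb
import Cfsg.Agent.Lib.H93MiCPow
import Cfsg.Agent.Lib.H93MiCComm
import Cfsg.Agent.Lib.H93MiCGen
import Cfsg.Agent.Lib.H93MiCLab
import Cfsg.Agent.Lib.H93MiKHom
import Cfsg.Agent.Lib.H93MiKPig
import Cfsg.Agent.Lib.H93MiKCard
import Cfsg.Agent.Lib.H93MiKAff
import Cfsg.Agent.Lib.H93MiKTT
import Cfsg.Agent.Lib.H93MiKDC
import Cfsg.Agent.Lib.H93MiKThree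
import Cfsg.Agent.Lib.H93MiKInd
import Cfsg.Agent.Lib.H93MiNineA
import Cfsg.Agent.Lib.H93MiNineB

/-! Project 4220 (row S4220): assemblies `cfg_ex`, `key`, `nine`. -/

set_option autoImplicit false
open scoped commutatorElement

namespace Cfsg.Agent.H93Mi

variable {α : Type*} [Fintype α] [DecidableEq α]

theorem cfg_ex (p : ℕ) [Fact p.Prime] (Q : Subgroup (Equiv.Perm α)) (Φ : Finset α)
    (hpQ : IsPGroup p Q) (hfix : ∀ q ∈ Q, ∀ a ∈ Φ, q a = a)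
    (hmov : ∀ a, a ∉ Φ → ∃ q ∈ Q, q a ≠ a)
    (hne : ∃ a, a ∉ Φ) (hlt : Fintype.card α < p * p + Φ.card) :
    ∃ (k : ℕ) (lab : α → Fin k), Cfg p k Q Φ lab ∧ Fintype.card α = k * p + Φ.card := by
  obtain ⟨k, lab, h1, h2, h3⟩ := cfg_lab p Q Φ hfix hne
    (fun a ha => orb_card p Q Φ hpQ hfix hlt a (hmov a ha))
  exact ⟨k, lab, ⟨hfix, hmov, h1, h2, cfg_pow p Q Φ hpQ hfix hlt, cfg_comm p Q Φ hpQ hfix hlt,
    cfg_gen p Q Φ hpQ hfix hlt⟩, h3⟩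

theorem key (p k : ℕ) [Fact p.Prime] (M Q : Subgroup (Equiv.Perm α)) (Φ : Finset α)
    (lab : α → Fin k) (hC : Cfg p k Q Φ lab)
    (hM : M ≤ Subgroup.normalizer (Q : Set (Equiv.Perm α)))
    (hAlt : alternatingGroup Φ ≤ Ind M Φ) (h5 : 5 ≤ Φ.card) (hk : k < Φ.card) :
    ∃ g ∈ M, g.IsThreeCycle := by
  obtain ⟨F, hF⟩ := orb_hom p k M Q Φ lab hC hM
  have hpig := pigeon M Φ F (card_lt k Φ hk h5) h5 hAlt
  obtain ⟨a₁, h₁, a₂, h₂, a₃, h₃, a₄, h₄, h3c⟩ := three_dc Φ (by simpa using h5)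
  obtain ⟨g₁, hg₁, e₁⟩ := hpig a₁ h₁
  obtain ⟨g₂, hg₂, e₂⟩ := hpig a₂ h₂
  obtain ⟨g₃, hg₃, e₃⟩ := hpig a₃ h₃
  obtain ⟨g₄, hg₄, e₄⟩ := hpig a₄ h₄
  refine ⟨⁅⁅(g₁ : Equiv.Perm α), (g₂ : Equiv.Perm α)⁆, ⁅(g₃ : Equiv.Perm α), (g₄ : Equiv.Perm α)⁆⁆,
    ?_, ?_⟩
  · have hc : ∀ a b : Equiv.Perm α, a ∈ M → b ∈ M → ⁅a, b⁆ ∈ M := fun a b ha hb => by
      rw [commutatorElement_def]
      exact M.mul_mem (M.mul_mem (M.mul_mem ha hb) (M.inv_mem ha)) (M.inv_mem hb)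
    exact hc _ _ (hc _ _ g₁.2 g₂.2) (hc _ _ g₃.2 g₄.2)
  · apply three_of_ind Φ _ _ h3c
      (ind_comm Φ _ _ _ _ (ind_comm Φ _ _ _ _ e₁ e₂) (ind_comm Φ _ _ _ _ e₃ e₄))
    exact trp_comm p k Q Φ lab hC _ _
      (comm_trp p k Q Φ lab hC _ _ (hM g₁.2) (hM g₂.2) (hF g₁ hg₁) (hF g₂ hg₂))
      (comm_trp p k Q Φ lab hC _ _ (hM g₃.2) (hM g₄.2) (hF g₃ hg₃) (hF g₄ hg₄))

theorem nine (G : Subgroup (Equiv.Perm α)) (h9 : Fintype.card α = 9) (hG : Tr G 4) :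
    alternatingGroup α ≤ G := by
  by_cases h : ∀ v ∈ G, v ≠ 1 → 6 ≤ v.support.card
  · exact (nine_b G h9 hG h).elim
  · push Not at h
    obtain ⟨v, hv, h1, hs⟩ := h
    exact nine_a G h9 hG v hv h1 (by omega)

end Cfsg.Agent.H93Mi
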