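import Cfsg.Agent.Lib.H93MiDefs
import Cfsg.Agent.Lib.H93MiSylConv

/-! Project 4220 (row S4220), piece Mov. -/

set_option autoImplicit false
open scoped commutatorElement

namespace Cfsg.Agent.H93Mi

variable {α : Type*} [Fintype α] [DecidableEq α]

/-- A Sylow `p`-subgroup `P` of `H = FxG G Δ` has no fixed point outside `Δ`.
`H` is transitive on the `k p` points outside `Δ` (from `hG`: enumerate `Δ` and add one point), so
`[H : H_a] = k p` is divisible by `p`; if `P` fixed `a` then `P ≤ H_a` and `p ∣ [H : P]`,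
contradicting `Sylow.not_dvd_index` (use `syl_conv`). -/
theorem mov (p : ℕ) [Fact p.Prime] (G P : Subgroup (Equiv.Perm α)) (Δ : Finset α) (k : ℕ)
    (hk : 1 ≤ k) (hn : Fintype.card α = k * p + Δ.card) (hG : Tr G (Δ.card + 1))
    (hP : SylFix p G P Δ) : ∀ a, a ∉ Δ → ∃ q ∈ P, q a ≠ a := by
  classical
  intro a ha
  by_contra hcon
  push Not at hcon
  obtain ⟨P', hP'⟩ := (syl_conv p G P Δ).1 hP
  -- the orbit of `a` under `H = FxG G Δ` is the complement of `Δ`
  have horb : MulAction.orbit (FxG G Δ) a = ((Δᶜ : Finset α) : Set α) := by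
    ext b
    constructor
    · rintro ⟨h, rfl⟩
      rw [Finset.mem_coe, Finset.mem_compl]
      intro hb
      have h1 : h.1 (h.1 a) = h.1 a := h.2.2 _ hb
      exact ha ((h.1.injective h1) ▸ hb)
    · intro hb
      rw [Finset.mem_coe, Finset.mem_compl] at hb
      have hinj : Function.Injective (fun i : Fin Δ.card => ((Δ.equivFin.symm i : Δ) : α)) :=
        Subtype.val_injective.comp Δ.equivFin.symm.injective
      have hnr : ∀ c, c ∉ Δ →
          c ∉ Set.range (fun i : Fin Δ.card => ((Δ.equivFin.symm i : Δ) : α)) := by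
        rintro c hc ⟨i, rfl⟩
        exact hc (Δ.equivFin.symm i).2
      obtain ⟨g, hgG, hg⟩ := hG
        ⟨Fin.cons a (fun i : Fin Δ.card => ((Δ.equivFin.symm i : Δ) : α)),
          Fin.cons_injective_iff.2 ⟨hnr a ha, hinj⟩⟩
        ⟨Fin.cons b (fun i : Fin Δ.card => ((Δ.equivFin.symm i : Δ) : α)),
          Fin.cons_injective_iff.2 ⟨hnr b hb, hinj⟩⟩
      have hga : g a = b := by
        have := hg 0
        simpa using this
      have hgΔ : ∀ c ∈ Δ, g c = c := by
        intro c hc
        have := hg (Fin.succ (Δ.equivFin ⟨c, hc⟩))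
        simpa using this
      exact ⟨⟨g, hgG, hgΔ⟩, hga⟩
  have hidx : (MulAction.stabilizer (FxG G Δ) a).index = k * p := by
    rw [MulAction.index_stabilizer, horb, Set.ncard_coe_finset, Finset.card_compl, hn]
    omega
  have hle : (P' : Subgroup (FxG G Δ)) ≤ MulAction.stabilizer (FxG G Δ) a := by
    intro x hx
    rw [MulAction.mem_stabilizer_iff]
    exact hcon x.1 (hP' ▸ ⟨x, hx, rfl⟩)
  have hd := Subgroup.index_dvd_of_le hle
  rw [hidx] at hd
  exact P'.not_dvd_index ((Dvd.intro_left k rfl).trans hd)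

end Cfsg.Agent.H93Mi
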