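import Cfsg.Agent.Lib.H93MiDefs

/-! Project 4220 (row S4220), piece MptInd. -/

set_option autoImplicit false
open scoped commutatorElement

namespace Cfsg.Agent.H93Mi

variable {α : Type*} [Fintype α] [DecidableEq α]

/-- If every element of `M` maps `Φ` into `Φ` and `M` is `t`-transitive on `Φ` (elementwise form),
then the induced group `Ind M Φ` is `t`-fold pretransitive on the type `Φ`. -/
theorem mpt_ind (M : Subgroup (Equiv.Perm α)) (Φ : Finset α) (t : ℕ)
    (hpres : ∀ g ∈ M, ∀ x ∈ Φ, g x ∈ Φ)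
    (h : ∀ a b : Fin t ↪ α, (∀ i, a i ∈ Φ) → (∀ i, b i ∈ Φ) → ∃ g ∈ M, ∀ i, g (a i) = b i) :
    MulAction.IsMultiplyPretransitive (Ind M Φ) Φ t := by
  rw [MulAction.isMultiplyPretransitive_iff]
  intro a b
  obtain ⟨g, hg, hgab⟩ := h (a.trans (Function.Embedding.subtype _))
    (b.trans (Function.Embedding.subtype _)) (fun i => (a i).2) (fun i => (b i).2)
  have hiff : ∀ x, x ∈ Φ ↔ g x ∈ Φ := by
    intro x
    refine ⟨hpres g hg x, fun hx => ?_⟩
    have := hpres g⁻¹ (M.inv_mem hg) (g x) hx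
    simpa using this
  let σ : Equiv.Perm Φ := g.subtypePerm (fun x => (hiff x).symm)
  have hσ : σ ∈ Ind M Φ := ⟨g, hg, fun x => rfl⟩
  refine ⟨⟨σ, hσ⟩, ?_⟩
  ext i
  exact hgab i

end Cfsg.Agent.H93Mi
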