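import Cfsg.Agent.Lib.H93MiDefs

/-! Project 4220 (row S4220), piece PCyc. -/

set_option autoImplicit false
open scoped commutatorElement

namespace Cfsg.Agent.H93Mi

variable {α : Type*} [Fintype α] [DecidableEq α]

/-- `orderOf q = p` (`orderOf_eq_prime`), `q.support ⊆ Δᶜ` has `≤ p < 2 p` elements:
`Equiv.Perm.isCycle_of_prime_order`; then `IsCycle.orderOf` gives `support.card = p`. -/
theorem pcyc (p : ℕ) [Fact p.Prime] (q : Equiv.Perm α) (Δ : Finset α)
    (hn : Fintype.card α = p + Δ.card) (hfix : ∀ a ∈ Δ, q a = a) (h1 : q ≠ 1) (hp : q ^ p = 1) :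
    q.IsCycle ∧ q.support.card = p := by
  have hpp : p.Prime := Fact.out
  have ho : orderOf q = p := orderOf_eq_prime hp h1
  have hsub : q.support ⊆ Δᶜ := by
    intro a ha
    rw [Finset.mem_compl]
    intro haΔ
    exact (Equiv.Perm.mem_support.mp ha) (hfix a haΔ)
  have hcard : q.support.card ≤ p := by
    have h2 := Finset.card_le_card hsub
    rw [Finset.card_compl] at h2
    omega
  have hcyc : q.IsCycle := by
    apply Equiv.Perm.isCycle_of_prime_order (ho ▸ hpp)
    rw [ho]
    have := hpp.pos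
    omega
  exact ⟨hcyc, by rw [← hcyc.orderOf, ho]⟩

end Cfsg.Agent.H93Mi
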