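import Cfsg.Agent.Lib.H93MiDefs

/-! Project 4220 (row S4220), piece SmA. -/

set_option autoImplicit false
open scoped commutatorElement

namespace Cfsg.Agent.H93Mi

variable {α : Type*} [Fintype α] [DecidableEq α]

theorem sm3a_fin : ∃ σ τ : Equiv.Perm (Fin 3), ⁅σ, τ⁆ ≠ 1 ∧ ⁅σ, τ⁆ ^ 3 = 1 :=
  ⟨Equiv.swap 0 1, Equiv.swap 1 2, by decide, by decide⟩

set_option maxRecDepth 100000 in
theorem sm4a_fin : ∃ σ₁ τ₁ σ₂ τ₂ : Equiv.Perm (Fin 4),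
    ⁅⁅σ₁, τ₁⁆, ⁅σ₂, τ₂⁆⁆ ≠ 1 ∧ ⁅⁅σ₁, τ₁⁆, ⁅σ₂, τ₂⁆⁆ ^ 2 = 1 :=
  ⟨Equiv.swap 0 1, Equiv.swap 1 2, Equiv.swap 1 2, Equiv.swap 2 3, by decide, by decide⟩

/-- Explicit permutations: transport from `Fin 3` / `Fin 4` (`decide` there) along
`Fintype.equivFinOfCardEq` with `Equiv.permCongr` / `(Equiv.permCongrHom _)` (a `MulEquiv`). -/
theorem sm3a (β : Type*) [Fintype β] [DecidableEq β] (h : Fintype.card β = 3) :
    ∃ σ τ : Equiv.Perm β, ⁅σ, τ⁆ ≠ 1 ∧ ⁅σ, τ⁆ ^ 3 = 1 := by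
  obtain ⟨σ, τ, h1, h2⟩ := sm3a_fin
  let e : Equiv.Perm (Fin 3) ≃* Equiv.Perm β := (Fintype.equivFinOfCardEq h).symm.permCongrHom
  refine ⟨e σ, e τ, ?_, ?_⟩
  · rw [← map_commutatorElement]
    intro h3
    exact h1 (e.injective (h3.trans (map_one e).symm))
  · rw [← map_commutatorElement, ← map_pow, h2, map_one]

theorem sm4a (β : Type*) [Fintype β] [DecidableEq β] (h : Fintype.card β = 4) :
    ∃ σ₁ τ₁ σ₂ τ₂ : Equiv.Perm β, ⁅⁅σ₁, τ₁⁆, ⁅σ₂, τ₂⁆⁆ ≠ 1 ∧ ⁅⁅σ₁, τ₁⁆, ⁅σ₂, τ₂⁆⁆ ^ 2 = 1 := by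
  obtain ⟨σ₁, τ₁, σ₂, τ₂, h1, h2⟩ := sm4a_fin
  let e : Equiv.Perm (Fin 4) ≃* Equiv.Perm β := (Fintype.equivFinOfCardEq h).symm.permCongrHom
  refine ⟨e σ₁, e τ₁, e σ₂, e τ₂, ?_, ?_⟩
  · rw [← map_commutatorElement, ← map_commutatorElement, ← map_commutatorElement]
    intro h3
    exact h1 (e.injective (h3.trans (map_one e).symm))
  · rw [← map_commutatorElement, ← map_commutatorElement, ← map_commutatorElement,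
      ← map_pow, h2, map_one]

end Cfsg.Agent.H93Mi
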