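import Cfsg.Agent.Lib.H93MiDefs

/-! Project 4220 (row S4220), piece SmB. -/

set_option autoImplicit false
open scoped commutatorElement

namespace Cfsg.Agent.H93Mi

variable {α : Type*} [Fintype α] [DecidableEq α]

theorem sm3b (a b : Equiv.Perm (Fin 2)) : ⁅a, b⁆ = 1 := by
  revert a b
  decide

theorem smb_even (x y : Equiv.Perm (Fin 3)) (hx : Equiv.Perm.sign x = 1) (hy : Equiv.Perm.sign y = 1) :
    ⁅x, y⁆ = 1 := by
  revert x y
  decide

theorem smb_sign (a b : Equiv.Perm (Fin 3)) : Equiv.Perm.sign ⁅a, b⁆ = 1 := by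
  rw [map_commutatorElement, commutatorElement_eq_one_iff_mul_comm]
  exact mul_comm _ _

theorem sm4b (k : ℕ) (hk : k ≤ 3) (a b c d : Equiv.Perm (Fin k)) : ⁅⁅a, b⁆, ⁅c, d⁆⁆ = 1 := by
  interval_cases k
  · exact Subsingleton.elim _ _
  · exact Subsingleton.elim _ _
  · rw [sm3b a b, commutatorElement_one_left]
  · exact smb_even _ _ (smb_sign a b) (smb_sign c d)

end Cfsg.Agent.H93Mi
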