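import Cfsg.Agent.Lib.H93MiDefs
import Cfsg.Agent.Lib.H93MiKHom
import Cfsg.Agent.Lib.H93MiKInd
import Cfsg.Agent.Lib.H93MiBCent
import Cfsg.Agent.Lib.H93MiBPow
import Cfsg.Agent.Lib.H93MiSmA
import Cfsg.Agent.Lib.H93MiSmB

/-! Project 4220 (row S4220), piece Sm3. -/

set_option autoImplicit false
open scoped commutatorElement

namespace Cfsg.Agent.H93Mi

variable {α : Type*} [Fintype α] [DecidableEq α]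

/-- `|Δ| = 3`, two orbits, `P = ⟨x₀⟩`, `p ≠ 3`.  `sm3a` on `Δ` gives `σ τ`; lifts `g h ∈ N`
(`hsurj`); `u = ⁅g, h⁆ ∈ N`.  `orb_hom` gives `F`; `F ⟨u,_⟩ = ⁅F g, F h⁆ = 1` (`sm3b`), so
`FixO P Δ u`: for `a ∉ Δ`, `u a = q a = x₀^i a` (`hgen`).  `u` commutes with `x₀` (`comm_cent`).
So `v = u ^ p` fixes every `a ∉ Δ` (`pow_fix`, `hC.pow`).  On `Δ`, `v` acts as `⁅σ, τ⁆ ^ p`
(`ind_comm`, `ind_pow`), which is `≠ 1` since `⁅σ,τ⁆ ^ 3 = 1`, `⁅σ,τ⁆ ≠ 1`, `Nat.Coprime p 3`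
(`orderOf` divides `gcd`).  Hence `v ≠ 1`. -/
theorem small3 (p : ℕ) [Fact p.Prime] (N P : Subgroup (Equiv.Perm α)) (Δ : Finset α)
    (lab : α → Fin 2) (hC : Cfg p 2 P Δ lab)
    (hN : N ≤ Subgroup.normalizer (P : Set (Equiv.Perm α)))
    (hsurj : ∀ σ : Equiv.Perm Δ, ∃ g ∈ N, ∀ x : Δ, g (x : α) = (σ x : α))
    (x₀ : Equiv.Perm α) (hx₀ : x₀ ∈ P) (hgen : ∀ q ∈ P, ∃ i : ℕ, q = x₀ ^ i)
    (hr : Δ.card = 3) (hp3 : p ≠ 3) : ∃ v ∈ N, v ≠ 1 ∧ ∀ a, a ∉ Δ → v a = a := by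
  obtain ⟨σ, τ, hne, h3⟩ := sm3a Δ (by rw [Fintype.card_coe]; exact hr)
  obtain ⟨g, hg, hgσ⟩ := hsurj σ
  obtain ⟨h, hh, hhτ⟩ := hsurj τ
  have hu : ⁅g, h⁆ ∈ N := by
    rw [commutatorElement_def]
    exact N.mul_mem (N.mul_mem (N.mul_mem hg hh) (N.inv_mem hg)) (N.inv_mem hh)
  obtain ⟨F, hF⟩ := orb_hom p 2 N P Δ lab hC hN
  have hFu : F ⟨⁅g, h⁆, hu⟩ = 1 := by
    have h1 : (⟨⁅g, h⁆, hu⟩ : N) = ⁅(⟨g, hg⟩ : N), ⟨h, hh⟩⁆ := Subtype.ext rfl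
    rw [h1, map_commutatorElement]
    exact sm3b _ _
  have hfix : FixO P Δ ⁅g, h⁆ := hF ⟨_, hu⟩ hFu
  have hcomm : ⁅g, h⁆ * x₀ = x₀ * ⁅g, h⁆ := comm_cent P x₀ hx₀ hgen g h (hN hg) (hN hh)
  refine ⟨⁅g, h⁆ ^ p, N.pow_mem hu p, ?_, ?_⟩
  · intro h1
    have h2 := ind_pow Δ ⁅g, h⁆ ⁅σ, τ⁆ (ind_comm Δ g h σ τ hgσ hhτ) p
    have h4 : ⁅σ, τ⁆ ^ p = 1 := by
      ext x
      have h5 := h2 x
      rw [h1] at h5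
      simpa using h5.symm
    have h5 : orderOf ⁅σ, τ⁆ ∣ p := orderOf_dvd_of_pow_eq_one h4
    have h6 : orderOf ⁅σ, τ⁆ ∣ 3 := orderOf_dvd_of_pow_eq_one h3
    have h7 : Nat.Coprime p 3 := (Nat.coprime_primes Fact.out Nat.prime_three).2 hp3
    have h8 : orderOf ⁅σ, τ⁆ = 1 := Nat.eq_one_of_dvd_coprimes h7 h5 h6
    exact hne (orderOf_eq_one_iff.1 h8)
  · intro a ha
    obtain ⟨q, hq, hqa⟩ := hfix a ha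
    obtain ⟨i, rfl⟩ := hgen q hq
    exact pow_fix x₀ ⁅g, h⁆ p (hC.pow x₀ hx₀) hcomm a i hqa

end Cfsg.Agent.H93Mi
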