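import Cfsg.Agent.Lib.H93MiDefs

/-! Project 4220 (row S4220), piece Stab. -/

set_option autoImplicit false
open scoped commutatorElement

namespace Cfsg.Agent.H93Mi

variable {α : Type*} [Fintype α] [DecidableEq α]

theorem stab (p : ℕ) (G P : Subgroup (Equiv.Perm α)) (S : Finset α) (h : SylFix p G ⊥ S)
    (hP : P ≤ G) (hpP : IsPGroup p P) (q : Equiv.Perm α) (hq : q ∈ P)
    (hfix : ∀ a ∈ S, q a = a) : q = 1 := by
  have hle : Subgroup.zpowers q ≤ P := by rw [Subgroup.zpowers_le]; exact hq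
  have := h.2.2.2 (Subgroup.zpowers q) (hle.trans hP)
    (by
      intro y hy a ha
      obtain ⟨k, rfl⟩ := Subgroup.mem_zpowers_iff.mp hy
      exact Equiv.Perm.zpow_apply_eq_self_of_apply_eq_self (hfix a ha) k)
    (hpP.to_le hle) bot_le
  exact Subgroup.zpowers_eq_bot.mp this

end Cfsg.Agent.H93Mi
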