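import Cfsg.Agent.Lib.H93MiDefs
import Cfsg.Agent.Lib.H93MiSylConv

/-! Project 4220 (row S4220), piece SylEx. -/

set_option autoImplicit false
open scoped commutatorElement

namespace Cfsg.Agent.H93Mi

variable {α : Type*} [Fintype α] [DecidableEq α]

/-- Every `p`-subgroup `R` of the pointwise stabiliser of `S` in `G` lies in a Sylow `p`-subgroup
of it.  (`IsPGroup.exists_le_sylow` in the group `FxG G S` + `syl_conv`; or directly: take a
`p`-subgroup of maximal order among those containing `R`.) -/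
theorem syl_ex (p : ℕ) [Fact p.Prime] (G R : Subgroup (Equiv.Perm α)) (S : Finset α)
    (hR : R ≤ G) (hfix : ∀ q ∈ R, ∀ a ∈ S, q a = a) (hp : IsPGroup p R) :
    ∃ P, SylFix p G P S ∧ R ≤ P := by
  have hRF : R ≤ FxG G S := fun q hq => ⟨hR hq, hfix q hq⟩
  obtain ⟨P, hP⟩ := (hp.comap_subtype (K := FxG G S)).exists_le_sylow
  refine ⟨(P : Subgroup (FxG G S)).map (FxG G S).subtype, (syl_conv p G _ S).2 ⟨P, rfl⟩, ?_⟩
  intro q hq
  exact ⟨⟨q, hRF hq⟩, hP (Subgroup.mem_subgroupOf.2 hq), rfl⟩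

end Cfsg.Agent.H93Mi
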