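import Cfsg.Agent.Lib.H93MiDefs

/-! Project 4220 (row S4220), piece TrOf. -/

set_option autoImplicit false
open scoped commutatorElement

namespace Cfsg.Agent.H93Mi

variable {α : Type*} [Fintype α] [DecidableEq α]

/-- Unfold: `h.exists_smul_eq x y` gives `g : G` with `g • x = y`; evaluate at `i`. -/
theorem tr_of (G : Subgroup (Equiv.Perm α)) (t : ℕ)
    (h : MulAction.IsMultiplyPretransitive G α t) : Tr G t := by
  intro x y
  obtain ⟨g, hg⟩ := h.exists_smul_eq x y
  refine ⟨g, g.2, fun i => ?_⟩
  have h1 : g • x i = y i := by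
    have := congrArg (fun f : Fin t ↪ α => f i) hg
    simpa using this
  exact h1

end Cfsg.Agent.H93Mi
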