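import Cfsg.Agent.Lib.H93MiDefs
import Cfsg.Agent.Lib.H93MiSylConv
import Cfsg.Agent.S4219
import Cfsg.Agent.Lib.Helper66Coprime

/-! Project 4220 (row S4220), piece Witt. -/

set_option autoImplicit false
open scoped commutatorElement

namespace Cfsg.Agent.H93Mi

variable {α : Type*} [Fintype α] [DecidableEq α]

theorem witt_conj (p : ℕ) [Fact p.Prime] (G Q Q' : Subgroup (Equiv.Perm α)) (S : Finset α)
    (hQ : SylFix p G Q S) (hQ'G : Q' ≤ G) (hQ'fix : ∀ q ∈ Q', ∀ a ∈ S, q a = a)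
    (hQ'p : IsPGroup p Q') (hcard : Nat.card Q' = Nat.card Q) :
    ∃ h ∈ FxG G S, ∀ q, q ∈ Q' ↔ h⁻¹ * q * h ∈ Q := by
  obtain ⟨P, hP⟩ := (syl_conv p G Q S).1 hQ
  have hQ'F : Q' ≤ FxG G S := fun q hq => ⟨hQ'G hq, hQ'fix q hq⟩
  obtain ⟨P', hP'⟩ := (hQ'p.comap_subtype (K := FxG G S)).exists_le_sylow
  have hc1 : Nat.card P' = Nat.card P := by
    rw [Sylow.card_eq_multiplicity, Sylow.card_eq_multiplicity]
  have hc2 : Nat.card (Q'.subgroupOf (FxG G S)) = Nat.card Q' :=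
    Nat.card_congr (Subgroup.subgroupOfEquivOfLe hQ'F).toEquiv
  have hc3 : Nat.card Q = Nat.card P := by
    rw [← hP]
    exact Subgroup.card_map_of_injective (Subgroup.subtype_injective _)
  have hEq : Q'.subgroupOf (FxG G S) = (P' : Subgroup (FxG G S)) :=
    Subgroup.eq_of_le_of_card_ge hP' (by rw [hc2, hcard, hc3]; exact hc1.le)
  obtain ⟨h, hh⟩ := MulAction.exists_smul_eq (FxG G S) P P'
  refine ⟨h, h.2, fun q => ?_⟩
  constructor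
  · intro hq
    have h1 : (⟨q, hQ'F hq⟩ : FxG G S) ∈ (P' : Subgroup (FxG G S)) := by
      rw [← hEq]
      exact Subgroup.mem_subgroupOf.2 hq
    have h2 : (⟨q, hQ'F hq⟩ : FxG G S) ∈ h • P := by rw [hh]; exact h1
    rw [Cfsg.Agent.Lib.Helper66Coprime.sylow_mem_conj_smul_iff] at h2
    rw [← hP]
    exact ⟨_, h2, rfl⟩
  · intro hq
    rw [← hP] at hq
    obtain ⟨y, hy, hyq⟩ := hq
    have hyq' : (y : Equiv.Perm α) = (h : Equiv.Perm α)⁻¹ * q * h := hyq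
    have hq1 : q = ((h * y * h⁻¹ : FxG G S) : Equiv.Perm α) := by
      show q = (h : Equiv.Perm α) * (y : Equiv.Perm α) * (h : Equiv.Perm α)⁻¹
      rw [hyq']
      group
    have h2 : (h * y * h⁻¹ : FxG G S) ∈ h • P := by
      rw [Cfsg.Agent.Lib.Helper66Coprime.sylow_mem_conj_smul_iff]
      have e : h⁻¹ * (h * y * h⁻¹) * h = y := by group
      rw [e]
      exact hy
    rw [hh] at h2
    have h3 : (h * y * h⁻¹ : FxG G S) ∈ Q'.subgroupOf (FxG G S) := by rw [hEq]; exact h2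
    rw [hq1]
    exact Subgroup.mem_subgroupOf.1 h3

theorem witt_key (p : ℕ) [Fact p.Prime] (G Q : Subgroup (Equiv.Perm α)) (t : ℕ) (hG : Tr G t)
    (x : Fin t ↪ α) (S : Finset α) (hS : ∀ a, a ∈ S ↔ ∃ i, x i = a) (hQ : SylFix p G Q S)
    (a : Fin t ↪ α) (ha : ∀ i, ∀ q ∈ Q, q (a i) = a i) :
    ∃ n ∈ NG G Q, ∀ i, n (x i) = a i := by
  obtain ⟨g₁, hg₁, hga⟩ := hG x a
  have hmem : ∀ q', q' ∈ Q.map (MulAut.conj g₁⁻¹).toMonoidHom ↔ g₁ * q' * g₁⁻¹ ∈ Q := by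
    intro q'
    constructor
    · rintro ⟨q, hq, rfl⟩
      have e : g₁ * ((MulAut.conj g₁⁻¹).toMonoidHom q) * g₁⁻¹ = q := by
        show g₁ * (g₁⁻¹ * q * g₁⁻¹⁻¹) * g₁⁻¹ = q
        group
      rw [e]
      exact hq
    · intro hq
      refine ⟨_, hq, ?_⟩
      show g₁⁻¹ * (g₁ * q' * g₁⁻¹) * g₁⁻¹⁻¹ = q'
      group
  obtain ⟨h, hhF, hh⟩ := witt_conj p G Q (Q.map (MulAut.conj g₁⁻¹).toMonoidHom) S hQ
    (by
      intro q' hq'
      have h1 := hQ.1 ((hmem q').1 hq')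
      have e : q' = g₁⁻¹ * (g₁ * q' * g₁⁻¹) * g₁ := by group
      rw [e]
      exact mul_mem (mul_mem (inv_mem hg₁) h1) hg₁)
    (by
      intro q' hq' s hs
      obtain ⟨i, rfl⟩ := (hS s).1 hs
      have h1 := ha i _ ((hmem q').1 hq')
      rw [Equiv.Perm.mul_apply, Equiv.Perm.mul_apply, ← hga i] at h1
      have e : g₁⁻¹ (g₁ (x i)) = x i := g₁.symm_apply_apply (x i)
      rw [e] at h1
      exact g₁.injective h1)
    (hQ.2.2.1.map _)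
    (Subgroup.card_map_of_injective (MulAut.conj g₁⁻¹).injective)
  refine ⟨g₁ * h, ⟨mul_mem hg₁ hhF.1, ?_⟩, ?_⟩
  · show g₁ * h ∈ Subgroup.normalizer (Q : Set (Equiv.Perm α))
    rw [Subgroup.mem_normalizer_iff]
    intro q
    have h1 := hh (h * q * h⁻¹)
    rw [hmem] at h1
    have e1 : g₁ * (h * q * h⁻¹) * g₁⁻¹ = g₁ * h * q * (g₁ * h)⁻¹ := by group
    have e2 : h⁻¹ * (h * q * h⁻¹) * h = q := by group
    rw [e1, e2] at h1
    exact h1.symm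
  · intro i
    rw [Equiv.Perm.mul_apply, hhF.2 (x i) ((hS _).2 ⟨i, rfl⟩), hga i]

/-- Witt's lemma = landed row `Cfsg.Agent.S4219.result` (import it), in our vocabulary.
Either transport (`G` acts on `α`; `MulAction.stabilizer G x` for `x : Fin t ↪ α` corresponds to
`FxG G S`), or reprove directly: by `hG` take `g₁ ∈ G` with `g₁ ∘ x = a`; `g₁⁻¹ Q g₁` is a
`p`-subgroup of `FxG G S` of the same order as `Q`, hence Sylow, hence `= h₁⁻¹ Q h₁` with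
`h₁ ∈ FxG G S` (`syl_conv` + Sylow conjugacy); `n₁ = g₁ h₁⁻¹` normalises `Q` and `n₁ ∘ x = a`.
Same for `b`; answer `n₂ n₁⁻¹`. -/
theorem witt (p : ℕ) [Fact p.Prime] (G Q : Subgroup (Equiv.Perm α)) (t : ℕ) (hG : Tr G t)
    (x : Fin t ↪ α) (S : Finset α) (hS : ∀ a, a ∈ S ↔ ∃ i, x i = a) (hQ : SylFix p G Q S)
    (a b : Fin t ↪ α) (ha : ∀ i, ∀ q ∈ Q, q (a i) = a i) (hb : ∀ i, ∀ q ∈ Q, q (b i) = b i) :
    ∃ g ∈ NG G Q, ∀ i, g (a i) = b i := by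
  obtain ⟨n₁, hn₁, h₁⟩ := witt_key p G Q t hG x S hS hQ a ha
  obtain ⟨n₂, hn₂, h₂⟩ := witt_key p G Q t hG x S hS hQ b hb
  refine ⟨n₂ * n₁⁻¹, mul_mem hn₂ (inv_mem hn₁), fun i => ?_⟩
  have e : n₁⁻¹ (n₁ (x i)) = x i := n₁.symm_apply_apply (x i)
  rw [Equiv.Perm.mul_apply, ← h₁ i, e, h₂ i]

end Cfsg.Agent.H93Mi
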