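import Cfsg.Agent.Lib.H93MiKey
import Cfsg.Agent.Lib.H93MiTrOf
import Cfsg.Agent.Lib.H93MiTrLe
import Cfsg.Agent.Lib.H93MiPrim
import Cfsg.Agent.Lib.H93MiMptInd
import Cfsg.Agent.Lib.H93MiIndTop
import Cfsg.Agent.Lib.H93MiNGpres
import Cfsg.Agent.Lib.H93MiSylEx
import Cfsg.Agent.Lib.H93MiWitt
import Cfsg.Agent.Lib.H93MiMov
import Cfsg.Agent.Lib.H93MiSS
import Cfsg.Agent.Lib.H93MiFin
import Cfsg.Agent.Lib.H93MiPCyc
import Cfsg.Agent.Lib.H93MiSm3
import Cfsg.Agent.Lib.H93MiSm4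
import Cfsg.Agent.Lib.H93MiGen
import Cfsg.Agent.Lib.H93MiStab
import Cfsg.Agent.S0713

/-! Project 4220 (row S4220): the main induction. -/

set_option autoImplicit false
open scoped commutatorElement

namespace Cfsg.Agent.H93Mi

universe u

theorem fin3 {α : Type*} [Fintype α] [DecidableEq α] (G : Subgroup (Equiv.Perm α))
    (hprim : MulAction.IsPreprimitive G α) (g : Equiv.Perm α) (hg : g ∈ G)
    (h3 : g.IsThreeCycle) : alternatingGroup α ≤ G := by
  have hc : g.support.card = 3 := h3.card_support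
  refine fin G hprim g hg ?_ (by omega)
  rintro rfl
  simp at hc

theorem main : ∀ (k : ℕ) {α : Type u} [Fintype α] [DecidableEq α] (G : Subgroup (Equiv.Perm α))
    (p r : ℕ) (_ : p.Prime) (_ : Fintype.card α = k * p + r) (_ : 1 ≤ k) (_ : k < p)
    (_ : k < r) (_ : ¬ (k = 1 ∧ r = 2)) (_ : MulAction.IsMultiplyPretransitive G α (r + 1)),
    alternatingGroup α ≤ G := by
  intro k
  induction k using Nat.strong_induction_on with
  | _ k IH =>
  intro α _ _ G p r hp hn hk hpk hrk hex hG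
  have : Fact p.Prime := ⟨hp⟩
  have hT1 : Tr G (r + 1) := tr_of G _ hG
  have hkp : 1 ≤ k * p := Nat.mul_pos hk hp.pos
  have hcard : r + 1 ≤ Fintype.card α := by omega
  have hTr : Tr G r := tr_le G r (r + 1) (by omega) hcard hT1
  have hT2 : Tr G 2 := tr_le G 2 (r + 1) (by omega) hcard hT1
  have hprim := prim G hT2
  obtain ⟨x⟩ : Nonempty (Fin (r + 1) ↪ α) :=
    Function.Embedding.nonempty_of_card_le (by simpa using hcard)
  -- the `r` points
  obtain ⟨Δ, hΔc, γ, hγ, S, hS, hSΔ⟩ : ∃ Δ : Finset α, Δ.card = r ∧ ∃ γ, γ ∉ Δ ∧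
      ∃ S : Finset α, (∀ a, a ∈ S ↔ ∃ i, x i = a) ∧ (∀ a, a ∈ S ↔ a ∈ Δ ∨ a = γ) := by
    refine ⟨Finset.univ.map (Fin.castSuccEmb.trans x), by simp, x (Fin.last r), ?_,
      Finset.univ.map x, by simp, ?_⟩
    · simp only [Finset.mem_map, Finset.mem_univ, true_and, not_exists]
      intro i hi
      have := x.injective hi
      exact absurd this (Fin.castSucc_lt_last i).ne
    · intro a
      simp only [Finset.mem_map, Finset.mem_univ, true_and]
      constructor
      · rintro ⟨i, rfl⟩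
        induction i using Fin.lastCases with
        | last => right; rfl
        | cast j => left; exact ⟨j, rfl⟩
      · rintro (⟨j, rfl⟩ | rfl)
        · exact ⟨_, rfl⟩
        · exact ⟨_, rfl⟩
  have hkpp : k * p < p * p := Nat.mul_lt_mul_of_pos_right hpk hp.pos
  obtain ⟨P, hP, -⟩ := syl_ex p G ⊥ Δ bot_le
    (by intro q hq a _; rw [Subgroup.mem_bot.1 hq]; rfl) IsPGroup.of_bot
  have hPmov := mov p G P Δ k hk (by rw [hΔc]; exact hn) (by rw [hΔc]; exact hT1) hP
  have hPfix := hP.2.1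
  obtain ⟨k1, lab, hC, hn1⟩ := cfg_ex p P Δ hP.2.2.1 hPfix hPmov ⟨γ, hγ⟩ (by rw [hn, hΔc]; omega)
  have hk1 : k1 = k := by
    rw [hn, hΔc] at hn1
    exact (Nat.eq_of_mul_eq_mul_right hp.pos (by omega : k * p = k1 * p)).symm
  subst hk1
  have hTΔ : Tr G Δ.card := by rw [hΔc]; exact hTr
  have hW : ∀ a b : Fin Δ.card ↪ α, (∀ i, a i ∈ Δ) → (∀ i, b i ∈ Δ) →
      ∃ g ∈ NG G P, ∀ i, g (a i) = b i := by
    intro a b ha hb
    refine witt p G P Δ.card hTΔ
      (Δ.equivFin.symm.toEmbedding.trans (Function.Embedding.subtype _)) Δ ?_ hP a b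
      (fun i q hq => hPfix q hq _ (ha i)) (fun i q hq => hPfix q hq _ (hb i))
    intro c
    constructor
    · intro hc
      exact ⟨Δ.equivFin ⟨c, hc⟩, by simp⟩
    · rintro ⟨i, rfl⟩
      simp
  by_cases hk1 : k1 = 1
  · subst hk1
    obtain ⟨q, hq, hqγ⟩ := hPmov γ hγ
    have hcy := pcyc p q Δ (by rw [hn, hΔc]; ring) (hPfix q hq) (by rintro rfl; exact hqγ rfl)
      (hC.pow q hq)
    have hp2 := hp.two_le
    exact Cfsg.Agent.S0713.result G hprim hp (by omega) (by omega) hcy.1 hcy.2 (hP.1 hq)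
  have hk2 : 2 ≤ k1 := by omega
  have hsurj := ind_top (NG G P) Δ hW
  by_cases hr5 : 5 ≤ r
  · obtain ⟨g, hg, h3⟩ := key p k1 (NG G P) P Δ lab hC inf_le_right (fun σ _ => hsurj σ)
      (by omega) (by omega)
    exact fin3 G hprim g hg.1 h3
  obtain ⟨Q, hQ, -⟩ := syl_ex p G ⊥ S bot_le
    (by intro q hq a _; rw [Subgroup.mem_bot.1 hq]; rfl) IsPGroup.of_bot
  by_cases hQ1 : Q = ⊥
  · subst hQ1
    have hst : ∀ q ∈ P, q γ = γ → q = 1 := fun q hq h =>
      stab p G P S hQ hP.1 hP.2.2.1 q hq (by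
        intro a ha
        rcases (hSΔ a).1 ha with h' | rfl
        · exact hPfix q hq a h'
        · exact h)
    obtain ⟨x₀, hx₀, hgen⟩ := gen p k1 P Δ lab hC γ hγ hst
    by_cases h9 : p = 3 ∧ r = 3
    · obtain ⟨rfl, rfl⟩ := h9
      have : k1 = 2 := by omega
      subst this
      exact nine G (by rw [hn]) hT1
    · have hv : ∃ v ∈ NG G P, v ≠ 1 ∧ ∀ a, a ∉ Δ → v a = a := by
        have hr34 : r = 3 ∨ r = 4 := by omega
        rcases hr34 with rfl | rfl
        · have : k1 = 2 := by omega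
          subst this
          exact small3 p (NG G P) P Δ lab hC inf_le_right hsurj x₀ hx₀ hgen hΔc (by tauto)
        · exact small4 p k1 (NG G P) P Δ lab hC inf_le_right hsurj x₀ hx₀ hgen (by omega) hΔc
            (by omega)
      obtain ⟨v, hv, h1, hf⟩ := hv
      obtain ⟨w, hw, hw1, hws⟩ := ss G Δ hTΔ (by omega) v hv.1 h1 hf
      exact fin G hprim w hw hw1 hws
  · -- `Q ≠ 1`: induction
    have : DecidablePred (fun a : α => ∀ q ∈ Q, q a = a) := fun _ => Classical.propDecidable _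
    obtain ⟨Φ, hΦ⟩ : ∃ Φ : Finset α, ∀ a, a ∈ Φ ↔ ∀ q ∈ Q, q a = a :=
      ⟨Finset.univ.filter (fun a : α => ∀ q ∈ Q, q a = a), by simp⟩
    have hfix : ∀ q ∈ Q, ∀ a ∈ Φ, q a = a := fun q hq a ha => (hΦ a).1 ha q hq
    have hmov : ∀ a, a ∉ Φ → ∃ q ∈ Q, q a ≠ a := by
      intro a ha
      rw [hΦ] at ha
      push Not at ha
      exact ha
    have hSΦ : S ⊆ Φ := fun a ha => (hΦ a).2 (fun q hq => hQ.2.1 q hq a ha)
    have hSc : S.card = r + 1 := by
      have : S = insert γ Δ := by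
        ext a
        rw [hSΔ, Finset.mem_insert]
        tauto
      rw [this, Finset.card_insert_of_notMem hγ, hΔc]
    have hΦc : r + 1 ≤ Φ.card := hSc ▸ Finset.card_le_card hSΦ
    have hne : ∃ a, a ∉ Φ := by
      by_contra hcon
      push Not at hcon
      apply hQ1
      rw [eq_bot_iff]
      intro q hq
      rw [Subgroup.mem_bot]
      ext a
      exact hfix q hq a (hcon a)
    obtain ⟨k', lab', hC', hn'⟩ := cfg_ex p Q Φ hQ.2.2.1 hfix hmov hne (by omega)
    obtain ⟨a0, ha0⟩ := hne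
    have hk'pos : 1 ≤ k' := (lab' a0).pos
    have hk'lt : k' < k1 := by
      have : k' * p < k1 * p := by omega
      exact Nat.lt_of_mul_lt_mul_right this
    obtain ⟨j, rfl⟩ : ∃ j, k1 = k' + j := ⟨k1 - k', by omega⟩
    have hΦj : Φ.card = j * p + r := by
      rw [Nat.add_mul] at hn
      omega
    have hmpt : MulAction.IsMultiplyPretransitive (Ind (NG G Q) Φ) Φ (r + 1) :=
      mpt_ind (NG G Q) Φ (r + 1) (fun g hg y hy => (ng_pres Q Φ hfix hmov g hg.2 y).2 hy)
        (fun a b ha hb => witt p G Q (r + 1) hT1 x S hS hQ a b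
          (fun i q hq => hfix q hq _ (ha i)) (fun i q hq => hfix q hq _ (hb i)))
    have hAlt := IH j (by omega) (Ind (NG G Q) Φ) p r hp (by simpa using hΦj) (by omega) (by omega)
      (by omega) (by omega) hmpt
    have hjp : p ≤ j * p := Nat.le_mul_of_pos_left p (by omega)
    obtain ⟨g, hg, h3⟩ := key p k' (NG G Q) Q Φ lab' hC' inf_le_right hAlt (by omega) (by omega)
    exact fin3 G hprim g hg.1 h3

end Cfsg.Agent.H93Mi
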