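import Cfsg.Agent.Lib.H93MiDefs
import Cfsg.Agent.Lib.H93MiKHom
import Cfsg.Agent.Lib.H93MiKInd
import Cfsg.Agent.Lib.H93MiBCent
import Cfsg.Agent.Lib.H93MiBPow
import Cfsg.Agent.Lib.H93MiSmA
import Cfsg.Agent.Lib.H93MiSmB

/-! Project 4220 (row S4220), piece Sm4. -/

set_option autoImplicit false
open scoped commutatorElement

namespace Cfsg.Agent.H93Mi

variable {α : Type*} [Fintype α] [DecidableEq α]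

/-- `|Δ| = 4`, `k ≤ 3` orbits, `P = ⟨x₀⟩`, `p` odd. -/
theorem small4 (p k : ℕ) [Fact p.Prime] (N P : Subgroup (Equiv.Perm α)) (Δ : Finset α)
    (lab : α → Fin k) (hC : Cfg p k P Δ lab)
    (hN : N ≤ Subgroup.normalizer (P : Set (Equiv.Perm α)))
    (hsurj : ∀ σ : Equiv.Perm Δ, ∃ g ∈ N, ∀ x : Δ, g (x : α) = (σ x : α))
    (x₀ : Equiv.Perm α) (hx₀ : x₀ ∈ P) (hgen : ∀ q ∈ P, ∃ i : ℕ, q = x₀ ^ i)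
    (hk : k ≤ 3) (hr : Δ.card = 4) (hp2 : p ≠ 2) : ∃ v ∈ N, v ≠ 1 ∧ ∀ a, a ∉ Δ → v a = a := by
  obtain ⟨σ₁, τ₁, σ₂, τ₂, hne, hsq⟩ := sm4a Δ (by simpa using hr)
  obtain ⟨g₁, hg₁, hg₁'⟩ := hsurj σ₁
  obtain ⟨h₁, hh₁, hh₁'⟩ := hsurj τ₁
  obtain ⟨g₂, hg₂, hg₂'⟩ := hsurj σ₂
  obtain ⟨h₂, hh₂, hh₂'⟩ := hsurj τ₂
  obtain ⟨F, hF⟩ := orb_hom p k N P Δ lab hC hN
  have hc1 : ⁅g₁, h₁⁆ ∈ N := by
    rw [commutatorElement_def]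
    exact N.mul_mem (N.mul_mem (N.mul_mem hg₁ hh₁) (N.inv_mem hg₁)) (N.inv_mem hh₁)
  have hc2 : ⁅g₂, h₂⁆ ∈ N := by
    rw [commutatorElement_def]
    exact N.mul_mem (N.mul_mem (N.mul_mem hg₂ hh₂) (N.inv_mem hg₂)) (N.inv_mem hh₂)
  set u : Equiv.Perm α := ⁅⁅g₁, h₁⁆, ⁅g₂, h₂⁆⁆ with hu
  have huN : u ∈ N := by
    rw [hu, commutatorElement_def]
    exact N.mul_mem (N.mul_mem (N.mul_mem hc1 hc2) (N.inv_mem hc1)) (N.inv_mem hc2)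
  have hFu : F ⟨u, huN⟩ = 1 := by
    have : (⟨u, huN⟩ : N) = ⁅⁅(⟨g₁, hg₁⟩ : N), (⟨h₁, hh₁⟩ : N)⁆, ⁅(⟨g₂, hg₂⟩ : N), (⟨h₂, hh₂⟩ : N)⁆⁆ := by
      apply Subtype.ext
      simp [hu, commutatorElement_def]
    rw [this, map_commutatorElement, map_commutatorElement, map_commutatorElement]
    exact sm4b k hk _ _ _ _
  have hfo : FixO P Δ u := hF ⟨u, huN⟩ hFu
  have hcomm : u * x₀ = x₀ * u := comm_cent P x₀ hx₀ hgen _ _ (hN hc1) (hN hc2)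
  refine ⟨u ^ p, N.pow_mem huN p, ?_, ?_⟩
  · intro h1
    have hind : ∀ x : Δ, (u ^ p) (x : α) = ((⁅⁅σ₁, τ₁⁆, ⁅σ₂, τ₂⁆⁆ ^ p) x : α) :=
      ind_pow Δ u _ (ind_comm Δ _ _ _ _ (ind_comm Δ _ _ _ _ hg₁' hh₁')
        (ind_comm Δ _ _ _ _ hg₂' hh₂')) p
    have hodd : Odd p := (Fact.out : p.Prime).odd_of_ne_two hp2
    obtain ⟨m, hm⟩ := hodd
    have hwp : ⁅⁅σ₁, τ₁⁆, ⁅σ₂, τ₂⁆⁆ ^ p = ⁅⁅σ₁, τ₁⁆, ⁅σ₂, τ₂⁆⁆ := by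
      rw [hm, pow_succ, pow_mul, hsq, one_pow, one_mul]
    apply hne
    ext x
    have := hind x
    rw [h1, hwp] at this
    simpa using this.symm
  · intro a ha
    obtain ⟨q, hq, hqa⟩ := hfo a ha
    obtain ⟨i, hi⟩ := hgen q hq
    exact pow_fix x₀ u p (hC.pow x₀ hx₀) hcomm a i (by rw [hqa, hi])

end Cfsg.Agent.H93Mi
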