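import Cfsg.Agent.Lib.Helper93SCDefs

set_option autoImplicit false
open Cfsg Cfsg.Agent.Helper93SCDefs

namespace Cfsg.Agent.H93SCAct

/-- PIECE Act.  `U = ⟨u⟩` cyclic normal of order `p^n` with `C_G(U) = U`: the action data. -/
theorem exists_dat {G : Type*} [Group G] [Finite G] {p : ℕ} [Fact p.Prime] (U : Subgroup G) [hUn' : U.Normal]
    (hU : IsCyclic U) (n : ℕ) (hUn : Nat.card U = p ^ n)
    (hC : Subgroup.centralizer (U : Set G) = U) : Nonempty (Dat G p n U) := by
  classical
  obtain ⟨⟨u, huU⟩, hgen⟩ := hU.exists_generator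
  have hUz : U = Subgroup.zpowers u := by
    apply le_antisymm
    · intro x hx
      obtain ⟨j, hj⟩ := Subgroup.mem_zpowers_iff.mp (hgen ⟨x, hx⟩)
      refine Subgroup.mem_zpowers_iff.mpr ⟨j, ?_⟩
      have := congrArg Subtype.val hj
      simpa using this
    · exact Subgroup.zpowers_le.mpr huU
  have hu : orderOf u = p ^ n := by rw [← Nat.card_zpowers, ← hUz, hUn]
  have hu1 : u ^ (p ^ n) = 1 := by rw [← hu]; exact pow_orderOf_eq_one u
  have hex : ∀ g : G, ∃ a : ZMod (p ^ n), g * u * g⁻¹ = u ^ a.val := by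
    intro g
    have h1 : g * u * g⁻¹ ∈ U := hUn'.conj_mem u huU g
    rw [hUz] at h1
    exact (mem_zpowers_iff_zp hu).mp h1
  choose f hf using hex
  have hf1 : f 1 = 1 := zp_inj hu (by rw [← hf 1, zp_one hu1]; simp)
  have hfm : ∀ g h, f (g * h) = f g * f h := by
    intro g h
    apply zp_inj hu
    rw [← hf (g * h), zp_mul hu1, ← hf g, conj_pow, ← hf h]
    group
  let F : G →* ZMod (p ^ n) := { toFun := f, map_one' := hf1, map_mul' := hfm }
  refine ⟨⟨u, hu, hUz, F.toHomUnits, ?_, ?_⟩⟩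
  · intro g
    rw [MonoidHom.coe_toHomUnits]
    exact hf g
  · intro g
    rw [Units.ext_iff, MonoidHom.coe_toHomUnits, Units.val_one]
    show f g = 1 ↔ g ∈ U
    constructor
    · intro h
      have h1 : g * u * g⁻¹ = u := by rw [hf g, h, zp_one hu1]
      have h2 : Commute g u := by
        show g * u = u * g
        rw [← mul_inv_eq_iff_eq_mul]; exact h1
      rw [← hC, Subgroup.mem_centralizer_iff]
      intro x hx
      have hx' : x ∈ Subgroup.zpowers u := hUz ▸ hx
      obtain ⟨i, rfl⟩ := Subgroup.mem_zpowers_iff.mp hx'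
      exact (h2.zpow_right i).symm.eq
    · intro h
      apply zp_inj hu
      rw [← hf g, zp_one hu1]
      rw [hUz] at h
      obtain ⟨i, rfl⟩ := Subgroup.mem_zpowers_iff.mp h
      have h2 : Commute (u ^ i) u := (Commute.refl u).zpow_left i
      rw [h2.eq]; group

end Cfsg.Agent.H93SCAct
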