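import Cfsg.Agent.Lib.Helper93SCDefs

set_option autoImplicit false
set_option linter.style.haveILetI false
open Cfsg Cfsg.Agent.Helper93SCDefs

namespace Cfsg.Agent.H93SCNtE

theorem p_pow_n (p n : ℕ) : (p : ZMod (p ^ n)) ^ n = 0 := by
  rw [← Nat.cast_pow]; exact ZMod.natCast_self _

theorem ppow_mul_ppow {p n : ℕ} (hn : 2 ≤ n) :
    (p : ZMod (p ^ n)) ^ (n - 1) * (p : ZMod (p ^ n)) ^ (n - 1) = 0 := by
  rw [← pow_add]
  have : n - 1 + (n - 1) = n + (n - 2) := by omega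
  rw [this, pow_add, p_pow_n, zero_mul]

theorem p_mul_ppow {p n : ℕ} (hn : 1 ≤ n) :
    (p : ZMod (p ^ n)) * (p : ZMod (p ^ n)) ^ (n - 1) = 0 := by
  rw [← pow_succ']
  have : n - 1 + 1 = n := by omega
  rw [this, p_pow_n]

theorem ppow_ne_zero {p n : ℕ} [Fact p.Prime] (hn : 1 ≤ n) : (p : ZMod (p ^ n)) ^ (n - 1) ≠ 0 := by
  rw [← Nat.cast_pow, Ne, ZMod.natCast_eq_zero_iff]
  intro h
  have := (Nat.pow_dvd_pow_iff_le_right (Fact.out : p.Prime).one_lt).1 h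
  omega

/-- PIECE NtE (45m, pure arithmetic in `ZMod (p^n)`), `n ≥ 2`, `e = 1 + p^(n-1)`.
Key: `(p:ZMod (p^n))^(n-1) * p^(n-1) = 0` because `2(n-1) ≥ n` (`← pow_add`, `← Nat.cast_pow`, `ZMod.natCast_eq_zero_iff`).
`e_pow` by induction on `t`. -/
theorem e_pow {p n : ℕ} [Fact p.Prime] (hn : 2 ≤ n) (e : (ZMod (p ^ n))ˣ)
    (he : (e : ZMod (p ^ n)) = 1 + (p : ZMod (p ^ n)) ^ (n - 1)) (t : ℕ) :
    ((e ^ t : (ZMod (p ^ n))ˣ) : ZMod (p ^ n)) = 1 + (t : ZMod (p ^ n)) * (p : ZMod (p ^ n)) ^ (n - 1) := by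
  induction t with
  | zero => simp
  | succ t ih =>
    rw [pow_succ, Units.val_mul, ih, he]
    have h := ppow_mul_ppow (p := p) hn
    push_cast
    linear_combination (t : ZMod (p ^ n)) * h

/-- from `e_pow` with `t = p`: `p * p^(n-1) = p^n = 0`. -/
theorem e_pow_p {p n : ℕ} [Fact p.Prime] (hn : 2 ≤ n) (e : (ZMod (p ^ n))ˣ)
    (he : (e : ZMod (p ^ n)) = 1 + (p : ZMod (p ^ n)) ^ (n - 1)) : e ^ p = 1 := by
  apply Units.ext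
  rw [e_pow hn e he, p_mul_ppow (by omega), add_zero, Units.val_one]

/-- `p^(n-1) ≠ 0` in `ZMod (p^n)`. -/
theorem e_ne_one {p n : ℕ} [Fact p.Prime] (hn : 2 ≤ n) (e : (ZMod (p ^ n))ˣ)
    (he : (e : ZMod (p ^ n)) = 1 + (p : ZMod (p ^ n)) ^ (n - 1)) : e ≠ 1 := by
  rintro rfl
  rw [Units.val_one] at he
  exact ppow_ne_zero (p := p) (n := n) (by omega) (left_eq_add.1 he)

/-- hence `orderOf e = p` (`orderOf_eq_prime`). -/
theorem orderOf_e {p n : ℕ} [Fact p.Prime] (hn : 2 ≤ n) (e : (ZMod (p ^ n))ˣ)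
    (he : (e : ZMod (p ^ n)) = 1 + (p : ZMod (p ^ n)) ^ (n - 1)) : orderOf e = p :=
  orderOf_eq_prime (e_pow_p hn e he) (e_ne_one hn e he)

/-- `Near` units are exactly the powers of `e` (`Units.ext` + `e_pow`). -/
theorem near_iff {p n : ℕ} [Fact p.Prime] (hn : 2 ≤ n) (e : (ZMod (p ^ n))ˣ)
    (he : (e : ZMod (p ^ n)) = 1 + (p : ZMod (p ^ n)) ^ (n - 1)) (k : (ZMod (p ^ n))ˣ) :
    Near p n k ↔ ∃ t : ℕ, k = e ^ t := by
  constructor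
  · rintro ⟨t, ht⟩
    exact ⟨t, Units.ext (by rw [ht, e_pow hn e he])⟩
  · rintro ⟨t, rfl⟩
    exact ⟨t, e_pow hn e he t⟩

/-- `a * p = 0` in `ZMod (p^n)` iff `a` is a multiple of `p^(n-1)` (pass to `a.val`: `p^n ∣ a.val * p ↔ p^(n-1) ∣ a.val`). -/
theorem mul_p_eq_zero {p n : ℕ} [Fact p.Prime] (hn : 1 ≤ n) (a : ZMod (p ^ n))
    (ha : a * (p : ZMod (p ^ n)) = 0) : ∃ s : ℕ, a = (s : ZMod (p ^ n)) * (p : ZMod (p ^ n)) ^ (n - 1) := by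
  haveI : NeZero (p ^ n) := ⟨pow_ne_zero _ (Fact.out : p.Prime).ne_zero⟩
  have hp0 : 0 < p := (Fact.out : p.Prime).pos
  have h1 : ((a.val * p : ℕ) : ZMod (p ^ n)) = 0 := by
    push_cast
    rw [ZMod.natCast_zmod_val, ha]
  rw [ZMod.natCast_eq_zero_iff] at h1
  obtain ⟨m, rfl⟩ : ∃ m, n = m + 1 := ⟨n - 1, by omega⟩
  have h1' : p ^ m * p ∣ a.val * p := by rw [← pow_succ]; exact h1
  obtain ⟨s, hs⟩ := Nat.dvd_of_mul_dvd_mul_right hp0 h1'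
  refine ⟨s, ?_⟩
  have h2 : a = ((a.val : ℕ) : ZMod (p ^ (m + 1))) := (ZMod.natCast_zmod_val a).symm
  rw [h2, hs]
  push_cast
  simp [mul_comm]

/-- `a * p^(n-1) = 0` in `ZMod (p^n)` iff `a` is a multiple of `p`. -/
theorem mul_ppow_eq_zero {p n : ℕ} [Fact p.Prime] (hn : 1 ≤ n) (a : ZMod (p ^ n))
    (ha : a * (p : ZMod (p ^ n)) ^ (n - 1) = 0) : ∃ c : ZMod (p ^ n), a = (p : ZMod (p ^ n)) * c := by
  haveI : NeZero (p ^ n) := ⟨pow_ne_zero _ (Fact.out : p.Prime).ne_zero⟩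
  have hp0 : 0 < p := (Fact.out : p.Prime).pos
  have h1 : ((a.val * p ^ (n - 1) : ℕ) : ZMod (p ^ n)) = 0 := by
    push_cast
    rw [ZMod.natCast_zmod_val, ha]
  rw [ZMod.natCast_eq_zero_iff] at h1
  obtain ⟨m, rfl⟩ : ∃ m, n = m + 1 := ⟨n - 1, by omega⟩
  have h1' : p * p ^ m ∣ a.val * p ^ m := by
    rw [← pow_succ']; simpa using h1
  obtain ⟨s, hs⟩ := Nat.dvd_of_mul_dvd_mul_right (pow_pos hp0 m) h1'
  refine ⟨s, ?_⟩
  have h2 : a = ((a.val : ℕ) : ZMod (p ^ (m + 1))) := (ZMod.natCast_zmod_val a).symm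
  rw [h2, hs]
  push_cast
  rfl

end Cfsg.Agent.H93SCNtE
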