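import Cfsg.Agent.Lib.Helper93SCDefs
import Cfsg.Agent.Lib.H93SCNtE

set_option autoImplicit false
open Cfsg Cfsg.Agent.Helper93SCDefs

namespace Cfsg.Agent.H93SCCent

theorem ppow_zero (p n : ℕ) : (p : ZMod (p ^ n)) ^ n = 0 := by
  have := ZMod.natCast_self (p ^ n)
  push_cast at this
  exact this

/-- PIECE Cent.  `M = C_G(℧¹(U))` is the set of `g` acting on `U` as `1 mod p^(n-1)`. -/
theorem mem_cent_iff {G : Type*} [Group G] {p n : ℕ} [Fact p.Prime] {U : Subgroup G} (D : Dat G p n U)
    (hn : 1 ≤ n) (g : G) :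
    g ∈ Subgroup.centralizer (Cfsg.powerClosure p 1 U : Set G) ↔ Near p n (D.κ g) := by
  have hu1 := D.u_pow
  have key : g ∈ Subgroup.centralizer (Cfsg.powerClosure p 1 U : Set G) ↔
      g * D.u ^ p * g⁻¹ = D.u ^ p := by
    constructor
    · intro h
      have hm : D.u ^ p ∈ Cfsg.powerClosure p 1 U :=
        Subgroup.subset_closure ⟨D.u, D.u_mem, by rw [pow_one]⟩
      have := Subgroup.mem_centralizer_iff.mp h _ hm
      rw [← this]; group
    · intro h
      have hc : Commute g (D.u ^ p) := by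
        show g * _ = _ * g
        rw [← mul_inv_eq_iff_eq_mul]; exact h
      have hall : ∀ x ∈ Subgroup.closure {y : G | ∃ x ∈ U, y = x ^ (p ^ 1)}, Commute x g := by
        intro x hx'
        induction hx' using Subgroup.closure_induction with
        | mem x hx =>
          obtain ⟨w, hw, rfl⟩ := hx
          obtain ⟨a, rfl⟩ := D.mem_iff.mp hw
          rw [pow_one, ← pow_mul, mul_comm, pow_mul]
          exact (hc.pow_right _).symm
        | one => exact Commute.one_left g
        | mul a b _ _ ha hb => exact ha.mul_left hb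
        | inv a _ ha => exact ha.inv_left
      rw [Subgroup.mem_centralizer_iff]
      intro x hx
      exact (hall x hx).eq
  rw [key]
  have h2 : g * D.u ^ p * g⁻¹ = D.u ^ ((D.κ g : ZMod (p ^ n)) * (p : ZMod (p ^ n))).val := by
    rw [← D.conj_zp g (p : ZMod (p ^ n)), zp_natCast hu1]
  have h3 : D.u ^ p = D.u ^ ((p : ZMod (p ^ n))).val := (zp_natCast hu1 p).symm
  have h4 : g * D.u ^ p * g⁻¹ = D.u ^ p ↔
      (D.κ g : ZMod (p ^ n)) * (p : ZMod (p ^ n)) = (p : ZMod (p ^ n)) := by
    rw [h2]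
    constructor
    · intro h
      rw [h3] at h
      exact zp_inj D.hu h
    · intro h
      rw [h, ← h3]
  rw [h4]
  constructor
  · intro h
    have h5 : ((D.κ g : ZMod (p ^ n)) - 1) * (p : ZMod (p ^ n)) = 0 := by
      rw [sub_mul, h, one_mul, sub_self]
    obtain ⟨s, hs⟩ := H93SCNtE.mul_p_eq_zero hn _ h5
    exact ⟨s, by rw [← hs]; ring⟩
  · rintro ⟨t, ht⟩
    have h6 : (p : ZMod (p ^ n)) ^ (n - 1) * (p : ZMod (p ^ n)) = 0 := by
      rw [← pow_succ, Nat.sub_add_cancel hn, ppow_zero]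
    rw [ht, add_mul, one_mul, mul_assoc, h6, mul_zero, add_zero]

end Cfsg.Agent.H93SCCent
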