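import Cfsg.Agent.Lib.Helper93SCDefs

set_option autoImplicit false
open Cfsg Cfsg.Agent.Helper93SCDefs

namespace Cfsg.Agent.H93SCCharO

/-- PIECE CharO.  `Ω₁` of a characteristic subgroup is characteristic. -/
theorem omegaOne_char {G : Type*} [Group G] (p : ℕ) (H : Subgroup G) [hH : H.Characteristic] :
    (Cfsg.omegaOne p H).Characteristic := by
  rw [Subgroup.characteristic_iff_map_le]
  intro φ
  unfold Cfsg.omegaOne
  rw [MonoidHom.map_closure, Subgroup.closure_le]
  rintro _ ⟨x, ⟨hx1, hx2⟩, rfl⟩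
  apply Subgroup.subset_closure
  refine ⟨?_, ?_⟩
  · have h := Subgroup.characteristic_iff_map_le.mp hH φ
    exact h ⟨x, hx1, rfl⟩
  · show (φ x) ^ p = 1
    rw [← map_pow, hx2, map_one]

end Cfsg.Agent.H93SCCharO
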