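import Cfsg.Agent.Lib.Helper93SCDefs

set_option autoImplicit false
set_option linter.style.haveILetI false
open Cfsg Cfsg.Agent.Helper93SCDefs

namespace Cfsg.Agent.H93SCNtLte

/-- the natural number version, `p` odd. -/
theorem dvd_sub_one_odd {p m a : ℕ} [Fact p.Prime] (hp : p ≠ 2) (ha1 : p ∣ a - 1) (h1a : 1 ≤ a)
    (h : p ^ (m + 1) ∣ a ^ p - 1) : p ^ m ∣ a - 1 := by
  have hpp : p.Prime := Fact.out
  rcases Nat.eq_or_lt_of_le h1a with h1 | h1
  · rw [← h1]; simp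
  have hodd : Odd p := hpp.odd_of_ne_two hp
  have hpa : ¬ p ∣ a := by
    intro hd
    have h2 : p ∣ a - (a - 1) := Nat.dvd_sub hd ha1
    have h3 : a - (a - 1) = 1 := by omega
    rw [h3] at h2
    exact hpp.one_lt.ne' (Nat.dvd_one.1 h2)
  have key := padicValNat.pow_sub_pow hodd h1 ha1 hpa hpp.ne_zero
  rw [one_pow, padicValNat_self] at key
  have hne : a ^ p - 1 ≠ 0 := by
    have : 1 < a ^ p := Nat.one_lt_pow hpp.ne_zero h1
    omega
  have h2 := (padicValNat_dvd_iff_le hne).1 h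
  rw [key] at h2
  exact (padicValNat_dvd_iff_le (by omega)).2 (by omega)

/-- the natural number version, `p = 2`. -/
theorem dvd_sub_one_two {m a : ℕ} (ha : a % 4 = 1) (h : 2 ^ (m + 1) ∣ a ^ 2 - 1) :
    2 ^ m ∣ a - 1 := by
  obtain ⟨j, rfl⟩ : ∃ j, a = 4 * j + 1 := ⟨a / 4, by omega⟩
  have h1 : (4 * j + 1) ^ 2 - 1 = (4 * j * (2 * j + 1)) * 2 := by
    have : (4 * j + 1) ^ 2 = (4 * j * (2 * j + 1)) * 2 + 1 := by ring
    omega
  rw [h1, pow_succ] at h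
  have h2 := Nat.dvd_of_mul_dvd_mul_right (by norm_num) h
  have hcop : Nat.Coprime (2 ^ m) (2 * j + 1) := by
    apply Nat.Coprime.pow_left
    rw [Nat.coprime_two_left]
    exact ⟨j, rfl⟩
  have h3 := hcop.dvd_of_dvd_mul_right h2
  simpa using h3

theorem near_of_pow {p n : ℕ} [Fact p.Prime] (k : (ZMod (p ^ n))ˣ)
    (h1 : (p ≠ 2 ∧ ∃ m : ℕ, k ^ (p ^ m) = 1) ∨ (p = 2 ∧ (k : ZMod (p ^ n)).val % 4 = 1))
    (hk : k ^ p = 1) : Near p n k := by
  have hpp : p.Prime := Fact.out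
  rcases n with _ | m
  · haveI : Subsingleton (ZMod (p ^ 0)) := by rw [pow_zero]; infer_instance
    exact ⟨0, Subsingleton.elim _ _⟩
  haveI : NeZero (p ^ (m + 1)) := ⟨pow_ne_zero _ hpp.ne_zero⟩
  haveI : Fact (1 < p ^ (m + 1)) := ⟨Nat.one_lt_pow (by omega) hpp.one_lt⟩
  set a := (k : ZMod (p ^ (m + 1))).val with ha
  have hak : ((a : ℕ) : ZMod (p ^ (m + 1))) = k := ZMod.natCast_zmod_val _
  have h1a : 1 ≤ a := by
    rw [Nat.one_le_iff_ne_zero, ha, Ne, ZMod.val_eq_zero]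
    exact k.ne_zero
  have hpow : ∀ j : ℕ, k ^ j = 1 → p ^ (m + 1) ∣ a ^ j - 1 := by
    intro j hj
    have h2 : ((a ^ j : ℕ) : ZMod (p ^ (m + 1))) = ((1 : ℕ) : ZMod (p ^ (m + 1))) := by
      push_cast
      rw [hak, ← Units.val_pow_eq_pow_val, hj, Units.val_one]
    rw [ZMod.natCast_eq_natCast_iff] at h2
    exact (Nat.modEq_iff_dvd' (Nat.one_le_pow _ _ h1a)).1 h2.symm
  have hdvd : p ^ m ∣ a - 1 := by
    rcases h1 with ⟨hp2, j, hj⟩ | ⟨rfl, h4⟩
    · apply dvd_sub_one_odd hp2 _ h1a (hpow p hk)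
      have h2 : p ∣ a ^ (p ^ j) - 1 := (dvd_pow_self p (by omega)).trans (hpow _ hj)
      have h3 : ((a ^ (p ^ j) : ℕ) : ZMod p) = 1 := by
        have := (ZMod.natCast_eq_zero_iff _ p).2 h2
        rw [Nat.cast_sub (Nat.one_le_pow _ _ h1a)] at this
        simpa [sub_eq_zero] using this
      rw [Nat.cast_pow, ZMod.pow_card_pow] at h3
      rw [← ZMod.natCast_eq_zero_iff, Nat.cast_sub h1a, h3]
      simp
    · exact dvd_sub_one_two h4 (hpow 2 hk)
  obtain ⟨t, ht⟩ := hdvd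
  refine ⟨t, ?_⟩
  have h5 : a = 1 + t * p ^ m := by
    have : a = 1 + (a - 1) := by omega
    rw [this, ht, mul_comm]
  rw [← hak, h5]
  push_cast
  simp

end Cfsg.Agent.H93SCNtLte
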