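import Cfsg.Agent.Lib.Helper93SCDefs
import Cfsg.Agent.Lib.H93SCCharO
import Cfsg.Agent.Lib.H93SCCent
import Cfsg.Agent.Lib.H93SCNtLte

set_option autoImplicit false
open Cfsg Cfsg.Agent.Helper93SCDefs

namespace Cfsg.Agent.H93SCCharA

/-- PIECE CharA.  If `p` is odd, or `p = 2` and all of `G` acts on `U` as `1 mod 4`, every element of order dividing `p` of `G` lies in `M`, so `Ω₁(M) = Ω₁(G)` is characteristic. -/
theorem char_of_cyclic_action {G : Type*} [Group G] [Finite G] {p n : ℕ} [Fact p.Prime] {U : Subgroup G}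
    (D : Dat G p n U) (hG : IsPGroup p G) (hn : 1 ≤ n)
    (h4 : p = 2 → ∀ g : G, (D.κ g : ZMod (p ^ n)).val % 4 = 1) :
    (Cfsg.omegaOne p (Subgroup.centralizer (Cfsg.powerClosure p 1 U : Set G))).Characteristic := by
  have hM : ∀ g : G, g ^ p = 1 → g ∈ Subgroup.centralizer (Cfsg.powerClosure p 1 U : Set G) := by
    intro g hgp
    rw [H93SCCent.mem_cent_iff D hn g]
    apply H93SCNtLte.near_of_pow
    · by_cases hp2 : p = 2
      · right
        exact ⟨hp2, h4 hp2 g⟩
      · left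
        refine ⟨hp2, ?_⟩
        obtain ⟨m, hm⟩ := hG g
        exact ⟨m, by rw [← map_pow, hm, map_one]⟩
    · rw [← map_pow, hgp, map_one]
  have heq : Cfsg.omegaOne p (Subgroup.centralizer (Cfsg.powerClosure p 1 U : Set G)) =
      Cfsg.omegaOne p ⊤ := by
    unfold Cfsg.omegaOne
    congr 1
    ext x
    constructor
    · rintro ⟨-, h⟩
      exact ⟨Subgroup.mem_top x, h⟩
    · rintro ⟨-, h⟩
      exact ⟨hM x h, h⟩
  rw [heq]
  exact H93SCCharO.omegaOne_char p ⊤

end Cfsg.Agent.H93SCCharA
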