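import Cfsg.Agent.Lib.Helper93SCDefs
import Cfsg.Agent.Lib.H93SCCharO

set_option autoImplicit false
open Cfsg Cfsg.Agent.Helper93SCDefs

namespace Cfsg.Agent.H93SCCharB

open scoped commutatorElement

/-- PIECE CharB.  `p = 2`, some `g` acts on `U` as `3 mod 4`: then `U² ≤ G' ≤ U`, so `U² = {x ∈ G' | x^(2^(n-1)) = 1}` is characteristic, hence so are `M = C_G(U²)` and `Ω₁(M)`. -/
theorem char_of_neg {G : Type*} [Group G] [Finite G] {n : ℕ} {U : Subgroup G}
    (D : Dat G 2 n U) (hn : 2 ≤ n) (g : G) (hg : (D.κ g : ZMod (2 ^ n)).val % 4 ≠ 1) :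
    (Cfsg.omegaOne 2 (Subgroup.centralizer (Cfsg.powerClosure 2 1 U : Set G))).Characteristic := by
  have hu1 : D.u ^ (2 ^ n) = 1 := D.u_pow
  -- (1)
  have h1 : commutator G ≤ U := by
    rw [commutator_eq_closure, Subgroup.closure_le]
    rintro _ ⟨a, b, rfl⟩
    rw [SetLike.mem_coe, ← D.hker, map_commutatorElement]
    exact commutatorElement_eq_one_iff_commute.2 (Commute.all _ _)
  -- (2)
  set k : ZMod (2 ^ n) := (D.κ g : ZMod (2 ^ n)) with hk
  have hkunit : IsUnit k := (D.κ g).isUnit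
  have hkcop : Nat.Coprime k.val (2 ^ n) := by
    rw [← ZMod.isUnit_iff_coprime, ZMod.natCast_zmod_val]
    exact hkunit
  have hkodd : k.val % 2 = 1 := by
    have h2 : Nat.Coprime k.val 2 := Nat.Coprime.coprime_dvd_right (dvd_pow_self 2 (by omega)) hkcop
    rw [Nat.coprime_two_right] at h2
    exact Nat.odd_iff.1 h2
  obtain ⟨t, ht⟩ : ∃ t, k.val = 4 * t + 3 := ⟨k.val / 4, by omega⟩
  have hjunit : IsUnit ((2 * t + 1 : ℕ) : ZMod (2 ^ n)) := by
    rw [ZMod.isUnit_iff_coprime]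
    apply Nat.Coprime.pow_right
    rw [Nat.coprime_two_right]
    exact ⟨t, rfl⟩
  obtain ⟨w, hw⟩ := hjunit.exists_right_inv
  have hk1 : (k + -1) * w = ((2 : ℕ) : ZMod (2 ^ n)) := by
    have h3 : k = ((4 * t + 3 : ℕ) : ZMod (2 ^ n)) := by rw [← ht, ZMod.natCast_zmod_val]
    rw [h3]
    push_cast at hw ⊢
    linear_combination 2 * hw
  have hu2 : D.u ^ 2 ∈ commutator G := by
    have hc : ⁅g, D.u⁆ ∈ commutator G :=
      Subgroup.commutator_mem_commutator (Subgroup.mem_top g) (Subgroup.mem_top D.u)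
    have hc' : ⁅g, D.u⁆ = D.u ^ (k + -1).val := by
      rw [commutatorElement_def, D.hκ, zp_add hu1, zp_neg hu1, zp_one hu1]
    have h4 : D.u ^ 2 = ⁅g, D.u⁆ ^ w.val := by
      rw [hc', ← zp_mul hu1, hk1, zp_natCast hu1]
    rw [h4]
    exact pow_mem hc _
  -- (3)
  have h2n : 2 ^ n = 2 * 2 ^ (n - 1) := by
    rw [← pow_succ']
    congr 1
    omega
  have hchar : ∀ x : G, x ∈ Cfsg.powerClosure 2 1 U ↔
      x ∈ commutator G ∧ x ^ (2 ^ (n - 1)) = 1 := by
    intro x
    constructor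
    · intro hx
      have hle : Cfsg.powerClosure 2 1 U ≤ Subgroup.zpowers (D.u ^ 2) := by
        unfold Cfsg.powerClosure
        rw [Subgroup.closure_le]
        rintro _ ⟨y, hy, rfl⟩
        obtain ⟨a, rfl⟩ := D.mem_iff.1 hy
        rw [SetLike.mem_coe, Subgroup.mem_zpowers_iff]
        refine ⟨(a.val : ℤ), ?_⟩
        rw [zpow_natCast, pow_one, ← pow_mul, ← pow_mul, mul_comm]
      obtain ⟨i, rfl⟩ := Subgroup.mem_zpowers_iff.1 (hle hx)
      refine ⟨zpow_mem hu2 i, ?_⟩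
      rw [← zpow_natCast, ← zpow_mul, mul_comm, zpow_mul, zpow_natCast, ← pow_mul, ← h2n, hu1,
        one_zpow]
    · rintro ⟨hx1, hx2⟩
      obtain ⟨a, rfl⟩ := D.mem_iff.1 (h1 hx1)
      rw [← pow_mul] at hx2
      have h5 := orderOf_dvd_of_pow_eq_one hx2
      rw [D.hu] at h5
      have h5' : 2 * 2 ^ (n - 1) ∣ a.val * 2 ^ (n - 1) := h2n ▸ h5
      have h6 : 2 ∣ a.val := Nat.dvd_of_mul_dvd_mul_right (by positivity) h5'
      obtain ⟨c, hc⟩ := h6
      unfold Cfsg.powerClosure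
      apply Subgroup.subset_closure
      refine ⟨D.u ^ c, pow_mem D.u_mem c, ?_⟩
      rw [hc, pow_one, ← pow_mul, mul_comm]
  -- (4)
  haveI hP : (Cfsg.powerClosure 2 1 U).Characteristic := by
    rw [Subgroup.characteristic_iff_map_le]
    intro φ
    rintro _ ⟨x, hx, rfl⟩
    obtain ⟨hx1, hx2⟩ := (hchar x).1 hx
    rw [hchar]
    constructor
    · have hcc : (commutator G).Characteristic := by
        unfold commutator
        infer_instance
      have := hcc.fixed φ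
      have h7 : x ∈ (commutator G).comap φ.toMonoidHom := by rw [this]; exact hx1
      exact h7
    · show (φ x) ^ (2 ^ (n - 1)) = 1
      rw [← map_pow, hx2, map_one]
  exact H93SCCharO.omegaOne_char 2 _

end Cfsg.Agent.H93SCCharB
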