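import Cfsg.Agent.Lib.Helper93SCDefs
import Cfsg.Agent.Lib.Helper76FourGroup

set_option autoImplicit false
open Cfsg Cfsg.Agent.Helper93SCDefs

namespace Cfsg.Agent.H93SCClo

/-- PIECE Clo.  Two commuting independent elements of order `p`. -/
theorem closure_two {G : Type*} [Group G] {p : ℕ} [Fact p.Prime] (z y : G) (hz : z ^ p = 1) (hy : y ^ p = 1)
    (hzy : z * y = y * z) (hz1 : z ≠ 1) (hyz : y ∉ Subgroup.zpowers z) (S : Set G) (h1 : z ∈ S) (h2 : y ∈ S)
    (h3 : ∀ g ∈ S, ∃ s t : ℕ, g = z ^ s * y ^ t) :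
    Cfsg.IsElementaryAbelian p (Subgroup.closure S) ∧ Nat.card (Subgroup.closure S) = p ^ 2 := by
  have hp : p.Prime := Fact.out
  have hc : Commute z y := hzy
  have hy1 : y ≠ 1 := fun h => hyz (h ▸ one_mem _)
  have hform : ∀ g ∈ Subgroup.closure S, ∃ i j : ℤ, g = z ^ i * y ^ j := by
    intro g hg
    induction hg using Subgroup.closure_induction with
    | mem x hx =>
      obtain ⟨s, t, rfl⟩ := h3 x hx
      exact ⟨s, t, by simp⟩
    | one => exact ⟨0, 0, by simp⟩
    | mul a b _ _ ha hb =>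
      obtain ⟨i, j, rfl⟩ := ha
      obtain ⟨i', j', rfl⟩ := hb
      refine ⟨i + i', j + j', ?_⟩
      have h4 : Commute (y ^ j) (z ^ i') := (hc.zpow_zpow i' j).symm
      calc z ^ i * y ^ j * (z ^ i' * y ^ j') = z ^ i * (y ^ j * z ^ i') * y ^ j' := by group
        _ = z ^ i * (z ^ i' * y ^ j) * y ^ j' := by rw [h4.eq]
        _ = z ^ (i + i') * y ^ (j + j') := by rw [zpow_add, zpow_add]; group
    | inv a _ ha =>
      obtain ⟨i, j, rfl⟩ := ha
      refine ⟨-i, -j, ?_⟩
      have h4 : Commute (z ^ i) (y ^ j) := hc.zpow_zpow i j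
      rw [h4.eq, mul_inv_rev, zpow_neg, zpow_neg]
  have hcomm : ∀ a ∈ Subgroup.closure S, ∀ b ∈ Subgroup.closure S, a * b = b * a := by
    intro a ha b hb
    obtain ⟨i, j, rfl⟩ := hform a ha
    obtain ⟨i', j', rfl⟩ := hform b hb
    have c1 : Commute (z ^ i) (z ^ i') := (Commute.refl z).zpow_zpow i i'
    have c2 : Commute (z ^ i) (y ^ j') := hc.zpow_zpow i j'
    have c3 : Commute (y ^ j) (z ^ i') := (hc.zpow_zpow i' j).symm
    have c4 : Commute (y ^ j) (y ^ j') := (Commute.refl y).zpow_zpow j j'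
    exact ((c1.mul_right c2).mul_left (c3.mul_right c4)).eq
  refine ⟨⟨⟨⟨fun a b => Subtype.ext (hcomm a a.2 b b.2)⟩⟩, ?_⟩, ?_⟩
  · intro a ha
    obtain ⟨i, j, rfl⟩ := hform a ha
    rw [(hc.zpow_zpow i j).mul_pow, ← zpow_natCast, ← zpow_natCast, ← zpow_mul, ← zpow_mul,
      mul_comm i, mul_comm j, zpow_mul, zpow_mul, zpow_natCast, zpow_natCast, hz, hy]
    simp
  · have hcl : Subgroup.closure S = Subgroup.zpowers z ⊔ Subgroup.zpowers y := by
      apply le_antisymm
      · rw [Subgroup.closure_le]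
        intro g hg
        obtain ⟨s, t, rfl⟩ := h3 g hg
        exact mul_mem
          (pow_mem ((le_sup_left : Subgroup.zpowers z ≤ _) (Subgroup.mem_zpowers z)) s)
          (pow_mem ((le_sup_right : Subgroup.zpowers y ≤ _) (Subgroup.mem_zpowers y)) t)
      · rw [sup_le_iff]
        exact ⟨Subgroup.zpowers_le.mpr (Subgroup.subset_closure h1),
          Subgroup.zpowers_le.mpr (Subgroup.subset_closure h2)⟩
    have oz : orderOf z = p := orderOf_eq_prime hz hz1
    have oy : orderOf y = p := orderOf_eq_prime hy hy1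
    have hd : Subgroup.zpowers z ⊓ Subgroup.zpowers y = ⊥ := by
      by_contra hne
      have hfin : Finite (Subgroup.zpowers y) := by
        apply Nat.finite_of_card_ne_zero
        rw [Nat.card_zpowers, oy]; exact hp.ne_zero
      have hdvd : Nat.card ↥(Subgroup.zpowers z ⊓ Subgroup.zpowers y) ∣ p := by
        have := Subgroup.card_dvd_of_le (inf_le_right : Subgroup.zpowers z ⊓ Subgroup.zpowers y ≤ Subgroup.zpowers y)
        rwa [Nat.card_zpowers, oy] at this
      rcases (Nat.dvd_prime hp).mp hdvd with h | h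
      · exact hne (Subgroup.card_eq_one.mp h)
      · have heq : Subgroup.zpowers z ⊓ Subgroup.zpowers y = Subgroup.zpowers y := by
          apply Subgroup.eq_of_le_of_card_ge inf_le_right
          rw [h, Nat.card_zpowers, oy]
        apply hyz
        have : y ∈ Subgroup.zpowers z ⊓ Subgroup.zpowers y := by
          rw [heq]; exact Subgroup.mem_zpowers y
        exact this.1
    rw [hcl, Cfsg.Agent.Lib.Helper76FourGroup.card_sup_of_commute _ _ ?_ hd, Nat.card_zpowers,
      Nat.card_zpowers, oz, oy, pow_two]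
    rw [Subgroup.zpowers_le, Subgroup.mem_centralizer_iff]
    intro h hh
    obtain ⟨i, rfl⟩ := Subgroup.mem_zpowers_iff.mp hh
    exact (hc.zpow_right i).symm.eq

end Cfsg.Agent.H93SCClo
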