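import Cfsg.Agent.Lib.Helper93SCDefs
import Cfsg.Agent.Lib.H93SCCent
import Cfsg.Agent.Lib.H93SCNtE

set_option autoImplicit false
open Cfsg Cfsg.Agent.Helper93SCDefs

namespace Cfsg.Agent.H93SCIdx

/-- PIECE Idx.  `|M : U| = p`. -/
theorem relIndex_eq {G : Type*} [Group G] [Finite G] {p n : ℕ} [Fact p.Prime] {U : Subgroup G} (D : Dat G p n U)
    (hn : 2 ≤ n) (y : G) (hy : (D.κ y : ZMod (p ^ n)) = 1 + (p : ZMod (p ^ n)) ^ (n - 1)) :
    U.relIndex (Subgroup.centralizer (Cfsg.powerClosure p 1 U : Set G)) = p := by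
  set M := Subgroup.centralizer (Cfsg.powerClosure p 1 U : Set G) with hM
  let f : ↥M →* (ZMod (p ^ n))ˣ := D.κ.comp M.subtype
  have hker : f.ker = U.subgroupOf M := by
    ext x
    rw [MonoidHom.mem_ker, Subgroup.mem_subgroupOf]
    exact D.hker x
  have hrange : f.range = Subgroup.zpowers (D.κ y) := by
    ext k
    constructor
    · rintro ⟨x, rfl⟩
      have hx := (H93SCCent.mem_cent_iff D (by omega) x).mp x.2
      obtain ⟨t, ht⟩ := (H93SCNtE.near_iff hn (D.κ y) hy _).mp hx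
      exact Subgroup.mem_zpowers_iff.mpr ⟨t, by rw [zpow_natCast]; exact ht.symm⟩
    · intro hk
      obtain ⟨i, rfl⟩ := Subgroup.mem_zpowers_iff.mp hk
      have hyM : y ∈ M := (H93SCCent.mem_cent_iff D (by omega) y).mpr
        ((H93SCNtE.near_iff hn _ hy _).mpr ⟨1, by simp⟩)
      exact ⟨⟨y, hyM⟩ ^ i, by simp [f]⟩
  rw [Subgroup.relIndex, ← hker, Subgroup.index_ker, hrange, Nat.card_zpowers,
    H93SCNtE.orderOf_e hn _ hy]

end Cfsg.Agent.H93SCIdx
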