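import Cfsg.Agent.Lib.Helper93SCDefs

set_option autoImplicit false
set_option linter.style.haveILetI false
open Cfsg Cfsg.Agent.Helper93SCDefs

namespace Cfsg.Agent.H93SCNtSum

theorem p_pow_n' (p n : ℕ) : (p : ZMod (p ^ n)) ^ n = 0 := by
  rw [← Nat.cast_pow]; exact ZMod.natCast_self _

theorem sum_near {p n : ℕ} [Fact p.Prime] (hn : 2 ≤ n) (hn2 : p = 2 → 3 ≤ n) (k : (ZMod (p ^ n))ˣ)
    (hk : Near p n k) :
    ∃ v : (ZMod (p ^ n))ˣ, ∑ i ∈ Finset.range p, (k : ZMod (p ^ n)) ^ i = (p : ZMod (p ^ n)) * v := by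
  have hpp : p.Prime := Fact.out
  obtain ⟨t, ht⟩ := hk
  set P : ZMod (p ^ n) := (p : ZMod (p ^ n)) ^ (n - 1) with hP
  have hPP : P * P = 0 := by
    rw [hP, ← pow_add]
    have : n - 1 + (n - 1) = n + (n - 2) := by omega
    rw [this, pow_add, p_pow_n', zero_mul]
  have hpP : (p : ZMod (p ^ n)) * P = 0 := by
    rw [hP, ← pow_succ']
    have : n - 1 + 1 = n := by omega
    rw [this, p_pow_n']
  have hki : ∀ i : ℕ, (k : ZMod (p ^ n)) ^ i = 1 + (i : ZMod (p ^ n)) * ((t : ZMod (p ^ n)) * P) := by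
    intro i
    induction i with
    | zero => simp
    | succ i ih =>
      rw [pow_succ, ih, ht]
      push_cast
      linear_combination ((i : ZMod (p ^ n)) * t * t) * hPP
  have hsum : ∑ i ∈ Finset.range p, (k : ZMod (p ^ n)) ^ i
      = (p : ZMod (p ^ n)) + ((∑ i ∈ Finset.range p, i : ℕ) : ZMod (p ^ n)) * ((t : ZMod (p ^ n)) * P) := by
    simp only [hki]
    rw [Finset.sum_add_distrib, Finset.sum_const, Finset.card_range, ← Finset.sum_mul]
    push_cast
    simp
  by_cases hp2 : p = 2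
  · subst hp2
    have hn3 := hn2 rfl
    have hcop : Nat.Coprime (1 + t * 2 ^ (n - 2)) (2 ^ n) := by
      apply Nat.Coprime.pow_right
      rw [Nat.coprime_two_right]
      obtain ⟨j, hj⟩ : ∃ j, n - 2 = j + 1 := ⟨n - 3, by omega⟩
      exact ⟨t * 2 ^ j, by rw [hj, pow_succ]; ring⟩
    refine ⟨ZMod.unitOfCoprime _ hcop, ?_⟩
    rw [ZMod.coe_unitOfCoprime, Finset.sum_range_succ, Finset.sum_range_one, pow_zero, pow_one, ht,
      hP]
    have : n - 1 = (n - 2) + 1 := by omega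
    rw [this, pow_succ]
    push_cast
    ring
  · refine ⟨1, ?_⟩
    obtain ⟨c, hc⟩ := hpp.odd_of_ne_two hp2
    have h1 : ∑ i ∈ Finset.range p, i = p * c := by
      have h2 := Finset.sum_range_id_mul_two p
      have h3 : p - 1 = c * 2 := by omega
      rw [h3, ← mul_assoc] at h2
      exact Nat.eq_of_mul_eq_mul_right (by norm_num) h2
    rw [hsum, h1]
    push_cast
    linear_combination ((c : ZMod (p ^ n)) * t) * hpP

end Cfsg.Agent.H93SCNtSum
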