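import Cfsg.Agent.Lib.Helper93SCDefs

set_option autoImplicit false
open Cfsg Cfsg.Agent.Helper93SCDefs

namespace Cfsg.Agent.H93SCPow

/-- PIECE Pow.  `(x w)^m = x^(1 + k + … + k^(m-1)) w^m` for `x = u^a ∈ U`, `k = κ w`. -/
theorem mul_pow_eq {G : Type*} [Group G] {p n : ℕ} [Fact p.Prime] {U : Subgroup G} (D : Dat G p n U)
    (a : ZMod (p ^ n)) (w : G) (m : ℕ) :
    (D.u ^ a.val * w) ^ m =
      D.u ^ (a * ∑ i ∈ Finset.range m, (D.κ w : ZMod (p ^ n)) ^ i).val * w ^ m := by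
  induction m with
  | zero => simp
  | succ m ih =>
    have h1 : w ^ m * D.u ^ a.val * (w ^ m)⁻¹ = D.u ^ ((D.κ w : ZMod (p ^ n)) ^ m * a).val := by
      rw [D.conj_zp (w ^ m) a, map_pow, Units.val_pow_eq_pow_val]
    have h2 : w ^ m * D.u ^ a.val = D.u ^ ((D.κ w : ZMod (p ^ n)) ^ m * a).val * w ^ m := by
      rw [← h1]; group
    rw [pow_succ, ih, Finset.sum_range_succ, mul_add, zp_add D.u_pow, pow_succ]
    calc D.u ^ (a * ∑ i ∈ Finset.range m, (D.κ w : ZMod (p ^ n)) ^ i).val * w ^ m * (D.u ^ a.val * w)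
        = D.u ^ (a * ∑ i ∈ Finset.range m, (D.κ w : ZMod (p ^ n)) ^ i).val * (w ^ m * D.u ^ a.val) * w := by
          group
      _ = _ := by rw [h2, mul_comm a ((D.κ w : ZMod (p ^ n)) ^ m)]; group

end Cfsg.Agent.H93SCPow
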