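import Cfsg.Agent.Lib.Helper93SCDefs
import Cfsg.Agent.Lib.H93SCPow
import Cfsg.Agent.Lib.H93SCNtSum
import Cfsg.Agent.Lib.H93SCNtE

set_option autoImplicit false
set_option linter.style.haveILetI false
open Cfsg Cfsg.Agent.Helper93SCDefs

namespace Cfsg.Agent.H93SCMem

theorem mem_form {G : Type*} [Group G] {p n : ℕ} [Fact p.Prime] {U : Subgroup G} (D : Dat G p n U)
    (hn : 2 ≤ n) (hn2 : p = 2 → 3 ≤ n) (y' : G)
    (hy : (D.κ y' : ZMod (p ^ n)) = 1 + (p : ZMod (p ^ n)) ^ (n - 1)) (hy' : y' ^ p = 1)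
    (g : G) (hg : Near p n (D.κ g)) (hgp : g ^ p = 1) :
    ∃ s t : ℕ, g = (D.u ^ (p ^ (n - 1))) ^ s * y' ^ t := by
  haveI : NeZero (p ^ n) := ⟨pow_ne_zero _ (Fact.out : p.Prime).ne_zero⟩
  obtain ⟨t, ht⟩ := (H93SCNtE.near_iff hn (D.κ y') hy (D.κ g)).1 hg
  have h1 : D.κ (g * (y' ^ t)⁻¹) = 1 := by
    rw [map_mul, map_inv, map_pow, ht, mul_inv_cancel]
  obtain ⟨a, ha⟩ := D.mem_iff.1 ((D.hker _).1 h1)
  have hga : g = D.u ^ a.val * y' ^ t := by rw [← ha]; group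
  have hnear : Near p n (D.κ (y' ^ t)) := by
    rw [map_pow, ← ht]; exact hg
  obtain ⟨v, hv⟩ := H93SCNtSum.sum_near hn hn2 (D.κ (y' ^ t)) hnear
  have h2 : (D.u ^ a.val * y' ^ t) ^ p = 1 := by rw [← hga]; exact hgp
  rw [H93SCPow.mul_pow_eq, hv, ← pow_mul, mul_comm t p, pow_mul, hy', one_pow, mul_one,
    zp_eq_one_iff D.hu, ← mul_assoc] at h2
  have h3 : a * (p : ZMod (p ^ n)) = 0 := (Units.mul_left_eq_zero v).1 h2
  obtain ⟨s, hs⟩ := H93SCNtE.mul_p_eq_zero (by omega) a h3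
  refine ⟨s, t, ?_⟩
  rw [hga]
  congr 1
  have h4 : a = ((p ^ (n - 1) * s : ℕ) : ZMod (p ^ n)) := by
    rw [hs]; push_cast; ring
  rw [h4, zp_natCast D.u_pow, pow_mul]

end Cfsg.Agent.H93SCMem
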