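import Cfsg.Agent.Lib.Helper93SCDefs
import Cfsg.Agent.Lib.H93SCNtLte
import Cfsg.Agent.Lib.H93SCNtE

set_option autoImplicit false
set_option linter.style.haveILetI false
open Cfsg Cfsg.Agent.Helper93SCDefs

namespace Cfsg.Agent.H93SCNtOdd

/-- the unit `1 + p^(n-1)`. -/
def eUnit (p n : ℕ) (hn : 2 ≤ n) : (ZMod (p ^ n))ˣ where
  val := 1 + (p : ZMod (p ^ n)) ^ (n - 1)
  inv := 1 - (p : ZMod (p ^ n)) ^ (n - 1)
  val_inv := by
    have h := H93SCNtE.ppow_mul_ppow (p := p) hn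
    linear_combination -h
  inv_val := by
    have h := H93SCNtE.ppow_mul_ppow (p := p) hn
    linear_combination -h

/-- a `Near` unit different from `1` generates the group of `Near` units. -/
theorem e_mem_of_near {p n : ℕ} [Fact p.Prime] (hn : 2 ≤ n) (A : Subgroup (ZMod (p ^ n))ˣ)
    {k : (ZMod (p ^ n))ˣ} (hkA : k ∈ A) (hk1 : k ≠ 1) (hk : Near p n k) :
    ∃ e ∈ A, (e : ZMod (p ^ n)) = 1 + (p : ZMod (p ^ n)) ^ (n - 1) := by
  have hpp : p.Prime := Fact.out
  set e := eUnit p n hn with he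
  have hev : (e : ZMod (p ^ n)) = 1 + (p : ZMod (p ^ n)) ^ (n - 1) := rfl
  obtain ⟨t, ht⟩ := (H93SCNtE.near_iff hn e hev k).1 hk
  have hord := H93SCNtE.orderOf_e hn e hev
  have hpt : ¬ p ∣ t := by
    intro hd
    apply hk1
    rw [ht]
    apply orderOf_dvd_iff_pow_eq_one.1
    rw [hord]; exact hd
  have hcop : Nat.Coprime t p := ((Nat.Prime.coprime_iff_not_dvd hpp).2 hpt).symm
  obtain ⟨s, -, hs⟩ := Nat.exists_mul_mod_eq_one_of_coprime hcop hpp.one_lt
  refine ⟨e, ?_, hev⟩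
  have h1 : e = k ^ s := by
    rw [ht, ← pow_mul]
    have h2 := pow_mod_orderOf e (t * s)
    rw [hord, hs, pow_one] at h2
    exact h2
  rw [h1]
  exact A.pow_mem hkA s

theorem exists_e_odd {p n : ℕ} [Fact p.Prime] (hp : p ≠ 2) (A : Subgroup (ZMod (p ^ n))ˣ)
    (hA : IsPGroup p A) (hA1 : A ≠ ⊥) :
    2 ≤ n ∧ ∃ k ∈ A, (k : ZMod (p ^ n)) = 1 + (p : ZMod (p ^ n)) ^ (n - 1) := by
  have hpp : p.Prime := Fact.out
  haveI : NeZero (p ^ n) := ⟨pow_ne_zero _ hpp.ne_zero⟩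
  obtain ⟨m, hm⟩ := IsPGroup.iff_card.1 hA
  have hm0 : m ≠ 0 := by
    rintro rfl
    apply hA1
    rw [pow_zero] at hm
    exact Subgroup.card_eq_one.1 hm
  have hdvd : p ∣ Nat.card A := by rw [hm]; exact dvd_pow_self p hm0
  obtain ⟨k₀, hk₀⟩ := exists_prime_orderOf_dvd_card' p hdvd
  set k : (ZMod (p ^ n))ˣ := k₀.1 with hk
  have hord : orderOf k = p := by rw [hk, Subgroup.orderOf_coe, hk₀]
  have hkp : k ^ p = 1 := by
    have := pow_orderOf_eq_one k
    rwa [hord] at this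
  have hk1 : k ≠ 1 := by
    intro h
    rw [h, orderOf_one] at hord
    exact hpp.one_lt.ne hord
  have hn : 2 ≤ n := by
    have h1 : p ∣ Nat.totient (p ^ n) := by
      rw [← ZMod.card_units_eq_totient]
      have := orderOf_dvd_card (x := k)
      rwa [hord] at this
    by_contra hlt
    have : n = 0 ∨ n = 1 := by omega
    rcases this with rfl | rfl
    · simp at h1
      exact hpp.one_lt.ne' h1
    · rw [pow_one, Nat.totient_prime hpp] at h1
      have := Nat.le_of_dvd (by have := hpp.two_le; omega) h1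
      have := hpp.two_le
      omega
  refine ⟨hn, ?_⟩
  exact e_mem_of_near hn A k₀.2 hk1
    (H93SCNtLte.near_of_pow k (Or.inl ⟨hp, 1, by rw [pow_one]; exact hkp⟩) hkp)

end Cfsg.Agent.H93SCNtOdd
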