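import Cfsg.Agent.Lib.Helper93SCDefs
import Cfsg.Agent.Lib.H93SCNtLte

set_option autoImplicit false
open Cfsg Cfsg.Agent.Helper93SCDefs

namespace Cfsg.Agent.H93SCNtTwoB

theorem two_pow_zero (n : ℕ) : (2 : ZMod (2 ^ n)) ^ n = 0 := by
  have := ZMod.natCast_self (2 ^ n)
  push_cast at this
  exact this

theorem two_mul_half {n : ℕ} (hn : 1 ≤ n) : (2 : ZMod (2 ^ n)) * 2 ^ (n - 1) = 0 := by
  rw [← pow_succ', Nat.sub_add_cancel hn]
  exact two_pow_zero n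

theorem near_cases {n : ℕ} (hn : 1 ≤ n) (k : (ZMod (2 ^ n))ˣ) (h : Near 2 n k) :
    (k : ZMod (2 ^ n)) = 1 ∨ (k : ZMod (2 ^ n)) = 1 + 2 ^ (n - 1) := by
  obtain ⟨t, ht⟩ := h
  have h2 := two_mul_half hn
  rcases Nat.even_or_odd' t with ⟨j, rfl | rfl⟩
  · left
    rw [ht]
    push_cast
    linear_combination (j : ZMod (2 ^ n)) * h2
  · right
    rw [ht]
    push_cast
    linear_combination (j : ZMod (2 ^ n)) * h2

theorem val_odd {n : ℕ} (hn : 1 ≤ n) (k : (ZMod (2 ^ n))ˣ) : (k : ZMod (2 ^ n)).val % 2 = 1 := by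
  have h := ZMod.val_coe_unit_coprime k
  have h2 : Nat.Coprime (k : ZMod (2 ^ n)).val 2 :=
    Nat.Coprime.coprime_dvd_right (dvd_pow_self 2 (by omega)) h
  rw [Nat.coprime_two_right] at h2
  exact Nat.odd_iff.1 h2

theorem four_dvd {n : ℕ} (hn : 2 ≤ n) : 4 ∣ 2 ^ n := by
  have : (4 : ℕ) = 2 ^ 2 := by norm_num
  rw [this]
  exact pow_dvd_pow 2 hn

theorem sq_val {n : ℕ} (hn : 2 ≤ n) (x : (ZMod (2 ^ n))ˣ) :
    ((x ^ 2 : (ZMod (2 ^ n))ˣ) : ZMod (2 ^ n)).val % 4 = 1 := by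
  have hodd := val_odd (by omega) x
  rw [Units.val_pow_eq_pow_val, pow_two, ZMod.val_mul, Nat.mod_mod_of_dvd _ (four_dvd hn),
    Nat.mul_mod]
  have : (x : ZMod (2 ^ n)).val % 4 = 1 ∨ (x : ZMod (2 ^ n)).val % 4 = 3 := by omega
  rcases this with h | h <;> rw [h]

/-- an involution which is `1 mod 4` -/
theorem roots_one {n : ℕ} (hn : 1 ≤ n) (k : (ZMod (2 ^ n))ˣ) (hk : k ^ 2 = 1)
    (h4 : (k : ZMod (2 ^ n)).val % 4 = 1) :
    (k : ZMod (2 ^ n)) = 1 ∨ (k : ZMod (2 ^ n)) = 1 + 2 ^ (n - 1) := by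
  haveI : Fact (Nat.Prime 2) := ⟨Nat.prime_two⟩
  exact near_cases hn k (Cfsg.Agent.H93SCNtLte.near_of_pow (p := 2) k (Or.inr ⟨rfl, h4⟩) hk)

/-- PIECE NtTwoB (45m).  The four square roots of 1 mod `2^n`, `n ≥ 3`.
Sketch: `(k:ZMod _).val` is odd.  If `val % 4 = 1`: `H93SCNtLte.near_of_pow (p := 2)` gives `k = 1 + t 2^(n-1)`, `t` even/odd gives `1` / `1 + 2^(n-1)`
(`2 * 2^(n-1) = 2^n = 0` in `ZMod (2^n)`).  If `val % 4 = 3`: apply the same to `-k` (`(-k).val = 2^n - k.val`, `% 4 = 1` as `4 ∣ 2^n`), and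
`-(1 + 2^(n-1)) = -1 + 2^(n-1)` because `2^(n-1) + 2^(n-1) = 0`. -/
theorem roots {n : ℕ} (hn : 3 ≤ n) (k : (ZMod (2 ^ n))ˣ) (hk : k ^ 2 = 1) :
    (k : ZMod (2 ^ n)) = 1 ∨ (k : ZMod (2 ^ n)) = -1 ∨ (k : ZMod (2 ^ n)) = 1 + 2 ^ (n - 1) ∨
      (k : ZMod (2 ^ n)) = -1 + 2 ^ (n - 1) := by
  have hodd := val_odd (by omega : 1 ≤ n) k
  have hcase : (k : ZMod (2 ^ n)).val % 4 = 1 ∨ (k : ZMod (2 ^ n)).val % 4 = 3 := by omega
  rcases hcase with h | h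
  · rcases roots_one (by omega) k hk h with h1 | h1
    · exact Or.inl h1
    · exact Or.inr (Or.inr (Or.inl h1))
  · have hk' : (-k) ^ 2 = 1 := by rw [neg_sq, hk]
    haveI : NeZero (2 ^ n) := ⟨(pow_pos (by norm_num) n).ne'⟩
    have hne : (k : ZMod (2 ^ n)) ≠ 0 := by
      intro h0
      rw [h0, ZMod.val_zero] at h
      omega
    have hval : ((-k : (ZMod (2 ^ n))ˣ) : ZMod (2 ^ n)).val % 4 = 1 := by
      rw [Units.val_neg, ZMod.neg_val, if_neg hne]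
      obtain ⟨c, hc⟩ := four_dvd (by omega : 2 ≤ n)
      have hlt := ZMod.val_lt (k : ZMod (2 ^ n))
      omega
    have h2 := two_mul_half (by omega : 1 ≤ n)
    rcases roots_one (by omega) (-k) hk' hval with h1 | h1
    · right; left
      rw [Units.val_neg] at h1
      linear_combination -h1
    · right; right; right
      rw [Units.val_neg] at h1
      linear_combination -h1 - h2

end Cfsg.Agent.H93SCNtTwoB
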