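import Cfsg.Agent.Lib.Helper93SCDefs
import Cfsg.Agent.Lib.H93SCNtLte
import Cfsg.Agent.Lib.H93SCNtTwoB

set_option autoImplicit false
open Cfsg Cfsg.Agent.Helper93SCDefs

namespace Cfsg.Agent.H93SCNtTwoA

/-- PIECE NtTwoA (60m).  `n ≥ 3`, `A ≤ (ZMod (2^n))ˣ` not containing `1 + 2^(n-1)`: then `A` has exponent 2.
Proof: if `x ∈ A`, `x ^ 2 ^ (i+2) = 1` then `y = x ^ 2 ^ (i+1)` is a square with `y ^ 2 = 1`, so `y = 1` or `1 + 2^(n-1)`, so `y = 1`; descend. -/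
theorem sq_eq_one {n : ℕ} (hn : 3 ≤ n) (A : Subgroup (ZMod (2 ^ n))ˣ)
    (hA : ∀ k ∈ A, (k : ZMod (2 ^ n)) ≠ 1 + 2 ^ (n - 1)) : ∀ k ∈ A, k ^ 2 = 1 := by
  intro k hk
  have key : ∀ i : ℕ, k ^ (2 ^ (i + 1)) = 1 → k ^ 2 = 1 := by
    intro i
    induction i with
    | zero => intro h; simpa using h
    | succ i ih =>
      intro h
      apply ih
      have hy2 : (k ^ (2 ^ (i + 1))) ^ 2 = 1 := by
        rw [← pow_mul, ← pow_succ]; exact h
      have hsq : k ^ (2 ^ (i + 1)) = (k ^ (2 ^ i)) ^ 2 := by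
        rw [← pow_mul, ← pow_succ]
      have hval : ((k ^ (2 ^ (i + 1)) : (ZMod (2 ^ n))ˣ) : ZMod (2 ^ n)).val % 4 = 1 := by
        rw [hsq]
        exact Cfsg.Agent.H93SCNtTwoB.sq_val (by omega) _
      rcases Cfsg.Agent.H93SCNtTwoB.roots_one (by omega) _ hy2 hval with h1 | h1
      · exact Units.ext h1
      · exact absurd h1 (hA _ (A.pow_mem hk _))
  have htot : k ^ (2 ^ (n - 2 + 1)) = 1 := by
    have h1 := ZMod.pow_totient k
    rw [Nat.totient_prime_pow Nat.prime_two (by omega)] at h1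
    have e : n - 2 + 1 = n - 1 := by omega
    rw [e]
    simpa using h1
  exact key _ htot

end Cfsg.Agent.H93SCNtTwoA
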