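import Cfsg.Agent.Lib.Helper93SCDefs
import Cfsg.Agent.Lib.H93SCNtTwoA
import Cfsg.Agent.Lib.H93SCNtTwoB

set_option autoImplicit false
set_option linter.style.haveILetI false
open Cfsg Cfsg.Agent.Helper93SCDefs

namespace Cfsg.Agent.H93SCNtTwo

theorem card_two {H : Type*} [Group H] (A : Subgroup H) (k₀ : H) (hk₀ : k₀ ∈ A) (h1 : k₀ ≠ 1)
    (hall : ∀ k ∈ A, k = 1 ∨ k = k₀) : Nat.card A = 2 := by
  have hsq : k₀ ^ 2 = 1 := by
    rcases hall _ (A.pow_mem hk₀ 2) with h | h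
    · exact h
    · exfalso
      apply h1
      rw [pow_two] at h
      exact mul_eq_left.1 h
  have hord : orderOf k₀ = 2 := orderOf_eq_prime hsq h1
  have hA : A = Subgroup.zpowers k₀ := by
    apply le_antisymm
    · intro k hk
      rcases hall k hk with rfl | rfl
      · exact Subgroup.one_mem _
      · exact Subgroup.mem_zpowers _
    · rw [Subgroup.zpowers_le]; exact hk₀
  rw [hA, Nat.card_zpowers, hord]

theorem two_cases {n : ℕ} (A : Subgroup (ZMod (2 ^ n))ˣ) (hA1 : A ≠ ⊥) :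
    (3 ≤ n ∧ ∃ k ∈ A, (k : ZMod (2 ^ n)) = 1 + 2 ^ (n - 1)) ∨
    (2 ≤ n ∧ Nat.card A = 2 ∧ ∃ k ∈ A, (k : ZMod (2 ^ n)) = -1 ∨
      (3 ≤ n ∧ (k : ZMod (2 ^ n)) = -1 + 2 ^ (n - 1))) := by
  obtain ⟨k₀, hk₀, hk1⟩ : ∃ k₀ ∈ A, k₀ ≠ 1 := by
    by_contra hcon
    push Not at hcon
    exact hA1 ((Subgroup.eq_bot_iff_forall A).2 hcon)
  rcases n with _ | _ | _ | m
  · exfalso
    have : ∀ k : (ZMod (2 ^ 0))ˣ, k = 1 := by decide
    exact hk1 (this k₀)
  · exfalso
    have : ∀ k : (ZMod (2 ^ 1))ˣ, k = 1 := by decide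
    exact hk1 (this k₀)
  · right
    have h4 : ∀ k : (ZMod (2 ^ 2))ˣ, k = 1 ∨ k = -1 := by decide
    have hk₀' : k₀ = -1 := (h4 k₀).resolve_left hk1
    refine ⟨le_refl _, card_two A k₀ hk₀ hk1 ?_, k₀, hk₀, Or.inl (by rw [hk₀']; simp)⟩
    intro k _
    rw [hk₀']; exact h4 k
  · have hn : 3 ≤ m + 3 := by omega
    by_cases h : ∃ k ∈ A, (k : ZMod (2 ^ (m + 3))) = 1 + 2 ^ (m + 3 - 1)
    · exact Or.inl ⟨hn, h⟩
    · right
      push Not at h
      have hsq := H93SCNtTwoA.sq_eq_one hn A h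
      have h2P : (2 : ZMod (2 ^ (m + 3))) ^ (m + 3 - 1) + 2 ^ (m + 3 - 1) = 0 := by
        have h5 : (2 : ZMod (2 ^ (m + 3))) ^ (m + 3 - 1) + 2 ^ (m + 3 - 1)
            = ((2 ^ (m + 3) : ℕ) : ZMod (2 ^ (m + 3))) := by
          have : m + 3 - 1 = m + 2 := by omega
          rw [this]
          push_cast
          ring
        rw [h5]; exact ZMod.natCast_self _
      have hform : ∀ k ∈ A, k = 1 ∨ (k : ZMod (2 ^ (m + 3))) = -1 ∨
          (k : ZMod (2 ^ (m + 3))) = -1 + 2 ^ (m + 3 - 1) := by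
        intro k hk
        rcases H93SCNtTwoB.roots hn k (hsq k hk) with h1 | h1 | h1 | h1
        · exact Or.inl (Units.ext h1)
        · exact Or.inr (Or.inl h1)
        · exact absurd h1 (h k hk)
        · exact Or.inr (Or.inr h1)
      have hall : ∀ k ∈ A, k = 1 ∨ k = k₀ := by
        intro k hk
        by_contra hcon
        push Not at hcon
        obtain ⟨hc1, hc2⟩ := hcon
        have hprod := h (k * k₀) (A.mul_mem hk hk₀)
        apply hprod
        rw [Units.val_mul]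
        rcases (hform k hk).resolve_left hc1 with h1 | h1 <;>
          rcases (hform k₀ hk₀).resolve_left hk1 with h3 | h3
        · exact absurd (Units.ext (h1.trans h3.symm)) hc2
        · rw [h1, h3]; linear_combination -h2P
        · rw [h1, h3]; linear_combination -h2P
        · exact absurd (Units.ext (h1.trans h3.symm)) hc2
      refine ⟨by omega, card_two A k₀ hk₀ hk1 hall, k₀, hk₀, ?_⟩
      rcases (hform k₀ hk₀).resolve_left hk1 with h3 | h3
      · exact Or.inl h3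
      · exact Or.inr ⟨hn, h3⟩

end Cfsg.Agent.H93SCNtTwo
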