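import Cfsg.Agent.Lib.Helper93SCDefs
import Cfsg.Agent.Lib.H93SCPow
import Cfsg.Agent.Lib.H93SCNtSum
import Cfsg.Agent.Lib.H93SCNtE

set_option autoImplicit false
set_option linter.style.haveILetI false
open Cfsg Cfsg.Agent.Helper93SCDefs

namespace Cfsg.Agent.H93SCOrd

theorem exists_order_p {G : Type*} [Group G] {p n : ℕ} [Fact p.Prime] {U : Subgroup G} (D : Dat G p n U)
    (hn : 2 ≤ n) (hn2 : p = 2 → 3 ≤ n) (y : G)
    (hy : (D.κ y : ZMod (p ^ n)) = 1 + (p : ZMod (p ^ n)) ^ (n - 1)) :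
    ∃ y' : G, D.κ y' = D.κ y ∧ y' ^ p = 1 := by
  haveI : NeZero (p ^ n) := ⟨pow_ne_zero _ (Fact.out : p.Prime).ne_zero⟩
  have h1 : D.κ (y ^ p) = 1 := by rw [map_pow]; exact H93SCNtE.e_pow_p hn _ hy
  obtain ⟨b, hb⟩ := D.mem_iff.1 ((D.hker _).1 h1)
  have h2 : D.u ^ ((D.κ y : ZMod (p ^ n)) * b).val = D.u ^ b.val := by
    rw [← D.conj_zp, ← hb]
    group
  have h3 := zp_inj D.hu h2
  have h4 : b * (p : ZMod (p ^ n)) ^ (n - 1) = 0 := by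
    rw [hy] at h3
    linear_combination h3
  obtain ⟨c, hc⟩ := H93SCNtE.mul_ppow_eq_zero (by omega) b h4
  obtain ⟨v, hv⟩ := H93SCNtSum.sum_near hn hn2 (D.κ y) ⟨1, by rw [hy]; simp⟩
  set a : ZMod (p ^ n) := -c * ((v⁻¹ : (ZMod (p ^ n))ˣ) : ZMod (p ^ n)) with ha
  refine ⟨D.u ^ a.val * y, ?_, ?_⟩
  · rw [map_mul, (D.hker _).2 (D.mem_iff.2 ⟨a, rfl⟩), one_mul]
  · rw [H93SCPow.mul_pow_eq, hv, hb, ← zp_add D.u_pow]
    have h5 : a * ((p : ZMod (p ^ n)) * v) + b = 0 := by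
      rw [ha, hc]
      have hvv : ((v⁻¹ : (ZMod (p ^ n))ˣ) : ZMod (p ^ n)) * v = 1 := by
        rw [← Units.val_mul, inv_mul_cancel, Units.val_one]
      linear_combination (-c * p) * hvv
    rw [h5, zp_zero]

end Cfsg.Agent.H93SCOrd
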