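import Cfsg.Agent.Lib.Helper93SCDefs
import Cfsg.Agent.Lib.H93SCOrd
import Cfsg.Agent.Lib.H93SCMem
import Cfsg.Agent.Lib.H93SCClo
import Cfsg.Agent.Lib.H93SCCent
import Cfsg.Agent.Lib.H93SCNtE

set_option autoImplicit false
open Cfsg Cfsg.Agent.Helper93SCDefs

namespace Cfsg.Agent.H93SCOm

/-- PIECE Om.  `Ω₁(M)` is elementary abelian of order `p^2`. -/
theorem omega_M {G : Type*} [Group G] {p n : ℕ} [Fact p.Prime] {U : Subgroup G} (D : Dat G p n U)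
    (hn : 2 ≤ n) (hn2 : p = 2 → 3 ≤ n) (y : G)
    (hy : (D.κ y : ZMod (p ^ n)) = 1 + (p : ZMod (p ^ n)) ^ (n - 1)) :
    Cfsg.IsElementaryAbelian p (Cfsg.omegaOne p (Subgroup.centralizer (Cfsg.powerClosure p 1 U : Set G))) ∧
    Nat.card ↥(Cfsg.omegaOne p (Subgroup.centralizer (Cfsg.powerClosure p 1 U : Set G))) = p ^ 2 := by
  obtain ⟨y', h1, h2⟩ := H93SCOrd.exists_order_p D hn hn2 y hy
  have hy' : (D.κ y' : ZMod (p ^ n)) = 1 + (p : ZMod (p ^ n)) ^ (n - 1) := by rw [h1]; exact hy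
  have hn1 : 1 ≤ n := by omega
  have hzp : (D.u ^ (p ^ (n - 1))) ^ p = 1 := by
    rw [← pow_mul, ← pow_succ, Nat.sub_add_cancel hn1]; exact D.u_pow
  have hz1 : D.u ^ (p ^ (n - 1)) ≠ 1 := by
    intro h
    have h3 := orderOf_dvd_of_pow_eq_one h
    rw [D.hu] at h3
    have := (Nat.pow_dvd_pow_iff_le_right (Fact.out : p.Prime).one_lt).mp h3
    omega
  have hzU : D.u ^ (p ^ (n - 1)) ∈ U := U.pow_mem D.u_mem _
  have hcomm : D.u ^ (p ^ (n - 1)) * y' = y' * D.u ^ (p ^ (n - 1)) := by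
    have h3 : y' * D.u ^ (p ^ (n - 1)) * y'⁻¹ = D.u ^ (p ^ (n - 1)) := by
      have h5 := D.conj_zp y' ((p ^ (n - 1) : ℕ) : ZMod (p ^ n))
      rw [zp_natCast D.u_pow, hy'] at h5
      rw [h5]
      have h4 : (1 + (p : ZMod (p ^ n)) ^ (n - 1)) * ((p ^ (n - 1) : ℕ) : ZMod (p ^ n)) =
          ((p ^ (n - 1) : ℕ) : ZMod (p ^ n)) := by
        push_cast
        rw [add_mul, one_mul, ← pow_add]
        have h6 : (p : ZMod (p ^ n)) ^ (n - 1 + (n - 1)) = 0 := by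
          have : n - 1 + (n - 1) = n + (n - 2) := by omega
          rw [this, pow_add, H93SCCent.ppow_zero, zero_mul]
        rw [h6, add_zero]
      rw [h4, zp_natCast D.u_pow]
    exact (mul_inv_eq_iff_eq_mul.mp h3).symm
  have hyz : y' ∉ Subgroup.zpowers (D.u ^ (p ^ (n - 1))) := by
    intro h
    have h3 : y' ∈ U := (Subgroup.zpowers_le.mpr hzU) h
    exact H93SCNtE.e_ne_one hn (D.κ y') hy' ((D.hker y').mpr h3)
  have hzM : D.u ^ (p ^ (n - 1)) ∈ Subgroup.centralizer (Cfsg.powerClosure p 1 U : Set G) := by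
    rw [H93SCCent.mem_cent_iff D hn1, (D.hker _).mpr hzU]
    exact ⟨0, by simp⟩
  have hyM : y' ∈ Subgroup.centralizer (Cfsg.powerClosure p 1 U : Set G) := by
    rw [H93SCCent.mem_cent_iff D hn1]
    exact ⟨1, by rw [hy']; simp⟩
  exact H93SCClo.closure_two (D.u ^ (p ^ (n - 1))) y' hzp h2 hcomm hz1 hyz
    {x | x ∈ Subgroup.centralizer (Cfsg.powerClosure p 1 U : Set G) ∧ x ^ p = 1} ⟨hzM, hzp⟩ ⟨hyM, h2⟩
    (fun g hg => H93SCMem.mem_form D hn hn2 y' hy' h2 g ((H93SCCent.mem_cent_iff D hn1 g).mp hg.1) hg.2)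

end Cfsg.Agent.H93SCOm
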