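import Cfsg.Agent.Lib.Helper93SCDefs
import Cfsg.Agent.S0206
import Cfsg.Agent.Lib.Helper25Quat

set_option autoImplicit false
open Cfsg Cfsg.Agent.Helper93SCDefs

namespace Cfsg.Agent.H93SCRecD

/-- PIECE RecD.  `#G = 2^(n+1)`, `u` of order `2^n`, `g ∉ ⟨u⟩` inverts `u`: dihedral or generalized quaternion. -/
theorem rec_inv {G : Type*} [Group G] [Finite G] (n : ℕ) (hn : 2 ≤ n) (u g : G) (hu : orderOf u = 2 ^ n)
    (hcard : Nat.card G = 2 ^ (n + 1)) (hg : g ∉ Subgroup.zpowers u) (hc : g * u * g⁻¹ = u⁻¹) :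
    (∃ m : ℕ, Nonempty (G ≃* DihedralGroup m)) ∨ (∃ m : ℕ, Nonempty (G ≃* QuaternionGroup m)) := by
  obtain ⟨k, rfl⟩ : ∃ k, n = k + 2 := ⟨n - 2, by omega⟩
  have hAi : (Subgroup.zpowers u).index = 2 := by
    have h1 := (Subgroup.zpowers u).card_mul_index
    rw [Nat.card_zpowers, hu, hcard, pow_succ 2 (k + 2)] at h1
    exact Nat.eq_of_mul_eq_mul_left (by positivity) h1
  have hu1 : u ^ (2 ^ (k + 2)) = 1 := by rw [← hu]; exact pow_orderOf_eq_one u
  have hw : g ^ 2 ∈ Subgroup.zpowers u := Subgroup.sq_mem_of_index_two hAi g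
  obtain ⟨a', ha'⟩ := (mem_zpowers_iff_zp hu).mp hw
  obtain ⟨m, ha⟩ : ∃ m : ℕ, g ^ 2 = u ^ m := ⟨a'.val, ha'⟩
  clear ha' a'
  have h1 : g * g ^ 2 * g⁻¹ = (g ^ 2)⁻¹ := by
    rw [ha, ← conj_pow, hc, inv_pow]
  have h2 : g * g ^ 2 * g⁻¹ = g ^ 2 := by group
  have h5 : (g ^ 2) ^ 2 = 1 := by
    rw [pow_two (g ^ 2)]
    nth_rewrite 1 [← h2]
    rw [h1, inv_mul_cancel]
  have hg1 : g ≠ 1 := fun h => hg (h ▸ one_mem _)
  have htop : ∀ K : Subgroup G, u ∈ K → g ∈ K → K = ⊤ := by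
    intro K haK hbK
    rw [Subgroup.eq_top_iff']
    intro x
    by_cases hx : x ∈ Subgroup.zpowers u
    · exact (Subgroup.zpowers_le.mpr haK) hx
    · have h1 : x * g ∈ Subgroup.zpowers u := by
        rw [Subgroup.mul_mem_iff_of_index_two hAi]
        exact iff_of_false hx hg
      have := K.mul_mem ((Subgroup.zpowers_le.mpr haK) h1) (K.inv_mem hbK)
      simpa using this
  by_cases hg2 : g ^ 2 = 1
  · left
    refine ⟨2 ^ (k + 2), ?_⟩
    have ob : orderOf g = 2 := orderOf_eq_prime hg2 hg1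
    have hy2 : (g * u) ^ 2 = 1 := by
      have : (g * u) ^ 2 = (g * u * g⁻¹) * g ^ 2 * u := by rw [pow_two, pow_two]; group
      rw [this, hc, hg2]; group
    have hy1 : g * u ≠ 1 := by
      intro h
      apply hg
      rw [mul_eq_one_iff_eq_inv] at h
      rw [h]
      exact (Subgroup.zpowers u).inv_mem (Subgroup.mem_zpowers u)
    have oy : orderOf (g * u) = 2 := orderOf_eq_prime hy2 hy1
    have hxy : g ≠ g * u := by
      intro h
      have : u = 1 := by simpa using h.symm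
      rw [this, orderOf_one] at hu
      have : 2 ^ 2 ≤ 2 ^ (k + 2) := Nat.pow_le_pow_right (by norm_num) (by omega)
      omega
    have hiso := Cfsg.Agent.S0206.result g (g * u) ob oy hxy
    have e3 : g * (g * u) = u := by rw [← mul_assoc, ← pow_two, hg2, one_mul]
    rw [e3, hu] at hiso
    obtain ⟨f⟩ := hiso
    have hcl : Subgroup.closure ({g, g * u} : Set G) = ⊤ := by
      apply htop
      · have h1 : g ∈ Subgroup.closure ({g, g * u} : Set G) := Subgroup.subset_closure (by simp)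
        have h2 : g * u ∈ Subgroup.closure ({g, g * u} : Set G) := Subgroup.subset_closure (by simp)
        have := mul_mem (inv_mem h1) h2
        simpa using this
      · exact Subgroup.subset_closure (by simp)
    exact ⟨(Subgroup.topEquiv.symm.trans (MulEquiv.subgroupCongr hcl.symm)).trans f⟩
  · right
    have hz : g ^ 2 = u ^ (2 ^ (k + 1)) := by
      have h6 : u ^ (m * 2) = 1 := by rw [pow_mul, ← ha]; exact h5
      have h7 := orderOf_dvd_of_pow_eq_one h6
      rw [hu, pow_succ 2 (k + 1)] at h7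
      have h8 : 2 ^ (k + 1) ∣ m := Nat.dvd_of_mul_dvd_mul_right (by norm_num) h7
      obtain ⟨c, hc'⟩ := h8
      have hz2 : (u ^ (2 ^ (k + 1))) ^ 2 = 1 := by
        rw [← pow_mul, ← pow_succ]; exact hu1
      rcases Nat.even_or_odd' c with ⟨d, hd | hd⟩
      · exfalso
        apply hg2
        rw [ha, hc', hd, pow_mul, pow_mul, hz2, one_pow]
      · rw [ha, hc', hd, pow_mul, pow_succ, pow_mul, hz2, one_pow, one_mul]
    refine ⟨2 ^ (k + 1), ?_⟩
    have hq := Cfsg.Agent.Lib.Helper25Quat.nonempty_equiv (n := 2 ^ (k + 1)) (A := u) (B := g)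
      (by rw [hu]; ring) (by rw [← pow_two]; exact hz) hc hg ⊤
      (by rw [Nat.card_congr Subgroup.topEquiv.toEquiv, hcard]; ring) (Subgroup.mem_top _)
      (Subgroup.mem_top _)
    obtain ⟨f⟩ := hq
    exact ⟨Subgroup.topEquiv.symm.trans f⟩

end Cfsg.Agent.H93SCRecD
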