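import Cfsg.Agent.Lib.Helper93SCDefs

set_option autoImplicit false
open Cfsg Cfsg.Agent.Helper93SCDefs

namespace Cfsg.Agent.H93SCRecS

theorem gcd_aux (k : ℕ) : Nat.gcd (2 ^ (k + 2) - 2) (2 ^ (k + 3)) = 2 := by
  have h1 : 2 ^ (k + 2) - 2 = 2 * (2 ^ (k + 1) - 1) := by
    have : 1 ≤ 2 ^ (k + 1) := Nat.one_le_two_pow
    rw [pow_succ 2 (k + 1)]; omega
  have h2 : 2 ^ (k + 3) = 2 * 2 ^ (k + 2) := by rw [pow_succ 2 (k + 2)]; ring
  rw [h1, h2, Nat.gcd_mul_left]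
  have h3 : Nat.Coprime (2 ^ (k + 1) - 1) 2 := by
    rw [Nat.coprime_two_right]
    have : 2 ^ (k + 1) = 2 * 2 ^ k := by rw [pow_succ]; ring
    have h4 : 1 ≤ 2 ^ k := Nat.one_le_two_pow
    exact ⟨2 ^ k - 1, by omega⟩
  have h5 : Nat.gcd (2 ^ (k + 1) - 1) (2 ^ (k + 2)) = 1 := Nat.Coprime.pow_right _ h3
  rw [h5]

/-- PIECE RecS.  `#G = 2^(n+1)`, `n ≥ 3`, `u` of order `2^n`, `g ∉ ⟨u⟩`, `g u g⁻¹ = u^(2^(n-1) - 1)`: `G` is quasi-dihedral. -/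
theorem rec_sd {G : Type*} [Group G] [Finite G] (n : ℕ) (hn : 3 ≤ n) (u g : G) (hu : orderOf u = 2 ^ n)
    (hcard : Nat.card G = 2 ^ (n + 1)) (hg : g ∉ Subgroup.zpowers u)
    (hc : g * u * g⁻¹ = u ^ (2 ^ (n - 1) - 1)) : Cfsg.IsQuasiDihedral G := by
  obtain ⟨k, rfl⟩ : ∃ k, n = k + 3 := ⟨n - 3, by omega⟩
  have e1 : k + 3 - 1 = k + 2 := by omega
  have hc0 := hc
  rw [e1] at hc
  have hAi : (Subgroup.zpowers u).index = 2 := by
    have h1 := (Subgroup.zpowers u).card_mul_index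
    rw [Nat.card_zpowers, hu, hcard, pow_succ 2 (k + 3)] at h1
    exact Nat.eq_of_mul_eq_mul_left (by positivity) h1
  have hu1 : u ^ (2 ^ (k + 3)) = 1 := by rw [← hu]; exact pow_orderOf_eq_one u
  have hw : g ^ 2 ∈ Subgroup.zpowers u := Subgroup.sq_mem_of_index_two hAi g
  obtain ⟨a', ha'⟩ := (mem_zpowers_iff_zp hu).mp hw
  obtain ⟨m, ha⟩ : ∃ m : ℕ, g ^ 2 = u ^ m := ⟨a'.val, ha'⟩
  clear ha' a'
  have hpos : 4 ≤ 2 ^ (k + 2) := by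
    have : 2 ^ 2 ≤ 2 ^ (k + 2) := Nat.pow_le_pow_right (by norm_num) (by omega)
    omega
  have h1 : g * g ^ 2 * g⁻¹ = (g ^ 2) ^ (2 ^ (k + 2) - 1) := by
    rw [ha, ← conj_pow, hc, ← pow_mul, ← pow_mul, mul_comm]
  have h2 : g * g ^ 2 * g⁻¹ = g ^ 2 := by group
  have h3 : (g ^ 2) ^ (2 ^ (k + 2) - 2) = 1 := by
    have h : (g ^ 2) ^ (2 ^ (k + 2) - 2) * g ^ 2 = g ^ 2 := by
      rw [← pow_succ]
      have : 2 ^ (k + 2) - 2 + 1 = 2 ^ (k + 2) - 1 := by omega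
      rw [this, ← h1, h2]
    simpa using h
  have h4 : (g ^ 2) ^ (2 ^ (k + 3)) = 1 := by
    rw [ha, ← pow_mul, mul_comm, pow_mul, hu1, one_pow]
  have h5 : (g ^ 2) ^ 2 = 1 := by
    have := pow_gcd_eq_one.mpr ⟨h3, h4⟩
    rwa [gcd_aux] at this
  have hg1 : g ≠ 1 := fun h => hg (h ▸ one_mem _)
  by_cases hg2 : g ^ 2 = 1
  · exact ⟨k + 3, by omega, hcard, u, g, hu, orderOf_eq_prime hg2 hg1, hc0⟩
  · -- g^2 = z
    have hz : g ^ 2 = u ^ (2 ^ (k + 2)) := by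
      have h6 : u ^ (m * 2) = 1 := by rw [pow_mul, ← ha]; exact h5
      have h7 := orderOf_dvd_of_pow_eq_one h6
      rw [hu, pow_succ 2 (k + 2)] at h7
      have h8 : 2 ^ (k + 2) ∣ m := Nat.dvd_of_mul_dvd_mul_right (by norm_num) h7
      obtain ⟨c, hc'⟩ := h8
      have hz2 : (u ^ (2 ^ (k + 2))) ^ 2 = 1 := by
        rw [← pow_mul, ← pow_succ]; exact hu1
      rcases Nat.even_or_odd' c with ⟨d, hd | hd⟩
      · exfalso
        apply hg2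
        rw [ha, hc', hd, pow_mul, pow_mul, hz2, one_pow]
      · rw [ha, hc', hd, pow_mul, pow_succ, pow_mul, hz2, one_pow, one_mul]
    have hy2 : (g * u) ^ 2 = 1 := by
      have : (g * u) ^ 2 = (g * u * g⁻¹) * g ^ 2 * u := by rw [pow_two, pow_two]; group
      rw [this, hc, hz, ← pow_add, ← pow_succ]
      have : 2 ^ (k + 2) - 1 + 2 ^ (k + 2) + 1 = 2 ^ (k + 3) := by
        rw [pow_succ 2 (k + 2)]; omega
      rw [this, hu1]
    have hy1 : g * u ≠ 1 := by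
      intro h
      apply hg
      rw [mul_eq_one_iff_eq_inv] at h
      rw [h]
      exact inv_mem (Subgroup.mem_zpowers u)
    refine ⟨k + 3, by omega, hcard, u, g * u, hu, orderOf_eq_prime hy2 hy1, ?_⟩
    rw [← hc0]; group

end Cfsg.Agent.H93SCRecS
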