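import Cfsg.Agent.Lib.Helper93SCDefs
import Cfsg.Agent.Lib.H93SCRecD
import Cfsg.Agent.Lib.H93SCRecS

set_option autoImplicit false
open Cfsg Cfsg.Agent.Helper93SCDefs

namespace Cfsg.Agent.H93SCPartA

theorem neg_one_ne {n : ℕ} (hn : 2 ≤ n) : (-1 : ZMod (2 ^ n)) ≠ 1 := by
  intro h
  have h1 : ((2 : ℕ) : ZMod (2 ^ n)) = 0 := by
    push_cast
    have : (1 : ZMod (2 ^ n)) + 1 = 0 := by nth_rewrite 1 [← h]; ring
    rw [← this]; ring
  rw [ZMod.natCast_eq_zero_iff] at h1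
  have h2 : 2 ^ 2 ≤ 2 ^ n := Nat.pow_le_pow_right (by norm_num) hn
  have := Nat.le_of_dvd (by norm_num) h1
  omega

theorem cast_sd {n : ℕ} (hn : 1 ≤ n) : (-1 + 2 ^ (n - 1) : ZMod (2 ^ n)) = ((2 ^ (n - 1) - 1 : ℕ) : ZMod (2 ^ n)) := by
  rw [Nat.cast_sub Nat.one_le_two_pow]
  push_cast
  ring

theorem sd_ne {n : ℕ} (hn : 3 ≤ n) : (-1 + 2 ^ (n - 1) : ZMod (2 ^ n)) ≠ 1 := by
  intro h
  obtain ⟨k, rfl⟩ : ∃ k, n = k + 3 := ⟨n - 3, by omega⟩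
  have e1 : k + 3 - 1 = k + 2 := by omega
  rw [e1] at h
  have hpos : 4 ≤ 2 ^ (k + 2) := by
    have : 2 ^ 2 ≤ 2 ^ (k + 2) := Nat.pow_le_pow_right (by norm_num) (by omega)
    omega
  have h1 : ((2 ^ (k + 2) - 2 : ℕ) : ZMod (2 ^ (k + 3))) = 0 := by
    rw [Nat.cast_sub (by omega)]
    push_cast
    have : (2 : ZMod (2 ^ (k + 3))) ^ (k + 2) = 1 + 1 := by
      have h' := congrArg (fun x => x + 1) h
      simpa using h'
    rw [this]; ring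
  rw [ZMod.natCast_eq_zero_iff] at h1
  have := Nat.le_of_dvd (by omega) h1
  rw [pow_succ 2 (k + 2)] at this
  omega

/-- PIECE PartA.  The case `#(G/U) = 2` with action `-1` or `-1 + 2^(n-1)`. -/
theorem partA {G : Type*} [Group G] [Finite G] {n : ℕ} {U : Subgroup G} (D : Dat G 2 n U) (hn : 2 ≤ n)
    (hcard : Nat.card D.κ.range = 2) (g : G)
    (hg : (D.κ g : ZMod (2 ^ n)) = -1 ∨ (3 ≤ n ∧ (D.κ g : ZMod (2 ^ n)) = -1 + 2 ^ (n - 1))) :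
    Nat.card G = 2 ^ (n + 1) ∧ ((∃ m : ℕ, Nonempty (G ≃* DihedralGroup m)) ∨
      (∃ m : ℕ, Nonempty (G ≃* QuaternionGroup m)) ∨ Cfsg.IsQuasiDihedral G) := by
  haveI : Fact (Nat.Prime 2) := ⟨Nat.prime_two⟩
  have hker : D.κ.ker = U := by
    ext x; rw [MonoidHom.mem_ker]; exact D.hker x
  have hUc : Nat.card U = 2 ^ n := by
    rw [D.hU, Nat.card_zpowers, D.hu]
  have hG : Nat.card G = 2 ^ (n + 1) := by
    have h1 := Subgroup.card_mul_index D.κ.ker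
    rw [Subgroup.index_ker, hcard, hker, hUc] at h1
    rw [← h1, pow_succ]
  have hgU : g ∉ Subgroup.zpowers D.u := by
    intro h
    have h1 : g ∈ U := (SetLike.ext_iff.mp D.hU g).mpr h
    have h2 := (D.hker g).mpr h1
    rw [h2] at hg
    rcases hg with h3 | ⟨hn3, h3⟩
    · exact neg_one_ne hn h3.symm
    · exact sd_ne hn3 h3.symm
  refine ⟨hG, ?_⟩
  rcases hg with h3 | ⟨hn3, h3⟩
  · have hc : g * D.u * g⁻¹ = D.u⁻¹ := by
      rw [D.hκ, h3, zp_neg D.u_pow, zp_one D.u_pow]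
    rcases H93SCRecD.rec_inv n hn D.u g D.hu hG hgU hc with h | h
    · exact Or.inl h
    · exact Or.inr (Or.inl h)
  · have hc : g * D.u * g⁻¹ = D.u ^ (2 ^ (n - 1) - 1) := by
      rw [D.hκ, h3, cast_sd (by omega), zp_natCast D.u_pow]
    exact Or.inr (Or.inr (H93SCRecS.rec_sd n hn3 D.u g D.hu hG hgU hc))

end Cfsg.Agent.H93SCPartA
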