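import Cfsg.Agent.Lib.Helper93SYDefs

set_option autoImplicit false
open Cfsg Cfsg.Agent.Helper93SYDefs
open scoped commutatorElement

namespace Cfsg.Agent.H93SYClT

/-- PIECE ClT.  If the generators commute modulo a central subgroup `T`, so does the generated subgroup. -/
theorem comm_closure {G : Type*} [Group G] (T : Subgroup G) (hTcen : ∀ t ∈ T, ∀ g : G, t * g = g * t)
    (S : Set G) (hS : ∀ a ∈ S, ∀ b ∈ S, ⁅a, b⁆ ∈ T) :
    ∀ a ∈ Subgroup.closure S, ∀ b ∈ Subgroup.closure S, ⁅a, b⁆ ∈ T := by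
  have hc : ∀ t ∈ T, ∀ g : G, Commute t g := hTcen
  -- step 1 : right variable
  have h1 : ∀ a ∈ S, ∀ b ∈ Subgroup.closure S, ⁅a, b⁆ ∈ T := by
    intro a ha b hb
    induction hb using Subgroup.closure_induction with
    | mem y hy => exact hS a ha y hy
    | one => simp
    | mul x y _ _ ihx ihy =>
      rw [comm_mul_right_of (hc _ ihy x).symm]
      exact T.mul_mem ihx ihy
    | inv x _ ihx =>
      have e : ⁅a, x⁻¹⁆ = x⁻¹ * ⁅a, x⁆⁻¹ * x := by
        simp only [commutatorElement_def]; group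
      rw [e, ((hc _ (T.inv_mem ihx)) x⁻¹).symm.eq, mul_assoc, inv_mul_cancel, mul_one]
      exact T.inv_mem ihx
  intro a ha b hb
  induction ha using Subgroup.closure_induction with
  | mem y hy => exact h1 y hy b hb
  | one => simp
  | mul x y _ _ ihx ihy =>
    rw [comm_mul_left_of (hc _ ihy x).symm (hc _ ihx _)]
    exact T.mul_mem ihx ihy
  | inv x _ ihx =>
    have e : ⁅x⁻¹, b⁆ = x⁻¹ * ⁅x, b⁆⁻¹ * x := by
      simp only [commutatorElement_def]; group
    rw [e, ((hc _ (T.inv_mem ihx)) x⁻¹).symm.eq, mul_assoc, inv_mul_cancel, mul_one]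
    exact T.inv_mem ihx

end Cfsg.Agent.H93SYClT
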