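import Cfsg.Agent.Lib.Helper93SYDefs
import Cfsg.Agent.Lib.Helper1UniqInv

set_option autoImplicit false
open Cfsg Cfsg.Agent.Helper93SYDefs
open scoped commutatorElement

namespace Cfsg.Agent.H93SYCyc

/-- a generator, elementwise. -/
theorem exists_gen {G : Type*} [Group G] [Finite G] (A : Subgroup G) (hA : IsCyclic A) :
    ∃ g ∈ A, orderOf g = Nat.card A ∧ ∀ x ∈ A, ∃ i : ℕ, x = g ^ i := by
  obtain ⟨⟨g, hg⟩, hgen⟩ := hA.exists_generator
  refine ⟨g, hg, ?_, ?_⟩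
  · have h1 : orderOf (⟨g, hg⟩ : A) = Nat.card A := orderOf_eq_card_of_forall_mem_zpowers hgen
    rw [← h1]
    exact (Subgroup.orderOf_mk g hg).symm
  · intro x hx
    have h2 := hgen ⟨x, hx⟩
    rw [← mem_powers_iff_mem_zpowers] at h2
    obtain ⟨i, hi⟩ := h2
    exact ⟨i, (congrArg Subtype.val hi).symm⟩

/-- PIECE Cyc (1). -/
theorem card_le_of_exp {G : Type*} [Group G] [Finite G] (A : Subgroup G) (hA : IsCyclic A) (e : ℕ) (he : 0 < e)
    (h : ∀ a ∈ A, a ^ e = 1) : Nat.card A ≤ e := by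
  obtain ⟨g, hg, ho, -⟩ := exists_gen A hA
  rw [← ho]
  exact Nat.le_of_dvd he (orderOf_dvd_of_pow_eq_one (h g hg))

/-- (2) -/
theorem exists_orderOf {G : Type*} [Group G] [Finite G] (A : Subgroup G) (hA : IsCyclic A) (e : ℕ)
    (he : e ∣ Nat.card A) : ∃ w ∈ A, orderOf w = e := by
  obtain ⟨g, hg, ho, -⟩ := exists_gen A hA
  obtain ⟨k, hk⟩ := he
  have hpos : 0 < Nat.card A := Nat.card_pos
  have hk0 : k ≠ 0 := by rintro rfl; simp at hk; omega
  refine ⟨g ^ k, A.pow_mem hg k, ?_⟩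
  rw [orderOf_pow_of_dvd hk0 (by rw [ho, hk]; exact Dvd.intro_left _ rfl), ho, hk]
  exact Nat.mul_div_cancel _ (Nat.pos_of_ne_zero hk0)

/-- (3) -/
theorem exists_root {G : Type*} [Group G] [Finite G] (A : Subgroup G) (hA : IsCyclic A) (r s : ℕ)
    (hrs : r * s = Nat.card A) (w : G) (hw : w ∈ A) (hwr : w ^ r = 1) : ∃ v ∈ A, w = v ^ s := by
  obtain ⟨g, hg, ho, hgen⟩ := exists_gen A hA
  obtain ⟨i, rfl⟩ := hgen w hw
  have hpos : 0 < Nat.card A := Nat.card_pos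
  have hr0 : 0 < r := by
    rcases Nat.eq_zero_or_pos r with h | h
    · subst h; simp at hrs; omega
    · exact h
  rw [← pow_mul] at hwr
  have h1 : r * s ∣ i * r := by
    rw [hrs, ← ho]; exact orderOf_dvd_of_pow_eq_one hwr
  have h2 : s ∣ i := by
    rw [mul_comm i r] at h1
    exact Nat.dvd_of_mul_dvd_mul_left hr0 h1
  obtain ⟨j, rfl⟩ := h2
  exact ⟨g ^ j, A.pow_mem hg j, by rw [← pow_mul, mul_comm]⟩

/-- (4) -/
theorem mem_of_pow {G : Type*} [Group G] [Finite G] (A T : Subgroup G) (hA : IsCyclic A) (hTA : T ≤ A)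
    (y : G) (hy : y ∈ A) (hyp : y ^ Nat.card T = 1) : y ∈ T := by
  have hc : Nat.card (T.subgroupOf A) = Nat.card T :=
    Nat.card_congr (Subgroup.subgroupOfEquivOfLe hTA).toEquiv
  have h1 : (⟨y, hy⟩ : A) ^ Nat.card (T.subgroupOf A) = 1 := by
    rw [hc]; exact Subtype.ext hyp
  have h2 := Cfsg.Agent.Lib.Helper1UniqInv.mem_of_pow_card_eq_one (T.subgroupOf A) h1
  exact Subgroup.mem_subgroupOf.mp h2

end Cfsg.Agent.H93SYCyc
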