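import Cfsg.Agent.Lib.Helper93SYDefs
import Cfsg.Agent.Lib.Helper36Extra

set_option autoImplicit false
open Cfsg Cfsg.Agent.Helper93SYDefs
open scoped commutatorElement

namespace Cfsg.Agent.H93SYPair

/-- PIECE Pair.  Left and right kernels of a pairing with values in a group of prime order have the same index. -/
theorem pair_index {A B T : Type*} [Group A] [Group B] [CommGroup T] [Finite A] [Finite B] [Finite T]
    {p : ℕ} [Fact p.Prime] (hT : Nat.card T = p) (f : A →* (B →* T)) :
    f.ker.index = f.flip.ker.index := by
  have hp : p.Prime := Fact.out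
  have hnt : Nontrivial T := by
    rw [← Finite.one_lt_card_iff_nontrivial, hT]; exact hp.one_lt
  obtain ⟨a, ha⟩ := exists_ne (1 : T)
  obtain ⟨ι, hι⟩ := CommGroup.exists_apply_ne_one_of_hasEnoughRootsOfUnity T ℂ ha
  have hker : ι.ker = ⊥ := by
    have : Fact (Nat.card T).Prime := ⟨hT ▸ hp⟩
    rcases Subgroup.eq_bot_or_eq_top_of_prime_card ι.ker with h | h
    · exact h
    · exfalso; apply hι
      have : a ∈ ι.ker := h ▸ Subgroup.mem_top a
      exact this
  have hinj : Function.Injective ι := (MonoidHom.ker_eq_bot_iff ι).mp hker
  let f' : A →* (B →* ℂˣ) := (MonoidHom.compHom ι).comp f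
  have h1 : f'.ker = f.ker := by
    ext x
    simp only [MonoidHom.mem_ker]
    constructor
    · intro h
      ext b
      have := DFunLike.congr_fun h b
      apply hinj
      simpa [f'] using this
    · intro h
      ext b
      simp [f', h]
  have h2 : f'.flip.ker = f.flip.ker := by
    ext x
    simp only [MonoidHom.mem_ker]
    constructor
    · intro h
      ext b
      have := DFunLike.congr_fun h b
      apply hinj
      simpa [f'] using this
    · intro h
      ext b
      have := DFunLike.congr_fun h b
      simp only [MonoidHom.flip_apply, MonoidHom.one_apply] at this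
      simp [f', this]
  rw [← h1, ← h2]
  exact Cfsg.Agent.Lib.Helper36Extra.index_ker_eq f'

end Cfsg.Agent.H93SYPair
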