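import Cfsg.Agent.Lib.Helper93SYDefs
import Cfsg.Agent.Lib.H93SYPair

set_option autoImplicit false
open Cfsg Cfsg.Agent.Helper93SYDefs
open scoped commutatorElement

namespace Cfsg.Agent.H93SYDualA

/-- PIECE DualA.  `[X,X] ≤ T` central of order `p`, `Z(X) ≤ H < X`: some `k ∈ C_X(H)` is not central in `X`. -/
theorem exists_cent {G : Type*} [Group G] [Finite G] {p : ℕ} [Fact p.Prime] (T X H : Subgroup G)
    (hTc : Nat.card T = p) (hTcen : ∀ t ∈ T, ∀ g : G, t * g = g * t)
    (hX : ∀ x ∈ X, ∀ y ∈ X, ⁅x, y⁆ ∈ T) (hHX : H < X)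
    (hZ : ∀ x ∈ X, (∀ y ∈ X, x * y = y * x) → x ∈ H) :
    ∃ k ∈ X, (∀ a ∈ H, k * a = a * k) ∧ ∃ x ∈ X, k * x ≠ x * k := by
  by_contra hcon
  push Not at hcon
  have hTcomm : ∀ a b : T, a * b = b * a := fun a b => Subtype.ext (hTcen a a.2 b)
  letI : CommGroup T := { (inferInstance : Group T) with mul_comm := hTcomm }
  let f0 : ↥H → (↥X →* ↥T) := fun a =>
    { toFun := fun x => ⟨⁅(a : G), (x : G)⁆, hX a (hHX.le a.2) x x.2⟩
      map_one' := by ext; simp
      map_mul' := fun x y => by
        ext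
        exact comm_mul_right_of (hTcen _ (hX a (hHX.le a.2) y y.2) x).symm }
  let f : ↥H →* (↥X →* ↥T) :=
    { toFun := f0
      map_one' := by ext x; simp [f0]
      map_mul' := fun a b => by
        ext x
        exact comm_mul_left_of (hTcen _ (hX b (hHX.le b.2) x x.2) a).symm
          (hTcen _ (hX a (hHX.le a.2) x x.2) _) }
  have hf : ∀ (a : ↥H) (x : ↥X), ((f a x : ↥T) : G) = ⁅(a : G), (x : G)⁆ := fun a x => rfl
  have hidx := H93SYPair.pair_index hTc f
  have h1 : (f.ker).map H.subtype = X ⊓ Subgroup.centralizer (X : Set G) := by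
    ext g
    rw [Subgroup.mem_inf, Subgroup.mem_centralizer_iff]
    constructor
    · rintro ⟨a, ha, rfl⟩
      refine ⟨hHX.le a.2, ?_⟩
      intro x hx
      have h3 : f a ⟨x, hx⟩ = 1 := by
        have : f a = 1 := ha
        rw [this]; rfl
      have h4 : ⁅(a : G), x⁆ = 1 := by
        have := congrArg Subtype.val h3
        simpa [hf] using this
      exact (commutatorElement_eq_one_iff_commute.mp h4).symm.eq
    · rintro ⟨hgX, hgc⟩
      have hgH : g ∈ H := hZ g hgX (fun y hy => (hgc y hy).symm)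
      refine ⟨⟨g, hgH⟩, ?_, rfl⟩
      show f ⟨g, hgH⟩ = 1
      ext x
      rw [hf]
      show ⁅g, (x : G)⁆ = 1
      exact commutatorElement_eq_one_iff_commute.mpr (hgc x x.2).symm
  have h2 : (f.flip.ker).map X.subtype = X ⊓ Subgroup.centralizer (X : Set G) := by
    ext g
    rw [Subgroup.mem_inf, Subgroup.mem_centralizer_iff]
    constructor
    · rintro ⟨x, hx, rfl⟩
      refine ⟨x.2, ?_⟩
      have h5 : ∀ a ∈ H, (x : G) * a = a * x := by
        intro a ha
        have h3 : f.flip x ⟨a, ha⟩ = 1 := by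
          have : f.flip x = 1 := hx
          rw [this]; rfl
        have h4 : ⁅a, (x : G)⁆ = 1 := by
          have := congrArg Subtype.val h3
          simpa [hf] using this
        exact (commutatorElement_eq_one_iff_commute.mp h4).symm.eq
      intro y hy
      exact (hcon x x.2 h5 y hy).symm
    · rintro ⟨hgX, hgc⟩
      refine ⟨⟨g, hgX⟩, ?_, rfl⟩
      show f.flip ⟨g, hgX⟩ = 1
      ext a
      show ((f a ⟨g, hgX⟩ : ↥T) : G) = 1
      rw [hf]
      exact commutatorElement_eq_one_iff_commute.mpr (hgc a (hHX.le a.2))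
  have c1 : Nat.card f.ker = Nat.card f.flip.ker := by
    rw [← Subgroup.card_map_of_injective (K := f.ker) H.subtype_injective,
      ← Subgroup.card_map_of_injective (K := f.flip.ker) X.subtype_injective, h1, h2]
  have c2 := Subgroup.card_mul_index f.ker
  have c3 := Subgroup.card_mul_index f.flip.ker
  rw [c1, hidx, c3] at c2
  have hle : X ≤ H := by
    have := Subgroup.eq_of_le_of_card_ge hHX.le (le_of_eq c2)
    exact this ▸ le_rfl
  exact absurd hHX (not_lt_of_ge hle)

end Cfsg.Agent.H93SYDualA
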