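import Cfsg.Agent.Lib.Helper93SYDefs
import Cfsg.Agent.Lib.H93SYDualA

set_option autoImplicit false
open Cfsg Cfsg.Agent.Helper93SYDefs
open scoped commutatorElement

namespace Cfsg.Agent.H93SYDual

/-- PIECE Dual.  Every homomorphism `lam : X → T` trivial on `Z(X)` is `x ↦ ⁅x, k⁆` for some `k ∈ X`. -/
theorem dual {G : Type*} [Group G] [Finite G] {p : ℕ} [Fact p.Prime] (T X : Subgroup G)
    (hTc : Nat.card T = p) (hTcen : ∀ t ∈ T, ∀ g : G, t * g = g * t)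
    (hX : ∀ x ∈ X, ∀ y ∈ X, ⁅x, y⁆ ∈ T) (lam : G → G) (h1 : ∀ x ∈ X, lam x ∈ T)
    (h2 : ∀ x ∈ X, ∀ y ∈ X, lam (x * y) = lam x * lam y)
    (h3 : ∀ x ∈ X, (∀ y ∈ X, x * y = y * x) → lam x = 1) :
    ∃ k ∈ X, ∀ x ∈ X, lam x = ⁅x, k⁆ := by
  by_cases hall : ∀ x ∈ X, lam x = 1
  · exact ⟨1, X.one_mem, fun x hx => by rw [hall x hx]; simp⟩
  push Not at hall
  obtain ⟨x₀, hx₀, hx₀1⟩ := hall
  have hl1 : lam 1 = 1 := by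
    have := h2 1 X.one_mem 1 X.one_mem
    simpa using this
  have hlinv : ∀ x ∈ X, lam x⁻¹ = (lam x)⁻¹ := by
    intro x hx
    have := h2 x hx x⁻¹ (inv_mem hx)
    rw [mul_inv_cancel, hl1] at this
    exact (inv_eq_of_mul_eq_one_right this.symm).symm
  let H : Subgroup G :=
    { carrier := {x | x ∈ X ∧ lam x = 1}
      one_mem' := ⟨X.one_mem, hl1⟩
      mul_mem' := fun {a b} ha hb => ⟨X.mul_mem ha.1 hb.1, by rw [h2 a ha.1 b hb.1, ha.2, hb.2, one_mul]⟩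
      inv_mem' := fun {a} ha => ⟨X.inv_mem ha.1, by rw [hlinv a ha.1, ha.2, inv_one]⟩ }
  have memH : ∀ x, x ∈ H ↔ x ∈ X ∧ lam x = 1 := fun x => Iff.rfl
  have hHX : H < X := by
    refine lt_of_le_of_ne (fun x hx => hx.1) ?_
    intro he
    have : x₀ ∈ H := he ▸ hx₀
    exact hx₀1 this.2
  obtain ⟨k₀, hk₀, hk₀H, x₁, hx₁, hx₁k⟩ := H93SYDualA.exists_cent T X H hTc hTcen hX hHX
    (fun x hx hc => ⟨hx, h3 x hx hc⟩)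
  have hc1 : ⁅x₁, k₀⁆ ≠ 1 := by
    intro h
    exact hx₁k (commutatorElement_eq_one_iff_commute.mp h).symm.eq
  have hcT : ⁅x₁, k₀⁆ ∈ T := hX x₁ hx₁ k₀ hk₀
  have hgen : ∀ d ∈ T, d ≠ 1 → ∀ t ∈ T, ∃ i : ℕ, t = d ^ i := by
    intro d hd hd1 t ht
    have hd1' : (⟨d, hd⟩ : T) ≠ 1 := fun h => hd1 (congrArg Subtype.val h)
    obtain ⟨i, hi⟩ := mem_powers_of_prime_card hTc hd1' (g' := ⟨t, ht⟩)
    exact ⟨i, by simpa using (congrArg Subtype.val hi).symm⟩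
  have hlx₁ : lam x₁ ≠ 1 := by
    intro h
    exact hx₁k (hk₀H x₁ ⟨hx₁, h⟩)
  obtain ⟨j, hj⟩ := hgen _ hcT hc1 (lam x₁) (h1 x₁ hx₁)
  refine ⟨k₀ ^ j, pow_mem hk₀ j, ?_⟩
  intro x hx
  obtain ⟨i, hi⟩ := hgen (lam x₁) (h1 x₁ hx₁) hlx₁ (lam x) (h1 x hx)
  have hlpow : ∀ i : ℕ, lam (x₁ ^ i) = (lam x₁) ^ i := by
    intro i
    induction i with
    | zero => simpa using hl1
    | succ i ih => rw [pow_succ, h2 _ (pow_mem hx₁ i) _ hx₁, ih, pow_succ]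
  have haH : x * (x₁ ^ i)⁻¹ ∈ H :=
    ⟨mul_mem hx (inv_mem (pow_mem hx₁ i)), by
      rw [h2 _ hx _ (inv_mem (pow_mem hx₁ i)), hlinv _ (pow_mem hx₁ i), hlpow, hi, mul_inv_cancel]⟩
  have hxa : x = x * (x₁ ^ i)⁻¹ * x₁ ^ i := by group
  have e1 : ⁅x₁ ^ i, k₀ ^ j⁆ = ⁅x₁, k₀⁆ ^ (j * i) := by
    rw [Cfsg.Agent.Lib.Helper3Class2.commutator_pow_left x₁ (k₀ ^ j)
      (hTcen _ (hX x₁ hx₁ _ (pow_mem hk₀ j)) x₁) i,
      Cfsg.Agent.Lib.Helper3Class2.commutator_pow_right x₁ k₀ (hTcen _ hcT k₀) j, ← pow_mul]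
  have e2 : ⁅x * (x₁ ^ i)⁻¹, k₀ ^ j⁆ = 1 := by
    rw [commutatorElement_eq_one_iff_commute]
    have : Commute k₀ (x * (x₁ ^ i)⁻¹) := hk₀H _ haH
    exact (this.pow_left j).symm
  have hT2 : ⁅x₁ ^ i, k₀ ^ j⁆ ∈ T := hX _ (pow_mem hx₁ i) _ (pow_mem hk₀ j)
  calc lam x = (lam x₁) ^ i := hi
    _ = ⁅x₁, k₀⁆ ^ (j * i) := by rw [hj, ← pow_mul]
    _ = ⁅x * (x₁ ^ i)⁻¹ * x₁ ^ i, k₀ ^ j⁆ := by
        rw [comm_mul_left_of (hTcen _ hT2 _).symm (hTcen _ hT2 _).symm, e2, one_mul, e1]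
    _ = ⁅x, k₀ ^ j⁆ := by rw [← hxa]

end Cfsg.Agent.H93SYDual
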