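import Cfsg.Agent.Lib.Helper93SYDefs
import Cfsg.Agent.Lib.H93SYCyc

set_option autoImplicit false
open Cfsg Cfsg.Agent.Helper93SYDefs
open scoped commutatorElement

namespace Cfsg.Agent.H93SYLam

/-- PIECE Lam.  `lam x := x^N`, `N = #Z`, on the critical subgroup `C`, when `ex p ∣ N`. -/
theorem lam_props {G : Type*} [Group G] [Finite G] {p : ℕ} [Fact p.Prime] {C Z T : Subgroup G}
    (h : Sy p C Z T) (hdvd : ex p ∣ Nat.card Z) :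
    (∀ x ∈ C, x ^ Nat.card Z ∈ T) ∧
    (∀ x ∈ C, ∀ y ∈ C, (x * y) ^ Nat.card Z = x ^ Nat.card Z * y ^ Nat.card Z) ∧
    (∀ x ∈ C, (∀ y ∈ C, x * y = y * x) → x ^ Nat.card Z = 1) ∧
    (∀ x ∈ C, x ^ Nat.card Z = 1 → ∃ k ∈ C, ∃ z ∈ Z, k ^ ex p = 1 ∧ x = k * z) := by
  obtain ⟨r, hr⟩ := hdvd
  have hZpow : ∀ z ∈ Z, z ^ Nat.card Z = 1 := by
    intro z hz
    have h1 : (⟨z, hz⟩ : Z) ^ Nat.card Z = 1 := pow_card_eq_one'
    have h2 := congrArg Subtype.val h1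
    rwa [Subgroup.coe_pow, Subgroup.coe_one] at h2
  refine ⟨?_, ?_, ?_, ?_⟩
  · intro x hx
    rw [h.T_iff]
    refine ⟨?_, ?_⟩
    · rw [hr, pow_mul]; exact Z.pow_mem (h.pow_ex_mem hx) r
    · rw [← pow_mul, mul_comm, pow_mul]; exact hZpow _ (h.pow x hx)
  · intro x hx y hy
    rw [hr, pow_mul, h.mul_pow_ex hx hy,
      (h.Z_comm (h.pow_ex_mem hx) (h.ZC (h.pow_ex_mem hy))).mul_pow, ← pow_mul, ← pow_mul]
  · intro x hx hxc
    exact hZpow x ((h.Zcen x).mpr hxc)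
  · intro x hx hx1
    have hw : (x ^ ex p) ^ r = 1 := by rw [← pow_mul, ← hr]; exact hx1
    obtain ⟨v, hv, hwv⟩ := H93SYCyc.exists_root Z h.Zcyc r (ex p) (by rw [hr, mul_comm]) (x ^ ex p)
      (h.pow_ex_mem hx) hw
    refine ⟨x * v⁻¹, C.mul_mem hx (C.inv_mem (h.ZC hv)), v, hv, ?_, by group⟩
    rw [h.mul_pow_ex hx (C.inv_mem (h.ZC hv)), hwv, inv_pow, mul_inv_cancel]

end Cfsg.Agent.H93SYLam
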