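import Cfsg.Agent.Lib.Helper93SYDefs

set_option autoImplicit false
open Cfsg Cfsg.Agent.Helper93SYDefs
open scoped commutatorElement

namespace Cfsg.Agent.H93SYPowKer

/-- PIECE PowKer (30m, pure Mathlib).  `closure_induction`; `(x⁻¹)^e = (x^e)⁻¹`. -/
theorem mem_powKer {G : Type*} [Group G] {X : Subgroup G} {e : ℕ}
    (hhom : ∀ x ∈ X, ∀ y ∈ X, (x * y) ^ e = x ^ e * y ^ e) (x : G) :
    x ∈ powKer X e ↔ x ∈ X ∧ x ^ e = 1 := by
  constructor
  · intro hx
    unfold powKer at hx
    induction hx using Subgroup.closure_induction with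
    | mem y hy => exact hy
    | one => exact ⟨X.one_mem, one_pow _⟩
    | mul a b _ _ iha ihb =>
      exact ⟨X.mul_mem iha.1 ihb.1, by rw [hhom a iha.1 b ihb.1, iha.2, ihb.2, one_mul]⟩
    | inv a _ iha => exact ⟨X.inv_mem iha.1, by rw [inv_pow, iha.2, inv_one]⟩
  · intro hx
    exact Subgroup.subset_closure hx

/-- as `H93SCCharO.omegaOne_char` (landed, project 3761): `Subgroup.characteristic_iff_map_le`, `MonoidHom.map_closure`. -/
theorem powKer_char {G : Type*} [Group G] (X : Subgroup G) [hX : X.Characteristic] (e : ℕ) :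
    (powKer X e).Characteristic := by
  rw [Subgroup.characteristic_iff_map_le]
  intro φ
  unfold powKer
  rw [MonoidHom.map_closure, Subgroup.closure_le]
  rintro _ ⟨x, ⟨hx1, hx2⟩, rfl⟩
  apply Subgroup.subset_closure
  refine ⟨?_, ?_⟩
  · have h := Subgroup.characteristic_iff_map_le.mp hX φ
    exact h ⟨x, hx1, rfl⟩
  · show (φ x) ^ e = 1
    rw [← map_pow, hx2, map_one]

/-- same proof for `Cfsg.powerClosure`. -/
theorem powerClosure_char {G : Type*} [Group G] (p n : ℕ) (X : Subgroup G) [hX : X.Characteristic] :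
    (Cfsg.powerClosure p n X).Characteristic := by
  rw [Subgroup.characteristic_iff_map_le]
  intro φ
  unfold Cfsg.powerClosure
  rw [MonoidHom.map_closure, Subgroup.closure_le]
  rintro _ ⟨_, ⟨x, hx1, rfl⟩, rfl⟩
  apply Subgroup.subset_closure
  refine ⟨φ x, ?_, ?_⟩
  · have h := Subgroup.characteristic_iff_map_le.mp hX φ
    exact h ⟨x, hx1, rfl⟩
  · show φ (x ^ (p ^ n)) = (φ x) ^ (p ^ n)
    rw [map_pow]

end Cfsg.Agent.H93SYPowKer
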