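import Cfsg.Agent.Lib.Helper93SYDefs

set_option autoImplicit false
open Cfsg Cfsg.Agent.Helper93SYDefs
open scoped commutatorElement

namespace Cfsg.Agent.H93SYZChar

/-- PIECE ZChar.  The centre `K ⊓ C_G(K)` of a characteristic subgroup is characteristic and abelian, hence cyclic. -/
theorem center_cyclic {G : Type*} [Group G] (hsymp : ∀ A : Subgroup G, A.Characteristic → IsMulCommutative A → IsCyclic A)
    (K : Subgroup G) [hK : K.Characteristic] : IsCyclic ↥(K ⊓ Subgroup.centralizer (K : Set G)) := by
  apply hsymp
  · have hC : (Subgroup.centralizer (K : Set G)).Characteristic := inferInstance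
    rw [Subgroup.characteristic_iff_map_le]
    intro φ
    refine le_trans (Subgroup.map_inf_le _ _ _) (inf_le_inf ?_ ?_)
    · exact Subgroup.characteristic_iff_map_le.mp hK φ
    · exact Subgroup.characteristic_iff_map_le.mp hC φ
  · refine ⟨⟨?_⟩⟩
    rintro ⟨a, ha⟩ ⟨b, hb⟩
    apply Subtype.ext
    show a * b = b * a
    have := Subgroup.mem_centralizer_iff.mp hb.2 a ha.1
    exact this

end Cfsg.Agent.H93SYZChar
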