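import Cfsg.Agent.Lib.Helper93SYDefs
import Cfsg.Agent.Lib.H93SYLam
import Cfsg.Agent.Lib.H93SYDual
import Cfsg.Agent.Lib.H93SYPowKer
import Cfsg.Agent.Lib.H93SYZChar
import Cfsg.Agent.Lib.H93SYCyc

set_option autoImplicit false
open Cfsg Cfsg.Agent.Helper93SYDefs
open scoped commutatorElement

namespace Cfsg.Agent.H93SYClaimA

/-- PIECE ClaimA (90m).  `C = K Z` with `K = {x ∈ C | x^(ex p) = 1}`.
Sketch.  `#Z = p^n`, `n ≥ 1` (`hG.to_subgroup`, `T ≤ Z`, `#T = p`).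
CASE `¬ ex p ∣ #Z`: then `p = 2`, `#Z = 2` (`ex p = p ∣ #Z` for `p` odd; `4 ∣ 2^n` for `n ≥ 2`); for `x ∈ C`: `x^4 = (x^2)^2 = 1` as `x^2 ∈ Z`; take `k = x`, `z = 1`.
CASE `ex p ∣ #Z =: N`.  `obtain ⟨l1, l2, l3, l4⟩ := H93SYLam.lam_props h hdvd`.  By `l4` it suffices to show `x^N = 1` for all `x ∈ C`.  Suppose `x₀^N ≠ 1`.
`H93SYDual.dual T C h.Tcard h.Tcen (fun _ hx _ hy => h.comm_T hx hy) (· ^ N) l1 l2 l3` gives `k ∈ C` with `x^N = ⁅x, k⁆` on `C`.
`k^N = ⁅k, k⁆ = 1`, so `k = k' z` by `l4`, `k'^(ex p) = 1`; `⁅x, k'⁆ = ⁅x, k⁆` for `x ∈ C` (`z` central in `C`: `comm_mul_right_of`, `⁅x, z⁆ = 1`).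
`K := powKer C (ex p)` is characteristic (`h.Cchar`, `H93SYPowKer.powKer_char`), `x ∈ K ↔ x ∈ C ∧ x^(ex p) = 1` (`mem_powKer` with `h.mul_pow_ex`).
For `x ∈ K`: `⁅x, k'⁆ = x^N = 1`.  So `k' ∈ A := K ⊓ centralizer K`, cyclic (`H93SYZChar.center_cyclic`), of exponent `ex p`, so `#A ≤ ex p` (`H93SYCyc.card_le_of_exp`).
`H93SYCyc.exists_orderOf Z h.Zcyc (ex p) hdvd` gives `w ∈ Z` of order `ex p`; `zpowers w ≤ A` (`w ∈ K`, `w` central in `C ⊇ K`) has `ex p` elements, so `A = zpowers w ≤ Z`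
(`Subgroup.eq_of_le_of_card_ge`).  Hence `k' ∈ Z`, so `x₀^N = ⁅x₀, k'⁆ = 1`: contradiction. -/
theorem claimA {G : Type*} [Group G] [Finite G] {p : ℕ} [Fact p.Prime] (hG : IsPGroup p G)
    (hsymp : ∀ A : Subgroup G, A.Characteristic → IsMulCommutative A → IsCyclic A)
    {C Z T : Subgroup G} (h : Sy p C Z T) :
    ∀ x ∈ C, ∃ k ∈ C, ∃ z ∈ Z, k ^ ex p = 1 ∧ x = k * z := by
  classical
  have hp : p.Prime := Fact.out
  obtain ⟨n, hn⟩ := IsPGroup.iff_card.1 (hG.to_subgroup Z)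
  have hpZ : p ∣ Nat.card Z := by
    rw [← h.Tcard]; exact Subgroup.card_dvd_of_le h.TZ
  by_cases hdvd : ex p ∣ Nat.card Z
  · obtain ⟨l1, l2, l3, l4⟩ := H93SYLam.lam_props h hdvd
    intro x hx
    apply l4 x hx
    by_contra hx0
    obtain ⟨k, hk, hkx⟩ := H93SYDual.dual T C h.Tcard h.Tcen
      (fun _ hx _ hy => h.comm_T hx hy) (· ^ Nat.card Z) l1 l2 l3
    have hkN : k ^ Nat.card Z = 1 := by
      have := hkx k hk
      simpa using this
    obtain ⟨k', hk', z, hz, hk'e, rfl⟩ := l4 k hk hkN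
    have hcomm : ∀ x ∈ C, ⁅x, k' * z⁆ = ⁅x, k'⁆ := by
      intro x hx
      have hxz : ⁅x, z⁆ = 1 := by
        rw [commutatorElement_eq_one_iff_commute]; exact (h.Z_comm hz hx).symm
      rw [comm_mul_right_of (by rw [hxz]; exact Commute.one_right _), hxz, mul_one]
    have := h.Cchar
    have : (powKer C (ex p)).Characteristic := H93SYPowKer.powKer_char C (ex p)
    have hmemK : ∀ x, x ∈ powKer C (ex p) ↔ x ∈ C ∧ x ^ ex p = 1 :=
      H93SYPowKer.mem_powKer (fun x hx y hy => h.mul_pow_ex hx hy)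
    have hAcyc : IsCyclic ↥(powKer C (ex p) ⊓ Subgroup.centralizer (powKer C (ex p) : Set G)) :=
      H93SYZChar.center_cyclic hsymp (powKer C (ex p))
    set A := powKer C (ex p) ⊓ Subgroup.centralizer (powKer C (ex p) : Set G) with hA
    have hk'A : k' ∈ A := by
      refine Subgroup.mem_inf.2 ⟨(hmemK k').2 ⟨hk', hk'e⟩, ?_⟩
      rw [Subgroup.mem_centralizer_iff]
      intro x hxK
      obtain ⟨hxC, hxe⟩ := (hmemK x).1 hxK
      have h1 : ⁅x, k'⁆ = 1 := by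
        rw [← hcomm x hxC, ← hkx x hxC]
        obtain ⟨r, hr⟩ := hdvd
        show x ^ Nat.card Z = 1
        rw [hr, pow_mul, hxe, one_pow]
      exact (commutatorElement_eq_one_iff_commute.1 h1).eq
    have hAexp : ∀ a ∈ A, a ^ ex p = 1 := fun a ha => ((hmemK a).1 ha.1).2
    have hAcard : Nat.card A ≤ ex p := H93SYCyc.card_le_of_exp A hAcyc (ex p) (ex_pos hp) hAexp
    obtain ⟨w, hw, hwo⟩ := H93SYCyc.exists_orderOf Z h.Zcyc (ex p) hdvd
    have hwA : Subgroup.zpowers w ≤ A := by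
      rw [Subgroup.zpowers_le]
      refine Subgroup.mem_inf.2 ⟨(hmemK w).2 ⟨h.ZC hw, by rw [← hwo]; exact pow_orderOf_eq_one w⟩, ?_⟩
      rw [Subgroup.mem_centralizer_iff]
      intro x hxK
      exact ((h.Z_comm hw ((hmemK x).1 hxK).1).eq).symm
    have hAeq : Subgroup.zpowers w = A :=
      Subgroup.eq_of_le_of_card_ge hwA (by rw [Nat.card_zpowers, hwo]; exact hAcard)
    have hk'Z : k' ∈ Z := by
      have : k' ∈ Subgroup.zpowers w := hAeq ▸ hk'A
      exact (Subgroup.zpowers_le.2 hw) this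
    apply hx0
    rw [show x ^ Nat.card Z = ⁅x, k' * z⁆ from hkx x hx, hcomm x hx,
      commutatorElement_eq_one_iff_commute]
    exact (h.Z_comm hk'Z hx).symm
  · have hp2 : p = 2 := by
      by_contra hne
      apply hdvd
      have : ex p = p := by
        unfold ex Cfsg.Agent.Lib.Helper53Crit.ex
        rw [if_neg hne]
      rw [this]; exact hpZ
    subst hp2
    have hex : ex 2 = 4 := by
      unfold ex Cfsg.Agent.Lib.Helper53Crit.ex
      rw [if_pos rfl]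
    have hn1 : n = 1 := by
      rcases n with _ | _ | n
      · rw [hn] at hpZ; norm_num at hpZ
      · rfl
      · exfalso; apply hdvd
        rw [hex, hn]
        exact ⟨2 ^ n, by ring⟩
    rw [hn1, pow_one] at hn
    intro x hx
    refine ⟨x, hx, 1, Z.one_mem, ?_, (mul_one x).symm⟩
    rw [hex]
    have h2 : (⟨x ^ 2, h.pow x hx⟩ : Z) ^ Nat.card Z = 1 := pow_card_eq_one'
    rw [hn] at h2
    have := congrArg Subtype.val h2
    simp only [SubmonoidClass.mk_pow, OneMemClass.coe_one] at this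
    rw [← this, ← pow_mul]

end Cfsg.Agent.H93SYClaimA
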