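import Cfsg.Agent.Lib.Helper93SYDefs
import Cfsg.Agent.S0093
import Cfsg.Agent.Lib.Helper3PGroup

set_option autoImplicit false
open Cfsg Cfsg.Agent.Helper93SYDefs
open scoped commutatorElement

namespace Cfsg.Agent.H93SYCritA

/-- PIECE CritA.  Thompson's critical subgroup, elementwise. -/
theorem exists_crit {G : Type*} [Group G] [Finite G] {p : ℕ} [Fact p.Prime] (hG : IsPGroup p G) :
    ∃ C : Subgroup G, C.Characteristic ∧ Subgroup.centralizer (C : Set G) ≤ C ∧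
      (∀ x ∈ C, x ^ p ∈ Subgroup.centralizer (C : Set G)) ∧
      (∀ x ∈ C, ∀ g : G, ⁅x, g⁆ ∈ Subgroup.centralizer (C : Set G)) := by
  obtain ⟨H, h1, h2, h3, h4⟩ := Cfsg.Agent.S0093.result hG
  refine ⟨H, h1, h4, ?_, ?_⟩
  · intro x hx
    have h5 := Cfsg.Agent.Lib.Helper3PGroup.pow_mem_frattini (hG.to_subgroup H) (⟨x, hx⟩ : H)
    exact h2 ⟨_, h5, rfl⟩
  · intro x hx g
    exact (h3 (Subgroup.commutator_mem_commutator hx (Subgroup.mem_top g))).2

end Cfsg.Agent.H93SYCritA
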