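import Cfsg.Agent.Lib.Helper93SYDefs
import Cfsg.Agent.Lib.Helper31PGroup

set_option autoImplicit false
open Cfsg Cfsg.Agent.Helper93SYDefs
open scoped commutatorElement

namespace Cfsg.Agent.H93SYCritT

/-- PIECE CritT.  `Ω₁` of a nontrivial cyclic normal subgroup `Z` of a p-group: order `p`, central. -/
theorem exists_T {G : Type*} [Group G] [Finite G] {p : ℕ} [Fact p.Prime] (hG : IsPGroup p G)
    (Z : Subgroup G) [hZn : Z.Normal] (hZ : IsCyclic Z) (hZ1 : Z ≠ ⊥) :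
    ∃ T : Subgroup G, (∀ x : G, x ∈ T ↔ x ∈ Z ∧ x ^ p = 1) ∧ Nat.card T = p ∧
      ∀ t ∈ T, ∀ g : G, t * g = g * t := by
  classical
  let _ : CommGroup Z := IsCyclic.commGroup
  let T' : Subgroup Z := (powMonoidHom p : Z →* Z).ker
  let T : Subgroup G := T'.map Z.subtype
  have hmem : ∀ x : G, x ∈ T ↔ x ∈ Z ∧ x ^ p = 1 := by
    intro x
    constructor
    · rintro ⟨⟨y, hy⟩, hy', rfl⟩
      refine ⟨hy, ?_⟩
      have : (⟨y, hy⟩ : Z) ^ p = 1 := hy'
      exact congrArg Subtype.val this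
    · rintro ⟨hx, hxp⟩
      exact ⟨⟨x, hx⟩, Subtype.ext hxp, rfl⟩
  have hdvd : p ∣ Nat.card Z := by
    rcases (hG.to_subgroup Z).card_eq_or_dvd with h | h
    · exact absurd (Subgroup.card_eq_one.mp h) hZ1
    · exact h
  have hcard : Nat.card T = p := by
    have h1 : Nat.card T = Nat.card T' :=
      Subgroup.card_map_of_injective Z.subtype_injective
    rw [h1, IsCyclic.card_powMonoidHom_ker]
    exact Nat.gcd_eq_right hdvd
  have hTn : T.Normal := by
    refine ⟨fun x hx g => ?_⟩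
    rw [hmem] at hx ⊢
    refine ⟨hZn.conj_mem x hx.1 g, ?_⟩
    rw [conj_pow, hx.2]; simp
  have hT1 : T ≠ ⊥ := by
    intro h
    rw [h] at hcard
    have := (Fact.out : p.Prime).one_lt
    simp at hcard
    omega
  obtain ⟨z, hzT, hzc, hz1⟩ := Cfsg.Agent.Lib.Helper31PGroup.exists_center_mem_of_normal hG T hT1
  refine ⟨T, hmem, hcard, ?_⟩
  intro t ht g
  have hz1' : (⟨z, hzT⟩ : T) ≠ 1 := fun h => hz1 (congrArg Subtype.val h)
  have h2 : (⟨t, ht⟩ : T) ∈ Subgroup.zpowers (⟨z, hzT⟩ : T) := mem_zpowers_of_prime_card hcard hz1'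
  obtain ⟨k, hk⟩ := h2
  have h3 : z ^ k = t := congrArg Subtype.val hk
  have h4 : t ∈ Subgroup.center G := h3 ▸ Subgroup.zpow_mem _ hzc k
  exact ((Subgroup.mem_center_iff.mp h4) g).symm

end Cfsg.Agent.H93SYCritT
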