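import Cfsg.Agent.Lib.Helper93SYDefs

set_option autoImplicit false
open Cfsg Cfsg.Agent.Helper93SYDefs
open scoped commutatorElement

namespace Cfsg.Agent.H93SYESmul

/-- PIECE ESmul.  Central product of two `ESin` subgroups. -/
theorem esin_top {G : Type*} [Group G] {p : ℕ} (E R T : Subgroup G) (hE : ESin p E T) (hR : ESin p R T)
    (hER : ∀ a ∈ E, ∀ r ∈ R, a * r = r * a) (hfac : ∀ g : G, ∃ a ∈ E, ∃ r ∈ R, g = a * r)
    (hTcen : ∀ t ∈ T, ∀ g : G, t * g = g * t) : ESin p (⊤ : Subgroup G) T := by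
  refine ⟨le_top, ?_, ?_, ?_⟩
  · intro x _ y _
    obtain ⟨a, ha, r, hr, rfl⟩ := hfac x
    obtain ⟨a', ha', r', hr', rfl⟩ := hfac y
    have e : ⁅a * r, a' * r'⁆ = ⁅a, a'⁆ * ⁅r, r'⁆ := by
      simp only [commutatorElement_def]
      have c1 : Commute r a' := (hER a' ha' r hr).symm
      have c2 : Commute r a := (hER a ha r hr).symm
      have c3 : Commute r' a := (hER a ha r' hr').symm
      have c4 : Commute r' a' := (hER a' ha' r' hr').symm
      calc a * r * (a' * r') * (a * r)⁻¹ * (a' * r')⁻¹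
          = a * (r * a') * r' * (r⁻¹ * a⁻¹) * (r'⁻¹ * a'⁻¹) := by group
        _ = a * (a' * r) * r' * (a⁻¹ * r⁻¹) * (a'⁻¹ * r'⁻¹) := by
            rw [c1.eq, (c2.inv_inv).eq, (c4.inv_inv).eq]
        _ = a * a' * (r * r' * a⁻¹) * (r⁻¹ * a'⁻¹) * r'⁻¹ := by group
        _ = a * a' * (a⁻¹ * (r * r')) * (a'⁻¹ * r⁻¹) * r'⁻¹ := by
            rw [((c2.mul_left c3).inv_right).eq, (c1.inv_inv).eq]
        _ = a * a' * a⁻¹ * (r * r' * a'⁻¹) * r⁻¹ * r'⁻¹ := by group
        _ = a * a' * a⁻¹ * (a'⁻¹ * (r * r')) * r⁻¹ * r'⁻¹ := by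
            rw [((c1.mul_left c4).inv_right).eq]
        _ = a * a' * a⁻¹ * a'⁻¹ * (r * r' * r⁻¹ * r'⁻¹) := by group
    rw [e]
    exact T.mul_mem (hE.comm a ha a' ha') (hR.comm r hr r' hr')
  · intro x _
    obtain ⟨a, ha, r, hr, rfl⟩ := hfac x
    have c : Commute a r := hER a ha r hr
    rw [c.mul_pow]
    exact T.mul_mem (hE.pow a ha) (hR.pow r hr)
  · intro x _ hx
    obtain ⟨a, ha, r, hr, rfl⟩ := hfac x
    have haT : a ∈ T := by
      apply hE.cen a ha
      intro y hy
      have h1 := hx y trivial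
      have c : r * y = y * r := (hER y hy r hr).symm
      have h2 : a * y * r = y * a * r := by
        calc a * y * r = a * (y * r) := by group
          _ = a * (r * y) := by rw [c]
          _ = a * r * y := by group
          _ = y * (a * r) := h1
          _ = y * a * r := by group
      exact mul_right_cancel h2
    have hrT : r ∈ T := by
      apply hR.cen r hr
      intro y hy
      have h1 := hx y trivial
      have c : a * y = y * a := hTcen a haT y
      have h2 : a * (r * y) = a * (y * r) := by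
        calc a * (r * y) = a * r * y := by group
          _ = y * (a * r) := h1
          _ = (y * a) * r := by group
          _ = (a * y) * r := by rw [c]
          _ = a * (y * r) := by group
      exact mul_left_cancel h2
    exact T.mul_mem haT hrT

end Cfsg.Agent.H93SYESmul
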