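import Cfsg.Agent.Lib.Helper93SYDefs
import Cfsg.Agent.Lib.Helper3PGroup

set_option autoImplicit false
open Cfsg Cfsg.Agent.Helper93SYDefs
open scoped commutatorElement

namespace Cfsg.Agent.H93SYESrec

/-- PIECE ESrec.  `ESin p E T` with `E ≠ T` means `↥E` is extraspecial. -/
theorem isExtraspecial {G : Type*} [Group G] [Finite G] {p : ℕ} [Fact p.Prime] (hG : IsPGroup p G)
    (E T : Subgroup G) (hTc : Nat.card T = p) (hTcen : ∀ t ∈ T, ∀ g : G, t * g = g * t)
    (hE : ESin p E T) (hne : E ≠ T) : Cfsg.IsExtraspecial p ↥E := by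
  have hp : p.Prime := Fact.out
  have hEp : IsPGroup p E := hG.to_subgroup E
  set T' : Subgroup E := T.subgroupOf E with hT'
  have hT'c : Nat.card T' = p := by
    rw [← hTc]; exact Nat.card_congr (Subgroup.subgroupOfEquivOfLe hE.le).toEquiv
  have hcen : Subgroup.center E = T' := by
    ext ⟨x, hx⟩
    rw [Subgroup.mem_center_iff, hT', Subgroup.mem_subgroupOf]
    constructor
    · intro h
      apply hE.cen x hx
      intro y hy
      exact (congrArg Subtype.val (h ⟨y, hy⟩)).symm
    · intro h g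
      exact Subtype.ext (hTcen x h g).symm
  have hcomle : commutator E ≤ T' := by
    rw [commutator_def, Subgroup.commutator_le]
    rintro ⟨x, hx⟩ _ ⟨y, hy⟩ _
    rw [hT', Subgroup.mem_subgroupOf]
    exact hE.comm x hx y hy
  have hcomne : commutator E ≠ ⊥ := by
    intro hbot
    apply hne
    apply le_antisymm _ hE.le
    intro x hx
    apply hE.cen x hx
    intro y hy
    have h1 : ⁅(⟨x, hx⟩ : E), ⟨y, hy⟩⁆ ∈ commutator E :=
      Subgroup.commutator_mem_commutator (Subgroup.mem_top _) (Subgroup.mem_top _)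
    rw [hbot, Subgroup.mem_bot, commutatorElement_eq_one_iff_mul_comm] at h1
    exact congrArg Subtype.val h1
  have hcom : commutator E = T' := by
    have hd : Nat.card (commutator E) ∣ p := hT'c ▸ Subgroup.card_dvd_of_le hcomle
    rcases (Nat.dvd_prime hp).mp hd with h | h
    · exact absurd (Subgroup.card_eq_one.mp h) hcomne
    · exact Subgroup.eq_of_le_of_card_ge hcomle (by rw [h, hT'c])
  have hfr : frattini E = T' := by
    apply le_antisymm
    · apply Cfsg.Agent.Lib.Helper3PGroup.frattini_le_of_elementary (p := p) T' hcomle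
      rintro ⟨x, hx⟩
      rw [hT', Subgroup.mem_subgroupOf]
      exact hE.pow x hx
    · rw [← hcom]
      exact Cfsg.Agent.Lib.Helper3PGroup.commutator_le_frattini hEp
  refine ⟨⟨hEp, ?_, ?_⟩, ?_⟩
  · rw [hfr, hcen]
  · rw [hcom, hcen]
  · rw [hcen, hT'c]

end Cfsg.Agent.H93SYESrec
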