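import Cfsg.Agent.Lib.Helper93SYDefs

set_option autoImplicit false
open Cfsg Cfsg.Agent.Helper93SYDefs
open scoped commutatorElement

namespace Cfsg.Agent.H93SYExE1

/-- PIECE ExE1.  Enlarging step. -/
theorem enlarge {G : Type*} [Group G] [Finite G] {p : ℕ} [Fact p.Prime] {C Z T : Subgroup G}
    (h : Sy p C Z T) (E : Subgroup G) (hE : InS p C Z T E) (x : G) (hx1 : x ∈ C) (hx2 : x ^ ex p = 1)
    (hx3 : ¬ ∃ a ∈ E, ∃ z ∈ Z, z ^ ex p = 1 ∧ x = a * z) :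
    ∃ E' : Subgroup G, InS p C Z T E' ∧ E < E' := by
  obtain ⟨hTE, hEK, hEZ⟩ := hE
  have hp : p.Prime := Fact.out
  have hconj : ∀ (j : ℤ), ∀ b ∈ E, x ^ j * b * (x ^ j)⁻¹ ∈ E := by
    intro j b hb
    have e1 : x ^ j * b * (x ^ j)⁻¹ = ⁅x ^ j, b⁆ * b := by rw [commutatorElement_def]; group
    rw [e1]
    exact E.mul_mem (hTE (h.comm_T (C.zpow_mem hx1 j) (hEK b hb).1)) hb
  let E' : Subgroup G :=
    { carrier := {g | ∃ a ∈ E, ∃ j : ℤ, g = a * x ^ j}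
      one_mem' := ⟨1, E.one_mem, 0, by simp⟩
      mul_mem' := by
        rintro _ _ ⟨a, ha, j, rfl⟩ ⟨b, hb, k, rfl⟩
        refine ⟨a * (x ^ j * b * (x ^ j)⁻¹), E.mul_mem ha (hconj j b hb), j + k, ?_⟩
        rw [zpow_add]; group
      inv_mem' := by
        rintro _ ⟨a, ha, j, rfl⟩
        refine ⟨x ^ (-j) * a⁻¹ * (x ^ (-j))⁻¹, hconj (-j) _ (E.inv_mem ha), -j, ?_⟩
        group }
  have memE' : ∀ g, g ∈ E' ↔ ∃ a ∈ E, ∃ j : ℤ, g = a * x ^ j := fun g => Iff.rfl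
  have hK : ∀ g ∈ E', g ∈ C ∧ g ^ ex p = 1 := by
    rintro _ ⟨a, ha, j, rfl⟩
    refine ⟨C.mul_mem (hEK a ha).1 (C.zpow_mem hx1 j), ?_⟩
    rw [h.mul_pow_ex (hEK a ha).1 (C.zpow_mem hx1 j), (hEK a ha).2, one_mul, ← zpow_natCast,
      ← zpow_mul, mul_comm, zpow_mul, zpow_natCast, hx2, one_zpow]
  have hxpT : x ^ p ∈ T := by
    rw [h.T_iff]
    refine ⟨h.pow x hx1, ?_⟩
    obtain ⟨c, hc⟩ := ex_dvd_sq p
    rw [← pow_mul, ← pow_two, hc, pow_mul, hx2, one_pow]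
  refine ⟨E', ⟨fun t ht => ⟨t, hTE ht, 0, by simp⟩, hK, ?_⟩, ?_⟩
  · rintro w ⟨a, ha, j, rfl⟩ hwZ
    by_cases hj : (p : ℤ) ∣ j
    · obtain ⟨m, rfl⟩ := hj
      have h1 : x ^ ((p : ℤ) * m) ∈ T := by
        rw [zpow_mul, zpow_natCast]; exact T.zpow_mem hxpT m
      exact hEZ _ (E.mul_mem ha (hTE h1)) hwZ
    · exfalso
      have hcop : IsCoprime (p : ℤ) j :=
        (Nat.prime_iff_prime_int.mp hp).irreducible.coprime_iff_not_dvd.mpr hj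
      obtain ⟨u, v, huv⟩ := hcop
      apply hx3
      have hw := hK _ (show a * x ^ j ∈ E' from ⟨a, ha, j, rfl⟩)
      have hcomm : Commute a⁻¹ (a * x ^ j) := (h.Z_comm hwZ (C.inv_mem (hEK a ha).1)).symm
      have e1 : x ^ j = a⁻¹ * (a * x ^ j) := by group
      have e2 : x = (x ^ p) ^ u * (a⁻¹) ^ v * (a * x ^ j) ^ v := by
        calc x = x ^ (u * (p : ℤ) + v * j) := by rw [huv, zpow_one]
          _ = (x ^ p) ^ u * (x ^ j) ^ v := by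
              rw [zpow_add, mul_comm u, mul_comm v, zpow_mul, zpow_mul, zpow_natCast]
          _ = (x ^ p) ^ u * (a⁻¹ * (a * x ^ j)) ^ v := by rw [← e1]
          _ = (x ^ p) ^ u * (a⁻¹) ^ v * (a * x ^ j) ^ v := by rw [hcomm.mul_zpow, mul_assoc]
      refine ⟨(x ^ p) ^ u * (a⁻¹) ^ v, E.mul_mem (hTE (T.zpow_mem hxpT u)) (E.zpow_mem (E.inv_mem ha) v),
        (a * x ^ j) ^ v, Z.zpow_mem hwZ v, ?_, e2⟩
      rw [← zpow_natCast, ← zpow_mul, mul_comm, zpow_mul, zpow_natCast, hw.2, one_zpow]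
  · refine lt_of_le_of_ne (fun a ha => ⟨a, ha, 0, by simp⟩) ?_
    intro he
    have hxE' : x ∈ E' := ⟨1, E.one_mem, 1, by simp⟩
    have hxE : x ∈ E := he ▸ hxE'
    exact hx3 ⟨x, hxE, 1, Z.one_mem, one_pow _, by simp⟩

end Cfsg.Agent.H93SYExE1
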