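import Cfsg.Agent.Lib.Helper93SYDefs
import Cfsg.Agent.Lib.H93SYExE1

set_option autoImplicit false
open Cfsg Cfsg.Agent.Helper93SYDefs
open scoped commutatorElement

namespace Cfsg.Agent.H93SYExE

/-- PIECE ExE.  Existence of `E`. -/
theorem exists_E {G : Type*} [Group G] [Finite G] {p : ℕ} [Fact p.Prime] {C Z T : Subgroup G}
    (h : Sy p C Z T) (hA : ∀ x ∈ C, ∃ k ∈ C, ∃ z ∈ Z, k ^ ex p = 1 ∧ x = k * z) :
    ∃ E : Subgroup G, E ≤ C ∧ ESin p E T ∧ (∀ a ∈ E, a ^ ex p = 1) ∧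
      ∀ x ∈ C, ∃ a ∈ E, ∃ z ∈ Z, x = a * z := by
  have hT : InS p C Z T T := by
    refine ⟨le_rfl, fun t ht => ⟨h.ZC (h.TZ ht), ?_⟩, fun a ha _ => ha⟩
    obtain ⟨c, hc⟩ := p_dvd_ex p
    rw [hc, pow_mul, h.T_pow ht, one_pow]
  obtain ⟨E, hES, hEmax⟩ := (Set.toFinite {E : Subgroup G | InS p C Z T E}).exists_maximal ⟨T, hT⟩
  have hES' : InS p C Z T E := hES
  have hK : ∀ x ∈ C, x ^ ex p = 1 → ∃ a ∈ E, ∃ z ∈ Z, z ^ ex p = 1 ∧ x = a * z := by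
    intro x hx1 hx2
    by_contra hx3
    obtain ⟨E', hE', hlt⟩ := H93SYExE1.enlarge h E hES' x hx1 hx2 hx3
    exact absurd (hEmax hE' hlt.le) (not_le_of_gt hlt)
  obtain ⟨hTE, hEK, hEZ⟩ := hES'
  have hCE : ∀ x ∈ C, ∃ a ∈ E, ∃ z ∈ Z, x = a * z := by
    intro x hx
    obtain ⟨k, hk, z, hz, hke, rfl⟩ := hA x hx
    obtain ⟨a, ha, z', hz', _, rfl⟩ := hK k hk hke
    exact ⟨a, ha, z' * z, Z.mul_mem hz' hz, by group⟩
  refine ⟨E, fun a ha => (hEK a ha).1, ⟨hTE, fun x hx y hy => h.comm_T (hEK x hx).1 (hEK y hy).1, ?_, ?_⟩,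
    fun a ha => (hEK a ha).2, hCE⟩
  · intro x hx
    rw [h.T_iff]
    refine ⟨h.pow x (hEK x hx).1, ?_⟩
    obtain ⟨c, hc⟩ := ex_dvd_sq p
    rw [← pow_mul, ← pow_two, hc, pow_mul, (hEK x hx).2, one_pow]
  · intro x hx hxc
    apply hEZ x hx
    rw [h.Zcen]
    intro y hy
    obtain ⟨a, ha, z, hz, rfl⟩ := hCE y hy
    have c1 : Commute x a := hxc a ha
    have c2 : Commute x z := (h.Z_comm hz (hEK x hx).1).symm
    exact (c1.mul_right c2).eq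

end Cfsg.Agent.H93SYExE
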