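import Cfsg.Agent.Lib.Helper93SYDefs

set_option autoImplicit false
open Cfsg Cfsg.Agent.Helper93SYDefs
open scoped commutatorElement

namespace Cfsg.Agent.H93SYExtract

/-- PIECE Extract (75m, pure Mathlib).  From alternative (b) of S3761 to elements.
Sketch: `omegaOne p M = closure {x | x ∈ M ∧ x^p = 1}`.  If every such `x` lies in `U` then `W := omegaOne p M ≤ U`, so `W` is cyclic (`Subgroup.isCyclic`-of-le: `↥W` embeds in `↥U`: `isCyclic_of_injective`/`Subgroup.inclusion`),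
of exponent `p` (`hW.2`), so `#W ≤ p` (generator of order `#W` dividing `p`) `< p^2`.  So there is `y ∈ M`, `y^p = 1`, `y ∉ U`.
`U.subgroupOf M` is normal of index `p` in `↥M`; the quotient has prime order, so it is generated by the nontrivial class of `y` (`zpowers_eq_top_of_prime_card`, `mem_zpowers_of_prime_card`):
for `r ∈ M`, `r ≡ y^j` (`j : ℕ` via `mem_powers_iff_mem_zpowers` in a finite group), i.e. `r * (y^j)⁻¹ ∈ U` (use `QuotientGroup.eq`, normality to pass between left and right cosets). -/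
theorem extract {R : Type*} [Group R] [Finite R] {p : ℕ} [Fact p.Prime] (U M : Subgroup R) [U.Normal]
    (hUM : U ≤ M) (hU : IsCyclic U) (hidx : U.relIndex M = p)
    (hW : Cfsg.IsElementaryAbelian p (Cfsg.omegaOne p M)) (hWc : Nat.card ↥(Cfsg.omegaOne p M) = p ^ 2) :
    ∃ y ∈ M, y ∉ U ∧ y ^ p = 1 ∧ ∀ r ∈ M, ∃ z ∈ U, ∃ j : ℕ, r = z * y ^ j := by
  classical
  have hp : p.Prime := Fact.out
  have hex : ∃ y ∈ M, y ^ p = 1 ∧ y ∉ U := by
    by_contra hcon
    push Not at hcon
    have hle : Cfsg.omegaOne p M ≤ U := by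
      unfold Cfsg.omegaOne
      rw [Subgroup.closure_le]
      rintro x ⟨hxM, hxp⟩
      exact hcon x hxM hxp
    have hcyc : IsCyclic ↥(Cfsg.omegaOne p M) :=
      isCyclic_of_injective (Subgroup.inclusion hle) (Subgroup.inclusion_injective hle)
    obtain ⟨g, hg⟩ := hcyc.exists_generator
    have ho : orderOf g = Nat.card ↥(Cfsg.omegaOne p M) := orderOf_eq_card_of_forall_mem_zpowers hg
    have hgp : g ^ p = 1 := by
      apply Subtype.ext
      simpa using hW.2 g.1 g.2
    have hd := orderOf_dvd_of_pow_eq_one hgp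
    rw [ho, hWc] at hd
    have := Nat.le_of_dvd hp.pos hd
    have h2 := hp.two_le
    nlinarith
  obtain ⟨y, hyM, hyp, hyU⟩ := hex
  refine ⟨y, hyM, hyU, hyp, ?_⟩
  have hH1 : U ≤ U ⊔ Subgroup.zpowers y := le_sup_left
  have hH2 : U ⊔ Subgroup.zpowers y ≤ M := sup_le hUM (Subgroup.zpowers_le.2 hyM)
  have hmul := Subgroup.relIndex_mul_relIndex U (U ⊔ Subgroup.zpowers y) M hH1 hH2
  rw [hidx] at hmul
  have hne : U.relIndex (U ⊔ Subgroup.zpowers y) ≠ 1 := by
    intro h1
    rw [Subgroup.relIndex_eq_one] at h1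
    exact hyU (h1 ((le_sup_right : Subgroup.zpowers y ≤ U ⊔ Subgroup.zpowers y)
      (Subgroup.mem_zpowers y)))
  have hd : U.relIndex (U ⊔ Subgroup.zpowers y) ∣ p := ⟨_, hmul.symm⟩
  have hUp : U.relIndex (U ⊔ Subgroup.zpowers y) = p := by
    rcases (Nat.dvd_prime hp).1 hd with h1 | h1
    · exact absurd h1 hne
    · exact h1
  rw [hUp] at hmul
  have h1 : (U ⊔ Subgroup.zpowers y).relIndex M = 1 := by
    have := hp.pos
    nlinarith [Nat.eq_of_mul_eq_mul_left this (by rw [hmul, mul_one] :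
      p * (U ⊔ Subgroup.zpowers y).relIndex M = p * 1)]
  rw [Subgroup.relIndex_eq_one] at h1
  intro r hr
  have hr' : r ∈ ((U ⊔ Subgroup.zpowers y : Subgroup R) : Set R) := h1 hr
  rw [Subgroup.normal_mul] at hr'
  obtain ⟨z, hz, w, hw, rfl⟩ := Set.mem_mul.1 hr'
  have hw' : w ∈ Submonoid.powers y := (mem_powers_iff_mem_zpowers).2 hw
  obtain ⟨j, rfl⟩ := hw'
  exact ⟨z, hz, j, rfl⟩

end Cfsg.Agent.H93SYExtract
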