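import Cfsg.Agent.Lib.Helper93SYDefs
import Cfsg.Agent.Lib.H93SYDual

set_option autoImplicit false
open Cfsg Cfsg.Agent.Helper93SYDefs
open scoped commutatorElement

namespace Cfsg.Agent.H93SYFact

/-- PIECE Fact.  `G = E C_G(E)`. -/
theorem factor {G : Type*} [Group G] [Finite G] {p : ℕ} [Fact p.Prime] {C Z T : Subgroup G}
    (h : Sy p C Z T) (E : Subgroup G) (hEC : E ≤ C) (hE : ESin p E T) (g : G) :
    ∃ k ∈ E, ∀ x ∈ E, (k⁻¹ * g) * x = x * (k⁻¹ * g) := by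
  obtain ⟨k, hk, hkx⟩ := H93SYDual.dual T E h.Tcard h.Tcen hE.comm (fun x => ⁅x, g⁆)
    (fun x hx => by
      rw [h.T_iff]
      refine ⟨h.comm x (hEC hx) g, ?_⟩
      rw [← h.comm_pow (hEC hx), commutatorElement_eq_one_iff_commute]
      exact h.Tcen _ (hE.pow x hx) g)
    (fun x hx y hy => h.comm_mul (hEC hx) (hEC hy) g)
    (fun x hx hxc => by
      show ⁅x, g⁆ = 1
      rw [commutatorElement_eq_one_iff_commute]
      exact h.Tcen _ (hE.cen x hx hxc) g)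
  refine ⟨k, hk, fun x hx => ?_⟩
  have h1 : ⁅x⁻¹, g⁆ = ⁅x⁻¹, k⁆ := hkx x⁻¹ (E.inv_mem hx)
  simp only [commutatorElement_def, inv_inv] at h1
  -- x⁻¹ * g * x * g⁻¹ = x⁻¹ * k * x * k⁻¹
  have h2 : g * x * g⁻¹ = k * x * k⁻¹ := by
    have := congrArg (fun t => x * t) h1
    simpa [mul_assoc] using this
  calc k⁻¹ * g * x = k⁻¹ * (g * x * g⁻¹) * g := by group
    _ = k⁻¹ * (k * x * k⁻¹) * g := by rw [h2]
    _ = x * (k⁻¹ * g) := by group

end Cfsg.Agent.H93SYFact
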