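import Cfsg.Agent.Lib.Helper93SYDefs
import Cfsg.Agent.Lib.H93SYClT

set_option autoImplicit false
open Cfsg Cfsg.Agent.Helper93SYDefs
open scoped commutatorElement

namespace Cfsg.Agent.H93SYMForm

theorem mem_M {G : Type*} [Group G] (p : ℕ) (Z : Subgroup G) (g : G) :
    g ∈ Subgroup.centralizer (Cfsg.powerClosure p 1 Z : Set G) ↔ ∀ z ∈ Z, g * z ^ p = z ^ p * g := by
  constructor
  · intro h z hz
    have hm : z ^ p ∈ Cfsg.powerClosure p 1 Z := Subgroup.subset_closure ⟨z, hz, by rw [pow_one]⟩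
    exact (Subgroup.mem_centralizer_iff.mp h _ hm).symm
  · intro h
    have hall : ∀ x ∈ Subgroup.closure {y : G | ∃ x ∈ Z, y = x ^ (p ^ 1)}, Commute x g := by
      intro x hx'
      induction hx' using Subgroup.closure_induction with
      | mem x hx =>
        obtain ⟨w, hw, rfl⟩ := hx
        rw [pow_one]
        exact (h w hw).symm
      | one => exact Commute.one_left g
      | mul a b _ _ ha hb => exact ha.mul_left hb
      | inv a _ ha => exact ha.inv_left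
    rw [Subgroup.mem_centralizer_iff]
    intro x hx
    exact (hall x hx).eq

/-- PIECE MForm.  `M = C_G(Z^p) = E Z ⟨y⟩` and `[M, M] ≤ T`. -/
theorem m_form {G : Type*} [Group G] [Finite G] {p : ℕ} [Fact p.Prime] {C Z T : Subgroup G}
    (h : Sy p C Z T) (E : Subgroup G) (hEC : E ≤ C) (hE : ESin p E T)
    (hfac : ∀ g : G, ∃ k ∈ E, ∀ x ∈ E, (k⁻¹ * g) * x = x * (k⁻¹ * g))
    (y : G) (hyR : ∀ x ∈ E, y * x = x * y) (hyc : ∀ z ∈ Z, y * z ^ p = z ^ p * y)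
    (hform : ∀ r : G, (∀ x ∈ E, r * x = x * r) → (∀ z ∈ Z, r * z ^ p = z ^ p * r) →
      ∃ z ∈ Z, ∃ j : ℕ, r = z * y ^ j) :
    (∀ g ∈ Subgroup.centralizer (Cfsg.powerClosure p 1 Z : Set G),
      ∃ a ∈ E, ∃ z ∈ Z, ∃ j : ℕ, g = a * z * y ^ j) ∧
    (∀ g ∈ Subgroup.centralizer (Cfsg.powerClosure p 1 Z : Set G),
      ∀ g' ∈ Subgroup.centralizer (Cfsg.powerClosure p 1 Z : Set G), ⁅g, g'⁆ ∈ T) := by
  have h1 : ∀ g ∈ Subgroup.centralizer (Cfsg.powerClosure p 1 Z : Set G),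
      ∃ a ∈ E, ∃ z ∈ Z, ∃ j : ℕ, g = a * z * y ^ j := by
    intro g hg
    rw [mem_M] at hg
    obtain ⟨k, hk, hkg⟩ := hfac g
    have hr2 : ∀ z ∈ Z, (k⁻¹ * g) * z ^ p = z ^ p * (k⁻¹ * g) := by
      intro z hz
      have c1 : Commute k⁻¹ (z ^ p) := (h.Z_comm (Z.pow_mem hz p) (C.inv_mem (hEC hk))).symm
      have c2 : Commute g (z ^ p) := hg z hz
      exact (c1.mul_left c2).eq
    obtain ⟨z, hz, j, hj⟩ := hform _ hkg hr2
    refine ⟨k, hk, z, hz, j, ?_⟩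
    rw [mul_assoc, ← hj]; group
  refine ⟨h1, ?_⟩
  have hone : ∀ a b : G, Commute a b → ⁅a, b⁆ ∈ T := by
    intro a b hab
    rw [commutatorElement_eq_one_iff_commute.mpr hab]; exact T.one_mem
  have hzy : ∀ z ∈ Z, ⁅z, y⁆ ∈ T := by
    intro z hz
    rw [h.T_iff]
    refine ⟨h.comm z (h.ZC hz) y, ?_⟩
    rw [← h.comm_pow (h.ZC hz), commutatorElement_eq_one_iff_commute]
    exact (hyc z hz).symm
  have hS : ∀ a ∈ ((E : Set G) ∪ Z ∪ {y}), ∀ b ∈ ((E : Set G) ∪ Z ∪ {y}), ⁅a, b⁆ ∈ T := by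
    rintro a ((ha | ha) | ha) b ((hb | hb) | hb)
    · exact hE.comm a ha b hb
    · exact hone _ _ (h.Z_comm hb (hEC ha)).symm
    · rw [Set.mem_singleton_iff.mp hb]; exact hone _ _ (hyR a ha).symm
    · exact hone _ _ (h.Z_comm ha (hEC hb))
    · exact hone _ _ (h.Z_comm ha (h.ZC hb))
    · rw [Set.mem_singleton_iff.mp hb]; exact hzy a ha
    · rw [Set.mem_singleton_iff.mp ha]; exact hone _ _ (hyR b hb)
    · rw [Set.mem_singleton_iff.mp ha, ← commutatorElement_inv]; exact T.inv_mem (hzy b hb)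
    · rw [Set.mem_singleton_iff.mp ha, Set.mem_singleton_iff.mp hb]; exact hone _ _ (Commute.refl y)
  have hcl := H93SYClT.comm_closure T h.Tcen _ hS
  have hM : ∀ g ∈ Subgroup.centralizer (Cfsg.powerClosure p 1 Z : Set G),
      g ∈ Subgroup.closure ((E : Set G) ∪ Z ∪ {y}) := by
    intro g hg
    obtain ⟨a, ha, z, hz, j, rfl⟩ := h1 g hg
    have m1 : a ∈ Subgroup.closure ((E : Set G) ∪ Z ∪ {y}) :=
      Subgroup.subset_closure (Or.inl (Or.inl ha))
    have m2 : z ∈ Subgroup.closure ((E : Set G) ∪ Z ∪ {y}) :=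
      Subgroup.subset_closure (Or.inl (Or.inr hz))
    have m3 : y ∈ Subgroup.closure ((E : Set G) ∪ Z ∪ {y}) :=
      Subgroup.subset_closure (Or.inr rfl)
    exact mul_mem (mul_mem m1 m2) (pow_mem m3 j)
  intro g hg g' hg'
  exact hcl g (hM g hg) g' (hM g' hg')

end Cfsg.Agent.H93SYMForm
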