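import Cfsg.Agent.Lib.Helper93SYDefs
import Cfsg.Agent.Lib.H93SYMForm
import Cfsg.Agent.Lib.H93SYPowKer
import Cfsg.Agent.Lib.H93SYZChar
import Cfsg.Agent.Lib.H93SYCyc

set_option autoImplicit false
open Cfsg Cfsg.Agent.Helper93SYDefs
open scoped commutatorElement

namespace Cfsg.Agent.H93SYNoB

/-- PIECE NoB (90m).  Alternative (b) of S3761 for `R = C_G(E)` contradicts the symplectic type hypothesis when `p * ex p ∣ #Z`.
Sketch: `M := centralizer (powerClosure p 1 Z)` is characteristic (`h.Zchar`, `H93SYPowKer.powerClosure_char`, instance `Subgroup.characteristic_centralizer`).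
`obtain ⟨m1, m2⟩ := H93SYMForm.m_form …`.  On `M` the map `g ↦ g^(ex p)` is multiplicative (`mul_pow_ex_of`, `m2`, `h.Tcen`, `h.T_pow`), so `K' := powKer M (ex p)` is characteristic with
`g ∈ K' ↔ g ∈ M ∧ g^(ex p) = 1` (`H93SYPowKer`).  `y ∈ M` (`hyc`), `y ∈ K'` (`p_dvd_ex`), `T ≤ K'`.
`y` centralizes `K'`: `g = a z y^j ∈ K'`; `a, z, y^j ∈ M`, so `1 = g^(ex p) = a^(ex p) z^(ex p) (y^j)^(ex p) = z^(ex p)`; `#Z = (ex p) * (p * s)`…: by `H93SYCyc.exists_root Z h.Zcyc (ex p) (#Z / ex p)` `z = v^(#Z / ex p)` with `p ∣ #Z / ex p`,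
so `z = (v^s)^p` and `y` commutes with `z` (`hyc`), with `a` (`hyR`) and with `y^j`.
So `y ∈ A := K' ⊓ centralizer K'`, cyclic (`H93SYZChar.center_cyclic`), `T ≤ A` (`h.Tcen`), `y^(#T) = y^p = 1`: `H93SYCyc.mem_of_pow` gives `y ∈ T ≤ Z`: contradiction. -/
theorem noB {G : Type*} [Group G] [Finite G] {p : ℕ} [Fact p.Prime] {C Z T : Subgroup G}
    (hsymp : ∀ A : Subgroup G, A.Characteristic → IsMulCommutative A → IsCyclic A)
    (h : Sy p C Z T) (E : Subgroup G) (hEC : E ≤ C) (hE : ESin p E T)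
    (hfac : ∀ g : G, ∃ k ∈ E, ∀ x ∈ E, (k⁻¹ * g) * x = x * (k⁻¹ * g))
    (y : G) (hyR : ∀ x ∈ E, y * x = x * y) (hyc : ∀ z ∈ Z, y * z ^ p = z ^ p * y)
    (hform : ∀ r : G, (∀ x ∈ E, r * x = x * r) → (∀ z ∈ Z, r * z ^ p = z ^ p * r) →
      ∃ z ∈ Z, ∃ j : ℕ, r = z * y ^ j)
    (hEe : ∀ a ∈ E, a ^ ex p = 1) (hbig : p * ex p ∣ Nat.card Z) (hyZ : y ∉ Z) (hyp : y ^ p = 1) : False := by
  classical
  have hp : p.Prime := Fact.out
  have := h.Zchar
  have hPc : (Cfsg.powerClosure p 1 Z).Characteristic := H93SYPowKer.powerClosure_char p 1 Z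
  obtain ⟨m1, m2⟩ := H93SYMForm.m_form h E hEC hE hfac y hyR hyc hform
  have hMchar : (Subgroup.centralizer (Cfsg.powerClosure p 1 Z : Set G)).Characteristic :=
    inferInstance
  set M := Subgroup.centralizer (Cfsg.powerClosure p 1 Z : Set G) with hM
  have hmul : ∀ x ∈ M, ∀ y ∈ M, (x * y) ^ ex p = x ^ ex p * y ^ ex p := by
    intro a ha b hb
    have hc := m2 b hb a ha
    exact mul_pow_ex_of (h.Tcen _ hc a) (h.Tcen _ hc b) (h.T_pow hc)
  have hK'char : (powKer M (ex p)).Characteristic := H93SYPowKer.powKer_char M (ex p)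
  have hmemK : ∀ x, x ∈ powKer M (ex p) ↔ x ∈ M ∧ x ^ ex p = 1 := H93SYPowKer.mem_powKer hmul
  have hmemM : ∀ g, (∀ z ∈ Z, g * z ^ p = z ^ p * g) → g ∈ M := by
    intro g hg
    rw [hM, Subgroup.mem_centralizer_iff]
    intro x hx
    have hle : Cfsg.powerClosure p 1 Z ≤ Subgroup.centralizer ({g} : Set G) := by
      unfold Cfsg.powerClosure
      rw [Subgroup.closure_le]
      rintro _ ⟨z, hz, rfl⟩
      rw [SetLike.mem_coe, Subgroup.mem_centralizer_iff]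
      intro g' hg'
      rw [Set.mem_singleton_iff] at hg'
      subst hg'
      rw [pow_one]
      exact hg z hz
    exact (Subgroup.mem_centralizer_iff.1 (hle hx) g (Set.mem_singleton g)).symm
  have hpow_ex : ∀ g : G, g ^ p = 1 → g ^ ex p = 1 := by
    intro g hg
    obtain ⟨r, hr⟩ := p_dvd_ex p
    rw [hr, pow_mul, hg, one_pow]
  have hyM : y ∈ M := hmemM y hyc
  have hEM : ∀ a ∈ E, a ∈ M := fun a ha => hmemM a (fun z hz =>
    ((h.Z_comm (Z.pow_mem hz p) (hEC ha)).eq).symm)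
  have hZM : ∀ a ∈ Z, a ∈ M := fun a ha => hmemM a (fun z hz =>
    ((h.Z_comm (Z.pow_mem hz p) (h.ZC ha)).eq).symm)
  have hyK : y ∈ powKer M (ex p) := (hmemK y).2 ⟨hyM, hpow_ex y hyp⟩
  have hycen : y ∈ Subgroup.centralizer (powKer M (ex p) : Set G) := by
    rw [Subgroup.mem_centralizer_iff]
    intro g hg
    obtain ⟨hgM, hge⟩ := (hmemK g).1 hg
    obtain ⟨a, ha, z, hz, j, rfl⟩ := m1 g hgM
    have hyj : (y ^ j) ^ ex p = 1 := by
      rw [← pow_mul, mul_comm, pow_mul, hpow_ex y hyp, one_pow]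
    have hze : z ^ ex p = 1 := by
      rw [hmul _ (M.mul_mem (hEM a ha) (hZM z hz)) _ (M.pow_mem hyM j),
        hmul _ (hEM a ha) _ (hZM z hz), hEe a ha, hyj, one_mul, mul_one] at hge
      exact hge
    obtain ⟨s', hs'⟩ := hbig
    obtain ⟨v, hv, hzv⟩ := H93SYCyc.exists_root Z h.Zcyc (ex p) (p * s')
      (by rw [hs']; ring) z hz hze
    have hyz : Commute y z := by
      rw [hzv, mul_comm, pow_mul]
      exact hyc (v ^ s') (Z.pow_mem hv s')
    have hya : Commute y a := hyR a ha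
    have hyy : Commute y (y ^ j) := (Commute.refl y).pow_right j
    exact (((hya.mul_right hyz).mul_right hyy).eq).symm
  have hAcyc : IsCyclic ↥(powKer M (ex p) ⊓ Subgroup.centralizer (powKer M (ex p) : Set G)) :=
    H93SYZChar.center_cyclic hsymp (powKer M (ex p))
  have hTA : T ≤ powKer M (ex p) ⊓ Subgroup.centralizer (powKer M (ex p) : Set G) := by
    intro t ht
    refine Subgroup.mem_inf.2 ⟨(hmemK t).2 ⟨hZM t (h.TZ ht), hpow_ex t (h.T_pow ht)⟩, ?_⟩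
    rw [Subgroup.mem_centralizer_iff]
    intro g _
    exact (h.Tcen t ht g).symm
  have hyT : y ∈ T := H93SYCyc.mem_of_pow _ T hAcyc hTA y (Subgroup.mem_inf.2 ⟨hyK, hycen⟩)
    (by rw [h.Tcard]; exact hyp)
  exact hyZ (h.TZ hyT)

end Cfsg.Agent.H93SYNoB
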