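import Cfsg.Agent.Lib.Helper93SYDefs
import Cfsg.Agent.Lib.H93SYClT

set_option autoImplicit false
open Cfsg Cfsg.Agent.Helper93SYDefs
open scoped commutatorElement

namespace Cfsg.Agent.H93SYSmallR

/-- PIECE SmallR (90m, pure Mathlib).  `Z ≅ C₄` normal and self-centralizing in `R ≠ Z`: then `R` (of order 8) satisfies `ESin 2 R T`, `T = Ω₁(Z)`.
Sketch: `Z = ⟨ζ⟩`, `ζ` of order 4, `T = {1, ζ²}`.  For `r ∈ R`: `r ζ r⁻¹ ∈ Z` has order 4, so it is `ζ` or `ζ⁻¹ = ζ³`; it is `ζ` iff `r` centralizes `Z` iff `r ∈ Z`.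
So all `r ∈ R ∖ Z` invert `Z`; for `r, r' ∈ R ∖ Z`, `r' r⁻¹` centralizes `ζ`, so `R = Z ∪ Z r₀`.
`pow`: `z^2 ∈ T` for `z ∈ Z` (`(z^2)^2 = z^4 = 1`); for `r ∉ Z`: `r^2` centralizes `ζ` (inverts twice) so `r^2 ∈ Z`, and `r` commutes with `r^2` and inverts it: `(r^2)^2 = 1`.
`comm`: `R = closure (Z ∪ {r₀})`, `⁅z, r₀⁆ = z (r₀ z⁻¹ r₀⁻¹) = z^2 ∈ T`; `T` is central in `R` only, so either use `H93SYClT.comm_closure` inside the group `↥R`, or compute directly with `r = z r₀^ε`.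
`cen`: `r` central in `R` centralizes `Z`, so `r ∈ Z`; it commutes with `r₀`, which inverts it: `r^2 = 1`. -/
theorem smallR {G : Type*} [Group G] [Finite G] (R Z T : Subgroup G) (hZR : Z ≤ R)
    (hZn : ∀ r ∈ R, ∀ z ∈ Z, r * z * r⁻¹ ∈ Z) (hZcyc : IsCyclic Z) (hZc : Nat.card Z = 4)
    (hT : ∀ x : G, x ∈ T ↔ x ∈ Z ∧ x ^ 2 = 1) (hcen : ∀ r ∈ R, (∀ z ∈ Z, r * z = z * r) → r ∈ Z)
    (hna : ∃ r ∈ R, r ∉ Z) : ESin 2 R T := by
  classical
  obtain ⟨g, hg⟩ := hZcyc.exists_generator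
  have hog : orderOf g = 4 := by rw [orderOf_eq_card_of_forall_mem_zpowers hg, hZc]
  obtain ⟨ζ, hζ⟩ := g
  have hoζ : orderOf ζ = 4 := by
    rw [← hog, ← Subgroup.orderOf_coe]
  have hgen : ∀ z ∈ Z, ∃ k : ℕ, z = ζ ^ k := by
    intro z hz
    have h1 : (⟨z, hz⟩ : Z) ∈ Submonoid.powers (⟨ζ, hζ⟩ : Z) :=
      (mem_powers_iff_mem_zpowers).2 (hg ⟨z, hz⟩)
    obtain ⟨k, hk⟩ := h1
    refine ⟨k, ?_⟩
    have := congrArg Subtype.val hk
    simpa using this.symm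
  have h4 : ζ ^ 4 = 1 := by rw [← hoζ]; exact pow_orderOf_eq_one ζ
  have hζ2 : ζ ^ 2 ≠ 1 := pow_ne_one_of_lt_orderOf (by norm_num) (by rw [hoζ]; norm_num)
  have hζ1 : ζ ≠ 1 := by
    intro h; apply hζ2; rw [h, one_pow]
  have hz4 : ∀ z ∈ Z, z ^ 4 = 1 := by
    intro z hz
    obtain ⟨k, rfl⟩ := hgen z hz
    rw [← pow_mul, mul_comm, pow_mul, h4, one_pow]
  have hZcomm : ∀ a ∈ Z, ∀ b ∈ Z, a * b = b * a := by
    intro a ha b hb
    obtain ⟨i, rfl⟩ := hgen a ha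
    obtain ⟨j, rfl⟩ := hgen b hb
    rw [← pow_add, ← pow_add, add_comm]
  have dich : ∀ r ∈ R, r ∈ Z ∨ ∀ z ∈ Z, r * z * r⁻¹ = z⁻¹ := by
    intro r hr
    obtain ⟨k, hk⟩ := hgen _ (hZn r hr ζ hζ)
    rw [← pow_mod_orderOf, hoζ] at hk
    have hlt : k % 4 < 4 := Nat.mod_lt _ (by norm_num)
    generalize k % 4 = l at hk hlt
    interval_cases l
    · exfalso
      rw [pow_zero, conj_eq_one_iff] at hk
      exact hζ1 hk
    · left
      apply hcen r hr
      intro z hz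
      obtain ⟨j, rfl⟩ := hgen z hz
      rw [pow_one] at hk
      have hc : Commute r ζ := by
        have : r * ζ = ζ * r := by
          calc r * ζ = r * ζ * r⁻¹ * r := by group
            _ = ζ * r := by rw [hk]
        exact this
      exact (hc.pow_right j).eq
    · exfalso
      have h1 : (r * ζ * r⁻¹) ^ 2 = 1 := by rw [hk, ← pow_mul]; exact h4
      rw [conj_pow, conj_eq_one_iff] at h1
      exact hζ2 h1
    · right
      intro z hz
      obtain ⟨j, rfl⟩ := hgen z hz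
      have h3 : ζ ^ 3 = ζ⁻¹ := by
        apply eq_inv_of_mul_eq_one_left
        rw [← pow_succ]; exact h4
      rw [← conj_pow, hk, h3, inv_pow]
  have hpow : ∀ x ∈ R, x ^ 2 ∈ T := by
    intro x hx
    rw [hT]
    rcases dich x hx with hxZ | hinv
    · exact ⟨Z.pow_mem hxZ 2, by rw [← pow_mul]; exact hz4 x hxZ⟩
    · have hx2 : x ^ 2 ∈ Z := by
        apply hcen _ (R.pow_mem hx 2)
        intro z hz
        have h1 := hinv z hz
        have h2 := hinv z⁻¹ (Z.inv_mem hz)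
        rw [inv_inv] at h2
        have h3 : x ^ 2 * z * (x ^ 2)⁻¹ = z := by
          calc x ^ 2 * z * (x ^ 2)⁻¹ = x * (x * z * x⁻¹) * x⁻¹ := by
                simp only [pow_two, mul_inv_rev, mul_assoc]
            _ = z := by rw [h1, h2]
        calc x ^ 2 * z = x ^ 2 * z * (x ^ 2)⁻¹ * x ^ 2 := by group
          _ = z * x ^ 2 := by rw [h3]
      refine ⟨hx2, ?_⟩
      have h1 := hinv _ hx2
      have h2 : x * x ^ 2 * x⁻¹ = x ^ 2 := by group
      rw [h2] at h1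
      calc (x ^ 2) ^ 2 = x ^ 2 * x ^ 2 := pow_two _
        _ = x ^ 2 * (x ^ 2)⁻¹ := by rw [← h1]
        _ = 1 := mul_inv_cancel _
  refine ⟨fun t ht => hZR ((hT t).1 ht).1, ?_, hpow, ?_⟩
  · intro x hx y hy
    rcases dich x hx with hxZ | hxinv
    · rcases dich y hy with hyZ | hyinv
      · have : ⁅x, y⁆ = 1 := by
          rw [commutatorElement_eq_one_iff_commute]; exact hZcomm x hxZ y hyZ
        rw [this]; exact T.one_mem
      · have h1 := hyinv x⁻¹ (Z.inv_mem hxZ)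
        rw [inv_inv] at h1
        have : ⁅x, y⁆ = x ^ 2 := by
          calc ⁅x, y⁆ = x * (y * x⁻¹ * y⁻¹) := by rw [commutatorElement_def]; group
            _ = x ^ 2 := by rw [h1, pow_two]
        rw [this]; exact hpow x hx
    · rcases dich y hy with hyZ | hyinv
      · have h1 := hxinv y hyZ
        have : ⁅x, y⁆ = (y⁻¹) ^ 2 := by
          calc ⁅x, y⁆ = (x * y * x⁻¹) * y⁻¹ := by rw [commutatorElement_def]
            _ = (y⁻¹) ^ 2 := by rw [h1, pow_two]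
        rw [this]; exact hpow _ (R.inv_mem hy)
      · have hzZ : y * x⁻¹ ∈ Z := by
          apply hcen _ (R.mul_mem hy (R.inv_mem hx))
          intro z hz
          have h1 := hxinv z⁻¹ (Z.inv_mem hz)
          rw [inv_inv] at h1
          have h1' : x⁻¹ * z * x = z⁻¹ := by
            calc x⁻¹ * z * x = x⁻¹ * (x * z⁻¹ * x⁻¹) * x := by rw [h1]
              _ = z⁻¹ := by group
          have h2 := hyinv z⁻¹ (Z.inv_mem hz)
          rw [inv_inv] at h2
          calc y * x⁻¹ * z = y * (x⁻¹ * z * x) * y⁻¹ * (y * x⁻¹) := by group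
            _ = z * (y * x⁻¹) := by rw [h1', h2]
        have h1 := hxinv _ hzZ
        have : ⁅x, y⁆ = ((y * x⁻¹)⁻¹) ^ 2 := by
          calc ⁅x, y⁆ = (x * (y * x⁻¹) * x⁻¹) * (y * x⁻¹)⁻¹ := by
                rw [commutatorElement_def]; group
            _ = ((y * x⁻¹)⁻¹) ^ 2 := by rw [h1, pow_two]
        rw [this]; exact hpow _ (R.inv_mem (hZR hzZ))
  · intro x hx hxc
    have hxZ : x ∈ Z := hcen x hx (fun z hz => hxc z (hZR hz))
    rw [hT]
    refine ⟨hxZ, ?_⟩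
    obtain ⟨r0, hr0, hr0Z⟩ := hna
    rcases dich r0 hr0 with h | hinv
    · exact absurd h hr0Z
    · have h1 := hinv x hxZ
      have h2 : r0 * x * r0⁻¹ = x := by
        rw [← hxc r0 hr0]; group
      rw [h2] at h1
      calc x ^ 2 = x * x := pow_two _
        _ = x * x⁻¹ := by rw [← h1]
        _ = 1 := mul_inv_cancel _

end Cfsg.Agent.H93SYSmallR
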