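import Cfsg.Agent.Lib.Helper93SYDefs
import Cfsg.Agent.Lib.H93SYExtract
import Cfsg.Agent.Lib.H93SYMForm
import Cfsg.Agent.S3761

set_option autoImplicit false
open Cfsg Cfsg.Agent.Helper93SYDefs
open scoped commutatorElement

namespace Cfsg.Agent.H93SYUseS

/-- PIECE UseS.  Apply the row S3761 to the group `↥R` and `U := Z.subgroupOf R`. -/
theorem use_S3761 {G : Type*} [Group G] [Finite G] {p : ℕ} [Fact p.Prime] (hG : IsPGroup p G)
    (R Z : Subgroup G) (hZR : Z ≤ R) (hZn : ∀ r ∈ R, ∀ z ∈ Z, r * z * r⁻¹ ∈ Z) (hZcyc : IsCyclic Z)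
    (n : ℕ) (hZc : Nat.card Z = p ^ n) (hcen : ∀ r ∈ R, (∀ z ∈ Z, r * z = z * r) → r ∈ Z)
    (hna : ∃ a ∈ R, ∃ b ∈ R, a * b ≠ b * a) :
    (p = 2 ∧ Nat.card R = 2 ^ (n + 1) ∧ ((∃ m : ℕ, Nonempty (↥R ≃* DihedralGroup m)) ∨
      (∃ m : ℕ, Nonempty (↥R ≃* QuaternionGroup m)) ∨ Cfsg.IsQuasiDihedral ↥R)) ∨
    (∃ y ∈ R, y ∉ Z ∧ y ^ p = 1 ∧ (∀ z ∈ Z, y * z ^ p = z ^ p * y) ∧
      ∀ r ∈ R, (∀ z ∈ Z, r * z ^ p = z ^ p * r) → ∃ z ∈ Z, ∃ j : ℕ, r = z * y ^ j) := by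
  have hGR : IsPGroup p ↥R := hG.to_subgroup R
  have hnaR : ¬ IsMulCommutative ↥R := by
    intro hc
    obtain ⟨a, ha, b, hb, hab⟩ := hna
    apply hab
    have := hc.is_comm.comm (⟨a, ha⟩ : R) ⟨b, hb⟩
    exact congrArg Subtype.val this
  have memU : ∀ r : ↥R, r ∈ Z.subgroupOf R ↔ (r : G) ∈ Z := fun r => Subgroup.mem_subgroupOf
  have hUn : (Z.subgroupOf R).Normal := ⟨fun z hz r => by
    rw [memU] at hz ⊢
    exact hZn r r.2 z hz⟩
  have hUcyc : IsCyclic ↥(Z.subgroupOf R) :=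
    isCyclic_of_surjective (Subgroup.subgroupOfEquivOfLe hZR).symm
      (Subgroup.subgroupOfEquivOfLe hZR).symm.surjective
  have hUc : Nat.card ↥(Z.subgroupOf R) = p ^ n := by
    rw [Nat.card_congr (Subgroup.subgroupOfEquivOfLe hZR).toEquiv, hZc]
  have hZcomm : ∀ a ∈ Z, ∀ b ∈ Z, a * b = b * a := by
    intro a ha b hb
    obtain ⟨g, hg⟩ := hZcyc.exists_generator
    obtain ⟨i, hi⟩ := Subgroup.mem_zpowers_iff.mp (hg ⟨a, ha⟩)
    obtain ⟨j, hj⟩ := Subgroup.mem_zpowers_iff.mp (hg ⟨b, hb⟩)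
    have h1 : (⟨a, ha⟩ : Z) * ⟨b, hb⟩ = ⟨b, hb⟩ * ⟨a, ha⟩ := by
      rw [← hi, ← hj]; exact zpow_mul_comm g i j
    exact congrArg Subtype.val h1
  have hC : Subgroup.centralizer ((Z.subgroupOf R : Subgroup ↥R) : Set ↥R) = Z.subgroupOf R := by
    ext r
    rw [Subgroup.mem_centralizer_iff]
    constructor
    · intro h
      rw [memU]
      apply hcen r r.2
      intro z hz
      have := h ⟨z, hZR hz⟩ ((memU _).mpr hz)
      exact (congrArg Subtype.val this).symm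
    · intro hr u hu
      exact Subtype.ext (hZcomm u ((memU u).mp hu) r ((memU r).mp hr))
  have memM : ∀ r : ↥R, r ∈ Subgroup.centralizer (Cfsg.powerClosure p 1 (Z.subgroupOf R) : Set ↥R) ↔
      ∀ z ∈ Z, (r : G) * z ^ p = z ^ p * r := by
    intro r
    rw [H93SYMForm.mem_M p (Z.subgroupOf R) r]
    constructor
    · intro h z hz
      exact congrArg Subtype.val (h ⟨z, hZR hz⟩ ((memU _).mpr hz))
    · intro h u hu
      exact Subtype.ext (h u ((memU u).mp hu))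
  rcases Cfsg.Agent.S3761.result hGR hnaR (Z.subgroupOf R) hUcyc n hUc hC with ha | ⟨hidx, hW, hWc, _⟩
  · left; exact ha
  · right
    have hUM : Z.subgroupOf R ≤ Subgroup.centralizer (Cfsg.powerClosure p 1 (Z.subgroupOf R) : Set ↥R) := by
      intro u hu
      rw [memM]
      intro z hz
      exact hZcomm u ((memU u).mp hu) _ (Z.pow_mem hz p)
    obtain ⟨y, hyM, hyU, hyp, hform⟩ := H93SYExtract.extract (Z.subgroupOf R) _ hUM hUcyc hidx hW hWc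
    refine ⟨y, y.2, fun h => hyU ((memU y).mpr h), congrArg Subtype.val hyp, (memM y).mp hyM, ?_⟩
    intro r hr hrz
    obtain ⟨z, hz, j, hj⟩ := hform ⟨r, hr⟩ ((memM _).mpr hrz)
    exact ⟨z, (memU z).mp hz, j, congrArg Subtype.val hj⟩

end Cfsg.Agent.H93SYUseS
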