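import Mathlib

set_option autoImplicit false
set_option linter.unusedSectionVars false
open Module

namespace Cfsg.Agent.Lib.Helper28TiCW

variable {F V : Type*} [Field F] [AddCommGroup V] [Module F V] [FiniteDimensional F V]

/-- I-CW: Chevalley–Warning for `s` quadrics `v ↦ B v (f j v)` on a subspace -/
theorem exists_common_zero [Fintype F] (B : LinearMap.BilinForm F V) {s : ℕ}
    (f : Fin s → Module.End F V) (Q : Submodule F V) (h : 2 * s < finrank F Q) :
    ∃ v ∈ Q, v ≠ 0 ∧ ∀ j, B v (f j v) = 0 := by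
  classical
  obtain ⟨p, hp⟩ := CharP.exists F
  have : Fact p.Prime := ⟨CharP.char_is_prime F p⟩
  set n := finrank F Q with hn
  let b : Basis (Fin n) F Q := finBasis F Q
  let P : Fin s → MvPolynomial (Fin n) F := fun j =>
    ∑ a, ∑ c, MvPolynomial.C (B (b a : V) (f j (b c : V))) * MvPolynomial.X a * MvPolynomial.X c
  have hdeg : ∀ j, (P j).totalDegree ≤ 2 := by
    intro j
    apply MvPolynomial.totalDegree_finsetSum_le
    intro a _
    apply MvPolynomial.totalDegree_finsetSum_le
    intro c _
    refine (MvPolynomial.totalDegree_mul _ _).trans ?_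
    have h1 := MvPolynomial.totalDegree_mul (MvPolynomial.C (B (b a : V) (f j (b c : V))))
      (MvPolynomial.X a : MvPolynomial (Fin n) F)
    rw [MvPolynomial.totalDegree_C, MvPolynomial.totalDegree_X] at h1
    rw [MvPolynomial.totalDegree_X]
    omega
  have hsum : ∑ j ∈ (Finset.univ : Finset (Fin s)), (P j).totalDegree < Fintype.card (Fin n) := by
    rw [Fintype.card_fin]
    calc ∑ j ∈ (Finset.univ : Finset (Fin s)), (P j).totalDegree
        ≤ ∑ j ∈ (Finset.univ : Finset (Fin s)), 2 := Finset.sum_le_sum (fun j _ => hdeg j)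
      _ = 2 * s := by simp [mul_comm]
      _ < n := h
  have hdvd := char_dvd_card_solutions_of_sum_lt p hsum
  have heval : ∀ (x : Fin n → F) (j : Fin s), MvPolynomial.eval x (P j)
      = B ((b.equivFun.symm x : Q) : V) (f j ((b.equivFun.symm x : Q) : V)) := by
    intro x j
    rw [Basis.equivFun_symm_apply]
    simp only [P, map_sum, map_mul, MvPolynomial.eval_C, MvPolynomial.eval_X,
      Submodule.coe_sum, Submodule.coe_smul, LinearMap.sum_apply, map_smul, LinearMap.smul_apply,
      smul_eq_mul, Finset.mul_sum]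
    rw [Finset.sum_comm]
    apply Finset.sum_congr rfl
    intro a _
    apply Finset.sum_congr rfl
    intro c _
    ring
  let z : { x : Fin n → F // ∀ i ∈ (Finset.univ : Finset (Fin s)), MvPolynomial.eval x (P i) = 0 } :=
    ⟨0, fun j _ => by rw [heval]; simp⟩
  rw [Fintype.card_eq_nat_card] at hdvd
  have hle := Nat.le_of_dvd (Nat.card_pos_iff.mpr ⟨⟨z⟩, inferInstance⟩) hdvd
  have hcard := lt_of_lt_of_le (Fact.out : p.Prime).one_lt hle
  rw [Nat.card_eq_fintype_card] at hcard
  obtain ⟨x, hx⟩ := Fintype.exists_ne_of_one_lt_card hcard z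
  refine ⟨((b.equivFun.symm x.1 : Q) : V), (b.equivFun.symm x.1 : Q).2, ?_, ?_⟩
  · intro h0
    apply hx
    apply Subtype.ext
    have : (b.equivFun.symm x.1 : Q) = 0 := Subtype.ext h0
    have h3 := (LinearEquiv.map_eq_zero_iff b.equivFun.symm).mp this
    exact h3
  · intro j
    rw [← heval]
    exact x.2 j (Finset.mem_univ _)

end Cfsg.Agent.Lib.Helper28TiCW
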