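import Mathlib
import Cfsg.Agent.Lib.Helper28TiCW

set_option autoImplicit false
set_option linter.unusedSectionVars false
open Module

/-! Piece Cw of project 5955 (row S5955): proof in `Helper28TiCW`. -/

namespace Cfsg.Agent.Lib.H94TiCw

variable {F V : Type*} [Field F] [AddCommGroup V] [Module F V] [FiniteDimensional F V]

theorem exists_common_zero [Fintype F] (B : LinearMap.BilinForm F V) {s : ℕ}
    (f : Fin s → Module.End F V) (Q : Submodule F V) (h : 2 * s < finrank F Q) :
    ∃ v ∈ Q, v ≠ 0 ∧ ∀ j, B v (f j v) = 0 :=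
  Cfsg.Agent.Lib.Helper28TiCW.exists_common_zero B f Q h

end Cfsg.Agent.Lib.H94TiCw
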