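import Mathlib
import Cfsg.Agent.Lib.Helper48UnipForm

set_option autoImplicit false
set_option linter.unusedSectionVars false

namespace Cfsg.Agent.Lib.Helper48UnipEx

open Module Matrix Cfsg.Agent.Lib.Helper48AltCongr Cfsg.Agent.Lib.Helper48AltForm
  Cfsg.Agent.Lib.Helper48RankSeq Cfsg.Agent.Lib.Helper48UnipForm Cfsg.Agent.Lib.Helper48Jordan

universe u
variable {F : Type u} [Field F]

/-- the exchange matrix -/
def PX (k : ℕ) (F : Type u) [Field F] : Matrix (Fin k) (Fin k) F :=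
  (Fin.revPerm : Equiv.Perm (Fin k)).toPEquiv.toMatrix

theorem PX_mul (k : ℕ) (M : Matrix (Fin k) (Fin k) F) : PX k F * M = M.submatrix Fin.rev id :=
  PEquiv.toMatrix_toPEquiv_mul _ M

theorem mul_PX (k : ℕ) (M : Matrix (Fin k) (Fin k) F) : M * PX k F = M.submatrix id Fin.rev :=
  PEquiv.mul_toMatrix_toPEquiv M _

theorem PX_sq (k : ℕ) : PX k F * PX k F = 1 := by
  rw [PX_mul]
  ext i j
  simp only [PX, Matrix.submatrix_apply, id, PEquiv.toMatrix_apply, Matrix.one_apply]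
  simp [Equiv.toPEquiv_apply, Fin.revPerm_apply, Fin.rev_rev]

theorem PX_transpose (k : ℕ) : (PX k F)ᵀ = PX k F := by
  ext i j
  simp only [PX, Matrix.transpose_apply, PEquiv.toMatrix_apply]
  simp only [Equiv.toPEquiv_apply, Fin.revPerm_apply, Option.mem_def, Option.some.injEq]
  congr 1
  apply propext
  constructor
  · intro h; rw [← h, Fin.rev_rev]
  · intro h; rw [← h, Fin.rev_rev]

theorem shift_PX (k : ℕ) : (shiftM k F)ᵀ * PX k F = PX k F * shiftM k F := by
  rw [PX_mul, mul_PX]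
  ext i j
  simp only [Matrix.submatrix_apply, id, Matrix.transpose_apply, shiftM, Matrix.of_apply,
    Fin.val_rev]
  congr 1
  apply propext
  have := i.2
  have := j.2
  omega

/-- a regular unipotent matrix of even size -/
def UU (k : ℕ) (F : Type u) [Field F] : Matrix (Fin k ⊕ Fin k) (Fin k ⊕ Fin k) F :=
  fromBlocks 1 (shiftM k F) 1 (1 + shiftM k F)

/-- the alternating form preserved by `UU` -/
def YY (k : ℕ) (F : Type u) [Field F] : Matrix (Fin k ⊕ Fin k) (Fin k ⊕ Fin k) F :=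
  fromBlocks 0 (PX k F) (-PX k F) 0

theorem YY_mul (k : ℕ) : YY k F * fromBlocks 0 (-PX k F) (PX k F) 0 = 1 := by
  rw [YY, fromBlocks_multiply]
  simp [PX_sq]

theorem YY_alt (k : ℕ) (x : Fin k ⊕ Fin k → F) : x ⬝ᵥ (YY k F) *ᵥ x = 0 := by
  rw [YY, Matrix.fromBlocks_mulVec, dotProduct, Fintype.sum_sum_type]
  simp only [Sum.elim_inl, Sum.elim_inr, Matrix.zero_mulVec, add_zero, zero_add]
  change (x ∘ Sum.inl) ⬝ᵥ (PX k F *ᵥ (x ∘ Sum.inr)) + (x ∘ Sum.inr) ⬝ᵥ (-PX k F *ᵥ (x ∘ Sum.inl)) = 0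
  rw [Matrix.neg_mulVec, dotProduct_neg, Matrix.dotProduct_mulVec (x ∘ Sum.inr),
    ← Matrix.mulVec_transpose, PX_transpose, dotProduct_comm (PX k F *ᵥ (x ∘ Sum.inr)), add_neg_cancel]

theorem UU_inv (k : ℕ) : (UU k F)ᵀ * YY k F * UU k F = YY k F := by
  have h := shift_PX (F := F) k
  rw [UU, YY, fromBlocks_transpose, fromBlocks_multiply, fromBlocks_multiply]
  simp only [Matrix.transpose_one, Matrix.transpose_add, mul_zero, zero_add, add_zero, one_mul,
    mul_one, mul_neg, neg_mul]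
  congr 1
  · abel
  · rw [mul_add, mul_one]; abel
  · rw [add_mul, one_mul]; abel
  · rw [add_mul, one_mul, mul_add, mul_one, add_mul, h]
    abel

theorem UU_sub_one (k : ℕ) : UU k F - 1 = fromBlocks 0 (shiftM k F) 1 (shiftM k F) := by
  rw [UU]
  ext (i | i) (j | j) <;> simp [Matrix.one_apply]

theorem UU_rank (k : ℕ) (hk : 1 ≤ k) : (UU k F - 1).rank = Fintype.card (Fin k ⊕ Fin k) - 1 := by
  have h1 : UU k F - 1 = fromBlocks (shiftM k F) 0 0 1 * fromBlocks 0 1 1 (shiftM k F) := by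
    rw [UU_sub_one, fromBlocks_multiply]
    simp
  have h2 : fromBlocks (0 : Matrix (Fin k) (Fin k) F) 1 1 (shiftM k F) *
      fromBlocks (-shiftM k F) 1 1 0 = 1 := by
    rw [fromBlocks_multiply]
    simp
  rw [h1, Matrix.rank_mul_eq_left_of_isUnit_det, rank_fromBlocks_diag, shiftM_rank, Matrix.rank_one]
  · simp
    omega
  · exact (Matrix.isUnit_iff_isUnit_det _).mp (IsUnit.of_mul_eq_one _ h2)

theorem UU_nilpotent (k : ℕ) : IsNilpotent (UU k F - 1) := by
  set S := shiftM k F with hS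
  have h1 : (UU k F - 1) * (UU k F - 1) = fromBlocks S 0 0 S * UU k F := by
    rw [UU_sub_one, UU, fromBlocks_multiply, fromBlocks_multiply]
    simp [mul_add, hS]
  have hc : Commute (fromBlocks S 0 0 S) (UU k F) := by
    change _ * _ = _ * _
    rw [UU, fromBlocks_multiply, fromBlocks_multiply]
    simp [mul_add, add_mul, hS]
  refine ⟨2 * k, ?_⟩
  rw [pow_mul, pow_two, h1, hc.mul_pow]
  have h2 : (fromBlocks S 0 0 S) ^ k = 0 := by
    have h3 : ∀ j : ℕ, (fromBlocks S 0 0 S) ^ j = fromBlocks (S ^ j) 0 0 (S ^ j) := by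
      intro j
      induction j with
      | zero => rw [pow_zero, pow_zero, fromBlocks_one]
      | succ j ih => rw [pow_succ, ih, fromBlocks_multiply, pow_succ]; simp
    rw [h3, hS, shiftM_pow_self]
    exact fromBlocks_zero
  rw [h2, zero_mul]

theorem UU_rankSeq (k : ℕ) (hk : 1 ≤ k) : RankSeq (UU k F) {2 * k} := by
  have h := RankSeq.of_regular (UU k F) (UU_nilpotent k) (UU_rank k hk)
  have hc : Fintype.card (Fin k ⊕ Fin k) = 2 * k := by simp [two_mul]
  rwa [hc] at h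

/-- a pair of dual Jordan blocks -/
theorem exists_pair (j : ℕ) : ∃ A A' : Matrix (Fin j) (Fin j) F, A * A' = 1 ∧ A' * A = 1 ∧
    RankSeq (fromBlocks A 0 0 A'ᵀ) {j, j} := by
  have hu : IsUnit (Cfsg.jordanBlock j F) := by
    rw [jordanBlock_eq]
    exact IsNilpotent.isUnit_one_add ⟨j, shiftM_pow_self j⟩
  obtain ⟨c, hc⟩ := hu
  refine ⟨c.1, c⁻¹.1, Units.mul_inv c, Units.inv_mul c, ?_⟩
  have h1 : RankSeq c.1 {j} := by rw [hc]; exact rankSeq_jordanBlock j
  exact h1.fromBlocks (h1.inv (Units.mul_inv c)).transpose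

section altinv
variable {ι κ : Type*} [Fintype ι] [DecidableEq ι] [Fintype κ] [DecidableEq κ]

/-- `A` preserves a nondegenerate alternating form -/
def AltInv (A : Matrix ι ι F) : Prop :=
  ∃ Y Y' : Matrix ι ι F, Y * Y' = 1 ∧ (∀ x : ι → F, x ⬝ᵥ Y *ᵥ x = 0) ∧ Aᵀ * Y * A = Y

theorem AltInv.reindex {A : Matrix ι ι F} (h : AltInv A) (e : ι ≃ κ) :
    AltInv (Matrix.reindex e e A) := by
  obtain ⟨Y, Y', h1, h2, h3⟩ := h
  refine ⟨Matrix.reindex e e Y, Matrix.reindex e e Y', ?_, ?_, ?_⟩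
  · have : Matrix.reindex e e Y * Matrix.reindex e e Y'
        = Matrix.reindexAlgEquiv F F e (Y * Y') := by rw [map_mul]; rfl
    rw [this, h1, map_one]
  · intro x
    have h4 := h2 (x ∘ e)
    rw [Matrix.reindex_apply, Matrix.submatrix_mulVec_equiv, dotProduct_comp_equiv_symm]
    exact h4
  · rw [Matrix.transpose_reindex]
    have : Matrix.reindex e e Aᵀ * Matrix.reindex e e Y * Matrix.reindex e e A
        = Matrix.reindexAlgEquiv F F e (Aᵀ * Y * A) := by rw [map_mul, map_mul]; rfl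
    rw [this, h3]
    rfl

theorem AltInv.fromBlocks {A : Matrix κ κ F} {B : Matrix ι ι F} (h : AltInv A) (h' : AltInv B) :
    AltInv (fromBlocks A 0 0 B) := by
  obtain ⟨Y, Y', h1, h2, h3⟩ := h
  obtain ⟨Z, Z', k1, k2, k3⟩ := h'
  refine ⟨Matrix.fromBlocks Y 0 0 Z, Matrix.fromBlocks Y' 0 0 Z', ?_, ?_, ?_⟩
  · rw [fromBlocks_multiply]
    simp [h1, k1]
  · intro x
    rw [Matrix.fromBlocks_mulVec, dotProduct, Fintype.sum_sum_type]
    simp only [Sum.elim_inl, Sum.elim_inr, Matrix.zero_mulVec, add_zero, zero_add]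
    have e1 := h2 (x ∘ Sum.inl)
    have e2 := k2 (x ∘ Sum.inr)
    rw [dotProduct] at e1 e2
    simp only [Function.comp_apply] at e1 e2
    rw [e1, e2, add_zero]
  · rw [fromBlocks_transpose, fromBlocks_multiply, fromBlocks_multiply]
    simp [h3, k3]

theorem altInv_UU (k : ℕ) : AltInv (UU k F) := ⟨YY k F, _, YY_mul k, YY_alt k, UU_inv k⟩

theorem altInv_pair (A A' : Matrix ι ι F) (hAA' : A * A' = 1) (hA'A : A' * A = 1) :
    AltInv (fromBlocks A 0 0 A'ᵀ) := by
  have ht : Aᵀ * A'ᵀ = 1 := by rw [← Matrix.transpose_mul, hA'A, Matrix.transpose_one]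
  refine ⟨Matrix.fromBlocks 0 1 (-1) 0, Matrix.fromBlocks 0 (-1) 1 0, ?_, ?_, ?_⟩
  · rw [fromBlocks_multiply]
    simp
  · intro x
    rw [Matrix.fromBlocks_mulVec, dotProduct, Fintype.sum_sum_type]
    simp only [Sum.elim_inl, Sum.elim_inr, Matrix.zero_mulVec, add_zero, zero_add,
      Matrix.one_mulVec, Matrix.neg_mulVec, Pi.neg_apply, Function.comp_apply, mul_neg,
      Finset.sum_neg_distrib]
    rw [add_neg_eq_zero]
    exact Finset.sum_congr rfl fun i _ => mul_comm _ _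
  · rw [fromBlocks_transpose, fromBlocks_multiply, fromBlocks_multiply]
    simp [ht, hA'A]

end altinv

theorem count_map_eq {t : ℕ} (d : Fin t → ℕ) (j : ℕ) :
    (Finset.univ.val.map d).count j = (Finset.univ.filter (fun k : Fin t => d k = j)).card := by
  rw [← Cfsg.Agent.Lib.Helper48Chain3.card_fiber, Nat.card_eq_fintype_card, Fintype.card_subtype]

theorem even_count (s : Multiset ℕ) (c : ℕ) (h1 : Even (s.map (· - c)).sum)
    (h2 : Even (s.map (· - (c + 2))).sum) : Even (s.count (c + 1)) := by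
  have h := count_eq s c
  obtain ⟨a, ha⟩ := h1
  obtain ⟨b, hb⟩ := h2
  exact ⟨a + b - (s.map (· - (c + 1))).sum, by omega⟩

end Cfsg.Agent.Lib.Helper48UnipEx
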