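import Mathlib
import Cfsg.Prelude.Def_GeometricClasses
import Cfsg.Agent.Lib.H90SwP68
import Cfsg.Agent.Lib.H90SwP37
import Cfsg.Agent.Lib.H90SwElt
import Cfsg.Agent.Lib.H90SwMat
import Cfsg.Agent.Lib.H90SwC23
import Cfsg.Agent.Lib.H90SwC1a
import Cfsg.Agent.Lib.Helper7SpFrame
import Cfsg.Agent.Lib.Helper48UnipEx

set_option autoImplicit false
set_option linter.unusedSectionVars false

/-! Row S5956 (project 94, wave 6; proof: notes/helper94/ELU7.md): vocabulary. -/

namespace Cfsg.Agent.Lib.Helper94NdDefs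

open Module Cfsg.Agent.Lib.Helper99Symp

section defs
variable {F V : Type*} [Field F] [AddCommGroup V] [Module F V]

/-- `g` is an injective isometry of the alternating form `B` -/
structure Iso (B : LinearMap.BilinForm F V) (g : Module.End F V) : Prop where
  alt : ∀ v, B v v = 0
  pres : ∀ u v, B (g u) (g v) = B u v
  inj : Function.Injective g

/-- `W` is `g`-invariant, nondegenerate, contained in `Q` -/
def Good (B : LinearMap.BilinForm F V) (g : Module.End F V) (Q W : Submodule F V) : Prop :=
  W ≤ Q ∧ W.map g ≤ W ∧ NondegOn B W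

/-- `ν` is the Jordan type of the nilpotent map `N` on the invariant subspace `W` -/
def HasTy (N : Module.End F V) (W : Submodule F V) (ν : Multiset ℕ) : Prop :=
  0 ∉ ν ∧ ∀ k, finrank F ↥(W.map (N ^ k)) = (ν.map (· - k)).sum

end defs

/-- the span of a (partial) frame -/
def spanF {F : Type*} [Field F] {d j : ℕ}
    (ψ : Fin j → (Fin d ⊕ Fin d → F) × (Fin d ⊕ Fin d → F)) : Submodule F (Fin d ⊕ Fin d → F) :=
  Submodule.span F {v | ∃ k, v = (ψ k).1 ∨ v = (ψ k).2}

end Cfsg.Agent.Lib.Helper94NdDefs
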