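import Mathlib
import Cfsg.Prelude.Def_GeometricClasses
import Cfsg.Agent.Lib.H90SwP68
import Cfsg.Agent.Lib.H90SwP37
import Cfsg.Agent.Lib.H90SwElt
import Cfsg.Agent.Lib.H90SwMat
import Cfsg.Agent.Lib.H90SwC23
import Cfsg.Agent.Lib.Helper7SpFrame
import Cfsg.Agent.Lib.Helper48UnipEx
import Cfsg.Agent.Lib.Helper94NdDefs

set_option autoImplicit false
set_option linter.unusedSectionVars false
open Module Cfsg
open Cfsg.Agent.Lib.Helper99Symp Cfsg.Agent.Lib.H90SwDefs Cfsg.Agent.Lib.Helper99SympForm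
  Cfsg.Agent.Lib.Helper48RankSeq Cfsg.Agent.Lib.Helper94NdDefs

/-! Row S5956 (project 94, wave 6), piece N-G1. -/

namespace Cfsg.Agent.Lib.Helper3NdG1

variable {F V : Type*} [Field F] [AddCommGroup V] [Module F V] [FiniteDimensional F V]
  {B : LinearMap.BilinForm F V} {g : Module.End F V}

/-- N-G1 -/
theorem Iso.map_eq (h : Iso B g) {W : Submodule F V} (hW : W.map g ≤ W) : W.map g = W := by
  apply Submodule.eq_of_le_of_finrank_eq hW
  exact (LinearEquiv.finrank_eq (Submodule.equivMapOfInjective g h.inj W)).symm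

theorem Iso.perpIn_inv (h : Iso B g) {W Q : Submodule F V}
    (hW : W.map g ≤ W) (hQ : Q.map g ≤ Q) : (perpIn B W Q).map g ≤ perpIn B W Q := by
  rintro _ ⟨u, hu, rfl⟩
  refine ⟨hQ ⟨u, hu.1, rfl⟩, ?_⟩
  intro w hw
  rw [← Iso.map_eq h hW] at hw
  obtain ⟨w', hw', rfl⟩ := hw
  rw [h.pres]
  exact hu.2 w' hw'

/-- N-G1 -/
theorem Iso.good_perp (h : Iso B g) {Q H : Submodule F V} (hQ : Good B g ⊤ Q) (hH : Good B g Q H) :
    Good B g Q (perpIn B H Q) ∧ Good B g ⊤ (perpIn B H Q) ∧ Orth B H (perpIn B H Q) ∧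
      H ⊓ perpIn B H Q = ⊥ ∧ H ⊔ perpIn B H Q = Q ∧
      finrank F H + finrank F ↥(perpIn B H Q) = finrank F Q := by
  obtain ⟨-, hQi, hQn⟩ := hQ
  obtain ⟨hHQ, hHi, hHn⟩ := hH
  have hi := Iso.perpIn_inv h hHi hQi
  have hn := H90SwP12.perpIn_nondeg h.alt hHQ hHn hQn
  exact ⟨⟨H90SwP12.perpIn_le H Q, hi, hn⟩, ⟨le_top, hi, hn⟩, H90SwP12.orth_perpIn h.alt H Q,
    H90SwP12.perpIn_inf Q hHn, H90SwP12.perpIn_sup h.alt hHQ hHn, H90SwP12.finrank_perpIn h.alt hHQ hHn⟩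

/-- N-G1 -/
theorem Iso.good_sup (h : Iso B g) {Q H W : Submodule F V} (hH : Good B g Q H)
    (hW : Good B g (perpIn B H Q) W) :
    Good B g Q (H ⊔ W) ∧ finrank F ↥(H ⊔ W) = finrank F H + finrank F W := by
  obtain ⟨hHQ, hHi, hHn⟩ := hH
  obtain ⟨hWP, hWi, hWn⟩ := hW
  have ho : Orth B H W := fun u hu v hv => H90SwP12.orth_perpIn h.alt H Q u hu v (hWP hv)
  refine ⟨⟨sup_le hHQ (hWP.trans (H90SwP12.perpIn_le H Q)), ?_, H90SwP12.nondeg_sup h.alt hHn hWn ho⟩, ?_⟩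
  · rw [Submodule.map_sup]
    exact sup_le_sup hHi hWi
  · have h1 := Submodule.finrank_sup_add_finrank_inf_eq H W
    rw [H90SwP12.inf_eq_bot_of_orth hHn ho, finrank_bot, add_zero] at h1
    exact h1

end Cfsg.Agent.Lib.Helper3NdG1
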