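import Mathlib
import Cfsg.Agent.Lib.Helper94NdDefs

set_option autoImplicit false
set_option linter.unusedSectionVars false
open Module Cfsg
open Cfsg.Agent.Lib.Helper99Symp Cfsg.Agent.Lib.H90SwDefs Cfsg.Agent.Lib.Helper94NdDefs

/-! Row S5956, pieces N-PLANE, N-C1a, N-C1b (notes/helper94/ELU7.md). -/

namespace Cfsg.Agent.Lib.Helper94NdPlane

variable {F V : Type*} [Field F] [AddCommGroup V] [Module F V] [FiniteDimensional F V]
  {B : LinearMap.BilinForm F V} {g : Module.End F V}

/-- a hyperbolic pair spans a nondegenerate plane -/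
theorem plane_facts (alt : ∀ v, B v v = 0) {e f : V} (hef : B e f ≠ 0) :
    NondegOn B (Submodule.span F {e, f}) ∧ finrank F (Submodule.span F {e, f}) = 2 := by
  refine ⟨?_, Cfsg.Agent.Lib.H90SwC1a.finrank_span_hyp alt hef⟩
  intro u hu hu0
  obtain ⟨s, t, rfl⟩ := Submodule.mem_span_pair.1 hu
  have he : e ∈ Submodule.span F {e, f} := Submodule.subset_span (by simp)
  have hf : f ∈ Submodule.span F {e, f} := Submodule.subset_span (by simp)
  by_cases hs : s = 0
  · have ht : t ≠ 0 := by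
      rintro rfl
      apply hu0
      rw [hs]
      simp
    refine ⟨e, he, ?_⟩
    simp only [map_add, map_smul, LinearMap.add_apply, LinearMap.smul_apply, alt, smul_eq_mul,
      mul_zero, zero_add]
    rw [skew alt f e]
    exact mul_ne_zero ht (neg_ne_zero.2 hef)
  · refine ⟨f, hf, ?_⟩
    simp only [map_add, map_smul, LinearMap.add_apply, LinearMap.smul_apply, alt, smul_eq_mul,
      mul_zero, add_zero]
    exact mul_ne_zero hs hef

/-- N-PLANE: `span {v, g v}` when `g² = ε` and `B v (g v) ≠ 0` -/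
theorem exists_plane_of_ne (h : Iso B g) (ε : F) (hg : g * g = ε • 1) {Q : Submodule F V}
    (hQ : Q.map g ≤ Q) (v : V) (hv : v ∈ Q) (hne : B v (g v) ≠ 0) :
    ∃ H, Good B g Q H ∧ finrank F H = 2 := by
  obtain ⟨h1, h2⟩ := plane_facts h.alt hne
  have hgv : g v ∈ Q := hQ (Submodule.mem_map_of_mem hv)
  refine ⟨Submodule.span F {v, g v}, ⟨?_, ?_, h1⟩, h2⟩
  · rw [Submodule.span_le]
    rintro x (rfl | rfl)
    · exact hv
    · exact hgv
  · rw [Submodule.map_span_le]
    rintro x (rfl | rfl)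
    · exact Submodule.subset_span (by simp)
    · have : g (g v) = ε • v := by
        have := LinearMap.congr_fun hg v
        simpa using this
      rw [this]
      exact Submodule.smul_mem _ _ (Submodule.subset_span (by simp))

theorem map_eq' (h : Iso B g) {W : Submodule F V} (hW : W.map g ≤ W) : W.map g = W := by
  apply Submodule.eq_of_le_of_finrank_eq hW
  exact (Submodule.equivMapOfInjective g h.inj W).finrank_eq.symm

/-- N-C1a -/
theorem exists_plane_neg (h : Iso B g) (h2 : (2 : F) ≠ 0) (hg : g * g = (-1 : F) • 1)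
    {Q : Submodule F V} (hQ : Good B g ⊤ Q) (h0 : Q ≠ ⊥) : ∃ H, Good B g Q H ∧ finrank F H = 2 := by
  have hgg : ∀ v, g (g v) = -v := by
    intro v
    have := LinearMap.congr_fun hg v
    simpa using this
  by_cases hex : ∃ v ∈ Q, B v (g v) ≠ 0
  · obtain ⟨v, hv, hne⟩ := hex
    exact exists_plane_of_ne h (-1) hg hQ.2.1 v hv hne
  · exfalso
    push Not at hex
    have hsym : ∀ u v, B v (g u) = B u (g v) := by
      intro u v
      rw [← h.pres v (g u), hgg, map_neg, skew h.alt (g v) u, neg_neg]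
    have hzero : ∀ u ∈ Q, ∀ v ∈ Q, B u (g v) = 0 := by
      intro u hu v hv
      have h1 := hex (u + v) (Q.add_mem hu hv)
      simp only [map_add, LinearMap.add_apply, hex u hu, hex v hv, zero_add, add_zero] at h1
      rw [hsym u v] at h1
      have h3 : (2 : F) * B u (g v) = 0 := by linear_combination h1
      exact (mul_eq_zero.1 h3).resolve_left h2
    obtain ⟨u, hu, hu0⟩ := Submodule.exists_mem_ne_zero_of_ne_bot h0
    obtain ⟨w, hw, hne⟩ := hQ.2.2 u hu hu0
    have hmap := map_eq' h hQ.2.1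
    rw [← hmap] at hw
    obtain ⟨w', hw', rfl⟩ := hw
    exact hne (hzero u hu w' hw')

/-- N-C1b -/
theorem exists_plane_one (h : Iso B g) (h2 : (2 : F) ≠ 0) (hg : g * g = 1)
    {Q : Submodule F V} (hQ : Good B g ⊤ Q) (h0 : Q ≠ ⊥) : ∃ H, Good B g Q H ∧ finrank F H = 2 := by
  have hgg : ∀ v, g (g v) = v := by
    intro v
    have := LinearMap.congr_fun hg v
    simpa using this
  have hgQ : ∀ v ∈ Q, g v ∈ Q := fun v hv => hQ.2.1 (Submodule.mem_map_of_mem hv)
  obtain ⟨u, hu, hu0⟩ := Submodule.exists_mem_ne_zero_of_ne_bot h0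
  -- an eigenvector
  obtain ⟨ε, v, hε, hv, hv0, hgv⟩ : ∃ (ε : F) (v : V), ε * ε = 1 ∧ v ∈ Q ∧ v ≠ 0 ∧ g v = ε • v := by
    by_cases h1 : u + g u = 0
    · refine ⟨-1, u, by ring, hu, hu0, ?_⟩
      rw [neg_one_smul]
      exact (eq_neg_of_add_eq_zero_right h1)
    · refine ⟨1, u + g u, by ring, Q.add_mem hu (hgQ u hu), h1, ?_⟩
      rw [map_add, hgg, one_smul, add_comm]
  obtain ⟨w', hw', hne⟩ := hQ.2.2 v hv hv0
  set w := w' + ε • g w' with hw
  have hwQ : w ∈ Q := Q.add_mem hw' (Q.smul_mem _ (hgQ w' hw'))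
  have hgw : g w = ε • w := by
    rw [hw, map_add, map_smul, hgg, smul_add, smul_smul, hε, one_smul, add_comm]
  have hBvw : B v w = 2 * B v w' := by
    have h1 : B v (g w') = ε * B v w' := by
      rw [← h.pres v (g w'), hgg, hgv, map_smul, LinearMap.smul_apply, smul_eq_mul]
    rw [hw, map_add, map_smul, h1, smul_eq_mul, ← mul_assoc, hε]
    ring
  have hne' : B v w ≠ 0 := by
    rw [hBvw]
    exact mul_ne_zero h2 hne
  obtain ⟨h1, h3⟩ := plane_facts h.alt hne'
  refine ⟨Submodule.span F {v, w}, ⟨?_, ?_, h1⟩, h3⟩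
  · rw [Submodule.span_le]
    rintro x (rfl | rfl)
    · exact hv
    · exact hwQ
  · rw [Submodule.map_span_le]
    rintro x (rfl | rfl)
    · rw [hgv]
      exact Submodule.smul_mem _ _ (Submodule.subset_span (by simp))
    · rw [hgw]
      exact Submodule.smul_mem _ _ (Submodule.subset_span (by simp))

end Cfsg.Agent.Lib.Helper94NdPlane
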