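import Mathlib
import Cfsg.Prelude.Def_GeometricClasses
import Cfsg.Agent.Lib.Helper94NdDefs
import Cfsg.Agent.Lib.Helper3NdG1
import Cfsg.Agent.Lib.Helper94NdPlane
import Cfsg.Agent.Lib.H90SwP45
import Cfsg.Agent.Lib.H90SwAdj
import Cfsg.Agent.Lib.Helper17SpCount

set_option autoImplicit false
set_option linter.unusedSectionVars false
open Module Cfsg Polynomial
open Cfsg.Agent.Lib.Helper99Symp Cfsg.Agent.Lib.H90SwDefs Cfsg.Agent.Lib.Helper99SympForm
  Cfsg.Agent.Lib.Helper94NdDefs Cfsg.Agent.Lib.Helper3NdG1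

namespace Cfsg.Agent.Lib.H94TiOrb

variable {F V : Type*} [Field F] [Fintype F] [AddCommGroup V] [Module F V] [FiniteDimensional F V]
  {B : LinearMap.BilinForm F V} {g : Module.End F V} {r : ℕ}

theorem pres_pow (h : Ctx B r g) (a : ℕ) (x y : V) : B ((g ^ a) x) ((g ^ a) y) = B x y := by
  induction a with
  | zero => simp
  | succ a ih =>
    rw [pow_succ', Module.End.mul_apply, Module.End.mul_apply, h.pres, ih]

theorem sk (h : Ctx B r g) (x y : V) : B x y = - B y x := by
  have h1 := h.alt (x + y)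
  simp only [map_add, LinearMap.add_apply, h.alt x, h.alt y] at h1
  linear_combination h1

theorem beta_zero (h : Ctx B r g) (v : V) (hv : ∀ j : Fin ((r - 1) / 2), B v ((g ^ (j.1 + 1)) v) = 0)
    (e : ℕ) : B v ((g ^ e) v) = 0 := by
  have hr2 := h.prime.two_le
  have hodd : r % 2 = 1 := by
    rcases h.prime.eq_two_or_odd with h2 | h2
    · exact absurd h2 h.odd
    · exact h2
  have hsmall : ∀ e, 1 ≤ e → e ≤ (r - 1) / 2 → B v ((g ^ e) v) = 0 := by
    intro e h1 h2
    have := hv ⟨e - 1, by omega⟩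
    have h3 : e - 1 + 1 = e := by omega
    simpa [h3] using this
  have hlt : ∀ e, e < r → B v ((g ^ e) v) = 0 := by
    intro e he
    by_cases h0 : e = 0
    · subst h0
      simpa using h.alt v
    · by_cases h1 : e ≤ (r - 1) / 2
      · exact hsmall e (by omega) h1
      · have h2 := pres_pow h (r - e) v ((g ^ e) v)
        rw [← Module.End.mul_apply, ← pow_add, show r - e + e = r by omega, h.pow,
          Module.End.one_apply] at h2
        rw [← h2, sk h, hsmall (r - e) (by omega) (by omega), neg_zero]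
  have hmod : g ^ e = g ^ (e % r) := by
    conv_lhs => rw [← Nat.mod_add_div e r]
    rw [pow_add, pow_mul, h.pow, one_pow, mul_one]
  rw [hmod]
  exact hlt _ (Nat.mod_lt _ (by omega))

/-- I-ORB -/
theorem orbit_ti (h : Ctx B r g) (v : V) (hv : ∀ j : Fin ((r - 1) / 2), B v ((g ^ (j.1 + 1)) v) = 0) :
    ∃ U : Submodule F V, v ∈ U ∧ U.map g ≤ U ∧ Orth B U U ∧
      ∀ A : Submodule F V, A.map g ≤ A → v ∈ A → U ≤ A := by
  have hb := beta_zero h v hv
  have hgen : ∀ a b : ℕ, B ((g ^ a) v) ((g ^ b) v) = 0 := by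
    have hle : ∀ a b : ℕ, a ≤ b → B ((g ^ a) v) ((g ^ b) v) = 0 := by
      intro a b hab
      obtain ⟨c, rfl⟩ := Nat.exists_eq_add_of_le hab
      rw [pow_add, Module.End.mul_apply, pres_pow h]
      exact hb c
    intro a b
    rcases le_total a b with hab | hab
    · exact hle a b hab
    · rw [sk h, hle b a hab, neg_zero]
  refine ⟨Submodule.span F {x | ∃ a : ℕ, x = (g ^ a) v}, ?_, ?_, ?_, ?_⟩
  · exact Submodule.subset_span ⟨0, by simp⟩
  · rw [Submodule.map_span, Submodule.span_le]
    rintro _ ⟨x, ⟨a, rfl⟩, rfl⟩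
    exact Submodule.subset_span ⟨a + 1, by rw [pow_succ', Module.End.mul_apply]⟩
  · intro x hx y hy
    induction hx using Submodule.span_induction with
    | mem x hx =>
      obtain ⟨a, rfl⟩ := hx
      induction hy using Submodule.span_induction with
      | mem y hy =>
        obtain ⟨b, rfl⟩ := hy
        exact hgen a b
      | zero => simp
      | add y z _ _ hy hz => rw [map_add, hy, hz, add_zero]
      | smul c y _ hy => rw [map_smul, hy, smul_zero]
    | zero => simp
    | add x z _ _ hx hz => rw [map_add, LinearMap.add_apply, hx, hz, add_zero]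
    | smul c x _ hx => rw [map_smul, LinearMap.smul_apply, hx, smul_zero]
  · intro A hA hvA
    rw [Submodule.span_le]
    rintro _ ⟨a, rfl⟩
    induction a with
    | zero => simpa using hvA
    | succ a ih =>
      rw [pow_succ', Module.End.mul_apply]
      exact hA ⟨_, ih, rfl⟩

end Cfsg.Agent.Lib.H94TiOrb
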