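import Mathlib
import Cfsg.Prelude.Def_GeometricClasses
import Cfsg.Agent.Lib.Helper94NdDefs
import Cfsg.Agent.Lib.Helper3NdG1
import Cfsg.Agent.Lib.Helper94NdPlane
import Cfsg.Agent.Lib.H90SwP45
import Cfsg.Agent.Lib.H90SwAdj
import Cfsg.Agent.Lib.Helper17SpCount
import Cfsg.Agent.Lib.H94TiCw
import Cfsg.Agent.Lib.H94TiOrb

set_option autoImplicit false
set_option linter.unusedSectionVars false
open Module Cfsg Polynomial
open Cfsg.Agent.Lib.Helper99Symp Cfsg.Agent.Lib.H90SwDefs Cfsg.Agent.Lib.Helper99SympForm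
  Cfsg.Agent.Lib.Helper94NdDefs Cfsg.Agent.Lib.Helper3NdG1
open Cfsg.Agent.Lib.H94TiCw Cfsg.Agent.Lib.H94TiOrb

/-! Piece Anie of project 5955 (row S5955).  `Orth B W W` = "W totally isotropic";
i := orderOf (card F : ZMod r), c := cc F r, E := eigenspace g 1.  I-X / J-X below = piece X (file H94Ti<X>).
Toolkit list: notes/helper94/ELU8.md.

SKETCH. `finrank_aniso_le`: if r - 1 < finrank A: I-CW with s = (r-1)/2, f j = g^(j+1), then I-ORB gives U ≠ ⊥ inside A.
-/

namespace Cfsg.Agent.Lib.H94TiAnie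

variable {F V : Type*} [Field F] [Fintype F] [AddCommGroup V] [Module F V] [FiniteDimensional F V]
  {B : LinearMap.BilinForm F V} {g : Module.End F V} {r : ℕ}

theorem finrank_aniso_le (h : Ctx B r g) {A : Submodule F V} (hA : A.map g ≤ A)
    (hani : ∀ U ≤ A, U.map g ≤ U → Orth B U U → U = ⊥) : finrank F A ≤ r - 1 := by
  by_contra hcon
  push Not at hcon
  obtain ⟨v, hvA, hv0, hv⟩ := exists_common_zero B (s := (r - 1) / 2) (fun j => g ^ (j.1 + 1)) A
    (by omega)
  obtain ⟨U, hvU, hUg, hUo, hUmin⟩ := orbit_ti h v hv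
  have := hani U (hUmin A hA hvA) hUg hUo
  rw [this] at hvU
  exact hv0 ((Submodule.mem_bot F).1 hvU)

end Cfsg.Agent.Lib.H94TiAnie
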