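import Mathlib
import Cfsg.Prelude.Def_GeometricClasses
import Cfsg.Agent.Lib.Helper94NdDefs
import Cfsg.Agent.Lib.Helper3NdG1
import Cfsg.Agent.Lib.Helper94NdPlane
import Cfsg.Agent.Lib.H90SwP45
import Cfsg.Agent.Lib.H90SwAdj
import Cfsg.Agent.Lib.Helper17SpCount

set_option autoImplicit false
set_option linter.unusedSectionVars false
open Module Cfsg Polynomial
open Cfsg.Agent.Lib.Helper99Symp Cfsg.Agent.Lib.H90SwDefs Cfsg.Agent.Lib.Helper99SympForm
  Cfsg.Agent.Lib.Helper94NdDefs Cfsg.Agent.Lib.Helper3NdG1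

/-! Piece Anio of project 5955 (row S5955).  `Orth B W W` = "W totally isotropic";
i := orderOf (card F : ZMod r), c := cc F r, E := eigenspace g 1.  I-X / J-X below = piece X (file H94Ti<X>).
Toolkit list: notes/helper94/ELU8.md.

SKETCH. `aniso_eq_bot`: B₁ ≤ A invariant of finrank i (exists_block). R := perpIn B B₁ B₁ invariant, finrank a multiple of i (finrank_congr) so R = ⊥ or B₁. R = ⊥ ⇒ NondegOn B₁ ⇒ even finrank, but i odd. R = B₁ ⇒ TI ⇒ B₁ = ⊥.
-/

namespace Cfsg.Agent.Lib.H94TiAnio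

variable {F V : Type*} [Field F] [Fintype F] [AddCommGroup V] [Module F V] [FiniteDimensional F V]
  {B : LinearMap.BilinForm F V} {g : Module.End F V} {r : ℕ}

theorem aniso_eq_bot (h : Ctx B r g) (hodd : ¬ Even (orderOf (Fintype.card F : ZMod r)))
    {A : Submodule F V} (hA : A.map g ≤ A) (hE : A ⊓ Module.End.eigenspace g 1 = ⊥)
    (hani : ∀ U ≤ A, U.map g ≤ U → Orth B U U → U = ⊥) : A = ⊥ := by
  have : Fact r.Prime := ⟨h.prime⟩
  have hi0 : 0 < orderOf (Fintype.card F : ZMod r) :=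
    (Cfsg.Agent.Lib.Helper87EluD.orderOf_facts (Fintype.card F) r Fintype.card_pos h.ndvd).1
  by_contra hne
  obtain ⟨B₁, hB₁A, hB₁g, hB₁f⟩ := Cfsg.Agent.Lib.Helper87EluB2.exists_block r h.ndvd g h.pow A hA hne hE
  have hRg := Cfsg.Agent.Lib.H90SwP12.perpIn_inv h hB₁g hB₁g
  have hRB : perpIn B B₁ B₁ ≤ B₁ := Cfsg.Agent.Lib.H90SwP12.perpIn_le _ _
  obtain ⟨k, hk⟩ := Cfsg.Agent.Lib.Helper87EluB1.finrank_congr r h.ndvd g h.pow _ hRg
  have hRE : perpIn B B₁ B₁ ⊓ Module.End.eigenspace g 1 = ⊥ := by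
    rw [eq_bot_iff, ← hE]
    exact inf_le_inf_right _ (hRB.trans hB₁A)
  rw [hRE, finrank_bot, zero_add] at hk
  rcases Nat.eq_zero_or_pos k with rfl | hk0
  · rw [mul_zero] at hk
    have hR0 : perpIn B B₁ B₁ = ⊥ := Submodule.finrank_eq_zero.1 hk
    have hN : NondegOn B B₁ := by
      intro u hu hu0
      by_contra hcon
      push Not at hcon
      have : u ∈ perpIn B B₁ B₁ := ⟨hu, hcon⟩
      rw [hR0] at this
      exact hu0 ((Submodule.mem_bot F).1 this)
    have := Cfsg.Agent.Lib.H90SwP37.even_finrank h.alt hN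
    rw [hB₁f] at this
    exact hodd this
  · have hle : orderOf (Fintype.card F : ZMod r) ≤ orderOf (Fintype.card F : ZMod r) * k :=
      Nat.le_mul_of_pos_right _ hk0
    have hR : perpIn B B₁ B₁ = B₁ := Submodule.eq_of_le_of_finrank_le hRB (by rw [hk, hB₁f]; exact hle)
    have hTI : Orth B B₁ B₁ := by
      intro u hu w hw
      rw [← hR] at hu
      exact hu.2 w hw
    have := hani B₁ hB₁A hB₁g hTI
    rw [this, finrank_bot] at hB₁f
    omega

end Cfsg.Agent.Lib.H94TiAnio
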