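import Mathlib
import Cfsg.Prelude.Def_GeometricClasses
import Cfsg.Agent.Lib.Helper94NdDefs
import Cfsg.Agent.Lib.Helper3NdG1
import Cfsg.Agent.Lib.Helper94NdPlane
import Cfsg.Agent.Lib.H90SwP45
import Cfsg.Agent.Lib.H90SwAdj
import Cfsg.Agent.Lib.Helper17SpCount

set_option autoImplicit false
set_option linter.unusedSectionVars false
open Module Cfsg Polynomial
open Cfsg.Agent.Lib.Helper99Symp Cfsg.Agent.Lib.H90SwDefs Cfsg.Agent.Lib.Helper99SympForm
  Cfsg.Agent.Lib.Helper94NdDefs Cfsg.Agent.Lib.Helper3NdG1

/-! Piece Cnt of project 5955 (row S5955).  `Orth B W W` = "W totally isotropic";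
i := orderOf (card F : ZMod r), c := cc F r, E := eigenspace g 1.  I-X / J-X below = piece X (file H94Ti<X>).
Toolkit list: notes/helper94/ELU8.md.

SKETCH. `card_ti_mul`: s ↦ span (range s) from IsoFam to TI m-spaces, fibre over W ≃ {s : Fin m → W // LinearIndependent}; card_IsoFam, card_linearIndependent.
-/

namespace Cfsg.Agent.Lib.H94TiCnt

variable {F : Type*} [Field F] {d : ℕ}

local notation "VV" => (Fin d ⊕ Fin d → F)
local notation "MM" => Matrix (Fin d ⊕ Fin d) (Fin d ⊕ Fin d) F

theorem orth_span {ι V : Type*} [AddCommGroup V] [Module F V] (B : LinearMap.BilinForm F V) (s : ι → V)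
    (h : ∀ i j, B (s i) (s j) = 0) :
    Orth B (Submodule.span F (Set.range s)) (Submodule.span F (Set.range s)) := by
  intro u hu v hv
  induction hu using Submodule.span_induction with
  | mem x hx =>
    obtain ⟨i, rfl⟩ := hx
    induction hv using Submodule.span_induction with
    | mem y hy => obtain ⟨j, rfl⟩ := hy; exact h i j
    | zero => simp
    | add a b _ _ ha hb => rw [map_add, ha, hb, add_zero]
    | smul c a _ ha => rw [map_smul, ha, smul_zero]
  | zero => simp
  | add a b _ _ ha hb => rw [map_add, LinearMap.add_apply, ha, hb, add_zero]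
  | smul c a _ ha => rw [map_smul, LinearMap.smul_apply, ha, smul_zero]

theorem card_ti_mul [Fintype F] (m : ℕ) (hm : m ≤ d) :
    Nat.card {W : Submodule F VV // finrank F ↥W = m ∧ Orth (sympB d) W W}
        * ∏ j ∈ Finset.range m, (Fintype.card F ^ m - Fintype.card F ^ j)
      = ∏ j ∈ Finset.range m, (Fintype.card F ^ (2 * d - j) - Fintype.card F ^ j) := by
  classical
  have hBs : sympB (F := F) d = Cfsg.Agent.Lib.Helper17Symp.sB d := by
    apply LinearMap.ext₂
    intro u v
    rw [sympB_apply, Cfsg.Agent.Lib.Helper17Symp.sB_apply]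
  have hnd : (sympB (F := F) d).Nondegenerate := by
    rw [hBs]; exact Cfsg.Agent.Lib.Helper17SpCount.sB_nondeg d
  have hal : (sympB (F := F) d).IsAlt := by
    rw [hBs]; exact Cfsg.Agent.Lib.Helper17SpCount.sB_isAlt d
  have hfinS : Finite (Submodule F VV) :=
    Finite.of_injective (fun W : Submodule F VV => (W : Set VV)) SetLike.coe_injective
  let f : Cfsg.Agent.Lib.Helper17SpCount.IsoFam (sympB (F := F) d) m →
      {W : Submodule F VV // finrank F ↥W = m ∧ Orth (sympB d) W W} := fun s =>
    ⟨Submodule.span F (Set.range s.1), (finrank_span_eq_card s.2.1).trans (by simp),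
      orth_span _ _ s.2.2⟩
  have hfib : ∀ W : {W : Submodule F VV // finrank F ↥W = m ∧ Orth (sympB d) W W},
      Nat.card {s // f s = W} = ∏ j ∈ Finset.range m, (Fintype.card F ^ m - Fintype.card F ^ j) := by
    intro W
    have e : {s // f s = W} ≃ {s : Fin m → W.1 // LinearIndependent F s} :=
      { toFun := fun s => ⟨fun i => ⟨s.1.1 i, by
            have : Submodule.span F (Set.range s.1.1) = W.1 := congrArg Subtype.val s.2
            rw [← this]; exact Submodule.subset_span ⟨i, rfl⟩⟩, by
            apply LinearIndependent.of_comp W.1.subtype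
            exact s.1.2.1⟩
        invFun := fun s => ⟨⟨fun i => (s.1 i : VV), s.2.map' W.1.subtype (Submodule.ker_subtype _),
            fun i j => W.2.2 _ (s.1 i).2 _ (s.1 j).2⟩, by
            apply Subtype.ext
            show Submodule.span F (Set.range fun i => (s.1 i : VV)) = W.1
            apply Submodule.eq_of_le_of_finrank_eq
            · rw [Submodule.span_le]; rintro _ ⟨i, rfl⟩; exact (s.1 i).2
            · have := finrank_span_eq_card (s.2.map' W.1.subtype (Submodule.ker_subtype _))
              rw [W.2.1]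
              exact this.trans (by simp)⟩
        left_inv := fun s => Subtype.ext (Subtype.ext rfl)
        right_inv := fun s => Subtype.ext rfl }
    rw [Nat.card_congr e, card_linearIndependent (by rw [W.2.1]), W.2.1, Finset.prod_range]
  have : Fintype {W : Submodule F VV // finrank F ↥W = m ∧ Orth (sympB d) W W} := Fintype.ofFinite _
  have h1 : Nat.card (Cfsg.Agent.Lib.Helper17SpCount.IsoFam (sympB (F := F) d) m) =
      Nat.card {W : Submodule F VV // finrank F ↥W = m ∧ Orth (sympB d) W W}
        * ∏ j ∈ Finset.range m, (Fintype.card F ^ m - Fintype.card F ^ j) := by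
    rw [← Nat.card_congr (Equiv.sigmaFiberEquiv f), Nat.card_sigma, Finset.sum_congr rfl (fun W _ => hfib W)]
    simp [Nat.card_eq_fintype_card]
  rw [← h1, Cfsg.Agent.Lib.Helper17SpCount.card_IsoFam _ hnd hal m]
  simp [Nat.card_eq_fintype_card, two_mul]

end Cfsg.Agent.Lib.H94TiCnt
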