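import Mathlib
import Cfsg.Prelude.Def_GeometricClasses
import Cfsg.Agent.Lib.Helper94NdDefs
import Cfsg.Agent.Lib.Helper3NdG1
import Cfsg.Agent.Lib.Helper94NdPlane
import Cfsg.Agent.Lib.H90SwP45
import Cfsg.Agent.Lib.H90SwAdj
import Cfsg.Agent.Lib.Helper17SpCount
import Cfsg.Agent.Lib.H94TiCnt

set_option autoImplicit false
set_option linter.unusedSectionVars false
open Module Cfsg Polynomial
open Cfsg.Agent.Lib.Helper99Symp Cfsg.Agent.Lib.H90SwDefs Cfsg.Agent.Lib.Helper99SympForm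
  Cfsg.Agent.Lib.Helper94NdDefs Cfsg.Agent.Lib.Helper3NdG1
open Cfsg.Agent.Lib.H94TiCnt

/-! Piece Cntp of project 5955 (row S5955).  `Orth B W W` = "W totally isotropic";
i := orderOf (card F : ZMod r), c := cc F r, E := eigenspace g 1.  I-X / J-X below = piece X (file H94Ti<X>).
Toolkit list: notes/helper94/ELU8.md.

SKETCH. **I-CNTP** `not_char_dvd`, **I-CNTR** `mod_lt_of_dvd_ti`: q^a - q^j = q^j (q^(a-j) - 1); cancel q-powers (P) / r prime divides a factor q^(2d-2j) - 1, j < m, cc_dvd, (2d)%c = (2j)%c ≤ 2j (R) (model: Helper3NdCTAR).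
-/

namespace Cfsg.Agent.Lib.H94TiCntp

variable {F : Type*} [Field F] {d : ℕ}

local notation "VV" => (Fin d ⊕ Fin d → F)
local notation "MM" => Matrix (Fin d ⊕ Fin d) (Fin d ⊕ Fin d) F

theorem not_char_dvd [Fintype F] (p : ℕ) [Fact p.Prime] [CharP F p] (m : ℕ) (hm : m ≤ d) :
    ¬ p ∣ Nat.card {W : Submodule F VV // finrank F ↥W = m ∧ Orth (sympB d) W W} := by
  have hp : p.Prime := Fact.out
  have hq : 0 < Fintype.card F := Fintype.card_pos
  intro h
  have hmul := card_ti_mul (F := F) (d := d) m hm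
  have hL : ∏ j ∈ Finset.range m, (Fintype.card F ^ m - Fintype.card F ^ j)
      = (∏ j ∈ Finset.range m, Fintype.card F ^ j)
        * ∏ j ∈ Finset.range m, (Fintype.card F ^ (m - j) - 1) := by
    rw [← Finset.prod_mul_distrib]
    apply Finset.prod_congr rfl
    intro j hj
    rw [Finset.mem_range] at hj
    rw [Nat.mul_sub, mul_one, ← pow_add]
    congr 2
    omega
  have hR : ∏ j ∈ Finset.range m, (Fintype.card F ^ (2 * d - j) - Fintype.card F ^ j)
      = (∏ j ∈ Finset.range m, Fintype.card F ^ j)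
        * ∏ j ∈ Finset.range m, (Fintype.card F ^ (2 * (d - j)) - 1) := by
    rw [← Finset.prod_mul_distrib]
    apply Finset.prod_congr rfl
    intro j hj
    rw [Finset.mem_range] at hj
    rw [Nat.mul_sub, mul_one, ← pow_add]
    congr 2
    omega
  rw [hL, hR, mul_left_comm] at hmul
  have hpos : 0 < ∏ j ∈ Finset.range m, Fintype.card F ^ j :=
    Finset.prod_pos fun j _ => pow_pos hq j
  have hmul' := Nat.eq_of_mul_eq_mul_left hpos hmul
  have h' : p ∣ ∏ j ∈ Finset.range m, (Fintype.card F ^ (2 * (d - j)) - 1) := by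
    rw [← hmul']
    exact Dvd.dvd.mul_right h _
  obtain ⟨i, hi, hdvd⟩ := (Prime.dvd_finsetProd_iff hp.prime _).1 h'
  rw [Finset.mem_range] at hi
  have hpq : p ∣ Fintype.card F := by
    obtain ⟨k, _, hk⟩ := FiniteField.card F p
    rw [hk]
    exact dvd_pow_self p k.ne_zero
  have h1 : p ∣ Fintype.card F ^ (2 * (d - i)) := dvd_pow hpq (by omega)
  have h2 : 1 ≤ Fintype.card F ^ (2 * (d - i)) := Nat.one_le_pow _ _ hq
  have h3 : p ∣ 1 := by
    have := Nat.dvd_sub h1 hdvd
    rwa [Nat.sub_sub_self h2] at this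
  exact hp.one_lt.ne' (Nat.dvd_one.1 h3)

end Cfsg.Agent.Lib.H94TiCntp
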