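import Mathlib
import Cfsg.Prelude.Def_GeometricClasses
import Cfsg.Agent.Lib.Helper94NdDefs
import Cfsg.Agent.Lib.Helper3NdG1
import Cfsg.Agent.Lib.Helper94NdPlane
import Cfsg.Agent.Lib.H90SwP45
import Cfsg.Agent.Lib.H90SwAdj
import Cfsg.Agent.Lib.Helper17SpCount
import Cfsg.Agent.Lib.H94TiCnt

set_option autoImplicit false
set_option linter.unusedSectionVars false
open Module Cfsg Polynomial
open Cfsg.Agent.Lib.Helper99Symp Cfsg.Agent.Lib.H90SwDefs Cfsg.Agent.Lib.Helper99SympForm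
  Cfsg.Agent.Lib.Helper94NdDefs Cfsg.Agent.Lib.Helper3NdG1
open Cfsg.Agent.Lib.H94TiCnt

/-! Piece Cntr of project 5955 (row S5955).  `Orth B W W` = "W totally isotropic";
i := orderOf (card F : ZMod r), c := cc F r, E := eigenspace g 1.  I-X / J-X below = piece X (file H94Ti<X>).
Toolkit list: notes/helper94/ELU8.md.

SKETCH. **I-CNTP** `not_char_dvd`, **I-CNTR** `mod_lt_of_dvd_ti`: q^a - q^j = q^j (q^(a-j) - 1); cancel q-powers (P) / r prime divides a factor q^(2d-2j) - 1, j < m, cc_dvd, (2d)%c = (2j)%c ≤ 2j (R) (model: Helper3NdCTAR).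
-/

namespace Cfsg.Agent.Lib.H94TiCntr

variable {F : Type*} [Field F] {d : ℕ}

local notation "VV" => (Fin d ⊕ Fin d → F)
local notation "MM" => Matrix (Fin d ⊕ Fin d) (Fin d ⊕ Fin d) F

theorem mod_lt_of_dvd_ti [Fintype F] {r : ℕ} [Fact r.Prime] (hr : ¬ r ∣ Fintype.card F) (m : ℕ)
    (hm : m ≤ d)
    (h : r ∣ Nat.card {W : Submodule F VV // finrank F ↥W = m ∧ Orth (sympB d) W W}) :
    (2 * d) % cc F r < 2 * m := by
  have hp : r.Prime := Fact.out
  have hq : 0 < Fintype.card F := Fintype.card_pos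
  have h' : r ∣ ∏ j ∈ Finset.range m, (Fintype.card F ^ (2 * d - j) - Fintype.card F ^ j) := by
    rw [← card_ti_mul m hm]
    exact Dvd.dvd.mul_right h _
  obtain ⟨i, hi, hdvd⟩ := (Prime.dvd_finsetProd_iff hp.prime _).1 h'
  rw [Finset.mem_range] at hi
  have hfac : Fintype.card F ^ (2 * d - i) - Fintype.card F ^ i
      = Fintype.card F ^ i * (Fintype.card F ^ (2 * (d - i)) - 1) := by
    rw [Nat.mul_sub, mul_one, ← pow_add]
    congr 2
    omega
  rw [hfac] at hdvd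
  have h1 : r ∣ Fintype.card F ^ (2 * (d - i)) - 1 := by
    rcases (Nat.Prime.dvd_mul hp).1 hdvd with h1 | h1
    · exact absurd (hp.dvd_of_dvd_pow h1) hr
    · exact h1
  have h2 : ((Fintype.card F : ℕ) : ZMod r) ^ (2 * (d - i)) = 1 := by
    have h3 := (ZMod.natCast_eq_zero_iff _ _).2 h1
    rw [Nat.cast_sub (Nat.one_le_pow _ _ hq), Nat.cast_pow, Nat.cast_one, sub_eq_zero] at h3
    exact h3
  have h3 : cc F r ∣ 2 * (d - i) := cc_dvd (Dvd.intro _ rfl) (orderOf_dvd_of_pow_eq_one h2)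
  obtain ⟨t, ht⟩ := h3
  have h4 : 2 * d = 2 * i + cc F r * t := by omega
  rw [h4, Nat.add_mul_mod_self_left]
  have := Nat.mod_le (2 * i) (cc F r)
  omega

end Cfsg.Agent.Lib.H94TiCntr
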