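import Mathlib
import Cfsg.Prelude.Def_GeometricClasses
import Cfsg.Agent.Lib.Helper94NdDefs
import Cfsg.Agent.Lib.Helper3NdG1
import Cfsg.Agent.Lib.H90SwP45
import Cfsg.Agent.Lib.H90SwAdj
import Cfsg.Agent.Lib.H90SwBlk
import Cfsg.Agent.Lib.H90SwElt0

set_option autoImplicit false
set_option linter.unusedSectionVars false
open Module Cfsg Polynomial
open Cfsg.Agent.Lib.Helper99Symp Cfsg.Agent.Lib.H90SwDefs Cfsg.Agent.Lib.Helper99SympForm
  Cfsg.Agent.Lib.Helper94NdDefs Cfsg.Agent.Lib.Helper3NdG1 Cfsg.Agent.Lib.H90SwBlk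

/-! Piece Blk of project 5955 (row S5955).  `Orth B W W` = "W totally isotropic";
i := orderOf (card F : ZMod r), c := cc F r, E := eigenspace g 1.  I-X / J-X below = piece X (file H94Ti<X>).
Toolkit list: notes/helper94/ELU8.md.

SKETCH. `aeval_blk2`, `rank_blk2`: blk2 = reindex ∘ fromBlocks is additive, multiplicative (blk2_mul, blk2_one), commutes with scalars: Polynomial.induction_on; rank: rank_reindex + rank_diag_aux.
-/

namespace Cfsg.Agent.Lib.H94TiBlk

variable {F : Type*} [Field F]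

theorem blk2_add {j d : ℕ} (hj : j ≤ d) (A B : Matrix (Fin j ⊕ Fin j) (Fin j ⊕ Fin j) F)
    (A' B' : Matrix (Fin (d - j) ⊕ Fin (d - j)) (Fin (d - j) ⊕ Fin (d - j)) F) :
    blk2 hj (A + B) (A' + B') = blk2 hj A A' + blk2 hj B B' := by
  unfold blk2
  have h0 : Matrix.fromBlocks (A + B) 0 0 (A' + B')
      = Matrix.fromBlocks A 0 0 A' + Matrix.fromBlocks B 0 0 B' := by
    rw [Matrix.fromBlocks_add]
    simp
  rw [h0]
  rfl

theorem blk2_smul {j d : ℕ} (hj : j ≤ d) (a : F) (A : Matrix (Fin j ⊕ Fin j) (Fin j ⊕ Fin j) F)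
    (A' : Matrix (Fin (d - j) ⊕ Fin (d - j)) (Fin (d - j) ⊕ Fin (d - j)) F) :
    blk2 hj (a • A) (a • A') = a • blk2 hj A A' := by
  unfold blk2
  have h0 : Matrix.fromBlocks (a • A) 0 0 (a • A') = a • Matrix.fromBlocks A 0 0 A' := by
    rw [Matrix.fromBlocks_smul]
    simp
  rw [h0]
  rfl

theorem aeval_blk2 {j d : ℕ} (hj : j ≤ d) (A : Matrix (Fin j ⊕ Fin j) (Fin j ⊕ Fin j) F)
    (A' : Matrix (Fin (d - j) ⊕ Fin (d - j)) (Fin (d - j) ⊕ Fin (d - j)) F) (R : F[X]) :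
    aeval (blk2 hj A A') R = blk2 hj (aeval A R) (aeval A' R) := by
  induction R using Polynomial.induction_on' with
  | add p q hp hq => rw [map_add, map_add, map_add, hp, hq, blk2_add]
  | monomial n a =>
    rw [Polynomial.aeval_monomial, Polynomial.aeval_monomial, Polynomial.aeval_monomial,
      blk2_pow, Algebra.algebraMap_eq_smul_one, Algebra.algebraMap_eq_smul_one,
      Algebra.algebraMap_eq_smul_one, smul_mul_assoc, smul_mul_assoc, smul_mul_assoc,
      one_mul, one_mul, one_mul, blk2_smul]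

theorem rank_blk2 {j d : ℕ} (hj : j ≤ d) (A : Matrix (Fin j ⊕ Fin j) (Fin j ⊕ Fin j) F)
    (A' : Matrix (Fin (d - j) ⊕ Fin (d - j)) (Fin (d - j) ⊕ Fin (d - j)) F) :
    (blk2 hj A A').rank = A.rank + A'.rank := by
  unfold blk2
  rw [Matrix.rank_reindex, rank_diag_aux]

end Cfsg.Agent.Lib.H94TiBlk
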