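import Mathlib
import Cfsg.Prelude.Def_GeometricClasses
import Cfsg.Agent.Lib.Helper94NdDefs
import Cfsg.Agent.Lib.Helper3NdG1
import Cfsg.Agent.Lib.H90SwP45
import Cfsg.Agent.Lib.H90SwAdj
import Cfsg.Agent.Lib.H90SwBlk
import Cfsg.Agent.Lib.H90SwElt0
import Cfsg.Agent.Lib.H94TiBlk

set_option autoImplicit false
set_option linter.unusedSectionVars false
open Module Cfsg Polynomial
open Cfsg.Agent.Lib.Helper99Symp Cfsg.Agent.Lib.H90SwDefs Cfsg.Agent.Lib.Helper99SympForm
  Cfsg.Agent.Lib.Helper94NdDefs Cfsg.Agent.Lib.Helper3NdG1 Cfsg.Agent.Lib.H90SwBlk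
open Cfsg.Agent.Lib.H94TiBlk

/-! Piece Build of project 5955 (row S5955).  `Orth B W W` = "W totally isotropic";
i := orderOf (card F : ZMod r), c := cc F r, E := eigenspace g 1.  I-X / J-X below = piece X (file H94Ti<X>).
Toolkit list: notes/helper94/ELU8.md.

SKETCH. `build`: induction on L as H90SwElt.elt: [] : x = 1, aeval 1 R = R.eval 1 • 1; a :: L: x = blk2 (y a) x'.
-/

namespace Cfsg.Agent.Lib.H94TiBuild

variable {F : Type*} [Field F]

theorem aeval_one_mat {n : Type*} [Fintype n] [DecidableEq n] (R : F[X]) :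
    aeval (1 : Matrix n n F) R = R.eval 1 • (1 : Matrix n n F) := by
  have h := Polynomial.aeval_algebraMap_apply (Matrix n n F) (1 : F) R
  rw [map_one] at h
  rw [h, Algebra.algebraMap_eq_smul_one]
  simp [Polynomial.aeval_def, Polynomial.eval₂_eq_eval_map]

theorem build {r j t : ℕ} (y : Fin t → Matrix.symplecticGroup (Fin j) F) (hy : ∀ a, y a ^ r = 1)
    (L : List (Fin t)) : ∀ d, j * L.length ≤ d → ∃ x : Matrix.symplecticGroup (Fin d) F, x ^ r = 1 ∧
      ∀ R : F[X], (R.eval 1 ≠ 0 → (aeval (x : Matrix (Fin d ⊕ Fin d) (Fin d ⊕ Fin d) F) R).rank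
        = (L.map fun a => (aeval (y a : Matrix (Fin j ⊕ Fin j) (Fin j ⊕ Fin j) F) R).rank).sum
          + 2 * (d - j * L.length)) ∧
        (R.eval 1 = 0 → (aeval (x : Matrix (Fin d ⊕ Fin d) (Fin d ⊕ Fin d) F) R).rank
        = (L.map fun a => (aeval (y a : Matrix (Fin j ⊕ Fin j) (Fin j ⊕ Fin j) F) R).rank).sum) := by
  induction L with
  | nil =>
    intro d _
    refine ⟨1, one_pow _, fun R => ⟨fun hR => ?_, fun hR => ?_⟩⟩
    · show (aeval (1 : Matrix (Fin d ⊕ Fin d) (Fin d ⊕ Fin d) F) R).rank = _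
      rw [aeval_one_mat]
      have hu : IsUnit (R.eval 1 • (1 : Matrix (Fin d ⊕ Fin d) (Fin d ⊕ Fin d) F)) := by
        refine ⟨⟨R.eval 1 • 1, (R.eval 1)⁻¹ • 1, ?_, ?_⟩, rfl⟩
        · rw [smul_mul_smul_comm, mul_one, mul_inv_cancel₀ hR, one_smul]
        · rw [smul_mul_smul_comm, mul_one, inv_mul_cancel₀ hR, one_smul]
      rw [Matrix.rank_of_isUnit _ hu]
      simp
      ring
    · show (aeval (1 : Matrix (Fin d ⊕ Fin d) (Fin d ⊕ Fin d) F) R).rank = _
      rw [aeval_one_mat, hR]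
      simp
  | cons a L ih =>
    intro d hd
    have hlen : j * (a :: L).length = j * L.length + j := by
      rw [List.length_cons]; ring
    rw [hlen] at hd
    have hjd : j ≤ d := by omega
    have hd' : j * L.length ≤ d - j := by omega
    obtain ⟨x', hx', hxr'⟩ := ih (d - j) hd'
    refine ⟨⟨blk2 hjd (y a).1 x'.1, blk2_mem hjd _ _ (y a).2 x'.2⟩, ?_, fun R => ⟨fun hR => ?_, fun hR => ?_⟩⟩
    · apply Subtype.ext
      show (blk2 hjd (y a).1 x'.1) ^ r = 1
      have h1 : ((y a).1) ^ r = 1 := by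
        have := congrArg Subtype.val (hy a)
        simpa using this
      have h2 : (x'.1) ^ r = 1 := by
        have := congrArg Subtype.val hx'
        simpa using this
      rw [blk2_pow, h1, h2, blk2_one]
    · show (aeval (blk2 hjd (y a).1 x'.1) R).rank = _
      rw [aeval_blk2, rank_blk2, (hxr' R).1 hR, List.map_cons, List.sum_cons, hlen]
      have : d - j - j * L.length = d - (j * L.length + j) := by omega
      rw [this]
      ring
    · show (aeval (blk2 hjd (y a).1 x'.1) R).rank = _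
      rw [aeval_blk2, rank_blk2, (hxr' R).2 hR, List.map_cons, List.sum_cons]

end Cfsg.Agent.Lib.H94TiBuild
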