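import Mathlib
import Cfsg.Prelude.Def_GeometricClasses
import Cfsg.Agent.Lib.Helper94NdDefs
import Cfsg.Agent.Lib.Helper3NdG1
import Cfsg.Agent.Lib.Helper94NdPlane
import Cfsg.Agent.Lib.H90SwP45
import Cfsg.Agent.Lib.H90SwAdj
import Cfsg.Agent.Lib.Helper17SpCount

set_option autoImplicit false
set_option linter.unusedSectionVars false
open Module Cfsg Polynomial
open Cfsg.Agent.Lib.Helper99Symp Cfsg.Agent.Lib.H90SwDefs Cfsg.Agent.Lib.Helper99SympForm
  Cfsg.Agent.Lib.Helper94NdDefs Cfsg.Agent.Lib.Helper3NdG1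

namespace Cfsg.Agent.Lib.H94TiHalf

variable {F V : Type*} [Field F] [AddCommGroup V] [Module F V] [FiniteDimensional F V]
  {B : LinearMap.BilinForm F V} {g : Module.End F V}

/-- I-HALF -/
theorem finrank_add_perpIn (alt : ∀ v, B v v = 0) {Q W : Submodule F V} (hQ : NondegOn B Q) (hWQ : W ≤ Q) :
    finrank F W + finrank F ↥(perpIn B W Q) = finrank F Q := by
  let Φ : ↥Q →ₗ[F] Module.Dual F ↥W :=
    { toFun := fun u => (B u).comp W.subtype
      map_add' := fun a b => by ext; simp
      map_smul' := fun c a => by ext; simp }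
  have hsurj : Function.Surjective Φ := by
    intro ψ
    obtain ⟨π, hπ⟩ := LinearMap.exists_leftInverse_of_injective (Submodule.inclusion hWQ)
      (LinearMap.ker_eq_bot.2 (Submodule.inclusion_injective hWQ))
    obtain ⟨u, hu, hu'⟩ := H90SwP12.exists_repr hQ (ψ.comp π)
    refine ⟨⟨u, hu⟩, ?_⟩
    ext w
    have h1 := hu' (Submodule.inclusion hWQ w)
    have h2 : π (Submodule.inclusion hWQ w) = w := by
      have := congrArg (fun f : ↥W →ₗ[F] ↥W => f w) hπ
      simpa using this
    rw [LinearMap.comp_apply, h2] at h1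
    exact h1
  have hker : (LinearMap.ker Φ).map Q.subtype = perpIn B W Q := by
    ext x
    constructor
    · rintro ⟨u, hu, rfl⟩
      refine ⟨u.2, fun w hw => ?_⟩
      have := congrArg (fun f : Module.Dual F ↥W => f ⟨w, hw⟩) (LinearMap.mem_ker.1 hu)
      simpa [Φ] using this
    · rintro ⟨hxQ, hx⟩
      refine ⟨⟨x, hxQ⟩, ?_, rfl⟩
      rw [SetLike.mem_coe, LinearMap.mem_ker]
      ext w
      exact hx w w.2
  have h1 := LinearMap.finrank_range_add_finrank_ker Φ
  rw [LinearMap.range_eq_top.2 hsurj, finrank_top, Subspace.dual_finrank_eq] at h1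
  rw [← hker, ← h1]
  congr 1
  exact (LinearEquiv.finrank_eq (Submodule.equivMapOfInjective Q.subtype Q.subtype_injective _)).symm

/-- I-HALF -/
theorem two_mul_finrank_le (alt : ∀ v, B v v = 0) {Q W : Submodule F V} (hQ : NondegOn B Q) (hWQ : W ≤ Q)
    (hW : Orth B W W) : 2 * finrank F W ≤ finrank F Q := by
  have h1 := finrank_add_perpIn alt hQ hWQ
  have h2 : W ≤ perpIn B W Q := fun u hu => ⟨hWQ hu, fun w hw => hW u hu w hw⟩
  have h3 := Submodule.finrank_mono h2
  omega

end Cfsg.Agent.Lib.H94TiHalf
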