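import Mathlib
import Cfsg.Agent.Lib.Helper94NdDefs

set_option autoImplicit false
set_option linter.unusedSectionVars false
open Module Cfsg
open Cfsg.Agent.Lib.Helper99Symp Cfsg.Agent.Lib.H90SwDefs Cfsg.Agent.Lib.Helper94NdDefs

/-! Row S5956, piece N-B4 (notes/helper94/ELU7.md). -/

namespace Cfsg.Agent.Lib.Helper94NdB4

variable {F V : Type*} [Field F] [AddCommGroup V] [Module F V] [FiniteDimensional F V]
  {B : LinearMap.BilinForm F V} {g : Module.End F V}

/-- rank–nullity on a subspace -/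
theorem finrank_map_add (N : Module.End F V) (W : Submodule F V) :
    finrank F ↥(W.map N) + finrank F ↥(W ⊓ LinearMap.ker N) = finrank F W := by
  have h1 := LinearMap.finrank_range_add_finrank_ker (N.domRestrict W)
  have h2 : LinearMap.range (N.domRestrict W) = W.map N := by
    rw [LinearMap.domRestrict, LinearMap.range_comp, Submodule.range_subtype]
  have h3 : finrank F ↥(LinearMap.ker (N.domRestrict W)) = finrank F ↥(W ⊓ LinearMap.ker N) := by
    have e : (LinearMap.ker (N.domRestrict W)).map W.subtype = W ⊓ LinearMap.ker N := by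
      ext x
      constructor
      · rintro ⟨⟨y, hy⟩, hy2, rfl⟩
        exact ⟨hy, hy2⟩
      · rintro ⟨hx1, hx2⟩
        exact ⟨⟨x, hx1⟩, hx2, rfl⟩
    rw [← e]
    exact (Submodule.equivMapOfInjective W.subtype W.injective_subtype _).finrank_eq
  rw [h2, h3] at h1
  exact h1

/-- N-B4 -/
theorem finrank_mod_four (h : Iso B g) (h2 : (2 : F) = 0) (hg : g * g = 1) (hz : ∀ v, B v (g v) = 0)
    (hker : LinearMap.ker (g - 1) ≤ LinearMap.range (g - 1)) (hT : NondegOn B ⊤)
    {W : Submodule F V} (hW : Good B g ⊤ W) : finrank F W % 4 = 0 := by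
  have hgg : ∀ v, g (g v) = v := by
    intro v
    have := LinearMap.congr_fun hg v
    simpa using this
  set N : Module.End F V := g - 1 with hN
  have hNv : ∀ v, N v = g v - v := fun v => by rw [hN, LinearMap.sub_apply]; rfl
  have hNN : ∀ v, N (N v) = 0 := by
    intro v
    rw [hNv (N v), hNv v, map_sub, hgg]
    have : v - g v - (g v - v) = (2 : F) • (v - g v) := by rw [two_smul]; abel
    rw [this, h2, zero_smul]
  have hadj : ∀ u w, B (N u) w = B u (N w) := by
    intro u w
    rw [hNv, hNv, map_sub, map_sub, LinearMap.sub_apply, ← h.pres u (g w), hgg]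
  have hNW : ∀ w ∈ W, N w ∈ W := by
    intro w hw
    rw [hNv]
    exact W.sub_mem (hW.2.1 (Submodule.mem_map_of_mem hw)) hw
  -- the complement
  set P := perpIn B W ⊤ with hP
  have hWg : W.map g = W := by
    apply Submodule.eq_of_le_of_finrank_eq hW.2.1
    exact (Submodule.equivMapOfInjective g h.inj W).finrank_eq.symm
  have hNP : ∀ u ∈ P, N u ∈ P := by
    intro u hu
    refine ⟨trivial, fun w hw => ?_⟩
    rw [hadj]
    exact hu.2 _ (hNW w hw)
  have hinf := Cfsg.Agent.Lib.H90SwP12.perpIn_inf (B := B) ⊤ hW.2.2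
  have hsup := Cfsg.Agent.Lib.H90SwP12.perpIn_sup h.alt (le_top : W ≤ ⊤) hW.2.2
  set K := W ⊓ LinearMap.ker N with hK
  -- (1) K = W.map N
  have hKeq : K = W.map N := by
    apply le_antisymm
    · rintro u ⟨hu1, hu2⟩
      obtain ⟨v, rfl⟩ := hker hu2
      have hv : v ∈ W ⊔ P := by rw [hsup]; trivial
      obtain ⟨w, hw, w', hw', rfl⟩ := Submodule.mem_sup.1 hv
      have h3 : N w' ∈ W ⊓ P := by
        refine ⟨?_, hNP w' hw'⟩
        have : N w' = N (w + w') - N w := by rw [map_add]; abel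
        rw [this]
        exact W.sub_mem hu1 (hNW w hw)
      rw [hinf, Submodule.mem_bot] at h3
      refine ⟨w, hw, ?_⟩
      rw [map_add, h3, add_zero]
    · rintro _ ⟨w, hw, rfl⟩
      exact ⟨hNW w hw, hNN w⟩
  -- a complement of K in W
  obtain ⟨q, hq⟩ := Submodule.exists_isCompl K
  set Y := q ⊓ W with hY
  have hKW : K ≤ W := inf_le_left
  have hKY : K ⊓ Y = ⊥ := by
    rw [eq_bot_iff]
    calc K ⊓ Y ≤ K ⊓ q := inf_le_inf_left _ inf_le_left
      _ = ⊥ := hq.inf_eq_bot
  have hKYs : K ⊔ Y = W := by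
    rw [hY, ← sup_inf_assoc_of_le q hKW, hq.sup_eq_top, top_inf_eq]
  -- the alternating form
  set γ : LinearMap.BilinForm F V := B.compRight N with hγ
  have hγa : ∀ u v, γ u v = B u (N v) := fun u v => rfl
  have hγalt : ∀ v, γ v v = 0 := by
    intro v
    rw [hγa, hNv, map_sub, hz, h.alt, sub_zero]
  have hγY : NondegOn γ Y := by
    intro y hy hy0
    have hyW : y ∈ W := hy.2
    have hNy : N y ≠ 0 := by
      intro h0
      have : y ∈ K ⊓ Y := ⟨⟨hyW, h0⟩, hy⟩
      rw [hKY, Submodule.mem_bot] at this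
      exact hy0 this
    obtain ⟨u, hu, hne⟩ := hW.2.2 (N y) (hNW y hyW) hNy
    rw [← hKYs] at hu
    obtain ⟨k, hk, y', hy', rfl⟩ := Submodule.mem_sup.1 hu
    refine ⟨y', hy', ?_⟩
    rw [hγa, ← hadj]
    rw [map_add, hadj y k, hk.2, map_zero, zero_add] at hne
    exact hne
  obtain ⟨c, hc⟩ := Cfsg.Agent.Lib.H90SwP37.even_finrank hγalt hγY
  have e1 := finrank_map_add N W
  have e2 := Submodule.finrank_sup_add_finrank_inf_eq K Y
  rw [hKY, hKYs, finrank_bot, add_zero] at e2
  rw [← hKeq] at e1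
  have e3 : finrank F ↥K + finrank F ↥K = finrank F ↥W := e1
  omega

end Cfsg.Agent.Lib.Helper94NdB4
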