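import Mathlib
import Cfsg.Prelude.Def_GeometricClasses
import Cfsg.Agent.Lib.Helper94NdDefs
import Cfsg.Agent.Lib.Helper3NdG1
import Cfsg.Agent.Lib.H90SwP45
import Cfsg.Agent.Lib.H90SwAdj
import Cfsg.Agent.Lib.H90SwBlk
import Cfsg.Agent.Lib.H90SwElt0
import Cfsg.Agent.Lib.H94TiHalf
import Cfsg.Agent.Lib.Helper94NdB4

set_option autoImplicit false
set_option linter.unusedSectionVars false
open Module Cfsg Polynomial
open Cfsg.Agent.Lib.Helper99Symp Cfsg.Agent.Lib.H90SwDefs Cfsg.Agent.Lib.Helper99SympForm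
  Cfsg.Agent.Lib.Helper94NdDefs Cfsg.Agent.Lib.Helper3NdG1 Cfsg.Agent.Lib.H90SwBlk
open Cfsg.Agent.Lib.H94TiHalf

/-! Piece Fin of project 5955 (row S5955).  `Orth B W W` = "W totally isotropic";
i := orderOf (card F : ZMod r), c := cc F r, E := eigenspace g 1.  I-X / J-X below = piece X (file H94Ti<X>).
Toolkit list: notes/helper94/ELU8.md.

SKETCH. `ti_bound`: e := finrank (W ⊓ E), finrank W = e + i w (finrank_congr). exists_fixfree on Q: Q ⊓ E nondegenerate, M. I-HALF twice: W ⊓ E in Q ⊓ E; W.map (g-1) ≤ W ⊓ M is TI in M, of finrank i w (Helper94NdB4.finrank_map_add), finrank M = i μ.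
-/

namespace Cfsg.Agent.Lib.H94TiFin

variable {F V : Type*} [Field F] [Fintype F] [AddCommGroup V] [Module F V] [FiniteDimensional F V]
  {B : LinearMap.BilinForm F V} {g : Module.End F V} {r : ℕ}

theorem ti_bound (h : Ctx B r g) {Q : Submodule F V} (hQ : Q.map g ≤ Q) (hN : NondegOn B Q) (μ : ℕ)
    (hfin : finrank F Q = finrank F ↥(Q ⊓ Module.End.eigenspace g 1)
      + orderOf (Fintype.card F : ZMod r) * μ)
    {W : Submodule F V} (hWQ : W ≤ Q) (hW : W.map g ≤ W) (hTI : Orth B W W) :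
    ∃ e w, finrank F W = e + orderOf (Fintype.card F : ZMod r) * w ∧
      2 * e ≤ finrank F ↥(Q ⊓ Module.End.eigenspace g 1) ∧ 2 * w ≤ μ := by
  haveI : Fact r.Prime := ⟨h.prime⟩
  obtain ⟨w, hw⟩ := Cfsg.Agent.Lib.Helper87EluB1.finrank_congr r h.ndvd g h.pow W hW
  obtain ⟨M, hMQ, hM, hNM, -, -, hinf, hsup, hNE⟩ := Cfsg.Agent.Lib.H90SwP45.exists_fixfree h hQ hN
  have hi0 : 0 < orderOf (Fintype.card F : ZMod r) :=
    (Cfsg.Agent.Lib.Helper87EluD.orderOf_facts (Fintype.card F) r Fintype.card_pos h.ndvd).1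
  refine ⟨finrank F ↥(W ⊓ Module.End.eigenspace g 1), w, hw, ?_, ?_⟩
  · apply two_mul_finrank_le h.alt hNE (inf_le_inf_right _ hWQ)
    intro u hu v hv
    exact hTI u hu.1 v hv.1
  · have hker : LinearMap.ker (g - 1) = Module.End.eigenspace g 1 := by
      ext v
      rw [LinearMap.mem_ker, Module.End.mem_eigenspace_iff, LinearMap.sub_apply, sub_eq_zero,
        one_smul]
      rfl
    have h1 := Cfsg.Agent.Lib.Helper94NdB4.finrank_map_add (g - 1) W
    rw [hker] at h1
    have h2 : W.map (g - 1) ≤ M := by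
      rintro _ ⟨v, hv, rfl⟩
      have hv' : v ∈ (Q ⊓ Module.End.eigenspace g 1) ⊔ M := by rw [hsup]; exact hWQ hv
      obtain ⟨e, he, m, hm, rfl⟩ := Submodule.mem_sup.1 hv'
      have he' : (g - 1) e = 0 := by
        have : e ∈ LinearMap.ker (g - 1) := by rw [hker]; exact he.2
        exact this
      rw [map_add, he', zero_add, LinearMap.sub_apply]
      exact M.sub_mem (hM ⟨m, hm, rfl⟩) hm
    have h3 : W.map (g - 1) ≤ W := by
      rintro _ ⟨v, hv, rfl⟩
      rw [LinearMap.sub_apply]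
      exact W.sub_mem (hW ⟨v, hv, rfl⟩) hv
    have h4 := two_mul_finrank_le h.alt hNM h2 (fun u hu v hv => hTI u (h3 hu) v (h3 hv))
    have h5 := Submodule.finrank_sup_add_finrank_inf_eq (Q ⊓ Module.End.eigenspace g 1) M
    rw [hinf, hsup, finrank_bot] at h5
    have h6 : finrank F ↥(W.map (g - 1)) = orderOf (Fintype.card F : ZMod r) * w := by omega
    have h7 : finrank F M = orderOf (Fintype.card F : ZMod r) * μ := by omega
    rw [h6, h7] at h4
    have h8 : orderOf (Fintype.card F : ZMod r) * (2 * w) ≤ orderOf (Fintype.card F : ZMod r) * μ := by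
      calc orderOf (Fintype.card F : ZMod r) * (2 * w)
          = 2 * (orderOf (Fintype.card F : ZMod r) * w) := by ring
        _ ≤ _ := h4
    exact Nat.le_of_mul_le_mul_left h8 hi0

end Cfsg.Agent.Lib.H94TiFin
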