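import Mathlib
import Cfsg.Prelude.Def_GeometricClasses
import Cfsg.Agent.Lib.Helper94NdDefs
import Cfsg.Agent.Lib.Helper3NdG1
import Cfsg.Agent.Lib.H90SwP45
import Cfsg.Agent.Lib.H90SwAdj
import Cfsg.Agent.Lib.H90SwBlk
import Cfsg.Agent.Lib.H90SwElt0

set_option autoImplicit false
set_option linter.unusedSectionVars false
open Module Cfsg Polynomial
open Cfsg.Agent.Lib.Helper99Symp Cfsg.Agent.Lib.H90SwDefs Cfsg.Agent.Lib.Helper99SympForm
  Cfsg.Agent.Lib.Helper94NdDefs Cfsg.Agent.Lib.Helper3NdG1 Cfsg.Agent.Lib.H90SwBlk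

/-! Piece Nd of project 5955 (row S5955).  `Orth B W W` = "W totally isotropic";
i := orderOf (card F : ZMod r), c := cc F r, E := eigenspace g 1.  I-X / J-X below = piece X (file H94Ti<X>).
Toolkit list: notes/helper94/ELU8.md.

SKETCH. `ker_range_facts`: K = ker R(g), invariant complement Y (Helper87EluB3.exists_rel_compl with c = 1), range R(g) ≤ Y so K ⊓ range = ⊥, finrank gives K ⊔ range = ⊤. H90SwAdj.adj: B (R(g) y') k = B y' (R(g)^N k) = 0 (N > 0). Nondegeneracy of both from NondegOn ⊤ + orthogonality.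
-/

namespace Cfsg.Agent.Lib.H94TiNd

variable {F V : Type*} [Field F] [Fintype F] [AddCommGroup V] [Module F V] [FiniteDimensional F V]
  {B : LinearMap.BilinForm F V} {g : Module.End F V} {r : ℕ}

theorem aeval_mem_of_inv {Y : Submodule F V} (hY : Y.map g ≤ Y) (P : F[X]) :
    ∀ y ∈ Y, aeval g P y ∈ Y := by
  have hk : ∀ k : ℕ, ∀ w ∈ Y, (g ^ k) w ∈ Y := by
    intro k
    induction k with
    | zero => intro w hw; simpa using hw
    | succ k ih =>
      intro w hw
      rw [pow_succ', Module.End.mul_apply]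
      exact hY ⟨_, ih w hw, rfl⟩
  induction P using Polynomial.induction_on' with
  | add p q hp hq =>
    intro y hy
    rw [map_add, LinearMap.add_apply]
    exact Y.add_mem (hp y hy) (hq y hy)
  | monomial k a =>
    intro y hy
    simp only [Polynomial.aeval_monomial, Module.algebraMap_end_eq_smul_id]
    simp only [LinearMap.smul_apply, Module.End.mul_apply, LinearMap.id_apply]
    exact Y.smul_mem _ (hk k y hy)

theorem ker_range_facts (h : Ctx B r g) (heven : Even (orderOf (Fintype.card F : ZMod r)))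
    (hT : NondegOn B ⊤) (R : F[X]) :
    NondegOn B (LinearMap.ker (aeval g R)) ∧ NondegOn B (LinearMap.range (aeval g R)) ∧
      Orth B (LinearMap.range (aeval g R)) (LinearMap.ker (aeval g R)) ∧
      LinearMap.ker (aeval g R) ⊓ LinearMap.range (aeval g R) = ⊥ := by
  set T : Module.End F V := aeval g R with hTdef
  have hcomm : ∀ v, T (g v) = g (T v) := by
    intro v
    have h1 : T * g = g * T := by
      have : aeval g (R * X) = aeval g (X * R) := by rw [mul_comm]
      rw [map_mul, map_mul, aeval_X] at this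
      exact this
    have := congrArg (fun f : Module.End F V => f v) h1
    simpa using this
  have hK : (LinearMap.ker T).map g ≤ LinearMap.ker T := by
    rintro _ ⟨k, hk, rfl⟩
    have hk' : T k = 0 := hk
    rw [LinearMap.mem_ker, hcomm, hk', map_zero]
  obtain ⟨Y, -, hY, hKY, hKY'⟩ := Cfsg.Agent.Lib.Helper87EluB3.exists_rel_compl r h.ne0 g 1 one_ne_zero
    (by rw [h.pow, one_smul]) (LinearMap.ker T) ⊤ le_top hK le_top
  have hrY : LinearMap.range T ≤ Y := by
    rintro _ ⟨v, rfl⟩
    have hv : v ∈ LinearMap.ker T ⊔ Y := by rw [hKY']; trivial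
    obtain ⟨k, hk, y, hy, rfl⟩ := Submodule.mem_sup.1 hv
    rw [map_add, LinearMap.mem_ker.1 hk, zero_add]
    exact aeval_mem_of_inv hY R y hy
  have hinf : LinearMap.ker T ⊓ LinearMap.range T = ⊥ := by
    apply le_antisymm _ bot_le
    rw [← hKY]
    exact inf_le_inf_left _ hrY
  have hsup : LinearMap.ker T ⊔ LinearMap.range T = ⊤ := by
    apply Submodule.eq_top_of_finrank_eq
    have h1 := Submodule.finrank_sup_add_finrank_inf_eq (LinearMap.ker T) (LinearMap.range T)
    rw [hinf, finrank_bot] at h1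
    have h2 := LinearMap.finrank_range_add_finrank_ker T
    omega
  obtain ⟨N, hN, hadj⟩ := Cfsg.Agent.Lib.H90SwAdj.adj h heven
  have horth : Orth B (LinearMap.range T) (LinearMap.ker T) := by
    rintro _ ⟨y, rfl⟩ k hk
    rw [hTdef, hadj R y k, ← hTdef]
    obtain ⟨N', rfl⟩ : ∃ N', N = N' + 1 := ⟨N - 1, by omega⟩
    rw [pow_succ, Module.End.mul_apply, LinearMap.mem_ker.1 hk, map_zero, map_zero]
  have horth' := Cfsg.Agent.Lib.H90SwP12.orth_symm h.alt horth
  refine ⟨?_, ?_, horth, hinf⟩
  · intro k hk hk0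
    obtain ⟨v, -, hv⟩ := hT k trivial hk0
    have hv' : v ∈ LinearMap.ker T ⊔ LinearMap.range T := by rw [hsup]; trivial
    obtain ⟨k', hk', y, hy, rfl⟩ := Submodule.mem_sup.1 hv'
    refine ⟨k', hk', ?_⟩
    rw [map_add, horth' k hk y hy, add_zero] at hv
    exact hv
  · intro y hy hy0
    obtain ⟨v, -, hv⟩ := hT y trivial hy0
    have hv' : v ∈ LinearMap.ker T ⊔ LinearMap.range T := by rw [hsup]; trivial
    obtain ⟨k', hk', y', hy', rfl⟩ := Submodule.mem_sup.1 hv'
    refine ⟨y', hy', ?_⟩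
    rw [map_add, horth y hy k' hk', zero_add] at hv
    exact hv

end Cfsg.Agent.Lib.H94TiNd
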