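import Mathlib
import Cfsg.Prelude.Def_GeometricClasses
import Cfsg.Agent.Lib.Helper94NdDefs
import Cfsg.Agent.Lib.Helper3NdG1
import Cfsg.Agent.Lib.H90SwP45
import Cfsg.Agent.Lib.H90SwAdj
import Cfsg.Agent.Lib.H90SwBlk
import Cfsg.Agent.Lib.H90SwElt0
import Cfsg.Agent.Lib.H94TiNd

set_option autoImplicit false
set_option linter.unusedSectionVars false
open Module Cfsg Polynomial
open Cfsg.Agent.Lib.Helper99Symp Cfsg.Agent.Lib.H90SwDefs Cfsg.Agent.Lib.Helper99SympForm
  Cfsg.Agent.Lib.Helper94NdDefs Cfsg.Agent.Lib.Helper3NdG1 Cfsg.Agent.Lib.H90SwBlk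
open Cfsg.Agent.Lib.H94TiNd

/-! Piece Inj of project 5955 (row S5955).  `Orth B W W` = "W totally isotropic";
i := orderOf (card F : ZMod r), c := cc F r, E := eigenspace g 1.  I-X / J-X below = piece X (file H94Ti<X>).
Toolkit list: notes/helper94/ELU8.md.

SKETCH. `inf_ker_prod_eq_bot`: W₁ := W ⊓ ker (∏R)(g) invariant, W₁ ⊓ E = ⊥ ((∏R)(g) e = (∏R).eval 1 • e). If W₁ ≠ ⊥: Helper87EluB2.exists_block: B₁ ≤ W₁ invariant of finrank i. Some R_a(g) is not injective on B₁ (else the product is injective on B₁, but it kills B₁). B₁ ⊓ ker R_a(g) ≠ ⊥ invariant without fixed vectors: finrank a positive multiple of i (EluB1.finrank_congr) so = B₁; B₁ ≤ ker R_a(g), same finrank: equal. So ker R_a(g) ≤ W is TI, nondegenerate (J-ND), ≠ ⊥: contradiction.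
-/

namespace Cfsg.Agent.Lib.H94TiInj

variable {F V : Type*} [Field F] [Fintype F] [AddCommGroup V] [Module F V] [FiniteDimensional F V]
  {B : LinearMap.BilinForm F V} {g : Module.End F V} {r : ℕ}

theorem map_aeval_le' {W : Submodule F V} (hW : W.map g ≤ W) (P : F[X]) : W.map (aeval g P) ≤ W := by
  have hpow : ∀ n : ℕ, ∀ w ∈ W, (g ^ n) w ∈ W := by
    intro n
    induction n with
    | zero => intro w hw; simpa using hw
    | succ n ih =>
      intro w hw
      rw [pow_succ', Module.End.mul_apply]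
      exact hW (Submodule.mem_map_of_mem (ih w hw))
  rintro _ ⟨w, hw, rfl⟩
  induction P using Polynomial.induction_on' with
  | add p q hp hq =>
    rw [map_add, LinearMap.add_apply]
    exact W.add_mem hp hq
  | monomial n a =>
    rw [aeval_monomial, Module.End.mul_apply, Module.algebraMap_end_apply]
    exact W.smul_mem _ (hpow n w hw)

theorem aeval_comm' (P : F[X]) (v : V) : g (aeval g P v) = aeval g P (g v) := by
  have h1 : aeval g (X * P) = aeval g (P * X) := by rw [mul_comm]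
  simp only [map_mul, aeval_X] at h1
  exact congrArg (fun f : Module.End F V => f v) h1

theorem aeval_fixed' (P : F[X]) {e : V} (he : e ∈ Module.End.eigenspace g 1) :
    aeval g P e = P.eval 1 • e := by
  by_cases h0 : e = 0
  · subst h0; simp
  · exact Module.End.aeval_apply_of_hasEigenvector ⟨he, h0⟩

theorem ker_inv (P : F[X]) : (LinearMap.ker (aeval g P)).map g ≤ LinearMap.ker (aeval g P) := by
  rintro _ ⟨v, hv, rfl⟩
  rw [SetLike.mem_coe, LinearMap.mem_ker] at hv
  rw [LinearMap.mem_ker, ← aeval_comm', hv, map_zero]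

theorem inf_ker_prod_eq_bot (h : Ctx B r g) (heven : Even (orderOf (Fintype.card F : ZMod r)))
    (hT : NondegOn B ⊤) {s : ℕ} (R : Fin s → F[X]) (hR1 : ∀ a, (R a).eval 1 ≠ 0)
    (hker : ∀ a, finrank F ↥(LinearMap.ker (aeval g (R a))) = orderOf (Fintype.card F : ZMod r))
    {W : Submodule F V} (hW : W.map g ≤ W) (hTI : Orth B W W) :
    W ⊓ LinearMap.ker (aeval g (∏ a, R a)) = ⊥ := by
  have : Fact r.Prime := ⟨h.prime⟩
  have hi0 : 0 < orderOf (Fintype.card F : ZMod r) :=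
    (Cfsg.Agent.Lib.Helper87EluD.orderOf_facts (Fintype.card F) r Fintype.card_pos h.ndvd).1
  have hP1 : (∏ a, R a).eval 1 ≠ 0 := by
    rw [Polynomial.eval_prod, Finset.prod_ne_zero_iff]
    exact fun a _ => hR1 a
  by_contra hne
  have hW₁g : (W ⊓ LinearMap.ker (aeval g (∏ a, R a))).map g ≤ W ⊓ LinearMap.ker (aeval g (∏ a, R a)) := by
    refine (Submodule.map_inf_le _).trans (inf_le_inf hW (ker_inv _))
  have hW₁E : (W ⊓ LinearMap.ker (aeval g (∏ a, R a))) ⊓ Module.End.eigenspace g 1 = ⊥ := by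
    rw [eq_bot_iff]
    rintro e ⟨⟨-, he1⟩, he2⟩
    rw [SetLike.mem_coe, LinearMap.mem_ker, aeval_fixed' _ he2] at he1
    exact (Submodule.mem_bot F).2 ((smul_eq_zero.1 he1).resolve_left hP1)
  obtain ⟨B₁, hB₁W, hB₁g, hB₁f⟩ := Cfsg.Agent.Lib.Helper87EluB2.exists_block r h.ndvd g h.pow _ hW₁g hne hW₁E
  have hB₁0 : B₁ ≠ ⊥ := by
    rintro rfl
    rw [finrank_bot] at hB₁f
    omega
  obtain ⟨a, ha⟩ : ∃ a, B₁ ⊓ LinearMap.ker (aeval g (R a)) ≠ ⊥ := by
    by_contra hcon
    push Not at hcon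
    have key : ∀ S : Finset (Fin s), ∀ v ∈ B₁, aeval g (∏ a ∈ S, R a) v = 0 → v = 0 := by
      intro S
      induction S using Finset.induction_on with
      | empty =>
        intro v _ hv
        simpa using hv
      | insert a S ha ih =>
        intro v hv hv0
        rw [Finset.prod_insert ha, map_mul, Module.End.mul_apply] at hv0
        have hu : aeval g (∏ a ∈ S, R a) v ∈ B₁ := map_aeval_le' hB₁g _ (Submodule.mem_map_of_mem hv)
        have hu0 : aeval g (∏ a ∈ S, R a) v ∈ B₁ ⊓ LinearMap.ker (aeval g (R a)) := ⟨hu, hv0⟩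
        rw [hcon a] at hu0
        exact ih v hv ((Submodule.mem_bot F).1 hu0)
    obtain ⟨v, hv, hv0⟩ := Submodule.exists_mem_ne_zero_of_ne_bot hB₁0
    exact hv0 (key Finset.univ v hv (hB₁W hv).2)
  have hDg : (B₁ ⊓ LinearMap.ker (aeval g (R a))).map g ≤ B₁ ⊓ LinearMap.ker (aeval g (R a)) :=
    (Submodule.map_inf_le _).trans (inf_le_inf hB₁g (ker_inv _))
  obtain ⟨k, hk⟩ := Cfsg.Agent.Lib.Helper87EluB1.finrank_congr r h.ndvd g h.pow _ hDg
  have hDE : (B₁ ⊓ LinearMap.ker (aeval g (R a))) ⊓ Module.End.eigenspace g 1 = ⊥ := by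
    rw [eq_bot_iff, ← hW₁E]
    exact inf_le_inf_right _ (inf_le_left.trans hB₁W)
  rw [hDE, finrank_bot, zero_add] at hk
  have hk0 : k ≠ 0 := by
    rintro rfl
    rw [mul_zero] at hk
    exact ha (Submodule.finrank_eq_zero.1 hk)
  have hle : orderOf (Fintype.card F : ZMod r) ≤ orderOf (Fintype.card F : ZMod r) * k :=
    Nat.le_mul_of_pos_right _ (Nat.pos_of_ne_zero hk0)
  have hD : B₁ ⊓ LinearMap.ker (aeval g (R a)) = B₁ :=
    Submodule.eq_of_le_of_finrank_le inf_le_left (by rw [hk, hB₁f]; exact hle)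
  have hB₁K : B₁ ≤ LinearMap.ker (aeval g (R a)) := by
    rw [← hD]
    exact inf_le_right
  have hB₁K' : B₁ = LinearMap.ker (aeval g (R a)) :=
    Submodule.eq_of_le_of_finrank_le hB₁K (by rw [hker a, hB₁f])
  obtain ⟨hKN, -, -, -⟩ := ker_range_facts h heven hT (R a)
  rw [← hB₁K'] at hKN
  obtain ⟨v, hv, hv0⟩ := Submodule.exists_mem_ne_zero_of_ne_bot hB₁0
  obtain ⟨w, hw, hvw⟩ := hKN v hv hv0
  exact hvw (hTI v (hB₁W hv).1 w (hB₁W hw).1)

end Cfsg.Agent.Lib.H94TiInj
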