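import Mathlib
import Cfsg.Prelude.Def_GeometricClasses
import Cfsg.Agent.Lib.Helper94NdDefs
import Cfsg.Agent.Lib.Helper3NdG1
import Cfsg.Agent.Lib.H90SwP45
import Cfsg.Agent.Lib.H90SwAdj
import Cfsg.Agent.Lib.H90SwBlk
import Cfsg.Agent.Lib.H90SwElt0
import Cfsg.Agent.Lib.H94TiNd
import Cfsg.Agent.Lib.Helper94NdB4
import Cfsg.Agent.Lib.H94TiInj
import Cfsg.Agent.Lib.H94TiFin

set_option autoImplicit false
set_option linter.unusedSectionVars false
open Module Cfsg Polynomial
open Cfsg.Agent.Lib.Helper99Symp Cfsg.Agent.Lib.H90SwDefs Cfsg.Agent.Lib.Helper99SympForm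
  Cfsg.Agent.Lib.Helper94NdDefs Cfsg.Agent.Lib.Helper3NdG1 Cfsg.Agent.Lib.H90SwBlk
open Cfsg.Agent.Lib.H94TiNd Cfsg.Agent.Lib.H94TiInj Cfsg.Agent.Lib.H94TiFin

/-! Piece Cap of project 5955 (row S5955).  `Orth B W W` = "W totally isotropic";
i := orderOf (card F : ZMod r), c := cc F r, E := eigenspace g 1.  I-X / J-X below = piece X (file H94Ti<X>).
Toolkit list: notes/helper94/ELU8.md.

SKETCH. `cap`: Q := range (∏R)(g) (J-ND), E ≤ Q (R(g) e = R(1) e), W' := W.map (∏R)(g) ≤ Q ⊓ W, same finrank (J-INJ), J-FIN.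
-/

namespace Cfsg.Agent.Lib.H94TiCap

variable {F V : Type*} [Field F] [Fintype F] [AddCommGroup V] [Module F V] [FiniteDimensional F V]
  {B : LinearMap.BilinForm F V} {g : Module.End F V} {r : ℕ}

theorem map_aeval_le {W : Submodule F V} (hW : W.map g ≤ W) (P : F[X]) : W.map (aeval g P) ≤ W := by
  have hpow : ∀ n : ℕ, ∀ w ∈ W, (g ^ n) w ∈ W := by
    intro n
    induction n with
    | zero => intro w hw; simpa using hw
    | succ n ih =>
      intro w hw
      rw [pow_succ', Module.End.mul_apply]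
      exact hW (Submodule.mem_map_of_mem (ih w hw))
  rintro _ ⟨w, hw, rfl⟩
  induction P using Polynomial.induction_on' with
  | add p q hp hq =>
    rw [map_add, LinearMap.add_apply]
    exact W.add_mem hp hq
  | monomial n a =>
    rw [aeval_monomial, Module.End.mul_apply, Module.algebraMap_end_apply]
    exact W.smul_mem _ (hpow n w hw)

theorem aeval_comm (P : F[X]) (v : V) : g (aeval g P v) = aeval g P (g v) := by
  have h1 : aeval g (X * P) = aeval g (P * X) := by rw [mul_comm]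
  simp only [map_mul, aeval_X] at h1
  exact congrArg (fun f : Module.End F V => f v) h1

theorem aeval_fixed (P : F[X]) {e : V} (he : e ∈ Module.End.eigenspace g 1) :
    aeval g P e = P.eval 1 • e := by
  by_cases h0 : e = 0
  · subst h0; simp
  · exact Module.End.aeval_apply_of_hasEigenvector ⟨he, h0⟩

theorem cap (h : Ctx B r g) (heven : Even (orderOf (Fintype.card F : ZMod r)))
    (hT : NondegOn B ⊤) {s : ℕ} (R : Fin s → F[X]) (hR1 : ∀ a, (R a).eval 1 ≠ 0)
    (hker : ∀ a, finrank F ↥(LinearMap.ker (aeval g (R a))) = orderOf (Fintype.card F : ZMod r))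
    (μ : ℕ) (hrange : finrank F ↥(LinearMap.range (aeval g (∏ a, R a)))
      = finrank F ↥(Module.End.eigenspace g 1) + orderOf (Fintype.card F : ZMod r) * μ)
    {W : Submodule F V} (hW : W.map g ≤ W) (hTI : Orth B W W) :
    ∃ e w, finrank F W = e + orderOf (Fintype.card F : ZMod r) * w ∧
      2 * e ≤ finrank F ↥(Module.End.eigenspace g 1) ∧ 2 * w ≤ μ := by
  obtain ⟨-, hQN, -, -⟩ := ker_range_facts h heven hT (∏ a, R a)
  have hP1 : (∏ a, R a).eval 1 ≠ 0 := by
    rw [Polynomial.eval_prod, Finset.prod_ne_zero_iff]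
    exact fun a _ => hR1 a
  have hQg : (LinearMap.range (aeval g (∏ a, R a))).map g ≤ LinearMap.range (aeval g (∏ a, R a)) := by
    rintro _ ⟨_, ⟨v, rfl⟩, rfl⟩
    exact ⟨g v, (aeval_comm _ v).symm⟩
  have hEQ : Module.End.eigenspace g 1 ≤ LinearMap.range (aeval g (∏ a, R a)) := by
    intro e he
    refine ⟨((∏ a, R a).eval 1)⁻¹ • e, ?_⟩
    rw [map_smul, aeval_fixed _ he, smul_smul, inv_mul_cancel₀ hP1, one_smul]
  have hQE : LinearMap.range (aeval g (∏ a, R a)) ⊓ Module.End.eigenspace g 1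
      = Module.End.eigenspace g 1 := inf_eq_right.2 hEQ
  have hW'W := map_aeval_le hW (∏ a, R a)
  have hfin := Cfsg.Agent.Lib.Helper94NdB4.finrank_map_add (aeval g (∏ a, R a)) W
  rw [inf_ker_prod_eq_bot h heven hT R hR1 hker hW hTI, finrank_bot, add_zero] at hfin
  have hb := ti_bound h hQg hQN μ (by rw [hQE]; exact hrange) (W := W.map (aeval g (∏ a, R a)))
    (by
      rintro _ ⟨w, -, rfl⟩
      exact ⟨w, rfl⟩)
    (by
      rintro _ ⟨_, ⟨w, hw, rfl⟩, rfl⟩
      exact ⟨g w, hW (Submodule.mem_map_of_mem hw), (aeval_comm _ w).symm⟩)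
    (fun a ha b hb => hTI a (hW'W ha) b (hW'W hb))
  rw [hQE, hfin] at hb
  exact hb

end Cfsg.Agent.Lib.H94TiCap
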