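import Mathlib
import Cfsg.Prelude.Def_GeometricClasses
import Cfsg.Agent.Lib.Helper94NdDefs
import Cfsg.Agent.Lib.Helper3NdG1
import Cfsg.Agent.Lib.H90SwP45
import Cfsg.Agent.Lib.H90SwAdj
import Cfsg.Agent.Lib.H90SwBlk
import Cfsg.Agent.Lib.H90SwElt0

set_option autoImplicit false
set_option linter.unusedSectionVars false
open Module Cfsg Polynomial
open Cfsg.Agent.Lib.Helper99Symp Cfsg.Agent.Lib.H90SwDefs Cfsg.Agent.Lib.Helper99SympForm
  Cfsg.Agent.Lib.Helper94NdDefs Cfsg.Agent.Lib.Helper3NdG1 Cfsg.Agent.Lib.H90SwBlk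

/-! Piece Coset of project 5955 (row S5955).  `Orth B W W` = "W totally isotropic";
i := orderOf (card F : ZMod r), c := cc F r, E := eigenspace g 1.  I-X / J-X below = piece X (file H94Ti<X>).
Toolkit list: notes/helper94/ELU8.md.

SKETCH. `exists_coset_reps`: G = (ZMod r)ˣ, H = zpowers (unit of q), card (G ⧸ H) = (r-1)/i; s a = val of Quotient.out, s' a = val of its inverse.
-/

namespace Cfsg.Agent.Lib.H94TiCoset



theorem exists_coset_reps (q r : ℕ) [Fact r.Prime] (hr : ¬ r ∣ q) :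
    ∃ s s' : Fin ((r - 1) / orderOf (q : ZMod r)) → ℕ, (∀ a, (s a * s' a) % r = 1) ∧
      ∀ a b, a ≠ b → ∀ e : ℕ, ((s b * s' a : ℕ) : ZMod r) ≠ (q : ZMod r) ^ e := by
  classical
  have hrP : r.Prime := Fact.out
  have hq0 : (q : ZMod r) ≠ 0 := by
    intro h0
    exact hr ((ZMod.natCast_eq_zero_iff _ _).mp h0)
  let qu : (ZMod r)ˣ := Units.mk0 (q : ZMod r) hq0
  let H : Subgroup (ZMod r)ˣ := Subgroup.zpowers qu
  have hord : orderOf qu = orderOf (q : ZMod r) := by
    rw [← orderOf_units]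
    rfl
  have hH : Nat.card H = orderOf (q : ZMod r) := by
    rw [← hord]
    exact Nat.card_zpowers qu
  have hG : Nat.card (ZMod r)ˣ = r - 1 := by
    rw [Nat.card_eq_fintype_card, ZMod.card_units]
  have hidx : Nat.card ((ZMod r)ˣ ⧸ H) = (r - 1) / orderOf (q : ZMod r) := by
    have h1 := Subgroup.card_eq_card_quotient_mul_card_subgroup H
    rw [hG, hH] at h1
    have hi0 : 0 < orderOf (q : ZMod r) := by
      rw [← hord]; exact orderOf_pos qu
    rw [h1, Nat.mul_div_cancel _ hi0]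
  have hfin : Finite ((ZMod r)ˣ ⧸ H) := inferInstance
  let e : Fin ((r - 1) / orderOf (q : ZMod r)) ≃ ((ZMod r)ˣ ⧸ H) :=
    (Finite.equivFinOfCardEq hidx).symm
  refine ⟨fun a => (((e a).out : (ZMod r)ˣ) : ZMod r).val,
    fun a => ((((e a).out)⁻¹ : (ZMod r)ˣ) : ZMod r).val, ?_, ?_⟩
  · intro a
    have h1 : (((((e a).out : (ZMod r)ˣ) : ZMod r).val * ((((e a).out)⁻¹ : (ZMod r)ˣ) : ZMod r).val : ℕ)
        : ZMod r) = ((1 : ℕ) : ZMod r) := by
      rw [Nat.cast_mul, ZMod.natCast_zmod_val, ZMod.natCast_zmod_val, ← Units.val_mul, mul_inv_cancel,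
        Units.val_one, Nat.cast_one]
    rw [ZMod.natCast_eq_natCast_iff'] at h1
    rw [h1]
    exact Nat.mod_eq_of_lt hrP.one_lt
  · intro a b hab k hk
    apply hab
    apply e.injective
    rw [← Quotient.out_eq' (e a), ← Quotient.out_eq' (e b)]
    apply QuotientGroup.eq.2
    refine ⟨(k : ℤ), ?_⟩
    apply Units.ext
    rw [Nat.cast_mul, ZMod.natCast_zmod_val, ZMod.natCast_zmod_val] at hk
    simp only [zpow_natCast, Units.val_pow_eq_pow_val, Units.val_mul]
    rw [mul_comm, hk]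
    rfl

end Cfsg.Agent.Lib.H94TiCoset
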