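import Mathlib
import Cfsg.Prelude.Def_GeometricClasses
import Cfsg.Agent.Lib.Helper94NdDefs
import Cfsg.Agent.Lib.Helper3NdG1
import Cfsg.Agent.Lib.H90SwP45
import Cfsg.Agent.Lib.H90SwAdj
import Cfsg.Agent.Lib.H90SwBlk
import Cfsg.Agent.Lib.H90SwElt0

set_option autoImplicit false
set_option linter.unusedSectionVars false
open Module Cfsg Polynomial
open Cfsg.Agent.Lib.Helper99Symp Cfsg.Agent.Lib.H90SwDefs Cfsg.Agent.Lib.Helper99SympForm
  Cfsg.Agent.Lib.Helper94NdDefs Cfsg.Agent.Lib.Helper3NdG1 Cfsg.Agent.Lib.H90SwBlk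

/-! Piece Key1 of project 5955 (row S5955).  `Orth B W W` = "W totally isotropic";
i := orderOf (card F : ZMod r), c := cc F r, E := eigenspace g 1.  I-X / J-X below = piece X (file H94Ti<X>).
Toolkit list: notes/helper94/ELU8.md.

SKETCH. `exists_irr_poly`: Helper87EluB2.exists_irreducible_factor for X^r - 1 and any v ≠ 0; ker P(y) ≠ ⊥ invariant, finrank multiple of i = finrank V so P(y) = 0. P(1) ≠ 0 (else X - 1 ~ P, fixed vector). natDegree as inside Helper87EluB2.exists_block / H90SwP6e.exists_irr (P ∣ cyclotomic r F, natDegree_of_dvd_cyclotomic_of_irreducible).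
-/

namespace Cfsg.Agent.Lib.H94TiKey1

variable {F V : Type*} [Field F] [Fintype F] [AddCommGroup V] [Module F V] [FiniteDimensional F V]
  {B : LinearMap.BilinForm F V} {g : Module.End F V} {r : ℕ}

theorem exists_irr_poly [Fact r.Prime] (hr : ¬ r ∣ Fintype.card F) (y : Module.End F V) (hy : y ^ r = 1)
    (hfix : Module.End.eigenspace y 1 = ⊥) (hdim : finrank F V = orderOf (Fintype.card F : ZMod r)) :
    ∃ P : F[X], Irreducible P ∧ P ∣ X ^ r - 1 ∧ P.natDegree = orderOf (Fintype.card F : ZMod r) ∧
      aeval y P = 0 ∧ P.eval 1 ≠ 0 := by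
  have hrp : r.Prime := Fact.out
  obtain ⟨k, hp, hk⟩ := FiniteField.card F (ringChar F)
  have : Fact (ringChar F).Prime := ⟨hp⟩
  have hne : ringChar F ≠ r := by
    rintro h
    apply hr
    rw [hk, ← h]
    exact dvd_pow_self _ k.ne_zero
  have hcop : (ringChar F).Coprime r := by
    rw [Nat.coprime_primes hp hrp]
    exact hne
  have hi0 : 0 < orderOf (Fintype.card F : ZMod r) :=
    (Cfsg.Agent.Lib.Helper87EluD.orderOf_facts (Fintype.card F) r Fintype.card_pos hr).1
  have hpos : 0 < finrank F V := by omega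
  obtain ⟨v, hv0⟩ := Module.finrank_pos_iff_exists_ne_zero.1 hpos
  have hΦ : aeval y (cyclotomic r F) v = 0 := by
    have h2 : aeval y (cyclotomic r F) v ∈ Module.End.eigenspace y 1 := by
      rw [Module.End.mem_eigenspace_iff, one_smul]
      have h3 : aeval y ((X - 1) * cyclotomic r F) = 0 := by
        rw [mul_comm, cyclotomic_prime_mul_X_sub_one]
        simp [hy]
      have h4 := congrArg (fun T : Module.End F V => T v) h3
      simp only [map_mul, map_sub, aeval_X, map_one, Module.End.mul_apply, LinearMap.sub_apply,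
        Module.End.one_apply, LinearMap.zero_apply] at h4
      exact sub_eq_zero.mp h4
    rw [hfix] at h2
    exact (Submodule.mem_bot F).mp h2
  obtain ⟨g, hg, hgdvd, w, -, hw0, hw⟩ :=
    Cfsg.Agent.Lib.Helper87EluB2.exists_irreducible_factor y ⊤ le_top (cyclotomic r F)
      (cyclotomic_ne_zero r F) v trivial hv0 hΦ
  have hdeg := natDegree_of_dvd_cyclotomic_of_irreducible hk hcop hgdvd hg
  have hord : orderOf (ZMod.unitOfCoprime _ (hcop.pow_left k)) = orderOf (Fintype.card F : ZMod r) := by
    rw [← orderOf_units, ZMod.coe_unitOfCoprime, hk]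
  rw [hord] at hdeg
  refine ⟨g, hg, ?_, hdeg, ?_, ?_⟩
  · rw [← cyclotomic_prime_mul_X_sub_one]
    exact Dvd.dvd.mul_right hgdvd _
  · set T : Module.End F V := aeval y g with hT
    have hcomm : ∀ v, T (y v) = y (T v) := by
      intro v
      have h1 : T * y = y * T := by
        have : aeval y (g * X) = aeval y (X * g) := by rw [mul_comm]
        rw [map_mul, map_mul, aeval_X] at this
        exact this
      have := congrArg (fun f : Module.End F V => f v) h1
      simpa using this
    have hK : (LinearMap.ker T).map y ≤ LinearMap.ker T := by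
      rintro _ ⟨k, hk, rfl⟩
      have hk' : T k = 0 := hk
      rw [LinearMap.mem_ker, hcomm, hk', map_zero]
    obtain ⟨j, hj⟩ := Cfsg.Agent.Lib.Helper87EluB1.finrank_congr r hr y hy (LinearMap.ker T) hK
    rw [hfix, inf_bot_eq, finrank_bot, zero_add] at hj
    have h7 : 0 < finrank F (LinearMap.ker T) := by
      rw [Module.finrank_pos_iff_exists_ne_zero]
      exact ⟨⟨w, hw⟩, fun h => hw0 (congrArg Subtype.val h)⟩
    have hj0 : j ≠ 0 := by
      rintro rfl
      omega
    have h8 := Nat.le_mul_of_pos_right (orderOf (Fintype.card F : ZMod r)) (Nat.pos_of_ne_zero hj0)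
    have h9 := Submodule.finrank_le (LinearMap.ker T)
    have h10 : LinearMap.ker T = ⊤ := Submodule.eq_top_of_finrank_eq (by omega)
    exact LinearMap.ker_eq_top.1 h10
  · intro h1
    obtain ⟨c, hc⟩ := hgdvd
    have h2 := congrArg (Polynomial.eval 1) hc
    rw [Polynomial.eval_mul, h1, zero_mul, Polynomial.eval_one_cyclotomic_prime] at h2
    have h3 := (CharP.cast_eq_zero_iff F (ringChar F) r).1 h2
    exact hne ((Nat.prime_dvd_prime_iff_eq hp hrp).1 h3)

end Cfsg.Agent.Lib.H94TiKey1
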