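import Mathlib

set_option autoImplicit false
set_option linter.unusedSectionVars false
open Module Polynomial

namespace Cfsg.Agent.Lib.Helper28TiKEY2

variable {F V : Type*} [Field F] [Fintype F] [AddCommGroup V] [Module F V] [FiniteDimensional F V]
  {r : ℕ}

/-- roots of a polynomial over a finite field are stable under the Frobenius. -/
theorem root_pow_card {K : Type*} [Field K] [Algebra F K] (P : F[X]) (x : K) (hx : aeval x P = 0)
    (a : ℕ) : aeval (x ^ (Fintype.card F ^ a)) P = 0 := by
  induction a with
  | zero => simpa using hx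
  | succ a ih =>
    rw [pow_succ, pow_mul, ← expand_aeval, FiniteField.expand_card, map_pow, ih]
    exact zero_pow Fintype.card_ne_zero

/-- J-KEY2 -/
theorem aeval_pow_injective [Fact r.Prime] (hr : ¬ r ∣ Fintype.card F) (y : Module.End F V) (hy : y ^ r = 1)
    (hfix : Module.End.eigenspace y 1 = ⊥) (hdim : finrank F V = orderOf (Fintype.card F : ZMod r))
    (P : F[X]) (hP : Irreducible P) (hPd : P ∣ X ^ r - 1)
    (hdeg : P.natDegree = orderOf (Fintype.card F : ZMod r)) (hPy : aeval y P = 0) (hP1 : P.eval 1 ≠ 0)
    (e : ℕ) (he : ∀ a : ℕ, (e : ZMod r) ≠ (Fintype.card F : ZMod r) ^ a) :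
    Function.Injective (aeval (y ^ e) P) := by
  classical
  have hrp : r.Prime := Fact.out
  rw [← expand_aeval]
  rcases hP.isCoprime_or_dvd (expand F e P) with hco | hdvd
  · obtain ⟨a, b, hab⟩ := hco
    have h1 : aeval y b * aeval y (expand F e P) = 1 := by
      have := congrArg (aeval y) hab
      simpa [hPy] using this
    intro v w hvw
    have := congrArg (aeval y b) hvw
    rw [← Module.End.mul_apply, ← Module.End.mul_apply, h1] at this
    simpa using this
  · exfalso
    have : Fact (Irreducible P) := ⟨hP⟩
    set ζ : AdjoinRoot P := AdjoinRoot.root P with hζ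
    have hζ0 : aeval ζ P = 0 := by
      rw [aeval_def]; exact AdjoinRoot.eval₂_root P
    have hζr : ζ ^ r = 1 := by
      obtain ⟨c, hc⟩ := hPd
      have := congrArg (aeval ζ) hc
      rw [map_mul, hζ0, zero_mul] at this
      simpa [sub_eq_zero] using this
    have hζ1 : ζ ≠ 1 := by
      intro h1
      rw [h1, aeval_def, eval₂_at_one] at hζ0
      exact hP1 ((map_eq_zero _).mp hζ0)
    have hord : orderOf ζ = r := orderOf_eq_prime hζr hζ1
    have hζe : aeval (ζ ^ e) P = 0 := by
      rw [← expand_aeval]
      obtain ⟨c, hc⟩ := hdvd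
      rw [hc, map_mul, hζ0, zero_mul]
    have hpow : ∀ m n : ℕ, ζ ^ m = ζ ^ n ↔ (m : ZMod r) = n := by
      intro m n
      have hne : ζ ≠ 0 := by
        intro h0
        rw [h0, zero_pow hrp.ne_zero] at hζr
        exact zero_ne_one hζr
      have hw : orderOf (Units.mk0 ζ hne) = r := by
        rw [← orderOf_units, Units.val_mk0, hord]
      have h1 : ζ ^ m = ζ ^ n ↔ (Units.mk0 ζ hne) ^ m = (Units.mk0 ζ hne) ^ n := by
        rw [Units.ext_iff]; simp
      rw [h1, pow_eq_pow_iff_modEq, hw, ZMod.natCast_eq_natCast_iff]
    have hq0 : (Fintype.card F : ZMod r) ≠ 0 := by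
      intro h0
      exact hr ((ZMod.natCast_eq_zero_iff _ _).mp h0)
    set i := orderOf (Fintype.card F : ZMod r) with hi
    let u : (ZMod r)ˣ := Units.mk0 (Fintype.card F : ZMod r) hq0
    have hu : orderOf u = i := by
      rw [← orderOf_units, Units.val_mk0]
    let S : Finset (AdjoinRoot P) :=
      insert (ζ ^ e) ((Finset.range i).image (fun a => ζ ^ (Fintype.card F ^ a)))
    have hP0 : P.map (algebraMap F (AdjoinRoot P)) ≠ 0 := by
      rw [Ne, Polynomial.map_eq_zero]
      exact hP.ne_zero
    have hS : S ⊆ (P.map (algebraMap F (AdjoinRoot P))).roots.toFinset := by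
      intro x hx
      rw [Multiset.mem_toFinset, mem_roots hP0, IsRoot.def, eval_map_algebraMap]
      rcases Finset.mem_insert.mp hx with rfl | hx
      · exact hζe
      · obtain ⟨a, _, rfl⟩ := Finset.mem_image.mp hx
        exact root_pow_card P ζ hζ0 a
    have hcardS : S.card = i + 1 := by
      rw [Finset.card_insert_of_notMem, Finset.card_image_of_injOn, Finset.card_range]
      · intro a ha b hb hab
        simp only at hab
        rw [hpow] at hab
        push_cast at hab
        have h2 : u ^ a = u ^ b := Units.ext (by simpa [u] using hab)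
        have ha' : a ∈ Set.Iio (orderOf u) := by rw [hu]; simpa using ha
        have hb' : b ∈ Set.Iio (orderOf u) := by rw [hu]; simpa using hb
        exact pow_injOn_Iio_orderOf ha' hb' h2
      · intro hmem
        obtain ⟨a, _, ha⟩ := Finset.mem_image.mp hmem
        rw [hpow] at ha
        push_cast at ha
        exact he a ha.symm
    have h3 := Finset.card_le_card hS
    have h4 := (Multiset.toFinset_card_le _).trans
      (Polynomial.card_roots' (P.map (algebraMap F (AdjoinRoot P))))
    rw [natDegree_map] at h4
    omega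

end Cfsg.Agent.Lib.Helper28TiKEY2
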