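import Mathlib
import Cfsg.Agent.Lib.Helper28TiKEY2

set_option autoImplicit false
set_option linter.unusedSectionVars false
open Module Polynomial

/-! Piece Key2 of project 5955 (row S5955): proof in `Helper28TiKEY2`. -/

namespace Cfsg.Agent.Lib.H94TiKey2

variable {F V : Type*} [Field F] [Fintype F] [AddCommGroup V] [Module F V] [FiniteDimensional F V]
  {r : ℕ}

theorem aeval_pow_injective [Fact r.Prime] (hr : ¬ r ∣ Fintype.card F) (y : Module.End F V) (hy : y ^ r = 1)
    (hfix : Module.End.eigenspace y 1 = ⊥) (hdim : finrank F V = orderOf (Fintype.card F : ZMod r))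
    (P : F[X]) (hP : Irreducible P) (hPd : P ∣ X ^ r - 1)
    (hdeg : P.natDegree = orderOf (Fintype.card F : ZMod r)) (hPy : aeval y P = 0) (hP1 : P.eval 1 ≠ 0)
    (e : ℕ) (he : ∀ a : ℕ, (e : ZMod r) ≠ (Fintype.card F : ZMod r) ^ a) :
    Function.Injective (aeval (y ^ e) P) :=
  Cfsg.Agent.Lib.Helper28TiKEY2.aeval_pow_injective hr y hy hfix hdim P hP hPd hdeg hPy hP1 e he

end Cfsg.Agent.Lib.H94TiKey2
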