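import Mathlib
import Cfsg.Prelude.Def_GeometricClasses
import Cfsg.Agent.Lib.Helper94NdDefs
import Cfsg.Agent.Lib.Helper3NdG1
import Cfsg.Agent.Lib.H90SwP45
import Cfsg.Agent.Lib.H90SwAdj
import Cfsg.Agent.Lib.H90SwBlk
import Cfsg.Agent.Lib.H90SwElt0
import Cfsg.Agent.Lib.H94TiKey1
import Cfsg.Agent.Lib.H94TiKey2
import Cfsg.Agent.Lib.H94TiCoset

set_option autoImplicit false
set_option linter.unusedSectionVars false
open Module Cfsg Polynomial
open Cfsg.Agent.Lib.Helper99Symp Cfsg.Agent.Lib.H90SwDefs Cfsg.Agent.Lib.Helper99SympForm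
  Cfsg.Agent.Lib.Helper94NdDefs Cfsg.Agent.Lib.Helper3NdG1 Cfsg.Agent.Lib.H90SwBlk
open Cfsg.Agent.Lib.H94TiKey1 Cfsg.Agent.Lib.H94TiKey2 Cfsg.Agent.Lib.H94TiCoset

/-! Piece Types of project 5955 (row S5955).  `Orth B W W` = "W totally isotropic";
i := orderOf (card F : ZMod r), c := cc F r, E := eigenspace g 1.  I-X / J-X below = piece X (file H94Ti<X>).
Toolkit list: notes/helper94/ELU8.md.

SKETCH. `exists_types`: y₀ from H90SwElt0.elt0 (cc F r = i as i even), P from J-KEY1 for toLin' y₀, s, s' from J-COSET; y a := y₀ ^ s a, R a := expand F (s' a) P (expand_aeval): R a (y b) = P(y₀^(s b * s' a)).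
-/

namespace Cfsg.Agent.Lib.H94TiTypes

variable {F : Type*} [Field F]

theorem exists_types [Fintype F] {r j : ℕ} [Fact r.Prime] (hr2 : r ≠ 2) (hr : ¬ r ∣ Fintype.card F)
    (hrF : (r : F) ≠ 0) (hj : orderOf (Fintype.card F : ZMod r) = 2 * j) :
    ∃ (y : Fin ((r - 1) / orderOf (Fintype.card F : ZMod r)) → Matrix.symplecticGroup (Fin j) F)
      (R : Fin ((r - 1) / orderOf (Fintype.card F : ZMod r)) → F[X]),
      (∀ a, y a ^ r = 1) ∧ (∀ a, (R a).eval 1 ≠ 0) ∧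
      (∀ a, aeval (y a : Matrix (Fin j ⊕ Fin j) (Fin j ⊕ Fin j) F) (R a) = 0) ∧
      (∀ a b, a ≠ b → IsUnit (aeval (y b : Matrix (Fin j ⊕ Fin j) (Fin j ⊕ Fin j) F) (R a))) := by
  classical
  have hcc : cc F r = 2 * j := by
    unfold cc cOf
    rw [hj]
    simp
  obtain ⟨y₀, hy₀, hrk⟩ := Cfsg.Agent.Lib.H90SwElt0.elt0 hr2 hr hrF hcc
  set M₀ : Matrix (Fin j ⊕ Fin j) (Fin j ⊕ Fin j) F := (y₀ : Matrix (Fin j ⊕ Fin j) (Fin j ⊕ Fin j) F) with hM₀
  have hM₀r : M₀ ^ r = 1 := by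
    have := congrArg (fun z : Matrix.symplecticGroup (Fin j) F => (z : Matrix (Fin j ⊕ Fin j) (Fin j ⊕ Fin j) F)) hy₀
    simpa using this
  let A : Matrix (Fin j ⊕ Fin j) (Fin j ⊕ Fin j) F ≃ₐ[F] Module.End F (Fin j ⊕ Fin j → F) := Matrix.toLinAlgEquiv'
  have hA : ∀ M, A M = Matrix.toLin' M := fun M => rfl
  set Y : Module.End F (Fin j ⊕ Fin j → F) := A M₀ with hY
  have hYr : Y ^ r = 1 := by rw [hY, ← map_pow, hM₀r, map_one]
  have hfix : Module.End.eigenspace Y 1 = ⊥ := by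
    have h1 := Cfsg.Agent.Lib.H90SwMat.finrank_eigen_add_rank M₀
    rw [hrk] at h1
    have h2 : finrank F ↥(Module.End.eigenspace (Matrix.toLin' M₀) 1) = 0 := by omega
    exact Submodule.finrank_eq_zero.1 h2
  have hdim : finrank F (Fin j ⊕ Fin j → F) = orderOf (Fintype.card F : ZMod r) := by
    rw [hj, Module.finrank_fintype_fun_eq_card, Fintype.card_sum, Fintype.card_fin]
    ring
  obtain ⟨P, hP, hPd, hdeg, hPy, hP1⟩ := exists_irr_poly hr Y hYr hfix hdim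
  obtain ⟨s, s', hs1, hs2⟩ := exists_coset_reps (Fintype.card F) r hr
  have hcoe : ∀ k : ℕ, ((y₀ ^ k : Matrix.symplecticGroup (Fin j) F) : Matrix (Fin j ⊕ Fin j) (Fin j ⊕ Fin j) F) = M₀ ^ k := by
    intro k
    simp [hM₀]
  have hae : ∀ a b, aeval ((y₀ ^ s b : Matrix.symplecticGroup (Fin j) F) : Matrix (Fin j ⊕ Fin j) (Fin j ⊕ Fin j) F)
      (expand F (s' a) P) = aeval (M₀ ^ (s b * s' a)) P := by
    intro a b
    rw [expand_aeval, hcoe, ← pow_mul]
  have htr : ∀ k : ℕ, A (aeval (M₀ ^ k) P) = aeval (Y ^ k) P := by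
    intro k
    rw [hY, ← map_pow]
    exact (Polynomial.aeval_algHom_apply A.toAlgHom (M₀ ^ k) P).symm
  refine ⟨fun a => y₀ ^ s a, fun a => expand F (s' a) P, ?_, ?_, ?_, ?_⟩
  · intro a
    rw [← pow_mul, mul_comm, pow_mul, hy₀, one_pow]
  · intro a
    rw [expand_eval, one_pow]
    exact hP1
  · intro a
    rw [hae]
    have h1 : M₀ ^ (s a * s' a) = M₀ := by
      conv_lhs => rw [← Nat.div_add_mod (s a * s' a) r, hs1 a, pow_add, pow_mul, hM₀r, one_pow, one_mul, pow_one]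
    rw [h1]
    apply A.injective
    have := htr 1
    rw [pow_one, pow_one] at this
    rw [this, hPy, map_zero]
  · intro a b hab
    rw [hae]
    have hinj := aeval_pow_injective hr Y hYr hfix hdim P hP hPd hdeg hPy hP1 (s b * s' a)
      (fun e => hs2 a b hab e)
    have hunit : IsUnit (aeval (Y ^ (s b * s' a)) P) := by
      rw [Module.End.isUnit_iff]
      exact ⟨hinj, LinearMap.injective_iff_surjective.1 hinj⟩
    rw [← htr] at hunit
    exact (MulEquiv.isUnit_map A.toMulEquiv).1 hunit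

end Cfsg.Agent.Lib.H94TiTypes
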