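import Mathlib
import Cfsg.Agent.Lib.Helper48Good

set_option autoImplicit false

namespace Cfsg.Agent.Lib.Helper48Good2

open Cfsg.Agent.Lib.Helper48Good

section
variable {F : Type*} [Field F] {A : Type*} [Ring A] [Algebra F A]

theorem EE_sq_of_odd (k : ℕ) (hk : (k : F) ≠ 0) (hodd : Odd k) (a : A) (hak : a ^ k = 1) :
    EE F k (a * a) = EE F k a := by
  have haak : (a * a) ^ k = 1 := by rw [(Commute.refl a).mul_pow, hak, one_mul]
  have hap : a * EE F k a = EE F k a := mul_EE k a hak
  have hab : a * a * EE F k (a * a) = EE F k (a * a) := mul_EE k (a * a) haak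
  have h1 : EE F k (a * a) * EE F k a = EE F k a :=
    EE_mul_of_fixed k hk (a * a) _ (by rw [mul_assoc, hap, hap])
  have hTj : ∀ j : ℕ, (a * a) ^ j * EE F k (a * a) = EE F k (a * a) := by
    intro j
    induction j with
    | zero => rw [pow_zero, one_mul]
    | succ j ih => rw [pow_succ, mul_assoc, hab, ih]
  obtain ⟨j, hj⟩ := hodd
  have hMT : (a * a) ^ (j + 1) = a := by
    rw [← pow_two, ← pow_mul]
    have : 2 * (j + 1) = k + 1 := by omega
    rw [this, pow_succ, hak, one_mul]
  have h2 : EE F k a * EE F k (a * a) = EE F k (a * a) :=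
    EE_mul_of_fixed k hk a _ (by
      calc a * EE F k (a * a) = (a * a) ^ (j + 1) * EE F k (a * a) := by rw [hMT]
        _ = EE F k (a * a) := hTj _)
  have hc : Commute (EE F k a) (EE F k (a * a)) := by
    apply commute_EE
    have h3 : Commute (EE F k a) a := (commute_EE k a a (Commute.refl a)).symm
    exact h3.mul_right h3
  rw [← h2, hc.eq, h1]

variable (st : A →+ A) (hmul : ∀ a b, st (a * b) = st b * st a) (hone : st 1 = 1)
  (hst2 : ∀ a, st (st a) = a) (hsmul : ∀ (c : F) (a : A), st (c • a) = c • st a)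

include hmul hone hst2 hsmul in
/-- for an isometry `a` of odd order: a unit `Z` of the centraliser with `st Z * Z = H` away from
the fixed space of `a` -/
theorem exists_unit_odd [Finite A] (k : ℕ) (hk : (k : F) ≠ 0) (hodd : Odd k) (a a' H H' : A)
    (hak : a ^ k = 1) (haa' : a * a' = 1) (ha'a : a' * a = 1) (hsta : st a = a')
    (hstH : st H = H) (hHH' : H * H' = 1) (hH'H : H' * H = 1) (hc : a * H = H * a) :
    ∃ Z Z' : A, Z * Z' = 1 ∧ Z' * Z = 1 ∧ a * Z = Z * a ∧
      st Z * Z = H * (1 - EE F k a) + EE F k a := by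
  set ep : A := EE F k a with hep
  set eg : A := 1 - ep with heg
  set v : A := a * WW F k (a * a) with hv
  have haak : (a * a) ^ k = 1 := by rw [(Commute.refl a).mul_pow, hak, one_mul]
  have hpp : ep * ep = ep := EE_idem k hk a hak
  have hsta' : st a' = a := by rw [← hsta, hst2]
  have hstp : st ep = ep := by
    rw [hep, st_EE st hmul hone hsmul, hsta, EE_inv k hk a a' hak haa' ha'a]
  have hgg : eg * eg = eg := by
    rw [heg, sub_mul, one_mul, mul_sub, mul_one, hpp, sub_self, sub_zero]
  have hstg : st eg = eg := by rw [heg, map_sub, hone, hstp]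
  let S : Subring A := Subring.centralizer {y | Commute y a ∧ Commute y H}
  have hS : ∀ x, x ∈ S ↔ ∀ y, Commute y a → Commute y H → Commute y x := by
    intro x
    rw [Subring.mem_centralizer_iff]
    exact ⟨fun h y h1 h2 => h y ⟨h1, h2⟩, fun h y hy => h y hy.1 hy.2⟩
  have haS : a ∈ S := (hS a).2 fun y h1 _ => h1
  have hHS : H ∈ S := (hS H).2 fun y _ h2 => h2
  have hH'S : H' ∈ S := (hS H').2 fun y _ h2 => commute_inv_right y H H' hHH' hH'H h2
  have hpS : ep ∈ S := (hS ep).2 fun y h1 _ => commute_EE k a y h1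
  have hgS : eg ∈ S := S.sub_mem S.one_mem hpS
  have hvS : v ∈ S := S.mul_mem haS
    ((hS _).2 fun y h1 _ => commute_WW k (a * a) y (h1.mul_right h1))
  have hcommS : ∀ x ∈ S, ∀ y ∈ S, x * y = y * x := by
    intro x hx y hy
    have h1 : Commute y a := ((hS y).1 hy a (Commute.refl a) hc).symm
    have h2 : Commute y H := ((hS y).1 hy H (Eq.symm hc) (Commute.refl H)).symm
    exact ((hS x).1 hx y h1 h2).eq.symm
  have hstS : ∀ x ∈ S, st x ∈ S := by
    intro x hx
    rw [hS]
    intro y h1 h2
    have h3 : Commute (st y) a := by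
      have h4 := congrArg st (commute_inv_right y a a' haa' ha'a h1).eq
      rw [hmul, hmul, hsta'] at h4
      exact h4.symm
    have h5 : Commute (st y) H := by
      have h4 := congrArg st h2.eq
      rw [hmul, hmul, hstH] at h4
      exact h4.symm
    have h6 := congrArg st ((hS x).1 hx (st y) h3 h5).eq
    rw [hmul, hmul, hst2] at h6
    exact h6.symm
  have hav : (a - st a) * v = eg := by
    rw [hsta, hv, ← mul_assoc, sub_mul, ha'a, sub_one_mul_WW k hk (a * a) haak,
      EE_sq_of_odd k hk hodd a hak]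
  obtain ⟨z, hzS, hz⟩ := good_part st hmul hone hst2 S hcommS hstS a H H' eg v haS hHS hH'S hgS hvS
    hstH hHH' hgg hstg hav
  let _ : CommRing S :=
    { (inferInstance : Ring S) with mul_comm := fun x y => Subtype.ext (hcommS x x.2 y y.2) }
  let zS : S := ⟨z, hzS⟩
  let sS : S := ⟨st z, hstS z hzS⟩
  let pS : S := ⟨ep, hpS⟩
  let HS : S := ⟨H, hHS⟩
  let HS' : S := ⟨H', hH'S⟩
  have e1 : pS * pS = pS := Subtype.ext hpp
  have e2 : (sS * zS - HS) * (1 - pS) = 0 := Subtype.ext hz
  have e3 : HS * HS' = 1 := Subtype.ext hHH'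
  have e4 : ((1 - pS) * sS + pS) * (zS * (1 - pS) + pS) = HS * (1 - pS) + pS := by
    linear_combination e2 + (sS * zS - sS - zS + 1) * e1
  have e5 : (HS' * (1 - pS) + pS) * ((1 - pS) * sS + pS) * (zS * (1 - pS) + pS) = 1 := by
    rw [mul_assoc, e4]
    linear_combination (1 - pS) * e3 + (HS' * HS - HS' - HS + 1) * e1
  have hstZ : st (z * eg + ep) = eg * st z + ep := by rw [map_add, hmul, hstg, hstp]
  refine ⟨z * eg + ep, (H' * eg + ep) * (eg * st z + ep), ?_, ?_, ?_, ?_⟩
  · rw [mul_comm] at e5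
    exact congrArg Subtype.val e5
  · exact congrArg Subtype.val e5
  · exact hcommS a haS _ (S.add_mem (S.mul_mem hzS hgS) hpS)
  · rw [hstZ]
    exact congrArg Subtype.val e4

end

end Cfsg.Agent.Lib.Helper48Good2
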