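import Mathlib
import Cfsg.Agent.Lib.Helper48Good2
import Cfsg.Agent.Lib.Helper49Witt

set_option autoImplicit false

namespace Cfsg.Agent.Lib.Helper48OrthConj

open Matrix Cfsg.Agent.Lib.Helper48Good Cfsg.Agent.Lib.Helper48Good2 Cfsg.Agent.Lib.Helper49Orth

section
variable {F : Type*} [Field F] {ι : Type} [Fintype ι] [DecidableEq ι]
  (Q : QuadraticForm F (ι → F))

/-- the Gram matrix of the polar form -/
noncomputable def GG : Matrix ι ι F :=
  LinearMap.BilinForm.toMatrix' (QuadraticMap.polarBilin Q)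

theorem pol_eq (x y : ι → F) : QuadraticMap.polar Q x y = x ⬝ᵥ (GG Q).mulVec y := by
  rw [GG, ← Matrix.toBilin'_apply', Matrix.toBilin'_toMatrix']
  rfl

theorem GG_transpose : (GG Q)ᵀ = GG Q := by
  ext i j
  simp only [GG, Matrix.transpose_apply, LinearMap.BilinForm.toMatrix'_apply]
  exact QuadraticMap.polar_comm _ _ _

theorem GG_isUnit (hQ : (QuadraticMap.polarBilin Q).Nondegenerate) : IsUnit (GG Q) := by
  rw [Matrix.isUnit_iff_isUnit_det, isUnit_iff_ne_zero, ← Matrix.nondegenerate_iff_det_ne_zero, GG,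
    LinearMap.BilinForm.nondegenerate_toMatrix'_iff]
  exact hQ

theorem nondeg_of_isUnit (h : IsUnit (GG Q)) : (QuadraticMap.polarBilin Q).Nondegenerate := by
  rw [Matrix.isUnit_iff_isUnit_det, isUnit_iff_ne_zero, ← Matrix.nondegenerate_iff_det_ne_zero, GG,
    LinearMap.BilinForm.nondegenerate_toMatrix'_iff] at h
  exact h

theorem eq_of_pol (M N : Matrix ι ι F)
    (h : ∀ x y : ι → F, x ⬝ᵥ M.mulVec y = x ⬝ᵥ N.mulVec y) : M = N := by
  ext i j
  have := h (Pi.single i 1) (Pi.single j 1)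
  simpa using this

/-- the adjoint with respect to a symmetric invertible matrix -/
def sg (G G' : Matrix ι ι F) : Matrix ι ι F →+ Matrix ι ι F where
  toFun X := G' * Xᵀ * G
  map_zero' := by simp
  map_add' X Y := by rw [Matrix.transpose_add, mul_add, add_mul]

theorem sg_apply (G G' X : Matrix ι ι F) : sg G G' X = G' * Xᵀ * G := rfl

theorem sg_mul (G G' : Matrix ι ι F) (h : G * G' = 1) (X Y : Matrix ι ι F) :
    sg G G' (X * Y) = sg G G' Y * sg G G' X := by
  simp only [sg_apply, Matrix.transpose_mul]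
  calc G' * (Yᵀ * Xᵀ) * G = G' * Yᵀ * 1 * Xᵀ * G := by simp only [mul_one, mul_assoc]
    _ = _ := by rw [← h]; simp only [mul_assoc]

theorem sg_one (G G' : Matrix ι ι F) (h : G' * G = 1) : sg G G' 1 = 1 := by
  rw [sg_apply, Matrix.transpose_one, mul_one, h]

theorem inv_transpose (G G' : Matrix ι ι F) (h : G * G' = 1) (hG : Gᵀ = G) : G'ᵀ = G' := by
  have h1 : G'ᵀ * G = 1 := by
    have := congrArg Matrix.transpose h
    rwa [Matrix.transpose_mul, Matrix.transpose_one, hG] at this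
  calc G'ᵀ = G'ᵀ * (G * G') := by rw [h, mul_one]
    _ = G' := by rw [← mul_assoc, h1, one_mul]

theorem sg_sg (G G' : Matrix ι ι F) (h : G * G' = 1) (h' : G' * G = 1) (hG : Gᵀ = G)
    (X : Matrix ι ι F) : sg G G' (sg G G' X) = X := by
  have hG' : G'ᵀ = G' := inv_transpose G G' h hG
  simp only [sg_apply, Matrix.transpose_mul, Matrix.transpose_transpose, hG, hG']
  calc G' * (G * (X * G')) * G = (G' * G) * X * (G' * G) := by simp only [mul_assoc]
    _ = X := by rw [h', one_mul, mul_one]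

theorem sg_smul (G G' : Matrix ι ι F) (c : F) (X : Matrix ι ι F) :
    sg G G' (c • X) = c • sg G G' X := by
  simp only [sg_apply, Matrix.transpose_smul, mul_smul_comm, smul_mul_assoc]

theorem semiconj_EE (k : ℕ) (X a b : Matrix ι ι F) (h : X * a = b * X) :
    X * EE F k a = EE F k b * X := by
  rw [EE, EE, mul_smul_comm, smul_mul_assoc, Finset.mul_sum, Finset.sum_mul]
  congr 1
  refine Finset.sum_congr rfl fun i _ => ?_
  exact (SemiconjBy.pow_right (show SemiconjBy X a b from h) i).eq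

/-- an isometry preserves the Gram matrix -/
theorem gram_inv (a : Matrix ι ι F) (ha : ∀ v, Q (a *ᵥ v) = Q v) : aᵀ * GG Q * a = GG Q := by
  apply eq_of_pol
  intro x y
  rw [← pol_eq]
  have h2 : QuadraticMap.polar Q (a *ᵥ x) (a *ᵥ y) = QuadraticMap.polar Q x y := by
    unfold QuadraticMap.polar
    rw [← Matrix.mulVec_add, ha, ha, ha]
  rw [← h2, pol_eq, ← Matrix.mulVec_mulVec, ← Matrix.mulVec_mulVec, Matrix.dotProduct_mulVec x,
    Matrix.vecMul_transpose]

/-- an isometry satisfies `st a * a = 1` -/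
theorem sg_mul_self (G' : Matrix ι ι F) (h' : G' * GG Q = 1)
    (a : Matrix ι ι F) (ha : ∀ v, Q (a *ᵥ v) = Q v) : sg (GG Q) G' a * a = 1 := by
  rw [sg_apply, mul_assoc, mul_assoc, ← mul_assoc aᵀ, gram_inv Q a ha, h']

/-- two nondegenerate quadratic forms invariant under the same semisimple element of odd order
are isometric on the complement of its fixed space, by a map commuting with it -/
theorem two_forms [Finite F] (Q₁ Q₂ : QuadraticForm F (ι → F))
    (h₁ : (QuadraticMap.polarBilin Q₁).Nondegenerate)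
    (h₂ : (QuadraticMap.polarBilin Q₂).Nondegenerate)
    (a a' : Matrix ι ι F) (k : ℕ) (hk : (k : F) ≠ 0) (hodd : Odd k)
    (ha₁ : ∀ v, Q₁ (a *ᵥ v) = Q₁ v) (ha₂ : ∀ v, Q₂ (a *ᵥ v) = Q₂ v) (hak : a ^ k = 1)
    (haa' : a * a' = 1) (ha'a : a' * a = 1) :
    ∃ Z Z' : Matrix ι ι F, Z * Z' = 1 ∧ Z' * Z = 1 ∧ Z' * a = a * Z' ∧
      ∀ x : ι → F, (1 - EE F k a) *ᵥ x = x → Q₂ (Z' *ᵥ x) = Q₁ x := by
  obtain ⟨Gu, hGu⟩ := GG_isUnit Q₁ h₁
  obtain ⟨Gv, hGv⟩ := GG_isUnit Q₂ h₂
  set G : Matrix ι ι F := GG Q₁ with hG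
  set G' : Matrix ι ι F := Units.val Gu⁻¹ with hG'
  set G₂ : Matrix ι ι F := GG Q₂ with hG₂
  set G₂' : Matrix ι ι F := Units.val Gv⁻¹ with hG₂'
  have hGG' : G * G' = 1 := by rw [← hGu, hG', Units.mul_inv]
  have hG'G : G' * G = 1 := by rw [← hGu, hG', Units.inv_mul]
  have hGG₂' : G₂ * G₂' = 1 := by rw [← hGv, hG₂', Units.mul_inv]
  have hG₂'G : G₂' * G₂ = 1 := by rw [← hGv, hG₂', Units.inv_mul]
  have hGt : Gᵀ = G := GG_transpose Q₁
  have hG₂t : G₂ᵀ = G₂ := GG_transpose Q₂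
  have hG't : G'ᵀ = G' := inv_transpose G G' hGG' hGt
  set st := sg G G' with hst
  have hmul : ∀ x y, st (x * y) = st y * st x := sg_mul G G' hGG'
  have hone : st 1 = 1 := sg_one G G' hG'G
  have hst2 : ∀ x, st (st x) = x := sg_sg G G' hGG' hG'G hGt
  have hsmul : ∀ (c : F) x, st (c • x) = c • st x := sg_smul G G'
  have hsta : st a = a' := by
    calc st a = st a * (a * a') := by rw [haa', mul_one]
      _ = a' := by rw [← mul_assoc, sg_mul_self Q₁ G' hG'G a ha₁, one_mul]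
  -- the form `H`
  set H := G' * G₂ with hH
  have hstH : st H = H := by
    rw [hst, sg_apply, hH, Matrix.transpose_mul, hG₂t, hG't, mul_assoc, mul_assoc, hG'G, mul_one]
  have hHH' : H * (G₂' * G) = 1 := by
    rw [hH, mul_assoc, ← mul_assoc G₂, hGG₂', one_mul, hG'G]
  have hH'H : (G₂' * G) * H = 1 := by
    rw [hH, mul_assoc, ← mul_assoc G, hGG', one_mul, hG₂'G]
  have hata : a'ᵀ * aᵀ = 1 := by rw [← Matrix.transpose_mul, haa', Matrix.transpose_one]
  have e1 : G * a = a'ᵀ * G := by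
    calc G * a = (a'ᵀ * aᵀ) * G * a := by rw [hata, one_mul]
      _ = a'ᵀ * (aᵀ * G * a) := by simp only [mul_assoc]
      _ = a'ᵀ * G := by rw [gram_inv Q₁ a ha₁]
  have e2 : G₂ * a = a'ᵀ * G₂ := by
    calc G₂ * a = (a'ᵀ * aᵀ) * G₂ * a := by rw [hata, one_mul]
      _ = a'ᵀ * (aᵀ * G₂ * a) := by simp only [mul_assoc]
      _ = a'ᵀ * G₂ := by rw [gram_inv Q₂ a ha₂]
  have e3 : a * G' = G' * a'ᵀ := by
    calc a * G' = (G' * G) * a * G' := by rw [hG'G, one_mul]
      _ = G' * (G * a) * G' := by simp only [mul_assoc]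
      _ = G' * a'ᵀ * (G * G') := by rw [e1]; simp only [mul_assoc]
      _ = G' * a'ᵀ := by rw [hGG', mul_one]
  have hc : a * H = H * a := by
    rw [hH, ← mul_assoc, e3, mul_assoc, ← e2, mul_assoc]
  obtain ⟨Z, Z', hZZ', hZ'Z, haZ, hZ⟩ := exists_unit_odd st hmul hone hst2 hsmul k hk hodd a a' H
    (G₂' * G) hak haa' ha'a hsta hstH hHH' hH'H hc
  set ep := EE F k a with hep
  set eg := 1 - ep with heg
  have hpp : ep * ep = ep := EE_idem k hk a hak
  have hgp : eg * ep = 0 := by rw [heg, sub_mul, one_mul, hpp, sub_self]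
  have hZa : Commute Z a := haZ.symm
  have hZ'a : Commute Z' a := (commute_inv_right a Z Z' hZZ' hZ'Z haZ).symm
  have hZp : Commute Z ep := commute_EE k a Z hZa
  have hZ'p : Commute Z' ep := commute_EE k a Z' hZ'a
  have hZ'g : Commute Z' eg := (Commute.one_right Z').sub_right hZ'p
  have hstZ : st Z' * st Z = 1 := by rw [← hmul, hZZ', hone]
  have h1 : st Z' * ep * Z' = ep := by
    have h2 : st Z * Z * ep = ep := by
      rw [hZ, add_mul, mul_assoc, hgp, mul_zero, zero_add, hpp]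
    have h3 : Z * ep = st Z' * ep := by
      calc Z * ep = (st Z' * st Z) * Z * ep := by rw [hstZ, one_mul]
        _ = st Z' * (st Z * Z * ep) := by simp only [mul_assoc]
        _ = st Z' * ep := by rw [h2]
    rw [← h3, hZp.eq, mul_assoc, hZZ', mul_one]
  have hyyg : st Z' * H * Z' * eg = eg := by
    have h2 : H * eg = st Z * Z - ep := by rw [hZ, add_sub_cancel_right]
    calc st Z' * H * Z' * eg = st Z' * H * (Z' * eg) := by simp only [mul_assoc]
      _ = st Z' * (H * eg) * Z' := by rw [hZ'g.eq]; simp only [mul_assoc]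
      _ = (st Z' * st Z) * (Z * Z') - st Z' * ep * Z' := by
          rw [h2, mul_sub, sub_mul]; simp only [mul_assoc]
      _ = eg := by rw [hstZ, hZZ', h1, one_mul]
  have hgram : Z'ᵀ * G₂ * Z' = G * (st Z' * H * Z') := by
    rw [hst, sg_apply, hH]
    calc Z'ᵀ * G₂ * Z' = (G * G') * Z'ᵀ * (G * G') * G₂ * Z' := by rw [hGG', one_mul, mul_one]
      _ = _ := by simp only [mul_assoc]
  have hpol : ∀ x x' : ι → F, eg *ᵥ x' = x' →
      QuadraticMap.polar Q₂ (Z' *ᵥ x) (Z' *ᵥ x') = QuadraticMap.polar Q₁ x x' := by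
    intro x x' hx'
    rw [pol_eq, pol_eq, ← hG, ← hG₂, Matrix.mulVec_mulVec, ← Matrix.vecMul_transpose,
      ← Matrix.dotProduct_mulVec, Matrix.mulVec_mulVec, ← mul_assoc, hgram]
    conv_lhs => rw [← hx']
    rw [Matrix.mulVec_mulVec, mul_assoc G, hyyg, ← Matrix.mulVec_mulVec, hx']
  have hadd : ∀ x x' : ι → F, eg *ᵥ x' = x' →
      Q₂ (Z' *ᵥ (x + x')) - Q₁ (x + x') = (Q₂ (Z' *ᵥ x) - Q₁ x) + (Q₂ (Z' *ᵥ x') - Q₁ x') := by
    intro x x' hx'
    rw [Matrix.mulVec_add, Q_add, Q_add, hpol x x' hx']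
    ring
  have hinv : ∀ x : ι → F, Q₂ (Z' *ᵥ (a *ᵥ x)) - Q₁ (a *ᵥ x) = Q₂ (Z' *ᵥ x) - Q₁ x := by
    intro x
    rw [Matrix.mulVec_mulVec, hZ'a.eq, ← Matrix.mulVec_mulVec, ha₂, ha₁]
  refine ⟨Z, Z', hZZ', hZ'Z, hZ'a.eq, ?_⟩
  intro x hx
  set w := WW F k a *ᵥ x with hw
  have hgW : eg * WW F k a = WW F k a * eg := by
    have h2 : Commute ep (WW F k a) :=
      commute_WW k a ep (commute_EE k a a (Commute.refl a)).symm
    exact ((Commute.one_left _).sub_left h2).eq
  have hgw : eg *ᵥ w = w := by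
    rw [hw, Matrix.mulVec_mulVec, hgW, ← Matrix.mulVec_mulVec, hx]
  have hgw' : eg *ᵥ (-w) = -w := by rw [Matrix.mulVec_neg, hgw]
  have hxw : x = a *ᵥ w + -w := by
    conv_lhs => rw [← hx, heg, hep, ← sub_one_mul_WW k hk a hak, ← Matrix.mulVec_mulVec, ← hw,
      Matrix.sub_mulVec, Matrix.one_mulVec]
    rw [sub_eq_add_neg]
  have h3 := hadd (a *ᵥ w) (-w) hgw'
  have h4 := hadd w (-w) hgw'
  rw [← hxw, hinv] at h3
  rw [add_neg_cancel, Matrix.mulVec_zero, map_zero, map_zero, sub_self] at h4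
  rw [← h4] at h3
  exact sub_eq_zero.1 h3

/-- the pullback of a quadratic form along a matrix -/
noncomputable def pull (X : Matrix ι ι F) : QuadraticForm F (ι → F) := Q.comp (Matrix.mulVecLin X)

theorem pull_apply (X : Matrix ι ι F) (v : ι → F) : pull Q X v = Q (X *ᵥ v) := rfl

theorem GG_pull (X : Matrix ι ι F) : GG (pull Q X) = Xᵀ * GG Q * X := by
  apply eq_of_pol
  intro x y
  rw [← pol_eq]
  have h2 : QuadraticMap.polar (pull Q X) x y = QuadraticMap.polar Q (X *ᵥ x) (X *ᵥ y) := by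
    unfold QuadraticMap.polar
    rw [pull_apply, pull_apply, pull_apply, Matrix.mulVec_add]
  rw [h2, pol_eq, ← Matrix.mulVec_mulVec, ← Matrix.mulVec_mulVec, Matrix.dotProduct_mulVec x,
    Matrix.vecMul_transpose]

theorem nondeg_pull (hQ : (QuadraticMap.polarBilin Q).Nondegenerate) (X X' : Matrix ι ι F)
    (hXX' : X * X' = 1) : (QuadraticMap.polarBilin (pull Q X)).Nondegenerate := by
  apply nondeg_of_isUnit
  rw [GG_pull]
  have hX : IsUnit X := IsUnit.of_mul_eq_one X' hXX'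
  have hXt : IsUnit Xᵀ := by
    rw [Matrix.isUnit_iff_isUnit_det, Matrix.det_transpose, ← Matrix.isUnit_iff_isUnit_det]
    exact hX
  exact (hXt.mul (GG_isUnit Q hQ)).mul hX

/-- isometries of two forms which are conjugate in `GL`, semisimple of odd order: a conjugating
matrix which is isometric off the fixed space -/
theorem semi_isometry [Finite F] (Q₁ Q₂ : QuadraticForm F (ι → F))
    (h₁ : (QuadraticMap.polarBilin Q₁).Nondegenerate)
    (h₂ : (QuadraticMap.polarBilin Q₂).Nondegenerate)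
    (a a' b X X' : Matrix ι ι F) (k : ℕ) (hk : (k : F) ≠ 0) (hodd : Odd k)
    (ha : ∀ v, Q₁ (a *ᵥ v) = Q₁ v) (hb : ∀ v, Q₂ (b *ᵥ v) = Q₂ v) (hak : a ^ k = 1)
    (haa' : a * a' = 1) (ha'a : a' * a = 1)
    (hXX' : X * X' = 1) (hX'X : X' * X = 1) (hX : X * a = b * X) :
    ∃ y y' : Matrix ι ι F, y * y' = 1 ∧ y' * y = 1 ∧ y * a = b * y ∧
      ∀ x : ι → F, (1 - EE F k a) *ᵥ x = x → Q₂ (y *ᵥ x) = Q₁ x := by
  obtain ⟨Z, Z', hZZ', hZ'Z, hZ'a, hZ⟩ := two_forms Q₁ (pull Q₂ X) h₁ (nondeg_pull Q₂ h₂ X X' hXX')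
    a a' k hk hodd ha (fun v => by
      rw [pull_apply, pull_apply, Matrix.mulVec_mulVec, hX, ← Matrix.mulVec_mulVec, hb])
    hak haa' ha'a
  refine ⟨X * Z', Z * X', ?_, ?_, ?_, ?_⟩
  · rw [mul_assoc, ← mul_assoc Z', hZ'Z, one_mul, hXX']
  · rw [mul_assoc, ← mul_assoc X', hX'X, one_mul, hZZ']
  · rw [mul_assoc, hZ'a, ← mul_assoc, hX, mul_assoc]
  · intro x hx
    rw [← hZ x hx, pull_apply, Matrix.mulVec_mulVec]

theorem core [Finite F] (hQ : (QuadraticMap.polarBilin Q).Nondegenerate)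
    (a a' b b' X X' : Matrix ι ι F) (k : ℕ) (hk : (k : F) ≠ 0) (hodd : Odd k)
    (ha : ∀ v, Q (a *ᵥ v) = Q v) (hb : ∀ v, Q (b *ᵥ v) = Q v) (hak : a ^ k = 1)
    (haa' : a * a' = 1) (ha'a : a' * a = 1) (hbb' : b * b' = 1) (hb'b : b' * b = 1)
    (hXX' : X * X' = 1) (hX'X : X' * X = 1) (hX : X * a = b * X) :
    ∃ g : ↥(Cfsg.isometryGroup F ⇑Q),
      ((g : Matrix.GeneralLinearGroup ι F) : Matrix ι ι F) * a
        = b * ((g : Matrix.GeneralLinearGroup ι F) : Matrix ι ι F) := by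
  obtain ⟨y, y', hyy', hy'y, hya, hzero⟩ := semi_isometry Q Q hQ hQ a a' b X X' k hk hodd ha hb hak
    haa' ha'a hXX' hX'X hX
  obtain ⟨Gu, hGu⟩ := GG_isUnit Q hQ
  set G : Matrix ι ι F := GG Q with hG
  set G' : Matrix ι ι F := Units.val Gu⁻¹ with hG'
  have hGG' : G * G' = 1 := by rw [← hGu, hG', Units.mul_inv]
  have hG'G : G' * G = 1 := by rw [← hGu, hG', Units.inv_mul]
  have hGt : Gᵀ = G := GG_transpose Q
  set st := sg G G' with hst
  have hmul : ∀ x y, st (x * y) = st y * st x := sg_mul G G' hGG'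
  have hone : st 1 = 1 := sg_one G G' hG'G
  have hsmul : ∀ (c : F) x, st (c • x) = c • st x := sg_smul G G'
  have hiso : ∀ c : Matrix ι ι F, (∀ v, Q (c *ᵥ v) = Q v) → st c * c = 1 :=
    fun c hc => sg_mul_self Q G' hG'G c hc
  have hsta : st a = a' := by
    calc st a = st a * (a * a') := by rw [haa', mul_one]
      _ = a' := by rw [← mul_assoc, hiso a ha, one_mul]
  have hstb : st b = b' := by
    calc st b = st b * (b * b') := by rw [hbb', mul_one]
      _ = b' := by rw [← mul_assoc, hiso b hb, one_mul]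
  have hbk : b ^ k = 1 := by
    have h1 := (SemiconjBy.pow_right (show SemiconjBy X a b from hX) k).eq
    rw [hak, mul_one] at h1
    calc b ^ k = b ^ k * (X * X') := by rw [hXX', mul_one]
      _ = 1 := by rw [← mul_assoc, ← h1, hXX']
  set ep := EE F k a with hep
  set eg := 1 - ep with heg
  set eB := EE F k b with heB
  have hpp : ep * ep = ep := EE_idem k hk a hak
  have hgp : eg * ep = 0 := by rw [heg, sub_mul, one_mul, hpp, sub_self]
  have hgg : eg * eg = eg := by rw [heg, mul_sub, mul_one, ← heg, hgp, sub_zero]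
  have hstp : st ep = ep := by
    rw [hep, st_EE st hmul hone hsmul, hsta, EE_inv k hk a a' hak haa' ha'a]
  have hstB : st eB = eB := by
    rw [heB, st_EE st hmul hone hsmul, hstb, EE_inv k hk b b' hbk hbb' hb'b]
  have hstg : st eg = eg := by rw [heg, map_sub, hone, hstp]
  have hyp : y * ep = eB * y := semiconj_EE k y a b hya
  have hyg : y * eg = (1 - eB) * y := by rw [heg, mul_sub, mul_one, hyp, sub_mul, one_mul]
  -- Witt
  set V' : Submodule F (ι → F) := LinearMap.range (Matrix.mulVecLin eg) with hV'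
  have hV : ∀ x ∈ V', eg *ᵥ x = x := by
    rintro x ⟨v, rfl⟩
    rw [Matrix.mulVecLin_apply, Matrix.mulVec_mulVec, hgg]
  set f : V' →ₗ[F] (ι → F) := (Matrix.mulVecLin y).domRestrict V' with hf
  have hfinj : Function.Injective f := by
    intro x x' hxx
    have h2 : y *ᵥ (x : ι → F) = y *ᵥ (x' : ι → F) := hxx
    have h3 := congrArg (fun v => y' *ᵥ v) h2
    simp only [Matrix.mulVec_mulVec, hy'y, Matrix.one_mulVec] at h3
    exact Subtype.ext h3
  obtain ⟨g, hg⟩ := Cfsg.Agent.Lib.Helper49Witt.witt Q hQ V' (LinearMap.range f)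
    (LinearEquiv.ofInjective f hfinj) (fun x => by
      rw [LinearEquiv.ofInjective_apply]
      exact hzero x (hV x x.2))
  refine ⟨g, ?_⟩
  set gm : Matrix ι ι F := ((g : Matrix.GeneralLinearGroup ι F) : Matrix ι ι F) with hgm
  have hgy : gm * eg = y * eg := by
    apply Matrix.mulVec_injective
    funext v
    rw [← Matrix.mulVec_mulVec, ← Matrix.mulVec_mulVec]
    have h2 := hg ⟨eg *ᵥ v, ⟨v, rfl⟩⟩
    rw [LinearEquiv.ofInjective_apply] at h2
    exact h2
  have hgiso : st gm * gm = 1 := hiso gm (fun v => iso_apply g v)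
  have hB1 : 1 - eB = gm * eg * y' := by
    rw [hgy, hyg, mul_assoc, hyy', mul_one]
  have hB2 : 1 - eB = st y' * eg * st gm := by
    have h2 := congrArg st hB1
    rw [map_sub, hone, hstB, hmul (gm * eg) y', hmul gm eg, hstg, ← mul_assoc] at h2
    exact h2
  have hB3 : (1 - eB) * (gm * ep) = 0 := by
    rw [hB2, mul_assoc, ← mul_assoc (st gm), hgiso, one_mul, mul_assoc, hgp, mul_zero]
  have hB4 : gm * ep = eB * (gm * ep) := by
    rw [sub_mul, one_mul, sub_eq_zero] at hB3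
    exact hB3
  have hB5 : b * (gm * ep) = gm * ep := by
    rw [hB4, ← mul_assoc, mul_EE k b hbk]
  have hag : a * eg = eg * a := by
    have h2 : Commute a ep := commute_EE k a a (Commute.refl a)
    exact ((Commute.one_right _).sub_right h2).eq
  have hsum : eg + ep = 1 := by rw [heg, sub_add_cancel]
  calc gm * a = gm * a * (eg + ep) := by rw [hsum, mul_one]
    _ = gm * eg * a + gm * (a * ep) := by rw [mul_add, mul_assoc, hag]; simp only [mul_assoc]
    _ = y * eg * a + gm * ep := by rw [hgy, mul_EE k a hak]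
    _ = b * (y * eg) + b * (gm * ep) := by
        rw [hB5, mul_assoc, ← hag, ← mul_assoc, hya, mul_assoc]
    _ = b * gm * (eg + ep) := by rw [← hgy, mul_add]; simp only [mul_assoc]
    _ = b * gm := by rw [hsum, mul_one]

end

end Cfsg.Agent.Lib.Helper48OrthConj
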