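import Mathlib

set_option autoImplicit false
set_option linter.unusedSectionVars false
set_option linter.unusedVariables false

namespace Cfsg.Agent.Lib.Helper48Eig

open Polynomial

variable {L : Type*} [Field L] {r : ℕ} [NeZero r]

/-- `ζ ^ k` for `k` modulo `r` -/
def zp (ζ : L) (k : ZMod r) : L := ζ ^ k.val

theorem zp_natCast (ζ : L) (h : ζ ^ r = 1) (s : ℕ) : zp ζ (s : ZMod r) = ζ ^ s := by
  rw [zp, ZMod.val_natCast, ← pow_eq_pow_mod s h]

theorem zp_add (ζ : L) (h : ζ ^ r = 1) (j k : ZMod r) : zp ζ (j + k) = zp ζ j * zp ζ k := by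
  have h1 : j + k = ((j.val + k.val : ℕ) : ZMod r) := by
    rw [Nat.cast_add, ZMod.natCast_zmod_val, ZMod.natCast_zmod_val]
  rw [h1, zp_natCast ζ h, pow_add]
  rfl

theorem zp_zero (ζ : L) : zp ζ (0 : ZMod r) = 1 := by
  rw [zp, ZMod.val_zero, pow_zero]

theorem zp_natCast_mul (ζ : L) (h : ζ ^ r = 1) (s : ℕ) (k : ZMod r) :
    zp ζ ((s : ZMod r) * k) = (zp ζ k) ^ s := by
  have h1 : (s : ZMod r) * k = ((k.val * s : ℕ) : ZMod r) := by
    rw [Nat.cast_mul, ZMod.natCast_zmod_val, mul_comm]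
  rw [h1, zp_natCast ζ h, pow_mul]
  rfl

theorem zp_neg_mul (ζ : L) (h : ζ ^ r = 1) (k : ZMod r) : zp ζ (-k) * zp ζ k = 1 := by
  rw [← zp_add ζ h, neg_add_cancel, zp_zero]

theorem zp_ne_zero (ζ : L) (h : ζ ^ r = 1) (k : ZMod r) : zp ζ k ≠ 0 :=
  right_ne_zero_of_mul_eq_one (zp_neg_mul ζ h k)

theorem zp_pow (ζ : L) (h : ζ ^ r = 1) (k : ZMod r) : (zp ζ k) ^ r = 1 := by
  rw [zp, ← pow_mul, mul_comm, pow_mul, h, one_pow]

theorem zp_injective {ζ : L} (hζ : IsPrimitiveRoot ζ r) : Function.Injective (zp (r := r) ζ) := by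
  intro j k h
  exact ZMod.val_injective r (hζ.pow_inj (ZMod.val_lt j) (ZMod.val_lt k) h)

theorem exists_zp {ζ : L} (hζ : IsPrimitiveRoot ζ r) (α : L) (hα : α ^ r = 1) :
    ∃ k : ZMod r, zp ζ k = α := by
  obtain ⟨i, _, hi⟩ := hζ.eq_pow_of_pow_eq_one hα
  exact ⟨(i : ZMod r), by rw [zp_natCast ζ hζ.pow_eq_one, hi]⟩

/-- the multiset of eigenvalues with multiplicity function `a` -/
noncomputable def mset (ζ : L) (a : ZMod r → ℕ) : Multiset L :=
  ∑ k : ZMod r, Multiset.replicate (a k) (zp ζ k)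

/-- the polynomial with multiplicity function `a` -/
noncomputable def PP (ζ : L) (a : ZMod r → ℕ) : L[X] := ∏ k : ZMod r, (X - C (zp ζ k)) ^ a k

theorem PP_eq (ζ : L) (a : ZMod r → ℕ) : PP ζ a = ((mset ζ a).map (X - C ·)).prod := by
  rw [mset, ← Multiset.coe_mapAddMonoidHom, map_sum, Multiset.prod_sum, PP]
  refine Finset.prod_congr rfl fun k _ => ?_
  rw [Multiset.coe_mapAddMonoidHom, Multiset.map_replicate, Multiset.prod_replicate]

theorem roots_PP (ζ : L) (a : ZMod r → ℕ) : (PP ζ a).roots = mset ζ a := by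
  rw [PP_eq, roots_multiset_prod_X_sub_C]

theorem count_mset [DecidableEq L] {ζ : L} (hζ : IsPrimitiveRoot ζ r) (a : ZMod r → ℕ)
    (k : ZMod r) : (mset ζ a).count (zp ζ k) = a k := by
  rw [mset, Multiset.count_sum']
  simp only [Multiset.count_replicate, (zp_injective hζ).eq_iff]
  simp

theorem count_mset_of_notMem [DecidableEq L] (ζ : L) (a : ZMod r → ℕ) (x : L)
    (hx : ∀ k : ZMod r, zp ζ k ≠ x) : (mset ζ a).count x = 0 := by
  rw [mset, Multiset.count_sum']
  simp only [Multiset.count_replicate, hx, if_false, Finset.sum_const_zero]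

theorem PP_injective {ζ : L} (hζ : IsPrimitiveRoot ζ r) : Function.Injective (PP (r := r) ζ) := by
  classical
  intro a b h
  funext k
  rw [← count_mset hζ a k, ← count_mset hζ b k, ← roots_PP, ← roots_PP, h]

theorem PP_monic (ζ : L) (a : ZMod r → ℕ) : (PP ζ a).Monic :=
  monic_prod_of_monic _ _ fun k _ => (monic_X_sub_C _).pow _

theorem natDegree_PP (ζ : L) (a : ZMod r → ℕ) : (PP ζ a).natDegree = ∑ k, a k := by
  rw [PP, natDegree_prod_of_monic _ _ fun k _ => (monic_X_sub_C _).pow _]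
  refine Finset.sum_congr rfl fun k _ => ?_
  rw [(monic_X_sub_C _).natDegree_pow, natDegree_X_sub_C, mul_one]

/-- a monic split polynomial all of whose roots are `r`-th roots of unity -/
theorem exists_PP {ζ : L} (hζ : IsPrimitiveRoot ζ r) (χ : L[X]) (hm : χ.Monic) (hs : χ.Splits)
    (hroot : ∀ α ∈ χ.roots, α ^ r = 1) : ∃ a : ZMod r → ℕ, χ = PP ζ a := by
  classical
  refine ⟨fun k => χ.roots.count (zp ζ k), ?_⟩
  rw [PP_eq]
  conv_lhs => rw [hs.eq_prod_roots_of_monic hm]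
  congr 2
  ext x
  by_cases hx : ∃ k : ZMod r, zp ζ k = x
  · obtain ⟨k, rfl⟩ := hx
    rw [count_mset hζ]
  · push Not at hx
    rw [count_mset_of_notMem ζ _ x hx, Multiset.count_eq_zero]
    intro hmem
    obtain ⟨k, hk⟩ := exists_zp hζ x (hroot x hmem)
    exact hx k hk

theorem PP_dvd (ζ : L) (h : ζ ^ r = 1) (a : ZMod r → ℕ) :
    PP ζ a ∣ (X ^ r - 1 : L[X]) ^ (∑ k, a k) := by
  rw [← Finset.prod_pow_eq_pow_sum, PP]
  refine Finset.prod_dvd_prod_of_dvd _ _ fun k _ => pow_dvd_pow_of_dvd ?_ _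
  rw [dvd_iff_isRoot, IsRoot, eval_sub, eval_pow, eval_X, eval_one, zp_pow ζ h, sub_self]

/-- image under a ring endomorphism raising `ζ` to the power `s` -/
theorem PP_map (ζ : L) (h : ζ ^ r = 1) (Φ : L →+* L) (u : (ZMod r)ˣ) (s : ℕ)
    (hs : (s : ZMod r) = u) (hΦ : Φ ζ = ζ ^ s) (a : ZMod r → ℕ) :
    (PP ζ a).map Φ = PP ζ (fun k => a ((u⁻¹ : (ZMod r)ˣ).1 * k)) := by
  rw [PP, PP, Polynomial.map_prod]
  refine Fintype.prod_equiv (Units.mulLeft u) _ _ fun k => ?_
  rw [Polynomial.map_pow, Polynomial.map_sub, map_X, map_C, Units.mulLeft_apply,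
    ← mul_assoc, Units.inv_mul, one_mul, ← hs, zp_natCast_mul ζ h]
  congr 3
  rw [zp, map_pow, hΦ, ← pow_mul, ← pow_mul, mul_comm]


theorem reverse_X_sub_C (α : L) : (X - C α : L[X]).reverse = 1 - C α * X := by
  rw [reverse, natDegree_X_sub_C, reflect_sub, reflect_one_X, reflect_C, pow_one]

/-- `reverse` as a monoid homomorphism -/
noncomputable def revHom : L[X] →* L[X] where
  toFun := reverse
  map_one' := by rw [← C_1, reverse_C]
  map_mul' := reverse_mul_of_domain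

theorem reverse_PP (ζ : L) (h : ζ ^ r = 1) (a : ZMod r → ℕ) :
    ∃ c : L, (PP ζ a).reverse = C c * PP ζ (fun k => a (-k)) := by
  refine ⟨∏ k : ZMod r, (-zp ζ k) ^ a k, ?_⟩
  change revHom (PP ζ a) = _
  rw [PP, map_prod, map_prod, PP, ← Fintype.prod_equiv (Equiv.neg (ZMod r))
    (fun k => (X - C (zp ζ (-k))) ^ a k) (fun k => (X - C (zp ζ k)) ^ a (-k))
    (fun k => by rw [Equiv.neg_apply, neg_neg]), ← Finset.prod_mul_distrib]
  refine Finset.prod_congr rfl fun k _ => ?_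
  rw [map_pow, map_pow, ← mul_pow]
  congr 1
  change (X - C (zp ζ k)).reverse = _
  rw [reverse_X_sub_C, mul_sub, ← C_mul, neg_mul, mul_comm (zp ζ k), zp_neg_mul ζ h, C_neg, C_neg,
    C_1]
  ring

theorem charpoly_inv_PP {ι : Type*} [Fintype ι] [DecidableEq ι] (ζ : L) (h : ζ ^ r = 1)
    (a : ZMod r → ℕ) (M M' : Matrix ι ι L) (hMM' : M * M' = 1) (hM : M.charpoly = PP ζ a) :
    M'.charpoly = PP ζ (fun k => a (-k)) := by
  have hu : IsUnit M := IsUnit.of_mul_eq_one _ hMM'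
  have h1 : M' = M⁻¹ := (Matrix.inv_eq_right_inv hMM').symm
  obtain ⟨c, hc⟩ := reverse_PP ζ h a
  have h2 : M'.charpoly = C ((-1) ^ Fintype.card ι * Ring.inverse M.det * c) * PP ζ (fun k => a (-k)) := by
    rw [h1, Matrix.charpoly_inv M hu, ← Matrix.reverse_charpoly, hM, hc]
    simp only [C_mul, C_pow, C_neg, C_1]
    ring
  have h3 := congrArg leadingCoeff h2
  rw [(Matrix.charpoly_monic M').leadingCoeff, leadingCoeff_mul, leadingCoeff_C,
    (PP_monic ζ _).leadingCoeff, mul_one] at h3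
  rw [h2, ← h3, C_1, one_mul]

theorem exists_PP_charpoly [IsAlgClosed L] {ι : Type*} [Fintype ι] [DecidableEq ι] {ζ : L}
    (hζ : IsPrimitiveRoot ζ r) (M : Matrix ι ι L) (hM : M ^ r = 1) :
    ∃ a : ZMod r → ℕ, M.charpoly = PP ζ a := by
  refine exists_PP hζ _ (Matrix.charpoly_monic M) (IsAlgClosed.splits _) ?_
  intro α hα
  have h1 : α ∈ spectrum L M := Matrix.mem_spectrum_iff_isRoot_charpoly.2 (isRoot_of_mem_roots hα)
  have h2 := spectrum.pow_mem_pow M r h1
  rw [hM] at h2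
  rcases subsingleton_or_nontrivial (Matrix ι ι L) with hs | hs
  · exfalso
    rw [spectrum.mem_iff] at h1
    exact h1 (isUnit_of_subsingleton _)
  · rw [spectrum.one_eq] at h2
    exact h2

section descent
variable {K : Type*} [Field K] [Fintype K] [Algebra K L]

theorem mem_range_of_pow_card (x : L) (hx : x ^ Fintype.card K = x) :
    x ∈ Set.range (algebraMap K L) := by
  classical
  set Q := Fintype.card K with hQ
  have hQ1 : 1 < Q := Fintype.one_lt_card
  let f : L[X] := X ^ Q - X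
  have hf0 : f ≠ 0 := FiniteField.X_pow_card_sub_X_ne_zero L hQ1
  have hdeg : f.natDegree = Q := FiniteField.X_pow_card_sub_X_natDegree_eq L hQ1
  let S : Finset L := Finset.univ.image (algebraMap K L)
  have hS : S.card = Q := by
    rw [Finset.card_image_of_injective _ (algebraMap K L).injective, Finset.card_univ]
  have hsub : S ⊆ f.roots.toFinset := by
    intro y hy
    obtain ⟨z, _, rfl⟩ := Finset.mem_image.1 hy
    rw [Multiset.mem_toFinset, mem_roots hf0, IsRoot, eval_sub, eval_pow, eval_X, ← map_pow,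
      FiniteField.pow_card, sub_self]
  have hcard : f.roots.toFinset.card ≤ S.card := by
    rw [hS, ← hdeg]
    exact (Multiset.toFinset_card_le _).trans (card_roots' f)
  have heq := Finset.eq_of_subset_of_card_le hsub hcard
  have hx' : x ∈ f.roots.toFinset := by
    rw [Multiset.mem_toFinset, mem_roots hf0, IsRoot, eval_sub, eval_pow, eval_X, hx, sub_self]
  rw [← heq] at hx'
  obtain ⟨z, _, hz⟩ := Finset.mem_image.1 hx'
  exact ⟨z, hz⟩

/-- Galois descent for the polynomials `PP` -/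
theorem exists_lift (ζ : L) (h : ζ ^ r = 1) (Φ : L →+* L) (hΦ : ∀ x, Φ x = x ^ Fintype.card K)
    (u : (ZMod r)ˣ) (hu : ((Fintype.card K : ℕ) : ZMod r) = u) (a : ZMod r → ℕ)
    (ha : ∀ k, a (u.1 * k) = a k) :
    ∃ χ : K[X], χ.map (algebraMap K L) = PP ζ a ∧ χ.natDegree = ∑ k, a k ∧ χ.Monic := by
  have h1 : (PP ζ a).map Φ = PP ζ a := by
    rw [PP_map ζ h Φ u _ hu (hΦ ζ)]
    congr 1
    funext k
    rw [← ha, ← mul_assoc, Units.mul_inv, one_mul]
  have h2 : PP ζ a ∈ lifts (algebraMap K L) := by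
    rw [lifts_iff_coeff_lifts]
    intro n
    apply mem_range_of_pow_card
    rw [← hΦ, ← coeff_map, h1]
  obtain ⟨χ, hχ, hd, hm⟩ := lifts_and_natDegree_eq_and_monic h2 (PP_monic ζ a)
  exact ⟨χ, hχ, by rw [hd, natDegree_PP], hm⟩

/-- multiplicity functions of polynomials over `K` are Frobenius invariant -/
theorem invariant_of_map {ζ : L} (hζ : IsPrimitiveRoot ζ r) (Φ : L →+* L)
    (hΦ : ∀ x, Φ x = x ^ Fintype.card K)
    (u : (ZMod r)ˣ) (hu : ((Fintype.card K : ℕ) : ZMod r) = u) (a : ZMod r → ℕ) (χ : K[X])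
    (hχ : χ.map (algebraMap K L) = PP ζ a) (k : ZMod r) : a (u.1 * k) = a k := by
  have h1 : Φ.comp (algebraMap K L) = algebraMap K L := by
    ext x
    rw [RingHom.comp_apply, hΦ, ← map_pow, FiniteField.pow_card]
  have h2 : (PP ζ a).map Φ = PP ζ a := by
    rw [← hχ, Polynomial.map_map, h1]
  rw [PP_map ζ hζ.pow_eq_one Φ u _ hu (hΦ ζ)] at h2
  have h3 := congrFun (PP_injective hζ h2) (u.1 * k)
  rw [← mul_assoc, Units.inv_mul, one_mul] at h3
  exact h3.symm

end descent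

end Cfsg.Agent.Lib.Helper48Eig
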