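import Mathlib
import Cfsg.Agent.Lib.Helper48Eig
import Cfsg.Agent.Lib.Helper45SemisimpleCount

set_option autoImplicit false
set_option linter.unusedSectionVars false
set_option linter.unusedVariables false

namespace Cfsg.Agent.Lib.Helper48EigMat

open Polynomial Cfsg.Agent.Lib.Helper48Eig Cfsg.Agent.Lib.Helper45Semisimple

variable {K : Type*} [Field K] {L : Type*} [Field L] [Algebra K L] {r : ℕ} [NeZero r]
  {ι : Type*} [Fintype ι] [DecidableEq ι]

/-- `M` has order dividing `r` and eigenvalue multiplicity function `a` -/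
def HasMult (ζ : L) (M : Matrix ι ι K) (a : ZMod r → ℕ) : Prop :=
  M ^ r = 1 ∧ M.charpoly.map (algebraMap K L) = PP ζ a

theorem exists_hasMult [IsAlgClosed L] {ζ : L} (hζ : IsPrimitiveRoot ζ r) (M : Matrix ι ι K)
    (hM : M ^ r = 1) : ∃ a : ZMod r → ℕ, HasMult ζ M a := by
  obtain ⟨a, ha⟩ := exists_PP_charpoly hζ ((algebraMap K L).mapMatrix M)
    (by rw [← map_pow, hM, map_one])
  refine ⟨a, hM, ?_⟩
  rw [← ha, RingHom.mapMatrix_apply, Matrix.charpoly_map]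

theorem HasMult.sum {ζ : L} {M : Matrix ι ι K} {a : ZMod r → ℕ} (h : HasMult ζ M a) :
    ∑ k, a k = Fintype.card ι := by
  rw [← natDegree_PP ζ a, ← h.2, natDegree_map, Matrix.charpoly_natDegree_eq_dim]

theorem HasMult.conj (p : ℕ) [Fact p.Prime] [CharP K p] (hr : r.Coprime p) {ζ : L}
    {M M' : Matrix ι ι K} {a : ZMod r → ℕ} (h : HasMult ζ M a) (h' : HasMult ζ M' a) :
    ∃ P : (Matrix ι ι K)ˣ, (P : Matrix ι ι K) * M = M' * P :=
  matrix_exists_conj M M' (matrix_isSemisimple_of_pow_eq_one p M r hr h.1)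
    (matrix_isSemisimple_of_pow_eq_one p M' r hr h'.1)
    (Polynomial.map_injective _ (algebraMap K L).injective (by rw [h.2, h'.2]))

theorem HasMult.unique {ζ : L} (hζ : IsPrimitiveRoot ζ r) {M M' : Matrix ι ι K}
    {a a' : ZMod r → ℕ} (h : HasMult ζ M a) (h' : HasMult ζ M' a') (P : (Matrix ι ι K)ˣ)
    (hP : (P : Matrix ι ι K) * M = M' * P) : a = a' := by
  apply PP_injective hζ
  rw [← h.2, ← h'.2]
  congr 1
  have h1 : M' = P.1 * M * (P⁻¹ : (Matrix ι ι K)ˣ).1 := by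
    rw [hP, mul_assoc, Units.mul_inv, mul_one]
  rw [h1, Matrix.charpoly_mul_comm, ← mul_assoc, Units.inv_mul, one_mul]

theorem hasMult_one (ζ : L) : HasMult ζ (1 : Matrix ι ι K)
    (Pi.single (0 : ZMod r) (Fintype.card ι)) := by
  refine ⟨one_pow _, ?_⟩
  rw [Matrix.charpoly_one, PP, Fintype.prod_eq_single (0 : ZMod r), Pi.single_eq_same, zp_zero]
  · simp
  · intro k hk
    rw [Pi.single_eq_of_ne hk, pow_zero]

theorem HasMult.eq_one_iff (p : ℕ) [Fact p.Prime] [CharP K p] (hr : r.Coprime p) {ζ : L}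
    (hζ : IsPrimitiveRoot ζ r) {M : Matrix ι ι K} {a : ZMod r → ℕ} (h : HasMult ζ M a) :
    M = 1 ↔ a = Pi.single (0 : ZMod r) (Fintype.card ι) := by
  constructor
  · rintro rfl
    exact h.unique hζ (hasMult_one ζ) 1 (by simp)
  · rintro rfl
    obtain ⟨P, hP⟩ := h.conj p hr (hasMult_one ζ)
    rw [one_mul] at hP
    calc M = (P⁻¹ : (Matrix ι ι K)ˣ).1 * (P.1 * M) := by rw [← mul_assoc, Units.inv_mul, one_mul]
      _ = 1 := by rw [hP, Units.inv_mul]

theorem HasMult.inv {ζ : L} (hζ : ζ ^ r = 1) {M M' : Matrix ι ι K} {a : ZMod r → ℕ}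
    (h : HasMult ζ M a) (hMM' : M * M' = 1) : HasMult ζ M' (fun k => a (-k)) := by
  have hM'M : M' * M = 1 := mul_eq_one_comm.1 hMM'
  refine ⟨?_, ?_⟩
  · have hc : Commute M' M := by rw [Commute, SemiconjBy, hMM', hM'M]
    calc M' ^ r = M' ^ r * M ^ r := by rw [h.1, mul_one]
      _ = 1 := by rw [← hc.mul_pow, hM'M, one_pow]
  · rw [← Matrix.charpoly_map]
    apply charpoly_inv_PP ζ hζ a (M.map (algebraMap K L))
    · change (algebraMap K L).mapMatrix M * (algebraMap K L).mapMatrix M' = 1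
      rw [← map_mul, hMM', map_one]
    · rw [Matrix.charpoly_map, h.2]

theorem HasMult.transpose {ζ : L} {M : Matrix ι ι K} {a : ZMod r → ℕ} (h : HasMult ζ M a) :
    HasMult ζ M.transpose a :=
  ⟨by rw [← Matrix.transpose_pow, h.1, Matrix.transpose_one], by rw [Matrix.charpoly_transpose, h.2]⟩

/-- twisting by a field endomorphism `x ↦ x ^ s` -/
theorem HasMult.map {ζ : L} (hζ : ζ ^ r = 1) {M : Matrix ι ι K} {a : ZMod r → ℕ}
    (h : HasMult ζ M a) (s : ℕ) (φ : K →+* K) (hφ : ∀ x, φ x = x ^ s) (Φ : L →+* L)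
    (hΦ : ∀ x, Φ x = x ^ s) (u : (ZMod r)ˣ) (hu : (s : ZMod r) = u) :
    HasMult ζ (M.map φ) (fun k => a ((u⁻¹ : (ZMod r)ˣ).1 * k)) := by
  refine ⟨?_, ?_⟩
  · change (φ.mapMatrix M) ^ r = 1
    rw [← map_pow, h.1, map_one]
  · have h1 : (algebraMap K L).comp φ = Φ.comp (algebraMap K L) := by
      ext x
      rw [RingHom.comp_apply, RingHom.comp_apply, hφ, hΦ, map_pow]
    rw [Matrix.charpoly_map, Polynomial.map_map, h1, ← Polynomial.map_map, h.2,
      PP_map ζ hζ Φ u s hu (hΦ ζ)]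

theorem HasMult.invariant [Fintype K] {ζ : L} (hζ : IsPrimitiveRoot ζ r) {M : Matrix ι ι K}
    {a : ZMod r → ℕ} (h : HasMult ζ M a) (Φ : L →+* L) (hΦ : ∀ x, Φ x = x ^ Fintype.card K)
    (u : (ZMod r)ˣ) (hu : ((Fintype.card K : ℕ) : ZMod r) = u) (k : ZMod r) :
    a (u.1 * k) = a k :=
  invariant_of_map hζ Φ hΦ u hu a _ h.2 k

theorem exists_matrix [Fintype K] (p : ℕ) [Fact p.Prime] [CharP K p] (ζ : L) (hζ : ζ ^ r = 1)
    (Φ : L →+* L) (hΦ : ∀ x, Φ x = x ^ Fintype.card K)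
    (u : (ZMod r)ˣ) (hu : ((Fintype.card K : ℕ) : ZMod r) = u) (n : ℕ) (a : ZMod r → ℕ)
    (ha : ∀ k, a (u.1 * k) = a k) (hsum : ∑ k, a k = n) :
    ∃ M : Matrix (Fin n) (Fin n) K, HasMult ζ M a := by
  obtain ⟨χ, hχ, hd, hm⟩ := exists_lift (K := K) ζ hζ Φ hΦ u hu a ha
  have hdvd : χ ∣ (X ^ r - 1 : K[X]) ^ n := by
    rw [← Polynomial.map_dvd_map' (algebraMap K L), hχ, ← hsum]
    simpa using PP_dvd ζ hζ a
  have h0 : χ.coeff 0 ≠ 0 := by
    intro h0
    have h1 : (X : K[X]) ∣ (X ^ r - 1 : K[X]) ^ n := (X_dvd_iff.2 h0).trans hdvd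
    have h2 : (X : K[X]) ∣ X ^ r - 1 := Polynomial.prime_X.dvd_of_dvd_pow h1
    rw [X_dvd_iff] at h2
    simp [coeff_X_pow, NeZero.ne' r] at h2
  obtain ⟨M, k, hM, hk, hMk⟩ := exists_matrix_of_charpoly p n χ (by rw [hd, hsum]) hm h0
  refine ⟨M, ?_, by rw [hM, hχ]⟩
  rcases Nat.eq_zero_or_pos n with rfl | hn
  · exact Subsingleton.elim _ _
  have hss := matrix_isSemisimple_of_pow_eq_one p M k hk hMk
  have hsq : Squarefree (minpoly K M) := by
    have h1 := hss.minpoly_squarefree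
    rwa [Matrix.minpoly_toLin'] at h1
  have h1 : minpoly K M ∣ (X ^ r - 1 : K[X]) ^ n :=
    (Matrix.minpoly_dvd_charpoly M).trans (hM ▸ hdvd)
  rw [hsq.dvd_pow_iff_dvd hn.ne'] at h1
  obtain ⟨c, hc⟩ := h1
  have h2 := congrArg (aeval M) hc
  rw [map_mul, minpoly.aeval, zero_mul, map_sub, map_pow, aeval_X, map_one, sub_eq_zero] at h2
  exact h2

end Cfsg.Agent.Lib.Helper48EigMat
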