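import Mathlib
import Cfsg.Agent.Lib.Helper48EigMat

set_option autoImplicit false
set_option linter.unusedSectionVars false
set_option linter.unusedVariables false

namespace Cfsg.Agent.Lib.Helper48EigMat2

open Polynomial Cfsg.Agent.Lib.Helper48Eig Cfsg.Agent.Lib.Helper48EigMat

section
variable {K : Type*} [Field K] {L : Type*} [Field L] [Algebra K L] {r : ℕ} [NeZero r]
  {ι : Type*} [Fintype ι] [DecidableEq ι]

theorem HasMult.conj_units {ζ : L} {M : Matrix ι ι K} {a : ZMod r → ℕ} (h : HasMult ζ M a)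
    (P P' : Matrix ι ι K) (hPP' : P * P' = 1) (hP'P : P' * P = 1) : HasMult ζ (P * M * P') a := by
  refine ⟨?_, ?_⟩
  · have h1 : ∀ j : ℕ, (P * M * P') ^ j = P * M ^ j * P' := by
      intro j
      induction j with
      | zero => rw [pow_zero, pow_zero, mul_one, hPP']
      | succ j ih =>
        rw [pow_succ, ih, pow_succ]
        calc P * M ^ j * P' * (P * M * P') = P * M ^ j * (P' * P) * M * P' := by
              simp only [mul_assoc]
          _ = P * (M ^ j * M) * P' := by rw [hP'P, mul_one]; simp only [mul_assoc]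
    rw [h1, h.1, mul_one, hPP']
  · rw [Matrix.charpoly_mul_comm, ← mul_assoc, hP'P, one_mul, h.2]

end

section arith
variable {r : ℕ} [Fact r.Prime]

theorem orderOf_neg_one_units (hr2 : r ≠ 2) : orderOf (-1 : (ZMod r)ˣ) = 2 := by
  rw [← orderOf_units, Units.val_neg, Units.val_one, orderOf_neg_one, ZMod.ringChar_zmod_n,
    if_neg hr2]

theorem pow_half_eq_neg_one (u : (ZMod r)ˣ) (b : ℕ) (hb : 0 < b) (hi : orderOf u = 2 * b) :
    u ^ b = -1 := by
  have h1 : (u ^ b) * (u ^ b) = 1 := by rw [← pow_add, ← two_mul, ← hi, pow_orderOf_eq_one]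
  have h2 : u ^ b ≠ 1 := by
    intro h
    have := orderOf_le_of_pow_eq_one hb h
    omega
  have h3 : ((u ^ b : (ZMod r)ˣ) : ZMod r) * ((u ^ b : (ZMod r)ˣ) : ZMod r) = 1 := by
    rw [← Units.val_mul, h1, Units.val_one]
  rcases mul_self_eq_one_iff.1 h3 with h4 | h4
  · exact absurd (Units.ext h4) h2
  · exact Units.ext h4

theorem orderOf_neg_unit (hr2 : r ≠ 2) (u : (ZMod r)ˣ) (i : ℕ) (hi : orderOf u = i) :
    orderOf (-u) = if i % 4 = 2 then i / 2 else if Odd i then 2 * i else i := by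
  have hi0 : 0 < i := by rw [← hi]; exact orderOf_pos u
  rcases Nat.even_or_odd' i with ⟨b, hb | hb⟩
  · have hb0 : 0 < b := by omega
    have h1 : -u = u ^ (b + 1) := by
      rw [pow_succ, pow_half_eq_neg_one u b hb0 (by rw [hi, hb]), neg_one_mul]
    have h2 : Nat.gcd (2 * b) (b + 1) = Nat.gcd 2 (b + 1) :=
      Nat.Coprime.gcd_mul_right_cancel 2 (by simp)
    rw [h1, orderOf_pow, hi, hb, h2]
    have hno : ¬ Odd (2 * b) := by simp
    rcases Nat.even_or_odd' b with ⟨d, hd | hd⟩
    · have h3 : Nat.gcd 2 (b + 1) = 1 := by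
        rw [hd]; simp
      rw [h3, if_neg (by omega), if_neg hno, Nat.div_one]
    · have h3 : Nat.gcd 2 (b + 1) = 2 := by
        rw [hd]
        exact Nat.gcd_eq_left ⟨d + 1, by ring⟩
      rw [h3, if_pos (by omega)]
  · have hodd : Odd i := ⟨b, hb⟩
    rw [if_neg (by omega), if_pos hodd, ← neg_one_mul,
      (Commute.all (-1 : (ZMod r)ˣ) u).orderOf_mul_eq_mul_orderOf_of_coprime
        (by rw [orderOf_neg_one_units hr2, hi]; exact (Nat.coprime_two_left).2 hodd),
      orderOf_neg_one_units hr2, hi]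

end arith

end Cfsg.Agent.Lib.Helper48EigMat2
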