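import Mathlib
import Cfsg.Agent.Lib.Helper48AltForm
import Cfsg.Agent.Lib.Helper48EigMat2

set_option autoImplicit false
set_option linter.unusedSectionVars false
set_option linter.unusedVariables false

namespace Cfsg.Agent.Lib.Helper48SpEx

open Polynomial Matrix Cfsg.Agent.Lib.Helper48Eig Cfsg.Agent.Lib.Helper48EigMat
  Cfsg.Agent.Lib.Helper48EigMat2 Cfsg.Agent.Lib.Helper48AltForm Cfsg.Agent.Lib.Helper48Good

section
variable {K : Type*} [Field K] {L : Type*} [Field L] [Algebra K L] {r : ℕ} [NeZero r]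
  {ι : Type*} [Fintype ι] [DecidableEq ι]

theorem PP_add (ζ : L) (a b : ZMod r → ℕ) : PP ζ (a + b) = PP ζ a * PP ζ b := by
  rw [PP, PP, PP, ← Finset.prod_mul_distrib]
  exact Finset.prod_congr rfl fun k _ => by rw [Pi.add_apply, pow_add]

theorem PP_single (ζ : L) (n : ℕ) : PP ζ (Pi.single (0 : ZMod r) n) = (X - 1) ^ n := by
  rw [PP, Fintype.prod_eq_single (0 : ZMod r), Pi.single_eq_same, zp_zero, C_1]
  intro k hk
  rw [Pi.single_eq_of_ne hk, pow_zero]

theorem fromBlocks_one_pow {κ : Type*} [Fintype κ] [DecidableEq κ] (M : Matrix ι ι K) (j : ℕ) :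
    (fromBlocks (1 : Matrix κ κ K) 0 0 M) ^ j = fromBlocks 1 0 0 (M ^ j) := by
  induction j with
  | zero => rw [pow_zero, pow_zero, fromBlocks_one]
  | succ j ih => rw [pow_succ, ih, fromBlocks_multiply, pow_succ]; simp

theorem hasMult_fromBlocks {κ : Type*} [Fintype κ] [DecidableEq κ] {ζ : L} {M : Matrix ι ι K}
    {a : ZMod r → ℕ} (h : HasMult ζ M a) :
    HasMult ζ (fromBlocks (1 : Matrix κ κ K) 0 0 M) (Pi.single 0 (Fintype.card κ) + a) := by
  refine ⟨by rw [fromBlocks_one_pow, h.1, fromBlocks_one], ?_⟩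
  rw [Matrix.charpoly_fromBlocks_zero₁₂, Polynomial.map_mul, h.2, PP_add, PP_single,
    Matrix.charpoly_one]
  simp

theorem hasMult_reindex {ι' : Type*} [Fintype ι'] [DecidableEq ι'] (e : ι ≃ ι') {ζ : L}
    {M : Matrix ι ι K} {a : ZMod r → ℕ} (h : HasMult ζ M a) :
    HasMult ζ (Matrix.reindex e e M) a := by
  refine ⟨?_, by rw [Matrix.charpoly_reindex, h.2]⟩
  have h1 : Matrix.reindex e e M = Matrix.reindexAlgEquiv K K e M := rfl
  rw [h1, ← map_pow, h.1, map_one]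

/-- no eigenvalue `1` -/
theorem isUnit_one_sub {ζ : L} (hζ : IsPrimitiveRoot ζ r) {M : Matrix ι ι K} {a : ZMod r → ℕ}
    (h : HasMult ζ M a) (h0 : a 0 = 0) : IsUnit (1 - M) := by
  classical
  by_contra hcon
  have h1 : (1 : K) ∈ spectrum K M := by
    rw [spectrum.mem_iff, map_one]
    exact hcon
  rw [Matrix.mem_spectrum_iff_isRoot_charpoly] at h1
  have h2 : IsRoot (M.charpoly.map (algebraMap K L)) (algebraMap K L 1) := h1.map
  rw [h.2, map_one] at h2
  have h3 : (1 : L) ∈ (PP ζ a).roots := (mem_roots (PP_monic ζ a).ne_zero).2 h2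
  rw [roots_PP, ← Multiset.count_pos, ← zp_zero (r := r) ζ, count_mset hζ, h0] at h3
  exact lt_irrefl _ h3

/-- the part without eigenvalue `1`: an invariant nondegenerate alternating form -/
theorem exists_alt_of_hasMult [Finite K] (p : ℕ) [Fact p.Prime] [CharP K p] (hr : r.Coprime p)
    (hodd : Odd r) {ζ : L} (hζ : IsPrimitiveRoot ζ r) {M : Matrix ι ι K} {a : ZMod r → ℕ}
    (h : HasMult ζ M a) (h0 : a 0 = 0) (hneg : ∀ k, a (-k) = a k) :
    ∃ Y Y' : Matrix ι ι K, Y * Y' = 1 ∧ (∀ x : ι → K, x ⬝ᵥ Y.mulVec x = 0) ∧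
      Mᵀ * Y * M = Y := by
  have hr1 : 1 ≤ r := NeZero.one_le
  set M' := M ^ (r - 1) with hM'
  have hMM' : M * M' = 1 := by rw [hM', ← pow_succ', Nat.sub_add_cancel hr1, h.1]
  have hM'M : M' * M = 1 := mul_eq_one_comm.1 hMM'
  have h2 : HasMult ζ M'ᵀ a := by
    have h3 := (h.inv hζ.pow_eq_one hMM').transpose
    have h4 : (fun k => a (-k)) = a := funext hneg
    rwa [h4] at h3
  obtain ⟨X, hX⟩ := h.conj p hr h2
  have hinv : Mᵀ * X.1 * M = X.1 := by
    rw [Matrix.mul_assoc, hX, ← Matrix.mul_assoc, ← Matrix.transpose_mul, hM'M,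
      Matrix.transpose_one, Matrix.one_mul]
  have hrK : (r : K) ≠ 0 := by
    intro h0
    rw [CharP.cast_eq_zero_iff K p] at h0
    have h1 : p ∣ 1 := by
      rw [← hr]
      exact Nat.dvd_gcd h0 dvd_rfl
    exact (Fact.out : p.Prime).one_lt.ne' (Nat.dvd_one.1 h1)
  set T := M * M with hT
  have hTr : T ^ r = 1 := by rw [hT, (Commute.refl M).mul_pow, h.1, one_mul]
  have hTE : T * EE K r T = EE K r T := mul_EE r T hTr
  have hTj : ∀ j : ℕ, T ^ j * EE K r T = EE K r T := by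
    intro j
    induction j with
    | zero => rw [pow_zero, one_mul]
    | succ j ih => rw [pow_succ, mul_assoc, hTE, ih]
  obtain ⟨j, hj⟩ := hodd
  have hMT : T ^ (j + 1) = M := by
    rw [hT, ← pow_two, ← pow_mul]
    have : 2 * (j + 1) = r + 1 := by omega
    rw [this, pow_succ, h.1, one_mul]
  have hE0 : EE K r T = 0 := by
    have h5 : (1 - M) * EE K r T = 0 := by
      rw [sub_mul, one_mul, ← hMT, hTj, sub_self]
    obtain ⟨w, hw⟩ := (isUnit_one_sub hζ h h0).exists_left_inv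
    calc EE K r T = (w * (1 - M)) * EE K r T := by rw [hw, one_mul]
      _ = 0 := by rw [mul_assoc, h5, mul_zero]
  have hv : (M - M') * (M * WW K r T) = 1 := by
    rw [← mul_assoc, sub_mul, hM'M, ← hT, sub_one_mul_WW r hrK T hTr, hE0, sub_zero]
  exact matrix_exists_alt M M' X.1 (X⁻¹ : (Matrix ι ι K)ˣ).1 _ hMM' (Units.mul_inv X) hinv hv
    (fun y hy => hy.mul_right (commute_WW r T y (hy.mul_right hy)))

end

section main
variable {K : Type*} [Field K] [Fintype K] {L : Type*} [Field L] [Algebra K L] {r : ℕ}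
  [Fact r.Prime]

theorem alt_fromBlocks {κ ι : Type*} [Fintype κ] [Fintype ι] (A : Matrix κ κ K) (B : Matrix ι ι K)
    (hA : ∀ x : κ → K, x ⬝ᵥ A.mulVec x = 0) (hB : ∀ x : ι → K, x ⬝ᵥ B.mulVec x = 0)
    (x : κ ⊕ ι → K) : x ⬝ᵥ (fromBlocks A 0 0 B).mulVec x = 0 := by
  rw [Matrix.fromBlocks_mulVec, dotProduct, Fintype.sum_sum_type]
  simp only [Sum.elim_inl, Sum.elim_inr, Matrix.zero_mulVec, add_zero, zero_add]
  have h1 := hA (x ∘ Sum.inl)
  have h2 := hB (x ∘ Sum.inr)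
  rw [dotProduct] at h1 h2
  simp only [Function.comp_apply] at h1 h2
  rw [h1, h2, add_zero]

/-- every multiplicity function invariant under Frobenius and inversion occurs in `Sp` -/
theorem exists_sp (p : ℕ) [Fact p.Prime] [CharP K p] (hr : r.Coprime p) (hodd : Odd r) {ζ : L}
    (hζ : IsPrimitiveRoot ζ r) (Φ : L →+* L) (hΦ : ∀ x, Φ x = x ^ Fintype.card K)
    (u : (ZMod r)ˣ) (hu : ((Fintype.card K : ℕ) : ZMod r) = u) (m : ℕ) (a : ZMod r → ℕ)
    (ha : ∀ k, a (u.1 * k) = a k) (hneg : ∀ k, a (-k) = a k) (hsum : ∑ k, a k = 2 * m) :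
    ∃ g : Matrix.symplecticGroup (Fin m) K, HasMult ζ g.1 a := by
  classical
  set a' : ZMod r → ℕ := Function.update a 0 0 with ha'
  have ha'0 : a' 0 = 0 := Function.update_self _ _ _
  have ha'ne : ∀ k, k ≠ 0 → a' k = a k := fun k hk => Function.update_of_ne hk _ _
  have hdec : a = Pi.single 0 (a 0) + a' := by
    funext k
    by_cases hk : k = 0
    · subst hk; rw [Pi.add_apply, Pi.single_eq_same, ha'0, add_zero]
    · rw [Pi.add_apply, Pi.single_eq_of_ne hk, ha'ne k hk, zero_add]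
  have hsum' : a 0 + ∑ k, a' k = 2 * m := by
    rw [← hsum]
    conv_rhs => rw [hdec]
    simp [Finset.sum_add_distrib]
  have ha'u : ∀ k, a' (u.1 * k) = a' k := by
    intro k
    by_cases hk : k = 0
    · rw [hk, mul_zero]
    · rw [ha'ne k hk, ha'ne _ (mul_ne_zero u.ne_zero hk), ha]
  have ha'neg : ∀ k, a' (-k) = a' k := by
    intro k
    by_cases hk : k = 0
    · rw [hk, neg_zero]
    · rw [ha'ne k hk, ha'ne _ (neg_ne_zero.2 hk), hneg]
  obtain ⟨M, hM⟩ := exists_matrix p ζ hζ.pow_eq_one Φ hΦ u hu _ a' ha'u rfl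
  obtain ⟨Y, Y', hYY', halt, hYinv⟩ := exists_alt_of_hasMult p hr hodd hζ hM ha'0 ha'neg
  have heven := even_card_of_alt Y Y' hYY' halt
  rw [Fintype.card_fin] at heven
  obtain ⟨d', hd'⟩ := heven
  obtain ⟨d, hd⟩ : ∃ d, a 0 = d + d := ⟨m - d', by omega⟩
  have hM2 := hasMult_fromBlocks (κ := Fin d ⊕ Fin d) hM
  have hcard : Fintype.card (Fin d ⊕ Fin d) = a 0 := by simp [hd]
  rw [hcard, ← hdec] at hM2
  let e : (Fin d ⊕ Fin d) ⊕ Fin (∑ k, a' k) ≃ Fin m ⊕ Fin m :=
    Fintype.equivOfCardEq (by simp; omega)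
  have hM3 := hasMult_reindex e hM2
  set M2 := fromBlocks (1 : Matrix (Fin d ⊕ Fin d) (Fin d ⊕ Fin d) K) 0 0 M with hM2def
  set Y2 := fromBlocks (Matrix.J (Fin d) K) 0 0 Y with hY2
  set Y2' := fromBlocks (-Matrix.J (Fin d) K) 0 0 Y' with hY2'
  have h1 : Y2 * Y2' = 1 := by
    rw [hY2, hY2', fromBlocks_multiply]
    simp [hYY', Matrix.J_squared]
  have h2 : M2ᵀ * Y2 * M2 = Y2 := by
    rw [hM2def, hY2, fromBlocks_transpose, fromBlocks_multiply, fromBlocks_multiply]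
    simp [hYinv]
  have h3 : ∀ x, x ⬝ᵥ Y2.mulVec x = 0 := alt_fromBlocks _ _ Cfsg.Agent.S2589.J_alt halt
  obtain ⟨Q, Q', hQQ', hQ'Q, hQ⟩ := conj_into_Sp (Matrix.reindex e e M2) (Matrix.reindex e e Y2)
    (Matrix.reindex e e Y2')
    (by
      have : Matrix.reindex e e Y2 * Matrix.reindex e e Y2'
          = Matrix.reindexAlgEquiv K K e (Y2 * Y2') := by rw [map_mul]; rfl
      rw [this, h1, map_one])
    (by
      intro x
      have h4 := h3 (x ∘ e)
      rw [Matrix.reindex_apply, Matrix.submatrix_mulVec_equiv, dotProduct_comp_equiv_symm]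
      exact h4)
    (by
      rw [Matrix.transpose_reindex]
      have : Matrix.reindex e e M2ᵀ * Matrix.reindex e e Y2 * Matrix.reindex e e M2
          = Matrix.reindexAlgEquiv K K e (M2ᵀ * Y2 * M2) := by rw [map_mul, map_mul]; rfl
      rw [this, h2]
      rfl)
  exact ⟨⟨_, hQ⟩, Cfsg.Agent.Lib.Helper48EigMat2.HasMult.conj_units hM3 Q Q' hQQ' hQ'Q⟩

end main

end Cfsg.Agent.Lib.Helper48SpEx
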