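import Mathlib
import Cfsg.Agent.Lib.Helper48SpEx
import Cfsg.Agent.Lib.Helper48OrthConj
import Cfsg.Agent.Lib.Helper42Quad
import Cfsg.Agent.S0838

set_option autoImplicit false
set_option linter.unusedSectionVars false
set_option linter.unusedVariables false

namespace Cfsg.Agent.Lib.Helper48QuadEx

open Polynomial Matrix Cfsg.Agent.Lib.Helper48Eig Cfsg.Agent.Lib.Helper48EigMat
  Cfsg.Agent.Lib.Helper48EigMat2 Cfsg.Agent.Lib.Helper48AltForm Cfsg.Agent.Lib.Helper48Good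
  Cfsg.Agent.Lib.Helper48SpEx Cfsg.Agent.Lib.Helper48OrthConj

section qf
variable {K : Type*} [Field K] {ι : Type} [Fintype ι] [DecidableEq ι]

/-- the quadratic form `x ↦ xᵀ Z x` -/
noncomputable def qf (Z : Matrix ι ι K) : QuadraticForm K (ι → K) :=
  LinearMap.BilinMap.toQuadraticMap (Matrix.toBilin' Z)

theorem qf_apply (Z : Matrix ι ι K) (x : ι → K) : qf Z x = x ⬝ᵥ Z *ᵥ x := by
  rw [qf, LinearMap.BilinMap.toQuadraticMap_apply, Matrix.toBilin'_apply']

theorem GG_qf (Z : Matrix ι ι K) : GG (qf Z) = Z + Zᵀ := by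
  apply eq_of_pol
  intro x y
  rw [← pol_eq, qf, LinearMap.BilinMap.polar_toQuadraticMap, Matrix.toBilin'_apply',
    Matrix.toBilin'_apply', Matrix.add_mulVec, dotProduct_add]
  congr 1
  rw [Matrix.mulVec_transpose, Matrix.dotProduct_mulVec, dotProduct_comm]

theorem nondeg_qf (Z : Matrix ι ι K) (h : IsUnit (Z + Zᵀ)) :
    (QuadraticMap.polarBilin (qf Z)).Nondegenerate := by
  apply nondeg_of_isUnit
  rw [GG_qf]
  exact h

theorem qf_inv (Z M : Matrix ι ι K) (h : Mᵀ * Z * M = Z) (x : ι → K) :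
    qf Z (M *ᵥ x) = qf Z x := by
  rw [qf_apply, qf_apply]
  conv_rhs => rw [← h]
  rw [← Matrix.mulVec_mulVec, ← Matrix.mulVec_mulVec, Matrix.dotProduct_mulVec x,
    Matrix.vecMul_transpose]

end qf

section
variable {K : Type*} [Field K] {L : Type*} [Field L] [Algebra K L] {r : ℕ} [NeZero r]
  {ι : Type*} [Fintype ι] [DecidableEq ι]

/-- the part without eigenvalue `1`: an invariant nondegenerate quadratic form `xᵀ Z x` -/
theorem exists_quad_of_hasMult [Finite K] (p : ℕ) [Fact p.Prime] [CharP K p] (hr : r.Coprime p)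
    (hodd : Odd r) {ζ : L} (hζ : IsPrimitiveRoot ζ r) {M : Matrix ι ι K} {a : ZMod r → ℕ}
    (h : HasMult ζ M a) (h0 : a 0 = 0) (hneg : ∀ k, a (-k) = a k) :
    ∃ Z : Matrix ι ι K, IsUnit (Z + Zᵀ) ∧ Mᵀ * Z * M = Z := by
  have hr1 : 1 ≤ r := NeZero.one_le
  set M' := M ^ (r - 1) with hM'
  have hMM' : M * M' = 1 := by rw [hM', ← pow_succ', Nat.sub_add_cancel hr1, h.1]
  have hM'M : M' * M = 1 := mul_eq_one_comm.1 hMM'
  have h2 : HasMult ζ M'ᵀ a := by
    have h3 := (h.inv hζ.pow_eq_one hMM').transpose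
    have h4 : (fun k => a (-k)) = a := funext hneg
    rwa [h4] at h3
  obtain ⟨X, hX⟩ := h.conj p hr h2
  have hinv : Mᵀ * X.1 * M = X.1 := by
    rw [Matrix.mul_assoc, hX, ← Matrix.mul_assoc, ← Matrix.transpose_mul, hM'M,
      Matrix.transpose_one, Matrix.one_mul]
  have hrK : (r : K) ≠ 0 := by
    intro h0
    rw [CharP.cast_eq_zero_iff K p] at h0
    have h1 : p ∣ 1 := by
      rw [← hr]
      exact Nat.dvd_gcd h0 dvd_rfl
    exact (Fact.out : p.Prime).one_lt.ne' (Nat.dvd_one.1 h1)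
  set T := M * M with hT
  have hTr : T ^ r = 1 := by rw [hT, (Commute.refl M).mul_pow, h.1, one_mul]
  have hTE : T * EE K r T = EE K r T := mul_EE r T hTr
  have hTj : ∀ j : ℕ, T ^ j * EE K r T = EE K r T := by
    intro j
    induction j with
    | zero => rw [pow_zero, one_mul]
    | succ j ih => rw [pow_succ, mul_assoc, hTE, ih]
  obtain ⟨j, hj⟩ := hodd
  have hMT : T ^ (j + 1) = M := by
    rw [hT, ← pow_two, ← pow_mul]
    have : 2 * (j + 1) = r + 1 := by omega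
    rw [this, pow_succ, h.1, one_mul]
  have hE0 : EE K r T = 0 := by
    have h5 : (1 - M) * EE K r T = 0 := by
      rw [sub_mul, one_mul, ← hMT, hTj, sub_self]
    obtain ⟨w, hw⟩ := (isUnit_one_sub hζ h h0).exists_left_inv
    calc EE K r T = (w * (1 - M)) * EE K r T := by rw [hw, one_mul]
      _ = 0 := by rw [mul_assoc, h5, mul_zero]
  have hv : (M - M') * (M * WW K r T) = 1 := by
    rw [← mul_assoc, sub_mul, hM'M, ← hT, sub_one_mul_WW r hrK T hTr, hE0, sub_zero]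
  have _ : Finite (Matrix ι ι K) := inferInstanceAs (Finite (ι → ι → K))
  obtain ⟨Z, Y', h1, h2⟩ := exists_skew_form (Matrix.transposeAddEquiv ι ι K).toAddMonoidHom
    (fun a b => Matrix.transpose_mul a b) Matrix.transpose_one Matrix.transpose_transpose
    M M' X.1 (X⁻¹ : (Matrix ι ι K)ˣ).1 _ hMM' hM'M (Units.mul_inv X) (Units.inv_mul X) hinv hv
    (fun y hy => hy.mul_right (commute_WW r T y (hy.mul_right hy)))
  change (Z - Zᵀ) * Y' = 1 at h1
  change Mᵀ * Z * M = Z at h2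
  have h3 : Mᵀ * Zᵀ * M = Zᵀ := by
    have := congrArg Matrix.transpose h2
    rwa [Matrix.transpose_mul, Matrix.transpose_mul, Matrix.transpose_transpose,
      ← Matrix.mul_assoc] at this
  have h4 : Mᵀ * Zᵀ = Zᵀ * M' := by
    calc Mᵀ * Zᵀ = Mᵀ * Zᵀ * (M * M') := by rw [hMM', mul_one]
      _ = (Mᵀ * Zᵀ * M) * M' := by simp only [mul_assoc]
      _ = Zᵀ * M' := by rw [h3]
  have hMt : M'ᵀ * Mᵀ = 1 := by rw [← Matrix.transpose_mul, hMM', Matrix.transpose_one]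
  have h5 : M'ᵀ * Zᵀ = Zᵀ * M := by
    calc M'ᵀ * Zᵀ = M'ᵀ * (Mᵀ * Zᵀ * M) := by rw [h3]
      _ = (M'ᵀ * Mᵀ) * Zᵀ * M := by simp only [mul_assoc]
      _ = Zᵀ * M := by rw [hMt, one_mul]
  refine ⟨Z * (M - M'), ?_, ?_⟩
  · have h6 : Z * (M - M') + (Z * (M - M'))ᵀ = (Z - Zᵀ) * (M - M') := by
      rw [Matrix.transpose_mul, Matrix.transpose_sub, sub_mul Mᵀ, h4, h5, sub_mul Z, mul_sub Zᵀ]
      abel
    rw [h6]
    exact (IsUnit.of_mul_eq_one _ h1).mul (IsUnit.of_mul_eq_one _ hv)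
  · have h7 : (M - M') * M = M * (M - M') := by rw [sub_mul, mul_sub, hMM', hM'M]
    calc Mᵀ * (Z * (M - M')) * M = Mᵀ * Z * ((M - M') * M) := by simp only [mul_assoc]
      _ = (Mᵀ * Z * M) * (M - M') := by rw [h7]; simp only [mul_assoc]
      _ = Z * (M - M') := by rw [h2]

end

section transport
variable {K : Type*} [Field K]

theorem nondeg_comp_equiv {V W : Type*} [AddCommGroup V] [Module K V] [AddCommGroup W] [Module K W]
    (Q : QuadraticForm K W) (E : V ≃ₗ[K] W) (h : (QuadraticMap.polarBilin Q).Nondegenerate) :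
    (QuadraticMap.polarBilin (Q.comp E.toLinearMap)).Nondegenerate := by
  rw [Cfsg.Agent.Lib.Helper42Quad.nondeg_iff] at h ⊢
  intro x hx
  have h1 : E x = 0 := by
    apply h
    intro w
    have h2 := hx (E.symm w)
    unfold QuadraticMap.polar at h2 ⊢
    simpa using h2
  simpa using h1

variable {ι : Type} [Fintype ι] [DecidableEq ι]

theorem similar_of_odd [Fintype K] (h2 : (2 : K) ≠ 0) (hodd : Odd (Fintype.card ι))
    (Q₁ Q₂ : QuadraticForm K (ι → K)) (h₁ : (QuadraticMap.polarBilin Q₁).Nondegenerate)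
    (h₂ : (QuadraticMap.polarBilin Q₂).Nondegenerate) :
    ∃ (g : (ι → K) ≃ₗ[K] (ι → K)) (c : K), c ≠ 0 ∧ ∀ v, Q₂ (g v) = c * Q₁ v := by
  let e := Fintype.equivFin ι
  let E : (Fin (Fintype.card ι) → K) ≃ₗ[K] (ι → K) := LinearEquiv.funCongrLeft K K e
  obtain ⟨g, c, hc, hg⟩ := Cfsg.Agent.S0838.result h2 hodd (Q₁.comp E.toLinearMap)
    (Q₂.comp E.toLinearMap) (nondeg_comp_equiv Q₁ E h₁) (nondeg_comp_equiv Q₂ E h₂)
  refine ⟨E.symm.trans (g.trans E), c, hc, fun v => ?_⟩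
  have h3 := hg (E.symm v)
  simpa using h3

/-- transport an isometry along a similarity -/
theorem exists_iso_of_similar (Q Q' : QuadraticForm K (ι → K)) (T : (ι → K) ≃ₗ[K] (ι → K)) (c : K)
    (hT : ∀ v, Q (T v) = c * Q' v) (M M' : Matrix ι ι K) (hMM' : M * M' = 1)
    (hM : ∀ v, Q' (M *ᵥ v) = Q' v) :
    ∃ (g : ↥(Cfsg.isometryGroup K ⇑Q)) (P P' : Matrix ι ι K), P * P' = 1 ∧ P' * P = 1 ∧
      ((g : Matrix.GeneralLinearGroup ι K) : Matrix ι ι K) = P * M * P' := by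
  set P : Matrix ι ι K := LinearMap.toMatrix' T.toLinearMap with hP
  set P' : Matrix ι ι K := LinearMap.toMatrix' T.symm.toLinearMap with hP'
  have hPP' : P * P' = 1 := by
    rw [hP, hP', ← LinearMap.toMatrix'_comp]
    simp
  have hP'P : P' * P = 1 := mul_eq_one_comm.1 hPP'
  have hM'M : M' * M = 1 := mul_eq_one_comm.1 hMM'
  have hPv : ∀ v, P *ᵥ v = T v := fun v => by
    rw [hP, ← Matrix.toLin'_apply, Matrix.toLin'_toMatrix']
    rfl
  let g : Matrix.GeneralLinearGroup ι K :=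
    ⟨P * M * P', P * M' * P',
      by
        calc P * M * P' * (P * M' * P') = P * (M * ((P' * P) * M')) * P' := by
              simp only [mul_assoc]
          _ = 1 := by rw [hP'P, one_mul, hMM', mul_one, hPP'],
      by
        calc P * M' * P' * (P * M * P') = P * (M' * ((P' * P) * M)) * P' := by
              simp only [mul_assoc]
          _ = 1 := by rw [hP'P, one_mul, hM'M, mul_one, hPP']⟩
  refine ⟨⟨g, ?_⟩, P, P', hPP', hP'P, rfl⟩
  rw [Cfsg.Agent.Lib.Helper49Orth.mem_iso]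
  intro v
  change Q ((P * M * P') *ᵥ v) = Q v
  have h1 : v = P *ᵥ (P' *ᵥ v) := by rw [Matrix.mulVec_mulVec, hPP', Matrix.one_mulVec]
  conv_rhs => rw [h1]
  rw [← Matrix.mulVec_mulVec, ← Matrix.mulVec_mulVec, hPv, hPv, hT, hT, hM]

end transport

section main
variable {K : Type*} [Field K] [Fintype K] {L : Type*} [Field L] [Algebra K L] {r : ℕ}
  [Fact r.Prime]

theorem update_facts (u : (ZMod r)ˣ) (a : ZMod r → ℕ)
    (ha : ∀ k, a (u.1 * k) = a k) (hneg : ∀ k, a (-k) = a k) :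
    Function.update a 0 0 0 = 0 ∧ a = Pi.single 0 (a 0) + Function.update a 0 0 ∧
    (∀ k, Function.update a 0 0 (u.1 * k) = Function.update a 0 0 k) ∧
    (∀ k, Function.update a 0 0 (-k) = Function.update a 0 0 k) ∧
    a 0 + ∑ k, Function.update a 0 0 k = ∑ k, a k := by
  classical
  set a' : ZMod r → ℕ := Function.update a 0 0 with ha'
  have ha'0 : a' 0 = 0 := Function.update_self _ _ _
  have ha'ne : ∀ k, k ≠ 0 → a' k = a k := fun k hk => Function.update_of_ne hk _ _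
  have hdec : a = Pi.single 0 (a 0) + a' := by
    funext k
    by_cases hk : k = 0
    · subst hk; rw [Pi.add_apply, Pi.single_eq_same, ha'0, add_zero]
    · rw [Pi.add_apply, Pi.single_eq_of_ne hk, ha'ne k hk, zero_add]
  refine ⟨ha'0, hdec, ?_, ?_, ?_⟩
  · intro k
    by_cases hk : k = 0
    · rw [hk, mul_zero]
    · rw [ha'ne k hk, ha'ne _ (mul_ne_zero u.ne_zero hk), ha]
  · intro k
    by_cases hk : k = 0
    · rw [hk, neg_zero]
    · rw [ha'ne k hk, ha'ne _ (neg_ne_zero.2 hk), hneg]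
  · conv_rhs => rw [hdec]
    simp [Finset.sum_add_distrib]

/-- the part without fixed vectors, with an invariant quadratic form -/
theorem exists_nonfixed (p : ℕ) [Fact p.Prime] [CharP K p] (hr : r.Coprime p) (hodd : Odd r) {ζ : L}
    (hζ : IsPrimitiveRoot ζ r) (Φ : L →+* L) (hΦ : ∀ x, Φ x = x ^ Fintype.card K)
    (u : (ZMod r)ˣ) (hu : ((Fintype.card K : ℕ) : ZMod r) = u) (a : ZMod r → ℕ) (h0 : a 0 = 0)
    (ha : ∀ k, a (u.1 * k) = a k) (hneg : ∀ k, a (-k) = a k) :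
    ∃ M Z : Matrix (Fin (∑ k, a k)) (Fin (∑ k, a k)) K, HasMult ζ M a ∧ IsUnit (Z + Zᵀ) ∧
      Mᵀ * Z * M = Z := by
  obtain ⟨M, hM⟩ := exists_matrix p ζ hζ.pow_eq_one Φ hΦ u hu _ a ha rfl
  obtain ⟨Z, hZ, hinv⟩ := exists_quad_of_hasMult p hr hodd hζ hM h0 hneg
  exact ⟨M, Z, hM, hZ, hinv⟩

/-- adding a fixed space -/
theorem block {ζ : L} {d₀ d : ℕ} {M Z : Matrix (Fin d) (Fin d) K} {a : ZMod r → ℕ}
    (hM : HasMult ζ M a) (hZ : IsUnit (Z + Zᵀ)) (hinv : Mᵀ * Z * M = Z)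
    (Z₀ : Matrix (Fin d₀) (Fin d₀) K) (hZ₀ : IsUnit (Z₀ + Z₀ᵀ)) {ι : Type} [Fintype ι]
    [DecidableEq ι] (e : Fin d₀ ⊕ Fin d ≃ ι) :
    HasMult ζ (Matrix.reindex e e (fromBlocks 1 0 0 M)) (Pi.single 0 d₀ + a) ∧
    IsUnit (Matrix.reindex e e (fromBlocks Z₀ 0 0 Z) + (Matrix.reindex e e (fromBlocks Z₀ 0 0 Z))ᵀ) ∧
    (Matrix.reindex e e (fromBlocks 1 0 0 M))ᵀ * Matrix.reindex e e (fromBlocks Z₀ 0 0 Z) *
      Matrix.reindex e e (fromBlocks 1 0 0 M) = Matrix.reindex e e (fromBlocks Z₀ 0 0 Z) := by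
  have hM2 := hasMult_fromBlocks (κ := Fin d₀) hM
  rw [Fintype.card_fin] at hM2
  refine ⟨hasMult_reindex e hM2, ?_, ?_⟩
  · obtain ⟨W₀, hW₀⟩ := hZ₀.exists_right_inv
    obtain ⟨W, hW⟩ := hZ.exists_right_inv
    have h1 : (fromBlocks Z₀ 0 0 Z + (fromBlocks Z₀ 0 0 Z)ᵀ) * fromBlocks W₀ 0 0 W = 1 := by
      rw [fromBlocks_transpose, fromBlocks_add, fromBlocks_multiply]
      simp [hW₀, hW]
    have h2 : Matrix.reindex e e (fromBlocks Z₀ 0 0 Z) + (Matrix.reindex e e (fromBlocks Z₀ 0 0 Z))ᵀ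
        = Matrix.reindexAlgEquiv K K e (fromBlocks Z₀ 0 0 Z + (fromBlocks Z₀ 0 0 Z)ᵀ) := by
      rw [map_add, Matrix.transpose_reindex]
      rfl
    rw [h2]
    exact (IsUnit.of_mul_eq_one _ h1).map _
  · have h2 : (fromBlocks (1 : Matrix (Fin d₀) (Fin d₀) K) 0 0 M)ᵀ * fromBlocks Z₀ 0 0 Z *
        fromBlocks 1 0 0 M = fromBlocks Z₀ 0 0 Z := by
      rw [fromBlocks_transpose, fromBlocks_multiply, fromBlocks_multiply]
      simp [hinv]
    rw [Matrix.transpose_reindex]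
    have : Matrix.reindex e e (fromBlocks (1 : Matrix (Fin d₀) (Fin d₀) K) 0 0 M)ᵀ *
        Matrix.reindex e e (fromBlocks Z₀ 0 0 Z) * Matrix.reindex e e (fromBlocks 1 0 0 M)
        = Matrix.reindexAlgEquiv K K e ((fromBlocks (1 : Matrix (Fin d₀) (Fin d₀) K) 0 0 M)ᵀ *
          fromBlocks Z₀ 0 0 Z * fromBlocks 1 0 0 M) := by rw [map_mul, map_mul]; rfl
    rw [this, h2]
    rfl

end main

end Cfsg.Agent.Lib.Helper48QuadEx
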