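import Mathlib
import Cfsg.Agent.Lib.Helper48UnipEx
import Cfsg.Agent.Lib.Helper48QuadEx

set_option autoImplicit false
set_option linter.unusedSectionVars false

namespace Cfsg.Agent.Lib.Helper48UnipOrth

open Module Matrix Cfsg.Agent.Lib.Helper48AltCongr Cfsg.Agent.Lib.Helper48AltForm
  Cfsg.Agent.Lib.Helper48RankSeq Cfsg.Agent.Lib.Helper48UnipForm Cfsg.Agent.Lib.Helper48Jordan
  Cfsg.Agent.Lib.Helper48UnipEx Cfsg.Agent.Lib.Helper48RegNil

universe u
variable {F : Type u} [Field F]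

section quadinv
variable {ι κ : Type*} [Fintype ι] [DecidableEq ι] [Fintype κ] [DecidableEq κ]

/-- `A` preserves a quadratic form `xᵀ Z x` with nondegenerate polar form -/
def QuadInv (A : Matrix ι ι F) : Prop :=
  ∃ Z : Matrix ι ι F, IsUnit (Z + Zᵀ) ∧ ∀ x : ι → F, (A *ᵥ x) ⬝ᵥ Z *ᵥ (A *ᵥ x) = x ⬝ᵥ Z *ᵥ x

theorem QuadInv.of_exact {A Z : Matrix ι ι F} (hZ : IsUnit (Z + Zᵀ)) (h : Aᵀ * Z * A = Z) :
    QuadInv A := by
  refine ⟨Z, hZ, fun x => ?_⟩
  conv_rhs => rw [← h]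
  rw [← Matrix.mulVec_mulVec, ← Matrix.mulVec_mulVec, Matrix.dotProduct_mulVec x,
    Matrix.vecMul_transpose]

theorem QuadInv.reindex {A : Matrix ι ι F} (h : QuadInv A) (e : ι ≃ κ) :
    QuadInv (Matrix.reindex e e A) := by
  obtain ⟨Z, h1, h2⟩ := h
  refine ⟨Matrix.reindex e e Z, ?_, ?_⟩
  · have : Matrix.reindex e e Z + (Matrix.reindex e e Z)ᵀ
        = Matrix.reindexAlgEquiv F F e (Z + Zᵀ) := by
      rw [map_add, Matrix.transpose_reindex]
      rfl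
    rw [this]
    exact h1.map _
  · intro x
    have h4 := h2 (x ∘ e)
    simp only [Matrix.reindex_apply, Matrix.submatrix_mulVec_equiv, dotProduct_comp_equiv_symm,
      Equiv.symm_symm]
    have e1 : ((A *ᵥ (x ∘ e)) ∘ e.symm) ∘ e = A *ᵥ (x ∘ e) := by
      funext i
      simp
    rw [e1]
    exact h4

theorem QuadInv.fromBlocks {A : Matrix κ κ F} {B : Matrix ι ι F} (h : QuadInv A) (h' : QuadInv B) :
    QuadInv (fromBlocks A 0 0 B) := by
  obtain ⟨Y, h1, h2⟩ := h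
  obtain ⟨Z, k1, k2⟩ := h'
  refine ⟨Matrix.fromBlocks Y 0 0 Z, ?_, ?_⟩
  · obtain ⟨W₀, hW₀⟩ := h1.exists_right_inv
    obtain ⟨W, hW⟩ := k1.exists_right_inv
    apply IsUnit.of_mul_eq_one (Matrix.fromBlocks W₀ 0 0 W)
    rw [fromBlocks_transpose, fromBlocks_add, fromBlocks_multiply]
    simp [hW₀, hW]
  · intro x
    have key : ∀ y : κ ⊕ ι → F, y ⬝ᵥ (Matrix.fromBlocks Y 0 0 Z) *ᵥ y
        = (y ∘ Sum.inl) ⬝ᵥ Y *ᵥ (y ∘ Sum.inl) + (y ∘ Sum.inr) ⬝ᵥ Z *ᵥ (y ∘ Sum.inr) := by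
      intro y
      rw [Matrix.fromBlocks_mulVec, dotProduct, Fintype.sum_sum_type]
      simp only [Sum.elim_inl, Sum.elim_inr, Matrix.zero_mulVec, add_zero, zero_add]
      rfl
    rw [key, key, Matrix.fromBlocks_mulVec]
    have e1 : (Sum.elim (A *ᵥ (x ∘ Sum.inl) + (0 : Matrix κ ι F) *ᵥ (x ∘ Sum.inr))
        ((0 : Matrix ι κ F) *ᵥ (x ∘ Sum.inl) + B *ᵥ (x ∘ Sum.inr))) ∘ Sum.inl
        = A *ᵥ (x ∘ Sum.inl) := by
      funext i
      simp
    have e2 : (Sum.elim (A *ᵥ (x ∘ Sum.inl) + (0 : Matrix κ ι F) *ᵥ (x ∘ Sum.inr))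
        ((0 : Matrix ι κ F) *ᵥ (x ∘ Sum.inl) + B *ᵥ (x ∘ Sum.inr))) ∘ Sum.inr
        = B *ᵥ (x ∘ Sum.inr) := by
      funext i
      simp
    rw [e1, e2, h2, k2]

theorem quadInv_pair (A A' : Matrix ι ι F) (hA'A : A' * A = 1) :
    QuadInv (fromBlocks A 0 0 A'ᵀ) := by
  have ht : Aᵀ * A'ᵀ = 1 := by rw [← Matrix.transpose_mul, hA'A, Matrix.transpose_one]
  apply QuadInv.of_exact (Z := Matrix.fromBlocks 0 1 0 0)
  · apply IsUnit.of_mul_eq_one (Matrix.fromBlocks 0 1 1 0)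
    rw [fromBlocks_transpose, fromBlocks_add, fromBlocks_multiply]
    simp
  · rw [fromBlocks_transpose, fromBlocks_multiply, fromBlocks_multiply]
    simp [ht]

/-- the invariant forms of a regular unipotent matrix form a "local" space -/
theorem unit_of_sum (J J' X₁ X₂ : Matrix ι ι F) (hJJ' : J * J' = 1)
    (hnil : (J - 1) ^ Fintype.card ι = 0) (hreg : (J - 1).rank = Fintype.card ι - 1)
    (h1 : Jᵀ * X₁ * J = X₁) (h2 : Jᵀ * X₂ * J = X₂) (hu : IsUnit (X₁ + X₂)) :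
    IsUnit X₁ ∨ IsUnit X₂ := by
  by_contra hcon
  push Not at hcon
  obtain ⟨hn1, hn2⟩ := hcon
  have ht1 : J'ᵀ * Jᵀ = 1 := by rw [← Matrix.transpose_mul, hJJ', Matrix.transpose_one]
  have hker : ∀ X : Matrix ι ι F, Jᵀ * X * J = X → ¬ IsUnit X →
      ∀ v, (J - 1) *ᵥ v = 0 → X *ᵥ v = 0 := by
    intro X hX hnu v hv
    have e1 : X * J = J'ᵀ * X := by
      calc X * J = (J'ᵀ * Jᵀ) * X * J := by rw [ht1, one_mul]
        _ = J'ᵀ * (Jᵀ * X * J) := by simp only [mul_assoc]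
        _ = J'ᵀ * X := by rw [hX]
    set W := LinearMap.ker X.mulVecLin with hW
    have hinv : ∀ w ∈ W, J *ᵥ w ∈ W := by
      intro w hw
      rw [hW, LinearMap.mem_ker, Matrix.mulVecLin_apply] at hw ⊢
      rw [Matrix.mulVec_mulVec, e1, ← Matrix.mulVec_mulVec, hw, Matrix.mulVec_zero]
    have hWeq := matrix_invariant_eq_ker J hnil hreg W hinv
    have hpos : 0 < finrank F W := by
      rw [Matrix.isUnit_iff_isUnit_det, isUnit_iff_ne_zero, not_not,
        ← Matrix.exists_mulVec_eq_zero_iff] at hnu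
      obtain ⟨w, hw0, hw⟩ := hnu
      rw [Module.finrank_pos_iff_exists_ne_zero]
      exact ⟨⟨w, by rw [hW, LinearMap.mem_ker]; exact hw⟩, fun h => hw0 (congrArg Subtype.val h)⟩
    have hvW : v ∈ W := by
      rw [hWeq, LinearMap.mem_ker, Matrix.mulVecLin_apply]
      obtain ⟨j, hj⟩ : ∃ j, finrank F W = j + 1 := ⟨finrank F W - 1, by omega⟩
      rw [hj, pow_succ, ← Matrix.mulVec_mulVec, hv, Matrix.mulVec_zero]
    rw [hW, LinearMap.mem_ker] at hvW
    exact hvW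
  have hcard : 0 < Fintype.card ι := by
    rcases Nat.eq_zero_or_pos (Fintype.card ι) with h | h
    · exfalso
      have : IsEmpty ι := Fintype.card_eq_zero_iff.1 h
      exact hn1 ⟨1, Subsingleton.elim _ _⟩
    · exact h
  obtain ⟨v, hv0, hv⟩ : ∃ v : ι → F, v ≠ 0 ∧ (J - 1) *ᵥ v = 0 := by
    rw [Matrix.exists_mulVec_eq_zero_iff]
    have _ : Nonempty ι := Fintype.card_pos_iff.1 hcard
    have h3 : ((J - 1) ^ Fintype.card ι).det = 0 := by
      rw [hnil, Matrix.det_zero]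
    rw [Matrix.det_pow] at h3
    exact pow_eq_zero_iff hcard.ne' |>.1 h3
  have h4 : (X₁ + X₂) *ᵥ v = 0 := by
    rw [Matrix.add_mulVec, hker X₁ h1 hn1 v hv, hker X₂ h2 hn2 v hv, add_zero]
  obtain ⟨w, hw⟩ := hu.exists_left_inv
  have h5 := congrArg (fun x => w *ᵥ x) h4
  simp only [Matrix.mulVec_mulVec, hw, Matrix.one_mulVec, Matrix.mulVec_zero] at h5
  exact hv0 h5

end quadinv

/-- a single Jordan block of odd size, odd characteristic -/
theorem quadInv_odd (h2 : (2 : F) ≠ 0) (n : ℕ) (hn : Odd n) : QuadInv (Cfsg.jordanBlock n F) := by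
  set J := Cfsg.jordanBlock n F with hJ
  have hu : IsUnit J := by
    rw [hJ, jordanBlock_eq]
    exact IsNilpotent.isUnit_one_add ⟨n, shiftM_pow_self n⟩
  obtain ⟨c, hc⟩ := hu
  set J' := c⁻¹.1 with hJ'
  have hJJ' : J * J' = 1 := by rw [← hc]; exact Units.mul_inv c
  have hJ'J : J' * J = 1 := by rw [← hc]; exact Units.inv_mul c
  have h1 : RankSeq J {n} := rankSeq_jordanBlock n
  have hn0 : 0 ∉ ({n} : Multiset ℕ) := by
    rw [Multiset.mem_singleton]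
    obtain ⟨k, hk⟩ := hn
    omega
  obtain ⟨X, hX⟩ := h1.isConj (h1.inv hJJ').transpose hn0
  have hX' : X.1 * J = J'ᵀ * X.1 := hX
  have ht : Jᵀ * J'ᵀ = 1 := by rw [← Matrix.transpose_mul, hJ'J, Matrix.transpose_one]
  have hinv : Jᵀ * X.1 * J = X.1 := by rw [mul_assoc, hX', ← mul_assoc, ht, one_mul]
  have hinvt : Jᵀ * X.1ᵀ * J = X.1ᵀ := by
    have := congrArg Matrix.transpose hinv
    rwa [Matrix.transpose_mul, Matrix.transpose_mul, Matrix.transpose_transpose,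
      ← Matrix.mul_assoc] at this
  have hplus : Jᵀ * (X.1 + X.1ᵀ) * J = X.1 + X.1ᵀ := by rw [mul_add, add_mul, hinv, hinvt]
  have hminus : Jᵀ * (X.1 - X.1ᵀ) * J = X.1 - X.1ᵀ := by rw [mul_sub, sub_mul, hinv, hinvt]
  have hsum : IsUnit ((X.1 + X.1ᵀ) + (X.1 - X.1ᵀ)) := by
    have : (X.1 + X.1ᵀ) + (X.1 - X.1ᵀ) = (2 : F) • X.1 := by rw [two_smul]; abel
    rw [this]
    apply IsUnit.of_mul_eq_one ((2 : F)⁻¹ • X⁻¹.1)
    rw [smul_mul_smul_comm, mul_inv_cancel₀ h2, one_smul, Units.mul_inv]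
  have hnotminus : ¬ IsUnit (X.1 - X.1ᵀ) := by
    intro h
    obtain ⟨W, hW⟩ := h.exists_right_inv
    have := even_card_of_alt _ W hW (alt_sub_transpose X.1)
    rw [Fintype.card_fin] at this
    exact (Nat.not_even_iff_odd.2 hn) this
  have hG := (unit_of_sum J J' _ _ hJJ'
    (by rw [Fintype.card_fin, hJ, jordanBlock_sub_one, shiftM_pow_self])
    (by rw [Fintype.card_fin, hJ, jordanBlock_sub_one, shiftM_rank]) hplus hminus
    hsum).resolve_right hnotminus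
  apply QuadInv.of_exact (Z := X.1)
  · exact hG
  · exact hinv

open Cfsg.Agent.Lib.Helper48QuadEx in
/-- from a matrix with an invariant quadratic form to the statement about isometry groups -/
theorem exists_orth {t n : ℕ} (d : Fin t → ℕ) (hd : ∀ k, 1 ≤ d k) (hsum : ∑ k, d k = n)
    (A : Matrix (Fin n) (Fin n) F) (hA : QuadInv A) (hAs : RankSeq A (Finset.univ.val.map d)) :
    ∃ Q : QuadraticForm F (Fin n → F), (QuadraticMap.polarBilin Q).Nondegenerate ∧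
      ∃ e : ((k : Fin t) × Fin (d k)) ≃ Fin n, ∃ A' : ↥(Cfsg.isometryGroup F ⇑Q),
        IsConj (Matrix.reindex e e (Cfsg.jordanTypeMatrix d F))
          ((A' : Matrix.GeneralLinearGroup (Fin n) F) : Matrix (Fin n) (Fin n) F) := by
  obtain ⟨Z, hZ, hinv⟩ := hA
  have h0 : 0 ∉ Finset.univ.val.map d := by
    intro h
    obtain ⟨k, -, hk⟩ := Multiset.mem_map.1 h
    have := hd k
    omega
  have hu : IsUnit A := by
    have : A = 1 + (A - 1) := by abel
    rw [this]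
    exact IsNilpotent.isUnit_one_add hAs.nilpotent
  obtain ⟨c, hc⟩ := hu
  let e : ((k : Fin t) × Fin (d k)) ≃ Fin n := Fintype.equivOfCardEq (by simp [hsum])
  refine ⟨qf Z, nondeg_qf Z hZ, e, ⟨c, ?_⟩, ?_⟩
  · rw [Cfsg.Agent.Lib.Helper49Orth.mem_iso]
    intro v
    rw [hc, qf_apply, qf_apply, hinv]
  · change IsConj _ c.1
    rw [hc]
    exact ((rankSeq_jordan d).reindex e).isConj hAs h0

end Cfsg.Agent.Lib.Helper48UnipOrth
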