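import Mathlib
import Cfsg.Prelude.Def_GeometricClasses
import Cfsg.Agent.Lib.Helper48UnipOrth
import Cfsg.Agent.Lib.Helper48QuadType
import Cfsg.Agent.Lib.Helper49All
import Cfsg.Agent.Lib.Helper49Forms
import Cfsg.Agent.Lib.Helper49OddForm

set_option autoImplicit false
set_option linter.unusedSectionVars false
open scoped MatrixGroups
open Module Matrix Cfsg
open Cfsg.Agent.Lib.Helper48RankSeq Cfsg.Agent.Lib.Helper48QuadEx Cfsg.Agent.Lib.Helper48QuadType
  Cfsg.Agent.Lib.Helper48UnipOrth Cfsg.Agent.Lib.Helper48Chain3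

/-! Project 94, wave 5, piece U-SPLIT. -/

namespace Cfsg.Agent.Lib.Helper38UniSPLIT

section general

variable {F V : Type*} [Field F] [AddCommGroup V] [Module F V] [FiniteDimensional F V]

theorem finrank_range_restrict_pow (N : End F V) (W : Submodule F V) (hW : ∀ x ∈ W, N x ∈ W) (k : ℕ) :
    finrank F (LinearMap.range ((N.restrict hW) ^ k)) = finrank F ↥(W.map (N ^ k)) := by
  rw [← Submodule.finrank_map_subtype_eq W (LinearMap.range ((N.restrict hW) ^ k))]
  have h1 : (LinearMap.range ((N.restrict hW) ^ k)).map W.subtype = W.map (N ^ k) := by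
    ext v
    rw [Module.End.pow_restrict]
    simp only [Submodule.mem_map, LinearMap.mem_range, Submodule.subtype_apply]
    constructor
    · rintro ⟨_, ⟨y, rfl⟩, rfl⟩
      exact ⟨y, y.2, rfl⟩
    · rintro ⟨y, hy, rfl⟩
      exact ⟨_, ⟨⟨y, hy⟩, rfl⟩, rfl⟩
  rw [h1]

theorem map_pow_le (N : End F V) (W : Submodule F V) (hW : ∀ x ∈ W, N x ∈ W) (k : ℕ) :
    W.map (N ^ k) ≤ W := by
  rintro _ ⟨y, hy, rfl⟩
  induction k with
  | zero => simpa using hy
  | succ k ih =>
    rw [pow_succ', Module.End.mul_apply]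
    exact hW _ ih

theorem finrank_range_pow_add (N : End F V) (W W' : Submodule F V) (hc : IsCompl W W')
    (hW : ∀ x ∈ W, N x ∈ W) (hW' : ∀ x ∈ W', N x ∈ W') (k : ℕ) :
    finrank F (LinearMap.range (N ^ k)) = finrank F ↥(W.map (N ^ k)) + finrank F ↥(W'.map (N ^ k)) := by
  have h1 := Submodule.finrank_sup_add_finrank_inf_eq (W.map (N ^ k)) (W'.map (N ^ k))
  have h2 : W.map (N ^ k) ⊓ W'.map (N ^ k) = ⊥ := by
    rw [eq_bot_iff, ← hc.inf_eq_bot]
    exact inf_le_inf (map_pow_le N W hW k) (map_pow_le N W' hW' k)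
  rw [h2, finrank_bot, add_zero, ← Submodule.map_sup, hc.sup_eq_top, Submodule.map_top] at h1
  exact h1

theorem isNilpotent_restrict (N : End F V) (hN : IsNilpotent N) (W : Submodule F V)
    (hW : ∀ x ∈ W, N x ∈ W) : IsNilpotent (N.restrict hW) := by
  obtain ⟨n, hn⟩ := hN
  refine ⟨n, ?_⟩
  rw [Module.End.pow_restrict]
  ext x
  simp [hn]

end general

variable {F : Type*} [Field F] [Fintype F] {ι : Type} [Fintype ι] [DecidableEq ι]
  (Q : QuadraticForm F (ι → F))

theorem polar_inv (x : GL ι F) (hx : x ∈ Cfsg.isometryGroup F ⇑Q) (a b : ι → F) :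
    QuadraticMap.polar ⇑Q ((x : Matrix ι ι F) *ᵥ a) ((x : Matrix ι ι F) *ᵥ b)
      = QuadraticMap.polar ⇑Q a b := by
  have h := Cfsg.Agent.Lib.Helper49Orth.mem_iso.1 hx
  unfold QuadraticMap.polar
  rw [← Matrix.mulVec_add, h, h, h]

theorem map_eq (x : GL ι F) (W : Submodule F (ι → F))
    (hxW : W.map (Matrix.toLin' (x : Matrix ι ι F)) ≤ W) :
    W.map (Matrix.toLin' (x : Matrix ι ι F)) = W := by
  apply Submodule.eq_of_le_of_finrank_eq hxW
  refine (LinearEquiv.finrank_eq (Submodule.equivMapOfInjective _ ?_ W)).symm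
  intro a b hab
  have h1 : ((x⁻¹ : GL ι F) : Matrix ι ι F) *ᵥ ((x : Matrix ι ι F) *ᵥ a)
      = ((x⁻¹ : GL ι F) : Matrix ι ι F) *ᵥ ((x : Matrix ι ι F) *ᵥ b) := by
    simp only [Matrix.toLin'_apply] at hab
    rw [hab]
  rw [Matrix.mulVec_mulVec, Matrix.mulVec_mulVec, ← Units.val_mul, inv_mul_cancel] at h1
  simpa using h1

/-- the orthogonal complement of an invariant nondegenerate subspace -/
theorem exists_compl (x : GL ι F) (hx : x ∈ Cfsg.isometryGroup F ⇑Q) (W : Submodule F (ι → F))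
    (hW : Cfsg.Geo.IsNondegenerateOn (QuadraticMap.polar ⇑Q) W)
    (hxW : W.map (Matrix.toLin' (x : Matrix ι ι F)) ≤ W) :
    ∃ W' : Submodule F (ι → F), IsCompl W W' ∧
      (∀ w ∈ W, ∀ v ∈ W', QuadraticMap.polar ⇑Q w v = 0) ∧
      W'.map (Matrix.toLin' (x : Matrix ι ι F)) ≤ W' := by
  set B : LinearMap.BilinForm F (ι → F) := QuadraticMap.polarBilin Q with hB
  have hrefl : B.IsRefl := by
    intro a b hab
    show QuadraticMap.polar ⇑Q b a = 0
    rw [QuadraticMap.polar_comm]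
    exact hab
  have hdis : Disjoint W (B.orthogonal W) := by
    rw [disjoint_iff, eq_bot_iff]
    rintro v ⟨hv1, hv2⟩
    by_contra hv0
    obtain ⟨⟨y, hy, hyv⟩, -⟩ := hW v hv1 hv0
    exact hyv ((LinearMap.BilinForm.mem_orthogonal_iff.1 hv2) y hy)
  have hc := B.isCompl_orthogonal_of_restrict_nondegenerate hrefl
    (B.nondegenerate_restrict_of_disjoint_orthogonal hrefl hdis)
  refine ⟨B.orthogonal W, hc, fun w hw v hv => (LinearMap.BilinForm.mem_orthogonal_iff.1 hv) w hw, ?_⟩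
  rintro _ ⟨v, hv, rfl⟩
  rw [LinearMap.BilinForm.mem_orthogonal_iff]
  intro w hw
  rw [← map_eq x W hxW] at hw
  obtain ⟨w₀, hw₀, rfl⟩ := hw
  show QuadraticMap.polar ⇑Q _ _ = 0
  rw [Matrix.toLin'_apply, Matrix.toLin'_apply, polar_inv Q x hx]
  exact (LinearMap.BilinForm.mem_orthogonal_iff.1 hv) w₀ hw₀

theorem sub_one_mem (x : GL ι F) (W : Submodule F (ι → F))
    (hxW : W.map (Matrix.toLin' (x : Matrix ι ι F)) ≤ W) :
    ∀ v ∈ W, Matrix.toLin' ((x : Matrix ι ι F) - 1) v ∈ W := by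
  intro v hv
  rw [map_sub, Matrix.toLin'_one, LinearMap.sub_apply, LinearMap.id_apply]
  exact W.sub_mem (hxW (Submodule.mem_map_of_mem hv)) hv

/-- U-SPLIT -/
theorem exists_sub (x : GL ι F) (hx : x ∈ Cfsg.isometryGroup F ⇑Q) (μ : Multiset ℕ) (h0 : 0 ∉ μ)
    (hμ : RankSeq (x : Matrix ι ι F) μ) (W : Submodule F (ι → F))
    (hW : Cfsg.Geo.IsNondegenerateOn (QuadraticMap.polar ⇑Q) W)
    (hxW : W.map (Matrix.toLin' (x : Matrix ι ι F)) ≤ W) :
    ∃ ν : Multiset ℕ, ν ≤ μ ∧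
      ∀ k, finrank F ↥(W.map ((Matrix.toLin' ((x : Matrix ι ι F) - 1)) ^ k)) = (ν.map (· - k)).sum := by
  obtain ⟨W', hc, -, hxW'⟩ := exists_compl Q x hx W hW hxW
  set N : End F (ι → F) := Matrix.toLin' ((x : Matrix ι ι F) - 1) with hN
  have hNW := sub_one_mem x W hxW
  have hNW' := sub_one_mem x W' hxW'
  have hnil : IsNilpotent N := hμ.nilpotent.map (Matrix.toLinAlgEquiv' (R := F))
  obtain ⟨ν, hν⟩ := exists_type _ (isNilpotent_restrict N hnil W hNW)
  obtain ⟨ν', hν'⟩ := exists_type _ (isNilpotent_restrict N hnil W' hNW')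
  have heq : μ = ν + ν' := by
    apply multiset_eq_of_sums _ _ h0
    · intro h
      rcases Multiset.mem_add.1 h with h | h
      · exact hν.zero_notMem h
      · exact hν'.zero_notMem h
    · intro k
      rw [Multiset.map_add, Multiset.sum_add, ← hν.rank, ← hν'.rank, ← hμ k, ← finrank_range_pow,
        finrank_range_restrict_pow, finrank_range_restrict_pow]
      exact finrank_range_pow_add N W W' hc hNW hNW' k
  refine ⟨ν, by rw [heq]; exact Multiset.le_add_right _ _, fun k => ?_⟩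
  rw [← hν.rank, finrank_range_restrict_pow]

end Cfsg.Agent.Lib.Helper38UniSPLIT
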