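import Mathlib
import Cfsg.Prelude.Def_GeometricClasses
import Cfsg.Agent.Lib.Helper94NdDefs
import Cfsg.Agent.Lib.Helper38UniSPLIT

set_option autoImplicit false
set_option linter.unusedSectionVars false
open Module Cfsg
open Cfsg.Agent.Lib.Helper99Symp Cfsg.Agent.Lib.H90SwDefs Cfsg.Agent.Lib.Helper99SympForm
  Cfsg.Agent.Lib.Helper48RankSeq Cfsg.Agent.Lib.Helper94NdDefs

/-! Project 94, wave 6, piece N-T1. -/

namespace Cfsg.Agent.Lib.Helper38NdT1

variable {F V : Type*} [Field F] [AddCommGroup V] [Module F V] [FiniteDimensional F V]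
  {N : Module.End F V}

/-- N-T1 -/
theorem exists_ty (hN : IsNilpotent N) (W : Submodule F V) (hW : W.map N ≤ W) : ∃ ν, HasTy N W ν := by
  have hW' : ∀ x ∈ W, N x ∈ W := fun x hx => hW (Submodule.mem_map_of_mem hx)
  obtain ⟨ν, hν⟩ := Cfsg.Agent.Lib.Helper48Chain3.exists_type _
    (Cfsg.Agent.Lib.Helper38UniSPLIT.isNilpotent_restrict N hN W hW')
  exact ⟨ν, hν.zero_notMem, fun k => by
    rw [← hν.rank, Cfsg.Agent.Lib.Helper38UniSPLIT.finrank_range_restrict_pow]⟩

/-- N-T1 -/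
theorem HasTy.unique {W : Submodule F V} {ν ν' : Multiset ℕ} (h : HasTy N W ν) (h' : HasTy N W ν') :
    ν = ν' :=
  Cfsg.Agent.Lib.Helper48Chain3.multiset_eq_of_sums _ _ h.1 h'.1 (fun k => by rw [← h.2 k, ← h'.2 k])

/-- N-T1 -/
theorem HasTy.sum {W : Submodule F V} {ν : Multiset ℕ} (h : HasTy N W ν) : ν.sum = finrank F W := by
  have h0 := h.2 0
  rw [pow_zero] at h0
  have e : W.map (1 : Module.End F V) = W := Submodule.map_id W
  rw [e] at h0
  rw [h0]
  simp

end Cfsg.Agent.Lib.Helper38NdT1
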