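import Mathlib
import Cfsg.Prelude.Def_GeometricClasses
import Cfsg.Agent.Lib.Helper94NdDefs
import Cfsg.Agent.Lib.Helper38UniSPLIT

set_option autoImplicit false
set_option linter.unusedSectionVars false
open Module Cfsg
open Cfsg.Agent.Lib.Helper99Symp Cfsg.Agent.Lib.H90SwDefs Cfsg.Agent.Lib.Helper99SympForm
  Cfsg.Agent.Lib.Helper48RankSeq Cfsg.Agent.Lib.Helper94NdDefs

/-! Project 94, wave 6, piece N-T2. -/

namespace Cfsg.Agent.Lib.Helper38NdT2

variable {F V : Type*} [Field F] [AddCommGroup V] [Module F V] [FiniteDimensional F V]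
  {N : Module.End F V}

/-- N-T2 -/
theorem HasTy.add {W W' : Submodule F V} {ν ν' : Multiset ℕ} (hW : W.map N ≤ W) (hW' : W'.map N ≤ W')
    (hd : W ⊓ W' = ⊥) (h : HasTy N W ν) (h' : HasTy N W' ν') : HasTy N (W ⊔ W') (ν + ν') := by
  have hW1 : ∀ x ∈ W, N x ∈ W := fun x hx => hW (Submodule.mem_map_of_mem hx)
  have hW1' : ∀ x ∈ W', N x ∈ W' := fun x hx => hW' (Submodule.mem_map_of_mem hx)
  refine ⟨?_, fun k => ?_⟩
  · intro h0
    rcases Multiset.mem_add.1 h0 with h0 | h0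
    · exact h.1 h0
    · exact h'.1 h0
  · have h1 := Submodule.finrank_sup_add_finrank_inf_eq (W.map (N ^ k)) (W'.map (N ^ k))
    have h2 : W.map (N ^ k) ⊓ W'.map (N ^ k) = ⊥ := by
      rw [eq_bot_iff, ← hd]
      exact inf_le_inf (Cfsg.Agent.Lib.Helper38UniSPLIT.map_pow_le N W hW1 k)
        (Cfsg.Agent.Lib.Helper38UniSPLIT.map_pow_le N W' hW1' k)
    rw [h2, finrank_bot, add_zero, ← Submodule.map_sup] at h1
    rw [h1, h.2 k, h'.2 k, Multiset.map_add, Multiset.sum_add]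

end Cfsg.Agent.Lib.Helper38NdT2
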