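import Mathlib
import Cfsg.Prelude.Def_GeometricClasses
import Cfsg.Agent.Lib.Helper94NdDefs
import Cfsg.Agent.Lib.Helper3NdG1
import Cfsg.Agent.Lib.Helper38NdT1
import Cfsg.Agent.Lib.Helper38NdT2

set_option autoImplicit false
set_option linter.unusedSectionVars false
open Module Cfsg
open Cfsg.Agent.Lib.Helper99Symp Cfsg.Agent.Lib.H90SwDefs Cfsg.Agent.Lib.Helper99SympForm
  Cfsg.Agent.Lib.Helper48RankSeq Cfsg.Agent.Lib.Helper94NdDefs

/-! Project 94, wave 6, piece N-AIND. -/

namespace Cfsg.Agent.Lib.Helper38NdAIND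

variable {F V : Type*} [Field F] [AddCommGroup V] [Module F V] [FiniteDimensional F V]
  {B : LinearMap.BilinForm F V} {g : Module.End F V}

theorem map_sub_one_le {W : Submodule F V} (hW : W.map g ≤ W) : W.map (g - 1) ≤ W := by
  rintro _ ⟨x, hx, rfl⟩
  rw [LinearMap.sub_apply, Module.End.one_apply]
  exact W.sub_mem (hW (Submodule.mem_map_of_mem hx)) hx

theorem good_bot (Q : Submodule F V) : Good B g Q ⊥ := by
  refine ⟨bot_le, by simp, ?_⟩
  intro u hu hu0
  exact absurd ((Submodule.mem_bot F).1 hu) hu0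

/-- N-AIND -/
theorem exists_of_sub (h : Iso B g) (hnil : IsNilpotent (g - 1))
    (hpeel : ∀ Q, Good B g ⊤ Q → Q ≠ ⊥ → ∃ (H : Submodule F V) (e : ℕ), Good B g Q H ∧
      ((Even e ∧ HasTy (g - 1) H {e}) ∨ (Odd e ∧ HasTy (g - 1) H {e, e})))
    (n : ℕ) : ∀ (Q : Submodule F V), finrank F Q = n → Good B g ⊤ Q → ∀ μ ν : Multiset ℕ,
      HasTy (g - 1) Q μ → ν ≤ μ → (∀ a, Odd a → Even (ν.count a)) →
      ∃ W, Good B g Q W ∧ finrank F W = ν.sum := by
  induction n using Nat.strong_induction_on with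
  | _ n ih =>
    intro Q hn hQ μ ν hμ hle hpar
    by_cases hν0 : ν = 0
    · exact ⟨⊥, good_bot Q, by rw [hν0]; simp⟩
    have hQ0 : Q ≠ ⊥ := by
      rintro rfl
      have h1 := Cfsg.Agent.Lib.Helper38NdT1.HasTy.sum hμ
      rw [finrank_bot] at h1
      obtain ⟨a, ha⟩ := Multiset.exists_mem_of_ne_zero hν0
      have ha' : a ∈ μ := Multiset.mem_of_le hle ha
      have h2 : a ≤ μ.sum := Multiset.le_sum_of_mem ha'
      have h3 : a = 0 := by omega
      exact hμ.1 (h3 ▸ ha')
    obtain ⟨H, e, hH, hty⟩ := hpeel Q hQ hQ0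
    obtain ⟨hQ'1, hQ'2, -, hinf, hsup, hfr⟩ := Cfsg.Agent.Lib.Helper3NdG1.Iso.good_perp h hQ hH
    set Q' := perpIn B H Q with hQ'
    obtain ⟨μ', hμ'⟩ := Cfsg.Agent.Lib.Helper38NdT1.exists_ty hnil Q' (map_sub_one_le hQ'2.2.1)
    -- the two generic steps
    have skip : ∀ T : Multiset ℕ, HasTy (g - 1) H T → T ≠ 0 → ν ≤ μ' →
        ∃ W, Good B g Q W ∧ finrank F W = ν.sum := by
      intro T hT hT0 hle'
      have hpos : 0 < finrank F H := by
        rw [← Cfsg.Agent.Lib.Helper38NdT1.HasTy.sum hT]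
        obtain ⟨a, ha⟩ := Multiset.exists_mem_of_ne_zero hT0
        have h2 : a ≤ T.sum := Multiset.le_sum_of_mem ha
        have h3 : a ≠ 0 := fun e0 => hT.1 (e0 ▸ ha)
        omega
      obtain ⟨W, hW, hWf⟩ := ih (finrank F Q') (by omega) Q' rfl hQ'2 μ' ν hμ' hle' hpar
      exact ⟨W, ⟨hW.1.trans hQ'1.1, hW.2.1, hW.2.2⟩, hWf⟩
    have step : ∀ T ν₁ : Multiset ℕ, HasTy (g - 1) H T → T ≠ 0 → ν = T + ν₁ → ν₁ ≤ μ' →
        (∀ a, Odd a → Even (ν₁.count a)) → ∃ W, Good B g Q W ∧ finrank F W = ν.sum := by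
      intro T ν₁ hT hT0 hν hle' hpar'
      have hpos : 0 < finrank F H := by
        rw [← Cfsg.Agent.Lib.Helper38NdT1.HasTy.sum hT]
        obtain ⟨a, ha⟩ := Multiset.exists_mem_of_ne_zero hT0
        have h2 : a ≤ T.sum := Multiset.le_sum_of_mem ha
        have h3 : a ≠ 0 := fun e0 => hT.1 (e0 ▸ ha)
        omega
      obtain ⟨W, hW, hWf⟩ := ih (finrank F Q') (by omega) Q' rfl hQ'2 μ' ν₁ hμ' hle' hpar'
      obtain ⟨h1, h2⟩ := Cfsg.Agent.Lib.Helper3NdG1.Iso.good_sup h hH hW
      refine ⟨H ⊔ W, h1, ?_⟩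
      rw [h2, hWf, hν, Multiset.sum_add, Cfsg.Agent.Lib.Helper38NdT1.HasTy.sum hT]
    have hμeq : ∀ T : Multiset ℕ, HasTy (g - 1) H T → μ = T + μ' := by
      intro T hT
      have h1 := Cfsg.Agent.Lib.Helper38NdT2.HasTy.add (map_sub_one_le hH.2.1)
        (map_sub_one_le hQ'2.2.1) hinf hT hμ'
      rw [hsup] at h1
      exact Cfsg.Agent.Lib.Helper38NdT1.HasTy.unique hμ h1
    rcases hty with ⟨hev, hT⟩ | ⟨hod, hT⟩
    · have hμe := hμeq _ hT
      rw [Multiset.singleton_add] at hμe
      by_cases he : e ∈ ν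
      · obtain ⟨ν₁, rfl⟩ := Multiset.exists_cons_of_mem he
        refine step {e} ν₁ hT (by simp) (by rw [Multiset.singleton_add]) ?_ ?_
        · rw [hμe] at hle
          exact (Multiset.cons_le_cons_iff e).1 hle
        · intro a ha
          have hae : a ≠ e := by
            rintro rfl
            exact (Nat.not_even_iff_odd.2 ha) hev
          have := hpar a ha
          rwa [Multiset.count_cons_of_ne hae] at this
      · refine skip {e} hT (by simp) ?_
        rw [hμe] at hle
        exact (Multiset.le_cons_of_notMem he).1 hle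
    · have hμe := hμeq _ hT
      have e2 : ({e, e} : Multiset ℕ) = e ::ₘ e ::ₘ 0 := rfl
      rw [e2, Multiset.cons_add, Multiset.cons_add, zero_add] at hμe
      by_cases he : e ∈ ν
      · obtain ⟨ν₁, rfl⟩ := Multiset.exists_cons_of_mem he
        have hc := hpar e hod
        rw [Multiset.count_cons_self] at hc
        have he1 : e ∈ ν₁ := by
          rw [← Multiset.count_pos]
          rcases Nat.eq_zero_or_pos (Multiset.count e ν₁) with h0 | h0
          · rw [h0] at hc; exact absurd hc (by decide)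
          · exact h0
        obtain ⟨ν₂, rfl⟩ := Multiset.exists_cons_of_mem he1
        refine step {e, e} ν₂ hT (by simp) (by
          rw [e2, Multiset.cons_add, Multiset.cons_add, zero_add]) ?_ ?_
        · rw [hμe] at hle
          exact (Multiset.cons_le_cons_iff e).1 ((Multiset.cons_le_cons_iff e).1 hle)
        · intro a ha
          have := hpar a ha
          by_cases hae : a = e
          · subst hae
            rw [Multiset.count_cons_self, Multiset.count_cons_self] at this
            have h2 : Multiset.count a ν₂ + 1 + 1 = Multiset.count a ν₂ + 2 := rfl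
            rw [h2] at this
            exact (Nat.even_add.1 this).2 (by decide)
          · rwa [Multiset.count_cons_of_ne hae, Multiset.count_cons_of_ne hae] at this
      · refine skip {e, e} hT (by simp) ?_
        rw [hμe] at hle
        exact (Multiset.le_cons_of_notMem he).1 ((Multiset.le_cons_of_notMem he).1 hle)

end Cfsg.Agent.Lib.Helper38NdAIND
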