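import Mathlib
import Cfsg.Prelude.Def_GeometricClasses
import Cfsg.Agent.Lib.Helper94NdDefs

set_option autoImplicit false
set_option linter.unusedSectionVars false
open Module Cfsg
open Cfsg.Agent.Lib.Helper99Symp Cfsg.Agent.Lib.H90SwDefs Cfsg.Agent.Lib.Helper99SympForm
  Cfsg.Agent.Lib.Helper48RankSeq Cfsg.Agent.Lib.Helper94NdDefs Cfsg.Agent.Lib.Helper7SpFrame

/-! Project 94, wave 6, piece N-CT1. -/

namespace Cfsg.Agent.Lib.Helper38NdCT1

variable {F : Type*} [Field F] {d : ℕ}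

local notation "VV" => (Fin d ⊕ Fin d → F)
local notation "MM" => Matrix (Fin d ⊕ Fin d) (Fin d ⊕ Fin d) F

theorem alt_symp : ∀ v, sympB (F := F) d v v = 0 := fun v => by
  rw [sympB_apply]; exact sympForm_self d v

/-- the family of the `2 j` vectors of a frame -/
def fam {j : ℕ} (ψ : Fin j → VV × VV) : Fin j ⊕ Fin j → VV :=
  Sum.elim (fun k => (ψ k).1) (fun k => (ψ k).2)

theorem spanF_eq {j : ℕ} (ψ : Fin j → VV × VV) : spanF ψ = Submodule.span F (Set.range (fam ψ)) := by
  unfold spanF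
  congr 1
  ext v
  constructor
  · rintro ⟨k, rfl | rfl⟩
    · exact ⟨Sum.inl k, rfl⟩
    · exact ⟨Sum.inr k, rfl⟩
  · rintro ⟨k | k, rfl⟩
    · exact ⟨k, Or.inl rfl⟩
    · exact ⟨k, Or.inr rfl⟩

theorem form_snd {j : ℕ} (ψ : Fin j → VV × VV) (hψ : IsFrame ψ) (c : Fin j ⊕ Fin j → F) (k : Fin j) :
    sympB d (∑ x, c x • fam ψ x) (ψ k).2 = c (Sum.inl k) := by
  classical
  have hB := alt_symp (F := F) (d := d)
  rw [map_sum, LinearMap.sum_apply, Fintype.sum_sum_type]
  have h1 : ∀ i, sympB d (c (Sum.inl i) • fam ψ (Sum.inl i)) (ψ k).2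
      = if i = k then c (Sum.inl k) else 0 := by
    intro i
    rw [map_smul, LinearMap.smul_apply, smul_eq_mul, sympB_apply]
    by_cases hik : i = k
    · subst hik
      rw [if_pos rfl]
      have : Cfsg.sympForm d F (ψ i).1 (ψ i).2 = 1 := hψ.1 i
      show c (Sum.inl i) * Cfsg.sympForm d F (ψ i).1 (ψ i).2 = _
      rw [this, mul_one]
    · rw [if_neg hik]
      have : Cfsg.sympForm d F (ψ i).1 (ψ k).2 = 0 := (hψ.2 i k hik).1.2
      show c (Sum.inl i) * Cfsg.sympForm d F (ψ i).1 (ψ k).2 = _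
      rw [this, mul_zero]
  have h2 : ∀ i, sympB d (c (Sum.inr i) • fam ψ (Sum.inr i)) (ψ k).2 = 0 := by
    intro i
    rw [map_smul, LinearMap.smul_apply, smul_eq_mul]
    by_cases hik : i = k
    · subst hik
      show c (Sum.inr i) * sympB d (ψ i).2 (ψ i).2 = _
      rw [hB, mul_zero]
    · have : Cfsg.sympForm d F (ψ i).2 (ψ k).2 = 0 := (hψ.2 i k hik).2.2
      show c (Sum.inr i) * sympB d (ψ i).2 (ψ k).2 = _
      rw [sympB_apply, this, mul_zero]
  simp only [h1, h2, Finset.sum_const_zero, add_zero, Finset.sum_ite_eq', Finset.mem_univ, if_true]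

theorem form_fst {j : ℕ} (ψ : Fin j → VV × VV) (hψ : IsFrame ψ) (c : Fin j ⊕ Fin j → F) (k : Fin j) :
    sympB d (∑ x, c x • fam ψ x) (ψ k).1 = - c (Sum.inr k) := by
  classical
  have hB := alt_symp (F := F) (d := d)
  rw [map_sum, LinearMap.sum_apply, Fintype.sum_sum_type]
  have h1 : ∀ i, sympB d (c (Sum.inr i) • fam ψ (Sum.inr i)) (ψ k).1
      = if i = k then - c (Sum.inr k) else 0 := by
    intro i
    rw [map_smul, LinearMap.smul_apply, smul_eq_mul]
    by_cases hik : i = k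
    · subst hik
      rw [if_pos rfl]
      have : Cfsg.sympForm d F (ψ i).1 (ψ i).2 = 1 := hψ.1 i
      show c (Sum.inr i) * sympB d (ψ i).2 (ψ i).1 = _
      rw [skew hB, sympB_apply, this, mul_neg, mul_one]
    · rw [if_neg hik]
      have : Cfsg.sympForm d F (ψ i).2 (ψ k).1 = 0 := (hψ.2 i k hik).2.1
      show c (Sum.inr i) * sympB d (ψ i).2 (ψ k).1 = _
      rw [sympB_apply, this, mul_zero]
  have h2 : ∀ i, sympB d (c (Sum.inl i) • fam ψ (Sum.inl i)) (ψ k).1 = 0 := by
    intro i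
    rw [map_smul, LinearMap.smul_apply, smul_eq_mul]
    by_cases hik : i = k
    · subst hik
      show c (Sum.inl i) * sympB d (ψ i).1 (ψ i).1 = _
      rw [hB, mul_zero]
    · have : Cfsg.sympForm d F (ψ i).1 (ψ k).1 = 0 := (hψ.2 i k hik).1.1
      show c (Sum.inl i) * sympB d (ψ i).1 (ψ k).1 = _
      rw [sympB_apply, this, mul_zero]
  simp only [h1, h2, Finset.sum_const_zero, zero_add, Finset.sum_ite_eq', Finset.mem_univ, if_true]

/-- N-CT1 -/
theorem frame_span {j : ℕ} (ψ : Fin j → VV × VV) (hψ : Cfsg.Agent.Lib.Helper7SpFrame.IsFrame ψ) :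
    finrank F ↥(spanF ψ) = 2 * j ∧ NondegOn (sympB d) (spanF ψ) := by
  constructor
  · have hli : LinearIndependent F (fam ψ) := by
      rw [Fintype.linearIndependent_iff]
      intro c hc x
      rcases x with k | k
      · rw [← form_snd ψ hψ c k, hc]; simp
      · have := form_fst ψ hψ c k
        rw [hc] at this
        simpa using this.symm
    rw [spanF_eq, finrank_span_eq_card hli, Fintype.card_sum, Fintype.card_fin, two_mul]
  · intro u hu hu0
    have hu' := hu
    rw [spanF_eq, Submodule.mem_span_range_iff_exists_fun] at hu'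
    obtain ⟨c, rfl⟩ := hu'
    have hc : ∃ x, c x ≠ 0 := by
      by_contra hcon
      push Not at hcon
      apply hu0
      simp [hcon]
    obtain ⟨x, hx⟩ := hc
    rcases x with k | k
    · refine ⟨(ψ k).2, Submodule.subset_span ⟨k, Or.inr rfl⟩, ?_⟩
      rw [form_snd ψ hψ c k]
      exact hx
    · refine ⟨(ψ k).1, Submodule.subset_span ⟨k, Or.inl rfl⟩, ?_⟩
      rw [form_fst ψ hψ c k]
      exact neg_ne_zero.2 hx

end Cfsg.Agent.Lib.Helper38NdCT1
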