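import Mathlib
import Cfsg.Prelude.Def_GeometricClasses
import Cfsg.Agent.Lib.Helper94NdDefs
import Cfsg.Agent.Lib.H90SwP12
import Cfsg.Agent.Lib.H90SwC1a
import Cfsg.Agent.Lib.H90SwMat

set_option autoImplicit false
set_option linter.unusedSectionVars false
open Module Cfsg
open Cfsg.Agent.Lib.Helper99Symp Cfsg.Agent.Lib.H90SwDefs Cfsg.Agent.Lib.Helper99SympForm
  Cfsg.Agent.Lib.Helper48RankSeq Cfsg.Agent.Lib.Helper94NdDefs Cfsg.Agent.Lib.Helper7SpFrame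
  Cfsg.Agent.Lib.H90SwC1a

/-! Project 94, wave 6, piece N-CTTR. -/

namespace Cfsg.Agent.Lib.Helper38NdCTTR

variable {F : Type*} [Field F] {d : ℕ}

local notation "VV" => (Fin d ⊕ Fin d → F)
local notation "MM" => Matrix (Fin d ⊕ Fin d) (Fin d ⊕ Fin d) F

theorem alt_symp : ∀ v, sympB (F := F) d v v = 0 := fun v => by
  rw [sympB_apply]; exact sympForm_self d v

/-- a full frame whose first `j` pairs span `W` -/
theorem exists_full_frame (j : ℕ) (W : Submodule F VV) (hW : NondegOn (sympB d) W)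
    (hf : finrank F W = 2 * j) :
    ∃ φ : Fin d → VV × VV, IsFrame φ ∧
      W = Submodule.span F {v | ∃ k : Fin d, k.val < j ∧ (v = (φ k).1 ∨ v = (φ k).2)} := by
  have hB := alt_symp (F := F) (d := d)
  have hjd : j ≤ d := by
    have h1 := Submodule.finrank_le W
    rw [hf, Module.finrank_fintype_fun_eq_card, Fintype.card_sum, Fintype.card_fin] at h1
    omega
  set W' := perpIn (sympB d) W ⊤ with hW'
  have hW'n : NondegOn (sympB d) W' :=
    H90SwP12.perpIn_nondeg hB le_top hW Cfsg.Agent.Lib.H90SwMat.nondegOn_top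
  have hW'f : finrank F W' = 2 * (d - j) := by
    have h1 := H90SwP12.finrank_perpIn hB (le_top : W ≤ ⊤) hW
    rw [finrank_top, Module.finrank_fintype_fun_eq_card, Fintype.card_sum, Fintype.card_fin, hf] at h1
    rw [← hW'] at h1
    omega
  obtain ⟨ψ, hψ, hWψ⟩ := exists_frame_of_nondeg j W (by
    intro u hu hu0
    obtain ⟨v, hv, huv⟩ := hW u hu hu0
    exact ⟨v, hv, by rw [← sympB_apply]; exact huv⟩) hf
  obtain ⟨χ, hχ, hWχ⟩ := exists_frame_of_nondeg (d - j) W' (by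
    intro u hu hu0
    obtain ⟨v, hv, huv⟩ := hW'n u hu hu0
    exact ⟨v, hv, by rw [← sympB_apply]; exact huv⟩) hW'f
  have hψW : ∀ k, (ψ k).1 ∈ W ∧ (ψ k).2 ∈ W := by
    intro k
    rw [hWψ]
    exact ⟨Submodule.subset_span ⟨k, Or.inl rfl⟩, Submodule.subset_span ⟨k, Or.inr rfl⟩⟩
  have hχW : ∀ k, (χ k).1 ∈ W' ∧ (χ k).2 ∈ W' := by
    intro k
    rw [hWχ]
    exact ⟨Submodule.subset_span ⟨k, Or.inl rfl⟩, Submodule.subset_span ⟨k, Or.inr rfl⟩⟩
  have ho1 : ∀ u ∈ W', ∀ w ∈ W, Cfsg.sympForm d F u w = 0 := by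
    intro u hu w hw
    rw [← sympB_apply]
    exact hu.2 w hw
  have ho2 : ∀ w ∈ W, ∀ u ∈ W', Cfsg.sympForm d F w u = 0 := by
    intro w hw u hu
    rw [← sympB_apply, skew hB, hu.2 w hw, neg_zero]
  let φ : Fin d → VV × VV := fun k =>
    if h : k.val < j then ψ ⟨k.val, h⟩ else χ ⟨k.val - j, by have := k.2; omega⟩
  have hφ1 : ∀ (k : Fin d) (h : k.val < j), φ k = ψ ⟨k.val, h⟩ := fun k h => dif_pos h
  have hφ2 : ∀ (k : Fin d) (h : ¬ k.val < j), φ k = χ ⟨k.val - j, by have := k.2; omega⟩ :=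
    fun k h => dif_neg h
  refine ⟨φ, ⟨?_, ?_⟩, ?_⟩
  · intro i
    by_cases h : i.val < j
    · rw [hφ1 i h]; exact hψ.1 _
    · rw [hφ2 i h]; exact hχ.1 _
  · intro i i' hii
    have hval : i.val ≠ i'.val := fun e => hii (Fin.ext e)
    by_cases h : i.val < j
    · by_cases h' : i'.val < j
      · rw [hφ1 i h, hφ1 i' h']
        refine hψ.2 _ _ (fun e => hval ?_)
        have := Fin.ext_iff.1 e
        simpa using this
      · rw [hφ1 i h, hφ2 i' h']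
        exact ⟨⟨ho2 _ (hψW _).1 _ (hχW _).1, ho2 _ (hψW _).1 _ (hχW _).2⟩,
          ⟨ho2 _ (hψW _).2 _ (hχW _).1, ho2 _ (hψW _).2 _ (hχW _).2⟩⟩
    · by_cases h' : i'.val < j
      · rw [hφ2 i h, hφ1 i' h']
        exact ⟨⟨ho1 _ (hχW _).1 _ (hψW _).1, ho1 _ (hχW _).1 _ (hψW _).2⟩,
          ⟨ho1 _ (hχW _).2 _ (hψW _).1, ho1 _ (hχW _).2 _ (hψW _).2⟩⟩
      · rw [hφ2 i h, hφ2 i' h']
        refine hχ.2 _ _ (fun e => hval ?_)
        have := Fin.ext_iff.1 e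
        simp only at this
        omega
  · conv_lhs => rw [hWψ]
    congr 1
    ext v
    constructor
    · rintro ⟨k, hk⟩
      refine ⟨⟨k.val, by have := k.2; omega⟩, k.2, ?_⟩
      rw [hφ1 ⟨k.val, by have := k.2; omega⟩ k.2]
      exact hk
    · rintro ⟨k, hk, hv⟩
      rw [hφ1 k hk] at hv
      exact ⟨_, hv⟩

/-- N-CTTR -/
theorem nd_trans (j : ℕ) (W W' : Submodule F VV) (hW : NondegOn (sympB d) W)
    (hW' : NondegOn (sympB d) W') (hf : finrank F W = 2 * j) (hf' : finrank F W' = 2 * j) :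
    ∃ A : Matrix.symplecticGroup (Fin d) F, W.map (Matrix.toLin' (A : MM)) = W' := by
  obtain ⟨φ, hφ, hDφ⟩ := exists_full_frame j W hW hf
  obtain ⟨φ', hφ', hDφ'⟩ := exists_full_frame j W' hW' hf'
  let M : Matrix.symplecticGroup (Fin d) F := ⟨matOf φ, matOf_mem φ hφ⟩
  let M' : Matrix.symplecticGroup (Fin d) F := ⟨matOf φ', matOf_mem φ' hφ'⟩
  have hinv : ((M⁻¹ : Matrix.symplecticGroup (Fin d) F) : MM) * matOf φ = 1 := by
    have := congrArg Subtype.val (inv_mul_cancel M)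
    exact this
  have hcoe : ((M' * M⁻¹ : Matrix.symplecticGroup (Fin d) F) : MM)
      = matOf φ' * ((M⁻¹ : Matrix.symplecticGroup (Fin d) F) : MM) := rfl
  have h1 : ∀ i, Matrix.toLin' ((M' * M⁻¹ : Matrix.symplecticGroup (Fin d) F) : MM)
      (φ i).1 = (φ' i).1 := by
    intro i
    rw [Matrix.toLin'_apply, hcoe, ← matOf_inr φ i, Matrix.mulVec_mulVec, Matrix.mul_assoc, hinv,
      Matrix.mul_one, matOf_inr]
  have h2 : ∀ i, Matrix.toLin' ((M' * M⁻¹ : Matrix.symplecticGroup (Fin d) F) : MM)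
      (φ i).2 = (φ' i).2 := by
    intro i
    rw [Matrix.toLin'_apply, hcoe, ← matOf_inl φ i, Matrix.mulVec_mulVec, Matrix.mul_assoc, hinv,
      Matrix.mul_one, matOf_inl]
  refine ⟨M' * M⁻¹, ?_⟩
  rw [hDφ, hDφ', Submodule.map_span]
  congr 1
  ext v
  constructor
  · rintro ⟨w, ⟨k, hk, rfl | rfl⟩, rfl⟩
    · exact ⟨k, hk, Or.inl (h1 _)⟩
    · exact ⟨k, hk, Or.inr (h2 _)⟩
  · rintro ⟨k, hk, rfl | rfl⟩
    · exact ⟨_, ⟨k, hk, Or.inl rfl⟩, h1 _⟩
    · exact ⟨_, ⟨k, hk, Or.inr rfl⟩, h2 _⟩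

end Cfsg.Agent.Lib.Helper38NdCTTR
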