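import Mathlib
import Cfsg.Prelude.Def_GeometricClasses
import Cfsg.Agent.Lib.Helper94NdDefs
import Cfsg.Agent.Lib.Helper38NdCT1
import Cfsg.Agent.Lib.Helper38NdCTTR

set_option autoImplicit false
set_option linter.unusedSectionVars false
open Module Cfsg
open Cfsg.Agent.Lib.Helper99Symp Cfsg.Agent.Lib.H90SwDefs Cfsg.Agent.Lib.Helper99SympForm
  Cfsg.Agent.Lib.Helper48RankSeq Cfsg.Agent.Lib.Helper94NdDefs Cfsg.Agent.Lib.Helper7SpFrame

/-! Project 94, wave 6, piece N-CTSUM. -/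

namespace Cfsg.Agent.Lib.Helper38NdCTSUM

variable {F : Type*} [Field F] {d : ℕ}

local notation "VV" => (Fin d ⊕ Fin d → F)
local notation "MM" => Matrix (Fin d ⊕ Fin d) (Fin d ⊕ Fin d) F

theorem spanF_map (A : MM) {j : ℕ} (ψ : Fin j → VV × VV) :
    spanF (fun i => (A.mulVec (ψ i).1, A.mulVec (ψ i).2)) = (spanF ψ).map (Matrix.toLin' A) := by
  unfold spanF
  rw [Submodule.map_span]
  congr 1
  ext v
  constructor
  · rintro ⟨k, rfl | rfl⟩
    · exact ⟨_, ⟨k, Or.inl rfl⟩, by rw [Matrix.toLin'_apply]⟩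
    · exact ⟨_, ⟨k, Or.inr rfl⟩, by rw [Matrix.toLin'_apply]⟩
  · rintro ⟨w, ⟨k, rfl | rfl⟩, rfl⟩
    · exact ⟨k, Or.inl (by rw [Matrix.toLin'_apply])⟩
    · exact ⟨k, Or.inr (by rw [Matrix.toLin'_apply])⟩

theorem mulVec_inj (A : Matrix.symplecticGroup (Fin d) F) : Function.Injective (A : MM).mulVec := by
  intro a b hab
  have hinv : ((A⁻¹ : Matrix.symplecticGroup (Fin d) F) : MM) * (A : MM) = 1 :=
    congrArg Subtype.val (inv_mul_cancel A)
  have h1 := congrArg ((A⁻¹ : Matrix.symplecticGroup (Fin d) F) : MM).mulVec hab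
  rwa [Matrix.mulVec_mulVec, Matrix.mulVec_mulVec, hinv, Matrix.one_mulVec, Matrix.one_mulVec] at h1

/-- N-CTSUM -/
theorem card_frames_eq [Fintype F] (j : ℕ) :
    ∃ s : ℕ, Nat.card {ψ : Fin j → VV × VV // Cfsg.Agent.Lib.Helper7SpFrame.IsFrame ψ}
      = Nat.card {W : Submodule F VV // finrank F ↥W = 2 * j ∧ NondegOn (sympB d) W} * s := by
  classical
  have hfinS : Finite (Submodule F VV) :=
    Finite.of_injective (fun W : Submodule F VV => (W : Set VV)) SetLike.coe_injective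
  let X := {ψ : Fin j → VV × VV // Cfsg.Agent.Lib.Helper7SpFrame.IsFrame ψ}
  let Y := {W : Submodule F VV // finrank F ↥W = 2 * j ∧ NondegOn (sympB d) W}
  let π : X → Y := fun ψ => ⟨spanF ψ.1, Cfsg.Agent.Lib.Helper38NdCT1.frame_span ψ.1 ψ.2⟩
  have hle : ∀ W W' : Y, Nat.card {x : X // π x = W} ≤ Nat.card {x : X // π x = W'} := by
    intro W W'
    obtain ⟨A, hA⟩ := Cfsg.Agent.Lib.Helper38NdCTTR.nd_trans j W.1 W'.1 W.2.2 W'.2.2 W.2.1 W'.2.1
    let f : {x : X // π x = W} → {x : X // π x = W'} := fun x =>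
      ⟨⟨fun i => ((A : MM).mulVec (x.1.1 i).1, (A : MM).mulVec (x.1.1 i).2), isFrame_map A x.1.2⟩, by
        apply Subtype.ext
        show spanF _ = W'.1
        rw [spanF_map, ← hA]
        have := congrArg Subtype.val x.2
        exact congrArg (fun U => Submodule.map (Matrix.toLin' (A : MM)) U) this⟩
    apply Nat.card_le_card_of_injective f
    intro x y hxy
    apply Subtype.ext
    apply Subtype.ext
    funext i
    have h1 := congrFun (congrArg (fun z : {x : X // π x = W'} => z.1.1) hxy) i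
    simp only [f] at h1
    have h2 := congrArg Prod.fst h1
    have h3 := congrArg Prod.snd h1
    exact Prod.ext (mulVec_inj A h2) (mulVec_inj A h3)
  have hFY : Fintype Y := Fintype.ofFinite Y
  have hsum : Nat.card X = ∑ W : Y, Nat.card {x : X // π x = W} := by
    rw [← Nat.card_sigma]
    exact (Nat.card_congr (Equiv.sigmaFiberEquiv π)).symm
  by_cases hY : Nonempty Y
  · obtain ⟨W₀⟩ := hY
    refine ⟨Nat.card {x : X // π x = W₀}, ?_⟩
    show Nat.card X = Nat.card Y * _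
    rw [hsum, Finset.sum_congr rfl (fun W _ => le_antisymm (hle W W₀) (hle W₀ W)), Finset.sum_const,
      smul_eq_mul, Finset.card_univ, Nat.card_eq_fintype_card (α := Y)]
  · refine ⟨0, ?_⟩
    show Nat.card X = Nat.card Y * 0
    rw [mul_zero, hsum]
    have : IsEmpty Y := not_nonempty_iff.1 hY
    simp

end Cfsg.Agent.Lib.Helper38NdCTSUM
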