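import Mathlib
import Cfsg.Prelude.Def_GeometricClasses
import Cfsg.Agent.Lib.Helper94NdDefs

set_option autoImplicit false
set_option linter.unusedSectionVars false
open Module Cfsg
open Cfsg.Agent.Lib.Helper99Symp Cfsg.Agent.Lib.H90SwDefs Cfsg.Agent.Lib.Helper99SympForm
  Cfsg.Agent.Lib.Helper48RankSeq Cfsg.Agent.Lib.Helper94NdDefs

/-! Project 94, wave 6, piece N-MEM. -/

namespace Cfsg.Agent.Lib.Helper38NdMEM

variable {F : Type*} [Field F] {d : ℕ}

local notation "VV" => (Fin d ⊕ Fin d → F)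
local notation "MM" => Matrix (Fin d ⊕ Fin d) (Fin d ⊕ Fin d) F

/-- N-MEM -/
theorem pow_eq_one_of_rankSeq (p : ℕ) [Fact p.Prime] [CharP F p]
    (x : Matrix.symplecticGroup (Fin d) F) (μ : Multiset ℕ) (hμ : RankSeq (x : MM) μ)
    (hp : ∀ e ∈ μ, e ≤ p) (e : ℕ) (he : e ∈ μ) (he2 : 2 ≤ e) :
    x ^ p = 1 ∧ ∀ z : F, (x : MM) ≠ z • (1 : MM) := by
  have hpp : p.Prime := Fact.out
  have hne : Nonempty (Fin d ⊕ Fin d) := by
    have h1 := hμ.card
    have h3 : e ≤ μ.sum := Multiset.le_sum_of_mem he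
    exact Fintype.card_pos_iff.1 (by omega)
  have h0 : ((x : MM) - 1) ^ p = 0 := by
    apply eq_zero_of_rank
    rw [hμ p]
    apply Multiset.sum_eq_zero
    intro a ha
    obtain ⟨b, hb, rfl⟩ := Multiset.mem_map.1 ha
    exact Nat.sub_eq_zero_of_le (hp b hb)
  have hxp : (x : MM) ^ p = 1 := by
    have h1 := sub_pow_char_of_commute (p := p) (Commute.one_right (x : MM))
    rw [h0, one_pow] at h1
    exact (sub_eq_zero.1 h1.symm)
  have hxp' : x ^ p = 1 := by
    apply Subtype.ext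
    rw [SubmonoidClass.coe_pow, hxp]; rfl
  refine ⟨hxp', ?_⟩
  intro z hz
  have h1 : (x : MM) - 1 = (z - 1) • (1 : MM) := by
    rw [hz, sub_smul, one_smul]
  have h3 : (z - 1) ^ p = 0 := by
    rw [h1, smul_pow, one_pow] at h0
    obtain ⟨i⟩ := hne
    have := congrFun (congrFun h0 i) i
    simpa using this
  have h4 : z - 1 = 0 := pow_eq_zero_iff hpp.ne_zero |>.1 h3
  have h5 := hμ 1
  rw [h1, h4, zero_smul, pow_one, Matrix.rank_zero] at h5
  have h6 : e - 1 ≤ (μ.map (· - 1)).sum := by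
    apply Multiset.le_sum_of_mem
    exact Multiset.mem_map.2 ⟨e, he, rfl⟩
  omega

end Cfsg.Agent.Lib.Helper38NdMEM
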