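import Mathlib
import Cfsg.Prelude.Def_GeometricClasses
import Cfsg.Agent.Lib.Helper94NdDefs
import Cfsg.Agent.Lib.Helper48UnipEx

set_option autoImplicit false
set_option linter.unusedSectionVars false
open Module Cfsg
open Cfsg.Agent.Lib.Helper99Symp Cfsg.Agent.Lib.H90SwDefs Cfsg.Agent.Lib.Helper99SympForm
  Cfsg.Agent.Lib.Helper48RankSeq Cfsg.Agent.Lib.Helper94NdDefs
open Matrix Cfsg.Agent.Lib.Helper48UnipForm Cfsg.Agent.Lib.Helper48UnipEx Cfsg.Agent.Lib.Helper48AltForm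

/-! Project 94, wave 6, piece N-REAL (the construction of helper48's S2582). -/

namespace Cfsg.Agent.Lib.Helper38NdREAL

variable {F : Type*} [Field F] {d : ℕ}

local notation "VV" => (Fin d ⊕ Fin d → F)
local notation "MM" => Matrix (Fin d ⊕ Fin d) (Fin d ⊕ Fin d) F

/-- N-REAL -/
theorem exists_sp_of_type [Fintype F] (μ : Multiset ℕ) (h0 : 0 ∉ μ)
    (hodd : ∀ a, Odd a → Even (μ.count a)) (hsum : μ.sum = 2 * d) :
    ∃ x : Matrix.symplecticGroup (Fin d) F, RankSeq (x : MM) μ := by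
  obtain ⟨n, A, hAalt, hAs⟩ := exists_of_blocks (F := F) (fun n A => AltInv A)
    ⟨1, 1, Subsingleton.elim _ _, fun x => by simp, Subsingleton.elim _ _⟩
    (fun n n' A B hA hB => (hA.fromBlocks hB).reindex _) Even
    (fun j hj hj1 => by
      obtain ⟨k, rfl⟩ := hj
      refine ⟨k + k, Matrix.reindex finSumFinEquiv finSumFinEquiv (UU k F),
        (altInv_UU k).reindex _, ?_⟩
      have h1 := (UU_rankSeq (F := F) k (by omega)).reindex (finSumFinEquiv (m := k) (n := k))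
      rwa [two_mul] at h1)
    (fun j hj1 => by
      obtain ⟨A, A', h1, h2, h3⟩ := exists_pair (F := F) j
      exact ⟨j + j, _, (altInv_pair A A' h1 h2).reindex finSumFinEquiv, h3.reindex _⟩)
    μ h0 (fun j hj => hodd j (Nat.not_even_iff_odd.1 hj))
  have hn : n = 2 * d := by
    have := hAs.card
    rwa [Fintype.card_fin, hsum] at this
  let e₁ : Fin n ≃ Fin d ⊕ Fin d := Fintype.equivOfCardEq (by simp [hn, two_mul])
  obtain ⟨Y, Y', hYY', halt, hinv⟩ := hAalt.reindex e₁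
  obtain ⟨Q, Q', hQQ', hQ'Q, hQ⟩ := conj_into_Sp _ Y Y' hYY' halt hinv
  exact ⟨⟨_, hQ⟩, (hAs.reindex e₁).conj_units Q Q' hQQ' hQ'Q⟩

end Cfsg.Agent.Lib.Helper38NdREAL
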