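import Mathlib
import Cfsg.Prelude.Def_GeometricClasses
import Cfsg.Agent.Lib.Helper94NdDefs
import Cfsg.Agent.Lib.Helper38UniSPLIT
import Cfsg.Agent.Lib.Helper48UnipForm
import Cfsg.Agent.Lib.Helper48UnipEx

set_option autoImplicit false
set_option linter.unusedSectionVars false
open Module Cfsg
open Cfsg.Agent.Lib.Helper99Symp Cfsg.Agent.Lib.H90SwDefs Cfsg.Agent.Lib.Helper99SympForm
  Cfsg.Agent.Lib.Helper48RankSeq Cfsg.Agent.Lib.Helper94NdDefs Cfsg.Agent.Lib.Helper38UniSPLIT
  Cfsg.Agent.Lib.Helper48UnipForm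

/-! Project 94, wave 6, piece N-T4. -/

namespace Cfsg.Agent.Lib.Helper38NdT4

variable {F V : Type*} [Field F] [AddCommGroup V] [Module F V] [FiniteDimensional F V]
  {B : LinearMap.BilinForm F V} {g : Module.End F V}

theorem even_finrank (h : Iso B g) (hnil : IsNilpotent (g - 1)) {W : Submodule F V}
    (hW : Good B g ⊤ W) (k : ℕ) : Even (finrank F ↥(W.map ((g - 1) ^ (2 * k)))) := by
  set N : End F V := g - 1 with hN
  have hNW : ∀ x ∈ W, N x ∈ W := by
    intro x hx
    rw [hN, LinearMap.sub_apply, Module.End.one_apply]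
    exact W.sub_mem (hW.2.1 (Submodule.mem_map_of_mem hx)) hx
  have hnilW := isNilpotent_restrict N hnil W hNW
  set NW : End F W := N.restrict hNW with hNWdef
  set b := Module.finBasis F W with hb
  set E := LinearMap.toMatrixAlgEquiv b with hE
  set A : Matrix (Fin (finrank F W)) (Fin (finrank F W)) F := E (1 + NW) with hA
  set Y : Matrix (Fin (finrank F W)) (Fin (finrank F W)) F :=
    LinearMap.BilinForm.toMatrix b (B.restrict W) with hY
  have hA1 : A - 1 = E NW := by
    rw [hA, map_add, map_one]; abel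
  have hAnil : IsNilpotent (A - 1) := by
    rw [hA1]; exact hnilW.map E
  have hAu : IsUnit A := by
    have h1 : A = 1 + (A - 1) := by abel
    rw [h1]
    exact hAnil.isUnit_one_add
  obtain ⟨u, hu⟩ := hAu
  have halt : B.IsAlt := h.alt
  have hrefl : B.IsRefl := halt.isRefl
  have hdis : Disjoint W (B.orthogonal W) := by
    rw [disjoint_iff, eq_bot_iff]
    rintro v ⟨hv1, hv2⟩
    by_contra hv0
    obtain ⟨y, hy, hyv⟩ := hW.2.2 v hv1 hv0
    exact hyv (hrefl _ _ ((LinearMap.BilinForm.mem_orthogonal_iff.1 hv2) y hy))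
  have hnd := B.nondegenerate_restrict_of_disjoint_orthogonal hrefl hdis
  have hYu : IsUnit Y := by
    rw [Matrix.isUnit_iff_isUnit_det, isUnit_iff_ne_zero, ← Matrix.nondegenerate_iff_det_ne_zero, hY,
      LinearMap.BilinForm.nondegenerate_toMatrix_iff]
    exact hnd
  obtain ⟨Yu, hYu⟩ := hYu
  have hYalt : ∀ x : Fin (finrank F W) → F, x ⬝ᵥ Y.mulVec x = 0 := by
    intro x
    have h1 : Matrix.toBilin b Y = B.restrict W := by
      rw [hY]; exact Matrix.toBilin_toMatrix b _
    have h2 : Matrix.toBilin b Y (b.equivFun.symm x) (b.equivFun.symm x) = x ⬝ᵥ Y.mulVec x := by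
      rw [Matrix.toBilin_apply]
      simp only [Basis.equivFun_symm_apply, dotProduct, Matrix.mulVec, Finset.mul_sum]
      have e : ∀ i, b.repr (∑ j, x j • b j) i = x i := by
        intro i
        exact congrFun (b.repr_sum_self x) i
      simp only [e]
      refine Finset.sum_congr rfl fun i _ => Finset.sum_congr rfl fun j _ => ?_
      ring
    rw [← h2, h1]
    exact h.alt _
  have hinv : A.transpose * Y * A = Y := by
    have h1 : (B.restrict W).comp (1 + NW) (1 + NW) = B.restrict W := by
      ext v w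
      have e1 : ∀ v : W, (((1 + NW : End F W) v : W) : V) = g (v : V) := by
        intro v
        simp only [LinearMap.add_apply, Module.End.one_apply, Submodule.coe_add, hNWdef,
          LinearMap.coe_restrict_apply, hN, LinearMap.sub_apply]
        abel
      show B (((1 + NW : End F W) v : W) : V) (((1 + NW : End F W) w : W) : V) = B (v : V) (w : V)
      rw [e1, e1, h.pres]
    have h3 := LinearMap.BilinForm.toMatrix_comp b b (B.restrict W) (1 + NW) (1 + NW)
    rw [h1] at h3
    exact h3.symm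
  have hev := even_rank_alt A (u⁻¹ : (Matrix _ _ F)ˣ).1 Y (Yu⁻¹ : (Matrix _ _ F)ˣ).1
    (by rw [← hu, Units.mul_inv]) (by rw [← hYu, Units.mul_inv]) hinv hYalt k
  rw [← finrank_range_restrict_pow N W hNW]
  have h4 : ((A - 1) ^ (2 * k)).rank = finrank F (LinearMap.range (NW ^ (2 * k))) := by
    rw [hA1, ← map_pow, Matrix.rank_eq_finrank_range_toLin _ b b]
    have h5 : Matrix.toLin b b (E (NW ^ (2 * k))) = NW ^ (2 * k) :=
      Matrix.toLin_toMatrix b b _
    rw [h5]
  rw [← h4]
  exact hev

/-- N-T4 -/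
theorem even_count_of_good (h : Iso B g) (hnil : IsNilpotent (g - 1)) {W : Submodule F V}
    (hW : Good B g ⊤ W) {ν : Multiset ℕ} (hν : HasTy (g - 1) W ν) (a : ℕ) (ha : Odd a) :
    Even (ν.count a) := by
  obtain ⟨c, rfl⟩ := ha
  apply Cfsg.Agent.Lib.Helper48UnipEx.even_count ν (2 * c)
  · rw [← hν.2]
    exact even_finrank h hnil hW c
  · rw [← hν.2]
    have : 2 * c + 2 = 2 * (c + 1) := by ring
    rw [this]
    exact even_finrank h hnil hW (c + 1)

end Cfsg.Agent.Lib.Helper38NdT4
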