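import Mathlib
import Cfsg.Prelude.Def_GeometricClasses
import Cfsg.Agent.Lib.H90SwP68
import Cfsg.Agent.Lib.H90SwP37
import Cfsg.Agent.Lib.H90SwElt
import Cfsg.Agent.Lib.H90SwMat
import Cfsg.Agent.Lib.H90SwC23
import Cfsg.Agent.Lib.Helper7SpFrame
import Cfsg.Agent.Lib.Helper48UnipEx
import Cfsg.Agent.Lib.Helper94NdDefs

set_option autoImplicit false
set_option linter.unusedSectionVars false
open Module Cfsg
open Cfsg.Agent.Lib.Helper99Symp Cfsg.Agent.Lib.H90SwDefs Cfsg.Agent.Lib.Helper99SympForm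
  Cfsg.Agent.Lib.Helper48RankSeq Cfsg.Agent.Lib.Helper94NdDefs

/-! Row S5956 (project 94, wave 6), piece N-CTAR. -/

namespace Cfsg.Agent.Lib.Helper3NdCTAR

variable {F : Type*} [Field F] {d : ℕ}

local notation "VV" => (Fin d ⊕ Fin d → F)
local notation "MM" => Matrix (Fin d ⊕ Fin d) (Fin d ⊕ Fin d) F

/-- N-CTAR -/
theorem mod_lt_of_dvd [Fintype F] {r : ℕ} [Fact r.Prime] (hr : ¬ r ∣ Fintype.card F) (j : ℕ)
    (hj : j ≤ d)
    (h : r ∣ Nat.card {ψ : Fin j → VV × VV // Cfsg.Agent.Lib.Helper7SpFrame.IsFrame ψ}) :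
    (2 * d) % cc F r < 2 * j := by
  have hp : r.Prime := Fact.out
  rw [Cfsg.Agent.Lib.Helper7SpFrame.card_frame j hj] at h
  obtain ⟨i, hi, hdvd⟩ := (Prime.dvd_finsetProd_iff hp.prime _).1 h
  rw [Finset.mem_range] at hi
  have h1 : r ∣ Fintype.card F ^ (2 * (d - i)) - 1 := by
    rcases (Nat.Prime.dvd_mul hp).1 hdvd with h1 | h1
    · exact h1
    · exfalso
      rcases (Nat.Prime.dvd_mul hp).1 h1 with h2 | h2
      · exact hr h2
      · exact hr (hp.dvd_of_dvd_pow h2)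
  have hq : 0 < Fintype.card F := Fintype.card_pos
  have h2 : ((Fintype.card F : ℕ) : ZMod r) ^ (2 * (d - i)) = 1 := by
    have h3 := (ZMod.natCast_eq_zero_iff _ _).2 h1
    rw [Nat.cast_sub (Nat.one_le_pow _ _ hq), Nat.cast_pow, Nat.cast_one, sub_eq_zero] at h3
    exact h3
  have h3 : cc F r ∣ 2 * (d - i) := cc_dvd (Dvd.intro _ rfl) (orderOf_dvd_of_pow_eq_one h2)
  obtain ⟨t, ht⟩ := h3
  have h4 : 2 * d = 2 * i + cc F r * t := by omega
  rw [h4, Nat.add_mul_mod_self_left]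
  have := Nat.mod_le (2 * i) (cc F r)
  omega

end Cfsg.Agent.Lib.Helper3NdCTAR
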