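import Mathlib
import Cfsg.Prelude.Def_GeometricClasses
import Cfsg.Agent.Lib.H90SwP68
import Cfsg.Agent.Lib.H90SwP37
import Cfsg.Agent.Lib.H90SwElt
import Cfsg.Agent.Lib.H90SwMat
import Cfsg.Agent.Lib.H90SwC23
import Cfsg.Agent.Lib.Helper7SpFrame
import Cfsg.Agent.Lib.Helper48UnipEx
import Cfsg.Agent.Lib.Helper94NdDefs
import Cfsg.Agent.Lib.H90SwP45

set_option autoImplicit false
set_option linter.unusedSectionVars false
open Module Cfsg
open Cfsg.Agent.Lib.Helper99Symp Cfsg.Agent.Lib.H90SwDefs Cfsg.Agent.Lib.Helper99SympForm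
  Cfsg.Agent.Lib.Helper48RankSeq Cfsg.Agent.Lib.Helper94NdDefs

/-! Row S5956 (project 94, wave 6), piece N-D1. -/

namespace Cfsg.Agent.Lib.Helper3NdD1

open Cfsg.Agent.Lib.H90SwP12 Cfsg.Agent.Lib.H90SwP37 Cfsg.Agent.Lib.H90SwP45 Cfsg.Agent.Lib.H90SwP68

variable {F V : Type*} [Field F] [Fintype F] [AddCommGroup V] [Module F V] [FiniteDimensional F V]
  {B : LinearMap.BilinForm F V} {g : Module.End F V} {r : ℕ}

/-- N-D1 -/
theorem exists_good_of_mod (h : Ctx B r g) (hT : NondegOn B ⊤) (m : ℕ) (hme : Even m)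
    (hle : m ≤ finrank F V) (hmod : m % cc F r ≤ finrank F V % cc F r) :
    ∃ W : Submodule F V, W.map g ≤ W ∧ NondegOn B W ∧ finrank F W = m := by
  have hc := h.cc_pos
  have hce : Even (cc F r) := even_cc F r
  obtain ⟨M, hMQ, hMi, hMN, hME, hMo, hCM, hsup, hCN⟩ := exists_fixfree h (Q := ⊤) le_top hT
  obtain ⟨k, hk⟩ := finrank_congr_c h hMi hMN
  rw [hME, finrank_bot, zero_add] at hk
  have hsum : finrank F ↥((⊤ : Submodule F V) ⊓ Module.End.eigenspace g 1) + finrank F M = finrank F V := by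
    have h1 := Submodule.finrank_sup_add_finrank_inf_eq ((⊤ : Submodule F V) ⊓ Module.End.eigenspace g 1) M
    rw [hCM, hsup, finrank_bot, add_zero, finrank_top] at h1
    exact h1.symm
  rw [hk] at hsum
  set c := cc F r with hcdef
  set fC := finrank F ↥((⊤ : Submodule F V) ⊓ Module.End.eigenspace g 1) with hfC
  have hdm : c * (m / c) + m % c = m := Nat.div_add_mod m c
  have hfCge : m % c ≤ fC := by
    have h1 : finrank F V % c = fC % c := by
      rw [← hsum, Nat.add_mul_mod_self_left]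
    have h2 : fC % c ≤ fC := Nat.mod_le _ _
    omega
  have hinvC : ∀ C' : Submodule F V, C' ≤ (⊤ : Submodule F V) ⊓ Module.End.eigenspace g 1 → C'.map g ≤ C' := by
    rintro C' hC' _ ⟨x, hx, rfl⟩
    have := (Submodule.mem_inf.1 (hC' hx)).2
    rw [Module.End.mem_eigenspace_iff, one_smul] at this
    rw [this]; exact hx
  by_cases hak : m / c ≤ k
  · obtain ⟨M', hM'M, hM'i, hM'N, hM'f⟩ := exists_block_mul h hMi hMN hME (m / c)
      (by rw [hk]; exact Nat.mul_le_mul_left _ hak)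
    have hev : Even (m % c) := by
      rw [Nat.even_iff, Nat.mod_mod_of_dvd m hce.two_dvd, ← Nat.even_iff]
      exact hme
    obtain ⟨C', hC'C, hC'N, hC'f⟩ := exists_nondeg_le h.alt hCN (m % c) hev hfCge
    have ho : Orth B M' C' := fun u hu v hv => hMo u (hM'M hu) v (hC'C hv)
    obtain ⟨a1, a2, a3, a4⟩ := sup_facts (Q := ⊤) h.alt le_top le_top hM'i
      (hinvC C' hC'C) hM'N hC'N ho
    exact ⟨M' ⊔ C', a2, a3, by rw [a4, hM'f, hC'f]; exact hdm⟩
  · push Not at hak
    have hck : c * k ≤ m := by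
      have : c * k ≤ c * (m / c) := Nat.mul_le_mul_left _ hak.le
      omega
    have hev : Even (m - c * k) := by
      rw [Nat.even_sub hck]
      exact iff_of_true hme (hce.mul_right k)
    have hle' : m - c * k ≤ fC := by omega
    obtain ⟨C', hC'C, hC'N, hC'f⟩ := exists_nondeg_le h.alt hCN (m - c * k) hev hle'
    have ho : Orth B M C' := fun u hu v hv => hMo u hu v (hC'C hv)
    obtain ⟨a1, a2, a3, a4⟩ := sup_facts (Q := ⊤) h.alt le_top le_top hMi
      (hinvC C' hC'C) hMN hC'N ho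
    exact ⟨M ⊔ C', a2, a3, by rw [a4, hk, hC'f]; omega⟩

end Cfsg.Agent.Lib.Helper3NdD1
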