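import Mathlib
import Cfsg.Prelude.Def_GeometricClasses
import Cfsg.Agent.Lib.Helper94NdDefs
import Cfsg.Agent.Lib.Helper38UniSPLIT

set_option autoImplicit false
set_option linter.unusedSectionVars false
open Module Cfsg
open Cfsg.Agent.Lib.Helper99Symp Cfsg.Agent.Lib.H90SwDefs Cfsg.Agent.Lib.Helper99SympForm
  Cfsg.Agent.Lib.Helper48RankSeq Cfsg.Agent.Lib.Helper94NdDefs

/-! Project 94, wave 6, piece N-T3. -/

namespace Cfsg.Agent.Lib.Helper38NdT3

variable {F V : Type*} [Field F] [AddCommGroup V] [Module F V] [FiniteDimensional F V]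
  {N : Module.End F V}

/-- N-T3: a family of Jordan chains of the same length `e` -/
theorem hasTy_chains {s : ℕ} (e : ℕ) (he : 0 < e) (v : Fin s → V) (hk : ∀ j, (N ^ e) (v j) = 0)
    (hli : LinearIndependent F (fun x : Fin s × Fin e => (N ^ (x.2 : ℕ)) (v x.1))) :
    HasTy N (Submodule.span F (Set.range fun x : Fin s × Fin e => (N ^ (x.2 : ℕ)) (v x.1)))
      (Multiset.replicate s e) := by
  refine ⟨?_, fun k => ?_⟩
  · intro h0
    have := Multiset.eq_of_mem_replicate h0
    omega
  · set f : Fin s × Fin e → V := fun x => (N ^ (x.2 : ℕ)) (v x.1) with hf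
    let φ : Fin s × Fin (e - k) → Fin s × Fin e := fun x => (x.1, ⟨x.2.1 + k, by have := x.2.2; omega⟩)
    have hφ : Function.Injective φ := by
      intro x y hxy
      have h1 := congrArg Prod.fst hxy
      have h2 := congrArg (fun z : Fin s × Fin e => (z.2 : ℕ)) hxy
      simp only [φ] at h1 h2
      exact Prod.ext h1 (Fin.ext (by omega))
    have hli' : LinearIndependent F (f ∘ φ) := hli.comp φ hφ
    have hmap : (Submodule.span F (Set.range f)).map (N ^ k) = Submodule.span F (Set.range (f ∘ φ)) := by
      apply le_antisymm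
      · rw [Submodule.map_span_le]
        rintro _ ⟨x, rfl⟩
        have e1 : (N ^ k) (f x) = (N ^ ((x.2 : ℕ) + k)) (v x.1) := by
          rw [hf, add_comm, pow_add, Module.End.mul_apply]
        by_cases hx : (x.2 : ℕ) + k < e
        · apply Submodule.subset_span
          refine ⟨(x.1, ⟨x.2.1, by omega⟩), ?_⟩
          rw [e1]
          rfl
        · have e2 : (x.2 : ℕ) + k = ((x.2 : ℕ) + k - e) + e := by omega
          rw [e1, e2, pow_add, Module.End.mul_apply, hk, map_zero]
          exact Submodule.zero_mem _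
      · rw [Submodule.span_le]
        rintro _ ⟨x, rfl⟩
        refine ⟨f (x.1, ⟨x.2.1, by have := x.2.2; omega⟩), Submodule.subset_span ⟨_, rfl⟩, ?_⟩
        simp only [hf, Function.comp, φ]
        rw [← Module.End.mul_apply, ← pow_add, add_comm]
    rw [hmap, finrank_span_eq_card hli', Fintype.card_prod, Fintype.card_fin, Fintype.card_fin,
      Multiset.map_replicate, Multiset.sum_replicate, smul_eq_mul]

end Cfsg.Agent.Lib.Helper38NdT3
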