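import Mathlib
import Cfsg.Prelude.Def_GeometricClasses
import Cfsg.Agent.Lib.H90SwP68
import Cfsg.Agent.Lib.H90SwP37
import Cfsg.Agent.Lib.H90SwElt
import Cfsg.Agent.Lib.H90SwMat
import Cfsg.Agent.Lib.H90SwC23
import Cfsg.Agent.Lib.Helper7SpFrame
import Cfsg.Agent.Lib.Helper48UnipEx
import Cfsg.Agent.Lib.Helper94NdDefs

set_option autoImplicit false
set_option linter.unusedSectionVars false
open Module Cfsg
open Cfsg.Agent.Lib.Helper99Symp Cfsg.Agent.Lib.H90SwDefs Cfsg.Agent.Lib.Helper99SympForm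
  Cfsg.Agent.Lib.Helper48RankSeq Cfsg.Agent.Lib.Helper94NdDefs

/-! Row S5956 (project 94, wave 6), piece N-ADJ. -/

namespace Cfsg.Agent.Lib.Helper3NdADJ

variable {F V : Type*} [Field F] [AddCommGroup V] [Module F V] [FiniteDimensional F V]
  {B : LinearMap.BilinForm F V} {g : Module.End F V}

theorem key (h : Iso B g) (u w : V) :
    B ((g - 1) u) w = - B u ((g - 1) w) - B ((g - 1) u) ((g - 1) w) := by
  have h1 := h.pres u w
  have hg : ∀ v, g v = v + (g - 1) v := by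
    intro v
    simp
  rw [hg u, hg w] at h1
  simp only [map_add, LinearMap.add_apply] at h1
  linear_combination h1

theorem sub_one_mem {Q : Submodule F V} (hQ : Q.map g ≤ Q) {v : V} (hv : v ∈ Q) : (g - 1) v ∈ Q := by
  have : (g - 1) v = g v - v := by simp
  rw [this]
  exact Q.sub_mem (hQ ⟨v, hv, rfl⟩) hv

theorem pow_mem {Q : Submodule F V} (hQ : Q.map g ≤ Q) (k : ℕ) {v : V} (hv : v ∈ Q) :
    ((g - 1) ^ k) v ∈ Q := by
  induction k with
  | zero => simpa using hv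
  | succ k ih =>
    rw [pow_succ', Module.End.mul_apply]
    exact sub_one_mem hQ ih

theorem pow_eq_zero_of_le {Q : Submodule F V} (e : ℕ) (hN : ∀ v ∈ Q, ((g - 1) ^ e) v = 0) {b : ℕ}
    (hb : e ≤ b) {w : V} (hw : w ∈ Q) : ((g - 1) ^ b) w = 0 := by
  obtain ⟨c, rfl⟩ := Nat.exists_eq_add_of_le hb
  rw [add_comm, pow_add, Module.End.mul_apply, hN w hw, map_zero]

theorem adj_zero (h : Iso B g) {Q : Submodule F V} (hQ : Q.map g ≤ Q) (e : ℕ)
    (hN : ∀ v ∈ Q, ((g - 1) ^ e) v = 0) :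
    ∀ k a b, e ≤ b + k → e ≤ a + b → ∀ u ∈ Q, ∀ w ∈ Q, B (((g - 1) ^ a) u) (((g - 1) ^ b) w) = 0 := by
  intro k
  induction k with
  | zero =>
    intro a b hb _ u _ w hw
    rw [pow_eq_zero_of_le e hN (by omega) hw, map_zero]
  | succ k ih =>
    intro a b hb hab u hu w hw
    by_cases hbe : e ≤ b
    · rw [pow_eq_zero_of_le e hN hbe hw, map_zero]
    · obtain ⟨a', rfl⟩ : ∃ a', a = a' + 1 := ⟨a - 1, by omega⟩
      have e1 : ((g - 1) ^ (a' + 1)) u = (g - 1) (((g - 1) ^ a') u) := by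
        rw [pow_succ', Module.End.mul_apply]
      have e2 : (g - 1) (((g - 1) ^ b) w) = ((g - 1) ^ (b + 1)) w := by
        rw [pow_succ', Module.End.mul_apply]
      rw [e1, key h, e2, ← e1, ih a' (b + 1) (by omega) (by omega) u hu w hw,
        ih (a' + 1) (b + 1) (by omega) (by omega) u hu w hw]
      simp

/-- N-ADJ -/
theorem adj_pow (h : Iso B g) {Q : Submodule F V} (hQ : Q.map g ≤ Q) (e : ℕ)
    (hN : ∀ v ∈ Q, ((g - 1) ^ e) v = 0) :
    (∀ a b, e ≤ a + b → ∀ u ∈ Q, ∀ w ∈ Q, B (((g - 1) ^ a) u) (((g - 1) ^ b) w) = 0) ∧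
    (∀ a b, a + b + 1 = e → ∀ u ∈ Q, ∀ w ∈ Q,
      B (((g - 1) ^ a) u) (((g - 1) ^ b) w) = (-1) ^ a * B u (((g - 1) ^ (a + b)) w)) := by
  have c1 : ∀ a b, e ≤ a + b → ∀ u ∈ Q, ∀ w ∈ Q, B (((g - 1) ^ a) u) (((g - 1) ^ b) w) = 0 :=
    fun a b hab u hu w hw => adj_zero h hQ e hN e a b (by omega) hab u hu w hw
  refine ⟨c1, ?_⟩
  intro a
  induction a with
  | zero =>
    intro b _ u _ w _
    simp
  | succ a ih =>
    intro b hab u hu w hw
    have e1 : ((g - 1) ^ (a + 1)) u = (g - 1) (((g - 1) ^ a) u) := by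
      rw [pow_succ', Module.End.mul_apply]
    have e2 : (g - 1) (((g - 1) ^ b) w) = ((g - 1) ^ (b + 1)) w := by
      rw [pow_succ', Module.End.mul_apply]
    rw [e1, key h, e2, ← e1, ih (b + 1) (by omega) u hu w hw,
      c1 (a + 1) (b + 1) (by omega) u hu w hw]
    have e3 : a + (b + 1) = a + 1 + b := by omega
    rw [e3, pow_succ]
    ring

end Cfsg.Agent.Lib.Helper3NdADJ
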