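import Mathlib
import Cfsg.Prelude.Def_GeometricClasses
import Cfsg.Agent.Lib.H90SwP68
import Cfsg.Agent.Lib.H90SwP37
import Cfsg.Agent.Lib.H90SwElt
import Cfsg.Agent.Lib.H90SwMat
import Cfsg.Agent.Lib.H90SwC23
import Cfsg.Agent.Lib.Helper7SpFrame
import Cfsg.Agent.Lib.Helper48UnipEx
import Cfsg.Agent.Lib.Helper94NdDefs
import Cfsg.Agent.Lib.Helper3NdADJ

set_option autoImplicit false
set_option linter.unusedSectionVars false
open Module Cfsg
open Cfsg.Agent.Lib.Helper99Symp Cfsg.Agent.Lib.H90SwDefs Cfsg.Agent.Lib.Helper99SympForm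
  Cfsg.Agent.Lib.Helper48RankSeq Cfsg.Agent.Lib.Helper94NdDefs

/-! Row S5956 (project 94, wave 6), piece N-CHAIN. -/

namespace Cfsg.Agent.Lib.Helper3NdCHAIN

open Cfsg.Agent.Lib.Helper3NdADJ

variable {F V : Type*} [Field F] [AddCommGroup V] [Module F V] [FiniteDimensional F V]
  {B : LinearMap.BilinForm F V} {g : Module.End F V}

theorem core (h : Iso B g) {Q : Submodule F V} (hQ : Q.map g ≤ Q) (e : ℕ)
    (hN : ∀ v ∈ Q, ((g - 1) ^ (e + 1)) v = 0) {s : ℕ} (v : Fin s → V) (hv : ∀ j, v j ∈ Q)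
    (hgram : ∀ c : Fin s → F, (∀ j, ∑ j', c j' * B (v j) (((g - 1) ^ e) (v j')) = 0) → c = 0)
    (c : Fin s × Fin (e + 1) → F) (hc : c ≠ 0) :
    ∃ (j : Fin s) (a : Fin (e + 1)),
      B (((g - 1) ^ (a : ℕ)) (v j)) (∑ x, c x • ((g - 1) ^ (x.2 : ℕ)) (v x.1)) ≠ 0 := by
  classical
  obtain ⟨A1, A2⟩ := adj_pow h hQ (e + 1) hN
  have hex : ∃ a : ℕ, ∃ (j : Fin s) (ha : a < e + 1), c (j, ⟨a, ha⟩) ≠ 0 := by
    by_contra hcon
    push Not at hcon
    apply hc
    funext ⟨j, a⟩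
    exact hcon a.1 j a.2
  obtain ⟨j₀, ha₀, hj₀⟩ := Nat.find_spec hex
  have hmin : ∀ (a : ℕ) (ha : a < e + 1) (j : Fin s), a < Nat.find hex → c (j, ⟨a, ha⟩) = 0 := by
    intro a ha j hlt
    by_contra hne
    exact Nat.find_min hex hlt ⟨j, ha, hne⟩
  by_contra hall
  push Not at hall
  have hzero : (fun j' => c (j', ⟨Nat.find hex, ha₀⟩)) = 0 := by
    apply hgram
    intro j
    have h1 := hall j ⟨e - Nat.find hex, by omega⟩
    rw [map_sum, Fintype.sum_prod_type] at h1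
    have h2 : ∀ j' : Fin s, ∑ a : Fin (e + 1),
        B (((g - 1) ^ (e - Nat.find hex)) (v j)) (c (j', a) • ((g - 1) ^ (a : ℕ)) (v j'))
        = (-1) ^ (e - Nat.find hex) * (c (j', ⟨Nat.find hex, ha₀⟩) * B (v j) (((g - 1) ^ e) (v j'))) := by
      intro j'
      rw [Finset.sum_eq_single (⟨Nat.find hex, ha₀⟩ : Fin (e + 1))]
      · rw [map_smul, smul_eq_mul, A2 (e - Nat.find hex) (Nat.find hex) (by omega) _ (hv j) _ (hv j')]
        have : e - Nat.find hex + Nat.find hex = e := by omega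
        rw [this]
        ring
      · intro a _ hne
        rw [map_smul, smul_eq_mul]
        rcases lt_or_gt_of_ne (fun hh => hne (Fin.ext hh) : (a : ℕ) ≠ Nat.find hex) with hlt | hgt
        · have : c (j', a) = 0 := hmin a.1 a.2 j' hlt
          rw [this, zero_mul]
        · rw [A1 (e - Nat.find hex) a (by omega) _ (hv j) _ (hv j'), mul_zero]
      · intro hh
        exact absurd (Finset.mem_univ _) hh
    simp only [] at h1
    rw [Finset.sum_congr rfl (fun j' _ => h2 j'), ← Finset.mul_sum] at h1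
    exact (mul_eq_zero.1 h1).resolve_left (pow_ne_zero _ (neg_ne_zero.2 one_ne_zero))
  exact hj₀ (congrFun hzero j₀)

/-- N-CHAIN: nondegeneracy and independence of a family of chains from the top Gram matrix -/
theorem good_chains (h : Iso B g) {Q : Submodule F V} (hQ : Q.map g ≤ Q) (e : ℕ)
    (hN : ∀ v ∈ Q, ((g - 1) ^ (e + 1)) v = 0) {s : ℕ} (v : Fin s → V) (hv : ∀ j, v j ∈ Q)
    (hgram : ∀ c : Fin s → F, (∀ j, ∑ j', c j' * B (v j) (((g - 1) ^ e) (v j')) = 0) → c = 0) :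
    LinearIndependent F (fun x : Fin s × Fin (e + 1) => ((g - 1) ^ (x.2 : ℕ)) (v x.1)) ∧
    Good B g Q (Submodule.span F (Set.range fun x : Fin s × Fin (e + 1) => ((g - 1) ^ (x.2 : ℕ)) (v x.1))) := by
  have hcore := core h hQ e hN v hv hgram
  refine ⟨?_, ?_, ?_, ?_⟩
  · rw [Fintype.linearIndependent_iff]
    intro c hc x
    by_contra hx
    obtain ⟨j, a, hja⟩ := hcore c (fun h0 => hx (congrFun h0 x))
    rw [hc, map_zero] at hja
    exact hja rfl
  · rw [Submodule.span_le]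
    rintro _ ⟨x, rfl⟩
    exact pow_mem hQ _ (hv x.1)
  · rw [Submodule.map_span_le]
    rintro _ ⟨x, rfl⟩
    have e1 : g (((g - 1) ^ (x.2 : ℕ)) (v x.1))
        = ((g - 1) ^ (x.2 : ℕ)) (v x.1) + ((g - 1) ^ ((x.2 : ℕ) + 1)) (v x.1) := by
      rw [pow_succ', Module.End.mul_apply]
      simp
    rw [e1]
    refine Submodule.add_mem _ (Submodule.subset_span (Set.mem_range_self x)) ?_
    by_cases hx : (x.2 : ℕ) + 1 < e + 1
    · exact Submodule.subset_span ⟨(x.1, ⟨(x.2 : ℕ) + 1, hx⟩), rfl⟩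
    · have : (x.2 : ℕ) + 1 = e + 1 := by have := x.2.2; omega
      rw [this, hN _ (hv x.1)]
      exact Submodule.zero_mem _
  · intro u hu hu0
    obtain ⟨c, rfl⟩ := (Submodule.mem_span_range_iff_exists_fun F).1 hu
    have hc : c ≠ 0 := by
      intro h0
      apply hu0
      simp [h0]
    obtain ⟨j, a, hja⟩ := hcore c hc
    refine ⟨((g - 1) ^ (a : ℕ)) (v j), Submodule.subset_span ⟨(j, a), rfl⟩, ?_⟩
    intro h0
    apply hja
    have hsk : ∀ x y, B x y = - B y x := by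
      intro x y
      have := h.alt (x + y)
      simp only [map_add, LinearMap.add_apply, h.alt x, h.alt y] at this
      linear_combination this
    rw [hsk, h0, neg_zero]

end Cfsg.Agent.Lib.Helper3NdCHAIN
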