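import Mathlib
import Cfsg.Prelude.Def_GeometricClasses
import Cfsg.Agent.Lib.H90SwP68
import Cfsg.Agent.Lib.H90SwP37
import Cfsg.Agent.Lib.H90SwElt
import Cfsg.Agent.Lib.H90SwMat
import Cfsg.Agent.Lib.H90SwC23
import Cfsg.Agent.Lib.Helper7SpFrame
import Cfsg.Agent.Lib.Helper48UnipEx
import Cfsg.Agent.Lib.Helper94NdDefs
import Cfsg.Agent.Lib.Helper3NdADJ
import Cfsg.Agent.Lib.Helper3NdCHAIN
import Cfsg.Agent.Lib.Helper38NdT3

set_option autoImplicit false
set_option linter.unusedSectionVars false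
open Module Cfsg
open Cfsg.Agent.Lib.Helper99Symp Cfsg.Agent.Lib.H90SwDefs Cfsg.Agent.Lib.Helper99SympForm
  Cfsg.Agent.Lib.Helper48RankSeq Cfsg.Agent.Lib.Helper94NdDefs

/-! Row S5956 (project 94, wave 6), piece N-PEEL. -/

namespace Cfsg.Agent.Lib.Helper3NdPEEL

open Cfsg.Agent.Lib.Helper3NdADJ Cfsg.Agent.Lib.Helper3NdCHAIN Cfsg.Agent.Lib.Helper38NdT3

variable {F V : Type*} [Field F] [AddCommGroup V] [Module F V] [FiniteDimensional F V]
  {B : LinearMap.BilinForm F V} {g : Module.End F V}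

/-- N-PEEL -/
theorem exists_peel (h : Iso B g) (h2 : (2 : F) ≠ 0) (hnil : IsNilpotent (g - 1)) {Q : Submodule F V}
    (hQ : Good B g ⊤ Q) (h0 : Q ≠ ⊥) :
    ∃ (H : Submodule F V) (e : ℕ), Good B g Q H ∧
      ((Even e ∧ HasTy (g - 1) H {e}) ∨ (Odd e ∧ HasTy (g - 1) H {e, e})) := by
  classical
  obtain ⟨-, hQi, hQn⟩ := hQ
  have hsk : ∀ x y, B x y = - B y x := by
    intro x y
    have := h.alt (x + y)
    simp only [map_add, LinearMap.add_apply, h.alt x, h.alt y] at this
    linear_combination this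
  have hex : ∃ k : ℕ, ∀ v ∈ Q, ((g - 1) ^ k) v = 0 := by
    obtain ⟨k, hk⟩ := hnil
    exact ⟨k, fun v _ => by rw [hk]; rfl⟩
  have hm0 : Nat.find hex ≠ 0 := by
    intro hz
    have h1 := Nat.find_spec hex
    rw [hz] at h1
    apply h0
    rw [eq_bot_iff]
    intro v hv
    have := h1 v hv
    simpa using this
  obtain ⟨e, he⟩ : ∃ e, Nat.find hex = e + 1 := ⟨Nat.find hex - 1, by omega⟩
  have hN : ∀ v ∈ Q, ((g - 1) ^ (e + 1)) v = 0 := by
    rw [← he]; exact Nat.find_spec hex
  have hne : ¬ ∀ v ∈ Q, ((g - 1) ^ e) v = 0 := Nat.find_min hex (by omega)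
  push Not at hne
  obtain ⟨w, hw, hw0⟩ := hne
  obtain ⟨u, hu, hub⟩ := hQn _ (pow_mem hQi e hw) hw0
  have hb : B u (((g - 1) ^ e) w) ≠ 0 := by
    intro hz
    apply hub
    rw [hsk, hz, neg_zero]
  obtain ⟨-, A2⟩ := adj_pow h hQi (e + 1) hN
  -- symmetry of `β`
  have hβ : ∀ x ∈ Q, ∀ y ∈ Q, B y (((g - 1) ^ e) x) = (-1) ^ (e + 1) * B x (((g - 1) ^ e) y) := by
    intro x hx y hy
    have h1 := A2 e 0 (by omega) x hx y hy
    rw [pow_zero, Module.End.one_apply, add_zero] at h1
    rw [hsk, h1, pow_succ]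
    ring
  rcases Nat.even_or_odd e with hev | hodd
  · -- `e` even: two chains
    have hpow : (-1 : F) ^ (e + 1) = -1 := by
      rw [pow_succ, hev.neg_one_pow]; ring
    have hself : ∀ x ∈ Q, B x (((g - 1) ^ e) x) = 0 := by
      intro x hx
      have h1 := hβ x hx x hx
      rw [hpow] at h1
      have h3 : (2 : F) * B x (((g - 1) ^ e) x) = 0 := by linear_combination h1
      exact (mul_eq_zero.1 h3).resolve_left h2
    have hwu : B w (((g - 1) ^ e) u) = - B u (((g - 1) ^ e) w) := by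
      rw [hβ u hu w hw, hpow]; ring
    obtain ⟨hli, hgood⟩ := good_chains h hQi e hN ![u, w]
      (by intro j; fin_cases j <;> simp [hu, hw])
      (by
        intro c hc
        have c0 := hc 0
        have c1 := hc 1
        simp only [Fin.sum_univ_two, Matrix.cons_val_zero, Matrix.cons_val_one] at c0 c1
        rw [hself u hu, mul_zero, zero_add] at c0
        rw [hself w hw, mul_zero, add_zero, hwu] at c1
        have d1 : c 1 = 0 := (mul_eq_zero.1 c0).resolve_right hb
        have d0 : c 0 = 0 := (mul_eq_zero.1 c1).resolve_right (neg_ne_zero.2 hb)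
        funext j
        fin_cases j
        · exact d0
        · exact d1)
    refine ⟨_, e + 1, hgood, Or.inr ⟨hev.add_one, ?_⟩⟩
    have hty := hasTy_chains (N := g - 1) (e + 1) (Nat.succ_pos e) ![u, w]
      (by intro j; fin_cases j <;> simp [hN u hu, hN w hw]) hli
    have hrep : Multiset.replicate 2 (e + 1) = {e + 1, e + 1} := rfl
    rw [hrep] at hty
    exact hty
  · -- `e` odd: one chain
    have hpow : (-1 : F) ^ (e + 1) = 1 := hodd.add_one.neg_one_pow
    have hsymm : ∀ x ∈ Q, ∀ y ∈ Q, B y (((g - 1) ^ e) x) = B x (((g - 1) ^ e) y) := by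
      intro x hx y hy
      rw [hβ x hx y hy, hpow, one_mul]
    obtain ⟨z, hz, hzz⟩ : ∃ z ∈ Q, B z (((g - 1) ^ e) z) ≠ 0 := by
      by_contra hcon
      push Not at hcon
      have h1 := hcon (u + w) (Q.add_mem hu hw)
      simp only [map_add, LinearMap.add_apply] at h1
      rw [hcon u hu, hcon w hw, hsymm u hu w hw] at h1
      have h3 : (2 : F) * B u (((g - 1) ^ e) w) = 0 := by linear_combination h1
      exact hb ((mul_eq_zero.1 h3).resolve_left h2)
    obtain ⟨hli, hgood⟩ := good_chains h hQi e hN ![z]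
      (by intro j; fin_cases j; simpa using hz)
      (by
        intro c hc
        have c0 := hc 0
        simp only [Fin.sum_univ_one, Matrix.cons_val_zero] at c0
        have c0' : c 0 * B z (((g - 1) ^ e) z) = 0 := by simpa using c0
        have d0 : c 0 = 0 := (mul_eq_zero.1 c0').resolve_right hzz
        funext j
        fin_cases j
        exact d0)
    refine ⟨_, e + 1, hgood, Or.inl ⟨hodd.add_one, ?_⟩⟩
    have hty := hasTy_chains (N := g - 1) (e + 1) (Nat.succ_pos e) ![z]
      (by intro j; fin_cases j; simpa using hN z hz) hli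
    have hrep : Multiset.replicate 1 (e + 1) = {e + 1} := rfl
    rw [hrep] at hty
    exact hty

end Cfsg.Agent.Lib.Helper3NdPEEL
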