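import Cfsg.Agent.Lib.Helper87EluDefs
set_option autoImplicit false
open Module Cfsg.Agent.Lib.Helper87EluDefs

namespace Cfsg.Agent.Lib.Helper13EluJ4

variable {F : Type*} [Field F] {V : Type*} [AddCommGroup V] [Module F V]

theorem model_of_basis {t : ℕ} (l : Fin t → ℕ) (hpos : ∀ j, 0 < l j)
    (B : Basis (Σ j : Fin t, Fin (l j)) F V) :
    ∃ (N : Module.End F V) (v : Fin t → V), JB N v l := by
  classical
  let N : Module.End F V := B.constr F
    (fun x => if h : (x.2 : ℕ) + 1 < l x.1 then B ⟨x.1, ⟨(x.2 : ℕ) + 1, h⟩⟩ else 0)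
  have hN : ∀ x : (Σ j : Fin t, Fin (l j)),
      N (B x) = if h : (x.2 : ℕ) + 1 < l x.1 then B ⟨x.1, ⟨(x.2 : ℕ) + 1, h⟩⟩ else 0 :=
    fun x => B.constr_basis F _ x
  have hpow : ∀ j (k : ℕ) (hk : k < l j), (N ^ k) (B ⟨j, ⟨0, hpos j⟩⟩) = B ⟨j, ⟨k, hk⟩⟩ := by
    intro j k
    induction k with
    | zero => intro hk; simp
    | succ k ih =>
      intro hk
      rw [pow_succ', Module.End.mul_apply, ih (by omega), hN, dif_pos hk]
  have hfam : (fun x : (Σ j : Fin t, Fin (l j)) => (N ^ (x.2 : ℕ)) (B ⟨x.1, ⟨0, hpos x.1⟩⟩)) = B := by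
    funext x
    obtain ⟨j, k⟩ := x
    exact hpow j k k.2
  refine ⟨N, fun j => B ⟨j, ⟨0, hpos j⟩⟩, hpos, ?_, ?_, ?_⟩
  · intro j
    obtain ⟨k, hk⟩ : ∃ k, l j = k + 1 := ⟨l j - 1, by have := hpos j; omega⟩
    have h1 : N ^ l j = N * N ^ k := by rw [hk, pow_succ']
    rw [h1, Module.End.mul_apply, hpow j k (by omega), hN, dif_neg (by simp only; omega)]
  · rw [hfam]; exact B.linearIndependent
  · rw [hfam]; exact B.span_eq

theorem exists_l (μ : Multiset ℕ) : ∃ (t : ℕ) (l : Fin t → ℕ), ty l = μ := by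
  refine ⟨μ.toList.length, fun i => μ.toList.get i, ?_⟩
  rw [ty, Fin.univ_val_map, List.ofFn_get, Multiset.coe_toList]

/-- J4 -/
theorem exists_model (n : ℕ) (μ : Multiset ℕ) (h0 : ∀ x ∈ μ, 0 < x) (hsum : μ.sum = n) :
    ∃ (N : Module.End F (Fin n → F)) (t : ℕ) (v : Fin t → (Fin n → F)) (l : Fin t → ℕ),
      JB N v l ∧ ty l = μ := by
  obtain ⟨t, l, rfl⟩ := exists_l μ
  have hpos : ∀ j, 0 < l j := fun j => h0 _ (Multiset.mem_map.2 ⟨j, Finset.mem_univ_val j, rfl⟩)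
  have hcard : Fintype.card (Fin n) = Fintype.card (Σ j : Fin t, Fin (l j)) := by
    rw [Fintype.card_sigma, Fintype.card_fin, ← hsum]
    simp [ty, List.sum_ofFn]
  obtain ⟨N, v, h⟩ := model_of_basis l hpos ((Pi.basisFun F (Fin n)).reindex (Fintype.equivOfCardEq hcard))
  exact ⟨N, t, v, l, h, rfl⟩

end Cfsg.Agent.Lib.Helper13EluJ4
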