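import Cfsg.Agent.Lib.Helper87EluDefs
set_option autoImplicit false
open Module Cfsg.Agent.Lib.Helper87EluDefs

namespace Cfsg.Agent.Lib.Helper13EluJ5

variable {F : Type*} [Field F] {V : Type*} [AddCommGroup V] [Module F V]

theorem exists_le_of_le_map {α β : Type*} (f : α → β) (s : Multiset α) :
    ∀ ν : Multiset β, ν ≤ s.map f → ∃ s' ≤ s, ν = s'.map f := by
  classical
  induction s using Multiset.induction_on with
  | empty =>
    intro ν hν
    refine ⟨0, le_refl _, ?_⟩
    simpa using hν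
  | cons a s ih =>
    intro ν hν
    rw [Multiset.map_cons] at hν
    by_cases hmem : f a ∈ ν
    · obtain ⟨ν', rfl⟩ := Multiset.exists_cons_of_mem hmem
      obtain ⟨s', hs', rfl⟩ := ih ν' ((Multiset.cons_le_cons_iff _).1 hν)
      exact ⟨a ::ₘ s', Multiset.cons_le_cons a hs', by rw [Multiset.map_cons]⟩
    · obtain ⟨s', hs', rfl⟩ := ih ν ((Multiset.le_cons_of_notMem hmem).1 hν)
      exact ⟨s', hs'.trans (Multiset.le_cons_self s a), rfl⟩

theorem exists_finset {t : ℕ} (l : Fin t → ℕ) (ν : Multiset ℕ) (hν : ν ≤ ty l) :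
    ∃ S : Finset (Fin t), ν = S.val.map l := by
  obtain ⟨s', hs', rfl⟩ := exists_le_of_le_map l _ ν hν
  exact ⟨⟨s', Multiset.nodup_of_le hs' Finset.univ.nodup⟩, rfl⟩

theorem map_span_le (N : Module.End F V) {t : ℕ} (v : Fin t → V) (l : Fin t → ℕ)
    (h : JB N v l) (P : Fin t → Prop) :
    (Submodule.span F ((fun x : (Σ j : Fin t, Fin (l j)) => (N ^ (x.2 : ℕ)) (v x.1)) '' {x | P x.1})).map N
      ≤ Submodule.span F ((fun x : (Σ j : Fin t, Fin (l j)) => (N ^ (x.2 : ℕ)) (v x.1)) '' {x | P x.1}) := by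
  rw [Submodule.map_span, Submodule.span_le]
  rintro _ ⟨_, ⟨⟨j, k⟩, hjk, rfl⟩, rfl⟩
  have hP : P j := hjk
  by_cases hk : (k : ℕ) + 1 < l j
  · apply Submodule.subset_span
    refine ⟨⟨j, ⟨(k : ℕ) + 1, hk⟩⟩, hP, ?_⟩
    simp only
    rw [pow_succ', Module.End.mul_apply]
  · have hk' : (k : ℕ) + 1 = l j := by have := k.2; omega
    have : N ((N ^ (k : ℕ)) (v j)) = 0 := by
      rw [← Module.End.mul_apply, ← pow_succ', hk', h.kill]
    simp only
    rw [this]
    exact Submodule.zero_mem _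

/-- J5 -/
theorem exists_summand [FiniteDimensional F V] (N : Module.End F V) {t : ℕ} (v : Fin t → V) (l : Fin t → ℕ)
    (h : JB N v l) (ν : Multiset ℕ) (hν : ν ≤ ty l) :
    ∃ U W : Submodule F V, IsCompl U W ∧ U.map N ≤ U ∧ W.map N ≤ W ∧ finrank F U = ν.sum := by
  classical
  obtain ⟨S, rfl⟩ := exists_finset l ν hν
  set b : (Σ j : Fin t, Fin (l j)) → V := fun x => (N ^ (x.2 : ℕ)) (v x.1) with hb
  refine ⟨Submodule.span F (b '' {x | x.1 ∈ S}), Submodule.span F (b '' {x | ¬ x.1 ∈ S}), ⟨?_, ?_⟩,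
    map_span_le N v l h (fun j => j ∈ S), map_span_le N v l h (fun j => ¬ j ∈ S), ?_⟩
  · apply h.indep.disjoint_span_image
    rw [Set.disjoint_left]
    intro x hx hx'
    exact hx' hx
  · rw [codisjoint_iff, ← Submodule.span_union, ← Set.image_union]
    have : ({x : (Σ j : Fin t, Fin (l j)) | x.1 ∈ S} ∪ {x | ¬ x.1 ∈ S}) = Set.univ := by
      ext x
      simp [em]
    rw [this, Set.image_univ]
    exact h.span
  · have h1 := finrank_span_eq_card
      (h.indep.comp (Subtype.val : ↥(S.sigma fun j => (Finset.univ : Finset (Fin (l j)))) → _)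
        Subtype.val_injective)
    have h2 : Set.range ((fun x : (Σ j : Fin t, Fin (l j)) => (N ^ (x.2 : ℕ)) (v x.1)) ∘
        (Subtype.val : ↥(S.sigma fun j => (Finset.univ : Finset (Fin (l j)))) → _))
        = b '' {x | x.1 ∈ S} := by
      rw [Set.range_comp, Subtype.range_coe]
      congr 1
      ext x
      simp
    rw [h2, Fintype.card_coe, Finset.card_sigma] at h1
    rw [h1]
    simp

end Cfsg.Agent.Lib.Helper13EluJ5
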