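import Mathlib
set_option autoImplicit false

namespace Cfsg.Agent.Lib.Helper13EluJ9

theorem two_parts_aux (μ : Multiset ℕ) (hμ : ∀ x ∈ μ, 0 < x ∧ x ≤ 2) :
    ∀ m : ℕ, m ≤ μ.sum → (1 ∈ μ ∨ Even m) → ∃ ν : Multiset ℕ, ν ≤ μ ∧ ν.sum = m := by
  induction μ using Multiset.induction_on with
  | empty =>
    intro m hm _
    exact ⟨0, le_refl _, by simp at hm; simp [hm]⟩
  | cons x s ih =>
    intro m hm h
    have hs : ∀ y ∈ s, 0 < y ∧ y ≤ 2 := fun y hy => hμ y (Multiset.mem_cons_of_mem hy)
    have hx := hμ x (Multiset.mem_cons_self x s)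
    rw [Multiset.sum_cons] at hm
    have ih' := ih hs
    by_cases h1s : 1 ∈ s
    · -- s contains a 1: everything ≤ s.sum reachable
      by_cases hms : m ≤ s.sum
      · obtain ⟨ν, hν, hνs⟩ := ih' m hms (Or.inl h1s)
        exact ⟨ν, hν.trans (Multiset.le_cons_self s x), hνs⟩
      · have h1le : 1 ≤ s.sum := Multiset.le_sum_of_mem h1s
        obtain ⟨ν, hν, hνs⟩ := ih' (m - x) (by omega) (Or.inl h1s)
        exact ⟨x ::ₘ ν, Multiset.cons_le_cons x hν, by rw [Multiset.sum_cons, hνs]; omega⟩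
    · -- all elements of s are 2
      have hall : ∀ y ∈ s, y = 2 := by
        intro y hy
        have := hs y hy
        have hne : y ≠ 1 := fun h => h1s (h ▸ hy)
        omega
      have hsum : Even s.sum := by
        rw [Multiset.eq_replicate_card.2 hall]
        simp
      rcases Nat.even_or_odd m with hme | hmo
      · by_cases hms : m ≤ s.sum
        · obtain ⟨ν, hν, hνs⟩ := ih' m hms (Or.inr hme)
          exact ⟨ν, hν.trans (Multiset.le_cons_self s x), hνs⟩
        · -- m > s.sum, m even, s.sum even, m ≤ x + s.sum so x = 2, m = s.sum + 2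
          obtain ⟨a, ha⟩ := hme
          obtain ⟨b, hb⟩ := hsum
          exact ⟨x ::ₘ s, le_refl _, by rw [Multiset.sum_cons]; omega⟩
      · -- m odd: so 1 ∈ x ::ₘ s, so x = 1
        have hx1 : x = 1 := by
          rcases h with h | h
          · rcases Multiset.mem_cons.1 h with h | h
            · exact h.symm
            · exact absurd h h1s
          · exact absurd h (Nat.not_even_iff_odd.2 hmo)
        obtain ⟨a, ha⟩ := hmo
        obtain ⟨ν, hν, hνs⟩ := ih' (m - 1) (by omega) (Or.inr ⟨a, by omega⟩)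
        exact ⟨x ::ₘ ν, Multiset.cons_le_cons x hν, by rw [Multiset.sum_cons, hνs]; omega⟩

/-- J9 (pure combinatorics) -/
theorem two_parts (μ : Multiset ℕ) (hμ : ∀ x ∈ μ, 0 < x ∧ x ≤ 2) (m : ℕ) (hm : m ≤ μ.sum)
    (h : Odd μ.sum ∨ Even m) : ∃ ν : Multiset ℕ, ν ≤ μ ∧ ν.sum = m := by
  refine two_parts_aux μ hμ m hm ?_
  rcases h with h | h
  · left
    by_contra h1
    have hall : ∀ y ∈ μ, y = 2 := by
      intro y hy
      have := hμ y hy
      have hne : y ≠ 1 := fun h => h1 (h ▸ hy)
      omega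
    have hsum : Even μ.sum := by
      rw [Multiset.eq_replicate_card.2 hall]
      simp
    exact (Nat.not_even_iff_odd.2 h) hsum
  · exact Or.inr h

end Cfsg.Agent.Lib.Helper13EluJ9
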