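import Mathlib
set_option autoImplicit false

namespace Cfsg.Agent.Lib.Helper13EluJ3

theorem sum_min_succ (μ : Multiset ℕ) (a : ℕ) :
    (μ.map fun x => min x (a + 1)).sum = (μ.map fun x => min x a).sum + μ.countP (fun x => a < x) := by
  induction μ using Multiset.induction_on with
  | empty => simp
  | cons x s ih =>
    simp only [Multiset.map_cons, Multiset.sum_cons, ih, Multiset.countP_cons]
    split_ifs with h
    · have h1 : min x (a+1) = a + 1 := by omega
      have h2 : min x a = a := by omega
      omega
    · have h1 : min x (a+1) = x := by omega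
      have h2 : min x a = x := by omega
      omega

theorem countP_lt_eq (μ : Multiset ℕ) (a : ℕ) :
    μ.countP (fun x => a < x) = μ.count (a + 1) + μ.countP (fun x => a + 1 < x) := by
  induction μ using Multiset.induction_on with
  | empty => simp
  | cons x s ih =>
    simp only [Multiset.countP_cons, Multiset.count_cons, ih]
    split_ifs <;> omega

/-- J3 (pure combinatorics) -/
theorem multiset_eq_of_min_sums (μ μ' : Multiset ℕ) (h0 : ∀ x ∈ μ, 0 < x) (h0' : ∀ x ∈ μ', 0 < x)
    (h : ∀ a : ℕ, (μ.map fun x => min x a).sum = (μ'.map fun x => min x a).sum) : μ = μ' := by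
  have hc : ∀ a, μ.countP (fun x => a < x) = μ'.countP (fun x => a < x) := by
    intro a
    have h1 := sum_min_succ μ a
    have h2 := sum_min_succ μ' a
    have h3 := h a
    have h4 := h (a + 1)
    omega
  ext a
  rcases Nat.eq_zero_or_pos a with rfl | ha
  · rw [Multiset.count_eq_zero_of_notMem (fun hh => lt_irrefl _ (h0 0 hh)),
      Multiset.count_eq_zero_of_notMem (fun hh => lt_irrefl _ (h0' 0 hh))]
  · obtain ⟨b, rfl⟩ : ∃ b, a = b + 1 := ⟨a - 1, by omega⟩
    have h1 := countP_lt_eq μ b
    have h2 := countP_lt_eq μ' b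
    have h3 := hc b
    have h4 := hc (b + 1)
    omega

end Cfsg.Agent.Lib.Helper13EluJ3
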