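import Cfsg.Agent.Lib.Helper87EluDefs
set_option autoImplicit false
open Module Cfsg.Agent.Lib.Helper87EluDefs

/-! Project 187 (ELU), piece J8. -/

namespace Cfsg.Agent.Lib.Helper99EluJ8

variable {F : Type*} [Field F] {V : Type*} [AddCommGroup V] [Module F V]

theorem ty_map_sum {t : ℕ} (l : Fin t → ℕ) (g : ℕ → ℕ) :
    ((ty l).map g).sum = ∑ j, g (l j) := by
  unfold ty
  rw [Multiset.map_map]
  rfl

theorem ty_sum {t : ℕ} (l : Fin t → ℕ) : (ty l).sum = ∑ j, l j := by
  unfold ty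
  rfl

theorem mem_ty {t : ℕ} (l : Fin t → ℕ) (x : ℕ) : x ∈ ty l ↔ ∃ j, l j = x := by
  unfold ty
  simp

theorem finrank_eq_sum [FiniteDimensional F V] (N : Module.End F V) {t : ℕ} (v : Fin t → V)
    (l : Fin t → ℕ) (h : JB N v l) : finrank F V = ∑ j, l j := by
  have h1 := finrank_span_eq_card h.indep
  rw [h.span, finrank_top] at h1
  rw [h1, Fintype.card_sigma]
  simp

/-- J8 -/
theorem ty_facts [FiniteDimensional F V] (N : Module.End F V) {t : ℕ} (v : Fin t → V) (l : Fin t → ℕ)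
    (h : JB N v l) : (ty l).sum = finrank F V ∧ (∀ x ∈ ty l, 0 < x) ∧ ∀ a : ℕ, N ^ a = 0 ↔ ∀ x ∈ ty l, x ≤ a := by
  refine ⟨?_, ?_, ?_⟩
  · rw [ty_sum, finrank_eq_sum N v l h]
  · intro x hx
    obtain ⟨j, rfl⟩ := (mem_ty l x).1 hx
    exact h.pos j
  · intro a
    constructor
    · intro h0 x hx
      obtain ⟨j, rfl⟩ := (mem_ty l x).1 hx
      by_contra hlt
      have hlt' : a < l j := by omega
      have := h.indep.ne_zero (⟨j, ⟨a, hlt'⟩⟩ : Σ j : Fin t, Fin (l j))
      apply this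
      simp [h0]
    · intro hle
      apply LinearMap.ext_on_range h.span
      rintro ⟨j, k⟩
      have hj : l j ≤ a := hle _ ((mem_ty l _).2 ⟨j, rfl⟩)
      have : (N ^ a) ((N ^ (k : ℕ)) (v j)) = (N ^ (a - l j + k)) ((N ^ l j) (v j)) := by
        rw [← Module.End.mul_apply, ← Module.End.mul_apply, ← pow_add, ← pow_add]
        congr 2
        omega
      simp only [LinearMap.zero_apply]
      rw [this, h.kill, map_zero]

end Cfsg.Agent.Lib.Helper99EluJ8
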