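import Cfsg.Agent.Lib.Helper87EluDefs
import Cfsg.Agent.Lib.Helper99EluJ8
import Cfsg.Agent.Lib.Helper13EluJ3
set_option autoImplicit false
open Module Cfsg.Agent.Lib.Helper87EluDefs

namespace Cfsg.Agent.Lib.Helper13EluK2

variable {F : Type*} [Field F] {V : Type*} [AddCommGroup V] [Module F V]

theorem sum_eq_aux (μ : Multiset ℕ) (p : ℕ) (hp : 0 < p) (hl : ∀ x ∈ μ, x ≤ p) :
    μ.sum = (μ.map fun x => min x (p - 1)).sum + μ.count p := by
  have h1 := Cfsg.Agent.Lib.Helper13EluJ3.sum_min_succ μ (p - 1)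
  have h2 : (μ.map fun x => min x (p - 1 + 1)).sum = μ.sum := by
    have : μ.map (fun x => min x (p - 1 + 1)) = μ.map id := by
      apply Multiset.map_congr rfl
      intro x hx
      have := hl x hx
      simp only [id]
      omega
    rw [this, Multiset.map_id]
  have h3 : μ.countP (fun x => p - 1 < x) = μ.count p := by
    rw [Multiset.count]
    apply Multiset.countP_congr rfl
    intro x hx
    have := hl x hx
    simp only [eq_iff_iff]
    constructor
    · intro h; omega
    · intro h; omega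
  omega

/-- K2 (from J2 = `hker`) -/
theorem rank_eq_count [FiniteDimensional F V] (p : ℕ) (hp : 0 < p) (N : Module.End F V) {t : ℕ} (v : Fin t → V)
    (l : Fin t → ℕ) (h : JB N v l) (hl : ∀ x ∈ ty l, x ≤ p)
    (hker : ∀ a : ℕ, finrank F ↥(LinearMap.ker (N ^ a)) = ((ty l).map fun x => min x a).sum) :
    finrank F ↥(LinearMap.range (N ^ (p - 1))) = (ty l).count p := by
  have h1 := LinearMap.finrank_range_add_finrank_ker (N ^ (p - 1))
  have h2 := (Cfsg.Agent.Lib.Helper99EluJ8.ty_facts N v l h).1
  have h3 := sum_eq_aux (ty l) p hp hl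
  have h4 := hker (p - 1)
  omega

end Cfsg.Agent.Lib.Helper13EluK2
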