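import Mathlib
set_option autoImplicit false

/-! Vocabulary of project 187 (S5949, S5950, S5951, S5959): Jordan chains of a nilpotent linear map. -/

namespace Cfsg.Agent.Lib.Helper87EluDefs

variable {F : Type*} [Field F] {V : Type*} [AddCommGroup V] [Module F V]

/-- `(v j, N (v j), ..., N ^ (l j - 1) (v j))`, `j < t`, is a basis of `V`, and `N ^ (l j) (v j) = 0`. -/
structure JB (N : Module.End F V) {t : ℕ} (v : Fin t → V) (l : Fin t → ℕ) : Prop where
  pos : ∀ j, 0 < l j
  kill : ∀ j, (N ^ l j) (v j) = 0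
  indep : LinearIndependent F (fun x : (Σ j : Fin t, Fin (l j)) => (N ^ (x.2 : ℕ)) (v x.1))
  span : Submodule.span F (Set.range fun x : (Σ j : Fin t, Fin (l j)) => (N ^ (x.2 : ℕ)) (v x.1)) = ⊤

/-- The multiset of block sizes. -/
def ty {t : ℕ} (l : Fin t → ℕ) : Multiset ℕ := (Finset.univ : Finset (Fin t)).val.map l

end Cfsg.Agent.Lib.Helper87EluDefs
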