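import Mathlib
import Cfsg.Agent.Lib.Helper87EluDefs
set_option autoImplicit false
open Module Cfsg.Agent.Lib.Helper87EluDefs

namespace Cfsg.Agent.Lib.Helper7EluK1

variable {F : Type*} [Field F] {V : Type*} [AddCommGroup V] [Module F V]

open Polynomial in
theorem poly_id (p : ℕ) [Fact p.Prime] [CharP F p] :
    ((X : F[X]) - 1) ^ (p - 1) = ∑ k ∈ Finset.range p, (X : F[X]) ^ k := by
  have hp : 0 < p := (Fact.out : p.Prime).pos
  have h1 : ((X : F[X]) - 1) * ((X : F[X]) - 1) ^ (p - 1)
      = ((X : F[X]) - 1) * ∑ k ∈ Finset.range p, (X : F[X]) ^ k := by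
    rw [mul_geom_sum, ← pow_succ', Nat.sub_add_cancel hp, sub_pow_char, one_pow]
  have h0 : ((X : F[X]) - 1) ≠ 0 := by
    have := Polynomial.X_sub_C_ne_zero (1 : F)
    simpa using this
  exact mul_left_cancel₀ h0 h1

theorem pow_pred_eq (p : ℕ) [Fact p.Prime] [CharP F p] (N : Module.End F V) :
    N ^ (p - 1) = ∑ k ∈ Finset.range p, (1 + N) ^ k := by
  have := congrArg (Polynomial.aeval (1 + N)) (poly_id (F := F) p)
  simpa using this

open Polynomial in
theorem one_add_pow (p : ℕ) [Fact p.Prime] [CharP F p] (N : Module.End F V) (hN : N ^ p = 0) :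
    (1 + N) ^ p = 1 := by
  have h : ((X : F[X]) - 1) ^ p = (X : F[X]) ^ p - 1 := by rw [sub_pow_char, one_pow]
  have := congrArg (Polynomial.aeval (1 + N)) h
  simp only [map_pow, map_sub, Polynomial.aeval_X, map_one, add_sub_cancel_left, hN] at this
  exact (sub_eq_zero.1 this.symm)

theorem finrank_le_rank [FiniteDimensional F V] (p : ℕ) [Fact p.Prime] [CharP F p] (N : Module.End F V)
    (hN : N ^ p = 0) {s : ℕ} (D : Fin s → Submodule F V) (hind : iSupIndep D) (hne : ∀ j, D j ≠ ⊥)
    (σ : Equiv.Perm (Fin s)) (hσ : ∀ j, (D j).map (1 + N) = D (σ j)) (j0 : Fin s) (hj0 : σ j0 ≠ j0) :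
    finrank F (D j0) ≤ finrank F ↥(LinearMap.range (N ^ (p - 1))) := by
  have hp : p.Prime := Fact.out
  have hmap : ∀ (k : ℕ) (j : Fin s), (D j).map ((1 + N) ^ k) = D (σ^[k] j) := by
    intro k
    induction k with
    | zero => intro j; simp [Module.End.one_eq_id]
    | succ k ih =>
      intro j
      rw [pow_succ, Module.End.mul_eq_comp, Submodule.map_comp, hσ, ih, Function.iterate_succ_apply]
  have hper : Function.IsPeriodicPt σ p j0 := by
    have h1 := hmap p j0
    rw [one_add_pow p N hN] at h1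
    have h2 : D j0 = D (σ^[p] j0) := by simpa [Module.End.one_eq_id] using h1
    exact (hind.injective hne h2).symm
  have hk : ∀ k, 0 < k → k < p → σ^[k] j0 ≠ j0 := by
    intro k hk0 hkp h
    have h1 : Function.IsPeriodicPt σ (k.gcd p) j0 := Function.IsPeriodicPt.gcd h hper
    have h2 : k.gcd p = 1 := by
      rw [Nat.gcd_comm]
      exact (Nat.Prime.coprime_iff_not_dvd hp).2 (fun hd => by
        have := Nat.le_of_dvd hk0 hd
        omega)
    rw [h2] at h1
    exact hj0 h1
  have hinj : ∀ u ∈ D j0, (N ^ (p - 1)) u = 0 → u = 0 := by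
    intro u hu h0
    rw [pow_pred_eq p N, LinearMap.sum_apply, Finset.range_eq_Ico,
      Finset.sum_eq_sum_Ico_succ_bot hp.pos] at h0
    simp only [pow_zero, Module.End.one_apply] at h0
    have h1 : u ∈ ⨆ (j) (_ : j ≠ j0), D j := by
      have : u = - ∑ k ∈ Finset.Ico (0 + 1) p, ((1 + N) ^ k) u := by
        rw [eq_neg_iff_add_eq_zero]; exact h0
      rw [this]
      apply Submodule.neg_mem
      apply Submodule.sum_mem
      intro k hkm
      rw [Finset.mem_Ico] at hkm
      have h3 : ((1 + N) ^ k) u ∈ D (σ^[k] j0) := by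
        rw [← hmap]
        exact Submodule.mem_map_of_mem hu
      exact Submodule.mem_iSup_of_mem (σ^[k] j0)
        (Submodule.mem_iSup_of_mem (hk k (by omega) hkm.2) h3)
    have h2 := (hind j0).le_bot ⟨hu, h1⟩
    simpa using h2
  let g : D j0 →ₗ[F] LinearMap.range (N ^ (p - 1)) :=
    (N ^ (p - 1)).rangeRestrict.domRestrict (D j0)
  apply LinearMap.finrank_le_finrank_of_injective (f := g)
  rw [← LinearMap.ker_eq_bot, LinearMap.ker_eq_bot']
  intro u hu
  apply Subtype.ext
  apply hinj u.1 u.2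
  exact congrArg Subtype.val hu

end Cfsg.Agent.Lib.Helper7EluK1
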