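import Mathlib
set_option autoImplicit false
open Module

/-! Project 187 (ELU), piece A6. -/

namespace Cfsg.Agent.Lib.Helper99EluA6

variable {F : Type*} [Field F] [Fintype F] {V : Type*} [AddCommGroup V] [Module F V] [FiniteDimensional F V]

/-- projections onto `U` correspond to linear maps from a fixed complement -/
noncomputable def projEquiv (U W0 : Submodule F V) (h : IsCompl U W0) :
    { f : V →ₗ[F] U // ∀ x : U, f x = x } ≃ (W0 →ₗ[F] U) where
  toFun f := f.1 ∘ₗ W0.subtype
  invFun φ := ⟨LinearMap.ofIsCompl h LinearMap.id φ, fun x => by simp⟩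
  left_inv f := by
    apply Subtype.ext
    apply LinearMap.ofIsCompl_eq
    · intro u
      simp [f.2 u]
    · intro u
      simp
  right_inv φ := by
    ext u
    simp

theorem card_compl (U : Submodule F V) :
    Nat.card {W : Submodule F V // IsCompl U W}
      = Fintype.card F ^ ((finrank F V - finrank F U) * finrank F U) := by
  obtain ⟨W0, h⟩ := Submodule.exists_isCompl U
  have h1 : finrank F W0 = finrank F V - finrank F U := by
    have := Submodule.finrank_add_eq_of_isCompl h
    omega
  rw [Nat.card_congr ((Submodule.isComplEquivProj U).trans (projEquiv U W0 h)),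
    Module.natCard_eq_pow_finrank (K := F), Module.finrank_linearMap, h1, Nat.card_eq_fintype_card]

/-- A6 -/
theorem dvd_pairs (r : ℕ) (hr : r.Prime) (hrq : ¬ r ∣ Fintype.card F) (m : ℕ)
    (h : r ∣ Nat.card {P : Submodule F V × Submodule F V // IsCompl P.1 P.2 ∧ finrank F P.1 = m}) :
    r ∣ Nat.card {W : Submodule F V // finrank F W = m} := by
  classical
  have : Finite V := Module.finite_of_finite F
  have : Finite (Submodule F V) := Finite.of_injective _ SetLike.coe_injective
  let e : {P : Submodule F V × Submodule F V // IsCompl P.1 P.2 ∧ finrank F P.1 = m} ≃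
      Σ U : {U : Submodule F V // finrank F U = m}, {W : Submodule F V // IsCompl U.1 W} :=
    { toFun := fun P => ⟨⟨P.1.1, P.2.2⟩, ⟨P.1.2, P.2.1⟩⟩
      invFun := fun x => ⟨(x.1.1, x.2.1), x.2.2, x.1.2⟩
      left_inv := fun P => rfl
      right_inv := fun x => rfl }
  have : Fintype {U : Submodule F V // finrank F U = m} := Fintype.ofFinite _
  rw [Nat.card_congr e, Nat.card_sigma] at h
  have h2 : ∀ U : {U : Submodule F V // finrank F U = m},
      Nat.card {W : Submodule F V // IsCompl U.1 W} = Fintype.card F ^ ((finrank F V - m) * m) := by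
    intro U
    rw [card_compl, U.2]
  rw [Finset.sum_congr rfl (fun U _ => h2 U), Finset.sum_const, smul_eq_mul, Finset.card_univ,
    ← Nat.card_eq_fintype_card] at h
  rcases (Nat.Prime.dvd_mul hr).1 h with h | h
  · exact h
  · exact absurd (hr.dvd_of_dvd_pow h) hrq

end Cfsg.Agent.Lib.Helper99EluA6
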