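import Cfsg.Agent.Lib.Helper87EluDefs
set_option autoImplicit false
open Module Cfsg.Agent.Lib.Helper87EluDefs

/-! Project 187 (ELU), piece J1: a nilpotent map has a Jordan chain basis. -/

namespace Cfsg.Agent.Lib.Helper99EluJ1

variable {F : Type*} [Field F] {V : Type*} [AddCommGroup V] [Module F V]

/-- reindexing from an arbitrary finite index type -/
theorem JB_of_fintype (N : Module.End F V) {ι : Type*} [Fintype ι] (v : ι → V) (l : ι → ℕ)
    (pos : ∀ j, 0 < l j) (kill : ∀ j, (N ^ l j) (v j) = 0)
    (indep : LinearIndependent F (fun x : (Σ j : ι, Fin (l j)) => (N ^ (x.2 : ℕ)) (v x.1)))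
    (span : Submodule.span F (Set.range fun x : (Σ j : ι, Fin (l j)) => (N ^ (x.2 : ℕ)) (v x.1)) = ⊤) :
    ∃ (t : ℕ) (v : Fin t → V) (l : Fin t → ℕ), JB N v l := by
  classical
  let e : Fin (Fintype.card ι) ≃ ι := (Fintype.equivFin ι).symm
  let E : (Σ j : Fin (Fintype.card ι), Fin (l (e j))) ≃ (Σ j : ι, Fin (l j)) :=
    Equiv.sigmaCongrLeft (β := fun j => Fin (l j)) e
  have hE : (fun x : (Σ j : Fin (Fintype.card ι), Fin (l (e j))) => (N ^ (x.2 : ℕ)) (v (e x.1)))
      = (fun x : (Σ j : ι, Fin (l j)) => (N ^ (x.2 : ℕ)) (v x.1)) ∘ E := by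
    funext x
    rfl
  refine ⟨Fintype.card ι, fun j => v (e j), fun j => l (e j), ⟨fun j => pos _, fun j => kill _, ?_, ?_⟩⟩
  · rw [hE]
    exact indep.comp _ E.injective
  · rw [hE, Set.range_comp, E.surjective.range_eq, Set.image_univ]
    exact span

/-- the triangular argument -/
theorem coeff_zero (N : Module.End F V) (m : ℕ) (hNm : N ^ m = 0) (v0 : V) (φ : Module.Dual F V)
    (hφ : φ ((N ^ (m - 1)) v0) ≠ 0) (a : Fin m → F)
    (h : ∀ i : Fin m, φ ((N ^ (i : ℕ)) (∑ k, a k • (N ^ (k : ℕ)) v0)) = 0) : a = 0 := by
  have key : ∀ k : ℕ, ∀ hk : k < m, a ⟨k, hk⟩ = 0 := by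
    intro k
    induction k using Nat.strong_induction_on with
    | _ k ih =>
      intro hk
      have h1 := h ⟨m - 1 - k, by omega⟩
      simp only [map_sum, map_smul, smul_eq_mul] at h1
      rw [Finset.sum_eq_single (⟨k, hk⟩ : Fin m)] at h1
      · simp only at h1
        rw [← Module.End.mul_apply, ← pow_add] at h1
        have : m - 1 - k + k = m - 1 := by omega
        rw [this] at h1
        exact (mul_eq_zero.1 h1).resolve_right hφ
      · intro k' _ hk'
        rcases lt_or_gt_of_ne (fun hh => hk' (Fin.ext hh) : (k' : ℕ) ≠ k) with hlt | hgt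
        · have := ih k' hlt k'.2
          simp only [Fin.eta] at this
          rw [this, zero_mul]
        · rw [← Module.End.mul_apply, ← pow_add]
          have : m - 1 - k + (k' : ℕ) = (m - 1 - k + k' - m) + m := by omega
          rw [this, pow_add, hNm, mul_zero]
          simp
      · intro hh
        exact absurd (Finset.mem_univ _) hh
  funext k
  exact key k k.2

/-- J1 -/
theorem exists_JB [FiniteDimensional F V] (N : Module.End F V) (hN : IsNilpotent N) :
    ∃ (t : ℕ) (v : Fin t → V) (l : Fin t → ℕ), JB N v l := by
  classical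
  induction hn : finrank F V using Nat.strong_induction_on generalizing V with
  | _ n ih =>
    by_cases hV : Subsingleton V
    · refine ⟨0, Fin.elim0, Fin.elim0, ⟨fun j => j.elim0, fun j => j.elim0, ?_, ?_⟩⟩
      · have : IsEmpty (Σ j : Fin 0, Fin ((Fin.elim0 : Fin 0 → ℕ) j)) := ⟨fun x => x.1.elim0⟩
        exact linearIndependent_empty_type
      · exact Subsingleton.elim _ _
    · rw [not_subsingleton_iff_nontrivial] at hV
      -- nilpotency index
      obtain ⟨m0, hm0⟩ := hN
      have hex : ∃ m, N ^ m = 0 := ⟨m0, hm0⟩
      set m := Nat.find hex with hm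
      have hNm : N ^ m = 0 := Nat.find_spec hex
      have hmpos : 0 < m := by
        rcases Nat.eq_zero_or_pos m with h0 | h0
        · exfalso
          rw [h0, pow_zero] at hNm
          exact one_ne_zero hNm
        · exact h0
      have hNm1 : N ^ (m - 1) ≠ 0 := Nat.find_min hex (by omega)
      obtain ⟨v0, hv0⟩ : ∃ v0, (N ^ (m - 1)) v0 ≠ 0 := by
        by_contra hcon
        push Not at hcon
        exact hNm1 (LinearMap.ext hcon)
      obtain ⟨φ, hφ⟩ : ∃ φ : Module.Dual F V, φ ((N ^ (m - 1)) v0) ≠ 0 := by
        by_contra hcon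
        push Not at hcon
        exact hv0 ((Module.forall_dual_apply_eq_zero_iff F _).1 hcon)
      let Ψ : V →ₗ[F] (Fin m → F) := LinearMap.pi (fun k => φ ∘ₗ (N ^ (k : ℕ)))
      let C : (Fin m → F) →ₗ[F] V := Fintype.linearCombination F (fun k : Fin m => (N ^ (k : ℕ)) v0)
      have hC : ∀ a, C a = ∑ k, a k • (N ^ (k : ℕ)) v0 := fun a => by
        simp [C, Fintype.linearCombination_apply]
      have hΨ : ∀ x k, Ψ x k = φ ((N ^ (k : ℕ)) x) := fun x k => rfl
      have hΨC : ∀ a, Ψ (C a) = 0 → a = 0 := by
        intro a ha
        apply coeff_zero N m hNm v0 φ hφ a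
        intro i
        rw [← hC, ← hΨ, ha]
        rfl
      have hinj : Function.Injective (Ψ ∘ₗ C) := by
        rw [← LinearMap.ker_eq_bot, LinearMap.ker_eq_bot']
        intro a ha
        exact hΨC a ha
      have hsurj : Function.Surjective (Ψ ∘ₗ C) := LinearMap.injective_iff_surjective.1 hinj
      have hCinj : Function.Injective C := by
        intro a b hab
        apply hinj
        simp [hab]
      let W : Submodule F V := LinearMap.ker Ψ
      have hWmem : ∀ x, x ∈ W ↔ ∀ k : Fin m, φ ((N ^ (k : ℕ)) x) = 0 := by
        intro x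
        simp only [W, LinearMap.mem_ker]
        constructor
        · intro hx k
          rw [← hΨ, hx]
          rfl
        · intro hx
          funext k
          exact hx k
      have hWinv : ∀ x ∈ W, N x ∈ W := by
        intro x hx
        rw [hWmem] at hx ⊢
        intro k
        rw [← Module.End.mul_apply, ← pow_succ]
        by_cases hk : (k : ℕ) + 1 < m
        · exact hx ⟨k + 1, hk⟩
        · have : (k : ℕ) + 1 = m := by have := k.2; omega
          rw [this, hNm]
          simp
      have hdisj : Disjoint (LinearMap.range C) W := by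
        rw [Submodule.disjoint_def]
        rintro x ⟨a, rfl⟩ hx
        have := hΨC a hx
        rw [this, map_zero]
      have hcodisj : LinearMap.range C ⊔ W = ⊤ := by
        rw [eq_top_iff]
        intro x _
        obtain ⟨a, ha⟩ := hsurj (Ψ x)
        have hx : x = C a + (x - C a) := by abel
        rw [hx]
        apply Submodule.add_mem_sup (LinearMap.mem_range_self C a)
        simp only [W, LinearMap.mem_ker, map_sub]
        rw [sub_eq_zero]
        exact ha.symm
      have hv0W : v0 ∉ W := by
        intro hh
        rw [hWmem] at hh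
        exact hφ (hh ⟨m - 1, by omega⟩)
      have hWlt : finrank F W < n := by
        rw [← hn]
        apply Submodule.finrank_lt
        intro hh
        apply hv0W
        rw [hh]
        trivial
      have hnil : IsNilpotent (N.restrict hWinv) := by
        refine ⟨m, ?_⟩
        rw [Module.End.pow_restrict]
        ext x
        simp [hNm]
      obtain ⟨t, w, l, hJB⟩ := ih (finrank F W) hWlt (N.restrict hWinv) hnil rfl
      have hpow : ∀ (k : ℕ) (x : W), (((N.restrict hWinv) ^ k) x : V) = (N ^ k) (x : V) := by
        intro k x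
        rw [Module.End.pow_restrict]
        rfl
      -- the combined family
      let v' : Unit ⊕ Fin t → V := Sum.elim (fun _ => v0) (fun j => (w j : V))
      let l' : Unit ⊕ Fin t → ℕ := Sum.elim (fun _ => m) l
      let E : (Σ x : Unit ⊕ Fin t, Fin (l' x)) ≃ (Σ _ : Unit, Fin m) ⊕ (Σ j : Fin t, Fin (l j)) :=
        Equiv.sumSigmaDistrib (fun x => Fin (l' x))
      let f1 : (Σ _ : Unit, Fin m) → V := fun x => (N ^ (x.2 : ℕ)) v0
      let f2 : (Σ j : Fin t, Fin (l j)) → V := fun x => (N ^ (x.2 : ℕ)) (w x.1 : V)
      have hE : (fun x : (Σ x : Unit ⊕ Fin t, Fin (l' x)) => (N ^ (x.2 : ℕ)) (v' x.1))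
          = (Sum.elim f1 f2) ∘ E := by
        funext x
        rcases x with ⟨x | x, k⟩ <;> rfl
      have hf2 : f2 = W.subtype ∘ (fun x : (Σ j : Fin t, Fin (l j)) => ((N.restrict hWinv) ^ (x.2 : ℕ)) (w x.1)) := by
        funext x
        simp only [f2, Function.comp, Submodule.subtype_apply, hpow]
      have hspan2 : Submodule.span F (Set.range f2) = W := by
        rw [hf2, Set.range_comp, ← Submodule.map_span, hJB.span, Submodule.map_top, Submodule.range_subtype]
      have hind2 : LinearIndependent F f2 := by
        rw [hf2]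
        exact hJB.indep.map' W.subtype (Submodule.ker_subtype W)
      let e1 : (Σ _ : Unit, Fin m) ≃ Fin m := Equiv.uniqueSigma (fun _ : Unit => Fin m)
      have hf1 : f1 = (fun k : Fin m => (N ^ (k : ℕ)) v0) ∘ e1 := by
        funext x
        rfl
      have hind0 : LinearIndependent F (fun k : Fin m => (N ^ (k : ℕ)) v0) := by
        rw [Fintype.linearIndependent_iff]
        intro a ha
        have : C a = C 0 := by rw [hC, ha, map_zero]
        have h0 := hCinj this
        intro i
        rw [h0]
        rfl
      have hind1 : LinearIndependent F f1 := by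
        rw [hf1]
        exact hind0.comp _ e1.injective
      have hspan1 : Submodule.span F (Set.range f1) = LinearMap.range C := by
        rw [hf1, Set.range_comp, e1.surjective.range_eq, Set.image_univ]
        simp only [C]
        rw [Fintype.range_linearCombination]
      apply JB_of_fintype N v' l'
      · rintro (x | j)
        · exact hmpos
        · exact hJB.pos j
      · rintro (x | j)
        · simp only [v', l', Sum.elim_inl, hNm]
          rfl
        · simp only [v', l', Sum.elim_inr]
          rw [← hpow, hJB.kill]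
          rfl
      · rw [hE]
        apply LinearIndependent.comp _ _ E.injective
        apply LinearIndependent.sum_type hind1 hind2
        rw [hspan1, hspan2]
        exact hdisj
      · rw [hE, Set.range_comp, E.surjective.range_eq, Set.image_univ, Set.Sum.elim_range,
          Submodule.span_union, hspan1, hspan2]
        exact hcodisj

end Cfsg.Agent.Lib.Helper99EluJ1
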