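import Cfsg.Agent.Lib.Helper87EluDefs
import Cfsg.Agent.Lib.Helper99EluJ8
set_option autoImplicit false
open Module Cfsg.Agent.Lib.Helper87EluDefs

/-! Project 187 (ELU), piece J2. -/

namespace Cfsg.Agent.Lib.Helper99EluJ2

open Cfsg.Agent.Lib.Helper99EluJ8

variable {F : Type*} [Field F] {V : Type*} [AddCommGroup V] [Module F V]

theorem range_pow_eq (N : Module.End F V) {t : ℕ} (v : Fin t → V) (l : Fin t → ℕ)
    (h : JB N v l) (a : ℕ) :
    LinearMap.range (N ^ a) = Submodule.span F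
      (Set.range fun x : (Σ j : Fin t, Fin (l j - a)) => (N ^ ((x.2 : ℕ) + a)) (v x.1)) := by
  apply le_antisymm
  · rw [LinearMap.range_eq_map, ← h.span, Submodule.map_span, Submodule.span_le]
    rintro _ ⟨_, ⟨⟨j, k⟩, rfl⟩, rfl⟩
    by_cases hk : (k : ℕ) + a < l j
    · apply Submodule.subset_span
      refine ⟨⟨j, ⟨k, by omega⟩⟩, ?_⟩
      simp only
      rw [← Module.End.mul_apply, ← pow_add, add_comm]
    · have : (N ^ a) ((N ^ (k : ℕ)) (v j)) = (N ^ (a + k - l j)) ((N ^ l j) (v j)) := by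
        rw [← Module.End.mul_apply, ← Module.End.mul_apply, ← pow_add, ← pow_add]
        congr 2
        omega
      simp only
      rw [this, h.kill, map_zero]
      exact Submodule.zero_mem _
  · rw [Submodule.span_le]
    rintro _ ⟨⟨j, k⟩, rfl⟩
    refine ⟨(N ^ (k : ℕ)) (v j), ?_⟩
    simp only
    rw [← Module.End.mul_apply, ← pow_add, add_comm]

theorem finrank_range_pow [FiniteDimensional F V] (N : Module.End F V) {t : ℕ} (v : Fin t → V)
    (l : Fin t → ℕ) (h : JB N v l) (a : ℕ) :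
    finrank F ↥(LinearMap.range (N ^ a)) = ∑ j, (l j - a) := by
  rw [range_pow_eq N v l h a]
  have hinj : Function.Injective
      (fun x : (Σ j : Fin t, Fin (l j - a)) =>
        (⟨x.1, ⟨(x.2 : ℕ) + a, by have := x.2.2; omega⟩⟩ : Σ j : Fin t, Fin (l j))) := by
    rintro ⟨j, k⟩ ⟨j', k'⟩ hx
    simp only [Sigma.mk.injEq] at hx
    obtain ⟨rfl, h2⟩ := hx
    have h3 := eq_of_heq h2
    simp only [Fin.mk.injEq] at h3
    have : k = k' := by
      apply Fin.ext
      omega
    rw [this]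
  have h1 := h.indep.comp _ hinj
  have h2 := finrank_span_eq_card h1
  have h3 : ((fun x : (Σ j : Fin t, Fin (l j)) => (N ^ (x.2 : ℕ)) (v x.1)) ∘
      (fun x : (Σ j : Fin t, Fin (l j - a)) =>
        (⟨x.1, ⟨(x.2 : ℕ) + a, by have := x.2.2; omega⟩⟩ : Σ j : Fin t, Fin (l j))))
      = fun x : (Σ j : Fin t, Fin (l j - a)) => (N ^ ((x.2 : ℕ) + a)) (v x.1) := by
    funext x
    rfl
  rw [h3] at h2
  rw [h2, Fintype.card_sigma]
  simp

/-- J2 -/
theorem finrank_ker_pow [FiniteDimensional F V] (N : Module.End F V) {t : ℕ} (v : Fin t → V) (l : Fin t → ℕ)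
    (h : JB N v l) (a : ℕ) : finrank F ↥(LinearMap.ker (N ^ a)) = ((ty l).map fun x => min x a).sum := by
  rw [ty_map_sum]
  have h1 := LinearMap.finrank_range_add_finrank_ker (N ^ a)
  rw [finrank_range_pow N v l h a, finrank_eq_sum N v l h] at h1
  have h2 : ∑ j, (l j - a) + ∑ j, min (l j) a = ∑ j, l j := by
    rw [← Finset.sum_add_distrib]
    apply Finset.sum_congr rfl
    intro j _
    omega
  omega

end Cfsg.Agent.Lib.Helper99EluJ2
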