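import Mathlib
set_option autoImplicit false
open Module

namespace Cfsg.Agent.Lib.Helper13EluJ6

variable {F : Type*} [Field F] {V : Type*} [AddCommGroup V] [Module F V]

theorem finrank_ker_restrict (f : Module.End F V) (U : Submodule F V) (hU : ∀ x ∈ U, f x ∈ U) :
    finrank F ↥(LinearMap.ker (f.restrict hU)) = finrank F ↥(U ⊓ LinearMap.ker f) := by
  rw [LinearMap.ker_restrict, ← Submodule.map_comap_subtype,
    Submodule.finrank_map_subtype_eq]

theorem finrank_ker_add [FiniteDimensional F V] (f : Module.End F V) (U W : Submodule F V) (hUW : IsCompl U W)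
    (hU : ∀ x ∈ U, f x ∈ U) (hW : ∀ x ∈ W, f x ∈ W) :
    finrank F ↥(LinearMap.ker f) = finrank F ↥(LinearMap.ker (f.restrict hU))
      + finrank F ↥(LinearMap.ker (f.restrict hW)) := by
  rw [finrank_ker_restrict, finrank_ker_restrict]
  have h1 := Submodule.finrank_sup_add_finrank_inf_eq (U ⊓ LinearMap.ker f) (W ⊓ LinearMap.ker f)
  have h2 : (U ⊓ LinearMap.ker f) ⊓ (W ⊓ LinearMap.ker f) = ⊥ := by
    rw [eq_bot_iff]
    intro x hx
    have : x ∈ U ⊓ W := ⟨hx.1.1, hx.2.1⟩
    rw [hUW.inf_eq_bot] at this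
    exact this
  have h3 : (U ⊓ LinearMap.ker f) ⊔ (W ⊓ LinearMap.ker f) = LinearMap.ker f := by
    apply le_antisymm
    · exact sup_le inf_le_right inf_le_right
    · intro x hx
      have hx' : x ∈ U ⊔ W := by rw [hUW.sup_eq_top]; trivial
      obtain ⟨u, hu, w, hw, rfl⟩ := Submodule.mem_sup.1 hx'
      have hfx : f u + f w = 0 := by
        have := LinearMap.mem_ker.1 hx
        rwa [map_add] at this
      have hfu : f u ∈ U ⊓ W := by
        refine ⟨hU u hu, ?_⟩
        have : f u = - f w := eq_neg_of_add_eq_zero_left hfx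
        rw [this]
        exact W.neg_mem (hW w hw)
      rw [hUW.inf_eq_bot] at hfu
      have hfu0 : f u = 0 := hfu
      have hfw0 : f w = 0 := by rwa [hfu0, zero_add] at hfx
      exact Submodule.mem_sup.2 ⟨u, ⟨hu, hfu0⟩, w, ⟨hw, hfw0⟩, rfl⟩
  rw [h2, h3, finrank_bot, add_zero] at h1
  exact h1

/-- J6 -/
theorem finrank_ker_pow_add [FiniteDimensional F V] (N : Module.End F V) (U W : Submodule F V) (hUW : IsCompl U W)
    (hU : ∀ x ∈ U, N x ∈ U) (hW : ∀ x ∈ W, N x ∈ W) (a : ℕ) :
    finrank F ↥(LinearMap.ker (N ^ a)) = finrank F ↥(LinearMap.ker ((N.restrict hU) ^ a))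
      + finrank F ↥(LinearMap.ker ((N.restrict hW) ^ a)) := by
  rw [Module.End.pow_restrict a hU, Module.End.pow_restrict a hW]
  exact finrank_ker_add (N ^ a) U W hUW _ _

end Cfsg.Agent.Lib.Helper13EluJ6
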