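import Cfsg.Agent.Lib.Helper87EluDefs
import Cfsg.Agent.Lib.Helper99EluJ1
import Cfsg.Agent.Lib.Helper99EluJ2
import Cfsg.Agent.Lib.Helper99EluJ8
import Cfsg.Agent.Lib.Helper13EluJ3
import Cfsg.Agent.Lib.Helper13EluJ6
set_option autoImplicit false
open Module Cfsg.Agent.Lib.Helper87EluDefs

/-! Project 187 (ELU), piece J7. -/

namespace Cfsg.Agent.Lib.Helper99EluJ7

variable {F : Type*} [Field F] {V : Type*} [AddCommGroup V] [Module F V]

/-- J7 -/
theorem exists_le_ty [FiniteDimensional F V] (N : Module.End F V) {t : ℕ} (v : Fin t → V) (l : Fin t → ℕ)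
    (h : JB N v l) (U W : Submodule F V) (hUW : IsCompl U W) (hU : U.map N ≤ U) (hW : W.map N ≤ W) :
    ∃ ν : Multiset ℕ, ν ≤ ty l ∧ ν.sum = finrank F U := by
  have hU' : ∀ x ∈ U, N x ∈ U := fun x hx => hU (Submodule.mem_map_of_mem hx)
  have hW' : ∀ x ∈ W, N x ∈ W := fun x hx => hW (Submodule.mem_map_of_mem hx)
  obtain ⟨_, hpos, hnil⟩ := Helper99EluJ8.ty_facts N v l h
  have hN0 : N ^ (ty l).sum = 0 := by
    rw [hnil]
    intro x hx
    exact Multiset.le_sum_of_mem hx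
  have hnilU : IsNilpotent (N.restrict hU') := by
    refine ⟨(ty l).sum, ?_⟩
    rw [Module.End.pow_restrict]
    ext x
    simp [hN0]
  have hnilW : IsNilpotent (N.restrict hW') := by
    refine ⟨(ty l).sum, ?_⟩
    rw [Module.End.pow_restrict]
    ext x
    simp [hN0]
  obtain ⟨t1, v1, l1, h1⟩ := Helper99EluJ1.exists_JB _ hnilU
  obtain ⟨t2, v2, l2, h2⟩ := Helper99EluJ1.exists_JB _ hnilW
  obtain ⟨hs1, hpos1, _⟩ := Helper99EluJ8.ty_facts _ v1 l1 h1
  obtain ⟨_, hpos2, _⟩ := Helper99EluJ8.ty_facts _ v2 l2 h2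
  have heq : ty l = ty l1 + ty l2 := by
    apply Helper13EluJ3.multiset_eq_of_min_sums _ _ hpos
    · intro x hx
      rcases Multiset.mem_add.1 hx with hx | hx
      · exact hpos1 x hx
      · exact hpos2 x hx
    · intro a
      rw [Multiset.map_add, Multiset.sum_add, ← Helper99EluJ2.finrank_ker_pow N v l h a,
        ← Helper99EluJ2.finrank_ker_pow _ v1 l1 h1 a, ← Helper99EluJ2.finrank_ker_pow _ v2 l2 h2 a]
      exact Helper13EluJ6.finrank_ker_pow_add N U W hUW hU' hW' a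
  refine ⟨ty l1, ?_, hs1⟩
  rw [heq]
  exact Multiset.le_add_right _ _

end Cfsg.Agent.Lib.Helper99EluJ7
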