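import Cfsg.Agent.Lib.Helper87EluMain
import Cfsg.Agent.Lib.Helper99EluA6
import Cfsg.Agent.Lib.Helper99EluJ1
import Cfsg.Agent.Lib.Helper99EluJ2
import Cfsg.Agent.Lib.Helper99EluJ7
import Cfsg.Agent.Lib.Helper99EluJ8
import Cfsg.Agent.Lib.Helper13EluJ4
import Cfsg.Agent.Lib.Helper13EluJ5
import Cfsg.Agent.Lib.Helper13EluJ9
import Cfsg.Agent.Lib.Helper13EluK2
import Cfsg.Agent.Lib.Helper7EluK1
import Cfsg.Prelude.Def_GeometricClasses
set_option autoImplicit false
open Module Polynomial Cfsg.Agent.Lib.Helper87EluDefs Cfsg.Agent.Lib.Helper87EluTools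

namespace Cfsg.Agent.Lib.Helper87EluUni

open Cfsg.Agent.Lib.Helper99EluJ1 (exists_JB)
open Cfsg.Agent.Lib.Helper99EluJ2 (finrank_ker_pow)
open Cfsg.Agent.Lib.Helper13EluJ4 (exists_model)
open Cfsg.Agent.Lib.Helper13EluJ5 (exists_summand)
open Cfsg.Agent.Lib.Helper99EluJ7 (exists_le_ty)
open Cfsg.Agent.Lib.Helper99EluJ8 (ty_facts)
open Cfsg.Agent.Lib.Helper13EluJ9 (two_parts)
open Cfsg.Agent.Lib.Helper7EluK1 (finrank_le_rank)
open Cfsg.Agent.Lib.Helper13EluK2 (rank_eq_count)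
open Cfsg.Agent.Lib.Helper99EluA6 (dvd_pairs)

section
variable {F : Type*} [Field F] {V : Type*} [AddCommGroup V] [Module F V]

theorem add_one_pow_char (p : ℕ) [Fact p.Prime] [CharP F p] (N : Module.End F V) :
    (1 + N) ^ p = 1 + N ^ p := by
  have h : ((1 + X : F[X])) ^ p = 1 + X ^ p := by
    rw [add_pow_char, one_pow]
  have h2 := congrArg (aeval N) h
  simpa using h2

theorem sub_one_pow_char (p : ℕ) [Fact p.Prime] [CharP F p] (f : Module.End F V) :
    (f - 1) ^ p = f ^ p - 1 := by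
  have h : ((X - 1 : F[X])) ^ p = X ^ p - 1 := by
    rw [sub_pow_char, one_pow]
  have h2 := congrArg (aeval f) h
  simpa using h2

theorem map_le_of_add_one (N : Module.End F V) (U : Submodule F V) (h : U.map (1 + N) ≤ U) : U.map N ≤ U := by
  rintro _ ⟨u, hu, rfl⟩
  have h1 : (1 + N) u ∈ U := h (Submodule.mem_map_of_mem hu)
  have h2 : N u = (1 + N) u - u := by simp
  rw [h2]
  exact U.sub_mem h1 hu

end

section
variable {F : Type*} [Field F] [Fintype F] {n : ℕ}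

theorem exists_sl_of_nilp (p : ℕ) [Fact p.Prime] [CharP F p] (N : Module.End F (Fin n → F)) (hN : N ^ p = 0) :
    ∃ x : Matrix.SpecialLinearGroup (Fin n) F, Matrix.toLin' (x : Matrix (Fin n) (Fin n) F) = 1 + N ∧
      ((x ^ p : Matrix.SpecialLinearGroup (Fin n) F) : Matrix (Fin n) (Fin n) F) = (1 : F) • 1 := by
  have h1 : (1 + N) ^ p = 1 := by rw [add_one_pow_char, hN, add_zero]
  have hdet : LinearMap.det (1 + N) = 1 := by
    have h2 : (LinearMap.det (1 + N)) ^ p = 1 := by rw [← map_pow, h1, map_one]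
    have h3 : (LinearMap.det (1 + N) - 1) ^ p = 0 := by rw [sub_pow_char, h2, one_pow, sub_self]
    exact sub_eq_zero.mp (pow_eq_zero_iff (Fact.out : p.Prime).ne_zero |>.mp h3)
  exact exists_sl_of_end (1 + N) hdet p 1 (by rw [h1, one_smul])

/-- the element attached to a partition: either the partition is trivial or we get a non scalar element -/
theorem exists_unipotent (p : ℕ) [Fact p.Prime] [CharP F p] (μ : Multiset ℕ) (hμ : ∀ a ∈ μ, 0 < a ∧ a ≤ p)
    (hsum : μ.sum = n) :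
    (μ = Multiset.replicate n 1) ∨
    ∃ (N : Module.End F (Fin n → F)) (t : ℕ) (v : Fin t → (Fin n → F)) (l : Fin t → ℕ)
      (x : Matrix.SpecialLinearGroup (Fin n) F), JB N v l ∧ ty l = μ ∧ N ^ p = 0 ∧
      Matrix.toLin' (x : Matrix (Fin n) (Fin n) F) = 1 + N ∧
      ((x ^ p : Matrix.SpecialLinearGroup (Fin n) F) : Matrix (Fin n) (Fin n) F) = (1 : F) • 1 ∧
      (∀ z : F, (x : Matrix (Fin n) (Fin n) F) ≠ z • 1) := by
  obtain ⟨N, t, v, l, hJB, hty⟩ := exists_model (F := F) n μ (fun a ha => (hμ a ha).1) hsum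
  obtain ⟨-, -, hpow⟩ := ty_facts N v l hJB
  have hN : N ^ p = 0 := (hpow p).mpr (fun a ha => (hμ a (hty ▸ ha)).2)
  obtain ⟨x, hx, hxp⟩ := exists_sl_of_nilp p N hN
  by_cases hsc : ∃ z : F, (x : Matrix (Fin n) (Fin n) F) = z • 1
  · left
    obtain ⟨z, hz⟩ := hsc
    have hNz : N = (z - 1) • 1 := by
      have h1 : (1 : Module.End F (Fin n → F)) + N = z • 1 := by
        rw [← hx, hz, map_smul, Matrix.toLin'_one]; rfl
      have h2 : N = z • (1 : Module.End F (Fin n → F)) - 1 := by rw [← h1]; simp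
      rw [h2]; module
    have hN1 : N ^ 1 = 0 := by
      rw [pow_one]
      rw [hNz, _root_.smul_pow, one_pow] at hN
      by_cases hn : n = 0
      · subst hn
        exact Subsingleton.elim _ _
      · have hne : (1 : Module.End F (Fin n → F)) ≠ 0 := by
          have : Nonempty (Fin n) := ⟨⟨0, Nat.pos_of_ne_zero hn⟩⟩
          exact one_ne_zero
        have h2 := (smul_eq_zero.mp hN).resolve_right hne
        have h3 : z - 1 = 0 := pow_eq_zero_iff (Fact.out : p.Prime).ne_zero |>.mp h2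
        rw [hNz, h3, zero_smul]
    have hone : ∀ a ∈ μ, a = 1 := by
      intro a ha
      have h1 := (hpow 1).mp hN1 a (hty ▸ ha)
      have h2 := (hμ a ha).1
      omega
    have h4 := Multiset.eq_replicate_card.mpr hone
    rw [h4] at hsum ⊢
    rw [Multiset.sum_replicate, smul_eq_mul, mul_one] at hsum
    rw [hsum]
  · right
    push Not at hsc
    exact ⟨N, t, v, l, x, hJB, hty, hN, hx, hxp, hsc⟩

end

section main
variable {F : Type*} [Field F] [Fintype F] {n : ℕ}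

/-- every partition contains a subpartition of `m`, if all elements of order `p` fix a pair -/
theorem sub_partition_of_fix (p : ℕ) [Fact p.Prime] [CharP F p] (m : ℕ) (hmn : m ≤ n)
    (H : ∀ x : Matrix.SpecialLinearGroup (Fin n) F,
      (∃ c : F, ((x ^ p : Matrix.SpecialLinearGroup (Fin n) F) : Matrix (Fin n) (Fin n) F) = c • (1 : Matrix (Fin n) (Fin n) F)) →
      (∀ c : F, (x : Matrix (Fin n) (Fin n) F) ≠ c • (1 : Matrix (Fin n) (Fin n) F)) →
      ∃ U W : Submodule F (Fin n → F), IsCompl U W ∧ Module.finrank F ↥U = m ∧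
        U.map (Matrix.toLin' (x : Matrix (Fin n) (Fin n) F)) ≤ U ∧ W.map (Matrix.toLin' (x : Matrix (Fin n) (Fin n) F)) ≤ W)
    (μ : Multiset ℕ) (hμ : ∀ a ∈ μ, 0 < a ∧ a ≤ p) (hsum : μ.sum = n) :
    ∃ ν : Multiset ℕ, ν ≤ μ ∧ ν.sum = m := by
  rcases exists_unipotent (F := F) p μ hμ hsum with h | ⟨N, t, v, l, x, hJB, hty, -, hx, hxp, hsc⟩
  · refine ⟨Multiset.replicate m 1, ?_, by simp⟩
    rw [h]
    exact Multiset.replicate_le_replicate 1 |>.mpr hmn
  · obtain ⟨U, W, hUW, hUm, hU, hW⟩ := H x ⟨1, hxp⟩ hsc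
    rw [hx] at hU hW
    obtain ⟨ν, hν, hνs⟩ := exists_le_ty N v l hJB U W hUW (map_le_of_add_one N U hU) (map_le_of_add_one N W hW)
    exact ⟨ν, hty ▸ hν, by rw [hνs, hUm]⟩

/-- conversely -/
theorem fix_of_sub_partition (p : ℕ) [Fact p.Prime] [CharP F p] (m : ℕ) (hn : 0 < n)
    (hpart : ∀ μ : Multiset ℕ, (∀ a ∈ μ, 0 < a ∧ a ≤ p) → μ.sum = n → ∃ ν : Multiset ℕ, ν ≤ μ ∧ ν.sum = m)
    (x : Matrix.SpecialLinearGroup (Fin n) F) (c : F)
    (hc : ((x ^ p : Matrix.SpecialLinearGroup (Fin n) F) : Matrix (Fin n) (Fin n) F) = c • (1 : Matrix (Fin n) (Fin n) F)) :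
    ∃ U W : Submodule F (Fin n → F), IsCompl U W ∧ Module.finrank F ↥U = m ∧
        U.map (Matrix.toLin' (x : Matrix (Fin n) (Fin n) F)) ≤ U ∧ W.map (Matrix.toLin' (x : Matrix (Fin n) (Fin n) F)) ≤ W := by
  have hp : p.Prime := Fact.out
  have hg := toLin_pow_eq x p c hc
  have hc0 := scalar_ne_zero hn x p c hc
  have hpq : ¬ p ∣ Fintype.card F - 1 := by
    obtain ⟨k, _, hk⟩ := FiniteField.card F p
    intro h
    have h1 : p ∣ Fintype.card F := by rw [hk]; exact dvd_pow_self p k.ne_zero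
    have h2 : 1 ≤ Fintype.card F := Fintype.card_pos
    have h3 : p ∣ 1 := by
      have := Nat.dvd_sub h1 h
      rwa [Nat.sub_sub_self h2] at this
    exact hp.one_lt.ne' (Nat.dvd_one.mp h3)
  obtain ⟨d, hd⟩ := Cfsg.Agent.Lib.Helper87EluD.exists_root p hpq c
  have hd0 : d ≠ 0 := by
    rintro rfl
    rw [zero_pow hp.ne_zero] at hd
    exact hc0 hd.symm
  set g : Module.End F (Fin n → F) := Matrix.toLin' (x : Matrix (Fin n) (Fin n) F) with hgdef
  let N : Module.End F (Fin n → F) := d⁻¹ • g - 1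
  have hN : N ^ p = 0 := by
    simp only [N]
    rw [sub_one_pow_char, _root_.smul_pow, hg, smul_smul, ← hd, inv_pow, inv_mul_cancel₀ (pow_ne_zero _ hd0),
      one_smul, sub_self]
  obtain ⟨t, v, l, hJB⟩ := exists_JB N ⟨p, hN⟩
  obtain ⟨hs, hpos, hpow⟩ := ty_facts N v l hJB
  rw [finrank_fin_fun] at hs
  obtain ⟨ν, hν, hνs⟩ := hpart (ty l) (fun a ha => ⟨hpos a ha, (hpow p).mp hN a ha⟩) hs
  obtain ⟨U, W, hUW, hU, hW, hUm⟩ := exists_summand N v l hJB ν hν
  have hinv : ∀ Y : Submodule F (Fin n → F), Y.map N ≤ Y → Y.map g ≤ Y := by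
    rintro Y hY _ ⟨u, hu, rfl⟩
    have h1 : N u ∈ Y := hY (Submodule.mem_map_of_mem hu)
    have h2 : g u = d • (N u + u) := by
      simp only [N, LinearMap.sub_apply, LinearMap.smul_apply, Module.End.one_apply, sub_add_cancel, smul_smul,
        mul_inv_cancel₀ hd0, one_smul]
    rw [h2]
    exact Y.smul_mem d (Y.add_mem h1 hu)
  exact ⟨U, W, hUW, by rw [hUm, hνs], hinv U hU, hinv W hW⟩

theorem S5950 {p : ℕ} [Fact p.Prime] [CharP F p] {q : ℕ} (hq : Fintype.card F = q)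
    (n m : ℕ) (hn : 3 ≤ n) (hm : 1 ≤ m) (hmn : 2 * m < n)
    (r : ℕ) [Fact r.Prime]
    (hrΩ : r ∣ Nat.card {P : Submodule F (Fin n → F) × Submodule F (Fin n → F) // IsCompl P.1 P.2 ∧ Module.finrank F ↥P.1 = m}) :
    (∀ x : Matrix.SpecialLinearGroup (Fin n) F,
      (∃ c : F, ((x ^ r : Matrix.SpecialLinearGroup (Fin n) F) : Matrix (Fin n) (Fin n) F) = c • (1 : Matrix (Fin n) (Fin n) F)) →
      (∀ c : F, (x : Matrix (Fin n) (Fin n) F) ≠ c • (1 : Matrix (Fin n) (Fin n) F)) →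
      ∃ U W : Submodule F (Fin n → F), IsCompl U W ∧ Module.finrank F ↥U = m ∧
        U.map (Matrix.toLin' (x : Matrix (Fin n) (Fin n) F)) ≤ U ∧ W.map (Matrix.toLin' (x : Matrix (Fin n) (Fin n) F)) ≤ W) ↔
    ((r = p ∧ 2 < p ∧ (∀ μ : Multiset ℕ, (∀ a ∈ μ, 0 < a ∧ a ≤ p) → μ.sum = n → ∃ ν : Multiset ℕ, ν ≤ μ ∧ ν.sum = m)) ∨
     (r = p ∧ p = 2 ∧ (Odd n ∨ Even m)) ∨
     (r ≠ p ∧
      ((orderOf (q : ZMod r) = 1 ∧ (r ∣ m ∨ (padicValNat r n ≤ padicValNat r (q - 1) ∧ (r = 2 → Even n → q % 4 = 1)))) ∨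
       (2 ≤ orderOf (q : ZMod r) ∧ orderOf (q : ZMod r) ≤ m ∧ m % orderOf (q : ZMod r) ≤ n % orderOf (q : ZMod r))))) := by
  have hp : p.Prime := Fact.out
  by_cases hrp : r = p
  · subst hrp
    constructor
    · intro H
      have hsub := sub_partition_of_fix (F := F) r m (by omega) H
      by_cases h2 : r = 2
      · right; left
        refine ⟨rfl, h2, ?_⟩
        by_contra hcon
        push Not at hcon
        obtain ⟨hne, hmo⟩ := hcon
        rw [Nat.not_odd_iff_even] at hne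
        rw [Nat.not_even_iff_odd] at hmo
        obtain ⟨k, hk⟩ := hne
        obtain ⟨ν, hν, hνs⟩ := hsub (Multiset.replicate k 2)
          (fun a ha => by rw [Multiset.eq_of_mem_replicate ha]; omega)
          (by rw [Multiset.sum_replicate, smul_eq_mul]; omega)
        obtain ⟨j, -, rfl⟩ := Multiset.le_replicate_iff.mp hν
        rw [Multiset.sum_replicate, smul_eq_mul] at hνs
        obtain ⟨i, hi⟩ := hmo
        omega
      · left
        exact ⟨rfl, by have := hp.two_le; omega, hsub⟩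
    · rintro (⟨-, -, hpart⟩ | ⟨-, h2, hpar⟩ | ⟨hne, -⟩) x ⟨c, hc⟩ -
      · exact fix_of_sub_partition r m (by omega) hpart x c hc
      · refine fix_of_sub_partition r m (by omega) ?_ x c hc
        intro μ hμ hs
        exact two_parts μ (fun a ha => by rw [← h2]; exact hμ a ha) m (by omega) (by rw [hs]; exact hpar)
      · exact absurd rfl hne
  · obtain ⟨hrq, hrF⟩ := Cfsg.Agent.Lib.Helper87EluMain.prime_facts (F := F) (p := p) r hrp
    have hrΩ' := dvd_pairs r Fact.out hrq m hrΩ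
    have h49 := Cfsg.Agent.Lib.Helper87EluMain.S5949 (p := p) hq n m (by omega) hm (by omega) r hrΩ'
    have hiff : (∀ x : Matrix.SpecialLinearGroup (Fin n) F,
      (∃ c : F, ((x ^ r : Matrix.SpecialLinearGroup (Fin n) F) : Matrix (Fin n) (Fin n) F) = c • (1 : Matrix (Fin n) (Fin n) F)) →
      (∀ c : F, (x : Matrix (Fin n) (Fin n) F) ≠ c • (1 : Matrix (Fin n) (Fin n) F)) →
      ∃ U W : Submodule F (Fin n → F), IsCompl U W ∧ Module.finrank F ↥U = m ∧
        U.map (Matrix.toLin' (x : Matrix (Fin n) (Fin n) F)) ≤ U ∧ W.map (Matrix.toLin' (x : Matrix (Fin n) (Fin n) F)) ≤ W) ↔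
      (∀ x : Matrix.SpecialLinearGroup (Fin n) F,
      (∃ c : F, ((x ^ r : Matrix.SpecialLinearGroup (Fin n) F) : Matrix (Fin n) (Fin n) F) = c • (1 : Matrix (Fin n) (Fin n) F)) →
      (∀ c : F, (x : Matrix (Fin n) (Fin n) F) ≠ c • (1 : Matrix (Fin n) (Fin n) F)) →
      ∃ W : Submodule F (Fin n → F), Module.finrank F ↥W = m ∧ W.map (Matrix.toLin' (x : Matrix (Fin n) (Fin n) F)) ≤ W) := by
      constructor
      · intro H x hx1 hx2
        obtain ⟨U, W, -, hUm, hU, -⟩ := H x hx1 hx2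
        exact ⟨U, hUm, hU⟩
      · intro H x hx1 hx2
        obtain ⟨U, hUm, hU⟩ := H x hx1 hx2
        obtain ⟨c, hc⟩ := hx1
        obtain ⟨Y, -, hY, hdis, hsup⟩ := Cfsg.Agent.Lib.Helper87EluB3.exists_rel_compl r hrF _ c
          (scalar_ne_zero (by omega) x r c hc) (toLin_pow_eq x r c hc) U ⊤ le_top hU le_top
        exact ⟨U, Y, ⟨disjoint_iff.mpr hdis, codisjoint_iff.mpr hsup⟩, hUm, hU, hY⟩
    rw [hiff, h49]
    constructor
    · intro h; right; right; exact h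
    · rintro (⟨h, -⟩ | ⟨h, -⟩ | h)
      · exact absurd h hrp
      · exact absurd h hrp
      · exact h

end main

section deco
variable {F : Type*} [Field F] [Fintype F]

theorem S5959 {p : ℕ} [Fact p.Prime] [CharP F p]
    (n a t : ℕ) (hat : n = a * t) (ht : 2 ≤ t)
    (h : ∀ x : Matrix.SpecialLinearGroup (Fin n) F,
      (∃ z : F, ((x ^ p : Matrix.SpecialLinearGroup (Fin n) F) : Matrix (Fin n) (Fin n) F) = z • (1 : Matrix (Fin n) (Fin n) F)) →
      (∀ z : F, (x : Matrix (Fin n) (Fin n) F) ≠ z • (1 : Matrix (Fin n) (Fin n) F)) →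
      ∃ D : Fin t → Submodule F (Fin n → F), Cfsg.Geo.IsMDecomposition a D ∧
        ∃ σ : Equiv.Perm (Fin t), ∀ j, (D j).map (Matrix.toLin' (x : Matrix (Fin n) (Fin n) F)) = D (σ j)) :
    (∀ μ : Multiset ℕ, (∀ b ∈ μ, 0 < b ∧ b ≤ p) → μ.sum = n → μ.count p < a → ∃ ν : Multiset ℕ, ν ≤ μ ∧ ν.sum = a) := by
  intro μ hμ hsum hcount
  have hp : p.Prime := Fact.out
  rcases exists_unipotent (F := F) p μ hμ hsum with h1 | ⟨N, s, v, l, x, hJB, hty, hN, hx, hxp, hsc⟩
  · refine ⟨Multiset.replicate a 1, ?_, by simp⟩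
    rw [h1]
    refine Multiset.replicate_le_replicate 1 |>.mpr ?_
    rw [hat]
    exact Nat.le_mul_of_pos_right a (by omega)
  · obtain ⟨D, hD, σ, hσ⟩ := h x ⟨1, hxp⟩ hsc
    rw [hx] at hσ
    have hne : ∀ j, D j ≠ ⊥ := by
      intro j hj
      have h2 := hD.finrank_eq j
      rw [hj, finrank_bot] at h2
      have := hD.pos
      omega
    have hfix : ∀ j, σ j = j := by
      intro j0
      by_contra hj0
      have h3 := finrank_le_rank p N hN D hD.indep hne σ hσ j0 hj0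
      rw [hD.finrank_eq j0, rank_eq_count p hp.pos N v l hJB (fun b hb => (hμ b (hty ▸ hb)).2)
        (finrank_ker_pow N v l hJB), hty] at h3
      omega
    let j0 : Fin t := ⟨0, by omega⟩
    have hinv : ∀ j, (D j).map N ≤ D j := fun j =>
      map_le_of_add_one N (D j) (by rw [hσ j, hfix j])
    have hcompl : IsCompl (D j0) (⨆ (j) (_ : j ≠ j0), D j) := by
      refine ⟨hD.indep j0, ?_⟩
      rw [codisjoint_iff, ← iSup_split_single D j0]
      exact hD.iSup_eq_top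
    have hW : (⨆ (j) (_ : j ≠ j0), D j).map N ≤ ⨆ (j) (_ : j ≠ j0), D j := by
      simp only [Submodule.map_iSup]
      exact iSup₂_mono fun j _ => hinv j
    obtain ⟨ν, hν, hνs⟩ := exists_le_ty N v l hJB (D j0) _ hcompl (hinv j0) hW
    exact ⟨ν, hty ▸ hν, by rw [hνs, hD.finrank_eq j0]⟩

end deco

end Cfsg.Agent.Lib.Helper87EluUni
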