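import Mathlib
import Cfsg.Agent.Lib.Helper94NdDefs

set_option autoImplicit false
set_option linter.unusedSectionVars false
open Module Cfsg
open Cfsg.Agent.Lib.Helper99Symp Cfsg.Agent.Lib.H90SwDefs Cfsg.Agent.Lib.Helper94NdDefs

/-! Row S5956, piece N-B1 (notes/helper94/ELU7.md). -/

namespace Cfsg.Agent.Lib.Helper94NdB1

variable {F V : Type*} [Field F] [AddCommGroup V] [Module F V] [FiniteDimensional F V]
  {B : LinearMap.BilinForm F V} {g : Module.End F V}

/-- N-B1 -/
theorem exists_four (h : Iso B g) (h2 : (2 : F) = 0) (hg : g * g = 1) {Q : Submodule F V}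
    (hQ : Good B g ⊤ Q) (hz : ∀ v ∈ Q, B v (g v) = 0) (v : V) (hv : v ∈ Q) (hgv : g v ≠ v) :
    ∃ H, Good B g Q H ∧ finrank F H = 4 := by
  have hgg : ∀ v, g (g v) = v := by
    intro v
    have := LinearMap.congr_fun hg v
    simpa using this
  have hgQ : ∀ v ∈ Q, g v ∈ Q := fun v hv => hQ.2.1 (Submodule.mem_map_of_mem hv)
  have hneg : ∀ a : F, -a = a := by
    intro a
    have : a + a = 0 := by linear_combination a * h2
    exact neg_eq_of_add_eq_zero_left this
  have hsymm : ∀ u w, B u w = B w u := fun u w => by rw [skew h.alt u w, hneg]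
  have hadj : ∀ u w, B (g u) w = B u (g w) := by
    intro u w
    rw [← h.pres u (g w), hgg]
  -- the vector `g v - v`
  have hn0 : g v - v ≠ 0 := sub_ne_zero.2 hgv
  obtain ⟨w, hw, hb⟩ := hQ.2.2 (g v - v) (Q.sub_mem (hgQ v hv) hv) hn0
  set b := B (g v - v) w with hbdef
  -- Gram data in the basis v, g v, w, g w
  have e1 : B v (g v) = 0 := hz v hv
  have e2 : B w (g w) = 0 := hz w hw
  have e3 : B (g v) w = B v w + b := by
    rw [hbdef, map_sub, LinearMap.sub_apply]; ring
  have e4 : B v (g w) = B v w + b := by rw [← hadj, e3]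
  have e5 : B (g v) (g w) = B v w := h.pres v w
  let f : Fin 4 → V := ![v, g v, w, g w]
  have hfQ : ∀ i, f i ∈ Q := by
    intro i
    fin_cases i
    · exact hv
    · exact hgQ v hv
    · exact hw
    · exact hgQ w hw
  have key : ∀ c : Fin 4 → F, (∀ i, B (∑ j, c j • f j) (f i) = 0) → c = 0 := by
    intro c hc
    have h0 := hc 0
    have h1 := hc 1
    have h3 := hc 2
    have h4 := hc 3
    simp only [Fin.sum_univ_four, f, Matrix.cons_val_zero, Matrix.cons_val_one, Matrix.cons_val,
      map_add, map_smul, LinearMap.add_apply, LinearMap.smul_apply, smul_eq_mul, h.alt] at h0 h1 h3 h4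
    rw [hsymm (g v) v, e1, hsymm w v, hsymm (g w) v, e4] at h0
    rw [e1, hsymm w (g v), e3, hsymm (g w) (g v), e5] at h1
    rw [e3, hsymm (g w) w, e2] at h3
    rw [e4, e5, e2] at h4
    have k1 : (c 2 + c 3) * b = 0 := by linear_combination h0 + h1 - (c 2 + c 3) * (B v w) * h2 
    have k2 : (c 0 + c 1) * b = 0 := by linear_combination h3 + h4 - (c 0 + c 1) * (B v w) * h2
    have k1' : c 2 + c 3 = 0 := (mul_eq_zero.1 k1).resolve_right hb
    have k2' : c 0 + c 1 = 0 := (mul_eq_zero.1 k2).resolve_right hb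
    have k3 : c 3 * b = 0 := by linear_combination h0 - (B v w) * k1'
    have k4 : c 1 * b = 0 := by linear_combination h3 - (B v w) * k2'
    have k3' : c 3 = 0 := (mul_eq_zero.1 k3).resolve_right hb
    have k4' : c 1 = 0 := (mul_eq_zero.1 k4).resolve_right hb
    funext i
    fin_cases i
    · show c 0 = 0
      linear_combination k2' - k4'
    · exact k4'
    · show c 2 = 0
      linear_combination k1' - k3'
    · exact k3'
  have hli : LinearIndependent F f := by
    rw [Fintype.linearIndependent_iff]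
    intro c hc i
    have := key c (fun i => by rw [hc]; simp)
    rw [this]
    rfl
  refine ⟨Submodule.span F (Set.range f), ⟨?_, ?_, ?_⟩, ?_⟩
  · rw [Submodule.span_le]
    rintro _ ⟨i, rfl⟩
    exact hfQ i
  · rw [Submodule.map_span_le]
    rintro _ ⟨i, rfl⟩
    fin_cases i
    · exact Submodule.subset_span ⟨1, rfl⟩
    · show g (g v) ∈ _
      rw [hgg]
      exact Submodule.subset_span ⟨0, rfl⟩
    · exact Submodule.subset_span ⟨3, rfl⟩
    · show g (g w) ∈ _
      rw [hgg]
      exact Submodule.subset_span ⟨2, rfl⟩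
  · intro u hu hu0
    obtain ⟨c, rfl⟩ := (Submodule.mem_span_range_iff_exists_fun F).1 hu
    by_contra hcon
    push Not at hcon
    apply hu0
    have := key c (fun i => hcon (f i) (Submodule.subset_span ⟨i, rfl⟩))
    rw [this]
    simp
  · rw [finrank_span_eq_card hli]
    simp

end Cfsg.Agent.Lib.Helper94NdB1
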