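import Mathlib
import Cfsg.Agent.Lib.Helper94NdDefs

set_option autoImplicit false
set_option linter.unusedSectionVars false
open Module Cfsg Matrix
open Cfsg.Agent.Lib.Helper99Symp Cfsg.Agent.Lib.H90SwDefs Cfsg.Agent.Lib.Helper94NdDefs
  Cfsg.Agent.Lib.Helper99SympForm

/-! Row S5956, piece N-B3 (notes/helper94/ELU7.md). -/

namespace Cfsg.Agent.Lib.Helper94NdB3

variable {F : Type*} [Field F] {d : ℕ}

local notation "VV" => (Fin d ⊕ Fin d → F)
local notation "MM" => Matrix (Fin d ⊕ Fin d) (Fin d ⊕ Fin d) F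

/-- N-B3 -/
theorem exists_a_involution (h2 : (2 : F) = 0) (hd : Even d) (hd0 : 0 < d) :
    ∃ x : Matrix.symplecticGroup (Fin d) F, x * x = 1 ∧ (∀ z : F, (x : MM) ≠ z • (1 : MM)) ∧
      (∀ v : VV, sympB d v (Matrix.toLin' (x : MM) v) = 0) ∧
      LinearMap.ker (Matrix.toLin' (x : MM) - 1) ≤ LinearMap.range (Matrix.toLin' (x : MM) - 1) := by
  classical
  obtain ⟨e, he⟩ := hd
  let ε : Fin e ⊕ Fin e ≃ Fin d := finSumFinEquiv.trans (finCongr he.symm)
  let τ : Equiv.Perm (Fin d) := ε.symm.trans ((Equiv.sumComm _ _).trans ε)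
  have hττ : ∀ i, τ (τ i) = i := by
    intro i
    simp only [τ, Equiv.trans_apply, Equiv.symm_apply_apply]
    rcases h : ε.symm i with a | a <;> simp [← h]
  have hτne : ∀ i, τ i ≠ i := by
    intro i h
    simp only [τ, Equiv.trans_apply] at h
    rw [← Equiv.eq_symm_apply] at h
    rcases h' : ε.symm i with a | a <;> rw [h'] at h <;> simp at h
  set S : Matrix (Fin d) (Fin d) F := τ.permMatrix F with hS
  have hτinv : τ⁻¹ = τ := by
    apply Equiv.ext
    intro i
    rw [Equiv.Perm.inv_eq_iff_eq, hττ]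
  have hSt : Sᵀ = S := by
    rw [hS, Matrix.transpose_permMatrix, hτinv]
  set X : MM := Matrix.fromBlocks 1 S 0 1 with hX
  have hX2 : X * X = 1 := by
    rw [hX, Matrix.fromBlocks_multiply]
    simp only [mul_one, mul_zero, add_zero, one_mul, zero_mul, zero_add]
    have : S + S = 0 := by rw [← two_smul F S, h2, zero_smul]
    rw [this, Matrix.fromBlocks_one]
  have hXv : ∀ v, X *ᵥ v = Sum.elim ((v ∘ Sum.inl) + (v ∘ Sum.inr) ∘ τ) (v ∘ Sum.inr) := by
    intro v
    rw [hX, Matrix.fromBlocks_mulVec, hS, Matrix.permMatrix_mulVec]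
    simp
  have hmem : X ∈ Matrix.symplecticGroup (Fin d) F := by
    rw [SymplecticGroup.mem_iff, hX, Matrix.J, Matrix.fromBlocks_multiply, Matrix.fromBlocks_transpose,
      Matrix.fromBlocks_multiply, hSt]
    simp
  refine ⟨⟨X, hmem⟩, Subtype.ext hX2, ?_, ?_, ?_⟩
  · intro z hz
    change X = z • (1 : MM) at hz
    have h1 := congrFun (congrFun hz (Sum.inl ⟨0, hd0⟩)) (Sum.inr (τ ⟨0, hd0⟩))
    simp [hX, hS, Equiv.Perm.permMatrix, Equiv.toPEquiv_apply] at h1
  · intro v
    change sympB d v (Matrix.toLin' X v) = 0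
    rw [sympB_apply, Matrix.toLin'_apply, hXv, Cfsg.Agent.Lib.Helper17Symp.sympForm_eq_sum]
    simp only [Sum.elim_inl, Sum.elim_inr, Pi.add_apply, Function.comp_apply, mul_add]
    have h3 : ∑ i : Fin d, v (Sum.inr i) * v (Sum.inr (τ i)) = 0 := by
      apply Finset.sum_involution (fun i _ => τ i)
      · intro i _
        rw [hττ, mul_comm (v (Sum.inr (τ i))), ← two_mul, h2, zero_mul]
      · intro i _ _
        exact hτne i
      · intro i _
        exact Finset.mem_univ _
      · intro i _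
        exact hττ i
    have h4 : ∀ i : Fin d, v (Sum.inr i) * v (Sum.inl i) + v (Sum.inr i) * v (Sum.inr (τ i))
        - v (Sum.inl i) * v (Sum.inr i) = v (Sum.inr i) * v (Sum.inr (τ i)) := fun i => by ring
    simp only [h4]
    exact h3
  · intro v hv
    change v ∈ LinearMap.ker (Matrix.toLin' X - 1) at hv
    change v ∈ LinearMap.range (Matrix.toLin' X - 1)
    rw [LinearMap.mem_ker, LinearMap.sub_apply, Matrix.toLin'_apply, hXv] at hv
    have hr : ∀ i, v (Sum.inr i) = 0 := by
      intro i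
      have h1 := congrFun hv (Sum.inl (τ i))
      simpa [hττ] using h1
    refine ⟨Sum.elim 0 ((v ∘ Sum.inl) ∘ τ), ?_⟩
    rw [LinearMap.sub_apply, Matrix.toLin'_apply, hXv]
    funext k
    rcases k with k | k
    · simp [hττ]
    · simp [hr]

end Cfsg.Agent.Lib.Helper94NdB3
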