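import Mathlib
import Cfsg.Agent.Lib.Helper94NdDefs
import Cfsg.Agent.Lib.Helper3NdG1

set_option autoImplicit false
set_option linter.unusedSectionVars false
open Module Cfsg
open Cfsg.Agent.Lib.Helper99Symp Cfsg.Agent.Lib.H90SwDefs Cfsg.Agent.Lib.Helper94NdDefs
  Cfsg.Agent.Lib.Helper3NdG1

/-! Row S5956, pieces N-C2, N-B2 (notes/helper94/ELU7.md). -/

namespace Cfsg.Agent.Lib.Helper94NdInd

variable {F V : Type*} [Field F] [AddCommGroup V] [Module F V] [FiniteDimensional F V]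
  {B : LinearMap.BilinForm F V} {g : Module.End F V}

theorem good_bot (Q : Submodule F V) : Good B g Q ⊥ :=
  ⟨bot_le, by rw [Submodule.map_bot], fun u hu hu0 => absurd ((Submodule.mem_bot F).1 hu) hu0⟩

theorem Good.mono {Q Q' W : Submodule F V} (h : Good B g Q' W) (hle : Q' ≤ Q) : Good B g Q W :=
  ⟨h.1.trans hle, h.2⟩

theorem ne_bot_of_pos {Q : Submodule F V} (h : 0 < finrank F Q) : Q ≠ ⊥ := by
  rintro rfl
  simp at h

/-- N-C2 -/
theorem exists_of_planes (h : Iso B g)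
    (hpl : ∀ Q, Good B g ⊤ Q → Q ≠ ⊥ → ∃ H, Good B g Q H ∧ finrank F H = 2) (e : ℕ) (he : Even e)
    (Q : Submodule F V) (hQ : Good B g ⊤ Q) (hle : e ≤ finrank F Q) :
    ∃ W, Good B g Q W ∧ finrank F W = e := by
  obtain ⟨k, rfl⟩ := he
  induction k generalizing Q with
  | zero => exact ⟨⊥, good_bot Q, by simp⟩
  | succ k ih =>
    obtain ⟨H, hH, hf⟩ := hpl Q hQ (ne_bot_of_pos (by omega))
    obtain ⟨hP, hPT, -, -, -, hfin⟩ := Iso.good_perp h hQ hH
    obtain ⟨W, hW, hWf⟩ := ih (perpIn B H Q) hPT (by omega)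
    obtain ⟨h1, h3⟩ := Iso.good_sup h hH hW
    exact ⟨H ⊔ W, h1, by rw [h3, hf, hWf]; ring⟩

/-- N-B2 -/
theorem exists_of_two_four (h : Iso B g)
    (hpl : ∀ Q, Good B g ⊤ Q → Q ≠ ⊥ → ∃ H, Good B g Q H ∧ (finrank F H = 2 ∨ finrank F H = 4))
    (n : ℕ) : ∀ (Q : Submodule F V), finrank F Q = n → Good B g ⊤ Q → ∀ e, Even e → e ≤ n →
      (e % 4 = 0 ∨ n % 4 = 2) → ∃ W, Good B g Q W ∧ finrank F W = e := by
  induction n using Nat.strong_induction_on with
  | _ n ih =>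
    intro Q hn hQ e he hle hcond
    rcases Nat.eq_zero_or_pos e with rfl | hpos
    · exact ⟨⊥, good_bot Q, by simp⟩
    obtain ⟨H, hH, hf⟩ := hpl Q hQ (ne_bot_of_pos (by omega))
    obtain ⟨hP, hPT, -, -, -, hfin⟩ := Iso.good_perp h hQ hH
    obtain ⟨n2, hn2⟩ := Cfsg.Agent.Lib.H90SwP37.even_finrank h.alt hQ.2.2
    obtain ⟨e2, he2⟩ := he
    have use : ∀ e', Even e' → e' + finrank F H = e → e' ≤ finrank F ↥(perpIn B H Q) →
        (e' % 4 = 0 ∨ finrank F ↥(perpIn B H Q) % 4 = 2) → ∃ W, Good B g Q W ∧ finrank F W = e := by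
      intro e' he' hsum hle' hc'
      obtain ⟨W, hW, hWf⟩ := ih _ (by omega) (perpIn B H Q) rfl hPT e' he' hle' hc'
      obtain ⟨h1, h3⟩ := Iso.good_sup h hH hW
      exact ⟨H ⊔ W, h1, by rw [h3, hWf]; omega⟩
    have skip : e ≤ finrank F ↥(perpIn B H Q) →
        (e % 4 = 0 ∨ finrank F ↥(perpIn B H Q) % 4 = 2) → ∃ W, Good B g Q W ∧ finrank F W = e := by
      intro hle' hc'
      obtain ⟨W, hW, hWf⟩ := ih _ (by omega) (perpIn B H Q) rfl hPT e ⟨e2, he2⟩ hle' hc'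
      exact ⟨W, Good.mono hW hP.1, hWf⟩
    rcases hf with hf | hf
    · -- a plane
      by_cases h4 : e % 4 = 0
      · by_cases hn4 : n % 4 = 0
        · exact use (e - 2) ⟨e2 - 1, by omega⟩ (by omega) (by omega) (Or.inr (by omega))
        · exact skip (by omega) (Or.inl h4)
      · exact use (e - 2) ⟨e2 - 1, by omega⟩ (by omega) (by omega) (Or.inl (by omega))
    · by_cases h4 : 4 ≤ e
      · exact use (e - 4) ⟨e2 - 2, by omega⟩ (by omega) (by omega) (by omega)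
      · exact skip (by omega) (Or.inr (by omega))

end Cfsg.Agent.Lib.Helper94NdInd
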