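import Mathlib
import Cfsg.Agent.Lib.Helper3NdG1
import Cfsg.Agent.Lib.Helper94NdPlane
import Cfsg.Agent.Lib.Helper94NdInd
import Cfsg.Agent.Lib.Helper94NdB1
import Cfsg.Agent.Lib.Helper94NdB3
import Cfsg.Agent.Lib.Helper94NdB4
import Cfsg.Agent.Lib.Helper38NdT1
import Cfsg.Agent.Lib.Helper38NdT2
import Cfsg.Agent.Lib.Helper38NdT4
import Cfsg.Agent.Lib.Helper3NdPEEL
import Cfsg.Agent.Lib.Helper38NdAIND
import Cfsg.Agent.Lib.Helper3NdD1
import Cfsg.Agent.Lib.Helper94NdD2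
import Cfsg.Agent.Lib.Helper38NdCTSUM
import Cfsg.Agent.Lib.Helper3NdCTAR
import Cfsg.Agent.Lib.Helper38NdREAL
import Cfsg.Agent.Lib.Helper38NdMEM
import Cfsg.Agent.Lib.Helper87EluUni

set_option autoImplicit false
set_option linter.unusedSectionVars false
open Module Cfsg
open Cfsg.Agent.Lib.Helper99Symp Cfsg.Agent.Lib.H90SwDefs Cfsg.Agent.Lib.Helper99SympForm
  Cfsg.Agent.Lib.Helper48RankSeq Cfsg.Agent.Lib.Helper94NdDefs Cfsg.Agent.Lib.Helper3NdG1 Cfsg.Agent.Lib.Helper94NdPlane Cfsg.Agent.Lib.Helper94NdInd Cfsg.Agent.Lib.Helper94NdB1 Cfsg.Agent.Lib.Helper94NdB3 Cfsg.Agent.Lib.Helper94NdB4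
  Cfsg.Agent.Lib.Helper38NdT1 Cfsg.Agent.Lib.Helper38NdT2 Cfsg.Agent.Lib.Helper38NdT4 Cfsg.Agent.Lib.Helper3NdPEEL Cfsg.Agent.Lib.Helper38NdAIND Cfsg.Agent.Lib.Helper3NdD1
  Cfsg.Agent.Lib.Helper94NdD2 Cfsg.Agent.Lib.Helper38NdCTSUM Cfsg.Agent.Lib.Helper3NdCTAR Cfsg.Agent.Lib.Helper38NdREAL Cfsg.Agent.Lib.Helper38NdMEM
  Cfsg.Agent.Lib.H90SwMat

namespace Cfsg.Agent.Lib.Helper94NdAsm

variable {F : Type*} [Field F] {d : ℕ}

local notation "VV" => (Fin d ⊕ Fin d → F)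
local notation "MM" => Matrix (Fin d ⊕ Fin d) (Fin d ⊕ Fin d) F

/-- the conclusion of the row for one element -/
def Fix (d m : ℕ) (x : Matrix (Fin d ⊕ Fin d) (Fin d ⊕ Fin d) F) : Prop :=
  ∃ W : Submodule F (Fin d ⊕ Fin d → F), finrank F ↥W = m ∧
    (∀ u ∈ W, u ≠ 0 → ∃ v ∈ W, Cfsg.sympForm d F u v ≠ 0) ∧ W.map (Matrix.toLin' x) ≤ W

theorem nondegOn_iff (W : Submodule F VV) :
    NondegOn (sympB d) W ↔ ∀ u ∈ W, u ≠ 0 → ∃ v ∈ W, Cfsg.sympForm d F u v ≠ 0 := by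
  unfold NondegOn
  simp only [sympB_apply]

theorem sq_of_scalar (hd : 0 < d) (y : Matrix.symplecticGroup (Fin d) F) (z : F)
    (hy : (y : MM) = z • (1 : MM)) : z * z = 1 := by
  have hu : (Pi.single (Sum.inl ⟨0, hd⟩) 1 : VV) ≠ 0 := by
    intro h
    have := congrFun h (Sum.inl ⟨0, hd⟩)
    simp at this
  obtain ⟨v, hv⟩ := sympForm_nondeg d _ hu
  have h1 := sympForm_mulVec d y.2 (Pi.single (Sum.inl ⟨0, hd⟩) 1) v
  rw [hy] at h1
  simp only [Matrix.smul_mulVec, Matrix.one_mulVec] at h1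
  rw [← sympB_apply, ← sympB_apply, map_smul, map_smul, LinearMap.smul_apply, smul_eq_mul,
    smul_eq_mul, ← mul_assoc] at h1
  rw [← sympB_apply] at hv
  exact mul_right_cancel₀ hv (by rw [h1, one_mul])

theorem iso_of_sp (x : Matrix.symplecticGroup (Fin d) F) (z : F) (hz : z * z = 1) :
    Iso (sympB d) (z • Matrix.toLin' (x : MM)) where
  alt v := by rw [sympB_apply]; exact sympForm_self d v
  pres u v := by
    rw [LinearMap.smul_apply, LinearMap.smul_apply, map_smul, map_smul, LinearMap.smul_apply,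
      smul_eq_mul, smul_eq_mul, ← mul_assoc, hz, one_mul, sympB_apply, sympB_apply,
      Matrix.toLin'_apply, Matrix.toLin'_apply]
    exact sympForm_mulVec d x.2 u v
  inj := by
    intro u v huv
    have hz0 : z ≠ 0 := by
      rintro rfl
      simp at hz
    simp only [LinearMap.smul_apply] at huv
    have h1 := smul_right_injective VV hz0 huv
    rw [Matrix.toLin'_apply, Matrix.toLin'_apply] at h1
    have h2 := congrArg (fun w => ((x⁻¹ : Matrix.symplecticGroup (Fin d) F) : MM).mulVec w) h1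
    simp only [Matrix.mulVec_mulVec] at h2
    have h3 : ((x⁻¹ : Matrix.symplecticGroup (Fin d) F) : MM) * (x : MM) = 1 := by
      exact congrArg (Subtype.val) (inv_mul_cancel x)
    rwa [h3, Matrix.one_mulVec, Matrix.one_mulVec] at h2

theorem map_smul_le {z : F} (hz0 : z ≠ 0) (f : Module.End F VV) (W : Submodule F VV) :
    W.map (z • f) ≤ W ↔ W.map f ≤ W := by
  constructor
  · rintro h _ ⟨w, hw, rfl⟩
    have h1 : (z • f) w ∈ W := h (Submodule.mem_map_of_mem hw)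
    have h2 : f w = z⁻¹ • (z • f) w := by
      rw [LinearMap.smul_apply, smul_smul, inv_mul_cancel₀ hz0, one_smul]
    rw [h2]
    exact W.smul_mem _ h1
  · rintro h _ ⟨w, hw, rfl⟩
    rw [LinearMap.smul_apply]
    exact W.smul_mem _ (h (Submodule.mem_map_of_mem hw))

theorem fix_of_good {m : ℕ} (x : MM) {z : F} (hz0 : z ≠ 0) {Q W : Submodule F VV}
    (hW : Good (sympB d) (z • Matrix.toLin' x) Q W) (hm : finrank F W = m) : Fix d m x :=
  ⟨W, hm, (nondegOn_iff W).1 hW.2.2, (map_smul_le hz0 _ W).1 hW.2.1⟩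

theorem good_top (g : Module.End F VV) : Good (sympB d) g ⊤ ⊤ :=
  ⟨le_refl _, le_top, nondegOn_top⟩

theorem finrank_top' : finrank F (⊤ : Submodule F VV) = 2 * d := by
  rw [finrank_top, Module.finrank_fintype_fun_eq_card]
  simp [two_mul]

theorem iso_of_sp' (x : Matrix.symplecticGroup (Fin d) F) : Iso (sympB d) (Matrix.toLin' (x : MM)) := by
  have := iso_of_sp x 1 (one_mul 1)
  rwa [one_smul] at this

theorem fix_of_good' {m : ℕ} (x : MM) {Q W : Submodule F VV}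
    (hW : Good (sympB d) (Matrix.toLin' x) Q W) (hm : finrank F W = m) : Fix d m x :=
  ⟨W, hm, (nondegOn_iff W).1 hW.2.2, hW.2.1⟩

theorem toLin_sq (x : Matrix.symplecticGroup (Fin d) F) (z : F)
    (hz : ((x ^ 2 : ↥(Matrix.symplecticGroup (Fin d) F)) : MM) = z • (1 : MM)) :
    (Matrix.toLin' (x : MM) : Module.End F VV) * Matrix.toLin' (x : MM) = z • 1 := by
  rw [← pow_two, toLin_pow, hz, map_smul, Matrix.toLin'_one]
  rfl

/-- `r = 2 ≠ p` -/
theorem caseC (h2 : (2 : F) ≠ 0) (hd : 0 < d) (m : ℕ) (hme : Even m) (hm : m ≤ 2 * d)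
    (x : Matrix.symplecticGroup (Fin d) F) (z : F)
    (hz : ((x ^ 2 : ↥(Matrix.symplecticGroup (Fin d) F)) : MM) = z • (1 : MM)) : Fix d m (x : MM) := by
  have hzz := sq_of_scalar hd (x ^ 2) z hz
  have hz1 : z = 1 ∨ z = -1 := by
    have : (z - 1) * (z + 1) = 0 := by linear_combination hzz
    rcases mul_eq_zero.1 this with h | h
    · left; linear_combination h
    · right; linear_combination h
  have hiso := iso_of_sp' x
  have hgg := toLin_sq x z hz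
  have hpl : ∀ Q, Good (sympB d) (Matrix.toLin' (x : MM)) ⊤ Q → Q ≠ ⊥ →
      ∃ H, Good (sympB d) (Matrix.toLin' (x : MM)) Q H ∧ finrank F H = 2 := by
    intro Q hQ h0
    rcases hz1 with rfl | rfl
    · exact exists_plane_one hiso h2 (by rw [hgg, one_smul]) hQ h0
    · exact exists_plane_neg hiso h2 hgg hQ h0
  obtain ⟨W, hW, hWm⟩ := exists_of_planes hiso hpl m hme ⊤ (good_top _) (by rw [finrank_top']; exact hm)
  exact fix_of_good' _ hW hWm

/-- `r = p = 2`, sufficiency -/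
theorem caseB_mpr (h2 : (2 : F) = 0) (hd : 0 < d) (m : ℕ) (hme : Even m) (hm : m ≤ 2 * d)
    (hcond : (2 * d) % 4 = 2 ∨ m % 4 = 0)
    (x : Matrix.symplecticGroup (Fin d) F) (z : F)
    (hz : ((x ^ 2 : ↥(Matrix.symplecticGroup (Fin d) F)) : MM) = z • (1 : MM)) : Fix d m (x : MM) := by
  have hzz := sq_of_scalar hd (x ^ 2) z hz
  have hz1 : z = 1 := by
    have : (z - 1) * (z - 1) = 0 := by linear_combination hzz + (1 - z) * h2
    have := mul_self_eq_zero.1 this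
    linear_combination this
  subst hz1
  have hiso := iso_of_sp' x
  have hgg : (Matrix.toLin' (x : MM) : Module.End F VV) * Matrix.toLin' (x : MM) = 1 := by
    rw [toLin_sq x 1 hz, one_smul]
  have hpl : ∀ Q, Good (sympB d) (Matrix.toLin' (x : MM)) ⊤ Q → Q ≠ ⊥ →
      ∃ H, Good (sympB d) (Matrix.toLin' (x : MM)) Q H ∧ (finrank F H = 2 ∨ finrank F H = 4) := by
    intro Q hQ h0
    by_cases h1 : ∃ v ∈ Q, sympB d v (Matrix.toLin' (x : MM) v) ≠ 0
    · obtain ⟨v, hv, hne⟩ := h1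
      obtain ⟨H, hH, hf⟩ := exists_plane_of_ne hiso 1 (by rw [hgg, one_smul]) hQ.2.1 v hv hne
      exact ⟨H, hH, Or.inl hf⟩
    · push Not at h1
      by_cases h3 : ∃ v ∈ Q, Matrix.toLin' (x : MM) v ≠ v
      · obtain ⟨v, hv, hne⟩ := h3
        obtain ⟨H, hH, hf⟩ := exists_four hiso h2 hgg hQ h1 v hv hne
        exact ⟨H, hH, Or.inr hf⟩
      · push Not at h3
        obtain ⟨H, hHQ, hHN, hf⟩ := Cfsg.Agent.Lib.H90SwP37.exists_plane hiso.alt hQ.2.2 h0
        refine ⟨H, ⟨hHQ, ?_, hHN⟩, Or.inl hf⟩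
        rintro _ ⟨w, hw, rfl⟩
        rw [h3 w (hHQ hw)]
        exact hw
  obtain ⟨W, hW, hWm⟩ := exists_of_two_four hiso hpl (2 * d) ⊤ finrank_top' (good_top _) m hme hm
    hcond.symm
  exact fix_of_good' _ hW hWm

/-- `r = p = 2`, necessity -/
theorem caseB_mp (h2 : (2 : F) = 0) (hd : 0 < d) (m : ℕ) (hme : Even m)
    (H : ∀ x : ↥(Matrix.symplecticGroup (Fin d) F),
      (∃ z : F, ((x ^ 2 : ↥(Matrix.symplecticGroup (Fin d) F)) : MM) = z • (1 : MM)) →
      (∀ z : F, (x : MM) ≠ z • (1 : MM)) → Fix d m (x : MM)) :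
    (2 * d) % 4 = 2 ∨ m % 4 = 0 := by
  by_contra hcon
  push Not at hcon
  have hde : Even d := by
    rcases Nat.even_or_odd d with h | h
    · exact h
    · obtain ⟨k, rfl⟩ := h
      omega
  obtain ⟨x, hxx, hns, hz, hker⟩ := exists_a_involution (F := F) h2 hde hd
  obtain ⟨W, hWm, hWN, hWx⟩ := H x ⟨1, by rw [pow_two, hxx]; simp⟩ hns
  have hgg : (Matrix.toLin' (x : MM) : Module.End F VV) * Matrix.toLin' (x : MM) = 1 := by
    rw [toLin_sq x 1 (by rw [pow_two, hxx]; simp), one_smul]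
  have := finrank_mod_four (iso_of_sp' x) h2 hgg hz hker nondegOn_top
    (W := W) ⟨le_top, hWx, (nondegOn_iff W).2 hWN⟩
  rw [hWm] at this
  exact hcon.2 this

/-- `r ≠ p` odd, sufficiency -/
theorem caseD_mpr [Fintype F] {r : ℕ} [Fact r.Prime] (hr2 : r ≠ 2) (hr : ¬ r ∣ Fintype.card F)
    (hrF : (r : F) ≠ 0) (hd : 0 < d) (m : ℕ) (hme : Even m) (hm : m ≤ 2 * d)
    (hmod : m % cc F r ≤ (2 * d) % cc F r)
    (x : Matrix.symplecticGroup (Fin d) F) (z : F)
    (hz : ((x ^ r : ↥(Matrix.symplecticGroup (Fin d) F)) : MM) = z • (1 : MM)) : Fix d m (x : MM) := by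
  obtain ⟨hz0, hctx⟩ := ctx_of_scalar hr2 hr hrF hd x z hz
  have hfin : finrank F VV = 2 * d := by
    rw [Module.finrank_fintype_fun_eq_card]
    simp [two_mul]
  obtain ⟨W, hWg, hWN, hWm⟩ := exists_good_of_mod hctx nondegOn_top m hme (by rw [hfin]; exact hm)
    (by rw [hfin]; exact hmod)
  exact ⟨W, hWm, (nondegOn_iff W).1 hWN, (map_smul_le hz0 _ W).1 hWg⟩

/-- `r ≠ p` odd, necessity -/
theorem caseD_mp [Fintype F] {r : ℕ} [Fact r.Prime] (hr2 : r ≠ 2) (hr : ¬ r ∣ Fintype.card F)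
    (hrF : (r : F) ≠ 0) (m : ℕ) (hme : Even m) (hm : m ≤ 2 * d)
    (hrΩ : r ∣ Nat.card {W : Submodule F VV // finrank F ↥W = m ∧
      (∀ u ∈ W, u ≠ 0 → ∃ v ∈ W, Cfsg.sympForm d F u v ≠ 0)})
    (H : ∀ x : ↥(Matrix.symplecticGroup (Fin d) F),
      (∃ z : F, ((x ^ r : ↥(Matrix.symplecticGroup (Fin d) F)) : MM) = z • (1 : MM)) →
      (∀ z : F, (x : MM) ≠ z • (1 : MM)) → Fix d m (x : MM)) :
    cc F r ≤ m ∧ m % cc F r ≤ (2 * d) % cc F r := by
  obtain ⟨j, rfl⟩ := hme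
  have hlt : (2 * d) % cc F r < 2 * j := by
    obtain ⟨s, hs⟩ := card_frames_eq (F := F) (d := d) j
    apply mod_lt_of_dvd hr j (by omega)
    rw [hs]
    apply Dvd.dvd.mul_right
    have e : {W : Submodule F VV // finrank F ↥W = j + j ∧
        (∀ u ∈ W, u ≠ 0 → ∃ v ∈ W, Cfsg.sympForm d F u v ≠ 0)}
        = {W : Submodule F VV // finrank F ↥W = 2 * j ∧ NondegOn (sympB d) W} := by
      congr 1
      funext W
      rw [nondegOn_iff, two_mul]
    rw [← e]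
    exact hrΩ
  have hc : cc F r ≤ 2 * d := by
    by_contra hcon
    push Not at hcon
    rw [Nat.mod_eq_of_lt hcon] at hlt
    omega
  obtain ⟨x, hxr, hns, hx⟩ := exists_max_elt (F := F) (d := d) hr2 hr hrF hc
  obtain ⟨W, hWm, hWN, hWx⟩ := H x ⟨1, by rw [hxr]; simp⟩ hns
  have h1 := hx W hWx ((nondegOn_iff W).2 hWN)
  rw [hWm] at h1
  refine ⟨?_, h1⟩
  by_contra hcon
  push Not at hcon
  rw [Nat.mod_eq_of_lt hcon] at h1
  omega

theorem hasTy_top_of_rankSeq (A : MM) (μ : Multiset ℕ) (h0 : 0 ∉ μ) (hμ : RankSeq A μ) :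
    HasTy (Matrix.toLin' A - 1 : Module.End F VV) ⊤ μ := by
  refine ⟨h0, fun k => ?_⟩
  rw [← hμ k, Submodule.map_top]
  have e : (Matrix.toLin' A - 1 : Module.End F VV) = Matrix.toLin' (A - 1) := by
    rw [map_sub, Matrix.toLin'_one]
    rfl
  rw [e]
  exact Cfsg.Agent.Lib.Helper48RankSeq.finrank_range_pow (A - 1) k

theorem map_sub_one_le (g : Module.End F VV) {W : Submodule F VV} (h : W.map g ≤ W) :
    W.map (g - 1) ≤ W := by
  rintro _ ⟨w, hw, rfl⟩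
  rw [LinearMap.sub_apply]
  exact W.sub_mem (h (Submodule.mem_map_of_mem hw)) hw

/-- `r = p` odd, necessity -/
theorem caseA_mp [Fintype F] (p : ℕ) [Fact p.Prime] [CharP F p] (m : ℕ) (hme : Even m) (hm : m ≤ 2 * d)
    (H : ∀ x : ↥(Matrix.symplecticGroup (Fin d) F),
      (∃ z : F, ((x ^ p : ↥(Matrix.symplecticGroup (Fin d) F)) : MM) = z • (1 : MM)) →
      (∀ z : F, (x : MM) ≠ z • (1 : MM)) → Fix d m (x : MM))
    (μ : Multiset ℕ) (hμ : ∀ a ∈ μ, 0 < a ∧ a ≤ p) (hodd : ∀ a : ℕ, Odd a → Even (μ.count a))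
    (hsum : μ.sum = 2 * d) :
    ∃ ν : Multiset ℕ, ν ≤ μ ∧ ν.sum = m ∧ ∀ a : ℕ, Odd a → Even (ν.count a) := by
  have h0 : 0 ∉ μ := fun h => absurd (hμ 0 h).1 (lt_irrefl 0)
  by_cases h1 : ∀ e ∈ μ, e = 1
  · have h4 := Multiset.eq_replicate_card.mpr h1
    rw [h4] at hsum ⊢
    rw [Multiset.sum_replicate, smul_eq_mul, mul_one] at hsum
    rw [hsum]
    refine ⟨Multiset.replicate m 1, (Multiset.replicate_le_replicate 1).mpr hm, by simp, ?_⟩
    intro a _
    rw [Multiset.count_replicate]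
    split_ifs
    · exact hme
    · exact Even.zero
  push Not at h1
  obtain ⟨e, he, he1⟩ := h1
  have he2 : 2 ≤ e := by
    have := (hμ e he).1
    omega
  obtain ⟨x, hx⟩ := exists_sp_of_type (F := F) (d := d) μ h0 hodd hsum
  obtain ⟨hxp, hns⟩ := pow_eq_one_of_rankSeq p x μ hx (fun e he => (hμ e he).2) e he he2
  obtain ⟨W, hWm, hWN, hWx⟩ := H x ⟨1, by rw [hxp]; simp⟩ hns
  have hiso := iso_of_sp' x
  set g : Module.End F VV := Matrix.toLin' (x : MM) with hg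
  have hnil : IsNilpotent (g - 1) := by
    have e : (g - 1 : Module.End F VV) = Matrix.toLin' ((x : MM) - 1) := by
      rw [map_sub, Matrix.toLin'_one]
      rfl
    rw [e]
    exact hx.nilpotent.map (Matrix.toLinAlgEquiv' (R := F))
  have hW : Good (sympB d) g ⊤ W := ⟨le_top, hWx, (nondegOn_iff W).2 hWN⟩
  obtain ⟨hP, -, -, hinf, hsup, -⟩ := Iso.good_perp hiso (good_top g) hW
  obtain ⟨ν, hν⟩ := exists_ty hnil W (map_sub_one_le g hWx)
  obtain ⟨ν', hν'⟩ := exists_ty hnil _ (map_sub_one_le g hP.2.1)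
  have hadd := HasTy.add (map_sub_one_le g hWx) (map_sub_one_le g hP.2.1) hinf hν hν'
  rw [hsup] at hadd
  have hμeq := HasTy.unique (hasTy_top_of_rankSeq (x : MM) μ h0 hx) hadd
  refine ⟨ν, by rw [hμeq]; exact Multiset.le_add_right _ _, by rw [HasTy.sum hν, hWm], ?_⟩
  intro a ha
  exact even_count_of_good hiso hnil hW hν a ha

/-- `r = p` odd, sufficiency -/
theorem caseA_mpr [Fintype F] (p : ℕ) [Fact p.Prime] [CharP F p] (h2 : (2 : F) ≠ 0) (hd : 0 < d) (m : ℕ)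
    (hpart : ∀ μ : Multiset ℕ, (∀ a ∈ μ, 0 < a ∧ a ≤ p) → (∀ a : ℕ, Odd a → Even (μ.count a)) →
      μ.sum = 2 * d → ∃ ν : Multiset ℕ, ν ≤ μ ∧ ν.sum = m ∧ ∀ a : ℕ, Odd a → Even (ν.count a))
    (x : Matrix.symplecticGroup (Fin d) F) (z : F)
    (hz : ((x ^ p : ↥(Matrix.symplecticGroup (Fin d) F)) : MM) = z • (1 : MM)) : Fix d m (x : MM) := by
  have hp : p.Prime := Fact.out
  have hpodd : Odd p := by
    apply hp.odd_of_ne_two
    rintro rfl
    exact h2 (by exact_mod_cast CharP.cast_eq_zero F 2)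
  have hzz := sq_of_scalar hd (x ^ p) z hz
  have hz0 : z ≠ 0 := by
    rintro rfl
    simp at hzz
  have hiso := iso_of_sp x z hzz
  set g : Module.End F VV := z • Matrix.toLin' (x : MM) with hg
  have hgp : g ^ p = 1 := by
    rw [hg, smul_pow, toLin_pow, hz, map_smul, Matrix.toLin'_one, smul_smul, ← pow_succ]
    obtain ⟨k, hk⟩ := hpodd
    have : z ^ (p + 1) = 1 := by
      rw [hk, show 2 * k + 1 + 1 = 2 * (k + 1) by ring, pow_mul, pow_two, hzz, one_pow]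
    rw [this, one_smul]
    rfl
  have hNp : (g - 1) ^ p = 0 := by
    rw [Cfsg.Agent.Lib.Helper87EluUni.sub_one_pow_char p g, hgp, sub_self]
  have hnil : IsNilpotent (g - 1) := ⟨p, hNp⟩
  obtain ⟨μ, hμ⟩ := exists_ty hnil ⊤ le_top
  have hparts : ∀ a ∈ μ, 0 < a ∧ a ≤ p := by
    intro a ha
    refine ⟨Nat.pos_of_ne_zero fun h => hμ.1 (h ▸ ha), ?_⟩
    have h1 := hμ.2 p
    rw [hNp] at h1
    have h3 : finrank F ↥((⊤ : Submodule F VV).map (0 : Module.End F VV)) = 0 := by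
      rw [Submodule.map_zero]
      exact finrank_bot F VV
    rw [h3] at h1
    have h4 : a - p ≤ (μ.map (· - p)).sum :=
      Multiset.le_sum_of_mem (Multiset.mem_map_of_mem (· - p) ha)
    omega
  obtain ⟨ν, hν, hs, hνodd⟩ := hpart μ hparts
    (fun a ha => even_count_of_good hiso hnil (good_top g) hμ a ha)
    (by rw [HasTy.sum hμ, finrank_top'])
  obtain ⟨W, hW, hWm⟩ := exists_of_sub hiso hnil
    (fun Q hQ h0 => exists_peel hiso h2 hnil hQ h0) (2 * d) ⊤ finrank_top' (good_top g) μ ν hμ hν hνodd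
  exact fix_of_good _ hz0 hW (by rw [hWm, hs])

end Cfsg.Agent.Lib.Helper94NdAsm
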