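import Mathlib
import Cfsg.Prelude.Def_GeometricClasses
import Cfsg.Agent.Lib.Helper94NdDefs
import Cfsg.Agent.Lib.Helper3NdG1
import Cfsg.Agent.Lib.H90SwP45
import Cfsg.Agent.Lib.H90SwAdj
import Cfsg.Agent.Lib.H90SwBlk
import Cfsg.Agent.Lib.H90SwElt0
import Cfsg.Agent.Lib.Helper94NdAsm
import Cfsg.Agent.Lib.H94TiCap
import Cfsg.Agent.Lib.H94TiBuild
import Cfsg.Agent.Lib.H94TiTypes

set_option autoImplicit false
set_option linter.unusedSectionVars false
open Module Cfsg Polynomial
open Cfsg.Agent.Lib.Helper99Symp Cfsg.Agent.Lib.H90SwDefs Cfsg.Agent.Lib.Helper99SympForm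
  Cfsg.Agent.Lib.Helper94NdDefs Cfsg.Agent.Lib.Helper3NdG1 Cfsg.Agent.Lib.H90SwBlk Cfsg.Agent.Lib.H90SwMat
open Cfsg.Agent.Lib.H94TiCap Cfsg.Agent.Lib.H94TiBuild Cfsg.Agent.Lib.H94TiTypes

namespace Cfsg.Agent.Lib.H94TiDer

variable {F : Type*} [Field F] {d : ℕ}

local notation "VV" => (Fin d ⊕ Fin d → F)
local notation "MM" => Matrix (Fin d ⊕ Fin d) (Fin d ⊕ Fin d) F

theorem aeval_toLin (A : MM) (R : F[X]) :
    aeval (Matrix.toLin' A : Module.End F VV) R = Matrix.toLin' (aeval A R) :=
  Polynomial.aeval_algHom_apply (Matrix.toLinAlgEquiv' (R := F) (n := Fin d ⊕ Fin d)).toAlgHom A R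

theorem finrank_range_aeval (A : MM) (R : F[X]) :
    finrank F ↥(LinearMap.range (aeval (Matrix.toLin' A : Module.End F VV) R)) = (aeval A R).rank := by
  rw [aeval_toLin, Matrix.toLin'_apply']
  rfl

theorem finrank_ker_aeval (A : MM) (R : F[X]) :
    finrank F ↥(LinearMap.ker (aeval (Matrix.toLin' A : Module.End F VV) R)) + (aeval A R).rank
      = 2 * d := by
  have h := LinearMap.finrank_range_add_finrank_ker (aeval (Matrix.toLin' A : Module.End F VV) R)
  rw [finrank_range_aeval, Module.finrank_fintype_fun_eq_card] at h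
  simp only [Fintype.card_sum, Fintype.card_fin] at h
  omega

theorem isUnit_sub_one {n : Type*} [Fintype n] [DecidableEq n] (A : Matrix n n F) (R : F[X])
    (h0 : aeval A R = 0) (h1 : R.eval 1 ≠ 0) : IsUnit (aeval A (X - 1 : F[X])) := by
  have h := Polynomial.modByMonic_add_div R (X - C (1 : F))
  rw [Polynomial.modByMonic_X_sub_C_eq_C_eval] at h
  have h2 := congrArg (aeval A) h
  rw [h0, map_add, map_mul, aeval_C] at h2
  rw [Matrix.isUnit_iff_isUnit_det]
  apply Matrix.isUnit_det_of_right_inverse (B := (-(R.eval 1))⁻¹ • aeval A (R /ₘ (X - C (1 : F))))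
  have h3 : aeval A (X - C (1 : F)) * aeval A (R /ₘ (X - C (1 : F))) = (-(R.eval 1)) • 1 := by
    rw [Algebra.algebraMap_eq_smul_one] at h2
    rw [neg_smul]
    exact eq_neg_of_add_eq_zero_right h2
  rw [show (X - 1 : F[X]) = X - C (1 : F) by rw [map_one], Matrix.mul_smul, h3, smul_smul, inv_mul_cancel₀ (neg_ne_zero.2 h1), one_smul]

theorem rank_unit {j : ℕ} (A : Matrix (Fin j ⊕ Fin j) (Fin j ⊕ Fin j) F) (h : IsUnit A) :
    A.rank = 2 * j := by
  rw [Matrix.rank_of_isUnit A h]
  simp [two_mul]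

theorem exists_derangement_ti [Fintype F] {r : ℕ} [Fact r.Prime] (hr2 : r ≠ 2) (hr : ¬ r ∣ Fintype.card F)
    (hrF : (r : F) ≠ 0) (m : ℕ) (heven : Even (orderOf (Fintype.card F : ZMod r)))
    (him : orderOf (Fintype.card F : ZMod r) ≤ m) (hmd : m ≤ d)
    (hlt : (2 * d) / orderOf (Fintype.card F : ZMod r)
      < (r - 1) / orderOf (Fintype.card F : ZMod r) + 2 * (m / orderOf (Fintype.card F : ZMod r))) :
    ∃ x : Matrix.symplecticGroup (Fin d) F, x ^ r = 1 ∧ (∀ z : F, (x : MM) ≠ z • (1 : MM)) ∧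
      ∀ W : Submodule F VV, W.map (Matrix.toLin' (x : MM)) ≤ W → Orth (sympB d) W W →
        finrank F W ≠ m := by
  have hrP : r.Prime := Fact.out
  have heven' := heven
  obtain ⟨j, hj⟩ := heven
  have hj2 : orderOf (Fintype.card F : ZMod r) = 2 * j := by omega
  obtain ⟨y, R, hyr, hR1, hRy, hRu⟩ := exists_types (F := F) hr2 hr hrF hj2
  generalize hi : orderOf (Fintype.card F : ZMod r) = i at *
  generalize ht : (r - 1) / i = t at *
  have hi0 : 0 < i := by
    rcases Nat.eq_zero_or_pos i with h | h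
    · subst h
      simp at hlt
      omega
    · exact h
  have hd : 0 < d := by omega
  have hm' : 1 ≤ m / i := Nat.div_pos him hi0
  have h2m' : 2 * (m / i) ≤ 2 * d / i := by
    rw [Nat.le_div_iff_mul_le hi0]
    have := Nat.div_mul_le_self m i
    nlinarith
  generalize hm'' : m / i = m' at *
  generalize hn'' : 2 * d / i = n' at *
  obtain ⟨s, hs⟩ : ∃ s, s = min (n' - 2 * m' + 1) (t - 1) := ⟨_, rfl⟩
  have hst : s < t := by omega
  obtain ⟨μ, hμ⟩ : ∃ μ, μ = 2 * m' - 1 := ⟨_, rfl⟩
  let emb : Fin s → Fin t := fun a => ⟨a.1, by omega⟩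
  let top : Fin t := ⟨s, hst⟩
  have hemb : ∀ a b, emb a = emb b → a = b := by
    intro a b h
    have := congrArg Fin.val h
    exact Fin.ext this
  have htop : ∀ a, emb a ≠ top := by
    intro a h
    have := congrArg Fin.val h
    have h2 : a.1 = s := this
    omega
  let L : List (Fin t) := (List.finRange s).map emb ++ List.replicate μ top
  have hLlen : L.length = s + μ := by simp [L]
  have hsn : s + μ ≤ n' := by omega
  have hin : i * n' ≤ 2 * d := by
    rw [← hn'']
    exact Nat.mul_div_le _ _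
  have hle : j * (s + μ) ≤ d := by
    have : i * (s + μ) ≤ i * n' := Nat.mul_le_mul_left _ hsn
    rw [hj2] at this hin
    nlinarith
  obtain ⟨x, hxr, hx⟩ := build y hyr L d (by rw [hLlen]; exact hle)
  rw [hLlen] at hx
  have hsum : ∀ ρ : Fin t → ℕ, (L.map ρ).sum = ∑ a : Fin s, ρ (emb a) + μ * ρ top := by
    intro ρ
    simp [L, List.map_append, List.sum_append, List.map_replicate, List.sum_replicate,
      Fin.sum_univ_def, List.map_map, Function.comp_def]
  have hring : s * (2 * j) + μ * (2 * j) = 2 * (j * (s + μ)) := by ring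
  -- the fixed space
  have hE := finrank_eigen_add_rank (x : MM)
  have hrk1 : ((x : MM) - 1).rank = s * (2 * j) + μ * (2 * j) := by
    have h1 := (hx (X - 1)).2 (by simp)
    have h2 : aeval (x : MM) (X - 1 : F[X]) = (x : MM) - 1 := by simp
    rw [h2, hsum] at h1
    rw [h1, rank_unit _ (isUnit_sub_one _ _ (hRy top) (hR1 top))]
    congr 1
    rw [Finset.sum_congr rfl (fun a _ => rank_unit _ (isUnit_sub_one _ _ (hRy (emb a)) (hR1 (emb a))))]
    simp
  rw [hrk1] at hE
  have hctx := ctx_of_sp hr2 hr hrF x hxr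
  refine ⟨x, hxr, ?_, ?_⟩
  · intro z hz
    have hzz := Cfsg.Agent.Lib.Helper94NdAsm.sq_of_scalar hd x z hz
    have hz1 : z = 1 := by
      have hzr : z ^ r = 1 := by
        have h3 : ((x ^ r : ↥(Matrix.symplecticGroup (Fin d) F)) : MM) = 1 := by rw [hxr]; rfl
        have h4 : ((x ^ r : ↥(Matrix.symplecticGroup (Fin d) F)) : MM) = (x : MM) ^ r := rfl
        rw [h4, hz, _root_.smul_pow, one_pow] at h3
        have h5 := congrFun (congrFun h3 (Sum.inl ⟨0, hd⟩)) (Sum.inl ⟨0, hd⟩)
        simpa using h5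
      obtain ⟨k, hk⟩ := hrP.odd_of_ne_two hr2
      rw [hk, pow_succ, pow_mul, pow_two, hzz, one_pow, one_mul] at hzr
      exact hzr
    rw [hz, hz1, one_smul, sub_self, Matrix.rank_zero] at hrk1
    have : 0 < μ * (2 * j) := Nat.mul_pos (by omega) (by omega)
    omega
  · intro W hW hTI hWm
    have hker : ∀ a : Fin s, finrank F ↥(LinearMap.ker (aeval (Matrix.toLin' (x : MM) : Module.End F VV)
        (R (emb a)))) = i := by
      intro a
      have h1 := finrank_ker_aeval (x : MM) (R (emb a))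
      rw [(hx (R (emb a))).1 (hR1 _), hsum, rank_unit _ (hRu (emb a) top (htop a))] at h1
      have h2 : ∑ b : Fin s, (aeval (y (emb b) : Matrix (Fin j ⊕ Fin j) (Fin j ⊕ Fin j) F)
          (R (emb a))).rank + 2 * j = s * (2 * j) := by
        have h3 : ∑ b : Fin s, ((aeval (y (emb b) : Matrix (Fin j ⊕ Fin j) (Fin j ⊕ Fin j) F)
            (R (emb a))).rank + if b = a then 2 * j else 0) = ∑ b : Fin s, 2 * j := by
          apply Finset.sum_congr rfl
          intro b _
          by_cases hb : b = a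
          · subst hb
            rw [hRy, Matrix.rank_zero, if_pos rfl, zero_add]
          · rw [if_neg hb, rank_unit _ (hRu (emb a) (emb b) (fun h => hb (hemb _ _ h).symm)), add_zero]
        rw [Finset.sum_add_distrib, Finset.sum_ite_eq' Finset.univ a, if_pos (Finset.mem_univ a)] at h3
        rw [h3]
        simp
      omega
    have hrange : finrank F ↥(LinearMap.range (aeval (Matrix.toLin' (x : MM) : Module.End F VV)
        (∏ a : Fin s, R (emb a)))) = finrank F ↥(Module.End.eigenspace (Matrix.toLin' (x : MM)) 1)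
          + i * μ := by
      rw [finrank_range_aeval, (hx _).1 (by
        rw [Polynomial.eval_prod, Finset.prod_ne_zero_iff]
        exact fun a _ => hR1 _), hsum]
      have h1 : IsUnit (aeval (y top : Matrix (Fin j ⊕ Fin j) (Fin j ⊕ Fin j) F)
          (∏ a : Fin s, R (emb a))) := by
        apply Finset.prod_induction (fun a : Fin s => R (emb a))
          (fun Q => IsUnit (aeval (y top : Matrix (Fin j ⊕ Fin j) (Fin j ⊕ Fin j) F) Q))
        · intro a b ha hb
          rw [map_mul]
          exact ha.mul hb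
        · rw [map_one]
          exact isUnit_one
        · intro a _
          exact hRu (emb a) top (htop a)
      rw [rank_unit _ h1]
      have h2 : ∑ b : Fin s, (aeval (y (emb b) : Matrix (Fin j ⊕ Fin j) (Fin j ⊕ Fin j) F)
          (∏ a : Fin s, R (emb a))).rank = 0 := by
        apply Finset.sum_eq_zero
        intro b _
        obtain ⟨Q, hQ⟩ := Finset.dvd_prod_of_mem (fun a : Fin s => R (emb a)) (Finset.mem_univ b)
        rw [hQ, map_mul, hRy, zero_mul, Matrix.rank_zero]
      rw [h2, hj2, mul_comm (2 * j) μ]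
      omega
    have hcap := cap hctx (by rw [hi]; exact heven') nondegOn_top (fun a : Fin s => R (emb a))
      (fun a => hR1 _) (by rw [hi]; exact hker) μ (by rw [hi]; exact hrange) hW hTI
    rw [hi] at hcap
    obtain ⟨e, w, hWew, he, hw⟩ := hcap
    rw [hWm] at hWew
    obtain ⟨m1, rfl⟩ : ∃ m1, m' = m1 + 1 := ⟨m' - 1, by omega⟩
    obtain ⟨n1, rfl⟩ : ∃ n1, n' = n1 + 1 := ⟨n' - 1, by omega⟩
    have e1 := Nat.div_add_mod m i
    have e2 := Nat.div_add_mod (2 * d) i
    have e3 := Nat.mod_lt (2 * d) hi0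
    rw [hm''] at e1
    rw [hn''] at e2
    have e4 : i * w ≤ i * m1 := Nat.mul_le_mul_left _ (by omega)
    have e5 : i * n1 ≤ i * (s + μ) := Nat.mul_le_mul_left _ (by omega)
    have e6 : i * (s + μ) = 2 * (j * (s + μ)) := by rw [hj2]; ring
    rw [mul_add, mul_one] at e1 e2
    omega

end Cfsg.Agent.Lib.H94TiDer
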