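import Mathlib
import Cfsg.Prelude.Def_GeometricClasses
import Cfsg.Agent.Lib.Helper94NdDefs
import Cfsg.Agent.Lib.Helper3NdG1
import Cfsg.Agent.Lib.Helper94NdPlane
import Cfsg.Agent.Lib.H90SwP45
import Cfsg.Agent.Lib.H90SwAdj
import Cfsg.Agent.Lib.Helper17SpCount

set_option autoImplicit false
set_option linter.unusedSectionVars false
open Module Cfsg Polynomial
open Cfsg.Agent.Lib.Helper99Symp Cfsg.Agent.Lib.H90SwDefs Cfsg.Agent.Lib.Helper99SympForm
  Cfsg.Agent.Lib.Helper94NdDefs Cfsg.Agent.Lib.Helper3NdG1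

namespace Cfsg.Agent.Lib.H94TiInd

variable {F V : Type*} [Field F] [AddCommGroup V] [Module F V] [FiniteDimensional F V]
  {B : LinearMap.BilinForm F V} {g : Module.End F V}

/-- I-IND -/
theorem exists_ti_of_pieces (h : Iso B g) (s : ℕ)
    (hpl : ∀ Q, Good B g ⊤ Q → 2 * s ≤ finrank F Q → 0 < finrank F Q → ∃ H U, Good B g Q H ∧ finrank F H = 2 * s ∧
      U ≤ H ∧ U.map g ≤ U ∧ Orth B U U ∧ finrank F U = s)
    (e : ℕ) (Q : Submodule F V) (hQ : Good B g ⊤ Q) (hle : 2 * s * e ≤ finrank F Q) :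
    ∃ W ≤ Q, W.map g ≤ W ∧ Orth B W W ∧ finrank F W = s * e := by
  have hbot : ∀ Q : Submodule F V, ∃ W ≤ Q, W.map g ≤ W ∧ Orth B W W ∧ finrank F W = 0 := by
    intro Q
    refine ⟨⊥, bot_le, by simp, ?_, finrank_bot F V⟩
    intro u hu v _
    rw [Submodule.mem_bot] at hu
    rw [hu]; simp
  induction e generalizing Q with
  | zero => simpa using hbot Q
  | succ e ih =>
    by_cases hs : s = 0
    · subst hs
      simpa using hbot Q
    · have h1 : 2 * s * (e + 1) = 2 * s * e + 2 * s := by ring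
      have h2 : 2 * s ≤ finrank F Q := by omega
      obtain ⟨H, U, hH, hHf, hUH, hUi, hUo, hUf⟩ := hpl Q hQ h2 (by omega)
      obtain ⟨-, hQ', ho, hinf, -, hfr⟩ := Iso.good_perp h hQ hH
      obtain ⟨W', hW'Q, hW'i, hW'o, hW'f⟩ := ih (perpIn B H Q) hQ' (by omega)
      refine ⟨U ⊔ W', sup_le (hUH.trans hH.1) (hW'Q.trans (H90SwP12.perpIn_le H Q)), ?_, ?_, ?_⟩
      · rw [Submodule.map_sup]
        exact sup_le_sup hUi hW'i
      · intro x hx y hy
        obtain ⟨u, hu, w, hw, rfl⟩ := Submodule.mem_sup.1 hx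
        obtain ⟨u', hu', w', hw', rfl⟩ := Submodule.mem_sup.1 hy
        have e1 := hUo u hu u' hu'
        have e2 := ho u (hUH hu) w' (hW'Q hw')
        have e3 := H90SwP12.orth_symm h.alt ho w (hW'Q hw) u' (hUH hu')
        have e4 := hW'o w hw w' hw'
        simp only [map_add, LinearMap.add_apply, e1, e2, e3, e4, add_zero]
      · have h3 := Submodule.finrank_sup_add_finrank_inf_eq U W'
        have h4 : U ⊓ W' = ⊥ := by
          rw [eq_bot_iff, ← hinf]
          exact inf_le_inf hUH hW'Q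
        rw [h4, finrank_bot, add_zero, hUf, hW'f] at h3
        rw [h3]; ring

end Cfsg.Agent.Lib.H94TiInd
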