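import Mathlib
import Cfsg.Prelude.Def_GeometricClasses
import Cfsg.Agent.Lib.Helper94NdDefs
import Cfsg.Agent.Lib.Helper3NdG1
import Cfsg.Agent.Lib.Helper94NdPlane
import Cfsg.Agent.Lib.H90SwP45
import Cfsg.Agent.Lib.H90SwAdj
import Cfsg.Agent.Lib.Helper17SpCount
import Cfsg.Agent.Lib.H94TiInd

set_option autoImplicit false
set_option linter.unusedSectionVars false
open Module Cfsg Polynomial
open Cfsg.Agent.Lib.Helper99Symp Cfsg.Agent.Lib.H90SwDefs Cfsg.Agent.Lib.Helper99SympForm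
  Cfsg.Agent.Lib.Helper94NdDefs Cfsg.Agent.Lib.Helper3NdG1

namespace Cfsg.Agent.Lib.H94TiC

variable {F V : Type*} [Field F] [AddCommGroup V] [Module F V] [FiniteDimensional F V]
  {B : LinearMap.BilinForm F V} {g : Module.End F V}

/-- I-C -/
theorem exists_ti_le (alt : ∀ v, B v v = 0) {C : Submodule F V} (hC : NondegOn B C) (e : ℕ)
    (hle : 2 * e ≤ finrank F C) : ∃ C' ≤ C, Orth B C' C' ∧ finrank F C' = e := by
  have hinv : ∀ U : Submodule F V, U.map (1 : Module.End F V) ≤ U := by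
    rintro U _ ⟨x, hx, rfl⟩
    exact hx
  have hI : Iso B (1 : Module.End F V) := ⟨alt, fun u v => rfl, fun a b hab => hab⟩
  obtain ⟨W, hWC, -, hWo, hWf⟩ := Cfsg.Agent.Lib.H94TiInd.exists_ti_of_pieces hI 1 (by
    intro Q hQ _ h0
    have hne : Q ≠ ⊥ := by
      intro hb
      rw [hb, finrank_bot] at h0
      omega
    obtain ⟨H, hHQ, hHn, hHf⟩ := H90SwP37.exists_plane alt hQ.2.2 hne
    have hHne : H ≠ ⊥ := by
      intro hb
      rw [hb, finrank_bot] at hHf
      omega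
    obtain ⟨v, hv, hv0⟩ := Submodule.exists_mem_ne_zero_of_ne_bot hHne
    refine ⟨H, Submodule.span F {v}, ⟨hHQ, hinv H, hHn⟩, by rw [hHf], ?_, hinv _, ?_, finrank_span_singleton hv0⟩
    · rw [Submodule.span_le]
      rintro x rfl
      exact hv
    · intro x hx y hy
      obtain ⟨a, rfl⟩ := Submodule.mem_span_singleton.1 hx
      obtain ⟨b, rfl⟩ := Submodule.mem_span_singleton.1 hy
      simp [alt v]) e C ⟨le_top, hinv C, hC⟩ (by omega)
  exact ⟨W, hWC, hWo, by rw [hWf, one_mul]⟩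

end Cfsg.Agent.Lib.H94TiC
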