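import Mathlib
import Cfsg.Prelude.Def_GeometricClasses
import Cfsg.Agent.Lib.Helper94NdDefs
import Cfsg.Agent.Lib.Helper3NdG1
import Cfsg.Agent.Lib.Helper94NdPlane
import Cfsg.Agent.Lib.H90SwP45
import Cfsg.Agent.Lib.H90SwAdj
import Cfsg.Agent.Lib.Helper17SpCount
import Cfsg.Agent.Lib.H94TiHalf

set_option autoImplicit false
set_option linter.unusedSectionVars false
open Module Cfsg Polynomial
open Cfsg.Agent.Lib.Helper99Symp Cfsg.Agent.Lib.H90SwDefs Cfsg.Agent.Lib.Helper99SympForm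
  Cfsg.Agent.Lib.Helper94NdDefs Cfsg.Agent.Lib.Helper3NdG1
open Cfsg.Agent.Lib.H94TiHalf

/-! Piece Max0 of project 5955 (row S5955).  `Orth B W W` = "W totally isotropic";
i := orderOf (card F : ZMod r), c := cc F r, E := eigenspace g 1.  I-X / J-X below = piece X (file H94Ti<X>).
Toolkit list: notes/helper94/ELU8.md.

SKETCH. `exists_max_ti`: W₀ invariant TI ≤ M of maximal finrank; P = perpIn B W₀ M ⊇ W₀ invariant; A = invariant complement of W₀ in P (exists_rel_compl); finrank P = finrank M - finrank W₀ (I-HALF). U ≤ A inv TI ⇒ W₀ ⊔ U inv TI, bigger unless U = ⊥.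
-/

namespace Cfsg.Agent.Lib.H94TiMax0

variable {F V : Type*} [Field F] [Fintype F] [AddCommGroup V] [Module F V] [FiniteDimensional F V]
  {B : LinearMap.BilinForm F V} {g : Module.End F V} {r : ℕ}

theorem ti_sup (alt : ∀ v, B v v = 0) {U C : Submodule F V} (hU : Orth B U U) (hC : Orth B C C)
    (hUC : Orth B U C) : Orth B (U ⊔ C) (U ⊔ C) := by
  have hCU := Cfsg.Agent.Lib.H90SwP12.orth_symm alt hUC
  intro a ha b hb
  obtain ⟨u, hu, c, hc, rfl⟩ := Submodule.mem_sup.1 ha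
  obtain ⟨u', hu', c', hc', rfl⟩ := Submodule.mem_sup.1 hb
  simp only [map_add, LinearMap.add_apply]
  rw [hU u hu u' hu', hUC u hu c' hc', hCU c hc u' hu', hC c hc c' hc']
  simp

theorem exists_max_ti (h : Ctx B r g) {M : Submodule F V} (hM : M.map g ≤ M) (hN : NondegOn B M) :
    ∃ W₀ A : Submodule F V, W₀ ≤ M ∧ W₀.map g ≤ W₀ ∧ Orth B W₀ W₀ ∧ A ≤ M ∧ A.map g ≤ A ∧
      finrank F M = 2 * finrank F W₀ + finrank F A ∧
      ∀ U ≤ A, U.map g ≤ U → Orth B U U → U = ⊥ := by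
  obtain ⟨W₀, ⟨hW₀M, hW₀g, hW₀o⟩, hmax⟩ := WellFounded.has_min
    (wellFounded_gt : WellFounded ((· > ·) : Submodule F V → Submodule F V → Prop))
    {W | W ≤ M ∧ W.map g ≤ W ∧ Orth B W W}
    ⟨⊥, bot_le, by simp, fun a ha b _ => by rw [(Submodule.mem_bot F).1 ha]; simp⟩
  have hW₀P : W₀ ≤ perpIn B W₀ M := fun u hu => ⟨hW₀M hu, fun w hw => hW₀o u hu w hw⟩
  have hPg : (perpIn B W₀ M).map g ≤ perpIn B W₀ M := Cfsg.Agent.Lib.H90SwP12.perpIn_inv h hW₀g hM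
  obtain ⟨A, hAP, hAg, hinf, hsup⟩ := Cfsg.Agent.Lib.Helper87EluB3.exists_rel_compl r h.ne0 g 1
    one_ne_zero (by rw [h.pow, one_smul]) W₀ (perpIn B W₀ M) hW₀P hW₀g hPg
  have hdim := Submodule.finrank_sup_add_finrank_inf_eq W₀ A
  rw [hinf, hsup, finrank_bot] at hdim
  have hhalf := finrank_add_perpIn h.alt hN hW₀M
  refine ⟨W₀, A, hW₀M, hW₀g, hW₀o, hAP.trans (Cfsg.Agent.Lib.H90SwP12.perpIn_le _ _), hAg, by omega, ?_⟩
  intro U hUA hUg hUo
  have hmem : W₀ ⊔ U ∈ {W | W ≤ M ∧ W.map g ≤ W ∧ Orth B W W} := by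
    refine ⟨sup_le hW₀M (hUA.trans (hAP.trans (Cfsg.Agent.Lib.H90SwP12.perpIn_le _ _))), ?_, ?_⟩
    · rw [Submodule.map_sup]
      exact sup_le_sup hW₀g hUg
    · exact ti_sup h.alt hW₀o hUo (Cfsg.Agent.Lib.H90SwP12.orth_symm h.alt
        (fun u hu w hw => (hAP (hUA hu)).2 w hw))
  have h1 := hmax _ hmem
  have h2 : W₀ ⊔ U = W₀ := by
    by_contra hne
    exact h1 (lt_of_le_of_ne le_sup_left (Ne.symm hne))
  have h3 : U ≤ W₀ := by
    rw [← h2]
    exact le_sup_right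
  rw [eq_bot_iff, ← hinf]
  exact le_inf h3 hUA

end Cfsg.Agent.Lib.H94TiMax0
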