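import Mathlib
import Cfsg.Prelude.Def_GeometricClasses
import Cfsg.Agent.Lib.Helper94NdDefs
import Cfsg.Agent.Lib.Helper3NdG1
import Cfsg.Agent.Lib.Helper94NdPlane
import Cfsg.Agent.Lib.H90SwP45
import Cfsg.Agent.Lib.H90SwAdj
import Cfsg.Agent.Lib.Helper17SpCount

set_option autoImplicit false
set_option linter.unusedSectionVars false
open Module Cfsg Polynomial
open Cfsg.Agent.Lib.Helper99Symp Cfsg.Agent.Lib.H90SwDefs Cfsg.Agent.Lib.Helper99SympForm
  Cfsg.Agent.Lib.Helper94NdDefs Cfsg.Agent.Lib.Helper3NdG1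

/-! Piece Sub of project 5955 (row S5955).  `Orth B W W` = "W totally isotropic";
i := orderOf (card F : ZMod r), c := cc F r, E := eigenspace g 1.  I-X / J-X below = piece X (file H94Ti<X>).
Toolkit list: notes/helper94/ELU8.md.

SKETCH. `exists_inv_le`: induction on w: U' of finrank i w, invariant complement Y of U' in U, Y ≠ ⊥, exists_block in Y.
-/

namespace Cfsg.Agent.Lib.H94TiSub

variable {F V : Type*} [Field F] [Fintype F] [AddCommGroup V] [Module F V] [FiniteDimensional F V]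
  {B : LinearMap.BilinForm F V} {g : Module.End F V} {r : ℕ}

theorem exists_inv_le (h : Ctx B r g) {U : Submodule F V} (hU : U.map g ≤ U)
    (hE : U ⊓ Module.End.eigenspace g 1 = ⊥) (w : ℕ)
    (hw : orderOf (Fintype.card F : ZMod r) * w ≤ finrank F U) :
    ∃ U' ≤ U, U'.map g ≤ U' ∧ finrank F U' = orderOf (Fintype.card F : ZMod r) * w := by
  have : Fact r.Prime := ⟨h.prime⟩
  induction w with
  | zero => exact ⟨⊥, bot_le, by simp, by simp⟩
  | succ w ih =>
    rw [mul_add, mul_one] at hw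
    obtain ⟨U', hU'U, hU'g, hU'f⟩ := ih (by omega)
    obtain ⟨Y, hYU, hYg, hinf, hsup⟩ := Cfsg.Agent.Lib.Helper87EluB3.exists_rel_compl r h.ne0 g 1
      one_ne_zero (by rw [h.pow, one_smul]) U' U hU'U hU'g hU
    have hdim := Submodule.finrank_sup_add_finrank_inf_eq U' Y
    rw [hinf, hsup, finrank_bot] at hdim
    by_cases hY : Y = ⊥
    · rw [hY, finrank_bot] at hdim
      exact ⟨U', hU'U, hU'g, by rw [mul_add, mul_one]; omega⟩
    · obtain ⟨B₁, hB₁Y, hB₁g, hB₁f⟩ := Cfsg.Agent.Lib.Helper87EluB2.exists_block r h.ndvd g h.pow Y hYg hY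
        (by
          rw [eq_bot_iff, ← hE]
          exact inf_le_inf_right _ hYU)
      refine ⟨U' ⊔ B₁, sup_le hU'U (hB₁Y.trans hYU), ?_, ?_⟩
      · rw [Submodule.map_sup]
        exact sup_le_sup hU'g hB₁g
      · have h1 := Submodule.finrank_sup_add_finrank_inf_eq U' B₁
        have h2 : U' ⊓ B₁ = ⊥ := by
          rw [eq_bot_iff, ← hinf]
          exact inf_le_inf_left _ hB₁Y
        rw [h2, finrank_bot] at h1
        rw [mul_add, mul_one]
        omega

end Cfsg.Agent.Lib.H94TiSub
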