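import Mathlib
import Cfsg.Prelude.Def_GeometricClasses
import Cfsg.Agent.Lib.Helper94NdDefs
import Cfsg.Agent.Lib.Helper3NdG1
import Cfsg.Agent.Lib.Helper94NdPlane
import Cfsg.Agent.Lib.H90SwP45
import Cfsg.Agent.Lib.H90SwAdj
import Cfsg.Agent.Lib.Helper17SpCount
import Cfsg.Agent.Lib.H94TiMax0
import Cfsg.Agent.Lib.H94TiAnie
import Cfsg.Agent.Lib.H94TiAnio
import Cfsg.Agent.Lib.H94TiSub
import Cfsg.Agent.Lib.H94TiC

set_option autoImplicit false
set_option linter.unusedSectionVars false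
open Module Cfsg Polynomial
open Cfsg.Agent.Lib.Helper99Symp Cfsg.Agent.Lib.H90SwDefs Cfsg.Agent.Lib.Helper99SympForm
  Cfsg.Agent.Lib.Helper94NdDefs Cfsg.Agent.Lib.Helper3NdG1
open Cfsg.Agent.Lib.H94TiMax0 Cfsg.Agent.Lib.H94TiAnie Cfsg.Agent.Lib.H94TiAnio Cfsg.Agent.Lib.H94TiSub Cfsg.Agent.Lib.H94TiC

/-! Piece Fix of project 5955 (row S5955).  `Orth B W W` = "W totally isotropic";
i := orderOf (card F : ZMod r), c := cc F r, E := eigenspace g 1.  I-X / J-X below = piece X (file H94Ti<X>).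
Toolkit list: notes/helper94/ELU8.md.

SKETCH. `exists_ti_of_cond`: exists_fixfree (Q = ⊤): C = ⊤ ⊓ E, M. I-MAX0 on M, finrank A ≤ δ (I-ANIE / I-ANIO). If i (m/i) ≤ finrank W₀: U' (I-SUB) ⊔ C' with finrank C' = m % i (I-C; 2(m%i) ≤ n%c = finrank C % c ≤ finrank C by finrank_congr_c). Else W₀ ⊔ C' with finrank C' = m - finrank W₀ (2m + finrank A ≤ n).
-/

namespace Cfsg.Agent.Lib.H94TiFix

variable {F V : Type*} [Field F] [Fintype F] [AddCommGroup V] [Module F V] [FiniteDimensional F V]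
  {B : LinearMap.BilinForm F V} {g : Module.End F V} {r : ℕ}

theorem orth_sup (alt : ∀ v, B v v = 0) {U C : Submodule F V} (hU : Orth B U U) (hC : Orth B C C)
    (hUC : Orth B U C) : Orth B (U ⊔ C) (U ⊔ C) := by
  have hCU := Cfsg.Agent.Lib.H90SwP12.orth_symm alt hUC
  intro a ha b hb
  obtain ⟨u, hu, c, hc, rfl⟩ := Submodule.mem_sup.1 ha
  obtain ⟨u', hu', c', hc', rfl⟩ := Submodule.mem_sup.1 hb
  simp only [map_add, LinearMap.add_apply]
  rw [hU u hu u' hu', hUC u hu c' hc', hCU c hc u' hu', hC c hc c' hc']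
  simp

theorem glue (alt : ∀ v, B v v = 0) {M C U C' : Submodule F V} (hMC : Orth B M C) (hCM : C ⊓ M = ⊥)
    (hfix : ∀ e ∈ C, g e = e) (hUM : U ≤ M) (hUg : U.map g ≤ U) (hUo : Orth B U U) (hC'C : C' ≤ C)
    (hC'o : Orth B C' C') :
    (U ⊔ C').map g ≤ U ⊔ C' ∧ Orth B (U ⊔ C') (U ⊔ C') ∧
      finrank F ↥(U ⊔ C') = finrank F U + finrank F C' := by
  refine ⟨?_, orth_sup alt hUo hC'o (fun u hu c hc => hMC u (hUM hu) c (hC'C hc)), ?_⟩
  · rw [Submodule.map_sup]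
    apply sup_le_sup hUg
    rintro _ ⟨e, he, rfl⟩
    rw [hfix e (hC'C he)]
    exact he
  · have h1 := Submodule.finrank_sup_add_finrank_inf_eq U C'
    have h2 : U ⊓ C' = ⊥ := by
      rw [eq_bot_iff, ← hCM]
      exact le_inf (inf_le_right.trans hC'C) (inf_le_left.trans hUM)
    rw [h2, finrank_bot] at h1
    omega

theorem exists_ti_of_cond (h : Ctx B r g) (hT : NondegOn B ⊤) (m : ℕ)
    (hmod : 2 * (m % orderOf (Fintype.card F : ZMod r)) ≤ finrank F V % cc F r)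
    (hδ : 2 * m + (if Even (orderOf (Fintype.card F : ZMod r)) then r - 1 else 0) ≤ finrank F V) :
    ∃ W : Submodule F V, W.map g ≤ W ∧ Orth B W W ∧ finrank F W = m := by
  haveI : Fact r.Prime := ⟨h.prime⟩
  obtain ⟨M, -, hMg, hMN, hME, hMC, hCM, hsup, hCN⟩ := Cfsg.Agent.Lib.H90SwP45.exists_fixfree h
    (Q := ⊤) le_top hT
  obtain ⟨W₀, A, hW₀M, hW₀g, hW₀o, hAM, hAg, hfin, hani⟩ := exists_max_ti h hMg hMN
  have hfix : ∀ e ∈ (⊤ : Submodule F V) ⊓ Module.End.eigenspace g 1, g e = e := by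
    intro e he
    have := Module.End.mem_eigenspace_iff.1 he.2
    simpa using this
  have hA : finrank F A ≤ (if Even (orderOf (Fintype.card F : ZMod r)) then r - 1 else 0) := by
    split_ifs with he
    · exact finrank_aniso_le h hAg hani
    · have : A = ⊥ := aniso_eq_bot h he hAg (by
        rw [eq_bot_iff, ← hME]
        exact inf_le_inf_right _ hAM) hani
      rw [this, finrank_bot]
  have hdim := Submodule.finrank_sup_add_finrank_inf_eq ((⊤ : Submodule F V) ⊓ Module.End.eigenspace g 1) M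
  rw [hCM, hsup, finrank_bot, finrank_top] at hdim
  obtain ⟨k, hk⟩ := Cfsg.Agent.Lib.H90SwP45.finrank_congr_c h (Q := ⊤) le_top hT
  rw [finrank_top] at hk
  have hmodC : finrank F V % cc F r ≤ finrank F ↥((⊤ : Submodule F V) ⊓ Module.End.eigenspace g 1) := by
    rw [hk, Nat.add_mul_mod_self_left]
    exact Nat.mod_le _ _
  have hdm := Nat.div_add_mod m (orderOf (Fintype.card F : ZMod r))
  by_cases hcase : orderOf (Fintype.card F : ZMod r) * (m / orderOf (Fintype.card F : ZMod r)) ≤ finrank F W₀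
  · obtain ⟨U', hU'W, hU'g, hU'f⟩ := exists_inv_le h hW₀g (by
      rw [eq_bot_iff, ← hME]
      exact inf_le_inf_right _ hW₀M) _ hcase
    obtain ⟨C', hC'C, hC'o, hC'f⟩ := exists_ti_le h.alt hCN (m % orderOf (Fintype.card F : ZMod r))
      (by omega)
    obtain ⟨h1, h2, h3⟩ := glue (g := g) h.alt hMC hCM hfix (hU'W.trans hW₀M) hU'g
      (fun a ha b hb => hW₀o a (hU'W ha) b (hU'W hb)) hC'C hC'o
    exact ⟨_, h1, h2, by rw [h3, hU'f, hC'f]; exact hdm⟩
  · push Not at hcase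
    obtain ⟨C', hC'C, hC'o, hC'f⟩ := exists_ti_le h.alt hCN (m - finrank F W₀) (by omega)
    obtain ⟨h1, h2, h3⟩ := glue (g := g) h.alt hMC hCM hfix hW₀M hW₀g hW₀o hC'C hC'o
    exact ⟨_, h1, h2, by rw [h3, hC'f]; omega⟩

end Cfsg.Agent.Lib.H94TiFix
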