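import Mathlib
import Cfsg.Prelude.Def_GeometricClasses
import Cfsg.Agent.Lib.Helper94NdDefs
import Cfsg.Agent.Lib.Helper3NdG1
import Cfsg.Agent.Lib.Helper94NdPlane
import Cfsg.Agent.Lib.H90SwP45
import Cfsg.Agent.Lib.H90SwAdj
import Cfsg.Agent.Lib.Helper17SpCount

set_option autoImplicit false
set_option linter.unusedSectionVars false
open Module Cfsg Polynomial
open Cfsg.Agent.Lib.Helper99Symp Cfsg.Agent.Lib.H90SwDefs Cfsg.Agent.Lib.Helper99SympForm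
  Cfsg.Agent.Lib.Helper94NdDefs Cfsg.Agent.Lib.Helper3NdG1

namespace Cfsg.Agent.Lib.H94TiJ

variable {F : Type*} [Field F] {d : ℕ}

local notation "VV" => (Fin d ⊕ Fin d → F)
local notation "MM" => Matrix (Fin d ⊕ Fin d) (Fin d ⊕ Fin d) F

/-- I-J -/
theorem exists_J (hd : 0 < d) (h2 : (2 : F) ≠ 0) : ∃ x : Matrix.symplecticGroup (Fin d) F,
    ((x ^ 2 : ↥(Matrix.symplecticGroup (Fin d) F)) : MM) = (-1 : F) • (1 : MM) ∧
      ∀ z : F, (x : MM) ≠ z • (1 : MM) := by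
  refine ⟨⟨Matrix.J (Fin d) F, SymplecticGroup.J_mem (Fin d) F⟩, ?_, ?_⟩
  · rw [pow_two]
    show Matrix.J (Fin d) F * Matrix.J (Fin d) F = _
    rw [Matrix.J_squared]
    simp
  · intro z hz
    have h1 := congrFun (congrFun hz (Sum.inl ⟨0, hd⟩)) (Sum.inr ⟨0, hd⟩)
    simp [Matrix.J, Matrix.fromBlocks] at h1

end Cfsg.Agent.Lib.H94TiJ
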