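import Mathlib
import Cfsg.Prelude.Def_GeometricClasses
import Cfsg.Agent.Lib.Helper94NdDefs
import Cfsg.Agent.Lib.Helper3NdG1
import Cfsg.Agent.Lib.Helper94NdPlane
import Cfsg.Agent.Lib.H90SwP45
import Cfsg.Agent.Lib.H90SwAdj
import Cfsg.Agent.Lib.Helper17SpCount

set_option autoImplicit false
set_option linter.unusedSectionVars false
open Module Cfsg Polynomial
open Cfsg.Agent.Lib.Helper99Symp Cfsg.Agent.Lib.H90SwDefs Cfsg.Agent.Lib.Helper99SympForm
  Cfsg.Agent.Lib.Helper94NdDefs Cfsg.Agent.Lib.Helper3NdG1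

/-! Piece L1 of project 5955 (row S5955).  `Orth B W W` = "W totally isotropic";
i := orderOf (card F : ZMod r), c := cc F r, E := eigenspace g 1.  I-X / J-X below = piece X (file H94Ti<X>).
Toolkit list: notes/helper94/ELU8.md.

SKETCH. `piece_one`: the proof of Helper94NdPlane.exists_plane_one gives H = span{v,w} with g v = ε v; U = span{v}.
-/

namespace Cfsg.Agent.Lib.H94TiL1

variable {F V : Type*} [Field F] [AddCommGroup V] [Module F V] [FiniteDimensional F V]
  {B : LinearMap.BilinForm F V} {g : Module.End F V}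

theorem line_in (h : Iso B g) (ε : F) (hg : g * g = (ε * ε) • 1) {H : Submodule F V}
    (hHg : H.map g ≤ H) (hH0 : H ≠ ⊥) :
    ∃ U ≤ H, U.map g ≤ U ∧ Orth B U U ∧ finrank F U = 1 := by
  have hgg : ∀ v, g (g v) = (ε * ε) • v := by
    intro v
    have := LinearMap.congr_fun hg v
    simpa using this
  obtain ⟨u, hu, hu0⟩ := Submodule.exists_mem_ne_zero_of_ne_bot hH0
  obtain ⟨e, heH, he0, c, hge⟩ : ∃ e ∈ H, e ≠ 0 ∧ ∃ c : F, g e = c • e := by
    by_cases h' : g u + ε • u = 0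
    · exact ⟨u, hu, hu0, -ε, by rw [neg_smul]; exact eq_neg_of_add_eq_zero_left h'⟩
    · refine ⟨g u + ε • u, H.add_mem (hHg (Submodule.mem_map_of_mem hu)) (H.smul_mem _ hu), h', ε, ?_⟩
      rw [map_add, map_smul, hgg, smul_add, smul_smul, add_comm]
  refine ⟨Submodule.span F {e}, ?_, ?_, ?_, finrank_span_singleton he0⟩
  · rw [Submodule.span_le]
    rintro x rfl
    exact heH
  · rintro _ ⟨x, hx, rfl⟩
    obtain ⟨a, rfl⟩ := Submodule.mem_span_singleton.1 hx
    rw [map_smul, hge]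
    exact Submodule.smul_mem _ _ (Submodule.smul_mem _ _ (Submodule.mem_span_singleton_self e))
  · intro x hx y hy
    obtain ⟨a, rfl⟩ := Submodule.mem_span_singleton.1 hx
    obtain ⟨b, rfl⟩ := Submodule.mem_span_singleton.1 hy
    simp [h.alt]

theorem piece_one (h : Iso B g) (h2 : (2 : F) ≠ 0) (hg : g * g = 1)
    {Q : Submodule F V} (hQ : Good B g ⊤ Q) (h0 : 0 < finrank F Q) :
    ∃ H U, Good B g Q H ∧ finrank F H = 2 * 1 ∧ U ≤ H ∧ U.map g ≤ U ∧ Orth B U U ∧ finrank F U = 1 := by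
  have hQ0 : Q ≠ ⊥ := by
    rintro rfl
    rw [finrank_bot] at h0
    exact lt_irrefl _ h0
  obtain ⟨H, hH, hHf⟩ := Cfsg.Agent.Lib.Helper94NdPlane.exists_plane_one h h2 hg hQ hQ0
  obtain ⟨U, hUH, hUg, hUo, hUf⟩ := line_in h 1 (by rw [hg, one_mul, one_smul]) hH.2.1 (by
    rintro rfl
    rw [finrank_bot] at hHf
    omega)
  exact ⟨H, U, hH, by rw [hHf], hUH, hUg, hUo, hUf⟩

end Cfsg.Agent.Lib.H94TiL1
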