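import Mathlib
import Cfsg.Prelude.Def_GeometricClasses
import Cfsg.Agent.Lib.Helper94NdDefs
import Cfsg.Agent.Lib.Helper3NdG1
import Cfsg.Agent.Lib.Helper94NdPlane
import Cfsg.Agent.Lib.H90SwP45
import Cfsg.Agent.Lib.H90SwAdj
import Cfsg.Agent.Lib.Helper17SpCount
import Cfsg.Agent.Lib.H94TiL1

set_option autoImplicit false
set_option linter.unusedSectionVars false
open Module Cfsg Polynomial
open Cfsg.Agent.Lib.Helper99Symp Cfsg.Agent.Lib.H90SwDefs Cfsg.Agent.Lib.Helper99SympForm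
  Cfsg.Agent.Lib.Helper94NdDefs Cfsg.Agent.Lib.Helper3NdG1

/-! Piece L2 of project 5955 (row S5955).  `Orth B W W` = "W totally isotropic";
i := orderOf (card F : ZMod r), c := cc F r, E := eigenspace g 1.  I-X / J-X below = piece X (file H94Ti<X>).
Toolkit list: notes/helper94/ELU8.md.

SKETCH. `piece_neg_sq`: H from exists_plane_neg; 0 ≠ u ∈ H; u' = u - ι g u satisfies g u' = ι u'; if u' = 0 then g u = -ι u. U = span of that eigenvector.
-/

namespace Cfsg.Agent.Lib.H94TiL2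

variable {F V : Type*} [Field F] [AddCommGroup V] [Module F V] [FiniteDimensional F V]
  {B : LinearMap.BilinForm F V} {g : Module.End F V}

theorem piece_neg_sq (h : Iso B g) (h2 : (2 : F) ≠ 0) (hg : g * g = (-1 : F) • 1) (ι : F)
    (hι : ι * ι = -1) {Q : Submodule F V} (hQ : Good B g ⊤ Q) (h0 : 0 < finrank F Q) :
    ∃ H U, Good B g Q H ∧ finrank F H = 2 * 1 ∧ U ≤ H ∧ U.map g ≤ U ∧ Orth B U U ∧ finrank F U = 1 := by
  have hQ0 : Q ≠ ⊥ := by
    rintro rfl
    rw [finrank_bot] at h0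
    exact lt_irrefl _ h0
  obtain ⟨H, hH, hHf⟩ := Cfsg.Agent.Lib.Helper94NdPlane.exists_plane_neg h h2 hg hQ hQ0
  obtain ⟨U, hUH, hUg, hUo, hUf⟩ := Cfsg.Agent.Lib.H94TiL1.line_in h ι (by rw [hg, hι]) hH.2.1 (by
    rintro rfl
    rw [finrank_bot] at hHf
    omega)
  exact ⟨H, U, hH, by rw [hHf], hUH, hUg, hUo, hUf⟩

end Cfsg.Agent.Lib.H94TiL2
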