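import Mathlib
import Cfsg.Prelude.Def_GeometricClasses
import Cfsg.Agent.Lib.Helper94NdDefs
import Cfsg.Agent.Lib.Helper3NdG1
import Cfsg.Agent.Lib.Helper94NdPlane
import Cfsg.Agent.Lib.H90SwP45
import Cfsg.Agent.Lib.H90SwAdj
import Cfsg.Agent.Lib.Helper17SpCount
import Cfsg.Agent.Lib.H94TiCw

set_option autoImplicit false
set_option linter.unusedSectionVars false
open Module Cfsg Polynomial
open Cfsg.Agent.Lib.Helper99Symp Cfsg.Agent.Lib.H90SwDefs Cfsg.Agent.Lib.Helper99SympForm
  Cfsg.Agent.Lib.Helper94NdDefs Cfsg.Agent.Lib.Helper3NdG1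
open Cfsg.Agent.Lib.H94TiCw

/-! Piece L3 of project 5955 (row S5955).  `Orth B W W` = "W totally isotropic";
i := orderOf (card F : ZMod r), c := cc F r, E := eigenspace g 1.  I-X / J-X below = piece X (file H94Ti<X>).
Toolkit list: notes/helper94/ELU8.md.

SKETCH. `piece_neg_nonsq`: I-CW (s = 1, f = g): 0 ≠ v ∈ Q, B v (g v) = 0. g v ≠ λ v (λ² = -1). U = span{v, g v}. exists_repr: w ∈ Q with B v w = 1, B (g v) w = 0. Then B (g v) (g w) = 1, B v (g w) = B (g v) (g g w) = -B (g v) w = 0. H = span{v, g v, w, g w}: u = αv+βgv+γw+δgw ⟂ H: pair with v, g v ⇒ γ = δ = 0, then with w, g w ⇒ α = β = 0. (model: Helper94NdB1.)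
-/

namespace Cfsg.Agent.Lib.H94TiL3

variable {F V : Type*} [Field F] [AddCommGroup V] [Module F V] [FiniteDimensional F V]
  {B : LinearMap.BilinForm F V} {g : Module.End F V}

theorem piece_neg_nonsq [Fintype F] (h : Iso B g) (h2 : (2 : F) ≠ 0) (hg : g * g = (-1 : F) • 1)
    (hns : ¬ IsSquare (-1 : F)) {Q : Submodule F V} (hQ : Good B g ⊤ Q) (h4 : 2 * 2 ≤ finrank F Q) :
    ∃ H U, Good B g Q H ∧ finrank F H = 2 * 2 ∧ U ≤ H ∧ U.map g ≤ U ∧ Orth B U U ∧ finrank F U = 2 := by
  have hgg : ∀ v, g (g v) = -v := by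
    intro v
    have := LinearMap.congr_fun hg v
    simpa using this
  have hgQ : ∀ v ∈ Q, g v ∈ Q := fun v hv => hQ.2.1 (Submodule.mem_map_of_mem hv)
  have hsk : ∀ u w, B u w = - B w u := fun u w => skew h.alt u w
  have hadj : ∀ u w, B (g u) w = - B u (g w) := by
    intro u w
    rw [← h.pres u (g w), hgg, map_neg, neg_neg]
  obtain ⟨v, hv, hv0, hvg⟩ := exists_common_zero B (s := 1) (fun _ => g) Q (by omega)
  have e1 : B v (g v) = 0 := hvg 0
  obtain ⟨w, hw, ha⟩ := hQ.2.2 v hv hv0
  obtain ⟨a, haa⟩ : ∃ a, a = B v w := ⟨_, rfl⟩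
  obtain ⟨b, hbb⟩ : ∃ b, b = B (g v) w := ⟨_, rfl⟩
  rw [← haa] at ha
  have hD : a * a + b * b ≠ 0 := by
    intro hD
    apply hns
    refine ⟨b / a, ?_⟩
    field_simp
    linear_combination -hD
  have e4 : B v (g w) = -b := by rw [hbb, hadj, neg_neg]
  have e5 : B (g v) (g w) = a := by rw [haa]; exact h.pres v w
  let f : Fin 4 → V := ![v, g v, w, g w]
  have hfQ : ∀ i, f i ∈ Q := by
    intro i
    fin_cases i
    · exact hv
    · exact hgQ v hv
    · exact hw
    · exact hgQ w hw
  have key : ∀ c : Fin 4 → F, (∀ i, B (∑ j, c j • f j) (f i) = 0) → c = 0 := by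
    intro c hc
    have h0 := hc 0
    have h1 := hc 1
    have h3 := hc 2
    have h4 := hc 3
    simp only [Fin.sum_univ_four, f, Matrix.cons_val_zero, Matrix.cons_val_one, Matrix.cons_val,
      map_add, map_smul, LinearMap.add_apply, LinearMap.smul_apply, smul_eq_mul, h.alt] at h0 h1 h3 h4
    rw [hsk (g v) v, e1, hsk w v, hsk (g w) v, e4, ← haa] at h0
    rw [e1, hsk w (g v), ← hbb, hsk (g w) (g v), e5] at h1
    rw [← haa, ← hbb] at h3
    rw [e4, e5] at h4
    have k2 : (a * a + b * b) * c 2 = 0 := by linear_combination (-a) * h0 - b * h1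
    have k3 : (a * a + b * b) * c 3 = 0 := by linear_combination b * h0 - a * h1
    have k2' : c 2 = 0 := (mul_eq_zero.1 k2).resolve_left hD
    have k3' : c 3 = 0 := (mul_eq_zero.1 k3).resolve_left hD
    rw [k2', k3'] at h3 h4
    have k0 : (a * a + b * b) * c 0 = 0 := by linear_combination a * h3 - b * h4
    have k1 : (a * a + b * b) * c 1 = 0 := by linear_combination b * h3 + a * h4
    have k0' : c 0 = 0 := (mul_eq_zero.1 k0).resolve_left hD
    have k1' : c 1 = 0 := (mul_eq_zero.1 k1).resolve_left hD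
    funext i
    fin_cases i
    · exact k0'
    · exact k1'
    · exact k2'
    · exact k3'
  have hli : LinearIndependent F f := by
    rw [Fintype.linearIndependent_iff]
    intro c hc i
    have := key c (fun i => by rw [hc]; simp)
    rw [this]
    rfl
  let k : Fin 2 → Fin 4 := ![0, 1]
  have hk : Function.Injective k := by decide
  refine ⟨Submodule.span F (Set.range f), Submodule.span F (Set.range (f ∘ k)), ⟨?_, ?_, ?_⟩, ?_, ?_, ?_,
    ?_, ?_⟩
  · rw [Submodule.span_le]
    rintro _ ⟨i, rfl⟩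
    exact hfQ i
  · rw [Submodule.map_span_le]
    rintro _ ⟨i, rfl⟩
    fin_cases i
    · exact Submodule.subset_span ⟨1, rfl⟩
    · show g (g v) ∈ _
      rw [hgg]
      exact Submodule.neg_mem _ (Submodule.subset_span ⟨0, rfl⟩)
    · exact Submodule.subset_span ⟨3, rfl⟩
    · show g (g w) ∈ _
      rw [hgg]
      exact Submodule.neg_mem _ (Submodule.subset_span ⟨2, rfl⟩)
  · intro u hu hu0
    obtain ⟨c, rfl⟩ := (Submodule.mem_span_range_iff_exists_fun F).1 hu
    by_contra hcon
    push Not at hcon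
    apply hu0
    have := key c (fun i => hcon (f i) (Submodule.subset_span ⟨i, rfl⟩))
    rw [this]
    simp
  · rw [finrank_span_eq_card hli]
    simp
  · exact Submodule.span_mono (Set.range_comp_subset_range k f)
  · rw [Submodule.map_span_le]
    rintro _ ⟨i, rfl⟩
    fin_cases i
    · exact Submodule.subset_span ⟨1, rfl⟩
    · show g (g v) ∈ _
      rw [hgg]
      exact Submodule.neg_mem _ (Submodule.subset_span ⟨0, rfl⟩)
  · intro x hx y hy
    obtain ⟨c, rfl⟩ := (Submodule.mem_span_range_iff_exists_fun F).1 hx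
    obtain ⟨c', rfl⟩ := (Submodule.mem_span_range_iff_exists_fun F).1 hy
    simp only [Fin.sum_univ_two, f, k, Function.comp, Matrix.cons_val_zero, Matrix.cons_val_one,
      Matrix.cons_val, map_add, map_smul, LinearMap.add_apply, LinearMap.smul_apply, smul_eq_mul, h.alt]
    rw [hsk (g v) v, e1]
    simp
  · rw [finrank_span_eq_card (hli.comp k hk)]
    simp

end Cfsg.Agent.Lib.H94TiL3
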