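import Mathlib
import Cfsg.Prelude.Def_GeometricClasses
import Cfsg.Agent.Lib.Helper94NdDefs
import Cfsg.Agent.Lib.Helper3NdG1
import Cfsg.Agent.Lib.Helper94NdPlane
import Cfsg.Agent.Lib.H90SwP45
import Cfsg.Agent.Lib.H90SwAdj
import Cfsg.Agent.Lib.Helper17SpCount
import Cfsg.Agent.Lib.H94TiHalf
import Cfsg.Agent.Lib.Helper94NdAsm

set_option autoImplicit false
set_option linter.unusedSectionVars false
open Module Cfsg Polynomial
open Cfsg.Agent.Lib.Helper99Symp Cfsg.Agent.Lib.H90SwDefs Cfsg.Agent.Lib.Helper99SympForm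
  Cfsg.Agent.Lib.Helper94NdDefs Cfsg.Agent.Lib.Helper3NdG1
open Cfsg.Agent.Lib.H94TiHalf Cfsg.Agent.Lib.H90SwMat

/-! Piece Maxelt of project 5955 (row S5955).  `Orth B W W` = "W totally isotropic";
i := orderOf (card F : ZMod r), c := cc F r, E := eigenspace g 1.  I-X / J-X below = piece X (file H94Ti<X>).
Toolkit list: notes/helper94/ELU8.md.

SKETCH. `exists_max_elt_ti`: as Helper94NdD2; W ⊓ E is TI in E = ⊤ ⊓ E (nondegenerate by exists_fixfree), I-HALF; finrank_congr (B1).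
-/

namespace Cfsg.Agent.Lib.H94TiMaxelt

variable {F : Type*} [Field F] {d : ℕ}

local notation "VV" => (Fin d ⊕ Fin d → F)
local notation "MM" => Matrix (Fin d ⊕ Fin d) (Fin d ⊕ Fin d) F

theorem exists_max_elt_ti [Fintype F] {r : ℕ} [Fact r.Prime] (hr2 : r ≠ 2) (hr : ¬ r ∣ Fintype.card F)
    (hrF : (r : F) ≠ 0) (hc : cc F r ≤ 2 * d) :
    ∃ x : Matrix.symplecticGroup (Fin d) F, x ^ r = 1 ∧ (∀ z : F, (x : MM) ≠ z • (1 : MM)) ∧
      ∀ W : Submodule F VV, W.map (Matrix.toLin' (x : MM)) ≤ W → Orth (sympB d) W W →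
        2 * (finrank F W % orderOf (Fintype.card F : ZMod r)) ≤ (2 * d) % cc F r := by
  have hrP : r.Prime := Fact.out
  have hcpos : 0 < cc F r := cc_pos hr
  have hd : 0 < d := by omega
  obtain ⟨x, hxr, hrank⟩ := Cfsg.Agent.Lib.H90SwElt.elt (F := F) hr2 hr hrF (2 * d / cc F r) d
    (Nat.mul_div_le _ _)
  have hk : 0 < 2 * d / cc F r := Nat.div_pos hc hcpos
  have hE := finrank_eigen_add_rank (x : MM)
  rw [hrank] at hE
  have hdm := Nat.div_add_mod (2 * d) (cc F r)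
  have hctx := ctx_of_sp hr2 hr hrF x hxr
  refine ⟨x, hxr, ?_, ?_⟩
  · intro z hz
    have hzz := Cfsg.Agent.Lib.Helper94NdAsm.sq_of_scalar hd x z hz
    have hz1 : z = 1 := by
      have hzr : z ^ r = 1 := by
        have h3 : ((x ^ r : ↥(Matrix.symplecticGroup (Fin d) F)) : MM) = 1 := by rw [hxr]; rfl
        have h4 : ((x ^ r : ↥(Matrix.symplecticGroup (Fin d) F)) : MM) = (x : MM) ^ r := rfl
        rw [h4, hz, _root_.smul_pow, one_pow] at h3
        have h5 := congrFun (congrFun h3 (Sum.inl ⟨0, hd⟩)) (Sum.inl ⟨0, hd⟩)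
        simpa using h5
      obtain ⟨k, hk⟩ := hrP.odd_of_ne_two hr2
      rw [hk, pow_succ, pow_mul, pow_two, hzz, one_pow, one_mul] at hzr
      exact hzr
    rw [hz, hz1, one_smul, sub_self, Matrix.rank_zero] at hrank
    have : 0 < cc F r * (2 * d / cc F r) := Nat.mul_pos hcpos hk
    omega
  · intro W hW hTI
    obtain ⟨k, hk⟩ := Cfsg.Agent.Lib.Helper87EluB1.finrank_congr r hr _ hctx.pow W hW
    obtain ⟨M, -, -, -, -, -, -, -, hNX⟩ := Cfsg.Agent.Lib.H90SwP45.exists_fixfree hctx (Q := ⊤) le_top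
      nondegOn_top
    have h1 := two_mul_finrank_le hctx.alt hNX
      (W := W ⊓ Module.End.eigenspace (Matrix.toLin' (x : MM)) 1) (le_inf le_top inf_le_right)
      (fun a ha b hb => hTI a ha.1 b hb.1)
    rw [top_inf_eq] at h1
    rw [hk, Nat.add_mul_mod_self_left]
    have h2 := Nat.mod_le (finrank F ↥(W ⊓ Module.End.eigenspace (Matrix.toLin' (x : MM)) 1))
      (orderOf (Fintype.card F : ZMod r))
    omega

end Cfsg.Agent.Lib.H94TiMaxelt
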