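import Mathlib
import Cfsg.Prelude.Def_GeometricClasses
import Cfsg.Agent.Lib.Helper94NdDefs
import Cfsg.Agent.Lib.Helper3NdG1
import Cfsg.Agent.Lib.Helper94NdPlane
import Cfsg.Agent.Lib.H90SwP45
import Cfsg.Agent.Lib.H90SwAdj
import Cfsg.Agent.Lib.Helper17SpCount

set_option autoImplicit false
set_option linter.unusedSectionVars false
open Module Cfsg Polynomial
open Cfsg.Agent.Lib.Helper99Symp Cfsg.Agent.Lib.H90SwDefs Cfsg.Agent.Lib.Helper99SympForm
  Cfsg.Agent.Lib.Helper94NdDefs Cfsg.Agent.Lib.Helper3NdG1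

namespace Cfsg.Agent.Lib.H94TiOdd

variable {F V : Type*} [Field F] [AddCommGroup V] [Module F V] [FiniteDimensional F V]
  {B : LinearMap.BilinForm F V} {g : Module.End F V}

/-- I-ODD: `g² = -1`, `-1` not a square: invariant subspaces have even dimension -/
theorem even_finrank_of_neg (hg : g * g = (-1 : F) • 1) (hns : ¬ IsSquare (-1 : F))
    {W : Submodule F V} (hW : W.map g ≤ W) : Even (finrank F W) := by
  have hmem : ∀ x ∈ W, g x ∈ W := fun x hx => hW ⟨x, hx, rfl⟩
  let gW : ↥W →ₗ[F] ↥W := g.restrict hmem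
  have h1 : gW * gW = (-1 : F) • (1 : ↥W →ₗ[F] ↥W) := by
    ext x
    have := congrArg (fun f : Module.End F V => f (x : V)) hg
    simpa [gW] using this
  have h2 := congrArg LinearMap.det h1
  rw [map_mul, LinearMap.det_smul, map_one, mul_one] at h2
  by_contra hodd
  rw [Nat.not_even_iff_odd] at hodd
  rw [hodd.neg_one_pow] at h2
  exact hns ⟨_, h2.symm⟩

end Cfsg.Agent.Lib.H94TiOdd
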