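import Mathlib
import Cfsg.Agent.Lib.Helper94NdAsm
import Cfsg.Agent.Lib.H94TiInd
import Cfsg.Agent.Lib.H94TiL1
import Cfsg.Agent.Lib.H94TiL2
import Cfsg.Agent.Lib.H94TiL3
import Cfsg.Agent.Lib.H94TiOdd
import Cfsg.Agent.Lib.H94TiFix
import Cfsg.Agent.Lib.H94TiJ
import Cfsg.Agent.Lib.H94TiCntp
import Cfsg.Agent.Lib.H94TiCntr
import Cfsg.Agent.Lib.H94TiMaxelt
import Cfsg.Agent.Lib.H94TiDer

set_option autoImplicit false
set_option linter.unusedSectionVars false
open Module Cfsg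
open Cfsg.Agent.Lib.Helper99Symp Cfsg.Agent.Lib.H90SwDefs Cfsg.Agent.Lib.Helper99SympForm
  Cfsg.Agent.Lib.Helper94NdDefs Cfsg.Agent.Lib.Helper3NdG1 Cfsg.Agent.Lib.H90SwMat
  Cfsg.Agent.Lib.Helper94NdAsm
open Cfsg.Agent.Lib.H94TiInd Cfsg.Agent.Lib.H94TiL1 Cfsg.Agent.Lib.H94TiL2 Cfsg.Agent.Lib.H94TiL3
  Cfsg.Agent.Lib.H94TiOdd Cfsg.Agent.Lib.H94TiFix Cfsg.Agent.Lib.H94TiJ Cfsg.Agent.Lib.H94TiCntp
  Cfsg.Agent.Lib.H94TiCntr Cfsg.Agent.Lib.H94TiMaxelt Cfsg.Agent.Lib.H94TiDer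

namespace Cfsg.Agent.Lib.H94TiAsm

variable {F : Type*} [Field F] {d : ℕ}

local notation "VV" => (Fin d ⊕ Fin d → F)
local notation "MM" => Matrix (Fin d ⊕ Fin d) (Fin d ⊕ Fin d) F

/-- the conclusion of the row for one element -/
def FixTI (d m : ℕ) (x : Matrix (Fin d ⊕ Fin d) (Fin d ⊕ Fin d) F) : Prop :=
  ∃ W : Submodule F (Fin d ⊕ Fin d → F), finrank F ↥W = m ∧
    (∀ u ∈ W, ∀ v ∈ W, Cfsg.sympForm d F u v = 0) ∧ W.map (Matrix.toLin' x) ≤ W

theorem orth_iff (W : Submodule F VV) :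
    Orth (sympB d) W W ↔ ∀ u ∈ W, ∀ v ∈ W, Cfsg.sympForm d F u v = 0 := by
  unfold Orth
  simp only [sympB_apply]

theorem card_eq (m : ℕ) :
    Nat.card {W : Submodule F VV // finrank F ↥W = m ∧ (∀ u ∈ W, ∀ v ∈ W, Cfsg.sympForm d F u v = 0)}
      = Nat.card {W : Submodule F VV // finrank F ↥W = m ∧ Orth (sympB d) W W} := by
  have e : {W : Submodule F VV // finrank F ↥W = m ∧ (∀ u ∈ W, ∀ v ∈ W, Cfsg.sympForm d F u v = 0)}
      = {W : Submodule F VV // finrank F ↥W = m ∧ Orth (sympB d) W W} := by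
    congr 1
    funext W
    rw [orth_iff]
  rw [e]

/-- `r = p` is impossible -/
theorem caseP [Fintype F] (p : ℕ) [Fact p.Prime] [CharP F p] (m : ℕ) (hm : m ≤ d)
    (hrΩ : p ∣ Nat.card {W : Submodule F VV // finrank F ↥W = m ∧
      (∀ u ∈ W, ∀ v ∈ W, Cfsg.sympForm d F u v = 0)}) : False := by
  rw [card_eq] at hrΩ
  exact not_char_dvd p m hm hrΩ

/-- `r = 2 ≠ p`, sufficiency -/
theorem case2_mpr [Fintype F] (h2 : (2 : F) ≠ 0) (hd : 0 < d) (m : ℕ) (hm : m ≤ d)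
    (hcond : Even m ∨ Fintype.card F % 4 = 1)
    (x : Matrix.symplecticGroup (Fin d) F) (z : F)
    (hz : ((x ^ 2 : ↥(Matrix.symplecticGroup (Fin d) F)) : MM) = z • (1 : MM)) : FixTI d m (x : MM) := by
  have hzz := sq_of_scalar hd (x ^ 2) z hz
  have hz1 : z = 1 ∨ z = -1 := by
    have : (z - 1) * (z + 1) = 0 := by linear_combination hzz
    rcases mul_eq_zero.1 this with h | h
    · left; linear_combination h
    · right; linear_combination h
  have hiso := iso_of_sp' x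
  have hgg := toLin_sq x z hz
  have key1 : (∀ Q, Good (sympB d) (Matrix.toLin' (x : MM)) ⊤ Q → 2 * 1 ≤ finrank F Q → 0 < finrank F Q →
      ∃ H U, Good (sympB d) (Matrix.toLin' (x : MM)) Q H ∧ finrank F H = 2 * 1 ∧
      U ≤ H ∧ U.map (Matrix.toLin' (x : MM)) ≤ U ∧ Orth (sympB d) U U ∧ finrank F U = 1) →
      FixTI d m (x : MM) := by
    intro hpl
    obtain ⟨W, -, hWg, hWo, hWm⟩ := exists_ti_of_pieces hiso 1 hpl m ⊤ (good_top _)
      (by rw [finrank_top']; omega)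
    exact ⟨W, by rw [hWm, one_mul], (orth_iff W).1 hWo, hWg⟩
  rcases hz1 with rfl | rfl
  · exact key1 fun Q hQ _ h0 => piece_one hiso h2 (by rw [hgg, one_smul]) hQ h0
  · by_cases hsq : IsSquare (-1 : F)
    · obtain ⟨ι, hι⟩ := hsq
      exact key1 fun Q hQ _ h0 => piece_neg_sq hiso h2 hgg ι hι.symm hQ h0
    · have hme : Even m := by
        rcases hcond with h | h
        · exact h
        · exact absurd (FiniteField.isSquare_neg_one_iff.2 (by omega)) hsq
      obtain ⟨e, rfl⟩ := hme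
      obtain ⟨W, -, hWg, hWo, hWm⟩ := exists_ti_of_pieces hiso 2
        (fun Q hQ h4 _ => piece_neg_nonsq hiso h2 hgg hsq hQ h4) e ⊤ (good_top _)
        (by rw [finrank_top']; omega)
      exact ⟨W, by rw [hWm]; omega, (orth_iff W).1 hWo, hWg⟩

/-- `r = 2 ≠ p`, necessity -/
theorem case2_mp [Fintype F] (h2 : (2 : F) ≠ 0) (hd : 0 < d) (m : ℕ)
    (H : ∀ x : ↥(Matrix.symplecticGroup (Fin d) F),
      (∃ z : F, ((x ^ 2 : ↥(Matrix.symplecticGroup (Fin d) F)) : MM) = z • (1 : MM)) →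
      (∀ z : F, (x : MM) ≠ z • (1 : MM)) → FixTI d m (x : MM)) :
    Even m ∨ Fintype.card F % 4 = 1 := by
  by_cases hsq : IsSquare (-1 : F)
  · right
    have h3 := FiniteField.isSquare_neg_one_iff.1 hsq
    have hodd : Fintype.card F % 2 = 1 := FiniteField.odd_card_of_char_ne_two (by
      intro h
      have : ((2 : ℕ) : F) = 0 := by
        rw [← h]
        exact ringChar.Nat.cast_ringChar
      exact h2 (by exact_mod_cast this))
    omega
  · left
    obtain ⟨x, hxx, hns⟩ := exists_J (F := F) hd h2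
    obtain ⟨W, hWm, -, hWx⟩ := H x ⟨-1, hxx⟩ hns
    rw [← hWm]
    exact even_finrank_of_neg (toLin_sq x (-1) hxx) hsq hWx

/-- `r ≠ p` odd, sufficiency -/
theorem caseR_mpr [Fintype F] {r : ℕ} [Fact r.Prime] (hr2 : r ≠ 2) (hr : ¬ r ∣ Fintype.card F)
    (hrF : (r : F) ≠ 0) (hd : 0 < d) (m : ℕ) (hm : m ≤ d)
    (hmod : 2 * (m % orderOf (Fintype.card F : ZMod r)) ≤ (2 * d) % cc F r)
    (hcond : Odd (orderOf (Fintype.card F : ZMod r)) ∨
      (r - 1) / orderOf (Fintype.card F : ZMod r) + 2 * (m / orderOf (Fintype.card F : ZMod r))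
        ≤ (2 * d) / orderOf (Fintype.card F : ZMod r))
    (x : Matrix.symplecticGroup (Fin d) F) (z : F)
    (hz : ((x ^ r : ↥(Matrix.symplecticGroup (Fin d) F)) : MM) = z • (1 : MM)) : FixTI d m (x : MM) := by
  obtain ⟨hz0, hctx⟩ := ctx_of_scalar hr2 hr hrF hd x z hz
  have hfin : finrank F VV = 2 * d := by
    rw [Module.finrank_fintype_fun_eq_card]
    simp [two_mul]
  obtain ⟨W, hWg, hWo, hWm⟩ := exists_ti_of_cond hctx nondegOn_top m (by rw [hfin]; exact hmod) (by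
    rw [hfin]
    split_ifs with he
    · have hcond' := hcond.resolve_left (by rw [Nat.not_odd_iff_even]; exact he)
      have hcc : cc F r = orderOf (Fintype.card F : ZMod r) := by
        unfold cc cOf
        rw [if_pos he]
      rw [hcc] at hmod
      set i := orderOf (Fintype.card F : ZMod r) with hi
      have hdvd : i ∣ r - 1 := by
        have hrP : r.Prime := Fact.out
        have hu : IsUnit (Fintype.card F : ZMod r) := by
          rw [ZMod.isUnit_iff_coprime]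
          exact ((Nat.Prime.coprime_iff_not_dvd hrP).2 hr).symm
        have h1 : (Fintype.card F : ZMod r) ^ (r - 1) = 1 :=
          ZMod.pow_card_sub_one_eq_one hu.ne_zero
        exact orderOf_dvd_of_pow_eq_one h1
      obtain ⟨t, ht⟩ := hdvd
      have hi0 : 0 < i := by
        rcases Nat.eq_zero_or_pos i with h | h
        · rw [h, zero_mul] at ht
          have : 2 ≤ r := (Fact.out : r.Prime).two_le
          omega
        · exact h
      rw [ht, Nat.mul_div_cancel_left _ hi0] at hcond'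
      have e1 := Nat.div_add_mod m i
      have e2 := Nat.div_add_mod (2 * d) i
      rw [ht]
      have e3 : i * (t + 2 * (m / i)) ≤ i * (2 * d / i) := Nat.mul_le_mul_left _ hcond'
      nlinarith
    · omega)
  exact ⟨W, hWm, (orth_iff W).1 hWo, (map_smul_le hz0 _ W).1 hWg⟩

/-- `r ≠ p` odd, necessity -/
theorem caseR_mp [Fintype F] {r : ℕ} [Fact r.Prime] (hr2 : r ≠ 2) (hr : ¬ r ∣ Fintype.card F)
    (hrF : (r : F) ≠ 0) (m : ℕ) (hm1 : 1 ≤ m) (hm : m ≤ d)
    (hrΩ : r ∣ Nat.card {W : Submodule F VV // finrank F ↥W = m ∧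
      (∀ u ∈ W, ∀ v ∈ W, Cfsg.sympForm d F u v = 0)})
    (H : ∀ x : ↥(Matrix.symplecticGroup (Fin d) F),
      (∃ z : F, ((x ^ r : ↥(Matrix.symplecticGroup (Fin d) F)) : MM) = z • (1 : MM)) →
      (∀ z : F, (x : MM) ≠ z • (1 : MM)) → FixTI d m (x : MM)) :
    orderOf (Fintype.card F : ZMod r) ≤ m ∧
    2 * (m % orderOf (Fintype.card F : ZMod r)) ≤ (2 * d) % cc F r ∧
    (Odd (orderOf (Fintype.card F : ZMod r)) ∨
      (r - 1) / orderOf (Fintype.card F : ZMod r) + 2 * (m / orderOf (Fintype.card F : ZMod r))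
        ≤ (2 * d) / orderOf (Fintype.card F : ZMod r)) := by
  rw [card_eq] at hrΩ
  have hlt := mod_lt_of_dvd_ti hr m hm hrΩ
  have hc : cc F r ≤ 2 * d := by
    by_contra hcon
    push Not at hcon
    rw [Nat.mod_eq_of_lt hcon] at hlt
    omega
  obtain ⟨x, hxr, hns, hx⟩ := exists_max_elt_ti (F := F) (d := d) hr2 hr hrF hc
  obtain ⟨W, hWm, hWo, hWx⟩ := H x ⟨1, by rw [hxr]; simp⟩ hns
  have h1 := hx W hWx ((orth_iff W).2 hWo)
  rw [hWm] at h1
  have him : orderOf (Fintype.card F : ZMod r) ≤ m := by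
    by_contra hcon
    push Not at hcon
    rw [Nat.mod_eq_of_lt hcon] at h1
    omega
  refine ⟨him, h1, ?_⟩
  by_contra hcon
  push Not at hcon
  obtain ⟨hne, hlt2⟩ := hcon
  rw [Nat.not_odd_iff_even] at hne
  obtain ⟨y, hyr, hyns, hy⟩ := exists_derangement_ti (F := F) (d := d) hr2 hr hrF m hne him hm hlt2
  obtain ⟨W', hWm', hWo', hWx'⟩ := H y ⟨1, by rw [hyr]; simp⟩ hyns
  exact hy W' hWx' ((orth_iff W').2 hWo') hWm'

end Cfsg.Agent.Lib.H94TiAsm
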