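import Cfsg.Agent.Lib.Helper96EDefs

/-! PROJECT 5980 (TE = row S5980), piece FrExt.  See notes/helper96/E/README.md. -/

set_option autoImplicit false
set_option linter.unusedSectionVars false
set_option linter.unusedVariables false

namespace Cfsg.Agent.Lib.H96EFrExt

open scoped Matrix Kronecker
open Matrix Cfsg.Agent.Lib.Helper49TDefs Cfsg.Agent.Lib.Helper49SDefs Cfsg.Agent.Lib.Helper96KDefs
  Cfsg.Agent.Lib.Helper96EDefs Cfsg.Agent.Lib.H90SwDefs

variable {F : Type*} [Field F] {a b n d : ℕ}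

local notation "Mn" => Matrix (Fin a × Fin b) (Fin a × Fin b) F
local notation "GLn" => Matrix.GeneralLinearGroup (Fin a × Fin b) F
local notation "Ma" => Matrix (Fin a) (Fin a) F
local notation "Mb" => Matrix (Fin b) (Fin b) F
local notation "Md" => Matrix (Fin d ⊕ Fin d) (Fin d ⊕ Fin d) F
local notation "GLd" => Matrix.GeneralLinearGroup (Fin d ⊕ Fin d) F
local notation "Vd" => (Fin d ⊕ Fin d → F)

open Cfsg.Agent.Lib.Helper7SpFrame in
/-- A FRAME SPANS.  `M * matOf ψ = N * matOf ψ`: compare columns (`Matrix.ext_of_mulVec_single` or `ext i j; cases j`, `Matrix.mulVec_mulVec`, `matOf_inl`, `matOf_inr`);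
`matOf ψ` is invertible (`matOf_mem`, `SymplecticGroup.symplectic_det`, `Matrix.mul_left_injective_of_..`/`mul_right_cancel` via `Matrix.nonsing_inv`). -/
theorem ext_frame (ψ : Fin d → Vd × Vd) (hψ : IsFrame ψ) (M N : Md)
    (h : ∀ k, M *ᵥ (ψ k).1 = N *ᵥ (ψ k).1 ∧ M *ᵥ (ψ k).2 = N *ᵥ (ψ k).2) : M = N := by
  have hmem := matOf_mem ψ hψ
  have hdet : IsUnit (matOf ψ).det := SymplecticGroup.symplectic_det hmem
  have key : M * matOf ψ = N * matOf ψ := by
    apply Matrix.ext_of_mulVec_single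
    rintro (i | i)
    · rw [← Matrix.mulVec_mulVec, ← Matrix.mulVec_mulVec, matOf_inl]
      exact (h i).2
    · rw [← Matrix.mulVec_mulVec, ← Matrix.mulVec_mulVec, matOf_inr]
      exact (h i).1
  have h1 := congrArg (· * (matOf ψ)⁻¹) key
  simpa [Matrix.mul_assoc, Matrix.mul_nonsing_inv _ hdet] using h1

end Cfsg.Agent.Lib.H96EFrExt
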