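import Cfsg.Agent.Lib.Helper96EDefs
import Cfsg.Agent.Lib.Helper99Symp

/-! PROJECT 5980 (TE = row S5980), piece Fam.  See notes/helper96/E/README.md. -/

set_option autoImplicit false
set_option linter.unusedSectionVars false
set_option linter.unusedVariables false

namespace Cfsg.Agent.Lib.H96EFam

open scoped Matrix Kronecker
open Matrix Cfsg.Agent.Lib.Helper49TDefs Cfsg.Agent.Lib.Helper49SDefs Cfsg.Agent.Lib.Helper96KDefs
  Cfsg.Agent.Lib.Helper96EDefs Cfsg.Agent.Lib.H90SwDefs

variable {F : Type*} [Field F] {a b n d : ℕ}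

local notation "Mn" => Matrix (Fin a × Fin b) (Fin a × Fin b) F
local notation "GLn" => Matrix.GeneralLinearGroup (Fin a × Fin b) F
local notation "Ma" => Matrix (Fin a) (Fin a) F
local notation "Mb" => Matrix (Fin b) (Fin b) F
local notation "Md" => Matrix (Fin d ⊕ Fin d) (Fin d ⊕ Fin d) F
local notation "GLd" => Matrix.GeneralLinearGroup (Fin d ⊕ Fin d) F
local notation "Vd" => (Fin d ⊕ Fin d → F)

open Cfsg.Agent.Lib.Helper99Symp Cfsg.Agent.Lib.Helper99SympForm Cfsg.Agent.Lib.Helper7SpFrame in
/-- FROM A SYMPLECTIC FAMILY (helper99) TO A FRAME (helper7).  `hg.linearIndependent` and `hg.1` (span = ⊤) make `fun x : I × Bool => g x.1 x.2` a basis (`Basis.mk`), so `card (I × Bool) = finrank = 2 d`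
(`Module.finrank_eq_card_basis`, `Module.finrank_fintype_fun_eq_card`), `card I = d`; `σ := (Fintype.equivFinOfCardEq _).symm`.  `IsFrame`: `IsHyp` is `h1`; for `i ≠ j` all four values `sympForm (g i s) (g j s')` vanish by `hg.2` (`not_not`, `sympB_apply`). -/
theorem frame_of_family {I : Type} [Fintype I] (g : I → Bool → Vd)
    (hg : IsSympFamily (sympB (F := F) d) ⊤ g) (h1 : ∀ i, Cfsg.sympForm d F (g i false) (g i true) = 1) :
    ∃ σ : Fin d ≃ I, IsFrame (fun k => (g (σ k) false, g (σ k) true)) := by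
  classical
  have hli := hg.linearIndependent
  have hcard : Fintype.card I = d := by
    have h1 := finrank_span_eq_card hli
    rw [hg.1, finrank_top, Module.finrank_fintype_fun_eq_card, Fintype.card_prod, Fintype.card_bool,
      Fintype.card_sum, Fintype.card_fin] at h1
    omega
  refine ⟨(Fintype.equivFinOfCardEq hcard).symm, fun i => h1 _, ?_⟩
  intro i j hij
  have hne : (Fintype.equivFinOfCardEq hcard).symm i ≠ (Fintype.equivFinOfCardEq hcard).symm j :=
    fun e => hij ((Fintype.equivFinOfCardEq hcard).symm.injective e)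
  have key : ∀ s s', Cfsg.sympForm d F (g ((Fintype.equivFinOfCardEq hcard).symm i) s)
      (g ((Fintype.equivFinOfCardEq hcard).symm j) s') = 0 := by
    intro s s'
    by_contra hc
    rw [← sympB_apply] at hc
    exact hne ((hg.2 _ _ _ _).1 hc).1
  exact ⟨⟨key _ _, key _ _⟩, ⟨key _ _, key _ _⟩⟩

end Cfsg.Agent.Lib.H96EFam
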