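import Cfsg.Agent.Lib.Helper96EDefs
import Cfsg.Agent.Lib.Helper99Symp

/-! PROJECT 5980 (TE = row S5980), piece FrM1.  See notes/helper96/E/README.md. -/

set_option autoImplicit false
set_option linter.unusedSectionVars false
set_option linter.unusedVariables false

namespace Cfsg.Agent.Lib.H96EFrM1

open scoped Matrix Kronecker
open Matrix Cfsg.Agent.Lib.Helper49TDefs Cfsg.Agent.Lib.Helper49SDefs Cfsg.Agent.Lib.Helper96KDefs
  Cfsg.Agent.Lib.Helper96EDefs Cfsg.Agent.Lib.H90SwDefs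

variable {F : Type*} [Field F] {a b n d : ℕ}

local notation "Mn" => Matrix (Fin a × Fin b) (Fin a × Fin b) F
local notation "GLn" => Matrix.GeneralLinearGroup (Fin a × Fin b) F
local notation "Ma" => Matrix (Fin a) (Fin a) F
local notation "Mb" => Matrix (Fin b) (Fin b) F
local notation "Md" => Matrix (Fin d ⊕ Fin d) (Fin d ⊕ Fin d) F
local notation "GLd" => Matrix.GeneralLinearGroup (Fin d ⊕ Fin d) F
local notation "Vd" => (Fin d ⊕ Fin d → F)

open Cfsg.Agent.Lib.Helper99Symp in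
/-- `Helper99Symp.H_swap hB h2 hX hXX U hbot hU hnd` gives `e f ∈ U`, `B e f ≠ 0`, `X e ∈ span {f}`: `X e = c • f`, so `μ := B e (X e) = c * B e f`, and `c ≠ 0` because `X e ≠ 0` (`X (X e) = -e ≠ 0`, `e ≠ 0` as `B e f ≠ 0`).
Every element of a finite field of odd characteristic is a sum of two squares: `α^2 + β^2 = μ⁻¹` (Mathlib: `FiniteField.exists_root_sum_quadratic` with `X^2` and `X^2 - C μ⁻¹`, see how `ZMod.sq_add_sq`/`FiniteField` lemmas use it; `ringChar F ≠ 2` from `h2`).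
`e' := α • e + β • X e ∈ U`, `X e' = α • X e - β • e`, `B e' (X e') = α² B e (X e) - αβ B e e + αβ B (X e) (X e) - β² B (X e) e = (α² + β²) μ = 1` (`hB`, `Helper99Symp.skew hB`). -/
theorem exists_unit_pair [Fintype F] {V : Type*} [AddCommGroup V] [Module F V] {B : LinearMap.BilinForm F V}
    {X : V →ₗ[F] V} (hB : ∀ v, B v v = 0) (h2 : (2 : F) ≠ 0)
    (hX : ∀ u v, B (X u) (X v) = B u v) (hXX : ∀ v, X (X v) = (-1 : F) • v)
    (U : Submodule F V) (hbot : U ≠ ⊥) (hU : ∀ u ∈ U, X u ∈ U) (hnd : NondegOn B U) :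
    ∃ e ∈ U, B e (X e) = 1 := by
  obtain ⟨e, he, f, hf, hef, hXe, -⟩ := H_swap hB h2 hX hXX U hbot hU hnd
  obtain ⟨c, hc⟩ := Submodule.mem_span_singleton.1 hXe
  have he0 : e ≠ 0 := by
    rintro rfl
    simp at hef
  have hc0 : c ≠ 0 := by
    rintro rfl
    rw [zero_smul] at hc
    have := hXX e
    rw [← hc, map_zero] at this
    apply he0
    have h3 : (-1 : F) • e = -e := by simp
    rw [h3] at this
    exact neg_eq_zero.1 this.symm
  set μ : F := B e (X e) with hμ
  have hμ0 : μ ≠ 0 := by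
    rw [hμ, ← hc, map_smul, smul_eq_mul]
    exact mul_ne_zero hc0 hef
  have hchar : ringChar F ≠ 2 := by
    intro h
    apply h2
    have := ringChar.Nat.cast_ringChar (R := F)
    rw [h] at this
    exact_mod_cast this
  obtain ⟨α, β, hαβ⟩ : ∃ α β : F, α ^ 2 + β ^ 2 = μ⁻¹ := by
    obtain ⟨α, β, hab⟩ : ∃ a b, (Polynomial.X ^ 2 : Polynomial F).eval a +
        (Polynomial.X ^ 2 - Polynomial.C μ⁻¹ : Polynomial F).eval b = 0 :=
      FiniteField.exists_root_sum_quadratic (Polynomial.degree_X_pow 2)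
        (Polynomial.degree_X_pow_sub_C (by decide) _) (FiniteField.odd_card_of_char_ne_two hchar)
    refine ⟨α, β, ?_⟩
    rw [← sub_eq_zero]
    simpa only [Polynomial.eval_C, Polynomial.eval_X, Polynomial.eval_pow, Polynomial.eval_sub,
      ← add_sub_assoc] using hab
  refine ⟨α • e + β • X e, U.add_mem (U.smul_mem _ he) (U.smul_mem _ (hU e he)), ?_⟩
  have h4 : B (X e) e = -μ := by rw [skew hB (X e) e]
  simp only [map_add, map_smul, LinearMap.add_apply, LinearMap.smul_apply, smul_eq_mul, hXX, hB, h4,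
    ← hμ]
  have : (α ^ 2 + β ^ 2) * μ = 1 := by rw [hαβ, inv_mul_cancel₀ hμ0]
  linear_combination this

end Cfsg.Agent.Lib.H96EFrM1
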