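import Cfsg.Agent.Lib.Helper96EDefs
import Cfsg.Agent.Lib.H96EFrM1
import Cfsg.Agent.Lib.H96EFam
import Cfsg.Agent.Lib.Helper99Symp

/-! PROJECT 5980 (TE = row S5980), piece FrM.  See notes/helper96/E/README.md. -/

set_option autoImplicit false
set_option linter.unusedSectionVars false
set_option linter.unusedVariables false

namespace Cfsg.Agent.Lib.H96EFrM

open scoped Matrix Kronecker
open Matrix Cfsg.Agent.Lib.Helper49TDefs Cfsg.Agent.Lib.Helper49SDefs Cfsg.Agent.Lib.Helper96KDefs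
  Cfsg.Agent.Lib.Helper96EDefs Cfsg.Agent.Lib.H90SwDefs

variable {F : Type*} [Field F] {a b n d : ℕ}

local notation "Mn" => Matrix (Fin a × Fin b) (Fin a × Fin b) F
local notation "GLn" => Matrix.GeneralLinearGroup (Fin a × Fin b) F
local notation "Ma" => Matrix (Fin a) (Fin a) F
local notation "Mb" => Matrix (Fin b) (Fin b) F
local notation "Md" => Matrix (Fin d ⊕ Fin d) (Fin d ⊕ Fin d) F
local notation "GLd" => Matrix.GeneralLinearGroup (Fin d ⊕ Fin d) F
local notation "Vd" => (Fin d ⊕ Fin d → F)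

open Cfsg.Agent.Lib.Helper99Symp Cfsg.Agent.Lib.Helper99SympForm Cfsg.Agent.Lib.Helper7SpFrame in
/-- ADAPTED FRAME FOR `x² = -1`.  Apply `Helper99Symp.exists_sympFamily` (see how `Cfsg/Agent/S5962.lean` feeds it: `B = sympB d`, `X = Matrix.toLin' x`, `z = -1`) with
`P e f e' f' := e' = e ∧ f' = f ∧ X e = f ∧ X f = -e ∧ B e f = 1`.  `hP`: clear (`mem_span_pair`).  `H`: always the first alternative, `e` from `H96EFrM1.exists_unit_pair`, `f = X e`.
Result: `I`, `g`, `π` with `IsSympFamily ⊤ g` and `P (g i false) (g i true) ..`; `H96EFam.frame_of_family` gives `σ`; `φ k = (g (σ k) false, g (σ k) true)`. -/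
theorem exists_frame_neg [Fintype F] (h2 : (2 : F) ≠ 0) (x : GLd) (hx : x ∈ Cfsg.spGL d F)
    (hxx : (x : Md) * (x : Md) = -1) :
    ∃ φ : Fin d → Vd × Vd, IsFrame φ ∧ ∀ k, (x : Md) *ᵥ (φ k).1 = (φ k).2 ∧ (x : Md) *ᵥ (φ k).2 = -(φ k).1 := by
  have hxs := (mem_spGL_iff_symp x).1 hx
  have hB : ∀ v, sympB (F := F) d v v = 0 := fun v => by rw [sympB_apply, sympForm_self]
  have hX : ∀ u v, sympB (F := F) d (Matrix.toLin' (x : Md) u) (Matrix.toLin' (x : Md) v) = sympB d u v := by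
    intro u v
    rw [sympB_apply, sympB_apply, Matrix.toLin'_apply, Matrix.toLin'_apply, sympForm_mulVec d hxs]
  have hXX : ∀ v, Matrix.toLin' (x : Md) (Matrix.toLin' (x : Md) v) = (-1 : F) • v := by
    intro v
    rw [Matrix.toLin'_apply, Matrix.toLin'_apply, Matrix.mulVec_mulVec, hxx, Matrix.neg_mulVec,
      Matrix.one_mulVec, neg_smul, one_smul]
  obtain ⟨I, hI, g, π, hg, -, hP⟩ := exists_sympFamily (B := sympB (F := F) d)
    (X := Matrix.toLin' (x : Md)) (z := -1) hB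
    (fun u hu => by
      obtain ⟨v, hv⟩ := sympForm_nondeg d u hu
      exact ⟨v, by rw [sympB_apply]; exact hv⟩)
    hX (by ring) hXX
    (fun e f e' f' => e' = e ∧ f' = f ∧ Matrix.toLin' (x : Md) e = f ∧ Matrix.toLin' (x : Md) f = -e ∧
      sympB (F := F) d e f = 1)
    (by
      rintro e f e' f' ⟨rfl, rfl, h1, h2', -⟩
      constructor
      · rw [h1]; exact Submodule.subset_span (by simp)
      · rw [h2']; exact Submodule.neg_mem _ (Submodule.subset_span (by simp)))
    (by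
      intro U hbot hU hnd
      left
      obtain ⟨e, he, h1⟩ := Cfsg.Agent.Lib.H96EFrM1.exists_unit_pair hB h2 hX hXX U hbot hU hnd
      refine ⟨e, he, _, hU e he, by rw [h1]; exact one_ne_zero, rfl, rfl, rfl, ?_, h1⟩
      rw [hXX, neg_smul, one_smul])
  obtain ⟨σ, hσ⟩ := Cfsg.Agent.Lib.H96EFam.frame_of_family g hg
    (fun i => by rw [← sympB_apply]; exact (hP i).2.2.2.2)
  refine ⟨_, hσ, fun k => ⟨?_, ?_⟩⟩
  · have := (hP (σ k)).2.2.1
    rwa [Matrix.toLin'_apply] at this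
  · have := (hP (σ k)).2.2.2.1
    rwa [Matrix.toLin'_apply] at this


end Cfsg.Agent.Lib.H96EFrM
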