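import Cfsg.Agent.Lib.Helper96EDefs
import Cfsg.Agent.Lib.H96EFam
import Cfsg.Agent.Lib.Helper99Symp

/-! PROJECT 5980 (TE = row S5980), piece FrP.  See notes/helper96/E/README.md. -/

set_option autoImplicit false
set_option linter.unusedSectionVars false
set_option linter.unusedVariables false

namespace Cfsg.Agent.Lib.H96EFrP

open scoped Matrix Kronecker
open Matrix Cfsg.Agent.Lib.Helper49TDefs Cfsg.Agent.Lib.Helper49SDefs Cfsg.Agent.Lib.Helper96KDefs
  Cfsg.Agent.Lib.Helper96EDefs Cfsg.Agent.Lib.H90SwDefs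

variable {F : Type*} [Field F] {a b n d : ℕ}

local notation "Mn" => Matrix (Fin a × Fin b) (Fin a × Fin b) F
local notation "GLn" => Matrix.GeneralLinearGroup (Fin a × Fin b) F
local notation "Ma" => Matrix (Fin a) (Fin a) F
local notation "Mb" => Matrix (Fin b) (Fin b) F
local notation "Md" => Matrix (Fin d ⊕ Fin d) (Fin d ⊕ Fin d) F
local notation "GLd" => Matrix.GeneralLinearGroup (Fin d ⊕ Fin d) F
local notation "Vd" => (Fin d ⊕ Fin d → F)

open Cfsg.Agent.Lib.Helper99Symp Cfsg.Agent.Lib.Helper99SympForm Cfsg.Agent.Lib.Helper7SpFrame in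
/-- ADAPTED FRAME FOR `x² = 1`.  `Helper99Symp.exists_sympFamily` (`B = sympB d`, `X = toLin' x`, `z = 1`, see `Cfsg/Agent/S5962.lean`) with
`P e f e' f' := e' = e ∧ f' = f ∧ B e f = 1 ∧ ∃ c : F, c ≠ 0 ∧ X e = c • e ∧ X f = c • f`.  `H`: first alternative; `Helper99Symp.H_fixed h2 hX hXX U ..` gives `e f ∈ U`, `B e f ≠ 0`, `X e = c • e`, `X f = c' • f`;
`B e f = B (X e) (X f) = c c' B e f` so `c c' = 1`; `X (X e) = e` gives `c c = 1` (`e ≠ 0`); hence `c' = c ≠ 0`.  Replace `f` by `(B e f)⁻¹ • f`.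
Then `H96EFam.frame_of_family`, `φ k = (g (σ k) false, g (σ k) true)`, `ε k` by `choose`. -/
theorem exists_frame_pos (h2 : (2 : F) ≠ 0) (x : GLd) (hx : x ∈ Cfsg.spGL d F)
    (hxx : (x : Md) * (x : Md) = 1) :
    ∃ (φ : Fin d → Vd × Vd) (ε : Fin d → F), IsFrame φ ∧ (∀ k, ε k ≠ 0) ∧
      ∀ k, (x : Md) *ᵥ (φ k).1 = ε k • (φ k).1 ∧ (x : Md) *ᵥ (φ k).2 = ε k • (φ k).2 := by
  classical
  set B := sympB (F := F) d with hBdef
  set X : Vd →ₗ[F] Vd := Matrix.toLin' (x : Md) with hXdef
  have hB : ∀ v, B v v = 0 := fun v => by rw [hBdef, sympB_apply]; exact sympForm_self d v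
  have hnd : ∀ u, u ≠ 0 → ∃ v, B u v ≠ 0 := by
    intro u hu
    obtain ⟨v, hv⟩ := sympForm_nondeg d u hu
    exact ⟨v, by rw [hBdef, sympB_apply]; exact hv⟩
  have hX : ∀ u v, B (X u) (X v) = B u v := by
    intro u v
    rw [hBdef, sympB_apply, sympB_apply, hXdef, Matrix.toLin'_apply, Matrix.toLin'_apply]
    exact hx u v
  have hXX : ∀ v, X (X v) = (1 : F) • v := by
    intro v
    rw [hXdef, Matrix.toLin'_apply, Matrix.toLin'_apply, Matrix.mulVec_mulVec, hxx, Matrix.one_mulVec,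
      one_smul]
  obtain ⟨I, hI, g, π, hg, -, hP⟩ := exists_sympFamily hB hnd hX (z := 1) (by ring) hXX
    (fun e f e' f' => e' = e ∧ f' = f ∧ B e f = 1 ∧ ∃ c : F, c ≠ 0 ∧ X e = c • e ∧ X f = c • f)
    (by
      rintro e f e' f' ⟨rfl, rfl, -, c, -, h1, h3⟩
      rw [h1, h3]
      exact ⟨Submodule.smul_mem _ _ (Submodule.subset_span (by simp)),
        Submodule.smul_mem _ _ (Submodule.subset_span (by simp))⟩)
    (by
      intro U h1 h3 h4
      left
      obtain ⟨e, he, f, hf, hef, hXe, hXf⟩ := H_fixed h2 hX hXX U h1 h3 h4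
      obtain ⟨c, hc⟩ := Submodule.mem_span_singleton.1 hXe
      obtain ⟨c', hc'⟩ := Submodule.mem_span_singleton.1 hXf
      have he0 : e ≠ 0 := by
        intro h0
        apply hef
        rw [h0]; simp
      have hcc' : c * c' = 1 := by
        have h5 := hX e f
        rw [← hc, ← hc'] at h5
        simp only [map_smul, LinearMap.smul_apply, smul_eq_mul] at h5
        have h6 : (c * c') * B e f = 1 * B e f := by rw [one_mul]; linear_combination h5
        exact mul_right_cancel₀ hef h6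
      have hcc : c * c = 1 := by
        have h5 := hXX e
        rw [← hc, map_smul, ← hc, smul_smul] at h5
        have h6 : (c * c - 1) • e = 0 := by rw [sub_smul, h5, sub_self]
        rcases smul_eq_zero.1 h6 with h7 | h7
        · exact sub_eq_zero.1 h7
        · exact absurd h7 he0
      have hceq : c' = c := by
        calc c' = (c * c) * c' := by rw [hcc, one_mul]
          _ = c * (c * c') := by ring
          _ = c := by rw [hcc', mul_one]
      have hc0 : c ≠ 0 := by
        intro h0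
        rw [h0, zero_mul] at hcc
        exact zero_ne_one hcc
      refine ⟨e, he, (B e f)⁻¹ • f, U.smul_mem _ hf, ?_, rfl, rfl, ?_, c, hc0, hc.symm, ?_⟩
      · rw [map_smul, smul_eq_mul, inv_mul_cancel₀ hef]; exact one_ne_zero
      · rw [map_smul, smul_eq_mul, inv_mul_cancel₀ hef]
      · rw [map_smul, ← hc', hceq, smul_comm])
  have h1 : ∀ i, Cfsg.sympForm d F (g i false) (g i true) = 1 := by
    intro i
    rw [← sympB_apply]
    exact (hP i).2.2.1
  obtain ⟨σ, hσ⟩ := Cfsg.Agent.Lib.H96EFam.frame_of_family g hg h1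
  choose c hc using (fun i => (hP i).2.2.2)
  refine ⟨fun k => (g (σ k) false, g (σ k) true), fun k => c (σ k), hσ, fun k => (hc (σ k)).1, fun k => ?_⟩
  have h5 := (hc (σ k)).2
  rw [hXdef, Matrix.toLin'_apply, Matrix.toLin'_apply] at h5
  exact h5

end Cfsg.Agent.Lib.H96EFrP
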