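import Cfsg.Agent.Lib.Helper96EDefs

/-! PROJECT 5980 (TE = row S5980), piece FrTrans.  See notes/helper96/E/README.md. -/

set_option autoImplicit false
set_option linter.unusedSectionVars false
set_option linter.unusedVariables false

namespace Cfsg.Agent.Lib.H96EFrTrans

open scoped Matrix Kronecker
open Matrix Cfsg.Agent.Lib.Helper49TDefs Cfsg.Agent.Lib.Helper49SDefs Cfsg.Agent.Lib.Helper96KDefs
  Cfsg.Agent.Lib.Helper96EDefs Cfsg.Agent.Lib.H90SwDefs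

variable {F : Type*} [Field F] {a b n d : ℕ}

local notation "Mn" => Matrix (Fin a × Fin b) (Fin a × Fin b) F
local notation "GLn" => Matrix.GeneralLinearGroup (Fin a × Fin b) F
local notation "Ma" => Matrix (Fin a) (Fin a) F
local notation "Mb" => Matrix (Fin b) (Fin b) F
local notation "Md" => Matrix (Fin d ⊕ Fin d) (Fin d ⊕ Fin d) F
local notation "GLd" => Matrix.GeneralLinearGroup (Fin d ⊕ Fin d) F
local notation "Vd" => (Fin d ⊕ Fin d → F)

open Cfsg.Agent.Lib.Helper7SpFrame in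
/-- `Sp` IS TRANSITIVE ON FRAMES.  `A = matOf φ * (matOf ψ)⁻¹` in the group `Matrix.symplecticGroup (Fin d) F` (`Helper7SpFrame.matOf_mem`), turned into an element of `spGL` by `Helper96EDefs.exists_spGL_of_symp`.
`matOf ψ *ᵥ Pi.single (inr k) 1 = (ψ k).1`, `matOf ψ *ᵥ Pi.single (inl k) 1 = (ψ k).2` (`matOf_inr`, `matOf_inl`), so `(matOf ψ)⁻¹ *ᵥ (ψ k).1 = Pi.single (inr k) 1` etc. (`Matrix.mulVec_mulVec`, inverse in the group: `inv_mul_cancel` coerced). -/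
theorem exists_map (φ ψ : Fin d → Vd × Vd) (hφ : IsFrame φ) (hψ : IsFrame ψ) :
    ∃ A ∈ Cfsg.spGL d F, ∀ k, (A : Md) *ᵥ (ψ k).1 = (φ k).1 ∧ (A : Md) *ᵥ (ψ k).2 = (φ k).2 := by
  let Mφ : Matrix.symplecticGroup (Fin d) F := ⟨matOf φ, matOf_mem φ hφ⟩
  let Mψ : Matrix.symplecticGroup (Fin d) F := ⟨matOf ψ, matOf_mem ψ hψ⟩
  obtain ⟨A, hA, hAc⟩ := exists_spGL_of_symp ((Mφ * Mψ⁻¹ : Matrix.symplecticGroup (Fin d) F) : Md) (Mφ * Mψ⁻¹).2
  have hinv : ((Mψ⁻¹ : Matrix.symplecticGroup (Fin d) F) : Md) * matOf ψ = 1 := by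
    have : Mψ⁻¹ * Mψ = 1 := inv_mul_cancel _
    exact congrArg Subtype.val this
  have hc : (A : Md) = matOf φ * ((Mψ⁻¹ : Matrix.symplecticGroup (Fin d) F) : Md) := hAc
  refine ⟨A, hA, fun k => ⟨?_, ?_⟩⟩
  · rw [hc, ← matOf_inr ψ k, Matrix.mulVec_mulVec, mul_assoc, hinv, mul_one, matOf_inr]
  · rw [hc, ← matOf_inl ψ k, Matrix.mulVec_mulVec, mul_assoc, hinv, mul_one, matOf_inl]


end Cfsg.Agent.Lib.H96EFrTrans
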