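import Cfsg.Agent.Lib.Helper96EDefs

/-! PROJECT 5980 (TE = row S5980), piece OB.  See notes/helper96/E/README.md. -/

set_option autoImplicit false
set_option linter.unusedSectionVars false
set_option linter.unusedVariables false

namespace Cfsg.Agent.Lib.H96EOB

open scoped Matrix Kronecker
open Matrix Cfsg.Agent.Lib.Helper49TDefs Cfsg.Agent.Lib.Helper49SDefs Cfsg.Agent.Lib.Helper96KDefs
  Cfsg.Agent.Lib.Helper96EDefs Cfsg.Agent.Lib.H90SwDefs

variable {F : Type*} [Field F] {a b n d : ℕ}

local notation "Mn" => Matrix (Fin a × Fin b) (Fin a × Fin b) F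
local notation "GLn" => Matrix.GeneralLinearGroup (Fin a × Fin b) F
local notation "Ma" => Matrix (Fin a) (Fin a) F
local notation "Mb" => Matrix (Fin b) (Fin b) F
local notation "Md" => Matrix (Fin d ⊕ Fin d) (Fin d ⊕ Fin d) F
local notation "GLd" => Matrix.GeneralLinearGroup (Fin d ⊕ Fin d) F
local notation "Vd" => (Fin d ⊕ Fin d → F)

/-- ORTHOGONAL BASIS IN MATRIX FORM.  `B := Matrix.toBilin' J` is symmetric (`hJ.symm`) and nondegenerate (`Matrix.nondegenerate_toBilin'_iff`.., `hJ.unit`).  Mathlib: `LinearMap.BilinForm.exists_orthogonal_basis` (needs `Invertible (2 : F)`: `invertibleOfNonzero h2`)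
gives a basis `v : Basis (Fin (finrank ..)) F (Fin n → F)` with `B.iIsOrtho v`; reindex to `Fin n` (`Module.finrank_fin_fun`, `Basis.reindex (finCongr _)`); `W` = matrix with columns `v k` (invertible: `Basis.toMatrix`/`Basis.invertibleToMatrix`, `Pi.basisFun`),
`(Wᵀ J W) j k = B (v j) (v k)`, `μ k = B (v k) (v k) ≠ 0` (`LinearMap.BilinForm.iIsOrtho.not_isOrtho_basis_self_of_nondegenerate`). -/
theorem exists_orth (h2 : (2 : F) ≠ 0) (J : Matrix (Fin n) (Fin n) F) (hJ : IsSymmMat J) :
    ∃ (W : Matrix.GeneralLinearGroup (Fin n) F) (μ : Fin n → F), (∀ k, μ k ≠ 0) ∧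
      (W : Matrix (Fin n) (Fin n) F)ᵀ * J * (W : Matrix (Fin n) (Fin n) F) = Matrix.diagonal μ := by
  classical
  have : Invertible (2 : F) := invertibleOfNonzero h2
  set B : LinearMap.BilinForm F (Fin n → F) := Matrix.toBilin' J with hB
  have hsymm : LinearMap.IsSymm B :=
    LinearMap.BilinForm.isSymm_iff.1 (Matrix.isSymm_toBilin'_iff_isSymm.2 hJ.symm)
  have hnd : B.Nondegenerate :=
    LinearMap.BilinForm.nondegenerate_toBilin'_of_det_ne_zero' J hJ.unit.ne_zero
  obtain ⟨v0, hv0⟩ := LinearMap.BilinForm.exists_orthogonal_basis hsymm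
  set v : Module.Basis (Fin n) F (Fin n → F) :=
    v0.reindex (finCongr (Module.finrank_fin_fun F)) with hv
  have hortho : B.iIsOrtho v := by
    intro i j hij
    have h5 := hv0 (fun h => hij ((finCongr (Module.finrank_fin_fun F)).symm.injective h))
    show B (v i) (v j) = 0
    rw [hv, Module.Basis.reindex_apply, Module.Basis.reindex_apply]
    exact h5
  set e := Pi.basisFun F (Fin n) with he
  refine ⟨⟨e.toMatrix v, v.toMatrix e, Module.Basis.toMatrix_mul_toMatrix_flip _ _,
    Module.Basis.toMatrix_mul_toMatrix_flip _ _⟩, fun k => B (v k) (v k), ?_, ?_⟩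
  · intro k
    exact hortho.not_isOrtho_basis_self_of_nondegenerate hnd k
  · have h3 := LinearMap.BilinForm.toMatrix_mul_basis_toMatrix e v B
    have h4 : LinearMap.BilinForm.toMatrix e B = J := by
      rw [he, LinearMap.BilinForm.toMatrix_basisFun, hB, LinearMap.BilinForm.toMatrix'_toBilin']
    rw [h4] at h3
    show (e.toMatrix v)ᵀ * J * e.toMatrix v = _
    rw [h3]
    ext i j
    rw [LinearMap.BilinForm.toMatrix_apply, Matrix.diagonal_apply]
    split_ifs with hij
    · rw [hij]
    · exact hortho hij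

end Cfsg.Agent.Lib.H96EOB
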