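import Cfsg.Agent.Lib.Helper96KDefs

/-!
PROJECT 196 (TKL), piece FormB.  See notes/helper96/K/README.md.
-/

set_option autoImplicit false
set_option linter.unusedSectionVars false
set_option linter.unusedVariables false

namespace Cfsg.Agent.Lib.H96KFormB

open scoped Matrix Kronecker
open Matrix Polynomial Cfsg.Agent.Lib.Helper49TDefs Cfsg.Agent.Lib.Helper49SDefs Cfsg.Agent.Lib.Helper96KDefs


variable {F : Type*} [Field F] {a b n : ℕ}

local notation "Mn" => Matrix (Fin a × Fin b) (Fin a × Fin b) F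
local notation "GLn" => Matrix.GeneralLinearGroup (Fin a × Fin b) F
local notation "Mb" => Matrix (Fin b) (Fin b) F
local notation "Ma" => Matrix (Fin a) (Fin a) F

/-! the form `D.ff` on `V`. -/

variable (D : TDat F a b)

@[simp] theorem ff_add_left (x y z : Fin a × Fin b → F) : D.ff (x + y) z = D.ff x z + D.ff y z := by
  simp [TDat.ff, add_dotProduct]
@[simp] theorem ff_add_right (x y z : Fin a × Fin b → F) : D.ff x (y + z) = D.ff x y + D.ff x z := by
  simp [TDat.ff, Matrix.mulVec_add, dotProduct_add]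
@[simp] theorem ff_sub_left (x y z : Fin a × Fin b → F) : D.ff (x - y) z = D.ff x z - D.ff y z := by
  simp [TDat.ff, sub_dotProduct]
@[simp] theorem ff_sub_right (x y z : Fin a × Fin b → F) : D.ff x (y - z) = D.ff x y - D.ff x z := by
  simp [TDat.ff, Matrix.mulVec_sub, dotProduct_sub]
@[simp] theorem ff_smul_left (k : F) (x z : Fin a × Fin b → F) : D.ff (k • x) z = k * D.ff x z := by
  simp [TDat.ff, smul_dotProduct]
@[simp] theorem ff_smul_right (k : F) (x z : Fin a × Fin b → F) : D.ff x (k • z) = k * D.ff x z := by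
  simp [TDat.ff, Matrix.mulVec_smul, dotProduct_smul]
@[simp] theorem ff_neg_left (x z : Fin a × Fin b → F) : D.ff (-x) z = - D.ff x z := by
  simp [TDat.ff, neg_dotProduct]
@[simp] theorem ff_neg_right (x z : Fin a × Fin b → F) : D.ff x (-z) = - D.ff x z := by
  simp [TDat.ff, Matrix.mulVec_neg, dotProduct_neg]
@[simp] theorem ff_zero_left (z : Fin a × Fin b → F) : D.ff 0 z = 0 := by
  simp [TDat.ff]
@[simp] theorem ff_zero_right (z : Fin a × Fin b → F) : D.ff z 0 = 0 := by
  simp [TDat.ff]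

theorem ff_tens (u u' : Fin a → F) (c c' : Fin b → F) :
    D.ff (tens u c) (tens u' c') = bf D.J₁ u u' * bf D.J₂ c c' := by
  rw [TDat.ff, kron_mulVec_tens, tens_dot]
  rfl

theorem bf_single (J : Matrix (Fin n) (Fin n) F) (i j : Fin n) :
    bf J (Pi.single i 1) (Pi.single j 1) = J i j := by
  simp [bf]

theorem J1_transpose : D.J₁ᵀ = - D.J₁ := by
  ext i j
  rw [Matrix.transpose_apply, Matrix.neg_apply, ← bf_single D.J₁ j i, ← bf_single D.J₁ i j, D.h₁.swap]

theorem J1_diag (i : Fin a) : D.J₁ i i = 0 := by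
  rw [← bf_single D.J₁ i i, D.h₁.alt]

theorem K_transpose : (D.J₁ ⊗ₖ D.J₂)ᵀ = - (D.J₁ ⊗ₖ D.J₂) := by
  ext p q
  have h1 : D.J₁ q.1 p.1 = - D.J₁ p.1 q.1 := by
    have := congrFun (congrFun (J1_transpose D) p.1) q.1
    simpa using this
  have h2 : D.J₂ q.2 p.2 = D.J₂ p.2 q.2 := by
    have := congrFun (congrFun D.h₂.symm p.2) q.2
    simpa using this
  simp only [Matrix.transpose_apply, Matrix.neg_apply, Matrix.kroneckerMap_apply, h1, h2]
  ring

/-- `(J₁ ⊗ J₂)ᵀ = -(J₁ ⊗ J₂)` -/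
theorem ff_swap (x y : Fin a × Fin b → F) : D.ff x y = - D.ff y x := by
  unfold TDat.ff
  rw [Matrix.dotProduct_mulVec, ← Matrix.mulVec_transpose, K_transpose, Matrix.neg_mulVec,
    neg_dotProduct, dotProduct_comm]

theorem ff_self (x : Fin a × Fin b → F) : D.ff x x = 0 := by
  let U : Ma := Matrix.of fun i j => if i < j then D.J₁ i j else 0
  have hU : D.J₁ = U - Uᵀ := by
    ext i j
    simp only [U, Matrix.sub_apply, Matrix.transpose_apply, Matrix.of_apply]
    rcases lt_trichotomy i j with h | h | h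
    · rw [if_pos h, if_neg (not_lt.2 h.le), sub_zero]
    · subst h
      rw [if_neg (lt_irrefl _), sub_zero, J1_diag]
    · rw [if_neg (not_lt.2 h.le), if_pos h, zero_sub]
      have := congrFun (congrFun (J1_transpose D) i) j
      simp only [Matrix.transpose_apply, Matrix.neg_apply] at this
      rw [this, neg_neg]
  have hK : D.J₁ ⊗ₖ D.J₂ = U ⊗ₖ D.J₂ - (U ⊗ₖ D.J₂)ᵀ := by
    ext p q
    have h2 : D.J₂ q.2 p.2 = D.J₂ p.2 q.2 := by
      have := congrFun (congrFun D.h₂.symm p.2) q.2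
      simpa using this
    have h1 : D.J₁ p.1 q.1 = U p.1 q.1 - U q.1 p.1 := by
      conv_lhs => rw [hU]
      rfl
    simp only [Matrix.sub_apply, Matrix.transpose_apply, Matrix.kroneckerMap_apply, h1, h2]
    ring
  unfold TDat.ff
  rw [hK, Matrix.sub_mulVec, dotProduct_sub, Matrix.mulVec_transpose,
    dotProduct_comm x (x ᵥ* _), ← Matrix.dotProduct_mulVec, sub_self]

theorem ff_nondeg {w : Fin a × Fin b → F} (h : ∀ x, D.ff x w = 0) : w = 0 := by
  have h1 : (D.J₁ ⊗ₖ D.J₂) *ᵥ w = 0 := by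
    funext i
    have := h (Pi.single i 1)
    simpa [TDat.ff] using this
  have h2 : (D.J₁⁻¹ ⊗ₖ D.J₂⁻¹) *ᵥ ((D.J₁ ⊗ₖ D.J₂) *ᵥ w) = 0 := by rw [h1, Matrix.mulVec_zero]
  rwa [Matrix.mulVec_mulVec, ← Matrix.mul_kronecker_mul, Matrix.nonsing_inv_mul _ D.h₁.unit,
    Matrix.nonsing_inv_mul _ D.h₂.unit, Matrix.one_kronecker_one, Matrix.one_mulVec] at h2

/-- every vector is a sum of pure tensors `tens (Pi.single s 1) (row s)` -/
theorem eq_sum_tens (v : Fin a × Fin b → F) :
    v = ∑ s : Fin a, tens (Pi.single s 1) (fun j => v (s, j)) := by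
  ext ⟨s, j⟩
  simp [tens, Finset.sum_apply, Pi.single_apply]

theorem ff_sum_right {ι : Type*} (s : Finset ι) (x : Fin a × Fin b → F) (f : ι → Fin a × Fin b → F) :
    D.ff x (∑ i ∈ s, f i) = ∑ i ∈ s, D.ff x (f i) := by
  classical
  induction s using Finset.induction_on with
  | empty => simp
  | insert i s hi ih => rw [Finset.sum_insert hi, Finset.sum_insert hi, ff_add_right, ih]

theorem ff_exists_tens {w : Fin a × Fin b → F} (hw : w ≠ 0) : ∃ u c, D.ff w (tens u c) ≠ 0 := by
  by_contra hcon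
  push Not at hcon
  apply hw
  apply ff_nondeg D
  intro x
  rw [ff_swap, eq_sum_tens x, ff_sum_right, Finset.sum_eq_zero (fun s _ => hcon _ _), neg_zero]

@[simp] theorem TV_mulVec (v x : Fin a × Fin b → F) : TV D v *ᵥ x = D.ff x v • v := by
  rw [TV, Matrix.vecMulVec_mulVec, TDat.ff, dotProduct_comm]
  ext i
  simp [mul_comm]

theorem TV_tens (u : Fin a → F) (c : Fin b → F) : TV D (tens u c) = NJ D.J₁ u u ⊗ₖ NJ D.J₂ c c := by
  rw [TV, kron_mulVec_tens]
  ext p q
  simp only [NJ, Matrix.vecMulVec_apply, tens, Matrix.kroneckerMap_apply]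
  ring

theorem TV_smul (k : F) (v : Fin a × Fin b → F) : TV D (k • v) = (k * k) • TV D v := by
  simp [TV, Matrix.mulVec_smul, Matrix.smul_vecMulVec, Matrix.vecMulVec_smul, smul_smul]

theorem TV_sq (v : Fin a × Fin b → F) : TV D v * TV D v = 0 := by
  apply Matrix.toLin'.injective
  apply LinearMap.ext
  intro x
  simp only [Matrix.toLin'_apply, ← Matrix.mulVec_mulVec, TV_mulVec, Matrix.mulVec_smul, ff_self,
    zero_smul, smul_zero, Matrix.zero_mulVec]

/-- two matrices agreeing on all pure tensors are equal -/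
theorem ext_tens' {X Y : Mn} (h : ∀ u c, X *ᵥ tens u c = Y *ᵥ tens u c) : X = Y := by
  ext p q
  have h1 : tens (Pi.single q.1 (1 : F)) (Pi.single q.2 (1 : F)) = Pi.single q 1 := by
    ext ⟨s, j⟩
    obtain ⟨q1, q2⟩ := q
    simp only [tens, Pi.single_apply, Prod.mk.injEq]
    by_cases h1 : s = q1 <;> by_cases h2 : j = q2 <;> simp [h1, h2]
  have := congrFun (h (Pi.single q.1 1) (Pi.single q.2 1)) p
  rw [h1] at this
  simpa using this

end Cfsg.Agent.Lib.H96KFormB
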