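import Cfsg.Agent.Lib.Helper96KDefs

/-!
PROJECT 196 (TKL), piece FN.  See notes/helper96/K/README.md.
-/

set_option autoImplicit false
set_option linter.unusedSectionVars false
set_option linter.unusedVariables false

namespace Cfsg.Agent.Lib.H96KFN

open scoped Matrix Kronecker
open Matrix Polynomial Cfsg.Agent.Lib.Helper49TDefs Cfsg.Agent.Lib.Helper49SDefs Cfsg.Agent.Lib.Helper96KDefs


variable {F : Type*} [Field F] {a b n : ℕ}

local notation "Mn" => Matrix (Fin a × Fin b) (Fin a × Fin b) F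
local notation "GLn" => Matrix.GeneralLinearGroup (Fin a × Fin b) F
local notation "Mb" => Matrix (Fin b) (Fin b) F
local notation "Ma" => Matrix (Fin a) (Fin a) F

/-! tools for full scalar families, from the `NN_*` tools of `Helper49TDefs`. -/

variable {H H' : Subgroup (Matrix.GeneralLinearGroup (Fin a × Fin b) F)}
  {B B₁ B₂ : Matrix (Fin a × Fin b) (Fin a × Fin b) F}

theorem FN_NN (h : B ∈ FN H) : B ∈ NN H := by
  have := h 1
  rwa [one_smul] at this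

theorem FN_sq (h : B ∈ FN H) : B * B = 0 := (FN_NN h).1

theorem FN_iff : B ∈ FN H ↔ B * B = 0 ∧ ∀ c : F, ∃ g ∈ H, (g : Mn) = 1 + c • B := by
  constructor
  · intro h
    exact ⟨FN_sq h, fun c => (h c).2⟩
  · rintro ⟨h1, h2⟩ c
    refine ⟨?_, h2 c⟩
    rw [smul_mul_smul_comm, h1, smul_zero]

theorem FN_zero : (0 : Mn) ∈ FN H := by
  rw [FN_iff]
  exact ⟨by simp, fun c => ⟨1, H.one_mem, by simp⟩⟩

theorem FN_smul (h : B ∈ FN H) (c : F) : c • B ∈ FN H := by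
  intro d
  rw [smul_smul]
  exact h _

theorem FN_neg (h : B ∈ FN H) : -B ∈ FN H := by
  have := FN_smul h (-1)
  rwa [neg_smul, one_smul] at this

theorem FN_add (h₁ : B₁ ∈ FN H) (h₂ : B₂ ∈ FN H) (h : B₁ * B₂ = 0) (h' : B₂ * B₁ = 0) : B₁ + B₂ ∈ FN H := by
  intro c
  rw [smul_add]
  exact NN_add (h₁ c) (h₂ c) (by rw [smul_mul_smul_comm, h, smul_zero])
    (by rw [smul_mul_smul_comm, h', smul_zero])

theorem FN_sub (h₁ : B₁ ∈ FN H) (h₂ : B₂ ∈ FN H) (h : B₁ * B₂ = 0) (h' : B₂ * B₁ = 0) : B₁ - B₂ ∈ FN H := by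
  rw [sub_eq_add_neg]
  exact FN_add h₁ (FN_neg h₂) (by rw [mul_neg, h, neg_zero]) (by rw [neg_mul, h', neg_zero])

theorem FN_conj (h : B ∈ FN H) {t : GLn} (ht : t ∈ H) : (t : Mn) * B * ((t⁻¹ : GLn) : Mn) ∈ FN H := by
  intro c
  have := NN_conj (h c) ht
  rwa [mul_smul_comm, smul_mul_assoc] at this

theorem FN_conj' (h : B ∈ FN H) {t : GLn} (ht : t ∈ H) : ((t⁻¹ : GLn) : Mn) * B * (t : Mn) ∈ FN H := by
  have := FN_conj h (H.inv_mem ht)
  rwa [inv_inv] at this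

theorem FN_mono (hle : H ≤ H') (h : B ∈ FN H) : B ∈ FN H' := by
  intro c
  obtain ⟨h1, g, hg, h2⟩ := h c
  exact ⟨h1, g, hle hg, h2⟩

end Cfsg.Agent.Lib.H96KFN
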