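import Cfsg.Agent.Lib.Helper96KDefs
import Cfsg.Agent.Lib.H96KFN
import Cfsg.Agent.Lib.H49STvIso

/-!
PROJECT 196 (TKL), piece Mem.  See notes/helper96/K/README.md.
-/

set_option autoImplicit false
set_option linter.unusedSectionVars false
set_option linter.unusedVariables false

namespace Cfsg.Agent.Lib.H96KMem

open scoped Matrix Kronecker
open Matrix Polynomial Cfsg.Agent.Lib.Helper49TDefs Cfsg.Agent.Lib.Helper49SDefs Cfsg.Agent.Lib.Helper96KDefs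
open Cfsg.Agent.Lib.H96KFN

variable {F : Type*} [Field F] {a b n : ℕ}

local notation "Mn" => Matrix (Fin a × Fin b) (Fin a × Fin b) F
local notation "GLn" => Matrix.GeneralLinearGroup (Fin a × Fin b) F
local notation "Mb" => Matrix (Fin b) (Fin b) F
local notation "Ma" => Matrix (Fin a) (Fin a) F

/-! elements of `M = KS ⊓ SpG D`. -/

theorem dot_gram {ι : Type*} [Fintype ι] (J g : Matrix ι ι F) (x y : ι → F) :
    (g *ᵥ x) ⬝ᵥ J *ᵥ (g *ᵥ y) = x ⬝ᵥ (gᵀ * J * g) *ᵥ y := by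
  rw [← Matrix.mulVec_mulVec, ← Matrix.mulVec_mulVec, Matrix.dotProduct_mulVec x,
    Matrix.vecMul_transpose]

theorem iso_gram {J : Matrix (Fin n) (Fin n) F} {g : Matrix.GeneralLinearGroup (Fin n) F}
    (h : IsIso J g) : (g : Matrix (Fin n) (Fin n) F)ᵀ * J * (g : Matrix (Fin n) (Fin n) F) = J := by
  ext i j
  have h1 := h (Pi.single i 1) (Pi.single j 1)
  unfold bf at h1
  rw [dot_gram] at h1
  simpa [Matrix.mulVec_single_one] using h1

/-- `A ⊗ B ∈ M` for isometries `A`, `B`. -/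
theorem kron_mem (D : TDat F a b) (A : Matrix.GeneralLinearGroup (Fin a) F) (B : Matrix.GeneralLinearGroup (Fin b) F)
    (hA : IsIso D.J₁ A) (hB : IsIso D.J₂ B) :
    ∃ m ∈ KS a b F ⊓ SpG D, (m : Mn) = (A : Ma) ⊗ₖ (B : Mb) ∧
      ((m⁻¹ : GLn) : Mn) = ((A⁻¹ : Matrix.GeneralLinearGroup (Fin a) F) : Ma) ⊗ₖ
        ((B⁻¹ : Matrix.GeneralLinearGroup (Fin b) F) : Mb) := by
  let m : GLn :=
    { val := (A : Ma) ⊗ₖ (B : Mb)
      inv := ((A⁻¹ : Matrix.GeneralLinearGroup (Fin a) F) : Ma) ⊗ₖ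
        ((B⁻¹ : Matrix.GeneralLinearGroup (Fin b) F) : Mb)
      val_inv := by
        rw [← Matrix.mul_kronecker_mul, ← Units.val_mul, ← Units.val_mul, mul_inv_cancel,
          mul_inv_cancel, Units.val_one, Units.val_one, Matrix.one_kronecker_one]
      inv_val := by
        rw [← Matrix.mul_kronecker_mul, ← Units.val_mul, ← Units.val_mul, inv_mul_cancel,
          inv_mul_cancel, Units.val_one, Units.val_one, Matrix.one_kronecker_one] }
  refine ⟨m, ⟨⟨A, B, rfl⟩, ?_⟩, rfl, rfl⟩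
  intro x y
  show ((A : Ma) ⊗ₖ (B : Mb) *ᵥ x) ⬝ᵥ (D.J₁ ⊗ₖ D.J₂) *ᵥ ((A : Ma) ⊗ₖ (B : Mb) *ᵥ y) =
    x ⬝ᵥ (D.J₁ ⊗ₖ D.J₂) *ᵥ y
  rw [dot_gram, ← Matrix.kroneckerMap_transpose, ← Matrix.mul_kronecker_mul,
    ← Matrix.mul_kronecker_mul, iso_gram hA, iso_gram hB]

theorem isIso_one (J : Matrix (Fin n) (Fin n) F) : IsIso J 1 := by
  intro x y
  simp

/-- `1 + c T_u ⊗ 1 = (1 + c T_u) ⊗ 1`, `H49STvIso.tv_iso`, `kron_mem` with `B = 1`. -/
theorem Tu_mem (D : TDat F a b) (u : Fin a → F) : NJ D.J₁ u u ⊗ₖ (1 : Mb) ∈ FN (KS a b F ⊓ SpG D) := by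
  rw [FN_iff]
  refine ⟨?_, fun c => ?_⟩
  · rw [← Matrix.mul_kronecker_mul, NJ_mul, D.h₁.alt, zero_smul, Matrix.zero_kronecker]
  · obtain ⟨g, hg, hg1, -⟩ := Cfsg.Agent.Lib.H49STvIso.tv_iso D.h₁ u c
    obtain ⟨m, hm, hm1, -⟩ := kron_mem D g 1 hg (isIso_one _)
    refine ⟨m, hm, ?_⟩
    rw [hm1, hg1, Units.val_one, Matrix.add_kronecker, Matrix.smul_kronecker,
      Matrix.one_kronecker_one]

theorem bf_symm {J : Matrix (Fin n) (Fin n) F} (hJ : IsSymmMat J) (x y : Fin n → F) :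
    bf J x y = bf J y x := by
  unfold bf
  rw [Matrix.dotProduct_mulVec, dotProduct_comm, ← Matrix.mulVec_transpose, hJ.symm]

/-- the reflection `r_c` -/
theorem refl_iso {J : Matrix (Fin n) (Fin n) F} (hJ : IsSymmMat J) {c : Fin n → F} (hc : bf J c c ≠ 0) :
    ∃ B : Matrix.GeneralLinearGroup (Fin n) F, IsIso J B ∧
      (B : Matrix (Fin n) (Fin n) F) = 1 - (2 / bf J c c) • NJ J c c ∧
      ((B⁻¹ : Matrix.GeneralLinearGroup (Fin n) F) : Matrix (Fin n) (Fin n) F) = 1 - (2 / bf J c c) • NJ J c c := by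
  have hsq : (1 - (2 / bf J c c) • NJ J c c) * (1 - (2 / bf J c c) • NJ J c c) = 1 := by
    rw [sub_mul, mul_sub, mul_sub, one_mul, mul_one, one_mul, smul_mul_smul_comm, NJ_mul, smul_smul]
    have : 2 / bf J c c * (2 / bf J c c) * bf J c c = 2 / bf J c c + 2 / bf J c c := by
      field_simp
      ring
    rw [this, add_smul]
    abel
  let B : Matrix.GeneralLinearGroup (Fin n) F :=
    ⟨1 - (2 / bf J c c) • NJ J c c, 1 - (2 / bf J c c) • NJ J c c, hsq, hsq⟩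
  refine ⟨B, ?_, rfl, rfl⟩
  intro x y
  show bf J ((1 - (2 / bf J c c) • NJ J c c) *ᵥ x) ((1 - (2 / bf J c c) • NJ J c c) *ᵥ y) = bf J x y
  simp only [Matrix.sub_mulVec, Matrix.one_mulVec, Matrix.smul_mulVec, NJ_mulVec, bf_sub_left,
    bf_sub_right, bf_smul_left, bf_smul_right]
  rw [bf_symm hJ c y]
  field_simp
  ring

end Cfsg.Agent.Lib.H96KMem
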