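import Cfsg.Agent.Lib.Helper96EDefs
import Cfsg.Agent.Lib.H96EOB
import Cfsg.Agent.Lib.H96KFormB
import Cfsg.Agent.Lib.H96KMem

/-! PROJECT 5980 (TE = row S5980), piece TFa.  See notes/helper96/E/README.md. -/

set_option autoImplicit false
set_option linter.unusedSectionVars false
set_option linter.unusedVariables false

namespace Cfsg.Agent.Lib.H96ETFa

open scoped Matrix Kronecker
open Matrix Cfsg.Agent.Lib.Helper49TDefs Cfsg.Agent.Lib.Helper49SDefs Cfsg.Agent.Lib.Helper96KDefs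
  Cfsg.Agent.Lib.Helper96EDefs Cfsg.Agent.Lib.H90SwDefs

variable {F : Type*} [Field F] {a b n d : ℕ}

local notation "Mn" => Matrix (Fin a × Fin b) (Fin a × Fin b) F
local notation "GLn" => Matrix.GeneralLinearGroup (Fin a × Fin b) F
local notation "Ma" => Matrix (Fin a) (Fin a) F
local notation "Mb" => Matrix (Fin b) (Fin b) F
local notation "Md" => Matrix (Fin d ⊕ Fin d) (Fin d ⊕ Fin d) F
local notation "GLd" => Matrix.GeneralLinearGroup (Fin d ⊕ Fin d) F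
local notation "Vd" => (Fin d ⊕ Fin d → F)

/-- THE TENSOR FRAME IN THE STANDARD MODEL (`a = 2`).  `H96EOB.exists_orth h2 D.J₂ D.h₂`: `W`, `μ`.  `w k := W *ᵥ Pi.single k 1` (column `k`), `bf D.J₂ (w j) (w k) = (Wᵀ J₂ W) j k = if j = k then μ k else 0` (`H96KMem.dot_gram`, `H96KFormB.bf_single`).
`c := D.J₁ 0 1 = bf D.J₁ (single 0 1) (single 1 1)`; `c ≠ 0` because `J₁ 0 0 = J₁ 1 1 = 0` (`H96KFormB.J1_diag`), `J₁ 1 0 = - c` (`J1_transpose`) and `det J₁ = c²` is a unit (`Matrix.det_fin_two`).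
`E k := tens (single 0 1) (w k)`, `E' k := (c * μ k)⁻¹ • tens (single 1 1) (w k)`; the three form identities follow from `H96KFormB.ff_tens` (`D.ff` is bilinear: unfold `TDat.ff`, `Matrix.mulVec_smul`, `dotProduct_smul`).
Given `ε`: `Δ := W * diagonal ε * W⁻¹ ∈ GL` (unit since all `ε k ≠ 0`), `Δ (w k) = ε k • w k`; `m` := the unit with matrix `1 ⊗ₖ Δ` (inverse `1 ⊗ₖ Δ⁻¹`, `Matrix.mul_kronecker_mul`), it is in `KS` by definition (`⟨1, Δ, rfl⟩`), and `(1 ⊗ₖ Δ) *ᵥ tens u c = tens u (Δ *ᵥ c)`. -/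
theorem tensor_frame_std (h2 : (2 : F) ≠ 0) (D : TDat F 2 b) :
    ∃ E E' : Fin b → (Fin 2 × Fin b → F),
      (∀ j k, D.ff (E j) (E' k) = if j = k then 1 else 0) ∧ (∀ j k, D.ff (E j) (E k) = 0) ∧
      (∀ j k, D.ff (E' j) (E' k) = 0) ∧
      ∀ ε : Fin b → F, (∀ k, ε k ≠ 0) → ∃ m ∈ KS 2 b F, ∀ k,
        (m : Matrix (Fin 2 × Fin b) (Fin 2 × Fin b) F) *ᵥ E k = ε k • E k ∧
        (m : Matrix (Fin 2 × Fin b) (Fin 2 × Fin b) F) *ᵥ E' k = ε k • E' k := by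
  classical
  obtain ⟨W, μ, hμ, hW⟩ := Cfsg.Agent.Lib.H96EOB.exists_orth h2 D.J₂ D.h₂
  set w : Fin b → (Fin b → F) := fun k => (W : Mb) *ᵥ Pi.single k 1 with hw
  have hbw : ∀ j k, bf D.J₂ (w j) (w k) = if j = k then μ k else 0 := by
    intro j k
    have h1 : bf D.J₂ (w j) (w k) = bf (Matrix.diagonal μ) (Pi.single j 1) (Pi.single k 1) := by
      unfold bf
      rw [hw]
      simp only
      rw [Cfsg.Agent.Lib.H96KMem.dot_gram, hW]
    rw [h1, Cfsg.Agent.Lib.H96KFormB.bf_single, Matrix.diagonal_apply]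
    by_cases hjk : j = k
    · subst hjk; simp
    · simp [hjk]
  set c : F := D.J₁ 0 1 with hc
  have h00 : D.J₁ 0 0 = 0 := Cfsg.Agent.Lib.H96KFormB.J1_diag D 0
  have h11 : D.J₁ 1 1 = 0 := Cfsg.Agent.Lib.H96KFormB.J1_diag D 1
  have hc0 : c ≠ 0 := by
    intro h0
    have h1 := D.h₁.unit
    rw [Matrix.det_fin_two, h00, ← hc, h0] at h1
    simp at h1
  refine ⟨fun k => tens (Pi.single 0 1) (w k),
    fun k => (c * μ k)⁻¹ • tens (Pi.single 1 1) (w k), ?_, ?_, ?_, ?_⟩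
  · intro j k
    simp only [Cfsg.Agent.Lib.H96KFormB.ff_smul_right, Cfsg.Agent.Lib.H96KFormB.ff_tens,
      Cfsg.Agent.Lib.H96KFormB.bf_single, hbw]
    by_cases hjk : j = k
    · subst hjk
      rw [if_pos rfl, if_pos rfl, ← hc]
      exact inv_mul_cancel₀ (mul_ne_zero hc0 (hμ j))
    · rw [if_neg hjk, if_neg hjk, mul_zero, mul_zero]
  · intro j k
    simp only [Cfsg.Agent.Lib.H96KFormB.ff_tens, Cfsg.Agent.Lib.H96KFormB.bf_single, h00, zero_mul]
  · intro j k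
    simp only [Cfsg.Agent.Lib.H96KFormB.ff_smul_right, Cfsg.Agent.Lib.H96KFormB.ff_smul_left,
      Cfsg.Agent.Lib.H96KFormB.ff_tens, Cfsg.Agent.Lib.H96KFormB.bf_single, h11, zero_mul, mul_zero]
  · intro ε hε
    have hdet : (Matrix.diagonal ε).det ≠ 0 := by
      rw [Matrix.det_diagonal]
      exact Finset.prod_ne_zero_iff.2 (fun k _ => hε k)
    set dg : Matrix.GeneralLinearGroup (Fin b) F :=
      Matrix.GeneralLinearGroup.mkOfDetNeZero (Matrix.diagonal ε) hdet with hdg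
    have hdgv : (dg : Mb) = Matrix.diagonal ε := rfl
    set Δ : Matrix.GeneralLinearGroup (Fin b) F := W * dg * W⁻¹ with hΔ
    have hΔw : ∀ k, (Δ : Mb) *ᵥ w k = ε k • w k := by
      intro k
      have h1 : ((W⁻¹ : Matrix.GeneralLinearGroup (Fin b) F) : Mb) * (W : Mb) = 1 := by
        rw [← Units.val_mul, inv_mul_cancel, Units.val_one]
      rw [hΔ, hw]
      simp only
      rw [Units.val_mul, Units.val_mul, Matrix.mulVec_mulVec, mul_assoc, h1, mul_one,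
        ← Matrix.mulVec_mulVec, hdgv, Matrix.diagonal_mulVec_single, mul_one, ← Matrix.mulVec_smul]
      congr 1
      ext i
      simp [Pi.single_apply]
    have hm1 : ((1 : Matrix (Fin 2) (Fin 2) F) ⊗ₖ (Δ : Mb)) *
        ((1 : Matrix (Fin 2) (Fin 2) F) ⊗ₖ ((Δ⁻¹ : Matrix.GeneralLinearGroup (Fin b) F) : Mb)) = 1 := by
      rw [← Matrix.mul_kronecker_mul, ← Units.val_mul, mul_inv_cancel, Units.val_one, mul_one,
        Matrix.one_kronecker_one]
    have hm2 : ((1 : Matrix (Fin 2) (Fin 2) F) ⊗ₖ ((Δ⁻¹ : Matrix.GeneralLinearGroup (Fin b) F) : Mb)) *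
        ((1 : Matrix (Fin 2) (Fin 2) F) ⊗ₖ (Δ : Mb)) = 1 := by
      rw [← Matrix.mul_kronecker_mul, ← Units.val_mul, inv_mul_cancel, Units.val_one, mul_one,
        Matrix.one_kronecker_one]
    refine ⟨⟨_, _, hm1, hm2⟩, ⟨1, Δ, by simp⟩, fun k => ⟨?_, ?_⟩⟩
    · show ((1 : Matrix (Fin 2) (Fin 2) F) ⊗ₖ (Δ : Mb)) *ᵥ tens (Pi.single 0 1) (w k) = _
      rw [kron_mulVec_tens, Matrix.one_mulVec, hΔw]
      ext p
      simp only [tens, Pi.smul_apply, smul_eq_mul]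
      ring
    · show ((1 : Matrix (Fin 2) (Fin 2) F) ⊗ₖ (Δ : Mb)) *ᵥ
        ((c * μ k)⁻¹ • tens (Pi.single 1 1) (w k)) = _
      rw [Matrix.mulVec_smul, kron_mulVec_tens, Matrix.one_mulVec, hΔw]
      ext p
      simp only [tens, Pi.smul_apply, smul_eq_mul]
      ring

end Cfsg.Agent.Lib.H96ETFa
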