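import Cfsg.Agent.Lib.Helper96EDefs
import Cfsg.Agent.Lib.H96ETFa
import Cfsg.Agent.Lib.H96KFormB

/-! PROJECT 5980 (TE = row S5980), piece TFb.  See notes/helper96/E/README.md. -/

set_option autoImplicit false
set_option linter.unusedSectionVars false
set_option linter.unusedVariables false

namespace Cfsg.Agent.Lib.H96ETFb

open scoped Matrix Kronecker
open Matrix Cfsg.Agent.Lib.Helper49TDefs Cfsg.Agent.Lib.Helper49SDefs Cfsg.Agent.Lib.Helper96KDefs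
  Cfsg.Agent.Lib.Helper96EDefs Cfsg.Agent.Lib.H90SwDefs

variable {F : Type*} [Field F] {a b n d : ℕ}

local notation "Mn" => Matrix (Fin a × Fin b) (Fin a × Fin b) F
local notation "GLn" => Matrix.GeneralLinearGroup (Fin a × Fin b) F
local notation "Ma" => Matrix (Fin a) (Fin a) F
local notation "Mb" => Matrix (Fin b) (Fin b) F
local notation "Md" => Matrix (Fin d ⊕ Fin d) (Fin d ⊕ Fin d) F
local notation "GLd" => Matrix.GeneralLinearGroup (Fin d ⊕ Fin d) F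
local notation "Vd" => (Fin d ⊕ Fin d → F)

open Cfsg.Agent.Lib.Helper7SpFrame in
/-- TRANSPORT OF THE TENSOR FRAME.  `E, E'` from `H96ETFa.tensor_frame_std h2 D`; `ψ k := (tau e P (E k), tau e P (E' k))`.  By `hD` (`tau` unfolds to `P *ᵥ (x ∘ e)`), `sympForm (tau x) (tau y) = D.ff x y`, so `IsFrame ψ`
(`IsHyp`: `j = k`; `PerpPair (ψ j) (ψ i).1 = ⟨ff (E i) (E j) = 0, ff (E i) (E' j) = 0⟩`, `PerpPair (ψ j) (ψ i).2 = ⟨ff (E' i) (E j), ff (E' i) (E' j)⟩`, use `H96KFormB.ff_swap` for `ff (E' i) (E j) = - ff (E j) (E' i)`).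
Given `ε`: `m ∈ KS`, `y := phi e P m ∈ tensorProductSubgroup` (`phi_mem_tensor`), `y *ᵥ tau (E k) = tau (m *ᵥ E k) = tau (ε k • E k) = ε k • tau (E k)` (`phi_tau`, `tau_smul`). -/
theorem tensor_frame (h2 : (2 : F) ≠ 0) (e : (Fin d ⊕ Fin d) ≃ Fin 2 × Fin d) (P : GLd) (D : TDat F 2 d)
    (hD : ∀ x y, D.ff x y = Cfsg.sympForm d F ((P : Md) *ᵥ (x ∘ e)) ((P : Md) *ᵥ (y ∘ e))) :
    ∃ ψ : Fin d → Vd × Vd, IsFrame ψ ∧ ∀ ε : Fin d → F, (∀ k, ε k ≠ 0) →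
      ∃ y ∈ Cfsg.Geo.tensorProductSubgroup 2 d e P, ∀ k,
        (y : Md) *ᵥ (ψ k).1 = ε k • (ψ k).1 ∧ (y : Md) *ᵥ (ψ k).2 = ε k • (ψ k).2 := by
  obtain ⟨E, E', h1, h3, h4, h5⟩ := Cfsg.Agent.Lib.H96ETFa.tensor_frame_std h2 D
  have hf : ∀ x y, Cfsg.sympForm d F (tau e P x) (tau e P y) = D.ff x y := fun x y => (hD x y).symm
  refine ⟨fun k => (tau e P (E k), tau e P (E' k)), ⟨fun i => ?_, fun i j hij => ⟨⟨?_, ?_⟩, ⟨?_, ?_⟩⟩⟩, ?_⟩
  · show Cfsg.sympForm d F _ _ = 1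
    rw [hf, h1, if_pos rfl]
  · show Cfsg.sympForm d F _ _ = 0
    rw [hf, h3]
  · show Cfsg.sympForm d F _ _ = 0
    rw [hf, h1, if_neg hij]
  · show Cfsg.sympForm d F _ _ = 0
    rw [hf, Cfsg.Agent.Lib.H96KFormB.ff_swap, h1, if_neg (Ne.symm hij), neg_zero]
  · show Cfsg.sympForm d F _ _ = 0
    rw [hf, h4]
  · intro ε hε
    obtain ⟨m, hm, hmE⟩ := h5 ε hε
    refine ⟨phi e P m, phi_mem_tensor e P hm, fun k => ⟨?_, ?_⟩⟩
    · show _ *ᵥ tau e P (E k) = ε k • tau e P (E k)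
      rw [phi_tau, (hmE k).1, tau_smul]
    · show _ *ᵥ tau e P (E' k) = ε k • tau e P (E' k)
      rw [phi_tau, (hmE k).2, tau_smul]


end Cfsg.Agent.Lib.H96ETFb
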