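import Cfsg.Agent.Lib.Helper96EDefs
import Cfsg.Agent.Lib.H96KMem
import Cfsg.Agent.Lib.H96KFormB

/-! PROJECT 5980 (TE = row S5980), piece Y0.  See notes/helper96/E/README.md. -/

set_option autoImplicit false
set_option linter.unusedSectionVars false
set_option linter.unusedVariables false

namespace Cfsg.Agent.Lib.H96EY0

open scoped Matrix Kronecker
open Matrix Cfsg.Agent.Lib.Helper49TDefs Cfsg.Agent.Lib.Helper49SDefs Cfsg.Agent.Lib.Helper96KDefs
  Cfsg.Agent.Lib.Helper96EDefs Cfsg.Agent.Lib.H90SwDefs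

variable {F : Type*} [Field F] {a b n d : ℕ}

local notation "Mn" => Matrix (Fin a × Fin b) (Fin a × Fin b) F
local notation "GLn" => Matrix.GeneralLinearGroup (Fin a × Fin b) F
local notation "Ma" => Matrix (Fin a) (Fin a) F
local notation "Mb" => Matrix (Fin b) (Fin b) F
local notation "Md" => Matrix (Fin d ⊕ Fin d) (Fin d ⊕ Fin d) F
local notation "GLd" => Matrix.GeneralLinearGroup (Fin d ⊕ Fin d) F
local notation "Vd" => (Fin d ⊕ Fin d → F)

/-- AN ELEMENT OF THE TENSOR SUBGROUP WITH SQUARE `-1`.  `j : GL (Fin 2) F` with matrix `!![0, 1; -1, 0]` (`det = 1`), `j * j = -1`.  `IsIso D.J₁ j`: `jᵀ * J₁ * j = J₁` for `J₁ = !![0, c; -c, 0]` (`H96KFormB.J1_diag`, `J1_transpose`; `Matrix.ext`, `fin_cases`, `Matrix.mul_apply`, `Fin.sum_univ_two`), then `H96KMem.dot_gram`.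
`H96KMem.kron_mem D j 1 hj (isIso_one _)` gives `m ∈ KS ⊓ SpG D` with `(m : Matrix) = j ⊗ₖ 1`, so `m * m = (j*j) ⊗ₖ 1 = -1` (`Matrix.mul_kronecker_mul`, `Matrix.neg_kronecker`?, or entrywise).  `y := phi e P m`: in the tensor subgroup (`phi_mem_tensor`), in `spGL` (`phi_mem_sp`).
`y * y = phi (m * m)`; for every `v = tau e P x` (`exists_rep`): `(y*y) *ᵥ v = tau ((m*m) *ᵥ x) = tau (-x) = -v` (`phi_tau` twice, `tau_smul` with `-1`); conclude by `Matrix.ext_of_mulVec_single`-style extensionality (or compute `phi_eq` directly: `P * (-1) * P⁻¹ = -1`). -/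
theorem exists_y0 (e : (Fin d ⊕ Fin d) ≃ Fin 2 × Fin b) (P : GLd) (D : TDat F 2 b)
    (hD : ∀ x y, D.ff x y = Cfsg.sympForm d F ((P : Md) *ᵥ (x ∘ e)) ((P : Md) *ᵥ (y ∘ e))) :
    ∃ y ∈ Cfsg.Geo.tensorProductSubgroup 2 b e P ⊓ Cfsg.spGL d F, (y : Md) * (y : Md) = -1 := by
  have hdet : (!![0, 1; -1, 0] : Matrix (Fin 2) (Fin 2) F).det ≠ 0 := by
    rw [Matrix.det_fin_two_of]; norm_num
  let j : Matrix.GeneralLinearGroup (Fin 2) F := Matrix.GeneralLinearGroup.mkOfDetNeZero _ hdet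
  have hjc : (j : Matrix (Fin 2) (Fin 2) F) = !![0, 1; -1, 0] := rfl
  have hjj : (j : Matrix (Fin 2) (Fin 2) F) * (j : Matrix (Fin 2) (Fin 2) F) = -1 := by
    rw [hjc]
    ext s t
    fin_cases s <;> fin_cases t <;> simp [Matrix.mul_apply, Fin.sum_univ_two]
  have h00 := Cfsg.Agent.Lib.H96KFormB.J1_diag D 0
  have h11 := Cfsg.Agent.Lib.H96KFormB.J1_diag D 1
  have h10 : D.J₁ 1 0 = - D.J₁ 0 1 := by
    have := congrFun (congrFun (Cfsg.Agent.Lib.H96KFormB.J1_transpose D) 0) 1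
    simpa using this
  have hgram : (j : Matrix (Fin 2) (Fin 2) F)ᵀ * D.J₁ * (j : Matrix (Fin 2) (Fin 2) F) = D.J₁ := by
    rw [hjc]
    ext s t
    fin_cases s <;> fin_cases t <;>
      simp [Matrix.mul_apply, Fin.sum_univ_two, h00, h11, h10]
  have hj : IsIso D.J₁ j := by
    intro x y
    unfold bf
    rw [Cfsg.Agent.Lib.H96KMem.dot_gram, hgram]
  obtain ⟨m, hm, hmc, -⟩ := Cfsg.Agent.Lib.H96KMem.kron_mem D j 1 hj (Cfsg.Agent.Lib.H96KMem.isIso_one _)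
  have hmm : (m : Matrix (Fin 2 × Fin b) (Fin 2 × Fin b) F) * (m : Matrix (Fin 2 × Fin b) (Fin 2 × Fin b) F) = -1 := by
    rw [hmc, ← Matrix.mul_kronecker_mul, hjj, Units.val_one, mul_one]
    ext ⟨s, i⟩ ⟨t, k⟩
    simp [Matrix.kroneckerMap_apply, Matrix.one_apply, Prod.mk.injEq]
    by_cases h1 : s = t <;> by_cases h2 : i = k <;> simp [h1, h2]
  refine ⟨phi e P m, ⟨phi_mem_tensor e P hm.1, phi_mem_sp e P D hD hm.2⟩, ?_⟩
  apply Matrix.toLin'.injective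
  apply LinearMap.ext
  intro v
  obtain ⟨x, rfl⟩ := exists_rep e P v
  rw [Matrix.toLin'_apply, Matrix.toLin'_apply, ← Matrix.mulVec_mulVec, phi_mulVec, phi_mulVec,
    Matrix.mulVec_mulVec, hmm, Matrix.neg_mulVec, Matrix.neg_mulVec, Matrix.one_mulVec, Matrix.one_mulVec,
    ← Matrix.mulVec_neg]
  rfl


end Cfsg.Agent.Lib.H96EY0
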