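import Cfsg.Agent.Lib.Helper96EDefs
import Cfsg.Agent.Lib.H96EFrM
import Cfsg.Agent.Lib.H96EFrP
import Cfsg.Agent.Lib.H96EFrTrans
import Cfsg.Agent.Lib.H96EFrExt
import Cfsg.Agent.Lib.H96ETFb
import Cfsg.Agent.Lib.H96EY0

/-! PROJECT 5980 (TE = row S5980), assembly of the direction `⇐`. -/

set_option autoImplicit false
set_option linter.unusedSectionVars false
set_option linter.unusedVariables false

namespace Cfsg.Agent.Lib.H96EBwd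

open scoped Matrix Kronecker
open Matrix Cfsg.Agent.Lib.Helper49TDefs Cfsg.Agent.Lib.Helper49SDefs Cfsg.Agent.Lib.Helper96KDefs
  Cfsg.Agent.Lib.Helper96EDefs Cfsg.Agent.Lib.H90SwDefs Cfsg.Agent.Lib.Helper7SpFrame

variable {F : Type*} [Field F] {a b n d : ℕ}

local notation "Md" => Matrix (Fin d ⊕ Fin d) (Fin d ⊕ Fin d) F
local notation "GLd" => Matrix.GeneralLinearGroup (Fin d ⊕ Fin d) F
local notation "Vd" => (Fin d ⊕ Fin d → F)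

theorem inv_mulVec (A : GLd) {v w : Vd} (h : (A : Md) *ᵥ v = w) : ((A⁻¹ : GLd) : Md) *ᵥ w = v := by
  rw [← h, Matrix.mulVec_mulVec, ← Units.val_mul, inv_mul_cancel, Units.val_one, Matrix.one_mulVec]

theorem conj_mulVec (A x : GLd) (v : Vd) :
    ((A⁻¹ * x * A : GLd) : Md) *ᵥ v = ((A⁻¹ : GLd) : Md) *ᵥ ((x : Md) *ᵥ ((A : Md) *ᵥ v)) := by
  rw [Units.val_mul, Units.val_mul, Matrix.mulVec_mulVec, Matrix.mulVec_mulVec]

theorem backward [Fintype F] (h2 : (2 : F) ≠ 0) (hd : 0 < d)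
    (e : (Fin d ⊕ Fin d) ≃ Fin 2 × Fin d) (P : GLd) (D : TDat F 2 d)
    (hD : ∀ x y, D.ff x y = Cfsg.sympForm d F ((P : Md) *ᵥ (x ∘ e)) ((P : Md) *ᵥ (y ∘ e)))
    (x : GLd) (hx : x ∈ Cfsg.spGL d F) (z : F) (hz : ((x ^ 2 : GLd) : Md) = z • (1 : Md)) :
    ∃ g ∈ Cfsg.spGL d F, g⁻¹ * x * g ∈ Cfsg.Geo.tensorProductSubgroup 2 d e P := by
  have hAA : (x : Md) * (x : Md) = z • 1 := by
    rw [← hz, pow_two, Units.val_mul]
  have hzz := Cfsg.Agent.Lib.Helper99SympForm.sq_scalar d hd ((mem_spGL_iff_symp x).1 hx) hAA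
  have hz1 : z = 1 ∨ z = -1 := mul_self_eq_one_iff.1 hzz
  rcases hz1 with rfl | rfl
  · rw [one_smul] at hAA
    obtain ⟨φ, ε, hφ, hε, hxφ⟩ := Cfsg.Agent.Lib.H96EFrP.exists_frame_pos h2 x hx hAA
    obtain ⟨ψ, hψ, hy⟩ := Cfsg.Agent.Lib.H96ETFb.tensor_frame h2 e P D hD
    obtain ⟨y, hyT, hyψ⟩ := hy ε hε
    obtain ⟨A, hA, hAψ⟩ := Cfsg.Agent.Lib.H96EFrTrans.exists_map φ ψ hφ hψ
    refine ⟨A, hA, ?_⟩
    have : A⁻¹ * x * A = y := by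
      apply Units.ext
      apply Cfsg.Agent.Lib.H96EFrExt.ext_frame ψ hψ
      intro k
      constructor
      · rw [conj_mulVec, (hAψ k).1, (hxφ k).1, Matrix.mulVec_smul, inv_mulVec A (hAψ k).1, (hyψ k).1]
      · rw [conj_mulVec, (hAψ k).2, (hxφ k).2, Matrix.mulVec_smul, inv_mulVec A (hAψ k).2, (hyψ k).2]
    rw [this]
    exact hyT
  · rw [neg_smul, one_smul] at hAA
    obtain ⟨φ, hφ, hxφ⟩ := Cfsg.Agent.Lib.H96EFrM.exists_frame_neg h2 x hx hAA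
    obtain ⟨y, hyT, hyy⟩ := Cfsg.Agent.Lib.H96EY0.exists_y0 e P D hD
    obtain ⟨ψ, hψ, hyψ⟩ := Cfsg.Agent.Lib.H96EFrM.exists_frame_neg h2 y hyT.2 hyy
    obtain ⟨A, hA, hAψ⟩ := Cfsg.Agent.Lib.H96EFrTrans.exists_map φ ψ hφ hψ
    refine ⟨A, hA, ?_⟩
    have : A⁻¹ * x * A = y := by
      apply Units.ext
      apply Cfsg.Agent.Lib.H96EFrExt.ext_frame ψ hψ
      intro k
      constructor
      · rw [conj_mulVec, (hAψ k).1, (hxφ k).1, inv_mulVec A (hAψ k).2, (hyψ k).1]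
      · rw [conj_mulVec, (hAψ k).2, (hxφ k).2, Matrix.mulVec_neg, inv_mulVec A (hAψ k).1, (hyψ k).2]
    rw [this]
    exact hyT.1

end Cfsg.Agent.Lib.H96EBwd
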