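import Cfsg.Agent.Lib.Helper96EDefs
import Cfsg.Agent.Lib.H45SqCardSp
import Cfsg.Agent.Lib.Helper87EluD

/-! PROJECT 5980 (TE = row S5980), piece CcLe.  See notes/helper96/E/README.md. -/

set_option autoImplicit false
set_option linter.unusedSectionVars false
set_option linter.unusedVariables false

namespace Cfsg.Agent.Lib.H96ECcLe

open scoped Matrix Kronecker
open Matrix Cfsg.Agent.Lib.Helper49TDefs Cfsg.Agent.Lib.Helper49SDefs Cfsg.Agent.Lib.Helper96KDefs
  Cfsg.Agent.Lib.Helper96EDefs Cfsg.Agent.Lib.H90SwDefs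

variable {F : Type*} [Field F] {a b n d : ℕ}

local notation "Mn" => Matrix (Fin a × Fin b) (Fin a × Fin b) F
local notation "GLn" => Matrix.GeneralLinearGroup (Fin a × Fin b) F
local notation "Ma" => Matrix (Fin a) (Fin a) F
local notation "Mb" => Matrix (Fin b) (Fin b) F
local notation "Md" => Matrix (Fin d ⊕ Fin d) (Fin d ⊕ Fin d) F
local notation "GLd" => Matrix.GeneralLinearGroup (Fin d ⊕ Fin d) F
local notation "Vd" => (Fin d ⊕ Fin d → F)

theorem cc_le_of_dvd [Fintype F] (r : ℕ) [Fact r.Prime] (hr : ¬ r ∣ Fintype.card F)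
    (h : r ∣ Nat.card (Cfsg.spGL d F)) : cc F r ≤ 2 * d := by
  have hrP : r.Prime := Fact.out
  rw [Cfsg.Agent.Lib.H45SqCardSp.card_spGL] at h
  rcases (Nat.Prime.dvd_mul hrP).1 h with h1 | h1
  · exact absurd (hrP.dvd_of_dvd_pow h1) hr
  · obtain ⟨j, hj, hjd⟩ := (Prime.dvd_finsetProd_iff hrP.prime _).1 h1
    rw [Finset.mem_range] at hj
    have h2 : orderOf (Fintype.card F : ZMod r) ∣ 2 * (j + 1) :=
      (Cfsg.Agent.Lib.Helper87EluD.dvd_pow_sub_one_iff _ r _ Fintype.card_pos).1 hjd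
    have h3 : cc F r ∣ 2 * (j + 1) := cc_dvd (Dvd.intro _ rfl) h2
    have h4 := Nat.le_of_dvd (by omega) h3
    omega

end Cfsg.Agent.Lib.H96ECcLe
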