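import Cfsg.Agent.Lib.Helper96EDefs

/-! PROJECT 5980 (TE = row S5980), piece CycA.  See notes/helper96/E/README.md. -/

set_option autoImplicit false
set_option linter.unusedSectionVars false
set_option linter.unusedVariables false

namespace Cfsg.Agent.Lib.H96ECycA

open scoped Matrix Kronecker
open Matrix Cfsg.Agent.Lib.Helper49TDefs Cfsg.Agent.Lib.Helper49SDefs Cfsg.Agent.Lib.Helper96KDefs
  Cfsg.Agent.Lib.Helper96EDefs Cfsg.Agent.Lib.H90SwDefs

variable {F : Type*} [Field F] {a b n d : ℕ}

local notation "Mn" => Matrix (Fin a × Fin b) (Fin a × Fin b) F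
local notation "GLn" => Matrix.GeneralLinearGroup (Fin a × Fin b) F
local notation "Ma" => Matrix (Fin a) (Fin a) F
local notation "Mb" => Matrix (Fin b) (Fin b) F
local notation "Md" => Matrix (Fin d ⊕ Fin d) (Fin d ⊕ Fin d) F
local notation "GLd" => Matrix.GeneralLinearGroup (Fin d ⊕ Fin d) F
local notation "Vd" => (Fin d ⊕ Fin d → F)

/-- PURE LINEAR ALGEBRA.  Let `t` be the least natural number such that `fun j : Fin (t+1) => g^j u` is NOT linearly independent
(`Nat.find`; `t + 1 ≤ m` because a subfamily of an independent family is independent: `LinearIndependent.comp` with `Fin.castLE`;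
the empty family is independent so the least bad length is a successor).
Then `fun j : Fin t => g^j u` is independent and `g^t u ∈ Z := span (range fun j : Fin t => g^j u)`
(`linearIndependent_fin_snoc` / `LinearIndependent.fin_cons'`...).  `Z` is `g`-invariant (generators `g^j u ↦ g^(j+1) u`, in `Z` for `j+1 < t`
as a generator, for `j + 1 = t` by the above), `finrank Z ≤ t < m` (`finrank_range_le_card`), and `u ∈ Z`: if `t ≥ 1` it is the generator `j = 0`,
if `t = 0` then `u = g^0 u ∈ span ∅`. -/
theorem exists_invariant {V : Type*} [AddCommGroup V] [Module F V] (g : Module.End F V) (u : V) (m : ℕ)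
    (h : ¬ LinearIndependent F (fun j : Fin m => (g ^ (j : ℕ)) u)) :
    ∃ Z : Submodule F V, u ∈ Z ∧ Z.map g ≤ Z ∧ FiniteDimensional F Z ∧ Module.finrank F Z < m := by
  classical
  have hex : ∃ t : ℕ, ¬ LinearIndependent F (fun j : Fin t => (g ^ (j : ℕ)) u) := ⟨m, h⟩
  obtain ⟨t0, ht0⟩ : ∃ t0, t0 = Nat.find hex := ⟨_, rfl⟩
  have hbad : ¬ LinearIndependent F (fun j : Fin t0 => (g ^ (j : ℕ)) u) := by
    rw [ht0]; exact Nat.find_spec hex
  have hle : t0 ≤ m := by rw [ht0]; exact Nat.find_min' hex h
  have hmin : ∀ s < t0, LinearIndependent F (fun j : Fin s => (g ^ (j : ℕ)) u) := by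
    intro s hs
    by_contra hc
    rw [ht0] at hs
    exact Nat.find_min hex hs hc
  obtain _ | t := t0
  · exact absurd linearIndependent_empty_type hbad
  have hind := hmin t (Nat.lt_succ_self t)
  set Z : Submodule F V := Submodule.span F (Set.range (fun j : Fin t => (g ^ (j : ℕ)) u)) with hZ
  have htop : (g ^ t) u ∈ Z := by
    by_contra hc
    apply hbad
    rw [linearIndependent_finSucc']
    exact ⟨hind, hc⟩
  refine ⟨Z, ?_, ?_, ?_, ?_⟩
  · rcases Nat.eq_zero_or_pos t with h0 | h0
    · subst h0
      simpa using htop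
    · exact Submodule.subset_span ⟨⟨0, h0⟩, by simp⟩
  · rw [hZ, Submodule.map_span_le]
    rintro _ ⟨j, rfl⟩
    have e : g ((g ^ (j : ℕ)) u) = (g ^ ((j : ℕ) + 1)) u := by
      rw [pow_succ', Module.End.mul_apply]
    simp only
    rw [e]
    rcases Nat.lt_or_ge ((j : ℕ) + 1) t with h1 | h1
    · exact Submodule.subset_span ⟨⟨(j : ℕ) + 1, h1⟩, rfl⟩
    · have : (j : ℕ) + 1 = t := le_antisymm j.2 h1
      rw [this]; exact htop
  · exact FiniteDimensional.span_of_finite F (Set.finite_range _)
  · have h1 := finrank_range_le_card (R := F) (fun j : Fin t => (g ^ (j : ℕ)) u)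
    rw [Fintype.card_fin] at h1
    have h2 : Module.finrank F Z ≤ t := h1
    omega

end Cfsg.Agent.Lib.H96ECycA
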