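import Cfsg.Agent.Lib.Helper96EDefs
import Cfsg.Agent.Lib.H96ECycA
import Cfsg.Agent.Lib.Helper87EluB1

/-! PROJECT 5980 (TE = row S5980), piece Cyc.  See notes/helper96/E/README.md. -/

set_option autoImplicit false
set_option linter.unusedSectionVars false
set_option linter.unusedVariables false

namespace Cfsg.Agent.Lib.H96ECyc

open scoped Matrix Kronecker
open Matrix Cfsg.Agent.Lib.Helper49TDefs Cfsg.Agent.Lib.Helper49SDefs Cfsg.Agent.Lib.Helper96KDefs
  Cfsg.Agent.Lib.Helper96EDefs Cfsg.Agent.Lib.H90SwDefs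

variable {F : Type*} [Field F] {a b n d : ℕ}

local notation "Mn" => Matrix (Fin a × Fin b) (Fin a × Fin b) F
local notation "GLn" => Matrix.GeneralLinearGroup (Fin a × Fin b) F
local notation "Ma" => Matrix (Fin a) (Fin a) F
local notation "Mb" => Matrix (Fin b) (Fin b) F
local notation "Md" => Matrix (Fin d ⊕ Fin d) (Fin d ⊕ Fin d) F
local notation "GLd" => Matrix.GeneralLinearGroup (Fin d ⊕ Fin d) F
local notation "Vd" => (Fin d ⊕ Fin d → F)

/-- CYCLIC VECTORS.  `i = ord_r(q)`.  Pick `w` with `g w ≠ w` (`g ≠ 1`), `u = g w - w ≠ 0`.  If the family is dependent, `H96ECycA.exists_invariant`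
(for `Matrix.toLin' g`, `Matrix.toLin'_pow`/`Matrix.toLin'_apply`) gives a `g`-invariant `Z ∋ u` with `finrank Z < i`.
`Helper87EluB1.finrank_congr r hr (toLin' g) _ Z hZ : ∃ k, finrank Z = finrank (Z ⊓ eigenspace g 1) + i * k` forces `k = 0`, so
`Z ⊓ eigenspace = Z` (`Submodule.eq_of_le_of_finrank_eq`) and `g u = u`.  Then `g^j w = w + j • u` by induction, `w = g^r w = w + r • u`, so `(r : F) • u = 0`, `u = 0`: contradiction. -/
theorem exists_cyc [Fintype F] (r : ℕ) [Fact r.Prime] (hr : ¬ r ∣ Fintype.card F) (hrF : (r : F) ≠ 0)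
    (g : Matrix (Fin n) (Fin n) F) (hg : g ^ r = 1) (hg1 : g ≠ 1) :
    ∃ u : Fin n → F, LinearIndependent F
      (fun j : Fin (orderOf ((Fintype.card F : ℕ) : ZMod r)) => (g ^ (j : ℕ)) *ᵥ u) := by
  classical
  set i := orderOf ((Fintype.card F : ℕ) : ZMod r) with hi
  obtain ⟨w, hw⟩ : ∃ w : Fin n → F, g *ᵥ w ≠ w := by
    by_contra hcon
    push Not at hcon
    apply hg1
    apply Matrix.toLin'.injective
    ext1 v
    apply LinearMap.ext
    intro c
    simp [hcon]
  set u := g *ᵥ w - w with hu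
  have hu0 : u ≠ 0 := sub_ne_zero.2 hw
  refine ⟨u, ?_⟩
  by_contra hdep
  set f : Module.End F (Fin n → F) := Matrix.toLin' g with hf
  have hfpow : ∀ (j : ℕ) (v : Fin n → F), (f ^ j) v = (g ^ j) *ᵥ v := by
    intro j v
    rw [hf, ← Matrix.toLin'_pow, Matrix.toLin'_apply]
  have hdep' : ¬ LinearIndependent F (fun j : Fin i => (f ^ (j : ℕ)) u) := by
    intro h
    apply hdep
    have : (fun j : Fin i => (f ^ (j : ℕ)) u) = (fun j : Fin i => (g ^ (j : ℕ)) *ᵥ u) := by
      funext j; exact hfpow j u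
    rwa [this] at h
  obtain ⟨Z, huZ, hZ, -, hlt⟩ := Cfsg.Agent.Lib.H96ECycA.exists_invariant f u i hdep'
  have hfr : f ^ r = 1 := by
    rw [hf, ← Matrix.toLin'_pow, hg, Matrix.toLin'_one]; rfl
  obtain ⟨k, hk⟩ := Cfsg.Agent.Lib.Helper87EluB1.finrank_congr r hr f hfr Z hZ
  rw [← hi] at hk
  have hk0 : k = 0 := by
    by_contra hne
    have h1 : 1 ≤ k := Nat.one_le_iff_ne_zero.2 hne
    have h2 : i * 1 ≤ i * k := Nat.mul_le_mul_left _ h1
    omega
  rw [hk0, mul_zero, add_zero] at hk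
  have hZe : Z ⊓ Module.End.eigenspace f 1 = Z :=
    Submodule.eq_of_le_of_finrank_eq inf_le_left hk.symm
  have hgu : g *ᵥ u = u := by
    have h1 : u ∈ Z ⊓ Module.End.eigenspace f 1 := by rw [hZe]; exact huZ
    have h2 := Module.End.mem_eigenspace_iff.1 h1.2
    rw [one_smul, hf, Matrix.toLin'_apply] at h2
    exact h2
  have hind : ∀ j : ℕ, (g ^ j) *ᵥ w = w + (j : F) • u := by
    intro j
    induction j with
    | zero => simp
    | succ j ih =>
      rw [pow_succ', ← Matrix.mulVec_mulVec, ih, Matrix.mulVec_add, Matrix.mulVec_smul, hgu]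
      have : g *ᵥ w = w + u := by rw [hu]; abel
      rw [this]
      push_cast
      rw [add_smul, one_smul]
      abel
  have h3 := hind r
  rw [hg, Matrix.one_mulVec] at h3
  have h4 : (r : F) • u = 0 := by
    have := h3.symm
    rwa [add_eq_left] at this
  rcases smul_eq_zero.1 h4 with h5 | h5
  · exact hrF h5
  · exact hu0 h5

end Cfsg.Agent.Lib.H96ECyc
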