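import Cfsg.Agent.Lib.Helper96EDefs
import Cfsg.Agent.Lib.Helper13EluT

/-! PROJECT 5980 (TE = row S5980), piece KR.  See notes/helper96/E/README.md. -/

set_option autoImplicit false
set_option linter.unusedSectionVars false
set_option linter.unusedVariables false

namespace Cfsg.Agent.Lib.H96EKR

open scoped Matrix Kronecker
open Matrix Cfsg.Agent.Lib.Helper49TDefs Cfsg.Agent.Lib.Helper49SDefs Cfsg.Agent.Lib.Helper96KDefs
  Cfsg.Agent.Lib.Helper96EDefs Cfsg.Agent.Lib.H90SwDefs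

variable {F : Type*} [Field F] {a b n d : ℕ}

local notation "Mn" => Matrix (Fin a × Fin b) (Fin a × Fin b) F
local notation "GLn" => Matrix.GeneralLinearGroup (Fin a × Fin b) F
local notation "Ma" => Matrix (Fin a) (Fin a) F
local notation "Mb" => Matrix (Fin b) (Fin b) F
local notation "Md" => Matrix (Fin d ⊕ Fin d) (Fin d ⊕ Fin d) F
local notation "GLd" => Matrix.GeneralLinearGroup (Fin d ⊕ Fin d) F
local notation "Vd" => (Fin d ⊕ Fin d → F)

/-- GENERALISED RANK LEMMA (the case `m = 1` is `Helper13EluT.kron_rank_ge`, use its proof as a model; `tv`,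
`kron_mulVec_tv` are there).  Let `T : (Fin m → Fin b → F) →ₗ (Fin a × Fin b → F)`, `T w = ∑ j : Fin m, tv (g₁^j u) (w j)`
(`(tv v w) (s,i) = v s * w i`).  Claim: `(g₁ ⊗ₖ g₂ - 1) ∘ T` is injective; then
`m * b = finrank (Fin m → Fin b → F) ≤ rank`.  Injectivity: if `∑_{j<m} g₁^(j+1) u ⊗ g₂ (w j) = ∑_{j<m} g₁^j u ⊗ w j`, fix the second
coordinate `i : Fin b`: this is a linear relation between the independent vectors `g₁^j u`, `j ≤ m`; the coefficient of `g₁^0 u` gives
`w 0 i = 0`, the coefficient of `g₁^j u` (`1 ≤ j < m`) gives `w j i = (g₂ (w (j-1))) i`; so `w j = 0` for all `j` by induction on `j`. -/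
theorem kron_rank_ge_mul (g₁ : Ma) (g₂ : Mb) (u : Fin a → F) (m : ℕ)
    (hli : LinearIndependent F (fun j : Fin (m + 1) => (g₁ ^ (j : ℕ)) *ᵥ u)) :
    m * b ≤ (g₁ ⊗ₖ g₂ - (1 : Mn)).rank := by
  classical
  let T : (Fin m → Fin b → F) →ₗ[F] (Fin a × Fin b → F) :=
    ∑ j : Fin m, (Cfsg.Agent.Lib.Helper13EluT.tv ((g₁ ^ (j : ℕ)) *ᵥ u)) ∘ₗ (LinearMap.proj j)
  have hT : ∀ w, T w = ∑ j : Fin m, Cfsg.Agent.Lib.Helper13EluT.tv ((g₁ ^ (j : ℕ)) *ᵥ u) (w j) := by
    intro w
    simp [T, LinearMap.sum_apply]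
  let L : (Fin m → Fin b → F) →ₗ[F] (Fin a × Fin b → F) := (g₁ ⊗ₖ g₂ - (1 : Mn)).mulVecLin ∘ₗ T
  have hL : Function.Injective L := by
    rw [injective_iff_map_eq_zero]
    intro w hw
    have h1 : (g₁ ⊗ₖ g₂ - (1 : Mn)) *ᵥ T w = 0 := hw
    rw [hT, Matrix.sub_mulVec, Matrix.one_mulVec, Matrix.mulVec_sum] at h1
    simp only [Cfsg.Agent.Lib.Helper13EluT.kron_mulVec_tv, Matrix.mulVec_mulVec, ← pow_succ'] at h1
    have key : ∀ (i : Fin b) (k : Fin (m + 1)),
        (Fin.cons 0 (fun j => (g₂ *ᵥ w j) i) : Fin (m + 1) → F) k -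
          (Fin.snoc (fun j => w j i) 0 : Fin (m + 1) → F) k = 0 := by
      intro i
      apply Fintype.linearIndependent_iff.1 hli
      have e1 : ∑ k : Fin (m + 1), (Fin.cons 0 (fun j => (g₂ *ᵥ w j) i) : Fin (m + 1) → F) k •
          ((g₁ ^ (k : ℕ)) *ᵥ u) = ∑ j : Fin m, ((g₂ *ᵥ w j) i) • ((g₁ ^ ((j : ℕ) + 1)) *ᵥ u) := by
        rw [Fin.sum_univ_succ]
        simp
      have e2 : ∑ k : Fin (m + 1), (Fin.snoc (fun j => w j i) 0 : Fin (m + 1) → F) k •
          ((g₁ ^ (k : ℕ)) *ᵥ u) = ∑ j : Fin m, (w j i) • ((g₁ ^ (j : ℕ)) *ᵥ u) := by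
        rw [Fin.sum_univ_castSucc]
        simp
      simp only [sub_smul, Finset.sum_sub_distrib]
      rw [e1, e2]
      ext s
      have h2 := congrFun h1 (s, i)
      simp only [Cfsg.Agent.Lib.Helper13EluT.tv, LinearMap.coe_mk, AddHom.coe_mk, Pi.sub_apply,
        Finset.sum_apply, Pi.zero_apply] at h2
      simp only [Pi.sub_apply, Finset.sum_apply, Pi.smul_apply, smul_eq_mul, Pi.zero_apply]
      simpa only [mul_comm] using h2
    have hz : ∀ (j : ℕ) (hj : j < m), w ⟨j, hj⟩ = 0 := by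
      intro j
      induction j with
      | zero =>
        intro hj
        ext i
        have h3 := key i (Fin.castSucc ⟨0, hj⟩)
        rw [Fin.snoc_castSucc] at h3
        have h4 : (Fin.castSucc ⟨0, hj⟩ : Fin (m + 1)) = 0 := rfl
        rw [h4, Fin.cons_zero] at h3
        simpa using h3
      | succ j ih =>
        intro hj
        ext i
        have h3 := key i (Fin.castSucc ⟨j + 1, hj⟩)
        rw [Fin.snoc_castSucc] at h3
        have h4 : (Fin.castSucc ⟨j + 1, hj⟩ : Fin (m + 1)) = Fin.succ ⟨j, by omega⟩ := rfl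
        rw [h4, Fin.cons_succ, ih (by omega)] at h3
        simpa using h3
    ext j i
    rw [hz j.1 j.2]
    rfl
  have h1 : Module.finrank F (LinearMap.range L) = m * b := by
    rw [LinearMap.finrank_range_of_inj hL, Module.finrank_pi_fintype]
    simp
  have h2 : LinearMap.range L ≤ LinearMap.range (g₁ ⊗ₖ g₂ - (1 : Mn)).mulVecLin :=
    LinearMap.range_comp_le_range _ _
  have h3 := Submodule.finrank_mono h2
  rw [h1] at h3
  exact h3

end Cfsg.Agent.Lib.H96EKR
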