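import Cfsg.Agent.Lib.Helper96EDefs

/-! PROJECT 5980 (TE = row S5980), piece Swap.  See notes/helper96/E/README.md. -/

set_option autoImplicit false
set_option linter.unusedSectionVars false
set_option linter.unusedVariables false

namespace Cfsg.Agent.Lib.H96ESwap

open scoped Matrix Kronecker
open Matrix Cfsg.Agent.Lib.Helper49TDefs Cfsg.Agent.Lib.Helper49SDefs Cfsg.Agent.Lib.Helper96KDefs
  Cfsg.Agent.Lib.Helper96EDefs Cfsg.Agent.Lib.H90SwDefs

variable {F : Type*} [Field F] {a b n d : ℕ}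

local notation "Mn" => Matrix (Fin a × Fin b) (Fin a × Fin b) F
local notation "GLn" => Matrix.GeneralLinearGroup (Fin a × Fin b) F
local notation "Ma" => Matrix (Fin a) (Fin a) F
local notation "Mb" => Matrix (Fin b) (Fin b) F
local notation "Md" => Matrix (Fin d ⊕ Fin d) (Fin d ⊕ Fin d) F
local notation "GLd" => Matrix.GeneralLinearGroup (Fin d ⊕ Fin d) F
local notation "Vd" => (Fin d ⊕ Fin d → F)

/-- `B ⊗ₖ A - 1` is the reindexing of `A ⊗ₖ B - 1` along `Equiv.prodComm`: show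
`(B ⊗ₖ A - 1) = (A ⊗ₖ B - 1).submatrix (Equiv.prodComm _ _) (Equiv.prodComm _ _)` by `ext ⟨i, s⟩ ⟨j, t⟩` +
`simp [Matrix.kroneckerMap_apply, Matrix.one_apply, mul_comm, and_comm]`, then `Matrix.rank_submatrix`. -/
theorem rank_swap (A : Ma) (B : Mb) :
    (A ⊗ₖ B - (1 : Matrix (Fin a × Fin b) (Fin a × Fin b) F)).rank
      = (B ⊗ₖ A - (1 : Matrix (Fin b × Fin a) (Fin b × Fin a) F)).rank := by
  have e : (B ⊗ₖ A - (1 : Matrix (Fin b × Fin a) (Fin b × Fin a) F))
      = (A ⊗ₖ B - (1 : Matrix (Fin a × Fin b) (Fin a × Fin b) F)).submatrix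
          (Equiv.prodComm _ _) (Equiv.prodComm _ _) := by
    ext ⟨i, s⟩ ⟨j, t⟩
    simp [Matrix.kroneckerMap_apply, Matrix.one_apply, mul_comm, and_comm]
  rw [e, Matrix.rank_submatrix]

end Cfsg.Agent.Lib.H96ESwap
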