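import Cfsg.Agent.Lib.Helper96EDefs
import Cfsg.Agent.Lib.H96ESwap
import Cfsg.Agent.Lib.H96EKR
import Cfsg.Agent.Lib.H96ECyc
import Cfsg.Agent.Lib.Helper87EluD

/-! PROJECT 5980 (TE = row S5980), piece NS.  See notes/helper96/E/README.md. -/

set_option autoImplicit false
set_option linter.unusedSectionVars false
set_option linter.unusedVariables false

namespace Cfsg.Agent.Lib.H96ENS

open scoped Matrix Kronecker
open Matrix Cfsg.Agent.Lib.Helper49TDefs Cfsg.Agent.Lib.Helper49SDefs Cfsg.Agent.Lib.Helper96KDefs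
  Cfsg.Agent.Lib.Helper96EDefs Cfsg.Agent.Lib.H90SwDefs

variable {F : Type*} [Field F] {a b n d : ℕ}

local notation "Mn" => Matrix (Fin a × Fin b) (Fin a × Fin b) F
local notation "GLn" => Matrix.GeneralLinearGroup (Fin a × Fin b) F
local notation "Ma" => Matrix (Fin a) (Fin a) F
local notation "Mb" => Matrix (Fin b) (Fin b) F
local notation "Md" => Matrix (Fin d ⊕ Fin d) (Fin d ⊕ Fin d) F
local notation "GLd" => Matrix.GeneralLinearGroup (Fin d ⊕ Fin d) F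
local notation "Vd" => (Fin d ⊕ Fin d → F)

/-- CASE `A ≠ 1 ≠ B`.  `i := ord_r(q) ≥ 2`: `i ≠ 0` (`Helper87EluD.orderOf_facts` or as in `Helper13EluT2.small_case`), and `i = 1` would give `(q : ZMod r) = 1`, i.e. `r ∣ q - 1`
(`orderOf_eq_one_iff`, `ZMod.natCast_eq_natCast_iff`/`Nat.modEq_iff_dvd'`, or `Helper87EluD.dvd_pow_sub_one_iff` with `k = 1`).  Write `i = m + 1`.
`H96ECyc.exists_cyc` for `A`: `u` with `A^j u`, `j < i`, independent; so `i ≤ a` (`LinearIndependent.fintype_card_le_finrank`) and `(i-1) * b ≤ rank` (`H96EKR.kron_rank_ge_mul`; rewrite the index `Fin i = Fin (m+1)` by `obtain ⟨m, hm⟩` + `hm ▸`/`subst`-free `cast`: easiest is to generalise `orderOf _ = i` first).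
The same for `B` with `H96ESwap.rank_swap`: `(i-1) * a ≤ rank`.  Now `rank = cc F r = cOf i`.
`i` even: `cOf i = i`, `(i-1) * b ≥ 3 (i-1) > i` for `i ≥ 2`.  `i` odd (so `i ≥ 3`): `cOf i = 2 i`, `a ≥ i` and `a` even so `a ≥ i + 1`, `(i-1)(i+1) = i² - 1 > 2 i` for `i ≥ 3` (`nlinarith`). -/
theorem ns [Fintype F] (hae : Even a) (hb : 3 ≤ b) (r : ℕ) [Fact r.Prime] (hr : ¬ r ∣ Fintype.card F)
    (hrF : (r : F) ≠ 0) (hr1 : ¬ r ∣ Fintype.card F - 1) (A : Ma) (B : Mb) (hA : A ^ r = 1) (hB : B ^ r = 1)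
    (hA1 : A ≠ 1) (hB1 : B ≠ 1) (hrank : (A ⊗ₖ B - (1 : Mn)).rank = cc F r) : False := by
  obtain ⟨hi0, hi1⟩ := Cfsg.Agent.Lib.Helper87EluD.orderOf_facts (Fintype.card F) r Fintype.card_pos hr
  obtain ⟨u, hu⟩ := Cfsg.Agent.Lib.H96ECyc.exists_cyc r hr hrF A hA hA1
  obtain ⟨v, hv⟩ := Cfsg.Agent.Lib.H96ECyc.exists_cyc r hr hrF B hB hB1
  have hcc : cc F r = cOf (orderOf ((Fintype.card F : ℕ) : ZMod r)) := rfl
  rw [hcc] at hrank
  have hne1 : orderOf ((Fintype.card F : ℕ) : ZMod r) ≠ 1 := fun h => hr1 (hi1.1 h)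
  generalize orderOf ((Fintype.card F : ℕ) : ZMod r) = i at *
  obtain ⟨m, rfl⟩ : ∃ m, i = m + 1 := ⟨i - 1, by omega⟩
  have hia : m + 1 ≤ a := by
    have := hu.fintype_card_le_finrank
    simpa using this
  have h1 := Cfsg.Agent.Lib.H96EKR.kron_rank_ge_mul A B u m hu
  have h2 := Cfsg.Agent.Lib.H96EKR.kron_rank_ge_mul B A v m hv
  rw [← Cfsg.Agent.Lib.H96ESwap.rank_swap A B] at h2
  rw [hrank] at h1 h2
  unfold cOf at h1 h2
  have hm1 : 1 ≤ m := by omega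
  split_ifs at h1 h2 with he
  · nlinarith
  · have hodd : Odd (m + 1) := Nat.not_even_iff_odd.1 he
    obtain ⟨c, hc⟩ := hae
    obtain ⟨t, ht⟩ := hodd
    have ha' : m + 2 ≤ a := by omega
    have hm2 : 2 ≤ m := by omega
    nlinarith


end Cfsg.Agent.Lib.H96ENS
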