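import Mathlib
import Cfsg.Prelude.Def_GeometricClasses
import Cfsg.Agent.Lib.Helper45Semisimple

set_option autoImplicit false

namespace Cfsg.Agent.Lib.Helper21EluRANK

open Cfsg Cfsg.Geo Matrix Polynomial
open scoped MatrixGroups

variable {F : Type*} [Field F] [Fintype F]

theorem dvd_pow_rank {ι : Type*} [Fintype ι] [DecidableEq ι] (r : ℕ) [Fact r.Prime]
    (hr : ¬ r ∣ Fintype.card F) (y : Matrix ι ι F) (hy : y ^ r = 1) :
    r ∣ Fintype.card F ^ (y - 1).rank - 1 := by
  classical
  set q := Fintype.card F with hq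
  let f : Function.End (ι → F) := fun v => y *ᵥ v
  have hpow : ∀ k : ℕ, ∀ v, (f ^ k) v = (y ^ k) *ᵥ v := by
    intro k
    induction k with
    | zero => intro v; simp; rfl
    | succ k ih =>
      intro v
      rw [pow_succ', pow_succ']
      show f ((f ^ k) v) = _
      rw [ih]
      show y *ᵥ ((y ^ k) *ᵥ v) = _
      rw [Matrix.mulVec_mulVec]
  have hf : f ^ r ^ 1 = 1 := by
    funext v
    rw [pow_one, hpow, hy]
    simp
    rfl
  have h1 := Equiv.Perm.card_fixedPoints_modEq hf
  have hfix : Function.fixedPoints f = (LinearMap.ker (y - 1).mulVecLin : Set (ι → F)) := by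
    ext v
    simp only [SetLike.mem_coe, LinearMap.mem_ker,
      Matrix.mulVecLin_apply, Matrix.sub_mulVec, Matrix.one_mulVec, sub_eq_zero]
    rfl
  have h2 : Fintype.card (Function.fixedPoints f)
      = q ^ Module.finrank F (LinearMap.ker (y - 1).mulVecLin) := by
    rw [← Module.card_eq_pow_finrank (K := F) (V := LinearMap.ker (y - 1).mulVecLin)]
    apply Fintype.card_congr
    rw [hfix]
    exact Equiv.refl _
  have h3 : Fintype.card (ι → F) = q ^ Fintype.card ι := by
    rw [Fintype.card_fun]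
  have h4 : (y - 1).rank + Module.finrank F (LinearMap.ker (y - 1).mulVecLin)
      = Fintype.card ι := by
    have := LinearMap.finrank_range_add_finrank_ker (y - 1).mulVecLin
    rw [Module.finrank_fintype_fun_eq_card] at this
    exact this
  set d := (y - 1).rank
  set e := Module.finrank F (LinearMap.ker (y - 1).mulVecLin)
  rw [h2, h3, ← h4, pow_add] at h1
  have hq1 : 1 ≤ q ^ d := Nat.one_le_pow _ _ Fintype.card_pos
  have h5 : r ∣ q ^ d * q ^ e - q ^ e := by
    apply (Nat.modEq_iff_dvd' _).1 h1.symm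
    nlinarith [Nat.zero_le (q ^ e)]
  have h6 : q ^ d * q ^ e - q ^ e = (q ^ d - 1) * q ^ e := by
    rw [Nat.sub_mul, one_mul]
  rw [h6] at h5
  rcases (Nat.Prime.dvd_mul (Fact.out : r.Prime)).1 h5 with h | h
  · exact h
  · exact absurd ((Fact.out : r.Prime).dvd_of_dvd_pow h) hr

theorem orderOf_dvd_rank {ι : Type*} [Fintype ι] [DecidableEq ι] (r : ℕ) [Fact r.Prime]
    (hr : ¬ r ∣ Fintype.card F) (y : Matrix ι ι F) (hy : y ^ r = 1) :
    orderOf ((Fintype.card F : ℕ) : ZMod r) ∣ (y - 1).rank := by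
  rw [orderOf_dvd_iff_pow_eq_one]
  have h := dvd_pow_rank r hr y hy
  have hq1 : 1 ≤ Fintype.card F ^ (y - 1).rank := Nat.one_le_pow _ _ Fintype.card_pos
  have h2 := (ZMod.natCast_eq_zero_iff _ r).2 h
  rw [Nat.cast_sub hq1] at h2
  push_cast at h2
  exact sub_eq_zero.1 h2

end Cfsg.Agent.Lib.Helper21EluRANK
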