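import Cfsg.Agent.Lib.Helper13EluT
import Cfsg.Agent.Lib.Helper87EluD
import Cfsg.Agent.Lib.Helper21EluRANK

/-! Project 94 (ELU2), row S5979: elements conjugate into the tensor product subgroup. -/

set_option autoImplicit false

namespace Cfsg.Agent.Lib.Helper13EluT2

open scoped Matrix Kronecker MatrixGroups
open Matrix Cfsg Cfsg.Geo Cfsg.Agent.Lib.Helper13EluT

variable {F : Type*} [Field F] {a b n : ℕ}

theorem exists_of_conj_mem (e : Fin n ≃ Fin a × Fin b) (P x g : GL (Fin n) F)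
    (h : g⁻¹ * x * g ∈ tensorProductSubgroup a b e P) :
    ∃ k ∈ kroneckerSubgroup a b F, ∃ Q : GL (Fin n) F, x = Q * glReindex e.symm k * Q⁻¹ := by
  obtain ⟨_, ⟨k, hk, rfl⟩, hh⟩ := h
  refine ⟨k, hk, g * P, ?_⟩
  have h1 : P * glReindex e.symm k * P⁻¹ = g⁻¹ * x * g := hh
  calc x = g * (g⁻¹ * x * g) * g⁻¹ := by group
  _ = _ := by rw [← h1]; group

theorem mem_tensor (e : Fin n ≃ Fin a × Fin b) (P : GL (Fin n) F) (k : GL (Fin a × Fin b) F)
    (hk : k ∈ kroneckerSubgroup a b F) :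
    P * glReindex e.symm k * P⁻¹ ∈ tensorProductSubgroup a b e P :=
  ⟨_, ⟨k, hk, rfl⟩, rfl⟩

theorem coe_glReindex (e : Fin n ≃ Fin a × Fin b) (k : GL (Fin a × Fin b) F) :
    ((glReindex e.symm k : GL (Fin n) F) : Matrix (Fin n) (Fin n) F)
      = (k : Matrix (Fin a × Fin b) (Fin a × Fin b) F).submatrix e e := rfl

theorem conj_sub (e : Fin n ≃ Fin a × Fin b) (Q : GL (Fin n) F) (k : GL (Fin a × Fin b) F) (l : F) :
    ((Q * glReindex e.symm k * Q⁻¹ : GL (Fin n) F) : Matrix (Fin n) (Fin n) F) - l • 1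
      = (Q : Matrix (Fin n) (Fin n) F) *
        ((k : Matrix (Fin a × Fin b) (Fin a × Fin b) F) - l • 1).submatrix e e *
        ((Q⁻¹ : GL (Fin n) F) : Matrix (Fin n) (Fin n) F) := by
  have h1 : ((k : Matrix (Fin a × Fin b) (Fin a × Fin b) F) - l • 1).submatrix e e
      = (k : Matrix (Fin a × Fin b) (Fin a × Fin b) F).submatrix e e - l • 1 := by
    ext i j
    simp [Matrix.one_apply]
  rw [Units.val_mul, Units.val_mul, coe_glReindex, h1, mul_sub, sub_mul, mul_smul_comm,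
    smul_mul_assoc, mul_one, ← Units.val_mul, mul_inv_cancel, Units.val_one]

theorem rank_conj (e : Fin n ≃ Fin a × Fin b) (Q : GL (Fin n) F) (k : GL (Fin a × Fin b) F) (l : F) :
    (((Q * glReindex e.symm k * Q⁻¹ : GL (Fin n) F) : Matrix (Fin n) (Fin n) F) - l • 1).rank
      = ((k : Matrix (Fin a × Fin b) (Fin a × Fin b) F) - l • 1).rank := by
  rw [conj_sub, Matrix.rank_mul_eq_left_of_isUnit_det _ _
      ((Matrix.isUnit_iff_isUnit_det _).1 (Q⁻¹).isUnit),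
    Matrix.rank_mul_eq_right_of_isUnit_det _ _ ((Matrix.isUnit_iff_isUnit_det _).1 Q.isUnit),
    Matrix.rank_submatrix]

/-- The criterion for derangements. -/
theorem crit (e : Fin n ≃ Fin a × Fin b) (P x g : GL (Fin n) F)
    (h : g⁻¹ * x * g ∈ tensorProductSubgroup a b e P) (l l' : F) :
    b ≤ ((x : Matrix (Fin n) (Fin n) F) - l • 1).rank ∨
      a ∣ ((x : Matrix (Fin n) (Fin n) F) - l' • 1).rank := by
  obtain ⟨k, ⟨g₁, g₂, hk⟩, Q, rfl⟩ := exists_of_conj_mem e P x g h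
  rw [rank_conj, rank_conj, hk]
  rcases kron_dichotomy g₁ g₂ with h1 | ⟨M, hM⟩
  · exact Or.inl (h1.2 l)
  · right
    rw [hM, one_kron_sub, rank_one_kron]
    exact Dvd.intro _ rfl

theorem kron_pow (A : Matrix (Fin a) (Fin a) F) (B : Matrix (Fin b) (Fin b) F) (m : ℕ) :
    (A ⊗ₖ B) ^ m = (A ^ m) ⊗ₖ (B ^ m) := by
  induction m with
  | zero => simp
  | succ m ih => rw [pow_succ, ih, ← Matrix.mul_kronecker_mul, ← pow_succ, ← pow_succ]

theorem kron_eq_one_left (ha : 0 < a) (hb : 0 < b) (A : Matrix (Fin a) (Fin a) F)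
    (B : Matrix (Fin b) (Fin b) F) (h : A ⊗ₖ B = 1) : ∃ c : F, c ≠ 0 ∧ A = c • 1 := by
  have h1 : ∀ s t, A s t * B ⟨0, hb⟩ ⟨0, hb⟩ = if s = t then 1 else 0 := by
    intro s t
    have := congrFun (congrFun h (s, ⟨0, hb⟩)) (t, ⟨0, hb⟩)
    rw [Matrix.kroneckerMap_apply, Matrix.one_apply] at this
    rw [this]
    simp
  have hβ : B ⟨0, hb⟩ ⟨0, hb⟩ ≠ 0 := by
    intro h0
    have := h1 ⟨0, ha⟩ ⟨0, ha⟩
    rw [h0, mul_zero, if_pos rfl] at this
    exact zero_ne_one this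
  refine ⟨(B ⟨0, hb⟩ ⟨0, hb⟩)⁻¹, inv_ne_zero hβ, ?_⟩
  ext s t
  rw [Matrix.smul_apply, Matrix.one_apply, smul_eq_mul, eq_comm, inv_mul_eq_iff_eq_mul₀ hβ, ← h1 s t,
    mul_comm]

theorem one_kron_injective (ha : 0 < a) (M M' : Matrix (Fin b) (Fin b) F)
    (h : (1 : Matrix (Fin a) (Fin a) F) ⊗ₖ M = (1 : Matrix (Fin a) (Fin a) F) ⊗ₖ M') : M = M' := by
  ext i j
  have := congrFun (congrFun h (⟨0, ha⟩, i)) (⟨0, ha⟩, j)
  simpa [Matrix.kroneckerMap_apply] using this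

theorem rank_pos_of_ne_zero {ι : Type*} [Fintype ι] [DecidableEq ι] (M : Matrix ι ι F) (h : M ≠ 0) :
    0 < M.rank := by
  rw [Nat.pos_iff_ne_zero]
  intro h0
  rw [Matrix.rank, Submodule.finrank_eq_zero, LinearMap.range_eq_bot] at h0
  apply h
  apply Matrix.toLin'.injective
  rw [map_zero, Matrix.toLin'_apply', h0]

theorem small_case [Fintype F] (r : ℕ) [Fact r.Prime] (hrq : ¬ r ∣ Fintype.card F)
    (hr1 : ¬ r ∣ Fintype.card F - 1) (ha : 2 ≤ a) (hab : a < b)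
    (e : Fin n ≃ Fin a × Fin b) (P x g : GL (Fin n) F)
    (h : g⁻¹ * x * g ∈ tensorProductSubgroup a b e P) (hx : x ^ r = 1) (hx1 : x ≠ 1) :
    orderOf ((Fintype.card F : ℕ) : ZMod r) < ((x : Matrix (Fin n) (Fin n) F) - 1).rank := by
  obtain ⟨k, ⟨g₁, g₂, hk⟩, Q, rfl⟩ := exists_of_conj_mem e P x g h
  have hkr : k ^ r = 1 := by
    rw [conj_pow, ← map_pow] at hx
    have h2 : glReindex e.symm (k ^ r) = 1 := by
      calc glReindex e.symm (k ^ r) = Q⁻¹ * (Q * glReindex e.symm (k ^ r) * Q⁻¹) * Q := by group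
      _ = 1 := by rw [hx]; group
    exact (glReindex e.symm).injective (by rw [h2, map_one])
  have hk1 : k ≠ 1 := by
    rintro rfl
    apply hx1
    rw [map_one]; group
  have hkr' : ((g₁ : Matrix (Fin a) (Fin a) F) ^ r) ⊗ₖ ((g₂ : Matrix (Fin b) (Fin b) F) ^ r) = 1 := by
    rw [← kron_pow, ← hk, ← Units.val_pow_eq_pow_val, hkr, Units.val_one]
  have hrank := rank_conj e Q k 1
  rw [one_smul, one_smul] at hrank
  rw [hrank]
  have hi0 : 0 < orderOf ((Fintype.card F : ℕ) : ZMod r) := by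
    apply orderOf_pos_iff.2
    apply isOfFinOrder_iff_pow_eq_one.2
    have hne : ((Fintype.card F : ℕ) : ZMod r) ≠ 0 := by
      rwa [Ne, ZMod.natCast_eq_zero_iff]
    exact ⟨r - 1, Nat.sub_pos_of_lt (Fact.out : r.Prime).one_lt, ZMod.pow_card_sub_one_eq_one hne⟩
  rcases kron_dichotomy g₁ g₂ with h1 | ⟨M, hM⟩
  · -- `g₁` is not scalar
    have h2 := h1.2 1
    rw [one_smul, ← hk] at h2
    obtain ⟨c, hc0, hc⟩ := kron_eq_one_left (by omega) (by omega) _ _ hkr'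
    obtain ⟨d, hd⟩ := Cfsg.Agent.Lib.Helper87EluD.exists_root r hr1 c
    have hd0 : d ≠ 0 := by
      rintro rfl
      rw [zero_pow (Fact.out : r.Prime).ne_zero] at hd
      exact hc0 hd.symm
    have h3 : (d⁻¹ • (g₁ : Matrix (Fin a) (Fin a) F)) ^ r = 1 := by
      rw [smul_pow, hc, smul_smul, inv_pow, hd, inv_mul_cancel₀ hc0, one_smul]
    have h4 := Cfsg.Agent.Lib.Helper21EluRANK.orderOf_dvd_rank r hrq _ h3
    have h5 : 0 < (d⁻¹ • (g₁ : Matrix (Fin a) (Fin a) F) - 1).rank := by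
      apply rank_pos_of_ne_zero
      intro h0
      apply h1.1
      refine ⟨d, ?_⟩
      have : d⁻¹ • (g₁ : Matrix (Fin a) (Fin a) F) = 1 := sub_eq_zero.1 h0
      rw [← this, smul_smul, mul_inv_cancel₀ hd0, one_smul]
    have h6 : (d⁻¹ • (g₁ : Matrix (Fin a) (Fin a) F) - 1).rank ≤ a := by
      have := Matrix.rank_le_width (d⁻¹ • (g₁ : Matrix (Fin a) (Fin a) F) - 1)
      simpa using this
    have h7 := Nat.le_of_dvd h5 h4
    omega
  · have hMr : M ^ r = 1 := by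
      apply one_kron_injective (a := a) (by omega)
      rw [Matrix.one_kronecker_one]
      have := kron_pow (1 : Matrix (Fin a) (Fin a) F) M r
      rw [one_pow] at this
      rw [← this, ← hM, kron_pow, hkr']
    have h4 := Cfsg.Agent.Lib.Helper21EluRANK.orderOf_dvd_rank r hrq _ hMr
    have h5 : 0 < (M - 1).rank := by
      apply rank_pos_of_ne_zero
      intro h0
      apply hk1
      apply Units.ext
      rw [hk, hM, sub_eq_zero.1 h0, Matrix.one_kronecker_one, Units.val_one]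
    have h7 := Nat.le_of_dvd h5 h4
    have h8 := one_kron_sub (a := a) M 1
    rw [one_smul, one_smul] at h8
    rw [hk, hM, h8, rank_one_kron]
    nlinarith

end Cfsg.Agent.Lib.Helper13EluT2
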