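import Cfsg.Agent.Lib.Helper96EDefs
import Cfsg.Agent.Lib.Helper13EluT2

/-! PROJECT 5980 (TE = row S5980), piece Norm.  See notes/helper96/E/README.md. -/

set_option autoImplicit false
set_option linter.unusedSectionVars false
set_option linter.unusedVariables false

namespace Cfsg.Agent.Lib.H96ENorm

open scoped Matrix Kronecker
open Matrix Cfsg.Agent.Lib.Helper49TDefs Cfsg.Agent.Lib.Helper49SDefs Cfsg.Agent.Lib.Helper96KDefs
  Cfsg.Agent.Lib.Helper96EDefs Cfsg.Agent.Lib.H90SwDefs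

variable {F : Type*} [Field F] {a b n d : ℕ}

local notation "Mn" => Matrix (Fin a × Fin b) (Fin a × Fin b) F
local notation "GLn" => Matrix.GeneralLinearGroup (Fin a × Fin b) F
local notation "Ma" => Matrix (Fin a) (Fin a) F
local notation "Mb" => Matrix (Fin b) (Fin b) F
local notation "Md" => Matrix (Fin d ⊕ Fin d) (Fin d ⊕ Fin d) F
local notation "GLd" => Matrix.GeneralLinearGroup (Fin d ⊕ Fin d) F
local notation "Vd" => (Fin d ⊕ Fin d → F)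

/-- NORMALISATION (this is inside the proof of `Helper13EluT2.small_case`).  `kron_pow`: `g₁^r ⊗ g₂^r = 1`; `kron_eq_one_left`: `g₁^r = c • 1`, `c ≠ 0`;
`Helper87EluD.exists_root r hr1 c`: `c = δ^r`.  `A = δ⁻¹ • g₁`, `B = δ • g₂`: `A ⊗ B = g₁ ⊗ g₂` (`Matrix.smul_kronecker`, `kronecker_smul`), `A^r = 1`,
and `1 = (A ⊗ B)^r = 1 ⊗ B^r` gives `B^r = 1` (`one_kron_injective`, `Matrix.one_kronecker_one`). -/
theorem normalise [Fintype F] (r : ℕ) [Fact r.Prime] (hr1 : ¬ r ∣ Fintype.card F - 1) (ha : 0 < a) (hb : 0 < b)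
    (g₁ : Ma) (g₂ : Mb) (h : (g₁ ⊗ₖ g₂) ^ r = 1) :
    ∃ (A : Ma) (B : Mb), g₁ ⊗ₖ g₂ = A ⊗ₖ B ∧ A ^ r = 1 ∧ B ^ r = 1 := by
  rw [Cfsg.Agent.Lib.Helper13EluT2.kron_pow] at h
  obtain ⟨c, hc0, hc⟩ := Cfsg.Agent.Lib.Helper13EluT2.kron_eq_one_left ha hb _ _ h
  obtain ⟨δ, hδ⟩ := Cfsg.Agent.Lib.Helper87EluD.exists_root r hr1 c
  have hδ0 : δ ≠ 0 := by
    rintro rfl
    rw [zero_pow (Fact.out : r.Prime).ne_zero] at hδ
    exact hc0 hδ.symm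
  have hAB : g₁ ⊗ₖ g₂ = (δ⁻¹ • g₁) ⊗ₖ (δ • g₂) := by
    rw [Matrix.smul_kronecker, Matrix.kronecker_smul, smul_smul, inv_mul_cancel₀ hδ0, one_smul]
  have hA : (δ⁻¹ • g₁) ^ r = 1 := by
    rw [smul_pow, hc, smul_smul, ← hδ, inv_pow, inv_mul_cancel₀ (pow_ne_zero _ hδ0), one_smul]
  refine ⟨δ⁻¹ • g₁, δ • g₂, hAB, hA, ?_⟩
  have h2 : ((δ⁻¹ • g₁) ⊗ₖ (δ • g₂)) ^ r = 1 := by
    rw [← hAB, Cfsg.Agent.Lib.Helper13EluT2.kron_pow, h]
  rw [Cfsg.Agent.Lib.Helper13EluT2.kron_pow, hA, ← Matrix.one_kronecker_one] at h2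
  exact Cfsg.Agent.Lib.Helper13EluT2.one_kron_injective ha _ _ h2

end Cfsg.Agent.Lib.H96ENorm
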