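import Cfsg.Agent.Lib.Helper96EDefs
import Cfsg.Agent.Lib.Helper48UnipForm

/-! PROJECT 5980 (TE = row S5980), piece Even.  See notes/helper96/E/README.md. -/

set_option autoImplicit false
set_option linter.unusedSectionVars false
set_option linter.unusedVariables false

namespace Cfsg.Agent.Lib.H96EEven

open scoped Matrix Kronecker
open Matrix Cfsg.Agent.Lib.Helper49TDefs Cfsg.Agent.Lib.Helper49SDefs Cfsg.Agent.Lib.Helper96KDefs
  Cfsg.Agent.Lib.Helper96EDefs Cfsg.Agent.Lib.H90SwDefs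

variable {F : Type*} [Field F] {a b n d : ℕ}

local notation "Mn" => Matrix (Fin a × Fin b) (Fin a × Fin b) F
local notation "GLn" => Matrix.GeneralLinearGroup (Fin a × Fin b) F
local notation "Ma" => Matrix (Fin a) (Fin a) F
local notation "Mb" => Matrix (Fin b) (Fin b) F
local notation "Md" => Matrix (Fin d ⊕ Fin d) (Fin d ⊕ Fin d) F
local notation "GLd" => Matrix.GeneralLinearGroup (Fin d ⊕ Fin d) F
local notation "Vd" => (Fin d ⊕ Fin d → F)

/-- AN ISOMETRY OF ODD ORDER OF A SYMMETRIC FORM HAS `rank (h - 1)` EVEN.  `Y := J * h - hᵀ * J` is alternating: `x ⬝ᵥ Y *ᵥ x = x ⬝ᵥ J (h x) - (h x) ⬝ᵥ J x = 0`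
because `Jᵀ = J`; so `Even Y.rank` by `Helper48UnipForm.even_rank_of_alt`.  From `hᵀ J h = J`: `Y * h = J * (h * h - 1)`
(`hᵀ * J * h = J`), `h` and `J` are invertible (`h * h^(r-1) = 1`), so `Y.rank = (h * h - 1).rank`
(`Matrix.rank_mul_eq_left_of_isUnit_det`, `rank_mul_eq_right_of_isUnit_det`).  Finally `(h*h - 1).rank = (h - 1).rank`: `h * h - 1 = (h - 1) * (h + 1)` and `h + 1` is invertible:
with `r = 2 s + 1`, `(h + 1) * ∑_{j < r} (-1)^j h^j = h^r + 1 = 2` (or: `Odd.add_pow`-type identity `Odd.add_dvd_pow_add_pow`, `Commute`), `2 ≠ 0`.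
(Alternative: the kernels agree, `h (h v) = v → h v = h^r v ... = v`, and rank-nullity.) -/
theorem even_rank_orth (h2 : (2 : F) ≠ 0) (J : Matrix (Fin n) (Fin n) F) (hJ : IsSymmMat J)
    (h : Matrix (Fin n) (Fin n) F) (hiso : hᵀ * J * h = J) (r : ℕ) (hr : Odd r) (hh : h ^ r = 1) :
    Even (h - 1).rank := by
  have hr0 : r ≠ 0 := by
    rintro rfl
    simp at hr
  have hu : IsUnit h.det := (Matrix.isUnit_iff_isUnit_det _).1 (IsUnit.of_pow_eq_one hh hr0)
  have hp1 : IsUnit (h + 1).det := by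
    obtain ⟨q, hq⟩ := Odd.add_dvd_pow_add_pow (Polynomial.X : Polynomial F) 1 hr
    have h3 := congrArg (Polynomial.aeval h) hq
    simp only [map_add, map_pow, Polynomial.aeval_X, map_one, map_mul, one_pow] at h3
    rw [hh] at h3
    apply (Matrix.isUnit_iff_isUnit_det _).1
    apply IsUnit.of_mul_eq_one ((2 : F)⁻¹ • Polynomial.aeval h q)
    rw [mul_smul_comm, ← h3, ← two_smul F (1 : Matrix (Fin n) (Fin n) F), smul_smul,
      inv_mul_cancel₀ h2, one_smul]
  have h1 := Cfsg.Agent.Lib.Helper48UnipForm.even_rank_of_alt (J * h - (J * h)ᵀ)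
    (Cfsg.Agent.Lib.Helper48AltForm.alt_sub_transpose _)
  have e1 : (J * h - (J * h)ᵀ) * h = J * ((h - 1) * (h + 1)) := by
    rw [Matrix.transpose_mul, hJ.symm, sub_mul, hiso]
    noncomm_ring
  rw [← Matrix.rank_mul_eq_left_of_isUnit_det h _ hu, e1,
    Matrix.rank_mul_eq_right_of_isUnit_det _ _ hJ.unit,
    Matrix.rank_mul_eq_left_of_isUnit_det _ _ hp1] at h1
  exact h1

end Cfsg.Agent.Lib.H96EEven
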