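import Cfsg.Agent.Lib.Helper96EDefs
import Cfsg.Agent.Lib.H96KMem
import Cfsg.Agent.Lib.H96KFormB

/-! PROJECT 5980 (TE = row S5980), piece OneIso.  See notes/helper96/E/README.md. -/

set_option autoImplicit false
set_option linter.unusedSectionVars false
set_option linter.unusedVariables false

namespace Cfsg.Agent.Lib.H96EOneIso

open scoped Matrix Kronecker
open Matrix Cfsg.Agent.Lib.Helper49TDefs Cfsg.Agent.Lib.Helper49SDefs Cfsg.Agent.Lib.Helper96KDefs
  Cfsg.Agent.Lib.Helper96EDefs Cfsg.Agent.Lib.H90SwDefs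

variable {F : Type*} [Field F] {a b n d : ℕ}

local notation "Mn" => Matrix (Fin a × Fin b) (Fin a × Fin b) F
local notation "GLn" => Matrix.GeneralLinearGroup (Fin a × Fin b) F
local notation "Ma" => Matrix (Fin a) (Fin a) F
local notation "Mb" => Matrix (Fin b) (Fin b) F
local notation "Md" => Matrix (Fin d ⊕ Fin d) (Fin d ⊕ Fin d) F
local notation "GLd" => Matrix.GeneralLinearGroup (Fin d ⊕ Fin d) F
local notation "Vd" => (Fin d ⊕ Fin d → F)

/-- `k = 1 ⊗ M` preserves `J₁ ⊗ J₂` so `M` preserves `J₂`. -/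
theorem iso_of_one_kron (D : TDat F a b) (ha : 0 < a) (k : GLn) (hk : k ∈ SpG D) (M : Mb)
    (hM : (k : Mn) = (1 : Ma) ⊗ₖ M) : Mᵀ * D.J₂ * M = D.J₂ := by
  have hJ1 : D.J₁ ≠ 0 := by
    intro h0
    have hu := D.h₁.unit
    rw [h0] at hu
    have : Nonempty (Fin a) := ⟨⟨0, ha⟩⟩
    rw [Matrix.det_zero] at hu
    exact not_isUnit_zero hu
  have hex : ∃ s t, D.J₁ s t ≠ 0 := by
    by_contra hcon
    push Not at hcon
    apply hJ1
    ext s t
    exact hcon s t
  obtain ⟨s, t, hst⟩ := hex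
  rw [mem_SpG] at hk
  ext i j
  have h1 := hk (tens (Pi.single s 1) (Pi.single i 1)) (tens (Pi.single t 1) (Pi.single j 1))
  rw [hM, kron_mulVec_tens, kron_mulVec_tens, Matrix.one_mulVec, Matrix.one_mulVec,
    H96KFormB.ff_tens, H96KFormB.ff_tens, H96KFormB.bf_single, H96KFormB.bf_single] at h1
  have h2 := mul_left_cancel₀ hst h1
  unfold bf at h2
  rw [H96KMem.dot_gram] at h2
  simpa using h2

end Cfsg.Agent.Lib.H96EOneIso
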