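import Cfsg.Agent.Lib.Helper96EDefs
import Cfsg.Agent.Lib.H96EEven
import Cfsg.Agent.Lib.H96EOneIso
import Cfsg.Agent.Lib.Helper13EluT2
import Cfsg.Agent.Lib.Helper21EluRANK

/-! PROJECT 5980 (TE = row S5980), piece Sc1.  See notes/helper96/E/README.md. -/

set_option autoImplicit false
set_option linter.unusedSectionVars false
set_option linter.unusedVariables false

namespace Cfsg.Agent.Lib.H96ESc1

open scoped Matrix Kronecker
open Matrix Cfsg.Agent.Lib.Helper49TDefs Cfsg.Agent.Lib.Helper49SDefs Cfsg.Agent.Lib.Helper96KDefs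
  Cfsg.Agent.Lib.Helper96EDefs Cfsg.Agent.Lib.H90SwDefs

variable {F : Type*} [Field F] {a b n d : ℕ}

local notation "Mn" => Matrix (Fin a × Fin b) (Fin a × Fin b) F
local notation "GLn" => Matrix.GeneralLinearGroup (Fin a × Fin b) F
local notation "Ma" => Matrix (Fin a) (Fin a) F
local notation "Mb" => Matrix (Fin b) (Fin b) F
local notation "Md" => Matrix (Fin d ⊕ Fin d) (Fin d ⊕ Fin d) F
local notation "GLd" => Matrix.GeneralLinearGroup (Fin d ⊕ Fin d) F
local notation "Vd" => (Fin d ⊕ Fin d → F)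

/-- CASE `k = 1 ⊗ M`.  `M^r = 1` (`Helper13EluT2.kron_pow`, `one_pow`, `one_kron_injective`, `Matrix.one_kronecker_one`, `Units.val_pow_eq_pow_val`).
`Mᵀ J₂ M = J₂` (`H96EOneIso.iso_of_one_kron`), so `Even (M-1).rank` (`H96EEven.even_rank_orth`, `r` odd since prime `≠ 2`: `Nat.Prime.odd_of_ne_two`),
`ord_r(q) ∣ (M-1).rank` (`Helper21EluRANK.orderOf_dvd_rank`), hence `cc F r ∣ (M-1).rank` (`H90SwDefs.cc_dvd`, `even_iff_two_dvd`).
`(k-1).rank = a * (M-1).rank` (`Helper13EluT.one_kron_sub` with `l = 1`, `one_smul`, `rank_one_kron`).  `cc F r > 0` (`H90SwDefs.cc_pos hr`), so `(M-1).rank ≥ cc`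
(`Nat.le_of_dvd`, it is positive because `a * it = cc > 0`), `cc = a * (M-1).rank ≥ 2 cc`: contradiction. -/
theorem sc1 [Fintype F] (D : TDat F a b) (h2 : (2 : F) ≠ 0) (ha : 2 ≤ a) (r : ℕ) [Fact r.Prime] (hr2 : r ≠ 2)
    (hr : ¬ r ∣ Fintype.card F) (k : GLn) (hk : k ∈ SpG D) (hkr : k ^ r = 1) (M : Mb)
    (hM : (k : Mn) = (1 : Ma) ⊗ₖ M) (hrank : ((k : Mn) - 1).rank = cc F r) : False := by
  have hrp : r.Prime := Fact.out
  have hMr : M ^ r = 1 := by
    apply Cfsg.Agent.Lib.Helper13EluT2.one_kron_injective (a := a) (by omega)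
    rw [Matrix.one_kronecker_one]
    have := Cfsg.Agent.Lib.Helper13EluT2.kron_pow (1 : Ma) M r
    rw [one_pow] at this
    rw [← this, ← hM, ← Units.val_pow_eq_pow_val, hkr, Units.val_one]
  have hiso := Cfsg.Agent.Lib.H96EOneIso.iso_of_one_kron D (by omega) k hk M hM
  have hev := Cfsg.Agent.Lib.H96EEven.even_rank_orth h2 D.J₂ D.h₂ M hiso r (hrp.odd_of_ne_two hr2) hMr
  have hord := Cfsg.Agent.Lib.Helper21EluRANK.orderOf_dvd_rank r hr M hMr
  have hdvd : cc F r ∣ (M - 1).rank := cc_dvd (even_iff_two_dvd.1 hev) hord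
  have hpos : 0 < cc F r := cc_pos hr
  have h8 := Cfsg.Agent.Lib.Helper13EluT.one_kron_sub (a := a) M 1
  rw [one_smul, one_smul] at h8
  rw [hM, h8, Cfsg.Agent.Lib.Helper13EluT.rank_one_kron] at hrank
  have hpos' : 0 < (M - 1).rank := by
    rcases Nat.eq_zero_or_pos (M - 1).rank with h0 | h0
    · rw [h0, mul_zero] at hrank
      omega
    · exact h0
  have hle := Nat.le_of_dvd hpos' hdvd
  nlinarith


end Cfsg.Agent.Lib.H96ESc1
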