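import Cfsg.Agent.Lib.Helper96EDefs
import Cfsg.Agent.Lib.H96ESwap
import Cfsg.Agent.Lib.Helper13EluT2
import Cfsg.Agent.Lib.Helper87EluD
import Cfsg.Agent.Lib.Helper21EluRANK

/-! PROJECT 5980 (TE = row S5980), piece Sc2.  See notes/helper96/E/README.md. -/

set_option autoImplicit false
set_option linter.unusedSectionVars false
set_option linter.unusedVariables false

namespace Cfsg.Agent.Lib.H96ESc2

open scoped Matrix Kronecker
open Matrix Cfsg.Agent.Lib.Helper49TDefs Cfsg.Agent.Lib.Helper49SDefs Cfsg.Agent.Lib.Helper96KDefs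
  Cfsg.Agent.Lib.Helper96EDefs Cfsg.Agent.Lib.H90SwDefs

variable {F : Type*} [Field F] {a b n d : ℕ}

local notation "Mn" => Matrix (Fin a × Fin b) (Fin a × Fin b) F
local notation "GLn" => Matrix.GeneralLinearGroup (Fin a × Fin b) F
local notation "Ma" => Matrix (Fin a) (Fin a) F
local notation "Mb" => Matrix (Fin b) (Fin b) F
local notation "Md" => Matrix (Fin d ⊕ Fin d) (Fin d ⊕ Fin d) F
local notation "GLd" => Matrix.GeneralLinearGroup (Fin d ⊕ Fin d) F
local notation "Vd" => (Fin d ⊕ Fin d → F)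

/-- CASE `k = A ⊗ 1`.  `(A ⊗ 1 - 1).rank = (1 ⊗ A - 1).rank = b * (A - 1).rank` (`H96ESwap.rank_swap`, `Helper13EluT.one_kron_sub` with `l = 1`, `rank_one_kron`).
`i := ord_r(q) ∣ (A-1).rank` (`Helper21EluRANK.orderOf_dvd_rank`), `(A-1).rank > 0` since `cc F r > 0` (`cc_pos hr`), so `(A-1).rank ≥ i` and `cc ≥ 3 i`.
But `cc F r = cOf i ≤ 2 i` (unfold `cc`, `cOf`; split_ifs) and `i > 0`: contradiction. -/
theorem sc2 [Fintype F] (hb : 3 ≤ b) (r : ℕ) [Fact r.Prime] (hr : ¬ r ∣ Fintype.card F) (A : Ma) (hA : A ^ r = 1)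
    (hrank : (A ⊗ₖ (1 : Mb) - (1 : Mn)).rank = cc F r) : False := by
  obtain ⟨hi0, -⟩ := Cfsg.Agent.Lib.Helper87EluD.orderOf_facts (Fintype.card F) r Fintype.card_pos hr
  have hord := Cfsg.Agent.Lib.Helper21EluRANK.orderOf_dvd_rank r hr A hA
  have hpos : 0 < cc F r := cc_pos hr
  have h8 := Cfsg.Agent.Lib.Helper13EluT.one_kron_sub (a := b) A 1
  rw [one_smul, one_smul] at h8
  rw [Cfsg.Agent.Lib.H96ESwap.rank_swap, h8, Cfsg.Agent.Lib.Helper13EluT.rank_one_kron] at hrank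
  have hpos' : 0 < (A - 1).rank := by
    rcases Nat.eq_zero_or_pos (A - 1).rank with h0 | h0
    · rw [h0, mul_zero] at hrank
      omega
    · exact h0
  have hle := Nat.le_of_dvd hpos' hord
  have hcc : cc F r ≤ 2 * orderOf ((Fintype.card F : ℕ) : ZMod r) := by
    have : cc F r = cOf (orderOf ((Fintype.card F : ℕ) : ZMod r)) := rfl
    rw [this]
    unfold cOf
    split_ifs <;> omega
  nlinarith


end Cfsg.Agent.Lib.H96ESc2
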