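import Cfsg.Agent.Lib.Helper96EDefs
import Cfsg.Agent.Lib.H96ESc1
import Cfsg.Agent.Lib.H96ESc2
import Cfsg.Agent.Lib.H96ENS
import Cfsg.Agent.Lib.H96ENorm
import Cfsg.Agent.Lib.Helper13EluT2
import Cfsg.Agent.Lib.Helper87EluD

/-! PROJECT 5980 (TE = row S5980), piece DerOdd.  See notes/helper96/E/README.md. -/

set_option autoImplicit false
set_option linter.unusedSectionVars false
set_option linter.unusedVariables false

namespace Cfsg.Agent.Lib.H96EDerOdd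

open scoped Matrix Kronecker
open Matrix Cfsg.Agent.Lib.Helper49TDefs Cfsg.Agent.Lib.Helper49SDefs Cfsg.Agent.Lib.Helper96KDefs
  Cfsg.Agent.Lib.Helper96EDefs Cfsg.Agent.Lib.H90SwDefs

variable {F : Type*} [Field F] {a b n d : ℕ}

local notation "Mn" => Matrix (Fin a × Fin b) (Fin a × Fin b) F
local notation "GLn" => Matrix.GeneralLinearGroup (Fin a × Fin b) F
local notation "Ma" => Matrix (Fin a) (Fin a) F
local notation "Mb" => Matrix (Fin b) (Fin b) F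
local notation "Md" => Matrix (Fin d ⊕ Fin d) (Fin d ⊕ Fin d) F
local notation "GLd" => Matrix.GeneralLinearGroup (Fin d ⊕ Fin d) F
local notation "Vd" => (Fin d ⊕ Fin d → F)

/-- NO ELEMENT OF `KS ⊓ SpG D` OF ODD PRIME ORDER `r ∤ q` HAS `rank (k - 1) = cc F r`.  `k = g₁ ⊗ g₂` (`hk.1`).
* `r ∣ q - 1`: then `ord_r(q) = 1`, `cc F r = cOf 1 = 2`.  `Helper13EluT.kron_dichotomy g₁ g₂`: either `b ≤ (k - 1 • 1).rank = 2` (false, `b ≥ 3`) or `k = 1 ⊗ M`: `H96ESc1.sc1`.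
* `r ∤ q - 1`: `H96ENorm.normalise`: `k = A ⊗ B`, `A^r = 1 = B^r`.  `A = 1`: `sc1`.  `B = 1`: `H96ESc2.sc2`.  Otherwise `H96ENS.ns`. -/
theorem der_odd [Fintype F] (D : TDat F a b) (h2 : (2 : F) ≠ 0) (ha : 2 ≤ a) (hae : Even a) (hb : 3 ≤ b)
    (r : ℕ) [Fact r.Prime] (hr2 : r ≠ 2) (hr : ¬ r ∣ Fintype.card F) (hrF : (r : F) ≠ 0)
    (k : GLn) (hk : k ∈ KS a b F ⊓ SpG D) (hkr : k ^ r = 1) (hrank : ((k : Mn) - 1).rank = cc F r) : False := by
  obtain ⟨⟨g₁, g₂, hk12⟩, hkS⟩ := hk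
  obtain ⟨hi0, hi1⟩ := Cfsg.Agent.Lib.Helper87EluD.orderOf_facts (Fintype.card F) r Fintype.card_pos hr
  by_cases hr1 : r ∣ Fintype.card F - 1
  · have hcc : cc F r = 2 := by
      have : cc F r = cOf (orderOf ((Fintype.card F : ℕ) : ZMod r)) := rfl
      rw [this, hi1.2 hr1]
      decide
    rcases Cfsg.Agent.Lib.Helper13EluT.kron_dichotomy g₁ g₂ with h1 | ⟨M, hM⟩
    · have := h1.2 1
      rw [one_smul, ← hk12, hrank, hcc] at this
      omega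
    · exact Cfsg.Agent.Lib.H96ESc1.sc1 D h2 ha r hr2 hr k hkS hkr M (hk12.trans hM) hrank
  · have hpow : ((g₁ : Ma) ⊗ₖ (g₂ : Mb)) ^ r = 1 := by
      rw [← hk12, ← Units.val_pow_eq_pow_val, hkr, Units.val_one]
    obtain ⟨A, B, hAB, hA, hB⟩ := Cfsg.Agent.Lib.H96ENorm.normalise r hr1 (by omega) (by omega) _ _ hpow
    by_cases hA1 : A = 1
    · subst hA1
      exact Cfsg.Agent.Lib.H96ESc1.sc1 D h2 ha r hr2 hr k hkS hkr B (hk12.trans hAB) hrank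
    by_cases hB1 : B = 1
    · subst hB1
      exact Cfsg.Agent.Lib.H96ESc2.sc2 hb r hr A hA (by rw [← hAB, ← hk12, hrank])
    · exact Cfsg.Agent.Lib.H96ENS.ns hae hb r hr hrF hr1 A B hA hB hA1 hB1 (by rw [← hAB, ← hk12, hrank])


end Cfsg.Agent.Lib.H96EDerOdd
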