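import Cfsg.Agent.Lib.Helper96EDefs
import Cfsg.Agent.Lib.H90SwElt

/-! PROJECT 5980 (TE = row S5980), piece Elt.  See notes/helper96/E/README.md. -/

set_option autoImplicit false
set_option linter.unusedSectionVars false
set_option linter.unusedVariables false

namespace Cfsg.Agent.Lib.H96EElt

open scoped Matrix Kronecker
open Matrix Cfsg.Agent.Lib.Helper49TDefs Cfsg.Agent.Lib.Helper49SDefs Cfsg.Agent.Lib.Helper96KDefs
  Cfsg.Agent.Lib.Helper96EDefs Cfsg.Agent.Lib.H90SwDefs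

variable {F : Type*} [Field F] {a b n d : ℕ}

local notation "Mn" => Matrix (Fin a × Fin b) (Fin a × Fin b) F
local notation "GLn" => Matrix.GeneralLinearGroup (Fin a × Fin b) F
local notation "Ma" => Matrix (Fin a) (Fin a) F
local notation "Mb" => Matrix (Fin b) (Fin b) F
local notation "Md" => Matrix (Fin d ⊕ Fin d) (Fin d ⊕ Fin d) F
local notation "GLd" => Matrix.GeneralLinearGroup (Fin d ⊕ Fin d) F
local notation "Vd" => (Fin d ⊕ Fin d → F)

/-- `H90SwElt.elt hr2 hr hrF 1 d (by simpa using h)` gives `x : Matrix.symplecticGroup (Fin d) F` with `x^r = 1`, `rank (x - 1) = cc F r * 1`.  Turn it into an element of `spGL` with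
`Helper96EDefs.exists_spGL_of_symp`; the power: `Units.ext`, `Units.val_pow_eq_pow_val`, `SubmonoidClass.coe_pow`. -/
theorem exists_elt [Fintype F] (r : ℕ) [Fact r.Prime] (hr2 : r ≠ 2) (hr : ¬ r ∣ Fintype.card F) (hrF : (r : F) ≠ 0)
    (h : cc F r ≤ 2 * d) : ∃ x ∈ Cfsg.spGL d F, x ^ r = 1 ∧ ((x : Md) - 1).rank = cc F r := by
  obtain ⟨x, hxr, hrank⟩ := Cfsg.Agent.Lib.H90SwElt.elt (F := F) hr2 hr hrF 1 d (by simpa using h)
  obtain ⟨g, hg, hgc⟩ := exists_spGL_of_symp (x : Md) x.2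
  refine ⟨g, hg, ?_, ?_⟩
  · apply Units.ext
    rw [Units.val_pow_eq_pow_val, hgc, Units.val_one, ← SubmonoidClass.coe_pow, hxr]
    rfl
  · rw [hgc, hrank, mul_one]


end Cfsg.Agent.Lib.H96EElt
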