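import Cfsg.Agent.Lib.Helper96EDefs

/-! PROJECT 5980 (TE = row S5980), piece Inv2.  See notes/helper96/E/README.md. -/

set_option autoImplicit false
set_option linter.unusedSectionVars false
set_option linter.unusedVariables false

namespace Cfsg.Agent.Lib.H96EInv2

open scoped Matrix Kronecker
open Matrix Cfsg.Agent.Lib.Helper49TDefs Cfsg.Agent.Lib.Helper49SDefs Cfsg.Agent.Lib.Helper96KDefs
  Cfsg.Agent.Lib.Helper96EDefs Cfsg.Agent.Lib.H90SwDefs

variable {F : Type*} [Field F] {a b n d : ℕ}

local notation "Mn" => Matrix (Fin a × Fin b) (Fin a × Fin b) F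
local notation "GLn" => Matrix.GeneralLinearGroup (Fin a × Fin b) F
local notation "Ma" => Matrix (Fin a) (Fin a) F
local notation "Mb" => Matrix (Fin b) (Fin b) F
local notation "Md" => Matrix (Fin d ⊕ Fin d) (Fin d ⊕ Fin d) F
local notation "GLd" => Matrix.GeneralLinearGroup (Fin d ⊕ Fin d) F
local notation "Vd" => (Fin d ⊕ Fin d → F)

/-- AN INVOLUTION WITH A 2-DIMENSIONAL `(-1)`-EIGENSPACE. -/
theorem exists_inv2 (h2 : (2 : F) ≠ 0) (hd : 0 < d) :
    ∃ x ∈ Cfsg.spGL d F, x ^ 2 = 1 ∧ ((x : Md) - 1).rank = 2 := by
  classical
  let o : Fin d := ⟨0, hd⟩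
  let ε : Fin d → F := fun i => if i = o then -1 else 1
  let δ : Fin d ⊕ Fin d → F := Sum.elim ε ε
  have hε : ∀ i, ε i * ε i = 1 := by
    intro i
    by_cases h : i = o <;> simp [ε, h]
  have hδ : ∀ s, δ s * δ s = 1 := by
    rintro (i | i) <;> exact hε i
  have hA : (Matrix.diagonal δ : Md) ∈ Matrix.symplecticGroup (Fin d) F := by
    rw [SymplecticGroup.mem_iff, Matrix.diagonal_transpose]
    ext i j
    rw [Matrix.mul_diagonal, Matrix.diagonal_mul]
    rcases i with i | i <;> rcases j with j | j
    · simp [Matrix.J]
    · by_cases h : i = j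
      · subst h
        simp only [Matrix.J, Matrix.fromBlocks_apply₁₂, Matrix.neg_apply, Matrix.one_apply_eq]
        have := hε i
        show ε i * -1 * ε i = -1
        linear_combination -this
      · simp [Matrix.J, Matrix.one_apply_ne h]
    · by_cases h : i = j
      · subst h
        simp only [Matrix.J, Matrix.fromBlocks_apply₂₁, Matrix.one_apply_eq]
        have := hε i
        show ε i * 1 * ε i = 1
        linear_combination this
      · simp [Matrix.J, Matrix.one_apply_ne h]
    · simp [Matrix.J]
  obtain ⟨x, hx, hxA⟩ := exists_spGL_of_symp _ hA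
  refine ⟨x, hx, ?_, ?_⟩
  · apply Units.ext
    rw [Units.val_pow_eq_pow_val, hxA, Units.val_one, pow_two, Matrix.diagonal_mul_diagonal]
    rw [← Matrix.diagonal_one]
    congr 1
    funext s
    exact hδ s
  · rw [hxA, ← Matrix.diagonal_one, Matrix.diagonal_sub, Matrix.rank_diagonal, Fintype.card_subtype]
    have : (Finset.univ.filter fun s : Fin d ⊕ Fin d => δ s - 1 ≠ 0) = {Sum.inl o, Sum.inr o} := by
      ext s
      simp only [Finset.mem_filter, Finset.mem_univ, true_and, Finset.mem_insert,
        Finset.mem_singleton]
      have hm : (-1 : F) - 1 ≠ 0 := by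
        intro h
        apply h2
        linear_combination -h
      rcases s with i | i
      · by_cases h : i = o
        · subst h
          simp only [true_or, iff_true]
          show ε o - 1 ≠ 0
          simpa [ε] using hm
        · have : ε i - 1 = 0 := by simp [ε, h]
          simp only [Sum.inl.injEq, h, reduceCtorEq, or_self, iff_false, not_not]
          exact this
      · by_cases h : i = o
        · subst h
          simp only [or_true, iff_true]
          show ε o - 1 ≠ 0
          simpa [ε] using hm
        · have : ε i - 1 = 0 := by simp [ε, h]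
          simp only [Sum.inr.injEq, h, reduceCtorEq, or_self, iff_false, not_not]
          exact this
    rw [this, Finset.card_pair (by simp)]

end Cfsg.Agent.Lib.H96EInv2
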