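import Cfsg.Agent.Lib.Helper96EDefs

/-! PROJECT 5980 (TE = row S5980), piece ScalMem.  See notes/helper96/E/README.md. -/

set_option autoImplicit false
set_option linter.unusedSectionVars false
set_option linter.unusedVariables false

namespace Cfsg.Agent.Lib.H96EScalMem

open scoped Matrix Kronecker
open Matrix Cfsg.Agent.Lib.Helper49TDefs Cfsg.Agent.Lib.Helper49SDefs Cfsg.Agent.Lib.Helper96KDefs
  Cfsg.Agent.Lib.Helper96EDefs Cfsg.Agent.Lib.H90SwDefs

variable {F : Type*} [Field F] {a b n d : ℕ}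

local notation "Mn" => Matrix (Fin a × Fin b) (Fin a × Fin b) F
local notation "GLn" => Matrix.GeneralLinearGroup (Fin a × Fin b) F
local notation "Ma" => Matrix (Fin a) (Fin a) F
local notation "Mb" => Matrix (Fin b) (Fin b) F
local notation "Md" => Matrix (Fin d ⊕ Fin d) (Fin d ⊕ Fin d) F
local notation "GLd" => Matrix.GeneralLinearGroup (Fin d ⊕ Fin d) F
local notation "Vd" => (Fin d ⊕ Fin d → F)

/-- the scalar unit -/
theorem exists_scal {κ : Type*} [Fintype κ] [DecidableEq κ] (z : F) (hz : z ≠ 0) :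
    ∃ g : Matrix.GeneralLinearGroup κ F, (g : Matrix κ κ F) = z • 1 := by
  refine ⟨⟨z • 1, z⁻¹ • 1, ?_, ?_⟩, rfl⟩
  · rw [smul_mul_smul_comm, mul_one, mul_inv_cancel₀ hz, one_smul]
  · rw [smul_mul_smul_comm, mul_one, inv_mul_cancel₀ hz, one_smul]

/-- SCALARS LIE IN THE TENSOR SUBGROUP. -/
theorem scal_mem {ι : Type} [Fintype ι] [DecidableEq ι] [Nonempty ι] (e : ι ≃ Fin a × Fin b)
    (P x : Matrix.GeneralLinearGroup ι F) (z : F) (hx : (x : Matrix ι ι F) = z • 1) :
    x ∈ Cfsg.Geo.tensorProductSubgroup a b e P := by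
  have hz : z ≠ 0 := by
    rintro rfl
    rw [zero_smul] at hx
    have h1 : (x : Matrix ι ι F) * ((x⁻¹ : Matrix.GeneralLinearGroup ι F) : Matrix ι ι F) = 1 := by
      rw [← Units.val_mul, mul_inv_cancel, Units.val_one]
    rw [hx, zero_mul] at h1
    obtain ⟨i⟩ := (inferInstance : Nonempty ι)
    have := congrFun (congrFun h1 i) i
    simp at this
  obtain ⟨g₁, hg₁⟩ := exists_scal (κ := Fin a) z hz
  obtain ⟨k, hk⟩ := exists_scal (κ := Fin a × Fin b) z hz
  have hkK : k ∈ KS a b F := by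
    refine ⟨g₁, 1, ?_⟩
    rw [hk, hg₁, Units.val_one, Matrix.smul_kronecker, Matrix.one_kronecker_one]
  have h := phi_mem_tensor e P hkK
  have heq : phi e P k = x := by
    apply Units.ext
    rw [phi_eq, Units.val_mul, Units.val_mul, hx]
    have h1 : ((Cfsg.Geo.glReindex e.symm k : Matrix.GeneralLinearGroup ι F) : Matrix ι ι F) = z • 1 := by
      change (Matrix.reindexAlgEquiv F F e.symm (k : Mn)) = _
      rw [hk, map_smul, map_one]
    rw [h1, mul_smul_comm, mul_one, smul_mul_assoc, ← Units.val_mul, mul_inv_cancel, Units.val_one]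
  rw [← heq]
  exact h

end Cfsg.Agent.Lib.H96EScalMem
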