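import Cfsg.Agent.Lib.Helper96EDefs

/-! PROJECT 5980 (TE = row S5980), piece Tv.  See notes/helper96/E/README.md. -/

set_option autoImplicit false
set_option linter.unusedSectionVars false
set_option linter.unusedVariables false

namespace Cfsg.Agent.Lib.H96ETv

open scoped Matrix Kronecker
open Matrix Cfsg.Agent.Lib.Helper49TDefs Cfsg.Agent.Lib.Helper49SDefs Cfsg.Agent.Lib.Helper96KDefs
  Cfsg.Agent.Lib.Helper96EDefs Cfsg.Agent.Lib.H90SwDefs

variable {F : Type*} [Field F] {a b n d : ℕ}

local notation "Mn" => Matrix (Fin a × Fin b) (Fin a × Fin b) F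
local notation "GLn" => Matrix.GeneralLinearGroup (Fin a × Fin b) F
local notation "Ma" => Matrix (Fin a) (Fin a) F
local notation "Mb" => Matrix (Fin b) (Fin b) F
local notation "Md" => Matrix (Fin d ⊕ Fin d) (Fin d ⊕ Fin d) F
local notation "GLd" => Matrix.GeneralLinearGroup (Fin d ⊕ Fin d) F
local notation "Vd" => (Fin d ⊕ Fin d → F)

/-- A SYMPLECTIC TRANSVECTION. -/
theorem exists_tv {p : ℕ} [Fact p.Prime] [CharP F p] (hd : 0 < d) :
    ∃ x ∈ Cfsg.spGL d F, x ^ p = 1 ∧ ((x : Md) - 1).rank = 1 := by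
  classical
  let o : Fin d := ⟨0, hd⟩
  let v : Vd := Pi.single (Sum.inl o) 1
  have hA := Cfsg.Agent.Lib.Helper17Symp.sympTransvection_mem d v (1 : F)
  obtain ⟨x, hx, hxA⟩ := exists_spGL_of_symp _ hA
  set N : Md := Matrix.vecMulVec v (Matrix.J (Fin d) F *ᵥ v) with hN
  have hAN : Cfsg.sympTransvection d v (1 : F) = 1 + N := by
    simp [Cfsg.sympTransvection, hN]
  have hJv : Matrix.J (Fin d) F *ᵥ v = Pi.single (Sum.inr o) 1 := by
    ext i
    simp only [v, Matrix.mulVec_single_one, Matrix.col_apply]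
    rcases i with i | i
    · simp [Matrix.J]
    · by_cases h : i = o
      · subst h; simp [Matrix.J]
      · simp [Matrix.J, Matrix.one_apply_ne h, h]
  have hNN : N * N = 0 := by
    rw [hN, Matrix.vecMulVec_mul_vecMulVec, hJv]
    have : (Pi.single (Sum.inr o) (1 : F) : Vd) ⬝ᵥ v = 0 := by
      simp [v]
    rw [this, zero_smul]
    ext i j
    simp [Matrix.vecMulVec_apply]
  have hpow : ∀ m : ℕ, (1 + N) ^ m = 1 + (m : F) • N := by
    intro m
    induction m with
    | zero => simp
    | succ m ih =>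
      rw [pow_succ, ih, add_mul, mul_add, mul_add, one_mul, one_mul, mul_one, smul_mul_assoc, hNN,
        smul_zero, add_zero]
      push_cast
      rw [add_smul, one_smul]
      abel
  have hN0 : N ≠ 0 := by
    intro h
    have := congrFun (congrFun h (Sum.inl o)) (Sum.inr o)
    rw [hN, hJv] at this
    simp [Matrix.vecMulVec_apply, v] at this
  refine ⟨x, hx, ?_, ?_⟩
  · apply Units.ext
    rw [Units.val_pow_eq_pow_val, hxA, hAN, hpow, CharP.cast_eq_zero, zero_smul, add_zero,
      Units.val_one]
  · rw [hxA, hAN, add_sub_cancel_left]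
    apply le_antisymm
    · exact Matrix.rank_vecMulVec_le _ _
    · have : N.rank ≠ 0 := by
        intro h0
        rw [Matrix.rank, Submodule.finrank_eq_zero, LinearMap.range_eq_bot] at h0
        apply hN0
        apply Matrix.toLin'.injective
        rw [map_zero]
        exact h0
      omega

end Cfsg.Agent.Lib.H96ETv
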