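import Cfsg.Agent.Lib.Helper96EDefs
import Cfsg.Agent.Lib.H96ETr
import Cfsg.Agent.Lib.H96EDerOdd
import Cfsg.Agent.Lib.H96ETv
import Cfsg.Agent.Lib.H96EInv2
import Cfsg.Agent.Lib.H96ECcLe
import Cfsg.Agent.Lib.H96EElt
import Cfsg.Agent.Lib.H96EScalMem

/-! PROJECT 5980 (TE = row S5980), assembly of the direction `⇒`. -/

set_option autoImplicit false
set_option linter.unusedSectionVars false
set_option linter.unusedVariables false

namespace Cfsg.Agent.Lib.H96EFwd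

open scoped Matrix Kronecker
open Matrix Cfsg.Agent.Lib.Helper49TDefs Cfsg.Agent.Lib.Helper49SDefs Cfsg.Agent.Lib.Helper96KDefs
  Cfsg.Agent.Lib.Helper96EDefs Cfsg.Agent.Lib.H90SwDefs

variable {F : Type*} [Field F] {a b n d : ℕ}

local notation "Mn" => Matrix (Fin a × Fin b) (Fin a × Fin b) F
local notation "GLn" => Matrix.GeneralLinearGroup (Fin a × Fin b) F
local notation "Md" => Matrix (Fin d ⊕ Fin d) (Fin d ⊕ Fin d) F
local notation "GLd" => Matrix.GeneralLinearGroup (Fin d ⊕ Fin d) F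

theorem small (k : GLn) (hk : k ∈ KS a b F) (m : ℕ) (hrank : ((k : Mn) - 1).rank = m) (hmb : m < b)
    (ham : ¬ a ∣ m) : False := by
  obtain ⟨g₁, g₂, hk⟩ := hk
  rcases Cfsg.Agent.Lib.Helper13EluT.kron_dichotomy g₁ g₂ with h1 | ⟨M, hM⟩
  · have := h1.2 1
    rw [one_smul, ← hk, hrank] at this
    omega
  · apply ham
    have h8 := Cfsg.Agent.Lib.Helper13EluT.one_kron_sub (a := a) M 1
    rw [one_smul, one_smul] at h8
    rw [← hrank, hk, hM, h8, Cfsg.Agent.Lib.Helper13EluT.rank_one_kron]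
    exact Dvd.intro _ rfl

theorem forward [Fintype F] {p : ℕ} [Fact p.Prime] [CharP F p] (hodd : Odd (Fintype.card F)) (hd : 2 ≤ d)
    (hae : Even a) (ha2 : 2 ≤ a) (hb : 3 ≤ b)
    (e : (Fin d ⊕ Fin d) ≃ Fin a × Fin b) (P : GLd) (D : TDat F a b)
    (hD : ∀ x y, D.ff x y = Cfsg.sympForm d F ((P : Md) *ᵥ (x ∘ e)) ((P : Md) *ᵥ (y ∘ e)))
    (r : ℕ) [Fact r.Prime]
    (hΩ : r ∣ (Cfsg.Geo.tensorProductSubgroup a b e P).relIndex (Cfsg.spGL d F))
    (H : ∀ x ∈ Cfsg.spGL d F, (∃ z : F, ((x ^ r : GLd) : Md) = z • (1 : Md)) →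
      (∀ z : F, (x : Md) ≠ z • (1 : Md)) →
      ∃ g ∈ Cfsg.spGL d F, g⁻¹ * x * g ∈ Cfsg.Geo.tensorProductSubgroup a b e P) :
    r = 2 ∧ a = 2 := by
  have hrp : r.Prime := Fact.out
  have hpp : p.Prime := Fact.out
  haveI : Nonempty (Fin d ⊕ Fin d) := ⟨Sum.inl ⟨0, by omega⟩⟩
  have h2 : (2 : F) ≠ 0 := by
    apply Ring.two_ne_zero
    intro h
    have h3 := FiniteField.even_card_iff_char_two.1 h
    obtain ⟨k, hk⟩ := hodd
    omega
  have key : ∀ x ∈ Cfsg.spGL d F, x ^ r = 1 → ∃ k ∈ KS a b F ⊓ SpG D,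
      ((x : Md) - 1).rank = ((k : Mn) - 1).rank ∧ k ^ r = 1 := by
    intro x hx hxr
    have hg : ∃ g ∈ Cfsg.spGL d F, g⁻¹ * x * g ∈ Cfsg.Geo.tensorProductSubgroup a b e P := by
      by_cases hs : ∃ z : F, (x : Md) = z • (1 : Md)
      · obtain ⟨z, hz⟩ := hs
        refine ⟨1, one_mem _, ?_⟩
        rw [inv_one, one_mul, mul_one]
        exact Cfsg.Agent.Lib.H96EScalMem.scal_mem e P x z hz
      · push Not at hs
        exact H x hx ⟨1, by rw [hxr, Units.val_one, one_smul]⟩ hs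
    obtain ⟨g, hg, hmem⟩ := hg
    obtain ⟨k, hk, h1, h3⟩ := Cfsg.Agent.Lib.H96ETr.exists_k e P D hD x g hx hg hmem
    refine ⟨k, hk, ?_, h3 r hxr⟩
    have := h1 1
    rwa [one_smul, one_smul] at this
  by_cases hrp' : r = p
  · exfalso
    subst hrp'
    obtain ⟨x, hx, hxr, hrank⟩ := Cfsg.Agent.Lib.H96ETv.exists_tv (F := F) (d := d) (p := r) (by omega)
    obtain ⟨k, hk, h1, -⟩ := key x hx hxr
    refine small k hk.1 1 (by rw [← h1, hrank]) (by omega) ?_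
    intro h
    have := Nat.le_of_dvd one_pos h
    omega
  by_cases hr2 : r = 2
  · subst hr2
    refine ⟨rfl, ?_⟩
    by_contra hne
    obtain ⟨x, hx, hxr, hrank⟩ := Cfsg.Agent.Lib.H96EInv2.exists_inv2 (F := F) (d := d) h2 (by omega)
    obtain ⟨k, hk, h1, -⟩ := key x hx hxr
    refine small k hk.1 2 (by rw [← h1, hrank]) (by omega) ?_
    intro h
    have := Nat.le_of_dvd two_pos h
    omega
  · exfalso
    have hr : ¬ r ∣ Fintype.card F := by
      intro h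
      obtain ⟨n, -, hn⟩ := FiniteField.card F p
      rw [hn] at h
      exact hrp' ((Nat.prime_dvd_prime_iff_eq hrp hpp).1 (hrp.dvd_of_dvd_pow h))
    have hrF : (r : F) ≠ 0 := by
      intro h
      rw [CharP.cast_eq_zero_iff F p r] at h
      exact hrp' ((Nat.prime_dvd_prime_iff_eq hpp hrp).1 h).symm
    have hcard : r ∣ Nat.card (Cfsg.spGL d F) := hΩ.trans (Subgroup.relIndex_dvd_card _ _)
    have hcc := Cfsg.Agent.Lib.H96ECcLe.cc_le_of_dvd r hr hcard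
    obtain ⟨x, hx, hxr, hrank⟩ := Cfsg.Agent.Lib.H96EElt.exists_elt r hr2 hr hrF hcc
    obtain ⟨k, hk, h1, hkr⟩ := key x hx hxr
    exact Cfsg.Agent.Lib.H96EDerOdd.der_odd D h2 ha2 hae hb r hr2 hr hrF k hk hkr (by rw [← h1, hrank])

end Cfsg.Agent.Lib.H96EFwd
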