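import Cfsg.Agent.Lib.Helper96KDefs

/-!
PROJECT 196 (TKL), piece FormA.  See notes/helper96/K/README.md.
-/

set_option autoImplicit false
set_option linter.unusedSectionVars false
set_option linter.unusedVariables false

namespace Cfsg.Agent.Lib.H96KFormA

open scoped Matrix Kronecker
open Matrix Polynomial Cfsg.Agent.Lib.Helper49TDefs Cfsg.Agent.Lib.Helper49SDefs Cfsg.Agent.Lib.Helper96KDefs


variable {F : Type*} [Field F] {a b n : ℕ}

local notation "Mn" => Matrix (Fin a × Fin b) (Fin a × Fin b) F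
local notation "GLn" => Matrix.GeneralLinearGroup (Fin a × Fin b) F
local notation "Mb" => Matrix (Fin b) (Fin b) F
local notation "Ma" => Matrix (Fin a) (Fin a) F

/-! basic facts on a symmetric nondegenerate Gram matrix. -/

theorem symm_swap {J : Matrix (Fin n) (Fin n) F} (hJ : IsSymmMat J) (x y : Fin n → F) : bf J x y = bf J y x := by
  unfold bf
  rw [Matrix.dotProduct_mulVec, ← Matrix.mulVec_transpose, hJ.symm, dotProduct_comm]

theorem symm_exists_repr {J : Matrix (Fin n) (Fin n) F} (hJ : IsSymmMat J) (φ : Fin n → F) :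
    ∃ w, ∀ x, bf J x w = x ⬝ᵥ φ := by
  refine ⟨J⁻¹ *ᵥ φ, fun x => ?_⟩
  rw [bf, Matrix.mulVec_mulVec, Matrix.mul_nonsing_inv _ hJ.unit, Matrix.one_mulVec]

theorem symm_eq_zero_of_right {J : Matrix (Fin n) (Fin n) F} (hJ : IsSymmMat J) {w : Fin n → F}
    (h : ∀ x, bf J x w = 0) : w = 0 := by
  have h1 : J *ᵥ w = 0 := by
    funext i
    have := h (Pi.single i 1)
    simpa [bf] using this
  have h2 : J⁻¹ *ᵥ (J *ᵥ w) = 0 := by rw [h1, Matrix.mulVec_zero]
  rwa [Matrix.mulVec_mulVec, Matrix.nonsing_inv_mul _ hJ.unit, Matrix.one_mulVec] at h2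

theorem symm_exists_ne_zero {J : Matrix (Fin n) (Fin n) F} (hJ : IsSymmMat J) {w : Fin n → F} (hw : w ≠ 0) :
    ∃ x, bf J x w = 1 := by
  by_contra hcon
  apply hw
  apply symm_eq_zero_of_right hJ
  intro x
  by_contra hx
  exact hcon ⟨(bf J x w)⁻¹ • x, by rw [bf_smul_left, inv_mul_cancel₀ hx]⟩

theorem symm_bf_adjJ {J : Matrix (Fin n) (Fin n) F} (hJ : IsSymmMat J) (X : Matrix (Fin n) (Fin n) F)
    (x y : Fin n → F) : bf J (X *ᵥ x) y = bf J x (adjJ J X *ᵥ y) := by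
  unfold bf adjJ
  rw [Matrix.mulVec_mulVec, ← mul_assoc, ← mul_assoc, Matrix.mul_nonsing_inv _ hJ.unit, one_mul,
    ← Matrix.mulVec_mulVec, Matrix.dotProduct_mulVec x, Matrix.vecMul_transpose]

/-- a matrix is determined by its bilinear form -/
theorem symm_ext {J : Matrix (Fin n) (Fin n) F} (hJ : IsSymmMat J) {X Y : Matrix (Fin n) (Fin n) F}
    (h : ∀ x y, bf J (X *ᵥ x) y = bf J (Y *ᵥ x) y) : X = Y := by
  apply Matrix.toLin'.injective
  apply LinearMap.ext
  intro x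
  simp only [Matrix.toLin'_apply]
  rw [← sub_eq_zero]
  apply symm_eq_zero_of_right hJ
  intro y
  rw [symm_swap hJ, bf_sub_left, h, sub_self]

theorem adjJ_add (J X Y : Matrix (Fin n) (Fin n) F) : adjJ J (X + Y) = adjJ J X + adjJ J Y := by
  unfold adjJ
  rw [Matrix.transpose_add, mul_add, add_mul]

theorem adjJ_smul (J X : Matrix (Fin n) (Fin n) F) (k : F) : adjJ J (k • X) = k • adjJ J X := by
  unfold adjJ
  rw [Matrix.transpose_smul, Matrix.mul_smul, Matrix.smul_mul]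

theorem adjJ_neg (J X : Matrix (Fin n) (Fin n) F) : adjJ J (-X) = - adjJ J X := by
  unfold adjJ
  rw [Matrix.transpose_neg, mul_neg, neg_mul]

theorem adjJ_one {J : Matrix (Fin n) (Fin n) F} (hJ : IsUnit J.det) : adjJ J 1 = 1 := by
  unfold adjJ
  rw [Matrix.transpose_one, mul_one, Matrix.nonsing_inv_mul _ hJ]

theorem adjJ_mul {J : Matrix (Fin n) (Fin n) F} (hJ : IsUnit J.det) (X Y : Matrix (Fin n) (Fin n) F) :
    adjJ J (X * Y) = adjJ J Y * adjJ J X := by
  unfold adjJ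
  rw [Matrix.transpose_mul]
  have : J⁻¹ * Yᵀ * J * (J⁻¹ * Xᵀ * J) = J⁻¹ * Yᵀ * (J * J⁻¹) * Xᵀ * J := by
    simp only [mul_assoc]
  rw [this, Matrix.mul_nonsing_inv _ hJ, mul_one]
  simp only [mul_assoc]

theorem adjJ_adjJ {J : Matrix (Fin n) (Fin n) F} (hJ : IsSymmMat J) (X : Matrix (Fin n) (Fin n) F) :
    adjJ J (adjJ J X) = X := by
  unfold adjJ
  rw [Matrix.transpose_mul, Matrix.transpose_mul, Matrix.transpose_transpose, Matrix.transpose_nonsing_inv,
    hJ.symm]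
  have : J⁻¹ * (J * (X * J⁻¹)) * J = (J⁻¹ * J) * X * (J⁻¹ * J) := by
    simp only [mul_assoc]
  rw [this, Matrix.nonsing_inv_mul _ hJ.unit, one_mul, mul_one]

theorem det_adjJ {J : Matrix (Fin n) (Fin n) F} (hJ : IsUnit J.det) (X : Matrix (Fin n) (Fin n) F) :
    (adjJ J X).det = X.det := by
  unfold adjJ
  rw [Matrix.det_mul, Matrix.det_mul, Matrix.det_transpose, mul_comm, ← mul_assoc, ← Matrix.det_mul,
    Matrix.mul_nonsing_inv _ hJ, Matrix.det_one, one_mul]

theorem adjJ_NJ {J : Matrix (Fin n) (Fin n) F} (hJ : IsSymmMat J) (x y : Fin n → F) :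
    adjJ J (NJ J x y) = NJ J y x := by
  apply symm_ext hJ
  intro u v
  rw [symm_swap hJ, ← symm_bf_adjJ hJ, NJ_mulVec, NJ_mulVec, bf_smul_left, bf_smul_left,
    symm_swap hJ x u, symm_swap hJ y v]
  ring

end Cfsg.Agent.Lib.H96KFormA
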