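import Cfsg.Agent.Lib.Helper96KDefs
import Cfsg.Agent.Lib.H96KFormB
import Cfsg.Agent.Lib.H96KFN

/-!
PROJECT 196 (TKL), piece TCb.  See notes/helper96/K/README.md.
-/

set_option autoImplicit false
set_option linter.unusedSectionVars false
set_option linter.unusedVariables false

namespace Cfsg.Agent.Lib.H96KTCb

open scoped Matrix Kronecker
open Matrix Polynomial Cfsg.Agent.Lib.Helper49TDefs Cfsg.Agent.Lib.Helper49SDefs Cfsg.Agent.Lib.Helper96KDefs
open Cfsg.Agent.Lib.H96KFormB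
open Cfsg.Agent.Lib.H96KFN

variable {F : Type*} [Field F] {a b n : ℕ}

local notation "Mn" => Matrix (Fin a × Fin b) (Fin a × Fin b) F
local notation "GLn" => Matrix.GeneralLinearGroup (Fin a × Fin b) F
local notation "Mb" => Matrix (Fin b) (Fin b) F
local notation "Ma" => Matrix (Fin a) (Fin a) F

variable {D : TDat F a b} {H : Subgroup (Matrix.GeneralLinearGroup (Fin a × Fin b) F)} {v w : Fin a × Fin b → F}

theorem TC_zero : (0 : Fin a × Fin b → F) ∈ TC D H := by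
  show TV D 0 ∈ FN H
  have : TV D (0 : Fin a × Fin b → F) = 0 := by
    have := TV_smul D (0 : F) (0 : Fin a × Fin b → F)
    simpa using this
  rw [this]
  exact FN_zero

/-- `TV_smul`, `FN_smul` -/
theorem TC_smul (h : v ∈ TC D H) (k : F) : k • v ∈ TC D H := by
  show TV D (k • v) ∈ FN H
  rw [TV_smul]
  exact FN_smul h _

/-- `g = 1 + c TV w ∈ H`, `g⁻¹ = 1 - c TV w`, `g * TV v * g⁻¹ = TV (g v)` (check on vectors with `TV_mulVec`, `ff_self`, `ff_swap`),
`g v = v + c ff(v,w) w`; take `c = (ff v w)⁻¹`; `FN_conj`. -/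
theorem TC_add (hv : v ∈ TC D H) (hw : w ∈ TC D H) (h : D.ff v w ≠ 0) : v + w ∈ TC D H := by
  have hw' : TV D w ∈ FN H := hw
  obtain ⟨hsq, hfam⟩ := FN_iff.1 hw'
  obtain ⟨g, hgH, hg⟩ := hfam (D.ff v w)⁻¹
  have hinv : ((g⁻¹ : GLn) : Mn) = 1 - (D.ff v w)⁻¹ • TV D w := by
    have h1 : (g : Mn) * (1 - (D.ff v w)⁻¹ • TV D w) = 1 := by
      rw [hg]
      have : (1 + (D.ff v w)⁻¹ • TV D w) * (1 - (D.ff v w)⁻¹ • TV D w)
          = 1 - ((D.ff v w)⁻¹ * (D.ff v w)⁻¹) • (TV D w * TV D w) := by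
        rw [add_mul, mul_sub, mul_sub, one_mul, mul_one, one_mul, smul_mul_smul_comm]
        abel
      rw [this, hsq, smul_zero, sub_zero]
    have h2 : ((g⁻¹ : GLn) : Mn) * (g : Mn) = 1 := by
      rw [← Units.val_mul, inv_mul_cancel, Units.val_one]
    calc ((g⁻¹ : GLn) : Mn) = ((g⁻¹ : GLn) : Mn) * ((g : Mn) * (1 - (D.ff v w)⁻¹ • TV D w)) := by
          rw [h1, mul_one]
      _ = 1 - (D.ff v w)⁻¹ • TV D w := by rw [← mul_assoc, h2, one_mul]
  have hc := FN_conj (show TV D v ∈ FN H from hv) hgH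
  show TV D (v + w) ∈ FN H
  have key : (g : Mn) * TV D v * ((g⁻¹ : GLn) : Mn) = TV D (v + w) := by
    rw [hg, hinv]
    apply Matrix.ext_of_mulVec_single
    intro i
    generalize (Pi.single i (1 : F) : Fin a × Fin b → F) = x
    rw [← Matrix.mulVec_mulVec, ← Matrix.mulVec_mulVec]
    simp only [Matrix.sub_mulVec, Matrix.add_mulVec, Matrix.one_mulVec, Matrix.smul_mulVec, TV_mulVec,
      ff_sub_left, ff_smul_left, Matrix.mulVec_smul, ff_add_right, ff_add_left]
    have hwv : D.ff w v = - D.ff v w := ff_swap D w v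
    rw [hwv]
    have e1 : (D.ff v w)⁻¹ * D.ff v w = 1 := inv_mul_cancel₀ h
    ext j
    simp only [Pi.add_apply, Pi.smul_apply, smul_eq_mul, Pi.sub_apply]
    field_simp
    ring
  rw [← key]
  exact hc

end Cfsg.Agent.Lib.H96KTCb
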