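import Cfsg.Agent.Lib.Helper96KDefs
import Cfsg.Agent.Lib.H96KFormB
import Cfsg.Agent.Lib.H96KTCb
import Cfsg.Agent.Lib.Helper95Sp

/-!
PROJECT 196 (TKL), piece NS.  See notes/helper96/K/README.md.
-/

set_option autoImplicit false
set_option linter.unusedSectionVars false
set_option linter.unusedVariables false

namespace Cfsg.Agent.Lib.H96KNS

open scoped Matrix Kronecker
open Matrix Polynomial Cfsg.Agent.Lib.Helper49TDefs Cfsg.Agent.Lib.Helper49SDefs Cfsg.Agent.Lib.Helper96KDefs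
open Cfsg.Agent.Lib.H96KFormB
open Cfsg.Agent.Lib.H96KTCb

variable {F : Type*} [Field F] {a b n : ℕ}

local notation "Mn" => Matrix (Fin a × Fin b) (Fin a × Fin b) F
local notation "GLn" => Matrix.GeneralLinearGroup (Fin a × Fin b) F
local notation "Mb" => Matrix (Fin b) (Fin b) F
local notation "Ma" => Matrix (Fin a) (Fin a) F

/-- **Lemma NS.**  If `ff w y ≠ 0`: `TC_add`.  Else pick `w₁ ∈ U` with `ff w₁ y ≠ 0` and `ff w₁ (w + y) ≠ 0` (`Helper95Sp.exists_both_ne_zero`, or by hand: `w₁`, `w₂` or `w₁ + w₂`).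
`w₁ + y ∈ TC`, `w - w₁ ∈ U`, `ff (w - w₁) (w₁ + y) = - ff w₁ (w + y) ≠ 0` (using `ff w y = 0`, `ff_self`, `ff_swap`); `(w - w₁) + (w₁ + y) = w + y`. -/
theorem NS {D : TDat F a b} {H : Subgroup GLn} (U : Submodule F (Fin a × Fin b → F)) (hU : ∀ w ∈ U, w ∈ TC D H)
    {y w : Fin a × Fin b → F} (hy : y ∈ TC D H) (hw : w ∈ U) (h1 : ∃ w₁ ∈ U, D.ff w₁ y ≠ 0)
    (h2 : ∃ w₂ ∈ U, D.ff w₂ (w + y) ≠ 0) : w + y ∈ TC D H := by
  by_cases hwy : D.ff w y = 0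
  · obtain ⟨w₁, hw₁, hA, hB⟩ : ∃ w₁ ∈ U, D.ff w₁ y ≠ 0 ∧ D.ff w₁ (w + y) ≠ 0 := by
      obtain ⟨w₁, hw₁, h1⟩ := h1
      obtain ⟨w₂, hw₂, h2⟩ := h2
      by_cases hc1 : D.ff w₁ (w + y) = 0
      · by_cases hc2 : D.ff w₂ y = 0
        · refine ⟨w₁ + w₂, U.add_mem hw₁ hw₂, ?_, ?_⟩
          · rw [ff_add_left, hc2, add_zero]; exact h1
          · rw [ff_add_left, hc1, zero_add]; exact h2
        · exact ⟨w₂, hw₂, hc2, h2⟩
      · exact ⟨w₁, hw₁, h1, hc1⟩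
    have e1 : w₁ + y ∈ TC D H := TC_add (hU _ hw₁) hy hA
    have e2 : w - w₁ ∈ TC D H := hU _ (U.sub_mem hw hw₁)
    have e3 : D.ff (w - w₁) (w₁ + y) ≠ 0 := by
      have : D.ff (w - w₁) (w₁ + y) = - D.ff w₁ (w + y) := by
        simp only [ff_sub_left, ff_add_right, ff_self, hwy]
        rw [ff_swap D w w₁]
        ring
      rw [this]
      exact neg_ne_zero.mpr hB
    have e4 := TC_add e2 e1 e3
    have e5 : w - w₁ + (w₁ + y) = w + y := by abel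
    rwa [e5] at e4
  · exact TC_add (hU _ hw) hy hwy

end Cfsg.Agent.Lib.H96KNS
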