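import Cfsg.Agent.Lib.Helper96KDefs
import Cfsg.Agent.Lib.H96KFormA
import Cfsg.Agent.Lib.H96KFormB
import Cfsg.Agent.Lib.H96KTCb
import Cfsg.Agent.Lib.H96KNS

/-!
PROJECT 196 (TKL), piece Hyp.  See notes/helper96/K/README.md.
-/

set_option autoImplicit false
set_option linter.unusedSectionVars false
set_option linter.unusedVariables false

namespace Cfsg.Agent.Lib.H96KHyp

open scoped Matrix Kronecker
open Matrix Polynomial Cfsg.Agent.Lib.Helper49TDefs Cfsg.Agent.Lib.Helper49SDefs Cfsg.Agent.Lib.Helper96KDefs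
open Cfsg.Agent.Lib.H96KFormA
open Cfsg.Agent.Lib.H96KFormB
open Cfsg.Agent.Lib.H96KTCb
open Cfsg.Agent.Lib.H96KNS

variable {F : Type*} [Field F] {a b n : ℕ}

local notation "Mn" => Matrix (Fin a × Fin b) (Fin a × Fin b) F
local notation "GLn" => Matrix.GeneralLinearGroup (Fin a × Fin b) F
local notation "Mb" => Matrix (Fin b) (Fin b) F
local notation "Ma" => Matrix (Fin a) (Fin a) F

/-- the subspace `⟨e, f⟩ ⊗ V₂` -/
def hypS (e f : Fin a → F) : Submodule F (Fin a × Fin b → F) where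
  carrier := {w | ∃ y₁ y₂ : Fin b → F, w = tens e y₁ + tens f y₂}
  add_mem' := by
    rintro _ _ ⟨y₁, y₂, rfl⟩ ⟨z₁, z₂, rfl⟩
    exact ⟨y₁ + z₁, y₂ + z₂, by rw [tens_add_right, tens_add_right]; abel⟩
  zero_mem' := ⟨0, 0, by simp⟩
  smul_mem' := by
    rintro k _ ⟨y₁, y₂, rfl⟩
    exact ⟨k • y₁, k • y₂, by rw [tens_smul_right, tens_smul_right, smul_add]⟩

/-- `NS` with `U = {tens e y}` (a submodule) and `y := tens f y₂` (`y₂ ≠ 0`; `z` with `bf J₂ z y₂ = 1`: `ff (e ⊗ z) (f ⊗ y₂) = bf e f ≠ 0`, `ff (e ⊗ z) (e ⊗ y₁) = 0`). -/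
theorem hyp_sub {D : TDat F a b} {H : Subgroup GLn} (hp : ∀ (u : Fin a → F) (y : Fin b → F), tens u y ∈ TC D H)
    {e f : Fin a → F} (hef : bf D.J₁ e f ≠ 0) : ∀ w ∈ (hypS e f : Submodule F (Fin a × Fin b → F)), w ∈ TC D H := by
  rintro _ ⟨y₁, y₂, rfl⟩
  by_cases hy2 : y₂ = 0
  · subst hy2
    rw [tens_zero_right', add_zero]
    exact hp e y₁
  let U : Submodule F (Fin a × Fin b → F) :=
    { carrier := {w | ∃ y : Fin b → F, w = tens e y}
      add_mem' := by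
        rintro _ _ ⟨y, rfl⟩ ⟨z, rfl⟩
        exact ⟨y + z, by rw [tens_add_right]⟩
      zero_mem' := ⟨0, by simp⟩
      smul_mem' := by
        rintro k _ ⟨y, rfl⟩
        exact ⟨k • y, by rw [tens_smul_right]⟩ }
  obtain ⟨z, hz⟩ := symm_exists_ne_zero D.h₂ hy2
  have hee : bf D.J₁ e e = 0 := D.h₁.alt e
  refine NS U ?_ (hp f y₂) ⟨y₁, rfl⟩ ⟨tens e z, ⟨z, rfl⟩, ?_⟩ ⟨tens e z, ⟨z, rfl⟩, ?_⟩
  · rintro _ ⟨y, rfl⟩
    exact hp e y
  · rw [ff_tens, hz, mul_one]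
    exact hef
  · rw [ff_add_right, ff_tens, ff_tens, hz, mul_one, hee, zero_mul, zero_add]
    exact hef

/-- `⟨e, f⟩ ⊗ V₂` is nondegenerate -/
theorem hyp_nondeg (D : TDat F a b) {e f : Fin a → F} (hef : bf D.J₁ e f ≠ 0) {w : Fin a × Fin b → F}
    (hw : w ∈ (hypS e f : Submodule F (Fin a × Fin b → F))) (h0 : w ≠ 0) :
    ∃ w₁ ∈ (hypS e f : Submodule F (Fin a × Fin b → F)), D.ff w₁ w ≠ 0 := by
  obtain ⟨y₁, y₂, rfl⟩ := hw
  have hee : bf D.J₁ e e = 0 := D.h₁.alt e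
  have hff : bf D.J₁ f f = 0 := D.h₁.alt f
  have hfe : bf D.J₁ f e ≠ 0 := by
    rw [D.h₁.swap]
    exact neg_ne_zero.2 hef
  by_cases hy2 : y₂ = 0
  · have hy1 : y₁ ≠ 0 := by
      rintro rfl
      apply h0
      rw [hy2]
      simp
    obtain ⟨z, hz⟩ := symm_exists_ne_zero D.h₂ hy1
    refine ⟨tens f z, ⟨0, z, by simp⟩, ?_⟩
    rw [ff_add_right, ff_tens, ff_tens, hz, mul_one, hff, zero_mul, add_zero]
    exact hfe
  · obtain ⟨z, hz⟩ := symm_exists_ne_zero D.h₂ hy2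
    refine ⟨tens e z, ⟨z, 0, by simp⟩, ?_⟩
    rw [ff_add_right, ff_tens, ff_tens, hz, mul_one, hee, zero_mul, zero_add]
    exact hef

end Cfsg.Agent.Lib.H96KHyp
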