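import Cfsg.Agent.Lib.Helper96KDefs
import Cfsg.Agent.Lib.H96KFormA
import Cfsg.Agent.Lib.H96KFormB
import Cfsg.Agent.Lib.H96KTCb
import Cfsg.Agent.Lib.H96KNS
import Cfsg.Agent.Lib.H96KHyp

/-!
PROJECT 196 (TKL), piece Claim.  See notes/helper96/K/README.md.
-/

set_option autoImplicit false
set_option linter.unusedSectionVars false
set_option linter.unusedVariables false

namespace Cfsg.Agent.Lib.H96KClaim

open scoped Matrix Kronecker
open Matrix Polynomial Cfsg.Agent.Lib.Helper49TDefs Cfsg.Agent.Lib.Helper49SDefs Cfsg.Agent.Lib.Helper96KDefs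
open Cfsg.Agent.Lib.H96KFormA
open Cfsg.Agent.Lib.H96KFormB
open Cfsg.Agent.Lib.H96KTCb
open Cfsg.Agent.Lib.H96KNS
open Cfsg.Agent.Lib.H96KHyp

variable {F : Type*} [Field F] {a b n : ℕ}

local notation "Mn" => Matrix (Fin a × Fin b) (Fin a × Fin b) F
local notation "GLn" => Matrix.GeneralLinearGroup (Fin a × Fin b) F
local notation "Mb" => Matrix (Fin b) (Fin b) F
local notation "Ma" => Matrix (Fin a) (Fin a) F

private theorem perp_sum {D : TDat F a b} {e f : Fin a → F}
    (l : List ((Fin a → F) × (Fin b → F)))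
    (hl : ∀ p ∈ l, bf D.J₁ p.1 e = 0 ∧ bf D.J₁ p.1 f = 0) {w : Fin a × Fin b → F}
    (hw : w ∈ (hypS e f : Submodule F (Fin a × Fin b → F))) :
    D.ff w (l.map fun p => tens p.1 p.2).sum = 0 := by
  obtain ⟨y₁, y₂, rfl⟩ := hw
  induction l with
  | nil => simp
  | cons q l ih =>
    rw [List.map_cons, List.sum_cons, ff_add_right,
      ih (fun p hp => hl p (List.mem_cons_of_mem _ hp)), add_zero, ff_add_left, ff_tens, ff_tens,
      D.h₁.swap e, D.h₁.swap f, (hl q List.mem_cons_self).1, (hl q List.mem_cons_self).2]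
    simp

/-- **Claim.**  Induction on `l`.  `l = []`: `hyp_sub`.  `l = (u_k, y_k) :: l'`, `v'' = Σ_{l'}`, `p = u_k ⊗ y_k`.  If `y_k = 0`: `p = 0`.
EXISTENCE: `z` with `bf J₂ z y_k = 1`, `w* = f ⊗ z`; `κ₀ = ff v'' p`; `t = 0` if `κ₀ ≠ 0`, `t = 1` otherwise.  `p̃ = (u_k + t e) ⊗ y_k = p + t e ⊗ y_k ∈ TC` (pure);
`y' = (w* - t e ⊗ y_k) + v'' ∈ TC` by the induction hypothesis (`w* - t e ⊗ y_k = e ⊗ (-t y_k) + f ⊗ z ≠ 0`: pair it with `e ⊗ y_k`);
`ff y' p̃ = t bf f e + κ₀ ≠ 0` (all other terms vanish by `hl`, `ff_tens`, `D.h₁.alt`); so `w* + (p + v'') = y' + p̃ ∈ TC`.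
ALL `w₀ ≠ 0`: `NS` with `U = hypS e f`, `y := w* + (p + v'')`, `w := w₀ - w*`; `ff w₁ y = ff w₁ w*`, `ff w₂ (w + y) = ff w₂ w₀` for `wᵢ ∈ U` (as `p + v'' ⊥ U`), `hyp_nondeg`. -/
theorem claim {D : TDat F a b} {H : Subgroup GLn} (hp : ∀ (u : Fin a → F) (y : Fin b → F), tens u y ∈ TC D H)
    {e f : Fin a → F} (hef : bf D.J₁ e f ≠ 0) (l : List ((Fin a → F) × (Fin b → F)))
    (hl : ∀ p ∈ l, bf D.J₁ p.1 e = 0 ∧ bf D.J₁ p.1 f = 0) :
    ∀ w₀ ∈ (hypS e f : Submodule F (Fin a × Fin b → F)), w₀ ≠ 0 →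
      w₀ + (l.map fun p => tens p.1 p.2).sum ∈ TC D H := by
  induction l with
  | nil =>
    intro w₀ hw₀ _
    simpa using hyp_sub hp hef w₀ hw₀
  | cons q l ih =>
    have hl' : ∀ p ∈ l, bf D.J₁ p.1 e = 0 ∧ bf D.J₁ p.1 f = 0 :=
      fun p hp' => hl p (List.mem_cons_of_mem _ hp')
    have IH := ih hl'
    obtain ⟨hqe, hqf⟩ := hl q List.mem_cons_self
    have hfe : bf D.J₁ f e ≠ 0 := by
      rw [D.h₁.swap]; exact neg_ne_zero.2 hef
    have heq : bf D.J₁ e q.1 = 0 := by rw [D.h₁.swap, hqe, neg_zero]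
    have hfq : bf D.J₁ f q.1 = 0 := by rw [D.h₁.swap, hqf, neg_zero]
    have hee : bf D.J₁ e e = 0 := D.h₁.alt e
    intro w₀ hw₀ hw₀0
    rw [List.map_cons, List.sum_cons]
    set v'' := (l.map fun p => tens p.1 p.2).sum with hv''
    by_cases hy : q.2 = 0
    · rw [hy, tens_zero_right', zero_add]
      exact IH w₀ hw₀ hw₀0
    obtain ⟨z, hz⟩ := symm_exists_ne_zero D.h₂ hy
    have hperp : ∀ w ∈ (hypS e f : Submodule F (Fin a × Fin b → F)),
        D.ff w (tens q.1 q.2 + v'') = 0 := by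
      intro w hw
      have := perp_sum (D := D) (q :: l) hl hw
      rwa [List.map_cons, List.sum_cons] at this
    have hperp' : ∀ w ∈ (hypS e f : Submodule F (Fin a × Fin b → F)), D.ff w v'' = 0 :=
      fun w hw => perp_sum (D := D) l hl' hw
    -- existence
    have hstarU : tens f z ∈ (hypS e f : Submodule F (Fin a × Fin b → F)) :=
      ⟨0, z, by simp⟩
    have hstar0 : tens f z ≠ (0 : Fin a × Fin b → F) := by
      intro h0
      have := ff_tens D f e z q.2
      rw [h0, ff_zero_left, hz, mul_one] at this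
      exact hfe this.symm
    have hex : tens f z + (tens q.1 q.2 + v'') ∈ TC D H := by
      obtain ⟨t, ht⟩ : ∃ t : F, t * bf D.J₁ f e + D.ff v'' (tens q.1 q.2) ≠ 0 := by
        by_cases hκ : D.ff v'' (tens q.1 q.2) = 0
        · exact ⟨1, by rw [hκ, one_mul, add_zero]; exact hfe⟩
        · exact ⟨0, by rw [zero_mul, zero_add]; exact hκ⟩
      have hp1 : tens (q.1 + t • e) q.2 ∈ TC D H := hp _ _
      have hU1 : tens e (-(t • q.2)) + tens f z ∈ (hypS e f : Submodule F (Fin a × Fin b → F)) :=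
        ⟨_, _, rfl⟩
      have hne1 : tens e (-(t • q.2)) + tens f z ≠ (0 : Fin a × Fin b → F) := by
        intro h0
        have h1 : D.ff (tens e (-(t • q.2)) + tens f z) (tens e q.2) = bf D.J₁ f e := by
          rw [ff_add_left, ff_tens, ff_tens, hee, hz]; ring
        rw [h0, ff_zero_left] at h1
        exact hfe h1.symm
      have hy' := IH _ hU1 hne1
      have hev : D.ff v'' (tens e q.2) = 0 := by
        rw [ff_swap, hperp' (tens e q.2) ⟨q.2, 0, by simp⟩, neg_zero]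
      have hff : D.ff (tens e (-(t • q.2)) + tens f z + v'') (tens (q.1 + t • e) q.2)
          = t * bf D.J₁ f e + D.ff v'' (tens q.1 q.2) := by
        rw [tens_add_left, tens_smul_left]
        simp only [ff_add_left, ff_add_right, ff_smul_right, ff_tens, heq, hfq, hee, hz, hev]
        ring
      have h3 : D.ff (tens e (-(t • q.2)) + tens f z + v'') (tens (q.1 + t • e) q.2) ≠ 0 := by
        rw [hff]; exact ht
      have h4 := TC_add hy' hp1 h3
      convert h4 using 1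
      rw [tens_add_left, tens_smul_left, ← smul_neg, tens_smul_right]
      have : tens e (-q.2) = -(tens e q.2 : Fin a × Fin b → F) := by
        rw [← neg_one_smul F q.2, tens_smul_right, neg_one_smul]
      rw [this]
      module
    have hNS := NS (D := D) (H := H) (hypS e f) (hyp_sub hp hef) hex
      (w := w₀ - tens f z) (Submodule.sub_mem _ hw₀ hstarU)
      (by
        obtain ⟨w₁, hw₁, h1⟩ := hyp_nondeg D hef hstarU hstar0
        exact ⟨w₁, hw₁, by rw [ff_add_right, hperp w₁ hw₁, add_zero]; exact h1⟩)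
      (by
        obtain ⟨w₂, hw₂, h2⟩ := hyp_nondeg D hef hw₀ hw₀0
        refine ⟨w₂, hw₂, ?_⟩
        have e1 : w₀ - tens f z + (tens f z + (tens q.1 q.2 + v'')) = w₀ + (tens q.1 q.2 + v'') := by
          abel
        rw [e1, ff_add_right, hperp w₂ hw₂, add_zero]
        exact h2)
    convert hNS using 1
    abel

end Cfsg.Agent.Lib.H96KClaim
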