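import Cfsg.Agent.Lib.Helper96KDefs
import Cfsg.Agent.Lib.H96KFormA
import Cfsg.Agent.Lib.H96KFormB
import Cfsg.Agent.Lib.H96KTCb
import Cfsg.Agent.Lib.H96KHyp
import Cfsg.Agent.Lib.H96KClaim

/-!
PROJECT 196 (TKL), piece All.  See notes/helper96/K/README.md.
-/

set_option autoImplicit false
set_option linter.unusedSectionVars false
set_option linter.unusedVariables false

namespace Cfsg.Agent.Lib.H96KAll

open scoped Matrix Kronecker
open Matrix Polynomial Cfsg.Agent.Lib.Helper49TDefs Cfsg.Agent.Lib.Helper49SDefs Cfsg.Agent.Lib.Helper96KDefs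
open Cfsg.Agent.Lib.H96KFormA
open Cfsg.Agent.Lib.H96KFormB
open Cfsg.Agent.Lib.H96KTCb
open Cfsg.Agent.Lib.H96KHyp
open Cfsg.Agent.Lib.H96KClaim

variable {F : Type*} [Field F] {a b n : ℕ}

local notation "Mn" => Matrix (Fin a × Fin b) (Fin a × Fin b) F
local notation "GLn" => Matrix.GeneralLinearGroup (Fin a × Fin b) F
local notation "Mb" => Matrix (Fin b) (Fin b) F
local notation "Ma" => Matrix (Fin a) (Fin a) F

theorem ff_sum_left (D : TDat F a b) {ι : Type*} (s : Finset ι) (g : ι → Fin a × Fin b → F)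
    (z : Fin a × Fin b → F) : D.ff (∑ i ∈ s, g i) z = ∑ i ∈ s, D.ff (g i) z := by
  classical
  induction s using Finset.induction_on with
  | empty => simp
  | insert i s hi ih => rw [Finset.sum_insert hi, Finset.sum_insert hi, ff_add_left, ih]

theorem TC_all {D : TDat F a b} {H : Subgroup GLn} (hp : ∀ (u : Fin a → F) (y : Fin b → F), tens u y ∈ TC D H) :
    ∀ v, v ∈ TC D H := by
  intro v
  by_cases hv : v = 0
  · rw [hv]; exact Cfsg.Agent.Lib.H96KTCb.TC_zero
  obtain ⟨e, z, hez⟩ := ff_exists_tens D hv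
  have he : e ≠ 0 := by
    rintro rfl
    apply hez
    simp
  obtain ⟨f0, hf0⟩ := D.h₁.exists_ne_zero he
  set f : Fin a → F := -f0 with hf
  have hef : bf D.J₁ e f = 1 := by
    rw [hf, bf_neg_right, D.h₁.swap, neg_neg, hf0]
  have hfe : bf D.J₁ f e = -1 := by
    rw [hf, bf_neg_left, hf0]
  let ε : Fin a → Fin a → F := fun s => Pi.single s 1
  let row : Fin a → Fin b → F := fun s j => v (s, j)
  let α : Fin a → F := fun s => bf D.J₁ (ε s) f
  let β : Fin a → F := fun s => - bf D.J₁ (ε s) e
  let ε' : Fin a → Fin a → F := fun s => ε s - α s • e - β s • f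
  have hε'e : ∀ s, bf D.J₁ (ε' s) e = 0 := by
    intro s
    simp only [ε', β, bf_sub_left, bf_smul_left, D.h₁.alt e, hfe]
    ring
  have hε'f : ∀ s, bf D.J₁ (ε' s) f = 0 := by
    intro s
    simp only [ε', α, bf_sub_left, bf_smul_left, D.h₁.alt f, hef]
    ring
  have hvsum : v = ∑ s : Fin a, tens (ε s) (row s) := eq_sum_tens v
  set r : Fin a × Fin b → F := ∑ s : Fin a, tens (ε' s) (row s) with hr
  set w₀ : Fin a × Fin b → F := v - r with hw₀
  have hw₀mem : w₀ ∈ (hypS e f : Submodule F (Fin a × Fin b → F)) := by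
    have h1 : w₀ = ∑ s : Fin a, (tens e (α s • row s) + tens f (β s • row s)) := by
      rw [hw₀, hr]
      conv_lhs => rw [hvsum]
      rw [← Finset.sum_sub_distrib]
      refine Finset.sum_congr rfl fun s _ => ?_
      have h2 : ε s = ε' s + α s • e + β s • f := by
        simp only [ε']
        abel
      conv_lhs => rw [h2]
      rw [tens_add_left, tens_add_left, tens_smul_left, tens_smul_left, tens_smul_right,
        tens_smul_right]
      abel
    rw [h1]
    exact Submodule.sum_mem _ fun s _ => ⟨_, _, rfl⟩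
  have hrz : D.ff r (tens e z) = 0 := by
    rw [hr, ff_sum_left]
    refine Finset.sum_eq_zero fun s _ => ?_
    rw [ff_tens, hε'e, zero_mul]
  have hw₀ne : w₀ ≠ 0 := by
    intro h0
    apply hez
    have : v = r := by
      have := sub_eq_zero.mp (hw₀ ▸ h0 : v - r = 0)
      exact this
    rw [this, hrz]
  have hcl := claim hp (e := e) (f := f) (by rw [hef]; exact one_ne_zero)
    ((List.finRange a).map fun s => (ε' s, row s)) (by
      intro p hp'
      rw [List.mem_map] at hp'
      obtain ⟨s, -, rfl⟩ := hp'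
      exact ⟨hε'e s, hε'f s⟩) w₀ hw₀mem hw₀ne
  have hsum : (((List.finRange a).map fun s => (ε' s, row s)).map fun p => tens p.1 p.2).sum = r := by
    rw [List.map_map, hr, Fin.sum_univ_def]
    rfl
  rw [hsum, hw₀, sub_add_cancel] at hcl
  exact hcl

end Cfsg.Agent.Lib.H96KAll
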