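import Cfsg.Agent.Lib.Helper96KDefs

/-!
PROJECT 196 (TKL), piece Avoid.  See notes/helper96/K/README.md.
-/

set_option autoImplicit false
set_option linter.unusedSectionVars false
set_option linter.unusedVariables false

namespace Cfsg.Agent.Lib.H96KAvoid

open scoped Matrix Kronecker
open Matrix Polynomial Cfsg.Agent.Lib.Helper49TDefs Cfsg.Agent.Lib.Helper49SDefs Cfsg.Agent.Lib.Helper96KDefs


variable {F : Type*} [Field F] {a b n : ℕ}

local notation "Mn" => Matrix (Fin a × Fin b) (Fin a × Fin b) F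
local notation "GLn" => Matrix.GeneralLinearGroup (Fin a × Fin b) F
local notation "Mb" => Matrix (Fin b) (Fin b) F
local notation "Ma" => Matrix (Fin a) (Fin a) F

/-! counting: a non-zero polynomial of degree ≤ 3 has a non-root in a field with ≥ 4 elements, etc.
(`Polynomial.card_roots'`, or elementary: a non-zero quadratic has ≤ 2 roots.) -/

private theorem exists_nonroot [Fintype F] (p : F[X]) (hp : p ≠ 0) (hd : p.natDegree < Fintype.card F) :
    ∃ t, p.eval t ≠ 0 := by
  classical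
  by_contra hcon
  push Not at hcon
  have hsub : (Finset.univ : Finset F) ⊆ p.roots.toFinset := fun t _ => by
    simp [hp, hcon t]
  have h1 := Finset.card_le_card hsub
  have h2 : p.roots.toFinset.card ≤ p.natDegree :=
    (Multiset.toFinset_card_le _).trans (Polynomial.card_roots' p)
  rw [Finset.card_univ] at h1
  omega

private theorem quad_ne (A B C : F) (h1 : A ≠ 0 ∨ B ≠ 0 ∨ C ≠ 0) :
    (Polynomial.C A + Polynomial.C B * X + Polynomial.C C * X ^ 2 : F[X]) ≠ 0 := by
  intro h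
  have c0 := congrArg (fun p : F[X] => p.coeff 0) h
  have c1 := congrArg (fun p : F[X] => p.coeff 1) h
  have c2 := congrArg (fun p : F[X] => p.coeff 2) h
  simp [Polynomial.coeff_X, Polynomial.coeff_C, Polynomial.coeff_X_pow] at c0 c1 c2
  rcases h1 with h1 | h1 | h1
  · exact h1 c0
  · exact h1 c1
  · exact h1 c2

private theorem quad_deg (A B C : F) :
    (Polynomial.C A + Polynomial.C B * X + Polynomial.C C * X ^ 2 : F[X]).natDegree ≤ 2 := by
  compute_degree

private theorem lin_ne (A B : F) (h1 : A ≠ 0 ∨ B ≠ 0) :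
    (Polynomial.C A + Polynomial.C B * X : F[X]) ≠ 0 := by
  intro h
  have c0 := congrArg (fun p : F[X] => p.coeff 0) h
  have c1 := congrArg (fun p : F[X] => p.coeff 1) h
  simp [Polynomial.coeff_X, Polynomial.coeff_C] at c0 c1
  rcases h1 with h1 | h1
  · exact h1 c0
  · exact h1 c1

private theorem lin_deg (A B : F) :
    (Polynomial.C A + Polynomial.C B * X : F[X]).natDegree ≤ 1 := by
  compute_degree

theorem exists_avoid [Fintype F] (h : 4 ≤ Fintype.card F) (A B C A' B' : F) (h1 : A ≠ 0 ∨ B ≠ 0 ∨ C ≠ 0)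
    (h2 : A' ≠ 0 ∨ B' ≠ 0) : ∃ t : F, A + B * t + C * t ^ 2 ≠ 0 ∧ A' + B' * t ≠ 0 := by
  have hp := quad_ne A B C h1
  have hq := lin_ne A' B' h2
  obtain ⟨t, ht⟩ := exists_nonroot _ (mul_ne_zero hp hq) (by
    have := Polynomial.natDegree_mul_le (p := (Polynomial.C A + Polynomial.C B * X + Polynomial.C C * X ^ 2 : F[X]))
      (q := (Polynomial.C A' + Polynomial.C B' * X : F[X]))
    have h3 := quad_deg A B C
    have h4 := lin_deg A' B'
    omega)
  refine ⟨t, ?_, ?_⟩
  · intro h0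
    apply ht
    simp [h0]
  · intro h0
    apply ht
    simp [h0]

theorem exists_avoid2 [Fintype F] (h : 5 ≤ Fintype.card F) (A B C : F) (h1 : A ≠ 0 ∨ B ≠ 0 ∨ C ≠ 0) :
    ∃ t₁ t₂ : F, t₁ ≠ 0 ∧ t₂ ≠ 0 ∧ t₁ ≠ t₂ ∧ A + B * t₁ + C * t₁ ^ 2 ≠ 0 ∧ A + B * t₂ + C * t₂ ^ 2 ≠ 0 := by
  have hp := quad_ne A B C h1
  have h3 := quad_deg A B C
  obtain ⟨t₁, ht₁⟩ := exists_nonroot _ (mul_ne_zero (Polynomial.X_ne_zero (R := F)) hp) (by
    have := Polynomial.natDegree_mul_le (p := (X : F[X]))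
      (q := (Polynomial.C A + Polynomial.C B * X + Polynomial.C C * X ^ 2 : F[X]))
    have h4 := Polynomial.natDegree_X_le (R := F)
    omega)
  obtain ⟨t₂, ht₂⟩ := exists_nonroot _ (mul_ne_zero (mul_ne_zero (Polynomial.X_ne_zero (R := F))
      (Polynomial.X_sub_C_ne_zero t₁)) hp) (by
    have := Polynomial.natDegree_mul_le (p := (X * (X - Polynomial.C t₁) : F[X]))
      (q := (Polynomial.C A + Polynomial.C B * X + Polynomial.C C * X ^ 2 : F[X]))
    have h5 := Polynomial.natDegree_mul_le (p := (X : F[X])) (q := (X - Polynomial.C t₁ : F[X]))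
    have h4 := Polynomial.natDegree_X_le (R := F)
    have h6 := Polynomial.natDegree_X_sub_C t₁
    omega)
  simp only [Polynomial.eval_mul, Polynomial.eval_X, Polynomial.eval_add, Polynomial.eval_C,
    Polynomial.eval_pow, Polynomial.eval_sub, mul_ne_zero_iff] at ht₁ ht₂
  exact ⟨t₁, t₂, ht₁.1, ht₂.1.1, fun e => ht₂.1.2 (by rw [e, sub_self]), ht₁.2, ht₂.2⟩

end Cfsg.Agent.Lib.H96KAvoid
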