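import Cfsg.Agent.Lib.Helper96KDefs

/-!
PROJECT 196 (TKL), piece Bilin.  See notes/helper96/K/README.md.
-/

set_option autoImplicit false
set_option linter.unusedSectionVars false
set_option linter.unusedVariables false

namespace Cfsg.Agent.Lib.H96KBilin

open scoped Matrix Kronecker
open Matrix Polynomial Cfsg.Agent.Lib.Helper49TDefs Cfsg.Agent.Lib.Helper49SDefs Cfsg.Agent.Lib.Helper96KDefs


variable {F : Type*} [Field F] {a b n : ℕ}

local notation "Mn" => Matrix (Fin a × Fin b) (Fin a × Fin b) F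
local notation "GLn" => Matrix.GeneralLinearGroup (Fin a × Fin b) F
local notation "Mb" => Matrix (Fin b) (Fin b) F
local notation "Ma" => Matrix (Fin a) (Fin a) F

private theorem dep_smul {Z : Type*} [AddCommGroup Z] [Module F Z] {p z : Z} (hp : p ≠ 0)
    (h : ¬ LinearIndependent F ![p, z]) : ∃ k : F, k • p = z := by
  rw [LinearIndependent.pair_iff' hp] at h
  push Not at h
  exact h

private theorem dep_swap {Z : Type*} [AddCommGroup Z] [Module F Z] {p z : Z}
    (h : ¬ LinearIndependent F ![p, z]) : ¬ LinearIndependent F ![z, p] := by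
  intro h'
  apply h
  rw [LinearIndependent.pair_iff] at h' ⊢
  intro s t hst
  have := h' t s (by rw [add_comm]; exact hst)
  exact ⟨this.2, this.1⟩

private theorem zero_of_two {Z : Type*} [AddCommGroup Z] [Module F Z] {p r z : Z}
    (hpr : LinearIndependent F ![p, r]) (h1 : ¬ LinearIndependent F ![p, z])
    (h2 : ¬ LinearIndependent F ![r, z]) : z = 0 := by
  have hp : p ≠ 0 := by
    have := hpr.ne_zero 0
    simpa using this
  have hr : r ≠ 0 := by
    have := hpr.ne_zero 1
    simpa using this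
  obtain ⟨k, hk⟩ := dep_smul hp h1
  obtain ⟨l, hl⟩ := dep_smul hr h2
  rw [LinearIndependent.pair_iff] at hpr
  have := hpr k (-l) (by rw [neg_smul, hk, hl, add_neg_cancel])
  rw [← hk, this.1, zero_smul]

/-- If `p = β u₁ y₁`, `r = β u₂ y₂` are independent then `β u₁ y₂ ∈ Fp ∩ Fr = 0`, `β u₂ y₁ = 0`, so
`β (u₁+u₂) y₁ = p`, `β (u₁+u₂) y₂ = r` contradicts `h1`. -/
theorem bilin_dep {U Y Z : Type*} [AddCommGroup U] [Module F U] [AddCommGroup Y] [Module F Y]
    [AddCommGroup Z] [Module F Z] (β : U →ₗ[F] Y →ₗ[F] Z)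
    (h1 : ∀ u y y', ¬ LinearIndependent F ![β u y, β u y'])
    (h2 : ∀ u u' y, ¬ LinearIndependent F ![β u y, β u' y]) :
    ∀ u y u' y', ¬ LinearIndependent F ![β u y, β u' y'] := by
  intro u y u' y' hli
  have e1 : β u y' = 0 := zero_of_two hli (h1 u y y') (h2 u' u y')
  have e2 : β u' y = 0 := zero_of_two hli (h2 u u' y) (h1 u' y' y)
  apply h1 (u + u') y y'
  rw [map_add, LinearMap.add_apply, LinearMap.add_apply, e1, e2, add_zero, zero_add]
  exact hli

/-- consequently all values lie on one line -/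
theorem bilin_line {U Y Z : Type*} [AddCommGroup U] [Module F U] [AddCommGroup Y] [Module F Y]
    [AddCommGroup Z] [Module F Z] (β : U →ₗ[F] Y →ₗ[F] Z)
    (h1 : ∀ u y y', ¬ LinearIndependent F ![β u y, β u y'])
    (h2 : ∀ u u' y, ¬ LinearIndependent F ![β u y, β u' y]) :
    ∃ z : Z, ∀ u y, ∃ k : F, β u y = k • z := by
  by_cases h0 : ∀ u y, β u y = 0
  · exact ⟨0, fun u y => ⟨0, by rw [h0, smul_zero]⟩⟩
  · push Not at h0
    obtain ⟨u₀, y₀, h0⟩ := h0
    refine ⟨β u₀ y₀, fun u y => ?_⟩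
    obtain ⟨k, hk⟩ := dep_smul h0 (bilin_dep β h1 h2 u₀ y₀ u y)
    exact ⟨k, hk.symm⟩

end Cfsg.Agent.Lib.H96KBilin
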