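import Cfsg.Agent.Lib.Helper96KDefs
import Cfsg.Agent.Lib.H96KFormA
import Cfsg.Agent.Lib.H96KFormB
import Cfsg.Agent.Lib.H96KCalc

/-!
PROJECT 196 (TKL), piece Comm.  See notes/helper96/K/README.md.
-/

set_option autoImplicit false
set_option linter.unusedSectionVars false
set_option linter.unusedVariables false

namespace Cfsg.Agent.Lib.H96KComm

open scoped Matrix Kronecker
open Matrix Polynomial Cfsg.Agent.Lib.Helper49TDefs Cfsg.Agent.Lib.Helper49SDefs Cfsg.Agent.Lib.Helper96KDefs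
open Cfsg.Agent.Lib.H96KFormA
open Cfsg.Agent.Lib.H96KFormB
open Cfsg.Agent.Lib.H96KCalc

variable {F : Type*} [Field F] {a b n : ℕ}

local notation "Mn" => Matrix (Fin a × Fin b) (Fin a × Fin b) F
local notation "GLn" => Matrix.GeneralLinearGroup (Fin a × Fin b) F
local notation "Mb" => Matrix (Fin b) (Fin b) F
local notation "Ma" => Matrix (Fin a) (Fin a) F

/-- If `C` commutes with `N = T_u ⊗ 1 = iota u * con (J₁ u)` then `C N = T_u ⊗ σ`.
Take `u'` with `bf J₁ u' u = 1` (`D.h₁.exists_ne_zero`), i.e. `con (J₁ u) * iota u' = 1` (`con_mul_iota`; `bf J₁ u' u = u' ⬝ᵥ J₁ u`).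
From `C N = N C`, multiplying on the right by `iota u'`: `C * iota u = iota u * σ`, `σ = GB C (J₁ u) u'`.
Hence `C N = C * iota u * con (J₁ u) = iota u * σ * con (J₁ u) = T_u ⊗ σ` (`Tu_kron`). -/
theorem form_of_comm (D : TDat F a b) {u : Fin a → F} (hu : u ≠ 0) (C : Mn)
    (hC : C * (NJ D.J₁ u u ⊗ₖ (1 : Mb)) = (NJ D.J₁ u u ⊗ₖ (1 : Mb)) * C) :
    ∃ σ : Mb, C * (NJ D.J₁ u u ⊗ₖ (1 : Mb)) = NJ D.J₁ u u ⊗ₖ σ := by
  obtain ⟨u', hu'⟩ := D.h₁.exists_ne_zero hu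
  have h1 : (con (D.J₁ *ᵥ u) : Matrix (Fin b) (Fin a × Fin b) F)
      * (iota u' : Matrix (Fin a × Fin b) (Fin b) F) = 1 := by
    rw [con_mul_iota, dotProduct_comm]
    have : u' ⬝ᵥ D.J₁ *ᵥ u = 1 := hu'
    rw [this, one_smul]
  rw [Tu_kron, Matrix.mul_one] at hC
  have h2 : C * (iota u : Matrix (Fin a × Fin b) (Fin b) F)
      = (iota u : Matrix (Fin a × Fin b) (Fin b) F) * GB C (D.J₁ *ᵥ u) u' := by
    have h3 := congrArg (fun X => X * (iota u' : Matrix (Fin a × Fin b) (Fin b) F)) hC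
    rw [Matrix.mul_assoc C, Matrix.mul_assoc _ _ (iota u'), h1, Matrix.mul_one] at h3
    rw [h3]
    unfold GB
    simp only [Matrix.mul_assoc]
  refine ⟨GB C (D.J₁ *ᵥ u) u', ?_⟩
  rw [Tu_kron, Tu_kron, Matrix.mul_one, ← Matrix.mul_assoc, h2]

end Cfsg.Agent.Lib.H96KComm
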