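import Cfsg.Agent.Lib.Helper96KDefs
import Cfsg.Agent.Lib.H96KFormA
import Cfsg.Agent.Lib.H96KAvoid

/-!
PROJECT 196 (TKL), piece Irred.  See notes/helper96/K/README.md.
-/

set_option autoImplicit false
set_option linter.unusedSectionVars false
set_option linter.unusedVariables false

namespace Cfsg.Agent.Lib.H96KIrred

open scoped Matrix Kronecker
open Matrix Polynomial Cfsg.Agent.Lib.Helper49TDefs Cfsg.Agent.Lib.Helper49SDefs Cfsg.Agent.Lib.Helper96KDefs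
open Cfsg.Agent.Lib.H96KFormA
open Cfsg.Agent.Lib.H96KAvoid

variable {F : Type*} [Field F] {a b n : ℕ}

/-- one reflection step: if `d ∈ S`, `e ⊥ c` non-singular with `bf d e ≠ 0` then `e ∈ S`. -/
theorem mem_of_refl {J : Matrix (Fin n) (Fin n) F} (h2 : (2 : F) ≠ 0)
    {c : Fin n → F} (S : Submodule F (Fin n → F))
    (hinv : ∀ e, bf J e c = 0 → bf J e e ≠ 0 → ∀ d ∈ S, d - (2 * bf J d e / bf J e e) • e ∈ S)
    {d e : Fin n → F} (hd : d ∈ S) (hec : bf J e c = 0) (hee : bf J e e ≠ 0) (hde : bf J d e ≠ 0) :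
    e ∈ S := by
  have h1 := hinv e hec hee d hd
  have h3 : (2 * bf J d e / bf J e e) • e ∈ S := by
    have := S.sub_mem hd h1
    simpa using this
  have hk : (2 * bf J d e / bf J e e) ≠ 0 := div_ne_zero (mul_ne_zero h2 hde) hee
  exact (S.smul_mem_iff hk).mp h3

/-- `O(c^⊥)` is irreducible on `c^⊥` (q ≥ 4). -/
theorem perp_irred [Fintype F] {J : Matrix (Fin n) (Fin n) F} (hJ : IsSymmMat J) (h2 : (2 : F) ≠ 0)
    (h4 : 4 ≤ Fintype.card F) {c : Fin n → F} (hc : bf J c c ≠ 0) (S : Submodule F (Fin n → F))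
    (hS : ∀ d ∈ S, bf J d c = 0) (hne : S ≠ ⊥)
    (hinv : ∀ e, bf J e c = 0 → bf J e e ≠ 0 → ∀ d ∈ S, d - (2 * bf J d e / bf J e e) • e ∈ S) :
    ∀ d, bf J d c = 0 → d ∈ S := by
  obtain ⟨d₀, hd₀, hd₀0⟩ := S.exists_mem_ne_zero_of_ne_bot hne
  have hd₀c := hS d₀ hd₀
  obtain ⟨w₀, hw₀⟩ := symm_exists_ne_zero hJ hd₀0
  -- `w ⊥ c` with `bf d₀ w ≠ 0`
  set w : Fin n → F := w₀ - (bf J w₀ c / bf J c c) • c with hw
  have hwc : bf J w c = 0 := by
    rw [hw, bf_sub_left, bf_smul_left]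
    field_simp
    ring
  have hd₀w : bf J d₀ w = 1 := by
    rw [hw, bf_sub_right, bf_smul_right, hd₀c, mul_zero, sub_zero, symm_swap hJ, hw₀]
  -- `e₀`
  obtain ⟨t, ht1, ht2⟩ := exists_avoid h4 (bf J w w) (2 * bf J w d₀) (bf J d₀ d₀) (bf J d₀ w)
    (bf J d₀ d₀) (Or.inr (Or.inl (by
      rw [symm_swap hJ w d₀, hd₀w]; simpa using h2))) (Or.inl (by rw [hd₀w]; exact one_ne_zero))
  set e₀ : Fin n → F := w + t • d₀ with he₀
  have he₀c : bf J e₀ c = 0 := by
    rw [he₀, bf_add_left, bf_smul_left, hwc, hd₀c]; ring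
  have he₀e₀ : bf J e₀ e₀ ≠ 0 := by
    have : bf J e₀ e₀ = bf J w w + 2 * bf J w d₀ * t + bf J d₀ d₀ * t ^ 2 := by
      rw [he₀]
      simp only [bf_add_left, bf_add_right, bf_smul_left, bf_smul_right]
      rw [symm_swap hJ d₀ w]
      ring
    rw [this]; exact ht1
  have hd₀e₀ : bf J d₀ e₀ ≠ 0 := by
    have : bf J d₀ e₀ = bf J d₀ w + bf J d₀ d₀ * t := by
      rw [he₀]
      simp only [bf_add_right, bf_smul_right]
      ring
    rw [this]; exact ht2
  have he₀S : e₀ ∈ S := mem_of_refl h2 S hinv hd₀ he₀c he₀e₀ hd₀e₀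
  intro v hvc
  obtain ⟨s, hs1, hs2⟩ := exists_avoid h4 (bf J v v) (2 * bf J v e₀) (bf J e₀ e₀) (bf J e₀ v)
    (bf J e₀ e₀) (Or.inr (Or.inr he₀e₀)) (Or.inr he₀e₀)
  set e : Fin n → F := v + s • e₀ with he
  have hec : bf J e c = 0 := by
    rw [he, bf_add_left, bf_smul_left, hvc, he₀c]; ring
  have hee : bf J e e ≠ 0 := by
    have : bf J e e = bf J v v + 2 * bf J v e₀ * s + bf J e₀ e₀ * s ^ 2 := by
      rw [he]
      simp only [bf_add_left, bf_add_right, bf_smul_left, bf_smul_right]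
      rw [symm_swap hJ e₀ v]
      ring
    rw [this]; exact hs1
  have he₀e : bf J e₀ e ≠ 0 := by
    have : bf J e₀ e = bf J e₀ v + bf J e₀ e₀ * s := by
      rw [he]
      simp only [bf_add_right, bf_smul_right]
      ring
    rw [this]; exact hs2
  have heS : e ∈ S := mem_of_refl h2 S hinv he₀S hec hee he₀e
  have : v = e - s • e₀ := by rw [he]; abel
  rw [this]
  exact S.sub_mem heS (S.smul_mem s he₀S)

end Cfsg.Agent.Lib.H96KIrred
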