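import Cfsg.Agent.Lib.Helper96KDefs
import Cfsg.Agent.Lib.H96KFormA
import Cfsg.Agent.Lib.H96KFormB
import Cfsg.Agent.Lib.H96KCalc
import Cfsg.Agent.Lib.H96KFN
import Cfsg.Agent.Lib.H96KMem

/-!
PROJECT 196 (TKL), piece SSb.  See notes/helper96/K/README.md.
-/

set_option autoImplicit false
set_option linter.unusedSectionVars false
set_option linter.unusedVariables false

namespace Cfsg.Agent.Lib.H96KSSb

open scoped Matrix Kronecker
open Matrix Polynomial Cfsg.Agent.Lib.Helper49TDefs Cfsg.Agent.Lib.Helper49SDefs Cfsg.Agent.Lib.Helper96KDefs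
open Cfsg.Agent.Lib.H96KFormA
open Cfsg.Agent.Lib.H96KFormB
open Cfsg.Agent.Lib.H96KCalc
open Cfsg.Agent.Lib.H96KFN
open Cfsg.Agent.Lib.H96KMem

variable {F : Type*} [Field F] {a b n : ℕ}

local notation "Mn" => Matrix (Fin a × Fin b) (Fin a × Fin b) F
local notation "GLn" => Matrix.GeneralLinearGroup (Fin a × Fin b) F
local notation "Mb" => Matrix (Fin b) (Fin b) F
local notation "Ma" => Matrix (Fin a) (Fin a) F

/-! basic closure properties of `𝔖_u = SS D H u`.  `(T_u ⊗ σ)(T_u ⊗ σ') = T_u² ⊗ σσ' = 0` (`Matrix.mul_kronecker_mul`, `NJ_mul`, `D.h₁.alt`). -/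

variable {D : TDat F a b} {H : Subgroup (Matrix.GeneralLinearGroup (Fin a × Fin b) F)} {u : Fin a → F}
  {σ σ' : Matrix (Fin b) (Fin b) F}

theorem TT_zero (D : TDat F a b) (u : Fin a → F) : NJ D.J₁ u u * NJ D.J₁ u u = 0 := by
  rw [NJ_mul, D.h₁.alt, zero_smul]

theorem kk_zero (D : TDat F a b) (u : Fin a → F) (σ σ' : Mb) :
    (NJ D.J₁ u u ⊗ₖ σ) * (NJ D.J₁ u u ⊗ₖ σ') = 0 := by
  rw [← Matrix.mul_kronecker_mul, TT_zero, Matrix.zero_kronecker]

theorem one_iso (J : Matrix (Fin n) (Fin n) F) : IsIso J 1 := by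
  intro x y
  simp

theorem SS_add (h : σ ∈ SS D H u) (h' : σ' ∈ SS D H u) : σ + σ' ∈ SS D H u := by
  show NJ D.J₁ u u ⊗ₖ (σ + σ') ∈ FN H
  rw [Matrix.kronecker_add]
  exact FN_add h h' (kk_zero D u σ σ') (kk_zero D u σ' σ)

theorem SS_smul (h : σ ∈ SS D H u) (k : F) : k • σ ∈ SS D H u := by
  show NJ D.J₁ u u ⊗ₖ (k • σ) ∈ FN H
  rw [Matrix.kronecker_smul]
  exact FN_smul h k

theorem SS_neg (h : σ ∈ SS D H u) : -σ ∈ SS D H u := by
  have := SS_smul h (-1)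
  rwa [neg_one_smul] at this

theorem SS_sub (h : σ ∈ SS D H u) (h' : σ' ∈ SS D H u) : σ - σ' ∈ SS D H u := by
  rw [sub_eq_add_neg]
  exact SS_add h (SS_neg h')

theorem SS_zero : (0 : Mb) ∈ SS D H u := by
  show NJ D.J₁ u u ⊗ₖ (0 : Mb) ∈ FN H
  rw [Matrix.kronecker_zero]
  exact FN_zero

/-- conjugate by `1 ⊗ B ∈ M` (`kron_mem` with `A = 1`, `FN_conj`) -/
theorem SS_conj (hM : KS a b F ⊓ SpG D ≤ H) {B : Matrix.GeneralLinearGroup (Fin b) F} (hB : IsIso D.J₂ B)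
    (h : σ ∈ SS D H u) : (B : Mb) * σ * ((B⁻¹ : Matrix.GeneralLinearGroup (Fin b) F) : Mb) ∈ SS D H u := by
  obtain ⟨m, hm, e1, e2⟩ := kron_mem D 1 B (one_iso _) hB
  have h1 := FN_conj h (hM hm)
  rw [e1, e2, ← Matrix.mul_kronecker_mul, ← Matrix.mul_kronecker_mul, inv_one, Units.val_one,
    one_mul, mul_one] at h1
  exact h1

/-- conjugate by `A ⊗ 1 ∈ M` (`NJ_conj`) -/
theorem SS_move (hM : KS a b F ⊓ SpG D ≤ H) {A : Matrix.GeneralLinearGroup (Fin a) F} (hA : IsIso D.J₁ A)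
    (h : σ ∈ SS D H u) : σ ∈ SS D H ((A : Ma) *ᵥ u) := by
  obtain ⟨m, hm, e1, e2⟩ := kron_mem D A 1 hA (one_iso _)
  have h1 := FN_conj h (hM hm)
  rw [e1, e2, ← Matrix.mul_kronecker_mul, ← Matrix.mul_kronecker_mul, inv_one, Units.val_one,
    one_mul, mul_one, NJ_conj hA] at h1
  exact h1

/-- `1 + T_u ⊗ σ` is an isometry; evaluate at `x = u' ⊗ v`, `y = u' ⊗ w` with `bf J₁ u' u = 1`:
`bf J₂ (σ v) w = bf J₂ v (σ w)`; conclude with `symm_ext`/`symm_bf_adjJ`. -/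
theorem SS_selfadj (hH : H ≤ SpG D) (hu : u ≠ 0) (h : σ ∈ SS D H u) : adjJ D.J₂ σ = σ := by
  obtain ⟨-, g, hg, hgv⟩ := FN_NN h
  obtain ⟨u', hu'⟩ := D.h₁.exists_ne_zero hu
  have hiso := mem_SpG.1 (hH hg)
  have key : ∀ v w, bf D.J₂ (σ *ᵥ v) w = bf D.J₂ v (σ *ᵥ w) := by
    intro v w
    have h1 := hiso (tens u' v) (tens u' w)
    have e : ∀ z : Fin b → F, (g : Mn) *ᵥ tens u' z = tens u' z + tens u (σ *ᵥ z) := by
      intro z
      rw [hgv, Matrix.add_mulVec, Matrix.one_mulVec, kron_mulVec_tens, NJ_mulVec, hu', one_smul]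
    rw [e, e] at h1
    simp only [ff_add_left, ff_add_right, ff_tens, D.h₁.alt, hu', D.h₁.swap u u'] at h1
    linear_combination -h1
  apply symm_ext D.h₂
  intro x y
  rw [symm_swap D.h₂ _ y, ← symm_bf_adjJ D.h₂, symm_swap D.h₂ _ x, key]

theorem tau_comm (c d : Fin b → F) : tau D c d = tau D d c := by
  unfold tau
  rw [add_comm]
theorem tau_add_right (c d d' : Fin b → F) : tau D c (d + d') = tau D c d + tau D c d' := by
  unfold tau
  rw [NJ_add_right, NJ_add_left]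
  abel
theorem tau_smul_right (k : F) (c d : Fin b → F) : tau D c (k • d) = k • tau D c d := by
  unfold tau
  rw [NJ_smul_right, NJ_smul_left, smul_add]
theorem tau_self (c : Fin b → F) : tau D c c = (2 : F) • NJ D.J₂ c c := by
  unfold tau
  rw [two_smul]
/-- `NJ_conj` -/
theorem tau_conj {B : Matrix.GeneralLinearGroup (Fin b) F} (hB : IsIso D.J₂ B) (c d : Fin b → F) :
    (B : Mb) * tau D c d * ((B⁻¹ : Matrix.GeneralLinearGroup (Fin b) F) : Mb) = tau D ((B : Mb) *ᵥ c) ((B : Mb) *ᵥ d) := by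
  unfold tau
  rw [mul_add, add_mul, NJ_conj hB, NJ_conj hB]

end Cfsg.Agent.Lib.H96KSSb
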