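import Cfsg.Agent.Lib.Helper96KDefs
import Cfsg.Agent.Lib.H96KFormA
import Cfsg.Agent.Lib.H96KMem
import Cfsg.Agent.Lib.H96KSSb
import Cfsg.Agent.Lib.H96KIrred

/-!
PROJECT 196 (TKL), piece GoodOf.  See notes/helper96/K/README.md.
-/

set_option autoImplicit false
set_option linter.unusedSectionVars false
set_option linter.unusedVariables false

namespace Cfsg.Agent.Lib.H96KGoodOf

open scoped Matrix Kronecker
open Matrix Polynomial Cfsg.Agent.Lib.Helper49TDefs Cfsg.Agent.Lib.Helper49SDefs Cfsg.Agent.Lib.Helper96KDefs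
open Cfsg.Agent.Lib.H96KFormA
open Cfsg.Agent.Lib.H96KMem
open Cfsg.Agent.Lib.H96KSSb
open Cfsg.Agent.Lib.H96KIrred

variable {F : Type*} [Field F] {a b n : ℕ}

local notation "Mn" => Matrix (Fin a × Fin b) (Fin a × Fin b) F
local notation "GLn" => Matrix.GeneralLinearGroup (Fin a × Fin b) F
local notation "Mb" => Matrix (Fin b) (Fin b) F
local notation "Ma" => Matrix (Fin a) (Fin a) F

theorem good_of [Fintype F] {D : TDat F a b} {H : Subgroup GLn} {u : Fin a → F} (h2 : (2 : F) ≠ 0)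
    (h4 : 4 ≤ Fintype.card F) (hM : KS a b F ⊓ SpG D ≤ H) {c d : Fin b → F} (hc : bf D.J₂ c c ≠ 0) (hd : d ≠ 0)
    (hdc : bf D.J₂ d c = 0) (h : tau D c d ∈ SS D H u) : Good D H u c := by
  refine ⟨hc, ?_⟩
  let S : Submodule F (Fin b → F) :=
    { carrier := {d | bf D.J₂ d c = 0 ∧ tau D c d ∈ SS D H u}
      add_mem' := by
        intro x y hx hy
        have hx1 : bf D.J₂ x c = 0 := hx.1
        have hx2 : tau D c x ∈ SS D H u := hx.2
        have hy1 : bf D.J₂ y c = 0 := hy.1
        have hy2 : tau D c y ∈ SS D H u := hy.2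
        show bf D.J₂ (x + y) c = 0 ∧ tau D c (x + y) ∈ SS D H u
        refine ⟨by rw [bf_add_left, hx1, hy1, add_zero], ?_⟩
        rw [tau_add_right]
        exact SS_add hx2 hy2
      zero_mem' := by
        show bf D.J₂ 0 c = 0 ∧ tau D c 0 ∈ SS D H u
        refine ⟨bf_zero_left _ _, ?_⟩
        have h0 := tau_smul_right (D := D) (0 : F) c 0
        rw [zero_smul, zero_smul] at h0
        rw [h0]
        exact SS_zero
      smul_mem' := by
        intro k x hx
        have hx1 : bf D.J₂ x c = 0 := hx.1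
        have hx2 : tau D c x ∈ SS D H u := hx.2
        show bf D.J₂ (k • x) c = 0 ∧ tau D c (k • x) ∈ SS D H u
        refine ⟨by rw [bf_smul_left, hx1, mul_zero], ?_⟩
        rw [tau_smul_right]
        exact SS_smul hx2 k }
  have hmain := perp_irred D.h₂ h2 h4 hc S (fun d hd => hd.1) (by
    intro hbot
    have : d ∈ S := ⟨hdc, h⟩
    rw [hbot, Submodule.mem_bot] at this
    exact hd this) (by
    intro e hec hee x hx
    have hx1 : bf D.J₂ x c = 0 := hx.1
    have hx2 : tau D c x ∈ SS D H u := hx.2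
    obtain ⟨B, hB, hBm, hBi⟩ := refl_iso D.h₂ hee
    have hBc : (B : Mb) *ᵥ c = c := by
      rw [hBm, Matrix.sub_mulVec, Matrix.one_mulVec, Matrix.smul_mulVec, NJ_mulVec,
        symm_swap D.h₂ c e, hec, zero_smul, smul_zero, sub_zero]
    have hBx : (B : Mb) *ᵥ x = x - (2 * bf D.J₂ x e / bf D.J₂ e e) • e := by
      rw [hBm, Matrix.sub_mulVec, Matrix.one_mulVec, Matrix.smul_mulVec, NJ_mulVec, smul_smul]
      congr 2
      ring
    show bf D.J₂ (x - (2 * bf D.J₂ x e / bf D.J₂ e e) • e) c = 0 ∧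
      tau D c (x - (2 * bf D.J₂ x e / bf D.J₂ e e) • e) ∈ SS D H u
    refine ⟨by rw [bf_sub_left, bf_smul_left, hx1, hec, mul_zero, sub_zero], ?_⟩
    have h5 := SS_conj hM hB hx2
    rw [tau_conj hB, hBc, hBx] at h5
    exact h5)
  intro d' hd'
  exact (hmain d' hd').2

end Cfsg.Agent.Lib.H96KGoodOf
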