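import Cfsg.Agent.Lib.Helper96KDefs
import Cfsg.Agent.Lib.H96KFormA
import Cfsg.Agent.Lib.H96KFormB
import Cfsg.Agent.Lib.H96KCalc

/-!
PROJECT 196 (TKL), piece Inv.  See notes/helper96/K/README.md.
-/

set_option autoImplicit false
set_option linter.unusedSectionVars false
set_option linter.unusedVariables false

namespace Cfsg.Agent.Lib.H96KInv

open scoped Matrix Kronecker
open Matrix Polynomial Cfsg.Agent.Lib.Helper49TDefs Cfsg.Agent.Lib.Helper49SDefs Cfsg.Agent.Lib.Helper96KDefs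
open Cfsg.Agent.Lib.H96KFormA
open Cfsg.Agent.Lib.H96KFormB
open Cfsg.Agent.Lib.H96KCalc

variable {F : Type*} [Field F] {a b n : ℕ}

local notation "Mn" => Matrix (Fin a × Fin b) (Fin a × Fin b) F
local notation "GLn" => Matrix.GeneralLinearGroup (Fin a × Fin b) F
local notation "Mb" => Matrix (Fin b) (Fin b) F
local notation "Ma" => Matrix (Fin a) (Fin a) F

theorem J1_transpose (D : TDat F a b) : D.J₁ᵀ = - D.J₁ := by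
  classical
  ext i j
  have h := D.h₁.swap (Pi.single j 1) (Pi.single i 1)
  simp only [bf, Matrix.mulVec_single_one, single_one_dotProduct, Matrix.col_apply] at h
  rw [Matrix.transpose_apply, Matrix.neg_apply]
  exact h

theorem kron_inv_mul (D : TDat F a b) : (D.J₁⁻¹ ⊗ₖ D.J₂⁻¹) * (D.J₁ ⊗ₖ D.J₂) = (1 : Mn) := by
  rw [← Matrix.mul_kronecker_mul, Matrix.nonsing_inv_mul _ D.h₁.unit,
    Matrix.nonsing_inv_mul _ D.h₂.unit, Matrix.one_kronecker_one]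

theorem gram_of_mem (D : TDat F a b) {g : GLn} (hg : g ∈ SpG D) :
    (g : Mn)ᵀ * (D.J₁ ⊗ₖ D.J₂) * (g : Mn) = D.J₁ ⊗ₖ D.J₂ := by
  apply Matrix.toLin'.injective
  apply LinearMap.ext
  intro y
  simp only [Matrix.toLin'_apply]
  apply dotProduct_eq
  intro x
  have h := hg x y
  unfold TDat.ff at h
  rw [dotProduct_comm, dotProduct_comm _ x, ← h, ← Matrix.mulVec_mulVec, ← Matrix.mulVec_mulVec,
    Matrix.dotProduct_mulVec x, Matrix.vecMul_transpose]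

/-- matrix form of `g ∈ SpG D`: `gᵀ 𝕁 g = 𝕁`, hence `g⁻¹ = 𝕁⁻¹ gᵀ 𝕁` -/
theorem inv_eq_of_mem (D : TDat F a b) {g : GLn} (hg : g ∈ SpG D) :
    ((g⁻¹ : GLn) : Mn) = (D.J₁⁻¹ ⊗ₖ D.J₂⁻¹) * (g : Mn)ᵀ * (D.J₁ ⊗ₖ D.J₂) := by
  have h1 : ((D.J₁⁻¹ ⊗ₖ D.J₂⁻¹) * (g : Mn)ᵀ * (D.J₁ ⊗ₖ D.J₂)) * (g : Mn) = 1 := by
    rw [Matrix.mul_assoc, Matrix.mul_assoc, ← Matrix.mul_assoc (g : Mn)ᵀ, gram_of_mem D hg, kron_inv_mul]
  have h2 : (g : Mn) * ((g⁻¹ : GLn) : Mn) = 1 := by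
    rw [← Units.val_mul, mul_inv_cancel, Units.val_one]
  calc ((g⁻¹ : GLn) : Mn) = 1 * ((g⁻¹ : GLn) : Mn) := (Matrix.one_mul _).symm
    _ = (((D.J₁⁻¹ ⊗ₖ D.J₂⁻¹) * (g : Mn)ᵀ * (D.J₁ ⊗ₖ D.J₂)) * (g : Mn)) * ((g⁻¹ : GLn) : Mn) := by rw [h1]
    _ = _ := by rw [Matrix.mul_assoc _ (g : Mn), h2, Matrix.mul_one]

theorem vecMul_J1_inv (D : TDat F a b) (u' : Fin a → F) : (D.J₁ *ᵥ u') ᵥ* D.J₁⁻¹ = - u' := by
  have h1 : (D.J₁ *ᵥ u') = (- u') ᵥ* D.J₁ := by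
    rw [← Matrix.mulVec_transpose, J1_transpose, Matrix.neg_mulVec, Matrix.mulVec_neg, neg_neg]
  rw [h1, Matrix.vecMul_vecMul, Matrix.mul_nonsing_inv _ D.h₁.unit, Matrix.vecMul_one]

theorem iota_transpose (φ : Fin a → F) :
    (iota φ : Matrix (Fin a × Fin b) (Fin b) F)ᵀ = (con φ : Matrix (Fin b) (Fin a × Fin b) F) := by
  rw [← con_transpose, Matrix.transpose_transpose]

theorem con_neg (φ : Fin a → F) :
    (con (-φ) : Matrix (Fin b) (Fin a × Fin b) F) = - con φ := by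
  have := con_smul (b := b) (-1 : F) φ
  simpa using this

theorem GB_inv (D : TDat F a b) {g : GLn} (hg : g ∈ SpG D) (u u' : Fin a → F) :
    GB ((g⁻¹ : GLn) : Mn) (D.J₁ *ᵥ u') u = - adjJ D.J₂ (GB (g : Mn) (D.J₁ *ᵥ u) u') := by
  unfold GB adjJ
  rw [inv_eq_of_mem D hg]
  have e1 : (con (D.J₁ *ᵥ u') : Matrix (Fin b) (Fin a × Fin b) F) * ((D.J₁⁻¹ ⊗ₖ D.J₂⁻¹) * (g : Mn)ᵀ * (D.J₁ ⊗ₖ D.J₂)) *
      (iota u : Matrix (Fin a × Fin b) (Fin b) F) =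
      ((con (D.J₁ *ᵥ u') : Matrix (Fin b) (Fin a × Fin b) F) * (D.J₁⁻¹ ⊗ₖ D.J₂⁻¹)) * (g : Mn)ᵀ *
        ((D.J₁ ⊗ₖ D.J₂) * (iota u : Matrix (Fin a × Fin b) (Fin b) F)) := by
    simp only [Matrix.mul_assoc]
  rw [e1, con_mul_kron, kron_mul_iota, vecMul_J1_inv, con_neg]
  rw [Matrix.transpose_mul, Matrix.transpose_mul, con_transpose, iota_transpose]
  simp only [Matrix.mul_assoc, Matrix.mul_neg, Matrix.neg_mul]

theorem NNN (D : TDat F a b) {g : GLn} (hg : g ∈ SpG D) (u u' : Fin a → F) :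
    (NJ D.J₁ u u ⊗ₖ (1 : Mb)) * ((g : Mn) * (NJ D.J₁ u' u' ⊗ₖ (1 : Mb)) * ((g⁻¹ : GLn) : Mn)) * (NJ D.J₁ u u ⊗ₖ (1 : Mb))
      = NJ D.J₁ u u ⊗ₖ (-(GB (g : Mn) (D.J₁ *ᵥ u) u' * adjJ D.J₂ (GB (g : Mn) (D.J₁ *ᵥ u) u'))) := by
  rw [← Matrix.mul_neg, ← GB_inv D hg, Tu_kron D u 1, Tu_kron D u' 1, Tu_kron D u _]
  unfold GB
  simp only [Matrix.mul_assoc, Matrix.one_mul, Matrix.mul_one]

end Cfsg.Agent.Lib.H96KInv
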