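import Cfsg.Agent.Lib.Helper85QA

/-!
The key lemma for finite fields.
-/

namespace Cfsg.Agent.Lib.Helper85QF

open Cfsg.Agent.Lib.Helper85QA

variable {P : Type*} [CommRing P] {C : Type*} [Ring C] [Algebra P C]

theorem el_swap {x : P} {N N' : C} (h : QPair x N N') (S p q r : P) :
    el N N' S p q r = el N' N (S + x * p) (-p) r q := by
  simp only [el, h.t_n'n]; module

section

variable (k : Type*) [Field k] [Algebra k P]

/-- the group generated by the two scalar families. -/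
def HH (N N' : C) : Subgroup Cˣ :=
  Subgroup.closure {u | ∃ c : k, (u : C) = 1 + (algebraMap k P c) • N ∨ (u : C) = 1 + (algebraMap k P c) • N'}

theorem HH_swap (N N' : C) : HH (P := P) k N N' = HH (P := P) k N' N := by
  unfold HH
  congr 1
  ext u
  constructor
  · rintro ⟨c, h | h⟩
    · exact ⟨c, Or.inr h⟩
    · exact ⟨c, Or.inl h⟩
  · rintro ⟨c, h | h⟩
    · exact ⟨c, Or.inr h⟩
    · exact ⟨c, Or.inl h⟩

/-- quadruples all of whose scalings are in `HH`. -/
def Rq (x : P) (N N' : C) (S p q r : P) : Prop :=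
  (S + x * p) * S - x * q * r = 1 ∧ (∃ s₁, S = 1 + x * s₁) ∧
    ∀ σ σ' : k, σ * σ' = 1 → In (HH (P := P) k N N') (el N N' S p (algebraMap k P σ * q) (algebraMap k P σ' * r))

variable {k}

theorem in_HH_a {x : P} {N N' : C} (h : QPair x N N') (c : k) :
    In (HH (P := P) k N N') (el N N' 1 0 (algebraMap k P c) 0) := by
  refine ⟨⟨1 + (algebraMap k P c) • N, 1 - (algebraMap k P c) • N, ?_, ?_⟩,
    Subgroup.subset_closure ⟨c, Or.inl rfl⟩, ?_⟩
  · rw [add_mul, mul_sub, mul_sub, smul_mul_smul_comm, h.nn]; simp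
  · rw [sub_mul, mul_add, mul_add, smul_mul_smul_comm, h.nn]; simp
  · simp only [el]; module

theorem in_HH_b {x : P} {N N' : C} (h : QPair x N N') (c : k) :
    In (HH (P := P) k N N') (el N N' 1 0 0 (algebraMap k P c)) := by
  refine ⟨⟨1 + (algebraMap k P c) • N', 1 - (algebraMap k P c) • N', ?_, ?_⟩,
    Subgroup.subset_closure ⟨c, Or.inr rfl⟩, ?_⟩
  · rw [add_mul, mul_sub, mul_sub, smul_mul_smul_comm, h.nn']; simp
  · rw [sub_mul, mul_add, mul_add, smul_mul_smul_comm, h.nn']; simp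
  · simp only [el]; module

theorem HH_le {𝒢 : Subgroup Cˣ} {x : P} {N N' : C} (h : Ctx k 𝒢 x N N') : HH (P := P) k N N' ≤ 𝒢 := by
  unfold HH
  rw [Subgroup.closure_le]
  rintro u ⟨c, hu | hu⟩
  · obtain ⟨v, hv, e⟩ := h.fam c
    have : u = v := Units.ext (by rw [hu, e])
    rw [this]; exact hv
  · obtain ⟨v, hv, e⟩ := h.fam' c
    have : u = v := Units.ext (by rw [hu, e])
    rw [this]; exact hv

namespace Rq

variable {x : P} {N N' : C} {S p q r S' p' q' r' : P}

theorem mem (h : Rq k x N N' S p q r) : In (HH (P := P) k N N') (el N N' S p q r) := by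
  have := h.2.2 1 1 (one_mul 1)
  simpa using this

theorem mul (hq : QPair x N N') (h : Rq k x N N' S p q r) (h' : Rq k x N N' S' p' q' r') :
    Rq k x N N' (S * S' + x * r * q') (S * p' + p * S' + x * p * p' + q * r' - r * q')
        (S * q' + q * S' + x * p * q') (S * r' + r * S' + x * r * p') := by
  obtain ⟨d, ⟨s, hs⟩, sc⟩ := h
  obtain ⟨d', ⟨s', hs'⟩, sc'⟩ := h'
  refine ⟨?_, ⟨s + s' + x * s * s' + r * q', ?_⟩, ?_⟩
  · have : (S * S' + x * r * q' + x * (S * p' + p * S' + x * p * p' + q * r' - r * q')) * (S * S' + x * r * q') -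
        x * (S * q' + q * S' + x * p * q') * (S * r' + r * S' + x * r * p') =
        ((S + x * p) * S - x * q * r) * ((S' + x * p') * S' - x * q' * r') := by ring
    rw [this, d, d', one_mul]
  · rw [hs, hs']; ring
  · intro σ σ' hσ
    have := (sc σ σ' hσ).mul (sc' σ σ' hσ)
    rw [hq.el_mul] at this
    have hσ' : algebraMap k P σ * algebraMap k P σ' = 1 := by rw [← map_mul, hσ, map_one]
    convert this using 1
    apply el_ext
    · linear_combination (-(x * r * q')) * hσ'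
    · linear_combination (-(q * r' - r * q')) * hσ'
    · ring
    · ring

theorem inv (hq : QPair x N N') (h : Rq k x N N' S p q r) :
    Rq k x N N' (S + x * p) (-p) (-q) (-r) := by
  obtain ⟨d, ⟨s, hs⟩, sc⟩ := h
  refine ⟨?_, ⟨s + p, ?_⟩, ?_⟩
  · linear_combination d
  · rw [hs]; ring
  · intro σ σ' hσ
    have hσ' : algebraMap k P σ * algebraMap k P σ' = 1 := by rw [← map_mul, hσ, map_one]
    have d2 : (S + x * p) * S - x * (algebraMap k P σ * q) * (algebraMap k P σ' * r) = 1 := by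
      linear_combination d - (x * q * r) * hσ'
    have := (sc σ σ' hσ).inv (hq.el_inv d2).1
    convert this using 1
    apply el_ext <;> ring

theorem scale (h : Rq k x N N' S p q r) {τ τ' : k} (hτ : τ * τ' = 1) :
    Rq k x N N' S p (algebraMap k P τ * q) (algebraMap k P τ' * r) := by
  obtain ⟨d, ⟨s, hs⟩, sc⟩ := h
  have hτ' : algebraMap k P τ * algebraMap k P τ' = 1 := by rw [← map_mul, hτ, map_one]
  refine ⟨?_, ⟨s, hs⟩, ?_⟩
  · linear_combination d - (x * q * r) * hτ'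
  · intro σ σ' hσ
    have := sc (σ * τ) (σ' * τ') (by rw [mul_mul_mul_comm, hσ, hτ, one_mul])
    rw [map_mul, map_mul, mul_assoc, mul_assoc] at this
    exact this

theorem swap (hq : QPair x N N') (h : Rq k x N N' S p q r) :
    Rq k x N' N S p (-r) (-q) := by
  have hi := h.inv hq
  obtain ⟨d, ⟨s, hs⟩, sc⟩ := h
  refine ⟨?_, ⟨s, hs⟩, ?_⟩
  · linear_combination d
  · intro σ σ' hσ
    have := hi.2.2 σ' σ (by rw [mul_comm]; exact hσ)
    rw [el_swap hq, HH_swap] at this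
    convert this using 1
    apply el_ext <;> ring

end Rq

theorem exists_Rq {x : P} {N N' : C} (hq : QPair x N N') : ∀ u ∈ HH (P := P) k N N',
    ∃ S p q r : P, (u : C) = el N N' S p q r ∧ Rq k x N N' S p q r := by
  intro u hu
  unfold HH at hu
  induction hu using Subgroup.closure_induction with
  | mem u hu =>
    obtain ⟨c, hu | hu⟩ := hu
    · refine ⟨1, 0, algebraMap k P c, 0, ?_, ?_, ⟨0, by ring⟩, ?_⟩
      · rw [hu]; simp only [el]; module
      · ring
      · intro σ σ' _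
        rw [← map_mul, mul_zero]
        exact in_HH_a hq _
    · refine ⟨1, 0, 0, algebraMap k P c, ?_, ?_, ⟨0, by ring⟩, ?_⟩
      · rw [hu]; simp only [el]; module
      · ring
      · intro σ σ' _
        rw [← map_mul, mul_zero]
        exact in_HH_b hq _
  | one =>
    refine ⟨1, 0, 0, 0, ?_, ?_, ⟨0, by ring⟩, ?_⟩
    · rw [Units.val_one]; exact one_el N N'
    · ring
    · intro σ σ' _
      rw [mul_zero, mul_zero, ← one_el]
      exact In.one _
  | mul u v _ _ hu hv =>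
    obtain ⟨S, p, q, r, e, h⟩ := hu
    obtain ⟨S', p', q', r', e', h'⟩ := hv
    exact ⟨_, _, _, _, by rw [Units.val_mul, e, e', hq.el_mul], h.mul hq h'⟩
  | inv u _ hu =>
    obtain ⟨S, p, q, r, e, h⟩ := hu
    refine ⟨_, _, _, _, ?_, h.inv hq⟩
    have := (hq.el_inv h.1).1
    rw [← e] at this
    calc ((u⁻¹ : Cˣ) : C) = (u⁻¹ : Cˣ) * ((u : C) * el N N' (S + x * p) (-p) (-q) (-r)) := by
          rw [this, mul_one]
      _ = _ := by rw [← mul_assoc, Units.inv_mul, one_mul]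

theorem conj_mem_smul' {G : Type*} [Group G] {p : ℕ} (g y : G) (Q : Sylow p G) (hy : y ∈ Q) :
    g * y * g⁻¹ ∈ g • Q := by
  have : g * y * g⁻¹ ∈ g • Q ↔ g * y * g⁻¹ ∈ ((g • Q : Sylow p G) : Subgroup G) := Iff.rfl
  rw [this, Sylow.coe_subgroup_smul, Subgroup.mem_pointwise_smul_iff_inv_smul_mem]
  simp only [MulAut.smul_def, MulAut.inv_apply, MulAut.conj_symm_apply]
  have e : g⁻¹ * (g * y * g⁻¹) * g = y := by group
  rw [e]; exact hy

theorem isPGroup_zpowers' {G : Type*} [Group G] {p : ℕ} {a : G} (ha : a ^ p = 1) :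
    IsPGroup p (Subgroup.zpowers a) := by
  rintro ⟨g, hg⟩
  obtain ⟨j, rfl⟩ := Subgroup.mem_zpowers_iff.1 hg
  refine ⟨1, Subtype.ext ?_⟩
  simp only [pow_one, Subgroup.coe_pow, Subgroup.coe_one]
  rw [← zpow_natCast, ← zpow_mul, mul_comm, zpow_mul, zpow_natCast, ha, one_zpow]

theorem exists_conj_pow {G : Type*} [Group G] [Finite G] {p : ℕ} [Fact p.Prime] (a b : G) (ha : a ^ p = 1)
    (hb : b ^ p = 1) : ∃ g : G, ∃ m : ℕ, (g * a * g⁻¹ * b) ^ (p ^ m) = 1 := by
  obtain ⟨Q₁, h₁⟩ := (isPGroup_zpowers' ha).exists_le_sylow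
  obtain ⟨Q₂, h₂⟩ := (isPGroup_zpowers' hb).exists_le_sylow
  obtain ⟨g, hg⟩ := MulAction.exists_smul_eq G Q₁ Q₂
  have h3 := conj_mem_smul' g a Q₁ (h₁ (Subgroup.mem_zpowers a))
  rw [hg] at h3
  have h4 : g * a * g⁻¹ * b ∈ Q₂ := Q₂.mul_mem h3 (h₂ (Subgroup.mem_zpowers b))
  obtain ⟨m, hm⟩ := Q₂.2 ⟨_, h4⟩
  exact ⟨g, m, by simpa using congrArg Subtype.val hm⟩

theorem nilp_of_pow {p : ℕ} [Fact p.Prime] [CharP C p] {Y Y' : C} (h1 : Y * Y' = 1) (h2 : Y' * Y = 1) {m : ℕ}
    (hm : Y ^ (p ^ m) = 1) : (Y + Y' - 1 - 1) ^ (p ^ m) = 0 := by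
  have e : Y + Y' - 1 - 1 = Y' * (Y - 1) ^ 2 := by
    have : Y' * (Y - 1) ^ 2 = Y' * Y * Y - (Y' * Y) - (Y' * Y) + Y' := by noncomm_ring
    rw [this, h2]; noncomm_ring
  have hc : Commute Y' ((Y - 1) ^ 2) := by
    apply Commute.pow_right
    apply Commute.sub_right _ (Commute.one_right _)
    exact h2.trans h1.symm
  have h0 : (Y - 1) ^ (p ^ m) = 0 := by
    rw [sub_pow_char_pow_of_commute p m (Commute.one_right Y), hm, one_pow, sub_self]
  rw [e, hc.mul_pow, ← pow_mul, mul_comm 2, pow_mul, h0]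
  simp

theorem el_a_pow {x : P} {N N' : C} (hq : QPair x N N') (t : P) (j : ℕ) :
    (el N N' 1 0 t 0) ^ j = el N N' 1 0 (j * t) 0 := by
  induction j with
  | zero => rw [pow_zero, Nat.cast_zero, zero_mul]; exact one_el N N'
  | succ j ih =>
    rw [pow_succ, ih, hq.el_mul]
    apply el_ext
    · ring
    · ring
    · push_cast; ring
    · ring

theorem el_b_pow {x : P} {N N' : C} (hq : QPair x N N') (t : P) (j : ℕ) :
    (el N N' 1 0 0 t) ^ j = el N N' 1 0 0 (j * t) := by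
  induction j with
  | zero => rw [pow_zero, Nat.cast_zero, zero_mul]; exact one_el N N'
  | succ j ih =>
    rw [pow_succ, ih, hq.el_mul]
    apply el_ext
    · ring
    · ring
    · ring
    · push_cast; ring

theorem sylow_step [Finite C] {p : ℕ} [Fact p.Prime] (hp : (p : k) = 0) {x : P} {N N' : C}
    (hq : QPair x N N') :
    ∃ S p₁ q r : P, Rq k x N N' S p₁ q r ∧ ∃ m : ℕ, ((S + x * p₁) ^ 2 * x) ^ m • (1 : C) = 0 := by
  rcases subsingleton_or_nontrivial C with hsub | hnt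
  · obtain ⟨S, p₁, q, r, -, h⟩ := exists_Rq (k := k) hq 1 (Subgroup.one_mem _)
    exact ⟨S, p₁, q, r, h, 0, Subsingleton.elim _ _⟩
  have hpP : (p : P) = 0 := by
    have := congrArg (algebraMap k P) hp
    simpa using this
  have hpC : (p : C) = 0 := by
    have := congrArg (algebraMap P C) hpP
    simpa using this
  have : CharP C p := (CharP.charP_iff_prime_eq_zero (Fact.out)).2 hpC
  obtain ⟨ua, hua, ea⟩ := in_HH_a (k := k) hq 1
  obtain ⟨ub, hub, eb⟩ := in_HH_b (k := k) hq 1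
  have hap : (⟨ua, hua⟩ : HH (P := P) k N N') ^ p = 1 := by
    apply Subtype.ext
    apply Units.ext
    simp only [Subgroup.coe_pow, Units.val_pow_eq_pow_val, Subgroup.coe_one, Units.val_one]
    rw [ea, el_a_pow hq, hpP, zero_mul]
    exact (one_el N N').symm
  have hbp : (⟨ub, hub⟩ : HH (P := P) k N N') ^ p = 1 := by
    apply Subtype.ext
    apply Units.ext
    simp only [Subgroup.coe_pow, Units.val_pow_eq_pow_val, Subgroup.coe_one, Units.val_one]
    rw [eb, el_b_pow hq, hpP, zero_mul]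
    exact (one_el N N').symm
  obtain ⟨g, m, hm⟩ := exists_conj_pow _ _ hap hbp
  obtain ⟨S, p₁, q, r, eg, hR⟩ := exists_Rq (k := k) hq g.1 g.2
  refine ⟨S, p₁, q, r, hR, p ^ m, ?_⟩
  obtain ⟨i1, i2⟩ := hq.el_inv hR.1
  have eg' : ((g.1⁻¹ : Cˣ) : C) = el N N' (S + x * p₁) (-p₁) (-q) (-r) := by
    calc ((g.1⁻¹ : Cˣ) : C) = (g.1⁻¹ : Cˣ) * ((g.1 : C) * el N N' (S + x * p₁) (-p₁) (-q) (-r)) := by
          rw [eg, i1, mul_one]
      _ = _ := by rw [← mul_assoc, Units.inv_mul, one_mul]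
  set Ng : C := L N N' ((S + x * p₁) ^ 2) (-(x * r ^ 2)) (-((S + x * p₁) * r)) with hNg
  have hconj : el N N' S p₁ q r * N * el N N' (S + x * p₁) (-p₁) (-q) (-r) = Ng := by
    have := hq.conj_L S p₁ q r 1 0 0
    rw [L_n] at this
    rw [this, hNg]
    congr 1 <;> ring
  have hNg2 : Ng * Ng = 0 := by
    rw [← hconj]
    calc _ = el N N' S p₁ q r * N * (el N N' (S + x * p₁) (-p₁) (-q) (-r) * el N N' S p₁ q r) * N *
            el N N' (S + x * p₁) (-p₁) (-q) (-r) := by simp only [mul_assoc]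
      _ = 0 := by rw [i2, mul_one, mul_assoc (el N N' S p₁ q r), hq.nn, mul_zero, zero_mul]
  have hY : (((g * ⟨ua, hua⟩ * g⁻¹ * ⟨ub, hub⟩ : HH (P := P) k N N') : Cˣ) : C) = (1 + Ng) * (1 + N') := by
    simp only [Subgroup.coe_mul, Units.val_mul, InvMemClass.coe_inv]
    rw [eg, eg', ea, eb, ← hconj]
    have e1 : el N N' 1 0 (algebraMap k P 1) 0 = 1 + N := by simp only [el, map_one]; module
    have e2 : el N N' 1 0 0 (algebraMap k P 1) = 1 + N' := by simp only [el, map_one]; module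
    rw [e1, e2]
    congr 1
    rw [mul_add, add_mul, mul_one, i1]
  have hYm : ((1 + Ng) * (1 + N')) ^ (p ^ m) = 1 := by
    rw [← hY, ← Units.val_pow_eq_pow_val, ← Subgroup.coe_pow, hm]
    simp
  have j1 : (1 + Ng) * (1 + N') * ((1 - N') * (1 - Ng)) = 1 := by
    have : (1 + Ng) * (1 + N') * ((1 - N') * (1 - Ng)) =
        1 - Ng * Ng - (1 + Ng) * (N' * N') * (1 - Ng) := by noncomm_ring
    rw [this, hNg2, hq.nn']; simp
  have j2 : (1 - N') * (1 - Ng) * ((1 + Ng) * (1 + N')) = 1 := by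
    have : (1 - N') * (1 - Ng) * ((1 + Ng) * (1 + N')) =
        1 - N' * N' - (1 - N') * (Ng * Ng) * (1 + N') := by noncomm_ring
    rw [this, hNg2, hq.nn']; simp
  have hn := nilp_of_pow j1 j2 hYm
  have e3 : (1 + Ng) * (1 + N') + (1 - N') * (1 - Ng) - 1 - 1 = ((S + x * p₁) ^ 2 * x) • (1 : C) := by
    have e4 := hq.symm.anti_L (-(x * r ^ 2)) ((S + x * p₁) ^ 2) (-(-((S + x * p₁) * r)))
    rw [← L_swap, ← hNg] at e4
    rw [← e4]; noncomm_ring
  rw [e3, smul_pow, one_pow] at hn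
  exact hn

theorem L_kill {N N' : C} {t : P} (h1 : t • N = 0) (h2 : t • N' = 0) (a b c : P) :
    t • L N N' a b c = 0 := by
  have e : t • L N N' a b c = a • (t • N) + b • (t • N') + c • ((t • N) * N' - N' * (t • N)) := by
    simp only [L, smul_mul_assoc, mul_smul_comm]; module
  rw [e, h1, h2]; simp

theorem conjN' {𝒢 : Subgroup Cˣ} {x : P} {N N' : C} (h : Ctx k 𝒢 x N N') {S p q r : P}
    (hd : (S + x * p) * S - x * q * r = 1) (hg : In 𝒢 (el N N' S p q r)) :
    Ctx k 𝒢 ((S + x * p) ^ 2 * x) (L N N' ((S + x * p) ^ 2) (-(x * r ^ 2)) (-((S + x * p) * r))) N' := by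
  have c := h.conjN hd hg
  refine { nn := c.nn', nn' := h.nn', z := ?_, fam := c.fam', fam' := h.fam', orc := c.orc', orc' := h.orc' }
  have e4 := h.toQPair.symm.anti_L (-(x * r ^ 2)) ((S + x * p) ^ 2) (-(-((S + x * p) * r)))
  rw [← L_swap] at e4
  rw [← e4, add_comm]

theorem comm_fam {𝒢 : Subgroup Cˣ} {y : P} {N B : C} (c1 : Ctx k 𝒢 y N B) (h1 : y • N = 0) (h2 : y • B = 0) :
    Fam (P := P) k 𝒢 (N * B - B * N) := by
  intro c
  set A : C := (algebraMap k P c) • N with hA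
  have hAA : A * A = 0 := by rw [hA, smul_mul_smul_comm, c1.nn, smul_zero]
  have hABA : A * B * A = 0 := by
    rw [hA, smul_mul_assoc, smul_mul_smul_comm, c1.toQPair.t_nn'n, h1, smul_zero]
  have hBAB : B * A * B = 0 := by
    rw [hA, mul_smul_comm, smul_mul_assoc, c1.toQPair.symm.t_nn'n, h2, smul_zero]
  have hc := comm_formula A B hAA c1.nn' hABA hBAB
  have e : A * B - B * A = (algebraMap k P c) • (N * B - B * N) := by
    rw [hA, smul_mul_assoc, mul_smul_comm, ← smul_sub]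
  rw [← e, ← hc]
  have i1 : In 𝒢 (1 + A) := c1.fam c
  have i2 : In 𝒢 (1 + B) := c1.fam'.in
  have i3 : In 𝒢 (1 - A) := i1.inv (by rw [add_mul, mul_sub, mul_sub, hAA]; simp)
  have i4 : In 𝒢 (1 - B) := i2.inv (by rw [add_mul, mul_sub, mul_sub, c1.nn']; simp)
  exact ((i1.mul i2).mul i3).mul i4

theorem brk_L {x : P} {N N' : C} (h : QPair x N N') (a b c : P) :
    N * L N N' a b c - L N N' a b c * N = L N N' (-(2 * c * x)) 0 b := by
  have e1 : ∀ X : C, N * X - X * N = el (P := P) N N' 0 0 1 0 * X - X * el (P := P) N N' 0 0 1 0 := by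
    intro X; rw [← n_el]
  rw [e1, h.L_el, h.L_el, h.el_mul, h.el_mul, el_sub]
  apply el_ext <;> ring

/-- F2 -/
theorem step2 {𝒢 : Subgroup Cˣ} {x : P} {N N' : C} (h : Ctx k 𝒢 x N N') (h2 : (2 : k) ≠ 0) {S p q r : P}
    (hd : (S + x * p) * S - x * q * r = 1) (hg : In 𝒢 (el N N' S p q r)) {m : ℕ}
    (hm : ((S + x * p) ^ 2 * x) ^ m • (1 : C) = 0) :
    ((S + x * p) ^ 2 * x) • N = 0 ∧ ((S + x * p) ^ 2 * x) • N' = 0 := by
  obtain ⟨a1, a2⟩ := (conjN' h hd hg).nil h2 hm
  refine ⟨?_, a2⟩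
  obtain ⟨i1, i2⟩ := h.toQPair.el_inv hd
  rw [← h.conj_eq] at a1
  calc ((S + x * p) ^ 2 * x) • N = ((S + x * p) ^ 2 * x) •
        ((el N N' (S + x * p) (-p) (-q) (-r) * el N N' S p q r) * N *
          (el N N' (S + x * p) (-p) (-q) (-r) * el N N' S p q r)) := by rw [i2, one_mul, mul_one]
    _ = el N N' (S + x * p) (-p) (-q) (-r) * (((S + x * p) ^ 2 * x) •
        (el N N' S p q r * N * el N N' (S + x * p) (-p) (-q) (-r))) * el N N' S p q r := by
      rw [mul_smul_comm, smul_mul_assoc]; simp only [mul_assoc]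
    _ = 0 := by rw [a1, mul_zero, zero_mul]

/-- F3 -/
theorem step3 {𝒢 : Subgroup Cˣ} {x : P} {N N' : C} (h : Ctx k 𝒢 x N N') (h2 : (2 : k) ≠ 0) {S p q r : P}
    (hd : (S + x * p) * S - x * q * r = 1) (hg : In 𝒢 (el N N' S p q r))
    (k1 : (x * r ^ 2) • N = 0) (k2 : (x * r ^ 2) • N' = 0) : ((S + x * p) * r * x) • N = 0 := by
  have c1 := h.conjN hd hg
  have z1 : (-(x * r ^ 2) * x) • N = 0 := by
    have : (-(x * r ^ 2) * x) • N = (-x) • ((x * r ^ 2) • N) := by module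
    rw [this, k1, smul_zero]
  have z1' : (-(x * r ^ 2) * x) • N' = 0 := by
    have : (-(x * r ^ 2) * x) • N' = (-x) • ((x * r ^ 2) • N') := by module
    rw [this, k2, smul_zero]
  have f := comm_fam c1 z1 (L_kill z1 z1' _ _ _)
  rw [brk_L h.toQPair] at f
  have e : L N N' (-(2 * -((S + x * p) * r) * x)) 0 (-(x * r ^ 2)) = (2 * ((S + x * p) * r * x)) • N := by
    have e1 : L N N' (-(2 * -((S + x * p) * r) * x)) 0 (-(x * r ^ 2)) =
        (2 * ((S + x * p) * r * x)) • N - (x * r ^ 2) • L N N' (0 : P) 0 1 := by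
      simp only [L]; module
    rw [e1, L_kill k1 k2, sub_zero]
  rw [e] at f
  have hz : (2 * ((S + x * p) * r * x) * r) • N = 0 := by
    have : (2 * ((S + x * p) * r * x) * r) • N = (2 * (S + x * p)) • ((x * r ^ 2) • N) := by module
    rw [this, k1, smul_zero]
  rcases h.orc _ _ f hz with h3 | h3
  · have h2' : algebraMap k P (2 : k)⁻¹ * 2 = 1 := by
      rw [show (2 : P) = algebraMap k P 2 from (map_ofNat (algebraMap k P) 2).symm, ← map_mul,
        inv_mul_cancel₀ h2, map_one]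
    have : ((S + x * p) * r * x) • N = (algebraMap k P (2 : k)⁻¹) • ((2 * ((S + x * p) * r * x)) • N) := by
      rw [smul_smul, ← mul_assoc, h2', one_mul]
    rw [this, h3, smul_zero]
  · have : ((S + x * p) * r * x) • N = ((S + x * p) * x) • (r • N) := by module
    rw [this, h3, smul_zero]

theorem Rq.yq {x : P} {N N' : C} {S p q r : P} (hq : QPair x N N') (h : Rq k x N N' S p q r) {σ σ' : k}
    (hσ : σ * σ' = 1) :
    Rq k x N N' ((S + x * p) * S - algebraMap k P σ * (x * q * r))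
      (q * r * (algebraMap k P σ - algebraMap k P σ')) ((algebraMap k P σ - 1) * q * S)
      ((algebraMap k P σ' - 1) * (S + x * p) * r) := by
  convert (h.inv hq).mul hq (h.scale hσ) using 1 <;> ring

/-- F4 -/
theorem step4 {𝒢 : Subgroup Cˣ} {x : P} {N N' : C} (h : Ctx k 𝒢 x N N') (h2 : (2 : k) ≠ 0) {S p q r : P}
    (hR : Rq k x N N' S p q r) (k1 : ((S + x * p) ^ 2 * x) • N = 0) (k2 : ((S + x * p) ^ 2 * x) • N' = 0)
    {σ σ' : k} (hσ : σ * σ' = 1) (hσ1 : σ' ≠ 1) : ((S + x * p) * x) • N = 0 := by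
  have hy := hR.yq h.toQPair hσ
  set s := algebraMap k P σ with hs
  set s' := algebraMap k P σ' with hs'
  have hss : s * s' = 1 := by rw [hs, hs', ← map_mul, hσ, map_one]
  have hd := hR.1
  have l1 : (x * ((s' - 1) * (S + x * p) * r) ^ 2) • N = 0 := by
    have : (x * ((s' - 1) * (S + x * p) * r) ^ 2) • N = ((s' - 1) ^ 2 * r ^ 2) • (((S + x * p) ^ 2 * x) • N) := by
      module
    rw [this, k1, smul_zero]
  have l2 : (x * ((s' - 1) * (S + x * p) * r) ^ 2) • N' = 0 := by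
    have : (x * ((s' - 1) * (S + x * p) * r) ^ 2) • N' = ((s' - 1) ^ 2 * r ^ 2) • (((S + x * p) ^ 2 * x) • N') := by
      module
    rw [this, k2, smul_zero]
  have h3 := step3 h h2 hy.1 (hy.mem.mono (HH_le h)) l1 l2
  set I := Ideal.torsionOf P C N with hI
  have mem : ∀ a : P, a ∈ I ↔ a • N = 0 := fun a => Ideal.mem_torsionOf_iff _ _
  set c₁ := algebraMap k P (σ' - 1)⁻¹ with hc₁
  have hc : c₁ * (s' - 1) = 1 := by
    rw [hc₁, hs', ← map_one (algebraMap k P), ← map_sub, ← map_mul,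
      inv_mul_cancel₀ (sub_ne_zero.2 hσ1)]
  set Pp := S + x * p with hPp
  set μ := Pp * S - s * (x * q * r) + x * (q * r * (s - s')) with hμ
  have b1 : Pp ^ 2 * x ∈ I := (mem _).2 k1
  have b3 : μ * ((s' - 1) * Pp * r) * x ∈ I := (mem _).2 h3
  have a1 : (1 + x * q * r) * (Pp * x) ∈ I := by
    have : (1 + x * q * r) * (Pp * x) = S * (Pp ^ 2 * x) := by linear_combination (-(Pp * x)) * hd
    rw [this]; exact I.mul_mem_left _ b1
  have a2 : μ * r * (Pp * x) ∈ I := by
    have : μ * r * (Pp * x) = c₁ * (μ * ((s' - 1) * Pp * r) * x) := by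
      linear_combination (-(μ * r * (Pp * x))) * hc
    rw [this]; exact I.mul_mem_left _ b3
  have a3 : μ * (x * q * r) * (Pp * x) ∈ I := by
    have : μ * (x * q * r) * (Pp * x) = (x * q) * (μ * r * (Pp * x)) := by ring
    rw [this]; exact I.mul_mem_left _ a2
  have a5 : μ * (Pp * x) ∈ I := by
    have : μ * (Pp * x) = μ * ((1 + x * q * r) * (Pp * x)) - μ * (x * q * r) * (Pp * x) := by ring
    rw [this]; exact I.sub_mem (I.mul_mem_left _ a1) a3
  have a6 : s' * (Pp * x) ∈ I := by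
    have : s' * (Pp * x) = μ * (Pp * x) - (1 - s') * ((1 + x * q * r) * (Pp * x)) := by
      rw [hμ]; linear_combination (-(Pp * x)) * hd
    rw [this]; exact I.sub_mem a5 (I.mul_mem_left _ a1)
  have a7 : Pp * x ∈ I := by
    have : Pp * x = s * (s' * (Pp * x)) := by linear_combination (-(Pp * x)) * hss
    rw [this]; exact I.mul_mem_left _ a6
  exact (mem _).1 a7

/-- F5 -/
theorem step5 {𝒢 : Subgroup Cˣ} {x : P} {N N' : C} (h : Ctx k 𝒢 x N N') {S p q r : P}
    (hR : Rq k x N N' S p q r) (k1 : ((S + x * p) * x) • N = 0) (k2 : ((S + x * p) * x) • N' = 0)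
    {σ σ' : k} (hσ : σ * σ' = 1) (hσ1 : σ' ^ 2 ≠ 1) : x • N = 0 ∨ ∃ ω₁ : P, (ω₁ * x) • N = N := by
  have hy := hR.yq h.toQPair hσ
  set s := algebraMap k P σ with hs
  set s' := algebraMap k P σ' with hs'
  have hd := hR.1
  set Pp := S + x * p with hPp
  set Sy := Pp * S - s * (x * q * r) with hSy
  set py := q * r * (s - s') with hpy
  set qy := (s - 1) * q * S with hqy
  set ry := (s' - 1) * Pp * r with hry
  set μ := Sy + x * py with hμ
  have hμ1 : μ = 1 + x * (q * r * (1 - s')) := by rw [hμ, hSy, hpy]; linear_combination hd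
  have hμ2 : μ - s' = (1 - s') * (Pp * S) := by rw [hμ, hSy, hpy]; linear_combination s' * hd
  obtain ⟨i1, i2⟩ := h.toQPair.el_inv hy.1
  have hYin : In 𝒢 (el N N' Sy py qy ry) := hy.mem.mono (HH_le h)
  set Y := el N N' Sy py qy ry with hY
  set Y' := el N N' (Sy + x * py) (-py) (-qy) (-ry) with hY'
  have xr1 : (x * ry) • N = 0 := by
    have : (x * ry) • N = ((s' - 1) * r) • ((Pp * x) • N) := by rw [hry]; module
    rw [this, k1, smul_zero]
  have xr2 : (x * ry) • N' = 0 := by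
    have : (x * ry) • N' = ((s' - 1) * r) • ((Pp * x) • N') := by rw [hry]; module
    rw [this, k2, smul_zero]
  set E : C := ry • (N * N' - N' * N) with hE
  have xE : x • E = 0 := by
    have : x • E = ((x * ry) • N) * N' - N' * ((x * ry) • N) := by
      rw [hE, smul_mul_assoc, mul_smul_comm]; module
    rw [this, xr1]; simp
  have μE : μ • E = E := by
    rw [hμ1, add_smul, one_smul, mul_comm x, mul_smul, xE, smul_zero, add_zero]
  have EN : E * N = 0 := by
    have : E * N = (x * ry) • N := by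
      rw [hE, smul_mul_assoc, sub_mul, h.toQPair.t_nn'n, mul_assoc, h.nn, mul_zero, sub_zero, smul_smul, mul_comm]
    rw [this, xr1]
  have NE : N * E = 0 := by
    have : N * E = -((x * ry) • N) := by
      rw [hE, mul_smul_comm, mul_sub, h.toQPair.t_nnn', ← mul_assoc, h.toQPair.t_nn'n, zero_sub, smul_neg,
        smul_smul, mul_comm]
    rw [this, xr1, neg_zero]
  have EN' : E * N' = 0 := by
    have : E * N' = -((x * ry) • N') := by
      rw [hE, smul_mul_assoc, sub_mul, h.toQPair.t_nn'n', h.toQPair.symm.t_nn'n, zero_sub, smul_neg,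
        smul_smul, mul_comm]
    rw [this, xr2, neg_zero]
  have N'E : N' * E = 0 := by
    have : N' * E = (x * ry) • N' := by
      rw [hE, mul_smul_comm, mul_sub, h.toQPair.t_n'nn', ← mul_assoc, h.nn', zero_mul, sub_zero, smul_smul,
        mul_comm]
    rw [this, xr2]
  have EE : E * E = 0 := by
    have : E * E = ry • (E * N * N' - E * N' * N) := by
      conv_lhs => rw [hE, mul_smul_comm, ← hE, mul_sub, ← mul_assoc, ← mul_assoc]
    rw [this, EN, EN']; simp
  have EY : E * Y = Y * E := by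
    have a1 : E * Y = Sy • E := by
      rw [hY]
      simp only [el, mul_add, mul_smul_comm, mul_one, ← mul_assoc, EN, EN', zero_mul, smul_zero, add_zero]
    have a2 : Y * E = Sy • E := by
      rw [hY]
      simp only [el, add_mul, smul_mul_assoc, one_mul, mul_assoc, NE, N'E, mul_zero, smul_zero, add_zero]
    rw [a1, a2]
  have c1 : Y * N * Y' = μ ^ 2 • N - E := by
    rw [hY, hY', h.conj_eq, ← hμ]
    have e1 : L N N' (μ ^ 2) (-(x * ry ^ 2)) (-(μ * ry)) =
        μ ^ 2 • N - ry • ((x * ry) • N') - μ • E := by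
      rw [hE]; simp only [L]; module
    rw [e1, xr2, μE, smul_zero, sub_zero]
  have c2 : Y * E * Y' = E := by rw [← EY, mul_assoc, i1, mul_one]
  have f1 : Fam (P := P) k 𝒢 (μ ^ 2 • N - E) := by
    rw [← c1]; exact h.fam.conj hYin i1
  have c3 : Y * (μ ^ 2 • N - E) * Y' = μ ^ 2 • (μ ^ 2 • N - E) - E := by
    rw [mul_sub, sub_mul, mul_smul_comm, smul_mul_assoc, c1, c2]
  have f2 : Fam (P := P) k 𝒢 (μ ^ 2 • (μ ^ 2 • N - E) - E) := by
    rw [← c3]; exact f1.conj hYin i1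
  have f3 : Fam (P := P) k 𝒢 (((μ ^ 2 - 1) ^ 2) • N) := by
    have g1 := (f2.add (f1.smul (-2)) (by
      simp only [mul_sub, sub_mul, smul_mul_assoc, mul_smul_comm, h.nn, NE, EN, EE, smul_zero, sub_zero])).add
      h.fam (by
      simp only [add_mul, sub_mul, smul_mul_assoc, h.nn, EN, smul_zero, sub_zero, add_zero])
    convert g1 using 1
    have e2 : μ ^ 2 • E = E := by rw [pow_two, mul_smul, μE, μE]
    rw [smul_sub, smul_sub, e2, map_neg, show (algebraMap k P 2) = 2 from map_ofNat _ 2]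
    module
  set cc := algebraMap k P ((σ' ^ 2 - 1) ^ 2) with hcc
  have hcc' : cc = (s' ^ 2 - 1) ^ 2 := by rw [hcc, hs']; simp
  have f4 : Fam (P := P) k 𝒢 (((μ ^ 2 - 1) ^ 2 - cc) • N) := Fam.subN h.nn f3 (h.fam.smul _)
  have hz : (((μ ^ 2 - 1) ^ 2 - cc) * x) • N = 0 := by
    have : ((μ ^ 2 - 1) ^ 2 - cc) * x = ((1 - s') * S * (μ + s') * (μ ^ 2 + s' ^ 2 - 2)) * (Pp * x) := by
      rw [hcc']; linear_combination ((μ + s') * (μ ^ 2 + s' ^ 2 - 2) * x) * hμ2
    rw [this, mul_smul, k1, smul_zero]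
  rcases h.orc _ _ f4 hz with h3 | h3
  · right
    have hne : (σ' ^ 2 - 1) ^ 2 ≠ 0 := pow_ne_zero 2 (sub_ne_zero.2 hσ1)
    set ci := algebraMap k P ((σ' ^ 2 - 1) ^ 2)⁻¹ with hci
    have hcic : ci * cc = 1 := by rw [hci, hcc, ← map_mul, inv_mul_cancel₀ hne, map_one]
    refine ⟨ci * (x * (q * r * (1 - s')) ^ 2 * (μ + 1) ^ 2), ?_⟩
    have e3 : ci * (x * (q * r * (1 - s')) ^ 2 * (μ + 1) ^ 2) * x = ci * ((μ ^ 2 - 1) ^ 2 - cc) + 1 := by
      have : (μ ^ 2 - 1) ^ 2 = (x * (q * r * (1 - s')) ^ 2 * (μ + 1) ^ 2) * x := by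
        have : μ ^ 2 - 1 = x * (q * r * (1 - s')) * (μ + 1) := by linear_combination (μ + 1) * hμ1
        rw [this]; ring
      rw [this]; linear_combination hcic
    rw [e3, add_smul, mul_smul, h3, smul_zero, zero_add, one_smul]
  · exact Or.inl h3

theorem struct [Finite C] {p : ℕ} [Fact p.Prime] (hp : (p : k) = 0) (h2 : (2 : k) ≠ 0) {σ σ' : k}
    (hσ : σ * σ' = 1) (hσ1 : σ' ^ 2 ≠ 1) {𝒢 : Subgroup Cˣ} {x : P} {N N' : C} (h : Ctx k 𝒢 x N N')
    (hx : x • N ≠ 0) :
    ∃ ω S p₁ q r : P, Rq k x N N' S p₁ q r ∧ (ω * x) • N = N ∧ (ω * x) • N' = N' ∧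
      (S + x * p₁) • N = 0 ∧ (S + x * p₁) • N' = 0 := by
  obtain ⟨S, p₁, q, r, hR, m, hm⟩ := sylow_step (k := k) hp h.toQPair
  obtain ⟨k1, k2⟩ := step2 h h2 hR.1 (hR.mem.mono (HH_le h)) hm
  have hσ2 : σ' ≠ 1 := by rintro rfl; exact hσ1 (one_pow 2)
  have l1 := step4 h h2 hR k1 k2 hσ hσ2
  have l2 := step4 h.symm h2 (hR.swap h.toQPair) k2 k1 hσ hσ2
  rcases step5 h hR l1 l2 hσ hσ1 with h3 | ⟨ω₁, h3⟩
  · exact absurd h3 hx
  rcases step5 h.symm (hR.swap h.toQPair) l2 l1 hσ hσ1 with h4 | ⟨ω₂, h4⟩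
  · exfalso
    apply hx
    refine (h.nil h2 (n := 2) ?_).1
    have : x ^ 2 • (1 : C) = N * (x • N') + (x • N') * N := by
      rw [pow_two, mul_smul, ← h.z, mul_smul_comm, smul_mul_assoc, smul_add]
    rw [this, h4]; simp
  have e1 : ((ω₁ + ω₂ - ω₁ * ω₂ * x) * x) • N = N := by
    have : ((ω₁ + ω₂ - ω₁ * ω₂ * x) * x) • N = (ω₁ * x) • N + (ω₂ * x) • N - (ω₂ * x) • ((ω₁ * x) • N) := by
      module
    rw [this, h3]; abel
  have e2 : ((ω₁ + ω₂ - ω₁ * ω₂ * x) * x) • N' = N' := by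
    have : ((ω₁ + ω₂ - ω₁ * ω₂ * x) * x) • N' = (ω₁ * x) • N' + (ω₂ * x) • N' - (ω₁ * x) • ((ω₂ * x) • N') := by
      module
    rw [this, h4]; abel
  refine ⟨ω₁ + ω₂ - ω₁ * ω₂ * x, S, p₁, q, r, hR, e1, e2, ?_, ?_⟩
  · have : (S + x * p₁) • N = (ω₁ + ω₂ - ω₁ * ω₂ * x) • (((S + x * p₁) * x) • N) := by
      conv_lhs => rw [← e1]
      module
    rw [this, l1, smul_zero]
  · have : (S + x * p₁) • N' = (ω₁ + ω₂ - ω₁ * ω₂ * x) • (((S + x * p₁) * x) • N') := by
      conv_lhs => rw [← e2]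
      module
    rw [this, l2, smul_zero]

theorem one_add_mul_one_sub {N : C} (hN : N * N = 0) (t : P) : (1 + t • N) * (1 - t • N) = 1 := by
  rw [add_mul, mul_sub, mul_sub, smul_mul_smul_comm, hN]; simp

/-- the torus element. -/
def tor (ω : P) (N N' : C) (a b : P) : C := 1 + ((a - 1) * ω) • (N * N') + ((b - 1) * ω) • (N' * N)

theorem tor_mul {x ω : P} {N N' : C} (h : QPair x N N') (e1 : (ω * x) • N = N) (e2 : (ω * x) • N' = N')
    (a b a' b' : P) : tor ω N N' a b * tor ω N N' a' b' = tor ω N N' (a * a') (b * b') := by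
  have t1 : (N * N') * (N * N') = x • (N * N') := h.t_ee
  have t2 : (N' * N) * (N' * N) = x • (N' * N) := h.symm.t_ee
  have t3 : (N * N') * (N' * N) = 0 := by rw [mul_assoc, ← mul_assoc N', h.nn', zero_mul, mul_zero]
  have t4 : (N' * N) * (N * N') = 0 := by rw [mul_assoc, ← mul_assoc N, h.nn, zero_mul, mul_zero]
  have u1 : (ω * x) • (N * N') = N * N' := by rw [← smul_mul_assoc, e1]
  have u2 : (ω * x) • (N' * N) = N' * N := by rw [← smul_mul_assoc, e2]
  simp only [tor, add_mul, mul_add, one_mul, mul_one, smul_mul_smul_comm, t1, t2, t3, t4, smul_zero, add_zero]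
  have v1 : ((a - 1) * ω * ((a' - 1) * ω)) • x • (N * N') = ((a - 1) * (a' - 1) * ω) • ((ω * x) • (N * N')) := by
    module
  have v2 : ((b - 1) * ω * ((b' - 1) * ω)) • x • (N' * N) = ((b - 1) * (b' - 1) * ω) • ((ω * x) • (N' * N)) := by
    module
  rw [v1, v2, u1, u2]
  module

theorem tor_one (ω : P) (N N' : C) : tor ω N N' 1 1 = 1 := by
  simp [tor]

theorem tor_N {x ω : P} {N N' : C} (h : QPair x N N') (e1 : (ω * x) • N = N) (a b : P) :
    tor ω N N' a b * N = a • N := by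
  simp only [tor, add_mul, one_mul, smul_mul_assoc, h.t_nn'n, mul_assoc, h.nn, mul_zero, smul_zero, add_zero]
  have : ((a - 1) * ω) • x • N = (a - 1) • ((ω * x) • N) := by module
  rw [this, e1]; module

theorem N_tor {x ω : P} {N N' : C} (h : QPair x N N') (e1 : (ω * x) • N = N) (a b : P) :
    N * tor ω N N' a b = b • N := by
  simp only [tor, mul_add, mul_one, mul_smul_comm, h.t_nnn', ← mul_assoc, h.t_nn'n, smul_zero, add_zero]
  have : ((b - 1) * ω) • x • N = (b - 1) • ((ω * x) • N) := by module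
  rw [this, e1]; module

theorem torus_mem (h2 : (2 : k) ≠ 0) {x ω : P} {N N' : C} (h : QPair x N N') {S p q r : P}
    (hR : Rq k x N N' S p q r) (e1 : (ω * x) • N = N)
    (z1 : (S + x * p) • N = 0) (z2 : (S + x * p) • N' = 0) {σ σ' : k} (hσ : σ * σ' = 1) :
    In (HH (P := P) k N N') (tor ω N N' (algebraMap k P σ') (algebraMap k P σ)) := by
  have hy := hR.yq h hσ
  have hd := hR.1
  set s := algebraMap k P σ with hs
  set s' := algebraMap k P σ' with hs'
  set Pp := S + x * p with hPp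
  set Sy := Pp * S - s * (x * q * r) with hSy
  set py := q * r * (s - s') with hpy
  set qy := (s - 1) * q * S with hqy
  set ry := (s' - 1) * Pp * r with hry
  have r1 : ry • N = 0 := by
    have : ry • N = ((s' - 1) * r) • (Pp • N) := by rw [hry]; module
    rw [this, z1, smul_zero]
  have r2 : ry • N' = 0 := by
    have : ry • N' = ((s' - 1) * r) • (Pp • N') := by rw [hry]; module
    rw [this, z2, smul_zero]
  have r3 : ry • (N * N') = 0 := by rw [← smul_mul_assoc, r1, zero_mul]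
  have r4 : ry • (N' * N) = 0 := by rw [← smul_mul_assoc, r2, zero_mul]
  have r5 : (x * ry) • (1 : C) = 0 := by
    rw [mul_comm, mul_smul, ← h.z, smul_add, r3, r4, add_zero]
  have hz := (hy.yq h (σ := 2) (σ' := 2⁻¹) (mul_inv_cancel₀ h2)).mem
  have hdy := hy.1
  have hb : In (HH (P := P) k N N') (1 + (qy * Sy) • N) := by
    convert hz using 1
    rw [show algebraMap k P 2 = 2 from map_ofNat _ 2]
    simp only [el]
    have w1 : ((Sy + x * py) * Sy - 2 * (x * qy * ry)) • (1 : C) = 1 - qy • ((x * ry) • (1 : C)) := by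
      have : (Sy + x * py) * Sy - 2 * (x * qy * ry) = 1 - qy * (x * ry) := by linear_combination hdy
      rw [this, sub_smul, one_smul, mul_smul]
    have w2 : (qy * ry * (2 - algebraMap k P 2⁻¹)) • (N * N') = (qy * (2 - algebraMap k P 2⁻¹)) • (ry • (N * N')) := by
      module
    have w3 : ((algebraMap k P 2⁻¹ - 1) * (Sy + x * py) * ry) • N' =
        ((algebraMap k P 2⁻¹ - 1) * (Sy + x * py)) • (ry • N') := by module
    rw [w1, w2, w3, r5, r3, r2]
    module
  have hb' : In (HH (P := P) k N N') (1 - (qy * Sy) • N) := hb.inv (one_add_mul_one_sub h.nn _)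
  have := hy.mem.mul hb'
  convert this using 1
  have qr : (q * r) • N = -(ω • N) := by
    have a1 : (x * q * r) • N = -N := by
      have : x * q * r = S * Pp - 1 := by linear_combination (-1 : P) * hd
      rw [this, sub_smul, mul_smul, z1, smul_zero, one_smul, zero_sub]
    have : (q * r) • N = ω • ((x * q * r) • N) := by
      conv_lhs => rw [← e1]
      module
    rw [this, a1, smul_neg]
  have qr1 : (q * r) • (N * N') = -(ω • (N * N')) := by
    rw [← smul_mul_assoc, qr, neg_mul, smul_mul_assoc]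
  have qr2 : (q * r) • (N' * N) = -(ω • (N' * N)) := by
    rw [← mul_smul_comm, qr, mul_neg, mul_smul_comm]
  have y1 : el N N' Sy py qy ry * N = (Sy + x * py) • N := by
    simp only [el, add_mul, smul_mul_assoc, one_mul, h.t_nn'n, h.nn, smul_zero, add_zero, r4]
    module
  rw [mul_sub, mul_one, mul_smul_comm, y1]
  have y2 : (qy * Sy) • (Sy + x * py) • N = qy • N := by
    have : (qy * Sy) • (Sy + x * py) • N = qy • N + (qy ^ 2 * x) • (ry • N) := by
      have e : qy * Sy * (Sy + x * py) = qy + qy ^ 2 * x * ry := by linear_combination qy * hdy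
      rw [smul_smul, e, add_smul, mul_smul (qy ^ 2 * x)]
    rw [this, r1, smul_zero, add_zero]
  rw [y2]
  simp only [el, r2, add_zero, add_sub_cancel_right, tor]
  have y3 : Sy • (1 : C) = 1 + (1 - s) • ((q * r) • (N * N') + (q * r) • (N' * N)) := by
    have : Sy = 1 + (1 - s) * (q * r) * x := by rw [hSy]; linear_combination hd
    rw [this, add_smul, one_smul, mul_smul, ← h.z, mul_smul, smul_add]
  have y4 : py • (N * N') = (s - s') • ((q * r) • (N * N')) := by rw [hpy]; module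
  rw [y3, y4, qr1, qr2]
  module

theorem inv_mem [Finite C] {p : ℕ} [Fact p.Prime] (hp : (p : k) = 0) (h2 : (2 : k) ≠ 0) {σ σ' : k}
    (hσ : σ * σ' = 1) (hσ1 : σ' ^ 2 ≠ 1) {𝒢 : Subgroup Cˣ} {x : P} {N N' : C} (h : Ctx k 𝒢 x N N')
    (hx : x • N ≠ 0) :
    ∃ ω : P, (ω * x) • N = N ∧ (ω * x) • N' = N' ∧ Fam (P := P) k 𝒢 (ω • N) := by
  obtain ⟨ω, S, p₁, q, r, hR, e1, e2, z1, z2⟩ := struct hp h2 hσ hσ1 h hx
  refine ⟨ω, e1, e2, ?_⟩
  have T : ∀ u u' : k, u * u' = 1 → In 𝒢 (tor ω N N' (algebraMap k P u') (algebraMap k P u)) :=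
    fun u u' hu => (torus_mem h2 h.toQPair hR e1 z1 z2 hu).mono (HH_le h)
  have hd : ((1 : P) + x * 0) * 1 - x * 0 * (algebraMap k P 1) = 1 := by ring
  have c1 := h.conjN hd (h.in_b 1)
  simp only [map_one, mul_zero, add_zero, one_pow, mul_one] at c1
  have hxb : (-x * x) • N ≠ 0 := by
    intro h0
    apply hx
    have : N = (-(ω ^ 2)) • ((-x * x) • N) := by
      conv_lhs => rw [← e1, ← e1]
      module
    rw [this, h0, smul_zero, smul_zero]
  obtain ⟨ωb, Sb, pb, qb, rb, hRb, f1, f2, y1, y2⟩ := struct hp h2 hσ hσ1 c1 hxb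
  have Tb : ∀ u u' : k, u * u' = 1 →
      In 𝒢 (tor ωb N (L N N' 1 (-x) (-1)) (algebraMap k P u') (algebraMap k P u)) :=
    fun u u' hu => (torus_mem h2 c1.toQPair hRb f1 y1 y2 hu).mono (HH_le c1)
  have wb : ωb • N = (-(ω ^ 2)) • N := by
    have : ωb • N = (-(ω ^ 2)) • ((ωb * (-x * x)) • N) := by
      conv_lhs => rw [← e1, ← e1]
      module
    rw [this, f1]
  have m1 : N * L N N' 1 (-x) (-1) = x • N - x • (N * N') := by
    have e : ∀ X : C, N * X = el (P := P) N N' 0 0 1 0 * X := by intro X; rw [← n_el]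
    rw [e, h.toQPair.L_el, h.toQPair.el_mul]
    simp only [el]; module
  have m2 : L N N' 1 (-x) (-1) * N = -(x • N) - x • (N' * N) := by
    have e : ∀ X : C, X * N = X * el (P := P) N N' 0 0 1 0 := by intro X; rw [← n_el]
    rw [e, h.toQPair.L_el, h.toQPair.el_mul, h.toQPair.t_n'n]
    simp only [el]; module
  have w2 : (ω ^ 2 * x) • N = ω • N := by
    have : (ω ^ 2 * x) • N = ω • ((ω * x) • N) := by module
    rw [this, e1]
  have w2' : (ω ^ 2 * x) • N' = ω • N' := by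
    have : (ω ^ 2 * x) • N' = ω • ((ω * x) • N') := by module
    rw [this, e2]
  have tb : ∀ a b : P, tor ωb N (L N N' 1 (-x) (-1)) a b = tor ω N N' a b + ((b - a) * ω) • N := by
    intro a b
    have n1 : ωb • (N * L N N' 1 (-x) (-1)) = ω • (N * N') - ω • N := by
      rw [← smul_mul_assoc, wb, smul_mul_assoc, m1]
      have : -ω ^ 2 • (x • N - x • (N * N')) = ((ω ^ 2 * x) • N) * N' - (ω ^ 2 * x) • N := by
        rw [smul_mul_assoc]; module
      rw [this, w2, smul_mul_assoc]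
    have n2 : ωb • (L N N' 1 (-x) (-1) * N) = ω • (N' * N) + ω • N := by
      rw [← mul_smul_comm, wb, mul_smul_comm, m2]
      have : -ω ^ 2 • (-(x • N) - x • (N' * N)) = ((ω ^ 2 * x) • N') * N + (ω ^ 2 * x) • N := by
        rw [smul_mul_assoc]; module
      rw [this, w2, w2', smul_mul_assoc]
    simp only [tor, mul_smul, n1, n2]
    module
  have U : ∀ u u' : k, u * u' = 1 → In 𝒢 (1 + ((algebraMap k P u ^ 2 - 1) * ω) • N) := by
    intro u u' hu
    have hu' : algebraMap k P u * algebraMap k P u' = 1 := by rw [← map_mul, hu, map_one]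
    have := (T u' u (by rw [mul_comm]; exact hu)).mul (Tb u u' hu)
    rw [tb, mul_add, tor_mul h.toQPair e1 e2, mul_smul_comm, tor_N h.toQPair e1, hu', mul_comm (algebraMap k P u'),
      hu', tor_one] at this
    convert this using 2
    rw [smul_smul]
    congr 1
    linear_combination ω * hu'
  have V : ∀ (a : P) (v : k), In 𝒢 (1 + a • N) → In 𝒢 (1 + (algebraMap k P v ^ 2 * a) • N) := by
    intro a v ha
    rcases eq_or_ne v 0 with rfl | hv
    · simp only [map_zero, ne_eq, OfNat.ofNat_ne_zero, not_false_eq_true, zero_pow, zero_mul, zero_smul, add_zero]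
      exact In.one _
    · have hv' : v⁻¹ * v = 1 := inv_mul_cancel₀ hv
      have hv'' : algebraMap k P v * algebraMap k P v⁻¹ = 1 := by rw [← map_mul, mul_inv_cancel₀ hv, map_one]
      have := ((T v⁻¹ v hv').mul ha).mul (T v v⁻¹ (mul_inv_cancel₀ hv))
      convert this using 1
      rw [mul_add, add_mul, mul_one, tor_mul h.toQPair e1 e2, hv'', mul_comm (algebraMap k P v⁻¹), hv'', tor_one,
        mul_smul_comm, smul_mul_assoc, tor_N h.toQPair e1, smul_mul_assoc, N_tor h.toQPair e1]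
      congr 1
      module
  have hc0 : σ' ^ 2 - 1 ≠ 0 := sub_ne_zero.2 hσ1
  have U0 := U σ' σ (by rw [mul_comm]; exact hσ)
  intro c
  set d := c / (σ' ^ 2 - 1) with hd'
  have A1 := V _ ((d + 1) / 2) U0
  have A2 := (V _ ((d - 1) / 2) U0).inv (one_add_mul_one_sub h.nn _)
  have := A1.mul A2
  convert this using 1
  rw [add_mul, mul_sub, mul_sub, smul_mul_smul_comm, h.nn, smul_zero, one_mul, mul_one, one_mul, sub_zero,
    smul_smul]
  have key : algebraMap k P c = (algebraMap k P ((d + 1) / 2) ^ 2 - algebraMap k P ((d - 1) / 2) ^ 2) *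
      (algebraMap k P σ' ^ 2 - 1) := by
    rw [← map_pow, ← map_pow, ← map_pow, ← map_sub, ← map_one (algebraMap k P), ← map_sub, ← map_mul]
    congr 1
    rw [hd']
    field_simp
    ring
  rw [key]
  module

theorem scaleR {𝒢 : Subgroup Cˣ} {x : P} {N N' : C} (h : Ctx k 𝒢 x N N') {ρ : P}
    (hρ : Fam (P := P) k 𝒢 (ρ • N')) : Ctx k 𝒢 (ρ * x) N (ρ • N') := by
  refine { nn := h.nn, nn' := ?_, z := ?_, fam := h.fam, fam' := hρ, orc := h.orc, orc' := ?_ }
  · rw [smul_mul_smul_comm, h.nn', smul_zero]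
  · rw [mul_smul_comm, smul_mul_assoc, ← smul_add, h.z, mul_smul]
  · intro ω y hf hz
    rw [smul_smul] at hf hz
    rcases h.orc' (ω * ρ) y hf (by rw [← hz]; congr 1; ring) with h3 | h3
    · left; rw [smul_smul]; exact h3
    · right; rw [smul_comm, h3, smul_zero]

theorem scaleL {𝒢 : Subgroup Cˣ} {x : P} {N N' : C} (h : Ctx k 𝒢 x N N') {ρ : P}
    (hρ : Fam (P := P) k 𝒢 (ρ • N)) : Ctx k 𝒢 (ρ * x) (ρ • N) N' := (scaleR h.symm hρ).symm

theorem ann_transfer {x ω : P} {N N' : C} (h : QPair x N N') (e1 : (ω * x) • N = N) {y : P} (hy : y • N' = 0) :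
    y • N = 0 := by
  have : y • N = ω • (N * (y • N') * N) := by
    rw [mul_smul_comm, smul_mul_assoc, h.t_nn'n]
    conv_lhs => rw [← e1]
    module
  rw [this, hy]; simp

theorem inv_both [Finite C] {p : ℕ} [Fact p.Prime] (hp : (p : k) = 0) (h2 : (2 : k) ≠ 0) {σ σ' : k}
    (hσ : σ * σ' = 1) (hσ1 : σ' ^ 2 ≠ 1) {𝒢 : Subgroup Cˣ} {x : P} {N N' : C} (h : Ctx k 𝒢 x N N')
    (hx : x • N ≠ 0) :
    ∃ ω : P, (ω * x) • N = N ∧ (ω * x) • N' = N' ∧ Fam (P := P) k 𝒢 (ω • N) ∧ Fam (P := P) k 𝒢 (ω • N') := by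
  obtain ⟨ω, e1, e2, f⟩ := inv_mem hp h2 hσ hσ1 h hx
  have hx' : x • N' ≠ 0 := fun h0 => hx (ann_transfer h.toQPair e1 h0)
  obtain ⟨ω', e1', e2', f'⟩ := inv_mem hp h2 hσ hσ1 h.symm hx'
  refine ⟨ω, e1, e2, f, ?_⟩
  have : ω • N' = ω' • N' := by
    have a1 : ω • N' = ω' • ((ω * x) • N') := by
      conv_lhs => rw [← e1']
      module
    rw [a1, e2]
  rw [this]; exact f'

theorem ne_of_orc {𝒢 : Subgroup Cˣ} {N : C} (ho : Orc (P := P) k 𝒢 N) {a y : P}
    (ha : Fam (P := P) k 𝒢 (a • N)) (h1 : a • N ≠ 0) (h2 : y • N ≠ 0) : (a * y) • N ≠ 0 := by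
  intro h0
  rcases ho a y ha h0 with h3 | h3
  · exact h1 h3
  · exact h2 h3

theorem hua [Finite C] {p : ℕ} [Fact p.Prime] (hp : (p : k) = 0) (h2 : (2 : k) ≠ 0) {σ σ' : k}
    (hσ : σ * σ' = 1) (hσ1 : σ' ^ 2 ≠ 1) {𝒢 : Subgroup Cˣ} {x : P} {N N' : C} (h : Ctx k 𝒢 x N N')
    (hx : x • N ≠ 0) {a : P} (ha : Fam (P := P) k 𝒢 (a • N)) : Fam (P := P) k 𝒢 ((a ^ 2 * x) • N) := by
  obtain ⟨ω, e1, e2, f, f'⟩ := inv_both hp h2 hσ hσ1 h hx
  by_cases ha0 : a • N = 0
  · have : (a ^ 2 * x) • N = (a * x) • (a • N) := by module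
    rw [this, ha0, smul_zero]; exact Fam.zero _
  have fu : Fam (P := P) k 𝒢 ((ω - a) • N) := Fam.subN h.nn f ha
  by_cases hu0 : (ω - a) • N = 0
  · have e : a • N = ω • N := by
      rw [sub_smul, sub_eq_zero] at hu0; exact hu0.symm
    have : (a ^ 2 * x) • N = a • N := by
      have : (a ^ 2 * x) • N = (a * x) • (a • N) := by module
      rw [this, e]
      have : (a * x) • ω • N = a • ((ω * x) • N) := by module
      rw [this, e1]
      exact e
    rw [this]; exact ha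
  set u := ω - a with hu
  -- inverse of `u x` and of `a x` in `B`
  have cu := scaleL h fu
  have cu0 : (u * x) • (u • N) ≠ 0 := by
    rw [smul_smul, mul_comm]
    exact ne_of_orc h.orc fu hu0 (ne_of_orc h.orc fu hu0 hx)
  obtain ⟨ωu, -, u2, -, fu'⟩ := inv_both hp h2 hσ hσ1 cu cu0
  have ca := scaleL h ha
  have ca0 : (a * x) • (a • N) ≠ 0 := by
    rw [smul_smul, mul_comm]
    exact ne_of_orc h.orc ha ha0 (ne_of_orc h.orc ha ha0 hx)
  obtain ⟨ωa, -, a2, -, fa'⟩ := inv_both hp h2 hσ hσ1 ca ca0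
  have u3 : (ωu * (u * x)) • N = N := by
    have : (ωu * (u * x) - 1) • N = 0 := ann_transfer h.toQPair e1 (by rw [sub_smul, u2, one_smul, sub_self])
    rw [sub_smul, one_smul, sub_eq_zero] at this; exact this
  have a3 : (ωa * (a * x)) • N = N := by
    have : (ωa * (a * x) - 1) • N = 0 := ann_transfer h.toQPair e1 (by rw [sub_smul, a2, one_smul, sub_self])
    rw [sub_smul, one_smul, sub_eq_zero] at this; exact this
  have fv : Fam (P := P) k 𝒢 ((ωa + ωu) • N') := Fam.addN h.nn' fa' fu'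
  have cv := scaleR h fv
  have key : ((ωa + ωu) * x * (a * u * x)) • N = N := by
    have : ((ωa + ωu) * x * (a * u * x)) • N = (u * x) • ((ωa * (a * x)) • N) + (a * x) • ((ωu * (u * x)) • N) := by
      module
    rw [this, a3, u3, ← add_smul]
    have : u * x + a * x = ω * x := by rw [hu]; ring
    rw [this, e1]
  have cv0 : ((ωa + ωu) * x) • N ≠ 0 := by
    intro h0
    apply hx
    have : N = (a * u * x) • (((ωa + ωu) * x) • N) := by
      conv_lhs => rw [← key]
      module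
    rw [this, h0, smul_zero, smul_zero]
  obtain ⟨ωv, v1, -, fv'⟩ := inv_mem hp h2 hσ hσ1 cv cv0
  have e3 : ωv • N = (a * u * x) • N := by
    have : ωv • N = (a * u * x) • ((ωv * ((ωa + ωu) * x)) • N) := by
      conv_lhs => rw [← key]
      module
    rw [this, v1]
  have e4 : (a ^ 2 * x) • N = (a - ωv) • N := by
    rw [sub_smul, e3, hu]
    have : (a * (ω - a) * x) • N = a • ((ω * x) • N) - (a ^ 2 * x) • N := by module
    rw [this, e1]; abel
  rw [e4]
  exact Fam.subN h.nn ha fv'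

theorem kl_fin [Finite C] {p : ℕ} [Fact p.Prime] (hp : (p : k) = 0) (h2 : (2 : k) ≠ 0) {σ σ' : k}
    (hσ : σ * σ' = 1) (hσ1 : σ' ^ 2 ≠ 1) {𝒢 : Subgroup Cˣ} {x : P} {N N' : C} (h : Ctx k 𝒢 x N N')
    {a : P} (ha : Fam (P := P) k 𝒢 (a • N)) : Fam (P := P) k 𝒢 ((x * a) • N) := by
  by_cases hx : x • N = 0
  · rw [mul_comm, mul_smul, hx, smul_zero]; exact Fam.zero _
  have hone : Fam (P := P) k 𝒢 ((1 : P) • N) := by rw [one_smul]; exact h.fam
  have g1 := hua hp h2 hσ hσ1 h hx (Fam.addN h.nn ha hone)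
  have g2 := hua hp h2 hσ hσ1 h hx ha
  have g3 := hua hp h2 hσ hσ1 h hx hone
  have g4 := (Fam.subN h.nn (Fam.subN h.nn g1 g2) g3).smulN (2 : k)⁻¹
  convert g4 using 2
  have h2' : algebraMap k P (2 : k)⁻¹ * 2 = 1 := by
    rw [show (2 : P) = algebraMap k P 2 from (map_ofNat (algebraMap k P) 2).symm, ← map_mul,
      inv_mul_cancel₀ h2, map_one]
  linear_combination (-(x * a)) * h2'

end

end Cfsg.Agent.Lib.Helper85QF
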