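import Cfsg.Agent.Lib.Helper85QE
import Cfsg.Agent.Lib.Helper85QF

/-!
The key lemma, all fields.
-/

namespace Cfsg.Agent.Lib.Helper85QK

open Polynomial Cfsg.Agent.Lib.Helper85QA Cfsg.Agent.Lib.Helper85QE Cfsg.Agent.Lib.Helper85QF

theorem exists_sigma {k : Type*} [Field k] (h2 : (2 : k) ≠ 0) (h3 : Nat.card k ≠ 3) :
    ∃ σ σ' : k, σ * σ' = 1 ∧ σ' ^ 2 ≠ 1 := by
  classical
  by_contra hcon
  push Not at hcon
  have hall : ∀ z : k, z = 0 ∨ z = 1 ∨ z = -1 := by
    intro z
    by_cases hz : z = 0
    · exact Or.inl hz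
    · right
      have := hcon z⁻¹ z (inv_mul_cancel₀ hz)
      have h4 : (z - 1) * (z + 1) = 0 := by linear_combination this
      rcases mul_eq_zero.1 h4 with h5 | h5
      · left; linear_combination h5
      · right; linear_combination h5
  apply h3
  have hfin : Finite k := by
    apply Set.finite_univ_iff.1
    apply Set.Finite.subset (Set.toFinite ({0, 1, -1} : Set k))
    intro z _
    rcases hall z with h | h | h <;> simp [h]
  have := Fintype.ofFinite k
  rw [Nat.card_eq_fintype_card, ← Finset.card_univ]
  have : (Finset.univ : Finset k) = {0, 1, -1} := by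
    ext z
    simp only [Finset.mem_univ, Finset.mem_insert, Finset.mem_singleton, true_iff]
    exact hall z
  rw [this]
  have n1 : (1 : k) ≠ -1 := by
    intro h; apply h2; linear_combination h
  have n2 : (0 : k) ≠ -1 := by
    intro h
    have : (1 : k) = 0 := by linear_combination h
    exact one_ne_zero this
  rw [Finset.card_insert_of_notMem (by simp [n2]), Finset.card_insert_of_notMem (by simp [n1]),
    Finset.card_singleton]

variable {k : Type*} [Field k] {D : Type*} [Ring D] [Algebra k[X] D] {𝒢 : Subgroup Dˣ} {N N' : D}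

/-- **Key Lemma.** -/
theorem kl (h2 : (2 : k) ≠ 0) (h3 : Nat.card k ≠ 3) (hfin : Finite k → Finite D)
    (h : Ctx k 𝒢 (X : k[X]) N N') {f : k[X]} (hf : f.Monic) (hf0 : f • (1 : D) = 0) (μ : k[X]) :
    Fam (P := k[X]) k 𝒢 (μ • N) := by
  rcases finite_or_infinite k with hk | hk
  · have := hfin hk
    obtain ⟨σ, σ', hσ, hσ1⟩ := exists_sigma h2 h3
    obtain ⟨p, hp⟩ := CharP.exists k
    have hpp : p.Prime := by
      rcases CharP.char_is_prime_or_zero k p with h | h
      · exact h
      · subst h
        have := CharP.charP_to_charZero k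
        exact absurd hk (not_finite_iff_infinite.2 inferInstance)
    have : Fact p.Prime := ⟨hpp⟩
    have hp0 : (p : k) = 0 := CharP.cast_eq_zero k p
    have hX : ∀ n : ℕ, Fam (P := k[X]) k 𝒢 ((X ^ n : k[X]) • N) := by
      intro n
      induction n with
      | zero => rw [pow_zero, one_smul]; exact h.fam
      | succ n ih =>
        have := kl_fin hp0 h2 hσ hσ1 h ih
        rwa [← pow_succ'] at this
    induction μ using Polynomial.induction_on' with
    | add a b ha hb => exact Fam.addN h.nn ha hb
    | monomial n a =>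
      rw [← C_mul_X_pow_eq_monomial]
      exact (hX n).smulN a
  · exact kl_inf h2 h hf hf0 μ

end Cfsg.Agent.Lib.Helper85QK
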