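import Cfsg.Agent.Lib.Helper96KDefs
import Cfsg.Agent.Lib.Helper85QK

/-!
PROJECT 196 (TKL), piece KL.  See notes/helper96/K/README.md.
The key lemma of helper85 (`Helper85QK.kl`) instantiated in a matrix algebra, the minimality oracles being
replaced by explicit hypotheses.
-/

set_option autoImplicit false
set_option linter.unusedSectionVars false
set_option linter.unusedVariables false

namespace Cfsg.Agent.Lib.H96KKL

open scoped Matrix Kronecker
open Matrix Polynomial Cfsg.Agent.Lib.Helper49TDefs Cfsg.Agent.Lib.Helper49SDefs Cfsg.Agent.Lib.Helper96KDefs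
open Cfsg.Agent.Lib.Helper85QA Cfsg.Agent.Lib.Helper85QK

section gen

variable {k : Type*} [Field k] {ι : Type*} [Fintype ι] [DecidableEq ι]

local notation "MM" => Matrix ι ι k
local notation "GG" => Matrix.GeneralLinearGroup ι k

/-- the centralizer of `Z`. -/
def Cen (Z : MM) : Subalgebra k MM := Subalgebra.centralizer k {Z}

theorem mem_Cen {Z Y : MM} : Y ∈ Cen Z ↔ Z * Y = Y * Z := by
  simp [Cen, Subalgebra.mem_centralizer_iff]

/-- `Z` as an element of its centralizer. -/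
def zc (Z : MM) : Cen Z := ⟨Z, mem_Cen.2 rfl⟩

theorem aeval_comm (Z : MM) (p : k[X]) (d : Cen Z) : aeval (zc Z) p * d = d * aeval (zc Z) p := by
  have hc : Commute (zc Z) d := Subtype.ext (mem_Cen.1 d.2)
  induction p using Polynomial.induction_on' with
  | add a b ha hb => rw [map_add, add_mul, mul_add, ha, hb]
  | monomial n a =>
    rw [aeval_monomial]
    have h1 : Commute (algebraMap k (Cen Z) a) d := Algebra.commutes a d
    exact (h1.mul_left (hc.pow_left n))

noncomputable instance algCen (Z : MM) : Algebra k[X] (Cen Z) :=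
  (aeval (zc Z)).toRingHom.toAlgebra' (fun p d => aeval_comm Z p d)

theorem aeval_val (Z : MM) (p : k[X]) : ((aeval (zc Z) p : Cen Z) : MM) = aeval Z p := by
  have := Polynomial.aeval_algHom_apply (Cen Z).val (zc Z) p
  exact this.symm

theorem smul_val (Z : MM) (p : k[X]) (d : Cen Z) : ((p • d : Cen Z) : MM) = aeval Z p * (d : MM) := by
  have : p • d = aeval (zc Z) p * d := rfl
  rw [this, Subalgebra.coe_mul, aeval_val]

/-- the part of `H` inside the centralizer. -/
def Gc (H : Subgroup GG) (Z : MM) : Subgroup (Cen Z)ˣ :=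
  H.comap (Units.map ((Cen Z).val : Cen Z →* MM))

/-- the scalar family of `1 + Y` lies in `H`. -/
def InH (H : Subgroup GG) (Y : MM) : Prop := ∀ c : k, ∃ u ∈ H, (u : MM) = 1 + c • Y

theorem In_val {H : Subgroup GG} {Z : MM} {c : Cen Z} (h : In (Gc H Z) c) : ∃ u ∈ H, (u : MM) = (c : MM) := by
  obtain ⟨u, hu, rfl⟩ := h
  exact ⟨_, hu, rfl⟩

theorem In_of {H : Subgroup GG} {Z : MM} {Y : Cen Z} (hY : Y * Y = 0) {u : GG} (hu : u ∈ H)
    (e : (u : MM) = 1 + (Y : MM)) : In (Gc H Z) (1 + Y) := by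
  refine ⟨⟨1 + Y, 1 - Y, by rw [add_mul, mul_sub, mul_sub, hY]; simp,
    by rw [sub_mul, mul_add, mul_add, hY]; simp⟩, ?_, rfl⟩
  show Units.map ((Cen Z).val : Cen Z →* MM) _ ∈ H
  convert hu using 1
  apply Units.ext
  rw [e]; rfl

theorem C_smul_val (Z : MM) (c : k) (Y : Cen Z) :
    (((algebraMap k k[X] c) • Y : Cen Z) : MM) = c • (Y : MM) := by
  rw [smul_val, algebraMap_eq, aeval_C, Algebra.algebraMap_eq_smul_one, smul_mul_assoc, one_mul]

theorem fam_iff {H : Subgroup GG} {Z : MM} {Y : Cen Z} (hY : Y * Y = 0) :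
    Fam (P := k[X]) k (Gc H Z) Y ↔ InH H (Y : MM) := by
  constructor
  · intro h c
    obtain ⟨u, hu, e⟩ := In_val (h c)
    refine ⟨u, hu, ?_⟩
    rw [e, Subalgebra.coe_add, C_smul_val]; rfl
  · intro h c
    obtain ⟨u, hu, e⟩ := h c
    apply In_of _ hu
    · rw [e, C_smul_val]
    · rw [smul_mul_smul_comm, hY, smul_zero]

theorem z_comm {N N' : MM} (h : N * N = 0) : (N * N' + N' * N) * N = N * (N * N' + N' * N) := by
  rw [add_mul, mul_add, mul_assoc N' N N, h, ← mul_assoc N N N', h]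
  simp [mul_assoc]

theorem z_comm' {N N' : MM} (h : N' * N' = 0) : (N * N' + N' * N) * N' = N' * (N * N' + N' * N) := by
  rw [add_mul, mul_add, mul_assoc N N' N', h, ← mul_assoc N' N' N, h]
  simp [mul_assoc]

theorem orc_of {H : Subgroup GG} {Z : MM} {N : Cen Z} (hNN : N * N = 0)
    (o : ∀ ω : k[X], InH H (aeval Z ω * (N : MM)) → ∃ κ : k, aeval Z ω * (N : MM) = κ • (N : MM)) :
    Orc (P := k[X]) k (Gc H Z) N := by
  intro ω y hf hz
  have sq : (ω • N) * (ω • N) = 0 := by rw [smul_mul_smul_comm, hNN, smul_zero]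
  have f1 : InH H ((ω • N : Cen Z) : MM) := (fam_iff sq).1 hf
  rw [smul_val] at f1
  obtain ⟨κ, hκ⟩ := o ω f1
  by_cases h0 : κ = 0
  · left
    apply Subtype.ext
    rw [smul_val, hκ, h0, zero_smul]; rfl
  · right
    apply Subtype.ext
    have h1 := congrArg Subtype.val hz
    rw [smul_val, mul_comm ω y, map_mul, mul_assoc, hκ, mul_smul_comm] at h1
    rw [smul_val]
    have h2 : κ • (aeval Z y * (N : MM)) = 0 := h1
    rcases smul_eq_zero.1 h2 with h3 | h3
    · exact absurd h3 h0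
    · rw [h3]; rfl

theorem charpoly_kill (Z : MM) : (Matrix.charpoly Z) • (1 : Cen Z) = 0 := by
  apply Subtype.ext
  rw [smul_val, Matrix.aeval_self_charpoly]
  simp

theorem fin_Cen (Z : MM) (h : Finite k) : Finite (Cen Z) := by
  have : Finite MM := inferInstance
  exact Subtype.finite

theorem kl_gen (h2 : (2 : k) ≠ 0) (h3 : Nat.card k ≠ 3) {H : Subgroup GG} {N N' : MM}
    (sq : N * N = 0) (sq' : N' * N' = 0) (fN : InH H N) (fN' : InH H N')
    (oN : ∀ ω : k[X], InH H (aeval (N * N' + N' * N) ω * N) → ∃ κ : k, aeval (N * N' + N' * N) ω * N = κ • N)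
    (oN' : ∀ ω : k[X], InH H (aeval (N * N' + N' * N) ω * N') → ∃ κ : k, aeval (N * N' + N' * N) ω * N' = κ • N')
    (μ : k[X]) : InH H (aeval (N * N' + N' * N) μ * N) := by
  have h : Ctx k (Gc H (N * N' + N' * N)) (X : k[X]) (⟨N, mem_Cen.2 (z_comm sq)⟩ : Cen (N * N' + N' * N))
      ⟨N', mem_Cen.2 (z_comm' sq')⟩ := by
    refine { nn := Subtype.ext sq, nn' := Subtype.ext sq', z := ?_, fam := ?_, fam' := ?_, orc := ?_, orc' := ?_ }
    · apply Subtype.ext
      rw [smul_val, aeval_X]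
      simp
    · exact (fam_iff (Subtype.ext sq)).2 fN
    · exact (fam_iff (Subtype.ext sq')).2 fN'
    · exact orc_of (Subtype.ext sq) oN
    · exact orc_of (Subtype.ext sq') oN'
  have := kl h2 h3 (fin_Cen _) h (Matrix.charpoly_monic _) (charpoly_kill _) μ
  rw [fam_iff (by rw [smul_mul_smul_comm, h.nn, smul_zero]), smul_val] at this
  exact this

end gen

variable {F : Type*} [Field F] {a b n : ℕ}

local notation "Mn" => Matrix (Fin a × Fin b) (Fin a × Fin b) F
local notation "GLn" => Matrix.GeneralLinearGroup (Fin a × Fin b) F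

theorem FN_iff_InH {H : Subgroup GLn} {B : Mn} : B ∈ FN H ↔ B * B = 0 ∧ InH H B := by
  constructor
  · intro h
    refine ⟨?_, fun c => ?_⟩
    · have := (h 1).1
      simpa using this
    · exact (h c).2
  · rintro ⟨h0, h⟩ c
    exact ⟨by rw [smul_mul_smul_comm, h0, smul_zero], h c⟩

/-- **Key lemma** (helper85's `Helper85QK.kl`, with the minimality oracles replaced by explicit hypotheses).
`Z = N N' + N' N`. -/
theorem kl_matrix [Finite F] (h2 : (2 : F) ≠ 0) (h3 : Nat.card F ≠ 3) {H : Subgroup GLn} {N N' : Mn}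
    (fN : N ∈ FN H) (fN' : N' ∈ FN H)
    (oN : ∀ ω : F[X], aeval (N * N' + N' * N) ω * N ∈ FN H → ∃ κ : F, aeval (N * N' + N' * N) ω * N = κ • N)
    (oN' : ∀ ω : F[X], aeval (N * N' + N' * N) ω * N' ∈ FN H → ∃ κ : F, aeval (N * N' + N' * N) ω * N' = κ • N') :
    N * N' * N ∈ FN H := by
  obtain ⟨sq, iN⟩ := FN_iff_InH.1 fN
  obtain ⟨sq', iN'⟩ := FN_iff_InH.1 fN'
  -- polynomials in `Z` commute with `N`, `N'`
  have cN : ∀ ω : F[X], aeval (N * N' + N' * N) ω * N = N * aeval (N * N' + N' * N) ω := by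
    intro ω
    have := congrArg Subtype.val (aeval_comm (N * N' + N' * N) ω ⟨N, mem_Cen.2 (z_comm sq)⟩)
    rwa [Subalgebra.coe_mul, Subalgebra.coe_mul, aeval_val] at this
  have cN' : ∀ ω : F[X], aeval (N * N' + N' * N) ω * N' = N' * aeval (N * N' + N' * N) ω := by
    intro ω
    have := congrArg Subtype.val (aeval_comm (N * N' + N' * N) ω ⟨N', mem_Cen.2 (z_comm' sq')⟩)
    rwa [Subalgebra.coe_mul, Subalgebra.coe_mul, aeval_val] at this
  have s : ∀ ω : F[X], (aeval (N * N' + N' * N) ω * N) * (aeval (N * N' + N' * N) ω * N) = 0 := by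
    intro ω
    rw [mul_assoc, ← mul_assoc N, ← cN, mul_assoc _ N N, sq]; simp
  have s' : ∀ ω : F[X], (aeval (N * N' + N' * N) ω * N') * (aeval (N * N' + N' * N) ω * N') = 0 := by
    intro ω
    rw [mul_assoc, ← mul_assoc N', ← cN', mul_assoc _ N' N', sq']; simp
  have key := kl_gen h2 h3 sq sq' iN iN'
    (fun ω h => oN ω (FN_iff_InH.2 ⟨s ω, h⟩)) (fun ω h => oN' ω (FN_iff_InH.2 ⟨s' ω, h⟩)) X
  have e : aeval (N * N' + N' * N) (X : F[X]) * N = N * N' * N := by
    rw [aeval_X, add_mul, mul_assoc N' N N, sq, mul_zero, add_zero]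
  rw [← e]
  exact FN_iff_InH.2 ⟨s X, key⟩

end Cfsg.Agent.Lib.H96KKL
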