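import Cfsg.Agent.Lib.Helper96KDefs
import Cfsg.Agent.Lib.H96KFormA

/-!
PROJECT 196 (TKL), piece Witt3.  See notes/helper96/K/README.md.
-/

set_option autoImplicit false
set_option linter.unusedSectionVars false
set_option linter.unusedVariables false

namespace Cfsg.Agent.Lib.H96KWitt3

open scoped Matrix Kronecker
open Matrix Polynomial Cfsg.Agent.Lib.Helper49TDefs Cfsg.Agent.Lib.Helper49SDefs Cfsg.Agent.Lib.Helper96KDefs
open Cfsg.Agent.Lib.H96KFormA

variable {F : Type*} [Field F] {a b n : ℕ}

local notation "Mn" => Matrix (Fin a × Fin b) (Fin a × Fin b) F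
local notation "GLn" => Matrix.GeneralLinearGroup (Fin a × Fin b) F
local notation "Mb" => Matrix (Fin b) (Fin b) F
local notation "Ma" => Matrix (Fin a) (Fin a) F

/-- the functional `v ↦ bf J v w` -/
def bfl (J : Matrix (Fin n) (Fin n) F) (w : Fin n → F) : (Fin n → F) →ₗ[F] F where
  toFun := fun v => bf J v w
  map_add' := by intro x y; simp
  map_smul' := by intro c x; simp

/-- a totally singular subspace of a nondegenerate 3-dimensional space has dimension at most 1. -/
theorem witt3 {J : Matrix (Fin 3) (Fin 3) F} (hJ : IsSymmMat J) {x x' : Fin 3 → F}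
    (h1 : bf J x x = 0) (h2 : bf J x' x' = 0) (h3 : bf J x x' = 0) : ¬ LinearIndependent F ![x, x'] := by
  intro hli
  have hx0 : x ≠ 0 := hli.ne_zero 0
  obtain ⟨z, hz⟩ := symm_exists_ne_zero hJ hx0
  have h3' : bf J x' x = 0 := by rw [symm_swap hJ]; exact h3
  have hzn : z ∉ Submodule.span F (Set.range ![x, x']) := by
    intro hmem
    have hle : Submodule.span F (Set.range ![x, x']) ≤ LinearMap.ker (bfl J x) := by
      rw [Submodule.span_le]
      rintro _ ⟨i, rfl⟩
      fin_cases i
      · exact h1
      · exact h3'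
    have : bf J z x = 0 := hle hmem
    rw [hz] at this
    exact one_ne_zero this
  have hli3 : LinearIndependent F (Fin.cons z ![x, x'] : Fin 3 → (Fin 3 → F)) :=
    linearIndependent_finCons.2 ⟨hli, hzn⟩
  have htop := hli3.span_eq_top_of_card_eq_finrank (by simp)
  have hy : x' - bf J z x' • x = 0 := by
    apply symm_eq_zero_of_right hJ
    intro v
    have hle : Submodule.span F (Set.range (Fin.cons z ![x, x'] : Fin 3 → (Fin 3 → F)))
        ≤ LinearMap.ker (bfl J (x' - bf J z x' • x)) := by
      rw [Submodule.span_le]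
      rintro _ ⟨i, rfl⟩
      fin_cases i
      · change bf J z (x' - bf J z x' • x) = 0
        simp [hz]
      · change bf J x (x' - bf J z x' • x) = 0
        simp [h1, h3]
      · change bf J x' (x' - bf J z x' • x) = 0
        simp [h2, h3']
    rw [htop] at hle
    exact hle (Submodule.mem_top (x := v))
  have := (LinearIndependent.pair_iff.1 hli) (- bf J z x') 1 (by
    rw [← hy]; simp [sub_eq_add_neg, add_comm])
  exact one_ne_zero this.2

end Cfsg.Agent.Lib.H96KWitt3
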