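import Cfsg.Agent.Lib.Helper96KDefs
import Cfsg.Agent.Lib.H96KFormA
import Cfsg.Agent.Lib.H96KFormB
import Cfsg.Agent.Lib.H96KCalc
import Cfsg.Agent.Lib.H96KWitt3
import Cfsg.Agent.Lib.H96KBilin

/-!
PROJECT 196 (TKL), piece NoInv.  See notes/helper96/K/README.md.
-/

set_option autoImplicit false
set_option linter.unusedSectionVars false
set_option linter.unusedVariables false

namespace Cfsg.Agent.Lib.H96KNoInv

open scoped Matrix Kronecker
open Matrix Polynomial Cfsg.Agent.Lib.Helper49TDefs Cfsg.Agent.Lib.Helper49SDefs Cfsg.Agent.Lib.Helper96KDefs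
open Cfsg.Agent.Lib.H96KFormA
open Cfsg.Agent.Lib.H96KFormB
open Cfsg.Agent.Lib.H96KCalc
open Cfsg.Agent.Lib.H96KWitt3
open Cfsg.Agent.Lib.H96KBilin

variable {F : Type*} [Field F] {a b n : ℕ}

local notation "Mn" => Matrix (Fin a × Fin b) (Fin a × Fin b) F
local notation "GLn" => Matrix.GeneralLinearGroup (Fin a × Fin b) F
local notation "Mb" => Matrix (Fin b) (Fin b) F
local notation "Ma" => Matrix (Fin a) (Fin a) F

/-- **S2.**  Fix `ξ = Pi.single 0 1 ≠ 0`, `β η y = GB X ξ η *ᵥ y` (bilinear by `GB_add_right`, `GB_smul_right`).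
With `Φ_η = GB X ξ η`: `bf (Φ_η y) (Φ_η y') = bf y (Φ_η* Φ_η y') = 0` (`symm_bf_adjJ`), and from `h` for `η + η'`:
`Φ_η* Φ_η' + Φ_η'* Φ_η = 0`, so `2 bf (Φ_η y) (Φ_η' y) = 0`.  By `witt3` the hypotheses of `bilin_line` hold: all `β η y ∈ F z`.
But every `w : Fin 3 → F` is `con ξ *ᵥ (X *ᵥ v)` (`con_surj`, `X` invertible), `v` a sum of pure tensors (`eq_sum_tens`), `GB_mulVec`:
so `F³ ⊆ F z`, absurd (e.g. `Pi.single 0 1`, `Pi.single 1 1` are independent). -/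
theorem noinv_false (D : TDat F a 3) (h2 : (2 : F) ≠ 0) (ha : 0 < a) (X : Matrix.GeneralLinearGroup (Fin a × Fin 3) F)
    (h : ∀ ξ η, adjJ D.J₂ (GB (X : Matrix (Fin a × Fin 3) (Fin a × Fin 3) F) ξ η) *
      GB (X : Matrix (Fin a × Fin 3) (Fin a × Fin 3) F) ξ η = 0) : False := by
  obtain ⟨Xm, hXm⟩ : ∃ Xm : Matrix (Fin a × Fin 3) (Fin a × Fin 3) F,
      Xm = (X : Matrix (Fin a × Fin 3) (Fin a × Fin 3) F) := ⟨_, rfl⟩
  rw [← hXm] at h
  obtain ⟨ξ, hξ⟩ : ∃ ξ : Fin a → F, ξ ≠ 0 := by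
    refine ⟨Pi.single ⟨0, ha⟩ 1, fun h0 => ?_⟩
    have := congrFun h0 ⟨0, ha⟩
    simp at this
  have key0 : ∀ η y y', bf D.J₂ (GB Xm ξ η *ᵥ y) (GB Xm ξ η *ᵥ y') = 0 := by
    intro η y y'
    rw [symm_bf_adjJ D.h₂, Matrix.mulVec_mulVec, h ξ η, Matrix.zero_mulVec, bf_zero_right]
  have key1 : ∀ η η' y, bf D.J₂ (GB Xm ξ η *ᵥ y) (GB Xm ξ η' *ᵥ y) = 0 := by
    intro η η' y
    have e := key0 (η + η') y y
    rw [GB_add_right, Matrix.add_mulVec] at e
    simp only [bf_add_left, bf_add_right, key0] at e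
    rw [symm_swap D.h₂ (GB Xm ξ η' *ᵥ y)] at e
    have e2 : (2 : F) * bf D.J₂ (GB Xm ξ η *ᵥ y) (GB Xm ξ η' *ᵥ y) = 0 := by linear_combination e
    exact (mul_eq_zero.mp e2).resolve_left h2
  let β : (Fin a → F) →ₗ[F] (Fin 3 → F) →ₗ[F] (Fin 3 → F) :=
    LinearMap.mk₂ F (fun η y => GB Xm ξ η *ᵥ y)
      (fun η η' y => by rw [GB_add_right, Matrix.add_mulVec])
      (fun c η y => by rw [GB_smul_right, Matrix.smul_mulVec])
      (fun η y y' => by rw [Matrix.mulVec_add])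
      (fun c η y => by rw [Matrix.mulVec_smul])
  have hβ : ∀ η y, β η y = GB Xm ξ η *ᵥ y := fun η y => rfl
  obtain ⟨z, hz⟩ := bilin_line β
    (fun η y y' => by
      rw [hβ, hβ]
      exact witt3 D.h₂ (key0 _ _ _) (key0 _ _ _) (key0 _ _ _))
    (fun η η' y => by
      rw [hβ, hβ]
      exact witt3 D.h₂ (key0 _ _ _) (key0 _ _ _) (key1 _ _ _))
  have hall : ∀ w : Fin 3 → F, w ∈ Submodule.span F {z} := by
    intro w
    obtain ⟨v', hv'⟩ := con_surj (b := 3) hξ w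
    obtain ⟨v, hv⟩ : ∃ v, Xm *ᵥ v = v' := by
      refine ⟨((X⁻¹ : Matrix.GeneralLinearGroup (Fin a × Fin 3) F) :
        Matrix (Fin a × Fin 3) (Fin a × Fin 3) F) *ᵥ v', ?_⟩
      rw [hXm, Matrix.mulVec_mulVec, ← Units.val_mul, mul_inv_cancel, Units.val_one,
        Matrix.one_mulVec]
    rw [← hv', ← hv, eq_sum_tens v, Matrix.mulVec_sum, Matrix.mulVec_sum]
    refine Submodule.sum_mem _ fun s _ => ?_
    rw [← GB_mulVec]
    obtain ⟨k, hk⟩ := hz (Pi.single s 1) (fun j => v (s, j))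
    rw [hβ] at hk
    rw [hk]
    exact Submodule.smul_mem _ _ (Submodule.mem_span_singleton_self z)
  have htop : (⊤ : Submodule F (Fin 3 → F)) ≤ Submodule.span F {z} := fun w _ => hall w
  have h3 := Submodule.finrank_mono htop
  rw [finrank_top, Module.finrank_fin_fun] at h3
  have h4 := finrank_span_le_card (R := F) ({z} : Set (Fin 3 → F))
  simp at h4
  omega

end Cfsg.Agent.Lib.H96KNoInv
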