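import Cfsg.Agent.Lib.Helper96KDefs
import Cfsg.Agent.Lib.H96KFormA
import Cfsg.Agent.Lib.H96KWitt3
import Cfsg.Agent.Lib.Helper95Sp

/-!
PROJECT 196 (TKL), piece Skew3.  See notes/helper96/K/README.md.
-/

set_option autoImplicit false
set_option linter.unusedSectionVars false
set_option linter.unusedVariables false

namespace Cfsg.Agent.Lib.H96KSkew3

open scoped Matrix Kronecker
open Matrix Polynomial Cfsg.Agent.Lib.Helper49TDefs Cfsg.Agent.Lib.Helper49SDefs Cfsg.Agent.Lib.Helper96KDefs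
open Cfsg.Agent.Lib.H96KFormA
open Cfsg.Agent.Lib.H96KWitt3

variable {F : Type*} [Field F] {a b n : ℕ}

local notation "Mn" => Matrix (Fin a × Fin b) (Fin a × Fin b) F
local notation "GLn" => Matrix.GeneralLinearGroup (Fin a × Fin b) F
local notation "Mb" => Matrix (Fin b) (Fin b) F
local notation "Ma" => Matrix (Fin a) (Fin a) F

/-- a skew square-zero endomorphism of a nondegenerate 3-dimensional symmetric space is zero. -/
theorem skew_sq_zero {J : Matrix (Fin 3) (Fin 3) F} (hJ : IsSymmMat J) (h2 : (2 : F) ≠ 0)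
    {K : Matrix (Fin 3) (Fin 3) F} (hK : adjJ J K = -K) (hKK : K * K = 0) : K = 0 := by
  by_contra hK0
  have hsing : ∀ v w, bf J (K *ᵥ v) (K *ᵥ w) = 0 := by
    intro v w
    rw [symm_bf_adjJ hJ, hK, Matrix.mulVec_mulVec, Matrix.neg_mul, hKK]
    simp
  have hskew : ∀ v, bf J (K *ᵥ v) v = 0 := by
    intro v
    have e1 : bf J (K *ᵥ v) v = - bf J (K *ᵥ v) v := by
      conv_lhs => rw [symm_bf_adjJ hJ, hK, Matrix.neg_mulVec, bf_neg_right, symm_swap hJ]
    have e2 : (2 : F) * bf J (K *ᵥ v) v = 0 := by linear_combination e1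
    exact (mul_eq_zero.1 e2).resolve_left h2
  obtain ⟨v₀, hv₀⟩ : ∃ v₀, K *ᵥ v₀ ≠ 0 := by
    by_contra hno
    apply hK0
    simp only [not_exists, not_not] at hno
    apply Matrix.ext_of_mulVec_single
    intro i
    rw [hno, Matrix.zero_mulVec]
  obtain ⟨w₀, hw₀⟩ := symm_exists_ne_zero hJ hv₀
  have hw₀' : bf J (K *ᵥ v₀) w₀ = 1 := by rw [symm_swap hJ]; exact hw₀
  have hline : ∀ v, K *ᵥ v = bf J (K *ᵥ v) w₀ • (K *ᵥ v₀) := by
    intro v
    have hnl := witt3 hJ (hsing v₀ v₀) (hsing v v) (hsing v₀ v)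
    rw [LinearIndependent.pair_iff] at hnl
    simp only [not_forall] at hnl
    obtain ⟨s, t, hst, hne⟩ := hnl
    have ht : t ≠ 0 := by
      intro ht
      apply hne
      rw [ht, zero_smul, add_zero] at hst
      exact ⟨(smul_eq_zero.1 hst).resolve_right hv₀, ht⟩
    have e1 : K *ᵥ v = (-(s / t)) • (K *ᵥ v₀) := by
      have : t • (K *ᵥ v) = (-s) • (K *ᵥ v₀) := by
        rw [neg_smul]; exact eq_neg_of_add_eq_zero_right hst
      calc K *ᵥ v = t⁻¹ • (t • (K *ᵥ v)) := by rw [smul_smul, inv_mul_cancel₀ ht, one_smul]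
        _ = (-(s / t)) • (K *ᵥ v₀) := by rw [this, smul_smul]; congr 1; field_simp
    have e2 : bf J (K *ᵥ v) w₀ = -(s / t) := by
      rw [e1, bf_smul_left, hw₀', mul_one]
    rw [e2]; exact e1
  have hprod : ∀ v, bf J (K *ᵥ v) w₀ * bf J (K *ᵥ v₀) v = 0 := by
    intro v
    have := hskew v
    rw [hline v, bf_smul_left] at this
    exact this
  -- both functionals are nonzero somewhere
  have ha := hprod v₀
  rw [hw₀', one_mul] at ha
  have hb := hprod w₀
  rw [hw₀', mul_one] at hb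
  have hc := hprod (v₀ + w₀)
  rw [Matrix.mulVec_add, bf_add_left, bf_add_right, hw₀', hb, ha] at hc
  simp at hc

end Cfsg.Agent.Lib.H96KSkew3
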