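import Cfsg.Agent.Lib.Helper96KDefs
import Cfsg.Agent.Lib.H96KFormA
import Cfsg.Agent.Lib.H96KSkew3

/-!
PROJECT 196 (TKL), piece SimLine.  See notes/helper96/K/README.md.
-/

set_option autoImplicit false
set_option linter.unusedSectionVars false
set_option linter.unusedVariables false

namespace Cfsg.Agent.Lib.H96KSimLine

open scoped Matrix Kronecker
open Matrix Polynomial Cfsg.Agent.Lib.Helper49TDefs Cfsg.Agent.Lib.Helper49SDefs Cfsg.Agent.Lib.Helper96KDefs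
open Cfsg.Agent.Lib.H96KFormA
open Cfsg.Agent.Lib.H96KSkew3

variable {F : Type*} [Field F] {a b n : ℕ}

local notation "Mn" => Matrix (Fin a × Fin b) (Fin a × Fin b) F
local notation "GLn" => Matrix.GeneralLinearGroup (Fin a × Fin b) F
local notation "Mb" => Matrix (Fin b) (Fin b) F
local notation "Ma" => Matrix (Fin a) (Fin a) F

/-- **S1.**  `s = 1, -1` give `ψψ* = ν • 1` and `φψ* + ψφ* = μ • 1`.  `φ` is invertible with `φ⁻¹ = l⁻¹ φ*`; `K := l⁻¹ • ψ φ*` (so `ψ = K φ`,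
as `φ* φ = l` too: a one-sided inverse of a square matrix is two-sided).  Then `K + K* = (μ/l) • 1 =: 2τ`, `K K* = (ν/l) • 1`.  `K₀ = K - τ` is skew-adjoint and
`K₀ K₀* = -K₀² = ν₀ • 1`.  `det K₀ = det K₀* = det (-K₀) = -det K₀` (`det_adjJ`, `Matrix.det_neg`, size 3) so `det K₀ = 0`, `ν₀³ = det(-K₀²) = 0`, `K₀² = 0`,
`skew_sq_zero` : `K₀ = 0`, `ψ = τ φ`. -/
theorem sim_line {J : Matrix (Fin 3) (Fin 3) F} (hJ : IsSymmMat J) (h2 : (2 : F) ≠ 0)
    {φ ψ : Matrix (Fin 3) (Fin 3) F} {l : F} (hl : l ≠ 0) (hφ : φ * adjJ J φ = l • 1)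
    (h : ∀ s : F, ∃ κ : F, (φ + s • ψ) * adjJ J (φ + s • ψ) = κ • 1) : ∃ τ : F, ψ = τ • φ := by
  have hu := hJ.unit
  obtain ⟨κ1, h1⟩ := h 1
  obtain ⟨κ2, h2'⟩ := h (-1)
  rw [adjJ_add, adjJ_smul] at h1 h2'
  set φs := adjJ J φ with hφs
  set ψs := adjJ J ψ with hψs
  obtain ⟨c, hc⟩ : ∃ c : F, c * 2 = 1 := ⟨2⁻¹, inv_mul_cancel₀ h2⟩
  have e1 : l • (1 : Matrix (Fin 3) (Fin 3) F) + (φ * ψs + ψ * φs) + ψ * ψs = κ1 • 1 := by
    rw [← h1, ← hφ]
    simp only [one_smul, add_mul, mul_add]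
    abel
  have e2 : l • (1 : Matrix (Fin 3) (Fin 3) F) - (φ * ψs + ψ * φs) + ψ * ψs = κ2 • 1 := by
    rw [← h2', ← hφ]
    simp only [neg_smul, one_smul, add_mul, mul_add, mul_neg, neg_mul]
    abel
  -- `E = ν`, `C = μ`
  have hE2 : (2 : F) • (ψ * ψs) = (κ1 + κ2 - 2 * l) • (1 : Matrix (Fin 3) (Fin 3) F) := by
    linear_combination (norm := module) e1 + e2
  have hC2 : (2 : F) • (φ * ψs + ψ * φs) = (κ1 - κ2) • (1 : Matrix (Fin 3) (Fin 3) F) := by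
    linear_combination (norm := module) e1 - e2
  have half : ∀ (X : Matrix (Fin 3) (Fin 3) F) (k : F), (2 : F) • X = k • 1 → X = (c * k) • 1 := by
    intro X k hX
    have := congrArg (fun Y => c • Y) hX
    simp only [smul_smul] at this
    rwa [hc, one_smul] at this
  obtain ⟨ν, hE⟩ : ∃ ν : F, ψ * ψs = ν • 1 := ⟨_, half _ _ hE2⟩
  obtain ⟨μ, hC⟩ : ∃ μ : F, φ * ψs + ψ * φs = μ • 1 := ⟨_, half _ _ hC2⟩
  -- `φ* φ = l`
  have hφ' : φs * φ = l • 1 := by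
    have a1 : φ * (l⁻¹ • φs) = 1 := by
      rw [mul_smul_comm, hφ, smul_smul, inv_mul_cancel₀ hl, one_smul]
    have a2 := mul_eq_one_comm.mp a1
    rw [smul_mul_assoc] at a2
    have := congrArg (fun Y => l • Y) a2
    simp only [smul_smul] at this
    rwa [mul_inv_cancel₀ hl, one_smul] at this
  obtain ⟨K, hK⟩ : ∃ K : Matrix (Fin 3) (Fin 3) F, K = l⁻¹ • (ψ * φs) := ⟨_, rfl⟩
  have hKφ : K * φ = ψ := by
    rw [hK, smul_mul_assoc, mul_assoc, hφ', mul_smul_comm, mul_one, smul_smul, inv_mul_cancel₀ hl,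
      one_smul]
  have hKs : adjJ J K = l⁻¹ • (φ * ψs) := by
    rw [hK, adjJ_smul, adjJ_mul hu, hφs, adjJ_adjJ hJ]
  have hsum : K + adjJ J K = (l⁻¹ * μ) • 1 := by
    rw [hKs, hK, ← smul_add, add_comm, hC, smul_smul]
  have hprod : K * adjJ J K = (l⁻¹ * ν) • 1 := by
    rw [hKs, hK, smul_mul_assoc, mul_smul_comm, mul_assoc, ← mul_assoc φs, hφ', smul_mul_assoc,
      one_mul, mul_smul_comm, hE, smul_smul, smul_smul, smul_smul]
    congr 1
    field_simp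
  obtain ⟨τ, hτ⟩ : ∃ τ : F, τ = c * (l⁻¹ * μ) := ⟨_, rfl⟩
  have h2τ : l⁻¹ * μ = τ + τ := by
    rw [hτ, ← two_mul, ← mul_assoc, mul_comm 2 c, hc, one_mul]
  obtain ⟨K₀, hK₀⟩ : ∃ K₀ : Matrix (Fin 3) (Fin 3) F, K₀ = K - τ • 1 := ⟨_, rfl⟩
  have hKs' : adjJ J K = (τ + τ) • 1 - K := by
    rw [← h2τ, ← hsum]
    abel
  have hK0s : adjJ J K₀ = -K₀ := by
    rw [hK₀, sub_eq_add_neg, adjJ_add, adjJ_neg, adjJ_smul, adjJ_one hu, hKs', add_smul]
    abel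
  obtain ⟨ν₀, hν₀⟩ : ∃ ν₀ : F, K₀ * adjJ J K₀ = ν₀ • 1 := by
    refine ⟨l⁻¹ * ν - τ * τ, ?_⟩
    have e : K₀ * adjJ J K₀ = K * adjJ J K - τ • (K + adjJ J K) + (τ * τ) • 1 := by
      have e0 : adjJ J K₀ = adjJ J K - τ • 1 := by
        rw [hK₀, sub_eq_add_neg, adjJ_add, adjJ_neg, adjJ_smul, adjJ_one hu, ← sub_eq_add_neg]
      rw [e0, hK₀]
      simp only [sub_mul, mul_sub, smul_mul_assoc, mul_smul_comm, one_mul, mul_one]
      module
    rw [e, hprod, hsum, h2τ, smul_smul]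
    module
  have hdet : K₀.det = 0 := by
    have := det_adjJ hu K₀
    rw [hK0s, Matrix.det_neg, Fintype.card_fin] at this
    have h3 : (2 : F) * K₀.det = 0 := by linear_combination -this
    exact (mul_eq_zero.mp h3).resolve_left h2
  have hν0 : ν₀ = 0 := by
    have := congrArg Matrix.det hν₀
    rw [Matrix.det_mul, hdet, zero_mul, Matrix.det_smul, Matrix.det_one, Fintype.card_fin,
      mul_one] at this
    exact pow_eq_zero_iff (by norm_num) |>.mp this.symm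
  have hKK : K₀ * K₀ = 0 := by
    rw [hK0s, hν0, zero_smul, mul_neg, neg_eq_zero] at hν₀
    exact hν₀
  have hz := skew_sq_zero hJ h2 hK0s hKK
  refine ⟨τ, ?_⟩
  have hKτ : K = τ • 1 := sub_eq_zero.mp (hK₀ ▸ hz)
  rw [← hKφ, hKτ, smul_mul_assoc, one_mul]

end Cfsg.Agent.Lib.H96KSimLine
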