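import Cfsg.Agent.Lib.Helper96KDefs
import Cfsg.Agent.Lib.H96KFormA
import Cfsg.Agent.Lib.H96KCalc
import Cfsg.Agent.Lib.H96KNoInv
import Cfsg.Agent.Lib.H96KSimLine
import Cfsg.Agent.Lib.H49SKronKS

/-!
PROJECT 196 (TKL), piece KronSim.  See notes/helper96/K/README.md.
-/

set_option autoImplicit false
set_option linter.unusedSectionVars false
set_option linter.unusedVariables false

namespace Cfsg.Agent.Lib.H96KKronSim

open scoped Matrix Kronecker
open Matrix Polynomial Cfsg.Agent.Lib.Helper49TDefs Cfsg.Agent.Lib.Helper49SDefs Cfsg.Agent.Lib.Helper96KDefs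
open Cfsg.Agent.Lib.H96KFormA
open Cfsg.Agent.Lib.H96KCalc
open Cfsg.Agent.Lib.H96KNoInv
open Cfsg.Agent.Lib.H96KSimLine

variable {F : Type*} [Field F] {a b n : ℕ}

local notation "Mn" => Matrix (Fin a × Fin b) (Fin a × Fin b) F
local notation "GLn" => Matrix.GeneralLinearGroup (Fin a × Fin b) F
local notation "Mb" => Matrix (Fin b) (Fin b) F
local notation "Ma" => Matrix (Fin a) (Fin a) F

/-- **S3.**  If all `κ` in `h` vanish: `det Φ = 0` for all blocks, so the `κ` of `h'` vanish too (`det (κ • 1) = κ³`), `noinv_false`.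
Otherwise `B = GB X ξ₀ η₀` with `B B* = l ≠ 0`.  `sim_line` with `ψ = GB X ξ₀ η` (`B + s ψ = GB X ξ₀ (η₀ + s η)`): `GB X ξ₀ η ∈ F B`; same for `GB X ξ η₀ = α(ξ) B`.
For general `(ξ, η)`: if `α(ξ) ≠ 0`, `GB X ξ η₀` is again invertible with scalar `α² l ≠ 0`, so `GB X ξ η ∈ F B` by `sim_line`; if `α(ξ) = 0` use `ξ + ξ₀` and subtract.
Then `eq_kron_of_GB`, `H49SKronKS.mem_KS_of_kron`. -/
theorem kron_of_sim (D : TDat F a 3) (h2 : (2 : F) ≠ 0) (ha : 0 < a) (X : Matrix.GeneralLinearGroup (Fin a × Fin 3) F)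
    (h : ∀ ξ η, ∃ κ : F, GB (X : Matrix (Fin a × Fin 3) (Fin a × Fin 3) F) ξ η *
      adjJ D.J₂ (GB (X : Matrix (Fin a × Fin 3) (Fin a × Fin 3) F) ξ η) = κ • 1)
    (h' : ∀ ξ η, ∃ κ : F, adjJ D.J₂ (GB (X : Matrix (Fin a × Fin 3) (Fin a × Fin 3) F) ξ η) *
      GB (X : Matrix (Fin a × Fin 3) (Fin a × Fin 3) F) ξ η = κ • 1) : X ∈ KS a 3 F := by
  set Y : Matrix (Fin a × Fin 3) (Fin a × Fin 3) F := (X : Matrix (Fin a × Fin 3) (Fin a × Fin 3) F) with hY
  have hu := D.h₂.unit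
  by_cases hall : ∀ ξ η, GB Y ξ η * adjJ D.J₂ (GB Y ξ η) = 0
  · exfalso
    apply noinv_false D h2 ha X
    intro ξ η
    obtain ⟨κ, hκ⟩ := h' ξ η
    have h0 := hall ξ η
    have hd : (GB Y ξ η).det = 0 := by
      have := congrArg Matrix.det h0
      rw [Matrix.det_mul, det_adjJ hu, Matrix.det_zero] at this
      exact mul_self_eq_zero.1 this
    have hk : κ = 0 := by
      have := congrArg Matrix.det hκ
      rw [Matrix.det_mul, hd, mul_zero, Matrix.det_smul, Matrix.det_one, mul_one] at this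
      exact pow_eq_zero_iff (by simp) |>.1 this.symm
    rw [hκ, hk, zero_smul]
  · push Not at hall
    obtain ⟨ξ₀, η₀, hne⟩ := hall
    obtain ⟨l, hl⟩ := h ξ₀ η₀
    have hl0 : l ≠ 0 := by
      rintro rfl
      exact hne (by rw [hl, zero_smul])
    set B := GB Y ξ₀ η₀ with hB
    -- moving the right variable
    have hR : ∀ (ξ η η' : Fin a → F) (l' : F), l' ≠ 0 → GB Y ξ η * adjJ D.J₂ (GB Y ξ η) = l' • 1 →
        ∃ τ : F, GB Y ξ η' = τ • GB Y ξ η := by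
      intro ξ η η' l' hl' he
      apply sim_line D.h₂ h2 hl' he
      intro s
      obtain ⟨κ, hκ⟩ := h ξ (η + s • η')
      refine ⟨κ, ?_⟩
      rw [← GB_smul_right, ← GB_add_right]
      exact hκ
    have hL : ∀ (ξ ξ' η : Fin a → F) (l' : F), l' ≠ 0 → GB Y ξ η * adjJ D.J₂ (GB Y ξ η) = l' • 1 →
        ∃ τ : F, GB Y ξ' η = τ • GB Y ξ η := by
      intro ξ ξ' η l' hl' he
      apply sim_line D.h₂ h2 hl' he
      intro s
      obtain ⟨κ, hκ⟩ := h (ξ + s • ξ') η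
      refine ⟨κ, ?_⟩
      rw [← GB_smul_left, ← GB_add_left]
      exact hκ
    have hP : ∀ (ξ : Fin a → F) (α : F), α ≠ 0 → GB Y ξ η₀ = α • B → ∀ η, ∃ k : F, GB Y ξ η = k • B := by
      intro ξ α hα he η
      have h1 : GB Y ξ η₀ * adjJ D.J₂ (GB Y ξ η₀) = (α * α * l) • 1 := by
        rw [he, adjJ_smul, Matrix.smul_mul, Matrix.mul_smul, hl, smul_smul, smul_smul]
      obtain ⟨τ, hτ⟩ := hR ξ η₀ η _ (mul_ne_zero (mul_ne_zero hα hα) hl0) h1
      exact ⟨τ * α, by rw [hτ, he, smul_smul]⟩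
    have hmain : ∀ ξ η, ∃ k : F, GB Y ξ η = k • B := by
      intro ξ η
      obtain ⟨α, hα⟩ := hL ξ₀ ξ η₀ l hl0 hl
      by_cases hα0 : α = 0
      · obtain ⟨k, hk⟩ := hP (ξ + ξ₀) 1 one_ne_zero (by
          rw [GB_add_left, hα, hα0, zero_smul, zero_add, one_smul]) η
        obtain ⟨k', hk'⟩ := hP ξ₀ 1 one_ne_zero (by rw [one_smul]) η
        refine ⟨k - k', ?_⟩
        rw [GB_add_left, hk'] at hk
        rw [sub_smul, ← hk, add_sub_cancel_right]
      · exact hP ξ α hα0 hα η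
    obtain ⟨A, hA⟩ := eq_kron_of_GB Y B hmain
    exact Cfsg.Agent.Lib.H49SKronKS.mem_KS_of_kron X A B hA

end Cfsg.Agent.Lib.H96KKronSim
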