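import Cfsg.Agent.Lib.Helper96KDefs

/-!
PROJECT 196 (TKL), piece MkDat.  See notes/helper96/K/README.md.
-/

set_option autoImplicit false
set_option linter.unusedSectionVars false
set_option linter.unusedVariables false

namespace Cfsg.Agent.Lib.H96KMkDat

open scoped Matrix Kronecker
open Matrix Polynomial Cfsg.Agent.Lib.Helper49TDefs Cfsg.Agent.Lib.Helper49SDefs Cfsg.Agent.Lib.Helper96KDefs

variable {F : Type*} [Field F] {a b n : ℕ}

local notation "Mn" => Matrix (Fin a × Fin b) (Fin a × Fin b) F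
local notation "GLn" => Matrix.GeneralLinearGroup (Fin a × Fin b) F
local notation "Mb" => Matrix (Fin b) (Fin b) F
local notation "Ma" => Matrix (Fin a) (Fin a) F

private theorem bf_gram {k : ℕ} {f : (Fin k → F) → (Fin k → F) → F}
    (hb : Cfsg.Geo.IsBilinearForm f) (x y : Fin k → F) :
    bf (Cfsg.Geo.gramMatrix f) x y = f x y := by
  set B : LinearMap.BilinForm F (Fin k → F) :=
    LinearMap.mk₂ F f hb.add_left hb.smul_left hb.add_right hb.smul_right with hB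
  have h1 : Cfsg.Geo.gramMatrix f = LinearMap.BilinForm.toMatrix' B := by
    ext i j
    rw [LinearMap.BilinForm.toMatrix'_apply]
    rfl
  have h2 : bf (Cfsg.Geo.gramMatrix f) x y = Matrix.toBilin' (Cfsg.Geo.gramMatrix f) x y := by
    rw [Matrix.toBilin'_apply']
    rfl
  rw [h2, h1, Matrix.toBilin'_toMatrix']
  rfl

private theorem formOfGram_eq' {κ : Type} [Fintype κ] [DecidableEq κ] (G : Matrix κ κ F)
    (x y : κ → F) : Cfsg.Geo.formOfGram id G x y = x ⬝ᵥ G *ᵥ y := by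
  rw [← Matrix.toBilin'_apply', Matrix.toBilin'_apply]
  rfl

private theorem gram_symp {k : ℕ} {f : (Fin k → F) → (Fin k → F) → F}
    (hf : Cfsg.Geo.IsSymplecticForm f) : IsSympMat (Cfsg.Geo.gramMatrix f) := by
  refine ⟨fun v => by rw [bf_gram hf.bilinear]; exact hf.alternating v, ?_⟩
  rw [isUnit_iff_ne_zero]
  intro h0
  obtain ⟨v, hv, hv0⟩ := Matrix.exists_mulVec_eq_zero_iff.2 h0
  obtain ⟨⟨x, hx⟩, -⟩ := hf.nondegenerate v hv
  apply hx
  rw [← bf_gram hf.bilinear, bf, hv0, dotProduct_zero]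

private theorem gram_symm {k : ℕ} {f : (Fin k → F) → (Fin k → F) → F}
    (hf : Cfsg.Geo.IsSymmetricForm f) : IsSymmMat (Cfsg.Geo.gramMatrix f) := by
  refine ⟨?_, ?_⟩
  · ext i j
    exact hf.symm _ _
  · rw [isUnit_iff_ne_zero]
    intro h0
    obtain ⟨v, hv, hv0⟩ := Matrix.exists_mulVec_eq_zero_iff.2 h0
    obtain ⟨⟨x, hx⟩, -⟩ := hf.nondegenerate v hv
    apply hx
    rw [← bf_gram hf.bilinear, bf, hv0, dotProduct_zero]

private theorem smul_symp {k : ℕ} {J : Matrix (Fin k) (Fin k) F} (hJ : IsSympMat J) {c : F}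
    (hc : c ≠ 0) : IsSympMat (c • J) := by
  refine ⟨fun v => ?_, ?_⟩
  · have := hJ.alt v
    unfold bf at this ⊢
    rw [Matrix.smul_mulVec, dotProduct_smul, this, smul_zero]
  · rw [Matrix.det_smul]
    exact (IsUnit.pow _ (isUnit_iff_ne_zero.2 hc)).mul hJ.unit

/-- `J₁ = c • gramMatrix f₁`, `J₂ = gramMatrix f₂` (compare `H49SMkDat.exists_dat`).  `formOfGram id G x y = x ⬝ᵥ G *ᵥ y`. -/
theorem exists_dat {m : ℕ} (e : (Fin m ⊕ Fin m) ≃ Fin a × Fin b)
    (P : Matrix.GeneralLinearGroup (Fin m ⊕ Fin m) F) (f₁ : (Fin a → F) → (Fin a → F) → F)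
    (f₂ : (Fin b → F) → (Fin b → F) → F) (hf₁ : Cfsg.Geo.IsSymplecticForm f₁) (hf₂ : Cfsg.Geo.IsSymmetricForm f₂)
    (hT : Cfsg.Geo.IsTensorFormStructure id (Cfsg.sympForm m F) f₁ f₂ e P) :
    ∃ D : TDat F a b, ∀ x y, D.ff x y = Cfsg.sympForm m F ((P : Matrix (Fin m ⊕ Fin m) (Fin m ⊕ Fin m) F) *ᵥ (x ∘ e))
      ((P : Matrix (Fin m ⊕ Fin m) (Fin m ⊕ Fin m) F) *ᵥ (y ∘ e)) := by
  obtain ⟨c, hc, hT⟩ := hT
  refine ⟨⟨c • Cfsg.Geo.gramMatrix f₁, Cfsg.Geo.gramMatrix f₂, smul_symp (gram_symp hf₁) hc,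
    gram_symm hf₂⟩, fun x y => ?_⟩
  rw [hT, formOfGram_eq']
  unfold TDat.ff
  rw [Matrix.smul_kronecker, Matrix.smul_mulVec, dotProduct_smul, smul_eq_mul]

end Cfsg.Agent.Lib.H96KMkDat
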