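import Cfsg.Agent.Lib.Helper96KDefs
import Cfsg.Agent.Lib.H96KFormA
import Cfsg.Agent.Lib.H96KFormB
import Cfsg.Agent.Lib.H96KFN
import Cfsg.Agent.Lib.H96KCalc

/-!
PROJECT 196 (TKL), piece Proper.  See notes/helper96/K/README.md.
-/

set_option autoImplicit false
set_option linter.unusedSectionVars false
set_option linter.unusedVariables false

namespace Cfsg.Agent.Lib.H96KProper

open scoped Matrix Kronecker
open Matrix Polynomial Cfsg.Agent.Lib.Helper49TDefs Cfsg.Agent.Lib.Helper49SDefs Cfsg.Agent.Lib.Helper96KDefs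
open Cfsg.Agent.Lib.H96KFormA
open Cfsg.Agent.Lib.H96KFormB
open Cfsg.Agent.Lib.H96KFN
open Cfsg.Agent.Lib.H96KCalc

variable {F : Type*} [Field F] {a b n : ℕ}

local notation "Mn" => Matrix (Fin a × Fin b) (Fin a × Fin b) F
local notation "GLn" => Matrix.GeneralLinearGroup (Fin a × Fin b) F
local notation "Mb" => Matrix (Fin b) (Fin b) F
local notation "Ma" => Matrix (Fin a) (Fin a) F

/-- `1 + T ⊗ N` (`T² = 0`, `T ≠ 0`, `N ≠ 0` of rank one, `b ≥ 2`) is not a Kronecker product with an invertible first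
factor. -/
theorem not_kron (hb : 2 ≤ b) (T : Ma) (hT0 : T ≠ 0) (hTT : T * T = 0) (c d : Fin b → F)
    (hN : Matrix.vecMulVec c d ≠ 0) (A : Matrix.GeneralLinearGroup (Fin a) F) (B : Mb)
    (h : (1 : Mn) + T ⊗ₖ Matrix.vecMulVec c d = (A : Ma) ⊗ₖ B) : False := by
  have hblk : ∀ i j : Fin b, (if i = j then (1 : Ma) else 0) + (c i * d j) • T = B i j • (A : Ma) := by
    intro i j
    have := congrArg (fun X => blk X i j) h
    simp only [blk_add, blk_one, blk_kron, Matrix.vecMulVec_apply] at this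
    exact this
  by_cases hoff : ∃ i j : Fin b, i ≠ j ∧ c i * d j ≠ 0
  · obtain ⟨i, j, hij, hne⟩ := hoff
    have h1 := hblk i j
    rw [if_neg hij, zero_add] at h1
    have h2 : T = ((c i * d j)⁻¹ * B i j) • (A : Ma) := by
      rw [mul_smul, ← h1, smul_smul, inv_mul_cancel₀ hne, one_smul]
    set k := (c i * d j)⁻¹ * B i j with hk
    have hk0 : k ≠ 0 := by
      intro h0
      rw [h0, zero_smul] at h2
      exact hT0 h2
    have h3 : (A : Ma) * T = 0 := by
      have : k • ((A : Ma) * T) = 0 := by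
        rw [← Matrix.smul_mul, ← h2, hTT]
      exact (smul_eq_zero.1 this).resolve_left hk0
    apply hT0
    have h4 : ((A⁻¹ : Matrix.GeneralLinearGroup (Fin a) F) : Ma) * ((A : Ma) * T) = 0 := by
      rw [h3, mul_zero]
    rwa [← mul_assoc, ← Units.val_mul, inv_mul_cancel, Units.val_one, one_mul] at h4
  · push Not at hoff
    obtain ⟨i, hi⟩ : ∃ i, c i * d i ≠ 0 := by
      by_contra hcon
      push Not at hcon
      apply hN
      ext i j
      rw [Matrix.vecMulVec_apply, Matrix.zero_apply]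
      by_cases hij : i = j
      · subst hij; exact hcon i
      · exact hoff i j hij
    obtain ⟨j, hj⟩ : ∃ j : Fin b, j ≠ i := by
      by_cases h0 : i = ⟨0, by omega⟩
      · exact ⟨⟨1, by omega⟩, by rw [h0]; simp [Fin.ext_iff]⟩
      · exact ⟨⟨0, by omega⟩, fun h => h0 h.symm⟩
    have hci : c i ≠ 0 := left_ne_zero_of_mul hi
    have hdj : d j = 0 := by
      have := hoff i j hj.symm
      exact (mul_eq_zero.1 this).resolve_left hci
    have h1 := hblk j j
    rw [if_pos rfl, hdj, mul_zero, zero_smul, add_zero] at h1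
    have h2 := hblk i i
    rw [if_pos rfl] at h2
    set β := B j j with hβ
    have hβ0 : β ≠ 0 := by
      intro h0
      rw [h0, zero_smul] at h1
      apply hT0
      rw [← mul_one T, h1, mul_zero]
    have h3 : (β * (c i * d i)) • T = (B i i - β) • (1 : Ma) := by
      have e : (c i * d i) • T = B i i • (A : Ma) - 1 := by rw [← h2]; abel
      rw [mul_smul, e, smul_sub, smul_comm, ← h1, sub_smul]
    have h4 : T = ((β * (c i * d i))⁻¹ * (B i i - β)) • (1 : Ma) := by
      rw [mul_smul, ← h3, smul_smul, inv_mul_cancel₀ (mul_ne_zero hβ0 hi), one_smul]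
    set k := (β * (c i * d i))⁻¹ * (B i i - β) with hk
    have h5 : k • T = 0 := by
      have : T * T = k • T := by
        have e : T * T = (k • (1 : Ma)) * T := by rw [← h4]
        rw [e, Matrix.smul_mul, one_mul]
      rw [← this, hTT]
    rcases smul_eq_zero.1 h5 with h0 | h0
    · rw [h0, zero_smul] at h4
      exact hT0 h4
    · exact hT0 h0

theorem NJ_ne_zero {J : Matrix (Fin n) (Fin n) F} {u : Fin n → F} (hu : u ≠ 0)
    (hx : ∃ x, bf J x u = 1) : NJ J u u ≠ 0 := by
  obtain ⟨x, hx⟩ := hx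
  intro h0
  have := NJ_mulVec J u u x
  rw [h0, Matrix.zero_mulVec, hx, one_smul] at this
  exact hu this.symm

/-- the transvection `g = 1 + TV D (u ⊗ c)` (`u, c ≠ 0`) is in `SpG D` but not a Kronecker product.  If `g = A ⊗ B`: all generalised blocks `GB g ξ η = (ξ ⬝ η) 1 + (ξ ⬝ u)(J₁u ⬝ η) N₂(c,c)`
would be multiples of `B` (`GB_kron`); choose `(ξ, η)` with `ξ ⬝ η = 1`, `J₁u ⬝ η = 0` [block `= 1`] and `(ξ', η')` with `ξ' ⬝ η' = 0`, `ξ' ⬝ u = 1 = J₁u ⬝ η'` [block `= N₂(c,c)`, needs `a ≥ 2`]: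
`1` and `N₂(c,c) ≠ 0` (rank one, `b ≥ 2`) are not proportional to a common `B`.  (Or use `rank (g - 1) = 1` and the project 49 lemma `eq_one_kron_of_rank`.) -/
theorem proper (D : TDat F a b) (ha : 2 ≤ a) (hb : 2 ≤ b) : ¬ SpG D ≤ KS a b F := by
  intro hle
  set u : Fin a → F := Pi.single ⟨0, by omega⟩ 1 with hu
  set c : Fin b → F := Pi.single ⟨0, by omega⟩ 1 with hc
  have hu0 : u ≠ 0 := by
    intro h0
    have := congrFun h0 ⟨0, by omega⟩
    simp [hu] at this
  have hc0 : c ≠ 0 := by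
    intro h0
    have := congrFun h0 ⟨0, by omega⟩
    simp [hc] at this
  set v := tens u c with hv
  have hsq : TV D v * TV D v = 0 := TV_sq D v
  let g : GLn :=
    { val := 1 + TV D v
      inv := 1 - TV D v
      val_inv := by
        have : (1 + TV D v) * (1 - TV D v) = 1 - TV D v * TV D v := by noncomm_ring
        rw [this, hsq, sub_zero]
      inv_val := by
        have : (1 - TV D v) * (1 + TV D v) = 1 - TV D v * TV D v := by noncomm_ring
        rw [this, hsq, sub_zero] }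
  have hg : g ∈ SpG D := by
    rw [mem_SpG]
    intro x y
    change D.ff ((1 + TV D v) *ᵥ x) ((1 + TV D v) *ᵥ y) = D.ff x y
    rw [Matrix.add_mulVec, Matrix.add_mulVec, Matrix.one_mulVec, Matrix.one_mulVec, TV_mulVec,
      TV_mulVec]
    simp only [ff_add_left, ff_add_right, ff_smul_left, ff_smul_right, ff_self]
    rw [ff_swap D v y]
    ring
  obtain ⟨A, B, hAB⟩ := hle hg
  have hAB' : (1 : Mn) + NJ D.J₁ u u ⊗ₖ Matrix.vecMulVec c (D.J₂ *ᵥ c) = (A : Ma) ⊗ₖ (B : Mb) := by
    rw [← hAB]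
    change _ = 1 + TV D v
    rw [hv, TV_tens]
    rfl
  refine not_kron hb (NJ D.J₁ u u) (NJ_ne_zero hu0 (D.h₁.exists_ne_zero hu0)) ?_ c (D.J₂ *ᵥ c)
    (NJ_ne_zero hc0 (symm_exists_ne_zero D.h₂ hc0)) A (B : Mb) hAB'
  rw [NJ_mul, D.h₁.alt, zero_smul]

end Cfsg.Agent.Lib.H96KProper
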