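import Cfsg.Agent.Lib.Helper96KDefs
import Cfsg.Agent.Lib.H96KFormA
import Cfsg.Agent.Lib.H40O6CW

/-!
PROJECT 196 (TKL), piece Sing.  See notes/helper96/K/README.md.
-/

set_option autoImplicit false
set_option linter.unusedSectionVars false
set_option linter.unusedVariables false

namespace Cfsg.Agent.Lib.H96KSing

open scoped Matrix Kronecker
open Matrix Polynomial Cfsg.Agent.Lib.Helper49TDefs Cfsg.Agent.Lib.Helper49SDefs Cfsg.Agent.Lib.Helper96KDefs
open Cfsg.Agent.Lib.H96KFormA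

variable {F : Type*} [Field F] {a b n : ℕ}

local notation "Mn" => Matrix (Fin a × Fin b) (Fin a × Fin b) F
local notation "GLn" => Matrix.GeneralLinearGroup (Fin a × Fin b) F
local notation "Mb" => Matrix (Fin b) (Fin b) F
local notation "Ma" => Matrix (Fin a) (Fin a) F

/-- a nondegenerate symmetric form in ≥ 3 variables over a finite field of odd characteristic is isotropic.
(Search the team library first: e.g. `grep -rn "isotropic\|exists_sing" Cfsg/Agent/Lib`.  By hand: orthogonal vectors `e₁ e₂ e₃` non-singular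
(`LinearMap.BilinForm.exists_orthogonal_basis` or Gram-Schmidt), and `α x² + β y² + γ = 0` is solvable: `FiniteField.exists_root_sum_quadratic`.) -/
theorem exists_sing [Fintype F] {J : Matrix (Fin n) (Fin n) F} (hJ : IsSymmMat J) (h2 : (2 : F) ≠ 0) (hn : 3 ≤ n) :
    ∃ x, x ≠ 0 ∧ bf J x x = 0 := by
  classical
  have hp : Fact (ringChar F).Prime := ⟨CharP.char_is_prime F (ringChar F)⟩
  have hev : ∀ x : Fin n → F, MvPolynomial.eval x (Cfsg.Agent.Lib.H40O6CW.qpoly (Matrix.toBilin' J)) = bf J x x := by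
    intro x
    rw [Cfsg.Agent.Lib.H40O6CW.eval_qpoly, Matrix.toBilin'_apply']
    rfl
  have hd : (Cfsg.Agent.Lib.H40O6CW.qpoly (Matrix.toBilin' J)).totalDegree < Fintype.card (Fin n) := by
    have h1 := Cfsg.Agent.Lib.H40O6CW.totalDegree_qpoly (Matrix.toBilin' J)
    rw [Fintype.card_fin]
    omega
  have hdvd := char_dvd_card_solutions (ringChar F) hd
  let z : { x : Fin n → F // MvPolynomial.eval x (Cfsg.Agent.Lib.H40O6CW.qpoly (Matrix.toBilin' J)) = 0 } :=
    ⟨0, by rw [hev]; simp⟩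
  have hpos : 0 < Fintype.card { x : Fin n → F //
      MvPolynomial.eval x (Cfsg.Agent.Lib.H40O6CW.qpoly (Matrix.toBilin' J)) = 0 } := Fintype.card_pos_iff.2 ⟨z⟩
  have h1 : 1 < Fintype.card { x : Fin n → F //
      MvPolynomial.eval x (Cfsg.Agent.Lib.H40O6CW.qpoly (Matrix.toBilin' J)) = 0 } :=
    lt_of_lt_of_le hp.out.one_lt (Nat.le_of_dvd hpos hdvd)
  obtain ⟨y, hy⟩ := Fintype.exists_ne_of_one_lt_card h1 z
  refine ⟨y.1, fun h0 => hy (Subtype.ext h0), ?_⟩
  rw [← hev]; exact y.2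

/-- `x₀ ≠ 0` singular.  If `bf x₀ y ≠ 0` done.  Else `w` with `bf x₀ w = 1`, `w' = w - (bf w w / 2) x₀` singular, `bf x₀ w' = 1`.  If `bf w' y ≠ 0` done.
Else `x = -(ν/2) x₀ + w' + y`, `ν = bf y y`: `bf x x = -ν + ν = 0`, `bf x y = ν ≠ 0`. -/
theorem exists_sing_not_perp [Fintype F] {J : Matrix (Fin n) (Fin n) F} (hJ : IsSymmMat J) (h2 : (2 : F) ≠ 0)
    (hn : 3 ≤ n) {y : Fin n → F} (hy : bf J y y ≠ 0) : ∃ x, bf J x x = 0 ∧ bf J x y ≠ 0 := by
  obtain ⟨x₀, hx0, hs0⟩ := exists_sing hJ h2 hn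
  by_cases h1 : bf J x₀ y = 0
  swap
  · exact ⟨x₀, hs0, h1⟩
  obtain ⟨w, hw⟩ := symm_exists_ne_zero hJ hx0
  have hw' : bf J x₀ w = 1 := by rw [symm_swap hJ]; exact hw
  have hyx : bf J y x₀ = 0 := by rw [symm_swap hJ]; exact h1
  by_cases h3 : bf J (w - (bf J w w / 2) • x₀) y = 0
  swap
  · refine ⟨_, ?_, h3⟩
    simp only [bf_sub_left, bf_sub_right, bf_smul_left, bf_smul_right, hs0, hw, hw']
    field_simp
    ring
  have h3' : bf J w y = 0 := by
    simp only [bf_sub_left, bf_smul_left, h1] at h3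
    simpa using h3
  have hyw : bf J y w = 0 := by rw [symm_swap hJ]; exact h3'
  refine ⟨(-(bf J y y / 2)) • x₀ + (w - (bf J w w / 2) • x₀) + y, ?_, ?_⟩
  · simp only [bf_add_left, bf_add_right, bf_sub_left, bf_sub_right, bf_smul_left, bf_smul_right, hs0, hw, hw',
      h1, hyx, h3', hyw]
    field_simp
    ring
  · simp only [bf_add_left, bf_sub_left, bf_smul_left, h1, h3']
    simpa using hy

end Cfsg.Agent.Lib.H96KSing
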