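import Cfsg.Agent.Lib.Helper96KDefs
import Cfsg.Agent.Lib.H96KFormA
import Cfsg.Agent.Lib.H96KFormB
import Cfsg.Agent.Lib.H96KTCb
import Cfsg.Agent.Lib.H96KSing

/-!
PROJECT 196 (TKL), piece Pure.  See notes/helper96/K/README.md.
-/

set_option autoImplicit false
set_option linter.unusedSectionVars false
set_option linter.unusedVariables false

namespace Cfsg.Agent.Lib.H96KPure

open scoped Matrix Kronecker
open Matrix Polynomial Cfsg.Agent.Lib.Helper49TDefs Cfsg.Agent.Lib.Helper49SDefs Cfsg.Agent.Lib.Helper96KDefs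
open Cfsg.Agent.Lib.H96KFormA
open Cfsg.Agent.Lib.H96KFormB
open Cfsg.Agent.Lib.H96KTCb
open Cfsg.Agent.Lib.H96KSing

variable {F : Type*} [Field F] {a b n : ℕ}

local notation "Mn" => Matrix (Fin a × Fin b) (Fin a × Fin b) F
local notation "GLn" => Matrix.GeneralLinearGroup (Fin a × Fin b) F
local notation "Mb" => Matrix (Fin b) (Fin b) F
local notation "Ma" => Matrix (Fin a) (Fin a) F

/-- all pure tensors are centres.  `u = 0` or `bf y y = 0`: clear.  Else `x` singular with `β = bf x y ≠ 0`; `x' = y - (ν/(2β)) x` is singular (`ν = bf y y`), `bf x x' = β`,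
`y = x' + κ x`, `κ = ν/(2β)`.  Take `u'` with `bf J₁ u u' = 1`.  `v₁ = u ⊗ (κ x) + u' ⊗ x' ∈ TC` (`TC_add`, `ff = κ β ≠ 0`... note `κ ≠ 0`), `v₂ = (u - u') ⊗ x' ∈ TC`,
`ff v₁ v₂ = ff (u ⊗ κx) ((u - u') ⊗ x') = -κ β ≠ 0`, `v₁ + v₂ = u ⊗ (κ x + x') = u ⊗ y`. -/
theorem TC_pure [Fintype F] {D : TDat F a b} {H : Subgroup GLn} (h2 : (2 : F) ≠ 0) (hb : 3 ≤ b)
    (h : ∀ (u : Fin a → F) (x : Fin b → F), bf D.J₂ x x = 0 → tens u x ∈ TC D H) :
    ∀ (u : Fin a → F) (y : Fin b → F), tens u y ∈ TC D H := by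
  intro u y
  by_cases hu : u = 0
  · subst hu
    rw [tens_zero_left']
    exact TC_zero
  by_cases hy : bf D.J₂ y y = 0
  · exact h u y hy
  obtain ⟨x, hx, hxy⟩ := exists_sing_not_perp D.h₂ h2 hb hy
  obtain ⟨u', hu'⟩ := D.h₁.exists_ne_zero hu
  -- `bf J₁ u' u = 1`
  set β := bf D.J₂ x y with hβ
  set ν := bf D.J₂ y y with hν
  set κ := ν / (2 * β) with hκ
  have hκ0 : κ ≠ 0 := div_ne_zero hy (mul_ne_zero h2 hxy)
  have hyx : bf D.J₂ y x = β := symm_swap D.h₂ y x
  set x' := y - κ • x with hx'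
  have hx's : bf D.J₂ x' x' = 0 := by
    rw [hx']
    simp only [bf_sub_left, bf_sub_right, bf_smul_left, bf_smul_right, hx, hyx, ← hβ, ← hν]
    rw [hκ]
    field_simp
    ring
  have hxx' : bf D.J₂ x x' = β := by
    rw [hx']
    simp only [bf_sub_right, bf_smul_right, hx, ← hβ]
    ring
  have huu : bf D.J₁ u u = 0 := by
    have := D.h₁.alt u
    exact this
  have huu' : bf D.J₁ u u' = -1 := by rw [D.h₁.swap, hu']
  have hv1 : tens u (κ • x) + tens u' x' ∈ TC D H := by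
    refine TC_add (h u _ ?_) (h u' _ hx's) ?_
    · simp [hx]
    · rw [ff_tens, huu']
      simp only [bf_smul_left, hxx']
      simpa using ⟨hκ0, hxy⟩
  have hv2 : tens (u - u') x' ∈ TC D H := h _ _ hx's
  have hadd := TC_add hv1 hv2 (by
    rw [ff_add_left, ff_tens, ff_tens, hx's, mul_zero, add_zero]
    simp only [bf_sub_right, huu, huu', bf_smul_left, hxx']
    simpa using ⟨hκ0, hxy⟩)
  have e : tens u (κ • x) + tens u' x' + tens (u - u') x' = tens u y := by
    have e1 : tens (u - u') x' = tens u x' - tens u' x' := by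
      rw [sub_eq_add_neg, tens_add_left, ← neg_one_smul F u', tens_smul_left, neg_one_smul, ← sub_eq_add_neg]
    rw [e1]
    have e2 : y = κ • x + x' := by rw [hx']; abel
    conv_rhs => rw [e2, tens_add_right]
    abel
  rw [e] at hadd
  exact hadd

end Cfsg.Agent.Lib.H96KPure
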