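import Cfsg.Agent.Lib.Helper96KDefs
import Cfsg.Agent.Lib.H96KFormB
import Cfsg.Agent.Lib.H96KFN
import Cfsg.Agent.Lib.Helper95Sp

/-!
PROJECT 196 (TKL), piece SpLe.  See notes/helper96/K/README.md.
-/

set_option autoImplicit false
set_option linter.unusedSectionVars false
set_option linter.unusedVariables false

namespace Cfsg.Agent.Lib.H96KSpLe

open scoped Matrix Kronecker
open Matrix Polynomial Cfsg.Agent.Lib.Helper49TDefs Cfsg.Agent.Lib.Helper49SDefs Cfsg.Agent.Lib.Helper96KDefs
open Cfsg.Agent.Lib.H96KFormB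
open Cfsg.Agent.Lib.H96KFN

variable {F : Type*} [Field F] {a b n : ℕ}

local notation "Mn" => Matrix (Fin a × Fin b) (Fin a × Fin b) F
local notation "GLn" => Matrix.GeneralLinearGroup (Fin a × Fin b) F
local notation "Mb" => Matrix (Fin b) (Fin b) F
local notation "Ma" => Matrix (Fin a) (Fin a) F

/-- the identification of `GL(V)` with the linear automorphisms of `V` -/
noncomputable def glE (a b : ℕ) (F : Type*) [Field F] :
    Matrix.GeneralLinearGroup (Fin a × Fin b) F ≃*
      ((Fin a × Fin b → F) ≃ₗ[F] (Fin a × Fin b → F)) :=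
  Matrix.GeneralLinearGroup.toLin.trans (LinearMap.GeneralLinearGroup.generalLinearEquiv F _)

theorem glE_apply (g : GLn) (x : Fin a × Fin b → F) : glE a b F g x = (g : Mn) *ᵥ x := by
  simp [glE, Matrix.GeneralLinearGroup.toLin]

/-- `Sp` is generated by transvections: `Helper95Sp.mem_of_isometry` for `V = Fin a × Fin b → F`, `B` = the bilinear form `D.ff` (alternating by `ff_self`, nondegenerate by `ff_nondeg`),
`G` = the subgroup of `V ≃ₗ V` of those `e` whose matrix lies in `H` (comap of `H` along `Matrix.GeneralLinearGroup.toLin`/`LinearMap.GeneralLinearGroup.generalLinearEquiv`; compare `H49SSp2`).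
`stv B hA v c` has matrix `1 + c TV D v` (up to the sign convention of `stv`: replace `c` by `-c` if necessary). -/
theorem sp_le {D : TDat F a b} {H : Subgroup GLn} (h : ∀ v, v ∈ TC D H) : SpG D ≤ H := by
  intro g hg
  have hB : ∀ x y, Matrix.toBilin' (D.J₁ ⊗ₖ D.J₂) x y = D.ff x y :=
    fun x y => Matrix.toBilin'_apply' _ x y
  have hA : (Matrix.toBilin' (D.J₁ ⊗ₖ D.J₂)).IsAlt := fun x => by rw [hB]; exact ff_self D x
  have hN : (Matrix.toBilin' (D.J₁ ⊗ₖ D.J₂)).Nondegenerate := by
    rw [Matrix.nondegenerate_toBilin'_iff]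
    apply Matrix.nondegenerate_of_det_ne_zero
    rw [Matrix.det_kronecker]
    exact mul_ne_zero (pow_ne_zero _ D.h₁.unit.ne_zero) (pow_ne_zero _ D.h₂.unit.ne_zero)
  have key := Cfsg.Agent.Lib.Helper95Sp.mem_of_isometry hN hA
    (H.map (glE a b F).toMonoidHom) ?_ (glE a b F g) ?_
  · obtain ⟨g', hg', he⟩ := key
    have : g' = g := (glE a b F).injective he
    rwa [← this]
  · intro v c
    obtain ⟨g0, hg0, e0⟩ := (FN_iff.mp (h v)).2 c
    refine ⟨g0, hg0, ?_⟩
    ext1 x
    change glE a b F g0 x = _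
    rw [glE_apply, e0, Cfsg.Agent.Lib.Helper95Sp.stv_apply, hB, Matrix.add_mulVec,
      Matrix.one_mulVec, Matrix.smul_mulVec, TV_mulVec, smul_smul]
  · intro x y
    rw [hB, hB, glE_apply, glE_apply]
    exact hg x y

end Cfsg.Agent.Lib.H96KSpLe
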