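import Cfsg.Agent.Lib.Helper96KDefs
import Cfsg.Agent.Lib.H96KFormA
import Cfsg.Agent.Lib.H96KCalc
import Cfsg.Agent.Lib.H96KInv
import Cfsg.Agent.Lib.H96KKronSim

/-!
PROJECT 196 (TKL), piece StepA.  See notes/helper96/K/README.md.
-/

set_option autoImplicit false
set_option linter.unusedSectionVars false
set_option linter.unusedVariables false

namespace Cfsg.Agent.Lib.H96KStepA

open scoped Matrix Kronecker
open Matrix Polynomial Cfsg.Agent.Lib.Helper49TDefs Cfsg.Agent.Lib.Helper49SDefs Cfsg.Agent.Lib.Helper96KDefs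
open Cfsg.Agent.Lib.H96KFormA
open Cfsg.Agent.Lib.H96KCalc
open Cfsg.Agent.Lib.H96KInv
open Cfsg.Agent.Lib.H96KKronSim

variable {F : Type*} [Field F] {a b n : ℕ}

local notation "Mn" => Matrix (Fin a × Fin b) (Fin a × Fin b) F
local notation "GLn" => Matrix.GeneralLinearGroup (Fin a × Fin b) F
local notation "Mb" => Matrix (Fin b) (Fin b) F
local notation "Ma" => Matrix (Fin a) (Fin a) F

/-- **Step A.** -/
theorem stepA (D : TDat F a 3) (h2 : (2 : F) ≠ 0) {H : Subgroup (Matrix.GeneralLinearGroup (Fin a × Fin 3) F)}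
    (hH : H ≤ SpG D)
    (h : ∀ g ∈ H, ∀ u u' : Fin a → F, ∃ κ : F,
      GB (g : Matrix (Fin a × Fin 3) (Fin a × Fin 3) F) (D.J₁ *ᵥ u) u' *
        adjJ D.J₂ (GB (g : Matrix (Fin a × Fin 3) (Fin a × Fin 3) F) (D.J₁ *ᵥ u) u') = κ • 1) :
    H ≤ KS a 3 F := by
  intro g hg
  rcases Nat.eq_zero_or_pos a with ha | ha
  · subst ha
    have : g = 1 := by
      apply Units.ext
      ext i j
      exact i.1.elim0
    rw [this]
    exact Subgroup.one_mem _
  · have hrep : ∀ ξ : Fin a → F, ∃ u, D.J₁ *ᵥ u = ξ := by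
      intro ξ
      refine ⟨D.J₁⁻¹ *ᵥ ξ, ?_⟩
      rw [Matrix.mulVec_mulVec, Matrix.mul_nonsing_inv _ D.h₁.unit, Matrix.one_mulVec]
    apply kron_of_sim D h2 ha g
    · intro ξ η
      obtain ⟨u, rfl⟩ := hrep ξ
      exact h g hg u η
    · intro ξ η
      obtain ⟨u, rfl⟩ := hrep ξ
      obtain ⟨κ, hκ⟩ := h g⁻¹ (H.inv_mem hg) η u
      refine ⟨κ, ?_⟩
      rw [GB_inv D (hH hg) u η, adjJ_neg, adjJ_adjJ D.h₂, neg_mul_neg] at hκ
      exact hκ

end Cfsg.Agent.Lib.H96KStepA
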