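import Cfsg.Agent.Lib.Helper96KDefs
import Cfsg.Agent.Lib.H96KFN
import Cfsg.Agent.Lib.H96KComm

/-!
PROJECT 196 (TKL), piece Orc.  See notes/helper96/K/README.md.
-/

set_option autoImplicit false
set_option linter.unusedSectionVars false
set_option linter.unusedVariables false

namespace Cfsg.Agent.Lib.H96KOrc

open scoped Matrix Kronecker
open Matrix Polynomial Cfsg.Agent.Lib.Helper49TDefs Cfsg.Agent.Lib.Helper49SDefs Cfsg.Agent.Lib.Helper96KDefs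
open Cfsg.Agent.Lib.H96KFN
open Cfsg.Agent.Lib.H96KComm

variable {F : Type*} [Field F] {a b n : ℕ}

local notation "Mn" => Matrix (Fin a × Fin b) (Fin a × Fin b) F
local notation "GLn" => Matrix.GeneralLinearGroup (Fin a × Fin b) F
local notation "Mb" => Matrix (Fin b) (Fin b) F
local notation "Ma" => Matrix (Fin a) (Fin a) F

/-- the oracle for `N = T_u ⊗ 1`: `form_of_comm` + `Star`; `T_u ⊗ (κ • 1) = κ • (T_u ⊗ 1)` -/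
theorem orcN (D : TDat F a b) {H : Subgroup GLn} (hS : Star D H) {u : Fin a → F} (hu : u ≠ 0) (C : Mn)
    (hC : C * (NJ D.J₁ u u ⊗ₖ (1 : Mb)) = (NJ D.J₁ u u ⊗ₖ (1 : Mb)) * C)
    (h : C * (NJ D.J₁ u u ⊗ₖ (1 : Mb)) ∈ FN H) :
    ∃ κ : F, C * (NJ D.J₁ u u ⊗ₖ (1 : Mb)) = κ • (NJ D.J₁ u u ⊗ₖ (1 : Mb)) := by
  obtain ⟨σ, hσ⟩ := form_of_comm D hu C hC
  rw [hσ] at h
  obtain ⟨κ, rfl⟩ := hS u σ hu h
  exact ⟨κ, by rw [hσ, Matrix.kronecker_smul]⟩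

/-- the oracle for a conjugate `N' = g N₀ g⁻¹`: apply `orcN` to `g⁻¹ C g` (`FN_conj'`) and conjugate back -/
theorem orcN' (D : TDat F a b) {H : Subgroup GLn} (hS : Star D H) {u : Fin a → F} (hu : u ≠ 0) {g : GLn} (hg : g ∈ H)
    (C : Mn)
    (hC : C * ((g : Mn) * (NJ D.J₁ u u ⊗ₖ (1 : Mb)) * ((g⁻¹ : GLn) : Mn))
      = ((g : Mn) * (NJ D.J₁ u u ⊗ₖ (1 : Mb)) * ((g⁻¹ : GLn) : Mn)) * C)
    (h : C * ((g : Mn) * (NJ D.J₁ u u ⊗ₖ (1 : Mb)) * ((g⁻¹ : GLn) : Mn)) ∈ FN H) :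
    ∃ κ : F, C * ((g : Mn) * (NJ D.J₁ u u ⊗ₖ (1 : Mb)) * ((g⁻¹ : GLn) : Mn))
      = κ • ((g : Mn) * (NJ D.J₁ u u ⊗ₖ (1 : Mb)) * ((g⁻¹ : GLn) : Mn)) := by
  have h1 : (g : Mn) * ((g⁻¹ : GLn) : Mn) = 1 := by
    rw [← Units.val_mul, mul_inv_cancel, Units.val_one]
  have h2 : ((g⁻¹ : GLn) : Mn) * (g : Mn) = 1 := by
    rw [← Units.val_mul, inv_mul_cancel, Units.val_one]
  have hconj := FN_conj' h hg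
  have e1 : ((g⁻¹ : GLn) : Mn) * (C * ((g : Mn) * (NJ D.J₁ u u ⊗ₖ (1 : Mb)) * ((g⁻¹ : GLn) : Mn))) * (g : Mn)
      = (((g⁻¹ : GLn) : Mn) * C * (g : Mn)) * (NJ D.J₁ u u ⊗ₖ (1 : Mb)) := by
    calc ((g⁻¹ : GLn) : Mn) * (C * ((g : Mn) * (NJ D.J₁ u u ⊗ₖ (1 : Mb)) * ((g⁻¹ : GLn) : Mn))) * (g : Mn)
        = ((g⁻¹ : GLn) : Mn) * C * (g : Mn) * (NJ D.J₁ u u ⊗ₖ (1 : Mb)) * (((g⁻¹ : GLn) : Mn) * (g : Mn)) := by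
          simp only [Matrix.mul_assoc]
      _ = _ := by rw [h2, Matrix.mul_one]
  have e2 : ((g⁻¹ : GLn) : Mn) * (((g : Mn) * (NJ D.J₁ u u ⊗ₖ (1 : Mb)) * ((g⁻¹ : GLn) : Mn)) * C) * (g : Mn)
      = (NJ D.J₁ u u ⊗ₖ (1 : Mb)) * (((g⁻¹ : GLn) : Mn) * C * (g : Mn)) := by
    calc ((g⁻¹ : GLn) : Mn) * (((g : Mn) * (NJ D.J₁ u u ⊗ₖ (1 : Mb)) * ((g⁻¹ : GLn) : Mn)) * C) * (g : Mn)
        = (((g⁻¹ : GLn) : Mn) * (g : Mn)) * (NJ D.J₁ u u ⊗ₖ (1 : Mb)) * (((g⁻¹ : GLn) : Mn) * C * (g : Mn)) := by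
          simp only [Matrix.mul_assoc]
      _ = _ := by rw [h2, Matrix.one_mul]
  have hC' : (((g⁻¹ : GLn) : Mn) * C * (g : Mn)) * (NJ D.J₁ u u ⊗ₖ (1 : Mb))
      = (NJ D.J₁ u u ⊗ₖ (1 : Mb)) * (((g⁻¹ : GLn) : Mn) * C * (g : Mn)) := by
    rw [← e1, ← e2, hC]
  rw [e1] at hconj
  obtain ⟨κ, hκ⟩ := orcN D hS hu _ hC' hconj
  refine ⟨κ, ?_⟩
  have e3 : C * ((g : Mn) * (NJ D.J₁ u u ⊗ₖ (1 : Mb)) * ((g⁻¹ : GLn) : Mn))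
      = (g : Mn) * ((((g⁻¹ : GLn) : Mn) * C * (g : Mn)) * (NJ D.J₁ u u ⊗ₖ (1 : Mb))) * ((g⁻¹ : GLn) : Mn) := by
    calc C * ((g : Mn) * (NJ D.J₁ u u ⊗ₖ (1 : Mb)) * ((g⁻¹ : GLn) : Mn))
        = ((g : Mn) * ((g⁻¹ : GLn) : Mn)) * C * ((g : Mn) * (NJ D.J₁ u u ⊗ₖ (1 : Mb)) * ((g⁻¹ : GLn) : Mn)) := by
          rw [h1, Matrix.one_mul]
      _ = _ := by simp only [Matrix.mul_assoc]
  rw [e3, hκ, Matrix.mul_smul, Matrix.smul_mul]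

end Cfsg.Agent.Lib.H96KOrc
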