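import Cfsg.Agent.Lib.Helper96KDefs
import Cfsg.Agent.Lib.H96KFN
import Cfsg.Agent.Lib.H96KMem
import Cfsg.Agent.Lib.H96KKL
import Cfsg.Agent.Lib.H96KInv
import Cfsg.Agent.Lib.H96KOrc
import Cfsg.Agent.Lib.H96KCalc

/-!
PROJECT 196 (TKL), piece StepB.  See notes/helper96/K/README.md.
-/

set_option autoImplicit false
set_option linter.unusedSectionVars false
set_option linter.unusedVariables false

namespace Cfsg.Agent.Lib.H96KStepB

open scoped Matrix Kronecker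
open Matrix Polynomial Cfsg.Agent.Lib.Helper49TDefs Cfsg.Agent.Lib.Helper49SDefs Cfsg.Agent.Lib.Helper96KDefs
open Cfsg.Agent.Lib.H96KFN
open Cfsg.Agent.Lib.H96KMem
open Cfsg.Agent.Lib.H96KKL
open Cfsg.Agent.Lib.H96KInv
open Cfsg.Agent.Lib.H96KOrc
open Cfsg.Agent.Lib.H96KCalc

variable {F : Type*} [Field F] {a b n : ℕ}

local notation "Mn" => Matrix (Fin a × Fin b) (Fin a × Fin b) F
local notation "GLn" => Matrix.GeneralLinearGroup (Fin a × Fin b) F
local notation "Mb" => Matrix (Fin b) (Fin b) F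
local notation "Ma" => Matrix (Fin a) (Fin a) F

private theorem aeval_comm {Z N : Mn} (h : Z * N = N * Z) (ω : F[X]) :
    aeval Z ω * N = N * aeval Z ω := by
  have hc : Commute Z N := h
  induction ω using Polynomial.induction_on' with
  | add p q hp hq => rw [map_add, add_mul, mul_add, hp, hq]
  | monomial k r =>
    rw [Polynomial.aeval_monomial]
    have h1 : Commute (algebraMap F Mn r) N := Algebra.commutes r N
    exact h1.mul_left (hc.pow_left k)

/-- **Step B.** -/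
theorem stepB [Finite F] (D : TDat F a b) (h2 : (2 : F) ≠ 0) (h3 : Nat.card F ≠ 3) {H : Subgroup GLn}
    (hM : KS a b F ⊓ SpG D ≤ H) (hH : H ≤ SpG D) (hS : Star D H) {g : GLn} (hg : g ∈ H) (u u' : Fin a → F) :
    ∃ κ : F, GB (g : Mn) (D.J₁ *ᵥ u) u' * adjJ D.J₂ (GB (g : Mn) (D.J₁ *ᵥ u) u') = κ • 1 := by
  by_cases hu : u = 0
  · refine ⟨0, ?_⟩
    have h0 : D.J₁ *ᵥ u = (0 : F) • (0 : Fin a → F) := by rw [hu]; simp
    rw [h0, GB_smul_left]
    simp
  by_cases hu' : u' = 0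
  · refine ⟨0, ?_⟩
    have h0 : u' = (0 : F) • (0 : Fin a → F) := by rw [hu']; simp
    rw [h0, GB_smul_right]
    simp
  obtain ⟨N, hN⟩ : ∃ N : Mn, N = NJ D.J₁ u u ⊗ₖ (1 : Mb) := ⟨_, rfl⟩
  obtain ⟨N', hN'⟩ : ∃ N' : Mn, N' = (g : Mn) * (NJ D.J₁ u' u' ⊗ₖ (1 : Mb)) * ((g⁻¹ : GLn) : Mn) :=
    ⟨_, rfl⟩
  have fN : N ∈ FN H := hN ▸ FN_mono hM (Tu_mem D u)
  have fN' : N' ∈ FN H := hN' ▸ FN_conj (FN_mono hM (Tu_mem D u')) hg
  have sN : N * N = 0 := FN_sq fN
  have sN' : N' * N' = 0 := FN_sq fN'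
  have cN : (N * N' + N' * N) * N = N * (N * N' + N' * N) := by
    rw [add_mul, mul_add, mul_assoc N' N N, sN, mul_zero, add_zero, ← mul_assoc N N N', sN,
      zero_mul, zero_add, mul_assoc]
  have cN' : (N * N' + N' * N) * N' = N' * (N * N' + N' * N) := by
    rw [add_mul, mul_add, mul_assoc N N' N', sN', mul_zero, zero_add, ← mul_assoc N' N' N, sN',
      zero_mul, add_zero, mul_assoc]
  have key : N * N' * N ∈ FN H := by
    refine kl_matrix h2 h3 fN fN' ?_ ?_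
    · intro ω h
      have hc := aeval_comm cN ω
      rw [hN] at hc h ⊢
      exact orcN D hS hu _ hc h
    · intro ω h
      have hc := aeval_comm cN' ω
      rw [hN'] at hc h ⊢
      exact orcN' D hS hu' hg _ hc h
  rw [hN, hN', NNN D (hH hg) u u'] at key
  obtain ⟨κ, hκ⟩ := hS u _ hu key
  refine ⟨-κ, ?_⟩
  rw [neg_smul, ← hκ, neg_neg]

end Cfsg.Agent.Lib.H96KStepB
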