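import Cfsg.Agent.Lib.Helper96KDefs
import Cfsg.Agent.Lib.H96KFormA
import Cfsg.Agent.Lib.H96KAvoid

/-!
PROJECT 196 (TKL), piece NonEig.  See notes/helper96/K/README.md.
-/

set_option autoImplicit false
set_option linter.unusedSectionVars false
set_option linter.unusedVariables false

namespace Cfsg.Agent.Lib.H96KNonEig

open scoped Matrix Kronecker
open Matrix Polynomial Cfsg.Agent.Lib.Helper49TDefs Cfsg.Agent.Lib.Helper49SDefs Cfsg.Agent.Lib.Helper96KDefs
open Cfsg.Agent.Lib.H96KFormA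
open Cfsg.Agent.Lib.H96KAvoid

variable {F : Type*} [Field F] {a b n : ℕ}

local notation "Mn" => Matrix (Fin a × Fin b) (Fin a × Fin b) F
local notation "GLn" => Matrix.GeneralLinearGroup (Fin a × Fin b) F
local notation "Mb" => Matrix (Fin b) (Fin b) F
local notation "Ma" => Matrix (Fin a) (Fin a) F

/-- a non-singular vector exists: else `bf x y = 0` for all `x y` by polarisation (`2 ≠ 0`), contradicting nondegeneracy (`0 < n`) -/
theorem exists_nonsing {J : Matrix (Fin n) (Fin n) F} (hJ : IsSymmMat J) (h2 : (2 : F) ≠ 0) (hn : 0 < n) :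
    ∃ c, bf J c c ≠ 0 := by
  classical
  by_contra hcon
  push Not at hcon
  have hpol : ∀ d d', bf J d d' = 0 := by
    intro d d'
    have e3 := hcon (d + d')
    simp only [bf_add_left, bf_add_right, hcon d, hcon d', symm_swap hJ d' d] at e3
    have : 2 * bf J d d' = 0 := by linear_combination e3
    exact (mul_eq_zero.mp this).resolve_left h2
  have h0 : (Pi.single (⟨0, hn⟩ : Fin n) (1 : F) : Fin n → F) = 0 :=
    symm_eq_zero_of_right hJ (fun x => hpol _ _)
  have := congrFun h0 ⟨0, hn⟩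
  simp at this

theorem exists_noneigen [Fintype F] {J : Matrix (Fin n) (Fin n) F} (hJ : IsSymmMat J) (h2 : (2 : F) ≠ 0)
    (h5 : 5 ≤ Fintype.card F) (hn : 0 < n) {σ : Matrix (Fin n) (Fin n) F} (hσ : ∀ κ : F, σ ≠ κ • 1) :
    ∃ c, bf J c c ≠ 0 ∧ ∀ k : F, σ *ᵥ c ≠ k • c := by
  classical
  by_contra hcon
  push Not at hcon
  obtain ⟨c, hc⟩ := exists_nonsing hJ h2 hn
  obtain ⟨l, hl⟩ := hcon c hc
  have hc0 : c ≠ 0 := by
    rintro rfl
    simp at hc
  apply hσ l
  apply Matrix.toLin'.injective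
  apply LinearMap.ext
  intro v
  simp only [Matrix.toLin'_apply, Matrix.smul_mulVec, Matrix.one_mulVec]
  by_cases hv : ∃ s : F, v = s • c
  · obtain ⟨s, rfl⟩ := hv
    rw [Matrix.mulVec_smul, hl, smul_comm]
  · obtain ⟨t₁, t₂, ht₁, ht₂, ht, hp₁, hp₂⟩ := exists_avoid2 h5 (bf J c c) (2 * bf J c v) (bf J v v)
      (Or.inl hc)
    have hq : ∀ t : F, bf J (c + t • v) (c + t • v) = bf J c c + 2 * bf J c v * t + bf J v v * t ^ 2 := by
      intro t
      simp only [bf_add_left, bf_add_right, bf_smul_left, bf_smul_right, symm_swap hJ v c]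
      ring
    obtain ⟨m₁, hm₁⟩ := hcon (c + t₁ • v) (by rw [hq]; exact hp₁)
    obtain ⟨m₂, hm₂⟩ := hcon (c + t₂ • v) (by rw [hq]; exact hp₂)
    rw [Matrix.mulVec_add, Matrix.mulVec_smul, hl] at hm₁ hm₂
    have key : (t₁ * t₂ * (m₁ - m₂)) • v = ((t₂ - t₁) * l - t₂ * m₁ + t₁ * m₂) • c := by
      linear_combination (norm := module) (-t₂) • hm₁ + t₁ • hm₂
    have hmm : m₁ = m₂ := by
      by_contra hne
      apply hv
      have h3 : t₁ * t₂ * (m₁ - m₂) ≠ 0 := mul_ne_zero (mul_ne_zero ht₁ ht₂) (sub_ne_zero.mpr hne)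
      refine ⟨(t₁ * t₂ * (m₁ - m₂))⁻¹ * ((t₂ - t₁) * l - t₂ * m₁ + t₁ * m₂), ?_⟩
      rw [mul_smul, ← key, smul_smul, inv_mul_cancel₀ h3, one_smul]
    subst hmm
    have h4 : ((t₂ - t₁) * (l - m₁)) • c = 0 := by
      have : ((t₂ - t₁) * l - t₂ * m₁ + t₁ * m₁) • c = 0 := by
        rw [← key]
        simp
      rw [← this]
      congr 1
      ring
    have h5' : (t₂ - t₁) * (l - m₁) = 0 := (smul_eq_zero.mp h4).resolve_right hc0
    have h6 : l = m₁ := by
      rcases mul_eq_zero.mp h5' with h | h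
      · exact absurd (sub_eq_zero.mp h).symm ht
      · exact sub_eq_zero.mp h
    subst h6
    have h7 : t₁ • (σ *ᵥ v) = t₁ • (l • v) := by
      linear_combination (norm := module) hm₁
    exact smul_right_injective _ ht₁ h7

end Cfsg.Agent.Lib.H96KNonEig
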