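import Cfsg.Agent.Lib.Helper96KDefs
import Cfsg.Agent.Lib.H96KFormA
import Cfsg.Agent.Lib.H96KFormB
import Cfsg.Agent.Lib.H96KFN
import Cfsg.Agent.Lib.H96KMem
import Cfsg.Agent.Lib.H96KSSb

/-!
PROJECT 196 (TKL), piece Refl.  See notes/helper96/K/README.md.
-/

set_option autoImplicit false
set_option linter.unusedSectionVars false
set_option linter.unusedVariables false

namespace Cfsg.Agent.Lib.H96KRefl

open scoped Matrix Kronecker
open Matrix Polynomial Cfsg.Agent.Lib.Helper49TDefs Cfsg.Agent.Lib.Helper49SDefs Cfsg.Agent.Lib.Helper96KDefs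
open Cfsg.Agent.Lib.H96KFormA
open Cfsg.Agent.Lib.H96KFormB
open Cfsg.Agent.Lib.H96KFN
open Cfsg.Agent.Lib.H96KMem
open Cfsg.Agent.Lib.H96KSSb

variable {F : Type*} [Field F] {a b n : ℕ}

local notation "Mn" => Matrix (Fin a × Fin b) (Fin a × Fin b) F
local notation "GLn" => Matrix.GeneralLinearGroup (Fin a × Fin b) F
local notation "Mb" => Matrix (Fin b) (Fin b) F
local notation "Ma" => Matrix (Fin a) (Fin a) F

/-- **reflection trick.**  `r = 1 - 2P`, `P = α⁻¹ N₂(c,c)`, `α = bf c c`.  `σ - r σ r = 2(Pσ + σP) - 4 PσP ∈ 𝔖` (`SS_conj` with `refl_iso`, `SS_sub`).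
`σ P = α⁻¹ N₂(σc, c)` (`mul_NJ`), `P σ = α⁻¹ N₂(c, σc)` (σ self-adjoint: `SS_selfadj`; check on vectors with `NJ_mulVec`, `symm_bf_adjJ`),
`P σ P = κ P`, `κ = bf (σc) c / α`.  So `σ - rσr = (2/α) τ(c, σc - κ c)`; divide by `2/α` (`SS_smul`). -/
theorem SS_refl {D : TDat F a b} {H : Subgroup GLn} {u : Fin a → F} {σ : Mb} (h2 : (2 : F) ≠ 0)
    (hM : KS a b F ⊓ SpG D ≤ H) (hH : H ≤ SpG D) (hu : u ≠ 0) (h : σ ∈ SS D H u) {c : Fin b → F}
    (hc : bf D.J₂ c c ≠ 0) :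
    tau D c (σ *ᵥ c - (bf D.J₂ (σ *ᵥ c) c / bf D.J₂ c c) • c) ∈ SS D H u := by
  obtain ⟨B, hB, e1, e2⟩ := refl_iso D.h₂ hc
  have h1 := SS_sub h (SS_conj hM hB h)
  rw [e1, e2] at h1
  have hadj := SS_selfadj hH hu h
  have hNσ : NJ D.J₂ c c * σ = NJ D.J₂ c (σ *ᵥ c) := by
    apply Matrix.toLin'.injective
    apply LinearMap.ext
    intro v
    simp only [Matrix.toLin'_apply, ← Matrix.mulVec_mulVec, NJ_mulVec]
    rw [symm_bf_adjJ D.h₂, hadj]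
  have hσN : σ * NJ D.J₂ c c = NJ D.J₂ (σ *ᵥ c) c := mul_NJ _ _ _ _
  have hNσN : NJ D.J₂ c (σ *ᵥ c) * NJ D.J₂ c c = bf D.J₂ (σ *ᵥ c) c • NJ D.J₂ c c := by
    rw [← hNσ, mul_assoc, hσN, NJ_mul]
  have key : σ - (1 - (2 / bf D.J₂ c c) • NJ D.J₂ c c) * σ * (1 - (2 / bf D.J₂ c c) • NJ D.J₂ c c)
      = (2 / bf D.J₂ c c) • tau D c (σ *ᵥ c - (bf D.J₂ (σ *ᵥ c) c / bf D.J₂ c c) • c) := by
    have e : σ *ᵥ c - (bf D.J₂ (σ *ᵥ c) c / bf D.J₂ c c) • c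
        = σ *ᵥ c + (-(bf D.J₂ (σ *ᵥ c) c / bf D.J₂ c c)) • c := by
      rw [neg_smul, sub_eq_add_neg]
    rw [e, tau_add_right, tau_smul_right, tau_self]
    simp only [sub_mul, mul_sub, one_mul, mul_one, smul_mul_assoc, mul_smul_comm, hNσ, hσN, hNσN]
    unfold tau
    ext i j
    simp only [Matrix.sub_apply, Matrix.add_apply, Matrix.smul_apply, smul_eq_mul]
    field_simp
    ring
  rw [key] at h1
  have h3 := SS_smul h1 (bf D.J₂ c c / 2)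
  rw [smul_smul] at h3
  have e : bf D.J₂ c c / 2 * (2 / bf D.J₂ c c) = 1 := by
    field_simp
  rwa [e, one_smul] at h3

end Cfsg.Agent.Lib.H96KRefl
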