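import Cfsg.Agent.Lib.Helper96KDefs
import Cfsg.Agent.Lib.H96KFormA
import Cfsg.Agent.Lib.H96KMem
import Cfsg.Agent.Lib.H96KSSb
import Cfsg.Agent.Lib.H96KGoodOf
import Cfsg.Agent.Lib.H96KPerpNS

/-!
PROJECT 196 (TKL), piece SingMem.  See notes/helper96/K/README.md.
-/

set_option autoImplicit false
set_option linter.unusedSectionVars false
set_option linter.unusedVariables false

namespace Cfsg.Agent.Lib.H96KSingMem

open scoped Matrix Kronecker
open Matrix Polynomial Cfsg.Agent.Lib.Helper49TDefs Cfsg.Agent.Lib.Helper49SDefs Cfsg.Agent.Lib.Helper96KDefs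
open Cfsg.Agent.Lib.H96KFormA
open Cfsg.Agent.Lib.H96KMem
open Cfsg.Agent.Lib.H96KSSb
open Cfsg.Agent.Lib.H96KGoodOf
open Cfsg.Agent.Lib.H96KPerpNS

variable {F : Type*} [Field F] {a b n : ℕ}

local notation "Mn" => Matrix (Fin a × Fin b) (Fin a × Fin b) F
local notation "GLn" => Matrix.GeneralLinearGroup (Fin a × Fin b) F
local notation "Mb" => Matrix (Fin b) (Fin b) F
local notation "Ma" => Matrix (Fin a) (Fin a) F

/-- **C5.**  Find `z` Good with `bf z x = 0`: `z = c₀` if `bf c₀ x = 0`; otherwise `z = d` from `exists_perp_nonsing` (`Good` by `good_of`, since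
`τ(d, c₀) = τ(c₀, d) ∈ 𝔖`, `c₀ ≠ 0`, `c₀ ⊥ d`).  `e = 2z + x`: `bf e e = 4 bf z z ≠ 0`, `r_e z = -(z + x)`, `r_e x = x`; so
`τ(z + x, x) = - r_e τ(z, x) r_e⁻¹ ∈ 𝔖` (`tau_conj`, `SS_conj`, `SS_neg`).  `2 N₂(x,x) = τ(x,x) = τ(z+x, x) - τ(z, x)`. -/
theorem sing_mem [Fintype F] {D : TDat F a b} {H : Subgroup GLn} {u : Fin a → F} (h2 : (2 : F) ≠ 0)
    (h4 : 4 ≤ Fintype.card F) (hb : 3 ≤ b) (hM : KS a b F ⊓ SpG D ≤ H) {c₀ : Fin b → F} (hg : Good D H u c₀)
    {x : Fin b → F} (hx : bf D.J₂ x x = 0) : NJ D.J₂ x x ∈ SS D H u := by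
  -- a Good vector orthogonal to `x`
  have hz : ∃ z, Good D H u z ∧ bf D.J₂ z x = 0 := by
    by_cases hcx : bf D.J₂ c₀ x = 0
    · exact ⟨c₀, hg, hcx⟩
    · obtain ⟨d, hdd, hdc, hdx⟩ := exists_perp_nonsing D.h₂ h2 hb hx hcx
      refine ⟨d, ?_, hdx⟩
      have hc0 : c₀ ≠ 0 := by
        intro h0
        apply hg.1
        rw [h0]; simp
      refine good_of h2 h4 hM hdd hc0 ?_ ?_
      · rw [symm_swap D.h₂]; exact hdc
      · rw [tau_comm]; exact hg.2 d hdc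
  obtain ⟨z, hzg, hzx⟩ := hz
  have hxz : bf D.J₂ x z = 0 := by rw [symm_swap D.h₂]; exact hzx
  have hζ : bf D.J₂ z z ≠ 0 := hzg.1
  have hτ : tau D z x ∈ SS D H u := hzg.2 x hxz
  have hee : bf D.J₂ ((2 : F) • z + x) ((2 : F) • z + x) = 4 * bf D.J₂ z z := by
    simp only [bf_add_left, bf_add_right, bf_smul_left, bf_smul_right, hzx, hxz, hx]
    ring
  have hze : bf D.J₂ z ((2 : F) • z + x) = 2 * bf D.J₂ z z := by
    simp only [bf_add_right, bf_smul_right, hzx]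
    ring
  have hxe : bf D.J₂ x ((2 : F) • z + x) = 0 := by
    simp only [bf_add_right, bf_smul_right, hxz, hx]
    ring
  have h4' : (4 : F) ≠ 0 := by
    have : (4 : F) = 2 * 2 := by norm_num
    rw [this]; exact mul_ne_zero h2 h2
  have hee0 : bf D.J₂ ((2 : F) • z + x) ((2 : F) • z + x) ≠ 0 := by
    rw [hee]; exact mul_ne_zero h4' hζ
  obtain ⟨B, hB, e1, -⟩ := refl_iso D.h₂ hee0
  have hBz : (B : Mb) *ᵥ z = (-1 : F) • (z + x) := by
    rw [e1, Matrix.sub_mulVec, Matrix.one_mulVec, Matrix.smul_mulVec, NJ_mulVec, hze, hee, smul_smul]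
    have e : 2 / (4 * bf D.J₂ z z) * (2 * bf D.J₂ z z) = 1 := by
      field_simp
      norm_num
    rw [e, one_smul]
    ext i
    simp only [Pi.sub_apply, Pi.add_apply, Pi.smul_apply, smul_eq_mul]
    ring
  have hBx : (B : Mb) *ᵥ x = x := by
    rw [e1, Matrix.sub_mulVec, Matrix.one_mulVec, Matrix.smul_mulVec, NJ_mulVec, hxe, zero_smul,
      smul_zero, sub_zero]
  have h5 := SS_conj hM hB hτ
  rw [tau_conj hB, hBz, hBx, tau_comm, tau_smul_right, tau_add_right, tau_self] at h5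
  have h6 := SS_neg h5
  rw [neg_one_smul, neg_neg, tau_comm] at h6
  have h7 := SS_sub h6 hτ
  rw [add_sub_cancel_left] at h7
  have h8 := SS_smul h7 (2 : F)⁻¹
  rwa [smul_smul, inv_mul_cancel₀ h2, one_smul] at h8

end Cfsg.Agent.Lib.H96KSingMem
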