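import Cfsg.Agent.Lib.Helper96KDefs
import Cfsg.Agent.Lib.H96KFormA
import Cfsg.Agent.Lib.H96KFormB
import Cfsg.Agent.Lib.H96KFN
import Cfsg.Agent.Lib.H96KMem
import Cfsg.Agent.Lib.H96KSSb
import Cfsg.Agent.Lib.H96KRefl
import Cfsg.Agent.Lib.H96KNonEig
import Cfsg.Agent.Lib.H96KGoodOf
import Cfsg.Agent.Lib.H96KSingMem
import Cfsg.Agent.Lib.H49SWitt1

/-!
PROJECT 196 (TKL), piece StepC.  See notes/helper96/K/README.md.
-/

set_option autoImplicit false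
set_option linter.unusedSectionVars false
set_option linter.unusedVariables false

namespace Cfsg.Agent.Lib.H96KStepC

open scoped Matrix Kronecker
open Matrix Polynomial Cfsg.Agent.Lib.Helper49TDefs Cfsg.Agent.Lib.Helper49SDefs Cfsg.Agent.Lib.Helper96KDefs
open Cfsg.Agent.Lib.H96KFormA
open Cfsg.Agent.Lib.H96KFormB
open Cfsg.Agent.Lib.H96KFN
open Cfsg.Agent.Lib.H96KMem
open Cfsg.Agent.Lib.H96KSSb
open Cfsg.Agent.Lib.H96KRefl
open Cfsg.Agent.Lib.H96KNonEig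
open Cfsg.Agent.Lib.H96KGoodOf
open Cfsg.Agent.Lib.H96KSingMem

variable {F : Type*} [Field F] {a b n : ℕ}

local notation "Mn" => Matrix (Fin a × Fin b) (Fin a × Fin b) F
local notation "GLn" => Matrix.GeneralLinearGroup (Fin a × Fin b) F
local notation "Mb" => Matrix (Fin b) (Fin b) F
local notation "Ma" => Matrix (Fin a) (Fin a) F

/-- **Step C.**  `¬ Star` gives `u₀ ≠ 0` and a non-scalar `σ ∈ 𝔖_{u₀}`.  `exists_noneigen`: `c` non-singular, not an eigenvector; `SS_refl`: `τ(c,d) ∈ 𝔖`, `d = σc - κc ≠ 0`, `d ⊥ c`;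
`good_of`, `sing_mem`: `N₂(x,x) ∈ 𝔖_{u₀}`.  Move `u₀` to `u` (`H49SWitt1.exists_iso_vec`, `SS_move`; `u = 0`: `tens 0 x = 0`, `TV D 0 = 0`, `FN_zero`).  `TV_tens`. -/
theorem stepC [Fintype F] (D : TDat F a b) (h2 : (2 : F) ≠ 0) (h5 : 5 ≤ Fintype.card F) (hb : 3 ≤ b)
    {H : Subgroup GLn} (hM : KS a b F ⊓ SpG D ≤ H) (hH : H ≤ SpG D) (hS : ¬ Star D H) :
    ∀ (u : Fin a → F) (x : Fin b → F), bf D.J₂ x x = 0 → tens u x ∈ TC D H := by
  intro u x hx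
  unfold Cfsg.Agent.Lib.Helper96KDefs.Star at hS
  simp only [not_forall, not_exists] at hS
  obtain ⟨u₀, σ, hu₀, hσ, hns⟩ := hS
  have hσ' : σ ∈ SS D H u₀ := hσ
  obtain ⟨c, hc, hne⟩ := exists_noneigen D.h₂ h2 h5 (by omega) hns
  have h1 := SS_refl h2 hM hH hu₀ hσ' hc
  have hd : σ *ᵥ c - (bf D.J₂ (σ *ᵥ c) c / bf D.J₂ c c) • c ≠ 0 := sub_ne_zero.2 (hne _)
  have hdc : bf D.J₂ (σ *ᵥ c - (bf D.J₂ (σ *ᵥ c) c / bf D.J₂ c c) • c) c = 0 := by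
    rw [bf_sub_left, bf_smul_left, div_mul_cancel₀ _ hc, sub_self]
  have hg := good_of h2 (by omega) hM hc hd hdc h1
  have hs := sing_mem h2 (by omega) hb hM hg hx
  change TV D (tens u x) ∈ FN H
  rw [TV_tens]
  by_cases hu : u = 0
  · subst hu
    have e : NJ D.J₁ (0 : Fin a → F) 0 = 0 := by
      ext i j; simp [NJ, Matrix.vecMulVec]
    rw [e, Matrix.zero_kronecker]
    exact FN_zero
  · obtain ⟨g, hgi, hgu⟩ := Cfsg.Agent.Lib.H49SWitt1.exists_iso_vec D.h₁ hu₀ hu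
    have h7 : NJ D.J₂ x x ∈ SS D H ((g : Matrix (Fin a) (Fin a) F) *ᵥ u₀) := SS_move hM hgi hs
    rw [hgu] at h7
    exact h7

end Cfsg.Agent.Lib.H96KStepC
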