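import Cfsg.Agent.Lib.Helper96KDefs
import Cfsg.Agent.Lib.H96KStepA
import Cfsg.Agent.Lib.H96KStepB
import Cfsg.Agent.Lib.H96KStepC
import Cfsg.Agent.Lib.H96KPure
import Cfsg.Agent.Lib.H96KAll
import Cfsg.Agent.Lib.H96KSpLe
import Cfsg.Agent.Lib.H96KProper

/-!
PROJECT 196 (TKL), piece Std.  See notes/helper96/K/README.md.
-/

set_option autoImplicit false
set_option linter.unusedSectionVars false
set_option linter.unusedVariables false

namespace Cfsg.Agent.Lib.H96KStd

open scoped Matrix Kronecker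
open Matrix Polynomial Cfsg.Agent.Lib.Helper49TDefs Cfsg.Agent.Lib.Helper49SDefs Cfsg.Agent.Lib.Helper96KDefs
open Cfsg.Agent.Lib.H96KStepA
open Cfsg.Agent.Lib.H96KStepB
open Cfsg.Agent.Lib.H96KStepC
open Cfsg.Agent.Lib.H96KPure
open Cfsg.Agent.Lib.H96KAll
open Cfsg.Agent.Lib.H96KSpLe
open Cfsg.Agent.Lib.H96KProper

variable {F : Type*} [Field F] {a b n : ℕ}

local notation "Mn" => Matrix (Fin a × Fin b) (Fin a × Fin b) F
local notation "GLn" => Matrix.GeneralLinearGroup (Fin a × Fin b) F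
local notation "Mb" => Matrix (Fin b) (Fin b) F
local notation "Ma" => Matrix (Fin a) (Fin a) F

/-- **the theorem in standard form** (`b = 3`, `q ≥ 5` odd) -/
theorem maximal_std [Fintype F] (D : TDat F a 3) (h2 : (2 : F) ≠ 0) (h5 : 5 ≤ Fintype.card F) (ha : 2 ≤ a) :
    Cfsg.Geo.IsMaximalIn (SpG D) (KS a 3 F ⊓ SpG D) := by
  refine ⟨lt_of_le_of_ne inf_le_right fun h => proper D ha (by norm_num) (h ▸ inf_le_left), ?_⟩
  intro H hM hH
  by_cases hS : Star D H
  · left
    have h3 : Nat.card F ≠ 3 := by rw [Nat.card_eq_fintype_card]; omega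
    have := stepA D h2 hH (fun g hg u u' => stepB D h2 h3 hM hH hS hg u u')
    exact le_antisymm (le_inf this hH) hM
  · right
    exact le_antisymm hH (sp_le (TC_all (TC_pure h2 (by norm_num) (stepC D h2 h5 (by norm_num) hM hH hS))))

end Cfsg.Agent.Lib.H96KStd
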