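import Cfsg.Agent.Lib.Helper96KDefs
import Cfsg.Agent.Lib.H49STransport

/-!
PROJECT 196 (TKL), piece Transport.  See notes/helper96/K/README.md.
-/

set_option autoImplicit false
set_option linter.unusedSectionVars false
set_option linter.unusedVariables false

namespace Cfsg.Agent.Lib.H96KTransport

open scoped Matrix Kronecker
open Matrix Polynomial Cfsg.Agent.Lib.Helper49TDefs Cfsg.Agent.Lib.Helper49SDefs Cfsg.Agent.Lib.Helper96KDefs

variable {F : Type*} [Field F] {a b n : ℕ}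

local notation "Mn" => Matrix (Fin a × Fin b) (Fin a × Fin b) F
local notation "GLn" => Matrix.GeneralLinearGroup (Fin a × Fin b) F
local notation "Mb" => Matrix (Fin b) (Fin b) F
local notation "Ma" => Matrix (Fin a) (Fin a) F

section aux

variable {ι : Type} [Fintype ι] [DecidableEq ι]

private theorem reindex_mulVec (e : ι ≃ Fin a × Fin b) (g : GLn) (x : Fin a × Fin b → F) :
    ((Cfsg.Geo.glReindex e.symm g : Matrix.GeneralLinearGroup ι F) :
      Matrix ι ι F) *ᵥ (x ∘ e) = ((g : Mn) *ᵥ x) ∘ e := by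
  change (Matrix.reindexAlgEquiv F F e.symm (g : Mn)) *ᵥ (x ∘ e) = _
  ext i
  simp only [Matrix.mulVec, dotProduct, Function.comp_apply, Matrix.coe_reindexAlgEquiv,
    Matrix.reindex_apply, Matrix.submatrix_apply, Equiv.symm_symm]
  exact Equiv.sum_comp e (fun q => (g : Mn) (e i) q * x q)

/-- the transport isomorphism -/
private noncomputable def phi (e : ι ≃ Fin a × Fin b) (P : Matrix.GeneralLinearGroup ι F) :
    GLn ≃* Matrix.GeneralLinearGroup ι F :=
  (Cfsg.Geo.glReindex e.symm).trans (MulAut.conj P)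

private theorem phi_mulVec (e : ι ≃ Fin a × Fin b) (P : Matrix.GeneralLinearGroup ι F)
    (g : GLn) (x : Fin a × Fin b → F) :
    ((phi e P g : Matrix.GeneralLinearGroup ι F) : Matrix ι ι F) *ᵥ
      ((P : Matrix ι ι F) *ᵥ (x ∘ e)) =
      (P : Matrix ι ι F) *ᵥ (((g : Mn) *ᵥ x) ∘ e) := by
  have h1 : phi e P g = P * Cfsg.Geo.glReindex e.symm g * P⁻¹ := rfl
  have h2 : ((P⁻¹ : Matrix.GeneralLinearGroup ι F) : Matrix ι ι F) *
      (P : Matrix ι ι F) = 1 := by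
    rw [← Units.val_mul, inv_mul_cancel, Units.val_one]
  rw [h1, Units.val_mul, Units.val_mul, Matrix.mulVec_mulVec, mul_assoc, h2, mul_one,
    ← Matrix.mulVec_mulVec, reindex_mulVec]

private theorem exists_rep (e : ι ≃ Fin a × Fin b) (P : Matrix.GeneralLinearGroup ι F)
    (v : ι → F) : ∃ x : Fin a × Fin b → F, v = (P : Matrix ι ι F) *ᵥ (x ∘ e) := by
  refine ⟨(((P⁻¹ : Matrix.GeneralLinearGroup ι F) : Matrix ι ι F) *ᵥ v) ∘ e.symm, ?_⟩
  have : ((((P⁻¹ : Matrix.GeneralLinearGroup ι F) : Matrix ι ι F) *ᵥ v) ∘ e.symm) ∘ e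
      = ((P⁻¹ : Matrix.GeneralLinearGroup ι F) : Matrix ι ι F) *ᵥ v := by
    ext i; simp
  rw [this, Matrix.mulVec_mulVec, ← Units.val_mul, mul_inv_cancel, Units.val_one,
    Matrix.one_mulVec]

private theorem KS_map (e : ι ≃ Fin a × Fin b) (P : Matrix.GeneralLinearGroup ι F) :
    (KS a b F).map (phi e P).toMonoidHom = Cfsg.Geo.tensorProductSubgroup a b e P := by
  unfold Cfsg.Geo.tensorProductSubgroup
  rw [Subgroup.map_map]
  rfl

end aux

private theorem mem_spGL_iff' {m : ℕ} (g : Matrix.GeneralLinearGroup (Fin m ⊕ Fin m) F) :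
    g ∈ Cfsg.spGL m F ↔
    ∀ u v, Cfsg.sympForm m F ((g : Matrix _ _ F) *ᵥ u) ((g : Matrix _ _ F) *ᵥ v) =
      Cfsg.sympForm m F u v := Iff.rfl

private theorem sp_map {m : ℕ} (e : (Fin m ⊕ Fin m) ≃ Fin a × Fin b)
    (P : Matrix.GeneralLinearGroup (Fin m ⊕ Fin m) F) (D : TDat F a b)
    (hD : ∀ x y, D.ff x y = Cfsg.sympForm m F ((P : Matrix (Fin m ⊕ Fin m) (Fin m ⊕ Fin m) F) *ᵥ (x ∘ e))
      ((P : Matrix (Fin m ⊕ Fin m) (Fin m ⊕ Fin m) F) *ᵥ (y ∘ e))) :
    (SpG D).map (phi e P).toMonoidHom = Cfsg.spGL m F := by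
  ext k
  simp only [Subgroup.mem_map, MulEquiv.coe_toMonoidHom]
  constructor
  · rintro ⟨g, hg, rfl⟩
    rw [mem_SpG] at hg
    rw [mem_spGL_iff']
    intro u v
    obtain ⟨x, rfl⟩ := exists_rep e P u
    obtain ⟨y, rfl⟩ := exists_rep e P v
    rw [phi_mulVec, phi_mulVec, ← hD, ← hD, hg]
  · intro hk
    refine ⟨(phi e P).symm k, ?_, by simp⟩
    rw [mem_spGL_iff'] at hk
    rw [mem_SpG]
    intro x y
    rw [hD, hD, ← phi_mulVec, ← phi_mulVec, MulEquiv.apply_symm_apply, hk]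

/-- `φ = conj P ∘ glReindex e.symm` maps `KS` onto `tensorProductSubgroup` (by definition) and `SpG D` onto `spGL m F`; compare `H49STransport.maximal_of_std2`
(`Helper14TTransport.isMaximalIn_map'`, `Subgroup.map_inf_eq`). -/
theorem maximal_of_std {m : ℕ} (e : (Fin m ⊕ Fin m) ≃ Fin a × Fin b)
    (P : Matrix.GeneralLinearGroup (Fin m ⊕ Fin m) F) (D : TDat F a b)
    (hD : ∀ x y, D.ff x y = Cfsg.sympForm m F ((P : Matrix (Fin m ⊕ Fin m) (Fin m ⊕ Fin m) F) *ᵥ (x ∘ e))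
      ((P : Matrix (Fin m ⊕ Fin m) (Fin m ⊕ Fin m) F) *ᵥ (y ∘ e)))
    (h : Cfsg.Geo.IsMaximalIn (SpG D) (KS a b F ⊓ SpG D)) :
    Cfsg.Geo.IsMaximalIn (Cfsg.spGL m F) (Cfsg.Geo.tensorProductSubgroup a b e P ⊓ Cfsg.spGL m F) := by
  have h1 := Cfsg.Agent.Lib.Helper14TTransport.isMaximalIn_map' (phi e P) _ _ h
  rw [Subgroup.map_inf_eq _ _ (phi e P).toMonoidHom (phi e P).injective,
    sp_map e P D hD, KS_map] at h1
  exact h1

end Cfsg.Agent.Lib.H96KTransport
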