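import Cfsg.Agent.Lib.Helper96KDefs
import Cfsg.Agent.Lib.H96KStd
import Cfsg.Agent.Lib.H96KMkDat
import Cfsg.Agent.Lib.H96KTransport

/-!
PROJECT 196 (TKL), piece Main.  See notes/helper96/K/README.md.
-/

set_option autoImplicit false
set_option linter.unusedSectionVars false
set_option linter.unusedVariables false

namespace Cfsg.Agent.Lib.H96KMain

open scoped Matrix Kronecker
open Matrix Polynomial Cfsg.Agent.Lib.Helper49TDefs Cfsg.Agent.Lib.Helper49SDefs Cfsg.Agent.Lib.Helper96KDefs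
open Cfsg.Agent.Lib.H96KStd
open Cfsg.Agent.Lib.H96KMkDat
open Cfsg.Agent.Lib.H96KTransport

variable {F : Type*} [Field F] {a b n : ℕ}

local notation "Mn" => Matrix (Fin a × Fin b) (Fin a × Fin b) F
local notation "GLn" => Matrix.GeneralLinearGroup (Fin a × Fin b) F
local notation "Mb" => Matrix (Fin b) (Fin b) F
local notation "Ma" => Matrix (Fin a) (Fin a) F

/-- **`Sp_a(q) ⊗ O_3(q)` is maximal in `Sp_{3a}(q)`, `q ≥ 5` odd** (frozen form; clause (7) of S5804, clause (11) of S5867). -/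
theorem tensor_sp_o3 [Fintype F] {m : ℕ} (hodd : Odd (Fintype.card F)) (h5 : 5 ≤ Fintype.card F) (ha : 2 ≤ a)
    (e : (Fin m ⊕ Fin m) ≃ Fin a × Fin 3) (P : Matrix.GeneralLinearGroup (Fin m ⊕ Fin m) F)
    (f₁ : (Fin a → F) → (Fin a → F) → F) (f₂ : (Fin 3 → F) → (Fin 3 → F) → F)
    (hf₁ : Cfsg.Geo.IsSymplecticForm f₁) (hf₂ : Cfsg.Geo.IsSymmetricForm f₂)
    (hT : Cfsg.Geo.IsTensorFormStructure id (Cfsg.sympForm m F) f₁ f₂ e P) :
    Cfsg.Geo.IsMaximalIn (Cfsg.spGL m F) (Cfsg.Geo.tensorProductSubgroup a 3 e P ⊓ Cfsg.spGL m F) := by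
  obtain ⟨D, hD⟩ := exists_dat e P f₁ f₂ hf₁ hf₂ hT
  have h2 : (2 : F) ≠ 0 := by
    intro h
    have hc : ringChar F = 2 := by
      have := (ringChar.spec F 2).1 (by exact_mod_cast h)
      exact (Nat.prime_dvd_prime_iff_eq (CharP.char_is_prime F (ringChar F)) Nat.prime_two).1 this
    have := FiniteField.even_card_of_char_two hc
    exact (Nat.not_even_iff_odd.2 hodd) (Nat.even_iff.2 this)
  exact maximal_of_std e P D hD (maximal_std D h2 h5 ha)

end Cfsg.Agent.Lib.H96KMain
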