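import Cfsg.Agent.Lib.H97EDefs

set_option autoImplicit false
set_option linter.unusedSectionVars false
set_option linter.unusedVariables false

namespace Cfsg.Agent.Lib.H97EEig

open scoped Matrix Kronecker
open Matrix Cfsg.Agent.Lib.Helper49TDefs Cfsg.Agent.Lib.Helper49SDefs Cfsg.Agent.Lib.Helper49ODefs
  Cfsg.Agent.Lib.Helper95Basic Cfsg.Agent.Lib.Helper95Sp Cfsg.Agent.Lib.Helper95Cen
  Cfsg.Agent.Lib.Helper95Form Cfsg.Agent.Lib.H97EDefs

variable {F : Type*} [Field F] {a b n : ℕ}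

local notation "GLn" => Matrix.GeneralLinearGroup (Fin a × Fin b) F
local notation "Mn" => Matrix (Fin a × Fin b) (Fin a × Fin b) F
local notation "Ma" => Matrix (Fin a) (Fin a) F
local notation "Mb" => Matrix (Fin b) (Fin b) F
local notation "GLa" => Matrix.GeneralLinearGroup (Fin a) F
local notation "GLb" => Matrix.GeneralLinearGroup (Fin b) F

theorem q_add_smul' {J : Matrix (Fin n) (Fin n) F} (hJ : IsSymmMat J) (u w : Fin n → F) (t : F) :
    bf J (u + t • w) (u + t • w) = bf J u u + 2 * t * bf J u w + t ^ 2 * bf J w w := by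
  simp only [bf_add_left, bf_add_right, bf_smul_left, bf_smul_right]
  rw [hJ.symm w u]
  ring

/-- a quadratic polynomial function has two distinct non-roots. -/
theorem exists_two_nonroots [Fintype F] (h5 : 5 ≤ Fintype.card F) (c0 c1 c2 : F) (hc : c2 ≠ 0) :
    ∃ t₁ t₂ : F, t₁ ≠ t₂ ∧ c0 + c1 * t₁ + c2 * t₁ ^ 2 ≠ 0 ∧ c0 + c1 * t₂ + c2 * t₂ ^ 2 ≠ 0 := by
  classical
  set R : Finset F := Finset.univ.filter (fun t => c0 + c1 * t + c2 * t ^ 2 = 0) with hR
  have hRc : R.card ≤ 2 := by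
    by_contra hcon
    push Not at hcon
    obtain ⟨x, hx, y, hy, z, hz, hxy, hxz, hyz⟩ := Finset.two_lt_card.mp hcon
    simp only [hR, Finset.mem_filter, Finset.mem_univ, true_and] at hx hy hz
    have e1 : (x - y) * (c1 + c2 * (x + y)) = 0 := by linear_combination hx - hy
    have e2 : (x - z) * (c1 + c2 * (x + z)) = 0 := by linear_combination hx - hz
    have f1 := (mul_eq_zero.mp e1).resolve_left (sub_ne_zero.mpr hxy)
    have f2 := (mul_eq_zero.mp e2).resolve_left (sub_ne_zero.mpr hxz)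
    have e3 : c2 * (y - z) = 0 := by linear_combination f1 - f2
    exact (mul_eq_zero.mp e3).elim hc (sub_ne_zero.mpr hyz)
  have hcard : 1 < (Finset.univ \ R).card := by
    rw [Finset.card_sdiff_of_subset (Finset.subset_univ _), Finset.card_univ]
    omega
  obtain ⟨t₁, h1, t₂, h2, hne⟩ := Finset.one_lt_card.mp hcard
  simp only [hR, Finset.mem_sdiff, Finset.mem_univ, Finset.mem_filter, true_and] at h1 h2
  exact ⟨t₁, t₂, hne, h1, h2⟩

theorem exists_nonsingular {J : Matrix (Fin n) (Fin n) F} (hJ : IsSymmMat J) (h2 : (2 : F) ≠ 0)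
    (hn : 1 ≤ n) : ∃ w, bf J w w ≠ 0 := by
  have he : (Pi.single (⟨0, hn⟩ : Fin n) (1 : F) : Fin n → F) ≠ 0 := by
    intro h
    have := congrFun h ⟨0, hn⟩
    simp at this
  obtain ⟨x, hx⟩ := hJ.exists_ne_zero he
  set e : Fin n → F := Pi.single (⟨0, hn⟩ : Fin n) (1 : F) with hedef
  by_cases h1 : bf J x x = 0
  · by_cases h3 : bf J e e = 0
    · refine ⟨x + (1 : F) • e, ?_⟩
      rw [q_add_smul' hJ, h1, h3, hx]
      simpa using h2
    · exact ⟨e, h3⟩
  · exact ⟨x, h1⟩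

/-- **Piece Eig.**  PURE LINEAR ALGEBRA, `q ≥ 5`.  A non-scalar matrix has a nonsingular vector which is not an eigenvector. -/
theorem exists_not_eig [Fintype F] (h5 : 5 ≤ Fintype.card F) {J : Matrix (Fin n) (Fin n) F}
    (hJ : IsSymmMat J) (h2 : (2 : F) ≠ 0) (hn : 1 ≤ n) {β : Matrix (Fin n) (Fin n) F}
    (hβ : ∀ k : F, β ≠ k • 1) :
    ∃ w, bf J w w ≠ 0 ∧ β *ᵥ w - (bf J (β *ᵥ w) w / bf J w w) • w ≠ 0 := by
  by_contra hcon
  push Not at hcon
  have heig : ∀ w, bf J w w ≠ 0 → ∃ μ : F, β *ᵥ w = μ • w :=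
    fun w hw => ⟨_, sub_eq_zero.mp (hcon w hw)⟩
  obtain ⟨w₀, hw₀⟩ := exists_nonsingular hJ h2 hn
  have hw₀0 : w₀ ≠ 0 := by
    rintro rfl
    simp at hw₀
  obtain ⟨lam, hlam⟩ := heig w₀ hw₀
  apply hβ lam
  apply Matrix.toLin'.injective
  apply LinearMap.ext
  intro v
  rw [Matrix.toLin'_apply, Matrix.toLin'_apply, Matrix.smul_mulVec, Matrix.one_mulVec]
  obtain ⟨t₁, t₂, hne, hp1, hp2⟩ := exists_two_nonroots h5 (bf J v v) (2 * bf J v w₀)
    (bf J w₀ w₀) hw₀
  have hq1 : bf J (v + t₁ • w₀) (v + t₁ • w₀) ≠ 0 := by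
    rw [q_add_smul' hJ]
    intro e
    apply hp1
    linear_combination e
  have hq2 : bf J (v + t₂ • w₀) (v + t₂ • w₀) ≠ 0 := by
    rw [q_add_smul' hJ]
    intro e
    apply hp2
    linear_combination e
  obtain ⟨μ₁, h1⟩ := heig _ hq1
  obtain ⟨μ₂, h2'⟩ := heig _ hq2
  rw [Matrix.mulVec_add, Matrix.mulVec_smul, hlam] at h1 h2'
  by_cases hμ : μ₁ = μ₂
  · subst hμ
    have e : ((t₁ - t₂) * (lam - μ₁)) • w₀ = 0 := by
      linear_combination (norm := module) h1 - h2'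
    have e2 := (smul_eq_zero.mp e).resolve_right hw₀0
    have e3 : lam = μ₁ := sub_eq_zero.mp ((mul_eq_zero.mp e2).resolve_left (sub_ne_zero.mpr hne))
    subst e3
    linear_combination (norm := module) h1
  · have hd : μ₁ - μ₂ ≠ 0 := sub_ne_zero.mpr hμ
    have e : (μ₁ - μ₂) • v = ((t₁ - t₂) * lam - (μ₁ * t₁ - μ₂ * t₂)) • w₀ := by
      linear_combination (norm := module) h2' - h1
    have hv : v = ((μ₁ - μ₂)⁻¹ * ((t₁ - t₂) * lam - (μ₁ * t₁ - μ₂ * t₂))) • w₀ := by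
      rw [mul_smul, ← e, smul_smul, inv_mul_cancel₀ hd, one_smul]
    rw [hv, Matrix.mulVec_smul, hlam, smul_comm]

end Cfsg.Agent.Lib.H97EEig
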