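import Cfsg.Agent.Lib.H97EDefs

set_option autoImplicit false
set_option linter.unusedSectionVars false
set_option linter.unusedVariables false

namespace Cfsg.Agent.Lib.H97EGamR

open scoped Matrix Kronecker
open Matrix Cfsg.Agent.Lib.Helper49TDefs Cfsg.Agent.Lib.Helper49SDefs Cfsg.Agent.Lib.Helper49ODefs
  Cfsg.Agent.Lib.Helper95Basic Cfsg.Agent.Lib.Helper95Sp Cfsg.Agent.Lib.Helper95Cen
  Cfsg.Agent.Lib.Helper95Form Cfsg.Agent.Lib.H97EDefs

variable {F : Type*} [Field F] {a b n : ℕ}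

local notation "GLn" => Matrix.GeneralLinearGroup (Fin a × Fin b) F
local notation "Mn" => Matrix (Fin a × Fin b) (Fin a × Fin b) F
local notation "Ma" => Matrix (Fin a) (Fin a) F
local notation "Mb" => Matrix (Fin b) (Fin b) F
local notation "GLa" => Matrix.GeneralLinearGroup (Fin a) F
local notation "GLb" => Matrix.GeneralLinearGroup (Fin b) F

/-- **Piece GamR.**  Matrix identity.  `R = 1 - (2/q) N(w,w)`, `q = f(w,w)`, `z = β w - (f(βw,w)/q) w`.
Check on vectors (`Matrix.toLin'.injective`, `LinearMap.ext`, `← mulVec_mulVec`, `NJ_mulVec`, `sub_mulVec`, `smul_mulVec`, `mulVec_sub`, `mulVec_smul`), using `hsa` in the form `f(β v, w) = f(v, β w)`, `hJ.symm`; finish with `field_simp`/`module`/`linear_combination (exp := 1)` coordinatewise.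
Or algebraically: `N(w,w) β = N(w, βw)` (by `hsa`), `β N(w,w) = N(βw, w)` (`mul_NJ`), `N(w,w) β N(w,w) = f(βw,w) N(w,w)`. -/
theorem sub_refl_conj {J : Matrix (Fin n) (Fin n) F} (hJ : IsSymmMat J)
    {β : Matrix (Fin n) (Fin n) F} (hsa : ∀ x y, bf J (β *ᵥ x) y = bf J x (β *ᵥ y))
    {w : Fin n → F} (hw : bf J w w ≠ 0) :
    β - (1 - (2 / bf J w w) • NJ J w w) * β * (1 - (2 / bf J w w) • NJ J w w) =
      (2 / bf J w w) • Gam J w (β *ᵥ w - (bf J (β *ᵥ w) w / bf J w w) • w) := by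
  apply Matrix.toLin'.injective
  apply LinearMap.ext
  intro v
  simp only [Matrix.toLin'_apply, Gam, ← Matrix.mulVec_mulVec, Matrix.sub_mulVec, Matrix.one_mulVec,
    Matrix.smul_mulVec, Matrix.add_mulVec, NJ_mulVec, Matrix.mulVec_sub, Matrix.mulVec_smul,
    bf_sub_left, bf_sub_right, bf_smul_left, bf_smul_right]
  rw [← hsa v w]
  ext i
  simp only [Pi.sub_apply, Pi.smul_apply, Pi.add_apply, smul_eq_mul]
  field_simp
  ring

end Cfsg.Agent.Lib.H97EGamR
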