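import Cfsg.Agent.Lib.H97EDefs
import Cfsg.Agent.Lib.Helper42Quad

set_option autoImplicit false
set_option linter.unusedSectionVars false
set_option linter.unusedVariables false

namespace Cfsg.Agent.Lib.H97EGeo

open scoped Matrix Kronecker
open Matrix Cfsg.Agent.Lib.Helper49TDefs Cfsg.Agent.Lib.Helper49SDefs Cfsg.Agent.Lib.Helper49ODefs
  Cfsg.Agent.Lib.Helper95Basic Cfsg.Agent.Lib.Helper95Sp Cfsg.Agent.Lib.Helper95Cen
  Cfsg.Agent.Lib.Helper95Form Cfsg.Agent.Lib.H97EDefs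

variable {F : Type*} [Field F] {a b n : ℕ}

local notation "GLn" => Matrix.GeneralLinearGroup (Fin a × Fin b) F
local notation "Mn" => Matrix (Fin a × Fin b) (Fin a × Fin b) F
local notation "Ma" => Matrix (Fin a) (Fin a) F
local notation "Mb" => Matrix (Fin b) (Fin b) F
local notation "GLa" => Matrix.GeneralLinearGroup (Fin a) F
local notation "GLb" => Matrix.GeneralLinearGroup (Fin b) F

/-- **Piece Geo.**  PURE.  (1) a non-zero singular vector: `Cfsg.Agent.Lib.Helper42Quad.exists_singular Q h3` for `Q = (Matrix.toBilin' J).toQuadraticMap` (`LinearMap.BilinMap.toQuadraticMap_apply`, `Matrix.toBilin'_apply'`, `Module.finrank_fin_fun`). -/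
theorem exists_sing [Finite F] (J : Matrix (Fin n) (Fin n) F) (hn : 3 ≤ n) :
    ∃ c : Fin n → F, c ≠ 0 ∧ bf J c c = 0 := by
  obtain ⟨v, hv, hQ⟩ := Cfsg.Agent.Lib.Helper42Quad.exists_singular
    ((Matrix.toBilin' J).toQuadraticMap) (by rw [Module.finrank_fin_fun]; exact hn)
  refine ⟨v, hv, ?_⟩
  rw [LinearMap.BilinMap.toQuadraticMap_apply, Matrix.toBilin'_apply'] at hQ
  exact hQ

/-- (2) the linear map `v ↦ (f(v,p), f(v,p'))` from `F^n`, `n ≥ 3`, to `F^2` has a kernel. -/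
theorem exists_perp_two (J : Matrix (Fin n) (Fin n) F) (hn : 3 ≤ n) (p p' : Fin n → F) :
    ∃ z : Fin n → F, z ≠ 0 ∧ bf J z p = 0 ∧ bf J z p' = 0 := by
  have hker : LinearMap.ker (Matrix.mulVecLin (Matrix.of ![J *ᵥ p, J *ᵥ p'])) ≠ ⊥ := by
    apply LinearMap.ker_ne_bot_of_finrank_lt
    rw [Module.finrank_fin_fun, Module.finrank_fin_fun]
    omega
  obtain ⟨z, hz, hz0⟩ := (Submodule.ne_bot_iff _).mp hker
  rw [LinearMap.mem_ker, Matrix.mulVecLin_apply] at hz
  refine ⟨z, hz0, ?_, ?_⟩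
  · have h0 := congrFun hz 0
    simp only [Matrix.mulVec, Matrix.of_apply, Matrix.cons_val_zero, Pi.zero_apply] at h0
    rw [bf, dotProduct_comm]
    exact h0
  · have h1 := congrFun hz 1
    simp only [Matrix.mulVec, Matrix.of_apply, Matrix.cons_val_one, Pi.zero_apply] at h1
    rw [bf, dotProduct_comm]
    exact h1

end Cfsg.Agent.Lib.H97EGeo
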