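import Cfsg.Agent.Lib.H97EDefs

set_option autoImplicit false
set_option linter.unusedSectionVars false
set_option linter.unusedVariables false

namespace Cfsg.Agent.Lib.H97ERefl

open scoped Matrix Kronecker
open Matrix Cfsg.Agent.Lib.Helper49TDefs Cfsg.Agent.Lib.Helper49SDefs Cfsg.Agent.Lib.Helper49ODefs
  Cfsg.Agent.Lib.Helper95Basic Cfsg.Agent.Lib.Helper95Sp Cfsg.Agent.Lib.Helper95Cen
  Cfsg.Agent.Lib.Helper95Form Cfsg.Agent.Lib.H97EDefs

variable {F : Type*} [Field F] {a b n : ℕ}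

local notation "GLn" => Matrix.GeneralLinearGroup (Fin a × Fin b) F
local notation "Mn" => Matrix (Fin a × Fin b) (Fin a × Fin b) F
local notation "Ma" => Matrix (Fin a) (Fin a) F
local notation "Mb" => Matrix (Fin b) (Fin b) F
local notation "GLa" => Matrix.GeneralLinearGroup (Fin a) F
local notation "GLb" => Matrix.GeneralLinearGroup (Fin b) F

/-- **Piece Refl.**  The reflection `r_w : v ↦ v - (2 f(v,w)/f(w,w)) w` is an isometry and an involution.
`R = 1 - (2 / q) • NJ J w w`; `R * R = 1` by `NJ_mul` (`NJ w w * NJ w w = q • NJ w w`); build the unit `⟨R, R, _, _⟩`;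
`IsIso`: `NJ_mulVec`, bilinearity simp lemmas `bf_sub_left` ..., `hJ.symm`, `field_simp; ring`. -/
theorem refl_iso {J : Matrix (Fin n) (Fin n) F} (hJ : IsSymmMat J) {w : Fin n → F}
    (hw : bf J w w ≠ 0) :
    ∃ g : Matrix.GeneralLinearGroup (Fin n) F, IsIso J g ∧
      (g : Matrix (Fin n) (Fin n) F) = 1 - (2 / bf J w w) • NJ J w w ∧
      ((g⁻¹ : Matrix.GeneralLinearGroup (Fin n) F) : Matrix (Fin n) (Fin n) F)
        = 1 - (2 / bf J w w) • NJ J w w ∧
      ∀ v, (g : Matrix (Fin n) (Fin n) F) *ᵥ v = v - (2 * bf J v w / bf J w w) • w := by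
  have hRR : (1 - (2 / bf J w w) • NJ J w w) * (1 - (2 / bf J w w) • NJ J w w) = 1 := by
    have h1 : NJ J w w * NJ J w w = bf J w w • NJ J w w := NJ_mul J w w w w
    have h2 : (1 - (2 / bf J w w) • NJ J w w) * (1 - (2 / bf J w w) • NJ J w w)
        = 1 - (2 * (2 / bf J w w)) • NJ J w w
          + ((2 / bf J w w) * (2 / bf J w w)) • (NJ J w w * NJ J w w) := by
      rw [sub_mul, mul_sub, mul_sub, one_mul, mul_one, one_mul, smul_mul_smul_comm, two_mul,
        add_smul]
      abel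
    rw [h2, h1, smul_smul]
    have h3 : 2 / bf J w w * (2 / bf J w w) * bf J w w = 2 * (2 / bf J w w) := by
      field_simp
    rw [h3]
    abel
  have hv : ∀ v, (1 - (2 / bf J w w) • NJ J w w) *ᵥ v = v - (2 * bf J v w / bf J w w) • w := by
    intro v
    rw [Matrix.sub_mulVec, Matrix.one_mulVec, Matrix.smul_mulVec, NJ_mulVec, smul_smul]
    congr 2
    field_simp
  refine ⟨⟨1 - (2 / bf J w w) • NJ J w w, 1 - (2 / bf J w w) • NJ J w w, hRR, hRR⟩, ?_, rfl, rfl, hv⟩
  intro x y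
  show bf J ((1 - (2 / bf J w w) • NJ J w w) *ᵥ x) ((1 - (2 / bf J w w) • NJ J w w) *ᵥ y) = bf J x y
  rw [hv, hv]
  simp only [bf_sub_left, bf_sub_right, bf_smul_left, bf_smul_right]
  rw [hJ.symm w y]
  field_simp
  ring

end Cfsg.Agent.Lib.H97ERefl
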