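import Cfsg.Agent.Lib.H97EBSapi
import Cfsg.Agent.Lib.H97ERefl

set_option autoImplicit false
set_option linter.unusedSectionVars false
set_option linter.unusedVariables false

namespace Cfsg.Agent.Lib.H97ELast

open scoped Matrix Kronecker
open Matrix Cfsg.Agent.Lib.Helper49TDefs Cfsg.Agent.Lib.Helper49SDefs Cfsg.Agent.Lib.Helper49ODefs
  Cfsg.Agent.Lib.Helper95Basic Cfsg.Agent.Lib.Helper95Sp Cfsg.Agent.Lib.Helper95Cen
  Cfsg.Agent.Lib.Helper95Form Cfsg.Agent.Lib.H97EDefs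

variable {F : Type*} [Field F] {a b n : ℕ}

local notation "GLn" => Matrix.GeneralLinearGroup (Fin a × Fin b) F
local notation "Mn" => Matrix (Fin a × Fin b) (Fin a × Fin b) F
local notation "Ma" => Matrix (Fin a) (Fin a) F
local notation "Mb" => Matrix (Fin b) (Fin b) F
local notation "GLa" => Matrix.GeneralLinearGroup (Fin a) F
local notation "GLb" => Matrix.GeneralLinearGroup (Fin b) F

open Cfsg.Agent.Lib.H97EBSapi Cfsg.Agent.Lib.H97ERefl

/-- **Piece Last.**  `v = x + c` has `f(v,v) = f(x,x) ≠ 0`; `r_v x = -x - 2c`, `r_v c = c`; so `r_v Gam(x,c) r_v⁻¹ = Gam(-x-2c, c) = -Gam(x,c) - 4 N(c,c)` (`refl_iso`, `NJ_conj`, `BS_conj`).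
Add `Gam(x,c)` (`BS_add`) and multiply by `-1/4` (`BS_smul`, `D.two`). -/
theorem last (D : SoDat F a b) {H : Subgroup GLn} (hMH : KS a b F ⊓ SG D ≤ H) {u : Fin a → F}
    {x c : Fin b → F} (hx : bf D.J₂ x x ≠ 0) (hc : bf D.J₂ c c = 0) (hcx : bf D.J₂ c x = 0)
    (h : Gam D.J₂ x c ∈ BS D H u) : NJ D.J₂ c c ∈ BS D H u := by
  have hxc : bf D.J₂ x c = 0 := by rw [D.h₂.symm, hcx]
  have hvv : bf D.J₂ (x + c) (x + c) = bf D.J₂ x x := by
    simp only [bf_add_left, bf_add_right, hc, hcx, hxc, add_zero]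
  have hv : bf D.J₂ (x + c) (x + c) ≠ 0 := by rw [hvv]; exact hx
  obtain ⟨g, hg, -, -, hgv⟩ := refl_iso D.h₂ hv
  have e1 : (g : Mb) *ᵥ x = -x - (2 : F) • c := by
    rw [hgv, hvv]
    have : 2 * bf D.J₂ x (x + c) / bf D.J₂ x x = 2 := by
      rw [bf_add_right, hxc, add_zero]
      field_simp
    rw [this, smul_add, two_smul]
    abel
  have e2 : (g : Mb) *ᵥ c = c := by
    rw [hgv]
    have : 2 * bf D.J₂ c (x + c) / bf D.J₂ (x + c) (x + c) = 0 := by
      rw [bf_add_right, hcx, hc, add_zero, mul_zero, zero_div]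
    rw [this, zero_smul, sub_zero]
  have h1 := BS_conj D hMH g hg h
  have e3 : (g : Mb) * Gam D.J₂ x c * ((g⁻¹ : GLb) : Mb)
      = - Gam D.J₂ x c - (4 : F) • NJ D.J₂ c c := by
    unfold Gam
    rw [mul_add, add_mul, NJ_conj hg, NJ_conj hg, e1, e2, sub_eq_add_neg, NJ_add_left,
      NJ_add_right, ← neg_smul, NJ_smul_left, NJ_smul_right]
    have n1 : NJ D.J₂ (-x) c = - NJ D.J₂ x c := by
      have := NJ_smul_left D.J₂ (-1) x c
      simpa using this
    have n2 : NJ D.J₂ c (-x) = - NJ D.J₂ c x := by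
      have := NJ_smul_right D.J₂ (-1) c x
      simpa using this
    rw [n1, n2]
    have : (4 : F) = 2 + 2 := by norm_num
    rw [this, add_smul, neg_smul]
    abel
  rw [e3] at h1
  have h2 := BS_add D h1 h
  have e4 : - Gam D.J₂ x c - (4 : F) • NJ D.J₂ c c + Gam D.J₂ x c = (-4 : F) • NJ D.J₂ c c := by
    rw [neg_smul]
    abel
  rw [e4] at h2
  have h3 := BS_smul D hMH (-(4 : F)⁻¹) h2
  have h4 : (4 : F) ≠ 0 := by
    have : (4 : F) = 2 * 2 := by norm_num
    rw [this]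
    exact mul_ne_zero D.two D.two
  rw [smul_smul] at h3
  have e5 : -(4 : F)⁻¹ * -4 = 1 := by
    field_simp
  rwa [e5, one_smul] at h3

end Cfsg.Agent.Lib.H97ELast
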