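import Cfsg.Agent.Lib.H97EDefs

set_option autoImplicit false
set_option linter.unusedSectionVars false
set_option linter.unusedVariables false

namespace Cfsg.Agent.Lib.H97ESelfAdj

open scoped Matrix Kronecker
open Matrix Cfsg.Agent.Lib.Helper49TDefs Cfsg.Agent.Lib.Helper49SDefs Cfsg.Agent.Lib.Helper49ODefs
  Cfsg.Agent.Lib.Helper95Basic Cfsg.Agent.Lib.Helper95Sp Cfsg.Agent.Lib.Helper95Cen
  Cfsg.Agent.Lib.Helper95Form Cfsg.Agent.Lib.H97EDefs

variable {F : Type*} [Field F] {a b n : ℕ}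

local notation "GLn" => Matrix.GeneralLinearGroup (Fin a × Fin b) F
local notation "Mn" => Matrix (Fin a × Fin b) (Fin a × Fin b) F
local notation "Ma" => Matrix (Fin a) (Fin a) F
local notation "Mb" => Matrix (Fin b) (Fin b) F
local notation "GLa" => Matrix.GeneralLinearGroup (Fin a) F
local notation "GLb" => Matrix.GeneralLinearGroup (Fin b) F

/-- **Piece SelfAdj.**  `1 + N₁(u,u) ⊗ β ∈ H ≤ Sp(V)` forces `β` self-adjoint for `f₂`.
Take `p` with `f₁(p,u) = 1` (`D.h₁.exists_ne_zero hu`).  Apply the isometry property (`mem_IG`) to `tens p x`, `tens p y`: `g (p⊗x) = p⊗x + u⊗βx` (`kron_mulVec_tens`, `NJ_mulVec`).  Expanding with `fK_tens`: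
`f₁(p,u) f₂(x,βy) + f₁(u,p) f₂(βx,y) + f₁(u,u)(..) = 0`, i.e. `f₂(x,βy) - f₂(βx,y) = 0` (`D.h₁.swap`, `D.h₁.alt`). -/
theorem BS_selfAdj (D : SoDat F a b) {H : Subgroup GLn} (hH : H ≤ SG D) {u : Fin a → F}
    (hu : u ≠ 0) {β : Mb} (h : β ∈ BS D H u) :
    ∀ x y, bf D.J₂ (β *ᵥ x) y = bf D.J₂ x (β *ᵥ y) := by
  intro x y
  obtain ⟨_, g, hg, hgm⟩ := h
  obtain ⟨p, hp⟩ := D.h₁.exists_ne_zero hu
  have hiso := (mem_IG.1 (hH hg)) (tens p x) (tens p y)
  have e : ∀ z, (g : Mn) *ᵥ tens p z = tens p z + tens u (β *ᵥ z) := by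
    intro z
    rw [hgm, Matrix.add_mulVec, Matrix.one_mulVec, kron_mulVec_tens, NJ_mulVec, hp, one_smul]
  rw [e, e] at hiso
  simp only [fK_add_left, fK_add_right, fK_tens] at hiso
  rw [D.h₁.alt u, D.h₁.alt p, hp, D.h₁.swap u p, hp] at hiso
  linear_combination (-1 : F) * hiso

end Cfsg.Agent.Lib.H97ESelfAdj
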