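import Cfsg.Agent.Lib.H97EGood
import Cfsg.Agent.Lib.H97ELast
import Cfsg.Agent.Lib.H97EGeo
import Cfsg.Agent.Lib.H97EEig
import Cfsg.Agent.Lib.H97EGamR
import Cfsg.Agent.Lib.H97ESelfAdj

set_option autoImplicit false
set_option linter.unusedSectionVars false
set_option linter.unusedVariables false

namespace Cfsg.Agent.Lib.H97EA

open scoped Matrix Kronecker
open Matrix Cfsg.Agent.Lib.Helper49TDefs Cfsg.Agent.Lib.Helper49SDefs Cfsg.Agent.Lib.Helper49ODefs
  Cfsg.Agent.Lib.Helper95Basic Cfsg.Agent.Lib.Helper95Sp Cfsg.Agent.Lib.Helper95Cen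
  Cfsg.Agent.Lib.Helper95Form Cfsg.Agent.Lib.H97EDefs

variable {F : Type*} [Field F] {a b n : ℕ}

local notation "GLn" => Matrix.GeneralLinearGroup (Fin a × Fin b) F
local notation "Mn" => Matrix (Fin a × Fin b) (Fin a × Fin b) F
local notation "Ma" => Matrix (Fin a) (Fin a) F
local notation "Mb" => Matrix (Fin b) (Fin b) F
local notation "GLa" => Matrix.GeneralLinearGroup (Fin a) F
local notation "GLb" => Matrix.GeneralLinearGroup (Fin b) F

open Cfsg.Agent.Lib.H97EBSapi Cfsg.Agent.Lib.H97ERefl Cfsg.Agent.Lib.H97EGood Cfsg.Agent.Lib.H97ELast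
  Cfsg.Agent.Lib.H97EGeo Cfsg.Agent.Lib.H97EEig Cfsg.Agent.Lib.H97EGamR Cfsg.Agent.Lib.H97ESelfAdj

theorem Gam_comm (J : Matrix (Fin n) (Fin n) F) (x y : Fin n → F) : Gam J x y = Gam J y x := by
  unfold Gam
  rw [add_comm]

/-- **E-A** (`q ≥ 5`): `1 + N₁(u,u) ⊗ β ∈ H`, `β` not scalar, gives a transvection with centre `u ⊗ c`. -/
theorem hasT_of_hasS [Fintype F] (h5 : 5 ≤ Fintype.card F) (D : SoDat F a b) (hb : 3 ≤ b)
    (H : Subgroup GLn) (hMH : KS a b F ⊓ SG D ≤ H) (hH : H ≤ SG D) (h : HasS D H) : HasT D H := by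
  obtain ⟨u, β, hu, hβ, hmem⟩ := h
  have hB : β ∈ BS D H u := hmem
  have hsa := BS_selfAdj D hH hu hB
  obtain ⟨w, hw, hz⟩ := exists_not_eig h5 D.h₂ D.two (by omega) hβ
  set z := β *ᵥ w - (bf D.J₂ (β *ᵥ w) w / bf D.J₂ w w) • w with hzdef
  have hzw : bf D.J₂ z w = 0 := by
    rw [hzdef, bf_sub_left, bf_smul_left]
    field_simp
    ring
  -- `Gam w z ∈ BS`
  have hG : Gam D.J₂ w z ∈ BS D H u := by
    obtain ⟨g, hg, e1, e2, -⟩ := refl_iso D.h₂ hw
    have h1 := BS_conj D hMH g hg hB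
    rw [e1, e2] at h1
    have h2 := BS_add D hB (BS_neg D h1)
    rw [← sub_eq_add_neg, sub_refl_conj D.h₂ hsa hw] at h2
    have h3 := BS_smul D hMH (bf D.J₂ w w / 2) h2
    rw [smul_smul] at h3
    have : bf D.J₂ w w / 2 * (2 / bf D.J₂ w w) = 1 := by
      have := D.two
      field_simp
    rwa [this, one_smul] at h3
  have hgw := good h5 D hMH hw hz hzw hG
  -- a singular vector in the perp of a good nonsingular vector
  obtain ⟨c, hc0, hc, hN⟩ : ∃ c : Fin b → F, c ≠ 0 ∧ bf D.J₂ c c = 0 ∧ NJ D.J₂ c c ∈ BS D H u := by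
    obtain ⟨c, hc0, hc⟩ := exists_sing D.J₂ hb
    by_cases hcw : bf D.J₂ c w = 0
    · exact ⟨c, hc0, hc, last D hMH hw hc hcw (hgw c hcw)⟩
    · set l := bf D.J₂ c w / bf D.J₂ w w with hl
      obtain ⟨z', hz'0, hz'w, hz'y⟩ := exists_perp_two D.J₂ hb w (c - l • w)
      by_cases hq : bf D.J₂ z' z' = 0
      · exact ⟨z', hz'0, hq, last D hMH hw hq hz'w (hgw z' hz'w)⟩
      · have h1 : Gam D.J₂ z' w ∈ BS D H u := by
          rw [Gam_comm]
          exact hgw z' hz'w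
        have hw0 : w ≠ 0 := by
          rintro rfl
          exact hw (by simp)
        have hwz' : bf D.J₂ w z' = 0 := by rw [D.h₂.symm, hz'w]
        have hgz := good h5 D hMH hq hw0 hwz' h1
        have hcz' : bf D.J₂ c z' = 0 := by
          have e : bf D.J₂ z' c = 0 := by
            have := hz'y
            rw [bf_sub_right, bf_smul_right, hz'w, mul_zero, sub_zero] at this
            exact this
          rw [D.h₂.symm, e]
        exact ⟨c, hc0, hc, last D hMH hq hc hcz' (hgz c hcz')⟩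
  refine ⟨u, c, 1, hu, hc0, hc, one_ne_zero, ?_⟩
  rw [one_smul]
  exact hN

end Cfsg.Agent.Lib.H97EA
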