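import Cfsg.Agent.Lib.H97EKron
import Cfsg.Agent.Lib.H49SWitt1

set_option autoImplicit false
set_option linter.unusedSectionVars false
set_option linter.unusedVariables false

namespace Cfsg.Agent.Lib.H97EBSapi

open scoped Matrix Kronecker
open Matrix Cfsg.Agent.Lib.Helper49TDefs Cfsg.Agent.Lib.Helper49SDefs Cfsg.Agent.Lib.Helper49ODefs
  Cfsg.Agent.Lib.Helper95Basic Cfsg.Agent.Lib.Helper95Sp Cfsg.Agent.Lib.Helper95Cen
  Cfsg.Agent.Lib.Helper95Form Cfsg.Agent.Lib.H97EDefs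

variable {F : Type*} [Field F] {a b n : ℕ}

local notation "GLn" => Matrix.GeneralLinearGroup (Fin a × Fin b) F
local notation "Mn" => Matrix (Fin a × Fin b) (Fin a × Fin b) F
local notation "Ma" => Matrix (Fin a) (Fin a) F
local notation "Mb" => Matrix (Fin b) (Fin b) F
local notation "GLa" => Matrix.GeneralLinearGroup (Fin a) F
local notation "GLb" => Matrix.GeneralLinearGroup (Fin b) F

open Cfsg.Agent.Lib.H97EKron Cfsg.Agent.Lib.H49SWitt1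

theorem kk_zero (D : SoDat F a b) (u : Fin a → F) (β β' : Mb) :
    (NJ D.J₁ u u ⊗ₖ β) * (NJ D.J₁ u u ⊗ₖ β') = 0 := by
  rw [← Matrix.mul_kronecker_mul, NJ_mul, D.h₁.alt u, zero_smul, Matrix.zero_kronecker]

/-- **Piece BSapi.**  `BS D H u = {β | N₁(u,u) ⊗ β ∈ NN H}` is an `F`-subspace invariant under `O(V₂)`. -/
theorem BS_add (D : SoDat F a b) {H : Subgroup GLn} {u : Fin a → F} {β β' : Mb}
    (h : β ∈ BS D H u) (h' : β' ∈ BS D H u) : β + β' ∈ BS D H u := by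
  show NJ D.J₁ u u ⊗ₖ (β + β') ∈ NN H
  rw [Matrix.kronecker_add]
  exact NN_add h h' (kk_zero D u β β') (kk_zero D u β' β)

theorem BS_neg (D : SoDat F a b) {H : Subgroup GLn} {u : Fin a → F} {β : Mb}
    (h : β ∈ BS D H u) : -β ∈ BS D H u := by
  show NJ D.J₁ u u ⊗ₖ (-β) ∈ NN H
  have e : NJ D.J₁ u u ⊗ₖ (-β) = -(NJ D.J₁ u u ⊗ₖ β) := by
    ext ⟨i, j⟩ ⟨i', j'⟩
    simp [Matrix.kroneckerMap_apply]
  rw [e]
  exact NN_neg h

theorem BS_zero (D : SoDat F a b) (H : Subgroup GLn) (u : Fin a → F) : (0 : Mb) ∈ BS D H u := by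
  show NJ D.J₁ u u ⊗ₖ (0 : Mb) ∈ NN H
  rw [Matrix.kronecker_zero]
  exact ⟨by simp, 1, H.one_mem, by simp⟩

theorem BS_sq (D : SoDat F a b) {H : Subgroup GLn} (hMH : KS a b F ⊓ SG D ≤ H) {u : Fin a → F}
    (hu : u ≠ 0) {β : Mb} (l : F) (h : β ∈ BS D H u) : (l ^ 2) • β ∈ BS D H u := by
  by_cases hl : l = 0
  · rw [hl]
    simpa using BS_zero D H u
  obtain ⟨g, hg, hgu⟩ := exists_iso_vec D.h₁ hu (smul_ne_zero hl hu)
  obtain ⟨m, hm, hm1, hm2⟩ := kron1_mem D g hg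
  have h1 := NN_conj h (hMH hm)
  rw [hm1, hm2, ← Matrix.mul_kronecker_mul, ← Matrix.mul_kronecker_mul, NJ_conj hg, hgu, one_mul,
    mul_one, NJ_smul_left, NJ_smul_right, smul_smul, Matrix.smul_kronecker,
    ← Matrix.kronecker_smul] at h1
  show NJ D.J₁ u u ⊗ₖ ((l ^ 2) • β) ∈ NN H
  rw [pow_two]
  exact h1

theorem BS_smul (D : SoDat F a b) {H : Subgroup GLn} (hMH : KS a b F ⊓ SG D ≤ H) {u : Fin a → F}
    {β : Mb} (k : F) (h : β ∈ BS D H u) : k • β ∈ BS D H u := by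
  by_cases hu : u = 0
  · show NJ D.J₁ u u ⊗ₖ (k • β) ∈ NN H
    have e : NJ D.J₁ u u = 0 := by rw [hu]; simp [NJ]
    rw [e, Matrix.zero_kronecker]
    exact ⟨by simp, 1, H.one_mem, by simp⟩
  have h2 := D.two
  have e : k • β = (((k + 1) / 2) ^ 2) • β + -((((k - 1) / 2) ^ 2) • β) := by
    rw [← sub_eq_add_neg, ← sub_smul]
    congr 1
    field_simp
    ring
  rw [e]
  exact BS_add D (BS_sq D hMH hu _ h) (BS_neg D (BS_sq D hMH hu _ h))

/-- `kron2_mem`, `NN_conj`, `← Matrix.mul_kronecker_mul`. -/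
theorem BS_conj (D : SoDat F a b) {H : Subgroup GLn} (hMH : KS a b F ⊓ SG D ≤ H) {u : Fin a → F}
    {β : Mb} (g : GLb) (hg : IsIso D.J₂ g) (h : β ∈ BS D H u) :
    (g : Mb) * β * ((g⁻¹ : GLb) : Mb) ∈ BS D H u := by
  obtain ⟨m, hm, hm1, hm2⟩ := kron2_mem D g hg
  have h1 := NN_conj h (hMH hm)
  rw [hm1, hm2, ← Matrix.mul_kronecker_mul, ← Matrix.mul_kronecker_mul, one_mul, mul_one] at h1
  exact h1

end Cfsg.Agent.Lib.H97EBSapi
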