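import Cfsg.Agent.Lib.Helper49ODefs
import Cfsg.Agent.Lib.Helper95Cen
import Cfsg.Agent.Lib.Helper95Form

/-!
# Vocabulary for the ENDGAME of `Sp(V₁) ⊗ O(V₂) < Sp(V₁ ⊗ V₂)` (project 97, architect helper97)

`Bf D` = the form `f₁ ⊗ f₂` as a `LinearMap.BilinForm` (alternating, nondegenerate);
`TT D H` = the set of `y` such that ALL transvections with centre `y` lie in `H`
(`= cen (Bf_isAlt D) (pull H)`, so the whole API of `Helper95Cen` applies);
`Gam J x y = N(x,y) + N(y,x)`; `BS D H u` = `{β | N₁(u,u) ⊗ β ∈ NN H}`.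
-/

set_option autoImplicit false
set_option linter.unusedSectionVars false

namespace Cfsg.Agent.Lib.H97EDefs

open scoped Matrix Kronecker
open Matrix Cfsg.Agent.Lib.Helper49TDefs Cfsg.Agent.Lib.Helper49SDefs Cfsg.Agent.Lib.Helper49ODefs
  Cfsg.Agent.Lib.Helper95Basic Cfsg.Agent.Lib.Helper95Sp Cfsg.Agent.Lib.Helper95Cen
  Cfsg.Agent.Lib.Helper95Form

variable {F : Type*} [Field F] {a b n : ℕ}

/-- the form `f₁ ⊗ f₂` as a bilinear form -/
noncomputable def Bf (D : SoDat F a b) : LinearMap.BilinForm F (Fin a × Fin b → F) :=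
  Matrix.toBilin' (D.J₁ ⊗ₖ D.J₂)

theorem Bf_apply (D : SoDat F a b) (x y : Fin a × Fin b → F) : Bf D x y = D.f x y :=
  Matrix.toBilin'_apply' _ x y

theorem symp_transpose {J : Matrix (Fin n) (Fin n) F} (hJ : IsSympMat J) : Jᵀ = -J := by
  ext i j
  have h := hJ.swap (Pi.single j 1) (Pi.single i 1)
  simpa [bf] using h

theorem symm_transpose {J : Matrix (Fin n) (Fin n) F} (hJ : IsSymmMat J) : Jᵀ = J := by
  ext i j
  have h := hJ.symm (Pi.single j 1) (Pi.single i 1)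
  simpa [bf] using h

theorem f_swap (D : SoDat F a b) (x y : Fin a × Fin b → F) : D.f x y = - D.f y x := by
  have hT : (D.J₁ ⊗ₖ D.J₂)ᵀ = -(D.J₁ ⊗ₖ D.J₂) := by
    rw [← Matrix.kroneckerMap_transpose, symp_transpose D.h₁, symm_transpose D.h₂]
    ext ⟨i, j⟩ ⟨i', j'⟩
    simp [Matrix.kroneckerMap_apply]
  show fK D.J₁ D.J₂ x y = - fK D.J₁ D.J₂ y x
  unfold fK
  rw [Matrix.dotProduct_mulVec, ← Matrix.mulVec_transpose, hT, Matrix.neg_mulVec, neg_dotProduct,
    dotProduct_comm]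

theorem f_self (D : SoDat F a b) (x : Fin a × Fin b → F) : D.f x x = 0 := by
  have h := f_swap D x x
  have h2 : (2 : F) * D.f x x = 0 := by linear_combination h
  exact (mul_eq_zero.1 h2).resolve_left D.two

theorem Bf_isAlt (D : SoDat F a b) : (Bf D).IsAlt := fun x => by rw [Bf_apply]; exact f_self D x

theorem Bf_nondegenerate (D : SoDat F a b) : (Bf D).Nondegenerate := by
  rw [Bf, Matrix.nondegenerate_toBilin'_iff]
  apply Matrix.nondegenerate_of_det_ne_zero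
  rw [Matrix.det_kronecker]
  exact mul_ne_zero (pow_ne_zero _ D.h₁.unit.ne_zero) (pow_ne_zero _ D.h₂.unit.ne_zero)

/-- centres `y` such that all transvections `x ↦ x + k f(x,y) y` lie in `H` -/
def TT (D : SoDat F a b) (H : Subgroup (Matrix.GeneralLinearGroup (Fin a × Fin b) F)) :
    Set (Fin a × Fin b → F) := cen (Bf_isAlt D) (pull H)

/-- `Γ(x,y) = N(x,y) + N(y,x)` -/
def Gam (J : Matrix (Fin n) (Fin n) F) (x y : Fin n → F) : Matrix (Fin n) (Fin n) F :=
  NJ J x y + NJ J y x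

/-- the coefficient space `{β | N₁(u,u) ⊗ β ∈ NN H}` -/
def BS (D : SoDat F a b) (H : Subgroup (Matrix.GeneralLinearGroup (Fin a × Fin b) F))
    (u : Fin a → F) : Set (Matrix (Fin b) (Fin b) F) := {β | NJ D.J₁ u u ⊗ₖ β ∈ NN H}

/-- `f₂` is nondegenerate on the subspace `Z` -/
def NdOn (J : Matrix (Fin n) (Fin n) F) (Z : Submodule F (Fin n → F)) : Prop :=
  ∀ x ∈ Z, (∀ y ∈ Z, bf J x y = 0) → x = 0

end Cfsg.Agent.Lib.H97EDefs
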