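import Cfsg.Agent.Lib.H97EPureW

set_option autoImplicit false
set_option linter.unusedSectionVars false
set_option linter.unusedVariables false

namespace Cfsg.Agent.Lib.H97EExt

open scoped Matrix Kronecker
open Matrix Cfsg.Agent.Lib.Helper49TDefs Cfsg.Agent.Lib.Helper49SDefs Cfsg.Agent.Lib.Helper49ODefs
  Cfsg.Agent.Lib.Helper95Basic Cfsg.Agent.Lib.Helper95Sp Cfsg.Agent.Lib.Helper95Cen
  Cfsg.Agent.Lib.Helper95Form Cfsg.Agent.Lib.H97EDefs

variable {F : Type*} [Field F] {a b n : ℕ}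

local notation "GLn" => Matrix.GeneralLinearGroup (Fin a × Fin b) F
local notation "Mn" => Matrix (Fin a × Fin b) (Fin a × Fin b) F
local notation "Ma" => Matrix (Fin a) (Fin a) F
local notation "Mb" => Matrix (Fin b) (Fin b) F
local notation "GLa" => Matrix.GeneralLinearGroup (Fin a) F
local notation "GLb" => Matrix.GeneralLinearGroup (Fin b) F

open Cfsg.Agent.Lib.H97ENd Cfsg.Agent.Lib.H97ESing Cfsg.Agent.Lib.H97EPureW

theorem tens_mem_tsub' {Z : Submodule F (Fin b → F)} {z : Fin b → F} (hz : z ∈ Z) (u : Fin a → F) :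
    tens u z ∈ tsub a Z := by
  intro s'
  have : (fun j => tens u z (s', j)) = u s' • z := by
    funext j; simp [tens]
  rw [this]
  exact Z.smul_mem _ hz

theorem tens_ne_zero' {u : Fin a → F} {c : Fin b → F} (hu : u ≠ 0) (hc : c ≠ 0) : tens u c ≠ 0 := by
  obtain ⟨i, hi⟩ := Function.ne_iff.1 hu
  obtain ⟨j, hj⟩ := Function.ne_iff.1 hc
  intro h
  have := congrFun h (i, j)
  simp only [tens, Pi.zero_apply] at this hi hj
  exact (mul_ne_zero hi hj) this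

/-- **Piece Ext.**  The extension step.  `X = tsub a Z`, `Y = tsub a (span {w})`.  `cen_merge hZT hY (nd_tsub D hZ) (nd_tsub D hW) hXY hx hx0 hy hy0 (mixed_TT ...)` and `tsub_sup_le`.
`hY` : `mem_tsub_span_singleton` + `pureW_TT`.  `hW : NdOn J₂ (span {w})` since `f₂(w,w) ≠ 0`.  `hXY`: `y = tens x' w`, `fK_eq_bf_ctr`, the `s`-th coordinate of `ctr (J₂ w) x` is `bf J₂ (x (s,·)) w = 0`.
Mixed vector: `x₀ = Pi.single ⟨0, _⟩ 1 ≠ 0` (`ha`); `tens x₀ (c + β d) ≠ 0` (`c + β d ≠ 0` because `f₂(c + β d, d) = f₂(c,d) ≠ 0`), `tens x₀ w ≠ 0`: a pure tensor of non-zero vectors is non-zero (evaluate at a pair of indices). -/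
theorem ext_step (D : SoDat F a b) (ha : 1 ≤ a) (H : Subgroup GLn) (hMH : KS a b F ⊓ SG D ≤ H)
    (hH : H ≤ SG D) {c d : Fin b → F} (hc : bf D.J₂ c c = 0) (hd : bf D.J₂ d d = 0)
    (hcd : bf D.J₂ c d ≠ 0) (Z : Submodule F (Fin b → F)) (hcZ : c ∈ Z) (hdZ : d ∈ Z)
    (hZ : NdOn D.J₂ Z) (hZT : ∀ y ∈ tsub a Z, y ∈ TT D H) {w : Fin b → F}
    (hwZ : ∀ z ∈ Z, bf D.J₂ w z = 0) (hw : bf D.J₂ w w ≠ 0) :
    ∀ y ∈ tsub a (Z ⊔ Submodule.span F {w}), y ∈ TT D H := by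
  have hY : ∀ y ∈ tsub a (Submodule.span F {w}), y ∈ TT D H := by
    intro y hy
    obtain ⟨x, rfl⟩ := mem_tsub_span_singleton hy
    exact pureW_TT D H hMH hH hc hd hcd Z hcZ hdZ hZ hZT hwZ hw x
  have hW : NdOn D.J₂ (Submodule.span F {w}) := by
    intro x hx hperp
    obtain ⟨l, rfl⟩ := Submodule.mem_span_singleton.1 hx
    have h1 := hperp w (Submodule.mem_span_singleton_self w)
    rw [bf_smul_left] at h1
    rw [(mul_eq_zero.1 h1).resolve_right hw, zero_smul]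
  have hXY : ∀ x ∈ tsub a Z, ∀ y ∈ tsub a (Submodule.span F {w}), Bf D x y = 0 := by
    intro x hx y hy
    obtain ⟨x', rfl⟩ := mem_tsub_span_singleton hy
    rw [Bf_apply]
    show fK D.J₁ D.J₂ x (tens x' w) = 0
    rw [fK_eq_bf_ctr]
    have h1 : ctr (D.J₂ *ᵥ w) x = 0 := by
      funext s
      have h2 := hwZ _ (hx s)
      rw [D.h₂.symm] at h2
      exact h2
    rw [h1, bf_zero_left]
  obtain ⟨β, hβ⟩ : ∃ β, β = -(bf D.J₂ w w) / (2 * bf D.J₂ c d) := ⟨_, rfl⟩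
  have hx0 : (Pi.single (⟨0, ha⟩ : Fin a) (1 : F) : Fin a → F) ≠ 0 := by
    intro h
    have := congrFun h ⟨0, ha⟩
    simp at this
  have hcb : c + β • d ≠ 0 := by
    intro h
    have h1 : bf D.J₂ (c + β • d) d = 0 := by rw [h, bf_zero_left]
    rw [bf_add_left, bf_smul_left, hd, mul_zero, add_zero] at h1
    exact hcd h1
  have hw0 : w ≠ 0 := by
    intro h
    rw [h, bf_zero_left] at hw
    exact hw rfl
  have hmix := mixed_TT D H hMH hH hc hd hcd (fun x => hZT _ (tens_mem_tsub' hcZ x))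
    (hwZ c hcZ) (hwZ d hdZ) hw (Pi.single (⟨0, ha⟩ : Fin a) (1 : F))
  rw [← hβ] at hmix
  intro y hy
  exact cen_merge hZT hY (nd_tsub D hZ) (nd_tsub D hW) hXY
    (tens_mem_tsub' (Z.add_mem hcZ (Z.smul_mem β hdZ)) _) (tens_ne_zero' hx0 hcb)
    (tens_mem_tsub' (Submodule.mem_span_singleton_self w) _) (tens_ne_zero' hx0 hw0) hmix y
    (tsub_sup_le Z w hy)

end Cfsg.Agent.Lib.H97EExt
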