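import Cfsg.Agent.Lib.H97EDefs

set_option autoImplicit false
set_option linter.unusedSectionVars false
set_option linter.unusedVariables false

namespace Cfsg.Agent.Lib.H97EIrr

open scoped Matrix Kronecker
open Matrix Cfsg.Agent.Lib.Helper49TDefs Cfsg.Agent.Lib.Helper49SDefs Cfsg.Agent.Lib.Helper49ODefs
  Cfsg.Agent.Lib.Helper95Basic Cfsg.Agent.Lib.Helper95Sp Cfsg.Agent.Lib.Helper95Cen
  Cfsg.Agent.Lib.Helper95Form Cfsg.Agent.Lib.H97EDefs

variable {F : Type*} [Field F] {a b n : ℕ}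

local notation "GLn" => Matrix.GeneralLinearGroup (Fin a × Fin b) F
local notation "Mn" => Matrix (Fin a × Fin b) (Fin a × Fin b) F
local notation "Ma" => Matrix (Fin a) (Fin a) F
local notation "Mb" => Matrix (Fin b) (Fin b) F
local notation "GLa" => Matrix.GeneralLinearGroup (Fin a) F
local notation "GLb" => Matrix.GeneralLinearGroup (Fin b) F

theorem q_add_smul {J : Matrix (Fin n) (Fin n) F} (hJ : IsSymmMat J) (u w : Fin n → F) (t : F) :
    bf J (u + t • w) (u + t • w) = bf J u u + 2 * t * bf J u w + t ^ 2 * bf J w w := by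
  simp only [bf_add_left, bf_add_right, bf_smul_left, bf_smul_right]
  rw [hJ.symm w u]
  ring

theorem exists_sq_ne [Fintype F] (h5 : 5 ≤ Fintype.card F) (s : F) : ∃ t : F, t ≠ 0 ∧ t ^ 2 ≠ s := by
  classical
  by_contra hcon
  push Not at hcon
  have hs : s = 1 := by
    have := hcon 1 one_ne_zero
    simpa using this.symm
  have hsub : (Finset.univ : Finset F) ⊆ {0, 1, -1} := by
    intro t _
    by_cases ht : t = 0
    · simp [ht]
    · have h1 := hcon t ht
      rw [hs, pow_two, mul_self_eq_one_iff] at h1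
      rcases h1 with h1 | h1 <;> simp [h1]
  have h1 := Finset.card_le_card hsub
  have h2 : ({0, 1, -1} : Finset F).card ≤ 3 := Finset.card_le_three
  rw [Finset.card_univ] at h1
  omega

theorem mem_of_refl {J : Matrix (Fin n) (Fin n) F} (h2 : (2 : F) ≠ 0) {x : Fin n → F}
    (A : Submodule F (Fin n → F))
    (hA : ∀ v, bf J v v ≠ 0 → bf J v x = 0 → ∀ y ∈ A, y - (2 * bf J y v / bf J v v) • v ∈ A)
    {v y : Fin n → F} (hv : bf J v v ≠ 0) (hvx : bf J v x = 0) (hy : y ∈ A)
    (hyv : bf J y v ≠ 0) : v ∈ A := by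
  have h1 := hA v hv hvx y hy
  have h3 : (2 * bf J y v / bf J v v) • v ∈ A := by
    have := A.sub_mem hy h1
    simpa using this
  have hc : 2 * bf J y v / bf J v v ≠ 0 := div_ne_zero (mul_ne_zero h2 hyv) hv
  exact (A.smul_mem_iff hc).mp h3

theorem exists_nonsing {J : Matrix (Fin n) (Fin n) F} (hJ : IsSymmMat J) (h2 : (2 : F) ≠ 0)
    {v₁ w : Fin n → F} (h1 : bf J v₁ w = 1) (hw : bf J w w = 0) :
    ∃ t : F, bf J (v₁ + t • w) (v₁ + t • w) ≠ 0 := by
  by_cases h : bf J v₁ v₁ = 0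
  · refine ⟨1, ?_⟩
    rw [q_add_smul hJ, h, h1, hw]
    simpa using h2
  · refine ⟨0, ?_⟩
    simpa using h

/-- **Piece Irr.**  PURE LINEAR ALGEBRA, `q ≥ 5`.  The reflections `r_v` (`v ⊥ x` nonsingular) act irreducibly on `x^⊥`. -/
theorem irr [Fintype F] (h5 : 5 ≤ Fintype.card F) {J : Matrix (Fin n) (Fin n) F}
    (hJ : IsSymmMat J) (h2 : (2 : F) ≠ 0) {x : Fin n → F} (hx : bf J x x ≠ 0)
    (A : Submodule F (Fin n → F))
    (hA : ∀ v, bf J v v ≠ 0 → bf J v x = 0 → ∀ y ∈ A, y - (2 * bf J y v / bf J v v) • v ∈ A)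
    {z : Fin n → F} (hz : z ∈ A) (hz0 : z ≠ 0) (hzx : bf J z x = 0) :
    ∀ y, bf J y x = 0 → y ∈ A := by
  -- (a)
  have ha : ∃ z₁ ∈ A, bf J z₁ x = 0 ∧ bf J z₁ z₁ ≠ 0 := by
    by_cases hq : bf J z z = 0
    · obtain ⟨v₀, hv₀⟩ := hJ.exists_ne_zero hz0
      obtain ⟨v₁, hv₁⟩ : ∃ v₁, v₁ = v₀ - (bf J v₀ x / bf J x x) • x := ⟨_, rfl⟩
      have hxz : bf J x z = 0 := by rw [hJ.symm]; exact hzx
      have h1x : bf J v₁ x = 0 := by
        rw [hv₁]
        simp only [bf_sub_left, bf_smul_left]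
        field_simp
        ring
      have h1z : bf J v₁ z = 1 := by
        rw [hv₁]
        simp only [bf_sub_left, bf_smul_left, hxz, mul_zero, sub_zero]
        exact hv₀
      obtain ⟨t, ht⟩ := exists_nonsing hJ h2 h1z hq
      have hvx : bf J (v₁ + t • z) x = 0 := by simp [h1x, hzx]
      refine ⟨v₁ + t • z, ?_, hvx, ht⟩
      apply mem_of_refl h2 A hA ht hvx hz
      rw [bf_add_right, bf_smul_right, hq, hJ.symm z v₁, h1z]
      simp
    · exact ⟨z, hz, hzx, hq⟩
  obtain ⟨z₁, hz₁A, hz₁x, hz₁q⟩ := ha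
  -- (b)
  have hb : ∀ y, bf J y x = 0 → bf J y z₁ = 0 → bf J y y ≠ 0 → y ∈ A := by
    intro y hyx hyz hyq
    obtain ⟨t, ht0, ht⟩ := exists_sq_ne h5 (-(bf J z₁ z₁ / bf J y y))
    have hzy : bf J z₁ y = 0 := by rw [hJ.symm]; exact hyz
    have hv : bf J (z₁ + t • y) (z₁ + t • y) ≠ 0 := by
      rw [q_add_smul hJ, hzy]
      intro e
      apply ht
      field_simp
      linear_combination e
    have hvx : bf J (z₁ + t • y) x = 0 := by simp [hz₁x, hyx]
    have hvA : z₁ + t • y ∈ A := by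
      apply mem_of_refl h2 A hA hv hvx hz₁A
      rw [bf_add_right, bf_smul_right, hzy]
      simpa using hz₁q
    have : t • y ∈ A := by simpa using A.sub_mem hvA hz₁A
    exact (A.smul_mem_iff ht0).mp this
  -- (c)
  have hc : ∀ y, bf J y x = 0 → bf J y z₁ = 0 → y ∈ A := by
    intro y hyx hyz
    by_cases hyq : bf J y y = 0
    · by_cases hy0 : y = 0
      · rw [hy0]; exact A.zero_mem
      obtain ⟨v₀, hv₀⟩ := hJ.exists_ne_zero hy0
      obtain ⟨v₁, hv₁⟩ : ∃ v₁, v₁ = v₀ - (bf J v₀ x / bf J x x) • x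
        - (bf J v₀ z₁ / bf J z₁ z₁) • z₁ := ⟨_, rfl⟩
      have hxz₁ : bf J x z₁ = 0 := by rw [hJ.symm]; exact hz₁x
      have hxy : bf J x y = 0 := by rw [hJ.symm]; exact hyx
      have hz₁y : bf J z₁ y = 0 := by rw [hJ.symm]; exact hyz
      have h1x : bf J v₁ x = 0 := by
        rw [hv₁]
        simp only [bf_sub_left, bf_smul_left, hz₁x]
        field_simp
        ring
      have h1z : bf J v₁ z₁ = 0 := by
        rw [hv₁]
        simp only [bf_sub_left, bf_smul_left, hxz₁]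
        field_simp
        ring
      have h1y : bf J v₁ y = 1 := by
        rw [hv₁]
        simp only [bf_sub_left, bf_smul_left, hxy, hz₁y, mul_zero, sub_zero]
        exact hv₀
      obtain ⟨t, ht⟩ := exists_nonsing hJ h2 h1y hyq
      obtain ⟨y₀, hy₀⟩ : ∃ y₀, y₀ = v₁ + t • y := ⟨_, rfl⟩
      rw [← hy₀] at ht
      have h0x : bf J y₀ x = 0 := by simp [hy₀, h1x, hyx]
      have h0z : bf J y₀ z₁ = 0 := by simp [hy₀, h1z, hyz]
      have h0y : bf J y y₀ = 1 := by
        rw [hy₀, bf_add_right, bf_smul_right, hyq, hJ.symm y v₁, h1y]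
        simp
      have h0A : y₀ ∈ A := hb y₀ h0x h0z ht
      obtain ⟨s, hs⟩ : ∃ s : F, bf J (y + s • y₀) (y + s • y₀) ≠ 0 := by
        by_cases h : 2 + bf J y₀ y₀ = 0
        · refine ⟨-1, ?_⟩
          rw [q_add_smul hJ, hyq, h0y]
          have h' : bf J y₀ y₀ = -2 := by linear_combination h
          rw [h']
          intro e
          apply h2
          have : (2 : F) * 2 = 0 := by linear_combination -e
          exact mul_self_eq_zero.mp this
        · refine ⟨1, ?_⟩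
          rw [q_add_smul hJ, hyq, h0y]
          intro e
          apply h
          linear_combination e
      have h3 : y + s • y₀ ∈ A := hb _ (by simp [hyx, h0x]) (by simp [hyz, h0z]) hs
      have := A.sub_mem h3 (A.smul_mem s h0A)
      simpa using this
    · exact hb y hyx hyz hyq
  -- (d)
  intro y hyx
  have h3 := hc (y - (bf J y z₁ / bf J z₁ z₁) • z₁) (by simp [hyx, hz₁x])
    (by simp only [bf_sub_left, bf_smul_left]; field_simp; ring)
  have := A.add_mem h3 (A.smul_mem (bf J y z₁ / bf J z₁ z₁) hz₁A)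
  simpa using this

end Cfsg.Agent.Lib.H97EIrr
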