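import Cfsg.Agent.Lib.H97EBSapi
import Cfsg.Agent.Lib.H97ERefl
import Cfsg.Agent.Lib.H97EIrr

set_option autoImplicit false
set_option linter.unusedSectionVars false
set_option linter.unusedVariables false

namespace Cfsg.Agent.Lib.H97EGood

open scoped Matrix Kronecker
open Matrix Cfsg.Agent.Lib.Helper49TDefs Cfsg.Agent.Lib.Helper49SDefs Cfsg.Agent.Lib.Helper49ODefs
  Cfsg.Agent.Lib.Helper95Basic Cfsg.Agent.Lib.Helper95Sp Cfsg.Agent.Lib.Helper95Cen
  Cfsg.Agent.Lib.Helper95Form Cfsg.Agent.Lib.H97EDefs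

variable {F : Type*} [Field F] {a b n : ℕ}

local notation "GLn" => Matrix.GeneralLinearGroup (Fin a × Fin b) F
local notation "Mn" => Matrix (Fin a × Fin b) (Fin a × Fin b) F
local notation "Ma" => Matrix (Fin a) (Fin a) F
local notation "Mb" => Matrix (Fin b) (Fin b) F
local notation "GLa" => Matrix.GeneralLinearGroup (Fin a) F
local notation "GLb" => Matrix.GeneralLinearGroup (Fin b) F

open Cfsg.Agent.Lib.H97EBSapi Cfsg.Agent.Lib.H97ERefl Cfsg.Agent.Lib.H97EIrr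

theorem Gam_add (J : Matrix (Fin n) (Fin n) F) (x y y' : Fin n → F) :
    Gam J x (y + y') = Gam J x y + Gam J x y' := by
  unfold Gam
  rw [NJ_add_left, NJ_add_right]
  abel

theorem Gam_smul (J : Matrix (Fin n) (Fin n) F) (k : F) (x y : Fin n → F) :
    Gam J x (k • y) = k • Gam J x y := by
  unfold Gam
  rw [NJ_smul_left, NJ_smul_right, smul_add]

theorem Gam_zero (J : Matrix (Fin n) (Fin n) F) (x : Fin n → F) : Gam J x 0 = 0 := by
  have := Gam_smul J 0 x 0
  simpa using this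

/-- **Piece Good.** -/
theorem good [Fintype F] (h5 : 5 ≤ Fintype.card F) (D : SoDat F a b) {H : Subgroup GLn}
    (hMH : KS a b F ⊓ SG D ≤ H) {u : Fin a → F} {x z : Fin b → F} (hx : bf D.J₂ x x ≠ 0)
    (hz0 : z ≠ 0) (hzx : bf D.J₂ z x = 0) (h : Gam D.J₂ x z ∈ BS D H u) :
    ∀ y, bf D.J₂ y x = 0 → Gam D.J₂ x y ∈ BS D H u := by
  let A : Submodule F (Fin b → F) :=
    { carrier := {y | Gam D.J₂ x y ∈ BS D H u}
      add_mem' := fun {y y'} hy hy' => by
        show Gam D.J₂ x (y + y') ∈ BS D H u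
        rw [Gam_add]; exact BS_add D hy hy'
      zero_mem' := by
        show Gam D.J₂ x 0 ∈ BS D H u
        rw [Gam_zero]; exact BS_zero D H u
      smul_mem' := fun k y hy => by
        show Gam D.J₂ x (k • y) ∈ BS D H u
        rw [Gam_smul]; exact BS_smul D hMH k hy }
  have hA : ∀ v, bf D.J₂ v v ≠ 0 → bf D.J₂ v x = 0 → ∀ y ∈ A,
      y - (2 * bf D.J₂ y v / bf D.J₂ v v) • v ∈ A := by
    intro v hv hvx y hy
    obtain ⟨g, hg, _, _, hgv⟩ := refl_iso D.h₂ hv
    have h1 := BS_conj D hMH g hg hy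
    have hgx : (g : Mb) *ᵥ x = x := by
      rw [hgv, D.h₂.symm x v, hvx]
      simp
    have e : (g : Mb) * Gam D.J₂ x y * ((g⁻¹ : GLb) : Mb) = Gam D.J₂ x ((g : Mb) *ᵥ y) := by
      unfold Gam
      rw [mul_add, add_mul, NJ_conj hg, NJ_conj hg, hgx]
    rw [e, hgv] at h1
    exact h1
  exact irr h5 D.h₂ D.two hx A hA (z := z) h hz0 hzx

end Cfsg.Agent.Lib.H97EGood
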