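import Cfsg.Agent.Lib.H97EDefs
import Cfsg.Agent.Lib.H49SKronKS
import Cfsg.Agent.Lib.H49SSp1
import Cfsg.Agent.Lib.H49SSp2

set_option autoImplicit false
set_option linter.unusedSectionVars false
set_option linter.unusedVariables false

namespace Cfsg.Agent.Lib.H97EKron

open scoped Matrix Kronecker
open Matrix Cfsg.Agent.Lib.Helper49TDefs Cfsg.Agent.Lib.Helper49SDefs Cfsg.Agent.Lib.Helper49ODefs
  Cfsg.Agent.Lib.Helper95Basic Cfsg.Agent.Lib.Helper95Sp Cfsg.Agent.Lib.Helper95Cen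
  Cfsg.Agent.Lib.Helper95Form Cfsg.Agent.Lib.H97EDefs

variable {F : Type*} [Field F] {a b n : ℕ}

local notation "GLn" => Matrix.GeneralLinearGroup (Fin a × Fin b) F
local notation "Mn" => Matrix (Fin a × Fin b) (Fin a × Fin b) F
local notation "Ma" => Matrix (Fin a) (Fin a) F
local notation "Mb" => Matrix (Fin b) (Fin b) F
local notation "GLa" => Matrix.GeneralLinearGroup (Fin a) F
local notation "GLb" => Matrix.GeneralLinearGroup (Fin b) F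

theorem dot_conj {ι : Type*} [Fintype ι] (A K : Matrix ι ι F) (x y : ι → F) :
    (A *ᵥ x) ⬝ᵥ K *ᵥ (A *ᵥ y) = x ⬝ᵥ (Aᵀ * K * A) *ᵥ y := by
  rw [← Matrix.mulVec_mulVec, ← Matrix.mulVec_mulVec, Matrix.dotProduct_mulVec x Aᵀ,
    Matrix.vecMul_transpose]

theorem iso_mat {J : Matrix (Fin n) (Fin n) F} {g : Matrix.GeneralLinearGroup (Fin n) F}
    (hg : IsIso J g) : (g : Matrix (Fin n) (Fin n) F)ᵀ * J * (g : Matrix (Fin n) (Fin n) F) = J := by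
  ext i j
  have h := hg (Pi.single i 1) (Pi.single j 1)
  unfold bf at h
  rw [dot_conj] at h
  simpa using h

theorem kron_iso (D : SoDat F a b) (A : Ma) (B : Mb) (hA : Aᵀ * D.J₁ * A = D.J₁)
    (hB : Bᵀ * D.J₂ * B = D.J₂) (x y : Fin a × Fin b → F) :
    fK D.J₁ D.J₂ ((A ⊗ₖ B) *ᵥ x) ((A ⊗ₖ B) *ᵥ y) = fK D.J₁ D.J₂ x y := by
  unfold fK
  rw [dot_conj, ← Matrix.kroneckerMap_transpose, ← Matrix.mul_kronecker_mul,
    ← Matrix.mul_kronecker_mul, hA, hB]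

/-- **Piece Kron.**  `Sp(V₁) ⊗ 1` and `1 ⊗ O(V₂)` lie in `KS ⊓ Sp(V)`.
`m = Units.map (Cfsg.Agent.Lib.H49SSp1.kronL a b F) g` (resp. `H49SSp2.kronR`); `Cfsg.Agent.Lib.H49SKronKS.mem_KS_of_kron m A B rfl`.
Isometry (`mem_IG`): from `IsIso J g` get `gᵀ * J * g = J` (entries: `Pi.single`), then
`(g ⊗ 1)ᵀ * (J₁ ⊗ J₂) * (g ⊗ 1) = (gᵀ J₁ g) ⊗ J₂` (`Matrix.mul_kronecker_mul`, `kroneckerMap_transpose`) and
`fK (A x) (A y) = x ⬝ᵥ (Aᵀ * K * A) *ᵥ y` (`Matrix.dotProduct_mulVec`, `vecMul_transpose`, `mulVec_mulVec`). -/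
theorem kron1_mem (D : SoDat F a b) (g : GLa) (hg : IsIso D.J₁ g) :
    ∃ m ∈ KS a b F ⊓ SG D, (m : Mn) = (g : Ma) ⊗ₖ (1 : Mb) ∧
      ((m⁻¹ : GLn) : Mn) = ((g⁻¹ : GLa) : Ma) ⊗ₖ (1 : Mb) := by
  refine ⟨Units.map (Cfsg.Agent.Lib.H49SSp1.kronL a b F) g,
    ⟨Cfsg.Agent.Lib.H49SKronKS.mem_KS_of_kron _ (g : Ma) (1 : Mb) rfl, ?_⟩, rfl, ?_⟩
  · show _ ∈ IG D.J₁ D.J₂
    rw [mem_IG]
    intro x y
    exact kron_iso D (g : Ma) 1 (iso_mat hg) (by simp) x y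
  · rw [← map_inv]
    rfl

theorem kron2_mem (D : SoDat F a b) (g : GLb) (hg : IsIso D.J₂ g) :
    ∃ m ∈ KS a b F ⊓ SG D, (m : Mn) = (1 : Ma) ⊗ₖ (g : Mb) ∧
      ((m⁻¹ : GLn) : Mn) = (1 : Ma) ⊗ₖ ((g⁻¹ : GLb) : Mb) := by
  refine ⟨Units.map (Cfsg.Agent.Lib.H49SSp2.kronR a b F) g,
    ⟨Cfsg.Agent.Lib.H49SKronKS.mem_KS_of_kron _ (1 : Ma) (g : Mb) rfl, ?_⟩, rfl, ?_⟩
  · show _ ∈ IG D.J₁ D.J₂
    rw [mem_IG]
    intro x y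
    exact kron_iso D 1 (g : Mb) (by simp) (iso_mat hg) x y
  · rw [← map_inv]
    rfl

end Cfsg.Agent.Lib.H97EKron
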