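import Cfsg.Agent.Lib.H97EDefs

set_option autoImplicit false
set_option linter.unusedSectionVars false
set_option linter.unusedVariables false

namespace Cfsg.Agent.Lib.H97ENd

open scoped Matrix Kronecker
open Matrix Cfsg.Agent.Lib.Helper49TDefs Cfsg.Agent.Lib.Helper49SDefs Cfsg.Agent.Lib.Helper49ODefs
  Cfsg.Agent.Lib.Helper95Basic Cfsg.Agent.Lib.Helper95Sp Cfsg.Agent.Lib.Helper95Cen
  Cfsg.Agent.Lib.Helper95Form Cfsg.Agent.Lib.H97EDefs

variable {F : Type*} [Field F] {a b n : ℕ}

local notation "GLn" => Matrix.GeneralLinearGroup (Fin a × Fin b) F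
local notation "Mn" => Matrix (Fin a × Fin b) (Fin a × Fin b) F
local notation "Ma" => Matrix (Fin a) (Fin a) F
local notation "Mb" => Matrix (Fin b) (Fin b) F
local notation "GLa" => Matrix.GeneralLinearGroup (Fin a) F
local notation "GLb" => Matrix.GeneralLinearGroup (Fin b) F

/-- **Piece Nd.**  `f` is nondegenerate on `V₁ ⊗ Z` if `f₂` is nondegenerate on `Z`.
Let `x ∈ tsub a Z` be perpendicular to `tsub a Z`.  For `u`, `z ∈ Z`: `tens u z ∈ tsub a Z` and `0 = f(x, u⊗z) = bf J₁ (ctr (J₂ z) x) u` (`fK_eq_bf_ctr`), so `ctr (J₂ *ᵥ z) x = 0` (`D.h₁.eq_zero_of_left`);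
its `s`-th coordinate is `bf J₂ (fun j => x (s,j)) z`.  `hZ` gives `x (s, ·) = 0`. -/
theorem nd_tsub (D : SoDat F a b) {Z : Submodule F (Fin b → F)} (hZ : NdOn D.J₂ Z) :
    nd (Bf D) (tsub a Z) := by
  intro x hx hperp
  have hrow : ∀ s : Fin a, (fun j => x (s, j)) = 0 := by
    intro s
    apply hZ _ (hx s)
    intro z hz
    have h1 : ctr (D.J₂ *ᵥ z) x = 0 := by
      apply D.h₁.eq_zero_of_left
      intro u
      have h2 : tens u z ∈ tsub a Z := by
        intro s'
        have : (fun j => tens u z (s', j)) = u s' • z := by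
          funext j; simp [tens]
        rw [this]
        exact Z.smul_mem _ hz
      have h3 := hperp _ h2
      rw [Bf_apply] at h3
      rw [← fK_eq_bf_ctr]
      exact h3
    exact congrFun h1 s
  funext ⟨s, j⟩
  exact congrFun (hrow s) j

/-- rows: `v (s, ·) = z_s + l_s • w` (`Submodule.mem_sup`, `Submodule.mem_span_singleton`, `choose`). -/
theorem tsub_sup_le (Z : Submodule F (Fin b → F)) (w : Fin b → F) :
    tsub a (Z ⊔ Submodule.span F {w}) ≤ tsub a Z ⊔ tsub a (Submodule.span F {w}) := by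
  intro v hv
  have h1 : ∀ s : Fin a, ∃ (z : Fin b → F) (l : F), z ∈ Z ∧ (fun j => v (s, j)) = z + l • w := by
    intro s
    obtain ⟨z, hz, y, hy, hzy⟩ := Submodule.mem_sup.1 (hv s)
    obtain ⟨l, rfl⟩ := Submodule.mem_span_singleton.1 hy
    exact ⟨z, l, hz, hzy.symm⟩
  choose z l hz hzl using h1
  refine Submodule.mem_sup.2 ⟨fun p => z p.1 p.2, fun s => hz s, fun p => l p.1 * w p.2, fun s => ?_, ?_⟩
  · have : (fun j => (fun p : Fin a × Fin b => l p.1 * w p.2) (s, j)) = l s • w := by
      funext j; simp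
    rw [this]
    exact Submodule.smul_mem _ _ (Submodule.mem_span_singleton_self w)
  · funext ⟨s, j⟩
    have := congrFun (hzl s) j
    simpa using this.symm

theorem mem_tsub_span_singleton {w : Fin b → F} {y : Fin a × Fin b → F}
    (hy : y ∈ tsub a (Submodule.span F {w})) : ∃ x : Fin a → F, y = tens x w := by
  have h1 : ∀ s : Fin a, ∃ l : F, l • w = (fun j => y (s, j)) :=
    fun s => Submodule.mem_span_singleton.1 (hy s)
  choose l hl using h1
  refine ⟨l, ?_⟩
  funext ⟨s, j⟩
  have := congrFun (hl s) j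
  simpa [tens] using this.symm

/-- `Submodule.mem_span_pair` -/
theorem mem_tsub_span_pair {c d : Fin b → F} {y : Fin a × Fin b → F}
    (hy : y ∈ tsub a (Submodule.span F {c, d})) : ∃ x x' : Fin a → F, y = tens x c + tens x' d := by
  have h1 : ∀ s : Fin a, ∃ l l' : F, l • c + l' • d = (fun j => y (s, j)) :=
    fun s => Submodule.mem_span_pair.1 (hy s)
  choose l l' hl using h1
  refine ⟨l, l', ?_⟩
  funext ⟨s, j⟩
  have := congrFun (hl s) j
  simpa [tens] using this.symm

end Cfsg.Agent.Lib.H97ENd
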