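import Cfsg.Agent.Lib.H97EKron
import Cfsg.Agent.Lib.H97ETv
import Cfsg.Agent.Lib.H97ERefl

set_option autoImplicit false
set_option linter.unusedSectionVars false
set_option linter.unusedVariables false

namespace Cfsg.Agent.Lib.H97ESing

open scoped Matrix Kronecker
open Matrix Cfsg.Agent.Lib.Helper49TDefs Cfsg.Agent.Lib.Helper49SDefs Cfsg.Agent.Lib.Helper49ODefs
  Cfsg.Agent.Lib.Helper95Basic Cfsg.Agent.Lib.Helper95Sp Cfsg.Agent.Lib.Helper95Cen
  Cfsg.Agent.Lib.Helper95Form Cfsg.Agent.Lib.H97EDefs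

variable {F : Type*} [Field F] {a b n : ℕ}

local notation "GLn" => Matrix.GeneralLinearGroup (Fin a × Fin b) F
local notation "Mn" => Matrix (Fin a × Fin b) (Fin a × Fin b) F
local notation "Ma" => Matrix (Fin a) (Fin a) F
local notation "Mb" => Matrix (Fin b) (Fin b) F
local notation "GLa" => Matrix.GeneralLinearGroup (Fin a) F
local notation "GLb" => Matrix.GeneralLinearGroup (Fin b) F

open Cfsg.Agent.Lib.H97EKron Cfsg.Agent.Lib.H97ETv Cfsg.Agent.Lib.H97ERefl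

/-! **Piece Sing.**  `w = c - d` has `f₂(w,w) = -2 f₂(c,d) ≠ 0` and `r_w c = d`. -/

theorem sing_move (D : SoDat F a b) (H : Subgroup GLn) (hMH : KS a b F ⊓ SG D ≤ H)
    (hH : H ≤ SG D) {c d : Fin b → F} (hc : bf D.J₂ c c = 0) (hd : bf D.J₂ d d = 0)
    (hcd : bf D.J₂ c d ≠ 0) (h : ∀ x : Fin a → F, tens x c ∈ TT D H) :
    ∀ x : Fin a → F, tens x d ∈ TT D H := by
  have hq : bf D.J₂ (c - d) (c - d) = -2 * bf D.J₂ c d := by
    simp only [bf_sub_left, bf_sub_right]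
    rw [hc, hd, D.h₂.symm d c]
    ring
  have hw : bf D.J₂ (c - d) (c - d) ≠ 0 := by
    rw [hq]
    exact mul_ne_zero (neg_ne_zero.2 D.two) hcd
  obtain ⟨g, hiso, hg, -, hv⟩ := refl_iso D.h₂ hw
  obtain ⟨m, hm, hmM, -⟩ := kron2_mem D g hiso
  intro x
  have h1 := TT_map D hH (hMH hm) (h x)
  rw [hmM, kron_mulVec_tens, Matrix.one_mulVec, hv] at h1
  have h2 : c - (2 * bf D.J₂ c (c - d) / bf D.J₂ (c - d) (c - d)) • (c - d) = d := by
    have h3 : 2 * bf D.J₂ c (c - d) / bf D.J₂ (c - d) (c - d) = 1 := by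
      rw [hq, bf_sub_right, hc]
      have := D.two
      field_simp
      ring
    rw [h3, one_smul]
    abel
  rw [h2] at h1
  exact h1

/-- a singular partner -/
theorem exists_partner (D : SoDat F a b) {c : Fin b → F} (hc0 : c ≠ 0) (hc : bf D.J₂ c c = 0) :
    ∃ d : Fin b → F, bf D.J₂ d d = 0 ∧ bf D.J₂ c d = 1 := by
  obtain ⟨d₁, hd₁⟩ := D.h₂.exists_ne_zero hc0
  refine ⟨d₁ - (bf D.J₂ d₁ d₁ / 2) • c, ?_, ?_⟩
  · simp only [bf_sub_left, bf_sub_right, bf_smul_left, bf_smul_right]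
    rw [hc, D.h₂.symm c d₁, hd₁]
    have := D.two
    field_simp
    ring
  · simp only [bf_sub_right, bf_smul_right]
    rw [hc, D.h₂.symm c d₁, hd₁]
    ring

end Cfsg.Agent.Lib.H97ESing
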