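import Cfsg.Agent.Lib.H97ENd
import Cfsg.Agent.Lib.H97ESing

set_option autoImplicit false
set_option linter.unusedSectionVars false
set_option linter.unusedVariables false

namespace Cfsg.Agent.Lib.H97EPureW

open scoped Matrix Kronecker
open Matrix Cfsg.Agent.Lib.Helper49TDefs Cfsg.Agent.Lib.Helper49SDefs Cfsg.Agent.Lib.Helper49ODefs
  Cfsg.Agent.Lib.Helper95Basic Cfsg.Agent.Lib.Helper95Sp Cfsg.Agent.Lib.Helper95Cen
  Cfsg.Agent.Lib.Helper95Form Cfsg.Agent.Lib.H97EDefs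

variable {F : Type*} [Field F] {a b n : ℕ}

local notation "GLn" => Matrix.GeneralLinearGroup (Fin a × Fin b) F
local notation "Mn" => Matrix (Fin a × Fin b) (Fin a × Fin b) F
local notation "Ma" => Matrix (Fin a) (Fin a) F
local notation "Mb" => Matrix (Fin b) (Fin b) F
local notation "GLa" => Matrix.GeneralLinearGroup (Fin a) F
local notation "GLb" => Matrix.GeneralLinearGroup (Fin b) F

open Cfsg.Agent.Lib.H97ENd Cfsg.Agent.Lib.H97ESing

/-- **Piece PureW.**  `Z ∋ c, d` nondegenerate with `V₁ ⊗ Z ⊆ TT`, `w ⊥ Z` nonsingular.  Then (1) the mixed vectors `x ⊗ (c + β d) + x ⊗ w` are in `TT`, `β = - f₂(w,w) / (2 f₂(c,d))`, and (2) `V₁ ⊗ w ⊆ TT`.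
(1) `c' = c + β • d + w` is singular and `f₂(c,c') = β f₂(c,d) = - f₂(w,w)/2 ≠ 0`; `sing_move` (with `tens x c ∈ TT` from `hZT`).  `tens_add_right`.
(2) Let `x'' ≠ 0`; choose `x'` with `f₁(x'',x') ≠ 0`, `x = x'' - x'` (so `f₁(x,x') ≠ 0`, `x, x' ≠ 0`).  `X = tsub a Z`, `y₁ = tens x₀ c ∈ X` non-zero (`x₀ = x`).
`cen_replace hZT (nd_tsub D hZ)` turns (1) into `y₁ + x⊗w ∈ TT` and `-y₁ + x'⊗w ∈ TT` (`r = x⊗w` is perpendicular to `X`: `f(x⊗w, y) = ...` use `f_swap`, `fK_eq_bf_ctr` and `ctr (J₂ w) y = 0` for `y ∈ tsub a Z`).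
`f(y₁ + x⊗w, -y₁ + x'⊗w) = f₁(x,x') f₂(w,w) ≠ 0`, `cen_add`, sum `= x''⊗w`. -/
theorem mixed_TT (D : SoDat F a b) (H : Subgroup GLn) (hMH : KS a b F ⊓ SG D ≤ H) (hH : H ≤ SG D)
    {c d : Fin b → F} (hc : bf D.J₂ c c = 0) (hd : bf D.J₂ d d = 0) (hcd : bf D.J₂ c d ≠ 0)
    (hcT : ∀ x : Fin a → F, tens x c ∈ TT D H) {w : Fin b → F} (hwc : bf D.J₂ w c = 0)
    (hwd : bf D.J₂ w d = 0) (hw : bf D.J₂ w w ≠ 0) (x : Fin a → F) :
    tens x (c + (-(bf D.J₂ w w) / (2 * bf D.J₂ c d)) • d) + tens x w ∈ TT D H := by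
  have h2 := D.two
  have hcw : bf D.J₂ c w = 0 := by rw [D.h₂.symm]; exact hwc
  have hdw : bf D.J₂ d w = 0 := by rw [D.h₂.symm]; exact hwd
  have hdc : bf D.J₂ d c = bf D.J₂ c d := D.h₂.symm d c
  have hs : bf D.J₂ (c + (-(bf D.J₂ w w) / (2 * bf D.J₂ c d)) • d + w)
      (c + (-(bf D.J₂ w w) / (2 * bf D.J₂ c d)) • d + w) = 0 := by
    simp only [bf_add_left, bf_add_right, bf_smul_left, bf_smul_right, hc, hd, hcw, hdw, hwc, hwd, hdc]
    field_simp
    ring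
  have hne : bf D.J₂ c (c + (-(bf D.J₂ w w) / (2 * bf D.J₂ c d)) • d + w) ≠ 0 := by
    simp only [bf_add_right, bf_smul_right, hc, hcw]
    have : 0 + -bf D.J₂ w w / (2 * bf D.J₂ c d) * bf D.J₂ c d + 0 = -bf D.J₂ w w / 2 := by
      field_simp
      ring
    rw [this]
    exact div_ne_zero (neg_ne_zero.mpr hw) h2
  have := sing_move D H hMH hH hc hs hne hcT x
  rwa [tens_add_right] at this

theorem pureW_TT (D : SoDat F a b) (H : Subgroup GLn) (hMH : KS a b F ⊓ SG D ≤ H) (hH : H ≤ SG D)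
    {c d : Fin b → F} (hc : bf D.J₂ c c = 0) (hd : bf D.J₂ d d = 0) (hcd : bf D.J₂ c d ≠ 0)
    (Z : Submodule F (Fin b → F)) (hcZ : c ∈ Z) (hdZ : d ∈ Z) (hZ : NdOn D.J₂ Z)
    (hZT : ∀ y ∈ tsub a Z, y ∈ TT D H) {w : Fin b → F} (hwZ : ∀ z ∈ Z, bf D.J₂ w z = 0)
    (hw : bf D.J₂ w w ≠ 0) (x : Fin a → F) : tens x w ∈ TT D H := by
  by_cases hx0 : x = 0
  · rw [hx0, tens_zero_left']
    exact zero_mem_cen
  obtain ⟨x', hx'⟩ := D.h₁.exists_ne_zero hx0
  -- `bf J₁ x' x = 1`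
  have htm : ∀ (u : Fin a → F) (z : Fin b → F), z ∈ Z → tens u z ∈ tsub a Z := by
    intro u z hz
    rw [mem_tsub]
    intro s
    exact Z.smul_mem (u s) hz
  have hcT : ∀ u : Fin a → F, tens u c ∈ TT D H := fun u => hZT _ (htm u c hcZ)
  have hwc := hwZ c hcZ
  have hwd := hwZ d hdZ
  have hmix := mixed_TT D H hMH hH hc hd hcd hcT hwc hwd hw
  set β := -(bf D.J₂ w w) / (2 * bf D.J₂ c d) with hβ
  have hperp : ∀ (u : Fin a → F), ∀ y ∈ tsub a Z, Bf D (tens u w) y = 0 := by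
    intro u y hy
    rw [Bf_apply, f_swap, SoDat.f, fK_eq_bf_ctr]
    have : ctr (D.J₂ *ᵥ w) y = 0 := by
      rw [← mem_tsub_perpS_iff, mem_tsub]
      intro s
      rw [mem_perpS, D.h₂.symm]
      exact hwZ _ (mem_tsub.mp hy s)
    rw [this]
    simp
  have tens_ne : ∀ (u : Fin a → F) (z : Fin b → F), u ≠ 0 → z ≠ 0 → tens u z ≠ 0 := by
    intro u z hu hz h
    obtain ⟨i, hi⟩ := Function.ne_iff.mp hu
    obtain ⟨j, hj⟩ := Function.ne_iff.mp hz
    have := congrFun h (i, j)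
    exact (mul_ne_zero hi hj) this
  have hc0 : c ≠ 0 := by
    rintro rfl
    simp at hcd
  have hcβ : c + β • d ≠ 0 := by
    intro h
    have : bf D.J₂ (c + β • d) d = 0 := by rw [h]; simp
    simp only [bf_add_left, bf_smul_left, hd, mul_zero, add_zero] at this
    exact hcd this
  have hcβZ : c + β • d ∈ Z := Z.add_mem hcZ (Z.smul_mem _ hdZ)
  have hx1x' : bf D.J₁ (x - x') x' ≠ 0 := by
    rw [bf_sub_left, D.h₁.alt, sub_zero, D.h₁.swap, hx']
    simp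
  have hx10 : x - x' ≠ 0 := by
    intro h
    rw [h] at hx1x'
    simp at hx1x'
  have hx'0 : x' ≠ 0 := by
    rintro rfl
    simp at hx'
  have hy1 : tens (x - x') c ∈ tsub a Z := htm _ c hcZ
  have hy10 : tens (x - x') c ≠ 0 := tens_ne _ _ hx10 hc0
  have A1 : tens (x - x') c + tens (x - x') w ∈ TT D H :=
    cen_replace hZT (nd_tsub D hZ) (htm (x - x') _ hcβZ) (tens_ne _ _ hx10 hcβ) hy1 hy10
      (hperp (x - x')) (hmix (x - x'))
  have A2 : -tens (x - x') c + tens x' w ∈ TT D H :=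
    cen_replace hZT (nd_tsub D hZ) (htm x' _ hcβZ) (tens_ne _ _ hx'0 hcβ) ((tsub a Z).neg_mem hy1)
      (neg_ne_zero.mpr hy10) (hperp x') (hmix x')
  have hB : Bf D (tens (x - x') c + tens (x - x') w) (-tens (x - x') c + tens x' w) ≠ 0 := by
    rw [Bf_apply]
    simp only [SoDat.f, fK_add_left, fK_add_right, fK_neg_right, fK_tens, hc, hwc, D.h₂.symm c w, D.h₁.alt]
    simp only [mul_zero, neg_zero, zero_add]
    exact mul_ne_zero hx1x' hw
  have := cen_add A1 A2 hB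
  have e : tens (x - x') c + tens (x - x') w + (-tens (x - x') c + tens x' w) = tens x w := by
    have : tens x w = tens (x - x') w + tens x' w := by
      rw [← tens_add_left, sub_add_cancel]
    rw [this]
    abel
  rwa [e] at this

end Cfsg.Agent.Lib.H97EPureW
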