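import Cfsg.Agent.Lib.H97Sp4Odd

set_option autoImplicit false
set_option linter.unusedSectionVars false

namespace Cfsg.Agent.Lib.H97Sp4Field

open Cfsg.Agent.Lib.Helper95Basic hiding tv tv_mulVec
open Matrix Cfsg.Agent.Lib.Helper95Sp Cfsg.Agent.Lib.Helper95SpStd
  Cfsg.Agent.Lib.Helper99Subfield Cfsg.Agent.Lib.Helper99SubfieldSL Cfsg.Agent.Lib.Helper99SubfieldGen
  Cfsg.Agent.Lib.Helper99SubfieldSp

variable {F : Type*} [Field F] {m : ℕ} {F₀ : Subfield F} {M : Subgroup (GL (Fin m ⊕ Fin m) F)}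

local notation "⟪" x ", " y "⟫" => stdB F m x y

open Cfsg.Agent.Lib.H97Sp4Odd

lemma tv_smul' (a : F) (v : Fin m ⊕ Fin m → F) (c : F) : tv (a • v) c = tv v (a * a * c) := by
  apply gl_ext
  intro x
  rw [tv_mulVec, tv_mulVec]
  simp only [map_smul, smul_eq_mul]
  module

lemma tv_mul_tv (w : Fin m ⊕ Fin m → F) (c d : F) : tv w c * tv w d = tv w (c + d) := by
  apply gl_ext
  intro x
  rw [mul_mulVec, tv_mulVec, tv_mulVec, tv_mulVec]
  simp only [map_add, map_smul, LinearMap.add_apply, LinearMap.smul_apply, smul_eq_mul, B_self,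
    mul_zero, add_zero]
  module

lemma conj_tv {g : GL (Fin m ⊕ Fin m) F} (hgs : g ∈ Cfsg.spGL m F) (v : Fin m ⊕ Fin m → F) (c : F) :
    g * tv v c * g⁻¹ = tv ((g : Matrix _ _ F) *ᵥ v) c := by
  apply gl_ext
  intro x
  rw [mul_mulVec, mul_mulVec, tv_mulVec, tv_mulVec]
  simp only [mulVec_add, mulVec_smul, mulVec_inv_mulVec, sp_apply_inv hgs]

lemma tv_zero' (c : F) : tv (0 : Fin m ⊕ Fin m → F) c = 1 := by
  apply gl_ext
  intro x
  rw [tv_mulVec]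
  simp

/-- **Piece Field.**  Characteristic 2, `M ≥ Sp_{2m}(F₀)`.  `L = {l | tv (l • e i₀) 1 ∈ M}` is a subfield of `F` containing `F₀`;
if it is bigger than `F₀` it is `F`, and then all `tv u c`, `u` rational, are in `M`. -/
theorem tv_univ [Fintype F] (h2 : (2 : F) = 0) (r : ℕ) (hr : r.Prime)
    (hcard : Fintype.card F = Nat.card F₀ ^ r) (hHM : Hsp F₀ m ≤ M) (hMS : M ≤ Cfsg.spGL m F)
    (i₀ : Fin m ⊕ Fin m) {l : F} (hl : tv (l • e i₀) 1 ∈ M) (hl0 : l ∉ F₀) :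
    ∀ (c : F) (u : Fin m ⊕ Fin m → F), IsRat F₀ u → tv u c ∈ M := by
  have hadd : ∀ a b : F, tv (a • e i₀) 1 ∈ M → tv (b • e i₀) 1 ∈ M → tv ((a + b) • e i₀) 1 ∈ M := by
    intro a b ha hb
    rw [tv_smul'] at ha hb ⊢
    have : (a + b) * (a + b) * 1 = a * a * 1 + b * b * 1 := by linear_combination (a * b) * h2
    rw [this, ← tv_mul_tv]
    exact M.mul_mem ha hb
  have hrat : ∀ a ∈ F₀, tv (a • e i₀) 1 ∈ M := fun a ha =>
    hHM (Sp0_le (tv_mem_Sp0 (IsRat.smul ha (rat_e i₀)) F₀.one_mem))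
  have hdiv : ∀ a μ : F, a ≠ 0 → tv (a • e i₀) 1 ∈ M → tv (μ • e i₀) 1 ∈ M →
      tv ((μ / a) • e i₀) 1 ∈ M := by
    intro a μ ha0 ha hμ
    have hv : tv (e (sw i₀) : Fin m ⊕ Fin m → F) 1 ∈ M :=
      hHM (Sp0_le (tv_mem_Sp0 (rat_e _) F₀.one_mem))
    have huv : ⟪a • (e i₀ : Fin m ⊕ Fin m → F), e (sw i₀)⟫ ≠ 0 := by
      rw [map_smul, LinearMap.smul_apply, Bee, smul_eq_mul]
      exact mul_ne_zero ha0 (ε_ne_zero _)
    obtain ⟨h₁, h₁M, h₁S, h₁e, -⟩ := exists_move h2 ha hv huv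
    obtain ⟨h₂, h₂0, h₂e⟩ := moveSp (F₀ := F₀) (rat_e (sw i₀)) (e_ne_zero' (F := F) (sw i₀)) i₀
    have h₂M : h₂ ∈ M := hHM (Sp0_le h₂0)
    have hS : h₂ * h₁ ∈ Cfsg.spGL m F := (Cfsg.spGL m F).mul_mem h₂0.2 h₁S
    have e1 : ((h₂ * h₁ : GL _ F) : Matrix _ _ F) *ᵥ (μ • e i₀) = (μ / a) • e i₀ := by
      have : μ • (e i₀ : Fin m ⊕ Fin m → F) = (μ / a) • (a • e i₀) := by
        rw [smul_smul, div_mul_cancel₀ _ ha0]
      rw [this, mulVec_smul, mul_mulVec, h₁e, h₂e]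
    rw [← e1, ← conj_tv hS]
    exact M.mul_mem (M.mul_mem (M.mul_mem h₂M h₁M) hμ) (M.inv_mem (M.mul_mem h₂M h₁M))
  have hmul : ∀ a b : F, tv (a • e i₀) 1 ∈ M → tv (b • e i₀) 1 ∈ M → tv ((a * b) • e i₀) 1 ∈ M := by
    intro a b ha hb
    by_cases hb0 : b = 0
    · rw [hb0, mul_zero]
      exact hrat 0 F₀.zero_mem
    · have h1 := hdiv b 1 hb0 hb (hrat 1 F₀.one_mem)
      have h3 := hdiv (1 / b) a (one_div_ne_zero hb0) h1 ha
      rwa [div_div_eq_mul_div, div_one] at h3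
  let D : Subalgebra F₀ F :=
    { carrier := {a | tv (a • e i₀) 1 ∈ M}
      mul_mem' := fun {a b} ha hb => hmul a b ha hb
      add_mem' := fun {a b} ha hb => hadd a b ha hb
      algebraMap_mem' := fun a => hrat _ a.2 }
  have hD : D = ⊤ := subalgebra_eq_top r hr hcard D l hl hl0
  have hall : ∀ a : F, tv (a • e i₀) 1 ∈ M := by
    intro a
    have : a ∈ D := by rw [hD]; trivial
    exact this
  intro c u hu
  by_cases hu0 : u = 0
  · rw [hu0, tv_zero']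
    exact M.one_mem
  · obtain ⟨g, hg0, hge⟩ := moveSp hu hu0 i₀
    have hgM : g ∈ M := hHM (Sp0_le hg0)
    have hch : ringChar F = 2 := CharP.ringChar_of_prime_eq_zero Nat.prime_two (by exact_mod_cast h2)
    obtain ⟨a, rfl⟩ := FiniteField.isSquare_of_char_two hch c
    have e1 : tv u (a * a) = g⁻¹ * tv (a • e i₀) 1 * g⁻¹⁻¹ := by
      rw [conj_tv ((Cfsg.spGL m F).inv_mem hg0.2), ← hge, ← mulVec_smul, inv_mulVec_mulVec,
        tv_smul', mul_one]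
    rw [e1]
    exact M.mul_mem (M.mul_mem (M.inv_mem hgM) (hall a)) (M.inv_mem (M.inv_mem hgM))

end Cfsg.Agent.Lib.H97Sp4Field
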