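import Cfsg.Agent.Lib.H97Sp4Odd
import Cfsg.Agent.Lib.H97Sp4Field

set_option autoImplicit false
set_option linter.unusedSectionVars false

namespace Cfsg.Agent.Lib.H97Sp4ClaimB

open Cfsg.Agent.Lib.Helper95Basic hiding tv tv_mulVec
open Matrix Cfsg.Agent.Lib.Helper95Sp Cfsg.Agent.Lib.Helper95SpStd
  Cfsg.Agent.Lib.Helper99Subfield Cfsg.Agent.Lib.Helper99SubfieldSL Cfsg.Agent.Lib.Helper99SubfieldGen
  Cfsg.Agent.Lib.Helper99SubfieldSp

variable {F : Type*} [Field F] {m : ℕ} {F₀ : Subfield F} {M : Subgroup (GL (Fin m ⊕ Fin m) F)}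

local notation "⟪" x ", " y "⟫" => stdB F m x y

open Cfsg.Agent.Lib.H97Sp4Odd Cfsg.Agent.Lib.H97Sp4Field

lemma map_C (hMS : M ≤ Cfsg.spGL m F) {g : GL (Fin m ⊕ Fin m) F} (hg : g ∈ M)
    {v : Fin m ⊕ Fin m → F} (hv : tv v 1 ∈ M) : tv ((g : Matrix _ _ F) *ᵥ v) 1 ∈ M := by
  rw [← conj_tv (hMS hg)]
  exact M.mul_mem (M.mul_mem hg hv) (M.inv_mem hg)

/-- `F₀` is perfect -/
lemma mem_of_sq_mem [Finite F] (h2 : (2 : F) = 0) {s : F} (hs : s * s ∈ F₀) : s ∈ F₀ := by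
  have hch : ringChar F₀ = 2 := CharP.ringChar_of_prime_eq_zero Nat.prime_two (by
    apply Subtype.ext
    push_cast
    exact h2)
  obtain ⟨t, ht⟩ := FiniteField.isSquare_of_char_two hch (⟨s * s, hs⟩ : F₀)
  have h1 : s * s = (t : F) * t := congrArg Subtype.val ht
  have h3 : (s - t) * (s - t) = 0 := by linear_combination h1 + (t * t - s * t) * h2
  have h4 : s = t := sub_eq_zero.1 (mul_self_eq_zero.1 h3)
  rw [h4]
  exact t.2

lemma claimY [Finite F] (h2 : (2 : F) = 0) (hHM : Hsp F₀ m ≤ M) (hMS : M ≤ Cfsg.spGL m F)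
    (hL : ∀ (i₀ : Fin m ⊕ Fin m) (l : F), tv (l • e i₀) 1 ∈ M → l ∈ F₀)
    (i : Fin m ⊕ Fin m) {a : Fin m ⊕ Fin m → F} (ha : IsRat F₀ a) (hai : a i = 0)
    (hai' : a (sw i) = 0) {y : F} (hz : tv (a + y • e i) 1 ∈ M) : y ∈ F₀ := by
  by_cases hy : y = 0
  · rw [hy]; exact F₀.zero_mem
  have hf : tv (e (sw i) : Fin m ⊕ Fin m → F) 1 ∈ M :=
    hHM (Sp0_le (tv_mem_Sp0 (rat_e _) F₀.one_mem))
  have hei : tv (e i : Fin m ⊕ Fin m → F) 1 ∈ M :=
    hHM (Sp0_le (tv_mem_Sp0 (rat_e _) F₀.one_mem))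
  have haf : ⟪a, e (sw i)⟫ = 0 := by rw [B_e_right, sw_sw, hai, mul_zero]
  have hae : ⟪a, e i⟫ = 0 := by rw [B_e_right, hai', mul_zero]
  have hzf : ⟪a + y • e i, e (sw i)⟫ ≠ 0 := by
    rw [map_add, LinearMap.add_apply, haf, zero_add, map_smul, LinearMap.smul_apply, Bee,
      smul_eq_mul]
    exact mul_ne_zero hy (ε_ne_zero _)
  obtain ⟨h, hM, hS, hhz, hfix⟩ := exists_move h2 hz hf hzf
  have hha : (h : Matrix _ _ F) *ᵥ a = a := by
    apply hfix a _ haf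
    rw [map_add, B_self, zero_add, map_smul, hae, smul_zero]
  have hhe : (h : Matrix _ _ F) *ᵥ e i = y⁻¹ • (e (sw i) - a) := by
    rw [mulVec_add, hha, mulVec_smul] at hhz
    rw [← hhz, add_sub_cancel_left, smul_smul, inv_mul_cancel₀ hy, one_smul]
  have h1 := map_C hMS hM hei
  rw [hhe] at h1
  have hne : (e (sw i) - a : Fin m ⊕ Fin m → F) ≠ 0 := by
    intro h0
    have := congrFun h0 (sw i)
    simp [hai'] at this
  obtain ⟨g, hg0, hge⟩ := moveSp ((rat_e (sw i)).sub ha) hne i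
  have h3 := map_C hMS (hHM (Sp0_le hg0)) h1
  rw [mulVec_smul, hge] at h3
  have := F₀.inv_mem (hL i _ h3)
  rwa [inv_inv] at this

lemma claimB' [Finite F] (h2 : (2 : F) = 0) (hHM : Hsp F₀ m ≤ M) (hMS : M ≤ Cfsg.spGL m F)
    (hL : ∀ (i₀ : Fin m ⊕ Fin m) (l : F), tv (l • e i₀) 1 ∈ M → l ∈ F₀)
    (i : Fin m ⊕ Fin m) {x : Fin m ⊕ Fin m → F} (hx : tv x 1 ∈ M) (hxi : ⟪x, e i⟫ = 0) :
    IsRat F₀ x := by
  have hx0 : x (sw i) = 0 := by
    rw [B_e_right] at hxi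
    exact (mul_eq_zero.1 hxi).resolve_left (ε_ne_zero _)
  have hk : ∀ k, k ≠ i → k ≠ sw i → x k ∈ F₀ := by
    intro k hki hki'
    have hperp : ⟪(e (sw k) : Fin m ⊕ Fin m → F), e i⟫ = 0 := Bee_ne (by rw [sw_sw]; exact hki.symm)
    have hγ : ⟪x, e (sw k)⟫ = ε F k * x k := by rw [B_e_right, sw_sw]
    have hq : q (e i) (e (sw k) : Fin m ⊕ Fin m → F) 0 ∈ M :=
      hHM (Sp0_le (q_mem_Sp0 (rat_e _) (rat_e _) F₀.zero_mem))
    have hx' := map_C hMS hq hx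
    rw [q_mulVec hperp, hxi, zero_smul, add_zero, mul_zero, zero_smul, add_zero] at hx'
    have ha : tv (e (sw k) : Fin m ⊕ Fin m → F) 1 ∈ M :=
      hHM (Sp0_le (tv_mem_Sp0 (rat_e _) F₀.one_mem))
    have hT := map_C hMS (M.mul_mem hx hx') ha
    have hax : ⟪(e (sw k) : Fin m ⊕ Fin m → F), x⟫ = - ⟪x, e (sw k)⟫ := B_swap _ _
    have hix : ⟪(e i : Fin m ⊕ Fin m → F), x⟫ = 0 := B_zero_swap hxi
    have e1 : ((tv x 1 * tv (x + ⟪x, e (sw k)⟫ • e i) 1 : GL _ F) : Matrix _ _ F) *ᵥ e (sw k) =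
        e (sw k) + (-(⟪x, e (sw k)⟫ * ⟪x, e (sw k)⟫)) • e i := by
      rw [mul_mulVec, tv_mulVec, tv_mulVec]
      simp only [map_add, map_smul, LinearMap.add_apply, LinearMap.smul_apply, smul_eq_mul, B_self,
        hperp, hax, hix, mul_zero, add_zero, one_mul]
      have h2' : (2 : F) • x = 0 := by rw [h2, zero_smul]
      linear_combination (norm := module) (-⟪x, e (sw k)⟫) • h2'
    rw [e1] at hT
    have hY := claimY h2 hHM hMS hL i (rat_e (sw k)) (by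
      have : i ≠ sw k := fun h => hki' (by rw [h, sw_sw])
      simp [e, this]) (by
      have : sw i ≠ sw k := fun h => hki (sw_inj h).symm
      simp [e, this]) hT
    rw [hγ] at hY
    apply mem_of_sq_mem h2
    have : x k * x k = -(-(ε F k * x k * (ε F k * x k))) := by
      have := ε_mul_self (F := F) k
      linear_combination (- x k * x k) * this
    rw [this]
    exact F₀.neg_mem hY
  have ha' : IsRat F₀ (x - x i • e i) := by
    intro j
    by_cases hji : j = i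
    · subst hji
      simp [e]
    · have : (x - x i • (e i : Fin m ⊕ Fin m → F)) j = x j := by simp [e, hji]
      rw [this]
      by_cases hji' : j = sw i
      · rw [hji', hx0]; exact F₀.zero_mem
      · exact hk j hji hji'
  have hxi' : x i ∈ F₀ := by
    apply claimY h2 hHM hMS hL i ha' (by simp [e]) (by
      have := sw_ne i
      simp [e, this, hx0])
    rw [sub_add_cancel]
    exact hx
  intro j
  by_cases hji : j = i
  · rw [hji]; exact hxi'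
  · by_cases hji' : j = sw i
    · rw [hji', hx0]; exact F₀.zero_mem
    · exact hk j hji hji'

/-- **Piece ClaimB.** -/
theorem rat_of_perp [Finite F] (h2 : (2 : F) = 0) (hHM : Hsp F₀ m ≤ M) (hMS : M ≤ Cfsg.spGL m F)
    (hL : ∀ (i₀ : Fin m ⊕ Fin m) (l : F), tv (l • e i₀) 1 ∈ M → l ∈ F₀)
    {x b : Fin m ⊕ Fin m → F} (hx : tv x 1 ∈ M) (hb : IsRat F₀ b) (hb0 : b ≠ 0) (hxb : ⟪x, b⟫ = 0) :
    IsRat F₀ x := by
  obtain ⟨i, -⟩ := Function.ne_iff.1 hb0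
  obtain ⟨g, hg0, hge⟩ := moveSp hb hb0 i
  have h1 := claimB' h2 hHM hMS hL i (map_C hMS (hHM (Sp0_le hg0)) hx) (by
    rw [← hge, sp_apply hg0.2, hxb])
  have := (Sp0.ratM_inv hg0).mulVec h1
  rwa [inv_mulVec_mulVec] at this

end Cfsg.Agent.Lib.H97Sp4ClaimB
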