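import Cfsg.Agent.Lib.Helper99SubfieldSp
import Cfsg.Agent.Lib.Helper99Bender
import Cfsg.Agent.Lib.H97Sp4Field
import Cfsg.Agent.Lib.H97Sp4ClaimB

set_option autoImplicit false
set_option linter.unusedSectionVars false

namespace Cfsg.Agent.Lib.H97Sp4Bender

open Cfsg.Agent.Lib.Helper95Basic hiding tv tv_mulVec
open Matrix Cfsg.Agent.Lib.Helper95Sp Cfsg.Agent.Lib.Helper95SpStd
  Cfsg.Agent.Lib.Helper99Subfield Cfsg.Agent.Lib.Helper99SubfieldSL Cfsg.Agent.Lib.Helper99SubfieldGen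
  Cfsg.Agent.Lib.Helper99SubfieldSp Cfsg.Agent.Lib.H97Sp4Field Cfsg.Agent.Lib.H97Sp4ClaimB

variable {F : Type*} [Field F] {m : ℕ} {F₀ : Subfield F} {M : Subgroup (GL (Fin m ⊕ Fin m) F)}

local notation "⟪" x ", " y "⟫" => stdB F m x y

/-- the vector representing a covector -/
lemma exists_repr' (μ : Fin m ⊕ Fin m → F) (hμ : IsRat F₀ μ) (hμ0 : μ ≠ 0) :
    ∃ b : Fin m ⊕ Fin m → F, IsRat F₀ b ∧ b ≠ 0 ∧ ∀ x, ⟪x, b⟫ = μ ⬝ᵥ x := by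
  refine ⟨fun j => ε F (sw j) * μ (sw j), fun j => F₀.mul_mem (ε_mem F₀ _) (hμ _), ?_, ?_⟩
  · intro h0
    apply hμ0
    ext j
    have := congrFun h0 (sw j)
    simp only [sw_sw, Pi.zero_apply] at this
    exact (mul_eq_zero.1 this).resolve_left (ε_ne_zero _)
  · intro x
    rw [stdB_apply, sympForm_eq]
    simp only [dotProduct, Fintype.sum_sum_type, sw, ε, Sum.swap_inl, Sum.swap_inr, Sum.elim_inl,
      Sum.elim_inr]
    rw [← Finset.sum_add_distrib]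
    apply Finset.sum_congr rfl
    intro i _
    ring

lemma tv_sq (h2 : (2 : F) = 0) (u : Fin m ⊕ Fin m → F) : tv u 1 * tv u 1 = 1 := by
  rw [tv_mul_tv, show (1 : F) + 1 = 0 by linear_combination h2]
  apply gl_ext
  intro x
  rw [tv_mulVec]
  simp

lemma rat_of_tv_mem [Finite F] (h2 : (2 : F) = 0) {u : Fin m ⊕ Fin m → F}
    (hu : tv u 1 ∈ Sp0 F₀ m) : IsRat F₀ u := by
  intro i
  apply mem_of_sq_mem h2
  have h1 := (Sp0.ratM hu).mulVec (rat_e (sw i)) i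
  rw [tv_mulVec, B_swap, B_e_right, sw_sw] at h1
  have h3 : ((e (sw i) : Fin m ⊕ Fin m → F) + (1 * -(ε F i * u i)) • u) i = -(ε F i * (u i * u i)) := by
    have := sw_ne i
    simp [e, this.symm]
    ring
  rw [h3] at h1
  have h4 := F₀.mul_mem (ε_mem F₀ i) (F₀.neg_mem h1)
  have h5 : ε F i * - -(ε F i * (u i * u i)) = u i * u i := by
    have := ε_mul_self (F := F) i
    linear_combination (u i * u i) * this
  rwa [h5] at h4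

lemma exists_perp (hm : 2 ≤ m) (u u' : Fin m ⊕ Fin m → F) :
    ∃ w : Fin m ⊕ Fin m → F, w ≠ 0 ∧ ⟪w, u⟫ = 0 ∧ ⟪w, u'⟫ = 0 := by
  set f : (Fin m ⊕ Fin m → F) →ₗ[F] F × F :=
    LinearMap.prod ((stdB F m).flip u) ((stdB F m).flip u') with hf
  have hk : LinearMap.ker f ≠ ⊥ := by
    apply LinearMap.ker_ne_bot_of_finrank_lt
    rw [Module.finrank_prod, Module.finrank_self, Module.finrank_fintype_fun_eq_card]
    simp only [Fintype.card_sum, Fintype.card_fin]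
    omega
  obtain ⟨w, hw, hw0⟩ := Submodule.exists_mem_ne_zero_of_ne_bot hk
  rw [LinearMap.mem_ker] at hw
  have h1 := congrArg Prod.fst hw
  have h3 := congrArg Prod.snd hw
  exact ⟨w, hw0, h1, h3⟩

/-- **Piece Bender.** -/
theorem le_Sp0 [Finite F] (h2 : (2 : F) = 0) (hm : 2 ≤ m) (hHM : Hsp F₀ m ≤ M)
    (hMS : M ≤ Cfsg.spGL m F)
    (hI : ∀ g ∈ M, ∀ a b : Fin m ⊕ Fin m → F, IsRat F₀ a → a ≠ 0 → IsRat F₀ b → b ≠ 0 →
      ⟪(g : Matrix (Fin m ⊕ Fin m) (Fin m ⊕ Fin m) F) *ᵥ a, b⟫ = 0 → g ∈ Sp0 F₀ m) : M ≤ Sp0 F₀ m := by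
  classical
  have hne0 : ∀ (g : GL (Fin m ⊕ Fin m) F) (u : Fin m ⊕ Fin m → F), u ≠ 0 →
      g.1 *ᵥ u ≠ 0 := by
    intro g u hu h0
    apply hu
    rw [← inv_mulVec_mulVec g u, h0, mulVec_zero]
  rw [← Subgroup.subgroupOf_eq_top]
  set i₁ : Fin m ⊕ Fin m := Sum.inl ⟨0, by omega⟩ with hi₁
  set i₂ : Fin m ⊕ Fin m := Sum.inl ⟨1, by omega⟩ with hi₂
  have hmem : ∀ i : Fin m ⊕ Fin m, tv (e i : Fin m ⊕ Fin m → F) 1 ∈ Sp0 F₀ m := fun i =>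
    tv_mem_Sp0 (rat_e i) F₀.one_mem
  refine Cfsg.Agent.Lib.Helper99Bender.eq_top_of_involutions ((Sp0 F₀ m).subgroupOf M)
    (fun i : M => ∃ u : Fin m ⊕ Fin m → F, u ≠ 0 ∧ (i : GL (Fin m ⊕ Fin m) F) = tv u 1) ?_ ?_ ?_ ?_
    ⟨tv (e i₁) 1, hHM (Sp0_le (hmem i₁))⟩ ⟨tv (e i₂) 1, hHM (Sp0_le (hmem i₂))⟩
    ⟨e i₁, e_ne_zero' _, rfl⟩ ⟨e i₂, e_ne_zero' _, rfl⟩
    (Subgroup.mem_subgroupOf.2 (hmem i₁)) (Subgroup.mem_subgroupOf.2 (hmem i₂)) ?_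
  · rintro g i ⟨u, hu0, hu⟩
    refine ⟨(g : GL (Fin m ⊕ Fin m) F).1 *ᵥ u, hne0 _ _ hu0, ?_⟩
    rw [← conj_tv (hMS g.2), ← hu]
    rfl
  · rintro i ⟨u, hu0, hu⟩
    apply Subtype.ext
    show (i : GL (Fin m ⊕ Fin m) F) * (i : GL (Fin m ⊕ Fin m) F) = 1
    rw [hu, tv_sq h2]
  · rintro i ⟨u, hu0, hu⟩ hiH g hgi
    rw [Subgroup.mem_subgroupOf] at hiH hgi ⊢
    rw [hu] at hiH
    have e1 : ((g * i * g⁻¹ : M) : GL (Fin m ⊕ Fin m) F) = tv ((g : GL (Fin m ⊕ Fin m) F).1 *ᵥ u) 1 := by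
      rw [← conj_tv (hMS g.2), ← hu]
      rfl
    rw [e1] at hgi
    exact hI g g.2 u _ (rat_of_tv_mem h2 hiH) hu0 (rat_of_tv_mem h2 hgi) (hne0 _ _ hu0) (B_self _)
  · rintro i i' ⟨u, hu0, hu⟩ ⟨u', hu0', hu'⟩ g hg hy hy'
    rw [Subgroup.mem_subgroupOf] at hg hy hy'
    apply Subtype.ext
    by_contra hne
    apply hg
    have hyc : ((i * i' : M) : GL (Fin m ⊕ Fin m) F) = tv u 1 * tv u' 1 := by rw [← hu, ← hu']; rfl
    rw [hyc] at hy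
    have hyc' : ((g * (i * i') * g⁻¹ : M) : GL (Fin m ⊕ Fin m) F) = (g : GL (Fin m ⊕ Fin m) F) * (tv u 1 * tv u' 1) * (g : GL (Fin m ⊕ Fin m) F)⁻¹ := by
      rw [← hyc]; rfl
    rw [hyc'] at hy'
    set y : GL (Fin m ⊕ Fin m) F := tv u 1 * tv u' 1 with hydef
    have hy1 : y ≠ 1 := by
      intro h1
      apply hne
      rw [hu, hu']
      have : tv u 1 = tv u 1 * (tv u' 1 * tv u' 1) := by rw [tv_sq h2, mul_one]
      rw [this, ← mul_assoc, ← hydef, h1, one_mul]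
    obtain ⟨w, hw0, hw1, hw2⟩ := exists_perp hm u u'
    have hyw : (y : Matrix (Fin m ⊕ Fin m) (Fin m ⊕ Fin m) F) *ᵥ w = w := by
      rw [hydef, mul_mulVec, tv_fix 1 hw2, tv_fix 1 hw1]
    have hker : ((((g : GL (Fin m ⊕ Fin m) F) * y * (g : GL (Fin m ⊕ Fin m) F)⁻¹ : GL (Fin m ⊕ Fin m) F) : Matrix (Fin m ⊕ Fin m) (Fin m ⊕ Fin m) F) - 1) *ᵥ
        ((g : GL (Fin m ⊕ Fin m) F).1 *ᵥ w) = 0 := by
      rw [sub_mulVec, one_mulVec, mul_mulVec, mul_mulVec, inv_mulVec_mulVec, hyw, sub_self]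
    have hrat : IsRatM F₀ ((((g : GL (Fin m ⊕ Fin m) F) * y * (g : GL (Fin m ⊕ Fin m) F)⁻¹ : GL (Fin m ⊕ Fin m) F) : Matrix (Fin m ⊕ Fin m) (Fin m ⊕ Fin m) F) - 1) := by
      intro a b
      rw [Matrix.sub_apply]
      refine F₀.sub_mem (Sp0.ratM hy' a b) ?_
      by_cases hab : a = b
      · rw [hab, Matrix.one_apply_eq]; exact F₀.one_mem
      · rw [Matrix.one_apply_ne hab]; exact F₀.zero_mem
    obtain ⟨a, ha, ha0, hka⟩ := rat_kernel hrat (hne0 _ _ hw0) hker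
    have hfix : (y : Matrix (Fin m ⊕ Fin m) (Fin m ⊕ Fin m) F) *ᵥ (((g : GL (Fin m ⊕ Fin m) F)⁻¹ : GL (Fin m ⊕ Fin m) F).1 *ᵥ a) =
        ((g : GL (Fin m ⊕ Fin m) F)⁻¹ : GL (Fin m ⊕ Fin m) F).1 *ᵥ a := by
      rw [sub_mulVec, one_mulVec, mul_mulVec, mul_mulVec, sub_eq_zero] at hka
      conv_rhs => rw [← hka]
      rw [inv_mulVec_mulVec]
    obtain ⟨k, hk⟩ : ∃ k, ((y : Matrix (Fin m ⊕ Fin m) (Fin m ⊕ Fin m) F) - 1) k ≠ 0 := by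
      by_contra hcon
      push Not at hcon
      apply hy1
      apply Units.ext
      have : (y : Matrix (Fin m ⊕ Fin m) (Fin m ⊕ Fin m) F) - 1 = 0 := by
        ext a b
        exact congrFun (hcon a) b
      exact sub_eq_zero.1 this
    have hμrat : IsRat F₀ (((y : Matrix (Fin m ⊕ Fin m) (Fin m ⊕ Fin m) F) - 1) k) := by
      intro b
      rw [Matrix.sub_apply]
      refine F₀.sub_mem (Sp0.ratM hy k b) ?_
      by_cases hab : k = b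
      · rw [hab, Matrix.one_apply_eq]; exact F₀.one_mem
      · rw [Matrix.one_apply_ne hab]; exact F₀.zero_mem
    obtain ⟨b, hb, hb0, hbμ⟩ := exists_repr' _ hμrat hk
    have hginv := hI (g : GL (Fin m ⊕ Fin m) F)⁻¹ (M.inv_mem g.2) a b ha ha0 hb hb0 (by
      rw [hbμ]
      have : (((y : Matrix (Fin m ⊕ Fin m) (Fin m ⊕ Fin m) F) - 1) *ᵥ (((g : GL (Fin m ⊕ Fin m) F)⁻¹ : GL (Fin m ⊕ Fin m) F).1 *ᵥ a)) k = 0 := by
        rw [sub_mulVec, one_mulVec, hfix, sub_self]; rfl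
      exact this)
    have := (Sp0 F₀ m).inv_mem hginv
    rwa [inv_inv] at this
  · intro h
    have h1 := congrArg (fun t : M => ((t : GL (Fin m ⊕ Fin m) F) : Matrix (Fin m ⊕ Fin m) (Fin m ⊕ Fin m) F) *ᵥ e (sw i₁)) h
    simp only [tv_mulVec] at h1
    have e1 : ⟪(e (sw i₁) : Fin m ⊕ Fin m → F), e i₁⟫ = ε F (sw i₁) := by
      have := Bee (F := F) (sw i₁)
      rwa [sw_sw] at this
    have e2 : ⟪(e (sw i₁) : Fin m ⊕ Fin m → F), e i₂⟫ = 0 := Bee_ne (by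
      rw [sw_sw, hi₁, hi₂]
      intro h
      simp at h)
    rw [e1, e2] at h1
    have h3 := congrFun h1 i₁
    have := ε_ne_zero (F := F) (sw i₁)
    simp [e, this] at h3

end Cfsg.Agent.Lib.H97Sp4Bender
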