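import Cfsg.Agent.Lib.Helper96SpxMat

set_option autoImplicit false
set_option linter.unusedSectionVars false

namespace Cfsg.Agent.Lib.H97Sp4Ext

section abs

open Module Cfsg.Agent.Lib.Helper96ExtDefs Cfsg.Agent.Lib.Helper96SpxDefs
open Cfsg.Agent.Lib.Helper15Spxaltind (altind)
open Cfsg.Agent.Lib.Helper15Spxdata (exists_data)
open Cfsg.Agent.Lib.Helper15Spxmoveri (mover_i)
open Cfsg.Agent.Lib.Helper15Spxmoverii (mover_ii)
open Cfsg.Agent.Lib.Helper15Spxq2w (q2w)
open Cfsg.Agent.Lib.Helper15Spxrootpt (rootS_pt)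
open Cfsg.Agent.Lib.Helper15Spxrseven (seven)
open Cfsg.Agent.Lib.Helper15Spxtorus (torus)
open Cfsg.Agent.Lib.Helper38Spxc1 (c1S)
open Cfsg.Agent.Lib.Helper38Spxc3a (c3aS)
open Cfsg.Agent.Lib.Helper38Spxdall (all_stv)
open Cfsg.Agent.Lib.Helper38Spxhyp (hyp)
open Cfsg.Agent.Lib.Helper90Spxq2fin (q2fin)
open Cfsg.Agent.Lib.Helper90SpxrcaseI (caseI sconfig)
open Cfsg.Agent.Lib.Helper90SpxrcaseII (caseII)
open Cfsg.Agent.Lib.Helper90Spxrpt (eqv_pt)
open Cfsg.Agent.Lib.Helper96SpxBasic (rootS_conj B_nd orth_pt bigB_of_bigS exists_func)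
open Cfsg.Agent.Lib.Helper96SpxBasic2 (eqv_equiv eqv_map exists_sq_sub)
open Cfsg.Agent.Lib.Helper97Spxdform (tv_form)
open Cfsg.Agent.Lib.Helper97Spxdmove (moveS)
open Cfsg.Agent.Lib.Helper97Spxproper (properS)
open Cfsg.Agent.Lib.Helper97Spxrep (exists_rep)
open Cfsg.Agent.Lib.Helper96ExtMain (finrank_map_unit map_map_unit map_one_unit sig_pt sig_map sig_finrank
  exists_not_mem_of_ne)
open Cfsg.Agent.Lib.Helper73Extfinrankpt (finrank_pt)
open Cfsg.Agent.Lib.Helper96Extw0 (exists_w0)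
open Cfsg.Agent.Lib.Helper94ExtA (exists_pair)
open Cfsg.Agent.Lib.Helper96SpxMain

variable {F K V : Type*} [Field F] [Field K] [Algebra F K] [AddCommGroup V] [Module F V] [Module K V]
  [IsScalarTower F K V] [Finite F] [Finite K] [Finite V]
variable {G : Subgroup (Module.End F V)ˣ} {B : LinearMap.BilinForm F V}
  {BK : LinearMap.BilinForm K V} {τ : K →ₗ[F] F}

theorem hasTvS' (h : Ctx B BK τ G) (hr : (finrank F K).Prime) (hq : ∃ f : F, f ≠ 0 ∧ f ≠ 1)
    {a : V} (ha : a ≠ 0) {Q : Submodule F V} (hQ : Sig K G Q) (hne : Q ≠ pt F K a)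
    (hd : finrank F ↥(pt F K a ⊓ Q) + 1 = finrank F K) : HasTv G := by
  have hr2 := hr.two_le
  have hW : pt F K a ⊓ Q ≠ ⊥ := by
    intro hbot
    rw [hbot, finrank_bot] at hd
    omega
  obtain ⟨Q', p, p', hQ', hd', hp, hp', hpp⟩ := exists_config h ha hQ hne hd
  obtain ⟨f, hf0, hf1⟩ := hq
  obtain ⟨T, hT⟩ := h.exists_root hQ
  obtain ⟨T', hT'⟩ := h.exists_root hQ'
  refine c1S h.data.B_swap hT hT' (by rw [hd', sig_finrank hQ]) (by rw [hd', sig_finrank hQ']) ?_ hp hp'
    hpp hf0 hf1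
  intro hbot
  rw [hbot, finrank_bot] at hd'
  omega

/-- **The abstract theorem (symplectic case), `q ≥ 3`.** -/
theorem main_absS' (hr : (finrank F K).Prime) (h8 : 0 < finrank F V) (hq : ∃ f : F, f ≠ 0 ∧ f ≠ 1)
    (B : LinearMap.BilinForm F V) (hnd : ∀ x, (∀ y, B x y = 0) → x = 0)
    (hsa : ∀ (k : K) (x y : V), B (k • x) y = B x (k • y)) (halt : ∀ (k : K) (x : V), B (k • x) x = 0)
    (G : Subgroup (Module.End F V)ˣ)
    (hG : ∀ g : (Module.End F V)ˣ,
      (∀ (k : K) (v : V), (g : Module.End F V) (k • v) = k • (g : Module.End F V) v) →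
      (∀ x y, B ((g : Module.End F V) x) ((g : Module.End F V) y) = B x y) → g ∈ G)
    (hiso : ∀ g ∈ G, ∀ x y, B ((g : Module.End F V) x) ((g : Module.End F V) y) = B x y)
    (g₀ : (Module.End F V)ˣ) (hg₀ : g₀ ∈ G)
    (hn : ¬ ∀ k : K, ∃ k' : K, ∀ v, (g₀ : Module.End F V) (k • v) = k' • (g₀ : Module.End F V) v) :
    ∀ (c : F) (w : V), ∃ g ∈ G, (g : Module.End F V) = 1 + (c • B.flip w).smulRight w := by
  obtain ⟨BK, τ, hD⟩ := exists_data (fun τ hτ l => exists_rep τ hτ l) B hnd hsa halt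
  have h : Ctx B BK τ G := ⟨hD, hiso, bigB_of_bigS hnd hG⟩
  have hmul := Module.finrank_mul_finrank F K V
  have hr2 := hr.two_le
  have hm1 : finrank K V ≠ 1 := by
    intro h1
    obtain ⟨v, hv⟩ := finrank_eq_one_iff'.mp h1
    apply hv.1
    apply hD.nd
    intro y
    obtain ⟨c, rfl⟩ := hv.2 y
    rw [map_smul, hD.alt v, smul_zero]
  have hm : 2 ≤ finrank K V := by
    by_contra hcon
    have h0 : finrank K V = 0 := by omega
    rw [h0, mul_zero] at hmul
    omega
  obtain ⟨a, P, ha, hP, hne, hW⟩ := exists_pair hm hg₀ hn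
  obtain ⟨a', P', ha', hP', hne', hd⟩ :=
    exists_good_pair' (h.mover hr) (finrank F K) a P ha hP hne hW (by omega)
  obtain ⟨ψ, w, hψ, hw, -, hin⟩ := hasTvS' h hr hq ha' hP' hne' hd
  obtain ⟨c₀, hc₀, rfl⟩ := tv_form h.iso hD.B_swap hnd hψ hw hin
  exact all_stv h.iso hD.B_self (fun a b ha hb => moveS hD h.ktv ha hb) exists_sq_sub hc₀ hw hin

end abs

open Module Cfsg Cfsg.Geo Matrix Cfsg.Agent.Lib.Helper96ExtDefs
  Cfsg.Agent.Lib.Helper96SpxMain Cfsg.Agent.Lib.Helper95Basic Cfsg.Agent.Lib.Helper95Sp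
  Cfsg.Agent.Lib.Helper95SpStd Cfsg.Agent.Lib.Helper95Cen Cfsg.Agent.Lib.Helper96SpxMat
open Cfsg.Agent.Lib.Helper97Spxproper (properS)
open scoped MatrixGroups

/-- `main_absS'` for a ring which is a field -/
theorem main_ringS' {F L V : Type*} [Field F] [Ring L] [iA : Algebra F L] [AddCommGroup V] [Module F V]
    [iM : Module L V] [iT : IsScalarTower F L V] [Finite F] [Finite L] [Finite V] (hL : IsField L)
    (hr : (finrank F L).Prime) (h8 : 0 < finrank F V) (hq : ∃ f : F, f ≠ 0 ∧ f ≠ 1)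
    (B : LinearMap.BilinForm F V) (hnd : ∀ x, (∀ y, B x y = 0) → x = 0)
    (hsa : ∀ (k : L) (x y : V), B (k • x) y = B x (k • y)) (halt : ∀ (k : L) (x : V), B (k • x) x = 0)
    (G : Subgroup (Module.End F V)ˣ)
    (hG : ∀ g : (Module.End F V)ˣ,
      (∀ (k : L) (v : V), (g : Module.End F V) (k • v) = k • (g : Module.End F V) v) →
      (∀ x y, B ((g : Module.End F V) x) ((g : Module.End F V) y) = B x y) → g ∈ G)
    (hiso : ∀ g ∈ G, ∀ x y, B ((g : Module.End F V) x) ((g : Module.End F V) y) = B x y)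
    (g₀ : (Module.End F V)ˣ) (hg₀ : g₀ ∈ G)
    (hn : ¬ ∀ k : L, ∃ k' : L, ∀ v, (g₀ : Module.End F V) (k • v) = k' • (g₀ : Module.End F V) v) :
    ∀ (c : F) (w : V), ∃ g ∈ G, (g : Module.End F V) = 1 + (c • B.flip w).smulRight w :=
  @main_absS' F L V _ hL.toField iA _ _ iM iT _ _ _ hr h8 hq B hnd hsa halt G hG hiso g₀ hg₀ hn

/-- **Piece Ext of project 5789 (row S5789).**  `Sp_{2m/r}(q^r).r < Sp_{2m}(q)` maximal for ALL `m ≥ 1` when `q ≥ 3`. -/
theorem sp_ext_maximal' {F : Type*} [Field F] [Fintype F] (m : ℕ) (hm : 1 ≤ m) (hq : 3 ≤ Fintype.card F)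
    (r : ℕ) (hr : r.Prime)
    (K : Subalgebra F (Matrix (Fin m ⊕ Fin m) (Fin m ⊕ Fin m) F)) (hK : IsFieldSubalgebra r K)
    (hsa : IsSelfAdjointFor (sympForm m F) K)
    (halt : ∀ k ∈ K, ∀ v : (Fin m ⊕ Fin m → F), sympForm m F (Matrix.mulVec k v) v = 0) :
    IsMaximalIn (spGL m F) (subalgebraNormalizer K ⊓ spGL m F) := by
  classical
  have hr2 := hr.two_le
  have hq' : ∃ f : F, f ≠ 0 ∧ f ≠ 1 := by
    by_contra hcon
    push Not at hcon
    have hle : Fintype.card F ≤ ({0, 1} : Finset F).card := by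
      apply Finset.card_le_card_of_surjOn id
      intro x _
      by_cases hx : x = 0
      · simp [hx]
      · simp [hcon x hx]
    have h2 : ({0, 1} : Finset F).card ≤ 2 := Finset.card_le_two
    omega
  have : Nontrivial K := Module.nontrivial_of_finrank_pos (R := F) (by rw [hK.finrank_eq]; omega)
  have hL := isField_of' hK
  have hA := stdB_isAlt (F := F) m
  have hnd : ∀ x, (∀ y, stdB F m x y = 0) → x = 0 := by
    intro x hx
    exact (stdB_nondegenerate (F := F) m).1 x hx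
  have hsk : ∀ x y, stdB F m x y = - stdB F m y x := fun x y => alt_swap hA x y
  have hsa' : ∀ (k : K) (x y : Fin m ⊕ Fin m → F), stdB F m (k • x) y = stdB F m x (k • y) :=
    fun k x y => hsa k k.2 x y
  have halt' : ∀ (k : K) (x : Fin m ⊕ Fin m → F), stdB F m (k • x) x = 0 := fun k x => halt k k.2 x
  have hdim : finrank F (Fin m ⊕ Fin m → F) = 2 * m := by
    rw [Module.finrank_fintype_fun_eq_card, Fintype.card_sum, Fintype.card_fin]
    ring
  have hVnt : Nontrivial (Fin m ⊕ Fin m → F) :=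
    Module.nontrivial_of_finrank_pos (R := F) (by rw [hdim]; omega)
  apply sp_maximal
  · obtain ⟨w, hw⟩ := proper_ringS (F := F) (L := K) (V := Fin m ⊕ Fin m → F) hL
      (by rw [hK.finrank_eq]; exact hr2) hVnt hnd hsk halt'
    refine ⟨stv (stdB F m) hA w 1, stv_isometry hA w 1, ?_⟩
    intro hmem
    rw [mem_normalizer_iff'] at hmem
    apply hw
    intro k
    obtain ⟨k', hk'⟩ := hmem k
    refine ⟨k', fun v => ?_⟩
    have := hk' v
    rw [mkGL_mulVec, mkGL_mulVec, stv_apply, stv_apply] at this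
    simp only [LinearMap.add_apply, Module.End.one_apply, LinearMap.smulRight_apply, smul_def'',
      LinearMap.flip_apply]
    simpa using this
  · intro M hM1 hM2 g hg hgN v c
    let φ := LinearMap.GeneralLinearGroup.generalLinearEquiv F (Fin m ⊕ Fin m → F)
    have hφ : ∀ (u : (Module.End F (Fin m ⊕ Fin m → F))ˣ) x, φ u x = (u : Module.End F _) x :=
      fun _ _ => rfl
    have key := main_ringS' (F := F) (L := K) (V := Fin m ⊕ Fin m → F) hL
      (by rw [hK.finrank_eq]; exact hr) (by rw [hdim]; omega) hq' (stdB F m) hnd hsa' halt'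
      (M.comap φ.toMonoidHom)
      (by
        intro u huK huB
        show φ u ∈ M
        apply hM1 _ huB
        rw [mem_normalizer_iff']
        intro k
        refine ⟨k, fun x => ?_⟩
        rw [mkGL_mulVec, mkGL_mulVec]
        exact huK k x)
      (by
        intro u hu x y
        exact hM2 (φ u) hu x y)
      (φ.symm g) (by
        show φ (φ.symm g) ∈ M
        rw [φ.apply_symm_apply]
        exact hg)
      (by
        intro hcon
        apply hgN
        rw [mem_normalizer_iff']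
        intro k
        obtain ⟨k', hk'⟩ := hcon k
        refine ⟨k', fun x => ?_⟩
        rw [mkGL_mulVec, mkGL_mulVec]
        have := hk' x
        rw [← hφ, ← hφ, φ.apply_symm_apply] at this
        exact this)
    obtain ⟨u, hu, huv⟩ := key c v
    have : stv (stdB F m) hA v c = φ u := by
      ext x : 1
      rw [hφ, huv, stv_apply]
      simp [LinearMap.flip_apply]
    rw [this]
    exact hu

end Cfsg.Agent.Lib.H97Sp4Ext
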