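import Cfsg.Agent.Lib.Helper99SubfieldSp

set_option autoImplicit false
set_option linter.unusedSectionVars false

namespace Cfsg.Agent.Lib.H97Sp4Gen

open Matrix Cfsg.Agent.Lib.Helper95Basic Cfsg.Agent.Lib.Helper95Sp Cfsg.Agent.Lib.Helper95SpStd
  Cfsg.Agent.Lib.Helper99Subfield Cfsg.Agent.Lib.Helper99SubfieldSL Cfsg.Agent.Lib.Helper99SubfieldGen
  Cfsg.Agent.Lib.Helper99SubfieldSp

variable {F : Type*} [Field F] {m : ℕ} {F₀ : Subfield F} {M : Subgroup (GL (Fin m ⊕ Fin m) F)}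

local notation "⟪" x ", " y "⟫" => stdB F m x y

/-- **Piece Gen.**  Characteristic 2.  If `M` contains all `tv u c` (`u` rational, `c ∈ F`) then `M = Sp`.
Copy the proof of `eq_sp_of_Sset` (`Helper99SubfieldSp`): `all_Cen hMS hS hL` needs
`hL : ∀ c, c ∈ Lset M` (`QM M (e i) 0 c`: `tv_eq_q`) and `hS : ∀ ν, ν ∈ Sset M`, i.e. `q (e i) (ν • e j) 0 ∈ M` for `j ≠ i, sw i`; in characteristic 2
`q (e i) (ν • e j) 0 = tv (e i) ν * tv (e j) ν * tv (e i + e j) ν` (check with `gl_ext`, `q_mulVec`, `tv_mulVec`, `Bee_ne`, `B_self`; use `h2` through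
`linear_combination (exp := 1) ... * h2` coordinatewise or `module` after rewriting `x + x = 0`). -/
theorem eq_sp [Finite F] (h2 : (2 : F) = 0) (hMS : M ≤ Cfsg.spGL m F)
    (h : ∀ (c : F) (u : Fin m ⊕ Fin m → F), IsRat F₀ u → tv u c ∈ M) : M = Cfsg.spGL m F := by
  have hL : ∀ c : F, c ∈ Lset M := by
    intro c i
    refine ⟨by simp, ?_⟩
    rw [← tv_eq_q]
    exact h c _ (rat_e i)
  have hS : ∀ ν : F, ν ∈ Sset M := by
    intro ν i j hji hjs
    have hij : ⟪(e i : Fin m ⊕ Fin m → F), e j⟫ = 0 := Bee_ne hjs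
    have hji' : ⟪(e j : Fin m ⊕ Fin m → F), e i⟫ = 0 := B_zero_swap hij
    have hperp : ⟪ν • (e j : Fin m ⊕ Fin m → F), e i⟫ = 0 := by
      rw [map_smul, LinearMap.smul_apply, hji', smul_zero]
    refine ⟨hperp, ?_⟩
    have key : q (e i) (ν • e j) 0 = tv (e i) ν * tv (e j) ν * tv (e i + e j : Fin m ⊕ Fin m → F) ν := by
      apply gl_ext
      intro x
      rw [mul_mulVec, mul_mulVec, q_mulVec hperp, Helper99SubfieldSp.tv_mulVec, Helper99SubfieldSp.tv_mulVec,
        Helper99SubfieldSp.tv_mulVec]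
      simp only [map_add, map_smul, LinearMap.add_apply, LinearMap.smul_apply, smul_eq_mul, B_self,
        hij, hji', mul_zero, add_zero, zero_add, zero_mul, zero_smul]
      ext k
      simp only [Pi.add_apply, Pi.smul_apply, smul_eq_mul]
      linear_combination (-(ν * ⟪x, e i⟫ * (e i : Fin m ⊕ Fin m → F) k)
        - ν * ⟪x, e j⟫ * (e j : Fin m ⊕ Fin m → F) k) * h2
    rw [key]
    exact M.mul_mem (M.mul_mem (h ν _ (rat_e i)) (h ν _ (rat_e j))) (h ν _ ((rat_e i).add (rat_e j)))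
  apply le_antisymm hMS
  intro g hg
  have hall := all_Cen hMS hS hL
  have h3 := Cfsg.Agent.Lib.Helper95Sp.mem_of_isometry (stdB_nondegenerate (F := F) m) (stdB_isAlt m)
    (Cfsg.Agent.Lib.Helper95Form.pull M) (fun v c => hall v c) (glEquiv _ F g) (by
      rw [← mkGL_mem_spGL_iff, mkGL_glEquiv]; exact hg)
  exact (Cfsg.Agent.Lib.Helper95Form.glEquiv_mem_pull M g).1 h3

end Cfsg.Agent.Lib.H97Sp4Gen
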