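import Cfsg.Agent.Lib.Helper99SubfieldSp

set_option autoImplicit false
set_option linter.unusedSectionVars false

namespace Cfsg.Agent.Lib.H97Sp4Incid

open Matrix Cfsg.Agent.Lib.Helper95Basic Cfsg.Agent.Lib.Helper95Sp Cfsg.Agent.Lib.Helper95SpStd
  Cfsg.Agent.Lib.Helper99Subfield Cfsg.Agent.Lib.Helper99SubfieldSL Cfsg.Agent.Lib.Helper99SubfieldGen
  Cfsg.Agent.Lib.Helper99SubfieldSp

variable {F : Type*} [Field F] {m : ℕ} {F₀ : Subfield F} {M : Subgroup (GL (Fin m ⊕ Fin m) F)}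

local notation "⟪" x ", " y "⟫" => stdB F m x y

theorem tv_conj' {g : GL (Fin m ⊕ Fin m) F} (hgs : g ∈ Cfsg.spGL m F) (v : Fin m ⊕ Fin m → F) (c : F) :
    g * Helper99SubfieldSp.tv v c * g⁻¹ = Helper99SubfieldSp.tv ((g : Matrix _ _ F) *ᵥ v) c := by
  apply gl_ext
  intro x
  rw [mul_mulVec, mul_mulVec, Helper99SubfieldSp.tv_mulVec, Helper99SubfieldSp.tv_mulVec]
  simp only [mulVec_add, mulVec_smul, mulVec_inv_mulVec, sp_apply_inv hgs]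

theorem mem_Sp0_of_incid_e (hm : 2 ≤ m) (hHM : Hsp F₀ m ≤ M) (hMS : M ≤ Cfsg.spGL m F)
    (hB : ∀ x b : Fin m ⊕ Fin m → F, Helper99SubfieldSp.tv x 1 ∈ M → IsRat F₀ b → b ≠ 0 →
      ⟪x, b⟫ = 0 → IsRat F₀ x)
    {g : GL (Fin m ⊕ Fin m) F} (hg : g ∈ M) (j : Fin m ⊕ Fin m) {b : Fin m ⊕ Fin m → F}
    (hb : IsRat F₀ b) (hb0 : b ≠ 0)
    (h : ⟪(g : Matrix (Fin m ⊕ Fin m) (Fin m ⊕ Fin m) F) *ᵥ e j, b⟫ = 0) : g ∈ Sp0 F₀ m := by
  classical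
  have hgs := hMS hg
  have hC : ∀ a : Fin m ⊕ Fin m → F, IsRat F₀ a →
      Helper99SubfieldSp.tv ((g : Matrix (Fin m ⊕ Fin m) (Fin m ⊕ Fin m) F) *ᵥ a) 1 ∈ M := by
    intro a ha
    rw [← tv_conj' hgs]
    exact M.mul_mem (M.mul_mem hg (hHM (Sp0_le (tv_mem_Sp0 ha F₀.one_mem)))) (M.inv_mem hg)
  have hinj : ∀ x : Fin m ⊕ Fin m → F, x ≠ 0 →
      (g : Matrix (Fin m ⊕ Fin m) (Fin m ⊕ Fin m) F) *ᵥ x ≠ 0 := by
    intro x hx h0
    have := inv_mulVec_mulVec g x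
    rw [h0, mulVec_zero] at this
    exact hx this.symm
  have step : ∀ a a' : Fin m ⊕ Fin m → F, IsRat F₀ a → IsRat F₀ a' → a' ≠ 0 →
      IsRat F₀ ((g : Matrix (Fin m ⊕ Fin m) (Fin m ⊕ Fin m) F) *ᵥ a') → ⟪a, a'⟫ = 0 →
      IsRat F₀ ((g : Matrix (Fin m ⊕ Fin m) (Fin m ⊕ Fin m) F) *ᵥ a) := by
    intro a a' ha ha' ha'0 hr haa
    exact hB _ _ (hC a ha) hr (hinj a' ha'0) (by rw [sp_apply hgs, haa])
  have h1 : IsRat F₀ ((g : Matrix (Fin m ⊕ Fin m) (Fin m ⊕ Fin m) F) *ᵥ e j) :=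
    hB _ b (hC _ (rat_e j)) hb hb0 h
  have h2 : ∀ n, n ≠ sw j → IsRat F₀ ((g : Matrix (Fin m ⊕ Fin m) (Fin m ⊕ Fin m) F) *ᵥ e n) := by
    intro n hn
    exact step _ _ (rat_e n) (rat_e j) (e_ne_zero' j) h1 (Bee_ne (fun h => hn (by rw [h, sw_sw])))
  have h3 : ∀ n, IsRat F₀ ((g : Matrix (Fin m ⊕ Fin m) (Fin m ⊕ Fin m) F) *ᵥ e n) := by
    intro n
    by_cases hn : n = sw j
    · obtain ⟨n', hn'⟩ := exists_avoid ({j, sw j} : Finset (Fin m ⊕ Fin m)) (by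
        have : ({j, sw j} : Finset (Fin m ⊕ Fin m)).card ≤ 2 := Finset.card_le_two
        simp only [Fintype.card_sum, Fintype.card_fin]
        omega)
      simp only [Finset.mem_insert, Finset.mem_singleton, not_or] at hn'
      refine step _ _ (rat_e n) (rat_e n') (e_ne_zero' n') (h2 n' hn'.2) (Bee_ne ?_)
      rw [hn, sw_sw]; exact hn'.1
    · exact h2 n hn
  refine Subgroup.mem_inf.2 ⟨?_, hgs⟩
  rw [mem_range_map_iff]
  intro i k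
  have : (g : Matrix (Fin m ⊕ Fin m) (Fin m ⊕ Fin m) F) i k
      = ((g : Matrix (Fin m ⊕ Fin m) (Fin m ⊕ Fin m) F) *ᵥ e k) i := by
    rw [mulVec_single_one]; rfl
  rw [this]
  exact h3 k i

/-- **Piece Incid.**  (any characteristic)  If `g ∈ M` carries a non-zero rational vector into a rational hyperplane then `g` is a rational matrix.
Simplified copy of `mem_of_perp_e` + `incid_sp` of `Helper99SubfieldSp`.   For rational `a'`, `g a' ∈ C` (`tv a' 1 ∈ Sp0 ≤ M`, conjugate by `g`; `hMS`).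
`moveSp ha ha0 j` (`k ∈ Sp0`, `k a = e j`): replace `g` by `g * k⁻¹`, so `a = e j`.  `g (e j)` is rational by `hB` (and `≠ 0`).  `step`: `a'` rational `≠ 0` with `g a'` rational, `a''` rational with `⟪a'',a'⟫ = 0`
⟹ `g a''` rational (`hB` with `b = g a'`, `sp_apply`).  So `g (e n)` rational for `n ≠ sw j` (`Bee_ne`); for `n = sw j` go through some `n' ∉ {j, sw j}` (`exists_avoid`, `2 ≤ m`).
All columns rational ⟹ `IsRatM` (`mulVec_single_one`) ⟹ `mem_range_map_iff`; `g ∈ Sp` by `hMS`. -/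
theorem mem_Sp0_of_incid (hm : 2 ≤ m) (hHM : Hsp F₀ m ≤ M) (hMS : M ≤ Cfsg.spGL m F)
    (hB : ∀ x b : Fin m ⊕ Fin m → F, tv x 1 ∈ M → IsRat F₀ b → b ≠ 0 → ⟪x, b⟫ = 0 → IsRat F₀ x)
    {g : GL (Fin m ⊕ Fin m) F} (hg : g ∈ M) {a b : Fin m ⊕ Fin m → F} (ha : IsRat F₀ a) (ha0 : a ≠ 0)
    (hb : IsRat F₀ b) (hb0 : b ≠ 0) (h : ⟪(g : Matrix _ _ F) *ᵥ a, b⟫ = 0) : g ∈ Sp0 F₀ m := by
  obtain ⟨k, hk, hka⟩ := moveSp ha ha0 (Sum.inl ⟨0, by omega⟩ : Fin m ⊕ Fin m)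
  have hkH := Sp0_le hk
  have key : g * k⁻¹ ∈ Sp0 F₀ m := by
    refine mem_Sp0_of_incid_e hm hHM hMS hB (M.mul_mem hg (M.inv_mem (hHM hkH)))
      (Sum.inl ⟨0, by omega⟩) hb hb0 ?_
    rw [mul_mulVec, ← hka, inv_mulVec_mulVec]
    exact h
  have : g = (g * k⁻¹) * k := by group
  rw [this]
  exact Subgroup.mul_mem _ key hk

end Cfsg.Agent.Lib.H97Sp4Incid
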