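import Cfsg.Agent.Lib.Helper99SubfieldSp

set_option autoImplicit false
set_option linter.unusedSectionVars false

namespace Cfsg.Agent.Lib.H97Sp4Odd

open Matrix Cfsg.Agent.Lib.Helper95Basic Cfsg.Agent.Lib.Helper95Sp Cfsg.Agent.Lib.Helper95SpStd
  Cfsg.Agent.Lib.Helper99Subfield Cfsg.Agent.Lib.Helper99SubfieldSL Cfsg.Agent.Lib.Helper99SubfieldGen
  Cfsg.Agent.Lib.Helper99SubfieldSp

variable {F : Type*} [Field F] {m : ℕ} {F₀ : Subfield F} {M : Subgroup (GL (Fin m ⊕ Fin m) F)}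

local notation "⟪" x ", " y "⟫" => stdB F m x y

/-- pure group theory: two involutions, product of odd order -/
theorem conj_of_odd {G : Type*} [Group G] {s t : G} (hs : s * s = 1) (ht : t * t = 1) (j : ℕ)
    (hj : (s * t) ^ (2 * j + 1) = 1) : (s * t) ^ j * s * ((s * t) ^ j)⁻¹ = t := by
  have hsi : s⁻¹ = s := inv_eq_of_mul_eq_one_left hs
  have hti : t⁻¹ = t := inv_eq_of_mul_eq_one_left ht
  have h1 : s * (s * t) * s⁻¹ = (s * t)⁻¹ := by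
    rw [_root_.mul_inv_rev, hsi, hti, ← mul_assoc, hs, one_mul]
  have h2 : s * (s * t) ^ j * s⁻¹ = ((s * t) ^ j)⁻¹ := by
    rw [← conj_pow, h1, inv_pow]
  -- `g^j s = s g^{-j}`
  have h3 : (s * t) ^ j * s = s * ((s * t) ^ j)⁻¹ := by
    rw [← h2, hsi]
    rw [← mul_assoc, ← mul_assoc, hs, one_mul]
  rw [h3, mul_assoc, ← _root_.mul_inv_rev, ← pow_add]
  have h4 : ((s * t) ^ (j + j))⁻¹ = s * t := by
    rw [inv_eq_iff_mul_eq_one, ← pow_succ]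
    rw [← hj]; congr 1; omega
  rw [h4, ← mul_assoc, hs, one_mul]

theorem comm_of_even {G : Type*} [Group G] {s t : G} (hs : s * s = 1) (ht : t * t = 1) (k : ℕ)
    (hk : (s * t) ^ (2 * k) = 1) :
    (s * t) ^ k * s * ((s * t) ^ k)⁻¹ = s ∧ (s * t) ^ k * t * ((s * t) ^ k)⁻¹ = t := by
  have hsi : s⁻¹ = s := inv_eq_of_mul_eq_one_left hs
  have hti : t⁻¹ = t := inv_eq_of_mul_eq_one_left ht
  have hinv : ((s * t) ^ k)⁻¹ = (s * t) ^ k := by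
    rw [inv_eq_iff_mul_eq_one, ← pow_add, ← two_mul, hk]
  have h1 : s * (s * t) * s⁻¹ = (s * t)⁻¹ := by
    rw [_root_.mul_inv_rev, hsi, hti, ← mul_assoc, hs, one_mul]
  have h1' : t * (s * t) * t⁻¹ = (s * t)⁻¹ := by
    rw [_root_.mul_inv_rev, hsi, hti, mul_assoc, mul_assoc, ht, mul_one]
  have h2 : s * (s * t) ^ k * s⁻¹ = (s * t) ^ k := by
    rw [← conj_pow, h1, inv_pow, hinv]
  have h2' : t * (s * t) ^ k * t⁻¹ = (s * t) ^ k := by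
    rw [← conj_pow, h1', inv_pow, hinv]
  constructor
  · rw [mul_inv_eq_iff_eq_mul]
    rw [mul_inv_eq_iff_eq_mul] at h2
    exact h2.symm
  · rw [mul_inv_eq_iff_eq_mul]
    rw [mul_inv_eq_iff_eq_mul] at h2'
    exact h2'.symm

theorem tv_conj {g : GL (Fin m ⊕ Fin m) F} (hgs : g ∈ Cfsg.spGL m F) (v : Fin m ⊕ Fin m → F) (c : F) :
    g * Helper99SubfieldSp.tv v c * g⁻¹ = Helper99SubfieldSp.tv ((g : Matrix _ _ F) *ᵥ v) c := by
  apply gl_ext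
  intro x
  rw [mul_mulVec, mul_mulVec, Helper99SubfieldSp.tv_mulVec, Helper99SubfieldSp.tv_mulVec]
  simp only [mulVec_add, mulVec_smul, mulVec_inv_mulVec, sp_apply_inv hgs]

theorem tv_sq (h2 : (2 : F) = 0) (v : Fin m ⊕ Fin m → F) : Helper99SubfieldSp.tv v (1 : F) * Helper99SubfieldSp.tv v 1 = 1 := by
  apply gl_ext
  intro x
  rw [mul_mulVec, Helper99SubfieldSp.tv_mulVec, Helper99SubfieldSp.tv_mulVec]
  simp only [map_add, map_smul, LinearMap.add_apply, LinearMap.smul_apply, smul_eq_mul, B_self,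
    mul_zero, add_zero, one_mul, Units.val_one, one_mulVec]
  rw [add_assoc, ← add_smul, ← two_mul, h2, zero_mul, zero_smul, add_zero]

theorem tv_inj (h2 : (2 : F) = 0) {a b x0 : Fin m ⊕ Fin m → F} (hx0 : ⟪x0, b⟫ ≠ 0)
    (h : Helper99SubfieldSp.tv a (1 : F) = Helper99SubfieldSp.tv b 1) : a = b := by
  have h1 : ((Helper99SubfieldSp.tv a (1 : F) : GL (Fin m ⊕ Fin m) F) : Matrix (Fin m ⊕ Fin m) (Fin m ⊕ Fin m) F) *ᵥ x0
      = ((Helper99SubfieldSp.tv b (1 : F) : GL (Fin m ⊕ Fin m) F) : Matrix (Fin m ⊕ Fin m) (Fin m ⊕ Fin m) F) *ᵥ x0 := by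
    rw [h]
  rw [Helper99SubfieldSp.tv_mulVec, Helper99SubfieldSp.tv_mulVec, one_mul, one_mul] at h1
  have h3 : ⟪x0, a⟫ • a = ⟪x0, b⟫ • b := add_left_cancel h1
  have h4 : ⟪x0, a⟫ * ⟪x0, a⟫ = ⟪x0, b⟫ * ⟪x0, b⟫ := by
    have := congrArg (fun z => ⟪x0, z⟫) h3
    simpa using this
  have h5 : (⟪x0, a⟫ - ⟪x0, b⟫) ^ 2 = 0 := by
    linear_combination h4 + (⟪x0, b⟫ * ⟪x0, b⟫ - ⟪x0, a⟫ * ⟪x0, b⟫) * h2
  have h6 : ⟪x0, a⟫ = ⟪x0, b⟫ := sub_eq_zero.1 (pow_eq_zero_iff (two_ne_zero) |>.1 h5)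
  rw [h6] at h3
  exact smul_right_injective _ hx0 h3

/-- the subgroup of `M ⊓ Sp` fixing `⟨u,v⟩^⊥` pointwise -/
def Kfix (M : Subgroup (GL (Fin m ⊕ Fin m) F)) (u v : Fin m ⊕ Fin m → F) :
    Subgroup (GL (Fin m ⊕ Fin m) F) where
  carrier := {h | h ∈ M ∧ h ∈ Cfsg.spGL m F ∧
    ∀ x, ⟪x, u⟫ = 0 → ⟪x, v⟫ = 0 → (h : Matrix _ _ F) *ᵥ x = x}
  one_mem' := ⟨M.one_mem, (Cfsg.spGL m F).one_mem, fun x _ _ => by simp⟩
  mul_mem' := by
    rintro a b ⟨ha1, ha2, ha3⟩ ⟨hb1, hb2, hb3⟩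
    refine ⟨M.mul_mem ha1 hb1, (Cfsg.spGL m F).mul_mem ha2 hb2, fun x h1 h2 => ?_⟩
    rw [mul_mulVec, hb3 x h1 h2, ha3 x h1 h2]
  inv_mem' := by
    rintro a ⟨ha1, ha2, ha3⟩
    refine ⟨M.inv_mem ha1, (Cfsg.spGL m F).inv_mem ha2, fun x h1 h2 => ?_⟩
    conv_lhs => rw [← ha3 x h1 h2]
    rw [inv_mulVec_mulVec]

/-- **Piece Odd.**  Characteristic 2.  `tv u 1 : x ↦ x + ⟪x,u⟫ u` (API: `tv_mulVec`, `tv_mem_sp`, `gl_ext`,
`mul_mulVec`, `sp_apply`, `sp_apply_inv`, `Cen.map`-style conjugation formula `g * tv v c * g⁻¹ = tv (g v) c`, all in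
`Helper99SubfieldSp`).  Two transvections of `M` with non-perpendicular centres are conjugate in `⟨s,t⟩`.

Proof.  `s = tv u 1`, `t = tv v 1` are involutions (`s * s = 1` because `2 = 0`).  Let `K` be the subgroup of all
`h ∈ M ⊓ spGL` fixing every `x` with `⟪x,u⟫ = 0 = ⟪x,v⟫` (or carry the three properties through powers by hand);
`s, t ∈ K`.  Put `g = s * t`, `n = orderOf g > 0` (`GL` over a finite field is finite: `isOfFinOrder_of_finite`).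
PURE GROUP THEORY: `s * g * s = g⁻¹`, `t * g * t = g⁻¹`.
* `n = 2 j + 1`:  `h = g ^ j` satisfies `h * s * h⁻¹ = g ^ (2 j) * s = g⁻¹ * s = t`.  Hence `tv (h u) 1 = tv v 1`; evaluate both at an
  `x` with `⟪x, v⟫ ≠ 0` (e.g. `x = u`): `⟪u,hu⟫ • hu = ⟪u,v⟫ • v`, so `hu = κ • v`, `κ ≠ 0`, then `κ * κ = 1`, so `(κ + 1)^2 = 0`, `κ = 1`.
* `n = 2 k`, `k ≥ 1`:  `z = g ^ k ≠ 1` (`pow_ne_one_of_lt_orderOf`), and `z` commutes with `s` and `t` (`s z s = g^(-k) = g^k`).  As above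
  `tv (z u) 1 = tv u 1` gives `z u = u`, likewise `z v = v`; `z` fixes `⟨u,v⟩^⊥`; every `x` is
  `(⟪x,v⟫/⟪u,v⟫) • u + (⟪x,u⟫/⟪v,u⟫) • v + x'` with `x' ⊥ u, v`; so `z = 1` (`gl_ext`), contradiction. -/
theorem exists_move [Finite F] (h2 : (2 : F) = 0) {u v : Fin m ⊕ Fin m → F} (hu : tv u 1 ∈ M)
    (hv : tv v 1 ∈ M) (huv : ⟪u, v⟫ ≠ 0) :
    ∃ h ∈ M, h ∈ Cfsg.spGL m F ∧ (h : Matrix _ _ F) *ᵥ u = v ∧
      ∀ x, ⟪x, u⟫ = 0 → ⟪x, v⟫ = 0 → (h : Matrix _ _ F) *ᵥ x = x := by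
  have hvu : ⟪v, u⟫ ≠ 0 := by
    rw [B_swap]; exact neg_ne_zero.2 huv
  have hsK : Helper99SubfieldSp.tv u (1 : F) ∈ Kfix M u v := ⟨hu, tv_mem_sp _ _, fun x h1 _ => tv_fix _ h1⟩
  have htK : Helper99SubfieldSp.tv v (1 : F) ∈ Kfix M u v := ⟨hv, tv_mem_sp _ _, fun x _ h1 => tv_fix _ h1⟩
  have hs := tv_sq h2 u
  have ht := tv_sq h2 v
  have hgK : ∀ k : ℕ, (Helper99SubfieldSp.tv u (1 : F) * Helper99SubfieldSp.tv v 1) ^ k ∈ Kfix M u v := fun k =>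
    (Kfix M u v).pow_mem ((Kfix M u v).mul_mem hsK htK) k
  have hn : 0 < orderOf (Helper99SubfieldSp.tv u (1 : F) * Helper99SubfieldSp.tv v 1) := (isOfFinOrder_of_finite _).orderOf_pos
  rcases Nat.even_or_odd' (orderOf (Helper99SubfieldSp.tv u (1 : F) * Helper99SubfieldSp.tv v 1)) with ⟨k, hk | hk⟩
  · exfalso
    have hk0 : 0 < k := by omega
    have hz1 : (Helper99SubfieldSp.tv u (1 : F) * Helper99SubfieldSp.tv v 1) ^ k ≠ 1 :=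
      pow_ne_one_of_lt_orderOf hk0.ne' (by omega)
    have hpow : (Helper99SubfieldSp.tv u (1 : F) * Helper99SubfieldSp.tv v 1) ^ (2 * k) = 1 := by rw [← hk]; exact pow_orderOf_eq_one _
    obtain ⟨c1, c2⟩ := comm_of_even hs ht k hpow
    obtain ⟨hzM, hzS, hzf⟩ := hgK k
    rw [tv_conj hzS] at c1 c2
    have hzu := tv_inj h2 hvu c1
    have hzv := tv_inj h2 huv c2
    apply hz1
    apply gl_ext
    intro x
    have hx : x = (⟪x, v⟫ / ⟪u, v⟫) • u + (⟪x, u⟫ / ⟪v, u⟫) • v +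
        (x - (⟪x, v⟫ / ⟪u, v⟫) • u - (⟪x, u⟫ / ⟪v, u⟫) • v) := by abel
    have hp1 : ⟪x - (⟪x, v⟫ / ⟪u, v⟫) • u - (⟪x, u⟫ / ⟪v, u⟫) • v, u⟫ = 0 := by
      simp only [map_sub, map_smul, LinearMap.sub_apply, LinearMap.smul_apply, smul_eq_mul, B_self]
      field_simp
      ring
    have hp2 : ⟪x - (⟪x, v⟫ / ⟪u, v⟫) • u - (⟪x, u⟫ / ⟪v, u⟫) • v, v⟫ = 0 := by
      simp only [map_sub, map_smul, LinearMap.sub_apply, LinearMap.smul_apply, smul_eq_mul, B_self]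
      field_simp
      ring
    have h3 := hzf _ hp1 hp2
    rw [Units.val_one, one_mulVec]
    conv_lhs => rw [hx]
    rw [mulVec_add, mulVec_add, mulVec_smul, mulVec_smul, hzu, hzv, h3]
    exact hx.symm
  · have hpow : (Helper99SubfieldSp.tv u (1 : F) * Helper99SubfieldSp.tv v 1) ^ (2 * k + 1) = 1 := by rw [← hk]; exact pow_orderOf_eq_one _
    have c1 := conj_of_odd hs ht k hpow
    obtain ⟨hzM, hzS, hzf⟩ := hgK k
    rw [tv_conj hzS] at c1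
    exact ⟨_, hzM, hzS, tv_inj h2 huv c1, hzf⟩

end Cfsg.Agent.Lib.H97Sp4Odd
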