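import Cfsg.Agent.Lib.Helper99SubfieldSp

set_option autoImplicit false
set_option linter.unusedSectionVars false

namespace Cfsg.Agent.Lib.H97Sp4Proper

open Matrix Cfsg.Agent.Lib.Helper95Basic Cfsg.Agent.Lib.Helper95Sp Cfsg.Agent.Lib.Helper95SpStd
  Cfsg.Agent.Lib.Helper99Subfield Cfsg.Agent.Lib.Helper99SubfieldSL Cfsg.Agent.Lib.Helper99SubfieldGen
  Cfsg.Agent.Lib.Helper99SubfieldSp

variable {F : Type*} [Field F] {m : ℕ} {F₀ : Subfield F} {M : Subgroup (GL (Fin m ⊕ Fin m) F)}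

local notation "⟪" x ", " y "⟫" => stdB F m x y

/-- **Piece Proper.**  Copy of the first bullet of the proof of `subfield_sp_maximal_one` (`Helper99SubfieldSp`, the part after `intro heq`), which only needs `1 ≤ m`. -/
theorem hsp_ne [Fintype F] (r : ℕ) (hr : r.Prime) (hcard : Fintype.card F = Nat.card F₀ ^ r)
    (hm : 1 ≤ m) : Hsp F₀ m ≠ Cfsg.spGL m F := by
  classical
  intro heq
  obtain ⟨x, hx⟩ := exists_notMem (F₀ := F₀) r hr hcard
  set i : Fin m ⊕ Fin m := Sum.inl ⟨0, by omega⟩ with hi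
  have h1 : tv (e i) x ∈ Hsp F₀ m := by rw [heq]; exact tv_mem_sp _ _
  obtain ⟨c, hc, hcy⟩ := (mem_subfieldSubgroup_one_iff _).1 (Subgroup.mem_inf.1 h1).1
  have hent : ∀ a b, ((tv (e i) x : GL _ F) : Matrix (Fin m ⊕ Fin m) (Fin m ⊕ Fin m) F) a b =
      (e b + (x * ⟪(e b : Fin m ⊕ Fin m → F), e i⟫) • e i : Fin m ⊕ Fin m → F) a := by
    intro a b
    rw [← Helper99SubfieldSp.tv_mulVec, mulVec_single_one]; rfl
  have e1 := hcy i i
  have e2 := hcy i (sw i)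
  rw [Matrix.smul_apply, hent] at e1 e2
  rw [B_self] at e1
  have hb : ⟪(e (sw i) : Fin m ⊕ Fin m → F), e i⟫ = ε F (sw i) := by
    have := Bee (F := F) (sw i)
    rwa [sw_sw] at this
  rw [hb] at e2
  simp [(sw_ne i).symm] at e1 e2
  apply hx
  have h2 := F₀.mul_mem (F₀.mul_mem (F₀.inv_mem e1) e2) (ε_mem F₀ (sw i))
  have h3 : c⁻¹ * (c * (x * ε F (sw i))) * ε F (sw i) = x := by
    rw [inv_mul_cancel_left₀ hc, mul_assoc, ε_mul_self, mul_one]
  rwa [h3] at h2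

end Cfsg.Agent.Lib.H97Sp4Proper
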