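import Cfsg.Agent.Lib.Helper99SubfieldSpRed
import Cfsg.Agent.Lib.H97Sp4Field
import Cfsg.Agent.Lib.H97Sp4Gen
import Cfsg.Agent.Lib.H97Sp4ClaimB
import Cfsg.Agent.Lib.H97Sp4Incid
import Cfsg.Agent.Lib.H97Sp4Bender
import Cfsg.Agent.Lib.H97Sp4Proper

set_option autoImplicit false
set_option linter.unusedSectionVars false

namespace Cfsg.Agent.Lib.H97Sp4Sub

open Matrix Cfsg.Agent.Lib.Helper95Basic Cfsg.Agent.Lib.Helper95Sp Cfsg.Agent.Lib.Helper95SpStd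
  Cfsg.Agent.Lib.Helper99Subfield Cfsg.Agent.Lib.Helper99SubfieldSL Cfsg.Agent.Lib.Helper99SubfieldGen
  Cfsg.Agent.Lib.Helper99SubfieldSp Cfsg.Agent.Lib.Helper99SubfieldSpRed
  Cfsg.Agent.Lib.H97Sp4Field Cfsg.Agent.Lib.H97Sp4Gen Cfsg.Agent.Lib.H97Sp4ClaimB
  Cfsg.Agent.Lib.H97Sp4Incid Cfsg.Agent.Lib.H97Sp4Bender Cfsg.Agent.Lib.H97Sp4Proper

variable {F : Type*} [Field F] {m : ℕ} {F₀ : Subfield F}

/-- `Sp_{2m}(q₀)` is maximal in `Sp_{2m}(q)`, `q = q₀ ^ r` even, `r` prime, all `m ≥ 2`. -/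
theorem subfield_sp_maximal_one₂ [Fintype F] (h2 : (2 : F) = 0) (r : ℕ) (hr : r.Prime)
    (hcard : Fintype.card F = Nat.card F₀ ^ r) (hm : 2 ≤ m) :
    Cfsg.Geo.IsMaximalIn (Cfsg.spGL m F) (Hsp F₀ m) := by
  refine ⟨lt_of_le_of_ne inf_le_right (hsp_ne r hr hcard (by omega)), ?_⟩
  intro M hHM hMS
  by_cases hL : ∀ (i₀ : Fin m ⊕ Fin m) (l : F), tv (l • e i₀) 1 ∈ M → l ∈ F₀
  · left
    apply le_antisymm _ hHM
    refine le_trans (le_Sp0 h2 hm hHM hMS ?_) Sp0_le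
    intro g hg a b ha ha0 hb hb0 h
    exact mem_Sp0_of_incid hm hHM hMS
      (fun x b hx hb hb0 hxb => rat_of_perp h2 hHM hMS hL hx hb hb0 hxb) hg ha ha0 hb hb0 h
  · right
    push Not at hL
    obtain ⟨i₀, l, hl, hl0⟩ := hL
    exact eq_sp (F₀ := F₀) h2 hMS (tv_univ h2 r hr hcard hHM hMS i₀ hl hl0)

theorem subfield_sp_maximal₂ [Fintype F] (h2 : (2 : F) = 0) (r : ℕ) (hr : r.Prime)
    (hcard : Fintype.card F = Nat.card F₀ ^ r) (hm : 2 ≤ m) (P : GL (Fin m ⊕ Fin m) F) (ζ : F)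
    (hζ : ζ ≠ 0) (hP : Cfsg.Geo.IsFormRationalStructure (Cfsg.sympForm m F) F₀ ζ P) :
    Cfsg.Geo.IsMaximalIn (Cfsg.spGL m F) (Cfsg.Geo.subfieldSubgroup F₀ P ⊓ Cfsg.spGL m F) := by
  obtain ⟨h, hh, hQ⟩ := exists_std_structure P ζ hζ hP
  have := isMaximalIn_map (MulAut.conj (P * h)) _ _
    (subfield_sp_maximal_one₂ (F₀ := F₀) h2 r hr hcard hm)
  rw [spGL_map_conj (P * h) ζ hζ hQ, Subgroup.map_inf_eq _ _ _ (MulAut.conj (P * h)).injective,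
    spGL_map_conj (P * h) ζ hζ hQ, ← subfieldSubgroup_eq_map, subfieldSubgroup_mul P h hh] at this
  exact this

end Cfsg.Agent.Lib.H97Sp4Sub
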