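import Cfsg.Agent.Lib.H97U3Basic

set_option autoImplicit false
set_option linter.unusedSectionVars false
set_option linter.unusedSimpArgs false
set_option linter.unusedVariables false

namespace Cfsg.Agent.Lib.H97U3Neg

open Module
open Cfsg.Agent.Lib.Helper95Sp Cfsg.Agent.Lib.Helper95Cen Cfsg.Agent.Lib.Helper95OrthGeo
  Cfsg.Agent.Lib.Helper95OrthCS Cfsg.Agent.Lib.Helper95SpU Cfsg.Agent.Lib.H97U3Basic

variable {F : Type*} [Field F]
variable {ι : Type} [Fintype ι] [DecidableEq ι]
variable {B : LinearMap.BilinForm F (ι → F)}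
variable {δ : (ι → F) →ₗ[F] (ι → F)} {d : F}
variable {hA : B.IsAlt} {M : Subgroup ((ι → F) ≃ₗ[F] (ι → F))}

/-- the underlying linear map -/
noncomputable def nf (B : LinearMap.BilinForm F (ι → F)) (δ : (ι → F) →ₗ[F] (ι → F)) (a : ι → F) :
    (ι → F) →ₗ[F] (ι → F) :=
  -LinearMap.id + ((2 / B a (δ a)) • B.flip (δ a)).smulRight a
    + ((-(2 / B a (δ a))) • B.flip a).smulRight (δ a)

theorem nf_apply (a x : ι → F) :
    nf B δ a x = -x + (2 / B a (δ a) * B x (δ a)) • a + (-(2 / B a (δ a)) * B x a) • δ a := by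
  simp [nf]

/-- **The involution `+1` on the `K`-line of `a`, `-1` on its hermitian perp** (`q := B a (δ a) ≠ 0`):
`e x = -x + (2 * B x (δ a) / q) • a + (-(2 * B x a) / q) • δ a`.
It is an involution (`LinearEquiv.ofInvolutive`), an isometry of `B`, commutes with `δ`.
All identities by `simp only [map_add, map_smul, map_neg, LinearMap.add_apply, LinearMap.smul_apply,
LinearMap.neg_apply, h.adj, h.dd, h.sq, hA a, smul_eq_mul]`, `field_simp`, `ring`/`module`. -/
theorem exists_negrefl [Nonempty ι] (h : US B δ d) (hA : B.IsAlt) {a : ι → F}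
    (hq : B a (δ a) ≠ 0) :
    ∃ e : (ι → F) ≃ₗ[F] (ι → F), (∀ x y, B (e x) (e y) = B x y) ∧ (∀ x, e (δ x) = δ (e x)) ∧
      e a = a ∧ ∀ x, B x a = 0 → B x (δ a) = 0 → e x = -x := by
  have hda : B (δ a) a = - B a (δ a) := by rw [h.adj, hA.neg_eq]
  have hinv : Function.Involutive (nf B δ a) := by
    intro x
    simp only [nf_apply, map_add, map_neg, map_smul, LinearMap.add_apply, LinearMap.neg_apply,
      LinearMap.smul_apply, h.dd, hda, hA a, smul_eq_mul]
    have e1 : 2 / B a (δ a) * B a (δ a) = 2 := by field_simp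
    have e2 : -(2 / B a (δ a)) * -B a (δ a) = 2 := by field_simp
    rw [e1, e2]
    module
  refine ⟨LinearEquiv.ofInvolutive (nf B δ a) hinv, ?_, ?_, ?_, ?_⟩
  · intro x y
    simp only [LinearEquiv.coe_ofInvolutive, nf_apply, map_add, map_neg, map_smul,
      LinearMap.add_apply, LinearMap.neg_apply, LinearMap.smul_apply, h.dd, hda, hA a, smul_eq_mul,
      alt_swap hA a y, alt_swap hA (δ a) y]
    field_simp
    ring
  · intro x
    simp only [LinearEquiv.coe_ofInvolutive, nf_apply, map_add, map_neg, map_smul, h.dd, h.adj,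
      h.sq]
    module
  · simp only [LinearEquiv.coe_ofInvolutive, nf_apply, hA a]
    have : 2 / B a (δ a) * B a (δ a) = 2 := by field_simp
    rw [this]
    module
  · intro x h1 h2
    simp only [LinearEquiv.coe_ofInvolutive, nf_apply, h1, h2]
    module

end Cfsg.Agent.Lib.H97U3Neg
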