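import Cfsg.Agent.Lib.H97U3Basic

set_option autoImplicit false
set_option linter.unusedSectionVars false
set_option linter.unusedSimpArgs false
set_option linter.unusedVariables false

namespace Cfsg.Agent.Lib.H97U3Refl

open Module
open Cfsg.Agent.Lib.Helper95Sp Cfsg.Agent.Lib.Helper95Cen Cfsg.Agent.Lib.Helper95OrthGeo
  Cfsg.Agent.Lib.Helper95OrthCS Cfsg.Agent.Lib.Helper95SpU Cfsg.Agent.Lib.H97U3Basic

variable {F : Type*} [Field F]
variable {ι : Type} [Fintype ι] [DecidableEq ι]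
variable {B : LinearMap.BilinForm F (ι → F)}
variable {δ : (ι → F) →ₗ[F] (ι → F)} {d : F}
variable {hA : B.IsAlt} {M : Subgroup ((ι → F) ≃ₗ[F] (ι → F))}

/-- the quasi-reflection as a linear map -/
noncomputable def rf (B : LinearMap.BilinForm F (ι → F)) (δ : (ι → F) →ₗ[F] (ι → F)) (d : F)
    (a : ι → F) (l₁ l₂ : F) : (ι → F) →ₗ[F] (ι → F) where
  toFun x := x + (((l₁ - 1) * B x (δ a) - d * l₂ * B x a) / B a (δ a)) • a
    + ((l₂ * B x (δ a) - (l₁ - 1) * B x a) / B a (δ a)) • δ a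
  map_add' x y := by
    simp only [map_add, LinearMap.add_apply]
    module
  map_smul' c x := by
    simp only [map_smul, LinearMap.smul_apply, smul_eq_mul, RingHom.id_apply]
    module

theorem rf_apply (a : ι → F) (l₁ l₂ : F) (x : ι → F) :
    rf B δ d a l₁ l₂ x = x + (((l₁ - 1) * B x (δ a) - d * l₂ * B x a) / B a (δ a)) • a
    + ((l₂ * B x (δ a) - (l₁ - 1) * B x a) / B a (δ a)) • δ a := rfl

theorem B_rf_a (h : US B δ d) (hA : B.IsAlt) {a : ι → F} (hq : B a (δ a) ≠ 0) (l₁ l₂ : F)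
    (x : ι → F) : B (rf B δ d a l₁ l₂ x) a = l₁ * B x a - l₂ * B x (δ a) := by
  rw [rf_apply]
  simp only [map_add, map_smul, LinearMap.add_apply, LinearMap.smul_apply, h.adj, hA a,
    smul_eq_mul]
  field_simp
  ring

theorem B_rf_da (h : US B δ d) (hA : B.IsAlt) {a : ι → F} (hq : B a (δ a) ≠ 0) (l₁ l₂ : F)
    (x : ι → F) : B (rf B δ d a l₁ l₂ x) (δ a) = l₁ * B x (δ a) - d * l₂ * B x a := by
  rw [rf_apply]
  simp only [map_add, map_smul, LinearMap.add_apply, LinearMap.smul_apply, hA (δ a),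
    smul_eq_mul]
  field_simp
  ring

theorem rf_rf (h : US B δ d) (hA : B.IsAlt) {a : ι → F} (hq : B a (δ a) ≠ 0)
    {l₁ l₂ : F} (hl : l₁ ^ 2 - d * l₂ ^ 2 = 1) (x : ι → F) :
    rf B δ d a l₁ l₂ (rf B δ d a l₁ (-l₂) x) = x := by
  rw [rf_apply (x := rf B δ d a l₁ (-l₂) x), B_rf_a h hA hq, B_rf_da h hA hq, rf_apply]
  set s := B x a
  set t := B x (δ a)
  set q := B a (δ a)
  have e1 : ((l₁ - 1) * t - d * -l₂ * s) / q
      + ((l₁ - 1) * (l₁ * t - d * -l₂ * s) - d * l₂ * (l₁ * s - -l₂ * t)) / q = 0 := by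
    field_simp
    linear_combination t * hl
  have e2 : (-l₂ * t - (l₁ - 1) * s) / q
      + (l₂ * (l₁ * t - d * -l₂ * s) - (l₁ - 1) * (l₁ * s - -l₂ * t)) / q = 0 := by
    field_simp
    linear_combination (-s) * hl
  calc _ = x + (((l₁ - 1) * t - d * -l₂ * s) / q
      + ((l₁ - 1) * (l₁ * t - d * -l₂ * s) - d * l₂ * (l₁ * s - -l₂ * t)) / q) • a
      + ((-l₂ * t - (l₁ - 1) * s) / q
      + (l₂ * (l₁ * t - d * -l₂ * s) - (l₁ - 1) * (l₁ * s - -l₂ * t)) / q) • δ a := by module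
    _ = x := by rw [e1, e2]; simp

theorem exists_refl [Nonempty ι] (h : US B δ d) (hA : B.IsAlt) {a : ι → F} (hq : B a (δ a) ≠ 0)
    {l₁ l₂ : F} (hl : l₁ ^ 2 - d * l₂ ^ 2 = 1) :
    ∃ e : (ι → F) ≃ₗ[F] (ι → F), (∀ x y, B (e x) (e y) = B x y) ∧ (∀ x, e (δ x) = δ (e x)) ∧
      e a = l₁ • a + l₂ • δ a ∧ ∀ x, B x a = 0 → B x (δ a) = 0 → e x = x := by
  have hl' : l₁ ^ 2 - d * (-l₂) ^ 2 = 1 := by rw [neg_sq]; exact hl
  refine ⟨LinearEquiv.ofLinear (rf B δ d a l₁ l₂) (rf B δ d a l₁ (-l₂)) ?_ ?_, ?_, ?_, ?_, ?_⟩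
  · apply LinearMap.ext
    intro x
    simpa using rf_rf h hA hq hl x
  · apply LinearMap.ext
    intro x
    have := rf_rf h hA hq hl' x
    rw [neg_neg] at this
    simpa using this
  · intro x y
    show B (rf B δ d a l₁ l₂ x) (rf B δ d a l₁ l₂ y) = B x y
    rw [rf_apply (x := y)]
    simp only [map_add, map_smul, smul_eq_mul]
    rw [B_rf_a h hA hq, B_rf_da h hA hq, rf_apply]
    simp only [map_add, map_smul, LinearMap.add_apply, LinearMap.smul_apply, smul_eq_mul]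
    rw [alt_swap hA a y, h.adj a y, h.symm hA a y]
    field_simp
    linear_combination (B x a * B y (δ a) - B x (δ a) * B y a) * hl
  · intro x
    show rf B δ d a l₁ l₂ (δ x) = δ (rf B δ d a l₁ l₂ x)
    rw [rf_apply, rf_apply]
    simp only [map_add, map_smul, h.sq, h.adj, h.dd]
    module
  · show rf B δ d a l₁ l₂ a = _
    rw [rf_apply, hA a]
    have e1 : ((l₁ - 1) * B a (δ a) - d * l₂ * 0) / B a (δ a) = l₁ - 1 := by field_simp; ring
    have e2 : (l₂ * B a (δ a) - (l₁ - 1) * 0) / B a (δ a) = l₂ := by field_simp; ring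
    rw [e1, e2]
    module
  · intro x h1 h2
    show rf B δ d a l₁ l₂ x = x
    rw [rf_apply, h1, h2]
    simp

end Cfsg.Agent.Lib.H97U3Refl
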