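import Cfsg.Agent.Lib.H97U3Basic
import Cfsg.Agent.Lib.H97U3Refl
import Cfsg.Agent.Lib.H97U3Neg
set_option autoImplicit false
set_option linter.unusedSectionVars false
set_option linter.unusedSimpArgs false
set_option linter.unusedVariables false

namespace Cfsg.Agent.Lib.H97U3A

open Module
open Cfsg.Agent.Lib.Helper95Sp Cfsg.Agent.Lib.Helper95Cen Cfsg.Agent.Lib.Helper95OrthGeo
  Cfsg.Agent.Lib.Helper95OrthCS Cfsg.Agent.Lib.Helper95SpU Cfsg.Agent.Lib.H97U3Basic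

variable {F : Type*} [Field F]
variable {ι : Type} [Fintype ι] [DecidableEq ι]
variable {B : LinearMap.BilinForm F (ι → F)}
variable {δ : (ι → F) →ₗ[F] (ι → F)} {d : F}
variable {hA : B.IsAlt} {M : Subgroup ((ι → F) ≃ₗ[F] (ι → F))}

/-- **Lemma A.**  `κ := B w (δ w') / B w (δ w)`, `v := w' - κ • w`; then `B v w = 0`, `B v (δ w) = 0`
(use `h.symm hA`, `alt_zero hA hww`).
1. `e₁ :=` `H97U3Neg.exists_negrefl h hA hq` (`e₁ w = w`, `e₁ v = -v`), `e₁ ∈ M` by `hH`; so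
   `e₁ w' = κ • w - v`.  `step4` (Helper95SpU) gives `∀ ε, stv w' (-ε) * stv (κ • w - v) ε ∈ M`.
2. `(l₁, l₂)` from `H97U3Basic.lam`, `e₂ :=` `H97U3Refl.exists_refl h hA hq hl` (`e₂ w = l₁ w + l₂ δ w`, `e₂ v = v`).
   `step5` with `p := w' = κ w + v`, `p'' := κ w - v`, `z := κ • ((l₁ - 1) • w + l₂ • δ w)`:
   `B p p'' = 0`, `e₂ p = p + z`, `e₂ p'' = p'' + z`, `B p z = κ^2 * l₂ * B w (δ w) ≠ 0`.
   Conclusion `p'' - p = (-2) • v ∈ cen`; `cen_smul (-1/2)` finishes. -/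
theorem lemA [Nonempty ι] (h : US B δ d) (h2 : (2 : F) ≠ 0)
    (hH : ∀ e : (ι → F) ≃ₗ[F] (ι → F), (∀ x y, B (e x) (e y) = B x y) →
      (∀ x, e (δ x) = δ (e x)) → e ∈ M)
    {w w' : ι → F} (hE : ∀ ε, ∃ a, stv B hA w a * stv B hA w' ε ∈ M)
    (hww : B w w' = 0) (hq : B w (δ w) ≠ 0) (hb : B w (δ w') ≠ 0) :
    w' - (B w (δ w') / B w (δ w)) • w ∈ cen hA M := by
  obtain ⟨κ, hκ⟩ : ∃ κ, κ = B w (δ w') / B w (δ w) := ⟨_, rfl⟩
  obtain ⟨v, hv⟩ : ∃ v, v = w' - κ • w := ⟨_, rfl⟩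
  rw [← hκ, ← hv]
  have hκ0 : κ ≠ 0 := by rw [hκ]; exact div_ne_zero hb hq
  have hκQ : κ * B w (δ w) = B w (δ w') := by rw [hκ]; field_simp
  have hw'w : B w' w = 0 := alt_zero hA hww
  have hw' : w' = κ • w + v := by rw [hv]; abel
  have hvw : B v w = 0 := by
    rw [hv]
    simp only [map_sub, map_smul, LinearMap.sub_apply, LinearMap.smul_apply, hw'w, hA w,
      smul_eq_mul, mul_zero, sub_zero]
  have hvdw : B v (δ w) = 0 := by
    rw [hv]
    simp only [map_sub, map_smul, LinearMap.sub_apply, LinearMap.smul_apply, smul_eq_mul,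
      h.symm hA w' w, hκQ, sub_self]
  -- step 1
  obtain ⟨e₁, he1iso, he1δ, he1w, he1p⟩ := H97U3Neg.exists_negrefl h hA hq
  have he1M : e₁ ∈ M := hH e₁ he1iso he1δ
  have he1w' : e₁ w' = κ • w - v := by
    have : e₁ (κ • w + v) = κ • w - v := by
      rw [map_add, map_smul, he1w, he1p v hvw hvdw, sub_eq_add_neg]
    rwa [← hw'] at this
  have hZ : ∀ ε, stv B hA w' (-ε) * stv B hA (κ • w - v) ε ∈ M := by
    intro ε
    obtain ⟨a, ha⟩ := hE ε
    have := step4 ha he1M he1iso he1w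
    rwa [he1w'] at this
  -- step 2
  obtain ⟨l₁, l₂, hl, hl2⟩ := lam h h2
  obtain ⟨e₂, he2iso, he2δ, he2w, he2p⟩ := H97U3Refl.exists_refl h hA hq hl
  have he2M : e₂ ∈ M := hH e₂ he2iso he2δ
  have he2v : e₂ v = v := he2p v hvw hvdw
  have hpp : B w' (κ • w - v) = 0 := by
    rw [hv]
    simp only [map_sub, map_smul, LinearMap.sub_apply, LinearMap.smul_apply, hw'w, hA w',
      smul_eq_mul, mul_zero, sub_zero]
  have h1 : e₂ w' = w' + κ • ((l₁ - 1) • w + l₂ • δ w) := by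
    have : e₂ (κ • w + v) = (κ • w + v) + κ • ((l₁ - 1) • w + l₂ • δ w) := by
      rw [map_add, map_smul, he2w, he2v]
      module
    rwa [← hw'] at this
  have h1' : e₂ (κ • w - v) = (κ • w - v) + κ • ((l₁ - 1) • w + l₂ • δ w) := by
    rw [map_sub, map_smul, he2w, he2v]
    module
  have hz : B w' (κ • ((l₁ - 1) • w + l₂ • δ w)) ≠ 0 := by
    simp only [map_add, map_smul, smul_eq_mul, hw'w, mul_zero, zero_add, h.symm hA w' w]
    exact mul_ne_zero hκ0 (mul_ne_zero hl2 hb)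
  have hc := step5 h2 hpp hZ he2M he2iso h1 h1' hz
  have h3 := cen_smul (-1 / 2 : F) hc
  have h4 : (-1 / 2 : F) • (κ • w - v - w') = v := by
    have : κ • w - v - w' = (-2 : F) • v := by
      rw [hw']
      module
    rw [this, smul_smul]
    have : (-1 / 2 : F) * (-2) = 1 := by field_simp
    rw [this, one_smul]
  rwa [h4] at h3

end Cfsg.Agent.Lib.H97U3A
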