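import Cfsg.Agent.Lib.H97U3Basic
import Cfsg.Agent.Lib.H97U3Refl
set_option autoImplicit false
set_option linter.unusedSectionVars false
set_option linter.unusedSimpArgs false
set_option linter.unusedVariables false

namespace Cfsg.Agent.Lib.H97U3B

open Module
open Cfsg.Agent.Lib.Helper95Sp Cfsg.Agent.Lib.Helper95Cen Cfsg.Agent.Lib.Helper95OrthGeo
  Cfsg.Agent.Lib.Helper95OrthCS Cfsg.Agent.Lib.Helper95SpU Cfsg.Agent.Lib.H97U3Basic

variable {F : Type*} [Field F]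
variable {ι : Type} [Fintype ι] [DecidableEq ι]
variable {B : LinearMap.BilinForm F (ι → F)}
variable {δ : (ι → F) →ₗ[F] (ι → F)} {d : F}
variable {hA : B.IsAlt} {M : Subgroup ((ι → F) ≃ₗ[F] (ι → F))}

/-- **Lemma B.**  `a := w' - w₁`, `v := w' + w₁`; `Q a = Q v = 2 * Q w' ≠ 0` (`Q x = B x (δ x)`), `a ⟂ v`, `w ⟂ a`
(hermitian perp = both `B · ·` and `B · (δ ·)` vanish).
1. `e₁ := exists_refl h hA (a := a) _ (l₁ := -1) (l₂ := 0)`: `e₁ a = -a`, `e₁ v = v`, `e₁ w = w`; hence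
   `e₁ w' = w₁` (as `w' = (1/2) • (a + v)`).  `step4` gives `∀ ε, stv w' (-ε) * stv w₁ ε ∈ M`.
2. `(l₁, l₂)` from `lam`, `e₂ := exists_refl h hA (a := v) ..`: `e₂ v = l₁ v + l₂ δ v`, `e₂ a = a`.
   `step5` with `p := w'`, `p'' := w₁`, `z := (1/2) • ((l₁ - 1) • v + l₂ • δ v)`:
   `B p z = l₂ * Q v / 4 ≠ 0`.  Conclusion `w₁ - w' ∈ cen`; `cen_neg`. -/
theorem lemB [Nonempty ι] (h : US B δ d) (h2 : (2 : F) ≠ 0)
    (hH : ∀ e : (ι → F) ≃ₗ[F] (ι → F), (∀ x y, B (e x) (e y) = B x y) →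
      (∀ x, e (δ x) = δ (e x)) → e ∈ M)
    {w w' w₁ : ι → F} (hE : ∀ ε, ∃ a, stv B hA w a * stv B hA w' ε ∈ M)
    (hww : B w w' = 0) (hb : B w (δ w') = 0) (hq' : B w' (δ w') ≠ 0)
    (h1 : B w w₁ = 0) (h1' : B w (δ w₁) = 0) (h3 : B w' w₁ = 0) (h3' : B w' (δ w₁) = 0)
    (hQ : B w₁ (δ w₁) = B w' (δ w')) :
    w' - w₁ ∈ cen hA M := by
  obtain ⟨a, ha⟩ : ∃ a, a = w' - w₁ := ⟨_, rfl⟩
  obtain ⟨v, hv⟩ : ∃ v, v = w' + w₁ := ⟨_, rfl⟩
  have h3s : B w₁ w' = 0 := alt_zero hA h3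
  have h3's : B w₁ (δ w') = 0 := by rw [h.symm hA w₁ w', h3']
  have hhalf : (1 / 2 : F) + 1 / 2 = 1 := by field_simp; norm_num
  have hw' : w' = (1 / 2 : F) • (a + v) := by
    rw [ha, hv]
    have : w' - w₁ + (w' + w₁) = (2 : F) • w' := by module
    rw [this, smul_smul]
    have : (1 / 2 : F) * 2 = 1 := by field_simp
    rw [this, one_smul]
  have hw₁ : w₁ = (1 / 2 : F) • (v - a) := by
    rw [ha, hv]
    have : w' + w₁ - (w' - w₁) = (2 : F) • w₁ := by module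
    rw [this, smul_smul]
    have : (1 / 2 : F) * 2 = 1 := by field_simp
    rw [this, one_smul]
  have hQa : B a (δ a) ≠ 0 := by
    rw [ha]
    simp only [map_sub, LinearMap.sub_apply, h3', h3's, hQ, sub_zero, zero_sub, sub_neg_eq_add]
    rw [← two_mul]
    exact mul_ne_zero h2 hq'
  have hQv : B v (δ v) ≠ 0 := by
    rw [hv]
    simp only [map_add, LinearMap.add_apply, h3', h3's, hQ, add_zero, zero_add]
    rw [← two_mul]
    exact mul_ne_zero h2 hq'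
  have hav : B a v = 0 := by
    rw [ha, hv]
    simp only [map_sub, map_add, LinearMap.sub_apply, LinearMap.add_apply, hA w', hA w₁, h3, h3s,
      add_zero, sub_zero]
  have hva : B v a = 0 := alt_zero hA hav
  have hadv : B a (δ v) = 0 := by
    rw [ha, hv]
    simp only [map_sub, map_add, LinearMap.sub_apply, LinearMap.add_apply, h3', h3's, hQ]
    ring
  have hvda : B v (δ a) = 0 := by rw [h.symm hA v a, hadv]
  have hwa : B w a = 0 := by rw [ha, map_sub, hww, h1, sub_zero]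
  have hwda : B w (δ a) = 0 := by rw [ha, map_sub, map_sub, hb, h1', sub_zero]
  -- step 1
  obtain ⟨e₁, he1iso, he1δ, he1a, he1p⟩ :=
    H97U3Refl.exists_refl h hA hQa (l₁ := -1) (l₂ := 0) (by ring)
  have he1M : e₁ ∈ M := hH e₁ he1iso he1δ
  have he1w : e₁ w = w := he1p w hwa hwda
  have he1v : e₁ v = v := he1p v hva hvda
  have he1w' : e₁ w' = w₁ := by
    have : e₁ ((1 / 2 : F) • (a + v)) = (1 / 2 : F) • (v - a) := by
      rw [map_smul, map_add, he1a, he1v]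
      module
    rwa [← hw', ← hw₁] at this
  have hZ : ∀ ε, stv B hA w' (-ε) * stv B hA w₁ ε ∈ M := by
    intro ε
    obtain ⟨c, hc⟩ := hE ε
    have := step4 hc he1M he1iso he1w
    rwa [he1w'] at this
  -- step 2
  obtain ⟨l₁, l₂, hl, hl2⟩ := lam h h2
  obtain ⟨e₂, he2iso, he2δ, he2v, he2p⟩ := H97U3Refl.exists_refl h hA hQv hl
  have he2M : e₂ ∈ M := hH e₂ he2iso he2δ
  have he2a : e₂ a = a := he2p a hav hadv
  have g1 : e₂ w' = w' + (1 / 2 : F) • ((l₁ - 1) • v + l₂ • δ v) := by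
    have : e₂ ((1 / 2 : F) • (a + v)) =
        (1 / 2 : F) • (a + v) + (1 / 2 : F) • ((l₁ - 1) • v + l₂ • δ v) := by
      rw [map_smul, map_add, he2a, he2v]
      module
    rwa [← hw'] at this
  have g1' : e₂ w₁ = w₁ + (1 / 2 : F) • ((l₁ - 1) • v + l₂ • δ v) := by
    have : e₂ ((1 / 2 : F) • (v - a)) =
        (1 / 2 : F) • (v - a) + (1 / 2 : F) • ((l₁ - 1) • v + l₂ • δ v) := by
      rw [map_smul, map_sub, he2a, he2v]
      module
    rwa [← hw₁] at this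
  have hw'v : B w' v = 0 := by rw [hv, map_add, hA w', h3, add_zero]
  have hw'dv : B w' (δ v) = B w' (δ w') := by rw [hv, map_add, map_add, h3', add_zero]
  have hz : B w' ((1 / 2 : F) • ((l₁ - 1) • v + l₂ • δ v)) ≠ 0 := by
    simp only [map_add, map_smul, smul_eq_mul, hw'v, hw'dv, mul_zero, zero_add]
    exact mul_ne_zero (div_ne_zero one_ne_zero h2) (mul_ne_zero hl2 hq')
  have hc := step5 h2 h3 hZ he2M he2iso g1 g1' hz
  have := cen_neg hc
  rwa [neg_sub] at this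

end Cfsg.Agent.Lib.H97U3B
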