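import Cfsg.Agent.Lib.Helper95SpU

/-!
# `GU_3(q).2 < Sp_6(q)`: basic identities for a skew-adjoint complex structure
-/

set_option autoImplicit false
set_option linter.unusedSectionVars false
set_option linter.unusedSimpArgs false
set_option linter.unusedVariables false

namespace Cfsg.Agent.Lib.H97U3Basic

open Module
open Cfsg.Agent.Lib.Helper95Sp Cfsg.Agent.Lib.Helper95Cen Cfsg.Agent.Lib.Helper95OrthGeo
  Cfsg.Agent.Lib.Helper95OrthCS Cfsg.Agent.Lib.Helper95SpU

variable {F : Type*} [Field F]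
variable {ι : Type} [Fintype ι] [DecidableEq ι]
variable {B : LinearMap.BilinForm F (ι → F)}
variable {δ : (ι → F) →ₗ[F] (ι → F)} {d : F}

/-- `d ≠ 1` -/
theorem d_ne_one [Nonempty ι] (h : US B δ d) : d ≠ 1 := by
  rintro rfl
  exact one_ne_zero (h.nonsq (a := 1) (b := 1) (by ring)).1

/-- a norm one element outside the prime field -/
theorem lam [Nonempty ι] (h : US B δ d) (h2 : (2 : F) ≠ 0) :
    ∃ l₁ l₂ : F, l₁ ^ 2 - d * l₂ ^ 2 = 1 ∧ l₂ ≠ 0 := by
  have h1 : 1 - d ≠ 0 := fun h0 => d_ne_one h (sub_eq_zero.1 h0).symm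
  refine ⟨(1 + d) / (1 - d), 2 / (1 - d), ?_, div_ne_zero h2 h1⟩
  field_simp
  ring

/-- `B x (δ (δ y)) = d * B x y` -/
theorem Bdd (h : US B δ d) (x y : ι → F) : B x (δ (δ y)) = d * B x y := by
  rw [h.sq, map_smul, smul_eq_mul]

/-- the norm form on a `K`-line -/
theorem Qcomb (h : US B δ d) (hA : B.IsAlt) (a : ι → F) (x y : F) :
    B (x • a + y • δ a) (δ (x • a + y • δ a)) = (x ^ 2 - d * y ^ 2) * B a (δ a) := by
  simp only [map_add, map_smul, LinearMap.add_apply, LinearMap.smul_apply, h.sq, h.adj, hA a,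
    smul_eq_mul]
  ring

/-- the hermitian projection on a non-isotropic `K`-line -/
theorem decomp (h : US B δ d) (hA : B.IsAlt) {a : ι → F} (hq : B a (δ a) ≠ 0) (x : ι → F) :
    ∃ x', x = (B x (δ a) / B a (δ a)) • a + (-(B x a) / B a (δ a)) • δ a + x' ∧
      B x' a = 0 ∧ B x' (δ a) = 0 := by
  refine ⟨x - ((B x (δ a) / B a (δ a)) • a + (-(B x a) / B a (δ a)) • δ a), by abel, ?_, ?_⟩
  · simp only [map_sub, map_add, map_smul, LinearMap.sub_apply, LinearMap.add_apply,
      LinearMap.smul_apply, h.adj, hA a, smul_eq_mul]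
    field_simp
    ring
  · simp only [map_sub, map_add, map_smul, LinearMap.sub_apply, LinearMap.add_apply,
      LinearMap.smul_apply, h.dd, hA a, smul_eq_mul]
    field_simp
    ring

/-- the quadratic form of a sum -/
theorem Qadd (h : US B δ d) (hA : B.IsAlt) (x y : ι → F) :
    B (x + y) (δ (x + y)) = B x (δ x) + B y (δ y) + 2 * B x (δ y) := by
  simp only [map_add, LinearMap.add_apply, h.symm hA y x]
  ring

end Cfsg.Agent.Lib.H97U3Basic
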