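import Cfsg.Agent.Lib.H97U3Basic

set_option autoImplicit false
set_option linter.unusedSectionVars false
set_option linter.unusedSimpArgs false
set_option linter.unusedVariables false

namespace Cfsg.Agent.Lib.H97U3E5a

open Module
open Cfsg.Agent.Lib.Helper95Sp Cfsg.Agent.Lib.Helper95Cen Cfsg.Agent.Lib.Helper95OrthGeo
  Cfsg.Agent.Lib.Helper95OrthCS Cfsg.Agent.Lib.Helper95SpU Cfsg.Agent.Lib.H97U3Basic

variable {F : Type*} [Field F]
variable {ι : Type} [Fintype ι] [DecidableEq ι]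
variable {B : LinearMap.BilinForm F (ι → F)}
variable {δ : (ι → F) →ₗ[F] (ι → F)} {d : F}
variable {hA : B.IsAlt} {M : Subgroup ((ι → F) ≃ₗ[F] (ι → F))}

/-- **A non-isotropic vector perpendicular to two perpendicular non-isotropic vectors.** -/
theorem E5a [Nonempty ι] (h : US B δ d) (hA : B.IsAlt) (hB : B.Nondegenerate) (h2 : (2 : F) ≠ 0)
    (hn : 5 ≤ Fintype.card ι) {w w' : ι → F} (hq : B w (δ w) ≠ 0) (hq' : B w' (δ w') ≠ 0)
    (hww : B w w' = 0) (hb : B w (δ w') = 0) :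
    ∃ z, B z (δ z) ≠ 0 ∧ B w z = 0 ∧ B w (δ z) = 0 ∧ B w' z = 0 ∧ B w' (δ z) = 0 := by
  classical
  set W := Submodule.span F (({w, δ w, w', δ w'} : Finset (ι → F)) : Set (ι → F)) with hW
  have hWfr : finrank F W ≤ 4 := le_trans (finrank_span_finset_le_card _) Finset.card_le_four
  have hO : finrank F (B.orthogonal W) = finrank F (ι → F) - finrank F W :=
    LinearMap.BilinForm.finrank_orthogonal hB W
  rw [Module.finrank_fintype_fun_eq_card] at hO
  have hpos : 0 < finrank F (B.orthogonal W) := by omega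
  obtain ⟨⟨z₀, hz₀W⟩, hz₀⟩ := Module.finrank_pos_iff_exists_ne_zero.1 hpos
  have hz₀' : z₀ ≠ 0 := fun h0 => hz₀ (Subtype.ext h0)
  have hperp : ∀ t ∈ ({w, δ w, w', δ w'} : Finset (ι → F)), B t z₀ = 0 :=
    fun t ht => hz₀W t (Submodule.subset_span ht)
  have p1 : B w z₀ = 0 := hperp _ (by simp)
  have p2 : B (δ w) z₀ = 0 := hperp _ (by simp)
  have p3 : B w' z₀ = 0 := hperp _ (by simp)
  have p4 : B (δ w') z₀ = 0 := hperp _ (by simp)
  obtain ⟨x₀, hx₀⟩ : ∃ x₀, B z₀ x₀ ≠ 0 := by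
    by_contra hc
    push Not at hc
    exact hz₀' (hB.1 z₀ hc)
  obtain ⟨x₁, e1, a1, a2⟩ := decomp h hA hq x₀
  obtain ⟨x', e2, b1, b2⟩ := decomp h hA hq' x₁
  have adj' : ∀ u v, B u (δ v) = - B (δ u) v := fun u v => by rw [h.adj, neg_neg]
  have hw'w : B w' w = 0 := alt_zero hA hww
  have hw'dw : B w' (δ w) = 0 := by rw [h.symm hA]; exact hb
  have c1 : B x' w = 0 := by
    have := a1
    rw [e2] at this
    simp only [map_add, map_smul, LinearMap.add_apply, LinearMap.smul_apply, h.adj, hw'w, hw'dw,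
      smul_eq_mul, mul_zero, neg_zero, zero_add] at this
    exact this
  have c2 : B x' (δ w) = 0 := by
    have := a2
    rw [e2] at this
    simp only [map_add, map_smul, LinearMap.add_apply, LinearMap.smul_apply, h.dd, hw'w, hw'dw,
      smul_eq_mul, mul_zero, neg_zero, zero_add] at this
    exact this
  have hzx : B z₀ x' = B z₀ x₀ := by
    rw [e1, e2]
    simp only [map_add, map_smul, alt_zero hA p1, alt_zero hA p2, alt_zero hA p3, alt_zero hA p4,
      smul_eq_mul, mul_zero, zero_add]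
  have hzx' : B z₀ x' ≠ 0 := by rw [hzx]; exact hx₀
  -- perpendicularity of the candidates
  have z1 : B w (δ z₀) = 0 := by rw [adj', p2, neg_zero]
  have z2 : B w' (δ z₀) = 0 := by rw [adj', p4, neg_zero]
  have y1 : B w (δ x') = 0 := by rw [h.symm hA]; exact c2
  have y2 : B w (δ (δ x')) = 0 := by rw [Bdd h, alt_zero hA c1, mul_zero]
  have y3 : B w' (δ x') = 0 := by rw [h.symm hA]; exact b2
  have y4 : B w' (δ (δ x')) = 0 := by rw [Bdd h, alt_zero hA b1, mul_zero]
  by_cases hc1 : B z₀ (δ z₀) = 0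
  · by_cases hc2 : B (δ x') (δ (δ x')) = 0
    · refine ⟨z₀ + δ x', ?_, ?_, ?_, ?_, ?_⟩
      · rw [Qadd h hA, hc1, hc2, Bdd h]
        simp only [zero_add]
        exact mul_ne_zero h2 (mul_ne_zero h.d_ne hzx')
      · rw [map_add, p1, y1, add_zero]
      · rw [map_add, map_add, z1, y2, add_zero]
      · rw [map_add, p3, y3, add_zero]
      · rw [map_add, map_add, z2, y4, add_zero]
    · exact ⟨δ x', hc2, y1, y2, y3, y4⟩
  · exact ⟨z₀, hc1, p1, z1, p3, z2⟩

end Cfsg.Agent.Lib.H97U3E5a
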