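import Cfsg.Agent.Lib.H97U3Basic
import Cfsg.Agent.Lib.H97U3E5a
set_option autoImplicit false
set_option linter.unusedSectionVars false
set_option linter.unusedSimpArgs false
set_option linter.unusedVariables false

namespace Cfsg.Agent.Lib.H97U3E3

open Module
open Cfsg.Agent.Lib.Helper95Sp Cfsg.Agent.Lib.Helper95Cen Cfsg.Agent.Lib.Helper95OrthGeo
  Cfsg.Agent.Lib.Helper95OrthCS Cfsg.Agent.Lib.Helper95SpU Cfsg.Agent.Lib.H97U3Basic

variable {F : Type*} [Field F]
variable {ι : Type} [Fintype ι] [DecidableEq ι]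
variable {B : LinearMap.BilinForm F (ι → F)}
variable {δ : (ι → F) →ₗ[F] (ι → F)} {d : F}
variable {hA : B.IsAlt} {M : Subgroup ((ι → F) ≃ₗ[F] (ι → F))}

/-- **A non-isotropic vector perpendicular to a hyperbolic pair.**
Sketch: `p := B u f`, `r := B u (δ f)`, `N := r^2 - d p^2 ≠ 0` (`h.nonsq`).  `f' := r • f - p • δ f` is isotropic
(`Qcomb`), `B u f' = 0`, `B u (δ f') = N`.  `a := u + f'`, `a' := u - f'`: `Q a = 2N`, `Q a' = -2N`, `B a a' = 0`, `B a (δ a') = 0`.
`E5a` gives `z` non-isotropic, hermitian-perpendicular to `a, a'`; hence to `u` and `f'` (half sum / half difference);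
finally `r X + p Y = 0`, `d p X + r Y = 0` for `X = B f z`, `Y = B f (δ z)` force `X = Y = 0` since `N ≠ 0`. -/
theorem E3 [Nonempty ι] (h : US B δ d) (hA : B.IsAlt) (hB : B.Nondegenerate) (h2 : (2 : F) ≠ 0)
    (hn : 5 ≤ Fintype.card ι) {u f : ι → F} (hus : B u (δ u) = 0) (hfs : B f (δ f) = 0)
    (hne : ¬ (B u f = 0 ∧ B u (δ f) = 0)) :
    ∃ z, B z (δ z) ≠ 0 ∧ B u z = 0 ∧ B u (δ z) = 0 ∧ B f z = 0 ∧ B f (δ z) = 0 := by
  set p := B u f with hp
  set r := B u (δ f) with hr
  have hN : r ^ 2 - d * p ^ 2 ≠ 0 := fun h0 => hne (h.nonsq h0)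
  set f' : ι → F := r • f - p • δ f with hf'
  have hδf' : δ f' = r • δ f - (p * d) • f := by
    rw [hf']
    simp only [map_sub, map_smul, h.sq, smul_smul]
  have hQf' : B f' (δ f') = 0 := by
    have := Qcomb h hA f r (-p)
    rw [hfs, mul_zero] at this
    have e : r • f + -p • δ f = f' := by rw [hf', neg_smul, sub_eq_add_neg]
    rwa [e] at this
  have huf' : B u f' = 0 := by
    rw [hf']
    simp only [map_sub, map_smul, smul_eq_mul, ← hp, ← hr]
    ring
  have huδf' : B u (δ f') = r ^ 2 - d * p ^ 2 := by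
    rw [hδf']
    simp only [map_sub, map_smul, smul_eq_mul, ← hp, ← hr]
    ring
  have hf'u : B f' u = 0 := alt_zero hA huf'
  have hf'δu : B f' (δ u) = r ^ 2 - d * p ^ 2 := by rw [h.symm hA]; exact huδf'
  have hQa : B (u + f') (δ (u + f')) = 2 * (r ^ 2 - d * p ^ 2) := by
    rw [Qadd h hA, hus, hQf', huδf']; ring
  have hQa' : B (u - f') (δ (u - f')) = -(2 * (r ^ 2 - d * p ^ 2)) := by
    rw [sub_eq_add_neg, Qadd h hA]
    simp only [map_neg, LinearMap.neg_apply, neg_neg, hus, hQf', huδf']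
    ring
  have haa' : B (u + f') (u - f') = 0 := by
    simp only [map_add, map_sub, LinearMap.add_apply, hA u, hA f', huf', hf'u]
    ring
  have haδa' : B (u + f') (δ (u - f')) = 0 := by
    simp only [map_add, map_sub, LinearMap.add_apply, hus, hQf', huδf', hf'δu]
    ring
  obtain ⟨z, hz, h1, h3, h4, h5⟩ := H97U3E5a.E5a h hA hB h2 hn
    (w := u + f') (w' := u - f') (by rw [hQa]; exact mul_ne_zero h2 hN)
    (by rw [hQa']; exact neg_ne_zero.2 (mul_ne_zero h2 hN)) haa' haδa'
  simp only [map_add, map_sub, LinearMap.add_apply, LinearMap.sub_apply] at h1 h3 h4 h5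
  have huz : B u z = 0 := by
    have : 2 * B u z = 0 := by linear_combination h1 + h4
    exact (mul_eq_zero.1 this).resolve_left h2
  have huδz : B u (δ z) = 0 := by
    have : 2 * B u (δ z) = 0 := by linear_combination h3 + h5
    exact (mul_eq_zero.1 this).resolve_left h2
  have hf'z : B f' z = 0 := by
    have : 2 * B f' z = 0 := by linear_combination h1 - h4
    exact (mul_eq_zero.1 this).resolve_left h2
  have hf'δz : B f' (δ z) = 0 := by
    have : 2 * B f' (δ z) = 0 := by linear_combination h3 - h5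
    exact (mul_eq_zero.1 this).resolve_left h2
  have k1 : r * B f z + p * B f (δ z) = 0 := by
    rw [← hf'z, hf']
    simp only [map_sub, map_smul, LinearMap.sub_apply, LinearMap.smul_apply, smul_eq_mul, h.adj]
    ring
  have k2 : d * p * B f z + r * B f (δ z) = 0 := by
    rw [← hf'δz, hf']
    simp only [map_sub, map_smul, LinearMap.sub_apply, LinearMap.smul_apply, smul_eq_mul, h.dd]
    ring
  refine ⟨z, hz, huz, huδz, ?_, ?_⟩
  · have : (r ^ 2 - d * p ^ 2) * B f z = 0 := by linear_combination r * k1 - p * k2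
    exact (mul_eq_zero.1 this).resolve_left hN
  · have : (r ^ 2 - d * p ^ 2) * B f (δ z) = 0 := by linear_combination r * k2 - d * p * k1
    exact (mul_eq_zero.1 this).resolve_left hN

end Cfsg.Agent.Lib.H97U3E3
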