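import Cfsg.Agent.Lib.H97U3Basic

set_option autoImplicit false
set_option linter.unusedSectionVars false
set_option linter.unusedSimpArgs false
set_option linter.unusedVariables false

namespace Cfsg.Agent.Lib.H97U3E4

open Module
open Cfsg.Agent.Lib.Helper95Sp Cfsg.Agent.Lib.Helper95Cen Cfsg.Agent.Lib.Helper95OrthGeo
  Cfsg.Agent.Lib.Helper95OrthCS Cfsg.Agent.Lib.Helper95SpU Cfsg.Agent.Lib.H97U3Basic

variable {F : Type*} [Field F]
variable {ι : Type} [Fintype ι] [DecidableEq ι]
variable {B : LinearMap.BilinForm F (ι → F)}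
variable {δ : (ι → F) →ₗ[F] (ι → F)} {d : F}
variable {hA : B.IsAlt} {M : Subgroup ((ι → F) ≃ₗ[F] (ι → F))}

/-- **Witt index one.**  In dimension `6` there is no totally isotropic `K`-plane. -/
theorem E4 [Nonempty ι] (h : US B δ d) (hA : B.IsAlt) (hB : B.Nondegenerate)
    (hn : Fintype.card ι = 6) {u f : ι → F} (hu0 : u ≠ 0) (hu : B u (δ u) = 0)
    (hf : B f (δ f) = 0) (h1 : B u f = 0) (h2 : B u (δ f) = 0) :
    f ∈ Submodule.span F {u, δ u} := by
  classical
  by_contra hfn
  have hcs := h.cs hA
  have hli : LinearIndependent F ![u, δ u, f, δ f] := by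
    rw [Fintype.linearIndependent_iff]
    intro g hg
    rw [Fin.sum_univ_four] at hg
    have hg' : g 0 • u + g 1 • δ u + g 2 • f + g 3 • δ f = 0 := hg
    have h23 : g 2 = 0 ∧ g 3 = 0 := by
      by_contra hc
      apply hfn
      apply hcs.mem_of_comb (hcs.KS_inv u) (c := g 2) (d := g 3) (by tauto)
      have : g 2 • f + g 3 • δ f = (-g 0) • u + (-g 1) • δ u := by
        have e0 : g 2 • f + g 3 • δ f - ((-g 0) • u + (-g 1) • δ u) =
            g 0 • u + g 1 • δ u + g 2 • f + g 3 • δ f := by module
        rw [← sub_eq_zero, e0, hg']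
      rw [this]
      exact Submodule.add_mem _ (Submodule.smul_mem _ _ (Submodule.subset_span (by simp)))
        (Submodule.smul_mem _ _ (Submodule.subset_span (by simp)))
    have h01 : g 0 = 0 ∧ g 1 = 0 := by
      by_contra hc
      apply hu0
      have := hcs.mem_of_comb (S := ⊥) (by intro x hx; simp at hx; simp [hx]) (c := g 0) (d := g 1)
        (by tauto) (v := u) (by
          rw [Submodule.mem_bot]
          rw [h23.1, h23.2] at hg'
          simpa using hg')
      simpa using this
    intro i
    fin_cases i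
    · exact h01.1
    · exact h01.2
    · exact h23.1
    · exact h23.2
  set T := Submodule.span F (Set.range ![u, δ u, f, δ f]) with hT
  have hfr : finrank F T = 4 := by
    rw [hT, finrank_span_eq_card hli]; simp
  have hgen : ∀ x ∈ Set.range ![u, δ u, f, δ f], ∀ y ∈ Set.range ![u, δ u, f, δ f], B x y = 0 := by
    have e1 : B f u = 0 := alt_zero hA h1
    have e2 : B f (δ u) = 0 := by rw [h.symm hA]; exact h2
    have e3 : B (δ u) f = 0 := alt_zero hA e2
    have e4 : B (δ f) u = 0 := alt_zero hA h2
    rintro x ⟨i, rfl⟩ y ⟨j, rfl⟩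
    fin_cases i <;> fin_cases j <;>
      simp [hA u, hA f, hA (δ u), hA (δ f), hu, hf, h1, h2, e1, e2, e3, e4, alt_zero hA hu,
        alt_zero hA hf, h.dd]
  have hTT : T ≤ B.orthogonal T := by
    intro x hx y hy
    show B y x = 0
    rw [hT] at hx hy
    induction hy using Submodule.span_induction with
    | mem y hy =>
      induction hx using Submodule.span_induction with
      | mem x hx => exact hgen y hy x hx
      | zero => simp
      | add a b _ _ ha hb => rw [map_add, ha, hb, add_zero]
      | smul c a _ ha => rw [map_smul, ha, smul_zero]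
    | zero => simp
    | add a b _ _ ha hb => rw [map_add, LinearMap.add_apply, ha, hb, add_zero]
    | smul c a _ ha => rw [map_smul, LinearMap.smul_apply, ha, smul_zero]
  have hsum : finrank F (B.orthogonal T) = finrank F (ι → F) - finrank F T :=
    LinearMap.BilinForm.finrank_orthogonal hB T
  have hle := Submodule.finrank_mono hTT
  rw [hsum, hfr, Module.finrank_fintype_fun_eq_card, hn] at hle
  omega

end Cfsg.Agent.Lib.H97U3E4
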