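import Cfsg.Agent.Lib.Helper95SpU

/-!
# Overgroups of the unitary group inside `Sp` (odd characteristic), dimension `≥ 10`

Copy of the second half of `Helper95SpU` (helper95) with `14 ≤ n` replaced by `10 ≤ n`; the only
new ingredient is a proof of `claim2a` through an explicit isotropic vector (`case1`).
-/

set_option autoImplicit false
set_option linter.unusedSectionVars false
set_option linter.unusedSimpArgs false
set_option linter.unusedVariables false

namespace Cfsg.Agent.Lib.Helper97SpULow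

open Module
open Cfsg.Agent.Lib.Helper95Sp Cfsg.Agent.Lib.Helper95Cen Cfsg.Agent.Lib.Helper95OrthGeo
  Cfsg.Agent.Lib.Helper95OrthCS Cfsg.Agent.Lib.Helper95SpU

variable {F : Type*} [Field F]
variable {ι : Type} [Fintype ι] [DecidableEq ι]
variable {B : LinearMap.BilinForm F (ι → F)}
variable {δ : (ι → F) →ₗ[F] (ι → F)} {d : F}
variable {hA : B.IsAlt} {M : Subgroup ((ι → F) ≃ₗ[F] (ι → F))}

/-- a non-isotropic vector perpendicular (for the hermitian form) to `u` and `f` -/
theorem us_aniso (h : US B δ d) (hA : B.IsAlt) (hB : B.Nondegenerate) (h2 : (2 : F) ≠ 0)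
    [Nonempty ι] (hn : 9 ≤ Fintype.card ι) (u f : ι → F) :
    ∃ z, B z (δ z) ≠ 0 ∧ B u z = 0 ∧ B u (δ z) = 0 ∧ B f z = 0 ∧ B f (δ z) = 0 := by
  classical
  have hd := h.d_ne
  set T : Finset (ι → F) := {u, δ u, f, δ f} with hT
  obtain ⟨z, hz, hQz⟩ := Cfsg.Agent.Lib.Helper49Geo.exists_nonsingular_orth (qs B δ)
    (qs_nondeg h hA hB h2) (S := Submodule.span F (T : Set (ι → F))) (by
      have h3 := finrank_span_finset_le T
      have h4 : T.card ≤ 4 := Finset.card_le_four
      omega)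
  have hz' := (Cfsg.Agent.Lib.Helper95OrthSub.mem_orth_span (qs B δ)).1 hz
  have key : ∀ t ∈ T, B t (δ z) = 0 := by
    intro t ht
    have := hz' t (by exact_mod_cast ht)
    rw [polar_qs h hA] at this
    exact (mul_eq_zero.1 this).resolve_left h2
  refine ⟨z, by simpa using hQz, ?_, key u (by simp [hT]), ?_, key f (by simp [hT])⟩
  · have := key (δ u) (by simp [hT])
    rw [h.dd] at this
    simpa [hd] using this
  · have := key (δ f) (by simp [hT])
    rw [h.dd] at this
    simpa [hd] using this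

/-- two isotropic vectors which are not perpendicular for the hermitian form -/
theorem us_case1 [Nonempty ι] (h : US B δ d) (hB : B.Nondegenerate)
    (h2 : (2 : F) ≠ 0) (hn : 9 ≤ Fintype.card ι)
    (hU : ∀ y, B y (δ y) = 0 → ∀ c, ut hA δ d y c ∈ M) {u f : ι → F} (hu : u ∈ cen hA M)
    (hus : B u (δ u) = 0) (hfs : B f (δ f) = 0) (hne : ¬ (B u f = 0 ∧ B u (δ f) = 0)) :
    f ∈ cen hA M := by
  have hd := h.d_ne
  set p := B u f with hp
  set r := B u (δ f) with hr
  by_cases hr0 : r = 0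
  · exact h.claim1 hU hu hus hfs hr0 (fun h0 => hne ⟨h0, hr0⟩)
  have hN : r ^ 2 - d * p ^ 2 ≠ 0 := by
    intro h0
    exact hr0 (h.nonsq h0).2
  obtain ⟨z, hz, huz, huz', hfz, hfz'⟩ := us_aniso h hA hB h2 hn u f
  set η := B z (δ z) with hη
  set t : F := -η / (2 * d * r * (r ^ 2 - d * p ^ 2)) with ht
  have ht0 : t ≠ 0 := by
    rw [ht]
    exact div_ne_zero (neg_ne_zero.2 hz) (mul_ne_zero (mul_ne_zero (mul_ne_zero h2 hd) hr0) hN)
  set e : ι → F := ((d * p) • u + r • δ u) + t • ((d * p) • f - r • δ f) + z with he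
  -- basic values
  have hfu : B f u = -p := by rw [alt_swap hA, ← hp]
  have hfu' : B f (δ u) = r := by rw [h.symm hA, ← hr]
  have hzu : B z u = 0 := alt_zero hA huz
  have hzf : B z f = 0 := alt_zero hA hfz
  have hzu' : B z (δ u) = 0 := by rw [h.symm hA]; exact huz'
  have hzf' : B z (δ f) = 0 := by rw [h.symm hA]; exact hfz'
  have hδe : δ e = ((d * p) • δ u + (r * d) • u) + t • ((d * p) • δ f - (r * d) • f) + δ z := by
    rw [he]
    simp only [map_add, map_sub, map_smul, h.sq, smul_smul]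
  have e1 : B u (δ e) = 0 := by
    rw [hδe]
    simp only [map_add, map_sub, map_smul, hus, hA u, ← hp, ← hr, huz', smul_eq_mul]
    ring
  have e2 : B u e = -(t * (r ^ 2 - d * p ^ 2)) := by
    rw [he]
    simp only [map_add, map_sub, map_smul, hus, hA u, ← hp, ← hr, huz, smul_eq_mul]
    ring
  have e3 : B f (δ e) = 0 := by
    rw [hδe]
    simp only [map_add, map_sub, map_smul, hfs, hA f, hfu, hfu', hfz', smul_eq_mul]
    ring
  have e4 : B f e = r ^ 2 - d * p ^ 2 := by
    rw [he]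
    simp only [map_add, map_sub, map_smul, hfs, hA f, hfu, hfu', hfz, smul_eq_mul]
    ring
  have e5 : B e (δ e) = 0 := by
    have hδu : ∀ x, B (δ u) x = - B u (δ x) := fun x => h.adj u x
    have hδf : ∀ x, B (δ f) x = - B f (δ x) := fun x => h.adj f x
    have hzδe : B z (δ e) = η := by
      rw [hδe]
      simp only [map_add, map_sub, map_smul, hzu, hzu', hzf, hzf', smul_eq_mul, ← hη]
      ring
    have hδδe : δ (δ e) = d • e := h.sq e
    have hgen : ∀ X, B e X = (d * p) * B u X + r * B (δ u) X +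
        t * ((d * p) * B f X - r * B (δ f) X) + B z X := by
      intro X
      rw [he]
      simp only [map_add, map_sub, map_smul, LinearMap.add_apply, LinearMap.sub_apply,
        LinearMap.smul_apply, smul_eq_mul]
    rw [hgen, hδu, hδf, hδδe, map_smul, map_smul, e1, e2, e3, e4, hzδe, smul_eq_mul, smul_eq_mul, ht]
    field_simp
    ring
  have hec : e ∈ cen hA M := h.claim1 hU hu hus e5 e1 (by
    rw [e2]
    exact neg_ne_zero.2 (mul_ne_zero ht0 hN))
  refine h.claim1 hU hec e5 hfs (by rw [h.symm hA]; exact e3) ?_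
  intro h0
  have := alt_zero hA h0
  rw [e4] at this
  exact hN this

theorem us_claim2a [Finite F] [Nonempty ι] (h : US B δ d) (hB : B.Nondegenerate)
    (h2 : (2 : F) ≠ 0) (hn : 10 ≤ Fintype.card ι)
    (hU : ∀ y, B y (δ y) = 0 → ∀ c, ut hA δ d y c ∈ M) {u f : ι → F} (hu : u ∈ cen hA M)
    (hus : B u (δ u) = 0) (hfs : B f (δ f) = 0) (hu0 : u ≠ 0)
    (hf : f ∉ Submodule.span F {u, δ u}) : f ∈ cen hA M := by
  classical
  have hf0 : f ≠ 0 := by
    rintro rfl
    exact hf (Submodule.zero_mem _)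
  by_cases hne : B u f = 0 ∧ B u (δ f) = 0
  · have h3 : u ∉ Submodule.span F ((∅ : Finset (ι → F)) : Set (ι → F)) := by simpa using hu0
    have h4 : f ∉ Submodule.span F ((∅ : Finset (ι → F)) : Set (ι → F)) := by simpa using hf0
    obtain ⟨g, hg, -, h5, h6⟩ := h.exists_sing_two hA hB h2 ∅ (by simp; omega) h3 h4
    have hgc : g ∈ cen hA M := us_case1 h hB h2 (by omega) hU hu hus hg (fun hc => h5 hc.2)
    refine us_case1 h hB h2 (by omega) hU hgc hg hfs (fun hc => h6 ?_)
    rw [h.symm hA]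
    exact hc.2
  · exact us_case1 h hB h2 (by omega) hU hu hus hfs hne

theorem us_claim2 [Finite F] [Nonempty ι] (h : US B δ d) (hB : B.Nondegenerate)
    (h2 : (2 : F) ≠ 0) (hn : 10 ≤ Fintype.card ι)
    (hU : ∀ y, B y (δ y) = 0 → ∀ c, ut hA δ d y c ∈ M) {u : ι → F} (hu : u ∈ cen hA M)
    (hus : B u (δ u) = 0) (hu0 : u ≠ 0) (f : ι → F) (hfs : B f (δ f) = 0) : f ∈ cen hA M := by
  classical
  by_cases hf : f ∈ Submodule.span F {u, δ u}
  · by_cases hf0 : f = 0
    · rw [hf0]; exact zero_mem_cen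
    have h3 : δ u ∉ Submodule.span F (({u} : Finset (ι → F)) : Set (ι → F)) := by
      rw [Finset.coe_singleton]
      intro hmem
      obtain ⟨a, ha⟩ := Submodule.mem_span_singleton.1 hmem
      exact hu0 (h.noeig a u ha.symm)
    obtain ⟨e, he, hT, h5⟩ := h.exists_sing hA hB h2 {u} (by simp; omega) h3
    have hue : B u (δ e) = 0 := hT u (by simp)
    rw [h.dd] at h5
    have h5' : B u e ≠ 0 := fun h0 => h5 (by rw [h0]; simp)
    have hec := h.claim1 hU hu hus he hue h5'
    have he0 : e ≠ 0 := by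
      rintro rfl
      exact h5' (by simp)
    refine us_claim2a h hB h2 hn hU hec he hfs he0 ?_
    intro hfe
    have h6 := h.K_symm hA hf0 hfe
    have h7 : Submodule.span F {f, δ f} ≤ Submodule.span F {u, δ u} := by
      rw [Submodule.span_le]
      rintro x (rfl | rfl)
      · exact hf
      · exact (h.cs hA).KS_inv u _ hf
    obtain ⟨a, b, hab⟩ := Submodule.mem_span_pair.1 (h7 h6)
    apply h5'
    rw [← hab, map_add, map_smul, map_smul, hA u, hus]
    simp
  · exact us_claim2a h hB h2 hn hU hu hus hfs hu0 hf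

theorem us_claim3 [Finite F] [Nonempty ι] (h : US B δ d) (hB : B.Nondegenerate)
    (h2 : (2 : F) ≠ 0) (hn : 10 ≤ Fintype.card ι)
    (hS : ∀ f, B f (δ f) = 0 → f ∈ cen hA M) (z : ι → F) : z ∈ cen hA M := by
  classical
  by_cases hz : B z (δ z) = 0
  · exact hS z hz
  have hz0 : z ≠ 0 := by
    rintro rfl
    exact hz (by simp)
  have h3 : z ∉ Submodule.span F ((∅ : Finset (ι → F)) : Set (ι → F)) := by
    simpa using hz0
  have h4 : δ z ∉ Submodule.span F ((∅ : Finset (ι → F)) : Set (ι → F)) := by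
    simp only [Finset.coe_empty, Submodule.span_empty, Submodule.mem_bot]
    intro h0
    exact hz0 (h.noeig 0 z (by rw [h0, zero_smul]))
  obtain ⟨b, hb, -, h5, h6⟩ := h.exists_sing_two hA hB h2 ∅ (by simp; omega) h3 h4
  rw [h.dd] at h6
  have h6' : B z b ≠ 0 := fun h0 => h6 (by rw [h0]; simp)
  set l : F := B z (δ z) / (2 * B z (δ b)) with hl
  have hl0 : l ≠ 0 := div_ne_zero hz (mul_ne_zero h2 h5)
  have ha : B (z - l • b) (δ (z - l • b)) = 0 := by
    simp only [map_sub, map_smul, LinearMap.sub_apply, LinearMap.smul_apply, hb, h.symm hA b z,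
      smul_eq_mul]
    rw [hl]
    field_simp
    ring
  have h7 := cen_add (hS _ ha) (cen_smul l (hS b hb)) (by
    simp only [map_sub, map_smul, LinearMap.sub_apply, LinearMap.smul_apply, hA b, smul_eq_mul]
    simpa using ⟨hl0, h6'⟩)
  rwa [sub_add_cancel] at h7

/-- the second isotropic vector -/
theorem us_exists_y2 [Finite F] [Nonempty ι] (h : US B δ d) (hA : B.IsAlt) (hB : B.Nondegenerate)
    (h2 : (2 : F) ≠ 0) (hn : 10 ≤ Fintype.card ι) {w w' y₁ : ι → F}
    (hy₁ : B y₁ (δ y₁) = 0) (hwy : B w y₁ = 0) (hwy' : B w (δ y₁) = 0)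
    (hw'y : B w' (δ y₁) ≠ 0) :
    ∃ y₂, B y₂ (δ y₂) = 0 ∧ B w y₂ = 0 ∧ B w (δ y₂) = 0 ∧ B y₁ y₂ = 0 ∧ B y₁ (δ y₂) = 0 ∧
      (B w' y₂ ≠ 0 ∨ B w' (δ y₂) ≠ 0) ∧ y₂ ∉ Submodule.span F {y₁, δ y₁} := by
  classical
  have hd := h.d_ne
  obtain ⟨e, he, hT, hne⟩ := h.exists_sing_notMem hA hB h2 {w, δ w, y₁, δ y₁} {y₁, δ y₁}
    (by
      have h3 := Finset.card_le_four (a := w) (b := δ w) (c := y₁) (d := δ y₁)
      have h4 := Finset.card_le_two (a := y₁) (b := δ y₁)
      omega)
  have hc : (({y₁, δ y₁} : Finset (ι → F)) : Set (ι → F)) = {y₁, δ y₁} := by simp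
  rw [hc] at hne
  have e1 : B w (δ e) = 0 := hT w (by simp)
  have e2 : B w e = 0 := by
    have := hT (δ w) (by simp)
    rw [h.dd] at this
    simpa [hd] using this
  have e3 : B y₁ (δ e) = 0 := hT y₁ (by simp)
  have e4 : B y₁ e = 0 := by
    have := hT (δ y₁) (by simp)
    rw [h.dd] at this
    simpa [hd] using this
  by_cases hcase : B w' e = 0 ∧ B w' (δ e) = 0
  · refine ⟨y₁ + e, ?_, ?_, ?_, ?_, ?_, Or.inr ?_, ?_⟩
    · simp only [map_add, LinearMap.add_apply, hy₁, he, e3, h.symm hA e y₁, add_zero]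
    · rw [map_add, hwy, e2, add_zero]
    · rw [map_add, map_add, hwy', e1, add_zero]
    · rw [map_add, hA y₁, e4, add_zero]
    · rw [map_add, map_add, hy₁, e3, add_zero]
    · rw [map_add, map_add, hcase.2, add_zero]
      exact hw'y
    · intro hmem
      apply hne
      have := Submodule.sub_mem _ hmem (Submodule.subset_span (s := {y₁, δ y₁}) (by simp : y₁ ∈ _))
      rwa [add_sub_cancel_left] at this
  · refine ⟨e, he, e2, e1, e4, e3, ?_, hne⟩
    by_contra hcon
    push Not at hcon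
    exact hcase hcon

/-- **Main theorem**: a group of isometries containing all unitary transvections for `δ` and a
"foreign" root-type family contains all symplectic transvections. -/
theorem us_main_low [Finite F] [Nonempty ι] (h : US B δ d) (hB : B.Nondegenerate)
    (h2 : (2 : F) ≠ 0) (hn : 10 ≤ Fintype.card ι)
    (hU : ∀ y, B y (δ y) = 0 → ∀ c, ut hA δ d y c ∈ M) {w w' : ι → F}
    (hw' : w' ∉ Submodule.span F {w, δ w})
    (hE : ∀ ε, ∃ a, stv B hA w a * stv B hA w' ε ∈ M) : ∀ v, v ∈ cen hA M := by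
  classical
  have hd := h.d_ne
  -- first isotropic vector
  have hc : (({w, δ w} : Finset (ι → F)) : Set (ι → F)) = {w, δ w} := by simp
  obtain ⟨y₁, hy₁, hT, hw'y⟩ := h.exists_sing hA hB h2 {w, δ w}
    (by have := Finset.card_le_two (a := w) (b := δ w); omega) (by rw [hc]; exact hw')
  have hwy' : B w (δ y₁) = 0 := hT w (by simp)
  have hwy : B w y₁ = 0 := by
    have := hT (δ w) (by simp)
    rw [h.dd] at this
    simpa [hd] using this
  obtain ⟨y₂, hy₂, hwy₂, hwy₂', h12, h12', hne₂, hnm⟩ :=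
    us_exists_y2 h hA hB h2 hn hy₁ hwy hwy' hw'y
  have h21 : B y₂ y₁ = 0 := alt_zero hA h12
  have h21' : B y₂ (δ y₁) = 0 := by rw [h.symm hA]; exact h12'
  set n₁ : F := (B w' (δ y₁)) ^ 2 - d * (B w' y₁) ^ 2 with hn₁
  set n₂ : F := (B w' (δ y₂)) ^ 2 - d * (B w' y₂) ^ 2 with hn₂
  have hn₁0 : n₁ ≠ 0 := fun h0 => hw'y (h.nonsq h0).2
  have hn₂0 : n₂ ≠ 0 := by
    intro h0
    have := h.nonsq h0
    rcases hne₂ with h3 | h3
    · exact h3 this.1
    · exact h3 this.2
  set φ₁ : ι → F := -(d * B w' y₁) • y₁ + B w' (δ y₁) • δ y₁ with hφ₁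
  set φ₂ : ι → F := -(d * B w' y₂) • y₂ + B w' (δ y₂) • δ y₂ with hφ₂
  set x₀ : ι → F := n₂ • φ₁ + (-n₁) • φ₂ with hx₀
  set g := ut hA δ d y₂ (-n₁) * ut hA δ d y₁ n₂ with hg
  have hgM : g ∈ M := M.mul_mem (hU _ hy₂ _) (hU _ hy₁ _)
  have hgiso : ∀ x y, B (g x) (g y) = B x y := by
    intro x y
    rw [hg, LinearEquiv.mul_apply, LinearEquiv.mul_apply, ut_isometry, ut_isometry]
  have hgw : g w = w := by
    rw [hg, LinearEquiv.mul_apply, ut_apply h hA hy₁, hwy, hwy']
    simp only [mul_zero, neg_zero, zero_smul, add_zero, smul_zero]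
    rw [ut_apply h hA hy₂, hwy₂, hwy₂']
    simp only [mul_zero, neg_zero, zero_smul, add_zero, smul_zero]
  have hgw' : g w' = w' + x₀ := by
    rw [hg, LinearEquiv.mul_apply, ut_apply h hA hy₁, ← hφ₁, ut_apply h hA hy₂]
    have e1 : B φ₁ y₂ = 0 := by
      rw [hφ₁]
      simp only [map_add, map_smul, LinearMap.add_apply, LinearMap.smul_apply, h.adj, h12, h12',
        smul_eq_mul, mul_zero, neg_zero, add_zero]
    have e2 : B φ₁ (δ y₂) = 0 := by
      rw [hφ₁]
      simp only [map_add, map_smul, LinearMap.add_apply, LinearMap.smul_apply, h.dd, h12, h12',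
        smul_eq_mul, mul_zero, neg_zero, add_zero]
    simp only [map_add, map_smul, LinearMap.add_apply, LinearMap.smul_apply, e1, e2, smul_eq_mul,
      mul_zero, add_zero]
    rw [← hφ₂, hx₀]
    module
  have hw'x : B w' x₀ = 0 := by
    rw [hx₀, hφ₁, hφ₂]
    simp only [map_add, map_smul, smul_eq_mul]
    rw [hn₁, hn₂]
    ring
  have hZ : ∀ ε, stv B hA w' (-ε) * stv B hA (w' + x₀) ε ∈ M := by
    intro ε
    obtain ⟨a, ha⟩ := hE ε
    have := step4 ha hgM hgiso hgw
    rwa [hgw'] at this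
  -- pairings of x₀
  have hx1 : B x₀ y₁ = 0 := by
    rw [hx₀, hφ₁, hφ₂]
    simp only [map_add, map_smul, LinearMap.add_apply, LinearMap.smul_apply, h.adj, hA y₁, hy₁,
      h21, h21', smul_eq_mul, mul_zero, neg_zero, add_zero]
  have hx1' : B x₀ (δ y₁) = 0 := by
    rw [hx₀, hφ₁, hφ₂]
    simp only [map_add, map_smul, LinearMap.add_apply, LinearMap.smul_apply, h.dd, hA y₁, hy₁,
      h21, h21', smul_eq_mul, mul_zero, neg_zero, add_zero]
  have hx2 : B x₀ y₂ = 0 := by
    rw [hx₀, hφ₁, hφ₂]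
    simp only [map_add, map_smul, LinearMap.add_apply, LinearMap.smul_apply, h.adj, hA y₂, hy₂,
      h12, h12', smul_eq_mul, mul_zero, neg_zero, add_zero]
  have hx2' : B x₀ (δ y₂) = 0 := by
    rw [hx₀, hφ₁, hφ₂]
    simp only [map_add, map_smul, LinearMap.add_apply, LinearMap.smul_apply, h.dd, hA y₂, hy₂,
      h12, h12', smul_eq_mul, mul_zero, neg_zero, add_zero]
  have hxs : B x₀ (δ x₀) = 0 := by
    nth_rewrite 2 [hx₀]
    rw [hφ₁, hφ₂]
    simp only [map_add, map_smul, h.sq, hx1, hx1', hx2, hx2', smul_eq_mul, mul_zero, add_zero]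
  have hx0 : x₀ ≠ 0 := by
    intro h0
    apply hnm
    refine (h.cs hA).mem_of_comb ((h.cs hA).KS_inv y₁) (c := -(d * B w' y₂)) (d := B w' (δ y₂))
      ?_ ?_
    · rcases hne₂ with h3 | h3
      · left
        exact neg_ne_zero.2 (mul_ne_zero hd h3)
      · exact Or.inr h3
    · rw [← hφ₂]
      have : φ₂ = (n₂ / n₁) • φ₁ := by
        have e1 : n₁ • φ₂ = n₂ • φ₁ := by
          rw [hx₀] at h0
          have : n₂ • φ₁ - n₁ • φ₂ = 0 := by rw [← h0]; module
          exact (sub_eq_zero.1 this).symm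
        rw [div_eq_inv_mul, ← smul_smul, ← e1, smul_smul, inv_mul_cancel₀ hn₁0, one_smul]
      rw [this, hφ₁]
      exact Submodule.smul_mem _ _ (Submodule.add_mem _
        (Submodule.smul_mem _ _ (Submodule.subset_span (by simp)))
        (Submodule.smul_mem _ _ (Submodule.subset_span (by simp))))
  -- third isotropic vector
  have hc' : (({x₀, δ x₀} : Finset (ι → F)) : Set (ι → F)) = {x₀, δ x₀} := by simp
  have hw'3 : w' ∉ Submodule.span F (({x₀, δ x₀} : Finset (ι → F)) : Set (ι → F)) := by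
    rw [hc']
    intro hmem
    obtain ⟨a, b, hab⟩ := Submodule.mem_span_pair.1 hmem
    apply hw'y
    rw [← hab]
    simp only [map_add, map_smul, LinearMap.add_apply, LinearMap.smul_apply, h.dd, hx1, hx1',
      smul_eq_mul, mul_zero, neg_zero, add_zero]
  obtain ⟨y₃, hy₃, hT₃, hw'y₃⟩ := h.exists_sing hA hB h2 {x₀, δ x₀}
    (by have := Finset.card_le_two (a := x₀) (b := δ x₀); omega) hw'3
  have hx3' : B x₀ (δ y₃) = 0 := hT₃ x₀ (by simp)
  have hx3 : B x₀ y₃ = 0 := by
    have := hT₃ (δ x₀) (by simp)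
    rw [h.dd] at this
    simpa [hd] using this
  set z : ι → F := (1 : F) • (-(d * B w' y₃) • y₃ + B w' (δ y₃) • δ y₃) with hz
  have hxc : (w' + x₀) - w' ∈ cen hA M := by
    refine step5 (z := z) h2 (by rw [map_add, hA w', hw'x, add_zero]) hZ (hU y₃ hy₃ 1)
      (ut_isometry hA _ _) ?_ ?_ ?_
    · rw [ut_apply h hA hy₃]
    · rw [ut_apply h hA hy₃]
      simp only [map_add, LinearMap.add_apply, hx3, hx3', add_zero]
      rw [hz]
    · rw [hz]
      simp only [one_smul, map_add, map_smul, smul_eq_mul]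
      intro h0
      apply hw'y₃
      exact (h.nonsq (a := B w' y₃) (b := B w' (δ y₃)) (by linear_combination h0)).2
  rw [add_sub_cancel_left] at hxc
  exact us_claim3 h hB h2 hn (us_claim2 h hB h2 hn hU hxc hxs hx0)

end Cfsg.Agent.Lib.Helper97SpULow
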