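import Cfsg.Agent.Lib.H97U3Basic
import Cfsg.Agent.Lib.H97U3E3
import Cfsg.Agent.Lib.Helper97SpULow
set_option autoImplicit false
set_option linter.unusedSectionVars false
set_option linter.unusedSimpArgs false
set_option linter.unusedVariables false

namespace Cfsg.Agent.Lib.H97U3Ex

open Module
open Cfsg.Agent.Lib.Helper95Sp Cfsg.Agent.Lib.Helper95Cen Cfsg.Agent.Lib.Helper95OrthGeo
  Cfsg.Agent.Lib.Helper95OrthCS Cfsg.Agent.Lib.Helper95SpU Cfsg.Agent.Lib.H97U3Basic

variable {F : Type*} [Field F]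
variable {ι : Type} [Fintype ι] [DecidableEq ι]
variable {B : LinearMap.BilinForm F (ι → F)}
variable {δ : (ι → F) →ₗ[F] (ι → F)} {d : F}
variable {hA : B.IsAlt} {M : Subgroup ((ι → F) ≃ₗ[F] (ι → F))}

/-- **A third isotropic vector, `F`-orthogonal to two given ones.**
Sketch: copy the computation in `Helper97SpULow.us_case1` (lines `set p`, `set r`, ... `e1`–`e5`), with `z` from `H97U3E3.E3`
instead of `us_aniso`: `e := ((d p) • u + r • δ u) + t • ((d p) • f - r • δ f) + z`, `t := -η / (2 d r (r^2 - d p^2))`, `η := B z (δ z)`.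
There `e1 : B u (δ e) = 0`, `e2 : B u e = -(t (r^2 - d p^2)) ≠ 0`, `e3 : B f (δ e) = 0`, `e4 : B f e = r^2 - d p^2 ≠ 0`, `e5 : B e (δ e) = 0`.
`e ∉ span {u, δ u}` because `B u` vanishes on that span (`hA u`, `hus`) but `B u e ≠ 0`; same for `f`. -/
theorem exists_third [Nonempty ι] (h : US B δ d) (hA : B.IsAlt) (hB : B.Nondegenerate)
    (h2 : (2 : F) ≠ 0) (hn : 5 ≤ Fintype.card ι) {u f : ι → F} (hus : B u (δ u) = 0)
    (hfs : B f (δ f) = 0) (hr : B u (δ f) ≠ 0) :
    ∃ e, B e (δ e) = 0 ∧ B u (δ e) = 0 ∧ B f (δ e) = 0 ∧ e ∉ Submodule.span F {u, δ u} ∧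
      e ∉ Submodule.span F {f, δ f} := by
  have hd := h.d_ne
  have hr0 := hr
  set p := B u f with hp
  set r := B u (δ f) with hr
  have hN : r ^ 2 - d * p ^ 2 ≠ 0 := by
    intro h0
    exact hr0 (h.nonsq h0).2
  obtain ⟨z, hz, huz, huz', hfz, hfz'⟩ := H97U3E3.E3 h hA hB h2 hn hus hfs (fun hc => hr0 hc.2)
  set η := B z (δ z) with hη
  set t : F := -η / (2 * d * r * (r ^ 2 - d * p ^ 2)) with ht
  have ht0 : t ≠ 0 := by
    rw [ht]
    exact div_ne_zero (neg_ne_zero.2 hz) (mul_ne_zero (mul_ne_zero (mul_ne_zero h2 hd) hr0) hN)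
  set e : ι → F := ((d * p) • u + r • δ u) + t • ((d * p) • f - r • δ f) + z with he
  -- basic values
  have hfu : B f u = -p := by rw [alt_swap hA, ← hp]
  have hfu' : B f (δ u) = r := by rw [h.symm hA, ← hr]
  have hzu : B z u = 0 := alt_zero hA huz
  have hzf : B z f = 0 := alt_zero hA hfz
  have hzu' : B z (δ u) = 0 := by rw [h.symm hA]; exact huz'
  have hzf' : B z (δ f) = 0 := by rw [h.symm hA]; exact hfz'
  have hδe : δ e = ((d * p) • δ u + (r * d) • u) + t • ((d * p) • δ f - (r * d) • f) + δ z := by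
    rw [he]
    simp only [map_add, map_sub, map_smul, h.sq, smul_smul]
  have e1 : B u (δ e) = 0 := by
    rw [hδe]
    simp only [map_add, map_sub, map_smul, hus, hA u, ← hp, ← hr, huz', smul_eq_mul]
    ring
  have e2 : B u e = -(t * (r ^ 2 - d * p ^ 2)) := by
    rw [he]
    simp only [map_add, map_sub, map_smul, hus, hA u, ← hp, ← hr, huz, smul_eq_mul]
    ring
  have e3 : B f (δ e) = 0 := by
    rw [hδe]
    simp only [map_add, map_sub, map_smul, hfs, hA f, hfu, hfu', hfz', smul_eq_mul]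
    ring
  have e4 : B f e = r ^ 2 - d * p ^ 2 := by
    rw [he]
    simp only [map_add, map_sub, map_smul, hfs, hA f, hfu, hfu', hfz, smul_eq_mul]
    ring
  have e5 : B e (δ e) = 0 := by
    have hδu : ∀ x, B (δ u) x = - B u (δ x) := fun x => h.adj u x
    have hδf : ∀ x, B (δ f) x = - B f (δ x) := fun x => h.adj f x
    have hzδe : B z (δ e) = η := by
      rw [hδe]
      simp only [map_add, map_sub, map_smul, hzu, hzu', hzf, hzf', smul_eq_mul, ← hη]
      ring
    have hδδe : δ (δ e) = d • e := h.sq e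
    have hgen : ∀ X, B e X = (d * p) * B u X + r * B (δ u) X +
        t * ((d * p) * B f X - r * B (δ f) X) + B z X := by
      intro X
      rw [he]
      simp only [map_add, map_sub, map_smul, LinearMap.add_apply, LinearMap.sub_apply,
        LinearMap.smul_apply, smul_eq_mul]
    rw [hgen, hδu, hδf, hδδe, map_smul, map_smul, e1, e2, e3, e4, hzδe, smul_eq_mul, smul_eq_mul, ht]
    field_simp
    ring
  refine ⟨e, e5, e1, e3, ?_, ?_⟩
  · intro hmem
    obtain ⟨a, b, hab⟩ := Submodule.mem_span_pair.1 hmem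
    have : B u e = 0 := by
      rw [← hab]
      simp only [map_add, map_smul, hA u, hus, smul_eq_mul]
      ring
    rw [e2] at this
    exact (neg_ne_zero.2 (mul_ne_zero ht0 hN)) this
  · intro hmem
    obtain ⟨a, b, hab⟩ := Submodule.mem_span_pair.1 hmem
    have : B f e = 0 := by
      rw [← hab]
      simp only [map_add, map_smul, hA f, hfs, smul_eq_mul]
      ring
    rw [e4] at this
    exact hN this

end Cfsg.Agent.Lib.H97U3Ex
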