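import Cfsg.Agent.Lib.H97U3Basic
import Cfsg.Agent.Lib.H97U3Ex
import Cfsg.Agent.Lib.H97U3E4
set_option autoImplicit false
set_option linter.unusedSectionVars false
set_option linter.unusedSimpArgs false
set_option linter.unusedVariables false

namespace Cfsg.Agent.Lib.H97U3Good

open Module
open Cfsg.Agent.Lib.Helper95Sp Cfsg.Agent.Lib.Helper95Cen Cfsg.Agent.Lib.Helper95OrthGeo
  Cfsg.Agent.Lib.Helper95OrthCS Cfsg.Agent.Lib.Helper95SpU Cfsg.Agent.Lib.H97U3Basic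

variable {F : Type*} [Field F]
variable {ι : Type} [Fintype ι] [DecidableEq ι]
variable {B : LinearMap.BilinForm F (ι → F)}
variable {δ : (ι → F) →ₗ[F] (ι → F)} {d : F}
variable {hA : B.IsAlt} {M : Subgroup ((ι → F) ≃ₗ[F] (ι → F))}

/-- **`exists_good` in dimension 6** (compare `Helper95OrthCS.exists_good`, which needs `9 ≤ n`). -/
theorem exists_good6 [Fintype F] [Nonempty ι] (h : US B δ d) (hA : B.IsAlt) (hB : B.Nondegenerate)
    (h2 : (2 : F) ≠ 0) (hn : Fintype.card ι = 6) {δ₂ : (ι → F) →ₗ[F] (ι → F)}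
    (hne : ¬ ∃ a b : F, ∀ v, δ₂ v = a • v + b • δ v) :
    ∃ u, B u (δ u) = 0 ∧ δ₂ u ∉ Submodule.span F {u, δ u} := by
  classical
  by_contra hcon
  push Not at hcon
  have hc : ∀ u, B u (δ u) = 0 → ∃ a b : F, δ₂ u = a • u + b • δ u := by
    intro u hu
    obtain ⟨a, b, hab⟩ := Submodule.mem_span_pair.1 (hcon u hu)
    exact ⟨a, b, hab.symm⟩
  -- (i)
  have hi : ∀ u₁ u₂ : ι → F, u₁ ≠ 0 → B u₁ (δ u₁) = 0 → B u₂ (δ u₂) = 0 →
      u₂ ∉ Submodule.span F {u₁, δ u₁} → ∀ a₁ b₁ a₂ b₂ : F, δ₂ u₁ = a₁ • u₁ + b₁ • δ u₁ →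
      δ₂ u₂ = a₂ • u₂ + b₂ • δ u₂ → a₁ = a₂ ∧ b₁ = b₂ := by
    intro u₁ u₂ hu₁ hs₁ hs₂ hnot a₁ b₁ a₂ b₂ e₁ e₂
    by_cases hr : B u₁ (δ u₂) = 0
    · obtain ⟨a', b', e'⟩ := hc (u₁ + u₂) (by rw [Qadd h hA, hs₁, hs₂, hr]; simp)
      exact (h.cs hA).pair hu₁ hnot e₁ e₂ e'
    · obtain ⟨e, hse, p1, p2, n1, n2⟩ :=
        H97U3Ex.exists_third h hA hB h2 (by omega) hs₁ hs₂ hr
      have hu₂ : u₂ ≠ 0 := by
        rintro rfl
        exact hnot (Submodule.zero_mem _)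
      obtain ⟨a₃, b₃, e₃⟩ := hc e hse
      obtain ⟨a', b', e'⟩ := hc (u₁ + e) (by rw [Qadd h hA, hs₁, hse, p1]; simp)
      obtain ⟨a'', b'', e''⟩ := hc (u₂ + e) (by rw [Qadd h hA, hs₂, hse, p2]; simp)
      have q1 := (h.cs hA).pair hu₁ n1 e₁ e₃ e'
      have q2 := (h.cs hA).pair hu₂ n2 e₂ e₃ e''
      exact ⟨q1.1.trans q2.1.symm, q1.2.trans q2.2.symm⟩
  obtain ⟨u₀, hQu₀, -, hu₀⟩ := h.exists_sing_notMem hA hB h2 ∅ ∅ (by simp; omega)
  have hu₀0 : u₀ ≠ 0 := by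
    rintro rfl
    exact hu₀ (Submodule.zero_mem _)
  obtain ⟨a₀, b₀, e₀⟩ := hc u₀ hQu₀
  apply hne
  refine ⟨a₀, b₀, ?_⟩
  have hsing : ∀ u, B u (δ u) = 0 → δ₂ u = a₀ • u + b₀ • δ u := by
    intro u hQu
    by_cases hu0 : u = 0
    · simp [hu0]
    obtain ⟨a, b, e⟩ := hc u hQu
    by_cases hmem : u ∈ Submodule.span F {u₀, δ u₀}
    · obtain ⟨u₃, hQu₃, -, hu₃⟩ := h.exists_sing_notMem hA hB h2 ∅ {u₀, δ u₀} (by
        have h1 := Finset.card_le_two (a := u₀) (b := δ u₀)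
        simp only [Finset.card_empty]
        omega)
      have hu₃' : u₃ ∉ Submodule.span F {u₀, δ u₀} := by
        simpa only [Finset.coe_insert, Finset.coe_singleton] using hu₃
      have hle : Submodule.span F {u, δ u} ≤ Submodule.span F {u₀, δ u₀} := by
        rw [Submodule.span_le]
        intro t ht
        rcases ht with rfl | rfl
        · exact hmem
        · exact (h.cs hA).KS_inv u₀ _ hmem
      obtain ⟨a₃, b₃, e₃⟩ := hc u₃ hQu₃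
      have q1 := hi u₀ u₃ hu₀0 hQu₀ hQu₃ hu₃' a₀ b₀ a₃ b₃ e₀ e₃
      have q2 := hi u u₃ hu0 hQu hQu₃ (fun hm => hu₃' (hle hm)) a b a₃ b₃ e e₃
      rw [e, q2.1, q2.2, ← q1.1, ← q1.2]
    · have q := hi u₀ u hu₀0 hQu₀ hQu hmem a₀ b₀ a b e₀ e
      rw [e, q.1, q.2]
  have hker := perp_le_of_singular (qs B δ) (qs_nondeg h hA hB h2) ∅ (by simp; omega)
    (LinearMap.ker (δ₂ - a₀ • LinearMap.id - b₀ • δ)) (by
      intro y hy _
      rw [LinearMap.mem_ker]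
      simp only [LinearMap.sub_apply, LinearMap.smul_apply, LinearMap.id_apply]
      rw [hsing y (by simpa using hy)]
      abel)
  intro v
  have := hker v (by simp)
  rw [LinearMap.mem_ker] at this
  simp only [LinearMap.sub_apply, LinearMap.smul_apply, LinearMap.id_apply] at this
  rw [sub_sub, sub_eq_zero] at this
  exact this

end Cfsg.Agent.Lib.H97U3Good
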