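import Cfsg.Agent.Lib.H97U3Basic
import Cfsg.Agent.Lib.H97U3Refl
set_option autoImplicit false
set_option linter.unusedSectionVars false
set_option linter.unusedSimpArgs false
set_option linter.unusedVariables false

namespace Cfsg.Agent.Lib.H97U3L1

open Module
open Cfsg.Agent.Lib.Helper95Sp Cfsg.Agent.Lib.Helper95Cen Cfsg.Agent.Lib.Helper95OrthGeo
  Cfsg.Agent.Lib.Helper95OrthCS Cfsg.Agent.Lib.Helper95SpU Cfsg.Agent.Lib.H97U3Basic

variable {F : Type*} [Field F]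
variable {ι : Type} [Fintype ι] [DecidableEq ι]
variable {B : LinearMap.BilinForm F (ι → F)}
variable {δ : (ι → F) →ₗ[F] (ι → F)} {d : F}
variable {hA : B.IsAlt} {M : Subgroup ((ι → F) ≃ₗ[F] (ι → F))}

/-- **L1.**  A non-isotropic centre gives its whole `K`-line.
Sketch: `(l₁,l₂)` from `lam`, `e` from `exists_refl`; `e ∈ M` by `hH`, `a₁ := e a = l₁ a + l₂ δ a ∈ cen` (`cen_map`),
`B a a₁ = l₂ * B a (δ a) ≠ 0`.  `x a + y δ a = (x - y l₁ / l₂) • a + (y / l₂) • a₁`; if both coefficients are non-zero use `cen_add`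
on the two `cen_smul`s, otherwise one `cen_smul`. -/
theorem L1 [Nonempty ι] (h : US B δ d) (h2 : (2 : F) ≠ 0)
    (hH : ∀ e : (ι → F) ≃ₗ[F] (ι → F), (∀ x y, B (e x) (e y) = B x y) →
      (∀ x, e (δ x) = δ (e x)) → e ∈ M)
    {a : ι → F} (ha : a ∈ cen hA M) (hq : B a (δ a) ≠ 0) (x y : F) :
    x • a + y • δ a ∈ cen hA M := by
  obtain ⟨l₁, l₂, hl, hl2⟩ := lam h h2
  obtain ⟨e, he1, he2, he3, -⟩ := H97U3Refl.exists_refl h hA hq hl
  have ha1 : l₁ • a + l₂ • δ a ∈ cen hA M := by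
    rw [← he3]
    exact cen_map e (hH e he1 he2) he1 ha
  have hB1 : B a (l₁ • a + l₂ • δ a) = l₂ * B a (δ a) := by
    simp only [map_add, map_smul, hA a, smul_eq_mul, mul_zero, zero_add]
  have hdec : x • a + y • δ a = (x - y * l₁ / l₂) • a + (y / l₂) • (l₁ • a + l₂ • δ a) := by
    have e1 : y / l₂ * l₂ = y := by field_simp
    have e2 : y / l₂ * l₁ = y * l₁ / l₂ := by field_simp
    rw [smul_add, smul_smul, smul_smul, e1, e2]
    module
  rw [hdec]
  by_cases h1 : x - y * l₁ / l₂ = 0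
  · rw [h1, zero_smul, zero_add]
    exact cen_smul _ ha1
  by_cases h3 : y / l₂ = 0
  · rw [h3, zero_smul, add_zero]
    exact cen_smul _ ha
  refine cen_add (cen_smul _ ha) (cen_smul _ ha1) ?_
  rw [map_smul, map_smul, LinearMap.smul_apply, hB1]
  simp only [smul_eq_mul]
  exact mul_ne_zero h3 (mul_ne_zero h1 (mul_ne_zero hl2 hq))

end Cfsg.Agent.Lib.H97U3L1
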