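import Cfsg.Agent.Lib.H97U3Basic
import Cfsg.Agent.Lib.H97U3L1
set_option autoImplicit false
set_option linter.unusedSectionVars false
set_option linter.unusedSimpArgs false
set_option linter.unusedVariables false

namespace Cfsg.Agent.Lib.H97U3L2

open Module
open Cfsg.Agent.Lib.Helper95Sp Cfsg.Agent.Lib.Helper95Cen Cfsg.Agent.Lib.Helper95OrthGeo
  Cfsg.Agent.Lib.Helper95OrthCS Cfsg.Agent.Lib.Helper95SpU Cfsg.Agent.Lib.H97U3Basic

variable {F : Type*} [Field F]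
variable {ι : Type} [Fintype ι] [DecidableEq ι]
variable {B : LinearMap.BilinForm F (ι → F)}
variable {δ : (ι → F) →ₗ[F] (ι → F)} {d : F}
variable {hA : B.IsAlt} {M : Subgroup ((ι → F) ≃ₗ[F] (ι → F))}

/-- **L2.**  A centre `v` not hermitian-perpendicular to the non-isotropic `a` forces `a` to be a centre. -/
theorem L2 [Nonempty ι] (h : US B δ d) (h2 : (2 : F) ≠ 0)
    (hH : ∀ e : (ι → F) ≃ₗ[F] (ι → F), (∀ x y, B (e x) (e y) = B x y) →
      (∀ x, e (δ x) = δ (e x)) → e ∈ M)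
    {v a : ι → F} (hv : v ∈ cen hA M) (hq : B a (δ a) ≠ 0)
    (hne : ¬ (B v a = 0 ∧ B v (δ a) = 0)) : a ∈ cen hA M := by
  classical
  obtain ⟨v', ev, hv'1, hv'2⟩ := decomp h hA hq v
  obtain ⟨q, hqd⟩ : ∃ q, q = B a (δ a) := ⟨_, rfl⟩
  obtain ⟨ξ, hξ⟩ : ∃ ξ, ξ = B v (δ a) / B a (δ a) := ⟨_, rfl⟩
  obtain ⟨ζ, hζ⟩ : ∃ ζ, ζ = -(B v a) / B a (δ a) := ⟨_, rfl⟩
  rw [← hξ, ← hζ] at ev
  rw [← hqd] at hξ hζ hq
  have hBva : B v a = - ζ * q := by rw [hζ]; field_simp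
  have hBvda : B v (δ a) = ξ * q := by rw [hξ]; field_simp
  obtain ⟨l₁, l₂, hl, hl2⟩ := lam h h2
  obtain ⟨e, hiso, hcomm, hea, hfix⟩ := H97U3Refl.exists_refl h hA (hqd ▸ hq) hl
  have heda : e (δ a) = (d * l₂) • a + l₁ • δ a := by
    rw [hcomm, hea, map_add, map_smul, map_smul, h.sq]; module
  obtain ⟨α, hα⟩ : ∃ α, α = (l₁ - 1) * ξ + d * l₂ * ζ := ⟨_, rfl⟩
  obtain ⟨α', hα'⟩ : ∃ α', α' = l₂ * ξ + (l₁ - 1) * ζ := ⟨_, rfl⟩
  have hev : e v - v = α • a + α' • δ a := by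
    have h1 : e v = ξ • (l₁ • a + l₂ • δ a) + ζ • ((d * l₂) • a + l₁ • δ a) + v' := by
      conv_lhs => rw [ev]
      rw [map_add, map_add, map_smul, map_smul, hea, heda, hfix v' hv'1 hv'2]
    rw [h1, hα, hα']
    conv_lhs => rw [ev]
    module
  have hnorm : ξ ^ 2 - d * ζ ^ 2 ≠ 0 := by
    intro h0
    obtain ⟨z0, x0⟩ := h.nonsq h0
    apply hne
    rw [hBva, hBvda, z0, x0]
    simp
  have hBva' : B v (α • a + α' • δ a) = q * l₂ * (ξ ^ 2 - d * ζ ^ 2) := by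
    rw [map_add, map_smul, map_smul, hBva, hBvda, hα, hα']
    simp only [smul_eq_mul]
    ring
  have hBva'ne : B v (α • a + α' • δ a) ≠ 0 := by
    rw [hBva']
    exact mul_ne_zero (mul_ne_zero hq hl2) hnorm
  have hevc : e v ∈ cen hA M := cen_map e (hH e hiso hcomm) hiso hv
  have hevv : B (e v) v ≠ 0 := by
    have e1 : e v = (α • a + α' • δ a) + v := by rw [← hev]; abel
    rw [e1, map_add, LinearMap.add_apply, hA v, add_zero]
    exact fun h0 => hBva'ne (alt_zero hA h0)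
  have ha' : α • a + α' • δ a ∈ cen hA M := by
    rw [← hev]
    exact cen_sub hevc hv hevv
  have hN : α ^ 2 - d * α' ^ 2 ≠ 0 := by
    intro h0
    obtain ⟨z0, x0⟩ := h.nonsq h0
    apply hBva'ne
    rw [z0, x0]
    simp
  have hQ : B (α • a + α' • δ a) (δ (α • a + α' • δ a)) ≠ 0 := by
    rw [Qcomb h hA, ← hqd]
    exact mul_ne_zero hN hq
  have hfin := H97U3L1.L1 h h2 hH ha' hQ (α / (α ^ 2 - d * α' ^ 2)) (-α' / (α ^ 2 - d * α' ^ 2))
  have e2 : (α / (α ^ 2 - d * α' ^ 2)) • (α • a + α' • δ a) +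
      (-α' / (α ^ 2 - d * α' ^ 2)) • δ (α • a + α' • δ a) = a := by
    rw [map_add, map_smul, map_smul, h.sq]
    have e3 : (α / (α ^ 2 - d * α' ^ 2)) • (α • a + α' • δ a) +
      (-α' / (α ^ 2 - d * α' ^ 2)) • (α • δ a + α' • d • a) =
      ((α ^ 2 - d * α' ^ 2) / (α ^ 2 - d * α' ^ 2)) • a := by
      module
    rw [e3, div_self hN, one_smul]
  rw [e2] at hfin
  exact hfin

end Cfsg.Agent.Lib.H97U3L2
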