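import Cfsg.Agent.Lib.H97U3Basic
import Cfsg.Agent.Lib.H97U3L2
set_option autoImplicit false
set_option linter.unusedSectionVars false
set_option linter.unusedSimpArgs false
set_option linter.unusedVariables false

namespace Cfsg.Agent.Lib.H97U3L3

open Module
open Cfsg.Agent.Lib.Helper95Sp Cfsg.Agent.Lib.Helper95Cen Cfsg.Agent.Lib.Helper95OrthGeo
  Cfsg.Agent.Lib.Helper95OrthCS Cfsg.Agent.Lib.Helper95SpU Cfsg.Agent.Lib.H97U3Basic

variable {F : Type*} [Field F]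
variable {ι : Type} [Fintype ι] [DecidableEq ι]
variable {B : LinearMap.BilinForm F (ι → F)}
variable {δ : (ι → F) →ₗ[F] (ι → F)} {d : F}
variable {hA : B.IsAlt} {M : Subgroup ((ι → F) ≃ₗ[F] (ι → F))}

/-- **L3.**  One non-zero centre makes every non-isotropic vector a centre.
Sketch: if `¬ (B v a = 0 ∧ B v (δ a) = 0)` use `L2`.  Otherwise take `x₀` with `B v x₀ ≠ 0` (`hB`), `decomp` w.r.t. `a`:
`x₀ = ξ a + ζ δ a + x'`, `x' ⟂ a`, `B v x' = B v x₀ ≠ 0`.  Candidates `a₁ := x' + a` (`Q a₁ = Q x' + Q a`) and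
`a₂ := x' + (a + δ a)` (`Q a₂ = Q x' + (1 - d) Q a`); their `Q`-values differ by `d * Q a ≠ 0`, so one of them, `a'`, is non-isotropic.
`B v a' = B v x' ≠ 0` so `a' ∈ cen` by `L2`; `B a' (δ a) = Q a ≠ 0` so `a ∈ cen` by `L2` again. -/
theorem L3 [Nonempty ι] (h : US B δ d) (hB : B.Nondegenerate) (h2 : (2 : F) ≠ 0)
    (hH : ∀ e : (ι → F) ≃ₗ[F] (ι → F), (∀ x y, B (e x) (e y) = B x y) →
      (∀ x, e (δ x) = δ (e x)) → e ∈ M)
    {v a : ι → F} (hv : v ∈ cen hA M) (hv0 : v ≠ 0) (hq : B a (δ a) ≠ 0) : a ∈ cen hA M := by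
  by_cases hne : B v a = 0 ∧ B v (δ a) = 0
  swap
  · exact H97U3L2.L2 h h2 hH hv hq hne
  obtain ⟨hva, hvδa⟩ := hne
  have hd : d ≠ 0 := h.d_ne
  obtain ⟨x₀, hx₀⟩ : ∃ x, B v x ≠ 0 := by
    by_contra hcon
    push Not at hcon
    exact hv0 (hB.1 v hcon)
  obtain ⟨x', hx', hx'a, hx'δa⟩ := decomp h hA hq x₀
  have hvx' : B v x' ≠ 0 := by
    have e : B v x₀ = B v x' := by
      conv_lhs => rw [hx']
      simp only [map_add, map_smul, smul_eq_mul, hva, hvδa]
      ring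
    rwa [e] at hx₀
  -- the two candidates
  have hQ1 : B (x' + a) (δ (x' + a)) = B x' (δ x') + B a (δ a) := by
    rw [Qadd h hA, hx'δa]; ring
  have hQ2 : B (x' + (a + δ a)) (δ (x' + (a + δ a))) = B x' (δ x') + (1 - d) * B a (δ a) := by
    rw [Qadd h hA, Qadd h hA]
    simp only [map_add, h.sq, map_smul, smul_eq_mul, hx'δa, hx'a, h.adj, hA a]
    ring
  have hfin : ∀ a' : ι → F, B a' (δ a') ≠ 0 → B v a' ≠ 0 → B a' (δ a) ≠ 0 → a ∈ cen hA M := by
    intro a' h1 h3 h4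
    have ha' : a' ∈ cen hA M := H97U3L2.L2 h h2 hH hv h1 (fun hc => h3 hc.1)
    exact H97U3L2.L2 h h2 hH ha' hq (fun hc => h4 hc.2)
  by_cases hc1 : B (x' + a) (δ (x' + a)) = 0
  · apply hfin (x' + (a + δ a))
    · rw [hQ2]
      rw [hQ1] at hc1
      intro hc2
      have : d * B a (δ a) = 0 := by linear_combination hc1 - hc2
      exact (mul_ne_zero hd hq) this
    · simp only [map_add, hva, hvδa, add_zero]
      exact hvx'
    · simp only [map_add, LinearMap.add_apply, hx'δa, hA (δ a), zero_add, add_zero]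
      exact hq
  · apply hfin (x' + a) hc1
    · simp only [map_add, hva, add_zero]
      exact hvx'
    · simp only [map_add, LinearMap.add_apply, hx'δa, zero_add]
      exact hq

end Cfsg.Agent.Lib.H97U3L3
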