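import Cfsg.Agent.Lib.H97U3Basic

set_option autoImplicit false
set_option linter.unusedSectionVars false
set_option linter.unusedSimpArgs false
set_option linter.unusedVariables false

namespace Cfsg.Agent.Lib.H97U3L4

open Module
open Cfsg.Agent.Lib.Helper95Sp Cfsg.Agent.Lib.Helper95Cen Cfsg.Agent.Lib.Helper95OrthGeo
  Cfsg.Agent.Lib.Helper95OrthCS Cfsg.Agent.Lib.Helper95SpU Cfsg.Agent.Lib.H97U3Basic

variable {F : Type*} [Field F]
variable {ι : Type} [Fintype ι] [DecidableEq ι]
variable {B : LinearMap.BilinForm F (ι → F)}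
variable {δ : (ι → F) →ₗ[F] (ι → F)} {d : F}
variable {hA : B.IsAlt} {M : Subgroup ((ι → F) ≃ₗ[F] (ι → F))}

/-- **L4.**  If all non-isotropic vectors are centres then all vectors are.
Sketch: let `Q y = 0`, `y ≠ 0` (`zero_mem_cen` otherwise; if `Q y ≠ 0` use `hS`).  Take `x` with `B x y ≠ 0` (`hB`).  For `a := x + t • δ y`:
`B a y = B x y`, `B a (δ y) = B x (δ y) =: β`, `Q a = Q x + 2 t d (B x y)`.  Pick `m ∉ {0, 2β}` (`m = 1` if `2β ≠ 1`, else `m = -1`) and
`t := (m - Q x) / (2 d B x y)`, so `Q a = m ≠ 0` and `Q (y - a) = Q a - 2β ≠ 0`.  Then `y = a + (y - a)` and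
`B a (y - a) = B a y ≠ 0`: `cen_add`. -/
theorem L4 [Nonempty ι] (h : US B δ d) (hB : B.Nondegenerate) (h2 : (2 : F) ≠ 0)
    (hS : ∀ a, B a (δ a) ≠ 0 → a ∈ cen hA M) (y : ι → F) : y ∈ cen hA M := by
  by_cases hQ : B y (δ y) = 0
  swap
  · exact hS y hQ
  by_cases hy0 : y = 0
  · rw [hy0]; exact zero_mem_cen
  obtain ⟨x, hx⟩ : ∃ x, B x y ≠ 0 := by
    by_contra hcon
    push Not at hcon
    exact hy0 (hB.2 y hcon)
  have hd : d ≠ 0 := h.d_ne
  obtain ⟨m, hm0, hm2⟩ : ∃ m : F, m ≠ 0 ∧ m - 2 * B x (δ y) ≠ 0 := by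
    by_cases h1 : 2 * B x (δ y) = 1
    · refine ⟨-1, by simp, ?_⟩
      rw [h1]
      intro hh
      apply h2
      linear_combination -hh
    · exact ⟨1, one_ne_zero, fun hh => h1 (by linear_combination -hh)⟩
  set t := (m - B x (δ x)) / (2 * d * B x y) with ht
  set a := x + t • δ y with ha
  have hay : B a y = B x y := by
    rw [ha]
    simp only [map_add, map_smul, LinearMap.add_apply, LinearMap.smul_apply, smul_eq_mul, h.adj, hQ]
    ring
  have haδy : B a (δ y) = B x (δ y) := by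
    rw [ha]
    simp only [map_add, map_smul, LinearMap.add_apply, LinearMap.smul_apply, smul_eq_mul,
      hA (δ y)]
    ring
  have hQa : B a (δ a) = m := by
    have e : B a (δ a) = B x (δ x) + 2 * t * d * B x y := by
      rw [ha, Qadd h hA]
      simp only [map_smul, LinearMap.smul_apply, smul_eq_mul, h.sq, h.adj, hQ]
      ring
    rw [e, ht]
    field_simp
    ring
  have hQya : B (y - a) (δ (y - a)) = m - 2 * B x (δ y) := by
    have e : y - a = y + (-a) := sub_eq_add_neg y a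
    rw [e, Qadd h hA]
    simp only [map_neg, LinearMap.neg_apply, neg_neg, hQ, hQa, h.symm hA y a, haδy]
    ring
  have hfin : a + (y - a) ∈ cen hA M := by
    apply cen_add (hS a (by rw [hQa]; exact hm0)) (hS (y - a) (by rw [hQya]; exact hm2))
    rw [map_sub, hA a, sub_zero, hay]
    exact hx
  have e : a + (y - a) = y := by abel
  rwa [e] at hfin

end Cfsg.Agent.Lib.H97U3L4
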