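import Cfsg.Agent.Lib.H97U3Basic
import Cfsg.Agent.Lib.Helper17SymmForm

set_option autoImplicit false
set_option linter.unusedSectionVars false
set_option linter.unusedSimpArgs false
set_option linter.unusedVariables false

namespace Cfsg.Agent.Lib.H97U3Norm

open Module
open Cfsg.Agent.Lib.Helper95Sp Cfsg.Agent.Lib.Helper95Cen Cfsg.Agent.Lib.Helper95OrthGeo
  Cfsg.Agent.Lib.Helper95OrthCS Cfsg.Agent.Lib.Helper95SpU Cfsg.Agent.Lib.H97U3Basic

variable {F : Type*} [Field F]
variable {ι : Type} [Fintype ι] [DecidableEq ι]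
variable {B : LinearMap.BilinForm F (ι → F)}
variable {δ : (ι → F) →ₗ[F] (ι → F)} {d : F}
variable {hA : B.IsAlt} {M : Subgroup ((ι → F) ≃ₗ[F] (ι → F))}

/-- **Surjectivity of the norm form** over a finite field of odd characteristic.
Sketch: `FiniteField.exists_root_sum_quadratic` (Mathlib) with `f = X^2 - C c`, `g = - C d * X^2` (degrees 2, `d ≠ 0` by `h.d_ne`,
`Fintype.card F` odd from `h2`), or a pigeonhole count; grep the team library for an existing version first
(`grep -rn "exists_root_sum_quadratic" Cfsg/Agent/Lib | head`). -/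
theorem norm_surj [Finite F] [Nonempty ι] (h : US B δ d) (h2 : (2 : F) ≠ 0) (c : F) :
    ∃ x y : F, x ^ 2 - d * y ^ 2 = c := by
  obtain ⟨x, y, hxy⟩ := Cfsg.Agent.Lib.Helper17SymmForm.exists_sol h2 1 (-d) c one_ne_zero
    (neg_ne_zero.2 h.d_ne)
  exact ⟨x, y, by linear_combination hxy⟩

end Cfsg.Agent.Lib.H97U3Norm
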