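import Cfsg.Agent.Lib.H97U3Basic

set_option autoImplicit false
set_option linter.unusedSectionVars false
set_option linter.unusedSimpArgs false
set_option linter.unusedVariables false

namespace Cfsg.Agent.Lib.H97U3Rot

open Module
open Cfsg.Agent.Lib.Helper95Sp Cfsg.Agent.Lib.Helper95Cen Cfsg.Agent.Lib.Helper95OrthGeo
  Cfsg.Agent.Lib.Helper95OrthCS Cfsg.Agent.Lib.Helper95SpU Cfsg.Agent.Lib.H97U3Basic

variable {F : Type*} [Field F]
variable {ι : Type} [Fintype ι] [DecidableEq ι]
variable {B : LinearMap.BilinForm F (ι → F)}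
variable {δ : (ι → F) →ₗ[F] (ι → F)} {d : F}
variable {hA : B.IsAlt} {M : Subgroup ((ι → F) ≃ₗ[F] (ι → F))}

/-- **Rotation of the family.**  As maps,
`stv (x w + y w') (-(d ε)) * stv (x w' + d y w) ε = stv w (-(d (ν ε))) * stv w' (ν ε)` with `ν = x^2 - d y^2`
(`LinearEquiv.ext`, `simp only [LinearEquiv.mul_apply, stv_apply, map_add, map_smul, LinearMap.add_apply,
LinearMap.smul_apply, hA w, hA w', hww, alt_zero hA hww, smul_eq_mul, ...]`, `module`). -/
theorem rot {w w' : ι → F} (hww : B w w' = 0)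
    (hE : ∀ ε, stv B hA w (-(d * ε)) * stv B hA w' ε ∈ M) (x y : F) :
    ∀ ε, stv B hA (x • w + y • w') (-(d * ε)) * stv B hA (x • w' + (d * y) • w) ε ∈ M := by
  intro ε
  have key : stv B hA (x • w + y • w') (-(d * ε)) * stv B hA (x • w' + (d * y) • w) ε =
      stv B hA w (-(d * ((x ^ 2 - d * y ^ 2) * ε))) * stv B hA w' ((x ^ 2 - d * y ^ 2) * ε) := by
    apply LinearEquiv.ext
    intro u
    simp only [LinearEquiv.mul_apply, stv_apply, map_add, map_smul, LinearMap.add_apply,
      LinearMap.smul_apply, hA w, hA w', hww, alt_zero hA hww, smul_eq_mul, mul_zero, add_zero,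
      zero_add]
    module
  rw [key]
  exact hE _

/-- the family in the weak form used by Lemmas A and B -/
theorem weak {w w' : ι → F} (hE : ∀ ε, stv B hA w (-(d * ε)) * stv B hA w' ε ∈ M) :
    ∀ ε, ∃ a, stv B hA w a * stv B hA w' ε ∈ M := fun ε => ⟨_, hE ε⟩

/-- the swapped family (the two transvections commute as `B w w' = 0`; take `ε' = -ε/d`) -/
theorem swap (hd : d ≠ 0) {w w' : ι → F} (hww : B w w' = 0)
    (hE : ∀ ε, stv B hA w (-(d * ε)) * stv B hA w' ε ∈ M) :
    ∀ ε, ∃ a, stv B hA w' a * stv B hA w ε ∈ M := by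
  intro ε
  refine ⟨-ε / d, ?_⟩
  have key : stv B hA w' (-ε / d) * stv B hA w ε =
      stv B hA w (-(d * (-ε / d))) * stv B hA w' (-ε / d) := by
    have h1 : -(d * (-ε / d)) = ε := by field_simp
    rw [h1]
    apply LinearEquiv.ext
    intro u
    simp only [LinearEquiv.mul_apply, stv_apply, map_add, map_smul, LinearMap.add_apply,
      LinearMap.smul_apply, hA w, hA w', hww, alt_zero hA hww, smul_eq_mul, mul_zero, add_zero,
      zero_add]
    module
  rw [key]
  exact hE _

end Cfsg.Agent.Lib.H97U3Rot
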