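import Cfsg.Agent.Lib.H97U3A
import Cfsg.Agent.Lib.H97U3B
import Cfsg.Agent.Lib.H97U3Rot
import Cfsg.Agent.Lib.H97U3E4
import Cfsg.Agent.Lib.H97U3E5a
import Cfsg.Agent.Lib.H97U3Norm
import Cfsg.Agent.Lib.H97U3L3
import Cfsg.Agent.Lib.H97U3L4

/-!
# Overgroups of `GU_3(q).2` in `Sp_6(q)`, `q` odd: assembly
-/

set_option autoImplicit false
set_option linter.unusedSectionVars false
set_option linter.unusedSimpArgs false
set_option linter.unusedVariables false

namespace Cfsg.Agent.Lib.H97U3Main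

open Module
open Cfsg.Agent.Lib.Helper95Sp Cfsg.Agent.Lib.Helper95Cen Cfsg.Agent.Lib.Helper95OrthGeo
  Cfsg.Agent.Lib.Helper95OrthCS Cfsg.Agent.Lib.Helper95SpU Cfsg.Agent.Lib.H97U3Basic

variable {F : Type*} [Field F]
variable {ι : Type} [Fintype ι] [DecidableEq ι]
variable {B : LinearMap.BilinForm F (ι → F)}
variable {δ : (ι → F) →ₗ[F] (ι → F)} {d : F}
variable {hA : B.IsAlt} {M : Subgroup ((ι → F) ≃ₗ[F] (ι → F))}

/-- a vector of prescribed norm perpendicular to two perpendicular non-isotropic vectors -/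
theorem E5 [Finite F] [Nonempty ι] (h : US B δ d) (hA : B.IsAlt) (hB : B.Nondegenerate)
    (h2 : (2 : F) ≠ 0) (hn : 5 ≤ Fintype.card ι) {w w' : ι → F} (hq : B w (δ w) ≠ 0)
    (hq' : B w' (δ w') ≠ 0) (hww : B w w' = 0) (hb : B w (δ w') = 0) :
    ∃ w₁, B w w₁ = 0 ∧ B w (δ w₁) = 0 ∧ B w' w₁ = 0 ∧ B w' (δ w₁) = 0 ∧
      B w₁ (δ w₁) = B w' (δ w') := by
  obtain ⟨z, hz, z1, z2, z3, z4⟩ := H97U3E5a.E5a h hA hB h2 hn hq hq' hww hb
  obtain ⟨x, y, hxy⟩ := H97U3Norm.norm_surj h h2 (B w' (δ w') / B z (δ z))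
  refine ⟨x • z + y • δ z, ?_, ?_, ?_, ?_, ?_⟩
  · simp only [map_add, map_smul, z1, z2, smul_eq_mul, mul_zero, add_zero]
  · simp only [map_add, map_smul, h.sq, z1, z2, smul_eq_mul, mul_zero, add_zero]
  · simp only [map_add, map_smul, z3, z4, smul_eq_mul, mul_zero, add_zero]
  · simp only [map_add, map_smul, h.sq, z3, z4, smul_eq_mul, mul_zero, add_zero]
  · rw [Qcomb h hA, hxy]
    field_simp

/-- Lemma B with the auxiliary vector supplied -/
theorem lemB' [Finite F] [Nonempty ι] (h : US B δ d) (hB : B.Nondegenerate) (h2 : (2 : F) ≠ 0)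
    (hn : 5 ≤ Fintype.card ι)
    (hH : ∀ e : (ι → F) ≃ₗ[F] (ι → F), (∀ x y, B (e x) (e y) = B x y) →
      (∀ x, e (δ x) = δ (e x)) → e ∈ M)
    {w w' : ι → F} (hE : ∀ ε, ∃ a, stv B hA w a * stv B hA w' ε ∈ M)
    (hww : B w w' = 0) (hb : B w (δ w') = 0) (hq : B w (δ w) ≠ 0) (hq' : B w' (δ w') ≠ 0) :
    ∃ v, v ≠ 0 ∧ v ∈ cen hA M := by
  obtain ⟨w₁, h1, h1', h3, h3', hQ⟩ := E5 h hA hB h2 hn hq hq' hww hb
  refine ⟨w' - w₁, ?_, H97U3B.lemB h h2 hH hE hww hb hq' h1 h1' h3 h3' hQ⟩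
  intro h0
  have h4 : w' = w₁ := sub_eq_zero.1 h0
  rw [← h4] at h3'
  exact hq' h3'

/-- **Part I**: a foreign family produces a symplectic transvection group. -/
theorem exists_cen [Finite F] [Nonempty ι] (h : US B δ d) (hB : B.Nondegenerate)
    (h2 : (2 : F) ≠ 0) (hn : Fintype.card ι = 6)
    (hH : ∀ e : (ι → F) ≃ₗ[F] (ι → F), (∀ x y, B (e x) (e y) = B x y) →
      (∀ x, e (δ x) = δ (e x)) → e ∈ M)
    {w w' : ι → F} (hw0 : w ≠ 0) (hww : B w w' = 0)
    (hw' : w' ∉ Submodule.span F {w, δ w})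
    (hE : ∀ ε, stv B hA w (-(d * ε)) * stv B hA w' ε ∈ M) : ∃ v, v ≠ 0 ∧ v ∈ cen hA M := by
  have hd := h.d_ne
  have hd1 := d_ne_one h
  have hn5 : 5 ≤ Fintype.card ι := by omega
  -- linear independence of `w`, `w'`
  have hind : ∀ x y : F, x • w + y • w' = 0 → x = 0 ∧ y = 0 := by
    intro x y hxy
    have hy : y = 0 := by
      by_contra hy
      apply hw'
      have : w' = (-(x / y)) • w := by
        have e1 : y • w' = (-x) • w := by
          rw [neg_smul]
          exact eq_neg_of_add_eq_zero_right hxy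
        rw [neg_div', div_eq_inv_mul, ← smul_smul, ← e1, smul_smul, inv_mul_cancel₀ hy, one_smul]
      rw [this]
      exact Submodule.smul_mem _ _ (Submodule.subset_span (by simp))
    subst hy
    rw [zero_smul, add_zero] at hxy
    exact ⟨(smul_eq_zero.1 hxy).resolve_right hw0, rfl⟩
  set q₁ := B w (δ w) with hq₁
  set q₂ := B w' (δ w') with hq₂
  set b := B w (δ w') with hb
  have hw'w : B w' w = 0 := alt_zero hA hww
  have hb' : B w' (δ w) = b := by rw [h.symm hA]
  -- the rotated family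
  have hR := H97U3Rot.rot hww hE 1 1
  simp only [one_smul, mul_one] at hR
  have hRww : B (w + w') (w' + d • w) = 0 := by
    simp only [map_add, map_smul, LinearMap.add_apply, hA w, hA w', hww, hw'w, smul_eq_mul]
    ring
  have hRq : B (w + w') (δ (w + w')) = q₁ + q₂ + 2 * b := Qadd h hA w w'
  have hRq' : B (w' + d • w) (δ (w' + d • w)) = q₂ + d ^ 2 * q₁ + 2 * d * b := by
    simp only [map_add, map_smul, LinearMap.add_apply, LinearMap.smul_apply, hb', ← hq₁, ← hq₂,
      ← hb, smul_eq_mul]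
    ring
  have hRb : B (w + w') (δ (w' + d • w)) = (1 + d) * b + d * q₁ + q₂ := by
    simp only [map_add, map_smul, LinearMap.add_apply, LinearMap.smul_apply, hb', ← hq₁, ← hq₂,
      ← hb, smul_eq_mul]
    ring
  -- Lemma A for the rotated family
  have hRA : B (w + w') (δ (w + w')) ≠ 0 → B (w + w') (δ (w' + d • w)) ≠ 0 →
      ∃ v, v ≠ 0 ∧ v ∈ cen hA M := by
    intro k1 k2
    refine ⟨_, ?_, H97U3A.lemA h h2 hH (H97U3Rot.weak hR) hRww k1 k2⟩
    intro h0
    set κ := B (w + w') (δ (w' + d • w)) / B (w + w') (δ (w + w')) with hκ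
    have e1 : (d - κ) • w + (1 - κ) • w' = 0 := by
      rw [← h0]
      module
    obtain ⟨e2, e3⟩ := hind _ _ e1
    apply hd1
    linear_combination e2 - e3
  by_cases hb0 : b = 0
  · by_cases h1 : q₁ = 0
    · by_cases h3 : q₂ = 0
      · -- totally isotropic: impossible
        exfalso
        exact hw' (H97U3E4.E4 h hA hB hn hw0 h1 h3 hww hb0)
      · apply hRA
        · rw [hRq, h1, hb0]
          simpa using h3
        · rw [hRb, h1, hb0]
          simpa using h3
    · by_cases h3 : q₂ = 0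
      · apply hRA
        · rw [hRq, h3, hb0]
          simpa using h1
        · rw [hRb, h3, hb0]
          simpa using ⟨hd, h1⟩
      · exact lemB' h hB h2 hn5 hH (H97U3Rot.weak hE) hww hb0 h1 h3
  · by_cases h1 : q₁ = 0
    · by_cases h3 : q₂ = 0
      · by_cases hd' : 1 + d = 0
        · refine lemB' h hB h2 hn5 hH (H97U3Rot.weak hR) hRww ?_ ?_ ?_
          · rw [hRb, h1, h3, hd']
            ring
          · rw [hRq, h1, h3]
            simpa using ⟨h2, hb0⟩
          · rw [hRq', h1, h3]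
            simpa using ⟨⟨h2, hd⟩, hb0⟩
        · apply hRA
          · rw [hRq, h1, h3]
            simpa using ⟨h2, hb0⟩
          · rw [hRb, h1, h3]
            simpa using ⟨hd', hb0⟩
      · -- Lemma A for the swapped family
        refine ⟨_, ?_, H97U3A.lemA h h2 hH (H97U3Rot.swap hd hww hE) hw'w h3
          (by rw [hb']; exact hb0)⟩
        intro h0
        have e1 : (1 : F) • w + (-(B w' (δ w) / B w' (δ w'))) • w' = 0 := by
          rw [← h0]
          module
        exact one_ne_zero (hind _ _ e1).1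
    · refine ⟨_, ?_, H97U3A.lemA h h2 hH (H97U3Rot.weak hE) hww h1 hb0⟩
      intro h0
      have e1 : (-(B w (δ w') / B w (δ w))) • w + (1 : F) • w' = 0 := by
        rw [← h0]
        module
      exact one_ne_zero (hind _ _ e1).2

/-- **Main theorem in dimension 6.** -/
theorem us_main6 [Finite F] [Nonempty ι] (h : US B δ d) (hB : B.Nondegenerate)
    (h2 : (2 : F) ≠ 0) (hn : Fintype.card ι = 6)
    (hH : ∀ e : (ι → F) ≃ₗ[F] (ι → F), (∀ x y, B (e x) (e y) = B x y) →
      (∀ x, e (δ x) = δ (e x)) → e ∈ M)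
    {w w' : ι → F} (hw0 : w ≠ 0) (hww : B w w' = 0)
    (hw' : w' ∉ Submodule.span F {w, δ w})
    (hE : ∀ ε, stv B hA w (-(d * ε)) * stv B hA w' ε ∈ M) : ∀ v, v ∈ cen hA M := by
  obtain ⟨v, hv0, hv⟩ := exists_cen h hB h2 hn hH hw0 hww hw' hE
  exact H97U3L4.L4 h hB h2 (fun a ha => H97U3L3.L3 h hB h2 hH hv hv0 ha)

end Cfsg.Agent.Lib.H97U3Main
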