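import Cfsg.Agent.Lib.Helper97GenS5665
import Cfsg.Agent.Lib.H97U3Main
import Cfsg.Agent.Lib.H97U3Good

/-!
# `GU_3(q).2` is maximal in `Sp_6(q)`, `q` odd
-/

set_option autoImplicit false
open Cfsg

namespace Cfsg.Agent.Lib.H97U3Gen

open Matrix Module Cfsg.Agent.Lib.Helper95Basic Cfsg.Agent.Lib.Helper95Sp
  Cfsg.Agent.Lib.Helper95Cen Cfsg.Agent.Lib.Helper95SpStd Cfsg.Agent.Lib.Helper95SpU
  Cfsg.Agent.Lib.Helper95OrthCS Cfsg.Agent.Lib.Helper97GenS5665

/-- For a finite field F of odd order, let K be a subfield of the algebra of 6 × 6 matrices over F containing the scalars, of degree 2 over F, that is closed under adjoints for the standard alternating form but whose elements are not all self-adjoint. Then the elements of Sp_6(F) normalising K form a maximal subgroup of Sp_6(F). -/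
theorem gen6 {F : Type*} [Field F] [Fintype F] (m : ℕ) (hm : m = 3) (hodd : Odd (Fintype.card F)) (K : Subalgebra F (Matrix (Fin m ⊕ Fin m) (Fin m ⊕ Fin m) F)) (hK : Cfsg.Geo.IsFieldSubalgebra 2 K) (hac : Cfsg.Geo.IsAdjointClosedFor (Cfsg.sympForm m F) K) (hnsa : ¬ Cfsg.Geo.IsSelfAdjointFor (Cfsg.sympForm m F) K) : Cfsg.Geo.IsMaximalIn (Cfsg.spGL m F) (Cfsg.Geo.subalgebraNormalizer K ⊓ Cfsg.spGL m F) := by
  classical
  have h2 : (2 : F) ≠ 0 := Cfsg.Agent.Lib.Helper49Forms.two_ne_zero_of_odd rfl hodd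
  have : Nonempty (Fin m ⊕ Fin m) := ⟨Sum.inl ⟨0, by omega⟩⟩
  have hcard : Fintype.card (Fin m ⊕ Fin m) = 2 * m := by
    simp only [Fintype.card_sum, Fintype.card_fin]
    omega
  have hA := stdB_isAlt (F := F) m
  have hB := stdB_nondegenerate (F := F) m
  obtain ⟨D, hDK, d, hUS, hspan, hns⟩ := exists_US (stdB F m) hA hB h2 K hK hac hnsa
  have hd := hUS.d_ne
  have hiff : ∀ e : (Fin m ⊕ Fin m → F) ≃ₗ[F] (Fin m ⊕ Fin m → F),
      mkGL e ∈ Cfsg.Geo.subalgebraNormalizer K ↔
      ∃ a b : F, ∀ v, e (Matrix.mulVecLin D v) = a • e v + b • Matrix.mulVecLin D (e v) := by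
    intro e
    rw [Cfsg.Agent.S5700.mem_normalizer_iff K hDK hspan hns]
    constructor
    · rintro ⟨a, b, hab⟩
      refine ⟨a, b, fun v => ?_⟩
      rw [Matrix.mulVecLin_apply, Matrix.mulVecLin_apply, ← mkGL_mulVec e, ← mkGL_mulVec e,
        Matrix.mulVec_mulVec, hab,
        ← Matrix.mulVec_mulVec, Matrix.add_mulVec, Matrix.smul_mulVec, Matrix.smul_mulVec,
        Matrix.one_mulVec]
    · rintro ⟨a, b, hab⟩
      refine ⟨a, b, ?_⟩
      apply Matrix.mulVec_injective
      funext v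
      have := hab v
      rw [Matrix.mulVecLin_apply, Matrix.mulVecLin_apply] at this
      rw [← Matrix.mulVec_mulVec, mkGL_mulVec, this, ← Matrix.mulVec_mulVec, Matrix.add_mulVec,
        Matrix.smul_mulVec, Matrix.smul_mulVec, Matrix.one_mulVec, mkGL_mulVec]
  refine sp_maximal m _ ?_ ?_
  · obtain ⟨v, hv⟩ : ∃ v : Fin m ⊕ Fin m → F, v ≠ 0 := exists_ne 0
    refine ⟨stv (stdB F m) hA v 1, stv_isometry hA v 1, ?_⟩
    intro hmem
    obtain ⟨a, b, hab⟩ := (hiff _).1 hmem
    obtain ⟨y, -, hT, hy0⟩ := hUS.exists_sing_notMem hA hB h2 {v, Matrix.mulVecLin D v} ∅ (by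
      have := Finset.card_le_two (a := v) (b := Matrix.mulVecLin D v)
      simp only [Finset.card_empty]
      omega)
    have hy0' : y ≠ 0 := by
      rintro rfl
      exact hy0 (Submodule.zero_mem _)
    have e1 : stdB F m v (Matrix.mulVecLin D y) = 0 := hT v (by simp)
    have e2 : stdB F m v y = 0 := by
      have := hT (Matrix.mulVecLin D v) (by simp)
      rw [hUS.dd] at this
      simpa [hd] using this
    have e3 : stdB F m y v = 0 := alt_zero hA e2
    have e4 : stdB F m (Matrix.mulVecLin D y) v = 0 := alt_zero hA e1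
    have h3 := hab y
    rw [stv_apply, stv_apply, e3, e4] at h3
    simp only [mul_zero, zero_smul, add_zero] at h3
    have hb : b = 1 := by
      by_contra hb
      have hb' : 1 - b ≠ 0 := fun h => hb (sub_eq_zero.1 h).symm
      apply hy0'
      apply hUS.noeig (a / (1 - b)) y
      have : (1 - b) • Matrix.mulVecLin D y = a • y := by
        rw [sub_smul, one_smul]
        nth_rewrite 1 [h3]
        rw [add_sub_cancel_right]
      rw [div_eq_inv_mul, ← smul_smul, ← this, smul_smul, inv_mul_cancel₀ hb', one_smul]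
    subst hb
    have ha : a = 0 := by
      rw [one_smul] at h3
      have : a • y = 0 := by
        have h4 := sub_eq_zero.2 h3
        rw [← neg_eq_zero, ← h4]
        abel
      exact (smul_eq_zero.1 this).resolve_right hy0'
    subst ha
    obtain ⟨x, hx⟩ : ∃ x, stdB F m x v ≠ 0 := by
      by_contra hcon
      push Not at hcon
      exact hv (hB.2 v hcon)
    have h5 := hab x
    rw [stv_apply, stv_apply, zero_smul, zero_add, one_smul, map_add, map_smul] at h5
    have h6 := add_left_cancel h5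
    rw [one_mul, one_mul] at h6
    apply hv
    apply hUS.noeig (stdB F m (Matrix.mulVecLin D x) v / stdB F m x v) v
    rw [div_eq_inv_mul, ← smul_smul, h6, smul_smul, inv_mul_cancel₀ hx, one_smul]
  · intro M hM1 hM2 g hgM hgX
    have hH : ∀ e : (Fin m ⊕ Fin m → F) ≃ₗ[F] (Fin m ⊕ Fin m → F),
        (∀ x y, stdB F m (e x) (e y) = stdB F m x y) →
        (∀ x, e (Matrix.mulVecLin D x) = Matrix.mulVecLin D (e x)) → e ∈ M := by
      intro e he hc
      apply hM1 _ he
      apply (hiff _).2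
      exact ⟨0, 1, fun v => by rw [zero_smul, zero_add, one_smul, hc]⟩
    have hU : ∀ y, stdB F m y (Matrix.mulVecLin D y) = 0 →
        ∀ c, ut hA (Matrix.mulVecLin D) d y c ∈ M := by
      intro y hy c
      exact hH _ (ut_isometry hA _ _) (fun v => (ut_comm hUS hA hy c v).symm)
    have hgg : ∀ x, g (g⁻¹ x) = x := fun x => g.apply_symm_apply x
    have hgg' : ∀ x, g⁻¹ (g x) = x := fun x => g.symm_apply_apply x
    have hginv : ∀ x y, stdB F m (g⁻¹ x) (g⁻¹ y) = stdB F m x y := by
      intro x y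
      rw [← hM2 g hgM, hgg, hgg]
    set δ₂ : (Fin m ⊕ Fin m → F) →ₗ[F] (Fin m ⊕ Fin m → F) :=
      (g : (Fin m ⊕ Fin m → F) →ₗ[F] (Fin m ⊕ Fin m → F)) ∘ₗ Matrix.mulVecLin D ∘ₗ
        ((g⁻¹ : (Fin m ⊕ Fin m → F) ≃ₗ[F] (Fin m ⊕ Fin m → F)) :
          (Fin m ⊕ Fin m → F) →ₗ[F] (Fin m ⊕ Fin m → F)) with hδ₂
    have hδ₂a : ∀ v, δ₂ v = g (Matrix.mulVecLin D (g⁻¹ v)) := fun v => rfl
    have hne : ¬ ∃ a b : F, ∀ v, δ₂ v = a • v + b • Matrix.mulVecLin D v := by
      rintro ⟨a, b, hab⟩
      apply hgX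
      apply (hiff g).2
      refine ⟨a, b, fun v => ?_⟩
      have := hab (g v)
      rw [hδ₂a, hgg'] at this
      exact this
    obtain ⟨u, hu, hgood⟩ := Cfsg.Agent.Lib.H97U3Good.exists_good6 hUS hA hB h2 (by omega) hne
    have hu0 : u ≠ 0 := by
      rintro rfl
      apply hgood
      rw [map_zero δ₂]
      exact Submodule.zero_mem _
    refine Cfsg.Agent.Lib.H97U3Main.us_main6 hUS hB h2 (by omega) hH (w := g⁻¹ u)
      (w' := g⁻¹ (Matrix.mulVecLin D u)) ?_ ?_ ?_ ?_
    · intro h0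
      apply hu0
      rw [← hgg u, h0, map_zero]
    · rw [hginv]
      exact hu
    · intro hmem
      obtain ⟨a, b, hab⟩ := Submodule.mem_span_pair.1 hmem
      have h3 := congrArg g hab
      rw [map_add, map_smul, map_smul, hgg, hgg, ← hδ₂a] at h3
      by_cases hb : b = 0
      · subst hb
        rw [zero_smul, add_zero] at h3
        have hu0 := hUS.noeig a u h3.symm
        apply hgood
        rw [hu0, map_zero δ₂]
        exact Submodule.zero_mem _
      · apply hgood
        have : δ₂ u = b⁻¹ • (Matrix.mulVecLin D u - a • u) := by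
          rw [← h3, add_sub_cancel_left, smul_smul, inv_mul_cancel₀ hb, one_smul]
        rw [this]
        exact Submodule.smul_mem _ _ (Submodule.sub_mem _ (Submodule.subset_span (by simp))
          (Submodule.smul_mem _ _ (Submodule.subset_span (by simp))))
    · intro ε
      have h1 := M.mul_mem (M.mul_mem (M.inv_mem hgM) (hU u hu ε)) (M.inv_mem (M.inv_mem hgM))
      have h3 : g⁻¹ * ut hA (Matrix.mulVecLin D) d u ε * g⁻¹⁻¹ =
          (g⁻¹ * stv (stdB F m) hA u (-(d * ε)) * g⁻¹⁻¹) *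
            (g⁻¹ * stv (stdB F m) hA (Matrix.mulVecLin D u) ε * g⁻¹⁻¹) := by
        unfold ut
        group
      rw [h3, conj_stv hA g⁻¹ hginv, conj_stv hA g⁻¹ hginv] at h1
      exact h1

end Cfsg.Agent.Lib.H97U3Gen
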