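import Cfsg.Agent.Lib.Helper98CoxDefs

/-! PIECE Alt (pure Mathlib, 30 min): algebra of alternating words in a group. -/

namespace Cfsg.Agent.Lib.H98CoxAlt

open Cfsg.Agent.Lib.Helper98CoxDefs

variable {X : Type*} [Group X]

/-- splitting an alternating word. -/
theorem alt_add {W : Type*} (a b : W) (i j : ℕ) :
    alt a b (i + j) = alt a b i ++ (if Even i then alt a b j else alt b a j) := by
  induction i generalizing a b with
  | zero => simp
  | succ i ih =>
    have e : i + 1 + j = (i + j) + 1 := by omega
    rw [e, alt_succ, alt_succ, ih b a, List.cons_append]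
    by_cases h : Even i
    · rw [if_pos h, if_neg (by rw [Nat.even_add_one]; exact not_not.mpr h)]
    · rw [if_neg h, if_pos (by rw [Nat.even_add_one]; exact h)]

/-- KEY FORMULA: for involutions `a b`,  `(a b a ...)(b a b ...)⁻¹ = (a b)^k` (both words of length `k`). -/
theorem prod_alt_mul_inv {a b : X} (ha : a * a = 1) (hb : b * b = 1) (k : ℕ) :
    (alt a b k).prod * ((alt b a k).prod)⁻¹ = (a * b) ^ k := by
  induction k generalizing a b with
  | zero => simp
  | succ k ih =>
    have hbi : b⁻¹ = b := inv_eq_of_mul_eq_one_left hb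
    have hsc : SemiconjBy a (b * a) (a * b) := by
      unfold SemiconjBy
      simp only [mul_assoc]
    have h1 : a * (b * a) ^ k = (a * b) ^ k * a := (hsc.pow_right k)
    rw [alt_succ, alt_succ, List.prod_cons, List.prod_cons, mul_inv_rev, hbi]
    calc a * (alt b a k).prod * ((alt a b k).prod⁻¹ * b)
        = a * ((alt b a k).prod * (alt a b k).prod⁻¹) * b := by simp only [mul_assoc]
      _ = a * (b * a) ^ k * b := by rw [ih hb ha]
      _ = (a * b) ^ (k + 1) := by rw [h1, pow_succ, mul_assoc]

/-- consequence. -/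
theorem prod_alt_eq_iff {a b : X} (ha : a * a = 1) (hb : b * b = 1) (k : ℕ) :
    (alt a b k).prod = (alt b a k).prod ↔ (a * b) ^ k = 1 := by
  rw [← prod_alt_mul_inv ha hb k, mul_inv_eq_one]

end Cfsg.Agent.Lib.H98CoxAlt
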