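import Cfsg.Agent.Lib.H98CoxSec

/-! A length system is a Coxeter system. -/

namespace Cfsg.Agent.Lib.H98CoxMain

open Cfsg.Agent.Lib.Helper46Len Cfsg.Agent.Lib.Helper98CoxDefs Cfsg.Agent.Lib.H98CoxAlt
  Cfsg.Agent.Lib.H98CoxSec

variable {W : Type*} [Group W] (L : LenSys W)

theorem orderOf_mul_swap (a b : W) : orderOf (a * b) = orderOf (b * a) := by
  have : b * a = MulAut.conj b (a * b) := by
    rw [MulAut.conj_apply]; group
  rw [this, MulEquiv.orderOf_eq]

/-- the Coxeter matrix of orders. -/
noncomputable def mat {B : Type*} (ι : B → W) (hι : Function.Injective ι) (hS : ∀ i, ι i ∈ L.S) :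
    CoxeterMatrix B where
  M := fun i j => orderOf (ι i * ι j)
  isSymm := by
    ext i j
    exact orderOf_mul_swap _ _
  diagonal := fun i => by
    show orderOf (ι i * ι i) = 1
    rw [L.sq _ (hS i), orderOf_one]
  off_diagonal := fun i j hij h => by
    have h1 : ι i * ι j = 1 := orderOf_eq_one_iff.1 h
    have h2 : ι i = ι j := by
      have := L.sq _ (hS j)
      exact mul_right_cancel (h1.trans this.symm)
    exact hij (hι h2)

theorem coxeter_of_lenSys {B : Type*} (ι : B → W) (hι : Function.Injective ι)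
    (hS : Set.range ι = L.S) :
    ∃ (M : CoxeterMatrix B) (cs : CoxeterSystem M W), ∀ i, cs.simple i = ι i := by
  classical
  have hS' : ∀ i, ι i ∈ L.S := fun i => hS ▸ Set.mem_range_self i
  set M := mat L ι hι hS' with hM
  have hMij : ∀ i j, M i j = orderOf (ι i * ι j) := fun i j => rfl
  have hlift : M.IsLiftable ι := fun i j => by
    rw [hMij]; exact pow_orderOf_eq_one _
  let cs0 := M.toCoxeterSystem
  let π : M.Group →* W := cs0.lift ⟨ι, hlift⟩
  have hπ : ∀ i, π (cs0.simple i) = ι i := fun i => cs0.lift_apply_simple hlift i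
  -- the map f
  let f : W → M.Group := fun w => if h : ∃ i, ι i = w then cs0.simple h.choose else 1
  have hf : ∀ i, f (ι i) = cs0.simple i := by
    intro i
    have h : ∃ j, ι j = ι i := ⟨i, rfl⟩
    have : f (ι i) = cs0.simple h.choose := dif_pos h
    rw [this, hι h.choose_spec]
  obtain ⟨φ, hφ1, hφ⟩ := exists_section L f
    (by
      intro s hs
      rw [← hS] at hs
      obtain ⟨i, rfl⟩ := hs
      rw [hf]; exact cs0.simple_mul_simple_self i)
    (by
      intro a ha b hb _ _
      rw [← hS] at ha hb
      obtain ⟨i, rfl⟩ := ha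
      obtain ⟨j, rfl⟩ := hb
      rw [map_alt, map_alt, hf, hf,
        prod_alt_eq_iff (cs0.simple_mul_simple_self i) (cs0.simple_mul_simple_self j), ← hMij]
      exact cs0.simple_mul_simple_pow i j)
  have hφπ : ∀ x : M.Group, φ (π x) = x := by
    intro x
    induction x using cs0.simple_induction_left with
    | one => rw [map_one, hφ1]
    | mul_simple_left w i ih =>
      rw [map_mul, hπ, hφ _ (hS' i), ih, hf]
  have hinj : Function.Injective π := fun x y h => by
    rw [← hφπ x, ← hφπ y, h]
  have hsurj : Function.Surjective π := by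
    intro w
    induction h : L.l w using Nat.strong_induction_on generalizing w with
    | _ n ih =>
      by_cases hw : w = 1
      · exact ⟨1, by rw [map_one, hw]⟩
      · obtain ⟨s, hs, h1⟩ := L.desc w hw
        obtain ⟨x, hx⟩ := ih (L.l (s * w)) (by omega) (s * w) rfl
        have hs' := hs
        rw [← hS] at hs'
        obtain ⟨i, rfl⟩ := hs'
        refine ⟨cs0.simple i * x, ?_⟩
        rw [map_mul, hπ, hx, L.mul_mul_cancel hs]
  let e : M.Group ≃* W := MulEquiv.ofBijective π ⟨hinj, hsurj⟩
  refine ⟨M, cs0.map e, fun i => ?_⟩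
  rw [CoxeterSystem.map_simple]
  exact hπ i

end Cfsg.Agent.Lib.H98CoxMain
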