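import Cfsg.Agent.Lib.Helper98CoxDefs

/-! PIECE Top (75 min): an element with two left descents `a ≠ b` starts with the longest element of `⟨a, b⟩`. -/

namespace Cfsg.Agent.Lib.H98CoxTop

open Cfsg.Agent.Lib.Helper46Len Cfsg.Agent.Lib.Helper98CoxDefs

variable {W : Type*} [Group W] (L : LenSys W)

/-- a suffix of a reduced word is reduced. -/
theorem Red.tail {x : W} {u : List W} (h : Red L (x :: u)) : Red L u := by
  obtain ⟨h1, h2⟩ := h
  have hu : ∀ y ∈ u, y ∈ L.S := fun y hy => h1 y (List.mem_cons_of_mem _ hy)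
  refine ⟨hu, ?_⟩
  have h3 := L.l_prod_le u hu
  have h4 := L.step x (h1 x List.mem_cons_self) u.prod
  rw [List.prod_cons, List.length_cons] at h2
  omega

/-- a reduced word in the two letters `a`, `b` starting with `a` is alternating. -/
theorem eq_alt {a b : W} (u : List W) (hu : ∀ x ∈ u, x = a ∨ x = b) (hr : Red L (a :: u)) :
    a :: u = alt a b (u.length + 1) := by
  induction u generalizing a b with
  | nil => rfl
  | cons y u' ih =>
    have hy : y = b := by
      rcases hu y List.mem_cons_self with h | h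
      · exfalso
        subst h
        obtain ⟨h1, h2⟩ := hr
        have hyS : y ∈ L.S := h1 y List.mem_cons_self
        rw [List.prod_cons, List.prod_cons, L.mul_mul_cancel hyS, List.length_cons,
          List.length_cons] at h2
        have h3 := L.l_prod_le u' (fun x hx =>
          h1 x (List.mem_cons_of_mem _ (List.mem_cons_of_mem _ hx)))
        omega
      · exact h
    subst hy
    have h1 := ih (a := y) (b := a) (fun x hx => (hu x (List.mem_cons_of_mem _ hx)).symm)
      (Red.tail L hr)
    rw [h1, length_alt, alt_succ a y (u'.length + 1)]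

theorem exists_top {a b w : W} (ha : a ∈ L.S) (hb : b ∈ L.S)
    (h1 : L.l (a * w) + 1 = L.l w) (h2 : L.l (b * w) + 1 = L.l w) :
    ∃ (k : ℕ) (e : W), 0 < k ∧ (alt a b k).prod = (alt b a k).prod ∧ L.l (alt a b k).prod = k ∧
      w = (alt a b k).prod * e ∧ L.l w = k + L.l e := by
  set K : Set W := {a, b} with hKdef
  have hK : K ⊆ L.S := by
    intro x hx
    rcases hx with h | h
    · exact h ▸ ha
    · rw [Set.mem_singleton_iff] at h
      exact h ▸ hb
  have haK : a ∈ Subgroup.closure K := Subgroup.subset_closure (Or.inl rfl)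
  have hbK : b ∈ Subgroup.closure K := Subgroup.subset_closure (Or.inr rfl)
  obtain ⟨d, v', hw, hd, hv'⟩ := L.exists_decomp hK w⁻¹
  obtain ⟨v, hv, hvdef⟩ : ∃ v, v ∈ Subgroup.closure K ∧ v = v'⁻¹ := ⟨_, inv_mem hv', rfl⟩
  obtain ⟨e, hedef⟩ : ∃ e, e = d⁻¹ := ⟨_, rfl⟩
  have hwe : w = v * e := by
    rw [hvdef, hedef, ← mul_inv_rev, ← hw, inv_inv]
  have hLR : L.LR K e := by
    rw [L.LR_iff_inv hK, hedef, inv_inv]
    exact hd
  have l0 := L.l_add_left hK hLR hv
  have la := L.l_add_left hK hLR (mul_mem haK hv)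
  have lb := L.l_add_left hK hLR (mul_mem hbK hv)
  rw [mul_assoc, ← hwe] at la lb
  rw [← hwe] at l0
  have key : ∀ {x y : W}, x ∈ L.S → x ∈ Subgroup.closure K → (∀ z ∈ K, z = x ∨ z = y) →
      L.l (x * v) + 1 = L.l v → (alt x y (L.l v)).prod = v := by
    intro x y hxS hxK hxy hl
    obtain ⟨u, hu1, hu2, hu3⟩ := L.exists_word hK (mul_mem hxK hv)
    have hprod : (x :: u).prod = v := by rw [List.prod_cons, hu2, L.mul_mul_cancel hxS]
    have hred : Red L (x :: u) := by
      refine ⟨?_, ?_⟩
      · intro z hz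
        rcases List.mem_cons.mp hz with h | h
        · exact h ▸ hxS
        · exact hK (hu1 z h)
      · rw [hprod, List.length_cons, hu3, hl]
    have h3 := eq_alt L (a := x) (b := y) u (fun z hz => hxy z (hu1 z hz)) hred
    rw [hu3, hl] at h3
    rw [← h3, hprod]
  have ka : (alt a b (L.l v)).prod = v := key ha haK (fun z hz => by
    rcases hz with h | h
    · exact Or.inl h
    · exact Or.inr h) (by omega)
  have kb : (alt b a (L.l v)).prod = v := key hb hbK (fun z hz => by
    rcases hz with h | h
    · exact Or.inr h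
    · exact Or.inl h) (by omega)
  refine ⟨L.l v, e, by omega, by rw [ka, kb], by rw [ka], by rw [ka, hwe], l0⟩

end Cfsg.Agent.Lib.H98CoxTop
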