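import Cfsg.Agent.Lib.H98CoxOrd
import Cfsg.Agent.Lib.H98CoxTop

/-! PIECE Mat (90 min): Matsumoto's theorem for length systems. -/

namespace Cfsg.Agent.Lib.H98CoxMat

open Cfsg.Agent.Lib.Helper46Len Cfsg.Agent.Lib.Helper98CoxDefs Cfsg.Agent.Lib.H98CoxOrd
  Cfsg.Agent.Lib.H98CoxTop

variable {W : Type*} [Group W] (L : LenSys W)

/-- every element has a reduced word. -/
theorem exists_red (w : W) : ∃ u, Red L u ∧ u.prod = w := by
  induction h : L.l w using Nat.strong_induction_on generalizing w with
  | _ n ih =>
    by_cases hw : w = 1
    · refine ⟨[], ⟨by simp, ?_⟩, by simp [hw]⟩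
      simp [L.l_one]
    · obtain ⟨s, hs, h1⟩ := L.desc w hw
      obtain ⟨u, ⟨hu1, hu2⟩, hu3⟩ := ih (L.l (s * w)) (by omega) (s * w) rfl
      have hp : (s :: u).prod = w := by rw [List.prod_cons, hu3, L.mul_mul_cancel hs]
      refine ⟨s :: u, ⟨?_, ?_⟩, hp⟩
      · intro x hx
        rcases List.mem_cons.mp hx with h | h
        · exact h ▸ hs
        · exact hu1 x h
      · rw [hp, List.length_cons, ← hu2, hu3, h1]

private theorem aux {X : Type*} [Monoid X] (f : W → X)
    (hf : ∀ a ∈ L.S, ∀ b ∈ L.S, a ≠ b → 0 < orderOf (a * b) →
      ((alt a b (orderOf (a * b))).map f).prod = ((alt b a (orderOf (a * b))).map f).prod) (n : ℕ) :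
    ∀ (u v : List W), u.length = n → Red L u → Red L v → u.prod = v.prod →
      (u.map f).prod = (v.map f).prod := by
  induction n using Nat.strong_induction_on with
  | _ n ih =>
    intro u v hn hu hv h
    have hlen : u.length = v.length := by rw [← hu.2, ← hv.2, h]
    cases u with
    | nil =>
      have : v = [] := List.length_eq_zero_iff.mp (by rw [← hlen]; rfl)
      rw [this]
    | cons a u' =>
      cases v with
      | nil => simp at hlen
      | cons b v' =>
        have ha : a ∈ L.S := hu.1 a List.mem_cons_self
        have hb : b ∈ L.S := hv.1 b List.mem_cons_self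
        have hu' := Red.tail L hu
        have hv' := Red.tail L hv
        rw [List.length_cons] at hn
        by_cases hab : a = b
        · subst hab
          rw [List.prod_cons, List.prod_cons] at h
          have h' := mul_left_cancel h
          rw [List.map_cons, List.map_cons, List.prod_cons, List.prod_cons,
            ih u'.length (by omega) u' v' rfl hu' hv' h']
        · obtain ⟨w, hw⟩ : ∃ w, w = (a :: u').prod := ⟨_, rfl⟩
          have hwa : a * w = u'.prod := by rw [hw, List.prod_cons, L.mul_mul_cancel ha]
          have hwb : b * w = v'.prod := by rw [hw, h, List.prod_cons, L.mul_mul_cancel hb]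
          have hlw : L.l w = u'.length + 1 := by rw [hw, hu.2, List.length_cons]
          have hlen' : u'.length = v'.length := by simpa using hlen
          have h1 : L.l (a * w) + 1 = L.l w := by rw [hwa, hu'.2, hlw]
          have h2 : L.l (b * w) + 1 = L.l w := by rw [hwb, hv'.2, hlw, hlen']
          obtain ⟨k, e, hk, heq, hlk, hwk, hlwk⟩ := exists_top L ha hb h1 h2
          have hord := orderOf_eq L ha hb hk heq hlk
          obtain ⟨r, hr, hre⟩ := exists_red L e
          obtain ⟨k', rfl⟩ : ∃ k', k = k' + 1 := ⟨k - 1, by omega⟩
          -- a general statement for both sides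
          have side : ∀ (x y : W) (t : List W), x ∈ L.S → y ∈ L.S → Red L t → t.length = u'.length →
              x * w = t.prod → w = (alt x y (k' + 1)).prod * e →
              ((x :: t).map f).prod = ((alt x y (k' + 1) ++ r).map f).prod := by
            intro x y t hx hy ht htl hxt hwx
            have hU : Red L (alt x y (k' + 1) ++ r) := by
              refine ⟨?_, ?_⟩
              · intro z hz
                rcases List.mem_append.mp hz with hz | hz
                · rcases mem_alt hz with h | h
                  · exact h ▸ hx
                  · exact h ▸ hy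
                · exact hr.1 z hz
              · rw [List.prod_append, hre, ← hwx, List.length_append, length_alt, ← hr.2, hre, hlwk]
            rw [alt_succ, List.cons_append] at hU ⊢
            have hT := Red.tail L hU
            have hTp : t.prod = (alt y x k' ++ r).prod := by
              rw [← hxt, hwx, alt_succ, List.prod_cons, List.prod_append, hre, mul_assoc,
                L.mul_mul_cancel hx]
            rw [List.map_cons, List.map_cons, List.prod_cons, List.prod_cons,
              ih t.length (by omega) t _ rfl ht hT hTp]
          rw [side a b u' ha hb hu' rfl hwa hwk, side b a v' hb ha hv' hlen'.symm hwb (heq ▸ hwk),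
            List.map_append, List.map_append, List.prod_append, List.prod_append]
          have := hf a ha b hb hab (by rw [hord]; exact hk)
          rw [hord] at this
          rw [this]

/-- MATSUMOTO. -/
theorem matsumoto {X : Type*} [Monoid X] (f : W → X)
    (hf : ∀ a ∈ L.S, ∀ b ∈ L.S, a ≠ b → 0 < orderOf (a * b) →
      ((alt a b (orderOf (a * b))).map f).prod = ((alt b a (orderOf (a * b))).map f).prod)
    (u v : List W) (hu : Red L u) (hv : Red L v) (h : u.prod = v.prod) :
    (u.map f).prod = (v.map f).prod :=
  aux L f hf _ u v rfl hu hv h

end Cfsg.Agent.Lib.H98CoxMat
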