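import Cfsg.Agent.Lib.H98CoxAlt

/-! PIECE Ord (45 min): two reduced alternating words with the same product have length `orderOf (a*b)`. -/

namespace Cfsg.Agent.Lib.H98CoxOrd

open Cfsg.Agent.Lib.Helper46Len Cfsg.Agent.Lib.Helper98CoxDefs Cfsg.Agent.Lib.H98CoxAlt

variable {W : Type*} [Group W] (L : LenSys W)

private theorem l_alt_le {a b : W} (ha : a ∈ L.S) (hb : b ∈ L.S) (j : ℕ) :
    L.l (alt a b j).prod ≤ j := by
  have := L.l_prod_le (alt a b j) (fun x hx => by
    rcases mem_alt hx with h | h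
    · exact h ▸ ha
    · exact h ▸ hb)
  rwa [length_alt] at this

theorem orderOf_eq {a b : W} (ha : a ∈ L.S) (hb : b ∈ L.S) {k : ℕ} (hk : 0 < k)
    (he : (alt a b k).prod = (alt b a k).prod) (hl : L.l (alt a b k).prod = k) :
    orderOf (a * b) = k := by
  have ha2 := L.sq a ha
  have hb2 := L.sq b hb
  have hpow : (a * b) ^ k = 1 := (prod_alt_eq_iff ha2 hb2 k).mp he
  have hdvd : orderOf (a * b) ∣ k := orderOf_dvd_of_pow_eq_one hpow
  have hpos : 0 < orderOf (a * b) :=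
    orderOf_pos_iff.mpr (isOfFinOrder_iff_pow_eq_one.mpr ⟨k, hk, hpow⟩)
  have hle : orderOf (a * b) ≤ k := Nat.le_of_dvd hk hdvd
  by_contra hne
  have hlt : orderOf (a * b) < k := lt_of_le_of_ne hle hne
  obtain ⟨m', hm'⟩ : ∃ m', orderOf (a * b) = m' + 1 := ⟨orderOf (a * b) - 1, by omega⟩
  have hm : (alt a b (m' + 1)).prod = (alt b a (m' + 1)).prod := by
    rw [prod_alt_eq_iff ha2 hb2, ← hm', pow_orderOf_eq_one]
  have h1 : (alt a b (m' + 1 + 1)).prod = (alt b a m').prod := by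
    rw [alt_succ, List.prod_cons, ← hm, alt_succ, List.prod_cons, L.mul_mul_cancel ha]
  obtain ⟨j, hj⟩ : ∃ j, k = (m' + 1 + 1) + j := ⟨k - (m' + 1 + 1), by omega⟩
  have h2 : L.l (alt a b k).prod ≤ m' + j := by
    rw [hj, alt_add, List.prod_append, h1]
    refine (L.l_mul_le _ _).trans (Nat.add_le_add (l_alt_le L hb ha m') ?_)
    split_ifs
    · exact l_alt_le L ha hb j
    · exact l_alt_le L hb ha j
  omega

end Cfsg.Agent.Lib.H98CoxOrd
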