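import Cfsg.Agent.Lib.H98CoxMat

/-! PIECE Sec (45 min): the section `W → X`. -/

namespace Cfsg.Agent.Lib.H98CoxSec

open Cfsg.Agent.Lib.Helper46Len Cfsg.Agent.Lib.Helper98CoxDefs Cfsg.Agent.Lib.H98CoxMat

variable {W : Type*} [Group W] (L : LenSys W)

theorem exists_section {X : Type*} [Monoid X] (f : W → X) (hsq : ∀ s ∈ L.S, f s * f s = 1)
    (hf : ∀ a ∈ L.S, ∀ b ∈ L.S, a ≠ b → 0 < orderOf (a * b) →
      ((alt a b (orderOf (a * b))).map f).prod = ((alt b a (orderOf (a * b))).map f).prod) :
    ∃ φ : W → X, φ 1 = 1 ∧ ∀ s ∈ L.S, ∀ w, φ (s * w) = f s * φ w := by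
  classical
  let φ : W → X := fun w => ((exists_red L w).choose.map f).prod
  have key : ∀ u, Red L u → φ u.prod = (u.map f).prod := by
    intro u hu
    have hs := (exists_red L u.prod).choose_spec
    exact matsumoto L f hf _ u hs.1 hu hs.2
  have cons_red : ∀ (s : W) (u : List W), s ∈ L.S → Red L u → L.l (s * u.prod) = L.l u.prod + 1 →
      Red L (s :: u) := by
    intro s u hs hu h
    refine ⟨?_, ?_⟩
    · intro x hx
      rcases List.mem_cons.mp hx with h | h
      · exact h ▸ hs
      · exact hu.1 x h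
    · rw [List.prod_cons, h, hu.2, List.length_cons]
  refine ⟨φ, ?_, ?_⟩
  · have h0 : Red L ([] : List W) := ⟨by simp, by simp [L.l_one]⟩
    have := key [] h0
    simpa using this
  · intro s hs w
    rcases L.step s hs w with h | h
    · obtain ⟨u, hu, rfl⟩ := exists_red L w
      have h1 := key (s :: u) (cons_red s u hs hu h)
      rw [List.prod_cons, List.map_cons, List.prod_cons, ← key u hu] at h1
      exact h1
    · obtain ⟨u, hu, hup⟩ := exists_red L (s * w)
      have h2 : L.l (s * u.prod) = L.l u.prod + 1 := by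
        rw [hup, L.mul_mul_cancel hs, h]
      have h1 := key (s :: u) (cons_red s u hs hu h2)
      rw [List.prod_cons, List.map_cons, List.prod_cons, ← key u hu, hup,
        L.mul_mul_cancel hs] at h1
      rw [h1, ← mul_assoc, hsq s hs, one_mul]

end Cfsg.Agent.Lib.H98CoxSec
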