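import Mathlib

set_option autoImplicit false

namespace Cfsg.Agent.Lib.Helper66Basic

variable {G : Type*} [Group G]

theorem card_inf_mul_relIndex_sup [Finite G] (P N : Subgroup G) [N.Normal] :
    Nat.card ↥(P ⊓ N) * P.relIndex (P ⊔ N) = Nat.card N := by
  have h1 : Nat.card P * P.relIndex (P ⊔ N) = Nat.card ↥(P ⊔ N) := by
    have := Subgroup.relIndex_mul_relIndex ⊥ P (P ⊔ N) bot_le le_sup_left
    simpa [Subgroup.relIndex_bot_left] using this
  have h2 : Nat.card N * N.relIndex (P ⊔ N) = Nat.card ↥(P ⊔ N) := by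
    have := Subgroup.relIndex_mul_relIndex ⊥ N (P ⊔ N) bot_le le_sup_right
    simpa [Subgroup.relIndex_bot_left] using this
  have h3 : Nat.card ↥(P ⊓ N) * (P ⊓ N).relIndex P = Nat.card P := by
    have := Subgroup.relIndex_mul_relIndex ⊥ (P ⊓ N) P bot_le inf_le_left
    simpa [Subgroup.relIndex_bot_left] using this
  rw [Subgroup.relIndex_sup_right] at h2
  rw [Subgroup.inf_relIndex_left] at h3
  have hpos : 0 < N.relIndex P := by
    rcases Nat.eq_zero_or_pos (N.relIndex P) with h | h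
    · rw [h, mul_zero] at h3
      exact absurd h3.symm (Nat.card_pos).ne'
    · exact h
  have : N.relIndex P * (Nat.card ↥(P ⊓ N) * P.relIndex (P ⊔ N)) = N.relIndex P * Nat.card N := by
    calc N.relIndex P * (Nat.card ↥(P ⊓ N) * P.relIndex (P ⊔ N))
        = (Nat.card ↥(P ⊓ N) * N.relIndex P) * P.relIndex (P ⊔ N) := by ring
      _ = Nat.card ↥(P ⊔ N) := by rw [h3, h1]
      _ = N.relIndex P * Nat.card N := by rw [← h2]; ring
  exact Nat.eq_of_mul_eq_mul_left hpos this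

theorem relIndex_sup_dvd_card [Finite G] (P N : Subgroup G) [N.Normal] :
    P.relIndex (P ⊔ N) ∣ Nat.card N :=
  Dvd.intro_left _ (card_inf_mul_relIndex_sup P N)

/-- `P` a `p`-subgroup, `N` a normal `p'`-subgroup: every `p`-subgroup of `PN` is
`N`-conjugate into `P`. -/
theorem exists_conj_mem_of_le_sup [Finite G] {p : ℕ} [Fact p.Prime] (N : Subgroup G) [N.Normal]
    (hN : (Nat.card N).Coprime p) (P Q : Subgroup G) (hP : IsPGroup p P) (hQ : IsPGroup p Q)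
    (hQP : Q ≤ P ⊔ N) : ∃ n ∈ N, ∀ x ∈ Q, n * x * n⁻¹ ∈ P := by
  have hidx : ¬ p ∣ (P.subgroupOf (P ⊔ N)).index := by
    intro h
    have h1 : p ∣ Nat.card N := h.trans (relIndex_sup_dvd_card P N)
    have h2 : p ∣ Nat.gcd (Nat.card N) p := Nat.dvd_gcd h1 dvd_rfl
    rw [hN] at h2
    exact (Fact.out : p.Prime).one_lt.ne' (Nat.dvd_one.1 h2)
  let S : Sylow p ↥(P ⊔ N) := (hP.comap_subtype (K := P ⊔ N)).toSylow hidx
  obtain ⟨T, hT⟩ := (hQ.comap_subtype (K := P ⊔ N)).exists_le_sylow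
  obtain ⟨h, hh⟩ := MulAction.exists_smul_eq ↥(P ⊔ N) T S
  obtain ⟨y, hy, n, hn, hyn⟩ := Subgroup.mem_sup_of_normal_right.1 h.2
  refine ⟨n, hn, fun x hx => ?_⟩
  have hxT : (⟨x, hQP hx⟩ : ↥(P ⊔ N)) ∈ T := hT (by simpa [Subgroup.mem_subgroupOf] using hx)
  have h1 : h * (⟨x, hQP hx⟩ : ↥(P ⊔ N)) * h⁻¹ ∈ (h • T : Sylow p ↥(P ⊔ N)) := by
    rw [← SetLike.mem_coe, Sylow.coe_smul]
    exact ⟨_, hxT, by simp⟩
  rw [hh] at h1
  have h2 : (h : G) * x * (h : G)⁻¹ ∈ P := by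
    have : h * (⟨x, hQP hx⟩ : ↥(P ⊔ N)) * h⁻¹ ∈ P.subgroupOf (P ⊔ N) := h1
    simpa [Subgroup.mem_subgroupOf] using this
  rw [← hyn] at h2
  have h3 : y⁻¹ * (y * n * x * (y * n)⁻¹) * y ∈ P := P.mul_mem (P.mul_mem (P.inv_mem hy) h2) hy
  have h4 : y⁻¹ * (y * n * x * (y * n)⁻¹) * y = n * x * n⁻¹ := by group
  rwa [h4] at h3

/-- In a finite group, `g H g⁻¹ ⊆ H` puts `g` in the normalizer. -/
theorem mem_normalizer_of_conj_mem [Finite G] (H : Subgroup G) (g : G)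
    (h : ∀ x ∈ H, g * x * g⁻¹ ∈ H) : g ∈ Subgroup.normalizer (H : Set G) := by
  rw [Subgroup.mem_normalizer_iff_map_conj_eq]
  apply Subgroup.eq_of_le_of_card_ge
  · rintro _ ⟨x, hx, rfl⟩
    exact h x hx
  · rw [Subgroup.card_map_of_injective (MulAut.conj g).injective]

end Cfsg.Agent.Lib.Helper66Basic
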