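import Mathlib
import Cfsg.Agent.Lib.Helper98MaxDefs
import Cfsg.Agent.Lib.H98MaxF1
import Cfsg.Agent.Lib.Helper30SZ
import Cfsg.Agent.Lib.Helper66Basic

namespace Cfsg.Agent.Lib.H98MaxF3
open Cfsg.Agent.Lib.Helper98MaxDefs

theorem mem_Cn {G : Type*} [Group G] {x g : G} : g ∈ Cn x ↔ g * x = x * g :=
  Subgroup.mem_centralizer_singleton_iff

/-- `D` is normal in `G`. -/
theorem D_normal {G : Type*} [Group G] [Finite G] (N : Subgroup G) [hN : N.Normal] (h : Hyp N)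
    (x : G) (hx : x ∈ N) (hxz : x ∉ Subgroup.centralizer (N : Set G))
    (hD : ∀ n ∈ N, ∀ d ∈ Cn x ⊓ N, n * d * n⁻¹ ∈ Cn x ⊓ N) :
    ∀ g : G, ∀ d ∈ Cn x ⊓ N, g * d * g⁻¹ ∈ Cn x ⊓ N := by
  intro g d hd
  obtain ⟨m, hm, n, hn, rfl⟩ := H98MaxF1.prod N h x hx hxz g
  have h1 := hD n hn d hd
  have e : m * n * d * (m * n)⁻¹ = m * (n * d * n⁻¹) * m⁻¹ := by group
  rw [e]
  exact ⟨(Cn x).mul_mem ((Cn x).mul_mem hm h1.1) ((Cn x).inv_mem hm), hN.conj_mem _ h1.2 m⟩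

/-- the key claim of case B -/
theorem D_le_Cn {G : Type*} [Group G] [Finite G] (N : Subgroup G) [hN : N.Normal] (h : Hyp N)
    (x : G) (hx : x ∈ N) (hxz : x ∉ Subgroup.centralizer (N : Set G))
    (hD : ∀ n ∈ N, ∀ d ∈ Cn x ⊓ N, n * d * n⁻¹ ∈ Cn x ⊓ N)
    (n : G) (hn : n ∈ N) (a0 : G) (ha0 : a0 ∈ N) (hna : n * a0 * n⁻¹ * a0⁻¹ ∉ Cn x ⊓ N) :
    Cn x ⊓ N ≤ Cn n := by
  have hDG := D_normal N h x hx hxz hD
  have hnz : n ∉ Subgroup.centralizer (N : Set G) := by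
    intro hc
    apply hna
    have : a0 * n = n * a0 := Subgroup.mem_centralizer_iff.1 hc a0 ha0
    rw [← this]
    simp
  have hnorm : Cn n ⊓ N ≤ Subgroup.normalizer ((Cn x ⊓ N : Subgroup G) : Set G) := by
    intro c hc
    rw [Subgroup.mem_normalizer_iff]
    intro d
    constructor
    · intro hd; exact hDG c d hd
    · intro hd
      have := hDG c⁻¹ _ hd
      have e : c⁻¹ * (c * d * c⁻¹) * c⁻¹⁻¹ = d := by group
      rwa [e] at this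
  have hmem := fun y => Cfsg.Agent.Lib.Helper30SZ.mem_sup_iff hnorm (x := y)
  rcases H98MaxF1.max_inv N h n hn hnz ((Cn x ⊓ N) ⊔ (Cn n ⊓ N)) le_sup_right
    (sup_le inf_le_right inf_le_right) (by
      intro m hm l hl
      obtain ⟨d, hd, c, hc, rfl⟩ := (hmem l).1 hl
      have e : m * (d * c) * m⁻¹ = (m * d * m⁻¹) * (m * c * m⁻¹) := by group
      rw [e]
      refine (hmem _).2 ⟨_, hDG m d hd, _, ⟨?_, hN.conj_mem _ hc.2 m⟩, rfl⟩
      exact (Cn n).mul_mem ((Cn n).mul_mem hm hc.1) ((Cn n).inv_mem hm)) with hL | hL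
  · have : Cn x ⊓ N ≤ Cn n ⊓ N := by
      rw [← hL]; exact le_sup_left
    exact this.trans inf_le_left
  · exfalso
    have ha : a0 ∈ (Cn x ⊓ N) ⊔ (Cn n ⊓ N) := by rw [hL]; exact ha0
    obtain ⟨d, hd, c, hc, rfl⟩ := (hmem a0).1 ha
    apply hna
    have hcn : c * n = n * c := mem_Cn.1 hc.1
    have hcn' : c * n⁻¹ = n⁻¹ * c := by
      rw [eq_inv_mul_iff_mul_eq, ← mul_assoc, ← hcn, mul_assoc, mul_inv_cancel, mul_one]
    have e : n * (d * c) * n⁻¹ * (d * c)⁻¹ = (n * d * n⁻¹) * d⁻¹ := by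
      calc n * (d * c) * n⁻¹ * (d * c)⁻¹ = n * d * (c * n⁻¹) * c⁻¹ * d⁻¹ := by group
        _ = n * d * (n⁻¹ * c) * c⁻¹ * d⁻¹ := by rw [hcn']
        _ = (n * d * n⁻¹) * d⁻¹ := by group
    rw [e]
    exact (Cn x ⊓ N).mul_mem (hD n hn d hd) ((Cn x ⊓ N).inv_mem hd)

/-- (F3a) -/
theorem normal_of_normalized {G : Type*} [Group G] [Finite G] (N : Subgroup G) [hN : N.Normal] (h : Hyp N)
    (x : G) (hx : x ∈ N) (hxz : x ∉ Subgroup.centralizer (N : Set G))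
    (hD : ∀ n ∈ N, ∀ d ∈ Cn x ⊓ N, n * d * n⁻¹ ∈ Cn x ⊓ N) : (Cn x).Normal := by
  have hDG := D_normal N h x hx hxz hD
  have hxD : x ∈ Cn x ⊓ N := ⟨mem_Cn.2 rfl, hx⟩
  by_cases hA : ∀ a ∈ N, ∀ b ∈ N, a * b * a⁻¹ * b⁻¹ ∈ Cn x ⊓ N
  · -- CASE A
    have key : ∀ n ∈ N, ∀ g : G, g * n * g⁻¹ * n⁻¹ ∈ Cn x ⊓ N := by
      intro n hn g
      by_cases hnz : n ∈ Subgroup.centralizer (N : Set G)
      · have hnD : n ∈ Cn x ⊓ N := ⟨mem_Cn.2 (Subgroup.mem_centralizer_iff.1 hnz x hx).symm, hn⟩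
        exact (Cn x ⊓ N).mul_mem (hDG g n hnD) ((Cn x ⊓ N).inv_mem hnD)
      · obtain ⟨n', hn', e⟩ := H98MaxF1.conj_eq N h n hn hnz g
        rw [e]
        exact hA n' hn' n hn
    have hNC : ∀ n ∈ N, ∀ c ∈ Cn x, n * c * n⁻¹ ∈ Cn x := by
      intro n hn c hc
      have h1 := (key n hn c⁻¹).1
      have e : n * c * n⁻¹ = c * (c⁻¹ * n * c⁻¹⁻¹ * n⁻¹) := by group
      rw [e]
      exact (Cn x).mul_mem hc h1
    refine ⟨fun c hc g => ?_⟩
    obtain ⟨m, hm, n, hn, rfl⟩ := H98MaxF1.prod N h x hx hxz g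
    have e : m * n * c * (m * n)⁻¹ = m * (n * c * n⁻¹) * m⁻¹ := by group
    rw [e]
    exact (Cn x).mul_mem ((Cn x).mul_mem hm (hNC n hn c hc)) ((Cn x).inv_mem hm)
  · -- CASE B
    exfalso
    push Not at hA
    obtain ⟨n0, hn0, a0, ha0, hna⟩ := hA
    -- `y ∈ N` not commuting with `x`
    have hy : ∃ y ∈ N, y * x ≠ x * y := by
      by_contra hcon
      push Not at hcon
      exact hxz (Subgroup.mem_centralizer_iff.2 (fun y hy => hcon y hy))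
    obtain ⟨y, hyN, hyx⟩ := hy
    have hB0 : Cn x ⊓ N ≤ Cn n0 := D_le_Cn N h x hx hxz hD n0 hn0 a0 ha0 hna
    -- `y` is in `Y`
    have hyY : ∀ a ∈ N, y * a * y⁻¹ * a⁻¹ ∈ Cn x ⊓ N := by
      intro a ha
      by_contra hcon
      have := D_le_Cn N h x hx hxz hD y hyN a ha hcon hxD
      exact hyx (mem_Cn.1 this).symm
    have hynY : ∀ a ∈ N, (y * n0) * a * (y * n0)⁻¹ * a⁻¹ ∈ Cn x ⊓ N := by
      intro a ha
      by_contra hcon
      have h1 := D_le_Cn N h x hx hxz hD (y * n0) (N.mul_mem hyN hn0) a ha hcon hxD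
      have h2 := hB0 hxD
      -- `x` commutes with `y * n0` and `n0`, hence with `y`
      have e1 : x * (y * n0) = (y * n0) * x := mem_Cn.1 h1
      have e2 : x * n0 = n0 * x := mem_Cn.1 h2
      apply hyx
      have : x * y * n0 = y * x * n0 := by
        rw [mul_assoc, e1, mul_assoc, mul_assoc, e2]
      exact (mul_right_cancel this).symm
    apply hna
    have h1 := hynY a0 ha0
    have h2 := hyY a0 ha0
    have h3 : y * (n0 * a0 * n0⁻¹ * a0⁻¹) * y⁻¹ ∈ Cn x ⊓ N := by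
      have e : y * (n0 * a0 * n0⁻¹ * a0⁻¹) * y⁻¹
          = ((y * n0) * a0 * (y * n0)⁻¹ * a0⁻¹) * (y * a0 * y⁻¹ * a0⁻¹)⁻¹ := by group
      rw [e]
      exact (Cn x ⊓ N).mul_mem h1 ((Cn x ⊓ N).inv_mem h2)
    have h4 := hD y⁻¹ (N.inv_mem hyN) _ h3
    have e : y⁻¹ * (y * (n0 * a0 * n0⁻¹ * a0⁻¹) * y⁻¹) * y⁻¹⁻¹ = n0 * a0 * n0⁻¹ * a0⁻¹ := by group
    rwa [e] at h4

/-- (F3b) -/
theorem self_normalizing {G : Type*} [Group G] [Finite G] (N : Subgroup G) [hN : N.Normal] (h : Hyp N)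
    (x : G) (hx : x ∈ N) (hxz : x ∉ Subgroup.centralizer (N : Set G)) (hnn : ¬ (Cn x).Normal)
    (n : G) (hn : n ∈ N) (hD : ∀ d ∈ Cn x ⊓ N, n * d * n⁻¹ ∈ Cn x ⊓ N) : n ∈ Cn x := by
  set D := Cn x ⊓ N with hDdef
  set T := N ⊓ Subgroup.normalizer (D : Set G) with hT
  have hnT : n ∈ T := by
    refine ⟨hn, ?_⟩
    apply Cfsg.Agent.Lib.Helper66Basic.mem_normalizer_of_conj_mem
    exact hD
  have hCD : Cn x ≤ Subgroup.normalizer (D : Set G) := by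
    intro m hm
    apply Cfsg.Agent.Lib.Helper66Basic.mem_normalizer_of_conj_mem
    intro d hd
    exact ⟨(Cn x).mul_mem ((Cn x).mul_mem hm hd.1) ((Cn x).inv_mem hm), hN.conj_mem _ hd.2 m⟩
  rcases H98MaxF1.max_inv N h x hx hxz T (le_inf inf_le_right (inf_le_left.trans hCD)) inf_le_left (by
      intro m hm l hl
      exact ⟨hN.conj_mem _ hl.1 m, Subgroup.mul_mem _ (Subgroup.mul_mem _ (hCD hm) hl.2)
        (Subgroup.inv_mem _ (hCD hm))⟩) with hL | hL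
  · rw [hL] at hnT
    exact hnT.1
  · exfalso
    apply hnn
    apply normal_of_normalized N h x hx hxz
    intro n' hn' d hd
    have : n' ∈ T := by rw [hL]; exact hn'
    exact (Subgroup.mem_normalizer_iff.1 this.2 d).1 hd

end Cfsg.Agent.Lib.H98MaxF3
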