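import Mathlib
import Cfsg.Agent.Lib.Helper44ODefs
import Cfsg.Agent.Lib.Helper6SL

set_option autoImplicit false

/-! Project 4625, family `POmega+`: the Siegel radical and the Levi elements `diag (A, A⁻ᵀ)`, `A ∈ SL_n`,
lie in `Ω⁺_{2n}(F)` for every field `F` and `n ≥ 3`. -/

namespace Cfsg.Agent.Lib.H99EaOpMem

open Matrix Cfsg Cfsg.Agent.Lib.Helper44ODefs

variable {F : Type*} [Field F]

theorem comm_mem' {G : Type*} [Group G] (a b : G) : a * b * a⁻¹ * b⁻¹ ∈ commutator G := by
  rw [commutator_def]
  exact Subgroup.commutator_mem_commutator (Subgroup.mem_top a) (Subgroup.mem_top b)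

theorem gI_mem (n : ℕ) (hn : 3 ≤ n) (A : Matrix.SpecialLinearGroup (Fin n) F) :
    gI (Matrix.SpecialLinearGroup.toGL A) ∈ Cfsg.Omega F (Cfsg.quadFormPlus n F) := by
  have h1 : A ∈ commutator (Matrix.SpecialLinearGroup (Fin n) F) := by
    rw [Cfsg.Agent.Lib.Helper6SL.commutator_SL_eq_top (by simpa using hn)]
    exact Subgroup.mem_top _
  have h2 : (commutator (Matrix.SpecialLinearGroup (Fin n) F)).map
      ((gI (n := n) (F := F)).comp Matrix.SpecialLinearGroup.toGL) ≤
      commutator (IO n F) := by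
    rw [commutator_def, Subgroup.map_commutator, commutator_def]
    exact Subgroup.commutator_mono le_top le_top
  exact h2 (Subgroup.mem_map_of_mem _ h1)

theorem uI_single_mem (n : ℕ) (hn : 3 ≤ n) (i j : Fin n) (t : F) :
    uI (Multiplicative.ofAdd (Matrix.single i j t)) ∈ Cfsg.Omega F (Cfsg.quadFormPlus n F) := by
  rcases eq_or_ne i j with rfl | hij
  · rw [uI_ker _ (by simp)]
    exact Subgroup.one_mem _
  obtain ⟨k, hk⟩ : ∃ k, k ∉ ({i, j} : Finset (Fin n)) := by
    by_contra hall
    push Not at hall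
    have : Finset.univ ⊆ ({i, j} : Finset (Fin n)) := fun x _ => hall x
    have h1 := Finset.card_le_card this
    have h2 : ({i, j} : Finset (Fin n)).card ≤ 2 := Finset.card_le_two
    rw [Finset.card_univ, Fintype.card_fin] at h1
    omega
  simp only [Finset.mem_insert, Finset.mem_singleton, not_or] at hk
  obtain ⟨hki, hkj⟩ := hk
  set A : GL (Fin n) F :=
    Matrix.SpecialLinearGroup.toGL (Matrix.SpecialLinearGroup.transvection (Ne.symm hki) (1 : F))
    with hA
  have hAc : (A : Matrix (Fin n) (Fin n) F) = 1 + Matrix.single i k 1 := by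
    rw [hA]
    show ((Matrix.SpecialLinearGroup.transvection (Ne.symm hki) (1 : F) :
      Matrix.SpecialLinearGroup (Fin n) F) : Matrix (Fin n) (Fin n) F) = _
    rw [Matrix.SpecialLinearGroup.transvection_coe]
  set Y : Matrix (Fin n) (Fin n) F := Matrix.single k j t with hY
  have key : gI A * uI (Multiplicative.ofAdd Y) * (gI A)⁻¹ * (uI (Multiplicative.ofAdd Y))⁻¹ =
      uI (Multiplicative.ofAdd (Matrix.single i j t)) := by
    rw [gI_mul_uI, mul_inv_cancel_right, ← map_inv, ← map_mul]
    congr 1
    rw [← ofAdd_neg, ← ofAdd_add]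
    congr 1
    rw [hAc, hY]
    simp only [Matrix.transpose_add, Matrix.transpose_one, Matrix.transpose_single, mul_add, add_mul,
      Matrix.mul_one, Matrix.one_mul, single_mul_single_same,
      single_mul_single_of_ne _ _ _ _ (Ne.symm hkj), add_zero, one_mul]
    abel
  rw [← key]
  exact comm_mem' _ _

theorem uI_mem (n : ℕ) (hn : 3 ≤ n) (X : Multiplicative (Matrix (Fin n) (Fin n) F)) :
    uI X ∈ Cfsg.Omega F (Cfsg.quadFormPlus n F) := by
  have H : ∀ M : Matrix (Fin n) (Fin n) F,
      uI (Multiplicative.ofAdd M) ∈ Cfsg.Omega F (Cfsg.quadFormPlus n F) := by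
    intro M
    induction M using Matrix.induction_on' with
    | h_zero =>
      rw [ofAdd_zero, map_one]
      exact Subgroup.one_mem _
    | h_add p q hp hq =>
      rw [ofAdd_add, map_mul]
      exact Subgroup.mul_mem _ hp hq
    | h_std_basis i j x => exact uI_single_mem n hn i j x
  exact H (Multiplicative.toAdd X)

end Cfsg.Agent.Lib.H99EaOpMem
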