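import Cfsg.Agent.S5646

/-! `S5646` for `5 ≤ m` (same proof). -/

set_option autoImplicit false
open Cfsg

namespace Cfsg.Agent.Lib.H99G5646

open Cfsg.Agent.S5646

open Module Cfsg.Agent.Lib.Helper95Basic Cfsg.Agent.Lib.Helper95Sp Cfsg.Agent.Lib.Helper95Form
  Cfsg.Agent.Lib.Helper95Cen Cfsg.Agent.Lib.Helper95SpStd

theorem gen {F : Type*} [Field F] [Fintype F] (m : ℕ) (hm : 5 ≤ m) (W : Submodule F (Fin m ⊕ Fin m → F)) (hW0 : W ≠ ⊥) (hW : Cfsg.Geo.IsNondegenerateOn (Cfsg.sympForm m F) W) (hdim : Module.finrank F W < m) : Cfsg.Geo.IsMaximalIn (Cfsg.spGL m F) (Cfsg.Geo.subspaceStabilizer W ⊓ Cfsg.spGL m F) := by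
  have hnd : nd (stdB F m) W := by
    intro x hx h
    by_contra hx0
    obtain ⟨y, hy, hxy⟩ := (hW x hx hx0).2
    exact hxy (h y hy)
  have hfin : finrank F (Fin m ⊕ Fin m → F) = 2 * m := by
    rw [Module.finrank_fintype_fun_eq_card, Fintype.card_sum, Fintype.card_fin]
    ring
  have hdim' : 2 * finrank F W < finrank F (Fin m ⊕ Fin m → F) := by omega
  apply sp_maximal
  · obtain ⟨e, he, hne⟩ := exists_not_stab (stdB_nondegenerate m) (stdB_isAlt m) W hnd hW0 hdim'
    refine ⟨e, he, fun h => hne fun x hx => ?_⟩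
    have := ((mem_subspaceStabilizer_iff W _).1 h x).1 hx
    rwa [mkGL_mulVec] at this
  · intro M hM hMiso g hgM hgX
    refine cen_univ (stdB_nondegenerate m) (stdB_isAlt m) W hnd hdim' M ?_ hMiso g hgM ?_
    · intro e he heW
      refine hM e he (mem_subspaceStabilizer_of_le W _ ?_)
      intro v hv
      rw [mkGL_mulVec]
      exact heW v hv
    · intro h
      apply hgX
      refine mem_subspaceStabilizer_of_le W _ ?_
      intro v hv
      rw [mkGL_mulVec]
      exact h v hv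

end Cfsg.Agent.Lib.H99G5646
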