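import Cfsg.Agent.S5650

/-! `S5650` for `5 ≤ m` (same proof). -/

set_option autoImplicit false
open Cfsg

namespace Cfsg.Agent.Lib.H99G5650

open Cfsg.Agent.S5650

theorem gen {F : Type*} [Field F] [Fintype F] (m : ℕ) (hm : 5 ≤ m) (F₀ : Subfield F) (r : ℕ) (hr : r.Prime) (hcard : Fintype.card F = Nat.card F₀ ^ r) (P : Matrix.GeneralLinearGroup (Fin m ⊕ Fin m) F) (ζ : F) (hζ : ζ ≠ 0) (hP : Cfsg.Geo.IsFormRationalStructure (Cfsg.sympForm m F) F₀ ζ P) : Cfsg.Geo.IsMaximalIn (Cfsg.spGL m F) (Cfsg.Geo.subfieldSubgroup F₀ P ⊓ Cfsg.spGL m F) := by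
  exact Cfsg.Agent.Lib.Helper99SubfieldSpRed.subfield_sp_maximal r hr hcard (by omega) P ζ hζ hP

end Cfsg.Agent.Lib.H99G5650
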