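import Cfsg.Agent.S5652

/-! `S5652` for `5 ≤ m` (same proof). -/

set_option autoImplicit false
open Cfsg

namespace Cfsg.Agent.Lib.H99G5652

open Cfsg.Agent.S5652

open Module Cfsg.Agent.Lib.Helper95Basic Cfsg.Agent.Lib.Helper95Sp Cfsg.Agent.Lib.Helper95Form
  Cfsg.Agent.Lib.Helper95Cen Cfsg.Agent.Lib.Helper95SpStd

theorem gen {F : Type*} [Field F] [Fintype F] (m : ℕ) (hm : 5 ≤ m) (heven : ¬ Odd (Fintype.card F)) (Q : (Fin m ⊕ Fin m → F) → F) (hQ : Cfsg.Geo.IsNondegenerateQuadraticForm Q) (hpol : ∀ u v, QuadraticMap.polar Q u v = Cfsg.sympForm m F u v) : Cfsg.Geo.IsMaximalIn (Cfsg.spGL m F) (Cfsg.Geo.quadSimilarityGroup Q ⊓ Cfsg.spGL m F) := by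
  have hchar : ringChar F = 2 := by
    rw [FiniteField.even_card_iff_char_two]
    rcases Nat.even_or_odd (Fintype.card F) with h | h
    · exact Nat.even_iff.1 h
    · exact absurd h heven
  haveI : CharP F 2 := hchar ▸ ringChar.charP F
  have hqd : QD (stdB F m) Q :=
    { two := CharTwo.two_eq_zero
      perf := fun a => by
        obtain ⟨b, hb⟩ := FiniteField.isSquare_of_char_two hchar a
        exact ⟨b, hb.symm⟩
      smul := hQ.smul
      add := fun x y => by
        have := hpol x y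
        rw [QuadraticMap.polar] at this
        rw [stdB_apply, ← this]
        ring }
  have hfin : finrank F (Fin m ⊕ Fin m → F) = 2 * m := by
    rw [Module.finrank_fintype_fun_eq_card, Fintype.card_sum, Fintype.card_fin]
    ring
  have hdim : 7 ≤ finrank F (Fin m ⊕ Fin m → F) := by omega
  -- similarities of Q inside Sp are isometries of Q
  have hsim : ∀ e : (Fin m ⊕ Fin m → F) ≃ₗ[F] (Fin m ⊕ Fin m → F),
      (∀ u v, stdB F m (e u) (e v) = stdB F m u v) → mkGL e ∈ Cfsg.Geo.quadSimilarityGroup Q →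
      ∀ x, Q (e x) = Q x := by
    intro e he hmem x
    obtain ⟨c, hc⟩ := hmem
    simp only [mkGL_mulVec] at hc
    obtain ⟨a, ha⟩ : ∃ a : Fin m ⊕ Fin m → F, a ≠ 0 := by
      haveI : Nonempty (Fin m ⊕ Fin m) := ⟨Sum.inl ⟨0, by omega⟩⟩
      exact exists_ne 0
    obtain ⟨b, hb⟩ : ∃ b, stdB F m a b ≠ 0 := by
      by_contra hcon
      push Not at hcon
      exact ha ((stdB_nondegenerate m).1 a hcon)
    have h1 := hqd.add (e a) (e b)
    rw [← map_add, hc, hc, hc, he, hqd.add] at h1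
    have h2 : ((c : F) - 1) * stdB F m a b = 0 := by linear_combination h1
    rcases mul_eq_zero.1 h2 with h3 | h3
    · rw [hc, sub_eq_zero.1 h3, one_mul]
    · exact absurd h3 hb
  apply sp_maximal
  · obtain ⟨e, he, hne⟩ := exists_not_isom hqd (stdB_nondegenerate m) (stdB_isAlt m) hdim
    exact ⟨e, he, fun h => hne (hsim e he h)⟩
  · intro M hM hMiso g hgM hgX
    refine cen_univ hqd (stdB_nondegenerate m) (stdB_isAlt m) hdim M ?_ hMiso g hgM ?_
    · intro e he heQ
      refine hM e he ⟨1, fun v => ?_⟩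
      rw [mkGL_mulVec, heQ, Units.val_one, one_mul]
    · intro h
      apply hgX
      refine ⟨1, fun v => ?_⟩
      rw [mkGL_mulVec, h, Units.val_one, one_mul]

end Cfsg.Agent.Lib.H99G5652
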