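import Cfsg.Agent.S5664

/-! `S5664` for `5 ≤ m` (same proof). -/

set_option autoImplicit false
open Cfsg

namespace Cfsg.Agent.Lib.H99G5664

open Cfsg.Agent.S5664

theorem gen {F : Type*} [Field F] [Fintype F] (m : ℕ) (hm : 5 ≤ m) (r : ℕ) (hr : r.Prime) (K : Subalgebra F (Matrix (Fin m ⊕ Fin m) (Fin m ⊕ Fin m) F)) (hK : Cfsg.Geo.IsFieldSubalgebra r K) (hsa : Cfsg.Geo.IsSelfAdjointFor (Cfsg.sympForm m F) K) (halt : ∀ k ∈ K, ∀ v : (Fin m ⊕ Fin m → F), Cfsg.sympForm m F (Matrix.mulVec k v) v = 0) : Cfsg.Geo.IsMaximalIn (Cfsg.spGL m F) (Cfsg.Geo.subalgebraNormalizer K ⊓ Cfsg.spGL m F) := by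
  exact Cfsg.Agent.Lib.Helper96SpxMat.sp_ext_maximal m (by omega) r hr K hK hsa halt

end Cfsg.Agent.Lib.H99G5664
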