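import Cfsg.Agent.Lib.Helper99TDefs

/-!
# PROJECT 99 (T1: `O₃ ⊗ Sp_b < Sp_3b`), piece `AlgSk`
-/

set_option autoImplicit false
set_option linter.unusedSectionVars false
set_option linter.unusedVariables false

namespace Cfsg.Agent.Lib.H99TAlgSk

open scoped Matrix Kronecker
open Matrix Cfsg.Agent.Lib.Helper49TDefs Cfsg.Agent.Lib.Helper49SDefs Cfsg.Agent.Lib.Helper49ODefs
  Cfsg.Agent.Lib.Helper99TDefs

variable {F : Type*} [Field F] {a b n : ℕ}

local notation "GLn" => Matrix.GeneralLinearGroup (Fin a × Fin b) F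
local notation "Mn" => Matrix (Fin a × Fin b) (Fin a × Fin b) F
local notation "Ma" => Matrix (Fin a) (Fin a) F
local notation "Mb" => Matrix (Fin b) (Fin b) F
local notation "GLa" => Matrix.GeneralLinearGroup (Fin a) F
local notation "GLb" => Matrix.GeneralLinearGroup (Fin b) F

/-- the square of a nonzero skew-adjoint endomorphism of a 3-dimensional orthogonal space is not
a scalar -/
theorem sq_nonscalar {J : Matrix (Fin 3) (Fin 3) F} (hJ : IsSymmMat J) (h2 : (2 : F) ≠ 0)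
    (σ : Matrix (Fin 3) (Fin 3) F) (hσ : σ ≠ 0)
    (hsk : ∀ x y, bf J (σ *ᵥ x) y = - bf J x (σ *ᵥ y)) : ∀ k : F, σ * σ ≠ k • 1 := by
  classical
  intro k hk
  -- the matrix identity
  have hM : σᵀ * J = -(J * σ) := by
    ext i j
    have h := hsk (Pi.single i 1) (Pi.single j 1)
    simp only [bf, Matrix.mulVec_mulVec] at h
    rw [Matrix.dotProduct_mulVec, Matrix.vecMul_mulVec] at h

    simpa [Matrix.mulVec_single_one] using h
  -- `det σ = 0`
  have hdet : σ.det = 0 := by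
    have h1 := congrArg Matrix.det hM
    rw [Matrix.det_mul, Matrix.det_transpose, Matrix.det_neg, Matrix.det_mul] at h1
    simp only [Fintype.card_fin] at h1
    have h3 : (2 : F) * (σ.det * J.det) = 0 := by linear_combination h1
    rcases mul_eq_zero.mp ((mul_eq_zero.mp h3).resolve_left h2) with h4 | h4
    · exact h4
    · exact absurd h4 hJ.unit.ne_zero
  obtain ⟨v, hv0, hv⟩ := Matrix.exists_mulVec_eq_zero_iff.mpr hdet
  have hk0 : k = 0 := by
    have h1 : (σ * σ) *ᵥ v = 0 := by rw [← Matrix.mulVec_mulVec, hv, Matrix.mulVec_zero]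
    rw [hk, Matrix.smul_mulVec, Matrix.one_mulVec] at h1
    exact (smul_eq_zero.mp h1).resolve_right hv0
  have hσ2 : σ * σ = 0 := by rw [hk, hk0, zero_smul]
  have hr : σ.rank + σ.rank ≤ 3 := by
    simpa using Matrix.rank_add_rank_le_card_of_mul_eq_zero hσ2
  have hr1 : Module.finrank F (LinearMap.range σ.mulVecLin) ≤ 1 := by
    have : σ.rank ≤ 1 := by omega
    exact this
  obtain ⟨⟨v₀, hv₀⟩, hv₀s⟩ := finrank_le_one_iff.mp hr1
  have hspan : ∀ y, ∃ c : F, c • v₀ = σ *ᵥ y := by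
    intro y
    obtain ⟨c, hc⟩ := hv₀s ⟨σ *ᵥ y, ⟨y, rfl⟩⟩
    exact ⟨c, congrArg Subtype.val hc⟩
  obtain ⟨y₁, hy₁⟩ : ∃ y₁, σ *ᵥ y₁ ≠ 0 := by
    by_contra hcon
    push Not at hcon
    apply hσ
    apply Matrix.toLin'.injective
    apply LinearMap.ext
    intro y
    rw [Matrix.toLin'_apply, hcon y]
    simp
  have hv₀0 : v₀ ≠ 0 := by
    rintro rfl
    obtain ⟨c, hc⟩ := hspan y₁
    rw [smul_zero] at hc
    exact hy₁ hc.symm
  have hself : ∀ y, bf J (σ *ᵥ y) y = 0 := by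
    intro y
    have h1 := hsk y y
    rw [hJ.symm y (σ *ᵥ y)] at h1
    have h3 : (2 : F) * bf J (σ *ᵥ y) y = 0 := by linear_combination h1
    exact (mul_eq_zero.mp h3).resolve_left h2
  have halt : ∀ y, σ *ᵥ y = 0 ∨ bf J v₀ y = 0 := by
    intro y
    obtain ⟨c, hc⟩ := hspan y
    have h1 := hself y
    rw [← hc, bf_smul_left] at h1
    rcases mul_eq_zero.mp h1 with h3 | h3
    · left
      rw [← hc, h3, zero_smul]
    · exact Or.inr h3
  obtain ⟨y₂, hy₂⟩ := hJ.exists_ne_zero hv₀0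
  rw [hJ.symm] at hy₂
  have h1 : bf J v₀ y₁ = 0 := (halt y₁).resolve_left hy₁
  have h3 : σ *ᵥ y₂ = 0 := (halt y₂).resolve_right (by rw [hy₂]; exact one_ne_zero)
  rcases halt (y₁ + y₂) with h4 | h4
  · rw [Matrix.mulVec_add, h3, add_zero] at h4
    exact hy₁ h4
  · rw [bf_add_right, h1, hy₂, zero_add] at h4
    exact one_ne_zero h4

end Cfsg.Agent.Lib.H99TAlgSk
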