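import Cfsg.Agent.Lib.Helper99TDefs
import Cfsg.Agent.Lib.H49USing

/-!
# PROJECT 99 (T1: `O₃ ⊗ Sp_b < Sp_3b`), piece `Sing`
-/

set_option autoImplicit false
set_option linter.unusedSectionVars false
set_option linter.unusedVariables false

namespace Cfsg.Agent.Lib.H99TSing

open scoped Matrix Kronecker
open Matrix Cfsg.Agent.Lib.Helper49TDefs Cfsg.Agent.Lib.Helper49SDefs Cfsg.Agent.Lib.Helper49ODefs
  Cfsg.Agent.Lib.Helper99TDefs

variable {F : Type*} [Field F] {a b n : ℕ}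

local notation "GLn" => Matrix.GeneralLinearGroup (Fin a × Fin b) F
local notation "Mn" => Matrix (Fin a × Fin b) (Fin a × Fin b) F
local notation "Ma" => Matrix (Fin a) (Fin a) F
local notation "Mb" => Matrix (Fin b) (Fin b) F
local notation "GLa" => Matrix.GeneralLinearGroup (Fin a) F
local notation "GLb" => Matrix.GeneralLinearGroup (Fin b) F

/-- a nondegenerate symmetric form in dimension `≥ 3` over a finite field is isotropic -/
theorem exists_singular [Fintype F] {J : Matrix (Fin n) (Fin n) F} (hJ : IsSymmMat J)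
    (h2 : (2 : F) ≠ 0) (hn : 3 ≤ n) : ∃ x : Fin n → F, x ≠ 0 ∧ bf J x x = 0 :=
  Cfsg.Agent.Lib.H49USing.exists_sing hJ hn

/-- hyperbolic partner -/
theorem exists_hyp {J : Matrix (Fin n) (Fin n) F} (hJ : IsSymmMat J) (h2 : (2 : F) ≠ 0)
    {x : Fin n → F} (hx : x ≠ 0) (hxx : bf J x x = 0) :
    ∃ y : Fin n → F, bf J y y = 0 ∧ bf J x y = 1 := by
  obtain ⟨d, hd, hd1⟩ := Cfsg.Agent.Lib.H49USing.exists_hyp hJ h2 hx hxx
  exact ⟨d, hd, by rw [hJ.symm]; exact hd1⟩

end Cfsg.Agent.Lib.H99TSing
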