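import Cfsg.Agent.Lib.Helper99TDefs
import Cfsg.Agent.Lib.H99TSing
import Cfsg.Agent.Lib.H49USing

/-!
# PROJECT 99 (T1: `O₃ ⊗ Sp_b < Sp_3b`), piece `Basis3`
-/

set_option autoImplicit false
set_option linter.unusedSectionVars false
set_option linter.unusedVariables false

namespace Cfsg.Agent.Lib.H99TBasis3

open scoped Matrix Kronecker
open Matrix Cfsg.Agent.Lib.Helper49TDefs Cfsg.Agent.Lib.Helper49SDefs Cfsg.Agent.Lib.Helper49ODefs
  Cfsg.Agent.Lib.Helper99TDefs
open Cfsg.Agent.Lib.H99TSing

variable {F : Type*} [Field F] {a b n : ℕ}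

local notation "GLn" => Matrix.GeneralLinearGroup (Fin a × Fin b) F
local notation "Mn" => Matrix (Fin a × Fin b) (Fin a × Fin b) F
local notation "Ma" => Matrix (Fin a) (Fin a) F
local notation "Mb" => Matrix (Fin b) (Fin b) F
local notation "GLa" => Matrix.GeneralLinearGroup (Fin a) F
local notation "GLb" => Matrix.GeneralLinearGroup (Fin b) F

/-- a basis of singular vectors of a 3-dimensional space and a fourth singular vector in general
position -/
theorem exists_sing_basis [Fintype F] {J : Matrix (Fin 3) (Fin 3) F} (hJ : IsSymmMat J)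
    (h2 : (2 : F) ≠ 0) :
    ∃ (s : Fin 3 → Fin 3 → F) (k : Fin 3 → F), LinearIndependent F s ∧
      (∀ i, bf J (s i) (s i) = 0) ∧ (∀ i, k i ≠ 0) ∧
      bf J (∑ i, k i • s i) (∑ i, k i • s i) = 0 := by
  obtain ⟨e, he0, hee⟩ := exists_singular hJ h2 (le_refl 3)
  obtain ⟨f, hff, hef⟩ := exists_hyp hJ h2 he0 hee
  obtain ⟨w, hwe, hww⟩ := Cfsg.Agent.Lib.H49USing.exists_ns_perp hJ h2 (le_refl 3) he0 hee
  have hfe : bf J f e = 1 := by rw [hJ.symm]; exact hef
  have hew : bf J e w = 0 := by rw [hJ.symm]; exact hwe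
  obtain ⟨d, hd⟩ : ∃ d, d = w - bf J w f • e := ⟨_, rfl⟩
  have hde : bf J d e = 0 := by
    rw [hd, bf_sub_left, bf_smul_left, hwe, hee]; ring
  have hdf : bf J d f = 0 := by
    rw [hd, bf_sub_left, bf_smul_left, hef]; ring
  have hdd : bf J d d ≠ 0 := by
    have : bf J d d = bf J w w := by
      rw [hd]
      simp only [bf_sub_left, bf_sub_right, bf_smul_left, bf_smul_right, hwe, hew, hee]
      ring
    rw [this]
    exact hww
  have hed : bf J e d = 0 := by rw [hJ.symm]; exact hde
  have hfd : bf J f d = 0 := by rw [hJ.symm]; exact hdf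
  obtain ⟨l, hl⟩ : ∃ l : F, l = - bf J d d / 2 := ⟨_, rfl⟩
  have hl2 : 2 * l + bf J d d = 0 := by
    rw [hl]; field_simp; ring
  have hl0 : l ≠ 0 := by
    intro h0
    rw [h0] at hl2
    apply hdd
    simpa using hl2
  refine ⟨![e, f, e + l • f + d], ![2, 2 * l, -1], ?_, ?_, ?_, ?_⟩
  · rw [Fintype.linearIndependent_iff]
    intro g hg
    rw [Fin.sum_univ_three] at hg
    simp only [Matrix.cons_val_zero, Matrix.cons_val_one, Matrix.cons_val_two, Matrix.head_cons,
      Matrix.tail_cons] at hg
    have h2' : g 2 = 0 := by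
      have h1 := congrArg (fun z => bf J z d) hg
      simp only [bf_add_left, bf_smul_left, bf_zero_left, hed, hfd, mul_zero, zero_add,
        add_zero] at h1
      rcases mul_eq_zero.mp h1 with h3 | h3
      · exact h3
      · exact absurd h3 hdd
    have h0' : g 0 = 0 := by
      have h1 := congrArg (fun z => bf J z f) hg
      simp only [bf_add_left, bf_smul_left, bf_zero_left, hef, hff, hdf, h2', mul_zero, zero_mul,
        add_zero, mul_one] at h1
      exact h1
    have h1' : g 1 = 0 := by
      have h1 := congrArg (fun z => bf J z e) hg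
      simp only [bf_add_left, bf_smul_left, bf_zero_left, hee, hfe, hde, h2', mul_zero, zero_mul,
        add_zero, mul_one, zero_add] at h1
      exact h1
    intro i
    fin_cases i
    · exact h0'
    · exact h1'
    · exact h2'
  · intro i
    fin_cases i
    · exact hee
    · exact hff
    · show bf J (e + l • f + d) (e + l • f + d) = 0
      simp only [bf_add_left, bf_add_right, bf_smul_left, bf_smul_right, hee, hff, hef, hfe, hed,
        hde, hfd, hdf]
      linear_combination hl2
  · intro i
    fin_cases i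
    · exact h2
    · exact mul_ne_zero h2 hl0
    · show (-1 : F) ≠ 0
      exact neg_ne_zero.mpr one_ne_zero
  · rw [Fin.sum_univ_three]
    simp only [Matrix.cons_val_zero, Matrix.cons_val_one, Matrix.cons_val_two, Matrix.head_cons,
      Matrix.tail_cons]
    simp only [bf_add_left, bf_add_right, bf_smul_left, bf_smul_right, hee, hff, hef, hfe, hed,
      hde, hfd, hdf]
    linear_combination hl2

end Cfsg.Agent.Lib.H99TBasis3
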