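import Cfsg.Agent.Lib.Helper99TDefs
import Cfsg.Agent.Lib.H99TEOiso
import Cfsg.Agent.Lib.H49USing

/-!
# PROJECT 99 (T1: `O₃ ⊗ Sp_b < Sp_3b`), piece `EOfix`
-/

set_option autoImplicit false
set_option linter.unusedSectionVars false
set_option linter.unusedVariables false

namespace Cfsg.Agent.Lib.H99TEOfix

open scoped Matrix Kronecker
open Matrix Cfsg.Agent.Lib.Helper49TDefs Cfsg.Agent.Lib.Helper49SDefs Cfsg.Agent.Lib.Helper49ODefs
  Cfsg.Agent.Lib.Helper99TDefs
open Cfsg.Agent.Lib.H99TEOiso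

variable {F : Type*} [Field F] {a b n : ℕ}

local notation "GLn" => Matrix.GeneralLinearGroup (Fin a × Fin b) F
local notation "Mn" => Matrix (Fin a × Fin b) (Fin a × Fin b) F
local notation "Ma" => Matrix (Fin a) (Fin a) F
local notation "Mb" => Matrix (Fin b) (Fin b) F
local notation "GLa" => Matrix.GeneralLinearGroup (Fin a) F
local notation "GLb" => Matrix.GeneralLinearGroup (Fin b) F

/-- the common fixed vectors of the `EO J c w`, `w ⊥ c`, are the multiples of `c` (`n ≥ 3`) -/
theorem fix_EO {J : Matrix (Fin n) (Fin n) F} (hJ : IsSymmMat J) (h2 : (2 : F) ≠ 0) (hn : 3 ≤ n)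
    {c : Fin n → F} (hc0 : c ≠ 0) (hc : bf J c c = 0) (v : Fin n → F)
    (h : ∀ w, bf J w c = 0 → EO J c w *ᵥ v = v) : ∃ k : F, v = k • c := by
  have h' : ∀ w, bf J w c = 0 →
      bf J v w • c - bf J v c • w - (bf J w w / 2 * bf J v c) • c = 0 := by
    intro w hw
    have h1 := h w hw
    rw [EO_mulVec] at h1
    have h3 : v + (bf J v w • c - bf J v c • w - (bf J w w / 2 * bf J v c) • c) = v := by
      refine Eq.trans ?_ h1
      abel
    exact add_eq_left.mp h3
  have hvc : bf J v c = 0 := by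
    obtain ⟨w, hw, hww⟩ := Cfsg.Agent.Lib.H49USing.exists_ns_perp hJ h2 hn hc0 hc
    have h1 := congrArg (fun z => bf J z w) (h' w hw)
    simp only [bf_sub_left, bf_smul_left, bf_zero_left, hJ.symm c w, hw, mul_zero, zero_sub,
      sub_zero, neg_eq_zero] at h1
    rcases mul_eq_zero.mp h1 with h3 | h3
    · exact h3
    · exact absurd h3 hww
  have hperp : ∀ w, bf J w c = 0 → bf J v w = 0 := by
    intro w hw
    have h1 := h' w hw
    rw [hvc, zero_smul, mul_zero, zero_smul, sub_zero, sub_zero] at h1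
    rcases smul_eq_zero.mp h1 with h3 | h3
    · exact h3
    · exact absurd h3 hc0
  obtain ⟨d, hd⟩ := hJ.exists_ne_zero hc0
  refine ⟨bf J v d, ?_⟩
  rw [← sub_eq_zero]
  apply hJ.eq_zero_of_left
  intro x
  have h1 := hperp (x - bf J x c • d) (by rw [bf_sub_left, bf_smul_left, hd, mul_one, sub_self])
  rw [bf_sub_right, bf_smul_right] at h1
  rw [bf_sub_left, bf_smul_left, hJ.symm c x]
  linear_combination h1

end Cfsg.Agent.Lib.H99TEOfix
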