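import Cfsg.Agent.Lib.Helper99TDefs
import Cfsg.Agent.Lib.Helper14TTransport

/-!
# PROJECT 99, piece `Transport` (model: the landed `H49STransport.lean`, with `Fin n` replaced by
`Fin m ⊕ Fin m` and `omega_map` by the direct statement `(SG D).map φ = spGL m F`)
-/

set_option autoImplicit false
set_option linter.unusedSectionVars false
set_option linter.unusedVariables false

namespace Cfsg.Agent.Lib.H99TTransport

open scoped Matrix Kronecker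
open Matrix Cfsg.Agent.Lib.Helper49TDefs Cfsg.Agent.Lib.Helper49SDefs Cfsg.Agent.Lib.Helper49ODefs

variable {F : Type*} [Field F] {a b : ℕ}

local notation "GLn" => Matrix.GeneralLinearGroup (Fin a × Fin b) F
local notation "Mn" => Matrix (Fin a × Fin b) (Fin a × Fin b) F

private theorem reindex_mulVec {m : ℕ} (e : (Fin m ⊕ Fin m) ≃ Fin a × Fin b) (g : GLn)
    (x : Fin a × Fin b → F) :
    ((Cfsg.Geo.glReindex e.symm g : Matrix.GeneralLinearGroup (Fin m ⊕ Fin m) F) :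
      Matrix (Fin m ⊕ Fin m) (Fin m ⊕ Fin m) F) *ᵥ (x ∘ e) = ((g : Mn) *ᵥ x) ∘ e := by
  change (Matrix.reindexAlgEquiv F F e.symm (g : Mn)) *ᵥ (x ∘ e) = _
  ext i
  simp only [Matrix.mulVec, dotProduct, Function.comp_apply, Matrix.coe_reindexAlgEquiv,
    Matrix.reindex_apply, Matrix.submatrix_apply, Equiv.symm_symm]
  exact Equiv.sum_comp e (fun q => (g : Mn) (e i) q * x q)

/-- the transport isomorphism -/
private noncomputable def phi {m : ℕ} (e : (Fin m ⊕ Fin m) ≃ Fin a × Fin b)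
    (P : Matrix.GeneralLinearGroup (Fin m ⊕ Fin m) F) :
    GLn ≃* Matrix.GeneralLinearGroup (Fin m ⊕ Fin m) F :=
  (Cfsg.Geo.glReindex e.symm).trans (MulAut.conj P)

private theorem phi_mulVec {m : ℕ} (e : (Fin m ⊕ Fin m) ≃ Fin a × Fin b)
    (P : Matrix.GeneralLinearGroup (Fin m ⊕ Fin m) F)
    (g : GLn) (x : Fin a × Fin b → F) :
    ((phi e P g : Matrix.GeneralLinearGroup (Fin m ⊕ Fin m) F) :
      Matrix (Fin m ⊕ Fin m) (Fin m ⊕ Fin m) F) *ᵥ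
      ((P : Matrix (Fin m ⊕ Fin m) (Fin m ⊕ Fin m) F) *ᵥ (x ∘ e)) =
      (P : Matrix (Fin m ⊕ Fin m) (Fin m ⊕ Fin m) F) *ᵥ (((g : Mn) *ᵥ x) ∘ e) := by
  have h1 : phi e P g = P * Cfsg.Geo.glReindex e.symm g * P⁻¹ := rfl
  have h2 : ((P⁻¹ : Matrix.GeneralLinearGroup (Fin m ⊕ Fin m) F) :
      Matrix (Fin m ⊕ Fin m) (Fin m ⊕ Fin m) F) *
      (P : Matrix (Fin m ⊕ Fin m) (Fin m ⊕ Fin m) F) = 1 := by
    rw [← Units.val_mul, inv_mul_cancel, Units.val_one]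
  rw [h1, Units.val_mul, Units.val_mul, Matrix.mulVec_mulVec, mul_assoc, h2, mul_one,
    ← Matrix.mulVec_mulVec, reindex_mulVec]

private theorem exists_rep {m : ℕ} (e : (Fin m ⊕ Fin m) ≃ Fin a × Fin b)
    (P : Matrix.GeneralLinearGroup (Fin m ⊕ Fin m) F)
    (v : Fin m ⊕ Fin m → F) : ∃ x : Fin a × Fin b → F,
      v = (P : Matrix (Fin m ⊕ Fin m) (Fin m ⊕ Fin m) F) *ᵥ (x ∘ e) := by
  refine ⟨(((P⁻¹ : Matrix.GeneralLinearGroup (Fin m ⊕ Fin m) F) :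
    Matrix (Fin m ⊕ Fin m) (Fin m ⊕ Fin m) F) *ᵥ v) ∘ e.symm, ?_⟩
  have : ((((P⁻¹ : Matrix.GeneralLinearGroup (Fin m ⊕ Fin m) F) :
      Matrix (Fin m ⊕ Fin m) (Fin m ⊕ Fin m) F) *ᵥ v) ∘ e.symm) ∘ e
      = ((P⁻¹ : Matrix.GeneralLinearGroup (Fin m ⊕ Fin m) F) :
        Matrix (Fin m ⊕ Fin m) (Fin m ⊕ Fin m) F) *ᵥ v := by
    ext i; simp
  rw [this, Matrix.mulVec_mulVec, ← Units.val_mul, mul_inv_cancel, Units.val_one,
    Matrix.one_mulVec]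

private theorem mem_spGL {m : ℕ} (k : Matrix.GeneralLinearGroup (Fin m ⊕ Fin m) F) :
    k ∈ Cfsg.spGL m F ↔ ∀ u v, Cfsg.sympForm m F
      ((k : Matrix (Fin m ⊕ Fin m) (Fin m ⊕ Fin m) F) *ᵥ u)
      ((k : Matrix (Fin m ⊕ Fin m) (Fin m ⊕ Fin m) F) *ᵥ v) = Cfsg.sympForm m F u v := Iff.rfl

private theorem iso_map {m : ℕ} (e : (Fin m ⊕ Fin m) ≃ Fin a × Fin b)
    (P : Matrix.GeneralLinearGroup (Fin m ⊕ Fin m) F) (D : SoDat F a b)
    (hD : ∀ x y, D.f x y =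
      Cfsg.sympForm m F ((P : Matrix (Fin m ⊕ Fin m) (Fin m ⊕ Fin m) F) *ᵥ (x ∘ e))
        ((P : Matrix (Fin m ⊕ Fin m) (Fin m ⊕ Fin m) F) *ᵥ (y ∘ e))) :
    (SG D).map (phi e P).toMonoidHom = Cfsg.spGL m F := by
  ext k
  simp only [Subgroup.mem_map, MulEquiv.coe_toMonoidHom]
  constructor
  · rintro ⟨g, hg, rfl⟩
    rw [mem_spGL]
    intro u v
    obtain ⟨x, rfl⟩ := exists_rep e P u
    obtain ⟨y, rfl⟩ := exists_rep e P v
    rw [phi_mulVec, phi_mulVec, ← hD, ← hD]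
    exact (mem_IG.1 hg) x y
  · intro hk
    refine ⟨(phi e P).symm k, ?_, by simp⟩
    rw [mem_spGL] at hk
    show _ ∈ IG D.J₁ D.J₂
    rw [mem_IG]
    intro x y
    have h1 := hD (((((phi e P).symm k : GLn) : Mn)) *ᵥ x) (((((phi e P).symm k : GLn) : Mn)) *ᵥ y)
    rw [← phi_mulVec, ← phi_mulVec, MulEquiv.apply_symm_apply, hk, ← hD] at h1
    exact h1

private theorem KS_map {m : ℕ} (e : (Fin m ⊕ Fin m) ≃ Fin a × Fin b)
    (P : Matrix.GeneralLinearGroup (Fin m ⊕ Fin m) F) :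
    (KS a b F).map (phi e P).toMonoidHom = Cfsg.Geo.tensorProductSubgroup a b e P := by
  unfold Cfsg.Geo.tensorProductSubgroup
  rw [Subgroup.map_map]
  rfl

theorem maximal_of_std3 {m : ℕ} (e : (Fin m ⊕ Fin m) ≃ Fin a × Fin b)
    (P : Matrix.GeneralLinearGroup (Fin m ⊕ Fin m) F) (D : SoDat F a b)
    (hD : ∀ x y, D.f x y =
      Cfsg.sympForm m F ((P : Matrix (Fin m ⊕ Fin m) (Fin m ⊕ Fin m) F) *ᵥ (x ∘ e))
        ((P : Matrix (Fin m ⊕ Fin m) (Fin m ⊕ Fin m) F) *ᵥ (y ∘ e)))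
    (h : Cfsg.Geo.IsMaximalIn (SG D) (KS a b F ⊓ SG D)) :
    Cfsg.Geo.IsMaximalIn (Cfsg.spGL m F)
      (Cfsg.Geo.tensorProductSubgroup a b e P ⊓ Cfsg.spGL m F) := by
  have h1 := Cfsg.Agent.Lib.Helper14TTransport.isMaximalIn_map' (phi e P) _ _ h
  rw [Subgroup.map_inf_eq _ _ (phi e P).toMonoidHom (phi e P).injective,
    iso_map e P D hD, KS_map] at h1
  exact h1

end Cfsg.Agent.Lib.H99TTransport
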