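import Cfsg.Agent.Lib.H99TMkDat
import Cfsg.Agent.Lib.H99TTransport
import Cfsg.Agent.Lib.H49UMain

/-!
# `Sp_2(q) ⊗ O_b(q)` is maximal in `Sp_{2b}(q)` (`q` odd, `b ≥ 5`, `4 ∤ b`), frozen form
-/

set_option autoImplicit false

namespace Cfsg.Agent.Lib.H99TFin2

open scoped Matrix Kronecker
open Matrix Cfsg.Agent.Lib.Helper49TDefs Cfsg.Agent.Lib.Helper49SDefs Cfsg.Agent.Lib.Helper49ODefs
open Cfsg.Agent.Lib.H99TMkDat Cfsg.Agent.Lib.H99TTransport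

variable {F : Type*} [Field F]

theorem tensor_sp_o2 [Fintype F] (hodd : Odd (Fintype.card F)) {m b : ℕ} (hb : 5 ≤ b)
    (hdiv : ¬ 4 ∣ b) (e : (Fin m ⊕ Fin m) ≃ Fin 2 × Fin b)
    (P : Matrix.GeneralLinearGroup (Fin m ⊕ Fin m) F) (f₁ : (Fin 2 → F) → (Fin 2 → F) → F)
    (f₂ : (Fin b → F) → (Fin b → F) → F) (hf₁ : Cfsg.Geo.IsSymplecticForm f₁)
    (hf₂ : Cfsg.Geo.IsSymmetricForm f₂)
    (hT : Cfsg.Geo.IsTensorFormStructure id (Cfsg.sympForm m F) f₁ f₂ e P) :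
    Cfsg.Geo.IsMaximalIn (Cfsg.spGL m F)
      (Cfsg.Geo.tensorProductSubgroup 2 b e P ⊓ Cfsg.spGL m F) := by
  have h2F : (2 : F) ≠ 0 := by
    intro h0
    have hch : ringChar F = 2 := by
      have : ringChar F ∣ 2 := (ringChar.spec F 2).1 (by exact_mod_cast h0)
      rcases (Nat.dvd_prime Nat.prime_two).1 this with h | h
      · exact absurd h (CharP.ringChar_ne_one)
      · exact h
    have := FiniteField.even_card_of_char_two hch
    exact (Nat.not_even_iff_odd.2 hodd) (Nat.even_iff.2 this)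
  obtain ⟨D, hD⟩ := exists_dat h2F e P f₁ f₂ hf₁ hf₂ hT
  exact maximal_of_std3 e P D hD (Cfsg.Agent.Lib.H49UMain.maximal_T2 D rfl hb hdiv)

end Cfsg.Agent.Lib.H99TFin2
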