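import Cfsg.Agent.Lib.Helper99TDefs
import Cfsg.Agent.Lib.H99TGood1
import Cfsg.Agent.Lib.H99TGood2
import Cfsg.Agent.Lib.H99TBasis3
import Cfsg.Agent.Lib.H49SGeo
import Cfsg.Agent.Lib.H49SKronKS
import Cfsg.Agent.Lib.Helper13TPure

/-!
# PROJECT 99 (T1: `O₃ ⊗ Sp_b < Sp_3b`), piece `Good3`
-/

set_option autoImplicit false
set_option linter.unusedSectionVars false
set_option linter.unusedVariables false

namespace Cfsg.Agent.Lib.H99TGood3

open scoped Matrix Kronecker
open Matrix Cfsg.Agent.Lib.Helper49TDefs Cfsg.Agent.Lib.Helper49SDefs Cfsg.Agent.Lib.Helper49ODefs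
  Cfsg.Agent.Lib.Helper99TDefs
open Cfsg.Agent.Lib.H99TGood1
open Cfsg.Agent.Lib.H99TGood2
open Cfsg.Agent.Lib.H99TBasis3
open Cfsg.Agent.Lib.H49SGeo
open Cfsg.Agent.Lib.H49SKronKS

variable {F : Type*} [Field F] {a b n : ℕ}

local notation "GLn" => Matrix.GeneralLinearGroup (Fin a × Fin b) F
local notation "Mn" => Matrix (Fin a × Fin b) (Fin a × Fin b) F
local notation "Ma" => Matrix (Fin a) (Fin a) F
local notation "Mb" => Matrix (Fin b) (Fin b) F
local notation "GLa" => Matrix.GeneralLinearGroup (Fin a) F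
local notation "GLb" => Matrix.GeneralLinearGroup (Fin b) F

/-- an element of `GL` mapping all good vectors to pure tensors is a Kronecker product -/
theorem mem_KS_of_good [Fintype F] (D : OsDat F 3 b) (h12 : 3 < b)
    (g : Matrix.GeneralLinearGroup (Fin 3 × Fin b) F)
    (hg : ∀ y, IsGood0 D y →
      IsPure ((g : Matrix (Fin 3 × Fin b) (Fin 3 × Fin b) F) *ᵥ y)) : g ∈ KS 3 b F := by
  classical
  have hb : 0 < b := by omega
  obtain ⟨s, k, hs, hsing, hk, hksing⟩ := exists_sing_basis D.h₁ D.two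
  choose π γ hπ hγi hγ using fun i => step1' h12 g (s i) (hs.ne_zero i)
    (fun w => hg _ ⟨s i, w, hsing i, rfl⟩)
  have hγs : ∀ i, Function.Surjective (γ i) := fun i =>
    LinearMap.injective_iff_surjective.mp (hγi i)
  -- a nonzero vector of `F^b`
  obtain ⟨z, hz⟩ : ∃ z : Fin b → F, z ≠ 0 := by
    refine ⟨Pi.single ⟨0, hb⟩ 1, fun h0 => ?_⟩
    have := congrFun h0 ⟨0, hb⟩
    simp at this
  -- the `π i` are independent
  have hπi : LinearIndependent F π := by
    rw [Fintype.linearIndependent_iff]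
    intro lam hlam
    choose w hw using fun i => hγs i z
    have h1 : (g : Matrix (Fin 3 × Fin b) (Fin 3 × Fin b) F) *ᵥ (∑ i, tens (s i) (lam i • w i))
        = (g : Matrix (Fin 3 × Fin b) (Fin 3 × Fin b) F) *ᵥ 0 := by
      rw [Matrix.mulVec_zero, Matrix.mulVec_sum]
      have h2 : ∀ i, (g : Matrix (Fin 3 × Fin b) (Fin 3 × Fin b) F) *ᵥ tens (s i) (lam i • w i)
          = tens (lam i • π i) z := by
        intro i
        rw [hγ, map_smul, hw, tens_smul_right, tens_smul_left]
      rw [Finset.sum_congr rfl (fun i _ => h2 i)]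
      simp only [Fin.sum_univ_three] at hlam ⊢
      rw [← tens_add_left, ← tens_add_left, hlam, tens_zero_left']
    have h3 := eq_zero_of_sum_tens hs _ (Cfsg.Agent.Lib.Helper13TPure.mulVec_inj g h1)
    intro i
    rcases smul_eq_zero.mp (h3 i) with h4 | h4
    · exact h4
    · exfalso
      apply hz
      rw [← hw i, h4, map_zero]
  -- the `γ i` are proportional
  have hpar : ∀ i w, Cfsg.Agent.Lib.Helper13TPure.Par (γ 0 w) (γ i w) := by
    intro i w
    have h1 := hg (tens (∑ i, k i • s i) w) ⟨_, w, hksing, rfl⟩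
    have h2 : (g : Matrix (Fin 3 × Fin b) (Fin 3 × Fin b) F) *ᵥ tens (∑ i, k i • s i) w
        = ∑ i, tens (π i) (k i • γ i w) := by
      simp only [Fin.sum_univ_three, tens_add_left, tens_smul_left, Matrix.mulVec_add,
        Matrix.mulVec_smul, hγ, tens_smul_right]
    rw [h2] at h1
    have h3 := par_of_pure3 hπi _ h1 0 i
    exact Cfsg.Agent.Lib.Helper13TPure.Par.of_smul_left (hk 0)
      (Cfsg.Agent.Lib.Helper13TPure.Par.of_smul_right (hk i) h3)
  choose l hl using fun i => Cfsg.Agent.Lib.Helper13TPure.exists_smul_of_par (γ 0) (γ i) (hγi 0) hb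
    (hpar i)
  -- the matrices
  let bs := basisOfLinearIndependentOfCardEqFinrank hs (by simp)
  have hbs : ∀ i, bs i = s i := fun i => by
    simp [bs]
  let Al : (Fin 3 → F) →ₗ[F] (Fin 3 → F) := bs.constr F (fun i => l i • π i)
  have hAl : ∀ i, Al (s i) = l i • π i := by
    intro i
    rw [← hbs i]
    exact bs.constr_basis F _ i
  have hA : ∀ x, LinearMap.toMatrix' Al *ᵥ x = Al x := by
    intro x
    rw [← Matrix.toLin'_apply, Matrix.toLin'_toMatrix']
  have hB : ∀ v, LinearMap.toMatrix' (γ 0) *ᵥ v = γ 0 v := by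
    intro v
    rw [← Matrix.toLin'_apply, Matrix.toLin'_toMatrix']
  apply mem_KS_of_kron g (LinearMap.toMatrix' Al) (LinearMap.toMatrix' (γ 0))
  apply ext_tens
  intro x v
  rw [kron_mulVec_tens, hA, hB]
  obtain ⟨c0, c1, c2, rfl⟩ : ∃ c0 c1 c2 : F, x = c0 • s 0 + c1 • s 1 + c2 • s 2 := by
    have hx := (bs.sum_repr x).symm
    simp only [Fin.sum_univ_three, hbs] at hx
    exact ⟨_, _, _, hx⟩
  have e0 : l 0 • tens (π 0) (γ 0 v) = tens (π 0) (γ 0 v) := by
    conv_rhs => rw [hl 0 v, tens_smul_right]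
  simp only [tens_add_left, tens_smul_left, Matrix.mulVec_add, Matrix.mulVec_smul, hγ, map_add,
    map_smul, hAl, hl 1 v, hl 2 v, tens_smul_right, e0]

end Cfsg.Agent.Lib.H99TGood3
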