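import Cfsg.Agent.Lib.Helper99TDefs

/-!
# PROJECT 99, piece `MkDat` (model: the landed `H49SMkDat.lean`)
-/

set_option autoImplicit false
set_option linter.unusedSectionVars false
set_option linter.unusedVariables false

namespace Cfsg.Agent.Lib.H99TMkDat

open scoped Matrix Kronecker
open Matrix Cfsg.Agent.Lib.Helper49TDefs Cfsg.Agent.Lib.Helper49SDefs Cfsg.Agent.Lib.Helper49ODefs

variable {F : Type*} [Field F]

private theorem bf_gram {k : ℕ} {f : (Fin k → F) → (Fin k → F) → F}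
    (hb : Cfsg.Geo.IsBilinearForm f) (x y : Fin k → F) :
    bf (Cfsg.Geo.gramMatrix f) x y = f x y := by
  set B : LinearMap.BilinForm F (Fin k → F) :=
    LinearMap.mk₂ F f hb.add_left hb.smul_left hb.add_right hb.smul_right with hB
  have h1 : Cfsg.Geo.gramMatrix f = LinearMap.BilinForm.toMatrix' B := by
    ext i j
    rw [LinearMap.BilinForm.toMatrix'_apply]
    rfl
  have h2 : bf (Cfsg.Geo.gramMatrix f) x y = Matrix.toBilin' (Cfsg.Geo.gramMatrix f) x y := by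
    rw [Matrix.toBilin'_apply']
    rfl
  rw [h2, h1, Matrix.toBilin'_toMatrix']
  rfl

private theorem formOfGram_eq' {κ : Type} [Fintype κ] [DecidableEq κ] (G : Matrix κ κ F)
    (x y : κ → F) : Cfsg.Geo.formOfGram id G x y = x ⬝ᵥ G *ᵥ y := by
  rw [← Matrix.toBilin'_apply', Matrix.toBilin'_apply]
  rfl

private theorem gram_symp {k : ℕ} {f : (Fin k → F) → (Fin k → F) → F}
    (hf : Cfsg.Geo.IsSymplecticForm f) : IsSympMat (Cfsg.Geo.gramMatrix f) := by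
  refine ⟨fun v => by rw [bf_gram hf.bilinear]; exact hf.alternating v, ?_⟩
  rw [isUnit_iff_ne_zero]
  intro h0
  obtain ⟨v, hv, hv0⟩ := Matrix.exists_mulVec_eq_zero_iff.2 h0
  obtain ⟨⟨x, hx⟩, -⟩ := hf.nondegenerate v hv
  apply hx
  rw [← bf_gram hf.bilinear, bf, hv0, dotProduct_zero]

private theorem gram_symm {k : ℕ} {f : (Fin k → F) → (Fin k → F) → F}
    (hf : Cfsg.Geo.IsSymmetricForm f) : IsSymmMat (Cfsg.Geo.gramMatrix f) := by
  refine ⟨fun x y => by rw [bf_gram hf.bilinear, bf_gram hf.bilinear]; exact hf.symm x y, ?_⟩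
  rw [isUnit_iff_ne_zero]
  intro h0
  obtain ⟨v, hv, hv0⟩ := Matrix.exists_mulVec_eq_zero_iff.2 h0
  obtain ⟨⟨x, hx⟩, -⟩ := hf.nondegenerate v hv
  apply hx
  rw [← bf_gram hf.bilinear, bf, hv0, dotProduct_zero]

private theorem smul_symp {k : ℕ} {J : Matrix (Fin k) (Fin k) F} (hJ : IsSympMat J) {c : F}
    (hc : c ≠ 0) : IsSympMat (c • J) := by
  refine ⟨fun v => ?_, ?_⟩
  · have := hJ.alt v
    unfold bf at this ⊢
    rw [Matrix.smul_mulVec, dotProduct_smul, this, smul_zero]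
  · rw [Matrix.det_smul]
    exact (IsUnit.pow _ (isUnit_iff_ne_zero.2 hc)).mul hJ.unit

/-- `J₁ = c • gramMatrix f₁`, `J₂ = gramMatrix f₂` (`c` from `IsTensorFormStructure`). -/
theorem exists_dat {m n₁ n₂ : ℕ} (h2 : (2 : F) ≠ 0) (e : (Fin m ⊕ Fin m) ≃ Fin n₁ × Fin n₂)
    (P : Matrix.GeneralLinearGroup (Fin m ⊕ Fin m) F) (f₁ : (Fin n₁ → F) → (Fin n₁ → F) → F)
    (f₂ : (Fin n₂ → F) → (Fin n₂ → F) → F) (hf₁ : Cfsg.Geo.IsSymplecticForm f₁)
    (hf₂ : Cfsg.Geo.IsSymmetricForm f₂)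
    (hT : Cfsg.Geo.IsTensorFormStructure id (Cfsg.sympForm m F) f₁ f₂ e P) :
    ∃ D : SoDat F n₁ n₂, ∀ x y, D.f x y =
      Cfsg.sympForm m F ((P : Matrix (Fin m ⊕ Fin m) (Fin m ⊕ Fin m) F) *ᵥ (x ∘ e))
        ((P : Matrix (Fin m ⊕ Fin m) (Fin m ⊕ Fin m) F) *ᵥ (y ∘ e)) := by
  obtain ⟨c, hc, hT⟩ := hT
  refine ⟨⟨c • Cfsg.Geo.gramMatrix f₁, Cfsg.Geo.gramMatrix f₂, smul_symp (gram_symp hf₁) hc,
    gram_symm hf₂, h2⟩, fun x y => ?_⟩
  rw [hT, formOfGram_eq']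
  show fK (c • Cfsg.Geo.gramMatrix f₁) (Cfsg.Geo.gramMatrix f₂) x y = _
  unfold fK
  rw [Matrix.smul_kronecker, Matrix.smul_mulVec, dotProduct_smul, smul_eq_mul]

end Cfsg.Agent.Lib.H99TMkDat
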