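import Cfsg.Agent.Lib.Helper99TDefs
import Cfsg.Agent.Lib.H49SGeo
import Cfsg.Agent.Lib.H49UBasic
import Cfsg.Agent.Lib.H49URankLt
import Cfsg.Agent.Lib.H49SProper

/-!
# PROJECT 99, piece `Proper`
-/

set_option autoImplicit false
set_option linter.unusedSectionVars false
set_option linter.unusedVariables false

namespace Cfsg.Agent.Lib.H99TProper

open scoped Matrix Kronecker
open Matrix Cfsg.Agent.Lib.Helper49TDefs Cfsg.Agent.Lib.Helper49SDefs Cfsg.Agent.Lib.Helper49ODefs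
open Cfsg.Agent.Lib.H49SGeo Cfsg.Agent.Lib.H49UBasic Cfsg.Agent.Lib.H49URankLt

variable {F : Type*} [Field F] {a b : ℕ}

local notation "GLn" => Matrix.GeneralLinearGroup (Fin a × Fin b) F
local notation "Mn" => Matrix (Fin a × Fin b) (Fin a × Fin b) F
local notation "Mb" => Matrix (Fin b) (Fin b) F

/-- the transvection with centre `u ⊗ c` -/
theorem tv_mem (D : SoDat F a b) (u : Fin a → F) (c : Fin b → F) :
    ∃ g ∈ SG D, (g : Mn) = 1 + NJ D.J₁ u u ⊗ₖ NJ D.J₂ c c := by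
  have h : (NJ D.J₁ u u ⊗ₖ NJ D.J₂ c c) * (NJ D.J₁ u u ⊗ₖ NJ D.J₂ c c) = 0 := by
    rw [← Matrix.mul_kronecker_mul, NJ_mul, D.h₁.alt, zero_smul, Matrix.zero_kronecker]
  let g : GLn :=
    { val := 1 + NJ D.J₁ u u ⊗ₖ NJ D.J₂ c c
      inv := 1 - NJ D.J₁ u u ⊗ₖ NJ D.J₂ c c
      val_inv := by
        rw [mul_sub, add_mul, add_mul, one_mul, mul_one, one_mul, h]
        abel
      inv_val := by
        rw [mul_add, sub_mul, sub_mul, one_mul, mul_one, one_mul, h]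
        abel }
  refine ⟨g, ?_, rfl⟩
  apply mem_SG_of_tens
  intro x x' v v'
  change D.f ((1 + NJ D.J₁ u u ⊗ₖ NJ D.J₂ c c) *ᵥ tens x v)
    ((1 + NJ D.J₁ u u ⊗ₖ NJ D.J₂ c c) *ᵥ tens x' v') = _
  simp only [Matrix.add_mulVec, Matrix.one_mulVec, kron_mulVec_tens, NJ_mulVec, fK_add_left,
    fK_add_right, fK_tens, bf_smul_left, bf_smul_right, D.h₁.alt]
  have h2 : bf D.J₂ c v' = bf D.J₂ v' c := D.h₂.symm _ _
  have h3 : bf D.J₁ u x' = - bf D.J₁ x' u := D.h₁.swap _ _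
  rw [h2, h3]
  ring

theorem proper3 (D : SoDat F a b) (ha : 2 ≤ a) (hb : 2 ≤ b) : ¬ SG D ≤ KS a b F := by
  intro hle
  obtain ⟨c, hc⟩ : ∃ c : Fin b → F, c ≠ 0 := by
    refine ⟨Pi.single ⟨0, by omega⟩ 1, ?_⟩
    intro h
    have := congrFun h ⟨0, by omega⟩
    simp at this
  obtain ⟨u, hu⟩ : ∃ u : Fin a → F, u ≠ 0 := by
    refine ⟨Pi.single ⟨0, by omega⟩ 1, ?_⟩
    intro h
    have := congrFun h ⟨0, by omega⟩
    simp at this
  obtain ⟨g, hg, e⟩ := tv_mem D u c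
  have hr : ((g : Mn) - 1).rank < b := by
    rw [e, add_sub_cancel_left, Cfsg.Agent.Lib.H49SProper.proper_kron_NJ]
    exact lt_of_le_of_lt (Matrix.rank_vecMulVec_le _ _) (by omega)
  obtain ⟨w, hw⟩ := eq_one_kron_of_rank_lt g (hle hg) hr
  obtain ⟨d, hd⟩ := D.h₂.exists_ne_zero hc
  obtain ⟨u', hu'⟩ := D.h₁.exists_ne_zero hu
  have key : ∀ x : Fin a → F, tens x d + tens (bf D.J₁ x u • u) c = tens x ((w : Mb) *ᵥ d) := by
    intro x
    have h1 : (g : Mn) *ᵥ tens x d = tens x ((w : Mb) *ᵥ d) := by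
      rw [hw, kron_mulVec_tens, Matrix.one_mulVec]
    rw [← h1, e, Matrix.add_mulVec, Matrix.one_mulVec, kron_mulVec_tens, NJ_mulVec, NJ_mulVec, hd,
      one_smul]
  have k1 := key u
  rw [D.h₁.alt, zero_smul, tens_zero_left', add_zero] at k1
  have k2 : (w : Mb) *ᵥ d = d := by
    have h3 : tens u ((w : Mb) *ᵥ d - d) = 0 := by
      have : tens u ((w : Mb) *ᵥ d - d) = tens u ((w : Mb) *ᵥ d) - tens u d := by
        ext p; simp [tens, mul_sub]
      rw [this, ← k1, sub_self]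
    by_contra hne
    exact Cfsg.Agent.Lib.H49SGeo.tens_ne_zero hu (sub_ne_zero.2 hne) h3
  have k3 := key u'
  rw [hu', one_smul, k2] at k3
  have k4 : tens u c = 0 := by
    have := k3
    exact add_eq_left.1 this
  exact Cfsg.Agent.Lib.H49SGeo.tens_ne_zero hu hc k4

end Cfsg.Agent.Lib.H99TProper
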