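import Cfsg.Agent.Lib.Helper99TDefs
import Cfsg.Agent.Lib.H99TSing

/-!
# PROJECT 99 (T1: `O₃ ⊗ Sp_b < Sp_3b`), piece `Refl`
-/

set_option autoImplicit false
set_option linter.unusedSectionVars false
set_option linter.unusedVariables false

namespace Cfsg.Agent.Lib.H99TRefl

open scoped Matrix Kronecker
open Matrix Cfsg.Agent.Lib.Helper49TDefs Cfsg.Agent.Lib.Helper49SDefs Cfsg.Agent.Lib.Helper49ODefs
  Cfsg.Agent.Lib.Helper99TDefs
open Cfsg.Agent.Lib.H99TSing

variable {F : Type*} [Field F] {a b n : ℕ}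

/-- reflections -/
theorem refl_iso {J : Matrix (Fin n) (Fin n) F} (hJ : IsSymmMat J) {w : Fin n → F}
    (hw : bf J w w ≠ 0) :
    ∃ g : Matrix.GeneralLinearGroup (Fin n) F, IsIso J g ∧
      (g : Matrix (Fin n) (Fin n) F) = 1 - (2 / bf J w w) • NJ J w w := by
  have hRR : (1 - (2 / bf J w w) • NJ J w w) * (1 - (2 / bf J w w) • NJ J w w) = 1 := by
    rw [sub_mul, mul_sub, mul_sub, one_mul, mul_one, one_mul, Matrix.smul_mul, Matrix.mul_smul, NJ_mul,
      smul_smul, smul_smul]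
    have e : 2 / bf J w w * (2 / bf J w w) * bf J w w = 2 / bf J w w + 2 / bf J w w := by
      field_simp
      ring
    rw [e, add_smul]
    abel
  refine ⟨⟨_, _, hRR, hRR⟩, ?_, rfl⟩
  intro x y
  show bf J ((1 - (2 / bf J w w) • NJ J w w) *ᵥ x) ((1 - (2 / bf J w w) • NJ J w w) *ᵥ y) = bf J x y
  simp only [Matrix.sub_mulVec, Matrix.one_mulVec, Matrix.smul_mulVec, NJ_mulVec, bf_sub_left,
    bf_sub_right, bf_smul_left, bf_smul_right]
  rw [hJ.symm w y]
  field_simp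
  ring

theorem iso_mul {J : Matrix (Fin n) (Fin n) F} {g h : Matrix.GeneralLinearGroup (Fin n) F}
    (hg : IsIso J g) (hh : IsIso J h) : IsIso J (g * h) := by
  intro x y
  rw [Units.val_mul, ← Matrix.mulVec_mulVec, ← Matrix.mulVec_mulVec, hg, hh]

theorem step {J : Matrix (Fin n) (Fin n) F} (hJ : IsSymmMat J) (h2 : (2 : F) ≠ 0)
    {x x' : Fin n → F} (hxx : bf J x x = 0) (hxx' : bf J x' x' = 0) (h : bf J x x' ≠ 0) :
    ∃ g : Matrix.GeneralLinearGroup (Fin n) F, IsIso J g ∧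
      (g : Matrix (Fin n) (Fin n) F) *ᵥ x = x' := by
  have hww : bf J (x - x') (x - x') = -2 * bf J x x' := by
    simp only [bf_sub_left, bf_sub_right, hxx, hxx', hJ.symm x' x]
    ring
  have hw : bf J (x - x') (x - x') ≠ 0 := by
    rw [hww]
    exact mul_ne_zero (neg_ne_zero.2 h2) h
  obtain ⟨g, hg, hgv⟩ := refl_iso hJ hw
  refine ⟨g, hg, ?_⟩
  rw [hgv, Matrix.sub_mulVec, Matrix.one_mulVec, Matrix.smul_mulVec, NJ_mulVec, smul_smul, hww]
  have e : 2 / (-2 * bf J x x') * bf J x (x - x') = 1 := by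
    simp only [bf_sub_right, hxx]
    field_simp
    ring
  rw [e, one_smul]
  abel

/-- `O(V₁)` is transitive on the nonzero singular vectors -/
theorem exists_iso_sing {J : Matrix (Fin n) (Fin n) F} (hJ : IsSymmMat J) (h2 : (2 : F) ≠ 0)
    {x x' : Fin n → F} (hx : x ≠ 0) (hx' : x' ≠ 0) (hxx : bf J x x = 0) (hxx' : bf J x' x' = 0) :
    ∃ g : Matrix.GeneralLinearGroup (Fin n) F, IsIso J g ∧
      (g : Matrix (Fin n) (Fin n) F) *ᵥ x = x' := by
  by_cases h : bf J x x' = 0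
  · -- go through a third singular vector
    obtain ⟨z, hzz, hxz, hx'z⟩ : ∃ z, bf J z z = 0 ∧ bf J x z ≠ 0 ∧ bf J x' z ≠ 0 := by
      obtain ⟨y, hyy, hxy⟩ := exists_hyp hJ h2 hx hxx
      obtain ⟨y', hyy', hxy'⟩ := exists_hyp hJ h2 hx' hxx'
      by_cases h1 : bf J x' y = 0
      · by_cases h3 : bf J x y' = 0
        · refine ⟨y + y' - bf J y y' • x, ?_, ?_, ?_⟩
          · simp only [bf_sub_left, bf_sub_right, bf_add_left, bf_add_right, bf_smul_left,
              bf_smul_right, hyy, hyy', hxx, hxy, h3, hJ.symm y x, hJ.symm y' x, hJ.symm y' y]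
            ring
          · simp only [bf_sub_right, bf_add_right, bf_smul_right, hxy, h3, hxx]
            simp
          · simp only [bf_sub_right, bf_add_right, bf_smul_right, hxy', h1, hJ.symm x' x, h]
            simp
        · exact ⟨y', hyy', h3, by rw [hxy']; exact one_ne_zero⟩
      · exact ⟨y, hyy, by rw [hxy]; exact one_ne_zero, h1⟩
    obtain ⟨g1, hg1, hg1x⟩ := step hJ h2 hxx hzz hxz
    obtain ⟨g2, hg2, hg2x⟩ := step hJ h2 hzz hxx' (by rw [hJ.symm]; exact hx'z)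
    refine ⟨g2 * g1, iso_mul hg2 hg1, ?_⟩
    rw [Units.val_mul, ← Matrix.mulVec_mulVec, hg1x, hg2x]
  · exact step hJ h2 hxx hxx' h

end Cfsg.Agent.Lib.H99TRefl
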