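import Cfsg.Agent.Lib.Helper99TDefs
import Cfsg.Agent.Lib.H99TConj
import Cfsg.Agent.Lib.H49SComm
import Cfsg.Agent.Lib.H49SDual
import Cfsg.Agent.Lib.H49SWitt2

/-!
# PROJECT 99 (T1: `O₃ ⊗ Sp_b < Sp_3b`), piece `Skew`
-/

set_option autoImplicit false
set_option linter.unusedSectionVars false
set_option linter.unusedVariables false

namespace Cfsg.Agent.Lib.H99TSkew

open scoped Matrix Kronecker
open Matrix Cfsg.Agent.Lib.Helper49TDefs Cfsg.Agent.Lib.Helper49SDefs Cfsg.Agent.Lib.Helper49ODefs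
  Cfsg.Agent.Lib.Helper99TDefs
open Cfsg.Agent.Lib.H99TConj
open Cfsg.Agent.Lib.H49SComm
open Cfsg.Agent.Lib.H49SDual
open Cfsg.Agent.Lib.H49SWitt2

variable {F : Type*} [Field F] {a b n : ℕ}

local notation "GLn" => Matrix.GeneralLinearGroup (Fin a × Fin b) F
local notation "Mn" => Matrix (Fin a × Fin b) (Fin a × Fin b) F
local notation "Ma" => Matrix (Fin a) (Fin a) F
local notation "Mb" => Matrix (Fin b) (Fin b) F
local notation "GLa" => Matrix.GeneralLinearGroup (Fin a) F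
local notation "GLb" => Matrix.GeneralLinearGroup (Fin b) F

theorem kron_calc (σ ζ : Ma) (A A' N : Mb) (k : F) (h1 : A * A' = k • N) (h2 : A * N = 0)
    (h3 : N * A' = 0) (h4 : N * N = 0) :
    (σ ⊗ₖ A + ζ ⊗ₖ N) * (σ ⊗ₖ A' + ζ ⊗ₖ N) = k • ((σ * σ) ⊗ₖ N) := by
  rw [add_mul, mul_add, mul_add, ← Matrix.mul_kronecker_mul, ← Matrix.mul_kronecker_mul,
    ← Matrix.mul_kronecker_mul, ← Matrix.mul_kronecker_mul, h1, h2, h3, h4,
    Matrix.kronecker_smul, Matrix.kronecker_zero, Matrix.kronecker_zero, Matrix.kronecker_zero]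
  simp

theorem kron_calc2 (τ σ ζ : Ma) (A N : Mb) (h3 : N * A = 0) (h4 : N * N = 0) :
    (τ ⊗ₖ N) * (σ ⊗ₖ A + ζ ⊗ₖ N) = 0 := by
  rw [mul_add, ← Matrix.mul_kronecker_mul, ← Matrix.mul_kronecker_mul, h3, h4,
    Matrix.kronecker_zero, Matrix.kronecker_zero, add_zero]

theorem skew_step (D : OsDat F a b) (H : Subgroup GLn)
    (hMH : KS a b F ⊓ OsG D ≤ H) {c e : Fin b → F} (hce : LinearIndependent F ![c, e])
    (hperp : bf D.J₂ c e = 0) (σ ζ : Ma)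
    (h : σ ⊗ₖ (NJ D.J₂ e c - NJ D.J₂ c e) + ζ ⊗ₖ NJ D.J₂ c c ∈ NN H) :
    ((-2 : F) • (σ * σ)) ⊗ₖ NJ D.J₂ c c ∈ NN H := by
  have hJ := D.h₂
  have hc0 : c ≠ 0 := by
    have := hce.ne_zero 0
    simpa using this
  obtain ⟨e', he'⟩ := exists_bf_eq hJ ![c, e] hce ![0, -1]
  have hce' : bf D.J₂ c e' = 0 := by simpa using he' 0
  have hee' : bf D.J₂ e e' = -1 := by simpa using he' 1
  have he'e : bf D.J₂ e' e = 1 := by rw [hJ.swap, hee', neg_neg]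
  have he'c : bf D.J₂ e' c = 0 := by rw [hJ.swap, hce', neg_zero]
  have hec : bf D.J₂ e c = 0 := by rw [hJ.swap, hperp, neg_zero]
  have hcc : bf D.J₂ c c = 0 := hJ.alt c
  have hli : LinearIndependent F ![c, e'] := by
    rw [LinearIndependent.pair_iff]
    intro s t hst
    have h1 : bf D.J₂ (s • c + t • e') e = 0 := by rw [hst, bf_zero_left]
    simp only [bf_add_left, bf_smul_left, hperp, he'e, mul_zero, mul_one, zero_add] at h1
    subst h1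
    simp only [zero_smul, add_zero] at hst
    exact ⟨(smul_eq_zero.1 hst).resolve_right hc0, rfl⟩
  obtain ⟨g, hg, hgc, hge⟩ := exists_iso_fix hJ hce hli (by rw [hperp, hce'])
  have hconj := NN_conj2 D hMH g hg h
  have e1 : ((1 : Ma) ⊗ₖ (g : Mb)) * (σ ⊗ₖ (NJ D.J₂ e c - NJ D.J₂ c e) + ζ ⊗ₖ NJ D.J₂ c c)
      * ((1 : Ma) ⊗ₖ ((g⁻¹ : GLb) : Mb))
      = σ ⊗ₖ (NJ D.J₂ e' c - NJ D.J₂ c e') + ζ ⊗ₖ NJ D.J₂ c c := by
    rw [mul_add, add_mul, ← Matrix.mul_kronecker_mul, ← Matrix.mul_kronecker_mul,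
      ← Matrix.mul_kronecker_mul, ← Matrix.mul_kronecker_mul, one_mul, one_mul, mul_one, mul_one,
      mul_sub, sub_mul, NJ_conj hg, NJ_conj hg, NJ_conj hg, hgc, hge]
  rw [e1] at hconj
  -- the products
  have hAA' : (NJ D.J₂ e c - NJ D.J₂ c e) * (NJ D.J₂ e' c - NJ D.J₂ c e')
      = (-1 : F) • NJ D.J₂ c c := by
    rw [sub_mul, mul_sub, mul_sub, NJ_mul, NJ_mul, NJ_mul, NJ_mul, he'c, hcc, he'e, hperp]
    simp
  have hA'A : (NJ D.J₂ e' c - NJ D.J₂ c e') * (NJ D.J₂ e c - NJ D.J₂ c e)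
      = (1 : F) • NJ D.J₂ c c := by
    rw [sub_mul, mul_sub, mul_sub, NJ_mul, NJ_mul, NJ_mul, NJ_mul, hec, hcc, hee', hce']
    simp
  have hAN : (NJ D.J₂ e c - NJ D.J₂ c e) * NJ D.J₂ c c = 0 := by
    rw [sub_mul, NJ_mul, NJ_mul, hcc, hperp]
    simp
  have hNA : NJ D.J₂ c c * (NJ D.J₂ e c - NJ D.J₂ c e) = 0 := by
    rw [mul_sub, NJ_mul, NJ_mul, hcc, hec]
    simp
  have hA'N : (NJ D.J₂ e' c - NJ D.J₂ c e') * NJ D.J₂ c c = 0 := by
    rw [sub_mul, NJ_mul, NJ_mul, hcc, hce']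
    simp
  have hNA' : NJ D.J₂ c c * (NJ D.J₂ e' c - NJ D.J₂ c e') = 0 := by
    rw [mul_sub, NJ_mul, NJ_mul, hcc, he'c]
    simp
  have hNN : NJ D.J₂ c c * NJ D.J₂ c c = 0 := by
    rw [NJ_mul, hcc, zero_smul]
  have p1 := kron_calc σ ζ _ _ _ (-1 : F) hAA' hAN hNA' hNN
  have p2 := kron_calc σ ζ _ _ _ (1 : F) hA'A hA'N hNA hNN
  have hres := NN_comm h hconj
    (by rw [p1, Matrix.smul_mul, kron_calc2 _ σ ζ _ _ hNA hNN, smul_zero])
    (by rw [p2, Matrix.smul_mul, kron_calc2 _ σ ζ _ _ hNA' hNN, smul_zero])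
  rw [p1, p2] at hres
  have e2 : ((-2 : F) • (σ * σ)) ⊗ₖ NJ D.J₂ c c
      = (-1 : F) • ((σ * σ) ⊗ₖ NJ D.J₂ c c) - (1 : F) • ((σ * σ) ⊗ₖ NJ D.J₂ c c) := by
    rw [Matrix.smul_kronecker, ← sub_smul]
    norm_num
  rw [e2]
  exact hres

end Cfsg.Agent.Lib.H99TSkew
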