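import Cfsg.Agent.Lib.Helper99TDefs
import Cfsg.Agent.Lib.H99TIsoForm
import Cfsg.Agent.Lib.H99TShear
import Cfsg.Agent.Lib.H99TAlgSk
import Cfsg.Agent.Lib.H99TSkew
import Cfsg.Agent.Lib.H99TConj
import Cfsg.Agent.Lib.H49SComm

/-!
# PROJECT 99 (T1: `O₃ ⊗ Sp_b < Sp_3b`), piece `S4`
-/

set_option autoImplicit false
set_option linter.unusedSectionVars false
set_option linter.unusedVariables false

namespace Cfsg.Agent.Lib.H99TS4

open scoped Matrix Kronecker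
open Matrix Cfsg.Agent.Lib.Helper49TDefs Cfsg.Agent.Lib.Helper49SDefs Cfsg.Agent.Lib.Helper49ODefs
  Cfsg.Agent.Lib.Helper99TDefs
open Cfsg.Agent.Lib.H99TIsoForm
open Cfsg.Agent.Lib.H99TShear
open Cfsg.Agent.Lib.H99TAlgSk
open Cfsg.Agent.Lib.H99TSkew
open Cfsg.Agent.Lib.H99TConj
open Cfsg.Agent.Lib.H49SComm

variable {F : Type*} [Field F] {a b n : ℕ}

theorem OL2_of_OL1 (D : OsDat F 3 b)
    (H : Subgroup (Matrix.GeneralLinearGroup (Fin 3 × Fin b) F))
    (hMH : KS 3 b F ⊓ OsG D ≤ H) (hH : H ≤ OsG D) (h : OL1 D H) : OL2 D H := by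
  obtain ⟨c, e, β, β', ζ, hce, hperp, hβ, hX⟩ := h
  have hJ := D.h₂
  have h2 := D.two
  have hc0 : c ≠ 0 := by
    have := hce.ne_zero 0
    simpa using this
  have hadj := iso_form D hce hperp β β' ζ (NN_mono hH hX)
  have hsh := shear D H hMH hce hperp β β' ζ hX
  by_cases hsc : ∀ k : F, β + β' ≠ k • 1
  · exact ⟨c, β + β', hc0, hsc, hsh⟩
  · push Not at hsc
    obtain ⟨ν, hν⟩ := hsc
    set k : F := ν / 2 with hk
    have hνk : ν = k + k := by rw [hk]; field_simp; ring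
    set σ : Matrix (Fin 3) (Fin 3) F := β - k • 1 with hσdef
    have hσ0 : σ ≠ 0 := by
      intro h0
      exact hβ k (sub_eq_zero.1 h0)
    have hβ' : β' = k • 1 - σ := by
      have : β' = ν • 1 - β := by rw [← hν]; abel
      rw [this, hσdef, hνk, add_smul]
      abel
    have hβe : β = σ + k • 1 := by rw [hσdef]; abel
    have hsk : ∀ x y, bf D.J₁ (σ *ᵥ x) y = - bf D.J₁ x (σ *ᵥ y) := by
      intro x y
      have h1 := hadj x y
      rw [hβ', hβe] at h1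
      simp only [Matrix.add_mulVec, Matrix.sub_mulVec, Matrix.smul_mulVec, Matrix.one_mulVec,
        bf_add_left, bf_sub_right, bf_smul_left, bf_smul_right] at h1
      linear_combination h1
    have hec : bf D.J₂ e c = 0 := by rw [hJ.swap, hperp, neg_zero]
    have hcc : bf D.J₂ c c = 0 := hJ.alt c
    have hee : bf D.J₂ e e = 0 := hJ.alt e
    have hR : (1 : Matrix (Fin 3) (Fin 3) F) ⊗ₖ (k • (NJ D.J₂ e c + NJ D.J₂ c e)) ∈ NN H := by
      have h1 := rad_mem (a := 3) D c (k • e) (by rw [bf_smul_left, hec, mul_zero])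
      rw [NJ_smul_left, NJ_smul_right, ← smul_add] at h1
      exact NN_mono hMH h1
    have hXR : (β ⊗ₖ NJ D.J₂ e c + β' ⊗ₖ NJ D.J₂ c e + ζ ⊗ₖ NJ D.J₂ c c)
        * ((1 : Matrix (Fin 3) (Fin 3) F) ⊗ₖ (k • (NJ D.J₂ e c + NJ D.J₂ c e))) = 0 := by
      rw [add_mul, add_mul, ← Matrix.mul_kronecker_mul, ← Matrix.mul_kronecker_mul,
        ← Matrix.mul_kronecker_mul]
      simp only [Matrix.mul_smul, mul_add, NJ_mul, hec, hcc, hee, hperp, zero_smul, add_zero,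
        smul_zero, Matrix.kronecker_zero]
    have hRX : ((1 : Matrix (Fin 3) (Fin 3) F) ⊗ₖ (k • (NJ D.J₂ e c + NJ D.J₂ c e)))
        * (β ⊗ₖ NJ D.J₂ e c + β' ⊗ₖ NJ D.J₂ c e + ζ ⊗ₖ NJ D.J₂ c c) = 0 := by
      rw [mul_add, mul_add, ← Matrix.mul_kronecker_mul, ← Matrix.mul_kronecker_mul,
        ← Matrix.mul_kronecker_mul]
      simp only [Matrix.smul_mul, add_mul, NJ_mul, hec, hcc, hee, hperp, zero_smul, add_zero,
        smul_zero, Matrix.kronecker_zero]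
    have hsub := NN_sub hX hR hXR hRX
    have e1 : β ⊗ₖ NJ D.J₂ e c + β' ⊗ₖ NJ D.J₂ c e + ζ ⊗ₖ NJ D.J₂ c c
        - (1 : Matrix (Fin 3) (Fin 3) F) ⊗ₖ (k • (NJ D.J₂ e c + NJ D.J₂ c e))
        = σ ⊗ₖ (NJ D.J₂ e c - NJ D.J₂ c e) + ζ ⊗ₖ NJ D.J₂ c c := by
      have s1 : NJ D.J₂ e c - NJ D.J₂ c e = NJ D.J₂ e c + (-1 : F) • NJ D.J₂ c e := by
        rw [neg_one_smul, sub_eq_add_neg]
      have s2 : k • (1 : Matrix (Fin 3) (Fin 3) F) - σ = k • 1 + (-1 : F) • σ := by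
        rw [neg_one_smul, sub_eq_add_neg]
      rw [hβ', hβe, s1, s2]
      simp only [Matrix.add_kronecker, Matrix.kronecker_add, Matrix.smul_kronecker,
        Matrix.kronecker_smul, smul_add]
      abel
    rw [e1] at hsub
    have hfin := skew_step D H hMH hce hperp σ ζ hsub
    have hns := sq_nonscalar D.h₁ h2 σ hσ0 hsk
    refine ⟨c, (-2 : F) • (σ * σ), hc0, ?_, hfin⟩
    intro l hl
    apply hns (-(l / 2))
    have h3 : σ * σ = (-(1 / 2) : F) • ((-2 : F) • (σ * σ)) := by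
      rw [smul_smul]
      have : (-(1 / 2) : F) * (-2) = 1 := by field_simp
      rw [this, one_smul]
    rw [h3, hl, smul_smul]
    congr 1
    ring

end Cfsg.Agent.Lib.H99TS4
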