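import Cfsg.Agent.Lib.Helper95OrthGeo

/-!
# Sharper existence lemmas for singular vectors (odd characteristic)
-/

set_option autoImplicit false
set_option linter.unusedSectionVars false

namespace Cfsg.Agent.Lib.Helper95OrthGeoLow

open scoped Matrix
open Module
open Cfsg.Agent.Lib.Helper49Orth Cfsg.Agent.Lib.Helper49Hyp Cfsg.Agent.Lib.Helper18Hyp
  Cfsg.Agent.Lib.Helper49Eich Cfsg.Agent.Lib.Helper49Geo Cfsg.Agent.Lib.Helper49EichGen
  Cfsg.Agent.Lib.Helper49Fam Cfsg.Agent.Lib.Helper49Trans Cfsg.Agent.Lib.Helper49CharTwoA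
  Cfsg.Agent.Lib.Helper49Par Cfsg.Agent.Lib.Helper95OrthSub Cfsg.Agent.Lib.Helper95OrthGeo

variable {F : Type*} [Field F]
variable {ι : Type} [Fintype ι] [DecidableEq ι] (Q : QuadraticForm F (ι → F))

local notation "𝐁" => QuadraticMap.polar (DFunLike.coe Q)
local notation:max W "ᗮ" => LinearMap.BilinForm.orthogonal (QuadraticMap.polarBilin Q) W

/-- the orthogonal complement of a subspace containing a hyperbolic pair contains a nonsingular
vector, with a bound better by one than in general -/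
theorem exists_nonsingular_orth_hyp (hQ : (QuadraticMap.polarBilin Q).Nondegenerate)
    {S : Submodule F (ι → F)} {y₁ y₂ : ι → F} (h1 : y₁ ∈ S) (h2 : y₂ ∈ S) (hQ1 : Q y₁ = 0)
    (hQ2 : Q y₂ = 0) (h12 : 𝐁 y₁ y₂ ≠ 0) (hS : 2 * finrank F S < Fintype.card ι + 2) :
    ∃ z ∈ Sᗮ, Q z ≠ 0 := by
  apply exists_nonsingular_of_not_le
  intro hle
  rw [orth_orth Q hQ S] at hle
  have hli : LinearIndependent F ![y₁, y₂] := by
    rw [LinearIndependent.pair_iff]
    intro a b hab
    have e1 : 𝐁 (a • y₁ + b • y₂) y₂ = 0 := by rw [hab]; simp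
    have e2 : 𝐁 y₁ (a • y₁ + b • y₂) = 0 := by rw [hab]; simp
    rw [QuadraticMap.polar_add_left, QuadraticMap.polar_smul_left, QuadraticMap.polar_smul_left,
      polar_self_of_singular Q hQ2] at e1
    rw [QuadraticMap.polar_add_right, QuadraticMap.polar_smul_right, QuadraticMap.polar_smul_right,
      polar_self_of_singular Q hQ1] at e2
    simp only [smul_eq_mul, mul_zero, add_zero, zero_add] at e1 e2
    exact ⟨(mul_eq_zero.1 e1).resolve_right h12, (mul_eq_zero.1 e2).resolve_right h12⟩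
  have hH : finrank F (Submodule.span F {y₁, y₂}) = 2 := by
    have := finrank_span_eq_card hli
    have h3 : Set.range ![y₁, y₂] = {y₁, y₂} := by
      simp [Matrix.range_cons, Set.pair_comm]
    rw [h3] at this
    simpa using this
  have hdisj : Sᗮ ⊓ Submodule.span F {y₁, y₂} = ⊥ := by
    rw [eq_bot_iff]
    rintro x ⟨hx1, hx2⟩
    obtain ⟨a, b, rfl⟩ := Submodule.mem_span_pair.1 hx2
    have e1 := (mem_orth.1 hx1) y₂ h2
    have e2 := (mem_orth.1 hx1) y₁ h1
    rw [QuadraticMap.polar_add_right, QuadraticMap.polar_smul_right, QuadraticMap.polar_smul_right,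
      polar_self_of_singular Q hQ2, QuadraticMap.polar_comm ⇑Q y₂ y₁] at e1
    rw [QuadraticMap.polar_add_right, QuadraticMap.polar_smul_right, QuadraticMap.polar_smul_right,
      polar_self_of_singular Q hQ1] at e2
    simp only [smul_eq_mul, mul_zero, add_zero, zero_add] at e1 e2
    rw [(mul_eq_zero.1 e1).resolve_right h12, (mul_eq_zero.1 e2).resolve_right h12]
    simp
  have hsup : Sᗮ ⊔ Submodule.span F {y₁, y₂} ≤ S := by
    refine sup_le hle ?_
    rw [Submodule.span_le]
    rintro x (rfl | rfl)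
    · exact h1
    · exact h2
  have h3 := Submodule.finrank_sup_add_finrank_inf_eq (Sᗮ) (Submodule.span F {y₁, y₂})
  rw [hdisj, finrank_bot, hH] at h3
  have h4 := Submodule.finrank_mono hsup
  have h5 := finrank_orth_add Q hQ S
  omega

/-- a singular vector orthogonal to `T` and not orthogonal to `w₁`, `w₂` (odd characteristic,
sharper bound) -/
theorem exists_singular_perp_ne_two_low [Finite F] (h2 : (2 : F) ≠ 0)
    (hQ : (QuadraticMap.polarBilin Q).Nondegenerate)
    (T : Finset (ι → F)) (h : 2 * T.card + 5 ≤ Fintype.card ι) {w₁ w₂ : ι → F}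
    (hw₁ : w₁ ∉ Submodule.span F (T : Set (ι → F)))
    (hw₂ : w₂ ∉ Submodule.span F (T : Set (ι → F))) :
    ∃ y, Q y = 0 ∧ (∀ t ∈ T, 𝐁 t y = 0) ∧ 𝐁 w₁ y ≠ 0 ∧ 𝐁 w₂ y ≠ 0 := by
  classical
  obtain ⟨y₁, hQ1, hT1, h11⟩ := exists_singular_perp_ne Q hQ T h hw₁
  obtain ⟨y₂, hQ2, hT2, h22⟩ := exists_singular_perp_ne Q hQ T h hw₂
  by_cases h21 : 𝐁 w₂ y₁ = 0
  · by_cases h12 : 𝐁 w₁ y₂ = 0
    · by_cases hyy : 𝐁 y₁ y₂ = 0
      · refine ⟨y₁ + y₂, by rw [Q_add, hQ1, hQ2, hyy]; simp, fun t ht => ?_, ?_, ?_⟩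
        · rw [QuadraticMap.polar_add_right, hT1 t ht, hT2 t ht, add_zero]
        · rw [QuadraticMap.polar_add_right, h12, add_zero]; exact h11
        · rw [QuadraticMap.polar_add_right, h21, zero_add]; exact h22
      · set S : Finset (ι → F) := insert y₁ (insert y₂ (insert w₁ T)) with hS
        have hScard : S.card ≤ T.card + 3 := by
          have h1 := Finset.card_insert_le y₁ (insert y₂ (insert w₁ T))
          have h2 := Finset.card_insert_le y₂ (insert w₁ T)
          have h3 := Finset.card_insert_le w₁ T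
          rw [hS]
          omega
        obtain ⟨z, hzS, hQz⟩ := exists_nonsingular_orth_hyp Q hQ
          (S := Submodule.span F (S : Set (ι → F))) (y₁ := y₁) (y₂ := y₂)
          (Submodule.subset_span (by simp [hS])) (Submodule.subset_span (by simp [hS]))
          hQ1 hQ2 hyy (by
            have := finrank_span_finset_le S
            omega)
        have hz := (mem_orth_span Q).1 hzS
        have hz1 : 𝐁 y₁ z = 0 := hz y₁ (by simp [hS])
        have hz2 : 𝐁 y₂ z = 0 := hz y₂ (by simp [hS])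
        have hz3 : 𝐁 w₁ z = 0 := hz w₁ (by simp [hS])
        have hzT : ∀ t ∈ T, 𝐁 t z = 0 := fun t ht => hz t (by simp [hS, ht])
        -- the vector `y₁ + λ y₂ + t z`, `t = ± 1`
        have key : ∀ t : F, t * t = 1 → (- Q z / 𝐁 y₁ y₂) * 𝐁 w₂ y₂ + t * 𝐁 w₂ z ≠ 0 →
            ∃ y, Q y = 0 ∧ (∀ t ∈ T, 𝐁 t y = 0) ∧ 𝐁 w₁ y ≠ 0 ∧ 𝐁 w₂ y ≠ 0 := by
          intro t ht hne
          refine ⟨(y₁ + (- Q z / 𝐁 y₁ y₂) • y₂) + t • z, ?_, fun s hs => ?_, ?_, ?_⟩
          · rw [Q_add_smul', Q_add_smul', hQ1, hQ2, QuadraticMap.polar_add_left,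
              QuadraticMap.polar_smul_left, hz1, hz2, ht]
            field_simp
            ring
          · rw [QuadraticMap.polar_add_right, QuadraticMap.polar_add_right,
              QuadraticMap.polar_smul_right, QuadraticMap.polar_smul_right, hT1 s hs, hT2 s hs,
              hzT s hs]
            simp
          · rw [QuadraticMap.polar_add_right, QuadraticMap.polar_add_right,
              QuadraticMap.polar_smul_right, QuadraticMap.polar_smul_right, h12, hz3]
            simpa using h11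
          · rw [QuadraticMap.polar_add_right, QuadraticMap.polar_add_right,
              QuadraticMap.polar_smul_right, QuadraticMap.polar_smul_right, h21]
            simpa using hne
        by_cases hc : (- Q z / 𝐁 y₁ y₂) * 𝐁 w₂ y₂ + 1 * 𝐁 w₂ z = 0
        · apply key (-1) (by ring)
          intro hc'
          have h3 : (2 : F) * ((- Q z / 𝐁 y₁ y₂) * 𝐁 w₂ y₂) = 0 := by linear_combination hc + hc'
          have h4 : (- Q z / 𝐁 y₁ y₂) * 𝐁 w₂ y₂ ≠ 0 :=
            mul_ne_zero (div_ne_zero (neg_ne_zero.2 hQz) hyy) h22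
          exact (mul_ne_zero h2 h4) h3
        · exact key 1 (by ring) hc
    · exact ⟨y₂, hQ2, hT2, h12, h22⟩
  · exact ⟨y₁, hQ1, hT1, h11, h21⟩

end Cfsg.Agent.Lib.Helper95OrthGeoLow
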