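import Cfsg.Agent.Lib.Helper95OrthGeo
import Cfsg.Agent.Lib.Helper95OrthGeoLow

/-!
# PROJECT 99, piece `Sing2`: `Helper95OrthGeo.exists_singular_perp_ne_two` with a sharper bound
-/

set_option autoImplicit false
set_option linter.unusedSectionVars false
set_option linter.unusedVariables false

namespace Cfsg.Agent.Lib.H99TSing2

open scoped Matrix
open Module
open Cfsg.Agent.Lib.Helper49Orth Cfsg.Agent.Lib.Helper49Hyp Cfsg.Agent.Lib.Helper18Hyp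
  Cfsg.Agent.Lib.Helper49Eich Cfsg.Agent.Lib.Helper49Geo Cfsg.Agent.Lib.Helper49EichGen
  Cfsg.Agent.Lib.Helper49Fam Cfsg.Agent.Lib.Helper49Trans Cfsg.Agent.Lib.Helper49CharTwoA
  Cfsg.Agent.Lib.Helper49Par Cfsg.Agent.Lib.Helper95OrthSub Cfsg.Agent.Lib.Helper95OrthGeo

variable {F : Type*} [Field F]
variable {ι : Type} [Fintype ι] [DecidableEq ι] (Q : QuadraticForm F (ι → F))

local notation "𝐁" => QuadraticMap.polar (DFunLike.coe Q)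
local notation:max W "ᗮ" => LinearMap.BilinForm.orthogonal (QuadraticMap.polarBilin Q) W

/-- Copy the proof of `Helper95OrthGeo.exists_singular_perp_ne_two`; only the last case
(`𝐁 w₂ y₁ = 0`, `𝐁 w₁ y₂ = 0`, `𝐁 y₁ y₂ ≠ 0`) changes.  There let `S = span ({y₁, y₂, w₁} ∪ T)`,
`dim S ≤ |T| + 3`, so `dim Sᗮ ≥ dim S`.  `Sᗮ` contains a NONSINGULAR `z`: otherwise `Sᗮ` is totally
singular, hence totally isotropic, `Sᗮ ≤ Sᗮᗮ = S` (`orth_orth`), so `Sᗮ = S` by dimensions and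
`𝐁 y₁ y₂ = 0`, contradiction.  Put `y = y₁ + l • y₂ + s • z`, `s = ± 1`, `l = - Q z / 𝐁 y₁ y₂`.
`Q y = 0`, `𝐁 w₁ y = 𝐁 w₁ y₁ ≠ 0`, `𝐁 w₂ y = l 𝐁 w₂ y₂ + s 𝐁 w₂ z`, which is nonzero for `s = 1` or for
`s = -1` (else `2 l 𝐁 w₂ y₂ = 0`). -/
theorem exists_singular_perp_ne_two' [Finite F] (h2 : (2 : F) ≠ 0)
    (hQ : (QuadraticMap.polarBilin Q).Nondegenerate)
    (T : Finset (ι → F)) (h : 2 * (T.card + 3) ≤ Fintype.card ι) {w₁ w₂ : ι → F}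
    (hw₁ : w₁ ∉ Submodule.span F (T : Set (ι → F)))
    (hw₂ : w₂ ∉ Submodule.span F (T : Set (ι → F))) :
    ∃ y, Q y = 0 ∧ (∀ t ∈ T, 𝐁 t y = 0) ∧ 𝐁 w₁ y ≠ 0 ∧ 𝐁 w₂ y ≠ 0 :=
  Cfsg.Agent.Lib.Helper95OrthGeoLow.exists_singular_perp_ne_two_low Q h2 hQ T (by omega) hw₁ hw₂

end Cfsg.Agent.Lib.H99TSing2
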