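import Cfsg.Agent.Lib.Helper95SpU
import Cfsg.Agent.Lib.H99TSing2
import Cfsg.Agent.Lib.Helper95SpULow

/-!
# PROJECT 99, piece `SpU`: `Helper95SpU.us_main` for `10 ≤ card ι` instead of `14 ≤ card ι`
-/

set_option autoImplicit false
set_option linter.unusedSectionVars false
set_option linter.unusedSimpArgs false
set_option linter.unusedVariables false

namespace Cfsg.Agent.Lib.H99TSpU

open Module
open Cfsg.Agent.Lib.Helper95Sp Cfsg.Agent.Lib.Helper95Cen Cfsg.Agent.Lib.Helper95OrthGeo
  Cfsg.Agent.Lib.Helper95OrthCS Cfsg.Agent.Lib.Helper95SpU Cfsg.Agent.Lib.H99TSing2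

variable {F : Type*} [Field F]
variable {ι : Type} [Fintype ι] [DecidableEq ι]
variable {B : LinearMap.BilinForm F (ι → F)}
variable {δ : (ι → F) →ₗ[F] (ι → F)} {d : F}
variable {hA : B.IsAlt} {M : Subgroup ((ι → F) ≃ₗ[F] (ι → F))}

/-- COPY from `Helper95SpU.lean` the five theorems `US.claim2a`, `US.claim2`, `US.claim3`,
`US.exists_y2`, `us_main` (new names, e.g. with a prime; they are in the root of that namespace as
`US.…`, so declare them here as plain theorems `claim2a' (h : US B δ d) …`) with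
`hn : 10 ≤ Fintype.card ι`.  All the `omega` side goals still hold with `10`, EXCEPT the call
`h.exists_sing_two hA hB h2 {u, f}` in `claim2a` (needs `2 * (2 + 4) < card`): replace it by the
analogue of `US.exists_sing_two` built on `H99TSing2.exists_singular_perp_ne_two'`
(bound `2 * (T.card + 3) ≤ card`, i.e. `10 ≤ card` for `|T| ≤ 2`). -/
theorem us_main10 [Finite F] [Nonempty ι] (h : US B δ d) (hB : B.Nondegenerate)
    (h2 : (2 : F) ≠ 0) (hn : 10 ≤ Fintype.card ι)
    (hU : ∀ y, B y (δ y) = 0 → ∀ c, ut hA δ d y c ∈ M) {w w' : ι → F}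
    (hw' : w' ∉ Submodule.span F {w, δ w})
    (hE : ∀ ε, ∃ a, stv B hA w a * stv B hA w' ε ∈ M) : ∀ v, v ∈ cen hA M :=
  Cfsg.Agent.Lib.Helper95SpULow.us_main_low h hB h2 hn hU hw' hE

end Cfsg.Agent.Lib.H99TSpU
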