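import Cfsg.Agent.Lib.Helper99TDefs
import Cfsg.Agent.Lib.H99TMem
import Cfsg.Agent.Lib.H99TSim
import Cfsg.Agent.Lib.H99TEOiso
import Cfsg.Agent.Lib.H99TEOfix
import Cfsg.Agent.Lib.H99TSing
import Cfsg.Agent.Lib.Helper63TSylfix0

/-!
# PROJECT 99 (T1: `O₃ ⊗ Sp_b < Sp_3b`), piece `Sylfix`
-/

set_option autoImplicit false
set_option linter.unusedSectionVars false
set_option linter.unusedVariables false

namespace Cfsg.Agent.Lib.H99TSylfix

open scoped Matrix Kronecker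
open Matrix Cfsg.Agent.Lib.Helper49TDefs Cfsg.Agent.Lib.Helper49SDefs Cfsg.Agent.Lib.Helper49ODefs
  Cfsg.Agent.Lib.Helper99TDefs
open Cfsg.Agent.Lib.H99TMem
open Cfsg.Agent.Lib.H99TSim
open Cfsg.Agent.Lib.H99TEOiso
open Cfsg.Agent.Lib.H99TEOfix
open Cfsg.Agent.Lib.H99TSing

variable {F : Type*} [Field F] {a b n : ℕ}

local notation "GLn" => Matrix.GeneralLinearGroup (Fin a × Fin b) F
local notation "Mn" => Matrix (Fin a × Fin b) (Fin a × Fin b) F
local notation "Ma" => Matrix (Fin a) (Fin a) F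
local notation "Mb" => Matrix (Fin b) (Fin b) F
local notation "GLa" => Matrix.GeneralLinearGroup (Fin a) F
local notation "GLb" => Matrix.GeneralLinearGroup (Fin b) F

/-- the group of the `E(x₀, w) ⊗ 1`, `w ⊥ x₀` -/
def ES {J : Ma} (hJ : IsSymmMat J) (h2 : (2 : F) ≠ 0) {x₀ : Fin a → F} (hx : bf J x₀ x₀ = 0) :
    Subgroup GLn where
  carrier := {g | ∃ w : Fin a → F, bf J w x₀ = 0 ∧ (g : Mn) = EO J x₀ w ⊗ₖ (1 : Mb)}
  mul_mem' := by
    rintro g h ⟨w, h1, e1⟩ ⟨w', h2', e2⟩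
    refine ⟨w + w', by rw [bf_add_left, h1, h2', add_zero], ?_⟩
    rw [Units.val_mul, e1, e2, ← Matrix.mul_kronecker_mul, EO_mul hJ h2 hx h1 h2', one_mul]
  one_mem' := ⟨0, by simp, by rw [EO_zero, Matrix.one_kronecker_one, Units.val_one]⟩
  inv_mem' := by
    rintro g ⟨w, h1, e1⟩
    have h1' : bf J (-w) x₀ = 0 := by rw [bf_neg_left, h1, neg_zero]
    refine ⟨-w, h1', ?_⟩
    rw [Units.inv_eq_of_mul_eq_one_right]
    rw [e1, ← Matrix.mul_kronecker_mul, EO_mul hJ h2 hx h1 h1', add_neg_cancel, EO_zero, one_mul,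
      Matrix.one_kronecker_one]

theorem EO_pow {J : Ma} (hJ : IsSymmMat J) (h2 : (2 : F) ≠ 0) {x₀ w : Fin a → F}
    (hx : bf J x₀ x₀ = 0) (hw : bf J w x₀ = 0) (k : ℕ) :
    (EO J x₀ w) ^ k = EO J x₀ ((k : F) • w) := by
  induction k with
  | zero => rw [pow_zero, Nat.cast_zero, zero_smul, EO_zero]
  | succ k ih =>
    rw [pow_succ, ih, EO_mul hJ h2 hx (by rw [bf_smul_left, hw, mul_zero]) hw, Nat.cast_succ,
      add_smul, one_smul]

theorem isPGroup_ES (p : ℕ) [Fact p.Prime] [CharP F p] {J : Ma} (hJ : IsSymmMat J)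
    (h2 : (2 : F) ≠ 0) {x₀ : Fin a → F} (hx : bf J x₀ x₀ = 0) :
    IsPGroup p (ES (b := b) hJ h2 hx) := by
  rintro ⟨g, w, h1, e1⟩
  refine ⟨1, ?_⟩
  apply Subtype.ext
  apply Units.ext
  simp only [pow_one, Subgroup.coe_pow, Units.val_pow_eq_pow_val, Subgroup.coe_one, Units.val_one]
  have hk : ∀ k : ℕ, (EO J x₀ w ⊗ₖ (1 : Mb)) ^ k = ((EO J x₀ w) ^ k) ⊗ₖ (1 : Mb) := by
    intro k
    induction k with
    | zero => rw [pow_zero, pow_zero, Matrix.one_kronecker_one]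
    | succ k ih => rw [pow_succ, ih, ← Matrix.mul_kronecker_mul, one_mul, pow_succ]
  rw [e1, hk, EO_pow hJ h2 hx h1, CharP.cast_eq_zero F p, zero_smul, EO_zero,
    Matrix.one_kronecker_one]

theorem kron_one_mulVec_apply (X : Ma) (z : Fin a × Fin b → F) (s : Fin a) (j : Fin b) :
    ((X ⊗ₖ (1 : Mb)) *ᵥ z) (s, j) = (X *ᵥ fun s' => z (s', j)) s := by
  classical
  simp only [Matrix.mulVec, dotProduct, Matrix.kroneckerMap_apply, Fintype.sum_prod_type,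
    Matrix.one_apply]
  refine Finset.sum_congr rfl fun s' _ => ?_
  rw [Finset.sum_eq_single j]
  · simp
  · intro j' _ hj'
    simp [Ne.symm hj']
  · intro h
    exact absurd (Finset.mem_univ j) h

/-- a `p`-subgroup of `M = KS ⊓ Sp(V)` of maximal order fixes only good vectors -/
theorem card_lt_of_fix [Fintype F] (D : OsDat F a b) (ha : 3 ≤ a) (hb : 0 < b)
    (p : ℕ) [Fact p.Prime] [CharP F p] (P Q : Subgroup GLn)
    (hPmax : ∀ R : Subgroup GLn, R ≤ KS a b F ⊓ OsG D → IsPGroup p R → Nat.card R ≤ Nat.card P)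
    (hP : P ≤ KS a b F ⊓ OsG D) (hPp : IsPGroup p P)
    (hQ : Q ≤ KS a b F ⊓ OsG D) (hQp : IsPGroup p Q)
    (y : Fin a × Fin b → F) (hy : ¬ IsGood0 D y) (hfix : ∀ g ∈ Q, (g : Mn) *ᵥ y = y) :
    Nat.card Q < Nat.card P := by
  classical
  rcases lt_or_eq_of_le (hPmax Q hQ hQp) with h | heq
  · exact h
  exfalso
  set M : Subgroup GLn := KS a b F ⊓ OsG D with hM
  obtain ⟨x₀, hx₀, hxx⟩ := exists_singular D.h₁ D.two ha
  have hmemM : ∀ w : Fin a → F, bf D.J₁ w x₀ = 0 →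
      ∃ g ∈ M, (g : Mn) = EO D.J₁ x₀ w ⊗ₖ (1 : Mb) := by
    intro w hw
    obtain ⟨g₁, hg₁, e₁, -⟩ := EO_iso D.h₁ D.two hxx hw
    obtain ⟨m, hm, e, -⟩ := sp1_mem D g₁ hg₁
    exact ⟨m, hm, by rw [e, e₁]⟩
  have hSM : ES (b := b) D.h₁ D.two hxx ≤ M := by
    rintro g ⟨w, h1, e1⟩
    obtain ⟨g', hg', e'⟩ := hmemM w h1
    have : g = g' := Units.ext (by rw [e1, e'])
    rw [this]; exact hg'
  have hSp : IsPGroup p (ES (b := b) D.h₁ D.two hxx) := isPGroup_ES p D.h₁ D.two hxx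
  obtain ⟨Q1, hQ1⟩ := IsPGroup.exists_le_sylow (hQp.comap_subtype (K := M))
  obtain ⟨S1, hS1⟩ := IsPGroup.exists_le_sylow (hSp.comap_subtype (K := M))
  have hcard1 : Nat.card (Q1 : Subgroup M) ≤ Nat.card P := by
    have := hPmax ((Q1 : Subgroup M).map M.subtype) (Subgroup.map_subtype_le _)
      (Q1.isPGroup'.map _)
    rwa [Subgroup.card_map_of_injective M.subtype_injective] at this
  have hcard2 : Nat.card (Q.comap M.subtype) = Nat.card Q :=
    Nat.card_congr (Subgroup.subgroupOfEquivOfLe hQ).toEquiv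
  have hQ1eq : Q.comap M.subtype = (Q1 : Subgroup M) :=
    Subgroup.eq_of_le_of_card_ge hQ1 (by rw [hcard2, heq]; exact hcard1)
  obtain ⟨m, hm⟩ := MulAction.exists_smul_eq M Q1 S1
  have key : ∀ s ∈ ES (b := b) D.h₁ D.two hxx, ((m : GLn)⁻¹ * s * (m : GLn)) ∈ Q := by
    intro s hs
    have h1 : (⟨s, hSM hs⟩ : M) ∈ (S1 : Subgroup M) := hS1 hs
    rw [← hm, Sylow.smul_def, Sylow.pointwise_smul_def,
      Subgroup.mem_pointwise_smul_iff_inv_smul_mem, ← hQ1eq] at h1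
    simp only [MulAut.smul_def, MulAut.conj_apply, ← map_inv, inv_inv] at h1
    exact h1
  have hinv' : ((m : GLn) : Mn) * (((m : GLn)⁻¹ : GLn) : Mn) = 1 := by
    rw [← Units.val_mul, mul_inv_cancel, Units.val_one]
  have hinv : (((m : GLn)⁻¹ : GLn) : Mn) * ((m : GLn) : Mn) = 1 := by
    rw [← Units.val_mul, inv_mul_cancel, Units.val_one]
  have hfixS : ∀ w : Fin a → F, bf D.J₁ w x₀ = 0 →
      (EO D.J₁ x₀ w ⊗ₖ (1 : Mb)) *ᵥ (((m : GLn) : Mn) *ᵥ y) = ((m : GLn) : Mn) *ᵥ y := by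
    intro w h1
    obtain ⟨g', hg', e'⟩ := hmemM w h1
    have hs : g' ∈ ES (b := b) D.h₁ D.two hxx := ⟨w, h1, e'⟩
    have h3 := hfix _ (key g' hs)
    rw [Units.val_mul, Units.val_mul] at h3
    have h4 : ((m : GLn) : Mn) *ᵥ (((((m : GLn)⁻¹ : GLn) : Mn) * (g' : Mn) * ((m : GLn) : Mn)) *ᵥ y)
        = ((m : GLn) : Mn) *ᵥ y := by rw [h3]
    rw [Matrix.mulVec_mulVec, ← mul_assoc, ← mul_assoc, hinv', one_mul, ← Matrix.mulVec_mulVec,
      e'] at h4
    exact h4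
  have hcol : ∀ j : Fin b, ∃ k : F, (fun s => (((m : GLn) : Mn) *ᵥ y) (s, j)) = k • x₀ := by
    intro j
    apply fix_EO D.h₁ D.two ha hx₀ hxx
    intro w hw
    funext s
    rw [← kron_one_mulVec_apply, hfixS w hw]
  choose k hk using hcol
  have hgood : IsGood0 D (((m : GLn) : Mn) *ᵥ y) := by
    refine ⟨x₀, k, hxx, ?_⟩
    funext ⟨s, j⟩
    have := congrFun (hk j) s
    simp only [Pi.smul_apply, smul_eq_mul] at this
    rw [this, tens, mul_comm]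
  apply hy
  have hmK : ((m : GLn)⁻¹ : GLn) ∈ M := M.inv_mem m.2
  have := good_of_mem D hb hmK hgood
  rwa [Matrix.mulVec_mulVec, hinv, Matrix.one_mulVec] at this

end Cfsg.Agent.Lib.H99TSylfix
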