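import Cfsg.Agent.Lib.Helper10Solve
import Cfsg.Agent.Lib.Helper10SetSys
import Cfsg.Agent.S0351

/-!
# Embedding small Steiner systems S(t, t+1, n) into models given by lists of masks (helper10)
-/

set_option autoImplicit false

namespace Cfsg.Agent.Lib.Helper10EmbL

open Cfsg Finset Cfsg.Agent.Lib.Helper33Golay Cfsg.Agent.Lib.Helper10Solve
open scoped Pointwise

theorem enc_lt_of {n : ℕ} {s : Finset GolayPt} (h : ∀ p ∈ s, idx p < n) : enc s < 2 ^ n := by
  apply Nat.lt_pow_two_of_testBit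
  intro i hi
  by_cases h24 : i < 24
  · have h1 := testBit_enc s (pt i)
    rw [idx_pt h24] at h1
    rw [h1, decide_eq_false_iff_not]
    intro hm
    have h2 := h _ hm
    rw [idx_pt h24] at h2
    omega
  · exact Nat.testBit_lt_two_pow (lt_of_lt_of_le (enc_lt s)
      (Nat.pow_le_pow_right (by norm_num) (by omega)))

theorem idx_lt_of_mem_dec {n m : ℕ} (hm : m < 2 ^ n) {p : GolayPt} (hp : p ∈ dec m) :
    idx p < n := by
  by_contra h
  push Not at h
  rw [mem_dec] at hp
  have h1 := Nat.testBit_lt_two_pow (lt_of_lt_of_le hm (Nat.pow_le_pow_right (by norm_num) h))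
  rw [h1] at hp
  exact Bool.noConfusion hp

theorem steiner_eq_of_inter {α : Type*} [DecidableEq α] {t k : ℕ} {B : Set (Finset α)}
    (hB : IsSteinerSystem t k B) {b c : Finset α} (hb : b ∈ B) (hc : c ∈ B)
    (h : t ≤ (b ∩ c).card) : b = c := by
  obtain ⟨s, hs, hst⟩ := Finset.exists_subset_card_eq h
  obtain ⟨d, _, hd⟩ := hB.2 s hst
  rw [hd b ⟨hb, hs.trans Finset.inter_subset_left⟩, hd c ⟨hc, hs.trans Finset.inter_subset_right⟩]

/-- `ι` embeds the set system `B` into the model `ML` on the points of index `< n` -/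
def EmbL {α : Type*} (n : ℕ) (ML : List ℕ) (B : Set (Finset α)) (ι : α → GolayPt) : Prop :=
  Function.Injective ι ∧ (∀ u, idx (ι u) < n) ∧ ∀ b ∈ B, enc (b.image ι) ∈ ML

structure Good (n t : ℕ) (ML : List ℕ) : Prop where
  lt : ∀ m ∈ ML, m < 2 ^ n
  pop : ∀ m ∈ ML, pop m = t + 1
  uniq : ∀ m ∈ ML, ∀ m' ∈ ML, t ≤ Helper33Golay.pop (m &&& m') → m = m'
  n_le : n ≤ 24
  cardX : (Finset.univ.filter (fun p : GolayPt => idx p < n)).card = n

theorem two_pow_le {n : ℕ} (h : n ≤ 24) : 2 ^ n ≤ 2 ^ 24 := Nat.pow_le_pow_right (by norm_num) h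

section
variable {α : Type*} [Fintype α] [DecidableEq α] {n t : ℕ} {ML : List ℕ} {B : Set (Finset α)}
  {ι : α → GolayPt}

theorem EmbL.exists_preimage (h : EmbL n ML B ι) (hG : Good n t ML) (hα : Fintype.card α = n) :
    ∀ z, idx z < n → ∃ u, ι u = z := by
  have h1 : (Finset.univ : Finset α).image ι = Finset.univ.filter (fun p : GolayPt => idx p < n) := by
    apply Finset.eq_of_subset_of_card_le
    · intro z hz
      obtain ⟨u, -, rfl⟩ := Finset.mem_image.1 hz
      exact Finset.mem_filter.2 ⟨Finset.mem_univ _, h.2.1 u⟩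
    · rw [Finset.card_image_of_injective _ h.1, hG.cardX, Finset.card_univ, hα]
  intro z hz
  have h2 : z ∈ (Finset.univ : Finset α).image ι := h1 ▸ Finset.mem_filter.2 ⟨Finset.mem_univ _, hz⟩
  obtain ⟨u, -, hu⟩ := Finset.mem_image.1 h2
  exact ⟨u, hu⟩

/-- pull back a set of points of index `< n` -/
theorem EmbL.exists_pullback (h : EmbL n ML B ι) (hG : Good n t ML) (hα : Fintype.card α = n)
    (s : Finset GolayPt) (hs : ∀ p ∈ s, idx p < n) :
    ∃ s0 : Finset α, s0.image ι = s ∧ s0.card = s.card := by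
  have hs0 : (Finset.univ.filter (fun u => ι u ∈ s)).image ι = s := by
    ext z
    simp only [Finset.mem_image, Finset.mem_filter, Finset.mem_univ, true_and]
    constructor
    · rintro ⟨u, hu, rfl⟩; exact hu
    · intro hz
      obtain ⟨u, rfl⟩ := h.exists_preimage hG hα z (hs z hz)
      exact ⟨u, hz, rfl⟩
  refine ⟨_, hs0, ?_⟩
  have h1 := Finset.card_image_of_injective (Finset.univ.filter (fun u => ι u ∈ s)) h.1
  rw [hs0] at h1
  exact h1.symm

theorem EmbL.surj (h : EmbL n ML B ι) (hG : Good n t ML) (hα : Fintype.card α = n)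
    (hB : IsSteinerSystem t (t + 1) B) : ∀ m ∈ ML, ∃ b ∈ B, b.image ι = dec m := by
  intro m hm
  have hc : (dec m).card = t + 1 := by rw [card_dec, hG.pop m hm]
  obtain ⟨s, hs, hst⟩ := Finset.exists_subset_card_eq (s := dec m) (n := t) (by omega)
  obtain ⟨s0, hs0, hs0c⟩ := h.exists_pullback hG hα s
    (fun p hp => idx_lt_of_mem_dec (hG.lt m hm) (hs hp))
  obtain ⟨b, ⟨hb, hsb⟩, -⟩ := hB.2 s0 (by rw [hs0c, hst])
  refine ⟨b, hb, ?_⟩
  have hm' := h.2.2 b hb
  have hsub : s ⊆ dec m ∩ b.image ι := by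
    intro z hz
    refine Finset.mem_inter.2 ⟨hs hz, ?_⟩
    rw [← hs0] at hz
    exact Finset.image_subset_image hsb hz
  have h5 : t ≤ pop (m &&& enc (b.image ι)) := by
    rw [← card_dec, dec_and, dec_enc, ← hst]
    exact Finset.card_le_card hsub
  rw [hG.uniq m hm _ hm' h5, dec_enc]

end

/-- two systems embedded in the same model are isomorphic, compatibly with the embeddings -/
theorem iso_of_embL {α β : Type*} [Fintype α] [DecidableEq α] [Fintype β] [DecidableEq β]
    {n t : ℕ} {ML : List ℕ} {B : Set (Finset α)} {B' : Set (Finset β)} {ι : α → GolayPt}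
    {ι' : β → GolayPt} (h : EmbL n ML B ι) (h' : EmbL n ML B' ι') (hG : Good n t ML)
    (hα : Fintype.card α = n) (hβ : Fintype.card β = n) (hB : IsSteinerSystem t (t + 1) B)
    (hB' : IsSteinerSystem t (t + 1) B') :
    ∃ e : α ≃ β, (fun b => b.image e) '' B = B' ∧ ∀ u, ι' (e u) = ι u := by
  have hex : ∀ u, ∃ v, ι' v = ι u := fun u => h'.exists_preimage hG hβ _ (h.2.1 u)
  choose f hf using hex
  have hbij : Function.Bijective f := by
    rw [Fintype.bijective_iff_injective_and_card]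
    refine ⟨fun u v huv => h.1 ?_, by rw [hα, hβ]⟩
    rw [← hf u, ← hf v, huv]
  refine ⟨Equiv.ofBijective f hbij, ?_, hf⟩
  apply Helper10SetSys.steiner_eq_of_subset (Helper10SetSys.steiner_image hB _) hB' (by omega)
  rintro _ ⟨b, hb, rfl⟩
  obtain ⟨b', hb', hbb⟩ := h'.surj hG hβ hB' _ (h.2.2 b hb)
  rw [dec_enc] at hbb
  have h1 : b.image (Equiv.ofBijective f hbij) = b' := by
    apply Finset.image_injective h'.1
    rw [hbb, Finset.image_image]
    apply Finset.image_congr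
    intro u _
    exact hf u
  show b.image (Equiv.ofBijective f hbij) ∈ B'
  rw [h1]
  exact hb'

theorem card_ne' {α : Type*} [Fintype α] [DecidableEq α] (p : α) :
    Fintype.card {u : α // u ≠ p} = Fintype.card α - 1 := by
  have h := Fintype.card_subtype_compl (fun u : α => u = p)
  rw [Fintype.card_subtype_eq] at h
  exact h

theorem enc_insert_pt {n : ℕ} (hn : n < 24) (s : Finset GolayPt) :
    enc (insert (pt n) s) = enc s ||| 2 ^ n := by
  rw [Finset.insert_eq, enc_union, ← dec_two_pow' hn,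
    enc_dec (Nat.pow_lt_pow_right (by norm_num) hn), Nat.or_comm]

theorem stepL (n t : ℕ) (hn : n = 7 + t) (ML ML' TL : List ℕ) (Sols : List (List ℕ × ℕ))
    (fuel : ℕ) (hG : Good n t ML) (hn' : n + 1 ≤ 24)
    (hTL : ∀ T, T < 2 ^ n → pop T = t + 1 → T ∈ TL)
    (hTL' : ∀ T ∈ TL, T < 2 ^ n ∧ pop T = t + 1)
    (hchk : chk n (t + 1) ML TL (Sols.map Prod.fst) fuel [] = true)
    (hP : ∀ sp ∈ Sols, validPerm sp.2 = true ∧ (∀ i < 24, 7 ≤ i → img sp.2 i = i) ∧
      (∀ i < 7, img sp.2 i < 7) ∧ (∀ c ∈ sp.1, app sp.2 c ∈ ML') ∧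
      ∀ m ∈ ML, app sp.2 (m ||| 2 ^ n) ∈ ML')
    {α : Type*} [Fintype α] [DecidableEq α] (hα : Fintype.card α = n + 1)
    {B : Set (Finset α)} (hB : IsSteinerSystem (t + 1) (t + 1 + 1) B) (x : Fin (t + 1) ↪ α)
    (IH : ∀ x' : Fin t ↪ {u : α // u ≠ x (Fin.last t)},
      ∃ ι', EmbL n ML {b' : Finset {u : α // u ≠ x (Fin.last t)} |
        ∃ b ∈ B, x (Fin.last t) ∈ b ∧ b' = Finset.subtype (fun u => u ≠ x (Fin.last t)) b} ι' ∧
        ∀ i : Fin t, ι' (x' i) = pt (7 + i)) :
    ∃ ι, EmbL (n + 1) ML' B ι ∧ ∀ i : Fin (t + 1), ι (x i) = pt (7 + i) := by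
  obtain ⟨p, hp⟩ : ∃ p, p = x (Fin.last t) := ⟨_, rfl⟩
  rw [← hp] at IH
  have hxne : ∀ i : Fin t, x i.castSucc ≠ p := by
    intro i h
    rw [hp] at h
    exact (ne_of_lt (Fin.castSucc_lt_last i)) (x.injective h)
  obtain ⟨ι', hι', hx'⟩ := IH ⟨fun i => ⟨x i.castSucc, hxne i⟩, fun i j hij =>
    Fin.castSucc_injective _ (x.injective (congrArg Subtype.val hij))⟩
  have hD := Cfsg.Agent.S0351.result hB p
  have hcard' : Fintype.card {u : α // u ≠ p} = n := by rw [card_ne', hα]; rfl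
  have hn24 : n < 24 := by omega
  have h2n : (2 : ℕ) ^ n ≤ 2 ^ 24 := two_pow_le hG.n_le
  obtain ⟨ι, hιp, hιn⟩ : ∃ ι : α → GolayPt, ι p = pt n ∧ ∀ u (h : u ≠ p), ι u = ι' ⟨u, h⟩ :=
    ⟨fun u => if h : u = p then pt n else ι' ⟨u, h⟩, dif_pos rfl, fun u h => dif_neg h⟩
  have hιa : ∀ u, ι u = pt n → u = p := by
    intro u hu
    by_contra h
    rw [hιn u h] at hu
    have h1 := hι'.2.1 ⟨u, h⟩
    rw [hu, idx_pt hn24] at h1
    exact lt_irrefl _ h1
  have hinj : Function.Injective ι := by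
    intro u v huv
    by_cases hu : u = p
    · subst hu
      rw [hιp] at huv
      exact (hιa v huv.symm).symm
    · by_cases hv : v = p
      · subst hv
        rw [hιp] at huv
        exact absurd (hιa u huv) hu
      · rw [hιn u hu, hιn v hv] at huv
        exact congrArg Subtype.val (hι'.1 huv)
  have himg : ∀ b : Finset α, p ∈ b →
      b.image ι = insert (pt n) ((b.subtype (fun u => u ≠ p)).image ι') := by
    intro b hpb
    ext z
    simp only [Finset.mem_image, Finset.mem_insert, Finset.mem_subtype]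
    constructor
    · rintro ⟨u, hu, rfl⟩
      by_cases h : u = p
      · left; rw [h, hιp]
      · right; exact ⟨⟨u, h⟩, hu, (hιn u h).symm⟩
    · rintro (rfl | ⟨⟨u, h⟩, hu, rfl⟩)
      · exact ⟨p, hpb, hιp⟩
      · exact ⟨u, hu, hιn u h⟩
  have himg' : ∀ b : Finset α, p ∉ b → ∀ z ∈ b.image ι, idx z < n := by
    intro b hpb z hz
    obtain ⟨u, hu, rfl⟩ := Finset.mem_image.1 hz
    have hup : u ≠ p := fun h => hpb (h ▸ hu)
    rw [hιn u hup]
    exact hι'.2.1 _
  have hcardi : ∀ b c : Finset α, (b.image ι ∩ c.image ι).card = (b ∩ c).card := by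
    intro b c
    rw [← Finset.image_inter _ _ hinj, Finset.card_image_of_injective _ hinj]
  have hpull : ∀ s : Finset GolayPt, (∀ z ∈ s, idx z < n) →
      ∃ s0 : Finset α, s0.image ι = s ∧ s0.card = s.card := by
    intro s hs
    obtain ⟨s0, hs0, hs0c⟩ := hι'.exists_pullback hG hcard' s hs
    refine ⟨s0.map (Function.Embedding.subtype _), ?_, by rw [Finset.card_map, hs0c]⟩
    rw [Finset.map_eq_image, Finset.image_image, ← hs0]
    apply Finset.image_congr
    intro u _
    exact hιn u.1 u.2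
  have hptn : ∀ m, m < 2 ^ n → pt n ∉ dec m := by
    intro m hm h
    have := idx_lt_of_mem_dec hm h
    rw [idx_pt hn24] at this
    exact lt_irrefl _ this
  -- the blocks missing the new point
  have ha : ∀ c c', (c < 2 ^ n ∧ ∃ b ∈ B, b.image ι = dec c) →
      (c' < 2 ^ n ∧ ∃ b ∈ B, b.image ι = dec c') → t + 1 ≤ pop (c &&& c') → c = c' := by
    rintro c c' ⟨hc, b, hb, hbc⟩ ⟨hc', b', hb', hbc'⟩ h
    rw [← card_dec, dec_and, ← hbc, ← hbc', hcardi] at h
    have h1 := steiner_eq_of_inter hB hb hb' h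
    subst h1
    exact dec_injOn (lt_of_lt_of_le hc h2n) (lt_of_lt_of_le hc' h2n) (hbc.symm.trans hbc')
  have ha' : ∀ c m, (c < 2 ^ n ∧ ∃ b ∈ B, b.image ι = dec c) → m ∈ ML →
      pop (c &&& m) < t + 1 := by
    rintro c m ⟨hc, b, hb, hbc⟩ hm
    by_contra h
    push Not at h
    obtain ⟨_, ⟨b₁, hb₁, hpb₁, rfl⟩, hbm⟩ := hι'.surj hG hcard' hD m hm
    have h1 : t + 1 ≤ (b ∩ b₁).card := by
      rw [← hcardi, hbc, himg b₁ hpb₁, hbm]
      rw [← card_dec, dec_and] at h
      exact h.trans (Finset.card_le_card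
        (Finset.inter_subset_inter_left (Finset.subset_insert _ _)))
    have h2 := steiner_eq_of_inter hB hb hb₁ h1
    subst h2
    apply hptn c hc
    rw [← hbc, himg b hpb₁]
    exact Finset.mem_insert_self _ _
  have hb : ∀ T ∈ TL, T ∉ ML → ∃ i < n, bit T i ≠ 1 ∧
      ((T ||| 2 ^ i) < 2 ^ n ∧ ∃ b ∈ B, b.image ι = dec (T ||| 2 ^ i)) := by
    intro T hT hTM
    obtain ⟨hTlt, hTp⟩ := hTL' T hT
    obtain ⟨s0, hs0, hs0c⟩ := hpull (dec T) (fun z hz => idx_lt_of_mem_dec hTlt hz)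
    obtain ⟨b, ⟨hb, hsb⟩, -⟩ := hB.2 s0 (by rw [hs0c, card_dec, hTp])
    have hTb : dec T ⊆ b.image ι := hs0 ▸ Finset.image_subset_image hsb
    by_cases hpb : p ∈ b
    · exfalso
      have hm := hι'.2.2 (b.subtype (fun u => u ≠ p)) ⟨b, hb, hpb, rfl⟩
      apply hTM
      have h1 : dec T ⊆ (b.subtype (fun u => u ≠ p)).image ι' := by
        intro z hz
        have h2 := hTb hz
        rw [himg b hpb] at h2
        rcases Finset.mem_insert.1 h2 with h3 | h3
        · exact absurd (h3 ▸ hz) (hptn T hTlt)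
        · exact h3
      have h2 : dec T = (b.subtype (fun u => u ≠ p)).image ι' := by
        apply Finset.eq_of_subset_of_card_le h1
        rw [card_dec, hTp, card_eq_pop, hG.pop _ hm]
      have h3 : T = enc ((b.subtype (fun u => u ≠ p)).image ι') := by
        rw [← h2, enc_dec (lt_of_lt_of_le hTlt h2n)]
      rw [h3]
      exact hm
    · have hclt : enc (b.image ι) < 2 ^ n := enc_lt_of (himg' b hpb)
      have hcc : (b.image ι \ dec T).card = 1 := by
        rw [Finset.card_sdiff_of_subset hTb, Finset.card_image_of_injective _ hinj, hB.1 b hb,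
          card_dec, hTp]
        omega
      obtain ⟨q, hq⟩ := Finset.card_eq_one.1 hcc
      have hq' : q ∈ b.image ι \ dec T := hq ▸ Finset.mem_singleton_self q
      obtain ⟨hq1, hq2⟩ := Finset.mem_sdiff.1 hq'
      have he : dec (T ||| 2 ^ idx q) = b.image ι := by
        rw [dec_or, dec_two_pow, ← hq, Finset.union_sdiff_of_subset hTb]
      have he' : T ||| 2 ^ idx q = enc (b.image ι) := by
        rw [← he, enc_dec]
        exact Nat.or_lt_two_pow (lt_of_lt_of_le hTlt h2n)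
          (Nat.pow_lt_pow_right (by norm_num) (idx_lt q))
      refine ⟨idx q, himg' b hpb q hq1, ?_, he' ▸ hclt, b, hb, he.symm⟩
      rw [bit_eq]
      rw [mem_dec, Bool.not_eq_true] at hq2
      rw [hq2]
      decide
  have hTLc : ∀ c, (c < 2 ^ n ∧ ∃ b ∈ B, b.image ι = dec c) →
      ∃ T ∈ TL, T &&& c = T ∧ pop T = t + 1 := by
    rintro c ⟨hc, b, hb, hbc⟩
    have hcc : (dec c).card = t + 1 + 1 := by
      rw [← hbc, Finset.card_image_of_injective _ hinj, hB.1 b hb]
    obtain ⟨T', hT', hT'c⟩ := Finset.exists_subset_card_eq (s := dec c) (n := t + 1) (by omega)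
    have h1 : enc T' < 2 ^ n := enc_lt_of (fun z hz => idx_lt_of_mem_dec hc (hT' hz))
    have h2 : pop (enc T') = t + 1 := by rw [← card_eq_pop, hT'c]
    refine ⟨enc T', hTL _ h1 h2, ?_, h2⟩
    rw [← dec_subset_iff (enc_lt T'), dec_enc]
    exact hT'
  obtain ⟨s, hs, hNs⟩ := chk_sound n (t + 1) ML TL (Sols.map Prod.fst)
    (fun c => c < 2 ^ n ∧ ∃ b ∈ B, b.image ι = dec c) ha ha' hb hTLc fuel []
    (fun c hc => absurd hc (List.not_mem_nil)) hchk
  obtain ⟨sp, hsp, rfl⟩ := List.mem_map.1 hs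
  obtain ⟨hv, hfix, hlow, hs', hm'⟩ := hP sp hsp
  refine ⟨fun u => toPerm sp.2 (ι u), ⟨fun u v huv => hinj ((toPerm sp.2).injective huv),
    fun u => ?_, fun b hb => ?_⟩, fun i => ?_⟩
  · rw [idx_toPerm hv]
    have h1 : idx (ι u) < n + 1 := by
      by_cases hu : u = p
      · rw [hu, hιp, idx_pt hn24]; omega
      · rw [hιn u hu]
        exact Nat.lt_succ_of_lt (hι'.2.1 _)
    by_cases h7 : idx (ι u) < 7
    · have := hlow _ h7
      omega
    · rw [hfix _ (idx_lt _) (by omega)]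
      exact h1
  · have e : b.image (fun u => toPerm sp.2 (ι u)) = toPerm sp.2 • b.image ι := by
      rw [Finset.smul_finset_def, Finset.image_image]
      rfl
    rw [e, enc_smul hv]
    by_cases hpb : p ∈ b
    · rw [himg b hpb, enc_insert_pt hn24]
      exact hm' _ (hι'.2.2 _ ⟨b, hb, hpb, rfl⟩)
    · exact hs' _ (hNs _ ⟨enc_lt_of (himg' b hpb), b, hb, (dec_enc _).symm⟩)
  · induction i using Fin.lastCases with
    | last =>
      show toPerm sp.2 (ι (x (Fin.last t))) = pt (7 + t)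
      rw [← hp, hιp, toPerm_pt hv hn24, hfix n hn24 (by omega), hn]
    | cast j =>
      show toPerm sp.2 (ι (x j.castSucc)) = pt (7 + j)
      rw [hιn _ (hxne j)]
      have h1 := hx' j
      have h2 : ι' ⟨x j.castSucc, hxne j⟩ = pt (7 + j) := h1
      have hj : 7 + (j : ℕ) < 24 := by have := j.2; omega
      rw [h2, toPerm_pt hv hj, hfix _ hj (by omega)]

theorem mem_TL (n k : ℕ) (L : List ℕ) (hn : n ≤ 24)
    (hX : (Finset.univ.filter (fun p : GolayPt => idx p < n)).card = n)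
    (hnd : L.Nodup) (hall : ∀ m ∈ L, m < 2 ^ n ∧ pop m = k) (hlen : L.length = n.choose k) :
    ∀ T, T < 2 ^ n → pop T = k → T ∈ L := by
  intro T hT hTp
  have h2n := two_pow_le hn
  have hsub : (L.map dec).toFinset ⊆
      Finset.powersetCard k (Finset.univ.filter (fun p : GolayPt => idx p < n)) := by
    intro s hs
    rw [List.mem_toFinset, List.mem_map] at hs
    obtain ⟨m, hm, rfl⟩ := hs
    rw [Finset.mem_powersetCard]
    exact ⟨fun p hp => Finset.mem_filter.2 ⟨Finset.mem_univ _,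
      idx_lt_of_mem_dec (hall m hm).1 hp⟩, by rw [card_dec, (hall m hm).2]⟩
  have hcard : (L.map dec).toFinset.card = L.length := by
    rw [List.toFinset_card_of_nodup, List.length_map]
    exact (List.nodup_map_iff_inj_on hnd).2 (fun a ha b hb hab =>
      dec_injOn (lt_of_lt_of_le (hall a ha).1 h2n) (lt_of_lt_of_le (hall b hb).1 h2n) hab)
  have heq := Finset.eq_of_subset_of_card_le hsub
    (by rw [Finset.card_powersetCard, hX, hcard, hlen])
  have h1 : dec T ∈ Finset.powersetCard k (Finset.univ.filter (fun p : GolayPt => idx p < n)) := by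
    rw [Finset.mem_powersetCard]
    exact ⟨fun p hp => Finset.mem_filter.2 ⟨Finset.mem_univ _, idx_lt_of_mem_dec hT hp⟩,
      by rw [card_dec, hTp]⟩
  rw [← heq, List.mem_toFinset, List.mem_map] at h1
  obtain ⟨m, hm, hmT⟩ := h1
  rwa [← dec_injOn (lt_of_lt_of_le (hall m hm).1 h2n) (lt_of_lt_of_le hT h2n) hmT]

theorem base0 {α : Type*} [Fintype α] [DecidableEq α] (hα : Fintype.card α = 7)
    {B : Set (Finset α)} (hB : IsSteinerSystem 0 1 B) (x : Fin 0 ↪ α) :
    ∃ ι, EmbL 7 [1] B ι ∧ ∀ i : Fin 0, ι (x i) = pt (7 + i) := by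
  obtain ⟨b0, ⟨hb0, -⟩, huniq⟩ := hB.2 ∅ rfl
  obtain ⟨u0, rfl⟩ := Finset.card_eq_one.1 (hB.1 b0 hb0)
  refine ⟨fun u => pt (((Fintype.equivFinOfCardEq hα).trans
    (Equiv.swap (Fintype.equivFinOfCardEq hα u0) 0)) u).val, ⟨?_, ?_, ?_⟩, fun i => i.elim0⟩
  · intro u v huv
    have h1 := congrArg idx huv
    simp only at h1
    rw [idx_pt (by omega), idx_pt (by omega)] at h1
    exact Equiv.injective _ (Fin.ext h1)
  · intro u
    simp only
    rw [idx_pt (by omega)]
    omega
  · intro b hb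
    rw [huniq b ⟨hb, Finset.empty_subset _⟩, Finset.image_singleton]
    simp only [Equiv.trans_apply, Equiv.swap_apply_left]
    have h1 : ({pt ((0 : Fin 7) : ℕ)} : Finset GolayPt) = dec (2 ^ 0) :=
      (dec_two_pow' (by norm_num)).symm
    rw [h1, enc_dec (by norm_num)]
    simp

end Cfsg.Agent.Lib.Helper10EmbL
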