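import Cfsg.Agent.Lib.Helper10Orb

/-!
# Coded families: octads, dodecads, sextets; set systems given by lists of masks (helper10)
-/

set_option autoImplicit false

namespace Cfsg.Agent.Lib.Helper10Fam

open Cfsg Cfsg.Agent.Lib.Helper33Golay Cfsg.Agent.Lib.Helper33Sets Cfsg.Agent.Lib.Helper33Sextet
  Cfsg.Agent.Lib.Helper33Transport Cfsg.Agent.Lib.Helper10Orb
open scoped Pointwise
open MulAction

/-! ### octads and dodecads -/

def octV (i : ℕ) : Bool := Nat.beq (pop (encode i)) 8

def dodV (i : ℕ) : Bool := Nat.beq (pop (encode i)) 12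

theorem octC : IsCoded octads 4096 octV encode dec app where
  mem i _ hV := dec_mem_octads (mem_octL.2 ⟨isCode_encode i, beq_iff.1 hV⟩)
  surj x hx := by
    obtain ⟨h1, h2⟩ := mem_octL.1 ((mem_octads_iff x).1 hx)
    have h3 : encode (enc x % 4096) = enc x := by rw [encode_mod]; exact isCode_iff.1 h1
    exact ⟨enc x % 4096, Nat.mod_lt _ (by norm_num), by unfold octV; rw [h3]; exact beq_iff.2 h2,
      by rw [h3, dec_enc]⟩
  inj i hi j hj _ _ h := by
    have := dec_injOn (encode_lt i) (encode_lt j) h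
    rw [← encode_low hi, ← encode_low hj, this]
  act_spec P hP i _ _ := smul_dec (inM24_valid hP) _
  inv g hg x hx := smul_mem_octads hg hx

theorem dodC : IsCoded dodecads 4096 dodV encode dec app where
  mem i _ hV := dec_mem_dodecads (mem_dodL.2 ⟨isCode_encode i, beq_iff.1 hV⟩)
  surj x hx := by
    obtain ⟨h1, h2⟩ := mem_dodL.1 ((mem_dodecads_iff x).1 hx)
    have h3 : encode (enc x % 4096) = enc x := by rw [encode_mod]; exact isCode_iff.1 h1
    exact ⟨enc x % 4096, Nat.mod_lt _ (by norm_num), by unfold dodV; rw [h3]; exact beq_iff.2 h2,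
      by rw [h3, dec_enc]⟩
  inj i hi j hj _ _ h := by
    have := dec_injOn (encode_lt i) (encode_lt j) h
    rw [← encode_low hi, ← encode_low hj, this]
  act_spec P hP i _ _ := smul_dec (inM24_valid hP) _
  inv g hg x hx := smul_mem_dodecads hg hx

/-! ### sextets -/

def sexV (s : ℕ) : Bool := Nat.beq (bit synMask s) 1

def sexAct (P s : ℕ) : ℕ := syn (app P (E6 s 0))

theorem isSyn_of {s : ℕ} (h : s < 4096) (hV : sexV s = true) : IsSyn s := ⟨h, beq_iff.1 hV⟩

theorem E6_zero_mem (s : ℕ) : E6 s 0 ∈ sexList s := by simp [sexList]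

theorem sexC : IsCoded sextets 4096 sexV (fun s => s) sexOf sexAct where
  mem i hi hV := sexOf_mem_sextets (isSyn_of hi hV)
  surj x hx := by
    obtain ⟨s, hs, rfl⟩ := mem_sextets_iff.1 hx
    exact ⟨s, hs.1, beq_iff.2 hs.2, rfl⟩
  inj i hi j hj hVi hVj h := sexOf_injOn (isSyn_of hi hVi) (isSyn_of hj hVj) h
  act_spec P hP i hi hV := by
    have h1 := (sexList_props (isSyn_of hi hV)).2.1 _ (E6_zero_mem i)
    have h2 := toPerm_smul_sexOf hP h1.1
    rw [h1.2] at h2
    exact h2
  inv g hg x hx := smul_mem_sextets hg hx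

/-! ### set systems given by lists of masks -/

/-- the set system whose members are coded by the masks in `l` -/
def setOf (l : List ℕ) : Finset (Finset GolayPt) := (l.map dec).toFinset

theorem sexOf_eq (s : ℕ) : sexOf s = setOf (sexList s) := rfl

theorem setOf_cons (a : ℕ) (t : List ℕ) : setOf (a :: t) = insert (dec a) (setOf t) := by
  simp [setOf]

theorem mem_setOf {l : List ℕ} {x : Finset GolayPt} : x ∈ setOf l ↔ ∃ u ∈ l, dec u = x := by
  simp [setOf]

theorem card_filter_setOf (l : List ℕ) (hl : l.Nodup) (hlt : ∀ u ∈ l, u < 2 ^ 24)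
    (p : Finset GolayPt → Prop) [DecidablePred p] (q : ℕ → Bool)
    (hpq : ∀ u ∈ l, p (dec u) ↔ q u = true) : ((setOf l).filter p).card = l.countP q := by
  induction l with
  | nil => simp [setOf]
  | cons a t ih =>
    have hnot : dec a ∉ setOf t := by
      rw [mem_setOf]
      rintro ⟨u, hu, hua⟩
      have : u = a := dec_injOn (hlt u (by simp [hu])) (hlt a (by simp)) hua
      exact (List.nodup_cons.1 hl).1 (this ▸ hu)
    have ih' := ih (List.nodup_cons.1 hl).2 (fun u hu => hlt u (by simp [hu]))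
      (fun u hu => hpq u (by simp [hu]))
    rw [setOf_cons, Finset.filter_insert, List.countP_cons]
    by_cases hp : p (dec a)
    · rw [if_pos hp, Finset.card_insert_of_notMem (fun h => hnot (Finset.mem_filter.1 h).1), ih',
        (hpq a (by simp)).1 hp]
      simp
    · rw [if_neg hp, ih']
      have : q a = false := by
        rw [← Bool.not_eq_true]; exact fun h => hp ((hpq a (by simp)).2 h)
      simp [this]

theorem card_setOf (l : List ℕ) (hl : l.Nodup) (hlt : ∀ u ∈ l, u < 2 ^ 24) :
    (setOf l).card = l.length := by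
  have := card_filter_setOf l hl hlt (fun _ => True) (fun _ => true) (fun _ _ => by simp)
  simpa using this

theorem sum_setOf (l : List ℕ) (hl : l.Nodup) (hlt : ∀ u ∈ l, u < 2 ^ 24)
    (f : Finset GolayPt → ℕ) : ∑ x ∈ setOf l, f x = (l.map (fun u => f (dec u))).sum := by
  induction l with
  | nil => simp [setOf]
  | cons a t ih =>
    have hnot : dec a ∉ setOf t := by
      rw [mem_setOf]
      rintro ⟨u, hu, hua⟩
      have : u = a := dec_injOn (hlt u (by simp [hu])) (hlt a (by simp)) hua
      exact (List.nodup_cons.1 hl).1 (this ▸ hu)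
    rw [setOf_cons, Finset.sum_insert hnot, ih (List.nodup_cons.1 hl).2
      (fun u hu => hlt u (by simp [hu]))]
    simp

theorem smul_setOf {P : ℕ} (h : validPerm P = true) (l : List ℕ) :
    toPerm P • setOf l = setOf (l.map (app P)) := by
  induction l with
  | nil => simp [setOf]
  | cons a t ih =>
    rw [List.map_cons, setOf_cons, setOf_cons, Finset.smul_finset_insert, ih, smul_dec h]

/-- number of members of `B` meeting `a` in exactly `k` points -/
def cnt1 (k : ℕ) (a : Finset GolayPt) (B : Finset (Finset GolayPt)) : ℕ :=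
  (B.filter (fun b => (a ∩ b).card = k)).card

/-- number of pairs of a member of `A` and a member of `B` meeting in exactly `k` points -/
def cnt2 (k : ℕ) (A B : Finset (Finset GolayPt)) : ℕ := ∑ a ∈ A, cnt1 k a B

theorem card_filter_smul (g : Equiv.Perm GolayPt) (B : Finset (Finset GolayPt))
    (p q : Finset GolayPt → Prop) [DecidablePred p] [DecidablePred q] (h : ∀ b, p (g • b) ↔ q b) :
    ((g • B).filter p).card = (B.filter q).card := by
  have : (g • B).filter p = g • (B.filter q) := by
    ext x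
    simp only [Finset.mem_filter, Finset.mem_smul_finset]
    constructor
    · rintro ⟨⟨y, hy, rfl⟩, hp⟩
      exact ⟨y, ⟨hy, (h y).1 hp⟩, rfl⟩
    · rintro ⟨y, ⟨hy, hq⟩, rfl⟩
      exact ⟨⟨y, hy, rfl⟩, (h y).2 hq⟩
  rw [this, Finset.card_smul_finset]

theorem cnt1_smul (k : ℕ) (g : Equiv.Perm GolayPt) (a : Finset GolayPt)
    (B : Finset (Finset GolayPt)) : cnt1 k (g • a) (g • B) = cnt1 k a B := by
  unfold cnt1
  apply card_filter_smul
  intro b
  rw [card_inter_smul]

theorem cnt2_smul (k : ℕ) (g : Equiv.Perm GolayPt) (A B : Finset (Finset GolayPt)) :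
    cnt2 k (g • A) (g • B) = cnt2 k A B := by
  unfold cnt2
  rw [Finset.smul_finset_def, Finset.sum_image (fun x _ y _ h => MulAction.injective g h)]
  apply Finset.sum_congr rfl
  intro a _
  exact cnt1_smul k g a B

/-- mask version of `cnt1` -/
def cntL (k m : ℕ) (l : List ℕ) : ℕ := l.countP (fun u => Nat.beq (pop (Nat.land m u)) k)

theorem cnt1_setOf (k m : ℕ) (l : List ℕ) (hl : l.Nodup) (hlt : ∀ u ∈ l, u < 2 ^ 24) :
    cnt1 k (dec m) (setOf l) = cntL k m l := by
  unfold cnt1 cntL
  apply card_filter_setOf l hl hlt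
  intro u _
  rw [beq_iff, land_eq, ← card_dec, dec_and]

/-- mask version of `cnt2` -/
def cntLL (k : ℕ) (l l' : List ℕ) : ℕ := (l.map (fun m => cntL k m l')).sum

theorem cnt2_setOf (k : ℕ) (l l' : List ℕ) (hl : l.Nodup) (hlt : ∀ u ∈ l, u < 2 ^ 24)
    (hl' : l'.Nodup) (hlt' : ∀ u ∈ l', u < 2 ^ 24) :
    cnt2 k (setOf l) (setOf l') = cntLL k l l' := by
  unfold cnt2 cntLL
  rw [sum_setOf l hl hlt]
  congr 1
  apply List.map_congr_left
  intro m _
  exact cnt1_setOf k m l' hl' hlt'

theorem sexList_nodup {s : ℕ} (h : IsSyn s) : (sexList s).Nodup :=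
  nodup_of_sortedB (sexList_props h).1

theorem sexList_lt' {s : ℕ} (h : IsSyn s) : ∀ u ∈ sexList s, u < 2 ^ 24 :=
  fun _ hu => sexList_lt h hu

end Cfsg.Agent.Lib.Helper10Fam
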