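import Mathlib
import Cfsg.Prelude.Def_KGroupFacts
import Cfsg.Agent.Lib.Helper69Schur
import Cfsg.Agent.S3954

set_option autoImplicit false

/-!
Triviality of the Schur multiplier prime by prime: reduction to stem extensions with kernel of
prime order, the transfer criterion, and the standard local arguments (cyclic Sylow subgroups,
`p × p` with an inverting element, semidihedral Sylow 2-subgroups, `2^n : D8`).
-/

namespace Cfsg.Agent.Lib.Helper9Stem4

open Cfsg Cfsg.Agent.Lib.Helper69Schur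
open scoped commutatorElement

universe u v

section A
variable {Γ : Type u} {G : Type v} [Group Γ] [Group G]

theorem card_eq_ker_mul [Finite Γ] (σ : Γ →* G) (hs : Function.Surjective σ) :
    Nat.card Γ = Nat.card σ.ker * Nat.card G := by
  rw [← Subgroup.card_mul_index σ.ker, Subgroup.index_ker, MonoidHom.range_eq_top.2 hs,
    Subgroup.card_top]

theorem stem_quotient (σ : Γ →* G) (hσ : IsStemExtension σ) (Y : Subgroup Γ) [Y.Normal]
    (hY : Y ≤ σ.ker) : IsStemExtension (QuotientGroup.lift Y σ (fun _ hy => hY hy)) := by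
  obtain ⟨hs, hc, hd⟩ := hσ
  refine ⟨?_, ?_, ?_⟩
  · intro g
    obtain ⟨γ, rfl⟩ := hs g
    exact ⟨QuotientGroup.mk γ, rfl⟩
  · intro q hq
    obtain ⟨γ, rfl⟩ := QuotientGroup.mk_surjective q
    have h1 : γ ∈ σ.ker := hq
    rw [Subgroup.mem_center_iff]
    intro q'
    obtain ⟨γ', rfl⟩ := QuotientGroup.mk_surjective q'
    rw [← QuotientGroup.mk_mul, ← QuotientGroup.mk_mul, Subgroup.mem_center_iff.1 (hc h1) γ']
  · intro q hq
    obtain ⟨γ, rfl⟩ := QuotientGroup.mk_surjective q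
    have h1 : γ ∈ σ.ker := hq
    exact map_commutator_le (QuotientGroup.mk' Y) ⟨γ, hd h1, rfl⟩

end A

/-- It suffices to exclude stem extensions with kernel of prime order. -/
theorem trivial_of_prime {G : Type u} [Group G] [Finite G]
    (h : ∀ (p : ℕ), p.Prime → ∀ (Γ : Type u) [Group Γ] [Finite Γ] (σ : Γ →* G),
      IsStemExtension σ → Nat.card σ.ker = p → False) :
    HasCyclicSchurMultiplier G 1 := by
  rw [hasTrivialMultiplier_iff]
  have key : ∀ n : ℕ, ∀ (Γ : Type u) [Group Γ] [Finite Γ] (σ : Γ →* G),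
      IsStemExtension σ → Nat.card σ.ker = n → n = 1 := by
    intro n
    induction n using Nat.strong_induction_on with
    | _ n ih =>
      intro Γ _ _ σ hσ hn
      by_contra hn1
      obtain ⟨p, hp, hpn⟩ := Nat.exists_prime_and_dvd hn1
      have := Fact.mk hp
      obtain ⟨x, hx⟩ := exists_prime_orderOf_dvd_card' p (hn ▸ hpn)
      let Y : Subgroup Γ := Subgroup.zpowers (x : Γ)
      have hYle : Y ≤ σ.ker := by
        rw [Subgroup.zpowers_le]; exact x.2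
      have : Y.Normal := normal_of_le_center (hYle.trans hσ.2.1)
      have hst := stem_quotient σ hσ Y hYle
      have c1 := card_eq_ker_mul σ hσ.1
      have c2 := card_eq_ker_mul _ hst.1
      have c3 : Nat.card Γ = Nat.card (Γ ⧸ Y) * Nat.card Y :=
        Subgroup.card_eq_card_quotient_mul_card_subgroup Y
      have c4 : Nat.card Y = p := by
        rw [Nat.card_zpowers, Subgroup.orderOf_coe, hx]
      have hG : 0 < Nat.card G := Nat.card_pos
      set m := Nat.card (QuotientGroup.lift Y σ (fun _ hy => hYle hy)).ker with hm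
      have c5 : n = m * p := by
        rw [c2, c4, c1, hn] at c3
        have : n * Nat.card G = (m * p) * Nat.card G := by rw [c3]; ring
        exact Nat.eq_of_mul_eq_mul_right hG this
      have hmpos : 0 < m := Nat.card_pos
      have hlt : m < n := by
        rw [c5]
        exact lt_mul_of_one_lt_right hmpos hp.one_lt
      have hm1 : m = 1 := ih m hlt (Γ ⧸ Y) _ hst rfl
      rw [hm1, one_mul] at c5
      exact h p hp Γ σ hσ (hn.trans c5)
  intro Γ _ _ σ hσ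
  exact (Subgroup.card_eq_one).1 (key _ Γ σ hσ rfl)

section B
variable {Γ : Type u} [Group Γ]

/-- conjugation by elements of `closure Y` preserves `N` -/
theorem conj_mem_of_closure (N : Subgroup Γ) (Y : Set Γ)
    (hn : ∀ g ∈ Y, ∀ n ∈ N, g * n * g⁻¹ ∈ N ∧ g⁻¹ * n * g ∈ N) :
    ∀ t ∈ Subgroup.closure Y, ∀ n ∈ N, t * n * t⁻¹ ∈ N ∧ t⁻¹ * n * t ∈ N := by
  intro t ht
  induction ht using Subgroup.closure_induction with
  | mem g hg => exact hn g hg
  | one => intro n hn'; simpa using hn'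
  | mul a b _ _ iha ihb =>
    intro n hn'
    constructor
    · have := (iha _ (ihb n hn').1).1
      have e : a * b * n * (a * b)⁻¹ = a * (b * n * b⁻¹) * a⁻¹ := by group
      rw [e]; exact this
    · have := (ihb _ (iha n hn').2).2
      have e : (a * b)⁻¹ * n * (a * b) = b⁻¹ * (a⁻¹ * n * a) * b := by group
      rw [e]; exact this
  | inv a _ iha =>
    intro n hn'
    refine ⟨?_, ?_⟩
    · rw [inv_inv]; exact (iha n hn').2
    · rw [inv_inv]; exact (iha n hn').1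

/-- one variable of the commutator runs over a closure -/
theorem comm_mem_of_closure (N : Subgroup Γ) (Y : Set Γ)
    (hn : ∀ g ∈ Y, ∀ n ∈ N, g * n * g⁻¹ ∈ N ∧ g⁻¹ * n * g ∈ N) (h : Γ)
    (hc : ∀ g ∈ Y, ⁅g, h⁆ ∈ N) : ∀ t ∈ Subgroup.closure Y, ⁅t, h⁆ ∈ N := by
  have hcl := conj_mem_of_closure N Y hn
  intro t ht
  induction ht using Subgroup.closure_induction with
  | mem g hg => exact hc g hg
  | one => simp
  | mul a b ha _ iha ihb =>
    have e : ⁅a * b, h⁆ = a * ⁅b, h⁆ * a⁻¹ * ⁅a, h⁆ := by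
      simp only [commutatorElement_def]; group
    rw [e]
    exact N.mul_mem (hcl a ha _ ihb).1 iha
  | inv a ha iha =>
    have e : ⁅a⁻¹, h⁆ = a⁻¹ * ⁅a, h⁆⁻¹ * a := by
      simp only [commutatorElement_def]; group
    rw [e]
    exact (hcl a ha _ (N.inv_mem iha)).2

/-- `T' ≤ N` when `T = ⟨Y⟩` normalises `N` and the generators commute modulo `N` -/
theorem commutator_closure_le (N : Subgroup Γ) (Y : Set Γ)
    (hn : ∀ g ∈ Y, ∀ n ∈ N, g * n * g⁻¹ ∈ N ∧ g⁻¹ * n * g ∈ N)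
    (hc : ∀ g ∈ Y, ∀ h ∈ Y, ⁅g, h⁆ ∈ N) :
    ⁅Subgroup.closure Y, Subgroup.closure Y⁆ ≤ N := by
  rw [Subgroup.commutator_le]
  intro s hs t ht
  apply comm_mem_of_closure N Y hn t _ s hs
  intro g hg
  have h1 : ⁅t, g⁆ ∈ N := comm_mem_of_closure N Y hn g (fun g' hg' => hc g' hg' g hg) t ht
  have e : ⁅g, t⁆ = ⁅t, g⁆⁻¹ := (commutatorElement_inv t g).symm
  rw [e]
  exact N.inv_mem h1

/-- adding central elements does not change the commutator subgroup -/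
theorem commutator_sup_center_le (T Z : Subgroup Γ) (hZ : Z ≤ Subgroup.center Γ) :
    ⁅T ⊔ Z, T ⊔ Z⁆ ≤ ⁅T, T⁆ := by
  have : Z.Normal := normal_of_le_center hZ
  have hmem : ∀ g ∈ T ⊔ Z, ∃ t ∈ T, ∃ z ∈ Z, g = t * z := by
    intro g hg
    have h1 : g ∈ ((T ⊔ Z : Subgroup Γ) : Set Γ) := hg
    rw [Subgroup.mul_normal] at h1
    obtain ⟨t, ht, z, hz, rfl⟩ := h1
    exact ⟨t, ht, z, hz, rfl⟩
  rw [Subgroup.commutator_le]
  intro a ha b hb
  obtain ⟨t, ht, z, hz, rfl⟩ := hmem a ha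
  obtain ⟨t', ht', z', hz', rfl⟩ := hmem b hb
  rw [commutatorElement_mul_center t t' z z' (hZ hz) (hZ hz')]
  exact Subgroup.commutator_mem_commutator ht ht'

end B

section C
variable {Γ : Type u} {G : Type v} [Group Γ] [Group G]

/-- **Transfer criterion.** -/
theorem false_of_T [Finite Γ] (σ : Γ →* G) (hσ : IsStemExtension σ) {p : ℕ} (hp : p.Prime)
    (hk : Nat.card σ.ker = p) (T N : Subgroup Γ) (hTN : ⁅T, T⁆ ≤ N)
    (hN : ∀ k ∈ N, σ k = 1 → k = 1)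
    (S : Subgroup G) (hS : S ≤ T.map σ) (hidx : ¬ p ∣ S.index) : False := by
  obtain ⟨hs, hc, hd⟩ := hσ
  have : Fact p.Prime := ⟨hp⟩
  obtain ⟨k, hk1⟩ := exists_prime_orderOf_dvd_card' (G := σ.ker) p (hk ▸ dvd_rfl)
  have hH : T ⊔ σ.ker = (T.map σ).comap σ := (Subgroup.comap_map_eq σ T).symm
  have hidxH : (T ⊔ σ.ker).index = (T.map σ).index := by
    rw [hH, Subgroup.index_comap_of_surjective _ hs]
  obtain ⟨h1, h2⟩ := Cfsg.Agent.S3954.pow_index_mem (T ⊔ σ.ker) k.1 (hc k.2) (hd k.2)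
  have h3 : (k : Γ) ^ (T ⊔ σ.ker).index ∈ ⁅T ⊔ σ.ker, T ⊔ σ.ker⁆ := by
    rw [← Subgroup.map_subtype_commutator]
    exact ⟨_, h2, rfl⟩
  have h4 := hTN (commutator_sup_center_le T σ.ker hc h3)
  have h5 : (k : Γ) ^ (T ⊔ σ.ker).index = 1 := by
    apply hN _ h4
    rw [map_pow, MonoidHom.mem_ker.1 k.2, one_pow]
  have h6 : p ∣ (T ⊔ σ.ker).index := by
    rw [← hk1, ← Subgroup.orderOf_coe]
    exact orderOf_dvd_of_pow_eq_one h5
  apply hidx
  rw [hidxH] at h6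
  exact h6.trans (Subgroup.index_dvd_of_le hS)

/-- version with generators -/
theorem false_of_gens [Finite Γ] (σ : Γ →* G) (hσ : IsStemExtension σ) {p : ℕ} (hp : p.Prime)
    (hk : Nat.card σ.ker = p) (N : Subgroup Γ) (Y : Set Γ)
    (hn : ∀ g ∈ Y, ∀ n ∈ N, g * n * g⁻¹ ∈ N ∧ g⁻¹ * n * g ∈ N)
    (hc : ∀ g ∈ Y, ∀ h ∈ Y, ⁅g, h⁆ ∈ N)
    (hN : ∀ k ∈ N, σ k = 1 → k = 1)
    (S : Subgroup G) (hS : S ≤ Subgroup.closure (σ '' Y)) (hidx : ¬ p ∣ S.index) : False := by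
  refine false_of_T σ hσ hp hk (Subgroup.closure Y) N (commutator_closure_le N Y hn hc) hN S ?_ hidx
  rw [MonoidHom.map_closure]
  exact hS

/-- commuting generators -/
theorem false_of_comm [Finite Γ] (σ : Γ →* G) (hσ : IsStemExtension σ) {p : ℕ} (hp : p.Prime)
    (hk : Nat.card σ.ker = p) (Y : Set Γ) (hc : ∀ g ∈ Y, ∀ h ∈ Y, g * h = h * g)
    (S : Subgroup G) (hS : S ≤ Subgroup.closure (σ '' Y)) (hidx : ¬ p ∣ S.index) : False := by
  refine false_of_gens σ hσ hp hk ⊥ Y ?_ ?_ ?_ S hS hidx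
  · intro g _ n hn
    rw [Subgroup.mem_bot] at hn
    subst hn
    simp
  · intro g hg h hh
    rw [Subgroup.mem_bot, commutatorElement_eq_one_iff_mul_comm]
    exact hc g hg h hh
  · intro k hk' _
    exact hk'

theorem not_dvd_index_of_card [Finite G] (S : Subgroup G) {p k : ℕ} (hS : Nat.card S = p ^ k)
    (hG : ¬ p ^ (k + 1) ∣ Nat.card G) : ¬ p ∣ S.index := by
  intro h
  apply hG
  rw [← Subgroup.card_mul_index S, hS, pow_succ]
  exact Nat.mul_dvd_mul_left _ h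

/-- **Cyclic Sylow subgroups.** -/
theorem false_of_not_sq_dvd [Finite Γ] (σ : Γ →* G) (hσ : IsStemExtension σ) {p : ℕ} (hp : p.Prime)
    (hk : Nat.card σ.ker = p) (hG : ¬ p ^ 2 ∣ Nat.card G) : False := by
  have : Finite G := Finite.of_surjective σ hσ.1
  have : Fact p.Prime := ⟨hp⟩
  by_cases hpG : p ∣ Nat.card G
  · obtain ⟨g, hg⟩ := exists_prime_orderOf_dvd_card' p hpG
    obtain ⟨γ, rfl⟩ := hσ.1 g
    refine false_of_comm σ hσ hp hk {γ} ?_ (Subgroup.zpowers (σ γ)) ?_ ?_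
    · intro a ha b hb
      rw [Set.mem_singleton_iff] at ha hb
      rw [ha, hb]
    · rw [Set.image_singleton, Subgroup.zpowers_eq_closure]
    · apply not_dvd_index_of_card (k := 1) _ _ hG
      rw [Nat.card_zpowers, hg, pow_one]
  · refine false_of_comm σ hσ hp hk ∅ (by simp) ⊥ bot_le ?_
    rw [Subgroup.index_bot]
    exact hpG

theorem ker_pow_eq_one [Finite Γ] (σ : Γ →* G) {p : ℕ} (hk : Nat.card σ.ker = p) {k : Γ}
    (h : σ k = 1) : k ^ p = 1 := by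
  have h1 : (⟨k, h⟩ : σ.ker) ^ Nat.card σ.ker = 1 := pow_card_eq_one'
  rw [hk] at h1
  exact congrArg Subtype.val h1

theorem card_sup_zpowers (x y : G) (hxy : x * y = y * x)
    (hd : Disjoint (Subgroup.zpowers x) (Subgroup.zpowers y)) :
    Nat.card ↥(Subgroup.zpowers x ⊔ Subgroup.zpowers y) = orderOf x * orderOf y := by
  have comm : ∀ (m : Subgroup.zpowers x) (n : Subgroup.zpowers y),
      Commute ((Subgroup.zpowers x).subtype m) ((Subgroup.zpowers y).subtype n) := by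
    rintro ⟨_, i, rfl⟩ ⟨_, j, rfl⟩
    exact (Commute.zpow_zpow (show Commute x y from hxy) i j)
  have hinj : Function.Injective (MonoidHom.noncommCoprod _ _ comm) := by
    rw [MonoidHom.noncommCoprod_injective]
    refine ⟨Subtype.val_injective, Subtype.val_injective, ?_⟩
    rwa [Subgroup.range_subtype, Subgroup.range_subtype]
  have hr := MonoidHom.noncommCoprod_range _ _ comm
  rw [Subgroup.range_subtype, Subgroup.range_subtype] at hr
  rw [← hr, Nat.card_congr (MonoidHom.ofInjective hinj).symm.toEquiv, Nat.card_prod,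
    Nat.card_zpowers, Nat.card_zpowers]

end C

section D
variable {Γ : Type u} {G : Type v} [Group Γ] [Group G]

/-- two commuting elements, one inverted and the other centralised by some `t`: their lifts
commute (odd `p`). -/
theorem lifts_commute [Finite Γ] (σ : Γ →* G) (hc : σ.ker ≤ Subgroup.center Γ) {p : ℕ}
    (hk : Nat.card σ.ker = p) (hp2 : Odd p) (X Y T : Γ)
    (hxy : σ X * σ Y = σ Y * σ X) (htx : σ X * σ T * σ X = σ T) (hty : σ T * σ Y = σ Y * σ T) :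
    X * Y = Y * X := by
  have hcen : ∀ ζ : Γ, σ ζ = 1 → ζ ∈ Subgroup.center Γ := fun ζ hζ => hc hζ
  obtain ⟨c, hcdef⟩ : ∃ c, c = ⁅X, Y⁆ := ⟨_, rfl⟩
  have hcker : σ c = 1 := by
    rw [hcdef, map_commutatorElement, commutatorElement_eq_one_iff_mul_comm]
    exact hxy
  obtain ⟨ζ, hζ⟩ : ∃ ζ, ζ = X * (T * X * T⁻¹) := ⟨_, rfl⟩
  obtain ⟨ζ', hζ'⟩ : ∃ ζ', ζ' = Y⁻¹ * (T * Y * T⁻¹) := ⟨_, rfl⟩
  have hζk : σ ζ = 1 := by
    rw [hζ]
    simp only [map_mul, map_inv]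
    rw [← mul_assoc, ← mul_assoc, htx, mul_inv_cancel]
  have hζk' : σ ζ' = 1 := by
    rw [hζ']
    simp only [map_mul, map_inv]
    rw [hty]
    group
  have e1 : T * X * T⁻¹ = X⁻¹ * ζ := by rw [hζ]; group
  have e2 : T * Y * T⁻¹ = Y * ζ' := by rw [hζ']; group
  have e3 : T * c * T⁻¹ = ⁅T * X * T⁻¹, T * Y * T⁻¹⁆ := by
    rw [hcdef]; simp only [commutatorElement_def]; group
  have e4 : T * c * T⁻¹ = c := by
    rw [Subgroup.mem_center_iff.1 (hcen c hcker) T]; group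
  have e5 : ⁅X⁻¹, Y⁆ = X⁻¹ * c⁻¹ * X := by
    rw [hcdef]; simp only [commutatorElement_def]; group
  have e6 : X⁻¹ * c⁻¹ * X = c⁻¹ := by
    have := Subgroup.mem_center_iff.1 (Subgroup.inv_mem _ (hcen c hcker)) X⁻¹
    rw [this]; group
  rw [e1, e2, commutatorElement_mul_center _ _ _ _ (hcen ζ hζk) (hcen ζ' hζk'), e5, e6, e4] at e3
  have h2 : c ^ 2 = 1 := by
    rw [pow_two]
    nth_rewrite 1 [e3]
    exact inv_mul_cancel c
  have hp' : c ^ p = 1 := ker_pow_eq_one σ hk hcker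
  have h1 : c = 1 := by
    obtain ⟨m, rfl⟩ := hp2
    rw [pow_succ, pow_mul, h2, one_pow, one_mul] at hp'
    exact hp'
  rw [hcdef, commutatorElement_eq_one_iff_mul_comm] at h1
  exact h1

/-- **Sylow subgroup `p × p`, with an element inverting one factor and centralising the other.** -/
theorem false_of_pp [Finite Γ] (σ : Γ →* G) (hσ : IsStemExtension σ) {p : ℕ} (hp : p.Prime)
    (hk : Nat.card σ.ker = p) (hp2 : p ≠ 2) (x y t : G) (hx : x ^ p = 1) (hx1 : x ≠ 1)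
    (hy : y ^ p = 1) (hy1 : y ≠ 1) (hxy : x * y = y * x) (htx : x * t * x = t)
    (hty : t * y = y * t) (hG : ¬ p ^ 3 ∣ Nat.card G) : False := by
  have : Finite G := Finite.of_surjective σ hσ.1
  have : Fact p.Prime := ⟨hp⟩
  have hodd : Odd p := hp.odd_of_ne_two hp2
  obtain ⟨X, rfl⟩ := hσ.1 x
  obtain ⟨Y, rfl⟩ := hσ.1 y
  obtain ⟨T, rfl⟩ := hσ.1 t
  have hXY := lifts_commute σ hσ.2.1 hk hodd X Y T hxy htx hty
  have ox : orderOf (σ X) = p := orderOf_eq_prime hx hx1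
  have oy : orderOf (σ Y) = p := orderOf_eq_prime hy hy1
  have hinv : ∀ g ∈ Subgroup.zpowers (σ X), σ T * g * (σ T)⁻¹ = g⁻¹ := by
    rintro _ ⟨n, rfl⟩
    have e : σ T * σ X * (σ T)⁻¹ = (σ X)⁻¹ := by
      have e0 : σ T * σ X = (σ X)⁻¹ * σ T := by
        rw [eq_inv_mul_iff_mul_eq, ← mul_assoc]; exact htx
      rw [e0]; group
    have := map_zpow (MulAut.conj (σ T)).toMonoidHom (σ X) n
    simp only [MulEquiv.coe_toMonoidHom, MulAut.conj_apply] at this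
    rw [this, e, inv_zpow]
  have hdisj : Disjoint (Subgroup.zpowers (σ X)) (Subgroup.zpowers (σ Y)) := by
    rw [Subgroup.disjoint_def]
    intro g hgx hgy
    have h1 := hinv g hgx
    have h2 : σ T * g * (σ T)⁻¹ = g := by
      obtain ⟨n, rfl⟩ := hgy
      have : Commute (σ T) (σ Y ^ n) := Commute.zpow_right hty n
      rw [this.eq]; group
    have h3 : g ^ 2 = 1 := by
      rw [pow_two]
      nth_rewrite 1 [← h2, h1]
      exact inv_mul_cancel g
    have h4 : g ^ p = 1 := by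
      obtain ⟨n, rfl⟩ := hgy
      rw [← zpow_natCast, ← zpow_mul, mul_comm, zpow_mul, zpow_natCast, hy, one_zpow]
    obtain ⟨m, hm⟩ := hodd
    rw [hm, pow_succ, pow_mul, h3, one_pow, one_mul] at h4
    exact h4
  refine false_of_comm σ hσ hp hk {X, Y} ?_ (Subgroup.zpowers (σ X) ⊔ Subgroup.zpowers (σ Y)) ?_ ?_
  · intro a ha b hb
    rcases ha with rfl | rfl <;> rcases hb with rfl | rfl
    · rfl
    · exact hXY
    · exact hXY.symm
    · rfl
  · rw [Set.image_pair, sup_le_iff, Subgroup.zpowers_le, Subgroup.zpowers_le]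
    exact ⟨Subgroup.subset_closure (by simp), Subgroup.subset_closure (by simp)⟩
  · apply not_dvd_index_of_card (k := 2) _ _ hG
    rw [card_sup_zpowers _ _ hxy hdisj, ox, oy, pow_two]

end D

section steps
variable {G : Type*} [Group G]

/-- (same statement and proof as in helper88's `Helper88PC`) -/
theorem mem_sup_step (K : Subgroup G) (x : G) (hx2 : x * x ∈ K) (hn : ∀ k ∈ K, x * k * x⁻¹ ∈ K)
    (h : G) : h ∈ K ⊔ Subgroup.zpowers x ↔ h ∈ K ∨ x⁻¹ * h ∈ K := by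
  have hn' : ∀ k ∈ K, x⁻¹ * k * x ∈ K := by
    intro k hk
    have : x⁻¹ * k * x = (x * x)⁻¹ * (x * k * x⁻¹) * (x * x) := by group
    rw [this]
    exact K.mul_mem (K.mul_mem (K.inv_mem hx2) (hn k hk)) hx2
  let M : Subgroup G :=
    { carrier := {h | h ∈ K ∨ x⁻¹ * h ∈ K}
      one_mem' := Or.inl K.one_mem
      mul_mem' := by
        rintro a b (ha | ha) (hb | hb)
        · exact Or.inl (K.mul_mem ha hb)
        · right
          have : x⁻¹ * (a * b) = (x⁻¹ * a * x) * (x⁻¹ * b) := by group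
          rw [this]
          exact K.mul_mem (hn' a ha) hb
        · right
          rw [← mul_assoc]
          exact K.mul_mem ha hb
        · left
          have : a * b = (x * x) * (x⁻¹ * (x⁻¹ * a) * x) * (x⁻¹ * b) := by group
          rw [this]
          exact K.mul_mem (K.mul_mem hx2 (hn' _ ha)) hb
      inv_mem' := by
        rintro a (ha | ha)
        · exact Or.inl (K.inv_mem ha)
        · right
          have : x⁻¹ * a⁻¹ = (x * x)⁻¹ * (x * (x⁻¹ * a)⁻¹ * x⁻¹) := by group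
          rw [this]
          exact K.mul_mem (K.inv_mem hx2) (hn _ (K.inv_mem ha)) }
  constructor
  · intro hh
    have hle : K ⊔ Subgroup.zpowers x ≤ M := by
      apply sup_le
      · intro k hk; exact Or.inl hk
      · rw [Subgroup.zpowers_le]
        right
        rw [inv_mul_cancel]
        exact K.one_mem
    exact hle hh
  · rintro (hh | hh)
    · exact Subgroup.mem_sup_left hh
    · have : h = x * (x⁻¹ * h) := by group
      rw [this]
      exact Subgroup.mul_mem _ (Subgroup.mem_sup_right (Subgroup.mem_zpowers x))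
        (Subgroup.mem_sup_left hh)

theorem card_sup_step [Finite G] (K : Subgroup G) (x : G) (hx2 : x * x ∈ K)
    (hn : ∀ k ∈ K, x * k * x⁻¹ ∈ K) (hx : x ∉ K) :
    Nat.card ↥(K ⊔ Subgroup.zpowers x) = 2 * Nat.card K := by
  have hset : ((K ⊔ Subgroup.zpowers x : Subgroup G) : Set G) =
      (K : Set G) ∪ (fun k => x * k) '' (K : Set G) := by
    ext h
    rw [SetLike.mem_coe, mem_sup_step K x hx2 hn]
    constructor
    · rintro (hh | hh)
      · exact Or.inl hh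
      · exact Or.inr ⟨x⁻¹ * h, hh, by group⟩
    · rintro (hh | ⟨k, hk, rfl⟩)
      · exact Or.inl hh
      · right
        rw [inv_mul_cancel_left]
        exact hk
  have hdisj : Disjoint (K : Set G) ((fun k => x * k) '' (K : Set G)) := by
    rw [Set.disjoint_left]
    rintro _ ha ⟨k, hk, rfl⟩
    apply hx
    have : x = (x * k) * k⁻¹ := by group
    rw [this]
    exact K.mul_mem ha (K.inv_mem hk)
  have h1 : Nat.card ↥(K ⊔ Subgroup.zpowers x) =
      ((K ⊔ Subgroup.zpowers x : Subgroup G) : Set G).ncard := rfl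
  have h2 : Nat.card K = (K : Set G).ncard := rfl
  rw [h1, hset, Set.ncard_union_eq hdisj (Set.toFinite _) (Set.toFinite _),
    Set.ncard_image_of_injective _ (mul_right_injective x), h2]
  ring

theorem conj_mem_sup (K : Subgroup G) (y g : G) (hK : ∀ k ∈ K, g * k * g⁻¹ ∈ K)
    (hy : g * y * g⁻¹ ∈ K ⊔ Subgroup.zpowers y) :
    ∀ k ∈ K ⊔ Subgroup.zpowers y, g * k * g⁻¹ ∈ K ⊔ Subgroup.zpowers y := by
  have hle : K ⊔ Subgroup.zpowers y ≤
      (K ⊔ Subgroup.zpowers y).comap (MulAut.conj g).toMonoidHom := by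
    rw [sup_le_iff, Subgroup.zpowers_le]
    exact ⟨fun k hk => Subgroup.mem_sup_left (hK k hk), hy⟩
  exact fun k hk => hle hk

theorem conj_mem_zpowers (y g : G) (hy : g * y * g⁻¹ ∈ Subgroup.zpowers y) :
    ∀ k ∈ Subgroup.zpowers y, g * k * g⁻¹ ∈ Subgroup.zpowers y := by
  have hle : Subgroup.zpowers y ≤ (Subgroup.zpowers y).comap (MulAut.conj g).toMonoidHom := by
    rw [Subgroup.zpowers_le]
    exact hy
  exact fun k hk => hle hk

theorem conj_inv_eq (g n : G) (hg : ∀ m, m * (g * g) = (g * g) * m) :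
    g⁻¹ * n * g = g * n * g⁻¹ := by
  calc g⁻¹ * n * g = g⁻¹ * (n * (g * g)) * g⁻¹ := by group
    _ = g⁻¹ * ((g * g) * n) * g⁻¹ := by rw [hg]
    _ = g * n * g⁻¹ := by group

/-- `T' ≤ N` for `T = N ⟨Y⟩` -/
theorem commutator_sup_closure_le (N : Subgroup G) (Y : Set G)
    (hn : ∀ g ∈ Y, ∀ n ∈ N, g * n * g⁻¹ ∈ N ∧ g⁻¹ * n * g ∈ N)
    (hc : ∀ g ∈ Y, ∀ h ∈ Y, ⁅g, h⁆ ∈ N) :
    ⁅N ⊔ Subgroup.closure Y, N ⊔ Subgroup.closure Y⁆ ≤ N := by
  have e : N ⊔ Subgroup.closure Y = Subgroup.closure ((N : Set G) ∪ Y) := by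
    rw [Subgroup.closure_union, Subgroup.closure_eq]
  rw [e]
  have hn' : ∀ g ∈ (N : Set G) ∪ Y, ∀ n ∈ N, g * n * g⁻¹ ∈ N ∧ g⁻¹ * n * g ∈ N := by
    rintro g (hg | hg) n hn1
    · exact ⟨N.mul_mem (N.mul_mem hg hn1) (N.inv_mem hg), N.mul_mem (N.mul_mem (N.inv_mem hg) hn1) hg⟩
    · exact hn g hg n hn1
  apply commutator_closure_le N _ hn'
  rintro g hg h hh
  rcases hg with hg | hg
  · have e1 : ⁅g, h⁆ = g * (h * g⁻¹ * h⁻¹) := by
      simp only [commutatorElement_def]; group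
    rw [e1]
    exact N.mul_mem hg (hn' h hh _ (N.inv_mem hg)).1
  · rcases hh with hh | hh
    · have e1 : ⁅g, h⁆ = (g * h * g⁻¹) * h⁻¹ := by
        simp only [commutatorElement_def]
      rw [e1]
      exact N.mul_mem (hn g hg _ hh).1 (N.inv_mem hh)
    · exact hc g hg h hh

end steps

section SD
variable {Γ : Type u} {G : Type v} [Group Γ] [Group G]

/-- **Semidihedral Sylow 2-subgroup of order 16.** -/
theorem false_of_SD16 [Finite Γ] (σ : Γ →* G) (hσ : IsStemExtension σ) (hk : Nat.card σ.ker = 2)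
    (a b : G) (ha8 : a ^ 8 = 1) (ha4 : a ^ 4 ≠ 1) (hb : b * b = 1) (hba : b * a = a ^ 3 * b)
    (hG : ¬ 2 ^ 5 ∣ Nat.card G) : False := by
  have : Finite G := Finite.of_surjective σ hσ.1
  obtain ⟨A, rfl⟩ := hσ.1 a
  obtain ⟨B, rfl⟩ := hσ.1 b
  have hcen : ∀ ζ, σ ζ = 1 → ∀ g, g * ζ = ζ * g :=
    fun ζ hζ => Subgroup.mem_center_iff.1 (hσ.2.1 hζ)
  have hsq : ∀ ζ, σ ζ = 1 → ζ ^ 2 = 1 := fun ζ hζ => ker_pow_eq_one σ hk hζ
  obtain ⟨ζ, hζ⟩ : ∃ ζ, ζ = (A ^ 3)⁻¹ * (B * A * B⁻¹) := ⟨_, rfl⟩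
  have hζk : σ ζ = 1 := by
    rw [hζ]; simp only [map_mul, map_inv, map_pow]; rw [hba]; group
  have hζc : ∀ g, Commute g ζ := hcen ζ hζk
  have hζ2 : ζ ^ 2 = 1 := hsq ζ hζk
  have e1 : B * A * B⁻¹ = A ^ 3 * ζ := by rw [hζ]; group
  have hB2 : σ (B * B) = 1 := by rw [map_mul, hb]
  have e2 : B * (B * A * B⁻¹) * B⁻¹ = A := by
    have := hcen (B * B) hB2 A
    calc B * (B * A * B⁻¹) * B⁻¹ = ((B * B) * A) * B⁻¹ * B⁻¹ := by group
      _ = A * (B * B) * B⁻¹ * B⁻¹ := by rw [this]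
      _ = A := by group
  have conjB : ∀ (m : ℕ), B * (A ^ m * ζ) * B⁻¹ = A ^ (3 * m) * ζ ^ (m + 1) := by
    intro m
    calc B * (A ^ m * ζ) * B⁻¹ = B * A ^ m * (ζ * B⁻¹) := by group
      _ = B * A ^ m * (B⁻¹ * ζ) := by rw [(hζc B⁻¹).eq]
      _ = (B * A * B⁻¹) ^ m * ζ := by rw [conj_pow]; group
      _ = A ^ (3 * m) * ζ ^ (m + 1) := by
        rw [e1, (hζc (A ^ 3)).mul_pow, ← pow_mul, pow_succ, mul_assoc]
  have hA8 : A ^ 8 = 1 := by
    rw [e1, conjB 3] at e2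
    have h4 : ζ ^ (3 + 1) = 1 := by
      rw [show 3 + 1 = 2 * 2 from rfl, pow_mul, hζ2, one_pow]
    rw [h4, mul_one] at e2
    have : A ^ 8 * A = 1 * A := by rw [one_mul, ← pow_succ]; exact e2
    exact mul_right_cancel this
  obtain ⟨U, hU⟩ : ∃ U, U = A ^ 2 * ζ := ⟨_, rfl⟩
  have hU4 : U ^ 4 = 1 := by
    rw [hU, (hζc (A ^ 2)).mul_pow, ← pow_mul, hA8, one_mul, show 4 = 2 * 2 from rfl, pow_mul, hζ2,
      one_pow]
  have hAU : A * U * A⁻¹ = U := by
    have : Commute A U := by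
      rw [hU]; exact ((Commute.refl A).pow_right 2).mul_right (hζc A)
    rw [this.eq]; group
  have hBU : B * U * B⁻¹ = U ^ 3 := by
    rw [hU, conjB 2, (hζc (A ^ 2)).mul_pow, ← pow_mul]
  have hσU : σ U = σ A ^ 2 := by rw [hU, map_mul, hζk, mul_one, map_pow]
  have o2 : orderOf (σ A ^ 2) = 2 ^ (1 + 1) := by
    apply orderOf_eq_prime_pow
    · rw [← pow_mul]; exact ha4
    · rw [← pow_mul]; exact ha8
  have o8 : orderOf (σ A) = 2 ^ (2 + 1) := orderOf_eq_prime_pow ha4 ha8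
  have hnA : ∀ n ∈ Subgroup.zpowers U, A * n * A⁻¹ ∈ Subgroup.zpowers U :=
    conj_mem_zpowers U A (by rw [hAU]; exact Subgroup.mem_zpowers U)
  have hnA' : ∀ n ∈ Subgroup.zpowers U, A⁻¹ * n * A ∈ Subgroup.zpowers U := by
    have := conj_mem_zpowers U A⁻¹ (by
      have : A⁻¹ * U * A⁻¹⁻¹ = U := by
        nth_rewrite 1 [← hAU]; group
      rw [this]; exact Subgroup.mem_zpowers U)
    simpa using this
  have hnB : ∀ n ∈ Subgroup.zpowers U, B * n * B⁻¹ ∈ Subgroup.zpowers U :=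
    conj_mem_zpowers U B (by rw [hBU]; exact Subgroup.pow_mem _ (Subgroup.mem_zpowers U) 3)
  have hnB' : ∀ n ∈ Subgroup.zpowers U, B⁻¹ * n * B ∈ Subgroup.zpowers U := by
    intro n hn
    rw [conj_inv_eq B n (hcen (B * B) hB2)]
    exact hnB n hn
  have hBA : ⁅B, A⁆ = U := by
    rw [commutatorElement_def, e1, hU]
    calc A ^ 3 * ζ * A⁻¹ = A ^ 3 * (ζ * A⁻¹) := by group
      _ = A ^ 3 * (A⁻¹ * ζ) := by rw [(hζc A⁻¹).eq]
      _ = A ^ 2 * ζ := by group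
  have hbK : σ B ∉ Subgroup.zpowers (σ A) := by
    rintro ⟨n, hn⟩
    have hcm : Commute (σ B) (σ A) := by
      rw [← hn]; exact (Commute.refl (σ A)).zpow_left n
    rw [hcm.eq] at hba
    have h2 : σ A ^ 2 = 1 := by
      have : 1 * (σ A * σ B) = σ A ^ 2 * (σ A * σ B) := by
        rw [one_mul, ← mul_assoc, ← pow_succ]; exact hba
      exact (mul_right_cancel this).symm
    apply ha4
    rw [show 4 = 2 * 2 from rfl, pow_mul, h2, one_pow]
  refine false_of_gens σ hσ Nat.prime_two hk (Subgroup.zpowers U) {A, B} ?_ ?_ ?_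
    (Subgroup.zpowers (σ A) ⊔ Subgroup.zpowers (σ B)) ?_ ?_
  · rintro g (rfl | rfl) n hn
    · exact ⟨hnA n hn, hnA' n hn⟩
    · exact ⟨hnB n hn, hnB' n hn⟩
  · rintro g (rfl | rfl) h (rfl | rfl)
    · rw [commutatorElement_self]; exact Subgroup.one_mem _
    · rw [← commutatorElement_inv, hBA]; exact Subgroup.inv_mem _ (Subgroup.mem_zpowers U)
    · rw [hBA]; exact Subgroup.mem_zpowers U
    · rw [commutatorElement_self]; exact Subgroup.one_mem _
  · rintro _ ⟨n, rfl⟩ hn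
    simp only at hn ⊢
    rw [map_zpow, hσU, ← orderOf_dvd_iff_zpow_eq_one, o2] at hn
    obtain ⟨m, rfl⟩ := hn
    rw [zpow_mul]
    have : U ^ (((2 ^ (1 + 1) : ℕ)) : ℤ) = 1 := by
      rw [zpow_natCast]; exact hU4
    rw [this, one_zpow]
  · rw [Set.image_pair, sup_le_iff, Subgroup.zpowers_le, Subgroup.zpowers_le]
    exact ⟨Subgroup.subset_closure (by simp), Subgroup.subset_closure (by simp)⟩
  · apply not_dvd_index_of_card (k := 4) _ _ hG
    rw [card_sup_step _ _ (by rw [hb]; exact Subgroup.one_mem _) _ hbK, Nat.card_zpowers, o8]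
    · norm_num
    · apply conj_mem_zpowers
      rw [hba]
      have : σ A ^ 3 * σ B * (σ B)⁻¹ = σ A ^ 3 := by group
      rw [this]
      exact Subgroup.pow_mem _ (Subgroup.mem_zpowers _) 3

end SD

section ED0
variable {G : Type*} [Group G]

theorem card_E_D8 [Finite G] (E : Subgroup G) (a b : G) (ha : a * a = 1) (hb : b * b = 1)
    (haE : ∀ e ∈ E, a * e * a⁻¹ ∈ E) (hbE : ∀ e ∈ E, b * e * b⁻¹ ∈ E)
    (hu2 : (a * b * a * b) * (a * b * a * b) = 1)
    (m1 : a * b * a * b ∉ E) (m2 : a ∉ E) (m3 : b * a * b ∉ E) (m4 : b ∉ E) (m5 : a * b * a ∉ E)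
    (m6 : a * b ∉ E) (m7 : b * a ∉ E) :
    Nat.card ↥(E ⊔ Subgroup.zpowers (a * b * a * b) ⊔ Subgroup.zpowers a ⊔ Subgroup.zpowers b) =
      8 * Nat.card E := by
  have hai : a⁻¹ = a := inv_eq_of_mul_eq_one_left ha
  have hbi : b⁻¹ = b := inv_eq_of_mul_eq_one_left hb
  obtain ⟨u, hu⟩ : ∃ u, u = a * b * a * b := ⟨_, rfl⟩
  rw [← hu] at hu2 m1 ⊢
  have hui : u⁻¹ = u := inv_eq_of_mul_eq_one_left hu2
  have hui' : u⁻¹ = b * a * b * a := by
    calc u⁻¹ = b⁻¹ * a⁻¹ * b⁻¹ * a⁻¹ := by rw [hu]; group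
      _ = b * a * b * a := by rw [hai, hbi]
  have nu : ∀ e ∈ E, u * e * u⁻¹ ∈ E := by
    intro e he
    have : u * e * u⁻¹ = a * (b * (a * (b * e * b⁻¹) * a⁻¹) * b⁻¹) * a⁻¹ := by rw [hu]; group
    rw [this]; exact haE _ (hbE _ (haE _ (hbE _ he)))
  have hu2' : u * u ∈ E := by rw [hu2]; exact E.one_mem
  have s1 := mem_sup_step E u hu2' nu
  have c1 := card_sup_step E u hu2' nu m1
  have au : a * u * a⁻¹ = u := by
    calc a * u * a⁻¹ = (a * a) * b * a * b * a⁻¹ := by rw [hu]; group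
      _ = b * a * b * a := by rw [ha, one_mul, hai]
      _ = u := by rw [← hui', hui]
  have bu : b * u * b⁻¹ = u := by
    calc b * u * b⁻¹ = b * a * b * a := by rw [hu]; group
      _ = u := by rw [← hui', hui]
  have na1 := conj_mem_sup E u a haE (by rw [au]; exact Subgroup.mem_sup_right (Subgroup.mem_zpowers u))
  have nb1 := conj_mem_sup E u b hbE (by rw [bu]; exact Subgroup.mem_sup_right (Subgroup.mem_zpowers u))
  have e1 : u⁻¹ * a = b * a * b := by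
    rw [hui', mul_assoc, ha, mul_one]
  have haS1 : a ∉ E ⊔ Subgroup.zpowers u := by
    rw [s1, e1]
    exact fun h => h.elim m2 m3
  have ha2' : a * a ∈ E ⊔ Subgroup.zpowers u := by rw [ha]; exact Subgroup.one_mem _
  have s2 := mem_sup_step _ a ha2' na1
  have c2 := card_sup_step _ a ha2' na1 haS1
  have nb2 := conj_mem_sup _ a b nb1 (by
    rw [hbi, ← e1]
    exact Subgroup.mul_mem _ (Subgroup.mem_sup_left (Subgroup.inv_mem _
      (Subgroup.mem_sup_right (Subgroup.mem_zpowers u)))) (Subgroup.mem_sup_right (Subgroup.mem_zpowers a)))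
  have e2 : u⁻¹ * b = a * b * a := by
    rw [hui, hu, mul_assoc, hb, mul_one]
  have e3 : u⁻¹ * (a * b) = b * a := by
    rw [hui']
    calc b * a * b * a * (a * b) = b * a * b * (a * a) * b := by group
      _ = b * a * (b * b) := by rw [ha]; group
      _ = b * a := by rw [hb, mul_one]
  have hbS2 : b ∉ E ⊔ Subgroup.zpowers u ⊔ Subgroup.zpowers a := by
    rw [s2, s1, s1, hai, e2, e3]
    rintro ((h | h) | (h | h))
    · exact m4 h
    · exact m5 h
    · exact m6 h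
    · exact m7 h
  have hb2' : b * b ∈ E ⊔ Subgroup.zpowers u ⊔ Subgroup.zpowers a := by
    rw [hb]; exact Subgroup.one_mem _
  have c3 := card_sup_step _ b hb2' nb2 hbS2
  rw [c3, c2, c1]
  ring

theorem anti_aux (z P Q : G) (hz : ∀ g, g * z = z * g) (hzz : z * z = 1) (hP : P * P = z)
    (hQ : Q * Q = z) (hPQ : (P * Q) * (P * Q) = z) : Q * P = z * (P * Q) := by
  have h1 : P * (Q * P) * Q = z := by rw [← hPQ]; group
  have h2 : P * (z * (P * Q)) * Q = z := by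
    calc P * (z * (P * Q)) * Q = (P * z) * P * (Q * Q) := by group
      _ = z * (P * P) * (Q * Q) := by rw [hz P]; group
      _ = z := by rw [hP, hQ, hzz, one_mul]
  have h3 : P * (Q * P) * Q = P * (z * (P * Q)) * Q := h1.trans h2.symm
  exact mul_left_cancel (mul_right_cancel h3)

theorem eight_aux (z P Q R : G) (hz : ∀ g, g * z = z * g) (hzz : z * z = 1)
    (hP : P * P = z) (hQ : Q * Q = z) (hR : R * R = z) (hPQ : (P * Q) * (P * Q) = z)
    (hPR : (P * R) * (P * R) = z) (hQR : (Q * R) * (Q * R) = z)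
    (hPQR : (P * Q * R) * (P * Q * R) = z) : z = 1 := by
  have a1 := anti_aux z P Q hz hzz hP hQ hPQ
  have a2 := anti_aux z P R hz hzz hP hR hPR
  have : (P * Q * R) * (P * Q * R) = 1 := by
    calc (P * Q * R) * (P * Q * R) = P * Q * (R * P) * Q * R := by group
      _ = P * Q * (z * (P * R)) * Q * R := by rw [a2]
      _ = P * (Q * z) * P * R * Q * R := by group
      _ = P * (z * Q) * P * R * Q * R := by rw [hz Q]
      _ = (P * z) * (Q * P) * R * Q * R := by group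
      _ = (z * P) * (z * (P * Q)) * R * Q * R := by rw [hz P, a1]
      _ = z * (P * z) * P * ((Q * R) * (Q * R)) := by group
      _ = z * (z * P) * P * z := by rw [hz P, hQR]
      _ = (z * z) * (P * P) * z := by group
      _ = 1 := by rw [hzz, hP, one_mul, hzz]
  rw [hPQR] at this
  exact this

end ED0

section ED
variable {Γ : Type u} {G : Type v} [Group Γ] [Group G]

/-- every lift of `g` squares to one -/
def Good (σ : Γ →* G) (g : G) : Prop := ∀ γ, σ γ = g → γ * γ = 1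

theorem Good.conj {σ : Γ →* G} (hs : Function.Surjective σ) {x e k : G} (h : Good σ x)
    (hk : k * x = e * k) : Good σ e := by
  intro γ hγ
  obtain ⟨K, rfl⟩ := hs k
  have h1 : σ (K⁻¹ * γ * K) = x := by
    rw [map_mul, map_mul, map_inv, hγ, mul_assoc, ← hk]; group
  have h2 := h _ h1
  have : γ * γ = K * ((K⁻¹ * γ * K) * (K⁻¹ * γ * K)) * K⁻¹ := by group
  rw [this, h2]; group

theorem ker_two (σ : Γ →* G) (hk : Nat.card σ.ker = 2) :
    ∃ z, σ z = 1 ∧ z ≠ 1 ∧ ∀ ζ, σ ζ = 1 → ζ = 1 ∨ ζ = z := by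
  obtain ⟨z, hz, huniq⟩ := (Nat.card_eq_two_iff' (1 : σ.ker)).1 hk
  refine ⟨z.1, z.2, fun h => hz (Subtype.ext h), ?_⟩
  intro ζ hζ
  by_cases h1 : ζ = 1
  · exact Or.inl h1
  · right
    have := huniq ⟨ζ, hζ⟩ (fun h => h1 (congrArg Subtype.val h))
    exact congrArg Subtype.val this

theorem good_of_lift [Finite Γ] (σ : Γ →* G) (hc : σ.ker ≤ Subgroup.center Γ)
    (hk : Nat.card σ.ker = 2) {g : G} (γ₀ : Γ) (h0 : σ γ₀ = g) (h1 : γ₀ * γ₀ = 1) : Good σ g := by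
  intro γ hγ
  obtain ⟨ζ, hζ⟩ : ∃ ζ, ζ = γ₀⁻¹ * γ := ⟨_, rfl⟩
  have hζk : σ ζ = 1 := by rw [hζ, map_mul, map_inv, h0, hγ, inv_mul_cancel]
  have e : γ = γ₀ * ζ := by rw [hζ]; group
  have hcm : γ₀ * ζ = ζ * γ₀ := Subgroup.mem_center_iff.1 (hc hζk) γ₀
  have h2 : ζ ^ 2 = 1 := ker_pow_eq_one σ hk hζk
  calc γ * γ = γ₀ * (ζ * γ₀) * ζ := by rw [e]; group
    _ = γ₀ * (γ₀ * ζ) * ζ := by rw [hcm]
    _ = (γ₀ * γ₀) * ζ ^ 2 := by rw [pow_two]; group
    _ = 1 := by rw [h1, h2, one_mul]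

/-- an elementary abelian group of order 8 all of whose involutions are conjugate to `x` -/
theorem good_of_eight [Finite Γ] (σ : Γ →* G) (hs : Function.Surjective σ)
    (hc : σ.ker ≤ Subgroup.center Γ) (hk : Nat.card σ.ker = 2) (x e₁ e₂ e₃ : G) (hx2 : x * x = 1)
    (c1 : ∃ k, k * x = e₁ * k) (c2 : ∃ k, k * x = e₂ * k) (c3 : ∃ k, k * x = e₃ * k)
    (c12 : ∃ k, k * x = (e₁ * e₂) * k) (c13 : ∃ k, k * x = (e₁ * e₃) * k)
    (c23 : ∃ k, k * x = (e₂ * e₃) * k) (c123 : ∃ k, k * x = (e₁ * e₂ * e₃) * k) : Good σ x := by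
  by_contra hbad
  obtain ⟨z, hz1, hz2, hz3⟩ := ker_two σ hk
  have hzc : ∀ g, g * z = z * g := Subgroup.mem_center_iff.1 (hc hz1)
  have hzz : z * z = 1 := by
    have := ker_pow_eq_one σ hk hz1
    rwa [pow_two] at this
  have hX : ∀ X, σ X = x → X * X = z := by
    intro X hX
    rcases hz3 (X * X) (by rw [map_mul, hX, hx2]) with h | h
    · exact absurd (good_of_lift σ hc hk X hX h) hbad
    · exact h
  have hall : ∀ e, (∃ k, k * x = e * k) → ∀ γ, σ γ = e → γ * γ = z := by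
    rintro e ⟨k, hk'⟩ γ hγ
    obtain ⟨K, rfl⟩ := hs k
    have h1 : σ (K⁻¹ * γ * K) = x := by
      rw [map_mul, map_mul, map_inv, hγ, mul_assoc, ← hk']; group
    have h2 := hX _ h1
    have : γ * γ = K * ((K⁻¹ * γ * K) * (K⁻¹ * γ * K)) * K⁻¹ := by group
    rw [this, h2, hzc K]; group
  obtain ⟨P, rfl⟩ := hs e₁
  obtain ⟨Q, rfl⟩ := hs e₂
  obtain ⟨R, rfl⟩ := hs e₃
  exact hz2 (eight_aux z P Q R hzc hzz (hall _ c1 P rfl) (hall _ c2 Q rfl) (hall _ c3 R rfl)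
    (hall _ c12 (P * Q) (map_mul ..)) (hall _ c13 (P * R) (map_mul ..))
    (hall _ c23 (Q * R) (map_mul ..)) (hall _ c123 (P * Q * R) (by rw [map_mul, map_mul])))

/-- **Sylow 2-subgroup `E : D8`**, `E` elementary abelian with all involutions good, an element `c`
of order 3 acting fixed-point-freely on `E` and normalised by the `D8 = ⟨a, b⟩`. -/
theorem false_of_E_D8 [Finite Γ] (σ : Γ →* G) (hσ : IsStemExtension σ) (hk : Nat.card σ.ker = 2)
    (E : Subgroup G) (x c a b : G) (hgood : Good σ x)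
    (hEx : ∀ e ∈ E, e = 1 ∨ ∃ k, k * x = e * k)
    (hc3 : c ^ 3 = 1) (hcE : ∀ e ∈ E, c * e * c⁻¹ ∈ E)
    (hν : ∀ e ∈ E, e * (c * e * c⁻¹) * (c⁻¹ * e * c) = 1)
    (ha : a * a = 1) (hb : b * b = 1)
    (hac : a * c * a⁻¹ = c ∨ a * c * a⁻¹ = c⁻¹) (hbc : b * c * b⁻¹ = c ∨ b * c * b⁻¹ = c⁻¹)
    (haE : ∀ e ∈ E, a * e * a⁻¹ ∈ E) (hbE : ∀ e ∈ E, b * e * b⁻¹ ∈ E)
    (hu : ∃ k, k * x = (a * b * a * b) * k)
    (m1 : a * b * a * b ∉ E) (m2 : a ∉ E) (m3 : b * a * b ∉ E) (m4 : b ∉ E) (m5 : a * b * a ∉ E)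
    (m6 : a * b ∉ E) (m7 : b * a ∉ E)
    {n : ℕ} (hE : Nat.card E = 2 ^ n) (hG : ¬ 2 ^ (n + 4) ∣ Nat.card G) : False := by
  have : Finite G := Finite.of_surjective σ hσ.1
  have hs := hσ.1
  have hcen : ∀ ζ, σ ζ = 1 → ∀ g, g * ζ = ζ * g :=
    fun ζ hζ => Subgroup.mem_center_iff.1 (hσ.2.1 hζ)
  have hsq : ∀ ζ, σ ζ = 1 → ζ * ζ = 1 := fun ζ hζ => by
    have := ker_pow_eq_one σ hk hζ
    rwa [pow_two] at this
  have hE2 : ∀ γ, σ γ ∈ E → γ * γ = 1 := by
    intro γ hγ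
    rcases hEx _ hγ with h1 | ⟨k, hk'⟩
    · exact hsq γ h1
    · exact (hgood.conj hs hk') γ rfl
  have hEinv : ∀ γ, σ γ ∈ E → γ⁻¹ = γ := fun γ hγ => inv_eq_of_mul_eq_one_left (hE2 γ hγ)
  have hEc : ∀ γ δ, σ γ ∈ E → σ δ ∈ E → Commute γ δ := by
    intro γ δ hγ hδ
    have h1 : σ (γ * δ) ∈ E := by rw [map_mul]; exact E.mul_mem hγ hδ
    have h2 := hEinv _ h1
    rw [mul_inv_rev, hEinv γ hγ, hEinv δ hδ] at h2
    exact h2.symm
  -- the lift of `c`
  obtain ⟨C0, hC0⟩ := hs c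
  obtain ⟨C, hC⟩ : ∃ C, C = C0 ^ 4 := ⟨_, rfl⟩
  have hσC : σ C = c := by rw [hC, map_pow, hC0, pow_succ, hc3, one_mul]
  have hC3 : C ^ 3 = 1 := by
    have h1 : σ (C0 ^ 3) = 1 := by rw [map_pow, hC0, hc3]
    have h2 := hsq _ h1
    rw [hC, ← pow_mul, show 4 * 3 = 3 * (2 + 2) from rfl, pow_mul, pow_add, pow_two, h2, one_mul]
  have hcE' : ∀ e ∈ E, c⁻¹ * e * c ∈ E := by
    intro e he
    have i1 : c⁻¹ = c * c := by
      apply inv_eq_of_mul_eq_one_left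
      rw [← pow_two, ← pow_succ]; exact hc3
    have : c⁻¹ * e * c = c * (c * e * c⁻¹) * c⁻¹ := by
      calc c⁻¹ * e * c = c⁻¹ * e * (c⁻¹)⁻¹ := by group
        _ = (c * c) * e * (c * c)⁻¹ := by rw [i1]
        _ = c * (c * e * c⁻¹) * c⁻¹ := by group
    rw [this]
    exact hcE _ (hcE _ he)
  have hCE : ∀ γ, σ γ ∈ E → σ (C * γ * C⁻¹) ∈ E := by
    intro γ hγ; rw [map_mul, map_mul, map_inv, hσC]; exact hcE _ hγ
  have hCE' : ∀ γ, σ γ ∈ E → σ (C⁻¹ * γ * C) ∈ E := by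
    intro γ hγ; rw [map_mul, map_mul, map_inv, hσC]; exact hcE' _ hγ
  obtain ⟨ν, hνdef⟩ : ∃ ν : Γ → Γ, ∀ γ, ν γ = γ * (C * γ * C⁻¹) * (C⁻¹ * γ * C) := ⟨_, fun _ => rfl⟩
  have hνmul : ∀ γ δ, σ γ ∈ E → σ δ ∈ E → ν (γ * δ) = ν γ * ν δ := by
    intro γ δ hγ hδ
    have e1 : C * (γ * δ) * C⁻¹ = (C * γ * C⁻¹) * (C * δ * C⁻¹) := by group
    have e2 : C⁻¹ * (γ * δ) * C = (C⁻¹ * γ * C) * (C⁻¹ * δ * C) := by group
    rw [hνdef, hνdef, hνdef, e1, e2, (hEc δ (C * γ * C⁻¹) hδ (hCE γ hγ)).mul_mul_mul_comm,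
      ((hEc δ (C⁻¹ * γ * C) hδ (hCE' γ hγ)).mul_left
        (hEc (C * δ * C⁻¹) (C⁻¹ * γ * C) (hCE δ hδ) (hCE' γ hγ))).mul_mul_mul_comm]
  have hνk : ∀ ζ, σ ζ = 1 → ν ζ = ζ := by
    intro ζ hζ
    have e1 : C * ζ * C⁻¹ = ζ := by rw [hcen ζ hζ C]; group
    have e2 : C⁻¹ * ζ * C = ζ := by rw [hcen ζ hζ C⁻¹]; group
    rw [hνdef, e1, e2, hsq ζ hζ, one_mul]
  let E0 : Subgroup Γ :=
    { carrier := {γ | σ γ ∈ E ∧ ν γ = 1}
      one_mem' := ⟨by rw [map_one]; exact E.one_mem, by rw [hνdef]; group⟩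
      mul_mem' := by
        rintro γ δ ⟨h1, h2⟩ ⟨h3, h4⟩
        exact ⟨by rw [map_mul]; exact E.mul_mem h1 h3, by rw [hνmul γ δ h1 h3, h2, h4, one_mul]⟩
      inv_mem' := by
        rintro γ ⟨h1, h2⟩
        rw [hEinv γ h1]; exact ⟨h1, h2⟩ }
  have hE0k : ∀ k ∈ E0, σ k = 1 → k = 1 := fun k hk' h => by rw [← hνk k h]; exact hk'.2
  have hE0s : E ≤ E0.map σ := by
    intro e he
    obtain ⟨γ, rfl⟩ := hs e
    have h1 : σ (ν γ) = 1 := by
      rw [hνdef]
      simp only [map_mul, map_inv, hσC]; exact hν _ he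
    refine ⟨γ * ν γ, ⟨?_, ?_⟩, ?_⟩
    · rw [map_mul, h1, mul_one]; exact he
    · rw [hνmul γ (ν γ) he (by rw [h1]; exact E.one_mem), hνk _ h1]; exact hsq _ h1
    · rw [map_mul, h1, mul_one]
  have hcube : ∀ D D' : Γ, D ^ 3 = 1 → D' ^ 3 = 1 → σ D = σ D' → D = D' := by
    intro D D' h1 h2 h3
    obtain ⟨ζ, hζ⟩ : ∃ ζ, ζ = D'⁻¹ * D := ⟨_, rfl⟩
    have hζk : σ ζ = 1 := by rw [hζ, map_mul, map_inv, h3, inv_mul_cancel]
    have e : D = D' * ζ := by rw [hζ]; group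
    have hcm : Commute D' ζ := hcen ζ hζk D'
    rw [e, hcm.mul_pow, h2, one_mul, pow_succ, pow_two, hsq ζ hζk, one_mul] at h1
    rw [e, h1, mul_one]
  have hnorm : ∀ L, (σ L * c * (σ L)⁻¹ = c ∨ σ L * c * (σ L)⁻¹ = c⁻¹) →
      (∀ e ∈ E, σ L * e * (σ L)⁻¹ ∈ E) → ∀ γ ∈ E0, L * γ * L⁻¹ ∈ E0 := by
    intro L hL hLE γ hγ
    refine ⟨by simp only [map_mul, map_inv]; exact hLE _ hγ.1, ?_⟩
    have hLC3 : (L * C * L⁻¹) ^ 3 = 1 := by rw [conj_pow, hC3]; group
    rcases hL with hL | hL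
    · have h1 : L * C * L⁻¹ = C :=
        hcube _ _ hLC3 hC3 (by simp only [map_mul, map_inv, hσC]; exact hL)
      have e : L * γ * L⁻¹ * ((L * C * L⁻¹) * (L * γ * L⁻¹) * (L * C * L⁻¹)⁻¹) *
          ((L * C * L⁻¹)⁻¹ * (L * γ * L⁻¹) * (L * C * L⁻¹)) =
          L * (γ * (C * γ * C⁻¹) * (C⁻¹ * γ * C)) * L⁻¹ := by group
      rw [h1, ← hνdef, ← hνdef, hγ.2] at e
      rw [e]; group
    · have h1 : L * C * L⁻¹ = C⁻¹ :=
        hcube _ _ hLC3 (by rw [inv_pow, hC3, inv_one])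
          (by simp only [map_mul, map_inv, hσC]; exact hL)
      have e : L * γ * L⁻¹ * ((L * C * L⁻¹)⁻¹ * (L * γ * L⁻¹) * (L * C * L⁻¹)) *
          ((L * C * L⁻¹) * (L * γ * L⁻¹) * (L * C * L⁻¹)⁻¹) =
          L * (γ * (C⁻¹ * γ * C) * (C * γ * C⁻¹)) * L⁻¹ := by group
      have e' : γ * (C⁻¹ * γ * C) * (C * γ * C⁻¹) = ν γ := by
        rw [hνdef, mul_assoc γ, mul_assoc γ, (hEc _ _ (hCE' γ hγ.1) (hCE γ hγ.1)).eq]
      rw [h1, inv_inv, ← hνdef, e', hγ.2] at e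
      rw [e]; group
  obtain ⟨A, rfl⟩ := hs a
  obtain ⟨B, rfl⟩ := hs b
  have hA2 : σ (A * A) = 1 := by rw [map_mul, ha]
  have hB2 : σ (B * B) = 1 := by rw [map_mul, hb]
  have nA : ∀ γ ∈ E0, A * γ * A⁻¹ ∈ E0 := hnorm A hac haE
  have nB : ∀ γ ∈ E0, B * γ * B⁻¹ ∈ E0 := hnorm B hbc hbE
  have nA' : ∀ γ ∈ E0, A⁻¹ * γ * A ∈ E0 := fun γ hγ => by
    rw [conj_inv_eq A γ (hcen _ hA2)]; exact nA γ hγ
  have nB' : ∀ γ ∈ E0, B⁻¹ * γ * B ∈ E0 := fun γ hγ => by
    rw [conj_inv_eq B γ (hcen _ hB2)]; exact nB γ hγ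
  obtain ⟨U, hU⟩ : ∃ U, U = ⁅A, B⁆ := ⟨_, rfl⟩
  have hσU : σ U = σ A * σ B * σ A * σ B := by
    rw [hU, map_commutatorElement, commutatorElement_def, inv_eq_of_mul_eq_one_left ha,
      inv_eq_of_mul_eq_one_left hb]
  have hUU : U * U = 1 := by
    obtain ⟨k, hk'⟩ := hu
    exact (hgood.conj hs hk') U hσU
  have nU : ∀ γ ∈ E0, U * γ * U⁻¹ ∈ E0 := by
    intro γ hγ
    have : U * γ * U⁻¹ = A * (B * (A⁻¹ * (B⁻¹ * γ * B) * A) * B⁻¹) * A⁻¹ := by
      rw [hU, commutatorElement_def]; group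
    rw [this]; exact nA _ (nB _ (nA' _ (nB' _ hγ)))
  have hmemN := mem_sup_step E0 U (by rw [hUU]; exact E0.one_mem) nU
  have hAU : A * U * A⁻¹ = U⁻¹ := by
    calc A * U * A⁻¹ = ((A * A) * B) * A⁻¹ * B⁻¹ * A⁻¹ := by
          rw [hU, commutatorElement_def]; group
      _ = (B * (A * A)) * A⁻¹ * B⁻¹ * A⁻¹ := by rw [hcen _ hA2 B]
      _ = U⁻¹ := by rw [hU, commutatorElement_def]; group
  have hBU : B * U * B⁻¹ = U⁻¹ := by
    have hB2' : σ (B * B)⁻¹ = 1 := by rw [map_inv, hB2, inv_one]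
    calc B * U * B⁻¹ = B * A * B * (A⁻¹ * (B * B)⁻¹) := by
          rw [hU, commutatorElement_def]; group
      _ = B * A * B * ((B * B)⁻¹ * A⁻¹) := by rw [hcen _ hB2' A⁻¹]
      _ = U⁻¹ := by rw [hU, commutatorElement_def]; group
  have hUN : U⁻¹ ∈ E0 ⊔ Subgroup.zpowers U :=
    Subgroup.mem_sup_right (Subgroup.inv_mem _ (Subgroup.mem_zpowers U))
  have NA := conj_mem_sup E0 U A nA (by rw [hAU]; exact hUN)
  have NB := conj_mem_sup E0 U B nB (by rw [hBU]; exact hUN)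
  have hu2 : (σ A * σ B * σ A * σ B) * (σ A * σ B * σ A * σ B) = 1 := by
    rw [← hσU, ← map_mul, hUU, map_one]
  have hcard := card_E_D8 E (σ A) (σ B) ha hb haE hbE hu2 m1 m2 m3 m4 m5 m6 m7
  refine false_of_T σ hσ Nat.prime_two hk ((E0 ⊔ Subgroup.zpowers U) ⊔ Subgroup.closure {A, B})
    (E0 ⊔ Subgroup.zpowers U) (commutator_sup_closure_le _ _ ?_ ?_) ?_ _ ?_
    (not_dvd_index_of_card (k := n + 3) _ (by rw [hcard, hE]; ring) hG)
  · rintro g (rfl | rfl) n hn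
    · exact ⟨NA n hn, by rw [conj_inv_eq g n (hcen _ hA2)]; exact NA n hn⟩
    · exact ⟨NB n hn, by rw [conj_inv_eq g n (hcen _ hB2)]; exact NB n hn⟩
  · rintro g (rfl | rfl) h (rfl | rfl)
    · rw [commutatorElement_self]; exact Subgroup.one_mem _
    · rw [← hU]; exact Subgroup.mem_sup_right (Subgroup.mem_zpowers U)
    · rw [← commutatorElement_inv, ← hU]; exact hUN
    · rw [commutatorElement_self]; exact Subgroup.one_mem _
  · intro k hk' hk1
    rcases (hmemN k).1 hk' with h | h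
    · exact hE0k k h hk1
    · exfalso
      apply m1
      have h1 : σ (U⁻¹ * k) ∈ E := h.1
      rw [map_mul, hk1, mul_one, map_inv, hσU] at h1
      exact (E.inv_mem_iff).1 h1
  · have hAm : A ∈ (E0 ⊔ Subgroup.zpowers U) ⊔ Subgroup.closure {A, B} :=
      Subgroup.mem_sup_right (Subgroup.subset_closure (by simp))
    have hBm : B ∈ (E0 ⊔ Subgroup.zpowers U) ⊔ Subgroup.closure {A, B} :=
      Subgroup.mem_sup_right (Subgroup.subset_closure (by simp))
    have hUm : U ∈ (E0 ⊔ Subgroup.zpowers U) ⊔ Subgroup.closure {A, B} :=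
      Subgroup.mem_sup_left (Subgroup.mem_sup_right (Subgroup.mem_zpowers U))
    rw [sup_le_iff, sup_le_iff, sup_le_iff, Subgroup.zpowers_le, Subgroup.zpowers_le,
      Subgroup.zpowers_le]
    exact ⟨⟨⟨hE0s.trans (Subgroup.map_mono (le_sup_left.trans le_sup_left)), ⟨U, hUm, hσU⟩⟩,
      ⟨A, hAm, rfl⟩⟩, ⟨B, hBm, rfl⟩⟩

end ED

end Cfsg.Agent.Lib.Helper9Stem4
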