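import Cfsg.Agent.Lib.Helper63PCDefs
import Cfsg.Agent.Lib.Helper9Stem4

/-! PROJECT 63 (PC-MULT), piece `lemmaC`.  The piece `pcb` enters as the last hypothesis. -/

set_option autoImplicit false

namespace Cfsg.Agent.Lib.Helper17PCLemmaC

open Cfsg Cfsg.Agent.Lib.Helper63PCDefs

universe u v

theorem evalW_map {Γ Δ : Type*} [Monoid Γ] [Monoid Δ] (f : Γ →* Δ) (x : ℕ → Γ) (w : List ℕ) :
    f (evalW x w) = evalW (fun a => f (x a)) w := by
  unfold evalW
  rw [map_list_prod, List.map_map]
  rfl

/-- piece `lemmaC`: if the tails lie in a subgroup `B` of index `p` of the kernel: contradiction -/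
theorem lemmaC {Γ : Type u} {G : Type v} [Group Γ] [Group G] [Finite Γ] (σ : Γ →* G)
    (hσ : IsStemExtension σ) (D : PC) (hp : D.p.Prime) (hw : D.wordsOK = true)
    (B : Subgroup Γ) (hB : B ≤ σ.ker) (hidx : Nat.card σ.ker = D.p * Nat.card B)
    (x z : ℕ → Γ) (hS : Sat D x z) (hzB : ∀ b a, b ≤ a → a < D.n → z (b * D.n + a) ∈ B)
    (hcard : Nat.card (Subgroup.closure ((fun a => σ (x a)) '' Set.Iio D.n)) = D.p ^ D.n)
    (hG : ¬ D.p ^ (D.n + 1) ∣ Nat.card G)
    (pcb : ∀ {Y : Type u} [Group Y] (D : PC) (_ : 0 < D.p) (_ : D.wordsOK = true) (y : ℕ → Y)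
      (_ : Sat D y (fun _ => 1)),
      Finite (Subgroup.closure (y '' Set.Iio D.n)) ∧
        Nat.card (Subgroup.closure (y '' Set.Iio D.n)) ≤ D.p ^ D.n) : False := by
  have hfG : Finite G := Finite.of_surjective σ hσ.1
  have hBn : B.Normal := by
    constructor
    intro n hn g
    have := Subgroup.mem_center_iff.1 (hσ.2.1 (hB hn)) g
    rw [this, mul_inv_cancel_right]
    exact hn
  set τ : Γ ⧸ B →* G := QuotientGroup.lift B σ (fun _ hy => hB hy) with hτ
  have hstem : IsStemExtension τ := Cfsg.Agent.Lib.Helper9Stem4.stem_quotient σ hσ B hB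
  have hker : Nat.card τ.ker = D.p := by
    have h1 := Cfsg.Agent.Lib.Helper9Stem4.card_eq_ker_mul σ hσ.1
    have h2 := Cfsg.Agent.Lib.Helper9Stem4.card_eq_ker_mul τ hstem.1
    have h3 := Subgroup.card_eq_card_quotient_mul_card_subgroup B
    rw [h1, h2, hidx] at h3
    have hBpos : 0 < Nat.card B := Nat.card_pos
    have hGpos : 0 < Nat.card G := Nat.card_pos
    have h4 : (D.p) * (Nat.card B * Nat.card G) = Nat.card τ.ker * (Nat.card B * Nat.card G) := by
      calc (D.p) * (Nat.card B * Nat.card G) = D.p * Nat.card B * Nat.card G := by ring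
        _ = Nat.card τ.ker * Nat.card G * Nat.card B := h3
        _ = _ := by ring
    exact (Nat.eq_of_mul_eq_mul_right (Nat.mul_pos hBpos hGpos) h4).symm
  set y : ℕ → Γ ⧸ B := fun a => QuotientGroup.mk' B (x a) with hy
  have hz1 : ∀ b a, b ≤ a → a < D.n → QuotientGroup.mk' B (z (b * D.n + a)) = 1 := by
    intro b a hba ha
    exact (QuotientGroup.eq_one_iff _).2 (hzB b a hba ha)
  have hSy : Sat D y (fun _ => 1) := by
    constructor
    · intro a ha
      have := congrArg (QuotientGroup.mk' B) (hS.pw a ha)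
      rw [map_pow, map_mul, evalW_map, hz1 a a le_rfl ha] at this
      exact this
    · intro b a hba ha
      have := congrArg (QuotientGroup.mk' B) (hS.cm b a hba ha)
      rw [map_mul, map_mul, map_mul, map_mul, evalW_map, hz1 b a hba.le ha] at this
      exact this
  obtain ⟨hfin, hle⟩ := pcb D hp.pos hw y hSy
  set N : Subgroup (Γ ⧸ B) := Subgroup.closure (y '' Set.Iio D.n) with hN
  have hmap : N.map τ = Subgroup.closure ((fun a => σ (x a)) '' Set.Iio D.n) := by
    rw [hN, MonoidHom.map_closure, Set.image_image]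
    rfl
  have hbij : Function.Bijective (τ.subgroupMap N) := by
    rw [Nat.bijective_iff_surjective_and_card]
    refine ⟨MonoidHom.subgroupMap_surjective τ N, le_antisymm ?_ ?_⟩
    · rw [hmap, hcard]
      exact hle
    · exact Nat.card_le_card_of_surjective _ (MonoidHom.subgroupMap_surjective τ N)
  refine Cfsg.Agent.Lib.Helper9Stem4.false_of_T τ hstem hp hker N N
    (Subgroup.commutator_le.2 fun a ha b hb =>
      N.mul_mem (N.mul_mem (N.mul_mem ha hb) (N.inv_mem ha)) (N.inv_mem hb)) ?_ (N.map τ) le_rfl ?_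
  · intro k hk hk1
    have : τ.subgroupMap N ⟨k, hk⟩ = τ.subgroupMap N 1 := by
      apply Subtype.ext
      rw [map_one]
      exact hk1
    exact congrArg Subtype.val (hbij.1 this)
  · apply Cfsg.Agent.Lib.Helper9Stem4.not_dvd_index_of_card (k := D.n) _ _ hG
    rw [hmap, hcard]

end Cfsg.Agent.Lib.Helper17PCLemmaC
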