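import Cfsg.Agent.Lib.Helper63PCDefs
import Cfsg.Agent.Lib.Helper9Stem4

/-! PROJECT 63 (PC-MULT), piece `mult`.  The pieces `surj`, `idxp` enter as last hypotheses. -/

set_option autoImplicit false

namespace Cfsg.Agent.Lib.Helper17PCMult

open Cfsg Cfsg.Agent.Lib.Helper63PCDefs

universe u v

/-- the commutative group structure on a central kernel -/
abbrev kerComm {Γ : Type u} {G : Type v} [Group Γ] [Group G] (σ : Γ →* G)
    (hc : σ.ker ≤ Subgroup.center Γ) : CommGroup σ.ker :=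
  { (inferInstance : Group σ.ker) with
    mul_comm := fun a b => Subtype.ext ((Subgroup.mem_center_iff.1 (hc b.2) a.1)) }

theorem surj_ker {G : Type u} [Group G] (n : ℕ) (hn : 0 < n)
    (hloc : ∀ p : ℕ, p.Prime → LocalBound G p (n.factorization p))
    (surj_of_local : ∀ {A : Type u} [CommGroup A] [Finite A] (n : ℕ) (_ : 0 < n)
      (_ : ∀ p : ℕ, p.Prime →
        (∃ ω : A, ∀ a : A, ∃ (b : A) (j : ℕ), a = b ^ p * ω ^ j) ∧
        (∀ a : A, ∃ b : A, a ^ (p ^ (n.factorization p)) = b ^ (p ^ (n.factorization p + 1)))),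
      ∃ π : Multiplicative (ZMod n) →* A, Function.Surjective π)
    (Γ : Type u) [Group Γ] [Finite Γ] (σ : Γ →* G) (hσ : IsStemExtension σ) :
    ∃ π : Multiplicative (ZMod n) →* σ.ker, Function.Surjective π := by
  let _ : CommGroup σ.ker := kerComm σ hσ.2.1
  refine surj_of_local (A := σ.ker) n hn ?_
  intro p hp
  obtain ⟨⟨ω, hω, h1⟩, h2⟩ := hloc p hp Γ σ hσ
  refine ⟨⟨⟨ω, hω⟩, ?_⟩, ?_⟩
  · intro a
    obtain ⟨b, hb, j, hj⟩ := h1 a.1 a.2
    exact ⟨⟨b, hb⟩, j, Subtype.ext hj⟩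
  · intro a
    obtain ⟨b, hb, hj⟩ := h2 a.1 a.2
    exact ⟨⟨b, hb⟩, Subtype.ext hj⟩

/-- piece `mult` (1): uses `surj` -/
theorem hasMult {G : Type u} [Group G] [Finite G] (n : ℕ) (hn : 0 < n)
    (hex : ∃ (Γ : Type u) (_ : Group Γ) (_ : Finite Γ) (σ : Γ →* G),
      IsStemExtension σ ∧ Nat.card σ.ker = n)
    (hloc : ∀ p : ℕ, p.Prime → LocalBound G p (n.factorization p))
    (surj_of_local : ∀ {A : Type u} [CommGroup A] [Finite A] (n : ℕ) (_ : 0 < n)
      (_ : ∀ p : ℕ, p.Prime →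
        (∃ ω : A, ∀ a : A, ∃ (b : A) (j : ℕ), a = b ^ p * ω ^ j) ∧
        (∀ a : A, ∃ b : A, a ^ (p ^ (n.factorization p)) = b ^ (p ^ (n.factorization p + 1)))),
      ∃ π : Multiplicative (ZMod n) →* A, Function.Surjective π) :
    HasCyclicSchurMultiplier G n := by
  refine ⟨?_, fun Γ _ _ σ hσ => surj_ker n hn hloc surj_of_local Γ σ hσ⟩
  obtain ⟨Γ, iG, iF, σ, hσ, hcard⟩ := hex
  refine ⟨Γ, iG, iF, σ, hσ, ?_⟩
  obtain ⟨π, hπ⟩ := surj_ker n hn hloc surj_of_local Γ σ hσ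
  have : NeZero n := ⟨hn.ne'⟩
  have hbij : Function.Bijective π := by
    rw [Nat.bijective_iff_surjective_and_card]
    refine ⟨hπ, ?_⟩
    rw [hcard, Nat.card_congr Multiplicative.toAdd, Nat.card_zmod]
  exact ⟨(MulEquiv.ofBijective π hbij).symm⟩

/-- piece `mult` (2): uses `idxp`, `Helper9Stem4.false_of_not_sq_dvd`, `stem_quotient` -/
theorem localBound_of_not_sq_dvd {G : Type u} [Group G] [Finite G] (p : ℕ) (hp : p.Prime)
    (h : ¬ p ^ 2 ∣ Nat.card G)
    (exists_index_p : ∀ {A : Type u} [CommGroup A] [Finite A] (p : ℕ) (_ : p.Prime)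
      (Y : Subgroup A) (_ : Y ≠ ⊤) (_ : ∀ a : A, a ^ p ∈ Y),
      ∃ B : Subgroup A, Y ≤ B ∧ Nat.card A = p * Nat.card B) : LocalBound G p 0 := by
  intro Γ _ _ σ hσ
  have key : ∀ a ∈ σ.ker, ∃ b ∈ σ.ker, a = b ^ p := by
    let _ : CommGroup σ.ker := kerComm σ hσ.2.1
    set Y : Subgroup σ.ker := (powMonoidHom p : σ.ker →* σ.ker).range with hY
    by_cases hYt : Y = ⊤
    · intro a ha
      have : (⟨a, ha⟩ : σ.ker) ∈ Y := by rw [hYt]; trivial
      obtain ⟨b, hb⟩ := this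
      exact ⟨b.1, b.2, (congrArg Subtype.val hb).symm⟩
    · exfalso
      obtain ⟨B, -, hB⟩ := exists_index_p (A := σ.ker) p hp Y hYt (fun a => ⟨a, rfl⟩)
      set B' : Subgroup Γ := B.map σ.ker.subtype with hB'
      have hB'le : B' ≤ σ.ker := by
        rintro _ ⟨b, -, rfl⟩
        exact b.2
      have hB'card : Nat.card B' = Nat.card B :=
        Subgroup.card_map_of_injective σ.ker.subtype_injective
      have hBn : B'.Normal := by
        constructor
        intro n hn g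
        have := Subgroup.mem_center_iff.1 (hσ.2.1 (hB'le hn)) g
        rw [this, mul_inv_cancel_right]
        exact hn
      set τ : Γ ⧸ B' →* G := QuotientGroup.lift B' σ (fun _ hy => hB'le hy) with hτ
      have hstem : IsStemExtension τ := Cfsg.Agent.Lib.Helper9Stem4.stem_quotient σ hσ B' hB'le
      have hker : Nat.card τ.ker = p := by
        have h1 := Cfsg.Agent.Lib.Helper9Stem4.card_eq_ker_mul σ hσ.1
        have h2 := Cfsg.Agent.Lib.Helper9Stem4.card_eq_ker_mul τ hstem.1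
        have h3 := Subgroup.card_eq_card_quotient_mul_card_subgroup B'
        rw [h1, h2, hB, hB'card] at h3
        have hBpos : 0 < Nat.card B := Nat.card_pos
        have hGpos : 0 < Nat.card G := Nat.card_pos
        have h4 : p * (Nat.card B * Nat.card G) = Nat.card τ.ker * (Nat.card B * Nat.card G) := by
          calc p * (Nat.card B * Nat.card G) = p * Nat.card B * Nat.card G := by ring
            _ = Nat.card τ.ker * Nat.card G * Nat.card B := h3
            _ = _ := by ring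
        exact (Nat.eq_of_mul_eq_mul_right (Nat.mul_pos hBpos hGpos) h4).symm
      exact Cfsg.Agent.Lib.Helper9Stem4.false_of_not_sq_dvd τ hstem hp hker h
  refine ⟨⟨1, one_mem _, ?_⟩, ?_⟩
  · intro a ha
    obtain ⟨b, hb, rfl⟩ := key a ha
    exact ⟨b, hb, 0, by simp⟩
  · intro a ha
    obtain ⟨b, hb, rfl⟩ := key a ha
    exact ⟨b, hb, by simp⟩

theorem stem_congr {Γ : Type u} {G G' : Type v} [Group Γ] [Group G] [Group G'] (e : G ≃* G')
    (σ : Γ →* G) (hσ : IsStemExtension σ) :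
    IsStemExtension (e.toMonoidHom.comp σ) ∧ (e.toMonoidHom.comp σ).ker = σ.ker := by
  have hk : (e.toMonoidHom.comp σ).ker = σ.ker := by
    ext x
    simp [MonoidHom.mem_ker]
  refine ⟨⟨?_, ?_, ?_⟩, hk⟩
  · exact e.surjective.comp hσ.1
  · rw [hk]; exact hσ.2.1
  · rw [hk]; exact hσ.2.2

/-- piece `mult` (3) -/
theorem localBound_congr {G G' : Type u} [Group G] [Group G'] (e : G ≃* G') (p k : ℕ)
    (h : LocalBound G p k) : LocalBound G' p k := by
  intro Γ _ _ σ hσ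
  obtain ⟨h1, h2⟩ := stem_congr e.symm σ hσ
  have := h Γ _ h1
  rw [h2] at this
  exact this

/-- piece `mult` (4) -/
theorem hasSchurMultiplier_congr_left {G G' : Type u} [Group G] [Group G'] (e : G ≃* G')
    (A : Type v) [CommGroup A] (h : HasSchurMultiplier G A) : HasSchurMultiplier G' A := by
  obtain ⟨⟨Γ, iG, iF, σ, hσ, ⟨f⟩⟩, h2⟩ := h
  refine ⟨⟨Γ, iG, iF, e.toMonoidHom.comp σ, (stem_congr e σ hσ).1, ?_⟩, ?_⟩
  · rw [(stem_congr e σ hσ).2]
    exact ⟨f⟩
  · intro Γ' _ _ σ' hσ'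
    obtain ⟨h3, h4⟩ := stem_congr e.symm σ' hσ'
    have := h2 Γ' _ h3
    rw [h4] at this
    exact this

end Cfsg.Agent.Lib.Helper17PCMult
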