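import Mathlib

set_option autoImplicit false

/-! PROJECT 63, piece `idxp`. -/

namespace Cfsg.Agent.Lib.Helper29PCIdxp

/-- piece `idxp` -/
theorem exists_index_p {A : Type*} [CommGroup A] [Finite A] (p : ℕ) (hp : p.Prime)
    (Y : Subgroup A) (hY : Y ≠ ⊤) (hpow : ∀ a : A, a ^ p ∈ Y) :
    ∃ B : Subgroup A, Y ≤ B ∧ Nat.card A = p * Nat.card B := by
  haveI : Fact p.Prime := ⟨hp⟩
  have hPG : IsPGroup p (A ⧸ Y) := by
    intro q
    obtain ⟨a, rfl⟩ := QuotientGroup.mk_surjective q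
    refine ⟨1, ?_⟩
    rw [pow_one, ← QuotientGroup.mk_pow]
    exact (QuotientGroup.eq_one_iff _).mpr (hpow a)
  obtain ⟨k, hk⟩ := IsPGroup.iff_card.mp hPG
  have hk0 : k ≠ 0 := by
    rintro rfl
    rw [pow_zero] at hk
    apply hY
    rw [← Subgroup.index_eq_one]
    exact hk
  obtain ⟨j, rfl⟩ := Nat.exists_eq_succ_of_ne_zero hk0
  obtain ⟨B', hB'⟩ := Sylow.exists_subgroup_card_pow_prime (G := A ⧸ Y) p (n := j)
    (by rw [hk]; exact pow_dvd_pow p (Nat.le_succ j))
  have hidx : B'.index = p := by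
    have h1 := B'.card_mul_index
    rw [hB', hk, pow_succ] at h1
    exact Nat.eq_of_mul_eq_mul_left (pow_pos hp.pos j) h1
  refine ⟨B'.comap (QuotientGroup.mk' Y), ?_, ?_⟩
  · intro y hy
    rw [Subgroup.mem_comap]
    have : QuotientGroup.mk' Y y = 1 := (QuotientGroup.eq_one_iff y).mpr hy
    rw [this]; exact one_mem _
  · have h2 := (B'.comap (QuotientGroup.mk' Y)).card_mul_index
    rw [Subgroup.index_comap_of_surjective _ (QuotientGroup.mk'_surjective Y), hidx] at h2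
    rw [← h2, mul_comm]

end Cfsg.Agent.Lib.Helper29PCIdxp
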