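import Cfsg.Agent.Lib.Helper63PCDefs

/-!
# helper37: project PC-MULT, piece `coll` (soundness of the collector)
-/

set_option autoImplicit false

namespace Cfsg.Agent.Lib.Helper37PCcoll

open Cfsg Cfsg.Agent.Lib.Helper63PCDefs

section coll
variable {Γ : Type*} [Group Γ]

theorem evalW_nil (x : ℕ → Γ) : evalW x [] = 1 := rfl

theorem evalW_cons (x : ℕ → Γ) (a : ℕ) (w : List ℕ) : evalW x (a :: w) = x a * evalW x w := by
  simp [evalW]

theorem evalW_append (x : ℕ → Γ) (u v : List ℕ) : evalW x (u ++ v) = evalW x u * evalW x v := by
  simp [evalW]

theorem evalW_of_isPre (x : ℕ → Γ) (a : ℕ) : ∀ (k : ℕ) (l : List ℕ), isPre a k l = true →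
    evalW x l = x a ^ k * evalW x (l.drop k) := by
  intro k
  induction k with
  | zero => intro l _; simp
  | succ k ih =>
    intro l h
    cases l with
    | nil => simp [isPre] at h
    | cons b l =>
      simp only [isPre, Bool.and_eq_true, beq_iff_eq] at h
      obtain ⟨rfl, h2⟩ := h
      rw [evalW_cons, ih l h2, List.drop_succ_cons, pow_succ', mul_assoc]

/-- piece `coll` (1) -/
theorem step_sound (D : PC) (hp : 0 < D.p) (x z : ℕ → Γ) (hz : ∀ k g, z k * g = g * z k)
    (hS : Sat D x z) : ∀ (w : List ℕ) (r : List ℕ × ℕ), D.step w = some r →
      evalW x w = evalW x r.1 * z r.2 := by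
  intro w
  induction w with
  | nil => intro r h; simp [PC.step] at h
  | cons a rest ih =>
    intro r h
    rw [PC.step] at h
    split at h
    · rename_i h1
      simp only [Bool.and_eq_true, decide_eq_true_eq] at h1
      obtain ⟨ha, hpre⟩ := h1
      have hr : r = (D.pw a ++ rest.drop (D.p - 1), a * D.n + a) := (Option.some.inj h).symm
      subst hr
      rw [evalW_cons, evalW_of_isPre x a _ _ hpre, ← mul_assoc, ← pow_succ',
        Nat.sub_add_cancel hp, hS.pw a ha, evalW_append]
      simp only
      rw [mul_assoc, hz, mul_assoc]
    · rename_i h1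
      cases rest with
      | nil => simp at h
      | cons b tl =>
        simp only [List.head?_cons, List.tail_cons] at h
        split at h
        · rename_i h2
          simp only [Bool.and_eq_true, decide_eq_true_eq] at h2
          obtain ⟨hba, ha⟩ := h2
          have hr : r = (b :: a :: (D.cm b a ++ tl), b * D.n + a) := (Option.some.inj h).symm
          subst hr
          simp only
          rw [evalW_cons, evalW_cons, evalW_cons, evalW_cons, evalW_append, ← mul_assoc,
            hS.cm b a hba ha]
          rw [mul_assoc _ (z _) _, hz]
          simp only [mul_assoc]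
        · cases hst : D.step (b :: tl) with
          | none => rw [hst] at h; simp at h
          | some r' =>
            rw [hst] at h
            have hr : r = (a :: r'.1, r'.2) := (Option.some.inj h).symm
            subst hr
            simp only
            rw [evalW_cons, ih r' hst, evalW_cons, mul_assoc]

/-- piece `coll` (2) -/
theorem run_sound (D : PC) (hp : 0 < D.p) (x z : ℕ → Γ) (hz : ∀ k g, z k * g = g * z k)
    (hS : Sat D x z) : ∀ (f : ℕ) (w L : List ℕ),
      evalW x w * evalW z L = evalW x (D.run f w L).1 * evalW z (D.run f w L).2 := by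
  intro f
  induction f with
  | zero => intro w L; rfl
  | succ f ih =>
    intro w L
    rw [PC.run]
    cases hst : D.step w with
    | none => rfl
    | some r =>
      simp only
      rw [← ih r.1 (r.2 :: L), evalW_cons, step_sound D hp x z hz hS w r hst, mul_assoc]

end coll

end Cfsg.Agent.Lib.Helper37PCcoll
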