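import Cfsg.Agent.Lib.Helper63PCDefs
import Cfsg.Agent.Lib.Helper37PCcoll

/-!
# helper37: project PC-MULT, piece `rels` (soundness of consistency and fusion relations)
-/

set_option autoImplicit false

namespace Cfsg.Agent.Lib.Helper37PCrels

open Cfsg Cfsg.Agent.Lib.Helper63PCDefs Cfsg.Agent.Lib.Helper37PCcoll

section coll
variable {Γ : Type*} [Group Γ]

theorem evalW_central (z : ℕ → Γ) (hz : ∀ k g, z k * g = g * z k) :
    ∀ (L : List ℕ) (g : Γ), evalW z L * g = g * evalW z L := by
  intro L
  induction L with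
  | nil => intro g; simp [evalW_nil]
  | cons a L ih =>
    intro g
    rw [evalW_cons, mul_assoc, ih, ← mul_assoc, hz, mul_assoc]

/-- piece `rels` (1) -/
theorem consRel_sound (D : PC) (hp : 0 < D.p) (x z : ℕ → Γ) (hz : ∀ k g, z k * g = g * z k)
    (hS : Sat D x z) (f : ℕ) (u v : List ℕ) (r : List ℕ × List ℕ)
    (h : D.consRel f u v = some r) : evalW z r.1 = evalW z r.2 := by
  rw [PC.consRel] at h
  cases hst : D.step v with
  | none => rw [hst] at h; simp at h
  | some r' =>
    rw [hst] at h
    simp only at h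
    split at h
    · rename_i heq
      have hr := (Option.some.inj h).symm
      subst hr
      simp only
      have h1 := run_sound D hp x z hz hS f (u ++ v) []
      have h2 := run_sound D hp x z hz hS f (u ++ r'.1) [r'.2]
      rw [evalW_nil, mul_one, evalW_append, step_sound D hp x z hz hS v r' hst] at h1
      rw [evalW_append, evalW_cons, evalW_nil, mul_one, mul_assoc] at h2
      rw [h1, heq] at h2
      exact mul_left_cancel h2
    · simp at h

theorem conj_flatMap (x z : ℕ → Γ) (hz : ∀ k g, z k * g = g * z k) (R : ℕ)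
    (Dw Ew : List (List ℕ)) (off : ℕ) (g : Γ)
    (hg : ∀ i, i < R → g * evalW x (nthL Dw i) * g⁻¹ = evalW x (nthL Ew i) * z (off + i)) :
    ∀ ρ : List ℕ, (∀ i ∈ ρ, i < R) →
      g * evalW x (ρ.flatMap (nthL Dw)) * g⁻¹ =
        evalW x (ρ.flatMap (nthL Ew)) * evalW z (ρ.map (fun i => off + i)) := by
  intro ρ
  induction ρ with
  | nil => intro _; simp [evalW_nil]
  | cons i ρ ih =>
    intro h
    have hi : i < R := h i (by simp)
    have ih' := ih (fun j hj => h j (by simp [hj]))
    rw [List.flatMap_cons, List.flatMap_cons, List.map_cons, evalW_append, evalW_append, evalW_cons]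
    calc g * (evalW x (nthL Dw i) * evalW x (ρ.flatMap (nthL Dw))) * g⁻¹
        = (g * evalW x (nthL Dw i) * g⁻¹) * (g * evalW x (ρ.flatMap (nthL Dw)) * g⁻¹) := by group
      _ = evalW x (nthL Ew i) * z (off + i) *
          (evalW x (ρ.flatMap (nthL Ew)) * evalW z (ρ.map (fun i => off + i))) := by rw [hg i hi, ih']
      _ = evalW x (nthL Ew i) * (z (off + i) * evalW x (ρ.flatMap (nthL Ew))) *
          evalW z (ρ.map (fun i => off + i)) := by simp only [mul_assoc]
      _ = evalW x (nthL Ew i) * (evalW x (ρ.flatMap (nthL Ew)) * z (off + i)) *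
          evalW z (ρ.map (fun i => off + i)) := by rw [hz]
      _ = _ := by simp only [mul_assoc]

/-- piece `rels` (2) -/
theorem fusRel_sound (D : PC) (hp : 0 < D.p) (x z : ℕ → Γ) (hz : ∀ k g, z k * g = g * z k)
    (hS : Sat D x z) (f R : ℕ) (Dw Ew : List (List ℕ)) (off : ℕ) (g : Γ)
    (hg : ∀ i, i < R → g * evalW x (nthL Dw i) * g⁻¹ = evalW x (nthL Ew i) * z (off + i))
    (ρ : List ℕ) (r : List ℕ × List ℕ)
    (h : D.fusRel f R Dw Ew off ρ = some r) : evalW z r.1 = evalW z r.2 := by
  rw [PC.fusRel] at h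
  split at h
  · rename_i hc
    simp only [Bool.and_eq_true, List.all_eq_true, decide_eq_true_eq, List.isEmpty_iff] at hc
    obtain ⟨⟨hρ, h1⟩, h2⟩ := hc
    have hr := (Option.some.inj h).symm
    subst hr
    simp only
    have e1 := run_sound D hp x z hz hS f (ρ.flatMap (nthL Dw)) []
    have e2 := run_sound D hp x z hz hS f (ρ.flatMap (nthL Ew)) []
    rw [h1, evalW_nil, evalW_nil, mul_one, one_mul] at e1
    rw [h2, evalW_nil, evalW_nil, mul_one, one_mul] at e2
    have e3 := conj_flatMap x z hz R Dw Ew off g hg ρ hρ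
    rw [e1, e2, ← evalW_central z hz, mul_assoc, mul_inv_cancel, mul_one] at e3
    rw [evalW_append]
    exact e3
  · simp at h

end coll

end Cfsg.Agent.Lib.Helper37PCrels
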