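import Cfsg.Agent.Lib.Helper63PCDefs
import Cfsg.Agent.Lib.Helper37PCrels

/-!
# helper37: project PC-MULT, piece `adjust` (changing the lifts by central elements)
-/

set_option autoImplicit false

namespace Cfsg.Agent.Lib.Helper37PCadjust

open Cfsg Cfsg.Agent.Lib.Helper63PCDefs Cfsg.Agent.Lib.Helper37PCcoll Cfsg.Agent.Lib.Helper37PCrels

section coll
variable {Γ : Type*} [Group Γ]

theorem evalW_mul (x γ : ℕ → Γ) (hγ : ∀ k g, γ k * g = g * γ k) :
    ∀ w : List ℕ, evalW (fun a => x a * γ a) w = evalW x w * evalW γ w := by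
  intro w
  induction w with
  | nil => simp [evalW_nil]
  | cons a w ih =>
    rw [evalW_cons, evalW_cons, evalW_cons, ih]
    calc x a * γ a * (evalW x w * evalW γ w) = x a * (γ a * evalW x w) * evalW γ w := by
          simp only [mul_assoc]
      _ = x a * (evalW x w * γ a) * evalW γ w := by rw [hγ]
      _ = _ := by simp only [mul_assoc]

theorem aux_cm (A B W Z ga gb Gw : Γ) (hga : ∀ g, ga * g = g * ga) (hgb : ∀ g, gb * g = g * gb)
    (hGw : ∀ g, Gw * g = g * Gw) (h : A * B = B * A * W * Z) :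
    A * ga * (B * gb) = B * gb * (A * ga) * (W * Gw) * (Z * Gw⁻¹ * 1) := by
  have h1 : A * ga * (B * gb) = B * A * W * Z * (ga * gb) := by
    calc A * ga * (B * gb) = A * (ga * B) * gb := by simp only [mul_assoc]
      _ = A * (B * ga) * gb := by rw [hga]
      _ = (A * B) * (ga * gb) := by simp only [mul_assoc]
      _ = _ := by rw [h]
  have h2 : B * gb * (A * ga) * (W * Gw) * (Z * Gw⁻¹ * 1) = B * A * W * Z * (ga * gb) := by
    calc B * gb * (A * ga) * (W * Gw) * (Z * Gw⁻¹ * 1)
        = B * (gb * (A * (ga * (W * (Gw * (Z * Gw⁻¹)))))) := by simp only [mul_assoc, mul_one]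
      _ = B * (gb * (A * (ga * (W * Z)))) := by rw [hGw (Z * Gw⁻¹)]; simp [mul_assoc]
      _ = B * (gb * (A * ((W * Z) * ga))) := by rw [hga]
      _ = B * ((A * ((W * Z) * ga)) * gb) := by rw [hgb]
      _ = _ := by simp only [mul_assoc]
  rw [h1, h2]

/-- piece `adjust`: changing the lifts by central elements -/
theorem adjust (D : PC) (x z γ : ℕ → Γ) (hz : ∀ k g, z k * g = g * z k)
    (hγ : ∀ k g, γ k * g = g * γ k) (hS : Sat D x z) :
    Sat D (fun a => x a * γ a)
      (fun j => z j * (evalW γ (D.corr j))⁻¹ * (if j / D.n = j % D.n then γ (j / D.n) ^ D.p else 1)) := by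
  constructor
  · intro a ha
    have hn : 0 < D.n := by omega
    have hd : (a * D.n + a) / D.n = a := by
      rw [Nat.add_comm, Nat.add_mul_div_right _ _ hn, Nat.div_eq_of_lt ha, zero_add]
    have hm : (a * D.n + a) % D.n = a := by
      rw [Nat.add_comm, Nat.add_mul_mod_self_right, Nat.mod_eq_of_lt ha]
    have hcorr : D.corr (a * D.n + a) = D.pw a := by
      rw [PC.corr, hd, hm, if_pos rfl]
    simp only [hd, hm, hcorr, if_true]
    rw [evalW_mul x γ hγ]
    have hc : Commute (x a) (γ a) := (hγ a (x a)).symm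
    rw [hc.mul_pow, hS.pw a ha]
    have hGw := evalW_central γ hγ (D.pw a)
    calc evalW x (D.pw a) * z (a * D.n + a) * γ a ^ D.p
        = evalW x (D.pw a) * ((z (a * D.n + a) * (evalW γ (D.pw a))⁻¹) * evalW γ (D.pw a)) *
          γ a ^ D.p := by simp [mul_assoc]
      _ = evalW x (D.pw a) * (evalW γ (D.pw a) * (z (a * D.n + a) * (evalW γ (D.pw a))⁻¹)) *
          γ a ^ D.p := by rw [hGw]
      _ = _ := by simp only [mul_assoc]
  · intro b a hba ha
    have hn : 0 < D.n := by omega
    have hd : (b * D.n + a) / D.n = b := by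
      rw [Nat.add_comm, Nat.add_mul_div_right _ _ hn, Nat.div_eq_of_lt ha, zero_add]
    have hm : (b * D.n + a) % D.n = a := by
      rw [Nat.add_comm, Nat.add_mul_mod_self_right, Nat.mod_eq_of_lt ha]
    have hne : b ≠ a := by omega
    have hcorr : D.corr (b * D.n + a) = D.cm b a := by
      rw [PC.corr, hd, hm, if_neg hne]
    simp only [hd, hm, hcorr, if_neg hne]
    rw [evalW_mul x γ hγ]
    exact aux_cm _ _ _ _ _ _ _ (hγ a) (hγ b) (evalW_central γ hγ _) (hS.cm b a hba ha)

end coll

end Cfsg.Agent.Lib.Helper37PCadjust
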