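import Cfsg.Agent.Lib.Helper63PCDefs

set_option autoImplicit false

namespace Cfsg.Agent.Lib.Helper7PCVec

open Cfsg Cfsg.Agent.Lib.Helper63PCDefs

variable {M : Type*} [AddCommGroup M] (z : ℕ → M)

theorem dotZ_vadd : ∀ (v w : List ℤ) (i : ℕ), v.length = w.length →
    dotZ z i (vadd v w) = dotZ z i v + dotZ z i w
  | [], [], i, _ => by simp [vadd, dotZ]
  | a :: v, b :: w, i, h => by
      have ih := dotZ_vadd v w (i + 1) (by simpa using h)
      simp only [vadd, List.zipWith_cons_cons, dotZ] at ih ⊢
      rw [ih, add_smul]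
      abel
  | [], b :: w, i, h => by simp at h
  | a :: v, [], i, h => by simp at h

theorem dotZ_vsmul (c : ℤ) : ∀ (v : List ℤ) (i : ℕ), dotZ z i (vsmul c v) = c • dotZ z i v
  | [], i => by simp [vsmul, dotZ]
  | a :: v, i => by
      have ih := dotZ_vsmul c v (i + 1)
      simp only [vsmul, List.map_cons, dotZ] at ih ⊢
      rw [ih, smul_add, mul_smul]

theorem dotZ_vzero (N i : ℕ) : dotZ z i (vzero N) = 0 := by
  induction N generalizing i with
  | zero => simp [vzero, dotZ]
  | succ N ih =>
    have := ih (i + 1)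
    simp only [vzero, List.replicate_succ, dotZ] at this ⊢
    rw [this]
    simp

theorem dotZ_map_range' (f : ℕ → ℤ) : ∀ (N i : ℕ),
    dotZ z i ((List.range' i N).map f) = ((List.range' i N).map (fun k => f k • z k)).sum
  | 0, i => by simp [dotZ]
  | N + 1, i => by
      have ih := dotZ_map_range' f N (i + 1)
      simp only [List.range'_succ, List.map_cons, dotZ, List.sum_cons]
      rw [ih]

theorem dotZ_map_range (f : ℕ → ℤ) (N : ℕ) :
    dotZ z 0 ((List.range N).map f) = ∑ k ∈ Finset.range N, f k • z k := by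
  rw [List.range_eq_range', dotZ_map_range', ← List.range_eq_range']
  rfl

theorem dotZ_vunit (N j : ℕ) (hj : j < N) : dotZ z 0 (vunit N j) = z j := by
  rw [vunit, dotZ_map_range, Finset.sum_eq_single j]
  · simp
  · intro k _ hk
    simp [hk]
  · intro h
    exact absurd (Finset.mem_range.2 hj) h

theorem dotZ_cnt (N : ℕ) (L : List ℕ) (h : ∀ k ∈ L, k < N) :
    dotZ z 0 (cnt N L) = (L.map z).sum := by
  rw [cnt, dotZ_map_range]
  induction L with
  | nil => simp
  | cons a L ih =>
    have ha : a < N := h a List.mem_cons_self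
    rw [List.map_cons, List.sum_cons, ← ih (fun k hk => h k (List.mem_cons_of_mem _ hk))]
    have : ∀ k, ((List.count k (a :: L) : ℕ) : ℤ) • z k
        = (if k = a then z k else 0) + ((List.count k L : ℕ) : ℤ) • z k := by
      intro k
      rw [List.count_cons]
      by_cases hk : k = a
      · subst hk
        simp [add_smul, add_comm]
      · have hk' : ¬ a = k := fun h => hk h.symm
        simp [hk, hk']
    simp only [this, Finset.sum_add_distrib]
    congr 1
    rw [Finset.sum_ite_eq' (Finset.range N) a z, if_pos (Finset.mem_range.2 ha)]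

theorem length_vadd (v w : List ℤ) : (vadd v w).length = min v.length w.length := by
  simp [vadd]

theorem length_vsmul (c : ℤ) (v : List ℤ) : (vsmul c v).length = v.length := by
  simp [vsmul]

theorem length_vzero (N : ℕ) : (vzero N).length = N := by simp [vzero]

theorem length_vunit (N j : ℕ) : (vunit N j).length = N := by simp [vunit]

theorem length_cnt (N : ℕ) (L : List ℕ) : (cnt N L).length = N := by simp [cnt]

theorem dotZ_vsum (N : ℕ) (vs : List (List ℤ)) (h : ∀ v ∈ vs, v.length = N) :
    (vsum N vs).length = N ∧ dotZ z 0 (vsum N vs) = (vs.map (dotZ z 0)).sum := by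
  induction vs with
  | nil => exact ⟨length_vzero N, by simpa [vsum] using dotZ_vzero z N 0⟩
  | cons v vs ih =>
    obtain ⟨h1, h2⟩ := ih (fun w hw => h w (List.mem_cons_of_mem _ hw))
    have hv : v.length = N := h v List.mem_cons_self
    have e : vsum N (v :: vs) = vadd v (vsum N vs) := rfl
    refine ⟨by rw [e, length_vadd, hv, h1, min_self], ?_⟩
    rw [e, dotZ_vadd z _ _ _ (by rw [hv, h1]), h2, List.map_cons, List.sum_cons]

theorem dotZ_dvd (m : ℤ) : ∀ (v : List ℤ) (i : ℕ), (∀ c ∈ v, m ∣ c) →
    ∃ y : M, dotZ z i v = m • y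
  | [], i, _ => ⟨0, by simp [dotZ]⟩
  | a :: v, i, h => by
      obtain ⟨y, hy⟩ := dotZ_dvd m v (i + 1) (fun c hc => h c (List.mem_cons_of_mem _ hc))
      obtain ⟨a', rfl⟩ := h a List.mem_cons_self
      refine ⟨a' • z i + y, ?_⟩
      simp only [dotZ]
      rw [hy, smul_add, mul_smul]

end Cfsg.Agent.Lib.Helper7PCVec
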