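import Cfsg.Agent.Lib.Helper63PCDefs
import Cfsg.Agent.Lib.Helper7PCVec

set_option autoImplicit false

namespace Cfsg.Agent.Lib.Helper7PCSem

open Cfsg Cfsg.Agent.Lib.Helper63PCDefs Cfsg.Agent.Lib.Helper7PCVec

variable {M : Type*} [AddCommGroup M] (z : ℕ → M)

theorem vec_length (C : Cert) (s : ℕ × List ℕ × List ℕ) : (C.vec s).length = C.N := by
  unfold Cert.vec
  split
  · exact length_vzero _
  · split_ifs
    · rw [length_vadd, length_vsmul, length_cnt, length_cnt, min_self]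
    · exact length_vzero _

theorem vec_sem (C : Cert) (s : ℕ × List ℕ × List ℕ)
    (h : ∀ r, C.rel s = some r → (r.1.map z).sum = (r.2.map z).sum) :
    dotZ z 0 (C.vec s) = 0 := by
  unfold Cert.vec
  split
  · exact dotZ_vzero z _ _
  · rename_i r hr
    split_ifs with hc
    · rw [Bool.and_eq_true, List.all_eq_true, List.all_eq_true] at hc
      rw [dotZ_vadd z _ _ _ (by rw [length_vsmul, length_cnt, length_cnt]), dotZ_vsmul,
        dotZ_cnt z _ _ (fun k hk => by simpa using hc.1 k hk),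
        dotZ_cnt z _ _ (fun k hk => by simpa using hc.2 k hk), h r hr]
      simp
    · exact dotZ_vzero z _ _

theorem length_nthV (N : ℕ) (L : List (List ℤ)) (hL : ∀ v ∈ L, v.length = N) (k : ℕ) :
    (nthV N L k).length = N := by
  unfold nthV
  by_cases hk : k < L.length
  · rw [List.getD_eq_getElem _ _ hk]
    exact hL _ (List.getElem_mem hk)
  · rw [List.getD_eq_default _ _ (by omega)]
    exact length_vzero N

theorem dotZ_nthV (N : ℕ) (L : List (List ℤ)) (hL : ∀ v ∈ L, dotZ z 0 v = 0) (k : ℕ) :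
    dotZ z 0 (nthV N L k) = 0 := by
  unfold nthV
  by_cases hk : k < L.length
  · rw [List.getD_eq_getElem _ _ hk]
    exact hL _ (List.getElem_mem hk)
  · rw [List.getD_eq_default _ _ (by omega)]
    exact dotZ_vzero z N 0

theorem yv_sem (C : Cert) (hlam : ∀ v ∈ C.lam, v.length = C.N) (j : ℕ) (hj : j < C.N) :
    (C.yv j).length = C.N ∧ dotZ z 0 (C.yv j) = C.ytil z j := by
  have h1 := dotZ_vsum z C.N ((C.D.corr j).map (nthV C.N C.lam)) (by
    intro v hv
    obtain ⟨l, -, rfl⟩ := List.mem_map.1 hv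
    exact length_nthV _ _ hlam l)
  unfold Cert.yv
  refine ⟨by rw [length_vadd, length_vsmul, length_vunit, h1.1, min_self], ?_⟩
  rw [dotZ_vadd z _ _ _ (by rw [length_vsmul, length_vunit, h1.1]), dotZ_vsmul, dotZ_vunit z _ _ hj,
    h1.2, List.map_map]
  unfold Cert.ytil
  rw [neg_one_smul, ← sub_eq_add_neg]
  rfl

theorem comb_sem (C : Cert) (hlen : ∀ v ∈ C.relV, v.length = C.N)
    (hrel : ∀ v ∈ C.relV, dotZ z 0 v = 0) (ys : List (ℕ × ℤ)) :
    (C.comb ys).length = C.N ∧ dotZ z 0 (C.comb ys) = 0 := by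
  have h1 := dotZ_vsum z C.N (ys.map fun t => vsmul t.2 (nthV C.N C.relV t.1)) (by
    intro v hv
    obtain ⟨l, -, rfl⟩ := List.mem_map.1 hv
    rw [length_vsmul]
    exact length_nthV _ _ hlen _)
  unfold Cert.comb
  refine ⟨h1.1, ?_⟩
  rw [h1.2, List.map_map]
  apply List.sum_eq_zero
  intro x hx
  obtain ⟨t, -, rfl⟩ := List.mem_map.1 hx
  simp only [Function.comp]
  rw [dotZ_vsmul, dotZ_nthV z _ _ hrel, smul_zero]

theorem row1_sem (C : Cert) (hlam : ∀ v ∈ C.lam, v.length = C.N)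
    (hlen : ∀ v ∈ C.relV, v.length = C.N) (hrel : ∀ v ∈ C.relV, dotZ z 0 v = 0)
    (j : ℕ) (hj : j < C.N) (hj0 : C.j0 < C.N) (h : C.row1 j = true) :
    ∃ m : M, C.ytil z j - (C.mu.getD j 0) • C.ytil z C.j0 = (C.D.p : ℤ) • m := by
  unfold Cert.row1 at h
  rw [List.all_eq_true] at h
  obtain ⟨m, hm⟩ := dotZ_dvd z (C.D.p : ℤ) _ 0 (fun c hc => by
    have := h c hc
    exact Int.dvd_of_emod_eq_zero (by simpa using this))
  obtain ⟨a1, a2⟩ := yv_sem z C hlam j hj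
  obtain ⟨b1, b2⟩ := yv_sem z C hlam C.j0 hj0
  obtain ⟨c1, c2⟩ := comb_sem z C hlen hrel (C.y1.getD j [])
  refine ⟨m, ?_⟩
  rw [← hm, dotZ_vadd z _ _ _ (by
      rw [length_vadd, length_vsmul, length_vsmul, a1, b1, c1, min_self]),
    dotZ_vadd z _ _ _ (by rw [length_vsmul, length_vsmul, b1, c1]), dotZ_vsmul, dotZ_vsmul,
    a2, b2, c2, smul_zero, add_zero, neg_smul, sub_eq_add_neg]

theorem row2_sem (C : Cert) (hlam : ∀ v ∈ C.lam, v.length = C.N)
    (hlen : ∀ v ∈ C.relV, v.length = C.N) (hrel : ∀ v ∈ C.relV, dotZ z 0 v = 0)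
    (j : ℕ) (hj : j < C.N) (h : C.row2 j = true) :
    ∃ m : M, ((C.D.p : ℤ) ^ C.k) • C.ytil z j = ((C.D.p : ℤ) ^ (C.k + 1)) • m := by
  unfold Cert.row2 at h
  rw [List.all_eq_true] at h
  obtain ⟨m, hm⟩ := dotZ_dvd z ((C.D.p : ℤ) ^ (C.k + 1)) _ 0 (fun c hc => by
    have := h c hc
    exact Int.dvd_of_emod_eq_zero (by simpa using this))
  obtain ⟨a1, a2⟩ := yv_sem z C hlam j hj
  obtain ⟨c1, c2⟩ := comb_sem z C hlen hrel (C.y2.getD j [])
  refine ⟨m, ?_⟩
  rw [← hm, dotZ_vadd z _ _ _ (by rw [length_vsmul, length_vsmul, a1, c1]), dotZ_vsmul,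
    dotZ_vsmul, a2, c2, smul_zero, add_zero]

end Cfsg.Agent.Lib.Helper7PCSem
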