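import Cfsg.Agent.Lib.Helper63PCDefs
import Cfsg.Agent.Lib.Helper17PCLemmaC
import Cfsg.Agent.Lib.Helper17PCMult
import Cfsg.Agent.Lib.Helper29PCIdxp
import Cfsg.Agent.Lib.Helper37PCadjust
import Cfsg.Agent.Lib.Helper37PCrels
import Cfsg.Agent.Lib.Helper38PCpcb
import Cfsg.Agent.Lib.Helper7PCSem

/-!
# Project PC-MULT: the main theorem for one prime (`ub`)
-/

set_option autoImplicit false
set_option linter.unusedVariables false

namespace Cfsg.Agent.Lib.Helper63PCUb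

open Cfsg Cfsg.Agent.Lib.Helper63PCDefs

universe u

/-- the abelian part of the argument -/
theorem two_claims {A : Type*} [CommGroup A] [Finite A] (p : ℕ) (hp : p.Prime) (k : ℕ)
    {ι : Type*} (yt : ι → A) (ω : A)
    (h1 : ∀ j, ∃ (μ : ℤ) (m : A), yt j = ω ^ μ * m ^ p)
    (h2 : ∀ j, ∃ m : A, (yt j) ^ (p ^ k) = m ^ (p ^ (k + 1)))
    (hno : ∀ B : Subgroup A, Nat.card A = p * Nat.card B → (∀ a : A, a ^ p ∈ B) →
      (∀ j, yt j ∈ B) → False) :
    (∀ a : A, ∃ (b : A) (j : ℕ), a = b ^ p * ω ^ j) ∧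
      (∀ a : A, ∃ b : A, a ^ (p ^ k) = b ^ (p ^ (k + 1))) := by
  constructor
  · set Y : Subgroup A := (powMonoidHom p : A →* A).range ⊔ Subgroup.zpowers ω with hY
    have hpow : ∀ a : A, a ^ p ∈ Y := fun a => Subgroup.mem_sup_left ⟨a, rfl⟩
    by_cases hYt : Y = ⊤
    · intro a
      have ha : a ∈ Y := by rw [hYt]; trivial
      obtain ⟨y, ⟨b, rfl⟩, w, hw, rfl⟩ := Subgroup.mem_sup.1 ha
      have hw' : w ∈ Submonoid.powers ω := (mem_powers_iff_mem_zpowers).2 hw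
      obtain ⟨j, rfl⟩ := hw'
      exact ⟨b, j, rfl⟩
    · exfalso
      obtain ⟨B, hYB, hcard⟩ := Cfsg.Agent.Lib.Helper29PCIdxp.exists_index_p p hp Y hYt hpow
      refine hno B hcard (fun a => hYB (hpow a)) ?_
      intro j
      obtain ⟨μ, m, hm⟩ := h1 j
      rw [hm]
      exact B.mul_mem (hYB (Subgroup.mem_sup_right (Subgroup.zpow_mem_zpowers ω μ))) (hYB (hpow m))
  · set Y : Subgroup A :=
      ((powMonoidHom (p ^ (k + 1)) : A →* A).range).comap (powMonoidHom (p ^ k) : A →* A) with hY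
    have hmem : ∀ a : A, a ∈ Y ↔ ∃ b : A, a ^ (p ^ k) = b ^ (p ^ (k + 1)) := by
      intro a
      rw [hY, Subgroup.mem_comap, MonoidHom.mem_range]
      constructor
      · rintro ⟨b, hb⟩; exact ⟨b, hb.symm⟩
      · rintro ⟨b, hb⟩; exact ⟨b, hb.symm⟩
    have hpow : ∀ a : A, a ^ p ∈ Y := fun a => (hmem _).2 ⟨a, by rw [← pow_mul, pow_succ, mul_comm]⟩
    by_cases hYt : Y = ⊤
    · intro a
      exact (hmem a).1 (by rw [hYt]; trivial)
    · exfalso
      obtain ⟨B, hYB, hcard⟩ := Cfsg.Agent.Lib.Helper29PCIdxp.exists_index_p p hp Y hYt hpow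
      exact hno B hcard (fun a => hYB (hpow a)) (fun j => hYB ((hmem _).2 (h2 j)))

theorem div_mod_aux {n b a : ℕ} (ha : a < n) : (b * n + a) / n = b ∧ (b * n + a) % n = a := by
  have hn : 0 < n := by omega
  constructor
  · rw [add_comm, mul_comm, Nat.add_mul_div_left _ _ hn, Nat.div_eq_of_lt ha, zero_add]
  · rw [add_comm, mul_comm, Nat.add_mul_mod_self_left, Nat.mod_eq_of_lt ha]

theorem map_evalW {Γ G : Type*} [Group Γ] [Group G] (σ : Γ →* G) (X : ℕ → Γ) (w : List ℕ) :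
    σ (evalW X w) = evalW (fun a => σ (X a)) w := by
  unfold evalW
  rw [map_list_prod, List.map_map]
  rfl

/-- sums in `Additive A` versus words in `Γ` -/
theorem sum_eq_evalW {Γ : Type*} [Group Γ] (K : Subgroup Γ) [CommGroup K]
    (hmul : ∀ a b : K, ((a * b : K) : Γ) = (a : Γ) * (b : Γ)) (hone : ((1 : K) : Γ) = 1)
    (zA : ℕ → K) (L : List ℕ) :
    ((Additive.toMul ((L.map (fun j => Additive.ofMul (zA j))).sum) : K) : Γ)
      = evalW (fun j => (zA j : Γ)) L := by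
  induction L with
  | nil => simpa [evalW] using hone
  | cons a L ih =>
    simp only [List.map_cons, List.sum_cons, toMul_add, toMul_ofMul, hmul, evalW, List.prod_cons]
    rw [ih]
    rfl

/-- the tails and the fusion discrepancies -/
def zG {Γ : Type*} [Group Γ] (C : Cert) (X Gh : ℕ → Γ) (j : ℕ) : Γ :=
  if j < C.D.n * C.D.n then
    (if j / C.D.n = j % C.D.n then (evalW X (C.D.pw (j / C.D.n)))⁻¹ * X (j / C.D.n) ^ C.D.p
     else if j / C.D.n < j % C.D.n then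
      (X (j / C.D.n) * X (j % C.D.n) * evalW X (C.D.cm (j / C.D.n) (j % C.D.n)))⁻¹ *
        (X (j % C.D.n) * X (j / C.D.n))
     else 1)
  else
    (evalW X (nthL (C.Ew ((j - C.D.n * C.D.n) / C.R)) ((j - C.D.n * C.D.n) % C.R)))⁻¹ *
      (Gh ((j - C.D.n * C.D.n) / C.R) *
        evalW X (nthL (C.Dw ((j - C.D.n * C.D.n) / C.R)) ((j - C.D.n * C.D.n) % C.R)) *
        (Gh ((j - C.D.n * C.D.n) / C.R))⁻¹)

theorem lt_sq_aux {n b a : ℕ} (hb : b ≤ a) (ha : a < n) : b * n + a < n * n := by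
  have h1 : b + 1 ≤ n := by omega
  calc b * n + a < b * n + n := by omega
    _ = (b + 1) * n := by ring
    _ ≤ n * n := Nat.mul_le_mul_right n h1

theorem zG_sat {Γ : Type*} [Group Γ] (C : Cert) (X Gh : ℕ → Γ) : Sat C.D X (zG C X Gh) := by
  constructor
  · intro a ha
    obtain ⟨h1, h2⟩ := div_mod_aux (b := a) ha
    unfold zG
    rw [if_pos (lt_sq_aux le_rfl ha), h1, h2, if_pos rfl]
    group
  · intro b a hba ha
    obtain ⟨h1, h2⟩ := div_mod_aux (b := b) ha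
    unfold zG
    rw [if_pos (lt_sq_aux hba.le ha), h1, h2, if_neg hba.ne, if_pos hba]
    group

theorem zG_fus {Γ : Type*} [Group Γ] (C : Cert) (X Gh : ℕ → Γ) (gi i : ℕ) (hi : i < C.R) :
    Gh gi * evalW X (nthL (C.Dw gi) i) * (Gh gi)⁻¹ =
      evalW X (nthL (C.Ew gi) i) * zG C X Gh (C.D.n * C.D.n + gi * C.R + i) := by
  obtain ⟨h1, h2⟩ := div_mod_aux (b := gi) hi
  unfold zG
  have e : C.D.n * C.D.n + gi * C.R + i - C.D.n * C.D.n = gi * C.R + i := by omega
  rw [if_neg (by omega), e, h1, h2]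
  group

theorem zG_ker {Γ G : Type*} [Group Γ] [Group G] (σ : Γ →* G) (C : Cert) (X Gh : ℕ → Γ)
    (hx : Sat C.D (fun a => σ (X a)) (fun _ => 1))
    (hg : ∀ gi i, σ (Gh gi) * evalW (fun a => σ (X a)) (nthL (C.Dw gi) i) * (σ (Gh gi))⁻¹ =
      evalW (fun a => σ (X a)) (nthL (C.Ew gi) i)) (j : ℕ) : σ (zG C X Gh j) = 1 := by
  unfold zG
  split_ifs with h1 h2 h3
  · have hn : 0 < C.D.n := by
      rcases Nat.eq_zero_or_pos C.D.n with h | h
      · rw [h] at h1; simp at h1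
      · exact h
    have ha : j / C.D.n < C.D.n := Nat.div_lt_of_lt_mul h1
    rw [map_mul, map_inv, map_pow, map_evalW, hx.pw _ ha]
    simp
  · have hn : 0 < C.D.n := by
      rcases Nat.eq_zero_or_pos C.D.n with h | h
      · rw [h] at h1; simp at h1
      · exact h
    have ha : j % C.D.n < C.D.n := Nat.mod_lt _ hn
    rw [map_mul, map_inv, map_mul, map_mul, map_mul, map_evalW, hx.cm _ _ h3 ha]
    group
  · exact map_one σ
  · rw [map_mul, map_inv, map_mul, map_mul, map_inv, map_evalW, map_evalW, hg]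
    simp

/-- **Main theorem for one prime.** -/
theorem ub {G : Type u} [Group G] [Finite G] (C : Cert) (hp : C.D.p.Prime)
    (hC : C.check = true) (x g : ℕ → G) (hx : Sat C.D x (fun _ => 1))
    (hg : ∀ gi i, g gi * evalW x (nthL (C.Dw gi) i) * (g gi)⁻¹ = evalW x (nthL (C.Ew gi) i))
    (hcard : Nat.card (Subgroup.closure (x '' Set.Iio C.D.n)) = C.D.p ^ C.D.n)
    (hG : ¬ C.D.p ^ (C.D.n + 1) ∣ Nat.card G) : LocalBound G C.D.p C.k := by
  intro Γ _ _ σ hσ
  obtain ⟨hs, hc, hd⟩ := id hσ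
  simp only [Cert.check, Bool.and_eq_true, decide_eq_true_eq, List.all_eq_true, List.mem_range,
    Bool.or_eq_true, beq_iff_eq] at hC
  obtain ⟨⟨⟨⟨hw, hj0⟩, hlam⟩, hrelV⟩, hrows⟩ := hC
  choose lift hlift using hs
  let X : ℕ → Γ := fun a => lift (x a)
  let Gh : ℕ → Γ := fun gi => lift (g gi)
  have hσX : (fun a => σ (X a)) = x := funext fun a => hlift _
  have hker : ∀ j, zG C X Gh j ∈ σ.ker := by
    intro j
    refine zG_ker σ C X Gh (by rw [hσX]; exact hx) ?_ j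
    intro gi i
    rw [hσX]
    simp only [Gh, hlift]
    exact hg gi i
  have hcen : ∀ (a : Γ), a ∈ σ.ker → ∀ b : Γ, a * b = b * a := fun a ha b =>
    (Subgroup.mem_center_iff.1 (hc ha) b).symm
  have hzc : ∀ k b, zG C X Gh k * b = b * zG C X Gh k := fun k b => hcen _ (hker k) b
  have hsat : Sat C.D X (zG C X Gh) := zG_sat C X Gh
  letI : CommGroup σ.ker := Cfsg.Agent.Lib.Helper17PCMult.kerComm σ hc
  let zA : ℕ → σ.ker := fun j => ⟨zG C X Gh j, hker j⟩
  let z : ℕ → Additive σ.ker := fun j => Additive.ofMul (zA j)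
  have hbridge : ∀ L : List ℕ, ((Additive.toMul ((L.map z).sum) : σ.ker) : Γ) = evalW (zG C X Gh) L :=
    fun L => sum_eq_evalW σ.ker (fun _ _ => rfl) rfl zA L
  have hsum : ∀ L1 L2 : List ℕ, evalW (zG C X Gh) L1 = evalW (zG C X Gh) L2 →
      (L1.map z).sum = (L2.map z).sum := by
    intro L1 L2 h
    apply Additive.toMul.injective
    apply Subtype.ext
    rw [hbridge, hbridge, h]
  have hrel : ∀ v ∈ C.relV, dotZ z 0 v = 0 := by
    intro v hv
    rw [hrelV] at hv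
    obtain ⟨s, -, rfl⟩ := List.mem_map.1 hv
    apply Cfsg.Agent.Lib.Helper7PCSem.vec_sem
    intro r hr
    apply hsum
    unfold Cert.rel at hr
    split at hr
    · exact Cfsg.Agent.Lib.Helper37PCrels.consRel_sound C.D hp.pos X _ hzc hsat _ _ _ r hr
    · rename_i gi hgi
      split_ifs at hr with hlt
      refine Cfsg.Agent.Lib.Helper37PCrels.fusRel_sound C.D hp.pos X _ hzc hsat _ C.R _ _ _ (Gh gi)
        ?_ _ r hr
      intro i hi
      exact zG_fus C X Gh gi i hi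
  have hlen : ∀ v ∈ C.relV, v.length = C.N := by
    intro v hv
    rw [hrelV] at hv
    obtain ⟨s, -, rfl⟩ := List.mem_map.1 hv
    exact Cfsg.Agent.Lib.Helper7PCSem.vec_length C s
  -- the corrections
  let γA : ℕ → σ.ker := fun l => Additive.toMul (C.gam z l)
  let γ : ℕ → Γ := fun l => (γA l : Γ)
  have hγc : ∀ k b, γ k * b = b * γ k := fun k b => hcen _ (γA k).2 b
  have hadj := Cfsg.Agent.Lib.Helper37PCadjust.adjust C.D X (zG C X Gh) γ hzc hγc hsat
  have hγsum : ∀ L : List ℕ, ((Additive.toMul ((L.map (C.gam z)).sum) : σ.ker) : Γ) = evalW γ L := by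
    intro L
    have := sum_eq_evalW σ.ker (fun _ _ => rfl) rfl γA L
    simpa [γA] using this
  have hyt : ∀ j, ((Additive.toMul (C.ytil z j) : σ.ker) : Γ)
      = zG C X Gh j * (evalW γ (C.D.corr j))⁻¹ := by
    intro j
    unfold Cert.ytil
    rw [toMul_sub, div_eq_mul_inv]
    change (zA j : Γ) * ((Additive.toMul ((List.map (C.gam z) (C.D.corr j)).sum) : σ.ker) : Γ)⁻¹ = _
    rw [hγsum]
  let ι := {q : ℕ × ℕ // q.1 ≤ q.2 ∧ q.2 < C.D.n}
  let yt : ι → σ.ker := fun q => Additive.toMul (C.ytil z (q.1.1 * C.D.n + q.1.2))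
  let ω : σ.ker := Additive.toMul (C.ytil z C.j0)
  have hjN : ∀ q : ι, q.1.1 * C.D.n + q.1.2 < C.N := by
    intro q
    have := lt_sq_aux q.2.1 q.2.2
    unfold Cert.N
    omega
  have hrow : ∀ q : ι, C.row1 (q.1.1 * C.D.n + q.1.2) = true ∧ C.row2 (q.1.1 * C.D.n + q.1.2) = true := by
    intro q
    rcases hrows q.1.1 (lt_of_le_of_lt q.2.1 q.2.2) q.1.2 q.2.2 with h | h
    · exact absurd q.2.1 (by omega)
    · exact h
  have key := two_claims C.D.p hp C.k yt ω ?_ ?_ ?_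
  · obtain ⟨k1, k2⟩ := key
    refine ⟨⟨ω.1, ω.2, ?_⟩, ?_⟩
    · intro a ha
      obtain ⟨b, j, hb⟩ := k1 ⟨a, ha⟩
      exact ⟨b.1, b.2, j, congrArg Subtype.val hb⟩
    · intro a ha
      obtain ⟨b, hb⟩ := k2 ⟨a, ha⟩
      exact ⟨b.1, b.2, congrArg Subtype.val hb⟩
  · intro q
    obtain ⟨m, hm⟩ := Cfsg.Agent.Lib.Helper7PCSem.row1_sem z C hlam hlen hrel _ (hjN q) hj0 (hrow q).1
    refine ⟨C.mu.getD (q.1.1 * C.D.n + q.1.2) 0, Additive.toMul m, ?_⟩
    have h2 : C.ytil z (q.1.1 * C.D.n + q.1.2)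
        = (C.mu.getD (q.1.1 * C.D.n + q.1.2) 0) • C.ytil z C.j0 + (C.D.p : ℤ) • m := by
      rw [← hm]; abel
    change Additive.toMul (C.ytil z (q.1.1 * C.D.n + q.1.2)) = _
    rw [h2, toMul_add, toMul_zsmul, toMul_zsmul, zpow_natCast]
  · intro q
    obtain ⟨m, hm⟩ := Cfsg.Agent.Lib.Helper7PCSem.row2_sem z C hlam hlen hrel _ (hjN q) (hrow q).2
    refine ⟨Additive.toMul m, ?_⟩
    have h3 := congrArg Additive.toMul hm
    rw [toMul_zsmul, toMul_zsmul, ← Nat.cast_pow, ← Nat.cast_pow, zpow_natCast, zpow_natCast] at h3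
    exact h3
  · intro B hB hpow hyB
    refine Cfsg.Agent.Lib.Helper17PCLemmaC.lemmaC σ hσ C.D hp hw (B.map σ.ker.subtype)
      (Subgroup.map_subtype_le B) ?_ _ _ hadj ?_ ?_ hG
      (fun D h1 h2 y h3 => Cfsg.Agent.Lib.Helper38PCpcb.pcb D h1 h2 y h3)
    · rw [Subgroup.card_map_of_injective σ.ker.subtype_injective]
      exact hB
    · intro b a hba ha
      obtain ⟨e1, e2⟩ := div_mod_aux (b := b) ha
      have h5 := hyB ⟨(b, a), hba, ha⟩
      refine ⟨yt ⟨(b, a), hba, ha⟩ * (if b = a then γA b ^ C.D.p else 1), ?_, ?_⟩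
      · apply B.mul_mem h5
        split_ifs
        · exact hpow _
        · exact B.one_mem
      · simp only [e1, e2]
        rw [← hyt]
        split_ifs <;> rfl
    · have : (fun a => σ (X a * γ a)) = x := by
        funext a
        rw [map_mul, MonoidHom.mem_ker.1 (γA a).2, mul_one]
        exact hlift _
      rw [this]
      exact hcard

end Cfsg.Agent.Lib.Helper63PCUb
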