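import Cfsg.Agent.Lib.Helper63PCTabDefs
import Cfsg.Agent.Lib.Helper63PCUb

/-! PROJECT 63 (PC-MULT) part 2: pieces `tab`, `ubsub`, `appspec`, `inj`, `ubtab`. -/

set_option autoImplicit false

namespace Cfsg.Agent.Lib.Helper17PCTab

open Cfsg Cfsg.Agent.Lib.Helper63PCDefs Cfsg.Agent.Lib.Helper63PCTabDefs
open Cfsg.Agent.Lib.Helper63TCS

universe u

/-- piece `tab` (1) -/
theorem Tabled.mul {d : ℕ} {K : Subgroup (Equiv.Perm (Fin d))} {B T T1 T2 : ℕ}
    (h1 : Tabled K B T1) (h2 : Tabled K B T2) (h : mulChk d B T T1 T2 = true) : Tabled K B T := by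
  obtain ⟨π1, hπ1, e1⟩ := h1
  obtain ⟨π2, hπ2, e2⟩ := h2
  refine ⟨π1 * π2, K.mul_mem hπ1 hπ2, fun x => ?_⟩
  have := Nat.eq_of_beq_eq_true (allB_spec h x x.2)
  rw [Equiv.Perm.mul_apply, e1, e2, this]

/-- piece `tab` (2) -/
theorem Tabled.inv {d : ℕ} {K : Subgroup (Equiv.Perm (Fin d))} {B T T1 : ℕ}
    (h1 : Tabled K B T1) (h : invChk d B T T1 = true) : Tabled K B T := by
  obtain ⟨π1, hπ1, e1⟩ := h1
  refine ⟨π1⁻¹, K.inv_mem hπ1, fun x => ?_⟩
  have h2 := allB_spec h x x.2
  rw [Bool.and_eq_true] at h2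
  have h3 : lk B T x < d := by
    have := h2.1
    rwa [Nat.blt_eq] at this
  have h4 := Nat.eq_of_beq_eq_true h2.2
  have h5 : π1 ⟨lk B T x, h3⟩ = x := by
    apply Fin.ext
    rw [e1]
    exact h4
  have h6 : π1⁻¹ x = ⟨lk B T x, h3⟩ := by
    rw [Equiv.Perm.inv_eq_iff_eq]
    exact h5.symm
  rw [h6]

theorem evalW_map {Γ Δ : Type*} [Monoid Γ] [Monoid Δ] (f : Γ →* Δ) (x : ℕ → Γ) (w : List ℕ) :
    f (evalW x w) = evalW (fun a => f (x a)) w := by
  unfold evalW
  rw [map_list_prod, List.map_map]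
  rfl

/-- piece `ubsub`: `Helper63PCUb.ub` for a subgroup `K` of an ambient group -/
theorem ub_sub {H : Type u} [Group H] (K : Subgroup H) [Finite K] (C : Cert) (hp : C.D.p.Prime)
    (hC : C.check = true) (X Y : ℕ → H) (hXK : ∀ a, X a ∈ K) (hYK : ∀ i, Y i ∈ K)
    (hx : Sat C.D X (fun _ => 1))
    (hg : ∀ gi i, Y gi * evalW X (nthL (C.Dw gi) i) * (Y gi)⁻¹ = evalW X (nthL (C.Ew gi) i))
    (hcard : C.D.p ^ C.D.n ≤ Nat.card (Subgroup.closure (X '' Set.Iio C.D.n)))
    (hG : ¬ C.D.p ^ (C.D.n + 1) ∣ Nat.card K) : LocalBound K C.D.p C.k := by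
  set x : ℕ → K := fun a => ⟨X a, hXK a⟩ with hxdef
  set g : ℕ → K := fun a => ⟨Y a, hYK a⟩ with hgdef
  have hev : ∀ w, ((evalW x w : K) : H) = evalW X w := fun w => evalW_map K.subtype x w
  have hS : Sat C.D x (fun _ => 1) := by
    constructor
    · intro a ha
      apply Subtype.ext
      have := hx.pw a ha
      simpa [hev] using this
    · intro b a hba ha
      apply Subtype.ext
      have := hx.cm b a hba ha
      simpa [hev] using this
  have hw : C.D.wordsOK = true := by
    simp only [Cert.check, Bool.and_eq_true] at hC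
    exact hC.1.1.1.1
  have hmap : (Subgroup.closure (x '' Set.Iio C.D.n)).map K.subtype
      = Subgroup.closure (X '' Set.Iio C.D.n) := by
    rw [MonoidHom.map_closure, Set.image_image]
    rfl
  have hc2 : Nat.card (Subgroup.closure (x '' Set.Iio C.D.n))
      = Nat.card (Subgroup.closure (X '' Set.Iio C.D.n)) := by
    rw [← hmap]
    exact (Subgroup.card_map_of_injective K.subtype_injective).symm
  refine Cfsg.Agent.Lib.Helper63PCUb.ub C hp hC x g hS ?_ ?_ hG
  · intro gi i
    apply Subtype.ext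
    have := hg gi i
    simpa [hev] using this
  · apply le_antisymm
    · exact (Cfsg.Agent.Lib.Helper38PCpcb.pcb C.D hp.pos hw x hS).2
    · rw [hc2]
      exact hcard

/-- piece `appspec` -/
theorem app_spec {d : ℕ} (B : ℕ) (tx : ℕ → ℕ) (X : ℕ → Equiv.Perm (Fin d)) (n : ℕ)
    (hX : ∀ a < n, ∀ y : Fin d, ((X a y : Fin d) : ℕ) = lk B (tx a) y)
    (w : List ℕ) (hw : ∀ l ∈ w, l < n) (y : Fin d) :
    ((evalW X w y : Fin d) : ℕ) = app B tx w y := by
  induction w with
  | nil => simp [evalW, app]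
  | cons l w ih =>
    have h1 : evalW X (l :: w) = X l * evalW X w := by simp [evalW]
    have h2 : app B tx (l :: w) y = lk B (tx l) (app B tx w y) := rfl
    rw [h1, h2, Equiv.Perm.mul_apply, hX l (hw l (by simp)),
      ih (fun k hk => hw k (List.mem_cons_of_mem _ hk))]

theorem memB_iff (a : ℕ) (l : List ℕ) : memB a l = true ↔ a ∈ l := by
  induction l with
  | nil => simp [memB]
  | cons b l ih =>
    simp only [memB, Bool.or_eq_true, ih, List.mem_cons]
    constructor
    · rintro (h | h)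
      · exact Or.inl (Nat.eq_of_beq_eq_true h)
      · exact Or.inr h
    · rintro (h | h)
      · left
        rw [h]
        exact Nat.beq_refl b
      · exact Or.inr h

theorem nodup_of_nodupB (l : List ℕ) (h : nodupB l = true) : l.Nodup := by
  induction l with
  | nil => exact List.nodup_nil
  | cons a l ih =>
    simp only [nodupB, Bool.and_eq_true, Bool.not_eq_true'] at h
    rw [List.nodup_cons]
    refine ⟨fun hm => ?_, ih h.2⟩
    rw [(memB_iff a l).2 hm] at h
    exact absurd h.1 (by simp)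

theorem mem_nfw {p n e l : ℕ} (h : l ∈ nfw p n e) : l < n := by
  simp only [nfw, List.mem_flatMap, List.mem_range] at h
  obtain ⟨a, ha, hl⟩ := h
  rw [List.eq_of_mem_replicate hl]
  exact ha

theorem evalW_mem {Γ : Type*} [Group Γ] (X : ℕ → Γ) (n : ℕ) (w : List ℕ) (hw : ∀ l ∈ w, l < n) :
    evalW X w ∈ Subgroup.closure (X '' Set.Iio n) := by
  apply Subgroup.list_prod_mem
  intro g hg
  rw [List.mem_map] at hg
  obtain ⟨l, hl, rfl⟩ := hg
  exact Subgroup.subset_closure ⟨l, hw l hl, rfl⟩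

theorem codeN_congr {d : ℕ} (B : ℕ) (tx : ℕ → ℕ) (bs : List ℕ) (w w' : List ℕ)
    (h : ∀ b ∈ bs, app B tx w b = app B tx w' b) : codeN d B tx bs w = codeN d B tx bs w' := by
  induction bs with
  | nil => rfl
  | cons b bs ih =>
    have h1 : ∀ v, codeN d B tx (b :: bs) v = codeN d B tx bs v * d + app B tx v b := fun _ => rfl
    rw [h1, h1, ih (fun c hc => h c (List.mem_cons_of_mem _ hc)), h b (by simp)]

/-- piece `inj` (uses `appspec`) -/
theorem card_ge_of_injChk {d : ℕ} (B : ℕ) (tx : ℕ → ℕ) (X : ℕ → Equiv.Perm (Fin d)) (D : PC)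
    (hX : ∀ a < D.n, ∀ y : Fin d, ((X a y : Fin d) : ℕ) = lk B (tx a) y) (bs : List ℕ)
    (h : injChk d B D tx bs = true) :
    D.p ^ D.n ≤ Nat.card (Subgroup.closure (X '' Set.Iio D.n)) := by
  simp only [injChk, Bool.and_eq_true, List.all_eq_true, decide_eq_true_eq] at h
  obtain ⟨hbs, hnd⟩ := h
  have hnd' := nodup_of_nodupB _ hnd
  let f : Fin (D.p ^ D.n) → Subgroup.closure (X '' Set.Iio D.n) := fun e =>
    ⟨evalW X (nfw D.p D.n e), evalW_mem X D.n _ (fun l hl => mem_nfw hl)⟩
  have hf : Function.Injective f := by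
    intro e e' hee
    have h1 : evalW X (nfw D.p D.n e) = evalW X (nfw D.p D.n e') := congrArg Subtype.val hee
    have h2 : codeN d B tx bs (nfw D.p D.n e) = codeN d B tx bs (nfw D.p D.n e') := by
      apply codeN_congr
      intro b hb
      have h3 := app_spec B tx X D.n hX (nfw D.p D.n e) (fun l hl => mem_nfw hl) ⟨b, hbs b hb⟩
      have h4 := app_spec B tx X D.n hX (nfw D.p D.n e') (fun l hl => mem_nfw hl) ⟨b, hbs b hb⟩
      rw [← h3, ← h4, h1]
    have h5 := List.inj_on_of_nodup_map hnd' (List.mem_range.2 e.2) (List.mem_range.2 e'.2) h2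
    exact Fin.ext h5
  have := Nat.card_le_card_of_injective f hf
  rwa [Nat.card_fin] at this

theorem nthL_mem_or (L : List (List ℕ)) (i : ℕ) : nthL L i ∈ L ∨ nthL L i = [] := by
  unfold nthL
  by_cases h : i < L.length
  · left
    rw [List.getD_eq_getElem _ _ h]
    exact List.getElem_mem h
  · right
    exact List.getD_eq_default _ _ (not_lt.1 h)

theorem nthL_of_le (L : List (List ℕ)) (i : ℕ) (h : L.length ≤ i) : nthL L i = [] :=
  List.getD_eq_default _ _ h

theorem perm_eq_of_app {d : ℕ} (B : ℕ) (tx : ℕ → ℕ) (X : ℕ → Equiv.Perm (Fin d)) (n : ℕ)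
    (hX : ∀ a < n, ∀ y : Fin d, ((X a y : Fin d) : ℕ) = lk B (tx a) y)
    (w w' : List ℕ) (hw : ∀ l ∈ w, l < n) (hw' : ∀ l ∈ w', l < n)
    (h : eqChk d B tx w w' = true) : evalW X w = evalW X w' := by
  apply Equiv.ext
  intro y
  apply Fin.ext
  rw [app_spec B tx X n hX w hw, app_spec B tx X n hX w' hw']
  exact Nat.eq_of_beq_eq_true (allB_spec h y y.2)

/-- piece `ubtab` (assembly; uses `ubsub`, `appspec`, `inj`) -/
theorem ub_tab {d : ℕ} (K : Subgroup (Equiv.Perm (Fin d))) (C : Cert) (hp : C.D.p.Prime)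
    (hC : C.check = true) (B : ℕ) (tx tg : ℕ → ℕ) (bs : List ℕ)
    (hx : ∀ a < C.D.n, Tabled K B (tx a)) (hg : ∀ i < C.fus.length, Tabled K B (tg i))
    (h1 : pcChk d B C.D tx = true) (h2 : fusChk d B C tx tg = true)
    (h3 : injChk d B C.D tx bs = true)
    (hG : ¬ C.D.p ^ (C.D.n + 1) ∣ Nat.card K) : LocalBound K C.D.p C.k := by
  classical
  have hexX : ∀ a, ∃ π ∈ K, a < C.D.n → ∀ y : Fin d, ((π y : Fin d) : ℕ) = lk B (tx a) y := by
    intro a
    by_cases ha : a < C.D.n
    · obtain ⟨π, hπ, e⟩ := hx a ha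
      exact ⟨π, hπ, fun _ => e⟩
    · exact ⟨1, K.one_mem, fun h => absurd h ha⟩
  have hexY : ∀ i, ∃ π ∈ K, i < C.fus.length →
      ∀ y : Fin d, ((π y : Fin d) : ℕ) = lk B (tg i) y := by
    intro a
    by_cases ha : a < C.fus.length
    · obtain ⟨π, hπ, e⟩ := hg a ha
      exact ⟨π, hπ, fun _ => e⟩
    · exact ⟨1, K.one_mem, fun h => absurd h ha⟩
  choose X hXK hX using hexX
  choose Y hYK hY using hexY
  have hw : C.D.wordsOK = true := by
    simp only [Cert.check, Bool.and_eq_true] at hC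
    exact hC.1.1.1.1
  simp only [PC.wordsOK, Bool.and_eq_true, List.all_eq_true, List.mem_range,
    decide_eq_true_eq] at hw
  simp only [pcChk, Bool.and_eq_true, List.all_eq_true, List.mem_range, Bool.or_eq_true,
    Bool.not_eq_true', decide_eq_false_iff_not] at h1
  simp only [fusChk, Bool.and_eq_true, List.all_eq_true, List.mem_range,
    decide_eq_true_eq] at h2
  have hS : Sat C.D X (fun _ => 1) := by
    constructor
    · intro a ha
      have := perm_eq_of_app B tx X C.D.n hX (List.replicate C.D.p a) (C.D.pw a)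
        (fun l hl => by rw [List.eq_of_mem_replicate hl]; exact ha)
        (fun l hl => (hw.1 a ha l hl).2) (h1.1 a ha)
      rw [mul_one, ← this]
      simp [evalW]
    · intro b a hba ha
      have hb : b < C.D.n := hba.trans ha
      have h4 := (h1.2 b hb a ha).resolve_left (fun h => h hba)
      have := perm_eq_of_app B tx X C.D.n hX [a, b] (b :: a :: C.D.cm b a)
        (fun l hl => by
          simp only [List.mem_cons, List.not_mem_nil, or_false] at hl
          rcases hl with rfl | rfl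
          · exact ha
          · exact hb)
        (fun l hl => by
          simp only [List.mem_cons] at hl
          rcases hl with rfl | rfl | hl
          · exact hb
          · exact ha
          · exact (hw.2 b hb a ha l hl).2) h4
      simp only [evalW, List.map_cons, List.map_nil, List.prod_cons, List.prod_nil, mul_one]
        at this ⊢
      rw [this, mul_assoc]
  refine ub_sub K C hp hC X Y hXK hYK hS ?_ (card_ge_of_injChk B tx X C.D hX bs h3) hG
  intro gi i
  by_cases hgi : gi < C.fus.length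
  · obtain ⟨⟨⟨⟨hl1, hl2⟩, hD⟩, hE⟩, hchk⟩ := h2 gi hgi
    by_cases hi : i < C.R
    · have hDl : ∀ l ∈ nthL (C.Dw gi) i, l < C.D.n := by
        rcases nthL_mem_or (C.Dw gi) i with h | h
        · exact hD _ h
        · rw [h]; simp
      have hEl : ∀ l ∈ nthL (C.Ew gi) i, l < C.D.n := by
        rcases nthL_mem_or (C.Ew gi) i with h | h
        · exact hE _ h
        · rw [h]; simp
      rw [mul_inv_eq_iff_eq_mul]
      apply Equiv.ext
      intro y
      apply Fin.ext
      rw [Equiv.Perm.mul_apply, Equiv.Perm.mul_apply, hY gi hgi,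
        app_spec B tx X C.D.n hX _ hDl, app_spec B tx X C.D.n hX _ hEl, hY gi hgi]
      exact Nat.eq_of_beq_eq_true (allB_spec (hchk i hi) y y.2)
    · rw [nthL_of_le _ _ (hl1.trans (not_lt.1 hi)), nthL_of_le _ _ (hl2.trans (not_lt.1 hi))]
      simp [evalW]
  · have e1 : C.Dw gi = [] := by
      unfold Cert.Dw
      rw [List.getD_eq_default _ _ (not_lt.1 hgi)]
    have e2 : C.Ew gi = [] := by
      unfold Cert.Ew
      rw [List.getD_eq_default _ _ (not_lt.1 hgi)]
    rw [e1, e2]
    simp [evalW, nthL]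

end Cfsg.Agent.Lib.Helper17PCTab
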