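import Cfsg.Agent.Lib.Helper10HSTab
import Cfsg.Agent.Lib.Helper17PCTab

/-!
# Generators of the simple group of the 100-vertex graph as packed tables (helper10)
-/

set_option autoImplicit false
set_option maxRecDepth 1000000

namespace Cfsg.Agent.Lib.Helper10HSGens

open Cfsg Equiv Cfsg.Agent.Lib.Helper10HSTab Cfsg.Agent.Lib.Helper63PCTabDefs
  Cfsg.Agent.Lib.Helper63TCS

def Ra : ℕ := 0x5541716a91698cc52415956261223106f8733786a7b6c5b8f4c859d8743853eac49ee194b524b06e424c9e564284a426e3694a38b3604bc06c21f9322f2a940c70d5c61467325310f355f81638770d01dbb68f80ae8e305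
def Ra' : ℕ := 0x596de0ea338398961ac4406fcedfbaa8b6266556b470eed315206f1215569244301e9e170db0c928c82b8a525171f85d0daf8c9b0991d7b905523090a4441a4e667d34b8191c40f8fae910a6dc5106b22a06c0356f65304
def Ta : ℕ := 0xa41c85144ccc38a0dd1826880708b82aa5d351561bc5201af02fe7d95b821921311eae633605bae90027333878b2ed46aa990533b0d1983e7276b293d86132b450e0c517ef158f61e044a5b1cb94e89d5a72488556d909f
def Rb : ℕ := 0xc6d55c32ef034202089d19d6a434417ee150ee651936bd2d300f5b5782a0f459e48b56c4c5f4daafca05b6caf2abaa51036e2984958b6c2e30729611840f89c1407a6a8ee3c6344624b0891c0b4e391c010350b33aea659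
def Rb' : ℕ := 0xc6ed01ba4c57d1675802588f1b979086c1a7f5dc0121354552a52011c1721886ce635e2c0a70d571715408c9d299491327c2c1742166248e12b42d33b041a2964e623bef6835b2f891e322831f18a8e079f75a0f596adc7
def Tb : ℕ := 0xc651bc1a9586a898e8d5c720a985c25e14710f978fc176c20b259fce3d248360e45dda6b7894a913e32102c9e0a0cc0e1daa39525068a8a94c26fab172c623865422d698803da112b9b66ba6a75890c4580e295b3ec4c93
def Tc : ℕ := 0xa456bc310831bb3734a3880dae1120a3001ab10ba5a260129477c4c5c20c224a6f18b700cec485e69fd6433973a922d9421c5a0b05676a268c4d14c958a5b95b7828d4e1cfbdbb65a5a32d560654f864f256c5503c3ce47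
def Tc2 : ℕ := 0x507e0619f329005a5dec84869db4b4c219cb9153d4c0347c18c20609ae7a82620dd72f8e85c29937a9b645105b304aa7036a1c23a1d2c89dbf749a530568d8648052c564a531c652b4d0afe15b2cf0355b26df01c465ca3
def Tc4 : ℕ := 0x7461340b9518239cad7413a823b62ecebd80030734c3082d01156d864854e4b9b255028c4d4841f32d5eba24b22321e2e2a7640a17f82b519f4b191592a1c88895e036a5068b50c4d277c40f2d24bcdbb7ac9bb93e29c5f
def Tc5 : ℕ := 0x6634ea47645d468838584973119a4e860388e19ad6ae0c5019f70ddb4c7dcd12e08b0fbf760d032966a0c6303930a484952050e22a70db60aaa293484630a98b51b9e7ef562a60baf2b796b132b32568063397d894fa408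

/-- an element of order 11 -/
theorem ha : Tabled K 7 Ta := tabled_sq (T := Ra) (T' := Ra') (by decide +kernel) (by decide +kernel)
/-- an element of order 7 -/
theorem hb : Tabled K 7 Tb := tabled_sq (T := Rb) (T' := Rb') (by decide +kernel) (by decide +kernel)
theorem hc : Tabled K 7 Tc := Cfsg.Agent.Lib.Helper17PCTab.Tabled.mul ha hb (by decide +kernel)
theorem hc2 : Tabled K 7 Tc2 := Cfsg.Agent.Lib.Helper17PCTab.Tabled.mul hc hc (by decide +kernel)
theorem hc4 : Tabled K 7 Tc4 := Cfsg.Agent.Lib.Helper17PCTab.Tabled.mul hc2 hc2 (by decide +kernel)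
theorem hc5 : Tabled K 7 Tc5 := Cfsg.Agent.Lib.Helper17PCTab.Tabled.mul hc4 hc (by decide +kernel)

theorem c5_chk : allB (fun x => Nat.beq (lk 7 Tc5 (lk 7 Tc5 x)) x && !(Nat.beq (lk 7 Tc5 x) x)) 100 = true := by
  decide +kernel

/-- a fixed point free involution -/
theorem exists_invol : ∃ g ∈ K, g.cycleType = Multiset.replicate 50 2 := by
  obtain ⟨g, hgK, hg⟩ := hc5
  refine ⟨g, hgK, ?_⟩
  have h0 := allB_spec c5_chk
  simp only [Bool.and_eq_true, Bool.not_eq_true'] at h0
  have h2 : g ^ 2 = 1 := by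
    apply Equiv.ext
    intro x
    apply Fin.ext
    rw [pow_two, Perm.mul_apply, hg, hg]
    exact Nat.eq_of_beq_eq_true (h0 x x.2).1
  have hs : g.support = Finset.univ := by
    ext x
    simp only [Perm.mem_support, Finset.mem_univ, iff_true]
    intro hx
    have h3 := (h0 x x.2).2
    rw [← hg, hx, Nat.beq_refl] at h3
    exact absurd h3 (by decide)
  have h1 : ∀ n ∈ g.cycleType, n = 2 := by
    intro n hn
    have h3 := Equiv.Perm.two_le_of_mem_cycleType hn
    have h4 := (Equiv.Perm.dvd_of_mem_cycleType hn).trans (orderOf_dvd_of_pow_eq_one h2)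
    have h5 := Nat.le_of_dvd (by norm_num) h4
    omega
  have h3 := Multiset.eq_replicate_card.2 h1
  have h4 := Equiv.Perm.sum_cycleType g
  rw [h3, Multiset.sum_replicate, hs, Finset.card_univ, Fintype.card_fin, smul_eq_mul] at h4
  have h5 : Multiset.card g.cycleType = 50 := by omega
  rw [h3, h5]

end Cfsg.Agent.Lib.Helper10HSGens
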