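import Cfsg.Agent.Lib.Helper9Out22

/-!
# Transitive actions of `M22` of degree 22 are doubly transitive (helper10)
-/

set_option autoImplicit false
set_option linter.unusedSectionVars false

namespace Cfsg.Agent.Lib.Helper10HSRec

open Cfsg MulAction Cfsg.Agent.Lib.Helper9Out22 Cfsg.Agent.Lib.Helper9Out23
  Cfsg.Agent.Lib.Helper9M24Trans

theorem card_M22 : Nat.card ↥Spor.M22 = 443520 :=
  card_M23_stab (p := some 0) (by simp)

theorem four_trans {q r r' : GolayPt} (hq1 : q ≠ none) (hq2 : q ≠ some 0) (hr1 : r ≠ none)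
    (hr2 : r ≠ some 0) (hr3 : r ≠ q) (hr1' : r' ≠ none) (hr2' : r' ≠ some 0) (hr3' : r' ≠ q) :
    ∃ m ∈ Spor.M22, m q = q ∧ m r = r' := by
  have h4 := isMultiplyPretransitive_le (m := 4) (by norm_num)
  have hn0 : (none : GolayPt) ≠ some 0 := by simp
  let x : Fin 4 ↪ GolayPt := ⟨![none, some 0, q, r], by
    intro i j hij
    fin_cases i <;> fin_cases j <;> simp_all [Ne.symm hq1, Ne.symm hq2, Ne.symm hr1, Ne.symm hr2,
      Ne.symm hr3]⟩
  let y : Fin 4 ↪ GolayPt := ⟨![none, some 0, q, r'], by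
    intro i j hij
    fin_cases i <;> fin_cases j <;> simp_all [Ne.symm hq1, Ne.symm hq2, Ne.symm hr1', Ne.symm hr2',
      Ne.symm hr3']⟩
  obtain ⟨g, hg⟩ := h4.exists_smul_eq x y
  have h0 : g.1 none = none := congrArg (fun f : Fin 4 ↪ GolayPt => f 0) hg
  have h1 : g.1 (some 0) = some 0 := congrArg (fun f : Fin 4 ↪ GolayPt => f 1) hg
  have h2 : g.1 q = q := congrArg (fun f : Fin 4 ↪ GolayPt => f 2) hg
  have h3 : g.1 r = r' := congrArg (fun f : Fin 4 ↪ GolayPt => f 3) hg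
  exact ⟨g.1, ⟨⟨g.2, h0⟩, h1⟩, h2, h3⟩

theorem two_trans {H X : Type*} [Group H] [MulAction H X] (e : H ≃* Spor.M22) (b : X)
    (hb : (orbit H b).ncard = 22) {y y' : X} (hy : y ∈ orbit H b) (hy' : y' ∈ orbit H b)
    (hyb : y ≠ b) (hyb' : y' ≠ b) : ∃ k : H, k • b = b ∧ k • y = y' := by
  classical
  have hfin : Finite H := Finite.of_equiv _ e.symm.toEquiv
  set K : Subgroup (Equiv.Perm GolayPt) :=
    ((stabilizer H b).map e.toMonoidHom).map (Spor.M22).subtype with hK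
  have hKle : K ≤ Spor.M22 := Subgroup.map_subtype_le _
  have hKc : Nat.card K = 20160 := by
    rw [hK, Subgroup.card_map_of_injective (Subgroup.subtype_injective _),
      Subgroup.card_map_of_injective e.injective]
    have h1 := (stabilizer H b).card_mul_index
    rw [index_stabilizer, hb, Nat.card_congr e.toEquiv, card_M22] at h1
    omega
  obtain ⟨q, hq1, hq2, hq⟩ := idx22 K hKle hKc
  have hKeq : K = Spor.M22 ⊓ stabilizer (Equiv.Perm GolayPt) q := by
    apply Subgroup.eq_of_le_of_card_ge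
    · intro g hg
      exact ⟨hKle hg, hq g hg⟩
    · rw [hKc, card_M22_stab hq1 hq2]
  have key : ∀ h : H, (e h).1 q = q ↔ h • b = b := by
    intro h
    constructor
    · intro h1
      have h2 : (e h).1 ∈ K := by
        rw [hKeq]
        exact ⟨(e h).2, h1⟩
      obtain ⟨m, ⟨h', hh', rfl⟩, hm⟩ := h2
      have h3 : e h' = e h := Subtype.ext hm
      rw [← e.injective h3]
      exact hh'
    · intro h1
      exact hq _ ⟨e h, ⟨h, h1, rfl⟩, rfl⟩
  obtain ⟨h, rfl⟩ := hy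
  obtain ⟨h', rfl⟩ := hy'
  have fixn : ∀ h : H, (e h).1 none = none := fun h => (e h).2.1.2
  have fix0 : ∀ h : H, (e h).1 (some 0) = some 0 := fun h => (e h).2.2
  have ne1 : ∀ h : H, (e h).1 q ≠ none := by
    intro h h1
    exact hq1 ((e h).1.injective (h1.trans (fixn h).symm))
  have ne2 : ∀ h : H, (e h).1 q ≠ some 0 := by
    intro h h1
    exact hq2 ((e h).1.injective (h1.trans (fix0 h).symm))
  obtain ⟨m, hm, hmq, hmr⟩ := four_trans hq1 hq2 (ne1 h) (ne2 h) (fun h1 => hyb ((key h).1 h1))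
    (ne1 h') (ne2 h') (fun h1 => hyb' ((key h').1 h1))
  have hmK : m ∈ K := by
    rw [hKeq]
    exact ⟨hm, hmq⟩
  obtain ⟨m', ⟨k, hk, rfl⟩, rfl⟩ := hmK
  refine ⟨k, hk, ?_⟩
  have h5 : (e (h'⁻¹ * k * h)).1 q = q := by
    rw [map_mul, map_mul, map_inv]
    show (e h').1⁻¹ ((e k).1 ((e h).1 q)) = q
    rw [Equiv.Perm.inv_eq_iff_eq]
    exact hmr
  have h6 := (key _).1 h5
  rw [mul_smul, mul_smul, inv_smul_eq_iff] at h6
  exact h6

end Cfsg.Agent.Lib.Helper10HSRec
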