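import Cfsg.Agent.Lib.Helper10SRGUniq2

/-!
# Rank three graphs of valency 22 on 100 points (helper10)
-/

set_option autoImplicit false
set_option linter.unusedSectionVars false

namespace Cfsg.Agent.Lib.Helper10HSRec2

open Cfsg Finset MulAction Cfsg.Agent.Lib.Helper10SRG Cfsg.Agent.Lib.Helper10HSOrb
  Cfsg.Agent.Lib.Helper10SRGUniq

variable {G Ω : Type*} [Group G] [MulAction G Ω] [Fintype Ω] [DecidableEq Ω]

section abstract

variable {Γ : SimpleGraph Ω} (hadj : ∀ (g : G) (x y : Ω), Γ.Adj (g • x) (g • y) ↔ Γ.Adj x y)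

include hadj in
theorem cn_inv (g : G) (v w : Ω) : cn Γ (g • v) (g • w) = cn Γ v w := by
  classical
  unfold cn
  symm
  apply Finset.card_equiv (MulAction.toPerm g)
  intro u
  simp only [mem_filter, mem_univ, true_and, MulAction.toPerm_apply, hadj]

variable (hΩ : Fintype.card Ω = 100) (deg : ∀ x, (nb Γ x).card = 22) {a b c : Ω}
  (hab : Γ.Adj a b) (F3 : ∀ x y, Γ.Adj x y → ∃ g : G, g • a = x ∧ g • b = y)
  (F4 : ∀ x y, x ≠ y → ¬ Γ.Adj x y → ∃ g : G, g • a = x ∧ g • c = y)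
  (F5 : ∀ z z', Γ.Adj a z → Γ.Adj a z' → z ≠ b → z' ≠ b →
    ∃ k : G, k • a = a ∧ k • b = b ∧ k • z = z')

include hadj hΩ deg hab F3 F5 in
theorem lam_zero : cn Γ a b = 0 := by
  classical
  by_contra hne
  unfold cn at hne
  obtain ⟨z, hz⟩ := Finset.card_pos.1 (Nat.pos_of_ne_zero hne)
  simp only [mem_filter, mem_univ, true_and] at hz
  have hzb : z ≠ b := by
    rintro rfl
    exact Γ.loopless.irrefl _ hz.2
  have h1 : ∀ z', Γ.Adj a z' → z' ≠ b → Γ.Adj b z' := by
    intro z' hz' hne'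
    obtain ⟨k, _, hkb, hkz⟩ := F5 z z' hz.1 hz' hzb hne'
    rw [← hkb, ← hkz, hadj]
    exact hz.2
  have h2 : insert a ((nb Γ a).erase b) ⊆ nb Γ b := by
    intro w hw
    rw [mem_insert, mem_erase] at hw
    rcases hw with rfl | ⟨hwb, hw⟩
    · exact mem_nb.2 hab.symm
    · exact mem_nb.2 (h1 w (mem_nb.1 hw) hwb)
  have h3 : (insert a ((nb Γ a).erase b)).card = 22 := by
    rw [card_insert_of_notMem, card_erase_of_mem (mem_nb.2 hab), deg]
    intro h
    exact Γ.loopless.irrefl _ (mem_nb.1 (mem_of_mem_erase h))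
  have h4 := Finset.eq_of_subset_of_card_le h2 (by rw [h3, deg])
  have h5 : ∀ w, (w = b ∨ Γ.Adj b w) ↔ (w = a ∨ Γ.Adj a w) := by
    intro w
    rw [← mem_nb (x := b), ← h4, mem_insert, mem_erase, mem_nb]
    constructor
    · rintro (rfl | rfl | ⟨_, h⟩)
      · right; exact hab
      · left; rfl
      · right; exact h
    · rintro (rfl | h)
      · right; left; rfl
      · by_cases hwb : w = b
        · left; exact hwb
        · right; right; exact ⟨hwb, h⟩
  have h6 : ∀ x y, Γ.Adj x y → ∀ w, (w = y ∨ Γ.Adj y w) ↔ (w = x ∨ Γ.Adj x w) := by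
    intro x y hxy w
    obtain ⟨g, rfl, rfl⟩ := F3 x y hxy
    have := h5 (g⁻¹ • w)
    rw [inv_smul_eq_iff, inv_smul_eq_iff, ← hadj g b, ← hadj g a, smul_inv_smul] at this
    exact this
  let C : Ω → Finset Ω := fun x => insert x (nb Γ x)
  have memC : ∀ x w, w ∈ C x ↔ (w = x ∨ Γ.Adj x w) := by
    intro x w
    show w ∈ insert x (nb Γ x) ↔ _
    rw [mem_insert, mem_nb]
  have hC : ∀ x y, y ∈ C x → C y = C x := by
    intro x y hy
    rcases (memC x y).1 hy with rfl | hxy
    · rfl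
    · ext w
      rw [memC, memC]
      exact h6 x y hxy w
  have hfib : ∀ x, univ.filter (fun y => C y = C x) = C x := by
    intro x
    ext y
    simp only [mem_filter, mem_univ, true_and]
    constructor
    · intro h
      rw [← h, memC]
      left; rfl
    · exact hC x y
  have hcard : ∀ x, (C x).card = 23 := by
    intro x
    show (insert x (nb Γ x)).card = 23
    rw [card_insert_of_notMem, deg]
    intro h
    exact Γ.loopless.irrefl _ (mem_nb.1 h)
  have hcount := Finset.card_eq_sum_card_fiberwise (f := C) (s := univ) (t := univ.image C)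
    (fun x _ => by simp)
  have hs : ∀ t ∈ univ.image C, (univ.filter (fun y => C y = t)).card = 23 := by
    intro t ht
    obtain ⟨x, _, rfl⟩ := mem_image.1 ht
    rw [hfib, hcard]
  rw [Finset.sum_congr rfl hs, Finset.sum_const, Finset.card_univ, hΩ, smul_eq_mul] at hcount
  omega

include hadj hΩ deg hab F3 F5 in
theorem no_tri' {x y z : Ω} (hxy : Γ.Adj x y) (hxz : Γ.Adj x z) (hyz : Γ.Adj y z) : False := by
  classical
  obtain ⟨g, rfl, rfl⟩ := F3 x y hxy
  have h0 := lam_zero hadj hΩ deg hab F3 F5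
  rw [← cn_inv hadj g] at h0
  unfold cn at h0
  rw [Finset.card_eq_zero] at h0
  have hc : z ∈ univ.filter (fun u => Γ.Adj (g • a) u ∧ Γ.Adj (g • b) u) := by simp [hxz, hyz]
  rw [h0] at hc
  exact absurd hc (Finset.notMem_empty _)

omit [DecidableEq Ω] in
theorem sum_ind' (deg : ∀ x, (nb Γ x).card = 22) (u : Ω) : ∑ w, ind Γ u w = 22 := by
  classical
  have h1 := sum_nb (Γ := Γ) u (fun _ => (1 : ℤ))
  rw [Finset.sum_const, deg] at h1
  simp only [mul_one] at h1
  rw [← h1]
  norm_num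

include hadj hΩ deg hab F3 F4 F5 in
theorem mu_six (hac : a ≠ c) (hac' : ¬ Γ.Adj a c) : cn Γ a c = 6 := by
  classical
  have hmu : ∀ w ∈ Mf Γ a, cn Γ a w = cn Γ a c := by
    intro w hw
    obtain ⟨g, hga, hgc⟩ := F4 a w (mem_Mf.1 hw).1.symm (mem_Mf.1 hw).2
    have := cn_inv hadj g a c
    rw [hga, hgc] at this
    exact this
  have e1 : ∀ u ∈ nb Γ a, ∑ w ∈ Mf Γ a, ind Γ u w = 21 := by
    intro u hu
    have h1 := sum_split (Γ := Γ) a (fun w => ind Γ u w)
    beta_reduce at h1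
    have h2 : ∑ w ∈ nb Γ a, ind Γ u w = 0 := by
      apply Finset.sum_eq_zero
      intro w hw
      exact ind_nadj (fun h => no_tri' hadj hΩ deg hab F3 F5 (mem_nb.1 hu) (mem_nb.1 hw) h)
    rw [sum_ind' deg, h2, ind_adj (mem_nb.1 hu).symm] at h1
    linarith
  have e2 : ∀ w ∈ Mf Γ a, ∑ u ∈ nb Γ a, ind Γ u w = (cn Γ a c : ℤ) := by
    intro w hw
    rw [sum_nb, ← hmu w hw, ← sum_ind_mul]
    apply Finset.sum_congr rfl
    intro v _
    rw [ind_comm v w]
  have hM : ((Mf Γ a).card : ℤ) = 77 := by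
    have h1 := sum_split (Γ := Γ) a (fun _ => (1 : ℤ))
    rw [Finset.sum_const, Finset.sum_const, Finset.sum_const, Finset.card_univ, hΩ, deg] at h1
    simp only [nsmul_eq_mul, mul_one] at h1
    push_cast at h1
    linarith
  have h3 := Finset.sum_comm (s := nb Γ a) (t := Mf Γ a) (f := fun u w => ind Γ u w)
  rw [Finset.sum_congr rfl e1, Finset.sum_congr rfl e2, Finset.sum_const, Finset.sum_const, deg]
    at h3
  simp only [nsmul_eq_mul] at h3
  rw [hM] at h3
  have h4 : (cn Γ a c : ℤ) = 6 := by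
    push_cast at h3
    linarith
  exact_mod_cast h4

include hadj hΩ deg hab F3 F4 F5 in
theorem srg_of_rank3 (hac : a ≠ c) (hac' : ¬ Γ.Adj a c) : SRG' Γ 100 22 0 6 := by
  classical
  refine ⟨by rw [Nat.card_eq_fintype_card, hΩ], ?_, ?_, ?_⟩
  · intro v
    rw [← deg v, ← Set.ncard_coe_finset (nb Γ v)]
    congr 1
    ext w
    simp [mem_nb]
  · intro v w hvw
    obtain ⟨g, rfl, rfl⟩ := F3 v w hvw
    rw [← cn_eq, cn_inv hadj]
    exact lam_zero hadj hΩ deg hab F3 F5
  · intro v w hne hvw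
    obtain ⟨g, rfl, rfl⟩ := F4 v w hne hvw
    rw [← cn_eq, cn_inv hadj]
    exact mu_six hadj hΩ deg hab F3 F4 F5 hac hac'

end abstract

end Cfsg.Agent.Lib.Helper10HSRec2
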