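import Cfsg.Agent.Lib.Helper10HSRec2

/-!
# The orbital graph of a rank three group with subdegrees 1, 22, 77 (helper10)
-/

set_option autoImplicit false
set_option linter.unusedSectionVars false

namespace Cfsg.Agent.Lib.Helper10HSRec3

open Cfsg Finset MulAction Cfsg.Agent.Lib.Helper10SRG Cfsg.Agent.Lib.Helper10HSOrb
  Cfsg.Agent.Lib.Helper10SRGUniq Cfsg.Agent.Lib.Helper10HSRec2

variable {G Ω : Type*} [Group G] [MulAction G Ω] [Fintype Ω] [DecidableEq Ω]

/-- the orbital of `(a, b)` -/
def R (G : Type*) [Group G] [MulAction G Ω] (a b x y : Ω) : Prop := ∃ g : G, g • a = x ∧ g • b = y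

theorem R_smul (a b : Ω) (g : G) (x y : Ω) : R G a b (g • x) (g • y) ↔ R G a b x y := by
  constructor
  · rintro ⟨k, h1, h2⟩
    refine ⟨g⁻¹ * k, ?_, ?_⟩
    · rw [mul_smul, h1, inv_smul_smul]
    · rw [mul_smul, h2, inv_smul_smul]
  · rintro ⟨k, rfl, rfl⟩
    exact ⟨g * k, mul_smul _ _ _, mul_smul _ _ _⟩

theorem R_a (a b y : Ω) : R G a b a y ↔ y ∈ orbit (stabilizer G a) b := by
  constructor
  · rintro ⟨g, h1, rfl⟩
    exact ⟨⟨g, h1⟩, rfl⟩
  · rintro ⟨g, rfl⟩
    exact ⟨g.1, g.2, rfl⟩

variable [IsPretransitive G Ω] (hΩ : Fintype.card Ω = 100) {a b c : Ω}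
  (hb : (orbit (stabilizer G a) b).ncard = 22) (hc : (orbit (stabilizer G a) c).ncard = 77)

omit [Fintype Ω] [DecidableEq Ω] [IsPretransitive G Ω] in
theorem orbit_a (a : Ω) : orbit (stabilizer G a) a = {a} := by
  ext y
  constructor
  · rintro ⟨h, rfl⟩
    exact h.2
  · rintro rfl
    exact mem_orbit_self _

omit [Fintype Ω] [DecidableEq Ω] [IsPretransitive G Ω] in
theorem a_notMem {n : ℕ} {b : Ω} (hn : n ≠ 1) (hb : (orbit (stabilizer G a) b).ncard = n) :
    a ∉ orbit (stabilizer G a) b := by
  intro h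
  rw [← orbit_eq_iff.2 h, orbit_a, Set.ncard_singleton] at hb
  exact hn hb.symm

include hb hc in
omit [Fintype Ω] [DecidableEq Ω] [IsPretransitive G Ω] in
theorem disj (y : Ω) (h1 : y ∈ orbit (stabilizer G a) b) (h2 : y ∈ orbit (stabilizer G a) c) :
    False := by
  rw [← orbit_eq_iff.2 h1] at hb
  rw [← orbit_eq_iff.2 h2, hb] at hc
  omega

include hΩ hb hc in
omit [IsPretransitive G Ω] in
theorem cover (y : Ω) : y = a ∨ y ∈ orbit (stabilizer G a) b ∨ y ∈ orbit (stabilizer G a) c := by
  classical
  set D : Finset Ω := univ.filter (fun y => y ∈ orbit (stabilizer G a) b) with hD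
  set F : Finset Ω := univ.filter (fun y => y ∈ orbit (stabilizer G a) c) with hF
  have hDc : D.card = 22 := by
    rw [← hb, ← Set.ncard_coe_finset D]
    congr 1
    ext w
    simp [hD]
  have hFc : F.card = 77 := by
    rw [← hc, ← Set.ncard_coe_finset F]
    congr 1
    ext w
    simp [hF]
  have hdis : Disjoint D F := by
    rw [Finset.disjoint_left]
    intro w h1 h2
    simp only [hD, hF, mem_filter, mem_univ, true_and] at h1 h2
    exact disj hb hc w h1 h2
  have ha : a ∉ D ∪ F := by
    intro h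
    rcases mem_union.1 h with h | h
    · simp only [hD, mem_filter, mem_univ, true_and] at h
      exact a_notMem (by norm_num) hb h
    · simp only [hF, mem_filter, mem_univ, true_and] at h
      exact a_notMem (by norm_num) hc h
  have hcard : (insert a (D ∪ F)).card = Fintype.card Ω := by
    rw [card_insert_of_notMem ha, card_union_of_disjoint hdis, hDc, hFc, hΩ]
  have hy : y ∈ insert a (D ∪ F) := by
    rw [Finset.eq_univ_of_card _ hcard]
    exact mem_univ _
  simpa [hD, hF] using hy

include hΩ hb hc in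
theorem R_symm_a (y : Ω) : R G a b y a ↔ R G a b a y := by
  classical
  set N : Ω → Finset Ω := fun x => univ.filter (fun y => R G a b x y) with hN
  set N' : Ω → Finset Ω := fun x => univ.filter (fun y => R G a b y x) with hN'
  have cN : ∀ (g : G) (x : Ω), (N (g • x)).card = (N x).card := by
    intro g x
    symm
    apply Finset.card_equiv (MulAction.toPerm g)
    intro u
    simp only [hN, mem_filter, mem_univ, true_and, MulAction.toPerm_apply, R_smul]
  have cN' : ∀ (g : G) (x : Ω), (N' (g • x)).card = (N' x).card := by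
    intro g x
    symm
    apply Finset.card_equiv (MulAction.toPerm g)
    intro u
    simp only [hN', mem_filter, mem_univ, true_and, MulAction.toPerm_apply, R_smul]
  have hNa : (N a).card = 22 := by
    rw [← hb, ← Set.ncard_coe_finset (N a)]
    congr 1
    ext w
    simp [hN, R_a]
  have hNx : ∀ x, (N x).card = 22 := by
    intro x
    obtain ⟨g, rfl⟩ := exists_smul_eq G a x
    rw [cN, hNa]
  have hNx' : ∀ x, (N' x).card = (N' a).card := by
    intro x
    obtain ⟨g, rfl⟩ := exists_smul_eq G a x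
    rw [cN']
  have hsum : ∑ x, (N x).card = ∑ x, (N' x).card := by
    simp only [hN, hN', Finset.card_filter]
    exact Finset.sum_comm
  rw [Finset.sum_congr rfl (fun x _ => hNx x), Finset.sum_congr rfl (fun x _ => hNx' x),
    Finset.sum_const, Finset.sum_const, Finset.card_univ, hΩ, smul_eq_mul, smul_eq_mul] at hsum
  have hN'a : (N' a).card = 22 := by omega
  have hsub : N' a ⊆ N a := by
    intro w hw
    simp only [hN, hN', mem_filter, mem_univ, true_and] at hw ⊢
    rw [R_a]
    rcases cover hΩ hb hc w with rfl | h | h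
    · exfalso
      exact a_notMem (by norm_num) hb ((R_a _ _ _).1 hw)
    · exact h
    · exfalso
      have h77 : univ.filter (fun y => y ∈ orbit (stabilizer G a) c) ⊆ N' a := by
        intro w' hw'
        simp only [hN', mem_filter, mem_univ, true_and] at hw' ⊢
        rw [← orbit_eq_iff.2 h] at hw'
        obtain ⟨k, rfl⟩ := hw'
        have h1 := (R_smul a b k.1 w a).2 hw
        rw [show k.1 • a = a from k.2] at h1
        exact h1
      have h1 := Finset.card_le_card h77
      have h2 : (univ.filter (fun y => y ∈ orbit (stabilizer G a) c)).card = 77 := by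
        rw [← hc, ← Set.ncard_coe_finset]
        congr 1
        ext w
        simp
      omega
  have heq := Finset.eq_of_subset_of_card_le hsub (by rw [hNa, hN'a])
  have h1 : y ∈ N' a ↔ y ∈ N a := by rw [heq]
  simpa [hN, hN'] using h1

include hΩ hb hc in
theorem R_symm (x y : Ω) (h : R G a b x y) : R G a b y x := by
  obtain ⟨g, rfl⟩ := exists_smul_eq G a x
  rw [← smul_inv_smul g y, R_smul] at h ⊢
  exact (R_symm_a hΩ hb hc _).2 h

include hb in
theorem R_irrefl (x : Ω) : ¬ R G a b x x := by
  obtain ⟨g, rfl⟩ := exists_smul_eq G a x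
  rw [R_smul, R_a]
  exact a_notMem (by norm_num) hb

/-- the orbital graph -/
def Gr (G : Type*) [Group G] [MulAction G Ω] (a b : Ω) : SimpleGraph Ω :=
  SimpleGraph.fromRel (R G a b)

include hΩ hb hc in
theorem adj_iff (x y : Ω) : (Gr G a b).Adj x y ↔ R G a b x y := by
  rw [Gr, SimpleGraph.fromRel_adj]
  constructor
  · rintro ⟨_, h | h⟩
    · exact h
    · exact R_symm hΩ hb hc _ _ h
  · intro h
    refine ⟨?_, Or.inl h⟩
    rintro rfl
    exact R_irrefl hb _ h

omit [IsPretransitive G Ω] in
theorem Gr_smul (a b : Ω) (g : G) (x y : Ω) :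
    (Gr G a b).Adj (g • x) (g • y) ↔ (Gr G a b).Adj x y := by
  rw [Gr, SimpleGraph.fromRel_adj, SimpleGraph.fromRel_adj, R_smul, R_smul]
  simp

include hΩ hb hc in
theorem srg (h2 : ∀ y y', y ∈ orbit (stabilizer G a) b → y' ∈ orbit (stabilizer G a) b → y ≠ b →
    y' ≠ b → ∃ k : stabilizer G a, k • b = b ∧ k • y = y') : SRG' (Gr G a b) 100 22 0 6 := by
  classical
  have hadj := adj_iff (G := G) hΩ hb hc
  apply srg_of_rank3 (G := G) (a := a) (b := b) (c := c) (Gr_smul a b) hΩ
  · intro x
    obtain ⟨g, rfl⟩ := exists_smul_eq G a x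
    have h1 : (nb (Gr G a b) (g • a)).card = (nb (Gr G a b) a).card := by
      symm
      apply Finset.card_equiv (MulAction.toPerm g)
      intro u
      simp only [mem_nb, MulAction.toPerm_apply, Gr_smul]
    rw [h1, ← hb, ← Set.ncard_coe_finset]
    congr 1
    ext w
    simp [mem_nb, hadj, R_a]
  · rw [hadj]
    exact ⟨1, one_smul _ _, one_smul _ _⟩
  · intro x y hxy
    exact (hadj x y).1 hxy
  · intro x y hne hxy
    obtain ⟨g, rfl⟩ := exists_smul_eq G a x
    rw [← smul_inv_smul g y, Gr_smul, hadj, R_a] at hxy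
    rcases cover hΩ hb hc (g⁻¹ • y) with h | h | h
    · exfalso
      apply hne
      rw [← h, smul_inv_smul]
    · exact absurd h hxy
    · obtain ⟨k, hk⟩ := h
      refine ⟨g * k.1, ?_, ?_⟩
      · rw [mul_smul, show k.1 • a = a from k.2]
      · rw [mul_smul, show k.1 • c = g⁻¹ • y from hk, smul_inv_smul]
  · intro z z' hz hz' hzb hzb'
    rw [hadj, R_a] at hz hz'
    obtain ⟨k, hk1, hk2⟩ := h2 z z' hz hz' hzb hzb'
    exact ⟨k.1, k.2, hk1, hk2⟩
  · rintro rfl
    exact a_notMem (by norm_num) hc (mem_orbit_self _)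
  · rw [hadj, R_a]
    intro h
    exact disj hb hc c h (mem_orbit_self _)

end Cfsg.Agent.Lib.Helper10HSRec3
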