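import Cfsg.Agent.Lib.Helper10HSRec
import Cfsg.Agent.Lib.Helper10HSRec3
import Cfsg.Agent.Lib.Helper10HSIso

/-!
# Recognition of the simple group of the 100-vertex graph as a rank three group (helper10)
-/

set_option autoImplicit false
set_option linter.unusedSectionVars false

namespace Cfsg.Agent.Lib.Helper10HSRec4

open Cfsg Finset MulAction Cfsg.Agent.Lib.Helper10SRG Cfsg.Agent.Lib.Helper10HSOrb
  Cfsg.Agent.Lib.Helper10SRGUniq Cfsg.Agent.Lib.Helper10HSRec Cfsg.Agent.Lib.Helper10HSRec3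
  Cfsg.Agent.Lib.Helper10Ext Cfsg.Agent.Lib.Helper10HSVec Cfsg.Agent.Lib.Helper10HSGraph
  Cfsg.Agent.Lib.Helper10HSGroup Cfsg.Agent.Lib.Helper10HSSimple Cfsg.Agent.Lib.Helper10HSIso

/-- transport of a group of automorphisms along a graph isomorphism -/
noncomputable def rho' {G Ω W : Type*} [Group G] [MulAction G Ω] {Γ : SimpleGraph Ω}
    {Γ' : SimpleGraph W} (φ : Γ ≃g Γ')
    (hadj : ∀ (g : G) (x y : Ω), Γ.Adj (g • x) (g • y) ↔ Γ.Adj x y) : G →* (Γ' ≃g Γ') :=
  MonoidHom.mk' (fun g =>
    { toEquiv := (φ.symm.toEquiv.trans (MulAction.toPerm g)).trans φ.toEquiv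
      map_rel_iff' := by
        intro v w
        show Γ'.Adj (φ (g • φ.symm v)) (φ (g • φ.symm w)) ↔ Γ'.Adj v w
        rw [φ.map_rel_iff, hadj, φ.symm.map_rel_iff] })
    (by
      intro g h
      apply RelIso.ext
      intro v
      show φ ((g * h) • φ.symm v) = φ (g • φ.symm (φ (h • φ.symm v)))
      rw [φ.symm_apply_apply, mul_smul])

theorem rho'_apply {G Ω W : Type*} [Group G] [MulAction G Ω] {Γ : SimpleGraph Ω}
    {Γ' : SimpleGraph W} (φ : Γ ≃g Γ')
    (hadj : ∀ (g : G) (x y : Ω), Γ.Adj (g • x) (g • y) ↔ Γ.Adj x y) (g : G) (v : W) :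
    rho' φ hadj g v = φ (g • φ.symm v) := rfl

theorem rec_HS {G Ω : Type*} [Group G] [MulAction G Ω] [FaithfulSMul G Ω] [Fintype Ω]
    [DecidableEq Ω] [IsPretransitive G Ω] (hΩ : Fintype.card Ω = 100) (a : Ω)
    (e : stabilizer G a ≃* Spor.M22) (b c : Ω)
    (hb : (orbit (stabilizer G a) b).ncard = 22) (hc : (orbit (stabilizer G a) c).ncard = 77) :
    Nonempty (G ≃* Spor.HS) := by
  classical
  have hsrg : SRG' (Gr G a b) 100 22 0 6 := by
    apply srg hΩ hb hc
    intro y y' hy hy' hyb hyb'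
    exact two_trans e b hb hy hy' hyb hyb'
  have hmod : SRG' (pointBlockGraph (WS A)) 100 22 0 6 := srg100 card_P steiner
  have : Fintype (Option (P ⊕ ↥(WS A))) := Fintype.ofFinite _
  obtain ⟨φ, -⟩ := exists_iso_base hsrg hmod a none
  set ρ : G →* AutG (WS A) := rho' φ (Gr_smul a b) with hρ
  have hinj : Function.Injective ρ := by
    rw [injective_iff_map_eq_one]
    intro g hg
    apply FaithfulSMul.eq_of_smul_eq_smul (α := Ω)
    intro x
    have h1 := congrArg (fun f : AutG (WS A) => f (φ x)) hg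
    simp only [hρ, rho'_apply, φ.symm_apply_apply] at h1
    rw [one_smul]
    exact φ.injective h1
  have hcard : Nat.card G = 44352000 := by
    have h1 := (stabilizer G a).card_mul_index
    rw [index_stabilizer_of_transitive, Nat.card_eq_fintype_card (α := Ω), hΩ,
      Nat.card_congr e.toEquiv, card_M22] at h1
    rw [← h1]
  have hrange : ρ.range = HS (WS A) := by
    have := finite_aut card_P steiner
    apply eq_of_index_two (HS (WS A)) ρ.range (index_HS card_P steiner) _
      (simple_HS card_P steiner) (by rw [card_HS card_P steiner]; norm_num)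
    have h := ρ.range.card_mul_index
    rw [← Nat.card_congr (MonoidHom.ofInjective hinj).toEquiv, hcard,
      card_aut card_P steiner] at h
    omega
  obtain ⟨ψ⟩ := exists_iso
  exact ⟨((MonoidHom.ofInjective hinj).trans (MulEquiv.subgroupCongr hrange)).trans ψ.symm⟩

end Cfsg.Agent.Lib.Helper10HSRec4
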