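import Mathlib

set_option autoImplicit false

/-!
Verified Schreier-Sims: one level of a stabiliser chain, a sifting function whose success
certifies membership, and words in generators.
-/

namespace Cfsg.Agent.Lib.Helper61SchreierSims

theorem mem_submonoid_of_mem_closure {G : Type*} [Group G] [Finite G] (S : Set G) (M : Submonoid G)
    (h : S ⊆ M) {g : G} (hg : g ∈ Subgroup.closure S) : g ∈ M := by
  induction hg using Subgroup.closure_induction with
  | mem a ha => exact h ha
  | one => exact M.one_mem
  | mul a b _ _ iha ihb => exact M.mul_mem iha ihb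
  | inv a _ iha =>
    have hpos : 0 < orderOf a := orderOf_pos a
    have h1 : a⁻¹ = a ^ (orderOf a - 1) := by
      apply inv_eq_of_mul_eq_one_right
      rw [← pow_succ']
      have : orderOf a - 1 + 1 = orderOf a := by omega
      rw [this, pow_orderOf_eq_one]
    rw [h1]
    exact M.pow_mem iha _

section level
variable {G α : Type*} [Group G] [Finite G] [MulAction G α]
  (S : Set G) (K : Subgroup G) (b : α) (O : Finset α) (u : α → G)

/-- One level of Schreier-Sims: every element of `closure S` factors as `u β * k`. -/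
theorem level_factor
    (hb : b ∈ O) (hub : u b = 1)
    (hS : ∀ s ∈ S, ∀ β ∈ O, s • β ∈ O ∧ (u (s • β))⁻¹ * s * u β ∈ K) :
    ∀ g ∈ Subgroup.closure S, g • b ∈ O ∧ (u (g • b))⁻¹ * g ∈ K := by
  let T : Set G := {g | g • b ∈ O ∧ (u (g • b))⁻¹ * g ∈ K}
  let M : Submonoid G :=
    { carrier := {g | ∀ h ∈ T, g * h ∈ T}
      mul_mem' := by
        intro x y hx hy h hh
        rw [mul_assoc]
        exact hx _ (hy _ hh)
      one_mem' := by
        intro h hh
        rw [one_mul]; exact hh }
  have hSM : S ⊆ M := by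
    intro s hs h hh
    obtain ⟨h1, h2⟩ := hh
    obtain ⟨h3, h4⟩ := hS s hs _ h1
    refine ⟨?_, ?_⟩
    · rw [mul_smul]; exact h3
    · rw [mul_smul]
      have : (u (s • h • b))⁻¹ * (s * h) =
          ((u (s • h • b))⁻¹ * s * u (h • b)) * ((u (h • b))⁻¹ * h) := by group
      rw [this]
      exact K.mul_mem h4 h2
  have h1T : (1 : G) ∈ T := by
    refine ⟨?_, ?_⟩
    · rw [one_smul]; exact hb
    · rw [one_smul, hub]; simp
  intro g hg
  have := mem_submonoid_of_mem_closure S M hSM hg 1 h1T
  rwa [mul_one] at this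

theorem level_stabilizer
    (hK : K ≤ Subgroup.closure S)
    (hb : b ∈ O) (hub : u b = 1)
    (hS : ∀ s ∈ S, ∀ β ∈ O, s • β ∈ O ∧ (u (s • β))⁻¹ * s * u β ∈ K)
    (hKb : ∀ k ∈ K, k • b = b) :
    Subgroup.closure S ⊓ MulAction.stabilizer G b = K := by
  apply le_antisymm
  · rintro g ⟨hg, hgb⟩
    have hgb' : g • b = b := hgb
    have := (level_factor S K b O u hb hub hS g hg).2
    rw [hgb', hub] at this
    simpa using this
  · intro k hk
    exact ⟨hK hk, hKb k hk⟩

theorem level_card
    (hK : K ≤ Subgroup.closure S)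
    (hb : b ∈ O) (hub : u b = 1)
    (hu : ∀ β, u β ∈ Subgroup.closure S)
    (hS : ∀ s ∈ S, ∀ β ∈ O, s • β ∈ O ∧ (u (s • β))⁻¹ * s * u β ∈ K)
    (hKb : ∀ k ∈ K, k • b = b) (hub' : ∀ β ∈ O, u β • b = β) :
    Nat.card (Subgroup.closure S) = O.card * Nat.card K := by
  have hf := level_factor S K b O u hb hub hS
  let e : Subgroup.closure S ≃ O × K :=
    { toFun := fun g => (⟨(g : G) • b, (hf g g.2).1⟩, ⟨(u ((g : G) • b))⁻¹ * g, (hf g g.2).2⟩)
      invFun := fun p => ⟨u p.1 * p.2, (Subgroup.closure S).mul_mem (hu _) (hK p.2.2)⟩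
      left_inv := by
        intro g
        apply Subtype.ext
        simp
      right_inv := by
        rintro ⟨⟨β, hβ⟩, ⟨k, hk⟩⟩
        have h1 : (u β * k) • b = β := by rw [mul_smul, hKb k hk, hub' β hβ]
        apply Prod.ext
        · apply Subtype.ext
          exact h1
        · apply Subtype.ext
          show (u ((u β * k) • b))⁻¹ * (u β * k) = k
          rw [h1]; group }
  rw [Nat.card_congr e, Nat.card_prod]
  congr 1
  simp

end level

section sift
variable {G α : Type*} [Group G] [MulAction G α]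

/-- Sifting through a list of (base point, transversal) pairs; returns the residue. -/
def sift : List (α × (α → G)) → G → G
  | [], g => g
  | (b, u) :: L, g => sift L ((u (g • b))⁻¹ * g)

theorem mem_of_sift_eq_one (K : Subgroup G) (L : List (α × (α → G)))
    (hL : ∀ p ∈ L, ∀ β, p.2 β ∈ K) (g : G) (h : sift L g = 1) : g ∈ K := by
  induction L generalizing g with
  | nil =>
    have : g = 1 := h
    rw [this]; exact K.one_mem
  | cons p L ih =>
    obtain ⟨b, u⟩ := p
    have h1 : sift L ((u (g • b))⁻¹ * g) = 1 := h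
    have h2 := ih (fun p hp => hL p (List.mem_cons_of_mem _ hp)) _ h1
    have h3 : u (g • b) ∈ K := hL (b, u) (List.mem_cons_self ..) _
    have : g = u (g • b) * ((u (g • b))⁻¹ * g) := by group
    rw [this]
    exact K.mul_mem h3 h2

/-- product of a word in the generators -/
def wordProd {ι : Type*} (gens : ι → G) (w : List ι) : G := (w.map gens).prod

theorem wordProd_mem {ι : Type*} (gens : ι → G) (K : Subgroup G) (w : List ι)
    (h : ∀ i ∈ w, gens i ∈ K) : wordProd gens w ∈ K := by
  apply Subgroup.list_prod_mem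
  intro x hx
  obtain ⟨i, hi, rfl⟩ := List.mem_map.mp hx
  exact h i hi

end sift

end Cfsg.Agent.Lib.Helper61SchreierSims
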