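import Mathlib
import Cfsg.Agent.Lib.Helper61SchreierSims

set_option autoImplicit false

/-!
# Kernel-checkable stabiliser chains for large permutation groups (Todd-Coxeter-Schreier-Sims)

One level of a stabiliser chain `Cl A ≥ Cl A'` (subgroups generated by sub-families of a fixed family of
permutations of `Fin n`, selected by bit masks) is certified by
* a Schreier tree (tables `lab`, `dep`),
* a list of relators (words in the generators which are the identity permutation),
* a list of deduction steps `(relator, start point)`: if all but one of the coset-table entries met when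
  tracing the relator are already known to be "correct modulo `Cl A'`", so is the last one.
All the computations are on `Nat` (packed tables), written with raw `Nat.*` operations.
-/

namespace Cfsg.Agent.Lib.Helper63TCS

open Cfsg.Agent.Lib.Helper61SchreierSims

/-! ## kernel-friendly primitives -/

/-- fast bit test -/
def tbit (E k : ℕ) : Bool := Nat.beq (Nat.land (Nat.shiftRight E k) 1) 1

theorem tbit_eq (E k : ℕ) : tbit E k = E.testBit k := by
  have h1 : Nat.land (Nat.shiftRight E k) 1 = (E >>> k) % 2 := by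
    show (E >>> k) &&& 1 = _
    exact Nat.and_one_is_mod _
  unfold tbit
  rw [h1, Nat.testBit, Nat.and_comm, Nat.and_one_is_mod]
  rcases Nat.mod_two_eq_zero_or_one (E >>> k) with h | h <;> rw [h] <;> rfl

/-- bounded universal quantifier -/
def allB (p : ℕ → Bool) (n : ℕ) : Bool := Nat.rec true (fun x ih => and (p x) ih) n

theorem allB_spec {p : ℕ → Bool} {n : ℕ} (h : allB p n = true) : ∀ x < n, p x = true := by
  induction n with
  | zero => intro x hx; omega
  | succ k ih =>
    have h' : (p k && allB p k) = true := h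
    rw [Bool.and_eq_true] at h'
    intro x hx
    rcases Nat.lt_succ_iff_lt_or_eq.1 hx with h1 | rfl
    · exact ih h'.2 x h1
    · exact h'.1

/-- evaluate the argument before continuing -/
def force {α : Type} (E : ℕ) (k : ℕ → α) : α := Nat.casesOn E (k 0) (fun p => k (Nat.succ p))

theorem force_eq {α : Type} (E : ℕ) (k : ℕ → α) : force E k = k E := by
  cases E <;> rfl

/-- `k`-th element of a list of lists -/
def nth (L : List (List ℕ)) (k : ℕ) : List ℕ :=
  @List.rec (List ℕ) (fun _ => ℕ → List ℕ) (fun _ => []) (fun a _ ih k => Nat.casesOn k a ih) L k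

theorem nth_mem (L : List (List ℕ)) (k : ℕ) : nth L k = [] ∨ nth L k ∈ L := by
  induction L generalizing k with
  | nil => left; rfl
  | cons a L ih =>
    cases k with
    | zero => right; exact List.mem_cons_self ..
    | succ k =>
      rcases ih k with h | h
      · left; exact h
      · right; exact List.mem_cons_of_mem _ h

/-! ## the system of generators -/

/-- a family of permutations of `Fin n` with a `Nat`-level description of the action of the letters
`2 * i` (generator `i`) and `2 * i + 1` (its inverse) -/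
structure Sys (n : ℕ) where
  m : ℕ
  gens : ℕ → Equiv.Perm (Fin n)
  act : ℕ → ℕ → ℕ
  hf : ∀ i < m, ∀ x : Fin n, ((gens i x : Fin n) : ℕ) = act (2 * i) x
  hb : ∀ i < m, ∀ x : Fin n, (((gens i)⁻¹ x : Fin n) : ℕ) = act (2 * i + 1) x

variable {n : ℕ} (S : Sys n)

/-- the permutation of a letter -/
def ev (l : ℕ) : Equiv.Perm (Fin n) := if l % 2 = 0 then S.gens (l / 2) else (S.gens (l / 2))⁻¹

theorem ev_apply {l : ℕ} (hl : l / 2 < S.m) (x : Fin n) : ((ev S l x : Fin n) : ℕ) = S.act l x := by
  unfold ev
  split_ifs with h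
  · rw [S.hf _ hl]
    congr 1
    omega
  · rw [S.hb _ hl]
    congr 1
    omega

/-- the inverse letter -/
def bar (l : ℕ) : ℕ := cond (Nat.beq (l % 2) 0) (l + 1) (l - 1)

theorem bar_div (l : ℕ) : bar l / 2 = l / 2 := by
  unfold bar
  rcases Nat.mod_two_eq_zero_or_one l with h | h <;> rw [h]
  · show (l + 1) / 2 = l / 2
    omega
  · show (l - 1) / 2 = l / 2
    omega

theorem ev_bar (l : ℕ) : ev S (bar l) = (ev S l)⁻¹ := by
  have hd := bar_div l
  unfold ev
  rw [hd]
  unfold bar
  rcases Nat.mod_two_eq_zero_or_one l with h | h <;> rw [h]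
  · have h1 : (cond (Nat.beq 0 0) (l + 1) (l - 1)) % 2 = 1 := by
      show (l + 1) % 2 = 1
      omega
    rw [h1]; simp
  · have h1 : (cond (Nat.beq 1 0) (l + 1) (l - 1)) % 2 = 0 := by
      show (l - 1) % 2 = 0
      omega
    rw [h1]; simp

/-- the permutation of a word -/
def evW (w : List ℕ) : Equiv.Perm (Fin n) := (w.map (ev S)).prod

theorem evW_nil : evW S [] = 1 := rfl

theorem evW_cons (l : ℕ) (w : List ℕ) : evW S (l :: w) = ev S l * evW S w := by
  simp [evW]

theorem evW_append (v w : List ℕ) : evW S (v ++ w) = evW S v * evW S w := by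
  simp [evW]

/-- action of a word on a point, `Nat` level -/
def appW (w : List ℕ) (x : ℕ) : ℕ := @List.rec ℕ (fun _ => ℕ) x (fun l _ ih => S.act l ih) w

theorem evW_apply {w : List ℕ} (hw : ∀ l ∈ w, l / 2 < S.m) (x : Fin n) :
    ((evW S w x : Fin n) : ℕ) = appW S w x := by
  induction w with
  | nil => rfl
  | cons l w ih =>
    rw [evW_cons, Equiv.Perm.mul_apply, ev_apply S (hw l (List.mem_cons_self ..))]
    show S.act l _ = S.act l (appW S w x)
    rw [ih (fun l' hl' => hw l' (List.mem_cons_of_mem _ hl'))]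

/-- a word is the identity, checked through an unrolled function `f` -/
theorem evW_eq_one {w : List ℕ} (hw : ∀ l ∈ w, l / 2 < S.m) (f : ℕ → ℕ)
    (hf : ∀ y, appW S w y = f y) (h : allB (fun x => Nat.beq (f x) x) n = true) : evW S w = 1 := by
  ext x
  rw [evW_apply S hw, hf]
  exact Nat.eq_of_beq_eq_true (allB_spec h x x.2)

/-! ## subgroups generated by sub-families -/

def gset (A : ℕ) : Set (Equiv.Perm (Fin n)) := {g | ∃ i, i < S.m ∧ A.testBit i = true ∧ S.gens i = g}

/-- the subgroup generated by the generators selected by the mask `A` -/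
def Cl (A : ℕ) : Subgroup (Equiv.Perm (Fin n)) := Subgroup.closure (gset S A)

theorem gens_mem {A i : ℕ} (hi : i < S.m) (hA : A.testBit i = true) : S.gens i ∈ Cl S A :=
  Subgroup.subset_closure ⟨i, hi, hA, rfl⟩

theorem ev_mem {A l : ℕ} (hl : l / 2 < S.m) (hA : A.testBit (l / 2) = true) : ev S l ∈ Cl S A := by
  unfold ev
  split_ifs
  · exact gens_mem S hl hA
  · exact (Cl S A).inv_mem (gens_mem S hl hA)

theorem evW_mem {A : ℕ} {w : List ℕ} (hw : ∀ l ∈ w, l / 2 < S.m ∧ A.testBit (l / 2) = true) :
    evW S w ∈ Cl S A := by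
  induction w with
  | nil => exact (Cl S A).one_mem
  | cons l w ih =>
    rw [evW_cons]
    exact (Cl S A).mul_mem (ev_mem S (hw l (List.mem_cons_self ..)).1 (hw l (List.mem_cons_self ..)).2)
      (ih (fun l' hl' => hw l' (List.mem_cons_of_mem _ hl')))

theorem Cl_mono {A A' : ℕ} (h : ∀ i < S.m, A'.testBit i = true → A.testBit i = true) :
    Cl S A' ≤ Cl S A := by
  apply Subgroup.closure_mono
  rintro g ⟨i, hi, hA, rfl⟩
  exact ⟨i, hi, h i hi hA, rfl⟩

theorem Cl_zero : Cl S 0 = ⊥ := by
  have : gset S 0 = ∅ := by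
    ext g
    simp [gset]
  rw [Cl, this, Subgroup.closure_empty]

/-! ## Schreier forests -/

section forest
variable (A M : ℕ) (lab dep rt : ℕ → ℕ)

/-- the check for a Schreier forest on the points of the mask `M` -/
def forestOK : Bool :=
  allB (fun x => cond (tbit M x)
    (cond (Nat.beq (dep x) 0) (Nat.beq (rt x) x)
      (and (Nat.blt (Nat.div (lab x) 2) S.m) (and (tbit A (Nat.div (lab x) 2))
        (and (tbit M (S.act (bar (lab x)) x))
          (and (Nat.beq (dep x) (Nat.succ (dep (S.act (bar (lab x)) x))))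
            (Nat.beq (rt x) (rt (S.act (bar (lab x)) x))))))))
    true) n

/-- the coset representatives defined by the forest -/
def uF : ℕ → Fin n → Equiv.Perm (Fin n)
  | 0, _ => 1
  | d + 1, x => ev S (lab x) * uF d ((ev S (lab x))⁻¹ x)

variable {A M lab dep rt}

theorem forest_root (h : forestOK S A M lab dep rt = true) (x : Fin n) (hx : M.testBit x = true)
    (hd : dep x = 0) : rt x = x := by
  have h1 := allB_spec h x x.2
  simp only [tbit_eq, hx, cond_true, hd] at h1
  exact Nat.eq_of_beq_eq_true h1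

theorem forest_step (h : forestOK S A M lab dep rt = true) (x : Fin n) (hx : M.testBit x = true)
    (hd : dep x ≠ 0) : lab x / 2 < S.m ∧ A.testBit (lab x / 2) = true ∧
      M.testBit ((ev S (lab x))⁻¹ x : Fin n) = true ∧
      dep x = dep ((ev S (lab x))⁻¹ x : Fin n) + 1 ∧ rt x = rt ((ev S (lab x))⁻¹ x : Fin n) := by
  have h1 := allB_spec h x x.2
  have hd' : Nat.beq (dep x) 0 = false := by
    rw [← Bool.not_eq_true]
    intro h2
    exact hd (Nat.eq_of_beq_eq_true h2)
  simp only [tbit_eq, hx, cond_true, hd', cond_false, Bool.and_eq_true] at h1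
  obtain ⟨h2, h3, h4, h5, h6⟩ := h1
  have h2' : lab x / 2 < S.m := by
    have : Nat.blt (lab x / 2) S.m = true := h2
    rwa [Nat.blt_eq] at this
  have hp : (((ev S (lab x))⁻¹ x : Fin n) : ℕ) = S.act (bar (lab x)) x := by
    rw [← ev_bar, ev_apply S (by rw [bar_div]; exact h2')]
  rw [hp]
  exact ⟨h2', h3, h4, Nat.eq_of_beq_eq_true h5, Nat.eq_of_beq_eq_true h6⟩

theorem forest_spec (h : forestOK S A M lab dep rt = true) :
    ∀ (d : ℕ) (x : Fin n), M.testBit x = true → dep x = d →
      uF S lab d x ∈ Cl S A ∧ ∃ r : Fin n, (r : ℕ) = rt x ∧ uF S lab d x r = x := by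
  intro d
  induction d with
  | zero =>
    intro x hx hd
    exact ⟨(Cl S A).one_mem, x, (forest_root S h x hx hd).symm, rfl⟩
  | succ d ih =>
    intro x hx hd
    obtain ⟨h1, h2, h3, h4, h5⟩ := forest_step S h x hx (by omega)
    obtain ⟨h6, r, hr, h7⟩ := ih _ h3 (by omega)
    refine ⟨(Cl S A).mul_mem (ev_mem S h1 h2) h6, r, by rw [hr, h5], ?_⟩
    show ev S (lab x) (uF S lab d ((ev S (lab x))⁻¹ x) r) = x
    rw [h7]
    simp

end forest

/-! ## one level of the chain -/

section level
variable (A A' M b : ℕ) (lab dep : ℕ → ℕ) (q Q fuel : ℕ) (rels : List (List ℕ))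

/-- coset representatives -/
def u (x : Fin n) : Equiv.Perm (Fin n) := if M.testBit x = true then uF S lab (dep x) x else 1

/-- one letter of a relator trace. State `y + q * s`: `y` the current point, `s = 0`: all entries known so far,
`s = 1`: failure, `s = e + 2`: exactly one unknown entry `e`. -/
def stepL (E l st : ℕ) : ℕ :=
  force (Nat.mod st q) fun y => force (Nat.div st q) fun s => force (S.act l y) fun z =>
    force (Nat.add (Nat.mul (Nat.div l 2) n) (cond (Nat.beq (Nat.mod l 2) 0) y z)) fun e =>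
      cond (tbit E e) (Nat.add z (Nat.mul q s))
        (cond (Nat.beq s 0) (Nat.add z (Nat.mul q (Nat.add e 2))) (Nat.add z q))

def walk (E : ℕ) (w : List ℕ) (β : ℕ) : ℕ :=
  @List.rec ℕ (fun _ => ℕ) β (fun l _ st => stepL S q E l st) w

def doStep (E code : ℕ) : ℕ :=
  force (Nat.mod code q) fun β =>
    cond (tbit M β)
      (force (Nat.div (walk S q E (nth rels (Nat.div code q)) β) q) fun s =>
        cond (Nat.ble 2 s) (Nat.lor E (Nat.pow 2 (Nat.sub s 2))) E)
      E

def runChunk (c E : ℕ) : ℕ :=
  @Nat.rec (fun _ => ℕ → ℕ → ℕ) (fun _ E => E)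
    (fun _ ih c E => force (doStep S M q rels E (Nat.mod c Q)) fun E' => force (Nat.div c Q) fun c' => ih c' E')
    fuel c E

def runAll (chunks : List ℕ) (E : ℕ) : ℕ :=
  @List.rec ℕ (fun _ => ℕ → ℕ) (fun E => E)
    (fun c _ ih E => force (runChunk S M q Q fuel rels c E) ih) chunks E

/-- the element attached to the entry `(i, x)` of the coset table -/
def dEl (i : ℕ) (x : Fin n) : Equiv.Perm (Fin n) :=
  (u S M lab dep (S.gens i x))⁻¹ * S.gens i * u S M lab dep x

def Inv (E : ℕ) : Prop :=
  ∀ i, i < S.m → A.testBit i = true → ∀ x : Fin n, M.testBit x = true →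
    E.testBit (i * n + x) = true → dEl S M lab dep i x ∈ Cl S A'

/-- the element attached to a letter at a point -/
def cL (l : ℕ) (x : Fin n) : Equiv.Perm (Fin n) :=
  (u S M lab dep (ev S l x))⁻¹ * ev S l * u S M lab dep x

theorem cL_even {l : ℕ} (h : l % 2 = 0) (x : Fin n) : cL S M lab dep l x = dEl S M lab dep (l / 2) x := by
  unfold cL dEl ev
  rw [if_pos h]

theorem cL_odd {l : ℕ} (h : l % 2 = 1) (x : Fin n) :
    cL S M lab dep l x = (dEl S M lab dep (l / 2) (ev S l x))⁻¹ := by
  have h1 : ev S l = (S.gens (l / 2))⁻¹ := by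
    unfold ev
    rw [if_neg (by omega)]
  unfold cL dEl
  rw [h1]
  simp [mul_assoc]

variable {A A' M b lab dep q Q fuel rels}

theorem stepL_eq (E l st : ℕ) : stepL S q E l st =
    if E.testBit (l / 2 * n + (if l % 2 = 0 then st % q else S.act l (st % q))) = true then
      S.act l (st % q) + q * (st / q)
    else if st / q = 0 then
      S.act l (st % q) + q * (l / 2 * n + (if l % 2 = 0 then st % q else S.act l (st % q)) + 2)
    else S.act l (st % q) + q := by
  unfold stepL
  simp only [force_eq, tbit_eq]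
  have h1 : (cond (Nat.beq (Nat.mod l 2) 0) (Nat.mod st q) (S.act l (Nat.mod st q))) =
      (if l % 2 = 0 then st % q else S.act l (st % q)) := by
    by_cases h : l % 2 = 0
    · rw [if_pos h]
      have : Nat.mod l 2 = 0 := h
      rw [this]; rfl
    · rw [if_neg h]
      have : Nat.beq (Nat.mod l 2) 0 = false := by
        rw [← Bool.not_eq_true]
        intro h2
        exact h (Nat.eq_of_beq_eq_true h2)
      rw [this]; rfl
  rw [h1]
  show cond (Nat.testBit E (l / 2 * n + _)) (S.act l (st % q) + q * (st / q))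
    (cond (Nat.beq (st / q) 0) (S.act l (st % q) + q * (l / 2 * n + _ + 2)) (S.act l (st % q) + q)) = _
  by_cases h2 : E.testBit (l / 2 * n + (if l % 2 = 0 then st % q else S.act l (st % q))) = true
  · rw [if_pos h2, h2]; rfl
  · rw [if_neg h2]
    rw [Bool.not_eq_true] at h2
    rw [h2]
    by_cases h3 : st / q = 0
    · rw [if_pos h3, h3]; rfl
    · rw [if_neg h3]
      have : Nat.beq (st / q) 0 = false := by
        rw [← Bool.not_eq_true]
        intro h4
        exact h3 (Nat.eq_of_beq_eq_true h4)
      rw [this]; rfl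

/-- the hypotheses on a level which do not depend on the deduction steps -/
structure LevelHyp (S : Sys n) (A M q : ℕ) (rels : List (List ℕ)) : Prop where
  hq : n ≤ q
  hM : ∀ x, M.testBit x = true → x < n
  hclosed : ∀ l, l / 2 < S.m → A.testBit (l / 2) = true → ∀ x : Fin n, M.testBit x = true →
    M.testBit (S.act l x) = true
  hrels : ∀ w ∈ rels, evW S w = 1 ∧ ∀ l ∈ w, l / 2 < S.m ∧ A.testBit (l / 2) = true

theorem walk_spec (H : LevelHyp S A M q rels) {E : ℕ} (hE : Inv S A A' M lab dep E) (w : List ℕ)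
    (hw : ∀ l ∈ w, l / 2 < S.m ∧ A.testBit (l / 2) = true) (β : Fin n) (hβ : M.testBit β = true) :
    walk S q E w β % q = (evW S w β : Fin n) ∧ M.testBit (evW S w β : Fin n) = true ∧
    (walk S q E w β / q = 0 →
      (u S M lab dep (evW S w β))⁻¹ * evW S w * u S M lab dep β ∈ Cl S A') ∧
    (2 ≤ walk S q E w β / q → ∃ (i : ℕ) (x : Fin n), i < S.m ∧ A.testBit i = true ∧
      M.testBit x = true ∧ walk S q E w β / q - 2 = i * n + x ∧
      ∃ k₁ ∈ Cl S A', ∃ k₂ ∈ Cl S A',
        ((u S M lab dep (evW S w β))⁻¹ * evW S w * u S M lab dep β = k₁ * dEl S M lab dep i x * k₂ ∨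
         (u S M lab dep (evW S w β))⁻¹ * evW S w * u S M lab dep β = k₁ * (dEl S M lab dep i x)⁻¹ * k₂)) := by
  have hq0 : 0 < q := lt_of_lt_of_le (Nat.lt_of_le_of_lt (Nat.zero_le _) β.2) H.hq
  induction w with
  | nil =>
    have h1 : walk S q E [] β = β := rfl
    have hlt : (β : ℕ) < q := lt_of_lt_of_le β.2 H.hq
    rw [h1, evW_nil]
    refine ⟨Nat.mod_eq_of_lt hlt, hβ, fun _ => ?_, fun h => ?_⟩
    · simp only [Equiv.Perm.coe_one, id_eq, mul_one, inv_mul_cancel]
      exact (Cl S A').one_mem
    · rw [Nat.div_eq_of_lt hlt] at h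
      omega
  | cons l w ih =>
    obtain ⟨ih1, ih2, ih3, ih4⟩ := ih (fun l' hl' => hw l' (List.mem_cons_of_mem _ hl'))
    obtain ⟨hl1, hl2⟩ := hw l (List.mem_cons_self ..)
    obtain ⟨st, hst⟩ : ∃ st, st = walk S q E w β := ⟨_, rfl⟩
    obtain ⟨γ, hγ⟩ : ∃ γ : Fin n, γ = evW S w β := ⟨_, rfl⟩
    rw [← hst, ← hγ] at ih1 ih3 ih4
    rw [← hγ] at ih2
    have h1 : walk S q E (l :: w) β = stepL S q E l st := by rw [hst]; rfl
    have hz : S.act l (st % q) = (ev S l γ : Fin n) := by rw [ih1, ev_apply S hl1]
    have hzlt : ((ev S l γ : Fin n) : ℕ) < q := lt_of_lt_of_le (ev S l γ).2 H.hq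
    have hev : evW S (l :: w) β = ev S l γ := by rw [evW_cons, Equiv.Perm.mul_apply, hγ]
    have hzM : M.testBit (ev S l γ : Fin n) = true := by
      rw [ev_apply S hl1]
      exact H.hclosed l hl1 hl2 γ ih2
    -- the product formula
    have hprod : (u S M lab dep (evW S (l :: w) β))⁻¹ * evW S (l :: w) * u S M lab dep β =
        cL S M lab dep l γ * ((u S M lab dep γ)⁻¹ * evW S w * u S M lab dep β) := by
      rw [hev, evW_cons]
      unfold cL
      group
    -- the entry of the letter
    obtain ⟨x, hxM, hxe, hxc⟩ : ∃ x : Fin n, M.testBit x = true ∧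
        (if l % 2 = 0 then st % q else S.act l (st % q)) = (x : ℕ) ∧
        (cL S M lab dep l γ = dEl S M lab dep (l / 2) x ∨
          cL S M lab dep l γ = (dEl S M lab dep (l / 2) x)⁻¹) := by
      rcases Nat.mod_two_eq_zero_or_one l with h | h
      · exact ⟨γ, ih2, by rw [if_pos h, ih1], Or.inl (cL_even S M lab dep h γ)⟩
      · exact ⟨ev S l γ, hzM, by rw [if_neg (by omega), hz], Or.inr (cL_odd S M lab dep h γ)⟩
    rw [h1, stepL_eq, hxe, hz, hprod, hev]
    have hmod : ∀ t, (((ev S l γ : Fin n) : ℕ) + q * t) % q = (ev S l γ : Fin n) := by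
      intro t
      rw [Nat.add_mul_mod_self_left, Nat.mod_eq_of_lt hzlt]
    have hdiv : ∀ t, (((ev S l γ : Fin n) : ℕ) + q * t) / q = t := by
      intro t
      rw [Nat.add_mul_div_left _ _ hq0, Nat.div_eq_of_lt hzlt, zero_add]
    split_ifs with hb hs
    · -- known entry
      have hc : cL S M lab dep l γ ∈ Cl S A' := by
        have := hE (l / 2) hl1 hl2 x hxM hb
        rcases hxc with h | h <;> rw [h]
        · exact this
        · exact (Cl S A').inv_mem this
      rw [hmod, hdiv]
      refine ⟨rfl, hzM, fun h0 => (Cl S A').mul_mem hc (ih3 h0), fun h2 => ?_⟩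
      obtain ⟨i, x', hi, hA, hx', he, k₁, hk₁, k₂, hk₂, hk⟩ := ih4 h2
      refine ⟨i, x', hi, hA, hx', he, cL S M lab dep l γ * k₁, (Cl S A').mul_mem hc hk₁, k₂, hk₂, ?_⟩
      rcases hk with hk | hk <;> rw [hk]
      · left; group
      · right; group
    · -- first unknown entry
      rw [hmod, hdiv]
      refine ⟨rfl, hzM, fun h0 => by omega, fun _ => ?_⟩
      refine ⟨l / 2, x, hl1, hl2, hxM, by omega, 1, (Cl S A').one_mem, _, ih3 hs, ?_⟩
      rcases hxc with h | h <;> rw [h]
      · left; group
      · right; group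
    · -- failure
      have h3 := hmod 1
      have h4 := hdiv 1
      rw [mul_one] at h3 h4
      rw [h3, h4]
      exact ⟨rfl, hzM, fun h0 => by omega, fun h2 => by omega⟩

theorem doStep_inv (H : LevelHyp S A M q rels) {E : ℕ} (hE : Inv S A A' M lab dep E) (code : ℕ) :
    Inv S A A' M lab dep (doStep S M q rels E code) := by
  unfold doStep
  simp only [force_eq, tbit_eq]
  by_cases hβ : M.testBit (Nat.mod code q) = true
  swap
  · rw [Bool.not_eq_true] at hβ
    rw [hβ]
    exact hE
  rw [hβ]
  show Inv S A A' M lab dep (cond (Nat.ble 2 _) _ E)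
  obtain ⟨w, hw⟩ : ∃ w, w = nth rels (Nat.div code q) := ⟨_, rfl⟩
  rw [← hw]
  have hwr : evW S w = 1 ∧ ∀ l ∈ w, l / 2 < S.m ∧ A.testBit (l / 2) = true := by
    rcases nth_mem rels (Nat.div code q) with h | h
    · rw [hw, h]
      exact ⟨rfl, fun l hl => absurd hl (List.not_mem_nil)⟩
    · rw [hw]
      exact H.hrels _ h
  obtain ⟨β, hββ⟩ : ∃ β : Fin n, (β : ℕ) = Nat.mod code q := ⟨⟨_, H.hM _ hβ⟩, rfl⟩
  rw [← hββ] at hβ ⊢
  obtain ⟨-, -, -, h4⟩ := walk_spec S H hE w hwr.2 β hβ
  by_cases hs : 2 ≤ Nat.div (walk S q E w β) q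
  swap
  · have : Nat.ble 2 (Nat.div (walk S q E w β) q) = false := by
      rw [← Bool.not_eq_true]
      intro h
      exact hs (Nat.le_of_ble_eq_true h)
    rw [this]
    exact hE
  rw [Nat.ble_eq_true_of_le hs]
  obtain ⟨i, x, hi, hA, hx, he, k₁, hk₁, k₂, hk₂, hk⟩ := h4 hs
  have he' : Nat.sub (Nat.div (walk S q E w β) q) 2 = i * n + x := he
  show Inv S A A' M lab dep (Nat.lor E (Nat.pow 2 (Nat.sub (Nat.div (walk S q E w β) q) 2)))
  rw [he']
  have hone : (u S M lab dep (evW S w β))⁻¹ * evW S w * u S M lab dep β = 1 := by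
    rw [hwr.1]
    simp
  have hd : dEl S M lab dep i x ∈ Cl S A' := by
    rw [hone] at hk
    rcases hk with hk | hk
    · have : dEl S M lab dep i x = k₁⁻¹ * k₂⁻¹ := by
        have h5 : k₁⁻¹ * (k₁ * dEl S M lab dep i x * k₂) * k₂⁻¹ = dEl S M lab dep i x := by group
        rw [← h5, ← hk]; group
      rw [this]
      exact (Cl S A').mul_mem ((Cl S A').inv_mem hk₁) ((Cl S A').inv_mem hk₂)
    · have : dEl S M lab dep i x = k₂ * k₁ := by
        have h5 : (k₁⁻¹ * (k₁ * (dEl S M lab dep i x)⁻¹ * k₂) * k₂⁻¹)⁻¹ = dEl S M lab dep i x := by group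
        rw [← h5, ← hk]; group
      rw [this]
      exact (Cl S A').mul_mem hk₂ hk₁
  intro i' hi' hA' x' hx' hbit
  have hbit' : (E ||| 2 ^ (i * n + x)).testBit (i' * n + x') = true := hbit
  rw [Nat.testBit_or, Nat.testBit_two_pow, Bool.or_eq_true, decide_eq_true_eq] at hbit'
  rcases hbit' with h | h
  · exact hE i' hi' hA' x' hx' h
  · have hn : 0 < n := Nat.lt_of_le_of_lt (Nat.zero_le _) x.2
    have h1 : i = i' := by
      have e1 : (i * n + x) / n = i := by
        rw [Nat.add_comm, Nat.add_mul_div_right _ _ hn, Nat.div_eq_of_lt x.2, zero_add]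
      have e2 : (i' * n + x') / n = i' := by
        rw [Nat.add_comm, Nat.add_mul_div_right _ _ hn, Nat.div_eq_of_lt x'.2, zero_add]
      rw [← e1, ← e2, h]
    subst h1
    have h2 : x = x' := Fin.ext (by omega)
    subst h2
    exact hd

theorem runChunk_inv (H : LevelHyp S A M q rels) (fuel : ℕ) : ∀ (c E : ℕ), Inv S A A' M lab dep E →
    Inv S A A' M lab dep (runChunk S M q Q fuel rels c E) := by
  induction fuel with
  | zero => intro c E hE; exact hE
  | succ k ih =>
    intro c E hE
    have h1 : runChunk S M q Q (k + 1) rels c E =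
        runChunk S M q Q k rels (Nat.div c Q) (doStep S M q rels E (Nat.mod c Q)) := by
      show force (doStep S M q rels E (Nat.mod c Q)) (fun E' => force (Nat.div c Q)
        (fun c' => runChunk S M q Q k rels c' E')) = _
      rw [force_eq, force_eq]
    rw [h1]
    exact ih _ _ (doStep_inv S H hE _)

theorem runAll_inv (H : LevelHyp S A M q rels) (chunks : List ℕ) : ∀ (E : ℕ), Inv S A A' M lab dep E →
    Inv S A A' M lab dep (runAll S M q Q fuel rels chunks E) := by
  induction chunks with
  | nil => intro E hE; exact hE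
  | cons c L ih =>
    intro E hE
    have h1 : runAll S M q Q fuel rels (c :: L) E =
        runAll S M q Q fuel rels L (runChunk S M q Q fuel rels c E) := by
      show force (runChunk S M q Q fuel rels c E) (runAll S M q Q fuel rels L) = _
      rw [force_eq]
    rw [h1]
    exact ih _ (runChunk_inv S H fuel _ _ hE)

end level

/-! ## the checks and the main theorem for one level -/

section main
variable (A A' M b : ℕ) (lab dep : ℕ → ℕ) (q Q fuel : ℕ) (rels : List (List ℕ)) (E0 : ℕ) (chunks : List ℕ)

def closedOK : Bool :=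
  allB (fun l => cond (tbit A (Nat.div l 2))
    (allB (fun x => cond (tbit M x) (tbit M (S.act l x)) true) n) true) (2 * S.m)

def subOK : Bool := allB (fun i => cond (tbit A' i) (and (tbit A i) (Nat.beq (S.act (2 * i) b) b)) true) S.m

def lettersOK : Bool := rels.all (fun w => w.all (fun l => and (Nat.blt (l / 2) S.m) (tbit A (l / 2))))

def baseOK : Bool :=
  and (Nat.ble n q) (and (Nat.blt M (2 ^ n)) (and (Nat.blt b n) (and (tbit M b) (Nat.beq (dep b) 0))))

def E0OK : Bool :=
  allB (fun i => cond (tbit A i)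
    (allB (fun x => cond (and (tbit M x) (tbit E0 (Nat.add (Nat.mul i n) x)))
      (or (and (tbit A' i) (Nat.beq x b))
        (or (and (not (Nat.beq (dep (S.act (2 * i) x)) 0)) (Nat.beq (lab (S.act (2 * i) x)) (2 * i)))
          (and (not (Nat.beq (dep x) 0)) (Nat.beq (lab x) (2 * i + 1))))) true) n) true) S.m

def finalOK (E : ℕ) : Bool :=
  allB (fun i => cond (tbit A i)
    (allB (fun x => cond (tbit M x) (tbit E (Nat.add (Nat.mul i n) x)) true) n) true) S.m

/-- the orbit as a finset -/
def Orb : Finset (Fin n) := Finset.univ.filter (fun x : Fin n => M.testBit x = true)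

/-- the conclusion of `level_main` -/
def LevelConcl : Prop :=
  ∃ hb : b < n, Cl S A ⊓ MulAction.stabilizer (Equiv.Perm (Fin n)) (⟨b, hb⟩ : Fin n) = Cl S A' ∧
    Nat.card (Cl S A) = (Orb (n := n) M).card * Nat.card (Cl S A') ∧
    (∀ x : Fin n, M.testBit x = true → ∃ g ∈ Cl S A, g ⟨b, hb⟩ = x) ∧
    (∀ g ∈ Cl S A, M.testBit (g ⟨b, hb⟩ : Fin n) = true)

variable {A A' M b lab dep q Q fuel rels E0 chunks}

theorem closed_of (h : closedOK S A M = true) : ∀ l, l / 2 < S.m → A.testBit (l / 2) = true →
    ∀ x : Fin n, M.testBit x = true → M.testBit (S.act l x) = true := by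
  intro l hl hA x hx
  have h1 := allB_spec h l (by omega)
  have hA' : tbit A (Nat.div l 2) = true := by rw [tbit_eq]; exact hA
  rw [hA'] at h1
  have h2 := allB_spec h1 x x.2
  simp only [tbit_eq, hx, cond_true] at h2
  exact h2

theorem u_step (hf : forestOK S A M lab dep (fun _ => b) = true) (x : Fin n) (hx : M.testBit x = true)
    (hd : dep x ≠ 0) :
    u S M lab dep x = ev S (lab x) * u S M lab dep ((ev S (lab x))⁻¹ x) := by
  obtain ⟨-, -, h3, h4, -⟩ := forest_step S hf x hx hd
  unfold u
  rw [if_pos hx, if_pos h3, h4]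
  rfl

theorem level_main
    (hbase : baseOK (n := n) M b dep q = true) (hsub : subOK S A A' b = true)
    (hclosed : closedOK S A M = true) (hf : forestOK S A M lab dep (fun _ => b) = true)
    (hlet : lettersOK S A rels = true) (hrel : ∀ w ∈ rels, evW S w = 1)
    (hE0 : E0OK S A A' M b lab dep E0 = true)
    (hfin : finalOK S A M (runAll S M q Q fuel rels chunks E0) = true) :
    LevelConcl S A A' M b := by
  unfold LevelConcl
  simp only [baseOK, Bool.and_eq_true, tbit_eq] at hbase
  obtain ⟨hq, hM, hb, hbM, hdb⟩ := hbase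
  replace hq : n ≤ q := Nat.le_of_ble_eq_true hq
  replace hM : M < 2 ^ n := by rwa [Nat.blt_eq] at hM
  replace hb : b < n := by rwa [Nat.blt_eq] at hb
  replace hdb : dep b = 0 := Nat.eq_of_beq_eq_true hdb
  have hcl := closed_of S hclosed
  have hsub' : ∀ i < S.m, A'.testBit i = true → A.testBit i = true ∧ S.act (2 * i) b = b := by
    intro i hi hA
    have h1 := allB_spec hsub i hi
    simp only [tbit_eq, hA, cond_true, Bool.and_eq_true] at h1
    exact ⟨h1.1, Nat.eq_of_beq_eq_true h1.2⟩
  have H : LevelHyp S A M q rels := by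
    refine ⟨hq, ?_, hcl, ?_⟩
    · intro x hx
      by_contra hcon
      have h1 : M < 2 ^ x := lt_of_lt_of_le hM (Nat.pow_le_pow_right (by norm_num) (by omega))
      rw [Nat.testBit_eq_false_of_lt h1] at hx
      exact Bool.noConfusion hx
    · intro w hw
      refine ⟨hrel w hw, fun l hl => ?_⟩
      have h1 := (List.all_eq_true.1 ((List.all_eq_true.1 hlet) w hw)) l hl
      simp only [Bool.and_eq_true, tbit_eq, Nat.blt_eq] at h1
      exact h1
  obtain ⟨B, hB⟩ : ∃ B : Fin n, B = ⟨b, hb⟩ := ⟨_, rfl⟩
  have hBv : (B : ℕ) = b := by rw [hB]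
  have hBM : M.testBit B = true := by rw [hBv]; exact hbM
  have huB : u S M lab dep B = 1 := by
    unfold u
    rw [if_pos hBM, hBv, hdb]
    rfl
  -- the initial table
  have hInv0 : Inv S A A' M lab dep E0 := by
    intro i hi hA x hx hbit
    have h1 := allB_spec hE0 i hi
    have hA' : tbit A i = true := by rw [tbit_eq]; exact hA
    rw [hA'] at h1
    have h2 := allB_spec h1 x x.2
    have hbit' : tbit E0 (Nat.add (Nat.mul i n) x) = true := by rw [tbit_eq]; exact hbit
    have hx' : tbit M x = true := by rw [tbit_eq]; exact hx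
    rw [hx', hbit'] at h2
    simp only [Bool.and_self, cond_true, Bool.or_eq_true, Bool.and_eq_true, tbit_eq,
      Bool.not_eq_true'] at h2
    have hz : ((S.gens i x : Fin n) : ℕ) = S.act (2 * i) x := S.hf i hi x
    have hev0 : ev S (2 * i) = S.gens i := by
      unfold ev
      rw [if_pos (by omega)]
      congr 1
      omega
    have hev1 : ev S (2 * i + 1) = (S.gens i)⁻¹ := by
      unfold ev
      rw [if_neg (by omega)]
      congr 2
      omega
    rcases h2 with ⟨h3, h4⟩ | ⟨h3, h4⟩ | ⟨h3, h4⟩
    · have hxB : x = B := Fin.ext (by rw [hBv]; exact Nat.eq_of_beq_eq_true h4)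
      have hfix : S.gens i B = B := Fin.ext (by rw [S.hf i hi, hBv]; exact (hsub' i hi h3).2)
      unfold dEl
      rw [hxB, hfix, huB]
      simp only [inv_one, one_mul, mul_one]
      exact gens_mem S hi h3
    · have hzM : M.testBit (S.gens i x : Fin n) = true := by
        rw [hz]
        exact hcl (2 * i) (by omega) (by rw [show 2 * i / 2 = i by omega]; exact hA) x hx
      have hd : dep (S.gens i x : Fin n) ≠ 0 := by
        rw [hz]
        intro h5
        rw [h5] at h3
        exact Bool.noConfusion h3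
      have hl : lab (S.gens i x : Fin n) = 2 * i := by rw [hz]; exact Nat.eq_of_beq_eq_true h4
      have h6 := u_step S hf _ hzM hd
      rw [hl, hev0] at h6
      have h7 : (S.gens i)⁻¹ (S.gens i x) = x := by simp
      rw [h7] at h6
      unfold dEl
      rw [h6]
      have : (S.gens i * u S M lab dep x)⁻¹ * S.gens i * u S M lab dep x = 1 := by group
      rw [this]
      exact (Cl S A').one_mem
    · have hd : dep x ≠ 0 := by
        intro h5
        rw [h5] at h3
        exact Bool.noConfusion h3
      have hl : lab x = 2 * i + 1 := Nat.eq_of_beq_eq_true h4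
      have h6 := u_step S hf x hx hd
      rw [hl, hev1, inv_inv] at h6
      unfold dEl
      rw [h6]
      have : (u S M lab dep (S.gens i x))⁻¹ * S.gens i * ((S.gens i)⁻¹ * u S M lab dep (S.gens i x)) = 1 := by
        group
      rw [this]
      exact (Cl S A').one_mem
  have hInv := runAll_inv (Q := Q) (fuel := fuel) S H chunks E0 hInv0
  have hall : ∀ i, i < S.m → A.testBit i = true → ∀ x : Fin n, M.testBit x = true →
      dEl S M lab dep i x ∈ Cl S A' := by
    intro i hi hA x hx
    apply hInv i hi hA x hx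
    have h1 := allB_spec hfin i hi
    have hA' : tbit A i = true := by rw [tbit_eq]; exact hA
    rw [hA'] at h1
    have h2 := allB_spec h1 x x.2
    simp only [tbit_eq, hx, cond_true] at h2
    exact h2
  have hspec := forest_spec S hf
  have hu : ∀ β, u S M lab dep β ∈ Cl S A := by
    intro β
    unfold u
    split_ifs with h
    · exact (hspec _ β h rfl).1
    · exact (Cl S A).one_mem
  have hub' : ∀ β : Fin n, M.testBit β = true → u S M lab dep β B = β := by
    intro β h
    obtain ⟨-, r, hr, h1⟩ := hspec _ β h rfl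
    have : r = B := Fin.ext (by rw [hr, hBv])
    unfold u
    rw [if_pos h, ← this]
    exact h1
  have hmemO : ∀ β : Fin n, β ∈ Orb (n := n) M ↔ M.testBit β = true := by
    intro β
    simp [Orb]
  have hS : ∀ s ∈ gset S A, ∀ β ∈ Orb (n := n) M, s • β ∈ Orb (n := n) M ∧
      (u S M lab dep (s • β))⁻¹ * s * u S M lab dep β ∈ Cl S A' := by
    rintro s ⟨i, hi, hA, rfl⟩ β hβ
    rw [hmemO] at hβ
    refine ⟨?_, hall i hi hA β hβ⟩
    rw [hmemO]
    show M.testBit (S.gens i β : Fin n) = true
    rw [S.hf i hi]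
    exact hcl (2 * i) (by omega) (by rw [show 2 * i / 2 = i by omega]; exact hA) β hβ
  have hK : Cl S A' ≤ Subgroup.closure (gset S A) := Cl_mono S (fun i hi h => (hsub' i hi h).1)
  have hKb : ∀ k ∈ Cl S A', k • B = B := by
    have : Cl S A' ≤ MulAction.stabilizer (Equiv.Perm (Fin n)) B := by
      rw [Cl, Subgroup.closure_le]
      rintro g ⟨i, hi, hA, rfl⟩
      exact Fin.ext (by
        show ((S.gens i B : Fin n) : ℕ) = B
        rw [S.hf i hi, hBv]; exact (hsub' i hi hA).2)
    intro k hk
    exact this hk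
  refine ⟨hb, ?_, ?_, ?_, ?_⟩
  · rw [← hB]
    exact level_stabilizer (gset S A) (Cl S A') B (Orb (n := n) M) (u S M lab dep) hK
      ((hmemO B).2 hBM) huB hS hKb
  · exact level_card (gset S A) (Cl S A') B (Orb (n := n) M) (u S M lab dep) hK
      ((hmemO B).2 hBM) huB hu hS hKb (fun β hβ => hub' β ((hmemO β).1 hβ))
  · intro x hx
    rw [← hB]
    exact ⟨_, hu x, hub' x hx⟩
  · intro g hg
    rw [← hB]
    exact (hmemO _).1 (level_factor (gset S A) (Cl S A') B (Orb (n := n) M) (u S M lab dep)
      ((hmemO B).2 hBM) huB hS g hg).1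

end main

end Cfsg.Agent.Lib.Helper63TCS
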