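import Cfsg.Agent.Lib.Helper63PCDefs
import Cfsg.Agent.Lib.Helper63TCS

/-!
# Project PC-MULT, part 2: vocabulary for permutation models (packed tables)
-/

set_option autoImplicit false

namespace Cfsg.Agent.Lib.Helper63PCTabDefs

open Cfsg.Agent.Lib.Helper63PCDefs Cfsg.Agent.Lib.Helper63TCS

/-- entry `x` of a packed table with `B` bits per entry -/
def lk (B T x : ℕ) : ℕ := Nat.land (Nat.shiftRight T (Nat.mul B x)) (Nat.sub (Nat.pow 2 B) 1)

/-- `T` is the table of an element of `K` -/
def Tabled {d : ℕ} (K : Subgroup (Equiv.Perm (Fin d))) (B T : ℕ) : Prop :=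
  ∃ π ∈ K, ∀ x : Fin d, ((π x : Fin d) : ℕ) = lk B T x

def mulChk (d B T T1 T2 : ℕ) : Bool :=
  allB (fun x => Nat.beq (lk B T x) (lk B T1 (lk B T2 x))) d

def invChk (d B T T1 : ℕ) : Bool :=
  allB (fun x => and (Nat.blt (lk B T x) d) (Nat.beq (lk B T1 (lk B T x)) x)) d

/-- action of a positive word on a point (`evalW x w` applied to `y`) -/
def app (B : ℕ) (tx : ℕ → ℕ) (w : List ℕ) (y : ℕ) : ℕ := w.foldr (fun l y => lk B (tx l) y) y

def eqChk (d B : ℕ) (tx : ℕ → ℕ) (w1 w2 : List ℕ) : Bool :=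
  allB (fun y => Nat.beq (app B tx w1 y) (app B tx w2 y)) d

/-- the power-commutator relations hold -/
def pcChk (d B : ℕ) (D : PC) (tx : ℕ → ℕ) : Bool :=
  (List.range D.n).all (fun a => eqChk d B tx (List.replicate D.p a) (D.pw a)) &&
  (List.range D.n).all (fun b => (List.range D.n).all (fun a =>
    !(decide (b < a)) || eqChk d B tx [a, b] (b :: a :: D.cm b a)))

/-- the fusion relations `g * Dw i = Ew i * g` hold -/
def fusChk (d B : ℕ) (C : Cert) (tx tg : ℕ → ℕ) : Bool :=
  (List.range C.fus.length).all (fun gi =>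
    decide ((C.Dw gi).length ≤ C.R) && decide ((C.Ew gi).length ≤ C.R) &&
    (C.Dw gi).all (fun w => w.all (fun l => decide (l < C.D.n))) &&
    (C.Ew gi).all (fun w => w.all (fun l => decide (l < C.D.n))) &&
    (List.range C.R).all (fun i =>
      allB (fun y => Nat.beq (lk B (tg gi) (app B tx (nthL (C.Dw gi) i) y))
        (app B tx (nthL (C.Ew gi) i) (lk B (tg gi) y))) d))

/-- the normal word with index `e < p ^ n` -/
def nfw (p n e : ℕ) : List ℕ :=
  (List.range n).flatMap (fun a => List.replicate ((e / p ^ a) % p) a)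

def memB (a : ℕ) : List ℕ → Bool
  | [] => false
  | b :: l => Nat.beq a b || memB a l

def nodupB : List ℕ → Bool
  | [] => true
  | a :: l => !(memB a l) && nodupB l

/-- the images of the base points `bs` under a word, coded as one number -/
def codeN (d B : ℕ) (tx : ℕ → ℕ) (bs : List ℕ) (w : List ℕ) : ℕ :=
  bs.foldr (fun b acc => acc * d + app B tx w b) 0

/-- the `p ^ n` normal words give different permutations -/
def injChk (d B : ℕ) (D : PC) (tx : ℕ → ℕ) (bs : List ℕ) : Bool :=
  bs.all (fun b => decide (b < d)) &&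
  nodupB ((List.range (D.p ^ D.n)).map (fun e => codeN d B tx bs (nfw D.p D.n e)))

end Cfsg.Agent.Lib.Helper63PCTabDefs
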