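import Cfsg.Agent.Lib.Helper10HSIso
import Cfsg.Agent.Lib.Helper63PCTabDefs

/-!
# The simple group of the 100-vertex graph as a group of permutations of `Fin 100` (helper10)
-/

set_option autoImplicit false
set_option linter.unusedSectionVars false

namespace Cfsg.Agent.Lib.Helper10HSTab

open Cfsg Finset Equiv Cfsg.Agent.Lib.Helper10Ext Cfsg.Agent.Lib.Helper10Chain
  Cfsg.Agent.Lib.Helper10HSVec Cfsg.Agent.Lib.Helper10HSGraph Cfsg.Agent.Lib.Helper10HSModel
  Cfsg.Agent.Lib.Helper10HSGroup Cfsg.Agent.Lib.Helper10HSSimple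
  Cfsg.Agent.Lib.Helper63PCTabDefs Cfsg.Agent.Lib.Helper63TCS

theorem VL_len : VL.length = 100 := by decide +kernel

/-- the code of the `i`-th vertex -/
def cd (i : ℕ) : ℕ := VL.getD i 0

theorem cd_mem {i : ℕ} (h : i < 100) : cd i ∈ VL := by
  unfold cd
  rw [List.getD_eq_getElem _ _ (by rw [VL_len]; exact h)]
  exact List.getElem_mem _

theorem cd_inj {i j : ℕ} (hi : i < 100) (hj : j < 100) (h : cd i = cd j) : i = j := by
  unfold cd at h
  rw [List.getD_eq_getElem _ _ (by rw [VL_len]; exact hi),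
    List.getD_eq_getElem _ _ (by rw [VL_len]; exact hj)] at h
  exact (List.Nodup.getElem_inj_iff VL_nodup).1 h

theorem exists_cd {c : ℕ} (h : c ∈ VL) : ∃ i, i < 100 ∧ cd i = c := by
  obtain ⟨i, hi, rfl⟩ := List.getElem_of_mem h
  refine ⟨i, by rw [← VL_len]; exact hi, ?_⟩
  unfold cd
  rw [List.getD_eq_getElem _ _ hi]

/-- numbering of the vertices of the model -/
noncomputable def e0 : Fin 100 ≃ V0 :=
  Equiv.ofBijective (fun i => dcd (cd i)) (by
    constructor
    · intro i j h
      have h1 := congrArg code h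
      simp only [] at h1
      rw [code_dcd (cd_mem i.2), code_dcd (cd_mem j.2)] at h1
      exact Fin.ext (cd_inj i.2 j.2 h1)
    · intro v
      obtain ⟨i, hi, h⟩ := exists_cd (code_mem v)
      refine ⟨⟨i, hi⟩, ?_⟩
      apply code_injective
      show code (dcd (cd i)) = code v
      rw [code_dcd (cd_mem hi), h])

theorem code_e0 (i : Fin 100) : code (e0 i) = cd i := code_dcd (cd_mem i.2)

abbrev VA := Option (P ⊕ ↥(WS A))

theorem exists_theta : ∃ θ : Fin 100 ≃ VA, ∀ i j : Fin 100,
    (pointBlockGraph (WS A)).Adj (θ i) (θ j) ↔ adjC (cd i) (cd j) = true := by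
  obtain ⟨e, he⟩ := U2 card_P steiner
  let ψ := isoOf e he
  refine ⟨e0.trans ψ.symm.toEquiv, fun i j => ?_⟩
  show (pointBlockGraph (WS A)).Adj (ψ.symm (e0 i)) (ψ.symm (e0 j)) ↔ _
  rw [ψ.symm.map_rel_iff, adj_iff, code_e0, code_e0]

noncomputable def θ : Fin 100 ≃ VA := exists_theta.choose

theorem θ_adj (i j : Fin 100) :
    (pointBlockGraph (WS A)).Adj (θ i) (θ j) ↔ adjC (cd i) (cd j) = true :=
  exists_theta.choose_spec i j

/-- the action on the numbers of the vertices -/
noncomputable def cj : AutG (WS A) →* Perm (Fin 100) where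
  toFun φ := (θ.trans φ.toEquiv).trans θ.symm
  map_one' := by
    apply Equiv.ext
    intro i
    show θ.symm (θ i) = i
    simp
  map_mul' φ ψ := by
    apply Equiv.ext
    intro i
    show θ.symm (φ (ψ (θ i))) = θ.symm (φ (θ (θ.symm (ψ (θ i)))))
    simp

theorem cj_apply (φ : AutG (WS A)) (i : Fin 100) : cj φ i = θ.symm (φ (θ i)) := rfl

theorem cj_injective : Function.Injective cj := by
  intro φ ψ h
  apply RelIso.ext
  intro v
  have h1 := congrArg (fun π : Perm (Fin 100) => θ (π (θ.symm v))) h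
  simpa [cj_apply] using h1

/-- the group -/
noncomputable def K : Subgroup (Perm (Fin 100)) := (HS (WS A)).map cj

noncomputable def isoK : ↥(HS (WS A)) ≃* ↥K := (HS (WS A)).equivMapOfInjective cj cj_injective

theorem card_K : Nat.card K = 44352000 := by
  rw [← Nat.card_congr isoK.toEquiv, card_HS card_P steiner]

theorem exists_iso : Nonempty (↥K ≃* ↥Spor.HS) := by
  obtain ⟨e⟩ := Cfsg.Agent.Lib.Helper10HSIso.exists_iso
  exact ⟨(e.trans isoK).symm⟩

theorem simple_K : IsSimpleGroup K :=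
  (MulEquiv.isSimpleGroup_congr isoK).1 (simple_HS card_P steiner)

theorem exists_aut (π : Perm (Fin 100))
    (h : ∀ i j : Fin 100, adjC (cd (π i)) (cd (π j)) = adjC (cd i) (cd j)) :
    ∃ φ : AutG (WS A), cj φ = π := by
  refine ⟨⟨(θ.symm.trans π).trans θ, ?_⟩, ?_⟩
  · intro v w
    show (pointBlockGraph (WS A)).Adj (θ (π (θ.symm v))) (θ (π (θ.symm w))) ↔ _
    rw [θ_adj, h, ← θ_adj, Equiv.apply_symm_apply, Equiv.apply_symm_apply]
  · apply Equiv.ext
    intro i
    show θ.symm (θ (π (θ.symm (θ i)))) = π i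
    simp

theorem sq_mem (π : Perm (Fin 100))
    (h : ∀ i j : Fin 100, adjC (cd (π i)) (cd (π j)) = adjC (cd i) (cd j)) : π * π ∈ K := by
  obtain ⟨φ, rfl⟩ := exists_aut π h
  refine ⟨φ * φ, ?_, map_mul _ _ _⟩
  show φ * φ ∈ (sgn (WS A)).ker
  rw [MonoidHom.mem_ker, map_mul, Int.units_mul_self]

/-- `T`, `T'` are the tables of an automorphism and of its inverse -/
def autChk (T T' : ℕ) : Bool :=
  allB (fun x => Nat.blt (lk 7 T x) 100 && Nat.blt (lk 7 T' x) 100 &&
    Nat.beq (lk 7 T' (lk 7 T x)) x && Nat.beq (lk 7 T (lk 7 T' x)) x) 100 &&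
  allB (fun x => allB (fun y => adjC (cd (lk 7 T x)) (cd (lk 7 T y)) == adjC (cd x) (cd y)) 100) 100

theorem blt_iff' {a b : ℕ} : Nat.blt a b = true ↔ a < b := by simp [Nat.blt]

theorem tabled_sq {T T' S : ℕ} (h : autChk T T' = true) (hS : mulChk 100 7 S T T = true) :
    Tabled K 7 S := by
  rw [autChk, Bool.and_eq_true] at h
  obtain ⟨h1, h2⟩ := h
  have h1' := allB_spec h1
  simp only [Bool.and_eq_true, blt_iff'] at h1'
  let π : Perm (Fin 100) :=
    { toFun := fun x => ⟨lk 7 T x, (h1' x x.2).1.1.1⟩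
      invFun := fun x => ⟨lk 7 T' x, (h1' x x.2).1.1.2⟩
      left_inv := fun x => Fin.ext (Nat.eq_of_beq_eq_true (h1' x x.2).1.2)
      right_inv := fun x => Fin.ext (Nat.eq_of_beq_eq_true (h1' x x.2).2) }
  refine ⟨π * π, sq_mem π (fun i j => ?_), fun x => ?_⟩
  · have := allB_spec (allB_spec h2 i i.2) j j.2
    exact beq_iff_eq.1 this
  · have := Nat.eq_of_beq_eq_true (allB_spec hS x x.2)
    rw [this]
    rfl

theorem commutator_K : commutator K = ⊤ := by
  have := simple_K
  rcases IsSimpleGroup.eq_bot_or_eq_top_of_normal (commutator K) inferInstance with h | h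
  · exfalso
    have hfin : Finite K := Nat.finite_of_card_ne_zero (by rw [card_K]; norm_num)
    have hc : ∀ a b : K, a * b = b * a := by
      intro a b
      have h1 : a * b * a⁻¹ * b⁻¹ ∈ commutator K :=
        Subgroup.commutator_mem_commutator (Subgroup.mem_top a) (Subgroup.mem_top b)
      rw [h, Subgroup.mem_bot] at h1
      have h2 : a * b * a⁻¹ * b⁻¹ * (b * a) = b * a := by rw [h1, one_mul]
      rw [← h2]
      group
    let _ : CommGroup K := { (inferInstance : Group K) with mul_comm := hc }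
    have hp := IsSimpleGroup.prime_card (α := K)
    rw [card_K] at hp
    norm_num at hp
  · exact h

end Cfsg.Agent.Lib.Helper10HSTab
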