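import Cfsg.Agent.Lib.Helper10Chain
import Cfsg.Agent.Lib.Helper33Sets

/-!
# Independent sets and hyperovals of the plane of order four inside the octad system (helper10)
-/

set_option autoImplicit false

namespace Cfsg.Agent.Lib.Helper10Hyper

open Cfsg Finset Cfsg.Agent.Lib.Helper33Golay Cfsg.Agent.Lib.Helper33Sets
  Cfsg.Agent.Lib.Helper10Ext Cfsg.Agent.Lib.Helper10Chain Cfsg.Agent.Lib.Helper8Steiner

def lineL : List ℕ := [9347075, 14716939, 12656663, 8536111, 13893731, 9465987, 11010247, 11731203, 8421811, 8524371, 8716939, 13124355, 10765331, 8983587, 8398155, 9471495, 9963547, 8505411, 8657159, 10496547, 12717187]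

def hypL : List ℕ := [4673536, 1916932, 5902340, 2711560, 3416076, 5423120, 1413136, 577556, 3719200, 2457636, 1155112, 6946864, 3149876, 274488, 2437184, 6447168, 4915272, 806984, 1118284, 3186768, 295004, 45156, 548976, 2162808, 5865600, 233604, 4505732, 4984976, 737424, 1441940, 2236568, 6373536, 2494624, 4726952, 1212616, 4210904, 205024, 2154756, 1360136, 622860, 2634000, 86296, 4587800, 4337952, 352544, 1581348, 2883880, 1610048, 4358468, 852304, 1065300, 2117984, 6562176, 659848, 5243276, 410048, 4264384, 3936768, 6685188, 2183684, 5382664, 537100, 2720272, 57880, 315936, 4424224, 1131056, 786996, 1647168, 287300, 3162696, 557672, 2278016, 7340688, 1704608, 4199076, 4235968, 111360, 1319696, 2097948, 1053480, 2392896, 66404, 140164, 7873536, 2241540, 1446920, 5325832, 4981772, 230424, 4252704, 1188912, 1721408, 4215876, 459844, 4752464, 2262112, 2204800, 574600, 5276, 271524, 3146920, 300224, 1115344, 4556032, 185600, 5248272, 656660, 6292772, 1836416, 83332, 222720, 4470272, 2754056, 4195896,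 6358592, 534160, 18144, 395040, 2103168, 2775040, 7145472, 7358468, 4483080, 210952, 2263060, 1218592, 4753444, 460848, 4216880, 4732992, 1189956, 2492488, 3442816, 43148, 2168976, 805024, 1116324, 272592, 6376, 5286144, 157968, 4262184, 6293840, 657760, 600448, 2115976, 5315072, 1460736, 723460, 4491792, 4196940, 563840, 19092, 166664, 1051584, 1387520, 551940, 2165772, 48144, 298024, 3152960, 3188, 2657536, 1068320, 24072, 790080, 69392]

theorem lineL_eq : lineL = octL.filter (fun o => Nat.beq (Nat.land 8388611 o) 8388611) := by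
  decide +kernel

theorem hypL_eq : hypL = (octL.filter (fun o => Nat.beq (pop (Nat.land o 8388611)) 2)).map
    (fun o => Nat.land o 8388604) := by decide +kernel

/-- no line meets the set in more than two points -/
def Ind (S : Finset GolayPt) : Prop := ∀ o ∈ octads, A3 ⊆ o → (o ∩ S).card ≤ 2

def indB (m : ℕ) : Bool :=
  Nat.beq (Nat.land m 8388611) 0 && lineL.all (fun o => Nat.ble (pop (Nat.land o m)) 2)

theorem beq_iff' {a b : ℕ} : Nat.beq a b = true ↔ a = b :=
  ⟨Nat.eq_of_beq_eq_true, fun h => h ▸ Nat.beq_refl a⟩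

theorem mem_lineL {o : ℕ} : o ∈ lineL ↔ o ∈ octL ∧ 8388611 &&& o = 8388611 := by
  rw [lineL_eq, List.mem_filter, beq_iff']
  rfl

theorem indB_iff (S : Finset GolayPt) : indB (enc S) = true ↔ Disjoint S A3 ∧ Ind S := by
  rw [indB, Bool.and_eq_true, beq_iff', List.all_eq_true]
  apply and_congr
  · rw [← dec_A3, ← dec_enc S, dec_disjoint_iff (enc_lt _), dec_enc]
    rfl
  · constructor
    · intro h o ho hAo
      have h1 : enc o ∈ lineL := by
        rw [mem_lineL]
        refine ⟨(mem_octads_iff o).1 ho, ?_⟩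
        rw [← dec_subset_iff (by norm_num), dec_A3, dec_enc]
        exact hAo
      have h2 := Nat.le_of_ble_eq_true (h _ h1)
      rw [card_eq_pop, enc_inter]
      exact h2
    · intro h o ho
      obtain ⟨h1, h2⟩ := mem_lineL.1 ho
      apply Nat.ble_eq_true_of_le
      have h3 := h (dec o) (dec_mem_octads h1) (by
        rw [← dec_A3, dec_subset_iff (by norm_num)]; exact h2)
      rw [card_eq_pop, enc_inter, enc_dec (octL_lt h1)] at h3
      exact h3

theorem count4 : (tetradL.filter indB).length = 2520 := by decide +kernel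

theorem ncard4 : {S : Finset GolayPt | S.card = 4 ∧ Disjoint S A3 ∧ Ind S}.ncard = 2520 := by
  rw [ncard_filter _ tetradL tetradL_nodup (fun _ h => tetradL_lt h) indB, count4]
  intro s
  rw [indB_iff, ← card_eq_4_iff]
  rfl

open Classical in
theorem parity {S : Finset GolayPt} (hc : S.card = 6) (hd : Disjoint S A3) (hI : Ind S) :
    ∀ o ∈ octads, A3 ⊆ o → (S ∩ o).card % 2 = 2 % 2 := by
  intro o₀ ho₀ hAo₀
  have h2 := hI o₀ ho₀ hAo₀
  rw [Finset.inter_comm]
  by_contra hne
  have h1 : (o₀ ∩ S).card = 1 := by omega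
  obtain ⟨P, hP⟩ := Finset.card_eq_one.1 h1
  have hP' : P ∈ o₀ ∩ S := hP ▸ Finset.mem_singleton_self P
  obtain ⟨hPo, hPS⟩ := Finset.mem_inter.1 hP'
  have hPA : P ∉ A3 := Finset.disjoint_left.1 hd hPS
  have hQ : ∀ Q ∈ S.erase P, ∃ c ∈ octads, insert Q (insert P A3) ⊆ c := by
    intro Q hQ
    obtain ⟨hQP, hQS⟩ := Finset.mem_erase.1 hQ
    have hQA := Finset.disjoint_left.1 hd hQS
    obtain ⟨c, hc, -⟩ := octads_steiner.2 (insert Q (insert P A3)) (by
      rw [Finset.card_insert_of_notMem, Finset.card_insert_of_notMem hPA, card_A3]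
      intro h
      rcases Finset.mem_insert.1 h with h | h
      · exact hQP h
      · exact hQA h)
    exact ⟨c, hc.1, hc.2⟩
  choose! f hf hfs using hQ
  have hnb : nb octads (insert P A3) = 5 := nb24_4 card_golayPt octads_steiner _
    (by rw [Finset.card_insert_of_notMem hPA, card_A3])
  have hsub : insert o₀ ((S.erase P).image f) ⊆
      Finset.univ.filter (fun c => c ∈ octads ∧ insert P A3 ⊆ c) := by
    intro c hc
    rcases Finset.mem_insert.1 hc with rfl | hc
    · exact Finset.mem_filter.2 ⟨Finset.mem_univ _, ho₀, Finset.insert_subset hPo hAo₀⟩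
    · obtain ⟨Q, hQ, rfl⟩ := Finset.mem_image.1 hc
      exact Finset.mem_filter.2 ⟨Finset.mem_univ _, hf Q hQ,
        (Finset.subset_insert _ _).trans (hfs Q hQ)⟩
  have hcard : (insert o₀ ((S.erase P).image f)).card = 6 := by
    rw [Finset.card_insert_of_notMem, Finset.card_image_of_injOn, Finset.card_erase_of_mem hPS, hc]
    · intro Q hQ Q' hQ' hQQ
      by_contra hne'
      have hQ1 := Finset.mem_erase.1 (Finset.mem_coe.1 hQ)
      have hQ2 := Finset.mem_erase.1 (Finset.mem_coe.1 hQ')
      have h3 : ({P, Q, Q'} : Finset GolayPt) ⊆ f Q ∩ S := by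
        intro z hz
        simp only [Finset.mem_insert, Finset.mem_singleton] at hz
        rcases hz with rfl | rfl | rfl
        · exact Finset.mem_inter.2 ⟨hfs Q hQ (by simp), hPS⟩
        · exact Finset.mem_inter.2 ⟨hfs z hQ (by simp), hQ1.2⟩
        · exact Finset.mem_inter.2 ⟨by rw [hQQ]; exact hfs z hQ' (by simp), hQ2.2⟩
      have h4 := Finset.card_le_card h3
      have h5 : ({P, Q, Q'} : Finset GolayPt).card = 3 := by
        rw [Finset.card_insert_of_notMem, Finset.card_pair hne']
        intro h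
        simp only [Finset.mem_insert, Finset.mem_singleton] at h
        rcases h with h | h
        · exact hQ1.1 h.symm
        · exact hQ2.1 h.symm
      have h6 := hI (f Q) (hf Q hQ) (((Finset.subset_insert _ _).trans
        (Finset.subset_insert _ _)).trans (hfs Q hQ))
      omega
    · intro h
      obtain ⟨Q, hQ, hQo⟩ := Finset.mem_image.1 h
      have hQ1 := Finset.mem_erase.1 hQ
      have h3 : Q ∈ o₀ ∩ S := Finset.mem_inter.2 ⟨by rw [← hQo]; exact hfs Q hQ (by simp), hQ1.2⟩
      rw [hP, Finset.mem_singleton] at h3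
      exact hQ1.1 h3
  have h7 := Finset.card_le_card hsub
  unfold nb at hnb
  omega

theorem hypL_all : hypL.all (fun m => isK 6 m && indB m) = true := by decide +kernel

theorem enc_A3 : enc A3 = 8388611 := by rw [← dec_A3, enc_dec (by norm_num)]

theorem hyper_iff (S : Finset GolayPt) :
    (S.card = 6 ∧ Disjoint S A3 ∧ Ind S) ↔ enc S ∈ hypL := by
  constructor
  · rintro ⟨hc, hd, hI⟩
    obtain ⟨x, hx, hxc, hox⟩ := H1_3 S hd (by rw [hc]) (parity hc hd hI)
    have hx' : x ⊆ A3 := hx
    rw [hypL_eq, List.mem_map]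
    refine ⟨enc (S ∪ x), List.mem_filter.2 ⟨(mem_octads_iff _).1 hox, ?_⟩, ?_⟩
    · rw [beq_iff']
      show pop (enc (S ∪ x) &&& 8388611) = 2
      rw [← enc_A3, ← enc_inter, ← card_eq_pop, Finset.union_inter_distrib_right,
        Finset.disjoint_iff_inter_eq_empty.1 hd, Finset.empty_union,
        Finset.inter_eq_left.2 hx', hxc]
    · show enc (S ∪ x) &&& 8388604 = enc S
      have h1 : (8388604 : ℕ) = 8388611 ^^^ 16777215 := by decide +kernel
      rw [← dec_eq_iff (lt_of_le_of_lt Nat.and_le_left (enc_lt _)), h1, dec_sdiff, dec_enc, dec_A3,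
        Finset.union_sdiff_distrib, Finset.sdiff_eq_empty_iff_subset.2 hx', Finset.union_empty,
        Finset.sdiff_eq_self_iff_disjoint.2 hd]
  · intro h
    have h1 := List.all_eq_true.1 hypL_all _ h
    rw [Bool.and_eq_true, isK_enc, indB_iff] at h1
    exact h1

theorem hypL_lt : ∀ m ∈ hypL, m < 2 ^ 24 := by decide +kernel

theorem ncard6 : {S : Finset GolayPt | S.card = 6 ∧ Disjoint S A3 ∧ Ind S}.ncard = 168 := by
  rw [ncard_eq_length {S : Finset GolayPt | S.card = 6 ∧ Disjoint S A3 ∧ Ind S} hypL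
    (by decide +kernel) hypL_lt hyper_iff]
  decide +kernel

theorem uniq_chk : (tetradL.filter indB).all (fun m =>
    Nat.beq ((hypL.filter (fun h => Nat.beq (Nat.land m h) m)).length) 1) = true := by
  decide +kernel

theorem exists_unique_hyper (S : Finset GolayPt) (h4 : S.card = 4) (hd : Disjoint S A3)
    (hI : Ind S) : ∃! H : Finset GolayPt, (H.card = 6 ∧ Disjoint H A3 ∧ Ind H) ∧ S ⊆ H := by
  have h1 : enc S ∈ tetradL.filter indB :=
    List.mem_filter.2 ⟨(card_eq_4_iff S).1 h4, (indB_iff S).2 ⟨hd, hI⟩⟩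
  have h2 := List.all_eq_true.1 uniq_chk _ h1
  rw [beq_iff'] at h2
  obtain ⟨h, hh⟩ := List.length_eq_one_iff.1 h2
  have h3 : h ∈ hypL.filter (fun h => Nat.beq (Nat.land (enc S) h) (enc S)) := by
    rw [hh]; exact List.mem_singleton.2 rfl
  obtain ⟨h4', h5⟩ := List.mem_filter.1 h3
  rw [beq_iff'] at h5
  have hlt := hypL_lt h h4'
  refine ⟨dec h, ⟨(hyper_iff _).2 (by rw [enc_dec hlt]; exact h4'), ?_⟩, ?_⟩
  · rw [← dec_enc S, dec_subset_iff (enc_lt S)]
    exact h5
  · rintro H ⟨hH, hSH⟩
    have h6 : enc H ∈ hypL.filter (fun h => Nat.beq (Nat.land (enc S) h) (enc S)) := by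
      refine List.mem_filter.2 ⟨(hyper_iff H).1 hH, ?_⟩
      rw [beq_iff']
      show enc S &&& enc H = enc S
      rw [← dec_subset_iff (enc_lt S), dec_enc, dec_enc]
      exact hSH
    rw [hh, List.mem_singleton] at h6
    rw [← h6, dec_enc]

end Cfsg.Agent.Lib.Helper10Hyper
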