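import Cfsg.Agent.Lib.Helper10Hyper

/-!
# Transport of independent sets of an abstract plane of order four to the octad model (helper10)
-/

set_option autoImplicit false

namespace Cfsg.Agent.Lib.Helper10HyperT

open Cfsg Finset Cfsg.Agent.Lib.Helper33Golay Cfsg.Agent.Lib.Helper10Ext
  Cfsg.Agent.Lib.Helper10Chain Cfsg.Agent.Lib.Helper10Hyper

variable {α : Type*} [Fintype α] [DecidableEq α] {L : Set (Finset α)} {ι : α → GolayPt}

theorem exists_emb (hα : Fintype.card α = 21) (hL : IsSteinerSystem 2 5 L) :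
    ∃ ι, Emb A3 L ι := emb_of_iso (U3 hα hL)

theorem inter_image (hι : Emb A3 L ι) (l S : Finset α) :
    ((l.image ι ∪ A3) ∩ S.image ι).card = (l ∩ S).card := by
  rw [Finset.union_inter_distrib_right,
    Finset.disjoint_iff_inter_eq_empty.1 (hι.disjoint S).symm, Finset.union_empty,
    ← Finset.image_inter _ _ hι.1, Finset.card_image_of_injective _ hι.1]

theorem ind_iff (hα : Fintype.card α = 21) (hL : IsSteinerSystem 2 5 L) (hι : Emb A3 L ι)
    (S : Finset α) : (∀ l ∈ L, (l ∩ S).card ≤ 2) ↔ Ind (S.image ι) := by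
  constructor
  · intro h o ho hAo
    obtain ⟨l, hl, hlo⟩ := hι.surj hL (by rw [hα, card_A3]) (by rw [card_A3]) o ho hAo
    have h1 := inter_image hι l S
    rw [hlo, Finset.sdiff_union_of_subset hAo] at h1
    rw [h1]
    exact h l hl
  · intro h l hl
    rw [← inter_image hι l S]
    exact h _ (hι.2.2 l hl) Finset.subset_union_right

theorem exists_pullback (hα : Fintype.card α = 21) (hι : Emb A3 L ι) (S' : Finset GolayPt)
    (hd : Disjoint S' A3) : ∃ S : Finset α, S.image ι = S' := by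
  refine ⟨Finset.univ.filter (fun u => ι u ∈ S'), ?_⟩
  ext z
  simp only [Finset.mem_image, Finset.mem_filter, Finset.mem_univ, true_and]
  constructor
  · rintro ⟨u, hu, rfl⟩; exact hu
  · intro hz
    obtain ⟨u, rfl⟩ := hι.exists_preimage (by rw [hα, card_A3]) z (Finset.disjoint_left.1 hd hz)
    exact ⟨u, hz, rfl⟩

theorem image_set_eq (hα : Fintype.card α = 21) (hL : IsSteinerSystem 2 5 L) (hι : Emb A3 L ι)
    (k : ℕ) : (fun S : Finset α => S.image ι) '' {S : Finset α | S.card = k ∧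
      ∀ l ∈ L, (l ∩ S).card ≤ 2} = {S' | S'.card = k ∧ Disjoint S' A3 ∧ Ind S'} := by
  ext S'
  constructor
  · rintro ⟨S, ⟨hc, hI⟩, rfl⟩
    exact ⟨by rw [Finset.card_image_of_injective _ hι.1, hc], hι.disjoint S,
      (ind_iff hα hL hι S).1 hI⟩
  · rintro ⟨hc, hd, hI⟩
    obtain ⟨S, rfl⟩ := exists_pullback hα hι S' hd
    exact ⟨S, ⟨by rw [← hc, Finset.card_image_of_injective _ hι.1],
      (ind_iff hα hL hι S).2 hI⟩, rfl⟩

theorem ncard_eq (hα : Fintype.card α = 21) (hL : IsSteinerSystem 2 5 L) (hι : Emb A3 L ι)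
    (k : ℕ) : {S : Finset α | S.card = k ∧ ∀ l ∈ L, (l ∩ S).card ≤ 2}.ncard =
      {S' : Finset GolayPt | S'.card = k ∧ Disjoint S' A3 ∧ Ind S'}.ncard := by
  rw [← image_set_eq hα hL hι k, Set.ncard_image_of_injective _ (Finset.image_injective hι.1)]

theorem main (hα : Fintype.card α = 21) (hL : IsSteinerSystem 2 5 L) :
    {S : Finset α | (S.card = 4 ∧ ∀ l ∈ L, (l ∩ S).card ≤ 2)}.ncard = 2520 ∧
    {H : Finset α | (H.card = 6 ∧ ∀ l ∈ L, (l ∩ H).card ≤ 2)}.ncard = 168 ∧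
    ∀ S : Finset α, (S.card = 4 ∧ ∀ l ∈ L, (l ∩ S).card ≤ 2) →
      ∃! H : Finset α, (H.card = 6 ∧ ∀ l ∈ L, (l ∩ H).card ≤ 2) ∧ S ⊆ H := by
  obtain ⟨ι, hι⟩ := exists_emb hα hL
  refine ⟨by rw [ncard_eq hα hL hι, ncard4], by rw [ncard_eq hα hL hι, ncard6], ?_⟩
  rintro S ⟨hc, hI⟩
  obtain ⟨H', ⟨⟨hH1, hH2, hH3⟩, hSH⟩, huniq⟩ := exists_unique_hyper (S.image ι)
    (by rw [Finset.card_image_of_injective _ hι.1, hc]) (hι.disjoint S) ((ind_iff hα hL hι S).1 hI)
  obtain ⟨H, rfl⟩ := exists_pullback hα hι H' hH2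
  refine ⟨H, ⟨⟨by rw [← hH1, Finset.card_image_of_injective _ hι.1],
    (ind_iff hα hL hι H).2 hH3⟩, ?_⟩, ?_⟩
  · exact (Finset.image_subset_image_iff hι.1).1 hSH
  · rintro H₁ ⟨⟨h1, h2⟩, h3⟩
    apply Finset.image_injective hι.1
    exact huniq _ ⟨⟨by rw [Finset.card_image_of_injective _ hι.1, h1], hι.disjoint H₁,
      (ind_iff hα hL hι H₁).1 h2⟩, Finset.image_subset_image h3⟩

end Cfsg.Agent.Lib.Helper10HyperT
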