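import Cfsg.Agent.Lib.Helper10Sharp

set_option autoImplicit false

namespace Cfsg.Agent.Lib.Helper10Mathieu

open Cfsg.Agent.Lib.Helper10Sharp

open MulAction Subgroup

variable {G α : Type*} [Group G] [MulAction G α] {k : ℕ}

theorem card_dvd_of_pretransitive (H : Type*) [Group H] [MulAction H α] [IsPretransitive H α]
    [Nonempty α] : Nat.card α ∣ Nat.card H := by
  obtain ⟨a⟩ := ‹Nonempty α›
  rw [← index_stabilizer_of_transitive H a]
  exact Subgroup.index_dvd_card _

theorem sharp_faithful [Finite α] (h : Sharp G α k) (hk : k ≤ Nat.card α) (g : G)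
    (hg : ∀ y : α, g • y = y) : g = 1 := by
  classical
  have := Fintype.ofFinite α
  rw [Nat.card_eq_fintype_card] at hk
  obtain ⟨l, hl, hlk⟩ := exists_nodup hk
  exact h.eq_one l hl hlk g (fun y _ => hg y)

theorem sharp_isPreprimitive [Finite α] (h : Sharp G α (k + 2)) (hk : k + 2 ≤ Nat.card α) :
    IsPreprimitive G α := by
  have := h.trans
  exact isPreprimitive_of_is_two_pretransitive
    (isMultiplyPretransitive_of_le (n := k + 2) (by omega) hk)

theorem sharp_pretransitive_of_normal [Finite α] (h : Sharp G α (k + 2))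
    (hk : k + 2 ≤ Nat.card α) (N : Subgroup G) [N.Normal] (hN : N ≠ ⊥) : IsPretransitive N α := by
  have := sharp_isPreprimitive h hk
  apply IsQuasiPreprimitive.isPretransitive_of_normal (G := G)
  intro hfix
  apply hN
  rw [eq_bot_iff]
  intro n hn
  rw [Subgroup.mem_bot]
  apply sharp_faithful h hk
  intro y
  have : y ∈ fixedPoints N α := by rw [hfix]; trivial
  exact this ⟨n, hn⟩

theorem simple_of_sharp4_11 [Finite α] (h : Sharp G α 4) (h11 : Nat.card α = 11) :
    IsSimpleGroup G ∧ Nat.card G = 7920 := by
  classical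
  have := Fintype.ofFinite α
  have hcard : Nat.card G = 7920 := by
    rw [h.card_eq (by rw [← Nat.card_eq_fintype_card]; omega), ← Nat.card_eq_fintype_card, h11]
    rfl
  have hfin : Finite G := Nat.finite_of_card_ne_zero (by omega)
  have hne : Nonempty α := (Nat.card_pos_iff.mp (by omega)).1
  have hp11 : Fact (Nat.Prime 11) := ⟨by norm_num⟩
  refine ⟨?_, hcard⟩
  have hnt : Nontrivial G := by
    rw [← Finite.one_lt_card_iff_nontrivial]; omega
  refine ⟨fun N hN => ?_⟩
  by_contra hcon
  rw [not_or] at hcon
  obtain ⟨hNbot, hNtop⟩ := hcon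
  have hNtr : IsPretransitive N α := sharp_pretransitive_of_normal h (k := 2) (by omega) N hNbot
  have h11N : 11 ∣ Nat.card N := h11 ▸ card_dvd_of_pretransitive (α := α) N
  obtain ⟨n, hn⟩ := exists_prime_orderOf_dvd_card' 11 h11N
  -- the Sylow subgroup
  have hQcard : Nat.card (zpowers (n : G)) = 11 := by
    rw [Nat.card_zpowers, Subgroup.orderOf_coe, hn]
  have hQidx : (zpowers (n : G)).index = 720 := by
    have := (zpowers (n : G)).card_mul_index
    rw [hQcard, hcard] at this
    omega
  let P : Sylow 11 G := (IsPGroup.of_card (n := 1) (by rw [hQcard, pow_one])).toSylow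
    (P := zpowers (n : G)) (by rw [hQidx]; norm_num)
  have hPcoe : (P : Subgroup G) = zpowers (n : G) := rfl
  have hPN : (P : Subgroup G) ≤ N := by
    rw [hPcoe, zpowers_le]; exact n.2
  have hPcard : Nat.card (P : Subgroup G) = 11 := hQcard
  have hPidx : (P : Subgroup G).index = 720 := hQidx
  have hPcyc : IsCyclic (P : Subgroup G) := isCyclic_of_prime_card hPcard
  have hPcomm : ∀ x ∈ (P : Subgroup G), ∀ y ∈ (P : Subgroup G), x * y = y * x := by
    intro x hx y hy
    rw [hPcoe] at hx hy
    obtain ⟨i, rfl⟩ := mem_zpowers_iff.mp hx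
    obtain ⟨j, rfl⟩ := mem_zpowers_iff.mp hy
    rw [← zpow_add, ← zpow_add, add_comm]
  -- P is transitive
  have hPtr : IsPretransitive (P : Subgroup G) α := by
    obtain ⟨a, ha⟩ : ∃ a : α, (n : G) • a ≠ a := by
      by_contra hcon
      push Not at hcon
      have h1 : (n : G) = 1 := sharp_faithful h (by omega) _ hcon
      have h2 : orderOf (n : G) = 11 := by rw [Subgroup.orderOf_coe, hn]
      rw [h1, orderOf_one] at h2
      omega
    rw [isPretransitive_iff_orbit_eq_univ a, Set.eq_univ_iff_ncard, ← index_stabilizer, h11]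
    have hdvd : (stabilizer (P : Subgroup G) a).index ∣ 11 := by
      have := Subgroup.index_dvd_card (stabilizer (P : Subgroup G) a)
      rwa [hPcard] at this
    rcases (Nat.dvd_prime hp11.out).mp hdvd with h1 | h1
    · exfalso
      rw [Subgroup.index_eq_one] at h1
      have hnP : (n : G) ∈ (P : Subgroup G) := by rw [hPcoe]; exact mem_zpowers _
      have : (⟨(n : G), hnP⟩ : (P : Subgroup G)) ∈ stabilizer (P : Subgroup G) a := by
        rw [h1]; trivial
      exact ha this
    · exact h1
  have hcent : centralizer ((P : Subgroup G) : Set G) = (P : Subgroup G) := by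
    apply le_antisymm
    · intro g hg
      obtain ⟨a⟩ := hne
      obtain ⟨p, hp⟩ := exists_smul_eq (P : Subgroup G) a (g • a)
      have hp' : (p : G) • a = g • a := hp
      have h1 : (p : G)⁻¹ * g = 1 := by
        apply sharp_faithful h (by omega)
        intro y
        obtain ⟨p', rfl⟩ := exists_smul_eq (P : Subgroup G) a y
        have hc : (p' : G) * g = g * p' := mem_centralizer_iff.mp hg p' p'.2
        show ((p : G)⁻¹ * g) • ((p' : G) • a) = (p' : G) • a
        rw [← mul_smul, mul_assoc, ← hc, mul_smul, mul_smul, ← hp', ← mul_smul, ← mul_smul,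
          mul_assoc, hPcomm p' p'.2 p p.2, inv_mul_cancel_left]
      rw [inv_mul_eq_one] at h1
      rw [← h1]; exact p.2
    · intro g hg
      rw [mem_centralizer_iff]
      intro y hy
      exact hPcomm y hy g hg
  have key := card_dvd_of_injective _
    (QuotientGroup.kerLift_injective (P : Subgroup G).normalizerMonoidHom)
  rw [normalizerMonoidHom_ker, ← index, ← relIndex, hcent, hPcyc.card_mulAut, hPcard,
    Nat.totient_prime hp11.out] at key
  have hmul := relIndex_mul_index (le_normalizer (H := (P : Subgroup G)))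
  rw [hPidx] at hmul
  have hmod : (normalizer ((P : Subgroup G) : Set G)).index ≡ 1 [MOD 11] := by
    have h0 : Nat.card (Sylow 11 G) = (normalizer ((P : Subgroup G) : Set G)).index :=
      P.card_eq_index_normalizer
    rw [← h0]
    exact card_sylow_modEq_one 11 G
  have hr : (P : Subgroup G).relIndex (normalizer ((P : Subgroup G) : Set G)) = 5 ∧
      (normalizer ((P : Subgroup G) : Set G)).index = 144 := by
    generalize (P : Subgroup G).relIndex (normalizer ((P : Subgroup G) : Set G)) = r at key hmul
    generalize (normalizer ((P : Subgroup G) : Set G)).index = i at hmul hmod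
    have hr10 : r ≤ 10 := Nat.le_of_dvd (by norm_num) key
    unfold Nat.ModEq at hmod
    interval_cases r <;> omega
  obtain ⟨hr5, hi144⟩ := hr
  have hPR : (P : Subgroup G) ≤ N ⊓ normalizer ((P : Subgroup G) : Set G) :=
    le_inf hPN le_normalizer
  have hmul2 := relIndex_mul_relIndex (P : Subgroup G) (N ⊓ normalizer ((P : Subgroup G) : Set G))
    (normalizer ((P : Subgroup G) : Set G)) hPR inf_le_right
  rw [hr5] at hmul2
  have hfrat : normalizer ((P : Subgroup G) : Set G) ⊔ N = ⊤ := Sylow.normalizer_sup_eq_top' P hPN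
  rcases (Nat.dvd_prime Nat.prime_five).mp ⟨_, hmul2.symm⟩ with h1 | h1
  · -- the normaliser of P in N is P
    rw [relIndex_eq_one] at h1
    let P' : Sylow 11 N := P.subtype hPN
    have hP'coe : (P' : Subgroup N) = (P : Subgroup G).subgroupOf N := Sylow.coe_subtype P hPN
    have hP' : normalizer ((P' : Subgroup N) : Set N) ≤ centralizer ((P' : Subgroup N) : Set N) := by
      rw [hP'coe, ← subgroupOf_normalizer_eq hPN]
      intro m hm
      rw [mem_subgroupOf] at hm
      have hmP : (m : G) ∈ (P : Subgroup G) := h1 ⟨m.2, hm⟩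
      rw [mem_centralizer_iff]
      intro y hy
      apply Subtype.ext
      exact hPcomm y (mem_subgroupOf.mp hy) m hmP
    have hK1 := MonoidHom.not_dvd_card_ker_transferSylow P' hP'
    have hK2 := (MonoidHom.ker_transferSylow_isComplement' P' hP').card_mul_card
    set K := (MonoidHom.transferSylow P' hP').ker with hK
    have hprim : IsPreprimitive N α := IsPreprimitive.of_prime_card (h11 ▸ hp11.out)
    have hKfix : fixedPoints K α = Set.univ := by
      by_contra hcon
      have : IsPretransitive K α := IsQuasiPreprimitive.isPretransitive_of_normal (G := N) hcon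
      exact hK1 (h11 ▸ card_dvd_of_pretransitive (α := α) K)
    have hKbot : K = ⊥ := by
      rw [eq_bot_iff]
      intro m hm
      rw [Subgroup.mem_bot]
      apply Subtype.ext
      apply sharp_faithful h (by omega)
      intro y
      have : y ∈ fixedPoints K α := by rw [hKfix]; trivial
      exact this ⟨m, hm⟩
    rw [hKbot, Subgroup.card_bot, one_mul] at hK2
    have hP'card : Nat.card (P' : Subgroup N) = 11 := by
      rw [hP'coe]
      exact (Nat.card_congr (subgroupOfEquivOfLe hPN).toEquiv).trans hPcard
    have hNP : (P : Subgroup G) = N := by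
      apply Subgroup.eq_of_le_of_card_ge hPN
      rw [hPcard, ← hK2, hP'card]
    have : (P : Subgroup G).Normal := hNP ▸ hN
    rw [normalizer_eq_top, index_top] at hi144
    omega
  · rw [h1] at hmul2
    have h2 : (N ⊓ normalizer ((P : Subgroup G) : Set G)).relIndex
        (normalizer ((P : Subgroup G) : Set G)) = 1 := by omega
    rw [relIndex_eq_one] at h2
    apply hNtop
    rw [← hfrat]
    exact (sup_eq_right.mpr (h2.trans inf_le_left)).symm


theorem simple_of_sharp5_12 [Finite α] (h : Sharp G α 5) (h12 : Nat.card α = 12) :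
    IsSimpleGroup G ∧ Nat.card G = 95040 := by
  classical
  have := Fintype.ofFinite α
  have hcard : Nat.card G = 95040 := by
    rw [h.card_eq (by rw [← Nat.card_eq_fintype_card]; omega), ← Nat.card_eq_fintype_card, h12]
    rfl
  have hfin : Finite G := Nat.finite_of_card_ne_zero (by omega)
  have hne : Nonempty α := (Nat.card_pos_iff.mp (by omega)).1
  refine ⟨?_, hcard⟩
  have hnt : Nontrivial G := by
    rw [← Finite.one_lt_card_iff_nontrivial]; omega
  refine ⟨fun N hN => ?_⟩
  by_contra hcon
  rw [not_or] at hcon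
  obtain ⟨hNbot, hNtop⟩ := hcon
  have hNtr : IsPretransitive N α := sharp_pretransitive_of_normal h (k := 3) (by omega) N hNbot
  obtain ⟨a⟩ := hne
  have hS := h.stabilizer (by omega) a
  have hScard := SubMulAction.nat_card_ofStabilizer_add_one_eq (G := G) a
  have hSsimple := (simple_of_sharp4_11 hS (by omega)).1
  rcases hSsimple.eq_bot_or_eq_top_of_normal (N.subgroupOf (stabilizer G a)) inferInstance
    with h1 | h1
  · -- N is regular
    rw [subgroupOf_eq_bot, disjoint_iff] at h1
    have hreg : ∀ n ∈ N, n • a = a → n = 1 := by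
      intro n hn hna
      have : n ∈ N ⊓ stabilizer G a := ⟨hn, hna⟩
      rwa [h1, Subgroup.mem_bot] at this
    have hstab : stabilizer N a = ⊥ := by
      rw [eq_bot_iff]
      intro n hn
      rw [Subgroup.mem_bot]
      exact Subtype.ext (hreg n n.2 hn)
    have hNcard : Nat.card N = 12 := by
      have := index_stabilizer_of_transitive N a
      rwa [hstab, Subgroup.index_bot, h12] at this
    have hp2 : Fact (Nat.Prime 2) := ⟨Nat.prime_two⟩
    have hp3 : Fact (Nat.Prime 3) := ⟨Nat.prime_three⟩
    obtain ⟨n2, hn2⟩ := exists_prime_orderOf_dvd_card' (G := N) 2 (by rw [hNcard]; norm_num)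
    obtain ⟨n3, hn3⟩ := exists_prime_orderOf_dvd_card' (G := N) 3 (by rw [hNcard]; norm_num)
    have hn2a : a ≠ (n2 : G) • a := by
      intro hh
      have h2 := hreg n2 n2.2 hh.symm
      have h3 : orderOf (n2 : G) = 2 := by rw [Subgroup.orderOf_coe, hn2]
      rw [h2, orderOf_one] at h3
      omega
    have hn3a : a ≠ (n3 : G) • a := by
      intro hh
      have h2 := hreg n3 n3.2 hh.symm
      have h3 : orderOf (n3 : G) = 3 := by rw [Subgroup.orderOf_coe, hn3]
      rw [h2, orderOf_one] at h3
      omega
    have h2tr : IsMultiplyPretransitive G α 2 := by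
      have := h.trans
      exact isMultiplyPretransitive_of_le (n := 5) (by omega) (by omega)
    obtain ⟨s, hsa, hs⟩ := is_two_pretransitive_iff.mp h2tr hn2a hn3a
    have hconj : (n3 : G)⁻¹ * (s * n2 * s⁻¹) = 1 := by
      apply hreg
      · exact N.mul_mem (N.inv_mem n3.2) (hN.conj_mem _ n2.2 s)
      · have hsa' : s⁻¹ • a = a := by rw [inv_smul_eq_iff, hsa]
        rw [mul_smul, mul_smul, mul_smul, hsa', hs, inv_smul_smul]
    rw [inv_mul_eq_one] at hconj
    have h3 : orderOf (n3 : G) = 3 := by rw [Subgroup.orderOf_coe, hn3]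
    have h2 : orderOf (s * n2 * s⁻¹ : G) = 2 := by
      rw [← hn2, ← Subgroup.orderOf_coe]
      have hsc : SemiconjBy s (n2 : G) (s * n2 * s⁻¹) := by
        unfold SemiconjBy; group
      exact (hsc.orderOf_eq).symm
    rw [hconj, h2] at h3
    omega
  · rw [subgroupOf_eq_top] at h1
    apply hNtop
    rw [eq_top_iff]
    intro g _
    obtain ⟨n, hn⟩ := exists_smul_eq N a (g • a)
    have hn' : (n : G) • a = g • a := hn
    have : (n : G)⁻¹ * g ∈ stabilizer G a := by
      rw [mem_stabilizer_iff, mul_smul, ← hn', inv_smul_smul]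
    have h2 := N.mul_mem n.2 (h1 this)
    rwa [mul_inv_cancel_left] at h2

end Cfsg.Agent.Lib.Helper10Mathieu
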