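import Cfsg.Agent.Lib.Helper10Fam

/-!
# Packaged orbit statements for stabilisers in the group of the length-24 code (helper10)
-/

set_option autoImplicit false

namespace Cfsg.Agent.Lib.Helper10Orb2

open Cfsg Cfsg.Agent.Lib.Helper33Golay Cfsg.Agent.Lib.Helper10Orb
open scoped Pointwise
open MulAction

variable {α : Type*} [MulAction (Equiv.Perm GolayPt) α]
variable {β : Type*} [MulAction (Equiv.Perm GolayPt) β]
variable {F : Set α} {n : ℕ} {V : ℕ → Bool} {code : ℕ → ℕ} {obj : ℕ → α} {act : ℕ → ℕ → ℕ}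

/-- the stabiliser of `Z` is transitive on the classes of the invariant `c Z`, of sizes `cnt v`,
and all values of the invariant satisfy `p` -/
structure Pack (F : Set α) (c : β → α → ℕ) (Z : β) (cnt : ℕ → ℕ) (p : ℕ → Bool) : Prop where
  tr : ∀ x ∈ F, ∀ y ∈ F, c Z x = c Z y → ∃ g ∈ M24, g • Z = Z ∧ g • x = y
  count : ∀ v, {x | x ∈ F ∧ c Z x = v}.ncard = cnt v
  all : ∀ x ∈ F, p (c Z x) = true

theorem pack (hF : IsCoded F n V code obj act) (c : β → α → ℕ)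
    (hc : ∀ g ∈ M24, ∀ z x, c (g • z) (g • x) = c z x) (Z0 : β) (cls : ℕ → ℕ)
    (hcls : ∀ i < n, V i = true → c Z0 (obj (code i)) = cls (code i))
    (gens : List ℕ) (hgens : ∀ P ∈ gens, inM24 P = true ∧ toPerm P • Z0 = Z0)
    (C : ℕ) (rootOf : ℕ → ℕ)
    (hchk : (List.range n).all (chkPos n V code act gens C cls rootOf) = true)
    (p : ℕ → Bool) (hp : (List.range n).all (fun i => !(V i) || p (cls (code i))) = true)
    (Z : β) (k : Equiv.Perm GolayPt) (hk : k ∈ M24) (hkZ : k • Z = Z0) :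
    Pack F c Z (fun v => ((List.range n).filter
      (fun i => V i && Nat.beq (cls (code i)) v)).length) p where
  tr := trans_transport hF.inv c hc Z0 Z k hk hkZ
    (trans_base hF c Z0 cls hcls gens hgens C rootOf hchk)
  count v := by
    rw [ncard_transport' hF.inv c hc Z0 Z k hk hkZ v]
    apply ncard_class hF
    intro i hi hV
    rw [hcls i hi hV, beq_iff]
  all x hx := by
    obtain ⟨i, hi, hV, hix⟩ := hF.surj (k • x) (hF.inv k hk x hx)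
    have h1 := List.all_eq_true.1 hp i (List.mem_range.2 hi)
    rw [hV, Bool.not_true, Bool.false_or, ← hcls i hi hV, hix, ← hkZ, hc k hk] at h1
    exact h1

section
variable [MulAction ↥M24 β] (hβ : ∀ (g : ↥M24) (z : β), g • z = (g : Equiv.Perm GolayPt) • z)
  (Z : β) [MulAction ↥(stabilizer ↥M24 Z) α]
  (hα : ∀ (g : ↥(stabilizer ↥M24 Z)) (x : α), g • x = ((g : ↥M24) : Equiv.Perm GolayPt) • x)
  (hinv : ∀ g ∈ M24, ∀ x ∈ F, g • x ∈ F) (c : β → α → ℕ)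
  (hc : ∀ g ∈ M24, ∀ z x, c (g • z) (g • x) = c z x)

include hβ hα hinv hc

theorem three_orbits (cnt : ℕ → ℕ) (v₁ v₂ v₃ m₁ m₂ m₃ : ℕ)
    (hP : Pack F c Z cnt (fun v => Nat.beq v v₁ || Nat.beq v v₂ || Nat.beq v v₃))
    (h₁ : cnt v₁ = m₁) (h₂ : cnt v₂ = m₂) (h₃ : cnt v₃ = m₃)
    (p₁ : 0 < m₁) (p₂ : 0 < m₂) (p₃ : 0 < m₃) :
    ∃ X₁ ∈ F, ∃ X₂ ∈ F, ∃ X₃ ∈ F, (orbit ↥(stabilizer ↥M24 Z) X₁).ncard = m₁ ∧
      (orbit ↥(stabilizer ↥M24 Z) X₂).ncard = m₂ ∧ (orbit ↥(stabilizer ↥M24 Z) X₃).ncard = m₃ ∧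
      F = orbit ↥(stabilizer ↥M24 Z) X₁ ∪ orbit ↥(stabilizer ↥M24 Z) X₂ ∪
        orbit ↥(stabilizer ↥M24 Z) X₃ := by
  obtain ⟨X₁, hX₁, hn₁, ho₁⟩ := exists_orbit hβ Z hα hinv c hc hP.tr v₁ m₁
    ((hP.count v₁).trans h₁) p₁
  obtain ⟨X₂, hX₂, hn₂, ho₂⟩ := exists_orbit hβ Z hα hinv c hc hP.tr v₂ m₂
    ((hP.count v₂).trans h₂) p₂
  obtain ⟨X₃, hX₃, hn₃, ho₃⟩ := exists_orbit hβ Z hα hinv c hc hP.tr v₃ m₃
    ((hP.count v₃).trans h₃) p₃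
  refine ⟨X₁, hX₁, X₂, hX₂, X₃, hX₃, hn₁, hn₂, hn₃, ?_⟩
  rw [ho₁, ho₂, ho₃]
  ext x
  constructor
  · intro hx
    have := hP.all x hx
    simp only [Bool.or_eq_true, beq_iff] at this
    rcases this with (h | h) | h
    · exact Or.inl (Or.inl ⟨hx, h⟩)
    · exact Or.inl (Or.inr ⟨hx, h⟩)
    · exact Or.inr ⟨hx, h⟩
  · rintro ((h | h) | h) <;> exact h.1

theorem four_orbits (cnt : ℕ → ℕ) (v₁ v₂ v₃ v₄ m₁ m₂ m₃ m₄ : ℕ)
    (hP : Pack F c Z cnt (fun v => Nat.beq v v₁ || Nat.beq v v₂ || Nat.beq v v₃ || Nat.beq v v₄))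
    (h₁ : cnt v₁ = m₁) (h₂ : cnt v₂ = m₂) (h₃ : cnt v₃ = m₃) (h₄ : cnt v₄ = m₄)
    (p₁ : 0 < m₁) (p₂ : 0 < m₂) (p₃ : 0 < m₃) (p₄ : 0 < m₄) :
    ∃ X₁ ∈ F, ∃ X₂ ∈ F, ∃ X₃ ∈ F, ∃ X₄ ∈ F, (orbit ↥(stabilizer ↥M24 Z) X₁).ncard = m₁ ∧
      (orbit ↥(stabilizer ↥M24 Z) X₂).ncard = m₂ ∧ (orbit ↥(stabilizer ↥M24 Z) X₃).ncard = m₃ ∧
      (orbit ↥(stabilizer ↥M24 Z) X₄).ncard = m₄ ∧
      F = orbit ↥(stabilizer ↥M24 Z) X₁ ∪ orbit ↥(stabilizer ↥M24 Z) X₂ ∪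
        orbit ↥(stabilizer ↥M24 Z) X₃ ∪ orbit ↥(stabilizer ↥M24 Z) X₄ := by
  obtain ⟨X₁, hX₁, hn₁, ho₁⟩ := exists_orbit hβ Z hα hinv c hc hP.tr v₁ m₁
    ((hP.count v₁).trans h₁) p₁
  obtain ⟨X₂, hX₂, hn₂, ho₂⟩ := exists_orbit hβ Z hα hinv c hc hP.tr v₂ m₂
    ((hP.count v₂).trans h₂) p₂
  obtain ⟨X₃, hX₃, hn₃, ho₃⟩ := exists_orbit hβ Z hα hinv c hc hP.tr v₃ m₃
    ((hP.count v₃).trans h₃) p₃
  obtain ⟨X₄, hX₄, hn₄, ho₄⟩ := exists_orbit hβ Z hα hinv c hc hP.tr v₄ m₄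
    ((hP.count v₄).trans h₄) p₄
  refine ⟨X₁, hX₁, X₂, hX₂, X₃, hX₃, X₄, hX₄, hn₁, hn₂, hn₃, hn₄, ?_⟩
  rw [ho₁, ho₂, ho₃, ho₄]
  ext x
  constructor
  · intro hx
    have := hP.all x hx
    simp only [Bool.or_eq_true, beq_iff] at this
    rcases this with ((h | h) | h) | h
    · exact Or.inl (Or.inl (Or.inl ⟨hx, h⟩))
    · exact Or.inl (Or.inl (Or.inr ⟨hx, h⟩))
    · exact Or.inl (Or.inr ⟨hx, h⟩)
    · exact Or.inr ⟨hx, h⟩
  · rintro (((h | h) | h) | h) <;> exact h.1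

end

end Cfsg.Agent.Lib.Helper10Orb2

namespace Cfsg.Agent.Lib.Helper10Orb2

open Cfsg Cfsg.Agent.Lib.Helper33Golay Cfsg.Agent.Lib.Helper10Orb Cfsg.Agent.Lib.Helper10Fam
open scoped Pointwise

/-- a packed permutation permuting the masks of `l` fixes the set system `setOf l` -/
theorem smul_setOf_eq {P : ℕ} (h : validPerm P = true) (l : List ℕ)
    (hsub : l.all (fun u => l.any (Nat.beq (app P u))) = true) : toPerm P • setOf l = setOf l := by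
  apply Finset.eq_of_subset_of_card_le
  · rw [smul_setOf h]
    intro x hx
    obtain ⟨u, hu, rfl⟩ := mem_setOf.1 hx
    obtain ⟨w, hw, rfl⟩ := List.mem_map.1 hu
    have := List.all_eq_true.1 hsub w hw
    obtain ⟨y, hy, hyw⟩ := List.any_eq_true.1 this
    rw [beq_iff] at hyw
    exact mem_setOf.2 ⟨y, hy, by rw [hyw]⟩
  · rw [Finset.card_smul_finset]

end Cfsg.Agent.Lib.Helper10Orb2
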