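import Cfsg.Agent.Lib.Helper10AutW
import Cfsg.Agent.Lib.Helper10HyperT
import Cfsg.Agent.Lib.Helper10Plane
import Cfsg.Agent.S0364

/-!
# A lower bound for the automorphism group of a plane of order four; hyperoval stabilisers (helper10)
-/

set_option autoImplicit false

namespace Cfsg.Agent.Lib.Helper10PGammaL

open Cfsg Finset Equiv Cfsg.Agent.Lib.Helper33Golay Cfsg.Agent.Lib.Helper10Ext
  Cfsg.Agent.Lib.Helper10Chain Cfsg.Agent.Lib.Helper10AutW
open scoped Pointwise

/-- generic orbit-stabiliser lower bound -/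
theorem card_stabilizer_ge {G X : Type*} [Group G] [Finite G] [MulAction G X] (x : X) (S : Set X)
    (hS : S.Finite) (hx : ∀ g : G, g • x ∈ S) (n m : ℕ) (hm : S.ncard ≤ m)
    (hG : n * m ≤ Nat.card G) (hm0 : 0 < m) : n ≤ Nat.card (MulAction.stabilizer G x) := by
  have h1 := (MulAction.stabilizer G x).card_mul_index
  rw [MulAction.index_stabilizer] at h1
  have h2 : (MulAction.orbit G x).ncard ≤ m := by
    refine le_trans (Set.ncard_le_ncard ?_ hS) hm
    rintro _ ⟨g, rfl⟩
    exact hx g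
  by_contra hlt
  rw [not_le] at hlt
  have h3 : Nat.card (MulAction.stabilizer G x) * (MulAction.orbit G x).ncard < n * m := by
    calc _ ≤ Nat.card (MulAction.stabilizer G x) * m := Nat.mul_le_mul_left _ h2
      _ < n * m := Nat.mul_lt_mul_of_pos_right hlt hm0
  omega

theorem ncard_card3 : {T : Finset GolayPt | T.card = 3}.ncard = 2024 := by
  have h : {T : Finset GolayPt | T.card = 3} = ↑(Finset.powersetCard 3 (Finset.univ : Finset GolayPt)) := by
    ext T
    simp [Finset.mem_powersetCard]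
  rw [h, Set.ncard_coe_finset, Finset.card_powersetCard, Finset.card_univ, card_golayPt]
  decide

theorem card_stab_A3 : 120960 ≤ Nat.card (MulAction.stabilizer M24 A3) := by
  apply card_stabilizer_ge A3 {T : Finset GolayPt | T.card = 3} (Set.toFinite _) _ 120960 2024
    ncard_card3.le (by rw [Cfsg.Agent.S0364.result]) (by norm_num)
  intro g
  show (g • A3).card = 3
  rw [Finset.card_smul_finset, card_A3]


theorem not_mem_iff {A : Finset GolayPt} {g : Perm GolayPt} (hg : A.image g = A) (x : GolayPt) :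
    g x ∉ A ↔ x ∉ A := by
  rw [not_iff_not]
  constructor
  · intro h
    rw [← hg] at h
    obtain ⟨y, hy, hyx⟩ := Finset.mem_image.1 h
    rwa [← g.injective hyx]
  · intro h
    rw [← hg]
    exact Finset.mem_image_of_mem _ h

theorem key' {A : Finset GolayPt} {g : Perm GolayPt} (hg : A.image g = A)
    (b : Finset {x : GolayPt // x ∉ A}) :
    (b.image (g.subtypePerm (not_mem_iff hg))).map (Function.Embedding.subtype _) ∪ A =
      (b.map (Function.Embedding.subtype _) ∪ A).image g := by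
  rw [Finset.image_union, hg, Finset.map_eq_image, Finset.map_eq_image,
    Finset.image_image, Finset.image_image]
  rfl

theorem restrict_mem {A : Finset GolayPt} {g : Perm GolayPt} (hg : A.image g = A)
    (hM : g ∈ M24) : g.subtypePerm (not_mem_iff hg) ∈ setSystemAut (WS A) := by
  rw [MulAction.mem_stabilizer_set_iff_smul_set_subset (Set.toFinite _)]
  rintro _ ⟨b, hb, rfl⟩
  show (b.image (g.subtypePerm (not_mem_iff hg))).map (Function.Embedding.subtype _) ∪ A ∈ octads
  rw [key' hg]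
  exact image_mem_octads hM hb

theorem sep_chk : ∀ i < 24, ∀ j < 24, i ≠ j →
    octL.any (fun o => Nat.testBit o i && !Nat.testBit o j) = true := by decide +kernel


theorem exists_sep {p q : GolayPt} (hpq : p ≠ q) : ∃ o ∈ octads, p ∈ o ∧ q ∉ o := by
  have h := sep_chk (idx p) (idx_lt p) (idx q) (idx_lt q) (fun h => hpq (by
    rw [← pt_idx p, ← pt_idx q, h]))
  obtain ⟨o, ho, h1⟩ := List.any_eq_true.1 h
  rw [Bool.and_eq_true, Bool.not_eq_true'] at h1
  exact ⟨dec o, dec_mem_octads ho, mem_dec.2 h1.1, fun h2 => by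
    rw [mem_dec, h1.2] at h2; exact absurd h2 (by decide)⟩

/-- an element of the group fixing every point outside a set of at most three points is trivial -/
theorem eq_one_of_fix {A : Finset GolayPt} (hA : A.card ≤ 3) {k : Perm GolayPt} (hk : k ∈ M24)
    (hfix : ∀ x, x ∉ A → k x = x) : k = 1 := by
  have h1 : ∀ o ∈ octads, o.image k = o := by
    intro o ho
    refine (octads_eq_of_inter ho (image_mem_octads hk ho) ?_).symm
    have h2 : o \ A ⊆ o ∩ o.image k := by
      intro x hx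
      obtain ⟨hxo, hxA⟩ := Finset.mem_sdiff.1 hx
      refine Finset.mem_inter.2 ⟨hxo, Finset.mem_image.2 ⟨x, hxo, hfix x hxA⟩⟩
    have h3 := Finset.card_le_card h2
    have h4 := Finset.le_card_sdiff A o
    rw [octads_card ho] at h4
    omega
  apply Equiv.ext
  intro p
  by_contra hne
  obtain ⟨o, ho, hpo, hqo⟩ := exists_sep (p := p) (q := k p) (fun h => hne h.symm)
  apply hqo
  rw [← h1 o ho]
  exact Finset.mem_image_of_mem _ hpo

theorem card_autW3_ge : 120960 ≤ Nat.card (setSystemAut (WS A3)) := by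
  refine le_trans card_stab_A3 ?_
  have himg : ∀ g : MulAction.stabilizer M24 A3, A3.image ((g : M24) : Perm GolayPt) = A3 :=
    fun g => g.2
  apply Nat.card_le_card_of_injective (fun g : MulAction.stabilizer M24 A3 =>
    (⟨_, restrict_mem (himg g) (g : M24).2⟩ : setSystemAut (WS A3)))
  intro g g' hgg
  have h1 : ((g : M24) : Perm GolayPt).subtypePerm (not_mem_iff (himg g)) =
      ((g' : M24) : Perm GolayPt).subtypePerm (not_mem_iff (himg g')) := congrArg Subtype.val hgg
  have h2 : ∀ x, x ∉ A3 → ((g : M24) : Perm GolayPt) x = ((g' : M24) : Perm GolayPt) x := by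
    intro x hx
    have := congrArg (fun f : Perm {x : GolayPt // x ∉ A3} => ((f ⟨x, hx⟩ : _) : GolayPt)) h1
    exact this
  have h3 : (((g' : M24) : Perm GolayPt))⁻¹ * ((g : M24) : Perm GolayPt) = 1 := by
    apply eq_one_of_fix card_A3.le (M24.mul_mem (M24.inv_mem (g' : M24).2) (g : M24).2)
    intro x hx
    rw [Perm.mul_apply, h2 x hx]; exact Equiv.symm_apply_apply _ _
  apply Subtype.ext
  apply Subtype.ext
  exact (inv_mul_eq_one.1 h3).symm


variable {α : Type*} [Fintype α] [DecidableEq α] {L : Set (Finset α)}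

theorem card_aut_ge (hα : Fintype.card α = 21) (hL : IsSteinerSystem 2 5 L) :
    120960 ≤ Nat.card (setSystemAut L) := by
  obtain ⟨e, he⟩ := U3 hα hL
  obtain ⟨Φ, -⟩ := Cfsg.Agent.Lib.Helper10Aut.aut_equiv e he
  rw [Nat.card_congr Φ.toEquiv]
  exact card_autW3_ge

theorem secant (hα : Fintype.card α = 21) (hL : IsSteinerSystem 2 5 L) {H : Finset α}
    (hH : H.card = 6 ∧ ∀ l ∈ L, (l ∩ H).card ≤ 2) {l : Finset α} (hl : l ∈ L) {a : α}
    (ha : a ∈ l) (haH : a ∈ H) : (l ∩ H).card = 2 := by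
  obtain ⟨ι, hι⟩ := Cfsg.Agent.Lib.Helper10HyperT.exists_emb hα hL
  have h1 := Cfsg.Agent.Lib.Helper10Hyper.parity (S := H.image ι)
    (by rw [Finset.card_image_of_injective _ hι.1, hH.1]) (hι.disjoint H)
    ((Cfsg.Agent.Lib.Helper10HyperT.ind_iff hα hL hι H).1 hH.2) (l.image ι ∪ A3) (hι.2.2 l hl)
    Finset.subset_union_right
  rw [Finset.inter_comm, Cfsg.Agent.Lib.Helper10HyperT.inter_image hι] at h1
  have h2 := hH.2 l hl
  have h3 : 0 < (l ∩ H).card := Finset.card_pos.2 ⟨a, Finset.mem_inter.2 ⟨ha, haH⟩⟩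
  omega

theorem image_mem {g : Perm α} (hg : g ∈ setSystemAut L) {l : Finset α} (hl : l ∈ L) :
    l.image g ∈ L := by
  have h : g • L = L := hg
  exact h.subset ⟨l, hl, rfl⟩

theorem exists_image {g : Perm α} (hg : g ∈ setSystemAut L) {l : Finset α} (hl : l ∈ L) :
    ∃ l' ∈ L, l'.image g = l := by
  have h : g • L = L := hg
  obtain ⟨l', hl', h'⟩ := h.symm.subset hl
  exact ⟨l', hl', h'⟩

theorem rigid_hyper (hα : Fintype.card α = 21) (hL : IsSteinerSystem 2 5 L) {H : Finset α}
    (hH : H.card = 6 ∧ ∀ l ∈ L, (l ∩ H).card ≤ 2) {g : Perm α} (hg : g ∈ setSystemAut L)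
    (hfix : ∀ p ∈ H, g p = p) : g = 1 := by
  have hsec : ∀ l ∈ L, (l ∩ H).card = 2 → l.image g = l := by
    intro l hl h2
    obtain ⟨a, b, hab, hlab⟩ := Finset.card_eq_two.1 h2
    have ha : a ∈ l ∩ H := by rw [hlab]; simp
    have hb : b ∈ l ∩ H := by rw [hlab]; simp
    obtain ⟨ha1, ha2⟩ := Finset.mem_inter.1 ha
    obtain ⟨hb1, hb2⟩ := Finset.mem_inter.1 hb
    exact Cfsg.Agent.Lib.Helper10Plane.K2 hL (image_mem hg hl) hl hab
      (Finset.mem_image.2 ⟨a, ha1, hfix a ha2⟩) (Finset.mem_image.2 ⟨b, hb1, hfix b hb2⟩) ha1 hb1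
  apply Equiv.ext
  intro P
  by_cases hP : P ∈ H
  · exact hfix P hP
  obtain ⟨a, ha⟩ : H.Nonempty := Finset.card_pos.1 (by rw [hH.1]; norm_num)
  have hPa : P ≠ a := fun h => hP (h ▸ ha)
  obtain ⟨l1, hl1, hP1, ha1⟩ := Cfsg.Agent.Lib.Helper10Plane.exists_line hL hPa
  have h1 := secant hα hL hH hl1 ha1 ha
  obtain ⟨c, hc, hc1⟩ := Finset.exists_mem_notMem_of_card_lt_card
    (s := l1 ∩ H) (t := H) (by rw [h1, hH.1]; norm_num)
  have hc1' : c ∉ l1 := fun h => hc1 (Finset.mem_inter.2 ⟨h, hc⟩)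
  have hPc : P ≠ c := fun h => hP (h ▸ hc)
  obtain ⟨l2, hl2, hP2, hc2⟩ := Cfsg.Agent.Lib.Helper10Plane.exists_line hL hPc
  have h2 := secant hα hL hH hl2 hc2 hc
  have hg1 : g P ∈ l1 := by
    rw [← hsec l1 hl1 h1]; exact Finset.mem_image_of_mem _ hP1
  have hg2 : g P ∈ l2 := by
    rw [← hsec l2 hl2 h2]; exact Finset.mem_image_of_mem _ hP2
  by_contra hne
  exact hc1' (Cfsg.Agent.Lib.Helper10Plane.K2 hL hl1 hl2 hne hg1 hP1 hg2 hP2 ▸ hc2)

theorem eq_of_agree (hα : Fintype.card α = 21) (hL : IsSteinerSystem 2 5 L) {H : Finset α}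
    (hH : H.card = 6 ∧ ∀ l ∈ L, (l ∩ H).card ≤ 2) {g g' : Perm α} (hg : g ∈ setSystemAut L)
    (hg' : g' ∈ setSystemAut L) (h : ∀ p ∈ H, g p = g' p) : g = g' := by
  have h3 : g'⁻¹ * g = 1 := by
    apply rigid_hyper hα hL hH ((setSystemAut L).mul_mem ((setSystemAut L).inv_mem hg') hg)
    intro x hx
    rw [Perm.mul_apply, h x hx]; exact Equiv.symm_apply_apply _ _
  exact (inv_mul_eq_one.1 h3).symm

theorem card_stab_hyper (hα : Fintype.card α = 21) (hL : IsSteinerSystem 2 5 L) {H : Finset α}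
    (hH : H.card = 6 ∧ ∀ l ∈ L, (l ∩ H).card ≤ 2) :
    720 ≤ Nat.card (MulAction.stabilizer (setSystemAut L) H) := by
  apply card_stabilizer_ge H {H : Finset α | (H.card = 6 ∧ ∀ l ∈ L, (l ∩ H).card ≤ 2)}
    (Set.toFinite _) _ 720 168 (Cfsg.Agent.Lib.Helper10HyperT.main hα hL).2.1.le
    (le_trans (by norm_num) (card_aut_ge hα hL)) (by norm_num)
  rintro ⟨g, hg⟩
  refine ⟨?_, ?_⟩
  · show (H.image g).card = 6
    rw [Finset.card_image_of_injective _ g.injective, hH.1]
  · intro l hl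
    show (l ∩ H.image g).card ≤ 2
    obtain ⟨l', hl', rfl⟩ := exists_image hg hl
    rw [← Finset.image_inter _ _ g.injective, Finset.card_image_of_injective _ g.injective]
    exact hH.2 l' hl'

theorem mem_iff_of_image {H : Finset α} {g : Perm α} (hg : H.image g = H) (x : α) :
    g x ∈ H ↔ x ∈ H := by
  constructor
  · intro h
    rw [← hg] at h
    obtain ⟨y, hy, hyx⟩ := Finset.mem_image.1 h
    rwa [← g.injective hyx]
  · intro h
    rw [← hg]
    exact Finset.mem_image_of_mem _ h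

theorem extend (hα : Fintype.card α = 21) (hL : IsSteinerSystem 2 5 L) {H : Finset α}
    (hH : H.card = 6 ∧ ∀ l ∈ L, (l ∩ H).card ≤ 2) (σ : Perm ↥H) :
    ∃ g ∈ setSystemAut L, ∀ p : ↥H, g p = σ p := by
  have himg : ∀ g : MulAction.stabilizer (setSystemAut L) H,
      H.image ((g : setSystemAut L) : Perm α) = H := fun g => g.2
  have hinj : Function.Injective (fun g : MulAction.stabilizer (setSystemAut L) H =>
      ((g : setSystemAut L) : Perm α).subtypePerm (mem_iff_of_image (himg g))) := by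
    intro g g' hgg
    apply Subtype.ext
    apply Subtype.ext
    apply eq_of_agree hα hL hH (g : setSystemAut L).2 (g' : setSystemAut L).2
    intro p hp
    exact congrArg (fun f : Perm ↥H => ((f ⟨p, hp⟩ : ↥H) : α)) hgg
  have hbij := hinj.bijective_of_nat_card_le (by
    rw [Nat.card_perm, Nat.card_eq_fintype_card, Fintype.card_coe, hH.1]
    exact card_stab_hyper hα hL hH)
  obtain ⟨g, hg⟩ := hbij.2 σ
  refine ⟨_, (g : setSystemAut L).2, fun p => ?_⟩
  rw [← hg]
  rfl

end Cfsg.Agent.Lib.Helper10PGammaL
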