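import Cfsg.Agent.Lib.Helper10W12
import Cfsg.Agent.Lib.Helper33Sets
import Cfsg.Agent.Lib.Helper10Aut

/-!
# Automorphisms of the small Witt designs: sharp multiple transitivity (helper10)
-/

set_option autoImplicit false

namespace Cfsg.Agent.Lib.Helper10Rigid

open Cfsg Finset Equiv Cfsg.Agent.Lib.Helper33Golay Cfsg.Agent.Lib.Helper33Sets
  Cfsg.Agent.Lib.Helper10Solve Cfsg.Agent.Lib.Helper10EmbL Cfsg.Agent.Lib.Helper10W12Data
  Cfsg.Agent.Lib.Helper10W12
open scoped Pointwise

def forced (ML CandL Ts : List ℕ) (δ : ℕ) : Bool :=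
  Ts.all (fun T => Nat.blt T 16777216 && ML.any (fun m => Nat.beq m (Nat.lor T δ))) &&
  CandL.all (fun δ' => Nat.beq δ' δ || !(Ts.all fun T => ML.any (fun m => Nat.beq m (Nat.lor T δ'))))

theorem smul_fix {s : Finset GolayPt} {π : Perm GolayPt} (h : ∀ y ∈ s, π y = y) : π • s = s := by
  conv_rhs => rw [← Finset.image_id (s := s)]
  exact Finset.image_congr (fun y hy => h y (Finset.mem_coe.1 hy))

theorem forced_sound (π : Perm GolayPt) (ML CandL Ts : List ℕ) (δ : ℕ)
    (hML : ∀ m ∈ ML, enc (π • dec m) ∈ ML)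
    (hfix : ∀ T ∈ Ts, ∀ p ∈ dec T, π p = p)
    (hCand : enc (π • dec δ) ∈ CandL) (h : forced ML CandL Ts δ = true) :
    π • dec δ = dec δ := by
  rw [forced, Bool.and_eq_true] at h
  obtain ⟨h1, h2⟩ := h
  have h3 := List.all_eq_true.1 h2 _ hCand
  rw [Bool.or_eq_true] at h3
  rcases h3 with h3 | h3
  · rw [beq_iff'] at h3
    have h4 := dec_enc (π • dec δ)
    rw [h3] at h4
    exact h4.symm
  · exfalso
    rw [Bool.not_eq_true'] at h3
    have h4 : (Ts.all fun T => ML.any (fun m => Nat.beq m (Nat.lor T (enc (π • dec δ))))) = true := by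
      rw [List.all_eq_true]
      intro T hT
      have h5 := List.all_eq_true.1 h1 T hT
      rw [Bool.and_eq_true, blt_iff'] at h5
      obtain ⟨hlt, h5⟩ := h5
      obtain ⟨m, hm, hmT⟩ := List.any_eq_true.1 h5
      rw [beq_iff'] at hmT
      have h6 := hML m hm
      rw [hmT] at h6
      have h7 : enc (π • dec (Nat.lor T δ)) = Nat.lor T (enc (π • dec δ)) := by
        show enc (π • dec (T ||| δ)) = T ||| enc (π • dec δ)
        rw [dec_or, Finset.smul_finset_union, smul_fix (hfix T hT), enc_union,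
          enc_dec (by norm_num; exact hlt)]
      rw [h7] at h6
      exact List.any_eq_true.2 ⟨_, h6, beq_iff'.2 rfl⟩
    rw [h4] at h3
    exact Bool.noConfusion h3

def singL : List ℕ := (List.range 24).map (fun j => 2 ^ j)

theorem enc_singleton (q : GolayPt) : enc {q} = 2 ^ idx q := by
  rw [← dec_two_pow, enc_dec (Nat.pow_lt_pow_right (by norm_num) (idx_lt q))]

theorem fix_of_two {π : Perm GolayPt} {δ₁ δ₂ a : ℕ} (h₁ : π • dec δ₁ = dec δ₁)
    (h₂ : π • dec δ₂ = dec δ₂) (h : δ₁ &&& δ₂ = 2 ^ a) (ha : a < 24) : π (pt a) = pt a := by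
  have h3 : pt a ∈ dec δ₁ ∩ dec δ₂ := by
    rw [← dec_and, h, dec_two_pow' ha]; exact Finset.mem_singleton_self _
  obtain ⟨h4, h5⟩ := Finset.mem_inter.1 h3
  have h6 : π (pt a) ∈ dec δ₁ ∩ dec δ₂ := by
    refine Finset.mem_inter.2 ⟨?_, ?_⟩
    · rw [← h₁]; exact Finset.smul_mem_smul_finset h4
    · rw [← h₂]; exact Finset.smul_mem_smul_finset h5
  rw [← dec_and, h, dec_two_pow' ha] at h6
  exact Finset.mem_singleton.1 h6

theorem mask_bits : ∀ i < 24, (16777089 : ℕ).testBit i = true → i = 0 ∨ 7 ≤ i := by decide +kernel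

theorem rigid (ML : List ℕ) (base : ℕ) (Ts12 Ts13 Ts23 Ts45 Ts46 Ts56 : List ℕ)
    (hbase : base &&& 16777088 = base)
    (hT : ∀ T ∈ Ts12 ++ Ts13 ++ Ts23 ++ Ts45 ++ Ts46 ++ Ts56, T &&& 16777089 = T)
    (h0 : forced ML singL [base] 1 = true)
    (h12 : forced ML duadL Ts12 6 = true) (h13 : forced ML duadL Ts13 10 = true)
    (h23 : forced ML duadL Ts23 12 = true) (h45 : forced ML duadL Ts45 48 = true)
    (h46 : forced ML duadL Ts46 80 = true) (h56 : forced ML duadL Ts56 96 = true)
    (π : Perm GolayPt) (hfix : ∀ j, 7 ≤ j → j < 24 → π (pt j) = pt j)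
    (hML : ∀ m ∈ ML, enc (π • dec m) ∈ ML) : π = 1 := by
  have hp0 : π (pt 0) = pt 0 := by
    have h1 : π • dec 1 = dec 1 := by
      apply forced_sound π ML singL [base] 1 hML ?_ ?_ h0
      · intro T hT p hp
        rw [List.mem_singleton] at hT
        subst hT
        rw [mem_dec, ← hbase, Nat.testBit_and, Bool.and_eq_true] at hp
        have h2 : (16777089 : ℕ).testBit (idx p) = true := by
          have h3 : (16777089 : ℕ) = 16777088 ||| 1 := by decide +kernel
          rw [h3, Nat.testBit_or, hp.2, Bool.true_or]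
        have h4 : idx p ≠ 0 := by
          intro h5
          rw [h5] at hp
          exact absurd hp.2 (by decide +kernel)
        rcases mask_bits _ (idx_lt p) h2 with h5 | h5
        · exact absurd h5 h4
        · have := hfix _ h5 (idx_lt p)
          rwa [pt_idx] at this
      · have h2 : dec 1 = {pt 0} := dec_two_pow' (i := 0) (by norm_num)
        rw [h2, Finset.smul_finset_singleton, enc_singleton]
        exact List.mem_map.2 ⟨_, List.mem_range.2 (idx_lt _), rfl⟩
    have h2 : dec 1 = {pt 0} := dec_two_pow' (i := 0) (by norm_num)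
    rw [h2, Finset.smul_finset_singleton, Finset.singleton_inj] at h1
    exact h1
  have hfixT : ∀ T, T &&& 16777089 = T → ∀ p ∈ dec T, π p = p := by
    intro T hT p hp
    rw [mem_dec, ← hT, Nat.testBit_and, Bool.and_eq_true] at hp
    rcases mask_bits _ (idx_lt p) hp.2 with h5 | h5
    · have : p = pt 0 := by rw [← h5, pt_idx]
      rw [this]; exact hp0
    · have := hfix _ h5 (idx_lt p)
      rwa [pt_idx] at this
  have hduad : ∀ δ, pop δ = 2 → enc (π • dec δ) ∈ duadL := by
    intro δ hδ
    rw [← card_eq_2_iff, Finset.card_smul_finset, card_dec, hδ]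
  have e12 := forced_sound π ML duadL Ts12 6 hML
    (fun T h => hfixT T (hT T (by simp [h]))) (hduad 6 (by decide +kernel)) h12
  have e13 := forced_sound π ML duadL Ts13 10 hML
    (fun T h => hfixT T (hT T (by simp [h]))) (hduad 10 (by decide +kernel)) h13
  have e23 := forced_sound π ML duadL Ts23 12 hML
    (fun T h => hfixT T (hT T (by simp [h]))) (hduad 12 (by decide +kernel)) h23
  have e45 := forced_sound π ML duadL Ts45 48 hML
    (fun T h => hfixT T (hT T (by simp [h]))) (hduad 48 (by decide +kernel)) h45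
  have e46 := forced_sound π ML duadL Ts46 80 hML
    (fun T h => hfixT T (hT T (by simp [h]))) (hduad 80 (by decide +kernel)) h46
  have e56 := forced_sound π ML duadL Ts56 96 hML
    (fun T h => hfixT T (hT T (by simp [h]))) (hduad 96 (by decide +kernel)) h56
  apply Equiv.ext
  rw [forall_pt]
  intro i hi
  rw [Perm.one_apply]
  by_cases h7 : 7 ≤ i
  · exact hfix i h7 hi
  · interval_cases i
    · exact hp0
    · exact fix_of_two e12 e13 (by decide +kernel) (by norm_num)
    · exact fix_of_two e12 e23 (by decide +kernel) (by norm_num)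
    · exact fix_of_two e13 e23 (by decide +kernel) (by norm_num)
    · exact fix_of_two e45 e46 (by decide +kernel) (by norm_num)
    · exact fix_of_two e45 e56 (by decide +kernel) (by norm_num)
    · exact fix_of_two e46 e56 (by decide +kernel) (by norm_num)

theorem rigid11 (π : Perm GolayPt) (hfix : ∀ j, 7 ≤ j → j < 24 → π (pt j) = pt j)
    (hML : ∀ m ∈ ML11, enc (π • dec m) ∈ ML11) : π = 1 :=
  rigid ML11 1920 [385, 1792] [1537, 1408] [1153, 769] [1153, 1792] [385, 1537] [769, 1408]
    (by decide +kernel) (by decide +kernel) (by decide +kernel) (by decide +kernel)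
    (by decide +kernel) (by decide +kernel) (by decide +kernel) (by decide +kernel)
    (by decide +kernel) π hfix hML

theorem rigid12 (π : Perm GolayPt) (hfix : ∀ j, 7 ≤ j → j < 24 → π (pt j) = pt j)
    (hML : ∀ m ∈ ML12, enc (π • dec m) ∈ ML12) : π = 1 :=
  rigid ML12 3968 [2433, 1665, 3840] [897, 3585, 3456] [3201, 2817, 1920] [897, 3201, 3840]
    [2433, 3585, 1920] [1665, 2817, 3456]
    (by decide +kernel) (by decide +kernel) (by decide +kernel) (by decide +kernel)
    (by decide +kernel) (by decide +kernel) (by decide +kernel) (by decide +kernel)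
    (by decide +kernel) π hfix hML

section aut
variable {α : Type*} [Fintype α] [DecidableEq α] {n t : ℕ} {ML : List ℕ} {B : Set (Finset α)}

theorem aut_trans (hG : Good n t ML) (hα : Fintype.card α = n) (hB : IsSteinerSystem t (t + 1) B)
    (W : ∀ x : Fin t ↪ α, ∃ ι, EmbL n ML B ι ∧ ∀ i : Fin t, ι (x i) = pt (7 + i)) :
    MulAction.IsMultiplyPretransitive (setSystemAut B) α t := by
  rw [MulAction.isMultiplyPretransitive_iff]
  intro x y
  obtain ⟨ι, hι, hx⟩ := W x
  obtain ⟨ι', hι', hy⟩ := W y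
  obtain ⟨e, he, hee⟩ := iso_of_embL hι hι' hG hα hα hB hB
  refine ⟨⟨e, he⟩, ?_⟩
  ext i
  show e (x i) = y i
  apply hι'.1
  rw [hee, hx, hy]

theorem aut_sharp (hG : Good n t ML) (hα : Fintype.card α = n) (hn : n = 7 + t)
    (hB : IsSteinerSystem t (t + 1) B)
    (W : ∀ x : Fin t ↪ α, ∃ ι, EmbL n ML B ι ∧ ∀ i : Fin t, ι (x i) = pt (7 + i))
    (hrigid : ∀ π : Perm GolayPt, (∀ j, 7 ≤ j → j < 24 → π (pt j) = pt j) →
      (∀ m ∈ ML, enc (π • dec m) ∈ ML) → π = 1) :
    ∀ x : Fin t ↪ α, MulAction.stabilizer (setSystemAut B) x = ⊥ := by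
  intro x
  rw [eq_bot_iff]
  intro g hg
  rw [Subgroup.mem_bot]
  obtain ⟨ι, hι, hx⟩ := W x
  have hbij : Function.Bijective (fun u => (⟨ι u, hι.2.1 u⟩ : {z : GolayPt // idx z < n})) := by
    constructor
    · intro u v huv
      exact hι.1 (congrArg Subtype.val huv)
    · rintro ⟨z, hz⟩
      obtain ⟨u, rfl⟩ := hι.exists_preimage hG hα z hz
      exact ⟨u, rfl⟩
  have hext : ∀ u, ((g : Perm α).extendDomain (Equiv.ofBijective _ hbij)) (ι u) =
      ι ((g : Perm α) u) := fun u =>
    Perm.extendDomain_apply_image (g : Perm α) (Equiv.ofBijective _ hbij) u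
  have hπ := hrigid ((g : Perm α).extendDomain (Equiv.ofBijective _ hbij)) ?_ ?_
  · apply Subtype.ext
    apply Equiv.ext
    intro u
    have h1 := hext u
    rw [hπ] at h1
    exact (hι.1 h1).symm
  · intro j h7 h24
    by_cases hj : j < n
    · have h1 := hx ⟨j - 7, by omega⟩
      have h2 : 7 + (j - 7) = j := by omega
      simp only [h2] at h1
      have hgx : (g : Perm α) (x ⟨j - 7, by omega⟩) = x ⟨j - 7, by omega⟩ :=
        DFunLike.congr_fun (MulAction.mem_stabilizer_iff.1 hg) _
      rw [← h1, hext, hgx]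
    · exact Perm.extendDomain_apply_not_subtype _ _ (by rw [idx_pt h24]; exact hj)
  · intro m hm
    obtain ⟨b, hb, hbm⟩ := hι.surj hG hα hB m hm
    have h1 : ((g : Perm α).extendDomain (Equiv.ofBijective _ hbij)) • dec m =
        (b.image (g : Perm α)).image ι := by
      rw [← hbm, Finset.smul_finset_def, Finset.image_image, Finset.image_image]
      apply Finset.image_congr
      intro u _
      exact hext u
    rw [h1]
    apply hι.2.2
    obtain ⟨g0, hg0⟩ := g
    have h2 : g0 • B = B := hg0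
    have h3 : b.image g0 ∈ g0 • B := ⟨b, hb, rfl⟩
    exact h2.subset h3

end aut

end Cfsg.Agent.Lib.Helper10Rigid
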