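import Cfsg.Agent.Lib.Helper8Steiner

/-!
# Intersection numbers of S(5,6,12) (helper10)
-/

set_option autoImplicit false

namespace Cfsg.Agent.Lib.Helper10S12

open Cfsg Finset Cfsg.Agent.Lib.Helper8Steiner

variable {α : Type*} [Fintype α] [DecidableEq α]

def lam12 : ℕ → ℤ
  | 0 => 132 | 1 => 66 | 2 => 30 | 3 => 12 | 4 => 4 | _ => 1

section
variable (hα : Fintype.card α = 12) {B : Set (Finset α)} (hB : IsSteinerSystem 5 6 B)
include hα hB

theorem nb12_4 (I : Finset α) (hI : I.card = 4) : nb B I = 4 := by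
  have := nb_step_const hB (fun I hI => nb_eq_one' hB hI) I hI
  rw [hα] at this; omega

theorem nb12_3 (I : Finset α) (hI : I.card = 3) : nb B I = 12 := by
  have := nb_step_const hB (nb12_4 hα hB) I hI
  rw [hα] at this; omega

theorem nb12_2 (I : Finset α) (hI : I.card = 2) : nb B I = 30 := by
  have := nb_step_const hB (nb12_3 hα hB) I hI
  rw [hα] at this; omega

theorem nb12_1 (I : Finset α) (hI : I.card = 1) : nb B I = 66 := by
  have := nb_step_const hB (nb12_2 hα hB) I hI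
  rw [hα] at this; omega

theorem nb12_0 (I : Finset α) (hI : I.card = 0) : nb B I = 132 := by
  have := nb_step_const hB (nb12_1 hα hB) I hI
  rw [hα] at this; omega

theorem hlam12 {b : Finset α} (hb : b ∈ B) (I : Finset α) (hI : I ⊆ b) :
    (nb B I : ℤ) = lam12 I.card := by
  rcases Nat.lt_or_ge I.card 5 with h | h
  · interval_cases hc : I.card
    · rw [nb12_0 hα hB I hc]; rfl
    · rw [nb12_1 hα hB I hc]; rfl
    · rw [nb12_2 hα hB I hc]; rfl
    · rw [nb12_3 hα hB I hc]; rfl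
    · rw [nb12_4 hα hB I hc]; rfl
  · rw [nb_eq_one hB hb hI h]
    obtain ⟨m, hm⟩ := Nat.exists_eq_add_of_le h
    rw [hm, add_comm]
    rfl

open Classical in
theorem ncard_inter_eq {b : Finset α} (hb : b ∈ B) {s : Finset α} (hs : s ⊆ b) :
    ({c : Finset α | c ∈ B ∧ b ∩ c = s}.ncard : ℤ) = tri lam12 s.card (6 - s.card) := by
  have h1 := mu_eq_tri lam12 (hlam12 hα hB hb) (6 - s.card) s (b \ s) hs Finset.sdiff_subset
    Finset.disjoint_sdiff (by rw [Finset.card_sdiff_of_subset hs, hB.1 b hb])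
  rw [← h1]
  congr 1
  unfold mu
  rw [← Set.ncard_coe_finset]
  congr 1
  ext c
  simp only [Set.mem_setOf_eq, Finset.coe_filter, Finset.mem_univ, true_and]
  constructor
  · rintro ⟨hc, rfl⟩
    refine ⟨hc, Finset.inter_subset_right, ?_⟩
    rw [Finset.disjoint_left]
    intro x hx hx'
    exact (Finset.mem_sdiff.1 hx').2 (Finset.mem_inter.2 ⟨(Finset.mem_sdiff.1 hx').1, hx⟩)
  · rintro ⟨hc, hsc, hd⟩
    refine ⟨hc, ?_⟩
    ext x
    rw [Finset.mem_inter]
    constructor
    · rintro ⟨hxb, hxc⟩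
      by_contra hxs
      exact Finset.disjoint_left.1 hd hxc (Finset.mem_sdiff.2 ⟨hxb, hxs⟩)
    · intro hx
      exact ⟨hs hx, hsc hx⟩

theorem compl_mem {b : Finset α} (hb : b ∈ B) : bᶜ ∈ B := by
  have h1 := ncard_inter_eq hα hB hb (Finset.empty_subset b)
  have h2 : tri lam12 (∅ : Finset α).card (6 - (∅ : Finset α).card) = 1 := by
    rw [Finset.card_empty]; decide
  rw [h2] at h1
  have h3 : {c : Finset α | c ∈ B ∧ b ∩ c = ∅}.ncard = 1 := by exact_mod_cast h1
  obtain ⟨c, hc⟩ := Set.ncard_eq_one.1 h3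
  have hc' : c ∈ {c : Finset α | c ∈ B ∧ b ∩ c = ∅} := hc ▸ Set.mem_singleton c
  obtain ⟨hcB, hbc⟩ := hc'
  have h4 : c = bᶜ := by
    apply Finset.eq_of_subset_of_card_le
    · intro x hx
      rw [Finset.mem_compl]
      intro hxb
      have : x ∈ b ∩ c := Finset.mem_inter.2 ⟨hxb, hx⟩
      rw [hbc] at this
      exact absurd this (Finset.notMem_empty x)
    · rw [Finset.card_compl, hα, hB.1 b hb, hB.1 c hcB]
  exact h4 ▸ hcB

end

end Cfsg.Agent.Lib.Helper10S12
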