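import Cfsg.Agent.Lib.Helper10HSOrb
import Cfsg.Agent.S0410

/-!
# Uniqueness of the strongly regular graph with parameters (100, 22, 0, 6) (helper10)

Counting part: the blocks cut out on the neighbours of a vertex by the non-neighbours meet in
`0` or `2` points.
-/

set_option autoImplicit false
set_option linter.unusedSectionVars false

namespace Cfsg.Agent.Lib.Helper10SRGUniq

open Cfsg Finset Cfsg.Agent.Lib.Helper10SRG Cfsg.Agent.Lib.Helper10HSOrb

variable {V : Type*} [Fintype V] [DecidableEq V] (Γ : SimpleGraph V)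

open Classical in
/-- integer indicator of adjacency -/
noncomputable def ind (u v : V) : ℤ := if Γ.Adj u v then 1 else 0

open Classical in
/-- the non-neighbours of `x0` -/
noncomputable def Mf (x0 : V) : Finset V := univ.filter (fun y => y ≠ x0 ∧ ¬ Γ.Adj x0 y)

/-- number of common neighbours of `y`, `y'` among the neighbours of `x0` -/
noncomputable def ii (x0 y y' : V) : ℤ := ∑ p ∈ nb Γ x0, ind Γ y p * ind Γ y' p

variable {Γ}

theorem ind_adj {u v : V} (h : Γ.Adj u v) : ind Γ u v = 1 := if_pos h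

theorem ind_nadj {u v : V} (h : ¬ Γ.Adj u v) : ind Γ u v = 0 := if_neg h

theorem ind_comm (u v : V) : ind Γ u v = ind Γ v u := by
  by_cases h : Γ.Adj u v
  · rw [ind_adj h, ind_adj h.symm]
  · rw [ind_nadj h, ind_nadj (fun h' => h h'.symm)]

theorem ind_sq (u v : V) : ind Γ u v * ind Γ u v = ind Γ u v := by
  by_cases h : Γ.Adj u v
  · rw [ind_adj h]; norm_num
  · rw [ind_nadj h]; norm_num

theorem mem_Mf {x0 y : V} : y ∈ Mf Γ x0 ↔ y ≠ x0 ∧ ¬ Γ.Adj x0 y := by
  classical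
  simp [Mf]

theorem sum_ind_mul (u w : V) : ∑ v, ind Γ u v * ind Γ w v = (cn Γ u w : ℤ) := by
  classical
  unfold cn
  rw [Finset.card_filter]
  push_cast
  apply Finset.sum_congr rfl
  intro v _
  by_cases h1 : Γ.Adj u v <;> by_cases h2 : Γ.Adj w v <;>
    simp [h1, h2, ind_adj, ind_nadj]

theorem sum_split (x0 : V) (F : V → ℤ) :
    ∑ v, F v = F x0 + ∑ v ∈ nb Γ x0, F v + ∑ v ∈ Mf Γ x0, F v := by
  classical
  have h1 : (univ : Finset V) = insert x0 (nb Γ x0 ∪ Mf Γ x0) := by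
    ext v
    simp only [mem_univ, mem_insert, mem_union, mem_nb, mem_Mf, true_iff]
    tauto
  rw [h1, sum_insert, sum_union, add_assoc]
  · rw [Finset.disjoint_left]
    intro v hv hv'
    exact (mem_Mf.1 hv').2 (mem_nb.1 hv)
  · intro hx
    rcases mem_union.1 hx with hx | hx
    · exact Γ.loopless.irrefl x0 (mem_nb.1 hx)
    · exact (mem_Mf.1 hx).1 rfl

theorem sum_nb (x0 : V) (F : V → ℤ) : ∑ p ∈ nb Γ x0, F p = ∑ v, ind Γ x0 v * F v := by
  classical
  unfold nb
  rw [Finset.sum_filter]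
  apply Finset.sum_congr rfl
  intro v _
  by_cases h : Γ.Adj x0 v
  · rw [if_pos h, ind_adj h, one_mul]
  · rw [if_neg h, ind_nadj h, zero_mul]

variable (h : SRG' Γ 100 22 0 6)
include h

theorem no_tri {a b c : V} (hab : Γ.Adj a b) (hac : Γ.Adj a c) (hbc : Γ.Adj b c) : False := by
  classical
  have h0 := cn_adj h hab
  unfold cn at h0
  rw [Finset.card_eq_zero] at h0
  have hc : c ∈ univ.filter (fun u => Γ.Adj a u ∧ Γ.Adj b u) := by simp [hac, hbc]
  rw [h0] at hc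
  exact absurd hc (Finset.notMem_empty _)

theorem sum_ind (y : V) : ∑ v, ind Γ y v = 22 := by
  have h1 := sum_ind_mul (Γ := Γ) y y
  rw [cn_self h] at h1
  push_cast at h1
  rw [← h1]
  apply Finset.sum_congr rfl
  intro v _
  rw [ind_sq]

/-- pairs of points lie in 5 blocks, points in 21 blocks -/
theorem sum_Mf {x0 p p' : V} (hp : p ∈ nb Γ x0) (hp' : p' ∈ nb Γ x0) :
    ∑ y ∈ Mf Γ x0, ind Γ y p * ind Γ y p' = 5 + (if p = p' then 16 else 0) := by
  have hp0 := mem_nb.1 hp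
  have hp0' := mem_nb.1 hp'
  have h1 := sum_split (Γ := Γ) x0 (fun v => ind Γ v p * ind Γ v p')
  have h2 : ∑ v, ind Γ v p * ind Γ v p' = (cn Γ p p' : ℤ) := by
    rw [← sum_ind_mul]
    apply Finset.sum_congr rfl
    intro v _
    rw [ind_comm v p, ind_comm v p']
  have h3 : ∑ v ∈ nb Γ x0, ind Γ v p * ind Γ v p' = 0 := by
    apply Finset.sum_eq_zero
    intro v hv
    rw [ind_nadj (fun hvp => no_tri h (mem_nb.1 hv) hp0 hvp), zero_mul]
  beta_reduce at h1
  rw [h2, h3, ind_adj hp0, ind_adj hp0'] at h1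
  by_cases hpp : p = p'
  · subst hpp
    rw [cn_self h] at h1
    rw [if_pos rfl]
    push_cast at h1
    linarith
  · rw [cn_nadj h hpp (fun hadj => no_tri h hp0 hp0' hadj)] at h1
    rw [if_neg hpp]
    push_cast at h1
    linarith

theorem sum_nb_ind {x0 y : V} (hy : y ∈ Mf Γ x0) : ∑ p ∈ nb Γ x0, ind Γ y p = 6 := by
  rw [sum_nb, sum_ind_mul, cn_nadj h (mem_Mf.1 hy).1.symm (mem_Mf.1 hy).2]
  norm_num

theorem sum_Mf_ind {x0 y : V} (hy : y ∈ Mf Γ x0) : ∑ y' ∈ Mf Γ x0, ind Γ y y' = 16 := by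
  have h1 := sum_split (Γ := Γ) x0 (fun v => ind Γ y v)
  beta_reduce at h1
  rw [sum_ind h, sum_nb_ind h hy, ind_nadj (fun h' => (mem_Mf.1 hy).2 h'.symm)] at h1
  linarith

theorem card_Mf (x0 : V) : ((Mf Γ x0).card : ℤ) = 77 := by
  have h1 := sum_split (Γ := Γ) x0 (fun _ => (1 : ℤ))
  have h2 : ∑ p ∈ nb Γ x0, (1 : ℤ) = 22 := by
    rw [sum_nb, ← sum_ind h x0]
    apply Finset.sum_congr rfl
    intro v _
    rw [mul_one]
  have h3 : ∑ _v : V, (1 : ℤ) = 100 := by
    rw [Finset.sum_const, Finset.card_univ, ← Nat.card_eq_fintype_card, h.1]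
    norm_num
  rw [h2, h3] at h1
  rw [Finset.sum_const] at h1
  simp only [nsmul_eq_mul, mul_one] at h1
  linarith

theorem T1 {x0 y : V} (hy : y ∈ Mf Γ x0) : ∑ y' ∈ Mf Γ x0, ii Γ x0 y y' = 126 := by
  unfold ii
  rw [Finset.sum_comm]
  have h1 : ∀ p ∈ nb Γ x0, ∑ y' ∈ Mf Γ x0, ind Γ y p * ind Γ y' p = ind Γ y p * 21 := by
    intro p hp
    rw [← Finset.mul_sum]
    congr 1
    have h2 := sum_Mf h hp hp
    rw [if_pos rfl] at h2
    rw [← show (5 : ℤ) + 16 = 21 by norm_num, ← h2]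
    apply Finset.sum_congr rfl
    intro v _
    rw [ind_sq]
  rw [Finset.sum_congr rfl h1, ← Finset.sum_mul, sum_nb_ind h hy]
  norm_num

theorem T2 {x0 y : V} (hy : y ∈ Mf Γ x0) :
    ∑ y' ∈ Mf Γ x0, ii Γ x0 y y' * ii Γ x0 y y' = 276 := by
  classical
  have e1 : ∀ y' : V, ii Γ x0 y y' * ii Γ x0 y y' =
      ∑ p ∈ nb Γ x0, ∑ p' ∈ nb Γ x0, (ind Γ y p * ind Γ y p') * (ind Γ y' p * ind Γ y' p') := by
    intro y'
    unfold ii
    rw [Finset.sum_mul_sum]
    apply Finset.sum_congr rfl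
    intro p _
    apply Finset.sum_congr rfl
    intro p' _
    ring
  rw [Finset.sum_congr rfl (fun y' _ => e1 y'), Finset.sum_comm]
  have e2 : ∀ p ∈ nb Γ x0, ∑ y' ∈ Mf Γ x0, ∑ p' ∈ nb Γ x0,
      (ind Γ y p * ind Γ y p') * (ind Γ y' p * ind Γ y' p') = ind Γ y p * 30 + ind Γ y p * 16 := by
    intro p hp
    rw [Finset.sum_comm]
    have e3 : ∀ p' ∈ nb Γ x0, ∑ y' ∈ Mf Γ x0,
        (ind Γ y p * ind Γ y p') * (ind Γ y' p * ind Γ y' p') =
        ind Γ y p * (ind Γ y p' * 5) + (if p = p' then ind Γ y p * 16 else 0) := by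
      intro p' hp'
      rw [← Finset.mul_sum, sum_Mf h hp hp']
      by_cases hpp : p = p'
      · subst hpp
        rw [if_pos rfl, if_pos rfl, ind_sq]
        have := ind_sq (Γ := Γ) y p
        linear_combination (-5 : ℤ) * this
      · rw [if_neg hpp, if_neg hpp]
        ring
    rw [Finset.sum_congr rfl e3, Finset.sum_add_distrib, ← Finset.mul_sum, ← Finset.sum_mul,
      sum_nb_ind h hy, Finset.sum_ite_eq, if_pos hp]
    norm_num
  rw [Finset.sum_congr rfl e2, Finset.sum_add_distrib, ← Finset.sum_mul, ← Finset.sum_mul,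
    sum_nb_ind h hy]
  norm_num

theorem ii_self {x0 y : V} (hy : y ∈ Mf Γ x0) : ii Γ x0 y y = 6 := by
  unfold ii
  rw [← sum_nb_ind h hy]
  apply Finset.sum_congr rfl
  intro p _
  rw [ind_sq]

theorem ii_adj {x0 y y' : V} (hyy : Γ.Adj y y') : ii Γ x0 y y' = 0 := by
  unfold ii
  apply Finset.sum_eq_zero
  intro p _
  by_cases h1 : Γ.Adj y p
  · rw [ind_nadj (fun h2 => no_tri h hyy h1 h2), mul_zero]
  · rw [ind_nadj h1, zero_mul]

theorem ii_nadj {x0 y y' : V} (hy : y ∈ Mf Γ x0) (hy' : y' ∈ Mf Γ x0) (hne : y ≠ y')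
    (hyy : ¬ Γ.Adj y y') : ii Γ x0 y y' = 2 := by
  classical
  -- first step
  have s1 : ∑ z ∈ Mf Γ x0, ((ii Γ x0 y z - 1) * (ii Γ x0 y z - 2) -
      ((if z = y then 20 else 0) + 2 * ind Γ y z)) = 0 := by
    have e : ∀ z : V, (ii Γ x0 y z - 1) * (ii Γ x0 y z - 2) -
        ((if z = y then 20 else 0) + 2 * ind Γ y z) =
        ii Γ x0 y z * ii Γ x0 y z - 3 * ii Γ x0 y z + 2 - (if z = y then 20 else 0)
          - 2 * ind Γ y z := by
      intro z; ring
    rw [Finset.sum_congr rfl (fun z _ => e z)]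
    rw [Finset.sum_sub_distrib, Finset.sum_sub_distrib, Finset.sum_add_distrib,
      Finset.sum_sub_distrib, T2 h hy, ← Finset.mul_sum, T1 h hy, ← Finset.mul_sum,
      sum_Mf_ind h hy, Finset.sum_ite_eq', if_pos hy, Finset.sum_const, nsmul_eq_mul, card_Mf h]
    norm_num
  have n1 : ∀ z ∈ Mf Γ x0, 0 ≤ (ii Γ x0 y z - 1) * (ii Γ x0 y z - 2) -
      ((if z = y then 20 else 0) + 2 * ind Γ y z) := by
    intro z _
    by_cases hz : z = y
    · subst hz
      rw [ii_self h hy, if_pos rfl, ind_nadj (Γ.loopless.irrefl z)]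
      norm_num
    · rw [if_neg hz]
      by_cases ha : Γ.Adj y z
      · rw [ii_adj h ha, ind_adj ha]
        norm_num
      · rw [ind_nadj ha]
        have : 0 ≤ (ii Γ x0 y z - 1) * (ii Γ x0 y z - 2) := by
          rcases le_or_gt (ii Γ x0 y z) 1 with h1 | h1
          · nlinarith
          · have h2 : 2 ≤ ii Γ x0 y z := h1
            nlinarith
        linarith
  have z1 := (Finset.sum_eq_zero_iff_of_nonneg n1).1 s1
  have c1 : ∀ z ∈ Mf Γ x0, z ≠ y → ¬ Γ.Adj y z → ii Γ x0 y z = 1 ∨ ii Γ x0 y z = 2 := by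
    intro z hz hzy ha
    have h1 := z1 z hz
    rw [if_neg hzy, ind_nadj ha] at h1
    have h2 : (ii Γ x0 y z - 1) * (ii Γ x0 y z - 2) = 0 := by linarith
    rcases mul_eq_zero.1 h2 with h3 | h3
    · left; linarith
    · right; linarith
  -- second step
  have s2 : ∑ z ∈ Mf Γ x0, ((if z = y then 24 else 0) - ii Γ x0 y z * (ii Γ x0 y z - 2)) = 0 := by
    have e : ∀ z : V, (if z = y then (24 : ℤ) else 0) - ii Γ x0 y z * (ii Γ x0 y z - 2) =
        (if z = y then 24 else 0) - ii Γ x0 y z * ii Γ x0 y z + 2 * ii Γ x0 y z := by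
      intro z; ring
    rw [Finset.sum_congr rfl (fun z _ => e z)]
    rw [Finset.sum_add_distrib, Finset.sum_sub_distrib, T2 h hy, ← Finset.mul_sum, T1 h hy,
      Finset.sum_ite_eq', if_pos hy]
    norm_num
  have n2 : ∀ z ∈ Mf Γ x0,
      0 ≤ (if z = y then (24 : ℤ) else 0) - ii Γ x0 y z * (ii Γ x0 y z - 2) := by
    intro z hz
    by_cases hzy : z = y
    · subst hzy
      rw [ii_self h hy, if_pos rfl]
      norm_num
    · rw [if_neg hzy]
      by_cases ha : Γ.Adj y z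
      · rw [ii_adj h ha]
        norm_num
      · rcases c1 z hz hzy ha with h1 | h1 <;> rw [h1] <;> norm_num
  have z2 := (Finset.sum_eq_zero_iff_of_nonneg n2).1 s2 y' hy'
  rw [if_neg (Ne.symm hne)] at z2
  rcases c1 y' hy' (Ne.symm hne) hyy with h1 | h1
  · rw [h1] at z2
    norm_num at z2
  · exact h1

end Cfsg.Agent.Lib.Helper10SRGUniq
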