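import Cfsg.Agent.Lib.Helper10SRGUniq

/-!
# Uniqueness of the strongly regular graph with parameters (100, 22, 0, 6), part 2 (helper10)

The Steiner system on the neighbours of a vertex, and the isomorphism with the point-block graph.
-/

set_option autoImplicit false
set_option linter.unusedSectionVars false

namespace Cfsg.Agent.Lib.Helper10SRGUniq

open Cfsg Finset Cfsg.Agent.Lib.Helper10SRG Cfsg.Agent.Lib.Helper10HSOrb
  Cfsg.Agent.Lib.Helper10HSGraph

variable {V : Type*} [Fintype V] [DecidableEq V] (Γ : SimpleGraph V)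

/-- the points -/
abbrev Pt (x0 : V) := ↥(nb Γ x0)

open Classical in
/-- the block of a non-neighbour -/
noncomputable def blk (x0 y : V) : Finset (Pt Γ x0) := univ.filter (fun p => Γ.Adj y p.1)

/-- the set of blocks -/
def Bs (x0 : V) : Set (Finset (Pt Γ x0)) := blk Γ x0 '' {y | y ∈ Mf Γ x0}

variable {Γ}

theorem mem_blk {x0 y : V} {p : Pt Γ x0} : p ∈ blk Γ x0 y ↔ Γ.Adj y p.1 := by
  classical
  simp [blk]

theorem card_inter (x0 y y' : V) : (((blk Γ x0 y) ∩ (blk Γ x0 y')).card : ℤ) = ii Γ x0 y y' := by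
  classical
  have h1 : (blk Γ x0 y) ∩ (blk Γ x0 y') =
      univ.filter (fun p : Pt Γ x0 => Γ.Adj y p.1 ∧ Γ.Adj y' p.1) := by
    ext p
    simp [mem_blk]
  rw [h1, Finset.card_filter]
  push_cast
  unfold ii
  rw [← Finset.sum_coe_sort (nb Γ x0) (fun p => ind Γ y p * ind Γ y' p)]
  apply Finset.sum_congr rfl
  intro p _
  by_cases h1 : Γ.Adj y p.1 <;> by_cases h2 : Γ.Adj y' p.1 <;>
    simp [h1, h2, ind_adj, ind_nadj]

variable (h : SRG' Γ 100 22 0 6)
include h

theorem card_Pt (x0 : V) : Fintype.card (Pt Γ x0) = 22 := by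
  rw [Fintype.card_coe]
  exact d_univ h x0

theorem card_blk {x0 y : V} (hy : y ∈ Mf Γ x0) : (blk Γ x0 y).card = 6 := by
  have h1 := card_inter (Γ := Γ) x0 y y
  rw [Finset.inter_self, ii_self h hy] at h1
  exact_mod_cast h1

theorem inter_le {x0 y y' : V} (hy : y ∈ Mf Γ x0) (hy' : y' ∈ Mf Γ x0) (hne : y ≠ y') :
    ((blk Γ x0 y) ∩ (blk Γ x0 y')).card ≤ 2 := by
  have h1 := card_inter (Γ := Γ) x0 y y'
  by_cases ha : Γ.Adj y y'
  · rw [ii_adj h ha] at h1
    have : ((blk Γ x0 y) ∩ (blk Γ x0 y')).card = 0 := by exact_mod_cast h1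
    omega
  · rw [ii_nadj h hy hy' hne ha] at h1
    have : ((blk Γ x0 y) ∩ (blk Γ x0 y')).card = 2 := by exact_mod_cast h1
    omega

theorem blk_inj {x0 y y' : V} (hy : y ∈ Mf Γ x0) (hy' : y' ∈ Mf Γ x0)
    (he : blk Γ x0 y = blk Γ x0 y') : y = y' := by
  by_contra hne
  have h1 := inter_le h hy hy' hne
  rw [he, Finset.inter_self, card_blk h hy'] at h1
  omega

theorem eq_of_three {x0 y y' : V} (hy : y ∈ Mf Γ x0) (hy' : y' ∈ Mf Γ x0)
    {s : Finset (Pt Γ x0)} (hs : s.card = 3) (h1 : s ⊆ blk Γ x0 y) (h2 : s ⊆ blk Γ x0 y') :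
    y = y' := by
  by_contra hne
  have h3 := inter_le h hy hy' hne
  have h4 := Finset.card_le_card (Finset.subset_inter h1 h2)
  omega

theorem exists_blk (x0 : V) {s : Finset (Pt Γ x0)} (hs : s.card = 3) :
    ∃ y ∈ Mf Γ x0, s ⊆ blk Γ x0 y := by
  classical
  set T : Finset (Finset (Pt Γ x0)) :=
    (Mf Γ x0).biUnion (fun y => (blk Γ x0 y).powersetCard 3) with hT
  have hc : T.card = 1540 := by
    rw [hT, Finset.card_biUnion]
    · have h1 : ∀ y ∈ Mf Γ x0, ((blk Γ x0 y).powersetCard 3).card = 20 := by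
        intro y hy
        rw [Finset.card_powersetCard, card_blk h hy]
        rfl
      rw [Finset.sum_congr rfl h1, Finset.sum_const]
      have h2 : (Mf Γ x0).card = 77 := by exact_mod_cast card_Mf h x0
      rw [h2]
      rfl
    · intro y hy y' hy' hne
      show Disjoint ((blk Γ x0 y).powersetCard 3) ((blk Γ x0 y').powersetCard 3)
      rw [Finset.disjoint_left]
      intro t ht ht'
      rw [Finset.mem_powersetCard] at ht ht'
      exact hne (eq_of_three h hy hy' ht.2 ht.1 ht'.1)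
  have hsub : T ⊆ (univ : Finset (Pt Γ x0)).powersetCard 3 := by
    intro t ht
    rw [hT, Finset.mem_biUnion] at ht
    obtain ⟨y, _, ht⟩ := ht
    rw [Finset.mem_powersetCard] at ht ⊢
    exact ⟨Finset.subset_univ _, ht.2⟩
  have hc2 : ((univ : Finset (Pt Γ x0)).powersetCard 3).card = 1540 := by
    rw [Finset.card_powersetCard, Finset.card_univ, card_Pt h]
    rfl
  have heq := Finset.eq_of_subset_of_card_le hsub (by rw [hc, hc2])
  have hs' : s ∈ T := by
    rw [heq, Finset.mem_powersetCard]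
    exact ⟨Finset.subset_univ _, hs⟩
  rw [hT, Finset.mem_biUnion] at hs'
  obtain ⟨y, hy, ht⟩ := hs'
  exact ⟨y, hy, (Finset.mem_powersetCard.1 ht).1⟩

theorem steiner (x0 : V) : IsSteinerSystem 3 6 (Bs Γ x0) := by
  constructor
  · rintro b ⟨y, hy, rfl⟩
    exact card_blk h hy
  · intro s hs
    obtain ⟨y, hy, hsy⟩ := exists_blk h x0 hs
    refine ⟨blk Γ x0 y, ⟨⟨y, hy, rfl⟩, hsy⟩, ?_⟩
    rintro b ⟨⟨y', hy', rfl⟩, hsy'⟩
    rw [eq_of_three h hy hy' hs hsy hsy']

omit h in
/-- representative of a block -/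
noncomputable def rep {x0 : V} (b : ↥(Bs Γ x0)) : V := b.2.choose

omit h in
theorem rep_mem {x0 : V} (b : ↥(Bs Γ x0)) : rep b ∈ Mf Γ x0 := b.2.choose_spec.1

omit h in
theorem blk_rep {x0 : V} (b : ↥(Bs Γ x0)) : blk Γ x0 (rep b) = b.1 := b.2.choose_spec.2

omit h in
/-- the vertex map -/
noncomputable def vmap (x0 : V) : Option (Pt Γ x0 ⊕ ↥(Bs Γ x0)) → V
  | none => x0
  | some (Sum.inl p) => p.1
  | some (Sum.inr b) => rep b

omit h in
theorem rep_inj {x0 : V} {b c : ↥(Bs Γ x0)} (hbc : rep b = rep c) : b = c := by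
  apply Subtype.ext
  rw [← blk_rep b, ← blk_rep c, hbc]

omit h in
theorem vmap_injective (x0 : V) : Function.Injective (vmap (Γ := Γ) x0) := by
  intro v w hvw
  rcases v with _ | p | b <;> rcases w with _ | p' | c
  · rfl
  · exfalso
    have h1 : x0 = p'.1 := hvw
    have h2 := mem_nb.1 p'.2
    rw [← h1] at h2
    exact Γ.loopless.irrefl _ h2
  · exfalso
    have h1 : x0 = rep c := hvw
    exact (mem_Mf.1 (rep_mem c)).1 h1.symm
  · exfalso
    have h1 : p.1 = x0 := hvw
    have h2 := mem_nb.1 p.2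
    rw [h1] at h2
    exact Γ.loopless.irrefl _ h2
  · have h1 : p.1 = p'.1 := hvw
    rw [Subtype.ext h1]
  · exfalso
    have h1 : p.1 = rep c := hvw
    have h2 := mem_nb.1 p.2
    rw [h1] at h2
    exact (mem_Mf.1 (rep_mem c)).2 h2
  · exfalso
    have h1 : rep b = x0 := hvw
    exact (mem_Mf.1 (rep_mem b)).1 h1
  · exfalso
    have h1 : rep b = p'.1 := hvw
    have h2 := mem_nb.1 p'.2
    rw [← h1] at h2
    exact (mem_Mf.1 (rep_mem b)).2 h2
  · have h1 : rep b = rep c := hvw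
    rw [rep_inj h1]

theorem vmap_surjective (x0 : V) : Function.Surjective (vmap (Γ := Γ) x0) := by
  intro v
  by_cases h0 : v = x0
  · exact ⟨none, h0.symm⟩
  by_cases h1 : Γ.Adj x0 v
  · exact ⟨some (Sum.inl ⟨v, mem_nb.2 h1⟩), rfl⟩
  · have hv : v ∈ Mf Γ x0 := mem_Mf.2 ⟨h0, h1⟩
    refine ⟨some (Sum.inr ⟨blk Γ x0 v, ⟨v, hv, rfl⟩⟩), ?_⟩
    exact blk_inj h (rep_mem _) hv (blk_rep _)

theorem adj_of_rel (x0 : V) (v w : Option (Pt Γ x0 ⊕ ↥(Bs Γ x0)))
    (hr : pointBlockRel (Bs Γ x0) v w) (hne : v ≠ w) : Γ.Adj (vmap x0 v) (vmap x0 w) := by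
  rcases v with _ | p | b <;> rcases w with _ | p' | c
  · exact False.elim hr
  · exact mem_nb.1 p'.2
  · exact False.elim hr
  · exact False.elim hr
  · exact False.elim hr
  · have h1 : p ∈ c.1 := hr
    rw [← blk_rep c, mem_blk] at h1
    exact h1.symm
  · exact False.elim hr
  · exact False.elim hr
  · have h1 : Disjoint b.1 c.1 := hr
    show Γ.Adj (rep b) (rep c)
    by_contra ha
    have hne' : rep b ≠ rep c := fun hh => hne (by rw [rep_inj hh])
    have h2 := card_inter (Γ := Γ) x0 (rep b) (rep c)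
    rw [ii_nadj h (rep_mem b) (rep_mem c) hne' ha, blk_rep, blk_rep,
      Finset.disjoint_iff_inter_eq_empty.1 h1] at h2
    norm_num at h2

theorem rel_of_adj (x0 : V) (v w : Option (Pt Γ x0 ⊕ ↥(Bs Γ x0)))
    (ha : Γ.Adj (vmap x0 v) (vmap x0 w)) :
    pointBlockRel (Bs Γ x0) v w ∨ pointBlockRel (Bs Γ x0) w v := by
  rcases v with _ | p | b <;> rcases w with _ | p' | c
  · exact (Γ.loopless.irrefl _ ha).elim
  · exact Or.inl trivial
  · exact ((mem_Mf.1 (rep_mem c)).2 ha).elim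
  · exact Or.inr trivial
  · exact (no_tri h (mem_nb.1 p.2) (mem_nb.1 p'.2) ha).elim
  · left
    show p ∈ c.1
    rw [← blk_rep c, mem_blk]
    exact ha.symm
  · exact ((mem_Mf.1 (rep_mem b)).2 ha.symm).elim
  · right
    show p' ∈ b.1
    rw [← blk_rep b, mem_blk]
    exact ha
  · left
    show Disjoint b.1 c.1
    have ha' : Γ.Adj (rep b) (rep c) := ha
    have h2 := card_inter (Γ := Γ) x0 (rep b) (rep c)
    rw [ii_adj h ha', blk_rep, blk_rep] at h2
    rw [Finset.disjoint_iff_inter_eq_empty, ← Finset.card_eq_zero]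
    exact_mod_cast h2

/-- the isomorphism with the point-block graph -/
noncomputable def giso (x0 : V) : pointBlockGraph (Bs Γ x0) ≃g Γ where
  toEquiv := Equiv.ofBijective (vmap x0) ⟨vmap_injective x0, vmap_surjective h x0⟩
  map_rel_iff' := by
    intro v w
    show Γ.Adj (vmap x0 v) (vmap x0 w) ↔ _
    rw [pointBlockGraph, SimpleGraph.fromRel_adj]
    constructor
    · intro ha
      refine ⟨?_, rel_of_adj h x0 v w ha⟩
      rintro rfl
      exact Γ.loopless.irrefl _ ha
    · rintro ⟨hne, hr | hr⟩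
      · exact adj_of_rel h x0 v w hr hne
      · exact (adj_of_rel h x0 w v hr hne.symm).symm

theorem giso_none (x0 : V) : giso h x0 none = x0 := rfl

omit h in
theorem of_isSRGWith {V : Type*} [Fintype V] {G : SimpleGraph V} [DecidableRel G.Adj]
    {n k l m : ℕ} (h : G.IsSRGWith n k l m) : SRG' G n k l m := by
  refine ⟨?_, ?_, ?_, ?_⟩
  · rw [Nat.card_eq_fintype_card]; exact h.card
  · intro v
    rw [← Nat.card_coe_set_eq, Nat.card_eq_fintype_card, SimpleGraph.card_neighborSet_eq_degree]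
    exact h.regular v
  · intro v w hvw
    rw [← Nat.card_coe_set_eq, Nat.card_eq_fintype_card]
    exact h.of_adj v w hvw
  · intro v w hne hvw
    rw [← Nat.card_coe_set_eq, Nat.card_eq_fintype_card]
    exact h.of_not_adj hne hvw

end Cfsg.Agent.Lib.Helper10SRGUniq

namespace Cfsg.Agent.Lib.Helper10SRGUniq

open Cfsg Finset Cfsg.Agent.Lib.Helper10SRG Cfsg.Agent.Lib.Helper10HSOrb
  Cfsg.Agent.Lib.Helper10HSGraph

/-- uniqueness, with prescribed base points -/
theorem exists_iso_base {V W : Type*} [Fintype V] [Fintype W] {G : SimpleGraph V}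
    {H : SimpleGraph W} (hG : SRG' G 100 22 0 6) (hH : SRG' H 100 22 0 6) (x : V) (y : W) :
    ∃ φ : G ≃g H, φ x = y := by
  classical
  obtain ⟨e, he⟩ := Cfsg.Agent.S0410.result (card_Pt hG x) (card_Pt hH y) (steiner hG x)
    (steiner hH y)
  refine ⟨((giso hG x).symm.trans (isoOf e he)).trans (giso hH y), ?_⟩
  have h1 : (giso hG x).symm x = none := by
    rw [RelIso.symm_apply_eq]
    rfl
  show giso hH y (isoOf e he ((giso hG x).symm x)) = y
  rw [h1]
  rfl

end Cfsg.Agent.Lib.Helper10SRGUniq
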