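import Cfsg.Agent.Lib.Helper33Golay

/-!
# A verified backtracking search for one-point extensions of Steiner systems S(t, t+1, n) (helper10)
-/

set_option autoImplicit false

namespace Cfsg.Agent.Lib.Helper10Solve

open Cfsg Cfsg.Agent.Lib.Helper33Golay

theorem beq_iff' {a b : ℕ} : Nat.beq a b = true ↔ a = b :=
  ⟨Nat.eq_of_beq_eq_true, fun h => h ▸ Nat.beq_refl a⟩

theorem blt_iff' {a b : ℕ} : Nat.blt a b = true ↔ a < b := by
  simp [Nat.blt]

/-- `T` is a lower block or lies in a chosen block -/
def covered (ML inn : List ℕ) (T : ℕ) : Bool :=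
  ML.any (fun m => Nat.beq m T) || inn.any (fun c => Nat.beq (Nat.land T c) T)

def compat (t1 : ℕ) (ML inn : List ℕ) (c : ℕ) : Bool :=
  inn.all (fun d => Nat.blt (pop (Nat.land c d)) t1) &&
    ML.all (fun m => Nat.blt (pop (Nat.land c m)) t1)

def chk (n t1 : ℕ) (ML TL : List ℕ) (Sols : List (List ℕ)) : ℕ → List ℕ → Bool
  | 0, _ => false
  | f + 1, inn =>
    match TL.find? (fun T => !covered ML inn T) with
    | none => Sols.any (fun s => inn.all (fun c => s.any (fun d => Nat.beq d c)))
    | some T => (List.range n).all (fun i => Nat.beq (bit T i) 1 ||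
        !compat t1 ML inn (Nat.lor T (Nat.pow 2 i)) ||
        chk n t1 ML TL Sols f (Nat.lor T (Nat.pow 2 i) :: inn))

theorem pop_le_of_and_eq {a b : ℕ} (h : a &&& b = a) : pop a ≤ pop b := by
  rw [← card_dec, ← card_dec]
  apply Finset.card_le_card
  rw [← h, dec_and]
  exact Finset.inter_subset_right

theorem and_or_self' (T x : ℕ) : T &&& (T ||| x) = T := by
  apply Nat.eq_of_testBit_eq
  intro j
  rw [Nat.testBit_and, Nat.testBit_or]
  cases T.testBit j <;> simp

theorem chk_sound (n t1 : ℕ) (ML TL : List ℕ) (Sols : List (List ℕ)) (isN : ℕ → Prop)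
    (ha : ∀ c c', isN c → isN c' → t1 ≤ pop (c &&& c') → c = c')
    (ha' : ∀ c m, isN c → m ∈ ML → pop (c &&& m) < t1)
    (hb : ∀ T ∈ TL, T ∉ ML → ∃ i < n, bit T i ≠ 1 ∧ isN (T ||| 2 ^ i))
    (hTL : ∀ c, isN c → ∃ T ∈ TL, T &&& c = T ∧ pop T = t1) :
    ∀ (f : ℕ) (inn : List ℕ), (∀ c ∈ inn, isN c) → chk n t1 ML TL Sols f inn = true →
      ∃ s ∈ Sols, ∀ c, isN c → c ∈ s := by
  intro f
  induction f with
  | zero => intro inn _ h; exact absurd h (by simp [chk])
  | succ f ih =>
    intro inn hinn h
    rw [chk] at h
    split at h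
    · rename_i hfind
      obtain ⟨s, hs, hs'⟩ := List.any_eq_true.1 h
      refine ⟨s, hs, fun c hc => ?_⟩
      obtain ⟨T, hT, hTc, hTp⟩ := hTL c hc
      have hcov : covered ML inn T = true := by
        have := List.find?_eq_none.1 hfind T hT
        simpa using this
      rw [covered, Bool.or_eq_true] at hcov
      rcases hcov with hcov | hcov
      · obtain ⟨m, hm, hmT⟩ := List.any_eq_true.1 hcov
        rw [beq_iff'] at hmT
        subst hmT
        have h1 := ha' c m hc hm
        rw [Nat.and_comm, hTc, hTp] at h1
        exact absurd h1 (lt_irrefl _)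
      · obtain ⟨c', hc', hTc'⟩ := List.any_eq_true.1 hcov
        rw [beq_iff'] at hTc'
        have hTc'' : T &&& c' = T := hTc'
        have h1 : T &&& (c &&& c') = T := by rw [← Nat.and_assoc, hTc, hTc'']
        have h2 := pop_le_of_and_eq h1
        rw [hTp] at h2
        have h3 := ha c c' hc (hinn c' hc') h2
        rw [h3]
        obtain ⟨d, hd, hdc⟩ := List.any_eq_true.1 (List.all_eq_true.1 hs' c' hc')
        rw [beq_iff'] at hdc
        exact hdc ▸ hd
    · rename_i T hfind
      have hT : T ∈ TL := List.mem_of_find?_eq_some hfind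
      have hncov : covered ML inn T = false := by
        have := List.find?_some hfind
        simpa using this
      rw [covered, Bool.or_eq_false_iff] at hncov
      have hTML : T ∉ ML := by
        intro hm
        have : (ML.any fun m => Nat.beq m T) = true :=
          List.any_eq_true.2 ⟨T, hm, beq_iff'.2 rfl⟩
        rw [hncov.1] at this
        exact Bool.noConfusion this
      obtain ⟨i, hi, hbit, hN⟩ := hb T hT hTML
      have h1 := List.all_eq_true.1 h i (List.mem_range.2 hi)
      have hcomp : compat t1 ML inn (Nat.lor T (Nat.pow 2 i)) = true := by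
        rw [compat, Bool.and_eq_true]
        constructor
        · rw [List.all_eq_true]
          intro d hd
          rw [blt_iff']
          by_contra hlt
          push Not at hlt
          have h2 := ha _ d hN (hinn d hd) hlt
          have : (inn.any fun c => Nat.beq (Nat.land T c) T) = true :=
            List.any_eq_true.2 ⟨d, hd, beq_iff'.2 (by
              show T &&& d = T
              rw [← h2]; exact and_or_self' T _)⟩
          rw [hncov.2] at this
          exact Bool.noConfusion this
        · rw [List.all_eq_true]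
          intro m hm
          rw [blt_iff']
          exact ha' _ m hN hm
      rw [hcomp] at h1
      have hb1 : Nat.beq (bit T i) 1 = false := by
        rw [← Bool.not_eq_true, beq_iff']; exact hbit
      rw [hb1] at h1
      simp only [Bool.not_true, Bool.or_self, Bool.false_or] at h1
      apply ih _ _ h1
      intro c hc
      rcases List.mem_cons.1 hc with rfl | hc
      · exact hN
      · exact hinn c hc

end Cfsg.Agent.Lib.Helper10Solve
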