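import Cfsg.Agent.Lib.Helper10Sp6Defs

set_option autoImplicit false

namespace Cfsg.Agent.Lib.Helper10Sp6Form

open Cfsg Matrix Equiv Cfsg.Agent.Lib.Helper10Sp6Defs Cfsg.Agent.Lib.Helper63PCTabDefs

theorem B6_eq (x y : V6) : B6 x y = x ⬝ᵥ (Matrix.J (Fin 3) (ZMod 2) *ᵥ y) := by
  have hneg : ∀ a : ZMod 2, -a = a := by decide
  simp only [B6, Matrix.J, dotProduct, Matrix.mulVec, Fintype.sum_sum_type, Matrix.fromBlocks_apply₁₁,
    Matrix.fromBlocks_apply₁₂, Matrix.fromBlocks_apply₂₁, Matrix.fromBlocks_apply₂₂,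
    Matrix.zero_apply, Matrix.neg_apply, Matrix.one_apply, Fin.sum_univ_three]
  simp [hneg]
  ring

theorem B6_inv (g : Sp6) (x y : V6) : B6 (g.1 *ᵥ x) (g.1 *ᵥ y) = B6 x y := by
  have h1 : g.1ᵀ * Matrix.J (Fin 3) (ZMod 2) * g.1 = Matrix.J (Fin 3) (ZMod 2) := by
    have := SymplecticGroup.transpose_mem g.2
    rw [SymplecticGroup.mem_iff, Matrix.transpose_transpose] at this
    exact this
  rw [B6_eq, B6_eq, Matrix.mulVec_mulVec, Matrix.dotProduct_mulVec, Matrix.vecMul_mulVec,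
    ← Matrix.dotProduct_mulVec, ← mul_assoc, h1]

end Cfsg.Agent.Lib.Helper10Sp6Form
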