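import Cfsg.Agent.Lib.Helper10Sp6Defs
import Cfsg.Agent.Lib.Helper10Sp6Form

set_option autoImplicit false

namespace Cfsg.Agent.Lib.Helper10Sp6Act

open Cfsg Matrix Cfsg.Agent.Lib.Helper10Sp6Defs

theorem Q0_add (x y : V6) : Q0 (x + y) = Q0 x + Q0 y + B6 x y := by
  simp only [Q0, B6, Fin.sum_univ_three, Pi.add_apply]
  ring

theorem B6_add (a x y : V6) : B6 a (x + y) = B6 a x + B6 a y := by
  simp only [B6, Fin.sum_univ_three, Pi.add_apply]
  ring

theorem cnt : ∀ b : V6, (Finset.univ.filter (fun x : V6 => Qa b x = 0)).card =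
    if Q0 b = 0 then 36 else 28 := by decide +kernel

theorem two_self (t : ZMod 2) : t + t = 0 := CharTwo.add_self_eq_zero t

/-- piece `Act` -/
theorem exists_act (g : Sp6) (a : V6) : ∃ a' : V6, Q0 a' = Q0 a ∧ ∀ x, Qa a (g.1 *ᵥ x) = Qa a' x := by
  have hadd : ∀ x y : V6, Qa a (g.1 *ᵥ (x + y)) + Q0 (x + y) =
      (Qa a (g.1 *ᵥ x) + Q0 x) + (Qa a (g.1 *ᵥ y) + Q0 y) := by
    intro x y
    simp only [Qa, Matrix.mulVec_add, Q0_add, B6_add, Cfsg.Agent.Lib.Helper10Sp6Form.B6_inv]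
    linear_combination two_self (B6 x y)
  obtain ⟨Dl, hD⟩ : ∃ Dl : V6 →ₗ[ZMod 2] ZMod 2, ∀ x, Dl x = Qa a (g.1 *ᵥ x) + Q0 x :=
    ⟨(AddMonoidHom.mk' (fun x => Qa a (g.1 *ᵥ x) + Q0 x) hadd).toZModLinearMap 2, fun x => rfl⟩
  obtain ⟨a', ha1, ha2⟩ : ∃ a' : V6,
      (∀ i, a' (Sum.inl i) = Dl (fun j => if Sum.inr i = j then 1 else 0)) ∧
      (∀ i, a' (Sum.inr i) = Dl (fun j => if Sum.inl i = j then 1 else 0)) :=
    ⟨Sum.elim (fun i => Dl (fun j => if Sum.inr i = j then 1 else 0))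
      (fun i => Dl (fun j => if Sum.inl i = j then 1 else 0)), fun _ => rfl, fun _ => rfl⟩
  have hB : ∀ x, Dl x = B6 a' x := by
    intro x
    rw [LinearMap.pi_apply_eq_sum_univ Dl x, Fintype.sum_sum_type]
    simp only [B6, ha1, ha2, smul_eq_mul, Finset.sum_add_distrib]
    rw [add_comm]
    congr 1 <;> exact Finset.sum_congr rfl (fun i _ => mul_comm _ _)
  have hQ : ∀ x, Qa a (g.1 *ᵥ x) = Qa a' x := by
    intro x
    have h1 := hD x
    rw [hB x] at h1
    simp only [Qa] at h1 ⊢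
    linear_combination (-1 : ZMod 2) * h1 - two_self (Q0 x)
  refine ⟨a', ?_, hQ⟩
  let φ : V6 ≃ V6 :=
    { toFun := fun x => g.1 *ᵥ x
      invFun := fun x => (g⁻¹ : Sp6).1 *ᵥ x
      left_inv := fun x => by
        have h : (g⁻¹ : Sp6).1 * g.1 = 1 := congrArg Subtype.val (inv_mul_cancel g)
        simp only [Matrix.mulVec_mulVec, h, Matrix.one_mulVec]
      right_inv := fun x => by
        have h : g.1 * (g⁻¹ : Sp6).1 = 1 := congrArg Subtype.val (mul_inv_cancel g)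
        simp only [Matrix.mulVec_mulVec, h, Matrix.one_mulVec] }
  have hcard : (Finset.univ.filter (fun x : V6 => Qa a' x = 0)).card =
      (Finset.univ.filter (fun x : V6 => Qa a x = 0)).card := by
    apply Finset.card_equiv φ
    intro x
    simp only [Finset.mem_filter, Finset.mem_univ, true_and]
    rw [← hQ x]
    rfl
  rw [cnt a, cnt a'] at hcard
  have h01 : ∀ t : ZMod 2, t ≠ 0 → t = 1 := by decide
  by_cases h1 : Q0 a = 0 <;> by_cases h2 : Q0 a' = 0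
  · rw [h1, h2]
  · simp [h1, h2] at hcard
  · simp [h1, h2] at hcard
  · rw [h01 _ h1, h01 _ h2]

end Cfsg.Agent.Lib.Helper10Sp6Act
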