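import Cfsg.Agent.Lib.Helper10Sp6Defs

set_option autoImplicit false

namespace Cfsg.Agent.Lib.Helper10Sp6Inj

open Cfsg Matrix Equiv Cfsg.Agent.Lib.Helper10Sp6Defs Cfsg.Agent.Lib.Helper63PCTabDefs

theorem nu_injective : Function.Injective nu := by
  intro g h hgh
  apply Subtype.ext
  have h1 : ∀ v : V6, g.1 *ᵥ v = h.1 *ᵥ v := by
    intro v
    have h2 := congrArg (fun π : Equiv.Perm (Fin 64) => π (e64 v)) hgh
    simp only [nu_apply] at h2
    have h3 := e64.injective h2
    have h4 : vec (e64 v) = v := e64.symm_apply_apply v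
    rwa [h4] at h3
  ext i j
  have := congrFun (h1 (Pi.single j 1)) i
  simpa [Matrix.mulVec_single_one] using this

end Cfsg.Agent.Lib.Helper10Sp6Inj
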