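import Cfsg.Agent.Lib.Helper10Sp6Defs
import Cfsg.Agent.Lib.Helper10Sp6Inj
import Cfsg.Agent.S0245

set_option autoImplicit false

namespace Cfsg.Agent.Lib.Helper10Sp6Card

open Cfsg Matrix Equiv Cfsg.Agent.Lib.Helper10Sp6Defs Cfsg.Agent.Lib.Helper63PCTabDefs

theorem card_K64 : Nat.card K64 = 1451520 := by
  have h1 : Nat.card K64 = Nat.card Sp6 :=
    (Nat.card_congr (MonoidHom.ofInjective Cfsg.Agent.Lib.Helper10Sp6Inj.nu_injective).toEquiv).symm
  rw [h1, Cfsg.Agent.S0245.result (F := ZMod 2) (q := 2) (ZMod.card 2) 3]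
  norm_num [Finset.prod_range_succ]

end Cfsg.Agent.Lib.Helper10Sp6Card
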