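import Mathlib
import Cfsg.Prelude.Def_Classical
import Cfsg.Prelude.Def_KGroupFacts
import Cfsg.Agent.Lib.Helper63PCTabDefs

/-!
# The symplectic group of degree 6 over the field with two elements: vocabulary (helper10)
-/

set_option autoImplicit false

namespace Cfsg.Agent.Lib.Helper10Sp6Defs

open Matrix

abbrev I6 := Fin 3 ⊕ Fin 3
abbrev V6 := I6 → ZMod 2
abbrev Sp6 := Matrix.symplecticGroup (Fin 3) (ZMod 2)

/-- numbering of the coordinates -/
def idx : I6 → ℕ
  | Sum.inl i => i
  | Sum.inr i => 3 + i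

/-- the vector with bit mask `x` -/
def vec (x : ℕ) : V6 := fun i => if x.testBit (idx i) then 1 else 0

/-- the bit mask of a vector -/
def code (v : V6) : ℕ := ∑ i, (v i).val * 2 ^ idx i

/-- the matrix whose rows have the bit masks `r` -/
def mat (r : List ℕ) : Matrix I6 I6 (ZMod 2) :=
  Matrix.of fun i j => if (r.getD (idx i) 0).testBit (idx j) then 1 else 0

theorem code_lt : ∀ v : V6, code v < 64 := by decide +kernel

theorem code_vec : ∀ x : Fin 64, code (vec x) = x := by decide +kernel

theorem vec_code : ∀ v : V6, vec (code v) = v := by decide +kernel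

/-- numbering of the vectors -/
def e64 : V6 ≃ Fin 64 where
  toFun v := ⟨code v, code_lt v⟩
  invFun x := vec x
  left_inv v := vec_code v
  right_inv x := Fin.ext (code_vec x)

/-- the action on the numbers of the vectors -/
def nu : Sp6 →* Equiv.Perm (Fin 64) where
  toFun g :=
    { toFun := fun x => e64 (g.1 *ᵥ e64.symm x)
      invFun := fun x => e64 ((g⁻¹ : Sp6).1 *ᵥ e64.symm x)
      left_inv := fun x => by
        have h : (g⁻¹ : Sp6).1 * g.1 = 1 := congrArg Subtype.val (inv_mul_cancel g)
        simp only [Equiv.symm_apply_apply, Matrix.mulVec_mulVec, h, Matrix.one_mulVec,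
          Equiv.apply_symm_apply]
      right_inv := fun x => by
        have h : g.1 * (g⁻¹ : Sp6).1 = 1 := congrArg Subtype.val (mul_inv_cancel g)
        simp only [Equiv.symm_apply_apply, Matrix.mulVec_mulVec, h, Matrix.one_mulVec,
          Equiv.apply_symm_apply] }
  map_one' := by
    apply Equiv.ext
    intro x
    show e64 ((1 : Matrix I6 I6 (ZMod 2)) *ᵥ e64.symm x) = x
    simp
  map_mul' g h := by
    apply Equiv.ext
    intro x
    show e64 ((g.1 * h.1) *ᵥ e64.symm x) = e64 (g.1 *ᵥ e64.symm (e64 (h.1 *ᵥ e64.symm x)))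
    simp [Matrix.mulVec_mulVec]

theorem nu_apply (g : Sp6) (x : Fin 64) : nu g x = e64 (g.1 *ᵥ vec x) := rfl

/-- the group of permutations of the 64 vectors -/
def K64 : Subgroup (Equiv.Perm (Fin 64)) := nu.range

/-- the symplectic form -/
def B6 (x y : V6) : ZMod 2 :=
  ∑ i : Fin 3, (x (Sum.inl i) * y (Sum.inr i) + x (Sum.inr i) * y (Sum.inl i))

/-- the standard quadratic form -/
def Q0 (x : V6) : ZMod 2 := ∑ i : Fin 3, x (Sum.inl i) * x (Sum.inr i)

/-- the quadratic forms with polarisation `B6` -/
def Qa (a x : V6) : ZMod 2 := Q0 x + B6 a x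

/-- a transvection -/
def tmat : Matrix I6 I6 (ZMod 2) := mat [9, 2, 4, 8, 16, 32]

end Cfsg.Agent.Lib.Helper10Sp6Defs
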