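import Cfsg.Agent.Lib.Helper10Sp6Tab

/-!
# Generators of the symplectic group of degree 6 over the field with two elements as packed tables (helper10)
-/

set_option autoImplicit false
set_option maxRecDepth 1000000

namespace Cfsg.Agent.Lib.Helper10Sp6Gens

open Cfsg Cfsg.Agent.Lib.Helper10Sp6Defs Cfsg.Agent.Lib.Helper63PCTabDefs

def Ta : ℕ := 0xec1cc9d4ff47fc5dcdc4be4391eb16a9089881aa12b9499c9ddbd5a5385b8d9ad1b5795fe02c0ad8cf84f06d0ec88e80
def Tb : ℕ := 0x4d1ef96d9cf18e12c9ae90c1557f7f75fd7796734fb6f147516f3e71ed3692630eb2e106490eb8698cb08a0288aa8080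

theorem ha : Tabled K64 6 Ta :=
  Cfsg.Agent.Lib.Helper10Sp6Tab.tabled_of_mat [16, 21, 60, 55, 49, 1] Ta (by decide +kernel) (by decide +kernel)

theorem hb : Tabled K64 6 Tb :=
  Cfsg.Agent.Lib.Helper10Sp6Tab.tabled_of_mat [32, 49, 48, 6, 8, 10] Tb (by decide +kernel) (by decide +kernel)

end Cfsg.Agent.Lib.Helper10Sp6Gens
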