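import Cfsg.Agent.Lib.Helper10Sp6Defs
import Cfsg.Agent.S0246

/-!
# PROJECT 11 = SP6, piece `Iso` (helper30)
-/

set_option autoImplicit false

namespace Cfsg.Agent.Lib.Helper10Sp6Iso

open Cfsg Matrix Cfsg.Agent.Lib.Helper10Sp6Defs

universe u

theorem J_map {l R S : Type*} [DecidableEq l] [CommRing R] [CommRing S] (e : R →+* S) :
    (Matrix.J l R).map e = Matrix.J l S := by
  unfold Matrix.J
  rw [Matrix.fromBlocks_map]
  congr 1
  · ext i j; simp
  · ext i j
    by_cases h : i = j
    · subst h; simp
    · simp [h]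
  · ext i j
    by_cases h : i = j
    · subst h; simp
    · simp [h]
  · ext i j; simp

theorem map_mem {l R S : Type*} [DecidableEq l] [Fintype l] [CommRing R] [CommRing S] (e : R →+* S)
    {A : Matrix (l ⊕ l) (l ⊕ l) R} (hA : A ∈ Matrix.symplecticGroup l R) :
    A.map e ∈ Matrix.symplecticGroup l S := by
  rw [SymplecticGroup.mem_iff] at hA ⊢
  rw [← J_map e, ← Matrix.transpose_map, ← Matrix.map_mul, ← Matrix.map_mul, hA]

/-- a ring isomorphism induces an isomorphism of symplectic groups -/
def spMap {l R S : Type*} [DecidableEq l] [Fintype l] [CommRing R] [CommRing S] (e : R ≃+* S) :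
    Matrix.symplecticGroup l R ≃* Matrix.symplecticGroup l S where
  toFun A := ⟨A.1.map e, map_mem e.toRingHom A.2⟩
  invFun A := ⟨A.1.map e.symm, map_mem e.symm.toRingHom A.2⟩
  left_inv A := by
    apply Subtype.ext
    ext i j
    simp
  right_inv A := by
    apply Subtype.ext
    ext i j
    simp
  map_mul' A B := by
    apply Subtype.ext
    show (A.1 * B.1).map e = A.1.map e * B.1.map e
    exact Matrix.map_mul

theorem exists_iso {F : Type u} [Field F] [Fintype F] (hF : Fintype.card F = 2) :
    Nonempty (Sp6 ≃* Cfsg.PSp 3 F) := by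
  have e : ZMod 2 ≃+* F := ZMod.ringEquivOfPrime F Nat.prime_two hF
  have hc : Nat.card (Subgroup.center (Matrix.symplecticGroup (Fin 3) F)) = 1 := by
    rw [Cfsg.Agent.S0246.result hF 3 (by norm_num)]
    norm_num
  have hb : Subgroup.center (Matrix.symplecticGroup (Fin 3) F) = ⊥ := Subgroup.card_eq_one.mp hc
  exact ⟨(spMap e).trans
    ((QuotientGroup.quotientBot (G := Matrix.symplecticGroup (Fin 3) F)).symm.trans
      (QuotientGroup.quotientMulEquivOfEq hb.symm))⟩

end Cfsg.Agent.Lib.Helper10Sp6Iso
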