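import Cfsg.Agent.Lib.Helper10Sp6Defs
import Cfsg.Agent.Lib.Helper10Sp6Act

/-!
# PROJECT 11 = SP6, piece `Rho` (helper30)
-/

set_option autoImplicit false

namespace Cfsg.Agent.Lib.Helper10Sp6Rho

open Cfsg Matrix Equiv Cfsg.Agent.Lib.Helper10Sp6Defs Cfsg.Agent.Lib.Helper10Sp6Act

/-- the action on the parameters of the quadratic forms -/
noncomputable def act (g : Sp6) (a : V6) : V6 := (exists_act g⁻¹ a).choose

theorem act_Q0 (g : Sp6) (a : V6) : Q0 (act g a) = Q0 a := (exists_act g⁻¹ a).choose_spec.1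

theorem act_spec (g : Sp6) (a x : V6) : Qa (act g a) x = Qa a ((g⁻¹ : Sp6).1 *ᵥ x) :=
  ((exists_act g⁻¹ a).choose_spec.2 x).symm

theorem Qa_inj : ∀ a b : V6, (∀ x, Qa a x = Qa b x) → a = b := by decide +kernel

/-- the 28 forms of minus type -/
abbrev S28 := {a : V6 // Q0 a = 1}

theorem card_S28 : Fintype.card S28 = 28 := by decide +kernel

noncomputable instance instAct : MulAction Sp6 S28 where
  smul g a := ⟨act g a.1, (act_Q0 g a.1).trans a.2⟩
  one_smul a := by
    apply Subtype.ext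
    apply Qa_inj
    intro x
    show Qa (act 1 a.1) x = Qa a.1 x
    rw [act_spec, inv_one]
    show Qa a.1 ((1 : Matrix I6 I6 (ZMod 2)) *ᵥ x) = _
    rw [Matrix.one_mulVec]
  mul_smul g h a := by
    apply Subtype.ext
    apply Qa_inj
    intro x
    show Qa (act (g * h) a.1) x = Qa (act g (act h a.1)) x
    rw [act_spec, act_spec, act_spec, _root_.mul_inv_rev]
    show Qa a.1 (((h⁻¹ : Sp6).1 * (g⁻¹ : Sp6).1) *ᵥ x) = _
    rw [Matrix.mulVec_mulVec]

theorem smul_val (g : Sp6) (a : S28) : (g • a).1 = act g a.1 := rfl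

theorem tmat_mem : tmat ∈ Matrix.symplecticGroup (Fin 3) (ZMod 2) := by
  rw [SymplecticGroup.mem_iff]
  decide +kernel

theorem tmat_sq : tmat * tmat = 1 := by decide +kernel

/-- the transvection as an element of the group -/
def tt : Sp6 := ⟨tmat, tmat_mem⟩

theorem tt_sq : tt * tt = 1 := Subtype.ext tmat_sq

theorem tt_inv : tt⁻¹ = tt := inv_eq_of_mul_eq_one_left tt_sq

theorem count_moved :
    (Finset.univ.filter fun a : S28 => ¬ ∀ x, Qa a.1 (tmat *ᵥ x) = Qa a.1 x).card = 12 := by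
  decide +kernel

theorem smul_eq_iff (a : S28) : tt • a = a ↔ ∀ x, Qa a.1 (tmat *ᵥ x) = Qa a.1 x := by
  constructor
  · intro h x
    have h1 := act_spec tt a.1 x
    rw [← smul_val, h, tt_inv] at h1
    exact h1.symm
  · intro h
    apply Subtype.ext
    apply Qa_inj
    intro x
    rw [smul_val, act_spec, tt_inv]
    exact h x

theorem exists_rho : ∃ ρ : Sp6 →* Equiv.Perm (Fin 28), ∃ t : Sp6,
    (ρ t).cycleType = Multiset.replicate 6 2 := by
  classical
  let e : S28 ≃ Fin 28 := Fintype.equivFinOfCardEq card_S28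
  let ρ : Sp6 →* Equiv.Perm (Fin 28) := (e.permCongrHom).toMonoidHom.comp (MulAction.toPermHom Sp6 S28)
  have hρ : ∀ (g : Sp6) (x : Fin 28), ρ g x = e (g • e.symm x) := fun g x => rfl
  refine ⟨ρ, tt, ?_⟩
  have h2 : (ρ tt) ^ 2 = 1 := by
    rw [← map_pow, pow_two, tt_sq, map_one]
  have hs : (ρ tt).support.card = 12 := by
    rw [← count_moved]
    apply Finset.card_bij (fun x _ => e.symm x)
    · intro x hx
      rw [Perm.mem_support, hρ] at hx
      rw [Finset.mem_filter, ← smul_eq_iff]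
      refine ⟨Finset.mem_univ _, fun h => hx ?_⟩
      rw [h, Equiv.apply_symm_apply]
    · intro x _ y _ h
      exact e.symm.injective h
    · intro a ha
      rw [Finset.mem_filter, ← smul_eq_iff] at ha
      refine ⟨e a, ?_, e.symm_apply_apply a⟩
      rw [Perm.mem_support, hρ, Equiv.symm_apply_apply]
      intro h
      exact ha.2 (e.injective h)
  have h1 : ∀ n ∈ (ρ tt).cycleType, n = 2 := by
    intro n hn
    have h3 := Equiv.Perm.two_le_of_mem_cycleType hn
    have h4 := (Equiv.Perm.dvd_of_mem_cycleType hn).trans (orderOf_dvd_of_pow_eq_one h2)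
    have h5 := Nat.le_of_dvd (by norm_num) h4
    omega
  have h3 := Multiset.eq_replicate_card.2 h1
  have h4 := Equiv.Perm.sum_cycleType (ρ tt)
  rw [h3, Multiset.sum_replicate, hs, smul_eq_mul] at h4
  have h5 : Multiset.card (ρ tt).cycleType = 6 := by omega
  rw [h3, h5]

end Cfsg.Agent.Lib.Helper10Sp6Rho
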