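import Cfsg.Agent.Lib.Helper10Sp6Defs

set_option autoImplicit false

namespace Cfsg.Agent.Lib.Helper10Sp6Tab

open Cfsg Matrix Equiv Cfsg.Agent.Lib.Helper10Sp6Defs Cfsg.Agent.Lib.Helper63PCTabDefs

theorem tabled_of_mat (r : List ℕ) (T : ℕ)
    (h1 : mat r * Matrix.J (Fin 3) (ZMod 2) * (mat r)ᵀ = Matrix.J (Fin 3) (ZMod 2))
    (h2 : ∀ x : Fin 64, code (mat r *ᵥ vec x) = lk 6 T x) : Tabled K64 6 T := by
  refine ⟨nu ⟨mat r, SymplecticGroup.mem_iff.2 h1⟩, ⟨_, rfl⟩, fun x => ?_⟩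
  rw [nu_apply]
  exact h2 x

end Cfsg.Agent.Lib.Helper10Sp6Tab
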