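import Cfsg.Agent.Lib.Helper10Sp6Defs

set_option autoImplicit false

namespace Cfsg.Agent.Lib.Helper10Sp6Univ

open Cfsg

universe u

theorem stem_transport {Γ Γ' K G : Type*} [Group Γ] [Group Γ'] [Group K] [Group G]
    (f : Γ' ≃* Γ) (e : K ≃* G) (σ : Γ →* K) (h : IsStemExtension σ) :
    IsStemExtension (e.toMonoidHom.comp (σ.comp f.toMonoidHom)) := by
  obtain ⟨h1, h2, h3⟩ := h
  refine ⟨?_, ?_, ?_⟩
  · exact e.surjective.comp (h1.comp f.surjective)
  · intro x hx
    have hx' : f x ∈ σ.ker := by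
      rw [MonoidHom.mem_ker] at hx ⊢
      have : e (σ (f x)) = 1 := hx
      simpa using this
    have hc := h2 hx'
    rw [Subgroup.mem_center_iff] at hc ⊢
    intro y
    apply f.injective
    rw [map_mul, map_mul]
    exact hc (f y)
  · intro x hx
    have hx' : f x ∈ σ.ker := by
      rw [MonoidHom.mem_ker] at hx ⊢
      have : e (σ (f x)) = 1 := hx
      simpa using this
    have hc := h3 hx'
    have hmap : (commutator Γ).map f.symm.toMonoidHom = commutator Γ' := by
      rw [commutator_def, commutator_def, Subgroup.map_commutator,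
        Subgroup.map_top_of_surjective _ f.symm.surjective]
    rw [← hmap]
    exact ⟨f x, hc, by simp⟩

theorem ker_equiv {Γ Γ' K G : Type*} [Group Γ] [Group Γ'] [Group K] [Group G]
    (f : Γ' ≃* Γ) (e : K ≃* G) (σ : Γ →* K) :
    Nonempty ((e.toMonoidHom.comp (σ.comp f.toMonoidHom)).ker ≃* σ.ker) := by
  have h : (e.toMonoidHom.comp (σ.comp f.toMonoidHom)).ker.map f.toMonoidHom = σ.ker := by
    ext x
    constructor
    · rintro ⟨y, hy, rfl⟩
      rw [SetLike.mem_coe, MonoidHom.mem_ker] at hy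
      rw [MonoidHom.mem_ker]
      have : e (σ (f y)) = 1 := hy
      simpa using this
    · intro hx
      rw [MonoidHom.mem_ker] at hx
      refine ⟨f.symm x, ?_, by simp⟩
      rw [SetLike.mem_coe, MonoidHom.mem_ker]
      show e (σ (f (f.symm x))) = 1
      simp [hx]
  exact ⟨(f.subgroupMap _).trans (MulEquiv.subgroupCongr h)⟩

/-- piece `Univ` (1h, PURE group theory): change of universe. -/
theorem mult_univ {K : Type} {G : Type u} [Group K] [Group G] (e : K ≃* G) (A : Type) [CommGroup A]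
    (h : HasSchurMultiplier K A) : HasSchurMultiplier G A := by
  obtain ⟨⟨Γ, iG, iF, σ, hσ, ⟨k⟩⟩, h2⟩ := h
  constructor
  · refine ⟨ULift.{u} Γ, inferInstance, inferInstance,
      e.toMonoidHom.comp (σ.comp (MulEquiv.ulift : ULift.{u} Γ ≃* Γ).toMonoidHom),
      stem_transport _ e σ hσ, ?_⟩
    obtain ⟨k'⟩ := ker_equiv (MulEquiv.ulift : ULift.{u} Γ ≃* Γ) e σ
    exact ⟨k'.trans k⟩
  · intro Γ' _ _ σ' hσ'
    haveI : Finite (Shrink.{0} Γ') := Finite.of_equiv _ (equivShrink.{0} Γ')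
    have hst := stem_transport (Shrink.mulEquiv : Shrink.{0} Γ' ≃* Γ') e.symm σ' hσ'
    obtain ⟨π, hπ⟩ := h2 (Shrink.{0} Γ') _ hst
    obtain ⟨k'⟩ := ker_equiv (Shrink.mulEquiv : Shrink.{0} Γ' ≃* Γ') e.symm σ'
    exact ⟨k'.toMonoidHom.comp π, k'.surjective.comp hπ⟩

end Cfsg.Agent.Lib.Helper10Sp6Univ
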