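import Mathlib
import Cfsg.Prelude.Def_KGroupFacts

/-!
# The double cover of the symmetric group inside a Clifford algebra: vocabulary (helper10)
-/

set_option autoImplicit false

namespace Cfsg.Agent.Lib.Helper10SpinDefs

open CliffordAlgebra Equiv

/-- the negative definite form `-(1/2) ∑ x_i ^ 2` -/
noncomputable def Q (N : ℕ) : QuadraticForm ℚ (Fin N → ℚ) :=
  QuadraticMap.weightedSumSquares ℚ (fun _ : Fin N => (-1 / 2 : ℚ))

abbrev Cl (N : ℕ) := CliffordAlgebra (Q N)

/-- the root vector `e_i - e_j` -/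
def rv {N : ℕ} (i j : Fin N) : Fin N → ℚ := Pi.single i 1 - Pi.single j 1

/-- the root vector `e_i - e_j` in the Clifford algebra -/
noncomputable def rt {N : ℕ} (i j : Fin N) : Cl N := ι (Q N) (rv i j)

theorem Q_apply {N : ℕ} (v : Fin N → ℚ) : Q N v = (-1 / 2) * ∑ i, v i * v i := by
  rw [Q, QuadraticMap.weightedSumSquares_apply, Finset.mul_sum]
  rfl

theorem sum_rv {N : ℕ} (i j : Fin N) (f : Fin N → ℚ) : ∑ a, rv i j a * f a = f i - f j := by
  simp [rv, sub_mul, Finset.sum_sub_distrib, Pi.single_apply]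

theorem polar_eq {N : ℕ} (v w : Fin N → ℚ) : QuadraticMap.polar (Q N) v w = - ∑ i, v i * w i := by
  rw [QuadraticMap.polar, Q_apply, Q_apply, Q_apply]
  have : ∑ i, (v + w) i * (v + w) i = ∑ i, v i * v i + ∑ i, w i * w i + 2 * ∑ i, v i * w i := by
    rw [Finset.mul_sum, ← Finset.sum_add_distrib, ← Finset.sum_add_distrib]
    apply Finset.sum_congr rfl
    intro i _
    simp only [Pi.add_apply]
    ring
  rw [this]
  ring

theorem Q_rv {N : ℕ} {i j : Fin N} (h : i ≠ j) : Q N (rv i j) = -1 := by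
  rw [Q_apply, sum_rv]
  simp [rv, Pi.single_apply, h, h.symm]
  norm_num

theorem rt_sq {N : ℕ} {i j : Fin N} (h : i ≠ j) : rt i j * rt i j = -1 := by
  rw [rt, ι_sq_scalar, Q_rv h, map_neg, map_one]

theorem rt_add_swap {N : ℕ} (i j k l : Fin N) :
    rt i j * rt k l + rt k l * rt i j = algebraMap ℚ (Cl N) (-(rv k l i - rv k l j)) := by
  rw [rt, rt, ι_mul_ι_add_swap, polar_eq, sum_rv]

theorem rt_anti {N : ℕ} {i j k l : Fin N} (hik : i ≠ k) (hil : i ≠ l) (hjk : j ≠ k) (hjl : j ≠ l) :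
    rt i j * rt k l = -(rt k l * rt i j) := by
  have h := rt_add_swap i j k l
  have h0 : -(rv k l i - rv k l j) = 0 := by
    simp [rv, Pi.single_apply, hik, hil, hjk, hjl]
  rw [h0, map_zero] at h
  exact eq_neg_of_add_eq_zero_left h

theorem rt_braid {N : ℕ} {i j k : Fin N} (hij : i ≠ j) (hjk : j ≠ k) (hik : i ≠ k) :
    rt i j * rt j k + rt j k * rt i j = 1 := by
  have h := rt_add_swap i j j k
  have h0 : -(rv j k i - rv j k j) = 1 := by
    simp [rv, Pi.single_apply, hij, hjk, hik]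
  rw [h0, map_one] at h
  exact h

theorem neg_one_ne_one (N : ℕ) : (-1 : Cl N) ≠ 1 := by
  intro h
  have h2 : (2 : Cl N) = 0 := by
    have : (1 : Cl N) + 1 = 0 := by
      nth_rewrite 1 [← h]
      exact neg_add_cancel 1
    rw [← this]; norm_num
  have h3 : (1 : Cl N) = 0 := by
    have : (1 : Cl N) = algebraMap ℚ (Cl N) (1 / 2) * 2 := by
      have e : (2 : Cl N) = algebraMap ℚ (Cl N) 2 := (map_ofNat _ 2).symm
      rw [e, ← map_mul]
      norm_num
    rw [this, h2, mul_zero]
  exact one_ne_zero h3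

/-- the root vector as a unit -/
noncomputable def ru {N : ℕ} (i j : Fin N) (h : i ≠ j) : (Cl N)ˣ :=
  ⟨rt i j, -rt i j, by rw [mul_neg, rt_sq h, neg_neg], by rw [neg_mul, rt_sq h, neg_neg]⟩

theorem castSucc_ne_succ {n : ℕ} (i : Fin n) : i.castSucc ≠ i.succ := (Fin.castSucc_lt_succ).ne

/-- the ambient group -/
abbrev Amb (n : ℕ) := (Cl (n + 1))ˣ × Perm (Fin (n + 1))

/-- the lifts of the adjacent transpositions -/
noncomputable def gen (n : ℕ) (i : Fin n) : Amb n :=
  (ru i.castSucc i.succ (castSucc_ne_succ i), swap i.castSucc i.succ)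

/-- the central involution -/
noncomputable def zz (n : ℕ) : Amb n := (-1, 1)

/-- the double cover of the symmetric group of degree `n + 1` -/
noncomputable def Gam (n : ℕ) : Subgroup (Amb n) := Subgroup.closure (Set.range (gen n))

end Cfsg.Agent.Lib.Helper10SpinDefs
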