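import Cfsg.Agent.Lib.Helper10SpinDefs

/-!
# Project 10 (SPIN), piece `Std`: the standard product of `m` disjoint transpositions (helper36)
-/

set_option autoImplicit false

namespace Cfsg.Agent.Lib.Helper10SpinStd

open Cfsg Equiv Cfsg.Agent.Lib.Helper10SpinDefs

theorem zz_comm (n : ℕ) (a : Amb n) : zz n * a = a * zz n := by
  refine Prod.ext ?_ ?_
  · apply Units.ext
    simp [zz]
  · simp [zz]

theorem zz_pow_comm (n k : ℕ) (a : Amb n) : zz n ^ k * a = a * zz n ^ k := by
  induction k with
  | zero => simp
  | succ k ih => rw [pow_succ, mul_assoc, zz_comm, ← mul_assoc, ih, mul_assoc]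

theorem gen_sq (n : ℕ) (i : Fin n) : gen n i * gen n i = zz n := by
  refine Prod.ext ?_ ?_
  · apply Units.ext
    show rt i.castSucc i.succ * rt i.castSucc i.succ = ((-1 : (Cl (n + 1))ˣ) : Cl (n + 1))
    rw [rt_sq (castSucc_ne_succ i)]
    simp
  · show swap i.castSucc i.succ * swap i.castSucc i.succ = 1
    exact swap_mul_self _ _

theorem gen_far (n : ℕ) (i j : Fin n) (h : i.val + 1 < j.val) :
    gen n j * gen n i = zz n * (gen n i * gen n j) := by
  have h1 : j.castSucc ≠ i.castSucc := by
    intro e; have := congrArg Fin.val e; simp at this; omega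
  have h2 : j.castSucc ≠ i.succ := by
    intro e; have := congrArg Fin.val e; simp at this; omega
  have h3 : j.succ ≠ i.castSucc := by
    intro e; have := congrArg Fin.val e; simp at this; omega
  have h4 : j.succ ≠ i.succ := by
    intro e; have := congrArg Fin.val e; simp at this; omega
  refine Prod.ext ?_ ?_
  · apply Units.ext
    show rt j.castSucc j.succ * rt i.castSucc i.succ
      = ((-1 : (Cl (n + 1))ˣ) : Cl (n + 1)) * (rt i.castSucc i.succ * rt j.castSucc j.succ)
    rw [rt_anti h1 h2 h3 h4]
    simp
  · show swap j.castSucc j.succ * swap i.castSucc i.succ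
      = 1 * (swap i.castSucc i.succ * swap j.castSucc j.succ)
    rw [one_mul]
    have hd : Equiv.Perm.Disjoint (swap j.castSucc j.succ) (swap i.castSucc i.succ) := by
      intro x
      by_cases hx1 : x = j.castSucc
      · right
        rw [hx1]
        exact swap_apply_of_ne_of_ne h1 h2
      by_cases hx2 : x = j.succ
      · right
        rw [hx2]
        exact swap_apply_of_ne_of_ne h3 h4
      left
      exact swap_apply_of_ne_of_ne hx1 hx2
    exact hd.commute.eq

theorem tri (m : ℕ) : (m + 1) * (m + 1 + 1) / 2 = m + m * (m + 1) / 2 + 1 := by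
  have h : (m + 1) * (m + 1 + 1) = m * (m + 1) + 2 * (m + 1) := by ring
  rw [h, Nat.add_mul_div_left _ _ (by norm_num)]
  omega

theorem exists_std_aux (n m : ℕ) (hm : 2 * m ≤ n + 1) :
    ∃ g ∈ Gam n, g * g = zz n ^ (m * (m + 1) / 2) ∧ g.2.cycleType = Multiset.replicate m 2 ∧
      (∀ x : Fin (n + 1), 2 * m ≤ x.val → g.2 x = x) ∧
      (∀ j : Fin n, 2 * m ≤ j.val → gen n j * g = zz n ^ m * (g * gen n j)) := by
  induction m with
  | zero =>
    refine ⟨1, (Gam n).one_mem, by simp, by simp, fun x _ => rfl, fun j _ => by simp⟩
  | succ m ih =>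
    obtain ⟨g, hg, hsq, hct, hfix, hcomm⟩ := ih (by omega)
    have hlt : 2 * m < n := by omega
    set i : Fin n := ⟨2 * m, hlt⟩ with hi
    set y := gen n i with hy
    have hyG : y ∈ Gam n := Subgroup.subset_closure ⟨i, rfl⟩
    refine ⟨g * y, (Gam n).mul_mem hg hyG, ?_, ?_, ?_, ?_⟩
    · have h1 : y * g = zz n ^ m * (g * y) := hcomm i (le_refl _)
      calc g * y * (g * y) = g * (y * g) * y := by group
        _ = g * (zz n ^ m * (g * y)) * y := by rw [h1]
        _ = zz n ^ m * (g * g) * (y * y) := by
          rw [← mul_assoc g, ← zz_pow_comm n m g]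
          group
        _ = zz n ^ ((m + 1) * (m + 1 + 1) / 2) := by
          rw [hsq, hy, gen_sq, tri, pow_succ, pow_add]
    · have hdisj : Equiv.Perm.Disjoint g.2 y.2 := by
        intro x
        by_cases hx : 2 * m ≤ x.val
        · left; exact hfix x hx
        · right
          show swap i.castSucc i.succ x = x
          apply swap_apply_of_ne_of_ne
          · intro e; have := congrArg Fin.val e; simp [hi] at this; omega
          · intro e; have := congrArg Fin.val e; simp [hi] at this; omega
      show (g.2 * y.2).cycleType = _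
      rw [hdisj.cycleType_mul, hct]
      have : y.2.cycleType = {2} := by
        show (swap i.castSucc i.succ).cycleType = {2}
        exact (Equiv.Perm.isSwap_iff_cycleType.1 ⟨_, _, castSucc_ne_succ i, rfl⟩)
      rw [this, Multiset.replicate_succ, add_comm]
      rfl
    · intro x hx
      show g.2 (y.2 x) = x
      have : y.2 x = x := by
        show swap i.castSucc i.succ x = x
        apply swap_apply_of_ne_of_ne
        · intro e; have := congrArg Fin.val e; simp [hi] at this; omega
        · intro e; have := congrArg Fin.val e; simp [hi] at this; omega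
      rw [this]
      exact hfix x (by omega)
    · intro j hj
      have h1 : gen n j * g = zz n ^ m * (g * gen n j) := hcomm j (by omega)
      have h2 : gen n j * y = zz n * (y * gen n j) := gen_far n i j (by simp [hi]; omega)
      calc gen n j * (g * y) = (gen n j * g) * y := by group
        _ = zz n ^ m * (g * (gen n j * y)) := by rw [h1]; group
        _ = zz n ^ m * (g * (zz n * (y * gen n j))) := by rw [h2]
        _ = zz n ^ (m + 1) * (g * y * gen n j) := by
          rw [← mul_assoc g, ← zz_comm n g, pow_succ]
          group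

theorem exists_std (n m : ℕ) (hm : 2 * m ≤ n + 1) :
    ∃ g ∈ Gam n, g * g = zz n ^ (m * (m + 1) / 2) ∧ g.2.cycleType = Multiset.replicate m 2 := by
  obtain ⟨g, h1, h2, h3, -, -⟩ := exists_std_aux n m hm
  exact ⟨g, h1, h2, h3⟩

end Cfsg.Agent.Lib.Helper10SpinStd
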