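import Mathlib
import Cfsg.Prelude.Def_KGroupFacts

/-!
# PROJECT 10 = SPIN, piece `Stem` (helper15)
-/

set_option autoImplicit false

namespace Cfsg.Agent.Lib.Helper10SpinStem

open Cfsg

theorem stem_of_cover {E S : Type} [Group E] [Finite E] [Group S] (π : E →* S)
    (hπ : Function.Surjective π) (z : E) (hz : z ∈ Subgroup.center E) (hz1 : z ≠ 1)
    (hker : ∀ a, π a = 1 → a = 1 ∨ a = z) (hπz : π z = 1)
    (K : Subgroup S) (hK : commutator K = ⊤) (g : S) (hg : g ∈ K)
    (hsq : ∀ a, π a = g → a * a = z) :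
    ∃ (Γ : Type) (_ : Group Γ) (_ : Finite Γ) (σ : Γ →* K), IsStemExtension σ ∧ Nat.card σ.ker = 2 := by
  classical
  let Γ : Subgroup E := K.comap π
  let σ : Γ →* K := π.subgroupComap K
  have hσ : Function.Surjective σ := MonoidHom.subgroupComap_surjective_of_surjective π K hπ
  have hσv : ∀ a : Γ, (σ a : S) = π a.1 := fun a => rfl
  have hzΓ : z ∈ Γ := by
    show π z ∈ K
    rw [hπz]; exact K.one_mem
  let z' : Γ := ⟨z, hzΓ⟩
  have hkmem : ∀ a : Γ, a ∈ σ.ker ↔ a = 1 ∨ a = z' := by
    intro a
    rw [MonoidHom.mem_ker]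
    constructor
    · intro h
      have : π a.1 = 1 := by rw [← hσv, h]; rfl
      rcases hker _ this with h | h
      · left; exact Subtype.ext h
      · right; exact Subtype.ext h
    · rintro (rfl | rfl)
      · exact map_one _
      · exact Subtype.ext hπz
  have hzc : z' ∈ commutator Γ := by
    have h1 : (commutator Γ).map σ = commutator K := by
      rw [commutator_def, Subgroup.map_commutator, Subgroup.map_top_of_surjective σ hσ,
        ← commutator_def]
    have h2 : (⟨g, hg⟩ : K) ∈ (commutator Γ).map σ := by rw [h1, hK]; trivial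
    obtain ⟨d, hd, hdg⟩ := h2
    have h3 : d * d = z' := Subtype.ext (hsq d.1 (by rw [← hσv, hdg]))
    rw [← h3]; exact mul_mem hd hd
  refine ⟨Γ, inferInstance, inferInstance, σ, ⟨hσ, ?_, ?_⟩, ?_⟩
  · intro a ha
    rcases (hkmem a).1 ha with rfl | rfl
    · exact one_mem _
    · rw [Subgroup.mem_center_iff]
      intro b
      exact Subtype.ext (Subgroup.mem_center_iff.1 hz b.1)
  · intro a ha
    rcases (hkmem a).1 ha with rfl | rfl
    · exact one_mem _
    · exact hzc
  · rw [Nat.card_eq_two_iff]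
    refine ⟨⟨1, one_mem _⟩, ⟨z', (hkmem z').2 (Or.inr rfl)⟩, ?_, ?_⟩
    · intro h
      apply hz1
      have := congrArg (fun t => (t.1.1 : E)) h
      exact this.symm
    · ext a
      simp only [Set.mem_insert_iff, Set.mem_singleton_iff, Set.mem_univ, iff_true]
      rcases (hkmem a.1).1 a.2 with h | h
      · left; exact Subtype.ext h
      · right; exact Subtype.ext h

end Cfsg.Agent.Lib.Helper10SpinStem
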