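import Cfsg.Agent.Lib.Helper10W12Data

/-!
# Uniqueness of the small Witt designs, with prescribed images of t points (helper10)
-/

set_option autoImplicit false

namespace Cfsg.Agent.Lib.Helper10W12

open Cfsg Finset Cfsg.Agent.Lib.Helper33Golay Cfsg.Agent.Lib.Helper10Solve
  Cfsg.Agent.Lib.Helper10EmbL Cfsg.Agent.Lib.Helper10W12Data

theorem cardX7 : (Finset.univ.filter (fun p : GolayPt => idx p < 7)).card = 7 := by
  decide +kernel

theorem good7 : Good 7 0 ML7 where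
  lt := by decide +kernel
  pop := by decide +kernel
  uniq := by decide +kernel
  n_le := by norm_num
  cardX := cardX7

theorem cardX8 : (Finset.univ.filter (fun p : GolayPt => idx p < 8)).card = 8 := by
  decide +kernel

theorem good8 : Good 8 1 ML8 where
  lt := by decide +kernel
  pop := by decide +kernel
  uniq := by decide +kernel
  n_le := by norm_num
  cardX := cardX8

theorem cardX9 : (Finset.univ.filter (fun p : GolayPt => idx p < 9)).card = 9 := by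
  decide +kernel

theorem good9 : Good 9 2 ML9 where
  lt := by decide +kernel
  pop := by decide +kernel
  uniq := by decide +kernel
  n_le := by norm_num
  cardX := cardX9

theorem cardX10 : (Finset.univ.filter (fun p : GolayPt => idx p < 10)).card = 10 := by
  decide +kernel

theorem good10 : Good 10 3 ML10 where
  lt := by decide +kernel
  pop := by decide +kernel
  uniq := by decide +kernel
  n_le := by norm_num
  cardX := cardX10

theorem cardX11 : (Finset.univ.filter (fun p : GolayPt => idx p < 11)).card = 11 := by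
  decide +kernel

theorem good11 : Good 11 4 ML11 where
  lt := by decide +kernel
  pop := by decide +kernel
  uniq := by decide +kernel
  n_le := by norm_num
  cardX := cardX11

theorem cardX12 : (Finset.univ.filter (fun p : GolayPt => idx p < 12)).card = 12 := by
  decide +kernel

theorem good12 : Good 12 5 ML12 where
  lt := by decide +kernel
  pop := by decide +kernel
  uniq := by decide +kernel
  n_le := by norm_num
  cardX := cardX12

theorem TL7_all : ∀ m ∈ TL7, m < 2 ^ 7 ∧ pop m = 0 + 1 := by decide +kernel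

theorem TL7_mem : ∀ T, T < 2 ^ 7 → pop T = 0 + 1 → T ∈ TL7 :=
  mem_TL 7 (0 + 1) TL7 (by norm_num) cardX7 (by decide +kernel) TL7_all (by decide +kernel)

theorem chk7 : chk 7 (0 + 1) ML7 TL7 (Sols7.map Prod.fst) 70 [] = true := by
  decide +kernel

theorem hP7 : ∀ sp ∈ Sols7, validPerm sp.2 = true ∧ (∀ i < 24, 7 ≤ i → img sp.2 i = i) ∧
    (∀ i < 7, img sp.2 i < 7) ∧ (∀ c ∈ sp.1, app sp.2 c ∈ ML8) ∧
    ∀ m ∈ ML7, app sp.2 (m ||| 2 ^ 7) ∈ ML8 := by decide +kernel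

theorem TL8_all : ∀ m ∈ TL8, m < 2 ^ 8 ∧ pop m = 1 + 1 := by decide +kernel

theorem TL8_mem : ∀ T, T < 2 ^ 8 → pop T = 1 + 1 → T ∈ TL8 :=
  mem_TL 8 (1 + 1) TL8 (by norm_num) cardX8 (by decide +kernel) TL8_all (by decide +kernel)

theorem chk8 : chk 8 (1 + 1) ML8 TL8 (Sols8.map Prod.fst) 70 [] = true := by
  decide +kernel

theorem hP8 : ∀ sp ∈ Sols8, validPerm sp.2 = true ∧ (∀ i < 24, 7 ≤ i → img sp.2 i = i) ∧
    (∀ i < 7, img sp.2 i < 7) ∧ (∀ c ∈ sp.1, app sp.2 c ∈ ML9) ∧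
    ∀ m ∈ ML8, app sp.2 (m ||| 2 ^ 8) ∈ ML9 := by decide +kernel

theorem TL9_all : ∀ m ∈ TL9, m < 2 ^ 9 ∧ pop m = 2 + 1 := by decide +kernel

theorem TL9_mem : ∀ T, T < 2 ^ 9 → pop T = 2 + 1 → T ∈ TL9 :=
  mem_TL 9 (2 + 1) TL9 (by norm_num) cardX9 (by decide +kernel) TL9_all (by decide +kernel)

theorem chk9 : chk 9 (2 + 1) ML9 TL9 (Sols9.map Prod.fst) 70 [] = true := by
  decide +kernel

theorem hP9 : ∀ sp ∈ Sols9, validPerm sp.2 = true ∧ (∀ i < 24, 7 ≤ i → img sp.2 i = i) ∧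
    (∀ i < 7, img sp.2 i < 7) ∧ (∀ c ∈ sp.1, app sp.2 c ∈ ML10) ∧
    ∀ m ∈ ML9, app sp.2 (m ||| 2 ^ 9) ∈ ML10 := by decide +kernel

theorem TL10_all : ∀ m ∈ TL10, m < 2 ^ 10 ∧ pop m = 3 + 1 := by decide +kernel

theorem TL10_mem : ∀ T, T < 2 ^ 10 → pop T = 3 + 1 → T ∈ TL10 :=
  mem_TL 10 (3 + 1) TL10 (by norm_num) cardX10 (by decide +kernel) TL10_all (by decide +kernel)

theorem chk10 : chk 10 (3 + 1) ML10 TL10 (Sols10.map Prod.fst) 70 [] = true := by
  decide +kernel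

theorem hP10 : ∀ sp ∈ Sols10, validPerm sp.2 = true ∧ (∀ i < 24, 7 ≤ i → img sp.2 i = i) ∧
    (∀ i < 7, img sp.2 i < 7) ∧ (∀ c ∈ sp.1, app sp.2 c ∈ ML11) ∧
    ∀ m ∈ ML10, app sp.2 (m ||| 2 ^ 10) ∈ ML11 := by decide +kernel

theorem TL11_all : ∀ m ∈ TL11, m < 2 ^ 11 ∧ pop m = 4 + 1 := by decide +kernel

theorem TL11_mem : ∀ T, T < 2 ^ 11 → pop T = 4 + 1 → T ∈ TL11 :=
  mem_TL 11 (4 + 1) TL11 (by norm_num) cardX11 (by decide +kernel) TL11_all (by decide +kernel)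

theorem chk11 : chk 11 (4 + 1) ML11 TL11 (Sols11.map Prod.fst) 70 [] = true := by
  decide +kernel

theorem hP11 : ∀ sp ∈ Sols11, validPerm sp.2 = true ∧ (∀ i < 24, 7 ≤ i → img sp.2 i = i) ∧
    (∀ i < 7, img sp.2 i < 7) ∧ (∀ c ∈ sp.1, app sp.2 c ∈ ML12) ∧
    ∀ m ∈ ML11, app sp.2 (m ||| 2 ^ 11) ∈ ML12 := by decide +kernel

section chain
variable {α : Type*} [Fintype α] [DecidableEq α]

theorem W0 (hα : Fintype.card α = 7) {B : Set (Finset α)} (hB : IsSteinerSystem 0 1 B)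
    (x : Fin 0 ↪ α) : ∃ ι, EmbL 7 ML7 B ι ∧ ∀ i : Fin 0, ι (x i) = pt (7 + i) :=
  base0 hα hB x

theorem W1 (hα : Fintype.card α = 8) {B : Set (Finset α)} (hB : IsSteinerSystem 1 2 B)
    (x : Fin 1 ↪ α) : ∃ ι, EmbL 8 ML8 B ι ∧ ∀ i : Fin 1, ι (x i) = pt (7 + i) :=
  stepL 7 0 rfl ML7 ML8 TL7 Sols7 70 good7 (by norm_num) TL7_mem TL7_all chk7 hP7
    hα hB x (fun x' => W0 (by rw [card_ne', hα]) (Cfsg.Agent.S0351.result hB _) x')

theorem W2 (hα : Fintype.card α = 9) {B : Set (Finset α)} (hB : IsSteinerSystem 2 3 B)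
    (x : Fin 2 ↪ α) : ∃ ι, EmbL 9 ML9 B ι ∧ ∀ i : Fin 2, ι (x i) = pt (7 + i) :=
  stepL 8 1 rfl ML8 ML9 TL8 Sols8 70 good8 (by norm_num) TL8_mem TL8_all chk8 hP8
    hα hB x (fun x' => W1 (by rw [card_ne', hα]) (Cfsg.Agent.S0351.result hB _) x')

theorem W3 (hα : Fintype.card α = 10) {B : Set (Finset α)} (hB : IsSteinerSystem 3 4 B)
    (x : Fin 3 ↪ α) : ∃ ι, EmbL 10 ML10 B ι ∧ ∀ i : Fin 3, ι (x i) = pt (7 + i) :=
  stepL 9 2 rfl ML9 ML10 TL9 Sols9 70 good9 (by norm_num) TL9_mem TL9_all chk9 hP9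
    hα hB x (fun x' => W2 (by rw [card_ne', hα]) (Cfsg.Agent.S0351.result hB _) x')

theorem W4 (hα : Fintype.card α = 11) {B : Set (Finset α)} (hB : IsSteinerSystem 4 5 B)
    (x : Fin 4 ↪ α) : ∃ ι, EmbL 11 ML11 B ι ∧ ∀ i : Fin 4, ι (x i) = pt (7 + i) :=
  stepL 10 3 rfl ML10 ML11 TL10 Sols10 70 good10 (by norm_num) TL10_mem TL10_all chk10 hP10
    hα hB x (fun x' => W3 (by rw [card_ne', hα]) (Cfsg.Agent.S0351.result hB _) x')

theorem W5 (hα : Fintype.card α = 12) {B : Set (Finset α)} (hB : IsSteinerSystem 5 6 B)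
    (x : Fin 5 ↪ α) : ∃ ι, EmbL 12 ML12 B ι ∧ ∀ i : Fin 5, ι (x i) = pt (7 + i) :=
  stepL 11 4 rfl ML11 ML12 TL11 Sols11 70 good11 (by norm_num) TL11_mem TL11_all chk11 hP11
    hα hB x (fun x' => W4 (by rw [card_ne', hα]) (Cfsg.Agent.S0351.result hB _) x')

end chain

end Cfsg.Agent.Lib.Helper10W12
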