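import Mathlib
import Cfsg.Prelude.Def_OddOrderLocal

/-!
Vocabulary for Bender-Glauberman, Section 14 (project 14).
-/

set_option autoImplicit false

namespace Cfsg.Agent.Lib.Helper52BG14Defs

open Cfsg Subgroup

variable {G : Type*} [Group G]

/-- `K* = C_{M_σ}(K)`. -/
abbrev Ks (M K : Subgroup G) : Subgroup G := sigmaCore M ⊓ centralizer (K : Set G)

/-- `M` is a maximal subgroup "of type P" and `K` a (nontrivial) Hall `κ(M)`-subgroup of `M`. -/
structure PT (M K : Subgroup G) : Prop where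
  max : IsCoatom M
  hall : IsPiHallOf (kappa M) K M
  ne : K ≠ ⊥

/-- `L` is a *component* of `D`: a maximal subgroup containing `D` with `D ∩ L_σ ≠ 1`. -/
def Comp (D L : Subgroup G) : Prop := IsCoatom L ∧ D ≤ L ∧ D ⊓ sigmaCore L ≠ ⊥

/-- `M` is "of type P₁ or F₁": every prime divisor of `|M|` lies in `σ(M) ∪ κ(M)`. -/
def NoU (M : Subgroup G) : Prop :=
  ∀ r : ℕ, r.Prime → r ∣ Nat.card M → r ∉ sigma M → r ∈ kappa M

end Cfsg.Agent.Lib.Helper52BG14Defs
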