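import Mathlib
import Cfsg.Prelude.Def_OddOrderLocal
import Cfsg.Agent.Lib.Helper52BG14Defs

/-!
PROJECT 76 = S1376 (B-G Theorem D(d), Coq `nonFtype_signalizer_base`): vocabulary.
-/

set_option autoImplicit false

namespace Cfsg.Agent.Lib.Helper11BG76Defs

open Cfsg Subgroup
open Cfsg.Agent.Lib.Helper52BG14Defs

variable {G : Type*} [Group G]

/-- The configuration produced by S1375 + S1435: `N = K U N_σ` is of type P₂ with partner `Ns = N*`,
`M` is a maximal subgroup containing `N_G(R)` for a Sylow `p`-subgroup `R` of `U`, `p ∈ τ₂(N)`,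
`A ≤ U` elementary abelian of order `p²`. -/
structure Cfg (M N K U Ns A : Subgroup G) (p : ℕ) : Prop where
  hM : IsCoatom M
  hN : IsCoatom N
  hNs : IsCoatom Ns
  dec : IsSigmaDecomposition N K U
  hK1 : K ≠ ⊥
  hU1 : U ≠ ⊥
  hKst : K = sigmaCore Ns ⊓ centralizer ((sigmaCore N ⊓ centralizer (K : Set G) : Subgroup G) : Set G)
  hKstH : IsPiHallOf (kappa Ns) (sigmaCore N ⊓ centralizer (K : Set G)) Ns
  kM : kappa M = ∅
  UM : U ≤ sigmaCore M
  NM : N ⊓ M = U ⊔ K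
  KF : K ≤ fittingOf (M ⊓ Ns)
  compl : IsComplIn (M ⊓ Ns) (sigmaCore M) M
  pp : p.Prime
  hp : p ∈ tau2 N
  AU : A ≤ U
  Ae : IsElementaryAbelian p A
  Ac : Nat.card A = p ^ 2

/-- What the later pieces use.  `D = M ∩ Ns` is a complement of `M_σ` in `M`; `(Ns, Kst)` is of type P
with `C_{Ns_σ}(Kst) = K` of prime order `k`; `K ≤ F(D)` acts without fixed points on `M_σ`;
`A ≤ M_σ` is a maximal elementary abelian `p`-subgroup of `G`, of order `p²`, with `C_D(A) = 1`. -/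
structure Bas (M Ns K Kst A : Subgroup G) (p k : ℕ) : Prop where
  hM : IsCoatom M
  pt : PT Ns Kst
  KsK : Ks Ns Kst = K
  kp : k.Prime
  Kc : Nat.card K = k
  kM : kappa M = ∅
  compl : IsComplIn (M ⊓ Ns) (sigmaCore M) M
  KD : K ≤ M ⊓ Ns
  KF : K ≤ fittingOf (M ⊓ Ns)
  regK : sigmaCore M ⊓ centralizer (K : Set G) = ⊥
  pp : p.Prime
  AM : A ≤ sigmaCore M
  Ae : IsElementaryAbelian p A
  Ac : Nat.card A = p ^ 2
  maxA : ∀ B : Subgroup G, IsElementaryAbelian p B → A ≤ B → B = A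
  DA : (M ⊓ Ns) ⊓ centralizer (A : Set G) = ⊥
  ne : M ≠ Ns
  uniq : ∀ X : Subgroup G, X ≤ Kst → (Nat.card X).Prime → ∀ L : Subgroup G, IsCoatom L →
    centralizer (X : Set G) ≤ L → (kappa L).Nonempty

end Cfsg.Agent.Lib.Helper11BG76Defs
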