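import Mathlib

set_option autoImplicit false

namespace Cfsg.Agent.Lib.Helper66Fpf

/-- the Lang map on an invariant subgroup -/
def langMap {G : Type*} [Group G] (α : MulAut G) (K : Subgroup G)
    (hK : ∀ x ∈ K, α x ∈ K) : K → K :=
  fun y => ⟨(y : G)⁻¹ * α y, K.mul_mem (K.inv_mem y.2) (hK y y.2)⟩

theorem langMap_bijective {G : Type*} [Group G] [Finite G] (α : MulAut G) (K : Subgroup G)
    (hK : ∀ x ∈ K, α x ∈ K) (hf : ∀ x ∈ K, α x = x → x = 1) :
    Function.Bijective (langMap α K hK) := by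
  apply Finite.injective_iff_bijective.mp
  intro a b hab
  have h1 : (a : G)⁻¹ * α a = (b : G)⁻¹ * α b := congrArg Subtype.val hab
  have h2 : α ((b : G) * (a : G)⁻¹) = (b : G) * (a : G)⁻¹ := by
    rw [map_mul, map_inv]
    have : α (b : G) = (b : G) * ((a : G)⁻¹ * α a) := by rw [h1]; group
    rw [this]; group
  have h3 := hf _ (K.mul_mem b.2 (K.inv_mem a.2)) h2
  apply Subtype.ext
  exact (mul_inv_eq_one.mp h3).symm

/-- Lang-type surjectivity for a fixed-point-free automorphism on an invariant subgroup. -/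
theorem lang {G : Type*} [Group G] [Finite G] (α : MulAut G) (K : Subgroup G)
    (hK : ∀ x ∈ K, α x ∈ K) (hf : ∀ x ∈ K, α x = x → x = 1) :
    ∀ x ∈ K, ∃ y ∈ K, y⁻¹ * α y = x := by
  intro x hx
  obtain ⟨y, hy⟩ := (langMap_bijective α K hK hf).2 ⟨x, hx⟩
  exact ⟨y, y.2, congrArg Subtype.val hy⟩

section action

variable {V : Type*} [CommGroup V] [Finite V] {X : Type*} [Group X] [Finite X]
  [MulDistribMulAction X V]

omit [Finite V] in
theorem prod_conj (R : Subgroup X) [Fintype R]
    (z : X) (hzR : ∀ x ∈ R, z * x * z⁻¹ ∈ R) (hf : ∀ x ∈ R, z * x * z⁻¹ = x → x = 1)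
    (v : V) :
    ∏ r : R, ((r : X)⁻¹ * z * r) • v = ∏ r : R, (r : X) • (z • v) := by
  have hbij := langMap_bijective (MulAut.conj z) R (fun x hx => by
    rw [MulAut.conj_apply]; exact hzR x hx) (fun x hx h => by
    rw [MulAut.conj_apply] at h; exact hf x hx h)
  rw [← hbij.prod_comp (fun r : R => (r : X) • (z • v))]
  apply Finset.prod_congr rfl
  intro r _
  show _ = ((r : X)⁻¹ * (MulAut.conj z (r : X))) • (z • v)
  rw [MulAut.conj_apply, ← mul_smul]
  congr 1
  group

omit [Finite V] [Finite X] in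
theorem norm_fixed (R : Subgroup X) [Fintype R]
    (x : X) (hx : x ∈ R) (w : V) :
    x • (∏ r : R, (r : X) • w) = ∏ r : R, (r : X) • w := by
  rw [Finset.smul_prod']
  simp only [← mul_smul]
  exact Fintype.prod_equiv (Equiv.mulLeft (⟨x, hx⟩ : R)) _ _ (fun r => rfl)

omit [Finite V] in
/-- Frobenius-type lemma -/
theorem frob (s : X) (hs4 : s ^ 4 = 1)
    (hsV : ∀ v : V, s • v = v → v = 1) (R : Subgroup X)
    (hcop : (Nat.card V).Coprime (Nat.card R))
    (hsR : ∀ x ∈ R, s * x * s⁻¹ ∈ R) (hf1 : ∀ x ∈ R, s * x * s⁻¹ = x → x = 1)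
    (hf2 : ∀ x ∈ R, s ^ 2 * x * (s ^ 2)⁻¹ = x → x = 1) :
    ∀ x ∈ R, ∀ v : V, x • v = v := by
  classical
  have : Fintype R := Fintype.ofFinite R
  have key : ∀ (r : X) (v : V),
      v * (r⁻¹ * s * r) • v * (r⁻¹ * s ^ 2 * r) • v * (r⁻¹ * s ^ 3 * r) • v = 1 := by
    intro r v
    set y := r⁻¹ * s * r with hy
    have h2 : r⁻¹ * s ^ 2 * r = y * y := by
      rw [hy]; simp only [pow_succ, pow_zero, one_mul]; group
    have h3 : r⁻¹ * s ^ 3 * r = y * y * y := by
      rw [hy]; simp only [pow_succ, pow_zero, one_mul]; group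
    have h4 : y * y * y * y = 1 := by
      have : y * y * y * y = r⁻¹ * s ^ 4 * r := by
        rw [hy]; simp only [pow_succ, pow_zero, one_mul]; group
      rw [this, hs4]; group
    rw [h2, h3]
    set w := v * y • v * (y * y) • v * (y * y * y) • v with hw
    have hyw : y • w = w := by
      have h5 : y • ((y * y * y) • v) = v := by
        rw [← mul_smul]
        have e : y * (y * y * y) = y * y * y * y := by simp only [mul_assoc]
        rw [e, h4, one_smul]
      rw [hw, smul_mul', smul_mul', smul_mul', h5]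
      simp only [mul_smul]
      rw [mul_comm]
      simp only [mul_assoc]
    have h6 : s • (r • w) = r • w := by
      have : r • (y • w) = s • (r • w) := by
        rw [hy, ← mul_smul, ← mul_smul]; congr 1; group
      rw [← this, hyw]
    have h7 := hsV _ h6
    have h8 : r⁻¹ • (r • w) = r⁻¹ • (1 : V) := by rw [h7]
    rwa [inv_smul_smul, smul_one] at h8
  have hs2R : ∀ x ∈ R, s ^ 2 * x * (s ^ 2)⁻¹ ∈ R := by
    intro x hx
    have := hsR _ (hsR x hx)
    have e : s ^ 2 * x * (s ^ 2)⁻¹ = s * (s * x * s⁻¹) * s⁻¹ := by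
      simp only [pow_succ, pow_zero, one_mul]; group
    rw [e]; exact this
  have hs3R : ∀ x ∈ R, s ^ 3 * x * (s ^ 3)⁻¹ ∈ R := by
    intro x hx
    have := hsR _ (hsR _ (hsR x hx))
    have e : s ^ 3 * x * (s ^ 3)⁻¹ = s * (s * (s * x * s⁻¹) * s⁻¹) * s⁻¹ := by
      simp only [pow_succ, pow_zero, one_mul]; group
    rw [e]; exact this
  have hf3 : ∀ x ∈ R, s ^ 3 * x * (s ^ 3)⁻¹ = x → x = 1 := by
    intro x hx h
    apply hf1 x hx
    have e : s * x * s⁻¹ = s * (s ^ 3 * x * (s ^ 3)⁻¹) * s⁻¹ := by rw [h]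
    rw [e]
    have e2 : s * (s ^ 3 * x * (s ^ 3)⁻¹) * s⁻¹ = s ^ 4 * x * (s ^ 4)⁻¹ := by
      simp only [pow_succ, pow_zero, one_mul]; group
    rw [e2, hs4]; group
  have hfix : ∀ (v : V) (x : X), x ∈ R → x • (v ^ Nat.card R) = v ^ Nat.card R := by
    intro v x hx
    have h1 : ∏ r : R, (v * ((r : X)⁻¹ * s * r) • v * ((r : X)⁻¹ * s ^ 2 * r) • v
        * ((r : X)⁻¹ * s ^ 3 * r) • v) = 1 :=
      Finset.prod_eq_one (fun r _ => key r v)
    rw [Finset.prod_mul_distrib, Finset.prod_mul_distrib, Finset.prod_mul_distrib,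
      prod_conj R s hsR hf1, prod_conj R (s ^ 2) hs2R hf2, prod_conj R (s ^ 3) hs3R hf3,
      Finset.prod_const, Finset.card_univ, ← Nat.card_eq_fintype_card] at h1
    have h2 : v ^ Nat.card R = ((∏ r : R, (r : X) • (s • v)) *
        (∏ r : R, (r : X) • ((s ^ 2) • v)) * (∏ r : R, (r : X) • ((s ^ 3) • v)))⁻¹ := by
      rw [eq_inv_iff_mul_eq_one, ← h1]
      simp only [mul_assoc]
    rw [h2, smul_inv', smul_mul', smul_mul', norm_fixed R x hx, norm_fixed R x hx,
      norm_fixed R x hx]
  intro x hx v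
  have h := hfix v x hx
  rw [smul_pow'] at h
  exact (powCoprime hcop).injective h


omit [Finite X] [MulDistribMulAction X V] [Finite V] in
theorem comm_lt {H : Subgroup X} (hs : Group.IsSolvable H) (hH : H ≠ ⊥) : ⁅H, H⁆ < H := by
  rw [← Subgroup.nontrivial_iff_ne_bot] at hH
  have h1 := Group.IsSolvable.commutator_lt_top_of_nontrivial H
  have h2 : (commutator H).map H.subtype < (⊤ : Subgroup H).map H.subtype :=
    Subgroup.map_subtype_lt_map_subtype.mpr h1
  rw [commutator_def, Subgroup.map_commutator, ← MonoidHom.range_eq_map, H.range_subtype] at h2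
  exact h2

omit [MulDistribMulAction X V] [Finite V] in
theorem card_lt_of_lt {H K : Subgroup X} (h : H < K) : Nat.card H < Nat.card K := by
  by_contra hcon
  exact h.ne (Subgroup.eq_of_le_of_card_ge h.le (not_lt.mp hcon))

/-- in a group of odd order, squares generate -/
theorem mem_of_sq_mem {G : Type*} [Group G] {x : G} (hx : Odd (orderOf x)) (H : Subgroup G)
    (h : x * x ∈ H) : x ∈ H := by
  obtain ⟨m, hm⟩ := hx
  have : x = (x * x) ^ (m + 1) := by
    rw [← pow_two, ← pow_mul]
    have : 2 * (m + 1) = orderOf x + 1 := by omega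
    rw [this, pow_succ, pow_orderOf_eq_one, one_mul]
  rw [this]
  exact H.pow_mem h _

theorem eq_one_of_sq_eq_one {G : Type*} [Group G] {x : G} (hx : Odd (orderOf x))
    (h : x * x = 1) : x = 1 := by
  have := mem_of_sq_mem hx ⊥ (by rw [h]; exact Subgroup.one_mem _)
  simpa using this

theorem odd_orderOf {G : Type*} [Group G] {Q : Subgroup G} (h : Odd (Nat.card Q)) {x : G}
    (hx : x ∈ Q) : Odd (orderOf x) := by
  have h1 : orderOf x ∣ Nat.card Q := by
    rw [← Subgroup.orderOf_mk x hx]
    exact orderOf_dvd_natCard _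
  exact Odd.of_dvd_nat h h1

end action


section action2

variable {V : Type*} [CommGroup V] [Finite V] {X : Type*} [Group X] [Finite X]
  [MulDistribMulAction X V] [FaithfulSMul X V]

open scoped commutatorElement

omit [Finite V] in
theorem keyK (s t : X) (hst : t = s * s) (ht2 : t * t = 1) (hsV : ∀ v : V, s • v = v → v = 1)
    (Q : Subgroup X) (hsol : Group.IsSolvable Q) (hcop : (Nat.card V).Coprime (Nat.card Q))
    (hodd : Odd (Nat.card Q))
    (hfQ : ∀ x ∈ Q, s * x * s⁻¹ = x → x = 1)
    (h1 : ∀ x ∈ Q, t * x = x * t → ∀ v : V, t • v = v → x • v = v) :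
    ∀ n : ℕ, ∀ R : Subgroup X, Nat.card R = n → R ≤ Q → (∀ x ∈ R, s * x * s⁻¹ ∈ R) →
      ∀ x ∈ R, t * x = x * t := by
  intro n
  induction n using Nat.strong_induction_on with
  | _ n ih =>
  intro R hn hRQ hsR
  have htinv : t⁻¹ = t := inv_eq_of_mul_eq_one_left ht2
  have hs4 : s ^ 4 = 1 := by
    have : s ^ 4 = (s * s) * (s * s) := by simp only [pow_succ, pow_zero, one_mul, mul_assoc]
    rw [this, ← hst, ht2]
  have htR : ∀ x ∈ R, t * x * t⁻¹ ∈ R := by
    intro x hx
    have := hsR _ (hsR x hx)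
    have e : t * x * t⁻¹ = s * (s * x * s⁻¹) * s⁻¹ := by rw [hst]; group
    rw [e]; exact this
  set R₁ := Subgroup.closure ((fun x => x⁻¹ * (t * x * t⁻¹)) '' (R : Set X)) with hR₁
  have hR1le : R₁ ≤ R := by
    rw [hR₁, Subgroup.closure_le]
    rintro _ ⟨x, hx, rfl⟩
    exact R.mul_mem (R.inv_mem hx) (htR x hx)
  have hgen : ∀ x ∈ R, x⁻¹ * (t * x * t⁻¹) ∈ R₁ := fun x hx =>
    Subgroup.subset_closure ⟨x, hx, rfl⟩
  have hsR1 : ∀ y ∈ R₁, s * y * s⁻¹ ∈ R₁ := by
    have : R₁ ≤ R₁.comap (MulAut.conj s).toMonoidHom := by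
      conv_lhs => rw [hR₁]
      rw [Subgroup.closure_le]
      rintro _ ⟨x, hx, rfl⟩
      show MulAut.conj s _ ∈ R₁
      rw [MulAut.conj_apply]
      have e : s * (x⁻¹ * (t * x * t⁻¹)) * s⁻¹ = (s * x * s⁻¹)⁻¹ * (t * (s * x * s⁻¹) * t⁻¹) := by
        rw [hst]; group
      rw [e]
      exact hgen _ (hsR x hx)
    intro y hy
    have := this hy
    rwa [Subgroup.mem_comap, MulEquiv.coe_toMonoidHom, MulAut.conj_apply] at this
  by_cases hR1 : R₁ = R
  swap
  · -- proper case
    have hlt : R₁ < R := lt_of_le_of_ne hR1le hR1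
    have hc := ih _ (hn ▸ card_lt_of_lt hlt) R₁ rfl (hR1le.trans hRQ) hsR1
    intro x hx
    set c := x⁻¹ * (t * x * t⁻¹) with hcdef
    have hcR : c ∈ R₁ := hgen x hx
    have htc := hc c hcR
    have e1 : t * x * t⁻¹ = x * c := by rw [hcdef]; group
    have e2 : t * c * t⁻¹ = c := by rw [htc]; group
    have e3 : t * (t * x * t⁻¹) * t⁻¹ = x := by
      have : t * (t * x * t⁻¹) * t⁻¹ = (t * t) * x * (t * t)⁻¹ := by group
      rw [this, ht2]; group
    have e4 : t * (x * c) * t⁻¹ = (t * x * t⁻¹) * (t * c * t⁻¹) := by group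
    rw [e1, e4, e1, e2] at e3
    have e5 : c * c = 1 := by
      have : x * (c * c) = x * 1 := by rw [mul_one, ← mul_assoc]; exact e3
      exact mul_left_cancel this
    have e6 : c = 1 := eq_one_of_sq_eq_one (odd_orderOf hodd (hRQ (hR1le hcR))) e5
    rw [e6, mul_one] at e1
    exact mul_inv_eq_iff_eq_mul.mp e1
  · -- R = [R, t]
    by_cases hRbot : R = ⊥
    · intro x hx
      rw [hRbot, Subgroup.mem_bot] at hx
      rw [hx, mul_one, one_mul]
    have hsolR : Group.IsSolvable R :=
      Group.isSolvable_of_isSolvable_injective (Subgroup.inclusion_injective hRQ)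
    set D := ⁅R, R⁆ with hD
    have hDlt : D < R := comm_lt hsolR hRbot
    have hDR : D ≤ R := hDlt.le
    have hsD : ∀ y ∈ D, s * y * s⁻¹ ∈ D := by
      have : D ≤ D.comap (MulAut.conj s).toMonoidHom := by
        conv_lhs => rw [hD]
        rw [Subgroup.commutator_le]
        intro a ha b hb
        show MulAut.conj s _ ∈ D
        rw [map_commutatorElement, MulAut.conj_apply, MulAut.conj_apply]
        exact Subgroup.commutator_mem_commutator (hsR a ha) (hsR b hb)
      intro y hy
      have := this hy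
      rwa [Subgroup.mem_comap, MulEquiv.coe_toMonoidHom, MulAut.conj_apply] at this
    have htD := ih _ (hn ▸ card_lt_of_lt hDlt) D rfl (hDR.trans hRQ) hsD
    have hconjD : ∀ x ∈ R, ∀ f ∈ D, x * f * x⁻¹ ∈ D := by
      intro x hx f hf
      have e : x * f * x⁻¹ = ⁅x, f⁆ * f := by rw [commutatorElement_def]; group
      rw [e]
      exact D.mul_mem (Subgroup.commutator_mem_commutator hx (hDR hf)) hf
    -- D is central in R
    have hDcent : ∀ x ∈ R, ∀ f ∈ D, x * f = f * x := by
      have : R₁ ≤ Subgroup.centralizer (D : Set X) := by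
        rw [hR₁, Subgroup.closure_le]
        rintro _ ⟨x, hx, rfl⟩
        rw [SetLike.mem_coe, Subgroup.mem_centralizer_iff]
        intro f hf
        have ha : t⁻¹ * f * t = f := by rw [mul_assoc, ← htD f hf]; group
        have hb : t * (x * f * x⁻¹) * t⁻¹ = x * f * x⁻¹ := by
          rw [htD _ (hconjD x hx f hf)]; group
        have e : (x⁻¹ * (t * x * t⁻¹)) * f * (x⁻¹ * (t * x * t⁻¹))⁻¹
            = x⁻¹ * (t * (x * (t⁻¹ * f * t) * x⁻¹) * t⁻¹) * x := by group
        rw [ha, hb] at e
        have e2 : x⁻¹ * (x * f * x⁻¹) * x = f := by group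
        rw [e2] at e
        exact (mul_inv_eq_iff_eq_mul.mp e).symm
      intro x hx f hf
      rw [← hR1] at hx
      exact (Subgroup.mem_centralizer_iff.mp (this hx) f hf).symm
    -- t inverts R modulo D
    have hinv : ∀ x ∈ R, x * (t * x * t⁻¹) ∈ D := by
      intro x hx
      rw [← hR1] at hx
      induction hx using Subgroup.closure_induction with
      | mem c hc =>
        obtain ⟨y, hy, rfl⟩ := hc
        have e : (y⁻¹ * (t * y * t⁻¹)) * (t * (y⁻¹ * (t * y * t⁻¹)) * t⁻¹)
            = y⁻¹ * (t * t) * y * (t * t)⁻¹ := by group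
        simp only []
        rw [e, ht2]
        simp
      | one => simp
      | mul x y hx hy hPx hPy =>
        have hxR : x ∈ R := hR1le hx
        have hyR : y ∈ R := hR1le hy
        have e : x * y * (t * (x * y) * t⁻¹)
            = (x * (t * x * t⁻¹)) * ⁅(t * x * t⁻¹)⁻¹, y⁆ * (y * (t * y * t⁻¹)) := by
          rw [commutatorElement_def]; group
        rw [e]
        exact D.mul_mem (D.mul_mem hPx
          (Subgroup.commutator_mem_commutator (R.inv_mem (htR x hxR)) hyR)) hPy
      | inv x hx hPx =>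
        have hxR : x ∈ R := hR1le hx
        have e : x⁻¹ * (t * x⁻¹ * t⁻¹) = (x⁻¹ * (x * (t * x * t⁻¹)) * x⁻¹⁻¹)⁻¹ := by group
        rw [e]
        exact D.inv_mem (hconjD _ (R.inv_mem hxR) _ hPx)
    have hCD : ∀ x ∈ R, t * x = x * t → x ∈ D := by
      intro x hx h
      apply mem_of_sq_mem (odd_orderOf hodd (hRQ hx))
      have := hinv x hx
      rw [h] at this
      simpa using this
    -- D acts trivially
    have hDtriv : ∀ a ∈ D, a = 1 := by
      intro a ha
      have haR : a ∈ R := hDR ha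
      have hta := htD a ha
      have hi : ∀ v : V, t • (a • v * v⁻¹) = (a • v * v⁻¹)⁻¹ := by
        intro v
        have hu : t • (v * t • v) = v * t • v := by
          rw [smul_mul', ← mul_smul, ht2, one_smul, mul_comm]
        have h2 := h1 a (hRQ haR) hta _ hu
        rw [smul_mul', ← mul_smul, ← hta, mul_smul] at h2
        rw [smul_mul', smul_inv', eq_inv_iff_mul_eq_one]
        calc t • a • v * (t • v)⁻¹ * (a • v * v⁻¹)
            = (a • v * t • a • v) * (v * t • v)⁻¹ := by
              rw [mul_inv]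
              simp only [mul_assoc, mul_comm, mul_left_comm]
          _ = 1 := by rw [h2, mul_inv_cancel]
      have hii : ∀ x ∈ R, ∀ v : V, x • (a • v * v⁻¹) = a • (x • v) * (x • v)⁻¹ := by
        intro x hx v
        rw [smul_mul', smul_inv', ← mul_smul, hDcent x hx a ha, mul_smul]
      have hiii : ∀ y ∈ R, ∀ v : V, y • (a • v * v⁻¹) = a • v * v⁻¹ := by
        intro y hy
        rw [← hR1] at hy
        induction hy using Subgroup.closure_induction with
        | mem c hc =>
          obtain ⟨x, hx, rfl⟩ := hc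
          intro v
          simp only []
          rw [htinv, mul_smul, mul_smul, mul_smul, hi, smul_inv', hii x hx, smul_inv', hi, inv_inv,
            hii _ (R.inv_mem hx), inv_smul_smul]
        | one => intro v; rw [one_smul]
        | mul x y _ _ hPx hPy => intro v; rw [mul_smul, hPy, hPx]
        | inv x _ hPx =>
          intro v
          rw [inv_smul_eq_iff, hPx]
      have hv : ∀ (v : V) (k : ℕ), a ^ k • v = v * (a • v * v⁻¹) ^ k := by
        intro v k
        induction k with
        | zero => simp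
        | succ k ihk =>
          rw [pow_succ', mul_smul, ihk, smul_mul', smul_pow', hiii a haR, pow_succ']
          have e : v * (a • v * v⁻¹) = a • v := by rw [mul_comm (a • v), mul_inv_cancel_left]
          rw [← mul_assoc, e]
      apply FaithfulSMul.eq_of_smul_eq_smul (α := V)
      intro v
      rw [one_smul]
      have h3 := hv v (Nat.card Q)
      have h4 : a ^ Nat.card Q = 1 := by
        have := pow_card_eq_one' (G := Q) (x := ⟨a, hRQ haR⟩)
        exact congrArg Subtype.val this
      rw [h4, one_smul] at h3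
      have h5 : (a • v * v⁻¹) ^ Nat.card Q = 1 ^ Nat.card Q := by
        rw [one_pow]
        exact (mul_eq_left.mp h3.symm)
      have h6 : a • v * v⁻¹ = 1 := (powCoprime hcop).injective h5
      exact mul_inv_eq_one.mp h6
    have hcopR : (Nat.card V).Coprime (Nat.card R) :=
      Nat.Coprime.coprime_dvd_right (Subgroup.card_dvd_of_le hRQ) hcop
    have hfin := frob (V := V) s hs4 hsV R hcopR hsR (fun x hx => hfQ x (hRQ hx)) (by
      intro x hx h
      have e : s ^ 2 = t := by rw [hst, pow_two]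
      rw [e] at h
      exact hDtriv x (hCD x hx (mul_inv_eq_iff_eq_mul.mp h)))
    intro x hx
    have : x = 1 := by
      apply FaithfulSMul.eq_of_smul_eq_smul (α := V)
      intro v
      rw [one_smul]
      exact hfin x hx v
    rw [this, mul_one, one_mul]

end action2


section fpf

variable {G : Type*} [Group G] [Finite G]

theorem mem_of_lang (α : MulAut G) (hf : ∀ g, α g = g → g = 1) (K : Subgroup G)
    (hK : ∀ x ∈ K, α x ∈ K) {g : G} (h : g⁻¹ * α g ∈ K) : g ∈ K := by
  obtain ⟨c, hc, hcg⟩ := lang α K hK (fun x _ => hf x) _ h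
  have h2 : α (g * c⁻¹) = g * c⁻¹ := by
    rw [map_mul, map_inv]
    have e1 : α g = g * (c⁻¹ * α c) := by rw [hcg]; group
    rw [e1]; group
  have h3 := hf _ h2
  rw [mul_inv_eq_one] at h3
  rw [h3]; exact hc

theorem odd_card_of_fpf (σ : MulAut G) (hσ : σ ^ 4 = 1) (hf : ∀ g, σ g = g → g = 1) :
    Odd (Nat.card G) := by
  have hZ : IsPGroup 2 (Subgroup.zpowers σ) := by
    have h1 : orderOf σ ∣ 2 ^ 2 := orderOf_dvd_of_pow_eq_one hσ
    obtain ⟨k, _, hk⟩ := (Nat.dvd_prime_pow Nat.prime_two).mp h1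
    apply IsPGroup.of_card (n := k)
    rw [Nat.card_zpowers, hk]
  have := Fact.mk Nat.prime_two
  have h2 := hZ.card_modEq_card_fixedPoints G
  have h3 : MulAction.fixedPoints (Subgroup.zpowers σ) G = {1} := by
    ext g
    constructor
    · intro hg
      have := hg ⟨σ, Subgroup.mem_zpowers σ⟩
      exact hf g this
    · intro hg
      rw [Set.mem_singleton_iff] at hg
      subst hg
      intro z
      exact map_one z.1
  rw [h3] at h2
  have h4 : Nat.card ({1} : Set G) = 1 := by simp
  rw [h4] at h2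
  rw [Nat.odd_iff]
  exact h2

/-- the fixed points of `σ²` commute -/
theorem fixed_sq_comm (σ : MulAut G) (hf : ∀ g, σ g = g → g = 1) {a b : G}
    (ha : σ (σ a) = a) (hb : σ (σ b) = b) : a * b = b * a := by
  let B : Subgroup G :=
    { carrier := {x | σ (σ x) = x}
      mul_mem' := by
        intro x y hx hy
        show σ (σ (x * y)) = x * y
        rw [map_mul, map_mul, hx, hy]
      one_mem' := by
        show σ (σ 1) = 1
        rw [map_one, map_one]
      inv_mem' := by
        intro x hx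
        show σ (σ x⁻¹) = x⁻¹
        rw [map_inv, map_inv, hx] }
  have hB : ∀ x ∈ B, σ x ∈ B := by
    intro x hx
    show σ (σ (σ x)) = σ x
    rw [hx]
  have hinv : ∀ x ∈ B, σ x = x⁻¹ := by
    intro x hx
    obtain ⟨y, hy, rfl⟩ := lang σ B hB (fun x _ => hf x) x hx
    have hy' : σ (σ y) = y := hy
    rw [map_mul, map_inv, hy']
    group
  have h1 := hinv (a * b) (B.mul_mem ha hb)
  rw [map_mul, hinv a ha, hinv b hb] at h1
  have h2 := congrArg (·⁻¹) h1
  simp only [mul_inv_rev, inv_inv] at h2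
  exact h2.symm

end fpf

end Cfsg.Agent.Lib.Helper66Fpf
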