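import Mathlib
import Cfsg.Agent.Lib.Helper66Fpf

set_option autoImplicit false

namespace Cfsg.Agent.Lib.Helper66Fpf2

open Cfsg.Agent.Lib.Helper66Fpf

section action4

variable {V : Type*} [CommGroup V] {X : Type*} [Group X] [Finite X]
  [MulDistribMulAction X V]

omit [Finite X] in
theorem conj_pow_mem {s : X} {R : Subgroup X} (hsR : ∀ x ∈ R, s * x * s⁻¹ ∈ R) (i : ℕ) :
    ∀ x ∈ R, s ^ i * x * (s ^ i)⁻¹ ∈ R := by
  induction i with
  | zero => intro x hx; simpa using hx
  | succ i ih =>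
    intro x hx
    have := hsR _ (ih x hx)
    have e : s ^ (i + 1) * x * (s ^ (i + 1))⁻¹ = s * (s ^ i * x * (s ^ i)⁻¹) * s⁻¹ := by
      rw [pow_succ']; group
    rw [e]; exact this

omit [Finite X] in
theorem fpf_pow {s : X} {p : ℕ} (hp : p.Prime) (hs : s ^ p = 1) {i : ℕ} (hi0 : 0 < i) (hip : i < p)
    {x : X} (h : s ^ i * x * (s ^ i)⁻¹ = x) : s * x * s⁻¹ = x := by
  have hc : Commute (s ^ i) x := mul_inv_eq_iff_eq_mul.mp h
  have hcop : Nat.Coprime i p := (Nat.coprime_of_lt_prime hi0.ne' hip hp).symm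
  obtain ⟨m, -, hm⟩ := Nat.exists_mul_mod_eq_one_of_coprime hcop hp.one_lt
  have e : (s ^ i) ^ m = s := by
    rw [← pow_mul, pow_eq_pow_mod _ hs, hm, pow_one]
  have hc2 : Commute s x := e ▸ hc.pow_left m
  exact mul_inv_eq_iff_eq_mul.mpr hc2

/-- Frobenius-type lemma for an element of prime order, relative to an invariant subgroup. -/
theorem frobP {p : ℕ} (hp : p.Prime) (s : X) (hs : s ^ p = 1) (R : Subgroup X)
    (hcop : (Nat.card V).Coprime (Nat.card R))
    (hsR : ∀ x ∈ R, s * x * s⁻¹ ∈ R) (hf1 : ∀ x ∈ R, s * x * s⁻¹ = x → x = 1)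
    (V₀ : Subgroup V) (hRV : ∀ x ∈ R, ∀ v ∈ V₀, x • v ∈ V₀) (hsV₀ : ∀ v ∈ V₀, s • v ∈ V₀)
    (hsV : ∀ v ∈ V₀, s • v = v → v = 1) :
    ∀ x ∈ R, ∀ v ∈ V₀, x • v = v := by
  classical
  have : Fintype R := Fintype.ofFinite R
  obtain ⟨k, rfl⟩ : ∃ k, p = k + 1 := ⟨p - 1, by have := hp.pos; omega⟩
  have hpowV : ∀ (i : ℕ), ∀ v ∈ V₀, s ^ i • v ∈ V₀ := by
    intro i
    induction i with
    | zero => intro v hv; simpa using hv
    | succ i ih => intro v hv; rw [pow_succ', mul_smul]; exact hsV₀ _ (ih v hv)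
  have key : ∀ r ∈ R, ∀ v ∈ V₀, ∏ i ∈ Finset.range (k + 1), (r⁻¹ * s ^ i * r) • v = 1 := by
    intro r hr v hv
    set y := r⁻¹ * s * r with hy
    have hyi : ∀ i : ℕ, r⁻¹ * s ^ i * r = y ^ i := by
      intro i
      have := conj_pow (a := r⁻¹) (b := s) (i := i)
      rw [inv_inv] at this
      rw [hy, this]
    have hyp : y ^ (k + 1) = 1 := by rw [← hyi, hs]; group
    simp only [hyi]
    set w := ∏ i ∈ Finset.range (k + 1), y ^ i • v with hw
    have hyw : y • w = w := by
      rw [hw, Finset.smul_prod']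
      simp only [← mul_smul, ← pow_succ']
      rw [Finset.prod_range_succ, hyp, one_smul, Finset.prod_range_succ', pow_zero, one_smul]
    have hwV : w ∈ V₀ := by
      apply Subgroup.prod_mem
      intro i _
      rw [← hyi, mul_smul, mul_smul]
      exact hRV _ (R.inv_mem hr) _ (hpowV i _ (hRV r hr v hv))
    have h6 : s • (r • w) = r • w := by
      have : r • (y • w) = s • (r • w) := by
        rw [hy, ← mul_smul, ← mul_smul]; congr 1; group
      rw [← this, hyw]
    have h7 := hsV _ (hRV r hr w hwV) h6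
    have h8 : r⁻¹ • (r • w) = r⁻¹ • (1 : V) := by rw [h7]
    rwa [inv_smul_smul, smul_one] at h8
  have hfix : ∀ v ∈ V₀, ∀ x ∈ R, x • (v ^ Nat.card R) = v ^ Nat.card R := by
    intro v hv x hx
    have h1 : ∏ r : R, ∏ i ∈ Finset.range (k + 1), ((r : X)⁻¹ * s ^ i * r) • v = 1 :=
      Finset.prod_eq_one (fun r _ => key r r.2 v hv)
    rw [Finset.prod_comm, Finset.prod_range_succ'] at h1
    have h2 : ∏ r : R, ((r : X)⁻¹ * s ^ 0 * r) • v = v ^ Nat.card R := by
      simp [Finset.prod_const, Finset.card_univ, Nat.card_eq_fintype_card]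
    have h3 : ∀ i ∈ Finset.range k, ∏ r : R, ((r : X)⁻¹ * s ^ (i + 1) * r) • v
        = ∏ r : R, (r : X) • (s ^ (i + 1) • v) := by
      intro i hi
      apply prod_conj R (s ^ (i + 1)) (conj_pow_mem hsR _)
      intro x hx h
      exact hf1 x hx (fpf_pow hp hs (Nat.succ_pos i) (by
        have := Finset.mem_range.mp hi; omega) h)
    rw [h2, Finset.prod_congr rfl h3] at h1
    have h4 : v ^ Nat.card R = (∏ i ∈ Finset.range k, ∏ r : R, (r : X) • (s ^ (i + 1) • v))⁻¹ := by
      rw [eq_inv_iff_mul_eq_one, mul_comm]; exact h1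
    rw [h4, smul_inv', Finset.smul_prod']
    congr 1
    apply Finset.prod_congr rfl
    intro i _
    exact norm_fixed R x hx _
  intro x hx v hv
  have h := hfix v hv x hx
  rw [smul_pow'] at h
  exact (powCoprime hcop).injective h

/-- `[V, R]` -/
def commV (V : Type*) [CommGroup V] {X : Type*} [Group X] [MulDistribMulAction X V]
    (R : Subgroup X) : Subgroup V :=
  Subgroup.closure {w | ∃ x ∈ R, ∃ u : V, w = x • u * u⁻¹}

omit [Finite X] in
theorem mem_commV {R : Subgroup X} {x : X} (hx : x ∈ R) (u : V) : x • u * u⁻¹ ∈ commV V R :=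
  Subgroup.subset_closure ⟨x, hx, u, rfl⟩

omit [Finite X] in
theorem smul_mem_commV {R : Subgroup X} {g : X} (hg : ∀ x ∈ R, g * x * g⁻¹ ∈ R) :
    ∀ w ∈ commV V R, g • w ∈ commV V R := by
  intro w hw
  induction hw using Subgroup.closure_induction with
  | mem w hw =>
    obtain ⟨x, hx, u, rfl⟩ := hw
    have e : g • (x • u * u⁻¹) = (g * x * g⁻¹) • (g • u) * (g • u)⁻¹ := by
      rw [smul_mul', smul_inv', ← mul_smul, ← mul_smul]
      congr 2
      group
    rw [e]
    exact mem_commV (hg x hx) _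
  | one => rw [smul_one]; exact Subgroup.one_mem _
  | mul a b _ _ ha hb => rw [smul_mul']; exact Subgroup.mul_mem _ ha hb
  | inv a _ ha => rw [smul_inv']; exact Subgroup.inv_mem _ ha

/-- `C_V(R) ∩ [V, R] = 1` for coprime action. -/
theorem eq_one_of_mem_commV_of_fixed {R : Subgroup X} (hcop : (Nat.card V).Coprime (Nat.card R))
    {v : V} (hv : v ∈ commV V R) (hfix : ∀ x ∈ R, x • v = v) : v = 1 := by
  classical
  have : Fintype R := Fintype.ofFinite R
  have hN : ∀ w ∈ commV V R, ∏ r : R, (r : X) • w = 1 := by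
    intro w hw
    induction hw using Subgroup.closure_induction with
    | mem w hw =>
      obtain ⟨x, hx, u, rfl⟩ := hw
      simp only [smul_mul', smul_inv', Finset.prod_mul_distrib, Finset.prod_inv_distrib]
      rw [mul_inv_eq_one]
      simp only [← mul_smul]
      exact Fintype.prod_equiv (Equiv.mulRight (⟨x, hx⟩ : R)) _ _ (fun r => rfl)
    | one => simp
    | mul a b _ _ ha hb => simp only [smul_mul', Finset.prod_mul_distrib, ha, hb, one_mul]
    | inv a _ ha => simp only [smul_inv', Finset.prod_inv_distrib, ha, inv_one]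
  have h1 := hN v hv
  have h2 : ∏ r : R, (r : X) • v = v ^ Nat.card R := by
    rw [Finset.prod_congr rfl (fun (r : R) _ => hfix (r : X) r.2), Finset.prod_const, Finset.card_univ,
      Nat.card_eq_fintype_card]
  rw [h2] at h1
  have h3 : v ^ Nat.card R = 1 ^ Nat.card R := by rw [h1, one_pow]
  exact (powCoprime hcop).injective h3

/-- if `R` acts trivially on `[V, R]` then it acts trivially on `V` (coprime action) -/
theorem trivial_of_trivial_on_commV {R : Subgroup X} (hcop : (Nat.card V).Coprime (Nat.card R))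
    (h : ∀ x ∈ R, ∀ w ∈ commV V R, x • w = w) : ∀ x ∈ R, ∀ v : V, x • v = v := by
  intro x hx v
  have h1 : x • v * v⁻¹ ∈ commV V R := mem_commV hx v
  have h2 := eq_one_of_mem_commV_of_fixed hcop h1 (fun y hy => h y hy _ h1)
  exact mul_inv_eq_one.mp h2

end action4

end Cfsg.Agent.Lib.Helper66Fpf2
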