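import Mathlib
import Cfsg.Agent.Lib.Helper66Fpf2
import Cfsg.Agent.Lib.Helper30Coprime
import Cfsg.Agent.Lib.Helper30SZ

/-!
PROJECT 9, piece `frobact`: a group `K` on which an element of prime order acts fixed-point-freely
centralizes every solvable group of coprime order on which `K R` acts with `R` fixed-point-free.
-/

set_option autoImplicit false

namespace Cfsg.Agent.Lib.Helper84BGFrobact

open Subgroup

section ab

variable {V : Type*} [Group V]

/-- automorphisms act on the abelianization. -/
def abHom : MulAut V →* MulAut (Abelianization V) where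
  toFun e := MulEquiv.abelianizationCongr e
  map_one' := abelianizationCongr_refl
  map_mul' a b := (abelianizationCongr_trans b a).symm

theorem abHom_of (e : MulAut V) (v : V) : abHom e (Abelianization.of v) = Abelianization.of (e v) :=
  rfl

end ab

variable {X : Type*} [Group X]

theorem of_eq_of_iff {V : Subgroup X} (v w : V) :
    Abelianization.of v = Abelianization.of w ↔ (v : X)⁻¹ * w ∈ ⁅V, V⁆ := by
  rw [← map_subtype_commutator]
  constructor
  · intro h
    have h1 : v⁻¹ * w ∈ commutator V := QuotientGroup.eq.1 h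
    exact ⟨v⁻¹ * w, h1, rfl⟩
  · rintro ⟨z, hz, e⟩
    apply QuotientGroup.eq.2
    have : z = v⁻¹ * w := Subtype.ext e
    rwa [← this]

variable [Finite X]

theorem frob_act_aux {K R : Subgroup X} (hRK : R ≤ normalizer (K : Set X))
    (hR : (Nat.card R).Prime) (hregK : K ⊓ centralizer (R : Set X) = ⊥) :
    ∀ (n : ℕ) (V : Subgroup X), Nat.card V ≤ n → Group.IsSolvable V →
      K ≤ normalizer (V : Set X) → R ≤ normalizer (V : Set X) →
      (Nat.card K).Coprime (Nat.card V) → (Nat.card R).Coprime (Nat.card V) →
      V ⊓ centralizer (R : Set X) = ⊥ → K ≤ centralizer (V : Set X) := by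
  intro n
  induction n with
  | zero =>
    intro V hn
    exact absurd hn (by have := Nat.card_pos (α := V); omega)
  | succ n ih =>
    intro V hn hV hKV hRV hcopK hcopR hregV
    by_cases hV1 : V = ⊥
    · subst hV1
      intro k _
      rw [mem_centralizer_iff]
      intro v hv
      rw [SetLike.mem_coe, mem_bot] at hv
      subst hv
      simp
    set V' : Subgroup X := ⁅V, V⁆ with hV'
    have hlt : V' < V := by
      have : Nontrivial V := (nontrivial_iff_ne_bot V).2 hV1
      have h1 := Group.IsSolvable.commutator_lt_top_of_nontrivial V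
      rw [hV', ← map_subtype_commutator]
      have h2 := (map_subtype_lt_map_subtype (G' := V)).2 h1
      rwa [← MonoidHom.range_eq_map, range_subtype] at h2
    have hle : V' ≤ V := hlt.le
    have hcard : Nat.card V' ≤ n := by
      have := Set.ncard_lt_ncard (s := (V' : Set X)) (t := (V : Set X)) hlt (Set.toFinite _)
      rw [← Nat.card_coe_set_eq, ← Nat.card_coe_set_eq] at this
      have h2 : Nat.card V' < Nat.card V := this
      omega
    have hnorm : normalizer (V : Set X) ≤ normalizer (V' : Set X) := by
      intro g hg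
      have hgV : ∀ v, v ∈ V → g * v * g⁻¹ ∈ V := fun v hv => (mem_normalizer_iff.1 hg v).1 hv
      have hgV' : ∀ v, v ∈ V → g⁻¹ * v * g ∈ V := by
        intro v hv
        have := (mem_normalizer_iff.1 (inv_mem hg) v).1 hv
        simpa using this
      have key : ∀ g : X, (∀ v, v ∈ V → g * v * g⁻¹ ∈ V) → ∀ x ∈ V', g * x * g⁻¹ ∈ V' := by
        intro g hgV x hx
        have h1 : V'.map (MulAut.conj g).toMonoidHom ≤ V' := by
          rw [hV', map_commutator]
          apply commutator_mono <;>
          · rintro _ ⟨v, hv, rfl⟩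
            exact hgV v hv
        exact h1 ⟨x, hx, rfl⟩
      rw [mem_normalizer_iff]
      intro x
      constructor
      · exact key g hgV x
      · intro hx
        have := key g⁻¹ (by intro v hv; simpa using hgV' v hv) _ hx
        simpa [mul_assoc] using this
    have hdvd : Nat.card V' ∣ Nat.card V := card_dvd_of_le hle
    have hsolV' : Group.IsSolvable V' := by
      have : Group.IsSolvable (V'.subgroupOf V) := inferInstance
      exact Group.isSolvable_of_surjective (f := (subgroupOfEquivOfLe hle).toMonoidHom)
        (subgroupOfEquivOfLe hle).surjective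
    have hKV' : K ≤ centralizer (V' : Set X) :=
      ih V' hcard hsolV' (hKV.trans hnorm) (hRV.trans hnorm) (hcopK.coprime_dvd_right hdvd)
        (hcopR.coprime_dvd_right hdvd)
        (le_bot_iff.1 (hregV ▸ inf_le_inf_right _ hle))
    -- the action on the abelianization
    set N : Subgroup X := normalizer (V : Set X) with hN
    let act : MulDistribMulAction N (Abelianization V) :=
      MulDistribMulAction.compHom _ (abHom.comp V.normalizerMonoidHom)
    have hsmul : ∀ (g : N) (v : V), g • (Abelianization.of v : Abelianization V)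
        = Abelianization.of (⟨g * v * g⁻¹, (mem_normalizer_iff.1 g.2 v).1 v.2⟩ : V) := fun g v => rfl
    -- a generator of `R`
    have : Fact (Nat.card R).Prime := ⟨hR⟩
    have : Nontrivial R := Finite.one_lt_card_iff_nontrivial.1 hR.one_lt
    obtain ⟨s₀, hs₀⟩ := exists_ne (1 : R)
    have hpow : ∀ r ∈ R, ∃ i : ℕ, (s₀ : X) ^ i = r := by
      intro r hr
      obtain ⟨i, hi⟩ := mem_powers_of_prime_card (G := R) rfl hs₀ (g' := ⟨r, hr⟩)
      exact ⟨i, congrArg Subtype.val hi⟩
    have hcent : ∀ x : X, (s₀ : X) * x * (s₀ : X)⁻¹ = x → x ∈ centralizer (R : Set X) := by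
      intro x hx
      have hc : Commute (s₀ : X) x := mul_inv_eq_iff_eq_mul.1 hx
      rw [mem_centralizer_iff]
      intro r hr
      obtain ⟨i, rfl⟩ := hpow r hr
      exact (hc.pow_left i).eq
    set s : N := ⟨s₀, hRV s₀.2⟩ with hs
    have hsp : s ^ Nat.card R = 1 := by
      apply Subtype.ext
      exact Cfsg.Agent.Lib.Helper30Coprime.pow_card_of_mem s₀.2
    have hfix := Cfsg.Agent.Lib.Helper66Fpf2.frobP (V := Abelianization V) hR s hsp
      (K.subgroupOf N)
      (by
        have h1 : Nat.card (Abelianization V) ∣ Nat.card V := card_quotient_dvd_card _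
        have h2 : Nat.card (K.subgroupOf N) = Nat.card K :=
          Nat.card_congr (subgroupOfEquivOfLe hKV).toEquiv
        rw [h2]
        exact (hcopK.coprime_dvd_right h1).symm)
      (by
        intro x hx
        rw [mem_subgroupOf] at hx ⊢
        exact (mem_normalizer_iff.1 (hRK s₀.2) x).1 hx)
      (by
        intro x hx hfx
        rw [mem_subgroupOf] at hx
        have h1 : (x : X) ∈ K ⊓ centralizer (R : Set X) :=
          ⟨hx, hcent x (congrArg Subtype.val hfx)⟩
        rw [hregK, mem_bot] at h1
        exact Subtype.ext h1)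
      ⊤ (fun _ _ _ _ => mem_top _) (fun _ _ => mem_top _)
      (by
        intro vb _ hvb
        obtain ⟨v, rfl⟩ := QuotientGroup.mk_surjective vb
        change s • (Abelianization.of v : Abelianization V) = Abelianization.of v at hvb
        change (Abelianization.of v : Abelianization V) = 1
        rw [hsmul] at hvb
        have h0 : (v : X)⁻¹ * ((s₀ : X) * v * (s₀ : X)⁻¹) ∈ V' := (of_eq_of_iff _ _).1 hvb.symm
        have hsN : (s₀ : X) ∈ normalizer (V' : Set X) := hnorm (hRV s₀.2)
        have hall : ∀ i : ℕ, (v : X)⁻¹ * (s₀ : X) ^ i * v * ((s₀ : X) ^ i)⁻¹ ∈ V' := by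
          intro i
          induction i with
          | zero => simp
          | succ i ihi =>
            have h1 := (mem_normalizer_iff.1 hsN _).1 ihi
            have h2 := V'.mul_mem h0 h1
            have e : (v : X)⁻¹ * ((s₀ : X) * v * (s₀ : X)⁻¹) *
                ((s₀ : X) * ((v : X)⁻¹ * (s₀ : X) ^ i * v * ((s₀ : X) ^ i)⁻¹) * (s₀ : X)⁻¹)
                = (v : X)⁻¹ * (s₀ : X) ^ (i + 1) * v * ((s₀ : X) ^ (i + 1))⁻¹ := by
              rw [pow_succ']
              group
            rwa [e] at h2
        obtain ⟨n', hn', hc⟩ := Cfsg.Agent.Lib.Helper30SZ.exists_mul_mem_centralizer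
          (N := V') (A := R) (hRV.trans hnorm) (hcopR.coprime_dvd_right hdvd) (Or.inr hsolV')
          (k := (v : X)) (by
            intro a ha
            obtain ⟨i, rfl⟩ := hpow a ha
            exact hall i)
        have h3 : (v : X) * n' ∈ V ⊓ centralizer (R : Set X) := ⟨V.mul_mem v.2 (hle hn'), hc⟩
        rw [hregV, mem_bot] at h3
        rw [← map_one (Abelianization.of (G := V)), of_eq_of_iff]
        have : (v : X)⁻¹ = n' := by
          rw [inv_eq_iff_mul_eq_one]; exact h3
        simpa [this] using hn')
    have hchain := Cfsg.Agent.Lib.Helper30Coprime.centralizes_of_chain (A := K) (P := V) (N := V')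
      (hcopK.coprime_dvd_right hdvd)
      (Cfsg.Agent.Lib.Helper30Coprime.le_centralizer_iff_conj.1 hKV')
      (by
        intro a ha x hx
        have h1 := hfix ⟨a, hKV ha⟩ (mem_subgroupOf.2 ha) (Abelianization.of ⟨x, hx⟩) (mem_top _)
        rw [hsmul] at h1
        exact (of_eq_of_iff _ _).1 h1.symm)
    exact Cfsg.Agent.Lib.Helper30Coprime.le_centralizer_iff_conj.2 hchain

/-- `R` of prime order acts fixed-point-freely on `K` and on the solvable group `V`; `K` acts on `V`;
`|K|` prime to `|V|`.  Then `K` centralizes `V`. -/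
theorem frob_act {X : Type*} [Group X] [Finite X] {V K R : Subgroup X}
    (hV : Group.IsSolvable V) (hKV : K ≤ normalizer (V : Set X)) (hRV : R ≤ normalizer (V : Set X))
    (hRK : R ≤ normalizer (K : Set X)) (hR : (Nat.card R).Prime)
    (hcopK : (Nat.card K).Coprime (Nat.card V)) (hcopR : (Nat.card R).Coprime (Nat.card V))
    (hregK : K ⊓ centralizer (R : Set X) = ⊥) (hregV : V ⊓ centralizer (R : Set X) = ⊥) :
    K ≤ centralizer (V : Set X) :=
  frob_act_aux hRK hR hregK (Nat.card V) V le_rfl hV hKV hRV hcopK hcopR hregV

end Cfsg.Agent.Lib.Helper84BGFrobact
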