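import Mathlib
import Cfsg.Agent.Lib.Helper84BGFrobact

/-!
PROJECT 76, piece `frobact2`: generalization of `Helper84BGFrobact.frob_act`: it suffices that `K`
centralizes `C_V(R)`.
-/

set_option autoImplicit false

namespace Cfsg.Agent.Lib.Helper11BG76frobact2

open Subgroup
open Cfsg.Agent.Lib.Helper84BGFrobact

variable {X : Type*} [Group X] [Finite X]

theorem frob_act2_aux {K R : Subgroup X} (hRK : R ≤ normalizer (K : Set X))
    (hR : (Nat.card R).Prime) (hregK : K ⊓ centralizer (R : Set X) = ⊥) :
    ∀ (n : ℕ) (V : Subgroup X), Nat.card V ≤ n → Group.IsSolvable V →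
      K ≤ normalizer (V : Set X) → R ≤ normalizer (V : Set X) →
      (Nat.card K).Coprime (Nat.card V) → (Nat.card R).Coprime (Nat.card V) →
      K ≤ centralizer ((V ⊓ centralizer (R : Set X) : Subgroup X) : Set X) →
      K ≤ centralizer (V : Set X) := by
  intro n
  induction n with
  | zero =>
    intro V hn
    exact absurd hn (by have := Nat.card_pos (α := V); omega)
  | succ n ih =>
    intro V hn hV hKV hRV hcopK hcopR hregV
    by_cases hV1 : V = ⊥
    · subst hV1
      intro k _
      rw [mem_centralizer_iff]
      intro v hv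
      rw [SetLike.mem_coe, mem_bot] at hv
      subst hv
      simp
    set V' : Subgroup X := ⁅V, V⁆ with hV'
    have hlt : V' < V := by
      have : Nontrivial V := (nontrivial_iff_ne_bot V).2 hV1
      have h1 := Group.IsSolvable.commutator_lt_top_of_nontrivial V
      rw [hV', ← map_subtype_commutator]
      have h2 := (map_subtype_lt_map_subtype (G' := V)).2 h1
      rwa [← MonoidHom.range_eq_map, range_subtype] at h2
    have hle : V' ≤ V := hlt.le
    have hcard : Nat.card V' ≤ n := by
      have := Set.ncard_lt_ncard (s := (V' : Set X)) (t := (V : Set X)) hlt (Set.toFinite _)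
      rw [← Nat.card_coe_set_eq, ← Nat.card_coe_set_eq] at this
      have h2 : Nat.card V' < Nat.card V := this
      omega
    have hnorm : normalizer (V : Set X) ≤ normalizer (V' : Set X) := by
      intro g hg
      have hgV : ∀ v, v ∈ V → g * v * g⁻¹ ∈ V := fun v hv => (mem_normalizer_iff.1 hg v).1 hv
      have hgV' : ∀ v, v ∈ V → g⁻¹ * v * g ∈ V := by
        intro v hv
        have := (mem_normalizer_iff.1 (inv_mem hg) v).1 hv
        simpa using this
      have key : ∀ g : X, (∀ v, v ∈ V → g * v * g⁻¹ ∈ V) → ∀ x ∈ V', g * x * g⁻¹ ∈ V' := by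
        intro g hgV x hx
        have h1 : V'.map (MulAut.conj g).toMonoidHom ≤ V' := by
          rw [hV', map_commutator]
          apply commutator_mono <;>
          · rintro _ ⟨v, hv, rfl⟩
            exact hgV v hv
        exact h1 ⟨x, hx, rfl⟩
      rw [mem_normalizer_iff]
      intro x
      constructor
      · exact key g hgV x
      · intro hx
        have := key g⁻¹ (by intro v hv; simpa using hgV' v hv) _ hx
        simpa [mul_assoc] using this
    have hdvd : Nat.card V' ∣ Nat.card V := card_dvd_of_le hle
    have hsolV' : Group.IsSolvable V' := by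
      have : Group.IsSolvable (V'.subgroupOf V) := inferInstance
      exact Group.isSolvable_of_surjective (f := (subgroupOfEquivOfLe hle).toMonoidHom)
        (subgroupOfEquivOfLe hle).surjective
    have hKV' : K ≤ centralizer (V' : Set X) :=
      ih V' hcard hsolV' (hKV.trans hnorm) (hRV.trans hnorm) (hcopK.coprime_dvd_right hdvd)
        (hcopR.coprime_dvd_right hdvd)
        (hregV.trans (centralizer_le (inf_le_inf_right _ hle)))
    -- the action on the abelianization
    set N : Subgroup X := normalizer (V : Set X) with hN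
    let act : MulDistribMulAction N (Abelianization V) :=
      MulDistribMulAction.compHom _ (abHom.comp V.normalizerMonoidHom)
    have hsmul : ∀ (g : N) (v : V), g • (Abelianization.of v : Abelianization V)
        = Abelianization.of (⟨g * v * g⁻¹, (mem_normalizer_iff.1 g.2 v).1 v.2⟩ : V) := fun g v => rfl
    -- a generator of `R`
    have : Fact (Nat.card R).Prime := ⟨hR⟩
    have : Nontrivial R := Finite.one_lt_card_iff_nontrivial.1 hR.one_lt
    obtain ⟨s₀, hs₀⟩ := exists_ne (1 : R)
    have hpow : ∀ r ∈ R, ∃ i : ℕ, (s₀ : X) ^ i = r := by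
      intro r hr
      obtain ⟨i, hi⟩ := mem_powers_of_prime_card (G := R) rfl hs₀ (g' := ⟨r, hr⟩)
      exact ⟨i, congrArg Subtype.val hi⟩
    have hcent : ∀ x : X, (s₀ : X) * x * (s₀ : X)⁻¹ = x → x ∈ centralizer (R : Set X) := by
      intro x hx
      have hc : Commute (s₀ : X) x := mul_inv_eq_iff_eq_mul.1 hx
      rw [mem_centralizer_iff]
      intro r hr
      obtain ⟨i, rfl⟩ := hpow r hr
      exact (hc.pow_left i).eq
    set s : N := ⟨s₀, hRV s₀.2⟩ with hs
    have hsp : s ^ Nat.card R = 1 := by
      apply Subtype.ext
      exact Cfsg.Agent.Lib.Helper30Coprime.pow_card_of_mem s₀.2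
    classical
    set KN : Subgroup N := K.subgroupOf N with hKN
    have : Fintype KN := Fintype.ofFinite KN
    have hcardKN : Nat.card KN = Nat.card K :=
      Nat.card_congr (subgroupOfEquivOfLe hKV).toEquiv
    have hcopA : (Nat.card (Abelianization V)).Coprime (Nat.card KN) := by
      have h1 : Nat.card (Abelianization V) ∣ Nat.card V := card_quotient_dvd_card _
      rw [hcardKN]
      exact (hcopK.coprime_dvd_right h1).symm
    have hone : ∀ w : Abelianization V, w ^ Nat.card KN = 1 → w = 1 := by
      intro w hw
      have h1 : w ^ Nat.card (Abelianization V) = 1 := pow_card_eq_one'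
      have h2 := pow_gcd_eq_one.2 ⟨h1, hw⟩
      rw [Nat.Coprime] at hcopA
      rwa [hcopA, pow_one] at h2
    let nrm : Abelianization V → Abelianization V := fun w => ∏ a : KN, (a : N) • w
    have nrm_mul : ∀ v w, nrm (v * w) = nrm v * nrm w := by
      intro v w
      simp only [nrm, smul_mul', Finset.prod_mul_distrib]
    have nrm_one : nrm 1 = 1 := by simp [nrm]
    have nrm_inv : ∀ v, nrm v⁻¹ = (nrm v)⁻¹ := by
      intro v
      simp only [nrm, smul_inv', Finset.prod_inv_distrib]
    have nrm_pow : ∀ v (i : ℕ), nrm (v ^ i) = (nrm v) ^ i := by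
      intro v i
      simp only [nrm, smul_pow', Finset.prod_pow]
    have nrm_smul : ∀ (x : KN) w, nrm ((x : N) • w) = nrm w := by
      intro x w
      simp only [nrm, smul_smul]
      exact Fintype.prod_equiv (Equiv.mulRight x) _ _ (fun a => rfl)
    have smul_nrm : ∀ (x : KN) w, (x : N) • nrm w = nrm w := by
      intro x w
      simp only [nrm, Finset.smul_prod', smul_smul]
      exact Fintype.prod_equiv (Equiv.mulLeft x) _ _ (fun a => rfl)
    have hsKN : ∀ x ∈ KN, s * x * s⁻¹ ∈ KN := by
      intro x hx
      rw [hKN, mem_subgroupOf] at hx ⊢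
      exact (mem_normalizer_iff.1 (hRK s₀.2) x).1 hx
    have hsKN' : ∀ x ∈ KN, s⁻¹ * x * s ∈ KN := by
      intro x hx
      rw [hKN, mem_subgroupOf] at hx ⊢
      have := (mem_normalizer_iff.1 (inv_mem (hRK s₀.2)) x).1 hx
      simpa using this
    let cs : KN ≃ KN :=
      { toFun := fun a => ⟨s * a * s⁻¹, hsKN a a.2⟩
        invFun := fun a => ⟨s⁻¹ * a * s, hsKN' a a.2⟩
        left_inv := by intro a; apply Subtype.ext; simp [mul_assoc]
        right_inv := by intro a; apply Subtype.ext; simp [mul_assoc] }
    have s_nrm : ∀ w, s • nrm w = nrm (s • w) := by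
      intro w
      simp only [nrm, Finset.smul_prod', smul_smul]
      refine Fintype.prod_equiv cs _ _ (fun a => ?_)
      have : ((cs a : KN) : N) * s = s * (a : N) := by
        simp [cs, mul_assoc]
      rw [this]
    let V₀ : Subgroup (Abelianization V) :=
      { carrier := {w | nrm w = 1}
        mul_mem' := by
          intro a b ha hb
          simp only [Set.mem_ofPred_eq] at ha hb ⊢
          rw [nrm_mul, ha, hb, one_mul]
        one_mem' := nrm_one
        inv_mem' := by
          intro a ha
          simp only [Set.mem_ofPred_eq] at ha ⊢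
          rw [nrm_inv, ha, inv_one] }
    have memV₀ : ∀ w, w ∈ V₀ ↔ nrm w = 1 := fun w => Iff.rfl
    have hfix := Cfsg.Agent.Lib.Helper66Fpf2.frobP (V := Abelianization V) hR s hsp KN hcopA hsKN
      (by
        intro x hx hfx
        rw [hKN, mem_subgroupOf] at hx
        have h1 : (x : X) ∈ K ⊓ centralizer (R : Set X) :=
          ⟨hx, hcent x (congrArg Subtype.val hfx)⟩
        rw [hregK, mem_bot] at h1
        exact Subtype.ext h1)
      V₀
      (by
        intro x hx w hw
        rw [memV₀] at hw ⊢
        rw [nrm_smul ⟨x, hx⟩ w, hw])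
      (by
        intro w hw
        rw [memV₀] at hw ⊢
        rw [← s_nrm, hw, smul_one])
      (by
        intro vb hvb0 hvb
        rw [memV₀] at hvb0
        obtain ⟨v, rfl⟩ := QuotientGroup.mk_surjective vb
        change s • (Abelianization.of v : Abelianization V) = Abelianization.of v at hvb
        change nrm (Abelianization.of v : Abelianization V) = 1 at hvb0
        change (Abelianization.of v : Abelianization V) = 1
        rw [hsmul] at hvb
        have h0 : (v : X)⁻¹ * ((s₀ : X) * v * (s₀ : X)⁻¹) ∈ V' := (of_eq_of_iff _ _).1 hvb.symm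
        have hsN : (s₀ : X) ∈ normalizer (V' : Set X) := hnorm (hRV s₀.2)
        have hall : ∀ i : ℕ, (v : X)⁻¹ * (s₀ : X) ^ i * v * ((s₀ : X) ^ i)⁻¹ ∈ V' := by
          intro i
          induction i with
          | zero => simp
          | succ i ihi =>
            have h1 := (mem_normalizer_iff.1 hsN _).1 ihi
            have h2 := V'.mul_mem h0 h1
            have e : (v : X)⁻¹ * ((s₀ : X) * v * (s₀ : X)⁻¹) *
                ((s₀ : X) * ((v : X)⁻¹ * (s₀ : X) ^ i * v * ((s₀ : X) ^ i)⁻¹) * (s₀ : X)⁻¹)
                = (v : X)⁻¹ * (s₀ : X) ^ (i + 1) * v * ((s₀ : X) ^ (i + 1))⁻¹ := by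
              rw [pow_succ']
              group
            rwa [e] at h2
        obtain ⟨n', hn', hc⟩ := Cfsg.Agent.Lib.Helper30SZ.exists_mul_mem_centralizer
          (N := V') (A := R) (hRV.trans hnorm) (hcopR.coprime_dvd_right hdvd) (Or.inr hsolV')
          (k := (v : X)) (by
            intro a ha
            obtain ⟨i, rfl⟩ := hpow a ha
            exact hall i)
        have h3 : (v : X) * n' ∈ V ⊓ centralizer (R : Set X) := ⟨V.mul_mem v.2 (hle hn'), hc⟩
        -- `K` fixes the class of `v`
        have hKfix : ∀ a : KN, (a : N) • (Abelianization.of v : Abelianization V)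
            = Abelianization.of v := by
          intro a
          have haK : ((a : N) : X) ∈ K := mem_subgroupOf.1 a.2
          have hcomm : ((a : N) : X) * ((v : X) * n') = ((v : X) * n') * ((a : N) : X) :=
            ((mem_centralizer_iff.1 (hregV haK)) _ h3).symm
          have hcomm' : ((a : N) : X) * n' = n' * ((a : N) : X) :=
            ((mem_centralizer_iff.1 (hKV' haK)) _ hn').symm
          rw [hsmul]
          apply Eq.symm
          rw [of_eq_of_iff]
          have e : (v : X)⁻¹ * (((a : N) : X) * v * ((a : N) : X)⁻¹) = 1 := by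
            have h5 : ((a : N) : X) * (v : X) = (v : X) * ((a : N) : X) := by
              have h6 : ((a : N) : X) * (v : X) * n' = (v : X) * ((a : N) : X) * n' := by
                rw [mul_assoc, hcomm, mul_assoc, mul_assoc, hcomm']
              exact mul_right_cancel h6
            rw [h5]
            group
          show (v : X)⁻¹ * (((a : N) : X) * v * ((a : N) : X)⁻¹) ∈ V'
          rw [e]
          exact one_mem _
        apply hone
        have : nrm (Abelianization.of v : Abelianization V)
            = (Abelianization.of v : Abelianization V) ^ Nat.card KN := by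
          simp only [nrm]
          rw [Finset.prod_congr rfl (fun a _ => hKfix a)]
          simp [Nat.card_eq_fintype_card]
        rw [← this, hvb0])
    have hfix' : ∀ x ∈ KN, ∀ w : Abelianization V, x • w = w := by
      intro x hx w
      have hw0 : w ^ Nat.card KN * (nrm w)⁻¹ ∈ V₀ := by
        rw [memV₀, nrm_mul, nrm_inv, nrm_pow]
        have : nrm (nrm w) = (nrm w) ^ Nat.card KN := by
          show ∏ a : KN, (a : N) • nrm w = _
          rw [Finset.prod_congr rfl (fun a _ => smul_nrm a w)]
          simp [Nat.card_eq_fintype_card]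
        rw [this, mul_inv_cancel]
      have h1 := hfix x hx _ hw0
      rw [smul_mul', smul_inv', smul_nrm ⟨x, hx⟩ w, smul_pow'] at h1
      have h2 : (x • w) ^ Nat.card KN = w ^ Nat.card KN := mul_right_cancel h1
      have h3 : ((x • w) * w⁻¹) ^ Nat.card KN = 1 := by
        rw [mul_pow, h2, inv_pow, mul_inv_cancel]
      exact mul_inv_eq_one.1 (hone _ h3)
    have hchain := Cfsg.Agent.Lib.Helper30Coprime.centralizes_of_chain (A := K) (P := V) (N := V')
      (hcopK.coprime_dvd_right hdvd)
      (Cfsg.Agent.Lib.Helper30Coprime.le_centralizer_iff_conj.1 hKV')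
      (by
        intro a ha x hx
        have h1 := hfix' ⟨a, hKV ha⟩ (mem_subgroupOf.2 ha) (Abelianization.of ⟨x, hx⟩)
        rw [hsmul] at h1
        exact (of_eq_of_iff _ _).1 h1.symm)
    exact Cfsg.Agent.Lib.Helper30Coprime.le_centralizer_iff_conj.2 hchain

/-- `R` of prime order acts fixed-point-freely on `K`; `K R` acts on the solvable group `V` of
coprime order and `K` centralizes `C_V(R)`.  Then `K` centralizes `V`. -/
theorem frob_act2 {X : Type*} [Group X] [Finite X] {V K R : Subgroup X}
    (hV : Group.IsSolvable V) (hKV : K ≤ normalizer (V : Set X)) (hRV : R ≤ normalizer (V : Set X))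
    (hRK : R ≤ normalizer (K : Set X)) (hR : (Nat.card R).Prime)
    (hcopK : (Nat.card K).Coprime (Nat.card V)) (hcopR : (Nat.card R).Coprime (Nat.card V))
    (hregK : K ⊓ centralizer (R : Set X) = ⊥)
    (hfix : K ≤ centralizer ((V ⊓ centralizer (R : Set X) : Subgroup X) : Set X)) :
    K ≤ centralizer (V : Set X) :=
  frob_act2_aux hRK hR hregK (Nat.card V) V le_rfl hV hKV hRV hcopK hcopR hfix

end Cfsg.Agent.Lib.Helper11BG76frobact2
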