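import Cfsg.Agent.Lib.Helper98AschGBasic

set_option autoImplicit false

/-! General index type versions of `decomp_card`, `field_dvd` (after helper67's `Helper67AschD`). -/

namespace Cfsg.Agent.Lib.Helper58GD

open Cfsg Cfsg.Geo Matrix
open scoped MatrixGroups Kronecker

variable {ι : Type} [Fintype ι] [DecidableEq ι] {F : Type*} [Field F]

theorem decomp_card {t m : ℕ} (D : Fin t → Submodule F (ι → F)) (hD : IsMDecomposition m D) :
    Fintype.card ι = t * m := by
  classical
  have hint : DirectSum.IsInternal D :=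
    DirectSum.isInternal_submodule_of_iSupIndep_of_iSup_eq_top hD.indep hD.iSup_eq_top
  have e := LinearEquiv.ofBijective (DirectSum.coeLinearMap D) hint
  have h1 := e.finrank_eq
  rw [Module.finrank_directSum, Module.finrank_fintype_fun_eq_card] at h1
  rw [← h1]
  simp [hD.finrank_eq]

theorem dvd_of_field_module {K V : Type*} [Field K] [AddCommGroup V] [Module K V] [Finite V]
    (q r n : ℕ) (hq : 1 < q) (hK : Nat.card K = q ^ r) (hV : Nat.card V = q ^ n) : r ∣ n := by
  have h1 := Module.natCard_eq_pow_finrank (K := K) (V := V)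
  rw [hK, hV, ← pow_mul] at h1
  exact ⟨_, Nat.pow_right_injective hq h1⟩

theorem dvd_of_isField_module {K V : Type*} [Ring K] [AddCommGroup V] [inst : Module K V] [Finite V]
    (hF : IsField K)
    (q r n : ℕ) (hq : 1 < q) (hK : Nat.card K = q ^ r) (hV : Nat.card V = q ^ n) : r ∣ n :=
  @dvd_of_field_module K V hF.toField _ inst _ q r n hq hK hV

theorem field_dvd [Finite F] {r : ℕ} (K : Subalgebra F (Matrix ι ι F)) (hK : IsFieldSubalgebra r K) :
    r ∣ Fintype.card ι := by
  classical
  rcases isEmpty_or_nonempty ι with hn | hn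
  · rw [Fintype.card_eq_zero]
    exact dvd_zero r
  have : Fintype F := Fintype.ofFinite F
  let f : K →+* Module.End F (ι → F) :=
    (((Matrix.toLinAlgEquiv' : Matrix ι ι F ≃ₐ[F] _) : _ →ₐ[F] _).comp K.val).toRingHom
  let inst : Module K (ι → F) := Module.compHom (ι → F) f
  have hF : IsField K := by
    refine ⟨exists_pair_ne K, fun a b => Subtype.ext (hK.comm a a.2 b b.2), ?_⟩
    intro a ha
    obtain ⟨y, hy, hxy⟩ := hK.inv a a.2 (fun h => ha (Subtype.ext h))
    exact ⟨⟨y, hy⟩, Subtype.ext hxy⟩
  apply dvd_of_isField_module (K := K) (V := ι → F) hF (Fintype.card F) r (Fintype.card ι)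
    Fintype.one_lt_card
  · rw [Module.natCard_eq_pow_finrank (K := F), Nat.card_eq_fintype_card, hK.finrank_eq]
  · rw [Nat.card_eq_fintype_card]
    simp

end Cfsg.Agent.Lib.Helper58GD
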