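import Cfsg.Agent.Lib.Helper97OBase
import Cfsg.Agent.Lib.Helper58GD

set_option autoImplicit false

/-! PROJECT 5 = ASCH-O, piece `decplus2`. -/

namespace Cfsg.Agent.Lib.Helper11ODecplus2

open Cfsg Cfsg.Geo Matrix Cfsg.Agent.Lib.Helper97OBase Cfsg.Agent.Lib.Helper95Quad

variable {ι : Type} [Fintype ι] [DecidableEq ι] {F : Type*} [Field F]
variable {Q : (ι → F) → F}

/-- a sum of pairwise orthogonal singular vectors is singular -/
lemma Q_sum_eq_zero (hQ : IsNondegenerateQuadraticForm Q) {κ : Type*} [DecidableEq κ] (u : κ → ι → F)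
    (h0 : ∀ j, Q (u j) = 0) (horth : ∀ i j, i ≠ j → QuadraticMap.polar Q (u i) (u j) = 0)
    (s : Finset κ) : Q (∑ j ∈ s, u j) = 0 := by
  induction s using Finset.induction_on with
  | empty => simpa using (qf hQ).zero
  | insert a s ha ih =>
    rw [Finset.sum_insert ha, (qf hQ).add, h0, ih, map_sum]
    simp only [zero_add]
    apply Finset.sum_eq_zero
    intro j hj
    exact horth a j (fun h => ha (h ▸ hj))

/-- [decplus2] characteristic 2: an even number of isometric orthogonal blocks. -/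
theorem plus_of_dec_two (h2 : (2 : F) = 0) (hQ : IsNondegenerateQuadraticForm Q) {t k : ℕ}
    {D : Fin t → Submodule F (ι → F)} (hD : IsOrthogonalMDecomposition Q k D) (ht : Even t) :
    IsPlusTypeOn Q ⊤ := by
  classical
  obtain ⟨r, rfl⟩ := ht
  have hb := hQ.polar_bilinear
  have hiso := fun j : Fin r => hD.isometric (Fin.castAdd r j) (Fin.natAdd r j)
  choose ψ hψ using hiso
  have horth := hD.decomp.orthogonal
  have hne12 : ∀ i j : Fin r, Fin.castAdd r i ≠ Fin.natAdd r j := by
    intro i j h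
    have := congrArg Fin.val h
    simp at this
    omega
  have hne11 : ∀ i j : Fin r, i ≠ j → Fin.castAdd r i ≠ Fin.castAdd r j := by
    intro i j hij h
    exact hij (Fin.castAdd_injective r r h)
  have hne22 : ∀ i j : Fin r, i ≠ j → Fin.natAdd r i ≠ Fin.natAdd r j := by
    intro i j hij h
    exact hij (Fin.natAdd_injective r r h)
  let L : ∀ j : Fin r, D (Fin.castAdd r j) →ₗ[F] (ι → F) := fun j =>
    (D (Fin.castAdd r j)).subtype + (D (Fin.natAdd r j)).subtype.comp (ψ j).toLinearMap
  have hL : ∀ (j : Fin r) (w : D (Fin.castAdd r j)), L j w = (w : ι → F) + (ψ j w : ι → F) :=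
    fun j w => rfl
  let Φ : (∀ j : Fin r, D (Fin.castAdd r j)) →ₗ[F] (ι → F) :=
    ∑ j : Fin r, (L j).comp (LinearMap.proj j)
  have hΦ : ∀ w, Φ w = ∑ j : Fin r, ((w j : ι → F) + (ψ j (w j) : ι → F)) := by
    intro w
    simp only [Φ, LinearMap.sum_apply, LinearMap.comp_apply, LinearMap.proj_apply, hL]
  have hinj : Function.Injective Φ := by
    rw [← LinearMap.ker_eq_bot, LinearMap.ker_eq_bot']
    intro w hw
    funext j
    by_contra hj
    have hj' : ((w j : D (Fin.castAdd r j)) : ι → F) ≠ 0 := fun h => hj (Subtype.ext h)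
    obtain ⟨x, hx, hxw⟩ := (hD.decomp.nondegenerate (Fin.castAdd r j) _ (w j).2 hj').1
    apply hxw
    have h1 : bil hQ x (Φ w) = 0 := by rw [hw, map_zero]
    rw [hΦ, map_sum, Finset.sum_eq_single j] at h1
    · rw [map_add, bil_apply, bil_apply, horth _ _ (hne12 j j) x hx _ (ψ j (w j)).2, add_zero] at h1
      exact h1
    · intro i _ hij
      rw [map_add, bil_apply, bil_apply, horth _ _ (hne11 j i hij.symm) x hx _ (w i).2,
        horth _ _ (hne12 j i) x hx _ (ψ i (w i)).2, add_zero]
    · intro h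
      exact absurd (Finset.mem_univ j) h
  refine ⟨LinearMap.range Φ, le_top, ?_, ?_⟩
  · rintro _ ⟨w, rfl⟩
    rw [hΦ]
    apply Q_sum_eq_zero hQ
    · intro j
      rw [(qf hQ).add, hψ, bil_apply, horth _ _ (hne12 j j) _ (w j).2 _ (ψ j (w j)).2, add_zero]
      linear_combination Q (w j : ι → F) * h2
    · intro i j hij
      rw [hb.add_left, hb.add_right, hb.add_right, horth _ _ (hne11 i j hij) _ (w i).2 _ (w j).2,
        horth _ _ (hne12 i j) _ (w i).2 _ (ψ j (w j)).2,
        horth _ _ (hne12 j i).symm _ (ψ i (w i)).2 _ (w j).2,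
        horth _ _ (hne22 i j hij) _ (ψ i (w i)).2 _ (ψ j (w j)).2]
      simp
  · rw [LinearMap.finrank_range_of_inj hinj, Module.finrank_pi_fintype, finrank_top,
      Module.finrank_fintype_fun_eq_card, Cfsg.Agent.Lib.Helper58GD.decomp_card D hD.decomp.decomp]
    simp only [hD.decomp.decomp.finrank_eq, Finset.sum_const, Finset.card_univ, Fintype.card_fin,
      smul_eq_mul]
    ring

end Cfsg.Agent.Lib.Helper11ODecplus2
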