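import Mathlib
import Cfsg.Prelude.Def_Classical
import Cfsg.Prelude.Def_ClassicalGeometry
import Cfsg.Agent.Lib.Helper49Orth
import Cfsg.Agent.Lib.Helper49Hyp
import Cfsg.Agent.Lib.Helper49Fam
import Cfsg.Agent.Lib.Helper49Trans
import Cfsg.Agent.Lib.Helper49Eich
import Cfsg.Agent.Lib.Helper49Geo
import Cfsg.Agent.Lib.Helper49EichGen
import Cfsg.Agent.Lib.Helper49Par

/-!
# Some non-maximal subspace stabilisers in `Ω`
-/

set_option autoImplicit false
set_option linter.unusedSectionVars false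

namespace Cfsg.Agent.Lib.Helper49Par2

open scoped Matrix
open Module
open Cfsg.Agent.Lib.Helper49Orth Cfsg.Agent.Lib.Helper49Hyp Cfsg.Agent.Lib.Helper18Hyp
  Cfsg.Agent.Lib.Helper49Eich Cfsg.Agent.Lib.Helper49Geo Cfsg.Agent.Lib.Helper49EichGen
  Cfsg.Agent.Lib.Helper49Fam Cfsg.Agent.Lib.Helper49Trans Cfsg.Agent.Lib.Helper49CharTwoA
  Cfsg.Agent.Lib.Helper49Par Cfsg.Agent.Lib.Helper49CD Cfsg.Agent.Lib.Helper49Dickson
  Cfsg.Agent.Lib.Helper49All

variable {F : Type*} [Field F] [Fintype F]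
variable {ι : Type} [Fintype ι] [DecidableEq ι] (Q : QuadraticForm F (ι → F))

local notation "𝐁" => QuadraticMap.polar (DFunLike.coe Q)
local notation:max W "ᗮ" => LinearMap.BilinForm.orthogonal (QuadraticMap.polarBilin Q) W

/-- Elements of `Ω` preserve the classes of maximal totally singular subspaces (general form). -/
theorem even_codim_gen (hQ : (QuadraticMap.polarBilin Q).Nondegenerate) {m : ℕ}
    (hdim : Fintype.card ι = 2 * m) (hq : Fintype.card F ≠ 2 ∨ Fintype.card ι ≠ 4)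
    {U : Submodule F (ι → F)} (hU : TS Q U) (hUm : finrank F U = m)
    {g : ↥(Cfsg.isometryGroup F ⇑Q)} (hg : g ∈ Cfsg.Omega F ⇑Q) :
    Even (m - finrank F (U ⊓ img Q g U : Submodule F (ι → F))) := by
  have hdim' : finrank F (ι → F) = 2 * m := by rw [Module.finrank_fintype_fun_eq_card, hdim]
  obtain ⟨vs, hvs, rfl⟩ := exists_list_refl_all Q hQ hq g
  have h := parity_list Q hQ hdim' hU hUm vs hvs
  rw [Nat.even_add] at h
  rw [h]
  by_cases h2 : (2 : F) = 0
  · have : CharP F 2 := CharTwo.of_one_ne_zero_of_two_eq_zero one_ne_zero h2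
    exact (char_two_criterion Q hQ hq vs hvs).1 hg
  · have h3 := ((mem_Omega_iff Q h2 hQ _).1 hg).1
    rw [detO_prod _ vs hvs] at h3
    have hne : (-1 : F) ≠ 1 := by
      intro h
      apply h2
      linear_combination -h
    have h4 : ((-1 : F)) ^ vs.length = 1 := by
      have := congrArg (fun u : Fˣ => (u : F)) h3
      simpa using this
    exact (neg_one_pow_eq_one_iff_even hne).1 h4

/-- The stabiliser in `Ω` of a totally singular subspace of dimension `m - 1` (plus type,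
dimension `2m`) stabilises the maximal totally singular subspaces containing it. -/
theorem stab_submax_le (hQ : (QuadraticMap.polarBilin Q).Nondegenerate) {m : ℕ}
    (hdim : Fintype.card ι = 2 * m) (hq : Fintype.card F ≠ 2 ∨ Fintype.card ι ≠ 4)
    {U W : Submodule F (ι → F)} (hU : TS Q U) (hUm : finrank F U = m) (hWU : W ≤ U)
    (hWm : finrank F W + 1 = m) : stab Q W ⊓ Cfsg.Omega F ⇑Q ≤ stab Q U := by
  rintro g ⟨hgW, hg⟩
  have h1 := even_codim_gen Q hQ hdim hq hU hUm hg
  have hgW' : img Q g W = W := hgW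
  have h2 : W ≤ U ⊓ img Q g U := by
    refine le_inf hWU ?_
    rw [← hgW']
    exact Submodule.map_mono hWU
  have h3 := Submodule.finrank_mono h2
  have h4 : finrank F (U ⊓ img Q g U : Submodule F (ι → F)) ≤ m := by
    rw [← hUm]
    exact Submodule.finrank_mono inf_le_left
  have h5 : finrank F (U ⊓ img Q g U : Submodule F (ι → F)) = m := by
    rw [Nat.even_iff] at h1
    omega
  have h6 : U ⊓ img Q g U = U :=
    Submodule.eq_of_le_of_finrank_eq inf_le_left (by rw [h5, hUm])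
  have h7 : U ≤ img Q g U := inf_eq_left.1 h6
  rw [mem_stab]
  exact (Submodule.eq_of_le_of_finrank_eq h7 (by rw [finrank_img])).symm

/-- An element of `Ω` stabilising the totally singular `U` but not its proper nonzero
subspace `W`. -/
theorem exists_mem_stab_not_mem_stab (hQ : (QuadraticMap.polarBilin Q).Nondegenerate)
    (hn : 5 ≤ Fintype.card ι) {U W : Submodule F (ι → F)} (hU : TS Q U) (hWU : W < U)
    (hW0 : W ≠ ⊥) : ∃ g ∈ Cfsg.Omega F ⇑Q, g ∈ stab Q U ∧ g ∉ stab Q W := by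
  obtain ⟨u', hu'U, hu'W⟩ := SetLike.exists_of_lt hWU
  obtain ⟨u, huW, hu0⟩ := Submodule.exists_mem_ne_zero_of_ne_bot hW0
  have hex : ∃ w, 𝐁 u' w = 0 ∧ 𝐁 u w ≠ 0 := by
    by_contra hcon
    have hmem : u ∈ Submodule.span F {u'} := by
      apply mem_span_of_orth Q hQ
      intro y hy
      by_contra hne
      exact hcon ⟨y, hy, hne⟩
    obtain ⟨s, hs⟩ := Submodule.mem_span_singleton.1 hmem
    have hs0 : s ≠ 0 := by
      rintro rfl
      rw [zero_smul] at hs
      exact hu0 hs.symm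
    apply hu'W
    have : u' = s⁻¹ • u := by rw [← hs, smul_smul, inv_mul_cancel₀ hs0, one_smul]
    rw [this]
    exact W.smul_mem _ huW
  obtain ⟨w, hw, huw⟩ := hex
  refine ⟨E Q u' w, E_mem_Omega Q hQ hn (hU u' hu'U) hw, E_mem_stab_of_mem Q hU hu'U hw, ?_⟩
  intro hmem
  rw [mem_stab] at hmem
  have h2 : ((E Q u' w : Matrix.GeneralLinearGroup ι F) : Matrix ι ι F) *ᵥ u ∈ W := by
    rw [← hmem]
    exact (mem_img Q).2 ⟨u, huW, rfl⟩
  rw [E_apply Q (hU u' hu'U) hw, hU.polar_eq_zero (hWU.le huW) hu'U] at h2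
  simp only [mul_zero, sub_zero, zero_smul] at h2
  have h3 : 𝐁 u w • u' ∈ W := by
    have := W.sub_mem h2 huW
    simpa using this
  apply hu'W
  have : u' = (𝐁 u w)⁻¹ • (𝐁 u w • u') := by rw [smul_smul, inv_mul_cancel₀ huw, one_smul]
  rw [this]
  exact W.smul_mem _ h3

/-- Elements of `Ω` do not interchange two complementary maximal totally singular subspaces of
odd dimension. -/
theorem pair_not_swap (hQ : (QuadraticMap.polarBilin Q).Nondegenerate) {k : ℕ}
    (hdim : Fintype.card ι = 2 * k) (hq : Fintype.card F ≠ 2 ∨ Fintype.card ι ≠ 4) (hk : Odd k)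
    {D0 D1 : Submodule F (ι → F)} (h0 : TS Q D0) (h0k : finrank F D0 = k) (hinf : D0 ⊓ D1 = ⊥)
    {g : ↥(Cfsg.isometryGroup F ⇑Q)} (hg : g ∈ Cfsg.Omega F ⇑Q) : img Q g D0 ≠ D1 := by
  intro h
  have h1 := even_codim_gen Q hQ hdim hq h0 h0k hg
  rw [h, hinf, finrank_bot, Nat.sub_zero] at h1
  exact (Nat.not_even_iff_odd.2 hk) h1

theorem exists_mem_stab_not_mem_stab_pair (hQ : (QuadraticMap.polarBilin Q).Nondegenerate)
    (hn : 5 ≤ Fintype.card ι) {k : ℕ} (hdim : Fintype.card ι = 2 * k)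
    {D0 D1 : Submodule F (ι → F)} (h0 : TS Q D0) (h1 : TS Q D1) (h0k : finrank F D0 = k)
    (h1k : finrank F D1 = k) (hinf : D0 ⊓ D1 = ⊥) :
    ∃ g ∈ Cfsg.Omega F ⇑Q, g ∈ stab Q D0 ∧ g ∉ stab Q D1 := by
  have hdim' : finrank F (ι → F) = 2 * k := by rw [Module.finrank_fintype_fun_eq_card, hdim]
  have hD0 : D0 ≠ ⊥ := by
    rintro rfl
    rw [finrank_bot] at h0k
    omega
  obtain ⟨e, heD, he0⟩ := Submodule.exists_mem_ne_zero_of_ne_bot hD0
  have heD1 : e ∉ D1ᗮ := by
    rw [h1.orth_eq hQ hdim' h1k]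
    intro h
    have : e ∈ D0 ⊓ D1 := ⟨heD, h⟩
    rw [hinf, Submodule.mem_bot] at this
    exact he0 this
  rw [mem_orth] at heD1
  push Not at heD1
  obtain ⟨y, hyD, hye⟩ := heD1
  have hlt : Submodule.span F {e} < D0 := by
    refine lt_of_le_of_ne ((Submodule.span_singleton_le_iff_mem _ _).2 heD) ?_
    intro h
    have := finrank_span_singleton (K := F) he0
    rw [h, h0k] at this
    omega
  obtain ⟨w, hwD, hwe⟩ := SetLike.exists_of_lt hlt
  have hew : 𝐁 e w = 0 := h0.polar_eq_zero heD hwD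
  refine ⟨E Q e w, E_mem_Omega Q hQ hn (h0 e heD) hew, E_mem_stab_of_mem Q h0 heD hew, ?_⟩
  intro hmem
  rw [mem_stab] at hmem
  have h2 : ((E Q e w : Matrix.GeneralLinearGroup ι F) : Matrix ι ι F) *ᵥ y ∈ D1 := by
    rw [← hmem]
    exact (mem_img Q).2 ⟨y, hyD, rfl⟩
  rw [E_apply Q (h0 e heD) hew, h0 w hwD, zero_mul, sub_zero] at h2
  have h3 : 𝐁 y w • e - 𝐁 y e • w ∈ D0 ⊓ D1 := by
    refine ⟨D0.sub_mem (D0.smul_mem _ heD) (D0.smul_mem _ hwD), ?_⟩
    have := D1.sub_mem h2 hyD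
    have e1 : y + 𝐁 y w • e - 𝐁 y e • w - y = 𝐁 y w • e - 𝐁 y e • w := by abel
    rwa [e1] at this
  rw [hinf, Submodule.mem_bot, sub_eq_zero] at h3
  apply hwe
  rw [Submodule.mem_span_singleton]
  refine ⟨(𝐁 y e)⁻¹ * 𝐁 y w, ?_⟩
  rw [mul_smul, h3, smul_smul, inv_mul_cancel₀ hye, one_smul]

theorem mul_self_eq_one_of_card_le_three (hq3 : Fintype.card F ≤ 3) {a : F} (ha : a ≠ 0) :
    a * a = 1 := by
  have h := FiniteField.pow_card_sub_one_eq_one a ha
  have h2 : 1 < Fintype.card F := Fintype.one_lt_card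
  have h3 : Fintype.card F = 2 ∨ Fintype.card F = 3 := by omega
  rcases h3 with h3 | h3
  · rw [h3] at h
    simp only [Nat.add_one_sub_one, pow_one] at h
    rw [h, mul_one]
  · rw [h3] at h
    simp only [Nat.add_one_sub_one] at h
    rw [← pow_two]
    exact h

/-- For `q ≤ 3` the stabiliser in `Ω` of a hyperbolic plane is not maximal. -/
theorem hyp_plane_not_max (hQ : (QuadraticMap.polarBilin Q).Nondegenerate)
    (hn : 5 ≤ Fintype.card ι) (hq3 : Fintype.card F ≤ 3) {W : Submodule F (ι → F)}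
    (hdim : finrank F W = 2) (hWnd : ∀ w ∈ W, w ≠ 0 → ∃ x ∈ W, 𝐁 x w ≠ 0) {e : ι → F}
    (heW : e ∈ W) (he0 : e ≠ 0) (he : Q e = 0) :
    ∃ T' : Subgroup ↥(Cfsg.isometryGroup F ⇑Q), stab Q W ⊓ Cfsg.Omega F ⇑Q ≤ T' ∧
      (∃ g ∈ Cfsg.Omega F ⇑Q, g ∈ T' ∧ g ∉ stab Q W) ∧ (∃ g ∈ Cfsg.Omega F ⇑Q, g ∉ T') := by
  obtain ⟨x, hxW, hxe⟩ := hWnd e heW he0
  set f := (𝐁 x e)⁻¹ • (x + (- Q x / 𝐁 x e) • e) with hfdef
  have hfW : f ∈ W := W.smul_mem _ (W.add_mem hxW (W.smul_mem _ heW))
  have hf : Q f = 0 := by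
    rw [hfdef, QuadraticMap.map_smul, Q_add_smul', he]
    field_simp
    ring
  have hef : 𝐁 e f = 1 := by
    rw [hfdef, QuadraticMap.polar_smul_right, QuadraticMap.polar_add_right,
      QuadraticMap.polar_smul_right, polar_self_of_singular Q he, QuadraticMap.polar_comm ⇑Q e x]
    simp [hxe]
  have hfe : 𝐁 f e = 1 := by rw [QuadraticMap.polar_comm]; exact hef
  have hee := polar_self_of_singular Q he
  have hff := polar_self_of_singular Q hf
  have hspan : ∀ z ∈ W, ∃ a b : F, z = a • e + b • f := by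
    have hfs : f ∉ Submodule.span F {e} := by
      intro h
      obtain ⟨s, hs⟩ := Submodule.mem_span_singleton.1 h
      rw [← hs, QuadraticMap.polar_smul_right, hee, smul_zero] at hef
      exact zero_ne_one hef
    have h1 : finrank F (Submodule.span F {e} ⊔ Submodule.span F {f} : Submodule F (ι → F)) = 2 := by
      rw [Submodule.finrank_sup_span_singleton hfs, finrank_span_singleton he0]
    have h2 : Submodule.span F {e} ⊔ Submodule.span F {f} ≤ W :=
      sup_le ((Submodule.span_singleton_le_iff_mem _ _).2 heW)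
        ((Submodule.span_singleton_le_iff_mem _ _).2 hfW)
    have h3 := Submodule.eq_of_le_of_finrank_eq h2 (by rw [h1, hdim])
    intro z hz
    rw [← h3] at hz
    obtain ⟨p, hp, r, hr, rfl⟩ := Submodule.mem_sup.1 hz
    obtain ⟨a, rfl⟩ := Submodule.mem_span_singleton.1 hp
    obtain ⟨b, rfl⟩ := Submodule.mem_span_singleton.1 hr
    exact ⟨a, b, rfl⟩
  set v := e + f with hv
  have hvW : v ∈ W := W.add_mem heW hfW
  have hQv : Q v = 1 := by rw [hv, Q_add, he, hf, hef]; ring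
  obtain ⟨e', he'W, he'0, he'⟩ := exists_singular_orth Q hQ (S := W) (by omega)
  have he'nW : e' ∉ W := by
    intro h
    obtain ⟨z, hzW, hz⟩ := hWnd e' h he'0
    exact hz (mem_orth.1 he'W z hzW)
  have hee' : 𝐁 e e' = 0 := mem_orth.1 he'W e heW
  have hfe' : 𝐁 f e' = 0 := mem_orth.1 he'W f hfW
  have hve' : 𝐁 v e' = 0 := mem_orth.1 he'W v hvW
  refine ⟨stab Q (Submodule.span F {v}), ?_, ?_, ?_⟩
  · rintro g ⟨hgW, -⟩
    have hgW' : img Q g W = W := hgW
    have h1 : ((g : Matrix.GeneralLinearGroup ι F) : Matrix ι ι F) *ᵥ v ∈ W := by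
      rw [← hgW']
      exact (mem_img Q).2 ⟨v, hvW, rfl⟩
    obtain ⟨a, b, hab⟩ := hspan _ h1
    have h2 : a * b = 1 := by
      rw [← Q_hyp Q he hf hef a b, ← hab, iso_apply (Q := ⇑Q), hQv]
    have ha0 : a ≠ 0 := by
      rintro rfl
      rw [zero_mul] at h2
      exact zero_ne_one h2
    have h3 := mul_self_eq_one_of_card_le_three hq3 ha0
    have h4 : b = a := mul_left_cancel₀ ha0 (h2.trans h3.symm)
    apply mem_stab_of_le
    intro z hz
    obtain ⟨c, rfl⟩ := Submodule.mem_span_singleton.1 hz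
    rw [Matrix.mulVec_smul, hab, h4, ← smul_add]
    exact Submodule.smul_mem _ _ (Submodule.smul_mem _ _ (Submodule.mem_span_singleton_self v))
  · have hw' : 𝐁 e' (e - f) = 0 := by
      rw [QuadraticMap.polar_sub_right, QuadraticMap.polar_comm ⇑Q e' e,
        QuadraticMap.polar_comm ⇑Q e' f, hee', hfe', sub_zero]
    refine ⟨E Q e' (e - f), E_mem_Omega Q hQ hn he' hw', ?_, ?_⟩
    · apply mem_stab_of_le
      intro z hz
      obtain ⟨c, rfl⟩ := Submodule.mem_span_singleton.1 hz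
      have h1 : 𝐁 v (e - f) = 0 := by
        rw [hv, QuadraticMap.polar_sub_right, QuadraticMap.polar_add_left,
          QuadraticMap.polar_add_left, hee, hff, hef, hfe]
        ring
      rw [Matrix.mulVec_smul, E_apply Q he' hw', hve', h1]
      simp only [mul_zero, sub_zero, zero_smul, add_zero]
      exact Submodule.smul_mem _ _ (Submodule.mem_span_singleton_self v)
    · intro hmem
      rw [mem_stab] at hmem
      have h2 : ((E Q e' (e - f) : Matrix.GeneralLinearGroup ι F) : Matrix ι ι F) *ᵥ e ∈ W := by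
        rw [← hmem]
        exact (mem_img Q).2 ⟨e, heW, rfl⟩
      rw [E_apply Q he' hw', hee', QuadraticMap.polar_sub_right, hee, hef] at h2
      simp only [mul_zero, sub_zero, zero_smul, zero_sub] at h2
      apply he'nW
      have := W.sub_mem heW h2
      simpa using this
  · refine ⟨E Q e e', E_mem_Omega Q hQ hn he hee', ?_⟩
    intro hmem
    rw [mem_stab] at hmem
    have h2 : ((E Q e e' : Matrix.GeneralLinearGroup ι F) : Matrix ι ι F) *ᵥ v
        ∈ Submodule.span F {v} := by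
      rw [← hmem]
      exact (mem_img Q).2 ⟨v, Submodule.mem_span_singleton_self v, rfl⟩
    have hve : 𝐁 v e = 1 := by
      rw [hv, QuadraticMap.polar_add_left, hee, hfe, zero_add]
    rw [E_apply Q he hee', hve', he', hve] at h2
    simp only [zero_mul, sub_zero, zero_smul, add_zero, one_smul] at h2
    apply he'nW
    have h3 : v - e' ∈ W :=
      ((Submodule.span_singleton_le_iff_mem _ _).2 hvW) h2
    have := W.sub_mem hvW h3
    simpa using this

end Cfsg.Agent.Lib.Helper49Par2
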