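import Mathlib
import Cfsg.Prelude.Def_Classical
import Cfsg.Prelude.Def_ClassicalGeometry
import Cfsg.Prelude.Def_GeometricClasses
import Cfsg.Agent.Lib.Helper49Orth
import Cfsg.Agent.Lib.Helper49Fam
import Cfsg.Agent.Lib.Helper49Fam3
import Cfsg.Agent.Lib.Helper49Trans
import Cfsg.Agent.Lib.Helper49Eich
import Cfsg.Agent.Lib.Helper49EichGen
import Cfsg.Agent.Lib.Helper49Bridge
import Cfsg.Agent.Lib.Helper49CD
import Cfsg.Agent.Lib.Helper49Par2

/-!
# Orthogonal decompositions over the field with three elements which refine to a frame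
-/

set_option autoImplicit false
set_option linter.unusedSectionVars false

namespace Cfsg.Agent.Lib.Helper49Frame

open scoped Matrix
open Module
open Cfsg.Agent.Lib.Helper49Orth Cfsg.Agent.Lib.Helper18Hyp
  Cfsg.Agent.Lib.Helper49Eich Cfsg.Agent.Lib.Helper49EichGen
  Cfsg.Agent.Lib.Helper49Fam Cfsg.Agent.Lib.Helper49Fam3 Cfsg.Agent.Lib.Helper49Trans
  Cfsg.Agent.Lib.Helper49Bridge Cfsg.Agent.Lib.Helper49CD Cfsg.Agent.Lib.Helper49Par2

variable {F : Type*} [Field F]
variable {ι : Type} [Fintype ι] [DecidableEq ι] (Q : QuadraticForm F (ι → F))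

local notation "𝐁" => QuadraticMap.polar (DFunLike.coe Q)
local notation:max W "ᗮ" => LinearMap.BilinForm.orthogonal (QuadraticMap.polarBilin Q) W

/-- The setwise stabiliser of a set of vectors. -/
def setStab (X : Set (ι → F)) : Subgroup ↥(Cfsg.isometryGroup F ⇑Q) where
  carrier := {g | ∀ z, z ∈ X ↔ ((g : Matrix.GeneralLinearGroup ι F) : Matrix ι ι F) *ᵥ z ∈ X}
  one_mem' := fun z => by rw [one_mulVec']
  mul_mem' := by
    intro a b ha hb z
    rw [mul_mulVec, ← ha, ← hb]
  inv_mem' := by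
    intro a ha z
    rw [ha ((((a⁻¹ : ↥(Cfsg.isometryGroup F ⇑Q)) : Matrix.GeneralLinearGroup ι F) :
      Matrix ι ι F) *ᵥ z), mulVec_inv_mulVec]

theorem mem_setStab {X : Set (ι → F)} {g : ↥(Cfsg.isometryGroup F ⇑Q)} :
    g ∈ setStab Q X ↔
      ∀ z, z ∈ X ↔ ((g : Matrix.GeneralLinearGroup ι F) : Matrix ι ι F) *ᵥ z ∈ X := Iff.rfl

theorem mem_setStab_of_forall {X : Set (ι → F)} {g : ↥(Cfsg.isometryGroup F ⇑Q)}
    (h1 : ∀ z ∈ X, ((g : Matrix.GeneralLinearGroup ι F) : Matrix ι ι F) *ᵥ z ∈ X)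
    (h2 : ∀ z ∈ X, (((g⁻¹ : ↥(Cfsg.isometryGroup F ⇑Q)) : Matrix.GeneralLinearGroup ι F) :
      Matrix ι ι F) *ᵥ z ∈ X) : g ∈ setStab Q X := by
  intro z
  refine ⟨h1 z, fun h => ?_⟩
  have := h2 _ h
  rwa [inv_mulVec_mulVec] at this

/-- The vectors of norm `ε` lying in a member of the decomposition. -/
def blockSet {t : ℕ} (D : Fin t → Submodule F (ι → F)) (ε : F) : Set (ι → F) :=
  {z | ∃ i, z ∈ D i ∧ Q z = ε}

theorem decompStab_le {t : ℕ} (D : Fin t → Submodule F (ι → F)) (ε : F)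
    (g : ↥(Cfsg.isometryGroup F ⇑Q))
    (hg : (g : Matrix.GeneralLinearGroup ι F) ∈ Cfsg.Geo.decompositionStabilizer D) :
    g ∈ setStab Q (blockSet Q D ε) := by
  have key : ∀ h : ↥(Cfsg.isometryGroup F ⇑Q),
      (h : Matrix.GeneralLinearGroup ι F) ∈ Cfsg.Geo.decompositionStabilizer D →
      ∀ z ∈ blockSet Q D ε,
        ((h : Matrix.GeneralLinearGroup ι F) : Matrix ι ι F) *ᵥ z ∈ blockSet Q D ε := by
    rintro h ⟨σ, hσ⟩ z ⟨i, hz, hQz⟩
    refine ⟨σ i, ?_, by rw [iso_apply (Q := ⇑Q), hQz]⟩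
    rw [← hσ i]
    exact Submodule.mem_map.2 ⟨z, hz, by simp [Matrix.toLin'_apply]⟩
  exact mem_setStab_of_forall Q (key g hg) (key g⁻¹ (by
    have := inv_mem hg
    simpa using this))

/-- The data of a refinement of the decomposition `D`. -/
structure Frame {t : ℕ} (D : Fin t → Submodule F (ι → F)) (ε : F) (x : Fin t → ι → F) : Prop where
  orth : ∀ i j, i ≠ j → ∀ u ∈ D i, ∀ v ∈ D j, 𝐁 u v = 0
  ne : ε ≠ 0
  mem : ∀ i, x i ∈ D i
  norm : ∀ i, Q (x i) = ε
  prop : ∀ i, ∀ z ∈ D i, Q z = ε → z = x i ∨ z = - x i ∨ 𝐁 (x i) z = 0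

variable {Q}

theorem Frame.Q_diff {t : ℕ} {D : Fin t → Submodule F (ι → F)} {ε : F} {x : Fin t → ι → F}
    (H : Frame Q D ε x) {i j : Fin t} (hij : i ≠ j) : Q (x i - x j) = 2 * ε := by
  rw [Q_sub, H.norm, H.norm, H.orth i j hij _ (H.mem i) _ (H.mem j)]
  ring

theorem Frame.refl_aux {t : ℕ} {D : Fin t → Submodule F (ι → F)} {ε : F} {x : Fin t → ι → F}
    (H : Frame Q D ε x) (h2 : (2 : F) ≠ 0) {i j : Fin t} (hij : i ≠ j) {z : ι → F}
    (hz : z ∈ D i) (hQz : Q z = ε) :
    Cfsg.reflectionMatrix ⇑Q (x i - x j) *ᵥ z ∈ blockSet Q D ε := by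
  have hd : Q (x i - x j) ≠ 0 := by
    rw [H.Q_diff hij]
    exact mul_ne_zero h2 H.ne
  rcases H.prop i z hz hQz with rfl | rfl | h0
  · rw [refl_sub_apply Q (by rw [H.norm, H.norm]) hd]
    exact ⟨j, H.mem j, H.norm j⟩
  · rw [Matrix.mulVec_neg, refl_sub_apply Q (by rw [H.norm, H.norm]) hd]
    exact ⟨j, neg_mem (H.mem j), by rw [QuadraticMap.map_neg, H.norm]⟩
  · rw [refl_of_polar_eq_zero]
    · exact ⟨i, hz, hQz⟩
    · rw [QuadraticMap.polar_sub_left, h0, H.orth j i hij.symm _ (H.mem j) _ hz, sub_zero]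

theorem Frame.refl_mem_setStab {t : ℕ} {D : Fin t → Submodule F (ι → F)} {ε : F}
    {x : Fin t → ι → F} (H : Frame Q D ε x) (h2 : (2 : F) ≠ 0) {i j : Fin t} (hij : i ≠ j) :
    reflO' Q (x i - x j) ∈ setStab Q (blockSet Q D ε) := by
  have hd : Q (x i - x j) ≠ 0 := by
    rw [H.Q_diff hij]
    exact mul_ne_zero h2 H.ne
  rw [reflO'_eq Q hd]
  have key : ∀ z ∈ blockSet Q D ε,
      Cfsg.reflectionMatrix ⇑Q (x i - x j) *ᵥ z ∈ blockSet Q D ε := by
    rintro z ⟨l, hz, hQz⟩
    by_cases hli : l = i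
    · subst hli
      exact H.refl_aux h2 hij hz hQz
    by_cases hlj : l = j
    · subst hlj
      rw [← refl_neg, neg_sub]
      exact H.refl_aux h2 hij.symm hz hQz
    · rw [refl_of_polar_eq_zero]
      · exact ⟨l, hz, hQz⟩
      · rw [QuadraticMap.polar_sub_left, H.orth i l (Ne.symm hli) _ (H.mem i) _ hz,
          H.orth j l (Ne.symm hlj) _ (H.mem j) _ hz, sub_zero]
  apply mem_setStab_of_forall
  · intro z hz
    rw [coe_reflO]
    exact key z hz
  · intro z hz
    rw [reflO_inv, coe_reflO]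
    exact key z hz

/-- The abstract refinement argument. -/
theorem Frame.not_max [Fintype F] {t : ℕ} {D : Fin t → Submodule F (ι → F)} {ε : F}
    {x : Fin t → ι → F} (H : Frame Q D ε x) (hQ : (QuadraticMap.polarBilin Q).Nondegenerate)
    (hn : 5 ≤ Fintype.card ι) (h3 : (3 : F) = 0)
    (hdisj : ∀ i j, i ≠ j → ∀ v ∈ D i, v ∈ D j → v = 0)
    {i0 i1 i2 i3 : Fin t} (h01 : i0 ≠ i1) (h02 : i0 ≠ i2) (h03 : i0 ≠ i3) (h12 : i1 ≠ i2)
    (h13 : i1 ≠ i3) (h23 : i2 ≠ i3)
    {y : ι → F} (hy : y ∈ D i0) (hy0 : y ≠ 0) (hxy : 𝐁 (x i0) y = 0) :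
    ∃ K : Subgroup (Matrix.GeneralLinearGroup ι F),
      Cfsg.Geo.decompositionStabilizer D ⊓ Cfsg.Geo.omegaGL ⇑Q < K ∧
        K < Cfsg.Geo.omegaGL ⇑Q := by
  have horth := H.orth
  have hε := H.ne
  have hx := H.mem
  have hxQ := H.norm
  have h2 : (2 : F) ≠ 0 := by
    intro h2
    have : (1 : F) = 0 := by linear_combination h3 - h2
    exact one_ne_zero this
  have hq : Fintype.card F ≠ 2 ∨ Fintype.card ι ≠ 4 := Or.inr (by omega)
  have hd : ∀ {i j : Fin t}, i ≠ j → Q (x i - x j) ≠ 0 := by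
    intro i j hij
    rw [H.Q_diff hij]
    exact mul_ne_zero h2 hε
  apply exists_between_omegaGL Q (Cfsg.Geo.decompositionStabilizer D)
    ((Cfsg.Geo.decompositionStabilizer D).comap (Cfsg.isometryGroup F ⇑Q).subtype)
    (setStab Q (blockSet Q D ε))
  · intro g _
    exact Iff.rfl
  · rintro g ⟨hg, -⟩
    exact decompStab_le Q D ε g hg
  · refine ⟨reflO' Q (x i0 - x i1) * reflO' Q (x i2 - x i3), ?_, ?_, ?_⟩
    · have := prod_mem_Omega Q hQ hq [x i0 - x i1, x i2 - x i3] (by
        intro v hv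
        simp only [List.mem_cons, List.not_mem_nil, or_false] at hv
        rcases hv with rfl | rfl
        · exact hd h01
        · exact hd h23) (by simp) (by
        simp only [List.map_cons, List.map_nil, List.prod_cons, List.prod_nil, mul_one]
        rw [H.Q_diff h01, H.Q_diff h23]
        exact ⟨_, rfl⟩)
      simpa using this
    · exact Subgroup.mul_mem _ (H.refl_mem_setStab h2 h01) (H.refl_mem_setStab h2 h23)
    · rintro ⟨σ, hσ⟩
      have hmem : ∀ v ∈ D i0, (((reflO' Q (x i0 - x i1) * reflO' Q (x i2 - x i3) :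
          ↥(Cfsg.isometryGroup F ⇑Q)) : Matrix.GeneralLinearGroup ι F) : Matrix ι ι F) *ᵥ v
            ∈ D (σ i0) := by
        intro v hv
        rw [← hσ i0]
        exact Submodule.mem_map.2 ⟨v, hv, by simp [Matrix.toLin'_apply]⟩
      have e1 : ∀ v ∈ D i0, Cfsg.reflectionMatrix ⇑Q (x i2 - x i3) *ᵥ v = v := by
        intro v hv
        apply refl_of_polar_eq_zero
        rw [QuadraticMap.polar_sub_left, horth i2 i0 h02.symm _ (hx i2) _ hv,
          horth i3 i0 h03.symm _ (hx i3) _ hv, sub_zero]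
      have hy' := hmem y hy
      rw [mul_mulVec, reflO'_eq Q (hd h01), reflO'_eq Q (hd h23), coe_reflO, coe_reflO,
        e1 y hy, refl_of_polar_eq_zero Q (by
          rw [QuadraticMap.polar_sub_left, hxy, horth i1 i0 h01.symm _ (hx i1) _ hy,
            sub_zero])] at hy'
      have hσ0 : σ i0 = i0 := by
        by_contra hne
        exact hy0 (hdisj i0 (σ i0) (Ne.symm hne) y hy hy')
      have hx' := hmem (x i0) (hx i0)
      rw [mul_mulVec, reflO'_eq Q (hd h01), reflO'_eq Q (hd h23), coe_reflO, coe_reflO,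
        e1 _ (hx i0), refl_sub_apply Q (by rw [hxQ, hxQ]) (hd h01), hσ0] at hx'
      have := hdisj i1 i0 h01.symm _ (hx i1) hx'
      apply hε
      rw [← hxQ i1, this, map_zero]
  · -- an element of `Ω` which does not preserve the frame
    set u : ι → F := x i0 + x i1 + x i2 + x i3 with hu
    have hB : ∀ i, 𝐁 (x i) (x i) = 2 * ε := by
      intro i
      rw [QuadraticMap.polar_self, hxQ, two_smul, two_mul]
    have hQu : Q u = ε := by
      rw [hu, Q_add, Q_add, Q_add, hxQ, hxQ, hxQ, hxQ]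
      simp only [QuadraticMap.polar_add_left]
      rw [horth i0 i1 h01 _ (hx i0) _ (hx i1), horth i0 i2 h02 _ (hx i0) _ (hx i2),
        horth i1 i2 h12 _ (hx i1) _ (hx i2), horth i0 i3 h03 _ (hx i0) _ (hx i3),
        horth i1 i3 h13 _ (hx i1) _ (hx i3), horth i2 i3 h23 _ (hx i2) _ (hx i3)]
      linear_combination ε * h3
    have hne : (2 : F) * ε ≠ 0 := mul_ne_zero h2 hε
    have hu0 : 𝐁 u (x i0) = 2 * ε := by
      rw [hu]
      simp only [QuadraticMap.polar_add_left]
      rw [hB, horth i1 i0 h01.symm _ (hx i1) _ (hx i0), horth i2 i0 h02.symm _ (hx i2) _ (hx i0),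
        horth i3 i0 h03.symm _ (hx i3) _ (hx i0)]
      ring
    have hu1 : 𝐁 u (x i1) = 2 * ε := by
      rw [hu]
      simp only [QuadraticMap.polar_add_left]
      rw [hB, horth i0 i1 h01 _ (hx i0) _ (hx i1), horth i2 i1 h12.symm _ (hx i2) _ (hx i1),
        horth i3 i1 h13.symm _ (hx i3) _ (hx i1)]
      ring
    have huX : u ∉ blockSet Q D ε := by
      rintro ⟨l, hl, -⟩
      by_cases hl0 : l = i0
      · apply hne
        rw [← hu1]
        exact horth l i1 (by rw [hl0]; exact h01) _ hl _ (hx i1)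
      · apply hne
        rw [← hu0]
        exact horth l i0 hl0 _ hl _ (hx i0)
    obtain ⟨s, hs, hsu⟩ := TT_transitive Q hQ hn (u := x i0) (u' := u) (by rw [hxQ]; exact hε)
      (by rw [hxQ, hQu])
    refine ⟨s, TT_le_Omega Q hQ hn hs, fun hmem => huX ?_⟩
    rw [← hsu]
    exact (hmem (x i0)).1 ⟨i0, hx i0, hxQ i0⟩

variable (Q)

/-- An orthogonal family of nonsingular vectors spanning a nondegenerate subspace. -/
theorem exists_orth_family (h2 : (2 : F) ≠ 0) {W : Submodule F (ι → F)} (hW : W ⊓ Wᗮ = ⊥)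
    {k : ℕ} (hk : finrank F W = k) :
    ∃ w : Fin k → ι → F, (∀ i, w i ∈ W) ∧ (∀ i j, i ≠ j → 𝐁 (w i) (w j) = 0) ∧
      (∀ i, Q (w i) ≠ 0) ∧ ∀ z ∈ W, ∃ c : Fin k → F, z = ∑ i, c i • w i := by
  subst hk
  obtain ⟨v, hortho, hns⟩ := exists_orthogonal_basis (restr Q W) h2 (restr_nondegenerate Q hW)
  have e : finrank F (Fin (finrank F W) → F) = finrank F W := by simp
  set b := v.reindex (finCongr e) with hb
  refine ⟨fun i => emb W (b i), fun i => emb_mem W _, ?_, ?_, ?_⟩
  · intro i j hij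
    rw [← polar_restr, hb, Module.Basis.reindex_apply, Module.Basis.reindex_apply]
    apply hortho
    intro h
    exact hij ((finCongr e).symm.injective h)
  · intro i
    rw [← restr_apply, hb, Module.Basis.reindex_apply]
    exact hns _
  · intro z hz
    obtain ⟨y, rfl⟩ := exists_emb_eq hz
    refine ⟨fun i => b.repr y i, ?_⟩
    conv_lhs => rw [← b.sum_repr y]
    rw [map_sum]
    simp only [map_smul]

section Three

variable [Fintype F]

theorem three_eq_zero (hq : Fintype.card F = 3) : (3 : F) = 0 := by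
  have := Nat.cast_card_eq_zero F
  rw [hq] at this
  exact_mod_cast this

theorem sq_cases (hq : Fintype.card F = 3) (c : F) : c = 0 ∨ c * c = 1 := by
  by_cases h : c = 0
  · exact Or.inl h
  · exact Or.inr (mul_self_eq_one_of_card_le_three hq.le h)

theorem two_ne_zero_of_card (hq : Fintype.card F = 3) : (2 : F) ≠ 0 := by
  intro h2
  have : (1 : F) = 0 := by linear_combination three_eq_zero hq - h2
  exact one_ne_zero this

/-- The key property in a block with an explicit orthogonal spanning triple. -/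
theorem prop_three (hq : Fintype.card F = 3) {W : Submodule F (ι → F)} {x v w : ι → F}
    (hxv : 𝐁 x v = 0) (hxw : 𝐁 x w = 0) (hvw : 𝐁 v w = 0) (hx : Q x ≠ 0) (hv : Q v ≠ 0)
    (hvw' : Q v = Q w) (hspan : ∀ z ∈ W, ∃ a b c : F, z = a • x + b • v + c • w) :
    ∀ z ∈ W, Q z = Q x → z = x ∨ z = - x ∨ 𝐁 x z = 0 := by
  intro z hz hQz
  obtain ⟨a, b, c, rfl⟩ := hspan z hz
  have h2 := two_ne_zero_of_card hq
  have h3 := three_eq_zero hq
  have hQ' : Q (a • x + b • v + c • w) = a * a * Q x + (b * b + c * c) * Q v := by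
    rw [Q_add, Q_add]
    simp only [QuadraticMap.map_smul, QuadraticMap.polar_add_left, QuadraticMap.polar_smul_left,
      QuadraticMap.polar_smul_right, hxv, hxw, hvw, smul_eq_mul, ← hvw']
    ring
  rw [hQ'] at hQz
  rcases sq_cases hq a with ha | ha
  · right; right
    simp only [QuadraticMap.polar_add_right, QuadraticMap.polar_smul_right, hxv, hxw, ha,
      smul_eq_mul]
    ring
  · have h0 : b * b + c * c = 0 := by
      have : (b * b + c * c) * Q v = 0 := by
        rw [ha] at hQz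
        linear_combination hQz
      exact (mul_eq_zero.1 this).resolve_right hv
    have hb : b = 0 := by
      rcases sq_cases hq b with hb | hb
      · exact hb
      · exfalso
        rcases sq_cases hq c with hc | hc
        · rw [hb, hc] at h0
          simp at h0
        · rw [hb, hc] at h0
          apply h2
          linear_combination h0
    have hc : c = 0 := by
      rw [hb] at h0
      simpa using h0
    rw [hb, hc, zero_smul, zero_smul, add_zero, add_zero]
    rcases mul_self_eq_one_iff.1 ha with ha | ha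
    · left; rw [ha, one_smul]
    · right; left; rw [ha, neg_smul, one_smul]

/-- The key property in a two-dimensional block. -/
theorem prop_two (hq : Fintype.card F = 3) {W : Submodule F (ι → F)} {x v : ι → F}
    (hxv : 𝐁 x v = 0) (hx : Q x ≠ 0) (hv : Q v ≠ 0)
    (hspan : ∀ z ∈ W, ∃ a b : F, z = a • x + b • v) :
    ∀ z ∈ W, Q z = Q x → z = x ∨ z = - x ∨ 𝐁 x z = 0 := by
  intro z hz hQz
  obtain ⟨a, b, rfl⟩ := hspan z hz
  have hQ' : Q (a • x + b • v) = a * a * Q x + (b * b) * Q v := by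
    rw [Q_add]
    simp only [QuadraticMap.map_smul, QuadraticMap.polar_smul_left,
      QuadraticMap.polar_smul_right, hxv, smul_eq_mul]
    ring
  rw [hQ'] at hQz
  rcases sq_cases hq a with ha | ha
  · right; right
    simp only [QuadraticMap.polar_add_right, QuadraticMap.polar_smul_right, hxv, ha,
      smul_eq_mul]
    ring
  · have h0 : b * b = 0 := by
      have : (b * b) * Q v = 0 := by
        rw [ha] at hQz
        linear_combination hQz
      exact (mul_eq_zero.1 this).resolve_right hv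
    have hb : b = 0 := mul_self_eq_zero.1 h0
    rw [hb, zero_smul, add_zero]
    rcases mul_self_eq_one_iff.1 ha with ha | ha
    · left; rw [ha, one_smul]
    · right; left; rw [ha, neg_smul, one_smul]

/-- In a nondegenerate block of dimension two or three over the field with three elements there
is a vector with the key property. -/
theorem exists_prop (hq : Fintype.card F = 3) {W : Submodule F (ι → F)} (hW : W ⊓ Wᗮ = ⊥)
    (hk : finrank F W = 2 ∨ finrank F W = 3) :
    ∃ x ∈ W, ∃ y ∈ W, Q x ≠ 0 ∧ y ≠ 0 ∧ 𝐁 x y = 0 ∧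
      ∀ z ∈ W, Q z = Q x → z = x ∨ z = - x ∨ 𝐁 x z = 0 := by
  have h2 := two_ne_zero_of_card hq
  have hne : ∀ v : ι → F, Q v ≠ 0 → v ≠ 0 := by
    rintro v hv rfl
    exact hv (map_zero Q)
  rcases hk with hk | hk
  · obtain ⟨w, hwW, hortho, hns, hspan⟩ := exists_orth_family Q h2 hW hk
    refine ⟨w 0, hwW 0, w 1, hwW 1, hns 0, hne _ (hns 1), hortho 0 1 (by decide), ?_⟩
    apply prop_two Q hq (hortho 0 1 (by decide)) (hns 0) (hns 1)
    intro z hz
    obtain ⟨c, hc⟩ := hspan z hz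
    rw [Fin.sum_univ_two] at hc
    exact ⟨c 0, c 1, hc⟩
  · obtain ⟨w, hwW, hortho, hns, hspan⟩ := exists_orth_family Q h2 hW hk
    have hval : ∀ i, Q (w i) = 1 ∨ Q (w i) = -1 := fun i =>
      mul_self_eq_one_iff.1 (mul_self_eq_one_of_card_le_three hq.le (hns i))
    have hspan' : ∀ z ∈ W, ∃ c : Fin 3 → F, z = c 0 • w 0 + c 1 • w 1 + c 2 • w 2 := by
      intro z hz
      obtain ⟨c, hc⟩ := hspan z hz
      rw [Fin.sum_univ_three] at hc
      exact ⟨c, hc⟩
    by_cases h12 : Q (w 1) = Q (w 2)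
    · refine ⟨w 0, hwW 0, w 1, hwW 1, hns 0, hne _ (hns 1), hortho 0 1 (by decide), ?_⟩
      apply prop_three Q hq (hortho 0 1 (by decide)) (hortho 0 2 (by decide))
        (hortho 1 2 (by decide)) (hns 0) (hns 1) h12
      intro z hz
      obtain ⟨c, hc⟩ := hspan' z hz
      exact ⟨c 0, c 1, c 2, hc⟩
    by_cases h02 : Q (w 0) = Q (w 2)
    · refine ⟨w 1, hwW 1, w 0, hwW 0, hns 1, hne _ (hns 0), hortho 1 0 (by decide), ?_⟩
      apply prop_three Q hq (hortho 1 0 (by decide)) (hortho 1 2 (by decide))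
        (hortho 0 2 (by decide)) (hns 1) (hns 0) h02
      intro z hz
      obtain ⟨c, hc⟩ := hspan' z hz
      exact ⟨c 1, c 0, c 2, by rw [hc]; abel⟩
    · have h01 : Q (w 0) = Q (w 1) := by
        rcases hval 0 with h0 | h0 <;> rcases hval 1 with h1 | h1 <;>
          rcases hval 2 with h2' | h2' <;> simp_all
      refine ⟨w 2, hwW 2, w 0, hwW 0, hns 2, hne _ (hns 0), hortho 2 0 (by decide), ?_⟩
      apply prop_three Q hq (hortho 2 0 (by decide)) (hortho 2 1 (by decide))
        (hortho 0 1 (by decide)) (hns 2) (hns 0) h01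
      intro z hz
      obtain ⟨c, hc⟩ := hspan' z hz
      exact ⟨c 2, c 0, c 1, by rw [hc]; abel⟩

theorem finrank_iSup_le {t : ℕ} (D : Fin t → Submodule F (ι → F)) (s : Finset (Fin t)) :
    finrank F (s.sup D : Submodule F (ι → F)) ≤ ∑ i ∈ s, finrank F (D i) := by
  classical
  induction s using Finset.induction_on with
  | empty => simp
  | insert a s ha ih =>
    rw [Finset.sup_insert, Finset.sum_insert ha]
    have := Submodule.finrank_add_le_finrank_add_finrank (D a) (s.sup D)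
    omega

/-- Orthogonal decompositions into blocks of dimension two or three over the field with three
elements have non-maximal stabilisers. -/
theorem decomposition_not_max (hq : Fintype.card F = 3)
    (hQ : (QuadraticMap.polarBilin Q).Nondegenerate) (hn : 10 ≤ Fintype.card ι) {t k : ℕ}
    (hk : k = 2 ∨ k = 3) (D : Fin t → Submodule F (ι → F))
    (hD : Cfsg.Geo.IsOrthogonalMDecomposition ⇑Q k D) :
    ∃ K : Subgroup (Matrix.GeneralLinearGroup ι F),
      Cfsg.Geo.decompositionStabilizer D ⊓ Cfsg.Geo.omegaGL ⇑Q < K ∧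
        K < Cfsg.Geo.omegaGL ⇑Q := by
  have ht : 4 ≤ t := by
    have h1 := finrank_iSup_le D Finset.univ
    rw [Finset.sup_univ_eq_iSup, hD.decomp.decomp.iSup_eq_top, finrank_top,
      Module.finrank_fintype_fun_eq_card] at h1
    simp only [hD.decomp.decomp.finrank_eq, Finset.sum_const, Finset.card_univ, Fintype.card_fin,
      smul_eq_mul] at h1
    rcases hk with rfl | rfl <;> omega
  have hnd : ∀ i, D i ⊓ (D i)ᗮ = ⊥ := by
    intro i
    rw [eq_bot_iff]
    rintro w ⟨hw, hw'⟩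
    rw [Submodule.mem_bot]
    by_contra h0
    obtain ⟨⟨y, hy, hyw⟩, -⟩ := hD.decomp.nondegenerate i w hw h0
    exact hyw (mem_orth.1 hw' y hy)
  set i0 : Fin t := ⟨0, by omega⟩ with hi0
  obtain ⟨x0, hx0, y0, hy0, hQx0, hy00, hxy0, hP0⟩ := exists_prop Q hq (hnd i0)
    (by rw [hD.decomp.decomp.finrank_eq]; exact hk)
  choose φ hφ using fun i => hD.isometric i0 i
  have hpol : ∀ i (a b : D i0), 𝐁 (φ i a : ι → F) (φ i b : ι → F) = 𝐁 (a : ι → F) (b : ι → F) := by
    intro i a b
    unfold QuadraticMap.polar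
    rw [← hφ i a, ← hφ i b, ← Submodule.coe_add, ← Submodule.coe_add, ← map_add, hφ i (a + b)]
  have H : Frame Q D (Q x0) (fun i => (φ i ⟨x0, hx0⟩ : ι → F)) :=
    { orth := fun i j hij u hu v hv => hD.decomp.orthogonal i j hij u hu v hv
      ne := hQx0
      mem := fun i => (φ i ⟨x0, hx0⟩).2
      norm := fun i => hφ i ⟨x0, hx0⟩
      prop := by
        intro i z hz hQz
        obtain ⟨z', hz'⟩ := (φ i).surjective ⟨z, hz⟩
        have hzz : z = (φ i z' : ι → F) := by rw [hz']
        have h1 : Q (z' : ι → F) = Q x0 := by rw [← hφ i z', ← hzz, hQz]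
        rcases hP0 z' z'.2 h1 with h | h | h
        · left
          rw [hzz]
          congr 2
          exact Subtype.ext h
        · right; left
          rw [hzz, ← Submodule.coe_neg, ← map_neg]
          congr 2
          exact Subtype.ext h
        · right; right
          rw [hzz, hpol]
          exact h }
  have hdisj : ∀ i j, i ≠ j → ∀ v ∈ D i, v ∈ D j → v = 0 := by
    intro i j hij v hvi hvj
    exact Submodule.disjoint_def.1 (hD.decomp.decomp.indep.pairwiseDisjoint hij) v hvi hvj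
  refine H.not_max hQ (by omega) (three_eq_zero hq) hdisj (i0 := i0) (i1 := ⟨1, by omega⟩)
    (i2 := ⟨2, by omega⟩) (i3 := ⟨3, by omega⟩) ?_ ?_ ?_ ?_ ?_ ?_
    (y := (φ i0 ⟨y0, hy0⟩ : ι → F)) (φ i0 ⟨y0, hy0⟩).2 ?_ ?_
  · simp [hi0, Fin.ext_iff]
  · simp [hi0, Fin.ext_iff]
  · simp [hi0, Fin.ext_iff]
  · simp [Fin.ext_iff]
  · simp [Fin.ext_iff]
  · simp [Fin.ext_iff]
  · intro h
    apply hy00
    have h1 : φ i0 ⟨y0, hy0⟩ = 0 := Subtype.ext h
    have h2 : (⟨y0, hy0⟩ : D i0) = 0 := by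
      apply (φ i0).injective
      rw [h1, map_zero]
    exact congrArg Subtype.val h2
  · rw [hpol]
    exact hxy0

end Three

end Cfsg.Agent.Lib.Helper49Frame
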