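import Mathlib
import Cfsg.Prelude.Def_Classical
import Cfsg.Prelude.Def_ClassicalGeometry
import Cfsg.Prelude.Def_GeometricClasses
import Cfsg.Agent.Lib.Helper49Orth
import Cfsg.Agent.Lib.Helper49Hyp
import Cfsg.Agent.Lib.Helper49Fam
import Cfsg.Agent.Lib.Helper49Trans
import Cfsg.Agent.Lib.Helper49Eich
import Cfsg.Agent.Lib.Helper49Geo

/-!
# Lemmas relative to a nondegenerate subspace of an orthogonal space
-/

set_option autoImplicit false
set_option linter.unusedSectionVars false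

namespace Cfsg.Agent.Lib.Helper49Sub

open scoped Matrix
open Module
open Cfsg.Agent.Lib.Helper49Orth Cfsg.Agent.Lib.Helper49Hyp Cfsg.Agent.Lib.Helper18Hyp
  Cfsg.Agent.Lib.Helper49Eich Cfsg.Agent.Lib.Helper49Geo
  Cfsg.Agent.Lib.Helper49Fam Cfsg.Agent.Lib.Helper49Trans Cfsg.Agent.Lib.Helper49CharTwoA

variable {F : Type*} [Field F]
variable {ι : Type} [Fintype ι] [DecidableEq ι] (Q : QuadraticForm F (ι → F))

local notation "𝐁" => QuadraticMap.polar (DFunLike.coe Q)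
local notation:max W "ᗮ" => LinearMap.BilinForm.orthogonal (QuadraticMap.polarBilin Q) W

/-- Orthogonal projection onto a nondegenerate subspace. -/
theorem exists_proj (hQ : (QuadraticMap.polarBilin Q).Nondegenerate) {W : Submodule F (ι → F)}
    (hW : W ⊓ Wᗮ = ⊥) (z : ι → F) : ∃ p ∈ W, z - p ∈ Wᗮ := by
  have htop : W ⊔ Wᗮ = ⊤ := by
    apply Submodule.eq_top_of_finrank_eq
    have h1 := Submodule.finrank_sup_add_finrank_inf_eq W Wᗮ
    rw [hW, finrank_bot] at h1
    have h2 := finrank_orth_add Q hQ W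
    rw [Module.finrank_fintype_fun_eq_card]
    omega
  have hz : z ∈ W ⊔ Wᗮ := htop ▸ Submodule.mem_top
  obtain ⟨p, hp, r, hr, hpr⟩ := Submodule.mem_sup.1 hz
  refine ⟨p, hp, ?_⟩
  rw [← hpr, add_sub_cancel_left]
  exact hr

theorem exists_polar_ne_zero_sub {W : Submodule F (ι → F)} (hW : W ⊓ Wᗮ = ⊥) {a : ι → F}
    (ha : a ∈ W) (ha0 : a ≠ 0) : ∃ y ∈ W, 𝐁 a y ≠ 0 := by
  by_contra hcon
  apply ha0
  rw [← Submodule.mem_bot F, ← hW]
  refine ⟨ha, ?_⟩
  rw [SetLike.mem_coe, mem_orth]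
  intro w hw
  by_contra hne
  exact hcon ⟨w, hw, by rw [QuadraticMap.polar_comm]; exact hne⟩

theorem exists_hyp_partner_sub {W : Submodule F (ι → F)} (hW : W ⊓ Wᗮ = ⊥) {u : ι → F}
    (huW : u ∈ W) (hu0 : u ≠ 0) (hu : Q u = 0) : ∃ f ∈ W, Q f = 0 ∧ 𝐁 u f = 1 := by
  obtain ⟨y, hyW, hy⟩ := exists_polar_ne_zero_sub Q hW huW hu0
  refine ⟨(𝐁 u y)⁻¹ • (y + (- Q y / 𝐁 u y) • u),
    W.smul_mem _ (W.add_mem hyW (W.smul_mem _ huW)), ?_, ?_⟩
  · rw [QuadraticMap.map_smul, Q_add_smul', hu, QuadraticMap.polar_comm ⇑Q y u]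
    field_simp
    ring
  · rw [QuadraticMap.polar_smul_right, QuadraticMap.polar_add_right, QuadraticMap.polar_smul_right,
      polar_self_of_singular Q hu]
    simp [hy]

/-- The orthogonal complement of a nonsingular vector inside a nondegenerate subspace. -/
theorem perp_nondeg (h2 : (2 : F) ≠ 0) {W : Submodule F (ι → F)} (hW : W ⊓ Wᗮ = ⊥) {a : ι → F}
    (ha : a ∈ W) (hQa : Q a ≠ 0) :
    (W ⊓ (Submodule.span F {a})ᗮ) ⊓ (W ⊓ (Submodule.span F {a})ᗮ)ᗮ = ⊥ ∧
      finrank F W ≤ finrank F (W ⊓ (Submodule.span F {a})ᗮ : Submodule F (ι → F)) + 1 := by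
  have hBa : 𝐁 a a ≠ 0 := by
    rw [QuadraticMap.polar_self, two_smul, ← two_mul]
    exact mul_ne_zero h2 hQa
  have hdec : ∀ w ∈ W, w - (𝐁 a w / 𝐁 a a) • a ∈ W ⊓ (Submodule.span F {a})ᗮ := by
    intro w hw
    refine ⟨W.sub_mem hw (W.smul_mem _ ha), ?_⟩
    rw [SetLike.mem_coe, mem_orth_span_singleton, QuadraticMap.polar_sub_right,
      QuadraticMap.polar_smul_right, smul_eq_mul, div_mul_cancel₀ _ hBa, sub_self]
  constructor
  · rw [eq_bot_iff]
    rintro p ⟨⟨hpW, hpa⟩, hpP⟩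
    rw [SetLike.mem_coe, mem_orth_span_singleton] at hpa
    rw [SetLike.mem_coe, mem_orth] at hpP
    rw [← hW]
    refine ⟨hpW, ?_⟩
    rw [SetLike.mem_coe, mem_orth]
    intro w hw
    have h1 := hpP _ (hdec w hw)
    rw [QuadraticMap.polar_sub_left, QuadraticMap.polar_smul_left, hpa, smul_zero, sub_zero] at h1
    exact h1
  · have hle : W ≤ (W ⊓ (Submodule.span F {a})ᗮ) ⊔ Submodule.span F {a} := by
      intro w hw
      have : w = (w - (𝐁 a w / 𝐁 a a) • a) + (𝐁 a w / 𝐁 a a) • a := by abel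
      rw [this]
      exact Submodule.add_mem_sup (hdec w hw)
        (Submodule.smul_mem _ _ (Submodule.mem_span_singleton_self a))
    have h1 := Submodule.finrank_mono hle
    have h3 := Submodule.finrank_add_le_finrank_add_finrank (W ⊓ (Submodule.span F {a})ᗮ)
      (Submodule.span F {a})
    have h4 := finrank_span_le_card (R := F) ({a} : Set (ι → F))
    simp only [Set.toFinset_singleton, Finset.card_singleton] at h4
    omega

/-- Prescribed norms in the orthogonal complement of a nonsingular vector. -/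
theorem exists_norm_perp [Fintype F] (h2 : (2 : F) ≠ 0) {W : Submodule F (ι → F)}
    (hW : W ⊓ Wᗮ = ⊥) (hk : 3 ≤ finrank F W) {a : ι → F} (ha : a ∈ W) (hQa : Q a ≠ 0) (c : F) :
    ∃ x ∈ W, 𝐁 a x = 0 ∧ Q x = c := by
  obtain ⟨h1, h3⟩ := perp_nondeg Q h2 hW ha hQa
  obtain ⟨x, ⟨hxW, hxa⟩, hx⟩ := exists_Q_eq_sub Q h2 h1 (by omega) c
  exact ⟨x, hxW, (mem_orth_span_singleton Q).1 hxa, hx⟩

/-- Prescribed norms in the orthogonal complement of two orthogonal nonsingular vectors. -/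
theorem exists_norm_perp_two [Fintype F] (h2 : (2 : F) ≠ 0) {W : Submodule F (ι → F)}
    (hW : W ⊓ Wᗮ = ⊥) (hk : 4 ≤ finrank F W) {a b : ι → F} (ha : a ∈ W) (hQa : Q a ≠ 0)
    (hb : b ∈ W) (hQb : Q b ≠ 0) (hab : 𝐁 a b = 0) (c : F) :
    ∃ x ∈ W, 𝐁 a x = 0 ∧ 𝐁 b x = 0 ∧ Q x = c := by
  obtain ⟨h1, h3⟩ := perp_nondeg Q h2 hW ha hQa
  obtain ⟨x, ⟨hxW, hxa⟩, hxb, hx⟩ := exists_norm_perp Q h2 h1 (by omega)
    (a := b) ⟨hb, (mem_orth_span_singleton Q).2 hab⟩ hQb c
  exact ⟨x, hxW, (mem_orth_span_singleton Q).1 hxa, hxb, hx⟩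

theorem finrank_inf_orth_pair (hQ : (QuadraticMap.polarBilin Q).Nondegenerate)
    (W : Submodule F (ι → F)) (u v : ι → F) :
    finrank F W ≤ finrank F (W ⊓ (Submodule.span F {u, v})ᗮ : Submodule F (ι → F)) + 2 := by
  have h1 := Submodule.finrank_sup_add_finrank_inf_eq W (Submodule.span F {u, v})ᗮ
  have h2 := finrank_orth_add Q hQ (Submodule.span F {u, v})
  have h3 := finrank_span_pair_le u v
  have h4 := Submodule.finrank_le (W ⊔ (Submodule.span F {u, v})ᗮ)
  rw [Module.finrank_fintype_fun_eq_card] at h4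
  omega

/-- Totally singular subspaces of a nondegenerate subspace have at most half the dimension. -/
theorem two_mul_finrank_le_sub (hQ : (QuadraticMap.polarBilin Q).Nondegenerate)
    {W X : Submodule F (ι → F)} (hW : W ⊓ Wᗮ = ⊥) (hXW : X ≤ W) (hX : TS Q X) :
    2 * finrank F X ≤ finrank F W := by
  have hle : X ⊔ Wᗮ ≤ Xᗮ := sup_le hX.le_orth (LinearMap.BilinForm.orthogonal_le hXW)
  have hdisj : X ⊓ Wᗮ = ⊥ := by
    rw [eq_bot_iff, ← hW]
    exact inf_le_inf_right _ hXW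
  have h1 := Submodule.finrank_sup_add_finrank_inf_eq X Wᗮ
  rw [hdisj, finrank_bot] at h1
  have h2 := Submodule.finrank_mono hle
  have h3 := finrank_orth_add Q hQ X
  have h4 := finrank_orth_add Q hQ W
  omega

/-- A nonzero vector of a subspace of dimension at least three orthogonal to two given vectors. -/
theorem exists_ne_zero_orth_pair (hQ : (QuadraticMap.polarBilin Q).Nondegenerate)
    {W : Submodule F (ι → F)} (hk : 3 ≤ finrank F W) (u v : ι → F) :
    ∃ y ∈ W, y ≠ 0 ∧ 𝐁 u y = 0 ∧ 𝐁 v y = 0 := by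
  have h1 := finrank_inf_orth_pair Q hQ W u v
  have hne : (W ⊓ (Submodule.span F {u, v})ᗮ : Submodule F (ι → F)) ≠ ⊥ := by
    intro h
    rw [h, finrank_bot] at h1
    omega
  obtain ⟨y, ⟨hyW, hy⟩, hy0⟩ := Submodule.exists_mem_ne_zero_of_ne_bot hne
  obtain ⟨h3, h4⟩ := (mem_orth_span_pair Q).1 hy
  exact ⟨y, hyW, hy0, h3, h4⟩

/-- In a nondegenerate subspace of dimension at least five there is a nonsingular vector
orthogonal to two given vectors. -/
theorem exists_nonsingular_orth_pair (hQ : (QuadraticMap.polarBilin Q).Nondegenerate)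
    {W : Submodule F (ι → F)} (hW : W ⊓ Wᗮ = ⊥) (hk : 5 ≤ finrank F W) (u v : ι → F) :
    ∃ y ∈ W, Q y ≠ 0 ∧ 𝐁 u y = 0 ∧ 𝐁 v y = 0 := by
  by_contra hcon
  have hTS : TS Q (W ⊓ (Submodule.span F {u, v})ᗮ) := by
    rintro y ⟨hyW, hy⟩
    obtain ⟨h3, h4⟩ := (mem_orth_span_pair Q).1 hy
    by_contra hne
    exact hcon ⟨y, hyW, hne, h3, h4⟩
  have h1 := finrank_inf_orth_pair Q hQ W u v
  have h2 := two_mul_finrank_le_sub Q hQ hW inf_le_left hTS
  omega

/-- In a nondegenerate subspace of dimension at least three, a nonsingular vector orthogonal to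
a given vector. -/
theorem exists_nonsingular_orth_one (hQ : (QuadraticMap.polarBilin Q).Nondegenerate)
    {W : Submodule F (ι → F)} (hW : W ⊓ Wᗮ = ⊥) (hk : 3 ≤ finrank F W) (u : ι → F) :
    ∃ y ∈ W, Q y ≠ 0 ∧ 𝐁 u y = 0 := by
  by_contra hcon
  have hTS : TS Q (W ⊓ (Submodule.span F {u})ᗮ) := by
    rintro y ⟨hyW, hy⟩
    by_contra hne
    exact hcon ⟨y, hyW, hne, (mem_orth_span_singleton Q).1 hy⟩
  have h1 := Submodule.finrank_sup_add_finrank_inf_eq W (Submodule.span F {u})ᗮ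
  have h2 := finrank_orth_add Q hQ (Submodule.span F {u})
  have h3 := finrank_span_le_card (R := F) ({u} : Set (ι → F))
  simp only [Set.toFinset_singleton, Finset.card_singleton] at h3
  have h4 := Submodule.finrank_le (W ⊔ (Submodule.span F {u})ᗮ)
  rw [Module.finrank_fintype_fun_eq_card] at h4
  have h5 := two_mul_finrank_le_sub Q hQ hW inf_le_left hTS
  omega

/-- Vectors of the same norm at prescribed distance. -/
theorem exists_same_norm_dist [Fintype F] (h2 : (2 : F) ≠ 0) {W : Submodule F (ι → F)}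
    (hW : W ⊓ Wᗮ = ⊥) (hk : 3 ≤ finrank F W) {a : ι → F} (ha : a ∈ W) (hQa : Q a ≠ 0) (α : F) :
    ∃ a' ∈ W, Q a' = Q a ∧ Q (a - a') = α := by
  obtain ⟨τ, hτ⟩ : ∃ τ : F, τ = 1 - α / (2 * Q a) := ⟨_, rfl⟩
  obtain ⟨y, hyW, hay, hQy⟩ := exists_norm_perp Q h2 hW hk ha hQa ((1 - τ * τ) * Q a)
  refine ⟨τ • a + y, W.add_mem (W.smul_mem _ ha) hyW, ?_, ?_⟩
  · rw [Q_add, QuadraticMap.map_smul, QuadraticMap.polar_smul_left, hay, hQy]
    simp only [smul_eq_mul]
    ring
  · have : a - (τ • a + y) = (1 - τ) • a - y := by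
      module
    rw [this, Q_sub, QuadraticMap.map_smul, QuadraticMap.polar_smul_left, hay, hQy]
    simp only [smul_eq_mul]
    rw [hτ]
    field_simp
    ring

theorem exists_delta [Fintype F] [DecidableEq F] (hq : 3 < Fintype.card F) :
    ∃ δ : F, δ ≠ 0 ∧ δ * δ ≠ 1 := by
  by_contra hcon
  push Not at hcon
  have hsub : (Finset.univ : Finset F) ⊆ {0, 1, -1} := by
    intro x _
    by_cases hx : x = 0
    · simp [hx]
    · rcases mul_self_eq_one_iff.1 (hcon x hx) with h | h <;> simp [h]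
  have h1 := Finset.card_le_card hsub
  have h3 : ({0, 1, -1} : Finset F).card ≤ 3 := Finset.card_le_three
  rw [Finset.card_univ] at h1
  omega

/-- A subspace of a nondegenerate space which contains a nonsingular vector and is closed under
passing to non-orthogonal vectors of the same norm class is everything. -/
theorem span_lemma [Fintype F] (h2 : (2 : F) ≠ 0) {W X : Submodule F (ι → F)}
    (hW : W ⊓ Wᗮ = ⊥) (hk : 3 ≤ finrank F W)
    (hex : 4 ≤ finrank F W ∨ ∃ δ : F, δ ≠ 0 ∧ δ * δ ≠ 1)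
    {x₀ : ι → F} (hx₀W : x₀ ∈ W) (hx₀ : x₀ ∈ X) (hQx₀ : Q x₀ ≠ 0)
    (hcl : ∀ x ∈ X, ∀ y ∈ W, x ∈ W → Q x ≠ 0 → IsSquare (Q x * Q x₀) → Q y ≠ 0 →
      IsSquare (Q y * Q x₀) → 𝐁 x y ≠ 0 → y ∈ X) : W ≤ X := by
  obtain ⟨hP, hPk⟩ := perp_nondeg Q h2 hW hx₀W hQx₀
  set P : Submodule F (ι → F) := W ⊓ (Submodule.span F {x₀})ᗮ with hPdef
  have hPW : ∀ p ∈ P, p ∈ W := fun p hp => hp.1
  have hPx : ∀ p ∈ P, 𝐁 x₀ p = 0 := fun p hp => (mem_orth_span_singleton Q).1 hp.2
  have hBx : 𝐁 x₀ x₀ ≠ 0 := by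
    rw [QuadraticMap.polar_self, two_smul, ← two_mul]
    exact mul_ne_zero h2 hQx₀
  -- step 1
  have step1 : ∀ p ∈ P, ∀ δ : F, δ ≠ 0 → Q p = Q x₀ * (δ * δ - 1) → p ∈ X := by
    intro p hp δ hδ hQp
    have hQy : Q (x₀ + p) = δ * δ * Q x₀ := by
      rw [Q_add, hPx p hp, hQp]; ring
    have : x₀ + p ∈ X := by
      apply hcl x₀ hx₀ (x₀ + p) (W.add_mem hx₀W (hPW p hp)) hx₀W hQx₀ ⟨Q x₀, rfl⟩
      · rw [hQy]; exact mul_ne_zero (mul_ne_zero hδ hδ) hQx₀
      · rw [hQy]; exact ⟨δ * Q x₀, by ring⟩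
      · rw [QuadraticMap.polar_add_right, hPx p hp, add_zero]; exact hBx
    have h3 := X.sub_mem this hx₀
    rwa [add_sub_cancel_left] at h3
  have hPX : P ≤ X := by
    rcases hex with hk4 | ⟨δ, hδ, hδ1⟩
    · -- singular vectors span
      have hsing : ∀ p ∈ P, Q p = 0 → p ∈ X := by
        intro p hp hQp
        exact step1 p hp 1 one_ne_zero (by rw [hQp]; ring)
      obtain ⟨e, heP, he0, hQe⟩ := exists_singular_sub Q (P := P) (by omega)
      obtain ⟨f, hfP, hQf, hef⟩ := exists_hyp_partner_sub Q hP heP he0 hQe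
      intro y hy
      obtain ⟨y', hy'⟩ : ∃ y', y' = y - 𝐁 f y • e - 𝐁 e y • f := ⟨_, rfl⟩
      have hy'P : y' ∈ P := by
        rw [hy']
        exact P.sub_mem (P.sub_mem hy (P.smul_mem _ heP)) (P.smul_mem _ hfP)
      have hey' : 𝐁 e y' = 0 := by
        rw [hy', QuadraticMap.polar_sub_right, QuadraticMap.polar_sub_right,
          QuadraticMap.polar_smul_right, QuadraticMap.polar_smul_right,
          polar_self_of_singular Q hQe, hef]
        simp
      have hfy' : 𝐁 f y' = 0 := by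
        rw [hy', QuadraticMap.polar_sub_right, QuadraticMap.polar_sub_right,
          QuadraticMap.polar_smul_right, QuadraticMap.polar_smul_right,
          polar_self_of_singular Q hQf, QuadraticMap.polar_comm ⇑Q f e, hef]
        simp
      have h4 : y' + ((1 : F) • e + (- Q y') • f) ∈ X := by
        apply hsing _ (P.add_mem hy'P (P.add_mem (P.smul_mem _ heP) (P.smul_mem _ hfP)))
        rw [Q_add, Q_hyp Q hQe hQf hef, QuadraticMap.polar_add_right,
          QuadraticMap.polar_smul_right, QuadraticMap.polar_smul_right,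
          QuadraticMap.polar_comm ⇑Q y' e, QuadraticMap.polar_comm ⇑Q y' f, hey', hfy']
        simp
      have heX := hsing e heP hQe
      have hfX := hsing f hfP hQf
      have h5 : y' ∈ X := by
        have := X.sub_mem h4 (X.add_mem (X.smul_mem (1 : F) heX) (X.smul_mem (- Q y') hfX))
        rwa [add_sub_cancel_right] at this
      have h6 : y = y' + 𝐁 f y • e + 𝐁 e y • f := by rw [hy']; abel
      rw [h6]
      exact X.add_mem (X.add_mem h5 (X.smul_mem _ heX)) (X.smul_mem _ hfX)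
    · -- the sphere spans
      obtain ⟨γ, hγ⟩ : ∃ γ, γ = Q x₀ * (δ * δ - 1) := ⟨_, rfl⟩
      have hγ0 : γ ≠ 0 := by
        rw [hγ]
        exact mul_ne_zero hQx₀ (sub_ne_zero.2 hδ1)
      have hsph : ∀ p ∈ P, Q p = γ → p ∈ X := fun p hp hQp => step1 p hp δ hδ (by rw [hQp, hγ])
      obtain ⟨p₀, hp₀P, hQp₀⟩ := exists_Q_eq_sub Q h2 hP (by omega) γ
      have hp₀X := hsph p₀ hp₀P hQp₀
      have hBp : 𝐁 p₀ p₀ ≠ 0 := by
        rw [QuadraticMap.polar_self, two_smul, ← two_mul, hQp₀]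
        exact mul_ne_zero h2 hγ0
      have horth : ∀ y₁ ∈ P, 𝐁 p₀ y₁ = 0 → y₁ ∈ X := by
        intro y₁ hy₁ hpy
        obtain ⟨l, hl0, hl⟩ : ∃ l : F, l ≠ 0 ∧ γ + l * l * Q y₁ ≠ 0 := by
          by_cases h1 : γ + 1 * 1 * Q y₁ = 0
          · refine ⟨δ, hδ, fun h3 => ?_⟩
            have h4 : (δ * δ - 1) * Q y₁ = 0 := by linear_combination h3 - h1
            rcases mul_eq_zero.1 h4 with h4 | h4
            · exact hδ1 (sub_eq_zero.1 h4)
            · rw [h4] at h1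
              apply hγ0
              linear_combination h1
          · exact ⟨1, one_ne_zero, h1⟩
        obtain ⟨v, hv⟩ : ∃ v, v = p₀ + l • y₁ := ⟨_, rfl⟩
        have hvP : v ∈ P := by rw [hv]; exact P.add_mem hp₀P (P.smul_mem _ hy₁)
        have hQv : Q v ≠ 0 := by
          rw [hv, Q_add, QuadraticMap.map_smul, QuadraticMap.polar_smul_right, hpy, hQp₀]
          simpa using hl
        have hBv : 𝐁 v p₀ ≠ 0 := by
          rw [hv, QuadraticMap.polar_add_left, QuadraticMap.polar_smul_left,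
            QuadraticMap.polar_comm ⇑Q y₁ p₀, hpy]
          simpa using hBp
        have h3 : p₀ - ((Q v)⁻¹ * 𝐁 v p₀) • v ∈ X := by
          apply hsph _ (P.sub_mem hp₀P (P.smul_mem _ hvP))
          rw [Q_sub, QuadraticMap.map_smul, QuadraticMap.polar_smul_right, hQp₀,
            QuadraticMap.polar_comm ⇑Q p₀ v]
          simp only [smul_eq_mul]
          field_simp
          ring
        have h4 : ((Q v)⁻¹ * 𝐁 v p₀) • v ∈ X := by
          have := X.sub_mem hp₀X h3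
          rwa [sub_sub_cancel] at this
        have h5 : v ∈ X := by
          have := X.smul_mem ((Q v)⁻¹ * 𝐁 v p₀)⁻¹ h4
          rwa [smul_smul, inv_mul_cancel₀ (mul_ne_zero (inv_ne_zero hQv) hBv), one_smul] at this
        have h6 : l • y₁ ∈ X := by
          have := X.sub_mem h5 hp₀X
          rwa [hv, add_sub_cancel_left] at this
        have := X.smul_mem l⁻¹ h6
        rwa [smul_smul, inv_mul_cancel₀ hl0, one_smul] at this
      intro y hy
      have h3 : y - (𝐁 p₀ y / 𝐁 p₀ p₀) • p₀ ∈ X := by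
        apply horth _ (P.sub_mem hy (P.smul_mem _ hp₀P))
        rw [QuadraticMap.polar_sub_right, QuadraticMap.polar_smul_right, smul_eq_mul,
          div_mul_cancel₀ _ hBp, sub_self]
      have := X.add_mem h3 (X.smul_mem (𝐁 p₀ y / 𝐁 p₀ p₀) hp₀X)
      rwa [sub_add_cancel] at this
  intro w hw
  have h3 : w - (𝐁 x₀ w / 𝐁 x₀ x₀) • x₀ ∈ P := by
    refine ⟨W.sub_mem hw (W.smul_mem _ hx₀W), ?_⟩
    rw [SetLike.mem_coe, mem_orth_span_singleton, QuadraticMap.polar_sub_right,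
      QuadraticMap.polar_smul_right, smul_eq_mul, div_mul_cancel₀ _ hBx, sub_self]
  have := X.add_mem (hPX h3) (X.smul_mem (𝐁 x₀ w / 𝐁 x₀ x₀) hx₀)
  rwa [sub_add_cancel] at this

end Cfsg.Agent.Lib.Helper49Sub
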