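import Mathlib
import Cfsg.Prelude.Def_Classical
import Cfsg.Prelude.Def_ClassicalGeometry
import Cfsg.Prelude.Def_GeometricClasses
import Cfsg.Agent.Lib.Helper49Sub
import Cfsg.Agent.Lib.Helper49Frame
import Cfsg.Agent.Lib.Helper49Witt2
import Cfsg.Agent.Lib.Helper49Par

/-!
# Orthogonal decompositions: elements of the stabiliser
-/

set_option autoImplicit false
set_option linter.unusedSectionVars false

namespace Cfsg.Agent.Lib.Helper49DecA

open scoped Matrix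
open Module
open Cfsg.Agent.Lib.Helper49Orth Cfsg.Agent.Lib.Helper49Hyp Cfsg.Agent.Lib.Helper18Hyp
  Cfsg.Agent.Lib.Helper49Eich Cfsg.Agent.Lib.Helper49Geo Cfsg.Agent.Lib.Helper49EichGen
  Cfsg.Agent.Lib.Helper49Fam Cfsg.Agent.Lib.Helper49Trans Cfsg.Agent.Lib.Helper49CharTwoA
  Cfsg.Agent.Lib.Helper49Fam3 Cfsg.Agent.Lib.Helper49Par Cfsg.Agent.Lib.Helper49Witt2
  Cfsg.Agent.Lib.Helper49Frame Cfsg.Agent.Lib.Helper49Sub

variable {F : Type*} [Field F]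
variable {ι : Type} [Fintype ι] [DecidableEq ι] (Q : QuadraticForm F (ι → F))

local notation "𝐁" => QuadraticMap.polar (DFunLike.coe Q)
local notation:max W "ᗮ" => LinearMap.BilinForm.orthogonal (QuadraticMap.polarBilin Q) W
local notation:72 g:72 " ⋆ " x:73 => Matrix.mulVec (Units.val (Subtype.val g)) x

/-! ### Reflections -/

theorem reflO'_apply (v x : ι → F) : reflO' Q v ⋆ x = x - ((Q v)⁻¹ * 𝐁 v x) • v := by
  by_cases hv : Q v = 0
  · have : reflO' Q v = 1 := by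
      unfold reflO'
      rw [dif_neg (not_not.2 hv)]
    rw [this, one_mulVec', hv]
    simp
  · rw [reflO'_eq Q hv, coe_reflO, refl_mulVec]

theorem reflO'_of_orth {v x : ι → F} (h : 𝐁 v x = 0) : reflO' Q v ⋆ x = x := by
  rw [reflO'_apply, h]
  simp

theorem reflO'_conj (g : ↥(Cfsg.isometryGroup F ⇑Q)) (v : ι → F) :
    g * reflO' Q v * g⁻¹ = reflO' Q (g ⋆ v) := by
  apply ext_mulVec
  intro x
  rw [mul_mulVec, mul_mulVec, reflO'_apply, reflO'_apply, Matrix.mulVec_sub, Matrix.mulVec_smul,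
    mulVec_inv_mulVec, iso_apply (Q := ⇑Q), ← polar_iso Q g v (g⁻¹ ⋆ x), mulVec_inv_mulVec]

theorem reflO'_mul_self (v : ι → F) : reflO' Q v * reflO' Q v = 1 := by
  by_cases hv : Q v = 0
  · have : reflO' Q v = 1 := by
      unfold reflO'
      rw [dif_neg (not_not.2 hv)]
    rw [this, one_mul]
  · rw [reflO'_eq Q hv, reflO_mul_self]

theorem reflO'_inv (v : ι → F) : (reflO' Q v)⁻¹ = reflO' Q v :=
  inv_eq_of_mul_eq_one_left (reflO'_mul_self Q v)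

theorem reflO'_smul {c : F} (hc : c ≠ 0) (v : ι → F) : reflO' Q (c • v) = reflO' Q v := by
  apply ext_mulVec
  intro x
  rw [reflO'_apply, reflO'_apply, QuadraticMap.map_smul, QuadraticMap.polar_smul_left, smul_smul]
  congr 2
  simp only [smul_eq_mul]
  by_cases hv : Q v = 0
  · simp [hv]
  · field_simp

theorem reflO'_neg (v : ι → F) : reflO' Q (-v) = reflO' Q v := by
  rw [← neg_one_smul F v, reflO'_smul Q (neg_ne_zero.2 one_ne_zero)]

theorem reflO'_sub_apply {u v : ι → F} (h : Q u = Q v) (hd : Q (u - v) ≠ 0) :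
    reflO' Q (u - v) ⋆ u = v := by
  rw [reflO'_eq Q hd, coe_reflO, refl_sub_apply Q h hd]

theorem reflO'_sub_apply' {u v : ι → F} (h : Q u = Q v) (hd : Q (u - v) ≠ 0) :
    reflO' Q (u - v) ⋆ v = u := by
  rw [← neg_sub, reflO'_neg]
  exact reflO'_sub_apply Q h.symm (by rwa [← neg_sub, QuadraticMap.map_neg])

theorem reflO'_add_apply {u v : ι → F} (h : Q u = Q v) (hd : Q (u + v) ≠ 0) :
    reflO' Q (u + v) ⋆ u = -v := by
  rw [reflO'_eq Q hd, coe_reflO, refl_add_apply Q h hd]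

theorem reflO'_self {v : ι → F} (hv : Q v ≠ 0) : reflO' Q v ⋆ v = -v := by
  rw [reflO'_apply, QuadraticMap.polar_self, two_smul, mul_add, inv_mul_cancel₀ hv, add_smul,
    one_smul]
  abel

/-! ### Pointwise fixers of orthogonal complements -/

theorem fixer_maps (hQ : (QuadraticMap.polarBilin Q).Nondegenerate) {W : Submodule F (ι → F)}
    {g : ↥(Cfsg.isometryGroup F ⇑Q)} (hg : g ∈ fixer Q Wᗮ) {y : ι → F} (hy : y ∈ W) :
    g ⋆ y ∈ W := by
  rw [← LinearMap.BilinForm.orthogonal_orthogonal hQ (polarBilin_isRefl Q) W, mem_orth]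
  intro z hz
  have h1 : 𝐁 (g ⋆ z) (g ⋆ y) = 0 := by
    rw [polar_iso, QuadraticMap.polar_comm]
    exact mem_orth.1 hz y hy
  rwa [(mem_fixer Q).1 hg z hz] at h1

theorem reflO'_mem_fixer' {W : Submodule F (ι → F)} {x : ι → F} (hx : x ∈ W) :
    reflO' Q x ∈ fixer Q Wᗮ := by
  rw [mem_fixer]
  intro y hy
  exact reflO'_of_orth Q (mem_orth.1 hy x hx)

theorem E_mem_fixer {W : Submodule F (ι → F)} {e w : ι → F} (he : e ∈ W) (hw : w ∈ W)
    (hQe : Q e = 0) (hew : 𝐁 e w = 0) : E Q e w ∈ fixer Q Wᗮ := by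
  rw [mem_fixer]
  intro y hy
  rw [E_apply Q hQe hew, QuadraticMap.polar_comm ⇑Q y w, QuadraticMap.polar_comm ⇑Q y e,
    mem_orth.1 hy e he, mem_orth.1 hy w hw]
  simp

/-! ### Decompositions -/

/-- An orthogonal decomposition into isometric nondegenerate blocks. -/
structure Dec {t : ℕ} (k : ℕ) (D : Fin t → Submodule F (ι → F)) : Prop where
  finrank_eq : ∀ i, finrank F (D i) = k
  orth : ∀ i j, i ≠ j → ∀ u ∈ D i, ∀ v ∈ D j, 𝐁 u v = 0
  nondeg : ∀ i, D i ⊓ (D i)ᗮ = ⊥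
  top : ⨆ i, D i = ⊤
  iso : ∀ i j, ∃ φ : D i ≃ₗ[F] D j, ∀ w : D i, Q (φ w : ι → F) = Q (w : ι → F)

/-- The stabiliser of the decomposition in the isometry group. -/
def dstab {t : ℕ} (D : Fin t → Submodule F (ι → F)) : Subgroup ↥(Cfsg.isometryGroup F ⇑Q) :=
  (Cfsg.Geo.decompositionStabilizer D).comap (Subgroup.subtype _)

theorem mem_dstab {t : ℕ} {D : Fin t → Submodule F (ι → F)} {g : ↥(Cfsg.isometryGroup F ⇑Q)} :
    g ∈ dstab Q D ↔ ∃ σ : Equiv.Perm (Fin t), ∀ i, img Q g (D i) = D (σ i) := Iff.rfl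

theorem dstab_apply {t : ℕ} {D : Fin t → Submodule F (ι → F)} {g : ↥(Cfsg.isometryGroup F ⇑Q)}
    (hg : g ∈ dstab Q D) : ∃ σ : Equiv.Perm (Fin t), ∀ i, ∀ x ∈ D i, g ⋆ x ∈ D (σ i) := by
  obtain ⟨σ, hσ⟩ := (mem_dstab Q).1 hg
  refine ⟨σ, fun i x hx => ?_⟩
  rw [← hσ i, mem_img]
  exact ⟨x, hx, rfl⟩

variable {Q}
variable {t k : ℕ} {D : Fin t → Submodule F (ι → F)}

theorem Dec.le_orth (H : Dec Q k D) {i j : Fin t} (hij : i ≠ j) : D j ≤ (D i)ᗮ :=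
  fun v hv => mem_orth.2 (fun u hu => H.orth i j hij u hu v hv)

theorem Dec.disj (H : Dec Q k D) {i j : Fin t} (hij : i ≠ j) {x : ι → F} (hi : x ∈ D i)
    (hj : x ∈ D j) : x = 0 := by
  rw [← Submodule.mem_bot F, ← H.nondeg i]
  exact ⟨hi, H.le_orth hij hj⟩

theorem Dec.mem_dstab_of_forall (H : Dec Q k D) (hk : 0 < k) {g : ↥(Cfsg.isometryGroup F ⇑Q)}
    (h : ∀ i, ∃ j, ∀ x ∈ D i, g ⋆ x ∈ D j) : g ∈ dstab Q D := by
  choose σ hσ using h
  have himg : ∀ i, img Q g (D i) = D (σ i) := by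
    intro i
    apply Submodule.eq_of_le_of_finrank_eq
    · intro y hy
      obtain ⟨x, hx, rfl⟩ := (mem_img Q).1 hy
      exact hσ i x hx
    · rw [finrank_img, H.finrank_eq, H.finrank_eq]
  have hinj : Function.Injective σ := by
    intro i j hij
    by_contra hne
    have hne' : D i ≠ ⊥ := by
      intro h0
      have := H.finrank_eq i
      rw [h0, finrank_bot] at this
      omega
    obtain ⟨x, hx, hx0⟩ := Submodule.exists_mem_ne_zero_of_ne_bot hne'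
    have h1 : g ⋆ x ∈ img Q g (D j) := by
      rw [himg j, ← hij]
      exact hσ i x hx
    obtain ⟨y, hy, hyx⟩ := (mem_img Q).1 h1
    have h2 : y = x := by
      rw [← inv_mulVec_mulVec Q g y, hyx, inv_mulVec_mulVec]
    exact hx0 (H.disj hne hx (h2 ▸ hy))
  exact (mem_dstab Q).2 ⟨Equiv.ofBijective σ (Finite.injective_iff_bijective.1 hinj), himg⟩

theorem Dec.fixer_le_dstab (H : Dec Q k D) (hQ : (QuadraticMap.polarBilin Q).Nondegenerate)
    (hk : 0 < k) {i : Fin t} {g : ↥(Cfsg.isometryGroup F ⇑Q)} (hg : g ∈ fixer Q (D i)ᗮ) :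
    g ∈ dstab Q D := by
  apply H.mem_dstab_of_forall hk
  intro l
  refine ⟨l, fun x hx => ?_⟩
  by_cases hl : l = i
  · subst hl
    exact fixer_maps Q hQ hg hx
  · rw [(mem_fixer Q).1 hg x (H.le_orth (Ne.symm hl) hx)]
    exact hx

theorem Dec.reflO'_mem_dstab (H : Dec Q k D) (hQ : (QuadraticMap.polarBilin Q).Nondegenerate)
    (hk : 0 < k) {i : Fin t} {x : ι → F} (hx : x ∈ D i) : reflO' Q x ∈ dstab Q D :=
  H.fixer_le_dstab hQ hk (reflO'_mem_fixer' Q hx)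

section Finite

variable [Fintype F]

theorem rr_mem_Omega (hQ : (QuadraticMap.polarBilin Q).Nondegenerate)
    (hn : 5 ≤ Fintype.card ι) {x y : ι → F} (hx : Q x ≠ 0) (hy : Q y ≠ 0)
    (hsq : IsSquare (Q x * Q y)) : reflO' Q x * reflO' Q y ∈ Cfsg.Omega F ⇑Q := by
  have := prod_mem_Omega Q hQ (Or.inr (by omega)) [x, y] (by
    intro v hv
    simp only [List.mem_cons, List.not_mem_nil, or_false] at hv
    rcases hv with rfl | rfl
    · exact hx
    · exact hy) ⟨1, rfl⟩ (by simpa using hsq)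
  simpa using this

theorem Dec.rr_mem (H : Dec Q k D) (hQ : (QuadraticMap.polarBilin Q).Nondegenerate)
    (hn : 5 ≤ Fintype.card ι) (hk : 0 < k) {i j : Fin t} {x y : ι → F} (hxi : x ∈ D i)
    (hyj : y ∈ D j) (hx : Q x ≠ 0) (hy : Q y ≠ 0) (hsq : IsSquare (Q x * Q y)) :
    reflO' Q x * reflO' Q y ∈ dstab Q D ⊓ Cfsg.Omega F ⇑Q :=
  ⟨mul_mem (H.reflO'_mem_dstab hQ hk hxi) (H.reflO'_mem_dstab hQ hk hyj),
    rr_mem_Omega hQ hn hx hy hsq⟩

theorem Dec.E_mem (H : Dec Q k D) (hQ : (QuadraticMap.polarBilin Q).Nondegenerate)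
    (hn : 5 ≤ Fintype.card ι) (hk : 0 < k) {j : Fin t} {e w : ι → F} (he : e ∈ D j)
    (hw : w ∈ D j) (hQe : Q e = 0) (hew : 𝐁 e w = 0) :
    E Q e w ∈ dstab Q D ⊓ Cfsg.Omega F ⇑Q :=
  ⟨H.fixer_le_dstab hQ hk (E_mem_fixer Q he hw hQe hew), E_mem_Omega Q hQ hn hQe hew⟩

/-- Transitivity on vectors of the same norm in a block. -/
theorem Dec.exists_move (H : Dec Q k D) (hQ : (QuadraticMap.polarBilin Q).Nondegenerate)
    (h2 : (2 : F) ≠ 0) (hn : 5 ≤ Fintype.card ι) (hk : 3 ≤ k) {i : Fin t} {a a' : ι → F}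
    (ha : a ∈ D i) (ha' : a' ∈ D i) (hQa' : Q a = Q a') (hQa : Q a ≠ 0) :
    ∃ h ∈ Cfsg.Omega F ⇑Q, h ∈ fixer Q (D i)ᗮ ∧ h ⋆ a = a' := by
  by_cases hd : Q (a - a') = 0
  · have hs : Q (a + a') = 4 * Q a := by
      have h1 := Q_add Q a a'
      have h3 := Q_sub Q a a'
      rw [hd] at h3
      rw [h1]
      linear_combination h3 - 2 * hQa'
    have hs0 : Q (a + a') ≠ 0 := by
      rw [hs]
      have : (4 : F) = 2 * 2 := by norm_num
      rw [this]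
      exact mul_ne_zero (mul_ne_zero h2 h2) hQa
    refine ⟨reflO' Q a' * reflO' Q (a + a'), rr_mem_Omega hQ hn (hQa' ▸ hQa) hs0 ?_,
      mul_mem (reflO'_mem_fixer' Q ha') (reflO'_mem_fixer' Q ((D i).add_mem ha ha')), ?_⟩
    · rw [hs, ← hQa']
      exact ⟨2 * Q a, by ring⟩
    · rw [mul_mulVec, reflO'_add_apply Q hQa' hs0, Matrix.mulVec_neg,
        reflO'_self Q (hQa' ▸ hQa), neg_neg]
  · obtain ⟨x, hx, hax, hQx⟩ := exists_norm_perp Q h2 (H.nondeg i)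
      (by rw [H.finrank_eq]; exact hk) ha' (hQa' ▸ hQa) (Q (a - a'))
    refine ⟨reflO' Q x * reflO' Q (a - a'), rr_mem_Omega hQ hn (hQx ▸ hd) hd ?_,
      mul_mem (reflO'_mem_fixer' Q hx) (reflO'_mem_fixer' Q ((D i).sub_mem ha ha')), ?_⟩
    · rw [hQx]
      exact ⟨_, rfl⟩
    · rw [mul_mulVec, reflO'_sub_apply Q hQa' hd, reflO'_of_orth]
      rw [QuadraticMap.polar_comm]
      exact hax

/-- Torus elements. -/
theorem Dec.exists_torus (H : Dec Q k D) (hQ : (QuadraticMap.polarBilin Q).Nondegenerate)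
    (hn : 5 ≤ Fintype.card ι) {j : Fin t} {e : ι → F}
    (he : e ∈ D j) (he0 : e ≠ 0) (hQe : Q e = 0) {μ : F} (hμ : μ ≠ 0) :
    ∃ h ∈ Cfsg.Omega F ⇑Q, h ∈ fixer Q (D j)ᗮ ∧ h ⋆ e = (μ * μ) • e := by
  obtain ⟨f, hf, hQf, hef⟩ := exists_hyp_partner_sub Q (H.nondeg j) he he0 hQe
  have h1 : Q ((1 : F) • e + (1 : F) • f) ≠ 0 := by
    rw [Q_hyp Q hQe hQf hef]
    simp
  have h3 : Q ((1 : F) • e + (μ * μ) • f) ≠ 0 := by
    rw [Q_hyp Q hQe hQf hef]
    simpa using hμ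
  refine ⟨reflO' Q ((1 : F) • e + (1 : F) • f) * reflO' Q ((1 : F) • e + (μ * μ) • f),
    rr_mem_Omega hQ hn h1 h3 ?_,
    mul_mem (reflO'_mem_fixer' Q ((D j).add_mem ((D j).smul_mem _ he) ((D j).smul_mem _ hf)))
      (reflO'_mem_fixer' Q ((D j).add_mem ((D j).smul_mem _ he) ((D j).smul_mem _ hf))), ?_⟩
  · rw [Q_hyp Q hQe hQf hef, Q_hyp Q hQe hQf hef]
    exact ⟨μ, by ring⟩
  · rw [mul_mulVec, reflO'_eq Q h1, reflO'_eq Q h3, coe_reflO, coe_reflO,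
      rot_u Q hQe hQf hef (mul_ne_zero hμ hμ)]

end Finite

/-! ### Swapping two blocks -/

theorem Dec.exists_families (H : Dec Q k D) (h2 : (2 : F) ≠ 0) (l l' : Fin t) :
    ∃ w w' : Fin k → ι → F, (∀ a, w a ∈ D l) ∧ (∀ a, w' a ∈ D l') ∧
      (∀ a b, a ≠ b → 𝐁 (w a) (w b) = 0) ∧ (∀ a b, a ≠ b → 𝐁 (w' a) (w' b) = 0) ∧
      (∀ a, Q (w a) ≠ 0) ∧ (∀ a, Q (w' a) = Q (w a)) ∧
      (∀ z ∈ D l, ∃ c : Fin k → F, z = ∑ a, c a • w a) ∧
      (∀ z ∈ D l', ∃ c : Fin k → F, z = ∑ a, c a • w' a) := by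
  obtain ⟨w, hwW, hortho, hns, hspan⟩ := exists_orth_family Q h2 (H.nondeg l) (H.finrank_eq l)
  obtain ⟨φ, hφ⟩ := H.iso l l'
  have hpol : ∀ (a b : D l), 𝐁 (φ a : ι → F) (φ b : ι → F) = 𝐁 (a : ι → F) (b : ι → F) := by
    intro a b
    unfold QuadraticMap.polar
    rw [← hφ a, ← hφ b, ← Submodule.coe_add, ← Submodule.coe_add, ← map_add, hφ (a + b)]
  refine ⟨w, fun a => (φ ⟨w a, hwW a⟩ : ι → F), hwW, fun a => (φ ⟨w a, hwW a⟩).2, hortho, ?_, hns,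
    fun a => hφ ⟨w a, hwW a⟩, hspan, ?_⟩
  · intro a b hab
    rw [hpol]
    exact hortho a b hab
  · intro z hz
    obtain ⟨c, hc⟩ := hspan (φ.symm ⟨z, hz⟩ : ι → F) (φ.symm ⟨z, hz⟩).2
    refine ⟨c, ?_⟩
    have h1 : φ.symm ⟨z, hz⟩ = ∑ a, c a • (⟨w a, hwW a⟩ : D l) := by
      apply Subtype.ext
      rw [hc]
      simp
    have h3 : (⟨z, hz⟩ : D l') = ∑ a, c a • φ ⟨w a, hwW a⟩ := by
      rw [← φ.apply_symm_apply ⟨z, hz⟩, h1, map_sum]
      exact Finset.sum_congr rfl (fun a _ => map_smul φ _ _)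
    have h4 := congrArg (Subtype.val) h3
    simpa using h4

theorem exists_swap_aux (h2 : (2 : F) ≠ 0) (w w' : Fin k → ι → F)
    (hw : ∀ a b, a ≠ b → 𝐁 (w a) (w b) = 0) (hw' : ∀ a b, a ≠ b → 𝐁 (w' a) (w' b) = 0)
    (hcross : ∀ a b, 𝐁 (w a) (w' b) = 0) (hns : ∀ a, Q (w a) ≠ 0)
    (hQ' : ∀ a, Q (w' a) = Q (w a)) (n : ℕ) (hn : n ≤ k) :
    ∃ s : ↥(Cfsg.isometryGroup F ⇑Q),
      (∀ a : Fin k, a.val < n → s ⋆ w a = w' a ∧ s ⋆ w' a = w a) ∧
      (∀ a : Fin k, n ≤ a.val → s ⋆ w a = w a ∧ s ⋆ w' a = w' a) ∧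
      (∀ y, (∀ a, 𝐁 (w a) y = 0) → (∀ a, 𝐁 (w' a) y = 0) → s ⋆ y = y) := by
  induction n with
  | zero =>
    refine ⟨1, fun a ha => absurd ha (by omega), fun a _ => ?_, fun y _ _ => ?_⟩
    · rw [one_mulVec', one_mulVec']
      exact ⟨rfl, rfl⟩
    · rw [one_mulVec']
  | succ n ih =>
    obtain ⟨s, hs1, hs2, hs3⟩ := ih (by omega)
    set a₀ : Fin k := ⟨n, by omega⟩ with ha₀
    have hd : Q (w a₀ - w' a₀) ≠ 0 := by
      rw [Q_sub, hcross, hQ']
      have : Q (w a₀) + Q (w a₀) - 0 = 2 * Q (w a₀) := by ring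
      rw [this]
      exact mul_ne_zero h2 (hns a₀)
    have hfix1 : ∀ a, a ≠ a₀ → reflO' Q (w a₀ - w' a₀) ⋆ w a = w a := by
      intro a ha
      apply reflO'_of_orth
      rw [QuadraticMap.polar_sub_left, hw a₀ a (Ne.symm ha), QuadraticMap.polar_comm ⇑Q (w' a₀),
        hcross, sub_zero]
    have hfix2 : ∀ a, a ≠ a₀ → reflO' Q (w a₀ - w' a₀) ⋆ w' a = w' a := by
      intro a ha
      apply reflO'_of_orth
      rw [QuadraticMap.polar_sub_left, hw' a₀ a (Ne.symm ha), hcross, sub_zero]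
    refine ⟨reflO' Q (w a₀ - w' a₀) * s, ?_, ?_, ?_⟩
    · intro a ha
      rw [mul_mulVec, mul_mulVec]
      by_cases han : a.val < n
      · have hne : a ≠ a₀ := by
          intro h
          rw [h, ha₀] at han
          simp at han
        rw [(hs1 a han).1, (hs1 a han).2]
        exact ⟨hfix2 a hne, hfix1 a hne⟩
      · have hae : a = a₀ := by
          apply Fin.ext
          rw [ha₀]
          simp only
          omega
        rw [hae, (hs2 a₀ (by rw [ha₀])).1, (hs2 a₀ (by rw [ha₀])).2]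
        exact ⟨reflO'_sub_apply Q (hQ' a₀).symm hd, reflO'_sub_apply' Q (hQ' a₀).symm hd⟩
    · intro a ha
      have hne : a ≠ a₀ := by
        intro h
        rw [h, ha₀] at ha
        simp at ha
      rw [mul_mulVec, mul_mulVec, (hs2 a (by omega)).1, (hs2 a (by omega)).2]
      exact ⟨hfix1 a hne, hfix2 a hne⟩
    · intro y hy hy'
      rw [mul_mulVec, hs3 y hy hy']
      apply reflO'_of_orth
      rw [QuadraticMap.polar_sub_left, hy, hy', sub_zero]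

/-- A swap of two blocks inside `Ω`. -/
theorem Dec.exists_swap [Fintype F] (H : Dec Q k D)
    (hQ : (QuadraticMap.polarBilin Q).Nondegenerate)
    (h2 : (2 : F) ≠ 0) (hn : 5 ≤ Fintype.card ι) (hk : 2 ≤ k) {l l' : Fin t} (hll : l ≠ l') :
    ∃ h ∈ dstab Q D ⊓ Cfsg.Omega F ⇑Q, (∀ x ∈ D l, h ⋆ x ∈ D l') ∧ (∀ x ∈ D l', h ⋆ x ∈ D l) ∧
      (∀ i, i ≠ l → i ≠ l' → ∀ x ∈ D i, h ⋆ x = x) := by
  obtain ⟨w, w', hwl, hwl', hw, hw', hns, hQ', hspan, hspan'⟩ := H.exists_families h2 l l'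
  obtain ⟨s, hs1, -, hs3⟩ := exists_swap_aux h2 w w' hw hw'
    (fun a b => H.orth l l' hll _ (hwl a) _ (hwl' b)) hns hQ' k le_rfl
  have hs_l : ∀ x ∈ D l, s ⋆ x ∈ D l' := by
    intro x hx
    obtain ⟨c, rfl⟩ := hspan x hx
    rw [Matrix.mulVec_sum]
    apply Submodule.sum_mem
    intro a _
    rw [Matrix.mulVec_smul, (hs1 a a.2).1]
    exact (D l').smul_mem _ (hwl' a)
  have hs_l' : ∀ x ∈ D l', s ⋆ x ∈ D l := by
    intro x hx
    obtain ⟨c, rfl⟩ := hspan' x hx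
    rw [Matrix.mulVec_sum]
    apply Submodule.sum_mem
    intro a _
    rw [Matrix.mulVec_smul, (hs1 a a.2).2]
    exact (D l).smul_mem _ (hwl a)
  have hs_i : ∀ i, i ≠ l → i ≠ l' → ∀ x ∈ D i, s ⋆ x = x := by
    intro i hil hil' x hx
    exact hs3 x (fun a => H.orth l i (Ne.symm hil) _ (hwl a) _ hx)
      (fun a => H.orth l' i (Ne.symm hil') _ (hwl' a) _ hx)
  obtain ⟨c, hc, hmem⟩ := exists_mul_mem_Omega Q hQ (Or.inr (by omega)) (fixer Q (D l)ᗮ)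
    (by
      obtain ⟨a, haU, ha⟩ := exists_Q_eq_sub Q h2 (H.nondeg l) (by rw [H.finrank_eq]; exact hk) 1
      exact ⟨[a], by simp [ha], by simp, by simpa using reflO'_mem_fixer' Q haU⟩)
    (by
      intro _
      obtain ⟨c, hc⟩ := FiniteField.exists_nonsquare (Cfsg.Agent.Lib.Helper17SymmForm.ringChar_ne_two h2)
      have hc0 : c ≠ 0 := by
        rintro rfl
        exact hc IsSquare.zero
      obtain ⟨a, haU, ha⟩ := exists_Q_eq_sub Q h2 (H.nondeg l) (by rw [H.finrank_eq]; exact hk) 1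
      obtain ⟨b, hbU, hb⟩ := exists_Q_eq_sub Q h2 (H.nondeg l) (by rw [H.finrank_eq]; exact hk) c
      refine ⟨[a, b], ?_, ⟨1, rfl⟩, ?_, ?_⟩
      · intro v hv
        simp only [List.mem_cons, List.not_mem_nil, or_false] at hv
        rcases hv with rfl | rfl
        · rw [ha]; exact one_ne_zero
        · rw [hb]; exact hc0
      · simpa [ha, hb] using hc
      · simpa using mul_mem (reflO'_mem_fixer' Q haU) (reflO'_mem_fixer' Q hbU)) s
  have h_l : ∀ x ∈ D l, (s * c) ⋆ x ∈ D l' := by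
    intro x hx
    rw [mul_mulVec]
    exact hs_l _ (fixer_maps Q hQ hc hx)
  have h_l' : ∀ x ∈ D l', (s * c) ⋆ x ∈ D l := by
    intro x hx
    rw [mul_mulVec, (mem_fixer Q).1 hc x (H.le_orth hll hx)]
    exact hs_l' x hx
  have h_i : ∀ i, i ≠ l → i ≠ l' → ∀ x ∈ D i, (s * c) ⋆ x = x := by
    intro i hil hil' x hx
    rw [mul_mulVec, (mem_fixer Q).1 hc x (H.le_orth (Ne.symm hil) hx)]
    exact hs_i i hil hil' x hx
  refine ⟨s * c, ⟨?_, hmem⟩, h_l, h_l', h_i⟩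
  apply H.mem_dstab_of_forall (by omega)
  intro i
  by_cases hil : i = l
  · exact ⟨l', hil ▸ h_l⟩
  by_cases hil' : i = l'
  · exact ⟨l, hil' ▸ h_l'⟩
  · exact ⟨i, fun x hx => by rw [h_i i hil hil' x hx]; exact hx⟩

end Cfsg.Agent.Lib.Helper49DecA
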