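import Mathlib
import Cfsg.Prelude.Def_Classical
import Cfsg.Prelude.Def_ClassicalGeometry
import Cfsg.Prelude.Def_GeometricClasses
import Cfsg.Agent.Lib.Helper49DecA

/-!
# Orthogonal decompositions: overgroups of the stabiliser, first part
-/

set_option autoImplicit false
set_option linter.unusedSectionVars false

namespace Cfsg.Agent.Lib.Helper49DecB

open scoped Matrix
open Module
open Cfsg.Agent.Lib.Helper49Orth Cfsg.Agent.Lib.Helper49Hyp Cfsg.Agent.Lib.Helper18Hyp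
  Cfsg.Agent.Lib.Helper49Eich Cfsg.Agent.Lib.Helper49Geo Cfsg.Agent.Lib.Helper49EichGen
  Cfsg.Agent.Lib.Helper49Fam Cfsg.Agent.Lib.Helper49Trans Cfsg.Agent.Lib.Helper49CharTwoA
  Cfsg.Agent.Lib.Helper49Fam3 Cfsg.Agent.Lib.Helper49Par Cfsg.Agent.Lib.Helper49Witt2
  Cfsg.Agent.Lib.Helper49Frame Cfsg.Agent.Lib.Helper49Sub Cfsg.Agent.Lib.Helper49DecA

variable {F : Type*} [Field F]
variable {ι : Type} [Fintype ι] [DecidableEq ι] (Q : QuadraticForm F (ι → F))

local notation "𝐁" => QuadraticMap.polar (DFunLike.coe Q)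
local notation:max W "ᗮ" => LinearMap.BilinForm.orthogonal (QuadraticMap.polarBilin Q) W
local notation:72 g:72 " ⋆ " x:73 => Matrix.mulVec (Units.val (Subtype.val g)) x

/-- Two orthogonal singular vectors in a nondegenerate space of dimension at most three are
proportional. -/
theorem eq_smul_of_TS_three (hQ : (QuadraticMap.polarBilin Q).Nondegenerate)
    {W : Submodule F (ι → F)} (hW : W ⊓ Wᗮ = ⊥) (hk : finrank F W ≤ 3) {e s : ι → F}
    (he : e ∈ W) (hs : s ∈ W) (he0 : e ≠ 0) (hQe : Q e = 0) (hQs : Q s = 0) (hes : 𝐁 e s = 0) :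
    ∃ c : F, s = c • e := by
  by_contra hprop
  have hind : LinearIndependent F ![e, s] := by
    rw [LinearIndependent.pair_iff]
    intro a b hab
    have hb : b = 0 := by
      by_contra hb
      apply hprop
      refine ⟨-(b⁻¹ * a), ?_⟩
      have h1 : b • s = -(a • e) := by
        rw [eq_neg_iff_add_eq_zero, add_comm]; exact hab
      calc s = b⁻¹ • (b • s) := by rw [smul_smul, inv_mul_cancel₀ hb, one_smul]
        _ = -(b⁻¹ * a) • e := by rw [h1, smul_neg, smul_smul, neg_smul]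
    subst hb
    simp only [zero_smul, add_zero] at hab
    exact ⟨(smul_eq_zero.1 hab).resolve_right he0, rfl⟩
  have h1 := finrank_span_eq_card hind
  have hrange : Set.range ![e, s] = {e, s} := by
    ext x
    simp [eq_comm, or_comm]
  rw [hrange, Fintype.card_fin] at h1
  have hTS : TS Q (Submodule.span F {e, s}) := by
    intro x hx
    obtain ⟨a, b, rfl⟩ := Submodule.mem_span_pair.1 hx
    rw [Q_add, QuadraticMap.map_smul, QuadraticMap.map_smul, QuadraticMap.polar_smul_left,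
      QuadraticMap.polar_smul_right, hQe, hQs, hes]
    simp
  have hle : Submodule.span F {e, s} ≤ W := by
    rw [Submodule.span_le]
    rintro x (rfl | rfl)
    · exact he
    · exact hs
  have := two_mul_finrank_le_sub Q hQ hW hle hTS
  omega

/-- The relation "the product of the two reflections lies in `M`". -/
def Rel (M : Subgroup ↥(Cfsg.isometryGroup F ⇑Q)) (x y : ι → F) : Prop :=
  Q x ≠ 0 ∧ Q y ≠ 0 ∧ reflO' Q x * reflO' Q y ∈ M

/-- A vector related to a vector of a block. -/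
def Good {t : ℕ} (D : Fin t → Submodule F (ι → F)) (M : Subgroup ↥(Cfsg.isometryGroup F ⇑Q))
    (z : ι → F) : Prop := ∃ i, ∃ x ∈ D i, Rel Q M z x

/-- `M` contains a Siegel transformation centred in a block which does not preserve it. -/
def Crux {t : ℕ} (D : Fin t → Submodule F (ι → F)) (M : Subgroup ↥(Cfsg.isometryGroup F ⇑Q)) :
    Prop :=
  ∃ (j : Fin t) (e a : ι → F), e ∈ D j ∧ e ≠ 0 ∧ Q e = 0 ∧ 𝐁 e a = 0 ∧ a ∉ D j ∧ E Q e a ∈ M

variable {Q}
variable {M : Subgroup ↥(Cfsg.isometryGroup F ⇑Q)}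

theorem Rel.symm {x y : ι → F} (h : Rel Q M x y) : Rel Q M y x := by
  refine ⟨h.2.1, h.1, ?_⟩
  have := M.inv_mem h.2.2
  rwa [mul_inv_rev, reflO'_inv, reflO'_inv] at this

theorem Rel.trans {x y z : ι → F} (h : Rel Q M x y) (h' : Rel Q M y z) : Rel Q M x z := by
  refine ⟨h.1, h'.2.1, ?_⟩
  have := M.mul_mem h.2.2 h'.2.2
  rwa [mul_assoc, ← mul_assoc (reflO' Q y), reflO'_mul_self, one_mul] at this

theorem Rel.map {x y : ι → F} (h : Rel Q M x y) {g : ↥(Cfsg.isometryGroup F ⇑Q)} (hg : g ∈ M) :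
    Rel Q M (g ⋆ x) (g ⋆ y) := by
  refine ⟨by rw [iso_apply (Q := ⇑Q)]; exact h.1, by rw [iso_apply (Q := ⇑Q)]; exact h.2.1, ?_⟩
  have := M.mul_mem (M.mul_mem hg h.2.2) (M.inv_mem hg)
  rw [← reflO'_conj, ← reflO'_conj]
  convert this using 1
  group

theorem Rel.refl_move {x y : ι → F} (h : Rel Q M x y) : Rel Q M (reflO' Q x ⋆ y) y := by
  refine ⟨by rw [iso_apply (Q := ⇑Q)]; exact h.2.1, h.2.1, ?_⟩
  have := M.mul_mem h.2.2 h.2.2
  rw [← reflO'_conj, reflO'_inv]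
  convert this using 1
  group

theorem Rel.smul_left {x y : ι → F} (h : Rel Q M x y) {c : F} (hc : c ≠ 0) :
    Rel Q M (c • x) y := by
  refine ⟨?_, h.2.1, by rw [reflO'_smul Q hc]; exact h.2.2⟩
  rw [QuadraticMap.map_smul]
  exact mul_ne_zero (mul_ne_zero hc hc) h.1

variable {t k : ℕ} {D : Fin t → Submodule F (ι → F)}

theorem Good.of_rel {z z' : ι → F} (h : Good Q D M z) (h' : Rel Q M z' z) : Good Q D M z' := by
  obtain ⟨i, x, hx, hrel⟩ := h
  exact ⟨i, x, hx, h'.trans hrel⟩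

variable [Fintype F]

variable (Q k D M) in
/-- The standing hypotheses. -/
structure Ctx : Prop where
  dec : Dec Q k D
  nd : (QuadraticMap.polarBilin Q).Nondegenerate
  two : (2 : F) ≠ 0
  card : 5 ≤ Fintype.card ι
  hk : 3 ≤ k
  ht : 3 ≤ t
  le : dstab Q D ⊓ Cfsg.Omega F ⇑Q ≤ M

theorem Ctx.rel_block (C : Ctx Q M k D) {i j : Fin t} {x y : ι → F} (hxi : x ∈ D i)
    (hyj : y ∈ D j) (hx : Q x ≠ 0) (hy : Q y ≠ 0) (hsq : IsSquare (Q x * Q y)) : Rel Q M x y :=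
  ⟨hx, hy, C.le (C.dec.rr_mem C.nd C.card (by have := C.hk; omega) hxi hyj hx hy hsq)⟩

theorem Ctx.rel_map (C : Ctx Q M k D) {z : ι → F} (hz : Good Q D M z)
    {h : ↥(Cfsg.isometryGroup F ⇑Q)} (hh : h ∈ dstab Q D ⊓ Cfsg.Omega F ⇑Q) :
    Rel Q M z (h ⋆ z) := by
  obtain ⟨i, x, hx, hrel⟩ := hz
  obtain ⟨σ, hσ⟩ := dstab_apply Q hh.1
  have h1 : Rel Q M x (h ⋆ x) := C.rel_block hx (hσ i x hx) hrel.2.1
    (by rw [iso_apply (Q := ⇑Q)]; exact hrel.2.1) (by rw [iso_apply (Q := ⇑Q)]; exact ⟨_, rfl⟩)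
  exact (hrel.trans h1).trans (hrel.map (C.le hh)).symm

theorem Ctx.good_map (C : Ctx Q M k D) {z : ι → F} (hz : Good Q D M z)
    {h : ↥(Cfsg.isometryGroup F ⇑Q)} (hh : h ∈ dstab Q D ⊓ Cfsg.Omega F ⇑Q) :
    Good Q D M (h ⋆ z) := hz.of_rel (C.rel_map hz hh).symm

theorem Ctx.fixer_mem (C : Ctx Q M k D) {i : Fin t} {h : ↥(Cfsg.isometryGroup F ⇑Q)}
    (h1 : h ∈ Cfsg.Omega F ⇑Q) (h3 : h ∈ fixer Q (D i)ᗮ) : h ∈ dstab Q D ⊓ Cfsg.Omega F ⇑Q :=
  ⟨C.dec.fixer_le_dstab C.nd (by have := C.hk; omega) h3, h1⟩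

/-- A product of two reflections which is a Siegel transformation. -/
theorem crux_of_rel_add {z d : ι → F} {μ : F} {j : Fin t} (h : Rel Q M z (z + μ • d))
    (hd : d ∈ D j) (hd0 : d ≠ 0) (hQd : Q d = 0) (hμ : μ ≠ 0) (hdz : 𝐁 d z = 0) (hz : z ∉ D j) :
    Crux Q D M := by
  have hQz := h.1
  refine ⟨j, (-μ / Q z) • d, z, (D j).smul_mem _ hd, ?_, ?_, ?_, hz, ?_⟩
  · exact smul_ne_zero (div_ne_zero (neg_ne_zero.2 hμ) hQz) hd0
  · rw [QuadraticMap.map_smul, hQd, smul_zero]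
  · rw [QuadraticMap.polar_smul_left, hdz, smul_zero]
  · rw [E_eq_refl Q (by rw [QuadraticMap.map_smul, hQd, smul_zero])
      (by rw [QuadraticMap.polar_smul_left, hdz, smul_zero]) hQz]
    have : z - Q z • (-μ / Q z) • d = z + μ • d := by
      rw [smul_smul, mul_div_cancel₀ _ hQz, neg_smul, sub_neg_eq_add]
    rw [this]
    exact h.2.2

/-- The basic way to produce a Siegel transformation from a good vector. -/
theorem Ctx.crux_of_good (C : Ctx Q M k D) {z a d c' : ι → F} {j : Fin t} (hz : Good Q D M z)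
    (hb : z - a ∈ (D j)ᗮ) (hzj : z ∉ D j) (hd : d ∈ D j) (hd0 : d ≠ 0)
    (hQd : Q d = 0) (hda : 𝐁 d a = 0) (hc : c' ∈ D j) (hdc : 𝐁 d c' = 0) (hac : 𝐁 a c' ≠ 0) :
    Crux Q D M := by
  have hzd : 𝐁 d z = 0 := by
    have : z = a + (z - a) := by abel
    rw [this, QuadraticMap.polar_add_right, hda, mem_orth.1 hb d hd, add_zero]
  have hzc : 𝐁 z c' = 𝐁 a c' := by
    have : z = a + (z - a) := by abel
    rw [this, QuadraticMap.polar_add_left, QuadraticMap.polar_comm ⇑Q (z - a),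
      mem_orth.1 hb c' hc, add_zero]
  have h1 := C.rel_map hz (C.dec.E_mem C.nd C.card (by have := C.hk; omega) hd hc hQd hdc)
  rw [E_apply Q hQd hdc, QuadraticMap.polar_comm ⇑Q z d, hzd, hzc] at h1
  simp only [mul_zero, sub_zero, zero_smul] at h1
  exact crux_of_rel_add h1 hd hd0 hQd hac hzd hzj

/-- An isometry mapping the block vectors of one norm class to block vectors stabilises the
decomposition. -/
theorem Ctx.mem_dstab_of_class (C : Ctx Q M k D) (hex : 4 ≤ k ∨ ∃ δ : F, δ ≠ 0 ∧ δ * δ ≠ 1)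
    {m : ↥(Cfsg.isometryGroup F ⇑Q)} {c : F} (hc : c ≠ 0)
    (h : ∀ i, ∀ x ∈ D i, Q x ≠ 0 → IsSquare (Q x * c) → ∃ j, m ⋆ x ∈ D j) : m ∈ dstab Q D := by
  have hk := C.hk
  apply C.dec.mem_dstab_of_forall (by omega)
  intro i
  obtain ⟨x₀, hx₀, hQx₀⟩ := exists_Q_eq_sub Q C.two (C.dec.nondeg i)
    (by rw [C.dec.finrank_eq]; omega) c
  obtain ⟨j, hj⟩ := h i x₀ hx₀ (hQx₀ ▸ hc) ⟨c, by rw [hQx₀]⟩
  refine ⟨j, ?_⟩
  have hle : D i ≤ (D j).comap (Matrix.mulVecLin ((m : Matrix.GeneralLinearGroup ι F) :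
      Matrix ι ι F)) := by
    apply span_lemma Q C.two (C.dec.nondeg i) (by rw [C.dec.finrank_eq]; omega)
      (by rw [C.dec.finrank_eq]; exact hex) hx₀ (x₀ := x₀)
    · rw [Submodule.mem_comap, Matrix.mulVecLin_apply]
      exact hj
    · rw [hQx₀]; exact hc
    · intro x hx y hy hxi hQx _ hQy hsq hxy
      rw [Submodule.mem_comap, Matrix.mulVecLin_apply] at hx ⊢
      rw [hQx₀] at hsq
      obtain ⟨j', hj'⟩ := h i y hy hQy hsq
      by_cases hjj : j = j'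
      · rw [hjj]; exact hj'
      · exfalso
        apply hxy
        rw [← polar_iso Q m]
        exact C.dec.orth j j' hjj _ hx _ hj'
  intro x hx
  have := hle hx
  rwa [Submodule.mem_comap, Matrix.mulVecLin_apply] at this

theorem Ctx.S1 (C : Ctx Q M k D) (hex : 4 ≤ k ∨ ∃ δ : F, δ ≠ 0 ∧ δ * δ ≠ 1)
    (BS : ∀ z, Good Q D M z → ∃ i, z ∈ D i) {m : ↥(Cfsg.isometryGroup F ⇑Q)} (hm : m ∈ M)
    {i j : Fin t} {w : ι → F} (hw : w ∈ D i) (hQw : Q w ≠ 0) (hmw : m ⋆ w ∈ D j) :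
    m ∈ dstab Q D := by
  apply C.mem_dstab_of_class hex hQw
  intro i' x hx hQx hsq
  apply BS
  exact ⟨j, m ⋆ w, hmw, (C.rel_block hx hw hQx hQw hsq).map hm⟩

/-- If all good vectors are block vectors and there is no Siegel transformation as in `Crux`,
then `M` stabilises the decomposition. -/
theorem Ctx.partD (C : Ctx Q M k D) (hex : 4 ≤ k ∨ ∃ δ : F, δ ≠ 0 ∧ δ * δ ≠ 1)
    (hk' : 5 ≤ k ∨ k = 3) (BS : ∀ z, Good Q D M z → ∃ i, z ∈ D i) (hcrux : ¬ Crux Q D M) :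
    M ≤ dstab Q D := by
  intro g hg
  by_contra hgd
  have hk := C.hk
  have ht := C.ht
  have h2 := C.two
  have hno : ∀ i, ∀ y ∈ D i, Q y ≠ 0 → ∀ j, g ⋆ y ∉ D j :=
    fun i y hy hQy j hj => hgd (C.S1 hex BS hg hy hQy hj)
  obtain ⟨i, -⟩ : ∃ i : Fin t, i = ⟨0, by omega⟩ := ⟨_, rfl⟩
  obtain ⟨x₀, hx₀, hQx₀⟩ := exists_Q_eq_sub Q C.two (C.dec.nondeg i)
    (by rw [C.dec.finrank_eq]; omega) 1
  obtain ⟨x₁, hx₁, hx01, hQx₁⟩ := exists_norm_perp Q C.two (C.dec.nondeg i)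
    (by rw [C.dec.finrank_eq]; omega) hx₀ (by rw [hQx₀]; exact one_ne_zero) 1
  obtain ⟨u, hu⟩ : ∃ u, u = g ⋆ x₀ := ⟨_, rfl⟩
  obtain ⟨v, hv⟩ : ∃ v, v = g ⋆ x₁ := ⟨_, rfl⟩
  have hQu : Q u = 1 := by rw [hu, iso_apply (Q := ⇑Q), hQx₀]
  have hQv : Q v = 1 := by rw [hv, iso_apply (Q := ⇑Q), hQx₁]
  have huv : 𝐁 u v = 0 := by rw [hu, hv, polar_iso, hx01]
  have hrel : Rel Q M u v := by
    rw [hu, hv]
    exact (C.rel_block hx₀ hx₁ (by rw [hQx₀]; exact one_ne_zero)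
      (by rw [hQx₁]; exact one_ne_zero) ⟨1, by rw [hQx₀, hQx₁]⟩).map hg
  obtain ⟨m, hm⟩ : ∃ m, m = reflO' Q u * reflO' Q v := ⟨_, rfl⟩
  have hmM : m ∈ M := hm ▸ hrel.2.2
  have hm_apply : ∀ x, m ⋆ x = x - 𝐁 u x • u - 𝐁 v x • v := by
    intro x
    rw [hm, mul_mulVec, reflO'_apply, reflO'_apply, hQu, hQv, QuadraticMap.polar_sub_right,
      QuadraticMap.polar_smul_right, huv]
    simp only [inv_one, one_mul, smul_zero, sub_zero]
    abel
  have hN : ∀ x, m ⋆ x - x = g ⋆ (-(𝐁 u x) • x₀ - 𝐁 v x • x₁) := by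
    intro x
    rw [hm_apply, Matrix.mulVec_sub, Matrix.mulVec_smul, Matrix.mulVec_smul, ← hu, ← hv]
    module
  have hNi : ∀ x, -(𝐁 u x) • x₀ - 𝐁 v x • x₁ ∈ D i :=
    fun x => (D i).sub_mem ((D i).smul_mem _ hx₀) ((D i).smul_mem _ hx₁)
  have hsing : ∀ a, ∀ x, m ⋆ x - x ∈ D a → Q (m ⋆ x - x) = 0 := by
    intro a x hx
    by_contra hne
    rw [hN] at hx hne
    rw [iso_apply (Q := ⇑Q)] at hne
    exact hno i _ (hNi x) hne a hx
  have keyA : ∀ l, ∀ y ∈ D l, Q y ≠ 0 → m ⋆ y = y → False := by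
    intro l y hy hQy hmy
    have hmd : m ∈ dstab Q D := C.S1 hex BS hmM hy hQy (j := l) (by rw [hmy]; exact hy)
    obtain ⟨σ, hσ⟩ := dstab_apply Q hmd
    have hσa : ∀ a, σ a = a := by
      intro a
      by_contra hne
      obtain ⟨ya, hya, hya0, h1, h3⟩ := exists_ne_zero_orth_pair Q C.nd (W := D a)
        (by rw [C.dec.finrank_eq]; omega) u v
      have h4 : m ⋆ ya = ya := by
        rw [hm_apply, h1, h3]
        simp
      have h5 := hσ a ya hya
      rw [h4] at h5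
      exact hya0 (C.dec.disj hne h5 hya)
    have hpres : ∀ a, ∀ x ∈ D a, m ⋆ x - x ∈ D a := by
      intro a x hx
      have := hσ a x hx
      rw [hσa] at this
      exact (D a).sub_mem this hx
    have hadd : ∀ x y, m ⋆ (x + y) - (x + y) = (m ⋆ x - x) + (m ⋆ y - y) := by
      intro x y
      rw [Matrix.mulVec_add]
      abel
    have hβ0 : ∀ a b, ∀ x ∈ D a, ∀ x' ∈ D b, 𝐁 (m ⋆ x - x) (m ⋆ x' - x') = 0 := by
      intro a b x hx x' hx'
      by_cases hab : a = b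
      · subst hab
        unfold QuadraticMap.polar
        rw [← hadd, hsing a _ (hpres a _ ((D a).add_mem hx hx')), hsing a _ (hpres a x hx),
          hsing a _ (hpres a x' hx')]
        simp
      · exact C.dec.orth a b hab _ (hpres a x hx) _ (hpres b x' hx')
    have hβ1 : ∀ z, ∀ b, ∀ x' ∈ D b, 𝐁 (m ⋆ z - z) (m ⋆ x' - x') = 0 := by
      intro z
      have hz : z ∈ ⨆ i, D i := by rw [C.dec.top]; exact Submodule.mem_top
      refine Submodule.iSup_induction D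
        (motive := fun z => ∀ b, ∀ x' ∈ D b, 𝐁 (m ⋆ z - z) (m ⋆ x' - x') = 0) hz ?_ ?_ ?_
      · intro a x hx b x' hx'
        exact hβ0 a b x hx x' hx'
      · intro b x' _
        simp
      · intro x y hx hy b x' hx'
        rw [hadd, QuadraticMap.polar_add_left, hx b x' hx', hy b x' hx', add_zero]
    have hβ2 : ∀ z z', 𝐁 (m ⋆ z - z) (m ⋆ z' - z') = 0 := by
      intro z z'
      have hz : z' ∈ ⨆ i, D i := by rw [C.dec.top]; exact Submodule.mem_top
      refine Submodule.iSup_induction D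
        (motive := fun z' => 𝐁 (m ⋆ z - z) (m ⋆ z' - z') = 0) hz ?_ ?_ ?_
      · intro b x' hx'
        exact hβ1 z b x' hx'
      · simp
      · intro x y hx hy
        rw [hadd, QuadraticMap.polar_add_right, hx, hy, add_zero]
    have h6 := hβ2 u u
    have h7 : m ⋆ u - u = (-2 : F) • u := by
      rw [hm_apply, QuadraticMap.polar_self, hQu, QuadraticMap.polar_comm ⇑Q v u, huv]
      simp only [mul_one, zero_smul, sub_zero, nsmul_eq_mul, Nat.cast_ofNat]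
      module
    rw [h7, QuadraticMap.polar_self, QuadraticMap.map_smul, hQu] at h6
    simp only [smul_eq_mul, mul_one, nsmul_eq_mul, Nat.cast_ofNat, mul_eq_zero, neg_eq_zero,
      or_self] at h6
    exact h2 h6
  rcases hk' with hk5 | hk3
  · obtain ⟨y, hy, hQy, h1, h3⟩ := exists_nonsingular_orth_pair Q C.nd (C.dec.nondeg i)
      (by rw [C.dec.finrank_eq]; omega) u v
    exact keyA i y hy hQy (by rw [hm_apply, h1, h3]; simp)
  · obtain ⟨e, he, he0, h1, h3⟩ := exists_ne_zero_orth_pair Q C.nd (W := D i)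
      (by rw [C.dec.finrank_eq]; omega) u v
    have hme : m ⋆ e = e := by rw [hm_apply, h1, h3]; simp
    by_cases hQe : Q e = 0
    · obtain ⟨n, hn, hQn, hen⟩ := exists_nonsingular_orth_one Q C.nd (C.dec.nondeg i)
        (by rw [C.dec.finrank_eq]; omega) e
      have hE : E Q e (m ⋆ n) ∈ M := by
        have h4 := M.mul_mem (M.mul_mem hmM
          (C.le (C.dec.E_mem C.nd C.card (by omega) he hn hQe hen))) (M.inv_mem hmM)
        rwa [E_conj Q m hQe hen, hme] at h4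
      have hemn : 𝐁 e (m ⋆ n) = 0 := by
        have := polar_iso Q m e n
        rwa [hme, hen] at this
      have hmn : m ⋆ n ∈ D i := by
        by_contra hcon
        exact hcrux ⟨i, e, m ⋆ n, he, he0, hQe, hemn, hcon, hE⟩
      have hs : m ⋆ n - n ∈ D i := (D i).sub_mem hmn hn
      have hQs := hsing i n hs
      have hes : 𝐁 e (m ⋆ n - n) = 0 := by
        rw [QuadraticMap.polar_sub_right, hemn, hen, sub_zero]
      obtain ⟨c, hc⟩ := eq_smul_of_TS_three Q C.nd (C.dec.nondeg i)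
        (by rw [C.dec.finrank_eq]; omega) he hs he0 hQe hQs hes
      have hBuu : 𝐁 u u = 2 := by
        rw [QuadraticMap.polar_self, hQu]; simp
      have hBvv : 𝐁 v v = 2 := by
        rw [QuadraticMap.polar_self, hQv]; simp
      have h5 : 𝐁 u n = 0 := by
        have h6 : 𝐁 u (m ⋆ n - n) = 0 := by
          rw [hc, QuadraticMap.polar_smul_right, h1, smul_zero]
        rw [hm_apply] at h6
        simp only [QuadraticMap.polar_sub_right, QuadraticMap.polar_smul_right, huv, hBuu,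
          smul_eq_mul] at h6
        have h7 : 2 * 𝐁 u n = 0 := by linear_combination -h6
        exact (mul_eq_zero.1 h7).resolve_left h2
      have h5' : 𝐁 v n = 0 := by
        have h6 : 𝐁 v (m ⋆ n - n) = 0 := by
          rw [hc, QuadraticMap.polar_smul_right, h3, smul_zero]
        rw [hm_apply] at h6
        simp only [QuadraticMap.polar_sub_right, QuadraticMap.polar_smul_right,
          QuadraticMap.polar_comm ⇑Q v u, huv, hBvv, smul_eq_mul] at h6
        have h7 : 2 * 𝐁 v n = 0 := by linear_combination -h6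
        exact (mul_eq_zero.1 h7).resolve_left h2
      exact keyA i n hn hQn (by rw [hm_apply, h5, h5']; simp)
    · exact keyA i e he hQe hme

theorem Ctx.exists_comp (C : Ctx Q M k D) {z : ι → F} (hz : z ≠ 0) :
    ∃ j, ∃ a ∈ D j, a ≠ 0 ∧ z - a ∈ (D j)ᗮ := by
  by_contra hcon
  push Not at hcon
  have h1 : ∀ j, z ∈ (D j)ᗮ := by
    intro j
    obtain ⟨p, hp, hzp⟩ := exists_proj Q C.nd (C.dec.nondeg j) z
    by_cases hp0 : p = 0
    · subst hp0
      simpa using hzp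
    · exact absurd hzp (hcon j p hp hp0)
  have h3 : ⨆ i, D i ≤ (Submodule.span F {z})ᗮ := by
    apply iSup_le
    intro j y hy
    rw [mem_orth_span_singleton, QuadraticMap.polar_comm]
    exact mem_orth.1 (h1 j) y hy
  obtain ⟨y, hy⟩ := exists_polar_ne_zero Q C.nd hz
  apply hy
  have : y ∈ (Submodule.span F {z})ᗮ := h3 (by rw [C.dec.top]; exact Submodule.mem_top)
  exact (mem_orth_span_singleton Q).1 this

theorem Ctx.partE_five (C : Ctx Q M k D) (hk5 : 5 ≤ k) {z : ι → F} (hz : Good Q D M z)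
    (hzb : ∀ i, z ∉ D i) : Crux Q D M := by
  have hz0 : z ≠ 0 := by
    obtain ⟨i, x, hx, hrel⟩ := hz
    rintro rfl
    exact hrel.1 (map_zero Q)
  obtain ⟨j, a, ha, ha0, hb⟩ := C.exists_comp hz0
  obtain ⟨c', hc', hac⟩ := exists_polar_ne_zero_sub Q (C.dec.nondeg j) ha ha0
  have h1 := finrank_inf_orth_pair Q C.nd (D j) a c'
  obtain ⟨d, ⟨hdj, hd⟩, hd0, hQd⟩ := exists_singular_sub Q
    (P := D j ⊓ (Submodule.span F {a, c'})ᗮ) (by rw [C.dec.finrank_eq] at h1; omega)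
  obtain ⟨h3, h4⟩ := (mem_orth_span_pair Q).1 hd
  exact C.crux_of_good hz hb (hzb j) hdj hd0 hQd (by rw [QuadraticMap.polar_comm]; exact h3) hc'
    (by rw [QuadraticMap.polar_comm]; exact h4) hac

theorem Ctx.crux_of_singular_comp (C : Ctx Q M k D) {δ : F} (hδ : δ ≠ 0) (hδ1 : δ * δ ≠ 1)
    {z e : ι → F} {j : Fin t} (hz : Good Q D M z) (he : e ∈ D j) (he0 : e ≠ 0) (hQe : Q e = 0)
    (hb : z - e ∈ (D j)ᗮ) (hzj : z ∉ D j) : Crux Q D M := by
  obtain ⟨h, hΩ, hfix, hhe⟩ := C.dec.exists_torus C.nd C.card he he0 hQe hδ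
  have h1 := C.rel_map hz (C.fixer_mem hΩ hfix)
  have h3 : h ⋆ z = z + (δ * δ - 1) • e := by
    have : z = e + (z - e) := by abel
    conv_lhs => rw [this]
    rw [Matrix.mulVec_add, hhe, (mem_fixer Q).1 hfix _ hb]
    module
  rw [h3] at h1
  refine crux_of_rel_add h1 he he0 hQe (sub_ne_zero.2 hδ1) ?_ hzj
  have : z = e + (z - e) := by abel
  rw [this, QuadraticMap.polar_add_right, polar_self_of_singular Q hQe, mem_orth.1 hb e he,
    add_zero]

theorem Ctx.partE_delta (C : Ctx Q M k D) {δ : F} (hδ : δ ≠ 0) (hδ1 : δ * δ ≠ 1) {z : ι → F}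
    (hz : Good Q D M z) (hzb : ∀ i, z ∉ D i) : Crux Q D M := by
  have hk := C.hk
  have h2 := C.two
  have hQz : Q z ≠ 0 := by
    obtain ⟨i, x, hx, hrel⟩ := hz
    exact hrel.1
  have hz0 : z ≠ 0 := by
    rintro rfl
    exact hQz (map_zero Q)
  obtain ⟨j₁, a₁, ha₁, ha₁0, hb₁⟩ := C.exists_comp hz0
  have hb₁0 : z - a₁ ≠ 0 := fun h => hzb j₁ (by rw [sub_eq_zero.1 h]; exact ha₁)
  obtain ⟨j₂, a₂, ha₂, ha₂0, hb₂⟩ := C.exists_comp hb₁0
  have hj : j₁ ≠ j₂ := by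
    rintro rfl
    apply ha₂0
    rw [← Submodule.mem_bot F, ← C.dec.nondeg j₁]
    refine ⟨ha₂, ?_⟩
    have := Submodule.sub_mem _ hb₁ hb₂
    rwa [sub_sub_cancel] at this
  have hbj₁ : z - a₁ - a₂ ∈ (D j₁)ᗮ := Submodule.sub_mem _ hb₁ (C.dec.le_orth hj ha₂)
  by_cases hQa₁ : Q a₁ = 0
  · exact C.crux_of_singular_comp hδ hδ1 hz ha₁ ha₁0 hQa₁ hb₁ (hzb j₁)
  by_cases hQa₂ : Q a₂ = 0
  · refine C.crux_of_singular_comp hδ hδ1 hz ha₂ ha₂0 hQa₂ ?_ (hzb j₂)
    have : z - a₂ = a₁ + (z - a₁ - a₂) := by abel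
    rw [this]
    exact Submodule.add_mem _ (C.dec.le_orth hj.symm ha₁) hb₂
  obtain ⟨e, he, he0, hQe⟩ := exists_singular_sub Q (P := D j₁) (by rw [C.dec.finrank_eq]; omega)
  obtain ⟨n, hn, hQn, hen⟩ := exists_nonsingular_orth_one Q C.nd (C.dec.nondeg j₁)
    (by rw [C.dec.finrank_eq]; omega) e
  obtain ⟨s, hs0, hs⟩ : ∃ s : F, s ≠ 0 ∧ Q n * (s * s) ≠ Q z := by
    by_cases h : Q n * (1 * 1) = Q z
    · refine ⟨δ, hδ, fun h' => ?_⟩
      have h3 : Q n * (δ * δ - 1) = 0 := by linear_combination h' - h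
      rcases mul_eq_zero.1 h3 with h4 | h4
      · exact hQn h4
      · exact hδ1 (sub_eq_zero.1 h4)
    · exact ⟨1, one_ne_zero, h⟩
  obtain ⟨a₁', ha₁', hQa₁', hd₁⟩ := exists_same_norm_dist Q h2 (C.dec.nondeg j₁)
    (by rw [C.dec.finrank_eq]; omega) ha₁ hQa₁ (Q n * (s * s))
  obtain ⟨a₂', ha₂', hQa₂', hd₂⟩ := exists_same_norm_dist Q h2 (C.dec.nondeg j₂)
    (by rw [C.dec.finrank_eq]; omega) ha₂ hQa₂ (Q z - Q n * (s * s))
  obtain ⟨h₁, hΩ₁, hf₁, hh₁⟩ := C.dec.exists_move C.nd h2 C.card hk ha₁ ha₁' hQa₁'.symm hQa₁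
  obtain ⟨h₂, hΩ₂, hf₂, hh₂⟩ := C.dec.exists_move C.nd h2 C.card hk ha₂ ha₂' hQa₂'.symm hQa₂
  obtain ⟨z', hz'def⟩ : ∃ z', z' = a₁' + a₂' + (z - a₁ - a₂) := ⟨_, rfl⟩
  have hz' : (h₁ * h₂) ⋆ z = z' := by
    have : z = a₂ + (a₁ + (z - a₁ - a₂)) := by abel
    conv_lhs => rw [this]
    rw [mul_mulVec, Matrix.mulVec_add, hh₂, (mem_fixer Q).1 hf₂ _
      (Submodule.add_mem _ (C.dec.le_orth hj.symm ha₁) hb₂), Matrix.mulVec_add,
      Matrix.mulVec_add, hh₁, (mem_fixer Q).1 hf₁ _ (C.dec.le_orth hj ha₂'),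
      (mem_fixer Q).1 hf₁ _ hbj₁, hz'def]
    abel
  have hrel := C.rel_map hz (mul_mem (C.fixer_mem hΩ₁ hf₁) (C.fixer_mem hΩ₂ hf₂))
  have hQz' : Q z' = Q z := by rw [← hz', iso_apply (Q := ⇑Q)]
  rw [hz'] at hrel
  have hdiff : z - z' = (a₁ - a₁') + (a₂ - a₂') := by rw [hz'def]; abel
  have hQdiff : Q (z - z') = Q z := by
    rw [hdiff, Q_add, hd₁, hd₂, C.dec.orth j₁ j₂ hj _ ((D j₁).sub_mem ha₁ ha₁') _
      ((D j₂).sub_mem ha₂ ha₂')]
    ring
  have hB : 𝐁 z z' = Q z := by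
    have := Q_sub Q z z'
    rw [hQdiff, hQz'] at this
    linear_combination this
  have hr : reflO' Q z ⋆ z' = z' - z := by
    rw [reflO'_apply, hB, inv_mul_cancel₀ hQz, one_smul]
  have hgood : Good Q D M (z' - z) := by
    rw [← hr]
    exact hz.of_rel (hrel.refl_move.trans hrel.symm)
  have hQsn : Q (a₁' - a₁) = Q (s • n) := by
    rw [← neg_sub, QuadraticMap.map_neg, hd₁, QuadraticMap.map_smul, smul_eq_mul]
    ring
  have hQsn0 : Q (a₁' - a₁) ≠ 0 := by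
    rw [← neg_sub, QuadraticMap.map_neg, hd₁]
    exact mul_ne_zero hQn (mul_ne_zero hs0 hs0)
  obtain ⟨h₃, hΩ₃, hf₃, hh₃⟩ := C.dec.exists_move C.nd h2 C.card hk
    ((D j₁).sub_mem ha₁' ha₁) ((D j₁).smul_mem s hn) hQsn hQsn0
  have hgood' := C.good_map hgood (C.fixer_mem hΩ₃ hf₃)
  have h4 : h₃ ⋆ (z' - z) = s • n + (a₂' - a₂) := by
    have : z' - z = (a₁' - a₁) + (a₂' - a₂) := by rw [hz'def]; abel
    rw [this, Matrix.mulVec_add, hh₃, (mem_fixer Q).1 hf₃ _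
      (C.dec.le_orth hj ((D j₂).sub_mem ha₂' ha₂))]
  rw [h4] at hgood'
  have hBnn : 𝐁 n n ≠ 0 := by
    rw [QuadraticMap.polar_self, two_smul, ← two_mul]
    exact mul_ne_zero h2 hQn
  refine C.crux_of_good hgood' (a := s • n) (d := e) (c' := n) (j := j₁) ?_ ?_ he he0 hQe ?_ hn hen
    ?_
  · rw [add_sub_cancel_left]
    exact C.dec.le_orth hj ((D j₂).sub_mem ha₂' ha₂)
  · intro hcon
    have h5 : a₂' - a₂ ∈ D j₁ := by
      have := (D j₁).sub_mem hcon ((D j₁).smul_mem s hn)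
      rwa [add_sub_cancel_left] at this
    have h6 := C.dec.disj hj h5 ((D j₂).sub_mem ha₂' ha₂)
    have h7 : Q (a₂ - a₂') = 0 := by
      rw [← neg_sub, h6]
      simp
    rw [hd₂] at h7
    exact hs (sub_eq_zero.1 h7).symm
  · rw [QuadraticMap.polar_smul_right, hen, smul_zero]
  · rw [QuadraticMap.polar_smul_left, smul_eq_mul]
    exact mul_ne_zero hs0 hBnn

/-- A good vector outside the blocks yields a Siegel transformation. -/
theorem Ctx.partE (C : Ctx Q M k D) (hex : 5 ≤ k ∨ ∃ δ : F, δ ≠ 0 ∧ δ * δ ≠ 1) {z : ι → F}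
    (hz : Good Q D M z) (hzb : ∀ i, z ∉ D i) : Crux Q D M := by
  rcases hex with h5 | ⟨δ, hδ, hδ1⟩
  · exact C.partE_five h5 hz hzb
  · exact C.partE_delta hδ hδ1 hz hzb

/-- An overgroup which does not stabilise the decomposition contains a Siegel transformation
centred in a block and not preserving it. -/
theorem Ctx.crux (C : Ctx Q M k D) (hex : 5 ≤ k ∨ (k = 3 ∧ ∃ δ : F, δ ≠ 0 ∧ δ * δ ≠ 1))
    (hM : ¬ M ≤ dstab Q D) : Crux Q D M := by
  by_contra hcrux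
  apply hM
  apply C.partD ?_ ?_ ?_ hcrux
  · rcases hex with h5 | ⟨-, h⟩
    · left; omega
    · right; exact h
  · rcases hex with h5 | ⟨h3, -⟩
    · left; exact h5
    · right; exact h3
  · intro z hz
    by_contra hcon
    push Not at hcon
    apply hcrux
    apply C.partE ?_ hz hcon
    rcases hex with h5 | ⟨-, h⟩
    · left; exact h5
    · right; exact h

end Cfsg.Agent.Lib.Helper49DecB
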