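import Mathlib
import Cfsg.Prelude.Def_Classical
import Cfsg.Prelude.Def_ClassicalGeometry
import Cfsg.Prelude.Def_GeometricClasses
import Cfsg.Agent.Lib.Helper49DecB
import Cfsg.Agent.Lib.Helper49Bridge

/-!
# Orthogonal decompositions: overgroups of the stabiliser, second part
-/

set_option autoImplicit false
set_option linter.unusedSectionVars false

namespace Cfsg.Agent.Lib.Helper49DecC

open scoped Matrix
open Module
open Cfsg.Agent.Lib.Helper49Orth Cfsg.Agent.Lib.Helper49Hyp Cfsg.Agent.Lib.Helper18Hyp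
  Cfsg.Agent.Lib.Helper49Eich Cfsg.Agent.Lib.Helper49Geo Cfsg.Agent.Lib.Helper49EichGen
  Cfsg.Agent.Lib.Helper49Fam Cfsg.Agent.Lib.Helper49Trans Cfsg.Agent.Lib.Helper49CharTwoA
  Cfsg.Agent.Lib.Helper49Fam3 Cfsg.Agent.Lib.Helper49Par Cfsg.Agent.Lib.Helper49Witt2
  Cfsg.Agent.Lib.Helper49Frame Cfsg.Agent.Lib.Helper49Sub Cfsg.Agent.Lib.Helper49DecA
  Cfsg.Agent.Lib.Helper49DecB Cfsg.Agent.Lib.Helper49Bridge

variable {F : Type*} [Field F]
variable {ι : Type} [Fintype ι] [DecidableEq ι] {Q : QuadraticForm F (ι → F)}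

local notation "𝐁" => QuadraticMap.polar (DFunLike.coe Q)
local notation:max W "ᗮ" => LinearMap.BilinForm.orthogonal (QuadraticMap.polarBilin Q) W
local notation:72 g:72 " ⋆ " x:73 => Matrix.mulVec (Units.val (Subtype.val g)) x

theorem exists_third {t : ℕ} (ht : 3 ≤ t) (j l : Fin t) : ∃ i : Fin t, i ≠ j ∧ i ≠ l := by
  by_cases h0 : j.val ≠ 0 ∧ l.val ≠ 0
  · exact ⟨⟨0, by omega⟩, fun h => h0.1 (by rw [← h]), fun h => h0.2 (by rw [← h])⟩
  by_cases h1 : j.val ≠ 1 ∧ l.val ≠ 1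
  · exact ⟨⟨1, by omega⟩, fun h => h1.1 (by rw [← h]), fun h => h1.2 (by rw [← h])⟩
  · refine ⟨⟨2, by omega⟩, fun h => ?_, fun h => ?_⟩
    · have : j.val = 2 := by rw [← h]
      omega
    · have : l.val = 2 := by rw [← h]
      omega

/-- A nonsingular vector of a nondegenerate subspace not orthogonal to a given nonzero vector. -/
theorem exists_nonsingular_not_orth (h2 : (2 : F) ≠ 0) {W : Submodule F (ι → F)}
    (hW : W ⊓ Wᗮ = ⊥) {b : ι → F} (hb : b ∈ W) (hb0 : b ≠ 0) : ∃ x ∈ W, Q x ≠ 0 ∧ 𝐁 x b ≠ 0 := by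
  obtain ⟨w, hwW, -, hns, hspan⟩ := exists_orth_family Q h2 hW rfl
  obtain ⟨y, hy, hby⟩ := exists_polar_ne_zero_sub Q hW hb hb0
  obtain ⟨c, rfl⟩ := hspan y hy
  have h1 : 𝐁 b (∑ i, c i • w i) = ∑ i, c i * 𝐁 b (w i) := by
    have := map_sum (QuadraticMap.polarBilin Q b) (fun i => c i • w i) Finset.univ
    simp only [QuadraticMap.polarBilin_apply_apply, QuadraticMap.polar_smul_right,
      smul_eq_mul] at this
    exact this
  rw [h1] at hby
  obtain ⟨i, -, hi⟩ := Finset.exists_ne_zero_of_sum_ne_zero hby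
  refine ⟨w i, hwW i, hns i, ?_⟩
  rw [QuadraticMap.polar_comm]
  exact right_ne_zero_of_mul hi

variable {M : Subgroup ↥(Cfsg.isometryGroup F ⇑Q)}
variable {t k : ℕ} {D : Fin t → Submodule F (ι → F)}
variable [Fintype F]

/-- The vectors `w` orthogonal to the block of `e` with `E e w ∈ M` form a subspace. -/
theorem _root_.Cfsg.Agent.Lib.Helper49DecB.Ctx.exists_A (C : Ctx Q M k D) {j : Fin t} {e : ι → F} (he : e ∈ D j) (he0 : e ≠ 0)
    (hQe : Q e = 0) :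
    ∃ A : Submodule F (ι → F), ∀ w, w ∈ A ↔ (w ∈ (D j)ᗮ ∧ E Q e w ∈ M) := by
  have h2 := C.two
  have horth : ∀ w ∈ (D j)ᗮ, 𝐁 e w = 0 := fun w hw => mem_orth.1 hw e he
  have hzero : E Q e 0 ∈ M := by
    have := E_smul_self Q hQe 0
    rw [zero_smul] at this
    rw [this]
    exact M.one_mem
  have hadd : ∀ w w', (w ∈ (D j)ᗮ ∧ E Q e w ∈ M) → (w' ∈ (D j)ᗮ ∧ E Q e w' ∈ M) →
      (w + w' ∈ (D j)ᗮ ∧ E Q e (w + w') ∈ M) := by
    rintro w w' ⟨hw, hwM⟩ ⟨hw', hwM'⟩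
    refine ⟨Submodule.add_mem _ hw hw', ?_⟩
    rw [← E_mul Q hQe (horth w hw) (horth w' hw')]
    exact M.mul_mem hwM hwM'
  have hneg : ∀ w, (w ∈ (D j)ᗮ ∧ E Q e w ∈ M) → (-w ∈ (D j)ᗮ ∧ E Q e (-w) ∈ M) := by
    rintro w ⟨hw, hwM⟩
    refine ⟨Submodule.neg_mem _ hw, ?_⟩
    rw [← E_inv Q hQe (horth w hw)]
    exact M.inv_mem hwM
  have hsq : ∀ (μ : F) w, (w ∈ (D j)ᗮ ∧ E Q e w ∈ M) →
      ((μ * μ) • w ∈ (D j)ᗮ ∧ E Q e ((μ * μ) • w) ∈ M) := by
    rintro μ w ⟨hw, hwM⟩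
    refine ⟨Submodule.smul_mem _ _ hw, ?_⟩
    by_cases hμ : μ = 0
    · rw [hμ, zero_mul, zero_smul]
      exact hzero
    · obtain ⟨h, hΩ, hfix, hhe⟩ := C.dec.exists_torus C.nd C.card he he0 hQe hμ
      have hhM : h ∈ M := C.le (C.fixer_mem hΩ hfix)
      have h1 := M.mul_mem (M.mul_mem hhM hwM) (M.inv_mem hhM)
      rwa [E_conj Q h hQe (horth w hw), hhe, (mem_fixer Q).1 hfix w hw,
        E_smul Q hQe (horth w hw)] at h1
  refine ⟨{ carrier := {w | w ∈ (D j)ᗮ ∧ E Q e w ∈ M}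
            add_mem' := fun {a b} ha hb => hadd a b ha hb
            zero_mem' := ⟨Submodule.zero_mem _, hzero⟩
            smul_mem' := ?_ }, fun w => Iff.rfl⟩
  intro c w hw
  have h1 : c • w = (((c + 1) / 2) * ((c + 1) / 2)) • w + -((((c - 1) / 2) * ((c - 1) / 2)) • w) := by
    rw [← neg_smul, ← add_smul]
    congr 1
    field_simp
    ring
  rw [h1]
  exact hadd _ _ (hsq _ w hw) (hneg _ (hsq _ w hw))

theorem _root_.Cfsg.Agent.Lib.Helper49DecB.Ctx.A_inv (_C : Ctx Q M k D) {j : Fin t} {e : ι → F} (he : e ∈ D j) (hQe : Q e = 0)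
    {A : Submodule F (ι → F)} (hA : ∀ w, w ∈ A ↔ (w ∈ (D j)ᗮ ∧ E Q e w ∈ M))
    {h : ↥(Cfsg.isometryGroup F ⇑Q)} (hh : h ∈ M) (hfix : ∀ y ∈ D j, h ⋆ y = y) {w : ι → F}
    (hw : w ∈ A) : h ⋆ w ∈ A := by
  obtain ⟨hw1, hw2⟩ := (hA w).1 hw
  rw [hA]
  refine ⟨?_, ?_⟩
  · rw [mem_orth]
    intro y hy
    have h1 := polar_iso Q h y w
    rw [hfix y hy] at h1
    rw [h1]
    exact mem_orth.1 hw1 y hy
  · have h1 := M.mul_mem (M.mul_mem hh hw2) (M.inv_mem hh)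
    rwa [E_conj Q h hQe (mem_orth.1 hw1 e he), hfix e he] at h1

theorem _root_.Cfsg.Agent.Lib.Helper49DecB.Ctx.block_le_A (C : Ctx Q M k D) (hex : 4 ≤ k ∨ ∃ δ : F, δ ≠ 0 ∧ δ * δ ≠ 1)
    {j l : Fin t} (hlj : l ≠ j) {e : ι → F} (he : e ∈ D j) (hQe : Q e = 0)
    {A : Submodule F (ι → F)} (hA : ∀ w, w ∈ A ↔ (w ∈ (D j)ᗮ ∧ E Q e w ∈ M))
    {b : ι → F} (hbA : b ∈ A) (hbl : b ∈ D l) (hb0 : b ≠ 0) : D l ≤ A := by
  have hk := C.hk
  obtain ⟨l'', hl''j, hl''l⟩ := exists_third C.ht j l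
  have hrefl : ∀ y ∈ D l, Q y ≠ 0 → ∀ w ∈ A, w ∈ D l → reflO' Q y ⋆ w ∈ A := by
    intro y hy hQy w hwA hwl
    obtain ⟨y', hy', hQy'⟩ := exists_Q_eq_sub Q C.two (C.dec.nondeg l'')
      (by rw [C.dec.finrank_eq]; omega) (Q y)
    have hmem := C.le (C.dec.rr_mem C.nd C.card (by omega) hy hy' hQy (hQy' ▸ hQy)
      ⟨Q y, by rw [hQy']⟩)
    have := C.A_inv he hQe hA hmem (fun z hz => by
      rw [mul_mulVec, reflO'_of_orth Q (C.dec.orth l'' j hl''j _ hy' _ hz),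
        reflO'_of_orth Q (C.dec.orth l j hlj _ hy _ hz)]) hwA
    rwa [mul_mulVec, reflO'_of_orth Q (C.dec.orth l'' l hl''l _ hy' _ hwl)] at this
  have hcl : ∀ x ∈ A, x ∈ D l → ∀ y ∈ D l, Q y ≠ 0 → 𝐁 x y ≠ 0 → y ∈ A := by
    intro x hxA hxl y hy hQy hxy
    have h1 := hrefl y hy hQy x hxA hxl
    rw [reflO'_apply] at h1
    have h3 := A.sub_mem hxA h1
    rw [sub_sub_cancel] at h3
    have h4 : (Q y)⁻¹ * 𝐁 y x ≠ 0 :=
      mul_ne_zero (inv_ne_zero hQy) (by rwa [QuadraticMap.polar_comm])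
    have := A.smul_mem ((Q y)⁻¹ * 𝐁 y x)⁻¹ h3
    rwa [smul_smul, inv_mul_cancel₀ h4, one_smul] at this
  obtain ⟨x₀, hx₀l, hQx₀, hx₀b⟩ := exists_nonsingular_not_orth C.two (C.dec.nondeg l) hbl hb0
  have hx₀A : x₀ ∈ A := hcl b hbA hbl x₀ hx₀l hQx₀ (by rwa [QuadraticMap.polar_comm])
  apply span_lemma Q C.two (C.dec.nondeg l) (by rw [C.dec.finrank_eq]; omega)
    (by rw [C.dec.finrank_eq]; exact hex) hx₀l hx₀A hQx₀
  intro x hx y hy hxl _ _ hQy _ hxy
  exact hcl x hx hxl y hy hQy hxy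

/-- A Siegel transformation centred in a block and not preserving it generates `Ω` together with
the stabiliser. -/
theorem _root_.Cfsg.Agent.Lib.Helper49DecB.Ctx.partF (C : Ctx Q M k D) (hex : 4 ≤ k ∨ ∃ δ : F, δ ≠ 0 ∧ δ * δ ≠ 1)
    (hc : Crux Q D M) : Cfsg.Omega F ⇑Q ≤ M := by
  have hk := C.hk
  have h2 := C.two
  obtain ⟨j, e, a, he, he0, hQe, hea, haj, hE⟩ := hc
  obtain ⟨A, hA⟩ := C.exists_A he he0 hQe
  obtain ⟨p, hp, hap⟩ := exists_proj Q C.nd (C.dec.nondeg j) a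
  have hep : 𝐁 e p = 0 := by
    have : p = a - (a - p) := by abel
    rw [this, QuadraticMap.polar_sub_right, hea, mem_orth.1 hap e he, sub_zero]
  have ha'A : a - p ∈ A := by
    rw [hA]
    refine ⟨hap, ?_⟩
    have h1 := M.mul_mem hE (M.inv_mem (C.le (C.dec.E_mem C.nd C.card (by omega) he hp hQe hep)))
    rwa [E_inv Q hQe hep, E_mul Q hQe hea (by rw [QuadraticMap.polar_neg_right, hep, neg_zero]),
      ← sub_eq_add_neg] at h1
  have ha'0 : a - p ≠ 0 := fun h => haj (by rw [sub_eq_zero.1 h]; exact hp)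
  obtain ⟨l, b₀, hb₀, hb₀0, hb₀'⟩ := C.exists_comp ha'0
  have hlj : l ≠ j := by
    rintro rfl
    apply hb₀0
    rw [← Submodule.mem_bot F, ← C.dec.nondeg l]
    refine ⟨hb₀, ?_⟩
    have := Submodule.sub_mem _ hap hb₀'
    rwa [sub_sub_cancel] at this
  obtain ⟨x, hx, hQx, hxb⟩ := exists_nonsingular_not_orth h2 (C.dec.nondeg l) hb₀ hb₀0
  obtain ⟨x'', hx'', hxx'', hQx''⟩ := exists_norm_perp Q h2 (C.dec.nondeg l)
    (by rw [C.dec.finrank_eq]; omega) hx hQx (Q x)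
  obtain ⟨h, hh⟩ : ∃ h, h = reflO' Q x * reflO' Q x'' := ⟨_, rfl⟩
  have hhM : h ∈ M := by
    rw [hh]
    exact C.le (C.dec.rr_mem C.nd C.card (by omega) hx hx'' hQx (hQx'' ▸ hQx)
      ⟨Q x, by rw [hQx'']⟩)
  have hhfix : h ∈ fixer Q (D l)ᗮ := by
    rw [hh]
    exact mul_mem (reflO'_mem_fixer' Q hx) (reflO'_mem_fixer' Q hx'')
  have hfixj : ∀ y ∈ D j, h ⋆ y = y :=
    fun y hy => (mem_fixer Q).1 hhfix y (C.dec.le_orth hlj hy)
  have h1 := C.A_inv he hQe hA hhM hfixj ha'A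
  have h3 : h ⋆ (a - p) - (a - p) = h ⋆ b₀ - b₀ := by
    have h4 : h ⋆ (a - p) = h ⋆ b₀ + (a - p - b₀) := by
      have : a - p = b₀ + (a - p - b₀) := by abel
      conv_lhs => rw [this]
      rw [Matrix.mulVec_add, (mem_fixer Q).1 hhfix _ hb₀']
    rw [h4]
    abel
  have hbA : h ⋆ b₀ - b₀ ∈ A := by
    rw [← h3]
    exact A.sub_mem h1 ha'A
  have hbl : h ⋆ b₀ - b₀ ∈ D l := (D l).sub_mem (fixer_maps Q C.nd hhfix hb₀) hb₀
  have hb_ne : h ⋆ b₀ - b₀ ≠ 0 := by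
    intro h0
    have h5 : 𝐁 x (h ⋆ b₀ - b₀) = 0 := by rw [h0]; simp
    rw [hh, mul_mulVec, reflO'_apply, reflO'_apply] at h5
    simp only [QuadraticMap.polar_sub_right, QuadraticMap.polar_smul_right, hxx'',
      QuadraticMap.polar_self, smul_eq_mul, mul_zero, sub_zero, nsmul_eq_mul,
      Nat.cast_ofNat] at h5
    apply hxb
    have h6 : (Q x)⁻¹ * 𝐁 x b₀ * (2 * Q x) = 2 * 𝐁 x b₀ := by
      field_simp
    have h7 : 2 * 𝐁 x b₀ = 0 := by
      rw [← h6]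
      linear_combination -h5
    exact (mul_eq_zero.1 h7).resolve_left h2
  have hDl := C.block_le_A hex hlj he hQe hA hbA hbl hb_ne
  have hall : ∀ i, i ≠ j → D i ≤ A := by
    intro i hij
    by_cases hil : i = l
    · rw [hil]; exact hDl
    obtain ⟨s, hs, -, hs2, hs3⟩ := C.dec.exists_swap C.nd h2 C.card (by omega) (l := l) (l' := i)
      (Ne.symm hil)
    intro y hy
    have h5 : s ⋆ y ∈ A := hDl (hs2 y hy)
    have h6 := C.A_inv he hQe hA (M.inv_mem (C.le hs)) (fun z hz => by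
      have h7 := hs3 j (Ne.symm hlj) (Ne.symm hij) z hz
      conv_lhs => rw [← h7]
      exact inv_mulVec_mulVec Q s z) h5
    rwa [inv_mulVec_mulVec] at h6
  have hperp : (D j)ᗮ ≤ A := by
    have htop : (⊤ : Submodule F (ι → F)) ≤ A ⊔ D j := by
      rw [← C.dec.top]
      apply iSup_le
      intro i
      by_cases hij : i = j
      · rw [hij]; exact le_sup_right
      · exact (hall i hij).trans le_sup_left
    intro w hw
    obtain ⟨a₀, ha₀, d₀, hd₀, hsum⟩ := Submodule.mem_sup.1 (htop (Submodule.mem_top : w ∈ ⊤))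
    have hd0 : d₀ = 0 := by
      rw [← Submodule.mem_bot F, ← C.dec.nondeg j]
      refine ⟨hd₀, ?_⟩
      have : d₀ = w - a₀ := by rw [← hsum]; abel
      rw [this]
      exact Submodule.sub_mem _ hw ((hA a₀).1 ha₀).1
    rw [← hsum, hd0, add_zero]
    exact ha₀
  have hroot : e ∈ RootSet Q M := by
    refine ⟨he0, hQe, fun w hew => ?_⟩
    obtain ⟨p', hp', hwp⟩ := exists_proj Q C.nd (C.dec.nondeg j) w
    have hep' : 𝐁 e p' = 0 := by
      have : p' = w - (w - p') := by abel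
      rw [this, QuadraticMap.polar_sub_right, hew, mem_orth.1 hwp e he, sub_zero]
    have h5 := M.mul_mem (C.le (C.dec.E_mem C.nd C.card (by omega) he hp' hQe hep'))
      ((hA _).1 (hperp hwp)).2
    rwa [E_mul Q hQe hep' (mem_orth.1 hwp e he), add_sub_cancel] at h5
  obtain ⟨f, hf, hQf, hef⟩ := exists_hyp_partner_sub Q (C.dec.nondeg j) he he0 hQe
  obtain ⟨w₀, hw₀, hQw₀, hfw₀⟩ := exists_nonsingular_orth_one Q C.nd (C.dec.nondeg j)
    (by rw [C.dec.finrank_eq]; omega) f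
  have hroot' := RootSet_map Q hroot
    (C.le (C.dec.E_mem C.nd C.card (by omega) hf hw₀ hQf hfw₀))
  refine Omega_le_of_pair Q C.nd C.card hroot hroot' ?_
  rw [E_apply Q hQf hfw₀]
  simp only [QuadraticMap.polar_sub_right, QuadraticMap.polar_add_right,
    QuadraticMap.polar_smul_right, polar_self_of_singular Q hQe, hef, smul_eq_mul]
  intro h5
  apply hQw₀
  linear_combination -h5

/-- The main theorem on overgroups. -/
theorem _root_.Cfsg.Agent.Lib.Helper49DecB.Ctx.main (C : Ctx Q M k D) (hex : 5 ≤ k ∨ (k = 3 ∧ ∃ δ : F, δ ≠ 0 ∧ δ * δ ≠ 1))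
    (hM : ¬ M ≤ dstab Q D) : Cfsg.Omega F ⇑Q ≤ M := by
  apply C.partF ?_ (C.crux hex hM)
  rcases hex with h5 | ⟨-, h⟩
  · left; omega
  · right; exact h

omit [Fintype F] in
theorem finrank_sup_eq (hind : iSupIndep D) (s : Finset (Fin t)) :
    finrank F (s.sup D : Submodule F (ι → F)) = ∑ i ∈ s, finrank F (D i) := by
  classical
  induction s using Finset.induction_on with
  | empty => simp
  | insert a s ha ih =>
    rw [Finset.sup_insert, Finset.sum_insert ha]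
    have h1 := Submodule.finrank_sup_add_finrank_inf_eq (D a) (s.sup D)
    have h3 : Disjoint (D a) (s.sup D) :=
      (hind.supIndep' (insert a s)) (Finset.subset_insert a s) (Finset.mem_insert_self a s) ha
    rw [disjoint_iff.1 h3, finrank_bot] at h1
    omega

omit [Fintype F] in
theorem mul_eq_card (hD : Cfsg.Geo.IsOrthogonalMDecomposition ⇑Q k D) :
    t * k = Fintype.card ι := by
  have h1 := finrank_sup_eq hD.decomp.decomp.indep Finset.univ
  rw [Finset.sup_univ_eq_iSup, hD.decomp.decomp.iSup_eq_top, finrank_top,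
    Module.finrank_fintype_fun_eq_card] at h1
  simp only [hD.decomp.decomp.finrank_eq, Finset.sum_const, Finset.card_univ, Fintype.card_fin,
    smul_eq_mul] at h1
  exact h1.symm

omit [Fintype F] in
theorem dec_of (hD : Cfsg.Geo.IsOrthogonalMDecomposition ⇑Q k D) : Dec Q k D where
  finrank_eq := hD.decomp.decomp.finrank_eq
  orth := fun i j hij u hu v hv => hD.decomp.orthogonal i j hij u hu v hv
  nondeg := by
    intro i
    rw [eq_bot_iff]
    rintro w ⟨hw, hw'⟩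
    rw [Submodule.mem_bot]
    by_contra h0
    obtain ⟨⟨y, hy, hyw⟩, -⟩ := hD.decomp.nondegenerate i w hw h0
    exact hyw (mem_orth.1 hw' y hy)
  top := hD.decomp.decomp.iSup_eq_top
  iso := hD.isometric

theorem not_Omega_le_dstab (H : Dec Q k D) (hQ : (QuadraticMap.polarBilin Q).Nondegenerate)
    (h2 : (2 : F) ≠ 0) (hn : 5 ≤ Fintype.card ι) (hk : 3 ≤ k) (ht : 2 ≤ t) :
    ¬ Cfsg.Omega F ⇑Q ≤ dstab Q D := by
  intro hle
  obtain ⟨i0, hi0⟩ : ∃ i : Fin t, i = ⟨0, by omega⟩ := ⟨_, rfl⟩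
  obtain ⟨i1, hi1⟩ : ∃ i : Fin t, i = ⟨1, by omega⟩ := ⟨_, rfl⟩
  have h01 : i0 ≠ i1 := by
    rw [hi0, hi1]
    simp [Fin.ext_iff]
  obtain ⟨e, he, he0, hQe⟩ := exists_singular_sub Q (P := D i0) (by rw [H.finrank_eq]; omega)
  obtain ⟨f, hf, hQf, hef⟩ := exists_hyp_partner_sub Q (H.nondeg i0) he he0 hQe
  obtain ⟨a, ha, hQa⟩ := exists_Q_eq_sub Q h2 (H.nondeg i1) (by rw [H.finrank_eq]; omega) 1
  have hea : 𝐁 e a = 0 := H.orth i0 i1 h01 _ he _ ha
  have hfa : 𝐁 f a = 0 := H.orth i0 i1 h01 _ hf _ ha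
  obtain ⟨σ, hσ⟩ := dstab_apply Q (hle (E_mem_Omega Q hQ hn hQe hea))
  have h1 := hσ i0 f hf
  rw [E_apply Q hQe hea, hfa, QuadraticMap.polar_comm ⇑Q f e, hef, hQa] at h1
  by_cases hi : σ i0 = i0
  · rw [hi] at h1
    have h3 : a ∈ D i0 := by
      have := (D i0).sub_mem ((D i0).add_mem hf ((D i0).smul_mem (0 - 1 * 1 : F) he)) h1
      simpa using this
    have h4 := H.disj h01 h3 ha
    rw [h4] at hQa
    simp at hQa
  · have h3 := H.orth i0 (σ i0) (Ne.symm hi) _ he _ h1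
    simp only [QuadraticMap.polar_sub_right, QuadraticMap.polar_add_right,
      QuadraticMap.polar_smul_right, polar_self_of_singular Q hQe, hef, hea, smul_eq_mul] at h3
    simp at h3

/-- Maximality of the stabiliser of an orthogonal decomposition into at least three blocks of
dimension three (over fields with more than three elements) or at least five. -/
theorem decomposition_max [DecidableEq F] (Q : QuadraticForm F (ι → F))
    (hQ : (QuadraticMap.polarBilin Q).Nondegenerate)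
    (h2 : (2 : F) ≠ 0) (hn : 5 ≤ Fintype.card ι) (hk : 5 ≤ k ∨ (k = 3 ∧ 3 < Fintype.card F))
    (ht : 3 ≤ t) (hD : Cfsg.Geo.IsOrthogonalMDecomposition ⇑Q k D) :
    Cfsg.Geo.IsMaximalIn (Cfsg.Geo.omegaGL ⇑Q)
      (Cfsg.Geo.decompositionStabilizer D ⊓ Cfsg.Geo.omegaGL ⇑Q) := by
  have H := dec_of hD
  have hk3 : 3 ≤ k := by
    rcases hk with h | ⟨h, -⟩ <;> omega
  apply isMaximalIn_omegaGL Q _ (dstab Q D) (fun g => Iff.rfl)
    (not_Omega_le_dstab H hQ h2 hn hk3 (by omega))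
  intro M hle hM
  have C : Ctx Q M k D :=
    { dec := H, nd := hQ, two := h2, card := hn, hk := hk3, ht := ht, le := hle }
  apply C.main ?_ hM
  rcases hk with h | ⟨h, hq⟩
  · left; exact h
  · right; exact ⟨h, exists_delta hq⟩

end Cfsg.Agent.Lib.Helper49DecC
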