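import Mathlib
import Cfsg.Prelude.Def_Classical
import Cfsg.Prelude.Def_ClassicalGeometry
import Cfsg.Prelude.Def_GeometricClasses
import Cfsg.Agent.Lib.Helper49DecC

/-!
# Orthogonal decompositions into small blocks of plus type over small fields: non-maximality
-/

set_option autoImplicit false
set_option linter.unusedSectionVars false

namespace Cfsg.Agent.Lib.Helper49NM

open scoped Matrix
open Module
open Cfsg.Agent.Lib.Helper49Orth Cfsg.Agent.Lib.Helper49Hyp Cfsg.Agent.Lib.Helper18Hyp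
  Cfsg.Agent.Lib.Helper49Eich Cfsg.Agent.Lib.Helper49Geo Cfsg.Agent.Lib.Helper49EichGen
  Cfsg.Agent.Lib.Helper49Fam Cfsg.Agent.Lib.Helper49Trans Cfsg.Agent.Lib.Helper49CharTwoA
  Cfsg.Agent.Lib.Helper49Fam3 Cfsg.Agent.Lib.Helper49Par Cfsg.Agent.Lib.Helper49Witt2
  Cfsg.Agent.Lib.Helper49Frame Cfsg.Agent.Lib.Helper49Sub Cfsg.Agent.Lib.Helper49DecA
  Cfsg.Agent.Lib.Helper49DecB Cfsg.Agent.Lib.Helper49DecC Cfsg.Agent.Lib.Helper49Bridge

variable {F : Type*} [Field F]
variable {ι : Type} [Fintype ι] [DecidableEq ι] {Q : QuadraticForm F (ι → F)}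

local notation "𝐁" => QuadraticMap.polar (DFunLike.coe Q)
local notation:max W "ᗮ" => LinearMap.BilinForm.orthogonal (QuadraticMap.polarBilin Q) W
local notation:72 g:72 " ⋆ " x:73 => Matrix.mulVec (Units.val (Subtype.val g)) x

variable {t k : ℕ} {D : Fin t → Submodule F (ι → F)}

/-- The general scheme: the stabiliser of a set of vectors lies strictly between. -/
theorem not_max_of_set [Fintype F] (hQ : (QuadraticMap.polarBilin Q).Nondegenerate)
    (hn : 5 ≤ Fintype.card ι) (X : Set (ι → F)) (h1 : dstab Q D ≤ setStab Q X)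
    {g : ↥(Cfsg.isometryGroup F ⇑Q)} (hgΩ : g ∈ Cfsg.Omega F ⇑Q) (hgX : g ∈ setStab Q X)
    (hgD : g ∉ dstab Q D) {x u : ι → F} (hx : x ∈ X) (hu : u ∉ X) (hQx : Q x ≠ 0)
    (hQxu : Q x = Q u) :
    ∃ K : Subgroup (Matrix.GeneralLinearGroup ι F),
      Cfsg.Geo.decompositionStabilizer D ⊓ Cfsg.Geo.omegaGL ⇑Q < K ∧
        K < Cfsg.Geo.omegaGL ⇑Q := by
  apply exists_between_omegaGL Q (Cfsg.Geo.decompositionStabilizer D) (dstab Q D) (setStab Q X)
  · intro g _
    exact Iff.rfl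
  · exact fun g hg => h1 hg.1
  · exact ⟨g, hgΩ, hgX, hgD⟩
  · obtain ⟨s, hs, hsu⟩ := TT_transitive Q hQ hn hQx hQxu
    refine ⟨s, TT_le_Omega Q hQ hn hs, fun hmem => hu ?_⟩
    rw [← hsu]
    exact (hmem x).1 hx

theorem dstab_le_setStab (ε : F) : dstab Q D ≤ setStab Q (blockSet Q D ε) :=
  fun g hg => decompStab_le Q D ε g hg

/-- A vector which is not orthogonal to two different blocks lies in no block. -/
theorem _root_.Cfsg.Agent.Lib.Helper49DecA.Dec.not_block (H : Dec Q k D) {i j : Fin t} (hij : i ≠ j) {w y y' : ι → F}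
    (hy : y ∈ D i) (hyw : 𝐁 y w ≠ 0) (hy' : y' ∈ D j) (hyw' : 𝐁 y' w ≠ 0) (l : Fin t) :
    w ∉ D l := by
  intro hw
  by_cases hl : l = i
  · exact hyw' (H.orth j l (by rw [hl]; exact hij.symm) _ hy' _ hw)
  · exact hyw (H.orth i l (Ne.symm hl) _ hy _ hw)

theorem not_mem_dstab {g : ↥(Cfsg.isometryGroup F ⇑Q)} {i : Fin t} {v : ι → F} (hv : v ∈ D i)
    (h : ∀ l, g ⋆ v ∉ D l) : g ∉ dstab Q D := by
  intro hg
  obtain ⟨σ, hσ⟩ := dstab_apply Q hg
  exact h _ (hσ i v hv)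

/-- A hyperbolic basis of a nondegenerate plane of plus type. -/
theorem exists_hyp_basis {W : Submodule F (ι → F)} (hW : W ⊓ Wᗮ = ⊥) (hk : finrank F W = 2)
    (hplus : Cfsg.Geo.IsPlusTypeOn ⇑Q W) :
    ∃ e f : ι → F, e ∈ W ∧ f ∈ W ∧ Q e = 0 ∧ Q f = 0 ∧ 𝐁 e f = 1 ∧
      ∀ z ∈ W, ∃ a b : F, z = a • e + b • f := by
  obtain ⟨U, hUW, hU, hUk⟩ := hplus
  have hU0 : U ≠ ⊥ := by
    intro h
    rw [h, finrank_bot] at hUk
    omega
  obtain ⟨e, heU, he0⟩ := Submodule.exists_mem_ne_zero_of_ne_bot hU0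
  have hQe : Q e = 0 := hU e heU
  obtain ⟨f, hf, hQf, hef⟩ := exists_hyp_partner_sub Q hW (hUW heU) he0 hQe
  refine ⟨e, f, hUW heU, hf, hQe, hQf, hef, ?_⟩
  have hind : LinearIndependent F ![e, f] := by
    rw [LinearIndependent.pair_iff]
    intro a b hab
    have h1 : 𝐁 e (a • e + b • f) = 0 := by rw [hab]; simp
    have h3 : 𝐁 f (a • e + b • f) = 0 := by rw [hab]; simp
    simp only [QuadraticMap.polar_add_right, QuadraticMap.polar_smul_right,
      polar_self_of_singular Q hQe, polar_self_of_singular Q hQf, hef,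
      QuadraticMap.polar_comm ⇑Q f e, smul_eq_mul] at h1 h3
    constructor
    · simpa using h3
    · simpa using h1
  have h1 := finrank_span_eq_card hind
  have hrange : Set.range ![e, f] = {e, f} := by
    ext x
    simp [eq_comm, or_comm]
  rw [hrange, Fintype.card_fin] at h1
  have hle : Submodule.span F {e, f} ≤ W := by
    rw [Submodule.span_le]
    rintro x (rfl | rfl)
    · exact hUW heU
    · exact hf
  have heq : Submodule.span F {e, f} = W :=
    Submodule.eq_of_le_of_finrank_eq hle (by rw [h1, hk])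
  intro z hz
  rw [← heq] at hz
  obtain ⟨a, b, rfl⟩ := Submodule.mem_span_pair.1 hz
  exact ⟨a, b, rfl⟩

section Two

variable [Fintype F]

theorem two_eq_zero_of_card {r : ℕ} (hq : Fintype.card F = 2 * r) (hr : (r : F) ≠ 0 ∨ r = 1) :
    (2 : F) = 0 := by
  have := Nat.cast_card_eq_zero F
  rw [hq] at this
  push_cast at this
  rcases hr with hr | hr
  · exact (mul_eq_zero.1 this).resolve_right hr
  · rw [hr] at this
    simpa using this

theorem eq_zero_or_one (hq : Fintype.card F = 2) (a : F) : a = 0 ∨ a = 1 := by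
  by_cases ha : a = 0
  · exact Or.inl ha
  · right
    have := FiniteField.pow_card_sub_one_eq_one a ha
    rw [hq] at this
    simpa using this

/-- Blocks: hyperbolic planes over the field with two elements. -/
theorem not_max_two_two (hq : Fintype.card F = 2)
    (hQ : (QuadraticMap.polarBilin Q).Nondegenerate) (hn : 5 ≤ Fintype.card ι)
    (H : Dec Q 2 D) (ht : 4 ≤ t) (hplus : ∀ i, Cfsg.Geo.IsPlusTypeOn ⇑Q (D i)) :
    ∃ K : Subgroup (Matrix.GeneralLinearGroup ι F),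
      Cfsg.Geo.decompositionStabilizer D ⊓ Cfsg.Geo.omegaGL ⇑Q < K ∧
        K < Cfsg.Geo.omegaGL ⇑Q := by
  have h2 : (2 : F) = 0 := two_eq_zero_of_card (r := 1) (by rw [hq]) (Or.inr rfl)
  have hF := eq_zero_or_one hq
  choose e f he hf hQe hQf hef hspan using
    fun i => exists_hyp_basis (H.nondeg i) (H.finrank_eq i) (hplus i)
  obtain ⟨x, hxdef⟩ : ∃ x : Fin t → ι → F, ∀ i, x i = (1 : F) • e i + (1 : F) • f i :=
    ⟨_, fun _ => rfl⟩
  have hx : ∀ i, x i ∈ D i := fun i => by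
    rw [hxdef]
    exact (D i).add_mem ((D i).smul_mem _ (he i)) ((D i).smul_mem _ (hf i))
  have hQx : ∀ i, Q (x i) = 1 := fun i => by
    rw [hxdef, Q_hyp Q (hQe i) (hQf i) (hef i), one_mul]
  have huniq : ∀ i, ∀ z ∈ D i, Q z = 1 → z = x i := by
    intro i z hz hQz
    obtain ⟨a, b, rfl⟩ := hspan i z hz
    rw [Q_hyp Q (hQe i) (hQf i) (hef i)] at hQz
    rw [hxdef]
    rcases hF a with rfl | rfl
    · simp at hQz
    · rcases hF b with rfl | rfl
      · simp at hQz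
      · rfl
  have hB : ∀ i j, 𝐁 (x i) (x j) = 0 := by
    intro i j
    by_cases hij : i = j
    · rw [hij, QuadraticMap.polar_self, hQx, two_smul]
      linear_combination h2
    · exact H.orth i j hij _ (hx i) _ (hx j)
  obtain ⟨i0, hi0⟩ : ∃ i : Fin t, i = ⟨0, by omega⟩ := ⟨_, rfl⟩
  obtain ⟨i1, hi1⟩ : ∃ i : Fin t, i = ⟨1, by omega⟩ := ⟨_, rfl⟩
  obtain ⟨i2, hi2⟩ : ∃ i : Fin t, i = ⟨2, by omega⟩ := ⟨_, rfl⟩
  obtain ⟨i3, hi3⟩ : ∃ i : Fin t, i = ⟨3, by omega⟩ := ⟨_, rfl⟩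
  have h01 : i0 ≠ i1 := by rw [hi0, hi1]; simp [Fin.ext_iff]
  have h02 : i0 ≠ i2 := by rw [hi0, hi2]; simp [Fin.ext_iff]
  have h03 : i0 ≠ i3 := by rw [hi0, hi3]; simp [Fin.ext_iff]
  have h12 : i1 ≠ i2 := by rw [hi1, hi2]; simp [Fin.ext_iff]
  have hQs : Q (x i0 + x i1) = 0 := by
    rw [Q_add, hQx, hQx, hB]
    linear_combination h2
  have hQw : Q (x i2 + x i3) = 0 := by
    rw [Q_add, hQx, hQx, hB]
    linear_combination h2
  have hsw : 𝐁 (x i0 + x i1) (x i2 + x i3) = 0 := by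
    simp only [QuadraticMap.polar_add_left, QuadraticMap.polar_add_right, hB, add_zero]
  have hfix : ∀ i, E Q (x i0 + x i1) (x i2 + x i3) ⋆ x i = x i := by
    intro i
    rw [E_apply Q hQs hsw]
    simp only [QuadraticMap.polar_add_right, hB, add_zero, mul_zero, sub_zero, zero_smul]
  have hBex : ∀ i, 𝐁 (e i) (x i) = 1 := by
    intro i
    rw [hxdef]
    simp only [QuadraticMap.polar_add_right, QuadraticMap.polar_smul_right,
      polar_self_of_singular Q (hQe i), hef, smul_eq_mul]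
    ring
  apply not_max_of_set hQ hn (blockSet Q D 1) (dstab_le_setStab 1)
    (g := E Q (x i0 + x i1) (x i2 + x i3)) (E_mem_Omega Q hQ hn hQs hsw) ?_ ?_
    (x := x i0) (u := x i0 + x i1 + x i2) ⟨i0, hx i0, hQx i0⟩ ?_ (by rw [hQx]; exact one_ne_zero) ?_
  · apply mem_setStab_of_forall
    · rintro z ⟨i, hz, hQz⟩
      rw [huniq i z hz hQz, hfix]
      exact ⟨i, hx i, hQx i⟩
    · rintro z ⟨i, hz, hQz⟩
      rw [huniq i z hz hQz]
      have : (E Q (x i0 + x i1) (x i2 + x i3))⁻¹ ⋆ x i = x i := by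
        conv_lhs => rw [← hfix i]
        exact inv_mulVec_mulVec Q _ _
      rw [this]
      exact ⟨i, hx i, hQx i⟩
  · apply not_mem_dstab (he i0)
    rw [E_apply Q hQs hsw, hQw]
    have e1 : 𝐁 (e i0) (x i2 + x i3) = 0 := by
      rw [QuadraticMap.polar_add_right, H.orth i0 i2 h02 _ (he i0) _ (hx i2),
        H.orth i0 i3 h03 _ (he i0) _ (hx i3), add_zero]
    have e2 : 𝐁 (e i0) (x i0 + x i1) = 1 := by
      rw [QuadraticMap.polar_add_right, hBex, H.orth i0 i1 h01 _ (he i0) _ (hx i1), add_zero]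
    rw [e1, e2]
    simp only [zero_mul, sub_zero, zero_smul, add_zero, one_smul]
    apply H.not_block h02 (hf i0) ?_ (he i2) ?_
    · rw [QuadraticMap.polar_sub_right, QuadraticMap.polar_add_right,
        H.orth i0 i2 h02 _ (hf i0) _ (hx i2), H.orth i0 i3 h03 _ (hf i0) _ (hx i3),
        QuadraticMap.polar_comm, hef]
      simp
    · rw [QuadraticMap.polar_sub_right, QuadraticMap.polar_add_right,
        H.orth i2 i0 h02.symm _ (he i2) _ (he i0), hBex,
        H.orth i2 i3 (by rw [hi2, hi3]; simp [Fin.ext_iff]) _ (he i2) _ (hx i3)]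
      simp
  · rintro ⟨l, hl, -⟩
    refine H.not_block h01 (he i0) ?_ (he i1) ?_ l hl
    · rw [QuadraticMap.polar_add_right, QuadraticMap.polar_add_right, hBex,
        H.orth i0 i1 h01 _ (he i0) _ (hx i1), H.orth i0 i2 h02 _ (he i0) _ (hx i2)]
      simp
    · rw [QuadraticMap.polar_add_right, QuadraticMap.polar_add_right, hBex,
        H.orth i1 i0 h01.symm _ (he i1) _ (hx i0), H.orth i1 i2 h12 _ (he i1) _ (hx i2)]
      simp
  · rw [Q_add, Q_add, hQx, hQx, hQx, hB, QuadraticMap.polar_add_left, hB, hB]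
    linear_combination -h2

end Two

section Five

variable [Fintype F]

/-- Blocks: hyperbolic planes over the field with five elements. -/
theorem not_max_two_five (hq : Fintype.card F = 5)
    (hQ : (QuadraticMap.polarBilin Q).Nondegenerate) (hn : 5 ≤ Fintype.card ι)
    (H : Dec Q 2 D) (ht : 4 ≤ t) (hplus : ∀ i, Cfsg.Geo.IsPlusTypeOn ⇑Q (D i)) :
    ∃ K : Subgroup (Matrix.GeneralLinearGroup ι F),
      Cfsg.Geo.decompositionStabilizer D ⊓ Cfsg.Geo.omegaGL ⇑Q < K ∧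
        K < Cfsg.Geo.omegaGL ⇑Q := by
  have h5 : (5 : F) = 0 := by
    have := Nat.cast_card_eq_zero F
    rw [hq] at this
    exact_mod_cast this
  have h2 : (2 : F) ≠ 0 := by
    intro h2
    have : (1 : F) = 0 := by linear_combination h5 - 2 * h2
    exact one_ne_zero this
  choose e f he hf hQe hQf hef hspan using
    fun i => exists_hyp_basis (H.nondeg i) (H.finrank_eq i) (hplus i)
  obtain ⟨x, hxdef⟩ : ∃ x : Fin t → ι → F, ∀ i, x i = (1 : F) • e i + (1 : F) • f i :=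
    ⟨_, fun _ => rfl⟩
  have hx : ∀ i, x i ∈ D i := fun i => by
    rw [hxdef]
    exact (D i).add_mem ((D i).smul_mem _ (he i)) ((D i).smul_mem _ (hf i))
  have hQx : ∀ i, Q (x i) = 1 := fun i => by
    rw [hxdef, Q_hyp Q (hQe i) (hQf i) (hef i), one_mul]
  have hFr : Frame Q D 1 x :=
    { orth := H.orth
      ne := one_ne_zero
      mem := hx
      norm := hQx
      prop := by
        intro i z hz hQz
        obtain ⟨a, b, rfl⟩ := hspan i z hz
        rw [Q_hyp Q (hQe i) (hQf i) (hef i)] at hQz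
        have ha : a ≠ 0 := by
          rintro rfl
          simp at hQz
        have h4 := FiniteField.pow_card_sub_one_eq_one a ha
        rw [hq] at h4
        have h6 : (a * a - 1) * (a * a + 1) = 0 := by
          have : a ^ (5 - 1) = a * a * (a * a) := by ring
          rw [this] at h4
          linear_combination h4
        rcases mul_eq_zero.1 h6 with h7 | h7
        · have h8 : a * a = 1 := by linear_combination h7
          have hb : b = a := by
            have : a * (b - a) = 0 := by linear_combination hQz - h8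
            exact sub_eq_zero.1 ((mul_eq_zero.1 this).resolve_left ha)
          rcases mul_self_eq_one_iff.1 h8 with h9 | h9
          · left
            rw [hb, h9, hxdef]
          · right; left
            rw [hb, h9, hxdef]
            module
        · right; right
          have hb : b = -a := by
            have : a * (b + a) = 0 := by linear_combination hQz + h7
            exact eq_neg_of_add_eq_zero_left ((mul_eq_zero.1 this).resolve_left ha)
          rw [hxdef, hb]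
          simp only [QuadraticMap.polar_add_right, QuadraticMap.polar_add_left,
            QuadraticMap.polar_smul_right, QuadraticMap.polar_smul_left,
            polar_self_of_singular Q (hQe i), polar_self_of_singular Q (hQf i), hef,
            QuadraticMap.polar_comm ⇑Q (f i) (e i), smul_eq_mul]
          ring }
  obtain ⟨i0, hi0⟩ : ∃ i : Fin t, i = ⟨0, by omega⟩ := ⟨_, rfl⟩
  obtain ⟨i1, hi1⟩ : ∃ i : Fin t, i = ⟨1, by omega⟩ := ⟨_, rfl⟩
  obtain ⟨i2, hi2⟩ : ∃ i : Fin t, i = ⟨2, by omega⟩ := ⟨_, rfl⟩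
  obtain ⟨i3, hi3⟩ : ∃ i : Fin t, i = ⟨3, by omega⟩ := ⟨_, rfl⟩
  have h01 : i0 ≠ i1 := by rw [hi0, hi1]; simp [Fin.ext_iff]
  have h02 : i0 ≠ i2 := by rw [hi0, hi2]; simp [Fin.ext_iff]
  have h03 : i0 ≠ i3 := by rw [hi0, hi3]; simp [Fin.ext_iff]
  have h12 : i1 ≠ i2 := by rw [hi1, hi2]; simp [Fin.ext_iff]
  have h23 : i2 ≠ i3 := by rw [hi2, hi3]; simp [Fin.ext_iff]
  have hd : ∀ {i j : Fin t}, i ≠ j → Q (x i - x j) ≠ 0 := by
    intro i j hij
    rw [hFr.Q_diff hij]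
    exact mul_ne_zero h2 one_ne_zero
  have hBxx : ∀ i, 𝐁 (x i) (x i) = 2 := by
    intro i
    rw [QuadraticMap.polar_self, hQx]
    simp
  apply not_max_of_set hQ hn (blockSet Q D 1) (dstab_le_setStab 1)
    (g := reflO' Q (x i0 - x i1) * reflO' Q (x i2 - x i3))
    (rr_mem_Omega hQ hn (hd h01) (hd h23) (by
      rw [hFr.Q_diff h01, hFr.Q_diff h23]; exact ⟨_, rfl⟩))
    (mul_mem (hFr.refl_mem_setStab h2 h01) (hFr.refl_mem_setStab h2 h23)) ?_
    (x := x i0) (u := x i0 + x i1 + (2 : F) • x i2) ⟨i0, hx i0, hQx i0⟩ ?_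
    (by rw [hQx]; exact one_ne_zero) ?_
  · intro hg
    obtain ⟨σ, hσ⟩ := dstab_apply Q hg
    have hy : e i0 - f i0 ∈ D i0 := (D i0).sub_mem (he i0) (hf i0)
    have hy0 : e i0 - f i0 ≠ 0 := by
      intro h0
      have : 𝐁 (e i0) (e i0 - f i0) = 0 := by rw [h0]; simp
      rw [QuadraticMap.polar_sub_right, polar_self_of_singular Q (hQe i0), hef] at this
      simp at this
    have hxy : 𝐁 (x i0) (e i0 - f i0) = 0 := by
      rw [hxdef]
      simp only [QuadraticMap.polar_sub_right, QuadraticMap.polar_add_left,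
        QuadraticMap.polar_smul_left, polar_self_of_singular Q (hQe i0),
        polar_self_of_singular Q (hQf i0), hef, QuadraticMap.polar_comm ⇑Q (f i0) (e i0),
        smul_eq_mul]
      ring
    have e1 : ∀ v ∈ D i0, reflO' Q (x i2 - x i3) ⋆ v = v := by
      intro v hv
      apply reflO'_of_orth
      rw [QuadraticMap.polar_sub_left, H.orth i2 i0 h02.symm _ (hx i2) _ hv,
        H.orth i3 i0 h03.symm _ (hx i3) _ hv, sub_zero]
    have h6 := hσ i0 _ hy
    rw [mul_mulVec, e1 _ hy, reflO'_of_orth Q (by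
      rw [QuadraticMap.polar_sub_left, hxy, H.orth i1 i0 h01.symm _ (hx i1) _ hy, sub_zero])] at h6
    have hσ0 : σ i0 = i0 := by
      by_contra hne
      exact hy0 (H.disj hne h6 hy)
    have h7 := hσ i0 _ (hx i0)
    rw [mul_mulVec, e1 _ (hx i0), reflO'_sub_apply Q (by rw [hQx, hQx]) (hd h01), hσ0] at h7
    have h8 := H.disj h01 h7 (hx i1)
    have h9 := hQx i1
    rw [h8] at h9
    simp at h9
  · rintro ⟨l, hl, -⟩
    refine H.not_block h01 (hx i0) ?_ (hx i1) ?_ l hl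
    · rw [QuadraticMap.polar_add_right, QuadraticMap.polar_add_right,
        QuadraticMap.polar_smul_right, hBxx,
        H.orth i0 i1 h01 _ (hx i0) _ (hx i1), H.orth i0 i2 h02 _ (hx i0) _ (hx i2)]
      simpa using h2
    · rw [QuadraticMap.polar_add_right, QuadraticMap.polar_add_right,
        QuadraticMap.polar_smul_right, hBxx,
        H.orth i1 i0 h01.symm _ (hx i1) _ (hx i0), H.orth i1 i2 h12 _ (hx i1) _ (hx i2)]
      simpa using h2
  · rw [Q_add, Q_add, QuadraticMap.map_smul, hQx, hQx, hQx, QuadraticMap.polar_smul_right,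
      QuadraticMap.polar_add_left, H.orth i0 i1 h01 _ (hx i0) _ (hx i1),
      H.orth i0 i2 h02 _ (hx i0) _ (hx i2), H.orth i1 i2 h12 _ (hx i1) _ (hx i2)]
    simp only [smul_eq_mul]
    linear_combination -h5

end Five

section Four

theorem setStab_le_closure (X : Set (ι → F)) :
    setStab Q X ≤ setStab Q (AddSubgroup.closure X : Set (ι → F)) := by
  have key : ∀ g : ↥(Cfsg.isometryGroup F ⇑Q), g ∈ setStab Q X →
      ∀ z ∈ (AddSubgroup.closure X : Set (ι → F)),
        g ⋆ z ∈ (AddSubgroup.closure X : Set (ι → F)) := by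
    intro g hg z hz
    rw [SetLike.mem_coe] at hz ⊢
    induction hz using AddSubgroup.closure_induction with
    | mem v hv => exact AddSubgroup.subset_closure ((hg v).1 hv)
    | zero => rw [Matrix.mulVec_zero]; exact zero_mem _
    | add v w _ _ hv hw => rw [Matrix.mulVec_add]; exact add_mem hv hw
    | neg v _ hv => rw [Matrix.mulVec_neg]; exact neg_mem hv
  intro g hg
  exact mem_setStab_of_forall Q (key g hg) (key g⁻¹ (inv_mem hg))

variable [Fintype F] [DecidableEq F]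

/-- Blocks: hyperbolic planes over the field with four elements. -/
theorem not_max_two_four (hq : Fintype.card F = 4)
    (hQ : (QuadraticMap.polarBilin Q).Nondegenerate) (hn : 5 ≤ Fintype.card ι)
    (H : Dec Q 2 D) (ht : 4 ≤ t) (hplus : ∀ i, Cfsg.Geo.IsPlusTypeOn ⇑Q (D i)) :
    ∃ K : Subgroup (Matrix.GeneralLinearGroup ι F),
      Cfsg.Geo.decompositionStabilizer D ⊓ Cfsg.Geo.omegaGL ⇑Q < K ∧
        K < Cfsg.Geo.omegaGL ⇑Q := by
  have h2 : (2 : F) = 0 := by
    have := Nat.cast_card_eq_zero F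
    rw [hq] at this
    have h4 : (2 : F) * 2 = 0 := by
      have e : ((4 : ℕ) : F) = 2 * 2 := by norm_num
      rw [← e]; exact this
    exact mul_self_eq_zero.1 h4
  have hcube : ∀ a : F, a ≠ 0 → a * a * a = 1 := by
    intro a ha
    have := FiniteField.pow_card_sub_one_eq_one a ha
    rw [hq] at this
    have e : a ^ (4 - 1) = a * a * a := by ring
    rwa [e] at this
  choose e f he hf hQe hQf hef hspan using
    fun i => exists_hyp_basis (H.nondeg i) (H.finrank_eq i) (hplus i)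
  obtain ⟨x, hxdef⟩ : ∃ x : Fin t → ι → F, ∀ i, x i = (1 : F) • e i + (1 : F) • f i :=
    ⟨_, fun _ => rfl⟩
  have hx : ∀ i, x i ∈ D i := fun i => by
    rw [hxdef]
    exact (D i).add_mem ((D i).smul_mem _ (he i)) ((D i).smul_mem _ (hf i))
  have hQx : ∀ i, Q (x i) = 1 := fun i => by
    rw [hxdef, Q_hyp Q (hQe i) (hQf i) (hef i), one_mul]
  have hBex : ∀ i, 𝐁 (e i) (x i) = 1 := by
    intro i
    rw [hxdef]
    simp only [QuadraticMap.polar_add_right, QuadraticMap.polar_smul_right,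
      polar_self_of_singular Q (hQe i), hef, smul_eq_mul]
    ring
  -- values in the prime field
  have hbase : ∀ z ∈ blockSet Q D 1, ∀ z' ∈ blockSet Q D 1, 𝐁 z z' * 𝐁 z z' = 𝐁 z z' := by
    rintro z ⟨i, hz, hQz⟩ z' ⟨j, hz', hQz'⟩
    by_cases hij : i = j
    · subst hij
      obtain ⟨a, b, rfl⟩ := hspan i z hz
      obtain ⟨a', b', rfl⟩ := hspan i z' hz'
      rw [Q_hyp Q (hQe i) (hQf i) (hef i)] at hQz hQz'
      have hB : 𝐁 (a • e i + b • f i) (a' • e i + b' • f i) = a * b' + a' * b := by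
        simp only [QuadraticMap.polar_add_right, QuadraticMap.polar_add_left,
          QuadraticMap.polar_smul_right, QuadraticMap.polar_smul_left,
          polar_self_of_singular Q (hQe i), polar_self_of_singular Q (hQf i), hef,
          QuadraticMap.polar_comm ⇑Q (f i) (e i), smul_eq_mul]
        ring
      rw [hB]
      have hc : a * b' ≠ 0 := by
        intro h0
        have : (a * b') * (a' * b) = 1 := by linear_combination a' * b' * hQz + hQz'
        rw [h0, zero_mul] at this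
        exact zero_ne_one this
      have hcd : (a * b') * (a' * b) = 1 := by linear_combination a' * b' * hQz + hQz'
      have h3 := hcube _ hc
      have hd : a' * b = (a * b') * (a * b') := by
        have : (a * b') * (a' * b - (a * b') * (a * b')) = 0 := by linear_combination hcd - h3
        exact sub_eq_zero.1 ((mul_eq_zero.1 this).resolve_left hc)
      rw [hd]
      generalize a * b' = c at h3
      linear_combination c * h3 + (c * c * c) * h2
    · rw [H.orth i j hij _ hz _ hz', mul_zero]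
  have hadd2 : ∀ a b : F, a * a = a → b * b = b → (a + b) * (a + b) = a + b := by
    intro a b ha hb
    linear_combination ha + hb + a * b * h2
  have hneg2 : ∀ a : F, a * a = a → (-a) * (-a) = -a := by
    intro a ha
    linear_combination ha + a * h2
  obtain ⟨Y, hY⟩ : ∃ Y : AddSubgroup (ι → F), Y = AddSubgroup.closure (blockSet Q D 1) :=
    ⟨_, rfl⟩
  have hP1 : ∀ v ∈ Y, ∀ z ∈ blockSet Q D 1, 𝐁 z v * 𝐁 z v = 𝐁 z v := by
    intro v hv z hz
    rw [hY] at hv
    induction hv using AddSubgroup.closure_induction with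
    | mem v hv => exact hbase z hz v hv
    | zero => simp
    | add v w _ _ hv hw => rw [QuadraticMap.polar_add_right]; exact hadd2 _ _ hv hw
    | neg v _ hv => rw [QuadraticMap.polar_neg_right]; exact hneg2 _ hv
  have hP2 : ∀ y ∈ Y, ∀ v ∈ Y, 𝐁 y v * 𝐁 y v = 𝐁 y v := by
    intro y hy v hv
    rw [hY] at hy
    induction hy using AddSubgroup.closure_induction with
    | mem y hy => exact hP1 v hv y hy
    | zero => simp
    | add y w _ _ hy hw => rw [QuadraticMap.polar_add_left]; exact hadd2 _ _ hy hw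
    | neg y _ hy => rw [QuadraticMap.polar_neg_left]; exact hneg2 _ hy
  have hrefl : ∀ y ∈ Y, Q y = 1 → ∀ v ∈ Y, reflO' Q y ⋆ v ∈ Y := by
    intro y hy hQy v hv
    rw [reflO'_apply, hQy, inv_one, one_mul]
    have h3 := hP2 y hy v hv
    have h4 : 𝐁 y v * (𝐁 y v - 1) = 0 := by linear_combination h3
    rcases mul_eq_zero.1 h4 with h5 | h5
    · rw [h5, zero_smul, sub_zero]; exact hv
    · rw [sub_eq_zero.1 h5, one_smul]; exact sub_mem hv hy
  have hxY : ∀ i, x i ∈ Y := fun i => by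
    rw [hY]; exact AddSubgroup.subset_closure ⟨i, hx i, hQx i⟩
  obtain ⟨i0, hi0⟩ : ∃ i : Fin t, i = ⟨0, by omega⟩ := ⟨_, rfl⟩
  obtain ⟨i1, hi1⟩ : ∃ i : Fin t, i = ⟨1, by omega⟩ := ⟨_, rfl⟩
  obtain ⟨i2, hi2⟩ : ∃ i : Fin t, i = ⟨2, by omega⟩ := ⟨_, rfl⟩
  obtain ⟨i3, hi3⟩ : ∃ i : Fin t, i = ⟨3, by omega⟩ := ⟨_, rfl⟩
  have h01 : i0 ≠ i1 := by rw [hi0, hi1]; simp [Fin.ext_iff]
  have h02 : i0 ≠ i2 := by rw [hi0, hi2]; simp [Fin.ext_iff]
  have h03 : i0 ≠ i3 := by rw [hi0, hi3]; simp [Fin.ext_iff]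
  have h12 : i1 ≠ i2 := by rw [hi1, hi2]; simp [Fin.ext_iff]
  obtain ⟨y, hy⟩ : ∃ y, y = x i0 + x i1 + x i2 := ⟨_, rfl⟩
  have hyY : y ∈ Y := by rw [hy]; exact add_mem (add_mem (hxY i0) (hxY i1)) (hxY i2)
  have hQy : Q y = 1 := by
    rw [hy, Q_add, Q_add, hQx, hQx, hQx, QuadraticMap.polar_add_left,
      H.orth i0 i1 h01 _ (hx i0) _ (hx i1), H.orth i0 i2 h02 _ (hx i0) _ (hx i2),
      H.orth i1 i2 h12 _ (hx i1) _ (hx i2)]
    linear_combination h2
  obtain ⟨ω, hω0, hω1⟩ := exists_delta (F := F) (by rw [hq]; norm_num)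
  have hω : ω * ω + ω + 1 = 0 := by
    have h3 := hcube ω hω0
    have h4 : (ω - 1) * (ω * ω + ω + 1) = 0 := by linear_combination h3
    rcases mul_eq_zero.1 h4 with h5 | h5
    · exfalso
      apply hω1
      rw [sub_eq_zero.1 h5, one_mul]
    · exact h5
  apply not_max_of_set hQ hn (Y : Set (ι → F))
    (by rw [hY]; exact (dstab_le_setStab 1).trans (setStab_le_closure _))
    (g := reflO' Q y * reflO' Q (x i3))
    (rr_mem_Omega hQ hn (by rw [hQy]; exact one_ne_zero) (by rw [hQx]; exact one_ne_zero)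
      (by rw [hQy, hQx]; exact ⟨1, by ring⟩)) ?_ ?_
    (x := x i0) (u := ω • x i0 + (ω * ω) • x i1) (hxY i0) ?_ (by rw [hQx]; exact one_ne_zero) ?_
  · apply mem_setStab_of_forall
    · intro z hz
      rw [mul_mulVec]
      exact hrefl y hyY hQy _ (hrefl _ (hxY i3) (hQx i3) z hz)
    · intro z hz
      rw [mul_inv_rev, reflO'_inv, reflO'_inv, mul_mulVec]
      exact hrefl _ (hxY i3) (hQx i3) _ (hrefl y hyY hQy z hz)
  · apply not_mem_dstab (he i0)
    have e1 : 𝐁 y (e i0) = 1 := by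
      rw [hy, QuadraticMap.polar_add_left, QuadraticMap.polar_add_left,
        QuadraticMap.polar_comm ⇑Q (x i0), hBex, H.orth i1 i0 h01.symm _ (hx i1) _ (he i0),
        H.orth i2 i0 h02.symm _ (hx i2) _ (he i0)]
      ring
    rw [mul_mulVec, reflO'_of_orth Q (H.orth i3 i0 h03.symm _ (hx i3) _ (he i0)), reflO'_apply,
      hQy, e1, inv_one, one_mul, one_smul]
    apply H.not_block h12 (he i1) ?_ (he i2) ?_
    · rw [QuadraticMap.polar_sub_right, hy, QuadraticMap.polar_add_right,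
        QuadraticMap.polar_add_right, hBex, H.orth i1 i0 h01.symm _ (he i1) _ (he i0),
        H.orth i1 i0 h01.symm _ (he i1) _ (hx i0), H.orth i1 i2 h12 _ (he i1) _ (hx i2)]
      simp
    · rw [QuadraticMap.polar_sub_right, hy, QuadraticMap.polar_add_right,
        QuadraticMap.polar_add_right, hBex, H.orth i2 i0 h02.symm _ (he i2) _ (he i0),
        H.orth i2 i0 h02.symm _ (he i2) _ (hx i0), H.orth i2 i1 h12.symm _ (he i2) _ (hx i1)]
      simp
  · intro hu
    have hz : ω • e i0 + (ω * ω) • f i0 ∈ blockSet Q D 1 := by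
      refine ⟨i0, (D i0).add_mem ((D i0).smul_mem _ (he i0)) ((D i0).smul_mem _ (hf i0)), ?_⟩
      rw [Q_hyp Q (hQe i0) (hQf i0) (hef i0)]
      linear_combination hcube ω hω0
    have h3 := hP1 _ hu _ hz
    have h4 : 𝐁 (ω • e i0 + (ω * ω) • f i0) (ω • x i0 + (ω * ω) • x i1) = ω := by
      have e3 : 𝐁 (f i0) (x i0) = 1 := by
        rw [hxdef]
        simp only [QuadraticMap.polar_add_right, QuadraticMap.polar_smul_right,
          polar_self_of_singular Q (hQf i0), hef, QuadraticMap.polar_comm ⇑Q (f i0) (e i0),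
          smul_eq_mul]
        ring
      simp only [QuadraticMap.polar_add_right, QuadraticMap.polar_add_left,
        QuadraticMap.polar_smul_right, QuadraticMap.polar_smul_left, hBex, e3,
        H.orth i0 i1 h01 _ (he i0) _ (hx i1), H.orth i0 i1 h01 _ (hf i0) _ (hx i1), smul_eq_mul]
      linear_combination ω * hω - ω * h2
    rw [h4] at h3
    have h5 : ω * (ω - 1) = 0 := by linear_combination h3
    rcases mul_eq_zero.1 h5 with h6 | h6
    · exact hω0 h6
    · apply hω1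
      rw [sub_eq_zero.1 h6, one_mul]
  · rw [Q_add, QuadraticMap.map_smul, QuadraticMap.map_smul, hQx, hQx,
      QuadraticMap.polar_smul_left, QuadraticMap.polar_smul_right,
      H.orth i0 i1 h01 _ (hx i0) _ (hx i1)]
    simp only [smul_eq_mul]
    linear_combination (-(ω * ω) + ω - 1) * hω + h2

end Four

section FourTwo

/-- A hyperbolic basis of a nondegenerate space of dimension four and plus type. -/
theorem exists_hyp_basis_four {W : Submodule F (ι → F)} (hW : W ⊓ Wᗮ = ⊥)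
    (hk : finrank F W = 4) (hplus : Cfsg.Geo.IsPlusTypeOn ⇑Q W) :
    ∃ e₁ f₁ e₂ f₂ : ι → F, (e₁ ∈ W ∧ f₁ ∈ W ∧ e₂ ∈ W ∧ f₂ ∈ W) ∧
      (Q e₁ = 0 ∧ Q f₁ = 0 ∧ Q e₂ = 0 ∧ Q f₂ = 0) ∧
      (𝐁 e₁ f₁ = 1 ∧ 𝐁 e₂ f₂ = 1 ∧ 𝐁 e₁ e₂ = 0 ∧ 𝐁 e₁ f₂ = 0 ∧ 𝐁 f₁ e₂ = 0 ∧ 𝐁 f₁ f₂ = 0) ∧
      ∀ z ∈ W, ∃ a b c d : F, z = (a • e₁ + b • f₁) + (c • e₂ + d • f₂) := by
  obtain ⟨U, hUW, hU, hUk⟩ := hplus
  have hU2 : finrank F U = 2 := by omega
  have hTS : TS Q U := hU
  have hU0 : U ≠ ⊥ := by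
    intro h
    rw [h, finrank_bot] at hU2
    omega
  obtain ⟨e₁, he₁U, he₁0⟩ := Submodule.exists_mem_ne_zero_of_ne_bot hU0
  have hQe₁ : Q e₁ = 0 := hU e₁ he₁U
  obtain ⟨f₁, hf₁, hQf₁, hef₁⟩ := exists_hyp_partner_sub Q hW (hUW he₁U) he₁0 hQe₁
  have hnle : ¬ U ≤ Submodule.span F {e₁} := by
    intro hle
    have h1 := Submodule.finrank_mono hle
    have h3 := finrank_span_singleton (K := F) he₁0
    omega
  obtain ⟨u, huU, hu⟩ := SetLike.not_le_iff_exists.1 hnle
  obtain ⟨e₂, he₂def⟩ : ∃ e₂, e₂ = u - (𝐁 f₁ u) • e₁ := ⟨_, rfl⟩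
  have he₂U : e₂ ∈ U := by
    rw [he₂def]
    exact U.sub_mem huU (U.smul_mem _ he₁U)
  have he₂0 : e₂ ≠ 0 := by
    intro h
    apply hu
    rw [he₂def, sub_eq_zero] at h
    rw [h]
    exact Submodule.smul_mem _ _ (Submodule.mem_span_singleton_self _)
  have hQe₂ : Q e₂ = 0 := hU e₂ he₂U
  have hfe₁ : 𝐁 f₁ e₁ = 1 := by rw [QuadraticMap.polar_comm, hef₁]
  have h12 : 𝐁 e₁ e₂ = 0 := hTS.polar_eq_zero he₁U he₂U
  have h21 : 𝐁 e₂ e₁ = 0 := hTS.polar_eq_zero he₂U he₁U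
  have hf12 : 𝐁 f₁ e₂ = 0 := by
    rw [he₂def, QuadraticMap.polar_sub_right, QuadraticMap.polar_smul_right, hfe₁]
    simp
  have h2f1 : 𝐁 e₂ f₁ = 0 := by rw [QuadraticMap.polar_comm, hf12]
  obtain ⟨y, hy, hQy, he₂y⟩ := exists_hyp_partner_sub Q hW (hUW he₂U) he₂0 hQe₂
  obtain ⟨α, hα⟩ : ∃ α, α = 𝐁 f₁ y := ⟨_, rfl⟩
  obtain ⟨β, hβ⟩ : ∃ β, β = 𝐁 e₁ y := ⟨_, rfl⟩
  have hyf₁ : 𝐁 y f₁ = α := by rw [QuadraticMap.polar_comm, hα]
  have hye₁ : 𝐁 y e₁ = β := by rw [QuadraticMap.polar_comm, hβ]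
  have hye₂ : 𝐁 y e₂ = 1 := by rw [QuadraticMap.polar_comm, he₂y]
  obtain ⟨f₂, hf₂def⟩ : ∃ f₂, f₂ = y + ((-α) • e₁ + (-β) • f₁) + (α * β) • e₂ := ⟨_, rfl⟩
  have hf₂ : f₂ ∈ W := by
    rw [hf₂def]
    exact W.add_mem (W.add_mem hy (W.add_mem (W.smul_mem _ (hUW he₁U)) (W.smul_mem _ hf₁)))
      (W.smul_mem _ (hUW he₂U))
  have hQf₂ : Q f₂ = 0 := by
    rw [hf₂def]
    simp only [Q_add, QuadraticMap.map_smul, QuadraticMap.polar_add_left,
      QuadraticMap.polar_add_right, QuadraticMap.polar_smul_left, QuadraticMap.polar_smul_right,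
      hQy, hQe₁, hQf₁, hQe₂, hef₁, hyf₁, hye₁, hye₂, h12, hf12, smul_eq_mul]
    ring
  have he₂f₂ : 𝐁 e₂ f₂ = 1 := by
    rw [hf₂def]
    simp only [QuadraticMap.polar_add_right, QuadraticMap.polar_smul_right, he₂y, h21, h2f1,
      polar_self_of_singular Q hQe₂, smul_eq_mul]
    ring
  have he₁f₂ : 𝐁 e₁ f₂ = 0 := by
    rw [hf₂def]
    simp only [QuadraticMap.polar_add_right, QuadraticMap.polar_smul_right, ← hβ, h12, hef₁,
      polar_self_of_singular Q hQe₁, smul_eq_mul]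
    ring
  have hf₁f₂ : 𝐁 f₁ f₂ = 0 := by
    rw [hf₂def]
    simp only [QuadraticMap.polar_add_right, QuadraticMap.polar_smul_right, ← hα, hf12, hfe₁,
      polar_self_of_singular Q hQf₁, smul_eq_mul]
    ring
  refine ⟨e₁, f₁, e₂, f₂, ⟨hUW he₁U, hf₁, hUW he₂U, hf₂⟩, ⟨hQe₁, hQf₁, hQe₂, hQf₂⟩,
    ⟨hef₁, he₂f₂, h12, he₁f₂, hf12, hf₁f₂⟩, ?_⟩
  have hind : LinearIndependent F ![e₁, f₁, e₂, f₂] := by
    rw [Fintype.linearIndependent_iff]
    intro g hg
    rw [Fin.sum_univ_four] at hg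
    simp only [Matrix.cons_val_zero, Matrix.cons_val_one, Matrix.cons_val] at hg
    have p1 : 𝐁 f₁ (g 0 • e₁ + g 1 • f₁ + g 2 • e₂ + g 3 • f₂) = 0 := by rw [hg]; simp
    have p2 : 𝐁 e₁ (g 0 • e₁ + g 1 • f₁ + g 2 • e₂ + g 3 • f₂) = 0 := by rw [hg]; simp
    have p3 : 𝐁 f₂ (g 0 • e₁ + g 1 • f₁ + g 2 • e₂ + g 3 • f₂) = 0 := by rw [hg]; simp
    have p4 : 𝐁 e₂ (g 0 • e₁ + g 1 • f₁ + g 2 • e₂ + g 3 • f₂) = 0 := by rw [hg]; simp
    simp only [QuadraticMap.polar_add_right, QuadraticMap.polar_smul_right,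
      polar_self_of_singular Q hQe₁, polar_self_of_singular Q hQf₁,
      polar_self_of_singular Q hQe₂, polar_self_of_singular Q hQf₂, hef₁, hfe₁, he₂f₂, h12, h21,
      he₁f₂, hf12, h2f1, hf₁f₂, QuadraticMap.polar_comm ⇑Q f₂ e₁, QuadraticMap.polar_comm ⇑Q f₂ f₁,
      QuadraticMap.polar_comm ⇑Q f₂ e₂, smul_eq_mul, mul_zero, mul_one, add_zero, zero_add]
      at p1 p2 p3 p4
    intro i
    fin_cases i
    · exact p1
    · exact p2
    · exact p3
    · exact p4
  have h1 := finrank_span_eq_card hind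
  rw [Fintype.card_fin] at h1
  have hle : Submodule.span F (Set.range ![e₁, f₁, e₂, f₂]) ≤ W := by
    rw [Submodule.span_le]
    rintro x ⟨i, rfl⟩
    fin_cases i
    · exact hUW he₁U
    · exact hf₁
    · exact hUW he₂U
    · exact hf₂
  have heq : Submodule.span F (Set.range ![e₁, f₁, e₂, f₂]) = W :=
    Submodule.eq_of_le_of_finrank_eq hle (by rw [h1, hk])
  intro z hz
  rw [← heq, Submodule.mem_span_range_iff_exists_fun] at hz
  obtain ⟨c, hc⟩ := hz
  rw [Fin.sum_univ_four] at hc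
  simp only [Matrix.cons_val_zero, Matrix.cons_val_one, Matrix.cons_val] at hc
  exact ⟨c 0, c 1, c 2, c 3, by rw [← hc]; abel⟩

theorem f2_cases (hF : ∀ a : F, a = 0 ∨ a = 1) (h11 : (1 : F) + 1 = 0) (α β γ δ : F)
    (h : α * β + γ * δ = 1) :
    (α + β = 0 ∧ β + γ + δ = 0) ∨ (γ = α + β ∧ δ = α + β) := by
  rcases hF α with rfl | rfl <;> rcases hF β with rfl | rfl <;> rcases hF γ with rfl | rfl <;>
    rcases hF δ with rfl | rfl <;> simp [h11] at h ⊢

variable [Fintype F]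

/-- In a space of dimension four and plus type over the field with two elements, the
nonsingular vectors are those of two mutually orthogonal anisotropic planes. -/
theorem exists_aniso_pair (hq : Fintype.card F = 2) {W : Submodule F (ι → F)}
    (hW : W ⊓ Wᗮ = ⊥) (hk : finrank F W = 4) (hplus : Cfsg.Geo.IsPlusTypeOn ⇑Q W) :
    ∃ a a' b b' : ι → F, a ∈ W ∧ a' ∈ W ∧ b ∈ W ∧ b' ∈ W ∧ Q a = 1 ∧ Q a' = 1 ∧ 𝐁 a a' = 1 ∧
      𝐁 b a = 0 ∧ 𝐁 b a' = 0 ∧ 𝐁 b' b = 1 ∧
      ∀ z ∈ W, Q z = 1 → (𝐁 z a = 0 ∧ 𝐁 z a' = 0) ∨ z = 𝐁 z a' • a + 𝐁 z a • a' := by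
  have h2 : (2 : F) = 0 := two_eq_zero_of_card (r := 1) (by rw [hq]) (Or.inr rfl)
  have h11 : (1 : F) + 1 = 0 := by rw [one_add_one_eq_two, h2]
  have hF := eq_zero_or_one hq
  obtain ⟨e₁, f₁, e₂, f₂, ⟨he₁, hf₁, he₂, hf₂⟩, ⟨hQe₁, hQf₁, hQe₂, hQf₂⟩,
    ⟨hef₁, hef₂, h12, he₁f₂, hf12, hf₁f₂⟩, hspan⟩ := exists_hyp_basis_four hW hk hplus
  have hfe₁ : 𝐁 f₁ e₁ = 1 := by rw [QuadraticMap.polar_comm, hef₁]
  have hfe₂ : 𝐁 f₂ e₂ = 1 := by rw [QuadraticMap.polar_comm, hef₂]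
  have h21 : 𝐁 e₂ e₁ = 0 := by rw [QuadraticMap.polar_comm, h12]
  have hf₂e₁ : 𝐁 f₂ e₁ = 0 := by rw [QuadraticMap.polar_comm, he₁f₂]
  have h2f1 : 𝐁 e₂ f₁ = 0 := by rw [QuadraticMap.polar_comm, hf12]
  have hf₂f₁ : 𝐁 f₂ f₁ = 0 := by rw [QuadraticMap.polar_comm, hf₁f₂]
  have hB : ∀ a b c d a' b' c' d' : F,
      𝐁 ((a • e₁ + b • f₁) + (c • e₂ + d • f₂)) ((a' • e₁ + b' • f₁) + (c' • e₂ + d' • f₂))
        = a * b' + b * a' + c * d' + d * c' := by
    intro a b c d a' b' c' d'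
    simp only [QuadraticMap.polar_add_right, QuadraticMap.polar_add_left,
      QuadraticMap.polar_smul_right, QuadraticMap.polar_smul_left,
      polar_self_of_singular Q hQe₁, polar_self_of_singular Q hQf₁,
      polar_self_of_singular Q hQe₂, polar_self_of_singular Q hQf₂, hef₁, hfe₁, hef₂, hfe₂, h12,
      h21, he₁f₂, hf₂e₁, hf12, h2f1, hf₁f₂, hf₂f₁, smul_eq_mul]
    ring
  have hQQ : ∀ a b c d : F, Q ((a • e₁ + b • f₁) + (c • e₂ + d • f₂)) = a * b + c * d := by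
    intro a b c d
    rw [Q_add, Q_hyp Q hQe₁ hQf₁ hef₁, Q_hyp Q hQe₂ hQf₂ hef₂]
    simp only [QuadraticMap.polar_add_right, QuadraticMap.polar_add_left,
      QuadraticMap.polar_smul_right, QuadraticMap.polar_smul_left, h12, he₁f₂, hf12, hf₁f₂,
      smul_eq_mul]
    ring
  have hmem : ∀ a b c d : F, (a • e₁ + b • f₁) + (c • e₂ + d • f₂) ∈ W := fun a b c d =>
    W.add_mem (W.add_mem (W.smul_mem _ he₁) (W.smul_mem _ hf₁))
      (W.add_mem (W.smul_mem _ he₂) (W.smul_mem _ hf₂))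
  refine ⟨((1 : F) • e₁ + (1 : F) • f₁) + ((0 : F) • e₂ + (0 : F) • f₂),
    ((1 : F) • e₁ + (0 : F) • f₁) + ((1 : F) • e₂ + (1 : F) • f₂),
    ((0 : F) • e₁ + (0 : F) • f₁) + ((1 : F) • e₂ + (1 : F) • f₂),
    ((0 : F) • e₁ + (0 : F) • f₁) + ((1 : F) • e₂ + (0 : F) • f₂),
    hmem _ _ _ _, hmem _ _ _ _, hmem _ _ _ _, hmem _ _ _ _, ?_, ?_, ?_, ?_, ?_, ?_, ?_⟩
  · rw [hQQ]; ring
  · rw [hQQ]; ring
  · rw [hB]; ring
  · rw [hB]; ring
  · rw [hB]; linear_combination h2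
  · rw [hB]; ring
  · intro z hz hQz
    obtain ⟨α, β, γ, δ, rfl⟩ := hspan z hz
    rw [hQQ] at hQz
    rw [hB, hB]
    rcases f2_cases hF h11 α β γ δ hQz with ⟨h3, h4⟩ | ⟨h3, h4⟩
    · left
      constructor
      · linear_combination h3
      · linear_combination h4
    · right
      rw [h3, h4]
      linear_combination (norm := module) (-h2) • ((α + 2 * β) • e₁ + (α + β) • f₁)

/-- Blocks: spaces of dimension four and plus type over the field with two elements. -/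
theorem not_max_four_two (hq : Fintype.card F = 2)
    (hQ : (QuadraticMap.polarBilin Q).Nondegenerate) (hn : 5 ≤ Fintype.card ι)
    (H : Dec Q 4 D) (ht : 3 ≤ t) (hplus : ∀ i, Cfsg.Geo.IsPlusTypeOn ⇑Q (D i)) :
    ∃ K : Subgroup (Matrix.GeneralLinearGroup ι F),
      Cfsg.Geo.decompositionStabilizer D ⊓ Cfsg.Geo.omegaGL ⇑Q < K ∧
        K < Cfsg.Geo.omegaGL ⇑Q := by
  have h2 : (2 : F) = 0 := two_eq_zero_of_card (r := 1) (by rw [hq]) (Or.inr rfl)
  choose a a' b b' ha ha' hb hb' hQa hQa' haa' hba hba' hbb' hstar using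
    fun i => exists_aniso_pair hq (H.nondeg i) (H.finrank_eq i) (hplus i)
  have hQs : ∀ p r : Fin t, p ≠ r → Q (a p + a r) = 0 := by
    intro p r hpr
    rw [Q_add, hQa, hQa, H.orth p r hpr _ (ha p) _ (ha r)]
    linear_combination h2
  have hQw : ∀ p r : Fin t, p ≠ r → Q (a' p + a' r) = 0 := by
    intro p r hpr
    rw [Q_add, hQa', hQa', H.orth p r hpr _ (ha' p) _ (ha' r)]
    linear_combination h2
  have hsw : ∀ p r : Fin t, p ≠ r → 𝐁 (a p + a r) (a' p + a' r) = 0 := by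
    intro p r hpr
    simp only [QuadraticMap.polar_add_left, QuadraticMap.polar_add_right, haa',
      H.orth p r hpr _ (ha p) _ (ha' r), H.orth r p hpr.symm _ (ha r) _ (ha' p)]
    linear_combination h2
  -- the action on a block vector
  have hact : ∀ p r : Fin t, p ≠ r → ∀ z ∈ D p,
      E Q (a p + a r) (a' p + a' r) ⋆ z
        = z + 𝐁 z (a' p) • (a p + a r) - 𝐁 z (a p) • (a' p + a' r) := by
    intro p r hpr z hz
    rw [E_apply Q (hQs p r hpr) (hsw p r hpr), hQw p r hpr, QuadraticMap.polar_add_right,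
      QuadraticMap.polar_add_right, H.orth p r hpr _ hz _ (ha' r), H.orth p r hpr _ hz _ (ha r)]
    simp only [zero_mul, sub_zero, add_zero]
  have key : ∀ p r : Fin t, p ≠ r → ∀ z ∈ D p, Q z = 1 →
      E Q (a p + a r) (a' p + a' r) ⋆ z ∈ blockSet Q D 1 := by
    intro p r hpr z hz hQz
    rcases hstar p z hz hQz with ⟨h3, h4⟩ | h3
    · rw [hact p r hpr z hz, h3, h4]
      simp only [zero_smul, add_zero, sub_zero]
      exact ⟨p, hz, hQz⟩
    · refine ⟨r, ?_, by rw [iso_apply (Q := ⇑Q), hQz]⟩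
      rw [hact p r hpr z hz]
      have : z + 𝐁 z (a' p) • (a p + a r) - 𝐁 z (a p) • (a' p + a' r)
          = 𝐁 z (a' p) • a r - 𝐁 z (a p) • a' r := by
        obtain ⟨c, hc⟩ : ∃ c, c = 𝐁 z (a' p) := ⟨_, rfl⟩
        obtain ⟨d, hd⟩ : ∃ d, d = 𝐁 z (a p) := ⟨_, rfl⟩
        rw [← hc, ← hd] at h3 ⊢
        rw [h3]
        linear_combination (norm := module) h2 • (c • a p)
      rw [this]
      exact (D r).sub_mem ((D r).smul_mem _ (ha r)) ((D r).smul_mem _ (ha' r))
  obtain ⟨i0, hi0⟩ : ∃ i : Fin t, i = ⟨0, by omega⟩ := ⟨_, rfl⟩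
  obtain ⟨i1, hi1⟩ : ∃ i : Fin t, i = ⟨1, by omega⟩ := ⟨_, rfl⟩
  obtain ⟨i2, hi2⟩ : ∃ i : Fin t, i = ⟨2, by omega⟩ := ⟨_, rfl⟩
  have h01 : i0 ≠ i1 := by rw [hi0, hi1]; simp [Fin.ext_iff]
  have h02 : i0 ≠ i2 := by rw [hi0, hi2]; simp [Fin.ext_iff]
  have h12 : i1 ≠ i2 := by rw [hi1, hi2]; simp [Fin.ext_iff]
  have hpres : ∀ z ∈ blockSet Q D 1, E Q (a i0 + a i1) (a' i0 + a' i1) ⋆ z ∈ blockSet Q D 1 := by
    rintro z ⟨i, hz, hQz⟩
    by_cases hi : i = i0
    · subst hi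
      exact key _ _ h01 z hz hQz
    · by_cases hi' : i = i1
      · subst hi'
        rw [add_comm (a i0), add_comm (a' i0)]
        exact key _ _ h01.symm z hz hQz
      · rw [E_apply Q (hQs _ _ h01) (hsw _ _ h01), QuadraticMap.polar_add_right,
          QuadraticMap.polar_add_right, H.orth i i0 hi _ hz _ (ha' i0),
          H.orth i i1 hi' _ hz _ (ha' i1), H.orth i i0 hi _ hz _ (ha i0),
          H.orth i i1 hi' _ hz _ (ha i1)]
        simp only [add_zero, mul_zero, sub_zero, zero_smul]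
        exact ⟨i, hz, hQz⟩
  have hneg : ∀ v : ι → F, -v = v := by
    intro v
    linear_combination (norm := module) (-h2) • v
  apply not_max_of_set hQ hn (blockSet Q D 1) (dstab_le_setStab 1)
    (g := E Q (a i0 + a i1) (a' i0 + a' i1)) (E_mem_Omega Q hQ hn (hQs _ _ h01) (hsw _ _ h01))
    ?_ ?_ (x := a i0) (u := a i0 + a i1 + a i2) ⟨i0, ha i0, hQa i0⟩ ?_
    (by rw [hQa]; exact one_ne_zero) ?_
  · apply mem_setStab_of_forall _ hpres
    rw [E_inv Q (hQs _ _ h01) (hsw _ _ h01), hneg]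
    exact hpres
  · apply not_mem_dstab ((D i0).add_mem (ha i0) (hb i0))
    rw [hact _ _ h01 _ ((D i0).add_mem (ha i0) (hb i0)), QuadraticMap.polar_add_left,
      QuadraticMap.polar_add_left, haa', hba, hba', QuadraticMap.polar_self, hQa]
    have : a i0 + b i0 + ((1 : F) + 0) • (a i0 + a i1) - ((2 : ℕ) • (1 : F) + 0) • (a' i0 + a' i1)
        = a i1 + b i0 := by
      linear_combination (norm := module) h2 • (a i0 - (a' i0 + a' i1))
    rw [this]
    apply H.not_block h01 (hb' i0) ?_ (ha' i1) ?_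
    · rw [QuadraticMap.polar_add_right, H.orth i0 i1 h01 _ (hb' i0) _ (ha i1), hbb']
      simp
    · rw [QuadraticMap.polar_add_right, H.orth i1 i0 h01.symm _ (ha' i1) _ (hb i0),
        QuadraticMap.polar_comm, haa']
      simp
  · rintro ⟨l, hl, -⟩
    refine H.not_block h01 (ha' i0) ?_ (ha' i1) ?_ l hl
    · rw [QuadraticMap.polar_add_right, QuadraticMap.polar_add_right,
        QuadraticMap.polar_comm ⇑Q (a' i0) (a i0), haa',
        H.orth i0 i1 h01 _ (ha' i0) _ (ha i1), H.orth i0 i2 h02 _ (ha' i0) _ (ha i2)]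
      simp
    · rw [QuadraticMap.polar_add_right, QuadraticMap.polar_add_right,
        QuadraticMap.polar_comm ⇑Q (a' i1) (a i1), haa',
        H.orth i1 i0 h01.symm _ (ha' i1) _ (ha i0), H.orth i1 i2 h12 _ (ha' i1) _ (ha i2)]
      simp
  · rw [Q_add, Q_add, hQa, hQa, hQa, QuadraticMap.polar_add_left,
      H.orth i0 i1 h01 _ (ha i0) _ (ha i1), H.orth i0 i2 h02 _ (ha i0) _ (ha i2),
      H.orth i1 i2 h12 _ (ha i1) _ (ha i2)]
    linear_combination -h2

end FourTwo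

end Cfsg.Agent.Lib.Helper49NM
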