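import Mathlib
import Cfsg.Prelude.Def_Classical
import Cfsg.Prelude.Def_ClassicalGeometry
import Cfsg.Prelude.Def_GeometricClasses
import Cfsg.Agent.Lib.Helper49NM

/-!
# The type (plus / minus) of orthogonal sums
-/

set_option autoImplicit false
set_option linter.unusedSectionVars false

namespace Cfsg.Agent.Lib.Helper49Type

open scoped Matrix
open Module
open Cfsg.Agent.Lib.Helper49Orth Cfsg.Agent.Lib.Helper49Hyp Cfsg.Agent.Lib.Helper18Hyp
  Cfsg.Agent.Lib.Helper49Eich Cfsg.Agent.Lib.Helper49Geo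
  Cfsg.Agent.Lib.Helper49Fam Cfsg.Agent.Lib.Helper49Trans Cfsg.Agent.Lib.Helper49CharTwoA
  Cfsg.Agent.Lib.Helper49Frame Cfsg.Agent.Lib.Helper49Sub Cfsg.Agent.Lib.Helper49DecA
  Cfsg.Agent.Lib.Helper49DecC Cfsg.Agent.Lib.Helper49Bridge Cfsg.Agent.Lib.Helper49NM

variable {F : Type*} [Field F]
variable {ι : Type} [Fintype ι] [DecidableEq ι] {Q : QuadraticForm F (ι → F)}

local notation "𝐁" => QuadraticMap.polar (DFunLike.coe Q)
local notation:max W "ᗮ" => LinearMap.BilinForm.orthogonal (QuadraticMap.polarBilin Q) W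
local notation:72 g:72 " ⋆ " x:73 => Matrix.mulVec (Units.val (Subtype.val g)) x

theorem le_orth_of_forall {X Y : Submodule F (ι → F)} (h : ∀ u ∈ X, ∀ v ∈ Y, 𝐁 u v = 0) :
    Y ≤ Xᗮ := fun v hv => mem_orth.2 fun u hu => h u hu v hv

theorem disj_of_orth {X Y : Submodule F (ι → F)} (hX : X ⊓ Xᗮ = ⊥)
    (h : ∀ u ∈ X, ∀ v ∈ Y, 𝐁 u v = 0) : X ⊓ Y = ⊥ := by
  rw [eq_bot_iff, ← hX]
  exact inf_le_inf_left _ (le_orth_of_forall h)

theorem nondeg_sup {X Y : Submodule F (ι → F)} (hX : X ⊓ Xᗮ = ⊥) (hY : Y ⊓ Yᗮ = ⊥)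
    (h : ∀ u ∈ X, ∀ v ∈ Y, 𝐁 u v = 0) : (X ⊔ Y) ⊓ (X ⊔ Y)ᗮ = ⊥ := by
  rw [eq_bot_iff]
  rintro z ⟨hz, hz'⟩
  rw [SetLike.mem_coe, mem_orth] at hz'
  obtain ⟨x, hx, y, hy, rfl⟩ := Submodule.mem_sup.1 hz
  have hx0 : x = 0 := by
    rw [← Submodule.mem_bot F, ← hX]
    refine ⟨hx, mem_orth.2 fun u hu => ?_⟩
    have := hz' u (Submodule.mem_sup_left hu)
    rwa [QuadraticMap.polar_add_right, h u hu y hy, add_zero] at this
  have hy0 : y = 0 := by
    rw [← Submodule.mem_bot F, ← hY]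
    refine ⟨hy, mem_orth.2 fun u hu => ?_⟩
    have := hz' u (Submodule.mem_sup_right hu)
    rwa [QuadraticMap.polar_add_right, QuadraticMap.polar_comm ⇑Q u x, h x hx u hu, zero_add]
      at this
  rw [hx0, hy0, add_zero]
  exact Submodule.zero_mem _

theorem finrank_sup_of_disj {X Y : Submodule F (ι → F)} (h : X ⊓ Y = ⊥) :
    finrank F (X ⊔ Y : Submodule F (ι → F)) = finrank F X + finrank F Y := by
  have := Submodule.finrank_sup_add_finrank_inf_eq X Y
  rw [h, finrank_bot] at this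
  omega

/-- The orthogonal sum of two spaces of plus type is of plus type. -/
theorem plus_sup {W₁ W₂ : Submodule F (ι → F)} (h₁ : Cfsg.Geo.IsPlusTypeOn ⇑Q W₁)
    (h₂ : Cfsg.Geo.IsPlusTypeOn ⇑Q W₂) (horth : ∀ u ∈ W₁, ∀ v ∈ W₂, 𝐁 u v = 0)
    (hdisj : W₁ ⊓ W₂ = ⊥) : Cfsg.Geo.IsPlusTypeOn ⇑Q (W₁ ⊔ W₂) := by
  obtain ⟨U₁, hU₁W, hU₁, hk₁⟩ := h₁
  obtain ⟨U₂, hU₂W, hU₂, hk₂⟩ := h₂
  refine ⟨U₁ ⊔ U₂, sup_le_sup hU₁W hU₂W, ?_, ?_⟩
  · exact TS.sup (Q := Q) hU₁ hU₂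
      (le_orth_of_forall fun u hu v hv => horth u (hU₁W hu) v (hU₂W hv))
  · have hd : U₁ ⊓ U₂ = ⊥ := by
      rw [eq_bot_iff, ← hdisj]
      exact inf_le_inf hU₁W hU₂W
    rw [finrank_sup_of_disj hd, finrank_sup_of_disj hdisj]
    omega

/-- It is enough to find a large totally singular subspace. -/
theorem plus_of_le (hQ : (QuadraticMap.polarBilin Q).Nondegenerate) {W U : Submodule F (ι → F)}
    (hW : W ⊓ Wᗮ = ⊥) (hUW : U ≤ W) (hU : TS Q U) (h : finrank F W ≤ 2 * finrank F U) :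
    Cfsg.Geo.IsPlusTypeOn ⇑Q W :=
  ⟨U, hUW, hU, le_antisymm (two_mul_finrank_le_sub Q hQ hW hUW hU) h⟩

/-- In a space of plus type every totally singular subspace lies in one of half the dimension. -/
theorem exists_max_TS (hQ : (QuadraticMap.polarBilin Q).Nondegenerate)
    (htop : Cfsg.Geo.IsPlusTypeOn ⇑Q ⊤) {X : Submodule F (ι → F)} (hX : TS Q X) :
    ∃ U : Submodule F (ι → F), X ≤ U ∧ TS Q U ∧ 2 * finrank F U = Fintype.card ι := by
  obtain ⟨U, -, hU, hUk⟩ := htop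
  rw [finrank_top, Module.finrank_fintype_fun_eq_card] at hUk
  have hdim : finrank F (ι → F) = 2 * finrank F U := by
    rw [Module.finrank_fintype_fun_eq_card, hUk]
  have hU' : TS Q U := hU
  have hf := finrank_inf_orth hQ hdim (H := X) hU' rfl
  have hts : TS Q (X ⊔ (U ⊓ Xᗮ)) := hX.sup (hU'.mono inf_le_left) inf_le_right
  refine ⟨X ⊔ (U ⊓ Xᗮ), le_sup_left, hts, ?_⟩
  have h1 := Submodule.finrank_sup_add_finrank_inf_eq X (U ⊓ Xᗮ)
  have h2 : X ⊓ (U ⊓ Xᗮ) = U ⊓ X := by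
    apply le_antisymm
    · exact le_inf (inf_le_right.trans inf_le_left) inf_le_left
    · exact le_inf inf_le_right (le_inf inf_le_left (inf_le_right.trans hX.le_orth))
  rw [h2] at h1
  omega

/-- Witt cancellation for the type. -/
theorem plus_cancel (hQ : (QuadraticMap.polarBilin Q).Nondegenerate)
    (htop : Cfsg.Geo.IsPlusTypeOn ⇑Q ⊤) {P : Submodule F (ι → F)} (hP : P ⊓ Pᗮ = ⊥)
    (hPplus : Cfsg.Geo.IsPlusTypeOn ⇑Q P) : Cfsg.Geo.IsPlusTypeOn ⇑Q Pᗮ := by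
  obtain ⟨X, hXP, hX, hXk⟩ := hPplus
  obtain ⟨U, hXU, hU, hUk⟩ := exists_max_TS hQ htop (X := X) hX
  have hdim : finrank F (ι → F) = 2 * finrank F U := by
    rw [Module.finrank_fintype_fun_eq_card, hUk]
  have hf := finrank_inf_orth hQ hdim (H := P) hU rfl
  have h1 : finrank F X ≤ finrank F (U ⊓ P : Submodule F (ι → F)) :=
    Submodule.finrank_mono (le_inf hXU hXP)
  have h2 := two_mul_finrank_le_sub Q hQ hP (X := U ⊓ P) inf_le_right (hU.mono inf_le_left)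
  have h3 := finrank_orth_add Q hQ P
  refine ⟨U ⊓ Pᗮ, inf_le_right, hU.mono inf_le_left, ?_⟩
  omega

/-- Two orthogonal isometric spaces, when `-1` is a square (e.g. in characteristic two). -/
theorem plus_pair_of_sq {W₁ W₂ : Submodule F (ι → F)} (horth : ∀ u ∈ W₁, ∀ v ∈ W₂, 𝐁 u v = 0)
    (hdisj : W₁ ⊓ W₂ = ⊥) (φ : W₁ ≃ₗ[F] W₂)
    (hφ : ∀ w : W₁, Q (φ w : ι → F) = Q (w : ι → F)) {c : F} (hc : c * c = -1) :
    Cfsg.Geo.IsPlusTypeOn ⇑Q (W₁ ⊔ W₂) := by
  obtain ⟨L, hL⟩ : ∃ L : W₁ →ₗ[F] (ι → F), ∀ w, L w = (w : ι → F) + c • (φ w : ι → F) :=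
    ⟨W₁.subtype + c • (W₂.subtype ∘ₗ φ.toLinearMap), fun w => rfl⟩
  refine ⟨LinearMap.range L, ?_, ?_, ?_⟩
  · rintro _ ⟨w, rfl⟩
    rw [hL]
    exact add_mem (Submodule.mem_sup_left w.2)
      (Submodule.smul_mem _ _ (Submodule.mem_sup_right (φ w).2))
  · rintro _ ⟨w, rfl⟩
    rw [hL, Q_add, QuadraticMap.map_smul, hφ, QuadraticMap.polar_smul_right,
      horth _ w.2 _ (φ w).2]
    simp only [smul_eq_mul]
    linear_combination Q (w : ι → F) * hc
  · have hinj : Function.Injective L := by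
      rw [← LinearMap.ker_eq_bot, LinearMap.ker_eq_bot']
      intro w hw
      rw [hL] at hw
      have h1 : (w : ι → F) ∈ W₁ ⊓ W₂ := by
        refine ⟨w.2, ?_⟩
        have : (w : ι → F) = (-c) • (φ w : ι → F) := by
          linear_combination (norm := module) hw
        rw [this]
        exact W₂.smul_mem _ (φ w).2
      rw [hdisj, Submodule.mem_bot] at h1
      exact Subtype.ext h1
    rw [LinearMap.finrank_range_of_inj hinj, finrank_sup_of_disj hdisj, ← φ.finrank_eq]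
    ring

theorem exists_sq_add_sq [Fintype F] (h2 : (2 : F) ≠ 0) (c : F) : ∃ s t : F, s * s + t * t = c := by
  have hodd : Fintype.card F % 2 = 1 :=
    FiniteField.odd_card_of_char_ne_two (Cfsg.Agent.Lib.Helper17SymmForm.ringChar_ne_two h2)
  obtain ⟨a, b, hab⟩ := FiniteField.exists_root_sum_quadratic
    (f := (Polynomial.X : Polynomial F) ^ 2) (g := (Polynomial.X : Polynomial F) ^ 2 - Polynomial.C c)
    (Polynomial.degree_X_pow 2) (Polynomial.degree_X_pow_sub_C (by decide) _) hodd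
  refine ⟨a, b, ?_⟩
  simp only [Polynomial.eval_pow, Polynomial.eval_X, Polynomial.eval_sub, Polynomial.eval_C] at hab
  linear_combination hab

/-- `x² + y² = -1` is solvable in every finite field. -/
theorem exists_sq_add_sq_neg_one [Fintype F] : ∃ s t : F, s * s + t * t = -1 := by
  by_cases h2 : (2 : F) = 0
  · exact ⟨1, 0, by linear_combination h2⟩
  · exact exists_sq_add_sq h2 _

theorem finrank_perp_eq (h2 : (2 : F) ≠ 0) {W : Submodule F (ι → F)} (hW : W ⊓ Wᗮ = ⊥)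
    {a : ι → F} (ha : a ∈ W) (hQa : Q a ≠ 0) :
    finrank F (W ⊓ (Submodule.span F {a})ᗮ : Submodule F (ι → F)) + 1 = finrank F W := by
  obtain ⟨-, h1⟩ := perp_nondeg Q h2 hW ha hQa
  have ha0 : a ≠ 0 := by
    rintro rfl
    simp at hQa
  have hd : Submodule.span F {a} ⊓ (W ⊓ (Submodule.span F {a})ᗮ) = ⊥ := by
    rw [eq_bot_iff]
    rintro z ⟨hz, -, hz'⟩
    obtain ⟨c, rfl⟩ := Submodule.mem_span_singleton.1 hz
    have h3 := (mem_orth_span_singleton Q).1 hz'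
    rw [QuadraticMap.polar_smul_right, QuadraticMap.polar_self, two_smul, smul_eq_mul] at h3
    have hc : c = 0 := by
      have h4 : c * (2 * Q a) = 0 := by linear_combination h3
      exact (mul_eq_zero.1 h4).resolve_right (mul_ne_zero h2 hQa)
    rw [hc, zero_smul]
    exact Submodule.zero_mem _
  have h3 := finrank_sup_of_disj hd
  have h4 : Submodule.span F {a} ⊔ (W ⊓ (Submodule.span F {a})ᗮ) ≤ W :=
    sup_le ((Submodule.span_singleton_le_iff_mem _ _).2 ha) inf_le_left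
  have h5 := Submodule.finrank_mono h4
  rw [h3, finrank_span_singleton ha0] at h5
  omega

theorem exists_nonsingular_of_nondeg {W : Submodule F (ι → F)} (hW : W ⊓ Wᗮ = ⊥)
    (hne : W ≠ ⊥) : ∃ b ∈ W, Q b ≠ 0 := by
  by_contra hcon
  push Not at hcon
  have hTS : TS Q W := hcon
  apply hne
  rw [eq_bot_iff, ← hW]
  exact le_inf le_rfl hTS.le_orth

theorem img_nondeg (g : ↥(Cfsg.isometryGroup F ⇑Q)) {W : Submodule F (ι → F)} (hW : W ⊓ Wᗮ = ⊥) :
    img Q g W ⊓ (img Q g W)ᗮ = ⊥ := by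
  rw [eq_bot_iff]
  rintro z ⟨hz, hz'⟩
  obtain ⟨w, hw, rfl⟩ := (mem_img Q).1 hz
  rw [SetLike.mem_coe, mem_orth] at hz'
  have hw0 : w = 0 := by
    rw [← Submodule.mem_bot F, ← hW]
    refine ⟨hw, mem_orth.2 fun u hu => ?_⟩
    rw [← polar_iso Q g]
    exact hz' _ ((mem_img Q).2 ⟨u, hu, rfl⟩)
  rw [hw0, Matrix.mulVec_zero]
  exact Submodule.zero_mem _

theorem ts_span_pair {v₁ v₂ : ι → F} (h₁ : Q v₁ = 0) (h₂ : Q v₂ = 0) (h : 𝐁 v₁ v₂ = 0) :
    TS Q (Submodule.span F {v₁, v₂}) := by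
  intro z hz
  obtain ⟨a, b, rfl⟩ := Submodule.mem_span_pair.1 hz
  rw [Q_add, QuadraticMap.map_smul, QuadraticMap.map_smul, h₁, h₂, QuadraticMap.polar_smul_left,
    QuadraticMap.polar_smul_right, h]
  simp

/-- Two orthogonal isometric spaces of even dimension, odd characteristic. -/
theorem plus_pair_even [Fintype F] (hQ : (QuadraticMap.polarBilin Q).Nondegenerate)
    (h2 : (2 : F) ≠ 0) (g : ↥(Cfsg.isometryGroup F ⇑Q)) :
    ∀ (j : ℕ) (W : Submodule F (ι → F)), W ⊓ Wᗮ = ⊥ → finrank F W = 2 * j →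
      (∀ u ∈ W, ∀ v ∈ W, 𝐁 u (g ⋆ v) = 0) → Cfsg.Geo.IsPlusTypeOn ⇑Q (W ⊔ img Q g W) := by
  intro j
  induction j with
  | zero =>
    intro W _ hk _
    have hW0 : W = ⊥ := Submodule.finrank_eq_zero.1 (by simpa using hk)
    refine ⟨⊥, bot_le, fun w hw => ?_, ?_⟩
    · rw [(Submodule.mem_bot F).1 hw, map_zero]
    · subst hW0
      rw [img, Submodule.map_bot, sup_bot_eq, finrank_bot]
  | succ j ih =>
    intro W hW hk horth
    have hne : W ≠ ⊥ := by
      rintro rfl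
      rw [finrank_bot] at hk
      omega
    obtain ⟨b, hb, hQb⟩ := exists_nonsingular_of_nondeg hW hne
    obtain ⟨hW', -⟩ := perp_nondeg Q h2 hW hb hQb
    have hk' := finrank_perp_eq h2 hW hb hQb
    have hne' : W ⊓ (Submodule.span F {b})ᗮ ≠ ⊥ := by
      intro h
      rw [h, finrank_bot] at hk'
      omega
    obtain ⟨b', hb', hQb'⟩ := exists_nonsingular_of_nondeg hW' hne'
    obtain ⟨hW'', -⟩ := perp_nondeg Q h2 hW' hb' hQb'
    have hk'' := finrank_perp_eq h2 hW' hb' hQb'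
    obtain ⟨W'', hW''def⟩ : ∃ W'', W'' = W ⊓ (Submodule.span F {b})ᗮ ⊓ (Submodule.span F {b'})ᗮ :=
      ⟨_, rfl⟩
    rw [← hW''def] at hW'' hk''
    have hW''W : W'' ≤ W := by
      rw [hW''def]
      exact inf_le_left.trans inf_le_left
    have horth'' : ∀ u ∈ W'', ∀ v ∈ W'', 𝐁 u (g ⋆ v) = 0 :=
      fun u hu v hv => horth u (hW''W hu) v (hW''W hv)
    obtain ⟨U, hUW, hU, hUk⟩ := ih W'' hW'' (by omega) horth''
    have hb'W : b' ∈ W := hb'.1
    obtain ⟨c, hc⟩ : ∃ c, c = g ⋆ b := ⟨_, rfl⟩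
    obtain ⟨c', hc'⟩ : ∃ c', c' = g ⋆ b' := ⟨_, rfl⟩
    have hQc : Q c = Q b := by rw [hc, iso_apply (Q := ⇑Q)]
    have hQc' : Q c' = Q b' := by rw [hc', iso_apply (Q := ⇑Q)]
    have f1 : 𝐁 b b' = 0 := (mem_orth_span_singleton Q).1 hb'.2
    have f2 : 𝐁 b c = 0 := by rw [hc]; exact horth b hb b hb
    have f3 : 𝐁 b c' = 0 := by rw [hc']; exact horth b hb b' hb'W
    have f4 : 𝐁 b' c = 0 := by rw [hc]; exact horth b' hb'W b hb
    have f5 : 𝐁 b' c' = 0 := by rw [hc']; exact horth b' hb'W b' hb'W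
    have f6 : 𝐁 c c' = 0 := by rw [hc, hc', polar_iso, f1]
    have f1' : 𝐁 b' b = 0 := by rw [QuadraticMap.polar_comm, f1]
    have f2' : 𝐁 c b = 0 := by rw [QuadraticMap.polar_comm, f2]
    have f3' : 𝐁 c' b = 0 := by rw [QuadraticMap.polar_comm, f3]
    have f4' : 𝐁 c b' = 0 := by rw [QuadraticMap.polar_comm, f4]
    have f5' : 𝐁 c' b' = 0 := by rw [QuadraticMap.polar_comm, f5]
    have f6' : 𝐁 c' c = 0 := by rw [QuadraticMap.polar_comm, f6]
    have s1 : 𝐁 b b = 2 * Q b := by rw [QuadraticMap.polar_self, two_smul, two_mul]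
    have s2 : 𝐁 b' b' = 2 * Q b' := by rw [QuadraticMap.polar_self, two_smul, two_mul]
    have s3 : 𝐁 c c = 2 * Q b := by rw [QuadraticMap.polar_self, two_smul, two_mul, hQc]
    have s4 : 𝐁 c' c' = 2 * Q b' := by rw [QuadraticMap.polar_self, two_smul, two_mul, hQc']
    have hB4 : ∀ α β γ δ α' β' γ' δ' : F,
        𝐁 (α • b + β • b' + γ • c + δ • c') (α' • b + β' • b' + γ' • c + δ' • c')
          = 2 * (α * α' * Q b + β * β' * Q b' + γ * γ' * Q b + δ * δ' * Q b') := by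
      intro α β γ δ α' β' γ' δ'
      simp only [QuadraticMap.polar_add_left, QuadraticMap.polar_add_right,
        QuadraticMap.polar_smul_left, QuadraticMap.polar_smul_right, f1, f2, f3, f4, f5, f6, f1',
        f2', f3', f4', f5', f6', s1, s2, s3, s4, smul_eq_mul]
      ring
    have hQ4 : ∀ α β γ δ : F, Q (α • b + β • b' + γ • c + δ • c')
        = α * α * Q b + β * β * Q b' + γ * γ * Q b + δ * δ * Q b' := by
      intro α β γ δ
      have h := hB4 α β γ δ α β γ δ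
      rw [QuadraticMap.polar_self, two_smul, ← two_mul] at h
      exact mul_left_cancel₀ h2 h
    obtain ⟨s, t, hst⟩ := exists_sq_add_sq h2 (-(Q b) / Q b')
    have hst' : Q b + (s * s + t * t) * Q b' = 0 := by
      rw [hst]
      field_simp
      ring
    obtain ⟨v₁, hv₁⟩ : ∃ v₁, v₁ = (1 : F) • b + s • b' + (0 : F) • c + t • c' := ⟨_, rfl⟩
    obtain ⟨v₂, hv₂⟩ : ∃ v₂, v₂ = (0 : F) • b + (-t) • b' + (1 : F) • c + s • c' := ⟨_, rfl⟩
    have hQv₁ : Q v₁ = 0 := by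
      rw [hv₁, hQ4]
      linear_combination hst'
    have hQv₂ : Q v₂ = 0 := by
      rw [hv₂, hQ4]
      linear_combination hst'
    have hv₁₂ : 𝐁 v₁ v₂ = 0 := by
      rw [hv₁, hv₂, hB4]
      ring
    have hcW : c ∈ img Q g W := by rw [hc]; exact (mem_img Q).2 ⟨b, hb, rfl⟩
    have hc'W : c' ∈ img Q g W := by rw [hc']; exact (mem_img Q).2 ⟨b', hb'W, rfl⟩
    have hmem4 : ∀ α β γ δ : F, α • b + β • b' + γ • c + δ • c' ∈ W ⊔ img Q g W := by
      intro α β γ δ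
      exact add_mem (add_mem (add_mem (Submodule.smul_mem _ _ (Submodule.mem_sup_left hb))
        (Submodule.smul_mem _ _ (Submodule.mem_sup_left hb'W)))
        (Submodule.smul_mem _ _ (Submodule.mem_sup_right hcW)))
        (Submodule.smul_mem _ _ (Submodule.mem_sup_right hc'W))
    have hz : ∀ z ∈ W'' ⊔ img Q g W'', 𝐁 b z = 0 ∧ 𝐁 b' z = 0 ∧ 𝐁 c z = 0 ∧ 𝐁 c' z = 0 := by
      intro z hz
      obtain ⟨x, hx, y', hy', rfl⟩ := Submodule.mem_sup.1 hz
      obtain ⟨y, hy, rfl⟩ := (mem_img Q).1 hy'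
      have hx1 : 𝐁 b x = 0 := by
        rw [hW''def] at hx
        exact (mem_orth_span_singleton Q).1 hx.1.2
      have hx2 : 𝐁 b' x = 0 := by
        rw [hW''def] at hx
        exact (mem_orth_span_singleton Q).1 hx.2
      have hy1 : 𝐁 b y = 0 := by
        rw [hW''def] at hy
        exact (mem_orth_span_singleton Q).1 hy.1.2
      have hy2 : 𝐁 b' y = 0 := by
        rw [hW''def] at hy
        exact (mem_orth_span_singleton Q).1 hy.2
      refine ⟨?_, ?_, ?_, ?_⟩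
      · rw [QuadraticMap.polar_add_right, hx1, horth b hb y (hW''W hy), add_zero]
      · rw [QuadraticMap.polar_add_right, hx2, horth b' hb'W y (hW''W hy), add_zero]
      · rw [QuadraticMap.polar_add_right, hc, polar_iso, hy1, QuadraticMap.polar_comm,
          horth x (hW''W hx) b hb, add_zero]
      · rw [QuadraticMap.polar_add_right, hc', polar_iso, hy2, QuadraticMap.polar_comm,
          horth x (hW''W hx) b' hb'W, add_zero]
    have hb4 : b = (1 : F) • b + (0 : F) • b' + (0 : F) • c + (0 : F) • c' := by module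
    have hc4 : c = (0 : F) • b + (0 : F) • b' + (1 : F) • c + (0 : F) • c' := by module
    have key : ∀ α β : F, 𝐁 b (α • v₁ + β • v₂) = 0 → 𝐁 c (α • v₁ + β • v₂) = 0 →
        α = 0 ∧ β = 0 := by
      intro α β h3 h4
      have e1 : 𝐁 b v₁ = 2 * Q b := by
        conv_lhs => rw [hb4, hv₁, hB4]
        ring
      have e2 : 𝐁 b v₂ = 0 := by
        conv_lhs => rw [hb4, hv₂, hB4]
        ring
      have e3 : 𝐁 c v₁ = 0 := by
        conv_lhs => rw [hc4, hv₁, hB4]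
        ring
      have e4 : 𝐁 c v₂ = 2 * Q b := by
        conv_lhs => rw [hc4, hv₂, hB4]
        ring
      rw [QuadraticMap.polar_add_right, QuadraticMap.polar_smul_right,
        QuadraticMap.polar_smul_right, e1, e2, smul_eq_mul, smul_eq_mul, mul_zero, add_zero] at h3
      rw [QuadraticMap.polar_add_right, QuadraticMap.polar_smul_right,
        QuadraticMap.polar_smul_right, e3, e4, smul_eq_mul, smul_eq_mul, mul_zero, zero_add] at h4
      exact ⟨(mul_eq_zero.1 h3).resolve_right (mul_ne_zero h2 hQb),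
        (mul_eq_zero.1 h4).resolve_right (mul_ne_zero h2 hQb)⟩
    have hind : LinearIndependent F ![v₁, v₂] := by
      rw [LinearIndependent.pair_iff]
      intro α β hab
      exact key α β (by rw [hab]; simp) (by rw [hab]; simp)
    have hf2 := finrank_span_eq_card hind
    have hrange : Set.range ![v₁, v₂] = {v₁, v₂} := by
      ext x
      simp [eq_comm, or_comm]
    rw [hrange, Fintype.card_fin] at hf2
    have hdisj : Submodule.span F {v₁, v₂} ⊓ U = ⊥ := by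
      rw [eq_bot_iff]
      rintro z ⟨hz1, hz2⟩
      obtain ⟨α, β, rfl⟩ := Submodule.mem_span_pair.1 hz1
      obtain ⟨h3, -, h4, -⟩ := hz _ (hUW hz2)
      obtain ⟨rfl, rfl⟩ := key α β h3 h4
      simp
    have horthW : ∀ u ∈ W, ∀ v ∈ img Q g W, 𝐁 u v = 0 := by
      intro u hu v hv
      obtain ⟨w, hw, rfl⟩ := (mem_img Q).1 hv
      exact horth u hu w hw
    have horthW'' : ∀ u ∈ W'', ∀ v ∈ img Q g W'', 𝐁 u v = 0 := by
      intro u hu v hv
      obtain ⟨w, hw, rfl⟩ := (mem_img Q).1 hv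
      exact horth'' u hu w hw
    have hle'' : W'' ⊔ img Q g W'' ≤ W ⊔ img Q g W :=
      sup_le_sup hW''W (Submodule.map_mono hW''W)
    apply plus_of_le hQ (nondeg_sup hW (img_nondeg g hW) horthW)
      (U := Submodule.span F {v₁, v₂} ⊔ U)
    · apply sup_le _ (hUW.trans hle'')
      rw [Submodule.span_le]
      rintro x (hx | hx)
      · rw [hx, hv₁]; exact hmem4 _ _ _ _
      · rw [Set.mem_singleton_iff.1 hx, hv₂]; exact hmem4 _ _ _ _
    · apply TS.sup (ts_span_pair hQv₁ hQv₂ hv₁₂) hU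
      intro z hzU
      obtain ⟨h3, h4, h5, h6⟩ := hz z (hUW hzU)
      rw [mem_orth_span_pair, hv₁, hv₂]
      simp only [QuadraticMap.polar_add_left, QuadraticMap.polar_smul_left, h3, h4, h5, h6,
        smul_zero, add_zero, and_self]
    · rw [finrank_sup_of_disj hdisj, hf2]
      rw [finrank_sup_of_disj (disj_of_orth hW'' horthW''), finrank_img] at hUk
      rw [finrank_sup_of_disj (disj_of_orth hW horthW), finrank_img]
      omega

theorem plus_sup' {W₁ W₂ : Submodule F (ι → F)} (h₁ : Cfsg.Geo.IsPlusTypeOn ⇑Q W₁)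
    (h₂ : Cfsg.Geo.IsPlusTypeOn ⇑Q W₂) (hnd : W₁ ⊓ W₁ᗮ = ⊥) (hle : W₂ ≤ W₁ᗮ) :
    Cfsg.Geo.IsPlusTypeOn ⇑Q (W₁ ⊔ W₂) :=
  plus_sup h₁ h₂ (fun u hu v hv => mem_orth.1 (hle hv) u hu)
    (by rw [eq_bot_iff, ← hnd]; exact inf_le_inf_left _ hle)

theorem polar_equiv {W₁ W₂ : Submodule F (ι → F)} (φ : W₁ ≃ₗ[F] W₂)
    (hφ : ∀ w : W₁, Q (φ w : ι → F) = Q (w : ι → F)) (u v : W₁) :
    𝐁 (φ u : ι → F) (φ v : ι → F) = 𝐁 (u : ι → F) (v : ι → F) := by
  unfold QuadraticMap.polar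
  rw [← hφ u, ← hφ v, ← Submodule.coe_add, ← Submodule.coe_add, ← hφ (u + v), map_add]

variable {t k : ℕ} {D : Fin t → Submodule F (ι → F)}

/-- Four pairwise orthogonal isometric spaces. -/
theorem _root_.Cfsg.Agent.Lib.Helper49DecA.Dec.plus_four [Fintype F]
    (hQ : (QuadraticMap.polarBilin Q).Nondegenerate) (H : Dec Q k D) {i₁ i₂ i₃ i₄ : Fin t}
    (h12 : i₁ ≠ i₂) (h13 : i₁ ≠ i₃) (h14 : i₁ ≠ i₄) (h23 : i₂ ≠ i₃) (h24 : i₂ ≠ i₄)
    (h34 : i₃ ≠ i₄) : Cfsg.Geo.IsPlusTypeOn ⇑Q ((D i₁ ⊔ D i₂) ⊔ (D i₃ ⊔ D i₄)) := by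
  obtain ⟨x, y, hxy⟩ := exists_sq_add_sq_neg_one (F := F)
  obtain ⟨φ₂, hφ₂⟩ := H.iso i₁ i₂
  obtain ⟨φ₃, hφ₃⟩ := H.iso i₁ i₃
  obtain ⟨φ₄, hφ₄⟩ := H.iso i₁ i₄
  obtain ⟨A, hA⟩ : ∃ A : D i₁ →ₗ[F] (ι → F),
      ∀ w, A w = (w : ι → F) + x • (φ₃ w : ι → F) + y • (φ₄ w : ι → F) :=
    ⟨(D i₁).subtype + x • ((D i₃).subtype ∘ₗ φ₃.toLinearMap)
      + y • ((D i₄).subtype ∘ₗ φ₄.toLinearMap), fun w => rfl⟩
  obtain ⟨B', hB'⟩ : ∃ B' : D i₁ →ₗ[F] (ι → F),
      ∀ w, B' w = (φ₂ w : ι → F) + (-y) • (φ₃ w : ι → F) + x • (φ₄ w : ι → F) :=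
    ⟨((D i₂).subtype ∘ₗ φ₂.toLinearMap) + (-y) • ((D i₃).subtype ∘ₗ φ₃.toLinearMap)
      + x • ((D i₄).subtype ∘ₗ φ₄.toLinearMap), fun w => rfl⟩
  have o := H.orth
  have hTA : TS Q (LinearMap.range A) := by
    rintro _ ⟨w, rfl⟩
    rw [hA]
    simp only [Q_add, QuadraticMap.map_smul, QuadraticMap.polar_add_left,
      QuadraticMap.polar_smul_left, QuadraticMap.polar_smul_right, hφ₃, hφ₄,
      o i₁ i₃ h13 _ w.2 _ (φ₃ w).2, o i₁ i₄ h14 _ w.2 _ (φ₄ w).2,
      o i₃ i₄ h34 _ (φ₃ w).2 _ (φ₄ w).2, smul_eq_mul]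
    linear_combination Q (w : ι → F) * hxy
  have hTB : TS Q (LinearMap.range B') := by
    rintro _ ⟨w, rfl⟩
    rw [hB']
    simp only [Q_add, QuadraticMap.map_smul, QuadraticMap.polar_add_left,
      QuadraticMap.polar_smul_left, QuadraticMap.polar_smul_right, hφ₂, hφ₃, hφ₄,
      o i₂ i₃ h23 _ (φ₂ w).2 _ (φ₃ w).2, o i₂ i₄ h24 _ (φ₂ w).2 _ (φ₄ w).2,
      o i₃ i₄ h34 _ (φ₃ w).2 _ (φ₄ w).2, smul_eq_mul]
    linear_combination Q (w : ι → F) * hxy
  have hAB : LinearMap.range B' ≤ (LinearMap.range A)ᗮ := by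
    rintro _ ⟨w', rfl⟩
    rw [mem_orth]
    rintro _ ⟨w, rfl⟩
    rw [hA, hB']
    simp only [QuadraticMap.polar_add_left, QuadraticMap.polar_add_right,
      QuadraticMap.polar_smul_left, QuadraticMap.polar_smul_right, polar_equiv φ₃ hφ₃,
      polar_equiv φ₄ hφ₄, o i₁ i₂ h12 _ w.2 _ (φ₂ w').2, o i₁ i₃ h13 _ w.2 _ (φ₃ w').2,
      o i₁ i₄ h14 _ w.2 _ (φ₄ w').2, o i₃ i₂ h23.symm _ (φ₃ w).2 _ (φ₂ w').2,
      o i₃ i₄ h34 _ (φ₃ w).2 _ (φ₄ w').2, o i₄ i₂ h24.symm _ (φ₄ w).2 _ (φ₂ w').2,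
      o i₄ i₃ h34.symm _ (φ₄ w).2 _ (φ₃ w').2, smul_eq_mul]
    ring
  -- pairing with the first two blocks
  have pA1 : ∀ (z : ι → F), z ∈ D i₁ → ∀ w, 𝐁 z (A w) = 𝐁 z (w : ι → F) := by
    intro z hz w
    rw [hA]
    simp only [QuadraticMap.polar_add_right, QuadraticMap.polar_smul_right,
      o i₁ i₃ h13 _ hz _ (φ₃ w).2, o i₁ i₄ h14 _ hz _ (φ₄ w).2, smul_zero, add_zero]
  have pB1 : ∀ (z : ι → F), z ∈ D i₁ → ∀ w, 𝐁 z (B' w) = 0 := by
    intro z hz w
    rw [hB']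
    simp only [QuadraticMap.polar_add_right, QuadraticMap.polar_smul_right,
      o i₁ i₂ h12 _ hz _ (φ₂ w).2, o i₁ i₃ h13 _ hz _ (φ₃ w).2, o i₁ i₄ h14 _ hz _ (φ₄ w).2,
      smul_zero, add_zero]
  have pB2 : ∀ (z : ι → F), z ∈ D i₂ → ∀ w, 𝐁 z (B' w) = 𝐁 z (φ₂ w : ι → F) := by
    intro z hz w
    rw [hB']
    simp only [QuadraticMap.polar_add_right, QuadraticMap.polar_smul_right,
      o i₂ i₃ h23 _ hz _ (φ₃ w).2, o i₂ i₄ h24 _ hz _ (φ₄ w).2, smul_zero, add_zero]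
  have zero1 : ∀ w : D i₁, (∀ z ∈ D i₁, 𝐁 z (w : ι → F) = 0) → w = 0 := by
    intro w hw
    have : (w : ι → F) ∈ D i₁ ⊓ (D i₁)ᗮ := ⟨w.2, mem_orth.2 hw⟩
    rw [H.nondeg, Submodule.mem_bot] at this
    exact Subtype.ext this
  have zero2 : ∀ w : D i₂, (∀ z ∈ D i₂, 𝐁 z (w : ι → F) = 0) → w = 0 := by
    intro w hw
    have : (w : ι → F) ∈ D i₂ ⊓ (D i₂)ᗮ := ⟨w.2, mem_orth.2 hw⟩
    rw [H.nondeg, Submodule.mem_bot] at this
    exact Subtype.ext this
  have hinjA : Function.Injective A := by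
    rw [← LinearMap.ker_eq_bot, LinearMap.ker_eq_bot']
    intro w hw
    apply zero1
    intro z hz
    rw [← pA1 z hz, hw]
    simp
  have hinjB : Function.Injective B' := by
    rw [← LinearMap.ker_eq_bot, LinearMap.ker_eq_bot']
    intro w hw
    have : φ₂ w = 0 := by
      apply zero2
      intro z hz
      rw [← pB2 z hz, hw]
      simp
    exact φ₂.map_eq_zero_iff.1 this
  have hdisj : LinearMap.range A ⊓ LinearMap.range B' = ⊥ := by
    rw [eq_bot_iff]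
    rintro _ ⟨⟨w, rfl⟩, ⟨w', hw'⟩⟩
    have : w = 0 := by
      apply zero1
      intro z hz
      rw [← pA1 z hz, ← hw', pB1 z hz]
    rw [this, map_zero]
    exact Submodule.zero_mem _
  have n12 := nondeg_sup (H.nondeg i₁) (H.nondeg i₂) (o i₁ i₂ h12)
  have n34 := nondeg_sup (H.nondeg i₃) (H.nondeg i₄) (o i₃ i₄ h34)
  have o1234 : ∀ u ∈ D i₁ ⊔ D i₂, ∀ v ∈ D i₃ ⊔ D i₄, 𝐁 u v = 0 := by
    intro u hu v hv
    obtain ⟨u₁, hu₁, u₂, hu₂, rfl⟩ := Submodule.mem_sup.1 hu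
    obtain ⟨v₁, hv₁, v₂, hv₂, rfl⟩ := Submodule.mem_sup.1 hv
    simp only [QuadraticMap.polar_add_left, QuadraticMap.polar_add_right,
      o i₁ i₃ h13 _ hu₁ _ hv₁, o i₁ i₄ h14 _ hu₁ _ hv₂, o i₂ i₃ h23 _ hu₂ _ hv₁,
      o i₂ i₄ h24 _ hu₂ _ hv₂, add_zero]
  apply plus_of_le hQ (nondeg_sup n12 n34 o1234) (U := LinearMap.range A ⊔ LinearMap.range B')
  · apply sup_le
    · rintro _ ⟨w, rfl⟩
      rw [hA]
      exact add_mem (add_mem (Submodule.mem_sup_left (Submodule.mem_sup_left w.2))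
        (Submodule.smul_mem _ _ (Submodule.mem_sup_right (Submodule.mem_sup_left (φ₃ w).2))))
        (Submodule.smul_mem _ _ (Submodule.mem_sup_right (Submodule.mem_sup_right (φ₄ w).2)))
    · rintro _ ⟨w, rfl⟩
      rw [hB']
      exact add_mem (add_mem (Submodule.mem_sup_left (Submodule.mem_sup_right (φ₂ w).2))
        (Submodule.smul_mem _ _ (Submodule.mem_sup_right (Submodule.mem_sup_left (φ₃ w).2))))
        (Submodule.smul_mem _ _ (Submodule.mem_sup_right (Submodule.mem_sup_right (φ₄ w).2)))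
  · exact hTA.sup hTB hAB
  · rw [finrank_sup_of_disj hdisj, LinearMap.finrank_range_of_inj hinjA,
      LinearMap.finrank_range_of_inj hinjB,
      finrank_sup_of_disj (disj_of_orth n12 o1234),
      finrank_sup_of_disj (disj_of_orth (H.nondeg i₁) (o i₁ i₂ h12)),
      finrank_sup_of_disj (disj_of_orth (H.nondeg i₃) (o i₃ i₄ h34)),
      H.finrank_eq, H.finrank_eq, H.finrank_eq, H.finrank_eq]
    omega

theorem _root_.Cfsg.Agent.Lib.Helper49DecA.Dec.sup_le_orth (H : Dec Q k D) {i : Fin t}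
    {s : Finset (Fin t)} (hi : i ∉ s) : s.sup D ≤ (D i)ᗮ := by
  apply Finset.sup_le
  intro j hj
  exact le_orth_of_forall (H.orth i j (fun h => hi (h ▸ hj)))

theorem _root_.Cfsg.Agent.Lib.Helper49DecA.Dec.nondeg_finset (H : Dec Q k D)
    (s : Finset (Fin t)) : s.sup D ⊓ (s.sup D)ᗮ = ⊥ := by
  induction s using Finset.induction_on with
  | empty => simp
  | insert i s hi ih =>
    rw [Finset.sup_insert]
    exact nondeg_sup (H.nondeg i) ih (fun u hu v hv => mem_orth.1 (H.sup_le_orth hi hv) u hu)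

/-- If any two blocks span a space of plus type, so does any even number of blocks. -/
theorem _root_.Cfsg.Agent.Lib.Helper49DecA.Dec.plus_even (H : Dec Q k D)
    (hpair : ∀ i j, i ≠ j → Cfsg.Geo.IsPlusTypeOn ⇑Q (D i ⊔ D j)) :
    ∀ (n : ℕ) (s : Finset (Fin t)), s.card = 2 * n → Cfsg.Geo.IsPlusTypeOn ⇑Q (s.sup D) := by
  intro n
  induction n with
  | zero =>
    intro s hs
    have : s = ∅ := Finset.card_eq_zero.1 (by simpa using hs)
    subst this
    refine ⟨⊥, bot_le, fun w hw => ?_, ?_⟩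
    · rw [(Submodule.mem_bot F).1 hw, map_zero]
    · rw [Finset.sup_empty, finrank_bot]
  | succ n ih =>
    intro s hs
    obtain ⟨i, hi⟩ : s.Nonempty := Finset.card_pos.1 (by omega)
    have h1 : (s.erase i).card = 2 * n + 1 := by rw [Finset.card_erase_of_mem hi]; omega
    obtain ⟨j, hj⟩ : (s.erase i).Nonempty := Finset.card_pos.1 (by omega)
    have h3 : ((s.erase i).erase j).card = 2 * n := by rw [Finset.card_erase_of_mem hj]; omega
    have hij : i ≠ j := fun h => (Finset.notMem_erase i s) (h ▸ hj)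
    have hs' : s.sup D = (D i ⊔ D j) ⊔ ((s.erase i).erase j).sup D := by
      conv_lhs => rw [← Finset.insert_erase hi, ← Finset.insert_erase hj]
      rw [Finset.sup_insert, Finset.sup_insert, sup_assoc]
    rw [hs']
    apply plus_sup' (hpair i j hij) (ih _ h3) (nondeg_sup (H.nondeg i) (H.nondeg j) (H.orth i j hij))
    rw [orth_sup]
    refine le_inf (H.sup_le_orth ?_) (H.sup_le_orth ?_)
    · intro h
      exact Finset.notMem_erase i s (Finset.mem_of_mem_erase h)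
    · exact Finset.notMem_erase j _

/-- Any number of blocks divisible by four spans a space of plus type. -/
theorem _root_.Cfsg.Agent.Lib.Helper49DecA.Dec.plus_four_mul [Fintype F]
    (hQ : (QuadraticMap.polarBilin Q).Nondegenerate) (H : Dec Q k D) :
    ∀ (n : ℕ) (s : Finset (Fin t)), s.card = 4 * n → Cfsg.Geo.IsPlusTypeOn ⇑Q (s.sup D) := by
  intro n
  induction n with
  | zero =>
    intro s hs
    have : s = ∅ := Finset.card_eq_zero.1 (by simpa using hs)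
    subst this
    refine ⟨⊥, bot_le, fun w hw => ?_, ?_⟩
    · rw [(Submodule.mem_bot F).1 hw, map_zero]
    · rw [Finset.sup_empty, finrank_bot]
  | succ n ih =>
    intro s hs
    obtain ⟨i₁, hi₁⟩ : s.Nonempty := Finset.card_pos.1 (by omega)
    have c1 : (s.erase i₁).card = 4 * n + 3 := by rw [Finset.card_erase_of_mem hi₁]; omega
    obtain ⟨i₂, hi₂⟩ : (s.erase i₁).Nonempty := Finset.card_pos.1 (by omega)
    have c2 : ((s.erase i₁).erase i₂).card = 4 * n + 2 := by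
      rw [Finset.card_erase_of_mem hi₂]; omega
    obtain ⟨i₃, hi₃⟩ : ((s.erase i₁).erase i₂).Nonempty := Finset.card_pos.1 (by omega)
    have c3 : (((s.erase i₁).erase i₂).erase i₃).card = 4 * n + 1 := by
      rw [Finset.card_erase_of_mem hi₃]; omega
    obtain ⟨i₄, hi₄⟩ : (((s.erase i₁).erase i₂).erase i₃).Nonempty :=
      Finset.card_pos.1 (by omega)
    have c4 : ((((s.erase i₁).erase i₂).erase i₃).erase i₄).card = 4 * n := by
      rw [Finset.card_erase_of_mem hi₄]; omega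
    have m2 := Finset.mem_erase.1 hi₂
    have m3 := Finset.mem_erase.1 hi₃
    have m3' := Finset.mem_erase.1 m3.2
    have m4 := Finset.mem_erase.1 hi₄
    have m4' := Finset.mem_erase.1 m4.2
    have m4'' := Finset.mem_erase.1 m4'.2
    have h12 : i₁ ≠ i₂ := m2.1.symm
    have h13 : i₁ ≠ i₃ := m3'.1.symm
    have h23 : i₂ ≠ i₃ := m3.1.symm
    have h14 : i₁ ≠ i₄ := m4''.1.symm
    have h24 : i₂ ≠ i₄ := m4'.1.symm
    have h34 : i₃ ≠ i₄ := m4.1.symm
    obtain ⟨s', hs'def⟩ : ∃ s', s' = (((s.erase i₁).erase i₂).erase i₃).erase i₄ := ⟨_, rfl⟩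
    have hs' : s.sup D = ((D i₁ ⊔ D i₂) ⊔ (D i₃ ⊔ D i₄)) ⊔ s'.sup D := by
      conv_lhs => rw [← Finset.insert_erase hi₁, ← Finset.insert_erase hi₂,
        ← Finset.insert_erase hi₃, ← Finset.insert_erase hi₄]
      rw [Finset.sup_insert, Finset.sup_insert, Finset.sup_insert, Finset.sup_insert, hs'def]
      simp only [sup_assoc]
    have n1 : i₁ ∉ s' := by
      rw [hs'def]
      intro h
      exact Finset.notMem_erase i₁ s (Finset.mem_of_mem_erase (Finset.mem_of_mem_erase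
        (Finset.mem_of_mem_erase h)))
    have n2 : i₂ ∉ s' := by
      rw [hs'def]
      intro h
      exact Finset.notMem_erase i₂ _ (Finset.mem_of_mem_erase (Finset.mem_of_mem_erase h))
    have n3 : i₃ ∉ s' := by
      rw [hs'def]
      intro h
      exact Finset.notMem_erase i₃ _ (Finset.mem_of_mem_erase h)
    have n4 : i₄ ∉ s' := by
      rw [hs'def]
      exact Finset.notMem_erase i₄ _
    rw [hs']
    have o := H.orth
    have n12 := nondeg_sup (H.nondeg i₁) (H.nondeg i₂) (o i₁ i₂ h12)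
    have n34 := nondeg_sup (H.nondeg i₃) (H.nondeg i₄) (o i₃ i₄ h34)
    have o1234 : ∀ u ∈ D i₁ ⊔ D i₂, ∀ v ∈ D i₃ ⊔ D i₄, 𝐁 u v = 0 := by
      intro u hu v hv
      obtain ⟨u₁, hu₁, u₂, hu₂, rfl⟩ := Submodule.mem_sup.1 hu
      obtain ⟨v₁, hv₁, v₂, hv₂, rfl⟩ := Submodule.mem_sup.1 hv
      simp only [QuadraticMap.polar_add_left, QuadraticMap.polar_add_right,
        o i₁ i₃ h13 _ hu₁ _ hv₁, o i₁ i₄ h14 _ hu₁ _ hv₂, o i₂ i₃ h23 _ hu₂ _ hv₁,
        o i₂ i₄ h24 _ hu₂ _ hv₂, add_zero]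
    apply plus_sup' (H.plus_four hQ h12 h13 h14 h23 h24 h34) (ih _ (by rw [hs'def]; exact c4))
      (nondeg_sup n12 n34 o1234)
    rw [orth_sup, orth_sup, orth_sup]
    exact le_inf (le_inf (H.sup_le_orth n1) (H.sup_le_orth n2))
      (le_inf (H.sup_le_orth n3) (H.sup_le_orth n4))

/-- Two blocks of even dimension, or two blocks when `-1` is a square. -/
theorem _root_.Cfsg.Agent.Lib.Helper49DecA.Dec.plus_pair [Fintype F]
    (hQ : (QuadraticMap.polarBilin Q).Nondegenerate) (H : Dec Q k D)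
    (hk : Even k ∨ IsSquare (-1 : F)) {i j : Fin t} (hij : i ≠ j) :
    Cfsg.Geo.IsPlusTypeOn ⇑Q (D i ⊔ D j) := by
  obtain ⟨φ, hφ⟩ := H.iso i j
  by_cases hsq : IsSquare (-1 : F)
  · obtain ⟨c, hc⟩ := hsq
    exact plus_pair_of_sq (H.orth i j hij) (disj_of_orth (H.nondeg i) (H.orth i j hij)) φ hφ hc.symm
  · have h2 : (2 : F) ≠ 0 := by
      intro h2
      exact hsq ⟨1, by linear_combination -h2⟩
    obtain ⟨r, hr⟩ := hk.resolve_right hsq
    obtain ⟨g, hg, hgi⟩ := Cfsg.Agent.Lib.Helper49Witt.witt_img Q hQ (D i) (D j) φ hφ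
    rw [← hgi]
    apply plus_pair_even hQ h2 g r (D i) (H.nondeg i) (by rw [H.finrank_eq, hr]; ring)
    intro u hu v hv
    apply H.orth i j hij u hu
    rw [← hgi]
    exact (mem_img Q).2 ⟨v, hv, rfl⟩

theorem _root_.Cfsg.Agent.Lib.Helper49DecA.Dec.top_eq (H : Dec Q k D) :
    (Finset.univ : Finset (Fin t)).sup D = ⊤ := by
  rw [Finset.sup_univ_eq_iSup, H.top]

/-- An even number of blocks; `k` even, or `-1` a square, or `4 ∣ t`. -/
theorem _root_.Cfsg.Agent.Lib.Helper49DecA.Dec.plus_top [Fintype F]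
    (hQ : (QuadraticMap.polarBilin Q).Nondegenerate) (H : Dec Q k D) (ht : Even t)
    (hk : Even k ∨ IsSquare (-1 : F) ∨ 4 ∣ t) : Cfsg.Geo.IsPlusTypeOn ⇑Q ⊤ := by
  rw [← H.top_eq]
  rcases hk with hk | hk | ⟨r, hr⟩
  · obtain ⟨r, hr⟩ := ht
    exact H.plus_even (fun i j hij => H.plus_pair hQ (Or.inl hk) hij) r _
      (by rw [Finset.card_univ, Fintype.card_fin, hr]; ring)
  · obtain ⟨r, hr⟩ := ht
    exact H.plus_even (fun i j hij => H.plus_pair hQ (Or.inr hk) hij) r _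
      (by rw [Finset.card_univ, Fintype.card_fin, hr]; ring)
  · exact H.plus_four_mul hQ r _ (by rw [Finset.card_univ, Fintype.card_fin, hr])

section Abstract

variable {Q' : (ι → F) → F}

/-- (piece `decplusodd` of ASCH-O) an even number of isometric orthogonal blocks, `(-1)^l` a
square. Valid in every characteristic. -/
theorem plus_of_dec_odd [Fintype F] (hQ : Cfsg.Geo.IsNondegenerateQuadraticForm Q')
    (hD : Cfsg.Geo.IsOrthogonalMDecomposition Q' k D) (ht : Even t) {l : ℕ}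
    (hl : Fintype.card ι = 2 * l) (hsq : IsSquare ((-1 : F) ^ l)) :
    Cfsg.Geo.IsPlusTypeOn Q' ⊤ := by
  have hnd := toQF_nondegenerate hQ
  have hD' : Cfsg.Geo.IsOrthogonalMDecomposition (⇑(toQF hQ)) k D := hD
  have hmul := mul_eq_card hD'
  have H := dec_of hD'
  apply H.plus_top hnd ht
  rcases Nat.even_or_odd k with hk | hk
  · exact Or.inl hk
  · right
    by_cases h1 : IsSquare (-1 : F)
    · exact Or.inl h1
    · right
      rcases Nat.even_or_odd l with hl' | hl'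
      · obtain ⟨r, hr⟩ := ht
        obtain ⟨l', hl''⟩ := hl'
        obtain ⟨k', hk'⟩ := hk
        have h3 : r * k = 2 * l' := by
          have : (r + r) * k = 2 * (r * k) := by ring
          rw [hr, this] at hmul
          omega
        rcases Nat.even_or_odd r with hr' | hr'
        · obtain ⟨r', hr''⟩ := hr'
          exact ⟨r', by omega⟩
        · exfalso
          have : Odd (r * k) := hr'.mul ⟨k', hk'⟩
          rw [h3] at this
          exact (Nat.not_odd_iff_even.2 (even_two_mul l')) this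
      · exfalso
        rw [hl'.neg_one_pow] at hsq
        exact h1 hsq

end Abstract

end Cfsg.Agent.Lib.Helper49Type
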