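import Cfsg.Agent.Lib.Helper97OBase
import Cfsg.Agent.Lib.Helper58GD
import Cfsg.Agent.Lib.Helper49Type

set_option autoImplicit false

/-! PROJECT 5 = ASCH-O, piece `decplusodd`. -/

namespace Cfsg.Agent.Lib.Helper11ODecplusodd

open Cfsg Cfsg.Geo Matrix Cfsg.Agent.Lib.Helper97OBase Cfsg.Agent.Lib.Helper95Quad
  Cfsg.Agent.Lib.Helper97GForms

variable {ι : Type} [Fintype ι] [DecidableEq ι] {F : Type*} [Field F]
variable {Q : (ι → F) → F}

/-- the Gram matrix of a family of vectors -/
lemma gram_family (hQ : IsNondegenerateQuadraticForm Q) (A : Matrix ι ι F) :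
    Aᵀ * gramMatrix (QuadraticMap.polar Q) * A =
      Matrix.of (fun y y' => QuadraticMap.polar Q (fun x => A x y) (fun x => A x y')) := by
  ext y y'
  rw [Matrix.of_apply, (sesq_of_bilinear hQ.polar_bilinear).eq_gram, Matrix.mul_assoc]
  simp only [Matrix.mul_apply, Matrix.transpose_apply, dotProduct, Matrix.mulVec,
    RingEquiv.refl_apply]
  rfl

/-- the Gram matrix of a basis of a non-degenerate subspace is invertible -/
lemma det_gram_ne_zero (hQ : IsNondegenerateQuadraticForm Q) {W : Submodule F (ι → F)}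
    (hW : IsNondegenerateOn (QuadraticMap.polar Q) W) {k : ℕ} (b : Module.Basis (Fin k) F W) :
    (Matrix.of (fun a a' : Fin k => QuadraticMap.polar Q (b a : ι → F) (b a' : ι → F))).det ≠ 0 := by
  intro hdet
  obtain ⟨x, hx0, hx⟩ := Matrix.exists_mulVec_eq_zero_iff.mpr hdet
  set w : W := ∑ a, x a • b a with hw
  have hwc : (w : ι → F) = ∑ a, x a • (b a : ι → F) := by
    rw [hw, Submodule.coe_sum]
    rfl
  have hw0 : (w : ι → F) ≠ 0 := by
    intro h
    apply hx0
    have h1 : w = 0 := Subtype.ext h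
    funext a
    exact Fintype.linearIndependent_iff.mp b.linearIndependent x h1 a
  obtain ⟨y, hy, hyw⟩ := (hW w w.2 hw0).1
  apply hyw
  have h1 : ∀ c, bil hQ (b c : ι → F) (w : ι → F) = 0 := by
    intro c
    rw [hwc, map_sum]
    have := congrFun hx c
    simp only [Matrix.mulVec, dotProduct, Matrix.of_apply, Pi.zero_apply] at this
    rw [← this]
    apply Finset.sum_congr rfl
    intro a _
    rw [map_smul, bil_apply, smul_eq_mul, mul_comm]
  have h2 : (y : ι → F) = ∑ c, (b.repr ⟨y, hy⟩ c) • (b c : ι → F) := by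
    have := congrArg Subtype.val (b.sum_repr ⟨y, hy⟩)
    rw [Submodule.coe_sum] at this
    exact this.symm
  rw [← bil_apply hQ, h2, map_sum, LinearMap.sum_apply]
  apply Finset.sum_eq_zero
  intro c _
  rw [map_smul, LinearMap.smul_apply, h1, smul_zero]

/-- the discriminant of an even number of isometric orthogonal blocks is a square -/
theorem isSquare_det_gram (hQ : IsNondegenerateQuadraticForm Q) {t k : ℕ}
    {D : Fin t → Submodule F (ι → F)} (hD : IsOrthogonalMDecomposition Q k D) (ht : Even t) :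
    IsSquare (gramMatrix (QuadraticMap.polar Q)).det := by
  classical
  have ht2 := hD.decomp.decomp.two_le
  let i₀ : Fin t := ⟨0, by omega⟩
  let b : Module.Basis (Fin k) F (D i₀) :=
    Module.finBasisOfFinrankEq F (D i₀) (hD.decomp.decomp.finrank_eq i₀)
  have hiso := fun i : Fin t => hD.isometric i₀ i
  choose ψ hψ using hiso
  have hpol : ∀ (i : Fin t) (w w' : D i₀), QuadraticMap.polar Q (ψ i w : ι → F) (ψ i w' : ι → F) =
      QuadraticMap.polar Q (w : ι → F) (w' : ι → F) := by
    intro i w w'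
    unfold QuadraticMap.polar
    rw [← Submodule.coe_add, ← map_add, hψ, hψ, hψ, Submodule.coe_add]
  let p : Fin k × Fin t → (ι → F) := fun c => (ψ c.2 (b c.1) : ι → F)
  let G₀ : Matrix (Fin k) (Fin k) F :=
    Matrix.of (fun a a' : Fin k => QuadraticMap.polar Q (b a : ι → F) (b a' : ι → F))
  have hG₀ : G₀.det ≠ 0 := det_gram_ne_zero hQ (hD.decomp.nondegenerate i₀) b
  have hcard : Fintype.card ι = Fintype.card (Fin k × Fin t) := by
    rw [Cfsg.Agent.Lib.Helper58GD.decomp_card D hD.decomp.decomp]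
    simp [mul_comm]
  let e : ι ≃ Fin k × Fin t := Fintype.equivOfCardEq hcard
  let A : Matrix ι ι F := Matrix.of (fun x y => p (e y) x)
  have h1 := gram_family hQ A
  have h2 : Matrix.of (fun y y' => QuadraticMap.polar Q (fun x => A x y) (fun x => A x y')) =
      (Matrix.blockDiagonal (fun _ : Fin t => G₀)).submatrix e e := by
    ext y y'
    rw [Matrix.of_apply, Matrix.submatrix_apply, Matrix.blockDiagonal_apply]
    show QuadraticMap.polar Q (p (e y)) (p (e y')) = _
    by_cases h : (e y).2 = (e y').2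
    · rw [if_pos h]
      show QuadraticMap.polar Q (ψ (e y).2 (b (e y).1) : ι → F) (ψ (e y').2 (b (e y').1) : ι → F) = _
      rw [← h, hpol]
      rfl
    · rw [if_neg h]
      exact hD.decomp.orthogonal _ _ h _ (ψ (e y).2 (b (e y).1)).2 _ (ψ (e y').2 (b (e y').1)).2
  rw [h2] at h1
  have h3 := congrArg Matrix.det h1
  rw [Matrix.det_mul, Matrix.det_mul, Matrix.det_transpose, Matrix.det_submatrix_equiv_self,
    Matrix.det_blockDiagonal, Finset.prod_const, Finset.card_univ, Fintype.card_fin] at h3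
  obtain ⟨s, hs⟩ := ht.isSquare_pow G₀.det
  have hA : A.det ≠ 0 := by
    intro h0
    rw [h0] at h3
    simp only [zero_mul] at h3
    exact pow_ne_zero t hG₀ h3.symm
  refine ⟨s / A.det, ?_⟩
  rw [hs] at h3
  field_simp
  linear_combination h3

/-- [decplusodd] `q` odd: an even number of isometric orthogonal blocks, `(-1)^l` a square
(wrapper around helper49's `Helper49Type.plus_of_dec_odd`). -/
theorem plus_of_dec_odd [Fintype F] (_h2 : (2 : F) ≠ 0) (hQ : IsNondegenerateQuadraticForm Q) {t k : ℕ}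
    {D : Fin t → Submodule F (ι → F)} (hD : IsOrthogonalMDecomposition Q k D) (ht : Even t) {l : ℕ}
    (hl : Fintype.card ι = 2 * l) (hsq : IsSquare ((-1 : F) ^ l)) : IsPlusTypeOn Q ⊤ :=
  Cfsg.Agent.Lib.Helper49Type.plus_of_dec_odd hQ hD ht hl hsq

end Cfsg.Agent.Lib.Helper11ODecplusodd
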