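import Cfsg.Agent.Lib.Helper97OProper3

set_option autoImplicit false
set_option linter.unusedSectionVars false

/-! PROJECT 5 = ASCH-O, piece `pfield`. -/

namespace Cfsg.Agent.Lib.Helper11OField

open Cfsg Cfsg.Geo Matrix Cfsg.Agent.Lib.Helper97GBase Cfsg.Agent.Lib.Helper97GForms
  Cfsg.Agent.Lib.Helper95Quad Cfsg.Agent.Lib.Helper95Form Cfsg.Agent.Lib.Helper95Basic
  Cfsg.Agent.Lib.Helper97OBase Cfsg.Agent.Lib.Helper97OProper Cfsg.Agent.Lib.Helper97OProper3
open scoped MatrixGroups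

variable {ι : Type} [Fintype ι] [DecidableEq ι] {F : Type*} [Field F] {Q : (ι → F) → F}

lemma eq_zero_of_mulVec {r : ℕ} {K : Subalgebra F (Matrix ι ι F)} (hK : IsFieldSubalgebra r K)
    {x : Matrix ι ι F} (hx : x ∈ K) {v : ι → F} (hv : v ≠ 0) (h : x *ᵥ v = 0) : x = 0 := by
  by_contra hx0
  obtain ⟨y, hy, hxy⟩ := hK.inv x hx hx0
  apply hv
  have h1 : y * x = 1 := by rw [← hK.comm x hx y hy]; exact hxy
  have h2 : (y * x) *ᵥ v = 0 := by rw [← Matrix.mulVec_mulVec, h, Matrix.mulVec_zero]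
  rwa [h1, Matrix.one_mulVec] at h2

/-- elements of `K` commute with products of two reflections lying in the normaliser -/
lemma commute_rr (hQ : IsNondegenerateQuadraticForm Q) (hn : 5 ≤ Fintype.card ι) {r : ℕ}
    {K : Subalgebra F (Matrix ι ι F)} (hK : IsFieldSubalgebra r K) (a b : ι → F) (ha : Q a ≠ 0)
    (hb : Q b ≠ 0) (hg : rf hQ a ha * rf hQ b hb ∈ subalgebraNormalizer K)
    {k : Matrix ι ι F} (hk : k ∈ K) (x : ι → F) :
    ((rf hQ a ha * rf hQ b hb : GL ι F) : Matrix ι ι F) *ᵥ (k *ᵥ x) =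
      k *ᵥ (((rf hQ a ha * rf hQ b hb : GL ι F) : Matrix ι ι F) *ᵥ x) := by
  set g : GL ι F := rf hQ a ha * rf hQ b hb with hgdef
  have hk2 : (g : Matrix ι ι F) * k * ((g⁻¹ : GL ι F) : Matrix ι ι F) ∈ K := (hg k).1 hk
  obtain ⟨v, hv0, hv⟩ := exists_ker_four hn ![cov Q a, cov Q b, cov Q a ᵥ* k, cov Q b ᵥ* k]
  have h1 := hv 0
  have h2 := hv 1
  have h3 := hv 2
  have h4 := hv 3
  simp only [Matrix.cons_val_zero, Matrix.cons_val_one, Matrix.cons_val] at h1 h2 h3 h4
  rw [← Matrix.dotProduct_mulVec] at h3 h4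
  rw [cov_dot hQ] at h1 h2 h3 h4
  have hfix : ∀ y, QuadraticMap.polar Q a y = 0 → QuadraticMap.polar Q b y = 0 →
      (g : Matrix ι ι F) *ᵥ y = y := by
    intro y hy1 hy2
    rw [hgdef, mul_mulVec, rf_fix hQ _ hb hy2, rf_fix hQ _ ha hy1]
  have hgv : ((g⁻¹ : GL ι F) : Matrix ι ι F) *ᵥ v = v := by
    have := hfix v h1 h2
    conv_lhs => rw [← this]
    rw [Helper95Basic.inv_mulVec_mulVec]
  have e : ((g : Matrix ι ι F) * k * ((g⁻¹ : GL ι F) : Matrix ι ι F) - k) *ᵥ v = 0 := by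
    rw [Matrix.sub_mulVec, ← Matrix.mulVec_mulVec, ← Matrix.mulVec_mulVec, hgv, hfix _ h3 h4, sub_self]
  have e2 := eq_zero_of_mulVec hK (K.sub_mem hk2 hk) hv0 e
  have e3 : (g : Matrix ι ι F) * k * ((g⁻¹ : GL ι F) : Matrix ι ι F) = k := sub_eq_zero.mp e2
  conv_rhs => rw [← e3]
  rw [← Matrix.mulVec_mulVec, ← Matrix.mulVec_mulVec, Helper95Basic.inv_mulVec_mulVec]

/-- [pfield] `Ω` does not normalise a field properly containing the scalars. -/
theorem not_le_subalgebraNormalizer [Finite F] (hQ : IsNondegenerateQuadraticForm Q) (h2 : (2 : F) ≠ 0)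
    (hn : 7 ≤ Fintype.card ι) {r : ℕ} (hr : 1 < r) (K : Subalgebra F (Matrix ι ι F))
    (hK : IsFieldSubalgebra r K) : ¬ omegaGL Q ≤ subalgebraNormalizer K := by
  intro hle
  have hbl := hQ.polar_bilinear
  obtain ⟨a, -, -, hQa⟩ := exists_perp_two hQ hn 0 0 1
  obtain ⟨b, hba, -, hQb⟩ := exists_perp_two hQ hn a a 1
  obtain ⟨c, hca, hcb, hQc⟩ := exists_perp_two hQ hn a b 1
  have ha : Q a ≠ 0 := by rw [hQa]; exact one_ne_zero
  have hb : Q b ≠ 0 := by rw [hQb]; exact one_ne_zero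
  have hc : Q c ≠ 0 := by rw [hQc]; exact one_ne_zero
  have ha0 : a ≠ 0 := by
    rintro rfl
    exact ha (qf hQ).zero
  have hab : QuadraticMap.polar Q a b = 0 := by rw [QuadraticMap.polar_comm]; exact hba
  have hac : QuadraticMap.polar Q a c = 0 := by rw [QuadraticMap.polar_comm]; exact hca
  have hbc : QuadraticMap.polar Q b c = 0 := by rw [QuadraticMap.polar_comm]; exact hcb
  -- the key computation
  have key : ∀ (b : ι → F) (hb : Q b ≠ 0), Q b = 1 → QuadraticMap.polar Q b a = 0 →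
      ∀ k ∈ K, (2 : F) • (k *ᵥ a) = QuadraticMap.polar Q a (k *ᵥ a) • a +
        QuadraticMap.polar Q b (k *ᵥ a) • b := by
    intro b hb hQb hba k hk
    have hab : QuadraticMap.polar Q a b = 0 := by rw [QuadraticMap.polar_comm]; exact hba
    have hg := hle (rr_mem hQ h2 a b ha hb (hQa.trans hQb.symm))
    have e := commute_rr hQ (by omega) hK a b ha hb hg hk a
    have e1 : ((rf hQ a ha * rf hQ b hb : GL ι F) : Matrix ι ι F) *ᵥ a = -a := by
      rw [mul_mulVec, rf_fix hQ b hb hba, rf_mulVec, polar_self hQ, hQa]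
      simp only [inv_one, one_mul, mul_one]
      module
    rw [e1, Matrix.mulVec_neg, mul_mulVec, rf_mulVec hQ b hb, rf_mulVec hQ a ha, hQa, hQb] at e
    simp only [inv_one, one_mul] at e
    have e2 : QuadraticMap.polar Q a (k *ᵥ a - QuadraticMap.polar Q b (k *ᵥ a) • b) =
        QuadraticMap.polar Q a (k *ᵥ a) := by
      rw [sub_eq_add_neg, ← neg_smul, hbl.add_right, hbl.smul_right, hab, mul_zero, add_zero]
    rw [e2] at e
    have : (2 : F) • (k *ᵥ a) = (k *ᵥ a) - (-(k *ᵥ a)) := by module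
    rw [this, ← e]
    module
  have hsc : ∀ k ∈ K, ∃ α : F, k = α • (1 : Matrix ι ι F) := by
    intro k hk
    have k1 := key b hb hQb hba k hk
    have k2 := key c hc hQc hca k hk
    have e : QuadraticMap.polar Q b (k *ᵥ a) • b = QuadraticMap.polar Q c (k *ᵥ a) • c := by
      rw [k1] at k2
      exact add_left_cancel k2
    have e0 : QuadraticMap.polar Q b (k *ᵥ a) = 0 := by
      have := congrArg (QuadraticMap.polar Q b) e
      rw [hbl.smul_right, hbl.smul_right, hbc, polar_self hQ, hQb, mul_zero, mul_one] at this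
      exact (mul_eq_zero.mp this).resolve_right h2
    rw [e0, zero_smul, add_zero] at k1
    generalize QuadraticMap.polar Q a (k *ᵥ a) = t at k1
    refine ⟨t / 2, ?_⟩
    have hmem : k - (t / 2) • (1 : Matrix ι ι F) ∈ K :=
      K.sub_mem hk (K.smul_mem K.one_mem _)
    have hz : (k - (t / 2) • (1 : Matrix ι ι F)) *ᵥ a = 0 := by
      rw [Matrix.sub_mulVec, Matrix.smul_mulVec, Matrix.one_mulVec]
      have : k *ᵥ a = (2 : F)⁻¹ • ((2 : F) • (k *ᵥ a)) := by
        rw [smul_smul, inv_mul_cancel₀ h2, one_smul]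
      rw [this, k1, smul_smul, div_eq_inv_mul, sub_self]
    exact sub_eq_zero.mp (eq_zero_of_mulVec hK hmem ha0 hz)
  have hbot : K = ⊥ := by
    rw [eq_bot_iff]
    intro k hk
    obtain ⟨α, rfl⟩ := hsc k hk
    rw [Algebra.mem_bot]
    exact ⟨α, by rw [Algebra.algebraMap_eq_smul_one]⟩
  have hfr := hK.finrank_eq
  have : Nonempty ι := by
    apply Fintype.card_pos_iff.mp
    omega
  rw [hbot, Subalgebra.finrank_bot] at hfr
  omega

end Cfsg.Agent.Lib.Helper11OField
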