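import Cfsg.Agent.Lib.Helper98AschDefs

set_option autoImplicit false

/-! Pure tensors of matrices on the tensor power indexed by functions `Fin k → Fin m`. -/

namespace Cfsg.Agent.Lib.Helper17AschTens

open Cfsg Cfsg.Geo Matrix
open scoped MatrixGroups

variable {F : Type*} [Field F] {k m : ℕ}

/-- the pure tensor `A 0 ⊗ ⋯ ⊗ A (k-1)` -/
def pt (A : Fin k → Matrix (Fin m) (Fin m) F) : Matrix (Fin k → Fin m) (Fin k → Fin m) F :=
  fun x y => ∏ i, A i (x i) (y i)

lemma pt_apply (A : Fin k → Matrix (Fin m) (Fin m) F) (x y : Fin k → Fin m) :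
    pt A x y = ∏ i, A i (x i) (y i) := rfl

lemma pt_mul (A B : Fin k → Matrix (Fin m) (Fin m) F) :
    pt A * pt B = pt (fun i => A i * B i) := by
  ext x y
  simp only [Matrix.mul_apply, pt_apply]
  rw [Finset.prod_univ_sum, Fintype.piFinset_univ]
  exact Finset.sum_congr rfl fun p _ => (Finset.prod_mul_distrib).symm

lemma pt_one : pt (fun _ : Fin k => (1 : Matrix (Fin m) (Fin m) F)) = 1 := by
  ext x y
  simp only [pt_apply, Matrix.one_apply, Finset.prod_ite_zero, Finset.prod_const_one]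
  simp [funext_iff]

lemma pt_transpose (A : Fin k → Matrix (Fin m) (Fin m) F) :
    (pt A)ᵀ = pt (fun i => (A i)ᵀ) := rfl

lemma pt_smul (c : Fin k → F) (A : Fin k → Matrix (Fin m) (Fin m) F) :
    pt (fun i => c i • A i) = (∏ i, c i) • pt A := by
  ext x y
  simp [pt_apply, Finset.prod_mul_distrib]

/-- the permutation matrix of the tensor factors attached to `σ` -/
def pm (σ : Equiv.Perm (Fin k)) : Matrix (Fin k → Fin m) (Fin k → Fin m) F :=
  fun x y => if y = x ∘ σ then 1 else 0

lemma pm_apply (σ : Equiv.Perm (Fin k)) (x y : Fin k → Fin m) :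
    (pm σ : Matrix (Fin k → Fin m) (Fin k → Fin m) F) x y = if y = x ∘ σ then 1 else 0 := rfl

lemma pm_mulVec (σ : Equiv.Perm (Fin k)) (v : (Fin k → Fin m) → F) (x : Fin k → Fin m) :
    ((pm σ : Matrix (Fin k → Fin m) (Fin k → Fin m) F) *ᵥ v) x = v (x ∘ σ) := by
  simp [Matrix.mulVec, dotProduct, pm_apply]

end Cfsg.Agent.Lib.Helper17AschTens
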