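import Cfsg.Agent.Lib.Helper98AschBasic
import Cfsg.Agent.Lib.Helper17AschTens
import Cfsg.Agent.Lib.Helper97AschTransv

set_option autoImplicit false

/-! Piece `D4` of the ASCH-GEN project: the special linear group is not contained in a tensor wreath
subgroup. -/

namespace Cfsg.Agent.Lib.Helper12AschNotSLWreath

open Cfsg Cfsg.Geo Matrix
open Cfsg.Agent.Lib.Helper97AschBase Cfsg.Agent.Lib.Helper98AschDefs
  Cfsg.Agent.Lib.Helper98AschBasic Cfsg.Agent.Lib.Helper17AschTens
  Cfsg.Agent.Lib.Helper97AschTransv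
open scoped MatrixGroups Kronecker

variable {n : ℕ} {F : Type*} [Field F] {k m : ℕ}

/-- pure vectors of the tensor power -/
def Pure (v : (Fin k → Fin m) → F) : Prop :=
  ∃ x : Fin k → Fin m → F, ∀ a, v a = ∏ i, x i (a i)

lemma pure_pt (A : Fin k → Matrix (Fin m) (Fin m) F) {v : (Fin k → Fin m) → F} (hv : Pure v) :
    Pure (pt A *ᵥ v) := by
  obtain ⟨x, hx⟩ := hv
  refine ⟨fun i => A i *ᵥ x i, fun a => ?_⟩
  simp only [Matrix.mulVec, dotProduct, pt_apply, hx]
  rw [Finset.prod_univ_sum, Fintype.piFinset_univ]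
  exact Finset.sum_congr rfl fun p _ => (Finset.prod_mul_distrib).symm

lemma pure_pm (σ : Equiv.Perm (Fin k)) {v : (Fin k → Fin m) → F} (hv : Pure v) :
    Pure ((pm σ : Matrix (Fin k → Fin m) (Fin k → Fin m) F) *ᵥ v) := by
  obtain ⟨x, hx⟩ := hv
  refine ⟨fun i => x (σ.symm i), fun a => ?_⟩
  rw [pm_mulVec, hx]
  rw [← Equiv.prod_comp σ (fun i => x (σ.symm i) (a i))]
  simp

lemma pure_iff_of_mem {g : GL (Fin k → Fin m) F} (hg : g ∈ tensorWreathStandard m k F) :
    ∀ v : (Fin k → Fin m) → F,
      Pure v ↔ Pure ((g : Matrix (Fin k → Fin m) (Fin k → Fin m) F) *ᵥ v) := by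
  unfold tensorWreathStandard at hg
  induction hg using Subgroup.closure_induction with
  | mem g hg =>
    intro v
    rcases hg with ⟨gs, hgs⟩ | ⟨σ, hσ⟩
    · have h1 : (g : Matrix (Fin k → Fin m) (Fin k → Fin m) F) =
          pt (fun i => (gs i : Matrix (Fin m) (Fin m) F)) := by
        ext x y
        rw [hgs, pt_apply]
      rw [h1]
      refine ⟨pure_pt _, fun h => ?_⟩
      have h2 := pure_pt (fun i => ((gs i)⁻¹ : GL (Fin m) F).val) h
      rw [Matrix.mulVec_mulVec, pt_mul] at h2
      have h3 : (fun i => ((gs i)⁻¹ : GL (Fin m) F).val * (gs i : Matrix (Fin m) (Fin m) F)) =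
          fun _ => 1 := by
        funext i
        rw [← Units.val_mul, inv_mul_cancel, Units.val_one]
      rwa [h3, pt_one, Matrix.one_mulVec] at h2
    · have h1 : (g : Matrix (Fin k → Fin m) (Fin k → Fin m) F) = pm σ := by
        ext x y
        rw [hσ, pm_apply]
      rw [h1]
      refine ⟨pure_pm _, fun h => ?_⟩
      have h2 := pure_pm σ.symm h
      have h3 : (pm σ.symm : Matrix (Fin k → Fin m) (Fin k → Fin m) F) *ᵥ
          ((pm σ : Matrix (Fin k → Fin m) (Fin k → Fin m) F) *ᵥ v) = v := by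
        funext x
        rw [pm_mulVec, pm_mulVec]
        congr 1
        funext i
        simp
      rwa [h3] at h2
  | one => intro v; simp
  | mul x y _ _ hx hy =>
    intro v
    rw [Units.val_mul, ← Matrix.mulVec_mulVec, ← hx, ← hy]
  | inv x _ hx =>
    intro v
    rw [hx (((x⁻¹ : GL (Fin k → Fin m) F) : Matrix (Fin k → Fin m) (Fin k → Fin m) F) *ᵥ v),
      Matrix.mulVec_mulVec, ← Units.val_mul, mul_inv_cancel, Units.val_one, Matrix.one_mulVec]

lemma not_pure (hm : 2 ≤ m) (hk : 2 ≤ k) :
    ¬ Pure (fun x : Fin k → Fin m =>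
      (if x = (fun _ => ⟨0, by omega⟩) then (1 : F) else 0) +
        (if x = (fun _ => ⟨1, by omega⟩) then (1 : F) else 0)) := by
  rintro ⟨x, hx⟩
  set z : Fin m := ⟨0, by omega⟩ with hz
  set o : Fin m := ⟨1, by omega⟩ with ho
  have hzo : z ≠ o := by
    intro h
    simpa [hz, ho] using congrArg Fin.val h
  let i0 : Fin k := ⟨0, by omega⟩
  let i1 : Fin k := ⟨1, by omega⟩
  have hi : i0 ≠ i1 := by
    intro h
    simpa [i0, i1] using congrArg Fin.val h
  have h0 := hx (fun _ => z)
  have h1 := hx (fun _ => o)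
  have hb := hx (Function.update (fun _ => z) i0 o)
  have hc := hx (Function.update (fun _ => o) i0 z)
  have e1 : ((fun _ => z) : Fin k → Fin m) ≠ fun _ => o := fun h => hzo (congrFun h i0)
  have e2 : Function.update (fun _ => z) i0 o ≠ ((fun _ => z) : Fin k → Fin m) := by
    intro h
    have := congrFun h i0
    simp at this
    exact hzo this.symm
  have e3 : Function.update (fun _ => z) i0 o ≠ ((fun _ => o) : Fin k → Fin m) := by
    intro h
    have := congrFun h i1
    rw [Function.update_of_ne hi.symm] at this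
    exact hzo this
  simp only [if_true, if_neg e1, if_neg e1.symm, if_neg e2, if_neg e3, add_zero, zero_add] at h0 h1 hb
  have key : (∏ i, x i (Function.update (fun _ => z) i0 o i)) *
      (∏ i, x i (Function.update (fun _ => o) i0 z i)) = (∏ i, x i z) * (∏ i, x i o) := by
    rw [← Finset.prod_mul_distrib, ← Finset.prod_mul_distrib]
    refine Finset.prod_congr rfl fun i _ => ?_
    by_cases h : i = i0
    · subst h
      simp [mul_comm]
    · simp [Function.update_of_ne h]
  rw [← hb, ← h0, ← h1] at key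
  simp at key

/-- [D4] the special linear group is not contained in a tensor wreath subgroup. -/
theorem notSL_wreath {m k : ℕ} (hm : 2 ≤ m) (hk : 2 ≤ k) (e : Fin n ≃ (Fin k → Fin m))
    (P : GL (Fin n) F) :
    ¬ specialLinear (Fin n) F ≤ tensorWreathSubgroup m k e P := by
  intro hle
  set a0 : Fin k → Fin m := fun _ => ⟨0, by omega⟩ with ha0
  set a1 : Fin k → Fin m := fun _ => ⟨1, by omega⟩ with ha1
  have h01 : a0 ≠ a1 := by
    intro h
    have := congrFun h ⟨0, by omega⟩
    simp [ha0, ha1] at this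
  have hdot : (Pi.single (e.symm a0) (1 : F) : Fin n → F) ⬝ᵥ Pi.single (e.symm a1) 1 = 0 := by
    rw [single_dotProduct, Pi.single_eq_of_ne, mul_zero]
    intro h
    exact h01 (e.symm.injective h)
  set T := tv (Pi.single (e.symm a1) (1 : F)) (Pi.single (e.symm a0) 1) hdot with hT
  have hTSL : T ∈ specialLinear (Fin n) F := tv_mem_SL _ _ _
  have hnorm : (specialLinear (Fin n) F).Normal := by
    unfold specialLinear
    infer_instance
  have h1 := hle (hnorm.conj_mem T hTSL P)
  rw [mem_tensorWreathSubgroup_iff] at h1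
  have h2 : P⁻¹ * (P * T * P⁻¹) * P = T := by group
  rw [h2] at h1
  have h3 := (pure_iff_of_mem h1 (Pi.single a0 1)).mp (by
    classical
    refine ⟨fun _ => Pi.single ⟨0, by omega⟩ 1, fun a => ?_⟩
    simp only [Pi.single_apply, Finset.prod_ite_zero, Finset.prod_const_one]
    simp [funext_iff, ha0])
  apply not_pure (F := F) hm hk
  convert h3 using 1
  funext x
  rw [Matrix.mulVec_single_one]
  show _ = ((glReindex e T : GL (Fin k → Fin m) F) : Matrix (Fin k → Fin m) (Fin k → Fin m) F) x a0
  have h4 : ((glReindex e T : GL (Fin k → Fin m) F) : Matrix (Fin k → Fin m) (Fin k → Fin m) F) x a0 =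
      (T : Matrix (Fin n) (Fin n) F) (e.symm x) (e.symm a0) := by
    simp [glReindex]
  rw [h4, hT, tv_val]
  simp only [Matrix.add_apply, Matrix.one_apply, Matrix.vecMulVec_apply, Pi.single_apply,
    EmbeddingLike.apply_eq_iff_eq, if_true, mul_one]
  rfl

end Cfsg.Agent.Lib.Helper12AschNotSLWreath
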