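import Cfsg.Agent.Lib.Helper98AschBasic
import Cfsg.Agent.Lib.Helper94AschTensnorm

set_option autoImplicit false

/-! Piece `D10` of the ASCH-GEN project: over the field with two elements, `GL_2(2) ⊗ GL_s(2)`
normalises the field `F_4 ⊗ 1`. -/

namespace Cfsg.Agent.Lib.Helper12AschTensorTwo

open Cfsg Cfsg.Geo Matrix
open Cfsg.Agent.Lib.Helper97AschBase Cfsg.Agent.Lib.Helper98AschDefs
  Cfsg.Agent.Lib.Helper98AschBasic
open scoped MatrixGroups Kronecker

variable {n : ℕ} {F : Type*} [Field F]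

lemma eq_zero_or_one [Fintype F] (hq : Fintype.card F = 2) (x : F) : x = 0 ∨ x = 1 := by
  have h := FiniteField.pow_card x
  rw [hq] at h
  have h2 : x * (x - 1) = 0 := by ring_nf; rw [h]; ring
  rcases mul_eq_zero.mp h2 with h3 | h3
  · exact Or.inl h3
  · exact Or.inr (sub_eq_zero.mp h3)

lemma two_eq_zero' [Fintype F] (hq : Fintype.card F = 2) : (1 : F) + 1 = 0 := by
  rcases eq_zero_or_one hq ((1 : F) + 1) with h | h
  · exact h
  · exact absurd (by simpa using h) (one_ne_zero (α := F))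

/-- the Fibonacci matrix -/
def om (F : Type*) [Field F] : Matrix (Fin 2) (Fin 2) F := !![0, 1; 1, 1]

lemma om_sq : om F * om F = om F + 1 := by
  ext i j
  fin_cases i <;> fin_cases j <;> simp [om, Matrix.mul_apply, Fin.sum_univ_two]

lemma eq_om_of_sq [Fintype F] (hq : Fintype.card F = 2) (b : Matrix (Fin 2) (Fin 2) F)
    (hb : b * b = b + 1) : b = om F ∨ b = om F + 1 := by
  have h2 := two_eq_zero' hq
  have e00 := congrFun (congrFun hb 0) 0
  have e01 := congrFun (congrFun hb 0) 1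
  have e10 := congrFun (congrFun hb 1) 0
  have e11 := congrFun (congrFun hb 1) 1
  simp only [Matrix.mul_apply, Fin.sum_univ_two, Matrix.add_apply, Matrix.one_apply_eq] at e00 e11
  simp only [Matrix.mul_apply, Fin.sum_univ_two, Matrix.add_apply] at e01 e10
  have key : (b 0 0 = 0 ∧ b 0 1 = 1 ∧ b 1 0 = 1 ∧ b 1 1 = 1) ∨
      (b 0 0 = 1 ∧ b 0 1 = 1 ∧ b 1 0 = 1 ∧ b 1 1 = 0) := by
    rcases eq_zero_or_one hq (b 0 0) with h00 | h00 <;>
    rcases eq_zero_or_one hq (b 0 1) with h01 | h01 <;>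
    rcases eq_zero_or_one hq (b 1 0) with h10 | h10 <;>
    rcases eq_zero_or_one hq (b 1 1) with h11 | h11 <;>
    simp [h00, h01, h10, h11, h2] at e00 e01 e10 e11 ⊢
  rcases key with ⟨h00, h01, h10, h11⟩ | ⟨h00, h01, h10, h11⟩
  · left
    ext i j
    fin_cases i <;> fin_cases j <;> simp [om, h00, h01, h10, h11]
  · right
    ext i j
    fin_cases i <;> fin_cases j <;> simp [om, h00, h01, h10, h11, h2]

/-- the subalgebra `F + F W` attached to a root `W` of `X² = X + 1` -/
def quadAlg {B : Type*} [Ring B] [Algebra F B] (W : B) (hW : W * W = W + 1) : Subalgebra F B where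
  carrier := {M | ∃ a b : F, M = a • 1 + b • W}
  mul_mem' := by
    rintro _ _ ⟨a, b, rfl⟩ ⟨c, d, rfl⟩
    refine ⟨a * c + b * d, a * d + b * c + b * d, ?_⟩
    simp only [add_mul, mul_add, smul_mul_smul_comm, one_mul, mul_one, hW, smul_add, add_smul]
    abel
  add_mem' := by
    rintro _ _ ⟨a, b, rfl⟩ ⟨c, d, rfl⟩
    refine ⟨a + c, b + d, ?_⟩
    simp only [add_smul]
    abel
  algebraMap_mem' := by
    intro r
    exact ⟨r, 0, by simp [Algebra.algebraMap_eq_smul_one]⟩

lemma mem_quadAlg {B : Type*} [Ring B] [Algebra F B] (W : B) (hW : W * W = W + 1) (M : B) :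
    M ∈ quadAlg (F := F) W hW ↔ ∃ a b : F, M = a • 1 + b • W := Iff.rfl

/-- [D10] (with the necessary hypothesis `0 < s`). -/
theorem tensor_two [Fintype F] (hq : Fintype.card F = 2) {s : ℕ} (hs : 0 < s)
    (e : Fin n ≃ Fin 2 × Fin s) (P : GL (Fin n) F) :
    ∃ K : Subalgebra F (Matrix (Fin n) (Fin n) F), IsFieldSubalgebra 2 K ∧
      tensorProductSubgroup 2 s e P ≤ subalgebraNormalizer K := by
  have h2 := two_eq_zero' hq
  have : Nonempty (Fin s) := ⟨⟨0, hs⟩⟩
  set W : Matrix (Fin n) (Fin n) F := tens e P (om F) 1 with hWdef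
  have hW : W * W = W + 1 := by
    rw [hWdef, tens_mul, om_sq, mul_one, tens_add_left, tens_one]
  have h2W : W + W = 0 := by
    have : W + W = ((1 : F) + 1) • W := by rw [add_smul, one_smul]
    rw [this, h2, zero_smul]
  have hlin : ∀ a b : F, a • (1 : Matrix (Fin n) (Fin n) F) + b • W = 0 → a = 0 ∧ b = 0 := by
    intro a b hab
    have h1 : tens e P (a • 1 + b • om F) 1 = tens e P 0 1 := by
      rw [tens_add_left, tens_smul_left, tens_smul_left, tens_one, hab]
      have := tens_smul_left e P (0 : F) (0 : Matrix (Fin 2) (Fin 2) F) (1 : Matrix (Fin s) (Fin s) F)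
      simpa using this.symm
    have h3 := Cfsg.Agent.Lib.Helper94AschTensnorm.tens_left_injective e P h1
    have h01 := congrFun (congrFun h3 0) 1
    have h00 := congrFun (congrFun h3 0) 0
    simp [om] at h01 h00
    exact ⟨h00, h01⟩
  refine ⟨quadAlg W hW, ⟨?_, ?_, ?_⟩, ?_⟩
  · rintro _ ⟨a, b, rfl⟩ _ ⟨c, d, rfl⟩
    simp only [add_mul, mul_add, smul_mul_smul_comm, one_mul, mul_one, mul_comm]
    abel
  · rintro _ ⟨a, b, rfl⟩ hne
    rcases eq_zero_or_one hq a with rfl | rfl <;> rcases eq_zero_or_one hq b with rfl | rfl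
    · simp at hne
    · refine ⟨W + 1, ⟨1, 1, by simp [add_comm]⟩, ?_⟩
      simp only [zero_smul, one_smul, zero_add, mul_add, mul_one, hW]
      rw [add_right_comm, h2W, zero_add]
    · exact ⟨1, ⟨1, 0, by simp⟩, by simp⟩
    · refine ⟨W, ⟨0, 1, by simp⟩, ?_⟩
      simp only [one_smul, add_mul, one_mul, hW]
      rw [← add_assoc, h2W, zero_add]
  · have hspan : Subalgebra.toSubmodule (quadAlg (F := F) W hW) =
        Submodule.span F (Set.range ![(1 : Matrix (Fin n) (Fin n) F), W]) := by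
      ext M
      rw [Subalgebra.mem_toSubmodule, mem_quadAlg, Matrix.range_cons, Matrix.range_cons,
        Matrix.range_empty, Set.union_empty, Set.singleton_union, Submodule.mem_span_pair]
      constructor
      · rintro ⟨a, b, rfl⟩; exact ⟨a, b, rfl⟩
      · rintro ⟨a, b, rfl⟩; exact ⟨a, b, rfl⟩
    have hli : LinearIndependent F ![(1 : Matrix (Fin n) (Fin n) F), W] := by
      rw [LinearIndependent.pair_iff]
      exact hlin
    have := finrank_span_eq_card hli
    rw [← hspan] at this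
    simpa using this
  · apply NzA_le_subalgebraNormalizer
    intro g hg k hk
    obtain ⟨a, b, hab⟩ := (mem_tensorProductSubgroup_iff e P g).mp hg
    have hinv : ((g⁻¹ : GL (Fin n) F) : Matrix (Fin n) (Fin n) F) =
        tens e P ((a⁻¹ : GL (Fin 2) F) : Matrix (Fin 2) (Fin 2) F)
          ((b⁻¹ : GL (Fin s) F) : Matrix (Fin s) (Fin s) F) := by
      apply Units.inv_eq_of_mul_eq_one_right
      rw [hab, tens_mul, ← Units.val_mul, ← Units.val_mul, mul_inv_cancel, mul_inv_cancel,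
        Units.val_one, Units.val_one, tens_one]
    obtain ⟨x, y, rfl⟩ := hk
    have hconj : (g : Matrix (Fin n) (Fin n) F) * W * ((g⁻¹ : GL (Fin n) F) : Matrix (Fin n) (Fin n) F) =
        tens e P ((a : Matrix (Fin 2) (Fin 2) F) * om F *
          ((a⁻¹ : GL (Fin 2) F) : Matrix (Fin 2) (Fin 2) F)) 1 := by
      rw [hinv, hab, hWdef, tens_mul, tens_mul, mul_one, ← Units.val_mul, mul_inv_cancel,
        Units.val_one]
    have hsq : ((a : Matrix (Fin 2) (Fin 2) F) * om F *
          ((a⁻¹ : GL (Fin 2) F) : Matrix (Fin 2) (Fin 2) F)) * ((a : Matrix (Fin 2) (Fin 2) F) * om F *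
          ((a⁻¹ : GL (Fin 2) F) : Matrix (Fin 2) (Fin 2) F)) = ((a : Matrix (Fin 2) (Fin 2) F) * om F *
          ((a⁻¹ : GL (Fin 2) F) : Matrix (Fin 2) (Fin 2) F)) + 1 := by
      have h1 : ((a⁻¹ : GL (Fin 2) F) : Matrix (Fin 2) (Fin 2) F) * (a : Matrix (Fin 2) (Fin 2) F) = 1 := by
        rw [← Units.val_mul, inv_mul_cancel, Units.val_one]
      have h1' : (a : Matrix (Fin 2) (Fin 2) F) * ((a⁻¹ : GL (Fin 2) F) : Matrix (Fin 2) (Fin 2) F) = 1 := by
        rw [← Units.val_mul, mul_inv_cancel, Units.val_one]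
      calc _ = (a : Matrix (Fin 2) (Fin 2) F) * om F *
          (((a⁻¹ : GL (Fin 2) F) : Matrix (Fin 2) (Fin 2) F) * (a : Matrix (Fin 2) (Fin 2) F)) * om F *
          ((a⁻¹ : GL (Fin 2) F) : Matrix (Fin 2) (Fin 2) F) := by simp only [mul_assoc]
        _ = (a : Matrix (Fin 2) (Fin 2) F) * (om F * om F) *
          ((a⁻¹ : GL (Fin 2) F) : Matrix (Fin 2) (Fin 2) F) := by
            rw [h1]; simp only [mul_one, mul_assoc]
        _ = _ := by rw [om_sq, mul_add, add_mul, mul_one, h1']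
    have hgg : (g : Matrix (Fin n) (Fin n) F) * ((g⁻¹ : GL (Fin n) F) : Matrix (Fin n) (Fin n) F) = 1 := by
      rw [← Units.val_mul, mul_inv_cancel, Units.val_one]
    have hexp : (g : Matrix (Fin n) (Fin n) F) * (x • 1 + y • W) *
        ((g⁻¹ : GL (Fin n) F) : Matrix (Fin n) (Fin n) F) = x • 1 + y • ((g : Matrix (Fin n) (Fin n) F) * W *
          ((g⁻¹ : GL (Fin n) F) : Matrix (Fin n) (Fin n) F)) := by
      rw [mul_add, add_mul, mul_smul_comm, mul_smul_comm, smul_mul_assoc, smul_mul_assoc, mul_one, hgg]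
    rw [hexp, hconj]
    rcases eq_om_of_sq hq _ hsq with h | h
    · rw [h]
      exact ⟨x, y, rfl⟩
    · rw [h, tens_add_left, tens_one]
      refine ⟨x + y, y, ?_⟩
      rw [smul_add, add_smul]
      abel

end Cfsg.Agent.Lib.Helper12AschTensorTwo
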