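import Cfsg.Agent.Lib.Helper98AschBasic
import Cfsg.Agent.Lib.Helper12AschTensorTwo

set_option autoImplicit false

/-! Pieces `D8`, `D9` of the ASCH-GEN project: decompositions into planes over small fields preserve
a symplectic form. -/

namespace Cfsg.Agent.Lib.Helper12AschPlanes

open Cfsg Cfsg.Geo Matrix
open Cfsg.Agent.Lib.Helper97AschBase Cfsg.Agent.Lib.Helper98AschDefs
  Cfsg.Agent.Lib.Helper98AschBasic
open scoped MatrixGroups

variable {n : ℕ} {F : Type*} [Field F] {t : ℕ}

/-- a basis adapted to a decomposition into planes -/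
noncomputable def cb (D : Fin t → Submodule F (Fin n → F)) (hD : IsMDecomposition 2 D) :
    Module.Basis (Σ _ : Fin t, Fin 2) F (Fin n → F) :=
  (DirectSum.isInternal_submodule_of_iSupIndep_of_iSup_eq_top hD.indep
    hD.iSup_eq_top).collectedBasis
    (fun i => Module.finBasisOfFinrankEq F (D i) (hD.finrank_eq i))

lemma cb_mem (D : Fin t → Submodule F (Fin n → F)) (hD : IsMDecomposition 2 D) (i : Fin t)
    (a : Fin 2) : cb D hD ⟨i, a⟩ ∈ D i := by
  unfold cb
  exact DirectSum.IsInternal.collectedBasis_mem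
    (DirectSum.isInternal_submodule_of_iSupIndep_of_iSup_eq_top hD.indep hD.iSup_eq_top)
    (fun i => Module.finBasisOfFinrankEq F (D i) (hD.finrank_eq i)) ⟨i, a⟩

lemma cb_repr_ne (D : Fin t → Submodule F (Fin n → F)) (hD : IsMDecomposition 2 D) {i j : Fin t}
    (hij : i ≠ j) {x : Fin n → F} (hx : x ∈ D i) (a : Fin 2) : (cb D hD).repr x ⟨j, a⟩ = 0 := by
  unfold cb
  exact DirectSum.IsInternal.collectedBasis_repr_of_mem_ne
    (DirectSum.isInternal_submodule_of_iSupIndep_of_iSup_eq_top hD.indep hD.iSup_eq_top)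
    (fun i => Module.finBasisOfFinrankEq F (D i) (hD.finrank_eq i)) hij hx

/-- the orthogonal sum of the determinant forms of the planes -/
noncomputable def pf (B : Module.Basis (Σ _ : Fin t, Fin 2) F (Fin n → F)) (u v : Fin n → F) : F :=
  ∑ i, (B.repr u ⟨i, 0⟩ * B.repr v ⟨i, 1⟩ - B.repr u ⟨i, 1⟩ * B.repr v ⟨i, 0⟩)

variable (B : Module.Basis (Σ _ : Fin t, Fin 2) F (Fin n → F))

lemma pf_bilinear : IsBilinearForm (pf B) where
  add_left x y v := by
    unfold pf
    rw [← Finset.sum_add_distrib]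
    refine Finset.sum_congr rfl fun i _ => ?_
    simp only [map_add, Finsupp.add_apply]
    ring
  smul_left c x v := by
    unfold pf
    rw [Finset.mul_sum]
    refine Finset.sum_congr rfl fun i _ => ?_
    simp only [map_smul, Finsupp.smul_apply, smul_eq_mul]
    ring
  add_right v x y := by
    unfold pf
    rw [← Finset.sum_add_distrib]
    refine Finset.sum_congr rfl fun i _ => ?_
    simp only [map_add, Finsupp.add_apply]
    ring
  smul_right c v x := by
    unfold pf
    rw [Finset.mul_sum]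
    refine Finset.sum_congr rfl fun i _ => ?_
    simp only [map_smul, Finsupp.smul_apply, smul_eq_mul]
    ring

lemma pf_skew (u v : Fin n → F) : pf B u v = - pf B v u := by
  unfold pf
  rw [← Finset.sum_neg_distrib]
  refine Finset.sum_congr rfl fun i _ => ?_
  ring

lemma pf_self (u : Fin n → F) : pf B u u = 0 := by
  unfold pf
  refine Finset.sum_eq_zero fun i _ => ?_
  ring

lemma pf_basis_zero (i : Fin t) (v : Fin n → F) : pf B (B ⟨i, 0⟩) v = B.repr v ⟨i, 1⟩ := by
  unfold pf
  rw [Finset.sum_eq_single i]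
  · simp [Module.Basis.repr_self]
  · intro k _ hk
    simp [Module.Basis.repr_self, hk.symm]
  · intro h
    exact absurd (Finset.mem_univ i) h

lemma pf_basis_one (i : Fin t) (v : Fin n → F) : pf B (B ⟨i, 1⟩) v = - B.repr v ⟨i, 0⟩ := by
  unfold pf
  rw [Finset.sum_eq_single i]
  · simp [Module.Basis.repr_self]
  · intro k _ hk
    simp [Module.Basis.repr_self, hk.symm]
  · intro h
    exact absurd (Finset.mem_univ i) h

lemma pf_symplectic : IsSymplecticForm (pf B) where
  bilinear := pf_bilinear B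
  skew := pf_skew B
  alternating := pf_self B
  nondegenerate := by
    intro v hv
    have : ∃ x, pf B x v ≠ 0 := by
      by_contra hcon
      push Not at hcon
      apply hv
      apply B.repr.injective
      rw [map_zero]
      ext ⟨i, a⟩
      fin_cases a
      · have := hcon (B ⟨i, 1⟩)
        rw [pf_basis_one] at this
        simpa using this
      · have := hcon (B ⟨i, 0⟩)
        rw [pf_basis_zero] at this
        simpa using this
    obtain ⟨x, hx⟩ := this
    refine ⟨⟨x, hx⟩, ⟨x, ?_⟩⟩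
    rw [pf_skew]
    exact neg_ne_zero.mpr hx

/-- the bundled form -/
noncomputable def pfL : (Fin n → F) →ₗ[F] (Fin n → F) →ₗ[F] F :=
  LinearMap.mk₂ F (pf B) (pf_bilinear B).add_left (pf_bilinear B).smul_left
    (pf_bilinear B).add_right (pf_bilinear B).smul_right

lemma pfL_apply (u v : Fin n → F) : pfL B u v = pf B u v := rfl

section decomp

variable (D : Fin t → Submodule F (Fin n → F)) (hD : IsMDecomposition 2 D)

lemma pf_of_mem {k : Fin t} {x : Fin n → F} (hx : x ∈ D k) (y : Fin n → F) :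
    pf (cb D hD) x y = (cb D hD).repr x ⟨k, 0⟩ * (cb D hD).repr y ⟨k, 1⟩ -
      (cb D hD).repr x ⟨k, 1⟩ * (cb D hD).repr y ⟨k, 0⟩ := by
  unfold pf
  rw [Finset.sum_eq_single k]
  · intro j _ hj
    rw [cb_repr_ne D hD hj.symm hx, cb_repr_ne D hD hj.symm hx]
    ring
  · intro h
    exact absurd (Finset.mem_univ k) h

lemma pf_of_mem_ne {k l : Fin t} (hkl : k ≠ l) {x y : Fin n → F} (hx : x ∈ D k) (hy : y ∈ D l) :
    pf (cb D hD) x y = 0 := by
  rw [pf_of_mem D hD hx, cb_repr_ne D hD hkl.symm hy, cb_repr_ne D hD hkl.symm hy]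
  ring

lemma map_mem {g : GL (Fin n) F} {σ : Equiv.Perm (Fin t)}
    (hσ : ∀ i, (D i).map (Matrix.toLin' (g : Matrix (Fin n) (Fin n) F)) = D (σ i)) {i : Fin t}
    {x : Fin n → F} (hx : x ∈ D i) : (g : Matrix (Fin n) (Fin n) F) *ᵥ x ∈ D (σ i) := by
  rw [← hσ i]
  exact ⟨x, hx, by simp [Matrix.toLin'_apply]⟩

/-- if all the block determinants are equal to `c`, the form is scaled by `c` -/
lemma pf_scale {g : GL (Fin n) F} {σ : Equiv.Perm (Fin t)}
    (hσ : ∀ i, (D i).map (Matrix.toLin' (g : Matrix (Fin n) (Fin n) F)) = D (σ i)) (c : F)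
    (hc : ∀ i, pf (cb D hD) ((g : Matrix (Fin n) (Fin n) F) *ᵥ cb D hD ⟨i, 0⟩)
      ((g : Matrix (Fin n) (Fin n) F) *ᵥ cb D hD ⟨i, 1⟩) = c) (u v : Fin n → F) :
    pf (cb D hD) ((g : Matrix (Fin n) (Fin n) F) *ᵥ u) ((g : Matrix (Fin n) (Fin n) F) *ᵥ v) =
      c * pf (cb D hD) u v := by
  have key : (pfL (cb D hD)).compl₁₂ (Matrix.toLin' (g : Matrix (Fin n) (Fin n) F))
      (Matrix.toLin' (g : Matrix (Fin n) (Fin n) F)) = c • pfL (cb D hD) := by
    apply LinearMap.ext_basis (cb D hD) (cb D hD)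
    rintro ⟨i, a⟩ ⟨j, b⟩
    simp only [LinearMap.compl₁₂_apply, Matrix.toLin'_apply, pfL_apply, LinearMap.smul_apply,
      smul_eq_mul]
    by_cases hij : i = j
    · subst hij
      fin_cases a <;> fin_cases b
      · simp only [Fin.zero_eta, pf_self, mul_zero]
      · simp only [Fin.zero_eta, Fin.mk_one, hc, pf_basis_zero, Module.Basis.repr_self,
          Finsupp.single_eq_same, mul_one]
      · simp only [Fin.zero_eta, Fin.mk_one]
        rw [pf_skew, hc, pf_basis_one, Module.Basis.repr_self, Finsupp.single_eq_same]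
        ring
      · simp only [Fin.mk_one, pf_self, mul_zero]
    · rw [pf_of_mem_ne D hD (fun h => hij (σ.injective h)) (map_mem D hσ (cb_mem D hD i a))
        (map_mem D hσ (cb_mem D hD j b)), pf_of_mem_ne D hD hij (cb_mem D hD i a) (cb_mem D hD j b),
        mul_zero]
  have := congrArg (fun L => L u v) key
  simpa only [LinearMap.compl₁₂_apply, Matrix.toLin'_apply, pfL_apply, LinearMap.smul_apply,
      smul_eq_mul] using this

/-- the block determinants do not vanish -/
lemma pf_block_ne_zero {g : GL (Fin n) F} {σ : Equiv.Perm (Fin t)}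
    (hσ : ∀ i, (D i).map (Matrix.toLin' (g : Matrix (Fin n) (Fin n) F)) = D (σ i)) (i : Fin t) :
    pf (cb D hD) ((g : Matrix (Fin n) (Fin n) F) *ᵥ cb D hD ⟨i, 0⟩)
      ((g : Matrix (Fin n) (Fin n) F) *ᵥ cb D hD ⟨i, 1⟩) ≠ 0 := by
  intro h0
  set x := (g : Matrix (Fin n) (Fin n) F) *ᵥ cb D hD ⟨i, 0⟩ with hx
  set y := (g : Matrix (Fin n) (Fin n) F) *ᵥ cb D hD ⟨i, 1⟩ with hy
  have hxm : x ∈ D (σ i) := map_mem D hσ (cb_mem D hD i 0)
  have hym : y ∈ D (σ i) := map_mem D hσ (cb_mem D hD i 1)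
  rw [pf_of_mem D hD hxm] at h0
  -- a linear relation forces zero coefficients
  have hrel : ∀ a b : F, a • x + b • y = 0 → a = 0 ∧ b = 0 := by
    intro a b hab
    have h1 : (g : Matrix (Fin n) (Fin n) F) *ᵥ (a • cb D hD ⟨i, 0⟩ + b • cb D hD ⟨i, 1⟩) =
        (g : Matrix (Fin n) (Fin n) F) *ᵥ 0 := by
      rw [Matrix.mulVec_add, Matrix.mulVec_smul, Matrix.mulVec_smul, Matrix.mulVec_zero]
      exact hab
    have h2 := mulVec_injective g h1
    have h3 := congrArg (fun w => (cb D hD).repr w) h2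
    simp only [map_add, map_smul, Module.Basis.repr_self, map_zero] at h3
    have h4 := DFunLike.congr_fun h3 ⟨i, 0⟩
    have h5 := DFunLike.congr_fun h3 ⟨i, 1⟩
    simp at h4 h5
    exact ⟨h4, h5⟩
  have hzero : ∀ a b : F,
      a * (cb D hD).repr x ⟨σ i, 0⟩ + b * (cb D hD).repr y ⟨σ i, 0⟩ = 0 →
      a * (cb D hD).repr x ⟨σ i, 1⟩ + b * (cb D hD).repr y ⟨σ i, 1⟩ = 0 → a • x + b • y = 0 := by
    intro a b h1 h2
    apply (cb D hD).repr.injective
    rw [map_zero]
    ext ⟨k, c⟩
    simp only [map_add, map_smul, Finsupp.add_apply, Finsupp.smul_apply, smul_eq_mul,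
      Finsupp.zero_apply]
    by_cases hk : k = σ i
    · subst hk
      fin_cases c
      · exact h1
      · exact h2
    · rw [cb_repr_ne D hD (Ne.symm hk) hxm, cb_repr_ne D hD (Ne.symm hk) hym]
      ring
  have r1 := hrel _ _ (hzero ((cb D hD).repr y ⟨σ i, 0⟩) (- (cb D hD).repr x ⟨σ i, 0⟩) (by ring)
    (by linear_combination (-1 : F) * h0))
  have r2 := hrel _ _ (hzero ((cb D hD).repr y ⟨σ i, 1⟩) (- (cb D hD).repr x ⟨σ i, 1⟩)
    (by linear_combination h0) (by ring))
  have r3 := hrel 1 0 (hzero 1 0 (by simpa using r1.2) (by simpa using r2.2))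
  exact one_ne_zero r3.1

end decomp

/-- [D8] `q = 2`, blocks of dimension 2: orthogonal sum of the determinant forms of the blocks. -/
theorem planes_two [Fintype F] (hq : Fintype.card F = 2) {t : ℕ}
    (D : Fin t → Submodule F (Fin n → F)) (hD : IsMDecomposition 2 D) :
    ∃ f : (Fin n → F) → (Fin n → F) → F, IsSymplecticForm f ∧
      decompositionStabilizer D ≤ similarityGroup f := by
  refine ⟨pf (cb D hD), pf_symplectic _, ?_⟩
  rintro g ⟨σ, hσ⟩
  refine ⟨1, fun u v => ?_⟩
  rw [Units.val_one]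
  apply pf_scale D hD hσ
  intro i
  rcases Cfsg.Agent.Lib.Helper12AschTensorTwo.eq_zero_or_one hq
    (pf (cb D hD) ((g : Matrix (Fin n) (Fin n) F) *ᵥ cb D hD ⟨i, 0⟩)
      ((g : Matrix (Fin n) (Fin n) F) *ᵥ cb D hD ⟨i, 1⟩)) with h | h
  · exact absurd h (pf_block_ne_zero D hD hσ i)
  · exact h

end Cfsg.Agent.Lib.Helper12AschPlanes
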