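import Cfsg.Agent.Lib.Helper12AschPlanes

set_option autoImplicit false

/-! Piece `D9` of the ASCH-GEN project: `n = 4`, `q = 3`, two planes. -/

namespace Cfsg.Agent.Lib.Helper12AschPlanesThree

open Cfsg Cfsg.Geo Matrix
open Cfsg.Agent.Lib.Helper97AschBase Cfsg.Agent.Lib.Helper12AschPlanes
open scoped MatrixGroups

variable {F : Type*} [Field F]

lemma det4_diag (a b c d e f g h : F) :
    det !![a,b,0,0;c,d,0,0;0,0,e,f;0,0,g,h] = (a*d - b*c)*(e*h - f*g) := by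
  simp [Matrix.det_succ_row_zero, Fin.sum_univ_succ, Fin.succAbove]
  ring

lemma det4_anti (a b c d e f g h : F) :
    det !![0,0,e,f;0,0,g,h;a,b,0,0;c,d,0,0] = (a*d - b*c)*(e*h - f*g) := by
  simp [Matrix.det_succ_row_zero, Fin.sum_univ_succ, Fin.succAbove]
  ring

/-- enumeration of the index set of the adapted basis -/
def e4 : Fin 4 ≃ (Σ _ : Fin 2, Fin 2) where
  toFun := ![⟨0, 0⟩, ⟨0, 1⟩, ⟨1, 0⟩, ⟨1, 1⟩]
  invFun p := ⟨2 * p.1.val + p.2.val, by have := p.1.2; have := p.2.2; omega⟩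
  left_inv := by intro i; fin_cases i <;> rfl
  right_inv := by rintro ⟨i, a⟩; fin_cases i <;> fin_cases a <;> rfl

/-- the determinant is the product of the block determinants -/
lemma det_eq_mul (D : Fin 2 → Submodule F (Fin 4 → F)) (hD : IsMDecomposition 2 D)
    {g : GL (Fin 4) F} {σ : Equiv.Perm (Fin 2)}
    (hσ : ∀ i, (D i).map (Matrix.toLin' (g : Matrix (Fin 4) (Fin 4) F)) = D (σ i)) :
    (g : Matrix (Fin 4) (Fin 4) F).det =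
      pf (cb D hD) ((g : Matrix (Fin 4) (Fin 4) F) *ᵥ cb D hD ⟨0, 0⟩)
        ((g : Matrix (Fin 4) (Fin 4) F) *ᵥ cb D hD ⟨0, 1⟩) *
      pf (cb D hD) ((g : Matrix (Fin 4) (Fin 4) F) *ᵥ cb D hD ⟨1, 0⟩)
        ((g : Matrix (Fin 4) (Fin 4) F) *ᵥ cb D hD ⟨1, 1⟩) := by
  set B := cb D hD with hB
  set M := LinearMap.toMatrix B B (Matrix.toLin' (g : Matrix (Fin 4) (Fin 4) F)) with hM
  have hdet : (g : Matrix (Fin 4) (Fin 4) F).det = (M.submatrix e4 e4).det := by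
    rw [Matrix.det_submatrix_equiv_self, hM, LinearMap.det_toMatrix, LinearMap.det_toLin']
  have hMap : ∀ p q, M p q = B.repr ((g : Matrix (Fin 4) (Fin 4) F) *ᵥ B q) p := by
    intro p q
    rw [hM, LinearMap.toMatrix_apply, Matrix.toLin'_apply]
  have hzero : ∀ (k i : Fin 2) (c a : Fin 2), k ≠ σ i → M ⟨k, c⟩ ⟨i, a⟩ = 0 := by
    intro k i c a hk
    rw [hMap]
    exact cb_repr_ne D hD hk.symm (map_mem D hσ (cb_mem D hD i a)) c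
  have hd : ∀ i : Fin 2, pf B ((g : Matrix (Fin 4) (Fin 4) F) *ᵥ B ⟨i, 0⟩)
      ((g : Matrix (Fin 4) (Fin 4) F) *ᵥ B ⟨i, 1⟩) =
      M ⟨σ i, 0⟩ ⟨i, 0⟩ * M ⟨σ i, 1⟩ ⟨i, 1⟩ - M ⟨σ i, 1⟩ ⟨i, 0⟩ * M ⟨σ i, 0⟩ ⟨i, 1⟩ := by
    intro i
    rw [hB, pf_of_mem D hD (map_mem D hσ (cb_mem D hD i 0))]
    simp only [hMap, hB]
  rw [hdet, hd, hd]
  have h0 : σ 0 = 0 ∨ σ 0 = 1 := by
    generalize σ 0 = z
    fin_cases z <;> simp
  have h1 : σ 1 = 0 ∨ σ 1 = 1 := by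
    generalize σ 1 = z
    fin_cases z <;> simp
  have hne : σ 0 ≠ σ 1 := fun h => by
    have := σ.injective h
    simp at this
  rcases h0 with h0 | h0 <;> rcases h1 with h1 | h1
  · exact absurd (h0.trans h1.symm) hne
  · have hN : M.submatrix e4 e4 = !![M ⟨0, 0⟩ ⟨0, 0⟩, M ⟨0, 0⟩ ⟨0, 1⟩, 0, 0;
        M ⟨0, 1⟩ ⟨0, 0⟩, M ⟨0, 1⟩ ⟨0, 1⟩, 0, 0;
        0, 0, M ⟨1, 0⟩ ⟨1, 0⟩, M ⟨1, 0⟩ ⟨1, 1⟩;
        0, 0, M ⟨1, 1⟩ ⟨1, 0⟩, M ⟨1, 1⟩ ⟨1, 1⟩] := by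
      have z1 : ∀ c a, M ⟨0, c⟩ ⟨1, a⟩ = 0 := fun c a => hzero 0 1 c a (by rw [h1]; simp)
      have z2 : ∀ c a, M ⟨1, c⟩ ⟨0, a⟩ = 0 := fun c a => hzero 1 0 c a (by rw [h0]; simp)
      ext i j
      fin_cases i <;> fin_cases j <;> simp [e4, z1, z2]
    rw [hN, det4_diag, h0, h1]
    ring
  · have hN : M.submatrix e4 e4 = !![0, 0, M ⟨0, 0⟩ ⟨1, 0⟩, M ⟨0, 0⟩ ⟨1, 1⟩;
        0, 0, M ⟨0, 1⟩ ⟨1, 0⟩, M ⟨0, 1⟩ ⟨1, 1⟩;
        M ⟨1, 0⟩ ⟨0, 0⟩, M ⟨1, 0⟩ ⟨0, 1⟩, 0, 0;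
        M ⟨1, 1⟩ ⟨0, 0⟩, M ⟨1, 1⟩ ⟨0, 1⟩, 0, 0] := by
      have z1 : ∀ c a, M ⟨0, c⟩ ⟨0, a⟩ = 0 := fun c a => hzero 0 0 c a (by rw [h0]; simp)
      have z2 : ∀ c a, M ⟨1, c⟩ ⟨1, a⟩ = 0 := fun c a => hzero 1 1 c a (by rw [h1]; simp)
      ext i j
      fin_cases i <;> fin_cases j <;> simp [e4, z1, z2]
    rw [hN, det4_anti, h0, h1]
    ring
  · exact absurd (h0.trans h1.symm) hne

/-- [D9] `n = 4`, `q = 3`, two planes: `det g₁ * det g₂ = 1` forces `det g₁ = det g₂`. -/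
theorem planes_three [Fintype F] (hq : Fintype.card F = 3) (D : Fin 2 → Submodule F (Fin 4 → F))
    (hD : IsMDecomposition 2 D) :
    ∃ f : (Fin 4 → F) → (Fin 4 → F) → F, IsSymplecticForm f ∧
      decompositionStabilizer D ⊓ specialLinear (Fin 4) F ≤ similarityGroup f := by
  refine ⟨pf (cb D hD), pf_symplectic _, ?_⟩
  rintro g ⟨⟨σ, hσ⟩, hSL⟩
  have hdet : (g : Matrix (Fin 4) (Fin 4) F).det = 1 := mem_specialLinear_iff.mp hSL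
  rw [det_eq_mul D hD hσ] at hdet
  set d0 := pf (cb D hD) ((g : Matrix (Fin 4) (Fin 4) F) *ᵥ cb D hD ⟨0, 0⟩)
        ((g : Matrix (Fin 4) (Fin 4) F) *ᵥ cb D hD ⟨0, 1⟩) with hd0
  set d1 := pf (cb D hD) ((g : Matrix (Fin 4) (Fin 4) F) *ᵥ cb D hD ⟨1, 0⟩)
        ((g : Matrix (Fin 4) (Fin 4) F) *ᵥ cb D hD ⟨1, 1⟩) with hd1
  have hne : d0 ≠ 0 := pf_block_ne_zero D hD hσ 0
  have hsq : d0 * d0 = 1 := by
    have h := FiniteField.pow_card d0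
    rw [hq] at h
    have h2 : d0 * (d0 * d0 - 1) = 0 := by ring_nf; rw [h]; ring
    rcases mul_eq_zero.mp h2 with h3 | h3
    · exact absurd h3 hne
    · exact sub_eq_zero.mp h3
  have h01 : d1 = d0 := by
    calc d1 = (d0 * d0) * d1 := by rw [hsq, one_mul]
      _ = d0 * (d0 * d1) := by ring
      _ = d0 := by rw [hdet, mul_one]
  refine ⟨Units.mk0 d0 hne, fun u v => ?_⟩
  rw [Units.val_mk0]
  apply pf_scale D hD hσ
  intro i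
  fin_cases i
  · rfl
  · exact h01

end Cfsg.Agent.Lib.Helper12AschPlanesThree
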