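import Cfsg.Agent.Lib.Helper98AschDefs

set_option autoImplicit false

/-! Piece `wa` of the ASCH-GEN project: a semisimple subalgebra of the matrix algebra over a finite
field whose centre consists of scalars is a full matrix algebra over the field. -/

namespace Cfsg.Agent.Lib.Helper12AschWa

open Cfsg Cfsg.Geo Matrix
open scoped MatrixGroups

universe u v

/-- abstract form -/
theorem wa_aux {F : Type u} {A : Type v} [Field F] [Finite F] [Ring A] [Algebra F A] [Nontrivial A]
    [Module.Finite F A] [IsSemisimpleRing A]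
    (hcen : ∀ z : A, (∀ a, z * a = a * z) → ∃ c : F, z = algebraMap F A c) :
    ∃ (d : ℕ) (_ : NeZero d), Nonempty (Matrix (Fin d) (Fin d) F ≃ₐ[F] A) := by
  classical
  obtain ⟨k, D, d, _, _, hfin, hd, ⟨e⟩⟩ :=
    IsSemisimpleRing.exists_algEquiv_pi_matrix_divisionRing_finite F A
  -- transport the hypothesis on the centre
  have hcenB : ∀ z : (Π i, Matrix (Fin (d i)) (Fin (d i)) (D i)), (∀ a, z * a = a * z) →
      ∃ c : F, z = algebraMap F _ c := by
    intro z hz
    obtain ⟨c, hc⟩ := hcen (e.symm z) (by
      intro a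
      apply e.injective
      rw [map_mul, map_mul, e.apply_symm_apply]
      exact hz _)
    refine ⟨c, ?_⟩
    have := congrArg e hc
    rwa [e.apply_symm_apply, AlgEquiv.commutes] at this
  have hnt : ∀ i, Nontrivial (Matrix (Fin (d i)) (Fin (d i)) (D i)) := fun i => by
    have := hd i
    have : Nonempty (Fin (d i)) := ⟨⟨0, Nat.pos_of_ne_zero (NeZero.ne _)⟩⟩
    infer_instance
  have hsub : ∀ i j : Fin k, i = j := by
    intro i j
    by_contra hij
    obtain ⟨c, hc⟩ := hcenB (Pi.single i 1) (by
      intro a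
      funext l
      by_cases hl : l = i
      · subst hl
        simp
      · simp [Pi.single_eq_of_ne hl])
    have hj := congrFun hc j
    have hi := congrFun hc i
    rw [Pi.single_eq_of_ne (Ne.symm hij), Pi.algebraMap_apply] at hj
    rw [Pi.single_eq_same, Pi.algebraMap_apply] at hi
    have := hnt j
    have hc0 : c = 0 := by
      have h1 : algebraMap F (Matrix (Fin (d j)) (Fin (d j)) (D j)) c = algebraMap F _ 0 := by
        rw [← hj, map_zero]
      exact (algebraMap F (Matrix (Fin (d j)) (Fin (d j)) (D j))).injective h1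
    rw [hc0, map_zero] at hi
    have := hnt i
    exact one_ne_zero hi
  have hne : Nonempty (Fin k) := by
    by_contra hemp
    rw [not_nonempty_iff] at hemp
    have h01 : (0 : A) = 1 := by
      apply e.injective
      funext i
      exact (hemp.false i).elim
    exact zero_ne_one h01
  obtain ⟨i0⟩ := hne
  have hDfin : Finite (D i0) := by
    have := hfin i0
    exact Module.finite_of_finite F
  have hDcomm : ∀ x y : D i0, x * y = y * x := fun x y => (littleWedderburn (D i0)).mul_comm x y
  have hsurj : Function.Surjective (algebraMap F (D i0)) := by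
    intro x
    obtain ⟨c, hc⟩ := hcenB (Pi.single i0 (Matrix.scalar _ x)) (by
      intro a
      funext l
      obtain rfl := hsub l i0
      simp only [Pi.mul_apply, Pi.single_eq_same]
      ext p q
      simp [hDcomm])
    refine ⟨c, ?_⟩
    have h0 := congrFun hc i0
    rw [Pi.single_eq_same, Pi.algebraMap_apply] at h0
    have := hd i0
    have h1 := congrFun (congrFun h0 ⟨0, Nat.pos_of_ne_zero (NeZero.ne _)⟩)
      ⟨0, Nat.pos_of_ne_zero (NeZero.ne _)⟩
    simpa [Matrix.algebraMap_matrix_apply] using h1.symm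
  let eD : F ≃ₐ[F] D i0 := AlgEquiv.ofBijective (Algebra.ofId F (D i0))
    ⟨(algebraMap F (D i0)).injective, hsurj⟩
  let ev : (Π i, Matrix (Fin (d i)) (Fin (d i)) (D i)) ≃ₐ[F] Matrix (Fin (d i0)) (Fin (d i0)) (D i0) :=
    AlgEquiv.ofBijective (Pi.evalAlgHom F _ i0) (by
      constructor
      · intro a b hab
        funext l
        obtain rfl := hsub l i0
        exact hab
      · intro a
        exact ⟨Pi.single i0 a, by simp⟩)
  exact ⟨d i0, hd i0, ⟨(eD.mapMatrix).trans (ev.symm.trans e.symm)⟩⟩

variable {n : ℕ} {F : Type*} [Field F]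

/-- [wa] a semisimple subalgebra with trivial centre over a finite field is a full matrix algebra. -/
theorem wa [Finite F] [NeZero n] {A : Subalgebra F (Matrix (Fin n) (Fin n) F)}
    (hss : IsSemisimpleRing A)
    (hcen : ∀ z ∈ A, (∀ a ∈ A, z * a = a * z) → ∃ c : F, z = c • (1 : Matrix (Fin n) (Fin n) F)) :
    ∃ (d : ℕ) (_ : NeZero d), Nonempty (Matrix (Fin d) (Fin d) F ≃ₐ[F] A) := by
  have : Nonempty (Fin n) := ⟨⟨0, Nat.pos_of_ne_zero (NeZero.ne n)⟩⟩
  have : Nontrivial A := inferInstance
  apply wa_aux
  intro z hz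
  obtain ⟨c, hc⟩ := hcen z z.2 (by
    intro a ha
    exact congrArg Subtype.val (hz ⟨a, ha⟩))
  refine ⟨c, ?_⟩
  apply Subtype.ext
  rw [hc, Algebra.algebraMap_eq_smul_one]
  rfl

end Cfsg.Agent.Lib.Helper12AschWa
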