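import Mathlib
import Cfsg.Prelude.Def_OddOrderLocal

set_option autoImplicit false

/-! Generic facts on relative Hall subgroups (`IsPiHallOf`) and elements of prime order, used for
Bender-Glauberman 14.2. -/

namespace Cfsg.Agent.Lib.Helper12BG14Hall

open Cfsg Subgroup
open scoped commutatorElement

variable {G : Type*} [Group G]

theorem card_mul_relIndex' {H K : Subgroup G} (h : H ≤ K) :
    Nat.card H * H.relIndex K = Nat.card K := by
  have := Subgroup.relIndex_mul_relIndex ⊥ H K bot_le h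
  rwa [Subgroup.relIndex_bot_left, Subgroup.relIndex_bot_left] at this

/-- a `π`-subgroup containing a Hall `π`-subgroup is equal to it -/
theorem hall_eq_of_le {π : Set ℕ} {H X Y : Subgroup G} (hH : IsPiHallOf π H X) (hHY : H ≤ Y)
    (hYX : Y ≤ X) (hY : ∀ p : ℕ, p.Prime → p ∣ Nat.card Y → p ∈ π) : Y = H := by
  apply le_antisymm _ hHY
  rw [← relIndex_eq_one]
  by_contra hne
  obtain ⟨p, hp, hd⟩ := Nat.exists_prime_and_dvd hne
  have h1 : p ∣ Nat.card Y := hd.trans (Dvd.intro_left _ (card_mul_relIndex' hHY))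
  have h2 : p ∣ H.relIndex X := hd.trans (Dvd.intro _ (relIndex_mul_relIndex H Y X hHY hYX))
  exact hH.2.2 p hp (hY p hp h1) h2

theorem card_sup_dvd' {A B : Subgroup G} (h : B ≤ normalizer (A : Set G)) :
    Nat.card (A ⊔ B : Subgroup G) ∣ Nat.card A * Nat.card B := by
  have h1 : A.relIndex (B ⊔ A) = A.relIndex B := by
    unfold relIndex index
    let _ := Subgroup.normal_subgroupOf_of_le_normalizer h
    let _ := Subgroup.normal_subgroupOf_sup_of_le_normalizer h
    exact (Nat.card_congr (QuotientGroup.quotientInfEquivProdNormalizerQuotient B A h).toEquiv).symm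
  rw [← card_mul_relIndex' (le_sup_left : A ≤ A ⊔ B), sup_comm, h1]
  exact Nat.mul_dvd_mul_left _ (Subgroup.relIndex_dvd_card A B)

/-- a normal `π`-subgroup lies in every Hall `π`-subgroup -/
theorem normal_le_hall {π : Set ℕ} {H X N : Subgroup G} (hH : IsPiHallOf π H X) (hNX : N ≤ X)
    (hn : X ≤ normalizer (N : Set G)) (hN : ∀ p : ℕ, p.Prime → p ∣ Nat.card N → p ∈ π) : N ≤ H := by
  have h1 : N ⊔ H = H := by
    apply hall_eq_of_le hH le_sup_right (sup_le hNX hH.1)
    intro p hp hd
    rcases (Nat.Prime.dvd_mul hp).mp (hd.trans (card_sup_dvd' (hH.1.trans hn))) with h | h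
    · exact hN p hp h
    · exact hH.2.1 p hp h
  exact h1 ▸ le_sup_left

theorem dvd_hall {π : Set ℕ} {H X : Subgroup G} (hH : IsPiHallOf π H X) {p : ℕ} (hp : p.Prime)
    (hpπ : p ∈ π) (hd : p ∣ Nat.card X) : p ∣ Nat.card H := by
  rw [← card_mul_relIndex' hH.1] at hd
  exact ((Nat.Prime.dvd_mul hp).mp hd).resolve_right (hH.2.2 p hp hpπ)

/-- complementary Hall subgroups generate -/
theorem sup_eq_of_hall {π π' : Set ℕ} {U K E : Subgroup G} (hK : IsPiHallOf π K E)
    (hU : IsPiHallOf π' U E) (hc : ∀ p : ℕ, p.Prime → p ∈ π ∨ p ∈ π') : U ⊔ K = E := by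
  apply le_antisymm (sup_le hU.1 hK.1)
  rw [← relIndex_eq_one]
  by_contra hne
  obtain ⟨p, hp, hd⟩ := Nat.exists_prime_and_dvd hne
  rcases hc p hp with h | h
  · exact hK.2.2 p hp h (hd.trans (relIndex_dvd_of_le_left E le_sup_right))
  · exact hU.2.2 p hp h (hd.trans (relIndex_dvd_of_le_left E le_sup_left))

theorem exists_order [Finite G] {p : ℕ} (hp : p.Prime) {H : Subgroup G} (hd : p ∣ Nat.card H) :
    ∃ x ∈ H, orderOf x = p := by
  have : Fact p.Prime := ⟨hp⟩
  obtain ⟨z, hz⟩ := exists_prime_orderOf_dvd_card' p hd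
  exact ⟨z, z.2, by rw [← hz]; exact (Subgroup.orderOf_coe z)⟩

theorem exists_prime_dvd_of_ne_bot [Finite G] {H : Subgroup G} (h : H ≠ ⊥) :
    ∃ p : ℕ, p.Prime ∧ p ∣ Nat.card H :=
  Nat.exists_prime_and_dvd (fun h1 => h (Subgroup.card_eq_one.mp h1))

/-- an element of prime order among the powers of a non-identity element -/
theorem exists_order_zpowers [Finite G] {k : G} (hk : k ≠ 1) :
    ∃ p : ℕ, p.Prime ∧ ∃ x ∈ zpowers k, orderOf x = p := by
  obtain ⟨p, hp, hd⟩ := exists_prime_dvd_of_ne_bot (H := zpowers k) (fun h => hk (zpowers_eq_bot.mp h))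
  obtain ⟨x, hx, hxo⟩ := exists_order hp hd
  exact ⟨p, hp, x, hx, hxo⟩

theorem ne_one_of_order {p : ℕ} (hp : p.Prime) {x : G} (hx : orderOf x = p) : x ≠ 1 := by
  rintro rfl
  rw [orderOf_one] at hx
  exact hp.one_lt.ne hx

theorem centralizer_zpowers (x : G) :
    centralizer ((zpowers x : Subgroup G) : Set G) = centralizer ({x} : Set G) := by
  apply le_antisymm
  · exact centralizer_le (by
      intro y hy
      rw [Set.mem_singleton_iff.mp hy]
      exact mem_zpowers x)
  · intro g hg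
    rw [mem_centralizer_iff]
    intro y hy
    obtain ⟨i, rfl⟩ := mem_zpowers_iff.mp hy
    have h1 : Commute x g := (mem_centralizer_singleton_iff.mp hg).symm
    exact (h1.zpow_left i).eq

/-- a subgroup containing the derived subgroup is normal -/
theorem le_normalizer_of_commutator_le {E U : Subgroup G} (hUE : U ≤ E) (h : ⁅E, E⁆ ≤ U) :
    E ≤ normalizer (U : Set G) := by
  have key : ∀ e ∈ E, ∀ u ∈ U, e * u * e⁻¹ ∈ U := by
    intro e he u hu
    have h1 : ⁅e, u⁆ ∈ U := h (commutator_mem_commutator he (hUE hu))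
    have h2 : e * u * e⁻¹ = ⁅e, u⁆ * u := by
      rw [commutatorElement_def]
      group
    rw [h2]
    exact mul_mem h1 hu
  intro e he
  rw [mem_normalizer_iff]
  intro u
  refine ⟨key e he u, fun hu => ?_⟩
  have := key e⁻¹ (inv_mem he) _ hu
  simpa [mul_assoc] using this

theorem le_normalizer_commutator (E : Subgroup G) : E ≤ normalizer ((⁅E, E⁆ : Subgroup G) : Set G) :=
  le_normalizer_of_commutator_le (commutator_le_self E) le_rfl

end Cfsg.Agent.Lib.Helper12BG14Hall
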