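import Cfsg.Agent.Lib.Helper12CarterBase

set_option autoImplicit false
set_option linter.style.haveILetI false
set_option linter.deprecated false
set_option linter.unusedSectionVars false
open Pointwise

namespace Cfsg.Agent.Lib.Helper12Carter

open Cfsg.Agent.Lib.Helper12Basic Cfsg.Agent.Lib.Helper12Card Cfsg.Agent.Lib.Helper12Hall
open Cfsg.Agent.Lib.Helper12Coprime Cfsg.Agent.Lib.Helper12Compl Cfsg.Agent.Lib.Helper12SysNorm
open Cfsg.Agent.Lib.Helper12SysQuot Cfsg.Agent.Lib.Helper12Cover Cfsg.Agent.Lib.Helper12CarterBase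

section carter
variable {G : Type*} [Group G]

theorem carter_map [Finite G] [Group.IsSolvable G] {C : Subgroup G} (hC : Cfsg.IsCarterSubgroup C)
    (N : Subgroup G) [N.Normal] : Cfsg.IsCarterSubgroup (C.map (QuotientGroup.mk' N)) := by
  refine ⟨?_, ?_⟩
  · haveI := hC.1
    exact Group.nilpotent_of_surjective ((QuotientGroup.mk' N).subgroupMap C)
      ((QuotientGroup.mk' N).subgroupMap_surjective C)
  · apply le_antisymm _ Subgroup.le_normalizer
    intro xq hxq
    obtain ⟨x, rfl⟩ := QuotientGroup.mk'_surjective N xq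
    have h1 : MulAut.conj x • C ≤ C ⊔ N := by
      intro c hc
      rw [mem_conj_smul] at hc
      have h2 := (Subgroup.mem_normalizer_iff.mp hxq (QuotientGroup.mk' N (x⁻¹ * c * x))).mp
        ⟨_, hc, rfl⟩
      rw [← map_inv, ← map_mul, ← map_mul] at h2
      have e : x * (x⁻¹ * c * x) * x⁻¹ = c := by group
      rw [e] at h2
      have h3 : c ∈ (C.map (QuotientGroup.mk' N)).comap (QuotientGroup.mk' N) := h2
      rwa [Subgroup.comap_map_eq, QuotientGroup.ker_mk'] at h3
    have c1 := carter_subgroupOf hC (le_sup_left : C ≤ C ⊔ N)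
    have c2 := carter_subgroupOf (carter_conj hC x) h1
    obtain ⟨y, hy⟩ := carter_conjugate c1 c2
    have h4 : MulAut.conj (y : G) • C = MulAut.conj x • C := by
      have := congrArg (Subgroup.map (C ⊔ N).subtype) hy
      rw [map_conj_smul, Subgroup.subgroupOf_map_subtype, Subgroup.subgroupOf_map_subtype,
        inf_of_le_left le_sup_left, inf_of_le_left h1] at this
      exact this
    have h5 : x⁻¹ * (y : G) ∈ Subgroup.normalizer (C : Set G) := by
      rw [mem_normalizer_iff_smul, ← conj_smul_conj_smul, h4, conj_inv_smul_conj_smul]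
    rw [hC.2] at h5
    have h6 : x ∈ C ⊔ N := by
      have e : x = (y : G) * (x⁻¹ * (y : G))⁻¹ := by group
      rw [e]
      exact Subgroup.mul_mem _ y.2 (Subgroup.inv_mem _ (Subgroup.mem_sup_left h5))
    have h7 : x ∈ (C.map (QuotientGroup.mk' N)).comap (QuotientGroup.mk' N) := by
      rwa [Subgroup.comap_map_eq, QuotientGroup.ker_mk']
    exact h7

end carter

section main

/-- the complement system `K` reduces into `C` -/
def Reduces {G : Type*} [Group G] (K : Nat.Primes → Subgroup G) (C : Subgroup G) : Prop :=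
  ∀ p : Nat.Primes, ∃ j : ℕ, (K p).relIndex C = (p : ℕ) ^ j

variable {G : Type*} [Group G] [Finite G] {K : Nat.Primes → Subgroup G} {C : Subgroup G}

theorem reduces_map (h : Reduces K C) (N : Subgroup G) [N.Normal] :
    Reduces (fun p => (K p).map (QuotientGroup.mk' N)) (C.map (QuotientGroup.mk' N)) := by
  intro p
  obtain ⟨j, hj⟩ := h p
  have h1 : ((K p).map (QuotientGroup.mk' N)).relIndex (C.map (QuotientGroup.mk' N)) ∣
      (p : ℕ) ^ j := by
    rw [Subgroup.relIndex_map_map, QuotientGroup.ker_mk']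
    have h2 := relIndex_sup_dvd (K p ⊔ N) C N
    have h3 : (K p ⊔ N).relIndex N = 1 := Subgroup.relIndex_eq_one.mpr le_sup_right
    rw [h3, mul_one] at h2
    exact h2.trans ((Subgroup.relIndex_dvd_of_le_left C le_sup_left).trans hj.dvd)
  obtain ⟨i, -, hi⟩ := (Nat.dvd_prime_pow p.2).mp h1
  exact ⟨i, hi⟩

theorem step (hK : Cfsg.IsComplementSystem K) (hC : Cfsg.IsCarterSubgroup C) (hred : Reduces K C)
    (N : Subgroup G) [N.Normal] (r : ℕ) (hr : r.Prime) (hN : IsPGroup r N)
    (hD : Cfsg.systemNormalizer K ≤ C ⊔ N) : Cfsg.systemNormalizer K ≤ C := by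
  haveI : Fact r.Prime := ⟨hr⟩
  obtain ⟨j, hj⟩ := hred ⟨r, hr⟩
  obtain ⟨k, hk⟩ := IsPGroup.iff_card.mp hN
  have hcop := card_coprime hK ⟨r, hr⟩
  set R : Subgroup G := K ⟨r, hr⟩ with hR
  change R.relIndex C = r ^ j at hj
  change (Nat.card R).Coprime r at hcop
  have h1 : (R ⊓ C).relIndex C = r ^ j := by rw [Subgroup.inf_relIndex_right, hj]
  have h2 : C.relIndex (C ⊔ N) ∣ r ^ k := by
    rw [← relIndex_eq_relIndex_sup, ← hk]
    exact Subgroup.relIndex_dvd_card C N
  have h3 : (R ⊓ C).relIndex (C ⊔ N) ∣ r ^ (j + k) := by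
    rw [← Subgroup.relIndex_mul_relIndex (R ⊓ C) C (C ⊔ N) inf_le_right le_sup_left, h1, pow_add]
    exact mul_dvd_mul_left _ h2
  have hle : R ⊓ C ≤ R ⊓ (C ⊔ N) := inf_le_inf_left _ le_sup_left
  have hT : R ⊓ (C ⊔ N) ≤ R ⊓ C := by
    rw [← Subgroup.relIndex_eq_one]
    have e1 : (R ⊓ C).relIndex (R ⊓ (C ⊔ N)) ∣ r ^ (j + k) :=
      (Dvd.intro _ (Subgroup.relIndex_mul_relIndex (R ⊓ C) (R ⊓ (C ⊔ N)) (C ⊔ N) hle
        inf_le_right)).trans h3
    have e2 : (R ⊓ C).relIndex (R ⊓ (C ⊔ N)) ∣ Nat.card R :=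
      (Subgroup.relIndex_dvd_card _ _).trans (Subgroup.card_dvd_of_le inf_le_left)
    exact (Nat.coprime_self _).mp (Nat.Coprime.of_dvd e2 e1 (Nat.Coprime.pow_right _ hcop))
  have hTeq : R ⊓ (C ⊔ N) = R ⊓ C := le_antisymm hT hle
  have hcopT : (Nat.card (R ⊓ C : Subgroup G)).Coprime r :=
    Nat.Coprime.of_dvd_left (Subgroup.card_dvd_of_le inf_le_left) hcop
  have hCn : C ≤ Subgroup.normalizer ((R ⊓ C : Subgroup G) : Set G) :=
    le_normalizer_of_hall_of_nilpotent hC.1 inf_le_right (by rw [h1]; exact hcopT.pow_right _)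
  set Y : Subgroup G := Subgroup.normalizer ((R ⊓ C : Subgroup G) : Set G) ⊓ (C ⊔ N) with hY
  have hCY : C ≤ Y := le_inf hCn le_sup_left
  have hTY : R ⊓ C ≤ Y := inf_le_right.trans hCY
  have hYnil : Group.IsNilpotent Y := by
    haveI : ((R ⊓ C).subgroupOf Y).Normal :=
      (Subgroup.normal_subgroupOf_iff_le_normalizer hTY).mpr inf_le_left
    apply nilpotent_of_two_quotients ((R ⊓ C).subgroupOf Y) (N.subgroupOf Y)
    · have e1 : (R ⊓ C).relIndex Y ∣ r ^ (j + k) :=
        (Dvd.intro _ (Subgroup.relIndex_mul_relIndex (R ⊓ C) Y (C ⊔ N) hTY inf_le_right)).trans h3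
      obtain ⟨i, -, hi⟩ := (Nat.dvd_prime_pow hr).mp e1
      exact (IsPGroup.of_card (p := r) (n := i) hi).isNilpotent
    · haveI := hC.1
      apply Group.nilpotent_of_surjective
        ((QuotientGroup.mk' (N.subgroupOf Y)).comp (Subgroup.inclusion hCY))
      intro yq
      obtain ⟨y, rfl⟩ := QuotientGroup.mk'_surjective _ yq
      have hy : (y : G) ∈ C ⊔ N := y.2.2
      rw [← SetLike.mem_coe, Subgroup.mul_normal] at hy
      obtain ⟨c, hc, n, hn, hcn⟩ := hy
      refine ⟨⟨c, hc⟩, ?_⟩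
      rw [MonoidHom.comp_apply]
      apply QuotientGroup.eq.mpr
      rw [Subgroup.mem_subgroupOf]
      have : (((Subgroup.inclusion hCY ⟨c, hc⟩)⁻¹ * y : Y) : G) = n := by
        simp only [Subgroup.coe_mul, Subgroup.coe_inv, Subgroup.coe_inclusion, ← hcn]
        group
      rw [this]; exact hn
    · rw [eq_bot_iff]
      intro y hy
      have e1 : (R ⊓ C) ⊓ N = ⊥ := by
        apply Subgroup.inf_eq_bot_of_coprime
        rw [hk]
        exact hcopT.pow_right _
      have e2 : (y : G) ∈ (R ⊓ C) ⊓ N := ⟨hy.1, hy.2⟩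
      rw [e1, Subgroup.mem_bot] at e2
      rw [Subgroup.mem_bot]
      exact Subtype.ext e2
  refine le_trans ?_ (le_of_nilpotent_of_selfNormalizing hCY hYnil hC.2)
  intro d hd
  refine ⟨?_, hD hd⟩
  have hdR : d ∈ Subgroup.normalizer (R : Set G) := systemNormalizer_le ⟨r, hr⟩ hd
  have hdX : d ∈ C ⊔ N := hD hd
  change d ∈ Subgroup.normalizer ((R ⊓ C : Subgroup G) : Set G)
  rw [← hTeq, Subgroup.mem_normalizer_iff]
  intro h
  rw [Subgroup.mem_inf, Subgroup.mem_inf, ← Subgroup.mem_normalizer_iff.mp hdR h]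
  have : d * h * d⁻¹ ∈ C ⊔ N ↔ h ∈ C ⊔ N := by
    rw [Subgroup.mul_mem_cancel_right _ (Subgroup.inv_mem _ hdX),
      Subgroup.mul_mem_cancel_left _ hdX]
  rw [this]

universe u

theorem sysNorm_le_aux (n : ℕ) : ∀ (G : Type u) [Group G] [Finite G] [Group.IsSolvable G],
    Nat.card G = n → ∀ (K : Nat.Primes → Subgroup G) (C : Subgroup G),
    Cfsg.IsComplementSystem K → Cfsg.IsCarterSubgroup C → Reduces K C →
    Cfsg.systemNormalizer K ≤ C := by
  induction n using Nat.strong_induction_on with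
  | _ n ih =>
    intro G _ _ _ hn K C hK hC hred
    rcases subsingleton_or_nontrivial G with hs | hnt
    · intro x _
      rw [Subsingleton.elim x 1]; exact C.one_mem
    · obtain ⟨r, N, hr, hNn, hNb, hNr, -⟩ := Cfsg.Agent.S0001.exists_normal_pgroup G
      have hlt : Nat.card (G ⧸ N) < n := by
        rw [← hn, Subgroup.card_eq_card_quotient_mul_card_subgroup N]
        have h1 : 0 < Nat.card (G ⧸ N) := Nat.card_pos
        have h2 : 1 < Nat.card N := (Subgroup.one_lt_card_iff_ne_bot N).mpr hNb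
        nlinarith
      have h1 := ih _ hlt (G ⧸ N) rfl _ _ (map_system hK N) (carter_map hC N) (reduces_map hred N)
      rw [systemNormalizer_map hK N, Subgroup.map_le_map_iff, QuotientGroup.ker_mk'] at h1
      exact step hK hC hred N r hr hNr h1

theorem systemNormalizer_le_of_reduces [Group.IsSolvable G] (hK : Cfsg.IsComplementSystem K)
    (hC : Cfsg.IsCarterSubgroup C) (hred : Reduces K C) : Cfsg.systemNormalizer K ≤ C :=
  sysNorm_le_aux _ G rfl K C hK hC hred

theorem exists_reduces [Group.IsSolvable G] (C : Subgroup G) :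
    ∃ K : Nat.Primes → Subgroup G, Cfsg.IsComplementSystem K ∧ Reduces K C := by
  have h : ∀ p : Nat.Primes, ∃ L : Subgroup G,
      L.index = (p : ℕ) ^ (Nat.card G).factorization p ∧ ∃ j : ℕ, L.relIndex C = (p : ℕ) ^ j := by
    intro p
    have hC0 : Nat.card C ≠ 0 := Nat.card_pos.ne'
    have hG0 : Nat.card G ≠ 0 := Nat.card_pos.ne'
    obtain ⟨T', hT'⟩ := hall_exists (G := C) (ordCompl[(p : ℕ)] (Nat.card C))
      (ordProj[(p : ℕ)] (Nat.card C)) (by rw [mul_comm]; exact (Nat.ordProj_mul_ordCompl_eq_self _ _).symm)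
      ((Nat.coprime_ordCompl p.2 hC0).symm.pow_right _)
    have hT : Nat.card (T'.map C.subtype) = ordCompl[(p : ℕ)] (Nat.card C) := by
      rw [card_map_subtype, hT']
    obtain ⟨L, hL, hTL⟩ := hall_dominance (ordCompl[(p : ℕ)] (Nat.card G))
      (ordProj[(p : ℕ)] (Nat.card G)) (by rw [mul_comm]; exact (Nat.ordProj_mul_ordCompl_eq_self _ _).symm)
      ((Nat.coprime_ordCompl p.2 hG0).symm.pow_right _) (T'.map C.subtype)
      (by rw [hT]; exact (Nat.coprime_ordCompl p.2 hC0).symm.pow_right _)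
    refine ⟨L, ?_, ?_⟩
    · have e1 := L.card_mul_index
      rw [hL] at e1
      have e2 := Nat.ordProj_mul_ordCompl_eq_self (Nat.card G) p
      rw [mul_comm] at e2
      have e3 : 0 < ordCompl[(p : ℕ)] (Nat.card G) := Nat.ordCompl_pos _ hG0
      exact Nat.eq_of_mul_eq_mul_left e3 (e1.trans e2.symm)
    · have e1 : L.relIndex C ∣ (T'.map C.subtype).relIndex C :=
        Subgroup.relIndex_dvd_of_le_left C hTL
      have e2 : (T'.map C.subtype).relIndex C = ordProj[(p : ℕ)] (Nat.card C) := by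
        have e3 := Subgroup.card_mul_index T'
        have e4 : (T'.map C.subtype).relIndex C = T'.index := by
          rw [Subgroup.relIndex, ← Subgroup.comap_subtype,
            Subgroup.comap_map_eq_self_of_injective C.subtype_injective]
        rw [e4]
        rw [hT'] at e3
        have e5 := Nat.ordProj_mul_ordCompl_eq_self (Nat.card C) p
        rw [mul_comm] at e5
        exact Nat.eq_of_mul_eq_mul_left (Nat.ordCompl_pos _ hC0) (e3.trans e5.symm)
      rw [e2] at e1
      obtain ⟨i, -, hi⟩ := (Nat.dvd_prime_pow p.2).mp e1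
      exact ⟨i, hi⟩
  choose K hK1 hK2 using h
  exact ⟨K, hK1, hK2⟩

theorem systemNormalizer_conj (K : Nat.Primes → Subgroup G) (g : G) :
    Cfsg.systemNormalizer (fun p => MulAut.conj g • K p) =
      MulAut.conj g • Cfsg.systemNormalizer K := by
  ext x
  rw [mem_conj_smul]
  simp only [Cfsg.systemNormalizer, Subgroup.mem_iInf]
  apply forall_congr'
  intro p
  rw [mem_normalizer_iff_smul, mem_normalizer_iff_smul, conj_smul_conj_smul]
  constructor
  · intro h
    rw [mul_assoc, ← conj_smul_conj_smul, h, conj_inv_smul_conj_smul]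
  · intro h
    have e : x * g = g * (g⁻¹ * x * g) := by group
    rw [e, ← conj_smul_conj_smul, h]

theorem exists_carter_ge [Group.IsSolvable G] (hK : Cfsg.IsComplementSystem K) :
    ∃ (C₀ : Subgroup G) (K₀ : Nat.Primes → Subgroup G) (g : G), Cfsg.IsCarterSubgroup C₀ ∧
      Cfsg.IsComplementSystem K₀ ∧ Reduces K₀ C₀ ∧ K = fun p => MulAut.conj g • K₀ p := by
  obtain ⟨C₀, hC₀⟩ := exists_carter G
  obtain ⟨K₀, hK₀, hred⟩ := exists_reduces C₀
  obtain ⟨g, hg⟩ := conj_system hK₀ hK
  exact ⟨C₀, K₀, g, hC₀, hK₀, hred, funext fun p => (hg p).symm⟩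

theorem carter_eq_systemNormalizer [Group.IsSolvable G] (F : Subgroup G) [F.Normal]
    (hF : Group.IsNilpotent F) (hGF : Group.IsNilpotent (G ⧸ F))
    (hK : Cfsg.IsComplementSystem K) (hC : Cfsg.IsCarterSubgroup C) (hred : Reduces K C) :
    C = Cfsg.systemNormalizer K := by
  apply le_antisymm _ (systemNormalizer_le_of_reduces hK hC hred)
  have hCF : C ⊔ F = ⊤ := by
    have h1 := carter_map hC F
    have h2 : (⊤ : Subgroup (G ⧸ F)) ≤ C.map (QuotientGroup.mk' F) :=
      le_of_nilpotent_of_selfNormalizing le_top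
        (Group.nilpotent_of_mulEquiv Subgroup.topEquiv.symm) h1.2
    have h3 := Subgroup.comap_map_eq (QuotientGroup.mk' F) C
    rw [top_le_iff.mp h2, Subgroup.comap_top, QuotientGroup.ker_mk'] at h3
    exact h3.symm
  simp only [Cfsg.systemNormalizer, le_iInf_iff]
  intro p
  obtain ⟨j, hj⟩ := hred p
  have hcop := card_coprime hK p
  have hF1 : (K p).relIndex F ∣ (p : ℕ) ^ (Nat.card G).factorization p := by
    rw [← hK p]; exact relIndex_dvd_index_of_normal_right _ _
  obtain ⟨i, -, hi⟩ := (Nat.dvd_prime_pow p.2).mp hF1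
  have hle : (K p ⊓ C) ⊔ (K p ⊓ F) ≤ K p := sup_le inf_le_left inf_le_left
  have h1 : ((K p ⊓ C) ⊔ (K p ⊓ F)).index ∣ (p : ℕ) ^ (j + i) := by
    have e1 := relIndex_sup_dvd ((K p ⊓ C) ⊔ (K p ⊓ F)) C F
    rw [hCF, Subgroup.relIndex_top_right] at e1
    refine e1.trans ?_
    rw [pow_add, ← hj, ← hi, ← Subgroup.inf_relIndex_right (K p) C,
      ← Subgroup.inf_relIndex_right (K p) F]
    exact mul_dvd_mul (Subgroup.relIndex_dvd_of_le_left C le_sup_left)
      (Subgroup.relIndex_dvd_of_le_left F le_sup_right)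
  have h2 : K p ≤ (K p ⊓ C) ⊔ (K p ⊓ F) := by
    rw [← Subgroup.relIndex_eq_one]
    exact (Nat.coprime_self _).mp (Nat.Coprime.of_dvd (Subgroup.relIndex_dvd_card _ _)
      ((Subgroup.relIndex_dvd_index_of_le hle).trans h1) (hcop.pow_right _))
  have h3 : K p = (K p ⊓ C) ⊔ (K p ⊓ F) := le_antisymm h2 hle
  have hcopC : (Nat.card (K p ⊓ C : Subgroup G)).Coprime p :=
    Nat.Coprime.of_dvd_left (Subgroup.card_dvd_of_le inf_le_left) hcop
  have hcopF : (Nat.card (K p ⊓ F : Subgroup G)).Coprime p :=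
    Nat.Coprime.of_dvd_left (Subgroup.card_dvd_of_le inf_le_left) hcop
  have hCn : C ≤ Subgroup.normalizer ((K p ⊓ C : Subgroup G) : Set G) :=
    le_normalizer_of_hall_of_nilpotent hC.1 inf_le_right
      (by rw [Subgroup.inf_relIndex_right, hj]; exact hcopC.pow_right _)
  have hFn : F ≤ Subgroup.normalizer ((K p ⊓ F : Subgroup G) : Set G) :=
    le_normalizer_of_hall_of_nilpotent hF inf_le_right
      (by rw [Subgroup.inf_relIndex_right, hi]; exact hcopF.pow_right _)
  intro c hc
  rw [mem_normalizer_iff_smul, h3, Subgroup.smul_sup, mem_normalizer_iff_smul.mp (hCn hc)]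
  congr 1
  apply smul_eq_of_ge
  apply le_of_normal_hall (M := F) inf_le_right hFn
  · calc MulAut.conj c • (K p ⊓ F) ≤ MulAut.conj c • F :=
        Subgroup.pointwise_smul_le_pointwise_smul_iff.mpr inf_le_right
      _ = F := Subgroup.Normal.conj_smul_eq_self c F
  · rw [card_conj_smul, Subgroup.inf_relIndex_right, hi]
    exact hcopF.pow_right _

end main

end Cfsg.Agent.Lib.Helper12Carter
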