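import Cfsg.Agent.Lib.Helper12Cover

set_option autoImplicit false
set_option linter.style.haveILetI false
set_option linter.deprecated false
set_option linter.unusedSectionVars false
open Pointwise

namespace Cfsg.Agent.Lib.Helper12CarterBase

open Cfsg.Agent.Lib.Helper12Basic Cfsg.Agent.Lib.Helper12Card Cfsg.Agent.Lib.Helper12Hall
open Cfsg.Agent.Lib.Helper12Coprime Cfsg.Agent.Lib.Helper12Compl Cfsg.Agent.Lib.Helper12SysNorm
open Cfsg.Agent.Lib.Helper12SysQuot Cfsg.Agent.Lib.Helper12Cover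

section basic
variable {G : Type*} [Group G]

/-- a subgroup of order prime to the index of a normal (in `M`) subgroup `T` lies in `T` -/
theorem le_of_normal_hall {T M U : Subgroup G} (hTM : T ≤ M)
    (hM : M ≤ Subgroup.normalizer (T : Set G)) (hUM : U ≤ M)
    (h : (Nat.card U).Coprime (T.relIndex M)) : U ≤ T := by
  haveI : (T.subgroupOf M).Normal := (Subgroup.normal_subgroupOf_iff_le_normalizer hTM).mpr hM
  have h1 := Subgroup.relIndex_dvd_index_of_normal (T.subgroupOf M) (U.subgroupOf M)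
  rw [Subgroup.relIndex_subgroupOf hUM] at h1
  have h2 : T.relIndex U ∣ Nat.card U := Subgroup.relIndex_dvd_card T U
  rw [← Subgroup.relIndex_eq_one]
  exact (Nat.coprime_self _).mp (Nat.Coprime.of_dvd h2 h1 h)

theorem hall_normal_of_nilpotent [Finite G] [Group.IsNilpotent G] (T : Subgroup G)
    (h : (Nat.card T).Coprime T.index) : T.Normal := by
  rw [← Subgroup.normalizer_eq_top_iff]
  apply (normalizerCondition_iff_only_full_group_self_normalizing.mp
    normalizerCondition_of_isNilpotent)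
  apply le_antisymm _ Subgroup.le_normalizer
  intro y hy
  rw [mem_normalizer_iff_smul] at hy ⊢
  apply smul_eq_of_ge
  apply le_of_normal_hall (M := Subgroup.normalizer (T : Set G)) Subgroup.le_normalizer le_rfl
  · rw [← hy]
    exact Subgroup.pointwise_smul_le_pointwise_smul_iff.mpr Subgroup.le_normalizer
  · rw [card_conj_smul]
    exact Nat.Coprime.of_dvd_right (Subgroup.relIndex_dvd_index_of_le Subgroup.le_normalizer) h

theorem le_normalizer_of_hall_of_nilpotent [Finite G] {T C : Subgroup G} (hC : Group.IsNilpotent C)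
    (hTC : T ≤ C) (h : (Nat.card T).Coprime (T.relIndex C)) :
    C ≤ Subgroup.normalizer (T : Set G) := by
  rw [← Subgroup.normal_subgroupOf_iff_le_normalizer hTC]
  apply hall_normal_of_nilpotent
  rw [card_subgroupOf hTC]
  exact h

/-- a nilpotent overgroup of a self-normalizing subgroup equals it -/
theorem le_of_nilpotent_of_selfNormalizing {C Y : Subgroup G} (hCY : C ≤ Y)
    (hY : Group.IsNilpotent Y) (hC : Subgroup.normalizer (C : Set G) = C) : Y ≤ C := by
  have h1 : C.subgroupOf Y = ⊤ := by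
    apply (normalizerCondition_iff_only_full_group_self_normalizing.mp
      normalizerCondition_of_isNilpotent)
    apply le_antisymm _ Subgroup.le_normalizer
    intro y hy
    rw [Subgroup.mem_subgroupOf, ← hC, Subgroup.mem_normalizer_iff]
    have key : ∀ z : Y, z ∈ Subgroup.normalizer ((C.subgroupOf Y : Subgroup Y) : Set Y) →
        ∀ g : G, g ∈ C → (z : G) * g * (z : G)⁻¹ ∈ C := by
      intro z hz g hg
      have := (Subgroup.mem_normalizer_iff.mp hz ⟨g, hCY hg⟩).mp hg
      exact this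
    intro g
    constructor
    · exact key y hy g
    · intro hg
      have := key y⁻¹ (Subgroup.inv_mem _ hy) _ hg
      have e : ((y⁻¹ : Y) : G) * ((y : G) * g * (y : G)⁻¹) * ((y⁻¹ : Y) : G)⁻¹ = g := by
        simp only [Subgroup.coe_inv]; group
      rwa [e] at this
  exact Subgroup.subgroupOf_eq_top.mp h1

theorem relIndex_sup_dvd [Finite G] (H C N : Subgroup G) [N.Normal] :
    H.relIndex (C ⊔ N) ∣ H.relIndex C * H.relIndex N := by
  have h1 : H.relIndex ((H ⊔ N) ⊓ (C ⊔ N)) * (H ⊔ N).relIndex (C ⊔ N) = H.relIndex (C ⊔ N) := by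
    have := Subgroup.relIndex_inf_mul_relIndex H (H ⊔ N) (C ⊔ N)
    rwa [inf_of_le_left (le_sup_left : H ≤ H ⊔ N)] at this
  have h2 : (H ⊔ N).relIndex (C ⊔ N) = (H ⊔ N).relIndex C := by
    have e1 := Subgroup.relIndex_map_map (QuotientGroup.mk' N) (H ⊔ N) C
    rw [QuotientGroup.ker_mk', sup_assoc, sup_idem] at e1
    rw [← e1, ← Subgroup.relIndex_comap, Subgroup.comap_map_eq, QuotientGroup.ker_mk', sup_assoc,
      sup_idem]
  have h3 : (H ⊔ N).relIndex C ∣ H.relIndex C := Subgroup.relIndex_dvd_of_le_left C le_sup_left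
  have h4 : (H ⊔ N) ⊓ (C ⊔ N) = (H ⊓ (C ⊔ N)) ⊔ N := by
    apply le_antisymm
    · intro y hy
      obtain ⟨hy1, hy2⟩ := Subgroup.mem_inf.mp hy
      rw [← SetLike.mem_coe, Subgroup.mul_normal] at hy1
      obtain ⟨a, ha, n, hn, rfl⟩ := hy1
      have : a ∈ C ⊔ N := by
        have := Subgroup.mul_mem _ hy2 (Subgroup.inv_mem _ (Subgroup.mem_sup_right (S := C) hn))
        simpa using this
      exact Subgroup.mul_mem _ (Subgroup.mem_sup_left ⟨ha, this⟩) (Subgroup.mem_sup_right hn)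
    · exact sup_le (inf_le_inf_right _ le_sup_left) (le_inf le_sup_right le_sup_right)
  have h5 : H.relIndex ((H ⊔ N) ⊓ (C ⊔ N)) ∣ H.relIndex N := by
    rw [h4]
    have e1 : H.relIndex ((H ⊓ (C ⊔ N)) ⊔ N) ∣ (H ⊓ (C ⊔ N)).relIndex ((H ⊓ (C ⊔ N)) ⊔ N) :=
      Subgroup.relIndex_dvd_of_le_left _ inf_le_left
    rw [← relIndex_eq_relIndex_sup] at e1
    have e2 : (H ⊓ (C ⊔ N)).relIndex N = H.relIndex N := by
      rw [← Subgroup.inf_relIndex_right, inf_assoc, inf_of_le_right (le_sup_right : N ≤ C ⊔ N),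
        Subgroup.inf_relIndex_right]
    rwa [e2] at e1
  rw [← h1, h2, mul_comm]
  exact mul_dvd_mul h3 h5

end basic

section carter
variable {G : Type*} [Group G]

theorem carter_subgroupOf {C X : Subgroup G} (hC : Cfsg.IsCarterSubgroup C) (hCX : C ≤ X) :
    Cfsg.IsCarterSubgroup (C.subgroupOf X) := by
  refine ⟨?_, ?_⟩
  · haveI := hC.1
    exact Group.nilpotent_of_surjective (Subgroup.subgroupOfEquivOfLe hCX).symm.toMonoidHom
      (Subgroup.subgroupOfEquivOfLe hCX).symm.surjective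
  · apply le_antisymm _ Subgroup.le_normalizer
    intro y hy
    rw [Subgroup.mem_subgroupOf, ← hC.2, Subgroup.mem_normalizer_iff]
    have key : ∀ z : X, z ∈ Subgroup.normalizer ((C.subgroupOf X : Subgroup X) : Set X) →
        ∀ g : G, g ∈ C → (z : G) * g * (z : G)⁻¹ ∈ C := by
      intro z hz g hg
      have := (Subgroup.mem_normalizer_iff.mp hz ⟨g, hCX hg⟩).mp hg
      exact this
    intro g
    constructor
    · exact key y hy g
    · intro hg
      have := key y⁻¹ (Subgroup.inv_mem _ hy) _ hg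
      have e : ((y⁻¹ : X) : G) * ((y : G) * g * (y : G)⁻¹) * ((y⁻¹ : X) : G)⁻¹ = g := by
        simp only [Subgroup.coe_inv]; group
      rwa [e] at this

theorem carter_conj {C : Subgroup G} (hC : Cfsg.IsCarterSubgroup C) (g : G) :
    Cfsg.IsCarterSubgroup (MulAut.conj g • C) := by
  refine ⟨?_, ?_⟩
  · haveI := hC.1
    exact Group.nilpotent_of_surjective (Subgroup.equivSMul (MulAut.conj g) C).toMonoidHom
      (Subgroup.equivSMul (MulAut.conj g) C).surjective
  · apply le_antisymm _ Subgroup.le_normalizer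
    intro y hy
    rw [mem_normalizer_iff_smul, conj_smul_conj_smul] at hy
    have h1 : g⁻¹ * y * g ∈ Subgroup.normalizer (C : Set G) := by
      rw [mem_normalizer_iff_smul, mul_assoc, ← conj_smul_conj_smul, hy, conj_inv_smul_conj_smul]
    rw [hC.2] at h1
    exact mem_conj_smul.mpr h1


end carter

theorem nilpotent_of_two_quotients {Y : Type*} [Group Y] (A B : Subgroup Y) [A.Normal] [B.Normal]
    (hA : Group.IsNilpotent (Y ⧸ A)) (hB : Group.IsNilpotent (Y ⧸ B)) (hAB : A ⊓ B = ⊥) :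
    Group.IsNilpotent Y := by
  set f : Y →* (Y ⧸ A) × (Y ⧸ B) := (QuotientGroup.mk' A).prod (QuotientGroup.mk' B) with hf
  have hinj : Function.Injective f := by
    rw [injective_iff_map_eq_one]
    intro y hy
    have h1 : QuotientGroup.mk' A y = 1 := congrArg Prod.fst hy
    have h2 : QuotientGroup.mk' B y = 1 := congrArg Prod.snd hy
    have h3 : y ∈ A ⊓ B := ⟨(QuotientGroup.eq_one_iff y).mp h1, (QuotientGroup.eq_one_iff y).mp h2⟩
    rwa [hAB, Subgroup.mem_bot] at h3
  exact Group.nilpotent_of_mulEquiv (MonoidHom.ofInjective hinj).symm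


section exist
variable {G : Type*} [Group G] [Finite G]

theorem card_eq_of_mul_pow {m₁ m₂ r a b : ℕ} (h₁ : m₁.Coprime r) (h₂ : m₂.Coprime r)
    (h : m₁ * r ^ a = m₂ * r ^ b) : m₁ = m₂ := by
  apply Nat.dvd_antisymm
  · exact Nat.Coprime.dvd_of_dvd_mul_right (h₁.pow_right b) (Dvd.intro _ h)
  · exact Nat.Coprime.dvd_of_dvd_mul_right (h₂.pow_right a) (Dvd.intro _ h.symm)

theorem card_mul_relIndex {H M : Subgroup G} (h : H ≤ M) :
    Nat.card H * H.relIndex M = Nat.card M := by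
  have := (H.subgroupOf M).card_mul_index
  rwa [card_subgroupOf h] at this

theorem exists_pcompl_le [Group.IsSolvable G] (X : Subgroup G) (r : ℕ) (hr : r.Prime) :
    ∃ Q : Subgroup G, Q ≤ X ∧ (Nat.card Q).Coprime r ∧ ∃ j : ℕ, Q.relIndex X = r ^ j := by
  have hC0 : Nat.card X ≠ 0 := Nat.card_pos.ne'
  obtain ⟨T', hT'⟩ := hall_exists (G := X) (ordCompl[r] (Nat.card X))
    (ordProj[r] (Nat.card X)) (by rw [mul_comm]; exact (Nat.ordProj_mul_ordCompl_eq_self _ _).symm)
    ((Nat.coprime_ordCompl hr hC0).symm.pow_right _)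
  have hT : Nat.card (T'.map X.subtype) = ordCompl[r] (Nat.card X) := by
    rw [card_map_subtype, hT']
  refine ⟨T'.map X.subtype, Subgroup.map_subtype_le _, ?_, (Nat.card X).factorization r, ?_⟩
  · rw [hT]; exact (Nat.coprime_ordCompl hr hC0).symm
  · have e3 := card_mul_relIndex (Subgroup.map_subtype_le T')
    rw [hT] at e3
    have e5 := Nat.ordProj_mul_ordCompl_eq_self (Nat.card X) r
    rw [mul_comm] at e5
    exact Nat.eq_of_mul_eq_mul_left (Nat.ordCompl_pos _ hC0) (e3.trans e5.symm)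

theorem nilpotent_of_two_homs {Y A B : Type*} [Group Y] [Group A] [Group B] (f : Y →* A)
    (g : Y →* B) [Group.IsNilpotent A] [Group.IsNilpotent B] (h : f.ker ⊓ g.ker = ⊥) :
    Group.IsNilpotent Y := by
  have hinj : Function.Injective (f.prod g) := by
    rw [injective_iff_map_eq_one]
    intro y hy
    have h1 : f y = 1 := congrArg Prod.fst hy
    have h2 : g y = 1 := congrArg Prod.snd hy
    have h3 : y ∈ f.ker ⊓ g.ker := ⟨h1, h2⟩
    rwa [h, Subgroup.mem_bot] at h3
  exact Group.nilpotent_of_mulEquiv (MonoidHom.ofInjective hinj).symm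

/-- `Y ≤ D N` normalizing a `r'`-subgroup `Q` of `r`-power index is nilpotent when `D` is -/
theorem nilpotent_of_le_normalizer {D Q Y : Subgroup G} (hD : Group.IsNilpotent D) (N : Subgroup G)
    [N.Normal] (r : ℕ) (hr : r.Prime) (hN : IsPGroup r N) (hQY : Q ≤ Y)
    (hQ : (Nat.card Q).Coprime r) (m : ℕ) (hQX : Q.relIndex Y ∣ r ^ m)
    (hYn : Y ≤ Subgroup.normalizer (Q : Set G)) (hYD : Y ≤ D ⊔ N) : Group.IsNilpotent Y := by
  haveI : Fact r.Prime := ⟨hr⟩
  haveI : (Q.subgroupOf Y).Normal := (Subgroup.normal_subgroupOf_iff_le_normalizer hQY).mpr hYn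
  haveI : Group.IsNilpotent (Y ⧸ Q.subgroupOf Y) := by
    obtain ⟨i, -, hi⟩ := (Nat.dvd_prime_pow hr).mp hQX
    exact (IsPGroup.of_card (p := r) (n := i) hi).isNilpotent
  haveI : Group.IsNilpotent (D.map (QuotientGroup.mk' N)) :=
    Group.nilpotent_of_surjective ((QuotientGroup.mk' N).subgroupMap D)
      ((QuotientGroup.mk' N).subgroupMap_surjective D)
  have hmem : ∀ y : Y, ((QuotientGroup.mk' N).comp Y.subtype) y ∈ D.map (QuotientGroup.mk' N) := by
    intro y
    have h1 : (y : G) ∈ (D.map (QuotientGroup.mk' N)).comap (QuotientGroup.mk' N) := by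
      rw [Subgroup.comap_map_eq, QuotientGroup.ker_mk']; exact hYD y.2
    exact h1
  apply nilpotent_of_two_homs (QuotientGroup.mk' (Q.subgroupOf Y))
    (((QuotientGroup.mk' N).comp Y.subtype).codRestrict (D.map (QuotientGroup.mk' N)) hmem)
  rw [eq_bot_iff]
  intro y hy
  obtain ⟨hy1, hy2⟩ := Subgroup.mem_inf.mp hy
  rw [QuotientGroup.ker_mk', Subgroup.mem_subgroupOf] at hy1
  have hy3 : (y : G) ∈ N := by
    have := congrArg Subtype.val (MonoidHom.mem_ker.mp hy2)
    exact (QuotientGroup.eq_one_iff (y : G)).mp this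
  obtain ⟨k, hk⟩ := IsPGroup.iff_card.mp hN
  have e1 : Q ⊓ N = ⊥ := by
    apply Subgroup.inf_eq_bot_of_coprime
    rw [hk]
    exact hQ.pow_right _
  have e2 : (y : G) ∈ Q ⊓ N := ⟨hy1, hy3⟩
  rw [e1, Subgroup.mem_bot] at e2
  rw [Subgroup.mem_bot]
  exact Subtype.ext e2

theorem relIndex_sup_dvd_pow (C N : Subgroup G) [N.Normal] (r k : ℕ) (hk : Nat.card N = r ^ k) :
    C.relIndex (C ⊔ N) ∣ r ^ k := by
  rw [← relIndex_eq_relIndex_sup, ← hk]
  exact Subgroup.relIndex_dvd_card C N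

theorem carter_conj_of_sup_eq [Group.IsSolvable G] {C D : Subgroup G}
    (hC : Cfsg.IsCarterSubgroup C) (hD : Cfsg.IsCarterSubgroup D) (N : Subgroup G) [N.Normal]
    (r : ℕ) (hr : r.Prime) (hN : IsPGroup r N) (h : C ⊔ N = D ⊔ N) :
    ∃ u ∈ C ⊔ N, MulAut.conj u • C = D := by
  haveI : Fact r.Prime := ⟨hr⟩
  obtain ⟨k, hk⟩ := IsPGroup.iff_card.mp hN
  obtain ⟨Q₁, hQ₁C, hQ₁r, j₁, hj₁⟩ := exists_pcompl_le C r hr
  obtain ⟨Q₂, hQ₂D, hQ₂r, j₂, hj₂⟩ := exists_pcompl_le D r hr
  have h1 : Q₁.relIndex (C ⊔ N) ∣ r ^ (j₁ + k) := by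
    rw [← Subgroup.relIndex_mul_relIndex Q₁ C (C ⊔ N) hQ₁C le_sup_left, hj₁, pow_add]
    exact mul_dvd_mul_left _ (relIndex_sup_dvd_pow C N r k hk)
  have h2 : Q₂.relIndex (D ⊔ N) ∣ r ^ (j₂ + k) := by
    rw [← Subgroup.relIndex_mul_relIndex Q₂ D (D ⊔ N) hQ₂D le_sup_left, hj₂, pow_add]
    exact mul_dvd_mul_left _ (relIndex_sup_dvd_pow D N r k hk)
  obtain ⟨a, -, ha⟩ := (Nat.dvd_prime_pow hr).mp h1
  obtain ⟨b, -, hb⟩ := (Nat.dvd_prime_pow hr).mp h2
  have hQ₁X : Q₁ ≤ C ⊔ N := hQ₁C.trans le_sup_left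
  have hQ₂X : Q₂ ≤ D ⊔ N := hQ₂D.trans le_sup_left
  have hcard : Nat.card Q₁ = Nat.card Q₂ := by
    apply card_eq_of_mul_pow hQ₁r hQ₂r (a := a) (b := b)
    rw [← ha, ← hb, card_mul_relIndex hQ₁X, card_mul_relIndex hQ₂X, h]
  obtain ⟨u, hu, hu2⟩ := hall_conj_rel (C ⊔ N) Q₁ Q₂ hQ₁X (h ▸ hQ₂X) hcard
    (by rw [ha]; exact hQ₁r.pow_right _)
  refine ⟨u, hu, ?_⟩
  have hC2 := carter_conj hC u
  have hC2X : MulAut.conj u • C ≤ D ⊔ N := by
    rw [← h]; exact Subgroup.conj_smul_le_of_le le_sup_left ⟨u, hu⟩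
  have hQC2 : Q₂ ≤ MulAut.conj u • C := by
    rw [← hu2]; exact Subgroup.pointwise_smul_le_pointwise_smul_iff.mpr hQ₁C
  have hDn : D ≤ Subgroup.normalizer (Q₂ : Set G) :=
    le_normalizer_of_hall_of_nilpotent hD.1 hQ₂D (by rw [hj₂]; exact hQ₂r.pow_right _)
  have hC2n : MulAut.conj u • C ≤ Subgroup.normalizer (Q₂ : Set G) := by
    apply le_normalizer_of_hall_of_nilpotent hC2.1 hQC2
    have e1 : Q₂.relIndex (MulAut.conj u • C) ∣ r ^ b := by
      rw [← hb]
      exact Dvd.intro _ (Subgroup.relIndex_mul_relIndex Q₂ _ (D ⊔ N) hQC2 hC2X)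
    exact Nat.Coprime.of_dvd_right e1 (hQ₂r.pow_right _)
  have hYnil : Group.IsNilpotent ↥(Subgroup.normalizer (Q₂ : Set G) ⊓ (D ⊔ N)) := by
    apply nilpotent_of_le_normalizer hD.1 N r hr hN (le_inf Subgroup.le_normalizer hQ₂X) hQ₂r b _
      inf_le_left inf_le_right
    rw [← hb]
    exact Dvd.intro _ (Subgroup.relIndex_mul_relIndex Q₂ _ (D ⊔ N)
      (le_inf Subgroup.le_normalizer hQ₂X) inf_le_right)
  have hDY : D ≤ Subgroup.normalizer (Q₂ : Set G) ⊓ (D ⊔ N) := le_inf hDn le_sup_left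
  have hCY : MulAut.conj u • C ≤ Subgroup.normalizer (Q₂ : Set G) ⊓ (D ⊔ N) := le_inf hC2n hC2X
  exact le_antisymm (hCY.trans (le_of_nilpotent_of_selfNormalizing hDY hYnil hD.2))
    (hDY.trans (le_of_nilpotent_of_selfNormalizing hCY hYnil hC2.2))

theorem carter_map_pgroup [Group.IsSolvable G] {C : Subgroup G} (hC : Cfsg.IsCarterSubgroup C)
    (N : Subgroup G) [N.Normal] (r : ℕ) (hr : r.Prime) (hN : IsPGroup r N) :
    Cfsg.IsCarterSubgroup (C.map (QuotientGroup.mk' N)) := by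
  refine ⟨?_, ?_⟩
  · haveI := hC.1
    exact Group.nilpotent_of_surjective ((QuotientGroup.mk' N).subgroupMap C)
      ((QuotientGroup.mk' N).subgroupMap_surjective C)
  · apply le_antisymm _ Subgroup.le_normalizer
    intro xq hxq
    obtain ⟨x, rfl⟩ := QuotientGroup.mk'_surjective N xq
    have h1 : MulAut.conj x • C ≤ C ⊔ N := by
      intro c hc
      rw [mem_conj_smul] at hc
      have h2 := (Subgroup.mem_normalizer_iff.mp hxq (QuotientGroup.mk' N (x⁻¹ * c * x))).mp
        ⟨_, hc, rfl⟩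
      rw [← map_inv, ← map_mul, ← map_mul] at h2
      have e : x * (x⁻¹ * c * x) * x⁻¹ = c := by group
      rw [e] at h2
      have h3 : c ∈ (C.map (QuotientGroup.mk' N)).comap (QuotientGroup.mk' N) := h2
      rwa [Subgroup.comap_map_eq, QuotientGroup.ker_mk'] at h3
    have h2 : C ⊔ N = MulAut.conj x • C ⊔ N := by
      have e1 : MulAut.conj x • (C ⊔ N) = MulAut.conj x • C ⊔ N := by
        rw [Subgroup.smul_sup, Subgroup.Normal.conj_smul_eq_self x N]
      rw [← e1]
      symm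
      apply smul_eq_of_ge
      rw [e1]
      exact sup_le h1 le_sup_right
    obtain ⟨y, hy, h4⟩ := carter_conj_of_sup_eq hC (carter_conj hC x) N r hr hN h2
    have h5 : x⁻¹ * y ∈ Subgroup.normalizer (C : Set G) := by
      rw [mem_normalizer_iff_smul, ← conj_smul_conj_smul, h4, conj_inv_smul_conj_smul]
    rw [hC.2] at h5
    have h6 : x ∈ C ⊔ N := by
      have e : x = y * (x⁻¹ * y)⁻¹ := by group
      rw [e]
      exact Subgroup.mul_mem _ hy (Subgroup.inv_mem _ (Subgroup.mem_sup_left h5))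
    have h7 : x ∈ (C.map (QuotientGroup.mk' N)).comap (QuotientGroup.mk' N) := by
      rwa [Subgroup.comap_map_eq, QuotientGroup.ker_mk']
    exact h7

end exist

section thm
universe u

theorem card_quot_lt {G : Type*} [Group G] [Finite G] (N : Subgroup G) (hN : N ≠ ⊥) :
    Nat.card (G ⧸ N) < Nat.card G := by
  rw [Subgroup.card_eq_card_quotient_mul_card_subgroup N]
  have h1 : 0 < Nat.card (G ⧸ N) := Nat.card_pos
  have h2 : 1 < Nat.card N := (Subgroup.one_lt_card_iff_ne_bot N).mpr hN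
  nlinarith

theorem exists_carter_step {G : Type*} [Group G] [Finite G] [Group.IsSolvable G] (N : Subgroup G)
    [N.Normal] (r : ℕ) (hr : r.Prime) (hN : IsPGroup r N) (Xb : Subgroup (G ⧸ N))
    (hXb : Cfsg.IsCarterSubgroup Xb) : ∃ C : Subgroup G, Cfsg.IsCarterSubgroup C := by
  haveI : Fact r.Prime := ⟨hr⟩
  obtain ⟨k, hk⟩ := IsPGroup.iff_card.mp hN
  set X : Subgroup G := Xb.comap (QuotientGroup.mk' N) with hX
  have hNX : N ≤ X := by
    intro n hn
    have h0 : QuotientGroup.mk' N n = 1 := (QuotientGroup.eq_one_iff n).mpr hn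
    rw [hX, Subgroup.mem_comap, h0]; exact Xb.one_mem
  have hmapX : X.map (QuotientGroup.mk' N) = Xb :=
    Subgroup.map_comap_eq_self_of_surjective (QuotientGroup.mk'_surjective N) Xb
  obtain ⟨Q, hQX, hQr, j, hj⟩ := exists_pcompl_le X r hr
  have hQn : Q ≤ Subgroup.normalizer (Q : Set G) ⊓ X := le_inf Subgroup.le_normalizer hQX
  have hrel : Q.relIndex (Subgroup.normalizer (Q : Set G) ⊓ X) ∣ r ^ j := by
    rw [← hj]
    exact Dvd.intro _ (Subgroup.relIndex_mul_relIndex Q _ X hQn inf_le_right)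
  -- Frattini
  have hfr : X ≤ (Subgroup.normalizer (Q : Set G) ⊓ X) ⊔ N := by
    intro x hx
    have h1 : Xb ≤ Subgroup.normalizer ((Q.map (QuotientGroup.mk' N) : Subgroup (G ⧸ N)) :
        Set (G ⧸ N)) := by
      apply le_normalizer_of_hall_of_nilpotent hXb.1
      · rw [← hmapX]; exact Subgroup.map_mono hQX
      · have e1 : (Q.map (QuotientGroup.mk' N)).relIndex Xb ∣ r ^ j := by
          rw [← hmapX, Subgroup.relIndex_map_map, QuotientGroup.ker_mk', sup_of_le_left hNX, ← hj]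
          exact Subgroup.relIndex_dvd_of_le_left X le_sup_left
        exact Nat.Coprime.of_dvd (Subgroup.card_map_dvd _ _) e1 (hQr.pow_right _)
    have h2 := mem_normalizer_iff_smul.mp (h1 (Subgroup.mem_comap.mp hx))
    rw [← map_conj_smul] at h2
    have h3 : MulAut.conj x • Q ≤ Q ⊔ N := by
      have := h2.le
      rwa [Subgroup.map_le_map_iff, QuotientGroup.ker_mk'] at this
    obtain ⟨u, hu, hu2⟩ := hall_conj_rel (Q ⊔ N) Q (MulAut.conj x • Q) le_sup_left h3
      (card_conj_smul Q x).symm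
      (Nat.Coprime.of_dvd_right (relIndex_sup_dvd_pow Q N r k hk) (hQr.pow_right _))
    have h4 : u⁻¹ * x ∈ Subgroup.normalizer (Q : Set G) := by
      rw [mem_normalizer_iff_smul, ← conj_smul_conj_smul, ← hu2, conj_inv_smul_conj_smul]
    have huX : u ∈ X := (sup_le hQX hNX) hu
    have h5 : u⁻¹ * x ∈ Subgroup.normalizer (Q : Set G) ⊓ X :=
      ⟨h4, X.mul_mem (X.inv_mem huX) hx⟩
    have h6 : u ∈ (Subgroup.normalizer (Q : Set G) ⊓ X) ⊔ N :=
      (sup_le_sup_right hQn N) hu
    have e : x = u * (u⁻¹ * x) := by group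
    rw [e]
    exact Subgroup.mul_mem _ h6 (Subgroup.mem_sup_left h5)
  have hsup : (Subgroup.normalizer (Q : Set G) ⊓ X) ⊔ N = X :=
    le_antisymm (sup_le inf_le_right hNX) hfr
  have hmapC : (Subgroup.normalizer (Q : Set G) ⊓ X).map (QuotientGroup.mk' N) = Xb := by
    rw [← hmapX, Subgroup.map_eq_map_iff, QuotientGroup.ker_mk', hsup, sup_of_le_left hNX]
  refine ⟨Subgroup.normalizer (Q : Set G) ⊓ X, ?_, ?_⟩
  · haveI : (Q.subgroupOf (Subgroup.normalizer (Q : Set G) ⊓ X)).Normal :=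
      (Subgroup.normal_subgroupOf_iff_le_normalizer hQn).mpr inf_le_left
    haveI : Group.IsNilpotent ((Subgroup.normalizer (Q : Set G) ⊓ X : Subgroup G) ⧸
        Q.subgroupOf (Subgroup.normalizer (Q : Set G) ⊓ X)) := by
      obtain ⟨i, -, hi⟩ := (Nat.dvd_prime_pow hr).mp hrel
      exact (IsPGroup.of_card (p := r) (n := i) hi).isNilpotent
    haveI := hXb.1
    have hmem : ∀ y : (Subgroup.normalizer (Q : Set G) ⊓ X : Subgroup G),
        ((QuotientGroup.mk' N).comp (Subgroup.normalizer (Q : Set G) ⊓ X).subtype) y ∈ Xb :=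
      fun y => y.2.2
    apply nilpotent_of_two_homs
      (QuotientGroup.mk' (Q.subgroupOf (Subgroup.normalizer (Q : Set G) ⊓ X)))
      (((QuotientGroup.mk' N).comp (Subgroup.normalizer (Q : Set G) ⊓ X).subtype).codRestrict
        Xb hmem)
    rw [eq_bot_iff]
    intro y hy
    obtain ⟨hy1, hy2⟩ := Subgroup.mem_inf.mp hy
    rw [QuotientGroup.ker_mk', Subgroup.mem_subgroupOf] at hy1
    have hy3 : (y : G) ∈ N := by
      have := congrArg Subtype.val (MonoidHom.mem_ker.mp hy2)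
      exact (QuotientGroup.eq_one_iff (y : G)).mp this
    have e1 : Q ⊓ N = ⊥ := by
      apply Subgroup.inf_eq_bot_of_coprime
      rw [hk]
      exact hQr.pow_right _
    have e2 : (y : G) ∈ Q ⊓ N := ⟨hy1, hy3⟩
    rw [e1, Subgroup.mem_bot] at e2
    rw [Subgroup.mem_bot]
    exact Subtype.ext e2
  · apply le_antisymm _ Subgroup.le_normalizer
    intro g hg
    have h1 : QuotientGroup.mk' N g ∈ Xb := by
      have := Subgroup.le_normalizer_map (QuotientGroup.mk' N) ⟨g, hg, rfl⟩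
      rwa [hmapC, hXb.2] at this
    refine ⟨?_, h1⟩
    change g ∈ Subgroup.normalizer (Q : Set G)
    rw [mem_normalizer_iff_smul]
    apply smul_eq_of_ge
    apply le_of_normal_hall (M := Subgroup.normalizer (Q : Set G) ⊓ X) hQn inf_le_left
    · rw [← mem_normalizer_iff_smul.mp hg]
      exact Subgroup.pointwise_smul_le_pointwise_smul_iff.mpr hQn
    · rw [card_conj_smul]
      exact Nat.Coprime.of_dvd_right hrel (hQr.pow_right _)

theorem exists_carter_aux (n : ℕ) : ∀ (G : Type u) [Group G] [Finite G] [Group.IsSolvable G],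
    Nat.card G = n → ∃ C : Subgroup G, Cfsg.IsCarterSubgroup C := by
  induction n using Nat.strong_induction_on with
  | _ n ih =>
    intro G _ _ _ hn
    rcases subsingleton_or_nontrivial G with hs | hnt
    · exact ⟨⊤, Group.nilpotent_of_mulEquiv Subgroup.topEquiv.symm, Subgroup.normalizer_eq_top _⟩
    · obtain ⟨r, N, hr, hNn, hNb, hNr, -⟩ := Cfsg.Agent.S0001.exists_normal_pgroup G
      obtain ⟨Xb, hXb⟩ := ih _ (hn ▸ card_quot_lt N hNb) (G ⧸ N) rfl
      exact exists_carter_step N r hr hNr Xb hXb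

theorem carter_conj_aux (n : ℕ) : ∀ (G : Type u) [Group G] [Finite G] [Group.IsSolvable G],
    Nat.card G = n → ∀ C D : Subgroup G, Cfsg.IsCarterSubgroup C → Cfsg.IsCarterSubgroup D →
    ∃ g : G, MulAut.conj g • C = D := by
  induction n using Nat.strong_induction_on with
  | _ n ih =>
    intro G _ _ _ hn C D hC hD
    rcases subsingleton_or_nontrivial G with hs | hnt
    · refine ⟨1, ?_⟩
      ext x
      rw [Subsingleton.elim x 1]
      exact ⟨fun _ => D.one_mem, fun _ => Subgroup.one_mem _⟩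
    · obtain ⟨r, N, hr, hNn, hNb, hNr, -⟩ := Cfsg.Agent.S0001.exists_normal_pgroup G
      obtain ⟨gq, hgq⟩ := ih _ (hn ▸ card_quot_lt N hNb) (G ⧸ N) rfl _ _
        (carter_map_pgroup hC N r hr hNr) (carter_map_pgroup hD N r hr hNr)
      obtain ⟨g, rfl⟩ := QuotientGroup.mk'_surjective N gq
      rw [← map_conj_smul, Subgroup.map_eq_map_iff, QuotientGroup.ker_mk'] at hgq
      obtain ⟨u, -, hu⟩ := carter_conj_of_sup_eq (carter_conj hC g) hD N r hr hNr hgq
      exact ⟨u * g, by rw [← conj_smul_conj_smul, hu]⟩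

theorem exists_carter (G : Type*) [Group G] [Finite G] [Group.IsSolvable G] :
    ∃ C : Subgroup G, Cfsg.IsCarterSubgroup C := exists_carter_aux _ G rfl

theorem carter_conjugate {G : Type*} [Group G] [Finite G] [Group.IsSolvable G] {C D : Subgroup G}
    (hC : Cfsg.IsCarterSubgroup C) (hD : Cfsg.IsCarterSubgroup D) :
    ∃ g : G, MulAut.conj g • C = D := carter_conj_aux _ G rfl C D hC hD

end thm

end Cfsg.Agent.Lib.Helper12CarterBase
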