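import Cfsg.Agent.Lib.Helper12Coprime
import Cfsg.Prelude.Def_SolvableStructure

set_option autoImplicit false
open Pointwise

namespace Cfsg.Agent.Lib.Helper12Compl

open Cfsg.Agent.Lib.Helper12Basic Cfsg.Agent.Lib.Helper12Card Cfsg.Agent.Lib.Helper12Hall
open Cfsg.Agent.Lib.Helper12Coprime

variable {G : Type*} [Group G] [Finite G]

theorem index_eq_iff (H : Subgroup G) (p : ℕ) (hp : p.Prime) :
    H.index = p ^ (Nat.card G).factorization p ↔
      (∃ j, H.index = p ^ j) ∧ (Nat.card H).Coprime p := by
  have hN : Nat.card G ≠ 0 := Nat.card_pos.ne'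
  have hH : Nat.card H ≠ 0 := Nat.card_pos.ne'
  constructor
  · intro h
    refine ⟨⟨_, h⟩, ?_⟩
    apply Nat.Coprime.symm
    rw [Nat.Prime.coprime_iff_not_dvd hp]
    rintro ⟨c, hc⟩
    apply Nat.pow_succ_factorization_not_dvd hN hp
    refine ⟨c, ?_⟩
    have e := H.card_mul_index
    rw [h, hc] at e
    conv_lhs => rw [← e]
    rw [pow_succ]; ring
  · rintro ⟨⟨j, hj⟩, hcop⟩
    have hnd : ¬ p ∣ Nat.card H := by
      rw [← Nat.Prime.coprime_iff_not_dvd hp]; exact hcop.symm
    have : (Nat.card G).factorization p = j := by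
      rw [← H.card_mul_index, hj, Nat.factorization_mul hH (pow_ne_zero _ hp.ne_zero)]
      simp [Nat.factorization_eq_zero_of_not_dvd hnd, hp.factorization_pow]
    rw [this, hj]

section
variable {K L : Nat.Primes → Subgroup G}

theorem card_coprime (hK : Cfsg.IsComplementSystem K) (p : Nat.Primes) :
    (Nat.card (K p)).Coprime p :=
  ((index_eq_iff (K p) p p.2).mp (hK p)).2

theorem eq_top_of_not_dvd (hK : Cfsg.IsComplementSystem K) (p : Nat.Primes)
    (h : ¬ (p : ℕ) ∣ Nat.card G) : K p = ⊤ := by
  rw [← Subgroup.index_eq_one, hK p, Nat.factorization_eq_zero_of_not_dvd h, pow_zero]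

theorem smul_system (hK : Cfsg.IsComplementSystem K) (g : G) :
    Cfsg.IsComplementSystem (fun p => MulAut.conj g • K p) := by
  intro p
  rw [index_conj_smul]; exact hK p

theorem index_biInf (hK : Cfsg.IsComplementSystem K) (T : Finset Nat.Primes) :
    (⨅ p ∈ T, K p).index = ∏ p ∈ T, (p : ℕ) ^ (Nat.card G).factorization p := by
  classical
  induction T using Finset.induction_on with
  | empty => simp
  | insert q T hq ih =>
    rw [Finset.iInf_insert, Finset.prod_insert hq, ← ih, ← hK q]
    apply index_inf_of_coprime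
    rw [ih, hK q]
    apply Nat.Coprime.prod_right
    intro p hp
    apply Nat.Coprime.pow
    rw [Nat.coprime_primes q.2 p.2]
    intro h
    exact hq ((Subtype.ext h : q = p) ▸ hp)

theorem index_biInf_coprime (hK : Cfsg.IsComplementSystem K) (T : Finset Nat.Primes)
    (q : Nat.Primes) (hq : q ∉ T) : ((⨅ p ∈ T, K p).index).Coprime q := by
  rw [index_biInf hK]
  apply Nat.Coprime.prod_left
  intro p hp
  apply Nat.Coprime.pow_left
  rw [Nat.coprime_primes p.2 q.2]
  intro h
  exact hq ((Subtype.ext h : p = q) ▸ hp)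

theorem index_biInf_normalizer_coprime (hK : Cfsg.IsComplementSystem K) (T : Finset Nat.Primes)
    (q : Nat.Primes) (hq : q ∉ T) :
    ((⨅ p ∈ T, Subgroup.normalizer (K p : Set G)).index).Coprime q :=
  Nat.Coprime.coprime_dvd_left
    (Subgroup.index_dvd_of_le (iInf₂_mono (fun _ _ => Subgroup.le_normalizer)))
    (index_biInf_coprime hK T q hq)

theorem card_eq (hK : Cfsg.IsComplementSystem K) (hL : Cfsg.IsComplementSystem L)
    (p : Nat.Primes) : Nat.card (K p) = Nat.card (L p) := by
  have h1 := (K p).card_mul_index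
  have h2 := (L p).card_mul_index
  rw [hK p] at h1
  rw [hL p] at h2
  exact Nat.eq_of_mul_eq_mul_right (pow_pos p.2.pos _) (h1.trans h2.symm)

/-- the finite set of primes dividing the group order -/
noncomputable def primesOf (G : Type*) : Finset Nat.Primes :=
  (Nat.card G).primeFactors.subtype Nat.Prime

theorem mem_primesOf (p : Nat.Primes) : p ∈ primesOf G ↔ (p : ℕ) ∣ Nat.card G := by
  unfold primesOf
  refine Iff.trans (Finset.mem_subtype (p := Nat.Prime) (s := (Nat.card G).primeFactors)
    (a := p)) ?_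
  rw [Nat.mem_primeFactors]
  constructor
  · intro h; exact h.2.1
  · intro h; exact ⟨p.2, h, Nat.card_pos.ne'⟩

theorem eq_top_of_notMem (hK : Cfsg.IsComplementSystem K) (p : Nat.Primes)
    (h : p ∉ primesOf G) : K p = ⊤ :=
  eq_top_of_not_dvd hK p (fun h' => h ((mem_primesOf p).mpr h'))

theorem conj_finset [Group.IsSolvable G] (hK : Cfsg.IsComplementSystem K)
    (hL : Cfsg.IsComplementSystem L) (T : Finset Nat.Primes) :
    ∃ g : G, ∀ p ∈ T, MulAut.conj g • K p = L p := by
  classical
  induction T using Finset.induction_on with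
  | empty => exact ⟨1, by simp⟩
  | insert q T hq ih =>
    obtain ⟨g, hg⟩ := ih
    have hK' := smul_system hK g
    obtain ⟨x, hx⟩ := hall_conj (Nat.card (L q)) ((q : ℕ) ^ (Nat.card G).factorization q)
      (by rw [← hL q]; exact (L q).card_mul_index.symm)
      (Nat.Coprime.pow_right _ (card_coprime hL q)) (MulAut.conj g • K q) (L q)
      (card_eq hK' hL q) rfl
    have hcop : ((⨅ p ∈ T, Subgroup.normalizer (L p : Set G)).index).Coprime
        (Subgroup.normalizer ((MulAut.conj g • K q : Subgroup G) : Set G)).index := by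
      have h1 : (Subgroup.normalizer ((MulAut.conj g • K q : Subgroup G) : Set G)).index ∣
          (q : ℕ) ^ (Nat.card G).factorization q := by
        rw [← hK' q]; exact Subgroup.index_dvd_of_le Subgroup.le_normalizer
      exact Nat.Coprime.coprime_dvd_right h1
        (Nat.Coprime.pow_right _ (index_biInf_normalizer_coprime hL T q hq))
    obtain ⟨d, hd, u, hu, rfl⟩ := exists_mul_of_coprime_index _ _ hcop x
    refine ⟨d * g, ?_⟩
    intro p hp
    rw [← conj_smul_conj_smul]
    rcases Finset.mem_insert.mp hp with rfl | hpT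
    · rw [← conj_smul_conj_smul, mem_normalizer_iff_smul.mp hu] at hx
      exact hx
    · rw [hg p hpT]
      simp only [Subgroup.mem_iInf] at hd
      exact mem_normalizer_iff_smul.mp (hd p hpT)

theorem conj_system [Group.IsSolvable G] (hK : Cfsg.IsComplementSystem K)
    (hL : Cfsg.IsComplementSystem L) : ∃ g : G, ∀ p : Nat.Primes, MulAut.conj g • K p = L p := by
  obtain ⟨g, hg⟩ := conj_finset hK hL (primesOf G)
  refine ⟨g, fun p => ?_⟩
  by_cases hp : p ∈ primesOf G
  · exact hg p hp
  · rw [eq_top_of_notMem hK p hp, eq_top_of_notMem hL p hp]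
    exact Subgroup.Normal.conj_smul_eq_self g ⊤

end

end Cfsg.Agent.Lib.Helper12Compl
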