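import Cfsg.Agent.Lib.Helper12SysQuot
import Cfsg.Agent.Lib.Helper3Nilp
import Cfsg.Agent.S0043

set_option autoImplicit false
set_option linter.style.haveILetI false
set_option linter.deprecated false
open Pointwise

namespace Cfsg.Agent.Lib.Helper12Cover

open Cfsg.Agent.Lib.Helper12Basic Cfsg.Agent.Lib.Helper12Card Cfsg.Agent.Lib.Helper12Hall
open Cfsg.Agent.Lib.Helper12Coprime Cfsg.Agent.Lib.Helper12Compl Cfsg.Agent.Lib.Helper12SysNorm
open Cfsg.Agent.Lib.Helper12SysQuot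

variable {G : Type*} [Group G] [Finite G]

/-- a normal `p`-subgroup lies in every subgroup of index prime to `p` -/
theorem normal_pgroup_le_of_coprime_index (p : ℕ) (N T : Subgroup G) [N.Normal]
    (hN : IsPGroup p N) (hp : p.Prime) (hT : T.index.Coprime p) : N ≤ T := by
  haveI : Fact p.Prime := ⟨hp⟩
  rw [← Subgroup.relIndex_eq_one]
  have h1 : T.relIndex N ∣ T.index := relIndex_dvd_index_of_normal_right T N
  have h2 : T.relIndex N ∣ Nat.card N := Subgroup.relIndex_dvd_card T N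
  obtain ⟨k, hk⟩ := IsPGroup.iff_card.mp hN
  rw [hk] at h2
  have h3 : (T.relIndex N).Coprime (T.relIndex N) :=
    Nat.Coprime.of_dvd h1 h2 (Nat.Coprime.pow_right k hT)
  exact (Nat.coprime_self _).mp h3

theorem quot_pgroup_eq_bot (H : Subgroup G) [H.Normal]
    (hmin : ∀ M : Subgroup G, M.Normal → M ≤ H → M = ⊥ ∨ M = H)
    (T : Subgroup G) (q : ℕ) (hq : q.Prime) (hT : T.index.Coprime q)
    (y : G) (hyH : y ∈ H) (hy1 : y ≠ 1) (hyT : ∀ t ∈ T, t * y = y * t)
    (R : Subgroup (G ⧸ Subgroup.centralizer (H : Set G))) [R.Normal] (hR : IsPGroup q R) :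
    R = ⊥ := by
  set C := Subgroup.centralizer (H : Set G) with hC
  have h1 : R ≤ T.map (QuotientGroup.mk' C) := by
    apply normal_pgroup_le_of_coprime_index q R _ hR hq
    exact Nat.Coprime.of_dvd_left (Subgroup.index_map_dvd T (QuotientGroup.mk'_surjective C)) hT
  set R' := R.comap (QuotientGroup.mk' C) with hR'
  have hR'n : R'.Normal := inferInstance
  have hX : (H ⊓ Subgroup.centralizer (R' : Set G)).Normal := inferInstance
  have hy : y ∈ H ⊓ Subgroup.centralizer (R' : Set G) := by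
    refine Subgroup.mem_inf.mpr ⟨hyH, ?_⟩
    rw [Subgroup.mem_centralizer_iff]
    intro r hr
    obtain ⟨t, ht, htr⟩ := h1 (Subgroup.mem_comap.mp hr)
    have h2 : t⁻¹ * r ∈ C := QuotientGroup.eq.mp htr
    have h3 : y * (t⁻¹ * r) = (t⁻¹ * r) * y := (Subgroup.mem_centralizer_iff.mp h2) y hyH
    have h4 := hyT t ht
    calc r * y = t * ((t⁻¹ * r) * y) := by group
      _ = t * (y * (t⁻¹ * r)) := by rw [h3]
      _ = (t * y) * (t⁻¹ * r) := by group
      _ = (y * t) * (t⁻¹ * r) := by rw [h4]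
      _ = y * r := by group
  have h5 : H ⊓ Subgroup.centralizer (R' : Set G) = H := by
    rcases hmin _ hX inf_le_left with h | h
    · rw [h, Subgroup.mem_bot] at hy
      exact absurd hy hy1
    · exact h
  have h6 : H ≤ Subgroup.centralizer (R' : Set G) := inf_eq_left.mp h5
  have h7 : R' ≤ C := Subgroup.le_centralizer_iff.mp h6
  rw [eq_bot_iff]
  intro r hr
  obtain ⟨g, rfl⟩ := QuotientGroup.mk'_surjective C r
  rw [Subgroup.mem_bot]
  exact (QuotientGroup.eq_one_iff g).mpr (h7 hr)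

theorem avoid_min [Group.IsSolvable G] {K : Nat.Primes → Subgroup G}
    (hK : Cfsg.IsComplementSystem K) (H : Subgroup G) [H.Normal] (hH : H ≠ ⊥)
    (hmin : ∀ M : Subgroup G, M.Normal → M ≤ H → M = ⊥ ∨ M = H)
    (hnc : Subgroup.centralizer (H : Set G) ≠ ⊤) : H ⊓ Cfsg.systemNormalizer K = ⊥ := by
  obtain ⟨hc, p, hp, hpow⟩ := Cfsg.Agent.S0043.result H hH hmin
  haveI : Fact p.Prime := ⟨hp⟩
  have hHp : IsPGroup p H := by
    intro x
    refine ⟨1, ?_⟩
    rw [pow_one]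
    exact Subtype.ext (hpow x x.2)
  haveI : Nontrivial (G ⧸ Subgroup.centralizer (H : Set G)) := QuotientGroup.nontrivial_iff.mpr hnc
  obtain ⟨q, R, hq, hRn, hRb, hRq, -⟩ :=
    Cfsg.Agent.S0001.exists_normal_pgroup (G ⧸ Subgroup.centralizer (H : Set G))
  by_contra hne
  obtain ⟨⟨x, hx⟩, hx1'⟩ := Subgroup.ne_bot_iff_exists_ne_one.mp hne
  have hx1 : x ≠ 1 := fun h => hx1' (Subtype.ext h)
  apply hRb
  by_cases hqp : q = p
  · subst hqp
    obtain ⟨P⟩ : Nonempty (Sylow q G) := inferInstance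
    have hHP : H ≤ P := normal_pgroup_le_of_coprime_index q H P hHp hp
      ((Nat.Prime.coprime_iff_not_dvd hp).mpr P.not_dvd_index).symm
    haveI : Group.IsNilpotent P := P.2.isNilpotent
    have hne' : H.subgroupOf P ≠ ⊥ := by
      intro h
      rw [Subgroup.subgroupOf_eq_bot, disjoint_iff, inf_of_le_left hHP] at h
      exact hH h
    obtain ⟨y, hyH, hyc, hy1⟩ := Cfsg.Agent.Lib.Helper3Nilp.normal_inf_center_ne_bot
      (H.subgroupOf P) hne'
    refine quot_pgroup_eq_bot H hmin P q hq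
      ((Nat.Prime.coprime_iff_not_dvd hp).mpr P.not_dvd_index).symm (y : G) hyH
      (fun h => hy1 (Subtype.ext h)) ?_ R hRq
    intro t ht
    have := (Subgroup.mem_center_iff.mp hyc) ⟨t, ht⟩
    exact congrArg Subtype.val this
  · refine quot_pgroup_eq_bot H hmin (K ⟨p, hp⟩) q hq ?_ x hx.1 hx1 ?_ R hRq
    · rw [hK ⟨p, hp⟩]
      exact Nat.Coprime.pow_left _ ((Nat.coprime_primes hp hq).mpr (fun h => hqp h.symm))
    · intro t ht
      have h1 : x * t * x⁻¹ ∈ K ⟨p, hp⟩ :=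
        (Subgroup.mem_normalizer_iff.mp (systemNormalizer_le ⟨p, hp⟩ hx.2) t).mp ht
      have h2 : x * t * x⁻¹ * t⁻¹ ∈ K ⟨p, hp⟩ := Subgroup.mul_mem _ h1 (Subgroup.inv_mem _ ht)
      have h3 : x * t * x⁻¹ * t⁻¹ ∈ H := by
        have : x * t * x⁻¹ * t⁻¹ = x * (t * x⁻¹ * t⁻¹) := by group
        rw [this]
        exact H.mul_mem hx.1 (Subgroup.Normal.conj_mem inferInstance _ (H.inv_mem hx.1) t)
      have h4 : K ⟨p, hp⟩ ⊓ H = ⊥ := by
        apply Subgroup.inf_eq_bot_of_coprime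
        obtain ⟨k, hk⟩ := IsPGroup.iff_card.mp hHp
        rw [hk]
        exact Nat.Coprime.pow_right k (card_coprime hK ⟨p, hp⟩)
      have h5 : x * t * x⁻¹ * t⁻¹ ∈ K ⟨p, hp⟩ ⊓ H := ⟨h2, h3⟩
      rw [h4, Subgroup.mem_bot] at h5
      have : x * t = t * x := by
        calc x * t = (x * t * x⁻¹ * t⁻¹) * (t * x) := by group
          _ = t * x := by rw [h5, one_mul]
      exact this.symm

end Cfsg.Agent.Lib.Helper12Cover
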