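import Cfsg.Agent.Lib.Helper12HupSq
import Cfsg.Agent.Lib.Helper12Card
import Cfsg.Agent.Lib.Helper29Basic
import Cfsg.Agent.Lib.Helper54Coprime

set_option autoImplicit false

/-! Huppert's theorem, piece `act`: a cyclic `r`-group acting faithfully on a group of symplectic type. -/

namespace Cfsg.Agent.Lib.Helper12HupAct

open Subgroup
open scoped commutatorElement

universe u

lemma relIndex_mul_card' {G : Type u} [Group G] {H K : Subgroup G} (h : H ≤ K) :
    H.relIndex K * Nat.card H = Nat.card K := by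
  have := Cfsg.Agent.Lib.Helper12Card.card_inf_mul_relIndex K H
  rw [inf_eq_right.mpr h] at this
  rw [mul_comm]
  exact this

lemma exists_order_prime {G : Type u} [Group G] [Finite G] {r : ℕ} (hr : r.Prime) {H : Subgroup G}
    (hH : IsPGroup r H) (h1 : H ≠ ⊥) : ∃ z ∈ H, orderOf z = r := by
  have : Fact r.Prime := ⟨hr⟩
  obtain ⟨n, hn⟩ := IsPGroup.iff_card.mp hH
  have hn0 : n ≠ 0 := by
    rintro rfl
    rw [pow_zero] at hn
    exact h1 (Subgroup.card_eq_one.mp hn)
  have hrR : r ∣ Nat.card H := by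
    rw [hn]
    exact dvd_pow_self r hn0
  obtain ⟨z, hz⟩ := exists_prime_orderOf_dvd_card' r hrR
  exact ⟨z, z.2, by rw [← hz]; exact (Subgroup.orderOf_coe z)⟩

/-- in a cyclic `r`-group every non-trivial element has the elements of order `r` among its powers -/
lemma mem_zpowers_of_cyclic {G : Type u} [Group G] [Finite G] {r : ℕ} (hr : r.Prime) {R : Subgroup G}
    (hRcyc : IsCyclic R) (hRr : IsPGroup r R) {z t : G} (hzR : z ∈ R) (hz : orderOf z = r)
    (htR : t ∈ R) (ht : t ≠ 1) : z ∈ zpowers t := by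
  have hle : zpowers t ≤ R := zpowers_le.mpr htR
  obtain ⟨w, hw, hwr⟩ := exists_order_prime hr (hRr.to_le hle) (fun h => ht (zpowers_eq_bot.mp h))
  have h1 : zpowers z = zpowers w :=
    Cfsg.Agent.Lib.Helper29Basic.eq_of_card_eq_of_le_cyclic hRcyc (zpowers_le.mpr hzR)
      ((zpowers_le.mpr hw).trans hle) (by rw [Nat.card_zpowers, Nat.card_zpowers, hz, hwr])
  have h2 : z ∈ zpowers w := h1 ▸ mem_zpowers z
  exact (zpowers_le.mpr hw) h2

theorem act {G : Type u} [Group G] [Finite G] {A B R : Subgroup G} {s r k : ℕ} (hs : s.Prime)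
    (hr : r.Prime) (hrs : r ≠ s) (hAcyc : IsCyclic A) (hAB : A ≤ B)
    (hAZ : ∀ a ∈ A, ∀ x ∈ B, a * x = x * a) (hcomm : ∀ x ∈ B, ∀ y ∈ B, ⁅x, y⁆ ∈ A)
    (hpow : ∀ x ∈ B, x ^ s ∈ A) (hZ : ∀ x ∈ B, (∀ y ∈ B, x * y = y * x) → x ∈ A)
    (hidx : A.relIndex B = s ^ (2 * k)) (hRcyc : IsCyclic R) (hRr : IsPGroup r R) (hR1 : R ≠ ⊥)
    (hRB : R ≤ normalizer (B : Set G)) (hRA : R ≤ centralizer (A : Set G))
    (hrA : ¬ r ∣ Nat.card A) (hfaith : ∀ z ∈ R, z ≠ 1 → ∃ x ∈ B, z * x ≠ x * z) :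
    ∃ k' : ℕ, 1 ≤ k' ∧ k' ≤ k ∧ Nat.card R ∣ s ^ (2 * k') - 1 := by
  have : Fact r.Prime := ⟨hr⟩
  obtain ⟨z, hzR, hz⟩ := exists_order_prime hr hRr hR1
  have hz1 : z ≠ 1 := by
    rintro rfl
    rw [orderOf_one] at hz
    exact hr.one_lt.ne hz
  have hcardB : Nat.card B = s ^ (2 * k) * Nat.card A := by
    rw [← hidx, relIndex_mul_card' hAB]
  have hrB : ¬ r ∣ Nat.card B := by
    rw [hcardB]
    intro h
    rcases (Nat.Prime.dvd_mul hr).mp h with h | h
    · exact hrs ((Nat.prime_dvd_prime_iff_eq hr hs).mp (hr.dvd_of_dvd_pow h))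
    · exact hrA h
  -- conjugation by elements of `R`
  have hconjB : ∀ t ∈ R, ∀ b ∈ B, t * b * t⁻¹ ∈ B := by
    intro t ht b hb
    exact (mem_normalizer_iff.mp (hRB ht) b).mp hb
  have hRAc : ∀ t ∈ R, ∀ a ∈ A, t * a = a * t := by
    intro t ht a ha
    exact (mem_centralizer_iff.mp (hRA ht) a ha).symm
  have hRcomm : ∀ t ∈ R, ∀ t' ∈ R, t * t' = t' * t := by
    intro t ht t' ht'
    obtain ⟨g, hg⟩ := hRcyc.exists_generator
    obtain ⟨i, hi⟩ := mem_zpowers_iff.mp (hg ⟨t, ht⟩)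
    obtain ⟨j, hj⟩ := mem_zpowers_iff.mp (hg ⟨t', ht'⟩)
    have e1 : t = (g : G) ^ i := by
      have := congrArg Subtype.val hi
      simpa using this.symm
    have e2 : t' = (g : G) ^ j := by
      have := congrArg Subtype.val hj
      simpa using this.symm
    rw [e1, e2, ← zpow_add, ← zpow_add, add_comm]
  have hAC0 : A ≤ B ⊓ centralizer {z} := by
    intro a ha
    exact ⟨hAB ha, mem_centralizer_singleton_iff.mpr (hRAc z hzR a ha).symm⟩
  have hZ0 : ∀ u ∈ B ⊓ centralizer {z}, (∀ v ∈ B ⊓ centralizer {z}, u * v = v * u) → u ∈ A := by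
    intro u hu hcen
    have huz : u * z = z * u := mem_centralizer_singleton_iff.mp hu.2
    apply hZ u hu.1
    intro b hb
    have hQ : IsPGroup r (zpowers z) := hRr.to_le (zpowers_le.mpr hzR)
    have htu : ∀ t ∈ zpowers z, t * u = u * t := by
      intro t ht
      obtain ⟨i, rfl⟩ := mem_zpowers_iff.mp ht
      exact ((Commute.zpow_right (show Commute u z from huz) i).eq).symm
    have hK : ¬ r ∣ Nat.card (B ⊓ centralizer {u} : Subgroup G) := fun h =>
      hrB (h.trans (card_dvd_of_le inf_le_left))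
    obtain ⟨c, hc, hfix⟩ := Cfsg.Agent.Lib.Helper54Coprime.exists_fixed_in_coset (zpowers z)
      (B ⊓ centralizer {u}) hQ hK b (by
        intro t ht y hy
        have htR : t ∈ R := (zpowers_le.mpr hzR) ht
        have hyB : y ∈ B := by
          have := mul_mem hb hy.1
          rwa [mul_inv_cancel_left] at this
        refine mem_inf.mpr ⟨mul_mem (inv_mem hb) (hconjB t htR y hyB), ?_⟩
        rw [mem_centralizer_singleton_iff]
        have h1 : (b⁻¹ * y) * u = u * (b⁻¹ * y) := mem_centralizer_singleton_iff.mp hy.2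
        -- `y u y⁻¹ = b u b⁻¹ = a u`
        have ha : ⁅b, u⁆ ∈ A := hcomm b hb u hu.1
        have h2 : y * u = ⁅b, u⁆ * u * y := by
          have : y * u = b * ((b⁻¹ * y) * u) := by group
          rw [this, h1, commutatorElement_def]
          group
        have h3 : t * ⁅b, u⁆ = ⁅b, u⁆ * t := hRAc t htR _ ha
        have h4 := htu t ht
        have h5 : t⁻¹ * u = u * t⁻¹ := by
          rw [eq_mul_inv_iff_mul_eq, mul_assoc, ← h4, inv_mul_cancel_left]
        have h6 : (t * y * t⁻¹) * u = ⁅b, u⁆ * u * (t * y * t⁻¹) := by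
          calc (t * y * t⁻¹) * u = t * y * (t⁻¹ * u) := by group
            _ = t * (y * u) * t⁻¹ := by rw [h5]; group
            _ = (t * ⁅b, u⁆) * u * y * t⁻¹ := by rw [h2]; group
            _ = ⁅b, u⁆ * (t * u) * y * t⁻¹ := by rw [h3]; group
            _ = ⁅b, u⁆ * u * (t * y * t⁻¹) := by rw [h4]; group
        calc b⁻¹ * (t * y * t⁻¹) * u = b⁻¹ * ((t * y * t⁻¹) * u) := by group
          _ = b⁻¹ * (⁅b, u⁆ * u * (t * y * t⁻¹)) := by rw [h6]
          _ = u * (b⁻¹ * (t * y * t⁻¹)) := by rw [commutatorElement_def]; group)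
    have hcB : c ∈ B := by
      have := mul_mem hb hc.1
      rwa [mul_inv_cancel_left] at this
    have hcz : c * z = z * c := by
      have := hfix z (mem_zpowers z)
      rw [mul_inv_eq_iff_eq_mul] at this
      exact this.symm
    have hcu : u * c = c * u := hcen c ⟨hcB, mem_centralizer_singleton_iff.mpr hcz⟩
    have h1 : (b⁻¹ * c) * u = u * (b⁻¹ * c) := mem_centralizer_singleton_iff.mp hc.2
    have h2 : c⁻¹ * u = u * c⁻¹ := by
      rw [eq_mul_inv_iff_mul_eq, mul_assoc, hcu, inv_mul_cancel_left]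
    have h3 : b⁻¹ * u = u * b⁻¹ := by
      calc b⁻¹ * u = (b⁻¹ * c) * (c⁻¹ * u) := by group
        _ = ((b⁻¹ * c) * u) * c⁻¹ := by rw [h2]; group
        _ = u * b⁻¹ := by rw [h1]; group
    calc u * b = b * (b⁻¹ * u) * b := by group
      _ = b * u := by rw [h3]; group
  obtain ⟨k0, hk0⟩ := Cfsg.Agent.Lib.Helper12HupSq.relIndex_eq_sq hs hAcyc (B ⊓ centralizer {z}) hAC0
    (fun a ha x hx => hAZ a ha x hx.1) (fun x hx y hy => hcomm x hx.1 y hy.1)
    (fun x hx => hpow x hx.1) hZ0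
  have hcardC : Nat.card (B ⊓ centralizer {z} : Subgroup G) = s ^ (2 * k0) * Nat.card A := by
    rw [← hk0, relIndex_mul_card' hAC0]
  -- the free action
  let X := {b : G // b ∈ B ∧ b ∉ B ⊓ centralizer {z}}
  let actX : MulAction R X :=
    { smul := fun t b => ⟨(t : G) * b.1 * (t : G)⁻¹, hconjB t t.2 b.1 b.2.1, fun h => b.2.2 (mem_inf.mpr ⟨b.2.1, by
        have h1 := mem_centralizer_singleton_iff.mp h.2
        have h2 := hRcomm t t.2 z hzR
        rw [mem_centralizer_singleton_iff]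
        have h3 : (t : G)⁻¹ * z = z * (t : G)⁻¹ := by
          rw [eq_mul_inv_iff_mul_eq, mul_assoc, ← h2, inv_mul_cancel_left]
        calc b.1 * z = (t : G)⁻¹ * (((t : G) * b.1 * (t : G)⁻¹) * z) * (z⁻¹ * (t : G) * z) := by group
          _ = (t : G)⁻¹ * (z * ((t : G) * b.1 * (t : G)⁻¹)) * (z⁻¹ * ((t : G) * z)) := by rw [h1]; group
          _ = ((t : G)⁻¹ * z) * ((t : G) * b.1 * (t : G)⁻¹) * (z⁻¹ * (z * (t : G))) := by rw [h2]; group
          _ = z * b.1 := by rw [h3]; group⟩)⟩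
      one_smul := fun b => Subtype.ext (by
        show ((1 : R) : G) * b.1 * ((1 : R) : G)⁻¹ = b.1
        simp)
      mul_smul := fun t t' b => Subtype.ext (by
        show ((t * t' : R) : G) * b.1 * ((t * t' : R) : G)⁻¹ = (t : G) * ((t' : G) * b.1 * (t' : G)⁻¹) * (t : G)⁻¹
        simp only [Subgroup.coe_mul]
        group) }
  have hfree : ∀ b : X, MulAction.stabilizer R b = ⊥ := by
    intro b
    rw [eq_bot_iff]
    intro t ht
    rw [mem_bot]
    by_contra ht1
    have h1 : (t : G) * b.1 * (t : G)⁻¹ = b.1 := congrArg Subtype.val (MulAction.mem_stabilizer_iff.mp ht)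
    have h2 : z ∈ zpowers (t : G) :=
      mem_zpowers_of_cyclic hr hRcyc hRr hzR hz t.2 (fun h => ht1 (Subtype.ext h))
    obtain ⟨i, hi⟩ := mem_zpowers_iff.mp h2
    apply b.2.2
    refine ⟨b.2.1, mem_centralizer_singleton_iff.mpr ?_⟩
    have h3 : Commute b.1 (t : G) := by
      rw [mul_inv_eq_iff_eq_mul] at h1
      exact h1.symm
    have h4 := (h3.zpow_right i).eq
    rw [hi] at h4
    exact h4
  have hdvd : Nat.card R ∣ Nat.card X := by
    rw [Nat.card_congr (MulAction.selfEquivOrbitsQuotientProd hfree), Nat.card_prod]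
    exact dvd_mul_left _ _
  have hcardX : Nat.card X + Nat.card (B ⊓ centralizer {z} : Subgroup G) = Nat.card B := by
    have h1 : Nat.card X = ((B : Set G) \ ((B ⊓ centralizer {z} : Subgroup G) : Set G)).ncard :=
      Nat.card_coe_set_eq _
    have h2 : Nat.card (B ⊓ centralizer {z} : Subgroup G) =
        ((B ⊓ centralizer {z} : Subgroup G) : Set G).ncard := Nat.card_coe_set_eq _
    have h3 : Nat.card B = (B : Set G).ncard := Nat.card_coe_set_eq _
    rw [h1, h2, h3]
    exact Set.ncard_sdiff_add_ncard_of_subset (fun x hx => hx.1) (Set.toFinite _)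
  have hXpos : 0 < Nat.card X := by
    obtain ⟨x, hxB, hx⟩ := hfaith z hzR hz1
    have : Nonempty X := ⟨⟨x, hxB, fun h => hx (mem_centralizer_singleton_iff.mp h.2).symm⟩⟩
    exact Nat.card_pos
  have ha : 0 < Nat.card A := Nat.card_pos
  rw [hcardB, hcardC] at hcardX
  have hlt : 2 * k0 < 2 * k := by
    have h1 : s ^ (2 * k0) * Nat.card A < s ^ (2 * k) * Nat.card A := by omega
    have h2 : s ^ (2 * k0) < s ^ (2 * k) := lt_of_mul_lt_mul_right h1 (Nat.zero_le _)
    exact (Nat.pow_lt_pow_iff_right hs.one_lt).mp h2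
  refine ⟨k - k0, by omega, by omega, ?_⟩
  have hsplit : s ^ (2 * k) = s ^ (2 * k0) * s ^ (2 * (k - k0)) := by
    rw [← pow_add]
    congr 1
    omega
  have hpos : 1 ≤ s ^ (2 * (k - k0)) := Nat.one_le_pow _ _ hs.pos
  have hX : Nat.card X = (s ^ (2 * k0) * Nat.card A) * (s ^ (2 * (k - k0)) - 1) := by
    rw [hsplit] at hcardX
    obtain ⟨m, hm⟩ : ∃ m, s ^ (2 * (k - k0)) = m + 1 := ⟨s ^ (2 * (k - k0)) - 1, by omega⟩
    rw [hm] at hcardX ⊢
    rw [Nat.add_sub_cancel]
    nlinarith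
  rw [hX] at hdvd
  obtain ⟨n, hn⟩ := IsPGroup.iff_card.mp hRr
  have hcop : (Nat.card R).Coprime (s ^ (2 * k0) * Nat.card A) := by
    rw [hn]
    apply Nat.Coprime.pow_left
    rw [Nat.Prime.coprime_iff_not_dvd hr]
    intro h
    rcases (Nat.Prime.dvd_mul hr).mp h with h | h
    · exact hrs ((Nat.prime_dvd_prime_iff_eq hr hs).mp (hr.dvd_of_dvd_pow h))
    · exact hrA h
  exact hcop.dvd_of_dvd_mul_left hdvd

end Cfsg.Agent.Lib.Helper12HupAct
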