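import Mathlib

set_option autoImplicit false

/-! Huppert's theorem, piece `sq`: a group of symplectic type over a cyclic centre has index a square. -/

namespace Cfsg.Agent.Lib.Helper12HupSq

open Subgroup
open scoped commutatorElement

universe u

/-- commutation with `w` is a homomorphism into the cyclic group `A`, with image of order `s` -/
lemma relIndex_centralizer {G : Type u} [Group G] [Finite G] {s : ℕ} (hs : s.Prime) {A : Subgroup G}
    (hAcyc : IsCyclic A) (E : Subgroup G) (w : G) (hc : ∀ e ∈ E, ⁅e, w⁆ ∈ A)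
    (hAE : ∀ a ∈ A, ∀ e ∈ E, a * e = e * a) (hAw : ∀ a ∈ A, a * w = w * a)
    (hpow : ∀ e ∈ E, e ^ s ∈ A) (hne : ∃ e ∈ E, e * w ≠ w * e) :
    (E ⊓ centralizer {w}).relIndex E = s := by
  have hmul : ∀ e e' : E, ⁅((e * e' : E) : G), w⁆ = ⁅(e : G), w⁆ * ⁅(e' : G), w⁆ := by
    intro e e'
    have h1 : Commute ⁅(e' : G), w⁆ (e : G) := hAE _ (hc e' e'.2) e e.2
    have h2 : Commute ⁅(e' : G), w⁆ w := hAw _ (hc e' e'.2)
    have h3 : Commute ⁅(e' : G), w⁆ ⁅(e : G), w⁆ := by
      rw [commutatorElement_def (e : G) w]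
      exact ((h1.mul_right h2).mul_right h1.inv_right).mul_right h2.inv_right
    have h4 : ⁅((e * e' : E) : G), w⁆ = ((e : G) * ⁅(e' : G), w⁆) * (w * (e : G)⁻¹ * w⁻¹) := by
      simp only [commutatorElement_def, Subgroup.coe_mul]
      group
    rw [h4, ← h1.eq, ← h3.eq, commutatorElement_def (e : G) w]
    group
  let φ : E →* G := MonoidHom.mk' (fun e => ⁅(e : G), w⁆) hmul
  have hφ : ∀ e : E, φ e = ⁅(e : G), w⁆ := fun _ => rfl
  have hker : φ.ker = (E ⊓ centralizer {w}).subgroupOf E := by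
    ext e
    rw [MonoidHom.mem_ker, hφ, mem_subgroupOf, mem_inf, mem_centralizer_singleton_iff,
      commutatorElement_eq_one_iff_mul_comm]
    exact ⟨fun h => ⟨e.2, h⟩, fun h => h.2⟩
  rw [relIndex, ← hker, index_ker]
  have hrange_le : φ.range ≤ A := by
    rintro _ ⟨e, rfl⟩
    exact hc e e.2
  have hcyc : IsCyclic φ.range :=
    isCyclic_of_injective (Subgroup.inclusion hrange_le) (inclusion_injective _)
  obtain ⟨g, hg⟩ := hcyc.exists_generator
  rw [← orderOf_eq_card_of_forall_mem_zpowers hg]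
  have : Fact s.Prime := ⟨hs⟩
  apply orderOf_eq_prime
  · obtain ⟨g, e, rfl⟩ := g
    apply Subtype.ext
    show φ e ^ s = 1
    rw [← map_pow, hφ, commutatorElement_eq_one_iff_mul_comm]
    exact hAw _ (hpow e e.2)
  · rintro rfl
    obtain ⟨e, he, hew⟩ := hne
    apply hew
    have h1 := hg ⟨φ ⟨e, he⟩, ⟨e, he⟩, rfl⟩
    rw [zpowers_one_eq_bot, mem_bot] at h1
    have h2 : φ ⟨e, he⟩ = 1 := congrArg Subtype.val h1
    rw [hφ, commutatorElement_eq_one_iff_mul_comm] at h2
    exact h2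

lemma le_of_prime_relIndex {G : Type u} [Group G] {s : ℕ} (hs : s.Prime) {H E K : Subgroup G}
    (hHE : H ≤ E) (hi : H.relIndex E = s) (hHK : H ≤ K) {x : G} (hxE : x ∈ E) (hxK : x ∈ K)
    (hxH : x ∉ H) : E ≤ K := by
  have h1 := relIndex_mul_relIndex H (K ⊓ E) E (le_inf hHK hHE) inf_le_right
  rw [hi] at h1
  have h2 : H.relIndex (K ⊓ E) ≠ 1 := by
    intro h
    exact hxH (relIndex_eq_one.mp h ⟨hxK, hxE⟩)
  have h3 : H.relIndex (K ⊓ E) = s :=
    ((Nat.dvd_prime hs).mp (Dvd.intro _ h1)).resolve_left h2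
  rw [h3] at h1
  have h4 : (K ⊓ E).relIndex E = 1 := by
    have := hs.pos
    nlinarith
  exact (relIndex_eq_one.mp h4).trans inf_le_left

theorem relIndex_eq_sq {G : Type u} [Group G] [Finite G] {s : ℕ} (hs : s.Prime) {A : Subgroup G}
    (hAcyc : IsCyclic A) (D : Subgroup G) (hAD : A ≤ D) (hAZ : ∀ a ∈ A, ∀ x ∈ D, a * x = x * a)
    (hcomm : ∀ x ∈ D, ∀ y ∈ D, ⁅x, y⁆ ∈ A) (hpow : ∀ x ∈ D, x ^ s ∈ A)
    (hZ : ∀ x ∈ D, (∀ y ∈ D, x * y = y * x) → x ∈ A) :
    ∃ k : ℕ, A.relIndex D = s ^ (2 * k) := by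
  induction' hn : Nat.card D using Nat.strong_induction_on with n ih generalizing D
  by_cases hDA : D ≤ A
  · exact ⟨0, by rw [relIndex_eq_one.mpr hDA]; simp⟩
  obtain ⟨x, hxD, hxA⟩ := SetLike.not_le_iff_exists.mp hDA
  obtain ⟨y, hyD, hxy⟩ : ∃ y ∈ D, x * y ≠ y * x := by
    by_contra hcon
    push Not at hcon
    exact hxA (hZ x hxD hcon)
  have i1 : (D ⊓ centralizer {x}).relIndex D = s :=
    relIndex_centralizer hs hAcyc D x (fun e he => hcomm e he x hxD) hAZ
      (fun a ha => hAZ a ha x hxD) hpow ⟨y, hyD, fun h => hxy h.symm⟩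
  have hxDx : x ∈ D ⊓ centralizer {x} := ⟨hxD, mem_centralizer_singleton_iff.mpr rfl⟩
  have i2 : (D ⊓ centralizer {x} ⊓ centralizer {y}).relIndex (D ⊓ centralizer {x}) = s :=
    relIndex_centralizer hs hAcyc _ y (fun e he => hcomm e he.1 y hyD)
      (fun a ha e he => hAZ a ha e he.1) (fun a ha => hAZ a ha y hyD) (fun e he => hpow e he.1)
      ⟨x, hxDx, hxy⟩
  have hAD1 : A ≤ D ⊓ centralizer {x} ⊓ centralizer {y} := by
    intro a ha
    exact ⟨⟨hAD ha, mem_centralizer_singleton_iff.mpr (hAZ a ha x hxD)⟩,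
      mem_centralizer_singleton_iff.mpr (hAZ a ha y hyD)⟩
  have hD1D : D ⊓ centralizer {x} ⊓ centralizer {y} ≤ D := inf_le_left.trans inf_le_left
  have hZ1 : ∀ u ∈ D ⊓ centralizer {x} ⊓ centralizer {y},
      (∀ v ∈ D ⊓ centralizer {x} ⊓ centralizer {y}, u * v = v * u) → u ∈ A := by
    intro u hu hcen
    apply hZ u hu.1.1
    have hux : u * x = x * u := mem_centralizer_singleton_iff.mp hu.1.2
    have huy : u * y = y * u := mem_centralizer_singleton_iff.mp hu.2
    have k1 : D ⊓ centralizer {x} ≤ centralizer {u} :=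
      le_of_prime_relIndex hs inf_le_left i2
        (fun v hv => mem_centralizer_singleton_iff.mpr (hcen v hv).symm) hxDx
        (mem_centralizer_singleton_iff.mpr hux.symm)
        (fun h => hxy (mem_centralizer_singleton_iff.mp h.2))
    have k2 : D ≤ centralizer {u} :=
      le_of_prime_relIndex hs inf_le_left i1 k1 hyD (mem_centralizer_singleton_iff.mpr huy.symm)
        (fun h => hxy (mem_centralizer_singleton_iff.mp h.2).symm)
    intro v hv
    exact (mem_centralizer_singleton_iff.mp (k2 hv)).symm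
  have hlt : Nat.card (D ⊓ centralizer {x} ⊓ centralizer {y} : Subgroup G) < n := by
    rw [← hn]
    apply Set.Finite.card_lt_card (Set.toFinite _)
    refine ⟨hD1D, fun h => ?_⟩
    exact hxy (mem_centralizer_singleton_iff.mp (h hxD).2)
  obtain ⟨k, hk⟩ := ih _ hlt _ hAD1 (fun a ha e he => hAZ a ha e (hD1D he))
    (fun e he e' he' => hcomm e (hD1D he) e' (hD1D he')) (fun e he => hpow e (hD1D he)) hZ1 rfl
  refine ⟨k + 1, ?_⟩
  rw [← relIndex_mul_relIndex A _ D hAD1 hD1D, hk,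
    ← relIndex_mul_relIndex _ (D ⊓ centralizer {x}) D inf_le_left inf_le_left, i1, i2]
  ring

end Cfsg.Agent.Lib.Helper12HupSq
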