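import Cfsg.Agent.Lib.Helper12SpField
import Cfsg.Agent.Lib.Helper58GD

set_option autoImplicit false

/-! Piece `ofield` of the ASCH-O project. -/

namespace Cfsg.Agent.Lib.Helper12OField

open Cfsg Cfsg.Geo Matrix
open Cfsg.Agent.Lib.Helper97GBase Cfsg.Agent.Lib.Helper97GForms
  Cfsg.Agent.Lib.Helper98AschGDefs Cfsg.Agent.Lib.Helper98AschGBasic Cfsg.Agent.Lib.Helper96SpDefs
  Cfsg.Agent.Lib.Helper12SpField
open scoped MatrixGroups Kronecker

variable {ι : Type} [Fintype ι] [DecidableEq ι] {F : Type*} [Field F]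
variable {f : (ι → F) → (ι → F) → F} {H : Subgroup (GL ι F)}

/-- an adjoint-closed field subalgebra in odd dimension (reflexive form, odd characteristic) consists of
self-adjoint elements -/
theorem selfAdjoint_of_odd [Fintype F] [Nonempty ι] (h2 : (2 : F) ≠ 0) (hb : IsBilinearForm f)
    (hnd : IsNondegenerateForm f) (hrefl : ∀ a b : Matrix ι ι F, IsAdj f a b → IsAdj f b a)
    (hodd : Odd (Fintype.card ι)) {K : Subalgebra F (Matrix ι ι F)}
    (hcomm : ∀ x ∈ K, ∀ y ∈ K, x * y = y * x) (hinv : ∀ x ∈ K, x ≠ 0 → ∃ y ∈ K, x * y = 1)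
    (hadj : IsAdjointClosedFor f K) : ∀ x ∈ K, IsAdj f x x := by
  classical
  by_contra hcon
  push Not at hcon
  obtain ⟨a, haK, hna⟩ := hcon
  obtain ⟨a', ha'K, haa'⟩ := hadj a haK
  replace haa' : IsAdj f a a' := haa'
  set b := a - a' with hbdef
  have hbK : b ∈ K := K.sub_mem haK ha'K
  have hbadj : IsAdj f b (-b) := by
    have := haa'.sub hb (hrefl _ _ haa')
    rwa [show a' - a = -b by rw [hbdef]; abel] at this
  have hb0 : b ≠ 0 := by
    intro h0
    have : a = a' := sub_eq_zero.mp h0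
    rw [← this] at haa'
    exact hna haa'
  obtain ⟨y, hyK, hby⟩ := hinv b hbK hb0
  have hyb : y * b = 1 := by rw [hcomm y hyK b hbK, hby]
  have hyadj : IsAdj f y (-y) := by
    obtain ⟨y', hy'K, hyy'⟩ := hadj y hyK
    replace hyy' : IsAdj f y y' := hyy'
    have h1 : IsAdj f (b * y) (y' * -b) := hbadj.mul hyy'
    rw [hby] at h1
    have h3 : y' * -b = 1 := h1.unique hb hnd IsAdj.one
    have h4 : y' = -y := by
      calc y' = y' * (b * y) := by rw [hby, mul_one]
        _ = -((y' * -b) * y) := by rw [mul_neg, neg_mul, neg_neg, mul_assoc]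
        _ = -y := by rw [h3, one_mul]
    rwa [h4] at hyy'
  let K₀ : Subalgebra F (Matrix ι ι F) :=
    { carrier := {x | x ∈ K ∧ IsAdj f x x}
      mul_mem' := by
        rintro u v ⟨hu, hu'⟩ ⟨hv, hv'⟩
        refine ⟨K.mul_mem hu hv, ?_⟩
        have := hu'.mul hv'
        rwa [hcomm v hv u hu] at this
      add_mem' := by
        rintro u v ⟨hu, hu'⟩ ⟨hv, hv'⟩
        exact ⟨K.add_mem hu hv, hu'.add hb hv'⟩
      algebraMap_mem' := by
        intro c
        refine ⟨K.algebraMap_mem c, ?_⟩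
        rw [Algebra.algebraMap_eq_smul_one]
        exact IsAdj.scalar hb c }
  let φ : K₀ × K₀ → K := fun uv =>
    ⟨(uv.1 : Matrix ι ι F) + b * (uv.2 : Matrix ι ι F), K.add_mem uv.1.2.1 (K.mul_mem hbK uv.2.2.1)⟩
  have hzero : ∀ z : Matrix ι ι F, IsAdj f z z → IsAdj f z (-z) → z = 0 := by
    intro z h1 h3
    have h4 : z = -z := h1.unique hb hnd h3
    have h5 : (2 : F) • z = 0 := by
      rw [two_smul]
      nth_rewrite 1 [h4]
      exact neg_add_cancel z
    rcases smul_eq_zero.mp h5 with h6 | h6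
    · exact absurd h6 h2
    · exact h6
  have hφinj : Function.Injective φ := by
    rintro ⟨u, v⟩ ⟨u', v'⟩ h
    have h1 : (u : Matrix ι ι F) + b * v = (u' : Matrix ι ι F) + b * v' := congrArg Subtype.val h
    have h3 : (u : Matrix ι ι F) - u' = b * ((v' : Matrix ι ι F) - v) := by
      rw [mul_sub]
      exact sub_eq_sub_iff_add_eq_add.mpr (by rw [h1, add_comm])
    have hsa : IsAdj f ((u : Matrix ι ι F) - u') ((u : Matrix ι ι F) - u') := u.2.2.sub hb u'.2.2
    have hsk : IsAdj f ((u : Matrix ι ι F) - u') (-((u : Matrix ι ι F) - u')) := by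
      have h4 : IsAdj f (b * ((v' : Matrix ι ι F) - v)) (((v' : Matrix ι ι F) - v) * -b) :=
        hbadj.mul (v'.2.2.sub hb v.2.2)
      rw [mul_neg, hcomm _ (K.sub_mem v'.2.1 v.2.1) b hbK, ← h3] at h4
      exact h4
    have h5 := hzero _ hsa hsk
    have h6 : (u : Matrix ι ι F) = u' := sub_eq_zero.mp h5
    have h7 : (v' : Matrix ι ι F) - v = 0 := by
      calc (v' : Matrix ι ι F) - v = (y * b) * ((v' : Matrix ι ι F) - v) := by rw [hyb, one_mul]
        _ = y * (b * ((v' : Matrix ι ι F) - v)) := by rw [mul_assoc]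
        _ = 0 := by rw [← h3, h5, mul_zero]
    have h8 : (v : Matrix ι ι F) = v' := (sub_eq_zero.mp h7).symm
    exact Prod.ext (Subtype.ext h6) (Subtype.ext h8)
  have hφsurj : Function.Surjective φ := by
    rintro ⟨x, hx⟩
    obtain ⟨x', hx'K, hxx'⟩ := hadj x hx
    replace hxx' : IsAdj f x x' := hxx'
    have hu : (2 : F)⁻¹ • (x + x') ∈ K₀ := by
      refine ⟨K.smul_mem (K.add_mem hx hx'K) _, ?_⟩
      have := (hxx'.add hb (hrefl _ _ hxx')).smul hb (2 : F)⁻¹
      rwa [add_comm x' x] at this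
    have hwK : (2 : F)⁻¹ • (x - x') ∈ K := K.smul_mem (K.sub_mem hx hx'K) _
    have hw : IsAdj f ((2 : F)⁻¹ • (x - x')) (-((2 : F)⁻¹ • (x - x'))) := by
      have := (hxx'.sub hb (hrefl _ _ hxx')).smul hb (2 : F)⁻¹
      rwa [show x' - x = -(x - x') by abel, smul_neg] at this
    have hv : y * ((2 : F)⁻¹ • (x - x')) ∈ K₀ := by
      refine ⟨K.mul_mem hyK hwK, ?_⟩
      have := hyadj.mul hw
      rwa [neg_mul_neg, hcomm _ hwK y hyK] at this
    refine ⟨(⟨_, hu⟩, ⟨_, hv⟩), ?_⟩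
    apply Subtype.ext
    show (2 : F)⁻¹ • (x + x') + b * (y * ((2 : F)⁻¹ • (x - x'))) = x
    rw [← mul_assoc, hby, one_mul, ← smul_add, show x + x' + (x - x') = (2 : F) • x by
      rw [two_smul]; abel, smul_smul, inv_mul_cancel₀ h2, one_smul]
  have hcard : Nat.card K = Nat.card K₀ * Nat.card K₀ := by
    rw [← Nat.card_prod]
    exact (Nat.card_congr (Equiv.ofBijective φ ⟨hφinj, hφsurj⟩)).symm
  rw [Module.natCard_eq_pow_finrank (K := F) (V := K),
    Module.natCard_eq_pow_finrank (K := F) (V := K₀), ← pow_add] at hcard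
  have hq1 : 1 < Nat.card F := by
    rw [Nat.card_eq_fintype_card]
    exact Fintype.one_lt_card
  have hk := Nat.pow_right_injective hq1 hcard
  have hdvd : Module.finrank F K ∣ Fintype.card ι :=
    Cfsg.Agent.Lib.Helper58GD.field_dvd K ⟨hcomm, hinv, rfl⟩
  have heven : Even (Module.finrank F K) := ⟨_, hk⟩
  have : Even (Fintype.card ι) := heven.trans_dvd hdvd
  exact (Nat.not_even_iff_odd.mpr hodd) this

/-- [ofield] adjoint-closed normalised field strictly containing the scalars, odd dimension: class 3. -/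
theorem o_field [Fintype F] [Nonempty ι] (h2 : (2 : F) ≠ 0) (hf : IsSymmetricForm f)
    (hodd : Odd (Fintype.card ι)) {K : Subalgebra F (Matrix ι ι F)} (hK : NzA H K)
    (hcomm : ∀ x ∈ K, ∀ y ∈ K, x * y = y * x) (hinv : ∀ x ∈ K, x ≠ 0 → ∃ y ∈ K, x * y = 1)
    (hadj : IsAdjointClosedFor f K) (hne : ∃ x ∈ K, ∀ c : F, x ≠ c • (1 : Matrix ι ι F)) :
    ∃ (r : ℕ) (K' : Subalgebra F (Matrix ι ι F)), r.Prime ∧ IsFieldSubalgebra r K' ∧
      IsSelfAdjointFor f K' ∧ H ≤ subalgebraNormalizer K' := by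
  have hsa := selfAdjoint_of_odd h2 hf.bilinear hf.nondegenerate
    (fun _ _ h => h.symm_of_symm hf.symm) hodd hcomm hinv hadj
  obtain ⟨r, K', hr, hK', hle, hnorm⟩ := field_c3' hK hcomm hinv hne
  exact ⟨r, K', hr, hK', fun k hk => hsa k (hle hk), NzA_le_subalgebraNormalizer hnorm⟩

end Cfsg.Agent.Lib.Helper12OField
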