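import Cfsg.Agent.Lib.Helper12SpTensform

set_option autoImplicit false

/-! Piece `otsymm` of the ASCH-O project. -/

namespace Cfsg.Agent.Lib.Helper12OTsymm

open Cfsg Cfsg.Geo Matrix
open Cfsg.Agent.Lib.Helper97GBase Cfsg.Agent.Lib.Helper97GForms
  Cfsg.Agent.Lib.Helper98AschGDefs Cfsg.Agent.Lib.Helper98AschGBasic Cfsg.Agent.Lib.Helper96SpDefs
  Cfsg.Agent.Lib.Helper12SpTensform
open scoped MatrixGroups Kronecker

variable {ι : Type} [Fintype ι] [DecidableEq ι] {F : Type*} [Field F]
variable {f : (ι → F) → (ι → F) → F}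

/-- a nonzero matrix proportional to its transpose is symmetric or skew-symmetric -/
lemma symm_or_skew {κ : Type*} {G : Matrix κ κ F} (hG : G ≠ 0) {c : F} (h : Gᵀ = c • G) :
    c = 1 ∨ c = -1 := by
  have hcc : c * c = 1 := by
    have h3 : G = (c * c) • G := by
      have := congrArg Matrix.transpose h
      rw [Matrix.transpose_transpose, Matrix.transpose_smul, h, smul_smul] at this
      exact this
    obtain ⟨i, j, hij⟩ : ∃ i j, G i j ≠ 0 := by
      by_contra hcon
      push Not at hcon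
      exact hG (by ext i j; exact hcon i j)
    have h4 := congrFun (congrFun h3 i) j
    rw [Matrix.smul_apply, smul_eq_mul] at h4
    have h5 : (c * c - 1) * G i j = 0 := by linear_combination (-1 : F) * h4
    rcases mul_eq_zero.mp h5 with h6 | h6
    · exact sub_eq_zero.mp h6
    · exact absurd h6 hij
  have : (c - 1) * (c + 1) = 0 := by linear_combination hcc
  rcases mul_eq_zero.mp this with h | h
  · exact Or.inl (sub_eq_zero.mp h)
  · exact Or.inr (eq_neg_of_add_eq_zero_left h)

/-- [otsymm] symmetry types of the two factors of a symmetric tensor product form. -/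
theorem tens_form_symm [Nonempty ι] (hsymm : ∀ u v, f u v = f v u) {d s : ℕ}
    (e : ι ≃ Fin d × Fin s) (P : GL ι F)
    (G₁ : Matrix (Fin d) (Fin d) F) (G₂ : Matrix (Fin s) (Fin s) F) (h₁ : IsUnit G₁.det)
    (h₂ : IsUnit G₂.det)
    (hG : ∀ x y : Fin d × Fin s → F,
      f ((P : Matrix ι ι F) *ᵥ (x ∘ e)) ((P : Matrix ι ι F) *ᵥ (y ∘ e)) =
        formOfGram id (G₁ ⊗ₖ G₂) x y) :
    (G₁ᵀ = G₁ ∧ G₂ᵀ = G₂) ∨ (G₁ᵀ = -G₁ ∧ G₂ᵀ = -G₂) := by
  obtain ⟨i₀⟩ := ‹Nonempty ι›
  have : Nonempty (Fin d) := ⟨(e i₀).1⟩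
  have : Nonempty (Fin s) := ⟨(e i₀).2⟩
  have hB : G₁ᵀ ⊗ₖ G₂ᵀ = G₁ ⊗ₖ G₂ := by
    ext ⟨p, r⟩ ⟨q, t⟩
    have h1 := hG (Pi.single (p, r) 1) (Pi.single (q, t) 1)
    have h2 := hG (Pi.single (q, t) 1) (Pi.single (p, r) 1)
    rw [formOfGram_single] at h1 h2
    rw [hsymm, h2] at h1
    simp only [Matrix.kroneckerMap_apply, Matrix.transpose_apply] at h1 ⊢
    exact h1
  have hG₁ := ne_zero_of_isUnit_det h₁
  obtain ⟨c, hc, hc1, hc2⟩ := kron_unique hG₁ (ne_zero_of_isUnit_det h₂) hB
  rcases symm_or_skew hG₁ hc1 with rfl | rfl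
  · left
    exact ⟨by simpa using hc1, by simpa using hc2⟩
  · right
    refine ⟨by simpa using hc1, ?_⟩
    rw [hc2]
    simp [inv_neg]

/-- [otsymm] symmetry types of the factors of a symmetric tensor product of `k` forms. -/
theorem wr_form_symm [Nonempty ι] (hsymm : ∀ u v, f u v = f v u) {k m : ℕ}
    (e : ι ≃ (Fin k → Fin m)) (P : GL ι F)
    (G : Fin k → Matrix (Fin m) (Fin m) F) (hGu : ∀ i, IsUnit (G i).det)
    (hG : ∀ x y : (Fin k → Fin m) → F,
      f ((P : Matrix ι ι F) *ᵥ (x ∘ e)) ((P : Matrix ι ι F) *ᵥ (y ∘ e)) =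
        ∑ a, ∑ b, x a * (∏ i, G i (a i) (b i)) * y b) :
    ∀ i, (G i)ᵀ = G i ∨ (G i)ᵀ = -G i := by
  classical
  intro i
  obtain ⟨i₀⟩ := ‹Nonempty ι›
  have : Nonempty (Fin m) := ⟨e i₀ i⟩
  have hne : ∀ j, G j ≠ 0 := fun j => ne_zero_of_isUnit_det (hGu j)
  have hex : ∀ j, ∃ pq : Fin m × Fin m, G j pq.1 pq.2 ≠ 0 := by
    intro j
    by_contra hcon
    push Not at hcon
    exact hne j (by ext x y; exact hcon (x, y))
  choose pq hpq using hex
  have hprod : ∀ a b : Fin k → Fin m, ∏ j, G j (a j) (b j) = ∏ j, G j (b j) (a j) := by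
    intro a b
    have h1 := hG (Pi.single a 1) (Pi.single b 1)
    have h2 := hG (Pi.single b 1) (Pi.single a 1)
    rw [hsymm, h2] at h1
    simp [Pi.single_apply] at h1
    exact h1.symm
  set c := ∏ j ∈ Finset.univ.erase i, G j (pq j).1 (pq j).2 with hc
  set c' := ∏ j ∈ Finset.univ.erase i, G j (pq j).2 (pq j).1 with hc'
  have hc0 : c ≠ 0 := Finset.prod_ne_zero_iff.mpr fun j _ => hpq j
  have hsplit : ∀ x y : Fin m, G i x y * c = G i y x * c' := by
    intro x y
    have h := hprod (Function.update (fun j => (pq j).1) i x) (Function.update (fun j => (pq j).2) i y)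
    rw [← Finset.mul_prod_erase _ _ (Finset.mem_univ i), ← Finset.mul_prod_erase _ _ (Finset.mem_univ i)]
      at h
    simp only [Function.update_self] at h
    have e1 : ∏ j ∈ Finset.univ.erase i, G j (Function.update (fun j => (pq j).1) i x j)
        (Function.update (fun j => (pq j).2) i y j) = c := by
      refine Finset.prod_congr rfl fun j hj => ?_
      have hji : j ≠ i := (Finset.mem_erase.mp hj).1
      rw [Function.update_of_ne hji, Function.update_of_ne hji]
    have e2 : ∏ j ∈ Finset.univ.erase i, G j (Function.update (fun j => (pq j).2) i y j)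
        (Function.update (fun j => (pq j).1) i x j) = c' := by
      refine Finset.prod_congr rfl fun j hj => ?_
      have hji : j ≠ i := (Finset.mem_erase.mp hj).1
      rw [Function.update_of_ne hji, Function.update_of_ne hji]
    rw [e1, e2] at h
    exact h
  have hc'0 : c' ≠ 0 := by
    intro h0
    have := hsplit (pq i).1 (pq i).2
    rw [h0, mul_zero] at this
    exact mul_ne_zero (hpq i) hc0 this
  have hT : (G i)ᵀ = (c / c') • G i := by
    ext x y
    rw [Matrix.transpose_apply, Matrix.smul_apply, smul_eq_mul]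
    have := hsplit x y
    field_simp
    linear_combination (-1 : F) * this
  rcases symm_or_skew (hne i) hT with h | h
  · left; rw [hT, h, one_smul]
  · right; rw [hT, h, neg_smul, one_smul]

/-- [otsymm] an invertible skew-symmetric matrix has even size. -/
theorem not_skew_of_odd (h2 : (2 : F) ≠ 0) {d : ℕ} (hd : Odd d) (G : Matrix (Fin d) (Fin d) F)
    (hu : IsUnit G.det) : Gᵀ ≠ -G := by
  intro h
  have h1 : G.det = - G.det := by
    conv_lhs => rw [← Matrix.det_transpose, h, Matrix.det_neg, Fintype.card_fin, hd.neg_one_pow]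
    ring
  have h3 : (2 : F) * G.det = 0 := by linear_combination h1
  rcases mul_eq_zero.mp h3 with h4 | h4
  · exact h2 h4
  · rw [h4] at hu
    exact not_isUnit_zero hu

end Cfsg.Agent.Lib.Helper12OTsymm
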