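import Mathlib

set_option autoImplicit false
open Pointwise

namespace Cfsg.Agent.Lib.Helper12Perm

variable {G : Type*} [Group G]

/-- `J A ⊆ A J` -/
def Perm (A J : Subgroup G) : Prop := ∀ j ∈ J, ∀ a ∈ A, ∃ a' ∈ A, ∃ j' ∈ J, j * a = a' * j'

theorem coe_sup_of_perm {A J : Subgroup G} (h : Perm A J) :
    ((A ⊔ J : Subgroup G) : Set G) = (A : Set G) * (J : Set G) := by
  apply Set.Subset.antisymm
  · intro x hx
    have hx' : x ∈ Subgroup.closure ((A : Set G) ∪ (J : Set G)) := by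
      rw [Subgroup.closure_union, Subgroup.closure_eq, Subgroup.closure_eq]; exact hx
    have key : ∀ x : G, x ∈ (A : Set G) * (J : Set G) → ∀ y : G, y ∈ (A : Set G) ∪ (J : Set G) →
        x * y ∈ (A : Set G) * (J : Set G) := by
      rintro _ ⟨a, ha, j, hj, rfl⟩ y hy
      rcases hy with hy | hy
      · obtain ⟨a', ha', j', hj', e⟩ := h j hj y hy
        refine ⟨a * a', A.mul_mem ha ha', j', hj', ?_⟩
        simp only
        rw [mul_assoc, ← e, mul_assoc]
      · exact ⟨a, ha, j * y, J.mul_mem hj hy, by simp only [mul_assoc]⟩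
    clear hx
    induction hx' using Subgroup.closure_induction_right with
    | one => exact ⟨1, A.one_mem, 1, J.one_mem, by simp⟩
    | mul_right x _ y hy ih => exact key x ih y hy
    | mul_inv_cancel x _ y hy ih =>
      apply key x ih
      rcases hy with hy | hy
      · exact Or.inl (A.inv_mem hy)
      · exact Or.inr (J.inv_mem hy)
  · rintro _ ⟨a, ha, j, hj, rfl⟩
    exact Subgroup.mul_mem _ ((le_sup_left : A ≤ A ⊔ J) ha) ((le_sup_right : J ≤ A ⊔ J) hj)

theorem perm_of_coe_eq {A B S : Subgroup G} (h : (S : Set G) = (A : Set G) * (B : Set G)) :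
    Perm A B := by
  intro b hb a ha
  have hA : a ∈ S := by
    rw [← SetLike.mem_coe, h]; exact ⟨a, ha, 1, B.one_mem, by simp⟩
  have hB : b ∈ S := by
    rw [← SetLike.mem_coe, h]; exact ⟨1, A.one_mem, b, hb, by simp⟩
  have : b * a ∈ (S : Set G) := S.mul_mem hB hA
  rw [h] at this
  obtain ⟨a', ha', b', hb', e⟩ := this
  exact ⟨a', ha', b', hb', e.symm⟩

theorem le_of_coe_eq {A B S : Subgroup G} (h : (S : Set G) = (A : Set G) * (B : Set G)) :
    A ≤ S ∧ B ≤ S := by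
  constructor
  · intro a ha
    rw [← SetLike.mem_coe, h]; exact ⟨a, ha, 1, B.one_mem, by simp⟩
  · intro b hb
    rw [← SetLike.mem_coe, h]; exact ⟨1, A.one_mem, b, hb, by simp⟩

theorem perm_sup {A B₁ B₂ : Subgroup G} (h₁ : Perm A B₁) (h₂ : Perm A B₂) :
    Perm A (B₁ ⊔ B₂) := by
  intro j hj
  have hj' : j ∈ Subgroup.closure ((B₁ : Set G) ∪ (B₂ : Set G)) := by
    rw [Subgroup.closure_union, Subgroup.closure_eq, Subgroup.closure_eq]; exact hj
  have key : ∀ y : G, y ∈ (B₁ : Set G) ∪ (B₂ : Set G) → ∀ a ∈ A, ∃ a' ∈ A, ∃ j' ∈ B₁ ⊔ B₂,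
      y * a = a' * j' := by
    intro y hy a ha
    rcases hy with hy | hy
    · obtain ⟨a', ha', j', hj', e⟩ := h₁ y hy a ha
      exact ⟨a', ha', j', (le_sup_left : B₁ ≤ B₁ ⊔ B₂) hj', e⟩
    · obtain ⟨a', ha', j', hj', e⟩ := h₂ y hy a ha
      exact ⟨a', ha', j', (le_sup_right : B₂ ≤ B₁ ⊔ B₂) hj', e⟩
  have step : ∀ y : G, y ∈ (B₁ : Set G) ∪ (B₂ : Set G) → ∀ x : G,
      (∀ a ∈ A, ∃ a' ∈ A, ∃ j' ∈ B₁ ⊔ B₂, x * a = a' * j') →
      (∀ a ∈ A, ∃ a' ∈ A, ∃ j' ∈ B₁ ⊔ B₂, y * x * a = a' * j') := by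
    intro y hy x ih a ha
    obtain ⟨a', ha', j', hj', e⟩ := ih a ha
    obtain ⟨a'', ha'', j'', hj'', e'⟩ := key y hy a' ha'
    refine ⟨a'', ha'', j'' * j', Subgroup.mul_mem _ hj'' hj', ?_⟩
    rw [mul_assoc, e, ← mul_assoc, e', mul_assoc]
  clear hj
  induction hj' using Subgroup.closure_induction_left with
  | one => intro a ha; exact ⟨a, ha, 1, Subgroup.one_mem _, by simp⟩
  | mul_left y hy x _ ih => exact step y hy x ih
  | inv_mul_cancel y hy x _ ih =>
    apply step _ _ x ih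
    rcases hy with hy | hy
    · exact Or.inl (B₁.inv_mem hy)
    · exact Or.inr (B₂.inv_mem hy)

end Cfsg.Agent.Lib.Helper12Perm
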