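import Cfsg.Agent.Lib.Helper98AschGDefs

set_option autoImplicit false

namespace Cfsg.Agent.Lib.Helper96GField

open Cfsg Cfsg.Geo Matrix
open Cfsg.Agent.Lib.Helper97GBase Cfsg.Agent.Lib.Helper98AschGDefs
open scoped MatrixGroups

/-- number of fixed points of `x ↦ x ^ (q ^ r)` in a finite field of order `q ^ k`, `r ∣ k` -/
theorem card_fix_field {L : Type*} [Field L] [Finite L]
    (q k r : ℕ) (hq : 1 < q) (hL : Nat.card L = q ^ k) (hrk : r ∣ k) (hr : 0 < r) :
    Nat.card {x : L // x ^ (q ^ r) = x} = q ^ r := by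
  classical
  have hU : Nat.card Lˣ = q ^ k - 1 := by rw [Nat.card_units, hL]
  obtain ⟨d, hd1⟩ : ∃ d, q ^ r = d + 1 := ⟨q ^ r - 1, by
    have : 1 < q ^ r := Nat.one_lt_pow hr.ne' hq
    omega⟩
  have hdvd : d ∣ q ^ k - 1 := by
    have := Nat.pow_sub_one_dvd_pow_sub_one q hrk
    rwa [hd1, Nat.add_sub_cancel] at this
  have hker : Nat.card (powMonoidHom d : Lˣ →* Lˣ).ker = d := by
    rw [IsCyclic.card_powMonoidHom_ker, hU]
    exact Nat.gcd_eq_right hdvd
  rw [hd1]
  have e : {x : L // x ^ (d + 1) = x} ≃ Option (powMonoidHom d : Lˣ →* Lˣ).ker :=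
    { toFun := fun x =>
        if h : x.1 = 0 then none
        else some ⟨Units.mk0 x.1 h, by
          rw [MonoidHom.mem_ker, powMonoidHom_apply]
          apply Units.ext
          rw [Units.val_pow_eq_pow_val, Units.val_mk0, Units.val_one]
          have h1 := x.2
          rw [pow_succ] at h1
          exact mul_right_cancel₀ h (by rw [h1, one_mul])⟩
      invFun := fun o =>
        match o with
        | none => ⟨0, zero_pow (by omega)⟩
        | some u => ⟨(u.1 : L), by
            have h1 := u.2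
            rw [MonoidHom.mem_ker, powMonoidHom_apply] at h1
            have h2 : ((u.1 : Lˣ) : L) ^ d = 1 := by
              rw [← Units.val_pow_eq_pow_val, h1, Units.val_one]
            rw [pow_succ, h2, one_mul]⟩
      left_inv := by
        intro x
        by_cases h : x.1 = 0
        · simp only [h, dite_true]
          exact Subtype.ext h.symm
        · simp only [h, dite_false]
          rfl
      right_inv := by
        intro o
        match o with
        | none => simp
        | some u =>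
          have h : ((u.1 : Lˣ) : L) ≠ 0 := Units.ne_zero _
          simp only [h, dite_false]
          congr 1
          apply Subtype.ext
          apply Units.ext
          rfl }
  rw [Nat.card_congr e, Finite.card_option, hker]

theorem card_fix {L : Type*} [Ring L] [Finite L] [Nontrivial L]
    (hcomm : ∀ a b : L, a * b = b * a) (hinv : ∀ a : L, a ≠ 0 → ∃ b, a * b = 1)
    (q k r : ℕ) (hq : 1 < q) (hL : Nat.card L = q ^ k) (hrk : r ∣ k) (hr : 0 < r) :
    Nat.card {x : L // x ^ (q ^ r) = x} = q ^ r := by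
  have hF : IsField L := ⟨exists_pair_ne L, hcomm, fun h => hinv _ h⟩
  let _ : Field L := hF.toField
  exact card_fix_field q k r hq hL hrk hr

variable {ι : Type} [Fintype ι] [DecidableEq ι] {F : Type*} [Field F]

/-- [field] a normalised field strictly containing the scalars contains a normalised field of prime
degree. -/
theorem field_c3 [Fintype F] [Nonempty ι] {H : Subgroup (GL ι F)}
    {K : Subalgebra F (Matrix ι ι F)} (hK : NzA H K)
    (hcomm : ∀ x ∈ K, ∀ y ∈ K, x * y = y * x) (hinv : ∀ x ∈ K, x ≠ 0 → ∃ y ∈ K, x * y = 1)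
    (hne : ∃ x ∈ K, ∀ c : F, x ≠ c • (1 : Matrix ι ι F)) :
    ∃ (r : ℕ) (K' : Subalgebra F (Matrix ι ι F)), r.Prime ∧ IsFieldSubalgebra r K' ∧
      H ≤ subalgebraNormalizer K' := by
  classical
  set q := Fintype.card F with hq
  have hq1 : 1 < q := Fintype.one_lt_card
  set k := Module.finrank F K with hk
  have hk0 : 0 < k := Module.finrank_pos
  have hk1 : k ≠ 1 := by
    intro h1
    have h2 : K = ⊥ := Subalgebra.finrank_eq_one_iff.mp h1
    obtain ⟨x, hx, hxc⟩ := hne
    rw [h2, Algebra.mem_bot] at hx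
    obtain ⟨c, rfl⟩ := hx
    exact hxc c (Algebra.algebraMap_eq_smul_one c)
  set r := k.minFac with hr
  have hrp : r.Prime := Nat.minFac_prime hk1
  have hrk : r ∣ k := Nat.minFac_dvd k
  obtain ⟨p, hpc⟩ := CharP.exists F
  obtain ⟨f, hp, hqf⟩ := FiniteField.card F p
  have : Fact p.Prime := ⟨hp⟩
  have hN : q ^ r = p ^ ((f : ℕ) * r) := by rw [hq, hqf, pow_mul]
  let K' : Subalgebra F (Matrix ι ι F) :=
    { carrier := {x | x ∈ K ∧ x ^ (q ^ r) = x}
      mul_mem' := by
        rintro a b ⟨ha, ha'⟩ ⟨hb, hb'⟩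
        refine ⟨K.mul_mem ha hb, ?_⟩
        rw [(show Commute a b from hcomm a ha b hb).mul_pow, ha', hb']
      add_mem' := by
        rintro a b ⟨ha, ha'⟩ ⟨hb, hb'⟩
        refine ⟨K.add_mem ha hb, ?_⟩
        rw [hN] at ha' hb' ⊢
        rw [add_pow_char_pow_of_commute _ _ (show Commute a b from hcomm a ha b hb), ha', hb']
      algebraMap_mem' := by
        intro c
        refine ⟨K.algebraMap_mem c, ?_⟩
        rw [← map_pow, hq, FiniteField.pow_card_pow] }
  have hmem : ∀ x, x ∈ K' ↔ x ∈ K ∧ x ^ (q ^ r) = x := fun x => Iff.rfl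
  refine ⟨r, K', hrp, ⟨?_, ?_, ?_⟩, ?_⟩
  · intro x hx y hy
    exact hcomm x hx.1 y hy.1
  · intro x hx hx0
    obtain ⟨y, hy, hxy⟩ := hinv x hx.1 hx0
    refine ⟨y, ⟨hy, ?_⟩, hxy⟩
    have h1 : x * y ^ (q ^ r) = 1 := by
      have h2 : (x * y) ^ (q ^ r) = 1 := by rw [hxy, one_pow]
      rwa [(show Commute x y from hcomm x hx.1 y hy).mul_pow, hx.2] at h2
    have hyx : y * x = 1 := by rw [hcomm y hy x hx.1, hxy]
    calc y ^ (q ^ r) = (y * x) * y ^ (q ^ r) := by rw [hyx, one_mul]
      _ = y * (x * y ^ (q ^ r)) := by rw [mul_assoc]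
      _ = y := by rw [h1, mul_one]
  · -- the dimension
    have hKcard : Nat.card K = q ^ k := by
      rw [Module.natCard_eq_pow_finrank (K := F), Nat.card_eq_fintype_card]
    have hfix : Nat.card {x : K // x ^ (q ^ r) = x} = q ^ r := by
      apply card_fix (fun a b => Subtype.ext (hcomm a a.2 b b.2)) _ q k r hq1 hKcard hrk hrp.pos
      intro a ha
      obtain ⟨y, hy, hxy⟩ := hinv a a.2 (fun h => ha (Subtype.ext h))
      exact ⟨⟨y, hy⟩, Subtype.ext hxy⟩
    have e : K' ≃ {x : K // x ^ (q ^ r) = x} :=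
      { toFun := fun x => ⟨⟨x.1, x.2.1⟩, Subtype.ext x.2.2⟩
        invFun := fun x => ⟨x.1.1, x.1.2, congrArg Subtype.val x.2⟩
        left_inv := fun x => rfl
        right_inv := fun x => rfl }
    have h1 : Nat.card K' = q ^ r := by rw [Nat.card_congr e, hfix]
    rw [Module.natCard_eq_pow_finrank (K := F), Nat.card_eq_fintype_card] at h1
    exact Nat.pow_right_injective hq1 h1
  · intro h hh
    have key : ∀ g ∈ H, ∀ x ∈ K', (g : Matrix ι ι F) * x *
        ((g⁻¹ : GL ι F) : Matrix ι ι F) ∈ K' := by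
      intro g hg x hx
      refine ⟨hK g hg x hx.1, ?_⟩
      rw [Units.conj_pow, hx.2]
    intro x
    constructor
    · exact key h hh x
    · intro hx
      have h1 := key h⁻¹ (H.inv_mem hh) _ hx
      rw [inv_inv] at h1
      have h2 : ((h⁻¹ : GL ι F) : Matrix ι ι F) *
          ((h : Matrix ι ι F) * x * ((h⁻¹ : GL ι F) : Matrix ι ι F)) *
          (h : Matrix ι ι F) = x := by
        simp only [mul_assoc, Units.inv_mul, mul_one, Units.inv_mul_cancel_left]
      rwa [h2] at h1

end Cfsg.Agent.Lib.Helper96GField
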