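import Cfsg.Agent.Lib.Helper96SpBasic
import Cfsg.Agent.Lib.Helper96GField

set_option autoImplicit false

/-! Piece `field` of the ASCH-SP project. -/

namespace Cfsg.Agent.Lib.Helper12SpField

open Cfsg Cfsg.Geo Matrix
open Cfsg.Agent.Lib.Helper97GBase Cfsg.Agent.Lib.Helper97GForms
  Cfsg.Agent.Lib.Helper98AschGDefs Cfsg.Agent.Lib.Helper98AschGBasic Cfsg.Agent.Lib.Helper96SpDefs
  Cfsg.Agent.Lib.Helper96GField
open scoped MatrixGroups Kronecker

variable {ι : Type} [Fintype ι] [DecidableEq ι] {F : Type*} [Field F]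
variable {f : (ι → F) → (ι → F) → F} {H : Subgroup (GL ι F)}

/-- refinement of `field_c3` (helper67/helper96): the subfield of prime degree lies in `K`. -/
theorem field_c3' [Fintype F] [Nonempty ι] {H : Subgroup (GL ι F)}
    {K : Subalgebra F (Matrix ι ι F)} (hK : NzA H K)
    (hcomm : ∀ x ∈ K, ∀ y ∈ K, x * y = y * x) (hinv : ∀ x ∈ K, x ≠ 0 → ∃ y ∈ K, x * y = 1)
    (hne : ∃ x ∈ K, ∀ c : F, x ≠ c • (1 : Matrix ι ι F)) :
    ∃ (r : ℕ) (K' : Subalgebra F (Matrix ι ι F)), r.Prime ∧ IsFieldSubalgebra r K' ∧ K' ≤ K ∧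
      NzA H K' := by
  classical
  set q := Fintype.card F with hq
  have hq1 : 1 < q := Fintype.one_lt_card
  set k := Module.finrank F K with hk
  have hk0 : 0 < k := Module.finrank_pos
  have hk1 : k ≠ 1 := by
    intro h1
    have h2 : K = ⊥ := Subalgebra.finrank_eq_one_iff.mp h1
    obtain ⟨x, hx, hxc⟩ := hne
    rw [h2, Algebra.mem_bot] at hx
    obtain ⟨c, rfl⟩ := hx
    exact hxc c (Algebra.algebraMap_eq_smul_one c)
  set r := k.minFac with hr
  have hrp : r.Prime := Nat.minFac_prime hk1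
  have hrk : r ∣ k := Nat.minFac_dvd k
  obtain ⟨p, hpc⟩ := CharP.exists F
  obtain ⟨f, hp, hqf⟩ := FiniteField.card F p
  have : Fact p.Prime := ⟨hp⟩
  have hN : q ^ r = p ^ ((f : ℕ) * r) := by rw [hq, hqf, pow_mul]
  let K' : Subalgebra F (Matrix ι ι F) :=
    { carrier := {x | x ∈ K ∧ x ^ (q ^ r) = x}
      mul_mem' := by
        rintro a b ⟨ha, ha'⟩ ⟨hb, hb'⟩
        refine ⟨K.mul_mem ha hb, ?_⟩
        rw [(show Commute a b from hcomm a ha b hb).mul_pow, ha', hb']
      add_mem' := by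
        rintro a b ⟨ha, ha'⟩ ⟨hb, hb'⟩
        refine ⟨K.add_mem ha hb, ?_⟩
        rw [hN] at ha' hb' ⊢
        rw [add_pow_char_pow_of_commute _ _ (show Commute a b from hcomm a ha b hb), ha', hb']
      algebraMap_mem' := by
        intro c
        refine ⟨K.algebraMap_mem c, ?_⟩
        rw [← map_pow, hq, FiniteField.pow_card_pow] }
  have hmem : ∀ x, x ∈ K' ↔ x ∈ K ∧ x ^ (q ^ r) = x := fun x => Iff.rfl
  refine ⟨r, K', hrp, ⟨?_, ?_, ?_⟩, fun x hx => hx.1, ?_⟩
  · intro x hx y hy
    exact hcomm x hx.1 y hy.1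
  · intro x hx hx0
    obtain ⟨y, hy, hxy⟩ := hinv x hx.1 hx0
    refine ⟨y, ⟨hy, ?_⟩, hxy⟩
    have h1 : x * y ^ (q ^ r) = 1 := by
      have h2 : (x * y) ^ (q ^ r) = 1 := by rw [hxy, one_pow]
      rwa [(show Commute x y from hcomm x hx.1 y hy).mul_pow, hx.2] at h2
    have hyx : y * x = 1 := by rw [hcomm y hy x hx.1, hxy]
    calc y ^ (q ^ r) = (y * x) * y ^ (q ^ r) := by rw [hyx, one_mul]
      _ = y * (x * y ^ (q ^ r)) := by rw [mul_assoc]
      _ = y := by rw [h1, mul_one]
  · -- the dimension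
    have hKcard : Nat.card K = q ^ k := by
      rw [Module.natCard_eq_pow_finrank (K := F), Nat.card_eq_fintype_card]
    have hfix : Nat.card {x : K // x ^ (q ^ r) = x} = q ^ r := by
      apply card_fix (fun a b => Subtype.ext (hcomm a a.2 b b.2)) _ q k r hq1 hKcard hrk hrp.pos
      intro a ha
      obtain ⟨y, hy, hxy⟩ := hinv a a.2 (fun h => ha (Subtype.ext h))
      exact ⟨⟨y, hy⟩, Subtype.ext hxy⟩
    have e : K' ≃ {x : K // x ^ (q ^ r) = x} :=
      { toFun := fun x => ⟨⟨x.1, x.2.1⟩, Subtype.ext x.2.2⟩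
        invFun := fun x => ⟨x.1.1, x.1.2, congrArg Subtype.val x.2⟩
        left_inv := fun x => rfl
        right_inv := fun x => rfl }
    have h1 : Nat.card K' = q ^ r := by rw [Nat.card_congr e, hfix]
    rw [Module.natCard_eq_pow_finrank (K := F), Nat.card_eq_fintype_card] at h1
    exact Nat.pow_right_injective hq1 h1
  · intro g hg x hx
    refine ⟨hK g hg x hx.1, ?_⟩
    rw [Units.conj_pow, hx.2]

/-- in characteristic 2 every element of a finite field subalgebra is a square -/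
lemma exists_sq [Finite F] (h2 : (2 : F) = 0) {K : Subalgebra F (Matrix ι ι F)}
    (hcomm : ∀ x ∈ K, ∀ y ∈ K, x * y = y * x) (hinv : ∀ x ∈ K, x ≠ 0 → ∃ y ∈ K, x * y = 1)
    {k : Matrix ι ι F} (hk : k ∈ K) : ∃ m ∈ K, m * m = k := by
  classical
  have : Finite K := Subtype.finite
  have hinj : Function.Injective (fun m : K => m * m) := by
    intro m m' h
    have h' : (m : Matrix ι ι F) * m = (m' : Matrix ι ι F) * m' := congrArg Subtype.val h
    by_contra hne
    have hd : (m : Matrix ι ι F) - m' ≠ 0 := fun h0 => hne (Subtype.ext (sub_eq_zero.mp h0))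
    obtain ⟨y, _, hy⟩ := hinv _ (K.sub_mem m.2 m'.2) hd
    have hsq : ((m : Matrix ι ι F) - m') * ((m : Matrix ι ι F) - m') = 0 := by
      have h3 : ((m : Matrix ι ι F) - m') * ((m : Matrix ι ι F) - m') =
          (2 : F) • ((m : Matrix ι ι F) * m - (m : Matrix ι ι F) * m') := by
        rw [sub_mul, mul_sub, mul_sub, hcomm m' m'.2 m m.2, ← h', two_smul]
        abel
      rw [h3, h2, zero_smul]
    apply hd
    calc (m : Matrix ι ι F) - m' = ((m : Matrix ι ι F) - m') * (((m : Matrix ι ι F) - m') * y) := by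
          rw [hy, mul_one]
      _ = 0 := by rw [← mul_assoc, hsq, zero_mul]
  obtain ⟨m, hm⟩ := Finite.surjective_of_injective hinj ⟨k, hk⟩
  exact ⟨m, m.2, congrArg Subtype.val hm⟩

/-- [field] adjoint-closed normalised field strictly containing the scalars. -/
theorem sp_field [Fintype F] [Nonempty ι] (hf : IsSymplecticForm f)
    (hH : FixesForm (matrixSet H) f)
    (hirr : ActsIrreducibly (matrixSet H)) {K : Subalgebra F (Matrix ι ι F)} (hK : NzA H K)
    (hcomm : ∀ x ∈ K, ∀ y ∈ K, x * y = y * x) (hinv : ∀ x ∈ K, x ≠ 0 → ∃ y ∈ K, x * y = 1)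
    (hadj : IsAdjointClosedFor f K) (hne : ∃ x ∈ K, ∀ c : F, x ≠ c • (1 : Matrix ι ι F)) :
    AltFieldSA f H ∨ AltFieldU f H := by
  classical
  have hb := hf.bilinear
  have hnd := hf.nondegenerate
  let K₀ : Subalgebra F (Matrix ι ι F) :=
    { carrier := {x | x ∈ K ∧ IsAdj f x x}
      mul_mem' := by
        rintro a b ⟨ha, ha'⟩ ⟨hb', hb''⟩
        refine ⟨K.mul_mem ha hb', ?_⟩
        have := ha'.mul hb''
        rwa [hcomm b hb' a ha] at this
      add_mem' := by
        rintro a b ⟨ha, ha'⟩ ⟨hb', hb''⟩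
        exact ⟨K.add_mem ha hb', ha'.add hb hb''⟩
      algebraMap_mem' := by
        intro c
        refine ⟨K.algebraMap_mem c, ?_⟩
        rw [Algebra.algebraMap_eq_smul_one]
        exact IsAdj.scalar hb c }
  have hmem₀ : ∀ x, x ∈ K₀ ↔ x ∈ K ∧ IsAdj f x x := fun x => Iff.rfl
  by_cases hK₀ : ∃ x ∈ K₀, ∀ c : F, x ≠ c • (1 : Matrix ι ι F)
  · left
    have hNz : NzA H K₀ := fun h hh a ha => ⟨hK h hh a ha.1, ha.2.conj (fixes_apply hH hh)⟩
    have hinv₀ : ∀ x ∈ K₀, x ≠ 0 → ∃ y ∈ K₀, x * y = 1 := by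
      intro x hx hx0
      obtain ⟨y, hy, hxy⟩ := hinv x hx.1 hx0
      refine ⟨y, ⟨hy, ?_⟩, hxy⟩
      obtain ⟨y', hy', hyy'⟩ := hadj y hy
      replace hyy' : IsAdj f y y' := hyy'
      have h1 : IsAdj f (x * y) (y' * x) := hx.2.mul hyy'
      rw [hxy] at h1
      have h2 : y' * x = 1 := h1.unique hb hnd IsAdj.one
      have h3 : y' = y := by
        calc y' = y' * (x * y) := by rw [hxy, mul_one]
          _ = (y' * x) * y := by rw [mul_assoc]
          _ = y := by rw [h2, one_mul]
      rw [h3] at hyy'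
      exact hyy'
    obtain ⟨r, K', hr, hK', hle, hnorm⟩ := field_c3' hNz
      (fun x hx y hy => hcomm x hx.1 y hy.1) hinv₀ hK₀
    refine ⟨r, K', hr, hK', fun k hk => (hle hk).2, ?_, NzA_le_subalgebraNormalizer hnorm⟩
    intro k hk v
    by_cases h2 : (2 : F) = 0
    · obtain ⟨m, hm, rfl⟩ := exists_sq h2 hK'.comm hK'.inv hk
      rw [← Matrix.mulVec_mulVec, (hle hm).2]
      exact hf.alternating _
    · have h1 : f (k *ᵥ v) v = f v (k *ᵥ v) := (hle hk).2 v v
      have h3 := hf.skew v (k *ᵥ v)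
      have h4 : (2 : F) * f (k *ᵥ v) v = 0 := by linear_combination h1 + h3
      rcases mul_eq_zero.mp h4 with h5 | h5
      · exact absurd h5 h2
      · exact h5
  · right
    push Not at hK₀
    obtain ⟨θ, hθ, hθne⟩ := hne
    obtain ⟨θ', hθ', hθθ'⟩ := hadj θ hθ
    replace hθθ' : IsAdj f θ θ' := hθθ'
    have hnsa : ¬ IsAdj f θ θ := by
      intro h
      obtain ⟨c, hc⟩ := hK₀ θ ⟨hθ, h⟩
      exact hθne c hc
    set a := θ - θ' with ha
    have haK : a ∈ K := K.sub_mem hθ hθ'
    have haadj : IsAdj f a (-a) := by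
      have := hθθ'.sub hb (hθθ'.symm hf)
      rwa [show θ' - θ = -a by rw [ha]; abel] at this
    have ha0 : a ≠ 0 := by
      intro h0
      have : θ = θ' := sub_eq_zero.mp h0
      rw [← this] at hθθ'
      exact hnsa hθθ'
    obtain ⟨y, hy, hay⟩ := hinv a haK ha0
    obtain ⟨c₀, hc₀⟩ := hK₀ (a * a) ⟨K.mul_mem haK haK, by
      have := haadj.mul haadj
      rwa [neg_mul_neg] at this⟩
    have hc₀0 : c₀ ≠ 0 := by
      rintro rfl
      rw [zero_smul] at hc₀
      apply ha0
      calc a = a * (a * y) := by rw [hay, mul_one]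
        _ = 0 := by rw [← mul_assoc, hc₀, zero_mul]
    have hspan : ∀ x ∈ K, ∃ μ l : F, x = μ • (1 : Matrix ι ι F) + l • θ := by
      intro x hx
      obtain ⟨x', hx', hxx'⟩ := hadj x hx
      replace hxx' : IsAdj f x x' := hxx'
      set b := x - x' with hbdef
      have hbK : b ∈ K := K.sub_mem hx hx'
      have hbadj : IsAdj f b (-b) := by
        have := hxx'.sub hb (hxx'.symm hf)
        rwa [show x' - x = -b by rw [hbdef]; abel] at this
      obtain ⟨c, hc⟩ := hK₀ (a * b) ⟨K.mul_mem haK hbK, by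
        have := haadj.mul hbadj
        rwa [neg_mul_neg, hcomm b hbK a haK] at this⟩
      have hbl : b = (c / c₀) • a := by
        have h1 : a * (b - (c / c₀) • a) = 0 := by
          rw [mul_sub, mul_smul_comm, hc, hc₀, smul_smul, div_mul_cancel₀ _ hc₀0, sub_self]
        have hya : y * a = 1 := by rw [hcomm y hy a haK, hay]
        have h2 : b - (c / c₀) • a = 0 := by
          calc b - (c / c₀) • a = (y * a) * (b - (c / c₀) • a) := by rw [hya, one_mul]
            _ = 0 := by rw [mul_assoc, h1, mul_zero]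
        exact sub_eq_zero.mp h2
      have hz : x - (c / c₀) • θ = x' - (c / c₀) • θ' := by
        have h3 : x - x' = (c / c₀) • (θ - θ') := hbl
        rw [smul_sub] at h3
        rw [sub_eq_sub_iff_add_eq_add]
        have := sub_eq_iff_eq_add.mp h3
        rw [this]
        abel
      obtain ⟨μ, hμ⟩ := hK₀ (x - (c / c₀) • θ) ⟨K.sub_mem hx (K.smul_mem hθ _), by
        have := hxx'.sub hb (hθθ'.smul hb (c / c₀))
        rwa [← hz] at this⟩
      exact ⟨μ, c / c₀, by rw [← hμ]; abel⟩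
    refine ⟨K, ⟨hcomm, hinv, ?_⟩, hadj, fun h => hnsa (h θ hθ), NzA_le_subalgebraNormalizer hK⟩
    have hsp : Subalgebra.toSubmodule K =
        Submodule.span F (Set.range ![(1 : Matrix ι ι F), θ]) := by
      ext M
      rw [Subalgebra.mem_toSubmodule, Matrix.range_cons, Matrix.range_cons,
        Matrix.range_empty, Set.union_empty, Set.singleton_union, Submodule.mem_span_pair]
      constructor
      · intro hM
        obtain ⟨μ, l, h⟩ := hspan M hM
        exact ⟨μ, l, h.symm⟩
      · rintro ⟨μ, l, rfl⟩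
        exact K.add_mem (K.smul_mem K.one_mem _) (K.smul_mem hθ _)
    have hli : LinearIndependent F ![(1 : Matrix ι ι F), θ] := by
      rw [LinearIndependent.pair_iff]
      intro s t hst
      have ht : t = 0 := by
        by_contra ht
        apply hθne (-(s / t))
        have h1 : t • θ = -(s • (1 : Matrix ι ι F)) := eq_neg_of_add_eq_zero_right hst
        calc θ = t⁻¹ • (t • θ) := by rw [smul_smul, inv_mul_cancel₀ ht, one_smul]
          _ = -(s / t) • (1 : Matrix ι ι F) := by
            rw [h1, smul_neg, smul_smul, neg_smul, div_eq_inv_mul]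
      subst ht
      rw [zero_smul, add_zero] at hst
      refine ⟨?_, rfl⟩
      by_contra hs
      obtain ⟨i⟩ := ‹Nonempty ι›
      have := congrFun (congrFun hst i) i
      simp [hs] at this
    have := finrank_span_eq_card hli
    rw [← hsp] at this
    simpa using this

end Cfsg.Agent.Lib.Helper12SpField
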