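import Cfsg.Agent.Lib.Helper96SpDefs
import Cfsg.Agent.Lib.Helper96GTensnorm

set_option autoImplicit false

/-! Piece `tensform` of the ASCH-SP project. -/

namespace Cfsg.Agent.Lib.Helper12SpTensform

open Cfsg Cfsg.Geo Matrix
open Cfsg.Agent.Lib.Helper97GBase Cfsg.Agent.Lib.Helper97GForms
  Cfsg.Agent.Lib.Helper98AschGDefs Cfsg.Agent.Lib.Helper98AschGBasic Cfsg.Agent.Lib.Helper96SpDefs
open scoped MatrixGroups Kronecker

variable {ι : Type} [Fintype ι] [DecidableEq ι] {F : Type*} [Field F]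
variable {f : (ι → F) → (ι → F) → F}

/-- uniqueness of the factors of a nonzero Kronecker product -/
lemma kron_unique {κ₁ κ₂ : Type*} {X X' : Matrix κ₁ κ₁ F} {Y Y' : Matrix κ₂ κ₂ F}
    (hX : X ≠ 0) (hY : Y ≠ 0) (h : X' ⊗ₖ Y' = X ⊗ₖ Y) :
    ∃ c : F, c ≠ 0 ∧ X' = c • X ∧ Y' = c⁻¹ • Y := by
  obtain ⟨i, j, hij⟩ : ∃ i j, X i j ≠ 0 := by
    by_contra hcon
    push Not at hcon
    exact hX (by ext i j; exact hcon i j)
  obtain ⟨k, l, hkl⟩ : ∃ k l, Y k l ≠ 0 := by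
    by_contra hcon
    push Not at hcon
    exact hY (by ext i j; exact hcon i j)
  have hent : ∀ p q r t, X' p q * Y' r t = X p q * Y r t := by
    intro p q r t
    have := congrFun (congrFun h (p, r)) (q, t)
    simpa [Matrix.kroneckerMap_apply] using this
  have h0 := hent i j k l
  have hX' : X' i j ≠ 0 := by
    intro h1
    rw [h1, zero_mul] at h0
    exact mul_ne_zero hij hkl h0.symm
  have hY' : Y' k l ≠ 0 := by
    intro h1
    rw [h1, mul_zero] at h0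
    exact mul_ne_zero hij hkl h0.symm
  refine ⟨Y k l / Y' k l, div_ne_zero hkl hY', ?_, ?_⟩
  · ext p q
    have := hent p q k l
    rw [Matrix.smul_apply, smul_eq_mul]
    field_simp
    linear_combination this
  · ext r t
    have := hent i j r t
    rw [Matrix.smul_apply, smul_eq_mul, inv_div]
    have h3 : Y' k l / Y k l = X i j / X' i j := by
      field_simp
      linear_combination h0
    rw [h3]
    field_simp
    linear_combination this

lemma ne_zero_of_isUnit_det {κ : Type*} [Fintype κ] [DecidableEq κ] [Nonempty κ] {G : Matrix κ κ F}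
    (h : IsUnit G.det) : G ≠ 0 := by
  rintro rfl
  rw [Matrix.det_zero] at h
  exact not_isUnit_zero h

/-- [tensform] an isometry `a ⊗ b` of `G₁ ⊗ G₂` consists of similarities of the factors. -/
theorem tens_form_sim {d s : ℕ} (hd : 0 < d) (hs : 0 < s) (G₁ : Matrix (Fin d) (Fin d) F)
    (G₂ : Matrix (Fin s) (Fin s) F)
    (h₁ : IsUnit G₁.det) (h₂ : IsUnit G₂.det) (a : Matrix (Fin d) (Fin d) F)
    (b : Matrix (Fin s) (Fin s) F)
    (h : (aᵀ * G₁ * a) ⊗ₖ (bᵀ * G₂ * b) = G₁ ⊗ₖ G₂) :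
    ∃ c : F, c ≠ 0 ∧ aᵀ * G₁ * a = c • G₁ ∧ bᵀ * G₂ * b = c⁻¹ • G₂ := by
  have : Nonempty (Fin d) := ⟨⟨0, hd⟩⟩
  have : Nonempty (Fin s) := ⟨⟨0, hs⟩⟩
  exact kron_unique (ne_zero_of_isUnit_det h₁) (ne_zero_of_isUnit_det h₂) h

lemma formOfGram_single {κ : Type} [Fintype κ] [DecidableEq κ] (G : Matrix κ κ F) (p q : κ) :
    formOfGram id G (Pi.single p 1) (Pi.single q 1) = G p q := by
  unfold formOfGram
  simp [Pi.single_apply]

/-- [tensform] symmetry types of the two factors of a skew-symmetric tensor product form. -/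
theorem tens_form_skew [Nonempty ι] (hskew : ∀ u v, f u v = - f v u) {d s : ℕ}
    (e : ι ≃ Fin d × Fin s) (P : GL ι F)
    (G₁ : Matrix (Fin d) (Fin d) F) (G₂ : Matrix (Fin s) (Fin s) F) (h₁ : IsUnit G₁.det)
    (h₂ : IsUnit G₂.det)
    (hG : ∀ x y : Fin d × Fin s → F,
      f ((P : Matrix ι ι F) *ᵥ (x ∘ e)) ((P : Matrix ι ι F) *ᵥ (y ∘ e)) =
        formOfGram id (G₁ ⊗ₖ G₂) x y) :
    (G₁ᵀ = -G₁ ∧ G₂ᵀ = G₂) ∨ (G₁ᵀ = G₁ ∧ G₂ᵀ = -G₂) := by
  obtain ⟨i₀⟩ := ‹Nonempty ι›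
  have : Nonempty (Fin d) := ⟨(e i₀).1⟩
  have : Nonempty (Fin s) := ⟨(e i₀).2⟩
  have hB : G₁ᵀ ⊗ₖ (-G₂ᵀ) = G₁ ⊗ₖ G₂ := by
    ext ⟨p, r⟩ ⟨q, t⟩
    have h1 := hG (Pi.single (p, r) 1) (Pi.single (q, t) 1)
    have h2 := hG (Pi.single (q, t) 1) (Pi.single (p, r) 1)
    rw [formOfGram_single] at h1 h2
    rw [hskew, h2] at h1
    simp only [Matrix.kroneckerMap_apply, Matrix.transpose_apply, Matrix.neg_apply] at h1 ⊢
    linear_combination h1
  have hG₁ := ne_zero_of_isUnit_det h₁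
  obtain ⟨c, hc, hc1, hc2⟩ := kron_unique hG₁ (ne_zero_of_isUnit_det h₂) hB
  have hcc : c * c = 1 := by
    have h3 : G₁ = (c * c) • G₁ := by
      have := congrArg Matrix.transpose hc1
      rw [Matrix.transpose_transpose, Matrix.transpose_smul, hc1, smul_smul] at this
      exact this
    obtain ⟨i, j, hij⟩ : ∃ i j, G₁ i j ≠ 0 := by
      by_contra hcon
      push Not at hcon
      exact hG₁ (by ext i j; exact hcon i j)
    have h4 := congrFun (congrFun h3 i) j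
    rw [Matrix.smul_apply, smul_eq_mul] at h4
    have h5 : (c * c - 1) * G₁ i j = 0 := by linear_combination (-1 : F) * h4
    rcases mul_eq_zero.mp h5 with h6 | h6
    · exact sub_eq_zero.mp h6
    · exact absurd h6 hij
  have hc' : c = 1 ∨ c = -1 := by
    have : (c - 1) * (c + 1) = 0 := by linear_combination hcc
    rcases mul_eq_zero.mp this with h | h
    · exact Or.inl (sub_eq_zero.mp h)
    · exact Or.inr (eq_neg_of_add_eq_zero_left h)
  rcases hc' with rfl | rfl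
  · right
    refine ⟨by simpa using hc1, ?_⟩
    have : -G₂ᵀ = G₂ := by simpa using hc2
    exact neg_eq_iff_eq_neg.mp this
  · left
    refine ⟨by simpa using hc1, ?_⟩
    have : -G₂ᵀ = -G₂ := by
      rw [hc2]
      simp [inv_neg]
    exact neg_injective this

lemma eq_of_forall_dot {M N : Matrix ι ι F}
    (h : ∀ u v : ι → F, u ⬝ᵥ (M *ᵥ v) = u ⬝ᵥ (N *ᵥ v)) : M = N := by
  ext i j
  have := h (Pi.single i 1) (Pi.single j 1)
  simpa using this

omit [DecidableEq ι] in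
lemma mulVec_dot (A : Matrix ι ι F) (u w : ι → F) : (A *ᵥ u) ⬝ᵥ w = u ⬝ᵥ (Aᵀ *ᵥ w) := by
  rw [Matrix.dotProduct_mulVec, Matrix.vecMul_transpose]

/-- matrix form of the adjoint relation -/
lemma isAdj_gram (hf : IsBilinearForm f) {A A' : Matrix ι ι F} (h : IsAdj f A A') :
    Aᵀ * gram f = gram f * A' := by
  have hS := sesq_of_bilinear hf
  apply eq_of_forall_dot
  intro u v
  have h1 := h u v
  rw [hS.eq_gram, hS.eq_gram, mulVec_dot] at h1
  simpa [Matrix.mulVec_mulVec] using h1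

lemma tens_one_eq {κ₁ κ₂ : Type} [Fintype κ₁] [Fintype κ₂] [DecidableEq κ₁] [DecidableEq κ₂]
    (e : ι ≃ κ₁ × κ₂) (a : Matrix κ₁ κ₁ F) (b : Matrix κ₂ κ₂ F) :
    tens e (1 : GL ι F) a b = Matrix.reindex e.symm e.symm (a ⊗ₖ b) := by
  unfold tens
  simp

/-- [tensform] if `M_d ⊗ 1` is closed under adjoints, the form is a tensor product of two forms. -/
theorem tens_form (hf : IsBilinearForm f) (hnd : IsNondegenerateForm f) {d s : ℕ}
    (e : ι ≃ Fin d × Fin s) (P : GL ι F)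
    (hadj : ∀ a : Matrix (Fin d) (Fin d) F, ∃ a' : Matrix (Fin d) (Fin d) F,
      IsAdj f (tens e P a 1) (tens e P a' 1)) :
    ∃ (G₁ : Matrix (Fin d) (Fin d) F) (G₂ : Matrix (Fin s) (Fin s) F), IsUnit G₁.det ∧
      IsUnit G₂.det ∧
      ∀ x y : Fin d × Fin s → F,
        f ((P : Matrix ι ι F) *ᵥ (x ∘ e)) ((P : Matrix ι ι F) *ᵥ (y ∘ e)) =
        formOfGram id (G₁ ⊗ₖ G₂) x y := by
  classical
  have hS := sesq_of_bilinear hf
  have hΓ : ∀ u v, f u v = u ⬝ᵥ (gram f *ᵥ v) := fun u v => by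
    have := hS.eq_gram u v
    simpa using this
  have hΓu : IsUnit (gram f).det := hS.isUnit_det_gram (fun v hv => (hnd v hv).1)
  have hPu : IsUnit (P : Matrix ι ι F).det := by
    rw [← Matrix.isUnit_iff_isUnit_det]
    exact P.isUnit
  set B : Matrix ι ι F := (P : Matrix ι ι F)ᵀ * gram f * (P : Matrix ι ι F) with hB
  have hBu : IsUnit B.det := by
    rw [hB, Matrix.det_mul, Matrix.det_mul, Matrix.det_transpose]
    exact (hPu.mul hΓu).mul hPu
  obtain ⟨Bg, hBg⟩ : ∃ Bg : GL ι F, (Bg : Matrix ι ι F) = B :=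
    ⟨((Matrix.isUnit_iff_isUnit_det B).mpr hBu).unit, rfl⟩
  have key : ∀ a : Matrix (Fin d) (Fin d) F, ∃ a' : Matrix (Fin d) (Fin d) F,
      Matrix.reindex e.symm e.symm (a ⊗ₖ (1 : Matrix (Fin s) (Fin s) F)) * B =
        B * Matrix.reindex e.symm e.symm (a' ⊗ₖ (1 : Matrix (Fin s) (Fin s) F)) := by
    intro a
    obtain ⟨a', ha'⟩ := hadj aᵀ
    refine ⟨a', ?_⟩
    have h1 := isAdj_gram hf ha'
    unfold tens at h1
    have hT : (Matrix.reindex e.symm e.symm (aᵀ ⊗ₖ (1 : Matrix (Fin s) (Fin s) F)))ᵀ =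
        Matrix.reindex e.symm e.symm (a ⊗ₖ (1 : Matrix (Fin s) (Fin s) F)) := by
      ext i j
      simp [Matrix.kroneckerMap_apply, Matrix.one_apply, eq_comm]
    rw [Matrix.transpose_mul, Matrix.transpose_mul, hT] at h1
    have h2 : (P : Matrix ι ι F)ᵀ * ((P⁻¹ : GL ι F) : Matrix ι ι F)ᵀ = 1 := by
      rw [← Matrix.transpose_mul, vi, Matrix.transpose_one]
    have h3 := congrArg (fun M => (P : Matrix ι ι F)ᵀ * M * (P : Matrix ι ι F)) h1
    simp only [] at h3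
    calc Matrix.reindex e.symm e.symm (a ⊗ₖ (1 : Matrix (Fin s) (Fin s) F)) * B
        = ((P : Matrix ι ι F)ᵀ * ((P⁻¹ : GL ι F) : Matrix ι ι F)ᵀ) *
          Matrix.reindex e.symm e.symm (a ⊗ₖ (1 : Matrix (Fin s) (Fin s) F)) * B := by
          rw [h2, one_mul]
      _ = (P : Matrix ι ι F)ᵀ * (((P⁻¹ : GL ι F) : Matrix ι ι F)ᵀ *
          (Matrix.reindex e.symm e.symm (a ⊗ₖ (1 : Matrix (Fin s) (Fin s) F)) *
            (P : Matrix ι ι F)ᵀ) * gram f) * (P : Matrix ι ι F) := by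
          rw [hB]; simp only [mul_assoc]
      _ = (P : Matrix ι ι F)ᵀ * (gram f * ((P : Matrix ι ι F) *
          Matrix.reindex e.symm e.symm (a' ⊗ₖ (1 : Matrix (Fin s) (Fin s) F)) *
            ((P⁻¹ : GL ι F) : Matrix ι ι F))) * (P : Matrix ι ι F) := h3
      _ = B * Matrix.reindex e.symm e.symm (a' ⊗ₖ (1 : Matrix (Fin s) (Fin s) F)) *
          (((P⁻¹ : GL ι F) : Matrix ι ι F) * (P : Matrix ι ι F)) := by
          rw [hB]; simp only [mul_assoc]
      _ = _ := by rw [vi, mul_one]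
  have hmem : Bg⁻¹ ∈ tensorProductSubgroup d s e (1 : GL ι F) := by
    apply Cfsg.Agent.Lib.Helper96GTensnorm.mem_tensorProductSubgroup_of_normalizes
    intro a
    obtain ⟨a', ha'⟩ := key a
    refine ⟨a', ?_⟩
    rw [tens_one_eq, tens_one_eq, inv_inv, hBg, mul_assoc, ha', ← mul_assoc, ← hBg, vi, one_mul]
  obtain ⟨x, y, hxy⟩ := (mem_tensorProductSubgroup_iff e 1 Bg⁻¹).mp hmem
  have hBeq : B = Matrix.reindex e.symm e.symm
      (((x⁻¹ : GL (Fin d) F) : Matrix (Fin d) (Fin d) F) ⊗ₖ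
        ((y⁻¹ : GL (Fin s) F) : Matrix (Fin s) (Fin s) F)) := by
    rw [← tens_one_eq, ← hBg]
    have := Units.inv_eq_of_mul_eq_one_right (u := Bg⁻¹)
      (a := tens e (1 : GL ι F) ((x⁻¹ : GL (Fin d) F) : Matrix (Fin d) (Fin d) F)
        ((y⁻¹ : GL (Fin s) F) : Matrix (Fin s) (Fin s) F)) (by
        rw [hxy, tens_mul, ← Units.val_mul, ← Units.val_mul, mul_inv_cancel, mul_inv_cancel,
          Units.val_one, Units.val_one, tens_one])
    rwa [inv_inv] at this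
  refine ⟨((x⁻¹ : GL (Fin d) F) : Matrix (Fin d) (Fin d) F),
    ((y⁻¹ : GL (Fin s) F) : Matrix (Fin s) (Fin s) F), ?_, ?_, ?_⟩
  · rw [← Matrix.isUnit_iff_isUnit_det]
    exact (x⁻¹).isUnit
  · rw [← Matrix.isUnit_iff_isUnit_det]
    exact (y⁻¹).isUnit
  · intro u v
    rw [hΓ, mulVec_dot, Matrix.mulVec_mulVec, Matrix.mulVec_mulVec, ← hB, hBeq]
    unfold formOfGram
    simp only [dotProduct, Matrix.mulVec, Matrix.reindex_apply, Matrix.submatrix_apply,
      Equiv.symm_symm, Function.comp_apply, id]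
    rw [← Equiv.sum_comp e]
    refine Finset.sum_congr rfl fun i _ => ?_
    rw [Finset.mul_sum, ← Equiv.sum_comp e]
    refine Finset.sum_congr rfl fun j _ => ?_
    ring

end Cfsg.Agent.Lib.Helper12SpTensform
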