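import Cfsg.Agent.S0528
import Cfsg.Agent.S0065
import Cfsg.Agent.Lib.Helper12Card

set_option autoImplicit false
open Pointwise

namespace Cfsg.Agent.Lib.Helper12Super

open Cfsg.Agent.Lib.Helper11Supersolvable Cfsg.Agent.Lib.Helper12Card

universe u

theorem exists_cyclic_normal_le {K : Type*} [Group K] (Z : Subgroup K) [Z.Normal]
    {A : Subgroup K} (hA : Chain A) (hne : A ⊓ Z ≠ ⊥) :
    ∃ C : Subgroup K, C.Normal ∧ C ≤ Z ∧ C ≠ ⊥ ∧ IsCyclic C := by
  induction hA with
  | bot => simp at hne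
  | step A g hA hn ih =>
    by_cases h : A ⊓ Z = ⊥
    · refine ⟨(A ⊔ Subgroup.zpowers g) ⊓ Z, inferInstance, inf_le_right, hne, ?_⟩
      have hAn := hA.normal
      have hmem : ∀ x : ((A ⊔ Subgroup.zpowers g) ⊓ Z : Subgroup K),
          ((QuotientGroup.mk' A).comp ((A ⊔ Subgroup.zpowers g) ⊓ Z : Subgroup K).subtype) x ∈
            Subgroup.zpowers (QuotientGroup.mk' A g) := by
        intro x
        have h1 : QuotientGroup.mk' A (x : K) ∈ (A ⊔ Subgroup.zpowers g).map (QuotientGroup.mk' A) :=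
          ⟨x, x.2.1, rfl⟩
        rw [Subgroup.map_sup, MonoidHom.map_zpowers] at h1
        have hAb : A.map (QuotientGroup.mk' A) = ⊥ := by
          rw [Subgroup.map_eq_bot_iff, QuotientGroup.ker_mk']
        rwa [hAb, bot_sup_eq] at h1
      have hinj : Function.Injective (((QuotientGroup.mk' A).comp
          ((A ⊔ Subgroup.zpowers g) ⊓ Z : Subgroup K).subtype).codRestrict _ hmem) := by
        rw [injective_iff_map_eq_one]
        intro x hx
        have h1 : QuotientGroup.mk' A (x : K) = 1 := congrArg Subtype.val hx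
        have h2 : (x : K) ∈ A := (QuotientGroup.eq_one_iff _).mp h1
        have h3 : (x : K) ∈ A ⊓ Z := ⟨h2, x.2.2⟩
        rw [h, Subgroup.mem_bot] at h3
        exact Subtype.ext h3
      exact isCyclic_of_injective _ hinj
    · exact ih h

theorem exists_normal_prime_le {K : Type*} [Group K] [Finite K] (hK : Cfsg.IsSupersolvable K)
    (Z : Subgroup K) [Z.Normal] (hZ : Z ≠ ⊥) :
    ∃ N : Subgroup K, N.Normal ∧ N ≤ Z ∧ (Nat.card N).Prime := by
  rw [isSupersolvable_iff] at hK
  obtain ⟨C, hCn, hCZ, hCne, hCc⟩ := exists_cyclic_normal_le Z hK (by rwa [top_inf_eq])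
  obtain ⟨g, hg⟩ := (Subgroup.isCyclic_iff_exists_zpowers_eq_top C).mp hCc
  have hg1 : g ≠ 1 := by
    rintro rfl
    apply hCne
    rw [← hg]; simp
  have hgn : (Subgroup.zpowers g).Normal := hg ▸ hCn
  have hn1 : orderOf g ≠ 1 := by rwa [Ne, orderOf_eq_one_iff]
  have hn0 : orderOf g ≠ 0 := (orderOf_pos g).ne'
  have hpp : ((orderOf g).minFac).Prime := Nat.minFac_prime hn1
  have hpd : (orderOf g).minFac ∣ orderOf g := Nat.minFac_dvd _
  refine ⟨Subgroup.zpowers (g ^ (orderOf g / (orderOf g).minFac)), ⟨?_⟩, ?_, ?_⟩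
  · intro x hx u
    obtain ⟨k, rfl⟩ := hx
    obtain ⟨j, hj⟩ := hgn.conj_mem g (Subgroup.mem_zpowers g) u
    simp only at hj ⊢
    refine ⟨j * k, ?_⟩
    simp only
    rw [← zpow_natCast, ← zpow_mul, ← zpow_mul, ← conj_zpow, ← hj, ← zpow_mul]
    congr 1
    ring
  · refine le_trans ?_ hCZ
    rw [← hg, Subgroup.zpowers_le]
    exact Subgroup.pow_mem _ (Subgroup.mem_zpowers g) _
  · rw [Nat.card_zpowers, orderOf_pow_orderOf_div hn0 hpd]
    exact hpp

theorem isSupersolvable_of_subsingleton (G : Type*) [Group G] [Subsingleton G] :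
    Cfsg.IsSupersolvable G := by
  rw [isSupersolvable_iff, Subsingleton.elim (⊤ : Subgroup G) ⊥]
  exact Chain.bot

theorem of_normal_prime_card {G : Type*} [Group G] [Finite G] (N : Subgroup G) [N.Normal]
    (hN : (Nat.card N).Prime) (h : Cfsg.IsSupersolvable (G ⧸ N)) : Cfsg.IsSupersolvable G := by
  have : Fact (Nat.card N).Prime := ⟨hN⟩
  have : IsCyclic N := isCyclic_of_prime_card rfl
  exact Cfsg.Agent.S0528.result N h

theorem card_quotient_lt {G : Type*} [Group G] [Finite G] (N : Subgroup G) (hN : N ≠ ⊥) :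
    Nat.card (G ⧸ N) < Nat.card G := by
  rw [Subgroup.card_eq_card_quotient_mul_card_subgroup N]
  have h1 : 0 < Nat.card (G ⧸ N) := Nat.card_pos
  have h2 : 1 < Nat.card N := (Subgroup.one_lt_card_iff_ne_bot N).mpr hN
  nlinarith

theorem ne_bot_of_prime_card {G : Type*} [Group G] (N : Subgroup G) (hN : (Nat.card N).Prime) :
    N ≠ ⊥ := by
  rintro rfl
  simp at hN
  exact Nat.not_prime_one hN

/-- key lemma: `G = P K`, `P` a normal `p`-subgroup, `K` supersolvable, `P₁ ≤ P ⊓ K` normal in `G`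
with `P / P₁` cyclic. -/
theorem of_factorization (k : ℕ) : ∀ (G : Type u) [Group G] [Finite G], Nat.card G = k →
    ∀ (p : ℕ) [Fact p.Prime] (P K P₁ : Subgroup G) [P.Normal] [P₁.Normal], IsPGroup p P →
    Cfsg.IsSupersolvable K → P ⊔ K = ⊤ → P₁ ≤ P → P₁ ≤ K →
    (∃ g : G, P = P₁ ⊔ Subgroup.zpowers g) → Cfsg.IsSupersolvable G := by
  induction k using Nat.strong_induction_on with
  | _ k ih =>
  intro G _ _ hG p _ P K P₁ _ _ hP hK hPK hP₁P hP₁K hg
  by_cases hbot : P₁ = ⊥
  · obtain ⟨g, hg⟩ := hg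
    rw [hbot, bot_sup_eq] at hg
    have : IsCyclic P := by rw [hg]; infer_instance
    apply Cfsg.Agent.S0528.result P
    apply of_surjective ((QuotientGroup.mk' P).comp K.subtype) _ hK
    intro x
    obtain ⟨x, rfl⟩ := QuotientGroup.mk'_surjective P x
    have hx : x ∈ P ⊔ K := by rw [hPK]; trivial
    rw [← SetLike.mem_coe, Subgroup.normal_mul] at hx
    obtain ⟨a, ha, b, hb, rfl⟩ := hx
    refine ⟨⟨b, hb⟩, ?_⟩
    have h1 : QuotientGroup.mk' P a = 1 := (QuotientGroup.eq_one_iff a).mpr ha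
    simp only [MonoidHom.comp_apply, Subgroup.subtype_apply, map_mul, h1, one_mul]
  · -- a nontrivial element of P₁ central in P
    have hnil : Group.IsNilpotent P := hP.isNilpotent
    have hne : P₁.subgroupOf P ≠ ⊥ := by
      intro h
      apply hbot
      rw [Subgroup.subgroupOf_eq_bot, disjoint_iff, inf_of_le_left hP₁P] at h
      exact h
    have hcen := Cfsg.Agent.S0065.result (P₁.subgroupOf P) hne
    have hZne : P₁ ⊓ Subgroup.centralizer (P : Set G) ≠ ⊥ := by
      intro h
      apply hcen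
      rw [eq_bot_iff]
      intro x hx
      have h1 : (x : G) ∈ P₁ ⊓ Subgroup.centralizer (P : Set G) := by
        refine ⟨hx.1, ?_⟩
        change (x : G) ∈ Subgroup.centralizer (P : Set G)
        rw [Subgroup.mem_centralizer_iff]
        intro y hy
        have := Subgroup.mem_center_iff.mp hx.2 ⟨y, hy⟩
        exact congrArg Subtype.val this
      rw [h, Subgroup.mem_bot] at h1
      rw [Subgroup.mem_bot]
      exact Subtype.ext h1
    -- pass to K
    have hZK : P₁ ⊓ Subgroup.centralizer (P : Set G) ≤ K := inf_le_left.trans hP₁K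
    have hZne' : (P₁ ⊓ Subgroup.centralizer (P : Set G)).subgroupOf K ≠ ⊥ := by
      intro h
      apply hZne
      rw [Subgroup.subgroupOf_eq_bot, disjoint_iff, inf_of_le_left hZK] at h
      exact h
    obtain ⟨N', hN'n, hN'le, hN'p⟩ := exists_normal_prime_le hK _ hZne'
    have hNcard : (Nat.card (N'.map K.subtype)).Prime := by
      rw [Subgroup.card_map_of_injective K.subtype_injective]; exact hN'p
    have hNle : N'.map K.subtype ≤ P₁ ⊓ Subgroup.centralizer (P : Set G) := by
      rintro _ ⟨x, hx, rfl⟩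
      exact hN'le hx
    have hNn : (N'.map K.subtype).Normal := by
      constructor
      intro n hn x
      have hx : x ∈ P ⊔ K := by rw [hPK]; trivial
      rw [sup_comm, ← SetLike.mem_coe, Subgroup.mul_normal] at hx
      obtain ⟨b, hb, a, ha, rfl⟩ := hx
      have hc : a * n = n * a := Subgroup.mem_centralizer_iff.mp (hNle hn).2 a ha
      have e : b * a * n * (b * a)⁻¹ = b * n * b⁻¹ := by
        rw [mul_assoc b a n, hc]; group
      rw [e]
      obtain ⟨n', hn', rfl⟩ := hn
      exact ⟨⟨b, hb⟩ * n' * ⟨b, hb⟩⁻¹, hN'n.conj_mem n' hn' ⟨b, hb⟩, rfl⟩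
    apply of_normal_prime_card (N'.map K.subtype) hNcard
    have hπ := QuotientGroup.mk'_surjective (N'.map K.subtype)
    have hlt : Nat.card (G ⧸ N'.map K.subtype) < k :=
      hG ▸ card_quotient_lt _ (ne_bot_of_prime_card _ hNcard)
    have : (P.map (QuotientGroup.mk' (N'.map K.subtype))).Normal :=
      Subgroup.Normal.map inferInstance _ hπ
    have : (P₁.map (QuotientGroup.mk' (N'.map K.subtype))).Normal :=
      Subgroup.Normal.map inferInstance _ hπ
    apply ih _ hlt (G ⧸ N'.map K.subtype) rfl p (P.map (QuotientGroup.mk' (N'.map K.subtype)))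
      (K.map (QuotientGroup.mk' (N'.map K.subtype))) (P₁.map (QuotientGroup.mk' (N'.map K.subtype)))
      (hP.map _)
    · exact of_surjective ((QuotientGroup.mk' (N'.map K.subtype)).subgroupMap K)
        (MonoidHom.subgroupMap_surjective _ _) hK
    · rw [← Subgroup.map_sup, hPK, ← MonoidHom.range_eq_map, MonoidHom.range_eq_top.mpr hπ]
    · exact Subgroup.map_mono hP₁P
    · exact Subgroup.map_mono hP₁K
    · obtain ⟨g, hg⟩ := hg
      exact ⟨QuotientGroup.mk' _ g, by rw [← MonoidHom.map_zpowers, ← Subgroup.map_sup, ← hg]⟩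

end Cfsg.Agent.Lib.Helper12Super
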