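import Cfsg.Agent.Lib.Helper12Compl

set_option autoImplicit false
open Pointwise

namespace Cfsg.Agent.Lib.Helper12SysNorm

open Cfsg.Agent.Lib.Helper12Basic Cfsg.Agent.Lib.Helper12Card Cfsg.Agent.Lib.Helper12Hall
open Cfsg.Agent.Lib.Helper12Coprime Cfsg.Agent.Lib.Helper12Compl

variable {G : Type*} [Group G] [Finite G] {K : Nat.Primes → Subgroup G}

/-- The Sylow p-subgroup attached to a complement system -/
noncomputable def sylowOf (K : Nat.Primes → Subgroup G) (p : Nat.Primes) : Subgroup G :=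
  ⨅ q ∈ (primesOf G).erase p, K q

theorem sylowOf_le (p q : Nat.Primes) (hq : (q : ℕ) ∣ Nat.card G) (hqp : q ≠ p) :
    sylowOf K p ≤ K q :=
  iInf₂_le q (Finset.mem_erase.mpr ⟨hqp, (mem_primesOf q).mpr hq⟩)

theorem sylowOf_isPGroup (hK : Cfsg.IsComplementSystem K) (p : Nat.Primes) :
    IsPGroup p (sylowOf K p) := by
  apply IsPGroup.of_card (n := (Nat.card (sylowOf K p)).primeFactorsList.length)
  apply Nat.eq_prime_pow_of_unique_prime_dvd Nat.card_pos.ne'
  intro d hd hdvd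
  by_contra hne
  have h1 : (d : ℕ) ∣ Nat.card G := hdvd.trans (Subgroup.card_subgroup_dvd_card _)
  have h2 : sylowOf K p ≤ K ⟨d, hd⟩ := sylowOf_le p ⟨d, hd⟩ h1 (fun h => hne (congrArg Subtype.val h))
  have h3 : d ∣ Nat.card (K ⟨d, hd⟩) := hdvd.trans (Subgroup.card_dvd_of_le h2)
  have h4 := card_coprime hK ⟨d, hd⟩
  have h5 : d ∣ 1 := by
    have := Nat.dvd_gcd h3 (dvd_refl d)
    rwa [Nat.Coprime.gcd_eq_one h4] at this
  exact hd.one_lt.ne' (Nat.dvd_one.mp h5)

theorem sylowOf_index_coprime (hK : Cfsg.IsComplementSystem K) (p : Nat.Primes) :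
    (sylowOf K p).index.Coprime p :=
  index_biInf_coprime hK _ p (Finset.notMem_erase p _)

theorem systemNormalizer_le (p : Nat.Primes) :
    Cfsg.systemNormalizer K ≤ Subgroup.normalizer (K p : Set G) :=
  iInf_le _ p

theorem systemNormalizer_le_normalizer_sylowOf (p : Nat.Primes) :
    Cfsg.systemNormalizer K ≤ Subgroup.normalizer (sylowOf K p : Set G) := by
  rw [Subgroup.le_normalizer_iff]
  intro h hh k hk
  simp only [sylowOf, Subgroup.mem_iInf] at hk ⊢
  intro q hq
  exact (Subgroup.mem_normalizer_iff.mp (systemNormalizer_le q hh) k).mp (hk q hq)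

/-- `sylowOf K p` as a Sylow subgroup -/
noncomputable def sylowOf' (hK : Cfsg.IsComplementSystem K) (p : ℕ) [hp : Fact p.Prime] :
    Sylow p G :=
  (sylowOf_isPGroup hK ⟨p, hp.out⟩).toSylow (by
    have := sylowOf_index_coprime hK ⟨p, hp.out⟩
    rw [← Nat.Prime.coprime_iff_not_dvd hp.out]
    exact this.symm)

theorem coe_sylowOf' (hK : Cfsg.IsComplementSystem K) (p : ℕ) [hp : Fact p.Prime] :
    (sylowOf' hK p : Subgroup G) = sylowOf K ⟨p, hp.out⟩ := rfl

theorem pSubgroup_le_sylowOf (hK : Cfsg.IsComplementSystem K) (p : ℕ) [hp : Fact p.Prime]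
    (P : Subgroup G) (hP : IsPGroup p P) (hPD : P ≤ Cfsg.systemNormalizer K) :
    P ≤ sylowOf K ⟨p, hp.out⟩ := by
  have h1 := hP.inf_normalizer_sylow (sylowOf' hK p)
  have h2 : P ≤ Subgroup.normalizer ((sylowOf' hK p : Sylow p G) : Set G) :=
    hPD.trans (systemNormalizer_le_normalizer_sylowOf _)
  rw [inf_of_le_left h2] at h1
  rw [← coe_sylowOf' hK p]
  exact left_eq_inf.mp h1

theorem systemNormalizer_nilpotent (hK : Cfsg.IsComplementSystem K) :
    Group.IsNilpotent (Cfsg.systemNormalizer K) := by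
  apply ((Group.isNilpotent_of_finite_tfae (G := Cfsg.systemNormalizer K)).out 0 3 rfl rfl).mpr
  intro p hp P
  have h1 : (P : Subgroup (Cfsg.systemNormalizer K)).map (Cfsg.systemNormalizer K).subtype
      ≤ sylowOf K ⟨p, hp.out⟩ :=
    pSubgroup_le_sylowOf hK p _ (P.2.map _) (Subgroup.map_subtype_le _)
  have h2 : (P : Subgroup (Cfsg.systemNormalizer K)) ≤
      (sylowOf K ⟨p, hp.out⟩).subgroupOf (Cfsg.systemNormalizer K) :=
    Subgroup.map_le_iff_le_comap.mp h1
  have h3 : (sylowOf K ⟨p, hp.out⟩).subgroupOf (Cfsg.systemNormalizer K) = P :=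
    P.is_maximal' (sylowOf_isPGroup hK ⟨p, hp.out⟩).comap_subtype h2
  rw [← h3]
  exact Subgroup.normal_subgroupOf_of_le_normalizer (systemNormalizer_le_normalizer_sylowOf _)

end Cfsg.Agent.Lib.Helper12SysNorm
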