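import Cfsg.Agent.Lib.Helper12SysNorm

set_option autoImplicit false
open Pointwise

namespace Cfsg.Agent.Lib.Helper12SysQuot

open Cfsg.Agent.Lib.Helper12Basic Cfsg.Agent.Lib.Helper12Card Cfsg.Agent.Lib.Helper12Hall
open Cfsg.Agent.Lib.Helper12Coprime Cfsg.Agent.Lib.Helper12Compl Cfsg.Agent.Lib.Helper12SysNorm

variable {G : Type*} [Group G] [Finite G] {K : Nat.Primes → Subgroup G}

theorem map_system (hK : Cfsg.IsComplementSystem K) (N : Subgroup G) [N.Normal] :
    Cfsg.IsComplementSystem (fun p => (K p).map (QuotientGroup.mk' N)) := by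
  intro p
  rw [index_eq_iff _ p p.2]
  constructor
  · have h1 : ((K p).map (QuotientGroup.mk' N)).index ∣ (p : ℕ) ^ (Nat.card G).factorization p := by
      rw [← hK p]; exact Subgroup.index_map_dvd _ (QuotientGroup.mk'_surjective N)
    obtain ⟨j, -, hj⟩ := (Nat.dvd_prime_pow p.2).mp h1
    exact ⟨j, hj⟩
  · exact Nat.Coprime.coprime_dvd_left (Subgroup.card_map_dvd _ _) (card_coprime hK p)

theorem exists_correction [Group.IsSolvable G] (hK : Cfsg.IsComplementSystem K) (N : Subgroup G)
    [N.Normal] (x : G) (hx : ∀ p, x ∈ Subgroup.normalizer ((K p ⊔ N : Subgroup G) : Set G))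
    (T : Finset Nat.Primes) :
    ∃ n ∈ N, ∀ p ∈ T, n * x ∈ Subgroup.normalizer (K p : Set G) := by
  classical
  induction T using Finset.induction_on with
  | empty => exact ⟨1, N.one_mem, by simp⟩
  | insert q T hq ih =>
    obtain ⟨n, hn, hnT⟩ := ih
    have hy : n * x ∈ Subgroup.normalizer ((K q ⊔ N : Subgroup G) : Set G) :=
      Subgroup.mul_mem _ (Subgroup.le_normalizer ((le_sup_right : N ≤ K q ⊔ N) hn)) (hx q)
    have hK'le : MulAut.conj (n * x) • K q ≤ K q ⊔ N := by
      rw [← mem_normalizer_iff_smul.mp hy]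
      exact Subgroup.pointwise_smul_le_pointwise_smul_iff.mpr le_sup_left
    have hcop1 : (Nat.card (K q)).Coprime ((K q).relIndex (K q ⊔ N)) := by
      have h1 : (K q).relIndex (K q ⊔ N) ∣ (q : ℕ) ^ (Nat.card G).factorization q := by
        rw [← hK q]; exact Subgroup.relIndex_dvd_index_of_le le_sup_left
      exact Nat.Coprime.coprime_dvd_right h1 (Nat.Coprime.pow_right _ (card_coprime hK q))
    obtain ⟨u, hu, hu'⟩ := hall_conj_rel (K q ⊔ N) (K q) (MulAut.conj (n * x) • K q) le_sup_left
      hK'le (card_conj_smul _ _).symm hcop1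
    rw [sup_comm, ← SetLike.mem_coe, Subgroup.normal_mul] at hu
    obtain ⟨n₁, hn₁, k, hk, rfl⟩ := hu
    rw [← conj_smul_conj_smul, Subgroup.conj_smul_eq_self_of_mem hk] at hu'
    have hcop2 : ((⨅ p ∈ T, Subgroup.normalizer (K p : Set G)).relIndex N).Coprime
        ((Subgroup.normalizer (K q : Set G)).relIndex N) := by
      have h1 : (⨅ p ∈ T, Subgroup.normalizer (K p : Set G)).relIndex N ∣ (⨅ p ∈ T, K p).index :=
        (Subgroup.relIndex_dvd_of_le_left N
          (iInf₂_mono (fun _ _ => Subgroup.le_normalizer))).trans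
          (relIndex_dvd_index_of_normal_right _ N)
      have h2 : (Subgroup.normalizer (K q : Set G)).relIndex N ∣
          (q : ℕ) ^ (Nat.card G).factorization q := by
        rw [← hK q]
        exact (Subgroup.relIndex_dvd_of_le_left N Subgroup.le_normalizer).trans
          (relIndex_dvd_index_of_normal_right _ N)
      exact Nat.Coprime.coprime_dvd_left h1 (Nat.Coprime.coprime_dvd_right h2
        (Nat.Coprime.pow_right _ (index_biInf_coprime hK T q hq)))
    obtain ⟨d, hd, w, hw, rfl⟩ := exists_mul_of_coprime_relIndex _ _ N hcop2 n₁ hn₁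
    rw [← conj_smul_conj_smul, mem_normalizer_iff_smul.mp hw.1] at hu'
    refine ⟨d⁻¹ * n, N.mul_mem (N.inv_mem hd.2) hn, ?_⟩
    intro p hp
    rw [mul_assoc]
    rcases Finset.mem_insert.mp hp with rfl | hpT
    · rw [mem_normalizer_iff_smul, ← conj_smul_conj_smul, ← hu', conj_inv_smul_conj_smul]
    · have hd1 : ∀ p ∈ T, d ∈ Subgroup.normalizer (K p : Set G) := by
        have h0 : d ∈ (⨅ p ∈ T, Subgroup.normalizer (K p : Set G)) := hd.1
        simpa only [Subgroup.mem_iInf] using h0
      exact Subgroup.mul_mem _ (Subgroup.inv_mem _ (hd1 p hpT)) (hnT p hpT)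

theorem systemNormalizer_map [Group.IsSolvable G] (hK : Cfsg.IsComplementSystem K)
    (N : Subgroup G) [N.Normal] :
    Cfsg.systemNormalizer (fun p => (K p).map (QuotientGroup.mk' N)) =
      (Cfsg.systemNormalizer K).map (QuotientGroup.mk' N) := by
  apply le_antisymm
  · intro xq hxq
    obtain ⟨x, rfl⟩ := QuotientGroup.mk'_surjective N xq
    have hx : ∀ p, x ∈ Subgroup.normalizer ((K p ⊔ N : Subgroup G) : Set G) := by
      intro p
      have h1 : QuotientGroup.mk' N x ∈
          Subgroup.normalizer (((K p).map (QuotientGroup.mk' N) : Subgroup (G ⧸ N)) : Set (G ⧸ N)) :=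
        (iInf_le (fun p => Subgroup.normalizer
          (((K p).map (QuotientGroup.mk' N) : Subgroup (G ⧸ N)) : Set (G ⧸ N))) p) hxq
      have h2 := Subgroup.le_normalizer_comap (H := (K p).map (QuotientGroup.mk' N))
        (QuotientGroup.mk' N) (Subgroup.mem_comap.mpr h1)
      rwa [Subgroup.comap_map_eq, QuotientGroup.ker_mk'] at h2
    obtain ⟨n, hn, hnT⟩ := exists_correction hK N x hx (primesOf G)
    refine ⟨n * x, ?_, ?_⟩
    · simp only [Cfsg.systemNormalizer, SetLike.mem_coe, Subgroup.mem_iInf]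
      intro p
      by_cases hp : p ∈ primesOf G
      · exact hnT p hp
      · rw [eq_top_of_notMem hK p hp, Subgroup.normalizer_eq_top]; trivial
    · have h1 : QuotientGroup.mk' N n = 1 := (QuotientGroup.eq_one_iff n).mpr hn
      rw [map_mul, h1, one_mul]
  · rintro _ ⟨x, hx, rfl⟩
    simp only [Cfsg.systemNormalizer, Subgroup.mem_iInf]
    intro p
    exact Subgroup.le_normalizer_map (QuotientGroup.mk' N) ⟨x, systemNormalizer_le p hx, rfl⟩

theorem systemNormalizer_ne_bot [Group.IsSolvable G] [Nontrivial G]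
    (hK : Cfsg.IsComplementSystem K) : Cfsg.systemNormalizer K ≠ ⊥ := by
  intro hbot
  have h1 := systemNormalizer_map hK (commutator G)
  rw [hbot, Subgroup.map_bot] at h1
  have hcomm : ∀ a b : G ⧸ commutator G, a * b = b * a :=
    fun a b => mul_comm (G := Abelianization G) a b
  have h2 : Cfsg.systemNormalizer (fun p => (K p).map (QuotientGroup.mk' (commutator G))) = ⊤ := by
    rw [eq_top_iff]
    intro x _
    simp only [Cfsg.systemNormalizer, Subgroup.mem_iInf]
    intro p
    rw [Subgroup.mem_normalizer_iff]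
    intro h
    rw [hcomm x h, mul_inv_cancel_right]
  rw [h2] at h1
  have h3 : commutator G = ⊤ := by
    rw [eq_top_iff]
    intro g _
    have : QuotientGroup.mk' (commutator G) g ∈ (⊤ : Subgroup (G ⧸ commutator G)) := trivial
    rw [h1, Subgroup.mem_bot] at this
    exact (QuotientGroup.eq_one_iff g).mp this
  exact (Group.IsSolvable.commutator_lt_top_of_nontrivial G).ne h3

theorem normalClosure_systemNormalizer [Group.IsSolvable G] (hK : Cfsg.IsComplementSystem K) :
    Subgroup.normalClosure ((Cfsg.systemNormalizer K : Subgroup G) : Set G) = ⊤ := by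
  by_contra hM
  have : Nontrivial (G ⧸ Subgroup.normalClosure ((Cfsg.systemNormalizer K : Subgroup G) : Set G)) :=
    QuotientGroup.nontrivial_iff.mpr hM
  apply systemNormalizer_ne_bot (map_system hK
    (Subgroup.normalClosure ((Cfsg.systemNormalizer K : Subgroup G) : Set G)))
  rw [systemNormalizer_map hK, Subgroup.map_eq_bot_iff, QuotientGroup.ker_mk']
  exact Subgroup.le_normalClosure

end Cfsg.Agent.Lib.Helper12SysQuot
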