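import Cfsg.Agent.Lib.Helper17AschUDescent

set_option autoImplicit false

/-! ASCH-U: the subfield case of the unitary Aschbacher theorem, all dimensions `n ≥ 2`. -/

namespace Cfsg.Agent.Lib.Helper17AschUSub

open Cfsg Cfsg.Geo Matrix Cfsg.Agent.Lib.Helper97AschBase Cfsg.Agent.Lib.Helper97AschForms
  Cfsg.Agent.Lib.Helper97UBase Cfsg.Agent.Lib.Helper97AschSubfield Cfsg.Agent.Lib.Helper97USub
  Cfsg.Agent.Lib.Helper97UQF Cfsg.Agent.Lib.Helper95Herm Cfsg.Agent.Lib.Helper97AschCore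
  Cfsg.Agent.Lib.Helper17AschUDescent
open scoped MatrixGroups

variable {n : ℕ} {F : Type*} [Field F]

/-- (first half of helper97's `key`) an element normalising an absolutely irreducible group of
`τ`-fixed matrices is proportional to its twist. -/
lemma map_eq_smul (τ : F →+* F) {H P : Subgroup (GL (Fin n) F)} (hnorm : Nz H P)
    (habs : ActsAbsolutelyIrreducibly (matrixSet P)) (B : GL (Fin n) F)
    (hfixP : ∀ x ∈ P, ((B * x * B⁻¹ : GL (Fin n) F) : Matrix (Fin n) (Fin n) F).map τ =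
      ((B * x * B⁻¹ : GL (Fin n) F) : Matrix (Fin n) (Fin n) F)) {h : GL (Fin n) F} (hh : h ∈ H) :
    ∃ c : F, ((B * h * B⁻¹ : GL (Fin n) F) : Matrix (Fin n) (Fin n) F).map τ =
      c • ((B * h * B⁻¹ : GL (Fin n) F) : Matrix (Fin n) (Fin n) F) := by
  obtain ⟨g, hgdef⟩ : ∃ g : GL (Fin n) F, g = B * h * B⁻¹ := ⟨_, rfl⟩
  rw [← hgdef]
  have hc : ∀ s ∈ matrixSet P,
      (((B⁻¹ * g⁻¹ : GL (Fin n) F) : Matrix (Fin n) (Fin n) F) * (g : Matrix (Fin n) (Fin n) F).map τ * B) * s =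
      s * (((B⁻¹ * g⁻¹ : GL (Fin n) F) : Matrix (Fin n) (Fin n) F) * (g : Matrix (Fin n) (Fin n) F).map τ * B) := by
    rintro _ ⟨x, hx, rfl⟩
    have hx' : h * x * h⁻¹ ∈ P := hnorm h hh x hx
    have e1 : g * (B * x * B⁻¹) = (B * (h * x * h⁻¹) * B⁻¹) * g := by
      simp only [hgdef]; group
    have e2 := congrArg (fun y : GL (Fin n) F => (y : Matrix (Fin n) (Fin n) F).map τ) e1
    simp only [Units.val_mul (g) , Units.val_mul _ g, Matrix.map_mul] at e2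
    rw [hfixP x hx, hfixP _ hx'] at e2
    have e3 : (B : Matrix (Fin n) (Fin n) F) * x =
        ((B * x * B⁻¹ : GL (Fin n) F) : Matrix (Fin n) (Fin n) F) * B := by
      rw [← Units.val_mul, ← Units.val_mul]; congr 1; group
    have e4 : ((B⁻¹ * g⁻¹ : GL (Fin n) F) : Matrix (Fin n) (Fin n) F) *
        ((B * (h * x * h⁻¹) * B⁻¹ : GL (Fin n) F) : Matrix (Fin n) (Fin n) F) =
        (x : Matrix (Fin n) (Fin n) F) * ((B⁻¹ * g⁻¹ : GL (Fin n) F) : Matrix (Fin n) (Fin n) F) := by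
      rw [← Units.val_mul, ← Units.val_mul]; congr 1; simp only [hgdef]; group
    rw [mul_assoc, e3, ← mul_assoc, mul_assoc _ ((g : Matrix (Fin n) (Fin n) F).map τ), e2,
      ← mul_assoc, e4, mul_assoc, mul_assoc, mul_assoc]
  obtain ⟨c, hc'⟩ := habs.2 _ hc
  refine ⟨c, ?_⟩
  have e5 := congrArg (fun M => ((g * B : GL (Fin n) F) : Matrix (Fin n) (Fin n) F) * M *
    ((B⁻¹ : GL (Fin n) F) : Matrix (Fin n) (Fin n) F)) hc'
  simp only [← mul_assoc, ← Units.val_mul] at e5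
  have e6 : g * B * B⁻¹ * g⁻¹ = 1 := by group
  rw [e6, Units.val_one, one_mul, mul_assoc, iv, mul_one] at e5
  rw [e5, Matrix.mul_smul, mul_one, Matrix.smul_mul, ← Units.val_mul]
  congr 2
  group

variable {σ : F ≃+* F} {f : (Fin n → F) → (Fin n → F) → F}

/-- a `τ`-fixed non-isotropic vector, when `σ` is not trivial on the fixed field of `τ`. -/
lemma exists_fixed_nonsingular' [NeZero n] (hf : IsUnitaryForm σ f) (τ : F ≃+* F) {a₀ : F} (ha₀ : τ a₀ = a₀)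
    (hne : σ a₀ ≠ a₀) (B : GL (Fin n) F) :
    ∃ u : Fin n → F, (∀ i, τ (u i) = u i) ∧
      f (((B⁻¹ : GL (Fin n) F) : Matrix (Fin n) (Fin n) F) *ᵥ u)
        (((B⁻¹ : GL (Fin n) F) : Matrix (Fin n) (Fin n) F) *ᵥ u) ≠ 0 := by
  by_contra hcon
  push Not at hcon
  have hs := sesq_of_unitary hf
  have hs₁ := hs.comp ((B⁻¹ : GL (Fin n) F) : Matrix (Fin n) (Fin n) F)
  have hnd : ∀ v : Fin n → F, v ≠ 0 → ∃ x, f (((B⁻¹ : GL (Fin n) F) : Matrix (Fin n) (Fin n) F) *ᵥ x)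
      (((B⁻¹ : GL (Fin n) F) : Matrix (Fin n) (Fin n) F) *ᵥ v) ≠ 0 := by
    intro v hv
    have hv' : ((B⁻¹ : GL (Fin n) F) : Matrix (Fin n) (Fin n) F) *ᵥ v ≠ 0 := by
      intro h0
      apply hv
      apply mulVec_injective B⁻¹
      simpa using h0
    obtain ⟨x, hx⟩ := (hf.nondegenerate _ hv').1
    exact ⟨(B : Matrix (Fin n) (Fin n) F) *ᵥ x, by simpa using hx⟩
  have hunit := hs₁.isUnit_det_gram hnd
  have hsingle : ∀ (j : Fin n) (i : Fin n),
      τ ((Pi.single j 1 : Fin n → F) i) = (Pi.single j 1 : Fin n → F) i := by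
    intro j i
    by_cases hij : i = j
    · subst hij; simp
    · simp [hij]
  have hzero : Helper97AschForms.gram (fun u v => f (((B⁻¹ : GL (Fin n) F) : Matrix (Fin n) (Fin n) F) *ᵥ u)
      (((B⁻¹ : GL (Fin n) F) : Matrix (Fin n) (Fin n) F) *ᵥ v)) = 0 := by
    ext i j
    have key : ∀ a : F, τ a = a → σ a * f (((B⁻¹ : GL (Fin n) F) : Matrix (Fin n) (Fin n) F) *ᵥ Pi.single i 1)
        (((B⁻¹ : GL (Fin n) F) : Matrix (Fin n) (Fin n) F) *ᵥ Pi.single j 1) +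
        a * f (((B⁻¹ : GL (Fin n) F) : Matrix (Fin n) (Fin n) F) *ᵥ Pi.single j 1)
        (((B⁻¹ : GL (Fin n) F) : Matrix (Fin n) (Fin n) F) *ᵥ Pi.single i 1) = 0 := by
      intro a ha
      have h1 := hcon (Pi.single i 1 + a • Pi.single j 1) (by
        intro k
        rw [Pi.add_apply, Pi.smul_apply, smul_eq_mul, map_add, map_mul, hsingle, hsingle, ha])
      have h2 := hcon (Pi.single i 1) (hsingle i)
      have h3 := hcon (Pi.single j 1) (hsingle j)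
      rw [Matrix.mulVec_add, Matrix.mulVec_smul, hs.add_left, hs.add_right, hs.add_right, hs.smul_left,
        hs.smul_left, hs.smul_right, hs.smul_right, h2, h3] at h1
      linear_combination h1
    have k1 := key 1 (map_one τ)
    have k2 := key a₀ ha₀
    rw [map_one] at k1
    have k3 : (σ a₀ - a₀) * f (((B⁻¹ : GL (Fin n) F) : Matrix (Fin n) (Fin n) F) *ᵥ Pi.single i 1)
        (((B⁻¹ : GL (Fin n) F) : Matrix (Fin n) (Fin n) F) *ᵥ Pi.single j 1) = 0 := by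
      linear_combination k2 - a₀ * k1
    simp only [Helper97AschForms.gram, Matrix.of_apply, Matrix.zero_apply]
    exact (mul_eq_zero.mp k3).resolve_left (sub_ne_zero.mpr hne)
  have : Nonempty (Fin n) := ⟨⟨0, Nat.pos_of_ne_zero (NeZero.ne n)⟩⟩
  rw [hzero, Matrix.det_zero] at hunit
  exact not_isUnit_zero hunit

/-- rescaling makes the structure rational -/
lemma rational_of_aut' [Finite F] [NeZero n] (hf : IsUnitaryForm σ f)
    (τ : F ≃+* F) (hcomm : ∀ a, τ (σ a) = σ (τ a)) {a₀ : F} (ha₀ : τ a₀ = a₀) (hne : σ a₀ ≠ a₀)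
    {P : Subgroup (GL (Fin n) F)} (hP : P ≤ Iso f) (habs : ActsAbsolutelyIrreducibly (matrixSet P))
    (B : GL (Fin n) F)
    (hB : ∀ x ∈ P, ∀ i j, τ (((B * x * B⁻¹ : GL (Fin n) F) : Matrix (Fin n) (Fin n) F) i j) =
      ((B * x * B⁻¹ : GL (Fin n) F) : Matrix (Fin n) (Fin n) F) i j) :
    ∃ l : F, l ≠ 0 ∧ ∀ u v : Fin n → F, (∀ i, τ (u i) = u i) → (∀ i, τ (v i) = v i) →
      τ (f (((B⁻¹ : GL (Fin n) F) : Matrix (Fin n) (Fin n) F) *ᵥ (l • u))
        (((B⁻¹ : GL (Fin n) F) : Matrix (Fin n) (Fin n) F) *ᵥ (l • v))) =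
      f (((B⁻¹ : GL (Fin n) F) : Matrix (Fin n) (Fin n) F) *ᵥ (l • u))
        (((B⁻¹ : GL (Fin n) F) : Matrix (Fin n) (Fin n) F) *ᵥ (l • v)) := by
  have hs := sesq_of_unitary hf
  have h := herm_of_unitary hf
  obtain ⟨c, hc⟩ := semi_form hf τ hcomm hP habs B hB
  obtain ⟨u₀, hu₀, hd⟩ := exists_fixed_nonsingular' hf τ ha₀ hne B
  obtain ⟨d, hdd⟩ : ∃ d, d = f (((B⁻¹ : GL (Fin n) F) : Matrix (Fin n) (Fin n) F) *ᵥ u₀)
        (((B⁻¹ : GL (Fin n) F) : Matrix (Fin n) (Fin n) F) *ᵥ u₀) := ⟨_, rfl⟩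
  rw [← hdd] at hd
  have hσd : (σ : F →+* F) d = d := by rw [hdd]; exact h.self_fix _
  have hcd : d = c * τ d := by
    have := hc (((B⁻¹ : GL (Fin n) F) : Matrix (Fin n) (Fin n) F) *ᵥ u₀)
      (((B⁻¹ : GL (Fin n) F) : Matrix (Fin n) (Fin n) F) *ᵥ u₀)
    rw [semi_fixed τ B hu₀, ← hdd] at this
    exact this
  have hc0 : c ≠ 0 := by
    rintro rfl
    rw [zero_mul] at hcd
    exact hd hcd
  obtain ⟨l, hl⟩ := h.norm_surj d⁻¹ (by rw [map_inv₀, hσd])
  have hl' : l * σ l = d⁻¹ := hl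
  have hl0 : l ≠ 0 := by
    rintro rfl
    rw [zero_mul] at hl'
    exact inv_ne_zero hd hl'.symm
  refine ⟨l, hl0, fun u v hu hv => ?_⟩
  have e := hc (((B⁻¹ : GL (Fin n) F) : Matrix (Fin n) (Fin n) F) *ᵥ u)
      (((B⁻¹ : GL (Fin n) F) : Matrix (Fin n) (Fin n) F) *ᵥ v)
  rw [semi_fixed τ B hu, semi_fixed τ B hv] at e
  rw [Matrix.mulVec_smul, Matrix.mulVec_smul, hs.smul_left, hs.smul_right, ← mul_assoc, hl', map_mul,
    map_inv₀]
  have hτd0 : τ d ≠ 0 := by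
    intro h0
    rw [h0, mul_zero] at hcd
    exact hd hcd
  obtain ⟨X, hX⟩ : ∃ X, X = f (((B⁻¹ : GL (Fin n) F) : Matrix (Fin n) (Fin n) F) *ᵥ u)
      (((B⁻¹ : GL (Fin n) F) : Matrix (Fin n) (Fin n) F) *ᵥ v) := ⟨_, rfl⟩
  rw [← hX] at e ⊢
  have e1 : τ X = X / c := by rw [eq_div_iff hc0, mul_comm]; exact e.symm
  have e2 : τ d = d / c := by rw [eq_div_iff hc0, mul_comm]; exact hcd.symm
  rw [e1, e2]
  field_simp

lemma structure_of_aut' [Finite F] [NeZero n] (hf : IsUnitaryForm σ f)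
    (τ : F ≃+* F) (hcomm : ∀ a, τ (σ a) = σ (τ a)) {a₀ : F} (ha₀ : τ a₀ = a₀) (hne : σ a₀ ≠ a₀)
    {F₀ F₁ : Subfield F}
    (hτ0 : ∀ a ∈ F₀, τ a = a) (hτ1 : ∀ a, τ a = a ↔ a ∈ F₁)
    {H P : Subgroup (GL (Fin n) F)} (hnorm : Nz H P) (hP : P ≤ Iso f)
    (habs : ActsAbsolutelyIrreducibly (matrixSet P)) (B : GL (Fin n) F)
    (hB : ∀ s ∈ matrixSet P, ∀ i j,
      ((B : Matrix (Fin n) (Fin n) F) * s * ((B⁻¹ : GL (Fin n) F) : Matrix (Fin n) (Fin n) F)) i j ∈ F₀) :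
    ∃ C : GL (Fin n) F, IsFormRationalStructure f F₁ 1 C ∧ H ≤ subfieldSubgroup F₁ C := by
  have hB' : ∀ x ∈ P, ∀ i j, ((B * x * B⁻¹ : GL (Fin n) F) : Matrix (Fin n) (Fin n) F) i j ∈ F₀ := by
    intro x hx i j
    have := hB _ ⟨x, hx, rfl⟩ i j
    simpa [Units.val_mul] using this
  obtain ⟨l, hl0, hl⟩ := rational_of_aut' hf τ hcomm ha₀ hne hP habs B
    (fun x hx i j => hτ0 _ (hB' x hx i j))
  obtain ⟨z, hz, hzl⟩ := exists_scalar (n := n) hl0
  have hzc := Subgroup.mem_center_iff.mp (scalars_le_center hz)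
  have hC : ∀ u : Fin n → F, ((B⁻¹ * z : GL (Fin n) F) : Matrix (Fin n) (Fin n) F) *ᵥ u =
      ((B⁻¹ : GL (Fin n) F) : Matrix (Fin n) (Fin n) F) *ᵥ (l • u) := by
    intro u
    rw [Units.val_mul, ← Matrix.mulVec_mulVec, hzl, Matrix.smul_mulVec, Matrix.one_mulVec]
  refine ⟨B⁻¹ * z, ?_, ?_⟩
  · intro u v hu hv
    rw [one_mul, hC, hC, ← hτ1]
    exact hl u v (fun i => (hτ1 _).mpr (hu i)) (fun i => (hτ1 _).mpr (hv i))
  · have := key (τ : F →+* F) hτ0 (fun a ha => (hτ1 a).mp ha) hnorm habs (B⁻¹ * z)⁻¹ (by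
      rintro _ ⟨x, hx, rfl⟩ i j
      have e : (B⁻¹ * z)⁻¹ * x * (B⁻¹ * z)⁻¹⁻¹ = B * x * B⁻¹ := by
        rw [inv_inv, _root_.mul_inv_rev, inv_inv]
        calc z⁻¹ * B * x * (B⁻¹ * z) = z⁻¹ * ((B * x * B⁻¹) * z) := by group
          _ = z⁻¹ * (z * (B * x * B⁻¹)) := by rw [hzc]
          _ = B * x * B⁻¹ := by group
      rw [← Units.val_mul, ← Units.val_mul, e]
      exact hB' x hx i j)
    rwa [inv_inv] at this

/-- index two: `T` consists of `σ`-fixed matrices in the coordinates `B`. -/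
theorem subfieldTwo_of_fixed [Fintype F] (hf : IsUnitaryForm σ f) {q : ℕ} (hq : Fintype.card F = q ^ 2)
    (hσq : ∀ a, σ a = a ^ q) (hn : 2 ≤ n) {H T : Subgroup (GL (Fin n) F)} (hH : H ≤ Iso f)
    (hirr : ActsIrreducibly (matrixSet H)) (hnorm : Nz H T) (hT : T ≤ Iso f)
    (habs : ActsAbsolutelyIrreducibly (matrixSet T)) (B : GL (Fin n) F)
    (hB : ∀ x ∈ T, ∀ i j, σ (((B * x * B⁻¹ : GL (Fin n) F) : Matrix (Fin n) (Fin n) F) i j) =
      ((B * x * B⁻¹ : GL (Fin n) F) : Matrix (Fin n) (Fin n) F) i j) :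
    SubfieldTwoAlt q f H := by
  obtain ⟨c', hc'⟩ := semi_form hf σ (fun a => rfl) hT habs B hB
  refine descent hf hq hσq hn hH hirr (semi σ B) (semi_add σ B) (semi_smul σ B) one_ne_zero
    (fun v => by rw [semi_semi hf.involutive, one_smul]) hc' ?_
  intro h hh
  obtain ⟨μ, hμ⟩ := map_eq_smul (σ : F →+* F) hnorm habs B (fun x hx => by
    ext i j
    exact hB x hx i j) hh
  refine ⟨μ, fun v => ?_⟩
  unfold semi
  have e1 : (B : Matrix (Fin n) (Fin n) F) *ᵥ ((h : Matrix (Fin n) (Fin n) F) *ᵥ v) =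
      ((B * h * B⁻¹ : GL (Fin n) F) : Matrix (Fin n) (Fin n) F) *ᵥ ((B : Matrix (Fin n) (Fin n) F) *ᵥ v) := by
    rw [Matrix.mulVec_mulVec, Matrix.mulVec_mulVec, ← Units.val_mul, ← Units.val_mul]
    congr 2
    group
  have e2 : ∀ (M : Matrix (Fin n) (Fin n) F) (w : Fin n → F),
      (fun i => σ ((M *ᵥ w) i)) = (M.map (σ : F →+* F)) *ᵥ (fun i => σ (w i)) := by
    intro M w
    ext i
    simp [Matrix.mulVec, dotProduct, map_sum, map_mul]
  rw [e1, e2, hμ, Matrix.smul_mulVec, Matrix.mulVec_smul, Matrix.mulVec_mulVec, Matrix.mulVec_mulVec,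
    ← Units.val_mul, ← Units.val_mul]
  congr 3
  group

/-- the subfield alternative of odd prime index of the unitary case -/
def SubfieldOddAlt [Fintype F] (f : (Fin n → F) → (Fin n → F) → F) (H : Subgroup (GL (Fin n) F)) : Prop :=
  ∃ (F₀ : Subfield F) (r : ℕ) (P : GL (Fin n) F), r.Prime ∧ Odd r ∧ Fintype.card F = Nat.card F₀ ^ r ∧
      IsFormRationalStructure f F₀ 1 P ∧ H ≤ subfieldSubgroup F₀ P

/-- **the subfield case of the unitary Aschbacher theorem**, all `n ≥ 2`. -/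
theorem subfield_u [Fintype F] (hf : IsUnitaryForm σ f) {q : ℕ} (hq : Fintype.card F = q ^ 2)
    (hσq : ∀ a, σ a = a ^ q) (hn : 2 ≤ n) {H T : Subgroup (GL (Fin n) F)} (hH : H ≤ Iso f)
    (hirr : ActsIrreducibly (matrixSet H)) (hnorm : Nz H T) (hT : T ≤ Iso f)
    (habs : ActsAbsolutelyIrreducibly (matrixSet T)) {F₀ : Subfield F} (hF₀ : F₀ ≠ ⊤)
    (hreal : RealisableOver F₀ (matrixSet T)) :
    SubfieldOddAlt f H ∨ SubfieldTwoAlt q f H := by
  have : NeZero n := ⟨by omega⟩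
  obtain ⟨B, hB⟩ := hreal
  by_cases hA : ∀ a ∈ F₀, σ a = a
  · right
    apply subfieldTwo_of_fixed hf hq hσq hn hH hirr hnorm hT habs B
    intro x hx i j
    apply hA
    have := hB _ ⟨x, hx, rfl⟩ i j
    simpa [Units.val_mul] using this
  · left
    push Not at hA
    obtain ⟨a₀, ha₀, hne⟩ := hA
    obtain ⟨τ, F₁, r, hr, hcard, hτ0, hτ1⟩ := exists_aut' hF₀
    obtain ⟨C, hC, hle⟩ := structure_of_aut' hf τ (fun a => by rw [hσq, hσq, map_pow]) (hτ0 a₀ ha₀) hne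
      hτ0 hτ1 hnorm hT habs B hB
    refine ⟨F₁, r, C, hr, ?_, hcard, hC, hle⟩
    rcases hr.eq_two_or_odd' with h2 | h2
    · exfalso
      apply hne
      subst h2
      rw [hq] at hcard
      have hqc : q = Nat.card F₁ := Nat.pow_left_injective (n := 2) (by norm_num) hcard
      have : Fintype F₁ := Fintype.ofFinite _
      have h3 := FiniteField.pow_card (⟨a₀, (hτ1 a₀).mp (hτ0 a₀ ha₀)⟩ : F₁)
      rw [← Nat.card_eq_fintype_card, ← hqc] at h3
      rw [hσq]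
      exact congrArg Subtype.val h3
    · exact h2

/-- `T` fixes a non-degenerate bilinear form: subfield group of index two. -/
theorem subfieldTwo_of_bilinear [Fintype F] (hf : IsUnitaryForm σ f) {q : ℕ} (hq : Fintype.card F = q ^ 2)
    (hσq : ∀ a, σ a = a ^ q) (hn : 2 ≤ n) {H T : Subgroup (GL (Fin n) F)} (hH : H ≤ Iso f)
    (hirr : ActsIrreducibly (matrixSet H)) (hnorm : Nz H T) (hT : T ≤ Iso f)
    (habs : ActsAbsolutelyIrreducibly (matrixSet T))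
    {β : (Fin n → F) → (Fin n → F) → F} (hβ : IsBilinearForm β) (hnd : IsNondegenerateForm β)
    (hfix : FixesForm (matrixSet T) β) : SubfieldTwoAlt q f H := by
  obtain ⟨F₁, hF₁, -⟩ := fix_sigma σ hf.ne_refl hf.involutive
  obtain ⟨B, hB⟩ := realisable_of_bilinear hf (by omega) hT habs hβ hnd hfix (F₁ := F₁)
    (fun a ha => (hF₁ a).1 ha)
  apply subfieldTwo_of_fixed hf hq hσq hn hH hirr hnorm hT habs B
  intro x hx i j
  rw [hF₁]
  have := hB _ ⟨x, hx, rfl⟩ i j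
  simpa [Units.val_mul] using this

/-- `T` fixes a non-degenerate quadratic form: subfield group of index two. -/
theorem subfieldTwo_of_quadratic [Fintype F] (hf : IsUnitaryForm σ f) {q : ℕ} (hq : Fintype.card F = q ^ 2)
    (hσq : ∀ a, σ a = a ^ q) (hn : 2 ≤ n) {H T : Subgroup (GL (Fin n) F)} (hH : H ≤ Iso f)
    (hirr : ActsIrreducibly (matrixSet H)) (hnorm : Nz H T) (hT : T ≤ Iso f)
    (habs : ActsAbsolutelyIrreducibly (matrixSet T))
    {Q : (Fin n → F) → F} (hQ : IsNondegenerateQuadraticForm Q)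
    (hfix : FixesQuadForm (matrixSet T) Q) : SubfieldTwoAlt q f H := by
  apply subfieldTwo_of_bilinear hf hq hσq hn hH hirr hnorm hT habs hQ.polar_bilinear hQ.nondegenerate
  intro s hs u v
  unfold QuadraticMap.polar
  rw [← Matrix.mulVec_add, hfix s hs, hfix s hs, hfix s hs]

end Cfsg.Agent.Lib.Helper17AschUSub
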