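import Mathlib
import Cfsg.Agent.Lib.Helper97AschBase

set_option autoImplicit false

/-! Burnside's theorem for absolutely irreducible matrix groups (via the Jacobson density theorem). -/

namespace Cfsg.Agent.Lib.Helper57AschA

open Cfsg Cfsg.Geo Matrix
open Cfsg.Agent.Lib.Helper97AschBase
open scoped MatrixGroups

variable {n : ℕ} {F : Type*} [Field F]

/-- the set of matrices of a subgroup is multiplicatively closed -/
theorem closure_matrixSet (T : Subgroup (GL (Fin n) F)) :
    (Submonoid.closure (matrixSet T) : Set (Matrix (Fin n) (Fin n) F)) = matrixSet T := by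
  have h : matrixSet T = ((T.toSubmonoid.map (Units.coeHom (Matrix (Fin n) (Fin n) F)) :
      Submonoid (Matrix (Fin n) (Fin n) F)) : Set (Matrix (Fin n) (Fin n) F)) := by
    ext x
    constructor
    · rintro ⟨g, hg, rfl⟩
      exact ⟨g, hg, rfl⟩
    · rintro ⟨g, hg, rfl⟩
      exact ⟨g, hg, rfl⟩
  rw [h, Submonoid.closure_eq]

/-- Burnside: an absolutely irreducible group spans the full matrix algebra -/
theorem span_eq_top {T : Subgroup (GL (Fin n) F)} (h : ActsAbsolutelyIrreducibly (matrixSet T)) :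
    Submodule.span F (matrixSet T) = ⊤ := by
  classical
  rcases Nat.eq_zero_or_pos n with rfl | hn
  · rw [eq_top_iff]
    intro x _
    have : x = 0 := Subsingleton.elim _ _
    rw [this]; exact Submodule.zero_mem _
  obtain ⟨hirr, hcen⟩ := h
  set A₀ : Subalgebra F (Matrix (Fin n) (Fin n) F) := Algebra.adjoin F (matrixSet T) with hA₀
  set A : Subalgebra F (Module.End F (Fin n → F)) :=
    A₀.map (Matrix.toLinAlgEquiv' : Matrix (Fin n) (Fin n) F ≃ₐ[F] _).toAlgHom with hA
  have hmemA : ∀ t ∈ T, Matrix.toLin' (t : Matrix (Fin n) (Fin n) F) ∈ A := by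
    intro t ht
    exact ⟨_, Algebra.subset_adjoin ⟨t, ht, rfl⟩, rfl⟩
  have : Nontrivial (Fin n → F) := by
    have : Nonempty (Fin n) := ⟨⟨0, hn⟩⟩
    infer_instance
  -- simplicity
  have hsimple : IsSimpleModule A (Fin n → F) := by
    rw [isSimpleModule_iff]
    refine { toNontrivial := inferInstance, eq_bot_or_eq_top := ?_ }
    intro W
    have hW := hirr (W.restrictScalars F) (by
      rintro _ ⟨t, ht, rfl⟩ _ ⟨w, hw, rfl⟩
      exact W.smul_mem (⟨_, hmemA t ht⟩ : A) hw)
    rcases hW with h0 | h1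
    · left
      rw [Submodule.eq_bot_iff]
      intro x hx
      have : x ∈ W.restrictScalars F := hx
      rw [h0] at this
      exact this
    · right
      rw [eq_top_iff]
      intro x _
      have : x ∈ W.restrictScalars F := by rw [h1]; trivial
      exact this
  -- endomorphisms are scalars
  have hend : ∀ φ : Module.End A (Fin n → F), ∃ c : F, ∀ v, φ v = c • v := by
    intro φ
    let φ' : (Fin n → F) →ₗ[F] (Fin n → F) := φ.restrictScalars F
    obtain ⟨c, hc⟩ := hcen (LinearMap.toMatrix' φ') (by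
      rintro _ ⟨t, ht, rfl⟩
      apply Matrix.toLin'.injective
      rw [Matrix.toLin'_mul, Matrix.toLin'_mul, Matrix.toLin'_toMatrix']
      refine LinearMap.ext fun v => ?_
      have := φ.map_smul (⟨_, hmemA t ht⟩ : A) v
      exact this)
    refine ⟨c, fun v => ?_⟩
    have h1 : φ' = Matrix.toLin' (c • (1 : Matrix (Fin n) (Fin n) F)) := by
      rw [← hc, Matrix.toLin'_toMatrix']
    have h2 : φ v = φ' v := rfl
    rw [h2, h1]
    simp
  have key : ∀ X : Matrix (Fin n) (Fin n) F, X ∈ A₀ := by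
    intro X
    let f : Module.End (Module.End A (Fin n → F)) (Fin n → F) :=
      { toFun := fun v => X *ᵥ v
        map_add' := fun u v => Matrix.mulVec_add _ _ _
        map_smul' := fun φ v => by
          obtain ⟨c, hc⟩ := hend φ
          simp only [RingHom.id_apply, Module.End.smul_def, hc, Matrix.mulVec_smul] }
    obtain ⟨r, hr⟩ := jacobson_density (R := A) (M := Fin n → F) f (Finset.univ.image (fun i : Fin n => (Pi.single i 1 : Fin n → F)))
    obtain ⟨Y, hY, hYr⟩ := r.2
    have : X = Y := by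
      apply Matrix.toLin'.injective
      apply LinearMap.pi_ext'
      intro i
      ext1
      have h1 := hr (Pi.single i 1) (Finset.mem_image_of_mem _ (Finset.mem_univ i))
      have h2 : r • (Pi.single i 1 : Fin n → F) = (r : Module.End F (Fin n → F)) (Pi.single i 1) := rfl
      rw [h2, ← hYr] at h1
      have h3 : f (Pi.single i 1) = X *ᵥ (Pi.single i 1) := rfl
      rw [h3] at h1
      simpa using h1
    rw [this]; exact hY
  have h2 := Algebra.adjoin_eq_span F (matrixSet T)
  rw [closure_matrixSet] at h2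
  rw [← h2, eq_top_iff]
  intro X _
  exact key X

/-! ### groups of class two modulo scalars -/

lemma val_inv_mul (g : GL (Fin n) F) :
    ((g⁻¹ : GL (Fin n) F) : Matrix (Fin n) (Fin n) F) * (g : Matrix (Fin n) (Fin n) F) = 1 := by
  rw [← Units.val_mul, inv_mul_cancel, Units.val_one]

lemma val_mul_inv (g : GL (Fin n) F) :
    (g : Matrix (Fin n) (Fin n) F) * ((g⁻¹ : GL (Fin n) F) : Matrix (Fin n) (Fin n) F) = 1 := by
  rw [← Units.val_mul, mul_inv_cancel, Units.val_one]

/-- the scalar by which a scalar matrix acts -/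
def cv [NeZero n] (g : GL (Fin n) F) : F := (g : Matrix (Fin n) (Fin n) F) 0 0

lemma eq_cv_smul [NeZero n] {g : GL (Fin n) F} (hg : g ∈ scalars (Fin n) F) :
    (g : Matrix (Fin n) (Fin n) F) = cv g • (1 : Matrix (Fin n) (Fin n) F) := by
  obtain ⟨c, hc⟩ := (mem_scalars_iff g).mp hg
  have : cv g = c := by simp [cv, hc]
  rw [this, hc]

lemma cv_ne_zero [NeZero n] {g : GL (Fin n) F} (hg : g ∈ scalars (Fin n) F) : cv g ≠ 0 := by
  obtain ⟨c, hc⟩ := (mem_scalars_iff g).mp hg
  have : cv g = c := by simp [cv, hc]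
  rw [this]; exact c.ne_zero

lemma cv_mul [NeZero n] {g h : GL (Fin n) F} (hg : g ∈ scalars (Fin n) F) :
    cv (g * h) = cv g * cv h := by
  unfold cv
  rw [Units.val_mul, eq_cv_smul hg]
  simp [cv]

lemma cv_one [NeZero n] : cv (1 : GL (Fin n) F) = 1 := by simp [cv]

lemma mem_scalars_of_eq_smul {g : GL (Fin n) F} {c : F} (hn : 0 < n)
    (h : (g : Matrix (Fin n) (Fin n) F) = c • (1 : Matrix (Fin n) (Fin n) F)) : g ∈ scalars (Fin n) F := by
  rw [mem_scalars_iff]
  have hc0 : c ≠ 0 := by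
    rintro rfl
    have h1 : (g : Matrix (Fin n) (Fin n) F) = 0 := by simpa using h
    have h2 := val_mul_inv g
    rw [h1, zero_mul] at h2
    have h3 := congrFun (congrFun h2 ⟨0, hn⟩) ⟨0, hn⟩
    simp at h3
  exact ⟨Units.mk0 c hc0, h⟩

lemma scalars_comm {z : GL (Fin n) F} (hz : z ∈ scalars (Fin n) F) (g : GL (Fin n) F) : z * g = g * z := by
  obtain ⟨c, hc⟩ := (mem_scalars_iff z).mp hz
  apply Units.ext
  rw [Units.val_mul, Units.val_mul, hc]
  simp

/-- an element commuting with an absolutely irreducible group is a scalar -/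
lemma mem_scalars_of_commute (hn : 0 < n) {T : Subgroup (GL (Fin n) F)}
    (habs : ActsAbsolutelyIrreducibly (matrixSet T)) {g : GL (Fin n) F} (hg : ∀ t ∈ T, g * t = t * g) :
    g ∈ scalars (Fin n) F := by
  obtain ⟨c, hc⟩ := habs.2 (g : Matrix (Fin n) (Fin n) F) (by
    rintro _ ⟨t, ht, rfl⟩
    have := congrArg (fun x : GL (Fin n) F => (x : Matrix (Fin n) (Fin n) F)) (hg t ht)
    simpa using this)
  exact mem_scalars_of_eq_smul hn hc

lemma eq_of_cv_eq [NeZero n] {g h : GL (Fin n) F} (hg : g ∈ scalars (Fin n) F) (hh : h ∈ scalars (Fin n) F)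
    (e : cv g = cv h) : g = h := by
  apply Units.ext
  rw [eq_cv_smul hg, eq_cv_smul hh, e]

section classTwo

variable {T : Subgroup (GL (Fin n) F)}

lemma comm_mem (hcomm : ⁅T, T⁆ ≤ scalars (Fin n) F) {y t : GL (Fin n) F} (hy : y ∈ T) (ht : t ∈ T) :
    y * t * y⁻¹ * t⁻¹ ∈ scalars (Fin n) F :=
  hcomm (Subgroup.commutator_mem_commutator hy ht)

variable [NeZero n]

/-- the character `y ↦ [y, t]` -/
noncomputable def chi (hcomm : ⁅T, T⁆ ≤ scalars (Fin n) F) (t : T) : T →* F where
  toFun y := cv ((y : GL (Fin n) F) * (t : GL (Fin n) F) * (y : GL (Fin n) F)⁻¹ * (t : GL (Fin n) F)⁻¹)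
  map_one' := by simp [cv_one]
  map_mul' y y' := by
    have h1 := comm_mem hcomm y'.2 t.2
    have h2 : ((y * y' : T) : GL (Fin n) F) * (t : GL (Fin n) F) * ((y * y' : T) : GL (Fin n) F)⁻¹ *
        (t : GL (Fin n) F)⁻¹ =
        ((y' : GL (Fin n) F) * (t : GL (Fin n) F) * (y' : GL (Fin n) F)⁻¹ * (t : GL (Fin n) F)⁻¹) *
        ((y : GL (Fin n) F) * (t : GL (Fin n) F) * (y : GL (Fin n) F)⁻¹ * (t : GL (Fin n) F)⁻¹) := by
      have h3 : ((y * y' : T) : GL (Fin n) F) * (t : GL (Fin n) F) * ((y * y' : T) : GL (Fin n) F)⁻¹ *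
        (t : GL (Fin n) F)⁻¹ = (y : GL (Fin n) F) *
        ((y' : GL (Fin n) F) * (t : GL (Fin n) F) * (y' : GL (Fin n) F)⁻¹ * (t : GL (Fin n) F)⁻¹) *
        ((t : GL (Fin n) F) * (y : GL (Fin n) F)⁻¹ * (t : GL (Fin n) F)⁻¹) := by
        simp only [Subgroup.coe_mul]
        group
      rw [h3, ← scalars_comm h1]
      group
    rw [h2, cv_mul h1, mul_comm]

lemma chi_apply (hcomm : ⁅T, T⁆ ≤ scalars (Fin n) F) (t y : T) : chi hcomm t y =
    cv ((y : GL (Fin n) F) * (t : GL (Fin n) F) * (y : GL (Fin n) F)⁻¹ * (t : GL (Fin n) F)⁻¹) := rfl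

lemma conj_eq (hcomm : ⁅T, T⁆ ≤ scalars (Fin n) F) (t y : T) :
    (((y : GL (Fin n) F) * (t : GL (Fin n) F) * (y : GL (Fin n) F)⁻¹ : GL (Fin n) F) : Matrix (Fin n) (Fin n) F) =
      chi hcomm t y • ((t : GL (Fin n) F) : Matrix (Fin n) (Fin n) F) := by
  have h1 := eq_cv_smul (comm_mem hcomm y.2 t.2)
  have h2 : (y : GL (Fin n) F) * (t : GL (Fin n) F) * (y : GL (Fin n) F)⁻¹ =
      ((y : GL (Fin n) F) * (t : GL (Fin n) F) * (y : GL (Fin n) F)⁻¹ * (t : GL (Fin n) F)⁻¹) *
        (t : GL (Fin n) F) := by group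
  rw [h2, Units.val_mul, h1, chi_apply]
  simp

omit [NeZero n] in
lemma commute_of_comm_eq {G : Type*} [Group G] {y t t' : G} (h : y * t * y⁻¹ * t⁻¹ = y * t' * y⁻¹ * t'⁻¹) :
    t⁻¹ * t' * y = y * (t⁻¹ * t') := by
  set z := y * t * y⁻¹ * t⁻¹ with hz
  have a : y * t * y⁻¹ = z * t := by rw [hz]; group
  have b : y * t' * y⁻¹ = z * t' := by rw [h]; group
  calc t⁻¹ * t' * y = (z * t)⁻¹ * (z * t') * y := by group
    _ = (y * t * y⁻¹)⁻¹ * (y * t' * y⁻¹) * y := by rw [a, b]
    _ = y * (t⁻¹ * t') := by group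

lemma chi_injective (habs : ActsAbsolutelyIrreducibly (matrixSet T)) (hcomm : ⁅T, T⁆ ≤ scalars (Fin n) F)
    {t t' : T} (h : chi hcomm t = chi hcomm t') : (t : GL (Fin n) F)⁻¹ * (t' : GL (Fin n) F) ∈ scalars (Fin n) F := by
  apply mem_scalars_of_commute (NeZero.pos n) habs
  intro y hy
  have h0 : chi hcomm t ⟨y, hy⟩ = chi hcomm t' ⟨y, hy⟩ := by rw [h]
  rw [chi_apply, chi_apply] at h0
  exact commute_of_comm_eq (eq_of_cv_eq (comm_mem hcomm hy t.2) (comm_mem hcomm hy t'.2) h0)

/-- representatives of different cosets modulo scalars are linearly independent -/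
lemma linearIndependent_of_chi {ι : Type*} (habs : ActsAbsolutelyIrreducibly (matrixSet T))
    (hcomm : ⁅T, T⁆ ≤ scalars (Fin n) F) (m : ι → T)
    (hm : ∀ i j, (m i : GL (Fin n) F)⁻¹ * (m j : GL (Fin n) F) ∈ scalars (Fin n) F → i = j) :
    LinearIndependent F (fun i => ((m i : GL (Fin n) F) : Matrix (Fin n) (Fin n) F)) := by
  classical
  have hinj : Function.Injective (fun i => chi hcomm (m i)) := by
    intro i j hij
    exact hm i j (chi_injective habs hcomm hij)
  have hli : LinearIndependent F (fun i => (chi hcomm (m i) : T → F)) :=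
    (linearIndependent_monoidHom T F).comp _ hinj
  rw [linearIndependent_iff'] at hli ⊢
  intro s g hg i hi
  -- conjugate the relation
  have hconj : ∀ y : T, ∑ j ∈ s, (g j * chi hcomm (m j) y) • ((m j : GL (Fin n) F) : Matrix (Fin n) (Fin n) F) = 0 := by
    intro y
    have h1 := congrArg (fun X => ((y : GL (Fin n) F) : Matrix (Fin n) (Fin n) F) * X *
      (((y : GL (Fin n) F)⁻¹ : GL (Fin n) F) : Matrix (Fin n) (Fin n) F)) hg
    simp only [Finset.mul_sum, Finset.sum_mul, mul_zero, zero_mul] at h1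
    rw [← h1]
    apply Finset.sum_congr rfl
    intro j _
    rw [Matrix.mul_smul, Matrix.smul_mul, ← Units.val_mul, ← Units.val_mul, conj_eq hcomm (m j) y, smul_smul]
  obtain ⟨a, b, hab⟩ : ∃ a b, ((m i : GL (Fin n) F) : Matrix (Fin n) (Fin n) F) a b ≠ 0 := by
    by_contra hcon
    push Not at hcon
    have h0 : ((m i : GL (Fin n) F) : Matrix (Fin n) (Fin n) F) = 0 := by
      ext a b; exact hcon a b
    have h2 := val_mul_inv (m i : GL (Fin n) F)
    rw [h0, zero_mul] at h2
    have h3 := congrFun (congrFun h2 0) 0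
    simp at h3
  have h2 := hli s (fun j => g j * ((m j : GL (Fin n) F) : Matrix (Fin n) (Fin n) F) a b) (by
    funext y
    have h3 := congrFun (congrFun (hconj y) a) b
    simp only [Matrix.sum_apply, Matrix.smul_apply, smul_eq_mul, Matrix.zero_apply] at h3
    simp only [Finset.sum_apply, Pi.smul_apply, smul_eq_mul, Pi.zero_apply]
    rw [← h3]
    apply Finset.sum_congr rfl
    intro j _
    ring) i hi
  exact (mul_eq_zero.mp h2).resolve_right hab

/-- `|T / scalars| = n²` for an absolutely irreducible group of class two modulo scalars -/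
theorem card_quotient [Finite F] (habs : ActsAbsolutelyIrreducibly (matrixSet T))
    (hcomm : ⁅T, T⁆ ≤ scalars (Fin n) F) :
    Nat.card (T ⧸ (scalars (Fin n) F).subgroupOf T) = n ^ 2 := by
  classical
  set Z' := (scalars (Fin n) F).subgroupOf T with hZ'
  let m : T ⧸ Z' → T := fun q => q.out
  have hli := linearIndependent_of_chi habs hcomm m (by
    intro i j hij
    have h1 : (m i)⁻¹ * m j ∈ Z' := Subgroup.mem_subgroupOf.mpr hij
    have h2 : (QuotientGroup.mk (m i) : T ⧸ Z') = QuotientGroup.mk (m j) := QuotientGroup.eq.mpr h1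
    simpa [m] using h2)
  have hsp : ⊤ ≤ Submodule.span F (Set.range (fun i => ((m i : GL (Fin n) F) : Matrix (Fin n) (Fin n) F))) := by
    rw [← span_eq_top habs, Submodule.span_le]
    rintro _ ⟨t, ht, rfl⟩
    have h1 : (m (QuotientGroup.mk ⟨t, ht⟩))⁻¹ * ⟨t, ht⟩ ∈ Z' := by
      rw [← QuotientGroup.eq]
      simp [m]
    have h2 : ((m (QuotientGroup.mk ⟨t, ht⟩) : T) : GL (Fin n) F)⁻¹ * t ∈ scalars (Fin n) F :=
      Subgroup.mem_subgroupOf.mp h1
    have h3 : t = ((m (QuotientGroup.mk ⟨t, ht⟩) : T) : GL (Fin n) F) *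
        (((m (QuotientGroup.mk ⟨t, ht⟩) : T) : GL (Fin n) F)⁻¹ * t) := by group
    have h4 : (t : Matrix (Fin n) (Fin n) F) = cv (((m (QuotientGroup.mk ⟨t, ht⟩) : T) : GL (Fin n) F)⁻¹ * t) •
        (((m (QuotientGroup.mk ⟨t, ht⟩) : T) : GL (Fin n) F) : Matrix (Fin n) (Fin n) F) := by
      conv_lhs => rw [h3, Units.val_mul, eq_cv_smul h2]
      simp
    show (t : Matrix (Fin n) (Fin n) F) ∈ _
    rw [h4]
    exact Submodule.smul_mem _ _ (Submodule.subset_span ⟨_, rfl⟩)
  have hb := Module.finrank_eq_nat_card_basis (Module.Basis.mk hli hsp)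
  rw [Module.finrank_matrix] at hb
  simp at hb
  rw [← hb]; ring

/-- non scalar elements have trace zero -/
theorem trace_eq_zero (habs : ActsAbsolutelyIrreducibly (matrixSet T))
    (hcomm : ⁅T, T⁆ ≤ scalars (Fin n) F) {w : GL (Fin n) F} (hw : w ∈ T) (hws : w ∉ scalars (Fin n) F) :
    (w : Matrix (Fin n) (Fin n) F).trace = 0 := by
  by_contra htr
  apply hws
  apply mem_scalars_of_commute (NeZero.pos n) habs
  intro y hy
  have h1 := conj_eq hcomm ⟨w, hw⟩ ⟨y, hy⟩
  simp only at h1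
  have h2 := congrArg Matrix.trace h1
  rw [Units.val_mul, Units.val_mul, Matrix.trace_mul_cycle, val_inv_mul, one_mul, Matrix.trace_smul,
    smul_eq_mul] at h2
  have h3 : chi hcomm ⟨w, hw⟩ ⟨y, hy⟩ = 1 := by
    have : (chi hcomm ⟨w, hw⟩ ⟨y, hy⟩ - 1) * (w : Matrix (Fin n) (Fin n) F).trace = 0 := by
      rw [sub_mul, ← h2]; ring
    rcases mul_eq_zero.mp this with h | h
    · exact sub_eq_zero.mp h
    · exact absurd h htr
  rw [h3, one_smul] at h1
  have h4 : y * w * y⁻¹ = w := Units.ext h1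
  calc w * y = (y * w * y⁻¹) * y := by rw [h4]
    _ = y * w := by group

end classTwo

end Cfsg.Agent.Lib.Helper57AschA
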