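import Mathlib

set_option autoImplicit false

namespace Cfsg.Agent.Lib.Helper92AschSq

open scoped commutatorElement

variable {𝔾 : Type*} [Group 𝔾]

/-- `g ↦ [g, x]` as a homomorphism into a central subgroup. -/
def commHom (Y : Subgroup 𝔾) (hYc : Y ≤ Subgroup.center 𝔾) (K : Subgroup 𝔾) (x : 𝔾)
    (h : ∀ g ∈ K, ⁅g, x⁆ ∈ Y) : K →* Y where
  toFun g := ⟨⁅(g : 𝔾), x⁆, h g g.2⟩
  map_one' := by
    apply Subtype.ext
    simp
  map_mul' := by
    intro a b
    apply Subtype.ext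
    show ⁅(a : 𝔾) * b, x⁆ = ⁅(a : 𝔾), x⁆ * ⁅(b : 𝔾), x⁆
    have hc := Subgroup.mem_center_iff.mp (hYc (h b b.2))
    have h1 : ⁅(a : 𝔾) * b, x⁆ = (a : 𝔾) * ⁅(b : 𝔾), x⁆ * (x * (a : 𝔾)⁻¹ * x⁻¹) := by
      simp only [commutatorElement_def]; group
    rw [h1, hc (a : 𝔾)]
    have h2 : ⁅(b : 𝔾), x⁆ * (a : 𝔾) * (x * (a : 𝔾)⁻¹ * x⁻¹) = ⁅(b : 𝔾), x⁆ * ⁅(a : 𝔾), x⁆ := by
      simp only [commutatorElement_def]; group
    rw [h2, hc]

lemma commHom_eq_one_iff (Y : Subgroup 𝔾) (hYc : Y ≤ Subgroup.center 𝔾) (K : Subgroup 𝔾) (x : 𝔾)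
    (h : ∀ g ∈ K, ⁅g, x⁆ ∈ Y) (g : K) :
    commHom Y hYc K x h g = 1 ↔ (g : 𝔾) ∈ K ⊓ Subgroup.centralizer {x} := by
  rw [Subgroup.mem_inf, Subgroup.mem_centralizer_singleton_iff]
  constructor
  · intro h1
    have h2 : ⁅(g : 𝔾), x⁆ = 1 := congrArg Subtype.val h1
    exact ⟨g.2, commutatorElement_eq_one_iff_mul_comm.mp h2⟩
  · intro h1
    apply Subtype.ext
    exact commutatorElement_eq_one_iff_mul_comm.mpr h1.2

lemma step (Y : Subgroup 𝔾) (hYc : Y ≤ Subgroup.center 𝔾) (r : ℕ) (hr : r.Prime)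
    (hY : Nat.card Y = r) (K : Subgroup 𝔾) [Finite K] (x : 𝔾)
    (h : ∀ g ∈ K, ⁅g, x⁆ ∈ Y) (g₀ : 𝔾) (hg₀ : g₀ ∈ K) (hne : ⁅g₀, x⁆ ≠ 1) :
    Nat.card K = Nat.card (K ⊓ Subgroup.centralizer {x} : Subgroup 𝔾) * r ∧
      ∀ g ∈ K, ∃ a : ℤ, g * g₀ ^ a ∈ K ⊓ Subgroup.centralizer {x} := by
  have : Fact r.Prime := ⟨hr⟩
  set φ := commHom Y hYc K x h with hφ
  have hne' : φ ⟨g₀, hg₀⟩ ≠ 1 := by
    intro h1
    exact hne (congrArg Subtype.val h1)
  have hgen : ∀ w : Y, w ∈ Subgroup.zpowers (φ ⟨g₀, hg₀⟩) := fun w =>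
    mem_zpowers_of_prime_card hY hne'
  have hsurj : Function.Surjective φ := by
    intro w
    obtain ⟨a, ha⟩ := Subgroup.mem_zpowers_iff.mp (hgen w)
    exact ⟨⟨g₀, hg₀⟩ ^ a, by rw [map_zpow]; exact ha⟩
  have hker : φ.ker = (K ⊓ Subgroup.centralizer {x} : Subgroup 𝔾).subgroupOf K := by
    ext g
    rw [MonoidHom.mem_ker, Subgroup.mem_subgroupOf]
    exact commHom_eq_one_iff Y hYc K x h g
  constructor
  · have h1 := Subgroup.card_mul_index φ.ker
    rw [Subgroup.index_ker, MonoidHom.range_eq_top.mpr hsurj, Subgroup.card_top, hY, hker] at h1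
    rw [← h1]
    congr 1
    exact Nat.card_congr (Subgroup.subgroupOfEquivOfLe
      (inf_le_left : K ⊓ Subgroup.centralizer {x} ≤ K)).toEquiv
  · intro g hg
    obtain ⟨a, ha⟩ := Subgroup.mem_zpowers_iff.mp (hgen (φ ⟨g, hg⟩))
    refine ⟨-a, ?_⟩
    have h1 : φ (⟨g, hg⟩ * ⟨g₀, hg₀⟩ ^ (-a)) = 1 := by
      rw [map_mul, map_zpow, zpow_neg, ha, mul_inv_cancel]
    exact (commHom_eq_one_iff Y hYc K x h _).mp h1

/-- G1 (sq_index): class two, commutators in a central subgroup of prime order `r`: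
the index of the centre is an even power of `r`. -/
theorem sq_index (Y : Subgroup 𝔾) (hYc : Y ≤ Subgroup.center 𝔾) (r : ℕ) (hr : r.Prime)
    (hY : Nat.card Y = r) (G : Subgroup 𝔾) [Finite G] (hG : ∀ a ∈ G, ∀ b ∈ G, ⁅a, b⁆ ∈ Y) :
    ∃ m : ℕ, Nat.card G =
      Nat.card (G ⊓ Subgroup.centralizer (G : Set 𝔾) : Subgroup 𝔾) * r ^ (2 * m) := by
  suffices H : ∀ n : ℕ, ∀ G : Subgroup 𝔾, Finite G → Nat.card G = n →
      (∀ a ∈ G, ∀ b ∈ G, ⁅a, b⁆ ∈ Y) → ∃ m : ℕ, Nat.card G =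
      Nat.card (G ⊓ Subgroup.centralizer (G : Set 𝔾) : Subgroup 𝔾) * r ^ (2 * m) from
    H _ G inferInstance rfl hG
  intro n
  induction n using Nat.strong_induction_on with
  | _ n ih =>
    intro G hfin hn hG
    by_cases hab : G ≤ Subgroup.centralizer (G : Set 𝔾)
    · exact ⟨0, by rw [inf_eq_left.mpr hab]; simp⟩
    · obtain ⟨x, hx, hxc⟩ := SetLike.not_le_iff_exists.mp hab
      rw [Subgroup.mem_centralizer_iff] at hxc
      push Not at hxc
      obtain ⟨y, hy, hyx⟩ := hxc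
      have hy : y ∈ G := hy
      have hyx1 : ⁅y, x⁆ ≠ 1 := fun h => hyx (commutatorElement_eq_one_iff_mul_comm.mp h)
      have hxy1 : ⁅x, y⁆ ≠ 1 := fun h => hyx (commutatorElement_eq_one_iff_mul_comm.mp h).symm
      obtain ⟨hc1, hd1⟩ := step Y hYc r hr hY G x (fun g hg => hG g hg x hx) y hy hyx1
      set K := G ⊓ Subgroup.centralizer {x} with hK
      have : Finite K := Finite.of_injective (Subgroup.inclusion (inf_le_left : K ≤ G))
        (Subgroup.inclusion_injective _)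
      have hxK : x ∈ K := ⟨hx, Subgroup.mem_centralizer_singleton_iff.mpr rfl⟩
      obtain ⟨hc2, hd2⟩ := step Y hYc r hr hY K y (fun g hg => hG g hg.1 y hy) x hxK hxy1
      set C := K ⊓ Subgroup.centralizer {y} with hC
      have hCG : C ≤ G := inf_le_left.trans inf_le_left
      have : Finite C := Finite.of_injective (Subgroup.inclusion hCG)
        (Subgroup.inclusion_injective _)
      have hCpos : 0 < Nat.card C := Nat.card_pos
      have hlt : Nat.card C < n := by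
        rw [← hn, hc1, hc2]
        have := hr.two_le
        nlinarith
      obtain ⟨m, hm⟩ := ih _ hlt C inferInstance rfl (fun a ha b hb => hG a (hCG ha) b (hCG hb))
      have hZ : (C ⊓ Subgroup.centralizer (C : Set 𝔾) : Subgroup 𝔾) =
          G ⊓ Subgroup.centralizer (G : Set 𝔾) := by
        apply le_antisymm
        · intro z hz
          refine ⟨hCG hz.1, ?_⟩
          have hzx : z * x = x * z := Subgroup.mem_centralizer_singleton_iff.mp hz.1.1.2
          have hzy : z * y = y * z := Subgroup.mem_centralizer_singleton_iff.mp hz.1.2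
          show z ∈ Subgroup.centralizer (G : Set 𝔾)
          rw [Subgroup.mem_centralizer_iff]
          intro g hg
          obtain ⟨a, ha⟩ := hd1 g hg
          obtain ⟨b, hb⟩ := hd2 _ ha
          have h1 := Subgroup.mem_centralizer_iff.mp hz.2 _ hb
          have c1 : Commute z x := hzx
          have c2 : Commute z y := hzy
          have c3 : Commute z (g * y ^ a * x ^ b) := h1.symm
          have c4 : Commute z (g * y ^ a * x ^ b * (x ^ b)⁻¹ * (y ^ a)⁻¹) :=
            (c3.mul_right (c1.zpow_right b).inv_right).mul_right (c2.zpow_right a).inv_right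
          have h2 : g * y ^ a * x ^ b * (x ^ b)⁻¹ * (y ^ a)⁻¹ = g := by group
          rw [h2] at c4
          exact c4.symm
        · intro z hz
          have hzc := Subgroup.mem_centralizer_iff.mp hz.2
          refine ⟨⟨⟨hz.1, ?_⟩, ?_⟩, ?_⟩
          · exact Subgroup.mem_centralizer_singleton_iff.mpr (hzc x hx).symm
          · exact Subgroup.mem_centralizer_singleton_iff.mpr (hzc y hy).symm
          · show z ∈ Subgroup.centralizer (C : Set 𝔾)
            rw [Subgroup.mem_centralizer_iff]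
            intro g hg
            exact hzc g (hCG hg)
      refine ⟨m + 1, ?_⟩
      rw [hc1, hc2, hm, hZ]
      ring

end Cfsg.Agent.Lib.Helper92AschSq
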