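import Cfsg.Prelude.Def_GeometricClasses
import Cfsg.Agent.Lib.Helper92AschSq

set_option autoImplicit false

/-! A criterion for `IsLinearSymplecticTypeData 2 R` (the groups `4 ∘ 2^{1+2m}`). -/

namespace Cfsg.Agent.Lib.Helper67AschSympTwo

open Cfsg Cfsg.Geo Matrix
open scoped MatrixGroups commutatorElement

section abstract

variable {G : Type*} [Group G]

/-- the "symplectic transvection" automorphism `x ↦ x` or `x * b` -/
noncomputable def transvAut (z b : G) (hzc : ∀ g, z * g = g * z) (hzz : z * z = 1) (hz1 : z ≠ 1)
    (hbb : b * b = z) (hcm : ∀ x : G, x * b = b * x ∨ x * b = z * (b * x)) : G ≃* G := by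
  classical
  have hanti : ∀ x : G, x * b ≠ b * x → x * b = z * (b * x) := fun x hx => (hcm x).resolve_left hx
  have hne : ∀ x : G, x * b = z * (b * x) → x * b ≠ b * x := by
    intro x hx h
    rw [h] at hx
    exact hz1 (mul_right_cancel (a := z) (b := b * x) (c := 1) (by rw [one_mul]; exact hx.symm))
  have hbinv : b⁻¹ = z * b := by
    rw [inv_eq_iff_mul_eq_one, ← mul_assoc, ← hzc, mul_assoc, hbb, hzz]
  exact
  { toFun := fun x => if x * b = b * x then x else x * b
    invFun := fun x => if x * b = b * x then x else x * b⁻¹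
    left_inv := by
      intro x
      by_cases h : x * b = b * x
      · simp [h]
      · have h1 : ¬ (x * b * b = b * (x * b)) := by
          intro h2
          exact h (mul_right_cancel (by rw [h2, mul_assoc]))
        simp only [h, h1, if_false]
        simp
    right_inv := by
      intro x
      by_cases h : x * b = b * x
      · simp [h]
      · have h1 : ¬ (x * b⁻¹ * b = b * (x * b⁻¹)) := by
          intro h2
          apply h
          have h3 : x = b * x * b⁻¹ := by simpa [mul_assoc] using h2
          calc x * b = b * x * b⁻¹ * b := by rw [← h3]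
            _ = b * x := by simp
        simp only [h, h1, if_false]
        simp
    map_mul' := by
      intro x y
      by_cases hx : x * b = b * x <;> by_cases hy : y * b = b * y
      · have : x * y * b = b * (x * y) := by rw [mul_assoc, hy, ← mul_assoc, hx, mul_assoc]
        simp [hx, hy, this]
      · have h1 := hanti y hy
        have : ¬ (x * y * b = b * (x * y)) := by
          apply hne
          rw [mul_assoc, h1, ← mul_assoc, ← hzc, mul_assoc, ← mul_assoc x, hx, mul_assoc]
        simp only [hx, hy, this, if_false, if_true]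
        rw [mul_assoc]
      · have h1 := hanti x hx
        have : ¬ (x * y * b = b * (x * y)) := by
          apply hne
          rw [mul_assoc, hy, ← mul_assoc, h1, mul_assoc, mul_assoc]
        simp only [hx, hy, this, if_false, if_true]
        rw [mul_assoc, hy, mul_assoc]
      · have h1 := hanti x hx
        have h2 := hanti y hy
        have : x * y * b = b * (x * y) := by
          rw [mul_assoc, h2, ← mul_assoc, ← hzc, mul_assoc, ← mul_assoc x, h1, ← mul_assoc, ← mul_assoc,
            hzz, one_mul, mul_assoc]
        simp only [hx, hy, this, if_false, if_true]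
        -- x * y = x * b * (y * b)
        have h3 : b * y = z * (y * b) := by
          rw [h2, ← mul_assoc, hzz, one_mul]
        calc x * y = x * (z * (y * z)) := by
              rw [← hzc y, ← mul_assoc z, hzz, one_mul]
          _ = x * (z * (y * (b * b))) := by rw [hbb]
          _ = x * (z * (y * b) * b) := by simp only [mul_assoc]
          _ = x * (b * y * b) := by rw [h3]
          _ = x * b * (y * b) := by simp only [mul_assoc] }

lemma transvAut_apply_of_ne (z b : G) (hzc : ∀ g, z * g = g * z) (hzz : z * z = 1) (hz1 : z ≠ 1)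
    (hbb : b * b = z) (hcm : ∀ x : G, x * b = b * x ∨ x * b = z * (b * x)) (x : G) (hx : x * b ≠ b * x) :
    transvAut z b hzc hzz hz1 hbb hcm x = x * b := by
  classical
  show (if x * b = b * x then x else x * b) = x * b
  rw [if_neg hx]

/-- In a group with a central element `i` of order four such that all squares and all commutators lie in
`{1, i²}`, every characteristic abelian subgroup is central. -/
theorem char_comm_le_center (i z : G) (hi : ∀ g, i * g = g * i) (hiz : i * i = z) (hz1 : z ≠ 1)
    (hsq : ∀ a : G, a * a = 1 ∨ a * a = z) (hcm : ∀ a b : G, a * b = b * a ∨ a * b = z * (b * a))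
    (A : Subgroup G) (hchar : A.Characteristic) (hA : ∀ a ∈ A, ∀ b ∈ A, a * b = b * a) :
    A ≤ Subgroup.center G := by
  have hzc : ∀ g, z * g = g * z := by
    intro g
    rw [← hiz, mul_assoc, hi, ← mul_assoc, hi, mul_assoc]
  have hzz : z * z = 1 := by
    rcases hsq z with h | h
    · exact h
    · exact absurd (mul_left_cancel (a := z) (b := z) (c := 1) (by rw [mul_one]; exact h)) hz1
  intro a ha
  rw [Subgroup.mem_center_iff]
  intro b
  by_contra hab
  have hab' : a * b ≠ b * a := fun h => hab h.symm
  -- adjust b
  obtain ⟨b', hb'b', hab''⟩ : ∃ b' : G, b' * b' = z ∧ a * b' ≠ b' * a := by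
    rcases hsq b with h | h
    · refine ⟨i * b, ?_, ?_⟩
      · rw [mul_assoc, ← mul_assoc b, ← hi b, mul_assoc, h, mul_one, hiz]
      · intro h1
        apply hab'
        rw [← mul_assoc, ← hi a, mul_assoc, mul_assoc] at h1
        exact mul_left_cancel h1
    · exact ⟨b, h, hab'⟩
  let α := transvAut z b' hzc hzz hz1 hb'b' (fun x => hcm x b')
  have hα : α a = a * b' := transvAut_apply_of_ne z b' hzc hzz hz1 hb'b' (fun x => hcm x b') a hab''
  have hmem : α a ∈ A := by
    have h3 := hchar.fixed α.symm
    rw [← h3, Subgroup.mem_comap]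
    simpa using ha
  have h4 := hA a ha _ hmem
  rw [hα, mul_assoc] at h4
  exact hab'' (mul_left_cancel h4)

end abstract

section matrix

variable {ι : Type} [Fintype ι] [DecidableEq ι] {F : Type*} [Field F]

omit [Fintype ι] in
lemma smul_one_inj [Nonempty ι] {a b : F} (h : a • (1 : Matrix ι ι F) = b • (1 : Matrix ι ι F)) : a = b := by
  obtain ⟨j⟩ := ‹Nonempty ι›
  have := congrFun (congrFun h j) j
  simpa using this

/-- Criterion for the class-6 data with `r = 2` and centre of order four. -/
theorem symplecticData_two [Fintype F] {R : Subgroup (GL ι F)} {p : ℕ} (hp2 : 2 ≠ p)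
    (hmin : IsMinimalFieldFor 4 p 1 F) (hι : 4 ≤ Fintype.card ι)
    (I : GL ι F) (i : F) (hI : (I : Matrix ι ι F) = i • (1 : Matrix ι ι F)) (hi : i * i = -1) (hIR : I ∈ R)
    (hsq : ∀ x ∈ R, x * x = 1 ∨ x * x = -1)
    (hcm : ∀ x ∈ R, ∀ y ∈ R, x * y = y * x ∨ x * y = -(y * x))
    (habs : ActsAbsolutelyIrreducibly (matrixSet R)) : IsLinearSymplecticTypeData 2 R := by
  classical
  have hne : Nonempty ι := Fintype.card_pos_iff.mp (by omega)
  have h2 : (2 : F) ≠ 0 := by
    intro h
    have hch : CharP F p := hmin.2.1
    have h3 : ((2 : ℕ) : F) = 0 := by exact_mod_cast h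
    rw [CharP.cast_eq_zero_iff F p 2] at h3
    exact hp2 ((Nat.prime_dvd_prime_iff_eq hmin.1 Nat.prime_two).mp h3).symm
  have hneg1 : (-1 : F) ≠ 1 := by
    intro h
    apply h2
    linear_combination -h
  have hm1 : (-1 : GL ι F) ≠ 1 := by
    intro h
    have h3 := congrArg (fun g : GL ι F => (g : Matrix ι ι F)) h
    simp only [Units.val_neg, Units.val_one] at h3
    apply hneg1
    apply smul_one_inj (ι := ι)
    simpa using h3
  have hIc : ∀ g : GL ι F, I * g = g * I := by
    intro g
    apply Units.ext
    simp [hI]
  have hII : I * I = -1 := by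
    apply Units.ext
    rw [Units.val_mul, hI, Units.val_neg, Units.val_one, Matrix.smul_mul, Matrix.one_mul, smul_smul, hi]
    simp
  have hnegc : ∀ g : GL ι F, (-1 : GL ι F) * g = g * (-1) := by
    intro g
    simp
  have hm1R : (-1 : GL ι F) ∈ R := hII ▸ R.mul_mem hIR hIR
  -- order of I
  have hI4 : orderOf I = 4 := by
    have : orderOf I = 2 ^ (1 + 1) := by
      apply orderOf_eq_prime_pow
      · rw [pow_one, pow_two, hII]
        exact hm1
      · show I ^ 4 = 1
        rw [show (4 : ℕ) = 2 + 2 from rfl, pow_add, pow_two, hII]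
        simp
    simpa using this
  -- central elements
  have hC : ∀ w ∈ R, (∀ u ∈ R, w * u = u * w) → w ∈ Subgroup.zpowers I := by
    intro w hw hwu
    obtain ⟨c, hc⟩ := habs.2 (w : Matrix ι ι F) (by
      rintro _ ⟨u, hu, rfl⟩
      rw [← Units.val_mul, ← Units.val_mul, hwu u hu])
    have hww : ((w * w : GL ι F) : Matrix ι ι F) = (c * c) • (1 : Matrix ι ι F) := by
      rw [Units.val_mul, hc, Matrix.smul_mul, Matrix.one_mul, smul_smul]
    rw [Subgroup.mem_zpowers_iff]
    rcases hsq w hw with h | h
    · rw [h, Units.val_one] at hww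
      have h3 : c * c = 1 := by
        apply smul_one_inj (ι := ι)
        rw [← hww, one_smul]
      have h4 : (c - 1) * (c + 1) = 0 := by linear_combination h3
      rcases mul_eq_zero.mp h4 with h5 | h5
      · refine ⟨0, ?_⟩
        apply Units.ext
        rw [hc, sub_eq_zero.mp h5]
        simp
      · refine ⟨2, ?_⟩
        apply Units.ext
        rw [hc, eq_neg_of_add_eq_zero_left h5]
        have : I ^ (2 : ℤ) = I * I := by
          rw [show (2 : ℤ) = ((2 : ℕ) : ℤ) from rfl, zpow_natCast, pow_two]
        rw [this, hII]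
        simp
    · rw [h, Units.val_neg, Units.val_one] at hww
      have h3 : c * c = -1 := by
        apply smul_one_inj (ι := ι)
        rw [← hww]
        simp
      have h4 : (c - i) * (c + i) = 0 := by linear_combination h3 - hi
      rcases mul_eq_zero.mp h4 with h5 | h5
      · refine ⟨1, ?_⟩
        apply Units.ext
        rw [hc, sub_eq_zero.mp h5, zpow_one, hI]
      · refine ⟨3, ?_⟩
        apply Units.ext
        rw [hc, eq_neg_of_add_eq_zero_left h5]
        have : I ^ (3 : ℤ) = I * I * I := by
          rw [show (3 : ℤ) = ((3 : ℕ) : ℤ) from rfl, zpow_natCast, pow_succ, pow_two]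
        rw [this, hII]
        simp [hI]
  let iR : R := ⟨I, hIR⟩
  have hiR4 : orderOf iR = 4 := by
    rw [← hI4]
    exact Subgroup.orderOf_mk I hIR
  have hcenter : Subgroup.center R = Subgroup.zpowers iR := by
    apply le_antisymm
    · intro w hw
      have h3 := hC w w.2 (fun u hu => by
        have := Subgroup.mem_center_iff.mp hw ⟨u, hu⟩
        exact (congrArg Subtype.val this).symm)
      obtain ⟨k, hk⟩ := Subgroup.mem_zpowers_iff.mp h3
      rw [Subgroup.mem_zpowers_iff]
      refine ⟨k, Subtype.ext ?_⟩
      rw [← hk]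
      simp [iR]
    · rw [Subgroup.zpowers_le, Subgroup.mem_center_iff]
      intro g
      apply Subtype.ext
      exact (hIc g).symm
  have hcardc : Nat.card (Subgroup.center R) = 4 := by
    rw [hcenter, Nat.card_zpowers, hiR4]
  have hinf : (R ⊓ Subgroup.centralizer (R : Set (GL ι F)) : Subgroup (GL ι F)) = Subgroup.zpowers I := by
    apply le_antisymm
    · rintro w ⟨hw, hw2⟩
      apply hC w hw
      intro u hu
      exact (Subgroup.mem_centralizer_iff.mp hw2 u hu).symm
    · rw [Subgroup.zpowers_le]
      refine ⟨hIR, ?_⟩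
      show I ∈ Subgroup.centralizer (R : Set (GL ι F))
      rw [Subgroup.mem_centralizer_iff]
      intro u _
      exact (hIc u).symm
  have hpow4 : ∀ g : R, g ^ 4 = 1 := by
    intro g
    apply Subtype.ext
    show (g : GL ι F) ^ 4 = 1
    rw [show (4 : ℕ) = 2 + 2 from rfl, pow_add, pow_two]
    rcases hsq g g.2 with h | h <;> rw [h] <;> simp
  refine ⟨⟨Nat.prime_two, ?_, ?_, ?_⟩, habs, ?_⟩
  · intro g
    exact ⟨2, hpow4 g⟩
  · intro A hchar hc
    have hle : A ≤ Subgroup.center R := by
      apply char_comm_le_center iR ⟨-1, hm1R⟩ _ _ _ _ _ A hchar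
      · intro a ha b hb
        have := hc.is_comm.comm ⟨a, ha⟩ ⟨b, hb⟩
        exact congrArg Subtype.val this
      · intro g
        exact Subtype.ext (hIc g)
      · exact Subtype.ext hII
      · intro h
        exact hm1 (congrArg Subtype.val h)
      · intro a
        rcases hsq a a.2 with h | h
        · exact Or.inl (Subtype.ext h)
        · exact Or.inr (Subtype.ext h)
      · intro a b
        rcases hcm a a.2 b b.2 with h | h
        · exact Or.inl (Subtype.ext h)
        · refine Or.inr (Subtype.ext ?_)
          show (a : GL ι F) * b = -1 * (b * a)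
          rw [h]
          simp
    rw [hcenter] at hle
    exact Subgroup.isCyclic_of_le hle
  · have h4 : 2 * Nat.gcd 2 2 = 4 := by norm_num
    rw [h4]
    apply Nat.dvd_antisymm
    · exact Monoid.exponent_dvd_of_forall_pow_eq_one hpow4
    · rw [← hiR4]
      exact Monoid.order_dvd_exponent iR
  · refine ⟨p, 1, hp2, by rw [hcardc]; exact hmin, Or.inr (Or.inl ⟨rfl, rfl, hcardc, hι, ?_⟩)⟩
    have hY : Nat.card (Subgroup.zpowers (-1 : GL ι F)) = 2 := by
      rw [Nat.card_zpowers]
      apply orderOf_eq_prime
      · simp
      · exact hm1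
    obtain ⟨m, hm⟩ := Cfsg.Agent.Lib.Helper92AschSq.sq_index (Subgroup.zpowers (-1 : GL ι F))
      (by
        rw [Subgroup.zpowers_le, Subgroup.mem_center_iff]
        intro g
        exact (hnegc g).symm) 2 Nat.prime_two hY R (by
        intro a ha b hb
        rw [commutatorElement_def]
        rcases hcm a ha b hb with h | h
        · rw [h]
          simp
        · rw [h]
          have : -(b * a) * a⁻¹ * b⁻¹ = -1 := by
            rw [neg_mul, neg_mul]
            simp
          rw [this]
          exact Subgroup.mem_zpowers _)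
    refine ⟨m, ?_⟩
    rw [hm, hinf, Nat.card_zpowers, hI4, pow_add]
    norm_num

end matrix

end Cfsg.Agent.Lib.Helper67AschSympTwo
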