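import Cfsg.Agent.Lib.Helper97AschMain
import Cfsg.Agent.Lib.Helper98AschAlt
import Cfsg.Agent.Lib.Helper67AschSympTwo

set_option autoImplicit false

/-! PART D of ASCH-GEN, piece D11: the monomial group of determinant one in `GL_4(5)` normalises `4 ∘ 2^{1+4}`. -/

namespace Cfsg.Agent.Lib.Helper67AschLines5

open Cfsg Cfsg.Geo Matrix
open Cfsg.Agent.Lib.Helper97AschBase Cfsg.Agent.Lib.Helper97AschCore
open scoped MatrixGroups

section mono

variable {ι : Type} [Fintype ι] [DecidableEq ι] {F : Type*} [Field F]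

/-- a monomial matrix: `e_j ↦ c j • e_{σ j}`. -/
def mn (σ : Equiv.Perm ι) (c : ι → F) : Matrix ι ι F :=
  Matrix.of fun i j => if i = σ j then c j else 0

lemma mn_mulVec_single (σ : Equiv.Perm ι) (c : ι → F) (j : ι) :
    mn σ c *ᵥ Pi.single j 1 = c j • Pi.single (σ j) 1 := by
  funext i
  rw [Matrix.mulVec_single_one]
  simp only [mn, Matrix.col_apply, Matrix.of_apply, Pi.smul_apply, smul_eq_mul, Pi.single_apply]
  split_ifs <;> simp

lemma ext_single {M M' : Matrix ι ι F}
    (h : ∀ j, M *ᵥ Pi.single j 1 = M' *ᵥ Pi.single j 1) : M = M' := by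
  refine Matrix.ext fun i j => ?_
  have := congrFun (h j) i
  simpa [Matrix.mulVec_single_one] using this

lemma mn_mul (σ τ : Equiv.Perm ι) (c d : ι → F) :
    mn σ c * mn τ d = mn (σ * τ) (fun j => c (τ j) * d j) := by
  apply ext_single
  intro j
  rw [← Matrix.mulVec_mulVec, mn_mulVec_single, Matrix.mulVec_smul, mn_mulVec_single, mn_mulVec_single,
    smul_smul, mul_comm]
  rfl

omit [Fintype ι] in
lemma mn_smul (σ : Equiv.Perm ι) (e : F) (c : ι → F) :
    mn σ (fun j => e * c j) = e • mn σ c := by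
  ext i j
  simp only [mn, Matrix.of_apply, Matrix.smul_apply, smul_eq_mul]
  split_ifs <;> simp

omit [Fintype ι] in
lemma mn_one_const (e : F) : mn (1 : Equiv.Perm ι) (fun _ => e) = e • (1 : Matrix ι ι F) := by
  ext i j
  by_cases h : i = j
  · simp [mn, h]
  · simp [mn, h]

lemma prod_eq_of_det_mn (σ : Equiv.Perm ι) (c : ι → F) :
    ∏ j, c j = ((Equiv.Perm.sign σ : ℤˣ) : ℤ) * (mn σ c).det := by
  rw [← Matrix.det_permute σ (mn σ c), ← Matrix.det_diagonal]
  congr 1
  ext i j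
  simp only [mn, Matrix.submatrix_apply, Matrix.of_apply, id_eq, Matrix.diagonal_apply,
    EmbeddingLike.apply_eq_iff_eq]
  by_cases h : i = j
  · subst h; simp
  · simp [h]

end mono

section four

variable {F : Type*} [Field F]

/-- translation by `w` in the four-group `Fin 4` (bitwise exclusive or) -/
def X (w : Fin 4) : Equiv.Perm (Fin 4) where
  toFun j := j ^^^ w
  invFun j := j ^^^ w
  left_inv := by intro j; revert j w; decide
  right_inv := by intro j; revert j w; decide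

lemma X_apply (w j : Fin 4) : X w j = j ^^^ w := rfl

lemma X_mul (w u : Fin 4) : X w * X u = X (u ^^^ w) := by
  ext j
  show (((j ^^^ u) ^^^ w : Fin 4) : ℕ) = ((j ^^^ (u ^^^ w) : Fin 4) : ℕ)
  revert j u w
  decide

lemma X_zero : X 0 = 1 := by
  ext j
  show ((j ^^^ 0 : Fin 4) : ℕ) = j
  revert j
  decide

lemma X_self (w : Fin 4) : X w * X w = 1 := by
  rw [X_mul, ← X_zero]
  congr 1
  revert w
  decide

set_option maxRecDepth 100000 in
lemma perm_affine : ∀ π : Equiv.Perm (Fin 4), ∀ w j : Fin 4, π (j ^^^ w) = π j ^^^ (π w ^^^ π 0) := by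
  decide

/-- the coefficient functions of the elements of the group: constant square, product one. -/
def InA (a : Fin 4 → F) : Prop := (∀ u v, a u * a u = a v * a v) ∧ ∏ j, a j = 1

lemma InA.mul {a b : Fin 4 → F} (ha : InA a) (hb : InA b) : InA (fun j => a j * b j) := by
  refine ⟨fun u v => ?_, ?_⟩
  · have h1 := ha.1 u v
    have h2 := hb.1 u v
    calc a u * b u * (a u * b u) = (a u * a u) * (b u * b u) := by ring
      _ = (a v * a v) * (b v * b v) := by rw [h1, h2]
      _ = a v * b v * (a v * b v) := by ring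
  · rw [Finset.prod_mul_distrib, ha.2, hb.2, one_mul]

lemma InA.comp {a : Fin 4 → F} (ha : InA a) (σ : Equiv.Perm (Fin 4)) : InA (fun j => a (σ j)) :=
  ⟨fun u v => ha.1 _ _, by rw [Equiv.prod_comp σ a]; exact ha.2⟩

lemma InA.ne_zero {a : Fin 4 → F} (ha : InA a) (j : Fin 4) : a j ≠ 0 := by
  intro h
  have := ha.2
  rw [Finset.prod_eq_zero (Finset.mem_univ j) h] at this
  exact zero_ne_one this

lemma InA.const {c : F} (hc : c ^ 4 = 1) : InA (fun _ : Fin 4 => c) :=
  ⟨fun _ _ => rfl, by simp [hc]⟩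

lemma four_aux {p q r s : F} (h2 : (2 : F) ≠ 0) (hp4 : p ^ 4 = 1) (hq : q * q = p * p) (hr : r * r = p * p)
    (hs : s * s = p * p) (hprod : p * q * r * s = 1) :
    ∃ ε : F, (ε = 1 ∨ ε = -1) ∧ q = ε * p ∧ p = ε * q ∧ s = ε * r ∧ r = ε * s := by
  have h1 : (q - p) * (q + p) = 0 := by linear_combination hq
  have h3 : (s - r) * (s + r) = 0 := by linear_combination hs - hr
  have hcontra : p * p * (r * r) = 1 := by rw [hr]; linear_combination hp4
  rcases mul_eq_zero.mp h1 with h | h <;> rcases mul_eq_zero.mp h3 with h' | h'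
  · have e1 : q = p := sub_eq_zero.mp h
    have e2 : s = r := sub_eq_zero.mp h'
    exact ⟨1, Or.inl rfl, by simp [e1], by simp [e1], by simp [e2], by simp [e2]⟩
  · exfalso
    have e1 : q = p := sub_eq_zero.mp h
    have e2 : s = -r := eq_neg_of_add_eq_zero_left h'
    rw [e1, e2] at hprod
    apply h2
    linear_combination -(hprod + hcontra)
  · exfalso
    have e1 : q = -p := eq_neg_of_add_eq_zero_left h
    have e2 : s = r := sub_eq_zero.mp h'
    rw [e1, e2] at hprod
    apply h2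
    linear_combination -(hprod + hcontra)
  · have e1 : q = -p := eq_neg_of_add_eq_zero_left h
    have e2 : s = -r := eq_neg_of_add_eq_zero_left h'
    exact ⟨-1, Or.inr rfl, by simp [e1], by simp [e1], by simp [e2], by simp [e2]⟩

/-- the key property of the coefficient functions -/
lemma InA.shift (h2 : (2 : F) ≠ 0) (hF : ∀ c : F, c ≠ 0 → c ^ 4 = 1) {a : Fin 4 → F} (ha : InA a)
    (u : Fin 4) : ∃ ε : F, (ε = 1 ∨ ε = -1) ∧ ∀ j, a (j ^^^ u) = ε * a j := by
  have hp := ha.2
  rw [Fin.prod_univ_four] at hp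
  have h4 := hF _ (ha.ne_zero 0)
  fin_cases u
  · refine ⟨1, Or.inl rfl, fun j => ?_⟩
    rw [one_mul]
    congr 1
    revert j
    decide
  · obtain ⟨ε, hε, e1, e2, e3, e4⟩ := four_aux h2 h4 (ha.1 1 0) (ha.1 2 0) (ha.1 3 0) hp
    refine ⟨ε, hε, fun j => ?_⟩
    fin_cases j
    · exact e1
    · exact e2
    · exact e3
    · exact e4
  · obtain ⟨ε, hε, e1, e2, e3, e4⟩ := four_aux h2 h4 (ha.1 2 0) (ha.1 1 0) (ha.1 3 0)
      (by linear_combination hp)
    refine ⟨ε, hε, fun j => ?_⟩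
    fin_cases j
    · exact e1
    · exact e3
    · exact e2
    · exact e4
  · obtain ⟨ε, hε, e1, e2, e3, e4⟩ := four_aux h2 h4 (ha.1 3 0) (ha.1 1 0) (ha.1 2 0)
      (by linear_combination hp)
    refine ⟨ε, hε, fun j => ?_⟩
    fin_cases j
    · exact e1
    · exact e3
    · exact e4
    · exact e2

lemma sq_pm (hF : ∀ c : F, c ≠ 0 → c ^ 4 = 1) {c : F} (hc : c ≠ 0) : c * c = 1 ∨ c * c = -1 := by
  have h := hF c hc
  have h1 : (c * c - 1) * (c * c + 1) = 0 := by linear_combination h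
  rcases mul_eq_zero.mp h1 with h | h
  · exact Or.inl (sub_eq_zero.mp h)
  · exact Or.inr (eq_neg_of_add_eq_zero_left h)

/-- squares -/
lemma mn_sq (h2 : (2 : F) ≠ 0) (hF : ∀ c : F, c ≠ 0 → c ^ 4 = 1) {a : Fin 4 → F} (ha : InA a) (w : Fin 4) :
    mn (X w) a * mn (X w) a = 1 ∨ mn (X w) a * mn (X w) a = -1 := by
  obtain ⟨ε, hε, h⟩ := ha.shift h2 hF w
  have h1 : mn (X w) a * mn (X w) a = (ε * (a 0 * a 0)) • (1 : Matrix (Fin 4) (Fin 4) F) := by
    rw [mn_mul, X_self, ← mn_one_const]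
    congr 1
    funext j
    rw [X_apply, h, mul_assoc, ha.1 j 0]
  rw [h1]
  rcases hε with rfl | rfl <;> rcases sq_pm hF (ha.ne_zero 0) with h3 | h3 <;> rw [h3] <;> simp

/-- commutation -/
lemma mn_comm (h2 : (2 : F) ≠ 0) (hF : ∀ c : F, c ≠ 0 → c ^ 4 = 1) {a b : Fin 4 → F} (ha : InA a)
    (hb : InA b) (w u : Fin 4) :
    mn (X w) a * mn (X u) b = mn (X u) b * mn (X w) a ∨
      mn (X w) a * mn (X u) b = -(mn (X u) b * mn (X w) a) := by
  obtain ⟨ε, hε, h⟩ := ha.shift h2 hF u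
  obtain ⟨δ, hδ, h'⟩ := hb.shift h2 hF w
  have hwu : u ^^^ w = w ^^^ u := (by decide : ∀ u w : Fin 4, u ^^^ w = w ^^^ u) u w
  have h1 : mn (X w) a * mn (X u) b = ε • mn (X (u ^^^ w)) (fun j => a j * b j) := by
    rw [mn_mul, X_mul, ← mn_smul]
    congr 1
    funext j
    rw [X_apply, h, mul_assoc]
  have h3 : mn (X u) b * mn (X w) a = δ • mn (X (u ^^^ w)) (fun j => a j * b j) := by
    rw [mn_mul, X_mul, ← mn_smul, hwu]
    congr 1
    funext j
    rw [X_apply, h']
    ring
  rw [h1, h3]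
  rcases hε with rfl | rfl <;> rcases hδ with rfl | rfl <;> simp

/-- the group `4 ∘ 2^{1+4}` in standard coordinates -/
def R0 (h2 : (2 : F) ≠ 0) (hF : ∀ c : F, c ≠ 0 → c ^ 4 = 1) : Subgroup (GL (Fin 4) F) where
  carrier := {g | ∃ (w : Fin 4) (a : Fin 4 → F), InA a ∧ (g : Matrix (Fin 4) (Fin 4) F) = mn (X w) a}
  mul_mem' := by
    rintro g h ⟨w, a, ha, hg⟩ ⟨u, b, hb, hh⟩
    exact ⟨u ^^^ w, _, (ha.comp (X u)).mul hb, by rw [Units.val_mul, hg, hh, mn_mul, X_mul]⟩
  one_mem' := ⟨0, fun _ => 1, InA.const (by simp), by rw [X_zero, mn_one_const]; simp⟩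
  inv_mem' := by
    rintro g ⟨w, a, ha, hg⟩
    rcases mn_sq h2 hF ha w with h | h
    · refine ⟨w, a, ha, ?_⟩
      have : g⁻¹ = g := by
        rw [inv_eq_iff_mul_eq_one]
        apply Units.ext
        rw [Units.val_mul, hg, h]
        rfl
      rw [this, hg]
    · refine ⟨w, fun j => (-1) * a j, (InA.const (c := (-1 : F)) (by norm_num)).mul ha, ?_⟩
      have : g⁻¹ = -g := by
        rw [inv_eq_iff_mul_eq_one]
        apply Units.ext
        simp [hg, h]
      rw [this, mn_smul, Units.val_neg, hg]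
      simp

lemma mem_R0 {h2 : (2 : F) ≠ 0} {hF : ∀ c : F, c ≠ 0 → c ^ 4 = 1} {g : GL (Fin 4) F} :
    g ∈ R0 h2 hF ↔ ∃ (w : Fin 4) (a : Fin 4 → F), InA a ∧ (g : Matrix (Fin 4) (Fin 4) F) = mn (X w) a :=
  Iff.rfl

lemma exists_mem_R0 (h2 : (2 : F) ≠ 0) (hF : ∀ c : F, c ≠ 0 → c ^ 4 = 1) (w : Fin 4) {a : Fin 4 → F}
    (ha : InA a) : ∃ g ∈ R0 h2 hF, (g : Matrix (Fin 4) (Fin 4) F) = mn (X w) a := by
  rcases mn_sq h2 hF ha w with h | h
  · exact ⟨⟨mn (X w) a, mn (X w) a, h, h⟩, ⟨w, a, ha, rfl⟩, rfl⟩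
  · exact ⟨⟨mn (X w) a, -mn (X w) a, by simp [h], by simp [h]⟩, ⟨w, a, ha, rfl⟩, rfl⟩

lemma mul_mn_apply (M : Matrix (Fin 4) (Fin 4) F) (σ : Equiv.Perm (Fin 4)) (c : Fin 4 → F) (i j : Fin 4) :
    (M * mn σ c) i j = M i (σ j) * c j := by
  rw [Matrix.mul_apply, Finset.sum_eq_single (σ j)]
  · simp [mn]
  · intro k _ hk
    simp [mn, hk]
  · intro h; exact absurd (Finset.mem_univ _) h

lemma mn_mul_apply (M : Matrix (Fin 4) (Fin 4) F) (σ : Equiv.Perm (Fin 4)) (c : Fin 4 → F) (i j : Fin 4) :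
    (mn σ c * M) (σ i) j = c i * M i j := by
  rw [Matrix.mul_apply, Finset.sum_eq_single i]
  · simp [mn]
  · intro k _ hk
    have : σ i ≠ σ k := fun h => hk (σ.injective h).symm
    simp [mn, this]
  · intro h; exact absurd (Finset.mem_univ _) h

lemma mn_mulVec_apply (σ : Equiv.Perm (Fin 4)) (c x : Fin 4 → F) (i : Fin 4) :
    (mn σ c *ᵥ x) (σ i) = c i * x i := by
  rw [Matrix.mulVec, dotProduct, Finset.sum_eq_single i]
  · simp [mn]
  · intro k _ hk
    have : σ i ≠ σ k := fun h => hk (σ.injective h).symm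
    simp [mn, this]
  · intro h; exact absurd (Finset.mem_univ _) h

def D1 : Fin 4 → F := ![1, 1, -1, -1]
def D2 : Fin 4 → F := ![1, -1, 1, -1]
def D3 : Fin 4 → F := ![1, -1, -1, 1]

lemma inA_D1 : InA (D1 : Fin 4 → F) := by
  refine ⟨fun u v => ?_, by simp [Fin.prod_univ_four, D1]⟩
  fin_cases u <;> fin_cases v <;> simp [D1]

lemma inA_D2 : InA (D2 : Fin 4 → F) := by
  refine ⟨fun u v => ?_, by simp [Fin.prod_univ_four, D2]⟩
  fin_cases u <;> fin_cases v <;> simp [D2]

lemma inA_D3 : InA (D3 : Fin 4 → F) := by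
  refine ⟨fun u v => ?_, by simp [Fin.prod_univ_four, D3]⟩
  fin_cases u <;> fin_cases v <;> simp [D3]

lemma sum_sq_D (i j : Fin 4) (hij : i ≠ j) :
    ((D1 j - D1 i) ^ 2 + (D2 j - D2 i) ^ 2 + (D3 j - D3 i) ^ 2 : F) = 8 := by
  fin_cases i <;> fin_cases j <;> first | exact absurd rfl hij | (simp [D1, D2, D3]; norm_num)

lemma sum_D (i : Fin 4) : (1 + D1 i + D2 i + D3 i : F) = if i = 0 then 4 else 0 := by
  fin_cases i <;> (simp [D1, D2, D3]; try norm_num)

theorem absIrred_R0 (h2 : (2 : F) ≠ 0) (hF : ∀ c : F, c ≠ 0 → c ^ 4 = 1) :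
    ActsAbsolutelyIrreducibly (matrixSet (R0 h2 hF)) := by
  have h4 : (4 : F) ≠ 0 := by
    have : (4 : F) = 2 * 2 := by norm_num
    rw [this]
    exact mul_ne_zero h2 h2
  have h8 : (8 : F) ≠ 0 := by
    have : (8 : F) = 2 * 4 := by norm_num
    rw [this]
    exact mul_ne_zero h2 h4
  have hone : InA (fun _ : Fin 4 => (1 : F)) := InA.const (by simp)
  refine ⟨?_, ?_⟩
  · rw [actsIrreducibly_iff]
    intro W hW
    have hmn : ∀ (w : Fin 4) (a : Fin 4 → F), InA a → ∀ x ∈ W, mn (X w) a *ᵥ x ∈ W := by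
      intro w a ha x hx
      obtain ⟨g, hg, hgv⟩ := exists_mem_R0 h2 hF w ha
      rw [← hgv]
      exact hW g hg x hx
    by_cases hbot : W = ⊥
    · exact Or.inl hbot
    right
    obtain ⟨x, hx, hx0⟩ := Submodule.exists_mem_ne_zero_of_ne_bot hbot
    obtain ⟨v, hv⟩ : ∃ v, x v ≠ 0 := by
      by_contra hcon
      push Not at hcon
      exact hx0 (funext hcon)
    set y := mn (X v) (fun _ => (1 : F)) *ᵥ x with hy
    have hyW : y ∈ W := hmn v _ hone x hx
    have hy0 : y 0 = x v := by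
      have := mn_mulVec_apply (X v) (fun _ => (1 : F)) x v
      rw [X_apply, one_mul] at this
      rw [← this, hy]
      congr 1
      exact (by decide : ∀ v : Fin 4, 0 = v ^^^ v) v
    have hdiag : ∀ (a : Fin 4 → F) (i : Fin 4), (mn (X 0) a *ᵥ y) i = a i * y i := by
      intro a i
      have := mn_mulVec_apply (X 0) a y i
      rwa [X_zero] at this ⊢
    have he0 : (Pi.single 0 1 : Fin 4 → F) ∈ W := by
      have h1 : y + mn (X 0) D1 *ᵥ y + mn (X 0) D2 *ᵥ y + mn (X 0) D3 *ᵥ y ∈ W :=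
        W.add_mem (W.add_mem (W.add_mem hyW (hmn 0 _ inA_D1 y hyW)) (hmn 0 _ inA_D2 y hyW))
          (hmn 0 _ inA_D3 y hyW)
      have h3 : y + mn (X 0) D1 *ᵥ y + mn (X 0) D2 *ᵥ y + mn (X 0) D3 *ᵥ y =
          (4 * x v) • (Pi.single 0 1 : Fin 4 → F) := by
        funext i
        simp only [Pi.add_apply, hdiag, Pi.smul_apply, smul_eq_mul, Pi.single_apply]
        have h5 := sum_D (F := F) i
        by_cases hi : i = 0
        · subst hi
          rw [if_pos rfl] at h5 ⊢
          rw [← hy0]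
          linear_combination (y 0) * h5
        · rw [if_neg hi] at h5 ⊢
          linear_combination (y i) * h5
      rw [h3] at h1
      have h6 := W.smul_mem (4 * x v)⁻¹ h1
      rwa [smul_smul, inv_mul_cancel₀ (mul_ne_zero h4 hv), one_smul] at h6
    have he : ∀ i : Fin 4, (Pi.single i 1 : Fin 4 → F) ∈ W := by
      intro i
      have h1 := hmn i _ hone _ he0
      rw [mn_mulVec_single, one_smul, X_apply] at h1
      have : (0 : Fin 4) ^^^ i = i := (by decide : ∀ i : Fin 4, (0 : Fin 4) ^^^ i = i) i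
      rwa [this] at h1
    rw [eq_top_iff]
    intro z _
    have hz : z = ∑ i, z i • (Pi.single i 1 : Fin 4 → F) := by
      funext k
      simp [Finset.sum_apply, Pi.single_apply]
    rw [hz]
    exact W.sum_mem fun i _ => W.smul_mem _ (he i)
  · intro M hM
    have hmn : ∀ (w : Fin 4) (a : Fin 4 → F), InA a → M * mn (X w) a = mn (X w) a * M := by
      intro w a ha
      obtain ⟨g, hg, hgv⟩ := exists_mem_R0 h2 hF w ha
      rw [← hgv]
      exact hM _ ⟨g, hg, rfl⟩
    have key : ∀ (a : Fin 4 → F), InA a → ∀ i j, M i j * a j = a i * M i j := by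
      intro a ha i j
      have h1 := congrFun (congrFun (hmn 0 a ha) i) j
      rw [X_zero, mul_mn_apply] at h1
      have h3 := mn_mul_apply M 1 a i j
      rw [Equiv.Perm.one_apply] at h1 h3
      rw [h1, h3]
    have hoff : ∀ i j, i ≠ j → M i j = 0 := by
      intro i j hij
      have k1 := key D1 inA_D1 i j
      have k2 := key D2 inA_D2 i j
      have k3 := key D3 inA_D3 i j
      have h5 := sum_sq_D (F := F) i j hij
      have h6 : (8 : F) * M i j = 0 := by
        rw [← h5]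
        linear_combination (D1 j - D1 i) * k1 + (D2 j - D2 i) * k2 + (D3 j - D3 i) * k3
      exact (mul_eq_zero.mp h6).resolve_left h8
    have hdiag : ∀ v, M v v = M 0 0 := by
      intro v
      have h1 := congrFun (congrFun (hmn v _ hone) v) 0
      rw [mul_mn_apply] at h1
      have h3 := mn_mul_apply M (X v) (fun _ => (1 : F)) 0 0
      rw [X_apply] at h1 h3
      have : (0 : Fin 4) ^^^ v = v := (by decide : ∀ i : Fin 4, (0 : Fin 4) ^^^ i = i) v
      rw [this] at h1 h3
      rw [h3] at h1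
      simpa using h1
    refine ⟨M 0 0, ?_⟩
    ext i j
    by_cases hij : i = j
    · subst hij
      simp [hdiag]
    · simp [hoff i j hij, hij]

lemma inA_ratio (h2 : (2 : F) ≠ 0) (hF : ∀ c : F, c ≠ 0 → c ^ 4 = 1) {c : Fin 4 → F} (hc0 : ∀ i, c i ≠ 0)
    (hprod : (∏ j, c j) * (∏ j, c j) = 1) (w : Fin 4) : InA (fun j => c (j ^^^ w) * (c j)⁻¹) := by
  have hγ : InA (fun j => c j * c j) := by
    refine ⟨fun u v => ?_, by rw [Finset.prod_mul_distrib, hprod]⟩
    have h1 := hF _ (hc0 u)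
    have h3 := hF _ (hc0 v)
    linear_combination h1 - h3
  obtain ⟨ε, _, h⟩ := hγ.shift h2 hF w
  have hsq : ∀ u, c (u ^^^ w) * (c u)⁻¹ * (c (u ^^^ w) * (c u)⁻¹) = ε := by
    intro u
    have h1 := h u
    have h3 := hc0 u
    field_simp
    linear_combination h1
  refine ⟨fun u v => by rw [hsq, hsq], ?_⟩
  rw [Finset.prod_mul_distrib, Finset.prod_inv_distrib]
  have h1 : ∏ j, c (j ^^^ w) = ∏ j, c j := Equiv.prod_comp (X w) c
  rw [h1]
  apply mul_inv_cancel₀
  intro h0
  rw [h0] at hprod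
  simp at hprod

/-- monomial matrices whose determinant squares to one normalise the group -/
lemma normalizes_aux (h2 : (2 : F) ≠ 0) (hF : ∀ c : F, c ≠ 0 → c ^ 4 = 1) (π : Equiv.Perm (Fin 4))
    {c : Fin 4 → F} (hc0 : ∀ i, c i ≠ 0) (hprod : (∏ j, c j) * (∏ j, c j) = 1)
    {a : Fin 4 → F} (ha : InA a) (w : Fin 4) :
    ∃ (w' : Fin 4) (a' : Fin 4 → F), InA a' ∧ mn π c * mn (X w) a = mn (X w') a' * mn π c := by
  refine ⟨π w ^^^ π 0, fun k => (c (π.symm k ^^^ w) * (c (π.symm k))⁻¹) * a (π.symm k),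
    ((inA_ratio h2 hF hc0 hprod w).mul ha).comp π.symm, ?_⟩
  rw [mn_mul, mn_mul]
  have h1 : π * X w = X (π w ^^^ π 0) * π := by
    ext j
    show ((π (j ^^^ w) : Fin 4) : ℕ) = ((π j ^^^ (π w ^^^ π 0) : Fin 4) : ℕ)
    rw [perm_affine]
  rw [h1]
  congr 1
  funext j
  rw [X_apply, Equiv.symm_apply_apply]
  have := hc0 j
  field_simp

end four

section conj

variable {n : ℕ} {F : Type*} [Field F]

lemma absIrred_cj {T : Subgroup (GL (Fin n) F)} (B : GL (Fin n) F)
    (h : ActsAbsolutelyIrreducibly (matrixSet T)) : ActsAbsolutelyIrreducibly (matrixSet (cj B T)) := by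
  refine ⟨?_, ?_⟩
  · rw [actsIrreducibly_iff]
    intro W hW
    have h1 := (actsIrreducibly_iff.mp h.1) (W.comap (Matrix.toLin' (B : Matrix (Fin n) (Fin n) F))) (by
      intro t ht v hv
      rw [Submodule.mem_comap, Matrix.toLin'_apply] at hv ⊢
      have h3 := hW (B * t * B⁻¹) (conj_mem_cj ht) _ hv
      rw [Units.val_mul, Units.val_mul, ← Matrix.mulVec_mulVec, inv_mulVec_mulVec, ← Matrix.mulVec_mulVec] at h3
      exact h3)
    rcases h1 with h1 | h1
    · left
      rw [eq_bot_iff]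
      intro w hw
      have h3 : ((B⁻¹ : GL (Fin n) F) : Matrix (Fin n) (Fin n) F) *ᵥ w ∈
          W.comap (Matrix.toLin' (B : Matrix (Fin n) (Fin n) F)) := by
        rw [Submodule.mem_comap, Matrix.toLin'_apply, mulVec_inv_mulVec]
        exact hw
      rw [h1, Submodule.mem_bot] at h3
      have h4 := congrArg (fun v => (B : Matrix (Fin n) (Fin n) F) *ᵥ v) h3
      simp only [mulVec_inv_mulVec, Matrix.mulVec_zero] at h4
      rw [Submodule.mem_bot]
      exact h4
    · right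
      rw [eq_top_iff]
      intro w _
      have h3 : ((B⁻¹ : GL (Fin n) F) : Matrix (Fin n) (Fin n) F) *ᵥ w ∈
          W.comap (Matrix.toLin' (B : Matrix (Fin n) (Fin n) F)) := by
        rw [h1]
        exact Submodule.mem_top
      rwa [Submodule.mem_comap, Matrix.toLin'_apply, mulVec_inv_mulVec] at h3
  · intro M hM
    have hBi : ((B⁻¹ : GL (Fin n) F) : Matrix (Fin n) (Fin n) F) * (B : Matrix (Fin n) (Fin n) F) = 1 := by
      rw [← Units.val_mul, inv_mul_cancel, Units.val_one]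
    have hiB : (B : Matrix (Fin n) (Fin n) F) * ((B⁻¹ : GL (Fin n) F) : Matrix (Fin n) (Fin n) F) = 1 := by
      rw [← Units.val_mul, mul_inv_cancel, Units.val_one]
    obtain ⟨c, hc⟩ := h.2 (((B⁻¹ : GL (Fin n) F) : Matrix (Fin n) (Fin n) F) * M * B) (by
      rintro _ ⟨t, ht, rfl⟩
      have h3 := hM _ ⟨B * t * B⁻¹, conj_mem_cj ht, rfl⟩
      simp only [Units.val_mul] at h3
      calc ((B⁻¹ : GL (Fin n) F) : Matrix (Fin n) (Fin n) F) * M * B * t
          = ((B⁻¹ : GL (Fin n) F) : Matrix (Fin n) (Fin n) F) *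
              (M * ((B : Matrix (Fin n) (Fin n) F) * t * ((B⁻¹ : GL (Fin n) F) : Matrix (Fin n) (Fin n) F))) * B := by
            simp only [mul_assoc, hBi, mul_one]
        _ = ((B⁻¹ : GL (Fin n) F) : Matrix (Fin n) (Fin n) F) *
              (((B : Matrix (Fin n) (Fin n) F) * t * ((B⁻¹ : GL (Fin n) F) : Matrix (Fin n) (Fin n) F)) * M) * B := by
            rw [h3]
        _ = (((B⁻¹ : GL (Fin n) F) : Matrix (Fin n) (Fin n) F) * B) * t *
              (((B⁻¹ : GL (Fin n) F) : Matrix (Fin n) (Fin n) F) * M * B) := by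
            simp only [mul_assoc]
        _ = t * (((B⁻¹ : GL (Fin n) F) : Matrix (Fin n) (Fin n) F) * M * B) := by
            rw [hBi, one_mul])
    refine ⟨c, ?_⟩
    calc M = (B : Matrix (Fin n) (Fin n) F) * (((B⁻¹ : GL (Fin n) F) : Matrix (Fin n) (Fin n) F) * M * B) *
          ((B⁻¹ : GL (Fin n) F) : Matrix (Fin n) (Fin n) F) := by
          rw [mul_assoc, mul_assoc, mul_assoc, hiB, mul_one, ← mul_assoc, hiB, one_mul]
      _ = c • (1 : Matrix (Fin n) (Fin n) F) := by
          rw [hc, Matrix.mul_smul, mul_one, Matrix.smul_mul, hiB]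

end conj

/-- [D11] -/
theorem lines_five {F : Type*} [Field F] [Fintype F] (hq : Fintype.card F = 5)
    (D : Fin 4 → Submodule F (Fin 4 → F)) (hD : IsMDecomposition 1 D) :
    ∃ R : Subgroup (GL (Fin 4) F), IsLinearSymplecticTypeData 2 R ∧
      decompositionStabilizer D ⊓ specialLinear (Fin 4) F ≤ subgroupNormalizer R := by
  obtain ⟨B, hB⟩ := Cfsg.Agent.Lib.Helper97AschMono.monomial D hD
  have : Fact (Nat.Prime 5) := ⟨by norm_num⟩
  have hch : CharP F 5 := charP_of_card_eq_prime hq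
  have h5 : (5 : F) = 0 := by
    have := CharP.cast_eq_zero F 5
    exact_mod_cast this
  have h2 : (2 : F) ≠ 0 := by
    intro h
    have h1 : (1 : F) = 0 := by linear_combination h5 - 2 * h
    exact one_ne_zero h1
  have hF : ∀ c : F, c ≠ 0 → c ^ 4 = 1 := by
    intro c hc
    have := FiniteField.pow_card_sub_one_eq_one c hc
    rwa [hq] at this
  refine ⟨cj B (R0 h2 hF), ?_, ?_⟩
  · obtain ⟨I, hIR, hI⟩ := exists_mem_R0 h2 hF 0 (InA.const (hF 2 h2))
    rw [X_zero, mn_one_const] at hI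
    apply Cfsg.Agent.Lib.Helper67AschSympTwo.symplecticData_two (p := 5) (by norm_num)
      ⟨by norm_num, hch, by simpa using hq, by norm_num, by intro d h1 h3; omega⟩ (by simp) I 2 hI
      (by linear_combination h5)
    · rw [mem_cj]
      have : B⁻¹ * I * B = I := by
        apply Units.ext
        simp [hI]
      rw [this]
      exact hIR
    · intro x hx
      rw [mem_cj] at hx
      obtain ⟨w, a, ha, hv⟩ := hx
      have hx' : x = B * (B⁻¹ * x * B) * B⁻¹ := by group
      have hxx : x * x = B * ((B⁻¹ * x * B) * (B⁻¹ * x * B)) * B⁻¹ := by group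
      rcases mn_sq h2 hF ha w with h | h
      · left
        have h1 : (B⁻¹ * x * B) * (B⁻¹ * x * B) = 1 := by
          apply Units.ext
          rw [Units.val_mul, hv, h, Units.val_one]
        rw [hxx, h1]
        group
      · right
        have h1 : (B⁻¹ * x * B) * (B⁻¹ * x * B) = -1 := by
          apply Units.ext
          rw [Units.val_mul, hv, h, Units.val_neg, Units.val_one]
        rw [hxx, h1]
        simp
    · intro x hx y hy
      rw [mem_cj] at hx hy
      obtain ⟨w, a, ha, hv⟩ := hx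
      obtain ⟨u, b, hb, hv'⟩ := hy
      have hxy : x * y = B * ((B⁻¹ * x * B) * (B⁻¹ * y * B)) * B⁻¹ := by group
      have hyx : y * x = B * ((B⁻¹ * y * B) * (B⁻¹ * x * B)) * B⁻¹ := by group
      rcases mn_comm h2 hF ha hb w u with h | h
      · left
        have h1 : (B⁻¹ * x * B) * (B⁻¹ * y * B) = (B⁻¹ * y * B) * (B⁻¹ * x * B) := by
          apply Units.ext
          rw [Units.val_mul, hv, hv', h, Units.val_mul, hv, hv']
        rw [hxy, hyx, h1]
      · right
        have h1 : (B⁻¹ * x * B) * (B⁻¹ * y * B) = -((B⁻¹ * y * B) * (B⁻¹ * x * B)) := by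
          apply Units.ext
          rw [Units.val_mul, hv, hv', h, Units.val_neg, Units.val_mul, hv, hv']
        rw [hxy, hyx, h1]
        simp
    · exact absIrred_cj B (absIrred_R0 h2 hF)
  · apply le_normalizer_of_Nz
    rintro g ⟨hg1, hg2⟩ x hx
    rw [mem_cj] at hx ⊢
    obtain ⟨π, c, hc0, hc⟩ := hB g hg1
    obtain ⟨w, a, ha, hv⟩ := hx
    have hG : ((B⁻¹ * g * B : GL (Fin 4) F) : Matrix (Fin 4) (Fin 4) F) = mn π c := by
      apply ext_single
      intro j
      rw [mn_mulVec_single]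
      funext k
      obtain ⟨i, rfl⟩ := π.surjective k
      have h1 := hc ((B : Matrix (Fin 4) (Fin 4) F) *ᵥ Pi.single j 1) i
      rw [inv_mulVec_mulVec] at h1
      rw [Units.val_mul, Units.val_mul, ← Matrix.mulVec_mulVec, ← Matrix.mulVec_mulVec, h1]
      by_cases hij : i = j
      · subst hij
        simp
      · have : π i ≠ π j := fun h => hij (π.injective h)
        simp [hij, this]
    have hdet : (mn π c).det = 1 := by
      rw [← hG, Units.val_mul, Units.val_mul, Matrix.det_mul, Matrix.det_mul,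
        mem_specialLinear_iff.mp hg2, mul_one, ← Matrix.det_mul, ← Units.val_mul, inv_mul_cancel,
        Units.val_one, Matrix.det_one]
    have hprod : (∏ j, c j) * (∏ j, c j) = 1 := by
      rw [prod_eq_of_det_mn π c, hdet, mul_one]
      rcases Int.units_eq_one_or (Equiv.Perm.sign π) with h | h <;> rw [h] <;> simp
    obtain ⟨w', a', ha', hrel⟩ := normalizes_aux h2 hF π hc0 hprod ha w
    refine ⟨w', a', ha', ?_⟩
    have e1 : B⁻¹ * (g * x * g⁻¹) * B = (B⁻¹ * g * B) * (B⁻¹ * x * B) * (B⁻¹ * g * B)⁻¹ := by group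
    rw [e1, Units.val_mul, Units.val_mul, hv, hG, hrel, ← hG, mul_assoc, ← Units.val_mul, mul_inv_cancel,
      Units.val_one, mul_one]

end Cfsg.Agent.Lib.Helper67AschLines5
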