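import Cfsg.Agent.Lib.Helper13UDefs

set_option autoImplicit false

/-! PROJECT 4 = ASCH-U: decompositions attached to an orthonormal basis and a colouring of the basis vectors;
a criterion for membership in a decomposition stabiliser; the field with four elements. -/

namespace Cfsg.Agent.Lib.Helper74UDec

open Cfsg Cfsg.Geo Matrix
open Cfsg.Agent.Lib.Helper97AschBase Cfsg.Agent.Lib.Helper97AschForms
  Cfsg.Agent.Lib.Helper97UBase Cfsg.Agent.Lib.Helper13UDefs
open scoped MatrixGroups Kronecker

variable {n : ℕ} {F : Type*} [Field F] {σ : F ≃+* F} {f : (Fin n → F) → (Fin n → F) → F}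

/-! ### the field with four elements -/

theorem two_eq_zero_of_card [Fintype F] (h : Fintype.card F = 2 ^ 2) : (2 : F) = 0 := by
  have h4 : ((Fintype.card F : ℕ) : F) = 0 := Nat.cast_card_eq_zero F
  rw [h] at h4
  have h5 : (2 : F) * 2 = 0 := by
    have : (((2 ^ 2 : ℕ)) : F) = 2 * 2 := by norm_num
    rw [← this]
    exact h4
  exact mul_self_eq_zero.mp h5

theorem norm_eq_one_of_ne [Fintype F] (hU : US σ f 2) {x : F} (hx : x ≠ 0) : x * σ x = 1 := by
  rw [hU.pow]
  have h := FiniteField.pow_card_sub_one_eq_one x hx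
  rw [hU.card] at h
  have e : x * x ^ 2 = x ^ (2 ^ 2 - 1) := by
    norm_num
    ring
  rw [e, h]

/-- in the field with four elements: if `N x + N y ≠ 0` then exactly one of `x`, `y` vanishes. -/
theorem one_zero_of_norm_add_ne [Fintype F] (hU : US σ f 2) {x y : F}
    (h : x * σ x + y * σ y ≠ 0) : (x ≠ 0 ∧ y = 0) ∨ (x = 0 ∧ y ≠ 0) := by
  by_cases hx : x = 0
  · by_cases hy : y = 0
    · subst hx hy
      simp at h
    · exact Or.inr ⟨hx, hy⟩
  · by_cases hy : y = 0
    · exact Or.inl ⟨hx, hy⟩
    · exfalso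
      apply h
      rw [norm_eq_one_of_ne hU hx, norm_eq_one_of_ne hU hy, one_add_one_eq_two]
      exact two_eq_zero_of_card hU.card

/-- in the field with four elements a non-zero fixed point of `σ` is `1`. -/
theorem eq_one_of_fixed [Fintype F] (hU : US σ f 2) {x : F} (hx : x ≠ 0) (hfix : σ x = x) : x = 1 := by
  rw [hU.pow] at hfix
  have h : x * (x - 1) = 0 := by linear_combination hfix
  rcases mul_eq_zero.mp h with h | h
  · exact absurd h hx
  · exact sub_eq_zero.mp h

/-! ### membership in a decomposition stabiliser -/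

theorem toLin'_injective (g : GL (Fin n) F) :
    Function.Injective (Matrix.toLin' (g : Matrix (Fin n) (Fin n) F)) := by
  intro x y hxy
  rw [Matrix.toLin'_apply, Matrix.toLin'_apply] at hxy
  have := congrArg (fun v => ((g⁻¹ : GL (Fin n) F) : Matrix (Fin n) (Fin n) F) *ᵥ v) hxy
  simpa [Matrix.mulVec_mulVec] using this

theorem mem_stab_of_le {t m : ℕ} {D : Fin t → Submodule F (Fin n → F)} (hD : IsMDecomposition m D)
    (g : GL (Fin n) F)
    (h : ∀ i, ∃ j, ∀ v ∈ D i, (g : Matrix (Fin n) (Fin n) F) *ᵥ v ∈ D j) :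
    g ∈ decompositionStabilizer D := by
  classical
  choose φ hφ using h
  have hginj := toLin'_injective g
  have hmap : ∀ i, (D i).map (Matrix.toLin' (g : Matrix (Fin n) (Fin n) F)) = D (φ i) := by
    intro i
    apply Submodule.eq_of_le_of_finrank_eq
    · rintro _ ⟨v, hv, rfl⟩
      rw [Matrix.toLin'_apply]
      exact hφ i v hv
    · rw [← (Submodule.equivMapOfInjective _ hginj (D i)).finrank_eq, hD.finrank_eq, hD.finrank_eq]
  have hne : ∀ i, D i ≠ ⊥ := by
    intro i hb
    have h1 := hD.finrank_eq i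
    rw [hb, finrank_bot] at h1
    have := hD.pos
    omega
  have hDinj : Function.Injective D := hD.indep.injective hne
  have hφinj : Function.Injective φ := by
    intro i i' hii
    apply hDinj
    apply Submodule.map_injective_of_injective hginj
    rw [hmap, hmap, hii]
  exact ⟨Equiv.ofBijective φ (Finite.injective_iff_bijective.mp hφinj), hmap⟩

/-! ### coordinates with respect to `P` -/

theorem mul_inv_mulVec (P : GL (Fin n) F) (v : Fin n → F) :
    (P : Matrix (Fin n) (Fin n) F) *ᵥ (((P⁻¹ : GL (Fin n) F) : Matrix (Fin n) (Fin n) F) *ᵥ v) = v := by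
  rw [Matrix.mulVec_mulVec, ← Units.val_mul, mul_inv_cancel, Units.val_one, Matrix.one_mulVec]

theorem inv_mul_mulVec (P : GL (Fin n) F) (v : Fin n → F) :
    ((P⁻¹ : GL (Fin n) F) : Matrix (Fin n) (Fin n) F) *ᵥ ((P : Matrix (Fin n) (Fin n) F) *ᵥ v) = v := by
  rw [Matrix.mulVec_mulVec, ← Units.val_mul, inv_mul_cancel, Units.val_one, Matrix.one_mulVec]

/-- the block of colour `i`: the vectors whose `P`-coordinates vanish outside the colour `i`. -/
def blk {t : ℕ} (P : GL (Fin n) F) (c : Fin n → Fin t) (i : Fin t) : Submodule F (Fin n → F) where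
  carrier := {v | ∀ j, c j ≠ i → (((P⁻¹ : GL (Fin n) F) : Matrix (Fin n) (Fin n) F) *ᵥ v) j = 0}
  add_mem' {a b} ha hb := by
    intro j hj
    rw [Matrix.mulVec_add, Pi.add_apply, ha j hj, hb j hj, add_zero]
  zero_mem' := by
    intro j _
    rw [Matrix.mulVec_zero, Pi.zero_apply]
  smul_mem' a v hv := by
    intro j hj
    rw [Matrix.mulVec_smul, Pi.smul_apply, hv j hj, smul_zero]

theorem mem_blk {t : ℕ} {P : GL (Fin n) F} {c : Fin n → Fin t} {i : Fin t} {v : Fin n → F} :
    v ∈ blk P c i ↔ ∀ j, c j ≠ i → (((P⁻¹ : GL (Fin n) F) : Matrix (Fin n) (Fin n) F) *ᵥ v) j = 0 :=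
  Iff.rfl

theorem mulVec_mem_blk {t : ℕ} {P : GL (Fin n) F} {c : Fin n → Fin t} {i : Fin t} {x : Fin n → F} :
    (P : Matrix (Fin n) (Fin n) F) *ᵥ x ∈ blk P c i ↔ ∀ j, c j ≠ i → x j = 0 := by
  rw [mem_blk, inv_mul_mulVec]

theorem col_mem_blk {t : ℕ} (P : GL (Fin n) F) (c : Fin n → Fin t) (j : Fin n) :
    (P : Matrix (Fin n) (Fin n) F) *ᵥ Pi.single j 1 ∈ blk P c (c j) := by
  rw [mulVec_mem_blk]
  intro k hk
  rw [Pi.single_apply, if_neg]
  rintro rfl
  exact hk rfl

theorem expand (P : GL (Fin n) F) (x : Fin n → F) :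
    (P : Matrix (Fin n) (Fin n) F) *ᵥ x =
      ∑ j, x j • ((P : Matrix (Fin n) (Fin n) F) *ᵥ Pi.single j 1) := by
  conv_lhs => rw [← Finset.univ_sum_single x]
  rw [Matrix.mulVec_sum]
  apply Finset.sum_congr rfl
  intro j _
  rw [single_eq_smul, Matrix.mulVec_smul]

theorem linearIndependent_cols (P : GL (Fin n) F) :
    LinearIndependent F (fun j : Fin n => (P : Matrix (Fin n) (Fin n) F) *ᵥ Pi.single j (1 : F)) := by
  have h1 := (Pi.basisFun F (Fin n)).linearIndependent
  have h2 := h1.map' (Matrix.toLin' (P : Matrix (Fin n) (Fin n) F))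
    (LinearMap.ker_eq_bot.mpr (toLin'_injective P))
  have e : (fun j : Fin n => (P : Matrix (Fin n) (Fin n) F) *ᵥ Pi.single j (1 : F)) =
      (Matrix.toLin' (P : Matrix (Fin n) (Fin n) F)) ∘ (Pi.basisFun F (Fin n)) := by
    funext j
    simp [Matrix.toLin'_apply]
  rw [e]
  exact h2

theorem blk_eq_span {t : ℕ} (P : GL (Fin n) F) (c : Fin n → Fin t) (i : Fin t) :
    blk P c i = Submodule.span F (Set.range
      (fun j : {j // c j = i} => (P : Matrix (Fin n) (Fin n) F) *ᵥ Pi.single (j : Fin n) (1 : F))) := by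
  apply le_antisymm
  · intro v hv
    rw [← mul_inv_mulVec P v, expand]
    apply Submodule.sum_mem
    intro j _
    by_cases hj : c j = i
    · exact Submodule.smul_mem _ _ (Submodule.subset_span ⟨⟨j, hj⟩, rfl⟩)
    · rw [hv j hj, zero_smul]
      exact Submodule.zero_mem _
  · rw [Submodule.span_le]
    rintro _ ⟨⟨j, hj⟩, rfl⟩
    have := col_mem_blk P c j
    rw [hj] at this
    exact this

theorem finrank_blk {t : ℕ} (P : GL (Fin n) F) (c : Fin n → Fin t) (i : Fin t) :
    Module.finrank F (blk P c i) = Fintype.card {j // c j = i} := by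
  rw [blk_eq_span]
  exact finrank_span_eq_card ((linearIndependent_cols P).comp _ Subtype.val_injective)

theorem isMDecomposition_blk {t m : ℕ} (P : GL (Fin n) F) (c : Fin n → Fin t) (ht : 2 ≤ t) (hm : 0 < m)
    (hc : ∀ i, Fintype.card {j // c j = i} = m) : IsMDecomposition m (blk P c) where
  two_le := ht
  pos := hm
  finrank_eq i := by rw [finrank_blk, hc]
  indep := by
    rw [iSupIndep_def]
    intro i
    let E : Submodule F (Fin n → F) :=
      { carrier := {v | ∀ j, c j = i → (((P⁻¹ : GL (Fin n) F) : Matrix (Fin n) (Fin n) F) *ᵥ v) j = 0}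
        add_mem' := by
          intro a b ha hb j hj
          rw [Matrix.mulVec_add, Pi.add_apply, ha j hj, hb j hj, add_zero]
        zero_mem' := by
          intro j _
          rw [Matrix.mulVec_zero, Pi.zero_apply]
        smul_mem' := by
          intro a v hv j hj
          rw [Matrix.mulVec_smul, Pi.smul_apply, hv j hj, smul_zero] }
    have hle : (⨆ j, ⨆ (_ : j ≠ i), blk P c j) ≤ E := by
      apply iSup₂_le
      intro j hj v hv k hk
      apply hv k
      rw [hk]
      exact hj.symm
    rw [Submodule.disjoint_def]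
    intro v hv hv'
    have hE := hle hv'
    have h0 : ((P⁻¹ : GL (Fin n) F) : Matrix (Fin n) (Fin n) F) *ᵥ v = 0 := by
      funext j
      by_cases hj : c j = i
      · exact hE j hj
      · exact hv j hj
    rw [← mul_inv_mulVec P v, h0, Matrix.mulVec_zero]
  iSup_eq_top := by
    rw [eq_top_iff]
    intro v _
    rw [← mul_inv_mulVec P v, expand]
    apply Submodule.sum_mem
    intro j _
    exact Submodule.smul_mem _ _ (Submodule.mem_iSup_of_mem (c j) (col_mem_blk P c j))

theorem form_col_right {P : GL (Fin n) F} (hP : IsON σ f P) (x : Fin n → F) (j : Fin n) :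
    f ((P : Matrix (Fin n) (Fin n) F) *ᵥ x) ((P : Matrix (Fin n) (Fin n) F) *ᵥ Pi.single j 1) = x j := by
  rw [hP, Finset.sum_eq_single j]
  · rw [Pi.single_eq_same, map_one, mul_one]
  · intro k _ hk
    rw [Pi.single_eq_of_ne hk, map_zero, mul_zero]
  · intro h
    exact absurd (Finset.mem_univ j) h

theorem form_col_left {P : GL (Fin n) F} (hP : IsON σ f P) (x : Fin n → F) (j : Fin n) :
    f ((P : Matrix (Fin n) (Fin n) F) *ᵥ Pi.single j 1) ((P : Matrix (Fin n) (Fin n) F) *ᵥ x) =
      σ (x j) := by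
  rw [hP, Finset.sum_eq_single j]
  · rw [Pi.single_eq_same, one_mul]
  · intro k _ hk
    rw [Pi.single_eq_of_ne hk, zero_mul]
  · intro h
    exact absurd (Finset.mem_univ j) h

/-- the coordinates are the Fourier coefficients -/
theorem coord_eq {P : GL (Fin n) F} (hP : IsON σ f P) (v : Fin n → F) (j : Fin n) :
    (((P⁻¹ : GL (Fin n) F) : Matrix (Fin n) (Fin n) F) *ᵥ v) j =
      f v ((P : Matrix (Fin n) (Fin n) F) *ᵥ Pi.single j 1) := by
  conv_rhs => rw [← mul_inv_mulVec P v]
  rw [form_col_right hP]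

theorem isNondegenerateMDecomposition_blk {t m : ℕ} {P : GL (Fin n) F} (hP : IsON σ f P)
    (c : Fin n → Fin t) (ht : 2 ≤ t) (hm : 0 < m) (hc : ∀ i, Fintype.card {j // c j = i} = m) :
    IsNondegenerateMDecomposition f m (blk P c) where
  decomp := isMDecomposition_blk P c ht hm hc
  nondegenerate := by
    intro i w hw hw0
    have hex : ∃ j, (((P⁻¹ : GL (Fin n) F) : Matrix (Fin n) (Fin n) F) *ᵥ w) j ≠ 0 := by
      by_contra hcon
      push Not at hcon
      apply hw0
      rw [← mul_inv_mulVec P w, funext hcon]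
      exact Matrix.mulVec_zero _
    obtain ⟨j, hj⟩ := hex
    have hcj : c j = i := by
      by_contra hne
      exact hj (hw j hne)
    have hmem : (P : Matrix (Fin n) (Fin n) F) *ᵥ Pi.single j 1 ∈ blk P c i := by
      have := col_mem_blk P c j
      rwa [hcj] at this
    constructor
    · refine ⟨_, hmem, ?_⟩
      rw [← mul_inv_mulVec P w, form_col_left hP]
      intro h0
      exact hj ((map_eq_zero σ).mp h0)
    · refine ⟨_, hmem, ?_⟩
      rw [← mul_inv_mulVec P w, form_col_right hP]
      exact hj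
  orthogonal := by
    intro i j hij u hu v hv
    rw [← mul_inv_mulVec P u, ← mul_inv_mulVec P v, hP]
    apply Finset.sum_eq_zero
    intro k _
    by_cases hk : c k = i
    · rw [hv k (by rw [hk]; exact hij), map_zero, mul_zero]
    · rw [hu k hk, zero_mul]

/-! ### an orthonormal family of `n` vectors is an orthonormal basis -/

theorem form_sum_left (hf : IsUnitaryForm σ f) (x : Fin n → F) (b : Fin n → Fin n → F) (v : Fin n → F) :
    f (∑ j, x j • b j) v = ∑ j, x j * f (b j) v := by
  classical
  have key : ∀ s : Finset (Fin n), f (∑ j ∈ s, x j • b j) v = ∑ j ∈ s, x j * f (b j) v := by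
    intro s
    induction s using Finset.induction_on with
    | empty =>
      simp only [Finset.sum_empty]
      have := hf.smul_left 0 0 v
      rwa [zero_smul, zero_mul] at this
    | insert a s ha ih =>
      rw [Finset.sum_insert ha, Finset.sum_insert ha, hf.add_left, hf.smul_left, ih]
  exact key Finset.univ

theorem exists_ON_of_family (hf : IsUnitaryForm σ f) (b : Fin n → Fin n → F)
    (hb : ∀ i j, f (b i) (b j) = if i = j then 1 else 0) :
    ∃ P : GL (Fin n) F, IsON σ f P ∧ ∀ j, (P : Matrix (Fin n) (Fin n) F) *ᵥ Pi.single j 1 = b j := by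
  classical
  let M : Matrix (Fin n) (Fin n) F := Matrix.of fun i j => b j i
  have hM : ∀ x : Fin n → F, M *ᵥ x = ∑ j, x j • b j := by
    intro x
    funext i
    simp only [Matrix.mulVec, dotProduct, M, Matrix.of_apply, Finset.sum_apply, Pi.smul_apply,
      smul_eq_mul]
    apply Finset.sum_congr rfl
    intro j _
    exact mul_comm _ _
  have hform : ∀ x y : Fin n → F, f (M *ᵥ x) (M *ᵥ y) = ∑ i, x i * σ (y i) := by
    intro x y
    rw [hM x, form_sum_left hf]
    apply Finset.sum_congr rfl
    intro i _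
    congr 1
    rw [hf.herm, hM y, form_sum_left hf, Finset.sum_eq_single i]
    · rw [hb, if_pos rfl, mul_one]
    · intro k _ hk
      rw [hb, if_neg hk, mul_zero]
    · intro h
      exact absurd (Finset.mem_univ i) h
  have hinj : Function.Injective M.mulVec := by
    intro x y hxy
    funext j
    have h1 := hform x (Pi.single j 1)
    have h2 := hform y (Pi.single j 1)
    have hxy' : M *ᵥ x = M *ᵥ y := hxy
    rw [hxy', h2] at h1
    have e : ∀ z : Fin n → F, ∑ i, z i * σ ((Pi.single j 1 : Fin n → F) i) = z j := by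
      intro z
      rw [Finset.sum_eq_single j]
      · rw [Pi.single_eq_same, map_one, mul_one]
      · intro k _ hk
        rw [Pi.single_eq_of_ne hk, map_zero, mul_zero]
      · intro h
        exact absurd (Finset.mem_univ j) h
    rw [e, e] at h1
    exact h1.symm
  obtain ⟨P, hP⟩ := Matrix.mulVec_injective_iff_isUnit.mp hinj
  refine ⟨P, ?_, ?_⟩
  · intro x y
    rw [hP]
    exact hform x y
  · intro j
    rw [hP, hM, Finset.sum_eq_single j]
    · rw [Pi.single_eq_same, one_smul]
    · intro k _ hk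
      rw [Pi.single_eq_of_ne hk, zero_smul]
    · intro h
      exact absurd (Finset.mem_univ j) h

end Cfsg.Agent.Lib.Helper74UDec
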