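import Cfsg.Agent.Lib.Helper57UMax
import Cfsg.Agent.Lib.Helper17AschUSub
import Cfsg.Agent.Lib.Helper67AschLines5
import Cfsg.Agent.Lib.Helper74UDec
import Cfsg.Agent.Lib.Helper57AschA

set_option autoImplicit false

/-! SU_4(3): the monomial group `4^3 : S_4` normalises `4 ∘ 2^{1+4}` (piece PA of the SU_4 project);
adaptation of `Helper67AschLines5`. -/

namespace Cfsg.Agent.Lib.Helper76U4PA

open Cfsg Cfsg.Geo Matrix
open Cfsg.Agent.Lib.Helper97AschBase Cfsg.Agent.Lib.Helper97AschCore Cfsg.Agent.Lib.Helper97UBase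
  Cfsg.Agent.Lib.Helper13UDefs Cfsg.Agent.Lib.Helper67AschLines5
open scoped MatrixGroups commutatorElement

section four

variable {F : Type*} [Field F]

/-- coefficient functions: fourth roots of unity, constant square, product one. -/
def InB (a : Fin 4 → F) : Prop := (∀ j, a j ^ 4 = 1) ∧ InA a

lemma InB.mul {a b : Fin 4 → F} (ha : InB a) (hb : InB b) : InB (fun j => a j * b j) :=
  ⟨fun j => by rw [mul_pow, ha.1, hb.1, one_mul], ha.2.mul hb.2⟩

lemma InB.comp {a : Fin 4 → F} (ha : InB a) (σ : Equiv.Perm (Fin 4)) : InB (fun j => a (σ j)) :=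
  ⟨fun _ => ha.1 _, ha.2.comp σ⟩

lemma InB.const {c : F} (hc : c ^ 4 = 1) : InB (fun _ : Fin 4 => c) := ⟨fun _ => hc, InA.const hc⟩

/-- the key property of the coefficient functions -/
lemma shiftA (h2 : (2 : F) ≠ 0) {a : Fin 4 → F} (h4 : a 0 ^ 4 = 1) (ha : InA a)
    (u : Fin 4) : ∃ ε : F, (ε = 1 ∨ ε = -1) ∧ ∀ j, a (j ^^^ u) = ε * a j := by
  have hp := ha.2
  rw [Fin.prod_univ_four] at hp
  fin_cases u
  · refine ⟨1, Or.inl rfl, fun j => ?_⟩
    rw [one_mul]
    congr 1
    revert j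
    decide
  · obtain ⟨ε, hε, e1, e2, e3, e4⟩ := four_aux h2 h4 (ha.1 1 0) (ha.1 2 0) (ha.1 3 0) hp
    refine ⟨ε, hε, fun j => ?_⟩
    fin_cases j
    · exact e1
    · exact e2
    · exact e3
    · exact e4
  · obtain ⟨ε, hε, e1, e2, e3, e4⟩ := four_aux h2 h4 (ha.1 2 0) (ha.1 1 0) (ha.1 3 0)
      (by linear_combination hp)
    refine ⟨ε, hε, fun j => ?_⟩
    fin_cases j
    · exact e1
    · exact e3
    · exact e2
    · exact e4
  · obtain ⟨ε, hε, e1, e2, e3, e4⟩ := four_aux h2 h4 (ha.1 3 0) (ha.1 1 0) (ha.1 2 0)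
      (by linear_combination hp)
    refine ⟨ε, hε, fun j => ?_⟩
    fin_cases j
    · exact e1
    · exact e3
    · exact e4
    · exact e2


lemma InB.shift (h2 : (2 : F) ≠ 0) {a : Fin 4 → F} (ha : InB a) (u : Fin 4) :
    ∃ ε : F, (ε = 1 ∨ ε = -1) ∧ ∀ j, a (j ^^^ u) = ε * a j := shiftA h2 (ha.1 0) ha.2 u

lemma sq_pmB {c : F} (h : c ^ 4 = 1) : c * c = 1 ∨ c * c = -1 := by
  have h1 : (c * c - 1) * (c * c + 1) = 0 := by linear_combination h
  rcases mul_eq_zero.mp h1 with h | h
  · exact Or.inl (sub_eq_zero.mp h)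
  · exact Or.inr (eq_neg_of_add_eq_zero_left h)

/-- squares -/
lemma mn_sqB (h2 : (2 : F) ≠ 0) {a : Fin 4 → F} (ha : InB a) (w : Fin 4) :
    mn (X w) a * mn (X w) a = 1 ∨ mn (X w) a * mn (X w) a = -1 := by
  obtain ⟨ε, hε, h⟩ := ha.shift h2 w
  have h1 : mn (X w) a * mn (X w) a = (ε * (a 0 * a 0)) • (1 : Matrix (Fin 4) (Fin 4) F) := by
    rw [mn_mul, X_self, ← mn_one_const]
    congr 1
    funext j
    rw [X_apply, h, mul_assoc, ha.2.1 j 0]
  rw [h1]
  rcases hε with rfl | rfl <;> rcases sq_pmB (ha.1 0) with h3 | h3 <;> rw [h3] <;> simp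

/-- commutation -/
lemma mn_commB (h2 : (2 : F) ≠ 0) {a b : Fin 4 → F} (ha : InB a)
    (hb : InB b) (w u : Fin 4) :
    mn (X w) a * mn (X u) b = mn (X u) b * mn (X w) a ∨
      mn (X w) a * mn (X u) b = -(mn (X u) b * mn (X w) a) := by
  obtain ⟨ε, hε, h⟩ := ha.shift h2 u
  obtain ⟨δ, hδ, h'⟩ := hb.shift h2 w
  have hwu : u ^^^ w = w ^^^ u := (by decide : ∀ u w : Fin 4, u ^^^ w = w ^^^ u) u w
  have h1 : mn (X w) a * mn (X u) b = ε • mn (X (u ^^^ w)) (fun j => a j * b j) := by
    rw [mn_mul, X_mul, ← mn_smul]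
    congr 1
    funext j
    rw [X_apply, h, mul_assoc]
  have h3 : mn (X u) b * mn (X w) a = δ • mn (X (u ^^^ w)) (fun j => a j * b j) := by
    rw [mn_mul, X_mul, ← mn_smul, hwu]
    congr 1
    funext j
    rw [X_apply, h']
    ring
  rw [h1, h3]
  rcases hε with rfl | rfl <;> rcases hδ with rfl | rfl <;> simp

/-- the group `4 ∘ 2^{1+4}` in standard coordinates -/
def R1 (h2 : (2 : F) ≠ 0) : Subgroup (GL (Fin 4) F) where
  carrier := {g | ∃ (w : Fin 4) (a : Fin 4 → F), InB a ∧ (g : Matrix (Fin 4) (Fin 4) F) = mn (X w) a}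
  mul_mem' := by
    rintro g h ⟨w, a, ha, hg⟩ ⟨u, b, hb, hh⟩
    exact ⟨u ^^^ w, _, (ha.comp (X u)).mul hb, by rw [Units.val_mul, hg, hh, mn_mul, X_mul]⟩
  one_mem' := ⟨0, fun _ => 1, InB.const (by simp), by rw [X_zero, mn_one_const]; simp⟩
  inv_mem' := by
    rintro g ⟨w, a, ha, hg⟩
    rcases mn_sqB h2 ha w with h | h
    · refine ⟨w, a, ha, ?_⟩
      have : g⁻¹ = g := by
        rw [inv_eq_iff_mul_eq_one]
        apply Units.ext
        rw [Units.val_mul, hg, h]
        rfl
      rw [this, hg]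
    · refine ⟨w, fun j => (-1) * a j, (InB.const (c := (-1 : F)) (by norm_num)).mul ha, ?_⟩
      have : g⁻¹ = -g := by
        rw [inv_eq_iff_mul_eq_one]
        apply Units.ext
        simp [hg, h]
      rw [this, mn_smul, Units.val_neg, hg]
      simp

lemma mem_R1 {h2 : (2 : F) ≠ 0} {g : GL (Fin 4) F} :
    g ∈ R1 h2 ↔ ∃ (w : Fin 4) (a : Fin 4 → F), InB a ∧ (g : Matrix (Fin 4) (Fin 4) F) = mn (X w) a :=
  Iff.rfl

lemma exists_mem_R1 (h2 : (2 : F) ≠ 0) (w : Fin 4) {a : Fin 4 → F}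
    (ha : InB a) : ∃ g ∈ R1 h2, (g : Matrix (Fin 4) (Fin 4) F) = mn (X w) a := by
  rcases mn_sqB h2 ha w with h | h
  · exact ⟨⟨mn (X w) a, mn (X w) a, h, h⟩, ⟨w, a, ha, rfl⟩, rfl⟩
  · exact ⟨⟨mn (X w) a, -mn (X w) a, by simp [h], by simp [h]⟩, ⟨w, a, ha, rfl⟩, rfl⟩

lemma inB_D1 : InB (D1 : Fin 4 → F) := by
  refine ⟨fun j => ?_, inA_D1⟩
  fin_cases j <;> simp [D1] <;> norm_num

lemma inB_D2 : InB (D2 : Fin 4 → F) := by
  refine ⟨fun j => ?_, inA_D2⟩
  fin_cases j <;> simp [D2] <;> norm_num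

lemma inB_D3 : InB (D3 : Fin 4 → F) := by
  refine ⟨fun j => ?_, inA_D3⟩
  fin_cases j <;> simp [D3] <;> norm_num

theorem absIrred_R1 (h2 : (2 : F) ≠ 0) :
    ActsAbsolutelyIrreducibly (matrixSet (R1 h2)) := by
  have h4 : (4 : F) ≠ 0 := by
    have : (4 : F) = 2 * 2 := by norm_num
    rw [this]
    exact mul_ne_zero h2 h2
  have h8 : (8 : F) ≠ 0 := by
    have : (8 : F) = 2 * 4 := by norm_num
    rw [this]
    exact mul_ne_zero h2 h4
  have hone : InB (fun _ : Fin 4 => (1 : F)) := InB.const (by simp)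
  refine ⟨?_, ?_⟩
  · rw [actsIrreducibly_iff]
    intro W hW
    have hmn : ∀ (w : Fin 4) (a : Fin 4 → F), InB a → ∀ x ∈ W, mn (X w) a *ᵥ x ∈ W := by
      intro w a ha x hx
      obtain ⟨g, hg, hgv⟩ := exists_mem_R1 h2 w ha
      rw [← hgv]
      exact hW g hg x hx
    by_cases hbot : W = ⊥
    · exact Or.inl hbot
    right
    obtain ⟨x, hx, hx0⟩ := Submodule.exists_mem_ne_zero_of_ne_bot hbot
    obtain ⟨v, hv⟩ : ∃ v, x v ≠ 0 := by
      by_contra hcon
      push Not at hcon
      exact hx0 (funext hcon)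
    set y := mn (X v) (fun _ => (1 : F)) *ᵥ x with hy
    have hyW : y ∈ W := hmn v _ hone x hx
    have hy0 : y 0 = x v := by
      have := mn_mulVec_apply (X v) (fun _ => (1 : F)) x v
      rw [X_apply, one_mul] at this
      rw [← this, hy]
      congr 1
      exact (by decide : ∀ v : Fin 4, 0 = v ^^^ v) v
    have hdiag : ∀ (a : Fin 4 → F) (i : Fin 4), (mn (X 0) a *ᵥ y) i = a i * y i := by
      intro a i
      have := mn_mulVec_apply (X 0) a y i
      rwa [X_zero] at this ⊢
    have he0 : (Pi.single 0 1 : Fin 4 → F) ∈ W := by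
      have h1 : y + mn (X 0) D1 *ᵥ y + mn (X 0) D2 *ᵥ y + mn (X 0) D3 *ᵥ y ∈ W :=
        W.add_mem (W.add_mem (W.add_mem hyW (hmn 0 _ inB_D1 y hyW)) (hmn 0 _ inB_D2 y hyW))
          (hmn 0 _ inB_D3 y hyW)
      have h3 : y + mn (X 0) D1 *ᵥ y + mn (X 0) D2 *ᵥ y + mn (X 0) D3 *ᵥ y =
          (4 * x v) • (Pi.single 0 1 : Fin 4 → F) := by
        funext i
        simp only [Pi.add_apply, hdiag, Pi.smul_apply, smul_eq_mul, Pi.single_apply]
        have h5 := sum_D (F := F) i
        by_cases hi : i = 0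
        · subst hi
          rw [if_pos rfl] at h5 ⊢
          rw [← hy0]
          linear_combination (y 0) * h5
        · rw [if_neg hi] at h5 ⊢
          linear_combination (y i) * h5
      rw [h3] at h1
      have h6 := W.smul_mem (4 * x v)⁻¹ h1
      rwa [smul_smul, inv_mul_cancel₀ (mul_ne_zero h4 hv), one_smul] at h6
    have he : ∀ i : Fin 4, (Pi.single i 1 : Fin 4 → F) ∈ W := by
      intro i
      have h1 := hmn i _ hone _ he0
      rw [mn_mulVec_single, one_smul, X_apply] at h1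
      have : (0 : Fin 4) ^^^ i = i := (by decide : ∀ i : Fin 4, (0 : Fin 4) ^^^ i = i) i
      rwa [this] at h1
    rw [eq_top_iff]
    intro z _
    have hz : z = ∑ i, z i • (Pi.single i 1 : Fin 4 → F) := by
      funext k
      simp [Finset.sum_apply, Pi.single_apply]
    rw [hz]
    exact W.sum_mem fun i _ => W.smul_mem _ (he i)
  · intro M hM
    have hmn : ∀ (w : Fin 4) (a : Fin 4 → F), InB a → M * mn (X w) a = mn (X w) a * M := by
      intro w a ha
      obtain ⟨g, hg, hgv⟩ := exists_mem_R1 h2 w ha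
      rw [← hgv]
      exact hM _ ⟨g, hg, rfl⟩
    have key : ∀ (a : Fin 4 → F), InB a → ∀ i j, M i j * a j = a i * M i j := by
      intro a ha i j
      have h1 := congrFun (congrFun (hmn 0 a ha) i) j
      rw [X_zero, mul_mn_apply] at h1
      have h3 := mn_mul_apply M 1 a i j
      rw [Equiv.Perm.one_apply] at h1 h3
      rw [h1, h3]
    have hoff : ∀ i j, i ≠ j → M i j = 0 := by
      intro i j hij
      have k1 := key D1 inB_D1 i j
      have k2 := key D2 inB_D2 i j
      have k3 := key D3 inB_D3 i j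
      have h5 := sum_sq_D (F := F) i j hij
      have h6 : (8 : F) * M i j = 0 := by
        rw [← h5]
        linear_combination (D1 j - D1 i) * k1 + (D2 j - D2 i) * k2 + (D3 j - D3 i) * k3
      exact (mul_eq_zero.mp h6).resolve_left h8
    have hdiag : ∀ v, M v v = M 0 0 := by
      intro v
      have h1 := congrFun (congrFun (hmn v _ hone) v) 0
      rw [mul_mn_apply] at h1
      have h3 := mn_mul_apply M (X v) (fun _ => (1 : F)) 0 0
      rw [X_apply] at h1 h3
      have : (0 : Fin 4) ^^^ v = v := (by decide : ∀ i : Fin 4, (0 : Fin 4) ^^^ i = i) v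
      rw [this] at h1 h3
      rw [h3] at h1
      simpa using h1
    refine ⟨M 0 0, ?_⟩
    ext i j
    by_cases hij : i = j
    · subst hij
      simp [hdiag]
    · simp [hoff i j hij, hij]


lemma inB_ratio (h2 : (2 : F) ≠ 0) {c : Fin 4 → F} (hc4 : ∀ i, c i ^ 4 = 1)
    (hprod : (∏ j, c j) * (∏ j, c j) = 1) (w : Fin 4) : InB (fun j => c (j ^^^ w) * (c j)⁻¹) := by
  have hc0 : ∀ i, c i ≠ 0 := by
    intro i h
    have := hc4 i
    rw [h] at this
    simp at this
  have hγ : InA (fun j => c j * c j) := by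
    refine ⟨fun u v => ?_, by rw [Finset.prod_mul_distrib, hprod]⟩
    have h1 := hc4 u
    have h3 := hc4 v
    linear_combination h1 - h3
  have hγ4 : (c 0 * c 0) ^ 4 = 1 := by
    rw [mul_pow, hc4, one_mul]
  obtain ⟨ε, _, h⟩ := shiftA h2 hγ4 hγ w
  have hsq : ∀ u, c (u ^^^ w) * (c u)⁻¹ * (c (u ^^^ w) * (c u)⁻¹) = ε := by
    intro u
    have h1 := h u
    have h3 := hc0 u
    field_simp
    linear_combination h1
  refine ⟨fun j => by rw [mul_pow, inv_pow, hc4, hc4]; simp, fun u v => by rw [hsq, hsq], ?_⟩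
  rw [Finset.prod_mul_distrib, Finset.prod_inv_distrib]
  have h1 : ∏ j, c (j ^^^ w) = ∏ j, c j := Equiv.prod_comp (X w) c
  rw [h1]
  apply mul_inv_cancel₀
  intro h0
  rw [h0] at hprod
  simp at hprod

/-- monomial matrices whose determinant squares to one normalise the group -/
lemma normalizes_auxB (h2 : (2 : F) ≠ 0) (π : Equiv.Perm (Fin 4))
    {c : Fin 4 → F} (hc4 : ∀ i, c i ^ 4 = 1) (hprod : (∏ j, c j) * (∏ j, c j) = 1)
    {a : Fin 4 → F} (ha : InB a) (w : Fin 4) :
    ∃ (w' : Fin 4) (a' : Fin 4 → F), InB a' ∧ mn π c * mn (X w) a = mn (X w') a' * mn π c := by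
  have hc0 : ∀ i, c i ≠ 0 := by
    intro i h
    have := hc4 i
    rw [h] at this
    simp at this
  refine ⟨π w ^^^ π 0, fun k => (c (π.symm k ^^^ w) * (c (π.symm k))⁻¹) * a (π.symm k),
    ((inB_ratio h2 hc4 hprod w).mul ha).comp π.symm, ?_⟩
  rw [mn_mul, mn_mul]
  have h1 : π * X w = X (π w ^^^ π 0) * π := by
    ext j
    show ((π (j ^^^ w) : Fin 4) : ℕ) = ((π j ^^^ (π w ^^^ π 0) : Fin 4) : ℕ)
    rw [perm_affine]
  rw [h1]
  congr 1
  funext j
  rw [X_apply, Equiv.symm_apply_apply]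
  have := hc0 j
  field_simp

end four

section matrix

variable {ι : Type} [Fintype ι] [DecidableEq ι] {F : Type*} [Field F]

open Cfsg.Agent.Lib.Helper67AschSympTwo in
/-- Criterion for symplectic type with `r = 2` and centre of order four (any field of odd characteristic). -/
theorem symplecticType_two [Nonempty ι] {R : Subgroup (GL ι F)} (h2 : (2 : F) ≠ 0)
    (I : GL ι F) (i : F) (hI : (I : Matrix ι ι F) = i • (1 : Matrix ι ι F)) (hi : i * i = -1) (hIR : I ∈ R)
    (hsq : ∀ x ∈ R, x * x = 1 ∨ x * x = -1)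
    (hcm : ∀ x ∈ R, ∀ y ∈ R, x * y = y * x ∨ x * y = -(y * x))
    (habs : ActsAbsolutelyIrreducibly (matrixSet R)) :
    IsSymplecticTypeGroup 2 R ∧ Nat.card (Subgroup.center R) = 4 := by
  classical
  have hneg1 : (-1 : F) ≠ 1 := by
    intro h
    apply h2
    linear_combination -h
  have hm1 : (-1 : GL ι F) ≠ 1 := by
    intro h
    have h3 := congrArg (fun g : GL ι F => (g : Matrix ι ι F)) h
    simp only [Units.val_neg, Units.val_one] at h3
    apply hneg1
    apply smul_one_inj (ι := ι)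
    simpa using h3
  have hIc : ∀ g : GL ι F, I * g = g * I := by
    intro g
    apply Units.ext
    simp [hI]
  have hII : I * I = -1 := by
    apply Units.ext
    rw [Units.val_mul, hI, Units.val_neg, Units.val_one, Matrix.smul_mul, Matrix.one_mul, smul_smul, hi]
    simp
  have hnegc : ∀ g : GL ι F, (-1 : GL ι F) * g = g * (-1) := by
    intro g
    simp
  have hm1R : (-1 : GL ι F) ∈ R := hII ▸ R.mul_mem hIR hIR
  -- order of I
  have hI4 : orderOf I = 4 := by
    have : orderOf I = 2 ^ (1 + 1) := by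
      apply orderOf_eq_prime_pow
      · rw [pow_one, pow_two, hII]
        exact hm1
      · show I ^ 4 = 1
        rw [show (4 : ℕ) = 2 + 2 from rfl, pow_add, pow_two, hII]
        simp
    simpa using this
  -- central elements
  have hC : ∀ w ∈ R, (∀ u ∈ R, w * u = u * w) → w ∈ Subgroup.zpowers I := by
    intro w hw hwu
    obtain ⟨c, hc⟩ := habs.2 (w : Matrix ι ι F) (by
      rintro _ ⟨u, hu, rfl⟩
      rw [← Units.val_mul, ← Units.val_mul, hwu u hu])
    have hww : ((w * w : GL ι F) : Matrix ι ι F) = (c * c) • (1 : Matrix ι ι F) := by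
      rw [Units.val_mul, hc, Matrix.smul_mul, Matrix.one_mul, smul_smul]
    rw [Subgroup.mem_zpowers_iff]
    rcases hsq w hw with h | h
    · rw [h, Units.val_one] at hww
      have h3 : c * c = 1 := by
        apply smul_one_inj (ι := ι)
        rw [← hww, one_smul]
      have h4 : (c - 1) * (c + 1) = 0 := by linear_combination h3
      rcases mul_eq_zero.mp h4 with h5 | h5
      · refine ⟨0, ?_⟩
        apply Units.ext
        rw [hc, sub_eq_zero.mp h5]
        simp
      · refine ⟨2, ?_⟩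
        apply Units.ext
        rw [hc, eq_neg_of_add_eq_zero_left h5]
        have : I ^ (2 : ℤ) = I * I := by
          rw [show (2 : ℤ) = ((2 : ℕ) : ℤ) from rfl, zpow_natCast, pow_two]
        rw [this, hII]
        simp
    · rw [h, Units.val_neg, Units.val_one] at hww
      have h3 : c * c = -1 := by
        apply smul_one_inj (ι := ι)
        rw [← hww]
        simp
      have h4 : (c - i) * (c + i) = 0 := by linear_combination h3 - hi
      rcases mul_eq_zero.mp h4 with h5 | h5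
      · refine ⟨1, ?_⟩
        apply Units.ext
        rw [hc, sub_eq_zero.mp h5, zpow_one, hI]
      · refine ⟨3, ?_⟩
        apply Units.ext
        rw [hc, eq_neg_of_add_eq_zero_left h5]
        have : I ^ (3 : ℤ) = I * I * I := by
          rw [show (3 : ℤ) = ((3 : ℕ) : ℤ) from rfl, zpow_natCast, pow_succ, pow_two]
        rw [this, hII]
        simp [hI]
  let iR : R := ⟨I, hIR⟩
  have hiR4 : orderOf iR = 4 := by
    rw [← hI4]
    exact Subgroup.orderOf_mk I hIR
  have hcenter : Subgroup.center R = Subgroup.zpowers iR := by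
    apply le_antisymm
    · intro w hw
      have h3 := hC w w.2 (fun u hu => by
        have := Subgroup.mem_center_iff.mp hw ⟨u, hu⟩
        exact (congrArg Subtype.val this).symm)
      obtain ⟨k, hk⟩ := Subgroup.mem_zpowers_iff.mp h3
      rw [Subgroup.mem_zpowers_iff]
      refine ⟨k, Subtype.ext ?_⟩
      rw [← hk]
      simp [iR]
    · rw [Subgroup.zpowers_le, Subgroup.mem_center_iff]
      intro g
      apply Subtype.ext
      exact (hIc g).symm
  have hcardc : Nat.card (Subgroup.center R) = 4 := by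
    rw [hcenter, Nat.card_zpowers, hiR4]
  have hpow4 : ∀ g : R, g ^ 4 = 1 := by
    intro g
    apply Subtype.ext
    show (g : GL ι F) ^ 4 = 1
    rw [show (4 : ℕ) = 2 + 2 from rfl, pow_add, pow_two]
    rcases hsq g g.2 with h | h <;> rw [h] <;> simp
  refine ⟨⟨Nat.prime_two, ?_, ?_, ?_⟩, hcardc⟩
  · intro g
    exact ⟨2, hpow4 g⟩
  · intro A hchar hc
    have hle : A ≤ Subgroup.center R := by
      apply char_comm_le_center iR ⟨-1, hm1R⟩ _ _ _ _ _ A hchar
      · intro a ha b hb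
        have := hc.is_comm.comm ⟨a, ha⟩ ⟨b, hb⟩
        exact congrArg Subtype.val this
      · intro g
        exact Subtype.ext (hIc g)
      · exact Subtype.ext hII
      · intro h
        exact hm1 (congrArg Subtype.val h)
      · intro a
        rcases hsq a a.2 with h | h
        · exact Or.inl (Subtype.ext h)
        · exact Or.inr (Subtype.ext h)
      · intro a b
        rcases hcm a a.2 b b.2 with h | h
        · exact Or.inl (Subtype.ext h)
        · refine Or.inr (Subtype.ext ?_)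
          show (a : GL ι F) * b = -1 * (b * a)
          rw [h]
          simp
    rw [hcenter] at hle
    exact Subgroup.isCyclic_of_le hle
  · have h4 : 2 * Nat.gcd 2 2 = 4 := by norm_num
    rw [h4]
    apply Nat.dvd_antisymm
    · exact Monoid.exponent_dvd_of_forall_pow_eq_one hpow4
    · rw [← hiR4]
      exact Monoid.order_dvd_exponent iR

end matrix

variable {F : Type*} [Field F] {σ : F ≃+* F}

/-- an orthonormal basis adapted to a decomposition into non-degenerate lines -/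
lemma exists_adapted [Fintype F] {n : ℕ} {f : (Fin n → F) → (Fin n → F) → F} (hf : IsUnitaryForm σ f)
    (D : Fin n → Submodule F (Fin n → F)) (hD : IsNondegenerateMDecomposition f 1 D) :
    ∃ (P : GL (Fin n) F) (b : Fin n → Fin n → F), IsON σ f P ∧
      (∀ j, (P : Matrix (Fin n) (Fin n) F) *ᵥ Pi.single j 1 = b j) ∧ (∀ j, b j ∈ D j) ∧
      (∀ j, f (b j) (b j) = 1) ∧ ∀ j, ∀ v ∈ D j, ∃ c : F, v = c • b j := by
  have h := herm_of_unitary hf
  have key : ∀ j, ∃ b ∈ D j, f b b = 1 ∧ ∀ v ∈ D j, ∃ c : F, v = c • b := by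
    intro j
    obtain ⟨⟨w, hw⟩, hw0, hspan⟩ := finrank_eq_one_iff'.mp (hD.decomp.finrank_eq j)
    have hw0' : w ≠ 0 := fun h0 => hw0 (Subtype.ext h0)
    have hspan' : ∀ v ∈ D j, ∃ c : F, c • w = v := by
      intro v hv
      obtain ⟨c, hc⟩ := hspan ⟨v, hv⟩
      exact ⟨c, congrArg Subtype.val hc⟩
    have hww : f w w ≠ 0 := by
      obtain ⟨⟨x, hx, hxw⟩, -⟩ := hD.nondegenerate j w hw hw0'
      obtain ⟨c, rfl⟩ := hspan' x hx
      rw [hf.smul_left] at hxw
      exact right_ne_zero_of_mul hxw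
    obtain ⟨c, hc⟩ := h.norm_surj (f w w)⁻¹ (by rw [map_inv₀, h.self_fix])
    have hc0 : c ≠ 0 := by
      rintro rfl
      rw [zero_mul] at hc
      exact inv_ne_zero hww hc.symm
    refine ⟨c • w, (D j).smul_mem c hw, ?_, ?_⟩
    · rw [h.smul_left, h.smul_right, ← mul_assoc, hc, inv_mul_cancel₀ hww]
    · intro v hv
      obtain ⟨d, rfl⟩ := hspan' v hv
      refine ⟨d / c, ?_⟩
      rw [smul_smul, div_mul_cancel₀ _ hc0]
  choose b hbD hb1 hbspan using key
  have hb : ∀ i j, f (b i) (b j) = if i = j then 1 else 0 := by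
    intro i j
    by_cases hij : i = j
    · subst hij
      rw [if_pos rfl, hb1]
    · rw [if_neg hij]
      exact hD.orthogonal i j hij _ (hbD i) _ (hbD j)
  obtain ⟨P, hP, hPb⟩ := Cfsg.Agent.Lib.Helper74UDec.exists_ON_of_family hf b hb
  exact ⟨P, b, hP, hPb, hbD, hb1, hbspan⟩

/-- [PA] `q = 3`: the monomial group `4^3 : S_4` of `SU_4(3)` normalises `4 ∘ 2^{1+4}`. -/
theorem lines_three_u [Fintype F] {f : (Fin 4 → F) → (Fin 4 → F) → F}
    (hU : US σ f 3) (D : Fin 4 → Submodule F (Fin 4 → F)) (hD : IsNondegenerateMDecomposition f 1 D) :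
    ∃ R : Subgroup (GL (Fin 4) F), IsSymplecticTypeGroup 2 R ∧ ActsAbsolutelyIrreducibly (matrixSet R) ∧
      R ≤ Iso f ∧ ⁅R, R⁆ ≤ scalars (Fin 4) F ∧ Nat.card R = 64 ∧ Nat.card (Subgroup.center R) = 4 ∧
      decompositionStabilizer D ⊓ (Iso f ⊓ specialLinear (Fin 4) F) ≤ subgroupNormalizer R := by
  have hf := hU.unitary
  have h := herm_of_unitary hf
  obtain ⟨B, b, hB, hBb, hbD, hb1, hbspan⟩ := exists_adapted hf D hD
  have h9 : ((9 : ℕ) : F) = 0 := by
    have := Nat.cast_card_eq_zero F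
    rw [hU.card] at this
    exact_mod_cast this
  have h3 : (3 : F) = 0 := by
    have h5 : (3 : F) * 3 = 0 := by
      have : ((9 : ℕ) : F) = 3 * 3 := by norm_num
      rw [← this]
      exact h9
    exact mul_self_eq_zero.mp h5
  have h2 : (2 : F) ≠ 0 := by
    intro h'
    have h1 : (1 : F) = 0 := by linear_combination h3 - h'
    exact one_ne_zero h1
  have hnorm : ∀ c : F, c * σ c = c ^ 4 := by
    intro c
    rw [hU.pow]
    ring
  -- a square root of `-1`
  obtain ⟨i, hi⟩ : ∃ i : F, i * i = -1 := by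
    obtain ⟨c, hc⟩ := h.norm_surj (-1) (by simp)
    have hc' : c * σ c = -1 := hc
    rw [hnorm] at hc'
    exact ⟨c * c, by linear_combination hc'⟩
  have hi4 : i ^ 4 = 1 := by linear_combination (i * i - 1) * hi
  have habs : ActsAbsolutelyIrreducibly (matrixSet (cj B (R1 h2))) := absIrred_cj B (absIrred_R1 h2)
  have hsq : ∀ x ∈ cj B (R1 h2), x * x = 1 ∨ x * x = -1 := by
    intro x hx
    rw [mem_cj] at hx
    obtain ⟨w, a, ha, hv⟩ := hx
    have hxx : x * x = B * ((B⁻¹ * x * B) * (B⁻¹ * x * B)) * B⁻¹ := by group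
    rcases mn_sqB h2 ha w with h | h
    · left
      have h1 : (B⁻¹ * x * B) * (B⁻¹ * x * B) = 1 := by
        apply Units.ext
        rw [Units.val_mul, hv, h, Units.val_one]
      rw [hxx, h1]
      group
    · right
      have h1 : (B⁻¹ * x * B) * (B⁻¹ * x * B) = -1 := by
        apply Units.ext
        rw [Units.val_mul, hv, h, Units.val_neg, Units.val_one]
      rw [hxx, h1]
      simp
  have hcm : ∀ x ∈ cj B (R1 h2), ∀ y ∈ cj B (R1 h2), x * y = y * x ∨ x * y = -(y * x) := by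
    intro x hx y hy
    rw [mem_cj] at hx hy
    obtain ⟨w, a, ha, hv⟩ := hx
    obtain ⟨u, b, hb, hv'⟩ := hy
    have hxy : x * y = B * ((B⁻¹ * x * B) * (B⁻¹ * y * B)) * B⁻¹ := by group
    have hyx : y * x = B * ((B⁻¹ * y * B) * (B⁻¹ * x * B)) * B⁻¹ := by group
    rcases mn_commB h2 ha hb w u with h | h
    · left
      have h1 : (B⁻¹ * x * B) * (B⁻¹ * y * B) = (B⁻¹ * y * B) * (B⁻¹ * x * B) := by
        apply Units.ext
        rw [Units.val_mul, hv, hv', h, Units.val_mul, hv, hv']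
      rw [hxy, hyx, h1]
    · right
      have h1 : (B⁻¹ * x * B) * (B⁻¹ * y * B) = -((B⁻¹ * y * B) * (B⁻¹ * x * B)) := by
        apply Units.ext
        rw [Units.val_mul, hv, hv', h, Units.val_neg, Units.val_mul, hv, hv']
      rw [hxy, hyx, h1]
      simp
  have hcomm : ⁅cj B (R1 h2), cj B (R1 h2)⁆ ≤ scalars (Fin 4) F := by
    rw [Subgroup.commutator_le]
    intro x hx y hy
    rw [commutatorElement_def]
    rcases hcm x hx y hy with h | h
    · rw [h]
      simp
    · rw [h]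
      have : -(y * x) * x⁻¹ * y⁻¹ = -1 := by
        rw [neg_mul, neg_mul]
        simp
      rw [this, mem_scalars_iff]
      exact ⟨-1, by simp⟩
  obtain ⟨I, hIR, hI⟩ := exists_mem_R1 h2 0 (InB.const hi4)
  rw [X_zero, mn_one_const] at hI
  have hIR' : I ∈ cj B (R1 h2) := by
    rw [mem_cj]
    have : B⁻¹ * I * B = I := by
      apply Units.ext
      simp [hI]
    rw [this]
    exact hIR
  obtain ⟨hsymp, hcen⟩ := symplecticType_two h2 I i hI hi hIR' hsq hcm habs
  refine ⟨cj B (R1 h2), hsymp, habs, ?_, hcomm, ?_, hcen, ?_⟩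
  · -- isometries
    intro x hx
    rw [mem_cj] at hx
    obtain ⟨w, a, ha, hv⟩ := hx
    rw [mem_Iso]
    intro u v
    have hx' : ∀ z : Fin 4 → F, (x : Matrix (Fin 4) (Fin 4) F) *ᵥ ((B : Matrix (Fin 4) (Fin 4) F) *ᵥ z) =
        (B : Matrix (Fin 4) (Fin 4) F) *ᵥ (mn (X w) a *ᵥ z) := by
      intro z
      rw [← hv, Units.val_mul, Units.val_mul, ← Matrix.mulVec_mulVec, ← Matrix.mulVec_mulVec,
        mulVec_inv_mulVec]
    rw [← mulVec_inv_mulVec B u, ← mulVec_inv_mulVec B v, hx', hx', hB, hB,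
      ← Equiv.sum_comp (X w)]
    apply Finset.sum_congr rfl
    intro k _
    rw [mn_mulVec_apply, mn_mulVec_apply, map_mul]
    have h1 : a k * σ (a k) = 1 := by rw [hnorm, ha.1]
    linear_combination ((((B⁻¹ : GL (Fin 4) F) : Matrix (Fin 4) (Fin 4) F) *ᵥ u) k *
      σ ((((B⁻¹ : GL (Fin 4) F) : Matrix (Fin 4) (Fin 4) F) *ᵥ v) k)) * h1
  · -- the order
    have h1 := Cfsg.Agent.Lib.Helper57AschA.card_quotient habs hcomm
    have h2' : (scalars (Fin 4) F).subgroupOf (cj B (R1 h2)) = Subgroup.center (cj B (R1 h2)) := by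
      ext x
      rw [Subgroup.mem_subgroupOf, Subgroup.mem_center_iff]
      constructor
      · intro hx g
        exact Subtype.ext (Subgroup.mem_center_iff.mp (scalars_le_center hx) g)
      · intro hx
        apply Cfsg.Agent.Lib.Helper7C6Asm.mem_scalars_of_comm habs
        intro y hy
        exact (congrArg Subtype.val (hx ⟨y, hy⟩)).symm
    rw [h2'] at h1
    have h3' := Subgroup.card_eq_card_quotient_mul_card_subgroup (Subgroup.center (cj B (R1 h2)))
    rw [h1, hcen] at h3'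
    rw [h3']
    norm_num
  · apply le_normalizer_of_Nz
    rintro g ⟨hg1, hg3, hg2⟩ x hx
    rw [mem_cj] at hx ⊢
    obtain ⟨π, hπ⟩ := hg1
    obtain ⟨w, a, ha, hv⟩ := hx
    have hgb : ∀ j, ∃ c : F, (g : Matrix (Fin 4) (Fin 4) F) *ᵥ b j = c • b (π j) := by
      intro j
      apply hbspan
      rw [← hπ j]
      exact ⟨b j, hbD j, by rw [Matrix.toLin'_apply]⟩
    choose c hc using hgb
    have hc4 : ∀ j, c j ^ 4 = 1 := by
      intro j
      have h1 := mem_Iso.mp hg3 (b j) (b j)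
      rw [hc, h.smul_left, h.smul_right, hb1, hb1, mul_one] at h1
      rw [← hnorm]
      exact h1
    have hG : ((B⁻¹ * g * B : GL (Fin 4) F) : Matrix (Fin 4) (Fin 4) F) = mn π c := by
      apply ext_single
      intro j
      rw [mn_mulVec_single, Units.val_mul, Units.val_mul, ← Matrix.mulVec_mulVec, ← Matrix.mulVec_mulVec,
        hBb, hc, Matrix.mulVec_smul, ← hBb, inv_mulVec_mulVec]
    have hdet : (mn π c).det = 1 := by
      rw [← hG, Units.val_mul, Units.val_mul, Matrix.det_mul, Matrix.det_mul,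
        mem_specialLinear_iff.mp hg2, mul_one, ← Matrix.det_mul, ← Units.val_mul, inv_mul_cancel,
        Units.val_one, Matrix.det_one]
    have hprod : (∏ j, c j) * (∏ j, c j) = 1 := by
      rw [prod_eq_of_det_mn π c, hdet, mul_one]
      rcases Int.units_eq_one_or (Equiv.Perm.sign π) with h | h <;> rw [h] <;> simp
    obtain ⟨w', a', ha', hrel⟩ := normalizes_auxB h2 π hc4 hprod ha w
    refine ⟨w', a', ha', ?_⟩
    have e1 : B⁻¹ * (g * x * g⁻¹) * B = (B⁻¹ * g * B) * (B⁻¹ * x * B) * (B⁻¹ * g * B)⁻¹ := by group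
    rw [e1, Units.val_mul, Units.val_mul, hv, hG, hrel, ← hG, mul_assoc, ← Units.val_mul, mul_inv_cancel,
      Units.val_one, mul_one]

end Cfsg.Agent.Lib.Helper76U4PA
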