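import Mathlib
import Cfsg.Prelude.Def_GeometricClasses
import Cfsg.Prelude.Def_LieClassical

set_option autoImplicit false

/-! General lemmas for the treatment of `SU_5(2)`. -/

namespace Cfsg.Agent.Lib.Helper67SU5Gen

open Cfsg Cfsg.Geo Matrix
open scoped MatrixGroups

section unitary

variable {F : Type*} [Field F] [CharP F 2] {n : ℕ}

lemma sq_sum {ι : Type*} (s : Finset ι) (g : ι → F) : (∑ i ∈ s, g i) ^ 2 = ∑ i ∈ s, g i ^ 2 :=
  map_sum (frobenius F 2) g s

lemma sq_mulVec (M : Matrix (Fin n) (Fin n) F) (v : Fin n → F) (i : Fin n) :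
    ((M *ᵥ v) i) ^ 2 = ((M.map (fun x => x ^ 2)) *ᵥ (fun k => v k ^ 2)) i := by
  simp only [Matrix.mulVec, dotProduct, Matrix.map_apply]
  rw [sq_sum]
  exact Finset.sum_congr rfl fun k _ => mul_pow _ _ _

lemma herm_key (M : Matrix (Fin n) (Fin n) F) (x y : Fin n → F) :
    hermForm n F 2 (M *ᵥ x) (M *ᵥ y) =
      x ⬝ᵥ ((Mᵀ * M.map (fun x => x ^ 2)) *ᵥ (fun k => y k ^ 2)) := by
  have h1 : hermForm n F 2 (M *ᵥ x) (M *ᵥ y) =
      (M *ᵥ x) ⬝ᵥ ((M.map (fun x => x ^ 2)) *ᵥ (fun k => y k ^ 2)) := by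
    unfold hermForm dotProduct
    exact Finset.sum_congr rfl fun i _ => by rw [sq_mulVec]
  rw [h1, ← Matrix.vecMul_transpose, ← Matrix.dotProduct_mulVec, mulVec_mulVec]

/-- membership in `GU_n(2)` as a matrix identity -/
lemma mem_GU_iff (g : GL (Fin n) F) :
    g ∈ GU n F 2 ↔ (g : Matrix (Fin n) (Fin n) F)ᵀ * (g : Matrix (Fin n) (Fin n) F).map (fun x => x ^ 2) = 1 := by
  constructor
  · intro h
    ext a b
    have := h (Pi.single a 1) (Pi.single b 1)
    simp only [Units.coeHom_apply] at this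
    rw [herm_key] at this
    have hs : (fun c => ((Pi.single b (1 : F) : Fin n → F) c) ^ 2) = Pi.single b 1 := by
      funext c
      by_cases hc : c = b
      · subst hc; simp
      · simp [Pi.single_eq_of_ne hc]
    rw [hs] at this
    simp only [Matrix.mulVec_single, MulOpposite.op_one, one_smul, single_dotProduct, one_mul,
      Matrix.col_apply] at this
    rw [this, Matrix.one_apply]
    unfold hermForm
    simp [Pi.single_apply, eq_comm]
  · intro h x y
    simp only [Units.coeHom_apply]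
    rw [herm_key, h, one_mulVec]
    rfl

end unitary

section sylow

/-- two subgroups of prime order `p` of a group whose order is not divisible by `p ^ 2` are conjugate -/
lemma sylow_conj {X : Type*} [Group X] [Finite X] (G : Subgroup X) (p : ℕ) [Fact p.Prime]
    (h2 : ¬ p ^ 2 ∣ Nat.card G) (P Q : Subgroup X) (hP : P ≤ G) (hQ : Q ≤ G)
    (hPc : Nat.card P = p) (hQc : Nat.card Q = p) :
    ∃ g ∈ G, ∀ x, x ∈ P ↔ g⁻¹ * x * g ∈ Q := by
  have key : ∀ R : Subgroup X, R ≤ G → Nat.card R = p →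
      ∃ S : Sylow p G, (S : Subgroup G) = R.subgroupOf G := by
    intro R hR hRc
    have hc : Nat.card (R.subgroupOf G) = p := by
      rw [Nat.card_congr (Subgroup.subgroupOfEquivOfLe hR).toEquiv, hRc]
    have hpg : IsPGroup p (R.subgroupOf G) := IsPGroup.of_card (n := 1) (by rw [hc, pow_one])
    obtain ⟨S, hS⟩ := hpg.exists_le_sylow
    refine ⟨S, ?_⟩
    obtain ⟨k, hk⟩ := IsPGroup.iff_card.mp S.2
    have hk1 : k ≤ 1 := by
      by_contra hcon
      apply h2
      have : p ^ 2 ∣ p ^ k := pow_dvd_pow p (by omega)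
      exact this.trans (hk ▸ Subgroup.card_subgroup_dvd_card (S : Subgroup G))
    have hle : Nat.card (S : Subgroup G) ≤ Nat.card (R.subgroupOf G) := by
      rw [hc, hk]
      calc p ^ k ≤ p ^ 1 := Nat.pow_le_pow_right (Fact.out : p.Prime).pos hk1
        _ = p := pow_one p
    exact (Subgroup.eq_of_le_of_card_ge hS hle).symm
  obtain ⟨SP, hSP⟩ := key P hP hPc
  obtain ⟨SQ, hSQ⟩ := key Q hQ hQc
  obtain ⟨g, hg⟩ := MulAction.exists_smul_eq G SQ SP
  refine ⟨g, g.2, fun x => ?_⟩
  have hmem : ∀ y : G, y ∈ (SP : Subgroup G) ↔ g⁻¹ * y * g ∈ (SQ : Subgroup G) := by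
    intro y
    rw [← hg, Sylow.coe_subgroup_smul, Subgroup.mem_pointwise_smul_iff_inv_smul_mem]
    simp [MulAut.smul_def]
  constructor
  · intro hx
    have h1 : (⟨x, hP hx⟩ : G) ∈ (SP : Subgroup G) := by
      rw [hSP, Subgroup.mem_subgroupOf]; exact hx
    have h3 := (hmem _).mp h1
    rw [hSQ, Subgroup.mem_subgroupOf] at h3
    simpa using h3
  · intro hx
    have hxG : x ∈ G := by
      have h1 := G.mul_mem (G.mul_mem g.2 (hQ hx)) (G.inv_mem g.2)
      have h3 : (g : X) * ((g : X)⁻¹ * x * g) * (g : X)⁻¹ = x := by group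
      rwa [h3] at h1
    have h1 : g⁻¹ * (⟨x, hxG⟩ : G) * g ∈ (SQ : Subgroup G) := by
      rw [hSQ, Subgroup.mem_subgroupOf]
      simpa using hx
    have h3 := (hmem _).mpr h1
    rw [hSP, Subgroup.mem_subgroupOf] at h3
    exact h3

end sylow

section fieldlemma

/-- in the field with `2 ^ 10` elements an involutory automorphism inverts the eleventh roots of unity -/
lemma mul_tau_eq_one {K : Type*} [Field K] [Finite K] [CharP K 2] (hc : Nat.card K = 1024)
    (τ : K →+* K) (hτ : ∀ z, τ (τ z) = z) (ω : K) (hω : τ ω = ω + 1) (x : K) (hx : x ^ 11 = 1) :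
    x * τ x = 1 := by
  have h2 : ∀ z : K, z + z = 0 := fun z => CharTwo.add_self_eq_zero z
  let L : Subfield K := RingHom.eqLocusField τ (RingHom.id K)
  have hL : ∀ z : K, z ∈ L ↔ τ z = z := fun z => Iff.rfl
  have hfix : ∀ z : K, τ (z + τ z) = z + τ z := by
    intro z
    rw [map_add, hτ, add_comm]
  let e : L × L → K := fun p => (p.1 : K) + ω * (p.2 : K)
  have he : Function.Bijective e := by
    constructor
    · rintro ⟨⟨a, ha⟩, ⟨b, hb⟩⟩ ⟨⟨c, hc'⟩, ⟨d, hd⟩⟩ h
      simp only [e] at h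
      rw [hL] at ha hb hc' hd
      have h3 := congrArg τ h
      rw [map_add, map_add, map_mul, map_mul, ha, hb, hc', hd, hω] at h3
      have hbd : b = d := by
        have : b = (a + ω * b) + (a + (ω + 1) * b) := by
          linear_combination (-1 : K) * h2 a - ω * h2 b
        rw [this, h, h3]
        linear_combination h2 c + ω * h2 d
      subst hbd
      have hac : a = c := add_right_cancel h
      subst hac
      rfl
    · intro z
      refine ⟨(⟨z + ω * (z + τ z), ?_⟩, ⟨z + τ z, (hL _).mpr (hfix z)⟩), ?_⟩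
      · rw [hL, map_add, map_mul, hfix, hω]
        linear_combination h2 (τ z) 
      · simp only [e]
        linear_combination ω * h2 (z + τ z)
  have hcard : Nat.card L * Nat.card L = 1024 := by
    rw [← Nat.card_prod, Nat.card_congr (Equiv.ofBijective e he), hc]
  have hcL : Nat.card L = 32 := by
    have : Nat.card L * Nat.card L = 32 * 32 := by rw [hcard]
    exact Nat.mul_self_inj.mp this
  have h31 : ∀ y : K, τ y = y → y ≠ 0 → y ^ 31 = 1 := by
    intro y hy hy0
    have : Fintype L := Fintype.ofFinite L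
    have h3 := FiniteField.pow_card_sub_one_eq_one (⟨y, (hL y).mpr hy⟩ : L)
      (fun h => hy0 (congrArg Subtype.val h))
    rw [← Nat.card_eq_fintype_card, hcL] at h3
    exact congrArg Subtype.val h3
  have hx0 : x ≠ 0 := by
    rintro rfl
    simp at hx
  have hy : τ (x * τ x) = x * τ x := by rw [map_mul, hτ, mul_comm]
  have hy0 : x * τ x ≠ 0 := mul_ne_zero hx0 (by
    intro h
    apply hx0
    rw [← hτ x, h, map_zero])
  have e31 := h31 _ hy hy0
  have e11 : (x * τ x) ^ 11 = 1 := by rw [mul_pow, ← map_pow, hx, map_one, one_mul]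
  have e155 : (x * τ x) ^ 155 = 1 := by
    rw [show 155 = 31 * 5 by norm_num, pow_mul, e31, one_pow]
  have e154 : (x * τ x) ^ 154 = 1 := by
    rw [show 154 = 11 * 14 by norm_num, pow_mul, e11, one_pow]
  rw [pow_succ, e154, one_mul] at e155
  exact e155

end fieldlemma

end Cfsg.Agent.Lib.Helper67SU5Gen
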