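import Cfsg.Agent.Lib.Helper57UConv
import Cfsg.Agent.Lib.Helper67SU5Gen

set_option autoImplicit false

/-! Unitary groups, class 3 with `r = n`: a generic reduction of the NON-maximality of the normaliser of an
adjoint-closed field of degree `n` to a purely group theoretic certificate, which can be transported to a
computable model of the field. -/

namespace Cfsg.Agent.Lib.Helper67UField

open Cfsg Cfsg.Geo Matrix Cfsg.Agent.Lib.Helper13UDefs Cfsg.Agent.Lib.Helper67SU5Gen
open scoped MatrixGroups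

/-- the certificate: the normaliser in `SU_n(q)` of a subgroup of order `ℓ` is not maximal -/
def Cert (n : ℕ) (F : Type*) [Field F] (q ℓ : ℕ) : Prop :=
  ∀ u : GL (Fin n) F, u ∈ GU n F q ⊓ specialLinear (Fin n) F → orderOf u = ℓ →
    ∃ M : Subgroup (GL (Fin n) F), M ≤ GU n F q ⊓ specialLinear (Fin n) F ∧
      M ≠ GU n F q ⊓ specialLinear (Fin n) F ∧
      (∀ h ∈ GU n F q ⊓ specialLinear (Fin n) F, h * u * h⁻¹ ∈ Subgroup.zpowers u → h ∈ M) ∧
      ∃ d ∈ M, d * u * d⁻¹ ∉ Subgroup.zpowers u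

section transport

variable {F E : Type*} [Field F] [Field E] {n : ℕ}

/-- transport along an isomorphism of fields -/
def Phi (ψ : F ≃+* E) : GL (Fin n) F ≃* GL (Fin n) E :=
  Units.mapEquiv (RingEquiv.mapMatrix ψ).toMulEquiv

lemma Phi_val (ψ : F ≃+* E) (g : GL (Fin n) F) :
    ((Phi ψ g : GL (Fin n) E) : Matrix (Fin n) (Fin n) E) = (g : Matrix (Fin n) (Fin n) F).map ψ := rfl

lemma herm_map (ψ : F ≃+* E) (q : ℕ) (u v : Fin n → F) :
    hermForm n E q (fun i => ψ (u i)) (fun i => ψ (v i)) = ψ (hermForm n F q u v) := by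
  unfold hermForm
  simp [map_sum, map_mul, map_pow]

lemma map_mulVec' (ψ : F ≃+* E) (M : Matrix (Fin n) (Fin n) F) (u : Fin n → F) :
    (M.map ψ) *ᵥ (fun i => ψ (u i)) = fun i => ψ ((M *ᵥ u) i) := by
  funext i
  simp [Matrix.mulVec, dotProduct, map_sum, map_mul]

lemma mem_GU_map (ψ : F ≃+* E) (q : ℕ) (g : GL (Fin n) F) :
    g ∈ GU n F q ↔ Phi ψ g ∈ GU n E q := by
  constructor
  · intro h u v
    obtain ⟨u, rfl⟩ : ∃ u' : Fin n → F, u = fun i => ψ (u' i) :=
      ⟨fun i => ψ.symm (u i), by funext i; simp⟩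
    obtain ⟨v, rfl⟩ : ∃ v' : Fin n → F, v = fun i => ψ (v' i) :=
      ⟨fun i => ψ.symm (v i), by funext i; simp⟩
    have := h u v
    simp only [Units.coeHom_apply] at this ⊢
    rw [Phi_val, map_mulVec', map_mulVec', herm_map, herm_map, this]
  · intro h u v
    have := h (fun i => ψ (u i)) (fun i => ψ (v i))
    simp only [Units.coeHom_apply] at this ⊢
    rw [Phi_val, map_mulVec', map_mulVec', herm_map, herm_map] at this
    exact ψ.injective this

lemma mem_SL_iff {R : Type*} [Field R] (x : GL (Fin n) R) : x ∈ specialLinear (Fin n) R ↔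
    (x : Matrix (Fin n) (Fin n) R).det = 1 := by
  constructor
  · intro h
    have h3 : Matrix.GeneralLinearGroup.det x = 1 := h
    simpa using congrArg Units.val h3
  · intro h
    show Matrix.GeneralLinearGroup.det x = 1
    apply Units.ext
    simpa using h

lemma mem_G_map (ψ : F ≃+* E) (q : ℕ) (g : GL (Fin n) F) :
    g ∈ GU n F q ⊓ specialLinear (Fin n) F ↔ Phi ψ g ∈ GU n E q ⊓ specialLinear (Fin n) E := by
  have h2 : g ∈ specialLinear (Fin n) F ↔ Phi ψ g ∈ specialLinear (Fin n) E := by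
    rw [mem_SL_iff, mem_SL_iff, Phi_val]
    have e3 : ((g : Matrix (Fin n) (Fin n) F).map ψ).det = ψ (g : Matrix (Fin n) (Fin n) F).det :=
      ((ψ : F →+* E).map_det _).symm
    rw [e3]
    constructor
    · intro h; rw [h, map_one]
    · intro h; exact ψ.injective (by rw [h, map_one])
  exact and_congr (mem_GU_map ψ q g) h2

lemma mem_zpowers_map (ψ : F ≃+* E) (x u : GL (Fin n) F) :
    x ∈ Subgroup.zpowers u ↔ Phi ψ x ∈ Subgroup.zpowers (Phi ψ u) := by
  constructor
  · intro h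
    obtain ⟨z, rfl⟩ := Subgroup.mem_zpowers_iff.mp h
    rw [map_zpow]
    exact Subgroup.zpow_mem_zpowers _ z
  · intro h
    obtain ⟨z, hz⟩ := Subgroup.mem_zpowers_iff.mp h
    rw [← map_zpow] at hz
    rw [← (Phi ψ).injective hz]
    exact Subgroup.zpow_mem_zpowers _ z

/-- certificates can be transported -/
theorem Cert.transport (ψ : F ≃+* E) {q ℓ : ℕ} (h : Cert n E q ℓ) : Cert n F q ℓ := by
  intro u hu ho
  obtain ⟨M, hM1, hM2, hM3, d, hd, hd'⟩ := h (Phi ψ u) ((mem_G_map ψ q u).mp hu)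
    (by rw [← ho]; exact (Phi ψ).orderOf_eq u)
  refine ⟨M.comap (Phi ψ).toMonoidHom, ?_, ?_, ?_, ?_⟩
  · intro m hm
    exact (mem_G_map ψ q m).mpr (hM1 hm)
  · intro h
    apply hM2
    apply le_antisymm hM1
    intro x hx
    obtain ⟨y, rfl⟩ := (Phi ψ).surjective x
    have h1 := (mem_G_map ψ q y).mpr hx
    rw [← h] at h1
    exact h1
  · intro h hh hn
    apply hM3 _ ((mem_G_map ψ q h).mp hh)
    have := (mem_zpowers_map ψ _ _).mp hn
    simpa using this
  · obtain ⟨y, rfl⟩ := (Phi ψ).surjective d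
    refine ⟨y, hd, fun hn => hd' ?_⟩
    have := (mem_zpowers_map ψ _ _).mp hn
    simpa using this

end transport

section adjoint

variable {F : Type*} [Field F] {n : ℕ} {σ : F ≃+* F} {q : ℕ}

lemma herm_eq (hσ : ∀ a, σ a = a ^ q) (u v : Fin n → F) :
    hermForm n F q u v = u ⬝ᵥ (fun i => σ (v i)) := by
  unfold hermForm dotProduct
  exact Finset.sum_congr rfl fun i _ => by
    show u i * v i ^ q = u i * σ (v i)
    rw [hσ]

lemma sigma_mulVec (M : Matrix (Fin n) (Fin n) F) (v : Fin n → F) :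
    (fun i => σ ((M *ᵥ v) i)) = (M.map σ) *ᵥ (fun i => σ (v i)) := by
  funext i
  simp [Matrix.mulVec, dotProduct, map_sum, map_mul]

/-- membership in `GU_n(q)` as a matrix identity -/
lemma mem_GU_iff' (hσ : ∀ a, σ a = a ^ q) (g : GL (Fin n) F) :
    g ∈ GU n F q ↔ (g : Matrix (Fin n) (Fin n) F)ᵀ * (g : Matrix (Fin n) (Fin n) F).map σ = 1 := by
  have key : ∀ x y : Fin n → F, hermForm n F q ((g : Matrix (Fin n) (Fin n) F) *ᵥ x)
      ((g : Matrix (Fin n) (Fin n) F) *ᵥ y) =
      x ⬝ᵥ (((g : Matrix (Fin n) (Fin n) F)ᵀ * (g : Matrix (Fin n) (Fin n) F).map σ) *ᵥ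
        (fun i => σ (y i))) := by
    intro x y
    rw [herm_eq hσ, sigma_mulVec, ← Matrix.vecMul_transpose, ← Matrix.dotProduct_mulVec, mulVec_mulVec]
  constructor
  · intro h
    ext a b
    have := h (Pi.single a 1) (Pi.single b 1)
    simp only [Units.coeHom_apply] at this
    rw [key, herm_eq hσ] at this
    have hs : (fun c => σ ((Pi.single b (1 : F) : Fin n → F) c)) = Pi.single b 1 := by
      funext c
      by_cases hc : c = b
      · subst hc; simp
      · simp [Pi.single_eq_of_ne hc]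
    rw [hs] at this
    simp only [Matrix.mulVec_single, MulOpposite.op_one, one_smul, single_dotProduct, one_mul,
      Matrix.col_apply] at this
    rw [this, Matrix.one_apply]
    simp [Pi.single_apply]
  · intro h x y
    simp only [Units.coeHom_apply]
    rw [key, h, one_mulVec, herm_eq hσ]

/-- the adjoint for the standard hermitian form -/
def st (σ : F ≃+* F) (k : Matrix (Fin n) (Fin n) F) : Matrix (Fin n) (Fin n) F := (k.map σ)ᵀ

lemma st_apply (k : Matrix (Fin n) (Fin n) F) (i j : Fin n) : st σ k i j = σ (k j i) := rfl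

lemma st_mul (x y : Matrix (Fin n) (Fin n) F) : st σ (x * y) = st σ y * st σ x := by
  ext i j
  simp only [st_apply, Matrix.mul_apply, map_sum, map_mul]
  exact Finset.sum_congr rfl fun k _ => mul_comm _ _

lemma st_add (x y : Matrix (Fin n) (Fin n) F) : st σ (x + y) = st σ x + st σ y := by
  ext i j
  simp only [st_apply, Matrix.add_apply, map_add]

lemma st_one : st σ (1 : Matrix (Fin n) (Fin n) F) = 1 := by
  unfold st
  rw [Matrix.map_one _ (map_zero _) (map_one _), transpose_one]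

lemma st_zero : st σ (0 : Matrix (Fin n) (Fin n) F) = 0 := by
  ext i j
  simp [st_apply]

lemma st_st (hσσ : ∀ a, σ (σ a) = a) (k : Matrix (Fin n) (Fin n) F) : st σ (st σ k) = k := by
  ext i j
  rw [st_apply, st_apply, hσσ]

lemma st_smul_one (c : F) : st σ (c • (1 : Matrix (Fin n) (Fin n) F)) = (σ c) • 1 := by
  ext i j
  rw [st_apply, Matrix.smul_apply, Matrix.smul_apply, Matrix.one_apply, Matrix.one_apply]
  by_cases h : i = j
  · subst h; simp
  · have h' : ¬ j = i := fun e => h e.symm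
    simp [h, h']

lemma herm_adj (hσ : ∀ a, σ a = a ^ q) (hσσ : ∀ a, σ (σ a) = a) (k : Matrix (Fin n) (Fin n) F)
    (u v : Fin n → F) :
    hermForm n F q (k *ᵥ u) v = hermForm n F q u (st σ k *ᵥ v) := by
  have h2 : (st σ k).map σ = kᵀ := by
    ext i j
    rw [Matrix.map_apply, st_apply, hσσ]
    rfl
  rw [herm_eq hσ, herm_eq hσ, sigma_mulVec, h2, Matrix.dotProduct_mulVec, Matrix.vecMul_transpose]

lemma herm_ext (hσ : ∀ a, σ a = a ^ q) {x y : Fin n → F}
    (h : ∀ u, hermForm n F q u x = hermForm n F q u y) : x = y := by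
  funext i
  have := h (Pi.single i 1)
  rw [herm_eq hσ, herm_eq hσ, single_dotProduct, single_dotProduct, one_mul, one_mul] at this
  exact σ.injective this

lemma st_mem (hσ : ∀ a, σ a = a ^ q) (hσσ : ∀ a, σ (σ a) = a)
    {K : Subalgebra F (Matrix (Fin n) (Fin n) F)}
    (hadj : IsAdjointClosedFor (hermForm n F q) K) {k : Matrix (Fin n) (Fin n) F} (hk : k ∈ K) :
    st σ k ∈ K := by
  obtain ⟨k', hk', h⟩ := hadj k hk
  have : k' = st σ k := by
    apply Matrix.toLin'.injective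
    apply LinearMap.ext
    intro v
    rw [Matrix.toLin'_apply, Matrix.toLin'_apply]
    apply herm_ext hσ
    intro u
    rw [← h, herm_adj hσ hσσ]
  rwa [← this]

end adjoint

section fieldlemma

/-- an involutory automorphism of a finite field with `N ^ 2` elements inverts the elements of order prime
to `N - 1` -/
lemma mul_tau_eq_one' {K : Type*} [Field K] [Finite K] {N : ℕ} (hc : Nat.card K = N * N)
    (τ : K →+* K) (hτ : ∀ z, τ (τ z) = z) (ω : K) (hω : τ ω ≠ ω) {ℓ : ℕ} (hℓ : Nat.Coprime ℓ (N - 1))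
    (x : K) (hx : x ^ ℓ = 1) (hx0 : x ≠ 0) : x * τ x = 1 := by
  let L : Subfield K := RingHom.eqLocusField τ (RingHom.id K)
  have hL : ∀ z : K, z ∈ L ↔ τ z = z := fun z => Iff.rfl
  have hδ : ω - τ ω ≠ 0 := fun h => hω (sub_eq_zero.mp h).symm
  let e : L × L → K := fun p => (p.1 : K) + ω * (p.2 : K)
  have he : Function.Bijective e := by
    constructor
    · rintro ⟨⟨a, ha⟩, ⟨b, hb⟩⟩ ⟨⟨c, hc'⟩, ⟨d, hd⟩⟩ h
      simp only [e] at h
      rw [hL] at ha hb hc' hd
      have h3 := congrArg τ h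
      rw [map_add, map_add, map_mul, map_mul, ha, hb, hc', hd] at h3
      have hbd : b = d := by
        have h4 : (ω - τ ω) * (b - d) = 0 := by linear_combination h - h3
        rcases mul_eq_zero.mp h4 with h5 | h5
        · exact absurd h5 hδ
        · exact sub_eq_zero.mp h5
      subst hbd
      have hac : a = c := add_right_cancel h
      subst hac
      rfl
    · intro z
      have hb : τ ((z - τ z) / (ω - τ ω)) = (z - τ z) / (ω - τ ω) := by
        rw [map_div₀, map_sub, map_sub, hτ, hτ, ← neg_sub z, ← neg_sub ω, neg_div_neg_eq]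
      refine ⟨(⟨z - ω * ((z - τ z) / (ω - τ ω)), ?_⟩, ⟨(z - τ z) / (ω - τ ω), (hL _).mpr hb⟩), ?_⟩
      · rw [hL, map_sub, map_mul, hb]
        field_simp
        ring
      · simp only [e]
        ring
  have hcard : Nat.card L * Nat.card L = N * N := by
    rw [← Nat.card_prod, Nat.card_congr (Equiv.ofBijective e he), hc]
  have hcL : Nat.card L = N := Nat.mul_self_inj.mp hcard
  have hy : τ (x * τ x) = x * τ x := by rw [map_mul, hτ, mul_comm]
  have hy0 : x * τ x ≠ 0 := mul_ne_zero hx0 (by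
    intro h
    apply hx0
    rw [← hτ x, h, map_zero])
  have e1 : (x * τ x) ^ (N - 1) = 1 := by
    have : Fintype L := Fintype.ofFinite L
    have h3 := FiniteField.pow_card_sub_one_eq_one (⟨x * τ x, (hL _).mpr hy⟩ : L)
      (fun h => hy0 (congrArg Subtype.val h))
    rw [← Nat.card_eq_fintype_card, hcL] at h3
    exact congrArg Subtype.val h3
  have e2 : (x * τ x) ^ ℓ = 1 := by rw [mul_pow, ← map_pow, hx, map_one, one_mul]
  have h4 := orderOf_dvd_of_pow_eq_one e2
  have h5 := orderOf_dvd_of_pow_eq_one e1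
  have h6 := Nat.dvd_gcd h4 h5
  rw [hℓ] at h6
  exact orderOf_eq_one_iff.mp (Nat.dvd_one.mp h6)

end fieldlemma

section field

variable {F : Type*} [Field F] [Fintype F] {n : ℕ} {σ : F ≃+* F} {q : ℕ}

lemma mem_SL_of_pow {Q : ℕ} (hF : Fintype.card F = Q) {g : GL (Fin n) F} {m : ℕ}
    (hm : Nat.Coprime m (Q - 1)) (h : g ^ m = 1) : g ∈ specialLinear (Fin n) F := by
  classical
  show Matrix.GeneralLinearGroup.det g = 1
  have h1 : (Matrix.GeneralLinearGroup.det g) ^ m = 1 := by rw [← map_pow, h, map_one]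
  have h3 : (Matrix.GeneralLinearGroup.det g) ^ (Q - 1) = 1 := by
    have : Fintype.card Fˣ = Q - 1 := by rw [Fintype.card_units, hF]
    rw [← this]
    exact pow_card_eq_one
  have h4 := orderOf_dvd_of_pow_eq_one h1
  have h5 := orderOf_dvd_of_pow_eq_one h3
  have h6 := Nat.dvd_gcd h4 h5
  rw [hm] at h6
  exact orderOf_eq_one_iff.mp (Nat.dvd_one.mp h6)

theorem aux (hU : US σ (hermForm n F q) q) {ℓ N : ℕ} (hℓ : ℓ.Prime) (h1 : ℓ ∣ N * N - 1)
    (h2 : Nat.Coprime ℓ (N - 1)) (h3 : Nat.Coprime ℓ (q ^ 2 - 1))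
    {K' : Type*} [Field K'] [Finite K']
    (ι : K' →+* Matrix (Fin n) (Fin n) F) (hι : Function.Injective ι) (hcard : Nat.card K' = N * N)
    (hst : ∀ z, ∃ z', ι z' = st σ (ι z)) (hsc : ∀ c : F, ∃ z, ι z = c • (1 : Matrix (Fin n) (Fin n) F)) :
    ∃ u : GL (Fin n) F, (u : Matrix (Fin n) (Fin n) F) ∈ Set.range ι ∧
      u ∈ GU n F q ⊓ specialLinear (Fin n) F ∧ orderOf u = ℓ ∧
      ∀ m : GL (Fin n) F, (m : Matrix (Fin n) (Fin n) F) ∈ Set.range ι → m ^ ℓ = 1 →
        m ∈ Subgroup.zpowers u := by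
  classical
  have hσ := hU.pow
  have hσσ := hU.unitary.involutive
  choose τ0 hτ0 using hst
  let τ : K' →+* K' :=
    { toFun := τ0
      map_one' := hι (by rw [hτ0, map_one, st_one])
      map_mul' := fun x y => hι (by
        rw [hτ0, map_mul, st_mul, map_mul, hτ0, hτ0, ← hτ0, ← hτ0, ← map_mul, ← map_mul, mul_comm])
      map_zero' := hι (by rw [hτ0, map_zero, st_zero])
      map_add' := fun x y => hι (by rw [hτ0, map_add, st_add, map_add, hτ0, hτ0]) }
  have hτ : ∀ z, ι (τ z) = st σ (ι z) := hτ0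
  have hττ : ∀ z, τ (τ z) = z := fun z => hι (by rw [hτ, hτ, st_st hσσ])
  -- an element moved by τ
  obtain ⟨ω₀, hω₀⟩ : ∃ ω₀ : F, σ ω₀ ≠ ω₀ := by
    by_contra hcon
    push Not at hcon
    exact hU.unitary.ne_refl (RingEquiv.ext hcon)
  obtain ⟨ω, hω⟩ := hsc ω₀
  have hn : Nonempty (Fin n) := by
    by_contra hcon
    rw [not_nonempty_iff] at hcon
    have : Subsingleton (Matrix (Fin n) (Fin n) F) := inferInstance
    have h01 : (0 : K') = 1 := hι (Subsingleton.elim _ _)
    exact zero_ne_one h01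
  have hτω : τ ω ≠ ω := by
    intro h
    have h4 := congrArg ι h
    rw [hτ, hω, st_smul_one] at h4
    obtain ⟨i⟩ := hn
    have h5 := congrFun (congrFun h4 i) i
    simp at h5
    exact hω₀ h5
  -- an element of order ℓ
  have : Fact (Nat.Prime ℓ) := ⟨hℓ⟩
  have : Fintype K' := Fintype.ofFinite K'
  have hcu : Nat.card K'ˣ = N * N - 1 := by
    rw [Nat.card_eq_fintype_card, Fintype.card_units, ← Nat.card_eq_fintype_card, hcard]
  obtain ⟨x, hx⟩ := exists_prime_orderOf_dvd_card' (G := K'ˣ) ℓ (by rw [hcu]; exact h1)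
  have hxℓ : (x : K') ^ ℓ = 1 := by
    rw [← Units.val_pow_eq_pow_val, ← hx, pow_orderOf_eq_one, Units.val_one]
  have hun := mul_tau_eq_one' hcard τ hττ ω hτω h2 (x : K') hxℓ x.ne_zero
  let u : GL (Fin n) F := Units.map ι.toMonoidHom x
  have hu_val : (u : Matrix (Fin n) (Fin n) F) = ι x := rfl
  have hinj : Function.Injective (Units.map ι.toMonoidHom) := Units.map_injective hι
  have hou : orderOf u = ℓ := by rw [← hx]; exact orderOf_injective _ hinj x
  refine ⟨u, ⟨x, rfl⟩, Subgroup.mem_inf.mpr ⟨?_, ?_⟩, hou, ?_⟩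
  · rw [mem_GU_iff' hσ]
    have h1 : (u : Matrix (Fin n) (Fin n) F) * st σ (u : Matrix (Fin n) (Fin n) F) = 1 := by
      rw [hu_val, ← hτ, ← map_mul, hun, map_one]
    have h2 := congrArg Matrix.transpose h1
    rw [transpose_mul, transpose_one] at h2
    have h3 : (st σ (u : Matrix (Fin n) (Fin n) F))ᵀ = (u : Matrix (Fin n) (Fin n) F).map σ := rfl
    rw [h3] at h2
    exact mul_eq_one_comm.mp h2
  · apply mem_SL_of_pow hU.card (m := ℓ) h3
    rw [← hou, pow_orderOf_eq_one]
  · rintro m ⟨y, hy⟩ hm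
    have hyℓ : y ^ ℓ = 1 := hι (by
      rw [map_pow, hy, ← Units.val_pow_eq_pow_val, hm, Units.val_one, map_one])
    have hprim : IsPrimitiveRoot (x : K') ℓ := by
      have := IsPrimitiveRoot.orderOf (x : K')
      rwa [orderOf_units, hx] at this
    have : NeZero ℓ := ⟨hℓ.ne_zero⟩
    obtain ⟨i, -, hi⟩ := hprim.eq_pow_of_pow_eq_one hyℓ
    have : m = u ^ i := by
      apply Units.ext
      rw [Units.val_pow_eq_pow_val, hu_val, ← map_pow, hi, hy]
    rw [this]
    exact Subgroup.npow_mem_zpowers u i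

theorem aux' (hU : US σ (hermForm n F q) q) {ℓ N : ℕ} (hℓ : ℓ.Prime) (h1 : ℓ ∣ N * N - 1)
    (h2 : Nat.Coprime ℓ (N - 1)) (h3 : Nat.Coprime ℓ (q ^ 2 - 1))
    {K' : Type*} [Ring K'] (hK' : IsField K') [Finite K']
    (ι : K' →+* Matrix (Fin n) (Fin n) F) (hι : Function.Injective ι) (hcard : Nat.card K' = N * N)
    (hst : ∀ z, ∃ z', ι z' = st σ (ι z)) (hsc : ∀ c : F, ∃ z, ι z = c • (1 : Matrix (Fin n) (Fin n) F)) :
    ∃ u : GL (Fin n) F, (u : Matrix (Fin n) (Fin n) F) ∈ Set.range ι ∧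
      u ∈ GU n F q ⊓ specialLinear (Fin n) F ∧ orderOf u = ℓ ∧
      ∀ m : GL (Fin n) F, (m : Matrix (Fin n) (Fin n) F) ∈ Set.range ι → m ^ ℓ = 1 →
        m ∈ Subgroup.zpowers u :=
  @aux F _ _ n σ q hU ℓ N hℓ h1 h2 h3 K' hK'.toField _ ι hι hcard hst hsc

/-- the normaliser of an adjoint-closed field of degree `n` is not maximal in `SU_n(q)` if there is a
certificate for a prime `ℓ` dividing `q ^ n + 1` suitably -/
theorem not_maximal_of_cert (hF : Fintype.card F = q ^ 2) {ℓ : ℕ} (hℓ : ℓ.Prime)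
    (h1 : ℓ ∣ q ^ n * q ^ n - 1) (h2 : Nat.Coprime ℓ (q ^ n - 1)) (h3 : Nat.Coprime ℓ (q ^ 2 - 1))
    (hcert : Cert n F q ℓ) (K : Subalgebra F (Matrix (Fin n) (Fin n) F))
    (hK : IsFieldSubalgebra n K) (hadj : IsAdjointClosedFor (hermForm n F q) K) :
    ¬ IsMaximalIn (GU n F q ⊓ specialLinear (Fin n) F)
      (subalgebraNormalizer K ⊓ (GU n F q ⊓ specialLinear (Fin n) F)) := by
  intro hmax
  obtain ⟨σ, hU⟩ := Cfsg.Agent.Lib.Helper57UConv.exists_US (n := n) hF
  have hn : Nontrivial K := by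
    have h0 : n ≠ 0 := by
      rintro rfl
      have h5 : ℓ = 1 := by simpa using h2
      exact hℓ.one_lt.ne' h5
    have hfr := hK.finrank_eq
    exact Module.nontrivial_of_finrank_pos (R := F) (by omega)
  have hFld : IsField K := by
    refine ⟨exists_pair_ne K, fun a b => Subtype.ext (hK.comm a a.2 b b.2), ?_⟩
    intro a ha
    obtain ⟨y, hy, hxy⟩ := hK.inv a a.2 (fun h => ha (Subtype.ext h))
    exact ⟨⟨y, hy⟩, Subtype.ext hxy⟩
  have hcard : Nat.card K = q ^ n * q ^ n := by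
    rw [Module.natCard_eq_pow_finrank (K := F), Nat.card_eq_fintype_card, hK.finrank_eq, hF, ← pow_mul,
      ← pow_add]
    congr 1
    ring
  obtain ⟨u, ⟨x, hx⟩, huG, hou, hu⟩ := aux' hU hℓ h1 h2 h3 hFld K.val.toRingHom
    Subtype.val_injective hcard
    (fun z => ⟨⟨st σ z.1, st_mem hU.pow hU.unitary.involutive hadj z.2⟩, rfl⟩)
    (fun c => ⟨⟨c • 1, K.smul_mem K.one_mem c⟩, rfl⟩)
  have huK : (u : Matrix (Fin n) (Fin n) F) ∈ K := by
    rw [← hx]; exact x.2
  obtain ⟨M, hM1, hM2, hM3, d, hd, hd'⟩ := hcert u huG hou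
  have hnorm : ∀ h ∈ subalgebraNormalizer K, h * u * h⁻¹ ∈ Subgroup.zpowers u := by
    intro h hh
    apply hu
    · have := (hh (u : Matrix (Fin n) (Fin n) F)).mp huK
      exact ⟨⟨_, this⟩, by simp [Units.val_mul]⟩
    · rw [conj_pow, ← hou, pow_orderOf_eq_one]
      group
  have hle : subalgebraNormalizer K ⊓ (GU n F q ⊓ specialLinear (Fin n) F) ≤ M :=
    fun h hh => hM3 h hh.2 (hnorm h hh.1)
  rcases hmax.2 M hle hM1 with h | h
  · rw [h] at hd
    exact hd' (hnorm d hd.1)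
  · exact hM2 h

end field

end Cfsg.Agent.Lib.Helper67UField
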