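import Cfsg.Agent.Lib.Helper12U3MaskChk
import Cfsg.Agent.Lib.Helper67UField

set_option autoImplicit false

/-! SU_3(5): an algebraic description of the 105 points permuted by `3.A_7` (pieces su3_E1, su3_E5).
`PA` is visibly invariant under the monomial matrices of `SU_3(5)`, `PB` under the real matrices of
`GU_3(5)` (times scalars), and the two predicates agree. -/

namespace Cfsg.Agent.Lib.Helper12U3Mask

open Cfsg Cfsg.Geo Matrix Cfsg.Agent.Lib.Helper67F25 Cfsg.Agent.Lib.Helper12U3MaskChk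
open scoped MatrixGroups

variable {F : Type*} [Field F]

/-- the hermitian norm -/
def hN (x : Fin 3 → F) : F := ∑ i, x i * x i ^ 5
/-- the quadratic norm -/
def qN (x : Fin 3 → F) : F := ∑ i, x i ^ 2

/-- the monomial description of the 105 points -/
def PA (x : Fin 3 → F) : Prop :=
  hN x ≠ 0 ∧ (∃ i j, i ≠ j ∧ x i ^ 6 = x j ^ 6) ∧ (∏ i, x i) ^ 9 = ∏ i, x i

/-- the real description of the 105 points -/
def PB (x : Fin 3 → F) : Prop :=
  hN x ≠ 0 ∧ (((qN x * hN x) ^ 3 = 0 ∨ (qN x * hN x) ^ 3 = 2 ∨ (qN x * hN x) ^ 3 = 4) ∨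
    ∀ i j, x i * x j ^ 5 = x j * x i ^ 5)

/-- coordinate form of `PA` -/
def PA3 (a b c : F) : Prop :=
  a * a ^ 5 + b * b ^ 5 + c * c ^ 5 ≠ 0 ∧ (a ^ 6 = b ^ 6 ∨ a ^ 6 = c ^ 6 ∨ b ^ 6 = c ^ 6) ∧
    (a * b * c) ^ 9 = a * b * c

/-- coordinate form of `PB` -/
def PB3 (a b c : F) : Prop :=
  a * a ^ 5 + b * b ^ 5 + c * c ^ 5 ≠ 0 ∧
    ((((a ^ 2 + b ^ 2 + c ^ 2) * (a * a ^ 5 + b * b ^ 5 + c * c ^ 5)) ^ 3 = 0 ∨
      ((a ^ 2 + b ^ 2 + c ^ 2) * (a * a ^ 5 + b * b ^ 5 + c * c ^ 5)) ^ 3 = 2 ∨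
      ((a ^ 2 + b ^ 2 + c ^ 2) * (a * a ^ 5 + b * b ^ 5 + c * c ^ 5)) ^ 3 = 4) ∨
    (a * b ^ 5 = b * a ^ 5 ∧ a * c ^ 5 = c * a ^ 5 ∧ b * c ^ 5 = c * b ^ 5))

theorem PA3_iff_PB3_aux {E : Type*} [Field E] (a b c a5 b5 c5 z0 z2 z4 : E) (ha : a ^ 5 = a5)
    (hb : b ^ 5 = b5) (hc : c ^ 5 = c5) (e0 : z0 = 0) (e2 : z2 = 2) (e4 : z4 = 4)
    (h : a * a5 + b * b5 + c * c5 = 0 ∨
      (((a * a5 = b * b5 ∨ a * a5 = c * c5 ∨ b * b5 = c * c5) ∧
        a * b * c * (a * b * c) * (a * b * c) * (a * b * c * (a * b * c) * (a * b * c)) *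
          (a * b * c * (a * b * c) * (a * b * c)) = a * b * c) ↔
      ((a * a + b * b + c * c) * (a * a5 + b * b5 + c * c5) *
          ((a * a + b * b + c * c) * (a * a5 + b * b5 + c * c5)) *
          ((a * a + b * b + c * c) * (a * a5 + b * b5 + c * c5)) = z0 ∨
        (a * a + b * b + c * c) * (a * a5 + b * b5 + c * c5) *
          ((a * a + b * b + c * c) * (a * a5 + b * b5 + c * c5)) *
          ((a * a + b * b + c * c) * (a * a5 + b * b5 + c * c5)) = z2 ∨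
        (a * a + b * b + c * c) * (a * a5 + b * b5 + c * c5) *
          ((a * a + b * b + c * c) * (a * a5 + b * b5 + c * c5)) *
          ((a * a + b * b + c * c) * (a * a5 + b * b5 + c * c5)) = z4 ∨
        (a * b5 = b * a5 ∧ a * c5 = c * a5 ∧ b * c5 = c * b5)))) :
    PA3 a b c ↔ PB3 a b c := by
  subst ha hb hc e0 e2 e4
  have h6 : ∀ x : E, x ^ 6 = x * x ^ 5 := fun x => by ring
  have h9 : (a * b * c) ^ 9 = a * b * c * (a * b * c) * (a * b * c) * (a * b * c * (a * b * c) * (a * b * c)) *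
      (a * b * c * (a * b * c) * (a * b * c)) := by ring
  have h3 : ∀ x : E, x ^ 3 = x * x * x := fun x => by ring
  have h2 : ∀ x : E, x ^ 2 = x * x := fun x => by ring
  unfold PA3 PB3
  rw [h6, h6, h6, h9, h3, h2, h2, h2]
  constructor
  · rintro ⟨h0, h1, h2⟩
    refine ⟨h0, ?_⟩
    rcases (h.resolve_left h0).mp ⟨h1, h2⟩ with h | h | h | h
    · exact Or.inl (Or.inl h)
    · exact Or.inl (Or.inr (Or.inl h))
    · exact Or.inl (Or.inr (Or.inr h))
    · exact Or.inr h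
  · rintro ⟨h0, h1⟩
    refine ⟨h0, (h.resolve_left h0).mpr ?_⟩
    rcases h1 with (h | h | h) | h
    · exact Or.inl h
    · exact Or.inr (Or.inl h)
    · exact Or.inr (Or.inr (Or.inl h))
    · exact Or.inr (Or.inr (Or.inr h))

theorem PA3_iff_PB3_model (a b c : F25) : PA3 a b c ↔ PB3 a b c := by
  have h := chk_all a b c
  simp only [chk, Bool.or_eq_true, decide_eq_true_eq, beq_iff_eq] at h
  rw [Bool.eq_iff_iff] at h
  simp only [Bool.or_eq_true, Bool.and_eq_true, decide_eq_true_eq, or_assoc, and_assoc] at h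
  exact PA3_iff_PB3_aux a b c (frob a) (frob b) (frob c) (f 0) (f 2) (f 4) (pow_five a) (pow_five b)
    (pow_five c) rfl (by decide +kernel) (by decide +kernel) h

theorem PA3_map {E : Type*} [Field E] (ψ : F ≃+* E) (a b c : F) :
    PA3 (ψ a) (ψ b) (ψ c) ↔ PA3 a b c := by
  unfold PA3
  simp only [← map_pow, ← map_mul, ← map_add, EmbeddingLike.apply_eq_iff_eq, ne_eq,
    EmbeddingLike.map_eq_zero_iff]

theorem PB3_map {E : Type*} [Field E] (ψ : F ≃+* E) (a b c : F) :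
    PB3 (ψ a) (ψ b) (ψ c) ↔ PB3 a b c := by
  unfold PB3
  have e2 : (2 : E) = ψ 2 := (map_ofNat ψ 2).symm
  have e4 : (4 : E) = ψ 4 := (map_ofNat ψ 4).symm
  rw [e2, e4]
  simp only [← map_pow, ← map_mul, ← map_add, EmbeddingLike.apply_eq_iff_eq, ne_eq,
    EmbeddingLike.map_eq_zero_iff]

theorem PA_iff_PA3 (x : Fin 3 → F) : PA x ↔ PA3 (x 0) (x 1) (x 2) := by
  unfold PA PA3 hN
  rw [Fin.sum_univ_three, Fin.prod_univ_three]
  refine and_congr Iff.rfl (and_congr ?_ Iff.rfl)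
  constructor
  · rintro ⟨i, j, hij, h⟩
    fin_cases i <;> fin_cases j <;> simp_all
  · rintro (h | h | h)
    · exact ⟨0, 1, by decide, h⟩
    · exact ⟨0, 2, by decide, h⟩
    · exact ⟨1, 2, by decide, h⟩

theorem PB_iff_PB3 (x : Fin 3 → F) : PB x ↔ PB3 (x 0) (x 1) (x 2) := by
  unfold PB PB3 hN qN
  rw [Fin.sum_univ_three, Fin.sum_univ_three]
  refine and_congr Iff.rfl (or_congr Iff.rfl ?_)
  constructor
  · intro h
    exact ⟨h 0 1, h 0 2, h 1 2⟩
  · rintro ⟨h1, h2, h3⟩ i j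
    fin_cases i <;> fin_cases j <;> simp_all

/-- the two descriptions agree -/
theorem PA_iff_PB [Fintype F] (hF : Fintype.card F = 25) (x : Fin 3 → F) : PA x ↔ PB x := by
  obtain ⟨ψ⟩ := exists_equiv F hF
  rw [PA_iff_PA3, PB_iff_PB3, ← PA3_map ψ, ← PB3_map ψ]
  exact PA3_iff_PB3_model _ _ _

/-- the stabiliser of the 105 points -/
def stabA (F : Type*) [Field F] : Subgroup (GL (Fin 3) F) where
  carrier := {h | ∀ x, PA ((h : Matrix (Fin 3) (Fin 3) F) *ᵥ x) ↔ PA x}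
  mul_mem' {a b} ha hb := by
    intro x
    rw [Units.val_mul, ← Matrix.mulVec_mulVec, ha, hb]
  one_mem' := by
    intro x
    simp
  inv_mem' {a} ha := by
    intro x
    have h := ha (((a⁻¹ : GL (Fin 3) F) : Matrix (Fin 3) (Fin 3) F) *ᵥ x)
    rw [Matrix.mulVec_mulVec, ← Units.val_mul, mul_inv_cancel, Units.val_one, Matrix.one_mulVec] at h
    exact h.symm

theorem mem_stabA (h : GL (Fin 3) F) :
    h ∈ stabA F ↔ ∀ x, PA ((h : Matrix (Fin 3) (Fin 3) F) *ᵥ x) ↔ PA x := Iff.rfl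

/-- it is enough to preserve the set in one direction, for `h` and for `h⁻¹` -/
theorem mem_stabA_of_imp {h : GL (Fin 3) F}
    (h1 : ∀ x, PA x → PA ((h : Matrix (Fin 3) (Fin 3) F) *ᵥ x))
    (h2 : ∀ x, PA x → PA (((h⁻¹ : GL (Fin 3) F) : Matrix (Fin 3) (Fin 3) F) *ᵥ x)) : h ∈ stabA F := by
  intro x
  refine ⟨fun hx => ?_, h1 x⟩
  have := h2 _ hx
  rwa [Matrix.mulVec_mulVec, ← Units.val_mul, inv_mul_cancel, Units.val_one, Matrix.one_mulVec] at this

end Cfsg.Agent.Lib.Helper12U3Mask
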