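import Cfsg.Agent.Lib.Helper95Basic

set_option autoImplicit false

namespace Cfsg.Agent.Lib.Helper95Subfield

open Matrix Module Cfsg.Agent.Lib.Helper95Basic

variable {ι : Type} [Fintype ι] [DecidableEq ι] {F : Type*} [Field F]

/-- the rational vectors of the `F₀`-structure spanned by the columns of `P` -/
def ratV (F₀ : Subfield F) (P : GL ι F) : AddSubgroup (ι → F) where
  carrier := {x | ∃ u : ι → F, (∀ i, u i ∈ F₀) ∧ x = (P : Matrix ι ι F) *ᵥ u}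
  add_mem' := by
    rintro _ _ ⟨u, hu, rfl⟩ ⟨v, hv, rfl⟩
    exact ⟨u + v, fun i => F₀.add_mem (hu i) (hv i), by rw [Matrix.mulVec_add]⟩
  zero_mem' := ⟨0, fun _ => F₀.zero_mem, by simp⟩
  neg_mem' := by
    rintro _ ⟨u, hu, rfl⟩
    exact ⟨-u, fun i => F₀.neg_mem (hu i), by rw [Matrix.mulVec_neg]⟩

lemma mem_ratV {F₀ : Subfield F} {P : GL ι F} {x : ι → F} :
    x ∈ ratV F₀ P ↔ ∃ u : ι → F, (∀ i, u i ∈ F₀) ∧ x = (P : Matrix ι ι F) *ᵥ u := Iff.rfl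

lemma smul_mem_ratV {F₀ : Subfield F} {P : GL ι F} {x : ι → F} (hx : x ∈ ratV F₀ P) {c : F}
    (hc : c ∈ F₀) : c • x ∈ ratV F₀ P := by
  obtain ⟨u, hu, rfl⟩ := hx
  exact ⟨c • u, fun i => F₀.mul_mem hc (hu i), by rw [Matrix.mulVec_smul]⟩

lemma exists_of_mem_subfieldSubgroup {F₀ : Subfield F} {P : GL ι F} {g : GL ι F}
    (hg : g ∈ Cfsg.Geo.subfieldSubgroup F₀ P) :
    ∃ l : F, l ≠ 0 ∧ ∀ v ∈ ratV F₀ P, ∃ w ∈ ratV F₀ P, (g : Matrix ι ι F) *ᵥ v = l • w := by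
  obtain ⟨k, hk, rfl⟩ := hg
  obtain ⟨a, ha, s, hs, rfl⟩ := Subgroup.mem_sup_of_normal_right.1 hk
  obtain ⟨A0, rfl⟩ := ha
  obtain ⟨c, hc⟩ := (Cfsg.Geo.mem_scalars_iff s).1 hs
  refine ⟨c, c.ne_zero, ?_⟩
  rintro _ ⟨u, hu, rfl⟩
  refine ⟨(P : Matrix ι ι F) *ᵥ
    (((Matrix.GeneralLinearGroup.map (F₀.subtype : F₀ →+* F) A0 : GL ι F) : Matrix ι ι F) *ᵥ u),
    ⟨_, fun i => ?_, rfl⟩, ?_⟩
  · rw [Matrix.mulVec, dotProduct]
    refine F₀.sum_mem fun j _ => F₀.mul_mem ?_ (hu j)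
    rw [Matrix.GeneralLinearGroup.map_apply]
    exact (A0 i j).2
  · simp only [MulEquiv.coe_toMonoidHom, MulAut.conj_apply]
    rw [mul_mulVec, mul_mulVec, mul_mulVec, inv_mulVec_mulVec, hc, Matrix.smul_mulVec,
      Matrix.one_mulVec, Matrix.mulVec_smul, Matrix.mulVec_smul]

lemma mem_subfieldSubgroup_of {F₀ : Subfield F} {P : GL ι F} (g : GL ι F) (l : F) (hl : l ≠ 0)
    (h : ∀ v ∈ ratV F₀ P, ∃ w ∈ ratV F₀ P, (g : Matrix ι ι F) *ᵥ v = l • w) :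
    g ∈ Cfsg.Geo.subfieldSubgroup F₀ P := by
  set k : GL ι F := P⁻¹ * g * P with hk
  -- entries of l⁻¹ k are rational
  have hent : ∀ i j, l⁻¹ * (k : Matrix ι ι F) i j ∈ F₀ := by
    intro i j
    obtain ⟨w, ⟨u, hu, rfl⟩, hw⟩ := h ((P : Matrix ι ι F) *ᵥ Pi.single j 1)
      ⟨Pi.single j 1, fun i' => by
        by_cases hij : i' = j
        · subst hij; simp [F₀.one_mem]
        · simp [Pi.single_eq_of_ne hij, F₀.zero_mem], rfl⟩
    have h1 : (k : Matrix ι ι F) *ᵥ Pi.single j 1 = l • u := by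
      rw [hk, mul_mulVec, mul_mulVec, hw, Matrix.mulVec_smul, inv_mulVec_mulVec]
    have h2 : (k : Matrix ι ι F) i j = l * u i := by
      have := congrFun h1 i
      simpa using this
    rw [h2, ← mul_assoc, inv_mul_cancel₀ hl, one_mul]
    exact hu i
  let A0 : Matrix ι ι F₀ := fun i j => ⟨l⁻¹ * (k : Matrix ι ι F) i j, hent i j⟩
  have hA0 : A0.map (F₀.subtype : F₀ →+* F) = l⁻¹ • (k : Matrix ι ι F) := by
    ext i j
    rfl
  have hdet : A0.det ≠ 0 := by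
    intro h0
    have h1 : (F₀.subtype : F₀ →+* F) A0.det = 0 := by rw [h0, map_zero]
    rw [RingHom.map_det, RingHom.mapMatrix_apply, hA0, Matrix.det_smul] at h1
    rcases mul_eq_zero.1 h1 with h2 | h2
    · exact (pow_ne_zero _ (inv_ne_zero hl)) h2
    · have h3 : IsUnit (k : Matrix ι ι F).det := (Matrix.isUnit_iff_isUnit_det _).1 k.isUnit
      exact h3.ne_zero h2
  set a : GL ι F := Matrix.GeneralLinearGroup.map (F₀.subtype : F₀ →+* F)
    (Matrix.GeneralLinearGroup.mkOfDetNeZero A0 hdet) with ha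
  set s : GL ι F := Units.map (Matrix.scalar ι : F →+* Matrix ι ι F).toMonoidHom (Units.mk0 l hl)
    with hs
  have hkas : k = a * s := by
    apply Units.ext
    rw [Units.val_mul a s]
    have h1 : (a : Matrix ι ι F) = l⁻¹ • (k : Matrix ι ι F) := by
      rw [← hA0]
      rfl
    have h2 : (s : Matrix ι ι F) = l • (1 : Matrix ι ι F) := by
      rw [hs]
      simp [Matrix.smul_one_eq_diagonal]
    rw [h1, h2, Matrix.smul_mul, Matrix.mul_smul, Matrix.mul_one, smul_smul, inv_mul_cancel₀ hl,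
      one_smul]
  refine ⟨k, ?_, ?_⟩
  · rw [hkas]
    exact Subgroup.mul_mem_sup ⟨_, rfl⟩ ⟨_, rfl⟩
  · simp only [MulEquiv.coe_toMonoidHom, MulAut.conj_apply, hk]
    group

end Cfsg.Agent.Lib.Helper95Subfield
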