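import Cfsg.Agent.Lib.Helper95U3E4
import Cfsg.Agent.Lib.Helper95Subfield
import Cfsg.Agent.Lib.Helper17Herm

set_option autoImplicit false
set_option linter.unusedSectionVars false

/-! PROJECT 4, SU3: normal form of an `F_5`-structure in the unitary space `F_25 ^ 3`
(abstract part of piece `su3_E5`). -/

namespace Cfsg.Agent.Lib.Helper95U3E5a

open Cfsg Cfsg.Geo Matrix
open Cfsg.Agent.Lib.Helper97AschBase Cfsg.Agent.Lib.Helper97AschForms
  Cfsg.Agent.Lib.Helper97UBase Cfsg.Agent.Lib.Helper13UDefs Cfsg.Agent.Lib.Helper74UDec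
  Cfsg.Agent.Lib.Helper95O3 Cfsg.Agent.Lib.Helper95Basic Cfsg.Agent.Lib.Helper95U3E4
  Cfsg.Agent.Lib.Helper95Subfield
open scoped MatrixGroups

section grp

variable {G : Type*} [Group G]

lemma map_conj_self' (S : Subgroup G) {t : G} (ht : t ∈ S) :
    S.map (MulAut.conj t).toMonoidHom = S := by
  ext x
  constructor
  · rintro ⟨y, hy, rfl⟩
    exact S.mul_mem (S.mul_mem ht hy) (S.inv_mem ht)
  · intro hx
    refine ⟨t⁻¹ * x * t, S.mul_mem (S.mul_mem (S.inv_mem ht) hx) ht, ?_⟩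
    simp [mul_assoc]

end grp

section sub

variable {F : Type*} [Field F] {ι : Type} [Fintype ι] [DecidableEq ι]

lemma subfieldSubgroup_one (F₀ : Subfield F) : subfieldSubgroup F₀ (1 : GL ι F)
    = (Matrix.GeneralLinearGroup.map (n := ι) (F₀.subtype : F₀ →+* F)).range ⊔ scalars ι F := by
  unfold subfieldSubgroup
  ext x
  constructor
  · rintro ⟨y, hy, rfl⟩
    simpa using hy
  · intro hx
    exact ⟨x, hx, by simp⟩

/-- changing `P` by an element of the standard subfield group does not change the subfield group -/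
lemma subfieldSubgroup_mul' (F₀ : Subfield F) (P h : GL ι F) (hh : h ∈ subfieldSubgroup F₀ (1 : GL ι F)) :
    subfieldSubgroup F₀ (P * h) = subfieldSubgroup F₀ P := by
  rw [subfieldSubgroup_one] at hh
  unfold subfieldSubgroup
  conv_rhs => rw [← map_conj_self' _ hh]
  rw [Subgroup.map_map]
  congr 1
  ext x
  simp [mul_assoc]

end sub

section five

variable {F : Type*} [Field F] [Fintype F] {V : Type*} [AddCommGroup V] [Module F V]

lemma five_eq_zero (hq : Fintype.card F = 5) : (5 : F) = 0 := by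
  have h := Nat.cast_card_eq_zero F
  rw [hq] at h
  exact_mod_cast h

lemma two_ne_zero5 (hq : Fintype.card F = 5) : (2 : F) ≠ 0 := by
  intro h
  have h5 := five_eq_zero hq
  exact one_ne_zero (α := F) (by linear_combination h5 - 2 * h)

lemma cases5 (hq : Fintype.card F = 5) (x : F) : x = 0 ∨ x = 1 ∨ x = -1 ∨ x = 2 ∨ x = -2 := by
  have h := FiniteField.pow_card x
  rw [hq] at h
  have h5 := five_eq_zero hq
  have h2 : x * ((x - 1) * ((x + 1) * ((x - 2) * (x + 2)))) = 0 := by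
    linear_combination h - x ^ 3 * h5 + x * h5
  rcases mul_eq_zero.1 h2 with h | h
  · exact Or.inl h
  rcases mul_eq_zero.1 h with h | h
  · exact Or.inr (Or.inl (sub_eq_zero.1 h))
  rcases mul_eq_zero.1 h with h | h
  · exact Or.inr (Or.inr (Or.inl (eq_neg_of_add_eq_zero_left h)))
  rcases mul_eq_zero.1 h with h | h
  · exact Or.inr (Or.inr (Or.inr (Or.inl (sub_eq_zero.1 h))))
  · exact Or.inr (Or.inr (Or.inr (Or.inr (eq_neg_of_add_eq_zero_left h))))

/-- rescaling a vector to norm 1 or 2 -/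
lemma exists_scale (hq : Fintype.card F = 5) (B : LinearMap.BilinForm F V) (x : V) (hx : B x x ≠ 0) :
    ∃ s : F, B (s • x) (s • x) = 1 ∨ B (s • x) (s • x) = 2 := by
  have h5 := five_eq_zero hq
  have e : ∀ s : F, B (s • x) (s • x) = s ^ 2 * B x x := by
    intro s
    simp only [map_smul, LinearMap.smul_apply, smul_eq_mul]
    ring
  rcases cases5 hq (B x x) with h | h | h | h | h
  · exact absurd h hx
  · exact ⟨1, Or.inl (by rw [e, h]; ring)⟩
  · exact ⟨2, Or.inl (by rw [e, h]; linear_combination -h5)⟩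
  · exact ⟨1, Or.inr (by rw [e, h]; ring)⟩
  · exact ⟨2, Or.inr (by rw [e, h]; linear_combination (-2) * h5)⟩

lemma fr_fix' (h2 : (2 : F) ≠ 0) (B : LinearMap.BilinForm F V) (hs : ∀ p q, B p q = B q p) (a : F)
    (ha : a ≠ 0) (x y z : V) (xx : B x x = a) (yy : B y y = a) (zz : B z z = 2 * a)
    (xy : B x y = 0) (xz : B x z = 0) (yz : B y z = 0) : Fr B (2 * a) (x + y) (x - y) z := by
  have yx : B y x = 0 := by rw [hs, xy]
  refine ⟨mul_ne_zero h2 ha, ?_, ?_, zz, ?_, ?_, ?_⟩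
  · simp only [map_add, LinearMap.add_apply, xx, yy, xy, yx]
    ring
  · simp only [map_sub, LinearMap.sub_apply, xx, yy, xy, yx]
    ring
  · simp only [map_add, map_sub, LinearMap.add_apply, xx, yy, xy, yx]
    ring
  · simp only [map_add, LinearMap.add_apply, xz, yz]
    ring
  · simp only [map_sub, LinearMap.sub_apply, xz, yz]
    ring

lemma exists_fr5 (hq : Fintype.card F = 5) (B : LinearMap.BilinForm F V)
    (hs : ∀ p q, B p q = B q p)
    (hn : B.Nondegenerate) (hd : Module.finrank F V = 3) : ∃ ε x y z, Fr B ε x y z := by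
  have h2 := two_ne_zero5 hq
  have : Invertible (2 : F) := invertibleOfNonzero h2
  have : FiniteDimensional F V := Module.finite_of_finrank_pos (by omega)
  obtain ⟨v, hv⟩ := LinearMap.BilinForm.exists_orthogonal_basis
    (LinearMap.BilinForm.isSymm_iff.1 ⟨hs⟩)
  have hv2 := LinearMap.BilinForm.iIsOrtho.not_isOrtho_basis_self_of_nondegenerate hv hn
  have hv1 := LinearMap.isOrthoᵢ_def.1 hv
  let i0 : Fin (Module.finrank F V) := ⟨0, by omega⟩
  let i1 : Fin (Module.finrank F V) := ⟨1, by omega⟩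
  let i2 : Fin (Module.finrank F V) := ⟨2, by omega⟩
  have xy0 : B (v i0) (v i1) = 0 := hv1 i0 i1 (by simp [i0, i1, Fin.ext_iff])
  have xz0 : B (v i0) (v i2) = 0 := hv1 i0 i2 (by simp [i0, i2, Fin.ext_iff])
  have yz0 : B (v i1) (v i2) = 0 := hv1 i1 i2 (by simp [i1, i2, Fin.ext_iff])
  obtain ⟨s0, hx⟩ := exists_scale hq B (v i0) (hv2 i0)
  obtain ⟨s1, hy⟩ := exists_scale hq B (v i1) (hv2 i1)
  obtain ⟨s2, hz⟩ := exists_scale hq B (v i2) (hv2 i2)
  have xy : B (s0 • v i0) (s1 • v i1) = 0 := by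
    simp only [map_smul, LinearMap.smul_apply, xy0, smul_zero]
  have xz : B (s0 • v i0) (s2 • v i2) = 0 := by
    simp only [map_smul, LinearMap.smul_apply, xz0, smul_zero]
  have yz : B (s1 • v i1) (s2 • v i2) = 0 := by
    simp only [map_smul, LinearMap.smul_apply, yz0, smul_zero]
  generalize s0 • v i0 = x at *
  generalize s1 • v i1 = y at *
  generalize s2 • v i2 = z at *
  have h1 : (1 : F) ≠ 0 := one_ne_zero
  have yx : B y x = 0 := by rw [hs, xy]
  have zx : B z x = 0 := by rw [hs, xz]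
  have zy : B z y = 0 := by rw [hs, yz]
  have dbl : ∀ w : V, B w w = 1 → B ((2 : F) • w) ((2 : F) • w) = 2 * 2 := by
    intro w hw
    simp only [map_smul, LinearMap.smul_apply, smul_eq_mul, hw]
    ring
  have dz : ∀ u w : V, B u w = 0 → B u ((2 : F) • w) = 0 := by
    intro u w hw
    simp only [map_smul, smul_eq_mul, hw, mul_zero]
  rcases hx with hx | hx <;> rcases hy with hy | hy <;> rcases hz with hz | hz
  · exact ⟨1, x, y, z, h1, hx, hy, hz, xy, xz, yz⟩
  · exact ⟨_, _, _, _, fr_fix' h2 B hs 1 h1 x y z hx hy (by rw [hz]; ring) xy xz yz⟩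
  · exact ⟨_, _, _, _, fr_fix' h2 B hs 1 h1 x z y hx hz (by rw [hy]; ring) xz xy zy⟩
  · exact ⟨_, _, _, _, fr_fix' h2 B hs 2 h2 y z ((2 : F) • x) hy hz (dbl x hx) yz (dz _ _ yx)
      (dz _ _ zx)⟩
  · exact ⟨_, _, _, _, fr_fix' h2 B hs 1 h1 y z x hy hz (by rw [hx]; ring) yz yx zx⟩
  · exact ⟨_, _, _, _, fr_fix' h2 B hs 2 h2 x z ((2 : F) • y) hx hz (dbl y hy) xz (dz _ _ xy)
      (dz _ _ zy)⟩
  · exact ⟨_, _, _, _, fr_fix' h2 B hs 2 h2 x y ((2 : F) • z) hx hy (dbl z hz) xy (dz _ _ xz)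
      (dz _ _ yz)⟩
  · exact ⟨2, x, y, z, h2, hx, hy, hz, xy, xz, yz⟩

end five

section main

variable {F : Type*} [Field F] [Fintype F] {n : ℕ} {σ : F ≃+* F}
  {f : (Fin n → F) → (Fin n → F) → F}

lemma card_sub {q : ℕ} (hU : US σ f q) (F₀ : Subfield F) (hc : Fintype.card F = Nat.card F₀ ^ 2) :
    Nat.card F₀ = q := by
  have h1 : Nat.card F₀ ^ 2 = q ^ 2 := by rw [← hc, hU.card]
  exact Nat.pow_left_injective (n := 2) (by norm_num) h1

lemma sigma_fix {q : ℕ} (hU : US σ f q) (F₀ : Subfield F) (hc : Fintype.card F = Nat.card F₀ ^ 2)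
    (c : F) (hcF : c ∈ F₀) : σ c = c := by
  let _ : Fintype F₀ := Fintype.ofFinite F₀
  rw [hU.pow]
  have h := FiniteField.pow_card (⟨c, hcF⟩ : F₀)
  rw [← Nat.card_eq_fintype_card, card_sub hU F₀ hc] at h
  exact congrArg (Subtype.val) h

/-- the symmetric form induced on the rational vectors -/
lemma rational_form {q : ℕ} (hU : US σ f q) (F₀ : Subfield F) (P : GL (Fin n) F)
    (hc : Fintype.card F = Nat.card F₀ ^ 2) (hP : IsFormRationalStructure f F₀ 1 P) :
    ∃ b₀ : (Fin n → F₀) → (Fin n → F₀) → F₀, IsSymmetricForm b₀ ∧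
      ∀ u v, ((b₀ u v : F₀) : F) = f ((P : Matrix (Fin n) (Fin n) F) *ᵥ up F₀ u)
        ((P : Matrix (Fin n) (Fin n) F) *ᵥ up F₀ v) := by
  classical
  have hf := hU.unitary
  have hs := sesq_of_unitary hf
  have hfix' := sigma_fix hU F₀ hc
  obtain ⟨T, hT⟩ : ∃ T : (Fin n → F₀) → Fin n → F, T = fun u => (P : Matrix (Fin n) (Fin n) F) *ᵥ up F₀ u :=
    ⟨_, rfl⟩
  have Tadd : ∀ u v, T (u + v) = T u + T v := by
    intro u v; rw [hT]; simp only [up_add, Matrix.mulVec_add]
  have Tsmul : ∀ (c : F₀) u, T (c • u) = (c : F) • T u := by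
    intro c u; rw [hT]; simp only [up_smul, Matrix.mulVec_smul]
  have hrat : ∀ u v, f (T u) (T v) ∈ F₀ := by
    intro u v
    have := hP (up F₀ u) (up F₀ v) (fun i => (u i).2) (fun i => (v i).2)
    rw [one_mul] at this
    rw [hT]
    exact this
  let b₀ : (Fin n → F₀) → (Fin n → F₀) → F₀ := fun u v => ⟨f (T u) (T v), hrat u v⟩
  have hb₀ : ∀ u v, ((b₀ u v : F₀) : F) = f (T u) (T v) := fun _ _ => rfl
  have hsymm : ∀ u v, b₀ u v = b₀ v u := by
    intro u v
    apply Subtype.ext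
    rw [hb₀, hb₀, hf.herm, hfix' _ (hrat v u)]
  have hbil : IsBilinearForm b₀ := by
    refine ⟨?_, ?_, ?_, ?_⟩
    · intro x y v
      apply Subtype.ext
      show f (T (x + y)) (T v) = f (T x) (T v) + f (T y) (T v)
      rw [Tadd, hs.add_left]
    · intro c x v
      apply Subtype.ext
      show f (T (c • x)) (T v) = (c : F) * f (T x) (T v)
      rw [Tsmul, hs.smul_left]
    · intro v x y
      apply Subtype.ext
      show f (T v) (T (x + y)) = f (T v) (T x) + f (T v) (T y)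
      rw [Tadd, hs.add_right]
    · intro c v x
      apply Subtype.ext
      show f (T v) (T (c • x)) = (c : F) * f (T v) (T x)
      rw [Tsmul, hs.smul_right, hfix' _ c.2]
  have hnd1 : ∀ v : Fin n → F₀, v ≠ 0 → ∃ x, b₀ x v ≠ 0 := by
    intro v hv
    by_contra hcon
    push Not at hcon
    have hTv : T v ≠ 0 := by
      intro h
      apply hv
      apply up_injective F₀
      have h1 := congrArg (fun w => ((P⁻¹ : GL (Fin n) F) : Matrix (Fin n) (Fin n) F) *ᵥ w) h
      rw [hT] at h1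
      simp only [Helper95Basic.inv_mulVec_mulVec, Matrix.mulVec_zero] at h1
      rw [h1]
      rfl
    obtain ⟨x, hx⟩ := (hf.nondegenerate _ hTv).1
    apply hx
    rw [← mul_inv_mulVec P x, expand, form_sum_left hf]
    apply Finset.sum_eq_zero
    intro j _
    have h1 := congrArg Subtype.val (hcon (Pi.single j 1))
    rw [hb₀, hT] at h1
    simp only [up_single] at h1
    rw [hT, h1]
    simp
  refine ⟨b₀, ⟨hbil, hsymm, fun v hv => ⟨hnd1 v hv, ?_⟩⟩, fun u v => by rw [hb₀, hT]⟩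
  obtain ⟨x, hx⟩ := hnd1 v hv
  exact ⟨x, by rw [hsymm]; exact hx⟩

end main

section normal

variable {F : Type*} [Field F] [Fintype F] {σ : F ≃+* F} {f : (Fin 3 → F) → (Fin 3 → F) → F}

/-- an `F_5`-structure on which the unitary form is rational is given by an orthonormal basis -/
theorem normal_form5 (hU : US σ f 5) (F₀ : Subfield F) (P : GL (Fin 3) F)
    (hc : Fintype.card F = Nat.card F₀ ^ 2) (hP : IsFormRationalStructure f F₀ 1 P) :
    ∃ g0 : GL (Fin 3) F, IsON σ f g0 ∧ subfieldSubgroup F₀ P = subfieldSubgroup F₀ g0 := by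
  classical
  have hf := hU.unitary
  have hs := sesq_of_unitary hf
  let _ : Fintype F₀ := Fintype.ofFinite F₀
  have hq : Fintype.card F₀ = 5 := by
    rw [← Nat.card_eq_fintype_card]
    exact card_sub hU F₀ hc
  obtain ⟨b₀, hsf, hb₀⟩ := rational_form hU F₀ P hc hP
  obtain ⟨ε, u1, u2, u3, hfr⟩ := exists_fr5 hq (Helper95Form.toBilin b₀ hsf.bilinear) hsf.symm
    (Helper95Form.toBilin_nondegenerate b₀ hsf.bilinear hsf.nondegenerate) (by simp)
  have hε : (ε : F) ≠ 0 := fun h => hfr.ne (Subtype.ext h)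
  obtain ⟨l, hl⟩ := Cfsg.Agent.Lib.Helper17Herm.norm_surj (σ : F →+* F) (herm_of_unitary hf).ne_id
    hf.involutive ((ε : F)⁻¹) (inv_ne_zero hε) (by
      show σ ((ε : F)⁻¹) = _
      rw [map_inv₀, sigma_fix hU F₀ hc _ ε.2])
  have hl' : l * σ l = (ε : F)⁻¹ := hl
  have hl0 : l ≠ 0 := by
    rintro rfl
    rw [zero_mul] at hl'
    exact inv_ne_zero hε hl'.symm
  let w : Fin 3 → Fin 3 → F₀ := ![u1, u2, u3]
  have hsymm := hsf.symm
  have hww : ∀ i j, b₀ (w i) (w j) = if i = j then ε else 0 := by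
    have e11 : b₀ u1 u1 = ε := hfr.xx
    have e22 : b₀ u2 u2 = ε := hfr.yy
    have e33 : b₀ u3 u3 = ε := hfr.zz
    have e12 : b₀ u1 u2 = 0 := hfr.xy
    have e13 : b₀ u1 u3 = 0 := hfr.xz
    have e23 : b₀ u2 u3 = 0 := hfr.yz
    have e21 : b₀ u2 u1 = 0 := by rw [hsymm]; exact e12
    have e31 : b₀ u3 u1 = 0 := by rw [hsymm]; exact e13
    have e32 : b₀ u3 u2 = 0 := by rw [hsymm]; exact e23
    intro i j
    fin_cases i <;> fin_cases j <;> simp [w, e11, e22, e33, e12, e13, e23, e21, e31, e32]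
  obtain ⟨b, hb⟩ : ∃ b : Fin 3 → Fin 3 → F,
    b = fun j => l • ((P : Matrix (Fin 3) (Fin 3) F) *ᵥ up F₀ (w j)) := ⟨_, rfl⟩
  have hbb : ∀ i j, f (b i) (b j) = if i = j then 1 else 0 := by
    intro i j
    rw [hb]
    show f (l • _) (l • _) = _
    rw [hs.smul_left, hs.smul_right, ← hb₀, hww]
    split_ifs
    · rw [← mul_assoc, hl', inv_mul_cancel₀ hε]
    · simp
  obtain ⟨g0, hON, hcol⟩ := exists_ON_of_family hf b hbb
  refine ⟨g0, hON, ?_⟩
  have hg : g0 = P * (P⁻¹ * g0) := by group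
  rw [hg, subfieldSubgroup_mul' F₀ P (P⁻¹ * g0) ?_]
  apply mem_subfieldSubgroup_of _ l hl0
  rintro _ ⟨u, hu, rfl⟩
  refine ⟨((1 : GL (Fin 3) F) : Matrix (Fin 3) (Fin 3) F) *ᵥ (fun i => ∑ j, u j * (w j i : F)),
    ⟨_, fun i => F₀.sum_mem fun j _ => F₀.mul_mem (hu j) (w j i).2, rfl⟩, ?_⟩
  rw [Units.val_one, Matrix.one_mulVec, Matrix.one_mulVec, mul_mulVec, expand g0 u]
  simp only [hcol]
  rw [hb, Matrix.mulVec_sum]
  simp only [Matrix.mulVec_smul, Helper95Basic.inv_mulVec_mulVec]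
  funext i
  simp only [Finset.sum_apply, Pi.smul_apply, smul_eq_mul, up, Finset.mul_sum]
  refine Finset.sum_congr rfl fun j _ => ?_
  ring

/-- the same for the standard form -/
theorem normal_form5_std (hF : Fintype.card F = 25) (F₀ : Subfield F) (P : GL (Fin 3) F)
    (hc : Fintype.card F = Nat.card F₀ ^ 2) (hP : IsFormRationalStructure (hermForm 3 F 5) F₀ 1 P) :
    ∃ g0 : GL (Fin 3) F, g0 ∈ GU 3 F 5 ∧ subfieldSubgroup F₀ P = subfieldSubgroup F₀ g0 := by
  obtain ⟨σ, hU⟩ := Cfsg.Agent.Lib.Helper57UConv.exists_US (n := 3) (q := 5) (by rw [hF]; norm_num)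
  obtain ⟨g0, hON, h⟩ := normal_form5 hU F₀ P hc hP
  refine ⟨g0, fun x y => ?_, h⟩
  show hermForm 3 F 5 ((g0 : Matrix (Fin 3) (Fin 3) F) *ᵥ x) ((g0 : Matrix (Fin 3) (Fin 3) F) *ᵥ y) = _
  rw [hON]
  unfold hermForm
  exact Finset.sum_congr rfl fun i _ => by rw [hU.pow]

end normal

end Cfsg.Agent.Lib.Helper95U3E5a
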