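import Cfsg.Agent.Lib.Helper67UField
import Cfsg.Agent.Lib.Helper95U3E5a
import Cfsg.Agent.Lib.Helper12U3Mask

set_option autoImplicit false
set_option linter.unusedSectionVars false

/-! PROJECT 4, SU3, piece `su3_E5`: scalar multiples of real matrices in `GU_3(5)`. -/

namespace Cfsg.Agent.Lib.Helper95U3E5b

open Cfsg Cfsg.Geo Matrix
open scoped MatrixGroups

variable {F : Type*} [Field F] {σ : F ≃+* F}

/-- `h = c • M` with `M` real -/
structure RealUp (σ : F ≃+* F) (h : Matrix (Fin 3) (Fin 3) F) (c : F) (M : Matrix (Fin 3) (Fin 3) F) :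
    Prop where
  ne : c ≠ 0
  real : ∀ i j, σ (M i j) = M i j
  eq : h = c • M
  unit : hᵀ * h.map σ = 1

namespace RealUp

variable {h M : Matrix (Fin 3) (Fin 3) F} {c : F}

lemma map_eq (H : RealUp σ h c M) : h.map σ = σ c • M := by
  ext i j
  rw [H.eq, Matrix.map_apply, Matrix.smul_apply, Matrix.smul_apply, smul_eq_mul, smul_eq_mul, map_mul,
    H.real]

lemma gram (H : RealUp σ h c M) : (c * σ c) • (Mᵀ * M) = 1 := by
  have h1 := H.unit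
  rw [H.map_eq, H.eq, Matrix.transpose_smul, Matrix.smul_mul, Matrix.mul_smul, smul_smul] at h1
  exact h1

lemma dot (H : RealUp σ h c M) (x : Fin 3 → F) :
    σ c * ((h *ᵥ x) ⬝ᵥ (h *ᵥ x)) = c * (x ⬝ᵥ x) := by
  have h1 : (M *ᵥ x) ⬝ᵥ (M *ᵥ x) = x ⬝ᵥ ((Mᵀ * M) *ᵥ x) := by
    rw [← Matrix.mulVec_mulVec, Matrix.dotProduct_mulVec _ Mᵀ, Matrix.vecMul_transpose]
  have h2 : (c * σ c) * ((M *ᵥ x) ⬝ᵥ (M *ᵥ x)) = x ⬝ᵥ x := by
    rw [h1, ← smul_eq_mul, ← dotProduct_smul, ← Matrix.smul_mulVec, H.gram, Matrix.one_mulVec]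
  rw [H.eq, Matrix.smul_mulVec, smul_dotProduct, dotProduct_smul, smul_eq_mul, smul_eq_mul, ← h2]
  ring

lemma expand (H : RealUp σ h c M) (x : Fin 3 → F) (i j : Fin 3) :
    (h *ᵥ x) i * σ ((h *ᵥ x) j) = (c * σ c) * ∑ k, ∑ l, (M i k * M j l) * (x k * σ (x l)) := by
  have h1 : ∀ i, (h *ᵥ x) i = c * ∑ k, M i k * x k := by
    intro i
    rw [H.eq, Matrix.smul_mulVec]
    rfl
  rw [h1, h1, map_mul, map_sum]
  simp only [map_mul, H.real]
  rw [mul_mul_mul_comm, Finset.sum_mul_sum]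
  congr 1
  refine Finset.sum_congr rfl fun k _ => Finset.sum_congr rfl fun l _ => ?_
  ring

lemma real_vec (H : RealUp σ h c M) (x : Fin 3 → F) (hx : ∀ i j, x i * σ (x j) = x j * σ (x i))
    (i j : Fin 3) : (h *ᵥ x) i * σ ((h *ᵥ x) j) = (h *ᵥ x) j * σ ((h *ᵥ x) i) := by
  rw [H.expand, H.expand, Finset.sum_comm]
  congr 1
  refine Finset.sum_congr rfl fun k _ => Finset.sum_congr rfl fun l _ => ?_
  rw [hx l k]
  ring

lemma inv (hσσ : ∀ a, σ (σ a) = a) (H : RealUp σ h c M) : RealUp σ (h.map σ)ᵀ (σ c) Mᵀ where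
  ne := (map_ne_zero σ).2 H.ne
  real i j := H.real j i
  eq := by rw [H.map_eq, Matrix.transpose_smul]
  unit := by
    have h1 : ((h.map σ)ᵀ).map σ = hᵀ := by
      ext i j
      simp [hσσ]
    rw [Matrix.transpose_transpose, h1]
    exact mul_eq_one_comm.1 H.unit

lemma inv_mul (H : RealUp σ h c M) : (h.map σ)ᵀ * h = 1 := by
  have := congrArg Matrix.transpose H.unit
  rwa [Matrix.transpose_mul, Matrix.transpose_transpose, Matrix.transpose_one] at this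

lemma det_sq (H : RealUp σ h c M) : (c * σ c) ^ 3 * M.det ^ 2 = 1 := by
  have := congrArg Matrix.det H.gram
  rw [Matrix.det_smul, Matrix.det_mul, Matrix.det_transpose, Matrix.det_one, Fintype.card_fin] at this
  rw [← this]
  ring

lemma det_real (H : RealUp σ h c M) : σ M.det = M.det := by
  have h1 : σ M.det = (M.map σ).det := (σ : F →+* F).map_det M
  rw [h1]
  congr 1
  ext i j
  exact H.real i j

lemma pow_twelve [Fintype F] (hF : Fintype.card F = 25) (hσ : ∀ a, σ a = a ^ 5) (H : RealUp σ h c M) :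
    c ^ 12 = 1 := by
  have hc24 : c ^ 24 = 1 := by
    have := FiniteField.pow_card_sub_one_eq_one c H.ne
    rwa [hF] at this
  have hd := H.det_sq
  rw [hσ] at hd
  have hd0 : M.det ≠ 0 := by
    intro h0
    rw [h0] at hd
    simp at hd
  have hd4 : M.det ^ 4 = 1 := by
    have h1 := H.det_real
    rw [hσ] at h1
    have h2 : M.det * (M.det ^ 4 - 1) = 0 := by linear_combination h1
    rcases mul_eq_zero.1 h2 with h | h
    · exact absurd h hd0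
    · exact sub_eq_zero.1 h
  calc c ^ 12 = c ^ 12 * c ^ 24 * M.det ^ 4 := by rw [hc24, hd4, mul_one, mul_one]
    _ = ((c * c ^ 5) ^ 3 * M.det ^ 2) ^ 2 := by ring
    _ = 1 := by rw [hd, one_pow]

/-- the invariant `(q(x) h(x)) ^ 3` -/
lemma cube [Fintype F] (hF : Fintype.card F = 25) (hσ : ∀ a, σ a = a ^ 5) (H : RealUp σ h c M)
    (x : Fin 3 → F) (t : F) : (((h *ᵥ x) ⬝ᵥ (h *ᵥ x)) * t) ^ 3 = ((x ⬝ᵥ x) * t) ^ 3 := by
  have h1 := H.dot x
  rw [hσ] at h1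
  have h2 : c ^ 4 * ((h *ᵥ x) ⬝ᵥ (h *ᵥ x)) = x ⬝ᵥ x := by
    apply mul_left_cancel₀ H.ne
    linear_combination h1
  rw [← h2]
  have h12 := H.pow_twelve hF hσ
  calc (((h *ᵥ x) ⬝ᵥ (h *ᵥ x)) * t) ^ 3 = 1 * (((h *ᵥ x) ⬝ᵥ (h *ᵥ x)) * t) ^ 3 := by rw [one_mul]
    _ = c ^ 12 * (((h *ᵥ x) ⬝ᵥ (h *ᵥ x)) * t) ^ 3 := by rw [h12]
    _ = _ := by ring

end RealUp

section sub

open Cfsg.Agent.Lib.Helper95U3E5a

variable {ι : Type} [Fintype ι] [DecidableEq ι]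

lemma exists_real_of_mem {F₀ : Subfield F} {g : GL ι F} (hg : g ∈ subfieldSubgroup F₀ (1 : GL ι F)) :
    ∃ c : F, c ≠ 0 ∧ ∃ M : Matrix ι ι F, (∀ i j, M i j ∈ F₀) ∧ (g : Matrix ι ι F) = c • M := by
  rw [subfieldSubgroup_one] at hg
  obtain ⟨a, ha, s, hs, rfl⟩ := Subgroup.mem_sup_of_normal_right.1 hg
  obtain ⟨A0, rfl⟩ := ha
  obtain ⟨c, hc⟩ := (Cfsg.Geo.mem_scalars_iff s).1 hs
  refine ⟨c, c.ne_zero,
    ((Matrix.GeneralLinearGroup.map (F₀.subtype : F₀ →+* F) A0 : GL ι F) : Matrix ι ι F), ?_, ?_⟩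
  · intro i j
    rw [Matrix.GeneralLinearGroup.map_apply]
    exact (A0 i j).2
  · rw [Units.val_mul, hc, Matrix.mul_smul, Matrix.mul_one]

lemma mem_subfieldSubgroup_conj (F₀ : Subfield F) (P g : GL ι F) :
    g ∈ subfieldSubgroup F₀ P ↔ P⁻¹ * g * P ∈ subfieldSubgroup F₀ (1 : GL ι F) := by
  rw [subfieldSubgroup_one]
  unfold subfieldSubgroup
  constructor
  · rintro ⟨y, hy, rfl⟩
    have : P⁻¹ * (MulAut.conj P).toMonoidHom y * P = y := by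
      simp [mul_assoc]
    rw [this]
    exact hy
  · intro h
    exact ⟨_, h, by simp [mul_assoc]⟩

end sub

section omega

variable [Fintype F]

lemma exists_omega (hF : Fintype.card F = 25) : ∃ ω : F, ω ≠ 1 ∧ ω ^ 3 = 1 := by
  classical
  have : Fact (Nat.Prime 3) := ⟨by norm_num⟩
  have hcu : Fintype.card Fˣ = 24 := by rw [Fintype.card_units, hF]
  obtain ⟨x, hx⟩ := exists_prime_orderOf_dvd_card (G := Fˣ) 3 (by rw [hcu]; norm_num)
  refine ⟨x, ?_, ?_⟩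
  · intro h
    have h1 : x = 1 := Units.ext h
    rw [h1, orderOf_one] at hx
    norm_num at hx
  · rw [← Units.val_pow_eq_pow_val, ← hx, pow_orderOf_eq_one, Units.val_one]

/-- the diagonal element `diag(ω, ω², 1)` -/
noncomputable def dg (ω : F) (hω : ω ^ 3 = 1) : GL (Fin 3) F :=
  Matrix.GeneralLinearGroup.mkOfDetNeZero (Matrix.diagonal ![ω, ω ^ 2, 1]) (by
    rw [Matrix.det_diagonal, Fin.prod_univ_three]
    simp only [Matrix.cons_val_zero, Matrix.cons_val_one, Matrix.cons_val]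
    rw [mul_one, ← pow_succ', hω]
    exact one_ne_zero)

lemma dg_val (ω : F) (hω : ω ^ 3 = 1) :
    ((dg ω hω : GL (Fin 3) F) : Matrix (Fin 3) (Fin 3) F) = Matrix.diagonal ![ω, ω ^ 2, 1] := rfl

lemma dg_mem_SL (ω : F) (hω : ω ^ 3 = 1) : dg ω hω ∈ specialLinear (Fin 3) F := by
  rw [Cfsg.Agent.Lib.Helper67UField.mem_SL_iff, dg_val, Matrix.det_diagonal, Fin.prod_univ_three]
  simp only [Matrix.cons_val_zero, Matrix.cons_val_one, Matrix.cons_val]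
  rw [mul_one, ← pow_succ', hω]

lemma dg_mem_GU (hσ : ∀ a, σ a = a ^ 5) (ω : F) (hω : ω ^ 3 = 1) : dg ω hω ∈ GU 3 F 5 := by
  rw [Cfsg.Agent.Lib.Helper67UField.mem_GU_iff' hσ, dg_val, Matrix.diagonal_transpose,
    Matrix.diagonal_map (map_zero σ), Matrix.diagonal_mul_diagonal, ← Matrix.diagonal_one]
  congr 1
  funext i
  fin_cases i
  · simp only [hσ]
    show ω * ω ^ 5 = 1
    calc ω * ω ^ 5 = (ω ^ 3) ^ 2 := by ring
      _ = 1 := by rw [hω, one_pow]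
  · simp only [hσ]
    show ω ^ 2 * (ω ^ 2) ^ 5 = 1
    calc ω ^ 2 * (ω ^ 2) ^ 5 = (ω ^ 3) ^ 4 := by ring
      _ = 1 := by rw [hω, one_pow]
  · simp only [hσ]
    show (1 : F) * 1 ^ 5 = 1
    simp

lemma dg_not_mem (F₀ : Subfield F) (h5 : ∀ a ∈ F₀, a ^ 5 = a) (ω : F) (hω : ω ^ 3 = 1) (h1 : ω ≠ 1) :
    dg ω hω ∉ subfieldSubgroup F₀ (1 : GL (Fin 3) F) := by
  intro h
  obtain ⟨c, hc, M, hM, hcM⟩ := exists_real_of_mem h
  rw [dg_val] at hcM
  have e0 : ω = c * M 0 0 := by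
    have := congrFun (congrFun hcM 0) 0
    simpa using this
  have e2 : 1 = c * M 2 2 := by
    have := congrFun (congrFun hcM 2) 2
    simpa using this
  have hm : M 2 2 ≠ 0 := by
    intro h0
    rw [h0, mul_zero] at e2
    exact one_ne_zero e2
  have hωF : ω ∈ F₀ := by
    have : ω = M 0 0 / M 2 2 := by
      rw [eq_div_iff hm, e0]
      linear_combination (- M 0 0) * e2
    rw [this]
    exact F₀.div_mem (hM 0 0) (hM 2 2)
  have h2 := h5 ω hωF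
  have hω0 : ω ≠ 0 := by
    rintro rfl
    simp at hω
  apply h1
  have h3 : ω * (ω - 1) = 0 := by
    have : ω ^ 5 = ω ^ 2 := by
      calc ω ^ 5 = ω ^ 3 * ω ^ 2 := by ring
        _ = ω ^ 2 := by rw [hω, one_mul]
    linear_combination h2 - this
  rcases mul_eq_zero.1 h3 with h | h
  · exact absurd h hω0
  · exact sub_eq_zero.1 h

end omega

section stab

open Cfsg.Agent.Lib.Helper12U3Mask Cfsg.Agent.Lib.Helper13UDefs

variable [Fintype F]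

lemma qN_eq (x : Fin 3 → F) : qN x = x ⬝ᵥ x := by
  unfold qN dotProduct
  exact Finset.sum_congr rfl fun i _ => sq (x i)

lemma PB_imp (hF : Fintype.card F = 25) (hσ : ∀ a, σ a = a ^ 5) {h : GL (Fin 3) F}
    (hh : h ∈ GU 3 F 5) {c : F} {M : Matrix (Fin 3) (Fin 3) F}
    (H : RealUp σ (h : Matrix (Fin 3) (Fin 3) F) c M) (x : Fin 3 → F) (hx : PB x) :
    PB ((h : Matrix (Fin 3) (Fin 3) F) *ᵥ x) := by
  obtain ⟨h0, h1⟩ := hx
  have e1 : hN ((h : Matrix (Fin 3) (Fin 3) F) *ᵥ x) = hN x := hh x x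
  refine ⟨by rw [e1]; exact h0, ?_⟩
  rcases h1 with h1 | h1
  · left
    rw [e1, qN_eq, H.cube hF hσ x (hN x), ← qN_eq]
    exact h1
  · right
    intro i j
    have := H.real_vec x (by intro i j; rw [hσ, hσ]; exact h1 i j) i j
    rwa [hσ, hσ] at this

/-- scalar multiples of real matrices in `GU_3(5)` stabilise the 105 points -/
theorem real_mem_stabA (hF : Fintype.card F = 25) {h : GL (Fin 3) F} (hh : h ∈ GU 3 F 5)
    (hr : ∃ c : F, c ≠ 0 ∧ ∃ M : Matrix (Fin 3) (Fin 3) F, (∀ i j, M i j ^ 5 = M i j) ∧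
      (h : Matrix (Fin 3) (Fin 3) F) = c • M) : h ∈ stabA F := by
  obtain ⟨σ, hU⟩ := Cfsg.Agent.Lib.Helper57UConv.exists_US (F := F) (n := 3) (q := 5)
    (by rw [hF]; norm_num)
  have hσ := hU.pow
  obtain ⟨c, hc, M, hM, hcM⟩ := hr
  have H : RealUp σ (h : Matrix (Fin 3) (Fin 3) F) c M :=
    ⟨hc, fun i j => by rw [hσ, hM], hcM, (Cfsg.Agent.Lib.Helper67UField.mem_GU_iff' hσ h).1 hh⟩
  have hinv : ((h⁻¹ : GL (Fin 3) F) : Matrix (Fin 3) (Fin 3) F)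
      = ((h : Matrix (Fin 3) (Fin 3) F).map σ)ᵀ := by
    have h1 := H.inv_mul
    calc ((h⁻¹ : GL (Fin 3) F) : Matrix (Fin 3) (Fin 3) F)
        = (((h : Matrix (Fin 3) (Fin 3) F).map σ)ᵀ * (h : Matrix (Fin 3) (Fin 3) F)) *
          ((h⁻¹ : GL (Fin 3) F) : Matrix (Fin 3) (Fin 3) F) := by rw [h1, Matrix.one_mul]
      _ = _ := by
        rw [Matrix.mul_assoc, ← Units.val_mul, mul_inv_cancel, Units.val_one, Matrix.mul_one]
  have H' : RealUp σ ((h⁻¹ : GL (Fin 3) F) : Matrix (Fin 3) (Fin 3) F) (σ c) Mᵀ := by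
    rw [hinv]
    exact H.inv hU.unitary.involutive
  apply mem_stabA_of_imp
  · intro x hx
    rw [PA_iff_PB hF] at hx ⊢
    exact PB_imp hF hσ hh H x hx
  · intro x hx
    rw [PA_iff_PB hF] at hx ⊢
    exact PB_imp hF hσ ((GU 3 F 5).inv_mem hh) H' x hx

lemma dg_mulVec (ω : F) (hω : ω ^ 3 = 1) (x : Fin 3 → F) :
    ((dg ω hω : GL (Fin 3) F) : Matrix (Fin 3) (Fin 3) F) *ᵥ x = ![ω * x 0, ω ^ 2 * x 1, x 2] := by
  rw [dg_val]
  funext i
  rw [Matrix.mulVec_diagonal]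
  fin_cases i <;> simp

lemma dg_PA (ω : F) (hω : ω ^ 3 = 1) (x : Fin 3 → F) :
    PA (((dg ω hω : GL (Fin 3) F) : Matrix (Fin 3) (Fin 3) F) *ᵥ x) ↔ PA x := by
  rw [dg_mulVec, PA_iff_PA3, PA_iff_PA3]
  show PA3 (ω * x 0) (ω ^ 2 * x 1) (x 2) ↔ _
  unfold PA3
  have e1 : ω * x 0 * (ω * x 0) ^ 5 = x 0 * x 0 ^ 5 := by
    calc ω * x 0 * (ω * x 0) ^ 5 = (ω ^ 3) ^ 2 * (x 0 * x 0 ^ 5) := by ring
      _ = _ := by rw [hω, one_pow, one_mul]
  have e2 : ω ^ 2 * x 1 * (ω ^ 2 * x 1) ^ 5 = x 1 * x 1 ^ 5 := by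
    calc ω ^ 2 * x 1 * (ω ^ 2 * x 1) ^ 5 = (ω ^ 3) ^ 4 * (x 1 * x 1 ^ 5) := by ring
      _ = _ := by rw [hω, one_pow, one_mul]
  have e3 : (ω * x 0) ^ 6 = x 0 ^ 6 := by
    calc (ω * x 0) ^ 6 = (ω ^ 3) ^ 2 * x 0 ^ 6 := by ring
      _ = _ := by rw [hω, one_pow, one_mul]
  have e4 : (ω ^ 2 * x 1) ^ 6 = x 1 ^ 6 := by
    calc (ω ^ 2 * x 1) ^ 6 = (ω ^ 3) ^ 4 * x 1 ^ 6 := by ring
      _ = _ := by rw [hω, one_pow, one_mul]
  have e5 : ω * x 0 * (ω ^ 2 * x 1) * x 2 = x 0 * x 1 * x 2 := by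
    calc ω * x 0 * (ω ^ 2 * x 1) * x 2 = ω ^ 3 * (x 0 * x 1 * x 2) := by ring
      _ = _ := by rw [hω, one_mul]
  rw [e1, e2, e3, e4, e5]

lemma dg_mem_stabA (ω : F) (hω : ω ^ 3 = 1) : dg ω hω ∈ stabA F := fun x => dg_PA ω hω x

end stab

end Cfsg.Agent.Lib.Helper95U3E5b
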