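import Cfsg.Agent.Lib.Helper12U3Mono
import Cfsg.Agent.Lib.Helper95U3E5b
import Cfsg.Agent.Lib.Helper76U4PA

set_option autoImplicit false

/-! SU_3(5): the frame stabilisers `6^2:S_3` are not maximal (they lie in `3.A_7`); piece su3_E1. -/

namespace Cfsg.Agent.Lib.Helper12U3E1

open Cfsg Cfsg.Geo Matrix Cfsg.Agent.Lib.Helper12U3Mask Cfsg.Agent.Lib.Helper12U3Mono
  Cfsg.Agent.Lib.Helper67UField Cfsg.Agent.Lib.Helper13UDefs
open scoped MatrixGroups

variable {F : Type*} [Field F]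

/-- E1: q = 5, frames: 6^2:S3 < 3.A7 -/
theorem frames_five [Fintype F] (hF : Fintype.card F = 25)
    (D : Fin 3 → Submodule F (Fin 3 → F)) (hD : IsNondegenerateMDecomposition (hermForm 3 F 5) 1 D) :
    ¬ IsMaximalIn (GU 3 F 5 ⊓ specialLinear (Fin 3) F)
      (decompositionStabilizer D ⊓ (GU 3 F 5 ⊓ specialLinear (Fin 3) F)) := by
  obtain ⟨σ, hU⟩ := Cfsg.Agent.Lib.Helper57UConv.exists_US (n := 3) (q := 5) (F := F) (by rw [hF]; norm_num)
  obtain ⟨g0, b, hON, hgb, hbD, hb1, hspan⟩ := Cfsg.Agent.Lib.Helper76U4PA.exists_adapted hU.unitary D hD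
  have h5 := five_eq_zero hF
  have hg0 : g0 ∈ GU 3 F 5 := by
    intro x y
    simp only [Units.coeHom_apply]
    rw [hON]
    unfold hermForm
    simp [hU.pow]
  have hinv : ∀ v, ((g0⁻¹ : GL (Fin 3) F) : Matrix (Fin 3) (Fin 3) F) *ᵥ
      ((g0 : Matrix (Fin 3) (Fin 3) F) *ᵥ v) = v := by
    intro v
    rw [Matrix.mulVec_mulVec, ← Units.val_mul, inv_mul_cancel, Units.val_one, Matrix.one_mulVec]
  apply not_max hF _ g0 hg0
  · intro g hg
    obtain ⟨⟨π, hπ⟩, hgG⟩ := hg
    have h1 : ∀ i, ∃ c : F, (g : Matrix (Fin 3) (Fin 3) F) *ᵥ b i = c • b (π i) := by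
      intro i
      apply hspan
      rw [← hπ i]
      exact ⟨b i, hbD i, by simp [Matrix.toLin'_apply]⟩
    choose a ha using h1
    have hG' : g0⁻¹ * g * g0 ∈ GU 3 F 5 ⊓ specialLinear (Fin 3) F := by
      refine Subgroup.mem_inf.mpr ⟨mul_mem (mul_mem (inv_mem hg0) hgG.1) hg0, ?_⟩
      have hn : (specialLinear (Fin 3) F).Normal := by
        unfold specialLinear
        infer_instance
      have := hn.conj_mem g hgG.2 g0⁻¹
      rwa [inv_inv] at this
    apply mono_mem_stabA hG' π a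
    intro i
    rw [Units.val_mul, Units.val_mul, ← Matrix.mulVec_mulVec, ← Matrix.mulVec_mulVec, hgb, ha, ← hgb,
      Matrix.mulVec_smul, hinv]
  · let M : Matrix (Fin 3) (Fin 3) F := !![1, 1, 2; 1, 2, 1; 2, 1, 1]
    have hdet : M.det = 1 := by
      rw [Matrix.det_fin_three]
      simp only [M, Matrix.of_apply, Matrix.cons_val', Matrix.cons_val_zero, Matrix.cons_val_one,
        Matrix.cons_val_two, Matrix.head_cons, Matrix.tail_cons, Matrix.empty_val', Matrix.cons_val_fin_one,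
        Matrix.head_fin_const]
      linear_combination (-1 : F) * h5
    let r : GL (Fin 3) F := Matrix.GeneralLinearGroup.mkOfDetNeZero M (by rw [hdet]; exact one_ne_zero)
    have hr : (r : Matrix (Fin 3) (Fin 3) F) = M := rfl
    have h25 : (2 : F) ^ 5 = 2 := by linear_combination 6 * h5
    have hrGU : r ∈ GU 3 F 5 := by
      rw [mem_GU_iff' hU.pow, hr]
      ext i j
      fin_cases i <;> fin_cases j <;>
        simp [M, Matrix.mul_apply, Fin.sum_univ_three, hU.pow, h25] <;>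
        linear_combination h5
    have hrSL : r ∈ specialLinear (Fin 3) F := by rw [mem_SL_iff, hr, hdet]
    have hreal : ∀ i j, M i j ^ 5 = M i j := by
      intro i j
      fin_cases i <;> fin_cases j <;> simp [M, h25]
    refine ⟨r, Subgroup.mem_inf.mpr ⟨Cfsg.Agent.Lib.Helper95U3E5b.real_mem_stabA hF hrGU
      ⟨1, one_ne_zero, M, hreal, by rw [hr, one_smul]⟩, Subgroup.mem_inf.mpr ⟨hrGU, hrSL⟩⟩, ?_⟩
    rintro ⟨π, hπ⟩
    have h1 : ((g0 * r * g0⁻¹ : GL (Fin 3) F) : Matrix (Fin 3) (Fin 3) F) *ᵥ b 0 ∈ D (π 0) := by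
      rw [← hπ 0]
      exact ⟨b 0, hbD 0, by rw [Matrix.toLin'_apply]⟩
    obtain ⟨c, hc⟩ := hspan _ _ h1
    rw [Units.val_mul, Units.val_mul, ← Matrix.mulVec_mulVec, ← Matrix.mulVec_mulVec, ← hgb 0, hinv,
      ← hgb (π 0), ← Matrix.mulVec_smul] at hc
    have hc2 := congrArg (fun v => ((g0⁻¹ : GL (Fin 3) F) : Matrix (Fin 3) (Fin 3) F) *ᵥ v) hc
    simp only [hinv] at hc2
    by_cases h0 : π 0 = 0
    · have := congrFun hc2 1
      rw [h0, hr] at this
      simp [M, Matrix.mulVec_single] at this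
    · have := congrFun hc2 0
      rw [hr] at this
      simp [M, Matrix.mulVec_single, Ne.symm h0] at this

end Cfsg.Agent.Lib.Helper12U3E1
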