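import Cfsg.Agent.Lib.Helper67F25

set_option autoImplicit false

/-! SU_3(5): the finite check behind `Helper12U3Mask.PA_iff_PB`. -/

namespace Cfsg.Agent.Lib.Helper12U3MaskChk

open Cfsg.Agent.Lib.Helper67F25

/-- Bool form in the model -/
def chk (a b c : F25) : Bool :=
  let a5 := frob a
  let b5 := frob b
  let c5 := frob c
  let na := a * a5
  let nb := b * b5
  let nc := c * c5
  let h := na + nb + nc
  let p := a * b * c
  let p3 := p * p * p
  let j := (a * a + b * b + c * c) * h
  let j3 := j * j * j
  (decide (h = 0)) ||
  (((decide (na = nb) || decide (na = nc) || decide (nb = nc)) && decide (p3 * p3 * p3 = p)) ==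
   ((decide (j3 = f 0) || decide (j3 = f 2) || decide (j3 = f 4)) ||
    (decide (a * b5 = b * a5) && decide (a * c5 = c * a5) && decide (b * c5 = c * b5))))

set_option maxRecDepth 100000 in
theorem chk_all : ∀ a b c : F25, chk a b c = true := by
  decide +kernel

end Cfsg.Agent.Lib.Helper12U3MaskChk
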