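import Cfsg.Agent.Lib.Helper12U3Mask
import Cfsg.Agent.Lib.Helper57UConv

set_option autoImplicit false

/-! SU_3(5): the stabiliser `stabA` of the 105 points is proper in `SU_3(5)`, contains the monomial
elements, and the resulting non-maximality criterion (pieces su3_E1, su3_E5). -/

namespace Cfsg.Agent.Lib.Helper12U3Mono

open Cfsg Cfsg.Geo Matrix Cfsg.Agent.Lib.Helper67F25 Cfsg.Agent.Lib.Helper12U3Mask
  Cfsg.Agent.Lib.Helper67UField Cfsg.Agent.Lib.Helper13UDefs
open scoped MatrixGroups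

variable {F : Type*} [Field F]

lemma five_eq_zero [Fintype F] (hF : Fintype.card F = 25) : (5 : F) = 0 := by
  have : Fact (Nat.Prime 5) := ⟨by norm_num⟩
  have : CharP F 5 := charP_of_card_eq_prime_pow (p := 5) (f := 2) (by rw [hF]; norm_num)
  exact_mod_cast CharP.cast_eq_zero F 5

lemma pow25 [Fintype F] (hF : Fintype.card F = 25) (a : F) : a ^ 25 = a := by
  rw [← hF]
  exact FiniteField.pow_card a

lemma hN_eq (x : Fin 3 → F) : hN x = hermForm 3 F 5 x x := rfl

lemma hN_GU {h : GL (Fin 3) F} (hh : h ∈ GU 3 F 5) (x : Fin 3 → F) :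
    hN ((h : Matrix (Fin 3) (Fin 3) F) *ᵥ x) = hN x := hh x x

/-- elements of given norm -/
lemma exists_pow6 [Fintype F] (hF : Fintype.card F = 25) :
    ∃ a b : F, a ^ 6 = 2 ∧ b ^ 6 = -1 := by
  obtain ⟨ψ⟩ := exists_equiv F hF
  have h1 : ∃ a b : F25, a ^ 6 = 2 ∧ b ^ 6 = -1 := by decide +kernel
  obtain ⟨a, b, ha, hb⟩ := h1
  refine ⟨ψ.symm a, ψ.symm b, ?_, ?_⟩
  · rw [← map_pow, ha, map_ofNat]
  · rw [← map_pow, hb, map_neg, map_one]

/-- an element of `SU_3(5)` outside the stabiliser of the 105 points -/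
theorem exists_not_mem_stabA [Fintype F] (hF : Fintype.card F = 25) :
    ∃ c : GL (Fin 3) F, c ∈ GU 3 F 5 ⊓ specialLinear (Fin 3) F ∧ c ∉ stabA F := by
  obtain ⟨σ, hU⟩ := Cfsg.Agent.Lib.Helper57UConv.exists_US (n := 3) (q := 5) (F := F) (by rw [hF]; norm_num)
  have h5 := five_eq_zero hF
  obtain ⟨a, b, ha, hb⟩ := exists_pow6 hF
  have ha25 := pow25 hF a
  have hb25 := pow25 hF b
  let M : Matrix (Fin 3) (Fin 3) F := !![a, b, 0; -b ^ 5, a ^ 5, 0; 0, 0, 1]
  have hdet : M.det = 1 := by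
    rw [Matrix.det_fin_three]
    simp only [M, Matrix.of_apply, Matrix.cons_val', Matrix.cons_val_zero, Matrix.cons_val_one,
      Matrix.cons_val_two, Matrix.head_cons, Matrix.tail_cons, Matrix.empty_val', Matrix.cons_val_fin_one,
      Matrix.head_fin_const]
    linear_combination ha + hb
  let c : GL (Fin 3) F := Matrix.GeneralLinearGroup.mkOfDetNeZero M (by rw [hdet]; exact one_ne_zero)
  have hc : (c : Matrix (Fin 3) (Fin 3) F) = M := rfl
  refine ⟨c, Subgroup.mem_inf.mpr ⟨?_, ?_⟩, ?_⟩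
  · rw [mem_GU_iff' hU.pow, hc]
    ext i j
    fin_cases i <;> fin_cases j <;>
      simp [M, Matrix.mul_apply, Fin.sum_univ_three, hU.pow]
    · linear_combination ha + (b ^ 24 - b ^ 18 + b ^ 12 - b ^ 6 + 1) * hb
    · linear_combination (-b ^ 5) * ha25
    · linear_combination (-a ^ 5) * hb25
    · linear_combination hb + (a ^ 24 + 2 * a ^ 18 + 4 * a ^ 12 + 8 * a ^ 6 + 16) * ha + 6 * h5
  · rw [mem_SL_iff, hc, hdet]
  · intro hmem
    have h1 := (hmem (Pi.single 0 1)).mpr ?_
    · rw [PA_iff_PA3, hc] at h1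
      simp [M, PA3, Matrix.mulVec, dotProduct, Fin.sum_univ_three] at h1
      rcases h1.2 with h | h | h
      · have : (1 : F) = 0 := by
          linear_combination 2 * h - 2 * ha + 2 * (b ^ 24 - b ^ 18 + b ^ 12 - b ^ 6 + 1) * hb - h5
        exact one_ne_zero this
      · rw [h] at ha
        have : (1 : F) = 0 := by linear_combination 2 * ha + h5
        exact one_ne_zero this
      · rw [h] at hb
        have : (1 : F) = 0 := by linear_combination hb
        exact one_ne_zero this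
    · rw [PA_iff_PA3]
      simp [PA3]

/-- the non-maximality criterion -/
theorem not_max [Fintype F] (hF : Fintype.card F = 25) (H : Subgroup (GL (Fin 3) F))
    (g0 : GL (Fin 3) F) (hg0 : g0 ∈ GU 3 F 5)
    (h1 : ∀ g ∈ H ⊓ (GU 3 F 5 ⊓ specialLinear (Fin 3) F), g0⁻¹ * g * g0 ∈ stabA F)
    (h2 : ∃ r ∈ stabA F ⊓ (GU 3 F 5 ⊓ specialLinear (Fin 3) F), g0 * r * g0⁻¹ ∉ H) :
    ¬ IsMaximalIn (GU 3 F 5 ⊓ specialLinear (Fin 3) F)
      (H ⊓ (GU 3 F 5 ⊓ specialLinear (Fin 3) F)) := by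
  rintro ⟨-, hmax⟩
  have hconj : ∀ r ∈ GU 3 F 5 ⊓ specialLinear (Fin 3) F,
      g0 * r * g0⁻¹ ∈ GU 3 F 5 ⊓ specialLinear (Fin 3) F := by
    intro r hr
    refine Subgroup.mem_inf.mpr ⟨mul_mem (mul_mem hg0 hr.1) (inv_mem hg0), ?_⟩
    have hn : (specialLinear (Fin 3) F).Normal := by
      unfold specialLinear
      infer_instance
    exact hn.conj_mem r hr.2 g0
  let L : Subgroup (GL (Fin 3) F) :=
    (stabA F).comap (MulAut.conj g0⁻¹).toMonoidHom ⊓ (GU 3 F 5 ⊓ specialLinear (Fin 3) F)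
  have hL : ∀ g, g ∈ L ↔ g0⁻¹ * g * g0 ∈ stabA F ∧ g ∈ GU 3 F 5 ⊓ specialLinear (Fin 3) F := by
    intro g
    simp only [L, Subgroup.mem_inf, Subgroup.mem_comap, MulEquiv.coe_toMonoidHom, MulAut.conj_apply, inv_inv]
  have hcancel : ∀ r, g0⁻¹ * (g0 * r * g0⁻¹) * g0 = r := by
    intro r
    group
  rcases hmax L (fun g hg => (hL g).mpr ⟨h1 g hg, hg.2⟩) inf_le_right with h | h
  · obtain ⟨r, hr, hrH⟩ := h2
    have : g0 * r * g0⁻¹ ∈ L := (hL _).mpr ⟨by rw [hcancel]; exact hr.1, hconj r hr.2⟩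
    rw [h] at this
    exact hrH this.1
  · obtain ⟨c, hc, hcs⟩ := exists_not_mem_stabA hF
    have : g0 * c * g0⁻¹ ∈ L := by
      rw [h]
      exact hconj c hc
    have h3 := ((hL _).mp this).1
    rw [hcancel] at h3
    exact hcs h3

/-- the monomial elements of `SU_3(5)` stabilise the 105 points -/
theorem mono_mem_stabA {h : GL (Fin 3) F}
    (hG : h ∈ GU 3 F 5 ⊓ specialLinear (Fin 3) F) (π : Equiv.Perm (Fin 3)) (a : Fin 3 → F)
    (hh : ∀ i, (h : Matrix (Fin 3) (Fin 3) F) *ᵥ Pi.single i 1 = a i • Pi.single (π i) 1) :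
    h ∈ stabA F := by
  have hent : ∀ k i, (h : Matrix (Fin 3) (Fin 3) F) k i = if k = π i then a i else 0 := by
    intro k i
    have := congrFun (hh i) k
    simpa [Matrix.mulVec_single, Pi.single_apply] using this
  have hx : ∀ (x : Fin 3 → F) i, ((h : Matrix (Fin 3) (Fin 3) F) *ᵥ x) (π i) = a i * x i := by
    intro x i
    simp only [Matrix.mulVec, dotProduct, hent]
    rw [Finset.sum_eq_single i]
    · simp
    · intro j _ hj
      rw [if_neg (fun e => hj (π.injective e).symm), zero_mul]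
    · simp
  have ha6 : ∀ i, a i ^ 6 = 1 := by
    intro i
    have := hG.1 (Pi.single i 1) (Pi.single i 1)
    simp only [Units.coeHom_apply] at this
    rw [hh] at this
    have e1 : hermForm 3 F 5 (a i • Pi.single (π i) 1) (a i • Pi.single (π i) 1) = a i ^ 6 := by
      unfold hermForm
      rw [Finset.sum_eq_single (π i)]
      · simp
        ring
      · intro j _ hj
        simp [Pi.single_apply, hj]
      · simp
    have e2 : hermForm 3 F 5 (Pi.single i 1) (Pi.single i 1) = 1 := by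
      unfold hermForm
      rw [Finset.sum_eq_single i]
      · simp
      · intro j _ hj
        simp [Pi.single_apply, hj]
      · simp
    rw [e1, e2] at this
    exact this
  have hdet : (∏ i, a i) ^ 2 = 1 := by
    have h1 := (mem_SL_iff h).mp hG.2
    rw [Matrix.det_apply, Finset.sum_eq_single π] at h1
    · have e3 : ∏ i, (h : Matrix (Fin 3) (Fin 3) F) (π i) i = ∏ i, a i :=
        Finset.prod_congr rfl fun i _ => by rw [hent, if_pos rfl]
      rw [e3] at h1
      rcases Int.units_eq_one_or (Equiv.Perm.sign π) with hs | hs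
      · rw [hs, one_smul] at h1
        rw [h1, one_pow]
      · rw [hs, Units.neg_smul, one_smul] at h1
        have : ∏ i, a i = -1 := by linear_combination -h1
        rw [this]
        ring
    · intro τ _ hτ
      obtain ⟨i, hi⟩ : ∃ i, τ i ≠ π i := by
        by_contra hcon
        push Not at hcon
        exact hτ (Equiv.ext hcon)
      rw [Finset.prod_eq_zero (Finset.mem_univ i) (by rw [hent, if_neg hi]), smul_zero]
    · simp
  intro x
  have hA0 : (∏ i, a i) ≠ 0 := by
    intro h0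
    rw [h0] at hdet
    simp at hdet
  have hprod : ∏ k, ((h : Matrix (Fin 3) (Fin 3) F) *ᵥ x) k = (∏ i, a i) * ∏ i, x i := by
    rw [← Equiv.prod_comp π, ← Finset.prod_mul_distrib]
    exact Finset.prod_congr rfl fun i _ => hx x i
  have h6 : ∀ i, ((h : Matrix (Fin 3) (Fin 3) F) *ᵥ x) (π i) ^ 6 = x i ^ 6 := by
    intro i
    rw [hx, mul_pow, ha6, one_mul]
  unfold PA
  rw [hN_GU hG.1, hprod]
  refine and_congr Iff.rfl (and_congr ?_ ?_)
  · constructor
    · rintro ⟨i, j, hij, he⟩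
      refine ⟨π.symm i, π.symm j, fun e => hij (π.symm.injective e), ?_⟩
      rw [← h6, ← h6, Equiv.apply_symm_apply, Equiv.apply_symm_apply]
      exact he
    · rintro ⟨i, j, hij, he⟩
      exact ⟨π i, π j, fun e => hij (π.injective e), by rw [h6, h6]; exact he⟩
  · have h9 : (∏ i, a i) ^ 9 = ∏ i, a i := by
      have : (∏ i, a i) ^ 9 = ((∏ i, a i) ^ 2) ^ 4 * ∏ i, a i := by ring
      rw [this, hdet]
      ring
    rw [mul_pow, h9]
    exact ⟨fun e => mul_left_cancel₀ hA0 e, fun e => by rw [e]⟩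

end Cfsg.Agent.Lib.Helper12U3Mono
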