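import Cfsg.Agent.Lib.Helper15UPc6

set_option autoImplicit false

/-! SU_3(q): properness of the class-6 normalisers in dimension three (piece su3_P3). -/

namespace Cfsg.Agent.Lib.Helper12U3PC6

open Cfsg Cfsg.Geo Matrix Cfsg.Agent.Lib.Helper97AschBase Cfsg.Agent.Lib.Helper97AschForms
  Cfsg.Agent.Lib.Helper97AschTransv Cfsg.Agent.Lib.Helper95Herm Cfsg.Agent.Lib.Helper97UBase
  Cfsg.Agent.Lib.Helper97UProper Cfsg.Agent.Lib.Helper97AschHeis Cfsg.Agent.Lib.Helper97AschStd
  Cfsg.Agent.Lib.Helper97UProper2 Cfsg.Agent.Lib.Helper97UProper3 Cfsg.Agent.Lib.Helper15UPc6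
open scoped MatrixGroups

variable {n : ℕ} {F : Type*} [Field F]

lemma tv_pow_mulVec (u φ : Fin n → F) (h : φ ⬝ᵥ u = 0) (k : ℕ) (v : Fin n → F) :
    ((tv u φ h ^ k : GL (Fin n) F) : Matrix (Fin n) (Fin n) F) *ᵥ v = v + ((k : F) * (φ ⬝ᵥ v)) • u := by
  induction k generalizing v with
  | zero => simp
  | succ k ih =>
    rw [pow_succ, Units.val_mul, ← Matrix.mulVec_mulVec, tv_mulVec, ih, dotProduct_add,
      dotProduct_smul, h, smul_zero, add_zero]
    push_cast
    module

lemma tv_pow_char (p : ℕ) [CharP F p] (u φ : Fin n → F) (h : φ ⬝ᵥ u = 0) : tv u φ h ^ p = 1 := by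
  apply Units.ext
  rw [Units.val_one]
  apply Matrix.toLin'.injective
  apply LinearMap.ext
  intro v
  rw [Matrix.toLin'_apply, Matrix.toLin'_one, LinearMap.id_apply, tv_pow_mulVec, CharP.cast_eq_zero,
    zero_mul, zero_smul, add_zero]

/-- an element of order `p ≥ 5` normalising a group of order 27 and centralising a subgroup of order 3
of it centralises it. -/
lemma centralizes_of_card {G : Type*} [Group G] {p : ℕ} (hp : p.Prime) (hp5 : 5 ≤ p) {R : Subgroup G}
    (hcard : Nat.card R = 27) (hZ : Nat.card (Subgroup.center R) = 3) {t : G}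
    (ht : t ∈ Subgroup.normalizer (R : Set G)) (htp : t ^ p = 1)
    (hcen : ∀ z : R, z ∈ Subgroup.center R → t * z * t⁻¹ = z) : ∀ x ∈ R, t * x * t⁻¹ = x := by
  classical
  have : Fact p.Prime := ⟨hp⟩
  have : Finite R := Nat.finite_of_card_ne_zero (by rw [hcard]; norm_num)
  have : Fintype R := Fintype.ofFinite R
  have hn : ∀ x : R, t * x * t⁻¹ ∈ R := fun x => (Subgroup.mem_normalizer_iff.mp ht x).mp x.2
  let c : Function.End R := fun x => ⟨t * x * t⁻¹, hn x⟩
  have hck : ∀ (k : ℕ) (x : R), (((c ^ k) x : R) : G) = t ^ k * x * (t ^ k)⁻¹ := by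
    intro k
    induction k with
    | zero =>
      intro x
      rw [pow_zero, pow_zero, one_mul, inv_one, mul_one]
      rfl
    | succ k ih =>
      intro x
      rw [pow_succ']
      show t * (((c ^ k) x : R) : G) * t⁻¹ = _
      rw [ih, pow_succ']
      group
  have hcp : c ^ p ^ 1 = 1 := by
    rw [pow_one]
    funext x
    apply Subtype.ext
    rw [hck, htp, one_mul, inv_one, mul_one]
    rfl
  have h1 := Equiv.Perm.card_fixedPoints_modEq hcp
  let S : Subgroup R :=
    { carrier := {x | t * x * t⁻¹ = x}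
      one_mem' := by simp
      mul_mem' := by
        intro a b ha hb
        have ha' : t * (a : G) * t⁻¹ = a := ha
        have hb' : t * (b : G) * t⁻¹ = b := hb
        show t * ((a * b : R) : G) * t⁻¹ = ((a * b : R) : G)
        rw [Subgroup.coe_mul]
        calc t * ((a : G) * b) * t⁻¹ = (t * a * t⁻¹) * (t * b * t⁻¹) := by group
          _ = a * b := by rw [ha', hb']
      inv_mem' := by
        intro a ha
        have ha' : t * (a : G) * t⁻¹ = a := ha
        show t * ((a⁻¹ : R) : G) * t⁻¹ = ((a⁻¹ : R) : G)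
        rw [Subgroup.coe_inv]
        calc t * (a : G)⁻¹ * t⁻¹ = (t * a * t⁻¹)⁻¹ := by group
          _ = (a : G)⁻¹ := by rw [ha'] }
  have hSfix : Fintype.card (Function.fixedPoints c) = Nat.card S := by
    rw [← Nat.card_eq_fintype_card]
    apply Nat.card_congr
    refine Equiv.subtypeEquivRight ?_
    intro x
    constructor
    · intro hx
      exact congrArg Subtype.val hx
    · intro hx
      exact Subtype.ext hx
  rw [hSfix, ← Nat.card_eq_fintype_card, hcard] at h1
  have hd1 : Nat.card S ∣ 27 := by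
    rw [← hcard]; exact Subgroup.card_subgroup_dvd_card S
  have hd2 : 3 ∣ Nat.card S := by
    rw [← hZ]
    exact Subgroup.card_dvd_of_le (fun z hz => hcen z hz)
  have hS27 : Nat.card S = 27 := by
    have hle : Nat.card S ≤ 27 := Nat.le_of_dvd (by norm_num) hd1
    have hdvd : (p : ℤ) ∣ ((Nat.card S : ℕ) : ℤ) - 27 := (Nat.modEq_iff_dvd.mp h1)
    generalize Nat.card S = s at *
    have hs : s = 3 ∨ s = 9 ∨ s = 27 := by
      interval_cases s <;> omega
    rcases hs with rfl | rfl | rfl
    · exfalso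
      have h2 : p ∣ 24 := by
        have : (p : ℤ) ∣ 24 := by
          have := (dvd_neg.mpr hdvd)
          norm_num at this
          exact this
        exact_mod_cast this
      have h3 : p ≤ 24 := Nat.le_of_dvd (by norm_num) h2
      interval_cases p <;> first | omega | (exact absurd hp (by norm_num))
    · exfalso
      have h2 : p ∣ 18 := by
        have : (p : ℤ) ∣ 18 := by
          have := (dvd_neg.mpr hdvd)
          norm_num at this
          exact this
        exact_mod_cast this
      have h3 : p ≤ 18 := Nat.le_of_dvd (by norm_num) h2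
      interval_cases p <;> first | omega | (exact absurd hp (by norm_num))
    · rfl
  have hStop : S = ⊤ := by
    apply Subgroup.eq_top_of_card_eq
    rw [hS27, hcard]
  intro x hx
  have : (⟨x, hx⟩ : R) ∈ S := by rw [hStop]; trivial
  exact this

/-- a transvection does not normalise an absolutely irreducible group of order 27 with centre of
order 3 (dimension three, characteristic at least 5) -/
lemma tv_not_mem_normalizer3 {p : ℕ} [CharP F p] (hp : 5 ≤ p) {R : Subgroup (GL (Fin 3) F)}
    (habs : ActsAbsolutelyIrreducibly (matrixSet R)) (hcard : Nat.card R = 27)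
    (hZ : Nat.card (Subgroup.center R) = 3) (u φ : Fin 3 → F) (hφu : φ ⬝ᵥ u = 0) (hu0 : u ≠ 0)
    (hφ0 : φ ≠ 0) : tv u φ hφu ∉ subgroupNormalizer R := by
  intro ht
  have hpp : p.Prime := by
    rcases CharP.char_is_prime_or_zero F p with h1 | h1
    · exact h1
    · omega
  obtain ⟨t, htdef⟩ : ∃ t, t = tv u φ hφu := ⟨_, rfl⟩
  rw [← htdef] at ht
  have htv : ∀ v, (t : Matrix (Fin 3) (Fin 3) F) *ᵥ v = v + (φ ⬝ᵥ v) • u := by
    intro v; rw [htdef, tv_mulVec]
  have htp : t ^ p = 1 := by rw [htdef]; exact tv_pow_char p _ _ _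
  have hcenZ : ∀ z : R, z ∈ Subgroup.center R → t * z * t⁻¹ = z := by
    intro z hz
    have hz' : ∀ w ∈ R, (z : GL (Fin 3) F) * w = w * z := by
      intro w hw
      have := Subgroup.mem_center_iff.mp hz ⟨w, hw⟩
      exact (congrArg Subtype.val this).symm
    obtain ⟨κ, hκ⟩ := (mem_scalars_iff _).mp (mem_scalars_of_comm (by norm_num) habs hz')
    have : t * (z : GL (Fin 3) F) = z * t := by
      apply Units.ext
      rw [Units.val_mul, Units.val_mul, hκ]
      simp
    rw [this, mul_inv_cancel_right]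
  have hall := centralizes_of_card hpp hp hcard hZ ht htp hcenZ
  have hcen : ∀ x ∈ R, t * x = x * t := by
    intro x hx
    have := hall x hx
    calc t * x = (t * x * t⁻¹) * t := by group
      _ = x * t := by rw [this]
  obtain ⟨κ, hκ⟩ := (mem_scalars_iff _).mp (mem_scalars_of_comm (by norm_num) habs hcen)
  obtain ⟨v₁, hv₁⟩ := exists_dot_eq_one hφ0
  obtain ⟨v, hv0, hv1, _⟩ := exists_ker_two (by omega) (dotL φ) (dotL φ)
  rw [dotL_apply] at hv1
  have h1 := htv v
  rw [hκ, Matrix.smul_mulVec, Matrix.one_mulVec, hv1, zero_smul, add_zero] at h1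
  have hκ1 : (κ : F) = 1 := by
    have h2 : ((κ : F) - 1) • v = 0 := by rw [sub_smul, h1, one_smul, sub_self]
    rcases smul_eq_zero.mp h2 with h3 | h3
    · exact sub_eq_zero.mp h3
    · exact absurd h3 hv0
  have h2 := htv v₁
  rw [hκ, hκ1, one_smul, Matrix.one_mulVec, hv₁, one_smul] at h2
  exact hu0 (by simpa using h2)

variable {σ : F ≃+* F}

/-- P3: properness of class 6 in dimension three. -/
theorem notSU_c6_three [Fintype F] {f : (Fin 3 → F) → (Fin 3 → F) → F}
    (hf : IsUnitaryForm σ f) {p : ℕ} [CharP F p] (hp : 5 ≤ p) {R : Subgroup (GL (Fin 3) F)}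
    (habs : ActsAbsolutelyIrreducibly (matrixSet R)) (hcard : Nat.card R = 27)
    (hZ : Nat.card (Subgroup.center R) = 3) :
    ¬ Iso f ⊓ specialLinear (Fin 3) F ≤ subgroupNormalizer R := by
  intro hle
  have h := herm_of_unitary hf
  obtain ⟨u, hu0, hu⟩ := exists_singular hf (by omega)
  obtain ⟨a, ha0, ha⟩ := h.exists_z
  exact tv_not_mem_normalizer3 hp habs hcard hZ u (uφ f u a) _ hu0
    (uφ_ne_zero hf hu0 ha0) (hle (utv_mem hf u a hu ha))

end Cfsg.Agent.Lib.Helper12U3PC6
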