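import Cfsg.Agent.Lib.Helper97UProper

set_option autoImplicit false

/-! SU_3(q): properness of the frame stabilisers in dimension three (piece su3_P1). -/

namespace Cfsg.Agent.Lib.Helper12U3PFrame

open Cfsg Cfsg.Geo Matrix Cfsg.Agent.Lib.Helper97AschBase Cfsg.Agent.Lib.Helper97AschForms
  Cfsg.Agent.Lib.Helper97AschTransv Cfsg.Agent.Lib.Helper95Herm Cfsg.Agent.Lib.Helper97UBase
  Cfsg.Agent.Lib.Helper97UProper
open scoped MatrixGroups

variable {F : Type*} [Field F]

/-- the fixed field of an involution of a field with at least 9 elements has at least 3 elements -/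
lemma exists_fixed_ne [Fintype F] {σ : F →+* F} (hq : 9 ≤ Fintype.card F)
    (hinv : ∀ a, σ (σ a) = a) (e : F) : ∃ a, σ a = a ∧ a ≠ 0 ∧ a ≠ e := by
  classical
  by_contra hcon
  push Not at hcon
  have hfix : ∀ a, σ a = a → a ∈ ({0, e} : Finset F) := by
    intro a ha
    by_cases h0 : a = 0
    · simp [h0]
    · simp [hcon a ha h0]
  let g : F → F × F := fun c => (c * σ c, c + σ c)
  have h1 : (Finset.univ : Finset F).card ≤ 2 * ((Finset.univ : Finset F).image g).card := by
    apply Finset.card_le_mul_card_image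
    intro a ha
    obtain ⟨c, -, rfl⟩ := Finset.mem_image.mp ha
    have hsub : (Finset.univ.filter fun x => g x = g c) ⊆ ({c, σ c} : Finset F) := by
      intro x hx
      have hx' : g x = g c := (Finset.mem_filter.mp hx).2
      have e1 : x * σ x = c * σ c := congrArg Prod.fst hx'
      have e2 : x + σ x = c + σ c := congrArg Prod.snd hx'
      have e3 : (x - c) * (x - σ c) = 0 := by
        linear_combination x * e2 - e1
      rcases mul_eq_zero.mp e3 with h3 | h3
      · simp [sub_eq_zero.mp h3]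
      · simp [sub_eq_zero.mp h3]
    exact (Finset.card_le_card hsub).trans (Finset.card_le_two)
  have h2 : (Finset.univ : Finset F).image g ⊆ ({0, e} : Finset F) ×ˢ ({0, e} : Finset F) := by
    intro a ha
    obtain ⟨c, -, rfl⟩ := Finset.mem_image.mp ha
    rw [Finset.mem_product]
    constructor
    · apply hfix
      show σ (c * σ c) = c * σ c
      rw [map_mul, hinv, mul_comm]
    · apply hfix
      show σ (c + σ c) = c + σ c
      rw [map_add, hinv, add_comm]
  have h3 := Finset.card_le_card h2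
  rw [Finset.card_product] at h3
  have h4 : ({0, e} : Finset F).card ≤ 2 := Finset.card_le_two
  rw [Finset.card_univ] at h1
  nlinarith

variable {σ : F ≃+* F}

/-- P1: properness of the frame stabilisers in dimension three. -/
theorem not_le_decomp3 [Fintype F] {f : (Fin 3 → F) → (Fin 3 → F) → F}
    (hf : IsUnitaryForm σ f) (hq : 9 ≤ Fintype.card F)
    (D : Fin 3 → Submodule F (Fin 3 → F)) (hD : IsNondegenerateMDecomposition f 1 D) :
    ¬ Iso f ⊓ specialLinear (Fin 3) F ≤ decompositionStabilizer D := by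
  intro hle
  have h := herm_of_unitary hf
  have hne : ∀ i, D i ≠ ⊥ := by
    intro i hb
    have := hD.decomp.finrank_eq i
    rw [hb, finrank_bot] at this
    omega
  have hex : ∀ i, ∃ d ∈ D i, f d d ≠ 0 := fun i => exists_nonsingular hf (hne i) (hD.nondegenerate i)
  choose d hdD hdd using hex
  have horth : ∀ i j, i ≠ j → f (d i) (d j) = 0 := fun i j hij =>
    hD.orthogonal i j hij _ (hdD i) _ (hdD j)
  have h01 : (0 : Fin 3) ≠ 1 := by decide
  have h02 : (0 : Fin 3) ≠ 2 := by decide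
  have h12 : (1 : Fin 3) ≠ 2 := by decide
  obtain ⟨a₁, ha₁, ha₁0, ha₁e⟩ := exists_fixed_ne (σ := (σ : F →+* F)) hq h.invol (- f (d 0) (d 0))
  obtain ⟨β, hβ⟩ := h.norm_surj (a₁ / f (d 1) (d 1)) (by
    rw [map_div₀, ha₁, h.self_fix])
  obtain ⟨δ, hδ⟩ := h.norm_surj ((- f (d 0) (d 0) - a₁) / f (d 2) (d 2)) (by
    rw [map_div₀, map_sub, map_neg, ha₁, h.self_fix, h.self_fix])
  have hβ0 : β ≠ 0 := by
    rintro rfl
    rw [zero_mul] at hβ
    have := hβ.symm
    rw [div_eq_zero_iff, or_iff_left (hdd 1)] at this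
    exact ha₁0 this
  have hδ0 : δ ≠ 0 := by
    rintro rfl
    rw [zero_mul] at hδ
    have := hδ.symm
    rw [div_eq_zero_iff, or_iff_left (hdd 2)] at this
    exact ha₁e (sub_eq_zero.mp this).symm
  obtain ⟨u, hu⟩ : ∃ u, u = d 0 + β • d 1 + δ • d 2 := ⟨_, rfl⟩
  have hu0 : f u (d 0) = f (d 0) (d 0) := by
    rw [hu, h.add_left, h.add_left, h.smul_left, h.smul_left, horth 1 0 h01.symm,
      horth 2 0 h02.symm]
    ring
  have hu1 : f u (d 1) = β * f (d 1) (d 1) := by
    rw [hu, h.add_left, h.add_left, h.smul_left, h.smul_left, horth 0 1 h01,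
      horth 2 1 h12.symm]
    ring
  have hu2 : f u (d 2) = δ * f (d 2) (d 2) := by
    rw [hu, h.add_left, h.add_left, h.smul_left, h.smul_left, horth 0 2 h02,
      horth 1 2 h12]
    ring
  have huu : f u u = 0 := by
    conv_lhs => arg 2; rw [hu]
    rw [h.add_right, h.add_right, h.smul_right, h.smul_right, hu0, hu1, hu2]
    have e1 : (σ : F →+* F) β * (β * f (d 1) (d 1)) = a₁ := by
      rw [← mul_assoc, mul_comm ((σ : F →+* F) β), hβ, div_mul_cancel₀ _ (hdd 1)]
    have e2 : (σ : F →+* F) δ * (δ * f (d 2) (d 2)) = - f (d 0) (d 0) - a₁ := by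
      rw [← mul_assoc, mul_comm ((σ : F →+* F) δ), hδ, div_mul_cancel₀ _ (hdd 2)]
    rw [e1, e2]
    ring
  obtain ⟨a, ha0, ha⟩ := h.exists_z
  obtain ⟨π, hπ⟩ := hle (utv_mem hf u a huu ha)
  have hv : d 0 + (a * f (d 0) u) • u ∈ D (π 0) := by
    rw [← hπ 0]
    refine ⟨d 0, hdD 0, ?_⟩
    rw [Matrix.toLin'_apply, utv_mulVec]
  have hκ : a * f (d 0) u ≠ 0 := by
    apply mul_ne_zero ha0
    apply h.swap_ne
    rw [hu0]
    exact hdd 0
  have hj1 : π 0 = 1 := by
    by_contra hne1
    have h5 := hD.orthogonal _ _ hne1 _ hv _ (hdD 1)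
    rw [h.add_left, h.smul_left, horth 0 1 h01, hu1, zero_add] at h5
    exact (mul_ne_zero hκ (mul_ne_zero hβ0 (hdd 1))) h5
  have hj2 : π 0 = 2 := by
    by_contra hne2
    have h5 := hD.orthogonal _ _ hne2 _ hv _ (hdD 2)
    rw [h.add_left, h.smul_left, horth 0 2 h02, hu2, zero_add] at h5
    exact (mul_ne_zero hκ (mul_ne_zero hδ0 (hdd 2))) h5
  exact h12 (hj1.symm.trans hj2)

end Cfsg.Agent.Lib.Helper12U3PFrame
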