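import Cfsg.Agent.Lib.Helper13UProper

set_option autoImplicit false

/-! SU_3(q): properness of the subfield groups in dimension three (piece su3_P2). -/

namespace Cfsg.Agent.Lib.Helper12U3PSub

open Cfsg Cfsg.Geo Matrix Cfsg.Agent.Lib.Helper97AschBase Cfsg.Agent.Lib.Helper97AschForms
  Cfsg.Agent.Lib.Helper97AschTransv Cfsg.Agent.Lib.Helper95Herm Cfsg.Agent.Lib.Helper97UBase
  Cfsg.Agent.Lib.Helper97UProper Cfsg.Agent.Lib.Helper97UProper2 Cfsg.Agent.Lib.Helper97AschSubfield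
  Cfsg.Agent.Lib.Helper97UProper4 Cfsg.Agent.Lib.Helper13UDefs Cfsg.Agent.Lib.Helper13UProper
open scoped MatrixGroups

variable {F : Type*} [Field F]

/-- a `τ`-semilinear map fixing all singular points of a Hermitian space containing a hyperbolic pair
and an anisotropic vector orthogonal to it is linear. -/
lemma semilinear_core {V : Type*} [AddCommGroup V] [Module F V] {σ : F →+* F} {f : V → V → F}
    (h : Herm σ f) (τ : F →+* F) (T : V → V)
    (hadd : ∀ x y, T (x + y) = T x + T y) (hsmul : ∀ (c : F) x, T (c • x) = τ c • T x)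
    (hsing : ∀ u, u ≠ 0 → f u u = 0 → ∃ θ : F, T u = θ • u)
    (u₁ u₂ w : V) (h11 : f u₁ u₁ = 0) (h22 : f u₂ u₂ = 0) (h12 : f u₁ u₂ ≠ 0)
    (h1w : f u₁ w = 0) (h2w : f u₂ w = 0) (hww : f w w ≠ 0)
    (hT1 : T u₁ = u₁) (hT2 : T u₂ = u₂) (g : F) : τ g = g := by
  obtain ⟨c, hc⟩ : ∃ c, c = f u₁ u₂ := ⟨_, rfl⟩
  obtain ⟨ν, hν⟩ : ∃ ν, ν = f w w := ⟨_, rfl⟩
  rw [← hc] at h12
  rw [← hν] at hww
  have h21 : f u₂ u₁ = σ c := by rw [hc]; exact h.herm _ _
  have hw1 := h.swap_zero h1w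
  have hw2 := h.swap_zero h2w
  have hσν : σ ν = ν := by rw [hν]; exact h.self_fix w
  have hσc : σ c ≠ 0 := by
    intro h0
    apply h12
    rw [← h.invol c, h0, map_zero]
  have indep : ∀ α β γ : F, α • u₁ + β • u₂ + γ • w = 0 → α = 0 ∧ β = 0 ∧ γ = 0 := by
    intro α β γ h0
    have e1 := congrArg (fun v => f v u₂) h0
    have e2 := congrArg (fun v => f v u₁) h0
    have e3 := congrArg (fun v => f v w) h0
    simp only [h.add_left, h.smul_left, h.zero_left, h11, h22, ← hc, h21, hw1, hw2, h1w, h2w, ← hν,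
      mul_zero, add_zero, zero_add] at e1 e2 e3
    refine ⟨?_, ?_, ?_⟩
    · exact (mul_eq_zero.mp e1).resolve_right h12
    · exact (mul_eq_zero.mp e2).resolve_right hσc
    · exact (mul_eq_zero.mp e3).resolve_right hww
  have sing : ∀ b g : F, σ b * c + b * σ c + ν * g * σ g = 0 →
      f (u₁ + b • u₂ + g • w) (u₁ + b • u₂ + g • w) = 0 := by
    intro b g hbg
    simp only [h.add_left, h.add_right, h.smul_left, h.smul_right, h11, h22, ← hc, h21, hw1, hw2,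
      h1w, h2w, ← hν]
    linear_combination hbg
  have sne : ∀ b g : F, u₁ + b • u₂ + g • w ≠ 0 := by
    intro b g h0
    have := (indep 1 b g (by rw [one_smul]; exact h0)).1
    exact one_ne_zero this
  obtain ⟨z, hz0, hz⟩ := h.exists_z
  obtain ⟨b₀, hb₀⟩ : ∃ b₀, b₀ = z / σ c := ⟨_, rfl⟩
  have hb₀0 : b₀ ≠ 0 := by rw [hb₀]; exact div_ne_zero hz0 hσc
  have hb₀c : σ b₀ * c + b₀ * σ c = 0 := by
    rw [hb₀, map_div₀, h.invol]
    field_simp
    linear_combination hz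
  have Tw0 : T 0 = 0 := by
    have := hsmul 0 0
    rw [zero_smul, map_zero, zero_smul] at this
    exact this
  have Ts : ∀ b g : F, T (u₁ + b • u₂ + g • w) = u₁ + τ b • u₂ + τ g • T w := by
    intro b g
    rw [hadd, hadd, hsmul, hsmul, hT1, hT2]
  -- step A
  have hA : τ b₀ = b₀ := by
    obtain ⟨θ, hθ⟩ := hsing _ (sne b₀ 0) (sing b₀ 0 (by rw [mul_zero, zero_mul, add_zero]; exact hb₀c))
    rw [Ts, map_zero, zero_smul, zero_smul, add_zero, add_zero] at hθ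
    have e : (1 - θ) • u₁ + (τ b₀ - θ * b₀) • u₂ + (0 : F) • w = 0 := by
      rw [zero_smul, add_zero, sub_smul, sub_smul, one_smul, mul_smul]
      rw [smul_add] at hθ
      have : u₁ + τ b₀ • u₂ - (θ • u₁ + θ • b₀ • u₂) = 0 := sub_eq_zero.mpr hθ
      rw [← this]; abel
    obtain ⟨e1, e2, -⟩ := indep _ _ _ e
    have hθ1 : θ = 1 := (sub_eq_zero.mp e1).symm
    rw [hθ1, one_mul] at e2
    exact sub_eq_zero.mp e2
  -- step B
  have hB : ∀ b g : F, σ b * c + b * σ c + ν * g * σ g = 0 →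
      T (u₁ + b • u₂ + g • w) = u₁ + b • u₂ + g • w := by
    intro b g hbg
    obtain ⟨θ, hθ⟩ := hsing _ (sne b g) (sing b g hbg)
    obtain ⟨θ', hθ'⟩ := hsing _ (sne (b + b₀) g) (sing (b + b₀) g (by
      rw [map_add]; linear_combination hbg + hb₀c))
    rw [Ts] at hθ hθ'
    rw [map_add, hA] at hθ'
    have e : (θ' - θ) • u₁ + ((θ' - θ) * b + (θ' - 1) * b₀) • u₂ + ((θ' - θ) * g) • w = 0 := by
      have e1 : (u₁ + (τ b + b₀) • u₂ + τ g • T w) - (u₁ + τ b • u₂ + τ g • T w) = b₀ • u₂ := by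
        rw [add_smul]; abel
      rw [hθ, hθ'] at e1
      have e2 : θ' • (u₁ + (b + b₀) • u₂ + g • w) - θ • (u₁ + b • u₂ + g • w) - b₀ • u₂ = 0 :=
        sub_eq_zero.mpr e1
      rw [← e2]
      simp only [smul_add, add_smul, sub_smul, mul_smul, one_smul, smul_sub]
      abel
    obtain ⟨e1, e2, -⟩ := indep _ _ _ e
    rw [e1, zero_mul, zero_add] at e2
    have hθ'1 : θ' = 1 := sub_eq_zero.mp ((mul_eq_zero.mp e2).resolve_right hb₀0)
    have hθ1 : θ = 1 := by rw [← hθ'1]; exact (sub_eq_zero.mp e1).symm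
    rw [Ts, hθ, hθ1, one_smul]
  -- step C
  have hC : ∀ g : F, ∃ b : F, τ g • T w = (b - τ b) • u₂ + g • w := by
    intro g
    obtain ⟨d, hd⟩ := h.trace_surj (-(ν * g * σ g)) (by
      rw [map_neg, map_mul, map_mul, hσν, h.invol]; ring)
    have hbg : σ (d / σ c) * c + (d / σ c) * σ c + ν * g * σ g = 0 := by
      rw [map_div₀, h.invol]
      field_simp
      linear_combination hd
    refine ⟨d / σ c, ?_⟩
    have := hB _ g hbg
    rw [Ts] at this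
    have e : τ g • T w = (u₁ + (d / σ c) • u₂ + g • w) - (u₁ + τ (d / σ c) • u₂) := by
      rw [← this]; abel
    rw [e, sub_smul]; abel
  obtain ⟨b₁, hb₁⟩ := hC 1
  rw [map_one, one_smul, one_smul] at hb₁
  obtain ⟨b, hb⟩ := hC g
  rw [hb₁] at hb
  have e : (0 : F) • u₁ + (τ g * (b₁ - τ b₁) - (b - τ b)) • u₂ + (τ g - g) • w = 0 := by
    have e2 : τ g • ((b₁ - τ b₁) • u₂ + w) - ((b - τ b) • u₂ + g • w) = 0 := sub_eq_zero.mpr hb
    rw [← e2]
    simp only [smul_add, sub_smul, mul_smul, zero_smul, smul_sub]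
    abel
  exact sub_eq_zero.mp (indep _ _ _ e).2.2

/-- P2: properness of the subfield groups in dimension three. -/
theorem not_le_subfield3 [Fintype F] {σ : F ≃+* F} {f : (Fin 3 → F) → (Fin 3 → F) → F}
    (hf : IsUnitaryForm σ f) (hq : 9 ≤ Fintype.card F) {F₁ : Subfield F} (hF₁ : F₁ ≠ ⊤)
    (C : GL (Fin 3) F) :
    ¬ Iso f ⊓ specialLinear (Fin 3) F ≤ subfieldSubgroup F₁ C := by
  intro hle
  have h := herm_of_unitary hf
  obtain ⟨τ, hτ, l, hl⟩ := exists_moved hF₁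
  obtain ⟨a, ha0, ha⟩ := h.exists_z
  -- singular vectors are rational up to scalars
  have hrat : ∀ u : Fin 3 → F, u ≠ 0 → f u u = 0 → ∃ κ : F, κ ≠ 0 ∧
      ∀ i, τ (κ * (((C⁻¹ : GL (Fin 3) F) : Matrix (Fin 3) (Fin 3) F) *ᵥ u) i) =
        κ * (((C⁻¹ : GL (Fin 3) F) : Matrix (Fin 3) (Fin 3) F) *ᵥ u) i := by
    intro u hu0 hu
    have h1 := tv_fixed (by omega) τ hτ C u (uφ f u a) _ (hle (utv_mem hf u a hu ha))
    have h2 : uφ f u a ᵥ* (C : Matrix (Fin 3) (Fin 3) F) ≠ 0 := by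
      intro h0
      apply uφ_ne_zero hf hu0 ha0
      have := congrArg (fun w => w ᵥ* ((C⁻¹ : GL (Fin 3) F) : Matrix (Fin 3) (Fin 3) F)) h0
      simpa [Matrix.vecMul_vecMul, iv] using this
    obtain ⟨j, hj⟩ := Function.ne_iff.mp h2
    rw [Pi.zero_apply] at hj
    refine ⟨_, hj, fun i => ?_⟩
    rw [mul_comm]
    exact h1 i j
  -- the semilinear map
  obtain ⟨T, hT⟩ : ∃ T : (Fin 3 → F) → (Fin 3 → F), T = fun v =>
      (C : Matrix (Fin 3) (Fin 3) F) *ᵥ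
        (fun i => τ ((((C⁻¹ : GL (Fin 3) F) : Matrix (Fin 3) (Fin 3) F) *ᵥ v) i)) := ⟨_, rfl⟩
  have hadd : ∀ x y, T (x + y) = T x + T y := by
    intro x y
    rw [hT]
    simp only
    rw [← Matrix.mulVec_add]
    congr 1
    ext i
    rw [Matrix.mulVec_add, Pi.add_apply, map_add, Pi.add_apply]
  have hsmul : ∀ (c : F) x, T (c • x) = τ c • T x := by
    intro c x
    rw [hT]
    simp only
    rw [← Matrix.mulVec_smul]
    congr 1
    ext i
    rw [Matrix.mulVec_smul, Pi.smul_apply, smul_eq_mul, map_mul, Pi.smul_apply, smul_eq_mul]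
  have hfix : ∀ u : Fin 3 → F, u ≠ 0 → f u u = 0 → ∃ κ : F, κ ≠ 0 ∧ T (κ • u) = κ • u := by
    intro u hu0 hu
    obtain ⟨κ, hκ0, hκ⟩ := hrat u hu0 hu
    refine ⟨κ, hκ0, ?_⟩
    rw [hT]
    simp only
    have e : (fun i => τ ((((C⁻¹ : GL (Fin 3) F) : Matrix (Fin 3) (Fin 3) F) *ᵥ (κ • u)) i))
        = ((C⁻¹ : GL (Fin 3) F) : Matrix (Fin 3) (Fin 3) F) *ᵥ (κ • u) := by
      ext i
      rw [Matrix.mulVec_smul, Pi.smul_apply, smul_eq_mul]
      exact hκ i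
    rw [e, Matrix.mulVec_mulVec, iv, Matrix.one_mulVec]
  have hsing : ∀ u, u ≠ 0 → f u u = 0 → ∃ θ : F, T u = θ • u := by
    intro u hu0 hu
    obtain ⟨κ, hκ0, hκ⟩ := hfix u hu0 hu
    rw [hsmul] at hκ
    have hτκ : τ κ ≠ 0 := (map_ne_zero τ).mpr hκ0
    refine ⟨(τ κ)⁻¹ * κ, ?_⟩
    rw [mul_smul, ← hκ, smul_smul, inv_mul_cancel₀ hτκ, one_smul]
  -- the vectors
  obtain ⟨P, hP⟩ := exists_ON hf
  obtain ⟨lam, hlam'⟩ := h.norm_surj (-1) (by simp)
  have hlam : lam * σ lam = -1 := hlam'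
  obtain ⟨b', hb'⟩ : ∃ b', σ b' ≠ b' := by
    by_contra hcon
    push Not at hcon
    exact hf.ne_refl (RingEquiv.ext hcon)
  have hb'0 : b' ≠ 0 := by
    rintro rfl
    exact hb' (map_zero σ)
  have hσb'0 : σ b' ≠ 0 := (map_ne_zero σ).mpr hb'0
  obtain ⟨ε, hε⟩ : ∃ ε, ε = b' / σ b' := ⟨_, rfl⟩
  have hσε : σ ε = σ b' / b' := by rw [hε, map_div₀, hf.involutive]
  have hεε : ε * σ ε = 1 := by
    rw [hσε, hε]; field_simp
  have hσε1 : σ ε ≠ 1 := by
    rw [hσε]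
    intro h1
    exact hb' ((div_eq_one_iff_eq hb'0).mp h1)
  obtain ⟨v₁, hv₁⟩ : ∃ v, v = (P : Matrix (Fin 3) (Fin 3) F) *ᵥ ![1, lam, 0] := ⟨_, rfl⟩
  obtain ⟨v₂, hv₂⟩ : ∃ v, v = (P : Matrix (Fin 3) (Fin 3) F) *ᵥ ![1, lam * ε, 0] := ⟨_, rfl⟩
  obtain ⟨w, hw⟩ : ∃ v, v = (P : Matrix (Fin 3) (Fin 3) F) *ᵥ ![0, 0, 1] := ⟨_, rfl⟩
  have f11 : f v₁ v₁ = 0 := by
    rw [hv₁, hP]; simp [Fin.sum_univ_three, hlam]
  have f22 : f v₂ v₂ = 0 := by
    rw [hv₂, hP]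
    simp only [Fin.sum_univ_three, Matrix.cons_val_zero, Matrix.cons_val_one, Matrix.cons_val_two,
      Matrix.head_cons, Matrix.tail_cons, map_one, map_mul, map_zero, mul_zero, add_zero, mul_one]
    linear_combination hlam * (ε * σ ε) - hεε
  have f12 : f v₁ v₂ = 1 - σ ε := by
    rw [hv₁, hv₂, hP]
    simp only [Fin.sum_univ_three, Matrix.cons_val_zero, Matrix.cons_val_one, Matrix.cons_val_two,
      Matrix.head_cons, Matrix.tail_cons, map_one, map_mul, map_zero, mul_zero, add_zero, mul_one]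
    linear_combination hlam * σ ε
  have f1w : f v₁ w = 0 := by
    rw [hv₁, hw, hP]; simp [Fin.sum_univ_three]
  have f2w : f v₂ w = 0 := by
    rw [hv₂, hw, hP]; simp [Fin.sum_univ_three]
  have fww : f w w = 1 := by
    rw [hw, hP]; simp [Fin.sum_univ_three]
  have f12ne : f v₁ v₂ ≠ 0 := by
    rw [f12]
    intro h0
    exact hσε1 (sub_eq_zero.mp h0).symm
  have hv₁0 : v₁ ≠ 0 := by
    rintro rfl
    exact f12ne (h.zero_left _)
  have hv₂0 : v₂ ≠ 0 := by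
    rintro rfl
    exact f12ne (h.zero_right _)
  obtain ⟨κ₁, hκ₁0, hκ₁⟩ := hfix v₁ hv₁0 f11
  obtain ⟨κ₂, hκ₂0, hκ₂⟩ := hfix v₂ hv₂0 f22
  apply hl
  apply semilinear_core h τ T hadd hsmul hsing (κ₁ • v₁) (κ₂ • v₂) w
  · rw [h.smul_left, h.smul_right, f11]; simp
  · rw [h.smul_left, h.smul_right, f22]; simp
  · rw [h.smul_left, h.smul_right]
    exact mul_ne_zero hκ₁0 (mul_ne_zero ((map_ne_zero _).mpr hκ₂0) f12ne)
  · rw [h.smul_left, f1w, mul_zero]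
  · rw [h.smul_left, f2w, mul_zero]
  · rw [fww]; exact one_ne_zero
  · exact hκ₁
  · exact hκ₂

end Cfsg.Agent.Lib.Helper12U3PSub
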