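import Cfsg.Agent.Lib.Helper15UPc6

set_option autoImplicit false

/-! SU_4(q): properness of the class-6 normalisers in dimension four. -/

namespace Cfsg.Agent.Lib.Helper12U4C6

open Cfsg Cfsg.Geo Matrix Cfsg.Agent.Lib.Helper97AschBase Cfsg.Agent.Lib.Helper97AschForms
  Cfsg.Agent.Lib.Helper97AschTransv Cfsg.Agent.Lib.Helper95Herm Cfsg.Agent.Lib.Helper97UBase
  Cfsg.Agent.Lib.Helper97UProper Cfsg.Agent.Lib.Helper97AschHeis Cfsg.Agent.Lib.Helper97AschStd
  Cfsg.Agent.Lib.Helper97UProper2 Cfsg.Agent.Lib.Helper97UProper3 Cfsg.Agent.Lib.Helper15UPc6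
open scoped MatrixGroups

variable {n : ℕ} {F : Type*} [Field F]

/-- a product of two transvections killed by `(X - 1)(X - lam)`, `lam ≠ 1`, is trivial -/
lemma eq_self_of_quad (u u' φ ψ : Fin n → F) (c : (Fin n → F) → (Fin n → F)) {lam : F} (hlam : lam ≠ 1)
    (hφu : φ ⬝ᵥ u = 0) (hψu' : ψ ⬝ᵥ u' = 0) (hφ0 : ∃ v, φ ⬝ᵥ v = 1) (hψ0 : ∃ v, ψ ⬝ᵥ v = 1)
    (hc : ∀ v, c v = v + (φ ⬝ᵥ v - (φ ⬝ᵥ u') * (ψ ⬝ᵥ v)) • u - (ψ ⬝ᵥ v) • u')
    (hquad : ∀ v, c (c v) - (1 + lam) • c v + lam • v = 0) : ∀ v, c v = v := by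
  obtain ⟨α, hα⟩ : ∃ α, α = φ ⬝ᵥ u' := ⟨_, rfl⟩
  obtain ⟨β, hβ⟩ : ∃ β, β = ψ ⬝ᵥ u := ⟨_, rfl⟩
  rw [← hα] at hc
  have E : ∀ v, ((φ ⬝ᵥ v - α * (ψ ⬝ᵥ v)) * (1 - lam - α * β) - α * (ψ ⬝ᵥ v)) • u +
      ((ψ ⬝ᵥ v) * (lam - 1) - β * (φ ⬝ᵥ v - α * (ψ ⬝ᵥ v))) • u' = 0 := by
    intro v
    have h1 := hquad v
    rw [hc (c v), hc v] at h1
    simp only [dotProduct_add, dotProduct_sub, dotProduct_smul, hφu, hψu', smul_eq_mul, ← hα, ← hβ,
      mul_zero, add_zero, sub_zero] at h1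
    funext i
    have h2 := congrFun h1 i
    simp only [Pi.add_apply, Pi.sub_apply, Pi.smul_apply, smul_eq_mul, Pi.zero_apply] at h2 ⊢
    linear_combination h2
  have Eφ : ∀ v, ((ψ ⬝ᵥ v) * (lam - 1) - β * (φ ⬝ᵥ v - α * (ψ ⬝ᵥ v))) * α = 0 := by
    intro v
    have := congrArg (fun w => φ ⬝ᵥ w) (E v)
    simpa only [dotProduct_add, dotProduct_smul, hφu, smul_eq_mul, mul_zero, zero_add, ← hα,
      dotProduct_zero] using this
  have Eψ : ∀ v, ((φ ⬝ᵥ v - α * (ψ ⬝ᵥ v)) * (1 - lam - α * β) - α * (ψ ⬝ᵥ v)) * β = 0 := by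
    intro v
    have := congrArg (fun w => ψ ⬝ᵥ w) (E v)
    simpa only [dotProduct_add, dotProduct_smul, hψu', smul_eq_mul, mul_zero, add_zero, ← hβ,
      dotProduct_zero] using this
  have hl : lam - 1 ≠ 0 := sub_ne_zero.mpr hlam
  by_cases hα0 : α = 0
  · obtain ⟨v₁, hv₁⟩ := hφ0
    have h1 := Eψ v₁
    rw [hα0, hv₁] at h1
    have hβ0 : β = 0 := by
      have h2 : (lam - 1) * β = 0 := by linear_combination -h1
      rcases mul_eq_zero.mp h2 with h3 | h3
      · exact absurd h3 hl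
      · exact h3
    intro v
    have h3 := E v
    rw [hα0, hβ0] at h3
    rw [hc, hα0]
    funext i
    have h4 := congrFun h3 i
    simp only [Pi.add_apply, Pi.sub_apply, Pi.smul_apply, smul_eq_mul, Pi.zero_apply] at h4 ⊢
    have h5 : (lam - 1) * ((φ ⬝ᵥ v) * u i - (ψ ⬝ᵥ v) * u' i) = 0 := by linear_combination -h4
    rcases mul_eq_zero.mp h5 with h6 | h6
    · exact absurd h6 hl
    · linear_combination h6
  · exfalso
    have B : ∀ v, (ψ ⬝ᵥ v) * (lam - 1) - β * (φ ⬝ᵥ v - α * (ψ ⬝ᵥ v)) = 0 := by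
      intro v
      rcases mul_eq_zero.mp (Eφ v) with h | h
      · exact h
      · exact absurd h hα0
    have h1 := B u'
    rw [hψu', ← hα] at h1
    have hβ0 : β = 0 := by
      have h2 : β * α = 0 := by linear_combination -h1
      rcases mul_eq_zero.mp h2 with h3 | h3
      · exact h3
      · exact absurd h3 hα0
    obtain ⟨v₂, hv₂⟩ := hψ0
    have h2 := B v₂
    rw [hv₂, hβ0] at h2
    apply hl
    linear_combination h2


/-- a transvection does not normalise an absolutely irreducible group with scalar commutators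
(dimension four) -/
lemma tv_not_mem_normalizer4 (h4 : n = 4) {N : Subgroup (GL (Fin n) F)}
    (habs : ActsAbsolutelyIrreducibly (matrixSet N))
    (hcomm : ⁅N, N⁆ ≤ scalars (Fin n) F) (u φ : Fin n → F) (hφu : φ ⬝ᵥ u = 0) (hu0 : u ≠ 0)
    (hφ0 : φ ≠ 0) : tv u φ hφu ∉ subgroupNormalizer N := by
  intro ht
  have hpos : 0 < n := by omega
  have : NeZero n := ⟨hpos.ne'⟩
  unfold subgroupNormalizer at ht
  rw [Subgroup.mem_normalizer_iff] at ht
  obtain ⟨t, htdef⟩ : ∃ t, t = tv u φ hφu := ⟨_, rfl⟩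
  rw [← htdef] at ht
  have htv : ∀ v, (t : Matrix (Fin n) (Fin n) F) *ᵥ v = v + (φ ⬝ᵥ v) • u := by
    intro v; rw [htdef, tv_mulVec]
  have htinv' : ∀ v, ((t⁻¹ : GL (Fin n) F) : Matrix (Fin n) (Fin n) F) *ᵥ v = v - (φ ⬝ᵥ v) • u := by
    intro v
    have h1 : (t : Matrix (Fin n) (Fin n) F) *ᵥ (v - (φ ⬝ᵥ v) • u) = v := by
      rw [htv, dotProduct_sub, dotProduct_smul, hφu, smul_zero, sub_zero]
      abel
    conv_lhs => rw [← h1]
    rw [inv_mulVec_mulVec]
  have htinv : ∀ v, φ ⬝ᵥ v = 0 → ((t⁻¹ : GL (Fin n) F) : Matrix (Fin n) (Fin n) F) *ᵥ v = v := by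
    intro v hv
    rw [htinv', hv, zero_smul, sub_zero]
  obtain ⟨v₁, hv₁⟩ := exists_dot_eq_one hφ0
  -- commutators are trivial
  have hcomm1 : ∀ x ∈ N, t * x * t⁻¹ * x⁻¹ = 1 := by
    intro x hx
    have hc : t * x * t⁻¹ * x⁻¹ ∈ N := N.mul_mem ((ht x).mp hx) (N.inv_mem hx)
    obtain ⟨c, hcdef⟩ : ∃ c, c = t * x * t⁻¹ * x⁻¹ := ⟨_, rfl⟩
    rw [← hcdef] at hc ⊢
    let K₀ := LinearMap.ker ((dotL φ).prod
      ((dotL φ) ∘ₗ Matrix.toLin' ((x⁻¹ : GL (Fin n) F) : Matrix (Fin n) (Fin n) F)))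
    have hK₀ : n ≤ Module.finrank F K₀ + 2 := finrank_ker_two _ _
    have hle : K₀ ≤ fixS c := by
      intro v hv
      rw [LinearMap.mem_ker] at hv
      have hv1 : φ ⬝ᵥ v = 0 := congrArg Prod.fst hv
      have hv2 : φ ⬝ᵥ (((x⁻¹ : GL (Fin n) F) : Matrix (Fin n) (Fin n) F) *ᵥ v) = 0 := by
        have := congrArg Prod.snd hv
        simpa using this
      rw [mem_fixS, hcdef, Units.val_mul, Units.val_mul, Units.val_mul, ← Matrix.mulVec_mulVec,
        ← Matrix.mulVec_mulVec, ← Matrix.mulVec_mulVec, htinv _ hv2, mulVec_inv_mulVec, htv, hv1,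
        zero_smul, add_zero]
    have hfr : n ≤ Module.finrank F (fixS c) + 2 := by
      have := Submodule.finrank_mono hle
      omega
    by_cases hcen : ∀ w ∈ N, c * w = w * c
    · obtain ⟨κ, hκ⟩ := (mem_scalars_iff _).mp (mem_scalars_of_comm hpos habs hcen)
      have hne : fixS c ≠ ⊥ := by
        intro hb
        rw [hb, finrank_bot] at hfr
        omega
      obtain ⟨v, hv, hv0⟩ := Submodule.exists_mem_ne_zero_of_ne_bot hne
      rw [mem_fixS, hκ, Matrix.smul_mulVec, Matrix.one_mulVec] at hv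
      have hκ1 : (κ : F) = 1 := by
        have h2 : ((κ : F) - 1) • v = 0 := by rw [sub_smul, hv, one_smul, sub_self]
        rcases smul_eq_zero.mp h2 with h3 | h3
        · exact sub_eq_zero.mp h3
        · exact absurd h3 hv0
      apply Units.ext
      rw [hκ, hκ1, one_smul, Units.val_one]
    · push Not at hcen
      obtain ⟨w, hw, hcw⟩ := hcen
      have h1 : w * c * w⁻¹ * c⁻¹ ∈ scalars (Fin n) F :=
        hcomm (Subgroup.commutator_mem_commutator hw hc)
      obtain ⟨ζ, hζ⟩ := (mem_scalars_iff _).mp h1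
      have hrel : (w : Matrix (Fin n) (Fin n) F) * c = (ζ : F) • ((c : Matrix (Fin n) (Fin n) F) * w) := by
        have h2 : w * c = (w * c * w⁻¹ * c⁻¹) * (c * w) := by group
        rw [← Units.val_mul, h2, Units.val_mul, hζ, Matrix.smul_mul, Matrix.one_mul, Units.val_mul]
      have hζ1 : (ζ : F) ≠ 1 := by
        intro h1'
        apply hcw
        apply Units.ext
        rw [Units.val_mul, Units.val_mul, hrel, h1', one_smul]
      -- the decomposition into two eigenspaces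
      set W₂ : Submodule F (Fin n → F) := (fixS c).map (Matrix.toLin' (w : Matrix (Fin n) (Fin n) F)) with hW₂
      have hinj : Function.Injective (Matrix.toLin' (w : Matrix (Fin n) (Fin n) F)) := by
        intro a b hab
        rw [Matrix.toLin'_apply, Matrix.toLin'_apply] at hab
        exact mulVec_injective w hab
      have hfrW : Module.finrank F W₂ = Module.finrank F (fixS c) :=
        (Submodule.equivMapOfInjective _ hinj (fixS c)).finrank_eq.symm
      have hcW : ∀ b ∈ W₂, (c : Matrix (Fin n) (Fin n) F) *ᵥ b = ((ζ : F)⁻¹) • b := by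
        rintro _ ⟨v, hv, rfl⟩
        rw [SetLike.mem_coe, mem_fixS] at hv
        rw [Matrix.toLin'_apply]
        have h2 : (w : Matrix (Fin n) (Fin n) F) *ᵥ v =
            (ζ : F) • ((c : Matrix (Fin n) (Fin n) F) *ᵥ ((w : Matrix (Fin n) (Fin n) F) *ᵥ v)) := by
          conv_lhs => rw [← hv, Matrix.mulVec_mulVec, hrel, Matrix.smul_mulVec, ← Matrix.mulVec_mulVec]
        conv_rhs => rw [h2]
        rw [smul_smul, inv_mul_cancel₀ ζ.ne_zero, one_smul]
      have hdisj : Disjoint (fixS c) W₂ := by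
        rw [Submodule.disjoint_def]
        intro y hy hy2
        rw [mem_fixS] at hy
        have h2 := hcW y hy2
        rw [hy] at h2
        have h3 : (1 - (ζ : F)⁻¹) • y = 0 := by rw [sub_smul, one_smul, ← h2, sub_self]
        rcases smul_eq_zero.mp h3 with h5 | h5
        · exfalso
          apply hζ1
          have := sub_eq_zero.mp h5
          exact inv_eq_one.mp this.symm
        · exact h5
      have htop : fixS c ⊔ W₂ = ⊤ := by
        apply Submodule.eq_top_of_finrank_eq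
        have h2 := Submodule.finrank_sup_add_finrank_inf_eq (fixS c) W₂
        rw [hdisj.eq_bot, finrank_bot, add_zero, hfrW] at h2
        have h3 := Submodule.finrank_le (fixS c ⊔ W₂)
        rw [Module.finrank_fin_fun] at h3 ⊢
        omega
      have hquad : ∀ v, (c : Matrix (Fin n) (Fin n) F) *ᵥ ((c : Matrix (Fin n) (Fin n) F) *ᵥ v) -
          (1 + (ζ : F)⁻¹) • ((c : Matrix (Fin n) (Fin n) F) *ᵥ v) + ((ζ : F)⁻¹) • v = 0 := by
        intro v
        have hv : v ∈ fixS c ⊔ W₂ := by rw [htop]; trivial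
        obtain ⟨a, ha, b, hb, rfl⟩ := Submodule.mem_sup.mp hv
        rw [mem_fixS] at ha
        have hb' := hcW b hb
        simp only [Matrix.mulVec_add, ha, hb', Matrix.mulVec_smul]
        module
      have hform : ∀ v, (c : Matrix (Fin n) (Fin n) F) *ᵥ v = v +
          (φ ⬝ᵥ v - (φ ⬝ᵥ ((x : Matrix (Fin n) (Fin n) F) *ᵥ u)) *
            ((φ ᵥ* ((x⁻¹ : GL (Fin n) F) : Matrix (Fin n) (Fin n) F)) ⬝ᵥ v)) • u -
          ((φ ᵥ* ((x⁻¹ : GL (Fin n) F) : Matrix (Fin n) (Fin n) F)) ⬝ᵥ v) •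
            ((x : Matrix (Fin n) (Fin n) F) *ᵥ u) := by
        intro v
        rw [hcdef, Units.val_mul, Units.val_mul, Units.val_mul, ← Matrix.mulVec_mulVec,
          ← Matrix.mulVec_mulVec, ← Matrix.mulVec_mulVec, htinv', Matrix.mulVec_sub, mulVec_inv_mulVec,
          Matrix.mulVec_smul, htv, dotProduct_sub, dotProduct_smul, ← Matrix.dotProduct_mulVec, smul_eq_mul]
        module
      have hfix := eq_self_of_quad u ((x : Matrix (Fin n) (Fin n) F) *ᵥ u) φ
        (φ ᵥ* ((x⁻¹ : GL (Fin n) F) : Matrix (Fin n) (Fin n) F))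
        (fun v => (c : Matrix (Fin n) (Fin n) F) *ᵥ v) (lam := (ζ : F)⁻¹)
        (fun h => hζ1 (inv_eq_one.mp h)) hφu
        (by rw [← Matrix.dotProduct_mulVec, inv_mulVec_mulVec, hφu]) ⟨v₁, hv₁⟩
        ⟨(x : Matrix (Fin n) (Fin n) F) *ᵥ v₁, by
          rw [← Matrix.dotProduct_mulVec, inv_mulVec_mulVec, hv₁]⟩ hform hquad
      exfalso
      apply hcw
      have hc1 : c = 1 := by
        apply Units.ext
        rw [Units.val_one]
        apply Matrix.toLin'.injective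
        apply LinearMap.ext
        intro v
        rw [Matrix.toLin'_apply, Matrix.toLin'_one, LinearMap.id_apply]
        exact hfix v
      rw [hc1, one_mul, mul_one]
  have hcen : ∀ x ∈ N, t * x = x * t := by
    intro x hx
    have := hcomm1 x hx
    calc t * x = (t * x * t⁻¹ * x⁻¹) * (x * t) := by group
      _ = x * t := by rw [this, one_mul]
  obtain ⟨κ, hκ⟩ := (mem_scalars_iff _).mp (mem_scalars_of_comm hpos habs hcen)
  obtain ⟨v, hv0, hv1, _⟩ := exists_ker_two (by omega) (dotL φ) (dotL φ)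
  rw [dotL_apply] at hv1
  have h1 := htv v
  rw [hκ, Matrix.smul_mulVec, Matrix.one_mulVec, hv1, zero_smul, add_zero] at h1
  have hκ1 : (κ : F) = 1 := by
    have h2 : ((κ : F) - 1) • v = 0 := by rw [sub_smul, h1, one_smul, sub_self]
    rcases smul_eq_zero.mp h2 with h3 | h3
    · exact sub_eq_zero.mp h3
    · exact absurd h3 hv0
  have h2 := htv v₁
  rw [hκ, hκ1, one_smul, Matrix.one_mulVec, hv₁, one_smul] at h2
  exact hu0 (by simpa using h2)

variable {σ : F ≃+* F} {f : (Fin n → F) → (Fin n → F) → F}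

/-- properness of class 6 in dimension four -/
theorem notSU_c6_four [Finite F] (hf : IsUnitaryForm σ f) (hn : n = 4) {R : Subgroup (GL (Fin n) F)}
    (habs : ActsAbsolutelyIrreducibly (matrixSet R)) (hcomm : ⁅R, R⁆ ≤ scalars (Fin n) F) :
    ¬ Iso f ⊓ specialLinear (Fin n) F ≤ subgroupNormalizer R := by
  intro hle
  have h := herm_of_unitary hf
  obtain ⟨u, hu0, hu⟩ := exists_singular hf (by omega)
  obtain ⟨a, ha0, ha⟩ := h.exists_z
  exact tv_not_mem_normalizer4 hn habs hcomm u (uφ f u a) _ hu0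
    (uφ_ne_zero hf hu0 ha0) (hle (utv_mem hf u a hu ha))

end Cfsg.Agent.Lib.Helper12U4C6
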