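import Cfsg.Agent.Lib.Helper17AschUSub
import Cfsg.Agent.Lib.Helper13UDefs
import Cfsg.Agent.Lib.Helper12AschPlanesThree

set_option autoImplicit false

/-! SU_4(q), `q ≤ 3`: the stabiliser of a pair of totally singular planes lies in a subfield group of index 2. -/

namespace Cfsg.Agent.Lib.Helper12U4Pair

open Cfsg Cfsg.Geo Matrix
open Cfsg.Agent.Lib.Helper97AschBase Cfsg.Agent.Lib.Helper97UBase
  Cfsg.Agent.Lib.Helper13UDefs Cfsg.Agent.Lib.Helper17AschUDescent
  Cfsg.Agent.Lib.Helper12AschPlanesThree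
open scoped MatrixGroups

variable {F : Type*} [Field F] (σ : F ≃+* F)

/-- hyperbolic form in coordinates -/
def hyp (x y : Fin 4 → F) : F := x 0 * σ (y 2) + x 1 * σ (y 3) + x 2 * σ (y 0) + x 3 * σ (y 1)

/-- the semilinear involution in coordinates -/
def Jc (x : Fin 4 → F) : Fin 4 → F := ![-σ (x 3), σ (x 2), σ (x 1), -σ (x 0)]

lemma core_diag (hσ : ∀ a, σ (σ a) = a) (hsq : ∀ d : F, σ d = d → d ≠ 0 → d * d = 1)
    (a b c e a' b' c' e' : F)
    (h : ∀ x y, hyp σ (!![a,b,0,0;c,e,0,0;0,0,a',b';0,0,c',e'] *ᵥ x)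
      (!![a,b,0,0;c,e,0,0;0,0,a',b';0,0,c',e'] *ᵥ y) = hyp σ x y)
    (hdet : (a*e - b*c)*(a'*e' - b'*c') = 1) :
    ∃ μ : F, ∀ x, Jc σ (!![a,b,0,0;c,e,0,0;0,0,a',b';0,0,c',e'] *ᵥ x) =
      μ • (!![a,b,0,0;c,e,0,0;0,0,a',b';0,0,c',e'] *ᵥ Jc σ x) := by
  have U1 := h ![1,0,0,0] ![0,0,1,0]
  have U2 := h ![1,0,0,0] ![0,0,0,1]
  have U3 := h ![0,1,0,0] ![0,0,1,0]
  have U4 := h ![0,1,0,0] ![0,0,0,1]
  simp [hyp, Matrix.mulVec, dotProduct, Fin.sum_univ_four] at U1 U2 U3 U4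
  obtain ⟨d, hd⟩ : ∃ d, d = a * e - b * c := ⟨_, rfl⟩
  rw [← hd] at hdet
  have hd0 : d ≠ 0 := by
    rintro rfl
    simp at hdet
  have E1 : d * σ a' = e := by rw [hd]; linear_combination e * U1 - c * U3
  have E2 : d * σ c' = -b := by rw [hd]; linear_combination a * U3 - b * U1
  have E3 : d * σ b' = -c := by rw [hd]; linear_combination e * U2 - c * U4
  have E4 : d * σ e' = a := by rw [hd]; linear_combination a * U4 - b * U2
  have hd' : d * σ (a' * e' - b' * c') = 1 := by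
    apply mul_left_cancel₀ hd0
    rw [map_sub, map_mul, map_mul]
    have : d * (d * (σ a' * σ e' - σ b' * σ c')) = (d * σ a') * (d * σ e') - (d * σ b') * (d * σ c') := by ring
    rw [this, E1, E2, E3, E4, hd]
    ring
  have hσd : σ d = d := by
    have h1 := congrArg σ hdet
    rw [map_mul, map_one] at h1
    have h2 : σ (a' * e' - b' * c') ≠ 0 := by
      intro h0
      rw [h0, mul_zero] at hd'
      exact zero_ne_one hd'
    exact mul_right_cancel₀ h2 (h1.trans hd'.symm)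
  have hdd := hsq d hσd hd0
  have S1 : σ a' = d * e := by rw [← E1, ← mul_assoc, hdd, one_mul]
  have S2 : σ c' = - (d * b) := by
    have : σ c' = d * (d * σ c') := by rw [← mul_assoc, hdd, one_mul]
    rw [this, E2]; ring
  have S3 : σ b' = - (d * c) := by
    have : σ b' = d * (d * σ b') := by rw [← mul_assoc, hdd, one_mul]
    rw [this, E3]; ring
  have S4 : σ e' = d * a := by rw [← E4, ← mul_assoc, hdd, one_mul]
  have T1 : σ a = d * e' := by
    have := congrArg σ S4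
    rw [hσ, map_mul, hσd] at this
    rw [this, ← mul_assoc, hdd, one_mul]
  have T2 : σ b = - (d * c') := by
    have := congrArg σ S2
    rw [hσ, map_neg, map_mul, hσd] at this
    rw [this]
    linear_combination (- σ b) * hdd
  have T3 : σ c = - (d * b') := by
    have := congrArg σ S3
    rw [hσ, map_neg, map_mul, hσd] at this
    rw [this]
    linear_combination (- σ c) * hdd
  have T4 : σ e = d * a' := by
    have := congrArg σ S1
    rw [hσ, map_mul, hσd] at this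
    rw [this, ← mul_assoc, hdd, one_mul]
  refine ⟨d, fun x => ?_⟩
  ext i
  fin_cases i <;>
    simp [Jc, Matrix.mulVec, dotProduct, Fin.sum_univ_four, S1, S2, S3, S4, T1, T2, T3, T4] <;> ring

lemma core_anti (hσ : ∀ a, σ (σ a) = a) (hsq : ∀ d : F, σ d = d → d ≠ 0 → d * d = 1)
    (a b c e a' b' c' e' : F)
    (h : ∀ x y, hyp σ (!![0,0,a,b;0,0,c,e;a',b',0,0;c',e',0,0] *ᵥ x)
      (!![0,0,a,b;0,0,c,e;a',b',0,0;c',e',0,0] *ᵥ y) = hyp σ x y)
    (hdet : (a*e - b*c)*(a'*e' - b'*c') = 1) :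
    ∃ μ : F, ∀ x, Jc σ (!![0,0,a,b;0,0,c,e;a',b',0,0;c',e',0,0] *ᵥ x) =
      μ • (!![0,0,a,b;0,0,c,e;a',b',0,0;c',e',0,0] *ᵥ Jc σ x) := by
  have U1 := h ![0,0,1,0] ![1,0,0,0]
  have U2 := h ![0,0,1,0] ![0,1,0,0]
  have U3 := h ![0,0,0,1] ![1,0,0,0]
  have U4 := h ![0,0,0,1] ![0,1,0,0]
  simp [hyp, Matrix.mulVec, dotProduct, Fin.sum_univ_four] at U1 U2 U3 U4
  obtain ⟨d, hd⟩ : ∃ d, d = a * e - b * c := ⟨_, rfl⟩
  rw [← hd] at hdet
  have hd0 : d ≠ 0 := by
    rintro rfl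
    simp at hdet
  have E1 : d * σ a' = e := by rw [hd]; linear_combination e * U1 - c * U3
  have E2 : d * σ c' = -b := by rw [hd]; linear_combination a * U3 - b * U1
  have E3 : d * σ b' = -c := by rw [hd]; linear_combination e * U2 - c * U4
  have E4 : d * σ e' = a := by rw [hd]; linear_combination a * U4 - b * U2
  have hd' : d * σ (a' * e' - b' * c') = 1 := by
    apply mul_left_cancel₀ hd0
    rw [map_sub, map_mul, map_mul]
    have : d * (d * (σ a' * σ e' - σ b' * σ c')) = (d * σ a') * (d * σ e') - (d * σ b') * (d * σ c') := by ring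
    rw [this, E1, E2, E3, E4, hd]
    ring
  have hσd : σ d = d := by
    have h1 := congrArg σ hdet
    rw [map_mul, map_one] at h1
    have h2 : σ (a' * e' - b' * c') ≠ 0 := by
      intro h0
      rw [h0, mul_zero] at hd'
      exact zero_ne_one hd'
    exact mul_right_cancel₀ h2 (h1.trans hd'.symm)
  have hdd := hsq d hσd hd0
  have S1 : σ a' = d * e := by rw [← E1, ← mul_assoc, hdd, one_mul]
  have S2 : σ c' = - (d * b) := by
    have : σ c' = d * (d * σ c') := by rw [← mul_assoc, hdd, one_mul]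
    rw [this, E2]; ring
  have S3 : σ b' = - (d * c) := by
    have : σ b' = d * (d * σ b') := by rw [← mul_assoc, hdd, one_mul]
    rw [this, E3]; ring
  have S4 : σ e' = d * a := by rw [← E4, ← mul_assoc, hdd, one_mul]
  have T1 : σ a = d * e' := by
    have := congrArg σ S4
    rw [hσ, map_mul, hσd] at this
    rw [this, ← mul_assoc, hdd, one_mul]
  have T2 : σ b = - (d * c') := by
    have := congrArg σ S2
    rw [hσ, map_neg, map_mul, hσd] at this
    rw [this]
    linear_combination (- σ b) * hdd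
  have T3 : σ c = - (d * b') := by
    have := congrArg σ S3
    rw [hσ, map_neg, map_mul, hσd] at this
    rw [this]
    linear_combination (- σ c) * hdd
  have T4 : σ e = d * a' := by
    have := congrArg σ S1
    rw [hσ, map_mul, hσd] at this
    rw [this, ← mul_assoc, hdd, one_mul]
  refine ⟨-d, fun x => ?_⟩
  ext i
  fin_cases i <;>
    simp [Jc, Matrix.mulVec, dotProduct, Fin.sum_univ_four, S1, S2, S3, S4, T1, T2, T3, T4] <;> ring


lemma Jc_add (x y : Fin 4 → F) : Jc σ (x + y) = Jc σ x + Jc σ y := by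
  ext i
  fin_cases i <;> simp [Jc] <;> ring

lemma Jc_smul (c : F) (x : Fin 4 → F) : Jc σ (c • x) = σ c • Jc σ x := by
  ext i
  fin_cases i <;> simp [Jc]

lemma Jc_Jc (hσ : ∀ a, σ (σ a) = a) (x : Fin 4 → F) : Jc σ (Jc σ x) = x := by
  ext i
  fin_cases i <;> simp [Jc, hσ]

lemma hyp_Jc (hσ : ∀ a, σ (σ a) = a) (x y : Fin 4 → F) :
    hyp σ (Jc σ x) (Jc σ y) = -1 * σ (hyp σ x y) := by
  simp [hyp, Jc, hσ]
  ring

variable {σ}
variable {f : (Fin 4 → F) → (Fin 4 → F) → F}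

/-- a hyperbolic basis adapted to a pair of totally singular planes -/
theorem exists_hyp (hf : IsUnitaryForm σ f) (D : Fin 2 → Submodule F (Fin 4 → F))
    (hD : IsMDecomposition 2 D) (hs : ∀ i, IsTotallySingularFor f (D i)) :
    ∃ B : GL (Fin 4) F,
      (∀ x y, f ((B : Matrix (Fin 4) (Fin 4) F) *ᵥ x) ((B : Matrix (Fin 4) (Fin 4) F) *ᵥ y) = hyp σ x y) ∧
      (∀ x, (B : Matrix (Fin 4) (Fin 4) F) *ᵥ x ∈ D 0 → x 2 = 0 ∧ x 3 = 0) ∧
      (∀ x, (B : Matrix (Fin 4) (Fin 4) F) *ᵥ x ∈ D 1 → x 0 = 0 ∧ x 1 = 0) ∧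
      (∀ x, x 2 = 0 → x 3 = 0 → (B : Matrix (Fin 4) (Fin 4) F) *ᵥ x ∈ D 0) ∧
      (∀ x, x 0 = 0 → x 1 = 0 → (B : Matrix (Fin 4) (Fin 4) F) *ᵥ x ∈ D 1) := by
  classical
  have h := herm_of_unitary hf
  have hσc : ∀ a, (σ : F →+* F) a = σ a := fun _ => rfl
  set bas := Module.finBasisOfFinrankEq F (D 0) (hD.finrank_eq 0) with hbas
  obtain ⟨b0, hb0⟩ : ∃ b0 : Fin 4 → F, b0 = (bas 0 : Fin 4 → F) := ⟨_, rfl⟩
  obtain ⟨b1, hb1⟩ : ∃ b1 : Fin 4 → F, b1 = (bas 1 : Fin 4 → F) := ⟨_, rfl⟩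
  have hb0D : b0 ∈ D 0 := by rw [hb0]; exact (bas 0).2
  have hb1D : b1 ∈ D 0 := by rw [hb1]; exact (bas 1).2
  have hspan : ∀ u ∈ D 0, ∃ α β : F, u = α • b0 + β • b1 := by
    intro u hu
    have := bas.sum_repr ⟨u, hu⟩
    rw [Fin.sum_univ_two] at this
    refine ⟨bas.repr ⟨u, hu⟩ 0, bas.repr ⟨u, hu⟩ 1, ?_⟩
    have h2 := congrArg (Subtype.val) this
    simp only [Submodule.coe_add, Submodule.coe_smul] at h2
    rw [hb0, hb1, h2]
  have htop : D 0 ⊔ D 1 = ⊤ := by
    rw [eq_top_iff, ← hD.iSup_eq_top]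
    apply iSup_le
    intro i
    fin_cases i
    · exact le_sup_left
    · exact le_sup_right
  let φ : D 1 →ₗ[F] (Fin 2 → F) :=
    { toFun := fun w => ![f w b0, f w b1]
      map_add' := fun x y => by
        ext i
        fin_cases i <;> simp [h.add_left]
      map_smul' := fun c x => by
        ext i
        fin_cases i <;> simp [h.smul_left] }
  have hφinj : Function.Injective φ := by
    rw [← LinearMap.ker_eq_bot, LinearMap.ker_eq_bot']
    intro w hw
    have h0 : f w b0 = 0 := by simpa [φ] using congrFun hw 0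
    have h1 : f w b1 = 0 := by simpa [φ] using congrFun hw 1
    by_contra hne
    have hne' : (w : Fin 4 → F) ≠ 0 := fun h0 => hne (Subtype.ext h0)
    obtain ⟨x, hx⟩ := (hf.nondegenerate _ hne').2
    apply hx
    have hxtop : x ∈ D 0 ⊔ D 1 := by rw [htop]; trivial
    obtain ⟨u, hu, v, hv, rfl⟩ := Submodule.mem_sup.mp hxtop
    obtain ⟨α, β, rfl⟩ := hspan u hu
    rw [h.add_right, h.add_right, h.smul_right, h.smul_right, h0, h1, hs 1 w w.2 v hv]
    simp
  have hφsurj : Function.Surjective φ := by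
    apply (LinearMap.injective_iff_surjective_of_finrank_eq_finrank ?_).mp hφinj
    rw [hD.finrank_eq 1]
    simp
  obtain ⟨c0, hc0⟩ := hφsurj ![1, 0]
  obtain ⟨c1, hc1⟩ := hφsurj ![0, 1]
  have g00 : f c0 b0 = 1 := by simpa [φ] using congrFun hc0 0
  have g01 : f c0 b1 = 0 := by simpa [φ] using congrFun hc0 1
  have g10 : f c1 b0 = 0 := by simpa [φ] using congrFun hc1 0
  have g11 : f c1 b1 = 1 := by simpa [φ] using congrFun hc1 1
  have k00 : f b0 c0 = 1 := by rw [hf.herm, g00, map_one]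
  have k01 : f b1 c0 = 0 := by rw [hf.herm, g01, map_zero]
  have k10 : f b0 c1 = 0 := by rw [hf.herm, g10, map_zero]
  have k11 : f b1 c1 = 1 := by rw [hf.herm, g11, map_one]
  have z00 := hs 0 b0 hb0D b0 hb0D
  have z01 := hs 0 b0 hb0D b1 hb1D
  have z10 := hs 0 b1 hb1D b0 hb0D
  have z11 := hs 0 b1 hb1D b1 hb1D
  have y00 := hs 1 c0 c0.2 c0 c0.2
  have y01 := hs 1 c0 c0.2 c1 c1.2
  have y10 := hs 1 c1 c1.2 c0 c0.2
  have y11 := hs 1 c1 c1.2 c1 c1.2
  let M : Matrix (Fin 4) (Fin 4) F := Matrix.of fun i j => (![b0, b1, c0, c1] : Fin 4 → Fin 4 → F) j i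
  have hM : ∀ x : Fin 4 → F, M *ᵥ x = x 0 • b0 + x 1 • b1 + x 2 • (c0 : Fin 4 → F) + x 3 • (c1 : Fin 4 → F) := by
    intro x
    funext i
    simp [Matrix.mulVec, dotProduct, M, Fin.sum_univ_four]
    ring
  have hform : ∀ x y : Fin 4 → F, f (M *ᵥ x) (M *ᵥ y) = hyp σ x y := by
    intro x y
    rw [hM, hM]
    simp only [h.add_left, h.add_right, h.smul_left, h.smul_right, g00, g01, g10, g11, k00, k01, k10, k11,
      z00, z01, z10, z11, y00, y01, y10, y11, hσc, hyp]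
    ring
  have hinj : Function.Injective M.mulVec := by
    intro x y hxy
    have hxy' : M *ᵥ x = M *ᵥ y := hxy
    have e : ∀ z, hyp σ x z = hyp σ y z := by
      intro z
      rw [← hform, ← hform, hxy']
    have e0 := e ![0,0,1,0]
    have e1 := e ![0,0,0,1]
    have e2 := e ![1,0,0,0]
    have e3 := e ![0,1,0,0]
    simp [hyp] at e0 e1 e2 e3
    funext i
    fin_cases i
    · exact e0
    · exact e1
    · exact e2
    · exact e3
  obtain ⟨B, hB⟩ := Matrix.mulVec_injective_iff_isUnit.mp hinj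
  refine ⟨B, ?_, ?_, ?_, ?_, ?_⟩
  · intro x y
    rw [hB]
    exact hform x y
  · intro x hx
    rw [hB] at hx
    have e0 := hs 0 _ hx b0 hb0D
    have e1 := hs 0 _ hx b1 hb1D
    rw [hM] at e0 e1
    simp only [h.add_left, h.smul_left, g00, g01, g10, g11, z00, z01, z10, z11] at e0 e1
    constructor
    · simpa using e0
    · simpa using e1
  · intro x hx
    rw [hB] at hx
    have e0 := hs 1 _ hx c0 c0.2
    have e1 := hs 1 _ hx c1 c1.2
    rw [hM] at e0 e1
    simp only [h.add_left, h.smul_left, k00, k01, k10, k11, y00, y01, y10, y11] at e0 e1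
    constructor
    · simpa using e0
    · simpa using e1
  · intro x h2 h3
    rw [hB, hM, h2, h3]
    simp only [zero_smul, add_zero]
    exact (D 0).add_mem ((D 0).smul_mem _ hb0D) ((D 0).smul_mem _ hb1D)
  · intro x h0 h1
    rw [hB, hM, h0, h1]
    simp only [zero_smul, zero_add]
    exact (D 1).add_mem ((D 1).smul_mem _ c0.2) ((D 1).smul_mem _ c1.2)


lemma two_le_q' [Fintype F] {q : ℕ} (hq : Fintype.card F = q ^ 2) : 2 ≤ q := by
  have h1 : 1 < Fintype.card F := Fintype.one_lt_card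
  rw [hq] at h1
  by_contra hcon
  have : q = 0 ∨ q = 1 := by omega
  rcases this with rfl | rfl <;> simp at h1

/-- [PB] `q ≤ 3`: an irreducible subgroup of `SU_4(q)` stabilising a pair of totally singular planes is
contained in a subfield group of index two. -/
theorem pair_small [Fintype F] {q : ℕ}
    (hU : US σ f q) (hq : q ≤ 3) (D : Fin 2 → Submodule F (Fin 4 → F)) (hD : IsMDecomposition 2 D)
    (hs : ∀ i, IsTotallySingularFor f (D i)) {H : Subgroup (GL (Fin 4) F)}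
    (hH : H ≤ decompositionStabilizer D ⊓ (Iso f ⊓ specialLinear (Fin 4) F))
    (hirr : ActsIrreducibly (matrixSet H)) : SubfieldTwoAlt q f H := by
  have hf := hU.unitary
  have hσ := hf.involutive
  obtain ⟨B, hform, hD0, hD1, hD0', hD1'⟩ := exists_hyp hf D hD hs
  have hq2 := two_le_q' hU.card
  have hsq : ∀ d : F, σ d = d → d ≠ 0 → d * d = 1 := by
    intro d hd hd0
    rw [hU.pow] at hd
    have hq' : q = 2 ∨ q = 3 := by omega
    rcases hq' with rfl | rfl
    · have h1 : d * (d - 1) = 0 := by linear_combination hd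
      rcases mul_eq_zero.mp h1 with h2 | h2
      · exact absurd h2 hd0
      · rw [sub_eq_zero.mp h2, mul_one]
    · have h1 : d * (d * d - 1) = 0 := by linear_combination hd
      rcases mul_eq_zero.mp h1 with h2 | h2
      · exact absurd h2 hd0
      · exact sub_eq_zero.mp h2
  have hBB : ∀ v : Fin 4 → F, (B : Matrix (Fin 4) (Fin 4) F) *ᵥ
      (((B⁻¹ : GL (Fin 4) F) : Matrix (Fin 4) (Fin 4) F) *ᵥ v) = v := by
    intro v
    rw [Matrix.mulVec_mulVec, ← Units.val_mul, mul_inv_cancel, Units.val_one, Matrix.one_mulVec]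
  have hBB' : ∀ v : Fin 4 → F, ((B⁻¹ : GL (Fin 4) F) : Matrix (Fin 4) (Fin 4) F) *ᵥ
      ((B : Matrix (Fin 4) (Fin 4) F) *ᵥ v) = v := by
    intro v
    rw [Matrix.mulVec_mulVec, ← Units.val_mul, inv_mul_cancel, Units.val_one, Matrix.one_mulVec]
  apply descent_core hf hU.card hU.pow (by norm_num) (hH.trans (inf_le_right.trans inf_le_left)) hirr
    (fun v => (B : Matrix (Fin 4) (Fin 4) F) *ᵥ Jc σ (((B⁻¹ : GL (Fin 4) F) : Matrix (Fin 4) (Fin 4) F) *ᵥ v))
    (ε := -1)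
  · intro u v
    simp only [Matrix.mulVec_add, Jc_add]
  · intro c v
    simp only [Matrix.mulVec_smul, Jc_smul]
  · intro v
    simp only [hBB', Jc_Jc σ hσ, hBB]
  · exact Or.inr rfl
  · intro u v
    simp only [hform, hyp_Jc σ hσ]
    rw [← hform, hBB, hBB]
  · intro h hh
    obtain ⟨⟨π, hπ⟩, hiso, hSL⟩ := hH hh
    obtain ⟨m, hm⟩ : ∃ m : Matrix (Fin 4) (Fin 4) F, m = ((B⁻¹ * h * B : GL (Fin 4) F) : Matrix (Fin 4) (Fin 4) F) :=
      ⟨_, rfl⟩
    have hBm : ∀ x : Fin 4 → F, (B : Matrix (Fin 4) (Fin 4) F) *ᵥ (m *ᵥ x) =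
        (h : Matrix (Fin 4) (Fin 4) F) *ᵥ ((B : Matrix (Fin 4) (Fin 4) F) *ᵥ x) := by
      intro x
      rw [hm, Matrix.mulVec_mulVec, Matrix.mulVec_mulVec, ← Units.val_mul, ← Units.val_mul]
      congr 2
      group
    have hmB : ∀ v : Fin 4 → F, ((B⁻¹ : GL (Fin 4) F) : Matrix (Fin 4) (Fin 4) F) *ᵥ
        ((h : Matrix (Fin 4) (Fin 4) F) *ᵥ v) =
        m *ᵥ (((B⁻¹ : GL (Fin 4) F) : Matrix (Fin 4) (Fin 4) F) *ᵥ v) := by
      intro v
      rw [hm, Matrix.mulVec_mulVec, Matrix.mulVec_mulVec, ← Units.val_mul, ← Units.val_mul]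
      congr 2
      group
    have hmiso : ∀ x y, hyp σ (m *ᵥ x) (m *ᵥ y) = hyp σ x y := by
      intro x y
      rw [← hform, hBm, hBm, mem_Iso.1 hiso, hform]
    have hmdet : m.det = 1 := by
      rw [hm, Units.val_mul, Units.val_mul, Matrix.det_mul, Matrix.det_mul,
        mem_specialLinear_iff.mp hSL, mul_one, ← Matrix.det_mul, ← Units.val_mul, inv_mul_cancel,
        Units.val_one, Matrix.det_one]
    have hcol : ∀ i j, m i j = (m *ᵥ Pi.single j 1) i := by
      intro i j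
      simp
    have hmem : ∀ (k : Fin 2) (x : Fin 4 → F), (B : Matrix (Fin 4) (Fin 4) F) *ᵥ x ∈ D k →
        (B : Matrix (Fin 4) (Fin 4) F) *ᵥ (m *ᵥ x) ∈ D (π k) := by
      intro k x hx
      rw [hBm]
      exact Cfsg.Agent.Lib.Helper12AschPlanes.map_mem D hπ hx
    have hs0 : ∀ j : Fin 4, (j = 0 ∨ j = 1) →
        (B : Matrix (Fin 4) (Fin 4) F) *ᵥ (Pi.single j 1) ∈ D 0 := by
      intro j hj
      apply hD0'
      · rcases hj with rfl | rfl <;> simp
      · rcases hj with rfl | rfl <;> simp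
    have hs1 : ∀ j : Fin 4, (j = 2 ∨ j = 3) →
        (B : Matrix (Fin 4) (Fin 4) F) *ᵥ (Pi.single j 1) ∈ D 1 := by
      intro j hj
      apply hD1'
      · rcases hj with rfl | rfl <;> simp
      · rcases hj with rfl | rfl <;> simp
    have key : ∃ μ : F, ∀ x, Jc σ (m *ᵥ x) = μ • (m *ᵥ Jc σ x) := by
      have h0 : π 0 = 0 ∨ π 0 = 1 := by
        generalize π 0 = z
        fin_cases z <;> simp
      have h1 : π 1 = 0 ∨ π 1 = 1 := by
        generalize π 1 = z
        fin_cases z <;> simp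
      have hne : π 0 ≠ π 1 := fun h => by
        have := π.injective h
        simp at this
      rcases h0 with h0 | h0 <;> rcases h1 with h1 | h1
      · exact absurd (h0.trans h1.symm) hne
      · have a0 := hD0 _ (h0 ▸ hmem 0 _ (hs0 0 (Or.inl rfl)))
        have a1 := hD0 _ (h0 ▸ hmem 0 _ (hs0 1 (Or.inr rfl)))
        have a2 := hD1 _ (h1 ▸ hmem 1 _ (hs1 2 (Or.inl rfl)))
        have a3 := hD1 _ (h1 ▸ hmem 1 _ (hs1 3 (Or.inr rfl)))
        simp only [← hcol] at a0 a1 a2 a3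
        have hN : m = !![m 0 0, m 0 1, 0, 0; m 1 0, m 1 1, 0, 0; 0, 0, m 2 2, m 2 3; 0, 0, m 3 2, m 3 3] := by
          ext i j
          fin_cases i <;> fin_cases j <;> simp [a0.1, a0.2, a1.1, a1.2, a2.1, a2.2, a3.1, a3.2]
        rw [hN] at hmiso hmdet ⊢
        rw [det4_diag] at hmdet
        exact core_diag σ hσ hsq _ _ _ _ _ _ _ _ hmiso hmdet
      · have a0 := hD1 _ (h0 ▸ hmem 0 _ (hs0 0 (Or.inl rfl)))
        have a1 := hD1 _ (h0 ▸ hmem 0 _ (hs0 1 (Or.inr rfl)))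
        have a2 := hD0 _ (h1 ▸ hmem 1 _ (hs1 2 (Or.inl rfl)))
        have a3 := hD0 _ (h1 ▸ hmem 1 _ (hs1 3 (Or.inr rfl)))
        simp only [← hcol] at a0 a1 a2 a3
        have hN : m = !![0, 0, m 0 2, m 0 3; 0, 0, m 1 2, m 1 3; m 2 0, m 2 1, 0, 0; m 3 0, m 3 1, 0, 0] := by
          ext i j
          fin_cases i <;> fin_cases j <;> simp [a0.1, a0.2, a1.1, a1.2, a2.1, a2.2, a3.1, a3.2]
        rw [hN] at hmiso hmdet ⊢
        rw [det4_anti] at hmdet
        exact core_anti σ hσ hsq _ _ _ _ _ _ _ _ hmiso (by linear_combination hmdet)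
      · exact absurd (h0.trans h1.symm) hne
    obtain ⟨μ, hμ⟩ := key
    refine ⟨μ, fun v => ?_⟩
    rw [hmB, hμ, Matrix.mulVec_smul, hBm]

end Cfsg.Agent.Lib.Helper12U4Pair
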