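import Cfsg.Agent.Lib.Helper97UProper4
import Cfsg.Agent.Lib.Helper13UDefs

set_option autoImplicit false

/-! SU_4(q): properness of the subfield groups in dimension four. -/

namespace Cfsg.Agent.Lib.Helper12U4Sub

open Cfsg Cfsg.Geo Matrix Cfsg.Agent.Lib.Helper97AschBase Cfsg.Agent.Lib.Helper97AschForms
  Cfsg.Agent.Lib.Helper97AschTransv Cfsg.Agent.Lib.Helper95Herm Cfsg.Agent.Lib.Helper97UBase
  Cfsg.Agent.Lib.Helper97UProper Cfsg.Agent.Lib.Helper97UProper2 Cfsg.Agent.Lib.Helper97AschSubfield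
  Cfsg.Agent.Lib.Helper97UProper4 Cfsg.Agent.Lib.Helper13UDefs
open scoped MatrixGroups

variable {n : ℕ} {F : Type*} [Field F]
variable {σ : F ≃+* F} {f : (Fin n → F) → (Fin n → F) → F}

/-- (copy of `Helper97UProper4.not_le_subfieldSubgroup`, with the singular pair as a hypothesis) -/
lemma not_le_subfieldSubgroup_of_pair [Fintype F] (hf : IsUnitaryForm σ f) (hn : 3 ≤ n)
    (hpair : ∃ u₁ u₂ : Fin n → F, f u₁ u₁ = 0 ∧ f u₂ u₂ = 0 ∧ f u₁ u₂ = 0 ∧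
      ∀ α β : F, α • u₁ + β • u₂ = 0 → α = 0 ∧ β = 0) {F₁ : Subfield F}
    (hF₁ : F₁ ≠ ⊤) (C : GL (Fin n) F) :
    ¬ Iso f ⊓ specialLinear (Fin n) F ≤ subfieldSubgroup F₁ C := by
  intro hle
  have h := herm_of_unitary hf
  obtain ⟨τ, hτ, l, hl⟩ := exists_moved hF₁
  obtain ⟨a, ha0, ha⟩ := h.exists_z
  -- singular vectors are rational up to scalars
  have hrat : ∀ u : Fin n → F, u ≠ 0 → f u u = 0 → ∃ κ : F, κ ≠ 0 ∧
      ∀ i, τ (κ * (((C⁻¹ : GL (Fin n) F) : Matrix (Fin n) (Fin n) F) *ᵥ u) i) =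
        κ * (((C⁻¹ : GL (Fin n) F) : Matrix (Fin n) (Fin n) F) *ᵥ u) i := by
    intro u hu0 hu
    have h1 := tv_fixed (by omega) τ hτ C u (uφ f u a) _ (hle (utv_mem hf u a hu ha))
    have h2 : uφ f u a ᵥ* (C : Matrix (Fin n) (Fin n) F) ≠ 0 := by
      intro h0
      apply uφ_ne_zero hf hu0 ha0
      have := congrArg (fun w => w ᵥ* ((C⁻¹ : GL (Fin n) F) : Matrix (Fin n) (Fin n) F)) h0
      simpa [Matrix.vecMul_vecMul, iv] using this
    obtain ⟨j, hj⟩ := Function.ne_iff.mp h2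
    rw [Pi.zero_apply] at hj
    refine ⟨_, hj, fun i => ?_⟩
    rw [mul_comm]
    exact h1 i j
  obtain ⟨u₁, u₂, hu₁, hu₂, h12, hind⟩ := hpair
  have hu₁0 : u₁ ≠ 0 := by
    rintro rfl
    exact one_ne_zero (hind 1 0 (by simp)).1
  have hu₂0 : u₂ ≠ 0 := by
    rintro rfl
    exact one_ne_zero (hind 0 1 (by simp)).2
  obtain ⟨κ₁, hκ₁0, hκ₁⟩ := hrat u₁ hu₁0 hu₁
  obtain ⟨κ₂, hκ₂0, hκ₂⟩ := hrat u₂ hu₂0 hu₂
  have h21 := h.swap_zero h12
  -- the mixed vector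
  obtain ⟨w, hw⟩ : ∃ w, w = κ₁ • u₁ + (l * κ₂) • u₂ := ⟨_, rfl⟩
  have hww : f w w = 0 := by
    rw [hw]
    simp only [h.add_left, h.add_right, h.smul_left, h.smul_right, hu₁, hu₂, h12, h21]
    ring
  have hw0 : w ≠ 0 := by
    intro h0
    rw [hw] at h0
    exact hκ₁0 (hind _ _ h0).1
  obtain ⟨κ, hκ0, hκ⟩ := hrat w hw0 hww
  -- compare
  have key : (τ κ - κ) • (κ₁ • u₁) + (τ κ * τ l - κ * l) • (κ₂ • u₂) = 0 := by
    apply mulVec_injective C⁻¹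
    simp only [Matrix.mulVec_zero]
    ext i
    have e := hκ i
    rw [hw, Matrix.mulVec_add, Matrix.mulVec_smul, Matrix.mulVec_smul, Pi.add_apply, Pi.smul_apply,
      Pi.smul_apply, smul_eq_mul, smul_eq_mul] at e
    have e1 := hκ₁ i
    have e2 := hκ₂ i
    rw [Matrix.mulVec_add, Matrix.mulVec_smul, Matrix.mulVec_smul, Matrix.mulVec_smul,
      Matrix.mulVec_smul]
    simp only [Pi.add_apply, Pi.smul_apply, smul_eq_mul, Pi.zero_apply]
    rw [map_mul, map_add, mul_assoc l, map_mul τ l, e1, e2] at e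
    linear_combination e
  rw [smul_smul, smul_smul] at key
  obtain ⟨k1, k2⟩ := hind _ _ key
  have hτκ : τ κ = κ := by
    rcases mul_eq_zero.mp k1 with h5 | h5
    · exact sub_eq_zero.mp h5
    · exact absurd h5 hκ₁0
  have h6 : τ κ * τ l - κ * l = 0 := by
    rcases mul_eq_zero.mp k2 with h5 | h5
    · exact h5
    · exact absurd h5 hκ₂0
  rw [hτκ, ← mul_sub] at h6
  rcases mul_eq_zero.mp h6 with h7 | h7
  · exact hκ0 h7
  · exact hl (sub_eq_zero.mp h7)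


/-- two orthogonal independent singular vectors in dimension four -/
lemma exists_singular_pair4 [Finite F] {f : (Fin 4 → F) → (Fin 4 → F) → F} (hf : IsUnitaryForm σ f)
    {P : GL (Fin 4) F} (hP : IsON σ f P) :
    ∃ u₁ u₂ : Fin 4 → F, f u₁ u₁ = 0 ∧ f u₂ u₂ = 0 ∧ f u₁ u₂ = 0 ∧
      ∀ α β : F, α • u₁ + β • u₂ = 0 → α = 0 ∧ β = 0 := by
  have h := herm_of_unitary hf
  obtain ⟨a, ha⟩ := h.norm_surj (-1) (by simp)
  have ha' : a * σ a = -1 := ha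
  refine ⟨(P : Matrix (Fin 4) (Fin 4) F) *ᵥ ![1, a, 0, 0], (P : Matrix (Fin 4) (Fin 4) F) *ᵥ ![0, 0, 1, a],
    ?_, ?_, ?_, ?_⟩
  · rw [hP]
    simp [Fin.sum_univ_four, ha']
  · rw [hP]
    simp [Fin.sum_univ_four, ha']
  · rw [hP]
    simp [Fin.sum_univ_four]
  · intro α β hαβ
    rw [← Matrix.mulVec_smul, ← Matrix.mulVec_smul, ← Matrix.mulVec_add] at hαβ
    have h0 : α • ![1, a, 0, 0] + β • ![0, 0, 1, a] = 0 := by
      apply mulVec_injective P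
      show (P : Matrix (Fin 4) (Fin 4) F) *ᵥ _ = (P : Matrix (Fin 4) (Fin 4) F) *ᵥ 0
      rw [hαβ, Matrix.mulVec_zero]
    have e0 := congrFun h0 0
    have e2 := congrFun h0 2
    simp at e0 e2
    exact ⟨e0, e2⟩

/-- [P0] properness of the subfield groups in dimension four -/
theorem not_le_subfieldSubgroup4 [Fintype F] {f : (Fin 4 → F) → (Fin 4 → F) → F}
    (hf : IsUnitaryForm σ f) {P : GL (Fin 4) F} (hP : IsON σ f P) {F₁ : Subfield F}
    (hF₁ : F₁ ≠ ⊤) (C : GL (Fin 4) F) :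
    ¬ Iso f ⊓ specialLinear (Fin 4) F ≤ subfieldSubgroup F₁ C :=
  not_le_subfieldSubgroup_of_pair hf (by norm_num) (exists_singular_pair4 hf hP) hF₁ C

end Cfsg.Agent.Lib.Helper12U4Sub
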