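import Cfsg.Agent.Lib.Helper13UDefs

set_option autoImplicit false
set_option linter.unusedSectionVars false

/-! Piece `ptensor` of the ASCH-U project (and the coordinate description of unitary transvections used for
`pwreath`). -/

namespace Cfsg.Agent.Lib.Helper12UPtensor

open Cfsg Cfsg.Geo Matrix
open Cfsg.Agent.Lib.Helper97AschBase Cfsg.Agent.Lib.Helper97UBase
  Cfsg.Agent.Lib.Helper98AschDefs Cfsg.Agent.Lib.Helper98AschBasic Cfsg.Agent.Lib.Helper13UDefs
open scoped MatrixGroups Kronecker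

variable {n : ℕ} {F : Type*} [Field F] {σ : F ≃+* F} {f : (Fin n → F) → (Fin n → F) → F}

section coords

variable {κ : Type} [Fintype κ] [DecidableEq κ]

lemma on_apply (e : Fin n ≃ κ) {P : GL (Fin n) F} (hP : IsON σ f P) (x y : κ → F) :
    f ((P : Matrix (Fin n) (Fin n) F) *ᵥ (x ∘ e)) ((P : Matrix (Fin n) (Fin n) F) *ᵥ (y ∘ e)) =
      ∑ p, x p * σ (y p) := by
  rw [hP]
  exact Fintype.sum_equiv e _ _ (fun _ => rfl)

/-- a unitary transvection in orthonormal coordinates -/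
lemma utv_coords (hf : IsUnitaryForm σ f) (e : Fin n ≃ κ) {P : GL (Fin n) F} (hP : IsON σ f P)
    (xu : κ → F) (a : F)
    (hu : f ((P : Matrix (Fin n) (Fin n) F) *ᵥ (xu ∘ e)) ((P : Matrix (Fin n) (Fin n) F) *ᵥ (xu ∘ e)) = 0)
    (x : κ → F) :
    (utv hf ((P : Matrix (Fin n) (Fin n) F) *ᵥ (xu ∘ e)) a hu : Matrix (Fin n) (Fin n) F) *ᵥ
      ((P : Matrix (Fin n) (Fin n) F) *ᵥ (x ∘ e)) =
      (P : Matrix (Fin n) (Fin n) F) *ᵥ ((x + (a * ∑ p, x p * σ (xu p)) • xu) ∘ e) := by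
  rw [utv_mulVec, on_apply e hP]
  have : (x + (a * ∑ p, x p * σ (xu p)) • xu) ∘ e =
      x ∘ e + (a * ∑ p, x p * σ (xu p)) • (xu ∘ e) := by
    ext i
    simp
  rw [this, Matrix.mulVec_add, Matrix.mulVec_smul]

/-- action of `P (reindex M) P⁻¹` in coordinates -/
lemma conj_reindex_mulVec (e : Fin n ≃ κ) (P : GL (Fin n) F) (M : Matrix κ κ F) (x : κ → F) :
    ((P : Matrix (Fin n) (Fin n) F) * Matrix.reindex e.symm e.symm M *
      ((P⁻¹ : GL (Fin n) F) : Matrix (Fin n) (Fin n) F)) *ᵥ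
      ((P : Matrix (Fin n) (Fin n) F) *ᵥ (x ∘ e)) = (P : Matrix (Fin n) (Fin n) F) *ᵥ ((M *ᵥ x) ∘ e) := by
  rw [Matrix.mulVec_mulVec, mul_assoc, vi, mul_one, ← Matrix.mulVec_mulVec]
  congr 1
  ext i
  simp only [Matrix.reindex_apply, Equiv.symm_symm, Matrix.mulVec, dotProduct, Matrix.submatrix_apply,
    Function.comp_apply]
  exact Fintype.sum_equiv e _ _ (fun _ => rfl)

lemma coords_injective (e : Fin n ≃ κ) (P : GL (Fin n) F) {x y : κ → F}
    (h : (P : Matrix (Fin n) (Fin n) F) *ᵥ (x ∘ e) = (P : Matrix (Fin n) (Fin n) F) *ᵥ (y ∘ e)) :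
    x = y := by
  have h1 := mulVec_injective P h
  funext p
  have := congrFun h1 (e.symm p)
  simpa using this

/-- the singular vector `e_p + λ e_q` -/
lemma sum_pair {p q : κ} (hpq : p ≠ q) (l : F) (x : κ → F) :
    ∑ r, x r * σ ((Pi.single p 1 + l • Pi.single q 1 : κ → F) r) = x p + x q * σ l := by
  have : ∀ r, x r * σ ((Pi.single p 1 + l • Pi.single q 1 : κ → F) r) =
      (if r = p then x r else 0) + (if r = q then x r * σ l else 0) := by
    intro r
    by_cases h1 : r = p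
    · subst h1
      simp [hpq]
    · by_cases h2 : r = q
      · subst h2
        simp [h1]
      · simp [h1, h2]
  simp only [this, Finset.sum_add_distrib, Finset.sum_ite_eq', Finset.mem_univ, if_true]

end coords

/-- [ptensor] -/
theorem notSU_tensor [Fintype F] {q : ℕ} (hU : US σ f q) {d s : ℕ} (hd : 2 ≤ d) (hs : 2 ≤ s)
    (e : Fin n ≃ Fin d × Fin s) {P : GL (Fin n) F} (hP : IsON σ f P) :
    ¬ Iso f ⊓ specialLinear (Fin n) F ≤ tensorProductSubgroup d s e P := by
  intro hle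
  have hf := hU.unitary
  have hH := herm_of_unitary hf
  obtain ⟨z, hz0, hz⟩ := hH.exists_z
  obtain ⟨l, hl⟩ := hH.norm_surj (-1) (by simp)
  replace hl : l * σ l = -1 := hl
  replace hz : z + σ z = 0 := hz
  have hl0 : σ l ≠ 0 := by
    intro h
    rw [h, mul_zero] at hl
    exact one_ne_zero (neg_eq_zero.mp hl.symm)
  let d0 : Fin d := ⟨0, by omega⟩
  let d1 : Fin d := ⟨1, by omega⟩
  let s0 : Fin s := ⟨0, by omega⟩
  let s1 : Fin s := ⟨1, by omega⟩
  have hd01 : d0 ≠ d1 := by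
    intro h
    have := congrArg Fin.val h
    simp [d0, d1] at this
  have hs01 : s0 ≠ s1 := by
    intro h
    have := congrArg Fin.val h
    simp [s0, s1] at this
  have hpq : ((d0, s0) : Fin d × Fin s) ≠ (d1, s1) := fun h => hd01 (congrArg Prod.fst h)
  set xu : Fin d × Fin s → F := Pi.single (d0, s0) 1 + l • Pi.single (d1, s1) 1 with hxu
  have hu : f ((P : Matrix (Fin n) (Fin n) F) *ᵥ (xu ∘ e))
      ((P : Matrix (Fin n) (Fin n) F) *ᵥ (xu ∘ e)) = 0 := by
    rw [on_apply e hP, hxu, sum_pair hpq]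
    simp [hpq, hpq.symm, hl]
  obtain ⟨A, B, hAB⟩ := (mem_tensorProductSubgroup_iff e P _).mp
    (hle (utv_mem hf _ z hu hz))
  have key : ∀ x : Fin d × Fin s → F,
      ((A : Matrix (Fin d) (Fin d) F) ⊗ₖ (B : Matrix (Fin s) (Fin s) F)) *ᵥ x =
        x + (z * ∑ p, x p * σ (xu p)) • xu := by
    intro x
    apply coords_injective e P
    rw [← utv_coords hf e hP xu z hu x, hAB]
    unfold tens
    rw [conj_reindex_mulVec]
  have ent : ∀ p r : Fin d × Fin s,
      (A : Matrix (Fin d) (Fin d) F) p.1 r.1 * (B : Matrix (Fin s) (Fin s) F) p.2 r.2 =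
        (Pi.single r 1 + (z * ∑ p', (Pi.single r 1 : Fin d × Fin s → F) p' * σ (xu p')) • xu :
          Fin d × Fin s → F) p := by
    intro p r
    rw [← key (Pi.single r 1), Matrix.mulVec_single_one]
    rfl
  have h1 := ent (d0, s0) (d1, s1)
  have h2 := ent (d0, s0) (d0, s1)
  have h3 := ent (d0, s1) (d0, s1)
  rw [hxu, sum_pair hpq] at h1 h2 h3
  simp [hd01, hs01, hd01.symm] at h1 h2 h3
  rcases h2 with h2 | h2
  · rw [h2] at h3
    simp at h3
  · rw [h2] at h1
    simp at h1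
    rcases h1 with h1 | h1
    · exact hz0 h1
    · exact hl0 (by simpa using h1)

end Cfsg.Agent.Lib.Helper12UPtensor
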