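import Cfsg.Agent.Lib.Helper12UPtensor
import Cfsg.Agent.Lib.Helper12AschNotSLWreath

set_option autoImplicit false

/-! Piece `pwreath` of the ASCH-U project. -/

namespace Cfsg.Agent.Lib.Helper12UPwreath

open Cfsg Cfsg.Geo Matrix
open Cfsg.Agent.Lib.Helper97AschBase Cfsg.Agent.Lib.Helper97UBase
  Cfsg.Agent.Lib.Helper98AschDefs Cfsg.Agent.Lib.Helper98AschBasic Cfsg.Agent.Lib.Helper13UDefs
  Cfsg.Agent.Lib.Helper12UPtensor Cfsg.Agent.Lib.Helper12AschNotSLWreath
open scoped MatrixGroups Kronecker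

variable {n : ℕ} {F : Type*} [Field F] {σ : F ≃+* F} {f : (Fin n → F) → (Fin n → F) → F}

/-- a trace-zero element different from `0` and `-1` -/
lemma exists_a [Fintype F] {q : ℕ} (hU : US σ f q) (hq : 3 ≤ q) :
    ∃ a : F, a ≠ 0 ∧ 1 + a ≠ 0 ∧ a + σ a = 0 := by
  classical
  have hH := herm_of_unitary hU.unitary
  obtain ⟨z, hz0, hz⟩ := hH.exists_z
  replace hz : z + σ z = 0 := hz
  by_cases h1 : 1 + z = 0
  · have hz1 : z = -1 := eq_neg_of_add_eq_zero_right h1
    have h2 : (1 : F) + 1 = 0 := by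
      rw [hz1] at hz
      simp at hz
      linear_combination (-1 : F) * hz
    obtain ⟨g, hg⟩ := IsCyclic.exists_generator (α := Fˣ)
    have hord : orderOf g = Fintype.card Fˣ := by
      rw [orderOf_eq_card_of_forall_mem_zpowers hg, Nat.card_eq_fintype_card]
    rw [Fintype.card_units, hU.card] at hord
    have hne : g ^ (q + 1) ≠ 1 := by
      intro h
      have h3 := orderOf_dvd_of_pow_eq_one h
      rw [hord] at h3
      have h4 := Nat.le_of_dvd (by omega) h3
      have h5 : q * 3 ≤ q ^ 2 := by nlinarith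
      omega
    refine ⟨(g : F) ^ (q + 1), pow_ne_zero _ g.ne_zero, ?_, ?_⟩
    · intro h
      apply hne
      apply Units.ext
      rw [Units.val_pow_eq_pow_val, Units.val_one]
      linear_combination h - h2
    · rw [hU.pow, ← pow_mul]
      have h6 : (g : F) ^ ((q + 1) * q) = (g : F) ^ (q + 1) := by
        have h7 : (g : F) ^ (q ^ 2) = g := by
          rw [← hU.card]
          exact FiniteField.pow_card _
        calc (g : F) ^ ((q + 1) * q) = (g : F) ^ (q ^ 2) * (g : F) ^ q := by
              rw [← pow_add]; congr 1; ring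
          _ = (g : F) ^ (q + 1) := by rw [h7]; ring
      rw [h6]
      linear_combination ((g : F) ^ (q + 1)) * h2
  · exact ⟨z, hz0, h1, hz⟩

/-- `α e_(0..0) + β e_(1..1)` is not a pure vector -/
lemma not_pure' {k m : ℕ} (hm : 2 ≤ m) (hk : 2 ≤ k) {α β : F} (hα : α ≠ 0) (hβ : β ≠ 0) :
    ¬ Pure (fun x : Fin k → Fin m =>
      (if x = (fun _ => ⟨0, by omega⟩) then α else 0) +
        (if x = (fun _ => ⟨1, by omega⟩) then β else 0)) := by
  rintro ⟨x, hx⟩
  set z : Fin m := ⟨0, by omega⟩ with hz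
  set o : Fin m := ⟨1, by omega⟩ with ho
  have hzo : z ≠ o := by
    intro h
    simpa [hz, ho] using congrArg Fin.val h
  let i0 : Fin k := ⟨0, by omega⟩
  let i1 : Fin k := ⟨1, by omega⟩
  have hi : i0 ≠ i1 := by
    intro h
    simpa [i0, i1] using congrArg Fin.val h
  have h0 := hx (fun _ => z)
  have h1 := hx (fun _ => o)
  have hb := hx (Function.update (fun _ => z) i0 o)
  have e1 : ((fun _ => z) : Fin k → Fin m) ≠ fun _ => o := fun h => hzo (congrFun h i0)
  have e2 : Function.update (fun _ => z) i0 o ≠ ((fun _ => z) : Fin k → Fin m) := by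
    intro h
    have := congrFun h i0
    simp at this
    exact hzo this.symm
  have e3 : Function.update (fun _ => z) i0 o ≠ ((fun _ => o) : Fin k → Fin m) := by
    intro h
    have := congrFun h i1
    rw [Function.update_of_ne hi.symm] at this
    exact hzo this
  simp only [if_true, if_neg e1, if_neg e1.symm, if_neg e2, if_neg e3, add_zero, zero_add] at h0 h1 hb
  have key : (∏ i, x i (Function.update (fun _ => z) i0 o i)) *
      (∏ i, x i (Function.update (fun _ => o) i0 z i)) = (∏ i, x i z) * (∏ i, x i o) := by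
    rw [← Finset.prod_mul_distrib, ← Finset.prod_mul_distrib]
    refine Finset.prod_congr rfl fun i _ => ?_
    by_cases h : i = i0
    · subst h
      simp [mul_comm]
    · simp [Function.update_of_ne h]
  rw [← hb, ← h0, ← h1, zero_mul] at key
  exact mul_ne_zero hα hβ key.symm

/-- [pwreath] -/
theorem notSU_wreath [Fintype F] {q : ℕ} (hU : US σ f q) (hq : 3 ≤ q) {m k : ℕ} (hm : 2 ≤ m)
    (hk : 2 ≤ k) (e : Fin n ≃ (Fin k → Fin m)) {P : GL (Fin n) F} (hP : IsON σ f P) :
    ¬ Iso f ⊓ specialLinear (Fin n) F ≤ tensorWreathSubgroup m k e P := by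
  classical
  intro hle
  have hf := hU.unitary
  have hH := herm_of_unitary hf
  obtain ⟨a, ha0, ha1, ha⟩ := exists_a hU hq
  obtain ⟨l, hl⟩ := hH.norm_surj (-1) (by simp)
  replace hl : l * σ l = -1 := hl
  have hl0 : l ≠ 0 := by
    intro h
    rw [h, zero_mul] at hl
    exact one_ne_zero (neg_eq_zero.mp hl.symm)
  set a0 : Fin k → Fin m := fun _ => ⟨0, by omega⟩ with ha0'
  set a1 : Fin k → Fin m := fun _ => ⟨1, by omega⟩ with ha1'
  have h01 : a0 ≠ a1 := by
    intro h
    have := congrFun h ⟨0, by omega⟩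
    simp [ha0', ha1'] at this
  set xu : (Fin k → Fin m) → F := Pi.single a0 1 + l • Pi.single a1 1 with hxu
  have hu : f ((P : Matrix (Fin n) (Fin n) F) *ᵥ (xu ∘ e))
      ((P : Matrix (Fin n) (Fin n) F) *ᵥ (xu ∘ e)) = 0 := by
    rw [on_apply e hP, hxu, sum_pair h01]
    simp [h01, h01.symm, hl]
  set t := utv hf ((P : Matrix (Fin n) (Fin n) F) *ᵥ (xu ∘ e)) a hu with ht
  have hmem := hle (utv_mem hf _ a hu ha)
  rw [mem_tensorWreathSubgroup_iff] at hmem
  have h3 := (pure_iff_of_mem hmem (Pi.single a0 1)).mp (by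
    refine ⟨fun _ => Pi.single ⟨0, by omega⟩ 1, fun b => ?_⟩
    simp only [Pi.single_apply, Finset.prod_ite_zero, Finset.prod_const_one]
    simp [funext_iff, ha0'])
  apply not_pure' (F := F) hm hk ha1 (mul_ne_zero ha0 hl0)
  convert h3 using 1
  -- the image of the basis vector
  have hact : ((glReindex e (P⁻¹ * t * P) : GL (Fin k → Fin m) F) :
      Matrix (Fin k → Fin m) (Fin k → Fin m) F) *ᵥ (Pi.single a0 1) =
      Pi.single a0 1 + (a * ∑ p, (Pi.single a0 1 : (Fin k → Fin m) → F) p * σ (xu p)) • xu := by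
    apply coords_injective e P
    rw [← utv_coords hf e hP xu a hu (Pi.single a0 1), ← ht]
    have h4 : ((glReindex e (P⁻¹ * t * P) : GL (Fin k → Fin m) F) :
      Matrix (Fin k → Fin m) (Fin k → Fin m) F) =
        Matrix.reindex e e ((P⁻¹ * t * P : GL (Fin n) F) : Matrix (Fin n) (Fin n) F) := rfl
    have h5 : ∀ (M : Matrix (Fin n) (Fin n) F) (x : (Fin k → Fin m) → F),
        ((Matrix.reindex e e M) *ᵥ x) ∘ e = M *ᵥ (x ∘ e) := by
      intro M x
      ext i
      simp only [Matrix.reindex_apply, Matrix.mulVec, dotProduct, Matrix.submatrix_apply,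
        Function.comp_apply, Equiv.symm_apply_apply]
      exact (Fintype.sum_equiv e _ _ (fun j => by simp)).symm
    rw [h4, h5, Units.val_mul, Units.val_mul, Matrix.mulVec_mulVec, ← mul_assoc, ← mul_assoc, iv,
      one_mul, ← Matrix.mulVec_mulVec]
  rw [hact, hxu, sum_pair h01]
  funext x
  simp only [Pi.add_apply, Pi.smul_apply, Pi.single_apply, smul_eq_mul, if_true, if_neg h01.symm,
    zero_mul, add_zero, mul_one]
  show ((if x = a0 then 1 + a else 0) + if x = a1 then a * l else 0) = _
  by_cases hx0 : x = a0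
  · have hx1 : x ≠ a1 := fun h => h01 (hx0.symm.trans h)
    simp only [if_pos hx0, if_neg hx1]
    ring
  · by_cases hx1 : x = a1
    · simp only [if_neg hx0, if_pos hx1]
      ring
    · simp only [if_neg hx0, if_neg hx1]
      ring

end Cfsg.Agent.Lib.Helper12UPwreath
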