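import Cfsg.Agent.Lib.Helper13Tensor2
import Cfsg.Agent.Lib.Helper98AschDefs

set_option autoImplicit false

namespace Cfsg.Agent.Lib.Helper13AschWcoord

open Cfsg Cfsg.Geo Matrix Cfsg.Agent.Lib.Helper13Tensor Cfsg.Agent.Lib.Helper13Tensor2
  Cfsg.Agent.Lib.Helper98AschDefs
open scoped MatrixGroups

variable {n : ℕ} {F : Type*} [Field F]

/-- a system of matrix units with trivial centraliser acts irreducibly -/
lemma irr_of_centralizer {X : Type} [Fintype X] [DecidableEq X]
    (E : X → X → Matrix (Fin n) (Fin n) F)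
    (hmul : ∀ x y y' z, E x y * E y' z = if y = y' then E x z else 0)
    (hone : ∑ x, E x x = 1)
    (hcen : ∀ M : Matrix (Fin n) (Fin n) F, (∀ x y, M * E x y = E x y * M) →
      ∃ c : F, M = c • (1 : Matrix (Fin n) (Fin n) F))
    (W : Submodule F (Fin n → F)) (hW : ∀ x y, ∀ w ∈ W, E x y *ᵥ w ∈ W) : W = ⊥ ∨ W = ⊤ := by
  by_cases hbot : W = ⊥
  · exact Or.inl hbot
  right
  obtain ⟨w, hwW, hw0⟩ := (Submodule.ne_bot_iff W).mp hbot
  -- some `E x0 x0 w ≠ 0`
  obtain ⟨x0, hx0⟩ : ∃ x0, E x0 x0 *ᵥ w ≠ 0 := by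
    by_contra hcon
    push Not at hcon
    apply hw0
    have : (∑ x, E x x) *ᵥ w = 0 := by
      rw [Matrix.sum_mulVec]
      exact Finset.sum_eq_zero fun x _ => hcon x
    rwa [hone, Matrix.one_mulVec] at this
  set v0 := E x0 x0 *ᵥ w with hv0
  have hv0W : v0 ∈ W := hW _ _ _ hwW
  have hv0fix : ∀ x, E x0 x *ᵥ v0 = if x = x0 then v0 else 0 := by
    intro x
    rw [hv0, Matrix.mulVec_mulVec, hmul]
    split_ifs
    · rfl
    · rw [Matrix.zero_mulVec]
  obtain ⟨r, hr⟩ : ∃ r, v0 r ≠ 0 := by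
    by_contra hcon
    push Not at hcon
    exact hx0 (funext hcon)
  let p : Matrix (Fin n) (Fin n) F := Matrix.of fun i j => v0 i * (if j = r then (v0 r)⁻¹ else 0)
  have hp : ∀ v, p *ᵥ v = (v r * (v0 r)⁻¹) • v0 := by
    intro v
    funext i
    simp only [p, Matrix.mulVec, dotProduct, Matrix.of_apply, Pi.smul_apply, smul_eq_mul]
    simp only [mul_ite, mul_zero, ite_mul, zero_mul, Finset.sum_ite_eq', Finset.mem_univ, if_true]
    ring
  let Pj : Matrix (Fin n) (Fin n) F := ∑ x, E x x0 * p * E x0 x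
  have hcomm : ∀ y z, Pj * E y z = E y z * Pj := by
    intro y z
    simp only [Pj, Finset.sum_mul, Finset.mul_sum]
    have h1 : ∀ x, E x x0 * p * E x0 x * E y z = if x = y then E y x0 * p * E x0 z else 0 := by
      intro x
      rw [mul_assoc, hmul]
      split_ifs with h
      · rw [h]
      · rw [mul_zero]
    have h2 : ∀ x, E y z * (E x x0 * p * E x0 x) = if x = z then E y x0 * p * E x0 z else 0 := by
      intro x
      rw [← mul_assoc, ← mul_assoc, hmul]
      split_ifs with h h' h'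
      · rw [h]
      · exact absurd h.symm h'
      · exact absurd h'.symm h
      · rw [zero_mul, zero_mul]
    simp only [h1, h2, Finset.sum_ite_eq', Finset.mem_univ, if_true]
  obtain ⟨c, hc⟩ := hcen Pj hcomm
  have hPjv0 : Pj *ᵥ v0 = v0 := by
    simp only [Pj, Matrix.sum_mulVec, ← Matrix.mulVec_mulVec, hv0fix]
    simp only [apply_ite (fun v => p *ᵥ v), Matrix.mulVec_zero]
    have : ∀ x, E x x0 *ᵥ (if x = x0 then p *ᵥ v0 else 0) = if x = x0 then v0 else 0 := by
      intro x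
      split_ifs with h
      · subst h
        rw [hp, mul_inv_cancel₀ hr, one_smul]
        have := hv0fix x
        rwa [if_pos rfl] at this
      · rw [Matrix.mulVec_zero]
    simp only [this, Finset.sum_ite_eq', Finset.mem_univ, if_true]
  have hc1 : c = 1 := by
    rw [hc, Matrix.smul_mulVec, Matrix.one_mulVec] at hPjv0
    have h1 := congrFun hPjv0 r
    rw [Pi.smul_apply, smul_eq_mul] at h1
    exact mul_right_cancel₀ hr (by rw [h1, one_mul])
  rw [eq_top_iff]
  intro v _
  have : v = Pj *ᵥ v := by rw [hc, hc1, one_smul, Matrix.one_mulVec]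
  rw [this]
  simp only [Pj, Matrix.sum_mulVec, ← Matrix.mulVec_mulVec, hp, Matrix.mulVec_smul]
  exact Submodule.sum_mem _ fun x _ => Submodule.smul_mem _ _ (hW _ _ _ hv0W)

lemma factor_eq_L {k m : ℕ} (i : Fin k) (a : Matrix (Fin m) (Fin m) F) : factor i a = L i a := by
  ext x y
  rw [Helper13Tensor.L_apply]
  rfl

/-- [wcoord] coordinatisation of a commuting family of full matrix algebras with trivial common
centraliser. -/
theorem wreath_coord [NeZero n] {k m : ℕ} (hm : 2 ≤ m) (hk : 1 ≤ k)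
    (φ : Fin k → (Matrix (Fin m) (Fin m) F →ₐ[F] Matrix (Fin n) (Fin n) F))
    (hcomm : ∀ i j, i ≠ j → ∀ a b, φ i a * φ j b = φ j b * φ i a)
    (hcen : ∀ M : Matrix (Fin n) (Fin n) F, (∀ i a, M * φ i a = φ i a * M) →
      ∃ c : F, M = c • (1 : Matrix (Fin n) (Fin n) F)) :
    ∃ (e : Fin n ≃ (Fin k → Fin m)) (P : GL (Fin n) F), ∀ i a,
      φ i a = (P : Matrix (Fin n) (Fin n) F) * Matrix.reindex e.symm e.symm (factor i a) *
        ((P⁻¹ : GL (Fin n) F) : Matrix (Fin n) (Fin n) F) := by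
  have hc : Pairwise fun i j => ∀ a b, Commute (φ i a) (φ j b) := fun i j hij a b => hcomm i j hij a b
  obtain ⟨e, B, h⟩ := exists_basis_of_units (EE φ hc) (EE_mul φ hc) (sum_EE φ hc) (Nat.pos_of_ne_zero (NeZero.ne n))
    (irr_of_centralizer (EE φ hc) (EE_mul φ hc) (sum_EE φ hc) (by
      intro M hM
      apply hcen M
      intro i a
      rw [← Phi_mulSingle φ hc, Phi_eq_sum]
      simp only [Finset.mul_sum, Finset.sum_mul, mul_smul_comm, smul_mul_assoc, hM]))
  refine ⟨e, B, fun i a => ?_⟩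
  rw [← Phi_mulSingle φ hc, Phi_eq_sum, h, factor_eq_L]
  rfl

end Cfsg.Agent.Lib.Helper13AschWcoord
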