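import Cfsg.Agent.Lib.Helper13U3C6

set_option autoImplicit false

/-! Row S5998: the normal form of a non-abelian group of order 27 and exponent 3 in `GL_3(F)`
(matrix level). -/

namespace Cfsg.Agent.Lib.Helper13E27a

open Cfsg Cfsg.Geo Matrix Cfsg.Agent.Lib.Helper13U3C6a Cfsg.Agent.Lib.Helper13U3C6d
  Cfsg.Agent.Lib.Helper13U3C6
open scoped MatrixGroups

variable {F : Type*} [Field F]

local notation "M3" => Matrix (Fin 3) (Fin 3) F

/-- eigenvectors for distinct eigenvalues give an invertible matrix -/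
lemma isUnit_of_eig (x : M3) (μ : Fin 3 → F) (hμ : Function.Injective μ) (v : Fin 3 → (Fin 3 → F))
    (hv0 : ∀ l, v l ≠ 0) (hv : ∀ l, x *ᵥ v l = μ l • v l) :
    IsUnit (Matrix.of fun k l => v l k : M3) := by
  rw [← Matrix.linearIndependent_cols_iff_isUnit]
  have h1 := Module.End.eigenvectors_linearIndependent' (Matrix.toLin' x) μ hμ v (fun l => by
    rw [Module.End.hasEigenvector_iff, Module.End.mem_eigenspace_iff]
    exact ⟨by rw [Matrix.toLin'_apply]; exact hv l, hv0 l⟩)
  exact h1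

lemma wv_injective {ω : F} (h3 : (3 : F) ≠ 0) (hω : ω ^ 2 + ω + 1 = 0) : Function.Injective (wv ω) := by
  have h1 := omega_ne_one h3 hω
  have h2 := omega_sq_ne_one h3 hω
  have h0 : ω ≠ 0 := by
    rintro rfl
    simp at hω
  intro j l hjl
  fin_cases j <;> fin_cases l <;> simp only [wv] at hjl <;> first | rfl | exfalso
  · exact h1 (by simpa using hjl.symm)
  · exact h2 (by simpa using hjl.symm)
  · exact h1 (by simpa using hjl)
  · apply h1
    have : ω * (ω - 1) = 0 := by
      have e : ω = ω * ω := by simpa using hjl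
      linear_combination -e
    rcases mul_eq_zero.1 this with h | h
    · exact absurd h h0
    · exact sub_eq_zero.1 h
  · exact h2 (by simpa using hjl)
  · apply h1
    have : ω * (ω - 1) = 0 := by
      have e : ω * ω = ω := by simpa using hjl
      linear_combination e
    rcases mul_eq_zero.1 this with h | h
    · exact absurd h h0
    · exact sub_eq_zero.1 h

/-- the normal form when the commutator is the scalar `ω` -/
theorem normal_form_scalar {ω : F} (h3 : (3 : F) ≠ 0) (hω : ω ^ 2 + ω + 1 = 0) (x y : M3)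
    (hx3 : x * x * x = 1) (hy3 : y * y * y = 1) (hxy : x * y = ω • (y * x)) :
    ∃ M : M3, IsUnit M ∧ x * M = M * rho ω (0, 1, 0) ∧ y * M = M * rho ω (0, 0, 1) := by
  obtain ⟨v, hv0, hv⟩ := exists_fixed h3 hω x y hx3 hy3 hxy
  refine ⟨MM y v, ?_, x_MM x y hxy v hv, y_MM ω y hy3 v⟩
  apply isUnit_of_eig x (wv ω) (wv_injective h3 hω) (vv y v) _ (vv_eig x y hxy v hv)
  have hcancel : ∀ u : Fin 3 → F, y *ᵥ u = 0 → u = 0 := by
    intro u hu
    have : (y * y * y) *ᵥ u = u := by rw [hy3, Matrix.one_mulVec]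
    rw [← this, ← Matrix.mulVec_mulVec, hu, Matrix.mulVec_zero]
  intro l
  fin_cases l
  · exact hv0
  · exact fun h => hv0 (hcancel _ h)
  · exact fun h => hv0 (hcancel _ (hcancel _ h))

/-- a commutator commuting with both entries is a scalar -/
theorem comm_scalar {ω : F} (h3 : (3 : F) ≠ 0) (hω : ω ^ 2 + ω + 1 = 0) (x y c : M3)
    (hx3 : x * x * x = 1) (hy3 : y * y * y = 1) (hc3 : c * c * c = 1) (hcx : c * x = x * c)
    (hcy : c * y = y * c) (hxy : x * y = c * (y * x)) (hc1 : c ≠ 1) :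
    ∃ l : F, l ^ 2 + l + 1 = 0 ∧ c = l • (1 : M3) := by
  have hw3 := omega_cube hω
  -- Step 1
  have hex : ∃ l : F, l ^ 2 + l + 1 = 0 ∧ (1 + (l * l) • c + l • (c * c) : M3) ≠ 0 := by
    by_cases h1 : (1 + (ω * ω) • c + ω • (c * c) : M3) = 0
    · by_cases h2 : (1 + ((ω * ω) * (ω * ω)) • c + (ω * ω) • (c * c) : M3) = 0
      · exfalso
        have e4 : (ω * ω) * (ω * ω) = ω := by linear_combination ω * hw3
        rw [e4] at h2
        have e : (ω * ω - ω) • (c - c * c) = 0 := by
          have : (ω * ω - ω) • (c - c * c)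
              = (1 + (ω * ω) • c + ω • (c * c)) - (1 + ω • c + (ω * ω) • (c * c)) := by module
          rw [this, h1, h2, sub_zero]
        have hne : ω * ω - ω ≠ 0 := by
          intro h
          have h0 : ω ≠ 0 := by
            rintro rfl
            simp at hω
          have : ω * (ω - 1) = 0 := by linear_combination h
          rcases mul_eq_zero.1 this with h | h
          · exact h0 h
          · exact omega_ne_one h3 hω (sub_eq_zero.1 h)
        have hcc : c = c * c := by
          rcases smul_eq_zero.1 e with h | h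
          · exact absurd h hne
          · exact sub_eq_zero.1 h
        apply hc1
        have h5 : c * c = 1 := by
          calc c * c = c * c * c := by rw [mul_assoc, ← hcc]; exact hcc
          _ = 1 := hc3
        rw [hcc, h5]
      · exact ⟨ω * ω, by linear_combination (ω ^ 2 - ω + 1) * hω, h2⟩
    · exact ⟨ω, hω, h1⟩
  obtain ⟨l, hl, hE0⟩ := hex
  have hl3 := omega_cube hl
  refine ⟨l, hl, ?_⟩
  obtain ⟨E, hEdef⟩ : ∃ E : M3, E = 1 + (l * l) • c + l • (c * c) := ⟨_, rfl⟩
  rw [← hEdef] at hE0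
  have hcE : c * E = l • E := by
    rw [hEdef, mul_add, mul_add, mul_one, mul_smul_comm, mul_smul_comm, ← mul_assoc, hc3, smul_add,
      smul_add, smul_smul, smul_smul]
    have e1 : l * (l * l) = 1 := by linear_combination hl3
    rw [e1, one_smul]
    abel
  have hccx : c * c * x = x * (c * c) := by
    rw [mul_assoc, hcx, ← mul_assoc, hcx, mul_assoc]
  have hccy : c * c * y = y * (c * c) := by
    rw [mul_assoc, hcy, ← mul_assoc, hcy, mul_assoc]
  have hEx : E * x = x * E := by
    rw [hEdef, add_mul, add_mul, one_mul, smul_mul_assoc, smul_mul_assoc, hcx, hccx, mul_add, mul_add,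
      mul_one, mul_smul_comm, mul_smul_comm]
  have hEy : E * y = y * E := by
    rw [hEdef, add_mul, add_mul, one_mul, smul_mul_assoc, smul_mul_assoc, hcy, hccy, mul_add, mul_add,
      mul_one, mul_smul_comm, mul_smul_comm]
  have hxE : x * E * y = l • (y * (x * E)) := by
    calc x * E * y = (x * y) * E := by rw [mul_assoc, hEy, ← mul_assoc]
      _ = y * x * (c * E) := by
          rw [hxy, ← mul_assoc, hcy, mul_assoc y c x, hcx, ← mul_assoc, mul_assoc]
      _ = l • (y * (x * E)) := by rw [hcE, mul_smul_comm, mul_assoc]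
  have hxxE : x * x * E * y = (l * l) • (y * (x * x * E)) := by
    calc x * x * E * y = x * (x * E * y) := by simp only [mul_assoc]
      _ = l • ((x * y) * (x * E)) := by rw [hxE, mul_smul_comm, ← mul_assoc]
      _ = l • (y * x * (x * (c * E))) := by
          congr 1
          rw [hxy, ← mul_assoc c y x, hcy, mul_assoc y c x, hcx]
          simp only [mul_assoc]
          rw [← mul_assoc c x E, hcx, mul_assoc]
      _ = (l * l) • (y * (x * x * E)) := by
          rw [hcE, mul_smul_comm, mul_smul_comm, smul_smul]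
          simp only [mul_assoc]
  have hP : ∀ a : F, (E + a • (x * E) + (a * a) • (x * x * E)) * y =
      y * (E + (a * l) • (x * E) + ((a * l) * (a * l)) • (x * x * E)) := by
    intro a
    rw [add_mul, add_mul, smul_mul_assoc, smul_mul_assoc, hxE, hxxE, hEy, mul_add, mul_add,
      mul_smul_comm, mul_smul_comm, smul_smul, smul_smul]
    congr 2
    ring
  have hcancel : ∀ A : M3, y * A = 0 → A = 0 := by
    intro A hA
    have : y * y * (y * A) = A := by rw [← mul_assoc, hy3, one_mul]
    rw [← this, hA, mul_zero]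
  have hP1 : (E + (1 : F) • (x * E) + ((1 : F) * 1) • (x * x * E)) ≠ 0 := by
    intro h1
    have h2 := hcancel _ (by rw [← hP, h1, zero_mul])
    have h4 := hcancel _ (by rw [← hP, h2, zero_mul])
    have h5 : (3 : F) • E = 0 := by
      have e : (3 : F) • E = (E + (1 : F) • (x * E) + ((1 : F) * 1) • (x * x * E)) +
          (E + ((1 : F) * l) • (x * E) + (((1 : F) * l) * ((1 : F) * l)) • (x * x * E)) +
          (E + ((1 : F) * l * l) • (x * E) + (((1 : F) * l * l) * ((1 : F) * l * l)) • (x * x * E)) -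
          (l ^ 2 + l + 1) • (x * E) - ((l ^ 2 + l + 1) + l * (l * l * l - 1)) • (x * x * E) := by
        module
      rw [e, h1, h2, h4, hl, hl3]
      simp
    rcases smul_eq_zero.1 h5 with h | h
    · exact h3 h
    · exact hE0 h
  obtain ⟨Q, hQdef⟩ : ∃ Q : M3, Q = E + (1 : F) • (x * E) + ((1 : F) * 1) • (x * x * E) := ⟨_, rfl⟩
  rw [← hQdef] at hP1
  have hxQ : x * Q = Q := by
    rw [hQdef, mul_add, mul_add, mul_smul_comm, mul_smul_comm, ← mul_assoc x (x * x) E, ← mul_assoc x x x,
      hx3, ← mul_assoc x x E]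
    simp only [one_smul, mul_one, one_mul]
    abel
  have hcQ : c * Q = l • Q := by
    have e1 : c * (x * E) = l • (x * E) := by
      rw [← mul_assoc, hcx, mul_assoc, hcE, mul_smul_comm]
    have e2 : c * (x * x * E) = l • (x * x * E) := by
      rw [← mul_assoc, ← mul_assoc, hcx, mul_assoc x c x, hcx, ← mul_assoc, mul_assoc, hcE, mul_smul_comm]
    rw [hQdef, mul_add, mul_add, mul_smul_comm, mul_smul_comm, hcE, e1, e2]
    module
  have hexw : ∃ w : Fin 3 → F, Q *ᵥ w ≠ 0 := by
    by_contra hcon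
    push Not at hcon
    apply hP1
    ext i j
    have := congrFun (hcon (Pi.single j 1)) i
    simpa using this
  obtain ⟨w, hw⟩ := hexw
  obtain ⟨v, hvdef⟩ : ∃ v : Fin 3 → F, v = Q *ᵥ w := ⟨_, rfl⟩
  rw [← hvdef] at hw
  have hxv : x *ᵥ v = v := by rw [hvdef, Matrix.mulVec_mulVec, hxQ]
  have hcv : c *ᵥ v = l • v := by rw [hvdef, Matrix.mulVec_mulVec, hcQ, Matrix.smul_mulVec]
  have hxy' : ∀ u, x *ᵥ (y *ᵥ u) = c *ᵥ (y *ᵥ (x *ᵥ u)) := by
    intro u
    rw [Matrix.mulVec_mulVec, hxy, Matrix.mulVec_mulVec, Matrix.mulVec_mulVec, ← mul_assoc]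
  have hcy' : ∀ u, c *ᵥ (y *ᵥ u) = y *ᵥ (c *ᵥ u) := by
    intro u
    rw [Matrix.mulVec_mulVec, hcy, Matrix.mulVec_mulVec]
  have hceig : ∀ k, c *ᵥ vv y v k = l • vv y v k := by
    intro k
    fin_cases k
    · exact hcv
    · show c *ᵥ (y *ᵥ v) = l • (y *ᵥ v)
      rw [hcy', hcv, Matrix.mulVec_smul]
    · show c *ᵥ (y *ᵥ (y *ᵥ v)) = l • (y *ᵥ (y *ᵥ v))
      rw [hcy', hcy', hcv, Matrix.mulVec_smul, Matrix.mulVec_smul]
  have hxeig : ∀ k, x *ᵥ vv y v k = wv l k • vv y v k := by
    intro k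
    fin_cases k
    · show x *ᵥ v = (1 : F) • v
      rw [hxv, one_smul]
    · show x *ᵥ (y *ᵥ v) = l • (y *ᵥ v)
      rw [hxy', hxv]
      exact hceig 1
    · show x *ᵥ (y *ᵥ (y *ᵥ v)) = (l * l) • (y *ᵥ (y *ᵥ v))
      have e1 : x *ᵥ (y *ᵥ v) = l • (y *ᵥ v) := by
        rw [hxy', hxv]
        exact hceig 1
      rw [hxy', e1, Matrix.mulVec_smul, Matrix.mulVec_smul]
      have e2 : c *ᵥ (y *ᵥ (y *ᵥ v)) = l • (y *ᵥ (y *ᵥ v)) := hceig 2
      rw [e2, smul_smul]
  have hcancel' : ∀ u : Fin 3 → F, y *ᵥ u = 0 → u = 0 := by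
    intro u hu
    have : (y * y * y) *ᵥ u = u := by rw [hy3, Matrix.one_mulVec]
    rw [← this, ← Matrix.mulVec_mulVec, hu, Matrix.mulVec_zero]
  have hunit : IsUnit (MM y v) := by
    apply isUnit_of_eig x (wv l) (wv_injective h3 hl) (vv y v) _ hxeig
    intro k
    fin_cases k
    · exact hw
    · exact fun h => hw (hcancel' _ h)
    · exact fun h => hw (hcancel' _ (hcancel' _ h))
  have hcM : c * MM y v = l • MM y v := by
    ext k j
    have h1 : (c * MM y v) k j = (c *ᵥ vv y v j) k := rfl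
    rw [h1, hceig]
    rfl
  obtain ⟨u, hu⟩ := hunit
  calc c = c * (MM y v) * ((u⁻¹ : M3ˣ) : M3) := by rw [← hu, mul_assoc, Units.mul_inv, mul_one]
    _ = l • (1 : M3) := by rw [hcM, ← hu, smul_mul_assoc, Units.mul_inv]

end Cfsg.Agent.Lib.Helper13E27a
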