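import Cfsg.Agent.Lib.Helper13E27a

set_option autoImplicit false

/-! Row S5998: the normal form of a non-abelian group of order 27 and exponent 3 in `GL_3(F)`
(group level). -/

namespace Cfsg.Agent.Lib.Helper13E27b

open Cfsg Cfsg.Geo Matrix Cfsg.Agent.Lib.Helper13U3C6a Cfsg.Agent.Lib.Helper13U3C6d
  Cfsg.Agent.Lib.Helper13U3C6 Cfsg.Agent.Lib.Helper13E27a
open scoped MatrixGroups commutatorElement

variable {F : Type*} [Field F]

local notation "M3" => Matrix (Fin 3) (Fin 3) F

/-- a group of order `p^3` has class at most two (copy of `Helper30BG3`) -/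
theorem commutator_le_center_of_card_cube {p : ℕ} [Fact p.Prime] {T : Type*} [Group T] [Finite T]
    (hT : Nat.card T = p ^ 3) : commutator T ≤ Subgroup.center T := by
  have hpp : p.Prime := Fact.out
  have hTp : IsPGroup p T := IsPGroup.of_card hT
  have : Nontrivial T := by
    apply Finite.one_lt_card_iff_nontrivial.mp
    rw [hT]
    exact Nat.one_lt_pow (by norm_num) hpp.one_lt
  have hcn : Nontrivial (Subgroup.center T) := hTp.center_nontrivial
  apply Subgroup.Normal.quotient_commutative_iff_commutator_le.mp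
  have h1 := (Subgroup.center T).card_mul_index
  obtain ⟨j, hj⟩ := IsPGroup.iff_card.mp (hTp.to_subgroup (Subgroup.center T))
  have hj0 : j ≠ 0 := by
    rintro rfl
    rw [pow_zero] at hj
    have := Finite.one_lt_card_iff_nontrivial.mpr hcn
    omega
  have hj3 : j ≤ 3 := by
    have h2 : p ^ j ∣ p ^ 3 := by rw [← hj, ← hT]; exact Subgroup.card_subgroup_dvd_card _
    exact (Nat.pow_dvd_pow_iff_le_right hpp.one_lt).mp h2
  have hidx : Nat.card (T ⧸ Subgroup.center T) = p ^ (3 - j) := by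
    rw [hj, hT] at h1
    have h2 : p ^ j * p ^ (3 - j) = p ^ 3 := by rw [← pow_add]; congr 1; omega
    have h3 : 0 < p ^ j := pow_pos hpp.pos _
    exact Nat.eq_of_mul_eq_mul_left h3 (h1.trans h2.symm)
  have hcases : j = 1 ∨ j = 2 ∨ j = 3 := by omega
  rcases hcases with rfl | rfl | rfl
  · exact IsPGroup.isMulCommutative_of_card_eq_prime_sq hidx
  · have : IsCyclic (T ⧸ Subgroup.center T) := isCyclic_of_prime_card (p := p) (by simpa using hidx)
    exact inferInstance
  · have : Subsingleton (T ⧸ Subgroup.center T) :=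
      (Nat.card_eq_one_iff_unique.mp (by simpa using hidx)).1
    exact ⟨⟨fun a b => Subsingleton.elim _ _⟩⟩

lemma rho_mul_apply (ω : F) (i : I27) (A : M3) (k l : Fin 3) :
    (rho ω i * A) k l = wv ω (i.1 + i.2.1 * k) * A (k - i.2.2) l := by
  simp [Matrix.mul_apply, rho]

lemma mul_rho_apply (ω : F) (i : I27) (A : M3) (k l : Fin 3) :
    (A * rho ω i) k l = A k (l + i.2.2) * wv ω (i.1 + i.2.1 * (l + i.2.2)) := by
  simp only [Matrix.mul_apply, rho, Matrix.of_apply, eq_sub_iff_add_eq]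
  simp

lemma wv_ne_zero {ω : F} (hω : ω ^ 2 + ω + 1 = 0) (a : Fin 3) : wv ω a ≠ 0 := by
  have h0 : ω ≠ 0 := by
    rintro rfl
    simp at hω
  fin_cases a
  · exact one_ne_zero
  · exact h0
  · exact mul_ne_zero h0 h0

lemma rho_injective {ω : F} (h3 : (3 : F) ≠ 0) (hω : ω ^ 2 + ω + 1 = 0) :
    Function.Injective (rho ω) := by
  rintro ⟨a, b, c⟩ ⟨a', b', c'⟩ h
  have hinj := wv_injective h3 hω
  have e : ∀ k l : Fin 3, (if l = k - c then wv ω (a + b * k) else 0)
      = (if l = k - c' then wv ω (a' + b' * k) else 0) := by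
    intro k l
    have := congrFun (congrFun h k) l
    simpa [rho] using this
  have hc : c = c' := by
    have h1 := e 0 (0 - c)
    rw [if_pos rfl] at h1
    by_contra hne
    rw [if_neg (by intro h; apply hne; simpa using h)] at h1
    exact wv_ne_zero hω _ h1
  subst hc
  have ha : a = a' := by
    have h1 := e 0 (0 - c)
    rw [if_pos rfl, if_pos rfl] at h1
    simpa using hinj h1
  subst ha
  have hb : b = b' := by
    have h1 := e 1 (1 - c)
    rw [if_pos rfl, if_pos rfl] at h1
    simpa using hinj h1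
  subst hb
  rfl

lemma det_rho {ω : F} (hω : ω ^ 2 + ω + 1 = 0) : ∀ i, (rho ω i).det = 1 := by
  have hw3 := omega_cube hω
  apply closure_I
  · rw [rho_Z, Matrix.det_smul, Matrix.det_one, mul_one, Fintype.card_fin]
    linear_combination hw3
  · rw [Matrix.det_fin_three]
    simp [rho, wv]
    linear_combination hw3
  · rw [Matrix.det_fin_three]
    simp [rho, wv]
    decide
  · intro i j hi hj
    rw [← rho_mul hw3, Matrix.det_mul, hi, hj, one_mul]

/-- `R` is the conjugate by `M` of the standard group. -/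
structure Std (R : Subgroup (GL (Fin 3) F)) (ω : F) (M : GL (Fin 3) F) : Prop where
  hω : ω ^ 2 + ω + 1 = 0
  mem : ∀ i : I27, ∃ r ∈ R, (r : M3) * (M : M3) = (M : M3) * rho ω i
  all : ∀ r ∈ R, ∃ i : I27, (r : M3) * (M : M3) = (M : M3) * rho ω i

theorem exists_std (h3 : (3 : F) ≠ 0) {ω₀ : F} (hω₀ : ω₀ ^ 2 + ω₀ + 1 = 0)
    (R : Subgroup (GL (Fin 3) F)) (hR : Nat.card R = 27) (hRe : Monoid.exponent R = 3)
    (hRna : ¬ IsMulCommutative R) : ∃ (ω : F) (M : GL (Fin 3) F), Std R ω M := by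
  have : Finite R := Nat.finite_of_card_ne_zero (by rw [hR]; norm_num)
  have : Fact (Nat.Prime 3) := ⟨by norm_num⟩
  have hexp : ∀ r ∈ R, r * r * r = 1 := by
    intro r hr
    have h := Monoid.pow_exponent_eq_one (⟨r, hr⟩ : R)
    rw [hRe] at h
    have h' := congrArg Subtype.val h
    rw [← pow_three']
    simpa using h'
  have hexpM : ∀ r ∈ R, (r : M3) * r * r = 1 := by
    intro r hr
    have := congrArg Units.val (hexp r hr)
    simpa using this
  have hnc : ∃ x y : R, x * y ≠ y * x := by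
    by_contra hcon
    push Not at hcon
    exact hRna ⟨⟨hcon⟩⟩
  obtain ⟨x, y, hxy⟩ := hnc
  have hcen : ⁅x, y⁆ ∈ Subgroup.center R :=
    commutator_le_center_of_card_cube (p := 3) (by rw [hR]; norm_num)
      (Subgroup.commutator_mem_commutator (Subgroup.mem_top x) (Subgroup.mem_top y))
  rw [Subgroup.mem_center_iff] at hcen
  have hc1 : ⁅x, y⁆ ≠ 1 := by
    intro h
    exact hxy (commutatorElement_eq_one_iff_mul_comm.1 h)
  have toM : ∀ a b : R, a = b → (((a : GL (Fin 3) F)) : M3) = ((b : GL (Fin 3) F) : M3) := by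
    intro a b h; rw [h]
  obtain ⟨c, hcdef⟩ : ∃ c : R, c = ⁅x, y⁆ := ⟨_, rfl⟩
  rw [← hcdef] at hcen hc1
  have hxyc : x * y = c * (y * x) := by
    rw [hcdef, commutatorElement_def]; group
  obtain ⟨l, hl, hcl⟩ := comm_scalar h3 hω₀ ((x : GL (Fin 3) F) : M3) ((y : GL (Fin 3) F) : M3)
    ((c : GL (Fin 3) F) : M3) (hexpM x x.2) (hexpM y y.2) (hexpM c c.2)
    (by simpa using (toM _ _ (hcen x)).symm) (by simpa using (toM _ _ (hcen y)).symm)
    (by simpa using toM _ _ hxyc)
    (by
      intro h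
      apply hc1
      apply Subtype.ext
      apply Units.ext
      simpa using h)
  have hxy' : ((x : GL (Fin 3) F) : M3) * ((y : GL (Fin 3) F) : M3)
      = l • (((y : GL (Fin 3) F) : M3) * ((x : GL (Fin 3) F) : M3)) := by
    have := toM _ _ hxyc
    simp only [Subgroup.coe_mul, Units.val_mul] at this
    rw [this, hcl, smul_mul_assoc, one_mul]
  obtain ⟨M, hMu, hxM, hyM⟩ := normal_form_scalar h3 hl _ _ (hexpM x x.2) (hexpM y y.2) hxy'
  obtain ⟨M, rfl⟩ := hMu
  have hw3 := omega_cube hl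
  have hall : ∀ i, ∃ r ∈ R, (r : M3) * (M : M3) = (M : M3) * rho l i := by
    apply closure_I
    · exact ⟨c, c.2, by rw [hcl, rho_Z, smul_mul_assoc, one_mul, mul_smul_comm, mul_one]⟩
    · exact ⟨x, x.2, hxM⟩
    · exact ⟨y, y.2, hyM⟩
    · rintro i j ⟨r, hr, hr'⟩ ⟨r', hr2, hr2'⟩
      refine ⟨r * r', R.mul_mem hr hr2, ?_⟩
      rw [Units.val_mul, mul_assoc, hr2', ← mul_assoc, hr', mul_assoc, rho_mul hw3]
  refine ⟨l, M, hl, hall, ?_⟩
  choose rr hrR hrM using hall
  have hrinj : Function.Injective (fun i => (⟨rr i, hrR i⟩ : R)) := by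
    intro i j hij
    apply rho_injective h3 hl
    have h1 : rr i = rr j := congrArg Subtype.val hij
    have h2 : (M : M3) * rho l i = (M : M3) * rho l j := by rw [← hrM, ← hrM, h1]
    have h4 := congrArg (fun A => ((M⁻¹ : GL (Fin 3) F) : M3) * A) h2
    simpa [← mul_assoc, ← Units.val_mul] using h4
  have hbij := hrinj.bijective_of_nat_card_le (by rw [hR]; simp [Nat.card_eq_fintype_card])
  intro r hr
  obtain ⟨i, hi⟩ := hbij.2 ⟨r, hr⟩
  refine ⟨i, ?_⟩
  have : rr i = r := congrArg Subtype.val hi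
  rw [← this, hrM]

end Cfsg.Agent.Lib.Helper13E27b
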