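import Cfsg.Agent.Lib.Helper13E27b

set_option autoImplicit false

/-! Row S5998: normaliser and centraliser of the group of order 27. -/

namespace Cfsg.Agent.Lib.Helper13E27c

open Cfsg Cfsg.Geo Matrix Cfsg.Agent.Lib.Helper13U3C6a Cfsg.Agent.Lib.Helper13U3C6d
  Cfsg.Agent.Lib.Helper13U3C6 Cfsg.Agent.Lib.Helper13E27a Cfsg.Agent.Lib.Helper13E27b
open scoped MatrixGroups

variable {F : Type*} [Field F]

local notation "M3" => Matrix (Fin 3) (Fin 3) F

theorem mem_normalizer_of_conj_mem {G : Type*} [Group G] (R : Subgroup G) [Finite R] (g : G)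
    (h : ∀ r ∈ R, g * r * g⁻¹ ∈ R) : g ∈ Subgroup.normalizer (R : Set G) := by
  rw [Subgroup.mem_normalizer_iff]
  intro a
  refine ⟨h a, fun ha => ?_⟩
  let φ : R → R := fun r => ⟨g * r * g⁻¹, h r r.2⟩
  have hinj : Function.Injective φ := by
    intro r s hrs
    have h1 : g * (r : G) * g⁻¹ = g * s * g⁻¹ := congrArg Subtype.val hrs
    apply Subtype.ext
    simpa using h1
  obtain ⟨r, hr⟩ := (Finite.injective_iff_surjective.1 hinj) ⟨_, ha⟩
  have h1 : g * (r : G) * g⁻¹ = g * a * g⁻¹ := congrArg Subtype.val hr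
  have h2 : (r : G) = a := by simpa using h1
  rw [← h2]
  exact r.2

variable {R : Subgroup (GL (Fin 3) F)} {ω : F} {M : GL (Fin 3) F}

theorem conj_rho_all (hω : ω ^ 2 + ω + 1 = 0) (T : M3)
    (h1 : ∃ j, T * rho ω (0, 1, 0) = rho ω j * T) (h2 : ∃ j, T * rho ω (0, 0, 1) = rho ω j * T) :
    ∀ i, ∃ j, T * rho ω i = rho ω j * T := by
  have hw3 := omega_cube hω
  apply closure_I
  · exact ⟨(1, 0, 0), by rw [rho_Z, mul_smul_comm, smul_mul_assoc, mul_one, one_mul]⟩
  · exact h1
  · exact h2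
  · rintro i i' ⟨j, hj⟩ ⟨j', hj'⟩
    exact ⟨mulI j j', by rw [← rho_mul hw3, ← rho_mul hw3, ← mul_assoc, hj, mul_assoc, hj', mul_assoc]⟩

theorem mem_normalizer_of (hS : Std R ω M) [Finite R] (T : GL (Fin 3) F)
    (h1 : ∃ j, (T : M3) * rho ω (0, 1, 0) = rho ω j * (T : M3))
    (h2 : ∃ j, (T : M3) * rho ω (0, 0, 1) = rho ω j * (T : M3)) :
    M * T * M⁻¹ ∈ subgroupNormalizer R := by
  apply mem_normalizer_of_conj_mem
  intro r hr
  obtain ⟨i, hi⟩ := hS.all r hr
  obtain ⟨j, hj⟩ := conj_rho_all hS.hω (T : M3) h1 h2 i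
  obtain ⟨s, hs, hsj⟩ := hS.mem j
  have : M * T * M⁻¹ * r * (M * T * M⁻¹)⁻¹ = s := by
    have e : M * T * M⁻¹ * r * M * T⁻¹ = s * M := by
      apply Units.ext
      have e2 : ((M * T * M⁻¹ * r * M * T⁻¹ : GL (Fin 3) F) : M3)
          = (M : M3) * (T : M3) * ((M⁻¹ : GL (Fin 3) F) : M3) * ((r : M3) * (M : M3))
            * ((T⁻¹ : GL (Fin 3) F) : M3) := by
        simp only [Units.val_mul, mul_assoc]
      rw [e2, hi, Units.val_mul, hsj]
      have e3 : (M : M3) * (T : M3) * ((M⁻¹ : GL (Fin 3) F) : M3) * ((M : M3) * rho ω i)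
          = (M : M3) * ((T : M3) * rho ω i) := by
        have e4 : ((M⁻¹ : GL (Fin 3) F) : M3) * (M : M3) = 1 := by
          rw [← Units.val_mul, inv_mul_cancel, Units.val_one]
        rw [mul_assoc ((M : M3) * (T : M3)), ← mul_assoc ((M⁻¹ : GL (Fin 3) F) : M3), e4, one_mul,
          mul_assoc]
      rw [e3, hj, mul_assoc, mul_assoc, ← Units.val_mul, mul_inv_cancel, Units.val_one, mul_one]
    calc M * T * M⁻¹ * r * (M * T * M⁻¹)⁻¹ = (M * T * M⁻¹ * r * M * T⁻¹) * M⁻¹ := by group
      _ = s := by rw [e]; group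
  rw [this]
  exact hs

lemma scalar_of_commute_rho (h3 : (3 : F) ≠ 0) (hω : ω ^ 2 + ω + 1 = 0) (A : M3)
    (h1 : A * rho ω (0, 1, 0) = rho ω (0, 1, 0) * A) (h2 : A * rho ω (0, 0, 1) = rho ω (0, 0, 1) * A) :
    A = (A 0 0) • (1 : M3) := by
  have hinj := wv_injective h3 hω
  have e1 : ∀ k l : Fin 3, A k l * wv ω l = wv ω k * A k l := by
    intro k l
    have := congrFun (congrFun h1 k) l
    rw [mul_rho_apply, rho_mul_apply] at this
    simpa using this
  have e2 : ∀ k l : Fin 3, A k (l + 1) = A (k - 1) l := by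
    intro k l
    have := congrFun (congrFun h2 k) l
    rw [mul_rho_apply, rho_mul_apply] at this
    simpa [wv] using this
  have hoff : ∀ k l : Fin 3, k ≠ l → A k l = 0 := by
    intro k l hkl
    have h := e1 k l
    have : A k l * (wv ω l - wv ω k) = 0 := by linear_combination h
    rcases mul_eq_zero.1 this with h | h
    · exact h
    · exact absurd (hinj (sub_eq_zero.1 h)).symm hkl
  have h11 : A 1 1 = A 0 0 := e2 1 0
  have h22 : A 2 2 = A 0 0 := by
    have := e2 2 1
    rw [← h11]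
    exact this
  ext k l
  rw [Matrix.smul_apply, Matrix.one_apply, smul_eq_mul]
  by_cases hkl : k = l
  · subst hkl
    rw [if_pos rfl, mul_one]
    fin_cases k
    · rfl
    · exact h11
    · exact h22
  · rw [if_neg hkl, mul_zero]
    exact hoff k l hkl

theorem scalar_of_commute (hS : Std R ω M) (h3 : (3 : F) ≠ 0) (g : GL (Fin 3) F)
    (h : ∀ r ∈ R, g * r = r * g) : ∃ z : F, (g : M3) = z • (1 : M3) := by
  have key : ∀ i, ((M⁻¹ * g * M : GL (Fin 3) F) : M3) * rho ω i
      = rho ω i * ((M⁻¹ * g * M : GL (Fin 3) F) : M3) := by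
    intro i
    obtain ⟨r, hr, hri⟩ := hS.mem i
    have e1 : rho ω i = ((M⁻¹ * r * M : GL (Fin 3) F) : M3) := by
      rw [Units.val_mul, Units.val_mul, mul_assoc, hri, ← mul_assoc, ← Units.val_mul, inv_mul_cancel,
        Units.val_one, one_mul]
    rw [e1, ← Units.val_mul, ← Units.val_mul]
    congr 1
    calc M⁻¹ * g * M * (M⁻¹ * r * M) = M⁻¹ * (g * r) * M := by group
      _ = M⁻¹ * (r * g) * M := by rw [h r hr]
      _ = _ := by group
  have h1 := scalar_of_commute_rho h3 hS.hω _ (key _) (key _)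
  refine ⟨((M⁻¹ * g * M : GL (Fin 3) F) : M3) 0 0, ?_⟩
  have e : g = M * (M⁻¹ * g * M) * M⁻¹ := by group
  have e' : (g : M3) = (M : M3) * ((M⁻¹ * g * M : GL (Fin 3) F) : M3) * ((M⁻¹ : GL (Fin 3) F) : M3) := by
    rw [← Units.val_mul, ← Units.val_mul, ← e]
  rw [e', h1, mul_smul_comm, smul_mul_assoc, mul_one, ← Units.val_mul,
    mul_inv_cancel, Units.val_one]
  simp

theorem det_eq_one (hS : Std R ω M) (r : GL (Fin 3) F) (hr : r ∈ R) : (r : M3).det = 1 := by
  obtain ⟨i, hi⟩ := hS.all r hr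
  have h1 := congrArg Matrix.det hi
  rw [Matrix.det_mul, Matrix.det_mul, det_rho hS.hω, mul_one, mul_comm] at h1
  have h2 : (M : M3).det ≠ 0 := by
    have := (Matrix.isUnit_iff_isUnit_det _).1 M.isUnit
    exact this.ne_zero
  exact mul_left_cancel₀ h2 (by rw [h1, mul_one])

/-- an element of prime order at least 5 modulo its centraliser… : fixed point count -/
lemma centralizes_of_card' {G : Type*} [Group G] {p : ℕ} (hp : p.Prime) (hp5 : 5 ≤ p) {R : Subgroup G}
    (hcard : Nat.card R = 27) {t : G}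
    (ht : t ∈ Subgroup.normalizer (R : Set G)) (htp : ∀ x ∈ R, t ^ p * x * (t ^ p)⁻¹ = x)
    (hcen : ∃ z ∈ R, z ≠ 1 ∧ t * z * t⁻¹ = z) : ∀ x ∈ R, t * x * t⁻¹ = x := by
  classical
  have : Fact p.Prime := ⟨hp⟩
  have : Finite R := Nat.finite_of_card_ne_zero (by rw [hcard]; norm_num)
  have : Fintype R := Fintype.ofFinite R
  have hn : ∀ x : R, t * x * t⁻¹ ∈ R := fun x => (Subgroup.mem_normalizer_iff.mp ht x).mp x.2
  let c : Function.End R := fun x => ⟨t * x * t⁻¹, hn x⟩
  have hck : ∀ (k : ℕ) (x : R), (((c ^ k) x : R) : G) = t ^ k * x * (t ^ k)⁻¹ := by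
    intro k
    induction k with
    | zero =>
      intro x
      rw [pow_zero, pow_zero, one_mul, inv_one, mul_one]
      rfl
    | succ k ih =>
      intro x
      rw [pow_succ']
      show t * (((c ^ k) x : R) : G) * t⁻¹ = _
      rw [ih, pow_succ']
      group
  have hcp : c ^ p ^ 1 = 1 := by
    rw [pow_one]
    funext x
    apply Subtype.ext
    rw [hck, htp x x.2]
    rfl
  have h1 := Equiv.Perm.card_fixedPoints_modEq hcp
  let S : Subgroup R :=
    { carrier := {x | t * x * t⁻¹ = x}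
      one_mem' := by simp
      mul_mem' := by
        intro a b ha hb
        have ha' : t * (a : G) * t⁻¹ = a := ha
        have hb' : t * (b : G) * t⁻¹ = b := hb
        show t * ((a * b : R) : G) * t⁻¹ = ((a * b : R) : G)
        rw [Subgroup.coe_mul]
        calc t * ((a : G) * b) * t⁻¹ = (t * a * t⁻¹) * (t * b * t⁻¹) := by group
          _ = a * b := by rw [ha', hb']
      inv_mem' := by
        intro a ha
        have ha' : t * (a : G) * t⁻¹ = a := ha
        show t * ((a⁻¹ : R) : G) * t⁻¹ = ((a⁻¹ : R) : G)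
        rw [Subgroup.coe_inv]
        calc t * (a : G)⁻¹ * t⁻¹ = (t * a * t⁻¹)⁻¹ := by group
          _ = (a : G)⁻¹ := by rw [ha'] }
  have hSfix : Fintype.card (Function.fixedPoints c) = Nat.card S := by
    rw [← Nat.card_eq_fintype_card]
    apply Nat.card_congr
    refine Equiv.subtypeEquivRight ?_
    intro x
    constructor
    · intro hx
      exact congrArg Subtype.val hx
    · intro hx
      exact Subtype.ext hx
  rw [hSfix, ← Nat.card_eq_fintype_card, hcard] at h1
  have hd1 : Nat.card S ∣ 27 := by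
    rw [← hcard]; exact Subgroup.card_subgroup_dvd_card S
  have hd2 : Nat.card S ≠ 1 := by
    intro h
    obtain ⟨z, hz, hz1, hzt⟩ := hcen
    have hbot : S = ⊥ := Subgroup.card_eq_one.1 h
    have hmem : (⟨z, hz⟩ : R) ∈ S := hzt
    rw [hbot, Subgroup.mem_bot] at hmem
    exact hz1 (congrArg Subtype.val hmem)
  have hS27 : Nat.card S = 27 := by
    have hle : Nat.card S ≤ 27 := Nat.le_of_dvd (by norm_num) hd1
    have hdvd : (p : ℤ) ∣ ((Nat.card S : ℕ) : ℤ) - 27 := (Nat.modEq_iff_dvd.mp h1)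
    generalize Nat.card S = s at *
    have hs : s = 3 ∨ s = 9 ∨ s = 27 := by
      interval_cases s <;> omega
    rcases hs with rfl | rfl | rfl
    · exfalso
      have h2 : p ∣ 24 := by
        have : (p : ℤ) ∣ 24 := by
          have := (dvd_neg.mpr hdvd)
          norm_num at this
          exact this
        exact_mod_cast this
      have h3 : p ≤ 24 := Nat.le_of_dvd (by norm_num) h2
      interval_cases p <;> first | omega | (exact absurd hp (by norm_num))
    · exfalso
      have h2 : p ∣ 18 := by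
        have : (p : ℤ) ∣ 18 := by
          have := (dvd_neg.mpr hdvd)
          norm_num at this
          exact this
        exact_mod_cast this
      have h3 : p ≤ 18 := Nat.le_of_dvd (by norm_num) h2
      interval_cases p <;> first | omega | (exact absurd hp (by norm_num))
    · rfl
  have hStop : S = ⊤ := by
    apply Subgroup.eq_top_of_card_eq
    rw [hS27, hcard]
  intro x hx
  have : (⟨x, hx⟩ : R) ∈ S := by rw [hStop]; trivial
  exact this

end Cfsg.Agent.Lib.Helper13E27c
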