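import Cfsg.Agent.Lib.Helper13E27c

set_option autoImplicit false

/-! Row S5998: explicit elements of the normaliser; arithmetic. -/

namespace Cfsg.Agent.Lib.Helper13E27d

open Cfsg Cfsg.Geo Matrix Cfsg.Agent.Lib.Helper13U3C6a Cfsg.Agent.Lib.Helper13U3C6d
  Cfsg.Agent.Lib.Helper13U3C6 Cfsg.Agent.Lib.Helper13E27a Cfsg.Agent.Lib.Helper13E27b
  Cfsg.Agent.Lib.Helper13E27c
open scoped MatrixGroups

variable {F : Type*} [Field F]

local notation "M3" => Matrix (Fin 3) (Fin 3) F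

/-- minus the permutation matrix of `k ↦ -k` -/
def TT : M3 := Matrix.of fun k l => if l = -k then (-1 : F) else 0

lemma TT_sq : (TT : M3) * TT = 1 := by
  have h1 : (-1 : Fin 3) = 2 := by decide
  have h2 : (-2 : Fin 3) = 1 := by decide
  ext k l
  fin_cases k <;> fin_cases l <;> simp [TT, Matrix.mul_apply, Fin.sum_univ_three, h1, h2]

lemma TT_det : (TT : M3).det = 1 := by
  have h1 : (-1 : Fin 3) = 2 := by decide
  have h2 : (-2 : Fin 3) = 1 := by decide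
  rw [Matrix.det_fin_three]
  simp [TT, h1, h2]

lemma TT_rho1 (ω : F) : (TT : M3) * rho ω (0, 1, 0) = rho ω (0, 2, 0) * TT := by
  ext k l
  rw [mul_rho_apply, rho_mul_apply]
  simp only [TT, Matrix.of_apply, add_zero, sub_zero, zero_add, one_mul]
  by_cases h : l = -k
  · subst h
    rw [if_pos rfl, mul_comm]
    congr 2
    revert k
    decide
  · rw [if_neg h, zero_mul, mul_zero]

lemma TT_rho2 (ω : F) : (TT : M3) * rho ω (0, 0, 1) = rho ω (0, 0, 2) * TT := by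
  ext k l
  rw [mul_rho_apply, rho_mul_apply]
  simp only [TT, Matrix.of_apply, zero_mul, add_zero]
  have : ∀ k l : Fin 3, (l + 1 = -k) ↔ (l = -(k - 2)) := by decide
  simp only [this, wv]
  simp

lemma exists_wv {ω : F} (hω : ω ^ 2 + ω + 1 = 0) (δ : F) (h : δ ^ 3 = 1) : ∃ e : Fin 3, δ = wv ω e := by
  have h1 : (δ - 1) * ((δ - ω) * (δ - ω * ω)) = 0 := by
    linear_combination h + (-δ ^ 2 + δ * ω - ω + 1) * hω
  rcases mul_eq_zero.1 h1 with h | h
  · exact ⟨0, sub_eq_zero.1 h⟩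
  · rcases mul_eq_zero.1 h with h | h
    · exact ⟨1, sub_eq_zero.1 h⟩
    · exact ⟨2, sub_eq_zero.1 h⟩

lemma diag_rho1 (ω : F) (d : Fin 3 → F) :
    Matrix.diagonal d * rho ω (0, 1, 0) = rho ω (0, 1, 0) * Matrix.diagonal d := by
  ext k l
  rw [mul_rho_apply, rho_mul_apply]
  simp only [add_zero, sub_zero, zero_add, one_mul]
  by_cases h : k = l
  · subst h
    rw [mul_comm]
  · rw [Matrix.diagonal_apply_ne _ h, zero_mul, mul_zero]

lemma diag_rho2 {ω : F} (hω : ω ^ 2 + ω + 1 = 0) (d : Fin 3 → F) (z : F) (hz0 : z ≠ 0)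
    (hd : ∀ k, d k ^ 3 = z) :
    ∃ j, Matrix.diagonal d * rho ω (0, 0, 1) = rho ω j * Matrix.diagonal d := by
  have hw3 := omega_cube hω
  have hd0 : ∀ k, d k ≠ 0 := by
    intro k h
    apply hz0
    rw [← hd k, h]
    simp
  have hq : ∀ k k', ∃ e : Fin 3, d k = wv ω e * d k' := by
    intro k k'
    obtain ⟨e, he⟩ := exists_wv hω (d k / d k') (by rw [div_pow, hd, hd, div_self hz0])
    exact ⟨e, by rw [← he, div_mul_cancel₀ _ (hd0 k')]⟩
  obtain ⟨e₀, h0⟩ := hq 0 2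
  obtain ⟨e₁, h1⟩ := hq 1 0
  have h2 : d 2 = wv ω (e₀ + (e₁ - e₀) * 2) * d 1 := by
    have e : wv ω (e₀ + (e₁ - e₀) * 2) * wv ω e₁ * wv ω e₀ = 1 := by
      rw [← wv_add hw3, ← wv_add hw3]
      have : ∀ a b : Fin 3, a + (b - a) * 2 + b + a = 0 := by decide
      rw [this]
      rfl
    rw [h1, h0]
    linear_combination (-(d 2)) * e
  refine ⟨(e₀, e₁ - e₀, 1), ?_⟩
  ext k l
  rw [mul_rho_apply, rho_mul_apply]
  simp only [zero_mul, add_zero]
  have hwv0 : wv ω 0 = 1 := rfl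
  rw [hwv0, mul_one]
  by_cases h : k = l + 1
  · subst h
    rw [Matrix.diagonal_apply_eq, add_sub_cancel_right, Matrix.diagonal_apply_eq]
    fin_cases l
    · show d 1 = wv ω (e₀ + (e₁ - e₀) * 1) * d 0
      rw [mul_one, add_sub_cancel]
      exact h1
    · exact h2
    · show d 0 = wv ω (e₀ + (e₁ - e₀) * 0) * d 2
      rw [mul_zero, add_zero]
      exact h0
  · rw [Matrix.diagonal_apply_ne _ h, Matrix.diagonal_apply_ne _ (by
      intro h'; apply h; rw [← h', sub_add_cancel]), mul_zero]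

lemma dec243 : ∀ s : ZMod 243, (s.val % 9 = 4 ∨ s.val % 9 = 7) →
    (s ^ 3 - 1) * (s ^ 3 - s) * (s ^ 3 - s ^ 2) ≠ 0 := by decide +kernel

lemma arith (p c : ℕ) (hp : p % 9 = 4 ∨ p % 9 = 7)
    (h : c * (p - 1) = (p ^ 3 - p ^ 0) * (p ^ 3 - p ^ 1) * (p ^ 3 - p ^ 2)) : ¬ 81 ∣ c := by
  rintro ⟨k, rfl⟩
  have hp1 : 1 ≤ p := by omega
  obtain ⟨m, hm⟩ : ∃ m, p - 1 = 3 * m := ⟨(p - 1) / 3, by omega⟩
  have h1 := congrArg (Nat.cast : ℕ → ZMod 243) h
  rw [hm] at h1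
  have e0 : p ^ 0 ≤ p ^ 3 := Nat.pow_le_pow_right hp1 (by norm_num)
  have e1 : p ^ 1 ≤ p ^ 3 := Nat.pow_le_pow_right hp1 (by norm_num)
  have e2 : p ^ 2 ≤ p ^ 3 := Nat.pow_le_pow_right hp1 (by norm_num)
  push_cast [Nat.cast_sub e0, Nat.cast_sub e1, Nat.cast_sub e2] at h1
  have h2 : (81 * (k : ZMod 243) * (3 * (m : ZMod 243))) = 0 := by
    have : (243 : ZMod 243) = 0 := by decide
    linear_combination ((k : ZMod 243) * m) * this
  rw [h2] at h1
  apply dec243 (p : ZMod 243) _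
  · linear_combination -h1
  · rw [ZMod.val_natCast, Nat.mod_mod_of_dvd _ (by norm_num : 9 ∣ 243)]
    exact hp

end Cfsg.Agent.Lib.Helper13E27d
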