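import Cfsg.Agent.Lib.Helper13EluT2

/-! Project 94 (ELU2), row S5979: explicit matrices. -/

set_option autoImplicit false

namespace Cfsg.Agent.Lib.Helper13EluT3

open scoped Matrix Kronecker MatrixGroups
open Matrix Cfsg Cfsg.Geo Cfsg.Agent.Lib.Helper13EluT Cfsg.Agent.Lib.Helper13EluT2

variable {F : Type*} [Field F] {a b n : ℕ}

theorem exists_gl_of_det_one (A : Matrix (Fin n) (Fin n) F) (h : A.det = 1) :
    ∃ x ∈ specialLinear (Fin n) F, (x : Matrix (Fin n) (Fin n) F) = A := by
  refine ⟨Matrix.GeneralLinearGroup.mkOfDetNeZero A (by rw [h]; exact one_ne_zero), ?_, rfl⟩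
  rw [specialLinear, MonoidHom.mem_ker]
  ext
  simpa using h

theorem range_toGL : (Matrix.SpecialLinearGroup.toGL :
    Matrix.SpecialLinearGroup (Fin n) F →* GL (Fin n) F).range = specialLinear (Fin n) F := by
  ext g
  constructor
  · rintro ⟨x, rfl⟩
    rw [specialLinear, MonoidHom.mem_ker]
    exact Matrix.SpecialLinearGroup.coeToGL_det x
  · intro hg
    rw [specialLinear, MonoidHom.mem_ker] at hg
    have h1 : (g : Matrix (Fin n) (Fin n) F).det = 1 := by
      have := congrArg Units.val hg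
      simpa using this
    exact ⟨⟨g, h1⟩, Units.ext rfl⟩

theorem card_specialLinear :
    Nat.card (specialLinear (Fin n) F) = Nat.card (Matrix.SpecialLinearGroup (Fin n) F) := by
  rw [← range_toGL]
  exact (Nat.card_congr (MonoidHom.ofInjective Matrix.SpecialLinearGroup.toGL_injective).toEquiv).symm

/-- The general shape of the derangement argument. -/
theorem no_derange (hab : n = a * b) (e : Fin n ≃ Fin a × Fin b) (P : GL (Fin n) F) (r : ℕ)
    (H : ∀ x ∈ specialLinear (Fin n) F,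
      (∃ z : F, ((x ^ r : GL (Fin n) F) : Matrix (Fin n) (Fin n) F) = z • (1 : Matrix (Fin n) (Fin n) F)) →
      (∀ z : F, (x : Matrix (Fin n) (Fin n) F) ≠ z • (1 : Matrix (Fin n) (Fin n) F)) →
      ∃ g ∈ specialLinear (Fin n) F, g⁻¹ * x * g ∈ tensorProductSubgroup a b e P)
    (A : Matrix (Fin n) (Fin n) F) (hdet : A.det = 1) (z : F) (hz : A ^ r = z • 1) (l l' : F)
    (h1 : (A - l • 1).rank < b) (h2 : ¬ a ∣ (A - l' • 1).rank) : False := by
  obtain ⟨x, hx, rfl⟩ := exists_gl_of_det_one A hdet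
  have hns : ∀ c : F, (x : Matrix (Fin n) (Fin n) F) ≠ c • (1 : Matrix (Fin n) (Fin n) F) := by
    intro c hc
    apply h2
    rw [hc, ← sub_smul]
    by_cases hcl : c = l'
    · rw [hcl, sub_self, zero_smul, Matrix.rank_zero]
      exact dvd_zero a
    · rw [Matrix.rank_of_isUnit, Fintype.card_fin, hab]
      · exact Dvd.intro _ rfl
      · rw [Matrix.isUnit_iff_isUnit_det, Matrix.det_smul, Matrix.det_one, mul_one]
        exact (pow_ne_zero _ (sub_ne_zero.2 hcl)).isUnit
  obtain ⟨g, -, hg⟩ := H x hx ⟨z, by rw [Units.val_pow_eq_pow_val, hz]⟩ hns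
  rcases crit e P x g hg l l' with h | h
  · omega
  · exact h2 h

/-- The diagonal `(α, β, γ, …, γ)`. -/
def dd (n : ℕ) (α β γ : F) : Fin n → F :=
  fun i => if (i : ℕ) = 0 then α else if (i : ℕ) = 1 then β else γ

theorem prod_dd (hn : 2 ≤ n) (α β γ : F) : ∏ i, dd n α β γ i = α * β * γ ^ (n - 2) := by
  obtain ⟨m, rfl⟩ : ∃ m, n = m + 2 := ⟨n - 2, by omega⟩
  rw [Fin.prod_univ_succ, Fin.prod_univ_succ]
  simp [dd, mul_assoc]

theorem rank_dd [DecidableEq F] (hn : 2 ≤ n) (α β γ l : F) :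
    (Matrix.diagonal (dd n α β γ) - l • 1).rank
      = (if α ≠ l then 1 else 0) + (if β ≠ l then 1 else 0) + (if γ ≠ l then n - 2 else 0) := by
  have h1 : Matrix.diagonal (dd n α β γ) - l • 1 = Matrix.diagonal (fun i => dd n α β γ i - l) := by
    ext i j
    by_cases hij : i = j
    · subst hij; simp
    · simp [hij]
  rw [h1, Matrix.rank_diagonal, Fintype.card_subtype, Finset.card_filter]
  obtain ⟨m, rfl⟩ : ∃ m, n = m + 2 := ⟨n - 2, by omega⟩
  rw [Fin.sum_univ_succ, Fin.sum_univ_succ]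
  simp only [dd, sub_ne_zero]
  simp [add_assoc]

theorem diag_pow (d : Fin n → F) (r : ℕ) : (Matrix.diagonal d) ^ r = Matrix.diagonal (fun i => d i ^ r) := by
  rw [Matrix.diagonal_pow]
  rfl

theorem dd_pow (α β γ z : F) (r : ℕ) (h1 : α ^ r = z) (h2 : β ^ r = z) (h3 : γ ^ r = z) :
    (Matrix.diagonal (dd n α β γ)) ^ r = z • 1 := by
  rw [diag_pow, Matrix.smul_one_eq_diagonal]
  congr 1
  funext i
  simp only [dd]
  split_ifs <;> assumption

theorem transv_pow (i j : Fin n) (hij : i ≠ j) (m : ℕ) :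
    (Matrix.transvection i j (1 : F)) ^ m = Matrix.transvection i j (m : F) := by
  induction m with
  | zero => simp
  | succ m ih => rw [pow_succ, ih, Matrix.transvection_mul_transvection_same _ _ hij, Nat.cast_succ]

theorem rank_transv (i j : Fin n) :
    (Matrix.transvection i j (1 : F) - (1 : F) • (1 : Matrix (Fin n) (Fin n) F)).rank = 1 := by
  have h1 : Matrix.transvection i j (1 : F) - (1 : F) • (1 : Matrix (Fin n) (Fin n) F)
      = Matrix.single i j (1 : F) := by
    rw [Matrix.transvection, one_smul, add_sub_cancel_left]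
  rw [h1]
  apply le_antisymm
  · rw [Matrix.single_eq_single_vecMulVec_single]
    exact Matrix.rank_vecMulVec_le _ _
  · apply rank_pos_of_ne_zero
    intro h0
    have := congrFun (congrFun h0 i) j
    simp at this

theorem dvd_iff_pow_eq_one (q r i : ℕ) (hq : 0 < q) : r ∣ q ^ i - 1 ↔ ((q : ℕ) : ZMod r) ^ i = 1 := by
  have h1 : 1 ≤ q ^ i := Nat.one_le_pow _ _ hq
  rw [← ZMod.natCast_eq_zero_iff, Nat.cast_sub h1, Nat.cast_pow, Nat.cast_one, sub_eq_zero]

end Cfsg.Agent.Lib.Helper13EluT3
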