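import Mathlib
import Cfsg.Prelude.Def_GeometricClasses
import Cfsg.Agent.Lib.Helper45Semisimple

set_option autoImplicit false

/-! PROJECT 94, piece SEMI (helper38). -/

namespace Cfsg.Agent.Lib.Helper38EluSEMI

open Cfsg Cfsg.Geo Matrix Polynomial
open scoped MatrixGroups

variable {F : Type*} [Field F] [Fintype F]

/- piece SEMI -/
theorem semisimple_of_pow_eq_smul {ι : Type*} [Fintype ι] [DecidableEq ι] (r : ℕ)
    (hr : (r : F) ≠ 0) (X : Matrix ι ι F) (z : F) (hz : z ≠ 0) (h : X ^ r = z • (1 : Matrix ι ι F)) :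
    Module.End.IsSemisimple (Matrix.toLin' X) := by
  have hsep : (Polynomial.X ^ r - C z : F[X]).Separable := separable_X_pow_sub_C z hr hz
  apply Module.End.isSemisimple_of_squarefree_aeval_eq_zero hsep.squarefree
  have h1 : (Matrix.toLin' X) ^ r = z • (1 : Module.End F (ι → F)) := by
    rw [← Matrix.toLin'_pow, h, map_smul, Matrix.toLin'_one]
    rfl
  simp [h1, Algebra.algebraMap_eq_smul_one]

end Cfsg.Agent.Lib.Helper38EluSEMI
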