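import Mathlib
import Cfsg.Prelude.Def_GeometricClasses
import Cfsg.Agent.Lib.Helper45Semisimple

set_option autoImplicit false

/-! PROJECT 94, piece SLCONJ (helper38). -/

namespace Cfsg.Agent.Lib.Helper38EluSLCONJ

open Cfsg Cfsg.Geo Matrix Polynomial
open scoped MatrixGroups

variable {F : Type*} [Field F] [Fintype F]

/-- matrix form -/
theorem exists_det_one_conj {n : ℕ} (x y : Matrix (Fin n) (Fin n) F)
    (hx : Module.End.IsSemisimple (Matrix.toLin' x)) (hy : Module.End.IsSemisimple (Matrix.toLin' y))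
    (hc : x.charpoly = y.charpoly) :
    ∃ g : Matrix (Fin n) (Fin n) F, g.det = 1 ∧ x * g = g * y := by
  obtain ⟨P, hP⟩ := Cfsg.Agent.Lib.Helper45Semisimple.matrix_exists_conj y x hy hx hc.symm
  -- `P y = x P`
  rcases Nat.eq_zero_or_pos n with rfl | hn
  · exact ⟨1, by simp, Subsingleton.elim _ _⟩
  have : Nonempty (Fin n) := ⟨⟨0, hn⟩⟩
  have hdet : (P : Matrix (Fin n) (Fin n) F).det ≠ 0 := by
    have := (Matrix.isUnit_iff_isUnit_det _).mp P.isUnit
    exact this.ne_zero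
  obtain ⟨Z, hZ, hd⟩ := Cfsg.Agent.Lib.Helper45Semisimple.matrix_exists_commute_det_eq x hx
    ((P : Matrix (Fin n) (Fin n) F).det)⁻¹
  refine ⟨Z * P, by rw [Matrix.det_mul, hd, inv_mul_cancel₀ hdet], ?_⟩
  rw [← mul_assoc, ← hZ, mul_assoc, ← hP, mul_assoc]

/- piece SLCONJ -/
theorem exists_sl_conj {n : ℕ} (x y : GL (Fin n) F)
    (hx : Module.End.IsSemisimple (Matrix.toLin' (x : Matrix (Fin n) (Fin n) F)))
    (hy : Module.End.IsSemisimple (Matrix.toLin' (y : Matrix (Fin n) (Fin n) F)))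
    (hc : (x : Matrix (Fin n) (Fin n) F).charpoly = (y : Matrix (Fin n) (Fin n) F).charpoly) :
    ∃ g ∈ specialLinear (Fin n) F, g⁻¹ * x * g = y := by
  obtain ⟨g, hg, hxy⟩ := exists_det_one_conj _ _ hx hy hc
  refine ⟨Matrix.GeneralLinearGroup.mkOfDetNeZero g (by rw [hg]; exact one_ne_zero), ?_, ?_⟩
  · show Matrix.GeneralLinearGroup.det _ = 1
    apply Units.ext
    exact hg
  · rw [mul_assoc, inv_mul_eq_iff_eq_mul]
    exact Units.ext hxy

theorem exists_SL_conj {n : ℕ} (x : Matrix.SpecialLinearGroup (Fin n) F) (y : GL (Fin n) F)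
    (hx : Module.End.IsSemisimple (Matrix.toLin' (x : Matrix (Fin n) (Fin n) F)))
    (hy : Module.End.IsSemisimple (Matrix.toLin' (y : Matrix (Fin n) (Fin n) F)))
    (hc : (x : Matrix (Fin n) (Fin n) F).charpoly = (y : Matrix (Fin n) (Fin n) F).charpoly) :
    ∃ P : Matrix.SpecialLinearGroup (Fin n) F,
      (Matrix.SpecialLinearGroup.toGL : Matrix.SpecialLinearGroup (Fin n) F →* GL (Fin n) F)
        (P⁻¹ * x * P) = y := by
  obtain ⟨g, hg, hxy⟩ := exists_det_one_conj _ _ hx hy hc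
  obtain ⟨P, hP⟩ : ∃ P : Matrix.SpecialLinearGroup (Fin n) F, (P : Matrix (Fin n) (Fin n) F) = g :=
    ⟨⟨g, hg⟩, rfl⟩
  refine ⟨P, ?_⟩
  rw [map_mul, map_mul, map_inv, mul_assoc, inv_mul_eq_iff_eq_mul]
  apply Units.ext
  show (x : Matrix (Fin n) (Fin n) F) * (P : Matrix (Fin n) (Fin n) F)
    = (P : Matrix (Fin n) (Fin n) F) * (y : Matrix (Fin n) (Fin n) F)
  rw [hP]
  exact hxy

end Cfsg.Agent.Lib.Helper38EluSLCONJ
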