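import Mathlib
import Cfsg.Prelude.Def_GeometricClasses
import Cfsg.Agent.S0242

set_option autoImplicit false

/-! PROJECT 94, piece CARDSL. -/

namespace Cfsg.Agent.Lib.Helper70EluCARDSL

open Cfsg Cfsg.Geo Matrix Polynomial
open scoped MatrixGroups

variable {F : Type*} [Field F] [Fintype F]

/- piece CARDSL -/
theorem card_SL_mul (n : ℕ) (hn : 0 < n) :
    Nat.card (Matrix.SpecialLinearGroup (Fin n) F) * (Fintype.card F - 1)
      = ∏ i : Fin n, (Fintype.card F ^ n - Fintype.card F ^ (i : ℕ)) := by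
  rw [mul_comm]
  exact Cfsg.Agent.S0242.result rfl n hn

theorem exists_le_of_dvd_card_SL (n r : ℕ) [Fact r.Prime] (hr : ¬ r ∣ Fintype.card F)
    (h : r ∣ Nat.card (Matrix.SpecialLinearGroup (Fin n) F)) :
    ∃ i, 1 ≤ i ∧ i ≤ n ∧ r ∣ Fintype.card F ^ i - 1 := by
  have hp : r.Prime := Fact.out
  rcases Nat.eq_zero_or_pos n with rfl | hn
  · exfalso
    have : Nat.card (Matrix.SpecialLinearGroup (Fin 0) F) = 1 := by
      rw [Nat.card_eq_one_iff_unique]
      refine ⟨⟨fun a b => ?_⟩, ⟨1⟩⟩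
      ext i
      exact i.elim0
    rw [this] at h
    exact hp.one_lt.ne' (Nat.dvd_one.mp h)
  · have h1 : r ∣ ∏ i : Fin n, (Fintype.card F ^ n - Fintype.card F ^ (i : ℕ)) := by
      rw [← card_SL_mul n hn]
      exact Dvd.dvd.mul_right h _
    obtain ⟨i, -, hi⟩ := (Nat.Prime.prime hp).exists_mem_finset_dvd h1
    refine ⟨n - i, by omega, by omega, ?_⟩
    have h2 : Fintype.card F ^ n - Fintype.card F ^ (i : ℕ)
        = Fintype.card F ^ (i : ℕ) * (Fintype.card F ^ (n - i) - 1) := by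
      rw [Nat.mul_sub, mul_one, ← pow_add]
      congr 2
      omega
    rw [h2] at hi
    rcases (Nat.Prime.dvd_mul hp).mp hi with h3 | h3
    · exact absurd (hp.dvd_of_dvd_pow h3) hr
    · exact h3

end Cfsg.Agent.Lib.Helper70EluCARDSL
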