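import Mathlib
import Cfsg.Prelude.Def_GeometricClasses
import Cfsg.Agent.Lib.Helper45Semisimple

set_option autoImplicit false
set_option linter.unusedSectionVars false

namespace Cfsg.Agent.Lib.Helper91EluCHARSQ

open Cfsg Cfsg.Geo Matrix Polynomial
open scoped MatrixGroups

variable {F : Type*} [Field F] [Fintype F]

omit [Fintype F] in
/-- an irreducible factor of the characteristic polynomial divides every annihilating polynomial. -/
theorem irreducible_dvd_of_aeval_eq_zero {n : ℕ} (A : Matrix (Fin n) (Fin n) F) (g b : F[X])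
    (hg : aeval A g = 0) (hb : Irreducible b) (hdvd : b ∣ A.charpoly) : b ∣ g := by
  by_contra hnd
  have hcop : IsCoprime b g := (Irreducible.coprime_iff_not_dvd hb).mpr hnd
  obtain ⟨u, v, huv⟩ := hcop
  have hdvd' : b ∣ (Matrix.toLin' A).charpoly := by rwa [Matrix.charpoly_toLin']
  obtain ⟨x, hx0, hx⟩ :=
    Cfsg.Agent.Lib.Helper45Semisimple.exists_ne_zero_aeval_eq_zero (Matrix.toLin' A) b hb hdvd'
  have hg' : aeval (Matrix.toLin' A) g = 0 := by
    have h1 : aeval (Matrix.toLin' A) g = Matrix.toLinAlgEquiv' (aeval A g) :=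
      (aeval_algHom_apply (Matrix.toLinAlgEquiv' : _ ≃ₐ[F] _).toAlgHom A g)
    rw [h1, hg, map_zero]
  have h2 := congrArg (fun q => aeval (Matrix.toLin' A) q x) huv
  simp only [map_add, map_mul, map_one, LinearMap.add_apply, Module.End.mul_apply, hx, hg',
    LinearMap.zero_apply, map_zero, add_zero, Module.End.one_apply] at h2
  exact hx0 h2.symm

theorem charpoly_of_sq_eq_sq {n : ℕ} (h2 : (2 : F) ≠ 0) (A : Matrix (Fin n) (Fin n) F) (w : F)
    (hw : w ≠ 0) (h : A ^ 2 = (w ^ 2) • (1 : Matrix (Fin n) (Fin n) F)) :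
    ∃ c d : ℕ, c + d = n ∧ A.charpoly = (X - C w) ^ c * (X + C w) ^ d ∧ A.det = w ^ n * (-1) ^ d ∧
      (A - w • (1 : Matrix (Fin n) (Fin n) F)).rank = d := by
  set f : Module.End F (Fin n → F) := Matrix.toLin' A with hf
  have hχ : f.charpoly = A.charpoly := Matrix.charpoly_toLin' A
  set c := A.charpoly.rootMultiplicity w with hc
  set d := A.charpoly.rootMultiplicity (-w) with hd
  set c' := Module.finrank F (f.eigenspace w) with hc'
  set d' := Module.finrank F (f.eigenspace (-w)) with hd'
  have hcc : c' ≤ c := by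
    rw [hc, ← hχ]; exact LinearMap.finrank_eigenspace_le f w
  have hdd : d' ≤ d := by
    rw [hd, ← hχ]; exact LinearMap.finrank_eigenspace_le f (-w)
  -- `n ≤ c' + d'`
  have hff : f * f = (w ^ 2) • (1 : Module.End F (Fin n → F)) := by
    have h1 : f * f = Matrix.toLin' (A ^ 2) := by
      rw [pow_two, Matrix.toLin'_mul]; rfl
    rw [h1, h, map_smul, Matrix.toLin'_one]; rfl
  have hrange : LinearMap.range (f - algebraMap F _ (-w)) ≤ f.eigenspace w := by
    rintro _ ⟨v, rfl⟩
    rw [Module.End.mem_eigenspace_iff]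
    have h3 : f (f v) = w ^ 2 • v := by
      have := congrArg (fun q : Module.End F (Fin n → F) => q v) hff
      simpa using this
    simp only [LinearMap.sub_apply, Module.algebraMap_end_apply, map_sub, map_smul, h3]
    simp only [neg_smul, sub_neg_eq_add, smul_add, smul_smul]
    rw [pow_two, add_comm]
  have hn : n ≤ c' + d' := by
    have h4 := LinearMap.finrank_range_add_finrank_ker (f - algebraMap F _ (-w))
    rw [Module.finrank_fin_fun] at h4
    have h5 : Module.finrank F (LinearMap.range (f - algebraMap F _ (-w))) ≤ c' :=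
      Submodule.finrank_mono hrange
    have h6 : Module.finrank F (LinearMap.ker (f - algebraMap F _ (-w))) = d' := by
      rw [hd', Module.End.eigenspace_def, Algebra.algebraMap_eq_smul_one]
    omega
  -- divisibility
  have hne : w - -w ≠ 0 := by
    intro h0
    have : (2 : F) * w = 0 := by rw [← h0]; ring
    rcases mul_eq_zero.mp this with h | h
    · exact h2 h
    · exact hw h
  have hcop : IsCoprime ((X - C w) ^ c) ((X - C (-w)) ^ d) :=
    (isCoprime_X_sub_C_of_isUnit_sub (isUnit_iff_ne_zero.mpr hne)).pow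
  have hdvd : (X - C w) ^ c * (X - C (-w)) ^ d ∣ A.charpoly :=
    hcop.mul_dvd (pow_rootMultiplicity_dvd _ _) (pow_rootMultiplicity_dvd _ _)
  have hmon : ((X - C w) ^ c * (X - C (-w)) ^ d).Monic :=
    ((monic_X_sub_C w).pow c).mul ((monic_X_sub_C (-w)).pow d)
  have hdeg : ((X - C w) ^ c * (X - C (-w)) ^ d).natDegree = c + d := by
    rw [((monic_X_sub_C w).pow c).natDegree_mul ((monic_X_sub_C (-w)).pow d),
      (monic_X_sub_C w).natDegree_pow, (monic_X_sub_C (-w)).natDegree_pow, natDegree_X_sub_C,
      natDegree_X_sub_C, mul_one, mul_one]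
  have hdegχ : A.charpoly.natDegree = n := by
    rw [Matrix.charpoly_natDegree_eq_dim, Fintype.card_fin]
  have hle : c + d ≤ n := by
    rw [← hdeg, ← hdegχ]
    exact natDegree_le_of_dvd hdvd (Matrix.charpoly_monic A).ne_zero
  have hcd : c + d = n := by omega
  have hc'c : c' = c := by omega
  have heq : A.charpoly = (X - C w) ^ c * (X + C w) ^ d := by
    have := eq_of_monic_of_dvd_of_natDegree_le hmon (Matrix.charpoly_monic A) hdvd
      (by rw [hdeg, hdegχ, hcd])
    rw [this, C_neg, sub_neg_eq_add]
  refine ⟨c, d, hcd, heq, ?_, ?_⟩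
  · rw [Matrix.det_eq_sign_charpoly_coeff, coeff_zero_eq_eval_zero, heq, Fintype.card_fin]
    simp only [eval_mul, eval_pow, eval_sub, eval_add, eval_X, eval_C, zero_sub, zero_add]
    rw [← hcd, neg_pow w c, pow_add, pow_add]
    have : ((-1 : F) ^ c) * (-1) ^ c = 1 := by rw [← mul_pow]; simp
    calc (-1 : F) ^ c * (-1) ^ d * ((-1) ^ c * w ^ c * w ^ d)
        = ((-1 : F) ^ c * (-1) ^ c) * (w ^ c * w ^ d * (-1) ^ d) := by ring
      _ = w ^ c * w ^ d * (-1) ^ d := by rw [this, one_mul]
  · have h7 : (A - w • (1 : Matrix (Fin n) (Fin n) F)).rank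
        = Module.finrank F (LinearMap.range (f - algebraMap F _ w)) := by
      have e : (A - w • (1 : Matrix (Fin n) (Fin n) F)).mulVecLin = f - algebraMap F _ w := by
        rw [← Matrix.toLin'_apply', map_sub, map_smul, Matrix.toLin'_one,
          Algebra.algebraMap_eq_smul_one]
        rfl
      rw [Matrix.rank, e]
    have h8 := LinearMap.finrank_range_add_finrank_ker (f - algebraMap F _ w)
    rw [Module.finrank_fin_fun] at h8
    have h9 : Module.finrank F (LinearMap.ker (f - algebraMap F _ w)) = c' := by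
      rw [hc', Module.End.eigenspace_def, Algebra.algebraMap_eq_smul_one]
    rw [h7]
    omega

theorem charpoly_of_sq_eq_nonsquare {n : ℕ} (A : Matrix (Fin n) (Fin n) F) (z : F)
    (hz : ¬ IsSquare z) (h : A ^ 2 = z • (1 : Matrix (Fin n) (Fin n) F)) :
    ∃ m : ℕ, n = 2 * m ∧ A.charpoly = (X ^ 2 - C z) ^ m := by
  classical
  set g : F[X] := X ^ 2 - C z with hg
  have hirr : Irreducible g := by
    rw [hg, X_pow_sub_C_irreducible_iff_of_prime Nat.prime_two]
    intro b hb
    exact hz ⟨b, by rw [← hb, pow_two]⟩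
  have hgm : g.Monic := monic_X_pow_sub_C z (by norm_num)
  have hgA : aeval A g = 0 := by
    rw [hg, map_sub, map_pow, aeval_X, aeval_C, h, Algebra.algebraMap_eq_smul_one, sub_self]
  have hχ0 : A.charpoly ≠ 0 := (Matrix.charpoly_monic A).ne_zero
  have hall : ∀ b ∈ UniqueFactorizationMonoid.normalizedFactors A.charpoly, b = g := by
    intro b hb
    have hbi := UniqueFactorizationMonoid.irreducible_of_normalized_factor b hb
    have hbd := UniqueFactorizationMonoid.dvd_of_mem_normalizedFactors hb
    have hbn := UniqueFactorizationMonoid.normalize_normalized_factor b hb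
    have hbg := irreducible_dvd_of_aeval_eq_zero A g b hgA hbi hbd
    have hass : Associated b g := hbi.associated_of_dvd hirr hbg
    rw [← hbn, ← hgm.normalize_eq_self]
    exact normalize_eq_normalize hass.dvd hass.dvd'
  set m := Multiset.card (UniqueFactorizationMonoid.normalizedFactors A.charpoly) with hm
  have hrep : UniqueFactorizationMonoid.normalizedFactors A.charpoly = Multiset.replicate m g :=
    Multiset.eq_replicate.mpr ⟨rfl, hall⟩
  have hprod := UniqueFactorizationMonoid.prod_normalizedFactors hχ0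
  rw [hrep, Multiset.prod_replicate] at hprod
  have heq : A.charpoly = g ^ m :=
    (eq_of_monic_of_associated (hgm.pow m) (Matrix.charpoly_monic A) hprod).symm
  refine ⟨m, ?_, heq⟩
  have hdeg := congrArg natDegree heq
  rw [Matrix.charpoly_natDegree_eq_dim, Fintype.card_fin, hgm.natDegree_pow, hg,
    natDegree_X_pow_sub_C] at hdeg
  omega

end Cfsg.Agent.Lib.Helper91EluCHARSQ
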