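import Cfsg.Agent.Lib.Helper13E27d
import Cfsg.Agent.Lib.Helper13EluT3
import Cfsg.Agent.Lib.Helper70EluCARDSL
import Cfsg.Agent.Lib.Helper38EluSEMI
import Cfsg.Agent.Lib.Helper38EluSLCONJ
import Cfsg.Agent.Lib.Helper91EluCHARSQ

set_option autoImplicit false

/-! Row S5998: the forward direction. -/

namespace Cfsg.Agent.Lib.Helper13E27e

open Cfsg Cfsg.Geo Matrix Cfsg.Agent.Lib.Helper13U3C6a Cfsg.Agent.Lib.Helper13U3C6d
  Cfsg.Agent.Lib.Helper13U3C6 Cfsg.Agent.Lib.Helper13E27a Cfsg.Agent.Lib.Helper13E27b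
  Cfsg.Agent.Lib.Helper13E27c Cfsg.Agent.Lib.Helper13E27d
open scoped MatrixGroups

variable {F : Type*} [Field F] [Fintype F]

local notation "M3" => Matrix (Fin 3) (Fin 3) F

omit [Fintype F] in
theorem det_of_mem_SL (x : GL (Fin 3) F) (hx : x ∈ specialLinear (Fin 3) F) : (x : M3).det = 1 := by
  rw [specialLinear, MonoidHom.mem_ker] at hx
  have := congrArg Units.val hx
  simpa using this

theorem forward {p : ℕ} (hF : Fintype.card F = p) (hp3 : p % 3 = 1) (h3 : (3 : F) ≠ 0)
    (R : Subgroup (GL (Fin 3) F)) (hR : Nat.card R = 27) {ω : F} {M : GL (Fin 3) F} (hS : Std R ω M)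
    (r : ℕ) [Fact r.Prime]
    (hΩ : r ∣ (subgroupNormalizer R).relIndex (specialLinear (Fin 3) F))
    (H : ∀ x ∈ specialLinear (Fin 3) F,
      (∃ z : F, ((x ^ r : GL (Fin 3) F) : M3) = z • (1 : M3)) →
      (∀ z : F, (x : M3) ≠ z • (1 : M3)) →
      ∃ g ∈ specialLinear (Fin 3) F, g⁻¹ * x * g ∈ subgroupNormalizer R) :
    r = 2 ∨ (r = 3 ∧ p % 9 = 1) := by
  classical
  have hrp : r.Prime := Fact.out
  have : Finite R := Nat.finite_of_card_ne_zero (by rw [hR]; norm_num)
  by_cases hr2 : r = 2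
  · exact Or.inl hr2
  by_cases hr3 : r = 3
  · right
    refine ⟨hr3, ?_⟩
    subst hr3
    by_contra hp9
    have hp9' : p % 9 = 4 ∨ p % 9 = 7 := by omega
    have hRSL : R ≤ specialLinear (Fin 3) F := by
      intro g hg
      rw [specialLinear, MonoidHom.mem_ker]
      ext
      simpa using det_eq_one hS g hg
    have hRN : R ≤ subgroupNormalizer R := Subgroup.le_normalizer
    have h27 : 27 ∣ Nat.card ((subgroupNormalizer R).subgroupOf (specialLinear (Fin 3) F)) := by
      rw [← hR, ← Nat.card_congr (Subgroup.subgroupOfEquivOfLe hRSL).toEquiv]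
      exact Subgroup.card_dvd_of_le (Subgroup.comap_mono hRN)
    have h81 : 27 * 3 ∣ Nat.card (specialLinear (Fin 3) F) := by
      rw [← Subgroup.card_mul_index ((subgroupNormalizer R).subgroupOf (specialLinear (Fin 3) F))]
      exact mul_dvd_mul h27 hΩ
    rw [Cfsg.Agent.Lib.Helper13EluT3.card_specialLinear] at h81
    have hc := Cfsg.Agent.Lib.Helper70EluCARDSL.card_SL_mul (F := F) 3 (by norm_num)
    rw [hF, Fin.prod_univ_three] at hc
    exact arith p _ hp9' hc h81
  · exfalso
    have hr5 : 5 ≤ r := by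
      have := hrp.two_le
      rcases Nat.lt_or_ge r 5 with h | h
      · interval_cases r <;> first | omega | exact absurd hrp (by norm_num)
      · exact h
    have hdvd : r ∣ Nat.card (specialLinear (Fin 3) F) := hΩ.trans (Subgroup.index_dvd_card _)
    obtain ⟨x, hx⟩ := exists_prime_orderOf_dvd_card' r hdvd
    have hxr : (x : GL (Fin 3) F) ^ r = 1 := by
      have := pow_orderOf_eq_one x
      rw [hx] at this
      exact_mod_cast congrArg Subtype.val this
    have hx1 : (x : GL (Fin 3) F) ≠ 1 := by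
      intro h
      have : x = 1 := Subtype.ext h
      rw [this, orderOf_one] at hx
      exact hrp.one_lt.ne hx
    have hdet := det_of_mem_SL (x : GL (Fin 3) F) x.2
    have hns : ∀ z : F, ((x : GL (Fin 3) F) : M3) ≠ z • (1 : M3) := by
      intro z hz
      have hz3 : z ^ 3 = 1 := by
        rw [hz, Matrix.det_smul, Matrix.det_one, mul_one, Fintype.card_fin] at hdet
        exact hdet
      have hzr : z ^ r = 1 := by
        have h6 := congrArg Units.val hxr
        rw [Units.val_pow_eq_pow_val, hz, smul_pow, one_pow, Units.val_one] at h6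
        have := congrFun (congrFun h6 0) 0
        simpa using this
      have h7 : z ^ (Nat.gcd 3 r) = 1 := pow_gcd_eq_one.2 ⟨hz3, hzr⟩
      rw [(Nat.coprime_primes Nat.prime_three hrp).2 (Ne.symm hr3), pow_one] at h7
      apply hx1
      apply Units.ext
      rw [hz, h7, one_smul, Units.val_one]
    obtain ⟨g, -, hg⟩ := H x x.2 ⟨1, by rw [hxr, one_smul, Units.val_one]⟩ hns
    obtain ⟨t, htdef⟩ : ∃ t, t = g⁻¹ * (x : GL (Fin 3) F) * g := ⟨_, rfl⟩
    rw [← htdef] at hg
    have htr : t ^ r = 1 := by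
      have e : t = g⁻¹ * (x : GL (Fin 3) F) * (g⁻¹)⁻¹ := by rw [inv_inv, htdef]
      rw [e, conj_pow, hxr]
      group
    obtain ⟨r₀, hr₀, hr₀M⟩ := hS.mem (1, 0, 0)
    have hr₀s : (r₀ : M3) = ω • (1 : M3) := by
      rw [rho_Z, mul_smul_comm, mul_one] at hr₀M
      have e := congrArg (fun A => A * ((M⁻¹ : GL (Fin 3) F) : M3)) hr₀M
      simp only [smul_mul_assoc] at e
      rwa [mul_assoc, ← Units.val_mul, mul_inv_cancel, Units.val_one, mul_one] at e
    have hr₀1 : r₀ ≠ 1 := by
      rintro rfl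
      rw [Units.val_one] at hr₀s
      have := congrFun (congrFun hr₀s 0) 0
      simp at this
      exact omega_ne_one h3 hS.hω this.symm
    have hr₀t : t * r₀ * t⁻¹ = r₀ := by
      have e : t * r₀ = r₀ * t := by
        apply Units.ext
        rw [Units.val_mul, Units.val_mul, hr₀s]
        simp
      rw [e, mul_inv_cancel_right]
    have hall := centralizes_of_card' hrp hr5 hR hg (fun s _ => by rw [htr]; simp)
      ⟨r₀, hr₀, hr₀1, hr₀t⟩
    have hcomm : ∀ s ∈ R, t * s = s * t := by
      intro s hs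
      have := hall s hs
      calc t * s = (t * s * t⁻¹) * t := by group
        _ = s * t := by rw [this]
    obtain ⟨z, hz⟩ := scalar_of_commute hS h3 t hcomm
    apply hns z
    have e : (x : GL (Fin 3) F) = g * t * g⁻¹ := by rw [htdef]; group
    rw [e, Units.val_mul, Units.val_mul, hz, mul_smul_comm, smul_mul_assoc, mul_one, ← Units.val_mul,
      mul_inv_cancel, Units.val_one]

end Cfsg.Agent.Lib.Helper13E27e
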