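import Cfsg.Agent.Lib.Helper13E27e

set_option autoImplicit false

/-! Row S5998: the backward direction. -/

namespace Cfsg.Agent.Lib.Helper13E27f

open Cfsg Cfsg.Geo Matrix Polynomial Cfsg.Agent.Lib.Helper13U3C6a Cfsg.Agent.Lib.Helper13U3C6d
  Cfsg.Agent.Lib.Helper13U3C6 Cfsg.Agent.Lib.Helper13E27a Cfsg.Agent.Lib.Helper13E27b
  Cfsg.Agent.Lib.Helper13E27c Cfsg.Agent.Lib.Helper13E27d Cfsg.Agent.Lib.Helper13E27e
open scoped MatrixGroups

variable {F : Type*} [Field F] [Fintype F]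

local notation "M3" => Matrix (Fin 3) (Fin 3) F

omit [Fintype F] in
theorem conj_pow_smul (M D : GL (Fin 3) F) (m : ℕ) (z : F) (h : (D : M3) ^ m = z • 1) :
    ((M * D * M⁻¹ : GL (Fin 3) F) : M3) ^ m = z • 1 := by
  rw [← Units.val_pow_eq_pow_val, conj_pow, Units.val_mul, Units.val_mul, Units.val_pow_eq_pow_val, h,
    mul_smul_comm, smul_mul_assoc, mul_one, ← Units.val_mul, mul_inv_cancel, Units.val_one]

omit [Fintype F] in
theorem conj_charpoly (M D : GL (Fin 3) F) :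
    ((M * D * M⁻¹ : GL (Fin 3) F) : M3).charpoly = (D : M3).charpoly := by
  rw [Units.val_mul, Matrix.charpoly_mul_comm, ← Units.val_mul]
  congr 2
  group

theorem backward2 (h2 : (2 : F) ≠ 0) (R : Subgroup (GL (Fin 3) F)) [Finite R] {ω : F}
    {M : GL (Fin 3) F} (hS : Std R ω M) (x : GL (Fin 3) F) (hx : x ∈ specialLinear (Fin 3) F) (z : F)
    (hz : ((x ^ 2 : GL (Fin 3) F) : M3) = z • (1 : M3)) (hns : ∀ z : F, (x : M3) ≠ z • (1 : M3)) :
    ∃ g ∈ specialLinear (Fin 3) F, g⁻¹ * x * g ∈ subgroupNormalizer R := by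
  have h2' : ((2 : ℕ) : F) ≠ 0 := by exact_mod_cast h2
  have hneg : (-1 : F) ≠ 1 := by
    intro h
    apply h2
    linear_combination -h
  have hdet := det_of_mem_SL x hx
  rw [Units.val_pow_eq_pow_val] at hz
  have hz3 : z ^ 3 = 1 := by
    have := congrArg Matrix.det hz
    rw [Matrix.det_pow, hdet, one_pow, Matrix.det_smul, Matrix.det_one, mul_one, Fintype.card_fin] at this
    exact this.symm
  have hz0 : z ≠ 0 := by
    rintro rfl
    simp at hz3
  obtain ⟨w, hwdef⟩ : ∃ w, w = z * z := ⟨_, rfl⟩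
  have hw2 : w ^ 2 = z := by rw [hwdef]; linear_combination z * hz3
  have hw3 : w ^ 3 = 1 := by rw [hwdef]; linear_combination (z ^ 3 + 1) * hz3
  have hw0 : w ≠ 0 := by rw [hwdef]; exact mul_ne_zero hz0 hz0
  rw [← hw2] at hz
  have key : ∀ A : M3, A ^ 2 = w ^ 2 • 1 → A.det = 1 → (∀ c : F, A ≠ c • (1 : M3)) →
      A.charpoly = (X - C w) ^ 1 * (X + C w) ^ 2 := by
    intro A hA hAd hAns
    obtain ⟨c, d, hcd, hchar, hdet', hrank⟩ :=
      Cfsg.Agent.Lib.Helper91EluCHARSQ.charpoly_of_sq_eq_sq h2 A w hw0 hA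
    rw [hAd, hw3, one_mul] at hdet'
    obtain ⟨d', hd'⟩ := (neg_one_pow_eq_one_iff_even hneg).1 hdet'.symm
    have hd0 : 0 < d := by
      rw [← hrank]
      apply Cfsg.Agent.Lib.Helper13EluT2.rank_pos_of_ne_zero
      intro h
      exact hAns w (sub_eq_zero.1 h)
    have hd2 : d = 2 := by omega
    have hc1 : c = 1 := by omega
    rw [hchar, hd2, hc1]
  -- the element of the normaliser
  let Tw : GL (Fin 3) F := ⟨w • TT, w⁻¹ • TT,
    by rw [smul_mul_smul_comm, TT_sq, mul_inv_cancel₀ hw0, one_smul],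
    by rw [smul_mul_smul_comm, TT_sq, inv_mul_cancel₀ hw0, one_smul]⟩
  have hTw : (Tw : M3) = w • TT := rfl
  have hY : M * Tw * M⁻¹ ∈ subgroupNormalizer R := by
    apply mem_normalizer_of hS
    · exact ⟨(0, 2, 0), by rw [hTw, smul_mul_assoc, TT_rho1, mul_smul_comm]⟩
    · exact ⟨(0, 0, 2), by rw [hTw, smul_mul_assoc, TT_rho2, mul_smul_comm]⟩
  have hTw2 : (Tw : M3) ^ 2 = w ^ 2 • 1 := by
    rw [hTw, _root_.smul_pow, pow_two TT, TT_sq]
  have hY2 := conj_pow_smul M Tw 2 _ hTw2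
  have hYdet : ((M * Tw * M⁻¹ : GL (Fin 3) F) : M3).det = 1 := by
    rw [Units.val_mul, Units.val_mul, Matrix.det_mul, Matrix.det_mul, mul_right_comm, ← Matrix.det_mul,
      ← Units.val_mul, mul_inv_cancel, Units.val_one, Matrix.det_one, one_mul, hTw, Matrix.det_smul,
      TT_det, mul_one, Fintype.card_fin, hw3]
  have hYns : ∀ c : F, ((M * Tw * M⁻¹ : GL (Fin 3) F) : M3) ≠ c • (1 : M3) := by
    intro c hc
    have e : Tw = M⁻¹ * (M * Tw * M⁻¹) * M := by group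
    have e' : (Tw : M3) = c • (1 : M3) := by
      rw [e, Units.val_mul, Units.val_mul, hc, mul_smul_comm, smul_mul_assoc, mul_one, ← Units.val_mul,
        inv_mul_cancel, Units.val_one]
    rw [hTw] at e'
    have e1 := congrFun (congrFun e' 1) 1
    have e2 := congrFun (congrFun e' 0) 0
    have h1 : (-1 : Fin 3) = 2 := by decide
    simp [TT, h1] at e1 e2
    rw [← e1] at e2
    exact hw0 (neg_eq_zero.1 e2)
  have hxs := Cfsg.Agent.Lib.Helper38EluSEMI.semisimple_of_pow_eq_smul 2 h2' _ (w ^ 2)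
    (pow_ne_zero 2 hw0) hz
  have hYs := Cfsg.Agent.Lib.Helper38EluSEMI.semisimple_of_pow_eq_smul 2 h2' _ (w ^ 2)
    (pow_ne_zero 2 hw0) hY2
  obtain ⟨g, hg, hgx⟩ := Cfsg.Agent.Lib.Helper38EluSLCONJ.exists_sl_conj x _ hxs hYs
    (by rw [key _ hz hdet hns, key _ hY2 hYdet hYns])
  exact ⟨g, hg, by rw [hgx]; exact hY⟩

theorem backward3 (h3 : (3 : F) ≠ 0) (hcube : ∀ z : F, z ^ 3 = 1 → ∃ w : F, w ^ 3 = z)
    (R : Subgroup (GL (Fin 3) F)) [Finite R] {ω : F}
    {M : GL (Fin 3) F} (hS : Std R ω M) (x : GL (Fin 3) F) (hx : x ∈ specialLinear (Fin 3) F) (z : F)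
    (hz : ((x ^ 3 : GL (Fin 3) F) : M3) = z • (1 : M3)) :
    ∃ g ∈ specialLinear (Fin 3) F, g⁻¹ * x * g ∈ subgroupNormalizer R := by
  have h3' : ((3 : ℕ) : F) ≠ 0 := by exact_mod_cast h3
  have hω := hS.hω
  have hdet := det_of_mem_SL x hx
  rw [Units.val_pow_eq_pow_val] at hz
  have hz3 : z ^ 3 = 1 := by
    have := congrArg Matrix.det hz
    rw [Matrix.det_pow, hdet, one_pow, Matrix.det_smul, Matrix.det_one, mul_one, Fintype.card_fin] at this
    exact this.symm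
  have hz0 : z ≠ 0 := by
    rintro rfl
    simp at hz3
  obtain ⟨w, hw⟩ := hcube z hz3
  have hG : (X ^ 3 - C z : F[X]) = (X - C w) * (X - C (w * ω)) * (X - C (w * ω * ω)) := by
    have hC : (C ω : F[X]) ^ 2 + C ω + 1 = 0 := by
      rw [← C_pow, ← C_add, ← C_1, ← C_add, hω, C_0]
    rw [← hw]
    simp only [C_mul, C_pow]
    linear_combination (C w * X ^ 2 - C w ^ 2 * C ω * X + C w ^ 3 * (C ω - 1)) * hC
  have hGs : (X ^ 3 - C z : F[X]).Splits := by
    rw [hG]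
    exact ((Splits.X_sub_C _).mul (Splits.X_sub_C _)).mul (Splits.X_sub_C _)
  have hG0 : (X ^ 3 - C z : F[X]) ≠ 0 := X_pow_sub_C_ne_zero (by norm_num) z
  have haeval : aeval (x : M3) (X ^ 3 - C z : F[X]) = 0 := by
    rw [map_sub, map_pow, aeval_X, aeval_C, hz, Algebra.algebraMap_eq_smul_one, sub_self]
  have hdvdG : ∀ g : F[X], Irreducible g → g ∣ (x : M3).charpoly → g ∣ (X ^ 3 - C z : F[X]) :=
    fun g hg hgd =>
      Cfsg.Agent.Lib.Helper91EluCHARSQ.irreducible_dvd_of_aeval_eq_zero _ _ g haeval hg hgd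
  have hχs : (x : M3).charpoly.Splits := by
    rw [splits_iff_splits]
    right
    intro g hg hgd
    exact (hGs.of_dvd hG0 (hdvdG g hg hgd)).degree_eq_one_of_irreducible hg
  have hcard : (x : M3).charpoly.roots.card = 3 := by
    rw [← hχs.natDegree_eq_card_roots, Matrix.charpoly_natDegree_eq_dim, Fintype.card_fin]
  obtain ⟨a₀, a₁, a₂, hroots⟩ := Multiset.card_eq_three.1 hcard
  have hχ : (x : M3).charpoly = (X - C a₀) * (X - C a₁) * (X - C a₂) := by
    have := hχs.eq_prod_roots_of_monic (Matrix.charpoly_monic _)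
    rw [hroots] at this
    rw [this]
    simp [mul_assoc]
  have ha : ∀ a ∈ (x : M3).charpoly.roots, a ^ 3 = z := by
    intro a ha
    have h1 : (X - C a) ∣ (x : M3).charpoly := dvd_iff_isRoot.2 (isRoot_of_mem_roots ha)
    have h2 := dvd_iff_isRoot.1 (hdvdG _ (irreducible_X_sub_C a) h1)
    simp only [IsRoot.def, eval_sub, eval_pow, eval_X, eval_C] at h2
    exact sub_eq_zero.1 h2
  have hd : ∀ k, (![a₀, a₁, a₂] : Fin 3 → F) k ^ 3 = z := by
    intro k
    fin_cases k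
    · exact ha a₀ (by rw [hroots]; simp)
    · exact ha a₁ (by rw [hroots]; simp)
    · exact ha a₂ (by rw [hroots]; simp)
  have hDdet : (Matrix.diagonal (![a₀, a₁, a₂] : Fin 3 → F)).det ≠ 0 := by
    rw [Matrix.det_diagonal, Finset.prod_ne_zero_iff]
    intro k _ h0
    apply hz0
    rw [← hd k, h0]
    simp
  obtain ⟨D, hDdef⟩ : ∃ D : GL (Fin 3) F, (D : M3) = Matrix.diagonal (![a₀, a₁, a₂] : Fin 3 → F) :=
    ⟨Matrix.GeneralLinearGroup.mkOfDetNeZero _ hDdet, rfl⟩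
  have hY : M * D * M⁻¹ ∈ subgroupNormalizer R := by
    apply mem_normalizer_of hS
    · exact ⟨(0, 1, 0), by rw [hDdef, diag_rho1]⟩
    · rw [hDdef]
      exact diag_rho2 hω _ z hz0 hd
  have hD3 : (D : M3) ^ 3 = z • 1 := by
    rw [hDdef, Matrix.diagonal_pow, Matrix.smul_one_eq_diagonal]
    congr 1
    funext k
    exact hd k
  have hY3 := conj_pow_smul M D 3 _ hD3
  have hxs := Cfsg.Agent.Lib.Helper38EluSEMI.semisimple_of_pow_eq_smul 3 h3' _ z hz0 hz
  have hYs := Cfsg.Agent.Lib.Helper38EluSEMI.semisimple_of_pow_eq_smul 3 h3' _ z hz0 hY3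
  obtain ⟨g, hg, hgx⟩ := Cfsg.Agent.Lib.Helper38EluSLCONJ.exists_sl_conj x _ hxs hYs
    (by
      rw [conj_charpoly, hDdef, Matrix.charpoly_diagonal, Fin.prod_univ_three, hχ]
      rfl)
  exact ⟨g, hg, by rw [hgx]; exact hY⟩

end Cfsg.Agent.Lib.Helper13E27f
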