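import Cfsg.Agent.Lib.Helper18Unitary
import Cfsg.Agent.Lib.Helper7SU

set_option autoImplicit false

/-! Unitary diagonalisation: a unitary matrix killed by a product of distinct linear factors
`X - a` with `a ^ (q + 1) = 1` has an orthonormal basis of eigenvectors. -/

namespace Cfsg.Agent.Lib.Helper13E27g

open Matrix Module Cfsg.Agent.Lib.Helper18Herm Cfsg.Agent.Lib.Helper18Unitary
  Cfsg.Agent.Lib.Helper7GU

variable {F : Type*} [Field F] [Fintype F] {q n : ℕ}

local notation "Mn" => Matrix (Fin n) (Fin n) F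
local notation "HH" => Cfsg.hermForm n F q

/-- the product of the `x - a`, `a ∈ l` -/
def pr (x : Mn) (l : List F) : Mn := (l.map (fun a => x - a • (1 : Mn))).prod

omit [Fintype F] in
lemma pr_nil (x : Mn) : pr x [] = 1 := rfl

omit [Fintype F] in
lemma pr_cons (x : Mn) (a : F) (l : List F) : pr x (a :: l) = (x - a • (1 : Mn)) * pr x l := by
  simp [pr]

omit [Fintype F] in
lemma sub_smul_mulVec (x : Mn) (a : F) (u : Fin n → F) :
    (x - a • (1 : Mn)) *ᵥ u = x *ᵥ u + (-a) • u := by
  rw [Matrix.sub_mulVec, Matrix.smul_mulVec, Matrix.one_mulVec, neg_smul, sub_eq_add_neg]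

omit [Fintype F] in
lemma pr_mem (x : Mn) (W : Submodule F (Fin n → F)) (hW : ∀ u ∈ W, x *ᵥ u ∈ W) (l : List F) :
    ∀ u ∈ W, pr x l *ᵥ u ∈ W := by
  induction l with
  | nil => intro u hu; rw [pr_nil, Matrix.one_mulVec]; exact hu
  | cons a l ih =>
    intro u hu
    rw [pr_cons, ← Matrix.mulVec_mulVec, sub_smul_mulVec]
    exact W.add_mem (hW _ (ih u hu)) (W.smul_mem _ (ih u hu))

lemma herm_pr (hF : Fintype.card F = q ^ 2) (x : Mn) (hx : ∀ u v, HH (x *ᵥ u) (x *ᵥ v) = HH u v)
    (a : F) (ha : a ≠ 0) (u : Fin n → F) (hu : x *ᵥ u = a • u) (l : List F)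
    (hl : ∀ b ∈ l, b ^ (q + 1) = 1) (w : Fin n → F) :
    HH u (pr x l *ᵥ w) = (l.map (fun b => a⁻¹ - b⁻¹)).prod * HH u w := by
  induction l with
  | nil => simp [pr_nil]
  | cons b l ih =>
    have hb := hl b (by simp)
    have hb0 : b ≠ 0 := by
      rintro rfl
      simp at hb
    have hbq : b ^ q = b⁻¹ := by
      rw [pow_succ] at hb
      exact eq_inv_of_mul_eq_one_left hb
    have h1 : ∀ w', HH u (x *ᵥ w') = a⁻¹ * HH u w' := by
      intro w'
      have := hx u w'
      rw [hu, herm_smul_left] at this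
      rw [← this, ← mul_assoc, inv_mul_cancel₀ ha, one_mul]
    rw [pr_cons, ← Matrix.mulVec_mulVec, sub_smul_mulVec, herm_add_right hF, herm_smul_right, h1,
      neg_pow_q hF, hbq, ih (fun c hc => hl c (by simp [hc])), List.map_cons, List.prod_cons]
    ring

theorem exists_unit_eigen (hF : Fintype.card F = q ^ 2) (x : Mn)
    (hx : ∀ u v, HH (x *ᵥ u) (x *ᵥ v) = HH u v) :
    ∀ l : List F, l.Nodup → (∀ b ∈ l, b ^ (q + 1) = 1) → ∀ W : Submodule F (Fin n → F),
      Nondeg q W → W ≠ ⊥ → (∀ u ∈ W, x *ᵥ u ∈ W) → (∀ u ∈ W, pr x l *ᵥ u = 0) →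
      ∃ v ∈ W, HH v v = 1 ∧ ∃ a ∈ l, x *ᵥ v = a • v := by
  intro l
  induction l with
  | nil =>
    intro _ _ W _ hne _ h0
    exfalso
    apply hne
    rw [Submodule.eq_bot_iff]
    intro u hu
    have := h0 u hu
    rwa [pr_nil, Matrix.one_mulVec] at this
  | cons a l ih =>
    intro hnd hl W hW hne hinv h0
    have ha := hl a (by simp)
    have ha0 : a ≠ 0 := by
      rintro rfl
      simp at ha
    have hl' : ∀ b ∈ l, b ^ (q + 1) = 1 := fun c hc => hl c (by simp [hc])
    obtain ⟨E, hEdef⟩ : ∃ E : Submodule F (Fin n → F),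
        E = W ⊓ LinearMap.ker (Matrix.mulVecLin (x - a • (1 : Mn))) := ⟨_, rfl⟩
    have hmem : ∀ u, u ∈ E ↔ u ∈ W ∧ x *ᵥ u = a • u := by
      intro u
      rw [hEdef, Submodule.mem_inf, LinearMap.mem_ker, Matrix.mulVecLin_apply, Matrix.sub_mulVec,
        Matrix.smul_mulVec, Matrix.one_mulVec, sub_eq_zero]
    have hprE : ∀ w ∈ W, pr x l *ᵥ w ∈ E := by
      intro w hw
      rw [hmem]
      refine ⟨pr_mem x W hinv l w hw, ?_⟩
      have := h0 w hw
      rw [pr_cons, ← Matrix.mulVec_mulVec, Matrix.sub_mulVec, Matrix.smul_mulVec, Matrix.one_mulVec,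
        sub_eq_zero] at this
      exact this
    by_cases hE : E = ⊥
    · obtain ⟨v, hv, hvv, b, hb, hxv⟩ := ih (List.nodup_cons.1 hnd).2 hl' W hW hne hinv (by
        intro u hu
        have := hprE u hu
        rwa [hE, Submodule.mem_bot] at this)
      exact ⟨v, hv, hvv, b, by simp [hb], hxv⟩
    · have hEn : Nondeg q E := by
        intro u hu hall
        have hu' := (hmem u).1 hu
        apply hW u hu'.1
        intro w hw
        have h1 := hall _ (hprE w hw)
        rw [herm_pr hF x hx a ha0 u hu'.2 l hl'] at h1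
        rcases mul_eq_zero.1 h1 with h | h
        · exfalso
          rw [List.prod_eq_zero_iff, List.mem_map] at h
          obtain ⟨b, hb, hab⟩ := h
          have : a = b := inv_injective (sub_eq_zero.1 hab)
          rw [← this] at hb
          exact (List.nodup_cons.1 hnd).1 hb
        · exact h
      obtain ⟨v, hv, hvv⟩ := exists_unit_vector hF E hEn hE
      exact ⟨v, ((hmem v).1 hv).1, hvv, a, by simp, ((hmem v).1 hv).2⟩

theorem exists_eigen_frame (hF : Fintype.card F = q ^ 2) (x : Mn)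
    (hx : ∀ u v, HH (x *ᵥ u) (x *ᵥ v) = HH u v) (l : List F) (hnd : l.Nodup)
    (hl : ∀ b ∈ l, b ^ (q + 1) = 1) (hP : pr x l = 0) :
    ∀ (k : ℕ) (W : Submodule F (Fin n → F)), finrank F W = k → Nondeg q W →
      (∀ u ∈ W, x *ᵥ u ∈ W) → ∃ w : Fin k → (Fin n → F), (∀ i, w i ∈ W) ∧
      (∀ i j, HH (w i) (w j) = if i = j then 1 else 0) ∧ ∀ i, ∃ a ∈ l, x *ᵥ w i = a • w i := by
  intro k
  induction k with
  | zero =>
    intro W _ _ _
    exact ⟨fun i => i.elim0, fun i => i.elim0, fun i => i.elim0, fun i => i.elim0⟩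
  | succ k ih =>
    intro W hk hW hinv
    have hne : W ≠ ⊥ := by
      rintro rfl
      rw [finrank_bot] at hk
      omega
    obtain ⟨v, hvW, hvv, a, ha, hxv⟩ := exists_unit_eigen hF x hx l hnd hl W hW hne hinv (by
      intro u _
      rw [hP, Matrix.zero_mulVec])
    have ha1 := hl a ha
    have ha0 : a ≠ 0 := by
      rintro rfl
      simp at ha1
    have h1 := finrank_perpIn W v hvW hvv
    obtain ⟨w, hw1, hw2, hw3⟩ := ih (perpIn q W v) (by omega) (nondeg_perpIn hF W hW v hvW hvv) (by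
      intro u hu
      rw [mem_perpIn] at hu ⊢
      refine ⟨hinv u hu.1, ?_⟩
      have h2 := hx u v
      rw [hxv, herm_smul_right, hu.2] at h2
      rcases mul_eq_zero.1 h2 with h | h
      · exact absurd (pow_eq_zero_iff (by have := one_lt_q hF; omega) |>.1 h) ha0
      · exact h)
    refine ⟨Fin.cons v w, ?_, ?_, ?_⟩
    · intro i
      refine Fin.cases ?_ (fun j => ?_) i
      · simpa using hvW
      · simpa using ((mem_perpIn W v _).1 (hw1 j)).1
    · intro i j
      refine Fin.cases ?_ (fun i' => ?_) i <;> refine Fin.cases ?_ (fun j' => ?_) j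
      · simpa using hvv
      · simp only [Fin.cons_zero, Fin.cons_succ]
        rw [herm_zero_of_zero hF ((mem_perpIn W v _).1 (hw1 j')).2, if_neg (Fin.succ_ne_zero j').symm]
      · simp only [Fin.cons_zero, Fin.cons_succ]
        rw [((mem_perpIn W v _).1 (hw1 i')).2, if_neg (Fin.succ_ne_zero i')]
      · simp only [Fin.cons_succ]
        rw [hw2 i' j']
        simp only [Fin.succ_inj]
    · intro i
      refine Fin.cases ?_ (fun j => ?_) i
      · exact ⟨a, ha, by simpa using hxv⟩
      · simpa using hw3 j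

/-- **Unitary diagonalisation.** -/
theorem exists_unitary_diag (hF : Fintype.card F = q ^ 2) (x : Mn) (hx : IsU n F q x) (l : List F)
    (hnd : l.Nodup) (hl : ∀ b ∈ l, b ^ (q + 1) = 1) (hP : pr x l = 0) :
    ∃ (g : Mn) (d : Fin n → F), IsU n F q g ∧ x * g = g * Matrix.diagonal d ∧ ∀ i, d i ∈ l := by
  have hx' := (pres_iff hF x).2 hx
  have hq := one_lt_q hF
  obtain ⟨w, -, hw2, hw3⟩ := exists_eigen_frame hF x hx' l hnd hl hP n ⊤
    (by rw [finrank_top, Module.finrank_fin_fun]) (by
      intro u _ hall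
      funext i
      have := hall (Pi.single i 1) Submodule.mem_top
      rw [Cfsg.hermForm, Finset.sum_eq_single i] at this
      · simpa using this
      · intro b _ hb
        rw [Pi.single_eq_of_ne hb, zero_pow (by omega), mul_zero]
      · simp) (fun _ _ => Submodule.mem_top)
  choose d hd hxd using hw3
  refine ⟨Matrix.of fun i j => w j i, d, ?_, ?_, hd⟩
  · unfold IsU
    ext j l
    rw [entry_eq, Matrix.one_apply]
    exact hw2 j l
  · ext i j
    have h1 : (x * Matrix.of fun i j => w j i) i j = (x *ᵥ w j) i := rfl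
    rw [h1, hxd j, Matrix.mul_diagonal]
    simp [mul_comm]

end Cfsg.Agent.Lib.Helper13E27g
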