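import Cfsg.Agent.Lib.Helper13U3C6b

set_option autoImplicit false

/-! `SU_3(5)`, class 6: transport of the concrete statement to an arbitrary field with 25 elements. -/

namespace Cfsg.Agent.Lib.Helper13U3C6c

open Cfsg Cfsg.Geo Matrix Cfsg.Agent.Lib.Helper13F25 Cfsg.Agent.Lib.Helper13U3C6a
  Cfsg.Agent.Lib.Helper13U3C6b
open scoped MatrixGroups

variable {F F' : Type*} [Field F] [Field F'] {n : ℕ}

/-- transport of matrices along a field isomorphism -/
noncomputable def Phi (ψ : F ≃+* F') : GL (Fin n) F ≃* GL (Fin n) F' :=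
  Units.mapEquiv (RingEquiv.mapMatrix ψ).toMulEquiv

lemma Phi_val (ψ : F ≃+* F') (g : GL (Fin n) F) :
    ((Phi ψ g : GL (Fin n) F') : Matrix (Fin n) (Fin n) F') =
      (g : Matrix (Fin n) (Fin n) F).map ψ := rfl

lemma herm_map (ψ : F ≃+* F') (q : ℕ) (u v : Fin n → F) :
    hermForm n F' q (ψ ∘ u) (ψ ∘ v) = ψ (hermForm n F q u v) := by
  unfold hermForm
  simp [map_sum, map_mul, map_pow]

lemma map_mulVec' (ψ : F ≃+* F') (M : Matrix (Fin n) (Fin n) F) (u : Fin n → F) :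
    (M.map ψ) *ᵥ (ψ ∘ u) = ψ ∘ (M *ᵥ u) := by
  funext i
  exact (RingHom.map_mulVec (ψ : F →+* F') M u i).symm

lemma mem_GU_map (ψ : F ≃+* F') (q : ℕ) (g : GL (Fin n) F) :
    g ∈ GU n F q ↔ Phi ψ g ∈ GU n F' q := by
  constructor
  · intro h u' v'
    obtain ⟨u, rfl⟩ : ∃ u : Fin n → F, u' = ψ ∘ u :=
      ⟨ψ.symm ∘ u', by funext i; simp⟩
    obtain ⟨v, rfl⟩ : ∃ v : Fin n → F, v' = ψ ∘ v :=
      ⟨ψ.symm ∘ v', by funext i; simp⟩
    simp only [Units.coeHom_apply]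
    rw [Phi_val, map_mulVec', map_mulVec', herm_map, herm_map]
    have := h u v
    simp only [Units.coeHom_apply] at this
    rw [this]
  · intro h u v
    have := h (ψ ∘ u) (ψ ∘ v)
    simp only [Units.coeHom_apply] at this ⊢
    rw [Phi_val, map_mulVec', map_mulVec', herm_map, herm_map] at this
    exact ψ.injective this

lemma mem_SL_iff' {R : Type*} [Field R] (x : GL (Fin n) R) : x ∈ specialLinear (Fin n) R ↔
    (x : Matrix (Fin n) (Fin n) R).det = 1 := by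
  constructor
  · intro h
    have h3 : Matrix.GeneralLinearGroup.det x = 1 := h
    simpa using congrArg Units.val h3
  · intro h
    show Matrix.GeneralLinearGroup.det x = 1
    apply Units.ext
    simpa using h

lemma mem_SL_map (ψ : F ≃+* F') (g : GL (Fin n) F) :
    g ∈ specialLinear (Fin n) F ↔ Phi ψ g ∈ specialLinear (Fin n) F' := by
  rw [mem_SL_iff', mem_SL_iff', Phi_val]
  have e3 : ((g : Matrix (Fin n) (Fin n) F).map ψ).det = ψ (g : Matrix (Fin n) (Fin n) F).det :=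
    ((ψ : F →+* F').map_det _).symm
  rw [e3]
  constructor
  · intro h; rw [h, map_one]
  · intro h; exact ψ.injective (by rw [h, map_one])

lemma mem_G_map (ψ : F ≃+* F') (q : ℕ) (g : GL (Fin n) F) :
    g ∈ GU n F q ⊓ specialLinear (Fin n) F ↔ Phi ψ g ∈ GU n F' q ⊓ specialLinear (Fin n) F' :=
  and_congr (mem_GU_map ψ q g) (mem_SL_map ψ g)

lemma wv_map (ψ : F ≃+* F') (ω : F) (m : Fin 3) : ψ (wv ω m) = wv (ψ ω) m := by
  fin_cases m
  · exact map_one ψ
  · rfl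
  · exact map_mul ψ ω ω

lemma rho_map (ψ : F ≃+* F') (ω : F) (i : I27) : (rho ω i).map ψ = rho (ψ ω) i := by
  ext k l
  simp only [rho, Matrix.map_apply, Matrix.of_apply]
  split_ifs
  · exact wv_map ψ ω _
  · exact map_zero ψ

lemma map_mul' (ψ : F ≃+* F') (A B : Matrix (Fin n) (Fin n) F) :
    (A * B).map ψ = A.map ψ * B.map ψ := Matrix.map_mul (f := (ψ : F →+* F'))

/-- the statement over an arbitrary field with 25 elements -/
theorem mainF [Fintype F] (hF : Fintype.card F = 25) : ∃ ω : F, ω ^ 2 + ω + 1 = 0 ∧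
    Function.Injective (rho ω) ∧
    ∃ L : Subgroup (GL (Fin 3) F), L ≤ GU 3 F 5 ⊓ specialLinear (Fin 3) F ∧
      L ≠ GU 3 F 5 ⊓ specialLinear (Fin 3) F ∧
      (∀ h ∈ GU 3 F 5 ⊓ specialLinear (Fin 3) F,
        (∀ i, ∃ j, (h : Matrix (Fin 3) (Fin 3) F) * rho ω i = rho ω j * h) → h ∈ L) ∧
      ∃ t ∈ L, ∀ j, (t : Matrix (Fin 3) (Fin 3) F) * rho ω (0, 1, 0) ≠ rho ω j * t := by
  let ψ := equivF25 hF
  have hψ : ψ (ψ.symm w0) = w0 := ψ.apply_symm_apply w0
  have hmapinj : Function.Injective (fun M : Matrix (Fin 3) (Fin 3) F => M.map ψ) :=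
    Matrix.map_injective ψ.injective
  have hr : ∀ i, rho w0 i = (rho (ψ.symm w0) i).map ψ := fun i => by rw [rho_map, hψ]
  obtain ⟨L, hL1, hL2, hL3, t, ht, ht'⟩ := main25
  refine ⟨ψ.symm w0, ?_, ?_, L.comap (Phi ψ).toMonoidHom, ?_, ?_, ?_, ?_⟩
  · apply ψ.injective
    rw [map_add, map_add, map_pow, hψ, map_one, map_zero]
    exact w0_rel
  · intro i j hij
    apply rho_inj
    rw [hr, hr, hij]
  · intro m hm
    exact (mem_G_map ψ 5 m).mpr (hL1 hm)
  · intro h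
    apply hL2
    apply le_antisymm hL1
    intro x hx
    obtain ⟨y, rfl⟩ := (Phi ψ).surjective x
    have h1 := (mem_G_map ψ 5 y).mpr hx
    rw [← h] at h1
    exact h1
  · intro h hh hn
    apply hL3 _ ((mem_G_map ψ 5 h).mp hh)
    intro i
    obtain ⟨j, hj⟩ := hn i
    refine ⟨j, ?_⟩
    rw [Phi_val, hr, hr, ← map_mul', ← map_mul', hj]
  · obtain ⟨y, rfl⟩ := (Phi ψ).surjective t
    refine ⟨y, ht, fun j hj => ht' j ?_⟩
    rw [Phi_val, hr, hr, ← map_mul', ← map_mul', hj]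

end Cfsg.Agent.Lib.Helper13U3C6c
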