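import Cfsg.Agent.Lib.Helper13E27g
import Cfsg.Agent.Lib.Helper13E27f
import Cfsg.Agent.Lib.Helper13U3C6c

set_option autoImplicit false

/-! Row S5999: unitary tools. -/

namespace Cfsg.Agent.Lib.Helper13E27h

open Cfsg Cfsg.Geo Matrix Cfsg.Agent.Lib.Helper13U3C6a Cfsg.Agent.Lib.Helper13U3C6d
  Cfsg.Agent.Lib.Helper13U3C6 Cfsg.Agent.Lib.Helper13E27a Cfsg.Agent.Lib.Helper13E27b
  Cfsg.Agent.Lib.Helper13E27c Cfsg.Agent.Lib.Helper13E27d Cfsg.Agent.Lib.Helper7GU
  Cfsg.Agent.Lib.Helper7SU Cfsg.Agent.Lib.Helper18Herm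
open scoped MatrixGroups

variable {F : Type*} [Field F] [Fintype F] {q n : ℕ}

local notation "Mn" => Matrix (Fin n) (Fin n) F
local notation "M3" => Matrix (Fin 3) (Fin 3) F

/-- the adjoint matrix -/
def dag (q : ℕ) (A : Mn) : Mn := (A.map (fun x => x ^ q))ᵀ

lemma dag_mul (hF : Fintype.card F = q ^ 2) (A B : Mn) : dag q (A * B) = dag q B * dag q A := by
  have h : ∀ A : Mn, A.map (fun x => x ^ q) = A.map (sig hF) := fun A => rfl
  unfold dag
  rw [h, h, h, Matrix.map_mul, Matrix.transpose_mul]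

omit [Fintype F] in
lemma dag_smul (c : F) (A : Mn) : dag q (c • A) = c ^ q • dag q A := by
  ext i j
  simp [dag, mul_pow]

omit [Fintype F] in
lemma isU_iff_dag (A : Mn) : IsU n F q A ↔ dag q A * A = 1 := by
  constructor
  · intro h
    exact (isU_mul_comm A h).1
  · intro h
    unfold IsU
    have := congrArg Matrix.transpose h
    rwa [Matrix.transpose_mul, dag, Matrix.transpose_transpose, Matrix.transpose_one] at this

lemma isU_mul (hF : Fintype.card F = q ^ 2) (A B : Mn) (hA : IsU n F q A) (hB : IsU n F q B) :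
    IsU n F q (A * B) := by
  rw [isU_iff_dag] at *
  rw [dag_mul hF, mul_assoc, ← mul_assoc (dag q A), hA, one_mul, hB]

lemma isU_rho (hF : Fintype.card F = q ^ 2) (h3 : 3 ∣ q + 1) {ω : F} (hω : ω ^ 2 + ω + 1 = 0)
    (i : I27) : IsU 3 F q (rho ω i) := by
  rw [← pres_iff hF]
  intro u v
  rw [rho_mulVec, rho_mulVec]
  unfold Cfsg.hermForm act
  rw [← (Equiv.subRight i.2.2).sum_comp (fun k => u k * v k ^ q)]
  apply Finset.sum_congr rfl
  intro k _
  obtain ⟨m, hm⟩ := h3
  have h1 : wv ω (i.1 + i.2.1 * k) ^ (q + 1) = 1 := by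
    rw [hm, pow_mul, wv_cube (omega_cube hω), one_pow]
  simp only [Equiv.subRight_apply]
  rw [mul_pow]
  linear_combination (u (k - i.2.2) * v (k - i.2.2) ^ q) * h1

lemma isU_TT (hF : Fintype.card F = q ^ 2) (hq : Odd q) : IsU 3 F q (TT : M3) := by
  rw [isU_iff_dag]
  have : dag q (TT : M3) = TT := by
    ext k l
    have h : ∀ k l : Fin 3, (k = -l) ↔ (l = -k) := by decide
    by_cases hkl : l = -k
    · simp [dag, TT, hkl, hq.neg_one_pow]
    · have hkl' : ¬ k = -l := fun h' => hkl ((h k l).1 h')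
      have hq0 : q ≠ 0 := by rintro rfl; simp at hq
      simp [dag, TT, hkl, hkl', hq0]
  rw [this, TT_sq]

/-- the conjugating matrix of the normal form may be taken unitary -/
theorem exists_std_unitary (hF : Fintype.card F = q ^ 2) (h3 : (3 : F) ≠ 0) (hq3 : 3 ∣ q + 1)
    (R : Subgroup (GL (Fin 3) F)) (hRU : R ≤ Cfsg.GU 3 F q) {ω : F} {M : GL (Fin 3) F}
    (hS : Std R ω M) : ∃ M' : GL (Fin 3) F, M' ∈ Cfsg.GU 3 F q ∧ Std R ω M' := by
  classical
  have hq := one_lt_q hF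
  obtain ⟨G, hG⟩ : ∃ G : M3, G = dag q (M : M3) * (M : M3) := ⟨_, rfl⟩
  have hcomm : ∀ i, G * rho ω i = rho ω i * G := by
    intro i
    obtain ⟨r, hr, hri⟩ := hS.mem i
    have hrU : dag q (r : M3) * (r : M3) = 1 := (isU_iff_dag _).1 ((mem_GU_iff hF r).1 (hRU hr))
    have hρ := isU_mul_comm _ (isU_rho hF hq3 hS.hω i)
    have h1 : dag q (rho ω i) * G * rho ω i = G := by
      calc dag q (rho ω i) * G * rho ω i
          = dag q ((M : M3) * rho ω i) * ((M : M3) * rho ω i) := by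
            rw [dag_mul hF, hG]; simp only [mul_assoc]
        _ = dag q (M : M3) * (dag q (r : M3) * (r : M3)) * (M : M3) := by
            rw [← hri, dag_mul hF]; simp only [mul_assoc]
        _ = G := by rw [hrU, mul_one, hG]
    calc G * rho ω i = (rho ω i * dag q (rho ω i)) * G * rho ω i := by
          rw [show rho ω i * dag q (rho ω i) = 1 from hρ.2, one_mul]
      _ = rho ω i * (dag q (rho ω i) * G * rho ω i) := by simp only [mul_assoc]
      _ = rho ω i * G := by rw [h1]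
  have hsc := scalar_of_commute_rho h3 hS.hω G (hcomm _) (hcomm _)
  obtain ⟨c, hc⟩ : ∃ c, c = G 0 0 := ⟨_, rfl⟩
  rw [← hc] at hsc
  have hcH : c = Cfsg.hermForm 3 F q (fun k => (M : M3) k 0) (fun k => (M : M3) k 0) := by
    rw [hc, hG, Matrix.mul_apply]
    unfold Cfsg.hermForm dag
    apply Finset.sum_congr rfl
    intro k _
    simp [mul_comm]
  have hcfix : c ^ q = c := by
    rw [hcH]
    exact herm_conj hF _ _
  have hc0 : c ≠ 0 := by
    rintro rfl
    rw [zero_smul] at hsc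
    have hMu : IsUnit (M : M3) := M.isUnit
    rw [hG] at hsc
    have h1 := (hMu.mul_left_eq_zero).1 hsc
    have h2 : (M : M3) 0 = 0 ∧ True := by
      refine ⟨?_, trivial⟩
      funext l
      have := congrFun (congrFun h1 l) 0
      simp only [dag, Matrix.transpose_apply, Matrix.map_apply, Matrix.zero_apply] at this
      exact (pow_eq_zero_iff (by omega)).1 this
    have h4 : (M : M3).det = 0 := Matrix.det_eq_zero_of_row_eq_zero 0 (fun j => congrFun h2.1 j)
    exact ((Matrix.isUnit_iff_isUnit_det _).1 hMu).ne_zero h4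
  have h1 := card_norm_fibre hF c⁻¹ (by rw [inv_pow, hcfix]) (inv_ne_zero hc0)
  have hne : (Finset.univ.filter (fun a : F => a ^ (q + 1) = c⁻¹)).Nonempty := by
    rw [← Finset.card_pos, h1]; omega
  obtain ⟨l, hl⟩ := hne
  simp only [Finset.mem_filter, Finset.mem_univ, true_and] at hl
  have hU : IsU 3 F q (l • (M : M3)) := by
    rw [isU_iff_dag, dag_smul, smul_mul_smul_comm, ← hG, hsc, smul_smul, ← pow_succ, hl,
      inv_mul_cancel₀ hc0, one_smul]
  refine ⟨((guEquivIsU hF).symm ⟨_, hU⟩).1, ((guEquivIsU hF).symm ⟨_, hU⟩).2, hS.hω, ?_, ?_⟩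
  · intro i
    obtain ⟨r, hr, hri⟩ := hS.mem i
    refine ⟨r, hr, ?_⟩
    show (r : M3) * (l • (M : M3)) = (l • (M : M3)) * rho ω i
    rw [mul_smul_comm, hri, smul_mul_assoc]
  · intro r hr
    obtain ⟨i, hri⟩ := hS.all r hr
    refine ⟨i, ?_⟩
    show (r : M3) * (l • (M : M3)) = (l • (M : M3)) * rho ω i
    rw [mul_smul_comm, hri, smul_mul_assoc]

omit [Fintype F] in
/-- permuting the columns of a diagonalising unitary matrix -/
theorem perm_cols (x g : Mn) (d : Fin n → F) (hg : IsU n F q g)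
    (hx : x * g = g * Matrix.diagonal d) (σ : Equiv.Perm (Fin n)) :
    IsU n F q (g.submatrix id σ) ∧
      x * g.submatrix id σ = g.submatrix id σ * Matrix.diagonal (d ∘ σ) := by
  constructor
  · unfold IsU at *
    ext j l
    have := congrFun (congrFun hg (σ j)) (σ l)
    rw [entry_eq] at this ⊢
    rw [Matrix.one_apply] at this ⊢
    simp only [Matrix.submatrix_apply, id_eq]
    rw [this]
    simp [σ.injective.eq_iff]
  · ext i j
    have := congrFun (congrFun hx i) (σ j)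
    rw [Matrix.mul_diagonal] at this ⊢
    rw [Matrix.mul_apply] at this ⊢
    simpa using this

/-- two elements with the same unitary diagonal form are conjugate in the special unitary group -/
theorem exists_su_conj (hF : Fintype.card F = q ^ 2) (i0 : Fin n) (x y : GL (Fin n) F) (g g₂ : Mn)
    (hg : IsU n F q g) (hg₂ : IsU n F q g₂) (d : Fin n → F)
    (hx : (x : Mn) * g = g * Matrix.diagonal d) (hy : (y : Mn) * g₂ = g₂ * Matrix.diagonal d) :
    ∃ c ∈ Cfsg.GU n F q ⊓ specialLinear (Fin n) F, c⁻¹ * x * c = y := by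
  have hq := one_lt_q hF
  obtain ⟨A, hAU, hA⟩ : ∃ A : GL (Fin n) F, A ∈ Cfsg.GU n F q ∧ (A : Mn) = g :=
    ⟨((guEquivIsU hF).symm ⟨_, hg⟩).1, ((guEquivIsU hF).symm ⟨_, hg⟩).2, rfl⟩
  obtain ⟨B, hBU, hB⟩ : ∃ B : GL (Fin n) F, B ∈ Cfsg.GU n F q ∧ (B : Mn) = g₂ :=
    ⟨((guEquivIsU hF).symm ⟨_, hg₂⟩).1, ((guEquivIsU hF).symm ⟨_, hg₂⟩).2, rfl⟩
  have hdg := det_pow_of_isU hF g hg
  have hdg₂ := det_pow_of_isU hF g₂ hg₂
  have hg0 : g.det ≠ 0 := by
    intro h
    rw [h, zero_pow (by omega)] at hdg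
    exact zero_ne_one hdg
  obtain ⟨ε, hε⟩ : ∃ ε, ε = g₂.det * g.det⁻¹ := ⟨_, rfl⟩
  have hε1 : ε ^ (q + 1) = 1 := by rw [hε, mul_pow, inv_pow, hdg, hdg₂, inv_one, mul_one]
  have hEU := isU_diag (n := n) (F := F) (q := q) (by omega) ε hε1 i0
  obtain ⟨E, hEU', hE⟩ : ∃ E : GL (Fin n) F, E ∈ Cfsg.GU n F q ∧
      (E : Mn) = Matrix.diagonal (fun k => if k = i0 then ε else 1) :=
    ⟨((guEquivIsU hF).symm ⟨_, hEU⟩).1, ((guEquivIsU hF).symm ⟨_, hEU⟩).2, rfl⟩
  have hEdet : (E : Mn).det = ε := by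
    rw [hE, Matrix.det_diagonal, Finset.prod_ite_eq' Finset.univ i0 (fun _ => ε)]
    simp
  refine ⟨A * E * B⁻¹, Subgroup.mem_inf.2 ⟨?_, ?_⟩, ?_⟩
  · exact mul_mem (mul_mem hAU hEU') (inv_mem hBU)
  · rw [Cfsg.Agent.Lib.Helper13U3C6c.mem_SL_iff']
    have h1 : ((B⁻¹ : GL (Fin n) F) : Mn).det * g₂.det = 1 := by
      rw [← hB, ← Matrix.det_mul, ← Units.val_mul, inv_mul_cancel, Units.val_one, Matrix.det_one]
    rw [Units.val_mul, Units.val_mul, Matrix.det_mul, Matrix.det_mul, hA, hEdet, hε]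
    have h2 : g.det * g.det⁻¹ = 1 := mul_inv_cancel₀ hg0
    linear_combination h1 + (g₂.det * ((B⁻¹ : GL (Fin n) F) : Mn).det) * h2
  · have key : x * (A * E * B⁻¹) = (A * E * B⁻¹) * y := by
      have e1 : x * A * E = A * E * (B⁻¹ * y * B) := by
        apply Units.ext
        have e2 : ((B⁻¹ * y * B : GL (Fin n) F) : Mn) = Matrix.diagonal d := by
          rw [Units.val_mul, Units.val_mul, mul_assoc, hB, hy, ← hB, ← mul_assoc, ← Units.val_mul,
            inv_mul_cancel, Units.val_one, one_mul]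
        rw [Units.val_mul, Units.val_mul, Units.val_mul (A * E), Units.val_mul A, e2, hA, hx, hE,
          mul_assoc, mul_assoc, Matrix.diagonal_mul_diagonal, Matrix.diagonal_mul_diagonal]
        congr 2
        funext k
        rw [mul_comm]
      calc x * (A * E * B⁻¹) = (x * A * E) * B⁻¹ := by group
        _ = (A * E * (B⁻¹ * y * B)) * B⁻¹ := by rw [e1]
        _ = _ := by group
    calc (A * E * B⁻¹)⁻¹ * x * (A * E * B⁻¹) = (A * E * B⁻¹)⁻¹ * (x * (A * E * B⁻¹)) := by group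
      _ = y := by rw [key]; group

/-- the order of the special unitary group as a subgroup of `GL` -/
theorem card_SU_inf (hF : Fintype.card F = q ^ 2) (hn : 1 ≤ n) :
    (q + 1) * Nat.card (Cfsg.GU n F q ⊓ specialLinear (Fin n) F : Subgroup (GL (Fin n) F))
      = Nat.card (Cfsg.GU n F q) := by
  rw [← card_SU_mul hF hn, Nat.card_congr (suEquivKer hF)]
  congr 1
  have h : (detGU n F q).ker
      = (Cfsg.GU n F q ⊓ specialLinear (Fin n) F).subgroupOf (Cfsg.GU n F q) := by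
    ext g
    rw [MonoidHom.mem_ker, Subgroup.mem_subgroupOf, Subgroup.mem_inf]
    constructor
    · intro h
      exact ⟨g.2, h⟩
    · intro h
      exact h.2
  rw [h]
  exact (Nat.card_congr (Subgroup.subgroupOfEquivOfLe inf_le_left).toEquiv).symm

end Cfsg.Agent.Lib.Helper13E27h
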