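import Cfsg.Agent.Lib.Helper13E27h

set_option autoImplicit false

/-! Row S5999: forward and backward directions. -/

namespace Cfsg.Agent.Lib.Helper13E27i

open Cfsg Cfsg.Geo Matrix Polynomial Cfsg.Agent.Lib.Helper13U3C6a Cfsg.Agent.Lib.Helper13U3C6d
  Cfsg.Agent.Lib.Helper13U3C6 Cfsg.Agent.Lib.Helper13E27a Cfsg.Agent.Lib.Helper13E27b
  Cfsg.Agent.Lib.Helper13E27c Cfsg.Agent.Lib.Helper13E27d Cfsg.Agent.Lib.Helper13E27e
  Cfsg.Agent.Lib.Helper13E27f Cfsg.Agent.Lib.Helper13E27g Cfsg.Agent.Lib.Helper13E27h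
  Cfsg.Agent.Lib.Helper7GU Cfsg.Agent.Lib.Helper7SU Cfsg.Agent.Lib.Helper18Herm
open scoped MatrixGroups

variable {F : Type*} [Field F] [Fintype F]

local notation "M3" => Matrix (Fin 3) (Fin 3) F

lemma dec81 : ∀ s : ZMod 81, (s.val % 9 = 2 ∨ s.val % 9 = 5) →
    s ^ 3 * (s ^ 2 - 1) * (s ^ 3 + 1) ≠ 0 := by decide +kernel

lemma arithU (p c : ℕ) (hp : p % 9 = 2 ∨ p % 9 = 5)
    (h : (p + 1) * c = p ^ 3 * ((p + 1) * (p ^ 2 - 1) * (p ^ 3 + 1))) : ¬ 81 ∣ c := by
  rintro ⟨k, rfl⟩
  have hp1 : 1 ≤ p := by omega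
  have h0 : 81 * k = p ^ 3 * ((p ^ 2 - 1) * (p ^ 3 + 1)) := by
    apply Nat.eq_of_mul_eq_mul_left (show 0 < p + 1 by omega)
    rw [h]
    ring
  have h1 := congrArg (Nat.cast : ℕ → ZMod 81) h0
  have e0 : 1 ≤ p ^ 2 := Nat.one_le_pow _ _ hp1
  push_cast [Nat.cast_sub e0] at h1
  have h2 : (81 * (k : ZMod 81)) = 0 := by
    have : (81 : ZMod 81) = 0 := by decide
    rw [this, zero_mul]
  rw [h2] at h1
  apply dec81 (p : ZMod 81) _
  · linear_combination -h1
  · rw [ZMod.val_natCast, Nat.mod_mod_of_dvd _ (by norm_num : 9 ∣ 81)]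
    exact hp

theorem forwardU {p : ℕ} (hF : Fintype.card F = p ^ 2) (hp3 : p % 3 = 2) (h3 : (3 : F) ≠ 0)
    (R : Subgroup (GL (Fin 3) F)) (hRU : R ≤ Cfsg.GU 3 F p) (hR : Nat.card R = 27) {ω : F}
    {M : GL (Fin 3) F} (hS : Std R ω M)
    (r : ℕ) [Fact r.Prime]
    (hΩ : r ∣ (subgroupNormalizer R).relIndex (Cfsg.GU 3 F p ⊓ specialLinear (Fin 3) F))
    (H : ∀ x ∈ Cfsg.GU 3 F p ⊓ specialLinear (Fin 3) F,
      (∃ z : F, ((x ^ r : GL (Fin 3) F) : M3) = z • (1 : M3)) →
      (∀ z : F, (x : M3) ≠ z • (1 : M3)) →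
      ∃ g ∈ Cfsg.GU 3 F p ⊓ specialLinear (Fin 3) F, g⁻¹ * x * g ∈ subgroupNormalizer R) :
    r = 2 ∨ (r = 3 ∧ p % 9 = 8) := by
  classical
  have hrp : r.Prime := Fact.out
  have : Finite R := Nat.finite_of_card_ne_zero (by rw [hR]; norm_num)
  by_cases hr2 : r = 2
  · exact Or.inl hr2
  by_cases hr3 : r = 3
  · right
    refine ⟨hr3, ?_⟩
    subst hr3
    by_contra hp9
    have hp9' : p % 9 = 2 ∨ p % 9 = 5 := by omega
    have hRSL : R ≤ Cfsg.GU 3 F p ⊓ specialLinear (Fin 3) F := by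
      intro g hg
      refine Subgroup.mem_inf.2 ⟨hRU hg, ?_⟩
      rw [specialLinear, MonoidHom.mem_ker]
      ext
      simpa using det_eq_one hS g hg
    have hRN : R ≤ subgroupNormalizer R := Subgroup.le_normalizer
    have h27 : 27 ∣ Nat.card ((subgroupNormalizer R).subgroupOf
        (Cfsg.GU 3 F p ⊓ specialLinear (Fin 3) F)) := by
      rw [← hR, ← Nat.card_congr (Subgroup.subgroupOfEquivOfLe hRSL).toEquiv]
      exact Subgroup.card_dvd_of_le (Subgroup.comap_mono hRN)
    have h81 : 27 * 3 ∣ Nat.card (Cfsg.GU 3 F p ⊓ specialLinear (Fin 3) F :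
        Subgroup (GL (Fin 3) F)) := by
      rw [← Subgroup.card_mul_index ((subgroupNormalizer R).subgroupOf
        (Cfsg.GU 3 F p ⊓ specialLinear (Fin 3) F))]
      exact mul_dvd_mul h27 hΩ
    have hc := card_SU_inf (n := 3) hF (by norm_num)
    rw [card_GU hF 3] at hc
    have e : (∏ i ∈ Finset.range 3, (if Even i then p ^ (i + 1) + 1 else p ^ (i + 1) - 1))
        = (p + 1) * (p ^ 2 - 1) * (p ^ 3 + 1) := by
      rw [Finset.prod_range_succ, Finset.prod_range_succ, Finset.prod_range_succ,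
        Finset.prod_range_zero, if_pos (by decide), if_neg (by decide), if_pos (by decide)]
      simp
    rw [e] at hc
    exact arithU p _ hp9' hc h81
  · exfalso
    have hr5 : 5 ≤ r := by
      have := hrp.two_le
      rcases Nat.lt_or_ge r 5 with h | h
      · interval_cases r <;> first | omega | exact absurd hrp (by norm_num)
      · exact h
    have hdvd : r ∣ Nat.card (Cfsg.GU 3 F p ⊓ specialLinear (Fin 3) F : Subgroup (GL (Fin 3) F)) :=
      hΩ.trans (Subgroup.index_dvd_card _)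
    obtain ⟨x, hx⟩ := exists_prime_orderOf_dvd_card' r hdvd
    have hxr : (x : GL (Fin 3) F) ^ r = 1 := by
      have := pow_orderOf_eq_one x
      rw [hx] at this
      exact_mod_cast congrArg Subtype.val this
    have hx1 : (x : GL (Fin 3) F) ≠ 1 := by
      intro h
      have : x = 1 := Subtype.ext h
      rw [this, orderOf_one] at hx
      exact hrp.one_lt.ne hx
    have hdet := det_of_mem_SL (x : GL (Fin 3) F) (Subgroup.mem_inf.1 x.2).2
    have hns : ∀ z : F, ((x : GL (Fin 3) F) : M3) ≠ z • (1 : M3) := by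
      intro z hz
      have hz3 : z ^ 3 = 1 := by
        rw [hz, Matrix.det_smul, Matrix.det_one, mul_one, Fintype.card_fin] at hdet
        exact hdet
      have hzr : z ^ r = 1 := by
        have h6 := congrArg Units.val hxr
        rw [Units.val_pow_eq_pow_val, hz, _root_.smul_pow, one_pow, Units.val_one] at h6
        have := congrFun (congrFun h6 0) 0
        simpa using this
      have h7 : z ^ (Nat.gcd 3 r) = 1 := pow_gcd_eq_one.2 ⟨hz3, hzr⟩
      rw [(Nat.coprime_primes Nat.prime_three hrp).2 (Ne.symm hr3), pow_one] at h7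
      apply hx1
      apply Units.ext
      rw [hz, h7, one_smul, Units.val_one]
    obtain ⟨g, -, hg⟩ := H x x.2 ⟨1, by rw [hxr, one_smul, Units.val_one]⟩ hns
    obtain ⟨t, htdef⟩ : ∃ t, t = g⁻¹ * (x : GL (Fin 3) F) * g := ⟨_, rfl⟩
    rw [← htdef] at hg
    have htr : t ^ r = 1 := by
      have e : t = g⁻¹ * (x : GL (Fin 3) F) * (g⁻¹)⁻¹ := by rw [inv_inv, htdef]
      rw [e, conj_pow, hxr]
      group
    obtain ⟨r₀, hr₀, hr₀M⟩ := hS.mem (1, 0, 0)
    have hr₀s : (r₀ : M3) = ω • (1 : M3) := by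
      rw [rho_Z, mul_smul_comm, mul_one] at hr₀M
      have e := congrArg (fun A => A * ((M⁻¹ : GL (Fin 3) F) : M3)) hr₀M
      simp only [smul_mul_assoc] at e
      rwa [mul_assoc, ← Units.val_mul, mul_inv_cancel, Units.val_one, mul_one] at e
    have hr₀1 : r₀ ≠ 1 := by
      rintro rfl
      rw [Units.val_one] at hr₀s
      have := congrFun (congrFun hr₀s 0) 0
      simp at this
      exact omega_ne_one h3 hS.hω this.symm
    have hr₀t : t * r₀ * t⁻¹ = r₀ := by
      have e : t * r₀ = r₀ * t := by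
        apply Units.ext
        rw [Units.val_mul, Units.val_mul, hr₀s]
        simp
      rw [e, mul_inv_cancel_right]
    have hall := centralizes_of_card' hrp hr5 hR hg (fun s _ => by rw [htr]; simp)
      ⟨r₀, hr₀, hr₀1, hr₀t⟩
    have hcomm : ∀ s ∈ R, t * s = s * t := by
      intro s hs
      have := hall s hs
      calc t * s = (t * s * t⁻¹) * t := by group
        _ = s * t := by rw [this]
    obtain ⟨z, hz⟩ := scalar_of_commute hS h3 t hcomm
    apply hns z
    have e : (x : GL (Fin 3) F) = g * t * g⁻¹ := by rw [htdef]; group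
    rw [e, Units.val_mul, Units.val_mul, hz, mul_smul_comm, smul_mul_assoc, mul_one, ← Units.val_mul,
      mul_inv_cancel, Units.val_one]

/-- unitary normal form of an "involution modulo scalars" of determinant one -/
theorem inv_form {q : ℕ} (hF : Fintype.card F = q ^ 2) (h2 : (2 : F) ≠ 0) (hq : Odd q) (w : F)
    (hw3 : w ^ 3 = 1) (hwq : w ^ (q + 1) = 1) (A : M3) (hA : IsU 3 F q A)
    (hA2 : A * A = (w * w) • (1 : M3)) (hdet : A.det = 1) (hns : ∀ c : F, A ≠ c • (1 : M3)) :
    ∃ g : M3, IsU 3 F q g ∧ A * g = g * Matrix.diagonal (fun k : Fin 3 => if k = 0 then w else -w) := by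
  have hw0 : w ≠ 0 := by
    rintro rfl
    simp at hw3
  have hne : w ≠ -w := by
    intro h
    have : (2 : F) * w = 0 := by linear_combination h
    rcases mul_eq_zero.1 this with h | h
    · exact h2 h
    · exact hw0 h
  obtain ⟨g, d, hg, hAg, hd⟩ := exists_unitary_diag hF A hA [w, -w] (by simp [hne])
    (by
      intro b hb
      simp only [List.mem_cons, List.not_mem_nil, or_false] at hb
      rcases hb with rfl | rfl
      · exact hwq
      · rw [(hq.add_one).neg_pow, hwq])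
    (by
      simp only [pr, List.map_cons, List.map_nil, List.prod_cons, List.prod_nil, mul_one]
      rw [sub_mul, mul_sub, mul_sub, hA2]
      simp only [smul_mul_assoc, mul_smul_comm, one_mul, mul_one, smul_smul]
      module)
  have hgu : IsUnit g := by
    have := (isU_mul_comm g hg).1
    exact IsUnit.of_mul_eq_one _ ((isU_mul_comm g hg).2)
  have hgd : g.det ≠ 0 := ((Matrix.isUnit_iff_isUnit_det _).1 hgu).ne_zero
  have hprod : d 0 * d 1 * d 2 = 1 := by
    have := congrArg Matrix.det hAg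
    rw [Matrix.det_mul, Matrix.det_mul, hdet, one_mul, Matrix.det_diagonal, Fin.prod_univ_three] at this
    exact (mul_left_cancel₀ hgd (by rw [mul_one]; exact this)).symm
  have hd' : ∀ k, d k = w ∨ d k = -w := by
    intro k
    have := hd k
    simpa using this
  have hneg : (-1 : F) ≠ 1 := by
    intro h
    apply h2
    linear_combination -h
  have hnsd : ¬ (d 0 = w ∧ d 1 = w ∧ d 2 = w) := by
    rintro ⟨e0, e1, e2⟩
    apply hns w
    have : Matrix.diagonal d = w • (1 : M3) := by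
      rw [Matrix.smul_one_eq_diagonal]
      congr 1
      funext k
      fin_cases k
      · exact e0
      · exact e1
      · exact e2
    rw [this, mul_smul_comm, mul_one] at hAg
    obtain ⟨u, rfl⟩ := hgu
    have e := congrArg (fun B => B * ((u⁻¹ : M3ˣ) : M3)) hAg
    simp only [smul_mul_assoc] at e
    rwa [mul_assoc, ← Units.val_mul, mul_inv_cancel, Units.val_one, mul_one] at e
  obtain ⟨k₀, hk₀, hk⟩ : ∃ k₀, d k₀ = w ∧ ∀ k, k ≠ k₀ → d k = -w := by
    rcases hd' 0 with e0 | e0 <;> rcases hd' 1 with e1 | e1 <;> rcases hd' 2 with e2 | e2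
    · exact absurd ⟨e0, e1, e2⟩ hnsd
    · exfalso
      rw [e0, e1, e2] at hprod
      apply hneg
      linear_combination hprod + hw3
    · exfalso
      rw [e0, e1, e2] at hprod
      apply hneg
      linear_combination hprod + hw3
    · refine ⟨0, e0, ?_⟩
      intro k hk
      fin_cases k
      · exact absurd rfl hk
      · exact e1
      · exact e2
    · exfalso
      rw [e0, e1, e2] at hprod
      apply hneg
      linear_combination hprod + hw3
    · refine ⟨1, e1, ?_⟩
      intro k hk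
      fin_cases k
      · exact e0
      · exact absurd rfl hk
      · exact e2
    · refine ⟨2, e2, ?_⟩
      intro k hk
      fin_cases k
      · exact e0
      · exact e1
      · exact absurd rfl hk
    · exfalso
      rw [e0, e1, e2] at hprod
      apply hneg
      linear_combination hprod + hw3
  obtain ⟨h1, h2'⟩ := perm_cols A g d hg hAg (Equiv.swap 0 k₀)
  refine ⟨_, h1, ?_⟩
  rw [h2']
  congr 2
  funext k
  by_cases hk0 : k = 0
  · subst hk0
    simp [hk₀]
  · rw [if_neg hk0, Function.comp_apply]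
    apply hk
    intro h
    apply hk0
    have := congrArg (Equiv.swap 0 k₀) h
    rwa [Equiv.swap_apply_self, Equiv.swap_apply_right] at this

theorem backward2U {q : ℕ} (hF : Fintype.card F = q ^ 2) (h2 : (2 : F) ≠ 0) (hq : Odd q)
    (hq3 : 3 ∣ q + 1) (R : Subgroup (GL (Fin 3) F)) [Finite R] {ω : F}
    {M : GL (Fin 3) F} (hM : M ∈ Cfsg.GU 3 F q) (hS : Std R ω M) (x : GL (Fin 3) F)
    (hx : x ∈ Cfsg.GU 3 F q ⊓ specialLinear (Fin 3) F) (z : F)
    (hz : ((x ^ 2 : GL (Fin 3) F) : M3) = z • (1 : M3)) (hns : ∀ z : F, (x : M3) ≠ z • (1 : M3)) :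
    ∃ g ∈ Cfsg.GU 3 F q ⊓ specialLinear (Fin 3) F, g⁻¹ * x * g ∈ subgroupNormalizer R := by
  have hdet := det_of_mem_SL x (Subgroup.mem_inf.1 hx).2
  have hxU := (mem_GU_iff hF x).1 (Subgroup.mem_inf.1 hx).1
  have hMU := (mem_GU_iff hF M).1 hM
  rw [Units.val_pow_eq_pow_val] at hz
  have hz3 : z ^ 3 = 1 := by
    have := congrArg Matrix.det hz
    rw [Matrix.det_pow, hdet, one_pow, Matrix.det_smul, Matrix.det_one, mul_one, Fintype.card_fin] at this
    exact this.symm
  have hz0 : z ≠ 0 := by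
    rintro rfl
    simp at hz3
  obtain ⟨w, hwdef⟩ : ∃ w, w = z * z := ⟨_, rfl⟩
  have hw2 : w * w = z := by rw [hwdef]; linear_combination z * hz3
  have hw3 : w ^ 3 = 1 := by rw [hwdef]; linear_combination (z ^ 3 + 1) * hz3
  have hw0 : w ≠ 0 := by rw [hwdef]; exact mul_ne_zero hz0 hz0
  have hwq : w ^ (q + 1) = 1 := by
    obtain ⟨m, hm⟩ := hq3
    rw [hm, pow_mul, hw3, one_pow]
  obtain ⟨g, hg, hxg⟩ := inv_form hF h2 hq w hw3 hwq (x : M3) hxU (by rw [← pow_two, hz, hw2]) hdet hns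
  let Tw : GL (Fin 3) F := ⟨w • TT, w⁻¹ • TT,
    by rw [smul_mul_smul_comm, TT_sq, mul_inv_cancel₀ hw0, one_smul],
    by rw [smul_mul_smul_comm, TT_sq, inv_mul_cancel₀ hw0, one_smul]⟩
  have hTw : (Tw : M3) = w • TT := rfl
  have hY : M * Tw * M⁻¹ ∈ subgroupNormalizer R := by
    apply mem_normalizer_of hS
    · exact ⟨(0, 2, 0), by rw [hTw, smul_mul_assoc, TT_rho1, mul_smul_comm]⟩
    · exact ⟨(0, 0, 2), by rw [hTw, smul_mul_assoc, TT_rho2, mul_smul_comm]⟩
  have hTU : IsU 3 F q (w • (TT : M3)) := by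
    rw [isU_iff_dag, dag_smul, smul_mul_smul_comm, (isU_iff_dag _).1 (isU_TT hF hq), ← pow_succ, hwq,
      one_smul]
  obtain ⟨g₂, hg₂, hTg⟩ := inv_form hF h2 hq w hw3 hwq (w • (TT : M3)) hTU
    (by rw [smul_mul_smul_comm, TT_sq])
    (by rw [Matrix.det_smul, TT_det, mul_one, Fintype.card_fin, hw3])
    (by
      intro c e'
      have e1 := congrFun (congrFun e' 1) 1
      have e2 := congrFun (congrFun e' 0) 0
      have h1 : (-1 : Fin 3) = 2 := by decide
      simp [TT, h1] at e1 e2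
      rw [← e1] at e2
      exact hw0 (neg_eq_zero.1 e2))
  obtain ⟨c, hc, hcx⟩ := exists_su_conj hF 0 x (M * Tw * M⁻¹) g ((M : M3) * g₂) hg
    (isU_mul hF _ _ hMU hg₂) _ hxg (by
      rw [Units.val_mul, Units.val_mul, hTw, mul_assoc, ← mul_assoc ((M⁻¹ : GL (Fin 3) F) : M3),
        ← Units.val_mul, inv_mul_cancel, Units.val_one, one_mul, mul_assoc, hTg, mul_assoc])
  exact ⟨c, hc, by rw [hcx]; exact hY⟩

theorem backward3U {q : ℕ} (hF : Fintype.card F = q ^ 2) (h3 : (3 : F) ≠ 0) (hq9 : 9 ∣ q + 1)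
    (hcube : ∀ z : F, z ^ 3 = 1 → ∃ w : F, w ^ 3 = z)
    (R : Subgroup (GL (Fin 3) F)) [Finite R] {ω : F}
    {M : GL (Fin 3) F} (hM : M ∈ Cfsg.GU 3 F q) (hS : Std R ω M) (x : GL (Fin 3) F)
    (hx : x ∈ Cfsg.GU 3 F q ⊓ specialLinear (Fin 3) F) (z : F)
    (hz : ((x ^ 3 : GL (Fin 3) F) : M3) = z • (1 : M3)) :
    ∃ g ∈ Cfsg.GU 3 F q ⊓ specialLinear (Fin 3) F, g⁻¹ * x * g ∈ subgroupNormalizer R := by
  have hω := hS.hω
  have hdet := det_of_mem_SL x (Subgroup.mem_inf.1 hx).2
  have hxU := (mem_GU_iff hF x).1 (Subgroup.mem_inf.1 hx).1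
  have hMU := (mem_GU_iff hF M).1 hM
  rw [Units.val_pow_eq_pow_val] at hz
  have hz3 : z ^ 3 = 1 := by
    have := congrArg Matrix.det hz
    rw [Matrix.det_pow, hdet, one_pow, Matrix.det_smul, Matrix.det_one, mul_one, Fintype.card_fin] at this
    exact this.symm
  have hz0 : z ≠ 0 := by
    rintro rfl
    simp at hz3
  obtain ⟨w, hw⟩ := hcube z hz3
  have hw0 : w ≠ 0 := by
    rintro rfl
    apply hz0
    rw [← hw]
    simp
  have hω3 := omega_cube hω
  have hω1 := omega_ne_one h3 hω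
  have hω2 := omega_sq_ne_one h3 hω
  have hG : (X ^ 3 - C z : F[X]) = (X - C w) * ((X - C (w * ω)) * (X - C (w * ω * ω))) := by
    have hC : (C ω : F[X]) ^ 2 + C ω + 1 = 0 := by
      rw [← C_pow, ← C_add, ← C_1, ← C_add, hω, C_0]
    rw [← hw]
    simp only [C_mul, C_pow]
    linear_combination (C w * X ^ 2 - C w ^ 2 * C ω * X + C w ^ 3 * (C ω - 1)) * hC
  have haeval : aeval (x : M3) (X ^ 3 - C z : F[X]) = 0 := by
    rw [map_sub, map_pow, aeval_X, aeval_C, hz, Algebra.algebraMap_eq_smul_one, sub_self]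
  have hcub : ∀ b ∈ [w, w * ω, w * ω * ω], b ^ 3 = z := by
    intro b hb
    simp only [List.mem_cons, List.not_mem_nil, or_false] at hb
    rcases hb with rfl | rfl | rfl
    · exact hw
    · rw [← hw]; linear_combination w ^ 3 * hω3
    · rw [← hw]; linear_combination w ^ 3 * (ω * ω * ω + 1) * hω3
  obtain ⟨g, d, hg, hxg, hd⟩ := exists_unitary_diag hF (x : M3) hxU [w, w * ω, w * ω * ω]
    (by
      have e1 : w ≠ w * ω := by
        intro h
        apply hω1
        exact (mul_left_cancel₀ hw0 (by rw [mul_one]; exact h)).symm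
      have e2 : w ≠ w * ω * ω := by
        intro h
        apply hω2
        exact (mul_left_cancel₀ hw0 (by rw [mul_one, ← mul_assoc]; exact h)).symm
      have e3 : w * ω ≠ w * ω * ω := by
        intro h
        apply hω1
        have hwω : w * ω ≠ 0 := mul_ne_zero hw0 (by rintro rfl; simp at hω3)
        exact (mul_left_cancel₀ hwω (by rw [mul_one]; exact h)).symm
      simp [e1, e2, e3])
    (by
      intro b hb
      obtain ⟨m, hm⟩ := hq9
      have h9 : b ^ 9 = 1 := by
        have := hcub b hb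
        calc b ^ 9 = (b ^ 3) ^ 3 := by ring
          _ = 1 := by rw [this, hz3]
      rw [hm, pow_mul, h9, one_pow])
    (by
      rw [hG] at haeval
      rw [map_mul, map_mul, map_sub, map_sub, map_sub, aeval_X, aeval_C, aeval_C, aeval_C,
        Algebra.algebraMap_eq_smul_one, Algebra.algebraMap_eq_smul_one,
        Algebra.algebraMap_eq_smul_one] at haeval
      simp only [pr, List.map_cons, List.map_nil, List.prod_cons, List.prod_nil, mul_one]
      exact haeval)
  have hd3 : ∀ k, d k ^ 3 = z := fun k => hcub _ (hd k)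
  have hDdet : (Matrix.diagonal d).det ≠ 0 := by
    rw [Matrix.det_diagonal, Finset.prod_ne_zero_iff]
    intro k _ h0
    apply hz0
    rw [← hd3 k, h0]
    simp
  obtain ⟨D, hDdef⟩ : ∃ D : GL (Fin 3) F, (D : M3) = Matrix.diagonal d :=
    ⟨Matrix.GeneralLinearGroup.mkOfDetNeZero _ hDdet, rfl⟩
  have hY : M * D * M⁻¹ ∈ subgroupNormalizer R := by
    apply mem_normalizer_of hS
    · exact ⟨(0, 1, 0), by rw [hDdef, diag_rho1]⟩
    · rw [hDdef]
      exact diag_rho2 hω _ z hz0 hd3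
  obtain ⟨c, hc, hcx⟩ := exists_su_conj hF 0 x (M * D * M⁻¹) g (M : M3) hg hMU d hxg (by
      rw [Units.val_mul, Units.val_mul, hDdef, mul_assoc, ← Units.val_mul, inv_mul_cancel,
        Units.val_one, mul_one])
  exact ⟨c, hc, by rw [hcx]; exact hY⟩

end Cfsg.Agent.Lib.Helper13E27i
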