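import Mathlib

set_option autoImplicit false

/-! PROJECT 94, piece NEGONE (helper38). -/

namespace Cfsg.Agent.Lib.Helper38EluNEGONE

variable {F : Type*} [Field F] [Fintype F]

theorem two_part {N : ℕ} (hN : N ≠ 0) : ∃ m, Odd m ∧ N = 2 ^ (padicValNat 2 N) * m := by
  obtain ⟨m, hm⟩ := pow_padicValNat_dvd (p := 2) (n := N)
  refine ⟨m, ?_, hm⟩
  by_contra hodd
  rw [Nat.not_odd_iff_even] at hodd
  obtain ⟨k, rfl⟩ := hodd
  apply pow_succ_padicValNat_not_dvd (p := 2) hN
  refine ⟨k, ?_⟩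
  rw [pow_succ]
  calc N = 2 ^ padicValNat 2 N * (k + k) := hm
    _ = 2 ^ padicValNat 2 N * 2 * k := by ring

theorem ringChar_ne_two (hodd : Odd (Fintype.card F)) : ringChar F ≠ 2 := by
  intro h
  have h1 := FiniteField.even_card_of_char_two h
  have h2 := Nat.odd_iff.mp hodd
  omega

/- piece NEGONE -/
theorem even_of_pow_mul_neg_one {n d : ℕ} (hn : n ≠ 0) (hodd : Odd (Fintype.card F))
    (hv : padicValNat 2 (Fintype.card F - 1) ≤ padicValNat 2 n) (w : F)
    (h : w ^ n * (-1) ^ d = 1) : Even d := by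
  by_contra hd
  rw [Nat.not_even_iff_odd] at hd
  rw [hd.neg_one_pow, mul_neg, mul_one, neg_eq_iff_eq_neg] at h
  have hch := ringChar_ne_two hodd
  have hw : w ≠ 0 := by
    rintro rfl
    rw [zero_pow hn] at h
    exact (neg_ne_zero.mpr one_ne_zero) h.symm
  have hq1 : Fintype.card F - 1 ≠ 0 := by
    have := Fintype.one_lt_card (α := F)
    omega
  obtain ⟨m, hm, hqm⟩ := two_part hq1
  obtain ⟨n', -, hn'⟩ := two_part hn
  obtain ⟨e, he⟩ := Nat.exists_eq_add_of_le hv
  have h1 : (w ^ n) ^ m = 1 := by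
    rw [← pow_mul]
    have : n * m = (Fintype.card F - 1) * (2 ^ e * n') := by
      calc n * m = 2 ^ (padicValNat 2 n) * n' * m := by rw [← hn']
        _ = 2 ^ (padicValNat 2 (Fintype.card F - 1)) * m * (2 ^ e * n') := by
          rw [he, pow_add]; ring
        _ = _ := by rw [← hqm]
    rw [this, pow_mul, FiniteField.pow_card_sub_one_eq_one w hw, one_pow]
  rw [h, hm.neg_one_pow] at h1
  exact Ring.neg_one_ne_one_of_char_ne_two hch h1

theorem exists_pow_eq_neg_one {n : ℕ} (hn : n ≠ 0) (hodd : Odd (Fintype.card F))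
    (hv : padicValNat 2 n < padicValNat 2 (Fintype.card F - 1)) : ∃ w : F, w ^ n = -1 := by
  have hch := ringChar_ne_two hodd
  obtain ⟨a, ha⟩ := FiniteField.exists_nonsquare hch
  have ha0 : a ≠ 0 := by
    rintro rfl
    exact ha (IsSquare.zero)
  have h1 : a ^ (Fintype.card F / 2) = -1 := by
    rcases FiniteField.pow_dichotomy hch ha0 with h | h
    · exact absurd ((FiniteField.isSquare_iff hch ha0).mpr h) ha
    · exact h
  have hq1 : Fintype.card F - 1 ≠ 0 := by
    have := Fintype.one_lt_card (α := F)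
    omega
  obtain ⟨m, hm, hqm⟩ := two_part hq1
  obtain ⟨n', hn'o, hn'⟩ := two_part hn
  obtain ⟨e, he⟩ := Nat.exists_eq_add_of_lt hv
  -- `q / 2 = 2 ^ (v₂ n) * (2 ^ e * m)`
  have h2 : Fintype.card F / 2 = 2 ^ (padicValNat 2 n) * (2 ^ e * m) := by
    have h3 : Fintype.card F - 1 = 2 * (2 ^ (padicValNat 2 n) * (2 ^ e * m)) := by
      rw [hqm, he, pow_add, pow_add]
      ring
    have h4 := Nat.odd_iff.mp hodd
    omega
  refine ⟨a ^ (2 ^ e * m), ?_⟩
  rw [← pow_mul]
  have h5 : 2 ^ e * m * n = Fintype.card F / 2 * n' := by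
    rw [h2]
    calc 2 ^ e * m * n = 2 ^ e * m * (2 ^ (padicValNat 2 n) * n') := by rw [← hn']
      _ = _ := by ring
  rw [h5, pow_mul, h1, hn'o.neg_one_pow]

end Cfsg.Agent.Lib.Helper38EluNEGONE
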