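import Mathlib
import Cfsg.Prelude.Def_GeometricClasses
import Cfsg.Agent.Lib.Helper70EluCARDSL

set_option autoImplicit false

/-! PROJECT 94, piece SMALL. -/

namespace Cfsg.Agent.Lib.Helper70EluSMALL

open Cfsg Cfsg.Geo Matrix Polynomial
open scoped MatrixGroups

variable {F : Type*} [Field F] [Fintype F]

/-- block embedding of matrices -/
def blk {i n : ℕ} (hi : i ≤ n) (A : Matrix (Fin i) (Fin i) F) : Matrix (Fin n) (Fin n) F :=
  Matrix.reindex (finSumFinEquiv.trans (finCongr (by omega : i + (n - i) = n)))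
    (finSumFinEquiv.trans (finCongr (by omega : i + (n - i) = n)))
    (Matrix.fromBlocks A 0 0 (1 : Matrix (Fin (n - i)) (Fin (n - i)) F))

omit [Fintype F] in
theorem blk_mul {i n : ℕ} (hi : i ≤ n) (A B : Matrix (Fin i) (Fin i) F) :
    blk hi (A * B) = blk hi A * blk hi B := by
  unfold blk
  simp only [Matrix.reindex_apply]
  rw [Matrix.submatrix_mul_equiv, Matrix.fromBlocks_multiply]
  simp

omit [Fintype F] in
theorem blk_one {i n : ℕ} (hi : i ≤ n) : blk hi (1 : Matrix (Fin i) (Fin i) F) = 1 := by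
  unfold blk
  rw [Matrix.fromBlocks_one, Matrix.reindex_apply, Matrix.submatrix_one_equiv]

omit [Fintype F] in
theorem blk_pow {i n : ℕ} (hi : i ≤ n) (A : Matrix (Fin i) (Fin i) F) (k : ℕ) :
    blk hi (A ^ k) = blk hi A ^ k := by
  induction k with
  | zero => simp [blk_one]
  | succ k ih => rw [pow_succ, pow_succ, blk_mul, ih]

omit [Fintype F] in
theorem blk_det {i n : ℕ} (hi : i ≤ n) (A : Matrix (Fin i) (Fin i) F) :
    (blk hi A).det = A.det := by
  unfold blk
  rw [Matrix.det_reindex_self, Matrix.det_fromBlocks_zero₂₁, Matrix.det_one, mul_one]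

omit [Fintype F] in
theorem blk_injective {i n : ℕ} (hi : i ≤ n) : Function.Injective (blk (F := F) hi) := by
  intro A B h
  unfold blk at h
  have h1 := (Matrix.reindex _ _).injective h
  exact (Matrix.fromBlocks_inj.mp h1).1

omit [Fintype F] in
theorem blk_rank {i n : ℕ} (hi : i ≤ n) (A : Matrix (Fin i) (Fin i) F) :
    (blk hi A - 1).rank ≤ i := by
  have h1 : blk hi A - 1 = Matrix.reindex (finSumFinEquiv.trans (finCongr (by omega : i + (n - i) = n)))
      (finSumFinEquiv.trans (finCongr (by omega : i + (n - i) = n)))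
      (Matrix.fromBlocks (A - 1) 0 0 (0 : Matrix (Fin (n - i)) (Fin (n - i)) F)) := by
    rw [← blk_one hi]
    unfold blk
    rw [Matrix.reindex_apply, Matrix.reindex_apply, Matrix.reindex_apply]
    have h0 : Matrix.fromBlocks (A - 1) 0 0 (0 : Matrix (Fin (n - i)) (Fin (n - i)) F)
        = Matrix.fromBlocks A 0 0 1 - Matrix.fromBlocks 1 0 0 1 := by
      ext (a | a) (b | b) <;> simp [Matrix.one_apply]
    rw [h0]
    rfl
  rw [h1, Matrix.rank_reindex]
  have h2 : Matrix.fromBlocks (A - 1) 0 0 (0 : Matrix (Fin (n - i)) (Fin (n - i)) F)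
      = Matrix.fromRows (A - 1) (0 : Matrix (Fin (n - i)) (Fin i) F)
        * Matrix.fromCols (1 : Matrix (Fin i) (Fin i) F) (0 : Matrix (Fin i) (Fin (n - i)) F) := by
    rw [Matrix.fromRows_mul_fromCols]
    simp
  rw [h2]
  refine le_trans (Matrix.rank_mul_le_left _ _) ?_
  simpa using Matrix.rank_le_card_width
    (Matrix.fromRows (A - 1) (0 : Matrix (Fin (n - i)) (Fin i) F))

/- piece SMALL -/
theorem exists_small {n i r : ℕ} [Fact r.Prime] (hi0 : 0 < i) (hi : i ≤ n) (h1 : r ∣ Fintype.card F ^ i - 1)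
    (h2 : ¬ r ∣ Fintype.card F - 1) :
    ∃ x : Matrix.SpecialLinearGroup (Fin n) F, x ^ r = 1 ∧ x ≠ 1 ∧
      ((x : Matrix (Fin n) (Fin n) F) - 1).rank ≤ i := by
  have hp : r.Prime := Fact.out
  have hdvd : r ∣ Nat.card (Matrix.SpecialLinearGroup (Fin i) F) := by
    have h3 : r ∣ Nat.card (Matrix.SpecialLinearGroup (Fin i) F) * (Fintype.card F - 1) := by
      rw [Cfsg.Agent.Lib.Helper70EluCARDSL.card_SL_mul i hi0]
      refine Dvd.dvd.trans ?_ (Finset.dvd_prod_of_mem _ (Finset.mem_univ (⟨0, hi0⟩ : Fin i)))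
      simpa using h1
    exact ((Nat.Prime.dvd_mul hp).mp h3).resolve_right h2
  obtain ⟨A, hA⟩ := exists_prime_orderOf_dvd_card' r hdvd
  obtain ⟨x, hx⟩ : ∃ x : Matrix.SpecialLinearGroup (Fin n) F,
      (x : Matrix (Fin n) (Fin n) F) = blk hi (A : Matrix (Fin i) (Fin i) F) :=
    ⟨⟨blk hi (A : Matrix (Fin i) (Fin i) F), by rw [blk_det]; exact A.2⟩, rfl⟩
  refine ⟨x, ?_, ?_, ?_⟩
  · have h4 : A ^ r = 1 := by rw [← hA]; exact pow_orderOf_eq_one A
    have h5 : (A : Matrix (Fin i) (Fin i) F) ^ r = 1 := by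
      rw [← Matrix.SpecialLinearGroup.coe_pow, h4, Matrix.SpecialLinearGroup.coe_one]
    apply Matrix.SpecialLinearGroup.ext
    intro a b
    rw [Matrix.SpecialLinearGroup.coe_pow, hx, ← blk_pow, h5, blk_one,
      Matrix.SpecialLinearGroup.coe_one]
  · intro hx1
    rw [hx1, Matrix.SpecialLinearGroup.coe_one, ← blk_one hi] at hx
    have h7 : A = 1 := by
      apply Matrix.SpecialLinearGroup.ext
      intro a b
      rw [← blk_injective hi hx, Matrix.SpecialLinearGroup.coe_one]
    rw [h7, orderOf_one] at hA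
    exact hp.one_lt.ne hA
  · rw [hx]
    exact blk_rank hi _

end Cfsg.Agent.Lib.Helper70EluSMALL
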