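import Cfsg.Agent.Lib.Helper13EluT3
import Cfsg.Agent.Lib.Helper38EluNEGONE
import Cfsg.Agent.Lib.Helper70EluCARDSL
import Cfsg.Agent.Lib.Helper70EluSMALL

/-! Project 94 (ELU2), row S5979: the forward direction. -/

set_option autoImplicit false

namespace Cfsg.Agent.Lib.Helper13EluT4

open scoped Matrix Kronecker MatrixGroups
open Matrix Cfsg Cfsg.Geo Cfsg.Agent.Lib.Helper13EluT Cfsg.Agent.Lib.Helper13EluT2
  Cfsg.Agent.Lib.Helper13EluT3

variable {F : Type*} [Field F] [Fintype F]

theorem forward {p : ℕ} [Fact p.Prime] [CharP F p]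
    (n a b : ℕ) (hab : n = a * b) (ha : 2 ≤ a) (hlt : a < b) (e : Fin n ≃ Fin a × Fin b) (P : GL (Fin n) F)
    (r : ℕ) [Fact r.Prime]
    (hΩ : r ∣ (tensorProductSubgroup a b e P).relIndex (specialLinear (Fin n) F))
    (H : ∀ x ∈ specialLinear (Fin n) F,
      (∃ z : F, ((x ^ r : GL (Fin n) F) : Matrix (Fin n) (Fin n) F) = z • (1 : Matrix (Fin n) (Fin n) F)) →
      (∀ z : F, (x : Matrix (Fin n) (Fin n) F) ≠ z • (1 : Matrix (Fin n) (Fin n) F)) →
      ∃ g ∈ specialLinear (Fin n) F, g⁻¹ * x * g ∈ tensorProductSubgroup a b e P) :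
    r = 2 ∧ a = 2 ∧ Odd (Fintype.card F) ∧
      padicValNat 2 (Fintype.card F - 1) ≤ padicValNat 2 n := by
  classical
  have hrp : r.Prime := Fact.out
  have hpp : p.Prime := Fact.out
  have hn6 : 6 ≤ n := by nlinarith
  have hq1 : 1 < Fintype.card F := Fintype.one_lt_card
  have hND := no_derange hab e P r H
  -- Step 1
  have hrq : ¬ r ∣ Fintype.card F := by
    intro hdvd
    obtain ⟨k, -, hk⟩ := FiniteField.card F p
    rw [hk] at hdvd
    have hrp' : r = p := (Nat.prime_dvd_prime_iff_eq hrp hpp).1 (hrp.dvd_of_dvd_pow hdvd)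
    have hij : (⟨0, by omega⟩ : Fin n) ≠ ⟨1, by omega⟩ := by
      intro h; simpa using congrArg Fin.val h
    refine hND (Matrix.transvection ⟨0, by omega⟩ ⟨1, by omega⟩ 1) (Matrix.det_transvection_of_ne _ _ hij 1) 1
      ?_ 1 1 ?_ ?_
    · rw [transv_pow _ _ hij, hrp', CharP.cast_eq_zero, Matrix.transvection_zero, one_smul]
    · rw [rank_transv]; omega
    · rw [rank_transv, Nat.dvd_one]; omega
  -- Step 2
  have hr1 : r ∣ Fintype.card F - 1 := by
    by_contra hr1
    have hΩ' : r ∣ Nat.card (Matrix.SpecialLinearGroup (Fin n) F) := by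
      rw [← card_specialLinear]
      exact hΩ.trans (Subgroup.index_dvd_card _)
    obtain ⟨i, hi1, hin, hdvd⟩ := Cfsg.Agent.Lib.Helper70EluCARDSL.exists_le_of_dvd_card_SL n r hrq hΩ'
    rw [dvd_iff_pow_eq_one _ _ _ (by omega)] at hdvd
    have h1 := orderOf_dvd_of_pow_eq_one hdvd
    have h2 : orderOf ((Fintype.card F : ℕ) : ZMod r) ≤ n := (Nat.le_of_dvd (by omega) h1).trans hin
    have h3 : 0 < orderOf ((Fintype.card F : ℕ) : ZMod r) := Nat.pos_of_dvd_of_pos h1 (by omega)
    have h4 : r ∣ Fintype.card F ^ orderOf ((Fintype.card F : ℕ) : ZMod r) - 1 := by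
      rw [dvd_iff_pow_eq_one _ _ _ (by omega)]
      exact pow_orderOf_eq_one _
    obtain ⟨x, hxr, hx1, hrank⟩ := Cfsg.Agent.Lib.Helper70EluSMALL.exists_small (n := n) h3 h2 h4 hr1
    have hX : Matrix.SpecialLinearGroup.toGL x ∈ specialLinear (Fin n) F := by
      rw [← range_toGL]; exact ⟨x, rfl⟩
    have hXr : (Matrix.SpecialLinearGroup.toGL x) ^ r = 1 := by rw [← map_pow, hxr, map_one]
    have hX1 : Matrix.SpecialLinearGroup.toGL x ≠ 1 := by
      intro h
      apply hx1
      apply Matrix.SpecialLinearGroup.toGL_injective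
      rw [h, map_one]
    have hns : ∀ z : F, ((Matrix.SpecialLinearGroup.toGL x : GL (Fin n) F) : Matrix (Fin n) (Fin n) F)
        ≠ z • (1 : Matrix (Fin n) (Fin n) F) := by
      intro z hz
      have h5 : z ^ r = 1 := by
        have h6 := congrArg Units.val hXr
        rw [Units.val_pow_eq_pow_val, hz, smul_pow, one_pow, Units.val_one] at h6
        have := congrFun (congrFun h6 ⟨0, by omega⟩) ⟨0, by omega⟩
        simpa using this
      have hz0 : z ≠ 0 := by
        rintro rfl
        rw [zero_pow hrp.ne_zero] at h5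
        exact zero_ne_one h5
      have h6 : z ^ (Fintype.card F - 1) = 1 := FiniteField.pow_card_sub_one_eq_one z hz0
      have h7 : z ^ (Nat.gcd r (Fintype.card F - 1)) = 1 := pow_gcd_eq_one.2 ⟨h5, h6⟩
      rw [(Nat.Prime.coprime_iff_not_dvd hrp).2 hr1, pow_one] at h7
      apply hX1
      apply Units.ext
      rw [hz, h7, one_smul, Units.val_one]
    obtain ⟨g, -, hg⟩ := H _ hX ⟨1, by rw [hXr, one_smul, Units.val_one]⟩ hns
    have := small_case r hrq hr1 ha hlt e P _ g hg hXr hX1
    have h8 : ((Matrix.SpecialLinearGroup.toGL x : GL (Fin n) F) : Matrix (Fin n) (Fin n) F)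
        = (x : Matrix (Fin n) (Fin n) F) := rfl
    rw [h8] at this
    omega
  -- Step 3
  have hr2 : r = 2 := by
    by_contra hr2
    have hcard : r ∣ Fintype.card Fˣ := by rw [Fintype.card_units]; exact hr1
    obtain ⟨ζ, hζ⟩ := exists_prime_orderOf_dvd_card r hcard
    have hζr : (ζ : F) ^ r = 1 := by
      rw [← Units.val_pow_eq_pow_val, ← hζ, pow_orderOf_eq_one, Units.val_one]
    have hζ1 : (ζ : F) ≠ 1 := by
      intro h
      have : ζ = 1 := Units.ext h
      rw [this, orderOf_one] at hζ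
      exact hrp.one_lt.ne hζ
    have hζ2 : (ζ : F)⁻¹ ≠ (ζ : F) := by
      intro h
      have h1 : ζ ^ 2 = 1 := by
        apply Units.ext
        rw [Units.val_pow_eq_pow_val, Units.val_one, pow_two]
        nth_rewrite 1 [← h]
        exact inv_mul_cancel₀ ζ.ne_zero
      have h2 := orderOf_dvd_of_pow_eq_one h1
      rw [hζ] at h2
      exact hr2 ((Nat.prime_dvd_prime_iff_eq hrp Nat.prime_two).1 h2)
    refine hND (Matrix.diagonal (dd n (ζ : F) (ζ : F)⁻¹ 1)) ?_ 1 ?_ 1 (ζ : F) ?_ ?_
    · rw [Matrix.det_diagonal, prod_dd (by omega), one_pow, mul_one, mul_inv_cancel₀ ζ.ne_zero]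
    · exact dd_pow _ _ _ _ _ hζr (by rw [inv_pow, hζr, inv_one]) (one_pow _)
    · rw [rank_dd (by omega)]
      have : (ζ : F)⁻¹ ≠ 1 := by
        intro h; apply hζ1; rw [← inv_inv (ζ : F), h, inv_one]
      simp only [ne_eq, hζ1, this, not_false_eq_true, if_true, not_true_eq_false, if_false]
      omega
    · rw [rank_dd (by omega)]
      simp only [ne_eq, hζ2, (Ne.symm hζ1), not_false_eq_true, if_true, not_true_eq_false, if_false]
      intro hdvd
      have h1 : a ∣ n := ⟨b, hab⟩
      have h2 : a ∣ 1 := by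
        have := (Nat.dvd_sub h1 hdvd)
        have h3 : n - (0 + 1 + (n - 2)) = 1 := by omega
        rwa [h3] at this
      rw [Nat.dvd_one] at h2
      omega
  subst hr2
  have hodd : Odd (Fintype.card F) := by
    rw [← Nat.not_even_iff_odd, even_iff_two_dvd]; exact hrq
  have h2F : (2 : F) ≠ 0 := by
    intro h
    have h1 : ((2 : ℕ) : F) = 0 := by exact_mod_cast h
    rw [CharP.cast_eq_zero_iff F p 2] at h1
    have h2 : p = 2 := (Nat.prime_dvd_prime_iff_eq hpp Nat.prime_two).1 h1
    obtain ⟨k, -, hk⟩ := FiniteField.card F p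
    apply hrq
    rw [hk, h2]
    exact dvd_pow_self 2 k.ne_zero
  have hneg : (-1 : F) ≠ 1 := by
    intro h
    apply h2F
    linear_combination -h
  have ha2 : a = 2 := by
    by_contra ha2
    refine hND (Matrix.diagonal (dd n (-1 : F) (-1) 1)) ?_ 1 ?_ 1 1 ?_ ?_
    · rw [Matrix.det_diagonal, prod_dd (by omega)]; simp
    · exact dd_pow _ _ _ _ _ (by simp) (by simp) (one_pow _)
    · rw [rank_dd (by omega)]
      simp only [ne_eq, hneg, not_false_eq_true, if_true, not_true_eq_false, if_false]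
      omega
    · rw [rank_dd (by omega)]
      simp only [ne_eq, hneg, not_false_eq_true, if_true, not_true_eq_false, if_false]
      intro hdvd
      have := Nat.le_of_dvd (by omega) hdvd
      omega
  refine ⟨rfl, ha2, hodd, ?_⟩
  by_contra hv
  push Not at hv
  obtain ⟨w, hw⟩ := Cfsg.Agent.Lib.Helper38EluNEGONE.exists_pow_eq_neg_one (F := F) (n := n) (by omega) hodd hv
  have hw0 : w ≠ 0 := by
    rintro rfl
    rw [zero_pow (by omega)] at hw
    have : (1 : F) = 0 := by linear_combination hw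
    exact one_ne_zero this
  have hww : -w ≠ w := by
    intro h
    have : (2 : F) * w = 0 := by linear_combination -h
    rcases mul_eq_zero.1 this with h | h
    · exact h2F h
    · exact hw0 h
  refine hND (Matrix.diagonal (dd n (-w) w w)) ?_ (w ^ 2) ?_ w w ?_ ?_
  · rw [Matrix.det_diagonal, prod_dd (by omega)]
    have : w ^ n = w * w * w ^ (n - 2) := by
      rw [← pow_two, ← pow_add]; congr 1; omega
    rw [this] at hw
    linear_combination -hw
  · exact dd_pow _ _ _ _ _ (by ring) rfl rfl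
  · rw [rank_dd (by omega)]
    simp only [ne_eq, hww, not_false_eq_true, if_true, not_true_eq_false, if_false]
    omega
  · rw [rank_dd (by omega)]
    simp only [ne_eq, hww, not_false_eq_true, if_true, not_true_eq_false, if_false]
    rw [ha2]
    omega

end Cfsg.Agent.Lib.Helper13EluT4
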