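import Cfsg.Agent.Lib.Helper13EluT3
import Cfsg.Agent.Lib.Helper38EluNEGONE
import Cfsg.Agent.Lib.Helper38EluSEMI
import Cfsg.Agent.Lib.Helper38EluSLCONJ
import Cfsg.Agent.Lib.Helper91EluCHARSQ

/-! Project 94 (ELU2), row S5979: the backward direction. -/

set_option autoImplicit false

namespace Cfsg.Agent.Lib.Helper13EluT5

open scoped Matrix Kronecker MatrixGroups
open Matrix Polynomial Cfsg Cfsg.Geo Cfsg.Agent.Lib.Helper13EluT Cfsg.Agent.Lib.Helper13EluT2
  Cfsg.Agent.Lib.Helper13EluT3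

variable {F : Type*} [Field F] {a b n : ℕ}

theorem exists_kron (g₁ : GL (Fin a) F) (g₂ : GL (Fin b) F) :
    ∃ k ∈ kroneckerSubgroup a b F, (k : Matrix (Fin a × Fin b) (Fin a × Fin b) F)
      = (g₁ : Matrix (Fin a) (Fin a) F) ⊗ₖ (g₂ : Matrix (Fin b) (Fin b) F) := by
  refine ⟨⟨(g₁ : Matrix (Fin a) (Fin a) F) ⊗ₖ (g₂ : Matrix (Fin b) (Fin b) F),
    ((g₁⁻¹ : GL (Fin a) F) : Matrix (Fin a) (Fin a) F) ⊗ₖ ((g₂⁻¹ : GL (Fin b) F) : Matrix (Fin b) (Fin b) F),
    ?_, ?_⟩, ⟨g₁, g₂, rfl⟩, rfl⟩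
  · rw [← Matrix.mul_kronecker_mul, ← Units.val_mul, ← Units.val_mul, mul_inv_cancel, mul_inv_cancel,
      Units.val_one, Units.val_one, Matrix.one_kronecker_one]
  · rw [← Matrix.mul_kronecker_mul, ← Units.val_mul, ← Units.val_mul, inv_mul_cancel, inv_mul_cancel,
      Units.val_one, Units.val_one, Matrix.one_kronecker_one]

theorem conj_pow_eq_smul (e : Fin n ≃ Fin a × Fin b) (Q : GL (Fin n) F) (k : GL (Fin a × Fin b) F)
    (m : ℕ) (z : F) (h : (k : Matrix (Fin a × Fin b) (Fin a × Fin b) F) ^ m = z • 1) :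
    ((Q * glReindex e.symm k * Q⁻¹ : GL (Fin n) F) : Matrix (Fin n) (Fin n) F) ^ m = z • 1 := by
  have h1 := conj_sub e Q (k ^ m) z
  rw [Units.val_pow_eq_pow_val, h, sub_self] at h1
  have h2 : (0 : Matrix (Fin a × Fin b) (Fin a × Fin b) F).submatrix e e = 0 := rfl
  rw [h2, mul_zero, zero_mul, sub_eq_zero, map_pow, ← conj_pow, Units.val_pow_eq_pow_val] at h1
  exact h1

theorem rank_diag_pm [DecidableEq F] (h2 : (2 : F) ≠ 0) (w : F) (hw : w ≠ 0) (c : ℕ) (hc : c ≤ b) :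
    (Matrix.diagonal (fun j : Fin b => if (j : ℕ) < c then w else -w) - w • 1).rank = b - c := by
  have h1 : Matrix.diagonal (fun j : Fin b => if (j : ℕ) < c then w else -w) - w • 1
      = Matrix.diagonal (fun j : Fin b => (if (j : ℕ) < c then w else -w) - w) := by
    ext i j
    by_cases hij : i = j
    · subst hij; simp
    · simp [hij]
  rw [h1, Matrix.rank_diagonal]
  have h3 : ∀ j : Fin b, ((if (j : ℕ) < c then w else -w) - w ≠ 0) ↔ ¬ ((j : ℕ) < c) := by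
    intro j
    split_ifs with h
    · simp [h]
    · simp only [h, not_false_eq_true, iff_true]
      intro h0
      have : (2 : F) * w = 0 := by linear_combination -h0
      rcases mul_eq_zero.1 this with h | h
      · exact h2 h
      · exact hw h
  rw [Fintype.card_congr (Equiv.subtypeEquivRight h3), Fintype.card_subtype_compl,
    Fintype.card_fin_lt_of_le hc, Fintype.card_fin]

theorem backward [Fintype F] (n b : ℕ) (hab : n = 2 * b) (hlt : 2 < b) (e : Fin n ≃ Fin 2 × Fin b)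
    (P : GL (Fin n) F) (hodd : Odd (Fintype.card F))
    (hv : padicValNat 2 (Fintype.card F - 1) ≤ padicValNat 2 n)
    (x : GL (Fin n) F) (hx : x ∈ specialLinear (Fin n) F) (z : F)
    (hz : ((x ^ 2 : GL (Fin n) F) : Matrix (Fin n) (Fin n) F) = z • (1 : Matrix (Fin n) (Fin n) F)) :
    ∃ g ∈ specialLinear (Fin n) F, g⁻¹ * x * g ∈ tensorProductSubgroup 2 b e P := by
  classical
  have h2F : (2 : F) ≠ 0 := by
    intro h
    obtain ⟨p, hp⟩ := CharP.exists F
    haveI := hp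
    haveI : Fact p.Prime := ⟨CharP.char_is_prime F p⟩
    have h1 : ((2 : ℕ) : F) = 0 := by exact_mod_cast h
    rw [CharP.cast_eq_zero_iff F p 2] at h1
    have h2 : p = 2 := (Nat.prime_dvd_prime_iff_eq (Fact.out : p.Prime) Nat.prime_two).1 h1
    obtain ⟨k, -, hk⟩ := FiniteField.card F p
    rw [hk, h2] at hodd
    exact (Nat.not_even_iff_odd.2 hodd) (even_iff_two_dvd.2 (dvd_pow_self 2 k.ne_zero))
  have h2F' : ((2 : ℕ) : F) ≠ 0 := by exact_mod_cast h2F
  rw [Units.val_pow_eq_pow_val] at hz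
  have hz0 : z ≠ 0 := by
    rintro rfl
    rw [zero_smul] at hz
    have h1 : IsUnit ((x : Matrix (Fin n) (Fin n) F) ^ 2) := (x.isUnit).pow 2
    rw [hz] at h1
    haveI : Nonempty (Fin n) := ⟨⟨0, by omega⟩⟩
    exact not_isUnit_zero h1
  have hdet : (x : Matrix (Fin n) (Fin n) F).det = 1 := by
    rw [specialLinear, MonoidHom.mem_ker] at hx
    have := congrArg Units.val hx
    simpa using this
  have hxs := Cfsg.Agent.Lib.Helper38EluSEMI.semisimple_of_pow_eq_smul 2 h2F' _ z hz0 hz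
  -- it suffices to find `k`
  suffices hk : ∃ k ∈ kroneckerSubgroup 2 b F,
      (k : Matrix (Fin 2 × Fin b) (Fin 2 × Fin b) F) ^ 2 = z • 1 ∧
      ((P * glReindex e.symm k * P⁻¹ : GL (Fin n) F) : Matrix (Fin n) (Fin n) F).charpoly
        = (x : Matrix (Fin n) (Fin n) F).charpoly by
    obtain ⟨k, hk, hk2, hkc⟩ := hk
    have hY2 := conj_pow_eq_smul e P k 2 z hk2
    have hYs := Cfsg.Agent.Lib.Helper38EluSEMI.semisimple_of_pow_eq_smul 2 h2F' _ z hz0 hY2
    obtain ⟨g, hg, hgx⟩ := Cfsg.Agent.Lib.Helper38EluSLCONJ.exists_sl_conj x _ hxs hYs hkc.symm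
    exact ⟨g, hg, by rw [hgx]; exact mem_tensor e P k hk⟩
  by_cases hsq : IsSquare z
  · obtain ⟨w, hw⟩ := hsq
    have hw2 : z = w ^ 2 := by rw [hw, pow_two]
    have hw0 : w ≠ 0 := by
      rintro rfl
      apply hz0
      rw [hw, mul_zero]
    rw [hw2] at hz
    obtain ⟨c, d, hcd, hchar, hdet', -⟩ :=
      Cfsg.Agent.Lib.Helper91EluCHARSQ.charpoly_of_sq_eq_sq h2F _ w hw0 hz
    rw [hdet] at hdet'
    obtain ⟨d', hd'⟩ := Cfsg.Agent.Lib.Helper38EluNEGONE.even_of_pow_mul_neg_one (n := n) (by omega) hodd hv w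
      hdet'.symm
    have hD : (Matrix.diagonal (fun j : Fin b => if (j : ℕ) < b - d' then w else -w)).det ≠ 0 := by
      rw [Matrix.det_diagonal, Finset.prod_ne_zero_iff]
      intro j _
      split_ifs
      · exact hw0
      · exact neg_ne_zero.2 hw0
    obtain ⟨k, hk, hkm⟩ := exists_kron (1 : GL (Fin 2) F) (Matrix.GeneralLinearGroup.mkOfDetNeZero _ hD)
    have hkm' : (k : Matrix (Fin 2 × Fin b) (Fin 2 × Fin b) F) = (1 : Matrix (Fin 2) (Fin 2) F) ⊗ₖ
        (Matrix.diagonal (fun j : Fin b => if (j : ℕ) < b - d' then w else -w)) := hkm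
    have hk2 : (k : Matrix (Fin 2 × Fin b) (Fin 2 × Fin b) F) ^ 2 = z • 1 := by
      rw [hkm', kron_pow, one_pow, diag_pow, hw2, ← Matrix.one_kronecker_one (m := Fin 2) (n := Fin b),
        ← Matrix.kronecker_smul, Matrix.smul_one_eq_diagonal]
      congr 2
      funext j
      split_ifs
      · rfl
      · ring
    refine ⟨k, hk, hk2, ?_⟩
    have hY2 := conj_pow_eq_smul e P k 2 z hk2
    rw [hw2] at hY2
    obtain ⟨c₁, d₁, hcd₁, hchar₁, -, hrank₁⟩ :=
      Cfsg.Agent.Lib.Helper91EluCHARSQ.charpoly_of_sq_eq_sq h2F _ w hw0 hY2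
    rw [rank_conj, hkm', one_kron_sub, rank_one_kron, rank_diag_pm h2F w hw0 _ (by omega)] at hrank₁
    have hd₁ : d₁ = d := by omega
    have hc₁ : c₁ = c := by omega
    rw [hchar₁, hchar, hd₁, hc₁]
  · have hdetg : (!![0, z; 1, 0] : Matrix (Fin 2) (Fin 2) F).det ≠ 0 := by
      rw [Matrix.det_fin_two_of]
      simpa using hz0
    obtain ⟨k, hk, hkm⟩ := exists_kron (Matrix.GeneralLinearGroup.mkOfDetNeZero _ hdetg) (1 : GL (Fin b) F)
    have hkm' : (k : Matrix (Fin 2 × Fin b) (Fin 2 × Fin b) F)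
        = (!![0, z; 1, 0] : Matrix (Fin 2) (Fin 2) F) ⊗ₖ (1 : Matrix (Fin b) (Fin b) F) := hkm
    have hg2 : (!![0, z; 1, 0] : Matrix (Fin 2) (Fin 2) F) ^ 2 = z • 1 := by
      ext i j
      fin_cases i <;> fin_cases j <;> simp [pow_two, Matrix.mul_apply, Fin.sum_univ_two]
    have hk2 : (k : Matrix (Fin 2 × Fin b) (Fin 2 × Fin b) F) ^ 2 = z • 1 := by
      rw [hkm', kron_pow, one_pow, hg2, Matrix.smul_kronecker, Matrix.one_kronecker_one]
    refine ⟨k, hk, hk2, ?_⟩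
    have hY2 := conj_pow_eq_smul e P k 2 z hk2
    obtain ⟨m, hm, hchar⟩ := Cfsg.Agent.Lib.Helper91EluCHARSQ.charpoly_of_sq_eq_nonsquare _ z hsq hz
    obtain ⟨m₁, hm₁, hchar₁⟩ := Cfsg.Agent.Lib.Helper91EluCHARSQ.charpoly_of_sq_eq_nonsquare _ z hsq hY2
    have : m₁ = m := by omega
    rw [hchar₁, hchar, this]

end Cfsg.Agent.Lib.Helper13EluT5
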