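import Mathlib

set_option autoImplicit false

/-! A computable model of the field with twenty-five elements, `F_5[s]`, `s ^ 2 = 2`; the element
`a + b s` has the code `a + 5 b`.  All operations are plain arithmetic of natural numbers, so that the
kernel evaluates them quickly. -/

namespace Cfsg.Agent.Lib.Helper13F25

/-- the field with twenty-five elements `F_5[s]`, `s ^ 2 = 2` -/
structure F25 where
  /-- the code `a + 5 b` of `a + b s` -/
  val : ℕ
  /-- the bound -/
  lt : val < 25

instance instDecEqF25 : DecidableEq F25 := fun a b =>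
  if h : a.val = b.val then isTrue (by cases a; cases b; simp_all)
  else isFalse (fun e => h (congrArg F25.val e))

/-- as `Fin 25` -/
def F25.equivFin : F25 ≃ Fin 25 where
  toFun x := ⟨x.val, x.lt⟩
  invFun p := ⟨p.1, p.2⟩
  left_inv _ := rfl
  right_inv _ := rfl

instance instFintypeF25 : Fintype F25 := Fintype.ofEquiv _ F25.equivFin.symm

/-- constructor from a code -/
def mk25 (n : ℕ) : F25 := ⟨n % 25, Nat.mod_lt _ (by norm_num)⟩

instance instAddF25 : Add F25 :=
  ⟨fun a b => ⟨(a.val % 5 + b.val % 5) % 5 + 5 * ((a.val / 5 + b.val / 5) % 5), by omega⟩⟩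
instance instMulF25 : Mul F25 :=
  ⟨fun a b => ⟨((a.val % 5) * (b.val % 5) + 2 * ((a.val / 5) * (b.val / 5))) % 5 +
    5 * (((a.val % 5) * (b.val / 5) + (a.val / 5) * (b.val % 5)) % 5), by omega⟩⟩
instance instNegF25 : Neg F25 :=
  ⟨fun a => ⟨(5 - a.val % 5) % 5 + 5 * ((5 - a.val / 5) % 5), by omega⟩⟩
instance instZeroF25 : Zero F25 := ⟨⟨0, by norm_num⟩⟩
instance instOneF25 : One F25 := ⟨⟨1, by norm_num⟩⟩
instance instInvF25 : Inv F25 :=
  ⟨fun a => ⟨((a.val % 5) * ((a.val % 5) * (a.val % 5) + 3 * ((a.val / 5) * (a.val / 5))) ^ 3) % 5 +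
    5 * (((5 - a.val / 5) * ((a.val % 5) * (a.val % 5) + 3 * ((a.val / 5) * (a.val / 5))) ^ 3) % 5),
    by omega⟩⟩

set_option maxHeartbeats 4000000 in
theorem add_assoc25 : ∀ a b c : F25, a + b + c = a + (b + c) := by decide +kernel
theorem zero_add25 : ∀ a : F25, 0 + a = a := by decide +kernel
theorem neg_add25 : ∀ a : F25, -a + a = 0 := by decide +kernel
set_option maxHeartbeats 4000000 in
theorem mul_assoc25 : ∀ a b c : F25, a * b * c = a * (b * c) := by decide +kernel
theorem mul_comm25 : ∀ a b : F25, a * b = b * a := by decide +kernel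
theorem one_mul25 : ∀ a : F25, 1 * a = a := by decide +kernel
theorem mul_inv25 : ∀ a : F25, a ≠ 0 → a * a⁻¹ = 1 := by decide +kernel
theorem inv_zero25 : (0 : F25)⁻¹ = 0 := by decide +kernel
set_option maxHeartbeats 4000000 in
theorem left_distrib25 : ∀ a b c : F25, a * (b + c) = a * b + a * c := by decide +kernel

instance instFieldF25 : Field F25 :=
  Field.ofMinimalAxioms F25 add_assoc25 zero_add25 neg_add25 mul_assoc25 mul_comm25 one_mul25
    mul_inv25 inv_zero25 left_distrib25 ⟨0, 1, by decide⟩

theorem card_F25 : Fintype.card F25 = 25 := by decide +kernel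

instance instCharPF25 : CharP F25 5 := by
  have : Fact (Nat.Prime 5) := ⟨by norm_num⟩
  exact charP_of_card_eq_prime_pow (p := 5) (f := 2) (by rw [card_F25]; norm_num)

/-- any field with twenty-five elements is isomorphic to the model -/
noncomputable def equivF25 {F : Type*} [Field F] [Fintype F] (hF : Fintype.card F = 25) :
    F ≃+* F25 :=
  FiniteField.ringEquivOfCardEq (by rw [hF, card_F25])

/-- the conjugation `x ↦ x ^ 5` -/
def cj (x : F25) : F25 := ⟨x.val % 5 + 5 * ((5 - x.val / 5) % 5), by omega⟩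

theorem pow_five (x : F25) : x ^ 5 = cj x := by
  revert x
  decide +kernel

end Cfsg.Agent.Lib.Helper13F25
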