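import Mathlib.GroupTheory.Solvable
import Mathlib.GroupTheory.Abelianization.Defs
import Cfsg.Agent.Lib.Helper13Basic

set_option autoImplicit false

namespace Cfsg.Agent.Lib.Helper13Ito

open Subgroup Cfsg.Agent.Lib.Helper13Basic
open scoped commutatorElement

variable {G : Type*} [Group G] (A B : Subgroup G)

theorem exists_ba (hAB : ∀ g : G, ∃ a ∈ A, ∃ b ∈ B, g = a * b) (g : G) :
    ∃ b ∈ B, ∃ a ∈ A, g = b * a := by
  obtain ⟨a, ha, b, hb, h⟩ := hAB g⁻¹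
  refine ⟨b⁻¹, B.inv_mem hb, a⁻¹, A.inv_mem ha, ?_⟩
  rw [← mul_inv_rev, ← h, inv_inv]

theorem commAB_normal (hAB : ∀ g : G, ∃ a ∈ A, ∃ b ∈ B, g = a * b) : (⁅A, B⁆ : Subgroup G).Normal := by
  rw [← normalizer_eq_top_iff, eq_top_iff]
  intro g _
  obtain ⟨a, ha, b, hb, rfl⟩ := hAB g
  exact mul_mem (normalizer_commutator_ge_left A B ha) (normalizer_commutator_ge_right A B hb)

theorem commutator_le_commAB [IsMulCommutative A] [IsMulCommutative B]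
    (hAB : ∀ g : G, ∃ a ∈ A, ∃ b ∈ B, g = a * b) : commutator G ≤ ⁅A, B⁆ := by
  haveI := commAB_normal A B hAB
  rw [_root_.commutator_def, commutator_le]
  intro x _ y _
  obtain ⟨a1, ha1, b1, hb1, rfl⟩ := hAB x
  obtain ⟨a2, ha2, b2, hb2, rfl⟩ := hAB y
  rw [← QuotientGroup.eq_one_iff, ← QuotientGroup.mk'_apply, map_commutatorElement,
    commutatorElement_eq_one_iff_commute, map_mul, map_mul]
  have hab : ∀ a ∈ A, ∀ b ∈ B, Commute (QuotientGroup.mk' ⁅A, B⁆ a) (QuotientGroup.mk' ⁅A, B⁆ b) := by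
    intro a ha b hb
    rw [← commutatorElement_eq_one_iff_commute, ← map_commutatorElement, QuotientGroup.mk'_apply,
      QuotientGroup.eq_one_iff]
    exact commutator_mem_commutator ha hb
  have haa : Commute (QuotientGroup.mk' ⁅A, B⁆ a1) (QuotientGroup.mk' ⁅A, B⁆ a2) :=
    (show Commute a1 a2 from comm_of_mem A ha1 ha2).map _
  have hbb : Commute (QuotientGroup.mk' ⁅A, B⁆ b1) (QuotientGroup.mk' ⁅A, B⁆ b2) :=
    (show Commute b1 b2 from comm_of_mem B hb1 hb2).map _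
  exact Commute.mul_left (Commute.mul_right haa (hab a1 ha1 b2 hb2))
    (Commute.mul_right (hab a2 ha2 b1 hb1).symm hbb)

theorem comm_mul_left_of_comm (a b c : G) (h : b * c = c * b) : ⁅a * b, c⁆ = ⁅a, c⁆ := by
  have : b * c * b⁻¹ = c := by rw [h]; group
  calc ⁅a * b, c⁆ = a * (b * c * b⁻¹) * a⁻¹ * c⁻¹ := by simp only [commutatorElement_def]; group
    _ = ⁅a, c⁆ := by rw [this, commutatorElement_def]

theorem comm_mul_right_of_comm (a b c : G) (h : a * c = c * a) : ⁅a, b * c⁆ = ⁅a, b⁆ := by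
  have : c * a⁻¹ * c⁻¹ = a⁻¹ := by
    have h2 : c * a⁻¹ = a⁻¹ * c := by
      calc c * a⁻¹ = a⁻¹ * (a * c) * a⁻¹ := by group
        _ = a⁻¹ * (c * a) * a⁻¹ := by rw [h]
        _ = a⁻¹ * c := by group
    rw [h2]; group
  calc ⁅a, b * c⁆ = a * b * (c * a⁻¹ * c⁻¹) * b⁻¹ := by simp only [commutatorElement_def]; group
    _ = ⁅a, b⁆ := by rw [this, commutatorElement_def]

theorem conj_conj_eq [IsMulCommutative A] [IsMulCommutative B]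
    (hAB : ∀ g : G, ∃ a ∈ A, ∃ b ∈ B, g = a * b) {a α b β : G} (ha : a ∈ A) (hα : α ∈ A)
    (hb : b ∈ B) (hβ : β ∈ B) :
    (α * β) * ⁅a, b⁆ * (α * β)⁻¹ = (β * α) * ⁅a, b⁆ * (β * α)⁻¹ := by
  obtain ⟨a3, ha3, b3, hb3, h3⟩ := hAB (β * a * β⁻¹)
  obtain ⟨b4, hb4, a4, ha4, h4⟩ := exists_ba A B hAB (α * b * α⁻¹)
  have hβb : β * b * β⁻¹ = b := by rw [comm_of_mem B hβ hb]; group
  have hαa : ∀ x ∈ A, α * x * α⁻¹ = x := by
    intro x hx; rw [comm_of_mem A hα hx]; group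
  have hββ : ∀ x ∈ B, β * x * β⁻¹ = x := by
    intro x hx; rw [comm_of_mem B hβ hx]; group
  have e1 : (α * β) * ⁅a, b⁆ * (α * β)⁻¹ = ⁅a3, b4⁆ := by
    calc (α * β) * ⁅a, b⁆ * (α * β)⁻¹ = α * (β * ⁅a, b⁆ * β⁻¹) * α⁻¹ := by group
      _ = α * ⁅a3 * b3, b⁆ * α⁻¹ := by rw [conjugate_commutatorElement, hβb, h3]
      _ = α * ⁅a3, b⁆ * α⁻¹ := by rw [comm_mul_left_of_comm _ _ _ (comm_of_mem B hb3 hb)]
      _ = ⁅a3, b4 * a4⁆ := by rw [conjugate_commutatorElement, hαa a3 ha3, h4]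
      _ = ⁅a3, b4⁆ := by rw [comm_mul_right_of_comm _ _ _ (comm_of_mem A ha3 ha4)]
  have e2 : (β * α) * ⁅a, b⁆ * (β * α)⁻¹ = ⁅a3, b4⁆ := by
    calc (β * α) * ⁅a, b⁆ * (β * α)⁻¹ = β * (α * ⁅a, b⁆ * α⁻¹) * β⁻¹ := by group
      _ = β * ⁅a, b4 * a4⁆ * β⁻¹ := by rw [conjugate_commutatorElement, hαa a ha, h4]
      _ = β * ⁅a, b4⁆ * β⁻¹ := by rw [comm_mul_right_of_comm _ _ _ (comm_of_mem A ha ha4)]
      _ = ⁅a3 * b3, b4⁆ := by rw [conjugate_commutatorElement, hββ b4 hb4, h3]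
      _ = ⁅a3, b4⁆ := by rw [comm_mul_left_of_comm _ _ _ (comm_of_mem B hb3 hb4)]
  rw [e1, e2]

theorem comm_comm [IsMulCommutative A] [IsMulCommutative B]
    (hAB : ∀ g : G, ∃ a ∈ A, ∃ b ∈ B, g = a * b) {a α b β : G} (ha : a ∈ A) (hα : α ∈ A)
    (hb : b ∈ B) (hβ : β ∈ B) : ⁅α, β⁆ * ⁅a, b⁆ = ⁅a, b⁆ * ⁅α, β⁆ := by
  have h := conj_conj_eq A B hAB ha (A.inv_mem hα) hb (B.inv_mem hβ)
  have h2 : ⁅α, β⁆ * ⁅a, b⁆ * ⁅α, β⁆⁻¹ = ⁅a, b⁆ := by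
    calc ⁅α, β⁆ * ⁅a, b⁆ * ⁅α, β⁆⁻¹
        = (β⁻¹ * α⁻¹)⁻¹ * ((α⁻¹ * β⁻¹) * ⁅a, b⁆ * (α⁻¹ * β⁻¹)⁻¹) * (β⁻¹ * α⁻¹) := by
          rw [commutatorElement_def α β]; group
      _ = (β⁻¹ * α⁻¹)⁻¹ * ((β⁻¹ * α⁻¹) * ⁅a, b⁆ * (β⁻¹ * α⁻¹)⁻¹) * (β⁻¹ * α⁻¹) := by rw [h]
      _ = ⁅a, b⁆ := by group
  calc ⁅α, β⁆ * ⁅a, b⁆ = ⁅α, β⁆ * ⁅a, b⁆ * ⁅α, β⁆⁻¹ * ⁅α, β⁆ := by group
    _ = ⁅a, b⁆ * ⁅α, β⁆ := by rw [h2]

theorem commAB_comm [IsMulCommutative A] [IsMulCommutative B]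
    (hAB : ∀ g : G, ∃ a ∈ A, ∃ b ∈ B, g = a * b) : IsMulCommutative (⁅A, B⁆ : Subgroup G) := by
  rw [Subgroup.commutator_def]
  apply isMulCommutative_closure
  rintro _ ⟨α, hα, β, hβ, rfl⟩ _ ⟨a, ha, b, hb, rfl⟩
  exact comm_comm A B hAB ha hα hb hβ

/-- Ito: the commutator subgroup of a product of two abelian subgroups is abelian. -/
theorem ito [IsMulCommutative A] [IsMulCommutative B]
    (hAB : ∀ g : G, ∃ a ∈ A, ∃ b ∈ B, g = a * b) : IsMulCommutative (commutator G) :=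
  isMulCommutative_mono (commutator_le_commAB A B hAB) (commAB_comm A B hAB)

end Cfsg.Agent.Lib.Helper13Ito
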