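import Mathlib
import Cfsg.Agent.Lib.Helper13SL2
import Cfsg.Agent.Lib.Helper40Sylow

/-!
`p`-elements of `SL₂(F)` normalising `p'`-subgroups (`F` finite of odd characteristic `p`).
-/

set_option autoImplicit false

namespace Cfsg.Agent.Lib.Helper13SL2b

open Cfsg.Agent.Lib.Helper46SL2 Cfsg.Agent.Lib.Helper41SL2
open Cfsg.Agent.Lib.Helper31Nilpotent Cfsg.Agent.Lib.Helper13Quad Cfsg.Agent.Lib.Helper13SL2
open Cfsg.Agent.Lib.Helper40Sylow

local notation "SL2" => Matrix.SpecialLinearGroup (Fin 2)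

variable {F : Type*} [Field F] {p : ℕ} [Fact p.Prime] [CharP F p]

theorem tr_eq_trace (A : SL2 F) : tr A = (A : Matrix (Fin 2) (Fin 2) F).trace := by
  rw [Matrix.trace_fin_two]; rfl

/-- a `p`-element has trace `2`. -/
theorem tr_eq_two_of_pow [Fintype F] (a : SL2 F) (k : ℕ) (h : a ^ p ^ k = 1) : tr a = 2 := by
  obtain ⟨n, -, hn⟩ := FiniteField.card F p
  have h1 : ∀ j : ℕ, ((a : Matrix (Fin 2) (Fin 2) F) ^ (Fintype.card F) ^ j).trace =
      (a : Matrix (Fin 2) (Fin 2) F).trace := by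
    intro j
    induction j with
    | zero => simp
    | succ j ih => rw [pow_succ, pow_mul, FiniteField.trace_pow_card, ih, FiniteField.pow_card]
  have h2 : a ^ (Fintype.card F) ^ k = 1 := by
    rw [hn, ← pow_mul, mul_comm, pow_mul]
    obtain ⟨m, hm⟩ := Nat.exists_eq_add_of_le (n.pos : 1 ≤ (n : ℕ))
    rw [hm, pow_add, pow_one, pow_mul, h, one_pow]
  have h3 := h1 k
  rw [← Matrix.SpecialLinearGroup.coe_pow, h2] at h3
  rw [tr_eq_trace, ← h3]
  simp

theorem not_mem_center_of_unipotent (hp : p ≠ 2) {a : SL2 F} (ha : tr a = 2) (ha1 : a ≠ 1) :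
    a ∉ Subgroup.center (SL2 F) := by
  intro h
  rcases mem_center_iff_eq.mp h with h | h
  · exact ha1 h
  · rw [h, tr_neg, tr_one] at ha
    have h2 := two_ne_zero' (F := F) hp
    apply h2
    have : (2 : F) * 2 = 0 := by linear_combination -ha
    exact mul_self_eq_zero.mp this

/-- `p'`-elements commuting with a nontrivial unipotent element are central. -/
theorem central_of_commute_unipotent (hp : p ≠ 2) {a x : SL2 F} (ha : tr a = 2) (ha1 : a ≠ 1)
    {m : ℕ} (hm : m.Coprime p) (hx : x ^ m = 1) (hc : x * a = a * x) :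
    x ∈ Subgroup.center (SL2 F) := by
  by_contra hxc
  apply tr_sq_ne_four hp hm hx hxc
  obtain ⟨α, β, h00, h01, h10, h11⟩ := exists_lin_of_commute (not_mem_center_of_unipotent hp ha ha1) hc
  have hd := det2 x
  have hda := det2 a
  unfold tr at ha ⊢
  rw [h00, h01, h10, h11] at hd
  rw [h00, h11]
  have h1 : (α + β) ^ 2 = 1 := by
    linear_combination hd - β ^ 2 * hda - α * β * ha
  linear_combination 4 * h1 + (β ^ 2 * (a 0 0 + a 1 1) + 2 * β ^ 2 + 4 * α * β) * ha

/-- `p'`-elements commuting with their conjugate under a nontrivial `p`-element are central. -/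
theorem central_of_conj_commute (hp : p ≠ 2) {a x : SL2 F} (ha : tr a = 2) (ha1 : a ≠ 1)
    {k : ℕ} (hak : a ^ p ^ k = 1) {m : ℕ} (hm : m.Coprime p) (hx : x ^ m = 1)
    (hc : (a * x * a⁻¹) * x = x * (a * x * a⁻¹)) : x ∈ Subgroup.center (SL2 F) := by
  by_contra hxc
  have ht := tr_sq_ne_four hp hm hx hxc
  rcases eq_or_eq_inv_of_commute ht hc (tr_conj x a) with h | h
  · apply hxc
    apply central_of_commute_unipotent hp ha ha1 hm hx
    calc x * a = (a * x * a⁻¹) * a := by rw [h]
      _ = a * x := by group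
  · have hodd : Odd (p ^ k) := Odd.pow ((Fact.out : p.Prime).odd_of_ne_two hp)
    obtain ⟨j, hj⟩ := hodd
    have h3 := conj_pow_odd h j
    rw [← hj, hak, one_mul, inv_one, mul_one] at h3
    apply hxc
    rw [mem_center_iff_eq]
    apply (sq_eq_one_iff' (two_ne_zero' (F := F) hp)).mp
    calc x * x = x * x⁻¹ := by rw [← h3]
      _ = 1 := mul_inv_cancel x

omit [Fact p.Prime] [CharP F p] in
/-- `r`-subgroups of `SL₂(F)` are abelian for odd `r`. -/
theorem comm_of_odd_rgroup {r : ℕ} [Fact r.Prime] (hr2 : r ≠ 2)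
    (Q : Subgroup (SL2 F)) [Finite Q] (hQ : IsPGroup r Q) {x y : SL2 F} (hx : x ∈ Q) (hy : y ∈ Q) :
    x * y = y * x := by
  by_cases hQb : Q = ⊥
  · rw [hQb, Subgroup.mem_bot] at hx
    rw [hx, one_mul, mul_one]
  haveI : Nontrivial Q := (Subgroup.nontrivial_iff_ne_bot _).mpr hQb
  haveI := hQ.center_nontrivial
  obtain ⟨z, hz⟩ := exists_ne (1 : Subgroup.center Q)
  have hz1 : ((z : Q) : SL2 F) ≠ 1 := by
    intro h
    apply hz
    apply Subtype.ext; apply Subtype.ext
    exact h
  have hzc : ((z : Q) : SL2 F) ∉ Subgroup.center (SL2 F) := by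
    intro hc
    rcases mem_center_iff_eq.mp hc with h | h
    · exact hz1 h
    · apply hz1
      obtain ⟨j, hj⟩ := hQ (z : Q)
      have hj' : ((z : Q) : SL2 F) ^ r ^ j = 1 := by
        have := congrArg Subtype.val hj
        simpa using this
      have hsq : ((z : Q) : SL2 F) ^ 2 = 1 := by rw [h, pow_two, neg_mul_neg, one_mul]
      refine eq_one_of_pow_coprime ?_ hsq hj'
      exact Nat.Coprime.pow_right j ((Nat.coprime_primes Nat.prime_two Fact.out).mpr (Ne.symm hr2))
  have hcx := Subgroup.mem_center_iff.mp z.2 ⟨x, hx⟩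
  have hcy := Subgroup.mem_center_iff.mp z.2 ⟨y, hy⟩
  exact commute_of_mem_centralizer hzc (congrArg Subtype.val hcx) (congrArg Subtype.val hcy)

theorem exists_invariant_sylow {G : Type*} [Group G] [Finite G] (R : Subgroup G) (a : G)
    (ha : a ∈ Subgroup.normalizer (R : Set G)) {p k : ℕ} [Fact p.Prime] (hak : a ^ p ^ k = 1)
    (hR : (Nat.card R).Coprime p) (r : ℕ) [Fact r.Prime] :
    ∃ Q : Subgroup G, IsSylowIn r Q R ∧ ∀ x ∈ Q, a * x * a⁻¹ ∈ Q := by
  let a' : Subgroup.normalizer (R : Set G) := ⟨a, ha⟩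
  have hP : IsPGroup p (Subgroup.zpowers a') := by
    rintro ⟨y, hy⟩
    obtain ⟨n, rfl⟩ := Subgroup.mem_zpowers_iff.mp hy
    refine ⟨k, ?_⟩
    apply Subtype.ext
    have h1 : a' ^ p ^ k = 1 := Subtype.ext (by simpa using hak)
    simp only [Subgroup.coe_pow, Subgroup.coe_one]
    rw [← zpow_natCast, ← zpow_mul, mul_comm, zpow_mul, zpow_natCast, h1, one_zpow]
  have hnd : ¬ p ∣ Nat.card (Sylow r R) := by
    intro hd
    obtain ⟨Q₁⟩ : Nonempty (Sylow r R) := inferInstance
    have h1 := hd.trans (Q₁.card_dvd_index)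
    have h2 := h1.trans (Subgroup.index_dvd_card (Q₁ : Subgroup R))
    exact (Nat.Prime.coprime_iff_not_dvd Fact.out).mp hR.symm h2
  obtain ⟨Q₀, hQ₀⟩ := hP.nonempty_fixed_point_of_prime_not_dvd_card (Sylow r R) hnd
  refine ⟨(Q₀ : Subgroup R).map R.subtype, isSylowIn_of_sylow Q₀, ?_⟩
  rintro _ ⟨x, hx, rfl⟩
  have h1 : (⟨a', Subgroup.mem_zpowers a'⟩ : Subgroup.zpowers a') • Q₀ = Q₀ := hQ₀ _
  have h2 : a' • x ∈ ((⟨a', Subgroup.mem_zpowers a'⟩ : Subgroup.zpowers a') • Q₀ : Sylow r R) :=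
    Subgroup.smul_mem_pointwise_smul x _ _ hx
  rw [h1] at h2
  exact ⟨a' • x, h2, rfl⟩

omit [Fact p.Prime] [CharP F p] in
theorem central_of_commute_two {y y' g : SL2 F} (hnc : y * y' ≠ y' * y) (h1 : g * y = y * g)
    (h2 : g * y' = y' * g) : g ∈ Subgroup.center (SL2 F) := by
  by_contra hg
  exact hnc (commute_of_mem_centralizer hg h1.symm h2.symm)

omit [Fact p.Prime] [CharP F p] in
theorem sq_eq_neg_one_of_tr {y : SL2 F} (h : tr y = 0) : y * y = -1 := by
  apply ext2 <;> rw [sq_eq, h] <;> simp [Helper46SL2.neg_apply]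

omit [Fact p.Prime] [CharP F p] in
theorem ne_neg_self (h2 : (2 : F) ≠ 0) (x : SL2 F) : x ≠ -x := by
  intro h
  have e : ∀ i j, x i j = 0 := by
    intro i j
    have := congrArg (fun B : SL2 F => B i j) h
    simp only [Helper46SL2.neg_apply] at this
    have h3 : (2 : F) * x i j = 0 := by linear_combination this
    exact (mul_eq_zero.mp h3).resolve_left h2
  have := det2 x
  rw [e, e, e, e] at this
  simp at this

omit [Fact p.Prime] [CharP F p] in
theorem enum (h2 : (2 : F) ≠ 0) {y y' g : SL2 F} (hyy : y * y = -1) (hy'y' : y' * y' = -1)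
    (hanti : y' * y = -(y * y')) (h1 : g * y = y * g ∨ g * y = -(y * g))
    (h1' : g * y' = y' * g ∨ g * y' = -(y' * g)) :
    g = 1 ∨ g = -1 ∨ g = y ∨ g = -y ∨ g = y' ∨ g = -y' ∨ g = y * y' ∨ g = -(y * y') := by
  have hnc : y * y' ≠ y' * y := by
    intro h
    rw [hanti] at h
    exact ne_neg_self h2 _ h
  have hyi : ∀ w : SL2 F, y * w = 1 → w = -y := by
    intro w hw
    have : y * w = y * (-y) := by rw [hw, mul_neg, hyy, neg_neg]
    exact mul_left_cancel this
  have hyi' : ∀ w : SL2 F, y' * w = 1 → w = -y' := by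
    intro w hw
    have : y' * w = y' * (-y') := by rw [hw, mul_neg, hy'y', neg_neg]
    exact mul_left_cancel this
  have hneg : ∀ u w : SL2 F, u * w = -1 → u * (-w) = 1 := by
    intro u w h; rw [mul_neg, h, neg_neg]
  rcases h1 with hC | hA <;> rcases h1' with hC' | hA'
  · rcases mem_center_iff_eq.mp (central_of_commute_two hnc hC hC') with h | h
    · exact Or.inl h
    · exact Or.inr (Or.inl h)
  · have e1 : (y * g) * y = y * (y * g) := by rw [mul_assoc, hC]
    have e2 : (y * g) * y' = y' * (y * g) := by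
      rw [mul_assoc, hA', mul_neg, ← mul_assoc, ← mul_assoc, hanti, neg_mul]
    rcases mem_center_iff_eq.mp (central_of_commute_two hnc e1 e2) with h | h
    · exact Or.inr (Or.inr (Or.inr (Or.inl (hyi g h))))
    · have := hyi (-g) (hneg _ _ h)
      exact Or.inr (Or.inr (Or.inl (neg_injective this)))
  · have e1 : (y' * g) * y' = y' * (y' * g) := by rw [mul_assoc, hC']
    have e2 : (y' * g) * y = y * (y' * g) := by
      rw [mul_assoc, hA, mul_neg, ← mul_assoc, ← mul_assoc, hanti, neg_mul, neg_neg]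
    rcases mem_center_iff_eq.mp (central_of_commute_two hnc e2 e1) with h | h
    · exact Or.inr (Or.inr (Or.inr (Or.inr (Or.inr (Or.inl (hyi' g h))))))
    · have := hyi' (-g) (hneg _ _ h)
      exact Or.inr (Or.inr (Or.inr (Or.inr (Or.inl (neg_injective this)))))
  · have e1 : (y * y' * g) * y = y * (y * y' * g) := by
      calc (y * y' * g) * y = y * y' * (g * y) := by rw [mul_assoc]
        _ = -(y * (y' * y) * g) := by rw [hA, mul_neg]; simp only [mul_assoc]
        _ = y * (y * y' * g) := by rw [hanti, mul_neg, neg_mul, neg_neg]; simp only [mul_assoc]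
    have e2 : (y * y' * g) * y' = y' * (y * y' * g) := by
      calc (y * y' * g) * y' = y * y' * (g * y') := by rw [mul_assoc]
        _ = -(y * y' * (y' * g)) := by rw [hA', mul_neg]
        _ = (y' * y) * (y' * g) := by rw [hanti, neg_mul]
        _ = y' * (y * y' * g) := by simp only [mul_assoc]
    have hinv : ∀ w : SL2 F, y * y' * w = 1 → w = -(y * y') := by
      intro w hw
      have h3 : y * y' * (-(y * y')) = 1 := by
        calc y * y' * (-(y * y')) = y * (y' * (y' * y)) := by rw [hanti]; simp only [mul_assoc]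
          _ = y * ((y' * y') * y) := by simp only [mul_assoc]
          _ = 1 := by rw [hy'y', neg_mul, one_mul, mul_neg, hyy, neg_neg]
      exact mul_left_cancel (hw.trans h3.symm)
    rcases mem_center_iff_eq.mp (central_of_commute_two hnc e1 e2) with h | h
    · exact Or.inr (Or.inr (Or.inr (Or.inr (Or.inr (Or.inr (Or.inr (hinv g h)))))))
    · have := hinv (-g) (hneg _ _ h)
      exact Or.inr (Or.inr (Or.inr (Or.inr (Or.inr (Or.inr (Or.inl (neg_injective this)))))))

section structure_R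

variable [Fintype F] (hp : p ≠ 2) (a : SL2 F) (k : ℕ) (hak : a ^ p ^ k = 1) (ha1 : a ≠ 1)
  (R : Subgroup (SL2 F)) (hR : (Nat.card R).Coprime p)
  (haR : a ∈ Subgroup.normalizer (R : Set (SL2 F)))

include hp hak ha1 hR in
theorem ER {x : SL2 F} (hx : x ∈ R) (hc : (a * x * a⁻¹) * x = x * (a * x * a⁻¹)) :
    x ∈ Subgroup.center (SL2 F) := by
  refine central_of_conj_commute hp (tr_eq_two_of_pow a k hak) ha1 hak hR ?_ hc
  have := pow_card_eq_one' (x := (⟨x, hx⟩ : R))
  exact congrArg Subtype.val this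

include hp hak ha1 hR haR in
theorem isPGroup_two : IsPGroup 2 R := by
  have hall : ∀ r : ℕ, r.Prime → r ∣ Nat.card R → r = 2 := by
    intro r hr hd
    by_contra hr2
    haveI := Fact.mk hr
    obtain ⟨Q, hQ, hQa⟩ := exists_invariant_sylow R a haR hak hR r
    have hQb : Q = ⊥ := by
      rw [eq_bot_iff]
      intro x hx
      rw [Subgroup.mem_bot]
      have hc := ER hp a k hak ha1 R hR (hQ.1 hx) (comm_of_odd_rgroup hr2 Q hQ.2.1 (hQa x hx) hx)
      obtain ⟨j, hj⟩ := hQ.2.1 ⟨x, hx⟩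
      have hj' : x ^ r ^ j = 1 := by
        have := congrArg Subtype.val hj
        simpa using this
      have hsq : x ^ 2 = 1 := by
        rcases mem_center_iff_eq.mp hc with h | h
        · rw [h, one_pow]
        · rw [h, pow_two, neg_mul_neg, one_mul]
      refine eq_one_of_pow_coprime ?_ hsq hj'
      exact Nat.Coprime.pow_right j ((Nat.coprime_primes Nat.prime_two Fact.out).mpr (Ne.symm hr2))
    apply hQ.2.2
    rw [hQb, Subgroup.relIndex_bot_left]
    exact hd
  exact IsPGroup.of_card (Nat.eq_prime_pow_of_unique_prime_dvd Nat.card_pos.ne' (fun {d} => hall d))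

/-- `y ∈ R` is normalised up to sign by `R`. -/
def Pm (R : Subgroup (SL2 F)) (y : SL2 F) : Prop := y ∈ R ∧ ∀ g ∈ R, g * y = y * g ∨ g * y = -(y * g)

include hp hak ha1 hR haR in
theorem exists_Pm {x₀ : SL2 F} (hx₀ : x₀ ∈ R) (hx₀c : x₀ ∉ Subgroup.center (SL2 F)) :
    ∃ y, Pm R y ∧ y ∉ Subgroup.center (SL2 F) := by
  have h2 := isPGroup_two hp a k hak ha1 R hR haR
  have hconj : ∀ x ∈ R, a * x * a⁻¹ ∈ R := fun x hx => (Subgroup.mem_normalizer_iff.mp haR x).mp hx
  have hC : ∀ c : R, c ∈ Subgroup.center R → (c : SL2 F) ∈ Subgroup.center (SL2 F) := by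
    intro c hc
    apply ER hp a k hak ha1 R hR c.2
    exact congrArg Subtype.val (Subgroup.mem_center_iff.mp hc ⟨a * c * a⁻¹, hconj c c.2⟩)
  haveI : Nontrivial (R ⧸ Subgroup.center R) := by
    rw [← not_subsingleton_iff_nontrivial]
    intro hs
    apply hx₀c
    apply hC ⟨x₀, hx₀⟩
    rw [← QuotientGroup.eq_one_iff]
    exact Subsingleton.elim _ _
  haveI := (h2.to_quotient (Subgroup.center R)).center_nontrivial
  obtain ⟨z, hz⟩ := exists_ne (1 : Subgroup.center (R ⧸ Subgroup.center R))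
  obtain ⟨y, hy⟩ := QuotientGroup.mk_surjective (z : R ⧸ Subgroup.center R)
  have hyC : y ∉ Subgroup.center R := by
    intro h
    apply hz
    apply Subtype.ext
    rw [← hy]
    exact (QuotientGroup.eq_one_iff y).mpr h
  refine ⟨y, ⟨y.2, ?_⟩, ?_⟩
  · intro g hg
    have h3 := Subgroup.mem_center_iff.mp z.2 (QuotientGroup.mk (⟨g, hg⟩ : R))
    rw [← hy, ← QuotientGroup.mk_mul, ← QuotientGroup.mk_mul, QuotientGroup.eq] at h3
    have h4 := hC _ h3
    simp only [Subgroup.coe_mul, Subgroup.coe_inv] at h4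
    rcases mem_center_iff_eq.mp h4 with h | h
    · left
      have : (y : SL2 F) * g = g * y * 1 := by rw [← h]; group
      rw [this, mul_one]
    · right
      have : (y : SL2 F) * g = g * y * (-1) := by rw [← h]; group
      rw [this, mul_neg, mul_one, neg_neg]
  · intro h
    apply hyC
    rw [Subgroup.mem_center_iff]
    intro g
    apply Subtype.ext
    exact Subgroup.mem_center_iff.mp h g

omit [Fact p.Prime] [CharP F p] [Fintype F] in
include haR in
theorem Pm_conj {y : SL2 F} (hy : Pm R y) : Pm R (a * y * a⁻¹) := by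
  refine ⟨(Subgroup.mem_normalizer_iff.mp haR y).mp hy.1, ?_⟩
  intro g hg
  have hg' : a⁻¹ * g * a ∈ R := by
    have := (Subgroup.mem_normalizer_iff.mp (Subgroup.inv_mem _ haR) g).mp hg
    simpa using this
  have e1 : g * (a * y * a⁻¹) = a * ((a⁻¹ * g * a) * y) * a⁻¹ := by group
  have e2 : (a * y * a⁻¹) * g = a * (y * (a⁻¹ * g * a)) * a⁻¹ := by group
  rcases hy.2 _ hg' with h | h
  · left; rw [e1, e2, h]
  · right; rw [e1, e2, h, mul_neg, neg_mul]

omit [Fact p.Prime] [CharP F p] [Fintype F] in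
theorem central_of_conj_central {x : SL2 F} (h : a * x * a⁻¹ ∈ Subgroup.center (SL2 F)) :
    x ∈ Subgroup.center (SL2 F) := by
  have := (inferInstance : (Subgroup.center (SL2 F)).Normal).conj_mem _ h a⁻¹
  have e : a⁻¹ * (a * x * a⁻¹) * a⁻¹⁻¹ = x := by group
  rwa [e] at this

include hp hak ha1 hR haR in
theorem anti {y : SL2 F} (hy : Pm R y) (hyc : y ∉ Subgroup.center (SL2 F)) :
    (a * y * a⁻¹) * y = -(y * (a * y * a⁻¹)) := by
  rcases hy.2 _ (Pm_conj a R haR hy).1 with h | h
  · exact absurd (ER hp a k hak ha1 R hR hy.1 h) hyc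
  · exact h

include hp hak ha1 hR haR in
theorem tr_zero {y : SL2 F} (hy : Pm R y) (hyc : y ∉ Subgroup.center (SL2 F)) : tr y = 0 := by
  have h := anti hp a k hak ha1 R hR haR hy hyc
  have h1 : (a * y * a⁻¹) * y * (a * y * a⁻¹)⁻¹ = -y := by
    rw [h, neg_mul, mul_inv_cancel_right]
  have h2 := tr_conj y (a * y * a⁻¹)
  rw [h1, tr_neg] at h2
  have h3 : (2 : F) * tr y = 0 := by linear_combination -h2
  exact (mul_eq_zero.mp h3).resolve_left (two_ne_zero' (F := F) hp)

include hp hak ha1 hR haR in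
theorem mem_enum {y : SL2 F} (hy : Pm R y) (hyc : y ∉ Subgroup.center (SL2 F)) {g : SL2 F}
    (hg : g ∈ R) :
    g = 1 ∨ g = -1 ∨ g = y ∨ g = -y ∨ g = a * y * a⁻¹ ∨ g = -(a * y * a⁻¹) ∨
      g = y * (a * y * a⁻¹) ∨ g = -(y * (a * y * a⁻¹)) := by
  have ht := tr_zero hp a k hak ha1 R hR haR hy hyc
  exact enum (two_ne_zero' (F := F) hp) (sq_eq_neg_one_of_tr ht)
    (sq_eq_neg_one_of_tr (by rw [tr_conj, ht])) (anti hp a k hak ha1 R hR haR hy hyc)
    (hy.2 g hg) ((Pm_conj a R haR hy).2 g hg)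

include hp hak ha1 hR haR in
theorem cube_eq_one {y : SL2 F} (hy : Pm R y) (hyc : y ∉ Subgroup.center (SL2 F)) :
    a * a * a = 1 := by
  have ht := tr_zero hp a k hak ha1 R hR haR hy hyc
  have hyy : y * y = -1 := sq_eq_neg_one_of_tr ht
  have hy'y' : (a * y * a⁻¹) * (a * y * a⁻¹) = -1 := sq_eq_neg_one_of_tr (by rw [tr_conj, ht])
  have hanti := anti hp a k hak ha1 R hR haR hy hyc
  have hy' := Pm_conj a R haR hy
  have hy'c : a * y * a⁻¹ ∉ Subgroup.center (SL2 F) := fun h => hyc (central_of_conj_central a h)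
  have hy'' := Pm_conj a R haR hy'
  have hpy : y ^ Nat.card R = 1 := by
    have := pow_card_eq_one' (x := (⟨y, hy.1⟩ : R))
    exact congrArg Subtype.val this
  set y' := a * y * a⁻¹ with hy'def
  have key : a * y' * a⁻¹ = y * y' ∨ a * y' * a⁻¹ = -(y * y') := by
    rcases mem_enum hp a k hak ha1 R hR haR hy hyc hy''.1 with h | h | h | h | h | h | h | h
    · exfalso; apply hy'c; apply central_of_conj_central a; rw [h]; exact Subgroup.one_mem _
    · exfalso; apply hy'c; apply central_of_conj_central a; rw [h, mem_center_iff_eq]; exact Or.inr rfl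
    · exfalso
      apply hyc
      have haa : (a * a) ^ p ^ k = 1 := by rw [(Commute.refl a).mul_pow, hak, one_mul]
      refine central_of_conj_commute hp (tr_eq_two_of_pow (a * a) k haa) ?_ haa hR hpy ?_
      · intro h1
        apply ha1
        refine eq_one_of_pow_coprime (m := 2) ?_ (by rw [pow_two, h1]) hak
        exact Nat.Coprime.pow_right k ((Nat.coprime_primes Nat.prime_two Fact.out).mpr (Ne.symm hp))
      · have e : (a * a) * y * (a * a)⁻¹ = a * y' * a⁻¹ := by rw [hy'def]; group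
        rw [e, h]
    · exfalso
      apply hyc
      have haa : (a * a) ^ p ^ k = 1 := by rw [(Commute.refl a).mul_pow, hak, one_mul]
      refine central_of_conj_commute hp (tr_eq_two_of_pow (a * a) k haa) ?_ haa hR hpy ?_
      · intro h1
        apply ha1
        refine eq_one_of_pow_coprime (m := 2) ?_ (by rw [pow_two, h1]) hak
        exact Nat.Coprime.pow_right k ((Nat.coprime_primes Nat.prime_two Fact.out).mpr (Ne.symm hp))
      · have e : (a * a) * y * (a * a)⁻¹ = a * y' * a⁻¹ := by rw [hy'def]; group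
        rw [e, h, neg_mul, mul_neg]
    · exfalso; apply hy'c; apply ER hp a k hak ha1 R hR hy'.1; rw [h]
    · exfalso; apply hy'c; apply ER hp a k hak ha1 R hR hy'.1; rw [h, neg_mul, mul_neg]
    · exact Or.inl h
    · exact Or.inr h
  have h3 : (a * a * a) * y * (a * a * a)⁻¹ = y := by
    have e : (a * a * a) * y * (a * a * a)⁻¹ = a * (a * y' * a⁻¹) * a⁻¹ := by rw [hy'def]; group
    have e2 : ∀ u v : SL2 F, a * (u * v) * a⁻¹ = (a * u * a⁻¹) * (a * v * a⁻¹) := by
      intro u v; group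
    have fin : y' * (y * y') = y := by
      rw [← mul_assoc, hanti, neg_mul, mul_assoc, hy'y', mul_neg, mul_one, neg_neg]
    rw [e]
    rcases key with h | h
    · rw [h, e2, ← hy'def, h, fin]
    · rw [h, mul_neg, neg_mul, e2, ← hy'def, h, mul_neg, neg_neg, fin]
  by_contra hne
  apply hyc
  have haaa : (a * a * a) ^ p ^ k = 1 := by
    rw [((Commute.refl a).mul_left (Commute.refl a)).mul_pow, (Commute.refl a).mul_pow, hak, one_mul,
      one_mul]
  refine central_of_commute_unipotent hp (tr_eq_two_of_pow _ k haaa) hne hR hpy ?_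
  calc y * (a * a * a) = ((a * a * a) * y * (a * a * a)⁻¹) * (a * a * a) := by rw [h3]
    _ = (a * a * a) * y := by group

include hp hak ha1 hR haR in
theorem p_eq_three {y : SL2 F} (hy : Pm R y) (hyc : y ∉ Subgroup.center (SL2 F)) : p = 3 := by
  have h := cube_eq_one hp a k hak ha1 R hR haR hy hyc
  have h3 : a ^ 3 = 1 := by rw [pow_succ, pow_two, h]
  have h4 : orderOf a = 3 := orderOf_eq_prime h3 ha1
  have h5 : 3 ∣ p ^ k := h4 ▸ orderOf_dvd_of_pow_eq_one hak
  have h6 := Nat.Prime.dvd_of_dvd_pow Nat.prime_three h5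
  exact ((Nat.prime_dvd_prime_iff_eq Nat.prime_three Fact.out).mp h6).symm

end structure_R

end Cfsg.Agent.Lib.Helper13SL2b
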