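import Mathlib
import Cfsg.Agent.Lib.Helper13SL2b
import Cfsg.Agent.Lib.Helper13SL2c
import Cfsg.Agent.Lib.Helper41Dic

/-!
A `p`-element of `SL₂(F)` acting nontrivially on a `p'`-subgroup `R`: `p = 3`, `R ≅ Q₈`,
`R⟨a⟩ ≅ SL₂(3)`.
-/

set_option autoImplicit false

namespace Cfsg.Agent.Lib.Helper13SL2d

open Cfsg.Agent.Lib.Helper46SL2 Cfsg.Agent.Lib.Helper41SL2
open Cfsg.Agent.Lib.Helper13Quad Cfsg.Agent.Lib.Helper13SL2 Cfsg.Agent.Lib.Helper13SL2b
open Cfsg.Agent.Lib.Helper13SL2c

local notation "SL2" => Matrix.SpecialLinearGroup (Fin 2)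

variable {F : Type*} [Field F] {p : ℕ} [Fact p.Prime] [CharP F p]

omit [Fact p.Prime] [CharP F p] in
theorem Pm_mul {R : Subgroup (SL2 F)} {y y' : SL2 F} (hy : Pm R y) (hy' : Pm R y') :
    Pm R (y * y') := by
  refine ⟨R.mul_mem hy.1 hy'.1, ?_⟩
  intro g hg
  rcases hy.2 g hg with h | h <;> rcases hy'.2 g hg with h' | h'
  · left; rw [← mul_assoc, h, mul_assoc, h', mul_assoc]
  · right; rw [← mul_assoc, h, mul_assoc, h', mul_neg, mul_assoc]
  · right; rw [← mul_assoc, h, neg_mul, mul_assoc, h', mul_assoc]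
  · left; rw [← mul_assoc, h, neg_mul, mul_assoc, h', mul_neg, neg_neg, mul_assoc]

theorem structure_thm [Fintype F] (hp : p ≠ 2) (a : SL2 F) (k : ℕ) (hak : a ^ p ^ k = 1)
    (R : Subgroup (SL2 F)) (hR : (Nat.card R).Coprime p)
    (haR : a ∈ Subgroup.normalizer (R : Set (SL2 F))) (x₀ : SL2 F) (hx₀ : x₀ ∈ R)
    (hne : a * x₀ ≠ x₀ * a) :
    p = 3 ∧ Nonempty (R ≃* QuaternionGroup 2) ∧
      Nonempty (↥(R ⊔ Subgroup.zpowers a) ≃* SL2 (ZMod p)) := by
  have h2 : (2 : F) ≠ 0 := two_ne_zero' (F := F) hp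
  have ha1 : a ≠ 1 := by
    rintro rfl
    exact hne (by rw [one_mul, mul_one])
  have hx₀c : x₀ ∉ Subgroup.center (SL2 F) := fun h => hne (Subgroup.mem_center_iff.mp h a)
  obtain ⟨y, hy, hyc⟩ := exists_Pm hp a k hak ha1 R hR haR hx₀ hx₀c
  have ht := tr_zero hp a k hak ha1 R hR haR hy hyc
  have hyy : y * y = -1 := sq_eq_neg_one_of_tr ht
  have hy'y' : (a * y * a⁻¹) * (a * y * a⁻¹) = -1 := sq_eq_neg_one_of_tr (by rw [tr_conj, ht])
  have hanti := anti hp a k hak ha1 R hR haR hy hyc
  have hy' := Pm_conj a R haR hy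
  set y' := a * y * a⁻¹ with hy'def
  have hyinv : y⁻¹ = -y := by
    rw [inv_eq_iff_mul_eq_one, mul_neg, hyy, neg_neg]
  have hneg1 : (-1 : SL2 F) ≠ 1 := fun h => ne_neg_self h2 1 h.symm
  refine ⟨p_eq_three hp a k hak ha1 R hR haR hy hyc, ?_, ?_⟩
  · -- quaternion
    have hy4 : orderOf y = 2 * 2 := by
      have : orderOf y = 2 ^ (1 + 1) := by
        apply orderOf_eq_prime_pow
        · rw [pow_one, pow_two, hyy]; exact hneg1
        · rw [show (2 : ℕ) ^ (1 + 1) = 2 * 2 by norm_num, pow_mul, pow_two y, hyy, pow_two, neg_mul_neg,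
            one_mul]
      rw [this]; norm_num
    have hsq : y' ^ 2 = y ^ 2 := by rw [pow_two, pow_two, hy'y', hyy]
    have hconj : y' * y * y'⁻¹ = y⁻¹ := by rw [hanti, neg_mul, mul_inv_cancel_right, hyinv]
    have hyn : y' ∉ Subgroup.zpowers y := by
      intro h
      obtain ⟨n, hn⟩ := Subgroup.mem_zpowers_iff.mp h
      have hc : y' * y = y * y' := by
        rw [← hn]
        exact ((Commute.refl y).zpow_left n).eq
      rw [hanti] at hc
      exact ne_neg_self h2 _ hc.symm
    have hinj := Cfsg.Agent.Lib.Helper41Dic.quatHom_injective 2 y y' hy4 hsq hconj hyn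
    have hle := Cfsg.Agent.Lib.Helper41Dic.quatHom_range_le 2 y y' (hy4 ▸ pow_orderOf_eq_one y) hsq
      hconj R hy.1 hy'.1
    set ψ := Cfsg.Agent.Lib.Helper41Dic.quatHom 2 y y' (hy4 ▸ pow_orderOf_eq_one y) hsq hconj with hψ
    have m1 : y ∈ ψ.range := by
      refine ⟨QuaternionGroup.a ((1 : ℕ) : ZMod (2 * 2)), ?_⟩
      rw [hψ, Cfsg.Agent.Lib.Helper41Dic.quatHom_a, Cfsg.Agent.Lib.Helper41Dic.pw_natCast, pow_one]
    have m2 : y' ∈ ψ.range := by
      refine ⟨QuaternionGroup.xa ((0 : ℕ) : ZMod (2 * 2)), ?_⟩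
      rw [hψ, Cfsg.Agent.Lib.Helper41Dic.quatHom_xa, Cfsg.Agent.Lib.Helper41Dic.pw_natCast, pow_zero,
        mul_one]
    have m3 : (-1 : SL2 F) ∈ ψ.range := hyy ▸ ψ.range.mul_mem m1 m1
    have mneg : ∀ w ∈ ψ.range, -w ∈ ψ.range := by
      intro w hw
      have : -w = (-1) * w := by rw [neg_mul, one_mul]
      rw [this]; exact ψ.range.mul_mem m3 hw
    have heq : ψ.range = R := by
      apply le_antisymm hle
      intro g hg
      rcases mem_enum hp a k hak ha1 R hR haR hy hyc hg with h | h | h | h | h | h | h | h <;> rw [h]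
      · exact ψ.range.one_mem
      · exact m3
      · exact m1
      · exact mneg _ m1
      · exact m2
      · exact mneg _ m2
      · exact ψ.range.mul_mem m1 m2
      · exact mneg _ (ψ.range.mul_mem m1 m2)
    exact ⟨((MonoidHom.ofInjective hinj).trans (MulEquiv.subgroupCongr heq)).symm⟩
  · -- SL₂(p)
    have hta : tr a = 2 := tr_eq_two_of_pow a k hak
    have huv : a * (y * a⁻¹ * y⁻¹) = y * y' := by
      have e : a * (y * a⁻¹ * y⁻¹) = y' * y⁻¹ := by rw [hy'def]; group
      rw [e, hyinv, mul_neg, hanti, neg_neg]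
    have htw : tr (y * y') = 0 := by
      have h1 : tr (y' * y) = - tr (y * y') := by rw [hanti, tr_neg]
      rw [tr_mul_comm] at h1
      have h3 : (2 : F) * tr (y * y') = 0 := by linear_combination h1
      exact (mul_eq_zero.mp h3).resolve_left h2
    have hn : (-2 : ZMod p) ≠ 0 := by
      intro h
      have h1 : ((2 : ℕ) : ZMod p) = 0 := by
        have : (2 : ZMod p) = 0 := by linear_combination -h
        exact_mod_cast this
      rw [ZMod.natCast_eq_zero_iff] at h1
      exact hp ((Nat.prime_dvd_prime_iff_eq Fact.out Nat.prime_two).mp h1)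
    obtain ⟨φ, hinj, hrange⟩ := exists_SL2p p a (y * a⁻¹ * y⁻¹) hta (by rw [tr_conj, tr_inv, hta])
      (-2) hn (by rw [huv, htw, map_neg, map_ofNat, zero_sub])
    have heq : Subgroup.closure {a, y * a⁻¹ * y⁻¹} = R ⊔ Subgroup.zpowers a := by
      have haS : a ∈ R ⊔ Subgroup.zpowers a :=
        (le_sup_right : Subgroup.zpowers a ≤ _) (Subgroup.mem_zpowers a)
      have hyS : y ∈ R ⊔ Subgroup.zpowers a := (le_sup_left : R ≤ _) hy.1
      apply le_antisymm
      · rw [Subgroup.closure_le]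
        rintro z (rfl | rfl)
        · exact haS
        · exact Subgroup.mul_mem _ (Subgroup.mul_mem _ hyS (Subgroup.inv_mem _ haS))
            (Subgroup.inv_mem _ hyS)
      · set K := Subgroup.closure {a, y * a⁻¹ * y⁻¹} with hK
        have haK : a ∈ K := Subgroup.subset_closure (by simp)
        have hwK : y * y' ∈ K := by
          rw [← huv]
          exact K.mul_mem haK (Subgroup.subset_closure (by simp))
        have hw : Pm R (y * y') := Pm_mul hy hy'
        have hwc : y * y' ∉ Subgroup.center (SL2 F) := by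
          intro h
          rcases mem_center_iff_eq.mp h with h | h
          · rw [h, tr_one] at htw; exact h2 htw
          · rw [h, tr_neg, tr_one] at htw; exact h2 (by linear_combination -htw)
        have m3 : (-1 : SL2 F) ∈ K := by
          rw [← sq_eq_neg_one_of_tr htw]; exact K.mul_mem hwK hwK
        have mneg : ∀ w ∈ K, -w ∈ K := by
          intro w hw
          have : -w = (-1) * w := by rw [neg_mul, one_mul]
          rw [this]; exact K.mul_mem m3 hw
        have m2 : a * (y * y') * a⁻¹ ∈ K := K.mul_mem (K.mul_mem haK hwK) (K.inv_mem haK)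
        apply sup_le
        · intro g hg
          rcases mem_enum hp a k hak ha1 R hR haR hw hwc hg with h | h | h | h | h | h | h | h <;>
            rw [h]
          · exact K.one_mem
          · exact m3
          · exact hwK
          · exact mneg _ hwK
          · exact m2
          · exact mneg _ m2
          · exact K.mul_mem hwK m2
          · exact mneg _ (K.mul_mem hwK m2)
        · rw [Subgroup.zpowers_le]; exact haK
    exact ⟨((MonoidHom.ofInjective hinj).trans (MulEquiv.subgroupCongr (hrange.trans heq))).symm⟩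

end Cfsg.Agent.Lib.Helper13SL2d
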