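import Mathlib
import Cfsg.Prelude.Def_Local
import Cfsg.Agent.Lib.Helper13SL2d
import Cfsg.Agent.Lib.Helper13Section
import Cfsg.Agent.Lib.Helper38PSolv

/-!
`p`-solvable subgroups of `SL₂(F)` generated by two elements of order `p`
(`F` finite of odd characteristic `p`).
-/

set_option autoImplicit false

namespace Cfsg.Agent.Lib.Helper13SL2e

open Cfsg.Agent.Lib.Helper46SL2 Cfsg.Agent.Lib.Helper41SL2
open Cfsg.Agent.Lib.Helper13Quad Cfsg.Agent.Lib.Helper13SL2 Cfsg.Agent.Lib.Helper13SL2b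
open Cfsg.Agent.Lib.Helper13SL2d Cfsg.Agent.Lib.Helper13Section Cfsg.Agent.Lib.Helper38PSolv

local notation "SL2" => Matrix.SpecialLinearGroup (Fin 2)

theorem isPGroup_zpowers {G : Type*} [Group G] {p k : ℕ} {g : G} (h : g ^ p ^ k = 1) :
    IsPGroup p (Subgroup.zpowers g) := by
  rintro ⟨y, hy⟩
  obtain ⟨n, rfl⟩ := Subgroup.mem_zpowers_iff.mp hy
  refine ⟨k, Subtype.ext ?_⟩
  show (g ^ n) ^ p ^ k = 1
  rw [← zpow_natCast, ← zpow_mul, mul_comm, zpow_mul, zpow_natCast, h, one_zpow]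

theorem isPGroup_closure_of_commute {G : Type*} [Group G] {p : ℕ} {a b : G} (ha : a ^ p = 1)
    (hb : b ^ p = 1) (h : a * b = b * a) : IsPGroup p (Subgroup.closure {a, b} : Subgroup G) := by
  have e : (Subgroup.closure {a, b} : Subgroup G) = Subgroup.zpowers a ⊔ Subgroup.zpowers b := by
    rw [Set.insert_eq, Subgroup.closure_union, ← Subgroup.zpowers_eq_closure,
      ← Subgroup.zpowers_eq_closure]
  rw [e]
  apply IsPGroup.to_sup_of_normal_right' (isPGroup_zpowers (k := 1) (by rwa [pow_one]))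
    (isPGroup_zpowers (k := 1) (by rwa [pow_one]))
  rw [Subgroup.zpowers_le]
  have hc : ∀ r ∈ Subgroup.zpowers b, a * r = r * a := by
    intro r hr
    obtain ⟨n, rfl⟩ := Subgroup.mem_zpowers_iff.mp hr
    exact ((show Commute a b from h).zpow_right n).eq
  apply mem_normalizer_of_conj_mem
  · intro r hr
    rw [hc r hr, mul_inv_cancel_right]; exact hr
  · intro r hr
    rw [mul_assoc, ← hc r hr, inv_mul_cancel_left]; exact hr

variable {F : Type*} [Field F] {p : ℕ} [Fact p.Prime] [CharP F p]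

/-- a subgroup of `SL₂(F)` that is a `p`-group modulo the centre is commutative. -/
theorem comm_of_pgroup_mod_center [Fintype F] (hp : p ≠ 2) (S : Subgroup (SL2 F))
    (hS : ∀ s ∈ S, ∃ k : ℕ, s ^ p ^ k ∈ Subgroup.center (SL2 F)) {x y : SL2 F} (hx : x ∈ S)
    (hy : y ∈ S) : x * y = y * x := by
  have h2 : (2 : F) ≠ 0 := two_ne_zero' (F := F) hp
  set Z : Subgroup S := (Subgroup.center (SL2 F)).subgroupOf S with hZ
  haveI : Z.Normal := by rw [hZ]; infer_instance
  have hP : IsPGroup p (S ⧸ Z) := by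
    intro q
    obtain ⟨s, rfl⟩ := QuotientGroup.mk_surjective q
    obtain ⟨k, hk⟩ := hS s s.2
    refine ⟨k, ?_⟩
    rw [← QuotientGroup.mk_pow, QuotientGroup.eq_one_iff]
    exact hk
  by_cases hnt : Nontrivial (S ⧸ Z)
  · haveI := hP.center_nontrivial
    obtain ⟨q, hq1⟩ := exists_ne (1 : Subgroup.center (S ⧸ Z))
    obtain ⟨z, hz⟩ := QuotientGroup.mk_surjective q.1
    have hzc : (z : SL2 F) ∉ Subgroup.center (SL2 F) := by
      intro h
      apply hq1
      apply Subtype.ext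
      rw [← hz]
      exact (QuotientGroup.eq_one_iff z).mpr h
    have key : ∀ s ∈ S, s * (z : SL2 F) = z * s := by
      intro s hs
      have h1 : ((⟨s, hs⟩ * z * (⟨s, hs⟩ : S)⁻¹ * z⁻¹ : S) : S ⧸ Z) = 1 := by
        rw [QuotientGroup.mk_mul, QuotientGroup.mk_mul, QuotientGroup.mk_mul, QuotientGroup.mk_inv,
          QuotientGroup.mk_inv, hz]
        have := Subgroup.mem_center_iff.mp q.2 ((⟨s, hs⟩ : S) : S ⧸ Z)
        rw [this]
        group
      rw [QuotientGroup.eq_one_iff] at h1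
      have h3 : s * (z : SL2 F) * s⁻¹ * (z : SL2 F)⁻¹ ∈ Subgroup.center (SL2 F) := h1
      rcases mem_center_iff_eq.mp h3 with h4 | h4
      · have : s * (z : SL2 F) * s⁻¹ * (z : SL2 F)⁻¹ * (z * s) = z * s := by rw [h4, one_mul]
        rw [← this]; group
      · exfalso
        have h5 : s * (z : SL2 F) * s⁻¹ = -z := by
          have : s * (z : SL2 F) * s⁻¹ * (z : SL2 F)⁻¹ * z = -1 * z := by rw [h4]
          rw [inv_mul_cancel_right] at this
          rw [this]; simp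
        have h6 := tr_conj (z : SL2 F) s
        rw [h5, tr_neg] at h6
        have h7 : tr (z : SL2 F) = 0 := by
          have : (2 : F) * tr (z : SL2 F) = 0 := by linear_combination -h6
          exact (mul_eq_zero.mp this).resolve_left h2
        have h8 : (z : SL2 F) * z = -1 := sq_eq_neg_one_of_tr h7
        obtain ⟨k, hk⟩ := hS z z.2
        -- `z ^ p ^ k` is `z` times a power of `z * z = -1`
        obtain ⟨m, hm⟩ : Odd (p ^ k) := Odd.pow ((Fact.out : p.Prime).odd_of_ne_two hp)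
        have h9 : (z : SL2 F) ^ p ^ k = (-1) ^ m * z := by
          rw [hm, pow_succ, pow_mul, pow_two, h8]
        rw [h9] at hk
        apply hzc
        have h10 : ((-1 : SL2 F)) ^ m ∈ Subgroup.center (SL2 F) :=
          Subgroup.pow_mem _ (mem_center_iff_eq.mpr (Or.inr rfl)) m
        have := Subgroup.mul_mem _ (Subgroup.inv_mem _ h10) hk
        rwa [inv_mul_cancel_left] at this
    exact commute_of_mem_centralizer hzc (key x hx) (key y hy)
  · rw [not_nontrivial_iff_subsingleton] at hnt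
    have h1 : ((⟨x, hx⟩ : S) : S ⧸ Z) = 1 := Subsingleton.elim _ _
    rw [QuotientGroup.eq_one_iff] at h1
    exact (Subgroup.mem_center_iff.mp h1 y).symm

/-- a `p`-solvable subgroup of `SL₂(F)` generated by two elements of order `p` that is not a
`p`-group contains a copy of `SL₂(3)`, and `p = 3`. -/
theorem psolv_thm [Fintype F] (hp : p ≠ 2) (α β : SL2 F) (hα : α ^ p = 1) (hβ : β ^ p = 1)
    (X : Subgroup (SL2 F)) (hX : X = Subgroup.closure {α, β}) (hs : Cfsg.IsPSolvable p X)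
    (hnp : ¬ IsPGroup p X) :
    p = 3 ∧ ∃ K₀ : Subgroup (SL2 F), K₀ ≤ X ∧ Nonempty (K₀ ≃* SL2 (ZMod p)) := by
  have hpp : p.Prime := Fact.out
  have hαX : α ∈ X := by rw [hX]; exact Subgroup.subset_closure (by simp)
  have hβX : β ∈ X := by rw [hX]; exact Subgroup.subset_closure (by simp)
  have hnc : α * β ≠ β * α := fun h => hnp (hX ▸ isPGroup_closure_of_commute hα hβ h)
  have hB : ∀ w : SL2 F, w ∉ Subgroup.center (SL2 F) → α * w = w * α → β * w = w * β → False :=
    fun w hw h1 h2 => hnc (commute_of_mem_centralizer hw h1 h2)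
  set Z : Subgroup X := (Subgroup.center (SL2 F)).subgroupOf X with hZ
  haveI : Z.Normal := by rw [hZ]; infer_instance
  have hαc : α ∉ Subgroup.center (SL2 F) := fun h => hnc (Subgroup.mem_center_iff.mp h β).symm
  haveI : Nontrivial (X ⧸ Z) := by
    refine ⟨((⟨α, hαX⟩ : X) : X ⧸ Z), 1, ?_⟩
    intro h
    rw [QuotientGroup.eq_one_iff] at h
    exact hαc h
  obtain ⟨N, hNn, hN1, hN⟩ := exists_normal_of_isPSolvable (isPSolvable_quotient Z hs)
  obtain ⟨n, hn, hnZ⟩ : ∃ n : X, (n : X ⧸ Z) ∈ N ∧ (n : SL2 F) ∉ Subgroup.center (SL2 F) := by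
    obtain ⟨q, hq, hq1⟩ := (Subgroup.ne_bot_iff_exists_ne_one.mp hN1 : ∃ a : N, a ≠ 1) |>.elim
      (fun a ha => (⟨a.1, a.2, fun h => ha (Subtype.ext h)⟩ : ∃ q, q ∈ N ∧ q ≠ 1))
    obtain ⟨n, rfl⟩ := QuotientGroup.mk_surjective q
    exact ⟨n, hq, fun h => hq1 ((QuotientGroup.eq_one_iff n).mpr h)⟩
  rcases hN with hN | hN
  · exfalso
    have key : ∀ γ : X, γ ^ p = 1 → (γ : SL2 F) * n = n * γ := by
      intro γ hγ
      have hS : IsPGroup p (N ⊔ Subgroup.zpowers (γ : X ⧸ Z) : Subgroup (X ⧸ Z)) :=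
        IsPGroup.to_sup_of_normal_left hN (isPGroup_zpowers (k := 1)
          (by rw [pow_one, ← QuotientGroup.mk_pow, hγ]; rfl))
      apply comm_of_pgroup_mod_center hp
        (((N ⊔ Subgroup.zpowers (γ : X ⧸ Z)).comap (QuotientGroup.mk' Z)).map X.subtype)
      · rintro _ ⟨s, hs, rfl⟩
        obtain ⟨k, hk⟩ := hS ⟨(s : X ⧸ Z), hs⟩
        refine ⟨k, ?_⟩
        have h1 : ((s ^ p ^ k : X) : X ⧸ Z) = 1 := by
          rw [QuotientGroup.mk_pow]
          exact congrArg Subtype.val hk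
        rw [QuotientGroup.eq_one_iff] at h1
        exact h1
      · exact ⟨γ, (le_sup_right : _ ≤ N ⊔ Subgroup.zpowers (γ : X ⧸ Z))
          (Subgroup.mem_zpowers _), rfl⟩
      · exact ⟨n, (le_sup_left : N ≤ N ⊔ Subgroup.zpowers (γ : X ⧸ Z)) hn, rfl⟩
    exact hB n hnZ (key ⟨α, hαX⟩ (Subtype.ext hα)) (key ⟨β, hβX⟩ (Subtype.ext hβ))
  · set R : Subgroup (SL2 F) := (N.comap (QuotientGroup.mk' Z)).map X.subtype with hR
    have hRX : R ≤ X := Subgroup.map_subtype_le _
    have hRpow : ∀ r ∈ R, r ^ (2 * Nat.card N) = 1 := by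
      rintro _ ⟨s, hs, rfl⟩
      have h1 : ((s ^ Nat.card N : X) : X ⧸ Z) = 1 := by
        rw [QuotientGroup.mk_pow]
        exact congrArg Subtype.val (pow_card_eq_one' (x := (⟨(s : X ⧸ Z), hs⟩ : N)))
      rw [QuotientGroup.eq_one_iff] at h1
      have h2 : (s : SL2 F) ^ Nat.card N ∈ Subgroup.center (SL2 F) := h1
      show (s : SL2 F) ^ (2 * Nat.card N) = 1
      rw [mul_comm, pow_mul]
      rcases mem_center_iff_eq.mp h2 with h3 | h3 <;> rw [h3] <;> simp
    have hRcard : (Nat.card R).Coprime p := by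
      rw [Nat.coprime_comm, Nat.Prime.coprime_iff_not_dvd hpp]
      intro hd
      obtain ⟨r, hr⟩ := exists_prime_orderOf_dvd_card' (G := R) p hd
      have h1 : r ^ (2 * Nat.card N) = 1 := Subtype.ext (hRpow r r.2)
      have h2 : p ∣ 2 * Nat.card N := hr ▸ orderOf_dvd_of_pow_eq_one h1
      rcases (Nat.Prime.dvd_mul hpp).mp h2 with h3 | h3
      · exact hp ((Nat.prime_dvd_prime_iff_eq hpp Nat.prime_two).mp h3)
      · exact (Nat.Prime.coprime_iff_not_dvd hpp).mp hN.symm h3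
    have hRn : ∀ γ ∈ X, γ ∈ Subgroup.normalizer (R : Set (SL2 F)) := by
      have hc : ∀ γ ∈ X, ∀ r ∈ R, γ * r * γ⁻¹ ∈ R := by
        rintro γ hγ _ ⟨s, hs, rfl⟩
        refine ⟨⟨γ, hγ⟩ * s * (⟨γ, hγ⟩ : X)⁻¹, ?_, by
          rw [map_mul, map_mul, map_inv]; rfl⟩
        exact (inferInstance : (N.comap (QuotientGroup.mk' Z)).Normal).conj_mem s hs _
      intro γ hγ
      apply mem_normalizer_of_conj_mem (hc γ hγ)
      intro r hr
      have := hc γ⁻¹ (X.inv_mem hγ) r hr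
      rwa [inv_inv] at this
    have hnR : (n : SL2 F) ∈ R := ⟨n, hn, rfl⟩
    have fin : ∀ γ ∈ X, γ ^ p = 1 → γ * (n : SL2 F) ≠ n * γ →
        p = 3 ∧ ∃ K₀ : Subgroup (SL2 F), K₀ ≤ X ∧ Nonempty (K₀ ≃* SL2 (ZMod p)) := by
      intro γ hγ hγp hne
      obtain ⟨h3, -, e⟩ := structure_thm hp γ 1 (by rwa [pow_one]) R hRcard (hRn γ hγ) n hnR hne
      exact ⟨h3, R ⊔ Subgroup.zpowers γ, sup_le hRX (Subgroup.zpowers_le.mpr hγ), e⟩
    by_cases h1 : α * (n : SL2 F) = n * α
    · by_cases h2 : β * (n : SL2 F) = n * β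
      · exact (hB n hnZ h1 h2).elim
      · exact fin β hβX hβ h2
    · exact fin α hαX hα h1

end Cfsg.Agent.Lib.Helper13SL2e
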