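import Cfsg.Agent.Lib.Helper11Supersolvable

set_option autoImplicit false

namespace Cfsg.Agent.Lib.Helper13Supersolvable

open Subgroup Cfsg.Agent.Lib.Helper11Supersolvable

theorem chain_comap {G : Type*} [Group G] (N : Subgroup G) [N.Normal] (hN : Chain N)
    {A : Subgroup (G ⧸ N)} (hA : Chain A) : Chain (A.comap (QuotientGroup.mk' N)) := by
  induction hA with
  | bot =>
    have : (⊥ : Subgroup (G ⧸ N)).comap (QuotientGroup.mk' N) = N := by
      rw [MonoidHom.comap_bot, QuotientGroup.ker_mk']
    rw [this]; exact hN
  | step A g hA hn ih =>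
    obtain ⟨x, rfl⟩ := QuotientGroup.mk'_surjective N g
    have h1 : (A ⊔ zpowers (QuotientGroup.mk' N x)).comap (QuotientGroup.mk' N)
        = A.comap (QuotientGroup.mk' N) ⊔ zpowers x := by
      apply le_antisymm
      · intro y hy
        rw [mem_comap] at hy
        have := hA.normal
        rw [mem_sup_of_normal_left] at hy
        obtain ⟨a, ha, z, hz, hy⟩ := hy
        obtain ⟨k, rfl⟩ := mem_zpowers_iff.mp hz
        have h2 : y * (x ^ k)⁻¹ ∈ A.comap (QuotientGroup.mk' N) := by
          rw [mem_comap, map_mul, ← hy, map_inv, map_zpow]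
          simpa using ha
        have : y = y * (x ^ k)⁻¹ * x ^ k := by group
        rw [this]
        exact mul_mem (mem_sup_left h2) (mem_sup_right (zpow_mem (mem_zpowers x) k))
      · rw [sup_le_iff]
        refine ⟨comap_mono le_sup_left, ?_⟩
        rw [zpowers_le, mem_comap]
        exact mem_sup_right (mem_zpowers _)
    have h2 : ((A ⊔ zpowers (QuotientGroup.mk' N x)).comap (QuotientGroup.mk' N)).Normal :=
      hn.comap _
    rw [h1] at h2 ⊢
    exact Chain.step _ _ ih h2

/-- If `N` is a cyclic normal subgroup with supersolvable quotient, the group is supersolvable. -/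
theorem of_quotient_zpowers {G : Type*} [Group G] (x : G) [(zpowers x).Normal]
    (h : Cfsg.IsSupersolvable (G ⧸ zpowers x)) : Cfsg.IsSupersolvable G := by
  rw [isSupersolvable_iff] at h ⊢
  have hN : Chain (zpowers x) := by
    have h1 : (⊥ ⊔ zpowers x : Subgroup G) = zpowers x := bot_sup_eq _
    have := Chain.step (⊥ : Subgroup G) x Chain.bot (by rw [h1]; infer_instance)
    rwa [h1] at this
  have := chain_comap (zpowers x) hN h
  rwa [comap_top] at this

theorem of_subsingleton {G : Type*} [Group G] [Subsingleton G] : Cfsg.IsSupersolvable G := by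
  rw [isSupersolvable_iff]
  have : (⊤ : Subgroup G) = ⊥ := Subsingleton.elim _ _
  rw [this]; exact Chain.bot

end Cfsg.Agent.Lib.Helper13Supersolvable
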