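import Mathlib.GroupTheory.Sylow
import Mathlib.GroupTheory.Nilpotent
import Mathlib.GroupTheory.Solvable

set_option autoImplicit false

namespace Cfsg.Agent.Lib.Helper13Sylow

open Subgroup

/-- If `M` contains the normalizer of a Sylow `p`-subgroup then `|G : M| ≡ 1 mod p`. -/
theorem index_modEq_one_of_normalizer_le {G : Type*} [Group G] [Finite G] {p : ℕ} [Fact p.Prime]
    (P : Sylow p G) (M : Subgroup G) (h : normalizer ((P : Subgroup G) : Set G) ≤ M) :
    M.index ≡ 1 [MOD p] := by
  have hPM : (P : Subgroup G) ≤ M := le_normalizer.trans h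
  have h1 : Nat.card (Sylow p G) = (normalizer ((P : Subgroup G) : Set G)).index :=
    P.card_eq_index_normalizer
  have h2 : Nat.card (Sylow p M) = (normalizer (((P.subtype hPM : Sylow p M) : Subgroup M) : Set M)).index :=
    (P.subtype hPM).card_eq_index_normalizer
  have h3 : normalizer (((P.subtype hPM : Sylow p M) : Subgroup M) : Set M)
      = (normalizer ((P : Subgroup G) : Set G)).subgroupOf M := by
    rw [subgroupOf_normalizer_eq hPM]; rfl
  rw [h3] at h2
  have h4 : (normalizer ((P : Subgroup G) : Set G)).relIndex M * M.index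
      = (normalizer ((P : Subgroup G) : Set G)).index := relIndex_mul_index h
  have h5 : Nat.card (Sylow p G) ≡ 1 [MOD p] := card_sylow_modEq_one p G
  have h6 : Nat.card (Sylow p M) ≡ 1 [MOD p] := card_sylow_modEq_one p M
  have h7 : Nat.card (Sylow p M) * M.index = Nat.card (Sylow p G) := by
    rw [h1, h2]; exact h4
  calc M.index = 1 * M.index := (one_mul _).symm
    _ ≡ Nat.card (Sylow p M) * M.index [MOD p] := (h6.symm).mul_right _
    _ = Nat.card (Sylow p G) := h7
    _ ≡ 1 [MOD p] := h5

end Cfsg.Agent.Lib.Helper13Sylow
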