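import Cfsg.Prelude.Def_GeometricClasses

set_option autoImplicit false

namespace Cfsg.Agent.Lib.Helper13Tensor

open Cfsg Cfsg.Geo Matrix
open scoped MatrixGroups

variable {m t : ℕ} {F : Type*} [Field F]

/-- the pure tensor matrix of a family of `m × m` matrices -/
def PT (g : Fin t → Matrix (Fin m) (Fin m) F) : Matrix (Fin t → Fin m) (Fin t → Fin m) F :=
  Matrix.of fun x y => ∏ i, g i (x i) (y i)

lemma PT_apply (g : Fin t → Matrix (Fin m) (Fin m) F) (x y : Fin t → Fin m) :
    PT g x y = ∏ i, g i (x i) (y i) := rfl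

lemma PT_mul (g g' : Fin t → Matrix (Fin m) (Fin m) F) : PT (g * g') = PT g * PT g' := by
  ext x z
  rw [Matrix.mul_apply, PT_apply]
  simp only [PT_apply, Pi.mul_apply, Matrix.mul_apply]
  rw [Finset.prod_univ_sum]
  simp only [Fintype.piFinset_univ, Finset.prod_mul_distrib]

lemma PT_one : PT (1 : Fin t → Matrix (Fin m) (Fin m) F) = 1 := by
  ext x y
  rw [PT_apply]
  simp only [Pi.one_apply, Matrix.one_apply]
  by_cases h : x = y
  · subst h; simp
  · rw [if_neg h]
    obtain ⟨i, hi⟩ := Function.ne_iff.mp h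
    exact Finset.prod_eq_zero (Finset.mem_univ i) (if_neg hi)

/-- `PT` as a monoid homomorphism -/
def PTHom : (Fin t → Matrix (Fin m) (Fin m) F) →* Matrix (Fin t → Fin m) (Fin t → Fin m) F where
  toFun := PT
  map_one' := PT_one
  map_mul' := PT_mul

lemma PT_transpose (g : Fin t → Matrix (Fin m) (Fin m) F) :
    (PT g)ᵀ = PT (fun i => (g i)ᵀ) := by
  ext x y
  simp [PT_apply, Matrix.transpose_apply]

lemma PT_single (x y : Fin t → Fin m) :
    PT (fun i => Matrix.single (x i) (y i) (1 : F)) = Matrix.single x y 1 := by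
  ext u v
  rw [PT_apply]
  simp only [Matrix.single_apply]
  by_cases h : x = u ∧ y = v
  · obtain ⟨rfl, rfl⟩ := h
    simp
  · rw [if_neg h]
    rw [not_and_or] at h
    rcases h with h | h
    · obtain ⟨i, hi⟩ := Function.ne_iff.mp h
      exact Finset.prod_eq_zero (Finset.mem_univ i) (if_neg (fun hh => hi hh.1))
    · obtain ⟨i, hi⟩ := Function.ne_iff.mp h
      exact Finset.prod_eq_zero (Finset.mem_univ i) (if_neg (fun hh => hi hh.2))

/-- the `i`-th factor embedding -/
def L (i : Fin t) (a : Matrix (Fin m) (Fin m) F) : Matrix (Fin t → Fin m) (Fin t → Fin m) F :=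
  PT (Pi.mulSingle i a)

lemma update_eq_mulSingle_mul {M : Type*} [Monoid M] (f : Fin t → M) (i : Fin t) (a : M) :
    Function.update f i a = Pi.mulSingle i a * Function.update f i 1 := by
  ext j
  by_cases h : j = i
  · subst h; simp
  · simp [Function.update_of_ne h, Pi.mulSingle_eq_of_ne h]

lemma PT_smul_update (g : Fin t → Matrix (Fin m) (Fin m) F) (i : Fin t) (c : F)
    (a : Matrix (Fin m) (Fin m) F) :
    PT (Function.update g i (c • a)) = c • PT (Function.update g i a) := by
  ext x y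
  rw [Matrix.smul_apply, PT_apply, PT_apply, smul_eq_mul,
    ← Finset.mul_prod_erase _ _ (Finset.mem_univ i), ← Finset.mul_prod_erase _ _ (Finset.mem_univ i)]
  simp only [Function.update_self, Matrix.smul_apply, smul_eq_mul, mul_assoc]
  congr 2
  apply Finset.prod_congr rfl
  intro j hj
  rw [Function.update_of_ne (Finset.ne_of_mem_erase hj), Function.update_of_ne (Finset.ne_of_mem_erase hj)]

/-- anything commuting with all factor embeddings commutes with all pure tensors -/
lemma commute_PT {z : Matrix (Fin t → Fin m) (Fin t → Fin m) F}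
    (hz : ∀ i a, Commute z (L i a)) (f : Fin t → Matrix (Fin m) (Fin m) F) : Commute z (PT f) := by
  classical
  have key : ∀ s : Finset (Fin t), Commute z (PT (fun i => if i ∈ s then f i else 1)) := by
    intro s
    induction s using Finset.induction_on with
    | empty => simp only [Finset.notMem_empty, if_false]; exact (PT_one (m := m) (t := t) (F := F)) ▸ Commute.one_right z
    | insert i s hi ih =>
      have : (fun j => if j ∈ insert i s then f j else 1) =
          Pi.mulSingle i (f i) * (fun j => if j ∈ s then f j else 1) := by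
        ext1 j
        by_cases h : j = i
        · subst h; simp [hi]
        · simp [h]
      rw [this, PT_mul]
      exact (hz i (f i)).mul_right ih
  simpa using key Finset.univ

lemma scalar_of_commute_L {z : Matrix (Fin t → Fin m) (Fin t → Fin m) F}
    (hz : ∀ i a, Commute z (L i a)) : ∃ c : F, z = c • (1 : Matrix (Fin t → Fin m) (Fin t → Fin m) F) := by
  have h : z ∈ Set.range (Matrix.scalar (Fin t → Fin m)) := by
    apply Matrix.mem_range_scalar_of_commute_single
    intro x y _
    rw [← PT_single]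
    exact (commute_PT hz _).symm
  obtain ⟨c, hc⟩ := h
  exact ⟨c, by rw [← hc]; simp [Matrix.smul_one_eq_diagonal]⟩

lemma L_apply (i : Fin t) (a : Matrix (Fin m) (Fin m) F) (x y : Fin t → Fin m) :
    L i a x y = if (∀ j, j ≠ i → x j = y j) then a (x i) (y i) else 0 := by
  unfold L
  rw [PT_apply, ← Finset.mul_prod_erase _ _ (Finset.mem_univ i), Pi.mulSingle_eq_same]
  split_ifs with h
  · rw [Finset.prod_eq_one, mul_one]
    intro j hj
    have hj' := Finset.ne_of_mem_erase hj
    rw [Pi.mulSingle_eq_of_ne hj', Matrix.one_apply, if_pos (h j hj')]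
  · push Not at h
    obtain ⟨j, hj, hne⟩ := h
    rw [Finset.prod_eq_zero (Finset.mem_erase.mpr ⟨hj, Finset.mem_univ j⟩), mul_zero]
    rw [Pi.mulSingle_eq_of_ne hj, Matrix.one_apply, if_neg hne]

/-- the factor embedding as an algebra homomorphism -/
def LAlg (i : Fin t) : Matrix (Fin m) (Fin m) F →ₐ[F] Matrix (Fin t → Fin m) (Fin t → Fin m) F where
  toFun := L i
  map_one' := by unfold L; rw [Pi.mulSingle_one, PT_one]
  map_mul' a b := by unfold L; rw [Pi.mulSingle_mul, PT_mul]
  map_zero' := by ext x y; rw [L_apply]; simp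
  map_add' a b := by
    ext x y
    rw [Matrix.add_apply, L_apply, L_apply, L_apply]
    split_ifs <;> simp
  commutes' c := by
    ext x y
    rw [L_apply, Matrix.algebraMap_matrix_apply, Matrix.algebraMap_matrix_apply]
    by_cases h : x = y
    · subst h; simp
    · rw [if_neg h]
      split_ifs with h1 h2
      · exfalso
        apply h
        funext j
        by_cases hj : j = i
        · rw [hj]; exact h2
        · exact h1 j hj
      · rfl
      · rfl

@[simp] lemma LAlg_apply (i : Fin t) (a : Matrix (Fin m) (Fin m) F) : LAlg i a = L i a := rfl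

lemma L_injective (i : Fin t) : Function.Injective (L (m := m) (F := F) i) := by
  intro a b h
  ext c c'
  have := congrFun (congrFun h (fun _ => c)) (Function.update (fun _ => c) i c')
  rw [L_apply, L_apply, if_pos (by intro j hj; rw [Function.update_of_ne hj]),
    if_pos (by intro j hj; rw [Function.update_of_ne hj])] at this
  simpa using this

/-- the factor permutation matrix -/
def S (σ : Equiv.Perm (Fin t)) : Matrix (Fin t → Fin m) (Fin t → Fin m) F :=
  Matrix.of fun x y => if y = x ∘ σ then 1 else 0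

lemma S_apply (σ : Equiv.Perm (Fin t)) (x y : Fin t → Fin m) :
    (S σ : Matrix (Fin t → Fin m) (Fin t → Fin m) F) x y = if y = x ∘ σ then 1 else 0 := rfl

lemma S_mul_apply (σ : Equiv.Perm (Fin t)) (M : Matrix (Fin t → Fin m) (Fin t → Fin m) F)
    (x z : Fin t → Fin m) : ((S σ : Matrix (Fin t → Fin m) (Fin t → Fin m) F) * M) x z = M (x ∘ σ) z := by
  rw [Matrix.mul_apply]
  simp only [S_apply, ite_mul, one_mul, zero_mul]
  rw [Finset.sum_ite_eq' Finset.univ (x ∘ σ)]
  simp

lemma mul_S_apply (σ : Equiv.Perm (Fin t)) (M : Matrix (Fin t → Fin m) (Fin t → Fin m) F)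
    (x z : Fin t → Fin m) : (M * (S σ : Matrix (Fin t → Fin m) (Fin t → Fin m) F)) x z = M x (z ∘ σ.symm) := by
  rw [Matrix.mul_apply]
  simp only [S_apply, mul_ite, mul_one, mul_zero]
  have : ∀ y : Fin t → Fin m, (z = y ∘ σ) ↔ (y = z ∘ σ.symm) := by
    intro y
    constructor
    · rintro rfl; funext j; simp
    · rintro rfl; funext j; simp
  simp only [this]
  rw [Finset.sum_ite_eq' Finset.univ (z ∘ σ.symm)]
  simp

lemma S_mul_PT (σ : Equiv.Perm (Fin t)) (f : Fin t → Matrix (Fin m) (Fin m) F) :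
    S σ * PT f = PT (f ∘ σ.symm) * S σ := by
  ext x z
  rw [S_mul_apply, mul_S_apply, PT_apply, PT_apply]
  rw [← Equiv.prod_comp σ (fun j => (f ∘ σ.symm) j (x j) ((z ∘ σ.symm) j))]
  simp

lemma S_mul_S_symm (σ : Equiv.Perm (Fin t)) :
    (S σ * S σ.symm : Matrix (Fin t → Fin m) (Fin t → Fin m) F) = 1 := by
  ext x z
  rw [S_mul_apply, S_apply, Matrix.one_apply]
  have : (z = (x ∘ σ) ∘ σ.symm) ↔ x = z := by
    constructor
    · rintro rfl; funext j; simp
    · rintro rfl; funext j; simp
  simp only [this]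

/-- factor permutation as an element of the general linear group -/
def SG (σ : Equiv.Perm (Fin t)) : GL (Fin t → Fin m) F :=
  ⟨S σ, S σ.symm, S_mul_S_symm σ, by simpa using S_mul_S_symm (m := m) (F := F) σ.symm⟩

lemma SG_mem (σ : Equiv.Perm (Fin t)) : (SG σ : GL (Fin t → Fin m) F) ∈ tensorWreathStandard m t F :=
  Subgroup.subset_closure (Or.inr ⟨σ, fun _ _ => rfl⟩)

/-- pure tensor of invertible matrices as an element of the general linear group -/
def PTG (g : Fin t → GL (Fin m) F) : GL (Fin t → Fin m) F :=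
  ⟨PT (fun i => (g i : Matrix (Fin m) (Fin m) F)), PT (fun i => ((g i)⁻¹ : GL (Fin m) F).1),
    by
      rw [← PT_mul, ← PT_one]; congr 1; funext i
      simp only [Pi.mul_apply, Pi.one_apply]
      rw [← Units.val_mul, mul_inv_cancel, Units.val_one],
    by
      rw [← PT_mul, ← PT_one]; congr 1; funext i
      simp only [Pi.mul_apply, Pi.one_apply]
      rw [← Units.val_mul, inv_mul_cancel, Units.val_one]⟩

lemma PTG_mem (g : Fin t → GL (Fin m) F) : PTG g ∈ tensorWreathStandard m t F :=
  Subgroup.subset_closure (Or.inl ⟨g, fun _ _ => rfl⟩)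

lemma scalar_mem (ht : 0 < t) (g : GL (Fin t → Fin m) F) (c : F)
    (hg : (g : Matrix (Fin t → Fin m) (Fin t → Fin m) F) = c • 1) : g ∈ tensorWreathStandard m t F := by
  by_cases hX : IsEmpty (Fin t → Fin m)
  · have : g = 1 := Units.ext (Matrix.ext fun x => (hX.false x).elim)
    rw [this]; exact Subgroup.one_mem _
  rw [not_isEmpty_iff] at hX
  have hc : c ≠ 0 := by
    rintro rfl
    have h1 : (g : Matrix (Fin t → Fin m) (Fin t → Fin m) F) = 0 := by rw [hg, zero_smul]
    have h2 := g.mul_inv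
    rw [h1, zero_mul] at h2
    exact zero_ne_one h2
  let i₀ : Fin t := ⟨0, ht⟩
  let u : GL (Fin m) F := ⟨c • 1, c⁻¹ • 1, by simp [smul_smul, hc], by simp [smul_smul, hc]⟩
  have : g = PTG (Function.update (fun _ => 1) i₀ u) := by
    apply Units.ext
    rw [hg]
    show _ = PT _
    have e1 : (fun i => ((Function.update (fun _ => (1 : GL (Fin m) F)) i₀ u i : GL (Fin m) F) :
        Matrix (Fin m) (Fin m) F)) = Function.update (fun _ => 1) i₀ (c • 1) := by
      funext i
      by_cases h : i = i₀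
      · subst h; simp [u]
      · simp [Function.update_of_ne h]
    rw [e1, PT_smul_update]
    congr 1
    rw [← PT_one]
    congr 1
    funext i
    by_cases h : i = i₀
    · subst h; simp
    · simp [Function.update_of_ne h]
  rw [this]
  exact PTG_mem _

/-- Skolem-Noether for the full matrix algebra -/
lemma skolem_noether (ψ : Matrix (Fin m) (Fin m) F ≃ₐ[F] Matrix (Fin m) (Fin m) F) :
    ∃ u : GL (Fin m) F, ∀ a, ψ a = (u : Matrix (Fin m) (Fin m) F) * a * ((u⁻¹ : GL (Fin m) F) : Matrix (Fin m) (Fin m) F) := by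
  let f : Module.End F (Fin m → F) ≃ₐ[F] Module.End F (Fin m → F) :=
    (Matrix.toLinAlgEquiv'.symm.trans ψ).trans Matrix.toLinAlgEquiv'
  obtain ⟨T, hT⟩ := f.eq_linearEquivConjAlgEquiv
  let U : Matrix (Fin m) (Fin m) F := LinearMap.toMatrix' (T : (Fin m → F) →ₗ[F] (Fin m → F))
  let U' : Matrix (Fin m) (Fin m) F := LinearMap.toMatrix' (T.symm : (Fin m → F) →ₗ[F] (Fin m → F))
  have h1 : U * U' = 1 := by
    rw [← LinearMap.toMatrix'_comp]
    simp
  have h2 : U' * U = 1 := by
    rw [← LinearMap.toMatrix'_comp]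
    simp
  refine ⟨⟨U, U', h1, h2⟩, fun a => ?_⟩
  have h3 : f (Matrix.toLin' a) = Matrix.toLin' (ψ a) := by
    show Matrix.toLinAlgEquiv' (ψ (Matrix.toLinAlgEquiv'.symm (Matrix.toLin' a))) = _
    have : Matrix.toLinAlgEquiv'.symm (Matrix.toLin' a) = a := by
      rw [AlgEquiv.symm_apply_eq]; rfl
    rw [this]; rfl
  rw [hT] at h3
  have h4 : ψ a = LinearMap.toMatrix' (Matrix.toLin' (ψ a)) := by simp
  rw [h4, ← h3]
  show _ = U * a * U'
  rw [LinearEquiv.conjAlgEquiv_apply, LinearMap.toMatrix'_comp, LinearMap.toMatrix'_comp]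
  simp [U, U', mul_assoc]

/-- two injective algebra maps out of a matrix algebra with nested ranges differ by an automorphism -/
lemma exists_aut {A : Type*} [Ring A] [Algebra F A] (α β : Matrix (Fin m) (Fin m) F →ₐ[F] A)
    (hα : Function.Injective α) (hβ : Function.Injective β) (h : ∀ a, ∃ a', α a = β a') :
    ∃ ψ : Matrix (Fin m) (Fin m) F ≃ₐ[F] Matrix (Fin m) (Fin m) F, ∀ a, α a = β (ψ a) := by
  let βe := AlgEquiv.ofInjective β hβ
  let α' : Matrix (Fin m) (Fin m) F →ₐ[F] β.range := α.codRestrict β.range (fun a => by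
    obtain ⟨a', h'⟩ := h a
    exact ⟨a', h'.symm⟩)
  let ψ0 : Matrix (Fin m) (Fin m) F →ₐ[F] Matrix (Fin m) (Fin m) F := βe.symm.toAlgHom.comp α'
  have h1 : ∀ a, β (ψ0 a) = α a := by
    intro a
    have e1 : βe (βe.symm (α' a)) = α' a := βe.apply_symm_apply _
    have e2 := congrArg Subtype.val e1
    exact e2
  have hinj : Function.Injective ψ0 := by
    intro a b hab
    apply hα
    rw [← h1, ← h1, hab]
  have hsurj : Function.Surjective ψ0 := (LinearMap.injective_iff_surjective (f := ψ0.toLinearMap)).mp hinj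
  exact ⟨AlgEquiv.ofBijective ψ0 ⟨hinj, hsurj⟩, fun a => (h1 a).symm⟩

/-- conjugation by an invertible matrix as an algebra homomorphism -/
def conjAlg {κ : Type*} [Fintype κ] [DecidableEq κ] (g : GL κ F) : Matrix κ κ F →ₐ[F] Matrix κ κ F where
  toFun M := (g : Matrix κ κ F) * M * ((g⁻¹ : GL κ F) : Matrix κ κ F)
  map_one' := by rw [mul_one, ← Units.val_mul, mul_inv_cancel, Units.val_one]
  map_mul' a b := by
    have : ((g⁻¹ : GL κ F) : Matrix κ κ F) * (g : Matrix κ κ F) = 1 := by
      rw [← Units.val_mul, inv_mul_cancel, Units.val_one]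
    calc (g : Matrix κ κ F) * (a * b) * ((g⁻¹ : GL κ F) : Matrix κ κ F)
        = (g : Matrix κ κ F) * a * (1 * b) * ((g⁻¹ : GL κ F) : Matrix κ κ F) := by
          rw [one_mul]; simp only [mul_assoc]
      _ = _ := by rw [← this]; simp only [mul_assoc]
  map_zero' := by simp
  map_add' a b := by rw [mul_add, add_mul]
  commutes' c := by
    rw [Algebra.algebraMap_eq_smul_one, mul_smul_comm, mul_one, smul_mul_assoc, ← Units.val_mul,
      mul_inv_cancel, Units.val_one]

lemma conjAlg_apply {κ : Type*} [Fintype κ] [DecidableEq κ] (g : GL κ F) (M : Matrix κ κ F) :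
    conjAlg g M = (g : Matrix κ κ F) * M * ((g⁻¹ : GL κ F) : Matrix κ κ F) := rfl

lemma conjAlg_injective {κ : Type*} [Fintype κ] [DecidableEq κ] (g : GL κ F) :
    Function.Injective (conjAlg g) := by
  intro a b h
  have h1 : ((g⁻¹ : GL κ F) : Matrix κ κ F) * (g : Matrix κ κ F) = 1 := by
    rw [← Units.val_mul, inv_mul_cancel, Units.val_one]
  have h2 : ∀ M : Matrix κ κ F, ((g⁻¹ : GL κ F) : Matrix κ κ F) * conjAlg g M * (g : Matrix κ κ F) = M := by
    intro M
    rw [conjAlg_apply]
    calc _ = (((g⁻¹ : GL κ F) : Matrix κ κ F) * (g : Matrix κ κ F)) * M *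
          (((g⁻¹ : GL κ F) : Matrix κ κ F) * (g : Matrix κ κ F)) := by simp only [mul_assoc]
      _ = M := by rw [h1, one_mul, mul_one]
  rw [← h2 a, h, h2 b]

lemma S_mul_L (σ : Equiv.Perm (Fin t)) (i : Fin t) (a : Matrix (Fin m) (Fin m) F) :
    S σ * L i a = L (σ i) a * S σ := by
  unfold L
  rw [S_mul_PT]
  congr 2
  funext j
  by_cases h : j = σ i
  · subst h; simp
  · have : σ.symm j ≠ i := fun hh => h (by rw [← hh]; simp)
    simp [Pi.mulSingle_eq_of_ne h, Pi.mulSingle_eq_of_ne this]

lemma PTG_mul_L (u : Fin t → GL (Fin m) F) (j : Fin t) (a : Matrix (Fin m) (Fin m) F) :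
    (PTG u : Matrix (Fin t → Fin m) (Fin t → Fin m) F) * L j a =
      L j ((u j : Matrix (Fin m) (Fin m) F) * a * ((u j)⁻¹ : GL (Fin m) F).1) * (PTG u : Matrix (Fin t → Fin m) (Fin t → Fin m) F) := by
  show PT _ * PT _ = PT _ * PT _
  rw [← PT_mul, ← PT_mul]
  congr 1
  funext k
  by_cases h : k = j
  · subst h
    simp only [Pi.mul_apply, Pi.mulSingle_eq_same]
    rw [mul_assoc, ← Units.val_mul, inv_mul_cancel, Units.val_one, mul_one]
  · simp [Pi.mulSingle_eq_of_ne h]

/-- an invertible matrix permuting the factor subalgebras lies in the standard tensor wreath group -/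
theorem mem_tensorWreathStandard (ht : 0 < t) (g : GL (Fin t → Fin m) F) (π : Equiv.Perm (Fin t))
    (h : ∀ i a, ∃ a', (g : Matrix (Fin t → Fin m) (Fin t → Fin m) F) * L i a *
      ((g⁻¹ : GL (Fin t → Fin m) F) : Matrix (Fin t → Fin m) (Fin t → Fin m) F) = L (π i) a') :
    g ∈ tensorWreathStandard m t F := by
  have h1 : ∀ i, ∃ u : GL (Fin m) F, ∀ a, (g : Matrix (Fin t → Fin m) (Fin t → Fin m) F) * L i a *
      ((g⁻¹ : GL (Fin t → Fin m) F) : Matrix (Fin t → Fin m) (Fin t → Fin m) F) =
      L (π i) ((u : Matrix (Fin m) (Fin m) F) * a * (u⁻¹ : GL (Fin m) F).1) := by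
    intro i
    obtain ⟨ψ, hψ⟩ := exists_aut ((conjAlg g).comp (LAlg i)) (LAlg (π i))
      ((conjAlg_injective g).comp (L_injective i)) (L_injective (π i)) (h i)
    obtain ⟨u, hu⟩ := skolem_noether ψ
    refine ⟨u, fun a => ?_⟩
    rw [← hu a]
    exact hψ a
  choose u hu using h1
  let U : GL (Fin t → Fin m) F := PTG (fun j => u (π.symm j))
  let w : GL (Fin t → Fin m) F := U * SG π
  have hw : ∀ i a, (w : Matrix (Fin t → Fin m) (Fin t → Fin m) F) * L i a =
      L (π i) ((u i : Matrix (Fin m) (Fin m) F) * a * ((u i)⁻¹ : GL (Fin m) F).1) *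
        (w : Matrix (Fin t → Fin m) (Fin t → Fin m) F) := by
    intro i a
    show (U : Matrix (Fin t → Fin m) (Fin t → Fin m) F) * S π * L i a = _ * ((U : Matrix (Fin t → Fin m) (Fin t → Fin m) F) * S π)
    rw [mul_assoc, S_mul_L, ← mul_assoc, PTG_mul_L, Equiv.symm_apply_apply, mul_assoc]
  have hg : ∀ i a, (g : Matrix (Fin t → Fin m) (Fin t → Fin m) F) * L i a =
      L (π i) ((u i : Matrix (Fin m) (Fin m) F) * a * ((u i)⁻¹ : GL (Fin m) F).1) *
        (g : Matrix (Fin t → Fin m) (Fin t → Fin m) F) := by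
    intro i a
    rw [← hu i a, mul_assoc _ _ (g : Matrix (Fin t → Fin m) (Fin t → Fin m) F), ← Units.val_mul,
      inv_mul_cancel, Units.val_one, mul_one]
  have hz : ∀ i a, Commute ((w⁻¹ * g : GL (Fin t → Fin m) F) : Matrix (Fin t → Fin m) (Fin t → Fin m) F) (L i a) := by
    intro i a
    show _ * _ = _ * _
    have e1 : ((w⁻¹ : GL (Fin t → Fin m) F) : Matrix (Fin t → Fin m) (Fin t → Fin m) F) *
        L (π i) ((u i : Matrix (Fin m) (Fin m) F) * a * ((u i)⁻¹ : GL (Fin m) F).1) =
        L i a * ((w⁻¹ : GL (Fin t → Fin m) F) : Matrix (Fin t → Fin m) (Fin t → Fin m) F) := by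
      have e2 : ((w⁻¹ : GL (Fin t → Fin m) F) : Matrix (Fin t → Fin m) (Fin t → Fin m) F) * w = 1 := by
        rw [← Units.val_mul, inv_mul_cancel, Units.val_one]
      have e3 : (w : Matrix (Fin t → Fin m) (Fin t → Fin m) F) * ((w⁻¹ : GL (Fin t → Fin m) F) : Matrix (Fin t → Fin m) (Fin t → Fin m) F) = 1 := by
        rw [← Units.val_mul, mul_inv_cancel, Units.val_one]
      calc _ = ((w⁻¹ : GL (Fin t → Fin m) F) : Matrix (Fin t → Fin m) (Fin t → Fin m) F) *
            (L (π i) ((u i : Matrix (Fin m) (Fin m) F) * a * ((u i)⁻¹ : GL (Fin m) F).1) *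
              (w : Matrix (Fin t → Fin m) (Fin t → Fin m) F)) *
            ((w⁻¹ : GL (Fin t → Fin m) F) : Matrix (Fin t → Fin m) (Fin t → Fin m) F) := by
              rw [mul_assoc _ _ ((w⁻¹ : GL (Fin t → Fin m) F) : Matrix (Fin t → Fin m) (Fin t → Fin m) F),
                mul_assoc _ (w : Matrix (Fin t → Fin m) (Fin t → Fin m) F), e3, mul_one]
        _ = _ := by rw [← hw, ← mul_assoc, e2, one_mul]
    rw [Units.val_mul, mul_assoc, hg, ← mul_assoc, e1, mul_assoc]
  obtain ⟨c, hc⟩ := scalar_of_commute_L hz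
  have h2 : w⁻¹ * g ∈ tensorWreathStandard m t F := scalar_mem ht _ c hc
  have h3 : w ∈ tensorWreathStandard m t F := Subgroup.mul_mem _ (PTG_mem _) (SG_mem _)
  have : g = w * (w⁻¹ * g) := by group
  rw [this]
  exact Subgroup.mul_mem _ h3 h2

end Cfsg.Agent.Lib.Helper13Tensor
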