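import Cfsg.Agent.Lib.Helper13U3C6a

set_option autoImplicit false

/-! `SU_3(5)`, class 6: the normal form of a unitary group of order 27. -/

namespace Cfsg.Agent.Lib.Helper13U3C6d

open Cfsg Cfsg.Geo Matrix Cfsg.Agent.Lib.Helper13U3C6a Cfsg.Agent.Lib.Helper7GU
  Cfsg.Agent.Lib.Helper7Herm
open scoped MatrixGroups

variable {F : Type*} [Field F]

local notation "H" => hermForm 3 F 5
local notation "M3" => Matrix (Fin 3) (Fin 3) F

lemma omega_cube {ω : F} (hω : ω ^ 2 + ω + 1 = 0) : ω * ω * ω = 1 := by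
  linear_combination (ω - 1) * hω

lemma omega_ne_one {ω : F} (h3 : (3 : F) ≠ 0) (hω : ω ^ 2 + ω + 1 = 0) : ω ≠ 1 := by
  rintro rfl
  apply h3
  linear_combination hω

lemma omega_sq_ne_one {ω : F} (h3 : (3 : F) ≠ 0) (hω : ω ^ 2 + ω + 1 = 0) : ω * ω ≠ 1 := by
  intro h
  apply omega_ne_one h3 hω
  have := omega_cube hω
  rw [h, one_mul] at this
  exact this

/-- orthogonality of eigenvectors -/
lemma orth (x : M3) (hxU : ∀ u v, H (x *ᵥ u) (x *ᵥ v) = H u v) {a b : Fin 3 → F} {α β : F}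
    (ha : x *ᵥ a = α • a) (hb : x *ᵥ b = β • b) (hne : α * β ^ 5 ≠ 1) : H a b = 0 := by
  have h1 := hxU a b
  rw [ha, hb, h_smul_left, h_smul_right] at h1
  have h2 : (α * β ^ 5 - 1) * H a b = 0 := by linear_combination h1
  rcases mul_eq_zero.mp h2 with h | h
  · exact absurd (sub_eq_zero.mp h) hne
  · exact h

/-- existence of a fixed vector -/
lemma exists_fixed {ω : F} (h3 : (3 : F) ≠ 0) (hω : ω ^ 2 + ω + 1 = 0) (x y : M3)
    (hx3 : x * x * x = 1) (hy3 : y * y * y = 1) (hxy : x * y = ω • (y * x)) :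
    ∃ v : Fin 3 → F, v ≠ 0 ∧ x *ᵥ v = v := by
  have hxxy : x * x * y = (ω * ω) • (y * (x * x)) := by
    calc x * x * y = x * (x * y) := mul_assoc _ _ _
      _ = ω • (x * y * x) := by rw [hxy, mul_smul_comm, ← mul_assoc x y x, hxy]
      _ = (ω * ω) • (y * (x * x)) := by rw [hxy, smul_mul_assoc, smul_smul, mul_assoc]
  have hP : ∀ a : F, (1 + a • x + (a * a) • (x * x)) * y =
      y * (1 + (a * ω) • x + ((a * ω) * (a * ω)) • (x * x)) := by
    intro a
    rw [add_mul, add_mul, one_mul, smul_mul_assoc, smul_mul_assoc, hxy, hxxy, mul_add, mul_add,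
      mul_one, mul_smul_comm, mul_smul_comm, smul_smul, smul_smul]
    congr 2
    ring
  have hcancel : ∀ A : M3, y * A = 0 → A = 0 := by
    intro A hA
    have : y * y * (y * A) = A := by rw [← mul_assoc, hy3, one_mul]
    rw [← this, hA, mul_zero]
  have hP1 : (1 + (1 : F) • x + ((1 : F) * 1) • (x * x)) ≠ 0 := by
    intro h1
    have h2 := hcancel _ (by rw [← hP, h1, zero_mul])
    have h4 := hcancel _ (by rw [← hP, h2, zero_mul])
    have h5 : (3 : F) • (1 : M3) = 0 := by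
      have e : (3 : F) • (1 : M3) = (1 + (1 : F) • x + ((1 : F) * 1) • (x * x)) +
          (1 + ((1 : F) * ω) • x + (((1 : F) * ω) * ((1 : F) * ω)) • (x * x)) +
          (1 + ((1 : F) * ω * ω) • x + (((1 : F) * ω * ω) * ((1 : F) * ω * ω)) • (x * x)) -
          (ω ^ 2 + ω + 1) • x - ((ω ^ 2 + ω + 1) + ω * (ω * ω * ω - 1)) • (x * x) := by
        module
      rw [e, h1, h2, h4, hω, omega_cube hω]
      simp
    have h6 := congrFun (congrFun h5 0) 0
    simp at h6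
    exact h3 h6
  have hex : ∃ w : Fin 3 → F, (1 + (1 : F) • x + ((1 : F) * 1) • (x * x)) *ᵥ w ≠ 0 := by
    by_contra hcon
    push Not at hcon
    apply hP1
    ext i j
    have := congrFun (hcon (Pi.single j 1)) i
    simpa using this
  obtain ⟨w, hw⟩ := hex
  refine ⟨_, hw, ?_⟩
  rw [Matrix.mulVec_mulVec]
  congr 1
  rw [mul_add, mul_add, mul_one, mul_smul_comm, mul_smul_comm, ← mul_assoc, hx3]
  simp only [one_smul, mul_one]
  abel

/-- the three eigenvectors -/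
def vv (y : M3) (v : Fin 3 → F) : Fin 3 → (Fin 3 → F) := ![v, y *ᵥ v, y *ᵥ (y *ᵥ v)]

/-- the matrix with these columns -/
def MM (y : M3) (v : Fin 3 → F) : M3 := Matrix.of fun k l => vv y v l k

lemma vv_shift (y : M3) (hy3 : y * y * y = 1) (v : Fin 3 → F) (l : Fin 3) :
    y *ᵥ vv y v l = vv y v (l + 1) := by
  fin_cases l
  · rfl
  · rfl
  · show y *ᵥ (y *ᵥ (y *ᵥ v)) = v
    rw [Matrix.mulVec_mulVec, Matrix.mulVec_mulVec, hy3, Matrix.one_mulVec]

lemma vv_eig {ω : F} (x y : M3) (hxy : x * y = ω • (y * x)) (v : Fin 3 → F) (hv : x *ᵥ v = v)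
    (l : Fin 3) : x *ᵥ vv y v l = wv ω l • vv y v l := by
  have hxy' : ∀ u, x *ᵥ (y *ᵥ u) = ω • (y *ᵥ (x *ᵥ u)) := by
    intro u
    rw [Matrix.mulVec_mulVec, hxy, Matrix.smul_mulVec, ← Matrix.mulVec_mulVec]
  fin_cases l
  · show x *ᵥ v = (1 : F) • v
    rw [hv, one_smul]
  · show x *ᵥ (y *ᵥ v) = ω • (y *ᵥ v)
    rw [hxy', hv]
  · show x *ᵥ (y *ᵥ (y *ᵥ v)) = (ω * ω) • (y *ᵥ (y *ᵥ v))
    rw [hxy', hxy', hv, Matrix.mulVec_smul, smul_smul]

lemma wv_ne {ω : F} (h3 : (3 : F) ≠ 0) (hω : ω ^ 2 + ω + 1 = 0) (j l : Fin 3) (hjl : j ≠ l) :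
    wv ω j * wv ω l ^ 5 ≠ 1 := by
  have h1 := omega_ne_one h3 hω
  have h2 := omega_sq_ne_one h3 hω
  have hc := omega_cube hω
  fin_cases j <;> fin_cases l
  · exact absurd rfl hjl
  · show (1 : F) * ω ^ 5 ≠ 1
    intro h
    apply h2
    linear_combination h - (ω * ω) * hc
  · show (1 : F) * (ω * ω) ^ 5 ≠ 1
    intro h
    apply h1
    linear_combination h - (ω ^ 7 + ω ^ 4 + ω) * hc
  · show ω * (1 : F) ^ 5 ≠ 1
    intro h
    apply h1
    linear_combination h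
  · exact absurd rfl hjl
  · show ω * (ω * ω) ^ 5 ≠ 1
    intro h
    apply h2
    linear_combination h - (ω ^ 8 + ω ^ 5 + ω ^ 2) * hc
  · show ω * ω * (1 : F) ^ 5 ≠ 1
    intro h
    apply h2
    linear_combination h
  · show ω * ω * ω ^ 5 ≠ 1
    intro h
    apply h1
    linear_combination h - (ω ^ 4 + ω) * hc
  · exact absurd rfl hjl

lemma vv_gram {ω : F} (h3 : (3 : F) ≠ 0) (hω : ω ^ 2 + ω + 1 = 0) (x y : M3)
    (hxy : x * y = ω • (y * x))
    (hxU : ∀ u v, H (x *ᵥ u) (x *ᵥ v) = H u v) (hyU : ∀ u v, H (y *ᵥ u) (y *ᵥ v) = H u v)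
    (v : Fin 3 → F) (hv : x *ᵥ v = v) (j l : Fin 3) :
    H (vv y v j) (vv y v l) = if j = l then H v v else 0 := by
  by_cases hjl : j = l
  · subst hjl
    rw [if_pos rfl]
    fin_cases j
    · rfl
    · exact hyU v v
    · exact (hyU _ _).trans (hyU v v)
  · rw [if_neg hjl]
    exact orth x hxU (vv_eig x y hxy v hv j) (vv_eig x y hxy v hv l) (wv_ne h3 hω j l hjl)

lemma MM_gram {ω : F} (h3 : (3 : F) ≠ 0) (hω : ω ^ 2 + ω + 1 = 0) (x y : M3)
    (hxy : x * y = ω • (y * x))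
    (hxU : ∀ u v, H (x *ᵥ u) (x *ᵥ v) = H u v) (hyU : ∀ u v, H (y *ᵥ u) (y *ᵥ v) = H u v)
    (v : Fin 3 → F) (hv : x *ᵥ v = v) :
    (MM y v)ᵀ * (MM y v).map (fun a => a ^ 5) = (H v v) • (1 : M3) := by
  ext j l
  rw [entry_eq]
  have := vv_gram h3 hω x y hxy hxU hyU v hv j l
  rw [Matrix.smul_apply, Matrix.one_apply, smul_eq_mul, mul_ite, mul_one, mul_zero]
  exact this

lemma x_MM {ω : F} (x y : M3) (hxy : x * y = ω • (y * x)) (v : Fin 3 → F) (hv : x *ᵥ v = v) :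
    x * MM y v = MM y v * rho ω (0, 1, 0) := by
  ext k l
  have h1 : (x * MM y v) k l = (x *ᵥ vv y v l) k := rfl
  rw [h1, vv_eig x y hxy v hv l, Matrix.mul_apply]
  simp [rho, MM, mul_comm]

lemma y_MM (ω : F) (y : M3) (hy3 : y * y * y = 1) (v : Fin 3 → F) :
    y * MM y v = MM y v * rho ω (0, 0, 1) := by
  ext k l
  have h1 : (y * MM y v) k l = (y *ᵥ vv y v l) k := rfl
  have h2 : ∀ m l : Fin 3, (l = m - 1) ↔ (m = l + 1) := by decide
  rw [h1, vv_shift y hy3 v l, Matrix.mul_apply]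
  simp [rho, MM, h2, wv]

lemma norm_ne_zero {ω : F} (h3 : (3 : F) ≠ 0) (hω : ω ^ 2 + ω + 1 = 0) (x y : M3)
    (hy3 : y * y * y = 1) (hxy : x * y = ω • (y * x))
    (hxU : ∀ u v, H (x *ᵥ u) (x *ᵥ v) = H u v) (hyU : ∀ u v, H (y *ᵥ u) (y *ᵥ v) = H u v)
    (v : Fin 3 → F) (hv0 : v ≠ 0) (hv : x *ᵥ v = v) : H v v ≠ 0 := by
  intro hn
  have hg := MM_gram h3 hω x y hxy hxU hyU v hv
  rw [hn, zero_smul] at hg
  have hyinj : ∀ u : Fin 3 → F, y *ᵥ u = 0 → u = 0 := by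
    intro u hu
    have : y *ᵥ (y *ᵥ (y *ᵥ u)) = u := by
      rw [Matrix.mulVec_mulVec, Matrix.mulVec_mulVec, hy3, Matrix.one_mulVec]
    rw [← this, hu, Matrix.mulVec_zero, Matrix.mulVec_zero]
  have hne : ∀ l, vv y v l ≠ 0 := by
    intro l
    fin_cases l
    · exact hv0
    · exact fun h => hv0 (hyinj _ h)
    · exact fun h => hv0 (hyinj _ (hyinj _ h))
  have hinj : Function.Injective (wv ω) := by
    intro j l hjl
    by_contra hne'
    apply wv_ne h3 hω j l hne'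
    rw [hjl]
    have := wv_cube (omega_cube hω) l
    calc wv ω l * wv ω l ^ 5 = (wv ω l ^ 3) ^ 2 := by ring
      _ = 1 := by rw [this, one_pow]
  have hli : LinearIndependent F (vv y v) := by
    apply Module.End.eigenvectors_linearIndependent' (Matrix.toLin' x) (wv ω) hinj
    intro l
    refine ⟨?_, hne l⟩
    rw [Module.End.mem_eigenspace_iff, Matrix.toLin'_apply]
    exact vv_eig x y hxy v hv l
  have hunit : IsUnit (MM y v) := by
    rw [← Matrix.linearIndependent_cols_iff_isUnit]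
    exact hli
  have hunit' : IsUnit (MM y v)ᵀ := (Matrix.isUnit_transpose _).mpr hunit
  have hz := (hunit'.mul_right_eq_zero).mp hg
  apply hv0
  funext k
  have := congrFun (congrFun hz k) 0
  simp only [Matrix.map_apply, Matrix.zero_apply] at this
  exact pow_eq_zero_iff (by norm_num) |>.mp this

/-- the normal form -/
theorem normal_form [Fintype F] (hF : Fintype.card F = 5 ^ 2) {ω : F} (h3 : (3 : F) ≠ 0)
    (hω : ω ^ 2 + ω + 1 = 0) (x y : M3) (hx3 : x * x * x = 1) (hy3 : y * y * y = 1)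
    (hxy : x * y = ω • (y * x))
    (hxU : ∀ u v, H (x *ᵥ u) (x *ᵥ v) = H u v) (hyU : ∀ u v, H (y *ᵥ u) (y *ᵥ v) = H u v) :
    ∃ M : M3, IsU 3 F 5 M ∧ x * M = M * rho ω (0, 1, 0) ∧ y * M = M * rho ω (0, 0, 1) := by
  obtain ⟨v, hv0, hv⟩ := exists_fixed h3 hω x y hx3 hy3 hxy
  have hn := norm_ne_zero h3 hω x y hy3 hxy hxU hyU v hv0 hv
  have hfix := herm_self_fixed hF 3 v
  obtain ⟨c, hc⟩ := exists_norm_eq hF (Units.mk0 _ hn)⁻¹ (by
    apply Units.ext
    simp only [Units.val_pow_eq_pow_val, Units.val_inv_eq_inv_val, Units.val_mk0, Units.val_one]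
    have h4 : (H v v) ^ 4 = 1 := by
      have : H v v * ((H v v) ^ 4 - 1) = 0 := by linear_combination hfix
      rcases mul_eq_zero.mp this with h | h
      · exact absurd h hn
      · exact sub_eq_zero.mp h
    rw [inv_pow]
    show ((H v v) ^ 4)⁻¹ = 1
    rw [h4, inv_one])
  have hc' : (c : F) ^ 6 * H v v = 1 := by
    have := congrArg Units.val hc
    simp only [Units.val_pow_eq_pow_val, Units.val_inv_eq_inv_val, Units.val_mk0] at this
    show (c : F) ^ (5 + 1) * H v v = 1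
    rw [this, inv_mul_cancel₀ hn]
  have hv' : x *ᵥ ((c : F) • v) = (c : F) • v := by rw [Matrix.mulVec_smul, hv]
  refine ⟨MM y ((c : F) • v), ?_, x_MM x y hxy _ hv', y_MM ω y hy3 _⟩
  unfold IsU
  rw [MM_gram h3 hω x y hxy hxU hyU _ hv', h_smul_left, h_smul_right]
  have : (c : F) * ((c : F) ^ 5 * H v v) = 1 := by linear_combination hc'
  rw [this, one_smul]

end Cfsg.Agent.Lib.Helper13U3C6d
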