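import Cfsg.Agent.Lib.Helper13U3C6c
import Cfsg.Agent.Lib.Helper13U3C6d

set_option autoImplicit false

/-! `SU_3(5)`, class 6: the normaliser of `3^{1+2}` is not maximal (it lies in `3.M_10`). -/

namespace Cfsg.Agent.Lib.Helper13U3C6

open Cfsg Cfsg.Geo Matrix Cfsg.Agent.Lib.Helper13U3C6a Cfsg.Agent.Lib.Helper13U3C6c
  Cfsg.Agent.Lib.Helper13U3C6d Cfsg.Agent.Lib.Helper7GU
open scoped MatrixGroups commutatorElement

variable {F : Type*} [Field F]

local notation "M3" => Matrix (Fin 3) (Fin 3) F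

/-- multiplication of indices -/
def mulI (i j : I27) : I27 := (i.1 + j.1 - j.2.1 * i.2.2, i.2.1 + j.2.1, i.2.2 + j.2.2)

lemma idx : ∀ a b c d e k : Fin 3,
    a + b * k + (c + d * (k - e)) = a + c - d * e + (b + d) * k := by decide

lemma comm_pow3 (A B : M3) (c : F) (h : A * B = c • (B * A)) :
    A * (B * B * B) = (c ^ 3) • ((B * B * B) * A) := by
  have h2 : A * (B * B) = (c * c) • ((B * B) * A) := by
    rw [← mul_assoc, h, smul_mul_assoc, mul_assoc B A B, h, mul_smul_comm, smul_smul, ← mul_assoc]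
  rw [← mul_assoc A (B * B) B, h2, smul_mul_assoc, mul_assoc (B * B) A B, h, mul_smul_comm,
    smul_smul, ← mul_assoc]
  congr 1
  ring

lemma rho_mul {ω : F} (hω : ω * ω * ω = 1) (i j : I27) : rho ω i * rho ω j = rho ω (mulI i j) := by
  have key : ∀ v : Fin 3 → F, (rho ω i * rho ω j) *ᵥ v = rho ω (mulI i j) *ᵥ v := by
    intro v
    rw [← Matrix.mulVec_mulVec, rho_mulVec, rho_mulVec, rho_mulVec]
    funext k
    simp only [act, mulI]
    rw [← mul_assoc, ← wv_add hω, sub_sub]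
    congr 2
    exact idx _ _ _ _ _ _
  ext k l
  have := congrFun (key (Pi.single l 1)) k
  simpa using this

lemma closure_I (P : I27 → Prop) (hZ : P (1, 0, 0)) (hX : P (0, 1, 0)) (hY : P (0, 0, 1))
    (hmul : ∀ i j, P i → P j → P (mulI i j)) : ∀ i, P i := by
  have hZ2 : P (2, 0, 0) := hmul _ _ hZ hZ
  have hZ0 : P (0, 0, 0) := hmul _ _ hZ hZ2
  have hX2 : P (0, 2, 0) := hmul _ _ hX hX
  have hY2 : P (0, 0, 2) := hmul _ _ hY hY
  have hA : ∀ a : Fin 3, P (a, 0, 0) := by
    intro a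
    fin_cases a
    · exact hZ0
    · exact hZ
    · exact hZ2
  have hB : ∀ a : Fin 3, P (0, a, 0) := by
    intro a
    fin_cases a
    · exact hZ0
    · exact hX
    · exact hX2
  have hC : ∀ a : Fin 3, P (0, 0, a) := by
    intro a
    fin_cases a
    · exact hZ0
    · exact hY
    · exact hY2
  rintro ⟨a, b, c⟩
  have h1 := hmul _ _ (hmul _ _ (hA a) (hB b)) (hC c)
  have h2 : ∀ a b c : Fin 3, mulI (mulI (a, 0, 0) (0, b, 0)) (0, 0, c) = (a, b, c) := by decide
  rwa [h2] at h1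

lemma rho_Z (ω : F) : rho ω (1, 0, 0) = ω • (1 : M3) := by
  ext k l
  simp only [rho, Matrix.of_apply, Matrix.smul_apply, Matrix.one_apply, smul_eq_mul, mul_ite,
    mul_one, mul_zero, sub_zero, zero_mul, add_zero]
  by_cases h : k = l
  · subst h
    simp [wv]
  · rw [if_neg (fun e => h e.symm), if_neg h]

/-- `q = 5`: the normaliser of `3^{1+2}` is not maximal in `SU_3(5)` -/
theorem c6_five [Fintype F] (hF : Fintype.card F = 25)
    (R : Subgroup (GL (Fin 3) F)) (h1 : IsSymplecticTypeGroup 3 R)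
    (h3 : R ≤ GU 3 F 5) (hcomm : ⁅R, R⁆ ≤ scalars (Fin 3) F) (hcard : Nat.card R = 27)
    (hZ : Nat.card (Subgroup.center R) = 3) :
    ¬ IsMaximalIn (GU 3 F 5 ⊓ specialLinear (Fin 3) F)
      (subgroupNormalizer R ⊓ (GU 3 F 5 ⊓ specialLinear (Fin 3) F)) := by
  intro hmax
  have hF' : Fintype.card F = 5 ^ 2 := by rw [hF]; norm_num
  have : Fact (Nat.Prime 5) := ⟨by norm_num⟩
  have hchar : CharP F 5 := charP_of_card_eq_prime_pow (p := 5) (f := 2) hF'
  have h30 : (3 : F) ≠ 0 := by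
    intro h
    have h' : ((3 : ℕ) : F) = 0 := by exact_mod_cast h
    rw [CharP.cast_eq_zero_iff F 5] at h'
    omega
  obtain ⟨ω, hω, hinj, L, hL1, hL2, hL3, t, ht, ht'⟩ := mainF hF
  have hw3 := omega_cube hω
  -- exponent three
  have hexp : ∀ r ∈ R, r * r * r = 1 := by
    intro r hr
    have h := Monoid.pow_exponent_eq_one (⟨r, hr⟩ : R)
    rw [h1.exponent_eq] at h
    have h' := congrArg Subtype.val h
    simp only [show 3 * Nat.gcd 2 3 = 3 by norm_num] at h'
    rw [← pow_three']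
    simpa using h'
  have hexpM : ∀ r ∈ R, (r : M3) * r * r = 1 := by
    intro r hr
    have := congrArg Units.val (hexp r hr)
    simpa using this
  -- a non-commuting pair
  have hnc : ∃ x ∈ R, ∃ y ∈ R, x * y ≠ y * x := by
    by_contra hcon
    push Not at hcon
    have : Subgroup.center R = ⊤ := by
      rw [eq_top_iff]
      intro a _
      rw [Subgroup.mem_center_iff]
      intro b
      exact Subtype.ext (hcon b b.2 a a.2)
    rw [this, Subgroup.card_top, hcard] at hZ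
    omega
  -- a pair with commutator ω
  have hpair : ∃ x ∈ R, ∃ y ∈ R, (x : M3) * y = ω • ((y : M3) * x) := by
    obtain ⟨x, hx, y, hy, hxy⟩ := hnc
    have hc := hcomm (Subgroup.commutator_mem_commutator hx hy)
    rw [mem_scalars_iff] at hc
    obtain ⟨c, hc⟩ := hc
    have hxy' : (x : M3) * y = (c : F) • ((y : M3) * x) := by
      have e : x * y = ⁅x, y⁆ * (y * x) := by
        rw [commutatorElement_def]; group
      have e' := congrArg Units.val e
      rw [Units.val_mul, Units.val_mul, hc, Units.val_mul] at e'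
      rw [e', smul_mul_assoc, one_mul]
    have hc1 : (c : F) ≠ 1 := by
      intro h
      apply hxy
      apply Units.ext
      rw [Units.val_mul, Units.val_mul, hxy', h, one_smul]
    have hc3 : (c : F) ^ 3 = 1 := by
      have e1 := comm_pow3 (x : M3) (y : M3) (c : F) hxy'
      rw [hexpM y hy, mul_one, one_mul] at e1
      have e2 : ((c : F) ^ 3 - 1) • (x : M3) = 0 := by
        rw [sub_smul, one_smul, ← e1, sub_self]
      have e3 := congrArg (fun A => A * ((x⁻¹ : GL (Fin 3) F) : M3)) e2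
      simp only [smul_mul_assoc, zero_mul] at e3
      rw [← Units.val_mul, mul_inv_cancel, Units.val_one] at e3
      have e4 := congrFun (congrFun e3 0) 0
      simp at e4
      exact sub_eq_zero.mp e4
    have hcq : ((c : F) - ω) * ((c : F) - ω * ω) = 0 := by
      have h5 : ((c : F) - 1) * ((c : F) ^ 2 + c + 1) = 0 := by linear_combination hc3
      rcases mul_eq_zero.mp h5 with h | h
      · exact absurd (sub_eq_zero.mp h) hc1
      · linear_combination h - (c : F) * hω + hw3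
    rcases mul_eq_zero.mp hcq with h | h
    · exact ⟨x, hx, y, hy, by rw [hxy', sub_eq_zero.mp h]⟩
    · refine ⟨y, hy, x, hx, ?_⟩
      rw [hxy', sub_eq_zero.mp h, smul_smul, ← mul_assoc, hw3, one_smul]
  obtain ⟨x, hx, y, hy, hxy⟩ := hpair
  obtain ⟨M, hMU, hxM, hyM⟩ := normal_form hF' h30 hω (x : M3) (y : M3) (hexpM x hx) (hexpM y hy) hxy
    (fun u v => h3 hx u v) (fun u v => h3 hy u v)
  -- the conjugating element
  let g₀ : GL (Fin 3) F := ⟨M, (M.map (fun a => a ^ 5))ᵀ, (isU_mul_comm M hMU).2, (isU_mul_comm M hMU).1⟩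
  have hg₀ : g₀ ∈ GU 3 F 5 := (mem_GU_iff hF' g₀).mpr hMU
  have hg₀v : (g₀ : M3) = M := rfl
  -- all of the standard group lies in R
  have hall : ∀ i, ∃ r ∈ R, (r : M3) * M = M * rho ω i := by
    apply closure_I
    · refine ⟨x * y * x⁻¹ * y⁻¹, R.mul_mem (R.mul_mem (R.mul_mem hx hy) (R.inv_mem hx))
        (R.inv_mem hy), ?_⟩
      have e1 : ((x * y * x⁻¹ * y⁻¹ : GL (Fin 3) F) : M3) * ((y : M3) * x) = ω • ((y : M3) * x) := by
        rw [← hxy, ← Units.val_mul, ← Units.val_mul, ← Units.val_mul]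
        congr 1
        group
      have e2 : ((x * y * x⁻¹ * y⁻¹ : GL (Fin 3) F) : M3) = ω • (1 : M3) := by
        have e3 := congrArg (fun A => A * (((y * x)⁻¹ : GL (Fin 3) F) : M3)) e1
        simp only [smul_mul_assoc] at e3
        rw [← Units.val_mul y x, mul_assoc, ← Units.val_mul (y * x), mul_inv_cancel, Units.val_one,
          mul_one] at e3
        exact e3
      rw [e2, rho_Z, smul_mul_assoc, one_mul, mul_smul_comm, mul_one]
    · exact ⟨x, hx, hxM⟩
    · exact ⟨y, hy, hyM⟩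
    · rintro i j ⟨r, hr, hr'⟩ ⟨r', hr2, hr2'⟩
      refine ⟨r * r', R.mul_mem hr hr2, ?_⟩
      rw [Units.val_mul, mul_assoc, hr2', ← mul_assoc, hr', mul_assoc, rho_mul hw3]
  choose rr hrR hrM using hall
  have hρG : ∀ i, ((g₀⁻¹ * rr i * g₀ : GL (Fin 3) F) : M3) = rho ω i := by
    intro i
    rw [Units.val_mul, Units.val_mul, mul_assoc, hg₀v, hrM, ← mul_assoc, ← hg₀v, ← Units.val_mul,
      inv_mul_cancel, Units.val_one, one_mul]
  have hrinj : Function.Injective (fun i => (⟨rr i, hrR i⟩ : R)) := by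
    intro i j hij
    apply hinj
    have h1 : rr i = rr j := congrArg Subtype.val hij
    rw [← hρG, ← hρG, h1]
  have hfin : Finite R := Nat.finite_of_card_ne_zero (by rw [hcard]; norm_num)
  have hrsurj : Function.Surjective (fun i => (⟨rr i, hrR i⟩ : R)) :=
    (Function.Injective.bijective_of_nat_card_le hrinj (by
      rw [hcard]
      simp [Nat.card_eq_fintype_card])).2
  have hRi : ∀ r ∈ R, ∃ i, rr i = r := by
    intro r hr
    obtain ⟨i, hi⟩ := hrsurj ⟨r, hr⟩
    exact ⟨i, congrArg Subtype.val hi⟩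
  -- conjugation by g₀ preserves SU
  have hGc : ∀ (g : GL (Fin 3) F), g ∈ GU 3 F 5 → ∀ h ∈ GU 3 F 5 ⊓ specialLinear (Fin 3) F,
      g * h * g⁻¹ ∈ GU 3 F 5 ⊓ specialLinear (Fin 3) F := by
    intro g hg h hh
    refine ⟨(GU 3 F 5).mul_mem ((GU 3 F 5).mul_mem hg hh.1) ((GU 3 F 5).inv_mem hg), ?_⟩
    have hn : (specialLinear (Fin 3) F).Normal := MonoidHom.normal_ker _
    exact hn.conj_mem h hh.2 g
  let L' : Subgroup (GL (Fin 3) F) := L.comap (MulAut.conj g₀⁻¹).toMonoidHom
  have hL' : ∀ h, h ∈ L' ↔ g₀⁻¹ * h * g₀ ∈ L := by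
    intro h
    show (MulAut.conj g₀⁻¹) h ∈ L ↔ _
    rw [MulAut.conj_apply, inv_inv]
  have hle : subgroupNormalizer R ⊓ (GU 3 F 5 ⊓ specialLinear (Fin 3) F) ≤ L' := by
    intro h hh0
    obtain ⟨hN, hh⟩ := Subgroup.mem_inf.mp hh0
    rw [hL']
    unfold subgroupNormalizer at hN
    rw [Subgroup.mem_normalizer_iff] at hN
    have hh' := hGc g₀⁻¹ ((GU 3 F 5).inv_mem hg₀) h hh
    rw [inv_inv] at hh'
    apply hL3 _ hh'
    intro i
    obtain ⟨j, hj⟩ := hRi _ ((hN (rr i)).mp (hrR i))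
    refine ⟨j, ?_⟩
    rw [← hρG, ← hρG, ← Units.val_mul, ← Units.val_mul, hj]
    congr 1
    group
  have hle' : L' ≤ GU 3 F 5 ⊓ specialLinear (Fin 3) F := by
    intro h hh
    rw [hL'] at hh
    have := hGc g₀ hg₀ _ (hL1 hh)
    have e : g₀ * (g₀⁻¹ * h * g₀) * g₀⁻¹ = h := by group
    rwa [e] at this
  rcases hmax.2 L' hle hle' with h | h
  · have ht1 : g₀ * t * g₀⁻¹ ∈ L' := by
      rw [hL']
      have e : g₀⁻¹ * (g₀ * t * g₀⁻¹) * g₀ = t := by group
      rw [e]
      exact ht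
    rw [h] at ht1
    have hN := (Subgroup.mem_inf.mp ht1).1
    unfold subgroupNormalizer at hN
    rw [Subgroup.mem_normalizer_iff] at hN
    obtain ⟨j, hj⟩ := hRi _ ((hN (rr (0, 1, 0))).mp (hrR _))
    apply ht' j
    rw [← hρG, ← hρG, ← Units.val_mul, ← Units.val_mul, hj]
    congr 1
    group
  · apply hL2
    apply le_antisymm hL1
    intro k hk
    have h1 := hGc g₀ hg₀ k hk
    rw [← h, hL'] at h1
    have e : g₀⁻¹ * (g₀ * k * g₀⁻¹) * g₀ = k := by group
    rwa [e] at h1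

end Cfsg.Agent.Lib.Helper13U3C6
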