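import Cfsg.Agent.Lib.Helper7GU
import Cfsg.Prelude.Def_GeometricClasses

set_option autoImplicit false

/-! `SU_3(5)`, class 6: general definitions, the invariant `S`, transport between fields. -/

namespace Cfsg.Agent.Lib.Helper13U3C6a

open Cfsg Cfsg.Geo Matrix
open scoped MatrixGroups

variable {K : Type*} [Field K]

/-- index set of the group of order 27 -/
abbrev I27 := Fin 3 × Fin 3 × Fin 3

/-- powers of `ω` -/
def wv (ω : K) : Fin 3 → K := ![1, ω, ω * ω]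

/-- the matrix `ω^a X^b Y^c` -/
def rho (ω : K) (i : I27) : Matrix (Fin 3) (Fin 3) K :=
  Matrix.of fun k l => if l = k - i.2.2 then wv ω (i.1 + i.2.1 * k) else 0

/-- its action on vectors -/
def act (ω : K) (i : I27) (v : Fin 3 → K) : Fin 3 → K :=
  fun k => wv ω (i.1 + i.2.1 * k) * v (k - i.2.2)

lemma rho_mulVec (ω : K) (i : I27) (v : Fin 3 → K) : rho ω i *ᵥ v = act ω i v := by
  funext k
  simp [rho, act, Matrix.mulVec, dotProduct]

/-- the determinant of three vectors -/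
def D3 (a b c : Fin 3 → K) : K :=
  a 0 * b 1 * c 2 - a 0 * b 2 * c 1 - a 1 * b 0 * c 2 + a 1 * b 2 * c 0 + a 2 * b 0 * c 1
    - a 2 * b 1 * c 0

lemma D3_eq_det (a b c : Fin 3 → K) : D3 a b c = (Matrix.of ![a, b, c]).det := by
  rw [Matrix.det_fin_three]
  simp [D3]

lemma D3_mulVec (M : Matrix (Fin 3) (Fin 3) K) (a b c : Fin 3 → K) :
    D3 (M *ᵥ a) (M *ᵥ b) (M *ᵥ c) = M.det * D3 a b c := by
  rw [D3_eq_det, D3_eq_det, ← Matrix.det_transpose M, mul_comm, ← Matrix.det_mul]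
  congr 1
  ext i j
  fin_cases i <;> simp [Matrix.mul_apply, Matrix.mulVec, dotProduct, mul_comm]

/-- the invariant attached to a family of matrices -/
def Sgen {I : Type*} [Fintype I] (ρ : I → Matrix (Fin 3) (Fin 3) K) (v : Fin 3 → K) : K :=
  ∑ i, (D3 v (ρ i *ᵥ v) (ρ i *ᵥ (ρ i *ᵥ v))) ^ 8

lemma Sgen_inv {I : Type*} [Fintype I] (ρ : I → Matrix (Fin 3) (Fin 3) K)
    (hρ : Function.Injective ρ) (h : GL (Fin 3) K) (hdet : (h : Matrix (Fin 3) (Fin 3) K).det = 1)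
    (hn : ∀ i, ∃ j, (h : Matrix (Fin 3) (Fin 3) K) * ρ i = ρ j * h) (v : Fin 3 → K) :
    Sgen ρ ((h : Matrix (Fin 3) (Fin 3) K) *ᵥ v) = Sgen ρ v := by
  classical
  choose σ hσ using hn
  have hinj : Function.Injective σ := by
    intro i j hij
    apply hρ
    have h1 := hσ i
    rw [hij, ← hσ j] at h1
    have h2 := congrArg (fun M => ((h⁻¹ : GL (Fin 3) K) : Matrix (Fin 3) (Fin 3) K) * M) h1
    simpa [← Matrix.mul_assoc] using h2
  have hbij : Function.Bijective σ := Finite.injective_iff_bijective.mp hinj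
  unfold Sgen
  rw [← hbij.sum_comp]
  apply Finset.sum_congr rfl
  intro i _
  have e1 : ρ (σ i) *ᵥ ((h : Matrix (Fin 3) (Fin 3) K) *ᵥ v) =
      (h : Matrix (Fin 3) (Fin 3) K) *ᵥ (ρ i *ᵥ v) := by
    rw [Matrix.mulVec_mulVec, Matrix.mulVec_mulVec, hσ]
  have e2 : ρ (σ i) *ᵥ ((h : Matrix (Fin 3) (Fin 3) K) *ᵥ (ρ i *ᵥ v)) =
      (h : Matrix (Fin 3) (Fin 3) K) *ᵥ (ρ i *ᵥ (ρ i *ᵥ v)) := by
    rw [Matrix.mulVec_mulVec _ (ρ (σ i)), ← hσ, ← Matrix.mulVec_mulVec]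
  rw [e1, e2, D3_mulVec, hdet, one_mul]

lemma Sgen_smul {I : Type*} [Fintype I] (ρ : I → Matrix (Fin 3) (Fin 3) K) (c : K)
    (hc : c ^ 24 = 1) (v : Fin 3 → K) : Sgen ρ (c • v) = Sgen ρ v := by
  unfold Sgen
  apply Finset.sum_congr rfl
  intro i _
  have : D3 (c • v) (ρ i *ᵥ (c • v)) (ρ i *ᵥ (ρ i *ᵥ (c • v))) =
      c ^ 3 * D3 v (ρ i *ᵥ v) (ρ i *ᵥ (ρ i *ᵥ v)) := by
    rw [Matrix.mulVec_smul, Matrix.mulVec_smul]
    simp only [D3, Pi.smul_apply, smul_eq_mul]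
    ring
  rw [this, mul_pow, ← pow_mul, hc, one_mul]

lemma wv_add {ω : K} (hω : ω * ω * ω = 1) (a b : Fin 3) : wv ω (a + b) = wv ω a * wv ω b := by
  fin_cases a <;> fin_cases b
  · show (1 : K) = 1 * 1
    ring
  · show ω = 1 * ω
    ring
  · show ω * ω = 1 * (ω * ω)
    ring
  · show ω = ω * 1
    ring
  · show ω * ω = ω * ω
    ring
  · show (1 : K) = ω * (ω * ω)
    linear_combination -hω
  · show ω * ω = ω * ω * 1
    ring
  · show (1 : K) = ω * ω * ω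
    linear_combination -hω
  · show ω = ω * ω * (ω * ω)
    linear_combination -ω * hω

lemma wv_cube {ω : K} (hω : ω * ω * ω = 1) (a : Fin 3) : wv ω a ^ 3 = 1 := by
  fin_cases a
  · show (1 : K) ^ 3 = 1
    ring
  · show ω ^ 3 = 1
    linear_combination hω
  · show (ω * ω) ^ 3 = 1
    linear_combination (ω * ω * ω + 1) * hω

lemma act_smul (ω : K) (i : I27) (c : K) (v : Fin 3 → K) : act ω i (c • v) = c • act ω i v := by
  funext k
  simp only [act, Pi.smul_apply, smul_eq_mul]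
  ring

lemma act_eq {ω : K} (hω : ω * ω * ω = 1) (a : Fin 3) (j : Fin 3 × Fin 3) (v : Fin 3 → K) :
    act ω (a, j) v = wv ω a • act ω (0, j) v := by
  funext k
  simp only [act, Pi.smul_apply, smul_eq_mul]
  rw [wv_add hω, wv_add hω 0]
  show _ = wv ω a * (1 * _ * _)
  ring

/-- eighth power by squarings -/
def sq8 (d : K) : K := ((d * d) * (d * d)) * ((d * d) * (d * d))

lemma sq8_eq (d : K) : sq8 d = d ^ 8 := by
  unfold sq8
  ring

/-- the reduced invariant -/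
def S9 (ω : K) (v : Fin 3 → K) : K :=
  ∑ j : Fin 3 × Fin 3, sq8 (D3 v (act ω (0, j) v) (act ω (0, j) (act ω (0, j) v)))

lemma Sgen_eq {ω : K} (hω : ω * ω * ω = 1) (v : Fin 3 → K) : Sgen (rho ω) v = 3 * S9 ω v := by
  unfold Sgen S9
  rw [Fintype.sum_prod_type]
  have : ∀ a : Fin 3, ∑ j : Fin 3 × Fin 3,
      (D3 v (rho ω (a, j) *ᵥ v) (rho ω (a, j) *ᵥ (rho ω (a, j) *ᵥ v))) ^ 8 =
      ∑ j : Fin 3 × Fin 3, sq8 (D3 v (act ω (0, j) v) (act ω (0, j) (act ω (0, j) v))) := by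
    intro a
    apply Finset.sum_congr rfl
    intro j _
    rw [rho_mulVec, rho_mulVec, sq8_eq, act_eq hω a j v, act_eq hω a j, act_smul]
    have : D3 v (wv ω a • act ω (0, j) v) (wv ω a • wv ω a • act ω (0, j) (act ω (0, j) v)) =
        wv ω a ^ 3 * D3 v (act ω (0, j) v) (act ω (0, j) (act ω (0, j) v)) := by
      simp only [D3, Pi.smul_apply, smul_eq_mul]
      ring
    rw [this, wv_cube hω, one_mul]
  simp only [this]
  rw [Finset.sum_const, Finset.card_univ, Fintype.card_fin]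
  simp

end Cfsg.Agent.Lib.Helper13U3C6a
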