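import Cfsg.Agent.Lib.Helper13U3C6a
import Cfsg.Agent.Lib.Helper13F25

set_option autoImplicit false

/-! `SU_3(5)` over the model field: the normaliser of the standard group of order 27 is not maximal. -/

namespace Cfsg.Agent.Lib.Helper13U3C6b

open Cfsg Cfsg.Geo Matrix Cfsg.Agent.Lib.Helper13F25 Cfsg.Agent.Lib.Helper13U3C6a
open scoped MatrixGroups

/-- matrices -/
abbrev M3 := Matrix (Fin 3) (Fin 3) F25
/-- the ambient group -/
abbrev G3 := GL (Fin 3) F25

/-- `SU_3(5)` -/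
def G : Subgroup G3 := GU 3 F25 5 ⊓ specialLinear (Fin 3) F25

/-- the square root of two -/
def s : F25 := ⟨5, by norm_num⟩
/-- a primitive cube root of unity -/
def w0 : F25 := ⟨12, by norm_num⟩

lemma w0_cube : w0 * w0 * w0 = 1 := by decide +kernel
lemma w0_rel : w0 ^ 2 + w0 + 1 = 0 := by decide +kernel

lemma card25 : Fintype.card F25 = 5 ^ 2 := by rw [card_F25]; norm_num

/-- computable form of the invariant set -/
def goodc (x y z : F25) : Bool :=
  decide (x * cj x + y * cj y + z * cj z = 0) && (S9 w0 ![x, y, z] != 0 && S9 w0 ![x, y, z] != 1)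

/-- the invariant set: 36 isotropic points -/
def good (v : Fin 3 → F25) : Prop :=
  hermForm 3 F25 5 v v = 0 ∧ Sgen (rho w0) v ≠ 0 ∧ Sgen (rho w0) v ≠ 3

lemma vec_eta (v : Fin 3 → F25) : v = ![v 0, v 1, v 2] := by
  funext i
  fin_cases i <;> rfl

lemma three_mul_ne : ∀ x : F25, (3 * x ≠ 0 ↔ x ≠ 0) ∧ (3 * x ≠ 3 ↔ x ≠ 1) := by decide +kernel

lemma good_iff (v : Fin 3 → F25) : good v ↔ goodc (v 0) (v 1) (v 2) = true := by
  unfold good goodc
  rw [Sgen_eq w0_cube, (three_mul_ne _).1, (three_mul_ne _).2, ← vec_eta v]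
  unfold hermForm
  rw [Fin.sum_univ_three, pow_five, pow_five, pow_five]
  simp

lemma pow24 : ∀ c : F25, c ≠ 0 → c ^ 24 = 1 := by
  intro c hc
  have := FiniteField.pow_card_sub_one_eq_one c hc
  rwa [card_F25] at this

lemma good_smul (c : F25) (hc : c ≠ 0) (v : Fin 3 → F25) : good (c • v) ↔ good v := by
  unfold good
  rw [Sgen_smul _ c (pow24 c hc), Cfsg.Agent.Lib.Helper7GU.h_smul_left,
    Cfsg.Agent.Lib.Helper7GU.h_smul_right]
  have : c * (c ^ 5 * hermForm 3 F25 5 v v) = 0 ↔ hermForm 3 F25 5 v v = 0 := by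
    constructor
    · intro h
      rcases mul_eq_zero.mp h with h | h
      · exact absurd h hc
      · rcases mul_eq_zero.mp h with h | h
        · exact absurd h (pow_ne_zero _ hc)
        · exact h
    · intro h
      rw [h]; ring
  rw [this]

/-- every non-zero vector is a multiple of a normalised one -/
lemma exists_norm (v : Fin 3 → F25) (hv : v ≠ 0) : ∃ c : F25, c ≠ 0 ∧
    ((∃ y z, v = c • ![1, y, z]) ∨ (∃ z, v = c • ![0, 1, z]) ∨ v = c • ![0, 0, 1]) := by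
  by_cases h0 : v 0 = 0
  · by_cases h1 : v 1 = 0
    · have h2 : v 2 ≠ 0 := by
        intro h2
        apply hv
        rw [vec_eta v, h0, h1, h2]
        funext i
        fin_cases i <;> rfl
      refine ⟨v 2, h2, Or.inr (Or.inr ?_)⟩
      funext i
      fin_cases i <;> simp [h0, h1]
    · refine ⟨v 1, h1, Or.inr (Or.inl ⟨(v 1)⁻¹ * v 2, ?_⟩)⟩
      funext i
      fin_cases i <;> simp [h0, h1]
  · refine ⟨v 0, h0, Or.inl ⟨(v 0)⁻¹ * v 1, (v 0)⁻¹ * v 2, ?_⟩⟩
    funext i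
    fin_cases i <;> simp [h0]

/-- explicit matrix times vector -/
def mv (M : M3) (x y z : F25) (k : Fin 3) : F25 := M k 0 * x + M k 1 * y + M k 2 * z

lemma mulVec_eq (M : M3) (x y z : F25) (k : Fin 3) : (M *ᵥ ![x, y, z]) k = mv M x y z k := by
  simp [Matrix.mulVec, dotProduct, Fin.sum_univ_three, mv]

/-- a criterion for preserving the invariant set -/
lemma good_of_check (M : M3)
    (h1 : ∀ y z : F25, goodc (mv M 1 y z 0) (mv M 1 y z 1) (mv M 1 y z 2) = goodc 1 y z)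
    (h2 : ∀ z : F25, goodc (mv M 0 1 z 0) (mv M 0 1 z 1) (mv M 0 1 z 2) = goodc 0 1 z)
    (h3 : goodc (mv M 0 0 1 0) (mv M 0 0 1 1) (mv M 0 0 1 2) = goodc 0 0 1)
    (v : Fin 3 → F25) : good (M *ᵥ v) ↔ good v := by
  by_cases hv : v = 0
  · subst hv
    rw [Matrix.mulVec_zero]
  obtain ⟨c, hc, h⟩ := exists_norm v hv
  have key : ∀ x y z : F25, goodc (mv M x y z 0) (mv M x y z 1) (mv M x y z 2) = goodc x y z →
      (good (M *ᵥ (c • ![x, y, z])) ↔ good (c • ![x, y, z])) := by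
    intro x y z hxyz
    rw [Matrix.mulVec_smul, good_smul c hc, good_smul c hc, good_iff, good_iff, mulVec_eq,
      mulVec_eq, mulVec_eq, hxyz]
    rfl
  rcases h with ⟨y, z, rfl⟩ | ⟨z, rfl⟩ | rfl
  · exact key _ _ _ (h1 y z)
  · exact key _ _ _ (h2 z)
  · exact key _ _ _ h3

/-- the extra involution -/
def T : M3 := !![2, 3, -s; 3, 2, -s; s, s, 0]
/-- an involution outside -/
def U : M3 := !![-1, 0, 0; 0, -1, 0; 0, 0, 1]

lemma T_sq : T * T = 1 := by decide +kernel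
lemma U_sq : U * U = 1 := by decide +kernel
lemma T_unitary : Cfsg.Agent.Lib.Helper7GU.IsU 3 F25 5 T := by
  unfold Cfsg.Agent.Lib.Helper7GU.IsU
  decide +kernel
lemma U_unitary : Cfsg.Agent.Lib.Helper7GU.IsU 3 F25 5 U := by
  unfold Cfsg.Agent.Lib.Helper7GU.IsU
  decide +kernel
lemma T_det : T.det = 1 := by
  rw [Matrix.det_fin_three]
  decide +kernel
lemma U_det : U.det = 1 := by
  rw [Matrix.det_fin_three]
  decide +kernel

set_option maxHeartbeats 4000000 in
lemma T_check1 : ∀ y z : F25, goodc (mv T 1 y z 0) (mv T 1 y z 1) (mv T 1 y z 2) = goodc 1 y z := by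
  decide +kernel
lemma T_check2 : ∀ z : F25, goodc (mv T 0 1 z 0) (mv T 0 1 z 1) (mv T 0 1 z 2) = goodc 0 1 z := by
  decide +kernel
lemma T_check3 : goodc (mv T 0 0 1 0) (mv T 0 0 1 1) (mv T 0 0 1 2) = goodc 0 0 1 := by
  decide +kernel

lemma T_not_norm : ∀ j : I27, T * rho w0 (0, 1, 0) ≠ rho w0 j * T := by decide +kernel

lemma rho_inj : ∀ i j : I27, rho w0 i = rho w0 j → i = j := by decide +kernel

lemma U_bad : goodc (mv U 1 1 ⟨11, by norm_num⟩ 0) (mv U 1 1 ⟨11, by norm_num⟩ 1)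
    (mv U 1 1 ⟨11, by norm_num⟩ 2) ≠ goodc 1 1 ⟨11, by norm_num⟩ := by decide +kernel

/-- the extra involution in the group -/
def t : G3 := ⟨T, T, T_sq, T_sq⟩
/-- an involution outside, in the group -/
def u : G3 := ⟨U, U, U_sq, U_sq⟩

lemma mem_SL_iff (x : G3) : x ∈ specialLinear (Fin 3) F25 ↔ (x : M3).det = 1 := by
  constructor
  · intro h
    have h3 : Matrix.GeneralLinearGroup.det x = 1 := h
    simpa using congrArg Units.val h3
  · intro h
    show Matrix.GeneralLinearGroup.det x = 1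
    apply Units.ext
    simpa using h

lemma t_mem : t ∈ G :=
  ⟨(Cfsg.Agent.Lib.Helper7GU.mem_GU_iff card25 t).mpr T_unitary, (mem_SL_iff t).mpr T_det⟩
lemma u_mem : u ∈ G :=
  ⟨(Cfsg.Agent.Lib.Helper7GU.mem_GU_iff card25 u).mpr U_unitary, (mem_SL_iff u).mpr U_det⟩

/-- the stabiliser of the invariant set -/
def L0 : Subgroup G3 where
  carrier := {g | g ∈ G ∧ ∀ v, good ((g : M3) *ᵥ v) ↔ good v}
  mul_mem' := by
    rintro x y ⟨hx, hx'⟩ ⟨hy, hy'⟩
    refine ⟨G.mul_mem hx hy, fun v => ?_⟩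
    rw [Units.val_mul, ← mulVec_mulVec, hx', hy']
  one_mem' := ⟨G.one_mem, fun v => by simp⟩
  inv_mem' := by
    rintro x ⟨hx, hx'⟩
    refine ⟨G.inv_mem hx, fun v => ?_⟩
    rw [← hx', mulVec_mulVec, ← Units.val_mul, mul_inv_cancel, Units.val_one, one_mulVec]

/-- the concrete statement -/
theorem main25 : ∃ L : Subgroup G3, L ≤ G ∧ L ≠ G ∧
    (∀ h ∈ G, (∀ i, ∃ j, (h : M3) * rho w0 i = rho w0 j * (h : M3)) → h ∈ L) ∧
    ∃ t ∈ L, ∀ j, (t : M3) * rho w0 (0, 1, 0) ≠ rho w0 j * (t : M3) := by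
  refine ⟨L0, fun g hg => hg.1, ?_, ?_, t, ⟨t_mem, good_of_check T T_check1 T_check2 T_check3⟩,
    T_not_norm⟩
  · intro h
    have hu : u ∈ L0 := by rw [h]; exact u_mem
    have h1 := hu.2 ![1, 1, ⟨11, by norm_num⟩]
    rw [good_iff, good_iff] at h1
    apply U_bad
    have h2 : ∀ k, ((u : M3) *ᵥ ![1, 1, ⟨11, by norm_num⟩]) k = mv U 1 1 ⟨11, by norm_num⟩ k :=
      fun k => mulVec_eq U _ _ _ k
    rw [h2, h2, h2] at h1
    exact Bool.eq_iff_iff.mpr h1
  · intro h hh hn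
    refine ⟨hh, fun v => ?_⟩
    unfold good
    rw [Sgen_inv (rho w0) (fun i j => rho_inj i j) h ((mem_SL_iff h).mp hh.2) hn v]
    have := hh.1 v v
    simp only [Units.coeHom_apply] at this
    rw [this]

end Cfsg.Agent.Lib.Helper13U3C6b
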