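import Cfsg.Agent.Lib.Helper17Herm

set_option autoImplicit false

/-! Hermitian matrices over a finite field: Hilbert 90 and orthonormalisation (matrix form). -/

namespace Cfsg.Agent.Lib.Helper13UHerm

open Matrix
open scoped MatrixGroups

variable {F : Type*} [Field F] {σ : F ≃+* F}

/-- Hilbert 90 for an involution. -/
theorem hilbert90 (hσ : σ ≠ RingEquiv.refl F) (hσ2 : ∀ a, σ (σ a) = a) {l : F} (hl : l * σ l = 1) :
    ∃ κ : F, κ ≠ 0 ∧ l * σ κ = κ := by
  by_cases h1 : (1 : F) + l = 0
  · -- `l = -1`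
    have hl1 : l = -1 := by linear_combination h1
    obtain ⟨b, hb⟩ : ∃ b, σ b ≠ b := by
      by_contra hcon
      push Not at hcon
      exact hσ (RingEquiv.ext hcon)
    refine ⟨b - σ b, fun h => hb (sub_eq_zero.mp h).symm, ?_⟩
    rw [hl1, map_sub, hσ2]
    ring
  · refine ⟨1 + l, h1, ?_⟩
    rw [map_add, map_one, mul_add, hl, mul_one, add_comm]

variable {m : ℕ}

/-- the sesquilinear form with Gram matrix `g` (semilinear in the first variable) -/
noncomputable def formOf (σ : F ≃+* F) (g : Matrix (Fin m) (Fin m) F) :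
    (Fin m → F) →ₛₗ[(σ : F →+* F)] (Fin m → F) →ₗ[F] F :=
  LinearMap.mk₂'ₛₗ (σ : F →+* F) (RingHom.id F) (fun u v => v ⬝ᵥ (g *ᵥ (fun b => σ (u b))))
    (by
      intro u u' v
      have : (fun b => σ ((u + u') b)) = (fun b => σ (u b)) + (fun b => σ (u' b)) := by
        ext b; simp
      rw [this, Matrix.mulVec_add, dotProduct_add])
    (by
      intro c u v
      have : (fun b => σ ((c • u) b)) = σ c • (fun b => σ (u b)) := by
        ext b; simp
      rw [this, Matrix.mulVec_smul, dotProduct_smul]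
      rfl)
    (by intro u v v'; rw [add_dotProduct])
    (by intro c u v; rw [smul_dotProduct]; rfl)

lemma formOf_apply (g : Matrix (Fin m) (Fin m) F) (u v : Fin m → F) :
    formOf σ g u v = v ⬝ᵥ (g *ᵥ (fun b => σ (u b))) := rfl

lemma formOf_eq_sum (g : Matrix (Fin m) (Fin m) F) (u v : Fin m → F) :
    formOf σ g u v = ∑ a, ∑ b, v a * g a b * σ (u b) := by
  rw [formOf_apply]
  simp only [dotProduct, Matrix.mulVec, Finset.mul_sum, mul_assoc]

/-- orthonormalisation of an invertible hermitian matrix over a finite field -/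
theorem exists_ON_matrix [Finite F] (hσ : σ ≠ RingEquiv.refl F) (hσ2 : ∀ a, σ (σ a) = a)
    (g : GL (Fin m) F) (hg : ((g : Matrix (Fin m) (Fin m) F).map σ)ᵀ = (g : Matrix (Fin m) (Fin m) F)) :
    ∃ B : GL (Fin m) F, (B : Matrix (Fin m) (Fin m) F)ᵀ * (g : Matrix (Fin m) (Fin m) F) *
      (B : Matrix (Fin m) (Fin m) F).map σ = 1 := by
  classical
  have hσ' : (σ : F →+* F) ≠ RingHom.id F := by
    intro h
    apply hσ
    ext a
    exact congrArg (fun τ : F →+* F => τ a) h
  have hent : ∀ a b, σ ((g : Matrix (Fin m) (Fin m) F) a b) = (g : Matrix (Fin m) (Fin m) F) b a := by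
    intro a b
    have := congrFun (congrFun hg b) a
    simpa using this
  have hS : (formOf σ (g : Matrix (Fin m) (Fin m) F)).IsSymm := by
    constructor
    intro u v
    show σ (formOf σ (g : Matrix (Fin m) (Fin m) F) u v) = formOf σ (g : Matrix (Fin m) (Fin m) F) v u
    rw [formOf_eq_sum, formOf_eq_sum, map_sum, Finset.sum_comm]
    apply Finset.sum_congr rfl
    intro b _
    rw [map_sum]
    apply Finset.sum_congr rfl
    intro a _
    rw [map_mul, map_mul, hσ2, hent]
    ring
  have hinj : ∀ w : Fin m → F, (g : Matrix (Fin m) (Fin m) F) *ᵥ w = 0 → w = 0 := by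
    intro w hw
    have := congrArg (fun x => ((g⁻¹ : GL (Fin m) F) : Matrix (Fin m) (Fin m) F) *ᵥ x) hw
    simpa [Matrix.mulVec_mulVec, ← Units.val_mul] using this
  have hleft : (formOf σ (g : Matrix (Fin m) (Fin m) F)).SeparatingLeft := by
    intro u hu
    have h1 : (g : Matrix (Fin m) (Fin m) F) *ᵥ (fun b => σ (u b)) = 0 := by
      ext a
      have := hu (Pi.single a 1)
      rw [formOf_apply, single_dotProduct, one_mul] at this
      exact this
    have h2 := hinj _ h1
    ext b
    have := congrFun h2 b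
    simpa using this
  have hB : (formOf σ (g : Matrix (Fin m) (Fin m) F)).Nondegenerate := by
    refine ⟨hleft, ?_⟩
    intro v hv
    apply hleft
    intro u
    have := hS.eq u v
    rw [hv u, map_zero] at this
    exact this.symm
  obtain ⟨e, he⟩ := Cfsg.Agent.Lib.Helper17Herm.exists_ON (B := formOf σ (g : Matrix (Fin m) (Fin m) F))
    hσ' hσ2 hS hB m (by simp)
  let Bm : Matrix (Fin m) (Fin m) F := Matrix.of fun a j => e j a
  have hmul : Bmᵀ * (g : Matrix (Fin m) (Fin m) F) * Bm.map σ = 1 := by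
    ext j i
    have h1 := he i j
    rw [formOf_eq_sum] at h1
    rw [Matrix.mul_apply, Matrix.one_apply]
    simp only [Matrix.mul_apply, Matrix.transpose_apply, Matrix.map_apply, Bm, Matrix.of_apply,
      Finset.sum_mul]
    rw [Finset.sum_comm, h1]
    by_cases hij : i = j
    · subst hij; simp
    · rw [if_neg hij, if_neg (fun h => hij h.symm)]
  have hunit : IsUnit Bm := by
    have h1 : IsUnit Bmᵀ := by
      rw [mul_assoc] at hmul
      exact IsUnit.of_mul_eq_one _ hmul
    rw [Matrix.isUnit_iff_isUnit_det] at h1 ⊢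
    rwa [Matrix.det_transpose] at h1
  obtain ⟨B, hBm⟩ := hunit
  exact ⟨B, by rw [hBm]; exact hmul⟩

end Cfsg.Agent.Lib.Helper13UHerm
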