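import Cfsg.Agent.Lib.Helper13UMain
import Cfsg.Agent.Lib.Helper57UConv

set_option autoImplicit false

/-! ASCH-U: from the list of alternatives to the members of the frozen classes. -/

namespace Cfsg.Agent.Lib.Helper13UImp

open Cfsg Cfsg.Geo Matrix
open Cfsg.Agent.Lib.Helper97AschBase Cfsg.Agent.Lib.Helper97UBase Cfsg.Agent.Lib.Helper13UDefs
  Cfsg.Agent.Lib.Helper57UConv
open scoped MatrixGroups Kronecker

variable {n : ℕ} {F : Type*} [Field F] [Fintype F] {σ : F ≃+* F} {q : ℕ}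

/-- the statement of the piece `exc23` -/
def Exc23 (n : ℕ) (F : Type*) [Field F] [Fintype F] (σ : F ≃+* F) (f : (Fin n → F) → (Fin n → F) → F) : Prop :=
  ∀ {H : Subgroup (GL (Fin n) F)}, H ≤ Iso f → ∀ {t : ℕ}, 2 ≤ t →
    ∀ (e : Fin n ≃ (Fin t → Fin 3)) {P : GL (Fin n) F}, IsON σ f P →
    H ≤ tensorWreathSubgroup 3 t e P →
    ∃ R : Subgroup (GL (Fin n) F), IsSymplecticTypeGroup 3 R ∧
      ActsAbsolutelyIrreducibly (matrixSet R) ∧ R ≤ Iso f ∧ ⁅R, R⁆ ≤ scalars (Fin n) F ∧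
      IsMinimalFieldFor (Nat.card (Subgroup.center R)) 2 2 F ∧
      Nat.card (Subgroup.center R) = 3 ∧ Nat.card R = 3 ^ (1 + 2 * t) ∧ n = 3 ^ t ∧
      H ≤ subgroupNormalizer R

/-- the explicit alternatives give members of the classes -/
theorem ualt_imp (hU : US σ (hermForm n F q) q) (hexc : q = 2 → Exc23 n F σ (hermForm n F q))
    {H : Subgroup (GL (Fin n) F)} (hH : H ≤ GU n F q) (h : UAlt σ (hermForm n F q) q H) :
    ∃ M : Subgroup (GL (Fin n) F), InUnitaryClass n F q M ∧ H ≤ M := by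
  rcases h with ⟨W, h0, h1, h⟩ | ⟨W, h0, h1, h2, h⟩ | ⟨t, k, D, hD, h⟩ | ⟨k, D, hk, hD, hs, h⟩ |
    ⟨r, K, hr, hodd, hK, hs, h⟩ | ⟨n₁, n₂, e, P, h1, h2, hP, h⟩ | ⟨F₀, r, P, hr, hodd, hc, hP, h⟩ |
    ⟨F₀, P, hodd, hc, hP, h⟩ | ⟨F₀, P, ζ, hev, hc, h0, h1, hP, ha, h⟩ |
    ⟨r, R, p, e, k, h1, h2, h3, -, h4, h5, h6, -, h⟩ | ⟨k, t, e, P, hk, ht, hP, h⟩
  · exact ⟨_, Or.inl (Or.inl ⟨W, h0, h1, rfl⟩), le_inf h hH⟩
  · exact ⟨_, Or.inl (Or.inr (Or.inl ⟨W, h0, h1, h2, rfl⟩)), le_inf h hH⟩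
  · exact ⟨_, Or.inl (Or.inr (Or.inr (Or.inl ⟨t, k, D, hD, rfl⟩))), le_inf h hH⟩
  · exact ⟨_, Or.inl (Or.inr (Or.inr (Or.inr (Or.inl ⟨k, D, hk, hD, hs, rfl⟩)))), le_inf h hH⟩
  · exact ⟨_, Or.inr (Or.inl ⟨r, K, hr, hodd, hK, hs, rfl⟩), le_inf h hH⟩
  · exact ⟨_, Or.inr (Or.inr (Or.inl ⟨n₁, n₂, e, P, _, _, h1, h2, unitaryPow_herm hU.card n₁,
      unitaryPow_herm hU.card n₂, tensorForm_of_ON hU e hP, rfl⟩)), le_inf h hH⟩
  · exact ⟨_, Or.inl (Or.inr (Or.inr (Or.inr (Or.inr (Or.inl ⟨F₀, r, P, hr, hodd, hc, hP, rfl⟩))))),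
      le_inf h hH⟩
  · exact ⟨_, Or.inl (Or.inr (Or.inr (Or.inr (Or.inr (Or.inr (Or.inl ⟨F₀, P, hodd, hc, hP, rfl⟩)))))),
      le_inf h hH⟩
  · exact ⟨_, Or.inl (Or.inr (Or.inr (Or.inr (Or.inr (Or.inr (Or.inr
      (Or.inl ⟨F₀, P, ζ, hev, hc, h0, h1, hP, ha, rfl⟩))))))), le_inf h hH⟩
  · exact ⟨_, Or.inl (Or.inr (Or.inr (Or.inr (Or.inr (Or.inr (Or.inr
      (Or.inr ⟨r, R, p, e, k, h1, h2, h3.trans Iso_le_similarityGroup, h4, h5, h6, rfl⟩))))))),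
      le_inf h hH⟩
  · by_cases hex : q = 2 ∧ k = 3
    · obtain ⟨hq, rfl⟩ := hex
      obtain ⟨R, h1, h2, h3, -, h5, h6, h7, -, hle⟩ := hexc hq hH ht e hP h
      exact ⟨_, Or.inl (Or.inr (Or.inr (Or.inr (Or.inr (Or.inr (Or.inr
        (Or.inr ⟨3, R, 2, 2, t, h1, h2, h3.trans Iso_le_similarityGroup, by norm_num, h5,
          Or.inl ⟨by decide, h6, by omega, h7⟩, rfl⟩))))))), le_inf hle hH⟩
    · exact ⟨_, Or.inr (Or.inr (Or.inr ⟨k, t, e, P, _, hk, ht, hex, unitaryPow_herm hU.card k,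
        tensorPower_of_ON hU e hP, rfl⟩)), le_inf h hH⟩

/-- the general statement, modulo `exc23` -/
theorem general (hF : Fintype.card F = q ^ 2) (hn : 2 ≤ n)
    (hexc : ∀ σ : F ≃+* F, US σ (hermForm n F q) q → q = 2 → Exc23 n F σ (hermForm n F q))
    (H : Subgroup (GL (Fin n) F)) (hH : H ≤ GU n F q) :
    (∃ M : Subgroup (GL (Fin n) F), InUnitaryClass n F q M ∧ H ≤ M) ∨ InUnitaryResidualClass H := by
  obtain ⟨σ, hU⟩ := exists_US (n := n) hF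
  rcases Cfsg.Agent.Lib.Helper13UMain.umain hU hn H hH with h | h
  · exact Or.inl (ualt_imp hU (hexc σ hU) hH h)
  · exact Or.inr h

end Cfsg.Agent.Lib.Helper13UImp
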