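import Cfsg.Agent.Lib.Helper13Tensor
import Cfsg.Agent.Lib.Helper13UHerm

set_option autoImplicit false

/-! Hermitian matrices normalising all tensor factor algebras are pure tensors and can be orthonormalised
factor by factor. -/

namespace Cfsg.Agent.Lib.Helper13UWrA

open Cfsg Cfsg.Geo Matrix Cfsg.Agent.Lib.Helper13Tensor Cfsg.Agent.Lib.Helper13UHerm
open scoped MatrixGroups

variable {m t : ℕ} {F : Type*} [Field F]

local notation "X" => (Fin t → Fin m)

/-- an invertible matrix normalising every tensor factor algebra is a scalar multiple of a pure tensor -/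
theorem eq_smul_PTG (g : GL (Fin t → Fin m) F)
    (h : ∀ i a, ∃ a', (g : Matrix (Fin t → Fin m) (Fin t → Fin m) F) * L i a *
      ((g⁻¹ : GL (Fin t → Fin m) F) : Matrix (Fin t → Fin m) (Fin t → Fin m) F) = L i a') :
    ∃ (u : Fin t → GL (Fin m) F) (c : F),
      (g : Matrix (Fin t → Fin m) (Fin t → Fin m) F) = c • (PTG u : Matrix (Fin t → Fin m) (Fin t → Fin m) F) := by
  have h1 : ∀ i, ∃ u : GL (Fin m) F, ∀ a, (g : Matrix (Fin t → Fin m) (Fin t → Fin m) F) * L i a *
      ((g⁻¹ : GL (Fin t → Fin m) F) : Matrix (Fin t → Fin m) (Fin t → Fin m) F) =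
      L i ((u : Matrix (Fin m) (Fin m) F) * a * (u⁻¹ : GL (Fin m) F).1) := by
    intro i
    obtain ⟨ψ, hψ⟩ := exists_aut ((conjAlg g).comp (LAlg i)) (LAlg i)
      ((conjAlg_injective g).comp (L_injective i)) (L_injective i) (h i)
    obtain ⟨u, hu⟩ := skolem_noether ψ
    refine ⟨u, fun a => ?_⟩
    rw [← hu a]
    exact hψ a
  choose u hu using h1
  let w : GL (Fin t → Fin m) F := PTG u
  have hw : ∀ i a, (w : Matrix (Fin t → Fin m) (Fin t → Fin m) F) * L i a =
      L i ((u i : Matrix (Fin m) (Fin m) F) * a * ((u i)⁻¹ : GL (Fin m) F).1) *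
        (w : Matrix (Fin t → Fin m) (Fin t → Fin m) F) := fun i a => PTG_mul_L u i a
  have hg : ∀ i a, (g : Matrix (Fin t → Fin m) (Fin t → Fin m) F) * L i a =
      L i ((u i : Matrix (Fin m) (Fin m) F) * a * ((u i)⁻¹ : GL (Fin m) F).1) *
        (g : Matrix (Fin t → Fin m) (Fin t → Fin m) F) := by
    intro i a
    rw [← hu i a, mul_assoc _ _ (g : Matrix (Fin t → Fin m) (Fin t → Fin m) F), ← Units.val_mul,
      inv_mul_cancel, Units.val_one, mul_one]
  have e2 : ((w⁻¹ : GL (Fin t → Fin m) F) : Matrix (Fin t → Fin m) (Fin t → Fin m) F) * w = 1 := by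
    rw [← Units.val_mul, inv_mul_cancel, Units.val_one]
  have e3 : (w : Matrix (Fin t → Fin m) (Fin t → Fin m) F) * ((w⁻¹ : GL (Fin t → Fin m) F) : Matrix (Fin t → Fin m) (Fin t → Fin m) F) = 1 := by
    rw [← Units.val_mul, mul_inv_cancel, Units.val_one]
  have hz : ∀ i a, Commute ((w⁻¹ * g : GL (Fin t → Fin m) F) : Matrix (Fin t → Fin m) (Fin t → Fin m) F) (L i a) := by
    intro i a
    show _ * _ = _ * _
    have e1 : ((w⁻¹ : GL (Fin t → Fin m) F) : Matrix (Fin t → Fin m) (Fin t → Fin m) F) *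
        L i ((u i : Matrix (Fin m) (Fin m) F) * a * ((u i)⁻¹ : GL (Fin m) F).1) =
        L i a * ((w⁻¹ : GL (Fin t → Fin m) F) : Matrix (Fin t → Fin m) (Fin t → Fin m) F) := by
      calc _ = ((w⁻¹ : GL (Fin t → Fin m) F) : Matrix (Fin t → Fin m) (Fin t → Fin m) F) *
            (L i ((u i : Matrix (Fin m) (Fin m) F) * a * ((u i)⁻¹ : GL (Fin m) F).1) *
              (w : Matrix (Fin t → Fin m) (Fin t → Fin m) F)) *
            ((w⁻¹ : GL (Fin t → Fin m) F) : Matrix (Fin t → Fin m) (Fin t → Fin m) F) := by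
              rw [mul_assoc _ _ ((w⁻¹ : GL (Fin t → Fin m) F) : Matrix (Fin t → Fin m) (Fin t → Fin m) F),
                mul_assoc _ (w : Matrix (Fin t → Fin m) (Fin t → Fin m) F), e3, mul_one]
        _ = _ := by rw [← hw, ← mul_assoc, e2, one_mul]
    rw [Units.val_mul, mul_assoc, hg, ← mul_assoc, e1, mul_assoc]
  obtain ⟨c, hc⟩ := scalar_of_commute_L hz
  refine ⟨u, c, ?_⟩
  have : (g : Matrix (Fin t → Fin m) (Fin t → Fin m) F) =
      (w : Matrix (Fin t → Fin m) (Fin t → Fin m) F) * ((w⁻¹ * g : GL (Fin t → Fin m) F) : Matrix (Fin t → Fin m) (Fin t → Fin m) F) := by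
    rw [Units.val_mul, ← mul_assoc, e3, one_mul]
  rw [this, hc, Matrix.mul_smul, mul_one]

lemma PT_update_apply (g : Fin t → Matrix (Fin m) (Fin m) F) (x y : Fin t → Fin m) (i : Fin t)
    (s s' : Fin m) :
    PT g (Function.update x i s) (Function.update y i s') =
      g i s s' * ∏ j ∈ Finset.univ.erase i, g j (x j) (y j) := by
  rw [PT_apply, ← Finset.mul_prod_erase _ _ (Finset.mem_univ i), Function.update_self,
    Function.update_self]
  congr 1
  apply Finset.prod_congr rfl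
  intro j hj
  have hji : j ≠ i := Finset.ne_of_mem_erase hj
  rw [Function.update_of_ne hji, Function.update_of_ne hji]

/-- proportional non-zero pure tensors have proportional factors -/
lemma PT_prop {a b : Fin t → Matrix (Fin m) (Fin m) F} {c : F} (h : PT a = c • PT b) (hne : PT a ≠ 0)
    (i : Fin t) : ∃ l : F, a i = l • b i := by
  obtain ⟨x₀, y₀, hxy⟩ : ∃ x₀ y₀, PT a x₀ y₀ ≠ 0 := by
    by_contra hcon
    push Not at hcon
    exact hne (Matrix.ext hcon)
  have hA : ∏ j ∈ Finset.univ.erase i, a j (x₀ j) (y₀ j) ≠ 0 := by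
    rw [PT_apply, ← Finset.mul_prod_erase _ _ (Finset.mem_univ i)] at hxy
    exact right_ne_zero_of_mul hxy
  refine ⟨c * (∏ j ∈ Finset.univ.erase i, b j (x₀ j) (y₀ j)) /
    (∏ j ∈ Finset.univ.erase i, a j (x₀ j) (y₀ j)), ?_⟩
  ext s s'
  have h1 := congrFun (congrFun h (Function.update x₀ i s)) (Function.update y₀ i s')
  rw [Matrix.smul_apply, PT_update_apply, PT_update_apply, smul_eq_mul] at h1
  rw [Matrix.smul_apply, smul_eq_mul, div_mul_eq_mul_div, eq_div_iff hA, h1]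
  ring

lemma PT_smul (κ : Fin t → F) (g : Fin t → Matrix (Fin m) (Fin m) F) :
    PT (fun i => κ i • g i) = (∏ i, κ i) • PT g := by
  ext x y
  rw [Matrix.smul_apply, PT_apply, PT_apply, smul_eq_mul, ← Finset.prod_mul_distrib]
  rfl

lemma PT_map (σ : F ≃+* F) (g : Fin t → Matrix (Fin m) (Fin m) F) :
    (PT g).map σ = PT (fun i => (g i).map σ) := by
  ext x y
  rw [Matrix.map_apply, PT_apply, PT_apply, map_prod]
  rfl

variable {σ : F ≃+* F}

/-- orthonormalisation, factor by factor, of a hermitian matrix normalising all factor algebras -/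
theorem exists_ON_PT [Finite F] (hm : 0 < m) (hσ : σ ≠ RingEquiv.refl F) (hσ2 : ∀ a, σ (σ a) = a)
    (G : GL (Fin t → Fin m) F)
    (hG : ((G : Matrix (Fin t → Fin m) (Fin t → Fin m) F).map σ)ᵀ = (G : Matrix (Fin t → Fin m) (Fin t → Fin m) F))
    (h : ∀ i a, ∃ a', (G : Matrix (Fin t → Fin m) (Fin t → Fin m) F) * L i a *
      ((G⁻¹ : GL (Fin t → Fin m) F) : Matrix (Fin t → Fin m) (Fin t → Fin m) F) = L i a') :
    ∃ (B : Fin t → GL (Fin m) F) (l : F), l ≠ 0 ∧
      (l • (PTG B : Matrix (Fin t → Fin m) (Fin t → Fin m) F))ᵀ * (G : Matrix (Fin t → Fin m) (Fin t → Fin m) F) *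
        (l • (PTG B : Matrix (Fin t → Fin m) (Fin t → Fin m) F)).map σ = 1 := by
  classical
  have : Nonempty (Fin m) := ⟨⟨0, hm⟩⟩
  have hσ' : (σ : F →+* F) ≠ RingHom.id F := by
    intro h
    apply hσ
    ext a
    exact congrArg (fun τ : F →+* F => τ a) h
  obtain ⟨g, c₀, hGg⟩ := eq_smul_PTG G h
  have hPTG : ∀ u : Fin t → GL (Fin m) F, (PTG u : Matrix (Fin t → Fin m) (Fin t → Fin m) F) =
      PT (fun i => (u i : Matrix (Fin m) (Fin m) F)) := fun u => rfl
  have hG0 : (G : Matrix (Fin t → Fin m) (Fin t → Fin m) F) ≠ 0 := G.isUnit.ne_zero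
  have hc₀ : c₀ ≠ 0 := by
    rintro rfl
    rw [zero_smul] at hGg
    exact hG0 hGg
  -- the factors are hermitian up to scalars
  have hH : PT (fun i => ((g i : Matrix (Fin m) (Fin m) F).map σ)ᵀ) =
      (c₀ / σ c₀) • PT (fun i => (g i : Matrix (Fin m) (Fin m) F)) := by
    have h1 := hG
    rw [hGg, hPTG] at h1
    have h2 : ((c₀ • PT (fun i => (g i : Matrix (Fin m) (Fin m) F))).map σ)ᵀ =
        σ c₀ • PT (fun i => ((g i : Matrix (Fin m) (Fin m) F).map σ)ᵀ) := by
      rw [← PT_transpose, ← PT_map]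
      ext x y
      simp
    rw [h2] at h1
    have hσc : σ c₀ ≠ 0 := by simpa using hc₀
    rw [div_eq_inv_mul, mul_smul, ← h1, smul_smul, inv_mul_cancel₀ hσc, one_smul]
  have hne : PT (fun i => ((g i : Matrix (Fin m) (Fin m) F).map σ)ᵀ) ≠ 0 := by
    rw [hH]
    intro h0
    have hσc : σ c₀ ≠ 0 := by simpa using hc₀
    rcases smul_eq_zero.mp h0 with h | h
    · exact (div_ne_zero hc₀ hσc) h
    · apply hG0
      rw [hGg, hPTG, h, smul_zero]
  have hl : ∀ i, ∃ l : F, ((g i : Matrix (Fin m) (Fin m) F).map σ)ᵀ = l • (g i : Matrix (Fin m) (Fin m) F) :=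
    fun i => PT_prop hH hne i
  choose l hl using hl
  have hl1 : ∀ i, l i * σ (l i) = 1 := by
    intro i
    have h1 : (((l i • (g i : Matrix (Fin m) (Fin m) F)).map σ)ᵀ) = (g i : Matrix (Fin m) (Fin m) F) := by
      rw [← hl i]
      ext a b
      simp [hσ2]
    have h2 : (((l i • (g i : Matrix (Fin m) (Fin m) F)).map σ)ᵀ) =
        σ (l i) • ((g i : Matrix (Fin m) (Fin m) F).map σ)ᵀ := by
      ext a b
      simp
    rw [h2, hl i, smul_smul] at h1
    have h3 : (g i : Matrix (Fin m) (Fin m) F) ≠ 0 := (g i).isUnit.ne_zero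
    have h4 : (σ (l i) * l i - 1) • (g i : Matrix (Fin m) (Fin m) F) = 0 := by
      rw [sub_smul, h1, one_smul, sub_self]
    rcases smul_eq_zero.mp h4 with h | h
    · linear_combination h
    · exact absurd h h3
  have hκ : ∀ i, ∃ κ : F, κ ≠ 0 ∧ l i * σ κ = κ := fun i => hilbert90 hσ hσ2 (hl1 i)
  choose κ hκ0 hκ using hκ
  -- the hermitian factors
  let hh : Fin t → GL (Fin m) F := fun i =>
    ⟨κ i • (g i : Matrix (Fin m) (Fin m) F), (κ i)⁻¹ • ((g i)⁻¹ : GL (Fin m) F).1, by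
      rw [Matrix.smul_mul, Matrix.mul_smul, smul_smul, mul_inv_cancel₀ (hκ0 i), one_smul,
        ← Units.val_mul, mul_inv_cancel, Units.val_one], by
      rw [Matrix.smul_mul, Matrix.mul_smul, smul_smul, inv_mul_cancel₀ (hκ0 i), one_smul,
        ← Units.val_mul, inv_mul_cancel, Units.val_one]⟩
  have hhval : ∀ i, (hh i : Matrix (Fin m) (Fin m) F) = κ i • (g i : Matrix (Fin m) (Fin m) F) := fun i => rfl
  have hherm : ∀ i, ((hh i : Matrix (Fin m) (Fin m) F).map σ)ᵀ = (hh i : Matrix (Fin m) (Fin m) F) := by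
    intro i
    rw [hhval]
    have h2 : (((κ i • (g i : Matrix (Fin m) (Fin m) F)).map σ)ᵀ) =
        σ (κ i) • ((g i : Matrix (Fin m) (Fin m) F).map σ)ᵀ := by
      ext a b
      simp
    rw [h2, hl i, smul_smul, mul_comm, hκ i]
  have hB : ∀ i, ∃ B : GL (Fin m) F, (B : Matrix (Fin m) (Fin m) F)ᵀ * (hh i : Matrix (Fin m) (Fin m) F) *
      (B : Matrix (Fin m) (Fin m) F).map σ = 1 := fun i => exists_ON_matrix hσ hσ2 (hh i) (hherm i)
  choose B hB using hB
  -- the product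
  set c₁ : F := c₀ * ∏ i, (κ i)⁻¹ with hc₁
  have hc₁0 : c₁ ≠ 0 := mul_ne_zero hc₀ (Finset.prod_ne_zero_iff.mpr fun i _ => inv_ne_zero (hκ0 i))
  have hprod : (PTG B : Matrix (Fin t → Fin m) (Fin t → Fin m) F)ᵀ * (G : Matrix (Fin t → Fin m) (Fin t → Fin m) F) *
      (PTG B : Matrix (Fin t → Fin m) (Fin t → Fin m) F).map σ = c₁ • 1 := by
    rw [hGg, hPTG, hPTG, PT_transpose, PT_map, Matrix.mul_smul, Matrix.smul_mul, ← PT_mul, ← PT_mul]
    have h1 : ((fun i => (B i : Matrix (Fin m) (Fin m) F)ᵀ) * (fun i => (g i : Matrix (Fin m) (Fin m) F)) *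
        fun i => (B i : Matrix (Fin m) (Fin m) F).map σ) = fun i => (κ i)⁻¹ • (1 : Matrix (Fin m) (Fin m) F) := by
      funext i
      simp only [Pi.mul_apply]
      rw [← hB i, hhval, Matrix.mul_smul, Matrix.smul_mul, smul_smul, inv_mul_cancel₀ (hκ0 i), one_smul]
    rw [h1, PT_smul, smul_smul]
    congr 1
    exact PT_one
  have hfix : σ c₁ = c₁ := by
    have h1 : (((PTG B : Matrix (Fin t → Fin m) (Fin t → Fin m) F)ᵀ * (G : Matrix (Fin t → Fin m) (Fin t → Fin m) F) *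
      (PTG B : Matrix (Fin t → Fin m) (Fin t → Fin m) F).map σ).map σ)ᵀ =
      (PTG B : Matrix (Fin t → Fin m) (Fin t → Fin m) F)ᵀ * (G : Matrix (Fin t → Fin m) (Fin t → Fin m) F) *
      (PTG B : Matrix (Fin t → Fin m) (Fin t → Fin m) F).map σ := by
      rw [Matrix.map_mul, Matrix.map_mul, Matrix.transpose_mul, Matrix.transpose_mul, hG, ← mul_assoc]
      congr 1
      congr 1
      ext a b
      simp [hσ2]
    rw [hprod] at h1
    have x₀ : Fin t → Fin m := fun _ => ⟨0, hm⟩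
    have h2 := congrFun (congrFun h1 x₀) x₀
    simpa using h2
  obtain ⟨lam, hlam⟩ := Cfsg.Agent.Lib.Helper17Herm.norm_surj (σ : F →+* F) hσ' hσ2 c₁⁻¹ (inv_ne_zero hc₁0)
    (by
      show σ c₁⁻¹ = c₁⁻¹
      rw [map_inv₀, hfix])
  have hlam' : lam * σ lam = c₁⁻¹ := hlam
  have hlam0 : lam ≠ 0 := by
    rintro rfl
    rw [zero_mul] at hlam'
    exact inv_ne_zero hc₁0 hlam'.symm
  refine ⟨B, lam, hlam0, ?_⟩
  have h3 : (lam • (PTG B : Matrix (Fin t → Fin m) (Fin t → Fin m) F)).map σ =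
      σ lam • (PTG B : Matrix (Fin t → Fin m) (Fin t → Fin m) F).map σ := by
    ext a b
    simp
  rw [h3, Matrix.transpose_smul, Matrix.smul_mul, Matrix.smul_mul, Matrix.mul_smul, hprod, smul_smul,
    smul_smul, mul_comm (lam), mul_comm (σ lam), hlam', inv_mul_cancel₀ hc₁0, one_smul]

end Cfsg.Agent.Lib.Helper13UWrA
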