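import Cfsg.Agent.Lib.Helper13UDefs
import Cfsg.Agent.Lib.Helper13UWrA
import Cfsg.Agent.Lib.Helper13AschWcoord

set_option autoImplicit false

/-! ASCH-U, piece `wrform`. -/

namespace Cfsg.Agent.Lib.Helper13UWrform

open Cfsg Cfsg.Geo Matrix
open Cfsg.Agent.Lib.Helper97AschBase Cfsg.Agent.Lib.Helper97AschForms Cfsg.Agent.Lib.Helper97UBase
  Cfsg.Agent.Lib.Helper98AschDefs Cfsg.Agent.Lib.Helper98AschBasic Cfsg.Agent.Lib.Helper13UDefs
  Cfsg.Agent.Lib.Helper13Tensor Cfsg.Agent.Lib.Helper13UWrA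
open scoped MatrixGroups Kronecker

variable {n : ℕ} {F : Type*} [Field F] {σ : F ≃+* F} {f : (Fin n → F) → (Fin n → F) → F}

section gram

/-- the Gram matrix of `f` in the basis given by the columns of `P` -/
def gramP (f : (Fin n → F) → (Fin n → F) → F) (P : GL (Fin n) F) : Matrix (Fin n) (Fin n) F :=
  gram (fun u v => f ((P : Matrix (Fin n) (Fin n) F) *ᵥ u) ((P : Matrix (Fin n) (Fin n) F) *ᵥ v))

lemma form_eq_gramP (hf : IsUnitaryForm σ f) (P : GL (Fin n) F) (x y : Fin n → F) :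
    f ((P : Matrix (Fin n) (Fin n) F) *ᵥ x) ((P : Matrix (Fin n) (Fin n) F) *ᵥ y) =
      x ⬝ᵥ (gramP f P *ᵥ (fun j => σ (y j))) :=
  ((sesq_of_unitary hf).comp (P : Matrix (Fin n) (Fin n) F)).eq_gram x y

lemma isUnit_gramP (hf : IsUnitaryForm σ f) (P : GL (Fin n) F) : IsUnit (gramP f P) := by
  rw [Matrix.isUnit_iff_isUnit_det]
  apply ((sesq_of_unitary hf).comp (P : Matrix (Fin n) (Fin n) F)).isUnit_det_gram
  intro v hv
  have hv' : (P : Matrix (Fin n) (Fin n) F) *ᵥ v ≠ 0 := by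
    intro h0
    apply hv
    have := congrArg (fun w => ((P⁻¹ : GL (Fin n) F) : Matrix (Fin n) (Fin n) F) *ᵥ w) h0
    simpa [Matrix.mulVec_mulVec, ← Units.val_mul] using this
  obtain ⟨x, hx⟩ := (hf.nondegenerate _ hv').1
  refine ⟨((P⁻¹ : GL (Fin n) F) : Matrix (Fin n) (Fin n) F) *ᵥ x, ?_⟩
  simpa [Matrix.mulVec_mulVec, ← Units.val_mul] using hx

lemma gramP_herm (hf : IsUnitaryForm σ f) (P : GL (Fin n) F) : ((gramP f P).map σ)ᵀ = gramP f P := by
  ext i j
  simp only [Matrix.transpose_apply, Matrix.map_apply, gramP, Helper97AschForms.gram, Matrix.of_apply]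
  exact (hf.herm _ _).symm

lemma map_mulVec (M : Matrix (Fin n) (Fin n) F) (y : Fin n → F) :
    (fun j => σ ((M *ᵥ y) j)) = M.map σ *ᵥ (fun j => σ (y j)) := by
  ext j
  simp [Matrix.mulVec, dotProduct, map_sum]

lemma matrix_eq_of_dot {M N : Matrix (Fin n) (Fin n) F}
    (h : ∀ x w : Fin n → F, x ⬝ᵥ (M *ᵥ w) = x ⬝ᵥ (N *ᵥ w)) : M = N := by
  ext i j
  have := h (Pi.single i 1) (Pi.single j 1)
  simpa using this

/-- adjoint pairs in terms of the Gram matrix -/
lemma gram_of_adjoint (hf : IsUnitaryForm σ f) (P : GL (Fin n) F) {A B : Matrix (Fin n) (Fin n) F}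
    (h : ∀ u v, f (((P : Matrix (Fin n) (Fin n) F) * A * ((P⁻¹ : GL (Fin n) F) : Matrix (Fin n) (Fin n) F)) *ᵥ u) v =
      f u (((P : Matrix (Fin n) (Fin n) F) * B * ((P⁻¹ : GL (Fin n) F) : Matrix (Fin n) (Fin n) F)) *ᵥ v)) :
    Aᵀ * gramP f P = gramP f P * B.map σ := by
  apply matrix_eq_of_dot
  intro x w
  have hw : w = fun j => σ (σ.symm (w j)) := by ext j; simp
  have e1 : ∀ (M : Matrix (Fin n) (Fin n) F) (z : Fin n → F),
      ((P : Matrix (Fin n) (Fin n) F) * M * ((P⁻¹ : GL (Fin n) F) : Matrix (Fin n) (Fin n) F)) *ᵥ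
        ((P : Matrix (Fin n) (Fin n) F) *ᵥ z) = (P : Matrix (Fin n) (Fin n) F) *ᵥ (M *ᵥ z) := by
    intro M z
    rw [Matrix.mulVec_mulVec, mul_assoc, ← Units.val_mul, inv_mul_cancel, Units.val_one, mul_one,
      Matrix.mulVec_mulVec]
  have h1 := h ((P : Matrix (Fin n) (Fin n) F) *ᵥ x) ((P : Matrix (Fin n) (Fin n) F) *ᵥ (fun j => σ.symm (w j)))
  rw [e1, e1, form_eq_gramP hf, form_eq_gramP hf, map_mulVec, ← hw] at h1
  rw [← Matrix.mulVec_mulVec, ← Matrix.mulVec_mulVec, ← h1, Matrix.dotProduct_mulVec,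
    Matrix.vecMul_transpose]

/-- orthonormality in terms of the Gram matrix -/
lemma isON_mul (hf : IsUnitaryForm σ f) (P C : GL (Fin n) F)
    (h : (C : Matrix (Fin n) (Fin n) F)ᵀ * gramP f P * (C : Matrix (Fin n) (Fin n) F).map σ = 1) :
    IsON σ f (P * C) := by
  intro x y
  rw [Units.val_mul, ← Matrix.mulVec_mulVec, ← Matrix.mulVec_mulVec, form_eq_gramP hf, map_mulVec,
    Matrix.mulVec_mulVec]
  have e1 : ((C : Matrix (Fin n) (Fin n) F) *ᵥ x) ⬝ᵥ
      ((gramP f P * (C : Matrix (Fin n) (Fin n) F).map σ) *ᵥ fun j => σ (y j)) =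
      x ⬝ᵥ (((C : Matrix (Fin n) (Fin n) F)ᵀ * (gramP f P * (C : Matrix (Fin n) (Fin n) F).map σ)) *ᵥ
        fun j => σ (y j)) := by
    rw [← Matrix.mulVec_mulVec _ (C : Matrix (Fin n) (Fin n) F)ᵀ, Matrix.dotProduct_mulVec x,
      Matrix.vecMul_transpose]
  rw [e1, ← mul_assoc, h, Matrix.one_mulVec]
  rfl

end gram


lemma normalizes_inv {m t : ℕ} (g : GL (Fin t → Fin m) F)
    (h : ∀ i a, ∃ a', ((g⁻¹ : GL (Fin t → Fin m) F) : Matrix (Fin t → Fin m) (Fin t → Fin m) F) * L i a *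
      (g : Matrix (Fin t → Fin m) (Fin t → Fin m) F) = L i a') :
    ∀ i a, ∃ a', (g : Matrix (Fin t → Fin m) (Fin t → Fin m) F) * L i a *
      ((g⁻¹ : GL (Fin t → Fin m) F) : Matrix (Fin t → Fin m) (Fin t → Fin m) F) = L i a' := by
  obtain ⟨u, c, hc⟩ := eq_smul_PTG g⁻¹ (by simpa using h)
  intro i a
  refine ⟨((u i)⁻¹ : GL (Fin m) F).1 * a * (u i : Matrix (Fin m) (Fin m) F), ?_⟩
  have h1 := PTG_mul_L u i (((u i)⁻¹ : GL (Fin m) F).1 * a * (u i : Matrix (Fin m) (Fin m) F))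
  have h2 : (u i : Matrix (Fin m) (Fin m) F) * (((u i)⁻¹ : GL (Fin m) F).1 * a * (u i : Matrix (Fin m) (Fin m) F)) *
      ((u i)⁻¹ : GL (Fin m) F).1 = a := by
    have e1 : (u i : Matrix (Fin m) (Fin m) F) * ((u i)⁻¹ : GL (Fin m) F).1 = 1 := by
      rw [← Units.val_mul, mul_inv_cancel, Units.val_one]
    calc _ = ((u i : Matrix (Fin m) (Fin m) F) * ((u i)⁻¹ : GL (Fin m) F).1) * a *
        ((u i : Matrix (Fin m) (Fin m) F) * ((u i)⁻¹ : GL (Fin m) F).1) := by
          simp only [mul_assoc]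
      _ = a := by rw [e1, one_mul, mul_one]
  rw [h2] at h1
  have h3 : ((g⁻¹ : GL (Fin t → Fin m) F) : Matrix (Fin t → Fin m) (Fin t → Fin m) F) *
      L i (((u i)⁻¹ : GL (Fin m) F).1 * a * (u i : Matrix (Fin m) (Fin m) F)) =
      L i a * ((g⁻¹ : GL (Fin t → Fin m) F) : Matrix (Fin t → Fin m) (Fin t → Fin m) F) := by
    rw [hc, Matrix.smul_mul, h1, Matrix.mul_smul]
  have e2 : (g : Matrix (Fin t → Fin m) (Fin t → Fin m) F) *
      ((g⁻¹ : GL (Fin t → Fin m) F) : Matrix (Fin t → Fin m) (Fin t → Fin m) F) = 1 := by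
    rw [← Units.val_mul, mul_inv_cancel, Units.val_one]
  rw [mul_assoc, ← h3, ← mul_assoc, e2, one_mul]

lemma L_transpose {m t : ℕ} (i : Fin t) (a : Matrix (Fin m) (Fin m) F) : (L i a)ᵀ = L i aᵀ := by
  ext x y
  rw [Matrix.transpose_apply, Helper13Tensor.L_apply, Helper13Tensor.L_apply, Matrix.transpose_apply]
  have : (∀ j, j ≠ i → y j = x j) ↔ (∀ j, j ≠ i → x j = y j) :=
    ⟨fun h j hj => (h j hj).symm, fun h j hj => (h j hj).symm⟩
  simp only [this]

lemma L_map {m t : ℕ} (σ : F ≃+* F) (i : Fin t) (a : Matrix (Fin m) (Fin m) F) :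
    (L i a).map σ = L i (a.map σ) := by
  ext x y
  rw [Matrix.map_apply, Helper13Tensor.L_apply, Helper13Tensor.L_apply, Matrix.map_apply]
  split_ifs <;> simp

lemma glReindex_val {κ ι : Type} [Fintype κ] [DecidableEq κ] [Fintype ι] [DecidableEq ι] (e : κ ≃ ι)
    (g : GL κ F) : ((glReindex e g : GL ι F) : Matrix ι ι F) = (g : Matrix κ κ F).submatrix e.symm e.symm :=
  rfl

/-- [wrform] all tensor factor algebras adjoint-closed: the same tensor decomposition is given by an orthonormal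
basis. -/
theorem wreath_form [Fintype F] {q : ℕ} (hU : US σ f q) {k m : ℕ} (hm : 2 ≤ m) (hk : 1 ≤ k)
    (e : Fin n ≃ (Fin k → Fin m)) (P : GL (Fin n) F)
    (hstar : ∀ (i : Fin k) (a : Matrix (Fin m) (Fin m) F), ∃ b : Matrix (Fin m) (Fin m) F, ∀ u v,
      f (((P : Matrix (Fin n) (Fin n) F) * Matrix.reindex e.symm e.symm (factor i a) *
        ((P⁻¹ : GL (Fin n) F) : Matrix (Fin n) (Fin n) F)) *ᵥ u) v =
      f u (((P : Matrix (Fin n) (Fin n) F) * Matrix.reindex e.symm e.symm (factor i b) *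
        ((P⁻¹ : GL (Fin n) F) : Matrix (Fin n) (Fin n) F)) *ᵥ v)) :
    ∃ P' : GL (Fin n) F, IsON σ f P' ∧
      tensorWreathSubgroup m k e P' = tensorWreathSubgroup m k e P := by
  classical
  have hf := hU.unitary
  obtain ⟨G', hG'⟩ := isUnit_gramP hf P
  let G : GL (Fin k → Fin m) F := glReindex e G'
  have hGval : (G : Matrix (Fin k → Fin m) (Fin k → Fin m) F) = (gramP f P).submatrix e.symm e.symm := by
    rw [← hG']; rfl
  have hGherm : ((G : Matrix (Fin k → Fin m) (Fin k → Fin m) F).map σ)ᵀ =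
      (G : Matrix (Fin k → Fin m) (Fin k → Fin m) F) := by
    rw [hGval]
    conv_rhs => rw [← gramP_herm hf P]
    rfl
  have hnorm : ∀ i a, ∃ a', ((G⁻¹ : GL (Fin k → Fin m) F) : Matrix (Fin k → Fin m) (Fin k → Fin m) F) * L i a *
      (G : Matrix (Fin k → Fin m) (Fin k → Fin m) F) = L i a' := by
    intro i a
    obtain ⟨b, hb⟩ := hstar i aᵀ
    have h1 := gram_of_adjoint hf P hb
    refine ⟨b.map σ, ?_⟩
    have h2 : (L i a) * (G : Matrix (Fin k → Fin m) (Fin k → Fin m) F) =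
        (G : Matrix (Fin k → Fin m) (Fin k → Fin m) F) * L i (b.map σ) := by
      have h3 := congrArg (fun M : Matrix (Fin n) (Fin n) F => M.submatrix e.symm e.symm) h1
      beta_reduce at h3
      rw [← Matrix.submatrix_mul_equiv _ _ e.symm e.symm e.symm,
        ← Matrix.submatrix_mul_equiv _ _ e.symm e.symm e.symm, ← hGval] at h3
      have e1 : ((Matrix.reindex e.symm e.symm (factor i aᵀ))ᵀ).submatrix e.symm e.symm = L i a := by
        rw [Cfsg.Agent.Lib.Helper13AschWcoord.factor_eq_L]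
        ext x y
        simp only [Matrix.submatrix_apply, Matrix.transpose_apply, Matrix.reindex_apply, Equiv.symm_symm,
          Equiv.apply_symm_apply]
        rw [← Matrix.transpose_apply (L i aᵀ), L_transpose, Matrix.transpose_transpose]
      have e2 : ((Matrix.reindex e.symm e.symm (factor i b)).map σ).submatrix e.symm e.symm =
          L i (b.map σ) := by
        rw [Cfsg.Agent.Lib.Helper13AschWcoord.factor_eq_L, ← L_map]
        ext x y
        simp
      rw [e1, e2] at h3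
      exact h3
    rw [mul_assoc, h2, ← mul_assoc, ← Units.val_mul, inv_mul_cancel, Units.val_one, one_mul]
  obtain ⟨B, l, hl0, hB⟩ := exists_ON_PT (by omega) hf.ne_refl hf.involutive G hGherm
    (normalizes_inv G hnorm)
  -- the change of basis
  let sc : GL (Fin k → Fin m) F :=
    ⟨l • 1, l⁻¹ • 1, by rw [Matrix.smul_mul, Matrix.mul_smul, smul_smul, mul_one, mul_inv_cancel₀ hl0, one_smul],
      by rw [Matrix.smul_mul, Matrix.mul_smul, smul_smul, mul_one, inv_mul_cancel₀ hl0, one_smul]⟩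
  let cX : GL (Fin k → Fin m) F := sc * PTG B
  have hcXval : (cX : Matrix (Fin k → Fin m) (Fin k → Fin m) F) =
      l • (PTG B : Matrix (Fin k → Fin m) (Fin k → Fin m) F) := by
    show (l • (1 : Matrix (Fin k → Fin m) (Fin k → Fin m) F)) * _ = _
    rw [Matrix.smul_mul, one_mul]
  have hcXmem : cX ∈ tensorWreathStandard m k F :=
    Subgroup.mul_mem _ (scalar_mem (by omega) sc l rfl) (PTG_mem B)
  let C : GL (Fin n) F := glReindex e.symm cX
  have hCval : (C : Matrix (Fin n) (Fin n) F) =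
      (cX : Matrix (Fin k → Fin m) (Fin k → Fin m) F).submatrix e e := rfl
  have hCe : glReindex e C = cX := by
    apply Units.ext
    ext x y
    rw [glReindex_val, hCval]
    simp
  refine ⟨P * C, isON_mul hf P C ?_, ?_⟩
  · rw [← hcXval] at hB
    have h3 := congrArg (fun M : Matrix (Fin k → Fin m) (Fin k → Fin m) F => M.submatrix e e) hB
    beta_reduce at h3
    rw [← Matrix.submatrix_mul_equiv _ _ e e e, ← Matrix.submatrix_mul_equiv _ _ e e e, hGval] at h3
    rw [hCval]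
    have e1 : ((gramP f P).submatrix e.symm e.symm).submatrix e e = gramP f P := by
      ext i j; simp
    rw [e1] at h3
    have e2 : (1 : Matrix (Fin k → Fin m) (Fin k → Fin m) F).submatrix e e = 1 :=
      Matrix.submatrix_one_equiv e
    rw [e2] at h3
    exact h3
  · ext g
    rw [mem_tensorWreathSubgroup_iff, mem_tensorWreathSubgroup_iff]
    have h4 : (P * C)⁻¹ * g * (P * C) = C⁻¹ * (P⁻¹ * g * P) * C := by group
    rw [h4, map_mul, map_mul, map_inv, hCe]
    constructor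
    · intro h
      have := Subgroup.mul_mem _ (Subgroup.mul_mem _ hcXmem h) (Subgroup.inv_mem _ hcXmem)
      have e5 : cX * (cX⁻¹ * (glReindex e) (P⁻¹ * g * P) * cX) * cX⁻¹ = (glReindex e) (P⁻¹ * g * P) := by
        group
      rwa [e5] at this
    · intro h
      exact Subgroup.mul_mem _ (Subgroup.mul_mem _ (Subgroup.inv_mem _ hcXmem) h) hcXmem

end Cfsg.Agent.Lib.Helper13UWrform
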