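import Cfsg.Agent.Lib.Helper13UDefs
import Cfsg.Agent.Lib.Helper97AschForms
import Cfsg.Agent.Lib.Helper98AschDefs
import Mathlib

set_option autoImplicit false

/-! PROJECT 4 = ASCH-U, piece `bilJ`: the semilinear map attached to a bilinear form preserved up to scalars by a
group of isometries of a unitary form. -/

namespace Cfsg.Agent.Lib.Helper15UBilJ

open Cfsg Cfsg.Geo Matrix
open Cfsg.Agent.Lib.Helper97AschBase Cfsg.Agent.Lib.Helper97AschForms Cfsg.Agent.Lib.Helper97UBase
  Cfsg.Agent.Lib.Helper98AschDefs Cfsg.Agent.Lib.Helper13UDefs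
open scoped MatrixGroups

variable {n : ℕ} {F : Type*} [Field F] {σ : F ≃+* F} {f : (Fin n → F) → (Fin n → F) → F}

/-- every commutative adjoint-closed subalgebra normalised by `H` consists of scalars -/
def NoComm (f : (Fin n → F) → (Fin n → F) → F) (H : Subgroup (GL (Fin n) F)) : Prop :=
  ∀ C : Subalgebra F (Matrix (Fin n) (Fin n) F), NzA H C → (∀ x ∈ C, ∀ y ∈ C, x * y = y * x) →
    IsAdjointClosedFor f C → ∀ x ∈ C, ∃ c : F, x = c • (1 : Matrix (Fin n) (Fin n) F)

/-- coordinatewise `σ` -/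
def tw (σ : F ≃+* F) (v : Fin n → F) : Fin n → F := fun j => σ (v j)

lemma tw_add (u v : Fin n → F) : tw σ (u + v) = tw σ u + tw σ v := by
  ext j; simp [tw]

lemma tw_smul (a : F) (v : Fin n → F) : tw σ (a • v) = σ a • tw σ v := by
  ext j; simp [tw]

lemma tw_mulVec (A : Matrix (Fin n) (Fin n) F) (v : Fin n → F) :
    tw σ (A *ᵥ v) = (A.map σ) *ᵥ tw σ v := by
  ext j
  simp [tw, Matrix.mulVec, dotProduct, map_sum]

lemma tw_tw (hσ : ∀ a : F, σ (σ a) = a) (v : Fin n → F) : tw σ (tw σ v) = v := by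
  ext j; simp [tw, hσ]

lemma eq_of_forall_right (hf : IsUnitaryForm σ f) {w w' : Fin n → F} (h : ∀ u, f u w = f u w') : w = w' := by
  by_contra hne
  obtain ⟨x, hx⟩ := (hf.nondegenerate _ (sub_ne_zero.mpr hne)).1
  apply hx
  have hs := sesq_of_unitary hf
  have h1 := hs.add_right x (w - w') w'
  rw [sub_add_cancel, h x] at h1
  exact right_eq_add.1 h1

/-- existence of the semilinear map, in matrix form -/
lemma exists_A (hf : IsUnitaryForm σ f) {β : (Fin n → F) → (Fin n → F) → F} (hβ : IsBilinearForm β) :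
    ∃ A : Matrix (Fin n) (Fin n) F, ∀ u v, β u v = f u (A *ᵥ tw σ v) := by
  have hs := sesq_of_unitary hf
  have hs' : Sesq σ (fun v' u => σ (β u (tw σ v'))) :=
    { add_left := fun x y v => by simp only [tw_add, hβ.add_right, map_add]
      smul_left := fun c x v => by
        simp only [tw_smul, hβ.smul_right, map_mul, hf.involutive]
      add_right := fun v x y => by simp only [hβ.add_left, map_add]
      smul_right := fun c v x => by simp only [hβ.smul_left, map_mul] }
  obtain ⟨A, hA⟩ := hs.exists_adjoint hs' (fun v hv => (hf.nondegenerate v hv).1)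
  refine ⟨A, fun u v => ?_⟩
  have h1 := hA (tw σ v) u
  simp only [tw_tw hf.involutive] at h1
  rw [hf.herm, ← h1, hf.involutive]

/-- [bilJ] a group of isometries of `f` consisting of similarities of a bilinear form `β`: the semilinear map `J`
with `β u v = f u (J v)`. -/
theorem bil_J [Finite F] (hf : IsUnitaryForm σ f) {H : Subgroup (GL (Fin n) F)} (hH : H ≤ Iso f)
    (hnc : NoComm f H)
    {β : (Fin n → F) → (Fin n → F) → F} (hβ : IsBilinearForm β) (hnd : IsNondegenerateForm β)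
    {ε : F} (hε : ∀ u v, β v u = ε * β u v) (hsim : H ≤ similarityGroup β) :
    ∃ (J : (Fin n → F) → (Fin n → F)) (c c' : F), c ≠ 0 ∧ (∀ u v, J (u + v) = J u + J v) ∧
      (∀ (a : F) v, J (a • v) = σ a • J v) ∧ (∀ v, J (J v) = c • v) ∧
      (∀ u v, f (J u) (J v) = c' * σ (f u v)) ∧
      ∀ h ∈ H, ∃ μ : F, ∀ v, J ((h : Matrix (Fin n) (Fin n) F) *ᵥ v) =
        μ • ((h : Matrix (Fin n) (Fin n) F) *ᵥ J v) := by
  have hs := sesq_of_unitary hf
  obtain ⟨A, hA⟩ := exists_A hf hβ
  set J : (Fin n → F) → (Fin n → F) := fun v => A *ᵥ tw σ v with hJ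
  have hJβ : ∀ u v, β u v = f u (J v) := hA
  have hadd : ∀ u v, J (u + v) = J u + J v := fun u v => by
    simp only [hJ, tw_add, Matrix.mulVec_add]
  have hsmul : ∀ (a : F) v, J (a • v) = σ a • J v := fun a v => by
    simp only [hJ, tw_smul, Matrix.mulVec_smul]
  set L : Matrix (Fin n) (Fin n) F := A * A.map σ with hL
  have hJJ : ∀ v, J (J v) = L *ᵥ v := fun v => by
    simp only [hJ, hL, tw_mulVec, tw_tw hf.involutive, Matrix.mulVec_mulVec]
  -- the action of `H`
  have hJh : ∀ h ∈ H, ∃ μ : F, μ ≠ 0 ∧ ∀ v, J ((h : Matrix (Fin n) (Fin n) F) *ᵥ v) =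
      μ • ((h : Matrix (Fin n) (Fin n) F) *ᵥ J v) := by
    intro h hh
    obtain ⟨lam, hlam⟩ := hsim hh
    have hiso := mem_Iso.1 (hH hh)
    refine ⟨σ lam, by simp, fun v => ?_⟩
    apply eq_of_forall_right hf
    intro u
    have e1 : u = (h : Matrix (Fin n) (Fin n) F) *ᵥ
        (((h⁻¹ : GL (Fin n) F) : Matrix (Fin n) (Fin n) F) *ᵥ u) := by simp
    rw [← hJβ, hs.smul_right, hf.involutive]
    conv_lhs => rw [e1]
    conv_rhs => rw [e1]
    rw [hlam, hiso, hJβ]
  -- the key symmetry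
  have hdag : ∀ u v, f (J u) v = σ ε * σ (f u (J v)) := by
    intro u v
    rw [hf.herm, ← hJβ, hε, map_mul, hJβ]
  have hLadj : ∀ u v, f (L *ᵥ u) v = f u ((σ (σ ε * ε) • L) *ᵥ v) := by
    intro u v
    rw [← hJJ, hdag, hdag, Matrix.smul_mulVec, hs.smul_right, hf.involutive, ← hJJ, map_mul,
      hf.involutive, hf.involutive]
    ring
  have hLh : ∀ h ∈ H, ∃ ν : F, (h : Matrix (Fin n) (Fin n) F) * L *
      ((h⁻¹ : GL (Fin n) F) : Matrix (Fin n) (Fin n) F) = ν • L := by
    intro h hh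
    obtain ⟨μ, hμ0, hμ⟩ := hJh h hh
    have hν0 : σ μ * μ ≠ 0 := mul_ne_zero (by simpa using hμ0) hμ0
    refine ⟨(σ μ * μ)⁻¹, ?_⟩
    have h1 : L * (h : Matrix (Fin n) (Fin n) F) = (σ μ * μ) • ((h : Matrix (Fin n) (Fin n) F) * L) := by
      apply Matrix.toLin'.injective
      apply LinearMap.ext
      intro v
      rw [Matrix.toLin'_apply, Matrix.toLin'_apply, ← Matrix.mulVec_mulVec, ← hJJ, hμ, hsmul, hμ,
        Matrix.smul_mulVec, ← Matrix.mulVec_mulVec, ← hJJ, smul_smul]
    have h2 : (h : Matrix (Fin n) (Fin n) F) * L = (σ μ * μ)⁻¹ • (L * (h : Matrix (Fin n) (Fin n) F)) := by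
      rw [h1, smul_smul, inv_mul_cancel₀ hν0, one_smul]
    rw [h2, Matrix.smul_mul, Matrix.mul_assoc, ← Units.val_mul, mul_inv_cancel, Units.val_one, Matrix.mul_one]
  set C : Subalgebra F (Matrix (Fin n) (Fin n) F) := Algebra.adjoin F {L} with hC
  have hLC : L ∈ C := Algebra.subset_adjoin (Set.mem_singleton L)
  have hNz : NzA H C := by
    intro h hh a ha
    induction ha using Algebra.adjoin_induction with
    | mem x hx =>
      rw [Set.mem_singleton_iff] at hx
      subst hx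
      obtain ⟨ν, hν⟩ := hLh h hh
      rw [hν]
      exact C.smul_mem hLC ν
    | algebraMap r =>
      have : (h : Matrix (Fin n) (Fin n) F) * algebraMap F _ r *
          ((h⁻¹ : GL (Fin n) F) : Matrix (Fin n) (Fin n) F) = algebraMap F _ r := by
        rw [← Algebra.commutes, Matrix.mul_assoc, ← Units.val_mul, mul_inv_cancel, Units.val_one,
          Matrix.mul_one]
      rw [this]
      exact C.algebraMap_mem r
    | add x y _ _ hx hy =>
      rw [Matrix.mul_add, Matrix.add_mul]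
      exact C.add_mem hx hy
    | mul x y _ _ hx hy =>
      have : (h : Matrix (Fin n) (Fin n) F) * (x * y) * ((h⁻¹ : GL (Fin n) F) : Matrix (Fin n) (Fin n) F) =
          ((h : Matrix (Fin n) (Fin n) F) * x * ((h⁻¹ : GL (Fin n) F) : Matrix (Fin n) (Fin n) F)) *
          ((h : Matrix (Fin n) (Fin n) F) * y * ((h⁻¹ : GL (Fin n) F) : Matrix (Fin n) (Fin n) F)) := by
        have e : ((h⁻¹ : GL (Fin n) F) : Matrix (Fin n) (Fin n) F) * (h : Matrix (Fin n) (Fin n) F) = 1 := by
          rw [← Units.val_mul, inv_mul_cancel, Units.val_one]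
        calc (h : Matrix (Fin n) (Fin n) F) * (x * y) * ((h⁻¹ : GL (Fin n) F) : Matrix (Fin n) (Fin n) F)
            = (h : Matrix (Fin n) (Fin n) F) * x * 1 * y * ((h⁻¹ : GL (Fin n) F) : Matrix (Fin n) (Fin n) F) := by
              simp only [Matrix.mul_one, Matrix.mul_assoc]
          _ = _ := by rw [← e]; simp only [Matrix.mul_assoc]
      rw [this]
      exact C.mul_mem hx hy
  have hcomm : ∀ x ∈ C, ∀ y ∈ C, x * y = y * x := by
    intro x hx y hy
    have hmc := Algebra.isMulCommutative_adjoin F (s := ({L} : Set (Matrix (Fin n) (Fin n) F))) (by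
      intro a ha b hb
      rw [Set.mem_singleton_iff] at ha hb
      rw [ha, hb])
    have := hmc.is_comm.comm (⟨x, hx⟩ : Algebra.adjoin F ({L} : Set (Matrix (Fin n) (Fin n) F))) ⟨y, hy⟩
    exact congrArg Subtype.val this
  have hstar : IsAdjointClosedFor f C := by
    intro k hk
    induction hk using Algebra.adjoin_induction with
    | mem x hx =>
      rw [Set.mem_singleton_iff] at hx
      subst hx
      exact ⟨_, C.smul_mem hLC _, hLadj⟩
    | algebraMap r =>
      refine ⟨algebraMap F _ (σ r), C.algebraMap_mem _, fun u v => ?_⟩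
      rw [Algebra.algebraMap_eq_smul_one, Algebra.algebraMap_eq_smul_one, Matrix.smul_mulVec,
        Matrix.smul_mulVec, Matrix.one_mulVec, Matrix.one_mulVec, hs.smul_left, hs.smul_right,
        hf.involutive]
    | add x y _ _ hx hy =>
      obtain ⟨x', hx', hx2⟩ := hx
      obtain ⟨y', hy', hy2⟩ := hy
      refine ⟨x' + y', C.add_mem hx' hy', fun u v => ?_⟩
      rw [Matrix.add_mulVec, Matrix.add_mulVec, hs.add_left, hs.add_right, hx2, hy2]
    | mul x y _ _ hx hy =>
      obtain ⟨x', hx', hx2⟩ := hx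
      obtain ⟨y', hy', hy2⟩ := hy
      refine ⟨y' * x', C.mul_mem hy' hx', fun u v => ?_⟩
      rw [← Matrix.mulVec_mulVec, ← Matrix.mulVec_mulVec, hx2, hy2]
  obtain ⟨c, hc⟩ := hnc C hNz hcomm hstar L hLC
  have hJJc : ∀ v, J (J v) = c • v := fun v => by
    rw [hJJ, hc, Matrix.smul_mulVec, Matrix.one_mulVec]
  have hJinj : ∀ v, J v = 0 → v = 0 := by
    intro v hv
    by_contra hv0
    obtain ⟨x, hx⟩ := (hnd v hv0).1
    apply hx
    rw [hJβ, hv]
    have := hs.smul_right 0 x 0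
    simpa using this
  have hform : ∀ u v, f (J u) (J v) = (σ ε * c) * σ (f u v) := by
    intro u v
    rw [hdag, hJJc, hs.smul_right, map_mul, hf.involutive]
    ring
  have hJh' : ∀ h ∈ H, ∃ μ : F, ∀ v, J ((h : Matrix (Fin n) (Fin n) F) *ᵥ v) =
      μ • ((h : Matrix (Fin n) (Fin n) F) *ᵥ J v) := fun h hh => by
    obtain ⟨μ, _, hμ⟩ := hJh h hh
    exact ⟨μ, hμ⟩
  by_cases hex : ∃ v : Fin n → F, v ≠ 0
  · obtain ⟨v, hv⟩ := hex
    refine ⟨J, c, σ ε * c, ?_, hadd, hsmul, hJJc, hform, hJh'⟩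
    intro hc0
    apply hv
    apply hJinj
    apply hJinj
    rw [hJJc, hc0, zero_smul]
  · push Not at hex
    refine ⟨J, 1, σ ε * c, one_ne_zero, hadd, hsmul, fun v => ?_, hform, hJh'⟩
    rw [hex (J (J v)), hex v, smul_zero]

end Cfsg.Agent.Lib.Helper15UBilJ
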