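import Cfsg.Agent.Lib.Helper13UDefs

set_option autoImplicit false

/-! PROJECT 4 = ASCH-U, piece `red`: the reducible case, all dimensions. -/

namespace Cfsg.Agent.Lib.Helper60URed

open Cfsg Cfsg.Geo Matrix
open Cfsg.Agent.Lib.Helper97AschBase Cfsg.Agent.Lib.Helper97UBase Cfsg.Agent.Lib.Helper95Herm
open scoped MatrixGroups

variable {n : ℕ} {F : Type*} [Field F] {σ : F ≃+* F} {f : (Fin n → F) → (Fin n → F) → F}

lemma map_eq_of_Inv {H : Subgroup (GL (Fin n) F)} {W : Submodule F (Fin n → F)} (hW : Inv H W)
    {g : GL (Fin n) F} (hg : g ∈ H) : W.map (Matrix.toLin' (g : Matrix (Fin n) (Fin n) F)) = W := by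
  apply le_antisymm
  · rintro _ ⟨w, hw, rfl⟩
    rw [Matrix.toLin'_apply]
    exact hW g hg w hw
  · intro w hw
    refine ⟨((g⁻¹ : GL (Fin n) F) : Matrix (Fin n) (Fin n) F) *ᵥ w, hW g⁻¹ (H.inv_mem hg) w hw, ?_⟩
    rw [Matrix.toLin'_apply, mulVec_inv_mulVec]

/-- [red] the reducible case. -/
theorem ured (hf : IsUnitaryForm σ f) {H : Subgroup (GL (Fin n) F)}
    (hH : H ≤ Iso f) {W : Submodule F (Fin n → F)} (hW : Inv H W) (h0 : W ≠ ⊥) (h1 : W ≠ ⊤) :
    (∃ U : Submodule F (Fin n → F), U ≠ ⊥ ∧ IsTotallySingularFor f U ∧ H ≤ subspaceStabilizer U) ∨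
    (∃ U : Submodule F (Fin n → F), U ≠ ⊥ ∧ IsNondegenerateOn f U ∧
      2 * Module.finrank F U < n ∧ H ≤ subspaceStabilizer U) ∨
    (∃ (k : ℕ) (D : Fin 2 → Submodule F (Fin n → F)), IsNondegenerateMDecomposition f k D ∧
      H ≤ decompositionStabilizer D) := by
  have h := herm_of_unitary hf
  have hWp := Inv_perp h hH hW
  by_cases hU : W ⊓ h.perp (W : Set (Fin n → F)) = ⊥
  · right
    have htop := sup_perp_eq_top h hU
    have hd := Submodule.finrank_sup_add_finrank_inf_eq W (h.perp (W : Set (Fin n → F)))
    rw [hU, htop, finrank_bot, add_zero, finrank_top, Module.finrank_fin_fun] at hd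
    have hWpos : 0 < Module.finrank F W := Submodule.one_le_finrank_iff.mpr h0
    have hWlt : Module.finrank F W < n := by
      have := Submodule.finrank_lt h1
      rwa [Module.finrank_fin_fun] at this
    rcases lt_trichotomy (2 * Module.finrank F W) n with hlt | heq | hgt
    · exact Or.inl ⟨W, h0, nondegOn_of_inf_eq_bot h hU, hlt, le_subspaceStabilizer_of_Inv hW⟩
    · right
      refine ⟨Module.finrank F W, ![W, h.perp (W : Set (Fin n → F))], ⟨⟨le_refl 2, hWpos, ?_, ?_, ?_⟩, ?_, ?_⟩, ?_⟩
      · intro i
        fin_cases i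
        · rfl
        · show Module.finrank F (h.perp (W : Set (Fin n → F))) = _
          omega
      · rw [iSupIndep_def]
        intro i
        fin_cases i
        · show Disjoint W _
          rw [disjoint_iff, eq_bot_iff, ← hU]
          refine inf_le_inf_left _ (iSup₂_le ?_)
          intro j hj
          fin_cases j
          · exact absurd rfl hj
          · exact le_refl _
        · show Disjoint (h.perp (W : Set (Fin n → F))) _
          rw [disjoint_iff, eq_bot_iff, ← hU, inf_comm]
          refine inf_le_inf_right _ (iSup₂_le ?_)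
          intro j hj
          fin_cases j
          · exact le_refl _
          · exact absurd rfl hj
      · rw [eq_top_iff, ← htop]
        exact sup_le (le_iSup (![W, h.perp (W : Set (Fin n → F))]) 0)
          (le_iSup (![W, h.perp (W : Set (Fin n → F))]) 1)
      · intro i
        fin_cases i
        · exact nondegOn_of_inf_eq_bot h hU
        · exact nondegOn_of_inf_eq_bot h (perp_inf_perp_perp h hU)
      · intro i j hij
        fin_cases i <;> fin_cases j
        · exact absurd rfl hij
        · intro u hu v hv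
          exact h.swap_zero (hv u hu)
        · intro u hu v hv
          exact hu v hv
        · exact absurd rfl hij
      · intro g hg
        refine ⟨1, fun i => ?_⟩
        fin_cases i
        · exact map_eq_of_Inv hW hg
        · exact map_eq_of_Inv hWp hg
    · left
      refine ⟨h.perp (W : Set (Fin n → F)), ?_, nondegOn_of_inf_eq_bot h (perp_inf_perp_perp h hU),
        ?_, le_subspaceStabilizer_of_Inv hWp⟩
      · intro hb
        rw [hb, finrank_bot] at hd
        omega
      · omega
  · left
    refine ⟨W ⊓ h.perp (W : Set (Fin n → F)), hU, ?_, le_subspaceStabilizer_of_Inv ?_⟩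
    · rintro u ⟨_, hu⟩ v ⟨hv, _⟩
      exact hu v hv
    · intro g hg x hx
      exact ⟨hW g hg x hx.1, hWp g hg x hx.2⟩

end Cfsg.Agent.Lib.Helper60URed
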