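import Cfsg.Agent.Lib.Helper13UDefs

set_option autoImplicit false

/-! PROJECT 4 = ASCH-U, piece `adj`: the adjoint involution of a unitary form. -/

namespace Cfsg.Agent.Lib.Helper74UAdj

open Cfsg Cfsg.Geo Matrix
open Cfsg.Agent.Lib.Helper97AschBase Cfsg.Agent.Lib.Helper97AschForms
  Cfsg.Agent.Lib.Helper97UBase
  Cfsg.Agent.Lib.Helper98AschDefs Cfsg.Agent.Lib.Helper98AschBasic
  Cfsg.Agent.Lib.Helper13UDefs
open scoped MatrixGroups Kronecker

variable {n : ℕ} {F : Type*} [Field F] {σ : F ≃+* F} {f : (Fin n → F) → (Fin n → F) → F}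

theorem eq_of_forall_right (hf : IsUnitaryForm σ f) {x y : Fin n → F} (h : ∀ u, f u x = f u y) :
    x = y := by
  by_contra hne
  obtain ⟨u, hu⟩ := (hf.nondegenerate _ (sub_ne_zero.mpr hne)).1
  apply hu
  have hs := sesq_of_unitary hf
  have e := hs.add_right u (x - y) y
  rw [sub_add_cancel, h u] at e
  exact (add_eq_right.mp e.symm)

theorem mat_ext {M N : Matrix (Fin n) (Fin n) F} (h : ∀ v, M *ᵥ v = N *ᵥ v) : M = N := by
  apply Matrix.toLin'.injective
  apply LinearMap.ext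
  intro v
  rw [Matrix.toLin'_apply, Matrix.toLin'_apply, h]

theorem form_zero_left (hf : IsUnitaryForm σ f) (v : Fin n → F) : f 0 v = 0 := by
  have := hf.smul_left 0 0 v
  rwa [zero_smul, zero_mul] at this

theorem form_zero_right (hf : IsUnitaryForm σ f) (v : Fin n → F) : f v 0 = 0 := by
  rw [hf.herm, form_zero_left hf, map_zero]

/-- [adj] -/
theorem exists_adj (hf : IsUnitaryForm σ f) (M : Matrix (Fin n) (Fin n) F) :
    ∃ M' : Matrix (Fin n) (Fin n) F, ∀ u v, f (M *ᵥ u) v = f u (M' *ᵥ v) := by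
  have hs := sesq_of_unitary hf
  have hs' : Sesq σ (fun u v => σ (f (M *ᵥ v) u)) :=
    { add_left := fun x y v => by simp only [hs.add_right, map_add]
      smul_left := fun c x v => by simp only [hs.smul_right, map_mul, hf.involutive]
      add_right := fun v x y => by simp only [Matrix.mulVec_add, hs.add_left, map_add]
      smul_right := fun c v x => by simp only [Matrix.mulVec_smul, hs.smul_left, map_mul] }
  obtain ⟨A, hA⟩ := hs.exists_adjoint hs' (fun v hv => (hf.nondegenerate v hv).1)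
  refine ⟨A, fun u v => ?_⟩
  have e := hA v u
  rw [hf.herm u (A *ᵥ v), ← e, hf.involutive]

/-- [adj] the adjoint of a matrix -/
noncomputable def adj (hf : IsUnitaryForm σ f) (M : Matrix (Fin n) (Fin n) F) : Matrix (Fin n) (Fin n) F :=
  Classical.choose (exists_adj hf M)

/-- [adj] -/
theorem adj_spec (hf : IsUnitaryForm σ f) (M : Matrix (Fin n) (Fin n) F) (u v : Fin n → F) :
    f (M *ᵥ u) v = f u (adj hf M *ᵥ v) := Classical.choose_spec (exists_adj hf M) u v

/-- [adj] -/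
theorem adj_unique (hf : IsUnitaryForm σ f) {M M' : Matrix (Fin n) (Fin n) F}
    (h : ∀ u v, f (M *ᵥ u) v = f u (M' *ᵥ v)) : adj hf M = M' := by
  apply mat_ext
  intro v
  apply eq_of_forall_right hf
  intro u
  rw [← adj_spec hf, h]

/-- [adj] -/
theorem adj_spec' (hf : IsUnitaryForm σ f) (M : Matrix (Fin n) (Fin n) F) (u v : Fin n → F) :
    f u (M *ᵥ v) = f (adj hf M *ᵥ u) v := by
  rw [hf.herm u, adj_spec hf, ← hf.herm]

/-- [adj] -/
theorem adj_adj (hf : IsUnitaryForm σ f) (M : Matrix (Fin n) (Fin n) F) : adj hf (adj hf M) = M :=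
  adj_unique hf (fun u v => (adj_spec' hf M u v).symm)

/-- [adj] -/
theorem adj_mul (hf : IsUnitaryForm σ f) (M N : Matrix (Fin n) (Fin n) F) :
    adj hf (M * N) = adj hf N * adj hf M := by
  apply adj_unique hf
  intro u v
  rw [← Matrix.mulVec_mulVec, ← Matrix.mulVec_mulVec, adj_spec hf, adj_spec hf]

/-- [adj] -/
theorem adj_add (hf : IsUnitaryForm σ f) (M N : Matrix (Fin n) (Fin n) F) :
    adj hf (M + N) = adj hf M + adj hf N := by
  apply adj_unique hf
  intro u v
  rw [Matrix.add_mulVec, Matrix.add_mulVec, hf.add_left, (sesq_of_unitary hf).add_right,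
    adj_spec hf, adj_spec hf]

/-- [adj] -/
theorem adj_smul (hf : IsUnitaryForm σ f) (c : F) (M : Matrix (Fin n) (Fin n) F) :
    adj hf (c • M) = σ c • adj hf M := by
  apply adj_unique hf
  intro u v
  rw [Matrix.smul_mulVec, Matrix.smul_mulVec, hf.smul_left, (sesq_of_unitary hf).smul_right,
    hf.involutive, adj_spec hf]

/-- [adj] -/
theorem adj_one (hf : IsUnitaryForm σ f) : adj hf (1 : Matrix (Fin n) (Fin n) F) = 1 := by
  apply adj_unique hf
  intro u v
  rw [Matrix.one_mulVec, Matrix.one_mulVec]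

/-- [adj] -/
theorem adj_zero (hf : IsUnitaryForm σ f) : adj hf (0 : Matrix (Fin n) (Fin n) F) = 0 := by
  apply adj_unique hf
  intro u v
  rw [Matrix.zero_mulVec, Matrix.zero_mulVec, form_zero_left hf, form_zero_right hf]

/-- [adj] -/
theorem adj_pow (hf : IsUnitaryForm σ f) (M : Matrix (Fin n) (Fin n) F) (k : ℕ) :
    adj hf (M ^ k) = adj hf M ^ k := by
  induction k with
  | zero => rw [pow_zero, pow_zero, adj_one]
  | succ k ih => rw [pow_succ, adj_mul, ih, pow_succ']

/-- [adj] -/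
theorem adj_val (hf : IsUnitaryForm σ f) {g : GL (Fin n) F} (hg : g ∈ Iso f) :
    adj hf (g : Matrix (Fin n) (Fin n) F) = ((g⁻¹ : GL (Fin n) F) : Matrix (Fin n) (Fin n) F) := by
  apply adj_unique hf
  intro u v
  have e : v = (g : Matrix (Fin n) (Fin n) F) *ᵥ
      (((g⁻¹ : GL (Fin n) F) : Matrix (Fin n) (Fin n) F) *ᵥ v) := by
    rw [Matrix.mulVec_mulVec, ← Units.val_mul, mul_inv_cancel, Units.val_one, Matrix.one_mulVec]
  conv_lhs => rw [e]
  exact hg u _

/-- [adj] conjugation by an isometry commutes with the adjoint -/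
theorem adj_conj (hf : IsUnitaryForm σ f) {g : GL (Fin n) F} (hg : g ∈ Iso f)
    (M : Matrix (Fin n) (Fin n) F) :
    adj hf ((g : Matrix (Fin n) (Fin n) F) * M * ((g⁻¹ : GL (Fin n) F) : Matrix (Fin n) (Fin n) F)) =
      (g : Matrix (Fin n) (Fin n) F) * adj hf M * ((g⁻¹ : GL (Fin n) F) : Matrix (Fin n) (Fin n) F) := by
  rw [adj_mul, adj_mul, adj_val hf hg, adj_val hf ((Iso f).inv_mem hg), inv_inv, mul_assoc]

/-- [adj] -/
theorem AC_iff (hf : IsUnitaryForm σ f) {A : Subalgebra F (Matrix (Fin n) (Fin n) F)} :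
    IsAdjointClosedFor f A ↔ ∀ a ∈ A, adj hf a ∈ A := by
  constructor
  · intro h a ha
    obtain ⟨k', hk', hk⟩ := h a ha
    rw [adj_unique hf hk]
    exact hk'
  · intro h a ha
    exact ⟨adj hf a, h a ha, adj_spec hf a⟩

/-- [adj] the enveloping algebra of a group of isometries is closed under adjoints -/
theorem AC_env (hf : IsUnitaryForm σ f) {T : Subgroup (GL (Fin n) F)} (hT : T ≤ Iso f) :
    IsAdjointClosedFor f (env T) := by
  rw [AC_iff hf]
  intro a ha
  unfold env at ha ⊢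
  induction ha using Algebra.adjoin_induction with
  | mem x hx =>
    obtain ⟨t, ht, rfl⟩ := hx
    apply Algebra.subset_adjoin
    refine ⟨t⁻¹, T.inv_mem ht, ?_⟩
    exact (adj_val hf (hT ht)).symm
  | algebraMap c =>
    rw [Algebra.algebraMap_eq_smul_one, adj_smul, adj_one, ← Algebra.algebraMap_eq_smul_one]
    exact Subalgebra.algebraMap_mem _ _
  | add x y _ _ hx hy =>
    rw [adj_add]
    exact Subalgebra.add_mem _ hx hy
  | mul x y _ _ hx hy =>
    rw [adj_mul]
    exact Subalgebra.mul_mem _ hy hx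

/-- [adj] -/
theorem AC_cen (hf : IsUnitaryForm σ f) {A : Subalgebra F (Matrix (Fin n) (Fin n) F)}
    (hA : IsAdjointClosedFor f A) : IsAdjointClosedFor f (cen A) := by
  rw [AC_iff hf] at hA ⊢
  intro a ha
  rw [mem_cen] at ha ⊢
  refine ⟨hA a ha.1, fun b hb => ?_⟩
  have h1 := ha.2 (adj hf b) (hA b hb)
  have h2 := congrArg (adj hf) h1
  rw [adj_mul, adj_mul, adj_adj] at h2
  exact h2.symm

/-- [adj] in an orthonormal basis the adjoint is the conjugate transpose -/
theorem adj_of_ON (hf : IsUnitaryForm σ f) {P : GL (Fin n) F} (hP : IsON σ f P)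
    (M : Matrix (Fin n) (Fin n) F) :
    adj hf ((P : Matrix (Fin n) (Fin n) F) * M * ((P⁻¹ : GL (Fin n) F) : Matrix (Fin n) (Fin n) F)) =
      (P : Matrix (Fin n) (Fin n) F) * (M.map σ)ᵀ * ((P⁻¹ : GL (Fin n) F) : Matrix (Fin n) (Fin n) F) := by
  apply adj_unique hf
  intro u v
  have key : ∀ w : Fin n → F, w = (P : Matrix (Fin n) (Fin n) F) *ᵥ
      (((P⁻¹ : GL (Fin n) F) : Matrix (Fin n) (Fin n) F) *ᵥ w) := by
    intro w
    rw [Matrix.mulVec_mulVec, ← Units.val_mul, mul_inv_cancel, Units.val_one, Matrix.one_mulVec]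
  set x := ((P⁻¹ : GL (Fin n) F) : Matrix (Fin n) (Fin n) F) *ᵥ u with hx
  set y := ((P⁻¹ : GL (Fin n) F) : Matrix (Fin n) (Fin n) F) *ᵥ v with hy
  have e1 : ((P : Matrix (Fin n) (Fin n) F) * M *
      ((P⁻¹ : GL (Fin n) F) : Matrix (Fin n) (Fin n) F)) *ᵥ u =
      (P : Matrix (Fin n) (Fin n) F) *ᵥ (M *ᵥ x) := by
    rw [hx, Matrix.mulVec_mulVec, Matrix.mulVec_mulVec, mul_assoc]
  have e2 : ((P : Matrix (Fin n) (Fin n) F) * (M.map σ)ᵀ *
      ((P⁻¹ : GL (Fin n) F) : Matrix (Fin n) (Fin n) F)) *ᵥ v =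
      (P : Matrix (Fin n) (Fin n) F) *ᵥ ((M.map σ)ᵀ *ᵥ y) := by
    rw [hy, Matrix.mulVec_mulVec, Matrix.mulVec_mulVec, mul_assoc]
  rw [e1, e2]
  conv_lhs => rw [key v]
  conv_rhs => rw [key u]
  rw [← hx, ← hy, hP, hP]
  simp only [Matrix.mulVec, dotProduct, Matrix.transpose_apply, Matrix.map_apply, map_sum, map_mul,
    hf.involutive, Finset.sum_mul, Finset.mul_sum]
  rw [Finset.sum_comm]
  apply Finset.sum_congr rfl
  intro i _
  apply Finset.sum_congr rfl
  intro j _
  ring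

end Cfsg.Agent.Lib.Helper74UAdj
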