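import Cfsg.Agent.Lib.Helper97GBase

set_option autoImplicit false
set_option linter.unusedSectionVars false

namespace Cfsg.Agent.Lib.Helper97GForms

open Cfsg Cfsg.Geo Matrix Cfsg.Agent.Lib.Helper97GBase
open scoped MatrixGroups

/-- an alternating matrix of odd size has determinant zero (any commutative ring) -/
lemma det_alt_eq_zero {R : Type*} [CommRing R] {n : ℕ} (hn : Odd n) (A : Matrix (Fin n) (Fin n) R)
    (hskew : ∀ i j, A i j = - A j i) (hdiag : ∀ i, A i i = 0) : A.det = 0 := by
  let G : Matrix (Fin n) (Fin n) (MvPolynomial (Fin n × Fin n) ℤ) :=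
    Matrix.of fun i j => if i < j then MvPolynomial.X (i, j) else
      if j < i then - MvPolynomial.X (j, i) else 0
  have hG : Gᵀ = -G := by
    ext i j
    simp only [G, transpose_apply, of_apply]
    rcases lt_trichotomy i j with h | h | h
    · simp [h, not_lt.mpr h.le]
    · subst h; simp
    · simp [h, not_lt.mpr h.le]
  have hdet : G.det = 0 := by
    have h1 : G.det = - G.det := by
      conv_lhs => rw [← Matrix.det_transpose, hG, Matrix.det_neg, Fintype.card_fin, hn.neg_one_pow]
      simp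
    have h2 : (2 : MvPolynomial (Fin n × Fin n) ℤ) * G.det = 0 := by linear_combination h1
    exact (mul_eq_zero.mp h2).resolve_left two_ne_zero
  let φ : MvPolynomial (Fin n × Fin n) ℤ →+* R :=
    MvPolynomial.eval₂Hom (Int.castRingHom R) (fun p => A p.1 p.2)
  have hmap : φ.mapMatrix G = A := by
    ext i j
    simp only [RingHom.mapMatrix_apply, map_apply, G, of_apply]
    rcases lt_trichotomy i j with h | h | h
    · simp [h, φ]
    · subst h; simp [hdiag]
    · simp only [h, not_lt.mpr h.le, if_false, if_true, map_neg, φ, MvPolynomial.eval₂Hom_X']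
      exact (hskew i j).symm
  rw [← hmap, ← RingHom.map_det, hdet, map_zero]

variable {ι : Type} [Fintype ι] [DecidableEq ι] {F : Type*} [Field F]

/-- an alternating matrix of odd size has determinant zero, arbitrary index type -/
lemma det_alt_eq_zero' {R : Type*} [CommRing R] (hn : Odd (Fintype.card ι)) (A : Matrix ι ι R)
    (hskew : ∀ i j, A i j = - A j i) (hdiag : ∀ i, A i i = 0) : A.det = 0 := by
  rw [← Matrix.det_submatrix_equiv_self (Fintype.equivFin ι).symm A]
  exact det_alt_eq_zero hn _ (fun i j => hskew _ _) (fun i => hdiag _)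

/-- `σ`-sesquilinear forms -/
structure Sesq (σ : F ≃+* F) (f : (ι → F) → (ι → F) → F) : Prop where
  add_left : ∀ x y v, f (x + y) v = f x v + f y v
  smul_left : ∀ (c : F) (x v : ι → F), f (c • x) v = c * f x v
  add_right : ∀ v x y, f v (x + y) = f v x + f v y
  smul_right : ∀ (c : F) (v x : ι → F), f v (c • x) = σ c * f v x

/-- the Gram matrix -/
def gram (f : (ι → F) → (ι → F) → F) : Matrix ι ι F :=
  Matrix.of fun i j => f (Pi.single i 1) (Pi.single j 1)

section

variable {σ : F ≃+* F} {f f' : (ι → F) → (ι → F) → F}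

lemma single_eq_smul (i : ι) (a : F) : (Pi.single i a : ι → F) = a • Pi.single i 1 := by
  ext j
  by_cases h : j = i
  · subst h; simp
  · simp [h]

lemma Sesq.left_sum (hf : Sesq σ f) (u v : ι → F) :
    f u v = ∑ i, u i * f (Pi.single i 1) v := by
  let A : (ι → F) →+ F :=
    { toFun := fun x => f x v
      map_zero' := by
        have := hf.smul_left 0 0 v
        simpa using this
      map_add' := fun x y => hf.add_left x y v }
  have h1 : A u = ∑ i, A (Pi.single i (u i)) := by
    rw [← map_sum, Finset.univ_sum_single]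
  have h2 : ∀ i, A (Pi.single i (u i)) = u i * f (Pi.single i 1) v := by
    intro i
    rw [single_eq_smul]
    exact hf.smul_left _ _ _
  simp only [h2] at h1
  exact h1

lemma Sesq.right_sum (hf : Sesq σ f) (u v : ι → F) :
    f u v = ∑ j, σ (v j) * f u (Pi.single j 1) := by
  let A : (ι → F) →+ F :=
    { toFun := fun x => f u x
      map_zero' := by
        have := hf.smul_right 0 u 0
        simpa using this
      map_add' := fun x y => hf.add_right u x y }
  have h1 : A v = ∑ i, A (Pi.single i (v i)) := by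
    rw [← map_sum, Finset.univ_sum_single]
  have h2 : ∀ i, A (Pi.single i (v i)) = σ (v i) * f u (Pi.single i 1) := by
    intro i
    rw [single_eq_smul]
    exact hf.smul_right _ _ _
  simp only [h2] at h1
  exact h1

lemma Sesq.eq_gram (hf : Sesq σ f) (u v : ι → F) :
    f u v = u ⬝ᵥ (gram f *ᵥ (fun j => σ (v j))) := by
  rw [hf.left_sum]
  unfold dotProduct
  apply Finset.sum_congr rfl
  intro i _
  rw [hf.right_sum]
  congr 1
  unfold Matrix.mulVec dotProduct gram
  apply Finset.sum_congr rfl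
  intro j _
  exact mul_comm _ _

lemma Sesq.isUnit_det_gram (hf : Sesq σ f) (hnd : ∀ v : ι → F, v ≠ 0 → ∃ x, f x v ≠ 0) :
    IsUnit (gram f).det := by
  rw [isUnit_iff_ne_zero]
  intro hdet
  obtain ⟨w, hw0, hw⟩ := Matrix.exists_mulVec_eq_zero_iff.mpr hdet
  have hv0 : (fun j => σ.symm (w j)) ≠ 0 := by
    intro h0
    apply hw0
    ext j
    have := congrFun h0 j
    simpa using this
  obtain ⟨x, hx⟩ := hnd _ hv0
  apply hx
  rw [hf.eq_gram]
  simp only [RingEquiv.apply_symm_apply]
  rw [hw, dotProduct_zero]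

lemma Sesq.exists_adjoint (hf : Sesq σ f) (hf' : Sesq σ f')
    (hnd : ∀ v : ι → F, v ≠ 0 → ∃ x, f x v ≠ 0) :
    ∃ A : Matrix ι ι F, ∀ u v, f' u v = f (A *ᵥ u) v := by
  refine ⟨(gram f' * (gram f)⁻¹)ᵀ, fun u v => ?_⟩
  rw [hf.eq_gram, Matrix.mulVec_transpose, ← Matrix.dotProduct_mulVec, Matrix.mulVec_mulVec,
    Matrix.nonsing_inv_mul_cancel_right _ _ (hf.isUnit_det_gram hnd), ← hf'.eq_gram]

lemma Sesq.sub_left (hf : Sesq σ f) (x y v : ι → F) : f (x - y) v = f x v - f y v := by
  have h1 := hf.add_left (x - y) y v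
  rw [sub_add_cancel] at h1
  rw [h1, add_sub_cancel_right]

/-- Schur's lemma for invariant forms -/
lemma schur_form {P : Subgroup (GL ι F)} (habs : ActsAbsolutelyIrreducibly (matrixSet P))
    (hf : Sesq σ f) (hf' : Sesq σ f') (hnd : IsNondegenerateForm f)
    (hfix : FixesForm (matrixSet P) f) (hfix' : FixesForm (matrixSet P) f') :
    ∃ c : F, ∀ u v, f' u v = c * f u v := by
  obtain ⟨A, hA⟩ := hf.exists_adjoint hf' (fun v hv => (hnd v hv).1)
  have hcomm : ∀ s ∈ matrixSet P, A * s = s * A := by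
    rintro _ ⟨x, hx, rfl⟩
    apply Matrix.toLin'.injective
    apply LinearMap.ext
    intro u
    rw [Matrix.toLin'_apply, Matrix.toLin'_apply, ← Matrix.mulVec_mulVec, ← Matrix.mulVec_mulVec]
    by_contra hne
    obtain ⟨v, hv⟩ := (hnd _ (sub_ne_zero.mpr hne)).2
    apply hv
    rw [hf.sub_left, sub_eq_zero, ← hA]
    have hxm : (x : Matrix ι ι F) ∈ matrixSet P := ⟨x, hx, rfl⟩
    have e1 : v = (x : Matrix ι ι F) *ᵥ
        (((x⁻¹ : GL ι F) : Matrix ι ι F) *ᵥ v) := by simp
    rw [e1, hfix' _ hxm, hfix _ hxm, hA]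
  obtain ⟨c, hc⟩ := habs.2 A hcomm
  refine ⟨c, fun u v => ?_⟩
  rw [hA, hc, Matrix.smul_mulVec, Matrix.one_mulVec, hf.smul_left]

lemma Sesq.comp (hf : Sesq σ f) (h : Matrix ι ι F) :
    Sesq σ (fun u v => f (h *ᵥ u) (h *ᵥ v)) where
  add_left x y v := by simp only [Matrix.mulVec_add, hf.add_left]
  smul_left c x v := by simp only [Matrix.mulVec_smul, hf.smul_left]
  add_right v x y := by simp only [Matrix.mulVec_add, hf.add_right]
  smul_right c v x := by simp only [Matrix.mulVec_smul, hf.smul_right]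

lemma sesq_of_unitary (hf : IsUnitaryForm σ f) : Sesq σ f where
  add_left := hf.add_left
  smul_left := hf.smul_left
  add_right v x y := by
    rw [hf.herm v (x + y), hf.add_left, map_add, ← hf.herm, ← hf.herm]
  smul_right c v x := by
    rw [hf.herm v (c • x), hf.smul_left, map_mul, ← hf.herm]

lemma sesq_of_bilinear (hf : IsBilinearForm f) : Sesq (RingEquiv.refl F) f where
  add_left := hf.add_left
  smul_left := hf.smul_left
  add_right := hf.add_right
  smul_right := hf.smul_right

lemma similarity_of_fixes {H P : Subgroup (GL ι F)} (hnorm : Nz H P)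
    (habs : ActsAbsolutelyIrreducibly (matrixSet P)) (hf : Sesq σ f) (hnd : IsNondegenerateForm f)
    (hfix : FixesForm (matrixSet P) f) : H ≤ similarityGroup f := by
  intro h hh
  have hfix' : FixesForm (matrixSet P)
      (fun u v => f ((h : Matrix ι ι F) *ᵥ u) ((h : Matrix ι ι F) *ᵥ v)) := by
    rintro _ ⟨x, hx, rfl⟩ u v
    have e : ∀ w : ι → F, (h : Matrix ι ι F) *ᵥ ((x : Matrix ι ι F) *ᵥ w) =
        ((h * x * h⁻¹ : GL ι F) : Matrix ι ι F) *ᵥ
          ((h : Matrix ι ι F) *ᵥ w) := by
      intro w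
      rw [Matrix.mulVec_mulVec, Matrix.mulVec_mulVec, ← Units.val_mul, ← Units.val_mul]
      congr 2
      group
    simp only
    rw [e, e, hfix _ ⟨h * x * h⁻¹, hnorm h hh x hx, rfl⟩]
  obtain ⟨c, hc⟩ := schur_form habs hf (hf.comp (h : Matrix ι ι F)) hnd hfix hfix'
  by_cases hc0 : c = 0
  · refine ⟨1, fun u v => ?_⟩
    have h1 := hc u v
    have h2 := hc (((h⁻¹ : GL ι F) : Matrix ι ι F) *ᵥ u)
      (((h⁻¹ : GL ι F) : Matrix ι ι F) *ᵥ v)
    simp only [mulVec_inv_mulVec] at h1 h2
    rw [h1, h2, hc0]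
    simp
  · exact ⟨Units.mk0 c hc0, hc⟩

end

lemma le_similarityGroup_of_fixes {H P : Subgroup (GL ι F)} (hnorm : Nz H P)
    (habs : ActsAbsolutelyIrreducibly (matrixSet P)) {σ : F ≃+* F}
    {f : (ι → F) → (ι → F) → F} (hf : IsUnitaryForm σ f) (hfix : FixesForm (matrixSet P) f) :
    H ≤ similarityGroup f :=
  similarity_of_fixes hnorm habs (sesq_of_unitary hf) hf.nondegenerate hfix

lemma polar_self {Q : (ι → F) → F} (hQ : IsNondegenerateQuadraticForm Q) (v : ι → F) :
    QuadraticMap.polar Q v v = 2 * Q v := by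
  unfold QuadraticMap.polar
  rw [← two_smul F v, hQ.smul]
  ring

lemma le_quadSimilarityGroup_of_fixes [Fintype F] (hodd : Odd (Fintype.card F))
    {H P : Subgroup (GL ι F)} (hnorm : Nz H P)
    (habs : ActsAbsolutelyIrreducibly (matrixSet P))
    {Q : (ι → F) → F} (hQ : IsNondegenerateQuadraticForm Q) (hfix : FixesQuadForm (matrixSet P) Q) :
    H ≤ quadSimilarityGroup Q := by
  have h2 : (2 : F) ≠ 0 := by
    apply Ring.two_ne_zero
    intro hchar
    have := FiniteField.even_card_of_char_two hchar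
    rw [Nat.odd_iff] at hodd
    omega
  have hfix' : FixesForm (matrixSet P) (QuadraticMap.polar Q) := by
    intro s hs u v
    unfold QuadraticMap.polar
    rw [← Matrix.mulVec_add, hfix s hs, hfix s hs, hfix s hs]
  have hle := similarity_of_fixes hnorm habs (sesq_of_bilinear hQ.polar_bilinear) hQ.nondegenerate hfix'
  intro h hh
  obtain ⟨c, hc⟩ := hle hh
  refine ⟨c, fun v => ?_⟩
  have h3 := hc v v
  rw [polar_self hQ, polar_self hQ] at h3
  apply mul_left_cancel₀ h2
  rw [h3]
  ring

lemma no_symplectic (hodd : Odd (Fintype.card ι)) (f : (ι → F) → (ι → F) → F) : ¬ IsSymplecticForm f := by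
  intro hf
  have h1 := (sesq_of_bilinear hf.bilinear).isUnit_det_gram (fun v hv => (hf.nondegenerate v hv).1)
  rw [det_alt_eq_zero' hodd (gram f) (fun i j => hf.skew _ _) (fun i => hf.alternating _)] at h1
  exact not_isUnit_zero h1

lemma odd_card_of_quadratic [Fintype F] (hodd : Odd (Fintype.card ι)) {Q : (ι → F) → F}
    (hQ : IsNondegenerateQuadraticForm Q) : Odd (Fintype.card F) := by
  by_contra hcon
  rw [Nat.not_odd_iff] at hcon
  have hchar : ringChar F = 2 := FiniteField.even_card_iff_char_two.mpr hcon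
  have h2 : (2 : F) = 0 := by
    have := ringChar.Nat.cast_ringChar (R := F)
    rw [hchar] at this
    exact_mod_cast this
  apply no_symplectic hodd (QuadraticMap.polar Q)
  refine ⟨hQ.polar_bilinear, ?_, ?_, hQ.nondegenerate⟩
  · intro v w
    rw [QuadraticMap.polar_comm Q v w, eq_neg_iff_add_eq_zero, ← two_mul, h2, zero_mul]
  · intro v
    rw [polar_self hQ, h2, zero_mul]

end Cfsg.Agent.Lib.Helper97GForms
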