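import Mathlib
import Cfsg.Agent.Lib.Helper97GForms

set_option autoImplicit false
set_option linter.unusedSectionVars false

namespace Cfsg.Agent.Lib.Helper38AschBilin

open Cfsg Cfsg.Geo Matrix Cfsg.Agent.Lib.Helper97GBase Cfsg.Agent.Lib.Helper97GForms
open scoped MatrixGroups Classical

section abs

variable {ι : Type} [Fintype ι] [DecidableEq ι] {F : Type*} [Field F]
variable {N : Type*} [Group N] [Fintype N] (M : N →* Matrix ι ι F)

/-- the averaged form. -/
def avg (i j : ι) (u v : ι → F) : F := ∑ x : N, (M x *ᵥ u) i * (M x *ᵥ v) j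

lemma avg_bilinear (i j : ι) : IsBilinearForm (avg M i j) where
  add_left x y v := by
    unfold avg
    rw [← Finset.sum_add_distrib]
    refine Finset.sum_congr rfl fun z _ => ?_
    rw [Matrix.mulVec_add, Pi.add_apply, add_mul]
  smul_left c x v := by
    unfold avg
    rw [Finset.mul_sum]
    refine Finset.sum_congr rfl fun z _ => ?_
    rw [Matrix.mulVec_smul, Pi.smul_apply, smul_eq_mul, mul_assoc]
  add_right v x y := by
    unfold avg
    rw [← Finset.sum_add_distrib]
    refine Finset.sum_congr rfl fun z _ => ?_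
    rw [Matrix.mulVec_add, Pi.add_apply, mul_add]
  smul_right c v x := by
    unfold avg
    rw [Finset.mul_sum]
    refine Finset.sum_congr rfl fun z _ => ?_
    rw [Matrix.mulVec_smul, Pi.smul_apply, smul_eq_mul, mul_left_comm]

lemma avg_inv (i j : ι) (y : N) (u v : ι → F) :
    avg M i j (M y *ᵥ u) (M y *ᵥ v) = avg M i j u v := by
  unfold avg
  rw [← Equiv.sum_comp (Equiv.mulRight y) (fun x => (M x *ᵥ u) i * (M x *ᵥ v) j)]
  refine Finset.sum_congr rfl fun z _ => ?_
  simp only [Equiv.coe_mulRight, map_mul, Matrix.mulVec_mulVec]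

lemma sum_sq_eq_zero (h : ∀ i j u v, avg M i j u v = 0) : ∑ x : N, M x * M x = 0 := by
  ext i b
  rw [Matrix.sum_apply, Matrix.zero_apply]
  simp only [Matrix.mul_apply]
  rw [Finset.sum_comm]
  refine Finset.sum_eq_zero fun a _ => ?_
  have := h i a (Pi.single a 1) (Pi.single b 1)
  unfold avg at this
  simpa using this

variable (ε : N → F)

/-- the commutator scalar. -/
def bb (x y : N) : F := ε x * ε y * ε (x * y)

variable {M ε}

lemma comm_rel (hε : ∀ x, M x * M x = ε x • 1) (hε2 : ∀ x, ε x * ε x = 1) (x y : N) :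
    M y * M x = bb ε x y • (M x * M y) := by
  have h := hε (x * y)
  rw [map_mul] at h
  have h1 : M x * M x * (M y * M x) * (M y * M y) = M x * (M x * M y * (M x * M y)) * M y := by
    simp only [mul_assoc]
  rw [h, hε, hε] at h1
  simp only [Matrix.smul_mul, Matrix.mul_smul, one_mul, mul_one, smul_smul] at h1
  have h2 : M y * M x = (ε x * ε y) • ((ε y * ε x) • (M y * M x)) := by
    rw [smul_smul]
    have : ε x * ε y * (ε y * ε x) = 1 := by
      calc ε x * ε y * (ε y * ε x) = (ε x * ε x) * (ε y * ε y) := by ring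
        _ = 1 := by rw [hε2, hε2, one_mul]
    rw [this, one_smul]
  rw [h2, h1, smul_smul]
  rfl

lemma M_ne_zero [Nonempty ι] (x : N) : M x ≠ 0 := by
  intro h
  have h1 : M x * M x⁻¹ = 1 := by rw [← map_mul, mul_inv_cancel, map_one]
  rw [h, zero_mul] at h1
  exact zero_ne_one h1

lemma bb_unique [Nonempty ι] (hε : ∀ x, M x * M x = ε x • 1) (hε2 : ∀ x, ε x * ε x = 1)
    (x y : N) (t : F) (h : M y * M x = t • (M x * M y)) : t = bb ε x y := by
  rw [comm_rel hε hε2, ← map_mul] at h
  by_contra hne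
  have h1 : (t - bb ε x y) • M (x * y) = 0 := by rw [sub_smul, h, sub_self]
  rcases smul_eq_zero.1 h1 with h2 | h2
  · exact hne (sub_eq_zero.1 h2)
  · exact M_ne_zero _ h2

lemma bb_mul [Nonempty ι] (hε : ∀ x, M x * M x = ε x • 1) (hε2 : ∀ x, ε x * ε x = 1)
    (x x' y : N) : bb ε (x * x') y = bb ε x y * bb ε x' y := by
  symm
  apply bb_unique hε hε2
  rw [map_mul, ← mul_assoc, comm_rel hε hε2 x y, Matrix.smul_mul, mul_assoc, comm_rel hε hε2 x' y,
    Matrix.mul_smul, smul_smul, mul_assoc]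

lemma bb_shift [Nonempty ι] (hε : ∀ x, M x * M x = ε x • 1) (hε2 : ∀ x, ε x * ε x = 1)
    (x w : N) : bb ε x (x⁻¹ * w) = bb ε x w := by
  apply bb_unique hε hε2
  have h := comm_rel hε hε2 x (x⁻¹ * w)
  have h1 : M x * M (x⁻¹ * w) = M w := by rw [← map_mul, mul_inv_cancel_left]
  rw [h1] at h
  calc M w * M x = M x * (M (x⁻¹ * w) * M x) := by rw [← mul_assoc, h1]
    _ = _ := by rw [h, Matrix.mul_smul]

lemma eps_shift [Nonempty ι] (hε : ∀ x, M x * M x = ε x • 1) (hε2 : ∀ x, ε x * ε x = 1)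
    (x w : N) : ε x * ε (x⁻¹ * w) = bb ε x w * ε w := by
  rw [← bb_shift hε hε2]
  unfold bb
  rw [mul_inv_cancel_left, mul_assoc, hε2, mul_one]

lemma sum_bb_eq_zero [Nonempty ι] (hε : ∀ x, M x * M x = ε x • 1) (hε2 : ∀ x, ε x * ε x = 1)
    (w x₀ : N) (h : bb ε x₀ w ≠ 1) : ∑ x : N, bb ε x w = 0 := by
  have h1 : ∑ x : N, bb ε x w = bb ε x₀ w * ∑ x : N, bb ε x w := by
    rw [Finset.mul_sum, ← Equiv.sum_comp (Equiv.mulLeft x₀) (fun x => bb ε x w)]
    refine Finset.sum_congr rfl fun z _ => ?_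
    simp only [Equiv.coe_mulLeft]
    exact bb_mul hε hε2 _ _ _
  have h2 : (1 - bb ε x₀ w) * ∑ x : N, bb ε x w = 0 := by
    rw [sub_mul, one_mul, ← h1, sub_self]
  rcases mul_eq_zero.1 h2 with h3 | h3
  · exact absurd (sub_eq_zero.1 h3).symm h
  · exact h3

lemma sq_sum [Nonempty ι] (hε : ∀ x, M x * M x = ε x • 1) (hε2 : ∀ x, ε x * ε x = 1) :
    (∑ x : N, ε x) * (∑ x : N, ε x) = ∑ w : N, ε w * ∑ x : N, bb ε x w := by
  rw [Finset.sum_mul_sum]
  have h1 : ∀ x : N, ∑ y : N, ε x * ε y = ∑ w : N, bb ε x w * ε w := by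
    intro x
    rw [← Equiv.sum_comp (Equiv.mulLeft x⁻¹) (fun y => ε x * ε y)]
    refine Finset.sum_congr rfl fun w _ => ?_
    simp only [Equiv.coe_mulLeft]
    exact eps_shift hε hε2 x w
  simp only [h1]
  rw [Finset.sum_comm]
  refine Finset.sum_congr rfl fun w _ => ?_
  rw [Finset.mul_sum]
  refine Finset.sum_congr rfl fun x _ => ?_
  ring

lemma term_eq [Nonempty ι] (hε : ∀ x, M x * M x = ε x • 1) (hε2 : ∀ x, ε x * ε x = 1)
    (hcent : ∀ w, (∀ x, M w * M x = M x * M w) → M w = 1 ∨ M w = -1) (w : N) :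
    ε w * ∑ x : N, bb ε x w = if (M w = 1 ∨ M w = -1) then (Fintype.card N : F) else 0 := by
  split_ifs with h
  · have h1 : ε w = 1 := by
      have h2 : M w * M w = 1 := by
        rcases h with h | h <;> rw [h] <;> simp
      rw [hε] at h2
      have h3 := congrFun (congrFun h2 (Classical.arbitrary ι)) (Classical.arbitrary ι)
      simpa using h3
    have h2 : ∀ x, bb ε x w = 1 := by
      intro x
      symm
      apply bb_unique hε hε2
      rcases h with h | h <;> rw [h] <;> simp
    simp [h1, h2]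
  · have h1 : ¬ ∀ x, M w * M x = M x * M w := fun hh => h (hcent w hh)
    push Not at h1
    obtain ⟨x₀, hx₀⟩ := h1
    rw [sum_bb_eq_zero hε hε2 w x₀, mul_zero]
    intro hb
    apply hx₀
    rw [comm_rel hε hε2 x₀ w, hb, one_smul]

lemma sum_ne_zero [Nonempty ι] (hε : ∀ x, M x * M x = ε x • 1) (hε2 : ∀ x, ε x * ε x = 1)
    (hcent : ∀ w, (∀ x, M w * M x = M x * M w) → M w = 1 ∨ M w = -1)
    (hinj : Function.Injective M) (h2 : (2 : F) ≠ 0) (hcard : (Fintype.card N : F) ≠ 0) :
    ∑ x : N, ε x ≠ 0 := by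
  intro h0
  have h := sq_sum hε hε2
  rw [h0, mul_zero] at h
  simp only [term_eq hε hε2 hcent] at h
  by_cases hex : ∃ w₀ : N, M w₀ = -1
  · obtain ⟨w₀, hw₀⟩ := hex
    have hne : (1 : N) ≠ w₀ := by
      intro h1
      rw [← h1, map_one] at hw₀
      have h3 := congrFun (congrFun hw₀ (Classical.arbitrary ι)) (Classical.arbitrary ι)
      simp only [Matrix.one_apply_eq, Matrix.neg_apply] at h3
      apply h2
      linear_combination h3
    rw [Finset.sum_eq_add (1 : N) w₀ hne] at h
    · simp only [map_one, true_or, if_true, hw₀, or_true] at h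
      apply hcard
      have : (2 : F) * (Fintype.card N : F) = 0 := by linear_combination -h
      rcases mul_eq_zero.1 this with h3 | h3
      · exact absurd h3 h2
      · exact h3
    · intro c _ hc
      rw [if_neg]
      rintro (h1 | h1)
      · exact hc.1 (hinj (by rw [h1, map_one]))
      · exact hc.2 (hinj (by rw [h1, hw₀]))
    · intro h1; exact absurd (Finset.mem_univ _) h1
    · intro h1; exact absurd (Finset.mem_univ _) h1
  · rw [Finset.sum_eq_single (1 : N)] at h
    · simp only [map_one, true_or, if_true] at h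
      exact hcard h.symm
    · intro c _ hc
      rw [if_neg]
      rintro (h1 | h1)
      · exact hc (hinj (by rw [h1, map_one]))
      · exact hex ⟨c, h1⟩
    · intro h1; exact absurd (Finset.mem_univ _) h1

end abs

section main

variable {ι : Type} [Fintype ι] [DecidableEq ι] {F : Type*} [Field F]

lemma fixes_inv {N : Subgroup (GL ι F)} {f : (ι → F) → (ι → F) → F}
    (hfix : FixesForm (matrixSet N) f) {x : GL ι F} (hx : x ∈ N) (u v : ι → F) :
    f u ((x : Matrix ι ι F) *ᵥ v) = f (((x⁻¹ : GL ι F) : Matrix ι ι F) *ᵥ u) v := by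
  have h := hfix _ ⟨x, hx, rfl⟩ (((x⁻¹ : GL ι F) : Matrix ι ι F) *ᵥ u) v
  rw [← h]
  congr 1
  simp

lemma fixes_inv' {N : Subgroup (GL ι F)} {f : (ι → F) → (ι → F) → F}
    (hfix : FixesForm (matrixSet N) f) {x : GL ι F} (hx : x ∈ N) (u v : ι → F) :
    f ((x : Matrix ι ι F) *ᵥ u) v = f u (((x⁻¹ : GL ι F) : Matrix ι ι F) *ᵥ v) := by
  have h := hfix _ ⟨x, hx, rfl⟩ u (((x⁻¹ : GL ι F) : Matrix ι ι F) *ᵥ v)
  rw [← h]
  congr 1
  simp

lemma nondeg_of_fixes {N : Subgroup (GL ι F)} (hirr : ActsIrreducibly (matrixSet N))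
    {f : (ι → F) → (ι → F) → F} (hbil : IsBilinearForm f) (hfix : FixesForm (matrixSet N) f)
    {u₀ v₀ : ι → F} (hne : f u₀ v₀ ≠ 0) : IsNondegenerateForm f := by
  have hz1 : ∀ u, f u 0 = 0 := fun u => by
    have := hbil.smul_right 0 u 0
    simpa using this
  have hz2 : ∀ u, f 0 u = 0 := fun u => by
    have := hbil.smul_left 0 0 u
    simpa using this
  let R : Submodule F (ι → F) :=
    { carrier := {v | ∀ u, f u v = 0}
      add_mem' := fun {a b} ha hb u => by rw [hbil.add_right, ha u, hb u, add_zero]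
      zero_mem' := hz1
      smul_mem' := fun c a ha u => by rw [hbil.smul_right, ha u, mul_zero] }
  let L : Submodule F (ι → F) :=
    { carrier := {v | ∀ u, f v u = 0}
      add_mem' := fun {a b} ha hb u => by rw [hbil.add_left, ha u, hb u, add_zero]
      zero_mem' := hz2
      smul_mem' := fun c a ha u => by rw [hbil.smul_left, ha u, mul_zero] }
  have hR : R = ⊥ := by
    refine (hirr R ?_).resolve_right ?_
    · rintro _ ⟨x, hx, rfl⟩ _ ⟨v, hv, rfl⟩ u
      rw [Matrix.toLin'_apply, fixes_inv hfix hx]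
      exact hv _
    · intro htop
      have : v₀ ∈ R := by rw [htop]; trivial
      exact hne (this u₀)
  have hL : L = ⊥ := by
    refine (hirr L ?_).resolve_right ?_
    · rintro _ ⟨x, hx, rfl⟩ _ ⟨v, hv, rfl⟩ u
      rw [Matrix.toLin'_apply, fixes_inv' hfix hx]
      exact hv _
    · intro htop
      have : u₀ ∈ L := by rw [htop]; trivial
      exact hne (this v₀)
  intro v hv
  constructor
  · by_contra hcon
    push Not at hcon
    have : v ∈ R := hcon
    rw [hR] at this
    exact hv this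
  · by_contra hcon
    push Not at hcon
    have : v ∈ L := hcon
    rw [hL] at this
    exact hv this

/-- L1 (bilinear_of_sq): Gauss sum argument. -/
theorem bilinear_of_sq [Nonempty ι] (N : Subgroup (GL ι F)) [Finite N]
    (habs : ActsAbsolutelyIrreducibly (matrixSet N)) (h2 : (2 : F) ≠ 0)
    (hcard : (Nat.card N : F) ≠ 0)
    (hsq : ∀ x ∈ N, (x : Matrix ι ι F) * (x : Matrix ι ι F) = 1 ∨
      (x : Matrix ι ι F) * (x : Matrix ι ι F) = -1)
    (hsc : ∀ x ∈ N, x ∈ scalars ι F → (x : Matrix ι ι F) = 1 ∨ (x : Matrix ι ι F) = -1) :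
    (∃ Q : (ι → F) → F, IsNondegenerateQuadraticForm Q ∧ FixesQuadForm (matrixSet N) Q) ∨
    (∃ f : (ι → F) → (ι → F) → F, IsSymplecticForm f ∧ FixesForm (matrixSet N) f) := by
  have : Fintype N := Fintype.ofFinite N
  let M : N →* Matrix ι ι F := (Units.coeHom _).comp N.subtype
  have hM : ∀ x : N, M x = ((x : GL ι F) : Matrix ι ι F) := fun _ => rfl
  let ε : N → F := fun x => if M x * M x = 1 then 1 else -1
  have hε : ∀ x, M x * M x = ε x • 1 := by
    intro x
    by_cases h : M x * M x = 1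
    · simp [ε, h]
    · have := (hsq x x.2).resolve_left h
      simp only [ε, if_neg h]
      rw [hM, this]
      simp
  have hε2 : ∀ x, ε x * ε x = 1 := by
    intro x
    by_cases h : M x * M x = 1 <;> simp [ε, h]
  have hcent : ∀ w, (∀ x, M w * M x = M x * M w) → M w = 1 ∨ M w = -1 := by
    intro w hw
    obtain ⟨c, hc⟩ := habs.2 (M w) (by rintro _ ⟨x, hx, rfl⟩; exact hw ⟨x, hx⟩)
    apply hsc w w.2
    rw [mem_scalars_iff]
    have hc0 : c ≠ 0 := by
      rintro rfl
      rw [zero_smul] at hc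
      exact M_ne_zero w hc
    exact ⟨Units.mk0 c hc0, hc⟩
  have hinj : Function.Injective M := fun a b h => Subtype.ext (Units.ext h)
  have hs := sum_ne_zero hε hε2 hcent hinj h2 (by rwa [Nat.card_eq_fintype_card] at hcard)
  have hex : ∃ i j u v, avg M i j u v ≠ 0 := by
    by_contra hcon
    push Not at hcon
    have h0 := sum_sq_eq_zero M hcon
    simp only [hε] at h0
    rw [← Finset.sum_smul] at h0
    rcases smul_eq_zero.1 h0 with h | h
    · exact hs h
    · exact one_ne_zero h
  obtain ⟨i, j, u₀, v₀, hne⟩ := hex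
  obtain ⟨f, hf⟩ : ∃ f, f = avg M i j := ⟨_, rfl⟩
  rw [← hf] at hne
  have hbil : IsBilinearForm f := hf ▸ avg_bilinear M i j
  have hfix : FixesForm (matrixSet N) f := by
    rintro _ ⟨x, hx, rfl⟩ u v
    rw [hf]
    exact avg_inv M i j ⟨x, hx⟩ u v
  have hnd : IsNondegenerateForm f := nondeg_of_fixes habs.1 hbil hfix hne
  have hbil' : IsBilinearForm (fun u v => f v u) :=
    ⟨fun x y v => hbil.add_right v x y, fun c x v => hbil.smul_right c v x,
      fun v x y => hbil.add_left x y v, fun c v x => hbil.smul_left c x v⟩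
  have hfix' : FixesForm (matrixSet N) (fun u v => f v u) := fun s hs u v => hfix s hs v u
  obtain ⟨c, hc⟩ := schur_form habs (sesq_of_bilinear hbil) (sesq_of_bilinear hbil') hnd hfix hfix'
  have hcc : c * c = 1 := by
    have h1 : f u₀ v₀ = c * (c * f u₀ v₀) := by rw [← hc, ← hc]
    have h3 : (c * c - 1) * f u₀ v₀ = 0 := by linear_combination -h1
    rcases mul_eq_zero.1 h3 with h4 | h4
    · exact sub_eq_zero.1 h4
    · exact absurd h4 hne
  have hc1 : c = 1 ∨ c = -1 := by
    have : (c - 1) * (c + 1) = 0 := by linear_combination hcc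
    rcases mul_eq_zero.1 this with h | h
    · left; exact sub_eq_zero.1 h
    · right; exact eq_neg_of_add_eq_zero_left h
  rcases hc1 with rfl | rfl
  · left
    have hsymm : ∀ u v, f v u = f u v := fun u v => by rw [hc, one_mul]
    have hpolar : QuadraticMap.polar (fun v => 2⁻¹ * f v v) = f := by
      funext u v
      unfold QuadraticMap.polar
      beta_reduce
      rw [hbil.add_left, hbil.add_right, hbil.add_right, hsymm u v]
      field_simp
      ring
    refine ⟨fun v => 2⁻¹ * f v v, ⟨?_, ?_, ?_⟩, ?_⟩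
    · intro a v
      rw [hbil.smul_left, hbil.smul_right]
      ring
    · rw [hpolar]; exact hbil
    · rw [hpolar]; exact hnd
    · intro s hs v
      simp only
      rw [hfix s hs]
  · right
    have hskew : ∀ u v, f u v = - f v u := fun u v => by rw [hc v u]; ring
    refine ⟨f, ⟨hbil, hskew, ?_, hnd⟩, hfix⟩
    intro v
    have h1 := hskew v v
    have h3 : (2 : F) * f v v = 0 := by linear_combination h1
    rcases mul_eq_zero.1 h3 with h4 | h4
    · exact absurd h4 h2
    · exact h4

end main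

end Cfsg.Agent.Lib.Helper38AschBilin
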