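import Mathlib
import Cfsg.Prelude.Def_GeometricClasses

set_option autoImplicit false

namespace Cfsg.Agent.Lib.Helper38AschField

open Cfsg Cfsg.Geo

section
variable {F : Type*} [Field F] [Fintype F]

/-- not every element of a field with `p ^ e` elements is fixed by `x ↦ x ^ (p ^ d)`, `0 < d < e`. -/
lemma exists_pow_ne {p e d : ℕ} (hp : p.Prime) (hcard : Fintype.card F = p ^ e) (hd0 : 0 < d)
    (hd : d < e) : ∃ x : F, x ^ (p ^ d) ≠ x := by
  classical
  by_contra hcon
  push Not at hcon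
  have hlt : p ^ d < p ^ e := Nat.pow_lt_pow_right hp.one_lt hd
  have h1 : 1 < p ^ d := Nat.one_lt_pow hd0.ne' hp.one_lt
  have hne : (Polynomial.X ^ (p ^ d) - Polynomial.X : Polynomial F) ≠ 0 :=
    FiniteField.X_pow_card_sub_X_ne_zero F h1
  have hdeg : (Polynomial.X ^ (p ^ d) - Polynomial.X : Polynomial F).natDegree = p ^ d :=
    FiniteField.X_pow_card_sub_X_natDegree_eq F h1
  have hroots : (Finset.univ : Finset F) ⊆
      (Polynomial.X ^ (p ^ d) - Polynomial.X : Polynomial F).roots.toFinset := by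
    intro x _
    rw [Multiset.mem_toFinset, Polynomial.mem_roots hne]
    simp [Polynomial.IsRoot, hcon x]
  have h2 := Finset.card_le_card hroots
  have h3 := Multiset.toFinset_card_le (Polynomial.X ^ (p ^ d) - Polynomial.X : Polynomial F).roots
  have h4 := Polynomial.card_roots' (Polynomial.X ^ (p ^ d) - Polynomial.X : Polynomial F)
  rw [Finset.card_univ, hcard] at h2
  omega

/-- the fixed field of `x ↦ x ^ (p ^ d)`. -/
def fixedSubfield (p d : ℕ) [hp : Fact p.Prime] [CharP F p] : Subfield F where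
  carrier := {x | x ^ (p ^ d) = x}
  mul_mem' {a b} ha hb := by
    simp only [Set.mem_ofPred_eq] at ha hb ⊢
    rw [mul_pow, ha, hb]
  one_mem' := by simp
  add_mem' {a b} ha hb := by
    simp only [Set.mem_ofPred_eq] at ha hb ⊢
    rw [add_pow_char_pow, ha, hb]
  zero_mem' := by
    simp only [Set.mem_ofPred_eq]
    exact zero_pow (pow_ne_zero _ hp.out.ne_zero)
  neg_mem' {a} ha := by
    simp only [Set.mem_ofPred_eq] at ha ⊢
    have h := sub_pow_char_pow (R := F) (p := p) (n := d) (x := 0) (y := a)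
    rw [zero_sub, zero_pow (pow_ne_zero _ hp.out.ne_zero), zero_sub, ha] at h
    exact h
  inv_mem' a ha := by
    simp only [Set.mem_ofPred_eq] at ha ⊢
    rw [inv_pow, ha]

lemma mem_fixedSubfield (p d : ℕ) [hp : Fact p.Prime] [CharP F p] (x : F) :
    x ∈ fixedSubfield (F := F) p d ↔ x ^ (p ^ d) = x := Iff.rfl

lemma pow_eq_self_of_dvd {z n : ℕ} (hn : 0 < n) (h : z ∣ n - 1) {c : F} (hc : c ^ z = 1) :
    c ^ n = c := by
  obtain ⟨k, hk⟩ := h
  have : n = z * k + 1 := by omega
  rw [this, pow_succ, pow_mul, hc, one_pow, one_mul]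

omit [Field F] [Fintype F] in
lemma four_dvd_succ {q : ℕ} (hpos : 0 < q) (h1 : 4 ∣ (q - 1) * (q + 1)) (h2 : ¬ 4 ∣ q - 1) :
    4 ∣ q + 1 := by
  have hq : q % 4 = 0 ∨ q % 4 = 1 ∨ q % 4 = 2 ∨ q % 4 = 3 := by omega
  rcases hq with hq | hq | hq | hq
  · exfalso
    obtain ⟨k, hk⟩ : ∃ k, q = 4 * k + 4 := ⟨q / 4 - 1, by omega⟩
    subst hk
    have : (4 * k + 4 - 1) * (4 * k + 4 + 1) = 4 * (4 * k * k + 8 * k + 3) + 3 := by
      have : 4 * k + 4 - 1 = 4 * k + 3 := by omega
      rw [this]; ring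
    omega
  · exfalso; apply h2; omega
  · exfalso
    obtain ⟨k, hk⟩ : ∃ k, q = 4 * k + 2 := ⟨q / 4, by omega⟩
    subst hk
    have : (4 * k + 2 - 1) * (4 * k + 2 + 1) = 4 * (4 * k * k + 4 * k) + 3 := by
      have : 4 * k + 2 - 1 = 4 * k + 1 := by omega
      rw [this]; ring
    omega
  · omega

omit [Field F] [Fintype F] in
lemma mod_four_of_odd_pow {p k : ℕ} (h : p ^ (2 * k + 1) % 4 = 1) : p % 4 = 1 := by
  rw [pow_succ, pow_mul, Nat.mul_mod, Nat.pow_mod, Nat.pow_mod p 2 4] at h
  have hp4 : p % 4 = 0 ∨ p % 4 = 1 ∨ p % 4 = 2 ∨ p % 4 = 3 := by omega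
  rcases hp4 with h' | h' | h' | h'
  · rw [h'] at h; simp at h
  · exact h'
  · rw [h'] at h
    norm_num at h
    omega
  · rw [h'] at h
    norm_num at h

/-- F1 (field_cases). -/
theorem field_cases (z : ℕ) (hz : (z.Prime ∧ Odd z) ∨ z = 4)
    (hdvd : z ∣ Fintype.card F - 1) :
    ∃ p e : ℕ, p.Prime ∧ CharP F p ∧ Fintype.card F = p ^ e ∧
      ((∃ F₀ : Subfield F, F₀ ≠ ⊤ ∧ ∀ c : F, c ^ z = 1 → c ∈ F₀) ∨
       (IsMinimalFieldFor z p e F ∧ Odd e ∧ (z = 4 → e = 1)) ∨
       (∃ σ : F ≃+* F, σ ≠ RingEquiv.refl F ∧ (∀ a, σ (σ a) = a) ∧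
          ∀ c : F, c ^ z = 1 → c * σ c = 1)) := by
  classical
  obtain ⟨p, hchar⟩ := CharP.exists F
  obtain ⟨e, hp, hcard⟩ := FiniteField.card F p
  have : Fact p.Prime := ⟨hp⟩
  refine ⟨p, e, hp, hchar, hcard, ?_⟩
  have he0 : 0 < (e : ℕ) := e.pos
  by_cases hA : ∃ d : ℕ, 0 < d ∧ d < e ∧ z ∣ p ^ d - 1
  · obtain ⟨d, hd0, hde, hzd⟩ := hA
    left
    refine ⟨fixedSubfield p d, ?_, ?_⟩
    · intro htop
      obtain ⟨x, hx⟩ := exists_pow_ne (F := F) hp hcard hd0 hde
      apply hx
      have : x ∈ fixedSubfield (F := F) p d := by rw [htop]; trivial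
      exact this
    · intro c hc
      exact pow_eq_self_of_dvd (pow_pos hp.pos _) hzd hc
  · right
    push Not at hA
    have hmin : IsMinimalFieldFor z p e F :=
      ⟨hp, hchar, hcard, hcard ▸ hdvd, fun d hd0 hde => hA d hd0 hde⟩
    rcases Nat.even_or_odd (e : ℕ) with hev | hodd
    · right
      obtain ⟨e', he'⟩ := hev
      have he'0 : 0 < e' := by omega
      have he'e : e' < e := by omega
      have hfix : ∀ a : F, (a ^ (p ^ e')) ^ (p ^ e') = a := by
        intro a
        rw [← pow_mul, ← pow_add, ← he', ← hcard]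
        exact FiniteField.pow_card a
      let σ : F ≃+* F :=
        { toFun := fun a => a ^ (p ^ e')
          invFun := fun a => a ^ (p ^ e')
          left_inv := hfix
          right_inv := hfix
          map_mul' := fun a b => mul_pow a b _
          map_add' := fun a b => add_pow_char_pow a b p e' }
      have hσ : ∀ a, σ a = a ^ (p ^ e') := fun a => rfl
      refine ⟨σ, ?_, ?_, ?_⟩
      · intro h
        obtain ⟨x, hx⟩ := exists_pow_ne (F := F) hp hcard he'0 he'e
        apply hx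
        rw [← hσ, h]
        rfl
      · intro a
        rw [hσ, hσ]
        exact hfix a
      · intro c hc
        rw [hσ, ← pow_succ']
        have hz1 : z ∣ p ^ e' + 1 := by
          have h1 : z ∣ p ^ (e : ℕ) - 1 := hcard ▸ hdvd
          have h2 : ¬ z ∣ p ^ e' - 1 := hA e' he'0 he'e
          have h3 : p ^ (e : ℕ) - 1 = (p ^ e' - 1) * (p ^ e' + 1) := by
            have hpos : 0 < p ^ e' := pow_pos hp.pos _
            rw [he', pow_add]
            obtain ⟨m, hm⟩ : ∃ m, p ^ e' = m + 1 := ⟨p ^ e' - 1, by omega⟩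
            rw [hm]
            simp only [Nat.add_sub_cancel]
            have : (m + 1) * (m + 1) = m * (m + 1 + 1) + 1 := by ring
            omega
          rw [h3] at h1
          rcases hz with ⟨hzp, _⟩ | hz4
          · rcases (Nat.Prime.dvd_mul hzp).1 h1 with h | h
            · exact absurd h h2
            · exact h
          · subst hz4
            exact four_dvd_succ (pow_pos hp.pos _) h1 h2
        obtain ⟨k, hk⟩ := hz1
        rw [hk, pow_mul, hc, one_pow]
    · left
      refine ⟨hmin, hodd, ?_⟩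
      intro hz4
      subst hz4
      by_contra hne
      have h1e : 1 < (e : ℕ) := by omega
      apply hA 1 one_pos h1e
      rw [pow_one]
      have h1 : 4 ∣ p ^ (e : ℕ) - 1 := hcard ▸ hdvd
      obtain ⟨k, hk⟩ := hodd
      have hpos : 0 < p ^ (e : ℕ) := pow_pos hp.pos _
      have hmod : p ^ (e : ℕ) % 4 = 1 := by omega
      rw [hk] at hmod
      have := mod_four_of_odd_pow hmod
      omega

end

end Cfsg.Agent.Lib.Helper38AschField
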