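import Cfsg.Agent.Lib.Helper97GClifford

set_option autoImplicit false

namespace Cfsg.Agent.Lib.Helper97GCore

open scoped commutatorElement

section abstract

variable {𝔾 : Type*} [Group 𝔾]

/-- `H` normalizes `T` (abstract groups). -/
def NzG (H T : Subgroup 𝔾) : Prop := ∀ h ∈ H, ∀ x ∈ T, h * x * h⁻¹ ∈ T

/-- conjugate subgroup -/
def cj (h : 𝔾) (T : Subgroup 𝔾) : Subgroup 𝔾 := T.map (MulAut.conj h).toMonoidHom

lemma mem_cj {h x : 𝔾} {T : Subgroup 𝔾} : x ∈ cj h T ↔ h⁻¹ * x * h ∈ T := by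
  constructor
  · rintro ⟨t, ht, rfl⟩
    simpa [mul_assoc] using ht
  · intro hx
    exact ⟨_, hx, by simp [mul_assoc]⟩

lemma conj_mem_cj {h t : 𝔾} {T : Subgroup 𝔾} (ht : t ∈ T) : h * t * h⁻¹ ∈ cj h T :=
  ⟨t, ht, by simp⟩

lemma card_cj (h : 𝔾) (T : Subgroup 𝔾) : Nat.card (cj h T) = Nat.card T :=
  (Nat.card_congr (T.equivMapOfInjective _ (MulAut.conj h).injective).toEquiv).symm

lemma cj_mono {h : 𝔾} {T S : Subgroup 𝔾} (hTS : T ≤ S) : cj h T ≤ cj h S := Subgroup.map_mono hTS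

lemma cj_cj (g h : 𝔾) (T : Subgroup 𝔾) : cj g (cj h T) = cj (g * h) T := by
  ext x
  simp only [mem_cj, mul_inv_rev, mul_assoc]

lemma cj_one (T : Subgroup 𝔾) : cj 1 T = T := by
  ext x
  simp [mem_cj]

lemma cj_commutator (h : 𝔾) (T S : Subgroup 𝔾) : cj h ⁅T, S⁆ = ⁅cj h T, cj h S⁆ :=
  Subgroup.map_commutator _ _ _

lemma cj_le_of_NzG {H T : Subgroup 𝔾} (hn : NzG H T) {h : 𝔾} (hh : h ∈ H) : cj h T ≤ T := by
  rintro _ ⟨t, ht, rfl⟩
  exact hn h hh t ht

lemma cj_eq_of_NzG {H T : Subgroup 𝔾} (hn : NzG H T) {h : 𝔾} (hh : h ∈ H) : cj h T = T := by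
  apply le_antisymm (cj_le_of_NzG hn hh)
  intro t ht
  rw [mem_cj]
  have := hn h⁻¹ (H.inv_mem hh) t ht
  simpa using this

lemma cj_le_central {Z : Subgroup 𝔾} (hZ : Z ≤ Subgroup.center 𝔾) (h : 𝔾) {T : Subgroup 𝔾} :
    cj h T ≤ Z ↔ T ≤ Z := by
  constructor
  · intro hle t ht
    have h1 := hle (conj_mem_cj (h := h) ht)
    have h2 := Subgroup.mem_center_iff.mp (hZ h1) h
    have h3 : h * t * h⁻¹ = t := by
      have : h * (h * t * h⁻¹) = h * t := by rw [h2]; group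
      exact mul_left_cancel this
    rwa [h3] at h1
  · rintro hle _ ⟨t, ht, rfl⟩
    have h2 := Subgroup.mem_center_iff.mp (hZ (hle ht)) h
    have h3 : h * t * h⁻¹ = t := by rw [h2]; group
    show h * t * h⁻¹ ∈ Z
    rw [h3]
    exact hle ht

lemma NzG_commutator {H T S : Subgroup 𝔾} (hT : NzG H T) (hS : NzG H S) : NzG H ⁅T, S⁆ := by
  intro h hh x hx
  have h1 : h * x * h⁻¹ ∈ cj h ⁅T, S⁆ := conj_mem_cj hx
  rwa [cj_commutator, cj_eq_of_NzG hT hh, cj_eq_of_NzG hS hh] at h1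

lemma NzG_inf {H T S : Subgroup 𝔾} (hT : NzG H T) (hS : NzG H S) : NzG H (T ⊓ S) :=
  fun h hh x hx => ⟨hT h hh x hx.1, hS h hh x hx.2⟩

lemma NzG_cj {P T : Subgroup 𝔾} {h : 𝔾} (hP : cj h P = P) (hT : NzG P T) : NzG P (cj h T) := by
  intro p hp x hx
  rw [mem_cj] at hx ⊢
  have hp' : h⁻¹ * p * h ∈ P := by rw [← mem_cj, hP]; exact hp
  have := hT _ hp' _ hx
  convert this using 1
  group

lemma commutator_le_inf {P T S : Subgroup 𝔾} (hTP : T ≤ P) (hSP : S ≤ P) (hT : NzG P T)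
    (hS : NzG P S) : ⁅T, S⁆ ≤ T ⊓ S := by
  rw [Subgroup.commutator_le]
  intro t ht s hs
  constructor
  · have h1 := hT s (hSP hs) t⁻¹ (T.inv_mem ht)
    have : ⁅t, s⁆ = t * (s * t⁻¹ * s⁻¹) := by simp [commutatorElement_def, mul_assoc]
    rw [this]
    exact T.mul_mem ht h1
  · have h1 := hS t (hTP ht) s hs
    rw [commutatorElement_def]
    exact S.mul_mem h1 (S.inv_mem hs)

lemma exists_min_subgroup [Finite 𝔾] (p : Subgroup 𝔾 → Prop) (h : ∃ T, p T) :
    ∃ T, p T ∧ ∀ T', p T' → T' ≤ T → T' = T := by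
  classical
  have hex : ∃ k : ℕ, ∃ T, p T ∧ Nat.card T = k := by
    obtain ⟨T, hT⟩ := h
    exact ⟨_, T, hT, rfl⟩
  obtain ⟨T, hT, hTk⟩ := Nat.find_spec hex
  refine ⟨T, hT, ?_⟩
  intro T' hT' hle
  apply Subgroup.eq_of_le_of_card_ge hle
  rw [hTk]
  exact Nat.find_min' hex ⟨T', hT', rfl⟩

/-- if a family of subgroups pairwise commute modulo a normal subgroup `Z`, so does their join -/
lemma commutator_iSup_le {ι : Type*} (Z : Subgroup 𝔾) [Z.Normal] (A : ι → Subgroup 𝔾)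
    (h : ∀ i j, ⁅A i, A j⁆ ≤ Z) : ⁅iSup A, iSup A⁆ ≤ Z := by
  let π := QuotientGroup.mk' Z
  have hcomm : ∀ i j, ∀ a ∈ A i, ∀ b ∈ A j, π a * π b = π b * π a := by
    intro i j a ha b hb
    have h1 : ⁅a, b⁆ ∈ Z := h i j (Subgroup.commutator_mem_commutator ha hb)
    have h2 : π ⁅a, b⁆ = 1 := (QuotientGroup.eq_one_iff _).mpr h1
    rw [commutatorElement_def, map_mul, map_mul, map_mul, map_inv, map_inv] at h2
    have h3 : π a * π b = (π a * π b * (π a)⁻¹ * (π b)⁻¹) * (π b * π a) := by group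
    rw [h3, h2, one_mul]
  -- first step
  have step1 : ∀ j, ∀ b ∈ A j, iSup A ≤ (Subgroup.centralizer {π b}).comap π := by
    intro j b hb
    rw [iSup_le_iff]
    intro i a ha
    rw [Subgroup.mem_comap, Subgroup.mem_centralizer_singleton_iff]
    exact hcomm i j a ha b hb
  have step2 : ∀ a ∈ iSup A, iSup A ≤ (Subgroup.centralizer {π a}).comap π := by
    intro a ha
    rw [iSup_le_iff]
    intro j b hb
    rw [Subgroup.mem_comap, Subgroup.mem_centralizer_singleton_iff]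
    have := step1 j b hb ha
    rw [Subgroup.mem_comap, Subgroup.mem_centralizer_singleton_iff] at this
    exact this.symm
  rw [Subgroup.commutator_le]
  intro a ha b hb
  have h1 := step2 a ha hb
  rw [Subgroup.mem_comap, Subgroup.mem_centralizer_singleton_iff] at h1
  rw [← QuotientGroup.eq_one_iff, commutatorElement_def]
  show π (a * b * a⁻¹ * b⁻¹) = 1
  rw [map_mul, map_mul, map_mul, map_inv, map_inv, ← h1]
  group

theorem core_abstract [Finite 𝔾] (Z : Subgroup 𝔾) (hZ : Z ≤ Subgroup.center 𝔾) (H : Subgroup 𝔾)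
    (hns : ¬ H ≤ Z)
    (hno6 : ∀ T : Subgroup 𝔾, T ≤ H → NzG H T → ⁅T, T⁆ ≤ Z → T ≤ Z)
    (hLA : ∀ P : Subgroup 𝔾, P ≤ H → NzG H P → ¬ P ≤ Z → ∀ T : Subgroup 𝔾, T ≤ P → NzG P T → ¬ T ≤ Z →
      (∀ a ∈ T, ∀ b ∈ T, a * b = b * a) ∨
      (∀ S : Subgroup 𝔾, ⁅T, S⁆ = ⊥ → ∀ a ∈ S, ∀ b ∈ S, a * b = b * a)) :
    ∃ P : Subgroup 𝔾, P ≤ H ∧ NzG H P ∧ ¬ P ≤ Z ∧ ⁅P, P⁆ = P ∧
      ∀ T : Subgroup 𝔾, T ≤ P → NzG P T → T ≤ Z ∨ T = P := by
  classical
  have hZn : Z.Normal := by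
    constructor
    intro z hz g
    have h2 := Subgroup.mem_center_iff.mp (hZ hz) g
    have h3 : g * z * g⁻¹ = z := by rw [h2]; group
    rw [h3]; exact hz
  have hcommbot : ∀ {T : Subgroup 𝔾}, (∀ a ∈ T, ∀ b ∈ T, a * b = b * a) → ⁅T, T⁆ = ⊥ := by
    intro T hT
    rw [Subgroup.commutator_eq_bot_iff_le_centralizer]
    intro a ha
    rw [Subgroup.mem_centralizer_iff]
    intro b hb
    exact hT b hb a ha
  obtain ⟨P, ⟨hPH, hPn, hPZ⟩, hPmin⟩ := exists_min_subgroup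
    (fun P : Subgroup 𝔾 => P ≤ H ∧ NzG H P ∧ ¬ P ≤ Z)
    ⟨H, le_rfl, fun h hh x hx => H.mul_mem (H.mul_mem hh hx) (H.inv_mem hh), hns⟩
  have hPP : NzG P P := fun h hh x hx => P.mul_mem (P.mul_mem hh hx) (P.inv_mem hh)
  have hP'le : ⁅P, P⁆ ≤ P := (commutator_le_inf le_rfl le_rfl hPP hPP).trans inf_le_left
  have hperf : ⁅P, P⁆ = P := by
    apply hPmin _ ⟨hP'le.trans hPH, NzG_commutator hPn hPn, ?_⟩ hP'le
    intro hle
    exact hPZ (hno6 P hPH hPn hle)
  refine ⟨P, hPH, hPn, hPZ, hperf, ?_⟩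
  by_contra hcon
  push Not at hcon
  obtain ⟨T, ⟨hTP, hTn, hTZ, hTne⟩, hTmin⟩ := exists_min_subgroup
    (fun T : Subgroup 𝔾 => T ≤ P ∧ NzG P T ∧ ¬ T ≤ Z ∧ T ≠ P) hcon
  -- minimality in convenient form
  have hTmin' : ∀ T₁ : Subgroup 𝔾, T₁ ≤ T → NzG P T₁ → T₁ ≤ Z ∨ T₁ = T := by
    intro T₁ h1 h2
    by_cases h3 : T₁ ≤ Z
    · exact Or.inl h3
    · right
      refine hTmin T₁ ⟨h1.trans hTP, h2, h3, ?_⟩ h1
      rintro rfl
      exact hTne (le_antisymm hTP h1)
  have hcjP : ∀ h ∈ H, cj h P = P := fun h hh => cj_eq_of_NzG hPn hh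
  have hcjTP : ∀ h ∈ H, cj h T ≤ P := fun h hh => (cj_mono hTP).trans (hcjP h hh).le
  have hcjTn : ∀ h ∈ H, NzG P (cj h T) := fun h hh => NzG_cj (hcjP h hh) hTn
  -- distinct conjugates commute modulo Z
  have hdist : ∀ h ∈ H, cj h T ≠ T → ⁅T, cj h T⁆ ≤ Z := by
    intro h hh hne
    refine (commutator_le_inf hTP (hcjTP h hh) hTn (hcjTn h hh)).trans ?_
    rcases hTmin' _ inf_le_left (NzG_inf hTn (hcjTn h hh)) with h1 | h1
    · exact h1
    · exfalso
      apply hne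
      have h2 : T ≤ cj h T := inf_eq_left.mp h1
      exact (Subgroup.eq_of_le_of_card_ge h2 (card_cj h T).le).symm
  -- some conjugate is different
  obtain ⟨h₀, hh₀, hne₀⟩ : ∃ h ∈ H, cj h T ≠ T := by
    by_contra hall
    push Not at hall
    apply hTne
    refine hPmin T ⟨hTP.trans hPH, ?_, hTZ⟩ hTP
    intro h hh x hx
    rw [← hall h hh]
    exact conj_mem_cj hx
  have hT'le : ⁅T, T⁆ ≤ T := (commutator_le_inf hTP hTP hTn hTn).trans inf_le_left
  rcases hTmin' _ hT'le (NzG_commutator hTn hTn) with hT' | hT'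
  · -- T is abelian modulo Z
    apply hPZ
    rw [← hperf]
    let A : H → Subgroup 𝔾 := fun h => cj (h : 𝔾) T
    have hA : iSup A = P := by
      apply hPmin _ ⟨?_, ?_, ?_⟩ ?_
      · exact (iSup_le fun h : H => hcjTP h h.2).trans hPH
      · intro g hg x hx
        have h1 : g * x * g⁻¹ ∈ cj g (iSup A) := conj_mem_cj hx
        have h2 : cj g (iSup A) ≤ iSup A := by
          unfold cj
          rw [Subgroup.map_iSup]
          apply iSup_le
          intro h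
          have h3 : Subgroup.map (MulAut.conj g).toMonoidHom (A h) = A ⟨g * h, H.mul_mem hg h.2⟩ :=
            cj_cj g h T
          rw [h3]
          exact le_iSup A _
        exact h2 h1
      · intro hle
        apply hTZ
        have h1 : A ⟨1, H.one_mem⟩ ≤ Z := (le_iSup A _).trans hle
        simpa [A, cj_one] using h1
      · exact iSup_le fun h : H => hcjTP h h.2
    rw [← hA]
    apply commutator_iSup_le Z A
    intro i j
    have h1 : ⁅A i, A j⁆ = cj (i : 𝔾) ⁅T, cj ((i : 𝔾)⁻¹ * j) T⁆ := by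
      rw [cj_commutator, cj_cj]
      simp [A]
    rw [h1, cj_le_central hZ]
    by_cases h2 : cj ((i : 𝔾)⁻¹ * j) T = T
    · rw [h2]; exact hT'
    · exact hdist _ (H.mul_mem (H.inv_mem i.2) j.2) h2
  · -- T is perfect
    have hcen : ∀ X : Subgroup 𝔾, X ≤ Z → ∀ Y : Subgroup 𝔾, ⁅X, Y⁆ = ⊥ := by
      intro X hX Y
      rw [Subgroup.commutator_eq_bot_iff_le_centralizer]
      intro x hx
      rw [Subgroup.mem_centralizer_iff]
      intro y _
      exact Subgroup.mem_center_iff.mp (hZ (hX hx)) y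
    have h1 : ⁅⁅T, T⁆, cj h₀ T⁆ = ⊥ := by
      apply Subgroup.commutator_commutator_eq_bot_of_rotate
      · exact hcen _ (hdist h₀ hh₀ hne₀) _
      · have h5 : ⁅cj h₀ T, T⁆ ≤ Z := by
          rw [Subgroup.commutator_comm (cj h₀ T) T]
          exact hdist h₀ hh₀ hne₀
        exact hcen _ h5 _
    rw [hT'] at h1
    rcases hLA P hPH hPn hPZ T hTP hTn hTZ with h2 | h2
    · apply hTZ
      rw [← hT', hcommbot h2]
      exact bot_le
    · have h3 := h2 _ h1
      have h4 : ⁅cj h₀ T, cj h₀ T⁆ = ⊥ := hcommbot h3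
      rw [← cj_commutator, hT'] at h4
      apply hTZ
      rw [← cj_le_central hZ h₀, h4]
      exact bot_le

end abstract

section concrete

open Cfsg Cfsg.Geo Matrix Cfsg.Agent.Lib.Helper97GBase Cfsg.Agent.Lib.Helper97GSchur
  Cfsg.Agent.Lib.Helper97GClifford
open scoped MatrixGroups

variable {ι : Type} [Fintype ι] [DecidableEq ι] {F : Type*} [Field F]

lemma scalars_le_center : scalars ι F ≤ Subgroup.center (GL ι F) := by
  intro z hz
  obtain ⟨c, hc⟩ := (mem_scalars_iff z).mp hz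
  rw [Subgroup.mem_center_iff]
  intro g
  apply Units.ext
  rw [Units.val_mul, Units.val_mul, hc]
  simp

/-- quotient by scalars is simple when every normal subgroup is scalar or everything -/
lemma simple_quotient {𝔾 : Type*} [Group 𝔾] (Z : Subgroup 𝔾) [Z.Normal] (P : Subgroup 𝔾)
    (hPZ : ¬ P ≤ Z) (h : ∀ T : Subgroup 𝔾, T ≤ P → NzG P T → T ≤ Z ∨ T = P) :
    IsSimpleGroup (P ⧸ Z.subgroupOf P) := by
  have hnt : Nontrivial (P ⧸ Z.subgroupOf P) := by
    obtain ⟨p, hp, hpZ⟩ := SetLike.not_le_iff_exists.mp hPZ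
    refine ⟨(⟨p, hp⟩ : P), 1, ?_⟩
    intro h1
    apply hpZ
    have := (QuotientGroup.eq_one_iff (N := Z.subgroupOf P) (⟨p, hp⟩ : P)).mp h1
    exact Subgroup.mem_subgroupOf.mp this
  refine ⟨?_⟩
  intro K hK
  let π := QuotientGroup.mk' (Z.subgroupOf P)
  have hπ : Function.Surjective π := QuotientGroup.mk'_surjective _
  let T₀ : Subgroup P := K.comap π
  have hT₀n : T₀.Normal := hK.comap π
  have hKmap : T₀.map π = K := Subgroup.map_comap_eq_self_of_surjective hπ K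
  rcases h (T₀.map P.subtype) (Subgroup.map_subtype_le T₀) (by
    rintro p hp _ ⟨t, ht, rfl⟩
    exact ⟨⟨p, hp⟩ * t * ⟨p, hp⟩⁻¹, hT₀n.conj_mem t ht ⟨p, hp⟩, rfl⟩) with h1 | h1
  · left
    rw [← hKmap, eq_bot_iff]
    rintro _ ⟨t, ht, rfl⟩
    rw [Subgroup.mem_bot]
    apply (QuotientGroup.eq_one_iff _).mpr
    rw [Subgroup.mem_subgroupOf]
    exact h1 ⟨t, ht, rfl⟩
  · right
    have h2 : T₀ = ⊤ := by
      rw [eq_top_iff]
      intro p _
      have hp : (p : 𝔾) ∈ T₀.map P.subtype := by rw [h1]; exact p.2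
      obtain ⟨t, ht, htp⟩ := hp
      have : t = p := Subtype.ext htp
      rwa [← this]
    rw [← hKmap, h2, ← MonoidHom.range_eq_map, MonoidHom.range_eq_top]
    exact hπ

lemma not_comm_quotient {𝔾 : Type*} [Group 𝔾] (Z : Subgroup 𝔾) [Z.Normal] (P : Subgroup 𝔾)
    (hPZ : ¬ P ≤ Z) (hperf : ⁅P, P⁆ = P) : ¬ IsMulCommutative (P ⧸ Z.subgroupOf P) := by
  intro hc
  apply hPZ
  rw [← hperf, Subgroup.commutator_le]
  intro a ha b hb
  have h1 : (QuotientGroup.mk' (Z.subgroupOf P)) (⁅(⟨a, ha⟩ : P), ⟨b, hb⟩⁆) = 1 := by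
    rw [commutatorElement_def, map_mul, map_mul, map_mul, map_inv, map_inv]
    rw [hc.is_comm.comm ((QuotientGroup.mk' (Z.subgroupOf P)) ⟨a, ha⟩)]
    group
  have h2 := (QuotientGroup.eq_one_iff _).mp h1
  exact Subgroup.mem_subgroupOf.mp h2

lemma exists_core [Finite F] (hn : (Fintype.card ι).Prime) {H : Subgroup (GL ι F)}
    (hns : ¬ H ≤ scalars ι F)
    (hdich : ∀ T : Subgroup (GL ι F), T ≤ H → Nz H T →
      T ≤ scalars ι F ∨ ActsAbsolutelyIrreducibly (matrixSet T))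
    (hno6 : ∀ T : Subgroup (GL ι F), T ≤ H → Nz H T → ⁅T, T⁆ ≤ scalars ι F →
      T ≤ scalars ι F) :
    ∃ P : Subgroup (GL ι F), P ≤ H ∧ Nz H P ∧ ⁅P, P⁆ = P ∧
      IsSimpleGroup (P ⧸ (scalars ι F).subgroupOf P) ∧
      ¬ IsMulCommutative (P ⧸ (scalars ι F).subgroupOf P) ∧
      ActsAbsolutelyIrreducibly (matrixSet P) := by
  obtain ⟨P, hPH, hPn, hPZ, hperf, hsimp⟩ := core_abstract (scalars ι F) scalars_le_center H hns
    hno6 (by
      intro P hPH hPn hPZ T hTP hTn hTZ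
      have hPirr : ActsIrreducibly (matrixSet P) := ((hdich P hPH hPn).resolve_left hPZ).1
      rcases clifford hn hPirr hTn with h | h | ⟨_, _, _, h, _⟩
      · exact absurd h hTZ
      · right
        intro S hS a ha b hb
        rw [Subgroup.commutator_eq_bot_iff_le_centralizer] at hS
        have hmem : ∀ s ∈ S, (s : Matrix ι ι F) ∈ Subalgebra.centralizer F (matrixSet T) := by
          intro s hs
          rw [Subalgebra.mem_centralizer_iff]
          rintro _ ⟨t, ht, rfl⟩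
          have h1 := Subgroup.mem_centralizer_iff.mp (hS ht) s hs
          rw [← Units.val_mul, ← Units.val_mul, h1]
        apply Units.ext
        rw [Units.val_mul, Units.val_mul]
        rcases absIrred_or_field hn h with h' | h'
        · obtain ⟨c, hc⟩ := h'.2 (a : Matrix ι ι F) (by
            intro s hs
            exact ((Subalgebra.mem_centralizer_iff F).mp (hmem a ha) s hs).symm)
          rw [hc]
          simp
        · exact h'.comm _ (hmem a ha) _ (hmem b hb)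
      · exact Or.inl h)
  exact ⟨P, hPH, hPn, hperf, simple_quotient _ P hPZ hsimp, not_comm_quotient _ P hPZ hperf,
    (hdich P hPH hPn).resolve_left hPZ⟩

lemma centralizer_scalar_of_perfect {P : Subgroup (GL ι F)} (hperf : ⁅P, P⁆ = P)
    (habs : ActsAbsolutelyIrreducibly (matrixSet P)) (h : GL ι F)
    (hh : ∀ x ∈ P, h * x * h⁻¹ * x⁻¹ ∈ scalars ι F) : h ∈ scalars ι F := by
  have hcen : ∀ X : Subgroup (GL ι F), X ≤ scalars ι F →
      ∀ Y : Subgroup (GL ι F), ⁅X, Y⁆ = ⊥ := by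
    intro X hX Y
    rw [Subgroup.commutator_eq_bot_iff_le_centralizer]
    intro x hx
    rw [Subgroup.mem_centralizer_iff]
    intro y _
    exact Subgroup.mem_center_iff.mp (scalars_le_center (hX hx)) y
  have h0 : ⁅Subgroup.zpowers h, P⁆ ≤ scalars ι F := by
    have h2 : Subgroup.zpowers h ≤
        (Subgroup.centralizer ((P.map (QuotientGroup.mk' (scalars ι F)) : Subgroup _) : Set _)).comap
          (QuotientGroup.mk' (scalars ι F)) := by
      rw [Subgroup.zpowers_le, Subgroup.mem_comap, Subgroup.mem_centralizer_iff]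
      rintro _ ⟨x, hx, rfl⟩
      have h3 : (QuotientGroup.mk' (scalars ι F)) (h * x * h⁻¹ * x⁻¹) = 1 :=
        (QuotientGroup.eq_one_iff _).mpr (hh x hx)
      rw [map_mul, map_mul, map_mul, map_inv, map_inv] at h3
      set a := (QuotientGroup.mk' (scalars ι F)) h
      set b := (QuotientGroup.mk' (scalars ι F)) x
      have h4 : a * b = (a * b * a⁻¹ * b⁻¹) * (b * a) := by group
      rw [h4, h3, one_mul]
    rw [Subgroup.commutator_le]
    intro g hg x hx
    have h3 := h2 hg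
    rw [Subgroup.mem_comap, Subgroup.mem_centralizer_iff] at h3
    have h4 := h3 _ ⟨x, hx, rfl⟩
    rw [← QuotientGroup.eq_one_iff, commutatorElement_def]
    show (QuotientGroup.mk' (scalars ι F)) (g * x * g⁻¹ * x⁻¹) = 1
    rw [map_mul, map_mul, map_mul, map_inv, map_inv, ← h4]
    group
  have h1 : ⁅⁅P, P⁆, Subgroup.zpowers h⁆ = ⊥ := by
    apply Subgroup.commutator_commutator_eq_bot_of_rotate
    · have h5 : ⁅P, Subgroup.zpowers h⁆ ≤ scalars ι F := by
        rw [Subgroup.commutator_comm P (Subgroup.zpowers h)]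
        exact h0
      exact hcen _ h5 _
    · exact hcen _ h0 _
  rw [hperf, Subgroup.commutator_eq_bot_iff_le_centralizer] at h1
  obtain ⟨c, hc⟩ := habs.2 (h : Matrix ι ι F) (by
    rintro _ ⟨x, hx, rfl⟩
    have h2 := Subgroup.mem_centralizer_iff.mp (h1 hx) h (Subgroup.mem_zpowers h)
    rw [← Units.val_mul, ← Units.val_mul, h2])
  rcases isEmpty_or_nonempty ι with hn0 | hn0
  · have : h = 1 := Units.ext (Matrix.ext (fun i => hn0.elim i))
    rw [this]
    exact Subgroup.one_mem _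
  rw [mem_scalars_iff]
  have hc0 : c ≠ 0 := by
    rintro rfl
    have h2 : (h : Matrix ι ι F) = 0 := by rw [hc, zero_smul]
    have h3 : (h : Matrix ι ι F).det ≠ 0 := by
      have := (Matrix.isUnit_iff_isUnit_det _).mp h.isUnit
      exact this.ne_zero
    rw [h2] at h3
    exact h3 Matrix.det_zero
  exact ⟨Units.mk0 c hc0, hc⟩

end concrete

end Cfsg.Agent.Lib.Helper97GCore
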