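import Mathlib
import Cfsg.Agent.Lib.Helper97GCore
import Cfsg.Agent.Lib.Helper95Basic

set_option autoImplicit false

namespace Cfsg.Agent.Lib.Helper7C6Mono

open Cfsg Cfsg.Geo Matrix Cfsg.Agent.Lib.Helper97GBase Cfsg.Agent.Lib.Helper97GClifford
open scoped MatrixGroups commutatorElement

variable {ι : Type} [Fintype ι] [DecidableEq ι] {F : Type*} [Field F]

/-- a matrix of finite order `z`, over a field with a primitive `z`-th root of unity, has an
eigenvector in every nonzero invariant subspace. -/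
lemma eigen_on_inv {x : Matrix ι ι F} {W : Submodule F (ι → F)} (hW : ∀ w ∈ W, x *ᵥ w ∈ W)
    (hW0 : W ≠ ⊥) {z : ℕ} (hx : x ^ z = 1) {ζ : F} (hζ : IsPrimitiveRoot ζ z) (hz : 0 < z) :
    ∃ c : F, c ^ z = 1 ∧ ∃ w ∈ W, w ≠ 0 ∧ x *ᵥ w = c • w := by
  have hW' : ∀ w ∈ W, Matrix.toLin' x w ∈ W := by
    intro w hw; rw [Matrix.toLin'_apply]; exact hW w hw
  let f : Module.End F W := (Matrix.toLin' x).restrict hW'
  haveI : Nontrivial W := Submodule.nontrivial_iff_ne_bot.mpr hW0
  have hf : f ^ z = 1 := by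
    apply LinearMap.ext
    intro w
    apply Subtype.ext
    rw [Module.End.pow_restrict z hW', LinearMap.restrict_apply]
    simp only [Module.End.one_apply]
    rw [← Matrix.toLin'_pow, hx, Matrix.toLin'_one]
    rfl
  have hae : Polynomial.aeval f (Polynomial.X ^ z - Polynomial.C (1 : F)) = 0 := by
    simp [hf]
  have hdvd := minpoly.dvd F f hae
  have hne : (Polynomial.X ^ z - Polynomial.C (1 : F)) ≠ 0 :=
    Polynomial.X_pow_sub_C_ne_zero hz 1
  have hsplit := (Polynomial.X_pow_sub_one_splits hζ).of_dvd hne hdvd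
  have hint : IsIntegral F f := Algebra.IsIntegral.isIntegral f
  obtain ⟨c, hc⟩ := hsplit.exists_eval_eq_zero (minpoly.degree_pos hint).ne'
  have hcz : c ^ z = 1 := by
    have := Polynomial.eval_eq_zero_of_dvd_of_eval_eq_zero hdvd hc
    simpa [sub_eq_zero] using this
  obtain ⟨w, hw⟩ := (Module.End.hasEigenvalue_of_isRoot (f := f) hc).exists_hasEigenvector
  refine ⟨c, hcz, w, w.2, ?_, ?_⟩
  · intro h0
    exact hw.2 (Subtype.ext h0)
  · have h1 := hw.apply_eq_smul
    have h2 := congrArg Subtype.val h1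
    simpa [f, LinearMap.restrict_apply, Matrix.toLin'_apply] using h2

/-- a common eigenvector for an abelian group of exponent `z`. -/
lemma exists_common_eigenvector [Nonempty ι] (E : Subgroup (GL ι F))
    (hab : ∀ a ∈ E, ∀ b ∈ E, a * b = b * a) {z : ℕ} (hz : 0 < z) (hexp : ∀ x ∈ E, x ^ z = 1)
    {ζ : F} (hζ : IsPrimitiveRoot ζ z) :
    ∃ v : ι → F, v ≠ 0 ∧ ∀ x ∈ E, ∃ c : F, c ^ z = 1 ∧ (x : Matrix ι ι F) *ᵥ v = c • v := by
  obtain ⟨W, hW, hW0, hmin⟩ := exists_min_inv (Fintype.card_pos) E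
  obtain ⟨v, hv, hv0⟩ := Submodule.exists_mem_ne_zero_of_ne_bot hW0
  refine ⟨v, hv0, fun x hx => ?_⟩
  have hxz : (x : Matrix ι ι F) ^ z = 1 := by
    rw [← Units.val_pow_eq_pow_val, hexp x hx, Units.val_one]
  obtain ⟨c, hcz, w, hw, hw0, hxw⟩ := eigen_on_inv (hW x hx) hW0 hxz hζ hz
  refine ⟨c, hcz, ?_⟩
  let U : Submodule F (ι → F) :=
    { carrier := {u | u ∈ W ∧ (x : Matrix ι ι F) *ᵥ u = c • u}
      add_mem' := by
        rintro a b ⟨ha, ha'⟩ ⟨hb, hb'⟩
        exact ⟨W.add_mem ha hb, by rw [Matrix.mulVec_add, ha', hb', smul_add]⟩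
      zero_mem' := ⟨W.zero_mem, by simp⟩
      smul_mem' := by
        rintro t a ⟨ha, ha'⟩
        exact ⟨W.smul_mem t ha, by rw [Matrix.mulVec_smul, ha', smul_comm]⟩ }
  have hU : Inv E U := by
    rintro t ht u ⟨hu, hu'⟩
    refine ⟨hW t ht u hu, ?_⟩
    rw [Matrix.mulVec_mulVec, ← Units.val_mul, hab x hx t ht, Units.val_mul, ← Matrix.mulVec_mulVec,
      hu', Matrix.mulVec_smul]
  have hU0 : U ≠ ⊥ := by
    intro h
    have : w ∈ U := ⟨hw, hxw⟩
    rw [h, Submodule.mem_bot] at this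
    exact hw0 this
  have hUW : U ≤ W := fun u hu => hu.1
  have hEq : U = W := Submodule.eq_of_le_of_finrank_le hUW (hmin U hU hU0)
  have : v ∈ U := by rw [hEq]; exact hv
  exact this.2

/-- a monomial matrix. -/
def mono (σ : Equiv.Perm ι) (c : ι → F) : Matrix ι ι F :=
  Matrix.of fun i j => if i = σ j then c j else 0

lemma mono_mulVec_single (σ : Equiv.Perm ι) (c : ι → F) (j : ι) :
    mono σ c *ᵥ Pi.single j 1 = c j • Pi.single (σ j) 1 := by
  funext i
  rw [Matrix.mulVec_single_one]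
  simp only [mono, Matrix.col_apply, Matrix.of_apply, Pi.smul_apply, smul_eq_mul, Pi.single_apply]
  split_ifs <;> simp

lemma matrix_ext_single {M M' : Matrix ι ι F}
    (h : ∀ j, M *ᵥ Pi.single j 1 = M' *ᵥ Pi.single j 1) : M = M' := by
  refine Matrix.ext fun i j => ?_
  have := congrFun (h j) i
  simpa [Matrix.mulVec_single_one] using this

/-- a maximal abelian subgroup of `N` is self-centralising in `N`. -/
lemma exists_max_abelian [Finite F] (N : Subgroup (GL ι F)) :
    ∃ E : Subgroup (GL ι F), E ≤ N ∧ (∀ a ∈ E, ∀ b ∈ E, a * b = b * a) ∧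
      ∀ x ∈ N, (∀ e ∈ E, x * e = e * x) → x ∈ E := by
  classical
  obtain ⟨E, hE⟩ := (Set.toFinite {E : Subgroup (GL ι F) | E ≤ N ∧ ∀ a ∈ E, ∀ b ∈ E, a * b = b * a}).exists_maximal
    ⟨⊥, bot_le, by
      intro a ha b hb
      rw [Subgroup.mem_bot] at ha hb
      rw [ha, hb]⟩
  refine ⟨E, hE.prop.1, hE.prop.2, ?_⟩
  intro x hx hxE
  let k : Set (GL ι F) := (E : Set (GL ι F)) ∪ {x}
  have hk : ∀ a ∈ k, ∀ b ∈ k, a * b = b * a := by
    rintro a (ha | ha) b (hb | hb)
    · exact hE.prop.2 a ha b hb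
    · rw [Set.mem_singleton_iff] at hb; subst hb; exact (hxE a ha).symm
    · rw [Set.mem_singleton_iff] at ha; subst ha; exact hxE b hb
    · rw [Set.mem_singleton_iff] at ha hb; rw [ha, hb]
  have hab : ∀ a ∈ Subgroup.closure k, ∀ b ∈ Subgroup.closure k, a * b = b * a := by
    intro a ha b hb
    have := (Subgroup.isMulCommutative_closure hk).is_comm.comm ⟨a, ha⟩ ⟨b, hb⟩
    exact congrArg Subtype.val this
  have hle : Subgroup.closure k ≤ N := by
    rw [Subgroup.closure_le]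
    rintro a (ha | ha)
    · exact hE.prop.1 ha
    · rw [Set.mem_singleton_iff] at ha; subst ha; exact hx
  have hEk : E ≤ Subgroup.closure k := fun a ha => Subgroup.subset_closure (Or.inl ha)
  exact hE.le_of_ge ⟨hle, hab⟩ hEk (Subgroup.subset_closure (Or.inr rfl))

open Cfsg.Agent.Lib.Helper95Basic in
theorem monomial_form [Nonempty ι] [Finite F] (N : Subgroup (GL ι F))
    (hirr : ActsIrreducibly (matrixSet N)) (hcomm : ⁅N, N⁆ ≤ scalars ι F)
    {z : ℕ} (hz : 0 < z) (hexp : ∀ x ∈ N, x ^ z = 1) {ζ : F} (hζ : IsPrimitiveRoot ζ z) :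
    ∃ B : GL ι F, (∀ x ∈ N, ∃ (σ : Equiv.Perm ι) (c : ι → F), (∀ i, c i ^ z = 1) ∧
      (x : Matrix ι ι F) * (B : Matrix ι ι F) = (B : Matrix ι ι F) * mono σ c) ∧
      Fintype.card ι ∣ Nat.card N := by
  classical
  obtain ⟨E, hEN, hab, hself⟩ := exists_max_abelian N
  -- scalars of N lie in E
  have hsc : ∀ s ∈ N, s ∈ scalars ι F → s ∈ E := by
    intro s hs hs'
    apply hself s hs
    intro e _
    exact (Subgroup.mem_center_iff.mp
      (Cfsg.Agent.Lib.Helper97GCore.scalars_le_center hs') e).symm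
  have hnormal : ∀ y ∈ N, ∀ e ∈ E, y * e * y⁻¹ ∈ E := by
    intro y hy e he
    have h1 : ⁅y, e⁆ ∈ E := by
      apply hsc
      · rw [commutatorElement_def]
        exact N.mul_mem (N.mul_mem (N.mul_mem hy (hEN he)) (N.inv_mem hy)) (N.inv_mem (hEN he))
      · exact hcomm (Subgroup.commutator_mem_commutator hy (hEN he))
    have h2 : y * e * y⁻¹ = ⁅y, e⁆ * e := by rw [commutatorElement_def]; group
    rw [h2]
    exact E.mul_mem h1 he
  obtain ⟨v, hv0, hχ⟩ := exists_common_eigenvector E hab hz (fun x hx => hexp x (hEN hx)) hζ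
  obtain ⟨i₀, hi₀⟩ : ∃ i, v i ≠ 0 := by
    by_contra h
    push Not at h
    exact hv0 (funext h)
  let χ : GL ι F → F := fun x => ((x : Matrix ι ι F) *ᵥ v) i₀ / v i₀
  have hχv : ∀ x ∈ E, (x : Matrix ι ι F) *ᵥ v = χ x • v ∧ χ x ^ z = 1 := by
    intro x hx
    obtain ⟨c, hc, hxv⟩ := hχ x hx
    have : χ x = c := by
      simp only [χ, hxv, Pi.smul_apply, smul_eq_mul]
      field_simp
    rw [this]
    exact ⟨hxv, hc⟩
  have huniq : ∀ a b : F, a • v = b • v → a = b := by
    intro a b h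
    have := congrFun h i₀
    simp only [Pi.smul_apply, smul_eq_mul] at this
    exact mul_right_cancel₀ hi₀ this
  let NE : Subgroup N := E.subgroupOf N
  let Q := N ⧸ NE
  let b : Q → ι → F := fun q => (((q.out : N) : GL ι F) : Matrix ι ι F) *ᵥ v
  have hb0 : ∀ q, b q ≠ 0 := by
    intro q h
    apply hv0
    have := congrArg (fun w => ((((q.out : N) : GL ι F)⁻¹ : GL ι F) : Matrix ι ι F) *ᵥ w) h
    simpa [b] using this
  have key1 : ∀ x : N, ∃ c : F, c ^ z = 1 ∧
      ((x : GL ι F) : Matrix ι ι F) *ᵥ v = c • b (QuotientGroup.mk x) := by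
    intro x
    obtain ⟨h, hh⟩ := QuotientGroup.mk_out_eq_mul NE x
    have hhE : ((h : N) : GL ι F) ∈ E := Subgroup.mem_subgroupOf.mp h.2
    obtain ⟨h1, h2⟩ := hχv _ hhE
    have hne : χ ((h : N) : GL ι F) ≠ 0 := by
      intro h0
      rw [h0, zero_pow hz.ne'] at h2
      exact zero_ne_one h2
    refine ⟨(χ ((h : N) : GL ι F))⁻¹, by rw [inv_pow, h2, inv_one], ?_⟩
    simp only [b]
    rw [hh, Subgroup.coe_mul, Units.val_mul, ← Matrix.mulVec_mulVec, h1, Matrix.mulVec_smul,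
      smul_smul, inv_mul_cancel₀ hne, one_smul]
  have key2 : ∀ (y : N) (q : Q), ∃ c : F, c ^ z = 1 ∧
      ((y : GL ι F) : Matrix ι ι F) *ᵥ b q = c • b (y • q) := by
    intro y q
    obtain ⟨c, hc, h1⟩ := key1 (y * q.out)
    refine ⟨c, hc, ?_⟩
    have h2 : (QuotientGroup.mk (y * q.out) : Q) = y • q := by
      conv_rhs => rw [← QuotientGroup.out_eq' q]
      rfl
    rw [← h2, ← h1]
    simp only [b]
    rw [Subgroup.coe_mul, Units.val_mul, Matrix.mulVec_mulVec]
  -- spanning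
  have hsp : ⊤ ≤ Submodule.span F (Set.range b) := by
    have hInv : Inv N (Submodule.span F (Set.range b)) := by
      intro t ht w hw
      induction hw using Submodule.span_induction with
      | mem w hw =>
        obtain ⟨q, rfl⟩ := hw
        obtain ⟨c, _, h1⟩ := key2 ⟨t, ht⟩ q
        have h1' : (t : Matrix ι ι F) *ᵥ b q = c • b ((⟨t, ht⟩ : N) • q) := h1
        rw [h1']
        exact Submodule.smul_mem _ _ (Submodule.subset_span ⟨_, rfl⟩)
      | zero => simp
      | add a c _ _ ha hc => rw [Matrix.mulVec_add]; exact Submodule.add_mem _ ha hc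
      | smul a w _ hw => rw [Matrix.mulVec_smul]; exact Submodule.smul_mem _ _ hw
    rcases (actsIrreducibly_iff.mp hirr) _ hInv with h | h
    · exfalso
      have : b (QuotientGroup.mk 1) ∈ Submodule.span F (Set.range b) :=
        Submodule.subset_span ⟨_, rfl⟩
      rw [h, Submodule.mem_bot] at this
      exact hb0 _ this
    · exact h.ge
  -- independence
  let μ : Q → (E → F) := fun q e => χ (((q.out : N) : GL ι F)⁻¹ * e * ((q.out : N) : GL ι F))
  have hconjE : ∀ (x : N) (e : GL ι F), e ∈ E → ((x : GL ι F))⁻¹ * e * (x : GL ι F) ∈ E := by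
    intro x e he
    have := hnormal (x : GL ι F)⁻¹ (N.inv_mem x.2) e he
    simpa using this
  have hmem : ∀ q, b q ∈ Wt E (μ q) := by
    intro q t
    obtain ⟨h1, _⟩ := hχv _ (hconjE q.out t t.2)
    simp only [b, μ]
    rw [← Matrix.mulVec_smul, ← h1, Matrix.mulVec_mulVec, Matrix.mulVec_mulVec, ← Units.val_mul,
      ← Units.val_mul]
    congr 2
    group
  have hμinj : Function.Injective μ := by
    intro q q' hqq
    set x : N := q.out with hx
    set x' : N := q'.out with hx'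
    have hg : (x : GL ι F)⁻¹ * (x' : GL ι F) ∈ E := by
      apply hself _ (N.mul_mem (N.inv_mem x.2) x'.2)
      intro e' he'
      set g : GL ι F := (x : GL ι F)⁻¹ * (x' : GL ι F) with hgdef
      have hgN : g ∈ N := N.mul_mem (N.inv_mem x.2) x'.2
      have ht : (x : GL ι F) * e' * (x : GL ι F)⁻¹ ∈ E := hnormal _ x.2 e' he'
      have h1 := congrFun hqq ⟨_, ht⟩
      simp only [μ] at h1
      rw [← hx, ← hx'] at h1
      have e1 : (x : GL ι F)⁻¹ * ((x : GL ι F) * e' * (x : GL ι F)⁻¹) * (x : GL ι F) = e' := by group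
      have e2 : (x' : GL ι F)⁻¹ * ((x : GL ι F) * e' * (x : GL ι F)⁻¹) * (x' : GL ι F)
          = g⁻¹ * e' * g := by rw [hgdef]; group
      rw [e1, e2] at h1
      have hs : ⁅g⁻¹, e'⁆ ∈ scalars ι F :=
        hcomm (Subgroup.commutator_mem_commutator (N.inv_mem hgN) (hEN he'))
      obtain ⟨l, hl⟩ := (mem_scalars_iff _).mp hs
      have e3 : g⁻¹ * e' * g = ⁅g⁻¹, e'⁆ * e' := by rw [commutatorElement_def]; group
      have hgE : g⁻¹ * e' * g ∈ E := by
        have := hnormal g⁻¹ (N.inv_mem hgN) e' he'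
        simpa using this
      have h2 := (hχv _ hgE).1
      have h3 := (hχv _ he').1
      have h4 : ((g⁻¹ * e' * g : GL ι F) : Matrix ι ι F) *ᵥ v = ((l : F) * χ e') • v := by
        rw [e3, Units.val_mul, ← Matrix.mulVec_mulVec, h3, hl, Matrix.mulVec_smul,
          Matrix.smul_mulVec, Matrix.one_mulVec, smul_smul, mul_comm]
      rw [h2, ← h1] at h4
      have h5 := huniq _ _ h4
      have hne : χ e' ≠ 0 := by
        intro h0
        have := (hχv _ he').2
        rw [h0, zero_pow hz.ne'] at this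
        exact zero_ne_one this
      have hl1 : (l : F) = 1 := by
        have : (1 : F) * χ e' = (l : F) * χ e' := by rw [one_mul]; exact h5
        exact (mul_right_cancel₀ hne this).symm
      have hs1 : ⁅g⁻¹, e'⁆ = 1 := by
        apply Units.ext
        rw [hl, hl1, one_smul, Units.val_one]
      rw [hs1, one_mul] at e3
      calc g * e' = g * (g⁻¹ * e' * g) := by rw [e3]
        _ = e' * g := by group
    have h6 : (QuotientGroup.mk x : Q) = QuotientGroup.mk x' := by
      rw [QuotientGroup.eq]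
      exact Subgroup.mem_subgroupOf.mpr hg
    rw [hx, hx', QuotientGroup.out_eq', QuotientGroup.out_eq'] at h6
    exact h6
  have hli : LinearIndependent F b :=
    ((indep_Wt hab).comp hμinj).linearIndependent _ hmem hb0
  haveI : Finite Q := inferInstance
  haveI : Fintype Q := Fintype.ofFinite Q
  let bs := Module.Basis.mk hli hsp
  have hcard : Fintype.card ι = Fintype.card Q := by
    rw [← Module.finrank_fintype_fun_eq_card F, Module.finrank_eq_card_basis bs]
  let e₀ : ι ≃ Q := Fintype.equivOfCardEq hcard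
  let bb := bs.reindex e₀.symm
  have hbb : ∀ i, bb i = b (e₀ i) := by
    intro i
    simp [bb, bs]
  let B : GL ι F := mkGL bb.equivFun.symm
  have hB : ∀ j, (B : Matrix ι ι F) *ᵥ Pi.single j 1 = b (e₀ j) := by
    intro j
    rw [mkGL_mulVec, Module.Basis.equivFun_symm_apply, ← hbb]
    simp [Pi.single_apply]
  refine ⟨B, ?_, ?_⟩
  · intro y hy
    choose c hc hcy using key2 ⟨y, hy⟩
    let σ : Equiv.Perm ι := (e₀.trans (MulAction.toPerm (⟨y, hy⟩ : N))).trans e₀.symm
    refine ⟨σ, fun j => c (e₀ j), fun j => hc _, ?_⟩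
    apply matrix_ext_single
    intro j
    rw [← Matrix.mulVec_mulVec, ← Matrix.mulVec_mulVec, hB, mono_mulVec_single, Matrix.mulVec_smul, hB]
    have := hcy (e₀ j)
    simp only [σ, Equiv.trans_apply, Equiv.apply_symm_apply, MulAction.toPerm_apply]
    exact this
  · rw [hcard, ← Nat.card_eq_fintype_card]
    have : Nat.card Q = NE.index := rfl
    rw [this]
    exact Subgroup.index_dvd_card NE

lemma mono_mulVec_apply (σ : Equiv.Perm ι) (c : ι → F) (a : ι → F) (j : ι) :
    (mono σ c *ᵥ a) (σ j) = c j * a j := by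
  rw [Matrix.mulVec, dotProduct, Finset.sum_eq_single j]
  · simp [mono]
  · intro k _ hk
    have : σ j ≠ σ k := fun h => hk (σ.injective h).symm
    simp [mono, this]
  · intro h; exact absurd (Finset.mem_univ j) h

lemma conj_eq_mono {x B : GL ι F} {M : Matrix ι ι F}
    (h : (x : Matrix ι ι F) * (B : Matrix ι ι F) = (B : Matrix ι ι F) * M) :
    ((B⁻¹ : GL ι F) : Matrix ι ι F) * (x : Matrix ι ι F) = M * ((B⁻¹ : GL ι F) : Matrix ι ι F) := by
  have h1 : ((B⁻¹ : GL ι F) : Matrix ι ι F) * (B : Matrix ι ι F) = 1 := by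
    rw [← Units.val_mul, inv_mul_cancel, Units.val_one]
  have h2 : (B : Matrix ι ι F) * ((B⁻¹ : GL ι F) : Matrix ι ι F) = 1 := by
    rw [← Units.val_mul, mul_inv_cancel, Units.val_one]
  calc ((B⁻¹ : GL ι F) : Matrix ι ι F) * (x : Matrix ι ι F)
      = ((B⁻¹ : GL ι F) : Matrix ι ι F) * ((x : Matrix ι ι F) * (B : Matrix ι ι F)) *
          ((B⁻¹ : GL ι F) : Matrix ι ι F) := by
        rw [mul_assoc, mul_assoc, h2, mul_one]
    _ = M * ((B⁻¹ : GL ι F) : Matrix ι ι F) := by
        rw [h, ← mul_assoc, h1, one_mul]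

lemma realisable_of_mono {N : Subgroup (GL ι F)} {z : ℕ} {B : GL ι F}
    (hB : ∀ x ∈ N, ∃ (σ : Equiv.Perm ι) (c : ι → F), (∀ i, c i ^ z = 1) ∧
      (x : Matrix ι ι F) * (B : Matrix ι ι F) = (B : Matrix ι ι F) * mono σ c)
    (F₀ : Subfield F) (h : ∀ c : F, c ^ z = 1 → c ∈ F₀) : RealisableOver F₀ (matrixSet N) := by
  refine ⟨B⁻¹, ?_⟩
  rintro _ ⟨x, hx, rfl⟩ i j
  obtain ⟨σ, c, hc, hxB⟩ := hB x hx
  have h1 : ((B⁻¹ : GL ι F) : Matrix ι ι F) * (x : Matrix ι ι F) *
      (((B⁻¹)⁻¹ : GL ι F) : Matrix ι ι F) = mono σ c := by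
    rw [conj_eq_mono hxB, inv_inv, mul_assoc, ← Units.val_mul, inv_mul_cancel, Units.val_one, mul_one]
  rw [h1]
  simp only [mono, Matrix.of_apply]
  split_ifs
  · exact h _ (hc j)
  · exact F₀.zero_mem

lemma unitary_of_mono {N : Subgroup (GL ι F)} {z : ℕ} {B : GL ι F}
    (hB : ∀ x ∈ N, ∃ (σ : Equiv.Perm ι) (c : ι → F), (∀ i, c i ^ z = 1) ∧
      (x : Matrix ι ι F) * (B : Matrix ι ι F) = (B : Matrix ι ι F) * mono σ c)
    (τ : F ≃+* F) (h1 : τ ≠ RingEquiv.refl F) (h2 : ∀ a, τ (τ a) = a)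
    (h3 : ∀ c : F, c ^ z = 1 → c * τ c = 1) :
    ∃ f : (ι → F) → (ι → F) → F, IsUnitaryForm τ f ∧ FixesForm (matrixSet N) f := by
  let Bi : Matrix ι ι F := ((B⁻¹ : GL ι F) : Matrix ι ι F)
  let f : (ι → F) → (ι → F) → F := fun u w => ∑ i, (Bi *ᵥ u) i * τ ((Bi *ᵥ w) i)
  have hBi : ∀ a : ι → F, Bi *ᵥ ((B : Matrix ι ι F) *ᵥ a) = a := by
    intro a
    simp only [Bi]
    rw [Matrix.mulVec_mulVec, ← Units.val_mul, inv_mul_cancel, Units.val_one, Matrix.one_mulVec]
  have hBi0 : ∀ v : ι → F, v ≠ 0 → Bi *ᵥ v ≠ 0 := by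
    intro v hv h0
    apply hv
    have := congrArg (fun w => (B : Matrix ι ι F) *ᵥ w) h0
    simp only [Bi] at this
    rw [Matrix.mulVec_mulVec, ← Units.val_mul, mul_inv_cancel, Units.val_one, Matrix.one_mulVec,
      Matrix.mulVec_zero] at this
    exact this
  refine ⟨f, ⟨h1, h2, ?_, ?_, ?_, ?_⟩, ?_⟩
  · intro x y v
    simp only [f, Matrix.mulVec_add, Pi.add_apply, add_mul, Finset.sum_add_distrib]
  · intro c x v
    simp only [f, Matrix.mulVec_smul, Pi.smul_apply, smul_eq_mul, Finset.mul_sum, mul_assoc]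
  · intro v w
    simp only [f, map_sum, map_mul, h2]
    exact Finset.sum_congr rfl fun i _ => mul_comm _ _
  · intro v hv
    obtain ⟨i, hi⟩ : ∃ i, (Bi *ᵥ v) i ≠ 0 := by
      by_contra h
      push Not at h
      exact hBi0 v hv (funext h)
    constructor
    · refine ⟨(B : Matrix ι ι F) *ᵥ Pi.single i 1, ?_⟩
      simp only [f, hBi]
      rw [Finset.sum_eq_single i]
      · simpa using hi
      · intro k _ hk; simp [Pi.single_eq_of_ne hk]
      · intro h; exact absurd (Finset.mem_univ i) h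
    · refine ⟨(B : Matrix ι ι F) *ᵥ Pi.single i 1, ?_⟩
      simp only [f, hBi]
      rw [Finset.sum_eq_single i]
      · simpa using hi
      · intro k _ hk; simp [Pi.single_eq_of_ne hk]
      · intro h; exact absurd (Finset.mem_univ i) h
  · rintro _ ⟨x, hx, rfl⟩ u w
    obtain ⟨σ, c, hc, hxB⟩ := hB x hx
    have e : ∀ a : ι → F, Bi *ᵥ ((x : Matrix ι ι F) *ᵥ a) = mono σ c *ᵥ (Bi *ᵥ a) := by
      intro a
      simp only [Bi]
      rw [Matrix.mulVec_mulVec, conj_eq_mono hxB, ← Matrix.mulVec_mulVec]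
    simp only [f, e]
    rw [← Equiv.sum_comp σ]
    refine Finset.sum_congr rfl fun j _ => ?_
    rw [mono_mulVec_apply, mono_mulVec_apply, map_mul]
    have := h3 _ (hc j)
    linear_combination ((Bi *ᵥ u) j * τ ((Bi *ᵥ w) j)) * this

end Cfsg.Agent.Lib.Helper7C6Mono
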