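import Mathlib
import Cfsg.Agent.Lib.Helper97GCore

set_option autoImplicit false

namespace Cfsg.Agent.Lib.Helper7C6Grp

open Cfsg.Agent.Lib.Helper97GCore
open scoped commutatorElement

variable {𝔾 : Type*} [Group 𝔾]

lemma pow_mul_central {x y c : 𝔾} (hc : ∀ g, c * g = g * c) (h : y * x = c * (x * y)) (k : ℕ) :
    y ^ k * x = c ^ k * (x * y ^ k) := by
  induction k with
  | zero => simp
  | succ k ih =>
    have hck : ∀ g, c ^ k * g = g * c ^ k := fun g =>
      ((Commute.pow_left (show Commute c g from hc g) k)).eq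
    calc y ^ (k + 1) * x = y ^ k * (y * x) := by rw [pow_succ, mul_assoc]
      _ = y ^ k * (c * (x * y)) := by rw [h]
      _ = c * (y ^ k * x) * y := by
          rw [← mul_assoc (y ^ k) c, ← hc (y ^ k)]; simp only [mul_assoc]
      _ = c * (c ^ k * (x * y ^ k)) * y := by rw [ih]
      _ = c ^ (k + 1) * (x * y ^ (k + 1)) := by
          rw [pow_succ c, pow_succ y, hck c]; simp only [mul_assoc]

lemma mul_pow_central {x y c : 𝔾} (hc : ∀ g, c * g = g * c) (h : y * x = c * (x * y)) (k : ℕ) :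
    (x * y) ^ k = x ^ k * y ^ k * c ^ (k.choose 2) := by
  induction k with
  | zero => simp
  | succ k ih =>
    have hcj : ∀ (j : ℕ) g, c ^ j * g = g * c ^ j := fun j g =>
      ((Commute.pow_left (show Commute c g from hc g) j)).eq
    have hch : (k + 1).choose 2 = k + k.choose 2 := by
      rw [Nat.choose_succ_succ' k 1, Nat.choose_one_right]
    calc (x * y) ^ (k + 1) = x ^ k * y ^ k * c ^ (k.choose 2) * (x * y) := by rw [pow_succ, ih]
      _ = x ^ k * (y ^ k * x) * y * c ^ (k.choose 2) := by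
          rw [mul_assoc (x ^ k * y ^ k), hcj]; simp only [mul_assoc]
      _ = x ^ k * (c ^ k * (x * y ^ k)) * y * c ^ (k.choose 2) := by rw [pow_mul_central hc h]
      _ = x ^ (k + 1) * y ^ (k + 1) * c ^ ((k + 1).choose 2) := by
          have e1 : x ^ k * (c ^ k * (x * y ^ k)) * y * c ^ (k.choose 2)
              = c ^ k * (x ^ (k + 1) * y ^ (k + 1) * c ^ (k.choose 2)) := by
            rw [← mul_assoc (x ^ k) (c ^ k), ← hcj k (x ^ k), pow_succ x, pow_succ y]
            simp only [mul_assoc]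
          have e2 : x ^ (k + 1) * y ^ (k + 1) * c ^ (k + k.choose 2)
              = c ^ k * (x ^ (k + 1) * y ^ (k + 1) * c ^ (k.choose 2)) := by
            rw [pow_add c, ← mul_assoc (x ^ (k + 1) * y ^ (k + 1)), ← hcj k, mul_assoc]
          rw [hch, e1, e2]

lemma comm_rel (x y : 𝔾) : y * x = ⁅y, x⁆ * (x * y) := by
  rw [commutatorElement_def]; group

/-- the elements of `N` whose `k`-th power lies in the central subgroup `Y`. -/
def powSub (N Y : Subgroup 𝔾) (k : ℕ)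
    (hcc : ∀ x ∈ N, ∀ y ∈ N, ∀ g, ⁅y, x⁆ * g = g * ⁅y, x⁆)
    (h : ∀ x ∈ N, ∀ y ∈ N, ⁅y, x⁆ ^ (k.choose 2) ∈ Y) : Subgroup 𝔾 where
  carrier := {x | x ∈ N ∧ x ^ k ∈ Y}
  mul_mem' := by
    rintro x y ⟨hx, hxk⟩ ⟨hy, hyk⟩
    refine ⟨N.mul_mem hx hy, ?_⟩
    rw [mul_pow_central (hcc x hx y hy) (comm_rel x y) k]
    exact Y.mul_mem (Y.mul_mem hxk hyk) (h x hx y hy)
  one_mem' := ⟨N.one_mem, by simp⟩
  inv_mem' := by
    rintro x ⟨hx, hxk⟩
    exact ⟨N.inv_mem hx, by rw [inv_pow]; exact Y.inv_mem hxk⟩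

lemma mem_powSub {N Y : Subgroup 𝔾} {k : ℕ} {hcc h} {x : 𝔾} :
    x ∈ powSub N Y k hcc h ↔ x ∈ N ∧ x ^ k ∈ Y := Iff.rfl

lemma NzG_powSub {H N Y : Subgroup 𝔾} {k : ℕ} {hcc h} (hnorm : NzG H N)
    (hY : Y ≤ Subgroup.center 𝔾) : NzG H (powSub N Y k hcc h) := by
  rintro g hg x ⟨hx, hxk⟩
  refine ⟨hnorm g hg x hx, ?_⟩
  rw [conj_pow]
  have := Subgroup.mem_center_iff.mp (hY hxk) g
  rw [this, mul_assoc, mul_inv_cancel, mul_one]
  exact hxk

theorem structure_of_min (Z H N : Subgroup 𝔾) [Finite N] (hZ : Z ≤ Subgroup.center 𝔾) [IsCyclic Z]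
    (hnorm : NzG H N) (hNZ : ¬ N ≤ Z) (hcomm : ⁅N, N⁆ ≤ Z)
    (hcen : ∀ x ∈ N, (∀ y ∈ N, x * y = y * x) → x ∈ Z)
    (hmin : ∀ T : Subgroup 𝔾, T ≤ N → NzG H T → T ≤ Z ∨ T = N) :
    ∃ r : ℕ, r.Prime ∧ (∀ x ∈ N, x ^ r ∈ Z) ∧ (∀ x ∈ N, ∀ y ∈ N, ⁅x, y⁆ ^ r = 1) ∧
      (∀ x ∈ N, x ^ (r * Nat.gcd 2 r) = 1) := by
  classical
  have hZn : Z.Normal := by
    constructor
    intro z hz g
    have h2 := Subgroup.mem_center_iff.mp (hZ hz) g
    have h3 : g * z * g⁻¹ = z := by rw [h2]; group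
    rw [h3]; exact hz
  have hZc : ∀ z ∈ Z, ∀ g, z * g = g * z := fun z hz g =>
    (Subgroup.mem_center_iff.mp (hZ hz) g).symm
  have hcZ : ∀ x ∈ N, ∀ y ∈ N, ⁅y, x⁆ ∈ Z := fun x hx y hy =>
    hcomm (Subgroup.commutator_mem_commutator hy hx)
  have hcc : ∀ x ∈ N, ∀ y ∈ N, ∀ g, ⁅y, x⁆ * g = g * ⁅y, x⁆ := fun x hx y hy =>
    hZc _ (hcZ x hx y hy)
  obtain ⟨x₀, hx₀N, hx₀Z⟩ := SetLike.not_le_iff_exists.mp hNZ
  let π := QuotientGroup.mk' Z
  have hπ : ∀ x, π x = 1 ↔ x ∈ Z := fun x => QuotientGroup.eq_one_iff x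
  have hfin : IsOfFinOrder (π x₀) := by
    have h1 : IsOfFinOrder (⟨x₀, hx₀N⟩ : N) := isOfFinOrder_of_finite _
    have h2 : IsOfFinOrder x₀ := by
      have := MonoidHom.isOfFinOrder N.subtype h1
      simpa using this
    exact MonoidHom.isOfFinOrder π h2
  set o := orderOf (π x₀) with ho
  have ho0 : o ≠ 0 := (orderOf_pos_iff.mpr hfin).ne'
  have ho1 : o ≠ 1 := by
    intro h1
    rw [ho, orderOf_eq_one_iff, hπ] at h1
    exact hx₀Z h1
  let r := o.minFac
  have hr : r.Prime := Nat.minFac_prime ho1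
  let x₁ := x₀ ^ (o / r)
  have hx₁N : x₁ ∈ N := N.pow_mem hx₀N _
  have hord : orderOf (π x₁) = r := by
    have := orderOf_pow_orderOf_div (x := π x₀) ho0 (Nat.minFac_dvd o)
    simpa [x₁, map_pow] using this
  have hx₁Z : x₁ ∉ Z := by
    intro h1
    rw [← hπ, ← orderOf_eq_one_iff, hord] at h1
    exact hr.one_lt.ne' h1
  have hx₁r : x₁ ^ r ∈ Z := by
    rw [← hπ, map_pow, ← hord, pow_orderOf_eq_one]
  -- first step
  have h1 : ∀ x ∈ N, x ^ r ∈ Z := by
    have hT : powSub N Z r hcc (fun x hx y hy => Z.pow_mem (hcZ x hx y hy) _) = N := by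
      rcases hmin _ (fun x hx => (mem_powSub.mp hx).1) (NzG_powSub hnorm hZ) with h | h
      · exact absurd (h ⟨hx₁N, hx₁r⟩) hx₁Z
      · exact h
    intro x hx
    rw [← hT] at hx
    exact hx.2
  have h2 : ∀ x ∈ N, ∀ y ∈ N, ⁅x, y⁆ ^ r = 1 := by
    intro y hy x hx
    have e1 := pow_mul_central (hcc x hx y hy) (comm_rel x y) r
    rw [hZc _ (h1 y hy) x] at e1
    have e2 : ⁅y, x⁆ ^ r * (x * y ^ r) = 1 * (x * y ^ r) := by rw [← e1, one_mul]
    exact mul_right_cancel e2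
  set k := r * Nat.gcd 2 r with hk
  have hdvd : r ∣ k.choose 2 := by
    by_cases hr2 : r = 2
    · have : k = 4 := by rw [hk, hr2]; rfl
      rw [this, hr2]; decide
    · have hg : Nat.gcd 2 r = 1 := by
        rw [Nat.coprime_primes Nat.prime_two hr |>.mpr (Ne.symm hr2)]
      have : k = r := by rw [hk, hg, mul_one]
      rw [this]
      have h2r : 2 < r := lt_of_le_of_ne hr.two_le (Ne.symm hr2)
      exact hr.dvd_choose_self (by norm_num) h2r
  have hck : ∀ x ∈ N, ∀ y ∈ N, ⁅y, x⁆ ^ (k.choose 2) = 1 := by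
    intro x hx y hy
    obtain ⟨j, hj⟩ := hdvd
    rw [hj, pow_mul, h2 y hy x hx, one_pow]
  refine ⟨r, hr, h1, h2, ?_⟩
  have hT : powSub N ⊥ k hcc (fun x hx y hy => by rw [hck x hx y hy]; exact Subgroup.one_mem _) = N := by
    rcases hmin _ (fun x hx => (mem_powSub.mp hx).1) (NzG_powSub hnorm bot_le) with h | h
    · exfalso
      have hkZ : ∀ x ∈ N, x ^ k ∈ Z := by
        intro x hx
        rw [hk, pow_mul]
        exact Z.pow_mem (h1 x hx) _
      let φ : N →* Z :=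
        { toFun := fun x => ⟨(x : 𝔾) ^ k, hkZ x x.2⟩
          map_one' := by ext; simp
          map_mul' := by
            intro x y
            ext
            simp only [Subgroup.coe_mul]
            rw [mul_pow_central (hcc x x.2 y y.2) (comm_rel (x : 𝔾) y) k, hck x x.2 y y.2, mul_one] }
      have hker : φ.ker ≤ Subgroup.center N := by
        intro x hx
        rw [MonoidHom.mem_ker] at hx
        have hx' : (x : 𝔾) ^ k = 1 := congrArg Subtype.val hx
        have hxZ : (x : 𝔾) ∈ Z := h ⟨x.2, by rw [hx']; exact Subgroup.one_mem _⟩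
        rw [Subgroup.mem_center_iff]
        intro g
        ext
        simpa using (hZc _ hxZ g).symm
      apply hNZ
      intro x hx
      apply hcen x hx
      intro y hy
      have := (MonoidHom.isMulCommutative_of_isCyclic_of_ker_le_center φ hker).is_comm.comm
        ⟨x, hx⟩ ⟨y, hy⟩
      exact congrArg Subtype.val this
    · exact h
  intro x hx
  rw [← hT] at hx
  exact (Subgroup.mem_bot.mp hx.2)

end Cfsg.Agent.Lib.Helper7C6Grp
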