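import Mathlib
import Cfsg.Agent.Lib.Helper7C6Grp
import Cfsg.Agent.Lib.Helper92AschSq

set_option autoImplicit false

namespace Cfsg.Agent.Lib.Helper7C6Str

open Cfsg.Agent.Lib.Helper97GCore Cfsg.Agent.Lib.Helper7C6Grp
open scoped commutatorElement

variable {𝔾 : Type*} [Group 𝔾]

/-- in a finite cyclic group the solutions of `c ^ r = 1` are the powers of any element of order
`r`. -/
lemma mem_zpowers_of_pow_eq_one {Z : Type*} [Group Z] [Finite Z] [IsCyclic Z] {r : ℕ} (hr : 0 < r)
    {c₀ c : Z} (h0 : orderOf c₀ = r) (hc : c ^ r = 1) : c ∈ Subgroup.zpowers c₀ := by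
  classical
  haveI : Fintype Z := Fintype.ofFinite Z
  have h1 := IsCyclic.card_pow_eq_one_le (α := Z) hr
  let S : Finset Z := Finset.univ.filter (fun a : Z => a ^ r = 1)
  let T : Finset Z := Finset.univ.filter (fun a : Z => a ∈ Subgroup.zpowers c₀)
  have hTS : T ⊆ S := by
    intro a ha
    simp only [T, S, Finset.mem_filter, Finset.mem_univ, true_and] at ha ⊢
    obtain ⟨k, rfl⟩ := Subgroup.mem_zpowers_iff.mp ha
    rw [← zpow_natCast, ← zpow_mul, mul_comm, zpow_mul, zpow_natCast, ← h0, pow_orderOf_eq_one,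
      one_zpow]
  have hT : T.card = r := by
    have : T.card = Nat.card (Subgroup.zpowers c₀) := by
      rw [Nat.card_eq_fintype_card, Fintype.card_subtype]
    rw [this, Nat.card_zpowers, h0]
  have hEq : T = S := Finset.eq_of_subset_of_card_le hTS (by rw [hT]; exact h1)
  have : c ∈ S := by simp [S, hc]
  rw [← hEq] at this
  simpa [T] using this

theorem structure_cor (Z H N : Subgroup 𝔾) [Finite N] [Finite Z] (hZ : Z ≤ Subgroup.center 𝔾)
    [IsCyclic Z] (hnorm : NzG H N) (hNZ : ¬ N ≤ Z) (hcomm : ⁅N, N⁆ ≤ Z)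
    (hcen : ∀ x ∈ N, (∀ y ∈ N, x * y = y * x) → x ∈ Z)
    (hmin : ∀ T : Subgroup 𝔾, T ≤ N → NzG H T → T ≤ Z ∨ T = N) :
    ∃ r : ℕ, r.Prime ∧ IsPGroup r N ∧ Monoid.exponent N = r * Nat.gcd 2 r ∧
      (∀ x ∈ N, x ^ (r * Nat.gcd 2 r) = 1) ∧ (∀ x ∈ N, x ^ r ∈ Z) ∧
      (Nat.card (Subgroup.center N) = r ∨ (r = 2 ∧ Nat.card (Subgroup.center N) = 4)) ∧
      ∃ m : ℕ, 1 ≤ m ∧ Nat.card N = Nat.card (Subgroup.center N) * r ^ (2 * m) := by
  classical
  obtain ⟨r, hr, h1, h2, h3⟩ := structure_of_min Z H N hZ hnorm hNZ hcomm hcen hmin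
  -- a non-trivial commutator
  obtain ⟨x₀, hx₀, y₀, hy₀, hc₀⟩ : ∃ x ∈ N, ∃ y ∈ N, ⁅x, y⁆ ≠ 1 := by
    by_contra hcon
    push Not at hcon
    apply hNZ
    intro x hx
    apply hcen x hx
    intro y hy
    have := hcon x hx y hy
    rw [commutatorElement_def] at this
    calc x * y = (x * y * x⁻¹ * y⁻¹) * (y * x) := by group
      _ = y * x := by rw [this, one_mul]
  set c₀ := ⁅x₀, y₀⁆ with hc₀def
  have hc₀N : c₀ ∈ N := by
    rw [hc₀def, commutatorElement_def]
    exact N.mul_mem (N.mul_mem (N.mul_mem hx₀ hy₀) (N.inv_mem hx₀)) (N.inv_mem hy₀)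
  have hc₀Z : c₀ ∈ Z := hcomm (Subgroup.commutator_mem_commutator hx₀ hy₀)
  have hZc : ∀ z ∈ Z, ∀ g, z * g = g * z := fun z hz g =>
    (Subgroup.mem_center_iff.mp (hZ hz) g).symm
  have hg2 : Nat.gcd 2 r ∣ r := Nat.gcd_dvd_right 2 r
  have hk : ∀ g : N, g ^ (r * Nat.gcd 2 r) = 1 := fun g => Subtype.ext (by simpa using h3 g g.2)
  have hP : IsPGroup r N := by
    intro g
    refine ⟨2, ?_⟩
    obtain ⟨j, hj⟩ := hg2
    have : r ^ 2 = (r * Nat.gcd 2 r) * j := by rw [pow_two, mul_assoc, ← hj]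
    rw [this, pow_mul, hk, one_pow]
  have hexpdvd : Monoid.exponent N ∣ r * Nat.gcd 2 r := Monoid.exponent_dvd_of_forall_pow_eq_one hk
  have hncomm : ¬ ∀ a b : N, a * b = b * a := by
    intro h
    apply hc₀
    have := h ⟨x₀, hx₀⟩ ⟨y₀, hy₀⟩
    have h' : x₀ * y₀ = y₀ * x₀ := congrArg Subtype.val this
    rw [hc₀def, commutatorElement_def, h']
    group
  have hexp : Monoid.exponent N = r * Nat.gcd 2 r := by
    by_cases hr2 : r = 2
    · subst hr2
      have h4 : (2 : ℕ) * Nat.gcd 2 2 = 2 ^ 2 := by norm_num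
      rw [h4] at hexpdvd ⊢
      obtain ⟨j, hj, hje⟩ := (Nat.dvd_prime_pow Nat.prime_two).mp hexpdvd
      interval_cases j
      · exfalso
        apply hncomm
        intro a b
        have : Subsingleton N := Monoid.exp_eq_one_iff.mp (by simpa using hje)
        exact Subsingleton.elim _ _
      · exfalso
        apply hncomm
        have hsq : ∀ a : N, a * a = 1 := by
          intro a
          have := Monoid.pow_exponent_eq_one a
          rw [hje] at this
          simpa [pow_two] using this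
        intro a b
        have e1 := hsq (a * b)
        calc a * b = a * (a * b * (a * b)) * b := by rw [e1, mul_one]
          _ = (a * a) * (b * a) * (b * b) := by group
          _ = b * a := by rw [hsq, hsq, one_mul, mul_one]
      · exact hje
    · have hg : Nat.gcd 2 r = 1 := (Nat.coprime_primes Nat.prime_two hr).mpr (Ne.symm hr2)
      rw [hg, mul_one] at hexpdvd ⊢
      rcases (Nat.dvd_prime hr).mp hexpdvd with h | h
      · exfalso
        apply hncomm
        intro a b
        have : Subsingleton N := Monoid.exp_eq_one_iff.mp h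
        exact Subsingleton.elim _ _
      · exact h
  -- the centre
  let φ : Subgroup.center N →* Z :=
    { toFun := fun c => ⟨((c : N) : 𝔾), hcen _ (c : N).2 (fun y hy => by
        have := Subgroup.mem_center_iff.mp c.2 ⟨y, hy⟩
        exact (congrArg Subtype.val this).symm)⟩
      map_one' := rfl
      map_mul' := fun _ _ => rfl }
  have hφ : Function.Injective φ := by
    intro a b hab
    have : ((a : N) : 𝔾) = ((b : N) : 𝔾) := congrArg (fun t : Z => (t : 𝔾)) hab
    exact Subtype.ext (Subtype.ext this)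
  haveI : IsCyclic (Subgroup.center N) := isCyclic_of_injective φ hφ
  have hCcard : Nat.card (Subgroup.center N) ∣ r * Nat.gcd 2 r := by
    rw [← IsCyclic.exponent_eq_card]
    apply Monoid.exponent_dvd_of_forall_pow_eq_one
    intro g
    exact Subtype.ext (hk g)
  have hc₀cen : (⟨c₀, hc₀N⟩ : N) ∈ Subgroup.center N := by
    rw [Subgroup.mem_center_iff]
    intro g
    exact Subtype.ext (hZc c₀ hc₀Z g).symm
  have hCne : Nat.card (Subgroup.center N) ≠ 1 := by
    intro h
    have hsub : Subsingleton (Subgroup.center N) := (Nat.card_eq_one_iff_unique.mp h).1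
    have := Subsingleton.elim (⟨⟨c₀, hc₀N⟩, hc₀cen⟩ : Subgroup.center N) 1
    apply hc₀
    exact congrArg (fun t : Subgroup.center N => ((t : N) : 𝔾)) this
  have hC : Nat.card (Subgroup.center N) = r ∨ (r = 2 ∧ Nat.card (Subgroup.center N) = 4) := by
    by_cases hr2 : r = 2
    · subst hr2
      have h4 : (2 : ℕ) * Nat.gcd 2 2 = 2 ^ 2 := by norm_num
      rw [h4] at hCcard
      obtain ⟨j, hj, hje⟩ := (Nat.dvd_prime_pow Nat.prime_two).mp hCcard
      interval_cases j
      · exact absurd (by simpa using hje) hCne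
      · left; simpa using hje
      · right; exact ⟨rfl, by simpa using hje⟩
    · have hg : Nat.gcd 2 r = 1 := (Nat.coprime_primes Nat.prime_two hr).mpr (Ne.symm hr2)
      rw [hg, mul_one] at hCcard
      rcases (Nat.dvd_prime hr).mp hCcard with h | h
      · exact absurd h hCne
      · exact Or.inl h
  refine ⟨r, hr, hP, hexp, h3, h1, hC, ?_⟩
  -- the order formula
  have hord : orderOf c₀ = r := by
    haveI : Fact r.Prime := ⟨hr⟩
    exact orderOf_eq_prime (h2 x₀ hx₀ y₀ hy₀) hc₀
  have hY : Nat.card (Subgroup.zpowers c₀) = r := by rw [Nat.card_zpowers, hord]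
  have hYc : Subgroup.zpowers c₀ ≤ Subgroup.center 𝔾 := by
    rw [Subgroup.zpowers_le]
    exact hZ hc₀Z
  have hG : ∀ a ∈ N, ∀ b ∈ N, ⁅a, b⁆ ∈ Subgroup.zpowers c₀ := by
    intro a ha b hb
    have hcZ : ⁅a, b⁆ ∈ Z := hcomm (Subgroup.commutator_mem_commutator ha hb)
    have hord' : orderOf (⟨c₀, hc₀Z⟩ : Z) = r := by
      rw [← hord]
      exact (Subgroup.orderOf_mk c₀ hc₀Z)
    have := mem_zpowers_of_pow_eq_one (Z := Z) hr.pos hord' (c := ⟨⁅a, b⁆, hcZ⟩)
      (Subtype.ext (by simpa using h2 a ha b hb))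
    obtain ⟨k, hk'⟩ := Subgroup.mem_zpowers_iff.mp this
    rw [Subgroup.mem_zpowers_iff]
    refine ⟨k, ?_⟩
    have := congrArg Subtype.val hk'
    simpa using this
  obtain ⟨m, hm⟩ := Cfsg.Agent.Lib.Helper92AschSq.sq_index _ hYc r hr hY N hG
  have hcardeq : Nat.card (N ⊓ Subgroup.centralizer (N : Set 𝔾) : Subgroup 𝔾)
      = Nat.card (Subgroup.center N) := by
    refine Nat.card_congr
      { toFun := fun x => ⟨⟨x.1, x.2.1⟩, by
          rw [Subgroup.mem_center_iff]
          intro g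
          exact Subtype.ext (Subgroup.mem_centralizer_iff.mp x.2.2 g g.2)⟩
        invFun := fun x => ⟨x.1.1, Subgroup.mem_inf.mpr ⟨x.1.2,
          Subgroup.mem_centralizer_iff.mpr (fun g hg => by
            have := Subgroup.mem_center_iff.mp x.2 ⟨g, hg⟩
            exact congrArg Subtype.val this)⟩⟩
        left_inv := fun _ => rfl
        right_inv := fun _ => rfl }
  rw [hcardeq] at hm
  refine ⟨m, ?_, hm⟩
  by_contra hm0
  have hm0' : m = 0 := by omega
  rw [hm0', mul_zero, pow_zero, mul_one] at hm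
  apply hncomm
  have htop : Subgroup.center N = ⊤ := Subgroup.eq_top_of_card_eq _ hm.symm
  intro a b
  have : b ∈ Subgroup.center N := by rw [htop]; trivial
  exact Subgroup.mem_center_iff.mp this a

end Cfsg.Agent.Lib.Helper7C6Str
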