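import Cfsg.Agent.Lib.Helper97GBase

set_option autoImplicit false

namespace Cfsg.Agent.Lib.Helper97GSubfield

open Cfsg Cfsg.Geo Matrix Cfsg.Agent.Lib.Helper97GBase
open scoped MatrixGroups

variable {ι : Type} [Fintype ι] [DecidableEq ι] {F : Type*} [Field F]

lemma subfield_ne_top_of_card [Fintype F] {F₁ : Subfield F} {r : ℕ} (hr : r.Prime)
    (h : Fintype.card F = Nat.card F₁ ^ r) : F₁ ≠ ⊤ := by
  rintro rfl
  have h1 : Nat.card (⊤ : Subfield F) = Fintype.card F := by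
    rw [← Nat.card_eq_fintype_card]
    exact Nat.card_congr (Equiv.Set.univ F)
  rw [h1] at h
  have h2 : 1 < Fintype.card F := Fintype.one_lt_card
  have h3 := Nat.pow_lt_pow_right h2 hr.one_lt
  rw [pow_one] at h3
  omega

/-- a field automorphism of prime order fixing a given proper subfield -/
lemma exists_aut [Fintype F] {F₀ : Subfield F} (hF₀ : F₀ ≠ ⊤) :
    ∃ (τ : F →+* F) (F₁ : Subfield F) (r : ℕ), r.Prime ∧ Fintype.card F = Nat.card F₁ ^ r ∧
      (∀ a ∈ F₀, τ a = a) ∧ (∀ a, τ a = a → a ∈ F₁) := by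
  classical
  have : Fintype F₀ := Fintype.ofFinite _
  let φ := FiniteField.frobeniusAlgEquivOfAlgebraic F₀ F
  have hord : orderOf φ = Module.finrank F₀ F := FiniteField.orderOf_frobeniusAlgEquivOfAlgebraic F₀ F
  have hm1 : Module.finrank F₀ F ≠ 1 := by
    intro h1
    have h2 := Module.natCard_eq_pow_finrank (K := F₀) (V := F)
    rw [h1, pow_one] at h2
    apply hF₀
    have h3 : Function.Bijective (F₀.subtype) :=
      Function.Injective.bijective_of_nat_card_le F₀.subtype_injective h2.le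
    rw [eq_top_iff]
    intro a _
    obtain ⟨b, hb⟩ := h3.2 a
    rw [← hb]
    exact b.2
  have hm0 : Module.finrank F₀ F ≠ 0 := Module.finrank_pos.ne'
  let r := (Module.finrank F₀ F).minFac
  have hr : r.Prime := Nat.minFac_prime hm1
  let τ := φ ^ (orderOf φ / r)
  have hτ : orderOf τ = r := by
    apply orderOf_pow_orderOf_div
    · rw [hord]; exact hm0
    · rw [hord]; exact Nat.minFac_dvd _
  let K := IntermediateField.fixedField (Subgroup.zpowers τ)
  have hK : Module.finrank K F = r := by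
    rw [IntermediateField.finrank_fixedField_eq_card, Nat.card_zpowers, hτ]
  refine ⟨(τ : F →ₐ[F₀] F).toRingHom, K.toSubfield, r, hr, ?_, ?_, ?_⟩
  · have h2 := Module.natCard_eq_pow_finrank (K := K) (V := F)
    rw [hK, Nat.card_eq_fintype_card] at h2
    exact h2
  · intro a ha
    exact τ.commutes ⟨a, ha⟩
  · intro a ha
    change a ∈ K
    rw [IntermediateField.mem_fixedField_iff]
    have hle : Subgroup.zpowers τ ≤ MulAction.stabilizer (F ≃ₐ[F₀] F) a := by
      rw [Subgroup.zpowers_le, MulAction.mem_stabilizer_iff]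
      exact ha
    intro f hf
    exact MulAction.mem_stabilizer_iff.mp (hle hf)

lemma vi (g : GL ι F) : ((g⁻¹ : GL ι F) : Matrix ι ι F) * (g : Matrix ι ι F) = 1 := by
  rw [← Units.val_mul, inv_mul_cancel, Units.val_one]

lemma iv (g : GL ι F) : (g : Matrix ι ι F) * ((g⁻¹ : GL ι F) : Matrix ι ι F) = 1 := by
  rw [← Units.val_mul, mul_inv_cancel, Units.val_one]

/-- a normalising element is a scalar times a matrix over the fixed field -/
lemma key [Nonempty ι] (τ : F →+* F) {F₀ F₁ : Subfield F} (hτ0 : ∀ a ∈ F₀, τ a = a)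
    (hτ1 : ∀ a, τ a = a → a ∈ F₁) {H P : Subgroup (GL ι F)} (hnorm : Nz H P)
    (habs : ActsAbsolutelyIrreducibly (matrixSet P)) (B : GL ι F)
    (hB : ∀ s ∈ matrixSet P, ∀ i j,
      ((B : Matrix ι ι F) * s * ((B⁻¹ : GL ι F) : Matrix ι ι F)) i j ∈ F₀) :
    H ≤ subfieldSubgroup F₁ B⁻¹ := by
  intro h hh
  let g : GL ι F := B * h * B⁻¹
  have hfixP : ∀ x ∈ P, ((B * x * B⁻¹ : GL ι F) : Matrix ι ι F).map τ =
      ((B * x * B⁻¹ : GL ι F) : Matrix ι ι F) := by
    intro x hx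
    ext i j
    rw [Matrix.map_apply]
    apply hτ0
    have := hB _ ⟨x, hx, rfl⟩ i j
    simpa [Units.val_mul] using this
  -- the twisted matrix is proportional to `g`
  have hprop : ∃ c : F, (g : Matrix ι ι F).map τ = c • (g : Matrix ι ι F) := by
    have hc : ∀ s ∈ matrixSet P,
        (((B⁻¹ * g⁻¹ : GL ι F) : Matrix ι ι F) * (g : Matrix ι ι F).map τ * B) * s =
        s * (((B⁻¹ * g⁻¹ : GL ι F) : Matrix ι ι F) * (g : Matrix ι ι F).map τ * B) := by
      rintro _ ⟨x, hx, rfl⟩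
      have hx' : h * x * h⁻¹ ∈ P := hnorm h hh x hx
      have e1 : g * (B * x * B⁻¹) = (B * (h * x * h⁻¹) * B⁻¹) * g := by
        simp only [g]; group
      have e2 := congrArg (fun y : GL ι F => (y : Matrix ι ι F).map τ) e1
      simp only [Units.val_mul (g) , Units.val_mul _ g, Matrix.map_mul] at e2
      rw [hfixP x hx, hfixP _ hx'] at e2
      -- e2 : gτ * x̃ = x̃' * gτ
      have e3 : (B : Matrix ι ι F) * x =
          ((B * x * B⁻¹ : GL ι F) : Matrix ι ι F) * B := by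
        rw [← Units.val_mul, ← Units.val_mul]; congr 1; group
      have e4 : ((B⁻¹ * g⁻¹ : GL ι F) : Matrix ι ι F) *
          ((B * (h * x * h⁻¹) * B⁻¹ : GL ι F) : Matrix ι ι F) =
          (x : Matrix ι ι F) * ((B⁻¹ * g⁻¹ : GL ι F) : Matrix ι ι F) := by
        rw [← Units.val_mul, ← Units.val_mul]; congr 1; simp only [g]; group
      rw [mul_assoc, e3, ← mul_assoc, mul_assoc _ ((g : Matrix ι ι F).map τ), e2,
        ← mul_assoc, e4, mul_assoc, mul_assoc, mul_assoc]
    obtain ⟨c, hc'⟩ := habs.2 _ hc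
    refine ⟨c, ?_⟩
    have e5 := congrArg (fun M => ((g * B : GL ι F) : Matrix ι ι F) * M *
      ((B⁻¹ : GL ι F) : Matrix ι ι F)) hc'
    simp only [← mul_assoc, ← Units.val_mul] at e5
    have e6 : g * B * B⁻¹ * g⁻¹ = 1 := by group
    rw [e6, Units.val_one, one_mul, mul_assoc, iv, mul_one] at e5
    rw [e5, Matrix.mul_smul, mul_one, Matrix.smul_mul, ← Units.val_mul]
    congr 2
    group
  obtain ⟨c, hc⟩ := hprop
  -- a nonzero entry
  obtain ⟨a, b, hab⟩ : ∃ a b, (g : Matrix ι ι F) a b ≠ 0 := by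
    by_contra hcon
    push Not at hcon
    have h0 : (g : Matrix ι ι F) = 0 := by ext i j; exact hcon i j
    have h1 := iv g
    rw [h0, zero_mul] at h1
    obtain ⟨i₀⟩ := (inferInstance : Nonempty ι)
    have h2 := congrFun (congrFun h1 i₀) i₀
    simp at h2
  obtain ⟨d, hd⟩ : ∃ d, d = (g : Matrix ι ι F) a b := ⟨_, rfl⟩
  have hd0 : d ≠ 0 := by rw [hd]; exact hab
  have hentry : ∀ i j, τ ((g : Matrix ι ι F) i j) = c * (g : Matrix ι ι F) i j := by
    intro i j
    have := congrFun (congrFun hc i) j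
    simpa using this
  have hτd : τ d = c * d := by rw [hd]; exact hentry a b
  have hτd0 : τ d ≠ 0 := by
    intro h0
    exact hd0 ((map_eq_zero τ).mp h0)
  have hc0 : c ≠ 0 := by
    rintro rfl
    rw [zero_mul] at hτd
    exact hτd0 hτd
  have hin : ∀ i j, d⁻¹ * (g : Matrix ι ι F) i j ∈ F₁ := by
    intro i j
    apply hτ1
    rw [map_mul, map_inv₀, hτd, hentry]
    field_simp
  let M₁ : Matrix ι ι F₁ := Matrix.of fun i j => ⟨d⁻¹ * (g : Matrix ι ι F) i j, hin i j⟩
  have hM₁ : M₁.map F₁.subtype = d⁻¹ • (g : Matrix ι ι F) := by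
    ext i j
    simp [M₁]
  have hdet : M₁.det ≠ 0 := by
    intro h0
    have h1 : F₁.subtype M₁.det = (d⁻¹ • (g : Matrix ι ι F)).det := by
      rw [← hM₁]
      exact RingHom.map_det F₁.subtype M₁
    rw [h0, map_zero, Matrix.det_smul] at h1
    have h2 : (g : Matrix ι ι F).det ≠ 0 :=
      ((Matrix.isUnit_iff_isUnit_det _).mp g.isUnit).ne_zero
    exact (mul_ne_zero (pow_ne_zero _ (inv_ne_zero hd0)) h2) h1.symm
  let m : GL ι F₁ := Matrix.GeneralLinearGroup.mkOfDetNeZero M₁ hdet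
  let gm : GL ι F := Matrix.GeneralLinearGroup.map (F₁.subtype : F₁ →+* F) m
  have hgm : (gm : Matrix ι ι F) = d⁻¹ • (g : Matrix ι ι F) := by
    rw [← hM₁]
    rfl
  have hz : gm⁻¹ * g ∈ scalars ι F := by
    rw [mem_scalars_iff]
    refine ⟨Units.mk0 d hd0, ?_⟩
    have h1 : (g : Matrix ι ι F) = d • (gm : Matrix ι ι F) := by
      rw [hgm, smul_smul, mul_inv_cancel₀ hd0, one_smul]
    rw [Units.val_mul, h1, Matrix.mul_smul, vi]
    rfl
  unfold subfieldSubgroup
  refine ⟨g, ?_, ?_⟩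
  · have h1 : g = gm * (gm⁻¹ * g) := by group
    rw [h1]
    exact Subgroup.mul_mem_sup ⟨m, rfl⟩ hz
  · change B⁻¹ * g * B⁻¹⁻¹ = h
    simp only [g]
    group

lemma le_subfieldSubgroup [Fintype F] [Nonempty ι] {H P : Subgroup (GL ι F)} (hnorm : Nz H P)
    (habs : ActsAbsolutelyIrreducibly (matrixSet P)) {F₀ : Subfield F} (hF₀ : F₀ ≠ ⊤)
    (hreal : RealisableOver F₀ (matrixSet P)) :
    ∃ (F₁ : Subfield F) (r : ℕ) (B : GL ι F), r.Prime ∧ Fintype.card F = Nat.card F₁ ^ r ∧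
      H ≤ subfieldSubgroup F₁ B := by
  obtain ⟨τ, F₁, r, hr, hcard, hτ0, hτ1⟩ := exists_aut hF₀
  obtain ⟨B, hB⟩ := hreal
  exact ⟨F₁, r, B⁻¹, hr, hcard, key τ hτ0 hτ1 hnorm habs B hB⟩

end Cfsg.Agent.Lib.Helper97GSubfield
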