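import Mathlib
import Cfsg.Agent.Lib.Helper7C6Str
import Cfsg.Agent.Lib.Helper7C6Mono
import Cfsg.Agent.Lib.Helper38AschField
import Cfsg.Agent.Lib.Helper97GForms
import Cfsg.Agent.Lib.Helper97GSubfield

set_option autoImplicit false

namespace Cfsg.Agent.Lib.Helper7C6Asm

open Cfsg Cfsg.Geo Matrix Cfsg.Agent.Lib.Helper97GBase Cfsg.Agent.Lib.Helper97GCore
  Cfsg.Agent.Lib.Helper7C6Mono Cfsg.Agent.Lib.Helper7C6Str
open scoped MatrixGroups commutatorElement

variable {ι : Type} [Fintype ι] [DecidableEq ι] {F : Type*} [Field F]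

/-- the scalar embedding. -/
def scHom (ι : Type) [Fintype ι] [DecidableEq ι] (F : Type*) [Field F] : Fˣ →* GL ι F :=
  Units.map (Matrix.scalar ι : F →+* Matrix ι ι F).toMonoidHom

lemma scHom_injective [Nonempty ι] : Function.Injective (scHom ι F) := by
  apply Units.map_injective
  intro a b hab
  exact Matrix.scalar_inj.mp hab

lemma scalars_eq_range : scalars ι F = (scHom ι F).range := rfl

instance isCyclic_scalars [Finite F] : IsCyclic (scalars ι F) := by
  rw [scalars_eq_range]
  exact isCyclic_of_surjective (scHom ι F).rangeRestrict (scHom ι F).rangeRestrict_surjective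

instance finite_scalars [Finite F] : Finite (scalars ι F) := by
  rw [scalars_eq_range]
  exact Finite.of_surjective (scHom ι F).rangeRestrict (scHom ι F).rangeRestrict_surjective

lemma scHom_val (c : Fˣ) : ((scHom ι F c : GL ι F) : Matrix ι ι F) = (c : F) • (1 : Matrix ι ι F) := by
  simp [scHom, Matrix.smul_one_eq_diagonal]

lemma mem_scalars_of_comm [Nonempty ι] {N : Subgroup (GL ι F)}
    (habs : ActsAbsolutelyIrreducibly (matrixSet N)) {x : GL ι F}
    (hx : ∀ y ∈ N, x * y = y * x) : x ∈ scalars ι F := by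
  obtain ⟨c, hc'⟩ := habs.2 (x : Matrix ι ι F) (by
    rintro _ ⟨b, hb, rfl⟩
    have := hx b hb
    simpa using congrArg (fun g : GL ι F => (g : Matrix ι ι F)) this)
  rw [mem_scalars_iff]
  have hc0 : c ≠ 0 := by
    rintro rfl
    have h1 : (x : Matrix ι ι F) = 0 := by rw [hc', zero_smul]
    have h2 : (x : Matrix ι ι F) * ((x⁻¹ : GL ι F) : Matrix ι ι F) = 1 := by
      rw [← Units.val_mul, mul_inv_cancel, Units.val_one]
    rw [h1, zero_mul] at h2
    obtain ⟨i₀⟩ := ‹Nonempty ι›
    have h3 := congrFun (congrFun h2 i₀) i₀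
    simp at h3
  exact ⟨Units.mk0 c hc0, hc'⟩

/-- conjugation by a normalising element as an automorphism. -/
def conjAut {H N : Subgroup (GL ι F)} (hnorm : Nz H N) (h : GL ι F) (hh : h ∈ H) : N ≃* N where
  toFun x := ⟨h * x * h⁻¹, hnorm h hh x x.2⟩
  invFun x := ⟨h⁻¹ * x * h, hnorm.inv_mem hh x.2⟩
  left_inv x := Subtype.ext (by simp [mul_assoc])
  right_inv x := Subtype.ext (by simp [mul_assoc])
  map_mul' x y := Subtype.ext (by simp [mul_assoc])

lemma cyclic_of_char [Finite F] (hn : 2 ≤ Fintype.card ι) {H N : Subgroup (GL ι F)} (hnorm : Nz H N)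
    (hdich : ∀ T : Subgroup (GL ι F), Nz H T →
      T ≤ scalars ι F ∨ ActsAbsolutelyIrreducibly (matrixSet T))
    (A : Subgroup N) (hA : A.Characteristic) (hc : IsMulCommutative A) : IsCyclic A := by
  have hNz : Nz H (A.map N.subtype) := by
    rintro h hh _ ⟨a, ha, rfl⟩
    refine ⟨conjAut hnorm h hh a, ?_, rfl⟩
    have := Subgroup.characteristic_iff_map_eq.mp hA (conjAut hnorm h hh)
    rw [← this]
    exact ⟨a, ha, rfl⟩
  have hle : A.map N.subtype ≤ scalars ι F := by
    rcases hdich _ hNz with h | h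
    · exact h
    · exfalso
      apply not_absIrred_of_comm hn _ h
      rintro _ ⟨a, ha, rfl⟩ _ ⟨b, hb, rfl⟩
      have := hc.is_comm.comm (⟨a, ha⟩ : A) ⟨b, hb⟩
      exact congrArg (fun t : A => ((t : N) : GL ι F)) this
  let φ : A →* scalars ι F :=
    { toFun := fun a => ⟨((a : N) : GL ι F), hle ⟨a, a.2, rfl⟩⟩
      map_one' := rfl
      map_mul' := fun _ _ => rfl }
  have hφ : Function.Injective φ := by
    intro a b hab
    have : ((a : N) : GL ι F) = ((b : N) : GL ι F) :=
      congrArg (fun t : scalars ι F => (t : GL ι F)) hab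
    exact Subtype.ext (Subtype.ext this)
  exact isCyclic_of_injective φ hφ

/-- an element of the field of order the order of the centre. -/
lemma exists_root [Nonempty ι] [Finite F] {N : Subgroup (GL ι F)}
    (habs : ActsAbsolutelyIrreducibly (matrixSet N)) :
    ∃ c : Fˣ, orderOf c = Nat.card (Subgroup.center N) ∧ scHom ι F c ∈ N := by
  have hle : ∀ a : Subgroup.center N, ((a : N) : GL ι F) ∈ scalars ι F := by
    intro a
    apply mem_scalars_of_comm habs
    intro y hy
    have := Subgroup.mem_center_iff.mp a.2 ⟨y, hy⟩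
    exact (congrArg Subtype.val this).symm
  let φ : Subgroup.center N →* scalars ι F :=
    { toFun := fun a => ⟨((a : N) : GL ι F), hle a⟩
      map_one' := rfl
      map_mul' := fun _ _ => rfl }
  have hφ : Function.Injective φ := by
    intro a b hab
    have : ((a : N) : GL ι F) = ((b : N) : GL ι F) :=
      congrArg (fun t : scalars ι F => (t : GL ι F)) hab
    exact Subtype.ext (Subtype.ext this)
  have : IsCyclic (Subgroup.center N) := isCyclic_of_injective φ hφ
  obtain ⟨g, hg⟩ := IsCyclic.exists_ofOrder_eq_natCard (α := Subgroup.center N)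
  obtain ⟨c, hc⟩ := hle g
  refine ⟨c, ?_, ?_⟩
  · rw [← hg, ← orderOf_injective (scHom ι F) scHom_injective c]
    have e : scHom ι F c = ((g : N) : GL ι F) := hc
    rw [e, Subgroup.orderOf_coe, Subgroup.orderOf_coe]
  · have e : scHom ι F c = ((g : N) : GL ι F) := hc
    rw [e]
    exact (g : N).2

theorem caseA [Fintype F] (hn : 3 ≤ Fintype.card ι) {H N : Subgroup (GL ι F)} (hnorm : Nz H N)
    (habs : ActsAbsolutelyIrreducibly (matrixSet N)) (hcomm : ⁅N, N⁆ ≤ scalars ι F)
    (hdich : ∀ T : Subgroup (GL ι F), Nz H T →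
      T ≤ scalars ι F ∨ ActsAbsolutelyIrreducibly (matrixSet T))
    {r : ℕ} (hr : r.Prime) (hP : IsPGroup r N) (hexp : Monoid.exponent N = r * Nat.gcd 2 r)
    (hpow : ∀ x ∈ N, x ^ (r * Nat.gcd 2 r) = 1)
    (hz : Nat.card (Subgroup.center N) = r * Nat.gcd 2 r)
    {m : ℕ} (hm : 1 ≤ m) (hcard : Nat.card N = Nat.card (Subgroup.center N) * r ^ (2 * m)) :
    (∃ (F₁ : Subfield F) (r : ℕ) (B : GL ι F), r.Prime ∧ Fintype.card F = Nat.card F₁ ^ r ∧
      H ≤ subfieldSubgroup F₁ B) ∨
    (∃ (r : ℕ) (R : Subgroup (GL ι F)) (j : ℕ), IsLinearSymplecticTypeData r R ∧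
      Fintype.card ι = r ^ j ∧ H ≤ subgroupNormalizer R) ∨
    (∃ (σ : F ≃+* F) (f : (ι → F) → (ι → F) → F), IsUnitaryForm σ f ∧ H ≤ similarityGroup f) := by
  classical
  have : Nonempty ι := Fintype.card_pos_iff.mp (by omega)
  obtain ⟨c, hc, -⟩ := exists_root habs
  set z := Nat.card (Subgroup.center N) with hzdef
  have hz' : (z.Prime ∧ Odd z) ∨ z = 4 := by
    by_cases hr2 : r = 2
    · right; rw [hz, hr2]; norm_num
    · left
      have hg : Nat.gcd 2 r = 1 := (Nat.coprime_primes Nat.prime_two hr).mpr (Ne.symm hr2)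
      rw [hz, hg, mul_one]
      exact ⟨hr, hr.odd_of_ne_two hr2⟩
  have hz0 : 0 < z := by
    rcases hz' with h | h
    · exact h.1.pos
    · omega
  have hζ : IsPrimitiveRoot (c : F) z := by
    rw [IsPrimitiveRoot.coe_units_iff, ← hc]
    exact IsPrimitiveRoot.orderOf c
  have hdvd : z ∣ Fintype.card F - 1 := by
    rw [← hc, ← Fintype.card_units]
    exact orderOf_dvd_card
  obtain ⟨B, hB, hιN⟩ := monomial_form N habs.1 hcomm hz0 (by rw [hz]; exact hpow) hζ
  obtain ⟨p, e, hp, hchar, hF, hcases⟩ := Cfsg.Agent.Lib.Helper38AschField.field_cases z hz' hdvd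
  rcases hcases with ⟨F₀, hF₀, hroots⟩ | ⟨hminF, hodd, h4⟩ | ⟨σ, hσ1, hσ2, hσ3⟩
  · left
    exact Cfsg.Agent.Lib.Helper97GSubfield.le_subfieldSubgroup hnorm habs hF₀
      (realisable_of_mono hB F₀ hroots)
  · right; left
    obtain ⟨j, hj⟩ : ∃ j, Fintype.card ι = r ^ j := by
      have hNr : Nat.card N ∣ r ^ (2 + 2 * m) := by
        rw [hcard, pow_add]
        apply Nat.mul_dvd_mul _ (dvd_refl _)
        rw [hz, pow_two]
        exact Nat.mul_dvd_mul (dvd_refl _) (Nat.gcd_dvd_right 2 r)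
      obtain ⟨j, -, hj⟩ := (Nat.dvd_prime_pow hr).mp (hιN.trans hNr)
      exact ⟨j, hj⟩
    refine ⟨r, N, j, ⟨⟨hr, hP, fun A hA hc => cyclic_of_char (by omega) hnorm hdich A hA hc, hexp⟩,
      habs, p, e, ?_, hminF, ?_⟩, hj, le_normalizer_of_Nz hnorm⟩
    · rintro rfl
      have h1 : r ∣ Fintype.card F - 1 := Dvd.dvd.trans (by rw [hz]; exact Dvd.intro _ rfl) hdvd
      have he : e ≠ 0 := by
        rintro rfl
        have := Fintype.one_lt_card (α := F)
        rw [hF] at this
        simp at this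
      have h2 : r ∣ Fintype.card F := by rw [hF]; exact dvd_pow_self r he
      have h3 : 0 < Fintype.card F := Fintype.card_pos
      have h4 : r ∣ 1 := by
        have := (Nat.dvd_sub h2 h1)
        have e1 : Fintype.card F - (Fintype.card F - 1) = 1 := by omega
        rwa [e1] at this
      exact hr.one_lt.ne' (Nat.dvd_one.mp h4)
    · by_cases hr2 : r = 2
      · right; left
        subst hr2
        have hz4 : z = 4 := by rw [hz]; norm_num
        refine ⟨rfl, h4 hz4, hz4, ?_, m, ?_⟩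
        · have hN2 : Nat.card N = 2 ^ (2 + 2 * m) := by rw [hcard, hz4, pow_add]; norm_num
          rw [hN2] at hιN
          obtain ⟨j, hj, hje⟩ := (Nat.dvd_prime_pow Nat.prime_two).mp hιN
          rw [hje] at hn ⊢
          have hj2 : 2 ≤ j := by
            by_contra hcon
            have : j = 0 ∨ j = 1 := by omega
            rcases this with rfl | rfl <;> norm_num at hn
          calc 4 = 2 ^ 2 := by norm_num
            _ ≤ 2 ^ j := Nat.pow_le_pow_right (by norm_num) hj2
        · rw [hcard, hz4, pow_add]; norm_num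
      · left
        have hg : Nat.gcd 2 r = 1 := (Nat.coprime_primes Nat.prime_two hr).mpr (Ne.symm hr2)
        have hzr : z = r := by rw [hz, hg, mul_one]
        refine ⟨hr.odd_of_ne_two hr2, hodd, hzr, m, hm, ?_⟩
        rw [hcard, hzr, pow_add, pow_one]
  · right; right
    obtain ⟨f, hf, hfix⟩ := unitary_of_mono hB σ hσ1 hσ2 hσ3
    exact ⟨σ, f, hf, Cfsg.Agent.Lib.Helper97GForms.le_similarityGroup_of_fixes hnorm habs hf hfix⟩

/-- the hypotheses of the Gauss sum lemma in the extraspecial `2`-group case. -/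
theorem caseB_hyps [Fintype F] [Nonempty ι] {N : Subgroup (GL ι F)}
    (habs : ActsAbsolutelyIrreducibly (matrixSet N))
    (hpow : ∀ x ∈ N, x ^ 2 ∈ scalars ι F)
    (hz : Nat.card (Subgroup.center N) = 2)
    {m : ℕ} (hcard : Nat.card N = Nat.card (Subgroup.center N) * 2 ^ (2 * m)) :
    (2 : F) ≠ 0 ∧ (Nat.card N : F) ≠ 0 ∧
    (∀ x ∈ N, (x : Matrix ι ι F) * (x : Matrix ι ι F) = 1 ∨
      (x : Matrix ι ι F) * (x : Matrix ι ι F) = -1) ∧
    (∀ x ∈ N, x ∈ scalars ι F → (x : Matrix ι ι F) = 1 ∨ (x : Matrix ι ι F) = -1) := by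
  classical
  obtain ⟨c, hc, -⟩ := exists_root habs
  rw [hz] at hc
  have h2 : (2 : F) ≠ 0 := by
    intro h20
    have hc2 : c ^ 2 = 1 := by rw [← hc]; exact pow_orderOf_eq_one c
    have hc2' : (c : F) ^ 2 = 1 := by
      have := congrArg (fun u : Fˣ => (u : F)) hc2
      simpa using this
    have h3 : ((c : F) - 1) ^ 2 = 0 := by
      have : ((c : F) - 1) ^ 2 = (c : F) ^ 2 - 2 * c + 1 := by ring
      rw [this, hc2', h20]
      have : (1 : F) + 1 = 0 := by rw [one_add_one_eq_two]; exact h20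
      linear_combination this
    have h4 : (c : F) = 1 := by
      have := pow_eq_zero_iff (two_ne_zero) |>.mp h3
      exact sub_eq_zero.mp this
    have h5 : c = 1 := Units.ext h4
    rw [h5, orderOf_one] at hc
    omega
  have hsc : ∀ x ∈ N, x ∈ scalars ι F → (x : Matrix ι ι F) = 1 ∨ (x : Matrix ι ι F) = -1 := by
    intro x hx hxs
    have hxc : (⟨x, hx⟩ : N) ∈ Subgroup.center N := by
      rw [Subgroup.mem_center_iff]
      intro g
      exact Subtype.ext (Subgroup.mem_center_iff.mp (scalars_le_center hxs) g)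
    have hx2 : (⟨⟨x, hx⟩, hxc⟩ : Subgroup.center N) ^ 2 = 1 := by
      rw [← hz]; exact pow_card_eq_one'
    have hx2' : x ^ 2 = 1 := congrArg (fun t : Subgroup.center N => ((t : N) : GL ι F)) hx2
    obtain ⟨d, hd⟩ := hxs
    have hd' : scHom ι F d = x := hd
    have hd2 : d ^ 2 = 1 := by
      apply scHom_injective (ι := ι)
      rw [map_pow, hd', hx2', map_one]
    have hd3 : (d : F) ^ 2 = 1 := by
      have := congrArg (fun u : Fˣ => (u : F)) hd2
      simpa using this
    rw [← hd', scHom_val]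
    rcases sq_eq_one_iff.mp hd3 with h | h
    · left; rw [h, one_smul]
    · right; rw [h, neg_smul, one_smul]
  refine ⟨h2, ?_, ?_, hsc⟩
  · rw [hcard, hz]
    push_cast
    exact mul_ne_zero h2 (pow_ne_zero _ h2)
  · intro x hx
    have := hsc (x ^ 2) (N.pow_mem hx 2) (hpow x hx)
    rwa [pow_two, Units.val_mul] at this

end Cfsg.Agent.Lib.Helper7C6Asm
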