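import Mathlib
import Cfsg.Agent.Lib.Helper7C6Asm
import Cfsg.Agent.Lib.Helper97AschBase
import Cfsg.Agent.Lib.Helper38AschBilin
import Cfsg.Agent.Lib.Helper98AschAlt

set_option autoImplicit false

namespace Cfsg.Agent.Lib.Helper7AschC6

open Cfsg Cfsg.Geo Matrix Cfsg.Agent.Lib.Helper97GCore
  Cfsg.Agent.Lib.Helper7C6Mono Cfsg.Agent.Lib.Helper7C6Str Cfsg.Agent.Lib.Helper7C6Asm
open scoped MatrixGroups commutatorElement

section gen
variable {ι : Type} [Fintype ι] [DecidableEq ι] {F : Type*} [Field F]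

open Cfsg.Agent.Lib.Helper97GBase in
/-- the symplectic type case, for a general index type. -/
theorem c6_core [Fintype F] (hn : 3 ≤ Fintype.card ι) {H N : Subgroup (GL ι F)} (hnorm : Nz H N)
    (hNs : ¬ N ≤ scalars ι F) (hcomm : ⁅N, N⁆ ≤ scalars ι F)
    (hmin : ∀ N' : Subgroup (GL ι F), N' ≤ N → Nz H N' → N' ≤ scalars ι F ∨ N' = N)
    (hdich : ∀ T : Subgroup (GL ι F), Nz H T →
      T ≤ scalars ι F ∨ ActsAbsolutelyIrreducibly (matrixSet T)) :
    (∃ (F₁ : Subfield F) (r : ℕ) (B : GL ι F), r.Prime ∧ Fintype.card F = Nat.card F₁ ^ r ∧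
      H ≤ subfieldSubgroup F₁ B) ∨
    (∃ (r : ℕ) (R : Subgroup (GL ι F)) (j : ℕ), IsLinearSymplecticTypeData r R ∧
      Fintype.card ι = r ^ j ∧ H ≤ subgroupNormalizer R) ∨
    (∃ (σ : F ≃+* F) (f : (ι → F) → (ι → F) → F), IsUnitaryForm σ f ∧ H ≤ similarityGroup f) ∨
    (∃ f : (ι → F) → (ι → F) → F, IsSymplecticForm f ∧ H ≤ similarityGroup f) ∨
    (∃ Q : (ι → F) → F, IsNondegenerateQuadraticForm Q ∧ Odd (Fintype.card F) ∧
      H ≤ quadSimilarityGroup Q) := by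
  classical
  have : Nonempty ι := Fintype.card_pos_iff.mp (by omega)
  have habs : ActsAbsolutelyIrreducibly (matrixSet N) := (hdich N hnorm).resolve_left hNs
  have : Finite (GL ι F) := inferInstance
  obtain ⟨r, hr, hP, hexp, hpow, hpowr, hC, m, hm, hcard⟩ :=
    structure_cor (scalars ι F) H N scalars_le_center hnorm hNs hcomm
      (fun x _ hx => mem_scalars_of_comm habs hx) hmin
  by_cases hz : Nat.card (Subgroup.center N) = r * Nat.gcd 2 r
  · rcases caseA hn hnorm habs hcomm hdich hr hP hexp hpow hz hm hcard with h | h | h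
    · exact Or.inl h
    · exact Or.inr (Or.inl h)
    · exact Or.inr (Or.inr (Or.inl h))
  · have hr2 : r = 2 := by
      by_contra hr2
      have hg : Nat.gcd 2 r = 1 := (Nat.coprime_primes Nat.prime_two hr).mpr (Ne.symm hr2)
      rw [hg, mul_one] at hz
      rcases hC with h | h
      · exact hz h
      · exact hr2 h.1
    subst hr2
    have hz2 : Nat.card (Subgroup.center N) = 2 := by
      rcases hC with h | h
      · exact h
      · exfalso; apply hz; rw [h.2]; norm_num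
    obtain ⟨h2, hcN, hsq, hsc⟩ := caseB_hyps habs hpowr hz2 hcard
    right; right; right
    rcases Cfsg.Agent.Lib.Helper38AschBilin.bilinear_of_sq N habs h2 hcN hsq hsc with ⟨Q, hQ, hfix⟩ | ⟨f, hf, hfix⟩
    · right
      have hodd : Odd (Fintype.card F) := by
        rw [Nat.odd_iff]
        apply FiniteField.odd_card_of_char_ne_two
        intro hch
        apply h2
        have : CharP F 2 := by rw [← hch]; exact ringChar.charP F
        exact CharTwo.two_eq_zero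
      exact ⟨Q, hQ, hodd,
        Cfsg.Agent.Lib.Helper97GForms.le_quadSimilarityGroup_of_fixes hodd hnorm habs hQ hfix⟩
    · left
      exact ⟨f, hf, Cfsg.Agent.Lib.Helper97GForms.similarity_of_fixes hnorm habs
        (Cfsg.Agent.Lib.Helper97GForms.sesq_of_bilinear hf.bilinear) hf.nondegenerate hfix⟩

end gen

variable {n : ℕ} {F : Type*} [Field F]

open Cfsg.Agent.Lib.Helper97AschBase in
/-- [c6] the symplectic-type case. -/
theorem c6_general [Fintype F] (hn : 3 ≤ n) {H N : Subgroup (GL (Fin n) F)} (hnorm : Nz H N)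
    (hNs : ¬ N ≤ scalars (Fin n) F) (hcomm : ⁅N, N⁆ ≤ scalars (Fin n) F)
    (hmin : ∀ N' : Subgroup (GL (Fin n) F), N' ≤ N → Nz H N' → N' ≤ scalars (Fin n) F ∨ N' = N)
    (hdich : ∀ T : Subgroup (GL (Fin n) F), Nz H T →
      T ≤ scalars (Fin n) F ∨ ActsAbsolutelyIrreducibly (matrixSet T)) :
    ∃ M, InLinearClass n F M ∧ H ≤ M := by
  rcases c6_core (ι := Fin n) (by simpa using hn) hnorm hNs hcomm hmin hdich with
    ⟨F₁, r, B, hr, hc, hle⟩ | ⟨r, R, -, hR, -, hle⟩ | ⟨σ, f, hf, hle⟩ | ⟨f, hf, hle⟩ | ⟨Q, hQ, hodd, hle⟩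
  · exact ⟨_, Or.inr (Or.inr (Or.inr (Or.inr (Or.inr (Or.inr (Or.inl ⟨F₁, r, B, hr, hc, rfl⟩)))))),
      hle⟩
  · exact ⟨_, Or.inr (Or.inr (Or.inr (Or.inr (Or.inr (Or.inr (Or.inr (Or.inl ⟨r, R, hR, rfl⟩))))))),
      hle⟩
  · exact ⟨_, Or.inr (Or.inr (Or.inr (Or.inr (Or.inr (Or.inr (Or.inr (Or.inr (Or.inr (Or.inr
      (Or.inl ⟨σ, f, hf, hn, rfl⟩)))))))))), hle⟩
  · have heven : Even n := by
      by_contra hodd
      rw [Nat.not_even_iff_odd] at hodd
      exact Cfsg.Agent.Lib.Helper97GForms.no_symplectic (ι := Fin n) (by simpa using hodd) f hf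
    have h4 : 4 ≤ n := by
      obtain ⟨k, hk⟩ := heven
      omega
    exact ⟨_, Or.inr (Or.inr (Or.inr (Or.inr (Or.inr (Or.inr (Or.inr (Or.inr (Or.inr
      (Or.inl ⟨f, hf, heven, h4, rfl⟩))))))))), hle⟩
  · exact ⟨_, Or.inr (Or.inr (Or.inr (Or.inr (Or.inr (Or.inr (Or.inr (Or.inr (Or.inr (Or.inr
      (Or.inr ⟨Q, hQ, hodd, hn, rfl⟩)))))))))), hle⟩

open Cfsg.Agent.Lib.Helper97AschBase Cfsg.Agent.Lib.Helper98AschAlt in
/-- [c6] the symplectic-type case, refined conclusion. -/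
theorem c6_alt [Fintype F] (hn : 3 ≤ n) {H N : Subgroup (GL (Fin n) F)} (hnorm : Nz H N)
    (hNs : ¬ N ≤ scalars (Fin n) F) (hcomm : ⁅N, N⁆ ≤ scalars (Fin n) F)
    (hmin : ∀ N' : Subgroup (GL (Fin n) F), N' ≤ N → Nz H N' → N' ≤ scalars (Fin n) F ∨ N' = N)
    (hdich : ∀ T : Subgroup (GL (Fin n) F), Nz H T →
      T ≤ scalars (Fin n) F ∨ ActsAbsolutelyIrreducibly (matrixSet T)) :
    GeomAlt n F H := by
  rcases c6_core (ι := Fin n) (by simpa using hn) hnorm hNs hcomm hmin hdich with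
    ⟨F₁, r, B, hr, hc, hle⟩ | ⟨r, R, j, hR, hj, hle⟩ | ⟨σ, f, hf, hle⟩ | ⟨f, hf, hle⟩ |
    ⟨Q, hQ, hodd, hle⟩
  · exact Or.inr (Or.inr (Or.inr (Or.inr (Or.inl ⟨F₁, r, B, hr, hc, hle⟩))))
  · exact Or.inr (Or.inr (Or.inr (Or.inr (Or.inr (Or.inl ⟨r, R, j, hR, by simpa using hj, hle⟩)))))
  · exact Or.inr (Or.inr (Or.inr (Or.inr (Or.inr (Or.inr (Or.inr (Or.inr
      (Or.inl ⟨σ, f, hf, hle⟩))))))))
  · exact Or.inr (Or.inr (Or.inr (Or.inr (Or.inr (Or.inr (Or.inr (Or.inl ⟨f, hf, hle⟩)))))))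
  · exact Or.inr (Or.inr (Or.inr (Or.inr (Or.inr (Or.inr (Or.inr (Or.inr
      (Or.inr ⟨hodd, Q, hQ, hle⟩))))))))

end Cfsg.Agent.Lib.Helper7AschC6
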