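import Cfsg.Agent.Lib.Helper97GSchur

set_option autoImplicit false

namespace Cfsg.Agent.Lib.Helper97GClifford

open Cfsg Cfsg.Geo Matrix Cfsg.Agent.Lib.Helper97GBase Cfsg.Agent.Lib.Helper97GSchur
open scoped MatrixGroups

variable {ι : Type} [Fintype ι] [DecidableEq ι] {F : Type*} [Field F]

/-- image of a subspace under a group element -/
def gmap (g : GL ι F) (W : Submodule F (ι → F)) : Submodule F (ι → F) :=
  W.map (Matrix.toLin' (g : Matrix ι ι F))

lemma mulVec_mem_gmap {g : GL ι F} {W : Submodule F (ι → F)} {w : ι → F}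
    (hw : w ∈ W) : (g : Matrix ι ι F) *ᵥ w ∈ gmap g W :=
  ⟨w, hw, by simp [Matrix.toLin'_apply]⟩

lemma mem_gmap {g : GL ι F} {W : Submodule F (ι → F)} {v : ι → F} :
    v ∈ gmap g W ↔ ((g⁻¹ : GL ι F) : Matrix ι ι F) *ᵥ v ∈ W := by
  constructor
  · rintro ⟨w, hw, rfl⟩
    simpa [Matrix.toLin'_apply] using hw
  · intro h
    have := mulVec_mem_gmap (g := g) h
    simpa using this

lemma toLin'_injective (g : GL ι F) :
    Function.Injective (Matrix.toLin' (g : Matrix ι ι F)) := by
  intro u v h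
  apply mulVec_injective g
  simpa [Matrix.toLin'_apply] using h

lemma finrank_gmap (g : GL ι F) (W : Submodule F (ι → F)) :
    Module.finrank F (gmap g W) = Module.finrank F W :=
  (LinearEquiv.finrank_eq (Submodule.equivMapOfInjective _ (toLin'_injective g) W)).symm

lemma gmap_injective (g : GL ι F) : Function.Injective (gmap (F := F) (ι := ι) g) :=
  Submodule.map_injective_of_injective (toLin'_injective g)

lemma gmap_ne_bot {g : GL ι F} {W : Submodule F (ι → F)} (h : W ≠ ⊥) : gmap g W ≠ ⊥ := by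
  intro h0
  apply h
  apply gmap_injective g
  rw [h0]
  simp [gmap]

lemma Inv_gmap {G T : Subgroup (GL ι F)} (hnorm : Nz G T) {g : GL ι F} (hg : g ∈ G)
    {W : Submodule F (ι → F)} (hW : Inv T W) : Inv T (gmap g W) := by
  intro t ht v hv
  rw [mem_gmap] at hv ⊢
  have h1 := hW _ (hnorm.inv_mem hg ht) _ hv
  simp only [Units.val_mul, ← Matrix.mulVec_mulVec] at h1
  simpa using h1

lemma Inv_inf {T : Subgroup (GL ι F)} {U W : Submodule F (ι → F)} (hU : Inv T U)
    (hW : Inv T W) : Inv T (U ⊓ W) := fun t ht v hv => ⟨hU t ht v hv.1, hW t ht v hv.2⟩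

lemma Inv_sup {T : Subgroup (GL ι F)} {U W : Submodule F (ι → F)} (hU : Inv T U)
    (hW : Inv T W) : Inv T (U ⊔ W) := by
  intro t ht v hv
  obtain ⟨a, ha, b, hb, rfl⟩ := Submodule.mem_sup.mp hv
  rw [Matrix.mulVec_add]
  exact Submodule.add_mem _ (Submodule.mem_sup_left (hU t ht a ha))
    (Submodule.mem_sup_right (hW t ht b hb))

lemma Inv_bot {T : Subgroup (GL ι F)} : Inv T (⊥ : Submodule F (ι → F)) := by
  intro t _ v hv
  rw [Submodule.mem_bot] at hv
  simp [hv]

lemma Inv_top {T : Subgroup (GL ι F)} : Inv T (⊤ : Submodule F (ι → F)) :=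
  fun _ _ _ _ => Submodule.mem_top

/-- largest `G`-invariant subspace inside `U` -/
def core (G : Subgroup (GL ι F)) (U : Submodule F (ι → F)) : Submodule F (ι → F) where
  carrier := {v | ∀ g ∈ G, (g : Matrix ι ι F) *ᵥ v ∈ U}
  add_mem' := by
    intro a b ha hb g hg
    rw [Matrix.mulVec_add]
    exact U.add_mem (ha g hg) (hb g hg)
  zero_mem' := by
    intro g _
    simp
  smul_mem' := by
    intro c v hv g hg
    rw [Matrix.mulVec_smul]
    exact U.smul_mem c (hv g hg)

lemma Inv_core (G : Subgroup (GL ι F)) (U : Submodule F (ι → F)) : Inv G (core G U) := by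
  intro t ht v hv g hg
  have := hv (g * t) (G.mul_mem hg ht)
  simpa [Units.val_mul, ← Matrix.mulVec_mulVec] using this

lemma core_le (G : Subgroup (GL ι F)) (U : Submodule F (ι → F)) : core G U ≤ U := by
  intro v hv
  simpa using hv 1 G.one_mem

/-- if `G` is irreducible, `W ≠ ⊥` and `U ≠ ⊤`, some translate of `W` is not inside `U` -/
lemma exists_translate_not_le {G : Subgroup (GL ι F)} (hG : ActsIrreducibly (matrixSet G))
    {W U : Submodule F (ι → F)} (hW : W ≠ ⊥) (hU : U ≠ ⊤) :
    ∃ g ∈ G, ∃ w ∈ W, (g : Matrix ι ι F) *ᵥ w ∉ U := by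
  by_contra hcon
  push Not at hcon
  rw [actsIrreducibly_iff] at hG
  rcases hG _ (Inv_core G U) with h | h
  · apply hW
    rw [eq_bot_iff, ← h]
    intro w hw g hg
    exact hcon g hg w hw
  · apply hU
    rw [eq_top_iff, ← h]
    exact core_le G U

lemma finrank_eq_sum_of_indep {ι : Type*} [Fintype ι] {V : Type*} [AddCommGroup V] [Module F V]
    [FiniteDimensional F V] (A : ι → Submodule F V) (hind : iSupIndep A) (htop : iSup A = ⊤) :
    Module.finrank F V = ∑ i, Module.finrank F (A i) := by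
  classical
  have hint := DirectSum.isInternal_submodule_of_iSupIndep_of_iSup_eq_top hind htop
  have e := LinearEquiv.ofBijective (DirectSum.coeLinearMap A) hint
  rw [← LinearEquiv.finrank_eq e, Module.finrank_directSum]

lemma exists_min_inv (hn : 0 < Fintype.card ι) (T : Subgroup (GL ι F)) :
    ∃ W : Submodule F (ι → F), Inv T W ∧ W ≠ ⊥ ∧
      ∀ W' : Submodule F (ι → F), Inv T W' → W' ≠ ⊥ →
        Module.finrank F W ≤ Module.finrank F W' := by
  classical
  have hex : ∃ k : ℕ, ∃ W : Submodule F (ι → F), Inv T W ∧ W ≠ ⊥ ∧ Module.finrank F W = k := by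
    refine ⟨_, ⊤, Inv_top, ?_, rfl⟩
    intro h
    have h1 : Module.finrank F (⊤ : Submodule F (ι → F)) = Fintype.card ι := by
      rw [finrank_top, Module.finrank_fintype_fun_eq_card]
    rw [h, finrank_bot] at h1
    omega
  obtain ⟨W, hW, hW0, hWk⟩ := Nat.find_spec hex
  refine ⟨W, hW, hW0, ?_⟩
  intro W' hW' hW'0
  rw [hWk]
  exact Nat.find_min' hex ⟨W', hW', hW'0, rfl⟩

lemma min_dvd {G T : Subgroup (GL ι F)} (hG : ActsIrreducibly (matrixSet G))
    (hnorm : Nz G T) {W : Submodule F (ι → F)} (hW : Inv T W) (hW0 : W ≠ ⊥)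
    (hmin : ∀ W' : Submodule F (ι → F), Inv T W' → W' ≠ ⊥ →
        Module.finrank F W ≤ Module.finrank F W') : Module.finrank F W ∣ Fintype.card ι := by
  have hpos : 0 < Module.finrank F W := by
    rw [Module.finrank_pos_iff]
    exact Submodule.nontrivial_iff_ne_bot.mpr hW0
  have := dvd_finrank_of_exists_compl (V := ι → F) (fun U => Inv T U) Inv_bot
    (fun U W hU hW => Inv_sup hU hW) (Module.finrank F W) hpos ?_
  · rwa [Module.finrank_fintype_fun_eq_card] at this
  · intro U hU hUt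
    obtain ⟨g, hg, w, hw, hgw⟩ := exists_translate_not_le hG hW0 hUt
    refine ⟨gmap g W, Inv_gmap hnorm hg hW, finrank_gmap g W, ?_⟩
    by_contra hne
    have h1 := hmin _ (Inv_inf hU (Inv_gmap hnorm hg hW)) hne
    rw [← finrank_gmap g W] at h1
    have h2 : U ⊓ gmap g W = gmap g W := Submodule.eq_of_le_of_finrank_le inf_le_right h1
    apply hgw
    have h3 : (g : Matrix ι ι F) *ᵥ w ∈ U ⊓ gmap g W := by
      rw [h2]
      exact mulVec_mem_gmap hw
    exact h3.1

/-- weight spaces -/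
def Wt (T : Subgroup (GL ι F)) (χ : T → F) : Submodule F (ι → F) where
  carrier := {v | ∀ t : T, ((t : GL ι F) : Matrix ι ι F) *ᵥ v = χ t • v}
  add_mem' := by
    intro a b ha hb t
    rw [Matrix.mulVec_add, ha t, hb t, smul_add]
  zero_mem' := by
    intro t
    simp
  smul_mem' := by
    intro c v hv t
    rw [Matrix.mulVec_smul, hv t, smul_comm]

lemma mem_Wt {T : Subgroup (GL ι F)} {χ : T → F} {v : ι → F} :
    v ∈ Wt T χ ↔ ∀ t : T, ((t : GL ι F) : Matrix ι ι F) *ᵥ v = χ t • v := Iff.rfl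

lemma indep_Wt {T : Subgroup (GL ι F)} (hcomm : ∀ a ∈ T, ∀ b ∈ T, a * b = b * a) :
    iSupIndep (Wt T) := by
  have h := Module.End.independent_iInf_maxGenEigenspace_of_forall_mapsTo
    (fun t : T => Matrix.toLin' ((t : GL ι F) : Matrix ι ι F)) (by
      intro i j φ
      apply Module.End.mapsTo_maxGenEigenspace_of_comm
      show _ * _ = _ * _
      rw [Module.End.mul_eq_comp, Module.End.mul_eq_comp, ← Matrix.toLin'_mul, ← Matrix.toLin'_mul,
        ← Units.val_mul, ← Units.val_mul, hcomm _ j.2 _ i.2])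
  refine h.mono ?_
  intro χ v hv
  rw [Submodule.mem_iInf]
  intro t
  apply Module.End.eigenspace_le_maxGenEigenspace
  rw [Module.End.mem_eigenspace_iff, Matrix.toLin'_apply]
  exact hv t

/-- conjugate character -/
def conjChar {G T : Subgroup (GL ι F)} (hnorm : Nz G T) (g : G) (χ : T → F) : T → F :=
  fun t => χ ⟨(g : GL ι F)⁻¹ * t * g, hnorm.inv_mem g.2 t.2⟩

lemma gmap_Wt {G T : Subgroup (GL ι F)} (hnorm : Nz G T) (g : G) (χ : T → F) :
    gmap (g : GL ι F) (Wt T χ) = Wt T (conjChar hnorm g χ) := by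
  ext v
  rw [mem_gmap, mem_Wt, mem_Wt]
  constructor
  · intro h t
    have h1 := h ⟨(g : GL ι F)⁻¹ * t * g, hnorm.inv_mem g.2 t.2⟩
    simp only [Units.val_mul, ← Matrix.mulVec_mulVec, mulVec_inv_mulVec] at h1
    have h2 := congrArg (fun w => ((g : GL ι F) : Matrix ι ι F) *ᵥ w) h1
    simp only [mulVec_inv_mulVec, Matrix.mulVec_smul] at h2
    exact h2
  · intro h t
    have h1 := h ⟨(g : GL ι F) * t * (g : GL ι F)⁻¹, hnorm g g.2 t t.2⟩
    have h3 : conjChar hnorm g χ ⟨(g : GL ι F) * t * (g : GL ι F)⁻¹, hnorm g g.2 t t.2⟩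
        = χ t := by
      unfold conjChar
      congr 1
      apply Subtype.ext
      simp [mul_assoc]
    rw [h3] at h1
    simp only [Units.val_mul, ← Matrix.mulVec_mulVec] at h1
    have h2 := congrArg (fun w => (((g : GL ι F)⁻¹ : GL ι F) : Matrix ι ι F) *ᵥ w) h1
    simp only [inv_mulVec_mulVec, Matrix.mulVec_smul] at h2
    exact h2

lemma gmap_mul (g h : GL ι F) (W : Submodule F (ι → F)) :
    gmap (g * h) W = gmap g (gmap h W) := by
  unfold gmap
  rw [Units.val_mul, Matrix.toLin'_mul, Submodule.map_comp]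

lemma matrix_eq_of_mulVec_eq {M N : Matrix ι ι F} (h : ∀ v, M *ᵥ v = N *ᵥ v) : M = N := by
  apply Matrix.toLin'.injective
  apply LinearMap.ext
  intro v
  rw [Matrix.toLin'_apply, Matrix.toLin'_apply, h]

lemma clifford [Finite F] (hn : (Fintype.card ι).Prime) {G T : Subgroup (GL ι F)}
    (hG : ActsIrreducibly (matrixSet G)) (hnorm : Nz G T) :
    T ≤ scalars ι F ∨ ActsIrreducibly (matrixSet T) ∨
    (∃ D : Fin (Fintype.card ι) → Submodule F (ι → F), IsMDecomposition 1 D ∧ G ≤ decompositionStabilizer D ∧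
      (∀ a ∈ T, ∀ b ∈ T, a * b = b * a) ∧ ∀ i, ∃ χ : T → F, D i = Wt T χ) := by
  classical
  obtain ⟨W, hW, hW0, hmin⟩ := exists_min_inv hn.pos T
  have hdvd := min_dvd hG hnorm hW hW0 hmin
  rcases (Nat.dvd_prime hn).mp hdvd with h1 | h1
  swap
  · right; left
    rw [actsIrreducibly_iff]
    intro W' hW'
    by_cases h0 : W' = ⊥
    · exact Or.inl h0
    · right
      have h2 := hmin W' hW' h0
      rw [h1] at h2
      apply Submodule.eq_top_of_finrank_eq
      rw [Module.finrank_fintype_fun_eq_card]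
      have h3 := Submodule.finrank_le W'
      rw [Module.finrank_fintype_fun_eq_card] at h3
      exact le_antisymm h3 h2
  -- the one-dimensional case
  obtain ⟨⟨w, hwW⟩, hw0, hspan⟩ := finrank_eq_one_iff'.mp h1
  have hw0' : w ≠ 0 := fun h => hw0 (Subtype.ext h)
  have hspan' : ∀ u ∈ W, ∃ c : F, c • w = u := by
    intro u hu
    obtain ⟨c, hc⟩ := hspan ⟨u, hu⟩
    exact ⟨c, congrArg Subtype.val hc⟩
  have hχ : ∀ t : T, ∃ c : F, c • w = ((t : GL ι F) : Matrix ι ι F) *ᵥ w :=
    fun t => hspan' _ (hW t t.2 w hwW)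
  choose χ₀ hχ₀ using hχ
  have hWle : W ≤ Wt T χ₀ := by
    intro u hu t
    obtain ⟨c, rfl⟩ := hspan' u hu
    rw [Matrix.mulVec_smul, ← hχ₀ t, smul_comm]
  have htrans : ∀ g (hg : g ∈ G), ∀ u ∈ W,
      (g : Matrix ι ι F) *ᵥ u ∈ Wt T (conjChar hnorm ⟨g, hg⟩ χ₀) := by
    intro g hg u hu
    rw [← gmap_Wt hnorm ⟨g, hg⟩ χ₀]
    exact mulVec_mem_gmap (hWle hu)
  -- T is commutative
  have hcomm : ∀ a ∈ T, ∀ b ∈ T, a * b = b * a := by
    intro a ha b hb
    let U : Submodule F (ι → F) :=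
      LinearMap.eqLocus (Matrix.toLin' ((a * b : GL ι F) : Matrix ι ι F))
        (Matrix.toLin' ((b * a : GL ι F) : Matrix ι ι F))
    have hU : U = ⊤ := by
      by_contra hUt
      obtain ⟨g, hg, u, hu, hgu⟩ := exists_translate_not_le hG hW0 hUt
      apply hgu
      have h2 := htrans g hg u hu
      have ha' := h2 ⟨a, ha⟩
      have hb' := h2 ⟨b, hb⟩
      simp only at ha' hb'
      show Matrix.toLin' _ _ = Matrix.toLin' _ _
      rw [Matrix.toLin'_apply, Matrix.toLin'_apply, Units.val_mul, Units.val_mul,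
        ← Matrix.mulVec_mulVec, ← Matrix.mulVec_mulVec, ha', hb', Matrix.mulVec_smul,
        Matrix.mulVec_smul, ha', hb', smul_comm]
    apply Units.ext
    apply matrix_eq_of_mulVec_eq
    intro v
    have hv : v ∈ U := by rw [hU]; exact Submodule.mem_top
    simpa [U, Matrix.toLin'_apply] using hv
  -- the orbit of characters
  let X : Set (T → F) := Set.range (fun g : G => conjChar hnorm g χ₀)
  have : Fintype X := Fintype.ofFinite X
  let A : X → Submodule F (ι → F) := fun χ => Wt T χ.1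
  have hAind : iSupIndep A := (indep_Wt hcomm).comp Subtype.val_injective
  have hAtop : iSup A = ⊤ := by
    by_contra hUt
    obtain ⟨g, hg, u, hu, hgu⟩ := exists_translate_not_le hG hW0 hUt
    apply hgu
    exact (le_iSup A ⟨_, ⟨g, hg⟩, rfl⟩) (htrans g hg u hu)
  have hAfr : ∀ χ : X, Module.finrank F (A χ) = Module.finrank F (Wt T χ₀) := by
    rintro ⟨_, g, rfl⟩
    show Module.finrank F (Wt T (conjChar hnorm g χ₀)) = _
    rw [← gmap_Wt, finrank_gmap]
  have hsum := finrank_eq_sum_of_indep A hAind hAtop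
  simp only [hAfr, Finset.sum_const, Finset.card_univ, smul_eq_mul, Module.finrank_fintype_fun_eq_card] at hsum
  have hXdvd : Fintype.card X ∣ Fintype.card ι := ⟨_, hsum⟩
  rcases (Nat.dvd_prime hn).mp hXdvd with hX | hX
  · -- T is scalar
    left
    rw [hX, one_mul] at hsum
    have htop : Wt T χ₀ = ⊤ := by
      apply Submodule.eq_top_of_finrank_eq
      rw [Module.finrank_fintype_fun_eq_card, ← hsum]
    intro t ht
    rw [mem_scalars_iff]
    have hc0 : χ₀ ⟨t, ht⟩ ≠ 0 := by
      intro h0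
      have h2 := hχ₀ ⟨t, ht⟩
      rw [h0, zero_smul] at h2
      apply hw0'
      apply mulVec_injective t
      simp only [Matrix.mulVec_zero]
      exact h2.symm
    refine ⟨Units.mk0 _ hc0, ?_⟩
    apply matrix_eq_of_mulVec_eq
    intro v
    have hv : v ∈ Wt T χ₀ := by rw [htop]; exact Submodule.mem_top
    rw [Units.val_mk0, Matrix.smul_mulVec, Matrix.one_mulVec]
    exact hv ⟨t, ht⟩
  · right; right
    have hm : Module.finrank F (Wt T χ₀) = 1 := by
      rw [hX] at hsum
      have hpos := hn.pos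
      nlinarith [Nat.eq_of_mul_eq_mul_left hpos (by rw [mul_one]; exact hsum :
        Fintype.card ι * 1 = Fintype.card ι * Module.finrank F (Wt T χ₀))]
    let e : Fin (Fintype.card ι) ≃ X := (Fintype.equivFinOfCardEq hX).symm
    let D : Fin (Fintype.card ι) → Submodule F (ι → F) := fun i => A (e i)
    have hDind : iSupIndep D := hAind.comp e.injective
    have hDfr : ∀ i, Module.finrank F (D i) = 1 := fun i => (hAfr (e i)).trans hm
    have hDne : ∀ i, D i ≠ ⊥ := by
      intro i h0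
      have := hDfr i
      rw [h0, finrank_bot] at this
      omega
    have hDinj : Function.Injective D := hDind.injective hDne
    refine ⟨D, ⟨hn.two_le, one_pos, hDfr, hDind, ?_⟩, ?_, hcomm, fun i => ⟨(e i).1, rfl⟩⟩
    · rw [← hAtop]
      exact e.surjective.iSup_comp A
    · intro g hg
      have hex : ∀ i, ∃ j, gmap g (D i) = D j := by
        intro i
        obtain ⟨g₀, hg₀⟩ := (e i).2
        refine ⟨e.symm ⟨conjChar hnorm (⟨g, hg⟩ * g₀) χ₀, ⟨_, rfl⟩⟩, ?_⟩
        show gmap g (Wt T (e i).1) = Wt T (e (e.symm _)).1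
        rw [Equiv.apply_symm_apply, ← hg₀, ← gmap_Wt, ← gmap_Wt, ← gmap_mul]
        rfl
      choose σ hσ using hex
      have hσinj : Function.Injective σ := by
        intro i j hij
        apply hDinj
        apply gmap_injective g
        rw [hσ, hσ, hij]
      exact ⟨Equiv.ofBijective σ (Finite.injective_iff_bijective.mp hσinj), fun i => hσ i⟩

end Cfsg.Agent.Lib.Helper97GClifford
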