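import Cfsg.Agent.Lib.Helper96SpBasic
import Cfsg.Agent.Lib.Helper96GComm

set_option autoImplicit false
set_option linter.unusedSectionVars false

/-! PROJECT 3 = ASCH-SP, piece `comm`. -/

namespace Cfsg.Agent.Lib.Helper96SpComm

open Cfsg Cfsg.Geo Matrix
open Cfsg.Agent.Lib.Helper97GBase Cfsg.Agent.Lib.Helper97GClifford Cfsg.Agent.Lib.Helper98AschGDefs
  Cfsg.Agent.Lib.Helper98AschGBasic Cfsg.Agent.Lib.Helper96SpDefs Cfsg.Agent.Lib.Helper96GComm
open scoped MatrixGroups Kronecker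

variable {ι : Type} [Fintype ι] [DecidableEq ι] {F : Type*} [Field F]
variable {f : (ι → F) → (ι → F) → F} {H : Subgroup (GL ι F)}

/-- conjugation of a matrix -/
abbrev cjm (g : GL ι F) (a : Matrix ι ι F) : Matrix ι ι F :=
  (g : Matrix ι ι F) * a * ((g⁻¹ : GL ι F) : Matrix ι ι F)

/-- a finite `H`-invariant set of pairwise orthogonal idempotents of constant rank whose ranges span gives a
system of imprimitivity -/
lemma decomp_of_idems [Finite F] {O : Set (Matrix ι ι F)} {m : ℕ} (hm : 0 < m)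
    (hOi : ∀ o ∈ O, o * o = o) (hOr : ∀ o ∈ O, Module.finrank F (rg o) = m)
    (hOorth : ∀ o₁ ∈ O, ∀ o₂ ∈ O, o₁ ≠ o₂ → o₁ * o₂ = 0)
    (hOconj : ∀ g ∈ H, ∀ o ∈ O, cjm g o ∈ O)
    (htop : ⨆ o : O, rg o.1 = ⊤) (h2 : 2 ≤ Nat.card O) :
    ∃ (t : ℕ) (o : Fin t → Matrix ι ι F), t = Nat.card O ∧ (∀ i, o i ∈ O) ∧ Function.Injective o ∧
      IsMDecomposition m (fun i => rg (o i)) ∧ H ≤ decompositionStabilizer (fun i => rg (o i)) := by
  classical
  have : Finite O := Subtype.finite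
  let eqv : O ≃ Fin (Nat.card O) := Finite.equivFin O
  let D : Fin (Nat.card O) → Submodule F (ι → F) := fun i => rg (eqv.symm i).1
  let π : ∀ g : GL ι F, g ∈ H → Equiv.Perm O := fun g hg =>
    { toFun := fun o => ⟨_, hOconj g hg o.1 o.2⟩
      invFun := fun o => ⟨_, hOconj g⁻¹ (H.inv_mem hg) o.1 o.2⟩
      left_inv := by
        intro o
        apply Subtype.ext
        show ((g⁻¹ : GL ι F) : Matrix ι ι F) * ((g : Matrix ι ι F) * o.1 *
          ((g⁻¹ : GL ι F) : Matrix ι ι F)) *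
          (((g⁻¹)⁻¹ : GL ι F) : Matrix ι ι F) = o.1
        rw [inv_inv]
        exact (conjAlg g).left_inv o.1
      right_inv := by
        intro o
        apply Subtype.ext
        show (g : Matrix ι ι F) * (((g⁻¹ : GL ι F) : Matrix ι ι F) * o.1 *
          (((g⁻¹)⁻¹ : GL ι F) : Matrix ι ι F)) *
          ((g⁻¹ : GL ι F) : Matrix ι ι F) = o.1
        rw [inv_inv]
        exact (conjAlg g).right_inv o.1 }
  have hperm : ∀ g (hg : g ∈ H) (i : Fin (Nat.card O)),
      (D i).map (Matrix.toLin' (g : Matrix ι ι F)) = D (eqv (π g hg (eqv.symm i))) := by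
    intro g hg i
    show (rg (eqv.symm i).1).map _ = rg (eqv.symm (eqv (π g hg (eqv.symm i)))).1
    rw [Equiv.symm_apply_apply, ← rg_conj]
    rfl
  have hstab : H ≤ decompositionStabilizer D := by
    intro g hg
    exact ⟨eqv.symm.trans ((π g hg).trans eqv), fun i => hperm g hg i⟩
  have htop' : iSup D = ⊤ := by
    rw [eq_top_iff, ← htop]
    apply iSup_le
    intro o
    have : rg o.1 = D (eqv o) := by
      show rg o.1 = rg (eqv.symm (eqv o)).1
      rw [Equiv.symm_apply_apply]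
    rw [this]
    exact le_iSup D _
  refine ⟨Nat.card O, fun i => (eqv.symm i).1, rfl, fun i => (eqv.symm i).2,
    fun i j h => eqv.symm.injective (Subtype.ext h), ⟨h2, hm, fun i => hOr _ (eqv.symm i).2, ?_, htop'⟩, hstab⟩
  intro i
  rw [Submodule.disjoint_def]
  intro x hx hx2
  have h2 : (⨆ j, ⨆ (_ : j ≠ i), D j) ≤ LinearMap.ker (Matrix.toLin' (eqv.symm i).1) := by
    apply iSup₂_le
    intro j hj v hv
    obtain ⟨w, rfl⟩ := mem_rg.1 hv
    rw [LinearMap.mem_ker, Matrix.toLin'_apply, Matrix.mulVec_mulVec,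
      hOorth _ (eqv.symm i).2 _ (eqv.symm j).2 (fun h => hj (eqv.symm.injective (Subtype.ext h)).symm),
      Matrix.zero_mulVec]
  have h3 := h2 hx2
  rw [LinearMap.mem_ker, Matrix.toLin'_apply, idem_fix (hOi _ (eqv.symm i).2) hx] at h3
  exact h3

/-- `a ≤ b` for commuting idempotents of which `a` has minimal rank and `a b ≠ 0` -/
lemma le_of_min {C : Subalgebra F (Matrix ι ι F)} {m : ℕ}
    (hmin : ∀ f ∈ C, f * f = f → f ≠ 0 → m ≤ Module.finrank F (rg f))
    {a b : Matrix ι ι F} (ha : a ∈ C) (hb : b ∈ C) (hc : a * b = b * a)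
    (ia : a * a = a) (ib : b * b = b) (ra : Module.finrank F (rg a) = m) (h0 : a * b ≠ 0) : a = a * b := by
  have hf : (a * b) * (a * b) = a * b := by
    calc (a * b) * (a * b) = a * (b * a) * b := by simp only [mul_assoc]
      _ = a * (a * b) * b := by rw [hc]
      _ = (a * a) * (b * b) := by simp only [mul_assoc]
      _ = a * b := by rw [ia, ib]
  have hm := hmin _ (C.mul_mem ha hb) hf h0
  have hle : rg (a * b) ≤ rg a := by
    intro v hv
    obtain ⟨w, rfl⟩ := mem_rg.1 hv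
    rw [← Matrix.mulVec_mulVec]
    exact mulVec_mem_rg _ _
  have heq : rg (a * b) = rg a := Submodule.eq_of_le_of_finrank_le hle (ra ▸ hm)
  apply matrix_eq_of_mulVec_eq
  intro v
  have h1 : a *ᵥ v ∈ rg (a * b) := heq ▸ mulVec_mem_rg a v
  have h2 := idem_fix hf h1
  rw [Matrix.mulVec_mulVec, mul_assoc, ← hc, ← mul_assoc, ia] at h2
  exact h2.symm

/-- the orbit of a minimal idempotent -/
lemma exists_orbit [Finite F] [Nonempty ι] (hirr : ActsIrreducibly (matrixSet H))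
    {C : Subalgebra F (Matrix ι ι F)} (hC : NzA H C)
    (hcomm : ∀ x ∈ C, ∀ y ∈ C, x * y = y * x)
    {f₀ : Matrix ι ι F} (hf₀ : f₀ ∈ C) (if₀ : f₀ * f₀ = f₀) (h0 : f₀ ≠ 0) (h1 : f₀ ≠ 1) :
    ∃ (m : ℕ) (e : Matrix ι ι F), 0 < m ∧ e ≠ 1 ∧
      (∀ f ∈ C, f * f = f → f ≠ 0 → m ≤ Module.finrank F (rg f)) ∧
      (∀ g ∈ H, cjm g e ∈ C ∧ cjm g e * cjm g e = cjm g e ∧ Module.finrank F (rg (cjm g e)) = m ∧
        cjm g e ≠ 0) ∧
      (⨆ o : {o | ∃ h ∈ H, o = cjm h e}, rg o.1 = ⊤) := by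
  classical
  have hex : ∃ k : ℕ, ∃ f ∈ C, f * f = f ∧ f ≠ 0 ∧ Module.finrank F (rg f) = k :=
    ⟨_, f₀, hf₀, if₀, h0, rfl⟩
  obtain ⟨e, heC, ie, he0, hem⟩ := Nat.find_spec hex
  set m := Nat.find hex with hm
  have hmin : ∀ f ∈ C, f * f = f → f ≠ 0 → m ≤ Module.finrank F (rg f) := fun f hf i0 hf0 =>
    Nat.find_min' hex ⟨f, hf, i0, hf0, rfl⟩
  have he1 : e ≠ 1 := by
    intro h
    apply h1
    apply eq_one_of_rg_top if₀
    apply Submodule.eq_top_of_finrank_eq
    apply le_antisymm (Submodule.finrank_le _)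
    have h2 := hmin f₀ hf₀ if₀ h0
    rw [← hem, h] at h2
    have h3 : rg (1 : Matrix ι ι F) = ⊤ := by
      rw [eq_top_iff]
      intro v _
      exact mem_rg.2 ⟨v, Matrix.one_mulVec v⟩
    rw [h3, finrank_top] at h2
    exact h2
  have hmpos : 0 < m := by
    rw [← hem]
    exact Module.finrank_pos_iff_exists_ne_zero.2 (by
      obtain ⟨v, hv, hv0⟩ := Submodule.exists_mem_ne_zero_of_ne_bot (rg_ne_bot he0)
      exact ⟨⟨v, hv⟩, fun h => hv0 (congrArg Subtype.val h)⟩)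
  refine ⟨m, e, hmpos, he1, hmin, ?_, ?_⟩
  · intro g hg
    refine ⟨hC g hg e heC, ?_, ?_, ?_⟩
    · have := (conjAlg g).map_mul e e
      rw [ie] at this
      exact this.symm
    · rw [finrank_rg_conj, hem]
    · intro h
      apply he0
      have : conjAlg g e = conjAlg g 0 := by rw [map_zero]; exact h
      exact (conjAlg g).injective this
  · have hinv : ∀ s ∈ matrixSet H, (⨆ o : {o | ∃ h ∈ H, o = cjm h e}, rg o.1).map (Matrix.toLin' s) ≤
        ⨆ o : {o | ∃ h ∈ H, o = cjm h e}, rg o.1 := by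
      rintro _ ⟨g, hg, rfl⟩
      rw [Submodule.map_iSup]
      apply iSup_le
      rintro ⟨_, h, hh, rfl⟩
      rw [← rg_conj]
      have hmem : cjm g (cjm h e) ∈ {o | ∃ h ∈ H, o = cjm h e} := by
        refine ⟨g * h, H.mul_mem hg hh, ?_⟩
        show (g : Matrix ι ι F) * ((h : Matrix ι ι F) * e * ((h⁻¹ : GL ι F) : Matrix ι ι F)) *
          ((g⁻¹ : GL ι F) : Matrix ι ι F) = ((g * h : GL ι F) : Matrix ι ι F) * e *
          (((g * h)⁻¹ : GL ι F) : Matrix ι ι F)
        rw [_root_.mul_inv_rev, Units.val_mul, Units.val_mul]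
        simp only [mul_assoc]
      exact le_iSup (fun o : {o | ∃ h ∈ H, o = cjm h e} => rg o.1) ⟨_, hmem⟩
    rcases hirr _ hinv with h | h
    · exfalso
      have hmem : e ∈ {o | ∃ h ∈ H, o = cjm h e} := ⟨1, H.one_mem, by simp [cjm]⟩
      have h2 : rg e ≤ ⨆ o : {o | ∃ h ∈ H, o = cjm h e}, rg o.1 :=
        le_iSup (fun o : {o | ∃ h ∈ H, o = cjm h e} => rg o.1) ⟨e, hmem⟩
      rw [h, le_bot_iff] at h2
      exact rg_ne_bot he0 h2
    · exact h

lemma nondeg_rg (hf : IsSymplecticForm f) {o : Matrix ι ι F} (ho : o * o = o) (hsa : IsAdj f o o) :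
    IsNondegenerateOn f (rg o) := by
  intro w hw hw0
  have hfix := idem_fix ho hw
  obtain ⟨⟨x, hx⟩, ⟨y, hy⟩⟩ := hf.nondegenerate w hw0
  refine ⟨⟨o *ᵥ x, mulVec_mem_rg _ _, ?_⟩, ⟨o *ᵥ y, mulVec_mem_rg _ _, ?_⟩⟩
  · rw [hsa, hfix]; exact hx
  · rw [← hsa, hfix]; exact hy

lemma orth_rg (hf : IsSymplecticForm f) {o₁ o₁' o₂ : Matrix ι ι F} (hsa : IsAdj f o₁ o₁')
    (h0 : o₁' * o₂ = 0) : AreOrthogonalFor f (rg o₁) (rg o₂) := by
  intro u hu v hv
  obtain ⟨u, rfl⟩ := mem_rg.1 hu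
  obtain ⟨v, rfl⟩ := mem_rg.1 hv
  rw [hsa, Matrix.mulVec_mulVec, h0, Matrix.zero_mulVec, bil_zero_right hf.bilinear]

lemma cjm_add (g : GL ι F) (a b : Matrix ι ι F) : cjm g (a + b) = cjm g a + cjm g b := by
  simp only [cjm, mul_add, add_mul]

/-- [comm] commutative adjoint-closed normalised subalgebra: field, or imprimitive. -/
theorem sp_comm [Finite F] [Nonempty ι] (hf : IsSymplecticForm f) (hH : FixesForm (matrixSet H) f)
    (hirr : ActsIrreducibly (matrixSet H)) {C : Subalgebra F (Matrix ι ι F)} (hC : NzA H C)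
    (hcomm : ∀ x ∈ C, ∀ y ∈ C, x * y = y * x) (hadj : IsAdjointClosedFor f C) :
    (∀ x ∈ C, x ≠ 0 → ∃ y ∈ C, x * y = 1) ∨ AltDec f H ∨ AltPair f H := by
  classical
  by_cases hall : ∀ f ∈ C, f * f = f → f = 0 ∨ f = 1
  · left
    intro x hx hx0
    obtain ⟨k, hk, hidem⟩ := exists_idem_pow x
    rcases hall _ (C.pow_mem hx k) hidem with h | h
    · exact absurd (nil_eq_zero hirr hC hcomm hx ⟨k, h⟩) hx0
    · refine ⟨x ^ (k - 1), C.pow_mem hx _, ?_⟩
      rw [← pow_succ', Nat.sub_add_cancel hk, h]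
  right
  push Not at hall
  obtain ⟨f₀, hf₀, hi, h0, h1⟩ := hall
  obtain ⟨m, e, hm, he1, hmin, hO, htop⟩ := exists_orbit hirr hC hcomm hf₀ hi h0 h1
  have hb := hf.bilinear
  have hnd := hf.nondegenerate
  set O : Set (Matrix ι ι F) := {o | ∃ h ∈ H, o = cjm h e} with hOdef
  have hOC : ∀ o ∈ O, o ∈ C := by rintro _ ⟨h, hh, rfl⟩; exact (hO h hh).1
  have hOi : ∀ o ∈ O, o * o = o := by rintro _ ⟨h, hh, rfl⟩; exact (hO h hh).2.1
  have hOr : ∀ o ∈ O, Module.finrank F (rg o) = m := by rintro _ ⟨h, hh, rfl⟩; exact (hO h hh).2.2.1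
  have hO0 : ∀ o ∈ O, o ≠ 0 := by rintro _ ⟨h, hh, rfl⟩; exact (hO h hh).2.2.2
  have heO : e ∈ O := ⟨1, H.one_mem, by simp [cjm]⟩
  have hOconj : ∀ g ∈ H, ∀ o ∈ O, cjm g o ∈ O := by
    rintro g hg _ ⟨h, hh, rfl⟩
    refine ⟨g * h, H.mul_mem hg hh, ?_⟩
    show (g : Matrix ι ι F) * ((h : Matrix ι ι F) * e * ((h⁻¹ : GL ι F) : Matrix ι ι F)) *
      ((g⁻¹ : GL ι F) : Matrix ι ι F) = ((g * h : GL ι F) : Matrix ι ι F) * e *
      (((g * h)⁻¹ : GL ι F) : Matrix ι ι F)
    rw [_root_.mul_inv_rev, Units.val_mul, Units.val_mul]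
    simp only [mul_assoc]
  have hOorth : ∀ o₁ ∈ O, ∀ o₂ ∈ O, o₁ ≠ o₂ → o₁ * o₂ = 0 := fun o₁ h₁ o₂ h₂ hne =>
    orth_of_min hmin (hOC _ h₁) (hOC _ h₂) (hcomm _ (hOC _ h₁) _ (hOC _ h₂)) (hOi _ h₁) (hOi _ h₂)
      (hOr _ h₁) (hOr _ h₂) hne
  -- a matrix killing all the ranges is zero
  have hkill : ∀ z : Matrix ι ι F, (∀ p ∈ O, z * p = 0) → z = 0 := by
    intro z hz
    apply matrix_eq_of_mulVec_eq
    intro v
    rw [Matrix.zero_mulVec]
    have hle : (⨆ o : O, rg o.1) ≤ LinearMap.ker (Matrix.toLin' z) := by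
      apply iSup_le
      rintro ⟨p, hp⟩ w hw
      obtain ⟨w, rfl⟩ := mem_rg.1 hw
      rw [LinearMap.mem_ker, Matrix.toLin'_apply, Matrix.mulVec_mulVec, hz p hp, Matrix.zero_mulVec]
    have hv : v ∈ (⨆ o : O, rg o.1) := htop ▸ Submodule.mem_top
    have := hle hv
    rwa [LinearMap.mem_ker, Matrix.toLin'_apply] at this
  -- adjoints of idempotents of C
  have hidadj : ∀ o ∈ C, o * o = o → o ≠ 0 → ∀ o', IsAdj f o o' → o' * o' = o' ∧ o' ≠ 0 := by
    intro o _ hoi ho0 o' hoo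
    constructor
    · have h2 := hoo.mul hoo
      rw [hoi] at h2
      exact h2.unique hb hnd hoo
    · rintro rfl
      exact ho0 (hoo.unique_left hb hnd (IsAdj.zero hb))
  -- the adjoint of a member of O is a member of O
  have hstar : ∀ o ∈ O, ∃ o' ∈ O, IsAdj f o o' := by
    intro o ho
    obtain ⟨o', ho'C, hoo⟩ := hadj o (hOC o ho)
    replace hoo : IsAdj f o o' := hoo
    obtain ⟨io', ho'0⟩ := hidadj o (hOC o ho) (hOi o ho) (hO0 o ho) o' hoo
    obtain ⟨p, hp, hp0⟩ : ∃ p ∈ O, o' * p ≠ 0 := by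
      by_contra hcon
      push Not at hcon
      exact ho'0 (hkill o' hcon)
    have hp0' : p * o' ≠ 0 := by rwa [hcomm p (hOC p hp) o' ho'C]
    have h3 : p = p * o' := le_of_min hmin (hOC p hp) ho'C (hcomm _ (hOC p hp) _ ho'C) (hOi p hp) io'
      (hOr p hp) hp0'
    obtain ⟨p', hp'C, hpp⟩ := hadj p (hOC p hp)
    replace hpp : IsAdj f p p' := hpp
    obtain ⟨ip', hp'0⟩ := hidadj p (hOC p hp) (hOi p hp) (hO0 p hp) p' hpp
    have h4 : IsAdj f (p * o') (o * p') := hpp.mul (hoo.symm hf)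
    rw [← h3] at h4
    have h5 : p' = o * p' := hpp.unique hb hnd h4
    have h6 : o = o * p' := le_of_min hmin (hOC o ho) hp'C (hcomm _ (hOC o ho) _ hp'C) (hOi o ho) ip'
      (hOr o ho) (by rw [← h5]; exact hp'0)
    have h7 : o = p' := h6.trans h5.symm
    rw [← h7] at hpp
    exact ⟨p, hp, hpp.symm hf⟩
  have hiso : ∀ h ∈ H, ∀ u v, f ((h : Matrix ι ι F) *ᵥ u) ((h : Matrix ι ι F) *ᵥ v) = f u v :=
    fun h hh => fixes_apply hH hh
  have hcardO : 2 ≤ Nat.card O := by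
    by_contra hlt
    have hle : Nat.card O ≤ 1 := by omega
    have : Finite O := Subtype.finite
    have : Subsingleton O := (Finite.card_le_one_iff_subsingleton).1 hle
    apply he1
    apply eq_one_of_rg_top (hOi e heO)
    rw [eq_top_iff, ← htop]
    apply iSup_le
    intro i
    rw [Subsingleton.elim i ⟨e, heO⟩]
  by_cases hsa : IsAdj f e e
  · -- all members self-adjoint: non-degenerate decomposition
    left
    have hOsa : ∀ o ∈ O, IsAdj f o o := by
      rintro _ ⟨h, hh, rfl⟩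
      exact hsa.conj (hiso h hh)
    obtain ⟨t, o, _, hoO, hinj, hdec, hstab⟩ := decomp_of_idems hm hOi hOr hOorth hOconj htop hcardO
    exact ⟨t, m, _, ⟨hdec, fun i => nondeg_rg hf (hOi _ (hoO i)) (hOsa _ (hoO i)),
      fun i j hij => orth_rg hf (hOsa _ (hoO i)) (hOorth _ (hoO i) _ (hoO j) (fun h => hij (hinj h)))⟩, hstab⟩
  · -- no member is self-adjoint
    have hOnsa : ∀ o ∈ O, ∀ o', IsAdj f o o' → o' ≠ o := by
      rintro _ ⟨h, hh, rfl⟩ o' hoo rfl
      apply hsa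
      have := hoo.conj_inv (hiso h hh)
      have e1 : ((h⁻¹ : GL ι F) : Matrix ι ι F) * cjm h e * (h : Matrix ι ι F) = e := (conjAlg h).left_inv e
      rwa [e1] at this
    obtain ⟨e', he'O, hee⟩ := hstar e heO
    let O' : Set (Matrix ι ι F) := {p | ∃ o o', o ∈ O ∧ o' ∈ O ∧ IsAdj f o o' ∧ p = o + o'}
    have hO'i : ∀ p ∈ O', p * p = p := by
      rintro _ ⟨o, o', ho, ho', hoo, rfl⟩
      have hne := hOnsa o ho o' hoo
      rw [add_mul, mul_add, mul_add, hOi o ho, hOi o' ho', hOorth o ho o' ho' hne.symm,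
        hOorth o' ho' o ho hne, add_zero, zero_add]
    have hO'sa : ∀ p ∈ O', IsAdj f p p := by
      rintro _ ⟨o, o', ho, ho', hoo, rfl⟩
      have := hoo.add hb (hoo.symm hf)
      rwa [add_comm o' o] at this
    have hO'conj : ∀ g ∈ H, ∀ p ∈ O', cjm g p ∈ O' := by
      rintro g hg _ ⟨o, o', ho, ho', hoo, rfl⟩
      exact ⟨cjm g o, cjm g o', hOconj g hg o ho, hOconj g hg o' ho', hoo.conj (hiso g hg), cjm_add g o o'⟩
    have hO'r : ∀ p ∈ O', Module.finrank F (rg p) = Module.finrank F (rg (e + e')) := by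
      rintro _ ⟨_, o', ⟨h, hh, rfl⟩, ho', hoo, rfl⟩
      have h2 : o' = cjm h e' := hoo.unique hb hnd (hee.conj (hiso h hh))
      rw [h2, ← cjm_add]
      exact finrank_rg_conj h _
    have hO'orth : ∀ p₁ ∈ O', ∀ p₂ ∈ O', p₁ ≠ p₂ → p₁ * p₂ = 0 := by
      rintro _ ⟨o₁, o₁', h₁, h₁', a₁, rfl⟩ _ ⟨o₂, o₂', h₂, h₂', a₂, rfl⟩ hne
      have n1 : o₁ ≠ o₂ := by
        rintro rfl
        exact hne (by rw [a₁.unique hb hnd a₂])
      have n2 : o₁ ≠ o₂' := by
        rintro rfl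
        apply hne
        rw [a₁.unique hb hnd (a₂.symm hf), add_comm]
      have n3 : o₁' ≠ o₂ := by
        rintro rfl
        apply hne
        rw [(a₁.symm hf).unique hb hnd a₂, add_comm]
      have n4 : o₁' ≠ o₂' := by
        rintro rfl
        apply hne
        rw [a₁.unique_left hb hnd a₂]
      rw [add_mul, mul_add, mul_add, hOorth _ h₁ _ h₂ n1, hOorth _ h₁ _ h₂' n2, hOorth _ h₁' _ h₂ n3,
        hOorth _ h₁' _ h₂' n4]
      simp
    have hle_rg : ∀ o o', o ∈ O → o' ∈ O → IsAdj f o o' → rg o ≤ rg (o + o') := by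
      intro o o' ho ho' hoo v hv
      refine mem_rg.2 ⟨v, ?_⟩
      have hfix := idem_fix (hOi o ho) hv
      rw [Matrix.add_mulVec, hfix]
      conv_lhs => rw [← hfix, Matrix.mulVec_mulVec, hOorth o' ho' o ho (hOnsa o ho o' hoo), Matrix.zero_mulVec,
        hfix, add_zero]
    have htop' : ⨆ p : O', rg p.1 = ⊤ := by
      rw [eq_top_iff, ← htop]
      apply iSup_le
      rintro ⟨o, ho⟩
      obtain ⟨o', ho', hoo⟩ := hstar o ho
      exact (hle_rg o o' ho ho' hoo).trans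
        (le_iSup (fun p : O' => rg p.1) ⟨o + o', o, o', ho, ho', hoo, rfl⟩)
    have hpO' : e + e' ∈ O' := ⟨e, e', heO, he'O, hee, rfl⟩
    have hm' : 0 < Module.finrank F (rg (e + e')) :=
      lt_of_lt_of_le (by rw [hOr e heO]; exact hm) (Submodule.finrank_mono (hle_rg e e' heO he'O hee))
    by_cases hcard : 2 ≤ Nat.card O'
    · left
      obtain ⟨t, o, _, hoO, hinj, hdec, hstab⟩ :=
        decomp_of_idems hm' hO'i hO'r hO'orth hO'conj htop' hcard
      exact ⟨t, _, _, ⟨hdec, fun i => nondeg_rg hf (hO'i _ (hoO i)) (hO'sa _ (hoO i)),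
        fun i j hij => orth_rg hf (hO'sa _ (hoO i)) (hO'orth _ (hoO i) _ (hoO j) (fun h => hij (hinj h)))⟩,
        hstab⟩
    · right
      have hle : Nat.card O' ≤ 1 := by omega
      have : Finite O' := Subtype.finite
      have : Subsingleton O' := (Finite.card_le_one_iff_subsingleton).1 hle
      have hone : e + e' = 1 := by
        apply eq_one_of_rg_top (hO'i _ hpO')
        rw [eq_top_iff, ← htop']
        apply iSup_le
        intro i
        rw [Subsingleton.elim i ⟨e + e', hpO'⟩]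
      have hOeq : O = {e, e'} := by
        ext o
        constructor
        · intro ho
          by_contra hcon
          simp only [Set.mem_insert_iff, Set.mem_singleton_iff, not_or] at hcon
          apply hO0 o ho
          have : o = o * (e + e') := by rw [hone, mul_one]
          rw [this, mul_add, hOorth o ho e heO hcon.1, hOorth o ho e' he'O hcon.2, add_zero]
        · rintro (rfl | rfl)
          · exact heO
          · exact he'O
      have hc2 : Nat.card O = 2 := by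
        rw [hOeq, Nat.card_coe_set_eq, Set.ncard_pair (hOnsa e heO e' hee).symm]
      obtain ⟨t, o, ht, hoO, hinj, hdec, hstab⟩ := decomp_of_idems hm hOi hOr hOorth hOconj htop hcardO
      rw [hc2] at ht
      subst ht
      refine ⟨m, _, hdec, fun i => ?_, hstab⟩
      obtain ⟨o', ho', hoo⟩ := hstar _ (hoO i)
      exact orth_rg hf hoo (hOorth _ ho' _ (hoO i) (hOnsa _ (hoO i) _ hoo))

end Cfsg.Agent.Lib.Helper96SpComm
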