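import Cfsg.Agent.Lib.Helper96SpBasic
import Cfsg.Agent.Lib.Helper96GComm
import Cfsg.Agent.Lib.Helper96SpComm
import Cfsg.Agent.Lib.Helper13UDefs

set_option autoImplicit false
set_option linter.unusedSectionVars false

/-! PROJECT 4 = ASCH-U, piece `comm`: helper96's `sp_comm` for an arbitrary reflexive biadditive
non-degenerate form (`rf_comm`, general index type), and the unitary corollary `comm_star`. -/

namespace Cfsg.Agent.Lib.Helper95UComm

open Cfsg Cfsg.Geo Matrix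
open Cfsg.Agent.Lib.Helper97GBase Cfsg.Agent.Lib.Helper97GClifford Cfsg.Agent.Lib.Helper98AschGDefs
  Cfsg.Agent.Lib.Helper98AschGBasic Cfsg.Agent.Lib.Helper96SpDefs Cfsg.Agent.Lib.Helper96GComm
  Cfsg.Agent.Lib.Helper96SpComm
open scoped MatrixGroups Kronecker

section general

variable {ι : Type} [Fintype ι] [DecidableEq ι] {F : Type*} [Field F]
variable {f : (ι → F) → (ι → F) → F} {H : Subgroup (GL ι F)}

/-- a biadditive, reflexive, non-degenerate form -/
structure RF (f : (ι → F) → (ι → F) → F) : Prop where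
  add_left : ∀ x y v, f (x + y) v = f x v + f y v
  add_right : ∀ v x y, f v (x + y) = f v x + f v y
  nondegenerate : IsNondegenerateForm f
  refl : ∃ τ : F → F, ∀ u v, f u v = τ (f v u)

lemma RF.zero_left (hf : RF f) (v : ι → F) : f 0 v = 0 := by
  have := hf.add_left 0 0 v
  rw [add_zero] at this
  exact left_eq_add.1 this

lemma RF.zero_right (hf : RF f) (v : ι → F) : f v 0 = 0 := by
  have := hf.add_right v 0 0
  rw [add_zero] at this
  exact left_eq_add.1 this

lemma RF.sub_left (hf : RF f) (u u' v : ι → F) : f (u - u') v = f u v - f u' v := by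
  have := hf.add_left (u - u') u' v
  rw [sub_add_cancel] at this
  rw [this, add_sub_cancel_right]

lemma RF.sub_right (hf : RF f) (u v v' : ι → F) : f u (v - v') = f u v - f u v' := by
  have := hf.add_right u (v - v') v'
  rw [sub_add_cancel] at this
  rw [this, add_sub_cancel_right]

lemma RF.eq_of_forall_right (hf : RF f) {v v' : ι → F} (h : ∀ u, f u v = f u v') : v = v' := by
  by_contra hne
  obtain ⟨x, hx⟩ := (hf.nondegenerate _ (sub_ne_zero.2 hne)).1
  apply hx
  rw [hf.sub_right, h, sub_self]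

lemma RF.eq_of_forall_left (hf : RF f) {v v' : ι → F} (h : ∀ u, f v u = f v' u) : v = v' := by
  by_contra hne
  obtain ⟨x, hx⟩ := (hf.nondegenerate _ (sub_ne_zero.2 hne)).2
  apply hx
  rw [hf.sub_left, h, sub_self]

end general

end Cfsg.Agent.Lib.Helper95UComm

namespace Cfsg.Agent.Lib.Helper96SpDefs

open Cfsg Cfsg.Geo Matrix Cfsg.Agent.Lib.Helper95UComm

variable {ι : Type} [Fintype ι] [DecidableEq ι] {F : Type*} [Field F]
variable {f : (ι → F) → (ι → F) → F}

lemma IsAdj.uniqueR (hf : RF f) {a b b' : Matrix ι ι F}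
    (h : IsAdj f a b) (h' : IsAdj f a b') : b = b' :=
  matrix_ext_mulVec fun v => hf.eq_of_forall_right fun u => by rw [← h, ← h']

lemma IsAdj.uniqueL (hf : RF f) {a a' b : Matrix ι ι F}
    (h : IsAdj f a b) (h' : IsAdj f a' b) : a = a' :=
  matrix_ext_mulVec fun v => hf.eq_of_forall_left fun u => by rw [h, h']

lemma IsAdj.addR (hf : RF f) {a a' b b' : Matrix ι ι F} (h : IsAdj f a a') (h' : IsAdj f b b') :
    IsAdj f (a + b) (a' + b') := fun u v => by
  rw [Matrix.add_mulVec, Matrix.add_mulVec, hf.add_left, hf.add_right, h, h']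

lemma IsAdj.symmR (hf : RF f) {a b : Matrix ι ι F} (h : IsAdj f a b) : IsAdj f b a := fun u v => by
  obtain ⟨τ, hτ⟩ := hf.refl
  rw [hτ, ← h, hτ u]

end Cfsg.Agent.Lib.Helper96SpDefs

namespace Cfsg.Agent.Lib.Helper95UComm

open Cfsg Cfsg.Geo Matrix
open Cfsg.Agent.Lib.Helper97GBase Cfsg.Agent.Lib.Helper97GClifford Cfsg.Agent.Lib.Helper98AschGDefs
  Cfsg.Agent.Lib.Helper98AschGBasic Cfsg.Agent.Lib.Helper96SpDefs Cfsg.Agent.Lib.Helper96GComm
  Cfsg.Agent.Lib.Helper96SpComm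
open scoped MatrixGroups Kronecker

section general2

variable {ι : Type} [Fintype ι] [DecidableEq ι] {F : Type*} [Field F]
variable {f : (ι → F) → (ι → F) → F} {H : Subgroup (GL ι F)}

lemma adj_zero (hf : RF f) : IsAdj f 0 0 := fun u v => by
  rw [Matrix.zero_mulVec, Matrix.zero_mulVec, hf.zero_left, hf.zero_right]

lemma nondeg_rgR (hf : RF f) {o : Matrix ι ι F} (ho : o * o = o) (hsa : IsAdj f o o) :
    IsNondegenerateOn f (rg o) := by
  intro w hw hw0
  have hfix := idem_fix ho hw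
  obtain ⟨⟨x, hx⟩, ⟨y, hy⟩⟩ := hf.nondegenerate w hw0
  refine ⟨⟨o *ᵥ x, mulVec_mem_rg _ _, ?_⟩, ⟨o *ᵥ y, mulVec_mem_rg _ _, ?_⟩⟩
  · rw [hsa, hfix]; exact hx
  · rw [← hsa, hfix]; exact hy

lemma orth_rgR (hf : RF f) {o₁ o₁' o₂ : Matrix ι ι F} (hsa : IsAdj f o₁ o₁')
    (h0 : o₁' * o₂ = 0) : AreOrthogonalFor f (rg o₁) (rg o₂) := by
  intro u hu v hv
  obtain ⟨u, rfl⟩ := mem_rg.1 hu
  obtain ⟨v, rfl⟩ := mem_rg.1 hv
  rw [hsa, Matrix.mulVec_mulVec, h0, Matrix.zero_mulVec, hf.zero_right]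

/-- [comm] commutative adjoint-closed normalised subalgebra: field, or imprimitive. -/
theorem rf_comm [Finite F] [Nonempty ι] (hf : RF f) (hH : FixesForm (matrixSet H) f)
    (hirr : ActsIrreducibly (matrixSet H)) {C : Subalgebra F (Matrix ι ι F)} (hC : NzA H C)
    (hcomm : ∀ x ∈ C, ∀ y ∈ C, x * y = y * x) (hadj : IsAdjointClosedFor f C) :
    (∀ x ∈ C, x ≠ 0 → ∃ y ∈ C, x * y = 1) ∨ AltDec f H ∨ AltPair f H := by
  classical
  by_cases hall : ∀ f ∈ C, f * f = f → f = 0 ∨ f = 1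
  · left
    intro x hx hx0
    obtain ⟨k, hk, hidem⟩ := exists_idem_pow x
    rcases hall _ (C.pow_mem hx k) hidem with h | h
    · exact absurd (nil_eq_zero hirr hC hcomm hx ⟨k, h⟩) hx0
    · refine ⟨x ^ (k - 1), C.pow_mem hx _, ?_⟩
      rw [← pow_succ', Nat.sub_add_cancel hk, h]
  right
  push Not at hall
  obtain ⟨f₀, hf₀, hi, h0, h1⟩ := hall
  obtain ⟨m, e, hm, he1, hmin, hO, htop⟩ := exists_orbit hirr hC hcomm hf₀ hi h0 h1
  set O : Set (Matrix ι ι F) := {o | ∃ h ∈ H, o = cjm h e} with hOdef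
  have hOC : ∀ o ∈ O, o ∈ C := by rintro _ ⟨h, hh, rfl⟩; exact (hO h hh).1
  have hOi : ∀ o ∈ O, o * o = o := by rintro _ ⟨h, hh, rfl⟩; exact (hO h hh).2.1
  have hOr : ∀ o ∈ O, Module.finrank F (rg o) = m := by rintro _ ⟨h, hh, rfl⟩; exact (hO h hh).2.2.1
  have hO0 : ∀ o ∈ O, o ≠ 0 := by rintro _ ⟨h, hh, rfl⟩; exact (hO h hh).2.2.2
  have heO : e ∈ O := ⟨1, H.one_mem, by simp [cjm]⟩
  have hOconj : ∀ g ∈ H, ∀ o ∈ O, cjm g o ∈ O := by
    rintro g hg _ ⟨h, hh, rfl⟩
    refine ⟨g * h, H.mul_mem hg hh, ?_⟩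
    show (g : Matrix ι ι F) * ((h : Matrix ι ι F) * e * ((h⁻¹ : GL ι F) : Matrix ι ι F)) *
      ((g⁻¹ : GL ι F) : Matrix ι ι F) = ((g * h : GL ι F) : Matrix ι ι F) * e *
      (((g * h)⁻¹ : GL ι F) : Matrix ι ι F)
    rw [_root_.mul_inv_rev, Units.val_mul, Units.val_mul]
    simp only [mul_assoc]
  have hOorth : ∀ o₁ ∈ O, ∀ o₂ ∈ O, o₁ ≠ o₂ → o₁ * o₂ = 0 := fun o₁ h₁ o₂ h₂ hne =>
    orth_of_min hmin (hOC _ h₁) (hOC _ h₂) (hcomm _ (hOC _ h₁) _ (hOC _ h₂)) (hOi _ h₁) (hOi _ h₂)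
      (hOr _ h₁) (hOr _ h₂) hne
  -- a matrix killing all the ranges is zero
  have hkill : ∀ z : Matrix ι ι F, (∀ p ∈ O, z * p = 0) → z = 0 := by
    intro z hz
    apply matrix_eq_of_mulVec_eq
    intro v
    rw [Matrix.zero_mulVec]
    have hle : (⨆ o : O, rg o.1) ≤ LinearMap.ker (Matrix.toLin' z) := by
      apply iSup_le
      rintro ⟨p, hp⟩ w hw
      obtain ⟨w, rfl⟩ := mem_rg.1 hw
      rw [LinearMap.mem_ker, Matrix.toLin'_apply, Matrix.mulVec_mulVec, hz p hp, Matrix.zero_mulVec]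
    have hv : v ∈ (⨆ o : O, rg o.1) := htop ▸ Submodule.mem_top
    have := hle hv
    rwa [LinearMap.mem_ker, Matrix.toLin'_apply] at this
  -- adjoints of idempotents of C
  have hidadj : ∀ o ∈ C, o * o = o → o ≠ 0 → ∀ o', IsAdj f o o' → o' * o' = o' ∧ o' ≠ 0 := by
    intro o _ hoi ho0 o' hoo
    constructor
    · have h2 := hoo.mul hoo
      rw [hoi] at h2
      exact h2.uniqueR hf hoo
    · rintro rfl
      exact ho0 (hoo.uniqueL hf (adj_zero hf))
  -- the adjoint of a member of O is a member of O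
  have hstar : ∀ o ∈ O, ∃ o' ∈ O, IsAdj f o o' := by
    intro o ho
    obtain ⟨o', ho'C, hoo⟩ := hadj o (hOC o ho)
    replace hoo : IsAdj f o o' := hoo
    obtain ⟨io', ho'0⟩ := hidadj o (hOC o ho) (hOi o ho) (hO0 o ho) o' hoo
    obtain ⟨p, hp, hp0⟩ : ∃ p ∈ O, o' * p ≠ 0 := by
      by_contra hcon
      push Not at hcon
      exact ho'0 (hkill o' hcon)
    have hp0' : p * o' ≠ 0 := by rwa [hcomm p (hOC p hp) o' ho'C]
    have h3 : p = p * o' := le_of_min hmin (hOC p hp) ho'C (hcomm _ (hOC p hp) _ ho'C) (hOi p hp) io'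
      (hOr p hp) hp0'
    obtain ⟨p', hp'C, hpp⟩ := hadj p (hOC p hp)
    replace hpp : IsAdj f p p' := hpp
    obtain ⟨ip', hp'0⟩ := hidadj p (hOC p hp) (hOi p hp) (hO0 p hp) p' hpp
    have h4 : IsAdj f (p * o') (o * p') := hpp.mul (hoo.symmR hf)
    rw [← h3] at h4
    have h5 : p' = o * p' := hpp.uniqueR hf h4
    have h6 : o = o * p' := le_of_min hmin (hOC o ho) hp'C (hcomm _ (hOC o ho) _ hp'C) (hOi o ho) ip'
      (hOr o ho) (by rw [← h5]; exact hp'0)
    have h7 : o = p' := h6.trans h5.symm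
    rw [← h7] at hpp
    exact ⟨p, hp, hpp.symmR hf⟩
  have hiso : ∀ h ∈ H, ∀ u v, f ((h : Matrix ι ι F) *ᵥ u) ((h : Matrix ι ι F) *ᵥ v) = f u v :=
    fun h hh => fixes_apply hH hh
  have hcardO : 2 ≤ Nat.card O := by
    by_contra hlt
    have hle : Nat.card O ≤ 1 := by omega
    have : Finite O := Subtype.finite
    have : Subsingleton O := (Finite.card_le_one_iff_subsingleton).1 hle
    apply he1
    apply eq_one_of_rg_top (hOi e heO)
    rw [eq_top_iff, ← htop]
    apply iSup_le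
    intro i
    rw [Subsingleton.elim i ⟨e, heO⟩]
  by_cases hsa : IsAdj f e e
  · -- all members self-adjoint: non-degenerate decomposition
    left
    have hOsa : ∀ o ∈ O, IsAdj f o o := by
      rintro _ ⟨h, hh, rfl⟩
      exact hsa.conj (hiso h hh)
    obtain ⟨t, o, _, hoO, hinj, hdec, hstab⟩ := decomp_of_idems hm hOi hOr hOorth hOconj htop hcardO
    exact ⟨t, m, _, ⟨hdec, fun i => nondeg_rgR hf (hOi _ (hoO i)) (hOsa _ (hoO i)),
      fun i j hij => orth_rgR hf (hOsa _ (hoO i)) (hOorth _ (hoO i) _ (hoO j) (fun h => hij (hinj h)))⟩, hstab⟩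
  · -- no member is self-adjoint
    have hOnsa : ∀ o ∈ O, ∀ o', IsAdj f o o' → o' ≠ o := by
      rintro _ ⟨h, hh, rfl⟩ o' hoo rfl
      apply hsa
      have := hoo.conj_inv (hiso h hh)
      have e1 : ((h⁻¹ : GL ι F) : Matrix ι ι F) * cjm h e * (h : Matrix ι ι F) = e := (conjAlg h).left_inv e
      rwa [e1] at this
    obtain ⟨e', he'O, hee⟩ := hstar e heO
    let O' : Set (Matrix ι ι F) := {p | ∃ o o', o ∈ O ∧ o' ∈ O ∧ IsAdj f o o' ∧ p = o + o'}
    have hO'i : ∀ p ∈ O', p * p = p := by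
      rintro _ ⟨o, o', ho, ho', hoo, rfl⟩
      have hne := hOnsa o ho o' hoo
      rw [add_mul, mul_add, mul_add, hOi o ho, hOi o' ho', hOorth o ho o' ho' hne.symm,
        hOorth o' ho' o ho hne, add_zero, zero_add]
    have hO'sa : ∀ p ∈ O', IsAdj f p p := by
      rintro _ ⟨o, o', ho, ho', hoo, rfl⟩
      have := hoo.addR hf (hoo.symmR hf)
      rwa [add_comm o' o] at this
    have hO'conj : ∀ g ∈ H, ∀ p ∈ O', cjm g p ∈ O' := by
      rintro g hg _ ⟨o, o', ho, ho', hoo, rfl⟩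
      exact ⟨cjm g o, cjm g o', hOconj g hg o ho, hOconj g hg o' ho', hoo.conj (hiso g hg), cjm_add g o o'⟩
    have hO'r : ∀ p ∈ O', Module.finrank F (rg p) = Module.finrank F (rg (e + e')) := by
      rintro _ ⟨_, o', ⟨h, hh, rfl⟩, ho', hoo, rfl⟩
      have h2 : o' = cjm h e' := hoo.uniqueR hf (hee.conj (hiso h hh))
      rw [h2, ← cjm_add]
      exact finrank_rg_conj h _
    have hO'orth : ∀ p₁ ∈ O', ∀ p₂ ∈ O', p₁ ≠ p₂ → p₁ * p₂ = 0 := by
      rintro _ ⟨o₁, o₁', h₁, h₁', a₁, rfl⟩ _ ⟨o₂, o₂', h₂, h₂', a₂, rfl⟩ hne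
      have n1 : o₁ ≠ o₂ := by
        rintro rfl
        exact hne (by rw [a₁.uniqueR hf a₂])
      have n2 : o₁ ≠ o₂' := by
        rintro rfl
        apply hne
        rw [a₁.uniqueR hf (a₂.symmR hf), add_comm]
      have n3 : o₁' ≠ o₂ := by
        rintro rfl
        apply hne
        rw [(a₁.symmR hf).uniqueR hf a₂, add_comm]
      have n4 : o₁' ≠ o₂' := by
        rintro rfl
        apply hne
        rw [a₁.uniqueL hf a₂]
      rw [add_mul, mul_add, mul_add, hOorth _ h₁ _ h₂ n1, hOorth _ h₁ _ h₂' n2, hOorth _ h₁' _ h₂ n3,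
        hOorth _ h₁' _ h₂' n4]
      simp
    have hle_rg : ∀ o o', o ∈ O → o' ∈ O → IsAdj f o o' → rg o ≤ rg (o + o') := by
      intro o o' ho ho' hoo v hv
      refine mem_rg.2 ⟨v, ?_⟩
      have hfix := idem_fix (hOi o ho) hv
      rw [Matrix.add_mulVec, hfix]
      conv_lhs => rw [← hfix, Matrix.mulVec_mulVec, hOorth o' ho' o ho (hOnsa o ho o' hoo), Matrix.zero_mulVec,
        hfix, add_zero]
    have htop' : ⨆ p : O', rg p.1 = ⊤ := by
      rw [eq_top_iff, ← htop]
      apply iSup_le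
      rintro ⟨o, ho⟩
      obtain ⟨o', ho', hoo⟩ := hstar o ho
      exact (hle_rg o o' ho ho' hoo).trans
        (le_iSup (fun p : O' => rg p.1) ⟨o + o', o, o', ho, ho', hoo, rfl⟩)
    have hpO' : e + e' ∈ O' := ⟨e, e', heO, he'O, hee, rfl⟩
    have hm' : 0 < Module.finrank F (rg (e + e')) :=
      lt_of_lt_of_le (by rw [hOr e heO]; exact hm) (Submodule.finrank_mono (hle_rg e e' heO he'O hee))
    by_cases hcard : 2 ≤ Nat.card O'
    · left
      obtain ⟨t, o, _, hoO, hinj, hdec, hstab⟩ :=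
        decomp_of_idems hm' hO'i hO'r hO'orth hO'conj htop' hcard
      exact ⟨t, _, _, ⟨hdec, fun i => nondeg_rgR hf (hO'i _ (hoO i)) (hO'sa _ (hoO i)),
        fun i j hij => orth_rgR hf (hO'sa _ (hoO i)) (hO'orth _ (hoO i) _ (hoO j) (fun h => hij (hinj h)))⟩,
        hstab⟩
    · right
      have hle : Nat.card O' ≤ 1 := by omega
      have : Finite O' := Subtype.finite
      have : Subsingleton O' := (Finite.card_le_one_iff_subsingleton).1 hle
      have hone : e + e' = 1 := by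
        apply eq_one_of_rg_top (hO'i _ hpO')
        rw [eq_top_iff, ← htop']
        apply iSup_le
        intro i
        rw [Subsingleton.elim i ⟨e + e', hpO'⟩]
      have hOeq : O = {e, e'} := by
        ext o
        constructor
        · intro ho
          by_contra hcon
          simp only [Set.mem_insert_iff, Set.mem_singleton_iff, not_or] at hcon
          apply hO0 o ho
          have : o = o * (e + e') := by rw [hone, mul_one]
          rw [this, mul_add, hOorth o ho e heO hcon.1, hOorth o ho e' he'O hcon.2, add_zero]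
        · rintro (rfl | rfl)
          · exact heO
          · exact he'O
      have hc2 : Nat.card O = 2 := by
        rw [hOeq, Nat.card_coe_set_eq, Set.ncard_pair (hOnsa e heO e' hee).symm]
      obtain ⟨t, o, ht, hoO, hinj, hdec, hstab⟩ := decomp_of_idems hm hOi hOr hOorth hOconj htop hcardO
      rw [hc2] at ht
      subst ht
      refine ⟨m, _, hdec, fun i => ?_, hstab⟩
      obtain ⟨o', ho', hoo⟩ := hstar _ (hoO i)
      exact orth_rgR hf hoo (hOorth _ ho' _ (hoO i) (hOnsa _ (hoO i) _ hoo))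

end general2

section unitary

open Cfsg.Agent.Lib.Helper97UBase

variable {n : ℕ} {F : Type*} [Field F] {σ : F ≃+* F} {f : (Fin n → F) → (Fin n → F) → F}

lemma rf_of_unitary (hf : IsUnitaryForm σ f) : RF f where
  add_left := hf.add_left
  add_right v x y := by
    rw [hf.herm v (x + y), hf.add_left, map_add, ← hf.herm, ← hf.herm]
  nondegenerate := hf.nondegenerate
  refl := ⟨σ, hf.herm⟩

lemma decomp_card' {t m : ℕ} (D : Fin t → Submodule F (Fin n → F)) (hD : IsMDecomposition m D) :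
    n = t * m := by
  classical
  have hint : DirectSum.IsInternal D :=
    DirectSum.isInternal_submodule_of_iSupIndep_of_iSup_eq_top hD.indep hD.iSup_eq_top
  have e := LinearEquiv.ofBijective (DirectSum.coeLinearMap D) hint
  have h1 := e.finrank_eq
  rw [Module.finrank_directSum, Module.finrank_fin_fun] at h1
  rw [← h1]
  simp [hD.finrank_eq]

/-- [comm] a commutative adjoint-closed subalgebra normalised by an irreducible group of isometries is a field,
or the group stabilises a non-degenerate decomposition or a pair of totally singular subspaces. -/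
theorem comm_star [Finite F] [NeZero n] (hf : IsUnitaryForm σ f) {H : Subgroup (GL (Fin n) F)}
    (hH : H ≤ Iso f) (hirr : ActsIrreducibly (matrixSet H))
    {C : Subalgebra F (Matrix (Fin n) (Fin n) F)} (hC : Cfsg.Agent.Lib.Helper98AschDefs.NzA H C)
    (hcomm : ∀ x ∈ C, ∀ y ∈ C, x * y = y * x) (hstar : IsAdjointClosedFor f C) :
    (∀ x ∈ C, x ≠ 0 → ∃ y ∈ C, x * y = 1) ∨
    (∃ (t k : ℕ) (D : Fin t → Submodule F (Fin n → F)), IsNondegenerateMDecomposition f k D ∧
      H ≤ decompositionStabilizer D) ∨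
    (∃ (k : ℕ) (D : Fin 2 → Submodule F (Fin n → F)), 2 * k = n ∧ IsMDecomposition k D ∧
      (∀ i, IsTotallySingularFor f (D i)) ∧ H ≤ decompositionStabilizer D) := by
  have : Nonempty (Fin n) := ⟨⟨0, Nat.pos_of_ne_zero (NeZero.ne n)⟩⟩
  have hfix : FixesForm (matrixSet H) f := by
    rintro _ ⟨h, hh, rfl⟩ u v
    exact mem_Iso.1 (hH hh) u v
  rcases rf_comm (rf_of_unitary hf) hfix hirr (C := C) (fun h hh a ha => hC h hh a ha) hcomm hstar
    with h | h | ⟨k, D, hD, hts, hle⟩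
  · exact Or.inl h
  · exact Or.inr (Or.inl h)
  · exact Or.inr (Or.inr ⟨k, D, (decomp_card' D hD).symm, hD, hts, hle⟩)

end unitary

end Cfsg.Agent.Lib.Helper95UComm
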