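import Cfsg.Agent.Lib.Helper96SpDefs

set_option autoImplicit false

/-! PROJECT 3 = ASCH-SP, piece `tensodd`. -/

namespace Cfsg.Agent.Lib.Helper95SpTensodd

open Cfsg Cfsg.Geo Matrix
open Cfsg.Agent.Lib.Helper97GBase Cfsg.Agent.Lib.Helper98AschGDefs Cfsg.Agent.Lib.Helper96SpDefs
open scoped MatrixGroups Kronecker

variable {ι : Type} [Fintype ι] [DecidableEq ι] {F : Type*} [Field F]
variable {f : (ι → F) → (ι → F) → F} {H : Subgroup (GL ι F)}

section gram

variable {κ : Type} [Fintype κ] [DecidableEq κ]

lemma formOfGram_eq (G : Matrix κ κ F) (x y : κ → F) :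
    formOfGram id G x y = Matrix.toBilin' G x y := by
  rw [Matrix.toBilin'_apply]
  rfl

lemma formOfGram_bilinear (G : Matrix κ κ F) : IsBilinearForm (formOfGram id G) where
  add_left x y v := by simp only [formOfGram_eq, map_add, LinearMap.add_apply]
  smul_left c x v := by simp only [formOfGram_eq, map_smul, LinearMap.smul_apply, smul_eq_mul]
  add_right v x y := by simp only [formOfGram_eq, map_add]
  smul_right c v x := by simp only [formOfGram_eq, map_smul, smul_eq_mul]

lemma gramMatrix_formOfGram (G : Matrix κ κ F) : gramMatrix (formOfGram id G) = G := by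
  funext a b
  simp only [gramMatrix, formOfGram_eq, Matrix.toBilin'_single]

lemma formOfGram_nondegenerate (G : Matrix κ κ F) (hG : IsUnit G.det) :
    IsNondegenerateForm (formOfGram id G) := by
  have h := (LinearMap.BilinForm.nondegenerate_toBilin'_iff_det_ne_zero (M := G)).2 hG.ne_zero
  intro v hv
  constructor
  · by_contra hcon
    push Not at hcon
    exact hv (h.2 v fun x => by rw [← formOfGram_eq]; exact hcon x)
  · by_contra hcon
    push Not at hcon
    exact hv (h.1 v fun x => by rw [← formOfGram_eq]; exact hcon x)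

lemma formOfGram_flip (G : Matrix κ κ F) (x y : κ → F) :
    formOfGram id G x y = formOfGram id Gᵀ y x := by
  simp only [formOfGram, id, Matrix.transpose_apply]
  rw [Finset.sum_comm]
  refine Finset.sum_congr rfl fun b _ => Finset.sum_congr rfl fun a _ => ?_
  ring

lemma formOfGram_neg (G : Matrix κ κ F) (x y : κ → F) :
    formOfGram id (-G) x y = - formOfGram id G x y := by
  simp only [formOfGram, id, Matrix.neg_apply, mul_neg, neg_mul, Finset.sum_neg_distrib]

lemma formOfGram_symmetric (G : Matrix κ κ F) (hG : IsUnit G.det) (hs : Gᵀ = G) :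
    IsSymmetricForm (formOfGram id G) where
  bilinear := formOfGram_bilinear G
  symm u v := by rw [formOfGram_flip, hs]
  nondegenerate := formOfGram_nondegenerate G hG

lemma formOfGram_symplectic (h2 : (2 : F) ≠ 0) (G : Matrix κ κ F) (hG : IsUnit G.det)
    (hs : Gᵀ = -G) : IsSymplecticForm (formOfGram id G) where
  bilinear := formOfGram_bilinear G
  skew u v := by rw [formOfGram_flip, hs, formOfGram_neg]
  alternating v := by
    have h : formOfGram id G v v = - formOfGram id G v v := by
      conv_lhs => rw [formOfGram_flip, hs, formOfGram_neg]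
    have h3 : (2 : F) * formOfGram id G v v = 0 := by linear_combination h
    rcases mul_eq_zero.1 h3 with h | h
    · exact absurd h h2
    · exact h
  nondegenerate := formOfGram_nondegenerate G hG

end gram

/-- [tensodd] odd characteristic, symmetric factor of dimension at least 3: class 4. -/
theorem sp_tensor_odd (h2 : (2 : F) ≠ 0) {d s : ℕ} (hs : 3 ≤ s)
    (e : ι ≃ Fin d × Fin s) (P : GL ι F) (hle : H ≤ tensorProductSubgroup d s e P)
    (G₁ : Matrix (Fin d) (Fin d) F) (G₂ : Matrix (Fin s) (Fin s) F) (h₁ : IsUnit G₁.det) (h₂ : IsUnit G₂.det)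
    (hG : ∀ x y : Fin d × Fin s → F, f ((P : Matrix ι ι F) *ᵥ (x ∘ e)) ((P : Matrix ι ι F) *ᵥ (y ∘ e)) =
        formOfGram id (G₁ ⊗ₖ G₂) x y) (hs₁ : G₁ᵀ = -G₁) (hs₂ : G₂ᵀ = G₂) : AltTensor f H := by
  refine ⟨d, s, e, P, formOfGram id G₁, formOfGram id G₂, hs, formOfGram_symplectic h2 G₁ h₁ hs₁,
    formOfGram_symmetric G₂ h₂ hs₂, ⟨1, one_ne_zero, fun x y => ?_⟩, hle⟩
  rw [hG, gramMatrix_formOfGram, gramMatrix_formOfGram, one_mul]

end Cfsg.Agent.Lib.Helper95SpTensodd
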