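import Cfsg.Agent.Lib.Helper96SpDefs
import Cfsg.Agent.Lib.Helper95SpTensodd

set_option autoImplicit false

/-! PROJECT 3 = ASCH-SP, piece `tenstwo`. -/

namespace Cfsg.Agent.Lib.Helper95SpTenstwo

open Cfsg Cfsg.Geo Matrix
open Cfsg.Agent.Lib.Helper97GBase Cfsg.Agent.Lib.Helper98AschGDefs Cfsg.Agent.Lib.Helper98AschGBasic
  Cfsg.Agent.Lib.Helper96SpDefs Cfsg.Agent.Lib.Helper95SpTensodd
open scoped MatrixGroups Kronecker

variable {ι : Type} [Fintype ι] [DecidableEq ι] {F : Type*} [Field F]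
variable {f : (ι → F) → (ι → F) → F} {H : Subgroup (GL ι F)}

section coords

variable {κ : Type} [Fintype κ] [DecidableEq κ]

/-- action of a transported conjugated matrix in coordinates -/
lemma conj_reindex_mulVec (e : ι ≃ κ) (P : GL ι F) (M : Matrix κ κ F) (x : κ → F) :
    ((P : Matrix ι ι F) * Matrix.reindex e.symm e.symm M * ((P⁻¹ : GL ι F) : Matrix ι ι F)) *ᵥ
      ((P : Matrix ι ι F) *ᵥ (x ∘ e)) = (P : Matrix ι ι F) *ᵥ ((M *ᵥ x) ∘ e) := by
  rw [Matrix.mulVec_mulVec, Matrix.mul_assoc, vi, Matrix.mul_one, ← Matrix.mulVec_mulVec]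
  congr 1
  rw [Matrix.reindex_apply, Equiv.symm_symm, Matrix.submatrix_mulVec_equiv]
  congr 2
  funext p
  simp

lemma exists_coords (e : ι ≃ κ) (P : GL ι F) (u : ι → F) :
    ∃ x : κ → F, u = (P : Matrix ι ι F) *ᵥ (x ∘ e) := by
  refine ⟨(((P⁻¹ : GL ι F) : Matrix ι ι F) *ᵥ u) ∘ e.symm, ?_⟩
  have : ((((P⁻¹ : GL ι F) : Matrix ι ι F) *ᵥ u) ∘ e.symm) ∘ e = ((P⁻¹ : GL ι F) : Matrix ι ι F) *ᵥ u := by
    funext p; simp
  rw [this, Matrix.mulVec_mulVec, iv, Matrix.one_mulVec]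

lemma formOfGram_mulVec_left (G M : Matrix κ κ F) (x y : κ → F) :
    formOfGram id G (M *ᵥ x) y = formOfGram id (Mᵀ * G) x y := by
  rw [formOfGram_eq, formOfGram_eq, Matrix.toBilin'_apply', Matrix.toBilin'_apply',
    ← Matrix.mulVec_mulVec, Matrix.dotProduct_mulVec _ Mᵀ, Matrix.vecMul_transpose]

lemma formOfGram_mulVec_right (G M : Matrix κ κ F) (x y : κ → F) :
    formOfGram id G x (M *ᵥ y) = formOfGram id (G * M) x y := by
  rw [formOfGram_eq, formOfGram_eq, Matrix.toBilin'_apply', Matrix.toBilin'_apply',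
    Matrix.mulVec_mulVec]

lemma formOfGram_inj {G G' : Matrix κ κ F}
    (h : ∀ x y, formOfGram id G x y = formOfGram id G' x y) : G = G' := by
  rw [← gramMatrix_formOfGram G, ← gramMatrix_formOfGram G']
  funext a b
  exact h _ _

end coords

/-- the standard skew matrix -/
def J0 (F : Type*) [Field F] : Matrix (Fin 2) (Fin 2) F := !![0, 1; -1, 0]

lemma transpose_J0 : (J0 F)ᵀ = - J0 F := by
  ext i j
  fin_cases i <;> fin_cases j <;> simp [J0]

lemma transpose_mul_J0_mul (b : Matrix (Fin 2) (Fin 2) F) : bᵀ * J0 F * b = b.det • J0 F := by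
  ext i j
  fin_cases i <;> fin_cases j <;>
    simp [J0, Matrix.mul_apply, Fin.sum_univ_two, Matrix.det_fin_two] <;> ring

lemma exists_ne_zero_of_isUnit_det {n : ℕ} (hn : 0 < n) (G : Matrix (Fin n) (Fin n) F)
    (h : IsUnit G.det) : ∃ i j, G i j ≠ 0 := by
  by_contra hcon
  push Not at hcon
  have h0 : G = 0 := by
    ext i j; exact hcon i j
  have : Nonempty (Fin n) := ⟨⟨0, hn⟩⟩
  rw [h0, Matrix.det_zero] at h
  exact not_isUnit_zero h

/-- an isometry `a ⊗ b` of `G₁ ⊗ G₂` : matrix form -/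
lemma isometry_tens {d s : ℕ} (e : ι ≃ Fin d × Fin s) (P : GL ι F)
    (G : Matrix (Fin d × Fin s) (Fin d × Fin s) F)
    (hG : ∀ x y : Fin d × Fin s → F, f ((P : Matrix ι ι F) *ᵥ (x ∘ e)) ((P : Matrix ι ι F) *ᵥ (y ∘ e)) =
        formOfGram id G x y) (M : Matrix (Fin d × Fin s) (Fin d × Fin s) F)
    (h : ∀ u v, f (((P : Matrix ι ι F) * Matrix.reindex e.symm e.symm M * ((P⁻¹ : GL ι F) : Matrix ι ι F)) *ᵥ u)
      (((P : Matrix ι ι F) * Matrix.reindex e.symm e.symm M * ((P⁻¹ : GL ι F) : Matrix ι ι F)) *ᵥ v) = f u v) :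
    Mᵀ * G * M = G := by
  apply formOfGram_inj
  intro x y
  rw [← formOfGram_mulVec_right, ← formOfGram_mulVec_left, ← hG, ← hG, ← conj_reindex_mulVec,
    ← conj_reindex_mulVec, h]

/-- [tenstwo] odd characteristic, symmetric factor of dimension 2: `H` normalises the commutative algebra
`1 ⊗ F[j]`, `j = G₂⁻¹ J₀` (then apply [comm], [field]). -/
theorem sp_tensor_two [Nonempty ι] (h2 : (2 : F) ≠ 0) (hf : IsSymplecticForm f) (hH : FixesForm (matrixSet H) f) {d : ℕ}
    (e : ι ≃ Fin d × Fin 2) (P : GL ι F) (hle : H ≤ tensorProductSubgroup d 2 e P)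
    (G₁ : Matrix (Fin d) (Fin d) F) (G₂ : Matrix (Fin 2) (Fin 2) F) (h₁ : IsUnit G₁.det) (h₂ : IsUnit G₂.det)
    (hG : ∀ x y : Fin d × Fin 2 → F, f ((P : Matrix ι ι F) *ᵥ (x ∘ e)) ((P : Matrix ι ι F) *ᵥ (y ∘ e)) =
        formOfGram id (G₁ ⊗ₖ G₂) x y) (hs₂ : G₂ᵀ = G₂) :
    ∃ C : Subalgebra F (Matrix ι ι F), NzA H C ∧ (∀ x ∈ C, ∀ y ∈ C, x * y = y * x) ∧
      IsAdjointClosedFor f C ∧ ∃ x ∈ C, ∀ c : F, x ≠ c • (1 : Matrix ι ι F) := by
  classical
  have hd : 0 < d := by
    obtain ⟨i⟩ := ‹Nonempty ι›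
    exact lt_of_le_of_lt (Nat.zero_le _) (e i).1.2
  set j : Matrix (Fin 2) (Fin 2) F := G₂⁻¹ * J0 F with hj
  have hGj : G₂ * j = J0 F := by
    rw [hj, ← Matrix.mul_assoc, Matrix.mul_nonsing_inv _ h₂, Matrix.one_mul]
  have hjG : jᵀ * G₂ = - J0 F := by
    rw [hj, Matrix.transpose_mul, Matrix.transpose_nonsing_inv, hs₂, Matrix.mul_assoc,
      Matrix.nonsing_inv_mul _ h₂, Matrix.mul_one, transpose_J0]
  set z : Matrix ι ι F := tens e P 1 j with hz
  have hzadj : ∀ u v, f (z *ᵥ u) v = f u (((-1 : F) • z) *ᵥ v) := by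
    intro u v
    obtain ⟨x, rfl⟩ := exists_coords e P u
    obtain ⟨y, rfl⟩ := exists_coords e P v
    rw [hz, ← tens_smul_right]
    unfold tens
    rw [conj_reindex_mulVec, conj_reindex_mulVec, hG, hG, formOfGram_mulVec_left,
      formOfGram_mulVec_right, ← Matrix.kroneckerMap_transpose, ← Matrix.mul_kronecker_mul,
      ← Matrix.mul_kronecker_mul, hjG, Matrix.mul_smul, hGj, Matrix.transpose_one, Matrix.one_mul,
      Matrix.mul_one, neg_one_smul]
  refine ⟨Algebra.adjoin F {z}, ?_, ?_, ?_, z, Algebra.self_mem_adjoin_singleton F z, ?_⟩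
  · -- normalised
    intro h hh a ha
    obtain ⟨a₁, b, hab⟩ := (mem_tensorProductSubgroup_iff e P h).1 (hle hh)
    have hiso := isometry_tens e P _ hG ((a₁ : Matrix (Fin d) (Fin d) F) ⊗ₖ (b : Matrix (Fin 2) (Fin 2) F))
      (by
        intro u v
        have := hH (h : Matrix ι ι F) ⟨h, hh, rfl⟩ u v
        rw [hab] at this
        exact this)
    rw [← Matrix.kroneckerMap_transpose, ← Matrix.mul_kronecker_mul, ← Matrix.mul_kronecker_mul] at hiso
    obtain ⟨i, i', hii⟩ := exists_ne_zero_of_isUnit_det hd G₁ h₁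
    obtain ⟨k, l, hkl⟩ := exists_ne_zero_of_isUnit_det (by norm_num) G₂ h₂
    have hent : ∀ k l, ((a₁ : Matrix (Fin d) (Fin d) F)ᵀ * G₁ * (a₁ : Matrix (Fin d) (Fin d) F)) i i' *
        ((b : Matrix (Fin 2) (Fin 2) F)ᵀ * G₂ * (b : Matrix (Fin 2) (Fin 2) F)) k l = G₁ i i' * G₂ k l := by
      intro k l
      have := congrFun (congrFun hiso (i, k)) (i', l)
      simpa [Matrix.kroneckerMap_apply] using this
    set α := ((a₁ : Matrix (Fin d) (Fin d) F)ᵀ * G₁ * (a₁ : Matrix (Fin d) (Fin d) F)) i i' with hα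
    have hα0 : α ≠ 0 := by
      intro h0
      have := hent k l
      rw [h0, zero_mul] at this
      exact mul_ne_zero hii hkl this.symm
    have hbG : (b : Matrix (Fin 2) (Fin 2) F)ᵀ * G₂ * (b : Matrix (Fin 2) (Fin 2) F) = (G₁ i i' / α) • G₂ := by
      ext k l
      rw [Matrix.smul_apply, smul_eq_mul, div_mul_eq_mul_div, eq_div_iff hα0, mul_comm]
      exact hent k l
    have hdb : (b : Matrix (Fin 2) (Fin 2) F).det ≠ 0 :=
      ((Matrix.isUnit_iff_isUnit_det _).1 b.isUnit).ne_zero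
    set lam : F := (G₁ i i' / α) / (b : Matrix (Fin 2) (Fin 2) F).det with hlam
    have hbj : (b : Matrix (Fin 2) (Fin 2) F) * j = lam • (j * (b : Matrix (Fin 2) (Fin 2) F)) := by
      have hu : IsUnit ((b : Matrix (Fin 2) (Fin 2) F)ᵀ * G₂) := by
        rw [Matrix.isUnit_iff_isUnit_det, Matrix.det_mul, Matrix.det_transpose]
        exact ((Matrix.isUnit_iff_isUnit_det _).1 b.isUnit).mul h₂
      apply hu.mul_left_cancel
      rw [← Matrix.mul_assoc, hbG, Matrix.smul_mul, hGj, Matrix.mul_smul, Matrix.mul_assoc,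
        ← Matrix.mul_assoc G₂, hGj, ← Matrix.mul_assoc, transpose_mul_J0_mul, smul_smul, hlam,
        div_mul_cancel₀ _ hdb]
    have hconj : (h : Matrix ι ι F) * z * ((h⁻¹ : GL ι F) : Matrix ι ι F) = lam • z := by
      have h1 : (h : Matrix ι ι F) * z = lam • (z * (h : Matrix ι ι F)) := by
        rw [hab, hz, tens_mul, tens_mul, Matrix.mul_one, Matrix.one_mul, hbj, tens_smul_right]
      rw [h1, Matrix.smul_mul, Matrix.mul_assoc, iv, Matrix.mul_one]
    have key : ∀ a ∈ Algebra.adjoin F {z}, conjAlg h a ∈ Algebra.adjoin F {z} := by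
      intro a ha
      induction ha using Algebra.adjoin_induction with
      | mem x hx =>
        rw [Set.mem_singleton_iff] at hx
        rw [hx, conjAlg_apply, hconj]
        exact Subalgebra.smul_mem _ (Algebra.self_mem_adjoin_singleton F z) _
      | algebraMap r =>
        rw [AlgEquiv.commutes]
        exact Subalgebra.algebraMap_mem _ _
      | add x y _ _ hx hy => rw [map_add]; exact add_mem hx hy
      | mul x y _ _ hx hy => rw [map_mul]; exact mul_mem hx hy
    exact key a ha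
  · intro x hx y hy
    exact (Algebra.commute_of_mem_adjoin_singleton_of_commute hy
      (Algebra.commute_of_mem_adjoin_self hx).symm).eq
  · intro k hk
    induction hk using Algebra.adjoin_induction with
    | mem x hx =>
      rw [Set.mem_singleton_iff] at hx
      subst hx
      exact ⟨_, Subalgebra.smul_mem _ (Algebra.self_mem_adjoin_singleton F z) _, hzadj⟩
    | algebraMap r =>
      refine ⟨_, Subalgebra.algebraMap_mem _ r, fun u v => ?_⟩
      rw [Algebra.algebraMap_eq_smul_one, Matrix.smul_mulVec, Matrix.smul_mulVec, Matrix.one_mulVec,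
        Matrix.one_mulVec, hf.bilinear.smul_left, hf.bilinear.smul_right]
    | add x y _ _ hx hy =>
      obtain ⟨x', hx', hxa⟩ := hx
      obtain ⟨y', hy', hya⟩ := hy
      refine ⟨x' + y', add_mem hx' hy', fun u v => ?_⟩
      rw [Matrix.add_mulVec, Matrix.add_mulVec, hf.bilinear.add_left, hf.bilinear.add_right, hxa, hya]
    | mul x y _ _ hx hy =>
      obtain ⟨x', hx', hxa⟩ := hx
      obtain ⟨y', hy', hya⟩ := hy
      refine ⟨y' * x', mul_mem hy' hx', fun u v => ?_⟩
      rw [← Matrix.mulVec_mulVec, ← Matrix.mulVec_mulVec, hxa, hya]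
  · intro c hc
    have h1 : tens e P (1 : Matrix (Fin d) (Fin d) F) j = tens e P 1 (c • (1 : Matrix (Fin 2) (Fin 2) F)) := by
      rw [tens_smul_right, tens_one]
      exact hc
    rw [tens_eq, tens_eq] at h1
    have h3 := tens_injective e P h1
    have h4 : j = c • (1 : Matrix (Fin 2) (Fin 2) F) := by
      ext k l
      have := congrFun (congrFun h3 (⟨0, hd⟩, k)) (⟨0, hd⟩, l)
      simpa [Matrix.kroneckerMap_apply] using this
    have h5 : J0 F = c • G₂ := by
      rw [← hGj, h4, Matrix.mul_smul, Matrix.mul_one]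
    have h6 : (J0 F)ᵀ = J0 F := by
      rw [h5, Matrix.transpose_smul, hs₂]
    have h7 := congrFun (congrFun h6 0) 1
    simp [J0] at h7
    apply h2
    linear_combination -h7

end Cfsg.Agent.Lib.Helper95SpTenstwo
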