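import Cfsg.Agent.Lib.Helper13UDefs
import Cfsg.Agent.Lib.Helper96GTensnorm
import Cfsg.Agent.Lib.Helper17Herm
import Cfsg.Agent.Lib.Helper95SpTenstwo

set_option autoImplicit false
set_option linter.unusedSectionVars false

/-! PROJECT 4 = ASCH-U, piece `tensform`. -/

namespace Cfsg.Agent.Lib.Helper95UTensform

open Cfsg Cfsg.Geo Matrix
open scoped MatrixGroups Kronecker

section sesq

variable {κ : Type} [Fintype κ] [DecidableEq κ] {F : Type*} [Field F] (σ : F ≃+* F)

/-- sesquilinear function forms -/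
structure SQ (g : (κ → F) → (κ → F) → F) : Prop where
  add_left : ∀ x y v, g (x + y) v = g x v + g y v
  smul_left : ∀ (c : F) (x v : κ → F), g (c • x) v = c * g x v
  add_right : ∀ v x y, g v (x + y) = g v x + g v y
  smul_right : ∀ (c : F) (v x : κ → F), g v (c • x) = σ c * g v x

variable {σ}

lemma SQ.expand {g : (κ → F) → (κ → F) → F} (hg : SQ σ g) (x y : κ → F) :
    g x y = formOfGram σ (fun a b => g (Pi.single a 1) (Pi.single b 1)) x y := by
  let B : (κ → F) →ₗ[F] (κ → F) →ₛₗ[(σ : F →+* F)] F :=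
    LinearMap.mk₂'ₛₗ (RingHom.id F) (σ : F →+* F) g hg.add_left hg.smul_left hg.add_right
      hg.smul_right
  have h := congrArg (fun B' : (κ → F) →ₗ[F] (κ → F) →ₛₗ[(σ : F →+* F)] F => B' x y)
    (Matrix.toLinearMapₛₗ₂'_toMatrix' (R := F) (RingHom.id F) (σ : F →+* F) B)
  simp only [Matrix.toLinearMapₛₗ₂'_apply, LinearMap.toMatrixₛₗ₂'_apply] at h
  have h2 : B x y = g x y := rfl
  rw [← h2, ← h]
  simp only [formOfGram]
  refine Finset.sum_congr rfl fun a _ => Finset.sum_congr rfl fun b _ => ?_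
  simp only [RingHom.id_apply, smul_eq_mul, RingHom.coe_coe]
  have h3 : B (Pi.single a 1) (Pi.single b 1) = g (Pi.single a 1) (Pi.single b 1) := rfl
  rw [h3]
  ring

lemma formOfGram_single (G : Matrix κ κ F) (a b : κ) :
    formOfGram σ G (Pi.single a 1) (Pi.single b 1) = G a b := by
  simp only [formOfGram]
  rw [Finset.sum_eq_single a, Finset.sum_eq_single b]
  · simp
  · intro c _ hc
    simp [Pi.single_eq_of_ne hc]
  · simp
  · intro c _ hc
    simp [Pi.single_eq_of_ne hc]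
  · simp

lemma formOfGram_inj {G G' : Matrix κ κ F}
    (h : ∀ x y, formOfGram σ G x y = formOfGram σ G' x y) : G = G' := by
  ext a b
  rw [← formOfGram_single (σ := σ) G, ← formOfGram_single (σ := σ) G', h]

lemma formOfGram_dot (G : Matrix κ κ F) (x y : κ → F) :
    formOfGram σ G x y = x ⬝ᵥ (G *ᵥ (fun b => σ (y b))) := by
  simp only [formOfGram, dotProduct, Matrix.mulVec, Finset.mul_sum, mul_assoc]

lemma formOfGram_mulVec_left (G M : Matrix κ κ F) (x y : κ → F) :
    formOfGram σ G (M *ᵥ x) y = formOfGram σ (Mᵀ * G) x y := by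
  rw [formOfGram_dot, formOfGram_dot, ← Matrix.mulVec_mulVec, Matrix.dotProduct_mulVec _ Mᵀ,
    Matrix.vecMul_transpose]

lemma formOfGram_mulVec_right (G M : Matrix κ κ F) (x y : κ → F) :
    formOfGram σ G x (M *ᵥ y) = formOfGram σ (G * M.map σ) x y := by
  rw [formOfGram_dot, formOfGram_dot, ← Matrix.mulVec_mulVec]
  congr 2
  funext b
  simp only [Matrix.mulVec, dotProduct, map_sum, map_mul, Matrix.map_apply]

lemma formOfGram_one (x y : κ → F) : formOfGram σ (1 : Matrix κ κ F) x y = ∑ a, x a * σ (y a) := by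
  rw [formOfGram_dot, Matrix.one_mulVec]
  rfl

lemma formOfGram_SQ (G : Matrix κ κ F) : SQ σ (formOfGram σ G) where
  add_left x y v := by simp only [formOfGram_dot, add_dotProduct]
  smul_left c x v := by simp only [formOfGram_dot, smul_dotProduct, smul_eq_mul]
  add_right v x y := by
    simp only [formOfGram_dot]
    rw [← dotProduct_add, ← Matrix.mulVec_add]
    congr 2
    funext b
    simp
  smul_right c v x := by
    simp only [formOfGram_dot]
    rw [← smul_eq_mul, ← dotProduct_smul, ← Matrix.mulVec_smul]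
    congr 2
    funext b
    simp

lemma formOfGram_herm (hσ2 : ∀ a, σ (σ a) = a) (G : Matrix κ κ F) (hh : (G.map σ)ᵀ = G)
    (x y : κ → F) : σ (formOfGram σ G x y) = formOfGram σ G y x := by
  simp only [formOfGram, map_sum, map_mul, hσ2]
  rw [Finset.sum_comm]
  refine Finset.sum_congr rfl fun b _ => Finset.sum_congr rfl fun a _ => ?_
  have : σ (G a b) = G b a := by
    conv_rhs => rw [← hh]
    rfl
  rw [this]
  ring

lemma formOfGram_sep (G : Matrix κ κ F) (hG : IsUnit G.det) (y : κ → F)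
    (h : ∀ x, formOfGram σ G x y = 0) : y = 0 := by
  have h1 : G *ᵥ (fun b => σ (y b)) = 0 := by
    apply dotProduct_eq_zero
    intro x
    rw [dotProduct_comm, ← formOfGram_dot]
    exact h x
  have h2 : (fun b => σ (y b)) = 0 := by
    have := congrArg (fun w => G⁻¹ *ᵥ w) h1
    simpa [Matrix.mulVec_mulVec, Matrix.nonsing_inv_mul _ hG] using this
  funext b
  have := congrFun h2 b
  simpa using this

end sesq

section field

variable {F : Type*} [Field F] {σ : F ≃+* F}

lemma hilbert90 (hσ : σ ≠ RingEquiv.refl F) (hσ2 : ∀ a, σ (σ a) = a) (l : F) (h : l * σ l = 1) :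
    ∃ μ : F, μ ≠ 0 ∧ l * σ μ = μ := by
  have key : ∀ θ : F, l * σ (θ + l * σ θ) = θ + l * σ θ := by
    intro θ
    rw [map_add, map_mul, hσ2]
    linear_combination θ * h
  by_cases h1 : (1 : F) + l * σ 1 = 0
  · -- l = -1
    have hl : l = -1 := by
      rw [map_one] at h1
      linear_combination h1
    obtain ⟨a, ha⟩ : ∃ a : F, σ a ≠ a := by
      by_contra hcon
      push Not at hcon
      exact hσ (RingEquiv.ext hcon)
    refine ⟨a + l * σ a, ?_, key a⟩
    rw [hl]
    intro h0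
    apply ha
    linear_combination -h0
  · exact ⟨_, h1, key 1⟩

end field

section kron

variable {F : Type*} [Field F]

lemma kron_eq {d s : ℕ} (X X' : Matrix (Fin d) (Fin d) F) (Y Y' : Matrix (Fin s) (Fin s) F)
    (h : X ⊗ₖ Y = X' ⊗ₖ Y') (hX' : X' ≠ 0) (hY' : Y' ≠ 0) :
    ∃ c : F, c ≠ 0 ∧ X = c • X' ∧ Y = c⁻¹ • Y' := by
  obtain ⟨i, j, hij⟩ : ∃ i j, X' i j ≠ 0 := by
    by_contra hcon
    push Not at hcon
    exact hX' (by ext i j; exact hcon i j)
  obtain ⟨k, l, hkl⟩ : ∃ k l, Y' k l ≠ 0 := by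
    by_contra hcon
    push Not at hcon
    exact hY' (by ext i j; exact hcon i j)
  have hent : ∀ i j k l, X i j * Y k l = X' i j * Y' k l := by
    intro i j k l
    have := congrFun (congrFun h (i, k)) (j, l)
    simpa [Matrix.kroneckerMap_apply] using this
  have hx : X i j ≠ 0 := by
    intro h0
    have := hent i j k l
    rw [h0, zero_mul] at this
    exact mul_ne_zero hij hkl this.symm
  have hy : Y k l ≠ 0 := by
    intro h0
    have := hent i j k l
    rw [h0, mul_zero] at this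
    exact mul_ne_zero hij hkl this.symm
  refine ⟨X i j / X' i j, div_ne_zero hx hij, ?_, ?_⟩
  · ext i' j'
    rw [Matrix.smul_apply, smul_eq_mul]
    have e1 := hent i' j' k l
    have e2 := hent i j k l
    field_simp
    apply mul_right_cancel₀ hy
    linear_combination (X' i j) * e1 - (X' i' j') * e2
  · ext k' l'
    rw [Matrix.smul_apply, smul_eq_mul, inv_div]
    have e1 := hent i j k' l'
    field_simp
    linear_combination e1

end kron

section on

variable {F : Type*} [Field F] {σ : F ≃+* F}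

lemma exists_ON_matrix [Finite F] (hσ : σ ≠ RingEquiv.refl F) (hσ2 : ∀ a, σ (σ a) = a) {k : ℕ}
    (G : Matrix (Fin k) (Fin k) F) (hG : IsUnit G.det) (hh : (G.map σ)ᵀ = G) :
    ∃ B : GL (Fin k) F, (B : Matrix (Fin k) (Fin k) F)ᵀ * G * (B : Matrix (Fin k) (Fin k) F).map σ = 1 := by
  classical
  have hsq := formOfGram_SQ (σ := σ) G
  let BB : (Fin k → F) →ₛₗ[(σ : F →+* F)] (Fin k → F) →ₗ[F] F :=
    LinearMap.mk₂'ₛₗ (σ : F →+* F) (RingHom.id F) (fun u v => formOfGram σ G v u)
      (fun x y v => hsq.add_right v x y) (fun c x v => hsq.smul_right c v x)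
      (fun v x y => hsq.add_left x y v) (fun c v x => hsq.smul_left c x v)
  have hBB : ∀ u v, BB u v = formOfGram σ G v u := fun u v => rfl
  have hS : BB.IsSymm := by
    constructor
    intro x y
    rw [hBB, hBB]
    exact formOfGram_herm hσ2 G hh y x
  have hB : BB.Nondegenerate := by
    constructor
    · intro x hx
      exact formOfGram_sep G hG x hx
    · intro y hy
      apply formOfGram_sep (σ := σ) G hG y
      intro x
      rw [← formOfGram_herm hσ2 G hh, ← hBB, hy, map_zero]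
  have hσ' : (σ : F →+* F) ≠ RingHom.id F := by
    intro h
    apply hσ
    ext a
    exact congrArg (fun τ : F →+* F => τ a) h
  obtain ⟨e, he⟩ := Cfsg.Agent.Lib.Helper17Herm.exists_ON (B := BB) hσ' hσ2 hS hB k (by simp)
  let B : Matrix (Fin k) (Fin k) F := Matrix.of fun a j => e j a
  have hcol : ∀ i, B *ᵥ Pi.single i 1 = e i := by
    intro i
    rw [Matrix.mulVec_single_one]
    rfl
  have hmat : Bᵀ * G * B.map σ = 1 := by
    ext i j
    rw [← formOfGram_single (σ := σ) (Bᵀ * G * B.map σ), ← formOfGram_mulVec_right,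
      ← formOfGram_mulVec_left, hcol, hcol, ← hBB, he j i, Matrix.one_apply]
    simp only [eq_comm]
  have hdet : IsUnit B.det := by
    have := congrArg Matrix.det hmat
    rw [Matrix.det_mul, Matrix.det_mul, Matrix.det_transpose, Matrix.det_one, mul_assoc] at this
    exact IsUnit.of_mul_eq_one _ this
  exact ⟨((Matrix.isUnit_iff_isUnit_det B).2 hdet).unit, hmat⟩

end on

section aux

variable {F : Type*} [Field F] {σ : F ≃+* F}

lemma kron_map {d s : ℕ} (X : Matrix (Fin d) (Fin d) F) (Y : Matrix (Fin s) (Fin s) F) :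
    (X ⊗ₖ Y).map σ = X.map σ ⊗ₖ Y.map σ := by
  ext ⟨i, k⟩ ⟨j, l⟩
  simp [Matrix.kroneckerMap_apply]

lemma one_map {κ : Type} [DecidableEq κ] : (1 : Matrix κ κ F).map σ = 1 := by
  ext i j
  by_cases h : i = j
  · subst h; simp
  · simp [Matrix.one_apply_ne h]

lemma tensG_refl {d s : ℕ} (a : Matrix (Fin d) (Fin d) F) (b : Matrix (Fin s) (Fin s) F) :
    Cfsg.Agent.Lib.Helper98AschGDefs.tens (Equiv.refl (Fin d × Fin s)) (1 : GL (Fin d × Fin s) F) a b
      = a ⊗ₖ b := by
  unfold Cfsg.Agent.Lib.Helper98AschGDefs.tens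
  simp

lemma map_conj_of_mem {G : Type*} [Group G] (S : Subgroup G) {t : G} (ht : t ∈ S) :
    S.map (MulAut.conj t).toMonoidHom = S := by
  ext x
  constructor
  · rintro ⟨y, hy, rfl⟩
    exact S.mul_mem (S.mul_mem ht hy) (S.inv_mem ht)
  · intro hx
    refine ⟨t⁻¹ * x * t, S.mul_mem (S.mul_mem (S.inv_mem ht) hx) ht, ?_⟩
    simp [mul_assoc]

/-- the Kronecker product of two invertible matrices -/
def kronGL {d s : ℕ} (a : GL (Fin d) F) (b : GL (Fin s) F) : GL (Fin d × Fin s) F :=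
  ⟨(a : Matrix (Fin d) (Fin d) F) ⊗ₖ (b : Matrix (Fin s) (Fin s) F),
    ((a⁻¹ : GL (Fin d) F) : Matrix (Fin d) (Fin d) F) ⊗ₖ ((b⁻¹ : GL (Fin s) F) : Matrix (Fin s) (Fin s) F),
    by rw [← Matrix.mul_kronecker_mul, ← Units.val_mul, ← Units.val_mul, mul_inv_cancel,
      mul_inv_cancel, Units.val_one, Units.val_one, Matrix.one_kronecker_one],
    by rw [← Matrix.mul_kronecker_mul, ← Units.val_mul, ← Units.val_mul, inv_mul_cancel,
      inv_mul_cancel, Units.val_one, Units.val_one, Matrix.one_kronecker_one]⟩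

end aux

section main

open Cfsg.Agent.Lib.Helper97AschBase Cfsg.Agent.Lib.Helper97UBase Cfsg.Agent.Lib.Helper98AschDefs
  Cfsg.Agent.Lib.Helper98AschBasic Cfsg.Agent.Lib.Helper13UDefs

variable {n : ℕ} {F : Type*} [Field F] {σ : F ≃+* F} {f : (Fin n → F) → (Fin n → F) → F}

/-- a tensor decomposition of the Gram matrix gives an orthonormal basis adapted to the decomposition -/
theorem on_of_gram [Finite F] (hf : IsUnitaryForm σ f) {d s : ℕ} (e : Fin n ≃ Fin d × Fin s)
    (P : GL (Fin n) F) (G₁ : Matrix (Fin d) (Fin d) F) (G₂ : Matrix (Fin s) (Fin s) F)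
    (h₁ : IsUnit G₁.det) (h₂ : IsUnit G₂.det) (hh₁ : (G₁.map σ)ᵀ = G₁) (hh₂ : (G₂.map σ)ᵀ = G₂)
    (hG : ∀ x y : Fin d × Fin s → F,
      f ((P : Matrix (Fin n) (Fin n) F) *ᵥ (x ∘ e)) ((P : Matrix (Fin n) (Fin n) F) *ᵥ (y ∘ e)) =
        formOfGram σ (G₁ ⊗ₖ G₂) x y) :
    ∃ P' : GL (Fin n) F, IsON σ f P' ∧
      tensorProductSubgroup d s e P' = tensorProductSubgroup d s e P := by
  classical
  obtain ⟨B₁, hB₁⟩ := exists_ON_matrix hf.ne_refl hf.involutive G₁ h₁ hh₁
  obtain ⟨B₂, hB₂⟩ := exists_ON_matrix hf.ne_refl hf.involutive G₂ h₂ hh₂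
  let t : GL (Fin n) F := glReindex e.symm (kronGL B₁ B₂)
  have ht : (t : Matrix (Fin n) (Fin n) F)
      = ((B₁ : Matrix (Fin d) (Fin d) F) ⊗ₖ (B₂ : Matrix (Fin s) (Fin s) F)).submatrix e e := rfl
  refine ⟨P * t, ?_, ?_⟩
  · intro x y
    have hx : ∀ x : Fin n → F, ((P * t : GL (Fin n) F) : Matrix (Fin n) (Fin n) F) *ᵥ x
        = (P : Matrix (Fin n) (Fin n) F) *ᵥ
          ((((B₁ : Matrix (Fin d) (Fin d) F) ⊗ₖ (B₂ : Matrix (Fin s) (Fin s) F)) *ᵥ (x ∘ e.symm)) ∘ e) := by
      intro x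
      rw [Units.val_mul, ← Matrix.mulVec_mulVec, ht, Matrix.submatrix_mulVec_equiv]
    rw [hx, hx, hG, formOfGram_mulVec_left, formOfGram_mulVec_right, kron_map,
      ← Matrix.kroneckerMap_transpose, ← Matrix.mul_kronecker_mul, ← Matrix.mul_kronecker_mul, hB₁, hB₂,
      Matrix.one_kronecker_one, formOfGram_one]
    exact Equiv.sum_comp e.symm (fun i => x i * σ (y i))
  · unfold tensorProductSubgroup
    have h1 : (MulAut.conj (P * t)).toMonoidHom
        = (MulAut.conj P).toMonoidHom.comp (MulAut.conj t).toMonoidHom := by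
      ext1 x
      simp [mul_assoc]
    have h2 : t ∈ (kroneckerSubgroup d s F).map (glReindex e.symm).toMonoidHom :=
      ⟨kronGL B₁ B₂, ⟨B₁, B₂, rfl⟩, rfl⟩
    rw [h1, ← Subgroup.map_map, map_conj_of_mem _ h2]

lemma unitary_add_right (hf : IsUnitaryForm σ f) (v x y : Fin n → F) :
    f v (x + y) = f v x + f v y := by
  rw [hf.herm v (x + y), hf.add_left, map_add, ← hf.herm, ← hf.herm]

lemma unitary_smul_right (hf : IsUnitaryForm σ f) (c : F) (v x : Fin n → F) :
    f v (c • x) = σ c * f v x := by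
  rw [hf.herm v (c • x), hf.smul_left, map_mul, ← hf.herm]

/-- [tensform] an adjoint-closed tensor factor `P (M_d ⊗ 1) P⁻¹`: the same tensor decomposition is given by an
orthonormal basis. -/
theorem tensor_form [Fintype F] {q : ℕ} (hU : US σ f q) {d s : ℕ} (e : Fin n ≃ Fin d × Fin s)
    (P : GL (Fin n) F)
    (hstar : ∀ a : Matrix (Fin d) (Fin d) F, ∃ b : Matrix (Fin d) (Fin d) F,
      ∀ u v, f (tens e P a 1 *ᵥ u) v = f u (tens e P b 1 *ᵥ v)) :
    ∃ P' : GL (Fin n) F, IsON σ f P' ∧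
      tensorProductSubgroup d s e P' = tensorProductSubgroup d s e P := by
  classical
  have hf := hU.unitary
  have hσ2 := hf.involutive
  rcases Nat.eq_zero_or_pos n with hn | hn
  · subst hn
    refine ⟨P, fun x y => ?_, rfl⟩
    have h0 : (P : Matrix (Fin 0) (Fin 0) F) *ᵥ x = 0 := Subsingleton.elim _ _
    have h1 := hf.smul_left 0 0 ((P : Matrix (Fin 0) (Fin 0) F) *ᵥ y)
    rw [h0]
    simpa using h1
  have hd : Nonempty (Fin d) := ⟨(e ⟨0, hn⟩).1⟩
  have hs : Nonempty (Fin s) := ⟨(e ⟨0, hn⟩).2⟩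
  -- the form in coordinates
  let g : (Fin d × Fin s → F) → (Fin d × Fin s → F) → F := fun x y =>
    f ((P : Matrix (Fin n) (Fin n) F) *ᵥ (x ∘ e)) ((P : Matrix (Fin n) (Fin n) F) *ᵥ (y ∘ e))
  have hg : SQ σ g :=
    { add_left := fun x y v => by
        show f ((P : Matrix (Fin n) (Fin n) F) *ᵥ (x ∘ e + y ∘ e)) _ = _
        rw [Matrix.mulVec_add, hf.add_left]
      smul_left := fun c x v => by
        show f ((P : Matrix (Fin n) (Fin n) F) *ᵥ (c • (x ∘ e))) _ = _
        rw [Matrix.mulVec_smul, hf.smul_left]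
      add_right := fun v x y => by
        show f _ ((P : Matrix (Fin n) (Fin n) F) *ᵥ (x ∘ e + y ∘ e)) = _
        rw [Matrix.mulVec_add, unitary_add_right hf]
      smul_right := fun c v x => by
        show f _ ((P : Matrix (Fin n) (Fin n) F) *ᵥ (c • (x ∘ e))) = _
        rw [Matrix.mulVec_smul, unitary_smul_right hf] }
  set J : Matrix (Fin d × Fin s) (Fin d × Fin s) F :=
    fun a b => g (Pi.single a 1) (Pi.single b 1) with hJdef
  have hJ : ∀ x y, g x y = formOfGram σ J x y := hg.expand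
  have hJh : (J.map σ)ᵀ = J := by
    ext a b
    show σ (g _ _) = g _ _
    exact (hf.herm _ _).symm
  have hJdet : IsUnit J.det := by
    rw [isUnit_iff_ne_zero]
    intro h0
    obtain ⟨w, hw0, hw⟩ := Matrix.exists_mulVec_eq_zero_iff.2 h0
    let y : Fin d × Fin s → F := fun b => σ (w b)
    have hy : (fun b => σ (y b)) = w := by
      funext b
      exact hσ2 _
    have hy0 : (P : Matrix (Fin n) (Fin n) F) *ᵥ (y ∘ e) ≠ 0 := by
      intro h
      have h1 := congrArg (fun v => ((P⁻¹ : GL (Fin n) F) : Matrix (Fin n) (Fin n) F) *ᵥ v) h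
      simp only [Matrix.mulVec_mulVec, vi, Matrix.one_mulVec, Matrix.mulVec_zero] at h1
      apply hw0
      funext b
      have h2 := congrFun h1 (e.symm b)
      simp only [Function.comp_apply, Equiv.apply_symm_apply, Pi.zero_apply, y] at h2
      simpa using h2
    obtain ⟨u, hu⟩ := (hf.nondegenerate _ hy0).1
    obtain ⟨x, rfl⟩ := Cfsg.Agent.Lib.Helper95SpTenstwo.exists_coords e P u
    apply hu
    have : g x y = 0 := by
      rw [hJ, formOfGram_dot, hy, hw, dotProduct_zero]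
    exact this
  -- the adjoint condition in matrix form
  have hadj : ∀ a : Matrix (Fin d) (Fin d) F, ∃ b : Matrix (Fin d) (Fin d) F,
      (a ⊗ₖ (1 : Matrix (Fin s) (Fin s) F)) * J = J * (b ⊗ₖ (1 : Matrix (Fin s) (Fin s) F)) := by
    intro a
    obtain ⟨b, hb⟩ := hstar aᵀ
    refine ⟨b.map σ, ?_⟩
    have h1 : (aᵀ ⊗ₖ (1 : Matrix (Fin s) (Fin s) F))ᵀ * J
        = J * (b ⊗ₖ (1 : Matrix (Fin s) (Fin s) F)).map σ := by
      apply formOfGram_inj (σ := σ)
      intro x y
      rw [← formOfGram_mulVec_left, ← formOfGram_mulVec_right, ← hJ, ← hJ]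
      show f ((P : Matrix (Fin n) (Fin n) F) *ᵥ _) _ = f _ ((P : Matrix (Fin n) (Fin n) F) *ᵥ _)
      rw [← Cfsg.Agent.Lib.Helper95SpTenstwo.conj_reindex_mulVec,
        ← Cfsg.Agent.Lib.Helper95SpTenstwo.conj_reindex_mulVec]
      exact hb _ _
    rw [← Matrix.kroneckerMap_transpose, Matrix.transpose_transpose, Matrix.transpose_one, kron_map,
      one_map] at h1
    exact h1
  -- J is a Kronecker product
  let Jg : GL (Fin d × Fin s) F := ((Matrix.isUnit_iff_isUnit_det J).2 hJdet).unit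
  have hJg : (Jg : Matrix (Fin d × Fin s) (Fin d × Fin s) F) = J := rfl
  have hmem : Jg⁻¹ ∈ tensorProductSubgroup d s (Equiv.refl (Fin d × Fin s)) (1 : GL (Fin d × Fin s) F) := by
    apply Cfsg.Agent.Lib.Helper96GTensnorm.mem_tensorProductSubgroup_of_normalizes
    intro a
    obtain ⟨b, hb⟩ := hadj a
    refine ⟨b, ?_⟩
    rw [tensG_refl, tensG_refl, inv_inv, hJg, Matrix.mul_assoc, hb, ← Matrix.mul_assoc, ← hJg,
      ← Units.val_mul, inv_mul_cancel, Units.val_one, Matrix.one_mul]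
  have hmem2 : Jg ∈ tensorProductSubgroup d s (Equiv.refl (Fin d × Fin s)) (1 : GL (Fin d × Fin s) F) := by
    have := Subgroup.inv_mem _ hmem
    rwa [inv_inv] at this
  obtain ⟨G₁, G₂, hJG⟩ :=
    Cfsg.Agent.Lib.Helper96GTensnorm.exists_of_mem_tensorProductSubgroup _ _ _ hmem2
  rw [tensG_refl, hJg] at hJG
  -- hermitian factors
  have hG₁0 : (G₁ : Matrix (Fin d) (Fin d) F) ≠ 0 := G₁.ne_zero
  have hG₂0 : (G₂ : Matrix (Fin s) (Fin s) F) ≠ 0 := G₂.ne_zero
  have hkr : ((G₁ : Matrix (Fin d) (Fin d) F).map σ)ᵀ ⊗ₖ ((G₂ : Matrix (Fin s) (Fin s) F).map σ)ᵀ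
      = (G₁ : Matrix (Fin d) (Fin d) F) ⊗ₖ (G₂ : Matrix (Fin s) (Fin s) F) := by
    rw [Matrix.kroneckerMap_transpose, ← kron_map, ← hJG, hJh]
  obtain ⟨c, hc0, hc₁, hc₂⟩ := kron_eq _ _ _ _ hkr hG₁0 hG₂0
  have hcc : c * σ c = 1 := by
    obtain ⟨i, j, hij⟩ : ∃ i j, (G₁ : Matrix (Fin d) (Fin d) F) i j ≠ 0 := by
      by_contra hcon
      push Not at hcon
      exact hG₁0 (by ext i j; exact hcon i j)
    have e1 : σ ((G₁ : Matrix (Fin d) (Fin d) F) j i) = c * (G₁ : Matrix (Fin d) (Fin d) F) i j := by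
      have := congrFun (congrFun hc₁ i) j
      simpa using this
    have e2 : σ ((G₁ : Matrix (Fin d) (Fin d) F) i j) = c * (G₁ : Matrix (Fin d) (Fin d) F) j i := by
      have := congrFun (congrFun hc₁ j) i
      simpa using this
    have e3 := congrArg σ e2
    rw [hσ2, map_mul, e1] at e3
    apply mul_right_cancel₀ hij
    linear_combination -e3
  obtain ⟨μ, hμ0, hμ⟩ := hilbert90 hf.ne_refl hσ2 c hcc
  have hσμ : σ μ ≠ 0 := by
    intro h
    rw [h, mul_zero] at hμ
    exact hμ0 hμ.symm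
  apply on_of_gram hf e P (μ • (G₁ : Matrix (Fin d) (Fin d) F)) (μ⁻¹ • (G₂ : Matrix (Fin s) (Fin s) F))
  · rw [Matrix.det_smul]
    exact (IsUnit.pow _ (isUnit_iff_ne_zero.2 hμ0)).mul ((Matrix.isUnit_iff_isUnit_det _).1 G₁.isUnit)
  · rw [Matrix.det_smul]
    exact (IsUnit.pow _ (isUnit_iff_ne_zero.2 (inv_ne_zero hμ0))).mul
      ((Matrix.isUnit_iff_isUnit_det _).1 G₂.isUnit)
  · have : (μ • (G₁ : Matrix (Fin d) (Fin d) F)).map σ = σ μ • (G₁ : Matrix (Fin d) (Fin d) F).map σ := by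
      ext i j; simp
    rw [this, Matrix.transpose_smul, hc₁, smul_smul, mul_comm, hμ]
  · have : (μ⁻¹ • (G₂ : Matrix (Fin s) (Fin s) F)).map σ
        = (σ μ)⁻¹ • (G₂ : Matrix (Fin s) (Fin s) F).map σ := by
      ext i j; simp
    rw [this, Matrix.transpose_smul, hc₂, smul_smul, ← mul_inv, mul_comm, hμ]
  · intro x y
    have : g x y = formOfGram σ J x y := hJ x y
    rw [Matrix.smul_kronecker, Matrix.kronecker_smul, smul_smul, mul_inv_cancel₀ hμ0, one_smul, ← hJG]
    exact this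

end main

end Cfsg.Agent.Lib.Helper95UTensform
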