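import Cfsg.Agent.Lib.Helper97AschCore

set_option autoImplicit false

namespace Cfsg.Agent.Lib.Helper67AschCore

open scoped commutatorElement
open Cfsg.Agent.Lib.Helper97AschCore

/-- [core] abstract group theory: a minimal non-central `H`-invariant subgroup and its components. -/
theorem core_general {𝔾 : Type*} [Group 𝔾] [Finite 𝔾] (Z : Subgroup 𝔾) (hZ : Z ≤ Subgroup.center 𝔾)
    (H : Subgroup 𝔾) (hns : ¬ H ≤ Z) :
    ∃ N : Subgroup 𝔾, N ≤ H ∧ NzG H N ∧ ¬ N ≤ Z ∧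
      (∀ N' : Subgroup 𝔾, N' ≤ N → NzG H N' → N' ≤ Z ∨ N' = N) ∧
      (⁅N, N⁆ ≤ Z ∨ (⁅N, N⁆ = N ∧ ∃ T : Subgroup 𝔾, T ≤ N ∧ NzG N T ∧ ¬ T ≤ Z ∧ ⁅T, T⁆ = T ∧
        (∀ T' : Subgroup 𝔾, T' ≤ T → NzG N T' → T' ≤ Z ∨ T' = T) ∧
        (∀ h ∈ H, cj h T = T ∨ ∀ x ∈ T, ∀ y ∈ cj h T, x * y = y * x) ∧
        (⨆ h : H, cj (h : 𝔾) T) = N)) := by
  classical
  have hZn : Z.Normal := by
    constructor
    intro z hz g
    have h2 := Subgroup.mem_center_iff.mp (hZ hz) g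
    have h3 : g * z * g⁻¹ = z := by rw [h2]; group
    rw [h3]; exact hz
  obtain ⟨P, ⟨hPH, hPn, hPZ⟩, hPmin⟩ := exists_min_subgroup
    (fun P : Subgroup 𝔾 => P ≤ H ∧ NzG H P ∧ ¬ P ≤ Z)
    ⟨H, le_rfl, fun h hh x hx => H.mul_mem (H.mul_mem hh hx) (H.inv_mem hh), hns⟩
  have hPmin' : ∀ N' : Subgroup 𝔾, N' ≤ P → NzG H N' → N' ≤ Z ∨ N' = P := by
    intro N' h1 h2
    by_cases h3 : N' ≤ Z
    · exact Or.inl h3
    · exact Or.inr (hPmin N' ⟨h1.trans hPH, h2, h3⟩ h1)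
  have hPP : NzG P P := fun h hh x hx => P.mul_mem (P.mul_mem hh hx) (P.inv_mem hh)
  have hP'le : ⁅P, P⁆ ≤ P := (commutator_le_inf le_rfl le_rfl hPP hPP).trans inf_le_left
  refine ⟨P, hPH, hPn, hPZ, hPmin', ?_⟩
  rcases hPmin' _ hP'le (NzG_commutator hPn hPn) with hab | hperf
  · exact Or.inl hab
  right
  refine ⟨hperf, ?_⟩
  obtain ⟨T, ⟨hTP, hTn, hTZ⟩, hTmin⟩ := exists_min_subgroup
    (fun T : Subgroup 𝔾 => T ≤ P ∧ NzG P T ∧ ¬ T ≤ Z) ⟨P, le_rfl, hPP, hPZ⟩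
  have hTmin' : ∀ T₁ : Subgroup 𝔾, T₁ ≤ T → NzG P T₁ → T₁ ≤ Z ∨ T₁ = T := by
    intro T₁ h1 h2
    by_cases h3 : T₁ ≤ Z
    · exact Or.inl h3
    · exact Or.inr (hTmin T₁ ⟨h1.trans hTP, h2, h3⟩ h1)
  have hcjP : ∀ h ∈ H, cj h P = P := fun h hh => cj_eq_of_NzG hPn hh
  have hcjTP : ∀ h ∈ H, cj h T ≤ P := fun h hh => (cj_mono hTP).trans (hcjP h hh).le
  have hcjTn : ∀ h ∈ H, NzG P (cj h T) := fun h hh => NzG_cj (hcjP h hh) hTn
  -- distinct conjugates commute modulo Z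
  have hdist : ∀ h ∈ H, cj h T ≠ T → ⁅T, cj h T⁆ ≤ Z := by
    intro h hh hne
    refine (commutator_le_inf hTP (hcjTP h hh) hTn (hcjTn h hh)).trans ?_
    rcases hTmin' _ inf_le_left (NzG_inf hTn (hcjTn h hh)) with h1 | h1
    · exact h1
    · exfalso
      apply hne
      have h2 : T ≤ cj h T := inf_eq_left.mp h1
      exact (Subgroup.eq_of_le_of_card_ge h2 (card_cj h T).le).symm
  let A : H → Subgroup 𝔾 := fun h => cj (h : 𝔾) T
  have hA : iSup A = P := by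
    apply hPmin _ ⟨?_, ?_, ?_⟩ ?_
    · exact (iSup_le fun h : H => hcjTP h h.2).trans hPH
    · intro g hg x hx
      have h1 : g * x * g⁻¹ ∈ cj g (iSup A) := conj_mem_cj hx
      have h2 : cj g (iSup A) ≤ iSup A := by
        unfold cj
        rw [Subgroup.map_iSup]
        apply iSup_le
        intro h
        have h3 : Subgroup.map (MulAut.conj g).toMonoidHom (A h) = A ⟨g * h, H.mul_mem hg h.2⟩ :=
          cj_cj g h T
        rw [h3]
        exact le_iSup A _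
      exact h2 h1
    · intro hle
      apply hTZ
      have h1 : A ⟨1, H.one_mem⟩ ≤ Z := (le_iSup A _).trans hle
      simpa [A, cj_one] using h1
    · exact iSup_le fun h : H => hcjTP h h.2
  have hT'le : ⁅T, T⁆ ≤ T := (commutator_le_inf hTP hTP hTn hTn).trans inf_le_left
  have hTperf : ⁅T, T⁆ = T := by
    rcases hTmin' _ hT'le (NzG_commutator hTn hTn) with hT' | hT'
    · exfalso
      apply hPZ
      rw [← hperf, ← hA]
      apply commutator_iSup_le Z A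
      intro i j
      have h1 : ⁅A i, A j⁆ = cj (i : 𝔾) ⁅T, cj ((i : 𝔾)⁻¹ * j) T⁆ := by
        rw [cj_commutator, cj_cj]
        simp [A]
      rw [h1, cj_le_central hZ]
      by_cases h2 : cj ((i : 𝔾)⁻¹ * j) T = T
      · rw [h2]; exact hT'
      · exact hdist _ (H.mul_mem (H.inv_mem i.2) j.2) h2
    · exact hT'
  refine ⟨T, hTP, hTn, hTZ, hTperf, hTmin', ?_, hA⟩
  intro h hh
  by_cases hne : cj h T = T
  · exact Or.inl hne
  right
  have hcen : ∀ X : Subgroup 𝔾, X ≤ Z → ∀ Y : Subgroup 𝔾, ⁅X, Y⁆ = ⊥ := by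
    intro X hX Y
    rw [Subgroup.commutator_eq_bot_iff_le_centralizer]
    intro x hx
    rw [Subgroup.mem_centralizer_iff]
    intro y _
    exact Subgroup.mem_center_iff.mp (hZ (hX hx)) y
  have h1 : ⁅⁅T, T⁆, cj h T⁆ = ⊥ := by
    apply Subgroup.commutator_commutator_eq_bot_of_rotate
    · exact hcen _ (hdist h hh hne) _
    · have h5 : ⁅cj h T, T⁆ ≤ Z := by
        rw [Subgroup.commutator_comm (cj h T) T]
        exact hdist h hh hne
      exact hcen _ h5 _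
  rw [hTperf, Subgroup.commutator_eq_bot_iff_le_centralizer] at h1
  intro x hx y hy
  exact (Subgroup.mem_centralizer_iff.mp (h1 hx) y hy).symm

end Cfsg.Agent.Lib.Helper67AschCore
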