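import Cfsg.Agent.Lib.Helper98AschC7
import Cfsg.Agent.Lib.Helper67AschCore
import Cfsg.Agent.Lib.Helper97AschForms
import Cfsg.Agent.Lib.Helper97AschSubfield

set_option autoImplicit false

/-! Assembly of the general theorem, modulo the symplectic-type case. -/

namespace Cfsg.Agent.Lib.Helper98AschMainAux

open Cfsg Cfsg.Geo Matrix
open Cfsg.Agent.Lib.Helper97AschBase Cfsg.Agent.Lib.Helper97AschCore
  Cfsg.Agent.Lib.Helper97AschForms Cfsg.Agent.Lib.Helper97AschSubfield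
  Cfsg.Agent.Lib.Helper98AschDefs Cfsg.Agent.Lib.Helper98AschBasic Cfsg.Agent.Lib.Helper98AschAlt
  Cfsg.Agent.Lib.Helper98AschStruct Cfsg.Agent.Lib.Helper98AschDich Cfsg.Agent.Lib.Helper98AschC7
open scoped MatrixGroups Kronecker

variable {n : ℕ} {F : Type*} [Field F]

lemma two_eq_zero_of_not_odd [Fintype F] (h : ¬ Odd (Fintype.card F)) : (2 : F) = 0 := by
  have h1 : Fintype.card F % 2 = 0 := by
    rw [Nat.not_odd_iff_even] at h
    exact Nat.even_iff.mp h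
  have h2 : ringChar F = 2 := FiniteField.even_card_iff_char_two.mpr h1
  have h3 : ((ringChar F : ℕ) : F) = 0 := ringChar.Nat.cast_ringChar
  rw [h2] at h3
  exact_mod_cast h3

lemma symplectic_polar {Q : (Fin n → F) → F} (hQ : IsNondegenerateQuadraticForm Q) (h2 : (2 : F) = 0) :
    IsSymplecticForm (QuadraticMap.polar Q) where
  bilinear := hQ.polar_bilinear
  skew v w := by
    rw [QuadraticMap.polar_comm]
    have : QuadraticMap.polar Q w v + QuadraticMap.polar Q w v = 0 := by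
      rw [← two_mul, h2, zero_mul]
    exact eq_neg_of_add_eq_zero_left this
  alternating v := by
    rw [polar_self hQ, h2, zero_mul]
  nondegenerate := hQ.nondegenerate

lemma fixes_polar {S : Set (Matrix (Fin n) (Fin n) F)} {Q : (Fin n → F) → F} (h : FixesQuadForm S Q) :
    FixesForm S (QuadraticMap.polar Q) := by
  intro s hs u v
  unfold QuadraticMap.polar
  rw [← Matrix.mulVec_add, h s hs, h s hs, h s hs]

/-- the explicit alternatives give members of the classes -/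
theorem geomAlt_imp [Fintype F] (hn : 3 ≤ n) {H : Subgroup (GL (Fin n) F)} (h : GeomAlt n F H) :
    ∃ M : Subgroup (GL (Fin n) F), InLinearClass n F M ∧ H ≤ M := by
  rcases h with ⟨W, h0, h1, h⟩ | ⟨t, m, D, hD, h⟩ | ⟨r, K, hr, hK, h⟩ | ⟨n₁, n₂, e, P, h1, h2, h⟩ |
    ⟨F₀, r, P, hr, hc, h⟩ | ⟨r, R, m, hR, _, h⟩ | ⟨m, t, e, P, hm, ht, h⟩ | ⟨f, hf, h⟩ | ⟨σ, f, hf, h⟩ |
    ⟨hodd, Q, hQ, h⟩
  · exact ⟨_, Or.inl ⟨W, h0, h1, rfl⟩, h⟩
  · exact ⟨_, Or.inr (Or.inr (Or.inr (Or.inl ⟨t, m, D, hD, rfl⟩))), h⟩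
  · exact ⟨_, Or.inr (Or.inr (Or.inr (Or.inr (Or.inl ⟨r, K, hr, hK, rfl⟩)))), h⟩
  · exact ⟨_, Or.inr (Or.inr (Or.inr (Or.inr (Or.inr (Or.inl ⟨n₁, n₂, e, P, h1, h2, rfl⟩))))), h⟩
  · exact ⟨_, Or.inr (Or.inr (Or.inr (Or.inr (Or.inr (Or.inr (Or.inl ⟨F₀, r, P, hr, hc, rfl⟩)))))), h⟩
  · exact ⟨_, Or.inr (Or.inr (Or.inr (Or.inr (Or.inr (Or.inr (Or.inr (Or.inl ⟨r, R, hR, rfl⟩))))))), h⟩
  · exact ⟨_, Or.inr (Or.inr (Or.inr (Or.inr (Or.inr (Or.inr (Or.inr (Or.inr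
      (Or.inl ⟨m, t, e, P, hm, ht, rfl⟩)))))))), h⟩
  · have heven : Even n := by
      rw [← Nat.not_odd_iff_even]
      intro hodd
      exact no_symplectic hodd f hf
    have h4 : 4 ≤ n := by
      obtain ⟨k, hk⟩ := heven
      omega
    exact ⟨_, Or.inr (Or.inr (Or.inr (Or.inr (Or.inr (Or.inr (Or.inr (Or.inr (Or.inr
      (Or.inl ⟨f, hf, heven, h4, rfl⟩))))))))), h⟩
  · exact ⟨_, Or.inr (Or.inr (Or.inr (Or.inr (Or.inr (Or.inr (Or.inr (Or.inr (Or.inr (Or.inr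
      (Or.inl ⟨σ, f, hf, hn, rfl⟩)))))))))), h⟩
  · exact ⟨_, Or.inr (Or.inr (Or.inr (Or.inr (Or.inr (Or.inr (Or.inr (Or.inr (Or.inr (Or.inr
      (Or.inr ⟨Q, hQ, hodd, hn, rfl⟩)))))))))), h⟩

/-- The general theorem, modulo the symplectic-type case `c6`. -/
theorem main_aux [Fintype F] (hn : 2 ≤ n)
    (c6 : ∀ {H N : Subgroup (GL (Fin n) F)}, Nz H N → ¬ N ≤ scalars (Fin n) F →
      ⁅N, N⁆ ≤ scalars (Fin n) F →
      (∀ N' : Subgroup (GL (Fin n) F), N' ≤ N → Nz H N' → N' ≤ scalars (Fin n) F ∨ N' = N) →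
      (∀ T : Subgroup (GL (Fin n) F), Nz H T →
        T ≤ scalars (Fin n) F ∨ ActsAbsolutelyIrreducibly (matrixSet T)) → GeomAlt n F H)
    (H : Subgroup (GL (Fin n) F)) : GeomAlt n F H ∨ InLinearResidualClass H := by
  have : NeZero n := ⟨by omega⟩
  by_cases hgeo : GeomAlt n F H
  · exact Or.inl hgeo
  right
  have hirr : ActsIrreducibly (matrixSet H) := by
    by_contra hirr
    unfold ActsIrreducibly at hirr
    push Not at hirr
    obtain ⟨W, hW, h0, h1⟩ := hirr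
    exact hgeo (alt1 h0 h1 (le_subspaceStabilizer_of_inv hW))
  have hdich := dichotomy hirr hgeo
  have hns : ¬ H ≤ scalars (Fin n) F := fun h => not_irred_of_le_scalars hn h hirr
  obtain ⟨N, hNH, hnorm, hNs, hmin, hcase⟩ :=
    Cfsg.Agent.Lib.Helper67AschCore.core_general (scalars (Fin n) F) scalars_le_center H hns
  have habs : ActsAbsolutelyIrreducibly (matrixSet N) := (hdich N hnorm).resolve_left hNs
  rcases hcase with hcomm | ⟨hperf, T, hTN, hTnorm, hTs, hTperf, hTmin, hTconj, hsup⟩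
  · exact absurd (c6 hnorm hNs hcomm hmin hdich) hgeo
  by_cases hall : ∀ h ∈ H, cj h T = T
  swap
  · push Not at hall
    exact absurd (c7_general habs hTnorm hTs hTconj hsup hall) hgeo
  have hTN' : T = N := by
    rw [← hsup]
    apply le_antisymm
    · exact le_iSup_of_le (1 : H) (by simp [cj_one])
    · apply iSup_le
      intro h
      rw [hall h h.2]
  subst hTN'
  have hsimple : IsSimpleGroup (T ⧸ (scalars (Fin n) F).subgroupOf T) :=
    simple_quotient (scalars (Fin n) F) T hTs hTmin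
  have hnonab : ¬ IsMulCommutative (T ⧸ (scalars (Fin n) F).subgroupOf T) :=
    not_comm_quotient (scalars (Fin n) F) T hTs hTperf
  have hsub : ¬ ∃ F₀ : Subfield F, F₀ ≠ ⊤ ∧ RealisableOver F₀ (matrixSet T) := by
    rintro ⟨F₀, hF₀, hreal⟩
    obtain ⟨F₁, r, B, hr, hcard, hle⟩ := le_subfieldSubgroup hnorm habs hF₀ hreal
    exact hgeo (alt5 hr hcard hle)
  have hsymp : ¬ ∃ f : (Fin n → F) → (Fin n → F) → F, IsSymplecticForm f ∧ FixesForm (matrixSet T) f := by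
    rintro ⟨f, hf, hfix⟩
    exact hgeo (alt8s hf (similarity_of_fixes hnorm habs (sesq_of_bilinear hf.bilinear) hf.nondegenerate hfix))
  have hquad : ¬ ∃ Q : (Fin n → F) → F, IsNondegenerateQuadraticForm Q ∧ FixesQuadForm (matrixSet T) Q := by
    rintro ⟨Q, hQ, hfix⟩
    by_cases hodd : Odd (Fintype.card F)
    · exact hgeo (alt8q hodd hQ (le_quadSimilarityGroup_of_fixes hodd hnorm habs hQ hfix))
    · exact hsymp ⟨_, symplectic_polar hQ (two_eq_zero_of_not_odd hodd), fixes_polar hfix⟩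
  have hunit : ¬ ∃ (σ : F ≃+* F) (f : (Fin n → F) → (Fin n → F) → F), IsUnitaryForm σ f ∧
      FixesForm (matrixSet T) f := by
    rintro ⟨σ, f, hf, hfix⟩
    exact hgeo (alt8u hf (le_similarityGroup_of_fixes hnorm habs hf hfix))
  refine ⟨T, ⟨hNH, hnorm, hTperf, hsimple, hnonab, ?_, habs, ?_⟩, hquad, hsymp, hunit⟩
  · intro h _ hh
    exact centralizer_scalar_of_perfect hTperf habs h hh
  · intro F₀ hF₀ hreal
    exact hsub ⟨F₀, hF₀, hreal⟩

end Cfsg.Agent.Lib.Helper98AschMainAux
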