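import Cfsg.Agent.Lib.Helper13UDefs
import Cfsg.Agent.Lib.Helper98AschMainAux
import Cfsg.Agent.Lib.Helper97UMain
import Cfsg.Agent.Lib.Helper7AschC6
import Cfsg.Agent.Lib.Helper57AschA
import Cfsg.Agent.Lib.Helper74UAdj
import Cfsg.Agent.Lib.Helper60URed
import Cfsg.Agent.Lib.Helper95UComm
import Cfsg.Agent.Lib.Helper60UField
import Cfsg.Agent.Lib.Helper95UTensform
import Cfsg.Agent.Lib.Helper13UWrform
import Cfsg.Agent.Lib.Helper15UBilJ
import Cfsg.Agent.Lib.Helper17AschUSub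

set_option autoImplicit false

/-! PROJECT 4 = ASCH-U: Aschbacher's theorem for the unitary groups, all dimensions: the assembly. -/

namespace Cfsg.Agent.Lib.Helper13UMain

open Cfsg Cfsg.Geo Matrix
open Cfsg.Agent.Lib.Helper97AschBase Cfsg.Agent.Lib.Helper97AschCore
  Cfsg.Agent.Lib.Helper97AschForms Cfsg.Agent.Lib.Helper97AschSubfield
  Cfsg.Agent.Lib.Helper97UBase
  Cfsg.Agent.Lib.Helper98AschDefs Cfsg.Agent.Lib.Helper98AschBasic
  Cfsg.Agent.Lib.Helper98AschStruct Cfsg.Agent.Lib.Helper13UDefs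
open Cfsg.Agent.Lib.Helper74UAdj (AC_env AC_cen)
open Cfsg.Agent.Lib.Helper60URed (ured)
open Cfsg.Agent.Lib.Helper95UComm (comm_star)
open Cfsg.Agent.Lib.Helper60UField (field_star)
open Cfsg.Agent.Lib.Helper95UTensform (tensor_form)
open Cfsg.Agent.Lib.Helper13UWrform (wreath_form)
open Cfsg.Agent.Lib.Helper15UBilJ (NoComm bil_J)
open scoped MatrixGroups Kronecker

variable {n : ℕ} {F : Type*} [Field F] {σ : F ≃+* F} {f : (Fin n → F) → (Fin n → F) → F}

/-- [descent] (helper17) -/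
theorem descent [Fintype F] {q : ℕ} (hU : US σ f q) (hn : 2 ≤ n) {H : Subgroup (GL (Fin n) F)}
    (hH : H ≤ Iso f) (hirr : ActsIrreducibly (matrixSet H))
    (J : (Fin n → F) → (Fin n → F)) (c c' : F) (hc : c ≠ 0) (hadd : ∀ u v, J (u + v) = J u + J v)
    (hsmul : ∀ (a : F) v, J (a • v) = σ a • J v) (hJJ : ∀ v, J (J v) = c • v)
    (hJf : ∀ u v, f (J u) (J v) = c' * σ (f u v))
    (hJh : ∀ h ∈ H, ∃ μ : F, ∀ v, J ((h : Matrix (Fin n) (Fin n) F) *ᵥ v) =
        μ • ((h : Matrix (Fin n) (Fin n) F) *ᵥ J v)) :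
    (∃ (F₀ : Subfield F) (P : GL (Fin n) F), Odd q ∧ Fintype.card F = Nat.card F₀ ^ 2 ∧
      IsFormRationalStructure f F₀ 1 P ∧ H ≤ subfieldSubgroup F₀ P) ∨
    (∃ (F₀ : Subfield F) (P : GL (Fin n) F) (ζ : F), Even n ∧ Fintype.card F = Nat.card F₀ ^ 2 ∧ ζ ≠ 0 ∧
      ζ + ζ ^ q = 0 ∧ IsFormRationalStructure f F₀ ζ P ∧
      (∀ u : Fin n → F, (∀ i, u i ∈ F₀) →
        f ((P : Matrix (Fin n) (Fin n) F) *ᵥ u) ((P : Matrix (Fin n) (Fin n) F) *ᵥ u) = 0) ∧
      H ≤ subfieldSubgroup F₀ P) := by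
  rcases Cfsg.Agent.Lib.Helper17AschUDescent.descent hU.unitary hU.card hU.pow hn hH hirr J hadd hsmul hc
    hJJ hJf hJh with ⟨hodd, F₀, P, h⟩ | h
  · exact Or.inl ⟨F₀, P, hodd, h⟩
  · exact Or.inr h

/-! # ASSEMBLY -/

section assembly
variable [Fintype F] {q : ℕ} {H : Subgroup (GL (Fin n) F)}

lemma noComm_of_not [NeZero n] (hU : US σ f q) (hH : H ≤ Iso f) (hirr : ActsIrreducibly (matrixSet H))
    (hgeo : ¬ UAlt σ f q H) : NoComm f H := by
  intro C hC hcomm hstar x hx
  rcases comm_star hU.unitary hH hirr hC hcomm hstar with hfield | ⟨t, k, D, hD, hle⟩ | ⟨k, D, hk, hD, hs, hle⟩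
  · by_contra hcon
    push Not at hcon
    obtain ⟨r, K', hr, hodd, hK', hs, hle⟩ := field_star hU hC hcomm hfield hstar ⟨x, hx, hcon⟩
    exact hgeo (u3 hr hodd hK' hs hle)
  · exact absurd (u2a hD hle) hgeo
  · exact absurd (u2b hk hD hs hle) hgeo

/-- similarities of a bilinear form -/
lemma ubil (hU : US σ f q) (hn : 2 ≤ n) (hH : H ≤ Iso f) (hirr : ActsIrreducibly (matrixSet H))
    (hnc : NoComm f H)
    {β : (Fin n → F) → (Fin n → F) → F} (hβ : IsBilinearForm β) (hnd : IsNondegenerateForm β)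
    {ε : F} (hε : ∀ u v, β v u = ε * β u v) (hsim : H ≤ similarityGroup β) : UAlt σ f q H := by
  obtain ⟨J, c, c', hc, hadd, hsmul, hJJ, hJf, hJh⟩ := bil_J hU.unitary hH hnc hβ hnd hε hsim
  rcases descent hU hn hH hirr J c c' hc hadd hsmul hJJ hJf hJh with
    ⟨F₀, P, hodd, hcard, hP, hle⟩ | ⟨F₀, P, ζ, hev, hcard, h0, h1, hP, ha, hle⟩
  · exact u5b hodd hcard hP hle
  · exact u5c hev hcard h0 h1 hP ha hle

lemma ubil_symp (hU : US σ f q) (hn : 2 ≤ n) (hH : H ≤ Iso f) (hirr : ActsIrreducibly (matrixSet H))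
    (hnc : NoComm f H) {β : (Fin n → F) → (Fin n → F) → F} (hβ : IsSymplecticForm β)
    (hsim : H ≤ similarityGroup β) : UAlt σ f q H :=
  ubil hU hn hH hirr hnc hβ.bilinear hβ.nondegenerate (ε := -1)
    (fun u v => by rw [hβ.skew v u]; ring) hsim

lemma quadSim_le_polar {Q : (Fin n → F) → F} :
    quadSimilarityGroup Q ≤ similarityGroup (QuadraticMap.polar Q) := by
  rintro g ⟨c, hc⟩
  refine ⟨c, fun u v => ?_⟩
  unfold QuadraticMap.polar
  rw [← Matrix.mulVec_add, hc, hc, hc]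
  ring

lemma ubil_quad (hU : US σ f q) (hn : 2 ≤ n) (hH : H ≤ Iso f) (hirr : ActsIrreducibly (matrixSet H))
    (hnc : NoComm f H) {Q : (Fin n → F) → F} (hQ : IsNondegenerateQuadraticForm Q)
    (hsim : H ≤ similarityGroup (QuadraticMap.polar Q)) : UAlt σ f q H :=
  ubil hU hn hH hirr hnc hQ.polar_bilinear hQ.nondegenerate (ε := 1)
    (fun u v => by rw [QuadraticMap.polar_comm, one_mul]) hsim

/-- tensor wreath subgroups in an orthonormal basis -/
lemma ualt_wreath (hU : US σ f q) (hn : 2 ≤ n) (hH : H ≤ Iso f) (hirr : ActsIrreducibly (matrixSet H))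
    (hnc : NoComm f H) {m t : ℕ} {e : Fin n ≃ (Fin t → Fin m)} {P : GL (Fin n) F} (hm : 2 ≤ m)
    (ht : 2 ≤ t) (hP : IsON σ f P) (h : H ≤ tensorWreathSubgroup m t e P) : UAlt σ f q H := by
  rcases Nat.lt_or_ge m 3 with h3 | h3
  · obtain rfl : m = 2 := by omega
    rcases Cfsg.Agent.Lib.Helper17AschWreath2.wreath_two_le ht e P with ⟨β, hβ, hle⟩ | ⟨-, Q, hQ, hle⟩
    · exact ubil_symp hU hn hH hirr hnc hβ (h.trans hle)
    · exact ubil_quad hU hn hH hirr hnc hQ ((h.trans hle).trans quadSim_le_polar)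
  · exact u7 h3 ht hP h

/-- tensor product subgroups in an orthonormal basis -/
lemma ualt_tensor (hU : US σ f q) (hn : 2 ≤ n) (hH : H ≤ Iso f) (hirr : ActsIrreducibly (matrixSet H))
    (hnc : NoComm f H) {d s : ℕ} {e : Fin n ≃ Fin d × Fin s} {P : GL (Fin n) F} (hd : 2 ≤ d)
    (hs : 2 ≤ s) (hP : IsON σ f P) (h : H ≤ tensorProductSubgroup d s e P) : UAlt σ f q H := by
  rcases lt_trichotomy d s with hlt | rfl | hgt
  · exact u4 hd hlt hP h
  · obtain ⟨e', hle⟩ := Cfsg.Agent.Lib.Helper67AschTenscases.tensor_le_wreath e P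
    exact ualt_wreath hU hn hH hirr hnc hd le_rfl hP (h.trans hle)
  · obtain ⟨e', hle⟩ := Cfsg.Agent.Lib.Helper67AschTenscases.tensor_swap e P
    exact u4 hs hgt hP (h.trans hle)

theorem udichotomy [NeZero n] (hU : US σ f q) (hn : 2 ≤ n) (hH : H ≤ Iso f)
    (hirr : ActsIrreducibly (matrixSet H)) (hgeo : ¬ UAlt σ f q H)
    (T : Subgroup (GL (Fin n) F)) (hTI : T ≤ Iso f) (hT : Nz H T) :
    T ≤ scalars (Fin n) F ∨ ActsAbsolutelyIrreducibly (matrixSet T) := by
  have hnc := noComm_of_not hU hH hirr hgeo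
  have hA : NzA H (env T) := NzA_env hT
  have hC : NzA H (cen (env T)) := NzA_cen hA
  have hAs : IsAdjointClosedFor f (env T) := AC_env hU.unitary hTI
  have hcen : ∀ z ∈ env T, (∀ a ∈ env T, z * a = a * z) →
      ∃ c : F, z = c • (1 : Matrix (Fin n) (Fin n) F) := fun z hz hza =>
    hnc _ hC cen_comm (AC_cen hU.unitary hAs) z (mem_cen.2 ⟨hz, hza⟩)
  obtain ⟨d, s, hd, e, P, hmem⟩ := struct hirr hA hcen
  have hle : H ≤ tensorProductSubgroup d s e P := fun g hg =>
    Cfsg.Agent.Lib.Helper94AschTensnorm.mem_tensorProductSubgroup_of_normalizes e P g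
      (fun a => (hmem _).1 (hA g hg _ ((hmem _).2 ⟨a, rfl⟩)))
  have hd0 : d ≠ 0 := NeZero.ne d
  have hs0 : s ≠ 0 := by
    rintro rfl
    have h1 := Fintype.card_congr e
    simp at h1
    exact NeZero.ne n h1
  by_cases hd1 : d = 1
  · left
    subst hd1
    intro t ht
    obtain ⟨a, ha⟩ := (hmem _).1 (val_mem_env ht)
    have ha1 : a = a 0 0 • (1 : Matrix (Fin 1) (Fin 1) F) := by
      ext i j
      rw [Subsingleton.elim i 0, Subsingleton.elim j 0]
      simp
    rw [ha1, tens_smul_left, tens_one] at ha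
    rw [mem_scalars_iff]
    have hne : a 0 0 ≠ 0 := by
      intro h0
      rw [h0, zero_smul] at ha
      have := t.isUnit
      rw [ha] at this
      have h2 : Nontrivial (Matrix (Fin n) (Fin n) F) := by
        have : Nonempty (Fin n) := ⟨⟨0, Nat.pos_of_ne_zero (NeZero.ne n)⟩⟩
        infer_instance
      exact not_isUnit_zero this
    exact ⟨Units.mk0 _ hne, ha⟩
  by_cases hs1 : s = 1
  · right
    subst hs1
    apply absIrred_of_env
    intro M
    exact (hmem M).2 (exists_tens_of_one e P M)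
  · exfalso
    obtain ⟨P', hP', heq⟩ := tensor_form hU e P (fun a => by
      obtain ⟨k', hk', hadj⟩ := hAs _ ((hmem _).2 ⟨a, rfl⟩)
      obtain ⟨b, rfl⟩ := (hmem _).1 hk'
      exact ⟨b, hadj⟩)
    exact hgeo (ualt_tensor hU hn hH hirr hnc (by omega) (by omega) hP' (heq ▸ hle))


/-- a group fixing a bilinear form, normalised by `H` -/
lemma ubil_fix (hU : US σ f q) (hn : 2 ≤ n) (hH : H ≤ Iso f) (hirr : ActsIrreducibly (matrixSet H))
    (hnc : NoComm f H) {P : Subgroup (GL (Fin n) F)} (hnorm : Nz H P)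
    (habs : ActsAbsolutelyIrreducibly (matrixSet P))
    {β : (Fin n → F) → (Fin n → F) → F} (hβ : IsBilinearForm β) (hnd : IsNondegenerateForm β)
    (hfix : FixesForm (matrixSet P) β) : UAlt σ f q H := by
  have hs := sesq_of_bilinear hβ
  have hs' : Sesq (RingEquiv.refl F) (fun u v => β v u) :=
    { add_left := fun x y v => hβ.add_right v x y
      smul_left := fun c x v => hβ.smul_right c v x
      add_right := fun v x y => hβ.add_left x y v
      smul_right := fun c v x => hβ.smul_left c x v }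
  have hfix' : FixesForm (matrixSet P) (fun u v => β v u) := fun s hs u v => hfix s hs v u
  obtain ⟨ε, hε⟩ := schur_form habs hs hs' hnd hfix hfix'
  exact ubil hU hn hH hirr hnc hβ hnd hε (similarity_of_fixes hnorm habs hs hnd hfix)

/-- realisable over a proper subfield -/
lemma usub_alt [NeZero n] (hU : US σ f q) (hn : 2 ≤ n) (hH : H ≤ Iso f)
    (hirr : ActsIrreducibly (matrixSet H)) (hnc : NoComm f H) {P : Subgroup (GL (Fin n) F)}
    (hnorm : Nz H P) (hP : P ≤ Iso f) (habs : ActsAbsolutelyIrreducibly (matrixSet P))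
    {F₀ : Subfield F} (hF₀ : F₀ ≠ ⊤) (hreal : RealisableOver F₀ (matrixSet P)) : UAlt σ f q H := by
  rcases Cfsg.Agent.Lib.Helper17AschUSub.subfield_u hU.unitary hU.card hU.pow hn hH hirr hnorm hP habs hF₀
    hreal with ⟨F₁, r, C, hr, hodd, hcard, hC, hle⟩ | ⟨hodd, F₁, C, hcard, hC, hle⟩ |
    ⟨F₁, C, ζ, hev, hcard, h0, h1, hC, ha, hle⟩
  · exact u5a hr hodd hcard hC hle
  · exact u5b hodd hcard hC hle
  · exact u5c hev hcard h0 h1 hC ha hle

open Cfsg.Agent.Lib.Helper7C6Mono Cfsg.Agent.Lib.Helper7C6Str Cfsg.Agent.Lib.Helper7C6Asm in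
lemma cyclic_of_char' (hn : 2 ≤ n) {N : Subgroup (GL (Fin n) F)} (hNI : N ≤ Iso f) (hnorm : Nz H N)
    (hdich : ∀ T : Subgroup (GL (Fin n) F), T ≤ Iso f → Nz H T →
      T ≤ scalars (Fin n) F ∨ ActsAbsolutelyIrreducibly (matrixSet T))
    (A : Subgroup N) (hA : A.Characteristic) (hc : IsMulCommutative A) : IsCyclic A := by
  have hNz : Nz H (A.map N.subtype) := by
    rintro h hh _ ⟨a, ha, rfl⟩
    refine ⟨conjAut hnorm h hh a, ?_, rfl⟩
    have := Subgroup.characteristic_iff_map_eq.mp hA (conjAut hnorm h hh)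
    rw [← this]
    exact ⟨a, ha, rfl⟩
  have hAI : A.map N.subtype ≤ Iso f := by
    rintro _ ⟨a, _, rfl⟩
    exact hNI a.2
  have hle : A.map N.subtype ≤ scalars (Fin n) F := by
    rcases hdich _ hAI hNz with h | h
    · exact h
    · exfalso
      apply not_absIrred_of_comm hn _ h
      rintro _ ⟨a, ha, rfl⟩ _ ⟨b, hb, rfl⟩
      have := hc.is_comm.comm (⟨a, ha⟩ : A) ⟨b, hb⟩
      exact congrArg (fun t : A => ((t : N) : GL (Fin n) F)) this
  let φ : A →* scalars (Fin n) F :=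
    { toFun := fun a => ⟨((a : N) : GL (Fin n) F), hle ⟨a, a.2, rfl⟩⟩
      map_one' := rfl
      map_mul' := fun _ _ => rfl }
  have hφ : Function.Injective φ := by
    intro a b hab
    have : ((a : N) : GL (Fin n) F) = ((b : N) : GL (Fin n) F) :=
      congrArg (fun t : scalars (Fin n) F => (t : GL (Fin n) F)) hab
    exact Subtype.ext (Subtype.ext this)
  exact isCyclic_of_injective φ hφ

open Cfsg.Agent.Lib.Helper7C6Asm in
/-- the dimension of an absolutely irreducible group of symplectic type -/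
lemma dim_of_card [NeZero n] {N : Subgroup (GL (Fin n) F)}
    (habs : ActsAbsolutelyIrreducibly (matrixSet N)) (hcomm : ⁅N, N⁆ ≤ scalars (Fin n) F)
    {r m : ℕ} (hcard : Nat.card N = Nat.card (Subgroup.center N) * r ^ (2 * m)) : n = r ^ m := by
  have : Nonempty (Fin n) := ⟨⟨0, Nat.pos_of_ne_zero (NeZero.ne n)⟩⟩
  have h1 := Cfsg.Agent.Lib.Helper57AschA.card_quotient habs hcomm
  have h2 : (scalars (Fin n) F).subgroupOf N = Subgroup.center N := by
    ext x
    rw [Subgroup.mem_subgroupOf, Subgroup.mem_center_iff]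
    constructor
    · intro hx g
      exact Subtype.ext (Subgroup.mem_center_iff.mp (scalars_le_center hx) g)
    · intro hx
      apply mem_scalars_of_comm habs
      intro y hy
      exact (congrArg Subtype.val (hx ⟨y, hy⟩)).symm
  rw [h2] at h1
  have h3 := Subgroup.card_eq_card_quotient_mul_card_subgroup (Subgroup.center N)
  rw [h1, hcard] at h3
  have h4 : 0 < Nat.card (Subgroup.center N) := Nat.card_pos
  have h5 : r ^ (2 * m) = n ^ 2 := by
    rw [mul_comm] at h3
    exact Nat.eq_of_mul_eq_mul_right h4 h3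
  rw [mul_comm, pow_mul] at h5
  exact (Nat.pow_left_injective (n := 2) (by norm_num) h5).symm

open Cfsg.Agent.Lib.Helper7C6Mono Cfsg.Agent.Lib.Helper7C6Str Cfsg.Agent.Lib.Helper7C6Asm
  Cfsg.Agent.Lib.Helper38AschField in
/-- the symplectic type case -/
theorem uc6 [NeZero n] (hU : US σ f q) (hn : 2 ≤ n) (hH : H ≤ Iso f)
    (hirr : ActsIrreducibly (matrixSet H)) (hnc : NoComm f H)
    {N : Subgroup (GL (Fin n) F)} (hNI : N ≤ Iso f) (hnorm : Nz H N)
    (hNs : ¬ N ≤ scalars (Fin n) F) (hcomm : ⁅N, N⁆ ≤ scalars (Fin n) F)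
    (hmin : ∀ N' : Subgroup (GL (Fin n) F), N' ≤ N → Nz H N' → N' ≤ scalars (Fin n) F ∨ N' = N)
    (hdich : ∀ T : Subgroup (GL (Fin n) F), T ≤ Iso f → Nz H T →
      T ≤ scalars (Fin n) F ∨ ActsAbsolutelyIrreducibly (matrixSet T)) : UAlt σ f q H := by
  classical
  have : Nonempty (Fin n) := ⟨⟨0, Nat.pos_of_ne_zero (NeZero.ne n)⟩⟩
  have habs : ActsAbsolutelyIrreducibly (matrixSet N) := (hdich N hNI hnorm).resolve_left hNs
  have : Finite (GL (Fin n) F) := inferInstance
  obtain ⟨r, hr, hP, hexp, hpow, hpowr, hC, m, hm, hcard⟩ :=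
    structure_cor (scalars (Fin n) F) H N scalars_le_center hnorm hNs hcomm
      (fun x _ hx => mem_scalars_of_comm habs hx) hmin
  have hdim : n = r ^ m := dim_of_card habs hcomm hcard
  by_cases hz : Nat.card (Subgroup.center N) = r * Nat.gcd 2 r
  · obtain ⟨c, hc, -⟩ := exists_root habs
    set z := Nat.card (Subgroup.center N) with hzdef
    have hz0 : 0 < z := Nat.card_pos
    have hζ : IsPrimitiveRoot (c : F) z := by
      rw [IsPrimitiveRoot.coe_units_iff, ← hc]
      exact IsPrimitiveRoot.orderOf c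
    have hdvd : z ∣ Fintype.card F - 1 := by
      rw [← hc, ← Fintype.card_units]
      exact orderOf_dvd_card
    obtain ⟨B, hB, -⟩ := monomial_form N habs.1 hcomm hz0 (by rw [hz]; exact hpow) hζ
    obtain ⟨p, hchar⟩ := CharP.exists F
    obtain ⟨e, hp, hF⟩ := FiniteField.card F p
    have : Fact p.Prime := ⟨hp⟩
    by_cases hA : ∃ d : ℕ, 0 < d ∧ d < e ∧ z ∣ p ^ d - 1
    · obtain ⟨d, hd0, hde, hzd⟩ := hA
      have htop : fixedSubfield (F := F) p d ≠ ⊤ := by
        intro htop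
        obtain ⟨x, hx⟩ := exists_pow_ne (F := F) hp hF hd0 hde
        apply hx
        have : x ∈ fixedSubfield (F := F) p d := by rw [htop]; trivial
        exact this
      exact usub_alt hU hn hH hirr hnc hnorm hNI habs htop
        (realisable_of_mono hB _ (fun c hc => pow_eq_self_of_dvd (pow_pos hp.pos _) hzd hc))
    · push Not at hA
      have hminF : IsMinimalFieldFor z p e F :=
        ⟨hp, hchar, hF, hF ▸ hdvd, fun d hd0 hde => hA d hd0 hde⟩
      have hrp : r ≠ p := by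
        rintro rfl
        have h1 : r ∣ Fintype.card F - 1 := Dvd.dvd.trans (by rw [hz]; exact Dvd.intro _ rfl) hdvd
        have h2 : r ∣ Fintype.card F := by rw [hF]; exact dvd_pow_self r e.pos.ne'
        have h3 : 0 < Fintype.card F := Fintype.card_pos
        have h4 : r ∣ 1 := by
          have := (Nat.dvd_sub h2 h1)
          have e1 : Fintype.card F - (Fintype.card F - 1) = 1 := by omega
          rwa [e1] at this
        exact hr.one_lt.ne' (Nat.dvd_one.mp h4)
      refine u6 (r := r) (R := N) (p := p) (e := e) (k := m)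
        ⟨hr, hP, fun A hA hc => cyclic_of_char' hn hNI hnorm hdich A hA hc, hexp⟩ habs hNI hcomm hrp hminF ?_
        hdim (le_normalizer_of_Nz hnorm)
      by_cases hr2 : r = 2
      · right
        subst hr2
        have hz4 : z = 4 := by rw [hz]; norm_num
        refine ⟨rfl, ?_, hz4, ?_⟩
        · -- `e` is even and at most two
          have hdvd' : q ∣ p ^ (e : ℕ) := by
            rw [← hF, hU.card]
            exact dvd_pow_self q two_ne_zero
          obtain ⟨k, _, hk⟩ := (Nat.dvd_prime_pow hp).mp hdvd'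
          have hek : (e : ℕ) = 2 * k := by
            have h1 := hF
            rw [hU.card, hk, ← pow_mul] at h1
            rw [mul_comm]
            exact (Nat.pow_right_injective hp.two_le h1).symm
          have he0 := e.pos
          by_contra hne
          apply hA 2 (by norm_num) (by omega)
          rw [hz4]
          have hpodd : p % 2 = 1 := by
            rcases hp.eq_two_or_odd with h | h
            · exact absurd h.symm hrp
            · exact h
          have h4 : p % 4 = 1 ∨ p % 4 = 3 := by omega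
          have h5 : p ^ 2 % 4 = 1 := by
            rw [Nat.pow_mod]
            rcases h4 with h | h <;> rw [h]
          have h6 : 0 < p ^ 2 := pow_pos hp.pos _
          omega
        · rw [hcard, hz4, pow_add]; norm_num
      · left
        have hg : Nat.gcd 2 r = 1 := (Nat.coprime_primes Nat.prime_two hr).mpr (Ne.symm hr2)
        have hzr : z = r := by rw [hz, hg, mul_one]
        refine ⟨hr.odd_of_ne_two hr2, hzr, hm, ?_⟩
        rw [hcard, hzr, pow_add, pow_one]
  · have hr2 : r = 2 := by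
      by_contra hr2
      have hg : Nat.gcd 2 r = 1 := (Nat.coprime_primes Nat.prime_two hr).mpr (Ne.symm hr2)
      rw [hg, mul_one] at hz
      rcases hC with h | h
      · exact hz h
      · exact hr2 h.1
    subst hr2
    have hz2 : Nat.card (Subgroup.center N) = 2 := by
      rcases hC with h | h
      · exact h
      · exfalso; apply hz; rw [h.2]; norm_num
    obtain ⟨h2, hcN, hsq, hsc⟩ := caseB_hyps habs hpowr hz2 hcard
    rcases Cfsg.Agent.Lib.Helper38AschBilin.bilinear_of_sq N habs h2 hcN hsq hsc with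
      ⟨Q, hQ, hfix⟩ | ⟨β, hβ, hfix⟩
    · exact ubil_fix hU hn hH hirr hnc hnorm habs hQ.polar_bilinear hQ.nondegenerate
        (Cfsg.Agent.Lib.Helper98AschMainAux.fixes_polar hfix)
    · exact ubil_fix hU hn hH hirr hnc hnorm habs hβ.bilinear hβ.nondegenerate hfix


open Cfsg.Agent.Lib.Helper98AschC7 in
/-- the data of the tensor-induced case (copy of `Helper98AschC7.c7_general` with explicit output) -/
theorem c7_data [NeZero n] {N T : Subgroup (GL (Fin n) F)}
    (habsN : ActsAbsolutelyIrreducibly (matrixSet N)) (hTnorm : Nz N T)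
    (hTs : ¬ T ≤ scalars (Fin n) F)
    (hconj : ∀ h ∈ H, cj h T = T ∨ ∀ x ∈ T, ∀ y ∈ cj h T, x * y = y * x)
    (hsup : (⨆ h : H, cj (h : GL (Fin n) F) T) = N) (hex : ∃ h ∈ H, cj h T ≠ T) :
    ∃ (m k : ℕ) (e : Fin n ≃ (Fin k → Fin m)) (P : GL (Fin n) F), 2 ≤ m ∧ 2 ≤ k ∧
      H ≤ tensorWreathSubgroup m k e P ∧
      ∀ i : Fin k, ∃ h ∈ H, ∀ M : Matrix (Fin n) (Fin n) F, M ∈ env (cj h T) ↔
        ∃ a : Matrix (Fin m) (Fin m) F, M = (P : Matrix (Fin n) (Fin n) F) *
          Matrix.reindex e.symm e.symm (factor i a) * ((P⁻¹ : GL (Fin n) F) : Matrix (Fin n) (Fin n) F) := by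
  classical
  -- commuting of distinct conjugates
  have hcc : ∀ g ∈ H, ∀ h ∈ H, cj g T ≠ cj h T → ∀ x ∈ cj g T, ∀ y ∈ cj h T, x * y = y * x := by
    intro g hg h hh hne x hx y hy
    rcases hconj (g⁻¹ * h) (H.mul_mem (H.inv_mem hg) hh) with h1 | h1
    · exfalso
      apply hne
      have := congrArg (cj g) h1
      rw [cj_cj, mul_inv_cancel_left] at this
      exact this.symm
    · have hx' := mem_cj.1 hx
      have hy' : g⁻¹ * y * g ∈ cj (g⁻¹ * h) T := by
        rw [mem_cj]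
        have := mem_cj.1 hy
        have e1 : (g⁻¹ * h)⁻¹ * (g⁻¹ * y * g) * (g⁻¹ * h) = h⁻¹ * y * h := by group
        rw [e1]
        exact this
      have := h1 _ hx' _ hy'
      have e2 : x * y = g * ((g⁻¹ * x * g) * (g⁻¹ * y * g)) * g⁻¹ := by group
      have e3 : y * x = g * ((g⁻¹ * y * g) * (g⁻¹ * x * g)) * g⁻¹ := by group
      rw [e2, e3, this]
  -- a matrix commuting with all conjugates is scalar
  have hscal : ∀ M : Matrix (Fin n) (Fin n) F,
      (∀ h ∈ H, ∀ x ∈ cj h T, M * (x : Matrix (Fin n) (Fin n) F) = (x : Matrix (Fin n) (Fin n) F) * M) →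
      ∃ c : F, M = c • (1 : Matrix (Fin n) (Fin n) F) := by
    intro M hM
    apply habsN.2
    rintro _ ⟨x, hx, rfl⟩
    let C : Subgroup (GL (Fin n) F) :=
      { carrier := {x | M * (x : Matrix (Fin n) (Fin n) F) = (x : Matrix (Fin n) (Fin n) F) * M}
        mul_mem' := by
          intro a b ha hb
          show M * ((a * b : GL (Fin n) F) : Matrix (Fin n) (Fin n) F) = _
          have ha' : M * (a : Matrix (Fin n) (Fin n) F) = (a : Matrix (Fin n) (Fin n) F) * M := ha
          have hb' : M * (b : Matrix (Fin n) (Fin n) F) = (b : Matrix (Fin n) (Fin n) F) * M := hb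
          rw [Units.val_mul, ← mul_assoc, ha', mul_assoc, hb', mul_assoc]
        one_mem' := by simp
        inv_mem' := by
          intro a ha
          have ha' : M * (a : Matrix (Fin n) (Fin n) F) = (a : Matrix (Fin n) (Fin n) F) * M := ha
          show M * ((a⁻¹ : GL (Fin n) F) : Matrix (Fin n) (Fin n) F) = _
          calc M * ((a⁻¹ : GL (Fin n) F) : Matrix (Fin n) (Fin n) F)
              = ((a⁻¹ : GL (Fin n) F) : Matrix (Fin n) (Fin n) F) * ((a : Matrix (Fin n) (Fin n) F) * M) *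
                  ((a⁻¹ : GL (Fin n) F) : Matrix (Fin n) (Fin n) F) := by
                rw [← mul_assoc, Cfsg.Agent.Lib.Helper98AschBasic.vi, one_mul]
            _ = ((a⁻¹ : GL (Fin n) F) : Matrix (Fin n) (Fin n) F) * M := by
                rw [← ha', mul_assoc, mul_assoc, Cfsg.Agent.Lib.Helper98AschBasic.iv, mul_one] }
    have hle : N ≤ C := by
      rw [← hsup]
      apply iSup_le
      intro h y hy
      exact hM h h.2 y hy
    exact hle hx
  -- structure of env T
  have hA : NzA N (env T) := NzA_env hTnorm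
  have hcen : ∀ z ∈ env T, (∀ a ∈ env T, z * a = a * z) →
      ∃ c : F, z = c • (1 : Matrix (Fin n) (Fin n) F) := by
    intro z hz hza
    apply hscal
    intro h hh x hx
    by_cases hc : cj h T = T
    · rw [hc] at hx
      exact hza _ (val_mem_env hx)
    · have h1 : cj (1 : GL (Fin n) F) T ≠ cj h T := by
        rw [cj_one]
        exact fun h => hc h.symm
      have h2 : ∀ x ∈ T, ∀ y ∈ cj h T, x * y = y * x := by
        intro x hx y hy
        exact hcc 1 H.one_mem h hh h1 x (by rwa [cj_one]) y hy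
      exact commute_env h2 hz (val_mem_env hx)
  obtain ⟨m, hm0, φ₀, hφ₀⟩ := exists_hom habsN.1 hA hcen
  -- m ≥ 2
  have hm : 2 ≤ m := by
    by_contra hcon
    have hm1 : m = 1 := by
      have := NeZero.ne m
      omega
    subst hm1
    apply hTs
    intro t ht
    obtain ⟨a, ha⟩ := (hφ₀ _).1 (val_mem_env ht)
    have ha1 : a = a 0 0 • (1 : Matrix (Fin 1) (Fin 1) F) := by
      ext i j
      rw [Subsingleton.elim i 0, Subsingleton.elim j 0]
      simp
    rw [ha1, map_smul, map_one] at ha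
    rw [mem_scalars_iff]
    have hne : a 0 0 ≠ 0 := by
      intro h0
      rw [h0, zero_smul] at ha
      have := t.isUnit
      rw [ha] at this
      have h2 : Nontrivial (Matrix (Fin n) (Fin n) F) := by
        have : Nonempty (Fin n) := ⟨⟨0, Nat.pos_of_ne_zero (NeZero.ne n)⟩⟩
        infer_instance
      exact not_isUnit_zero this
    exact ⟨Units.mk0 _ hne, ha⟩
  -- enumeration of the conjugates
  let 𝒯 : Set (Subgroup (GL (Fin n) F)) := Set.range (fun h : H => cj (h : GL (Fin n) F) T)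
  have hfin : Finite 𝒯 := Set.finite_range _
  obtain ⟨k, ⟨τ⟩⟩ := Finite.exists_equiv_fin 𝒯
  have hrep : ∀ i : Fin k, ∃ h : H, cj (h : GL (Fin n) F) T = (τ.symm i : Subgroup (GL (Fin n) F)) :=
    fun i => (τ.symm i).2
  choose hh hhh using hrep
  have hinj : ∀ i j, cj (hh i : GL (Fin n) F) T = cj (hh j : GL (Fin n) F) T → i = j := by
    intro i j hij
    rw [hhh, hhh] at hij
    exact τ.symm.injective (Subtype.ext hij)
  have hsurj : ∀ h ∈ H, ∃ j, cj h T = cj (hh j : GL (Fin n) F) T := by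
    intro h hH
    refine ⟨τ ⟨cj h T, ⟨⟨h, hH⟩, rfl⟩⟩, ?_⟩
    rw [hhh, Equiv.symm_apply_apply]
  have hk : 2 ≤ k := by
    obtain ⟨h, hH, hne⟩ := hex
    obtain ⟨j₁, hj₁⟩ := hsurj h hH
    obtain ⟨j₂, hj₂⟩ := hsurj 1 H.one_mem
    have : j₁ ≠ j₂ := by
      rintro rfl
      apply hne
      rw [hj₁, ← hj₂, cj_one]
    by_contra hcon
    have : k ≤ 1 := by omega
    apply ‹j₁ ≠ j₂›
    have h1 := j₁.2
    have h2 := j₂.2
    ext
    omega
  let φ : Fin k → (Matrix (Fin m) (Fin m) F →ₐ[F] Matrix (Fin n) (Fin n) F) :=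
    fun i => (conjAlg (hh i : GL (Fin n) F)).toAlgHom.comp φ₀
  have hφmem : ∀ i a, φ i a ∈ env (cj (hh i : GL (Fin n) F) T) := by
    intro i a
    exact conj_mem_env_cj ((hφ₀ _).2 ⟨a, rfl⟩)
  have hφsurj : ∀ i, ∀ M ∈ env (cj (hh i : GL (Fin n) F) T), ∃ a, M = φ i a := by
    intro i M hM
    obtain ⟨M₀, h0, rfl⟩ := mem_env_cj hM
    obtain ⟨a, rfl⟩ := (hφ₀ _).1 h0
    exact ⟨a, rfl⟩
  have hcomm : ∀ i j, i ≠ j → ∀ a b, φ i a * φ j b = φ j b * φ i a := by
    intro i j hij a b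
    exact commute_env (hcc _ (hh i).2 _ (hh j).2 (fun h => hij (hinj i j h))) (hφmem i a) (hφmem j b)
  have hcenφ : ∀ M : Matrix (Fin n) (Fin n) F, (∀ i a, M * φ i a = φ i a * M) →
      ∃ c : F, M = c • (1 : Matrix (Fin n) (Fin n) F) := by
    intro M hM
    apply hscal
    intro h hH x hx
    obtain ⟨j, hj⟩ := hsurj h hH
    rw [hj] at hx
    obtain ⟨a, ha⟩ := hφsurj j _ (val_mem_env hx)
    rw [ha]
    exact hM j a
  obtain ⟨e, P, hP⟩ := Cfsg.Agent.Lib.Helper13AschWcoord.wreath_coord hm (by omega) φ hcomm hcenφ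
  refine ⟨m, k, e, P, hm, hk, ?_, ?_⟩
  · intro g hg
    apply mem_wreath_of_permutes hm (by omega) φ e P hP
    intro i
    obtain ⟨j, hj⟩ := hsurj (g * hh i) (H.mul_mem hg (hh i).2)
    refine ⟨j, fun a => ?_⟩
    apply hφsurj j
    rw [← hj, ← cj_cj]
    exact conj_mem_env_cj (hφmem i a)
  · intro i
    refine ⟨hh i, (hh i).2, fun M => ⟨fun hM => ?_, ?_⟩⟩
    · obtain ⟨a, ha⟩ := hφsurj i M hM
      exact ⟨a, by rw [ha, hP]⟩
    · rintro ⟨a, rfl⟩
      rw [← hP]
      exact hφmem i a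

lemma cj_le_Iso {h : GL (Fin n) F} (hh : h ∈ Iso f) {T : Subgroup (GL (Fin n) F)} (hT : T ≤ Iso f) :
    cj h T ≤ Iso f := by
  intro x hx
  have h1 := hT (mem_cj.1 hx)
  have h2 : x = h * (h⁻¹ * x * h) * h⁻¹ := by group
  rw [h2]
  exact (Iso f).mul_mem ((Iso f).mul_mem hh h1) ((Iso f).inv_mem hh)

theorem uc7 [NeZero n] (hU : US σ f q) (hn : 2 ≤ n) (hH : H ≤ Iso f)
    (hirr : ActsIrreducibly (matrixSet H)) (hnc : NoComm f H) {N T : Subgroup (GL (Fin n) F)}
    (hTI : T ≤ Iso f)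
    (habsN : ActsAbsolutelyIrreducibly (matrixSet N)) (hTnorm : Nz N T)
    (hTs : ¬ T ≤ scalars (Fin n) F)
    (hconj : ∀ h ∈ H, cj h T = T ∨ ∀ x ∈ T, ∀ y ∈ cj h T, x * y = y * x)
    (hsup : (⨆ h : H, cj (h : GL (Fin n) F) T) = N) (hex : ∃ h ∈ H, cj h T ≠ T) :
    UAlt σ f q H := by
  obtain ⟨m, k, e, P, hm, hk, hle, hfac⟩ := c7_data habsN hTnorm hTs hconj hsup hex
  obtain ⟨P', hP', heq⟩ := wreath_form hU hm (by omega) e P (fun i a => by
    obtain ⟨h, hh, hM⟩ := hfac i
    obtain ⟨k', hk', hadj⟩ := AC_env hU.unitary (cj_le_Iso (hH hh) hTI) _ ((hM _).2 ⟨a, rfl⟩)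
    obtain ⟨b, rfl⟩ := (hM _).1 hk'
    exact ⟨b, hadj⟩)
  exact ualt_wreath hU hn hH hirr hnc hm hk hP' (heq ▸ hle)

/-- THE MAIN THEOREM of the unitary case. -/
theorem umain (hU : US σ f q) (hn : 2 ≤ n) (H : Subgroup (GL (Fin n) F)) (hH : H ≤ Iso f) :
    UAlt σ f q H ∨ InUnitaryResidualClass H := by
  have : NeZero n := ⟨by omega⟩
  by_cases hgeo : UAlt σ f q H
  · exact Or.inl hgeo
  right
  have hirr : ActsIrreducibly (matrixSet H) := by
    rw [actsIrreducibly_iff]
    by_contra hirr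
    push Not at hirr
    obtain ⟨W, hW, h0, h1⟩ := hirr
    rcases ured hU.unitary hH hW h0 h1 with ⟨U, hU0, hUs, hle⟩ | ⟨U, hU0, hUn, hlt, hle⟩ | ⟨k, D, hD, hle⟩
    · exact hgeo (u1a hU0 hUs hle)
    · exact hgeo (u1b hU0 hUn hlt hle)
    · exact hgeo (u2a hD hle)
  have hnc := noComm_of_not hU hH hirr hgeo
  have hdich := udichotomy hU hn hH hirr hgeo
  have hns : ¬ H ≤ scalars (Fin n) F := fun h => not_irred_of_le_scalars hn h hirr
  obtain ⟨N, hNH, hnorm, hNs, hmin, hcase⟩ :=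
    Cfsg.Agent.Lib.Helper67AschCore.core_general (scalars (Fin n) F) scalars_le_center H hns
  have hNI : N ≤ Iso f := hNH.trans hH
  have habs : ActsAbsolutelyIrreducibly (matrixSet N) := (hdich N hNI hnorm).resolve_left hNs
  rcases hcase with hcomm | ⟨hperf, T, hTN, hTnorm, hTs, hTperf, hTmin, hTconj, hsup⟩
  · exact absurd (uc6 hU hn hH hirr hnc hNI hnorm hNs hcomm hmin hdich) hgeo
  by_cases hall : ∀ h ∈ H, cj h T = T
  swap
  · push Not at hall
    exact absurd (uc7 hU hn hH hirr hnc (hTN.trans hNI) habs hTnorm hTs hTconj hsup hall) hgeo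
  have hTN' : T = N := by
    rw [← hsup]
    apply le_antisymm
    · exact le_iSup_of_le (1 : H) (by simp [cj_one])
    · apply iSup_le
      intro h
      rw [hall h h.2]
  subst hTN'
  have hsimple : IsSimpleGroup (T ⧸ (scalars (Fin n) F).subgroupOf T) :=
    simple_quotient (scalars (Fin n) F) T hTs hTmin
  have hnonab : ¬ IsMulCommutative (T ⧸ (scalars (Fin n) F).subgroupOf T) :=
    not_comm_quotient (scalars (Fin n) F) T hTs hTperf
  refine ⟨T, ⟨hNH, hnorm, hTperf, hsimple, hnonab, ?_, habs, ?_⟩, ?_, ?_⟩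
  · intro h _ hh
    exact centralizer_scalar_of_perfect hTperf habs h hh
  · intro F₀ hF₀ hreal
    exact hgeo (usub_alt hU hn hH hirr hnc hnorm hNI habs hF₀ hreal)
  · rintro ⟨Q, hQ, hfix⟩
    exact hgeo (ubil_fix hU hn hH hirr hnc hnorm habs hQ.polar_bilinear hQ.nondegenerate
      (Cfsg.Agent.Lib.Helper98AschMainAux.fixes_polar hfix))
  · rintro ⟨β, hβ, hfix⟩
    exact hgeo (ubil_fix hU hn hH hirr hnc hnorm habs hβ.bilinear hβ.nondegenerate hfix)

end assembly

end Cfsg.Agent.Lib.Helper13UMain
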