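import Cfsg.Agent.Lib.Helper97UProper4
import Cfsg.Agent.Lib.Helper13UWrform

set_option autoImplicit false

/-! ASCH-U, phase 2: orthonormal bases exist; properness of the subfield class for `4 ≤ n`. -/

namespace Cfsg.Agent.Lib.Helper13UProper

open Cfsg Cfsg.Geo Matrix Cfsg.Agent.Lib.Helper97AschBase Cfsg.Agent.Lib.Helper97AschForms
  Cfsg.Agent.Lib.Helper97AschTransv Cfsg.Agent.Lib.Helper95Herm Cfsg.Agent.Lib.Helper97UBase
  Cfsg.Agent.Lib.Helper97UProper Cfsg.Agent.Lib.Helper97UProper2 Cfsg.Agent.Lib.Helper97AschSubfield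
  Cfsg.Agent.Lib.Helper97UProper4 Cfsg.Agent.Lib.Helper13UDefs
open scoped MatrixGroups

variable {n : ℕ} {F : Type*} [Field F] {σ : F ≃+* F} {f : (Fin n → F) → (Fin n → F) → F}

/-- a unitary form over a finite field has an orthonormal basis -/
theorem exists_ON [Finite F] (hf : IsUnitaryForm σ f) : ∃ P : GL (Fin n) F, IsON σ f P := by
  obtain ⟨G, hG⟩ := Cfsg.Agent.Lib.Helper13UWrform.isUnit_gramP hf (1 : GL (Fin n) F)
  obtain ⟨B, hB⟩ := Cfsg.Agent.Lib.Helper13UHerm.exists_ON_matrix hf.ne_refl hf.involutive G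
    (by rw [hG]; exact Cfsg.Agent.Lib.Helper13UWrform.gramP_herm hf 1)
  exact ⟨1 * B, Cfsg.Agent.Lib.Helper13UWrform.isON_mul hf 1 B (by rw [← hG]; exact hB)⟩

/-- two orthogonal independent singular vectors, `4 ≤ n` -/
lemma exists_singular_pair4 [Finite F] (hf : IsUnitaryForm σ f) (hn : 4 ≤ n) :
    ∃ u₁ u₂ : Fin n → F, f u₁ u₁ = 0 ∧ f u₂ u₂ = 0 ∧ f u₁ u₂ = 0 ∧
      ∀ α β : F, α • u₁ + β • u₂ = 0 → α = 0 ∧ β = 0 := by
  classical
  have h := herm_of_unitary hf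
  obtain ⟨P, hP⟩ := exists_ON hf
  obtain ⟨l, hl'⟩ := h.norm_surj (-1) (by simp)
  have hl : 1 + l * σ l = 0 := by
    have : l * σ l = -1 := hl'
    rw [this]; ring
  let i0 : Fin n := ⟨0, by omega⟩
  let i1 : Fin n := ⟨1, by omega⟩
  let i2 : Fin n := ⟨2, by omega⟩
  let i3 : Fin n := ⟨3, by omega⟩
  have h01 : i0 ≠ i1 := by simp [i0, i1, Fin.ext_iff]
  have h02 : i0 ≠ i2 := by simp [i0, i2, Fin.ext_iff]
  have h03 : i0 ≠ i3 := by simp [i0, i3, Fin.ext_iff]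
  have h12 : i1 ≠ i2 := by simp [i1, i2, Fin.ext_iff]
  have h13 : i1 ≠ i3 := by simp [i1, i3, Fin.ext_iff]
  have h23 : i2 ≠ i3 := by simp [i2, i3, Fin.ext_iff]
  have key : ∀ (c d : Fin n), c ≠ d → ∀ x : Fin n → F,
      f ((P : Matrix (Fin n) (Fin n) F) *ᵥ x)
        ((P : Matrix (Fin n) (Fin n) F) *ᵥ (Pi.single c 1 + l • Pi.single d 1)) =
      x c + x d * σ l := by
    intro c d hcd x
    rw [hP, Finset.sum_eq_add_of_mem c d (Finset.mem_univ _) (Finset.mem_univ _) hcd]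
    · simp [Pi.single_apply, hcd, hcd.symm]
    · intro k _ hk
      simp [Pi.single_apply, hk.1, hk.2]
  refine ⟨(P : Matrix (Fin n) (Fin n) F) *ᵥ (Pi.single i0 1 + l • Pi.single i1 1),
    (P : Matrix (Fin n) (Fin n) F) *ᵥ (Pi.single i2 1 + l • Pi.single i3 1), ?_, ?_, ?_, ?_⟩
  · rw [key i0 i1 h01]
    simpa [Pi.single_apply, h01, h01.symm] using hl
  · rw [key i2 i3 h23]
    simpa [Pi.single_apply, h23, h23.symm] using hl
  · rw [key i2 i3 h23]
    simp [Pi.single_apply, h02, h02.symm, h03, h03.symm, h12, h12.symm, h13, h13.symm]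
  · intro α β hαβ
    rw [← Matrix.mulVec_smul, ← Matrix.mulVec_smul, ← Matrix.mulVec_add] at hαβ
    have h0 := mulVec_injective P (hαβ.trans (Matrix.mulVec_zero _).symm)
    have e0 := congrFun h0 i0
    have e2 := congrFun h0 i2
    simp [Pi.single_apply, h01, h01.symm, h02, h02.symm, h03, h03.symm, h12, h12.symm, h23, h23.symm]
      at e0 e2
    exact ⟨e0, e2⟩

theorem not_le_subfield4 [Fintype F] (hf : IsUnitaryForm σ f) (hn : 4 ≤ n) {F₁ : Subfield F}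
    (hF₁ : F₁ ≠ ⊤) (C : GL (Fin n) F) :
    ¬ Iso f ⊓ specialLinear (Fin n) F ≤ subfieldSubgroup F₁ C := by
  intro hle
  have h := herm_of_unitary hf
  obtain ⟨τ, hτ, l, hl⟩ := exists_moved hF₁
  obtain ⟨a, ha0, ha⟩ := h.exists_z
  -- singular vectors are rational up to scalars
  have hrat : ∀ u : Fin n → F, u ≠ 0 → f u u = 0 → ∃ κ : F, κ ≠ 0 ∧
      ∀ i, τ (κ * (((C⁻¹ : GL (Fin n) F) : Matrix (Fin n) (Fin n) F) *ᵥ u) i) =
        κ * (((C⁻¹ : GL (Fin n) F) : Matrix (Fin n) (Fin n) F) *ᵥ u) i := by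
    intro u hu0 hu
    have h1 := tv_fixed (by omega) τ hτ C u (uφ f u a) _ (hle (utv_mem hf u a hu ha))
    have h2 : uφ f u a ᵥ* (C : Matrix (Fin n) (Fin n) F) ≠ 0 := by
      intro h0
      apply uφ_ne_zero hf hu0 ha0
      have := congrArg (fun w => w ᵥ* ((C⁻¹ : GL (Fin n) F) : Matrix (Fin n) (Fin n) F)) h0
      simpa [Matrix.vecMul_vecMul, iv] using this
    obtain ⟨j, hj⟩ := Function.ne_iff.mp h2
    rw [Pi.zero_apply] at hj
    refine ⟨_, hj, fun i => ?_⟩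
    rw [mul_comm]
    exact h1 i j
  obtain ⟨u₁, u₂, hu₁, hu₂, h12, hind⟩ := exists_singular_pair4 hf hn
  have hu₁0 : u₁ ≠ 0 := by
    rintro rfl
    exact one_ne_zero (hind 1 0 (by simp)).1
  have hu₂0 : u₂ ≠ 0 := by
    rintro rfl
    exact one_ne_zero (hind 0 1 (by simp)).2
  obtain ⟨κ₁, hκ₁0, hκ₁⟩ := hrat u₁ hu₁0 hu₁
  obtain ⟨κ₂, hκ₂0, hκ₂⟩ := hrat u₂ hu₂0 hu₂
  have h21 := h.swap_zero h12
  -- the mixed vector
  obtain ⟨w, hw⟩ : ∃ w, w = κ₁ • u₁ + (l * κ₂) • u₂ := ⟨_, rfl⟩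
  have hww : f w w = 0 := by
    rw [hw]
    simp only [h.add_left, h.add_right, h.smul_left, h.smul_right, hu₁, hu₂, h12, h21]
    ring
  have hw0 : w ≠ 0 := by
    intro h0
    rw [hw] at h0
    exact hκ₁0 (hind _ _ h0).1
  obtain ⟨κ, hκ0, hκ⟩ := hrat w hw0 hww
  -- compare
  have key : (τ κ - κ) • (κ₁ • u₁) + (τ κ * τ l - κ * l) • (κ₂ • u₂) = 0 := by
    apply mulVec_injective C⁻¹
    simp only [Matrix.mulVec_zero]
    ext i
    have e := hκ i
    rw [hw, Matrix.mulVec_add, Matrix.mulVec_smul, Matrix.mulVec_smul, Pi.add_apply, Pi.smul_apply,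
      Pi.smul_apply, smul_eq_mul, smul_eq_mul] at e
    have e1 := hκ₁ i
    have e2 := hκ₂ i
    rw [Matrix.mulVec_add, Matrix.mulVec_smul, Matrix.mulVec_smul, Matrix.mulVec_smul,
      Matrix.mulVec_smul]
    simp only [Pi.add_apply, Pi.smul_apply, smul_eq_mul, Pi.zero_apply]
    rw [map_mul, map_add, mul_assoc l, map_mul τ l, e1, e2] at e
    linear_combination e
  rw [smul_smul, smul_smul] at key
  obtain ⟨k1, k2⟩ := hind _ _ key
  have hτκ : τ κ = κ := by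
    rcases mul_eq_zero.mp k1 with h5 | h5
    · exact sub_eq_zero.mp h5
    · exact absurd h5 hκ₁0
  have h6 : τ κ * τ l - κ * l = 0 := by
    rcases mul_eq_zero.mp k2 with h5 | h5
    · exact h5
    · exact absurd h5 hκ₂0
  rw [hτκ, ← mul_sub] at h6
  rcases mul_eq_zero.mp h6 with h7 | h7
  · exact hκ0 h7
  · exact hl (sub_eq_zero.mp h7)


end Cfsg.Agent.Lib.Helper13UProper
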