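import Cfsg.Agent.Lib.Helper23CA0
import Cfsg.Agent.Lib.Helper6SL

set_option autoImplicit false

/-! Project 232 (S3351), piece M9: `SL_N` is generated by the elementary matrices `EN`. -/

namespace Cfsg.Agent.Lib.Helper14CAM9

open Subgroup Matrix Cfsg.Agent.Lib.Helper23CE Cfsg.Agent.Lib.Helper23CA

variable {F : Type*} [Field F]

theorem gen_transv (N : ℕ) : closure {x : SL N F | ∃ a b t, x = EN N a b t} = ⊤ := by
  rw [eq_top_iff]
  intro A _
  rcases Nat.lt_or_ge 1 N with hN | hN
  · have : Nontrivial (Fin N) := Fin.nontrivial_iff_two_le.2 hN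
    refine Cfsg.Agent.Lib.Helper6SL.transvection_induction
      (fun A => A ∈ closure {x : SL N F | ∃ a b t, x = EN N a b t}) ?_ (fun _ _ => mul_mem) A
    intro i j hij c
    apply Subgroup.subset_closure
    refine ⟨i.val, j.val, c, ?_⟩
    unfold EN
    rw [dif_pos ⟨i.2, j.2, fun e => hij (Fin.ext e)⟩]
  · have : Subsingleton (Fin N) := Fin.subsingleton_iff_le_one.2 hN
    have h1 : A = 1 := Subsingleton.elim _ _
    rw [h1]
    exact one_mem _

end Cfsg.Agent.Lib.Helper14CAM9
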