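import Cfsg.Agent.Lib.Helper49TDefs

/-!
# Project TENS, piece `kmk`
-/

set_option autoImplicit false
set_option linter.unusedSectionVars false
set_option linter.unusedVariables false

namespace Cfsg.Agent.Lib.Helper70TKmk

open scoped Matrix Kronecker
open Matrix Cfsg.Agent.Lib.Helper49TDefs

variable {F : Type*} [Field F] {a b : ℕ}

local notation "GLn" => Matrix.GeneralLinearGroup (Fin a × Fin b) F
local notation "Mn" => Matrix (Fin a × Fin b) (Fin a × Fin b) F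
local notation "Ma" => Matrix (Fin a) (Fin a) F
local notation "Mb" => Matrix (Fin b) (Fin b) F

/-- piece `kmk` -/
theorem kron_mem (g₁ : Matrix.GeneralLinearGroup (Fin a) F) (g₂ : Matrix.GeneralLinearGroup (Fin b) F)
    (h : (g₁ : Ma).det ^ b * (g₂ : Mb).det ^ a = 1) :
    ∃ m ∈ KS a b F ⊓ SLn a b F, (m : Mn) = (g₁ : Ma) ⊗ₖ (g₂ : Mb) ∧
      ((m⁻¹ : GLn) : Mn) = ((g₁⁻¹ : Matrix.GeneralLinearGroup (Fin a) F) : Ma) ⊗ₖ
        ((g₂⁻¹ : Matrix.GeneralLinearGroup (Fin b) F) : Mb) := by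
  have h1 : ((g₁ : Ma) ⊗ₖ (g₂ : Mb)) * (((g₁⁻¹ : Matrix.GeneralLinearGroup (Fin a) F) : Ma) ⊗ₖ
        ((g₂⁻¹ : Matrix.GeneralLinearGroup (Fin b) F) : Mb)) = 1 := by
    rw [← Matrix.mul_kronecker_mul, ← Units.val_mul, ← Units.val_mul, mul_inv_cancel,
      mul_inv_cancel, Units.val_one, Units.val_one, Matrix.one_kronecker_one]
  have h2 : (((g₁⁻¹ : Matrix.GeneralLinearGroup (Fin a) F) : Ma) ⊗ₖ
        ((g₂⁻¹ : Matrix.GeneralLinearGroup (Fin b) F) : Mb)) * ((g₁ : Ma) ⊗ₖ (g₂ : Mb)) = 1 := by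
    rw [← Matrix.mul_kronecker_mul, ← Units.val_mul, ← Units.val_mul, inv_mul_cancel,
      inv_mul_cancel, Units.val_one, Units.val_one, Matrix.one_kronecker_one]
  refine ⟨⟨_, _, h1, h2⟩, ⟨⟨g₁, g₂, rfl⟩, ?_⟩, rfl, rfl⟩
  change _ ∈ (Matrix.GeneralLinearGroup.det : GLn →* Fˣ).ker
  rw [MonoidHom.mem_ker]
  ext
  rw [Matrix.GeneralLinearGroup.val_det_apply]
  change ((g₁ : Ma) ⊗ₖ (g₂ : Mb)).det = 1
  rw [Matrix.det_kronecker]
  simpa using h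

end Cfsg.Agent.Lib.Helper70TKmk
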