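import Cfsg.Agent.Lib.Helper49TDefs
import Cfsg.Agent.Lib.Helper70TKmk

/-!
# Project TENS, piece `root`
-/

set_option autoImplicit false
set_option linter.unusedSectionVars false
set_option linter.unusedVariables false

namespace Cfsg.Agent.Lib.Helper70TRoot

open scoped Matrix Kronecker
open Matrix Cfsg.Agent.Lib.Helper49TDefs

variable {F : Type*} [Field F] {a b : ℕ}

local notation "GLn" => Matrix.GeneralLinearGroup (Fin a × Fin b) F
local notation "Mn" => Matrix (Fin a × Fin b) (Fin a × Fin b) F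
local notation "Ma" => Matrix (Fin a) (Fin a) F
local notation "Mb" => Matrix (Fin b) (Fin b) F

/-- piece `root` -/
theorem root_mem {H : Subgroup GLn} (hMH : KS a b F ⊓ SLn a b F ≤ H) (c φ : Fin b → F)
    (h : φ ⬝ᵥ c = 0) : (1 : Ma) ⊗ₖ (Matrix.vecMulVec c φ) ∈ NN H := by
  have hT : Matrix.vecMulVec c φ * Matrix.vecMulVec c φ = 0 := by
    rw [Matrix.vecMulVec_mul_vecMulVec, h, zero_smul]
    ext i j
    simp [Matrix.vecMulVec_apply]
  have h1 : (1 + Matrix.vecMulVec c φ) * (1 - Matrix.vecMulVec c φ) = 1 := by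
    rw [add_mul, mul_sub, mul_sub, hT]
    simp
  have h2 : (1 - Matrix.vecMulVec c φ) * (1 + Matrix.vecMulVec c φ) = 1 := by
    rw [sub_mul, mul_add, mul_add, hT]
    simp
  have hdet : (1 + Matrix.vecMulVec c φ).det = 1 := by
    rw [Matrix.vecMulVec_eq Unit, Matrix.det_one_add_replicateCol_mul_replicateRow, h, add_zero]
  obtain ⟨m, hm, hm1, -⟩ := Cfsg.Agent.Lib.Helper70TKmk.kron_mem (a := a) (b := b)
    (1 : Matrix.GeneralLinearGroup (Fin a) F)
    (⟨1 + Matrix.vecMulVec c φ, 1 - Matrix.vecMulVec c φ, h1, h2⟩ :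
      Matrix.GeneralLinearGroup (Fin b) F) (by
      change (1 : Ma).det ^ b * (1 + Matrix.vecMulVec c φ).det ^ a = 1
      rw [hdet]; simp)
  refine ⟨?_, m, hMH hm, ?_⟩
  · rw [← Matrix.mul_kronecker_mul, hT, mul_one, Matrix.kronecker_zero]
  · rw [hm1]
    change (1 : Ma) ⊗ₖ (1 + Matrix.vecMulVec c φ) = _
    rw [Matrix.kronecker_add, Matrix.one_kronecker_one]

end Cfsg.Agent.Lib.Helper70TRoot
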