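import Cfsg.Agent.Lib.Helper49TDefs
import Cfsg.Agent.Lib.Helper70TRoot

set_option autoImplicit false
set_option linter.unusedSectionVars false
set_option linter.unusedVariables false

namespace Cfsg.Agent.Lib.Helper54TBbone

open scoped Matrix Kronecker
open Matrix Cfsg.Agent.Lib.Helper49TDefs

variable {F : Type*} [Field F] {a b : ℕ}

local notation "GLn" => Matrix.GeneralLinearGroup (Fin a × Fin b) F
local notation "Mn" => Matrix (Fin a × Fin b) (Fin a × Fin b) F
local notation "Ma" => Matrix (Fin a) (Fin a) F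
local notation "Mb" => Matrix (Fin b) (Fin b) F

/-- the scalar roots -/
def HasRoots (H : Subgroup GLn) : Prop :=
  ∀ j l : Fin b, j ≠ l → (1 : Ma) ⊗ₖ (Matrix.single j l (1 : F)) ∈ NN H

theorem move_right {H : Subgroup GLn} (hr : HasRoots H) (β : Ma) (i j l : Fin b) (hli : l ≠ i)
    (hlj : l ≠ j) (h : β ⊗ₖ (Matrix.single i j (1 : F)) ∈ NN H) :
    β ⊗ₖ (Matrix.single i l (1 : F)) ∈ NN H := by
  have h2 := hr j l hlj.symm
  have h3 := NN_mul h h2 (by
    rw [← Matrix.mul_kronecker_mul, Matrix.single_mul_single_of_ne (h := hli), Matrix.kronecker_zero])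
  rw [← Matrix.mul_kronecker_mul, Matrix.single_mul_single_same, mul_one, mul_one] at h3
  exact h3

theorem move_left {H : Subgroup GLn} (hr : HasRoots H) (β : Ma) (i j l : Fin b) (hli : l ≠ i)
    (hlj : l ≠ j) (h : β ⊗ₖ (Matrix.single i j (1 : F)) ∈ NN H) :
    β ⊗ₖ (Matrix.single l j (1 : F)) ∈ NN H := by
  have h2 := hr l i hli
  have h3 := NN_mul h2 h (by
    rw [← Matrix.mul_kronecker_mul, Matrix.single_mul_single_of_ne (h := hlj.symm),
      Matrix.kronecker_zero])
  rw [← Matrix.mul_kronecker_mul, Matrix.single_mul_single_same, mul_one, one_mul] at h3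
  exact h3

theorem exists_third (hb : 3 ≤ b) (i j : Fin b) : ∃ l : Fin b, l ≠ i ∧ l ≠ j := by
  by_contra hcon
  push Not at hcon
  have h0 := hcon ⟨0, by omega⟩
  have h1 := hcon ⟨1, by omega⟩
  have h2 := hcon ⟨2, by omega⟩
  by_cases e0 : (⟨0, by omega⟩ : Fin b) = i
  · by_cases e1 : (⟨1, by omega⟩ : Fin b) = i
    · have := e0.trans e1.symm
      simp at this
    · have f1 := h1 e1
      by_cases e2 : (⟨2, by omega⟩ : Fin b) = i
      · have := e0.trans e2.symm
        simp at this
      · have := (h2 e2).trans f1.symm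
        simp at this
  · have f0 := h0 e0
    by_cases e1 : (⟨1, by omega⟩ : Fin b) = i
    · by_cases e2 : (⟨2, by omega⟩ : Fin b) = i
      · have := e1.trans e2.symm
        simp at this
      · have := (h2 e2).trans f0.symm
        simp at this
    · have := (h1 e1).trans f0.symm
      simp at this

theorem mem_BB_of_single_aux (hb : 3 ≤ b) {H : Subgroup GLn} (hr : HasRoots H)
    (β : Ma) (i j : Fin b) (hij : i ≠ j) (h : β ⊗ₖ (Matrix.single i j (1 : F)) ∈ NN H) :
    β ∈ BB H := by
  intro i' j' hij'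
  by_cases hj : j' = j
  · subst hj
    by_cases hi : i' = i
    · subst hi; exact h
    · exact move_left hr β i j' i' hi hij' h
  · by_cases hji : j' = i
    · subst hji
      by_cases hi : i' = j
      · subst hi
        obtain ⟨l, hl1, hl2⟩ := exists_third hb j' i'
        have s1 := move_right hr β j' i' l hl1 hl2 h
        have s2 := move_left hr β j' l i' hij' hl2.symm s1
        exact move_right hr β i' l j' hij'.symm hl1.symm s2
      · have s1 := move_left hr β j' j i' hij' hi h
        exact move_right hr β i' j j' hij'.symm hj s1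
    · have s1 := move_right hr β i j j' hji hj h
      by_cases hi : i' = i
      · subst hi; exact s1
      · exact move_left hr β i j' i' hi hij' s1

theorem hasRoots_of_root {H : Subgroup GLn}
    (hroot : ∀ c φ : Fin b → F, φ ⬝ᵥ c = 0 → (1 : Ma) ⊗ₖ (Matrix.vecMulVec c φ) ∈ NN H) :
    HasRoots H := by
  intro j l hjl
  rw [Matrix.single_eq_single_vecMulVec_single]
  apply hroot
  rw [dotProduct_comm, single_dotProduct, one_mul, Pi.single_apply, if_neg hjl]

/-- piece `bbone` -/
theorem mem_BB_of_single (hb : 3 ≤ b) {H : Subgroup GLn} (hMH : KS a b F ⊓ SLn a b F ≤ H)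
    (β : Ma) (i j : Fin b) (hij : i ≠ j) (h : β ⊗ₖ (Matrix.single i j (1 : F)) ∈ NN H) :
    β ∈ BB H :=
  mem_BB_of_single_aux hb
    (hasRoots_of_root fun c φ h => Cfsg.Agent.Lib.Helper70TRoot.root_mem hMH c φ h) β i j hij h

end Cfsg.Agent.Lib.Helper54TBbone
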