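import Cfsg.Agent.Lib.Helper49TDefs
import Cfsg.Agent.Lib.Helper54TBbone

set_option autoImplicit false
set_option linter.unusedSectionVars false
set_option linter.unusedVariables false

namespace Cfsg.Agent.Lib.Helper54TIso

open scoped Matrix Kronecker
open Matrix Cfsg.Agent.Lib.Helper49TDefs Cfsg.Agent.Lib.Helper54TBbone

variable {F : Type*} [Field F] {a b : ℕ}

local notation "GLn" => Matrix.GeneralLinearGroup (Fin a × Fin b) F
local notation "Mn" => Matrix (Fin a × Fin b) (Fin a × Fin b) F
local notation "Ma" => Matrix (Fin a) (Fin a) F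
local notation "Mb" => Matrix (Fin b) (Fin b) F

theorem blk_single (β : Ma) (l m x y : Fin b) :
    blk (β ⊗ₖ (Matrix.single l m (1 : F))) x y = if x = l ∧ y = m then β else 0 := by
  rw [blk_kron]
  by_cases h : x = l ∧ y = m
  · obtain ⟨rfl, rfl⟩ := h
    simp
  · rw [if_neg h, Matrix.single_apply_of_ne, zero_smul]
    rintro ⟨rfl, rfl⟩
    exact h ⟨rfl, rfl⟩

theorem blk_left (X : Mn) (l i x y : Fin b) :
    blk (((1 : Ma) ⊗ₖ (Matrix.single l i (1 : F))) * X) x y = if x = l then blk X i y else 0 := by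
  rw [blk_mul]
  simp only [blk_single]
  by_cases h : x = l
  · subst h
    rw [if_pos rfl, Finset.sum_eq_single i]
    · simp
    · intro z _ hz
      simp [hz]
    · simp
  · rw [if_neg h]
    apply Finset.sum_eq_zero
    intro z _
    simp [h]

theorem blk_right (X : Mn) (j m x y : Fin b) :
    blk (X * ((1 : Ma) ⊗ₖ (Matrix.single j m (1 : F)))) x y = if y = m then blk X x j else 0 := by
  rw [blk_mul]
  simp only [blk_single]
  by_cases h : y = m
  · subst h
    rw [if_pos rfl, Finset.sum_eq_single j]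
    · simp
    · intro z _ hz
      simp [hz]
    · simp
  · rw [if_neg h]
    apply Finset.sum_eq_zero
    intro z _
    simp [h]

theorem zero_mem_NN (H : Subgroup GLn) : (0 : Mn) ∈ NN H :=
  ⟨by simp, 1, H.one_mem, by simp⟩

theorem zero_mem_BB (H : Subgroup GLn) : (0 : Ma) ∈ BB H := by
  intro i j _
  rw [Matrix.zero_kronecker]
  exact zero_mem_NN H

theorem blk_mem_BB_aux (hb : 3 ≤ b) {H : Subgroup GLn} (hr : HasRoots H) (k : ℕ)
    (B : Mn) (hB : B ∈ NN H) (hUR : IsUR k B) (i j : Fin b) : blk B i j ∈ BB H := by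
  by_cases hij : i.val < k ∧ k ≤ j.val
  swap
  · rw [hUR i j hij]
    exact zero_mem_BB H
  obtain ⟨hi, hj⟩ := hij
  -- the final shape
  have hfin : ∀ l m : Fin b, ((1 : Ma) ⊗ₖ (Matrix.single l i (1 : F))) * B *
      ((1 : Ma) ⊗ₖ (Matrix.single j m (1 : F))) = blk B i j ⊗ₖ (Matrix.single l m (1 : F)) := by
    intro l m
    apply blk_ext
    intro x y
    rw [blk_right, blk_left, blk_single]
    by_cases hx : x = l <;> by_cases hy : y = m <;> simp [hx, hy]
  by_cases hk : 2 ≤ k
  · -- row isolation first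
    obtain ⟨l, hlk, hli⟩ : ∃ l : Fin b, l.val < k ∧ l ≠ i := by
      by_cases h0 : i.val = 0
      · refine ⟨⟨1, by omega⟩, by simp; omega, ?_⟩
        intro h
        rw [← h] at h0
        simp at h0
      · refine ⟨⟨0, by omega⟩, by simp; omega, ?_⟩
        intro h
        rw [← h] at h0
        simp at h0
    obtain ⟨m, hmj, hml⟩ := exists_third hb j l
    have s1 : ((1 : Ma) ⊗ₖ (Matrix.single l i (1 : F))) * B ∈ NN H := by
      apply NN_mul (hr l i hli) hB
      apply blk_ext
      intro x y
      rw [blk_right]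
      by_cases hy : y = i
      · rw [if_pos hy, hUR x l (by omega)]
        rfl
      · rw [if_neg hy]; rfl
    have s2 : ((1 : Ma) ⊗ₖ (Matrix.single l i (1 : F))) * B *
        ((1 : Ma) ⊗ₖ (Matrix.single j m (1 : F))) ∈ NN H := by
      apply NN_mul s1 (hr j m hmj.symm)
      apply blk_ext
      intro x y
      rw [blk_left, blk_left, if_neg hml]
      simp
      rfl
    rw [hfin] at s2
    exact mem_BB_of_single_aux hb hr _ l m hml.symm s2
  · -- column isolation first
    have hk1 : k = 1 := by omega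
    obtain ⟨m, hmk, hmj⟩ : ∃ m : Fin b, k ≤ m.val ∧ m ≠ j := by
      by_cases h1 : j.val = 1
      · refine ⟨⟨2, by omega⟩, by simp; omega, ?_⟩
        intro h
        rw [← h] at h1
        simp at h1
      · refine ⟨⟨1, by omega⟩, by simp; omega, ?_⟩
        intro h
        rw [← h] at h1
        simp at h1
    obtain ⟨l, hli, hlm⟩ := exists_third hb i m
    have s1 : B * ((1 : Ma) ⊗ₖ (Matrix.single j m (1 : F))) ∈ NN H := by
      apply NN_mul hB (hr j m hmj.symm)
      apply blk_ext
      intro x y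
      rw [blk_left]
      by_cases hx : x = j
      · rw [if_pos hx, hUR m y (by omega)]
        rfl
      · rw [if_neg hx]; rfl
    have s2 : ((1 : Ma) ⊗ₖ (Matrix.single l i (1 : F))) * (B *
        ((1 : Ma) ⊗ₖ (Matrix.single j m (1 : F)))) ∈ NN H := by
      apply NN_mul (hr l i hli) s1
      apply blk_ext
      intro x y
      rw [blk_right, blk_right, if_neg hlm]
      simp
      rfl
    rw [← mul_assoc, hfin] at s2
    exact mem_BB_of_single_aux hb hr _ l m hlm s2

/-- piece `iso` (isolation of one block) -/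
theorem blk_mem_BB (hb : 3 ≤ b) {H : Subgroup GLn} (hMH : KS a b F ⊓ SLn a b F ≤ H) (k : ℕ)
    (B : Mn) (hB : B ∈ NN H) (hUR : IsUR k B) (i j : Fin b) : blk B i j ∈ BB H :=
  blk_mem_BB_aux hb
    (hasRoots_of_root fun c φ h => Cfsg.Agent.Lib.Helper70TRoot.root_mem hMH c φ h) k B hB hUR i j

end Cfsg.Agent.Lib.Helper54TIso
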