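import Cfsg.Agent.Lib.Helper49TDefs

set_option autoImplicit false
set_option linter.unusedSectionVars false
set_option linter.unusedVariables false

namespace Cfsg.Agent.Lib.Helper76TTriinv

open scoped Matrix Kronecker
open Matrix Cfsg.Agent.Lib.Helper49TDefs

variable {F : Type*} [Field F] {a b : ℕ}

local notation "GLn" => Matrix.GeneralLinearGroup (Fin a × Fin b) F
local notation "Mn" => Matrix (Fin a × Fin b) (Fin a × Fin b) F

theorem isTri_iff (k : ℕ) (X : Mn) :
    IsTri k X ↔ Matrix.BlockTriangular X (fun q : Fin a × Fin b => if q.2.val < k then 0 else 1) := by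
  constructor
  · intro h p q hpq
    obtain ⟨s, i⟩ := p
    obtain ⟨s', j⟩ := q
    simp only at hpq
    have hj : j.val < k := by
      by_contra hj
      rw [if_neg hj] at hpq
      split_ifs at hpq <;> omega
    have hi : k ≤ i.val := by
      by_contra hi
      rw [if_pos (by omega : i.val < k)] at hpq
      omega
    have := h i j hj hi
    have h2 := congrFun (congrFun this s) s'
    simpa using h2
  · intro h i j hj hi
    ext s s'
    rw [blk_apply]
    apply h
    simp only
    rw [if_pos hj, if_neg (by omega)]
    exact Nat.zero_lt_one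

/-- piece `triinv` -/
theorem isTri_inv (k : ℕ) (t : GLn) (ht : IsTri k (t : Mn)) : IsTri k ((t⁻¹ : GLn) : Mn) := by
  rw [isTri_iff] at ht ⊢
  rw [Matrix.coe_units_inv]
  have : Invertible (t : Mn) := t.invertible
  exact Matrix.blockTriangular_inv_of_blockTriangular ht

end Cfsg.Agent.Lib.Helper76TTriinv
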