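import Cfsg.Agent.Lib.Helper49TDefs
import Cfsg.Agent.Lib.Helper70TRoot
import Cfsg.Agent.Lib.Helper76TTriinv
import Cfsg.Agent.Lib.Helper54TIso

/-!
# Project TENS, piece `nonsc`: assembly of part D.
-/

set_option autoImplicit false
set_option linter.unusedSectionVars false
set_option linter.unusedVariables false

namespace Cfsg.Agent.Lib.Helper14TNonsc

open scoped Matrix Kronecker
open Matrix Cfsg.Agent.Lib.Helper49TDefs
open Cfsg.Agent.Lib.Helper70TRoot Cfsg.Agent.Lib.Helper76TTriinv Cfsg.Agent.Lib.Helper54TIso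
  Cfsg.Agent.Lib.Helper70TKmk

variable {F : Type*} [Field F] {a b : ℕ}

local notation "GLn" => Matrix.GeneralLinearGroup (Fin a × Fin b) F
local notation "Mn" => Matrix (Fin a × Fin b) (Fin a × Fin b) F
local notation "Ma" => Matrix (Fin a) (Fin a) F
local notation "Mb" => Matrix (Fin b) (Fin b) F

theorem blk_sandwich (X Y : Mn) (l k' i m : Fin b) :
    blk (X * ((1 : Ma) ⊗ₖ (Matrix.single l k' (1 : F))) * Y) i m = blk X i l * blk Y k' m := by
  rw [blk_mul]
  simp only [blk_mul, blk_kron]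
  rw [Finset.sum_eq_single k']
  · rw [Finset.sum_eq_single l]
    · simp
    · intro x _ hx
      simp [Matrix.single_apply, hx.symm]
    · intro h; exact absurd (Finset.mem_univ _) h
  · intro y _ hy
    have : ∀ x : Fin b, (Matrix.single l k' (1 : F)) x y = 0 := by
      intro x
      simp [Matrix.single_apply, hy.symm]
    simp [this]
  · intro h; exact absurd (Finset.mem_univ _) h

theorem single_mem_NN {H : Subgroup GLn} (hMH : KS a b F ⊓ SLn a b F ≤ H) (l k' : Fin b)
    (h : l ≠ k') : (1 : Ma) ⊗ₖ (Matrix.single l k' (1 : F)) ∈ NN H := by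
  rw [Matrix.single_eq_single_vecMulVec_single]
  apply root_mem hMH
  simp [h.symm]

theorem isUR_sandwich (k : ℕ) (X Y : Mn) (hX : IsTri k X) (hY : IsTri k Y) (l k' : Fin b)
    (hl : l.val < k) (hk' : k ≤ k'.val) :
    IsUR k (X * ((1 : Ma) ⊗ₖ (Matrix.single l k' (1 : F))) * Y) := by
  intro i m him
  rw [blk_sandwich]
  by_cases hi : i.val < k
  · have hm : m.val < k := by
      by_contra hm
      exact him ⟨hi, by omega⟩
    rw [hY k' m hm hk', mul_zero]
  · rw [hX i l hl (by omega), zero_mul]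

theorem sq_zero_of_isUR (k : ℕ) (B : Mn) (hB : IsUR k B) : B * B = 0 := by
  apply blk_ext
  intro i j
  rw [blk_mul]
  have : blk (0 : Mn) i j = 0 := rfl
  rw [this]
  apply Finset.sum_eq_zero
  intro l _
  by_cases hl : l.val < k
  · rw [hB i l (by omega), zero_mul]
  · rw [hB l j (by omega), mul_zero]

theorem det_of_isUR (k : ℕ) (B : Mn) (hB : IsUR k B) : (1 + B).det = 1 := by
  set π : Mn := (1 : Ma) ⊗ₖ (Matrix.diagonal (fun j : Fin b => if k ≤ j.val then (1 : F) else 0))
    with hπ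
  have h1 : B * π = B := by
    apply blk_ext
    intro i j
    rw [blk_mul]
    simp only [hπ, blk_kron]
    rw [Finset.sum_eq_single j]
    · by_cases hj : k ≤ j.val
      · simp [hj]
      · simp [hj, hB i j (by omega)]
    · intro l _ hl
      simp [Matrix.diagonal_apply_ne _ hl]
    · intro h; exact absurd (Finset.mem_univ _) h
  have h2 : π * B = 0 := by
    apply blk_ext
    intro i j
    rw [blk_mul]
    have : blk (0 : Mn) i j = 0 := rfl
    rw [this]
    simp only [hπ, blk_kron]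
    apply Finset.sum_eq_zero
    intro l _
    by_cases hl : i = l
    · subst hl
      by_cases hi : k ≤ i.val
      · rw [hB i j (by omega), mul_zero]
      · simp [hi]
    · simp [Matrix.diagonal_apply_ne _ hl]
  rw [← h1, Matrix.det_one_add_mul_comm, h2]
  simp

theorem mem_SLn_iff (g : GLn) : g ∈ SLn a b F ↔ (g : Mn).det = 1 := by
  unfold SLn Cfsg.Geo.specialLinear
  rw [MonoidHom.mem_ker, Units.ext_iff]
  rfl

/-- piece `nonsc` (assembly of D), with the piece `form` (for this `t`) as a hypothesis -/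
theorem exists_nonscalar_of (ha : 0 < a) (hb : 3 ≤ b) (H : Subgroup GLn)
    (hMH : KS a b F ⊓ SLn a b F ≤ H)
    (hH : H ≤ SLn a b F) (t : GLn) (ht : t ∈ H) (htK : t ∉ KS a b F) (k : ℕ) (hk0 : 0 < k)
    (hkb : k < b) (htri : IsTri k (t : Mn))
    (hform : IsTri k (t : Mn) → IsTri k ((t⁻¹ : GLn) : Mn) →
      (∀ i l k' m : Fin b, i.val < k → l.val < k → k ≤ k'.val → k ≤ m.val →
        ∃ c : F, blk (t : Mn) i l * blk ((t⁻¹ : GLn) : Mn) k' m = c • 1) →
      (∀ i l k' m : Fin b, i.val < k → l.val < k → k ≤ k'.val → k ≤ m.val →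
        ∃ c : F, blk ((t⁻¹ : GLn) : Mn) i l * blk (t : Mn) k' m = c • 1) →
      ∃ (g₁ : Matrix.GeneralLinearGroup (Fin a) F) (g₂ : Matrix.GeneralLinearGroup (Fin b) F)
        (B : Mn), IsUR k B ∧ (t : Mn) = (1 + B) * ((g₁ : Ma) ⊗ₖ (g₂ : Mb))) :
    ∃ β ∈ BB H, ∀ c : F, β ≠ c • 1 := by
  by_contra hcon
  push Not at hcon
  have htri' : IsTri k ((t⁻¹ : GLn) : Mn) := isTri_inv k t htri
  have hsc : ∀ i l k' m : Fin b, i.val < k → l.val < k → k ≤ k'.val → k ≤ m.val →
      ∃ c : F, blk (t : Mn) i l * blk ((t⁻¹ : GLn) : Mn) k' m = c • 1 := by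
    intro i l k' m _ hl hk' _
    have hne : l ≠ k' := by
      intro h; rw [h] at hl; omega
    have hB := NN_conj (single_mem_NN hMH l k' hne) ht
    have hUR := isUR_sandwich k _ _ htri htri' l k' hl hk'
    have := blk_mem_BB hb hMH k _ hB hUR i m
    rw [blk_sandwich] at this
    exact hcon _ this
  have hsc' : ∀ i l k' m : Fin b, i.val < k → l.val < k → k ≤ k'.val → k ≤ m.val →
      ∃ c : F, blk ((t⁻¹ : GLn) : Mn) i l * blk (t : Mn) k' m = c • 1 := by
    intro i l k' m _ hl hk' _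
    have hne : l ≠ k' := by
      intro h; rw [h] at hl; omega
    have hB := NN_conj (single_mem_NN hMH l k' hne) (H.inv_mem ht)
    rw [inv_inv] at hB
    have hUR := isUR_sandwich k _ _ htri' htri l k' hl hk'
    have := blk_mem_BB hb hMH k _ hB hUR i m
    rw [blk_sandwich] at this
    exact hcon _ this
  obtain ⟨g₁, g₂, B, hUR, htB⟩ := hform htri htri' hsc hsc'
  have hBB : B * B = 0 := sq_zero_of_isUR k B hUR
  have hdetB : (1 + B).det = 1 := det_of_isUR k B hUR
  have hdett : (t : Mn).det = 1 := (mem_SLn_iff t).mp (hH ht)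
  have hdetk : (g₁ : Ma).det ^ b * (g₂ : Mb).det ^ a = 1 := by
    have := hdett
    rw [htB, Matrix.det_mul, hdetB, one_mul, Matrix.det_kronecker] at this
    simpa using this
  obtain ⟨m, hm, hmv, hmi⟩ := kron_mem g₁ g₂ hdetk
  have hmH : m ∈ H := hMH hm
  have hval : ((t * m⁻¹ : GLn) : Mn) = 1 + B := by
    have h1 : (t : Mn) = (1 + B) * (m : Mn) := by rw [htB, hmv]
    rw [Units.val_mul, h1, mul_assoc, ← Units.val_mul, mul_inv_cancel, Units.val_one, mul_one]
  have hBN : B ∈ NN H := ⟨hBB, t * m⁻¹, H.mul_mem ht (H.inv_mem hmH), hval⟩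
  -- all blocks of `B` are scalar
  set o : Fin a := ⟨0, ha⟩ with ho
  set B₂ : Mb := Matrix.of fun i j => blk B i j o o with hB₂
  have hblk : ∀ i j, blk B i j = B₂ i j • (1 : Ma) := by
    intro i j
    obtain ⟨c, hc⟩ := hcon _ (blk_mem_BB hb hMH k B hBN hUR i j)
    have : B₂ i j = c := by
      simp only [hB₂, Matrix.of_apply]
      rw [hc]
      simp
    rw [this, hc]
  have hBk : B = (1 : Ma) ⊗ₖ B₂ := by
    apply blk_ext
    intro i j
    rw [blk_kron, hblk]
  have hB₂0 : ∀ i j : Fin b, ¬ (i.val < k ∧ k ≤ j.val) → B₂ i j = 0 := by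
    intro i j hij
    simp only [hB₂, Matrix.of_apply]
    rw [hUR i j hij]
    rfl
  have hB₂sq : B₂ * B₂ = 0 := by
    ext i j
    rw [Matrix.mul_apply]
    apply Finset.sum_eq_zero
    intro l _
    by_cases hl : l.val < k
    · rw [hB₂0 i l (by omega), zero_mul]
    · rw [hB₂0 l j (by omega), mul_zero]
  let w : Matrix.GeneralLinearGroup (Fin b) F :=
    ⟨1 + B₂, 1 - B₂, by noncomm_ring; rw [hB₂sq]; simp, by noncomm_ring; rw [hB₂sq]; simp⟩
  have hK1 : t * m⁻¹ ∈ KS a b F := by
    refine ⟨1, w, ?_⟩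
    rw [hval]
    change 1 + B = (1 : Ma) ⊗ₖ (1 + B₂)
    rw [Matrix.kronecker_add, Matrix.one_kronecker_one, ← hBk]
  apply htK
  have := (KS a b F).mul_mem hK1 hm.1
  simpa using this

end Cfsg.Agent.Lib.Helper14TNonsc
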