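import Mathlib

set_option autoImplicit false

namespace Cfsg.Agent.Lib.Helper15AutA14

variable {K : Type*} [Field K]

/-- A14 (pure field theory) -/
theorem ring_of_sq [Finite K] (F : K → K) (hadd : ∀ a b, F (a + b) = F a + F b) (hbij : Function.Bijective F)
    (h1 : F 1 = 1) (hsq : ∀ t u, t ≠ 0 → F (t ^ 2 * u) = F t ^ 2 * F u) :
    ∃ σ : K ≃+* K, ∀ t, F t = σ t := by
  have h0 : F 0 = 0 := by
    have := hadd 0 0
    simpa using this
  have hneg : ∀ a, F (-a) = - F a := by
    intro a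
    have := hadd a (-a)
    rw [add_neg_cancel, h0] at this
    exact eq_neg_of_add_eq_zero_right this.symm
  have hsub : ∀ a b, F (a - b) = F a - F b := by
    intro a b
    rw [sub_eq_add_neg, hadd, hneg, sub_eq_add_neg]
  have hsq1 : ∀ t, F (t ^ 2) = F t ^ 2 := by
    intro t
    by_cases ht : t = 0
    · subst ht; simp [h0]
    · have := hsq t 1 ht
      simpa [h1] using this
  have hsq2 : ∀ t u, F (t ^ 2 * u) = F (t ^ 2) * F u := by
    intro t u
    by_cases ht : t = 0
    · subst ht; simp [h0]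
    · rw [hsq t u ht, hsq1]
  have hmul : ∀ s u, F (s * u) = F s * F u := by
    intro s u
    by_cases h2 : (2 : K) = 0
    · haveI : CharP K 2 := CharTwo.of_one_ne_zero_of_two_eq_zero one_ne_zero h2
      have hc : ringChar K = 2 := (ringChar.eq K 2)
      obtain ⟨r, hr⟩ := FiniteField.isSquare_of_char_two hc s
      rw [hr, ← sq]
      exact hsq2 r u
    · have e : s = ((s + 1) / 2) ^ 2 - ((s - 1) / 2) ^ 2 := by
        field_simp
        ring
      have e1 : F (s * u) = F (((s + 1) / 2) ^ 2 * u) - F (((s - 1) / 2) ^ 2 * u) := by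
        rw [← hsub, ← sub_mul, ← e]
      have e2 : F s = F (((s + 1) / 2) ^ 2) - F (((s - 1) / 2) ^ 2) := by
        rw [← hsub, ← e]
      rw [e1, e2, hsq2, hsq2, sub_mul]
  exact ⟨RingEquiv.ofBijective (⟨⟨⟨F, h1⟩, hmul⟩, h0, hadd⟩ : K →+* K) hbij, fun t => rfl⟩

end Cfsg.Agent.Lib.Helper15AutA14
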