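import Cfsg.Agent.Lib.LeadAutDefs
import Cfsg.Agent.Lib.LeadChevMisc
import Cfsg.Agent.Lib.Helper22ChevBruhat
import Cfsg.Agent.Lib.Helper23RG2

set_option autoImplicit false

namespace Cfsg.Agent.Lib.Helper15AutA16

open Subgroup Cfsg.Agent.Lib.Helper23Grp Cfsg.Agent.Lib.Helper23RG Cfsg.Agent.Lib.Helper23RG.RG
  Cfsg.Agent.Lib.Helper23Weyl Cfsg.Agent.Lib.LeadAutDefs

variable {𝔾 K R I : Type*} [Group 𝔾] [Field K] [Fintype R] [DecidableEq R] {S : RG 𝔾 K R I}

/-- A16 (uses A13, A14 as hypotheses): THEOREM 2 -/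
theorem exists_sigma [Finite K] (h : AData S) {θ : 𝔾 ≃* 𝔾} {ρ : Equiv.Perm I} {f : I → K → K}
    (hA : Acts S θ ρ f)
    (h13 : ∀ (i j : I) (t u : K), t ≠ 0 →
      f i (t ^ (S.A j (S.simple i)) * u) = (f j t / f j 1) ^ (S.A (ρ j) (S.simple (ρ i))) * f i u)
    (h14 : ∀ F : K → K, (∀ a b, F (a + b) = F a + F b) → Function.Bijective F → F 1 = 1 →
      (∀ t u, t ≠ 0 → F (t ^ 2 * u) = F t ^ 2 * F u) → ∃ σ : K ≃+* K, ∀ t, F t = σ t) :
    ∃ (c : I → Kˣ) (σ : I → (K ≃+* K)), (∀ i t, f i t = c i * σ i t) ∧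
      ∀ (i j : I) (t : K), t ≠ 0 →
        σ i t ^ (S.A j (S.simple i)) = σ j t ^ (S.A (ρ j) (S.simple (ρ i))) := by
  have f0 : ∀ i, f i 0 = 0 := by
    intro i
    have := hA.add i 0 0
    simpa using this
  have f1 : ∀ i, f i 1 ≠ 0 := by
    intro i hh
    have := (hA.bij i).1 (hh.trans (f0 i).symm)
    exact one_ne_zero this
  have key : ∀ i, ∃ σ : K ≃+* K, ∀ t, f i t / f i 1 = σ t := by
    intro i
    refine h14 (fun t => f i t / f i 1) ?_ ?_ ?_ ?_
    · intro a b
      simp only [hA.add, add_div]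
    · constructor
      · intro a b hab
        have hab' : f i a / f i 1 = f i b / f i 1 := hab
        have : f i a = f i b := by
          field_simp [f1 i] at hab'
          exact hab'
        exact (hA.bij i).1 this
      · intro y
        obtain ⟨a, ha⟩ := (hA.bij i).2 (y * f i 1)
        refine ⟨a, ?_⟩
        show f i a / f i 1 = y
        rw [ha, mul_div_assoc, div_self (f1 i), mul_one]
    · exact div_self (f1 i)
    · intro t u ht
      have := h13 i i t u ht
      rw [h.A_self, h.A_self] at this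
      have e2 : ∀ z : K, z ^ (2 : ℤ) = z ^ 2 := fun z => by
        exact_mod_cast zpow_natCast z 2
      rw [e2, e2] at this
      show f i (t ^ 2 * u) / f i 1 = (f i t / f i 1) ^ 2 * (f i u / f i 1)
      rw [this, mul_div_assoc]
  choose σ hσ using key
  have hc : ∀ i t, f i t = f i 1 * σ i t := by
    intro i t
    rw [← hσ i t, mul_div_assoc', mul_comm, mul_div_assoc, div_self (f1 i), mul_one]
  refine ⟨fun i => Units.mk0 (f i 1) (f1 i), σ, fun i t => by simpa using hc i t, ?_⟩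
  intro i j t ht
  have := h13 i j t 1 ht
  rw [mul_one, hσ j t, hc i, map_zpow₀, mul_comm] at this
  exact mul_right_cancel₀ (f1 i) this

end Cfsg.Agent.Lib.Helper15AutA16
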