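import Cfsg.Agent.Lib.LeadAutConc
import Cfsg.Agent.S1081

set_option autoImplicit false

namespace Cfsg.Agent.Lib.Helper15AutO10

open Cfsg Cfsg.Lie Cfsg.Lie.ChevalleyDatum
open Subgroup Cfsg.Agent.Lib.Helper23Grp Cfsg.Agent.Lib.Helper23RG Cfsg.Agent.Lib.Helper23RG.RG
  Cfsg.Agent.Lib.Helper23Weyl Cfsg.Agent.Lib.LeadAutDefs
  Cfsg.Agent.Lib.Helper23Table Cfsg.Agent.Lib.Helper23Chev Cfsg.Agent.Lib.LeadAutConc
open scoped MatrixGroups Matrix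

variable {F : Type*} [Field F]

/-- the bond table of `E₆` -/
def tE6 : Fin 6 → Fin 6 → ℤ :=
  ![![4, 0, 1, 0, 0, 0], ![0, 4, 0, 1, 0, 0], ![1, 0, 4, 1, 0, 0], ![0, 1, 1, 4, 1, 0], ![0, 0, 0, 1, 4, 1],
    ![0, 0, 0, 0, 1, 4]]

theorem bonds_E6 : ∀ i j : Fin 6, chevE6.bonds i j = tE6 i j := by decide +kernel

/-- the nontrivial symmetry of the diagram -/
def r6 : Equiv.Perm (Fin 6) where
  toFun := ![5, 1, 4, 3, 2, 0]
  invFun := ![5, 1, 4, 3, 2, 0]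
  left_inv := by decide
  right_inv := by decide

theorem sym_E6 : ∀ ρ : Equiv.Perm (Fin 6), (∀ i j : Fin 6, i ≠ j → tE6 (ρ i) (ρ j) = tE6 i j) → ρ = 1 ∨ ρ = r6 := by
  decide +kernel

theorem r6_ne : r6 ≠ 1 := by decide +kernel

theorem r6_getD : ∀ i : Fin 6, ([5, 1, 4, 3, 2, 0] : List ℕ).getD (i : ℕ) 0 = ((r6 i : Fin 6) : ℕ) := by decide

/-- O10 : the graph automorphism of E6 -/
theorem graph_E6 (hT : TableOK chevE6) (hR : Rel chevE6 F) :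
    ∃ ρ6 : Equiv.Perm (Fin chevE6.rank), ρ6 ≠ 1 ∧
      (∀ ρ : Equiv.Perm (Fin chevE6.rank), chevE6.IsDiagramSymmetry ρ → ρ = 1 ∨ ρ = ρ6) ∧
      ∃ g : ↥(chevE6.group F) ≃* ↥(chevE6.group F), Acts (SG hT hR) g ρ6 (fun _ t => t) := by
  refine ⟨r6, r6_ne, ?_, ?_⟩
  · intro ρ hρ
    refine sym_E6 ρ (fun i j hij => ?_)
    rw [← bonds_E6, ← bonds_E6]
    exact hρ i j hij
  · obtain ⟨α, hα⟩ := Cfsg.Agent.S1081.result (F := F) (chevE6, [5, 1, 4, 3, 2, 0]) (by simp)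
    refine ⟨α, ⟨fun i t => ?_, fun i t _ => ?_, fun _ _ _ => rfl, fun _ => Function.bijective_id⟩⟩
    · have h1 := (hα ((SG hT hR).x ((SG hT hR).simple i) t) i t i.2).1 (coe_SG_x hT hR _ t)
      rw [← eq_SG_x_iff hT hR]
      rw [h1]
      have := r6_getD i
      simp only [SG_simple]
      exact congrArg (fun k => chevE6.x F (chevE6.simple k) t) this
    · have h1 := (hα ((SG hT hR).x ((SG hT hR).neg ((SG hT hR).simple i)) (-t⁻¹)) i (-t⁻¹) i.2).2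
        (coe_SG_x hT hR _ _)
      rw [← eq_SG_x_iff hT hR]
      rw [h1]
      have := r6_getD i
      simp only [SG_simple, SG_neg]
      exact congrArg (fun k => chevE6.x F (chevE6.neg (chevE6.simple k)) (-t⁻¹)) this

end Cfsg.Agent.Lib.Helper15AutO10
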