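import Cfsg.Agent.Lib.Helper15AutS12

set_option autoImplicit false

namespace Cfsg.Agent.Lib.Helper15AutS13

open Cfsg Cfsg.Lie Cfsg.Lie.ChevalleyDatum
open Subgroup Cfsg.Agent.Lib.Helper23Grp Cfsg.Agent.Lib.Helper23RG Cfsg.Agent.Lib.Helper23RG.RG
  Cfsg.Agent.Lib.Helper23Weyl Cfsg.Agent.Lib.LeadAutDefs
  Cfsg.Agent.Lib.Helper23Table Cfsg.Agent.Lib.Helper23Chev Cfsg.Agent.Lib.LeadAutConc
open scoped MatrixGroups Matrix

/-- a non-commutative group with at most six elements has six elements -/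
theorem card_eq_six {A : Type*} [Group A] [Finite A] (h6 : Nat.card A ≤ 6) {a b : A} (hab : a * b ≠ b * a) :
    Nat.card A = 6 := by
  have hpos : 0 < Nat.card A := Nat.card_pos
  have hprime : ∀ p : ℕ, p.Prime → Nat.card A ≠ p := by
    intro p hp hc
    haveI : Fact p.Prime := ⟨hp⟩
    haveI := isCyclic_of_prime_card hc
    obtain ⟨g, hg⟩ := IsCyclic.exists_generator (α := A)
    obtain ⟨m, rfl⟩ := Subgroup.mem_zpowers_iff.1 (hg a)
    obtain ⟨n, rfl⟩ := Subgroup.mem_zpowers_iff.1 (hg b)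
    exact hab (by rw [← zpow_add, ← zpow_add, add_comm])
  have h1 : Nat.card A ≠ 1 := by
    intro hc
    haveI := (Nat.card_eq_one_iff_unique.1 hc).1
    exact hab (Subsingleton.elim _ _)
  have h4 : Nat.card A ≠ 4 := by
    intro hc
    haveI : Fact (Nat.Prime 2) := ⟨Nat.prime_two⟩
    exact hab (IsPGroup.commutative_of_card_eq_prime_sq (p := 2) (by rw [hc]; norm_num) a b)
  have h2 := hprime 2 Nat.prime_two
  have h3 := hprime 3 Nat.prime_three
  have h5 := hprime 5 Nat.prime_five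
  omega

variable {F : Type*} [Field F] {D : ChevalleyDatum}

/-- S13 with the pieces it uses as hypotheses -/
theorem card_range_of (hD : D ∈ [chevG2, chevB2, chevD4, chevF4, chevE6, chevE7, chevE8])
    (hT : TableOK D) (hR : Rel D F) (Ψ : MulAut ↥(D.group F) →* Equiv.Perm (Fin D.rank))
    (h1 : ∀ (θ : MulAut ↥(D.group F)) (ρ : Equiv.Perm (Fin D.rank)), Nrm (SG hT hR) θ → Perms (SG hT hR) θ ρ → Ψ θ = ρ)
    (hS10 : ∀ θ : MulAut ↥(D.group F), D.IsDiagramSymmetry (Ψ θ))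
    (hS11 : D ∈ [chevG2, chevB2, chevF4, chevE6, chevE7, chevE8] →
      ∃ ρ0 : Equiv.Perm (Fin D.rank), ∀ ρ : Equiv.Perm (Fin D.rank), D.IsDiagramSymmetry ρ → ρ = 1 ∨ ρ = ρ0)
    (hacts : ∀ (θ : ↥(D.group F) ≃* ↥(D.group F)) (ρ : Equiv.Perm (Fin D.rank)) (f : Fin D.rank → F → F),
      Acts (SG hT hR) θ ρ f → Nrm (SG hT hR) θ ∧ Perms (SG hT hR) θ ρ) :
    Nat.card Ψ.range = 1 ∨ Nat.card Ψ.range = 2 ∨
      (Nat.card Ψ.range = 6 ∧ ∃ a b : MulAut ↥(D.group F), Ψ a * Ψ b ≠ Ψ b * Ψ a) := by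
  classical
  have hpos : 0 < Nat.card Ψ.range := Nat.card_pos
  have hbound : ∀ L : Finset (Equiv.Perm (Fin D.rank)), (∀ ρ, D.IsDiagramSymmetry ρ → ρ ∈ L) →
      Nat.card Ψ.range ≤ L.card := by
    intro L hL
    have : Nat.card Ψ.range ≤ Nat.card (L : Set (Equiv.Perm (Fin D.rank))) := by
      refine Nat.card_le_card_of_injective (fun x => ⟨x.1, ?_⟩) ?_
      · obtain ⟨θ, hθ⟩ := x.2
        rw [← hθ]
        exact hL _ (hS10 θ)
      · intro x y hxy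
        have := congrArg (fun z : (L : Set (Equiv.Perm (Fin D.rank))) => z.1) hxy
        exact Subtype.ext this
    simpa using this
  by_cases h4 : D = chevD4
  · subst h4
    obtain ⟨⟨L, hL6, hL⟩, ρ1, ρ2, g1, g2, f1, f2, hg1, hg2, hne⟩ := Helper15AutS12.graph_D4 hT hR
    have e1 : Ψ g1 = ρ1 := h1 g1 ρ1 (hacts _ _ _ hg1).1 (hacts _ _ _ hg1).2
    have e2 : Ψ g2 = ρ2 := h1 g2 ρ2 (hacts _ _ _ hg2).1 (hacts _ _ _ hg2).2
    have hne' : Ψ g1 * Ψ g2 ≠ Ψ g2 * Ψ g1 := by rw [e1, e2]; exact hne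
    refine Or.inr (Or.inr ⟨?_, g1, g2, hne'⟩)
    refine card_eq_six (a := ⟨Ψ g1, g1, rfl⟩) (b := ⟨Ψ g2, g2, rfl⟩) (hL6 ▸ hbound L hL) ?_
    intro h
    exact hne' (congrArg Subtype.val h)
  · obtain ⟨ρ0, hρ0⟩ := hS11 (by
      simp only [List.mem_cons, List.not_mem_nil, or_false] at hD ⊢
      tauto)
    have := hbound {1, ρ0} (fun ρ hρ => by
      rw [Finset.mem_insert, Finset.mem_singleton]; exact hρ0 ρ hρ)
    have h2 : ({1, ρ0} : Finset (Equiv.Perm (Fin D.rank))).card ≤ 2 := Finset.card_le_two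
    omega

end Cfsg.Agent.Lib.Helper15AutS13
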