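import Cfsg.Agent.Lib.Helper27BG34P

set_option autoImplicit false

namespace Cfsg.Agent.Lib.Helper27BG34B

open scoped commutatorElement

variable {F V : Type*} [Field F] [AddCommGroup V] [Module F V]
variable {Q : Type*} [Group Q]

section basic
variable (ρ : Q →* Module.End F V)

theorem rho_mul_inv (t : Q) : ρ t * ρ t⁻¹ = 1 := by rw [← map_mul, mul_inv_cancel, map_one]
theorem rho_inv_mul (t : Q) : ρ t⁻¹ * ρ t = 1 := by rw [← map_mul, inv_mul_cancel, map_one]
theorem isUnit_rho (t : Q) : IsUnit (ρ t) :=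
  ⟨⟨ρ t, ρ t⁻¹, rho_mul_inv ρ t, rho_inv_mul ρ t⟩, rfl⟩

theorem smul_inj_of_isUnit [Nontrivial V] {A : Module.End F V} (hA : IsUnit A) {a b : F}
    (h : a • A = b • A) : a = b := by
  have hA0 : A ≠ 0 := hA.ne_zero
  have : (a - b) • A = 0 := by rw [sub_smul, h, sub_self]
  exact sub_eq_zero.mp ((smul_eq_zero.mp this).resolve_right hA0)

end basic

/-- the commutator pairing -/
structure Pairing (Z : Subgroup Q) (ρ : Q →* Module.End F V) (c : Q → Q → F) : Prop where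
  swap : ∀ u t, ρ u * ρ t = c u t • (ρ t * ρ u)
  scal : ∀ z ∈ Z, ∃ a : F, ρ z = a • 1
  nd : ∀ t, t ∉ Z → ∃ u, c u t ≠ 1

namespace Pairing

variable {Z : Subgroup Q} {ρ : Q →* Module.End F V} {c : Q → Q → F}

theorem cen (h : Pairing Z ρ c) {z : Q} (hz : z ∈ Z) (a : Module.End F V) :
    ρ z * a = a * ρ z := by
  obtain ⟨x, hx⟩ := h.scal z hz
  rw [hx]; simp

variable [Nontrivial V]

theorem mul_left (h : Pairing Z ρ c) (w u t : Q) : c (w * u) t = c w t * c u t := by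
  apply smul_inj_of_isUnit (isUnit_rho ρ (t * (w * u)))
  have h1 : ρ (w * u) * ρ t = c (w * u) t • ρ (t * (w * u)) := by
    rw [h.swap, ← map_mul]
  have h2 : ρ (w * u) * ρ t = (c w t * c u t) • ρ (t * (w * u)) := by
    rw [map_mul, mul_assoc, h.swap u t, mul_smul_comm, ← mul_assoc, h.swap w t, smul_mul_assoc,
      smul_smul, map_mul, map_mul, mul_assoc, mul_comm (c u t)]
  rw [← h1, h2]

theorem mul_right (h : Pairing Z ρ c) (u t t' : Q) : c u (t * t') = c u t * c u t' := by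
  apply smul_inj_of_isUnit (isUnit_rho ρ ((t * t') * u))
  have h1 : ρ u * ρ (t * t') = c u (t * t') • ρ ((t * t') * u) := by
    rw [h.swap, ← map_mul]
  have h2 : ρ u * ρ (t * t') = (c u t * c u t') • ρ ((t * t') * u) := by
    rw [map_mul, ← mul_assoc, h.swap u t, smul_mul_assoc, mul_assoc, h.swap u t', mul_smul_comm,
      smul_smul, map_mul, map_mul, mul_assoc]
  rw [← h1, h2]

theorem of_mem_right (h : Pairing Z ρ c) (u : Q) {z : Q} (hz : z ∈ Z) : c u z = 1 := by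
  apply smul_inj_of_isUnit (isUnit_rho ρ (z * u))
  rw [one_smul, map_mul, ← h.swap, h.cen hz]

theorem of_mem_left (h : Pairing Z ρ c) (u : Q) {z : Q} (hz : z ∈ Z) : c z u = 1 := by
  apply smul_inj_of_isUnit (isUnit_rho ρ (u * z))
  rw [one_smul, map_mul, ← h.swap, h.cen hz]

theorem mem_iff (h : Pairing Z ρ c) (t : Q) : t ∈ Z ↔ ∀ u, c u t = 1 := by
  constructor
  · intro ht u; exact h.of_mem_right u ht
  · intro ht
    by_contra hn
    obtain ⟨u, hu⟩ := h.nd t hn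
    exact hu (ht u)

theorem symm (h : Pairing Z ρ c) (u t : Q) : c u t * c t u = 1 := by
  apply smul_inj_of_isUnit (isUnit_rho ρ (u * t))
  rw [one_smul, map_mul, ← smul_smul, ← h.swap t u, ← h.swap u t]

theorem one_left (h : Pairing Z ρ c) (t : Q) : c 1 t = 1 := h.of_mem_left t Z.one_mem
theorem one_right (h : Pairing Z ρ c) (t : Q) : c t 1 = 1 := h.of_mem_right t Z.one_mem

theorem inv_right (h : Pairing Z ρ c) (u t : Q) : c u t⁻¹ = c t u := by
  have h1 : c u t⁻¹ * c u t = 1 := by rw [← h.mul_right, inv_mul_cancel, h.one_right]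
  have h2 := h.symm u t
  have h3 : c u t ≠ 0 := left_ne_zero_of_mul_eq_one h2
  apply mul_right_cancel₀ h3
  rw [h1, mul_comm, h2]

theorem nd' (h : Pairing Z ρ c) (t : Q) (ht : t ∉ Z) : ∃ u, c t u ≠ 1 := by
  obtain ⟨u, hu⟩ := h.nd t ht
  refine ⟨u, fun h1 => hu ?_⟩
  have := h.symm u t
  rwa [h1, mul_one] at this

theorem congr_left (h : Pairing Z ρ c) {t t' : Q} (htt : (t : Q ⧸ Z) = t') (u : Q) :
    c t u = c t' u := by
  have h1 : t⁻¹ * t' ∈ Z := QuotientGroup.eq.mp htt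
  have h2 : t' = t * (t⁻¹ * t') := by group
  rw [h2, h.mul_left, h.of_mem_left u h1, mul_one]

theorem orth1 [Fintype Q] (h : Pairing Z ρ c) (y : Q) (hy : y ∉ Z) : ∑ u, c u y = 0 := by
  obtain ⟨w, hw⟩ := h.nd y hy
  have h1 : ∑ u, c (w * u) y = ∑ u, c u y := Equiv.sum_comp (Equiv.mulLeft w) (fun u => c u y)
  have h2 : ∑ u, c (w * u) y = c w y * ∑ u, c u y := by
    rw [Finset.mul_sum]; exact Finset.sum_congr rfl (fun u _ => h.mul_left w u y)
  have h3 : (c w y - 1) * ∑ u, c u y = 0 := by rw [sub_mul, one_mul, ← h2, h1, sub_self]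
  exact (mul_eq_zero.mp h3).resolve_left (sub_ne_zero.mpr hw)

theorem orth1' [Fintype Q] (h : Pairing Z ρ c) (y : Q) (hy : y ∈ Z) :
    ∑ u, c u y = (Fintype.card Q : F) := by
  rw [Finset.sum_congr rfl (fun u _ => h.of_mem_right u hy)]
  simp

theorem orth2 [Fintype (Q ⧸ Z)] (h : Pairing Z ρ c) (y : Q) (hy : y ∉ Z) :
    ∑ q : Q ⧸ Z, c q.out y = 0 := by
  obtain ⟨w, hw⟩ := h.nd y hy
  have h1 : ∑ q : Q ⧸ Z, c (w • q).out y = ∑ q : Q ⧸ Z, c q.out y :=
    Equiv.sum_comp (MulAction.toPerm w) (fun q : Q ⧸ Z => c q.out y)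
  have h2 : ∑ q : Q ⧸ Z, c (w • q).out y = c w y * ∑ q : Q ⧸ Z, c q.out y := by
    rw [Finset.mul_sum]
    refine Finset.sum_congr rfl (fun q _ => ?_)
    rw [← h.mul_left]
    apply h.congr_left
    rw [QuotientGroup.out_eq']
    conv_lhs => rw [← QuotientGroup.out_eq' q]
    rfl
  have h3 : (c w y - 1) * ∑ q : Q ⧸ Z, c q.out y = 0 := by rw [sub_mul, one_mul, ← h2, h1, sub_self]
  exact (mul_eq_zero.mp h3).resolve_left (sub_ne_zero.mpr hw)

theorem orth2' [Fintype (Q ⧸ Z)] (h : Pairing Z ρ c) (y : Q) (hy : y ∈ Z) :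
    ∑ q : Q ⧸ Z, c q.out y = (Fintype.card (Q ⧸ Z) : F) := by
  rw [Finset.sum_congr rfl (fun u _ => h.of_mem_right _ hy)]
  simp

end Pairing


section proj

variable {Z : Subgroup Q} {ρ : Q →* Module.End F V} {c : Q → Q → F}

/-- the Fourier projection -/
noncomputable def P [Fintype Q] (ρ : Q →* Module.End F V) (c : Q → Q → F) (t : Q) :
    Module.End F V →ₗ[F] Module.End F V :=
  (Fintype.card Q : F)⁻¹ • ∑ u, c t u •
    (LinearMap.mulLeft F (ρ u)).comp (LinearMap.mulRight F (ρ u⁻¹))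

theorem P_apply [Fintype Q] (t : Q) (a : Module.End F V) :
    P ρ c t a = (Fintype.card Q : F)⁻¹ • ∑ u, c t u • (ρ u * (a * ρ u⁻¹)) := by
  simp [P, LinearMap.sum_apply]

variable [Nontrivial V]

theorem P_congr [Fintype Q] (h : Pairing Z ρ c) {t t' : Q} (htt : (t : Q ⧸ Z) = t') :
    P ρ c t = P ρ c t' := by
  ext1 a
  rw [P_apply, P_apply]
  congr 1
  exact Finset.sum_congr rfl (fun u _ => by rw [h.congr_left htt u])

/-- `ρ w * P t a = c w t • P t a * ρ w` -/
theorem rho_mul_P [Fintype Q] (h : Pairing Z ρ c) (w t : Q) (a : Module.End F V) :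
    ρ w * P ρ c t a = c w t • (P ρ c t a * ρ w) := by
  rw [P_apply, mul_smul_comm, smul_mul_assoc, smul_comm (c w t)]
  congr 1
  rw [Finset.mul_sum, Finset.sum_mul, Finset.smul_sum]
  rw [← Equiv.sum_comp (Equiv.mulLeft w) (fun u => c w t • (c t u • (ρ u * (a * ρ u⁻¹)) * ρ w))]
  refine Finset.sum_congr rfl (fun u _ => ?_)
  simp only [Equiv.coe_mulLeft]
  have e1 : c w t * c t (w * u) = c t u := by
    rw [h.mul_right, ← mul_assoc, h.symm, one_mul]
  have e2 : ρ (w * u) * (a * ρ (w * u)⁻¹) * ρ w = ρ w * (ρ u * (a * ρ u⁻¹)) := by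
    rw [mul_inv_rev, map_mul, map_mul]
    simp only [mul_assoc]
    rw [rho_inv_mul, mul_one]
  rw [smul_mul_assoc, smul_smul, e1, e2, mul_smul_comm]

theorem mem_centralizer [Fintype Q] (h : Pairing Z ρ c) (t : Q) (a : Module.End F V) :
    ρ t⁻¹ * P ρ c t a ∈ Subalgebra.centralizer F (Set.range ρ) := by
  rw [Subalgebra.mem_centralizer_iff]
  rintro _ ⟨w, rfl⟩
  rw [← mul_assoc, h.swap w t⁻¹, smul_mul_assoc, mul_assoc, rho_mul_P h, mul_smul_comm, smul_smul,
    h.inv_right, mul_comm, h.symm, one_smul, mul_assoc]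

theorem P_rho_mul [Fintype Q] (hQF : (Fintype.card Q : F) ≠ 0) (h : Pairing Z ρ c) (t₀ t : Q)
    (b : Module.End F V) (hb : b ∈ Subalgebra.centralizer F (Set.range ρ)) [Decidable ((t₀ : Q ⧸ Z) = t)] :
    P ρ c t₀ (ρ t * b) = if (t₀ : Q ⧸ Z) = t then ρ t * b else 0 := by
  rw [Subalgebra.mem_centralizer_iff] at hb
  rw [P_apply]
  have e : ∀ u, c t₀ u • (ρ u * (ρ t * b * ρ u⁻¹)) = c u (t₀⁻¹ * t) • (ρ t * b) := by
    intro u
    have h1 : ρ u * (ρ t * b * ρ u⁻¹) = c u t • (ρ t * b) := by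
      rw [mul_assoc, ← hb (ρ u⁻¹) ⟨_, rfl⟩, ← mul_assoc, ← mul_assoc, h.swap u t, smul_mul_assoc,
        smul_mul_assoc, mul_assoc (ρ t), rho_mul_inv, mul_one]
    rw [h1, smul_smul, h.mul_right, h.inv_right]
  rw [Finset.sum_congr rfl (fun u _ => e u), ← Finset.sum_smul]
  split_ifs with hq
  · rw [h.orth1' _ (QuotientGroup.eq.mp hq), smul_smul, inv_mul_cancel₀ hQF, one_smul]
  · rw [h.orth1 _ (fun hh => hq (QuotientGroup.eq.mpr hh)), zero_smul, smul_zero]

theorem sum_P [Fintype Q] [Fintype (Q ⧸ Z)] (hQF : (Fintype.card Q : F) ≠ 0) (h : Pairing Z ρ c)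
    (a : Module.End F V) : ∑ q : Q ⧸ Z, P ρ c q.out a = a := by
  classical
  simp only [P_apply]
  rw [← Finset.smul_sum, Finset.sum_comm]
  have e : ∀ u : Q, ∑ q : Q ⧸ Z, c q.out u • (ρ u * (a * ρ u⁻¹)) =
      if u ∈ Z then (Fintype.card (Q ⧸ Z) : F) • a else 0 := by
    intro u
    rw [← Finset.sum_smul]
    split_ifs with hu
    · rw [h.orth2' u hu, h.cen hu, mul_assoc, rho_inv_mul, mul_one]
    · rw [h.orth2 u hu, zero_smul]
  rw [Finset.sum_congr rfl (fun u _ => e u), Finset.sum_ite, Finset.sum_const_zero, add_zero,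
    Finset.sum_const, ← Nat.cast_smul_eq_nsmul F, smul_smul, smul_smul]
  have hcard : (Finset.univ.filter (fun u : Q => u ∈ Z)).card * Fintype.card (Q ⧸ Z) =
      Fintype.card Q := by
    have h1 : (Finset.univ.filter (fun u : Q => u ∈ Z)).card = Nat.card Z := by
      rw [Nat.card_eq_fintype_card, Fintype.card_subtype]
    rw [h1, ← Nat.card_eq_fintype_card, ← Nat.card_eq_fintype_card]
    exact Z.card_mul_index
  rw [mul_assoc, ← Nat.cast_mul, hcard, inv_mul_cancel₀ hQF, one_smul]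

end proj


section decomp

variable {Z : Subgroup Q} {ρ : Q →* Module.End F V} {c : Q → Q → F}

/-- the decomposition map -/
noncomputable def Phi (Z : Subgroup Q) [Fintype (Q ⧸ Z)] (ρ : Q →* Module.End F V) :
    ((Q ⧸ Z) → Subalgebra.centralizer F (Set.range ρ)) →ₗ[F] Module.End F V where
  toFun b := ∑ q : Q ⧸ Z, ρ q.out * (b q : Module.End F V)
  map_add' := by intro b b'; simp [mul_add, Finset.sum_add_distrib]
  map_smul' := by intro x b; simp [Finset.smul_sum]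

theorem Phi_apply [Fintype (Q ⧸ Z)] (b : (Q ⧸ Z) → Subalgebra.centralizer F (Set.range ρ)) :
    Phi Z ρ b = ∑ q : Q ⧸ Z, ρ q.out * (b q : Module.End F V) := rfl

variable [Nontrivial V]

theorem Phi_injective [Fintype Q] [Fintype (Q ⧸ Z)] (hQF : (Fintype.card Q : F) ≠ 0)
    (h : Pairing Z ρ c) : Function.Injective (Phi Z ρ) := by
  classical
  rw [injective_iff_map_eq_zero]
  intro b hb
  funext q₀
  have h1 : P ρ c q₀.out (Phi Z ρ b) = ρ q₀.out * (b q₀ : Module.End F V) := by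
    rw [Phi_apply, map_sum]
    rw [Finset.sum_congr rfl (fun q _ => P_rho_mul hQF h q₀.out q.out _ (b q).2)]
    simp only [QuotientGroup.out_eq']
    rw [Finset.sum_ite_eq]
    simp
  rw [hb, map_zero] at h1
  have h2 : ρ q₀.out⁻¹ * (ρ q₀.out * (b q₀ : Module.End F V)) = 0 := by rw [← h1, mul_zero]
  rw [← mul_assoc, rho_inv_mul, one_mul] at h2
  exact Subtype.ext h2

theorem Phi_surjective [Fintype Q] [Fintype (Q ⧸ Z)] (hQF : (Fintype.card Q : F) ≠ 0)
    (h : Pairing Z ρ c) : Function.Surjective (Phi Z ρ) := by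
  intro a
  refine ⟨fun q => ⟨ρ q.out⁻¹ * P ρ c q.out a, mem_centralizer h _ a⟩, ?_⟩
  rw [Phi_apply]
  simp only [← mul_assoc, rho_mul_inv, one_mul]
  exact sum_P hQF h a

theorem sq_finrank_eq_aux [FiniteDimensional F V] [Fintype Q] [Fintype (Q ⧸ Z)]
    (hQF : (Fintype.card Q : F) ≠ 0) (h : Pairing Z ρ c) :
    (Module.finrank F V) ^ 2 =
      Fintype.card (Q ⧸ Z) * Module.finrank F (Subalgebra.centralizer F (Set.range ρ)) := by
  have e := LinearEquiv.ofBijective (Phi Z ρ) ⟨Phi_injective hQF h, Phi_surjective hQF h⟩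
  have h1 := e.finrank_eq
  rw [Module.finrank_linearMap, Module.finrank_pi_fintype] at h1
  rw [sq, ← h1]
  simp

end decomp


section twist

variable {Z : Subgroup Q} {ρ : Q →* Module.End F V} {c : Q → Q → F} [Nontrivial V]
variable {σ : Q ≃* Q} {X : Module.End F V}

theorem c_sigma (h : Pairing Z ρ c) (hXu : IsUnit X) (hσ : ∀ t, X * ρ t = ρ (σ t) * X) (t u : Q) :
    c (σ t) (σ u) = c t u := by
  apply smul_inj_of_isUnit (isUnit_rho ρ (σ u * σ t))
  have h1 : ρ (σ t) * ρ (σ u) * X = (c t u • (ρ (σ u) * ρ (σ t))) * X := by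
    rw [mul_assoc, ← hσ u, ← mul_assoc, ← hσ t, mul_assoc, h.swap t u, mul_smul_comm, ← mul_assoc,
      hσ u, mul_assoc, hσ t, ← mul_assoc, smul_mul_assoc]
  have h2 := hXu.mul_right_cancel h1
  rw [map_mul, ← h.swap, h2]

theorem sigma_mem_iff (h : Pairing Z ρ c) (hXu : IsUnit X) (hσ : ∀ t, X * ρ t = ρ (σ t) * X)
    (z : Q) : σ z ∈ Z ↔ z ∈ Z := by
  rw [h.mem_iff, h.mem_iff]
  constructor
  · intro hz u; rw [← c_sigma h hXu hσ]; exact hz _
  · intro hz u; obtain ⟨u', rfl⟩ := σ.surjective u; rw [c_sigma h hXu hσ]; exact hz _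

theorem ker_le (h : Pairing Z ρ c) {y : Q} (hy : ρ y = 1) : y ∈ Z := by
  rw [h.mem_iff]
  intro u
  apply smul_inj_of_isUnit (isUnit_rho ρ u)
  have := h.swap u y
  rw [hy, mul_one, one_mul] at this
  rw [one_smul, ← this]

theorem conj_mem (h : Pairing Z ρ c) {z : Q} (hz : z ∈ Z) (w : Q) : w * z * w⁻¹ ∈ Z := by
  rw [h.mem_iff]
  intro u
  rw [h.mul_right, h.mul_right, h.of_mem_right u hz, mul_one, ← h.mul_right, mul_inv_cancel,
    h.one_right]

/-- the permutation of `Q ⧸ Z` induced by `σ` -/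
noncomputable def piPerm (σ : Q ≃* Q) (hiff : ∀ z, σ z ∈ Z ↔ z ∈ Z) : Equiv.Perm (Q ⧸ Z) :=
  Quotient.congr σ.toEquiv (by
    intro a b
    rw [QuotientGroup.leftRel_apply, QuotientGroup.leftRel_apply]
    show _ ↔ (σ a)⁻¹ * σ b ∈ Z
    rw [← map_inv, ← map_mul, hiff])

theorem piPerm_mk (hiff : ∀ z, σ z ∈ Z ↔ z ∈ Z) (t : Q) :
    piPerm σ hiff (t : Q ⧸ Z) = ((σ t : Q) : Q ⧸ Z) := rfl

theorem piPerm_pow_mk (hiff : ∀ z, σ z ∈ Z ↔ z ∈ Z) (k : ℕ) (t : Q) :
    (piPerm σ hiff ^ k) (t : Q ⧸ Z) = (((⇑σ)^[k] t : Q) : Q ⧸ Z) := by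
  induction k with
  | zero => simp
  | succ k ih => rw [pow_succ', Equiv.Perm.mul_apply, ih, piPerm_mk, Function.iterate_succ_apply']

omit [Nontrivial V] in
theorem X_pow_mul (hσ : ∀ t, X * ρ t = ρ (σ t) * X) (k : ℕ) (t : Q) :
    X ^ k * ρ t = ρ ((⇑σ)^[k] t) * X ^ k := by
  induction k with
  | zero => simp
  | succ k ih =>
    rw [pow_succ', mul_assoc, ih, ← mul_assoc, hσ, mul_assoc, Function.iterate_succ_apply']

theorem X_mul_P [Fintype Q] (h : Pairing Z ρ c) (hXu : IsUnit X)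
    (hσ : ∀ t, X * ρ t = ρ (σ t) * X) (t : Q) (a : Module.End F V) (ha : X * a = a * X) :
    X * P ρ c t a = P ρ c (σ t) a * X := by
  rw [P_apply, P_apply, mul_smul_comm, smul_mul_assoc]
  congr 1
  rw [Finset.mul_sum, Finset.sum_mul,
    ← Equiv.sum_comp σ.toEquiv (fun u => c (σ t) u • (ρ u * (a * ρ u⁻¹)) * X)]
  refine Finset.sum_congr rfl (fun u _ => ?_)
  simp only [MulEquiv.toEquiv_eq_coe, EquivLike.coe_coe]
  rw [c_sigma h hXu hσ, mul_smul_comm, smul_mul_assoc]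
  congr 1
  rw [← mul_assoc, hσ, mul_assoc, ← mul_assoc X, ha, mul_assoc a, hσ, map_inv]
  simp only [mul_assoc]

theorem P_sigma_eq_zero [Fintype Q] (h : Pairing Z ρ c) (hXu : IsUnit X)
    (hσ : ∀ t, X * ρ t = ρ (σ t) * X) (t : Q) (a : Module.End F V) (ha : X * a = a * X)
    (h0 : P ρ c t a = 0) : P ρ c (σ t) a = 0 := by
  have h1 := X_mul_P h hXu hσ t a ha
  rw [h0, mul_zero] at h1
  have h2 : P ρ c (σ t) a * X = 0 * X := by rw [← h1, zero_mul]
  exact hXu.mul_right_cancel h2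

theorem finrank_centralizer_le_aux [FiniteDimensional F V] [Fintype Q] [Fintype (Q ⧸ Z)]
    (hQF : (Fintype.card Q : F) ≠ 0) (h : Pairing Z ρ c) (r : ℕ) (hr : r.Prime) (hX : X ^ r = 1)
    (hσ : ∀ t, X * ρ t = ρ (σ t) * X) (hfree : ∀ t, σ t * t⁻¹ ∈ Z → t ∈ Z) :
    ∃ n : ℕ, n * r = Fintype.card (Q ⧸ Z) + r - 1 ∧
    Module.finrank F (Subalgebra.centralizer F ({X} : Set (Module.End F V))) ≤
      n * Module.finrank F (Subalgebra.centralizer F (Set.range ρ)) := by
  classical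
  have hXu : IsUnit X := IsUnit.of_pow_eq_one hX hr.pos.ne'
  have hiff := sigma_mem_iff h hXu hσ
  set π := piPerm σ hiff with hπdef
  have hπr : π ^ r = 1 := by
    ext q
    induction q using QuotientGroup.induction_on with
    | H t =>
      rw [piPerm_pow_mk, Equiv.Perm.one_apply]
      apply Eq.symm
      rw [QuotientGroup.eq]
      apply ker_le h
      have h1 := X_pow_mul hσ r t
      rw [hX, one_mul, mul_one] at h1
      rw [map_mul, ← h1, rho_inv_mul]
  have hfixπ : ∀ q, π q = q ↔ q = ((1 : Q) : Q ⧸ Z) := by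
    intro q
    induction q using QuotientGroup.induction_on with
    | H t =>
      rw [piPerm_mk]
      constructor
      · intro hq
        have h1 : (σ t)⁻¹ * t ∈ Z := QuotientGroup.eq.mp hq
        have h2 : σ t * t⁻¹ ∈ Z := by
          have h3 := conj_mem h (Z.inv_mem h1) t
          have h4 : t * ((σ t)⁻¹ * t)⁻¹ * t⁻¹ = σ t * t⁻¹ := by group
          rwa [h4] at h3
        have h5 := hfree t h2
        rw [QuotientGroup.eq]
        simpa using h5
      · intro hq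
        have h1 : t⁻¹ * 1 ∈ Z := QuotientGroup.eq.mp hq
        have h2 : t ∈ Z := by simpa using h1
        rw [QuotientGroup.eq]
        exact Z.mul_mem (Z.inv_mem ((hiff t).mpr h2)) h2
  obtain ⟨S, hcov, hcard⟩ := Cfsg.Agent.Lib.Helper27BG34P.exists_reps π r hr hπr _ hfixπ
  refine ⟨S.card, by rw [hcard, Nat.card_eq_fintype_card], ?_⟩
  let Λ : ↥(Subalgebra.centralizer F ({X} : Set (Module.End F V))) →ₗ[F]
      (S → ↥(Subalgebra.centralizer F (Set.range ρ))) :=
    { toFun := fun a q => ⟨ρ q.1.out⁻¹ * P ρ c q.1.out a.1, mem_centralizer h _ _⟩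
      map_add' := by intro a b; funext q; apply Subtype.ext; simp [mul_add]
      map_smul' := by intro x a; funext q; apply Subtype.ext; simp }
  have hΛ : Function.Injective Λ := by
    rw [injective_iff_map_eq_zero]
    intro a ha
    have haX : X * a.1 = a.1 * X := (Subalgebra.mem_centralizer_iff F).mp a.2 X rfl
    have h1 : ∀ q ∈ S, P ρ c q.out a.1 = 0 := by
      intro q hq
      have h2 := congrArg Subtype.val (congrFun ha ⟨q, hq⟩)
      have h3 : ρ q.out⁻¹ * P ρ c q.out a.1 = 0 := h2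
      have h4 : ρ q.out * (ρ q.out⁻¹ * P ρ c q.out a.1) = 0 := by rw [h3, mul_zero]
      rwa [← mul_assoc, rho_mul_inv, one_mul] at h4
    have h2 : ∀ (k : ℕ) (q : Q ⧸ Z), P ρ c q.out a.1 = 0 → P ρ c ((π ^ k) q).out a.1 = 0 := by
      intro k
      induction k with
      | zero => intro q hq; simpa using hq
      | succ k ih =>
        intro q hq
        have h3 := P_sigma_eq_zero h hXu hσ _ a.1 haX (ih q hq)
        have h4 : (((π ^ (k + 1)) q).out : Q ⧸ Z) = ((σ ((π ^ k) q).out : Q) : Q ⧸ Z) := by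
          rw [QuotientGroup.out_eq', pow_succ', Equiv.Perm.mul_apply, ← piPerm_mk hiff,
            QuotientGroup.out_eq']
        rw [P_congr h h4]
        exact h3
    have h3 : ∀ q : Q ⧸ Z, P ρ c q.out a.1 = 0 := by
      intro q
      obtain ⟨k, s, hs, rfl⟩ := hcov q
      exact h2 k s (h1 s hs)
    apply Subtype.ext
    rw [← sum_P hQF h a.1, Finset.sum_congr rfl (fun q _ => h3 q)]
    simp
  have h1 := LinearMap.finrank_le_finrank_of_injective hΛ
  rw [Module.finrank_pi_fintype] at h1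
  simpa using h1

end twist


theorem exists_pairing (Z : Subgroup Q) (ρ : Q →* Module.End F V)
    (hZ : ∀ z ∈ Z, ∃ c : F, ρ z = c • 1) (hcomm : ∀ u t : Q, ⁅u, t⁆ ∈ Z)
    (hnd : ∀ t : Q, t ∉ Z → ∃ u : Q, ρ ⁅u, t⁆ ≠ 1) : ∃ c : Q → Q → F, Pairing Z ρ c := by
  choose c hc using fun u t => hZ ⁅u, t⁆ (hcomm u t)
  refine ⟨c, ⟨?_, hZ, ?_⟩⟩
  · intro u t
    have h1 : u * t = ⁅u, t⁆ * (t * u) := by simp only [commutatorElement_def]; group
    rw [← map_mul, h1, map_mul, hc, smul_mul_assoc, one_mul, map_mul]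
  · intro t ht
    obtain ⟨u, hu⟩ := hnd t ht
    exact ⟨u, fun h1 => hu (by rw [hc, h1, one_smul])⟩

/-- `End V = ⊕_{t ∈ Q/Z} ρ(t) B`, `B` the commutant of `ρ(Q)`. -/
theorem sq_finrank_eq [FiniteDimensional F V] {Q : Type*} [Group Q] [Finite Q] (Z : Subgroup Q)
    (ρ : Q →* Module.End F V) (hQF : (Nat.card Q : F) ≠ 0)
    (hZ : ∀ z ∈ Z, ∃ c : F, ρ z = c • 1) (hcomm : ∀ u t : Q, ⁅u, t⁆ ∈ Z)
    (hnd : ∀ t : Q, t ∉ Z → ∃ u : Q, ρ ⁅u, t⁆ ≠ 1) :
    (Module.finrank F V) ^ 2 =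
      Z.index * Module.finrank F (Subalgebra.centralizer F (Set.range ρ)) := by
  classical
  rcases subsingleton_or_nontrivial V with hV | hV
  · rw [Module.finrank_zero_of_subsingleton, Module.finrank_zero_of_subsingleton]
    simp
  · cases nonempty_fintype Q
    have : Fintype (Q ⧸ Z) := Fintype.ofFinite _
    obtain ⟨c, h⟩ := exists_pairing Z ρ hZ hcomm hnd
    rw [Nat.card_eq_fintype_card] at hQF
    rw [Subgroup.index, Nat.card_eq_fintype_card]
    exact sq_finrank_eq_aux hQF h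

/-- conjugation by `X` permutes the summands `ρ(t) B`, freely except for `B`. -/
theorem finrank_centralizer_le [FiniteDimensional F V] {Q : Type*} [Group Q] [Finite Q]
    (Z : Subgroup Q)
    (ρ : Q →* Module.End F V) (hQF : (Nat.card Q : F) ≠ 0)
    (hZ : ∀ z ∈ Z, ∃ c : F, ρ z = c • 1) (hcomm : ∀ u t : Q, ⁅u, t⁆ ∈ Z)
    (hnd : ∀ t : Q, t ∉ Z → ∃ u : Q, ρ ⁅u, t⁆ ≠ 1)
    (σ : Q ≃* Q) (X : Module.End F V) (r : ℕ) (hr : r.Prime) (hX : X ^ r = 1)
    (hσ : ∀ t, X * ρ t = ρ (σ t) * X) (hfree : ∀ t, σ t * t⁻¹ ∈ Z → t ∈ Z) :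
    r ∣ Z.index - 1 ∧
    r * Module.finrank F (Subalgebra.centralizer F ({X} : Set (Module.End F V))) ≤
      (Z.index + r - 1) * Module.finrank F (Subalgebra.centralizer F (Set.range ρ)) := by
  classical
  rcases subsingleton_or_nontrivial V with hV | hV
  · have hZtop : Z = ⊤ := by
      rw [eq_top_iff]
      intro t _
      by_contra ht
      obtain ⟨u, hu⟩ := hnd t ht
      exact hu (Subsingleton.elim _ _)
    rw [hZtop, Subgroup.index_top, Module.finrank_zero_of_subsingleton]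
    simp
  · cases nonempty_fintype Q
    have : Fintype (Q ⧸ Z) := Fintype.ofFinite _
    obtain ⟨c, h⟩ := exists_pairing Z ρ hZ hcomm hnd
    rw [Nat.card_eq_fintype_card] at hQF
    rw [Subgroup.index, Nat.card_eq_fintype_card]
    obtain ⟨n, hn, hle⟩ := finrank_centralizer_le_aux hQF h r hr hX hσ hfree
    have hpos : 0 < Fintype.card (Q ⧸ Z) := Fintype.card_pos
    have hrpos := hr.pos
    constructor
    · have hn1 : 1 ≤ n := by
        rcases Nat.eq_zero_or_pos n with h0 | h0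
        · rw [h0] at hn; omega
        · exact h0
      refine ⟨n - 1, ?_⟩
      have : r * (n - 1) = n * r - r := by rw [Nat.mul_sub, mul_one, mul_comm]
      rw [this, hn]; omega
    · rw [← hn]
      calc r * Module.finrank F (Subalgebra.centralizer F ({X} : Set (Module.End F V)))
          ≤ r * (n * Module.finrank F (Subalgebra.centralizer F (Set.range ρ))) :=
            Nat.mul_le_mul_left _ hle
        _ = n * r * Module.finrank F (Subalgebra.centralizer F (Set.range ρ)) := by ring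

end Cfsg.Agent.Lib.Helper27BG34B
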