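import Cfsg.Agent.Lib.Helper27BG34T
import Cfsg.Agent.Lib.Helper27BG34B

/-!
B-G Theorem 3.4 project (S3769), piece C: `|Q : Z|` is a square.
-/

set_option autoImplicit false

namespace Cfsg.Agent.Lib.Helper27BG34C

open scoped commutatorElement
open Cfsg.Agent.Lib.Helper27BG34T Cfsg.Agent.Lib.Helper27BG34B

variable {F V : Type*} [Field F] [AddCommGroup V] [Module F V]

/-- apply `sq_finrank_eq` to a minimal `ρ(Q)`-invariant subspace `U`, where the commutant is `F`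
by Schur. -/
theorem index_eq_sq [IsAlgClosed F] [FiniteDimensional F V] [Nontrivial V]
    {Q : Type*} [Group Q] [Finite Q] (Z : Subgroup Q)
    (ρ : Q →* Module.End F V) (hQF : (Nat.card Q : F) ≠ 0)
    (hZ : ∀ z ∈ Z, ∃ c : F, ρ z = c • 1) (hcomm : ∀ u t : Q, ⁅u, t⁆ ∈ Z)
    (hnd : ∀ t : Q, t ∉ Z → ∃ u : Q, ρ ⁅u, t⁆ ≠ 1) :
    ∃ k : ℕ, Z.index = k ^ 2 := by
  obtain ⟨U, -, hU0, hUinv, hUmin⟩ := exists_min_invariant (Set.range ρ) (⊤ : Submodule F V)
    top_ne_bot (fun _ _ _ _ => Submodule.mem_top)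
  have hinv : ∀ t, ∀ w ∈ U, ρ t w ∈ U := fun t w hw => hUinv (ρ t) ⟨t, rfl⟩ w hw
  have hUnt : Nontrivial U := Submodule.nontrivial_iff_ne_bot.2 hU0
  obtain ⟨w₀, hw₀⟩ := exists_ne (0 : U)
  have hZ' : ∀ z ∈ Z, ∃ c : F, resRep ρ U hinv z = c • 1 := by
    intro z hz
    obtain ⟨c, hc⟩ := hZ z hz
    refine ⟨c, ?_⟩
    ext w
    rw [resRep_apply, hc]
    simp
  have hnd' : ∀ t : Q, t ∉ Z → ∃ u : Q, resRep ρ U hinv ⁅u, t⁆ ≠ 1 := by
    intro t ht
    obtain ⟨u, hu⟩ := hnd t ht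
    refine ⟨u, fun h1 => hu ?_⟩
    obtain ⟨c, hc⟩ := hZ _ (hcomm u t)
    have h2 : ((resRep ρ U hinv ⁅u, t⁆ w₀ : U) : V) = (w₀ : V) := by rw [h1]; rfl
    rw [resRep_apply, hc] at h2
    have h3 : (c - 1) • (w₀ : V) = 0 := by
      rw [sub_smul, one_smul]
      simpa [sub_eq_zero] using h2
    rcases smul_eq_zero.1 h3 with h4 | h4
    · rw [hc, sub_eq_zero.1 h4, one_smul]
    · exact (hw₀ (Subtype.ext h4)).elim
  have hsq := sq_finrank_eq Z (resRep ρ U hinv) hQF hZ' hcomm hnd'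
  have hbot : Subalgebra.centralizer F (Set.range (resRep ρ U hinv)) = ⊥ := by
    rw [eq_bot_iff]
    intro z hz
    rw [Subalgebra.mem_centralizer_iff] at hz
    have hmin' : ∀ W' : Submodule F U, W' ≤ ⊤ → W' ≠ ⊥ →
        (∀ s ∈ Set.range (resRep ρ U hinv), ∀ w ∈ W', s w ∈ W') → W' = ⊤ := by
      intro W' _ hW0 hWinv
      have h1 : W'.map U.subtype = U := by
        apply hUmin
        · exact Submodule.map_subtype_le U W'
        · intro h
          apply hW0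
          rw [eq_bot_iff]
          intro w hw
          have h5 : (w : V) ∈ W'.map U.subtype := ⟨w, hw, rfl⟩
          rw [h, Submodule.mem_bot] at h5
          rw [Submodule.mem_bot]
          exact Subtype.ext h5
        · rintro _ ⟨t, rfl⟩ _ ⟨w, hw, rfl⟩
          exact ⟨resRep ρ U hinv t w, hWinv _ ⟨t, rfl⟩ w hw, rfl⟩
      rw [eq_top_iff]
      intro w _
      have h2 : (w : V) ∈ W'.map U.subtype := by rw [h1]; exact w.2
      obtain ⟨w', hw', hww⟩ := h2
      have : w' = w := Subtype.ext hww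
      rwa [← this]
    obtain ⟨c, hc⟩ := schur_on (Set.range (resRep ρ U hinv)) (⊤ : Submodule F U) top_ne_bot
      (fun _ _ _ _ => Submodule.mem_top) hmin' z
      (fun _ _ => Submodule.mem_top) (fun s hs w _ => by
        have := hz s hs
        exact (LinearMap.congr_fun this w).symm)
    rw [Algebra.mem_bot]
    refine ⟨c, ?_⟩
    ext w
    rw [hc w Submodule.mem_top]
    simp [Algebra.algebraMap_eq_smul_one]
  rw [hbot, Subalgebra.finrank_bot, mul_one] at hsq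
  exact ⟨_, hsq.symm⟩

end Cfsg.Agent.Lib.Helper27BG34C
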