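import Cfsg.Agent.Lib.Helper27BG34A
import Cfsg.Agent.Lib.Helper27BG34B
import Cfsg.Agent.Lib.Helper27BG34C
import Cfsg.Agent.Lib.Helper27BG34T

/-!
General (no oddness) version of the extraspecial case of the coprime Hall--Higman theorem,
on top of the pieces of helper27's BG34 project.
-/

set_option autoImplicit false

namespace Cfsg.Agent.Lib.Helper15HHGen

open scoped commutatorElement
open Cfsg.Agent.Lib.Helper27BG34A Cfsg.Agent.Lib.Helper27BG34B Cfsg.Agent.Lib.Helper27BG34C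
  Cfsg.Agent.Lib.Helper27BG34T

variable {F V : Type*} [Field F] [AddCommGroup V] [Module F V]

theorem arith_core (N s β γ r k : ℕ) (hr : r.Prime) (h1 : N ^ 2 = s * β) (h2 : N ^ 2 ≤ (r - 1) * γ)
    (h3 : r * γ ≤ (s + r - 1) * β) (hβ : 0 < β) (h4 : r ∣ s - 1) (h5 : s = k ^ 2) (hs : 0 < s) :
    s = 1 ∨ s = (r - 1) ^ 2 := by
  obtain ⟨r', rfl⟩ : ∃ r', r = r' + 1 := ⟨r - 1, by have := hr.pos; omega⟩
  simp only [Nat.add_sub_cancel] at *
  have h3' : (r' + 1) * γ ≤ (s + r') * β := by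
    have : s + (r' + 1) - 1 = s + r' := by omega
    rwa [this] at h3
  have h6 : (r' + 1) * (s * β) ≤ r' * ((s + r') * β) := by
    calc (r' + 1) * (s * β) = (r' + 1) * N ^ 2 := by rw [h1]
      _ ≤ (r' + 1) * (r' * γ) := Nat.mul_le_mul_left _ h2
      _ = r' * ((r' + 1) * γ) := by ring
      _ ≤ r' * ((s + r') * β) := Nat.mul_le_mul_left _ h3'
  have h7 : (r' + 1) * s ≤ r' * (s + r') := by
    have : ((r' + 1) * s) * β ≤ (r' * (s + r')) * β := by nlinarith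
    exact Nat.le_of_mul_le_mul_right this hβ
  have h8 : s ≤ r' ^ 2 := by nlinarith
  have h9 : k ≤ r' := by
    rw [h5] at h8
    exact (Nat.pow_le_pow_iff_left (by norm_num)).mp h8
  have hk : 0 < k := by
    rcases Nat.eq_zero_or_pos k with h | h
    · subst h; simp at h5; omega
    · exact h
  rcases Nat.lt_or_ge 1 k with hk1 | hk1
  · right
    have h10 : s - 1 = (k - 1) * (k + 1) := by
      obtain ⟨j, rfl⟩ : ∃ j, k = j + 1 := ⟨k - 1, by omega⟩
      rw [h5]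
      simp only [Nat.add_sub_cancel]
      have : (j + 1) ^ 2 = j * (j + 1 + 1) + 1 := by ring
      omega
    rw [h10] at h4
    rcases (Nat.Prime.dvd_mul hr).mp h4 with h | h
    · have := Nat.le_of_dvd (by omega) h
      omega
    · have := Nat.le_of_dvd (by omega) h
      have : k = r' := by omega
      rw [h5, this]
  · left
    have : k = 1 := by omega
    rw [h5, this]; norm_num

theorem extraspecial_gen [IsAlgClosed F] [FiniteDimensional F V] [Nontrivial V]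
    {Q : Type*} [Group Q] [Finite Q] (Z : Subgroup Q)
    (ρ : Q →* Module.End F V) (hQF : (Nat.card Q : F) ≠ 0)
    (hZ : ∀ z ∈ Z, ∃ c : F, ρ z = c • 1) (hcomm : ∀ u t : Q, ⁅u, t⁆ ∈ Z)
    (hnd : ∀ t : Q, t ∉ Z → ∃ u : Q, ρ ⁅u, t⁆ ≠ 1)
    (σ : Q ≃* Q) (X : Module.End F V) (r : ℕ) (hr : r.Prime) (hrF : (r : F) ≠ 0)
    (hX : X ^ r = 1)
    (hσ : ∀ t, X * ρ t = ρ (σ t) * X) (hfree : ∀ t, σ t * t⁻¹ ∈ Z → t ∈ Z)
    (hfix : ∀ w, X w = w → w = 0) : Z.index = 1 ∨ Z.index = (r - 1) ^ 2 := by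
  obtain ⟨k, hk⟩ := index_eq_sq Z ρ hQF hZ hcomm hnd
  obtain ⟨h4, h3⟩ := finrank_centralizer_le Z ρ hQF hZ hcomm hnd σ X r hr hX hσ hfree
  have h1 := sq_finrank_eq Z ρ hQF hZ hcomm hnd
  have h2 := sq_finrank_le X r hr.pos hrF hX hfix
  have hβ : 0 < Module.finrank F (Subalgebra.centralizer F (Set.range ρ)) := Module.finrank_pos
  exact arith_core _ _ _ _ r k hr h1 h2 h3 hβ h4 hk (Nat.pos_of_ne_zero Z.index_ne_zero_of_finite)

theorem nonabelian_core [IsAlgClosed F] [FiniteDimensional F V]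
    {Q : Type*} [Group Q] [Finite Q] (σ : Q ≃* Q)
    (ρ : Q →* Module.End F V) (hQF : (Nat.card Q : F) ≠ 0)
    (X : Module.End F V) (r : ℕ) (hr : r.Prime) (hrF : (r : F) ≠ 0) (hX : X ^ r = 1)
    (hσ : ∀ t, X * ρ t = ρ (σ t) * X) (hfix : ∀ w, X w = w → w = 0)
    (Z : Subgroup Q) (hZfix : ∀ z ∈ Z, σ z = z) (hZc : ∀ z ∈ Z, ∀ t, z * t = t * z)
    (hcomm : ∀ u t : Q, ⁅u, t⁆ ∈ Z)
    (hfree : ∀ t, σ t * t⁻¹ ∈ Z → t ∈ Z)
    (c : Q) (hcZ : c ∈ Z) (hc : ρ c ≠ 1)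
    (hM : ∀ M : Subgroup Q, M ≤ Z → c ∉ M → ∀ t : Q, t ∉ Z → ∃ u : Q, ⁅u, t⁆ ∉ M) :
    Z.index = 1 ∨ Z.index = (r - 1) ^ 2 := by
  classical
  set S : Set (Module.End F V) := Set.range ρ ∪ {X} with hS
  set V₁ : Submodule F V := LinearMap.range (ρ c - 1) with hV₁
  have hV₁0 : V₁ ≠ ⊥ := by
    rw [hV₁, Ne, LinearMap.range_eq_bot, sub_eq_zero]
    exact hc
  have hcomρ : ∀ z ∈ Z, ∀ t, ρ z * ρ t = ρ t * ρ z := by
    intro z hz t
    rw [← map_mul, ← map_mul, hZc z hz t]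
  have hcomX : ∀ z ∈ Z, X * ρ z = ρ z * X := by
    intro z hz
    rw [hσ, hZfix z hz]
  have hinv : ∀ s ∈ S, ∀ v ∈ V₁, s v ∈ V₁ := by
    rintro s hs _ ⟨v, rfl⟩
    have key : s * (ρ c - 1) = (ρ c - 1) * s := by
      rcases hs with ⟨t, rfl⟩ | hs
      · rw [mul_sub, sub_mul, hcomρ c hcZ t, mul_one, one_mul]
      · rw [Set.mem_singleton_iff] at hs
        subst hs
        rw [mul_sub, sub_mul, hcomX c hcZ, mul_one, one_mul]
    refine ⟨s v, ?_⟩
    have := congrArg (fun f : Module.End F V => f v) key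
    exact this.symm
  obtain ⟨W, hWV, hW0, hWinv, hWmin⟩ := exists_min_invariant S V₁ hV₁0 hinv
  have hρW : ∀ t, ∀ w ∈ W, ρ t w ∈ W := fun t w hw => hWinv (ρ t) (Or.inl ⟨t, rfl⟩) w hw
  have hXW : ∀ w ∈ W, X w ∈ W := fun w hw => hWinv X (Or.inr rfl) w hw
  haveI : Nontrivial W := Submodule.nontrivial_iff_ne_bot.mpr hW0
  have hZsc : ∀ z ∈ Z, ∃ a : F, ∀ w ∈ W, ρ z w = a • w := by
    intro z hz
    apply schur_on S W hW0 hWinv hWmin (ρ z) (hρW z)
    rintro s hs w -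
    rcases hs with ⟨t, rfl⟩ | hs
    · exact congrArg (fun f : Module.End F V => f w) (hcomρ z hz t)
    · rw [Set.mem_singleton_iff] at hs
      subst hs
      exact (congrArg (fun f : Module.End F V => f w) (hcomX z hz)).symm
  set ρW := resRep ρ W hρW with hρWdef
  set XW : Module.End F W := X.restrict hXW with hXWdef
  have hZ' : ∀ z ∈ Z, ∃ a : F, ρW z = a • 1 := by
    intro z hz
    obtain ⟨a, ha⟩ := hZsc z hz
    refine ⟨a, ?_⟩
    ext w
    simp only [hρWdef, resRep_apply, LinearMap.smul_apply, Module.End.one_apply,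
      Submodule.coe_smul]
    exact ha w w.2
  have hcW : ρW c ≠ 1 := by
    intro h
    obtain ⟨w, hw⟩ := exists_ne (0 : W)
    apply hw
    have h1 : ρ c (w : V) = w := by
      have := congrArg (fun f : Module.End F W => ((f w : W) : V)) h
      simpa [hρWdef] using this
    have h2 := eq_zero_of_mem_range_sub_one (ρ c) (Nat.card Q) hQF
      (by rw [← map_pow, pow_card_eq_one', map_one]) (w : V) (hWV w.2) h1
    exact Subtype.ext h2
  have hnd : ∀ t : Q, t ∉ Z → ∃ u : Q, ρW ⁅u, t⁆ ≠ 1 := by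
    intro t ht
    obtain ⟨u, hu⟩ := hM (Z ⊓ ρW.ker) inf_le_left (fun h => hcW (MonoidHom.mem_ker.mp h.2)) t ht
    refine ⟨u, fun h => hu ⟨hcomm u t, MonoidHom.mem_ker.mpr h⟩⟩
  have hXr : XW ^ r = 1 := by
    rw [hXWdef, Module.End.pow_restrict]
    ext w
    simp [hX]
  have hσ' : ∀ t, XW * ρW t = ρW (σ t) * XW := by
    intro t
    ext w
    have := congrArg (fun f : Module.End F V => f (w : V)) (hσ t)
    simpa [hρWdef, hXWdef] using this
  have hfix' : ∀ w, XW w = w → w = 0 := by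
    intro w hw
    have := congrArg (Subtype.val) hw
    exact Subtype.ext (hfix (w : V) this)
  exact extraspecial_gen Z ρW hQF hZ' hcomm hnd σ XW r hr hrF hXr hσ' hfree hfix'

end Cfsg.Agent.Lib.Helper15HHGen
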