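import Mathlib

/-!
B-G Theorem 3.4 project (S3769), piece L: linearisation of the automorphism group of an elementary
abelian group over an arbitrary field of characteristic `p`, keeping track of fixed points.
(Compare `Cfsg.Agent.Lib.Helper13LinAct.exists_rep_abstract`.)
-/

set_option autoImplicit false

namespace Cfsg.Agent.Lib.Helper27BG34L

theorem exists_rep_fix_aux (p : ℕ) [Fact p.Prime] (A : Type*) [CommGroup A] [Finite A]
    [Module (ZMod p) (Additive A)] (K : Type*) [Field K] [CharP K p] :
    ∃ (d : ℕ) (ρ : MulAut A →* Module.End K (Fin d → K)), Function.Injective ρ ∧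
      ∀ h : MulAut A, (∀ v : A, h v = v → v = 1) → ∀ w, ρ h w = w → w = 0 := by
  classical
  haveI : Module.Finite (ZMod p) (Additive A) := Module.Finite.of_finite
  let ρ₀ : MulAut A →* Module.End (ZMod p) (Additive A) :=
    { toFun := fun h => AddMonoidHom.toZModLinearMap p (MonoidHom.toAdditive h.toMonoidHom)
      map_one' := by apply LinearMap.ext; intro x; simp
      map_mul' := by intro g h; apply LinearMap.ext; intro x; simp }
  have hρ₀ : ∀ (h : MulAut A) (v : Additive A), ρ₀ h v = Additive.ofMul (h v.toMul) :=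
    fun h v => rfl
  let i : ZMod p →+* K := ZMod.castHom (dvd_refl p) K
  let B := Module.finBasis (ZMod p) (Additive A)
  let Φ : Module.End (ZMod p) (Additive A) →+*
      Module.End K (Fin (Module.finrank (ZMod p) (Additive A)) → K) :=
    (Matrix.toLinAlgEquiv' : Matrix _ _ K ≃ₐ[K] _).toRingEquiv.toRingHom.comp
      (i.mapMatrix.comp (LinearMap.toMatrixAlgEquiv B).toRingEquiv.toRingHom)
  have hΦ : Function.Injective Φ := by
    intro f g hfg
    simp only [Φ, RingHom.comp_apply] at hfg
    have h1 := (Matrix.toLinAlgEquiv' : Matrix _ _ K ≃ₐ[K] _).injective hfg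
    have h2 := Matrix.map_injective i.injective h1
    exact (LinearMap.toMatrixAlgEquiv B).injective h2
  refine ⟨_, Φ.toMonoidHom.comp ρ₀, ?_, ?_⟩
  · intro g h hgh
    have h1 : ρ₀ g = ρ₀ h := hΦ hgh
    ext v
    have := congrArg (fun f : Module.End (ZMod p) (Additive A) => (f (Additive.ofMul v)).toMul) h1
    simpa [hρ₀] using this
  · intro h hh w hw
    have hker : LinearMap.ker (ρ₀ h - 1) = ⊥ := by
      rw [LinearMap.ker_eq_bot']
      intro v hv
      rw [LinearMap.sub_apply, Module.End.one_apply, sub_eq_zero, hρ₀] at hv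
      have h2 : h v.toMul = v.toMul := congrArg Additive.toMul hv
      have h3 := hh _ h2
      exact congrArg Additive.ofMul h3
    have hunit : IsUnit (ρ₀ h - 1) := (LinearMap.isUnit_iff_ker_eq_bot _).mpr hker
    have hunit2 : IsUnit (Φ (ρ₀ h - 1)) := hunit.map Φ
    have hker2 := (LinearMap.isUnit_iff_ker_eq_bot _).mp hunit2
    have h4 : Φ (ρ₀ h - 1) w = 0 := by
      rw [map_sub, map_one, LinearMap.sub_apply, Module.End.one_apply, sub_eq_zero]
      exact hw
    exact (LinearMap.ker_eq_bot'.mp hker2) w h4

theorem exists_rep_fix (p : ℕ) [Fact p.Prime] (A : Type*) [CommGroup A] [Finite A]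
    (hA : ∀ x : A, x ^ p = 1) (K : Type*) [Field K] [CharP K p] :
    ∃ (d : ℕ) (ρ : MulAut A →* Module.End K (Fin d → K)), Function.Injective ρ ∧
      ∀ h : MulAut A, (∀ v : A, h v = v → v = 1) → ∀ w, ρ h w = w → w = 0 := by
  letI : Module (ZMod p) (Additive A) := AddCommGroup.zmodModule (n := p) (fun x => by
    induction x using Additive.rec with
    | _ x => rw [← ofMul_pow, hA]; rfl)
  exact exists_rep_fix_aux p A K

end Cfsg.Agent.Lib.Helper27BG34L
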