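import Cfsg.Prelude.Def_Transfer
import Cfsg.Agent.Lib.Helper27BG34L

/-!
Bridge from the group-theoretic setting (`Q`, `x` acting on an elementary abelian `V`) to the linear
setting of the BG34 project.
-/

set_option autoImplicit false

namespace Cfsg.Agent.Lib.Helper15HHGrp

open Cfsg.Agent.Lib.Helper27BG34L

theorem grp_setup {G : Type*} [Group G] [Finite G] {p : ℕ} [Fact p.Prime] {r : ℕ}
    (Q V : Subgroup G) (x : G) (hxr : x ^ r = 1)
    (hxQ : x ∈ Subgroup.normalizer (Q : Set G)) (hV : Cfsg.IsElementaryAbelian p V)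
    (hxV : x ∈ Subgroup.normalizer (V : Set G)) (hQV : Q ≤ Subgroup.normalizer (V : Set G))
    (hfaith : Q ⊓ Subgroup.centralizer (V : Set G) = ⊥)
    (hCV : ∀ v ∈ V, x * v = v * x → v = 1)
    (F : Type*) [Field F] [CharP F p] :
    ∃ (d : ℕ) (ρ : Q →* Module.End F (Fin d → F)) (X : Module.End F (Fin d → F)) (σ : Q ≃* Q),
      Function.Injective ρ ∧ X ^ r = 1 ∧ (∀ w, X w = w → w = 0) ∧
      (∀ t, X * ρ t = ρ (σ t) * X) ∧ (∀ t : Q, ((σ t : Q) : G) = x * t * x⁻¹) := by
  haveI := hV.1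
  letI : CommGroup V := { (inferInstance : Group V) with mul_comm := fun a b => mul_comm' a b }
  obtain ⟨d, ρ, hρ, hfix⟩ := exists_rep_fix p V (fun x => Subtype.ext (hV.2 x x.2)) F
  let ψ : Subgroup.normalizer (V : Set G) →* MulAut V := V.normalizerMonoidHom
  have hψ : ∀ (h : Subgroup.normalizer (V : Set G)) (v : V),
      ((ψ h v : V) : G) = h * v * (h : G)⁻¹ := fun h v => rfl
  let σ : Q ≃* Q := Q.normalizerMonoidHom ⟨x, hxQ⟩
  have hσ : ∀ t : Q, ((σ t : Q) : G) = x * t * x⁻¹ := fun t => rfl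
  refine ⟨d, (ρ.comp ψ).comp (Subgroup.inclusion hQV), ρ (ψ ⟨x, hxV⟩), σ, ?_, ?_, ?_, ?_, hσ⟩
  · intro a b hab
    have h1 : ψ (Subgroup.inclusion hQV a) = ψ (Subgroup.inclusion hQV b) := hρ hab
    have h2 : (a : G) * (b : G)⁻¹ ∈ Q ⊓ Subgroup.centralizer (V : Set G) := by
      refine Subgroup.mem_inf.mpr ⟨Q.mul_mem a.2 (Q.inv_mem b.2), ?_⟩
      rw [Subgroup.mem_centralizer_iff]
      intro v hv
      have hbv : (b : G)⁻¹ * v * b ∈ V := by
        have := (Subgroup.mem_normalizer_iff''.mp (hQV b.2) v).mp hv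
        exact this
      have h3 := congrArg (fun f : MulAut V => ((f ⟨(b : G)⁻¹ * v * b, hbv⟩ : V) : G)) h1
      simp only [hψ, Subgroup.coe_inclusion] at h3
      have h4 : (b : G) * ((b : G)⁻¹ * v * b) * (b : G)⁻¹ = v := by group
      rw [h4] at h3
      calc v * ((a : G) * (b : G)⁻¹) = ((a : G) * ((b : G)⁻¹ * v * b) * (a : G)⁻¹) * ((a : G) * (b : G)⁻¹) := by
            rw [h3]
        _ = (a : G) * (b : G)⁻¹ * v := by group
    rw [hfaith, Subgroup.mem_bot] at h2
    exact Subtype.ext (mul_inv_eq_one.mp h2)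
  · rw [← map_pow, ← map_pow]
    have : (⟨x, hxV⟩ : Subgroup.normalizer (V : Set G)) ^ r = 1 := Subtype.ext hxr
    rw [this, map_one, map_one]
  · apply hfix
    intro v hv
    have h1 := congrArg (Subtype.val) hv
    rw [hψ] at h1
    apply Subtype.ext
    apply hCV v v.2
    exact mul_inv_eq_iff_eq_mul.mp h1
  · intro t
    simp only [MonoidHom.comp_apply]
    rw [← map_mul, ← map_mul, ← map_mul, ← map_mul]
    congr 2
    apply Subtype.ext
    simp only [Subgroup.coe_mul, Subgroup.coe_inclusion, hσ]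
    group

end Cfsg.Agent.Lib.Helper15HHGrp
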