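import Cfsg.Agent.Lib.Helper27BG34T

/-!
B-G Theorem 3.4 project (S3769), piece E2: the abelian case.
-/

set_option autoImplicit false

namespace Cfsg.Agent.Lib.Helper27BG34E2

open Cfsg.Agent.Lib.Helper27BG34T

variable {F V : Type*} [Field F] [AddCommGroup V] [Module F V]

theorem abelian_case [IsAlgClosed F] [FiniteDimensional F V]
    {Q : Type*} [Group Q] [Finite Q] (σ : Q ≃* Q)
    (ρ : Q →* Module.End F V) (hρ : Function.Injective ρ) (hQF : (Nat.card Q : F) ≠ 0)
    (X : Module.End F V) (r : ℕ) (hr : r.Prime) (hX : X ^ r = 1)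
    (hσ : ∀ t, X * ρ t = ρ (σ t) * X) (hfix : ∀ w, X w = w → w = 0)
    (hab : ∀ u t : Q, u * t = t * u) : ∀ t, σ t = t := by
  classical
  have : Fintype Q := Fintype.ofFinite Q
  by_contra hcon
  push Not at hcon
  obtain ⟨t₀, ht₀⟩ := hcon
  set c₀ := σ t₀ * t₀⁻¹ with hc₀
  have hc₀1 : c₀ ≠ 1 := by
    intro h; apply ht₀; exact mul_inv_eq_one.1 h
  have hρc : ρ c₀ ≠ 1 := fun h => hc₀1 (hρ (h.trans (map_one ρ).symm))
  set V₁ := LinearMap.range (ρ c₀ - 1) with hV₁
  have hV₁ne : V₁ ≠ ⊥ := by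
    intro h
    rw [hV₁, LinearMap.range_eq_bot] at h
    exact hρc (sub_eq_zero.1 h)
  have hcommρ : ∀ u t, ρ u * ρ t = ρ t * ρ u := fun u t => by
    rw [← map_mul, ← map_mul, hab]
  have hinv : ∀ s ∈ Set.range ρ, ∀ v ∈ V₁, s v ∈ V₁ := by
    rintro _ ⟨t, rfl⟩ _ ⟨v, rfl⟩
    refine ⟨ρ t v, ?_⟩
    have := congrArg (fun f => f v) (hcommρ c₀ t)
    simp only [Module.End.mul_apply] at this
    simp [LinearMap.sub_apply, this, map_sub]
  obtain ⟨W, hWV, hW0, hWinv, hWmin⟩ := exists_min_invariant (Set.range ρ) V₁ hV₁ne hinv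
  have hsch : ∀ t, ∃ c : F, ∀ w ∈ W, ρ t w = c • w := fun t =>
    schur_on (Set.range ρ) W hW0 hWinv hWmin (ρ t) (hWinv _ ⟨t, rfl⟩) (by
      rintro _ ⟨u, rfl⟩ w _
      exact congrArg (fun f => f w) (hcommρ t u))
  choose lam hlam using hsch
  obtain ⟨w, hwW, hw0⟩ := Submodule.exists_mem_ne_zero_of_ne_bot hW0
  have hlw : ∀ t, ρ t w = lam t • w := fun t => hlam t w hwW
  have hinj : ∀ a b : F, a • w = b • w → a = b := fun a b h =>
    smul_left_injective F hw0 h
  have hlam_one : lam 1 = 1 := by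
    apply hinj
    rw [← hlw, map_one, one_smul]; rfl
  have hlam_mul : ∀ t u, lam (t * u) = lam t * lam u := by
    intro t u
    apply hinj
    rw [← hlw, map_mul, Module.End.mul_apply, hlw u, map_smul, hlw t, smul_smul, mul_comm]
  let L : Q →* F := { toFun := lam, map_one' := hlam_one, map_mul' := hlam_mul }
  have hLw : ∀ t, ρ t w = L t • w := hlw
  have hLc₀ : L c₀ ≠ 1 := by
    intro h
    apply hw0
    refine eq_zero_of_mem_range_sub_one (ρ c₀) (Nat.card Q) hQF ?_ w (hWV hwW) ?_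
    · rw [← map_pow, pow_card_eq_one', map_one]
    · rw [hLw, h, one_smul]
  -- powers
  have hpow : ∀ (i : ℕ) t, X ^ i * ρ t = ρ ((σ ^ i : MulAut Q) t) * X ^ i := by
    intro i
    induction i with
    | zero => intro t; simp
    | succ n ih =>
      intro t
      rw [pow_succ', mul_assoc, ih, ← mul_assoc, hσ, mul_assoc, pow_succ' σ n, MulAut.mul_apply]
  have hσr : (σ ^ r : MulAut Q) = 1 := by
    ext t
    apply hρ
    have := hpow r t
    rw [hX, one_mul, mul_one] at this
    rw [← this, MulAut.one_apply]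
  have hρXi : ∀ (i : ℕ) t, ρ t (X ^ i • w) = L ((σ ^ i : MulAut Q)⁻¹ t) • (X ^ i • w) := by
    intro i t
    have h1 := hpow i ((σ ^ i : MulAut Q)⁻¹ t)
    rw [MulAut.apply_inv_self] at h1
    have h2 := congrArg (fun f => f w) h1
    simp only [Module.End.mul_apply] at h2
    rw [Module.End.smul_def, ← h2, hLw, map_smul]
  have hsum0 : ∑ i ∈ Finset.range r, X ^ i • w = 0 := by
    apply hfix
    rw [map_sum]
    have h1 : ∀ i ∈ Finset.range r, X (X ^ i • w) = X ^ (i + 1) • w := by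
      intro i _
      rw [pow_succ', Module.End.smul_def, Module.End.smul_def, Module.End.mul_apply]
    rw [Finset.sum_congr rfl h1]
    have h2 := Finset.sum_range_succ (fun i => X ^ i • w) r
    have h3 := Finset.sum_range_succ' (fun i => X ^ i • w) r
    rw [h2] at h3
    simp only [hX, pow_zero] at h3
    exact (add_right_cancel h3).symm
  let f : ℕ → Q →* F := fun i =>
    { toFun := fun t => L t⁻¹ * L ((σ ^ i : MulAut Q)⁻¹ t)
      map_one' := by simp
      map_mul' := by
        intro a b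
        rw [mul_inv_rev, map_mul, map_mul, map_mul]
        ring }
  have hf : ∀ i t, f i t = L t⁻¹ * L ((σ ^ i : MulAut Q)⁻¹ t) := fun _ _ => rfl
  have hkey : ∑ i ∈ Finset.range r, (∑ t : Q, f i t) • (X ^ i • w) = 0 := by
    simp_rw [Finset.sum_smul]
    rw [Finset.sum_comm]
    apply Finset.sum_eq_zero
    intro t _
    have h1 : ρ t (∑ i ∈ Finset.range r, X ^ i • w) = 0 := by rw [hsum0, map_zero]
    rw [map_sum] at h1
    have h2 : ∑ i ∈ Finset.range r, f i t • (X ^ i • w)
        = L t⁻¹ • ∑ i ∈ Finset.range r, ρ t (X ^ i • w) := by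
      rw [Finset.smul_sum]
      apply Finset.sum_congr rfl
      intro i _
      rw [hρXi, smul_smul, hf]
    rw [h2, h1, smul_zero]
  have hex : ∃ i, 0 < i ∧ i < r ∧ f i = 1 := by
    by_contra hno
    push Not at hno
    have h1 : ∑ i ∈ Finset.range r, (∑ t : Q, f i t) • (X ^ i • w)
        = (∑ t : Q, f 0 t) • (X ^ 0 • w) := by
      apply Finset.sum_eq_single 0
      · intro i hi hi0
        rw [sum_hom_units_eq_zero (f i) (hno i (Nat.pos_of_ne_zero hi0) (Finset.mem_range.1 hi)),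
          zero_smul]
      · intro h
        exact absurd (Finset.mem_range.2 hr.pos) h
    rw [h1] at hkey
    have h2 : ∀ t : Q, f 0 t = 1 := by
      intro t
      rw [hf, pow_zero, inv_one, MulAut.one_apply, ← map_mul, inv_mul_cancel, map_one]
    simp only [h2, Finset.sum_const, Finset.card_univ, pow_zero, one_smul, nsmul_eq_mul,
      mul_one] at hkey
    rw [← Nat.card_eq_fintype_card] at hkey
    rcases smul_eq_zero.1 hkey with h | h
    · exact hQF h
    · exact hw0 h
  obtain ⟨i, hi0, hir, hfi⟩ := hex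
  have hLi : ∀ t, L ((σ ^ i : MulAut Q) t) = L t := by
    intro t
    have h1 : f i ((σ ^ i : MulAut Q) t) = 1 := by rw [hfi]; rfl
    rw [hf, MulAut.inv_apply_self] at h1
    have h2 : L ((σ ^ i : MulAut Q) t) * L ((σ ^ i : MulAut Q) t)⁻¹ = 1 := by
      rw [← map_mul, mul_inv_cancel, map_one]
    calc L ((σ ^ i : MulAut Q) t) = L ((σ ^ i : MulAut Q) t) * (L ((σ ^ i : MulAut Q) t)⁻¹ * L t) := by
          rw [h1, mul_one]
      _ = L t := by rw [← mul_assoc, h2, one_mul]
  have hcop : i.Coprime (orderOf (σ : MulAut Q)) := by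
    have h1 : orderOf (σ : MulAut Q) ∣ r := orderOf_dvd_of_pow_eq_one hσr
    exact Nat.Coprime.coprime_dvd_right h1 (Nat.coprime_of_lt_prime hi0.ne' hir hr).symm
  obtain ⟨m, hm⟩ := exists_pow_eq_self_of_coprime hcop
  have hLm : ∀ (m : ℕ) t, L (((σ ^ i : MulAut Q) ^ m : MulAut Q) t) = L t := by
    intro m
    induction m with
    | zero => intro t; simp
    | succ n ih => intro t; rw [pow_succ', MulAut.mul_apply, hLi, ih]
  have hLσ : ∀ t, L (σ t) = L t := by
    intro t
    have := hLm m t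
    rwa [hm] at this
  apply hLc₀
  rw [hc₀, map_mul, hLσ, ← map_mul, mul_inv_cancel, map_one]

end Cfsg.Agent.Lib.Helper27BG34E2
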