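import Mathlib

/-!
B-G Theorem 3.4 project (S3769), piece G: structure of a minimal group with a nontrivial coprime
automorphism of prime order.
-/

set_option autoImplicit false

namespace Cfsg.Agent.Lib.Helper27BG34G

open scoped commutatorElement Pointwise

theorem mulAut_pow_apply {Q : Type*} [Group Q] (σ : MulAut Q) (i : ℕ) (t : Q) :
    (σ ^ i) t = (⇑σ)^[i] t := by
  induction i with
  | zero => simp
  | succ i ih => rw [pow_succ', MulAut.mul_apply, ih, Function.iterate_succ_apply']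

/-- a `σ`-invariant Sylow subgroup. -/
theorem exists_invariant_sylow {Q : Type*} [Group Q] [Finite Q] (σ : Q ≃* Q) (r : ℕ) (hr : r.Prime)
    (hpow : ∀ t, (⇑σ)^[r] t = t) (hcop : (Nat.card Q).Coprime r) (q : ℕ) [Fact q.Prime] :
    ∃ P : Sylow q Q, ∀ t ∈ P, σ t ∈ P := by
  have : Fact r.Prime := ⟨hr⟩
  let s : MulAut Q := σ
  have hs : s ^ r = 1 := by
    ext t
    rw [mulAut_pow_apply]
    exact hpow t
  have hA : IsPGroup r (Subgroup.zpowers s) := by
    have h1 : orderOf s ∣ r := orderOf_dvd_of_pow_eq_one hs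
    rcases (Nat.dvd_prime hr).mp h1 with h | h
    · exact IsPGroup.of_card (n := 0) (by rw [Nat.card_zpowers, h, pow_zero])
    · exact IsPGroup.of_card (n := 1) (by rw [Nat.card_zpowers, h, pow_one])
  have hnd : ¬ r ∣ Nat.card (Sylow q Q) := by
    intro h
    obtain ⟨P⟩ : Nonempty (Sylow q Q) := inferInstance
    have h2 : Nat.card (Sylow q Q) ∣ Nat.card Q :=
      (Sylow.card_dvd_index P).trans (Subgroup.index_dvd_card _)
    have h3 : r ∣ Nat.gcd (Nat.card Q) r := Nat.dvd_gcd (h.trans h2) dvd_rfl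
    rw [hcop] at h3
    exact hr.one_lt.ne' (Nat.dvd_one.mp h3)
  obtain ⟨P, hP⟩ := hA.nonempty_fixed_point_of_prime_not_dvd_card (Sylow q Q) hnd
  refine ⟨P, fun t ht => ?_⟩
  have h1 : (⟨s, Subgroup.mem_zpowers s⟩ : Subgroup.zpowers s) • P = P := hP _
  have h2 : s • P = P := h1
  have h3 : s • t ∈ s • (P : Subgroup Q) := Subgroup.smul_mem_pointwise_smul t s _ ht
  rw [← Sylow.pointwise_smul_def, h2] at h3
  exact h3

theorem min_structure {Q : Type*} [Group Q] [Finite Q] (σ : Q ≃* Q) (r : ℕ) (hr : r.Prime)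
    (hpow : ∀ t, (⇑σ)^[r] t = t) (hcop : (Nat.card Q).Coprime r)
    (hmin : ∀ N : Subgroup Q, N ≠ ⊤ → (∀ t ∈ N, σ t ∈ N) → ∀ t ∈ N, σ t = t)
    (hne : ∃ t, σ t ≠ t) :
    ∃ Z : Subgroup Q, (∀ z ∈ Z, σ z = z) ∧ (∀ z ∈ Z, ∀ t, z * t = t * z) ∧
      (∀ u t : Q, ⁅u, t⁆ ∈ Z) ∧
      (∀ N : Subgroup Q, N.Normal → N ≠ ⊤ → (∀ t ∈ N, σ t ∈ N) → N ≤ Z) ∧
      (∀ t, σ t * t⁻¹ ∈ Z → t ∈ Z) := by
  classical
  let Z : Subgroup Q :=
    { carrier := {t | σ t = t}
      mul_mem' := by
        intro a b ha hb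
        simp only [Set.mem_ofPred_eq] at *
        rw [map_mul, ha, hb]
      one_mem' := map_one σ
      inv_mem' := by
        intro a ha
        simp only [Set.mem_ofPred_eq] at *
        rw [map_inv, ha] }
  have hZ : ∀ t, t ∈ Z ↔ σ t = t := fun t => Iff.rfl
  have hc1 : ∀ c : Q, c ^ r = 1 → c = 1 := by
    intro c hc
    have h1 : orderOf c ∣ r := orderOf_dvd_of_pow_eq_one hc
    have h2 : orderOf c ∣ Nat.card Q := orderOf_dvd_natCard c
    have h3 : orderOf c ∣ Nat.gcd (Nat.card Q) r := Nat.dvd_gcd h2 h1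
    rw [hcop] at h3
    exact orderOf_eq_one_iff.mp (Nat.dvd_one.mp h3)
  have h5 : ∀ t z, σ z = z → σ t = z * t → z = 1 := by
    intro t z hz ht
    have hi : ∀ i : ℕ, (⇑σ)^[i] t = z ^ i * t := by
      intro i
      induction i with
      | zero => simp
      | succ i ih =>
        rw [Function.iterate_succ_apply', ih, map_mul, map_pow, hz, ht, pow_succ, mul_assoc]
    have h := hi r
    rw [hpow] at h
    apply hc1
    have h' : z ^ r * t = 1 * t := by rw [one_mul]; exact h.symm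
    exact mul_right_cancel h'
  -- (1)
  let H : Subgroup Q := Subgroup.closure (Set.range fun t => t⁻¹ * σ t)
  have hHinv : ∀ x ∈ H, σ x ∈ H := by
    intro x hx
    induction hx using Subgroup.closure_induction with
    | mem x hx =>
      obtain ⟨t, rfl⟩ := hx
      apply Subgroup.subset_closure
      exact ⟨σ t, by simp⟩
    | one => rw [map_one]; exact H.one_mem
    | mul x y _ _ hx hy => rw [map_mul]; exact H.mul_mem hx hy
    | inv x _ hx => rw [map_inv]; exact H.inv_mem hx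
  have hHtop : H = ⊤ := by
    by_contra hH
    have hfix := hmin H hH hHinv
    obtain ⟨t, ht⟩ := hne
    apply ht
    have hc : σ (t⁻¹ * σ t) = t⁻¹ * σ t := hfix _ (Subgroup.subset_closure ⟨t, rfl⟩)
    have h6 : (t⁻¹ * σ t)⁻¹ = 1 := by
      apply h5 t⁻¹ _ (by rw [map_inv, hc])
      rw [map_inv]
      group
    have h7 : t⁻¹ * σ t = 1 := inv_eq_one.mp h6
    exact (inv_mul_eq_one.mp h7).symm
  -- (2)
  have h2 : ∀ N : Subgroup Q, N.Normal → N ≠ ⊤ → (∀ t ∈ N, σ t ∈ N) →
      ∀ n ∈ N, ∀ t, n * t = t * n := by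
    intro N hN hNt hNi n hn
    have hfix := hmin N hNt hNi
    have hle : H ≤ Subgroup.centralizer {n} := by
      rw [Subgroup.closure_le]
      rintro _ ⟨t, rfl⟩
      rw [SetLike.mem_coe, Subgroup.mem_centralizer_iff]
      intro h hh
      rw [Set.mem_singleton_iff] at hh
      subst hh
      have e1 : σ (t * h * t⁻¹) = t * h * t⁻¹ := hfix _ (hN.conj_mem h hn t)
      rw [map_mul, map_mul, map_inv, hfix h hn] at e1
      have e2 : σ t * h = t * h * t⁻¹ * σ t := by
        rw [← e1]; group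
      calc h * (t⁻¹ * σ t) = t⁻¹ * (t * h * t⁻¹ * σ t) := by group
        _ = t⁻¹ * (σ t * h) := by rw [e2]
        _ = t⁻¹ * σ t * h := by group
    intro t
    have ht : t ∈ Subgroup.centralizer {n} := hle (by rw [hHtop]; exact Subgroup.mem_top t)
    rw [Subgroup.mem_centralizer_iff] at ht
    exact ht n rfl
  have hZtop : Z ≠ ⊤ := by
    intro h
    obtain ⟨t, ht⟩ := hne
    exact ht ((hZ t).mp (by rw [h]; exact Subgroup.mem_top t))
  -- (3)
  have hq : ∃ q : ℕ, q.Prime ∧ IsPGroup q Q := by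
    by_contra hcon
    push Not at hcon
    apply hZtop
    rw [← Subgroup.index_eq_one, Nat.eq_one_iff_not_exists_prime_dvd]
    intro q hqp hqd
    have : Fact q.Prime := ⟨hqp⟩
    obtain ⟨P, hP⟩ := exists_invariant_sylow σ r hr hpow hcop q
    have hPt : (P : Subgroup Q) ≠ ⊤ := by
      intro h
      apply hcon q hqp
      have h1 := P.isPGroup'
      rw [h] at h1
      exact IsPGroup.of_surjective h1 (Subgroup.topEquiv (G := Q)).toMonoidHom
        (Subgroup.topEquiv (G := Q)).surjective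
    have hle : (P : Subgroup Q) ≤ Z := fun t ht => hmin _ hPt hP t ht
    exact P.not_dvd_index (hqd.trans (Subgroup.index_dvd_of_le hle))
  obtain ⟨q, hqp, hQ⟩ := hq
  have : Fact q.Prime := ⟨hqp⟩
  have : Group.IsNilpotent Q := hQ.isNilpotent
  have : Nontrivial Q := by
    obtain ⟨t, ht⟩ := hne
    exact ⟨σ t, t, ht⟩
  have hcomm : commutator Q ≠ ⊤ := (Group.IsSolvable.commutator_lt_top_of_nontrivial Q).ne
  have hcinv : ∀ t ∈ commutator Q, σ t ∈ commutator Q := by
    intro t ht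
    have h1 : (commutator Q).map σ.toMonoidHom = commutator Q :=
      Subgroup.characteristic_iff_map_eq.mp inferInstance σ
    rw [← h1]
    exact Subgroup.mem_map_of_mem _ ht
  have hcZ : commutator Q ≤ Z := fun t ht => hmin _ hcomm hcinv t ht
  have hZn : Z.Normal := by
    constructor
    intro n hn g
    have : g * n * g⁻¹ = ⁅g, n⁆ * n := by simp [commutatorElement_def]
    rw [this]
    exact Z.mul_mem (hcZ (Subgroup.commutator_mem_commutator (Subgroup.mem_top g)
      (Subgroup.mem_top n))) hn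
  refine ⟨Z, fun z hz => hz, ?_, ?_, ?_, ?_⟩
  · exact h2 Z hZn hZtop (fun t ht => by rw [(hZ t).mp ht]; exact ht)
  · intro u t
    exact hcZ (Subgroup.commutator_mem_commutator (Subgroup.mem_top u) (Subgroup.mem_top t))
  · intro N _ hNt hNi t ht
    exact hmin N hNt hNi t ht
  · intro t ht
    have h1 : σ t * t⁻¹ = 1 := h5 t _ ht (by group)
    exact (hZ t).mpr (mul_inv_eq_one.mp h1)

end Cfsg.Agent.Lib.Helper27BG34G
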