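import Cfsg.Agent.Lib.Helper15HHGen
import Cfsg.Agent.Lib.Helper27BG34G
import Cfsg.Agent.Lib.Helper27BG34E2

/-!
The coprime Hall--Higman type theorem for `q`-groups with the Fermat-prime exception
(linear form), on top of helper27's BG34 project.
-/

set_option autoImplicit false

namespace Cfsg.Agent.Lib.Helper15HHMain

open scoped commutatorElement
open Cfsg.Agent.Lib.Helper15HHGen Cfsg.Agent.Lib.Helper27BG34G Cfsg.Agent.Lib.Helper27BG34E2

universe u

variable {F V : Type*} [Field F] [AddCommGroup V] [Module F V]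

theorem fermat_arith {q r j : ℕ} (hq : q.Prime) (hr : r.Prime) (h : (r - 1) ^ 2 = q ^ j)
    (h1 : (r - 1) ^ 2 ≠ 1) : q = 2 ∧ ∃ m, r = 2 ^ m + 1 ∧ j = 2 * m := by
  have hdvd : r - 1 ∣ q ^ j := by rw [← h]; exact Dvd.intro_left _ (by ring)
  obtain ⟨i, -, hi⟩ := (Nat.dvd_prime_pow hq).mp hdvd
  have hr2 : r ≠ 2 := by
    rintro rfl
    exact h1 (by norm_num)
  have hodd : Odd r := hr.odd_of_ne_two hr2
  have heven : 2 ∣ r - 1 := by
    obtain ⟨k, hk⟩ := hodd
    exact ⟨k, by omega⟩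
  have hq2 : q = 2 := by
    rw [hi] at heven
    have := Nat.Prime.dvd_of_dvd_pow Nat.prime_two heven
    exact ((Nat.prime_dvd_prime_iff_eq Nat.prime_two hq).mp this).symm
  subst hq2
  refine ⟨rfl, i, ?_, ?_⟩
  · have := hr.pos
    omega
  · rw [hi, ← pow_mul] at h
    have := Nat.pow_right_injective (le_refl 2) h
    omega

/-- the subgroup of elements whose commutators all lie in a central subgroup `M` -/
def commInto {Q : Type*} [Group Q] (M : Subgroup Q) (hM : ∀ z ∈ M, ∀ t, z * t = t * z) :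
    Subgroup Q where
  carrier := {t | ∀ u : Q, ⁅u, t⁆ ∈ M}
  one_mem' := by
    intro u
    rw [commutatorElement_one_right]
    exact M.one_mem
  mul_mem' := by
    intro a b ha hb u
    have h1 : ⁅u, a * b⁆ = ⁅u, a⁆ * (a * ⁅u, b⁆ * a⁻¹) := by
      simp only [commutatorElement_def]; group
    have h2 : a * ⁅u, b⁆ * a⁻¹ = ⁅u, b⁆ := by
      rw [← hM _ (hb u) a, mul_inv_cancel_right]
    rw [h1, h2]
    exact M.mul_mem (ha u) (hb u)
  inv_mem' := by
    intro a ha u
    have h1 : ⁅u, a⁻¹⁆ = a⁻¹ * ⁅u, a⁆⁻¹ * a := by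
      simp only [commutatorElement_def]; group
    have h2 : a⁻¹ * ⁅u, a⁆⁻¹ * a = ⁅u, a⁆⁻¹ := by
      rw [mul_assoc, hM _ (M.inv_mem (ha u)) a, inv_mul_cancel_left]
    rw [h1, h2]
    exact M.inv_mem (ha u)

theorem pow_intertwine {Q : Type*} [Group Q] (X : Module.End F V) (σ : Q ≃* Q)
    (ρ : Q →* Module.End F V) (hσ : ∀ t, X * ρ t = ρ (σ t) * X) (k : ℕ) (t : Q) :
    X ^ k * ρ t = ρ ((⇑σ)^[k] t) * X ^ k := by
  induction k generalizing t with
  | zero => simp
  | succ k ih =>
    rw [pow_succ, mul_assoc, hσ, ← mul_assoc, ih, Function.iterate_succ_apply, mul_assoc]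

theorem card_cast_ne_zero {Q : Type*} [Group Q] [Finite Q] {q : ℕ} (hQ : IsPGroup q Q)
    (hq : q.Prime) (hqF : (q : F) ≠ 0) : (Nat.card Q : F) ≠ 0 := by
  haveI := Fact.mk hq
  obtain ⟨k, hk⟩ := IsPGroup.iff_card.mp hQ
  rw [hk, Nat.cast_pow]
  exact pow_ne_zero _ hqF

theorem main_gen_aux [IsAlgClosed F] [FiniteDimensional F V]
    (X : Module.End F V) (r : ℕ) (hr : r.Prime) (hrF : (r : F) ≠ 0) (hX : X ^ r = 1)
    (hfix : ∀ w, X w = w → w = 0) (q : ℕ) (hq : q.Prime) (hqr : q ≠ r) (hqF : (q : F) ≠ 0)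
    (n : ℕ) :
    ∀ (Q : Type u) [Group Q] [Finite Q] (σ : Q ≃* Q)
    (ρ : Q →* Module.End F V), Nat.card Q = n → Function.Injective ρ → IsPGroup q Q →
    (q = 2 → (∃ m : ℕ, r = 2 ^ m + 1) → ∀ u t : Q, u * t = t * u) →
    (∀ t, X * ρ t = ρ (σ t) * X) → ∀ t, σ t = t := by
  induction n using Nat.strong_induction_on with
  | _ n ih =>
    intro Q _ _ σ ρ hn hρ hQ hexc hσ
    haveI := Fact.mk hq
    have hQF : (Nat.card Q : F) ≠ 0 := card_cast_ne_zero hQ hq hqF
    obtain ⟨kQ, hkQ⟩ := IsPGroup.iff_card.mp hQ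
    have hcop : (Nat.card Q).Coprime r := by
      rw [hkQ]
      exact Nat.Coprime.pow_left _ ((Nat.coprime_primes hq hr).mpr hqr)
    have hpow : ∀ t, (⇑σ)^[r] t = t := by
      intro t
      have h := pow_intertwine X σ ρ hσ r t
      rw [hX, one_mul, mul_one] at h
      exact (hρ h).symm
    have hmin : ∀ N : Subgroup Q, N ≠ ⊤ → (∀ t ∈ N, σ t ∈ N) → ∀ t ∈ N, σ t = t := by
      intro N hN hinv t ht
      let f : N →* N := (σ.toMonoidHom.comp N.subtype).codRestrict N (fun t => hinv t t.2)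
      have hfinj : Function.Injective f := by
        intro a b hab
        have h1 : σ (a : Q) = σ (b : Q) := congrArg Subtype.val hab
        exact Subtype.ext (σ.injective h1)
      have hfbij : Function.Bijective f := Finite.injective_iff_bijective.mp hfinj
      let σN : N ≃* N := MulEquiv.ofBijective f hfbij
      have hlt : Nat.card N < n := by
        rw [← hn]
        refine lt_of_le_of_ne (Subgroup.card_le_card_group N) ?_
        intro h
        exact hN (Subgroup.eq_top_of_card_eq N h)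
      have key := ih (Nat.card N) hlt N σN (ρ.comp N.subtype) rfl
        (hρ.comp Subtype.val_injective) (hQ.to_subgroup N)
        (fun h2 hm u t => Subtype.ext (hexc h2 hm u t)) (fun t => hσ t) ⟨t, ht⟩
      exact congrArg Subtype.val key
    by_contra hne
    push Not at hne
    obtain ⟨Z, hZfix, hZc, hcomm, hN, hfree⟩ := min_structure σ r hr hpow hcop hmin hne
    by_cases hab : ∀ u t : Q, u * t = t * u
    · obtain ⟨t, ht⟩ := hne
      exact ht (abelian_case σ ρ hρ hQF X r hr hX hσ hfix hab t)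
    · have hab' := hab
      push Not at hab
      obtain ⟨u₀, t₀, h0⟩ := hab
      have hc1 : ⁅u₀, t₀⁆ ≠ 1 := by
        intro h
        exact h0 (commutatorElement_eq_one_iff_mul_comm.mp h)
      have hρc : ρ ⁅u₀, t₀⁆ ≠ 1 := by
        intro h
        exact hc1 (hρ (h.trans (map_one ρ).symm))
      have hM : ∀ M : Subgroup Q, M ≤ Z → ⁅u₀, t₀⁆ ∉ M → ∀ t : Q, t ∉ Z → ∃ u : Q, ⁅u, t⁆ ∉ M := by
        intro M hMZ hcM t ht
        by_contra hall
        push Not at hall
        have hMc : ∀ z ∈ M, ∀ t, z * t = t * z := fun z hz => hZc z (hMZ hz)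
        have hle : commInto M hMc ≤ Z := by
          apply hN
          · constructor
            intro a ha x u
            have h1 : ⁅u, x * a * x⁻¹⁆ = x * ⁅x⁻¹ * u * x, a⁆ * x⁻¹ := by
              simp only [commutatorElement_def]; group
            rw [h1, ← hMc _ (ha _) x, mul_inv_cancel_right]
            exact ha _
          · intro h
            have : t₀ ∈ commInto M hMc := by rw [h]; exact Subgroup.mem_top _
            exact hcM (this u₀)
          · intro a ha u
            have h1 : ⁅u, σ a⁆ = σ ⁅σ.symm u, a⁆ := by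
              rw [map_commutatorElement, MulEquiv.apply_symm_apply]
            rw [h1, hZfix _ (hMZ (ha _))]
            exact ha _
        exact ht (hle hall)
      have hidx := nonabelian_core σ ρ hQF X r hr hrF hX hσ hfix Z hZfix hZc hcomm hfree
        ⁅u₀, t₀⁆ (hcomm u₀ t₀) hρc hM
      have hidx1 : Z.index ≠ 1 := by
        intro h
        rw [Subgroup.index_eq_one] at h
        exact h0 (hZc u₀ (by rw [h]; exact Subgroup.mem_top _) t₀)
      have hidx2 : Z.index = (r - 1) ^ 2 := hidx.resolve_left hidx1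
      obtain ⟨j, -, hj⟩ := (Nat.dvd_prime_pow hq).mp (hkQ ▸ Z.index_dvd_card)
      obtain ⟨h2, m, hm, -⟩ := fermat_arith hq hr (hidx2.symm.trans hj) (hidx2 ▸ hidx1)
      exact hab' (hexc h2 ⟨m, hm⟩)

/-- Coprime Hall--Higman, linear form: `Q` a `q`-group acting faithfully on `V`, `X` an operator of
prime order `r ≠ q` without fixed vectors inducing `σ` on `Q`.  Unless `q = 2`, `r` is a Fermat
prime and `Q` is nonabelian, `σ = 1`. -/
theorem main_gen [IsAlgClosed F] [FiniteDimensional F V]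
    (X : Module.End F V) (r : ℕ) (hr : r.Prime) (hrF : (r : F) ≠ 0) (hX : X ^ r = 1)
    (hfix : ∀ w, X w = w → w = 0) (q : ℕ) (hq : q.Prime) (hqr : q ≠ r) (hqF : (q : F) ≠ 0)
    (Q : Type u) [Group Q] [Finite Q] (σ : Q ≃* Q)
    (ρ : Q →* Module.End F V) (hρ : Function.Injective ρ) (hQ : IsPGroup q Q)
    (hexc : q = 2 → (∃ m : ℕ, r = 2 ^ m + 1) → ∀ u t : Q, u * t = t * u)
    (hσ : ∀ t, X * ρ t = ρ (σ t) * X) : ∀ t, σ t = t :=
  main_gen_aux X r hr hrF hX hfix q hq hqr hqF (Nat.card Q) Q σ ρ rfl hρ hQ hexc hσ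

end Cfsg.Agent.Lib.Helper15HHMain
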