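import Cfsg.Agent.Lib.Helper81KulGDefs
import Cfsg.Agent.Lib.Helper40ModRL
import Cfsg.Agent.Lib.Helper40ModAlgClosed
import Cfsg.Agent.Lib.Helper80StarA
import Cfsg.Agent.Lib.Helper91StarFIN
import Cfsg.Agent.Lib.Helper72StarSCAL
import Cfsg.Agent.Lib.Helper81StarCHAR
import Cfsg.Agent.Lib.Helper81RankOne
import Cfsg.Agent.Lib.Helper84Contrib
import Cfsg.Agent.Lib.Helper20DefCard
import Cfsg.Agent.Lib.Helper77Glaub

/-!
# Project 83 (KUL), piece C-DIM (helper15)
-/

set_option autoImplicit false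

namespace Cfsg.Agent.Lib.Helper15KulDIM

open Cfsg
open Cfsg.Agent.Lib.Helper81Local Cfsg.Agent.Lib.Helper20GA Cfsg.Agent.Lib.Helper80IdemDefs
open Cfsg.Agent.Lib.Helper80StarDefs Cfsg.Agent.Lib.Helper4ModRed
open Cfsg.Agent.Lib.Helper81KulDefs Cfsg.Agent.Lib.Helper81KulGDefs
open Cfsg.Agent.Lib.Helper91StarBASIC Cfsg.Agent.Lib.Helper80Brauer Cfsg.Agent.Lib.Helper80Trace
open scoped ComplexConjugate

variable {G : Type*} [Group G] [Fintype G]

/-- the basis of points of `ℂ G` -/
noncomputable def bG (G : Type*) [Group G] [Fintype G] : Module.Basis G ℂ (GA G) := Pi.basisFun ℂ G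

theorem bG_apply (g : G) : bG G g = pt g := by
  classical
  funext x
  show (Pi.basisFun ℂ G g) x = _
  rw [Pi.basisFun_apply, Pi.single_apply]
  unfold pt
  congr

theorem bG_repr (a : GA G) (g : G) : (bG G).repr a g = a g := by
  exact Pi.basisFun_repr (R := ℂ) (η := G) a g

/-- the trace of an endomorphism of `ℂ G` in the basis of points -/
theorem trace_eq (f : GA G →ₗ[ℂ] GA G) : LinearMap.trace ℂ (GA G) f = ∑ g, f (pt g) g := by
  classical
  rw [LinearMap.trace_eq_matrix_trace ℂ (bG G) f, Matrix.trace]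
  apply Finset.sum_congr rfl
  intro g _
  rw [Matrix.diag_apply, LinearMap.toMatrix_apply, bG_repr, bG_apply]

/-- `a ↦ e * a * e` -/
noncomputable def PP (e : GA G) : GA G →ₗ[ℂ] GA G :=
  (LinearMap.mulLeft ℂ e).comp (LinearMap.mulRight ℂ e)

theorem PP_apply (e a : GA G) : PP e a = e * (a * e) := rfl

theorem PP_idem {e : GA G} (he : e * e = e) : IsIdempotentElem (PP e) := by
  apply LinearMap.ext
  intro a
  show PP e (PP e a) = PP e a
  rw [PP_apply, PP_apply]
  calc e * (e * (a * e) * e) = (e * e) * a * (e * e) := by simp only [mul_assoc]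
    _ = e * (a * e) := by rw [he, mul_assoc]

/-- second orthogonality, summed against a function -/
theorem sum_ev_conj' (f : G → ℂ) (y : G) :
    ∑ χ : IrrCharacter G, (∑ x, f x * (χ : G → ℂ) x) * conj ((χ : G → ℂ) y)
      = ∑ h : G, f (h⁻¹ * y * h) := by
  classical
  calc ∑ χ : IrrCharacter G, (∑ x, f x * (χ : G → ℂ) x) * conj ((χ : G → ℂ) y)
      = ∑ χ : IrrCharacter G, ∑ x, f x * ((χ : G → ℂ) x * conj ((χ : G → ℂ) y)) := by
        apply Finset.sum_congr rfl
        intro χ _
        rw [Finset.sum_mul]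
        exact Finset.sum_congr rfl (fun x _ => by ring)
    _ = ∑ x, f x * ∑ χ : IrrCharacter G, ((χ : G → ℂ) x * conj ((χ : G → ℂ) y)) := by
        rw [Finset.sum_comm]
        exact Finset.sum_congr rfl (fun x _ => by rw [Finset.mul_sum])
    _ = ∑ x, f x * ∑ h : G, if h * x * h⁻¹ = y then (1 : ℂ) else 0 := by
        apply Finset.sum_congr rfl
        intro x _
        rw [← Helper77Glaub.col_orth_count]
    _ = ∑ h : G, ∑ x, f x * (if h * x * h⁻¹ = y then (1 : ℂ) else 0) := by
        rw [Finset.sum_comm]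
        exact Finset.sum_congr rfl (fun x _ => by rw [Finset.mul_sum])
    _ = ∑ h : G, f (h⁻¹ * y * h) := by
        apply Finset.sum_congr rfl
        intro h _
        rw [Finset.sum_eq_single (h⁻¹ * y * h)]
        · rw [if_pos (by group), mul_one]
        · intro x _ hx
          rw [if_neg, mul_zero]
          intro hxy
          apply hx
          rw [← hxy]; group
        · intro h'
          exact absurd (Finset.mem_univ _) h'

theorem trace_PP (e : GA G) :
    LinearMap.trace ℂ (GA G) (PP e) = ∑ χ : IrrCharacter G, (∑ x, e x * (χ : G → ℂ) x) ^ 2 := by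
  classical
  rw [trace_eq]
  have h1 : ∀ g : G, PP e (pt g) g = ∑ x, e x * e (g⁻¹ * x⁻¹ * g) := by
    intro g
    rw [PP_apply, mul_apply]
    apply Finset.sum_congr rfl
    intro x _
    rw [pt_mul_apply, mul_assoc]
  simp only [h1]
  rw [Finset.sum_comm]
  calc ∑ x, ∑ g, e x * e (g⁻¹ * x⁻¹ * g) = ∑ x, e x * ∑ g, e (g⁻¹ * x⁻¹ * g) :=
        Finset.sum_congr rfl (fun x _ => by rw [Finset.mul_sum])
    _ = ∑ x, e x * ∑ χ : IrrCharacter G, (∑ x', e x' * (χ : G → ℂ) x') * (χ : G → ℂ) x := by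
        apply Finset.sum_congr rfl
        intro x _
        rw [← sum_ev_conj' e x⁻¹]
        congr 1
        apply Finset.sum_congr rfl
        intro χ _
        rw [Helper4Char2.IsCharacter.apply_inv (Helper4Char.IsIrrCharacter.isCharacter χ.2),
          Complex.conj_conj]
    _ = ∑ χ : IrrCharacter G, ∑ x, (∑ x', e x' * (χ : G → ℂ) x') * (e x * (χ : G → ℂ) x) := by
        rw [Finset.sum_comm]
        apply Finset.sum_congr rfl
        intro x _
        rw [Finset.mul_sum]
        exact Finset.sum_congr rfl (fun χ _ => by ring)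
    _ = _ := by
        apply Finset.sum_congr rfl
        intro χ _
        rw [← Finset.mul_sum, sq]

variable {M : Ideal AlgInt} [M.IsPrime]

theorem sum_sq_le {ι : OA M G} (hι : ι * ι = ι) (m : ℕ) (b : Fin m → OA M G)
    (hb : ∀ a : OA M G, ∃ r : Fin m → Rt M, ι * a * ι = ∑ j, r j • b j)
    (nn : IrrCharacter G → ℕ) (hnn : ∀ χ : IrrCharacter G, evA (χ : G → ℂ) ι = nn χ) :
    ∑ χ : IrrCharacter G, nn χ ^ 2 ≤ m := by
  classical
  have he : (ι : GA G) * (ι : GA G) = (ι : GA G) := congrArg Subtype.val hι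
  haveI : Module.Finite ℂ (GA G) := Module.Finite.of_basis (bG G)
  have htr := (LinearMap.IsIdempotentElem.isProj_range _ (PP_idem he)).trace
  rw [trace_PP] at htr
  have h1 : ∑ χ : IrrCharacter G, (∑ x, (ι : GA G) x * (χ : G → ℂ) x) ^ 2
      = ((∑ χ : IrrCharacter G, nn χ ^ 2 : ℕ) : ℂ) := by
    push_cast
    apply Finset.sum_congr rfl
    intro χ _
    rw [← hnn χ]
    rfl
  rw [h1] at htr
  have h2 : ∑ χ : IrrCharacter G, nn χ ^ 2 = Module.finrank ℂ (LinearMap.range (PP (ι : GA G))) :=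
    Nat.cast_injective htr
  rw [h2]
  have h3 : LinearMap.range (PP (ι : GA G))
      ≤ Submodule.span ℂ (Set.range (fun j => ((b j : OA M G) : GA G))) := by
    rw [LinearMap.range_eq_map, ← (bG G).span_eq, Submodule.map_span, Submodule.span_le]
    rintro _ ⟨_, ⟨g, rfl⟩, rfl⟩
    rw [bG_apply]
    obtain ⟨r, hr⟩ := hb (ptA M g)
    have h4 : PP (ι : GA G) (pt g) = ((ι * ptA M g * ι : OA M G) : GA G) := by
      rw [PP_apply, ← mul_assoc]
      have : (pt g : GA G) = ((ptA M g : OA M G) : GA G) := (fn_ptA g).symm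
      rw [this]
      rfl
    rw [h4, hr]
    have h5 : ((∑ j, r j • b j : OA M G) : GA G) = ∑ j, ((r j : ℂ)) • ((b j : OA M G) : GA G) := by
      have := fn_sum (M := M) Finset.univ (fun j => r j • b j)
      exact this
    rw [h5]
    exact Submodule.sum_mem _ (fun j _ => Submodule.smul_mem _ _ (Submodule.subset_span ⟨j, rfl⟩))
  calc Module.finrank ℂ (LinearMap.range (PP (ι : GA G)))
      ≤ Module.finrank ℂ (Submodule.span ℂ (Set.range (fun j => ((b j : OA M G) : GA G)))) :=
        Submodule.finrank_mono h3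
    _ ≤ Fintype.card (Fin m) := finrank_range_le_card _
    _ = m := Fintype.card_fin m

end Cfsg.Agent.Lib.Helper15KulDIM
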