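import Cfsg.Agent.Lib.Helper81KulGDefs
import Cfsg.Agent.Lib.Helper40ModRL
import Cfsg.Agent.Lib.Helper40ModAlgClosed
import Cfsg.Agent.Lib.Helper80StarA
import Cfsg.Agent.Lib.Helper91StarFIN
import Cfsg.Agent.Lib.Helper72StarSCAL
import Cfsg.Agent.Lib.Helper81StarCHAR
import Cfsg.Agent.Lib.Helper81RankOne
import Cfsg.Agent.Lib.Helper84Contrib
import Cfsg.Agent.Lib.Helper20DefCard
import Cfsg.Agent.Lib.Helper83Klein5
import Cfsg.Agent.Lib.Helper83Klein7
import Cfsg.Agent.Lib.Helper80IQ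
import Cfsg.Agent.Lib.Helper80Nil
import Cfsg.Agent.Lib.Helper80Corr
import Cfsg.Agent.S4669

/-!
# Project 83 (KUL), piece D-NIL (helper15)
-/

set_option autoImplicit false

namespace Cfsg.Agent.Lib.Helper15KulNIL

open Cfsg
open Cfsg.Agent.Lib.Helper20Local
open Cfsg.Agent.Lib.Helper20Center Cfsg.Agent.Lib.Helper20Block
open Cfsg.Agent.Lib.Helper80Brauer Cfsg.Agent.Lib.Helper80Transport
open Cfsg.Agent.Lib.Helper80Pairs Cfsg.Agent.Lib.Helper87Sylow
open Cfsg.Agent.Lib.Helper80Stab Cfsg.Agent.Lib.Helper80Trace Cfsg.Agent.Lib.Helper80Incl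
open Cfsg.Agent.Lib.Helper80Conj Cfsg.Agent.Lib.Helper80Full Cfsg.Agent.Lib.Helper80Full2
open Cfsg.Agent.Lib.Helper80Up Cfsg.Agent.Lib.Helper80BFus Cfsg.Agent.Lib.Helper80Abel
open Cfsg.Agent.Lib.Helper80Sat
open Cfsg.Agent.Lib.Helper20Major Cfsg.Agent.Lib.Helper83Klein Cfsg.Agent.Lib.Helper83Klein2
  Cfsg.Agent.Lib.Helper83Klein3 Cfsg.Agent.Lib.Helper83Klein4
open Cfsg.Agent.Lib.Helper81Count Cfsg.Agent.Lib.Helper81Subsec
open scoped ComplexConjugate

variable {M : Ideal Cfsg.AlgInt} {p : ℕ} [Fact p.Prime]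
variable {G : Type*} [Group G] [Fintype G]

theorem exists_pair_of_mem_phi' (hM : IsPModular p M) {B : Set (IrrCharacter G)} {x : G}
    (hx : ∃ k : ℕ, orderOf x = p ^ k) {φ : G → ℂ} (hφ : φ ∈ Phi M B x) :
    ∃ a : BrauerPairIdx G, a.1 = Subgroup.zpowers x ∧ IsBrauerPairOf p M B a.1 a.2 ∧
      pairFun a = φ := by
  obtain ⟨b, hb, rfl⟩ := hφ
  obtain ⟨f, hf, hfe⟩ := exists_pair_of_subsection hM hx hb
  exact ⟨⟨_, f⟩, rfl, hf, hfe⟩

/-- every nontrivial subsection is conjugate to the one at `u₀` when the inertial group is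
transitive. -/
theorem exists_conj_of_trans' (hM : IsPModular p M) {B : Set (IrrCharacter G)}
    {P : Subgroup G} {c : Set (IrrCharacter (Subgroup.centralizer (P : Set G)))}
    (hmax : IsMaximalBrauerPair p M B P c)
    (htr : ∀ u ∈ P, ∀ u' ∈ P, u ≠ 1 → u' ≠ 1 → ∃ t ∈ pstab P c, t * u * t⁻¹ = u')
    {u₀ : G} (hu₀ : u₀ ∈ P) (hu₀1 : u₀ ≠ 1) {a₀ : BrauerPairIdx G}
    (ha₀ : PLE p M a₀ ⟨P, c⟩) (ha₀1 : a₀.1 = Subgroup.zpowers u₀)
    {x : G} (hx : ∃ k : ℕ, orderOf x = p ^ k) (hx1 : x ≠ 1) {φ : G → ℂ} (hφ : φ ∈ Phi M B x) :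
    ∃ g : G, g * x * g⁻¹ = u₀ ∧ cjf g φ = pairFun a₀ := by
  classical
  have hPr := IsPModular.isPrime hM
  obtain ⟨a, ha1, haB, rfl⟩ := exists_pair_of_mem_phi' hM hx hφ
  obtain ⟨g, hg⟩ := exists_conj_le_maximal hM hmax haB
  have h1 : g * x * g⁻¹ ∈ P := by
    have h2 : (cjPair g a).1 ≤ P := hg.le
    rw [cjPair_fst, ha1, cj_zpowers] at h2
    exact h2 (Subgroup.mem_zpowers _)
  have h3 : g * x * g⁻¹ ≠ 1 := by
    intro h
    apply hx1
    have : x = g⁻¹ * (g * x * g⁻¹) * g := by group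
    rw [this, h]; group
  obtain ⟨t, ht, htu⟩ := htr _ h1 _ hu₀ h3 hu₀1
  have h4 : PLE p M (cjPair (t * g) a) ⟨P, c⟩ := by
    have := ple_cj hPr hg t
    rw [mem_pstab_iff.1 ht, ← cjPair_mul] at this
    exact this
  have h5 : t * g * x * (t * g)⁻¹ = u₀ := by
    rw [← htu]; group
  have h6 : cjPair (t * g) a = a₀ := by
    apply eq_of_ple_of_fst_eq hM hmax.1.1 h4 ha₀
    rw [cjPair_fst, ha1, cj_zpowers, h5, ha₀1]
  refine ⟨t * g, h5, ?_⟩
  rw [← pairFun_cjPair, h6]

/-- local blocks of a block with defect groups of order `p`. -/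
theorem local_rank_one' (hM : IsPModular p M) {B : Set (IrrCharacter G)} (hB : IsPBlock M B)
    {P : Subgroup G} (hP : IsDefectGroup p M B P) (hcard : Nat.card P = p) {x : G}
    (hx : ∃ k : ℕ, orderOf x = p ^ k) (hx1 : x ≠ 1)
    {b : Set (IrrCharacter (Subgroup.centralizer ({x} : Set G)))}
    (hb : IsInducedBlock M (Subgroup.centralizer ({x} : Set G)) b B) :
    blockRank p b = 1 := by
  classical
  have hp : p.Prime := Fact.out
  have hMp := hM.2.1.isPrime
  let _ : Fintype (Subgroup.centralizer ({x} : Set G)) := Fintype.ofFinite _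
  obtain ⟨D, hD⟩ := Cfsg.Agent.Lib.Helper20Induced.exists_defectGroup hM hb.1
  obtain ⟨E, hE, hle⟩ := Cfsg.Agent.Lib.Helper20Induced.defectGroup_le_of_induced
    (Subgroup.centralizer ({x} : Set G)) hM hb hD
  obtain ⟨t, rfl⟩ := Cfsg.Agent.Lib.Helper20Conj.defectGroup_conj hM hB hP hE
  have hxH : x ∈ (Subgroup.centralizer ({x} : Set G)) :=
    Subgroup.mem_centralizer_singleton_iff.2 rfl
  set x' : (Subgroup.centralizer ({x} : Set G)) := ⟨x, hxH⟩ with hx'
  have hcen : ∀ g : (Subgroup.centralizer ({x} : Set G)), g * x' = x' * g := by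
    intro g
    exact Subtype.ext (Subgroup.mem_centralizer_singleton_iff.1 g.2)
  have hx'1 : x' ≠ 1 := by
    intro h
    exact hx1 (congrArg Subtype.val h)
  have hnorm : (Subgroup.zpowers x').Normal := by
    constructor
    intro n hn g
    obtain ⟨k, rfl⟩ := Subgroup.mem_zpowers_iff.1 hn
    have h1 : Commute g x' := hcen g
    have h2 : g * x' ^ k * g⁻¹ = x' ^ k := by
      rw [(h1.zpow_right k).eq]; group
    rw [h2]
    exact Subgroup.zpow_mem_zpowers _ _
  obtain ⟨k, hk⟩ := hx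
  have hox : orderOf x' = p ^ k := by rw [← hk]; exact Subgroup.orderOf_mk x hxH
  have hxD : x' ∈ D :=
    Cfsg.Agent.Lib.Helper20Brauer.le_defectGroup_of_normal hM (Subgroup.zpowers x')
      (isPGroup_zpowers hox) hb.1 hD (Subgroup.mem_zpowers x')
  have hcle : Nat.card D ≤ p := by
    have := Subgroup.card_le_of_le hle
    rwa [Subgroup.card_map_of_injective (Subgroup.centralizer ({x} : Set G)).subtype_injective,
      card_cj, hcard] at this
  have hzle : Subgroup.zpowers x' ≤ D := by rw [Subgroup.zpowers_le]; exact hxD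
  have hk0 : k ≠ 0 := by
    rintro rfl
    rw [pow_zero, orderOf_eq_one_iff] at hox
    exact hx'1 hox
  have hpz : p ≤ Nat.card (Subgroup.zpowers x') := by
    rw [Nat.card_zpowers, hox]
    calc p = p ^ 1 := (pow_one p).symm
      _ ≤ p ^ k := Nat.pow_le_pow_right hp.pos (Nat.one_le_iff_ne_zero.2 hk0)
  have hDz : Subgroup.zpowers x' = D := Subgroup.eq_of_le_of_card_ge hzle (hcle.trans hpz)
  apply Cfsg.Agent.S4669.result p M hM b hb.1 D hD
  rw [← hDz, Subgroup.zpowers_le, Subgroup.mem_center_iff]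
  exact hcen

theorem rank_overSet_eq_ncard' (hM : IsPModular p M) {B : Set (IrrCharacter G)} {x : G}
    (hloc : ∀ b : Set (IrrCharacter (Subgroup.centralizer ({x} : Set G))),
      IsInducedBlock M (Subgroup.centralizer ({x} : Set G)) b B → blockRank p b = 1) :
    blockRank p (overSet M x B) = (Phi M B x).ncard := by
  classical
  have hMp := hM.2.1.isPrime
  let _ : Fintype (Subgroup.centralizer ({x} : Set G)) := Fintype.ofFinite _
  rw [blockRank_union hM (isBlockUnion_overSet x B)]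
  have hset : {b : Set (IrrCharacter (Subgroup.centralizer ({x} : Set G))) |
      IsPBlock M b ∧ b ⊆ overSet M x B}
      = {b | IsInducedBlock M (Subgroup.centralizer ({x} : Set G)) b B} := by
    ext b
    constructor
    · rintro ⟨hb, hsub⟩
      obtain ⟨ψ, hψ⟩ := Cfsg.Agent.Lib.Helper81Block.isPBlock_nonempty hb
      have := hsub hψ
      show IsInducedBlock M _ b B
      rw [Cfsg.Agent.Lib.Helper81Block.isPBlock_eq_blockOf hb hψ]
      exact this
    · intro hind
      refine ⟨hind.1, ?_⟩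
      intro ψ hψ
      show IsInducedBlock M _ (blockOf M _) B
      rw [← Cfsg.Agent.Lib.Helper81Block.isPBlock_eq_blockOf hind.1 hψ]
      exact hind
  rw [hset]
  have h1 : ∑ᶠ b ∈ {b : Set (IrrCharacter (Subgroup.centralizer ({x} : Set G))) |
      IsInducedBlock M (Subgroup.centralizer ({x} : Set G)) b B}, blockRank p b
      = ∑ᶠ b ∈ {b : Set (IrrCharacter (Subgroup.centralizer ({x} : Set G))) |
      IsInducedBlock M (Subgroup.centralizer ({x} : Set G)) b B}, 1 :=
    finsum_mem_congr rfl (fun b hb => hloc b hb)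
  rw [h1, finsum_one, phi_eq_image, Set.ncard_image_of_injective]
  intro b b' h
  exact blockCoeff_injective (ext_injective h)

open scoped Classical in
/-- the basic count. -/
theorem count_eq (hM : IsPModular p M) {B : Set (IrrCharacter G)} (hB : IsPBlock M B)
    (hloc : ∀ x : G, (∃ k : ℕ, orderOf x = p ^ k) → x ≠ 1 →
      ∀ b : Set (IrrCharacter (Subgroup.centralizer ({x} : Set G))),
      IsInducedBlock M (Subgroup.centralizer ({x} : Set G)) b B → blockRank p b = 1)
    (X : Finset G) (hX : ∀ x ∈ X, ∃ k : ℕ, orderOf x = p ^ k)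
    (hXrep : ∀ g : G, (∃ k : ℕ, orderOf g = p ^ k) → ∃! x, x ∈ X ∧ IsConj g x) :
    Nat.card B = blockRank p B + ∑ x ∈ X.erase 1, (Phi M B x).ncard := by
  classical
  have hk := card_block_eq hM hB X hX hXrep
  have h1X : (1 : G) ∈ X := by
    obtain ⟨x, ⟨hx, hcx⟩, -⟩ := hXrep 1 ⟨0, by simp⟩
    obtain ⟨t, ht⟩ := isConj_iff.1 hcx
    have : x = 1 := by rw [← ht]; group
    rwa [this] at hx
  rw [← Finset.add_sum_erase X _ h1X, rank_overSet_central hM hB 1 ⟨0, by simp⟩ (by simp)] at hk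
  rw [hk]
  congr 1
  apply Finset.sum_congr rfl
  intro x hx
  exact rank_overSet_eq_ncard' hM (hloc x (hX x (Finset.mem_of_mem_erase hx))
    (Finset.ne_of_mem_erase hx))

open scoped Classical in
theorem sum_le_one (hM : IsPModular p M) {B : Set (IrrCharacter G)}
    {P : Subgroup G} {c : Set (IrrCharacter (Subgroup.centralizer (P : Set G)))}
    (hmax : IsMaximalBrauerPair p M B P c)
    (htr : ∀ u ∈ P, ∀ u' ∈ P, u ≠ 1 → u' ≠ 1 → ∃ t ∈ pstab P c, t * u * t⁻¹ = u')
    {u₀ : G} (hu₀ : u₀ ∈ P) (hu₀1 : u₀ ≠ 1)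
    (X : Finset G) (hX : ∀ x ∈ X, ∃ k : ℕ, orderOf x = p ^ k)
    (hXrep : ∀ g : G, (∃ k : ℕ, orderOf g = p ^ k) → ∃! x, x ∈ X ∧ IsConj g x) :
    ∑ x ∈ X.erase 1, (Phi M B x).ncard ≤ 1 := by
  obtain ⟨f₀, hf₀⟩ := exists_le' hM hmax.1.1 (Q := Subgroup.zpowers u₀)
    (by rw [Subgroup.zpowers_le]; exact hu₀)
  have key : ∀ x ∈ X.erase 1, ∀ x' ∈ X.erase 1, ∀ φ ∈ Phi M B x, ∀ φ' ∈ Phi M B x',
      x = x' ∧ φ = φ' := by
    intro x hx x' hx' φ hφ φ' hφ'
    have hxk := hX x (Finset.mem_of_mem_erase hx)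
    have hxk' := hX x' (Finset.mem_of_mem_erase hx')
    obtain ⟨g, hg1, hg2⟩ := exists_conj_of_trans' hM hmax htr hu₀ hu₀1 hf₀ rfl hxk
      (Finset.ne_of_mem_erase hx) hφ
    obtain ⟨g', hg1', hg2'⟩ := exists_conj_of_trans' hM hmax htr hu₀ hu₀1 hf₀ rfl hxk'
      (Finset.ne_of_mem_erase hx') hφ'
    have hconj : g'⁻¹ * g * x * (g'⁻¹ * g)⁻¹ = x' := by
      have : x' = g'⁻¹ * (g' * x' * g'⁻¹) * g' := by group
      rw [this, hg1', ← hg1]; group
    have hxx : x = x' := by
      obtain ⟨y, -, hy⟩ := hXrep x hxk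
      rw [hy x ⟨Finset.mem_of_mem_erase hx, IsConj.refl x⟩,
        hy x' ⟨Finset.mem_of_mem_erase hx', isConj_iff.2 ⟨_, hconj⟩⟩]
    subst hxx
    refine ⟨rfl, ?_⟩
    have h5 : cjf (g'⁻¹ * g) φ = φ := by
      apply cjf_eq_of_mem_phi hφ
      calc g'⁻¹ * g * x = (g'⁻¹ * g * x * (g'⁻¹ * g)⁻¹) * (g'⁻¹ * g) := by group
        _ = x * (g'⁻¹ * g) := by rw [hconj]
    rw [← h5, cjf_mul, hg2, ← hg2', cjf_inv_cjf]
  by_cases hemp : ∀ x ∈ X.erase 1, Phi M B x = ∅
  · rw [Finset.sum_eq_zero (fun x hx => by rw [hemp x hx, Set.ncard_empty])]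
    exact Nat.zero_le _
  · push Not at hemp
    obtain ⟨x₀, hx₀, φ₀, hφ₀⟩ := hemp
    rw [Finset.sum_eq_single x₀]
    · have : Phi M B x₀ = {φ₀} := by
        ext φ
        constructor
        · intro hφ
          exact (key x₀ hx₀ x₀ hx₀ φ hφ φ₀ hφ₀).2
        · rintro rfl
          exact hφ₀
      rw [this, Set.ncard_singleton]
    · intro x hx hne
      have : Phi M B x = ∅ := by
        by_contra hne'
        obtain ⟨φ, hφ⟩ := Set.nonempty_iff_ne_empty.2 hne'
        exact hne (key x hx x₀ hx₀ φ hφ φ₀ hφ₀).1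
      rw [this, Set.ncard_empty]
    · intro h; exact absurd hx₀ h

/-! ### group theory -/

section grp

variable {H : Type*} [Group H]

theorem small_cases {p d : ℕ} (hp : p.Prime) (h4 : p ^ d ≤ 4) :
    d = 0 ∨ (d = 1 ∧ (p = 2 ∨ p = 3)) ∨ (d = 2 ∧ p = 2) := by
  have hp2 := hp.two_le
  rcases Nat.lt_or_ge d 3 with h | h
  · interval_cases d
    · left; rfl
    · right; left
      refine ⟨rfl, ?_⟩
      rw [pow_one] at h4
      interval_cases p
      · left; rfl
      · right; rfl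
      · exact absurd hp (by norm_num)
    · right; right
      refine ⟨rfl, ?_⟩
      nlinarith
  · exfalso
    have h1 : 2 ^ 3 ≤ p ^ d :=
      (Nat.pow_le_pow_right (by norm_num) h).trans (Nat.pow_le_pow_left hp2 d)
    omega

theorem mem_centralizer_of_gen {D : Subgroup H} {u t : H} (hD : Subgroup.zpowers u = D)
    (h : t * u * t⁻¹ = u) : t ∈ Subgroup.centralizer (D : Set H) := by
  rw [Subgroup.mem_centralizer_iff]
  intro w hw
  rw [← hD] at hw
  obtain ⟨k, rfl⟩ := Subgroup.mem_zpowers_iff.1 hw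
  have hc : Commute t u := by
    show t * u = u * t
    calc t * u = (t * u * t⁻¹) * t := by group
      _ = u * t := by rw [h]
  exact (hc.zpow_right k).eq.symm

theorem zpowers_eq_of_card [Finite H] {D : Subgroup H} {u : H} (hu : u ∈ D)
    (h : Nat.card D ≤ orderOf u) : Subgroup.zpowers u = D :=
  Subgroup.eq_of_le_of_card_ge (by rw [Subgroup.zpowers_le]; exact hu)
    (by rw [Nat.card_zpowers]; exact h)

theorem conj_ne_one {t u : H} (hu : u ≠ 1) : t * u * t⁻¹ ≠ 1 := by
  intro h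
  apply hu
  have : u = t⁻¹ * (t * u * t⁻¹) * t := by group
  rw [this, h]; group

theorem conj_sq {t u : H} {j : ℕ} (h : t * u * t⁻¹ = u ^ j) :
    t ^ 2 * u * (t ^ 2)⁻¹ = u ^ (j * j) := by
  calc t ^ 2 * u * (t ^ 2)⁻¹ = t * (t * u * t⁻¹) * t⁻¹ := by
        rw [pow_two, mul_inv_rev]; simp only [mul_assoc]
    _ = t * u ^ j * t⁻¹ := by rw [h]
    _ = (t * u * t⁻¹) ^ j := (conj_pow).symm
    _ = u ^ (j * j) := by rw [h, ← pow_mul]

theorem exists_gen_of_prime [Finite H] {q : ℕ} (hq : q.Prime) {D : Subgroup H}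
    (hcard : Nat.card D = q) :
    ∃ u ∈ D, u ≠ 1 ∧ orderOf u = q ∧ Subgroup.zpowers u = D := by
  rcases Subgroup.bot_or_exists_ne_one D with h | ⟨u, hu, hu1⟩
  · rw [h, Subgroup.card_bot] at hcard
    exact absurd hcard.symm hq.one_lt.ne'
  · have hdvd : orderOf u ∣ q := hcard ▸ Subgroup.orderOf_dvd_natCard D hu
    have ho : orderOf u = q := by
      rcases (Nat.dvd_prime hq).1 hdvd with h | h
      · exact absurd (orderOf_eq_one_iff.1 h) hu1
      · exact h
    exact ⟨u, hu, hu1, ho, zpowers_eq_of_card hu (by rw [hcard, ho])⟩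

theorem exists_pow_of_normalizer [Finite H] {D T : Subgroup H} {u t : H}
    (hD : Subgroup.zpowers u = D) (hTN : T ≤ Subgroup.normalizer (D : Set H)) (ht : t ∈ T) :
    ∃ j < orderOf u, t * u * t⁻¹ = u ^ j := by
  classical
  have hu : u ∈ D := hD ▸ Subgroup.mem_zpowers u
  have h1 : t * u * t⁻¹ ∈ D := (Subgroup.mem_normalizer_iff.1 (hTN ht) u).1 hu
  rw [← hD, mem_zpowers_iff_mem_range_orderOf] at h1
  obtain ⟨j, hj, hj2⟩ := Finset.mem_image.1 h1
  exact ⟨j, Finset.mem_range.1 hj, hj2.symm⟩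

theorem le_centralizer_two [Finite H] {D T : Subgroup H} (hcard : Nat.card D = 2)
    (hTN : T ≤ Subgroup.normalizer (D : Set H)) : T ≤ Subgroup.centralizer (D : Set H) := by
  obtain ⟨u, hu, hu1, ho, hD⟩ := exists_gen_of_prime Nat.prime_two hcard
  intro t ht
  obtain ⟨j, hj, hj2⟩ := exists_pow_of_normalizer hD hTN ht
  rw [ho] at hj
  apply mem_centralizer_of_gen hD
  interval_cases j
  · rw [pow_zero] at hj2
    exact absurd hj2 (conj_ne_one hu1)
  · rw [hj2, pow_one]

theorem dichotomy_three [Finite H] {D T : Subgroup H} (hcard : Nat.card D = 3)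
    (hTN : T ≤ Subgroup.normalizer (D : Set H)) :
    T ≤ Subgroup.centralizer (D : Set H) ∨
      (∀ u ∈ D, ∀ u' ∈ D, u ≠ 1 → u' ≠ 1 → ∃ t ∈ T, t * u * t⁻¹ = u') := by
  classical
  obtain ⟨u, hu, hu1, ho, hD⟩ := exists_gen_of_prime Nat.prime_three hcard
  by_cases hall : T ≤ Subgroup.centralizer (D : Set H)
  · exact Or.inl hall
  right
  obtain ⟨t, ht, htC⟩ := SetLike.not_le_iff_exists.1 hall
  obtain ⟨j, hj, hj2⟩ := exists_pow_of_normalizer hD hTN ht
  rw [ho] at hj
  have hu3 : u ^ 3 = 1 := ho ▸ pow_orderOf_eq_one u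
  have hj' : t * u * t⁻¹ = u ^ 2 := by
    interval_cases j
    · rw [pow_zero] at hj2
      exact absurd hj2 (conj_ne_one hu1)
    · rw [pow_one] at hj2
      exact absurd (mem_centralizer_of_gen hD hj2) htC
    · exact hj2
  have hj'' : t * u ^ 2 * t⁻¹ = u := by
    rw [← conj_pow, hj', ← pow_mul]
    calc u ^ (2 * 2) = u ^ 3 * u := by rw [← pow_succ]
      _ = u := by rw [hu3, one_mul]
  have hel : ∀ v ∈ D, v ≠ 1 → v = u ∨ v = u ^ 2 := by
    intro v hv hv1
    rw [← hD, mem_zpowers_iff_mem_range_orderOf] at hv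
    obtain ⟨a, ha, rfl⟩ := Finset.mem_image.1 hv
    rw [ho] at ha
    have ha' := Finset.mem_range.1 ha
    interval_cases a
    · exact absurd (pow_zero u) hv1
    · left; exact pow_one u
    · right; rfl
  intro v hv v' hv' hv1 hv1'
  rcases hel v hv hv1 with rfl | rfl <;> rcases hel v' hv' hv1' with rfl | rfl
  · exact ⟨1, T.one_mem, by simp⟩
  · exact ⟨t, ht, hj'⟩
  · exact ⟨t, ht, hj''⟩
  · exact ⟨1, T.one_mem, by simp⟩

theorem sq_mem_centralizer_four [Finite H] {D T : Subgroup H} (hcard : Nat.card D = 4)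
    (hne : ∃ u ∈ D, u * u ≠ 1) (hTN : T ≤ Subgroup.normalizer (D : Set H)) :
    ∀ t ∈ T, t ^ 2 ∈ Subgroup.centralizer (D : Set H) := by
  obtain ⟨u, hu, huu⟩ := hne
  have hdvd : orderOf u ∣ 2 ^ 2 := by
    have := Subgroup.orderOf_dvd_natCard D hu
    rw [hcard] at this
    exact this
  have ho : orderOf u = 4 := by
    obtain ⟨k, hk, hk2⟩ := (Nat.dvd_prime_pow Nat.prime_two).1 hdvd
    interval_cases k
    · rw [pow_zero, orderOf_eq_one_iff] at hk2
      exact absurd (by rw [hk2, one_mul]) huu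
    · exfalso
      apply huu
      rw [← pow_two]
      have := pow_orderOf_eq_one u
      rwa [hk2, pow_one] at this
    · exact hk2
  have hD : Subgroup.zpowers u = D := zpowers_eq_of_card hu (by rw [hcard, ho])
  have hu4 : u ^ 4 = 1 := ho ▸ pow_orderOf_eq_one u
  have hu1 : u ≠ 1 := by
    rintro rfl
    exact huu (one_mul 1)
  intro t ht
  obtain ⟨j, hj, hj2⟩ := exists_pow_of_normalizer hD hTN ht
  rw [ho] at hj
  apply mem_centralizer_of_gen hD
  rw [conj_sq hj2]
  interval_cases j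
  · rw [pow_zero] at hj2
    exact absurd hj2 (conj_ne_one hu1)
  · simp
  · exfalso
    have h1 : t * (u * u) * t⁻¹ = 1 := by
      rw [← pow_two, ← conj_pow, hj2, ← pow_mul]
      exact hu4
    exact conj_ne_one huu h1
  · calc u ^ (3 * 3) = (u ^ 4) ^ 2 * u := by rw [← pow_mul, ← pow_succ]
      _ = u := by rw [hu4, one_pow, one_mul]

end grp

theorem nil_of_small [M.IsPrime] (hM : IsPModular p M) {B : Set (IrrCharacter G)}
    (hB : IsPBlock M B)
    {D : Subgroup G} (hD : IsDefectGroup p M B D) (hl : blockRank p B = 1)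
    (hk : Nat.card D = Nat.card B) (h4 : Nat.card D ≤ 4) : IsNilpotentBlock p M B := by
  classical
  have hp : p.Prime := Fact.out
  obtain ⟨e, hmax⟩ := Cfsg.Agent.Lib.Helper80Corr.exists_maximal_of_defectGroup hM hB hD
  have hcard := Cfsg.Agent.Lib.Helper20DefCard.card_defectGroup hM hB hD
  obtain ⟨d, hd⟩ : ∃ d, blockDefect p B = d := ⟨_, rfl⟩
  rw [hd] at hcard
  have hcases := small_cases hp (hcard ▸ h4)
  have hcomm : ∀ a b : D, a * b = b * a := by
    rcases hcases with h | ⟨h, -⟩ | ⟨h, -⟩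
    · rw [h, pow_zero] at hcard
      haveI : Subsingleton D := (Nat.card_eq_one_iff_unique.1 hcard).1
      intro a b
      exact Subsingleton.elim _ _
    · rw [h, pow_one] at hcard
      haveI := isCyclic_of_prime_card hcard
      intro a b
      letI := IsCyclic.commGroup (α := D)
      exact mul_comm a b
    · rw [h] at hcard
      have := IsPGroup.isMulCommutative_of_card_eq_prime_sq hcard
      exact fun a b => this.is_comm.comm a b
  have hab : ∀ x ∈ D, ∀ y ∈ D, x * y = y * x :=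
    fun x hx y hy => congrArg Subtype.val (hcomm ⟨x, hx⟩ ⟨y, hy⟩)
  have hIQ := Cfsg.Agent.Lib.Helper80IQ.not_dvd_index_of_maximal hM hmax
  rw [Cfsg.Agent.Lib.Helper80Nil.nilpotent_iff_of_abelian hM hmax hIQ hab]
  have hDC : D ≤ Subgroup.centralizer (D : Set G) := by
    intro x hx
    rw [Subgroup.mem_centralizer_iff]
    intro y hy
    exact hab y hy x hx
  rw [sup_eq_right.2 hDC] at hIQ
  have hCT : Subgroup.centralizer (D : Set G) ≤ pstab D e := centralizer_le_pstab D e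
  have hTN : pstab D e ≤ Subgroup.normalizer (D : Set G) := pstab_le D e
  rcases hcases with h | ⟨h, h2 | h3⟩ | ⟨h, h2⟩
  · rw [h, pow_zero] at hcard
    haveI : Subsingleton D := (Nat.card_eq_one_iff_unique.1 hcard).1
    intro t _
    rw [Subgroup.mem_centralizer_iff]
    intro w hw
    have h1 : (⟨w, hw⟩ : D) = 1 := Subsingleton.elim _ _
    have hw1 : w = 1 := congrArg Subtype.val h1
    rw [hw1]; simp
  · rw [h, pow_one, h2] at hcard
    exact le_centralizer_two hcard hTN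
  · rw [h, pow_one] at hcard
    rcases dichotomy_three (hcard.trans h3) hTN with h5 | htr
    · exact h5
    · exfalso
      obtain ⟨X, hX, hXrep⟩ := exists_reps (G := G) p
      have hc := count_eq hM hB
        (fun x hx hx1 b hb => local_rank_one' hM hB hD hcard hx hx1 hb) X hX hXrep
      obtain ⟨u, hu, hu1, -, -⟩ := exists_gen_of_prime hp hcard
      have hs := sum_le_one hM hmax htr hu hu1 X hX hXrep
      omega
  · subst h2
    rw [h] at hcard
    have hcard4 : Nat.card D = 4 := by rw [hcard]; norm_num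
    by_cases hexp : ∀ d ∈ D, d * d = 1
    · rcases Cfsg.Agent.Lib.Helper83Klein7.inertial_dichotomy hcard4 hexp hCT hTN hIQ with
        ⟨-, h5⟩ | ⟨-, htr⟩
      · exact h5
      · exfalso
        have := Cfsg.Agent.Lib.Helper83Klein5.rank_three_of_trans hM hB hD hcard4 hexp hmax htr
        omega
    · push Not at hexp
      haveI hnorm : ((Subgroup.centralizer (D : Set G)).subgroupOf (pstab D e)).Normal := by
        rw [Subgroup.normal_subgroupOf_iff_le_normalizer hCT]
        intro t ht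
        rw [Subgroup.mem_normalizer_iff]
        exact mem_normalizer_centralizer (hTN ht)
      intro t ht
      have h5 := sq_mem_centralizer_four hcard4 hexp hTN t ht
      exact Cfsg.Agent.Lib.Helper80Nil.mem_of_pow_mem_of_not_dvd_index (p := 2)
        ((Subgroup.centralizer (D : Set G)).subgroupOf (pstab D e)) hIQ (r := ⟨t, ht⟩) (k := 1)
        (by rw [pow_one]; exact h5)

end Cfsg.Agent.Lib.Helper15KulNIL
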