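import Cfsg.Agent.Lib.Helper81KulGDefs
import Cfsg.Agent.Lib.Helper40ModRL
import Cfsg.Agent.Lib.Helper40ModAlgClosed
import Cfsg.Agent.Lib.Helper80StarA
import Cfsg.Agent.Lib.Helper91StarFIN
import Cfsg.Agent.Lib.Helper72StarSCAL
import Cfsg.Agent.Lib.Helper81StarCHAR
import Cfsg.Agent.Lib.Helper81RankOne
import Cfsg.Agent.Lib.Helper84Contrib
import Cfsg.Agent.Lib.Helper20DefCard

/-!
# Project 83 (KUL), piece D-NUM (helper15): via `Helper81RankOne.rank_one`
-/

set_option autoImplicit false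

namespace Cfsg.Agent.Lib.Helper15KulNUM

open Cfsg
open Cfsg.Agent.Lib.Helper81Local Cfsg.Agent.Lib.Helper20GA Cfsg.Agent.Lib.Helper80IdemDefs
open Cfsg.Agent.Lib.Helper80StarDefs Cfsg.Agent.Lib.Helper4ModRed
open Cfsg.Agent.Lib.Helper81KulDefs Cfsg.Agent.Lib.Helper81KulGDefs
open Cfsg.Agent.Lib.Helper91StarBASIC Cfsg.Agent.Lib.Helper80Brauer Cfsg.Agent.Lib.Helper80Trace
open scoped ComplexConjugate

variable {p : ℕ} [Fact p.Prime] {M : Ideal AlgInt} [M.IsPrime] {G : Type*} [Group G] [Fintype G]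

open Classical in
theorem card_eq (hM : IsPModular p M) {B : Set (IrrCharacter G)} (hB : IsPBlock M B)
    {D : Subgroup G} (hD : IsDefectGroup p M B D) (hl : blockRank p B = 1)
    (hvan : ∀ g : G, p ∣ orderOf g →
      ∑ χ : IrrCharacter G, (if χ ∈ B then conj ((χ : G → ℂ) g) else 0) = 0) :
    Nat.card D = Nat.card B := by
  obtain ⟨n, d, h1, h2⟩ := Helper81RankOne.rank_one hM hB hl
  rw [Helper20DefCard.card_defectGroup hM hB hD, ← h2]
  set φ : G → ℂ := fun x =>
    ∑ ψ : IrrCharacter G, (if ψ ∈ B then (n ψ : ℂ) * (ψ : G → ℂ) x else 0) with hφ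
  have h1' : ∀ χ ∈ B, ∀ x : G, ¬ p ∣ orderOf x → (χ : G → ℂ) x = (d χ : ℂ) * φ x := h1
  have hp : p.Prime := Fact.out
  have h1reg : ¬ p ∣ orderOf (1 : G) := by
    rw [orderOf_one]; exact hp.one_lt.ne' ∘ Nat.dvd_one.mp
  obtain ⟨χ0, hχ0⟩ := Helper81Block.isPBlock_nonempty hB
  have hφ1 : φ 1 ≠ 0 := by
    intro h
    have h3 := h1' χ0 hχ0 1 h1reg
    rw [h, mul_zero] at h3
    have h4 := Helper81Base.charDegree_eq χ0
    rw [h3] at h4
    exact (Helper81Base.charDegree_pos χ0).ne' (by exact_mod_cast h4)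
  -- `∑ n d = 1`
  have hnd : ∑ ψ : IrrCharacter G, (if ψ ∈ B then (n ψ : ℂ) * (d ψ : ℂ) else 0) = 1 := by
    have h3 : φ 1 = (∑ ψ : IrrCharacter G, (if ψ ∈ B then (n ψ : ℂ) * (d ψ : ℂ) else 0)) * φ 1 := by
      rw [Finset.sum_mul]
      show ∑ ψ : IrrCharacter G, (if ψ ∈ B then (n ψ : ℂ) * (ψ : G → ℂ) 1 else 0) = _
      apply Finset.sum_congr rfl
      intro ψ _
      split_ifs with h
      · rw [h1' ψ h 1 h1reg]; ring
      · simp
    exact (mul_right_cancel₀ hφ1 (by rw [one_mul]; exact h3)).symm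
  set Ψ : G → ℂ := fun g => ∑ χ : IrrCharacter G, (if χ ∈ B then (χ : G → ℂ) g else 0) with hΨ
  set Ds : ℂ := ∑ χ : IrrCharacter G, (if χ ∈ B then (d χ : ℂ) else 0) with hDs
  set R : ℂ := ∑ g : G, (if p ∣ orderOf g then 0 else φ g * conj (φ g)) with hR
  have hΨs : ∀ g : G, p ∣ orderOf g → Ψ g = 0 := by
    intro g hg
    have h3 := congrArg conj (hvan g hg)
    rw [map_sum, map_zero] at h3
    rw [← h3]
    apply Finset.sum_congr rfl
    intro χ _
    split_ifs
    · rw [Complex.conj_conj]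
    · rw [map_zero]
  have hΨr : ∀ g : G, ¬ p ∣ orderOf g → Ψ g = Ds * φ g := by
    intro g hg
    rw [hDs, Finset.sum_mul]
    apply Finset.sum_congr rfl
    intro χ _
    split_ifs with h
    · exact h1' χ h g hg
    · simp
  have hGC : (Nat.card G : ℂ) ≠ 0 := Helper81Base.card_ne_zero
  have horth : ∀ χ ∈ B, ∑ g : G, Ψ g * conj ((χ : G → ℂ) g) = (Nat.card G : ℂ) := by
    intro χ hχ
    have h3 : ∀ ψ : IrrCharacter G, ∑ g : G, (ψ : G → ℂ) g * conj ((χ : G → ℂ) g)
        = (Nat.card G : ℂ) * (if ψ = χ then 1 else 0) := by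
      intro ψ
      have h4 := Helper4Char.classInner_irr ψ.2 χ.2
      unfold classInner at h4
      have h5 : ((ψ : G → ℂ) = (χ : G → ℂ)) ↔ ψ = χ := Subtype.ext_iff.symm
      rw [← (if_congr h5 rfl rfl : (if (ψ : G → ℂ) = (χ : G → ℂ) then (1:ℂ) else 0) = _), ← h4,
        ← mul_assoc, mul_inv_cancel₀ hGC, one_mul]
    calc ∑ g : G, Ψ g * conj ((χ : G → ℂ) g)
        = ∑ g : G, ∑ ψ : IrrCharacter G,
            (if ψ ∈ B then (ψ : G → ℂ) g * conj ((χ : G → ℂ) g) else 0) := by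
          apply Finset.sum_congr rfl
          intro g _
          rw [hΨ, Finset.sum_mul]
          apply Finset.sum_congr rfl
          intro ψ _
          split_ifs <;> simp
      _ = ∑ ψ : IrrCharacter G,
            (if ψ ∈ B then ∑ g : G, (ψ : G → ℂ) g * conj ((χ : G → ℂ) g) else 0) := by
          rw [Finset.sum_comm]
          apply Finset.sum_congr rfl
          intro ψ _
          split_ifs <;> simp
      _ = ∑ ψ : IrrCharacter G, (if ψ = χ then (Nat.card G : ℂ) else 0) := by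
          apply Finset.sum_congr rfl
          intro ψ _
          rw [h3]
          by_cases h : ψ = χ
          · subst h; simp [hχ]
          · simp [h]
      _ = (Nat.card G : ℂ) := by simp
  have hval : ∀ χ ∈ B, Ds * R * (d χ : ℂ) = (Nat.card G : ℂ) := by
    intro χ hχ
    rw [← horth χ hχ, hR, Finset.mul_sum, Finset.sum_mul]
    apply Finset.sum_congr rfl
    intro g _
    split_ifs with hg
    · rw [hΨs g hg]; simp
    · rw [hΨr g hg, h1' χ hχ g hg, map_mul, Complex.conj_natCast]; ring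
  have hDR : Ds * R ≠ 0 := by
    intro h
    have := hval χ0 hχ0
    rw [h, zero_mul] at this
    exact hGC this.symm
  have hdeq : ∀ χ ∈ B, d χ = d χ0 := by
    intro χ hχ
    have h3 : Ds * R * (d χ : ℂ) = Ds * R * (d χ0 : ℂ) := by rw [hval χ hχ, hval χ0 hχ0]
    exact_mod_cast mul_left_cancel₀ hDR h3
  have hd0 : d χ0 = 1 := by
    have h3 : (∑ ψ : IrrCharacter G, (if ψ ∈ B then n ψ else 0)) * (d χ0 : ℤ) = 1 := by
      have h4 : ((∑ ψ : IrrCharacter G, (if ψ ∈ B then n ψ else 0)) * (d χ0 : ℤ) : ℤ)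
          = (1 : ℂ) := by
        rw [← hnd]
        push_cast
        rw [Finset.sum_mul]
        apply Finset.sum_congr rfl
        intro ψ _
        split_ifs with h
        · rw [hdeq ψ h]
        · simp
      exact_mod_cast h4
    have h5 : ((d χ0 : ℕ) : ℤ) ∣ ((1 : ℕ) : ℤ) := ⟨_, by rw [mul_comm]; exact_mod_cast h3.symm⟩
    exact Nat.dvd_one.1 (Int.natCast_dvd_natCast.1 h5)
  have h6 : ∑ χ : IrrCharacter G, (if χ ∈ B then d χ ^ 2 else 0)
      = ∑ χ : IrrCharacter G, (if χ ∈ B then 1 else 0) := by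
    apply Finset.sum_congr rfl
    intro χ _
    split_ifs with h
    · rw [hdeq χ h, hd0]; rfl
    · rfl
  rw [h6, Finset.sum_boole, Nat.card_eq_fintype_card, Fintype.card_subtype]
  rfl

end Cfsg.Agent.Lib.Helper15KulNUM
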