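import Cfsg.Agent.Lib.Helper81KulGDefs
import Cfsg.Agent.Lib.Helper40ModRL
import Cfsg.Agent.Lib.Helper40ModAlgClosed
import Cfsg.Agent.Lib.Helper80StarA
import Cfsg.Agent.Lib.Helper91StarFIN
import Cfsg.Agent.Lib.Helper72StarSCAL
import Cfsg.Agent.Lib.Helper81StarCHAR
import Cfsg.Agent.Lib.Helper81RankOne
import Cfsg.Agent.Lib.Helper84Contrib
import Cfsg.Agent.Lib.Helper20DefCard
import Cfsg.Agent.Lib.Helper84StarF1

/-!
# Project 83 (KUL), piece D-VAN (helper15): corollary of `Helper84StarF1.key` with `H = ⊤`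
-/

set_option autoImplicit false

namespace Cfsg.Agent.Lib.Helper15KulVAN

open Cfsg
open Cfsg.Agent.Lib.Helper81Local Cfsg.Agent.Lib.Helper20GA Cfsg.Agent.Lib.Helper80IdemDefs
open Cfsg.Agent.Lib.Helper80StarDefs Cfsg.Agent.Lib.Helper4ModRed
open Cfsg.Agent.Lib.Helper81KulDefs Cfsg.Agent.Lib.Helper81KulGDefs
open Cfsg.Agent.Lib.Helper91StarBASIC Cfsg.Agent.Lib.Helper80Brauer Cfsg.Agent.Lib.Helper80Trace
open scoped ComplexConjugate

variable {p : ℕ} [Fact p.Prime] {M : Ideal AlgInt} [M.IsPrime] {G : Type*} [Group G] [Fintype G]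

theorem proj_vanish (hM : IsPModular p M) {ι : OA M G} (hι : ι * ι = ι) {g : G}
    (hg : p ∣ orderOf g) : ∑ h : G, fn ι (h⁻¹ * g * h) = 0 := by
  classical
  haveI := Helper91StarFIN.finite_End (M := M) (G := G)
  have hv : VanishP p (Rt M) (Module.End (Rt M) (OA M G)) :=
    Helper80StarA.vanishP p (Helper21StarINST.sepP_Rt hM)
  have := Helper84StarF1.key hv ⊤ ι hι (fun x hx => absurd (Subgroup.mem_top x) hx) g⁻¹
    (Subgroup.mem_top _) (by rwa [orderOf_inv])
  rw [inv_inv] at this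
  simpa using this

end Cfsg.Agent.Lib.Helper15KulVAN
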