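import Mathlib
import Cfsg.Agent.Lib.Helper34L34Defs
import Cfsg.Agent.Lib.Helper18F4
import Cfsg.Agent.Lib.Helper7SpCenter
import Cfsg.Agent.Lib.Helper47Idx2
import Cfsg.Agent.Lib.Helper6Transport
import Cfsg.Agent.S0243

/-!
# PROJECT 34, piece `Bridge` (helper15): `PSL(3,4)` on the 21 points of the projective plane.
-/

set_option autoImplicit false
set_option maxRecDepth 100000

namespace Cfsg.Agent.Lib.Helper15L34Bridge

open Cfsg.Agent.Lib.Helper34L34Defs Cfsg.Agent.Lib.Helper18F4 Cfsg.Agent.Lib.Helper47Idx2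

abbrev V : Type := Fin 3 → F4c

def cd (x : F4c) : ℕ := (if x.a then 1 else 0) + (if x.b then 2 else 0)
def dc (v : ℕ) : F4c := ⟨v % 2 == 1, v / 2 % 2 == 1⟩

def pt (j : Fin 21) : V :=
  if j.1 = 0 then ![0, 0, 1]
  else if j.1 < 5 then ![0, 1, dc (j.1 - 1)]
  else ![1, dc ((j.1 - 5) / 4), dc ((j.1 - 5) % 4)]

def labN (v : V) : ℕ :=
  if v 0 ≠ 0 then 5 + 4 * cd ((v 0)⁻¹ * v 1) + cd ((v 0)⁻¹ * v 2)
  else if v 1 ≠ 0 then 1 + cd ((v 1)⁻¹ * v 2)
  else 0

def lab (v : V) : Fin 21 := ⟨labN v % 21, Nat.mod_lt _ (by norm_num)⟩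

def PL : ProjLab F4c (Fin 3) 21 where
  pt := pt
  lab := lab
  lab_pt := by decide +kernel
  pt_ne := by decide +kernel
  pt_lab := by decide +kernel
  lab_smul := by decide +kernel

abbrev SL : Type := Matrix.SpecialLinearGroup (Fin 3) F4c
abbrev PSL : Type := Matrix.ProjectiveSpecialLinearGroup (Fin 3) F4c

def f1 : SL →* Matrix (Fin 3) (Fin 3) F4c where
  toFun A := A.1
  map_one' := rfl
  map_mul' _ _ := rfl

def al0 : SL →* Equiv.Perm (Fin 21) := PL.toPerm f1

theorem al0_apply (A : SL) (j : Fin 21) : al0 A j = lab (A.1.mulVec (pt j)) := rfl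

theorem center_le : ∀ A ∈ Subgroup.center SL, al0 A = 1 := by
  intro A hA
  obtain ⟨r, hr, hA'⟩ := Matrix.SpecialLinearGroup.mem_center_iff.1 hA
  have hr0 : r ≠ 0 := by
    rintro rfl
    simp at hr
  ext j
  rw [al0, PL.toPerm_apply]
  have h : f1 A = Matrix.scalar (Fin 3) r := hA'.symm
  rw [h]
  have : (Matrix.scalar (Fin 3) r).mulVec (PL.pt j) = r • PL.pt j := by
    rw [Matrix.scalar_apply, ← Matrix.smul_one_eq_diagonal, Matrix.smul_mulVec, Matrix.one_mulVec]
  rw [this, PL.lab_smul _ _ hr0, PL.lab_pt]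
  rfl

theorem ker_le (A : SL) (h : al0 A = 1) : A ∈ Subgroup.center SL := by
  have h1 := PL.fix_of_toPerm_eq_one f1 A h
  have h2 : A.1 = Matrix.scalar (Fin 3) (A.1 0 0) :=
    Cfsg.Agent.Lib.Helper7SpCenter.eq_scalar_of_fix A.1 h1 0
  rw [Matrix.SpecialLinearGroup.mem_center_iff]
  refine ⟨A.1 0 0, ?_, h2.symm⟩
  have h3 := A.2
  rw [h2] at h3
  simpa using h3

def al : PSL →* Equiv.Perm (Fin 21) := QuotientGroup.lift (Subgroup.center SL) al0 center_le

theorem al_mk (A : SL) : al (QuotientGroup.mk A) = al0 A := rfl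

theorem al_injective : Function.Injective al := by
  rw [injective_iff_map_eq_one]
  intro x hx
  induction x using QuotientGroup.induction_on with
  | H A =>
    rw [al_mk] at hx
    exact (QuotientGroup.eq_one_iff A).2 (ker_le A hx)

def w : F4c := ⟨false, true⟩

def Mx : Matrix (Fin 3) (Fin 3) F4c := !![w, 0, 0; 0, w, 0; 1, 0, w]
def My : Matrix (Fin 3) (Fin 3) F4c := !![w, 1, w; w, 0, 0; w, w * w, w]

theorem det_Mx : Mx.det = 1 := by decide +kernel
theorem det_My : My.det = 1 := by decide +kernel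

def sx : SL := ⟨Mx, det_Mx⟩
def sy : SL := ⟨My, det_My⟩

theorem al_Mx : al (QuotientGroup.mk sx) = X21 := by
  rw [al_mk]
  apply Equiv.ext
  intro j
  rw [al0_apply]
  revert j
  decide +kernel

theorem al_My : al (QuotientGroup.mk sy) = Y21 := by
  rw [al_mk]
  apply Equiv.ext
  intro j
  rw [al0_apply]
  revert j
  decide +kernel

/-- piece `Bridge`. -/
theorem bridge {F : Type*} [Field F] [Fintype F] (hF : Fintype.card F = 4) :
    ∃ ρ : Matrix.ProjectiveSpecialLinearGroup (Fin 3) F →* Equiv.Perm (Fin 21),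
      Function.Injective ρ ∧ X21 ∈ ρ.range ∧ Y21 ∈ ρ.range := by
  obtain ⟨e⟩ := Cfsg.Agent.Lib.Helper6Transport.nonempty_pslEquiv (n := Fin 3) (F := F) (K := F4c)
    (by rw [hF, F4c.card])
  refine ⟨al.comp e.toMonoidHom, al_injective.comp e.injective, ?_, ?_⟩
  · refine ⟨e.symm (QuotientGroup.mk sx), ?_⟩
    rw [MonoidHom.comp_apply]
    change al (e (e.symm _)) = _
    rw [MulEquiv.apply_symm_apply, al_Mx]
  · refine ⟨e.symm (QuotientGroup.mk sy), ?_⟩
    rw [MonoidHom.comp_apply]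
    change al (e (e.symm _)) = _
    rw [MulEquiv.apply_symm_apply, al_My]

/-- part of piece `Bridge`. -/
theorem card_psl {F : Type*} [Field F] [Fintype F] (hF : Fintype.card F = 4) :
    Nat.card (Matrix.ProjectiveSpecialLinearGroup (Fin 3) F) = 20160 := by
  have h := Cfsg.Agent.S0243.result (F := F) (q := 4) hF 3 (by norm_num)
  have h2 : ∏ i : Fin 3, (4 ^ 3 - 4 ^ (i : ℕ)) = 181440 := by decide
  rw [h2] at h
  have h3 : Nat.gcd 3 (4 - 1) = 3 := by decide
  rw [h3] at h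
  omega

end Cfsg.Agent.Lib.Helper15L34Bridge
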