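import Mathlib
import Cfsg.Prelude.Def_KGroupFacts

/-!
# PROJECT 34, piece `Hom` (helper15): from generators of the kernels to `HasSchurMultiplier`.
-/

set_option autoImplicit false

namespace Cfsg.Agent.Lib.Helper15L34Hom

open Cfsg

universe u

/-- the homomorphism `ZMod n → K`, `i ↦ c ^ i`, for `c ^ n = 1`. -/
theorem exists_zmodHom {K : Type*} [CommGroup K] (n : ℕ) (c : K) (hc : c ^ n = 1) :
    ∃ f : Multiplicative (ZMod n) →* K, ∀ i : ℤ, f (Multiplicative.ofAdd (i : ZMod n)) = c ^ i := by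
  have h0 : (zmultiplesHom (Additive K) (Additive.ofMul c)) (n : ℤ) = 0 := by
    simp only [zmultiplesHom_apply, natCast_zsmul]
    rw [← ofMul_pow, hc]; rfl
  refine ⟨AddMonoidHom.toMultiplicativeLeft
    (ZMod.lift n ⟨zmultiplesHom (Additive K) (Additive.ofMul c), h0⟩), fun i => ?_⟩
  change Additive.toMul (ZMod.lift n ⟨zmultiplesHom (Additive K) (Additive.ofMul c), h0⟩ (i : ZMod n)) = _
  rw [ZMod.lift_coe]
  simp only [zmultiplesHom_apply]
  rw [← ofMul_zpow]; rfl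

/-- a commutative group generated by `b₁` (`b₁ ^ 4 = 1`) and `b₂` (`b₂ ^ 12 = 1`) is an image of `3 × 4 × 4`. -/
theorem exists_surj {K : Type*} [CommGroup K] (b₁ b₂ : K) (h₁ : b₁ ^ 4 = 1) (h₂ : b₂ ^ 12 = 1)
    (hg : ∀ k : K, ∃ i j : ℤ, k = b₁ ^ i * b₂ ^ j) :
    ∃ π : Multiplicative (ZMod 3 × ZMod 4 × ZMod 4) →* K, Function.Surjective π := by
  obtain ⟨f, hf⟩ := exists_zmodHom 3 (b₂ ^ 4) (by rw [← pow_mul]; exact h₂)
  obtain ⟨g, hg'⟩ := exists_zmodHom 4 b₁ h₁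
  obtain ⟨h, hh⟩ := exists_zmodHom 4 (b₂ ^ 3) (by rw [← pow_mul]; exact h₂)
  let π : Multiplicative (ZMod 3 × ZMod 4 × ZMod 4) →* K :=
    { toFun := fun x => f (Multiplicative.ofAdd (Multiplicative.toAdd x).1) *
        g (Multiplicative.ofAdd (Multiplicative.toAdd x).2.1) *
        h (Multiplicative.ofAdd (Multiplicative.toAdd x).2.2)
      map_one' := by
        simp
      map_mul' := by
        intro x y
        simp only [toAdd_mul, Prod.fst_add, Prod.snd_add, ofAdd_add, map_mul]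
        generalize f (Multiplicative.ofAdd (Multiplicative.toAdd x).1) = a1
        generalize f (Multiplicative.ofAdd (Multiplicative.toAdd y).1) = a2
        generalize g (Multiplicative.ofAdd (Multiplicative.toAdd x).2.1) = a3
        generalize g (Multiplicative.ofAdd (Multiplicative.toAdd y).2.1) = a4
        generalize h (Multiplicative.ofAdd (Multiplicative.toAdd x).2.2) = a5
        generalize h (Multiplicative.ofAdd (Multiplicative.toAdd y).2.2) = a6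
        simp only [mul_assoc, mul_left_comm, mul_comm] }
  refine ⟨π, fun k => ?_⟩
  obtain ⟨i, j, rfl⟩ := hg k
  refine ⟨Multiplicative.ofAdd (((j : ℤ) : ZMod 3), ((i : ℤ) : ZMod 4), (((-j : ℤ)) : ZMod 4)), ?_⟩
  change f (Multiplicative.ofAdd ((j : ℤ) : ZMod 3)) * g (Multiplicative.ofAdd ((i : ℤ) : ZMod 4)) *
    h (Multiplicative.ofAdd ((-j : ℤ) : ZMod 4)) = _
  rw [hf, hg', hh]
  have : b₂ ^ j = (b₂ ^ 4) ^ j * (b₂ ^ 3) ^ (-j) := by
    rw [← zpow_natCast b₂ 4, ← zpow_natCast b₂ 3, ← zpow_mul, ← zpow_mul, ← zpow_add]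
    congr 1
    push_cast
    ring
  rw [this]
  rw [mul_comm ((b₂ ^ 4) ^ j) (b₁ ^ i), mul_assoc]

/-- piece `Hom`. -/
theorem hasMult {G : Type u} [Group G]
    (hb : ∀ (Γ : Type u) [Group Γ] [Finite Γ] (σ : Γ →* G), IsStemExtension σ →
      ∃ b₁ b₂ : Γ, b₁ ∈ σ.ker ∧ b₂ ∈ σ.ker ∧ b₁ ^ 4 = 1 ∧ b₂ ^ 12 = 1 ∧ ∀ k ∈ σ.ker, ∃ i j : ℤ, k = b₁ ^ i * b₂ ^ j)
    (hex : ∃ (Γ : Type u) (_ : Group Γ) (_ : Finite Γ) (σ : Γ →* G), IsStemExtension σ ∧ Nat.card σ.ker = 48) :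
    HasSchurMultiplier G (Multiplicative (ZMod 3 × ZMod 4 × ZMod 4)) := by
  have key : ∀ (Γ : Type u) [Group Γ] [Finite Γ] (σ : Γ →* G), IsStemExtension σ →
      ∃ π : Multiplicative (ZMod 3 × ZMod 4 × ZMod 4) →* σ.ker, Function.Surjective π := by
    intro Γ _ _ σ hσ
    obtain ⟨b₁, b₂, m₁, m₂, e₁, e₂, hg⟩ := hb Γ σ hσ
    letI : CommGroup σ.ker :=
      { (inferInstance : Group σ.ker) with
        mul_comm := fun a b => Subtype.ext
          ((Subgroup.mem_center_iff.mp (hσ.2.1 a.2) b.1).symm) }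
    refine exists_surj (K := σ.ker) ⟨b₁, m₁⟩ ⟨b₂, m₂⟩ (Subtype.ext (by simpa using e₁))
      (Subtype.ext (by simpa using e₂)) ?_
    intro k
    obtain ⟨i, j, hk⟩ := hg k.1 k.2
    exact ⟨i, j, Subtype.ext (by simpa using hk)⟩
  refine ⟨?_, key⟩
  obtain ⟨Γ, iG, iF, σ, hσ, hc⟩ := hex
  refine ⟨Γ, iG, iF, σ, hσ, ?_⟩
  obtain ⟨π, hπ⟩ := key Γ σ hσ
  have hcard : Nat.card (Multiplicative (ZMod 3 × ZMod 4 × ZMod 4)) = Nat.card σ.ker := by
    rw [hc]
    simp [Nat.card_eq_fintype_card]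
  have hbij : Function.Bijective π :=
    (Function.Surjective.bijective_of_nat_card_le hπ hcard.le)
  exact ⟨(MulEquiv.ofBijective π hbij).symm⟩

end Cfsg.Agent.Lib.Helper15L34Hom
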