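import Mathlib
import Cfsg.Prelude.Def_KGroupFacts
import Cfsg.Agent.Lib.Helper69Schur

/-!
# PROJECT 34, piece `Uniq` (helper15): two perfect central extensions by `2^2` are isomorphic
as soon as the kernel of every stem extension is generated by two elements.
-/

set_option autoImplicit false

namespace Cfsg.Agent.Lib.Helper15L34Uniq

open Cfsg Cfsg.Agent.Lib.Helper69Schur

universe u v w

theorem card_eq_ker_mul {Γ G : Type*} [Group Γ] [Group G] (σ : Γ →* G)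
    (hs : Function.Surjective σ) : Nat.card Γ = Nat.card σ.ker * Nat.card G := by
  rw [← Subgroup.card_mul_index σ.ker, Subgroup.index_ker, MonoidHom.range_eq_top.2 hs,
    Subgroup.card_top]

theorem zpow_mem_pair {Γ : Type*} [Group Γ] (b : Γ) (hb : b * b = 1) (i : ℤ) :
    b ^ i = 1 ∨ b ^ i = b := by
  have h2 : b ^ (2 : ℤ) = 1 := by rw [zpow_two]; exact hb
  rcases Int.even_or_odd' i with ⟨k, rfl | rfl⟩
  · left; rw [zpow_mul, h2, one_zpow]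
  · right; rw [zpow_add, zpow_mul, h2, one_zpow, one_mul, zpow_one]

/-- a subgroup of exponent two inside `{b₁ ^ i * b₂ ^ j}`, `b₁, b₂` in it, has at most four elements. -/
theorem card_le_four {Γ : Type*} [Group Γ] (K : Subgroup Γ) (he : ∀ x ∈ K, x * x = 1)
    (b₁ b₂ : Γ) (m₁ : b₁ ∈ K) (m₂ : b₂ ∈ K) (hg : ∀ k ∈ K, ∃ i j : ℤ, k = b₁ ^ i * b₂ ^ j) :
    Nat.card K ≤ 4 := by
  let f : Fin 2 × Fin 2 → Γ := fun p => (if p.1 = 0 then 1 else b₁) * (if p.2 = 0 then 1 else b₂)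
  have hsub : (K : Set Γ) ⊆ Set.range f := by
    intro k hk
    obtain ⟨i, j, rfl⟩ := hg k hk
    rcases zpow_mem_pair b₁ (he _ m₁) i with h1 | h1 <;>
      rcases zpow_mem_pair b₂ (he _ m₂) j with h2 | h2 <;> rw [h1, h2]
    · exact ⟨(0, 0), by simp [f]⟩
    · exact ⟨(0, 1), by simp [f]⟩
    · exact ⟨(1, 0), by simp [f]⟩
    · exact ⟨(1, 1), by simp [f]⟩
  calc Nat.card K = (K : Set Γ).ncard := rfl
    _ ≤ (Set.range f).ncard := Set.ncard_le_ncard hsub (Set.finite_range f)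
    _ ≤ Nat.card (Fin 2 × Fin 2) := by
        rw [← Set.image_univ, ← Set.ncard_univ]
        exact Set.ncard_image_le Set.finite_univ
    _ = 4 := by simp

section

variable {G : Type w} [Group G] {L₁ : Type u} {L₂ : Type v} [Group L₁] [Group L₂]
  (σ₁ : L₁ →* G) (σ₂ : L₂ →* G)

/-- the commutator subgroup of the pullback -/
abbrev DD : Subgroup (pb σ₁ σ₂) := commutator (pb σ₁ σ₂)

/-- first projection -/
def q1 : DD σ₁ σ₂ →* L₁ := (pb1 σ₁ σ₂).comp (DD σ₁ σ₂).subtype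

/-- second projection -/
def q2 : DD σ₁ σ₂ →* L₂ := (pb2 σ₁ σ₂).comp (DD σ₁ σ₂).subtype

theorem q1_surjective (h₂ : Function.Surjective σ₂) (p₁ : commutator L₁ = ⊤) :
    Function.Surjective (q1 σ₁ σ₂) := by
  intro x
  have := commutator_le_map_of_surjective _ (pb1_surjective σ₁ σ₂ h₂)
    (p₁ ▸ Subgroup.mem_top x : x ∈ commutator L₁)
  obtain ⟨p, hp, rfl⟩ := this
  exact ⟨⟨p, hp⟩, rfl⟩

theorem q2_surjective (h₁ : Function.Surjective σ₁) (p₂ : commutator L₂ = ⊤) :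
    Function.Surjective (q2 σ₁ σ₂) := by
  intro x
  have := commutator_le_map_of_surjective _ (pb2_surjective σ₁ σ₂ h₁)
    (p₂ ▸ Subgroup.mem_top x : x ∈ commutator L₂)
  obtain ⟨p, hp, rfl⟩ := this
  exact ⟨⟨p, hp⟩, rfl⟩

theorem stem (h₁ : IsStemExtension σ₁) (h₂ : IsStemExtension σ₂) (p₁ : commutator L₁ = ⊤) :
    IsStemExtension (σ₁.comp (q1 σ₁ σ₂)) := by
  have hs := q1_surjective σ₁ σ₂ h₂.1 p₁
  refine ⟨h₁.1.comp hs, ?_, ?_⟩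
  · intro d hd
    have h : d.1 ∈ (σ₁.comp (pb1 σ₁ σ₂)).ker := hd
    have hc := Subgroup.mem_center_iff.1 (ker_comp_pb1_le_center σ₁ σ₂ h₁.2.1 h₂.2.1 h)
    rw [Subgroup.mem_center_iff]
    intro e
    exact Subtype.ext (hc e.1)
  · have hle : commutator (pb σ₁ σ₂) ≤ (commutator (DD σ₁ σ₂)).map (DD σ₁ σ₂).subtype := by
      apply commutator_le_map
      intro a
      obtain ⟨e, he⟩ := hs (pb1 σ₁ σ₂ a)
      refine ⟨e, ker_pb1_le_center σ₁ σ₂ h₂.2.1 ?_⟩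
      rw [MonoidHom.mem_ker, map_mul, map_inv, ← he]
      exact inv_mul_cancel _
    intro d _
    obtain ⟨d', hd', hdd⟩ := hle d.2
    have : d' = d := Subtype.ext hdd
    exact this ▸ hd'

theorem mem_ker_exp (e₁ : ∀ x ∈ σ₁.ker, x * x = 1) (e₂ : ∀ x ∈ σ₂.ker, x * x = 1)
    (d : DD σ₁ σ₂) (hd : d ∈ (σ₁.comp (q1 σ₁ σ₂)).ker) : d * d = 1 := by
  have hd1 : pb1 σ₁ σ₂ d.1 ∈ σ₁.ker := hd
  have hd2 : pb2 σ₁ σ₂ d.1 ∈ σ₂.ker := by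
    rw [MonoidHom.mem_ker, ← pb_comm]; exact hd
  apply Subtype.ext
  apply pb_ext
  · change pb1 σ₁ σ₂ (d.1 * d.1) = pb1 σ₁ σ₂ 1
    rw [map_mul, map_one]; exact e₁ _ hd1
  · change pb2 σ₁ σ₂ (d.1 * d.1) = pb2 σ₁ σ₂ 1
    rw [map_mul, map_one]; exact e₂ _ hd2

end

/-- piece `Uniq`, in the form used by `Row`: the two generators are taken in the kernel. -/
theorem uniq_of_mem {G : Type w} [Group G] [Finite G]
    (hb : ∀ {Γ : Type (max u v)} [Group Γ] [Finite Γ] (σ : Γ →* G), IsStemExtension σ →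
      ∃ b₁ b₂ : Γ, b₁ ∈ σ.ker ∧ b₂ ∈ σ.ker ∧ ∀ k ∈ σ.ker, ∃ i j : ℤ, k = b₁ ^ i * b₂ ^ j)
    {L₁ : Type u} {L₂ : Type v} [Group L₁] [Finite L₁] [Group L₂] [Finite L₂]
    (σ₁ : L₁ →* G) (σ₂ : L₂ →* G) (h₁ : IsStemExtension σ₁) (h₂ : IsStemExtension σ₂)
    (p₁ : commutator L₁ = ⊤) (p₂ : commutator L₂ = ⊤)
    (c₁ : Nat.card σ₁.ker = 4) (c₂ : Nat.card σ₂.ker = 4)
    (e₁ : ∀ x ∈ σ₁.ker, x * x = 1) (e₂ : ∀ x ∈ σ₂.ker, x * x = 1) : Nonempty (L₁ ≃* L₂) := by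
  have hst := stem σ₁ σ₂ h₁ h₂ p₁
  obtain ⟨b₁, b₂, m₁, m₂, hg⟩ := hb _ hst
  have hk : Nat.card (σ₁.comp (q1 σ₁ σ₂)).ker ≤ 4 :=
    card_le_four _ (mem_ker_exp σ₁ σ₂ e₁ e₂) b₁ b₂ m₁ m₂ hg
  have hD : Nat.card (DD σ₁ σ₂) ≤ 4 * Nat.card G := by
    rw [card_eq_ker_mul _ hst.1]
    exact Nat.mul_le_mul_right _ hk
  have hL1 : Nat.card L₁ = 4 * Nat.card G := by rw [card_eq_ker_mul _ h₁.1, c₁]
  have hL2 : Nat.card L₂ = 4 * Nat.card G := by rw [card_eq_ker_mul _ h₂.1, c₂]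
  have b1 : Function.Bijective (q1 σ₁ σ₂) :=
    (q1_surjective σ₁ σ₂ h₂.1 p₁).bijective_of_nat_card_le (hL1 ▸ hD)
  have b2 : Function.Bijective (q2 σ₁ σ₂) :=
    (q2_surjective σ₁ σ₂ h₁.1 p₂).bijective_of_nat_card_le (hL2 ▸ hD)
  exact ⟨(MulEquiv.ofBijective _ b1).symm.trans (MulEquiv.ofBijective _ b2)⟩

/-- a central subgroup inside `{b₁ ^ i * b₂ ^ j}` is generated by two of its own elements. -/
theorem exists_gens_mem {Γ : Type*} [Group Γ] (K : Subgroup Γ) (hc : K ≤ Subgroup.center Γ)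
    (b₁ b₂ : Γ) (hg : ∀ k ∈ K, ∃ i j : ℤ, k = b₁ ^ i * b₂ ^ j) :
    ∃ c₁ c₂ : Γ, c₁ ∈ K ∧ c₂ ∈ K ∧ ∀ k ∈ K, ∃ i j : ℤ, k = c₁ ^ i * c₂ ^ j := by
  have hcomm : ∀ k ∈ K, ∀ x : Γ, x * k = k * x := fun k hk => Subgroup.mem_center_iff.1 (hc hk)
  let I : AddSubgroup ℤ :=
    { carrier := {i | b₁ ^ i ∈ K}
      add_mem' := by
        intro a b ha hb
        change b₁ ^ (a + b) ∈ K
        rw [zpow_add]; exact K.mul_mem ha hb
      zero_mem' := by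
        change b₁ ^ (0 : ℤ) ∈ K
        rw [zpow_zero]; exact K.one_mem
      neg_mem' := by
        intro a ha
        change b₁ ^ (-a) ∈ K
        rw [zpow_neg]; exact K.inv_mem ha }
  let J : AddSubgroup ℤ :=
    { carrier := {j | ∃ i : ℤ, b₁ ^ i * b₂ ^ j ∈ K}
      add_mem' := by
        rintro a b ⟨i, hi⟩ ⟨i', hi'⟩
        refine ⟨i' + i, ?_⟩
        have : b₁ ^ (i' + i) * b₂ ^ (a + b) = (b₁ ^ i * b₂ ^ a) * (b₁ ^ i' * b₂ ^ b) := by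
          rw [← mul_assoc, ← hcomm _ hi (b₁ ^ i'), zpow_add, zpow_add]
          simp only [mul_assoc]
        rw [this]; exact K.mul_mem hi hi'
      zero_mem' := ⟨0, by simp⟩
      neg_mem' := by
        rintro a ⟨i, hi⟩
        refine ⟨-i, ?_⟩
        have : b₁ ^ (-i) * b₂ ^ (-a) = (b₁ ^ i * b₂ ^ a)⁻¹ := by
          have h1 := hcomm _ (K.inv_mem hi) (b₁ ^ (-i))
          rw [mul_inv_rev] at h1 ⊢
          rw [← zpow_neg, ← zpow_neg] at h1 ⊢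
          have h2 : b₁ ^ (-i) * (b₂ ^ (-a) * b₁ ^ (-i)) = (b₁ ^ (-i) * b₂ ^ (-a)) * b₁ ^ (-i) := by
            rw [mul_assoc]
          rw [h2] at h1
          exact mul_right_cancel h1
        rw [this]; exact K.inv_mem hi }
  obtain ⟨n, hn⟩ := Int.subgroup_cyclic I
  obtain ⟨m, hm⟩ := Int.subgroup_cyclic J
  have hnI : n ∈ I := by rw [hn]; exact AddSubgroup.mem_closure_singleton_self n
  have hmJ : m ∈ J := by rw [hm]; exact AddSubgroup.mem_closure_singleton_self m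
  obtain ⟨i₀, hk₀⟩ : ∃ i : ℤ, b₁ ^ i * b₂ ^ m ∈ K := hmJ
  refine ⟨b₁ ^ n, b₁ ^ i₀ * b₂ ^ m, hnI, hk₀, ?_⟩
  intro k hk
  obtain ⟨i, j, rfl⟩ := hg k hk
  have hjJ : j ∈ J := ⟨i, hk⟩
  rw [hm, AddSubgroup.mem_closure_singleton] at hjJ
  obtain ⟨t, rfl⟩ := hjJ
  have hco : Commute (b₁ ^ i₀) (b₂ ^ m) := by
    have h1 := hcomm _ hk₀ (b₁ ^ i₀)
    rw [mul_assoc] at h1
    exact (mul_left_cancel h1)
  have hpow : (b₁ ^ i₀ * b₂ ^ m) ^ t = b₁ ^ (i₀ * t) * b₂ ^ (t • m) := by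
    rw [hco.mul_zpow, ← zpow_mul, ← zpow_mul, smul_eq_mul, mul_comm m t]
  have hmem : b₁ ^ (i - i₀ * t) ∈ K := by
    have h1 : b₁ ^ i * b₂ ^ (t • m) * ((b₁ ^ i₀ * b₂ ^ m) ^ t)⁻¹ ∈ K :=
      K.mul_mem hk (K.inv_mem (K.zpow_mem hk₀ t))
    have h2 : b₁ ^ i * b₂ ^ (t • m) * ((b₁ ^ i₀ * b₂ ^ m) ^ t)⁻¹ = b₁ ^ (i - i₀ * t) := by
      rw [hpow, mul_inv_rev, zpow_sub]
      group
    rwa [h2] at h1
  have hI : i - i₀ * t ∈ I := hmem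
  rw [hn, AddSubgroup.mem_closure_singleton] at hI
  obtain ⟨s, hs⟩ := hI
  refine ⟨s, t, ?_⟩
  rw [hpow, ← zpow_mul, ← mul_assoc, ← zpow_add]
  congr 2
  rw [smul_eq_mul] at hs
  linarith

/-- piece `Uniq`. -/
theorem uniq {G : Type w} [Group G] [Finite G]
    (hb : ∀ {Γ : Type (max u v)} [Group Γ] [Finite Γ] (σ : Γ →* G), IsStemExtension σ →
      ∃ b₁ b₂ : Γ, ∀ k ∈ σ.ker, ∃ i j : ℤ, k = b₁ ^ i * b₂ ^ j)
    {L₁ : Type u} {L₂ : Type v} [Group L₁] [Finite L₁] [Group L₂] [Finite L₂]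
    (σ₁ : L₁ →* G) (σ₂ : L₂ →* G) (h₁ : IsStemExtension σ₁) (h₂ : IsStemExtension σ₂)
    (p₁ : commutator L₁ = ⊤) (p₂ : commutator L₂ = ⊤)
    (c₁ : Nat.card σ₁.ker = 4) (c₂ : Nat.card σ₂.ker = 4)
    (e₁ : ∀ x ∈ σ₁.ker, x * x = 1) (e₂ : ∀ x ∈ σ₂.ker, x * x = 1) : Nonempty (L₁ ≃* L₂) := by
  refine uniq_of_mem.{u, v, w} (fun {Γ} _ _ σ hσ => ?_) σ₁ σ₂ h₁ h₂ p₁ p₂ c₁ c₂ e₁ e₂
  obtain ⟨b₁, b₂, hg⟩ := hb σ hσ
  exact exists_gens_mem σ.ker hσ.2.1 b₁ b₂ hg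

end Cfsg.Agent.Lib.Helper15L34Uniq
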