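import Mathlib
import Cfsg.Prelude.Def_KGroupFacts
import Cfsg.Prelude.Def_CaseTheorems
import Cfsg.Agent.Lib.Helper15L34Uniq

/-!
# PROJECT 34, piece `Row` (helper15): the row S5387 from `uniq_of_mem` and the certificate `ker_gen`
(taken as a hypothesis `hk`, at the universe `max u v`).
-/

set_option autoImplicit false

namespace Cfsg.Agent.Lib.Helper15L34Row

open Cfsg Cfsg.Agent.Lib.Helper15L34Uniq

universe u v w

/-- `e ∘ mk'` is a stem extension with kernel the centre, for a perfect group. -/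
theorem stem_of_perfect {L : Type u} {G : Type w} [Group L] [Group G] (hp : Group.IsPerfect L)
    (e : L ⧸ Subgroup.center L ≃* G) :
    IsStemExtension (e.toMonoidHom.comp (QuotientGroup.mk' (Subgroup.center L))) ∧
      (e.toMonoidHom.comp (QuotientGroup.mk' (Subgroup.center L))).ker = Subgroup.center L := by
  have hker : (e.toMonoidHom.comp (QuotientGroup.mk' (Subgroup.center L))).ker =
      Subgroup.center L := by
    ext x
    rw [MonoidHom.mem_ker, MonoidHom.comp_apply]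
    change e (QuotientGroup.mk' _ x) = 1 ↔ _
    rw [EmbeddingLike.map_eq_one_iff, QuotientGroup.mk'_apply, QuotientGroup.eq_one_iff]
  refine ⟨⟨e.surjective.comp (QuotientGroup.mk'_surjective _), hker.le, ?_⟩, hker⟩
  rw [hp.commutator_eq_top]
  exact le_top

/-- general form of the row: `G` any finite group such that the kernels of its stem extensions are
generated by two of their elements. -/
theorem row_general {G : Type w} [Group G] [Finite G]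
    (hb : ∀ {Γ : Type (max u v)} [Group Γ] [Finite Γ] (σ : Γ →* G), IsStemExtension σ →
      ∃ b₁ b₂ : Γ, b₁ ∈ σ.ker ∧ b₂ ∈ σ.ker ∧ ∀ k ∈ σ.ker, ∃ i j : ℤ, k = b₁ ^ i * b₂ ^ j)
    {L₁ : Type u} {L₂ : Type v} [Group L₁] [Finite L₁] [Group L₂] [Finite L₂]
    (h₁ : Cfsg.IsQuasisimple L₁) (h₂ : Cfsg.IsQuasisimple L₂)
    (hc₁ : Nat.card (Subgroup.center L₁) = 4) (hc₂ : Nat.card (Subgroup.center L₂) = 4)
    (he₁ : ∀ x ∈ Subgroup.center L₁, x * x = 1) (he₂ : ∀ x ∈ Subgroup.center L₂, x * x = 1)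
    (e₁ : L₁ ⧸ Subgroup.center L₁ ≃* G) (e₂ : L₂ ⧸ Subgroup.center L₂ ≃* G) :
    Nonempty (L₁ ≃* L₂) := by
  obtain ⟨s₁, k₁⟩ := stem_of_perfect h₁.1 e₁
  obtain ⟨s₂, k₂⟩ := stem_of_perfect h₂.1 e₂
  refine uniq_of_mem.{u, v, w} hb _ _ s₁ s₂ h₁.1.commutator_eq_top h₂.1.commutator_eq_top ?_ ?_ ?_ ?_
  · rw [k₁]; exact hc₁
  · rw [k₂]; exact hc₂
  · rw [k₁]; exact he₁
  · rw [k₂]; exact he₂

/-- piece `Row`: S5387 from the certificate `ker_gen` (hypothesis `hk`). -/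
theorem row {L₁ : Type u} {L₂ : Type v} [Group L₁] [Finite L₁] [Group L₂] [Finite L₂]
    (F : Type) [Field F] [Fintype F]
    (hk : ∀ {Γ : Type (max u v)} [Group Γ] [Finite Γ]
      (σ : Γ →* Matrix.ProjectiveSpecialLinearGroup (Fin 3) F), IsStemExtension σ →
      ∃ b₁ b₂ : Γ, b₁ ∈ σ.ker ∧ b₂ ∈ σ.ker ∧ b₁ ^ 4 = 1 ∧ b₂ ^ 12 = 1 ∧
        ∀ k ∈ σ.ker, ∃ i j : ℤ, k = b₁ ^ i * b₂ ^ j)
    (h₁ : Cfsg.IsQuasisimple L₁) (h₂ : Cfsg.IsQuasisimple L₂)
    (hc₁ : Nat.card (Subgroup.center L₁) = 4) (hc₂ : Nat.card (Subgroup.center L₂) = 4)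
    (he₁ : ∀ x ∈ Subgroup.center L₁, x * x = 1) (he₂ : ∀ x ∈ Subgroup.center L₂, x * x = 1)
    (e₁ : L₁ ⧸ Subgroup.center L₁ ≃* Matrix.ProjectiveSpecialLinearGroup (Fin 3) F)
    (e₂ : L₂ ⧸ Subgroup.center L₂ ≃* Matrix.ProjectiveSpecialLinearGroup (Fin 3) F) :
    Nonempty (L₁ ≃* L₂) := by
  refine row_general.{u, v, 0} (fun {Γ} _ _ σ hσ => ?_) h₁ h₂ hc₁ hc₂ he₁ he₂ e₁ e₂
  obtain ⟨b₁, b₂, m₁, m₂, -, -, hg⟩ := hk σ hσ
  exact ⟨b₁, b₂, m₁, m₂, hg⟩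

end Cfsg.Agent.Lib.Helper15L34Row
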