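import Mathlib

set_option autoImplicit false

namespace Cfsg.Agent.Lib.Helper15Mat

open Matrix

def allLt : ℕ → (ℕ → Bool) → Bool
  | 0, _ => true
  | n+1, f => f n && allLt n f

theorem allLt_iff (n : ℕ) (f : ℕ → Bool) : allLt n f = true ↔ ∀ i < n, f i = true := by
  induction n with
  | zero => simp [allLt]
  | succ n ih =>
    simp only [allLt, Bool.and_eq_true, ih]
    constructor
    · rintro ⟨h1, h2⟩ i hi
      rcases Nat.lt_succ_iff_lt_or_eq.mp hi with h | rfl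
      · exact h2 i h
      · exact h1
    · intro h
      exact ⟨h n (Nat.lt_succ_self n), fun i hi => h i (Nat.lt_succ_of_lt hi)⟩

def Good (p : ℕ) (gens : List (ℕ × ℕ × ℕ × ℕ)) (tb td pa pc dep : ℕ → ℕ → ℕ) (a c : ℕ) : Prop :=
  (∀ g ∈ gens, tb ((g.1*a + g.2.1*c) % p) ((g.2.2.1*a + g.2.2.2*c) % p) = (g.1 * tb a c + g.2.1 * td a c) % p ∧
               td ((g.1*a + g.2.1*c) % p) ((g.2.2.1*a + g.2.2.2*c) % p) = (g.2.2.1 * tb a c + g.2.2.2 * td a c) % p) ∧
  ((a = 1 ∧ c = 0) ∨ (pa a c < p ∧ pc a c < p ∧ ¬ (pa a c = 0 ∧ pc a c = 0) ∧ dep (pa a c) (pc a c) < dep a c ∧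
     ∃ g ∈ gens, (g.1 * pa a c + g.2.1 * pc a c) % p = a ∧ (g.2.2.1 * pa a c + g.2.2.2 * pc a c) % p = c))

instance (p : ℕ) (gens : List (ℕ × ℕ × ℕ × ℕ)) (tb td pa pc dep : ℕ → ℕ → ℕ) (a c : ℕ) :
    Decidable (Good p gens tb td pa pc dep a c) := by
  unfold Good; infer_instance

def chk (p : ℕ) (gens : List (ℕ × ℕ × ℕ × ℕ)) (tb td pa pc dep : ℕ → ℕ → ℕ) : Bool :=
  allLt p (fun a => allLt p (fun c => (a == 0 && c == 0) || decide (Good p gens tb td pa pc dep a c)))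

theorem chk_good {p : ℕ} {gens : List (ℕ × ℕ × ℕ × ℕ)} {tb td pa pc dep : ℕ → ℕ → ℕ}
    (h : chk p gens tb td pa pc dep = true) (a c : ℕ) (ha : a < p) (hc : c < p) (hac : ¬ (a = 0 ∧ c = 0)) :
    Good p gens tb td pa pc dep a c := by
  have h1 := (allLt_iff _ _).mp ((allLt_iff _ _).mp h a ha) c hc
  simp only [Bool.or_eq_true, Bool.and_eq_true, beq_iff_eq, decide_eq_true_eq] at h1
  rcases h1 with h1 | h1
  · exact absurd h1 hac
  · exact h1

def toM (p : ℕ) (g : ℕ × ℕ × ℕ × ℕ) : Matrix (Fin 2) (Fin 2) (ZMod p) :=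
  !![(g.1 : ZMod p), (g.2.1 : ZMod p); (g.2.2.1 : ZMod p), (g.2.2.2 : ZMod p)]

section
variable (p : ℕ) [Fact p.Prime] (tb td : ℕ → ℕ → ℕ)

def Mf (v : Fin 2 → ZMod p) : Matrix (Fin 2) (Fin 2) (ZMod p) :=
  !![v 0, (tb (v 0).val (v 1).val : ZMod p); v 1, (td (v 0).val (v 1).val : ZMod p)]

theorem Mf_mulVec (v : Fin 2 → ZMod p) : (Mf p tb td v).mulVec ![1, 0] = v := by
  ext i
  fin_cases i <;> simp [Mf, Matrix.mulVec, dotProduct, Fin.sum_univ_two]

end

theorem vec_ne {p : ℕ} [Fact p.Prime] (v : Fin 2 → ZMod p) (hv : v ≠ 0) : ¬ ((v 0).val = 0 ∧ (v 1).val = 0) := by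
  rintro ⟨h0, h1⟩
  apply hv
  ext i
  fin_cases i
  · exact (ZMod.val_eq_zero _).mp h0
  · exact (ZMod.val_eq_zero _).mp h1

theorem toM_mulVec (p : ℕ) [Fact p.Prime] (g : ℕ × ℕ × ℕ × ℕ) (v : Fin 2 → ZMod p) :
    ((toM p g).mulVec v 0) = ((g.1 * (v 0).val + g.2.1 * (v 1).val : ℕ) : ZMod p) ∧
    ((toM p g).mulVec v 1) = ((g.2.2.1 * (v 0).val + g.2.2.2 * (v 1).val : ℕ) : ZMod p) := by
  constructor <;> simp [toM, Matrix.mulVec, dotProduct, Fin.sum_univ_two]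

theorem step_eq {p : ℕ} [Fact p.Prime] {gens : List (ℕ × ℕ × ℕ × ℕ)} {tb td pa pc dep : ℕ → ℕ → ℕ}
    (h : chk p gens tb td pa pc dep = true) (g : ℕ × ℕ × ℕ × ℕ) (hg : g ∈ gens)
    (v : Fin 2 → ZMod p) (hv : v ≠ 0) :
    toM p g * Mf p tb td v = Mf p tb td ((toM p g).mulVec v) := by
  have hgood := chk_good h (v 0).val (v 1).val (ZMod.val_lt _) (ZMod.val_lt _) (vec_ne v hv)
  obtain ⟨e1, e2⟩ := hgood.1 g hg
  obtain ⟨w0, w1⟩ := toM_mulVec p g v
  have v0 : ((toM p g).mulVec v 0).val = (g.1 * (v 0).val + g.2.1 * (v 1).val) % p := by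
    rw [w0, ZMod.val_natCast]
  have v1 : ((toM p g).mulVec v 1).val = (g.2.2.1 * (v 0).val + g.2.2.2 * (v 1).val) % p := by
    rw [w1, ZMod.val_natCast]
  unfold Mf
  rw [v0, v1, e1, e2, w0, w1]
  simp only [toM, Matrix.mul_fin_two, ZMod.natCast_mod]
  push_cast
  simp


theorem gl_mulVec_ne {p : ℕ} [Fact p.Prime] (x : GL (Fin 2) (ZMod p)) (v : Fin 2 → ZMod p) (hv : v ≠ 0) :
    (x : Matrix (Fin 2) (Fin 2) (ZMod p)).mulVec v ≠ 0 := by
  intro h
  apply hv
  have : ((x⁻¹ * x : GL (Fin 2) (ZMod p)) : Matrix (Fin 2) (Fin 2) (ZMod p)).mulVec v = 0 := by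
    rw [Units.val_mul, ← Matrix.mulVec_mulVec, h, Matrix.mulVec_zero]
  simpa using this

theorem e_ne {p : ℕ} [Fact p.Prime] : (![1, 0] : Fin 2 → ZMod p) ≠ 0 := by
  intro h
  have := congrFun h 0
  simp at this

theorem main (p : ℕ) [Fact p.Prime] (gens : List (ℕ × ℕ × ℕ × ℕ)) (tb td pa pc dep : ℕ → ℕ → ℕ)
    (h10 : tb 1 0 = 0 ∧ td 1 0 = 1)
    (hchk : chk p gens tb td pa pc dep = true)
    (S : Set (GL (Fin 2) (ZMod p)))
    (hS : ∀ x ∈ S, ∃ g ∈ gens, (x : Matrix (Fin 2) (Fin 2) (ZMod p)) = toM p g)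
    (hS' : ∀ g ∈ gens, ∃ x ∈ S, (x : Matrix (Fin 2) (Fin 2) (ZMod p)) = toM p g) :
    Nat.card (Subgroup.closure S) = p ^ 2 - 1 ∧ ∀ v w : Fin 2 → ZMod p, v ≠ 0 → w ≠ 0 →
      ∃! h : Subgroup.closure S,
        Matrix.mulVec ((h : GL (Fin 2) (ZMod p)) : Matrix (Fin 2) (Fin 2) (ZMod p)) v = w := by
  have hp1 : Fact (1 < p) := ⟨(Fact.out : p.Prime).one_lt⟩
  -- every element is determined by its first column
  have L3 : ∀ h ∈ Subgroup.closure S, (h : Matrix (Fin 2) (Fin 2) (ZMod p)) =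
      Mf p tb td ((h : Matrix (Fin 2) (Fin 2) (ZMod p)).mulVec ![1, 0]) := by
    intro h hh
    induction hh using Subgroup.closure_induction_left with
    | one =>
      simp only [Units.val_one, Matrix.one_mulVec]
      unfold Mf
      simp only [Matrix.cons_val_zero, Matrix.cons_val_one, ZMod.val_one, ZMod.val_zero, h10.1, h10.2]
      ext i j
      fin_cases i <;> fin_cases j <;> simp
    | mul_left x hx y hy ih =>
      obtain ⟨g, hg, hxg⟩ := hS x hx
      rw [Units.val_mul, ← Matrix.mulVec_mulVec, hxg, ← step_eq hchk g hg _ (gl_mulVec_ne y _ e_ne), ← ih]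
    | inv_mul_cancel x hx y hy ih =>
      obtain ⟨g, hg, hxg⟩ := hS x hx
      have h1 := step_eq hchk g hg _ (gl_mulVec_ne (x⁻¹ * y) _ e_ne)
      rw [← hxg, Matrix.mulVec_mulVec, ← Units.val_mul, mul_inv_cancel_left, ← ih] at h1
      have h2 : ((x⁻¹ : GL (Fin 2) (ZMod p)) : Matrix (Fin 2) (Fin 2) (ZMod p)) * ((x : Matrix (Fin 2) (Fin 2) (ZMod p)) *
          Mf p tb td (((x⁻¹ * y : GL (Fin 2) (ZMod p)) : Matrix (Fin 2) (Fin 2) (ZMod p)).mulVec ![1, 0])) =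
          ((x⁻¹ : GL (Fin 2) (ZMod p)) : Matrix (Fin 2) (Fin 2) (ZMod p)) * (y : Matrix (Fin 2) (Fin 2) (ZMod p)) := by
        rw [h1]
      rw [← Matrix.mul_assoc, ← Units.val_mul, inv_mul_cancel, Units.val_one, Matrix.one_mul, ← Units.val_mul] at h2
      exact h2.symm
  have L4 : ∀ (n : ℕ) (v : Fin 2 → ZMod p), v ≠ 0 → dep (v 0).val (v 1).val = n →
      ∃ h ∈ Subgroup.closure S, (h : Matrix (Fin 2) (Fin 2) (ZMod p)).mulVec ![1, 0] = v := by
    intro n
    induction n using Nat.strong_induction_on with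
    | _ n ih =>
      intro v hv hn
      have hgood := chk_good hchk (v 0).val (v 1).val (ZMod.val_lt _) (ZMod.val_lt _) (vec_ne v hv)
      rcases hgood.2 with ⟨h1, h0⟩ | ⟨ha, hc, hne, hdep, g, hg, e0, e1⟩
      · refine ⟨1, Subgroup.one_mem _, ?_⟩
        simp only [Units.val_one, Matrix.one_mulVec]
        ext i
        fin_cases i
        · simp only [Fin.zero_eta, Matrix.cons_val_zero]
          rw [← ZMod.natCast_zmod_val (v 0), h1, Nat.cast_one]
        · simp only [Fin.mk_one, Matrix.cons_val_one, Matrix.cons_val_fin_one]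
          rw [← ZMod.natCast_zmod_val (v 1), h0, Nat.cast_zero]
      · set a' := pa (v 0).val (v 1).val with ha'
        set c' := pc (v 0).val (v 1).val with hc'
        let u : Fin 2 → ZMod p := ![(a' : ZMod p), (c' : ZMod p)]
        have u0 : (u 0).val = a' := by
          simp only [u, Matrix.cons_val_zero]
          rw [ZMod.val_natCast, Nat.mod_eq_of_lt ha]
        have u1 : (u 1).val = c' := by
          simp only [u, Matrix.cons_val_one, Matrix.cons_val_fin_one]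
          rw [ZMod.val_natCast, Nat.mod_eq_of_lt hc]
        have hu : u ≠ 0 := by
          intro h
          apply hne
          rw [← u0, ← u1, h]
          simp
        obtain ⟨h, hh, hhu⟩ := ih (dep a' c') (hn ▸ hdep) u hu (by rw [u0, u1])
        obtain ⟨x, hx, hxg⟩ := hS' g hg
        refine ⟨x * h, Subgroup.mul_mem _ (Subgroup.subset_closure hx) hh, ?_⟩
        rw [Units.val_mul, ← Matrix.mulVec_mulVec, hhu, hxg]
        obtain ⟨w0, w1⟩ := toM_mulVec p g u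
        ext i
        fin_cases i
        · simp only [Fin.zero_eta]
          rw [w0, u0, u1, ← ZMod.natCast_mod, e0, ZMod.natCast_zmod_val]
        · simp only [Fin.mk_one]
          rw [w1, u0, u1, ← ZMod.natCast_mod, e1, ZMod.natCast_zmod_val]
  have inj : ∀ h ∈ Subgroup.closure S, ∀ h' ∈ Subgroup.closure S,
      (h : Matrix (Fin 2) (Fin 2) (ZMod p)).mulVec ![1, 0] = (h' : Matrix (Fin 2) (Fin 2) (ZMod p)).mulVec ![1, 0] →
      h = h' := by
    intro h hh h' hh' e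
    apply Units.ext
    rw [L3 h hh, L3 h' hh', e]
  constructor
  · have e : (Subgroup.closure S) ≃ {v : Fin 2 → ZMod p // v ≠ 0} :=
      Equiv.ofBijective (fun h => ⟨((h : GL (Fin 2) (ZMod p)) : Matrix (Fin 2) (Fin 2) (ZMod p)).mulVec ![1, 0],
        gl_mulVec_ne _ _ e_ne⟩) ⟨by
          intro h h' hh
          apply Subtype.ext
          exact inj _ h.2 _ h'.2 (congrArg Subtype.val hh), by
          rintro ⟨v, hv⟩
          obtain ⟨h, hh, hv'⟩ := L4 _ v hv rfl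
          exact ⟨⟨h, hh⟩, Subtype.ext hv'⟩⟩
    rw [Nat.card_congr e, Nat.card_eq_fintype_card, Fintype.card_subtype_compl, Fintype.card_subtype_eq]
    simp [ZMod.card]
  · intro v w hv hw
    obtain ⟨hv', hvm, hve⟩ := L4 _ v hv rfl
    obtain ⟨hw', hwm, hwe⟩ := L4 _ w hw rfl
    refine ⟨⟨hw' * hv'⁻¹, Subgroup.mul_mem _ hwm (Subgroup.inv_mem _ hvm)⟩, ?_, ?_⟩
    · simp only
      rw [← hve, Matrix.mulVec_mulVec, ← Units.val_mul, inv_mul_cancel_right, hwe]
    · rintro ⟨y, hy⟩ hyv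
      simp only at hyv
      apply Subtype.ext
      simp only
      rw [eq_mul_inv_iff_mul_eq]
      apply inj _ (Subgroup.mul_mem _ hy hvm) _ hwm
      rw [Units.val_mul, ← Matrix.mulVec_mulVec, hve, hyv, hwe]

end Cfsg.Agent.Lib.Helper15Mat
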