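import Cfsg.Agent.Lib.Helper98AschGDefs

set_option autoImplicit false

/-! Basic API for `tens`, `env`, `NzA`, and the membership criteria of the tensor subgroups. -/

namespace Cfsg.Agent.Lib.Helper98AschGBasic

open Cfsg Cfsg.Geo Matrix
open Cfsg.Agent.Lib.Helper97GBase Cfsg.Agent.Lib.Helper97GCore Cfsg.Agent.Lib.Helper98AschGDefs
open scoped MatrixGroups Kronecker

variable {ι : Type} [Fintype ι] [DecidableEq ι] {F : Type*} [Field F]

lemma vi (g : GL ι F) : ((g⁻¹ : GL ι F) : Matrix ι ι F) * (g : Matrix ι ι F) = 1 := by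
  rw [← Units.val_mul, inv_mul_cancel, Units.val_one]

lemma iv (g : GL ι F) : (g : Matrix ι ι F) * ((g⁻¹ : GL ι F) : Matrix ι ι F) = 1 := by
  rw [← Units.val_mul, mul_inv_cancel, Units.val_one]

/-- conjugation by an invertible matrix as an algebra automorphism -/
def conjAlg (g : GL ι F) : Matrix ι ι F ≃ₐ[F] Matrix ι ι F where
  toFun M := (g : Matrix ι ι F) * M * ((g⁻¹ : GL ι F) : Matrix ι ι F)
  invFun M := ((g⁻¹ : GL ι F) : Matrix ι ι F) * M * (g : Matrix ι ι F)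
  left_inv M := by
    show ((g⁻¹ : GL ι F) : Matrix ι ι F) * ((g : Matrix ι ι F) * M * ((g⁻¹ : GL ι F) : Matrix ι ι F)) * (g : Matrix ι ι F) = M
    rw [mul_assoc, mul_assoc, vi, mul_one, ← mul_assoc, vi, one_mul]
  right_inv M := by
    show (g : Matrix ι ι F) * (((g⁻¹ : GL ι F) : Matrix ι ι F) * M * (g : Matrix ι ι F)) * ((g⁻¹ : GL ι F) : Matrix ι ι F) = M
    rw [mul_assoc, mul_assoc, iv, mul_one, ← mul_assoc, iv, one_mul]
  map_mul' M N := by
    show (g : Matrix ι ι F) * (M * N) * ((g⁻¹ : GL ι F) : Matrix ι ι F) =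
      ((g : Matrix ι ι F) * M * ((g⁻¹ : GL ι F) : Matrix ι ι F)) *
      ((g : Matrix ι ι F) * N * ((g⁻¹ : GL ι F) : Matrix ι ι F))
    have : ((g : Matrix ι ι F) * M * ((g⁻¹ : GL ι F) : Matrix ι ι F)) *
      ((g : Matrix ι ι F) * N * ((g⁻¹ : GL ι F) : Matrix ι ι F)) =
      (g : Matrix ι ι F) * M * (((g⁻¹ : GL ι F) : Matrix ι ι F) *
      (g : Matrix ι ι F)) * N * ((g⁻¹ : GL ι F) : Matrix ι ι F) := by
      simp only [mul_assoc]
    rw [this, vi, mul_one]
    simp only [mul_assoc]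
  map_add' M N := by
    show (g : Matrix ι ι F) * (M + N) * ((g⁻¹ : GL ι F) : Matrix ι ι F) = _
    rw [mul_add, add_mul]
  commutes' c := by
    show (g : Matrix ι ι F) * (algebraMap F _ c) * ((g⁻¹ : GL ι F) : Matrix ι ι F) = _
    rw [Algebra.algebraMap_eq_smul_one, mul_smul_comm, mul_one, smul_mul_assoc, iv]

lemma conjAlg_apply (g : GL ι F) (M : Matrix ι ι F) :
    conjAlg g M = (g : Matrix ι ι F) * M * ((g⁻¹ : GL ι F) : Matrix ι ι F) := rfl

lemma conjAlg_symm_apply (g : GL ι F) (M : Matrix ι ι F) :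
    (conjAlg g).symm M = ((g⁻¹ : GL ι F) : Matrix ι ι F) * M * (g : Matrix ι ι F) := rfl

lemma conjAlg_val (g x : GL ι F) :
    conjAlg g (x : Matrix ι ι F) = ((g * x * g⁻¹ : GL ι F) : Matrix ι ι F) := by
  rw [conjAlg_apply, Units.val_mul, Units.val_mul]

/-! ### `NzA` -/

lemma NzA_inv_mem {H : Subgroup (GL ι F)} {A : Subalgebra F (Matrix ι ι F)}
    (hA : NzA H A) {h : GL ι F} (hh : h ∈ H) {a : Matrix ι ι F} (ha : a ∈ A) :
    ((h⁻¹ : GL ι F) : Matrix ι ι F) * a * (h : Matrix ι ι F) ∈ A := by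
  have := hA h⁻¹ (H.inv_mem hh) a ha
  rwa [inv_inv] at this

lemma NzA_le_subalgebraNormalizer {H : Subgroup (GL ι F)}
    {A : Subalgebra F (Matrix ι ι F)} (hA : NzA H A) : H ≤ subalgebraNormalizer A := by
  intro h hh k
  constructor
  · intro hk
    exact hA h hh k hk
  · intro hk
    have := NzA_inv_mem hA hh hk
    have e : ((h⁻¹ : GL ι F) : Matrix ι ι F) * ((h : Matrix ι ι F) * k *
      ((h⁻¹ : GL ι F) : Matrix ι ι F)) * (h : Matrix ι ι F) = k :=
      (conjAlg h).left_inv k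
    rwa [e] at this

lemma val_mem_env {T : Subgroup (GL ι F)} {t : GL ι F} (ht : t ∈ T) :
    (t : Matrix ι ι F) ∈ env T :=
  Algebra.subset_adjoin ⟨t, ht, rfl⟩

lemma env_le {T : Subgroup (GL ι F)} {A : Subalgebra F (Matrix ι ι F)}
    (h : ∀ t ∈ T, (t : Matrix ι ι F) ∈ A) : env T ≤ A := by
  apply Algebra.adjoin_le
  rintro _ ⟨t, ht, rfl⟩
  exact h t ht

lemma map_env (g : GL ι F) (T : Subgroup (GL ι F)) :
    (env T).map (conjAlg g).toAlgHom = env (cj g T) := by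
  unfold env
  rw [AlgHom.map_adjoin]
  congr 1
  ext M
  constructor
  · rintro ⟨_, ⟨t, ht, rfl⟩, rfl⟩
    exact ⟨g * t * g⁻¹, conj_mem_cj ht, (conjAlg_val g t).symm⟩
  · rintro ⟨x, hx, rfl⟩
    obtain ⟨t, ht, rfl⟩ := hx
    exact ⟨_, ⟨t, ht, rfl⟩, conjAlg_val g t⟩

lemma conj_mem_env_cj {g : GL ι F} {T : Subgroup (GL ι F)} {M : Matrix ι ι F}
    (hM : M ∈ env T) : conjAlg g M ∈ env (cj g T) := by
  rw [← map_env]
  exact ⟨M, hM, rfl⟩

lemma mem_env_cj {g : GL ι F} {T : Subgroup (GL ι F)} {M : Matrix ι ι F}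
    (hM : M ∈ env (cj g T)) : ∃ M₀ ∈ env T, M = conjAlg g M₀ := by
  rw [← map_env] at hM
  obtain ⟨M₀, h0, rfl⟩ := hM
  exact ⟨M₀, h0, rfl⟩

lemma NzA_env {H T : Subgroup (GL ι F)} (hT : Nz H T) : NzA H (env T) := by
  intro h hh a ha
  have h1 : conjAlg h a ∈ env (cj h T) := conj_mem_env_cj ha
  have h2 : cj h T = T := cj_eq_of_NzG (H := H) hT hh
  rw [h2] at h1
  exact h1

/-- elementwise commuting groups have elementwise commuting enveloping algebras -/
lemma commute_env {T₁ T₂ : Subgroup (GL ι F)} (h : ∀ x ∈ T₁, ∀ y ∈ T₂, x * y = y * x)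
    {a b : Matrix ι ι F} (ha : a ∈ env T₁) (hb : b ∈ env T₂) : a * b = b * a := by
  have h1 : env T₂ ≤ Subalgebra.centralizer F (matrixSet T₁) := by
    apply env_le
    intro y hy
    rw [Subalgebra.mem_centralizer_iff]
    rintro _ ⟨x, hx, rfl⟩
    rw [← Units.val_mul, ← Units.val_mul, h x hx y hy]
  have h2 : env T₁ ≤ Subalgebra.centralizer F ({b} : Set (Matrix ι ι F)) := by
    apply env_le
    intro x hx
    rw [Subalgebra.mem_centralizer_iff]
    rintro _ rfl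
    have := (Subalgebra.mem_centralizer_iff F).1 (h1 hb) _ ⟨x, hx, rfl⟩
    exact this.symm
  have := (Subalgebra.mem_centralizer_iff F).1 (h2 ha) b rfl
  exact this.symm

/-- a matrix commuting with the group commutes with its enveloping algebra -/
lemma commute_env_of_commute {T : Subgroup (GL ι F)} {M : Matrix ι ι F}
    (h : ∀ s ∈ matrixSet T, M * s = s * M) {a : Matrix ι ι F} (ha : a ∈ env T) :
    M * a = a * M := by
  have h2 : env T ≤ Subalgebra.centralizer F ({M} : Set (Matrix ι ι F)) := by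
    apply env_le
    intro x hx
    rw [Subalgebra.mem_centralizer_iff]
    rintro _ rfl
    exact h _ ⟨x, hx, rfl⟩
  exact (Subalgebra.mem_centralizer_iff F).1 (h2 ha) M rfl

/-- the centre of a subalgebra, as a subalgebra of the matrix algebra -/
def cen (A : Subalgebra F (Matrix ι ι F)) : Subalgebra F (Matrix ι ι F) :=
  A ⊓ Subalgebra.centralizer F (A : Set (Matrix ι ι F))

lemma mem_cen {A : Subalgebra F (Matrix ι ι F)} {z : Matrix ι ι F} :
    z ∈ cen A ↔ z ∈ A ∧ ∀ a ∈ A, z * a = a * z := by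
  unfold cen
  rw [Algebra.mem_inf, Subalgebra.mem_centralizer_iff]
  constructor
  · rintro ⟨h1, h2⟩
    exact ⟨h1, fun a ha => (h2 a ha).symm⟩
  · rintro ⟨h1, h2⟩
    exact ⟨h1, fun a ha => (h2 a ha).symm⟩

lemma cen_comm {A : Subalgebra F (Matrix ι ι F)} :
    ∀ x ∈ cen A, ∀ y ∈ cen A, x * y = y * x := by
  intro x hx y hy
  exact (mem_cen.1 hx).2 y (mem_cen.1 hy).1

lemma NzA_cen {H : Subgroup (GL ι F)} {A : Subalgebra F (Matrix ι ι F)}
    (hA : NzA H A) : NzA H (cen A) := by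
  intro h hh z hz
  rw [mem_cen] at hz ⊢
  refine ⟨hA h hh z hz.1, fun a ha => ?_⟩
  have h1 := hz.2 _ (NzA_inv_mem hA hh ha)
  have h3 : conjAlg h (((h⁻¹ : GL ι F) : Matrix ι ι F) * a * (h : Matrix ι ι F)) = a :=
    (conjAlg h).right_inv a
  generalize ((h⁻¹ : GL ι F) : Matrix ι ι F) * a * (h : Matrix ι ι F) = a' at h1 h3
  have h2 := congrArg (conjAlg h) h1
  rw [map_mul, map_mul, h3] at h2
  exact h2

/-! ### `tens` -/

section tens

variable {κ₁ κ₂ : Type} [Fintype κ₁] [Fintype κ₂] [DecidableEq κ₁] [DecidableEq κ₂]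
  (e : ι ≃ κ₁ × κ₂) (P : GL ι F)

lemma tens_eq (a : Matrix κ₁ κ₁ F) (b : Matrix κ₂ κ₂ F) :
    tens e P a b = conjAlg P (Matrix.reindexAlgEquiv F F e.symm (a ⊗ₖ b)) := rfl

lemma tens_mul (a a' : Matrix κ₁ κ₁ F) (b b' : Matrix κ₂ κ₂ F) :
    tens e P a b * tens e P a' b' = tens e P (a * a') (b * b') := by
  rw [tens_eq, tens_eq, tens_eq, ← map_mul, ← map_mul, Matrix.mul_kronecker_mul]

lemma tens_one : tens e P (1 : Matrix κ₁ κ₁ F) (1 : Matrix κ₂ κ₂ F) = 1 := by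
  rw [tens_eq, Matrix.one_kronecker_one, map_one, map_one]

lemma tens_smul_left (c : F) (a : Matrix κ₁ κ₁ F) (b : Matrix κ₂ κ₂ F) :
    tens e P (c • a) b = c • tens e P a b := by
  rw [tens_eq, tens_eq, Matrix.smul_kronecker, map_smul, map_smul]

lemma tens_smul_right (c : F) (a : Matrix κ₁ κ₁ F) (b : Matrix κ₂ κ₂ F) :
    tens e P a (c • b) = c • tens e P a b := by
  rw [tens_eq, tens_eq, Matrix.kronecker_smul, map_smul, map_smul]

lemma tens_add_left (a a' : Matrix κ₁ κ₁ F) (b : Matrix κ₂ κ₂ F) :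
    tens e P (a + a') b = tens e P a b + tens e P a' b := by
  rw [tens_eq, tens_eq, tens_eq, Matrix.add_kronecker, map_add, map_add]

lemma tens_add_right (a : Matrix κ₁ κ₁ F) (b b' : Matrix κ₂ κ₂ F) :
    tens e P a (b + b') = tens e P a b + tens e P a b' := by
  rw [tens_eq, tens_eq, tens_eq, Matrix.kronecker_add, map_add, map_add]

lemma tens_injective {M M' : Matrix (κ₁ × κ₂) (κ₁ × κ₂) F}
    (h : conjAlg P (Matrix.reindexAlgEquiv F F e.symm M) = conjAlg P (Matrix.reindexAlgEquiv F F e.symm M')) :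
    M = M' :=
  (Matrix.reindexAlgEquiv F F e.symm).injective ((conjAlg P).injective h)

end tens

lemma mem_tensorProductSubgroup_iff {d s : ℕ} (e : ι ≃ Fin d × Fin s) (P g : GL ι F) :
    g ∈ tensorProductSubgroup d s e P ↔ ∃ (a : GL (Fin d) F) (b : GL (Fin s) F),
      (g : Matrix ι ι F) = tens e P (a : Matrix (Fin d) (Fin d) F) (b : Matrix (Fin s) (Fin s) F) := by
  unfold tensorProductSubgroup
  constructor
  · rintro ⟨_, ⟨x, ⟨a, b, hx⟩, rfl⟩, rfl⟩
    refine ⟨a, b, ?_⟩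
    rw [tens_eq, ← hx]
    rfl
  · rintro ⟨a, b, hg⟩
    have hu : IsUnit ((a : Matrix (Fin d) (Fin d) F) ⊗ₖ (b : Matrix (Fin s) (Fin s) F)) := by
      refine ⟨⟨(a : Matrix (Fin d) (Fin d) F) ⊗ₖ (b : Matrix (Fin s) (Fin s) F),
        ((a⁻¹ : GL (Fin d) F) : Matrix (Fin d) (Fin d) F) ⊗ₖ ((b⁻¹ : GL (Fin s) F) : Matrix (Fin s) (Fin s) F), ?_, ?_⟩, rfl⟩
      · rw [← Matrix.mul_kronecker_mul, ← Units.val_mul, ← Units.val_mul, mul_inv_cancel, mul_inv_cancel,
          Units.val_one, Units.val_one, Matrix.one_kronecker_one]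
      · rw [← Matrix.mul_kronecker_mul, ← Units.val_mul, ← Units.val_mul, inv_mul_cancel, inv_mul_cancel,
          Units.val_one, Units.val_one, Matrix.one_kronecker_one]
    obtain ⟨x, hx⟩ := hu
    refine ⟨(glReindex e.symm) x, ⟨x, ⟨a, b, hx⟩, rfl⟩, ?_⟩
    apply Units.ext
    rw [hg, tens_eq, ← hx]
    rfl

lemma mem_tensorWreathSubgroup_iff {m k : ℕ} (e : ι ≃ (Fin k → Fin m)) (P g : GL ι F) :
    g ∈ tensorWreathSubgroup m k e P ↔ (glReindex e) (P⁻¹ * g * P) ∈ tensorWreathStandard m k F := by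
  unfold tensorWreathSubgroup
  constructor
  · rintro ⟨_, ⟨x, hx, rfl⟩, rfl⟩
    have : (glReindex e) (P⁻¹ * ((MulAut.conj P).toMonoidHom ((glReindex e.symm).toMonoidHom x)) * P) = x := by
      have h1 : P⁻¹ * ((MulAut.conj P).toMonoidHom ((glReindex e.symm).toMonoidHom x)) * P =
          (glReindex e.symm) x := by
        show P⁻¹ * (P * (glReindex e.symm) x * P⁻¹) * P = _
        group
      rw [h1]
      apply Units.ext
      ext i j
      simp [glReindex]
    rw [this]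
    exact hx
  · intro h
    refine ⟨(glReindex e.symm) ((glReindex e) (P⁻¹ * g * P)), ⟨_, h, rfl⟩, ?_⟩
    have h1 : (glReindex e.symm) ((glReindex e) (P⁻¹ * g * P)) = P⁻¹ * g * P := by
      apply Units.ext
      ext i j
      simp [glReindex]
    rw [h1]
    show P * (P⁻¹ * g * P) * P⁻¹ = g
    group

end Cfsg.Agent.Lib.Helper98AschGBasic
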