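import Cfsg.Agent.Lib.Helper97OProper
import Cfsg.Agent.Lib.Helper98AschGBasic
import Cfsg.Agent.Lib.Helper12AschNotSLWreath

set_option autoImplicit false

/-! PROJECT 5 = ASCH-O, piece `pwreath`. -/

namespace Cfsg.Agent.Lib.Helper15OPwreath

open Cfsg Cfsg.Geo Matrix
open Cfsg.Agent.Lib.Helper97GBase Cfsg.Agent.Lib.Helper97GForms
  Cfsg.Agent.Lib.Helper98AschGDefs Cfsg.Agent.Lib.Helper98AschGBasic
  Cfsg.Agent.Lib.Helper97OBase Cfsg.Agent.Lib.Helper97OProper
  Cfsg.Agent.Lib.Helper12AschNotSLWreath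
open scoped MatrixGroups

variable {ι : Type} [Fintype ι] [DecidableEq ι] {F : Type*} [Field F]
variable {Q : (ι → F) → F}

/-- contraction of pure tensors -/
lemma contract {t m : ℕ} (φ z : Fin t → Fin m → F) :
    ∑ a : Fin t → Fin m, (∏ i, φ i (a i)) * ∏ i, z i (a i) = ∏ i, ∑ p, φ i p * z i p := by
  rw [Finset.prod_univ_sum, Fintype.piFinset_univ]
  exact Finset.sum_congr rfl fun p _ => (Finset.prod_mul_distrib).symm

/-- a bilinear form in terms of its Gram matrix -/
lemma form_eq_gram {m : ℕ} {f₁ : (Fin m → F) → (Fin m → F) → F} (hb : IsBilinearForm f₁)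
    (x y : Fin m → F) : f₁ x y = ∑ p, x p * ∑ q, gramMatrix f₁ p q * y q := by
  have hz : ∀ v, f₁ 0 v = 0 := fun v => by
    have := hb.smul_left 0 0 v
    simpa using this
  have hz' : ∀ v, f₁ v 0 = 0 := fun v => by
    have := hb.smul_right 0 v 0
    simpa using this
  have hl : ∀ (s : Finset (Fin m)) (g : Fin m → Fin m → F) (v : Fin m → F),
      f₁ (∑ p ∈ s, g p) v = ∑ p ∈ s, f₁ (g p) v := by
    intro s g v
    induction s using Finset.induction_on with
    | empty => simp [hz]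
    | insert a s ha ih => rw [Finset.sum_insert ha, Finset.sum_insert ha, hb.add_left, ih]
  have hr : ∀ (s : Finset (Fin m)) (g : Fin m → Fin m → F) (v : Fin m → F),
      f₁ v (∑ p ∈ s, g p) = ∑ p ∈ s, f₁ v (g p) := by
    intro s g v
    induction s using Finset.induction_on with
    | empty => simp [hz']
    | insert a s ha ih => rw [Finset.sum_insert ha, Finset.sum_insert ha, hb.add_right, ih]
  have ex : ∀ v : Fin m → F, v = ∑ p, v p • (Pi.single p (1 : F) : Fin m → F) := by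
    intro v
    funext j
    simp [Finset.sum_apply, Pi.single_apply]
  conv_lhs => rw [ex x, hl]
  refine Finset.sum_congr rfl fun p _ => ?_
  rw [hb.smul_left]
  congr 1
  conv_lhs => rw [ex y, hr]
  refine Finset.sum_congr rfl fun q _ => ?_
  rw [hb.smul_right, mul_comm]
  rfl

/-- the tensor power form on pure tensors -/
lemma form_pure {t m : ℕ} {f₁ : (Fin m → F) → (Fin m → F) → F} (hb : IsBilinearForm f₁)
    (x y : Fin t → Fin m → F) :
    ∑ a : Fin t → Fin m, ∑ b : Fin t → Fin m,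
      (∏ i, x i (a i)) * (∏ i, gramMatrix f₁ (a i) (b i)) * id (∏ i, y i (b i)) =
      ∏ i, f₁ (x i) (y i) := by
  have h1 : ∀ a : Fin t → Fin m, ∑ b : Fin t → Fin m,
      (∏ i, x i (a i)) * (∏ i, gramMatrix f₁ (a i) (b i)) * id (∏ i, y i (b i)) =
      (∏ i, x i (a i)) * ∏ i, (∑ q, gramMatrix f₁ (a i) q * y i q) := by
    intro a
    rw [← contract (fun i => gramMatrix f₁ (a i)) y, Finset.mul_sum]
    refine Finset.sum_congr rfl fun b _ => ?_
    simp only [id, mul_assoc]
  simp only [h1]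
  rw [contract x (fun i p => ∑ q, gramMatrix f₁ p q * y i q)]
  refine Finset.prod_congr rfl fun i _ => ?_
  rw [form_eq_gram hb]

/-- functionals separating independent vectors -/
lemma exists_functional {m : ℕ} {x y : Fin m → F} (hx : x ∉ Submodule.span F {y}) :
    ∃ φ : Fin m → F, (∑ p, φ p * x p) ≠ 0 ∧ (∑ p, φ p * y p) = 0 := by
  obtain ⟨f, hfx, hf⟩ := Submodule.exists_dual_map_eq_bot_of_notMem hx inferInstance
  have hfy : f y = 0 := by
    have : f y ∈ (Submodule.span F {y}).map f := ⟨y, Submodule.mem_span_singleton_self y, rfl⟩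
    rw [hf] at this
    simpa using this
  have key : ∀ v : Fin m → F, f v = ∑ p, f (Pi.single p 1) * v p := by
    intro v
    rw [LinearMap.pi_apply_eq_sum_univ f v]
    refine Finset.sum_congr rfl fun p _ => ?_
    rw [smul_eq_mul, mul_comm]
    congr 2
    funext j
    simp [Pi.single_apply, eq_comm]
  exact ⟨fun p => f (Pi.single p 1), by rw [← key]; exact hfx, by rw [← key]; exact hfy⟩

/-- `x^{⊗t} - λ y^{⊗t}` is not pure -/
lemma not_pure_sub {t m : ℕ} (ht : 2 ≤ t) {x y : Fin m → F} (hx : x ∉ Submodule.span F {y})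
    (hy : y ∉ Submodule.span F {x}) {l : F} (hl : l ≠ 0) :
    ¬ Pure (fun a : Fin t → Fin m => (∏ i, x (a i)) - l * ∏ i, y (a i)) := by
  rintro ⟨z, hz⟩
  obtain ⟨φ, hφx, hφy⟩ := exists_functional hx
  obtain ⟨ψ, hψy, hψx⟩ := exists_functional hy
  have key : ∀ Φ : Fin t → Fin m → F, (∏ i, ∑ p, Φ i p * x p) - l * (∏ i, ∑ p, Φ i p * y p) =
      ∏ i, ∑ p, Φ i p * z i p := by
    intro Φ
    rw [← contract Φ z, ← contract Φ (fun _ => x), ← contract Φ (fun _ => y), Finset.mul_sum,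
      ← Finset.sum_sub_distrib]
    refine Finset.sum_congr rfl fun a _ => ?_
    rw [← hz a]
    ring
  let i0 : Fin t := ⟨0, by omega⟩
  let i1 : Fin t := ⟨1, by omega⟩
  have hi : i1 ≠ i0 := by
    intro h
    simpa [i0, i1] using congrArg Fin.val h
  have h1 := key (fun _ => φ)
  have h2 := key (fun _ => ψ)
  have h3 := key (fun i => if i = i0 then ψ else φ)
  have e1 : (∏ _i : Fin t, ∑ p, φ p * y p) = 0 := Finset.prod_eq_zero (Finset.mem_univ i0) hφy
  have e2 : (∏ _i : Fin t, ∑ p, ψ p * x p) = 0 := Finset.prod_eq_zero (Finset.mem_univ i0) hψx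
  have e3 : (∏ i : Fin t, ∑ p, (if i = i0 then ψ else φ) p * x p) = 0 :=
    Finset.prod_eq_zero (Finset.mem_univ i0) (by rw [if_pos rfl]; exact hψx)
  have e4 : (∏ i : Fin t, ∑ p, (if i = i0 then ψ else φ) p * y p) = 0 :=
    Finset.prod_eq_zero (Finset.mem_univ i1) (by rw [if_neg hi]; exact hφy)
  rw [e1, mul_zero, sub_zero] at h1
  rw [e2, zero_sub] at h2
  rw [e3, e4, mul_zero, sub_zero] at h3
  have n1 : (∏ i : Fin t, ∑ p, φ p * z i p) ≠ 0 := by
    rw [← h1]
    exact Finset.prod_ne_zero_iff.2 fun _ _ => hφx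
  have n2 : (∏ i : Fin t, ∑ p, ψ p * z i p) ≠ 0 := by
    rw [← h2]
    exact neg_ne_zero.2 (mul_ne_zero hl (Finset.prod_ne_zero_iff.2 fun _ _ => hψy))
  rw [Finset.prod_ne_zero_iff] at n1 n2
  refine (Finset.prod_ne_zero_iff.2 fun i _ => ?_) h3.symm
  by_cases h : i = i0
  · rw [if_pos h]; exact n2 i (Finset.mem_univ i)
  · rw [if_neg h]; exact n1 i (Finset.mem_univ i)

/-- the vectors of the small space -/
lemma exists_xy {m : ℕ} (hm : 2 ≤ m) (h2 : (2 : F) ≠ 0) {f₁ : (Fin m → F) → (Fin m → F) → F}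
    (hf₁ : IsSymmetricForm f₁) :
    ∃ x y : Fin m → F, f₁ y y ≠ 0 ∧ f₁ y x ≠ 0 ∧ x ∉ Submodule.span F {y} ∧
      y ∉ Submodule.span F {x} := by
  have hb := hf₁.bilinear
  obtain ⟨y, hy⟩ : ∃ y, f₁ y y ≠ 0 := by
    by_contra hcon
    push Not at hcon
    have hu : (Pi.single ⟨0, by omega⟩ 1 : Fin m → F) ≠ 0 := by
      intro h
      have := congrFun h ⟨0, by omega⟩
      simp at this
    obtain ⟨w, hw⟩ := (hf₁.nondegenerate _ hu).2
    set u : Fin m → F := Pi.single ⟨0, by omega⟩ 1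
    have h := hcon (u + w)
    rw [hb.add_left, hb.add_right, hb.add_right, hcon u, hcon w, hf₁.symm w u] at h
    apply hw
    have : 2 * f₁ u w = 0 := by linear_combination h
    exact (mul_eq_zero.1 this).resolve_left h2
  have hy0 : y ≠ 0 := by
    rintro rfl
    apply hy
    have := hb.smul_left 0 0 (0 : Fin m → F)
    simpa using this
  obtain ⟨s, hs⟩ : ∃ s, s ∉ Submodule.span F {y} := by
    by_contra hcon
    push Not at hcon
    have htop : Submodule.span F {y} = ⊤ := Submodule.eq_top_iff'.2 hcon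
    have h1 := finrank_span_singleton (K := F) hy0
    rw [htop, finrank_top, Module.finrank_fintype_fun_eq_card, Fintype.card_fin] at h1
    omega
  set μ : F := 1 - f₁ y s / f₁ y y with hμ
  have hx : s + μ • y ∉ Submodule.span F {y} := by
    intro h
    apply hs
    have := Submodule.sub_mem _ h (Submodule.smul_mem _ μ (Submodule.mem_span_singleton_self y))
    simpa using this
  refine ⟨s + μ • y, y, hy, ?_, hx, ?_⟩
  · rw [hb.add_right, hb.smul_right, hμ]
    field_simp
    simpa using hy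
  · intro h
    obtain ⟨κ, hκ⟩ := Submodule.mem_span_singleton.1 h
    have hκ0 : κ ≠ 0 := by
      rintro rfl
      rw [zero_smul] at hκ
      exact hy0 hκ.symm
    apply hx
    rw [Submodule.mem_span_singleton]
    refine ⟨κ⁻¹, ?_⟩
    conv_lhs => rw [← hκ]
    rw [smul_smul, inv_mul_cancel₀ hκ0, one_smul]

lemma glReindex_mulVec {κ : Type} [Fintype κ] [DecidableEq κ] (e : ι ≃ κ) (T : GL ι F) (x : κ → F) :
    ((glReindex e T : GL κ F) : Matrix κ κ F) *ᵥ x = ((T : Matrix ι ι F) *ᵥ (x ∘ e)) ∘ e.symm := by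
  funext i
  simp only [Matrix.mulVec, dotProduct, Function.comp]
  rw [← Equiv.sum_comp e]
  refine Finset.sum_congr rfl fun j _ => ?_
  simp [glReindex]

/-- [pwreath] `Ω` does not lie in the stabiliser of a tensor power decomposition of the form. -/
theorem not_le_tensorWreath [Finite F] (hQ : IsNondegenerateQuadraticForm Q) (h2 : (2 : F) ≠ 0)
    (hn : 7 ≤ Fintype.card ι) {m t : ℕ} (hm : 2 ≤ m) (ht : 2 ≤ t) (e : ι ≃ (Fin t → Fin m)) (P : GL ι F)
    (f₁ : (Fin m → F) → (Fin m → F) → F) (hf₁ : IsSymmetricForm f₁)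
    (hstr : IsTensorPowerFormStructure id (QuadraticMap.polar Q) f₁ e P) :
    ¬ omegaGL Q ≤ tensorWreathSubgroup m t e P := by
  intro hle
  obtain ⟨c, hc, hform⟩ := hstr
  obtain ⟨x, y, hyy, hyx, hx, hy⟩ := exists_xy hm h2 hf₁
  set X : (Fin t → Fin m) → F := fun a => ∏ i, x (a i) with hX
  set Y : (Fin t → Fin m) → F := fun a => ∏ i, y (a i) with hY
  set a : ι → F := (P : Matrix ι ι F) *ᵥ (Y ∘ e) with ha
  set v : ι → F := (P : Matrix ι ι F) *ᵥ (X ∘ e) with hv
  have haa : QuadraticMap.polar Q a a = c * f₁ y y ^ t := by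
    rw [ha, hform, hY, form_pure hf₁.bilinear (fun _ => y) (fun _ => y)]
    simp
  have hav : QuadraticMap.polar Q a v = c * f₁ y x ^ t := by
    rw [ha, hv, hform, hY, hX, form_pure hf₁.bilinear (fun _ => y) (fun _ => x)]
    simp
  have hQa : Q a ≠ 0 := by
    intro h0
    rw [polar_self hQ, h0, mul_zero] at haa
    exact mul_ne_zero hc (pow_ne_zero t hyy) haa.symm
  have hav0 : QuadraticMap.polar Q a v ≠ 0 := by
    rw [hav]
    exact mul_ne_zero hc (pow_ne_zero t hyx)
  obtain ⟨b, hbv, -, hQb⟩ := exists_perp_two hQ hn v v (Q a)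
  have hQb0 : Q b ≠ 0 := by rw [hQb]; exact hQa
  have hg := hle (rr_mem hQ h2 a b hQa hQb0 hQb.symm)
  rw [mem_tensorWreathSubgroup_iff] at hg
  have hpure := (pure_iff_of_mem hg X).1 ⟨fun _ => x, fun _ => rfl⟩
  set l : F := (Q a)⁻¹ * QuadraticMap.polar Q a v with hl
  have hl0 : l ≠ 0 := mul_ne_zero (inv_ne_zero hQa) hav0
  apply not_pure_sub ht hx hy hl0
  convert hpure using 1
  rw [glReindex_mulVec, Units.val_mul, Units.val_mul, Units.val_mul, ← Matrix.mulVec_mulVec,
    ← Matrix.mulVec_mulVec, ← Matrix.mulVec_mulVec, ← hv, rf_fix hQ b hQb0 hbv, rf_mulVec, ← hl,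
    Matrix.mulVec_sub, Matrix.mulVec_smul, hv, ha, Helper97GBase.inv_mulVec_mulVec,
    Helper97GBase.inv_mulVec_mulVec]
  funext z
  simp [hX, hY]

end Cfsg.Agent.Lib.Helper15OPwreath
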