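import Mathlib

/-!
Project 71 part 2, piece R1: nonabelian normal subgroups of a regular linear group are irreducible.
-/

set_option autoImplicit false

namespace Cfsg.Agent.Lib.Helper15RgR1

open Subgroup

variable {p : ℕ} [Fact p.Prime] {V : Type*} [AddCommGroup V] [Module (ZMod p) V] [Finite V]
  (H : Subgroup (V ≃ₗ[ZMod p] V))

/-- `N`-invariant submodules -/
def Inv {H : Subgroup (V ≃ₗ[ZMod p] V)} (N : Subgroup H) (W : Submodule (ZMod p) V) : Prop :=
  ∀ n ∈ N, ∀ v ∈ W, ((n : H) : V ≃ₗ[ZMod p] V) v ∈ W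

/-- the smallest invariant submodule containing `v` -/
def U {H : Subgroup (V ≃ₗ[ZMod p] V)} (N : Subgroup H) (v : V) : Submodule (ZMod p) V :=
  sInf {W | Inv N W ∧ v ∈ W}

omit [Finite V] in
theorem mem_U {H : Subgroup (V ≃ₗ[ZMod p] V)} (N : Subgroup H) (v : V) : v ∈ U N v := by
  rw [U, Submodule.mem_sInf]
  exact fun W hW => hW.2

omit [Finite V] in
theorem inv_U {H : Subgroup (V ≃ₗ[ZMod p] V)} (N : Subgroup H) (v : V) : Inv N (U N v) := by
  intro n hn x hx
  rw [U, Submodule.mem_sInf] at hx ⊢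
  exact fun W hW => hW.1 n hn x (hx W hW)

omit [Finite V] in
theorem U_le {H : Subgroup (V ≃ₗ[ZMod p] V)} (N : Subgroup H) {v : V} {W : Submodule (ZMod p) V}
    (hW : Inv N W) (hv : v ∈ W) : U N v ≤ W := sInf_le ⟨hW, hv⟩

omit [Finite V] in
theorem inv_map {H : Subgroup (V ≃ₗ[ZMod p] V)} (N : Subgroup H) (hN : N.Normal) (h : H)
    {W : Submodule (ZMod p) V} (hW : Inv N W) :
    Inv N (W.map ((h : V ≃ₗ[ZMod p] V) : V →ₗ[ZMod p] V)) := by
  rintro n hn _ ⟨w, hw, rfl⟩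
  refine ⟨(((h⁻¹ * n * h : H)) : V ≃ₗ[ZMod p] V) w, hW _ ?_ w hw, ?_⟩
  · have := hN.conj_mem n hn h⁻¹
    rwa [inv_inv] at this
  · have h1 : h * (h⁻¹ * n * h) = n * h := by group
    have h2 := congrArg (fun g : H => (g : V ≃ₗ[ZMod p] V) w) h1
    exact h2

omit [Finite V] in
theorem U_map {H : Subgroup (V ≃ₗ[ZMod p] V)} (N : Subgroup H) (hN : N.Normal) (h : H) (v : V) :
    U N ((h : V ≃ₗ[ZMod p] V) v) = (U N v).map ((h : V ≃ₗ[ZMod p] V) : V →ₗ[ZMod p] V) := by
  apply le_antisymm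
  · exact U_le N (inv_map N hN h (inv_U N v)) ⟨v, mem_U N v, rfl⟩
  · have h1 : U N v ≤ (U N ((h : V ≃ₗ[ZMod p] V) v)).map
        (((h⁻¹ : H) : V ≃ₗ[ZMod p] V) : V →ₗ[ZMod p] V) := by
      apply U_le N (inv_map N hN h⁻¹ (inv_U N _))
      refine ⟨_, mem_U N _, ?_⟩
      have h1 : h⁻¹ * h = 1 := by group
      exact congrArg (fun g : H => (g : V ≃ₗ[ZMod p] V) v) h1
    rintro _ ⟨x, hx, rfl⟩
    obtain ⟨y, hy, rfl⟩ := h1 hx
    have h2 : h * h⁻¹ = 1 := by group
    have h3 : ((h : V ≃ₗ[ZMod p] V) : V →ₗ[ZMod p] V)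
        ((((h⁻¹ : H) : V ≃ₗ[ZMod p] V) : V →ₗ[ZMod p] V) y) = y :=
      congrArg (fun g : H => (g : V ≃ₗ[ZMod p] V) y) h2
    rw [h3]
    exact hy

theorem irreducible_of_normal
    (hreg : ∀ v w : V, v ≠ 0 → w ≠ 0 → ∃! h : H, (h : V ≃ₗ[ZMod p] V) v = w)
    (N : Subgroup H) (hN : N.Normal) (hna : ¬ IsMulCommutative N)
    (W : Submodule (ZMod p) V) (hW : ∀ n ∈ N, ∀ v ∈ W, ((n : H) : V ≃ₗ[ZMod p] V) v ∈ W) :
    W = ⊥ ∨ W = ⊤ := by
  classical
  by_contra hcon
  push Not at hcon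
  obtain ⟨hWbot, hWtop⟩ := hcon
  haveI : Module.Finite (ZMod p) V := Module.Finite.of_finite
  -- (a) a minimal nonzero invariant submodule
  let 𝒲 : Set (Submodule (ZMod p) V) := {W | W ≠ ⊥ ∧ Inv N W}
  have hne : 𝒲.Nonempty := ⟨W, hWbot, hW⟩
  obtain ⟨W0, hW0, hmin⟩ := (wellFounded_lt (α := Submodule (ZMod p) V)).has_min 𝒲 hne
  have hminU : ∀ u ∈ W0, u ≠ 0 → U N u = W0 := by
    intro u hu hu0
    by_contra hne'
    have hle : U N u ≤ W0 := U_le N hW0.2 hu
    refine hmin (U N u) ⟨?_, inv_U N u⟩ (lt_of_le_of_ne hle hne')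
    intro h
    have := mem_U N u
    rw [h, Submodule.mem_bot] at this
    exact hu0 this
  obtain ⟨w, hwW0, hw0⟩ := Submodule.exists_mem_ne_zero_of_ne_bot hW0.1
  -- (b)
  have hP : ∀ v : V, v ≠ 0 → ∀ u ∈ U N v, u ≠ 0 → U N u = U N v := by
    intro v hv u hu hu0
    obtain ⟨h, hh, -⟩ := hreg w v hw0 hv
    rw [← hh, U_map N hN] at hu ⊢
    obtain ⟨u', hu', rfl⟩ := hu
    have hu'0 : u' ≠ 0 := by
      rintro rfl
      exact hu0 (map_zero _)
    rw [hminU w hwW0 hw0] at hu' ⊢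
    have := U_map N hN h u'
    rw [hminU u' hu' hu'0] at this
    exact this
  -- (c)
  obtain ⟨v0, hv0W, hv00⟩ := Submodule.exists_mem_ne_zero_of_ne_bot hWbot
  have hUv0 : U N v0 ≠ ⊤ := by
    intro h
    apply hWtop
    rw [eq_top_iff, ← h]
    exact U_le N hW hv0W
  have hUtop : ∀ v : V, v ≠ 0 → U N v ≠ ⊤ := by
    intro v hv h
    obtain ⟨g, hg, -⟩ := hreg v v0 hv hv00
    apply hUv0
    rw [← hg, U_map N hN, h, Submodule.map_top, LinearMap.range_eq_top]
    exact (g : V ≃ₗ[ZMod p] V).surjective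
  let S : Set (Module.End (ZMod p) V) :=
    {f | ∃ n ∈ N, f = (((n : H) : V ≃ₗ[ZMod p] V) : V →ₗ[ZMod p] V)}
  let R := Algebra.adjoin (ZMod p) S
  have hRinv : ∀ r ∈ R, ∀ W' : Submodule (ZMod p) V, Inv N W' → ∀ x ∈ W', r x ∈ W' := by
    intro r hr W' hW'
    induction hr using Algebra.adjoin_induction with
    | mem f hf =>
      obtain ⟨n, hn, rfl⟩ := hf
      exact fun x hx => hW' n hn x hx
    | algebraMap c =>
      intro x hx
      rw [Module.algebraMap_end_apply]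
      exact W'.smul_mem c hx
    | add a b _ _ ha hb => exact fun x hx => W'.add_mem (ha x hx) (hb x hx)
    | mul a b _ _ ha hb => exact fun x hx => ha _ (hb x hx)
  have hclaim : ∀ r ∈ R, ∀ v1 : V, v1 ≠ 0 → r v1 = 0 → r = 0 := by
    intro r hr v1 hv1 hrv1
    have hout : ∀ v2 : V, v2 ∉ U N v1 → r v2 = 0 := by
      intro v2 hv2
      by_contra hrv2
      have hv20 : v2 ≠ 0 := by
        rintro rfl
        exact hv2 (U N v1).zero_mem
      have hsum0 : v1 + v2 ≠ 0 := by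
        intro h
        apply hv2
        have : v2 = -v1 := by rw [eq_neg_iff_add_eq_zero, add_comm]; exact h
        rw [this]
        exact (U N v1).neg_mem (mem_U N v1)
      have h1 : r (v1 + v2) = r v2 := by rw [map_add, hrv1, zero_add]
      have h2 : r v2 ∈ U N (v1 + v2) := by
        rw [← h1]
        exact hRinv r hr _ (inv_U N _) _ (mem_U N _)
      have h3 : r v2 ∈ U N v2 := hRinv r hr _ (inv_U N _) _ (mem_U N _)
      have h4 : U N (v1 + v2) = U N v2 := by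
        rw [← hP _ hsum0 _ h2 hrv2, ← hP _ hv20 _ h3 hrv2]
      have h5 : v1 ∈ U N v2 := by
        have h6 : v1 + v2 ∈ U N v2 := h4 ▸ mem_U N (v1 + v2)
        have := (U N v2).sub_mem h6 (mem_U N v2)
        rwa [add_sub_cancel_right] at this
      have h7 : U N v1 = U N v2 := hP _ hv20 _ h5 hv1
      exact hv2 (h7 ▸ mem_U N v2)
    obtain ⟨v2, hv2⟩ : ∃ v2, v2 ∉ U N v1 := by
      by_contra h
      push Not at h
      exact hUtop v1 hv1 (eq_top_iff.mpr fun x _ => h x)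
    ext u
    by_cases hu : u ∈ U N v1
    · have h1 : u + v2 ∉ U N v1 := by
        intro h
        apply hv2
        have := (U N v1).sub_mem h hu
        rwa [add_sub_cancel_left] at this
      have h2 := hout _ h1
      rw [map_add, hout v2 hv2, add_zero] at h2
      rw [h2]; rfl
    · rw [hout u hu]; rfl
  haveI : Finite (Module.End (ZMod p) V) :=
    Finite.of_injective (fun f : Module.End (ZMod p) V => (f : V → V)) DFunLike.coe_injective
  haveI : Finite R := Subtype.finite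
  haveI : Nontrivial V := ⟨⟨v0, 0, hv00⟩⟩
  haveI : Nontrivial R := inferInstance
  haveI : NoZeroDivisors R := by
    refine ⟨fun {a b} hab => ?_⟩
    by_cases hb : b = 0
    · exact Or.inr hb
    · left
      have hb' : (b : Module.End (ZMod p) V) ≠ 0 := fun h => hb (Subtype.ext h)
      obtain ⟨v, hv⟩ : ∃ v, (b : Module.End (ZMod p) V) v ≠ 0 := by
        by_contra h
        push Not at h
        exact hb' (LinearMap.ext h)
      apply Subtype.ext
      apply hclaim a a.2 _ hv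
      exact congrArg (fun g : R => (g : Module.End (ZMod p) V) v) hab
  haveI : IsDomain R := NoZeroDivisors.to_isDomain R
  have hfield := Finite.isDomain_to_isField R
  apply hna
  refine ⟨⟨fun a b => ?_⟩⟩
  apply Subtype.ext
  apply Subtype.ext
  ext u
  have ha : (((a : H) : V ≃ₗ[ZMod p] V) : V →ₗ[ZMod p] V) ∈ R :=
    Algebra.subset_adjoin ⟨a, a.2, rfl⟩
  have hb : (((b : H) : V ≃ₗ[ZMod p] V) : V →ₗ[ZMod p] V) ∈ R :=
    Algebra.subset_adjoin ⟨b, b.2, rfl⟩
  have := hfield.mul_comm ⟨_, ha⟩ ⟨_, hb⟩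
  exact congrArg (fun g : R => (g : Module.End (ZMod p) V) u) this

end Cfsg.Agent.Lib.Helper15RgR1
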