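import Mathlib

/-!
Project 71 part 2, piece R2: the centraliser of an irreducible nonabelian subgroup.
-/

set_option autoImplicit false

namespace Cfsg.Agent.Lib.Helper15RgR2

open Subgroup

variable {p : ℕ} [Fact p.Prime] {V : Type*} [AddCommGroup V] [Module (ZMod p) V] [Finite V]
  (H : Subgroup (V ≃ₗ[ZMod p] V))

theorem centralizer_field (N : Subgroup H) (hna : ¬ IsMulCommutative N)
    (hirr : ∀ W : Submodule (ZMod p) V,
      (∀ n ∈ N, ∀ v ∈ W, ((n : H) : V ≃ₗ[ZMod p] V) v ∈ W) → W = ⊥ ∨ W = ⊤) :
    ∃ e k : ℕ, 0 < e ∧ 2 ≤ k ∧ Nat.card V = (p ^ e) ^ k ∧ IsCyclic (centralizer (N : Set H)) ∧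
      Nat.card (centralizer (N : Set H)) ∣ p ^ e - 1 := by
  classical
  have hVnt : Nontrivial V := by
    by_contra h
    rw [not_nontrivial_iff_subsingleton] at h
    apply hna
    refine ⟨⟨fun a b => ?_⟩⟩
    apply Subtype.ext
    apply Subtype.ext
    ext v
    exact Subsingleton.elim _ _
  let S : Set (Module.End (ZMod p) V) :=
    {f | ∃ n ∈ N, f = (((n : H) : V ≃ₗ[ZMod p] V) : V →ₗ[ZMod p] V)}
  let D := Subalgebra.centralizer (ZMod p) S
  have hDmem : ∀ f : Module.End (ZMod p) V, f ∈ D ↔
      ∀ n ∈ N, ∀ v, ((n : H) : V ≃ₗ[ZMod p] V) (f v) = f (((n : H) : V ≃ₗ[ZMod p] V) v) := by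
    intro f
    rw [Subalgebra.mem_centralizer_iff]
    constructor
    · intro h n hn v
      exact congrArg (fun g : Module.End (ZMod p) V => g v) (h _ ⟨n, hn, rfl⟩)
    · rintro h _ ⟨n, hn, rfl⟩
      ext v
      exact h n hn v
  have hinj : ∀ f ∈ D, f ≠ 0 → Function.Injective f := by
    intro f hf hf0
    rw [← LinearMap.ker_eq_bot]
    rcases hirr (LinearMap.ker f) (by
      intro n hn v hv
      rw [LinearMap.mem_ker] at hv ⊢
      rw [← (hDmem f).mp hf n hn v, hv, map_zero]) with h | h
    · exact h
    · exact absurd (LinearMap.ker_eq_top.mp h) hf0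
  haveI : Finite (Module.End (ZMod p) V) :=
    Finite.of_injective (fun f : Module.End (ZMod p) V => (f : V → V)) DFunLike.coe_injective
  haveI : Finite D := Subtype.finite
  haveI : Nontrivial (Module.End (ZMod p) V) := inferInstance
  haveI : Nontrivial D := inferInstance
  haveI : NoZeroDivisors D := by
    refine ⟨fun {a b} hab => ?_⟩
    by_cases ha : a = 0
    · exact Or.inl ha
    · right
      have ha' : (a : Module.End (ZMod p) V) ≠ 0 := fun h => ha (Subtype.ext h)
      apply Subtype.ext
      ext v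
      apply hinj a a.2 ha'
      have := congrArg (fun g : D => (g : Module.End (ZMod p) V) v) hab
      simpa using this
  haveI : IsDomain D := NoZeroDivisors.to_isDomain D
  letI : Field D := (Finite.isDomain_to_isField D).toField
  haveI : Fintype D := Fintype.ofFinite D
  haveI : Fintype V := Fintype.ofFinite V
  have hcardV : Nat.card V = Nat.card D ^ Module.finrank D V := by
    rw [Nat.card_eq_fintype_card, Nat.card_eq_fintype_card]
    exact Module.card_eq_pow_finrank
  have hcardD : Nat.card D = p ^ Module.finrank (ZMod p) D := by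
    rw [Nat.card_eq_fintype_card]
    have := Module.card_eq_pow_finrank (K := ZMod p) (V := D)
    rwa [ZMod.card] at this
  have he : 0 < Module.finrank (ZMod p) D := Module.finrank_pos
  -- the centraliser maps to D
  let f : centralizer (N : Set H) →* D :=
    { toFun := fun c => ⟨(((c : H) : V ≃ₗ[ZMod p] V) : V →ₗ[ZMod p] V), by
        rw [hDmem]
        intro n hn v
        have h1 := mem_centralizer_iff.mp c.2 n hn
        have h2 := congrArg (fun g : H => (g : V ≃ₗ[ZMod p] V) v) h1
        exact h2⟩
      map_one' := rfl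
      map_mul' := fun a b => rfl }
  have hf : Function.Injective f := by
    intro a b hab
    apply Subtype.ext
    apply Subtype.ext
    ext v
    exact congrArg (fun g : D => (g : Module.End (ZMod p) V) v) hab
  haveI : Finite (V ≃ₗ[ZMod p] V) :=
    Finite.of_injective (fun f : V ≃ₗ[ZMod p] V => (f : V → V)) DFunLike.coe_injective
  have hcyc : IsCyclic (centralizer (N : Set H)) := isCyclic_of_injective_ringHom f hf
  have hdvd : Nat.card (centralizer (N : Set H)) ∣ p ^ Module.finrank (ZMod p) D - 1 := by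
    rw [← hcardD, ← Nat.card_units]
    refine Subgroup.card_dvd_of_injective f.toHomUnits ?_
    intro a b hab
    apply hf
    have := congrArg (fun u : Dˣ => (u : D)) hab
    simpa using this
  refine ⟨Module.finrank (ZMod p) D, Module.finrank D V, he, ?_, by rw [hcardV, hcardD], hcyc, hdvd⟩
  by_contra hk
  have hk' : Module.finrank D V = 0 ∨ Module.finrank D V = 1 := by omega
  rcases hk' with hk0 | hk1
  · rw [hk0, pow_zero] at hcardV
    have := Finite.one_lt_card (α := V)
    omega
  · rw [hk1, pow_one] at hcardV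
    obtain ⟨v, hv⟩ := exists_ne (0 : V)
    have hbij : Function.Bijective (fun g : D => (g : Module.End (ZMod p) V) v) := by
      rw [Fintype.bijective_iff_injective_and_card]
      refine ⟨?_, by rw [← Nat.card_eq_fintype_card, ← Nat.card_eq_fintype_card, hcardV]⟩
      intro a b hab
      by_contra hne
      have h1 : (a - b : D) ≠ 0 := sub_ne_zero.mpr hne
      have h2 : ((a - b : D) : Module.End (ZMod p) V) ≠ 0 := fun h => h1 (Subtype.ext h)
      have h3 := hinj _ (a - b).2 h2
      apply hv
      apply h3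
      simp only [map_zero]
      have : (a : Module.End (ZMod p) V) v = (b : Module.End (ZMod p) V) v := hab
      simp [this]
    apply hna
    refine ⟨⟨fun a b => ?_⟩⟩
    apply Subtype.ext
    apply Subtype.ext
    ext u
    obtain ⟨g, hg⟩ := hbij.2 u
    obtain ⟨fa, hfa⟩ := hbij.2 (((a : H) : V ≃ₗ[ZMod p] V) v)
    obtain ⟨fb, hfb⟩ := hbij.2 (((b : H) : V ≃ₗ[ZMod p] V) v)
    simp only at hg hfa hfb
    have hA := fun (x : D) w => (hDmem x).mp x.2 a a.2 w
    have hB := fun (x : D) w => (hDmem x).mp x.2 b b.2 w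
    have hcomm : (fa : Module.End (ZMod p) V) ((fb : Module.End (ZMod p) V) v) =
        (fb : Module.End (ZMod p) V) ((fa : Module.End (ZMod p) V) v) := by
      have := congrArg (fun x : D => (x : Module.End (ZMod p) V) v) (mul_comm fa fb)
      exact this
    show ((a : H) : V ≃ₗ[ZMod p] V) (((b : H) : V ≃ₗ[ZMod p] V) u) =
      ((b : H) : V ≃ₗ[ZMod p] V) (((a : H) : V ≃ₗ[ZMod p] V) u)
    rw [← hg, hB, hA, hA, hB, ← hfb, ← hfa, hA, hB, ← hfa, ← hfb, hcomm]

end Cfsg.Agent.Lib.Helper15RgR2
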