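import Cfsg.Agent.Lib.Helper96SpxDefs

set_option autoImplicit false

namespace Cfsg.Agent.Lib.Helper15Spxaltind

open Module Cfsg.Agent.Lib.Helper96ExtDefs Cfsg.Agent.Lib.Helper96SpxDefs

variable {F V : Type*} [Field F] [AddCommGroup V] [Module F V] [Finite F] [Finite V]
variable {G : Subgroup (Module.End F V)ˣ} {B : LinearMap.BilinForm F V}

theorem zero_or_one (hF : Nat.card F = 2) (c : F) : c = 0 ∨ c = 1 := by
  haveI := Fintype.ofFinite F
  have hc : Fintype.card F = 2 := by rw [← Nat.card_eq_fintype_card]; exact hF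
  have h := FiniteField.pow_card c
  rw [hc] at h
  have h2 : c * (c - 1) = 0 := by linear_combination h
  rcases mul_eq_zero.1 h2 with h3 | h3
  · exact Or.inl h3
  · exact Or.inr (sub_eq_zero.1 h3)

theorem two_eq_zero' (hF : Nat.card F = 2) : (2 : F) = 0 := by
  rcases zero_or_one hF (2 : F) with h | h
  · exact h
  · exfalso
    have : (1 : F) = 0 := by linear_combination h
    exact one_ne_zero this

theorem add_self' (hF : Nat.card F = 2) (v : V) : v + v = 0 := by
  rw [← two_smul F v, two_eq_zero' hF, zero_smul]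

theorem aux (hF : Nat.card F = 2) (hnd : ∀ x, (∀ y, B x y = 0) → x = 0) {U : Submodule F V} :
    ∀ (n : ℕ) (β : Module.End F V), finrank F (LinearMap.ker β) + n = finrank F V → (∀ v, β v ∈ U) →
      (∀ x y, B (β x) y = B (β y) x) → (∀ x, B (β x) x = 0) →
      β ∈ AddSubgroup.closure {γ : Module.End F V | ∃ y₁ ∈ U, ∃ y₂ ∈ U, γ = alt2 B y₁ y₂} := by
  intro n
  induction n using Nat.strong_induction_on with
  | _ n ih =>
    intro β hn h1 h2 h3
    by_cases hβ : β = 0
    · rw [hβ]; exact AddSubgroup.zero_mem _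
    obtain ⟨x, hx⟩ : ∃ x, β x ≠ 0 := by
      by_contra hcon
      exact hβ (LinearMap.ext fun x => by
        by_contra h
        exact hcon ⟨x, h⟩)
    obtain ⟨x', hx'⟩ : ∃ x', B (β x) x' ≠ 0 := by
      by_contra hcon
      exact hx (hnd _ fun y => by
        by_contra h
        exact hcon ⟨y, h⟩)
    have hx'1 : B (β x) x' = 1 := (zero_or_one hF _).resolve_left hx'
    set y₁ := β x with hy₁
    set y₂ := β x' with hy₂
    set β' : Module.End F V := β + alt2 B y₁ y₂ with hβ'
    have hβ'v : ∀ v, β' v = β v + (B y₂ v • y₁ + B y₁ v • y₂) := fun v => rfl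
    have hker : LinearMap.ker β < LinearMap.ker β' := by
      refine lt_of_le_of_ne ?_ ?_
      · intro v hv
        rw [LinearMap.mem_ker] at hv ⊢
        have e1 : B y₁ v = 0 := by rw [hy₁, h2, hv, map_zero, LinearMap.zero_apply]
        have e2 : B y₂ v = 0 := by rw [hy₂, h2, hv, map_zero, LinearMap.zero_apply]
        rw [hβ'v, hv, e1, e2]
        simp
      · intro he
        have hxk : x ∈ LinearMap.ker β' := by
          rw [LinearMap.mem_ker, hβ'v]
          have e1 : B y₁ x = 0 := h3 x
          have e2 : B y₂ x = 1 := by rw [hy₂, h2]; exact hx'1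
          rw [e1, e2, one_smul, zero_smul, add_zero]
          exact add_self' hF y₁
        rw [← he, LinearMap.mem_ker] at hxk
        exact hx hxk
    have hlt := Submodule.finrank_lt_finrank_of_lt hker
    have hle := Submodule.finrank_le (LinearMap.ker β')
    have hmem : β' ∈ AddSubgroup.closure
        {γ : Module.End F V | ∃ y₁ ∈ U, ∃ y₂ ∈ U, γ = alt2 B y₁ y₂} := by
      refine ih (finrank F V - finrank F (LinearMap.ker β')) (by omega) β' (by omega) ?_ ?_ ?_
      · intro v
        rw [hβ'v]
        exact U.add_mem (h1 v) (U.add_mem (U.smul_mem _ (h1 x)) (U.smul_mem _ (h1 x')))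
      · intro v w
        rw [hβ'v, hβ'v]
        simp only [map_add, map_smul, LinearMap.add_apply, LinearMap.smul_apply, smul_eq_mul]
        rw [h2 v w]
        ring
      · intro v
        rw [hβ'v]
        simp only [map_add, map_smul, LinearMap.add_apply, LinearMap.smul_apply, smul_eq_mul]
        rw [h3 v]
        have : B y₂ v * B y₁ v + B y₁ v * B y₂ v = 2 * (B y₂ v * B y₁ v) := by ring
        rw [zero_add, this, two_eq_zero' hF, zero_mul]
    have hβe : β = β' + alt2 B y₁ y₂ := by
      rw [hβ', add_assoc]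
      have : alt2 B y₁ y₂ + alt2 B y₁ y₂ = 0 := by
        rw [← two_smul F, two_eq_zero' hF, zero_smul]
      rw [this, add_zero]
    rw [hβe]
    exact AddSubgroup.add_mem _ hmem (AddSubgroup.subset_closure ⟨y₁, h1 x, y₂, h1 x', rfl⟩)

/-- piece `altind` (`q = 2`) -/
theorem altind (hF : Nat.card F = 2) (hself : ∀ x, B x x = 0) (hnd : ∀ x, (∀ y, B x y = 0) → x = 0)
    {U : Submodule F V} (β : Module.End F V) (h1 : ∀ v, β v ∈ U)
    (h2 : ∀ x y, B (β x) y = B (β y) x) (h3 : ∀ x, B (β x) x = 0) :
    β ∈ AddSubgroup.closure {γ : Module.End F V | ∃ y₁ ∈ U, ∃ y₂ ∈ U, γ = alt2 B y₁ y₂} := by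
  have hle := Submodule.finrank_le (LinearMap.ker β)
  exact aux hF hnd (finrank F V - finrank F (LinearMap.ker β)) β (by omega) h1 h2 h3

end Cfsg.Agent.Lib.Helper15Spxaltind
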