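import Cfsg.Agent.Lib.Helper96SpxDefs
import Cfsg.Agent.Lib.Helper15Extd2
set_option autoImplicit false

namespace Cfsg.Agent.Lib.Helper15Spxdata

open Module Cfsg.Agent.Lib.Helper96ExtDefs Cfsg.Agent.Lib.Helper96SpxDefs

variable {F K V : Type*} [Field F] [Field K] [Algebra F K] [AddCommGroup V] [Module F V] [Module K V]
  [IsScalarTower F K V] [Finite F] [Finite K] [Finite V]
variable {G : Subgroup (Module.End F V)ˣ} {B : LinearMap.BilinForm F V}
  {BK : LinearMap.BilinForm K V} {τ : K →ₗ[F] F}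

/-- piece `data` -/
theorem exists_data
    (hrep : ∀ τ : K →ₗ[F] F, (∀ c : K, c ≠ 0 → ∃ k : K, τ (k * c) ≠ 0) → ∀ l : K →ₗ[F] F,
      ∃ c : K, ∀ z, l z = τ (c * z))
    (B : LinearMap.BilinForm F V) (hnd : ∀ x, (∀ y, B x y = 0) → x = 0)
    (hsa : ∀ (k : K) (x y : V), B (k • x) y = B x (k • y)) (halt : ∀ (k : K) (x : V), B (k • x) x = 0) :
    ∃ (BK : LinearMap.BilinForm K V) (τ : K →ₗ[F] F), SpData B BK τ := by
  classical
  -- a nonzero functional
  obtain ⟨τ, hτ1, -⟩ := Cfsg.Agent.Lib.Helper15Extd2.exists_dual_one (K := F) (V := K)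
    (p := ⊥) (x := 1) (by simp)
  have htau : ∀ c : K, c ≠ 0 → ∃ k : K, τ (k * c) ≠ 0 := by
    intro c hc
    refine ⟨c⁻¹, ?_⟩
    rw [inv_mul_cancel₀ hc, hτ1]
    exact one_ne_zero
  have huniq : ∀ c c' : K, (∀ z, τ (c * z) = τ (c' * z)) → c = c' := by
    intro c c' h
    by_contra hne
    obtain ⟨k, hk⟩ := htau (c - c') (sub_ne_zero.2 hne)
    apply hk
    rw [mul_comm, sub_mul, map_sub, h k, sub_self]
  have hex : ∀ x y : V, ∃ c : K, ∀ z : K, B (z • x) y = τ (c * z) := by
    intro x y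
    exact hrep τ htau ((B.flip y).comp ((LinearMap.toSpanSingleton K V x).restrictScalars F))
  choose f hf using hex
  refine ⟨LinearMap.mk₂ K f ?_ ?_ ?_ ?_, τ, ⟨?_, ?_, ?_, htau⟩⟩
  · intro x x' y
    apply huniq
    intro z
    rw [← hf, add_mul, map_add, ← hf, ← hf, smul_add, map_add, LinearMap.add_apply]
  · intro k x y
    apply huniq
    intro z
    rw [← hf, smul_eq_mul, mul_comm k, mul_assoc, ← hf, smul_smul, mul_comm k z]
  · intro x y y'
    apply huniq
    intro z
    rw [← hf, add_mul, map_add τ, ← hf, ← hf, map_add]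
  · intro k x y
    apply huniq
    intro z
    rw [← hf, smul_eq_mul, mul_comm k, mul_assoc, ← hf, ← hsa, smul_smul]
  · intro x y
    have := hf x y 1
    rw [one_smul, mul_one] at this
    exact this
  · intro x
    show f x x = 0
    apply huniq
    intro z
    rw [← hf, halt, zero_mul, map_zero]
  · intro x hx
    apply hnd
    intro y
    have := hf x y 1
    rw [one_smul, mul_one] at this
    rw [this]
    have h0 : f x y = 0 := hx y
    rw [h0, map_zero]

end Cfsg.Agent.Lib.Helper15Spxdata
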