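import Cfsg.Agent.Lib.Helper96SpxDefs
import Cfsg.Agent.Lib.Helper94Extmover
set_option autoImplicit false

namespace Cfsg.Agent.Lib.Helper15Spxmoveri

open Module Cfsg.Agent.Lib.Helper96ExtDefs Cfsg.Agent.Lib.Helper96SpxDefs

variable {F K V : Type*} [Field F] [Field K] [Algebra F K] [AddCommGroup V] [Module F V] [Module K V]
  [IsScalarTower F K V] [Finite F] [Finite K] [Finite V]
variable {G : Subgroup (Module.End F V)ˣ} {B : LinearMap.BilinForm F V}
  {BK : LinearMap.BilinForm K V} {τ : K →ₗ[F] F}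

open Cfsg.Agent.Lib.Helper94Extmover

/-- piece `moveri` -/
theorem mover_i (hD : SpData B BK τ)
    (hw0 : ∀ {a : V} {W : Submodule F V}, W ≤ pt F K a → W ≠ ⊥ → W ≠ pt F K a → ∀ {κ : K},
      κ ∉ (algebraMap F K).range → ∃ w₀ ∈ W, κ • w₀ ∉ W)
    (hktv : ∀ (a : V) (k : K), InG G (1 + rk F (k • BK.flip a) a))
    {a : V} (ha : a ≠ 0) {P : Submodule F V}
    (hPr : finrank F P = finrank F K) (hW : pt F K a ⊓ P ≠ ⊥)
    (hd : finrank F ↥(pt F K a ⊓ P) + 1 < finrank F K) (hx : ∃ y ∈ P, BK y a ≠ 0) :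
    ∃ h ∈ G, (∀ w ∈ pt F K a ⊓ P, (h : Module.End F V) w = w) ∧
      (∃ p₁ ∈ P, p₁ ∉ pt F K a ∧ (h : Module.End F V) p₁ ∈ P) ∧
      ∃ p₂ ∈ P, (h : Module.End F V) p₂ ∉ P := by
  classical
  have hWU : pt F K a ⊓ P ≠ pt F K a := by
    intro h
    rw [h, finrank_pt' ha] at hd
    omega
  have hWP : pt F K a ⊓ P ≠ P := by
    intro h
    rw [h, hPr] at hd
    omega
  obtain ⟨p₁, hp₁P, hp₁W⟩ := SetLike.exists_of_lt (lt_of_le_of_ne inf_le_right hWP)
  have hp₁U : p₁ ∉ pt F K a := fun h => hp₁W ⟨h, hp₁P⟩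
  have hnle : ¬ P ≤ (pt F K a ⊓ P) ⊔ Submodule.span F {p₁} := by
    intro hle
    have h1 := Submodule.finrank_mono hle
    have h2 := Submodule.finrank_add_le_finrank_add_finrank (pt F K a ⊓ P) (Submodule.span F {p₁})
    have h3 : finrank F (Submodule.span F {p₁}) ≤ 1 := by
      have := finrank_span_le_card (R := F) ({p₁} : Set V)
      simpa using this
    omega
  obtain ⟨p₂, hp₂P, hp₂⟩ := SetLike.not_le_iff_exists.1 hnle
  have hact : ∀ (k : K) (v : V), (1 + rk F (k • BK.flip a) a : Module.End F V) v = v + (k * BK v a) • a := by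
    intro k v
    simp [LinearMap.flip_apply]
  have hfix : ∀ (k : K), ∀ u ∈ pt F K a, (1 + rk F (k • BK.flip a) a : Module.End F V) u = u := by
    intro k u hu
    obtain ⟨c, rfl⟩ := mem_pt.1 hu
    rw [hact, map_smul, LinearMap.smul_apply, hD.alt a, smul_zero, mul_zero, zero_smul, add_zero]
  by_cases hcase : ∃ y₁ ∈ P, y₁ ∉ pt F K a ∧ BK y₁ a = 0
  · obtain ⟨y₁, hy₁P, hy₁U, hy₁0⟩ := hcase
    obtain ⟨y₂, hy₂P, hy₂⟩ := hx
    obtain ⟨u, huU, huW⟩ := SetLike.exists_of_lt (lt_of_le_of_ne inf_le_left hWU)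
    have huP : u ∉ P := fun h => huW ⟨huU, h⟩
    obtain ⟨c, rfl⟩ := mem_pt.1 huU
    obtain ⟨h, hh, hheq⟩ := hktv a (c / BK y₂ a)
    refine ⟨h, hh, fun w hw => by rw [hheq]; exact hfix _ w hw.1, ⟨y₁, hy₁P, hy₁U, ?_⟩, ⟨y₂, hy₂P, ?_⟩⟩
    · rw [hheq, hact, hy₁0, mul_zero, zero_smul, add_zero]
      exact hy₁P
    · rw [hheq, hact, div_mul_cancel₀ _ hy₂]
      intro hmem
      apply huP
      have := Submodule.sub_mem _ hmem hy₂P
      rwa [add_sub_cancel_left] at this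
  · have hall : ∀ y ∈ P, BK y a = 0 → y ∈ pt F K a := by
      intro y hy h0
      by_contra hyU
      exact hcase ⟨y, hy, hyU, h0⟩
    have hx1 : BK p₁ a ≠ 0 := fun h => hp₁U (hall p₁ hp₁P h)
    have hκ : BK p₂ a / BK p₁ a ∉ (algebraMap F K).range := by
      rintro ⟨f, hf⟩
      apply hp₂
      have hzP : p₂ - f • p₁ ∈ P := Submodule.sub_mem _ hp₂P (Submodule.smul_mem _ _ hp₁P)
      have hz0 : BK (p₂ - f • p₁) a = 0 := by
        rw [← algebraMap_smul K f p₁, map_sub, LinearMap.sub_apply, map_smul, LinearMap.smul_apply, hf,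
          smul_eq_mul, div_mul_cancel₀ _ hx1, sub_self]
      have hzU := hall _ hzP hz0
      have : p₂ = (p₂ - f • p₁) + f • p₁ := by abel
      rw [this]
      exact Submodule.add_mem _ (Submodule.mem_sup_left ⟨hzU, hzP⟩)
        (Submodule.mem_sup_right (Submodule.smul_mem _ _ (Submodule.mem_span_singleton_self _)))
    obtain ⟨w₀, hw₀, hκw₀⟩ := hw0 (a := a) (W := pt F K a ⊓ P) inf_le_left hW hWU hκ
    obtain ⟨c₀, hc₀⟩ := mem_pt.1 hw₀.1
    have hκP : (BK p₂ a / BK p₁ a) • w₀ ∉ P := by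
      intro h
      apply hκw₀
      refine ⟨?_, h⟩
      rw [← hc₀, smul_smul]; exact smul_mem_pt _ _
    obtain ⟨h, hh, hheq⟩ := hktv a (c₀ / BK p₁ a)
    refine ⟨h, hh, fun w hw => by rw [hheq]; exact hfix _ w hw.1, ⟨p₁, hp₁P, hp₁U, ?_⟩, ⟨p₂, hp₂P, ?_⟩⟩
    · rw [hheq, hact, div_mul_cancel₀ _ hx1, hc₀]
      exact Submodule.add_mem _ hp₁P hw₀.2
    · rw [hheq, hact]
      have e : (c₀ / BK p₁ a * BK p₂ a) • a = (BK p₂ a / BK p₁ a) • w₀ := by
        rw [← hc₀, smul_smul]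
        congr 1
        field_simp
      rw [e]
      intro hmem
      apply hκP
      have := Submodule.sub_mem _ hmem hp₂P
      rwa [add_sub_cancel_left] at this

end Cfsg.Agent.Lib.Helper15Spxmoveri
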