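import Cfsg.Agent.Lib.Helper96SpxDefs
import Cfsg.Agent.Lib.Helper94Extmover
set_option autoImplicit false

namespace Cfsg.Agent.Lib.Helper15Spxmoverii

open Module Cfsg.Agent.Lib.Helper96ExtDefs Cfsg.Agent.Lib.Helper96SpxDefs

variable {F K V : Type*} [Field F] [Field K] [Algebra F K] [AddCommGroup V] [Module F V] [Module K V]
  [IsScalarTower F K V] [Finite F] [Finite K] [Finite V]
variable {G : Subgroup (Module.End F V)ˣ} {B : LinearMap.BilinForm F V}
  {BK : LinearMap.BilinForm K V} {τ : K →ₗ[F] F}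

open Cfsg.Agent.Lib.Helper94Extmover

/-- piece `moverii` -/
theorem mover_ii (hD : SpData B BK τ)
    (hw0 : ∀ {a : V} {W : Submodule F V}, W ≤ pt F K a → W ≠ ⊥ → W ≠ pt F K a → ∀ {κ : K},
      κ ∉ (algebraMap F K).range → ∃ w₀ ∈ W, κ • w₀ ∉ W)
    (hfunc : ∀ φ : Module.Dual K V, ∃ b : V, ∀ v, φ v = BK v b)
    (hktv : ∀ (a : V) (k : K), InG G (1 + rk F (k • BK.flip a) a))
    (heich : ∀ {a b : V}, BK a b = 0 → InG G (1 + rk F (BK.flip a) b + rk F (BK.flip b) a))
    {a : V} (ha : a ≠ 0) {P : Submodule F V}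
    (hPr : finrank F P = finrank F K) (hW : pt F K a ⊓ P ≠ ⊥)
    (hd : finrank F ↥(pt F K a ⊓ P) + 1 < finrank F K) (hx : ∀ y ∈ P, BK y a = 0) :
    ∃ h ∈ G, (∀ w ∈ pt F K a ⊓ P, (h : Module.End F V) w = w) ∧
      (∃ p₁ ∈ P, p₁ ∉ pt F K a ∧ (h : Module.End F V) p₁ ∈ P) ∧
      ∃ p₂ ∈ P, (h : Module.End F V) p₂ ∉ P := by
  classical
  have hWU : pt F K a ⊓ P ≠ pt F K a := by
    intro h
    rw [h, finrank_pt' ha] at hd
    omega
  have hWP : pt F K a ⊓ P ≠ P := by
    intro h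
    rw [h, hPr] at hd
    omega
  obtain ⟨p₁, hp₁P, hp₁W⟩ := SetLike.exists_of_lt (lt_of_le_of_ne inf_le_right hWP)
  have hp₁U : p₁ ∉ pt F K a := fun h => hp₁W ⟨h, hp₁P⟩
  have hnle : ¬ P ≤ (pt F K a ⊓ P) ⊔ Submodule.span F {p₁} := by
    intro hle
    have h1 := Submodule.finrank_mono hle
    have h2 := Submodule.finrank_add_le_finrank_add_finrank (pt F K a ⊓ P) (Submodule.span F {p₁})
    have h3 : finrank F (Submodule.span F {p₁}) ≤ 1 := by
      have := finrank_span_le_card (R := F) ({p₁} : Set V)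
      simpa using this
    omega
  obtain ⟨p₂, hp₂P, hp₂⟩ := SetLike.not_le_iff_exists.1 hnle
  by_cases hcase : p₂ ∈ Submodule.span K {a, p₁}
  · -- case 2
    obtain ⟨x, κ, hxκ⟩ := Submodule.mem_span_pair.1 hcase
    have hκ : κ ∉ (algebraMap F K).range := by
      rintro ⟨f, rfl⟩
      apply hp₂
      rw [← hxκ, algebraMap_smul]
      refine Submodule.add_mem _ (Submodule.mem_sup_left ⟨smul_mem_pt _ _, ?_⟩)
        (Submodule.mem_sup_right (Submodule.smul_mem _ _ (Submodule.mem_span_singleton_self _)))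
      have : x • a = p₂ - f • p₁ := by
        rw [← hxκ, algebraMap_smul, add_sub_cancel_right]
      rw [this]
      exact Submodule.sub_mem _ hp₂P (Submodule.smul_mem _ _ hp₁P)
    obtain ⟨w₀, hw₀, hκw₀⟩ := hw0 (a := a) (W := pt F K a ⊓ P) inf_le_left hW hWU hκ
    obtain ⟨c₀, hc₀⟩ := mem_pt.1 hw₀.1
    have hκP : κ • w₀ ∉ P := by
      intro h
      apply hκw₀
      refine ⟨?_, h⟩
      rw [← hc₀, smul_smul]; exact smul_mem_pt _ _
    have hp₁' : p₁ ∉ Submodule.span K {a} := hp₁U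
    obtain ⟨φ, hφ0, hφ1⟩ := exists_dual hp₁' c₀
    obtain ⟨b, hb⟩ := hfunc φ
    have hab : BK a b = 0 := by rw [← hb]; exact hφ0 a (Submodule.mem_span_singleton_self a)
    have hp₁b : BK p₁ b = c₀ := by rw [← hb]; exact hφ1
    obtain ⟨h, hh, hheq⟩ := heich hab
    have hact : ∀ v : V, (1 + rk F (BK.flip a) b + rk F (BK.flip b) a : Module.End F V) v =
        v + BK v a • b + BK v b • a := by
      intro v
      simp
    refine ⟨h, hh, ?_, ⟨p₁, hp₁P, hp₁U, ?_⟩, ⟨p₂, hp₂P, ?_⟩⟩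
    · intro w hw
      obtain ⟨c, rfl⟩ := mem_pt.1 hw.1
      rw [hheq, hact, map_smul, LinearMap.smul_apply, LinearMap.smul_apply, hD.alt a, hab]
      simp
    · rw [hheq, hact, hx p₁ hp₁P, hp₁b, zero_smul, add_zero, hc₀]
      exact Submodule.add_mem _ hp₁P hw₀.2
    · rw [hheq, hact, hx p₂ hp₂P, zero_smul, add_zero]
      have e : BK p₂ b • a = κ • w₀ := by
        rw [← hxκ, map_add, LinearMap.add_apply, map_smul, map_smul, LinearMap.smul_apply,
          LinearMap.smul_apply, hab, hp₁b, smul_zero, zero_add, ← hc₀, smul_smul, smul_eq_mul]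
      rw [e]
      intro hmem
      apply hκP
      have := Submodule.sub_mem _ hmem hp₂P
      rwa [add_sub_cancel_left] at this
  · -- case 1
    obtain ⟨φ, hφ0, hφ1⟩ := exists_dual hcase 1
    obtain ⟨b, hb⟩ := hfunc φ
    have hab : BK a b = 0 := by rw [← hb]; exact hφ0 a (Submodule.subset_span (by simp))
    have hp₁b : BK p₁ b = 0 := by rw [← hb]; exact hφ0 p₁ (Submodule.subset_span (by simp))
    have hp₂b : BK p₂ b = 1 := by rw [← hb]; exact hφ1
    have hb0 : b ≠ 0 := by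
      rintro rfl
      rw [map_zero] at hp₂b
      exact zero_ne_one hp₂b
    have hact : ∀ (k : K) (v : V), (1 + rk F (k • BK.flip b) b : Module.End F V) v = v + (k * BK v b) • b := by
      intro k v
      simp
    -- some `k • b` is outside `P`
    obtain ⟨k, hk⟩ : ∃ k : K, k • b ∉ P := by
      by_contra hcon
      have hle : pt F K b ≤ P := by
        intro v hv
        obtain ⟨k, rfl⟩ := mem_pt.1 hv
        by_contra hk
        exact hcon ⟨k, hk⟩
      have heq : pt F K b = P :=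
        Submodule.eq_of_le_of_finrank_eq hle (by rw [finrank_pt' hb0, hPr])
      obtain ⟨w, hw, hw0⟩ := Submodule.exists_mem_ne_zero_of_ne_bot hW
      obtain ⟨c, hc⟩ := mem_pt.1 hw.1
      have hwb : w ∈ pt F K b := heq ▸ hw.2
      obtain ⟨c', hc'⟩ := mem_pt.1 hwb
      have hc0 : c ≠ 0 := by
        rintro rfl
        rw [zero_smul] at hc
        exact hw0 hc.symm
      have hab' : a = (c⁻¹ * c') • b := by
        rw [mul_smul, hc', ← hc, smul_smul, inv_mul_cancel₀ hc0, one_smul]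
      apply hWU
      apply le_antisymm inf_le_left
      intro v hv
      refine ⟨hv, ?_⟩
      obtain ⟨k, rfl⟩ := mem_pt.1 hv
      rw [← heq, hab', smul_smul]
      exact smul_mem_pt _ _
    obtain ⟨h, hh, hheq⟩ := hktv b k
    refine ⟨h, hh, ?_, ⟨p₁, hp₁P, hp₁U, ?_⟩, ⟨p₂, hp₂P, ?_⟩⟩
    · intro w hw
      obtain ⟨c, rfl⟩ := mem_pt.1 hw.1
      rw [hheq, hact, map_smul, LinearMap.smul_apply, hab]
      simp
    · rw [hheq, hact, hp₁b, mul_zero, zero_smul, add_zero]
      exact hp₁P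
    · rw [hheq, hact, hp₂b, mul_one]
      intro hmem
      apply hk
      have := Submodule.sub_mem _ hmem hp₂P
      rwa [add_sub_cancel_left] at this

end Cfsg.Agent.Lib.Helper15Spxmoverii
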