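import Cfsg.Agent.Lib.Helper96SpxDefs
import Cfsg.Agent.Lib.Helper15Spxaltind

set_option autoImplicit false

namespace Cfsg.Agent.Lib.Helper15Spxq2w

open Module Cfsg.Agent.Lib.Helper96ExtDefs Cfsg.Agent.Lib.Helper96SpxDefs Cfsg.Agent.Lib.Helper15Spxaltind

variable {F K V : Type*} [Field F] [Field K] [Algebra F K] [AddCommGroup V] [Module F V] [Module K V]
  [IsScalarTower F K V] [Finite F] [Finite K] [Finite V]
variable {G : Subgroup (Module.End F V)ˣ} {B : LinearMap.BilinForm F V}
  {BK : LinearMap.BilinForm K V} {τ : K →ₗ[F] F}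

/-- piece `q2w` -/
theorem q2w (hF : Nat.card F = 2) (hD : SpData B BK τ)
    (hrep : ∀ l : K →ₗ[F] F, ∃ c : K, ∀ z, l z = τ (c * z)) {a : V} (ha : a ≠ 0) :
    ∃ (k : K) (w : V), w ∈ pt F K a ∧ w ≠ 0 ∧ ∀ v, B w v = B (rk F (k • BK.flip a) a v) v := by
  have h2F : (2 : F) = 0 := two_eq_zero' hF
  have h2K : (2 : K) = 0 := by
    have := congrArg (algebraMap F K) h2F
    rw [map_zero, map_ofNat] at this
    exact this
  have hnegK : ∀ z : K, -z = z := by
    intro z
    have : z + z = 0 := by rw [← two_mul, h2K, zero_mul]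
    exact neg_eq_of_add_eq_zero_left this
  obtain ⟨k, hk⟩ := hD.tau 1 one_ne_zero
  rw [mul_one] at hk
  let l : K →ₗ[F] F :=
    { toFun := fun z => τ (k * z ^ 2)
      map_add' := by
        intro z z'
        have : k * (z + z') ^ 2 = k * z ^ 2 + k * z' ^ 2 + 2 * (k * z * z') := by ring
        rw [this, h2K, zero_mul, add_zero, map_add]
      map_smul' := by
        intro f z
        have hf : f ^ 2 = f := by
          rcases zero_or_one hF f with rfl | rfl <;> simp
        have : k * (f • z) ^ 2 = (f ^ 2) • (k * z ^ 2) := by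
          rw [Algebra.smul_def, Algebra.smul_def, map_pow]
          ring
        rw [this, hf, map_smul]
        rfl }
  have hl : ∀ z, l z = τ (k * z ^ 2) := fun z => rfl
  obtain ⟨c, hc⟩ := hrep l
  have hc0 : c ≠ 0 := by
    rintro rfl
    have := hc 1
    rw [hl, one_pow, mul_one, zero_mul, map_zero] at this
    exact hk this
  refine ⟨k, c • a, smul_mem_pt c a, smul_ne_zero hc0 ha, fun v => ?_⟩
  have e1 : rk F (k • BK.flip a) a v = (k * BK v a) • a := by simp
  rw [e1, hD.B_smul_left, hD.B_smul_left, hD.K_swap a v, hnegK, ← hc, hl]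
  congr 1
  ring

end Cfsg.Agent.Lib.Helper15Spxq2w
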