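import Cfsg.Agent.Lib.Helper96SpxDefs

set_option autoImplicit false

namespace Cfsg.Agent.Lib.Helper15Spxrootpt

open Module Cfsg.Agent.Lib.Helper96ExtDefs Cfsg.Agent.Lib.Helper96SpxDefs

variable {F K V : Type*} [Field F] [Field K] [Algebra F K] [AddCommGroup V] [Module F V] [Module K V]
  [IsScalarTower F K V] [Finite F] [Finite K] [Finite V]
variable {G : Subgroup (Module.End F V)ˣ} {B : LinearMap.BilinForm F V}
  {BK : LinearMap.BilinForm K V} {τ : K →ₗ[F] F}

theorem orth_pt' (hD : SpData B BK τ) (a v : V) : (∀ y ∈ pt F K a, B v y = 0) ↔ BK v a = 0 := by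
  constructor
  · intro h
    by_contra hne
    obtain ⟨k, hk⟩ := hD.tau _ hne
    apply hk
    rw [← hD.B_smul_right]
    exact h _ (smul_mem_pt k a)
  · intro h y hy
    obtain ⟨k, rfl⟩ := mem_pt.1 hy
    rw [hD.B_smul_right, h, mul_zero, map_zero]

/-- piece `rootpt` -/
theorem rootS_pt (hD : SpData B BK τ) (hktv : ∀ (a : V) (k : K), InG G (1 + rk F (k • BK.flip a) a))
    {a : V} (ha : a ≠ 0) : RootS B G (pt F K a) (TS F BK a) := by
  have hact : ∀ (k : K) (v : V), rk F (k • BK.flip a) a v = (k * BK v a) • a := by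
    intro k v
    simp
  refine ⟨?_, ?_, ?_, ?_, ?_, ?_⟩
  · rintro ν ⟨k, rfl⟩
    exact hktv a k
  · rintro ν ⟨k, rfl⟩ v
    rw [hact]
    exact smul_mem_pt _ _
  · rintro ν ⟨k, rfl⟩ v hv
    rw [hact, (orth_pt' hD a v).1 hv, mul_zero, zero_smul]
  · rintro x ⟨y, hy, hxy⟩ z hz
    have hxa : BK x a ≠ 0 := fun h => hxy ((orth_pt' hD a x).2 h y hy)
    obtain ⟨k', rfl⟩ := mem_pt.1 hz
    refine ⟨rk F ((k' / BK x a) • BK.flip a) a, ⟨_, rfl⟩, ?_⟩
    rw [hact, div_mul_cancel₀ _ hxa]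
  · rintro ν ⟨k, rfl⟩ hν y hy
    have hk : k ≠ 0 := by
      rintro rfl
      apply hν
      ext v
      rw [hact, zero_mul, zero_smul]
      rfl
    obtain ⟨z, hz⟩ : ∃ z, BK a z ≠ 0 := by
      by_contra hcon
      exact ha (hD.nd a fun y => by
        by_contra h
        exact hcon ⟨y, h⟩)
    have hza : BK z a ≠ 0 := by
      rw [hD.K_swap]
      exact neg_ne_zero.2 hz
    obtain ⟨k', rfl⟩ := mem_pt.1 hy
    refine ⟨(k' / (k * BK z a)) • z, ?_⟩
    rw [hact, map_smul, LinearMap.smul_apply, smul_eq_mul]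
    congr 1
    field_simp
  · intro x hx y hy
    obtain ⟨k, rfl⟩ := mem_pt.1 hx
    obtain ⟨k', rfl⟩ := mem_pt.1 hy
    have e : BK (k • a) (k' • a) = 0 := by
      rw [map_smul, map_smul, LinearMap.smul_apply, hD.alt a]
      simp
    rw [hD.tr, e, map_zero]

end Cfsg.Agent.Lib.Helper15Spxrootpt
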