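import Cfsg.Agent.Lib.Helper96SpxDefs
import Cfsg.Agent.Lib.Helper15Spxaltind

set_option autoImplicit false

namespace Cfsg.Agent.Lib.Helper15Spxrseven

open Module Cfsg.Agent.Lib.Helper96ExtDefs Cfsg.Agent.Lib.Helper96SpxDefs Cfsg.Agent.Lib.Helper15Spxaltind

variable {F V : Type*} [Field F] [AddCommGroup V] [Module F V] [Finite F] [Finite V]
variable {G : Subgroup (Module.End F V)ˣ} {B : LinearMap.BilinForm F V}

omit [Finite F] [Finite V] in
theorem sq_mul_sq (a b : V) : sq B a * sq B b = (B a b) • ((B b).smulRight a) := by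
  ext v
  simp [smul_smul, mul_comm]

omit [Finite F] [Finite V] in
theorem one_add_mul' (S A : Module.End F V) (h : S * A = 0) : (1 + S) * (1 + A) = 1 + (S + A) := by
  rw [add_mul, mul_add, mul_add, h]
  simp only [one_mul, mul_one, add_zero]
  abel

/-- piece `rseven` (`q = 2`) -/
theorem seven (hF : Nat.card F = 2) (hself : ∀ x, B x x = 0) {w u p : V} (h1 : B w u = 0)
    (h2 : B w p = 0) (h3 : B u p = 0) (e1 : Eqv B G w u) (e2 : Eqv B G (w + u) p)
    (e3 : Eqv B G (p + w) (p + u)) : InG G (1 + sq B (p + w + u)) := by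
  have hsw : ∀ x y, B x y = 0 → B y x = 0 := by
    intro x y hxy
    have := hself (x + y)
    simp only [map_add, LinearMap.add_apply, hself, hxy, zero_add, add_zero] at this
    exact this
  have h1' := hsw _ _ h1
  have h2' := hsw _ _ h2
  have h3' := hsw _ _ h3
  have P1 : (1 + sq B w) * (1 + sq B u) = 1 + (sq B w + sq B u) :=
    one_add_mul' _ _ (by rw [sq_mul_sq, h1, zero_smul])
  have P2 : (1 + sq B (w + u)) * (1 + sq B p) = 1 + (sq B (w + u) + sq B p) :=
    one_add_mul' _ _ (by
      rw [sq_mul_sq]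
      simp [h2, h3])
  have P3 : (1 + sq B (p + w)) * (1 + sq B (p + u)) = 1 + (sq B (p + w) + sq B (p + u)) :=
    one_add_mul' _ _ (by
      rw [sq_mul_sq]
      simp [hself, h1, h2, h3, h2', h3'])
  have P12 : (1 + (sq B w + sq B u)) * (1 + (sq B (w + u) + sq B p)) =
      1 + ((sq B w + sq B u) + (sq B (w + u) + sq B p)) :=
    one_add_mul' _ _ (by
      simp only [add_mul, mul_add, sq_mul_sq]
      simp [hself, h1, h2, h3, h1', h2', h3'])
  have P123 : (1 + ((sq B w + sq B u) + (sq B (w + u) + sq B p))) *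
      (1 + (sq B (p + w) + sq B (p + u))) =
      1 + (((sq B w + sq B u) + (sq B (w + u) + sq B p)) + (sq B (p + w) + sq B (p + u))) :=
    one_add_mul' _ _ (by
      simp only [add_mul, mul_add, sq_mul_sq]
      simp [hself, h1, h2, h3, h1', h2', h3'])
  have hsum : ((sq B w + sq B u) + (sq B (w + u) + sq B p)) + (sq B (p + w) + sq B (p + u)) =
      sq B (p + w + u) := by
    ext v
    simp only [LinearMap.add_apply, sq_apply, map_add]
    have : B w v • w + B u v • u + ((B w v + B u v) • (w + u) + B p v • p) +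
        ((B p v + B w v) • (p + w) + (B p v + B u v) • (p + u)) =
        (B p v + B w v + B u v) • (p + w + u) + (2 : F) • (B w v • w + B u v • u + B p v • p) := by
      module
    rw [this, two_eq_zero' hF, zero_smul, add_zero]
  have := (e1.mul e2).mul e3
  unfold Eqv at e1 e2 e3
  rw [P1, P2, P3, P12, P123, hsum] at this
  exact this

end Cfsg.Agent.Lib.Helper15Spxrseven
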