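import Cfsg.Agent.Lib.Helper96SpxDefs

set_option autoImplicit false

namespace Cfsg.Agent.Lib.Helper15Spxtorus

open Module Cfsg.Agent.Lib.Helper96ExtDefs Cfsg.Agent.Lib.Helper96SpxDefs

variable {F K V : Type*} [Field F] [Field K] [Algebra F K] [AddCommGroup V] [Module F V] [Module K V]
  [IsScalarTower F K V] [Finite F] [Finite K] [Finite V]
variable {G : Subgroup (Module.End F V)ˣ} {B : LinearMap.BilinForm F V}
  {BK : LinearMap.BilinForm K V} {τ : K →ₗ[F] F}

/-- piece `torus` -/
theorem torus (hD : SpData B BK τ) (hbig : BigK BK G) {a : V} (ha : a ≠ 0) {c : K} (hc : c ≠ 0) :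
    ∃ s ∈ G, (∀ (k : K) (v : V), (s : Module.End F V) (k • v) = k • (s : Module.End F V) v) ∧
      (s : Module.End F V) a = c • a := by
  obtain ⟨y, hy⟩ : ∃ y, BK a y ≠ 0 := by
    by_contra hcon
    exact ha (hD.nd a fun y => by
      by_contra h
      exact hcon ⟨y, h⟩)
  set w' : V := (BK a y)⁻¹ • y with hw'
  have haw : BK a w' = 1 := by
    rw [hw', map_smul, smul_eq_mul, inv_mul_cancel₀ hy]
  have hwa : BK w' a = -1 := by rw [hD.K_swap, haw]
  set f : Module.End F V := 1 + rk F ((c - 1) • BK.flip w') a + rk F ((c⁻¹ - 1) • BK a) w' with hf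
  have hfv : ∀ v, f v = v + ((c - 1) * BK v w') • a + ((c⁻¹ - 1) * BK a v) • w' := by
    intro v
    simp [hf]
  have hlin : ∀ (k : K) (v : V), f (k • v) = k • f v := by
    intro k v
    rw [hfv, hfv]
    simp only [map_smul, LinearMap.smul_apply, smul_eq_mul, smul_add, smul_smul]
    congr 1
    · congr 2
      ring
    · congr 1
      ring
  have hiso : ∀ x y, BK (f x) (f y) = BK x y := by
    intro x z
    rw [hfv, hfv]
    simp only [map_add, map_smul, LinearMap.add_apply, LinearMap.smul_apply, smul_eq_mul, hD.alt a,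
      hD.alt w', haw, hwa]
    rw [hD.K_swap a x, hD.K_swap a z, hD.K_swap w' z]
    field_simp
    ring
  obtain ⟨s, hs, hse⟩ := hbig f hlin hiso
  refine ⟨s, hs, fun k v => by rw [hse]; exact hlin k v, ?_⟩
  rw [hse, hfv, haw, hD.alt a, mul_one, mul_zero, zero_smul, add_zero, sub_smul, one_smul]
  abel

end Cfsg.Agent.Lib.Helper15Spxtorus
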