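import Mathlib
import Cfsg.Agent.Lib.Helper23Tw2E6c

set_option autoImplicit false
set_option linter.unusedSectionVars false
set_option linter.unusedVariables false
set_option maxRecDepth 100000

/-! The twisted group `²E₆(q)`: perfectness and simplicity. -/

namespace Cfsg.Agent.Lib.Helper23Tw2E6

open Cfsg.Lie Cfsg.Lie.ChevalleyDatum
open Cfsg.Agent.Lib.Helper23RG Cfsg.Agent.Lib.Helper23Table Cfsg.Agent.Lib.Helper23Weyl
open Cfsg.Agent.Lib.Helper23Chev Cfsg.Agent.Lib.Helper23Fast Cfsg.Agent.Lib.Helper23Tw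
open Cfsg.Agent.Lib.Helper23TG Cfsg.Agent.Lib.Helper23Diag Cfsg.Agent.Lib.Helper23TwC
open Cfsg.Agent.Lib.Helper23TwT2E6 Cfsg.Agent.Lib.Helper23FastT2E6 Cfsg.Agent.Lib.Helper23FF
open Cfsg.Agent.Lib.Helper23TwKer

variable {K : Type*} [Field K] [Fintype K] {q : ℕ}

theorem hconn : ∃ (par : Fin X.P.l → Fin X.P.l) (dep : Fin X.P.l → ℕ) (ρ : Fin X.P.l), ∀ j, j = ρ ∨
    (dep (par j) < dep j ∧
      X.P.refl (par j) (X.P.refl j (X.P.simp j)) ≠ X.P.refl j (X.P.refl (par j) (X.P.simp j))) := by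
  refine ⟨fun j => ⟨j.val - 1, by have := j.2; omega⟩, fun j => j.val, ⟨0, by decide⟩, ?_⟩
  decide +kernel

theorem inD_all (hq : 2 ≤ q) (hK : Fintype.card K = q ^ 2) {sg : GL X.D.Idx K → GL X.D.Idx K} {φ : K ≃+* K}
    (hs : SgOk X sg φ) (hφ : ∀ t, φ t = t ^ q) : ∀ J, (TT sg φ).InD J := by
  have ok := rg_ok hT (hR (K := K))
  have tOk := tw_ok chk hT hR Helper23FastF4.valid hs rchk hCF
  obtain ⟨a, ha⟩ := exists_sq_ne_one (K := K) (by rw [hK]; nlinarith)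
  have haq : (a ^ q) ^ q = a := by
    apply Units.ext
    rw [← pow_mul, ← sq, Units.val_pow_eq_pow_val, pow_card' hK]
  intro J
  obtain ⟨J, hJ⟩ := J
  have hJ' : J < 4 := hJ
  interval_cases J
  · apply inD_torusC chk hT hR Helper23FastF4.valid hs rchk hCF hoi _ (![a, 1, 1, 1, 1, a ^ q] : Fin 6 → Kˣ)
      (mem_CC_e6a φ hφ (TT sg φ).ρI rfl rfl rfl rfl rfl rfl a haq) ⟨0, by decide⟩ (List.mem_cons_self ..)
    have := phi_e6a a (a ^ q)
    rw [← cartan_eq] at this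
    intro h
    exact ha (this.symm.trans h)
  · apply inD_torusC chk hT hR Helper23FastF4.valid hs rchk hCF hoi _ (![1, 1, a, 1, a ^ q, 1] : Fin 6 → Kˣ)
      (mem_CC_e6b φ hφ (TT sg φ).ρI rfl rfl rfl rfl rfl rfl a haq) ⟨2, by decide⟩ (List.mem_cons_self ..)
    have := phi_e6b a (a ^ q)
    rw [← cartan_eq] at this
    intro h
    exact ha (this.symm.trans h)
  · exact inD_fixedC chk hT hR Helper23FastF4.valid hs rchk hCF _ ⟨3, by decide⟩ rfl ⟨46, by decide⟩ ⟨47, by decide⟩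
      (by decide +kernel) (by decide +kernel) 1 (Or.inl rfl) (by decide +kernel)
      ((TT sg φ).G1.mul_mem (Tw.nJ_mem_G1 ok tOk ⟨2, by decide⟩) (Tw.nJ_mem_G1 ok tOk ⟨3, by decide⟩))
      ((Tw.Mon_nJ ok tOk ⟨2, by decide⟩).mul (Tw.Mon_nJ ok tOk ⟨3, by decide⟩)) rfl
      (Tw.nJ_mem_G1 ok tOk ⟨3, by decide⟩) (Tw.Mon_nJ ok tOk ⟨3, by decide⟩) rfl
  · exact inD_fixedC chk hT hR Helper23FastF4.valid hs rchk hCF _ ⟨1, by decide⟩ rfl ⟨39, by decide⟩ ⟨47, by decide⟩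
      (by decide +kernel) (by decide +kernel) (-1) (Or.inr rfl) (by decide +kernel)
      ((TT sg φ).G1.mul_mem (Tw.nJ_mem_G1 ok tOk ⟨3, by decide⟩) (Tw.nJ_mem_G1 ok tOk ⟨2, by decide⟩))
      ((Tw.Mon_nJ ok tOk ⟨3, by decide⟩).mul (Tw.Mon_nJ ok tOk ⟨2, by decide⟩)) rfl
      (Tw.nJ_mem_G1 ok tOk ⟨2, by decide⟩) (Tw.Mon_nJ ok tOk ⟨2, by decide⟩) rfl

variable (hq : IsPrimePow q) (hK : Fintype.card K = q ^ 2)
include hq hK

theorem s1104 : commutator ↥(tws K q) = ⊤ := by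
  obtain ⟨sg, φ, hs, hφ, e⟩ := exists_ctx hq hK
  rw [← e]
  exact Tw.perfect (rg_ok hT hR) (tw_ok chk hT hR Helper23FastF4.valid hs rchk hCF) (hBV hT hR) (hUN hT hR)
    (inD_all hq.two_le hK hs hφ)

theorem s1070 : IsSimpleGroup ↥(tws K q) ∧ ¬ IsMulCommutative ↥(tws K q) := by
  have hperf := s1104 hq hK
  obtain ⟨sg, φ, hs, hφ, e⟩ := exists_ctx hq hK
  rw [← e] at hperf ⊢
  exact simpleC chk hT hR Helper23FastF4.valid hs rchk hCF Helper23FastF4.exists_w0 hC hoi (by decide) hconn hperf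

end Cfsg.Agent.Lib.Helper23Tw2E6
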