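import Mathlib
import Cfsg.Agent.Lib.Helper23Tw3D4c

set_option autoImplicit false
set_option linter.unusedSectionVars false
set_option linter.unusedVariables false
set_option maxRecDepth 100000

/-! The twisted group `³D₄(q)`: perfectness and simplicity. -/

namespace Cfsg.Agent.Lib.Helper23Tw3D4

open Cfsg.Lie Cfsg.Lie.ChevalleyDatum
open Cfsg.Agent.Lib.Helper23RG Cfsg.Agent.Lib.Helper23Table Cfsg.Agent.Lib.Helper23Weyl
open Cfsg.Agent.Lib.Helper23Chev Cfsg.Agent.Lib.Helper23Fast Cfsg.Agent.Lib.Helper23Tw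
open Cfsg.Agent.Lib.Helper23TG Cfsg.Agent.Lib.Helper23Diag Cfsg.Agent.Lib.Helper23TwC
open Cfsg.Agent.Lib.Helper23TwT3D4 Cfsg.Agent.Lib.Helper23FastT3D4 Cfsg.Agent.Lib.Helper23FF
open Cfsg.Agent.Lib.Helper23TwKer

variable {K : Type*} [Field K] [Fintype K] {q : ℕ}

theorem hconn : ∃ (par : Fin X.P.l → Fin X.P.l) (dep : Fin X.P.l → ℕ) (ρ : Fin X.P.l), ∀ j, j = ρ ∨
    (dep (par j) < dep j ∧
      X.P.refl (par j) (X.P.refl j (X.P.simp j)) ≠ X.P.refl j (X.P.refl (par j) (X.P.simp j))) := by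
  refine ⟨fun j => ⟨j.val - 1, by have := j.2; omega⟩, fun j => j.val, ⟨0, by decide⟩, ?_⟩
  decide +kernel

theorem inD_all (hq : 2 ≤ q) (hK : Fintype.card K = q ^ 3) {sg : GL X.D.Idx K → GL X.D.Idx K} {φ : K ≃+* K}
    (hs : SgOk X sg φ) (hφ : ∀ t, φ t = t ^ q) : ∀ J, (TT sg φ).InD J := by
  have ok := rg_ok hT (hR (K := K))
  have tOk := tw_ok chk hT hR Helper23FastG2.valid hs rchk hCF
  obtain ⟨a, ha⟩ := exists_sq_ne_one (K := K) (by
    rw [hK]
    calc 4 ≤ 2 ^ 3 := by norm_num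
      _ ≤ q ^ 3 := Nat.pow_le_pow_left hq 3)
  have haq : ((a ^ q) ^ q) ^ q = a := by
    apply Units.ext
    rw [← pow_mul, ← pow_mul]
    have : q * (q * q) = q ^ 3 := by ring
    rw [this, Units.val_pow_eq_pow_val, pow_card' hK]
  have wv : ∀ (J : Fin X.P.l) (r : Fin X.D.nroots), ((TT sg φ).wP ok J r).val =
      (((TT sg φ).orb J).map Fin.val).foldr (fun i r => X.D.reflectRoot i r) r.val := by
    intro J r
    rw [Tw.wP_apply ok tOk]
    unfold Tw.wJ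
    exact foldr_val hT hR _ _
  have e1 : (TT sg φ).wP ok ⟨0, by decide⟩ ((rg hT (hR (K := K))).simple ⟨1, by decide⟩) = ⟨22, by decide⟩ := by
    apply Fin.ext
    rw [wv]
    exact (by decide +kernel : ([0, 2, 3] : List ℕ).foldr (fun i r => X.D.reflectRoot i r) (X.D.simple 1) = 22)
  have e2 : ((TT sg φ).wP ok ⟨0, by decide⟩ * (TT sg φ).wP ok ⟨1, by decide⟩) ⟨23, by decide⟩ =
      (rg hT (hR (K := K))).simple ⟨1, by decide⟩ := by
    apply Fin.ext
    rw [Equiv.Perm.mul_apply, wv, wv]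
    exact (by decide +kernel : ([0, 2, 3] : List ℕ).foldr (fun i r => X.D.reflectRoot i r)
      (([1] : List ℕ).foldr (fun i r => X.D.reflectRoot i r) 23) = X.D.simple 1)
  intro J
  obtain ⟨J, hJ⟩ := J
  have hJ' : J < 2 := hJ
  interval_cases J
  · apply inD_torusC chk hT hR Helper23FastG2.valid hs rchk hCF hoi _ (![a, 1, a ^ q, (a ^ q) ^ q] : Fin 4 → Kˣ)
      (mem_CC_d4 φ hφ (TT sg φ).ρI rfl rfl rfl rfl a haq) ⟨0, by decide⟩ (List.mem_cons_self ..)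
    have := phi_d4 a (a ^ q) ((a ^ q) ^ q)
    rw [← cartan_eq] at this
    intro h
    exact ha (this.symm.trans h)
  · exact inD_fixedC chk hT hR Helper23FastG2.valid hs rchk hCF _ ⟨1, by decide⟩ rfl ⟨22, by decide⟩ ⟨23, by decide⟩
      (by decide +kernel) (by decide +kernel) 1 (Or.inl rfl) (by decide +kernel)
      (Tw.nJ_mem_G1 ok tOk ⟨0, by decide⟩) (Tw.Mon_nJ ok tOk ⟨0, by decide⟩) e1
      ((TT sg φ).G1.mul_mem (Tw.nJ_mem_G1 ok tOk ⟨0, by decide⟩) (Tw.nJ_mem_G1 ok tOk ⟨1, by decide⟩))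
      ((Tw.Mon_nJ ok tOk ⟨0, by decide⟩).mul (Tw.Mon_nJ ok tOk ⟨1, by decide⟩)) e2

variable (hq : IsPrimePow q) (hK : Fintype.card K = q ^ 3)
include hq hK

theorem s1108 : commutator ↥(tws K q) = ⊤ := by
  obtain ⟨sg, φ, hs, hφ, e⟩ := exists_ctx hq hK
  rw [← e]
  exact Tw.perfect (rg_ok hT hR) (tw_ok chk hT hR Helper23FastG2.valid hs rchk hCF) (hBV hT hR) (hUN hT hR)
    (inD_all hq.two_le hK hs hφ)

theorem s1071 : IsSimpleGroup ↥(tws K q) ∧ ¬ IsMulCommutative ↥(tws K q) := by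
  have hperf := s1108 hq hK
  obtain ⟨sg, φ, hs, hφ, e⟩ := exists_ctx hq hK
  rw [← e] at hperf ⊢
  exact simpleC chk hT hR Helper23FastG2.valid hs rchk hCF Helper23FastG2.exists_w0 hC hoi (by decide) hconn hperf

end Cfsg.Agent.Lib.Helper23Tw3D4
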