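import Cfsg.Agent.Lib.LeadAutConc

set_option autoImplicit false

/-! PROJECT 100 piece O5. -/

namespace Cfsg.Agent.Lib.Helper17AutO5

open Cfsg Cfsg.Lie Cfsg.Lie.ChevalleyDatum
open Subgroup Cfsg.Agent.Lib.Helper23Grp Cfsg.Agent.Lib.Helper23RG Cfsg.Agent.Lib.Helper23RG.RG
  Cfsg.Agent.Lib.Helper23Weyl Cfsg.Agent.Lib.LeadAutDefs
  Cfsg.Agent.Lib.Helper23Table Cfsg.Agent.Lib.Helper23Chev Cfsg.Agent.Lib.LeadAutConc
open scoped MatrixGroups Matrix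

theorem map_pull_H {𝔾 K R I : Type*} [Group 𝔾] [Field K] (S : RG 𝔾 K R I) (L : Subgroup 𝔾)
    (hx : ∀ r t, S.x r t ∈ L) : ((pull S L hx).H).map L.subtype = S.H := by
  unfold RG.H
  rw [MonoidHom.map_closure]
  congr 1
  ext g
  constructor
  · rintro ⟨_, ⟨r, t, ht, rfl⟩, rfl⟩
    exact ⟨r, t, ht, rfl⟩
  · rintro ⟨r, t, ht, rfl⟩
    exact ⟨(pull S L hx).hE r t, ⟨r, t, ht, rfl⟩, rfl⟩

variable {F : Type*} [Field F] {D : ChevalleyDatum}

/-- O5 -/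
theorem card_SG_H (hT : TableOK D) (hR : Rel D F) :
    Nat.card (SG hT hR).H = Nat.card (D.diagonalSubgroup F) := by
  rw [← H_eq hT hR, ← map_pull_H (rg hT hR) (D.group F) (x_mem_group hT hR)]
  exact (card_map_of_injective (D.group F).subtype_injective).symm

end Cfsg.Agent.Lib.Helper17AutO5
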