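import Cfsg.Agent.Lib.LeadAutConc

set_option autoImplicit false

/-! PROJECT 100 piece O6. -/

namespace Cfsg.Agent.Lib.Helper17AutO6

open Cfsg Cfsg.Lie Cfsg.Lie.ChevalleyDatum
open Subgroup

variable {F : Type*} [Field F] {D : ChevalleyDatum}

/-- O6 -/
theorem center_trivial (hD : D ∈ [chevG2, chevB2, chevD4, chevF4, chevE6, chevE7, chevE8])
    (h2 : D = chevG2 ∨ D = chevB2 → ∃ a : F, a ≠ 0 ∧ a ≠ 1) :
    ∀ z : ↥(D.group F), (∀ g, z * g = g * z) → z = 1 := by
  obtain ⟨hs, hc⟩ := Cfsg.Agent.Lib.Helper23All.simple (F := F) hD h2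
  intro z hz
  have hzc : z ∈ center ↥(D.group F) := mem_center_iff.mpr (fun g => (hz g).symm)
  rcases hs.eq_bot_or_eq_top_of_normal (center ↥(D.group F)) inferInstance with h | h
  · rw [h] at hzc
    exact mem_bot.mp hzc
  · exfalso
    apply hc
    refine ⟨⟨fun a b => ?_⟩⟩
    have ha : a ∈ center ↥(D.group F) := h ▸ mem_top a
    exact ((mem_center_iff.mp ha) b).symm

end Cfsg.Agent.Lib.Helper17AutO6
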