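import Mathlib
import Cfsg.Prelude.Def_ChevAutomorphisms

/-!
PROJECT 100 (CHEV-AUT), piece O3.
-/

set_option autoImplicit false

namespace Cfsg.Agent.Lib.Helper94AutO3

open Cfsg Cfsg.Lie Cfsg.Lie.ChevalleyDatum

variable {F : Type*} [Field F] {D : ChevalleyDatum}

/-- O3 -/
theorem graphExp_inj [Finite F] (i j : ℕ) :
    Function.Injective (fun t : F => t ^ D.graphExp (ringChar F) i j) := by
  unfold graphExp
  split_ifs
  · have hp : (ringChar F).Prime := CharP.char_is_prime F (ringChar F)
    have : Fact (ringChar F).Prime := ⟨hp⟩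
    exact frobenius_inj F (ringChar F)
  · intro a b hab
    simpa using hab

end Cfsg.Agent.Lib.Helper94AutO3
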