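import Mathlib
import Cfsg.Prelude.Def_ChevAutomorphisms
import Cfsg.Prelude.Def_ChevE8
import Cfsg.Prelude.Def_ChevE7

/-!
PROJECT 100 (CHEV-AUT), pieces O8, O9 : the Dynkin diagrams of type E8 and E7 have no symmetry.
-/

set_option autoImplicit false

namespace Cfsg.Agent.Lib.Helper94AutO8

open Cfsg Cfsg.Lie Cfsg.Lie.ChevalleyDatum

/-- the bonds of the diagram `0 - 2 - 3 - 4 - 5 - 6 - 7`, `1 - 3` -/
def tb (i j : ℕ) : ℤ :=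
  if i = j then 4 else
  if (i, j) ∈ [(0, 2), (2, 0), (1, 3), (3, 1), (2, 3), (3, 2), (3, 4), (4, 3), (4, 5), (5, 4),
    (5, 6), (6, 5), (6, 7), (7, 6)] then 1 else 0

theorem bonds8 : ∀ i j : Fin 8, chevE8.bonds i j = tb i j := by decide +kernel

theorem bonds7 : ∀ i j : Fin 7, chevE7.bonds i j = tb i j := by decide +kernel

set_option synthInstance.maxSize 100000 in
set_option synthInstance.maxHeartbeats 0 in
theorem search8 : ∀ a3 a1 : Fin 8, tb a3 a1 = 1 → ∀ a2 : Fin 8, tb a3 a2 = 1 → tb a1 a2 = 0 →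
    ∀ a4 : Fin 8, tb a3 a4 = 1 → tb a1 a4 = 0 → tb a2 a4 = 0 →
    ∀ a0 : Fin 8, tb a0 a2 = 1 → tb a0 a3 = 0 →
    ∀ a5 : Fin 8, tb a4 a5 = 1 → tb a3 a5 = 0 →
    ∀ a6 : Fin 8, tb a5 a6 = 1 → tb a4 a6 = 0 →
    ∀ a7 : Fin 8, tb a6 a7 = 1 → tb a5 a7 = 0 →
    a0 = 0 ∧ a1 = 1 ∧ a2 = 2 ∧ a3 = 3 ∧ a4 = 4 ∧ a5 = 5 ∧ a6 = 6 ∧ a7 = 7 := by
  decide +kernel

set_option synthInstance.maxSize 100000 in
set_option synthInstance.maxHeartbeats 0 in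
theorem search7 : ∀ a3 a1 : Fin 7, tb a3 a1 = 1 → ∀ a2 : Fin 7, tb a3 a2 = 1 → tb a1 a2 = 0 →
    ∀ a4 : Fin 7, tb a3 a4 = 1 → tb a1 a4 = 0 → tb a2 a4 = 0 →
    ∀ a0 : Fin 7, tb a0 a2 = 1 → tb a0 a3 = 0 →
    ∀ a5 : Fin 7, tb a4 a5 = 1 → tb a3 a5 = 0 →
    ∀ a6 : Fin 7, tb a5 a6 = 1 → tb a4 a6 = 0 →
    a0 = 0 ∧ a1 = 1 ∧ a2 = 2 ∧ a3 = 3 ∧ a4 = 4 ∧ a5 = 5 ∧ a6 = 6 := by
  decide +kernel

/-- O8 -/
theorem diag_sym_E8 (ρ : Equiv.Perm (Fin chevE8.rank)) (h : chevE8.IsDiagramSymmetry ρ) : ρ = 1 := by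
  change Equiv.Perm (Fin 8) at ρ
  have key : ∀ i j : Fin 8, i ≠ j → tb (ρ i) (ρ j) = tb i j := by
    intro i j hij
    rw [← bonds8, ← bonds8]
    exact h i j hij
  have := search8 (ρ 3) (ρ 1) (key 3 1 (by decide)) (ρ 2) (key 3 2 (by decide)) (key 1 2 (by decide))
    (ρ 4) (key 3 4 (by decide)) (key 1 4 (by decide)) (key 2 4 (by decide))
    (ρ 0) (key 0 2 (by decide)) (key 0 3 (by decide))
    (ρ 5) (key 4 5 (by decide)) (key 3 5 (by decide))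
    (ρ 6) (key 5 6 (by decide)) (key 4 6 (by decide))
    (ρ 7) (key 6 7 (by decide)) (key 5 7 (by decide))
  obtain ⟨h0, h1, h2, h3, h4, h5, h6, h7⟩ := this
  refine Equiv.ext fun i => ?_
  fin_cases i
  exacts [h0, h1, h2, h3, h4, h5, h6, h7]

/-- O9 -/
theorem diag_sym_E7 (ρ : Equiv.Perm (Fin chevE7.rank)) (h : chevE7.IsDiagramSymmetry ρ) : ρ = 1 := by
  change Equiv.Perm (Fin 7) at ρ
  have key : ∀ i j : Fin 7, i ≠ j → tb (ρ i) (ρ j) = tb i j := by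
    intro i j hij
    rw [← bonds7, ← bonds7]
    exact h i j hij
  have := search7 (ρ 3) (ρ 1) (key 3 1 (by decide)) (ρ 2) (key 3 2 (by decide)) (key 1 2 (by decide))
    (ρ 4) (key 3 4 (by decide)) (key 1 4 (by decide)) (key 2 4 (by decide))
    (ρ 0) (key 0 2 (by decide)) (key 0 3 (by decide))
    (ρ 5) (key 4 5 (by decide)) (key 3 5 (by decide))
    (ρ 6) (key 5 6 (by decide)) (key 4 6 (by decide))
  obtain ⟨h0, h1, h2, h3, h4, h5, h6⟩ := this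
  refine Equiv.ext fun i => ?_
  fin_cases i
  exacts [h0, h1, h2, h3, h4, h5, h6]

end Cfsg.Agent.Lib.Helper94AutO8
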