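import Cfsg.Agent.Lib.LeadAutConc

set_option autoImplicit false

/-! Pieces O1, O2, O4 of project CHEV-AUT. -/

namespace Cfsg.Agent.Lib.LeadAutO1

open Cfsg Cfsg.Lie Cfsg.Lie.ChevalleyDatum
open Subgroup Cfsg.Agent.Lib.Helper23Grp Cfsg.Agent.Lib.Helper23RG Cfsg.Agent.Lib.Helper23RG.RG
  Cfsg.Agent.Lib.Helper23Weyl Cfsg.Agent.Lib.LeadAutDefs
  Cfsg.Agent.Lib.Helper23Table Cfsg.Agent.Lib.Helper23Chev Cfsg.Agent.Lib.LeadAutConc
open scoped MatrixGroups Matrix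

variable {F : Type*} [Field F] {D : ChevalleyDatum}

/-- O1 -/
theorem acts_twist (hT : TableOK D) (hR : Rel D F) (ok : (SG hT hR).Ok)
    (hC4 : ∀ c : Fin D.rank → Fˣ, ∃ χ : ℕ → Fˣ, D.IsRootCharacter χ ∧ ∀ i : Fin D.rank, χ (D.simple i) = c i)
    (hC5 : ∀ χ : ℕ → Fˣ, D.IsRootCharacter χ → ∃ d : ↥(D.group F) ≃* ↥(D.group F), D.IsDiagonalAut d ∧
      ∀ (r : Fin D.nroots) (t : F), d ((SG hT hR).x r t) = (SG hT hR).x r (χ r * t))
    {θ : ↥(D.group F) ≃* ↥(D.group F)} {ρ : Equiv.Perm (Fin D.rank)} {f : Fin D.rank → F → F}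
    (hA : Acts (SG hT hR) θ ρ f) (c : Fin D.rank → Fˣ) :
    ∃ θ' : ↥(D.group F) ≃* ↥(D.group F), Acts (SG hT hR) θ' ρ (fun i t => c i * f i t) := by
  obtain ⟨χ, hχ, hχc⟩ := hC4 (fun k => c (ρ.symm k))
  obtain ⟨d, _, hd⟩ := hC5 χ hχ
  have h1 : ∀ i, χ (D.simple (ρ i)) = c i := by
    intro i
    have := hχc (ρ i)
    simpa using this
  refine ⟨θ.trans d, ?_, ?_, ?_, ?_⟩
  · intro i t
    rw [MulEquiv.trans_apply, hA.pos, hd]
    congr 2
    show ((χ (D.simple (ρ i)) : Fˣ) : F) = _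
    rw [h1]
  · intro i t ht
    rw [MulEquiv.trans_apply, hA.neg i t ht, hd]
    congr 1
    have h2 := hχ.1 (D.simple (ρ i)) (hT.simple_lt _ (ρ i).2)
    rw [h1] at h2
    show ((χ (D.neg (D.simple (ρ i))) : Fˣ) : F) * _ = _
    rw [h2, mul_inv, Units.val_inv_eq_inv_val, mul_neg]
  · intro i a b
    show (c i : F) * f i (a + b) = _
    rw [hA.add, mul_add]
  · intro i
    exact (Units.mulLeft_bijective (c i) |> fun _ =>
      (mulLeft_bijective₀ (c i : F) (c i).ne_zero).comp (hA.bij i))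

/-- O2 -/
theorem acts_field (hT : TableOK D) (hR : Rel D F) (ok : (SG hT hR).Ok)
    (hC6 : ∀ σ : F ≃+* F, ∃ φ : ↥(D.group F) ≃* ↥(D.group F), D.IsFieldAut φ ∧
      ∀ (r : Fin D.nroots) (t : F), φ ((SG hT hR).x r t) = (SG hT hR).x r (σ t))
    {θ : ↥(D.group F) ≃* ↥(D.group F)} {ρ : Equiv.Perm (Fin D.rank)} {f : Fin D.rank → F → F}
    (hA : Acts (SG hT hR) θ ρ f) (σ : F ≃+* F) :
    ∃ θ' : ↥(D.group F) ≃* ↥(D.group F), Acts (SG hT hR) θ' ρ (fun i t => f i (σ t)) := by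
  obtain ⟨φ, _, hφ⟩ := hC6 σ
  refine ⟨φ.trans θ, ?_, ?_, ?_, ?_⟩
  · intro i t
    rw [MulEquiv.trans_apply, hφ, hA.pos]
  · intro i t ht
    rw [MulEquiv.trans_apply, hφ, map_neg, map_inv₀, hA.neg i (σ t) (by simpa using ht)]
  · intro i a b
    show f i (σ (a + b)) = _
    rw [map_add, hA.add]
  · intro i
    exact (hA.bij i).comp σ.bijective

/-- the power maps occurring in graph automorphisms are field automorphisms -/
theorem exists_pow_equiv [Finite F] (i j : ℕ) :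
    ∃ τ : F ≃+* F, ∀ t, τ t = t ^ D.graphExp (ringChar F) i j := by
  unfold graphExp
  split_ifs
  · haveI : Fact (ringChar F).Prime := ⟨CharP.char_is_prime F (ringChar F)⟩
    exact ⟨frobeniusEquiv F (ringChar F), fun t => by simp [frobeniusEquiv_apply, frobenius_def]⟩
  · exact ⟨RingEquiv.refl F, fun t => by simp⟩

/-- O4 -/
theorem acts_of_graph [Finite F] (hT : TableOK D) (hR : Rel D F) (g : ↥(D.group F) ≃* ↥(D.group F))
    (π : Equiv.Perm (Fin D.rank))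
    (hg : ∀ (g' : ↥(D.group F)) (i : Fin D.rank) (t : F),
      (((g' : GL D.Idx F) : Matrix D.Idx D.Idx F) = D.x F (D.simple i) t →
        ((g g' : GL D.Idx F) : Matrix D.Idx D.Idx F) =
          D.x F (D.simple (π i)) (t ^ D.graphExp (ringChar F) i (π i))) ∧
      (((g' : GL D.Idx F) : Matrix D.Idx D.Idx F) = D.x F (D.neg (D.simple i)) t →
        ((g g' : GL D.Idx F) : Matrix D.Idx D.Idx F) =
          D.x F (D.neg (D.simple (π i))) (t ^ D.graphExp (ringChar F) i (π i)))) :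
    Acts (SG hT hR) g π (fun i t => t ^ D.graphExp (ringChar F) i (π i)) := by
  choose τ hτ using fun i j : ℕ => exists_pow_equiv (F := F) (D := D) i j
  refine ⟨?_, ?_, ?_, ?_⟩
  · intro i t
    exact (eq_SG_x_iff hT hR _ ((SG hT hR).simple (π i)) _).1
      ((hg _ i t).1 (coe_SG_x hT hR ((SG hT hR).simple i) t))
  · intro i t ht
    have := (eq_SG_x_iff hT hR _ ((SG hT hR).neg ((SG hT hR).simple (π i))) _).1
      ((hg _ i (-t⁻¹)).2 (coe_SG_x hT hR ((SG hT hR).neg ((SG hT hR).simple i)) (-t⁻¹)))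
    rw [this, ← hτ, ← hτ, map_neg, map_inv₀]
  · intro i a b
    show (a + b) ^ _ = a ^ _ + b ^ _
    rw [← hτ, ← hτ, ← hτ, map_add]
  · intro i
    have : (fun t : F => t ^ D.graphExp (ringChar F) i (π i)) = τ i (π i) := by
      funext t; rw [hτ]
    rw [this]
    exact (τ i (π i)).bijective

end Cfsg.Agent.Lib.LeadAutO1
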