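import Cfsg.Agent.Lib.LeadAutConc

set_option autoImplicit false

/-! Piece O11 of project CHEV-AUT. -/

namespace Cfsg.Agent.Lib.LeadAutO11

open Cfsg Cfsg.Lie Cfsg.Lie.ChevalleyDatum

variable {F : Type*} [Field F]

def j1 : Fin chevF4.rank := ⟨1, by decide⟩
def j2 : Fin chevF4.rank := ⟨2, by decide⟩

theorem f4_sym : ∀ ρ : Equiv.Perm (Fin chevF4.rank),
    (∀ i j : Fin chevF4.rank, i ≠ j → chevF4.bonds (ρ i) (ρ j) = chevF4.bonds i j) → ρ ≠ 1 →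
      ρ j1 = j2 ∧ ρ j2 = j1 := by
  decide

/-- O11 -/
theorem f4_char (ρ : Equiv.Perm (Fin chevF4.rank)) (hρ : chevF4.IsDiagramSymmetry ρ) (σ : Fin chevF4.rank → (F ≃+* F))
    (hσ : ∀ (i j : Fin chevF4.rank) (t : F), t ≠ 0 →
      σ i t ^ (chevF4.cartan j (chevF4.simple i)) = σ j t ^ (chevF4.cartan (ρ j) (chevF4.simple (ρ i))))
    (hne : ρ ≠ 1) : (2 : F) = 0 := by
  obtain ⟨h1, h2⟩ := f4_sym ρ hρ hne
  by_contra h
  have := hσ j1 j2 2 h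
  rw [h1, h2, map_ofNat, map_ofNat] at this
  have e1 : chevF4.cartan j2 (chevF4.simple j1) = -1 := by decide
  have e2 : chevF4.cartan j1 (chevF4.simple j2) = -2 := by decide
  rw [e1, e2] at this
  have h3 : (2 : F) ^ (-1 : ℤ) * 2 ^ (2 : ℤ) = 2 ^ (-2 : ℤ) * 2 ^ (2 : ℤ) := by rw [this]
  rw [← zpow_add₀ h, ← zpow_add₀ h] at h3
  norm_num at h3
  have h4 : (1 : F) = 0 := by linear_combination h3
  exact one_ne_zero h4

end Cfsg.Agent.Lib.LeadAutO11
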