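import Cfsg.Agent.Lib.LeadAutChev
import Cfsg.Agent.Lib.Helper15AutO10
import Cfsg.Agent.Lib.Helper17AutO5
import Cfsg.Agent.Lib.Helper17AutO6
import Cfsg.Agent.Lib.Helper94AutO3
import Cfsg.Agent.Lib.Helper94AutO8
import Cfsg.Agent.Lib.LeadAutO1
import Cfsg.Agent.Lib.LeadAutO11
import Cfsg.Agent.Lib.Helper50Out
import Cfsg.Agent.S1035

set_option autoImplicit false

namespace Cfsg.Agent.Lib.LeadAutOut

open Cfsg Cfsg.Lie Cfsg.Lie.ChevalleyDatum
open Subgroup Cfsg.Agent.Lib.Helper23Grp Cfsg.Agent.Lib.Helper23RG Cfsg.Agent.Lib.Helper23RG.RG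
  Cfsg.Agent.Lib.Helper23Weyl Cfsg.Agent.Lib.LeadAutDefs Cfsg.Agent.Lib.LeadAutMain
  Cfsg.Agent.Lib.Helper23Table Cfsg.Agent.Lib.Helper23Chev Cfsg.Agent.Lib.LeadAutConc Cfsg.Agent.Lib.LeadAutChev
open scoped MatrixGroups Matrix

variable {F : Type*} [Field F] {D : ChevalleyDatum}

/-! ## PART O : the order of Out -/

/-- O1 (uses C4, C5 as hypotheses) -/
theorem acts_twist (hT : TableOK D) (hR : Rel D F) (ok : (SG hT hR).Ok)
    (hC4 : ∀ c : Fin D.rank → Fˣ, ∃ χ : ℕ → Fˣ, D.IsRootCharacter χ ∧ ∀ i : Fin D.rank, χ (D.simple i) = c i)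
    (hC5 : ∀ χ : ℕ → Fˣ, D.IsRootCharacter χ → ∃ d : ↥(D.group F) ≃* ↥(D.group F), D.IsDiagonalAut d ∧
      ∀ (r : Fin D.nroots) (t : F), d ((SG hT hR).x r t) = (SG hT hR).x r (χ r * t))
    {θ : ↥(D.group F) ≃* ↥(D.group F)} {ρ : Equiv.Perm (Fin D.rank)} {f : Fin D.rank → F → F}
    (hA : Acts (SG hT hR) θ ρ f) (c : Fin D.rank → Fˣ) :
    ∃ θ' : ↥(D.group F) ≃* ↥(D.group F), Acts (SG hT hR) θ' ρ (fun i t => c i * f i t) :=
  Cfsg.Agent.Lib.LeadAutO1.acts_twist hT hR ok hC4 hC5 hA c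

/-- O2 (uses C6 as a hypothesis) -/
theorem acts_field (hT : TableOK D) (hR : Rel D F) (ok : (SG hT hR).Ok)
    (hC6 : ∀ σ : F ≃+* F, ∃ φ : ↥(D.group F) ≃* ↥(D.group F), D.IsFieldAut φ ∧
      ∀ (r : Fin D.nroots) (t : F), φ ((SG hT hR).x r t) = (SG hT hR).x r (σ t))
    {θ : ↥(D.group F) ≃* ↥(D.group F)} {ρ : Equiv.Perm (Fin D.rank)} {f : Fin D.rank → F → F}
    (hA : Acts (SG hT hR) θ ρ f) (σ : F ≃+* F) :
    ∃ θ' : ↥(D.group F) ≃* ↥(D.group F), Acts (SG hT hR) θ' ρ (fun i t => f i (σ t)) :=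
  Cfsg.Agent.Lib.LeadAutO1.acts_field hT hR ok hC6 hA σ

/-- O3 -/
theorem graphExp_inj [Finite F] (i j : ℕ) : Function.Injective (fun t : F => t ^ D.graphExp (ringChar F) i j) :=
  Cfsg.Agent.Lib.Helper94AutO3.graphExp_inj i j

/-- O4 -/
theorem acts_of_graph [Finite F] (hT : TableOK D) (hR : Rel D F) (g : ↥(D.group F) ≃* ↥(D.group F))
    (π : Equiv.Perm (Fin D.rank))
    (hg : ∀ (g' : ↥(D.group F)) (i : Fin D.rank) (t : F),
      (((g' : GL D.Idx F) : Matrix D.Idx D.Idx F) = D.x F (D.simple i) t →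
        ((g g' : GL D.Idx F) : Matrix D.Idx D.Idx F) =
          D.x F (D.simple (π i)) (t ^ D.graphExp (ringChar F) i (π i))) ∧
      (((g' : GL D.Idx F) : Matrix D.Idx D.Idx F) = D.x F (D.neg (D.simple i)) t →
        ((g g' : GL D.Idx F) : Matrix D.Idx D.Idx F) =
          D.x F (D.neg (D.simple (π i))) (t ^ D.graphExp (ringChar F) i (π i)))) :
    Acts (SG hT hR) g π (fun i t => t ^ D.graphExp (ringChar F) i (π i)) :=
  Cfsg.Agent.Lib.LeadAutO1.acts_of_graph hT hR g π hg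

/-- O5 (uses C1) -/
theorem card_SG_H (hT : TableOK D) (hR : Rel D F) :
    Nat.card (SG hT hR).H = Nat.card (D.diagonalSubgroup F) :=
  Cfsg.Agent.Lib.Helper17AutO5.card_SG_H hT hR

/-- O6 -/
theorem center_trivial (hD : D ∈ [chevG2, chevB2, chevD4, chevF4, chevE6, chevE7, chevE8])
    (h2 : D = chevG2 ∨ D = chevB2 → ∃ a : F, a ≠ 0 ∧ a ≠ 1) :
    ∀ z : ↥(D.group F), (∀ g, z * g = g * z) → z = 1 :=
  Cfsg.Agent.Lib.Helper17AutO6.center_trivial hD h2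

/-- assembly -/
theorem acts_diag_sym [Finite F] (hD : D ∈ [chevG2, chevB2, chevD4, chevF4, chevE6, chevE7, chevE8])
    (hT : TableOK D) (hR : Rel D F) {θ : ↥(D.group F) ≃* ↥(D.group F)} {ρ : Equiv.Perm (Fin D.rank)}
    {f : Fin D.rank → F → F} (hA : Acts (SG hT hR) θ ρ f) : D.IsDiagramSymmetry ρ := by
  have h := adata hD hT hR
  intro i j hij
  exact bonds_of_cox hD hT hR h.ok i j (ρ i) (ρ j) hij (fun e => hij (ρ.injective e))
    (fun m => cox_perm h hA (map_B h (Acts.nrm h hA)) i j m)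

/-- assembly -/
theorem acts_rel [Finite F] (hD : D ∈ [chevG2, chevB2, chevD4, chevF4, chevE6, chevE7, chevE8])
    (hT : TableOK D) (hR : Rel D F) {θ : ↥(D.group F) ≃* ↥(D.group F)} {ρ : Equiv.Perm (Fin D.rank)}
    {f : Fin D.rank → F → F} (hA : Acts (SG hT hR) θ ρ f) :
    ∃ σ : Fin D.rank → (F ≃+* F), ∀ (i j : Fin D.rank) (t : F), t ≠ 0 →
      σ i t ^ (D.cartan j (D.simple i)) = σ j t ^ (D.cartan (ρ j) (D.simple (ρ i))) := by
  have h := adata hD hT hR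
  obtain ⟨c, σ, hc, hσ⟩ := exists_sigma h hA (fun i j t u ht => torus_rel h hA i j t u ht)
    (fun F a b c d => ring_of_sq F a b c d)
  exact ⟨σ, hσ⟩

/-- O7 (assembly; uses THEOREM 3 etc.; develop against the sorry-ed skeleton) -/
theorem card_out_chev [Fintype F] (p f : ℕ) [Fact p.Prime] [CharP F p] (hF : Fintype.card F = p ^ f)
    (hD : D ∈ [chevG2, chevB2, chevD4, chevF4, chevE6, chevE7, chevE8])
    (h2 : D = chevG2 ∨ D = chevB2 → ∃ a : F, a ≠ 0 ∧ a ≠ 1)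
    (hT : TableOK D) (hR : Rel D F) (Γ : Finset (Equiv.Perm (Fin D.rank)))
    (hΓ1 : ∀ (θ : ↥(D.group F) ≃* ↥(D.group F)) (ρ : Equiv.Perm (Fin D.rank)) (f : Fin D.rank → F → F),
      Acts (SG hT hR) θ ρ f → ρ ∈ Γ)
    (hΓ2 : ∀ ρ ∈ Γ, ∃ g : ↥(D.group F) ≃* ↥(D.group F),
      Acts (SG hT hR) g ρ (fun i t => t ^ D.graphExp (ringChar F) i (ρ i)))
    (d : ℕ) (hd : d * Nat.card (D.diagonalSubgroup F) = (p ^ f - 1) ^ D.rank) :
    Nat.card (Cfsg.Out ↥(D.group F)) = Γ.card * d * f := by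
  have h := adata hD hT hR
  haveI : Nonempty (Fin D.rank) := by
    simp only [List.mem_cons, List.not_mem_nil, or_false] at hD
    rcases hD with rfl | rfl | rfl | rfl | rfl | rfl | rfl <;> exact ⟨⟨0, by decide⟩⟩
  have key := card_out_eq h (center_trivial hD h2) Γ (fun ρ i => D.graphExp (ringChar F) i (ρ i))
    (fun ρ _ i => graphExp_inj _ _)
    (fun θ hθ => by
      obtain ⟨ρ, c, σ0, _, hA⟩ := nrm_form hD hT hR hθ
      exact ⟨ρ, hΓ1 _ _ _ hA, c, σ0, hA⟩)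
    (fun ρ hρ c σ => by
      obtain ⟨g, hg⟩ := hΓ2 ρ hρ
      obtain ⟨g1, hg1⟩ := acts_field hT hR h.ok (fieldAut hT hR) hg σ
      exact acts_twist hT hR h.ok (exists_char hD) (diagAut hD hT hR) hg1 c)
  rw [card_SG_H, (Cfsg.Agent.Lib.Helper50Out.ringAut_cyclic_card hF).2, Nat.card_eq_fintype_card (α := F), hF,
    Fintype.card_fin, ← hd] at key
  have hpos : 0 < Nat.card (D.diagonalSubgroup F) := Nat.card_pos
  have : Nat.card (Cfsg.Out ↥(D.group F)) * Nat.card (D.diagonalSubgroup F) =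
      (Γ.card * d * f) * Nat.card (D.diagonalSubgroup F) := by
    rw [key]; ring
  exact Nat.eq_of_mul_eq_mul_right hpos this

/-- O8 -/
theorem diag_sym_E8 (ρ : Equiv.Perm (Fin chevE8.rank)) (h : chevE8.IsDiagramSymmetry ρ) : ρ = 1 :=
  Cfsg.Agent.Lib.Helper94AutO8.diag_sym_E8 ρ h

/-- O9 -/
theorem diag_sym_E7 (ρ : Equiv.Perm (Fin chevE7.rank)) (h : chevE7.IsDiagramSymmetry ρ) : ρ = 1 :=
  Cfsg.Agent.Lib.Helper94AutO8.diag_sym_E7 ρ h

/-- O10 : the graph automorphism of E6 -/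
theorem graph_E6 (hT : TableOK chevE6) (hR : Rel chevE6 F) :
    ∃ ρ6 : Equiv.Perm (Fin chevE6.rank), ρ6 ≠ 1 ∧
      (∀ ρ : Equiv.Perm (Fin chevE6.rank), chevE6.IsDiagramSymmetry ρ → ρ = 1 ∨ ρ = ρ6) ∧
      ∃ g : ↥(chevE6.group F) ≃* ↥(chevE6.group F), Acts (SG hT hR) g ρ6 (fun _ t => t) :=
  Cfsg.Agent.Lib.Helper15AutO10.graph_E6 hT hR

/-- O11 : part of C9 -/
theorem f4_char (ρ : Equiv.Perm (Fin chevF4.rank)) (hρ : chevF4.IsDiagramSymmetry ρ) (σ : Fin chevF4.rank → (F ≃+* F))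
    (hσ : ∀ (i j : Fin chevF4.rank) (t : F), t ≠ 0 →
      σ i t ^ (chevF4.cartan j (chevF4.simple i)) = σ j t ^ (chevF4.cartan (ρ j) (chevF4.simple (ρ i))))
    (hne : ρ ≠ 1) : (2 : F) = 0 :=
  Cfsg.Agent.Lib.LeadAutO11.f4_char ρ hρ σ hσ hne

/-- the identity -/
theorem acts_refl [Finite F] (hT : TableOK D) (hR : Rel D F) :
    Acts (SG hT hR) (MulEquiv.refl _) 1 (fun i t => t ^ D.graphExp (ringChar F) i ((1 : Equiv.Perm (Fin D.rank)) i)) := by
  have e : ∀ i : Fin D.rank, D.graphExp (ringChar F) i ((1 : Equiv.Perm (Fin D.rank)) i) = 1 := by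
    intro i
    unfold graphExp
    simp
  simp only [e, pow_one]
  exact ⟨fun _ _ => rfl, fun _ _ _ => rfl, fun _ _ _ => rfl, fun _ => Function.bijective_id⟩

theorem S2125 [Fintype F] (p f : ℕ) [Fact p.Prime] [CharP F p] (hF : Fintype.card F = p ^ f) :
    Nat.card (Cfsg.Out ↥(Cfsg.Lie.chevE8.group F)) = f := by
  have hD : chevE8 ∈ [chevG2, chevB2, chevD4, chevF4, chevE6, chevE7, chevE8] := by simp
  have hT := Cfsg.Agent.Lib.Helper23All.tab hD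
  have hR : Rel chevE8 F := Cfsg.Agent.Lib.Helper23All.rel hD
  have := card_out_chev p f hF hD (by
      intro h
      rcases h with h | h <;> exact absurd (congrArg ChevalleyDatum.rank h) (by decide)) hT hR {1}
    (fun θ ρ f hA => by
      rw [Finset.mem_singleton]; exact diag_sym_E8 ρ (acts_diag_sym hD hT hR hA))
    (fun ρ hρ => by
      rw [Finset.mem_singleton] at hρ; subst hρ; exact ⟨_, acts_refl hT hR⟩)
    1 (Cfsg.Agent.S1035.result hF (chevE8, 1) (by simp))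
  simpa using this

end Cfsg.Agent.Lib.LeadAutOut
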