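import Cfsg.Agent.Lib.LeadTwDefs3
import Cfsg.Agent.Lib.LeadAutOut
import Cfsg.Agent.Lib.Helper23Tw3D4d
import Cfsg.Agent.Lib.Helper23Tw2E6d

set_option autoImplicit false
set_option linter.unusedVariables false
set_option linter.unusedSectionVars false
set_option maxRecDepth 100000

/-! PROJECT 101 (TW-AUT), piece C1. -/

namespace Cfsg.Agent.Lib.Helper15TwC1

open Cfsg Cfsg.Lie Cfsg.Lie.ChevalleyDatum
open Subgroup Cfsg.Agent.Lib.Helper23Grp Cfsg.Agent.Lib.Helper23RG Cfsg.Agent.Lib.Helper23TG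
  Cfsg.Agent.Lib.Helper23Tw Cfsg.Agent.Lib.Helper23Weyl Cfsg.Agent.Lib.LeadTwDefs
  Cfsg.Agent.Lib.Helper23Table Cfsg.Agent.Lib.Helper23Chev Cfsg.Agent.Lib.Helper23Fast
  Cfsg.Agent.Lib.Helper23TwC Cfsg.Agent.Lib.LeadAutConc

/-- an automorphism which maps every root element into its root group preserves every `XS Ψ` -/
theorem map_XS {𝔾 F R I : Type*} [Group 𝔾] [Field F] (S : RG 𝔾 F R I) (Θ : 𝔾 ≃* 𝔾)
    (f : R → F → F) (hΘ : ∀ r t, Θ (S.x r t) = S.x r (f r t)) (Ψ : R → Prop) (g : 𝔾)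
    (hg : g ∈ S.XS Ψ) : Θ g ∈ S.XS Ψ := by
  unfold RG.XS at hg ⊢
  induction hg using Subgroup.closure_induction with
  | mem y hy =>
    obtain ⟨r, t, hr, rfl⟩ := hy
    rw [hΘ]
    exact Subgroup.subset_closure ⟨r, _, hr, rfl⟩
  | one => rw [map_one]; exact one_mem _
  | mul y y' _ _ ih ih' => rw [map_mul]; exact mul_mem ih ih'
  | inv y _ ih => rw [map_inv]; exact inv_mem ih

theorem exists_Theta {F : Type*} [Field F] [Finite F] {D : ChevalleyDatum}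
    (hD : D ∈ [chevG2, chevB2, chevD4, chevF4, chevE6, chevE7, chevE8]) (hT : TableOK D) (hR : Rel D F)
    (C : Fin D.rank → F) (σ : F ≃+* F) (hC : ∀ i, C i ≠ 0) :
    ∃ Θ : ↥(D.group F) ≃* ↥(D.group F),
      (∀ i t, (Θ ⟨(rg hT hR).x ((rg hT hR).simple i) t, x_mem_group hT hR _ _⟩ : GL D.Idx F) =
        (rg hT hR).x ((rg hT hR).simple i) (C i * σ t)) ∧
      (∀ i t, (Θ ⟨(rg hT hR).x ((rg hT hR).neg ((rg hT hR).simple i)) t, x_mem_group hT hR _ _⟩ : GL D.Idx F) =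
        (rg hT hR).x ((rg hT hR).neg ((rg hT hR).simple i)) ((C i)⁻¹ * σ t)) ∧
      (∀ g : ↥(D.group F), (Θ g : GL D.Idx F) ∈ (rg hT hR).U ↔ (g : GL D.Idx F) ∈ (rg hT hR).U) ∧
      (∀ g : ↥(D.group F), (Θ g : GL D.Idx F) ∈ (rg hT hR).V ↔ (g : GL D.Idx F) ∈ (rg hT hR).V) := by
  obtain ⟨χ, hχ, hχs⟩ := Cfsg.Agent.Lib.LeadAutChev.exists_char (F := F) hD
    (fun i => Units.mk0 (C i) (hC i))
  obtain ⟨d, -, hd⟩ := Cfsg.Agent.Lib.LeadAutChev.diagAut hD hT hR χ hχ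
  obtain ⟨φ, -, hφ⟩ := Cfsg.Agent.Lib.LeadAutChev.fieldAut hT hR σ
  have hΘ : ∀ (r : Fin D.nroots) (t : F), (φ.trans d) ((SG hT hR).x r t) =
      (SG hT hR).x r ((χ r : F) * σ t) := by
    intro r t
    rw [MulEquiv.trans_apply, hφ, hd]
  have hΘs : ∀ (r : Fin D.nroots) (t : F), (φ.trans d).symm ((SG hT hR).x r t) =
      (SG hT hR).x r (σ.symm (((χ r : F))⁻¹ * t)) := by
    intro r t
    rw [MulEquiv.symm_apply_eq, hΘ, RingEquiv.apply_symm_apply, mul_inv_cancel_left₀ (χ r).ne_zero]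
  have hXS : ∀ (Ψ : Fin D.nroots → Prop) (g : ↥(D.group F)),
      ((φ.trans d) g : GL D.Idx F) ∈ (rg hT hR).XS Ψ ↔ (g : GL D.Idx F) ∈ (rg hT hR).XS Ψ := by
    intro Ψ g
    rw [← Cfsg.Agent.Lib.Helper38AutC1.mem_pull_XS (rg hT hR) (D.group F) (x_mem_group hT hR),
      ← Cfsg.Agent.Lib.Helper38AutC1.mem_pull_XS (rg hT hR) (D.group F) (x_mem_group hT hR)]
    constructor
    · intro h
      have := map_XS (SG hT hR) (φ.trans d).symm _ hΘs Ψ _ h
      rwa [MulEquiv.symm_apply_apply] at this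
    · intro h
      exact map_XS (SG hT hR) (φ.trans d) _ hΘ Ψ _ h
  refine ⟨φ.trans d, ?_, ?_, hXS _, hXS _⟩
  · intro i t
    have h1 := hΘ ((rg hT hR).simple i) t
    have h2 : (χ ((rg hT hR).simple i : ℕ) : F) = C i := by
      have := hχs i
      show (χ (D.simple i) : F) = C i
      rw [this]
      rfl
    rw [h2] at h1
    exact congrArg Subtype.val h1
  · intro i t
    have h1 := hΘ ((rg hT hR).neg ((rg hT hR).simple i)) t
    have h2 : (χ ((rg hT hR).neg ((rg hT hR).simple i) : ℕ) : F) = (C i)⁻¹ := by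
      show (χ (D.neg (D.simple i)) : F) = (C i)⁻¹
      rw [hχ.1 (D.simple i) ((rg hT hR).simple i).2, hχs i]
      simp
    rw [h2] at h1
    exact congrArg Subtype.val h1

end Cfsg.Agent.Lib.Helper15TwC1
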