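import Mathlib

set_option autoImplicit false

/-! PROJECT 101 (TW-AUT), pieces C3, C5, C6 (pure Mathlib). -/

namespace Cfsg.Agent.Lib.Helper15TwC3

/-- C3a (pure combinatorics) -/
theorem rigid2 (sz : Fin 2 → ℕ) (ρ : Equiv.Perm (Fin 2)) (hsz : ∀ J, sz (ρ J) = sz J) (hne : sz 0 ≠ sz 1) : ρ = 1 := by
  ext J
  have h := hsz J
  congr 1
  show ρ J = J
  revert h
  generalize ρ J = K
  intro h
  fin_cases J <;> fin_cases K <;> first
    | rfl
    | exact absurd h hne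
    | exact absurd h.symm hne

theorem rigid4_cls (sz : Fin 4 → ℕ) (h01 : sz 0 = sz 1) (h23 : sz 2 = sz 3) (hne : sz 0 ≠ sz 2)
    (J K : Fin 4) (h : sz K = sz J) : (K = 0 ∨ K = 1) ↔ (J = 0 ∨ J = 1) := by
  have e1 : sz 1 ≠ sz 2 := h01 ▸ hne
  have e2 : sz 0 ≠ sz 3 := h23 ▸ hne
  have e3 : sz 1 ≠ sz 3 := h23 ▸ e1
  fin_cases J <;> fin_cases K <;> first
    | exact absurd h hne
    | exact absurd h.symm hne
    | exact absurd h e1
    | exact absurd h.symm e1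
    | exact absurd h e2
    | exact absurd h.symm e2
    | exact absurd h e3
    | exact absurd h.symm e3
    | simp

theorem fin4_cases (K : Fin 4) : K = 0 ∨ K = 1 ∨ K = 2 ∨ K = 3 := by
  fin_cases K <;> simp

/-- C3b (pure combinatorics). -/
theorem rigid4 (D : Fin 4 → Fin 4 → Prop) (sz : Fin 4 → ℕ) (ρ : Equiv.Perm (Fin 4))
    (hD : ∀ J J', D (ρ J) (ρ J') ↔ D J J') (hsz : ∀ J, sz (ρ J) = sz J)
    (h01 : sz 0 = sz 1) (h23 : sz 2 = sz 3) (hne : sz 0 ≠ sz 2)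
    (d31 : D 3 1) (d30 : D 3 0) (d20 : D 2 0) (n21 : ¬ D 2 1) : ρ = 1 := by
  have cls := fun J => rigid4_cls sz h01 h23 hne J (ρ J) (hsz J)
  have a01 : ρ 0 = 0 ∨ ρ 0 = 1 := (cls 0).2 (Or.inl rfl)
  have b01 : ρ 1 = 0 ∨ ρ 1 = 1 := (cls 1).2 (Or.inr rfl)
  have c23 : ρ 2 = 2 ∨ ρ 2 = 3 := by
    rcases fin4_cases (ρ 2) with h | h | h | h
    · exact absurd ((cls 2).1 (Or.inl h)) (by decide)
    · exact absurd ((cls 2).1 (Or.inr h)) (by decide)
    · exact Or.inl h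
    · exact Or.inr h
  have d23 : ρ 3 = 2 ∨ ρ 3 = 3 := by
    rcases fin4_cases (ρ 3) with h | h | h | h
    · exact absurd ((cls 3).1 (Or.inl h)) (by decide)
    · exact absurd ((cls 3).1 (Or.inr h)) (by decide)
    · exact Or.inl h
    · exact Or.inr h
  have hab : ρ 0 ≠ ρ 1 := ρ.injective.ne (by decide)
  have hcd : ρ 2 ≠ ρ 3 := ρ.injective.ne (by decide)
  have d3 : ρ 3 = 3 := by
    rcases d23 with h | h
    · exfalso
      have e1 := (hD 3 1).2 d31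
      have e0 := (hD 3 0).2 d30
      rw [h] at e1 e0
      rcases a01 with ha | ha
      · rcases b01 with hb | hb
        · exact hab (ha.trans hb.symm)
        · rw [hb] at e1; exact n21 e1
      · rw [ha] at e0; exact n21 e0
    · exact h
  have c2 : ρ 2 = 2 := by
    rcases c23 with h | h
    · exact h
    · exact absurd (h.trans d3.symm) hcd
  have a0 : ρ 0 = 0 := by
    rcases a01 with h | h
    · exact h
    · exfalso
      have e := (hD 2 0).2 d20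
      rw [c2, h] at e
      exact n21 e
  have b1 : ρ 1 = 1 := by
    rcases b01 with h | h
    · exact absurd (a0.trans h.symm) hab
    · exact h
  ext J
  congr 1
  show ρ J = J
  rcases fin4_cases J with h | h | h | h <;> rw [h]
  · exact a0
  · exact b1
  · exact c2
  · exact d3

theorem nd_sub {p q : ℕ} (hp : p.Prime) (hpq : p ∣ q) (hq : 1 ≤ q) (k : ℕ) (hk : 1 ≤ k) :
    ¬ p ∣ q ^ k - 1 := by
  intro h
  have h1 : p ∣ q ^ k := dvd_pow hpq (by omega)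
  have h2 : 1 ≤ q ^ k := Nat.one_le_pow _ _ hq
  have h3 : q ^ k = (q ^ k - 1) + 1 := by omega
  rw [h3] at h1
  have := (Nat.dvd_add_right h).1 h1
  exact hp.one_lt.ne' (Nat.dvd_one.1 this)

theorem nd_add {p q : ℕ} (hp : p.Prime) (hpq : p ∣ q) (k : ℕ) (hk : 1 ≤ k) :
    ¬ p ∣ q ^ k + 1 := by
  intro h
  have h1 : p ∣ q ^ k := dvd_pow hpq (by omega)
  have := (Nat.dvd_add_right h1).1 h
  exact hp.one_lt.ne' (Nat.dvd_one.1 this)

/-- C5 (arithmetic) -/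
theorem arith_3D4 (p f : ℕ) (hp : p.Prime) (hf : 1 ≤ f) :
    ¬ p ∣ ((p ^ f) ^ 2 - 1) * ((p ^ f) ^ 6 - 1) * ((p ^ f) ^ 8 + (p ^ f) ^ 4 + 1) := by
  have hpq : p ∣ p ^ f := dvd_pow_self p (by omega)
  have hq : 1 ≤ p ^ f := Nat.one_le_pow _ _ hp.pos
  intro h
  rcases (hp.dvd_mul).1 h with h | h
  · rcases (hp.dvd_mul).1 h with h | h
    · exact nd_sub hp hpq hq 2 (by norm_num) h
    · exact nd_sub hp hpq hq 6 (by norm_num) h
  · have h1 : p ∣ (p ^ f) ^ 8 + (p ^ f) ^ 4 :=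
      dvd_add (dvd_pow hpq (by norm_num)) (dvd_pow hpq (by norm_num))
    have := (Nat.dvd_add_right h1).1 h
    exact hp.one_lt.ne' (Nat.dvd_one.1 this)

/-- C6 (arithmetic) -/
theorem arith_2E6 (p f n : ℕ) (hp : p.Prime) (hf : 1 ≤ f)
    (h : Nat.gcd 3 (p ^ f + 1) * n = (p ^ f) ^ 36 * ((p ^ f) ^ 2 - 1) * ((p ^ f) ^ 5 + 1) * ((p ^ f) ^ 6 - 1) *
      ((p ^ f) ^ 8 - 1) * ((p ^ f) ^ 9 + 1) * ((p ^ f) ^ 12 - 1)) :
    ∃ m, n = p ^ (36 * f) * m ∧ ¬ p ∣ m := by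
  have hpq : p ∣ p ^ f := dvd_pow_self p (by omega)
  have hq : 1 ≤ p ^ f := Nat.one_le_pow _ _ hp.pos
  obtain ⟨q, hqdef⟩ : ∃ q, q = p ^ f := ⟨_, rfl⟩
  rw [← hqdef] at h hpq hq
  have hM : ¬ p ∣ (q ^ 2 - 1) * (q ^ 5 + 1) * (q ^ 6 - 1) * (q ^ 8 - 1) * (q ^ 9 + 1) * (q ^ 12 - 1) := by
    intro h
    rcases (hp.dvd_mul).1 h with h | h
    · rcases (hp.dvd_mul).1 h with h | h
      · rcases (hp.dvd_mul).1 h with h | h
        · rcases (hp.dvd_mul).1 h with h | h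
          · rcases (hp.dvd_mul).1 h with h | h
            · exact nd_sub hp hpq hq 2 (by norm_num) h
            · exact nd_add hp hpq 5 (by norm_num) h
          · exact nd_sub hp hpq hq 6 (by norm_num) h
        · exact nd_sub hp hpq hq 8 (by norm_num) h
      · exact nd_add hp hpq 9 (by norm_num) h
    · exact nd_sub hp hpq hq 12 (by norm_num) h
  have hd : ¬ p ∣ Nat.gcd 3 (q + 1) := by
    intro h1
    have h2 : p ∣ q + 1 := h1.trans (Nat.gcd_dvd_right _ _)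
    have := (Nat.dvd_add_right hpq).1 h2
    exact hp.one_lt.ne' (Nat.dvd_one.1 this)
  have hcop : Nat.Coprime (q ^ 36) (Nat.gcd 3 (q + 1)) := by
    rw [hqdef, ← pow_mul]
    exact Nat.Coprime.pow_left _ ((Nat.Prime.coprime_iff_not_dvd hp).2 (by rw [← hqdef]; exact hd))
  have h' : Nat.gcd 3 (q + 1) * n = q ^ 36 *
      ((q ^ 2 - 1) * (q ^ 5 + 1) * (q ^ 6 - 1) * (q ^ 8 - 1) * (q ^ 9 + 1) * (q ^ 12 - 1)) := by
    rw [h]; ring
  have hdv : q ^ 36 ∣ n := hcop.dvd_of_dvd_mul_left (Dvd.intro _ h'.symm)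
  obtain ⟨m, rfl⟩ := hdv
  refine ⟨m, by rw [hqdef, ← pow_mul, mul_comm f 36], ?_⟩
  intro hm
  apply hM
  have h2 : q ^ 36 * (Nat.gcd 3 (q + 1) * m) = q ^ 36 *
      ((q ^ 2 - 1) * (q ^ 5 + 1) * (q ^ 6 - 1) * (q ^ 8 - 1) * (q ^ 9 + 1) * (q ^ 12 - 1)) := by
    rw [← h']; ring
  have h3 := Nat.eq_of_mul_eq_mul_left (pow_pos hq 36) h2
  rw [← h3]
  exact Dvd.dvd.mul_left hm _

end Cfsg.Agent.Lib.Helper15TwC3
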