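import Cfsg.Agent.Lib.Helper13UDefs
import Cfsg.Agent.Lib.Helper97UProper3

set_option autoImplicit false

/-! PROJECT 4 = ASCH-U, piece `pc6`: `SU_n(q)`, `n ≥ 5`, does not normalise an absolutely irreducible group with
scalar commutators. -/

namespace Cfsg.Agent.Lib.Helper15UPc6

open Cfsg Cfsg.Geo Matrix Cfsg.Agent.Lib.Helper97AschBase Cfsg.Agent.Lib.Helper97AschForms
  Cfsg.Agent.Lib.Helper97AschTransv Cfsg.Agent.Lib.Helper95Herm Cfsg.Agent.Lib.Helper97UBase
  Cfsg.Agent.Lib.Helper97UProper Cfsg.Agent.Lib.Helper97AschHeis Cfsg.Agent.Lib.Helper97AschStd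
  Cfsg.Agent.Lib.Helper97UProper2 Cfsg.Agent.Lib.Helper97UProper3
open scoped MatrixGroups

variable {n : ℕ} {F : Type*} [Field F]

/-- if `c` does not commute with `w` but their commutator is a scalar, the fixed space of `c` is small -/
lemma two_mul_finrank_fixS_le {c w : GL (Fin n) F} {ζ : F} (hζ : ζ ≠ 1)
    (hrel : (w : Matrix (Fin n) (Fin n) F) * c = ζ • ((c : Matrix (Fin n) (Fin n) F) * w)) :
    2 * Module.finrank F (fixS c) ≤ n := by
  set W₂ : Submodule F (Fin n → F) := (fixS c).map (Matrix.toLin' (w : Matrix (Fin n) (Fin n) F)) with hW₂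
  have hinj : Function.Injective (Matrix.toLin' (w : Matrix (Fin n) (Fin n) F)) := by
    intro a b hab
    rw [Matrix.toLin'_apply, Matrix.toLin'_apply] at hab
    exact mulVec_injective w hab
  have hfr : Module.finrank F W₂ = Module.finrank F (fixS c) :=
    (Submodule.equivMapOfInjective _ hinj (fixS c)).finrank_eq.symm
  have hdisj : Disjoint (fixS c) W₂ := by
    rw [Submodule.disjoint_def]
    intro x hx hx2
    obtain ⟨v, hv, rfl⟩ := hx2
    rw [SetLike.mem_coe, mem_fixS] at hv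
    rw [mem_fixS, Matrix.toLin'_apply] at hx
    rw [Matrix.toLin'_apply]
    -- w v = w c v = ζ c w v = ζ w v
    have h1 : (w : Matrix (Fin n) (Fin n) F) *ᵥ v = ζ • ((w : Matrix (Fin n) (Fin n) F) *ᵥ v) := by
      conv_lhs => rw [← hv, Matrix.mulVec_mulVec, hrel, Matrix.smul_mulVec, ← Matrix.mulVec_mulVec, hx]
    have h2 : (1 - ζ) • ((w : Matrix (Fin n) (Fin n) F) *ᵥ v) = 0 := by
      rw [sub_smul, one_smul, ← h1, sub_self]
    rcases smul_eq_zero.mp h2 with h3 | h3
    · exact absurd (sub_eq_zero.mp h3).symm hζ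
    · exact h3
  have := Submodule.finrank_add_finrank_le_of_disjoint hdisj
  rw [hfr, Module.finrank_fin_fun] at this
  omega

/-- a transvection does not normalise an absolutely irreducible group with scalar commutators
(dimension at least five) -/
lemma tv_not_mem_normalizer' (h5 : 5 ≤ n) {N : Subgroup (GL (Fin n) F)}
    (habs : ActsAbsolutelyIrreducibly (matrixSet N))
    (hcomm : ⁅N, N⁆ ≤ scalars (Fin n) F) (u φ : Fin n → F) (hφu : φ ⬝ᵥ u = 0) (hu0 : u ≠ 0)
    (hφ0 : φ ≠ 0) : tv u φ hφu ∉ subgroupNormalizer N := by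
  intro ht
  have hpos : 0 < n := by omega
  have : NeZero n := ⟨hpos.ne'⟩
  unfold subgroupNormalizer at ht
  rw [Subgroup.mem_normalizer_iff] at ht
  obtain ⟨t, htdef⟩ : ∃ t, t = tv u φ hφu := ⟨_, rfl⟩
  rw [← htdef] at ht
  have htv : ∀ v, (t : Matrix (Fin n) (Fin n) F) *ᵥ v = v + (φ ⬝ᵥ v) • u := by
    intro v; rw [htdef, tv_mulVec]
  have htinv : ∀ v, φ ⬝ᵥ v = 0 → ((t⁻¹ : GL (Fin n) F) : Matrix (Fin n) (Fin n) F) *ᵥ v = v := by
    intro v hv
    have h1 : (t : Matrix (Fin n) (Fin n) F) *ᵥ v = v := by rw [htv, hv, zero_smul, add_zero]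
    conv_lhs => rw [← h1]
    rw [inv_mulVec_mulVec]
  -- commutators are trivial
  have hcomm1 : ∀ x ∈ N, t * x * t⁻¹ * x⁻¹ = 1 := by
    intro x hx
    have hc : t * x * t⁻¹ * x⁻¹ ∈ N := N.mul_mem ((ht x).mp hx) (N.inv_mem hx)
    obtain ⟨c, hcdef⟩ : ∃ c, c = t * x * t⁻¹ * x⁻¹ := ⟨_, rfl⟩
    rw [← hcdef] at hc ⊢
    let K₀ := LinearMap.ker ((dotL φ).prod
      ((dotL φ) ∘ₗ Matrix.toLin' ((x⁻¹ : GL (Fin n) F) : Matrix (Fin n) (Fin n) F)))
    have hK₀ : n ≤ Module.finrank F K₀ + 2 := finrank_ker_two _ _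
    have hle : K₀ ≤ fixS c := by
      intro v hv
      rw [LinearMap.mem_ker] at hv
      have hv1 : φ ⬝ᵥ v = 0 := congrArg Prod.fst hv
      have hv2 : φ ⬝ᵥ (((x⁻¹ : GL (Fin n) F) : Matrix (Fin n) (Fin n) F) *ᵥ v) = 0 := by
        have := congrArg Prod.snd hv
        simpa using this
      rw [mem_fixS, hcdef, Units.val_mul, Units.val_mul, Units.val_mul, ← Matrix.mulVec_mulVec,
        ← Matrix.mulVec_mulVec, ← Matrix.mulVec_mulVec, htinv _ hv2, mulVec_inv_mulVec, htv, hv1,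
        zero_smul, add_zero]
    have hfr : n ≤ Module.finrank F (fixS c) + 2 := by
      have := Submodule.finrank_mono hle
      omega
    by_cases hcen : ∀ w ∈ N, c * w = w * c
    · obtain ⟨κ, hκ⟩ := (mem_scalars_iff _).mp (mem_scalars_of_comm hpos habs hcen)
      have hne : fixS c ≠ ⊥ := by
        intro hb
        rw [hb, finrank_bot] at hfr
        omega
      obtain ⟨v, hv, hv0⟩ := Submodule.exists_mem_ne_zero_of_ne_bot hne
      rw [mem_fixS, hκ, Matrix.smul_mulVec, Matrix.one_mulVec] at hv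
      have hκ1 : (κ : F) = 1 := by
        have h2 : ((κ : F) - 1) • v = 0 := by rw [sub_smul, hv, one_smul, sub_self]
        rcases smul_eq_zero.mp h2 with h3 | h3
        · exact sub_eq_zero.mp h3
        · exact absurd h3 hv0
      apply Units.ext
      rw [hκ, hκ1, one_smul, Units.val_one]
    · push Not at hcen
      obtain ⟨w, hw, hcw⟩ := hcen
      have h1 : w * c * w⁻¹ * c⁻¹ ∈ scalars (Fin n) F :=
        hcomm (Subgroup.commutator_mem_commutator hw hc)
      obtain ⟨ζ, hζ⟩ := (mem_scalars_iff _).mp h1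
      have hrel : (w : Matrix (Fin n) (Fin n) F) * c = (ζ : F) • ((c : Matrix (Fin n) (Fin n) F) * w) := by
        have h2 : w * c = (w * c * w⁻¹ * c⁻¹) * (c * w) := by group
        rw [← Units.val_mul, h2, Units.val_mul, hζ, Matrix.smul_mul, Matrix.one_mul, Units.val_mul]
      have hζ1 : (ζ : F) ≠ 1 := by
        intro h1'
        apply hcw
        apply Units.ext
        rw [Units.val_mul, Units.val_mul, hrel, h1', one_smul]
      have := two_mul_finrank_fixS_le hζ1 hrel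
      omega
  have hcen : ∀ x ∈ N, t * x = x * t := by
    intro x hx
    have := hcomm1 x hx
    calc t * x = (t * x * t⁻¹ * x⁻¹) * (x * t) := by group
      _ = x * t := by rw [this, one_mul]
  obtain ⟨κ, hκ⟩ := (mem_scalars_iff _).mp (mem_scalars_of_comm hpos habs hcen)
  obtain ⟨v, hv0, hv1, _⟩ := exists_ker_two (by omega) (dotL φ) (dotL φ)
  rw [dotL_apply] at hv1
  have h1 := htv v
  rw [hκ, Matrix.smul_mulVec, Matrix.one_mulVec, hv1, zero_smul, add_zero] at h1
  have hκ1 : (κ : F) = 1 := by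
    have h2 : ((κ : F) - 1) • v = 0 := by rw [sub_smul, h1, one_smul, sub_self]
    rcases smul_eq_zero.mp h2 with h3 | h3
    · exact sub_eq_zero.mp h3
    · exact absurd h3 hv0
  obtain ⟨v₁, hv₁⟩ := exists_dot_eq_one hφ0
  have h2 := htv v₁
  rw [hκ, hκ1, one_smul, Matrix.one_mulVec, hv₁, one_smul] at h2
  exact hu0 (by simpa using h2)

variable {σ : F ≃+* F} {f : (Fin n → F) → (Fin n → F) → F}

/-- a non-zero singular vector -/
lemma exists_singular [Finite F] (hf : IsUnitaryForm σ f) (hn : 3 ≤ n) :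
    ∃ u : Fin n → F, u ≠ 0 ∧ f u u = 0 := by
  classical
  have h := herm_of_unitary hf
  have hfr : Module.finrank F (Fin n → F) = n := Module.finrank_fin_fun F
  obtain ⟨y₁, _, hy₁⟩ := h.exists_perp ∅ (by rw [hfr]; simp; omega) 1 (map_one _)
  obtain ⟨y₂, hp₂, hy₂⟩ := h.exists_perp {y₁} (by rw [hfr]; simp; omega) (-1) (by simp)
  have h21 : f y₂ y₁ = 0 := hp₂ y₁ (by simp)
  have h12 := h.swap_zero h21
  refine ⟨y₁ + y₂, ?_, ?_⟩
  · intro h0
    have e1 := congrArg (fun v => f v y₁) h0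
    simp only [h.add_left, hy₁, h21, h.zero_left] at e1
    simp at e1
  · rw [h.add_left, h.add_right, h.add_right, hy₁, hy₂, h12, h21]; ring

/-- [pc6] -/
theorem notSU_c6 [Finite F] (hf : IsUnitaryForm σ f) (hn : 5 ≤ n) {R : Subgroup (GL (Fin n) F)}
    (habs : ActsAbsolutelyIrreducibly (matrixSet R)) (hcomm : ⁅R, R⁆ ≤ scalars (Fin n) F) :
    ¬ Iso f ⊓ specialLinear (Fin n) F ≤ subgroupNormalizer R := by
  intro hle
  have h := herm_of_unitary hf
  obtain ⟨u, hu0, hu⟩ := exists_singular hf (by omega)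
  obtain ⟨a, ha0, ha⟩ := h.exists_z
  exact tv_not_mem_normalizer' hn habs hcomm u (uφ f u a) _ hu0
    (uφ_ne_zero hf hu0 ha0) (hle (utv_mem hf u a hu ha))

end Cfsg.Agent.Lib.Helper15UPc6
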