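import Mathlib
import Cfsg.Agent.Lib.Helper14Sylow

set_option autoImplicit false

namespace Cfsg.Agent.Lib.Helper15Wagner

open MulAction Cfsg.Agent.Lib.Helper14Sylow
open scoped Pointwise

variable {Γ Ω : Type*} [Group Γ] [MulAction Γ Ω]

/-- the number of fixed points of a 2-group on an invariant finite set, modulo 2 -/
theorem fp_mod (S : Subgroup Γ) (hS : IsPGroup 2 S) (E : Set Ω) (hE : E.Finite)
    (hinv : ∀ s ∈ S, ∀ ω ∈ E, s • ω ∈ E) :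
    {ω | ω ∈ E ∧ ∀ s ∈ S, s • ω = ω}.ncard ≡ E.ncard [MOD 2] := by
  let E' : SubMulAction S Ω := ⟨E, fun s {ω} hω => hinv s.1 s.2 ω hω⟩
  have hfin : Finite E' := hE
  have h1 := hS.card_modEq_card_fixedPoints E'
  have h2 : Nat.card E' = E.ncard := Nat.card_coe_set_eq E
  have h3 : {ω | ω ∈ E ∧ ∀ s ∈ S, s • ω = ω} = Subtype.val '' (fixedPoints S E') := by
    ext ω
    constructor
    · rintro ⟨hω, hf⟩
      exact ⟨⟨ω, hω⟩, fun s => Subtype.ext (hf s.1 s.2), rfl⟩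
    · rintro ⟨⟨ω', hω'⟩, hf, rfl⟩
      exact ⟨hω', fun s hs => congrArg Subtype.val (hf ⟨s, hs⟩)⟩
  rw [h3, Set.ncard_image_of_injective _ Subtype.val_injective, ← Nat.card_coe_set_eq, ← h2]
  exact h1.symm

theorem cj_stabilizer (y : Γ) (a : Ω) : cj y (stabilizer Γ a) = stabilizer Γ (y • a) := by
  ext x
  rw [mem_cj, mem_stabilizer_iff, mem_stabilizer_iff, mul_smul, mul_smul, inv_smul_eq_iff]

/-- the two-point stabiliser inside `X` -/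
def X2 (X : Subgroup Γ) (a b : Ω) : Subgroup Γ := X ⊓ stabilizer Γ a ⊓ stabilizer Γ b

theorem mem_X2 {X : Subgroup Γ} {a b : Ω} {x : Γ} :
    x ∈ X2 X a b ↔ x ∈ X ∧ x • a = a ∧ x • b = b := by
  simp [X2, Subgroup.mem_inf, and_assoc]

theorem cj_X2 {X : Subgroup Γ} (y : Γ) (hy : cj y X = X) (a b : Ω) :
    cj y (X2 X a b) = X2 X (y • a) (y • b) := by
  rw [X2, cj_inf, cj_inf, hy, cj_stabilizer, cj_stabilizer]; rfl

theorem cj_fix {S : Subgroup Γ} {g : Γ} {ω : Ω} (h : ∀ s ∈ S, s • ω = ω) :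
    ∀ s ∈ cj g S, s • (g • ω) = g • ω := by
  intro s hs
  rw [mem_cj] at hs
  have := h _ hs
  rw [mul_smul, mul_smul, inv_smul_eq_iff] at this
  exact this

theorem conj_back [Finite Γ] {X : Subgroup Γ} {a b : Ω} {S : Subgroup Γ}
    (hS : IsSylowIn 2 S (X2 X a b))
    (y : Γ) (hy : cj y X = X) (D : Subgroup Γ) (hSD : S ≤ D) (hyD : cj y S ≤ D)
    (hfa : ∀ s ∈ S, s • (y • a) = y • a) (hfb : ∀ s ∈ S, s • (y • b) = y • b) :
    ∃ ν ∈ X, ν • (y • a) = y • a ∧ ν • (y • b) = y • b ∧ ν ∈ D ∧ cj (ν * y) S = S := by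
  have h1 : IsSylowIn 2 (cj y S) (X2 X (y • a) (y • b)) := by
    have := hS.cj y
    rwa [cj_X2 y hy] at this
  have hle : S ≤ X2 X (y • a) (y • b) :=
    fun s hs => mem_X2.2 ⟨(mem_X2.1 (hS.1 hs)).1, hfa s hs, hfb s hs⟩
  have h2 : IsSylowIn 2 S (X2 X (y • a) (y • b)) := by
    apply isSylowIn_of_card hle
    rw [hS.card_eq, ← cj_X2 y hy, card_cj]
  have h1' := h1.of_le (K := X2 X (y • a) (y • b) ⊓ D) (le_inf h1.1 hyD) inf_le_left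
  have h2' := h2.of_le (K := X2 X (y • a) (y • b) ⊓ D) (le_inf hle hSD) inf_le_left
  obtain ⟨ν, hν, hc⟩ := h2'.exists_conj_eq h1'
  obtain ⟨hν1, hν2⟩ := Subgroup.mem_inf.1 hν
  obtain ⟨hνX, hνa, hνb⟩ := mem_X2.1 hν1
  exact ⟨ν, hνX, hνa, hνb, hν2, by rw [cj_mul]; exact hc⟩

theorem pow_swap (x : Γ) (a b : Ω) (h1 : x • a = b)
    (h2 : x • b = a) (m : ℕ) (hm : Odd m) : x ^ m • a = b ∧ x ^ m • b = a := by
  obtain ⟨j, rfl⟩ := hm
  have h3 : ∀ j : ℕ, (x ^ (2 * j)) • a = a ∧ (x ^ (2 * j)) • b = b := by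
    intro j
    induction j with
    | zero => simp
    | succ j ih =>
      rw [Nat.mul_succ, pow_add, pow_two]
      simp only [mul_smul]
      rw [h1, h2, h1]
      exact ih
  rw [pow_succ']
  simp only [mul_smul]
  rw [(h3 j).1, (h3 j).2]
  exact ⟨h1, h2⟩

theorem isPGroup_zpowers (g : Γ) (k : ℕ) (hg : g ^ (2 ^ k) = 1) : IsPGroup 2 (Subgroup.zpowers g) := by
  rintro ⟨z, hz⟩
  obtain ⟨i, rfl⟩ := Subgroup.mem_zpowers_iff.mp hz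
  refine ⟨k, Subtype.ext ?_⟩
  change (g ^ i) ^ (2 ^ k) = 1
  rw [← zpow_natCast, ← zpow_mul, mul_comm, zpow_mul, zpow_natCast, hg, one_zpow]

theorem mem_pair_stab {a b : Ω} (hab : a ≠ b) (g : Γ) :
    g ∈ stabilizer Γ ({a, b} : Set Ω) ↔ (g • a = a ∧ g • b = b) ∨ (g • a = b ∧ g • b = a) := by
  rw [mem_stabilizer_iff]
  constructor
  · intro h
    have ha : g • a ∈ g • ({a, b} : Set Ω) := Set.smul_mem_smul_set (by simp)
    have hb : g • b ∈ g • ({a, b} : Set Ω) := Set.smul_mem_smul_set (by simp)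
    rw [h] at ha hb
    have hne : g • a ≠ g • b := fun e => hab (smul_left_cancel g e)
    simp only [Set.mem_insert_iff, Set.mem_singleton_iff] at ha hb
    rcases ha with ha | ha <;> rcases hb with hb | hb
    · exact absurd (ha.trans hb.symm) hne
    · exact Or.inl ⟨ha, hb⟩
    · exact Or.inr ⟨ha, hb⟩
    · exact absurd (ha.trans hb.symm) hne
  · rintro (⟨h1, h2⟩ | ⟨h1, h2⟩)
    · rw [Set.smul_set_insert, Set.smul_set_singleton, h1, h2]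
    · rw [Set.smul_set_insert, Set.smul_set_singleton, h1, h2, Set.pair_comm]

/-- the configuration of Wagner's theorem, relative to an invariant set `F` -/
structure Cfg (X Y : Subgroup Γ) (F : Set Ω) : Prop where
  le : X ≤ Y
  norm : ∀ y ∈ Y, cj y X = X
  pres : ∀ y ∈ Y, ∀ ω ∈ F, y • ω ∈ F
  t3 : ∀ a ∈ F, ∀ b ∈ F, ∀ c ∈ F, ∀ a' ∈ F, ∀ b' ∈ F, ∀ c' ∈ F, a ≠ b → a ≠ c → b ≠ c →
    a' ≠ b' → a' ≠ c' → b' ≠ c' → ∃ y ∈ Y, y • a = a' ∧ y • b = b' ∧ y • c = c'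
  t2 : ∀ a ∈ F, ∀ b ∈ F, ∀ a' ∈ F, ∀ b' ∈ F, a ≠ b → a' ≠ b' → ∃ x ∈ X, x • a = a' ∧ x • b = b'

theorem base [Finite Γ] {X Y : Subgroup Γ} {F : Set Ω} (hFfin : F.Finite) (hodd : Odd F.ncard)
    (hC : Cfg X Y F) {a b : Ω} (ha : a ∈ F) (hb : b ∈ F) (hab : a ≠ b) {S : Subgroup Γ}
    (hS : IsSylowIn 2 S (X2 X a b)) (hST : ∀ s ∈ S, ∀ ω ∈ F, s • ω = ω)
    (c : Ω) (hc : c ∈ F) (c' : Ω) (hc' : c' ∈ F) (hac : a ≠ c) (hbc : b ≠ c) (hac' : a ≠ c')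
    (hbc' : b ≠ c') : ∃ x ∈ X, x • a = a ∧ x • b = b ∧ x • c = c' := by
  have hB1 : ∀ g ∈ X, IsPGroup 2 (Subgroup.zpowers g) → ∀ r ∈ F, ∀ s ∈ F, r ≠ s → g • r = r →
      g • s = s → ∀ ω ∈ F, g • ω = ω := by
    intro g hg hgp r hr s hs hrs hgr hgs ω hω
    obtain ⟨x, hx, hxa, hxb⟩ := hC.t2 a ha b hb r hr s hs hab hrs
    have h1 : IsSylowIn 2 (cj x S) (X2 X r s) := by
      have := hS.cj x
      rwa [cj_X2 x (hC.norm x (hC.le hx)), hxa, hxb] at this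
    have hle : Subgroup.zpowers g ≤ X2 X r s := by
      rw [Subgroup.zpowers_le]; exact mem_X2.2 ⟨hg, hgr, hgs⟩
    obtain ⟨ν, hν, hνle⟩ := h1.exists_conj_le hgp hle
    have hνX : ν ∈ X := (mem_X2.1 hν).1
    have h2 : ν * g * ν⁻¹ ∈ cj x S := hνle (conj_mem_cj (Subgroup.mem_zpowers g))
    rw [mem_cj] at h2
    have hY : x⁻¹ * ν ∈ Y := Y.mul_mem (Y.inv_mem (hC.le hx)) (hC.le hνX)
    have h3 := hST _ h2 ((x⁻¹ * ν) • ω) (hC.pres _ hY ω hω)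
    have h4 : (x⁻¹ * (ν * g * ν⁻¹) * x) • ((x⁻¹ * ν) • ω) = (x⁻¹ * ν) • (g • ω) := by
      rw [← mul_smul, ← mul_smul]; congr 1; group
    rw [h4] at h3
    exact smul_left_cancel _ h3
  obtain ⟨σ, hσ, hσa, hσb⟩ := hC.t2 a ha b hb b hb a ha hab hab.symm
  obtain ⟨k, m, hm, hkm⟩ := Nat.exists_eq_two_pow_mul_odd (orderOf_pos σ).ne'
  set τ₀ := σ ^ m with hτ₀
  have hτ₀X : τ₀ ∈ X := X.pow_mem hσ m
  obtain ⟨hτa, hτb⟩ := pow_swap σ a b hσa hσb m hm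
  rw [← hτ₀] at hτa hτb
  have hτk : τ₀ ^ (2 ^ k) = 1 := by rw [hτ₀, ← pow_mul, mul_comm, ← hkm, pow_orderOf_eq_one]
  have hτp := isPGroup_zpowers τ₀ k hτk
  obtain ⟨e₀, he₀F, he₀⟩ : ∃ e₀ ∈ F, τ₀ • e₀ = e₀ := by
    have hmod := fp_mod (Subgroup.zpowers τ₀) hτp F hFfin
      (fun s hs ω hω => hC.pres s (hC.le ((Subgroup.zpowers_le.2 hτ₀X) hs)) ω hω)
    have hne : {ω | ω ∈ F ∧ ∀ s ∈ Subgroup.zpowers τ₀, s • ω = ω}.Nonempty := by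
      rw [Set.nonempty_iff_ne_empty]
      intro e
      rw [e, Set.ncard_empty] at hmod
      rw [Nat.odd_iff] at hodd
      have : 0 % 2 = F.ncard % 2 := hmod
      omega
    obtain ⟨e₀, h1, h2⟩ := hne
    exact ⟨e₀, h1, h2 τ₀ (Subgroup.mem_zpowers τ₀)⟩
  have hae₀ : a ≠ e₀ := by
    rintro rfl; exact hab (he₀.symm.trans hτa)
  have hbe₀ : b ≠ e₀ := by
    rintro rfl; exact hab (hτb.symm.trans he₀)
  have hτ : ∀ e ∈ F, a ≠ e → b ≠ e →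
      ∃ τ ∈ X, τ ^ (2 ^ k) = 1 ∧ τ • a = b ∧ τ • b = a ∧ τ • e = e := by
    intro e he hae hbe
    obtain ⟨y, hy, hya, hyb, hye⟩ :=
      hC.t3 a ha b hb e₀ he₀F a ha b hb e he hab hae₀ hbe₀ hab hae hbe
    have hia : y⁻¹ • a = a := by rw [inv_smul_eq_iff, hya]
    have hib : y⁻¹ • b = b := by rw [inv_smul_eq_iff, hyb]
    have hie : y⁻¹ • e = e₀ := by rw [inv_smul_eq_iff, hye]
    refine ⟨y * τ₀ * y⁻¹, ?_, ?_, ?_, ?_, ?_⟩
    · have := conj_mem_cj (g := y) hτ₀X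
      rwa [hC.norm y hy] at this
    · rw [conj_pow, hτk]; group
    · rw [mul_smul, mul_smul, hia, hτa, hyb]
    · rw [mul_smul, mul_smul, hib, hτb, hya]
    · rw [mul_smul, mul_smul, hie, he₀, hye]
  obtain ⟨τ, hτX, hτ2, hτa', hτb', hτc⟩ := hτ c hc hac hbc
  obtain ⟨τ', hτ'X, hτ'2, hτ'a, hτ'b, hτ'c⟩ := hτ c' hc' hac' hbc'
  set L : Subgroup Γ := X ⊓ stabilizer Γ ({a, b} : Set Ω) with hL
  have hτL : τ ∈ L := ⟨hτX, (mem_pair_stab hab τ).2 (Or.inr ⟨hτa', hτb'⟩)⟩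
  have hτ'L : τ' ∈ L := ⟨hτ'X, (mem_pair_stab hab τ').2 (Or.inr ⟨hτ'a, hτ'b⟩)⟩
  obtain ⟨T, hT, hτ'T⟩ := exists_isSylowIn_ge (p := 2) (isPGroup_zpowers τ' k hτ'2)
    (Subgroup.zpowers_le.2 hτ'L)
  obtain ⟨ν, hν, hνle⟩ := hT.exists_conj_le (isPGroup_zpowers τ k hτ2) (Subgroup.zpowers_le.2 hτL)
  have hνX : ν ∈ X := hν.1
  have hνab := (mem_pair_stab hab ν).1 hν.2
  have h1 : ν * τ * ν⁻¹ ∈ T := hνle (conj_mem_cj (Subgroup.mem_zpowers τ))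
  have h2 : τ' ∈ T := hτ'T (Subgroup.mem_zpowers τ')
  set w := τ'⁻¹ * (ν * τ * ν⁻¹) with hw
  have hwT : w ∈ T := T.mul_mem (T.inv_mem h2) h1
  have hwX : w ∈ X := (hT.1 hwT).1
  have hwp : IsPGroup 2 (Subgroup.zpowers w) := hT.2.1.to_le (Subgroup.zpowers_le.2 hwT)
  have hτ'ia : τ'⁻¹ • a = b := by rw [inv_smul_eq_iff, hτ'b]
  have hτ'ib : τ'⁻¹ • b = a := by rw [inv_smul_eq_iff, hτ'a]
  have hwa : w • a = a := by
    rcases hνab with ⟨h3, h4⟩ | ⟨h3, h4⟩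
    · have : ν⁻¹ • a = a := by rw [inv_smul_eq_iff, h3]
      rw [hw]; simp only [mul_smul]; rw [this, hτa', h4, hτ'ib]
    · have : ν⁻¹ • a = b := by rw [inv_smul_eq_iff, h4]
      rw [hw]; simp only [mul_smul]; rw [this, hτb', h3, hτ'ib]
  have hwb : w • b = b := by
    rcases hνab with ⟨h3, h4⟩ | ⟨h3, h4⟩
    · have : ν⁻¹ • b = b := by rw [inv_smul_eq_iff, h4]
      rw [hw]; simp only [mul_smul]; rw [this, hτb', h3, hτ'ia]
    · have : ν⁻¹ • b = a := by rw [inv_smul_eq_iff, h3]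
      rw [hw]; simp only [mul_smul]; rw [this, hτa', h4, hτ'ia]
  have hwtriv := hB1 w hwX hwp a ha b hb hab hwa hwb
  have hνc : ν • c ∈ F := hC.pres ν (hC.le hνX) c hc
  have h5 : τ' • (ν • c) = ν • c := by
    have := hwtriv (ν • c) hνc
    rw [hw] at this; simp only [mul_smul] at this
    rw [inv_smul_smul, hτc, inv_smul_eq_iff] at this
    exact this.symm
  have h6 : ν • c = c' := by
    by_contra hne
    have := hB1 τ' hτ'X (isPGroup_zpowers τ' k hτ'2) (ν • c) hνc c' hc' hne h5 hτ'c a ha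
    exact hab (this.symm.trans hτ'a)
  rcases hνab with ⟨h3, h4⟩ | ⟨h3, h4⟩
  · exact ⟨ν, hνX, h3, h4, h6⟩
  · refine ⟨ν * τ, X.mul_mem hνX hτX, ?_, ?_, ?_⟩
    · rw [mul_smul, hτa', h4]
    · rw [mul_smul, hτb', h3]
    · rw [mul_smul, hτc, h6]

theorem main [Finite Γ] (n : ℕ) : ∀ (F : Set Ω) (X Y : Subgroup Γ), F.Finite → F.ncard = n → Odd n →
    Cfg X Y F → ∀ a ∈ F, ∀ b ∈ F, ∀ c ∈ F, ∀ c' ∈ F, a ≠ b → a ≠ c → b ≠ c → a ≠ c' → b ≠ c' →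
      ∃ x ∈ X, x • a = a ∧ x • b = b ∧ x • c = c' := by
  induction n using Nat.strong_induction_on with
  | _ n ih =>
  intro F X Y hFfin hFn hodd hC a ha b hb c hc c' hc' hab hac hbc hac' hbc'
  obtain ⟨S, hS, -⟩ := exists_isSylowIn_ge (p := 2) (Q := (⊥ : Subgroup Γ)) (H := X2 X a b)
    IsPGroup.of_bot bot_le
  have hSX : S ≤ X := fun s hs => (mem_X2.1 (hS.1 hs)).1
  have hSa : ∀ s ∈ S, s • a = a := fun s hs => (mem_X2.1 (hS.1 hs)).2.1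
  have hSb : ∀ s ∈ S, s • b = b := fun s hs => (mem_X2.1 (hS.1 hs)).2.2
  set F' : Set Ω := {ω | ω ∈ F ∧ ∀ s ∈ S, s • ω = ω} with hF'
  have hF'sub : F' ⊆ F := fun ω h => h.1
  have hF'fin : F'.Finite := hFfin.subset hF'sub
  have hmod := fp_mod S hS.2.1 F hFfin (fun s hs ω hω => hC.pres s (hC.le (hSX hs)) ω hω)
  have hF'odd : Odd F'.ncard := by
    rw [Nat.odd_iff] at hodd ⊢
    rw [← hodd, ← hFn]; exact hmod
  have haF' : a ∈ F' := ⟨ha, hSa⟩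
  have hbF' : b ∈ F' := ⟨hb, hSb⟩
  by_cases hFF : F' = F
  · have hST : ∀ s ∈ S, ∀ ω ∈ F, s • ω = ω := by
      intro s hs ω hω
      rw [← hFF] at hω
      exact hω.2 s hs
    exact base hFfin (hFn ▸ hodd) hC ha hb hab hS hST c hc c' hc' hac hbc hac' hbc'
  obtain ⟨c₀, hc₀, hc₀a, hc₀b⟩ : ∃ c₀ ∈ F', a ≠ c₀ ∧ b ≠ c₀ := by
    by_contra hcon
    push Not at hcon
    have : F' = {a, b} := by
      ext ω
      constructor
      · intro hω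
        by_contra h
        simp only [Set.mem_insert_iff, Set.mem_singleton_iff, not_or] at h
        exact h.2 (hcon ω hω (Ne.symm h.1)).symm
      · rintro (rfl | rfl)
        exacts [haF', hbF']
    rw [this, Set.ncard_pair hab] at hF'odd
    exact absurd hF'odd (by decide)
  have hmove : ∀ e ∈ F, a ≠ e → b ≠ e → ∃ x ∈ X, x • a = a ∧ x • b = b ∧ x • e ∈ F' := by
    intro e he hae hbe
    obtain ⟨y, hy, hya, hyb, hyc⟩ :=
      hC.t3 a ha b hb c₀ hc₀.1 a ha b hb e he hab hc₀a hc₀b hab hae hbe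
    obtain ⟨ν, hνX, hνa, hνb, -, hνc⟩ := conj_back hS y (hC.norm y hy) ⊤ le_top le_top
      (by rw [hya]; exact hSa) (by rw [hyb]; exact hSb)
    rw [hya] at hνa; rw [hyb] at hνb
    refine ⟨ν, hνX, hνa, hνb, hC.pres ν (hC.le hνX) e he, ?_⟩
    have := cj_fix (g := ν * y) hc₀.2
    rw [hνc, mul_smul, hyc] at this
    exact this
  have hlt : F'.ncard < n := by
    rw [← hFn]
    exact Set.ncard_lt_ncard (lt_of_le_of_ne hF'sub hFF) hFfin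
  set NS : Subgroup Γ := Subgroup.normalizer (S : Set Γ) with hNS
  have key3 : ∀ r ∈ F', ∀ s ∈ F', ∀ t ∈ F', r ≠ s → r ≠ t → s ≠ t →
      ∃ y ∈ Y ⊓ NS, y • a = r ∧ y • b = s ∧ y • c₀ = t := by
    intro r hr s hs t ht hrs hrt hst
    obtain ⟨y, hy, hya, hyb, hyc⟩ :=
      hC.t3 a ha b hb c₀ hc₀.1 r hr.1 s hs.1 t ht.1 hab hc₀a hc₀b hrs hrt hst
    obtain ⟨ν, hνX, hνa, hνb, hνD, hνc⟩ := conj_back hS y (hC.norm y hy) (stabilizer Γ t)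
      (fun x hx => ht.2 x hx)
      (fun x hx => by
        have := cj_fix (g := y) hc₀.2 x hx
        rwa [hyc] at this)
      (by rw [hya]; exact hr.2) (by rw [hyb]; exact hs.2)
    rw [hya] at hνa; rw [hyb] at hνb
    refine ⟨ν * y, ⟨Y.mul_mem (hC.le hνX) hy, mem_normalizer_iff_cj.2 hνc⟩, ?_, ?_, ?_⟩
    · rw [mul_smul, hya, hνa]
    · rw [mul_smul, hyb, hνb]
    · rw [mul_smul, hyc]; exact hνD
  have key2 : ∀ r ∈ F', ∀ s ∈ F', r ≠ s → ∃ x ∈ X ⊓ NS, x • a = r ∧ x • b = s := by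
    intro r hr s hs hrs
    obtain ⟨y, hy, hya, hyb⟩ := hC.t2 a ha b hb r hr.1 s hs.1 hab hrs
    obtain ⟨ν, hνX, hνa, hνb, -, hνc⟩ := conj_back hS y (hC.norm y (hC.le hy)) ⊤ le_top le_top
      (by rw [hya]; exact hr.2) (by rw [hyb]; exact hs.2)
    rw [hya] at hνa; rw [hyb] at hνb
    refine ⟨ν * y, ⟨X.mul_mem hνX hy, mem_normalizer_iff_cj.2 hνc⟩, ?_, ?_⟩
    · rw [mul_smul, hya, hνa]
    · rw [mul_smul, hyb, hνb]
  have hC' : Cfg (X ⊓ NS) (Y ⊓ NS) F' := by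
    refine ⟨inf_le_inf_right _ hC.le, ?_, ?_, ?_, ?_⟩
    · rintro y ⟨hy, hyN⟩
      have h1 : cj y S = S := mem_normalizer_iff_cj.1 hyN
      rw [cj_inf, hC.norm y hy, hNS, ← normalizer_cj, h1]
    · rintro y ⟨hy, hyN⟩ ω hω
      have h1 : cj y S = S := mem_normalizer_iff_cj.1 hyN
      refine ⟨hC.pres y hy ω hω.1, ?_⟩
      have := cj_fix (g := y) hω.2
      rwa [h1] at this
    · intro r hr s hs t ht r' hr' s' hs' t' ht' hrs hrt hst hrs' hrt' hst'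
      obtain ⟨y1, hy1, h1a, h1b, h1c⟩ := key3 r hr s hs t ht hrs hrt hst
      obtain ⟨y2, hy2, h2a, h2b, h2c⟩ := key3 r' hr' s' hs' t' ht' hrs' hrt' hst'
      refine ⟨y2 * y1⁻¹, (Y ⊓ NS).mul_mem hy2 ((Y ⊓ NS).inv_mem hy1), ?_, ?_, ?_⟩
      · rw [mul_smul, ← h1a, inv_smul_smul, h2a]
      · rw [mul_smul, ← h1b, inv_smul_smul, h2b]
      · rw [mul_smul, ← h1c, inv_smul_smul, h2c]
    · intro r hr s hs r' hr' s' hs' hrs hrs'
      obtain ⟨y1, hy1, h1a, h1b⟩ := key2 r hr s hs hrs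
      obtain ⟨y2, hy2, h2a, h2b⟩ := key2 r' hr' s' hs' hrs'
      refine ⟨y2 * y1⁻¹, (X ⊓ NS).mul_mem hy2 ((X ⊓ NS).inv_mem hy1), ?_, ?_⟩
      · rw [mul_smul, ← h1a, inv_smul_smul, h2a]
      · rw [mul_smul, ← h1b, inv_smul_smul, h2b]
  obtain ⟨x1, hx1, h1a, h1b, h1c⟩ := hmove c hc hac hbc
  obtain ⟨x2, hx2, h2a, h2b, h2c⟩ := hmove c' hc' hac' hbc'
  have hne : ∀ (x : Γ) (p e : Ω), x • p = p → p ≠ e → p ≠ x • e := by
    intro x p e hp hpe h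
    apply hpe
    rw [← hp] at h
    exact smul_left_cancel x h
  obtain ⟨x', hx', h3a, h3b, h3c⟩ := ih F'.ncard hlt F' (X ⊓ NS) (Y ⊓ NS) hF'fin rfl hF'odd hC'
    a haF' b hbF' (x1 • c) h1c (x2 • c') h2c hab (hne x1 a c h1a hac) (hne x1 b c h1b hbc)
    (hne x2 a c' h2a hac') (hne x2 b c' h2b hbc')
  refine ⟨x2⁻¹ * x' * x1, X.mul_mem (X.mul_mem (X.inv_mem hx2) hx'.1) hx1, ?_, ?_, ?_⟩
  · rw [mul_smul, mul_smul, h1a, h3a, inv_smul_eq_iff, h2a]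
  · rw [mul_smul, mul_smul, h1b, h3b, inv_smul_eq_iff, h2b]
  · rw [mul_smul, mul_smul, h3c, inv_smul_smul]

end Cfsg.Agent.Lib.Helper15Wagner
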