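import Cfsg.Agent.Lib.Helper4Char
import Cfsg.Agent.Lib.Helper4Char2
import Cfsg.Agent.Lib.Helper82Mult
import Mathlib

set_option autoImplicit false

/-! Hecke operators attached to suborbits of a transitive action. -/

namespace Cfsg.Agent.Lib.Helper16Hecke

open MulAction Cfsg.Agent.Lib.Helper4Char Cfsg.Agent.Lib.Helper4Char2
open scoped ComplexConjugate

variable {G : Type*} [Group G] [Fintype G] {Ω : Type*} [Fintype Ω] [MulAction G Ω]

/-- the number `|H|⁻¹ ∑_{g a ∈ Δ} χ g` -/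
noncomputable def cc (χ : G → ℂ) (a : Ω) (Δ : Set Ω) : ℂ :=
  open scoped Classical in
  (Nat.card (stabilizer G a) : ℂ)⁻¹ * ∑ g : G, if g • a ∈ Δ then χ g else 0

/-- the operator `|H|⁻¹ ∑_{g a ∈ Δ} ρ g` -/
noncomputable def XX {V : Type*} [AddCommGroup V] [Module ℂ V] (ρ : Representation ℂ G V) (a : Ω)
    (Δ : Set Ω) : V →ₗ[ℂ] V :=
  open scoped Classical in
  (Nat.card (stabilizer G a) : ℂ)⁻¹ • ∑ g : G, if g • a ∈ Δ then ρ g else 0

theorem XX_singleton {V : Type*} [AddCommGroup V] [Module ℂ V] (ρ : Representation ℂ G V) (a : Ω)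
    [DecidableEq Ω] : XX ρ a {a} =
      (Nat.card (stabilizer G a) : ℂ)⁻¹ • ∑ g : G, if g • a = a then ρ g else 0 := by
  rw [XX]
  congr 1
  apply Finset.sum_congr rfl
  intro g _
  simp only [Set.mem_singleton_iff]

theorem cc_singleton (χ : G → ℂ) (a : Ω) [DecidableEq Ω] : cc χ a {a} =
      (Nat.card (stabilizer G a) : ℂ)⁻¹ * ∑ g : G, if g • a = a then χ g else 0 := by
  rw [cc]
  congr 1
  apply Finset.sum_congr rfl
  intro g _
  simp only [Set.mem_singleton_iff]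

theorem cardH_ne_zero (a : Ω) : (Nat.card (stabilizer G a) : ℂ) ≠ 0 :=
  Nat.cast_ne_zero.mpr Nat.card_pos.ne'

theorem trace_XX {V : Type*} [AddCommGroup V] [Module ℂ V]
    (ρ : Representation ℂ G V) (a : Ω) (Δ : Set Ω) :
    LinearMap.trace ℂ V (XX ρ a Δ) = cc ρ.character a Δ := by
  classical
  rw [XX, cc, map_smul, map_sum, smul_eq_mul]
  congr 1
  apply Finset.sum_congr rfl
  intro g _
  split_ifs
  · rfl
  · simp

theorem sum_degree_cc (a : Ω) (Δ : Set Ω) [Decidable (a ∈ Δ)] :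
    ∑ χ : Cfsg.IrrCharacter G, (χ : G → ℂ) 1 * cc (χ : G → ℂ) a Δ =
      if a ∈ Δ then (Nat.card G : ℂ) / (Nat.card (stabilizer G a) : ℂ) else 0 := by
  classical
  have h1 : ∀ χ : Cfsg.IrrCharacter G, (χ : G → ℂ) 1 * cc (χ : G → ℂ) a Δ =
      (Nat.card (stabilizer G a) : ℂ)⁻¹ *
        ∑ g : G, if g • a ∈ Δ then (χ : G → ℂ) 1 * (χ : G → ℂ) g else 0 := by
    intro χ
    rw [cc, mul_left_comm, Finset.mul_sum]
    congr 1
    apply Finset.sum_congr rfl
    intro g _
    split_ifs <;> simp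
  simp_rw [h1]
  rw [← Finset.mul_sum, Finset.sum_comm]
  have h2 : ∀ g : G, (∑ χ : Cfsg.IrrCharacter G,
      if g • a ∈ Δ then (χ : G → ℂ) 1 * (χ : G → ℂ) g else 0) =
      if g = 1 then (if a ∈ Δ then (Nat.card G : ℂ) else 0) else 0 := by
    intro g
    by_cases hg : g • a ∈ Δ
    · simp only [hg, if_true]
      rw [sum_degree_mul]
      split_ifs with h1 h2 h2
      · rfl
      · rw [h1, one_smul] at hg; exact absurd hg h2
      · rfl
    · simp only [hg, if_false, Finset.sum_const_zero]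
      split_ifs with h1 h2
      · rw [h1, one_smul] at hg; exact absurd h2 hg
      · rfl
      · rfl
  simp_rw [h2]
  rw [Finset.sum_ite_eq' Finset.univ (1 : G)]
  simp only [Finset.mem_univ, if_true]
  split_ifs
  · rw [div_eq_mul_inv, mul_comm]
  · simp

section Trans

variable [IsPretransitive G Ω]

theorem card_fiber (a w : Ω) [DecidableEq Ω] :
    (Finset.univ.filter (fun g : G => g • a = w)).card = Nat.card (stabilizer G a) := by
  obtain ⟨g₀, hg₀⟩ := exists_smul_eq G a w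
  rw [Nat.card_eq_fintype_card, ← Fintype.card_subtype]
  apply Fintype.card_congr
  exact
    { toFun := fun g => ⟨g₀⁻¹ * g.1, by
        rw [mem_stabilizer_iff, mul_smul, g.2, ← hg₀, inv_smul_smul]⟩
      invFun := fun h => ⟨g₀ * h.1, by
        rw [mul_smul, mem_stabilizer_iff.mp h.2, hg₀]⟩
      left_inv := fun g => by simp
      right_inv := fun h => by simp }

/-- summing a function of `g • a` over the group -/
theorem sum_smul_eq {M : Type*} [AddCommMonoid M] (a : Ω) (F : Ω → M) :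
    ∑ g : G, F (g • a) = Nat.card (stabilizer G a) • ∑ w : Ω, F w := by
  classical
  rw [← Finset.sum_fiberwise Finset.univ (fun g : G => g • a) (fun g => F (g • a)),
    Finset.smul_sum]
  apply Finset.sum_congr rfl
  intro w _
  rw [Finset.sum_congr rfl (g := fun _ => F w), Finset.sum_const]
  · congr 1
    convert card_fiber (G := G) a w
  · intro g hg
    rw [(Finset.mem_filter.mp hg).2]

theorem cc_one (a : Ω) (Δ : Set Ω) : cc (fun _ : G => (1 : ℂ)) a Δ = (Δ.ncard : ℂ) := by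
  classical
  rw [cc, sum_smul_eq a (fun w => if w ∈ Δ then (1 : ℂ) else 0), nsmul_eq_mul, ← mul_assoc,
    inv_mul_cancel₀ (cardH_ne_zero a), one_mul, Finset.sum_boole, Set.ncard_eq_toFinset_card']
  congr 2
  ext w
  simp

end Trans

/-- `Δ` is invariant under the stabiliser of `a` -/
def Inv (G : Type*) [Group G] {Ω : Type*} [MulAction G Ω] (a : Ω) (Δ : Set Ω) : Prop :=
  ∀ h ∈ stabilizer G a, ∀ w : Ω, h • w ∈ Δ ↔ w ∈ Δ

theorem inv_of_forall {a : Ω} {Δ : Set Ω} (h : ∀ h ∈ stabilizer G a, ∀ w ∈ Δ, h • w ∈ Δ) :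
    Inv G a Δ := by
  intro k hk w
  refine ⟨fun hw => ?_, h k hk w⟩
  have := h k⁻¹ (inv_mem hk) _ hw
  rwa [inv_smul_smul] at this

theorem inv_orbit (a b : Ω) : Inv G a (orbit (stabilizer G a) b) := by
  apply inv_of_forall
  rintro h hh _ ⟨k, rfl⟩
  exact ⟨⟨h, hh⟩ * k, mul_smul (⟨h, hh⟩ : stabilizer G a) k b⟩

theorem inv_singleton (a : Ω) : Inv G a {a} := by
  apply inv_of_forall
  rintro h hh _ rfl
  exact hh

theorem inv_compl {a : Ω} {Δ : Set Ω} (h : Inv G a Δ) : Inv G a Δᶜ :=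
  fun k hk w => not_congr (h k hk w)

theorem inv_union {a : Ω} {Δ Δ' : Set Ω} (h : Inv G a Δ) (h' : Inv G a Δ') : Inv G a (Δ ∪ Δ') :=
  fun k hk w => or_congr (h k hk w) (h' k hk w)

section Ops

variable {V : Type*} [AddCommGroup V] [Module ℂ V] (ρ : Representation ℂ G V)

theorem rho_comp_XX {a : Ω} {Δ : Set Ω} (hΔ : Inv G a Δ) {h : G} (hh : h ∈ stabilizer G a) :
    ρ h * XX ρ a Δ = XX ρ a Δ := by
  classical
  rw [XX, mul_smul_comm, Finset.mul_sum]
  congr 1
  refine Fintype.sum_equiv (Equiv.mulLeft h) _ _ (fun g => ?_)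
  simp only [Equiv.coe_mulLeft, mul_smul, hΔ h hh]
  split_ifs
  · rw [map_mul]
  · simp

theorem XX_comp_rho (a : Ω) (Δ : Set Ω) {h : G} (hh : h ∈ stabilizer G a) :
    XX ρ a Δ * ρ h = XX ρ a Δ := by
  classical
  rw [XX, smul_mul_assoc, Finset.sum_mul]
  congr 1
  refine Fintype.sum_equiv (Equiv.mulRight h) _ _ (fun g => ?_)
  simp only [Equiv.coe_mulRight, mul_smul, mem_stabilizer_iff.mp hh]
  split_ifs
  · rw [map_mul]
  · simp

theorem card_filter_stab (a : Ω) [DecidablePred fun g : G => g • a = a] :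
    (Finset.univ.filter (fun g : G => g • a = a)).card = Nat.card (stabilizer G a) := by
  rw [← Fintype.card_subtype, ← Nat.card_eq_fintype_card]
  rfl

theorem P_comp_XX {a : Ω} {Δ : Set Ω} (hΔ : Inv G a Δ) :
    XX ρ a {a} * XX ρ a Δ = XX ρ a Δ := by
  classical
  nth_rewrite 1 [XX_singleton]
  rw [smul_mul_assoc, Finset.sum_mul]
  have h1 : ∀ g : G, (if g • a = a then ρ g else 0) * XX ρ a Δ =
      if g • a = a then XX ρ a Δ else 0 := by
    intro g
    split_ifs with hg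
    · exact rho_comp_XX ρ hΔ hg
    · simp
  rw [Finset.sum_congr rfl (fun g _ => h1 g)]
  rw [← Finset.sum_filter, Finset.sum_const, card_filter_stab, ← Nat.cast_smul_eq_nsmul ℂ,
    smul_smul, inv_mul_cancel₀ (cardH_ne_zero a), one_smul]

theorem XX_comp_P (a : Ω) (Δ : Set Ω) :
    XX ρ a Δ * XX ρ a {a} = XX ρ a Δ := by
  classical
  rw [XX_singleton, mul_smul_comm, Finset.mul_sum]
  have h1 : ∀ g : G, XX ρ a Δ * (if g • a = a then ρ g else 0) =
      if g • a = a then XX ρ a Δ else 0 := by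
    intro g
    split_ifs with hg
    · exact XX_comp_rho ρ a Δ hg
    · simp
  rw [Finset.sum_congr rfl (fun g _ => h1 g)]
  rw [← Finset.sum_filter, Finset.sum_const, card_filter_stab, ← Nat.cast_smul_eq_nsmul ℂ,
    smul_smul, inv_mul_cancel₀ (cardH_ne_zero a), one_smul]

theorem P_idem (a : Ω) : IsIdempotentElem (XX ρ a {a}) := P_comp_XX ρ (inv_singleton a)

end Ops

section Trans2

variable [IsPretransitive G Ω]

theorem card_group_eq (a : Ω) : Nat.card G = Fintype.card Ω * Nat.card (stabilizer G a) := by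
  classical
  have h := MulAction.card_orbit_mul_card_stabilizer_eq_card_group G a
  rw [Nat.card_eq_fintype_card, Nat.card_eq_fintype_card, ← h]
  congr 1
  have : orbit G a = Set.univ := orbit_eq_univ G a
  simp [this]

theorem classInner_perm (a : Ω) {χ : G → ℂ} (hχ : Cfsg.IsClassFunction G χ) :
    Cfsg.classInner (fun g : G => (Nat.card (fixedBy Ω g) : ℂ)) χ = conj (cc χ a {a}) := by
  classical
  have hπ : ∀ g : G, (Nat.card (fixedBy Ω g) : ℂ) = ∑ x : Ω, if g • x = x then (1 : ℂ) else 0 := by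
    intro g
    rw [Finset.sum_boole, Nat.card_eq_fintype_card, Fintype.card_subtype]
    rfl
  let S : Ω → ℂ := fun x => ∑ g : G, if g • x = x then conj (χ g) else 0
  have hS : ∀ (k : G) (x : Ω), S (k • x) = S x := by
    intro k x
    symm
    refine Fintype.sum_equiv (MulAut.conj k).toEquiv _ _ (fun g => ?_)
    have e1 : ((MulAut.conj k).toEquiv g) = k * g * k⁻¹ := rfl
    rw [e1, hχ]
    have e2 : (k * g * k⁻¹) • k • x = k • x ↔ g • x = x := by
      rw [mul_smul, mul_smul, inv_smul_smul]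
      exact ⟨fun h => smul_left_cancel k h, fun h => by rw [h]⟩
    simp only [e2]
  have hSa : ∀ x : Ω, S x = S a := by
    intro x
    obtain ⟨k, rfl⟩ := exists_smul_eq G a x
    exact hS k a
  have h1 : ∑ g : G, (Nat.card (fixedBy Ω g) : ℂ) * conj (χ g) = (Fintype.card Ω : ℂ) * S a := by
    simp_rw [hπ, Finset.sum_mul]
    rw [Finset.sum_comm]
    have : ∀ x : Ω, (∑ g : G, (if g • x = x then (1 : ℂ) else 0) * conj (χ g)) = S a := by
      intro x
      rw [← hSa x]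
      apply Finset.sum_congr rfl
      intro g _
      split_ifs <;> simp
    simp_rw [this]
    rw [Finset.sum_const, nsmul_eq_mul]
    rfl
  have h2 : conj (cc χ a {a}) = (Nat.card (stabilizer G a) : ℂ)⁻¹ * S a := by
    rw [cc_singleton, map_mul, map_inv₀, Complex.conj_natCast, map_sum]
    congr 1
    apply Finset.sum_congr rfl
    intro g _
    split_ifs <;> simp
  rw [Cfsg.classInner, h1, card_group_eq a, h2]
  have hn : (Fintype.card Ω : ℂ) ≠ 0 := by
    have : Nonempty Ω := ⟨a⟩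
    exact Nat.cast_ne_zero.mpr Fintype.card_ne_zero
  have hH := cardH_ne_zero (G := G) a
  push_cast
  field_simp

theorem cc_eq_zero_of_classInner_eq_zero {a : Ω} {Δ : Set Ω} (hΔ : Inv G a Δ) {χ : G → ℂ}
    (hχ : Cfsg.IsCharacter G χ)
    (h0 : Cfsg.classInner (fun g : G => (Nat.card (fixedBy Ω g) : ℂ)) χ = 0) : cc χ a Δ = 0 := by
  obtain ⟨n, ρ, rfl⟩ := hχ
  rw [classInner_perm a (IsCharacter.isClassFunction ⟨n, ρ, rfl⟩), map_eq_zero, ← trace_XX] at h0
  have hP : XX ρ a {a} = 0 := (LinearMap.IsIdempotentElem.trace_eq_zero_iff (P_idem ρ a)).mp h0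
  rw [← trace_XX, ← P_comp_XX ρ hΔ, hP]
  simp

end Trans2

theorem isIntegral_of_int_matrix_eigen {ι : Type*} [Fintype ι] [DecidableEq ι] (A : Matrix ι ι ℤ)
    (μ : ℂ) (F : ι → ℂ) (hF : F ≠ 0)
    (h : (A.map (Int.castRingHom ℂ)).mulVec F = μ • F) : IsIntegral ℤ μ := by
  set B := A.map (Int.castRingHom ℂ) with hB
  have h1 : Module.End.HasEigenvalue (Matrix.toLin' B) μ := by
    apply Module.End.hasEigenvalue_of_hasEigenvector (x := F)
    refine ⟨?_, hF⟩
    rw [Module.End.mem_eigenspace_iff, Matrix.toLin'_apply]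
    exact h
  have h2 := (Module.End.hasEigenvalue_iff_isRoot_charpoly _ μ).mp h1
  rw [Matrix.charpoly_toLin', hB, Matrix.charpoly_map, Polynomial.IsRoot.def,
    Polynomial.eval_map] at h2
  exact ⟨A.charpoly, A.charpoly_monic, h2⟩

theorem isIntegral_cc [IsPretransitive G Ω] {a : Ω} {Δ : Set Ω} (hΔ : Inv G a Δ) {χ : G → ℂ}
    (hχ : Cfsg.IsCharacter G χ) : IsIntegral ℤ (cc χ a Δ) := by
  classical
  obtain ⟨n, ρ, rfl⟩ := hχ
  rw [← trace_XX]
  set T : Module.End ℂ (Fin n → ℂ) := XX ρ a Δ with hT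
  rw [Module.End.trace_eq_sum_roots_charpoly_of_splits (IsAlgClosed.splits _)]
  apply IsIntegral.multiset_sum
  intro μ hμ
  have hroot : T.charpoly.IsRoot μ := (Polynomial.mem_roots'.mp hμ).2
  obtain ⟨v, hv⟩ := ((Module.End.hasEigenvalue_iff_isRoot_charpoly T μ).mpr hroot).exists_hasEigenvector
  have hTv : T v = μ • v := Module.End.mem_eigenspace_iff.mp hv.1
  have hv0 : v ≠ 0 := hv.2
  by_cases hμ0 : μ = 0
  · rw [hμ0]; exact isIntegral_zero
  have hfix : ∀ h ∈ stabilizer G a, ρ h v = v := by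
    intro h hh
    have h1 : (ρ h * T) v = T v := by rw [hT, rho_comp_XX ρ hΔ hh]
    rw [Module.End.mul_apply, hTv, map_smul] at h1
    exact smul_right_injective _ hμ0 h1
  choose gx hgx using fun x : Ω => exists_smul_eq G a x
  have hwd : ∀ g : G, ρ g v = ρ (gx (g • a)) v := by
    intro g
    have h1 : (gx (g • a))⁻¹ * g ∈ stabilizer G a := by
      rw [mem_stabilizer_iff, mul_smul, inv_smul_eq_iff, hgx]
    have h2 := hfix _ h1
    rw [map_mul, Module.End.mul_apply] at h2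
    have h3 := congrArg (ρ (gx (g • a))) h2
    rw [← Module.End.mul_apply, ← map_mul, mul_inv_cancel, map_one, Module.End.one_apply] at h3
    exact h3
  have hsum : ∑ w : Ω, (if w ∈ Δ then ρ (gx w) v else 0) = μ • v := by
    rw [← hTv, hT, XX, LinearMap.smul_apply, LinearMap.sum_apply]
    have h1 : ∀ g : G, (if g • a ∈ Δ then ρ g else 0) v =
        if g • a ∈ Δ then ρ (gx (g • a)) v else 0 := by
      intro g
      split_ifs
      · exact hwd g
      · rfl
    have h2 := sum_smul_eq (G := G) a (fun w : Ω => if w ∈ Δ then ρ (gx w) v else 0)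
    beta_reduce at h2
    rw [Finset.sum_congr rfl (fun g _ => h1 g), h2, ← Nat.cast_smul_eq_nsmul ℂ,
      smul_smul, inv_mul_cancel₀ (cardH_ne_zero a), one_smul]
  obtain ⟨i, hi⟩ : ∃ i, v i ≠ 0 := by
    by_contra hcon
    push Not at hcon
    exact hv0 (funext hcon)
  let F : Ω → ℂ := fun x => (ρ (gx x) v) i
  let A : Matrix Ω Ω ℤ := fun x y => if (gx x)⁻¹ • y ∈ Δ then 1 else 0
  apply isIntegral_of_int_matrix_eigen A μ F
  · intro hF
    apply hi
    have h1 : F a = 0 := by rw [hF]; rfl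
    have h2 : ρ (gx a) v = v := hfix _ (hgx a)
    show v i = 0
    rw [← h2]; exact h1
  · ext x
    rw [Matrix.mulVec, dotProduct, Pi.smul_apply, smul_eq_mul]
    have h1 : ∀ y : Ω, (A.map (Int.castRingHom ℂ)) x y * F y =
        (ρ (gx x) (if (gx x)⁻¹ • y ∈ Δ then ρ (gx ((gx x)⁻¹ • y)) v else 0)) i := by
      intro y
      show ((if (gx x)⁻¹ • y ∈ Δ then (1 : ℤ) else 0 : ℤ) : ℂ) * (ρ (gx y) v) i =
        (ρ (gx x) (if (gx x)⁻¹ • y ∈ Δ then ρ (gx ((gx x)⁻¹ • y)) v else 0)) i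
      split_ifs
      · rw [Int.cast_one, one_mul, ← Module.End.mul_apply, ← map_mul, hwd (gx x * _), mul_smul, hgx,
          smul_inv_smul]
      · simp
    have h2 : ∑ y : Ω, (ρ (gx x) (if (gx x)⁻¹ • y ∈ Δ then ρ (gx ((gx x)⁻¹ • y)) v else 0)) i =
        ∑ w : Ω, (ρ (gx x) (if w ∈ Δ then ρ (gx w) v else 0)) i :=
      Fintype.sum_equiv (MulAction.toPerm (gx x)⁻¹) _ _ (fun y => rfl)
    rw [Finset.sum_congr rfl (fun y _ => h1 y), h2]
    rw [← Finset.sum_apply, ← map_sum, hsum, map_smul, Pi.smul_apply, smul_eq_mul]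

/-- an operator absorbed on both sides by a rank one idempotent is a multiple of it -/
theorem eq_trace_smul_of_rank_one {V : Type*} [AddCommGroup V] [Module ℂ V] [FiniteDimensional ℂ V]
    (P X : Module.End ℂ V) (hP : IsIdempotentElem P) (htr : LinearMap.trace ℂ V P = 1)
    (h1 : P * X = X) (h2 : X * P = X) : X = LinearMap.trace ℂ V X • P := by
  have hfr : Module.finrank ℂ (LinearMap.range P) = 1 := by
    have := (LinearMap.IsIdempotentElem.isProj_range P hP).trace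
    rw [htr] at this
    exact_mod_cast this.symm
  obtain ⟨v, hv0, hv⟩ := finrank_eq_one_iff'.mp hfr
  have hXv : X (v : V) ∈ LinearMap.range P := ⟨X v, by rw [← Module.End.mul_apply, h1]⟩
  obtain ⟨μ, hμ⟩ := hv ⟨X v, hXv⟩
  have hμ' : μ • (v : V) = X v := congrArg Subtype.val hμ
  have hX : X = μ • P := by
    ext w
    obtain ⟨c, hc⟩ := hv ⟨P w, ⟨w, rfl⟩⟩
    have hc' : c • (v : V) = P w := congrArg Subtype.val hc
    rw [LinearMap.smul_apply, ← hc', ← h2, Module.End.mul_apply, ← hc', map_smul, ← hμ', smul_comm]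
  rw [hX, map_smul, htr, smul_eq_mul, mul_one]

theorem trace_XX_mul {V : Type*} [AddCommGroup V] [Module ℂ V] (ρ : Representation ℂ G V) (a : Ω)
    (Δ : Set Ω) [DecidablePred (· ∈ Δ)] (k : G) :
    LinearMap.trace ℂ V (XX ρ a Δ * ρ k) =
      (Nat.card (stabilizer G a) : ℂ)⁻¹ * ∑ g : G, if g • a ∈ Δ then ρ.character (g * k) else 0 := by
  rw [XX, smul_mul_assoc, Finset.sum_mul, map_smul, map_sum, smul_eq_mul]
  congr 1
  apply Finset.sum_congr rfl
  intro g _
  split_ifs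
  · rw [Representation.character, map_mul ρ]
  · simp

/-- the key factorisation in the multiplicity free case -/
theorem sum_mul_eq [IsPretransitive G Ω] {a : Ω} {Δ : Set Ω} [DecidablePred (· ∈ Δ)] [DecidableEq Ω]
    (hΔ : Inv G a Δ) {χ : G → ℂ}
    (hχ : Cfsg.IsCharacter G χ)
    (h01 : Cfsg.classInner (fun g : G => (Nat.card (fixedBy Ω g) : ℂ)) χ = 0 ∨
      Cfsg.classInner (fun g : G => (Nat.card (fixedBy Ω g) : ℂ)) χ = 1) (k : G) :
    ∑ g : G, (if g • a ∈ Δ then χ (g * k) else 0) =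
      cc χ a Δ * ∑ g : G, if g • a = a then χ (g * k) else 0 := by
  obtain ⟨n, ρ, rfl⟩ := hχ
  have hH := cardH_ne_zero (G := G) a
  have e1 := trace_XX_mul ρ a Δ k
  have e2 := trace_XX_mul ρ a {a} k
  simp only [Set.mem_singleton_iff] at e2
  have hX : XX ρ a Δ = cc ρ.character a Δ • XX ρ a {a} := by
    rw [classInner_perm a (IsCharacter.isClassFunction ⟨n, ρ, rfl⟩), ← trace_XX] at h01
    rcases h01 with h0 | h0
    · rw [map_eq_zero] at h0
      have hP : XX ρ a {a} = 0 := (LinearMap.IsIdempotentElem.trace_eq_zero_iff (P_idem ρ a)).mp h0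
      rw [← P_comp_XX ρ hΔ, hP]
      simp
    · have h1 : LinearMap.trace ℂ _ (XX ρ a {a}) = 1 := by
        have := congrArg (starRingEnd ℂ) h0
        rwa [Complex.conj_conj, map_one] at this
      rw [← trace_XX]
      exact eq_trace_smul_of_rank_one _ _ (P_idem ρ a) h1 (P_comp_XX ρ hΔ) (XX_comp_P ρ a Δ)
  rw [hX, smul_mul_assoc, map_smul, e2, smul_eq_mul] at e1
  set A := ∑ g : G, if g • a ∈ Δ then ρ.character (g * k) else 0 with hA
  set B := ∑ x : G, if x • a = a then ρ.character (x * k) else 0 with hB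
  have e3 : (Nat.card (stabilizer G a) : ℂ)⁻¹ * (cc ρ.character a Δ * B) =
      (Nat.card (stabilizer G a) : ℂ)⁻¹ * A := by
    rw [← e1]; ring
  exact (mul_left_cancel₀ (inv_ne_zero hH) e3).symm

/-- the paired set -/
def star (G : Type*) [Group G] {Ω : Type*} [MulAction G Ω] (a : Ω) (Δ : Set Ω) : Set Ω :=
  {x | ∃ g : G, g • a = x ∧ g⁻¹ • a ∈ Δ}

theorem mem_star {a : Ω} {Δ : Set Ω} (hΔ : Inv G a Δ) (g : G) :
    g • a ∈ star G a Δ ↔ g⁻¹ • a ∈ Δ := by
  constructor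
  · rintro ⟨g', h1, h2⟩
    have h3 : g⁻¹ * g' ∈ stabilizer G a := by
      rw [mem_stabilizer_iff, mul_smul, h1, inv_smul_smul]
    have h4 := (hΔ _ h3 (g'⁻¹ • a)).mpr h2
    rwa [mul_smul, smul_inv_smul] at h4
  · intro h1
    exact ⟨g, rfl, h1⟩

theorem inv_star {a : Ω} {Δ : Set Ω} (hΔ : Inv G a Δ) : Inv G a (star G a Δ) := by
  apply inv_of_forall
  rintro k hk _ ⟨g, rfl, hg⟩
  rw [← mul_smul, mem_star hΔ, mul_inv_rev, mul_smul, mem_stabilizer_iff.mp (inv_mem hk)]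
  exact hg

theorem cc_star {a : Ω} {Δ : Set Ω} (hΔ : Inv G a Δ) {χ : G → ℂ} (hχ : Cfsg.IsCharacter G χ) :
    cc χ a (star G a Δ) = conj (cc χ a Δ) := by
  classical
  rw [cc, cc, map_mul, map_inv₀, Complex.conj_natCast, map_sum]
  congr 1
  refine Fintype.sum_equiv (Equiv.inv G) _ _ (fun g => ?_)
  simp only [Equiv.inv_apply, mem_star hΔ]
  split_ifs
  · rw [IsCharacter.apply_inv hχ, Complex.conj_conj]
  · simp

/-- Fourier inversion for the indicator of `{k | k • a ∈ Δ}` -/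
theorem fourier (a : Ω) (Δ : Set Ω) [DecidablePred (· ∈ Δ)] (k : G) :
    ∑ χ : Cfsg.IrrCharacter G, (χ : G → ℂ) 1 *
      ∑ g : G, (if g • a ∈ Δ then (χ : G → ℂ) (g * k⁻¹) else 0) =
      if k • a ∈ Δ then (Nat.card G : ℂ) else 0 := by
  classical
  simp_rw [Finset.mul_sum]
  rw [Finset.sum_comm]
  have h2 : ∀ g : G, (∑ χ : Cfsg.IrrCharacter G,
      (χ : G → ℂ) 1 * (if g • a ∈ Δ then (χ : G → ℂ) (g * k⁻¹) else 0)) =
      if g = k then (if k • a ∈ Δ then (Nat.card G : ℂ) else 0) else 0 := by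
    intro g
    have e : g * k⁻¹ = 1 ↔ g = k := mul_inv_eq_one
    by_cases hg : g • a ∈ Δ
    · simp only [hg, if_true]
      rw [sum_degree_mul]
      simp only [e]
      split_ifs with h1 h2 h2
      · rfl
      · rw [h1] at hg; exact absurd hg h2
      · rfl
    · simp only [hg, if_false, mul_zero, Finset.sum_const_zero]
      split_ifs with h1 h2
      · rw [h1] at hg; exact absurd h2 hg
      · rfl
      · rfl
  simp_rw [h2]
  rw [Finset.sum_ite_eq' Finset.univ k]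
  simp

theorem sum_ite_eq_cc (χ : G → ℂ) (a : Ω) (Δ : Set Ω) [DecidablePred (· ∈ Δ)] :
    ∑ g : G, (if g • a ∈ Δ then χ g else 0) = (Nat.card (stabilizer G a) : ℂ) * cc χ a Δ := by
  rw [cc, ← mul_assoc, mul_inv_cancel₀ (cardH_ne_zero a), one_mul]
  apply Finset.sum_congr rfl
  intro g _
  split_ifs <;> rfl

theorem prod_formula [IsPretransitive G Ω] {a : Ω} {Δ Δ₂ : Set Ω} [DecidablePred (· ∈ Δ)]
    [DecidablePred (· ∈ Δ₂)] (hΔ : Inv G a Δ) (hΔ₂ : Inv G a Δ₂) {χ : G → ℂ}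
    (hχ : Cfsg.IsCharacter G χ)
    (h01 : Cfsg.classInner (fun g : G => (Nat.card (fixedBy Ω g) : ℂ)) χ = 0 ∨
      Cfsg.classInner (fun g : G => (Nat.card (fixedBy Ω g) : ℂ)) χ = 1) :
    ∑ k : G, (if k • a ∈ Δ₂ then ∑ g : G, (if g • a ∈ Δ then χ (g * k) else 0) else 0) =
      (Nat.card (stabilizer G a) : ℂ) ^ 2 * (cc χ a Δ * cc χ a Δ₂) := by
  classical
  simp_rw [sum_mul_eq hΔ hχ h01]
  have h1 : ∀ k : G, (if k • a ∈ Δ₂ then cc χ a Δ * ∑ g : G, (if g • a = a then χ (g * k) else 0)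
      else 0) = cc χ a Δ * ∑ g : G, if g • a = a then (if k • a ∈ Δ₂ then χ (g * k) else 0) else 0 := by
    intro k
    split_ifs
    · rfl
    · simp
  simp_rw [h1]
  rw [← Finset.mul_sum, Finset.sum_comm]
  have h2 : ∀ g : G, (∑ k : G, if g • a = a then (if k • a ∈ Δ₂ then χ (g * k) else 0) else 0) =
      if g • a = a then (Nat.card (stabilizer G a) : ℂ) * cc χ a Δ₂ else 0 := by
    intro g
    split_ifs with hg
    · rw [← sum_ite_eq_cc]
      refine Fintype.sum_equiv (Equiv.mulLeft g) _ _ (fun k => ?_)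
      simp only [Equiv.coe_mulLeft, mul_smul, hΔ₂ g hg]
    · simp
  simp_rw [h2]
  rw [← Finset.sum_filter, Finset.sum_const, card_filter_stab, nsmul_eq_mul]
  ring

theorem norm_formula [IsPretransitive G Ω] {a : Ω} {Δ : Set Ω} (hΔ : Inv G a Δ)
    (h01 : ∀ χ : Cfsg.IrrCharacter G,
      Cfsg.classInner (fun g : G => (Nat.card (fixedBy Ω g) : ℂ)) χ = 0 ∨
      Cfsg.classInner (fun g : G => (Nat.card (fixedBy Ω g) : ℂ)) χ = 1) :
    ∑ χ : Cfsg.IrrCharacter G, (χ : G → ℂ) 1 * (cc (χ : G → ℂ) a Δ * conj (cc (χ : G → ℂ) a Δ)) =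
      (Fintype.card Ω : ℂ) * (Δ.ncard : ℂ) := by
  classical
  have hH := cardH_ne_zero (G := G) a
  have h1 : ∀ χ : Cfsg.IrrCharacter G,
      (Nat.card (stabilizer G a) : ℂ) ^ 2 *
        ((χ : G → ℂ) 1 * (cc (χ : G → ℂ) a Δ * conj (cc (χ : G → ℂ) a Δ))) =
      ∑ k : G, (if k • a ∈ star G a Δ then
        (χ : G → ℂ) 1 * ∑ g : G, (if g • a ∈ Δ then (χ : G → ℂ) (g * k⁻¹⁻¹) else 0) else 0) := by
    intro χ
    rw [← cc_star hΔ (IsIrrCharacter.isCharacter χ.2), mul_left_comm,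
      ← prod_formula hΔ (inv_star hΔ) (IsIrrCharacter.isCharacter χ.2) (h01 χ), Finset.mul_sum]
    apply Finset.sum_congr rfl
    intro k _
    rw [inv_inv]
    split_ifs <;> simp
  have h2 : (Nat.card (stabilizer G a) : ℂ) ^ 2 * ∑ χ : Cfsg.IrrCharacter G,
      (χ : G → ℂ) 1 * (cc (χ : G → ℂ) a Δ * conj (cc (χ : G → ℂ) a Δ)) =
      (Nat.card G : ℂ) * ((Nat.card (stabilizer G a) : ℂ) * (Δ.ncard : ℂ)) := by
    rw [Finset.mul_sum, Finset.sum_congr rfl (fun χ _ => h1 χ), Finset.sum_comm]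
    have h3 : ∀ k : G, (∑ χ : Cfsg.IrrCharacter G, (if k • a ∈ star G a Δ then
        (χ : G → ℂ) 1 * ∑ g : G, (if g • a ∈ Δ then (χ : G → ℂ) (g * k⁻¹⁻¹) else 0) else 0)) =
        if k⁻¹ • a ∈ Δ then (Nat.card G : ℂ) * (fun _ : G => (1 : ℂ)) k⁻¹ else 0 := by
      intro k
      simp only [mem_star hΔ]
      split_ifs with hk
      · rw [fourier a Δ k⁻¹, if_pos hk, mul_one]
      · simp
    rw [Finset.sum_congr rfl (fun k _ => h3 k)]
    have h4 : ∑ k : G, (if k⁻¹ • a ∈ Δ then (Nat.card G : ℂ) * (fun _ : G => (1 : ℂ)) k⁻¹ else 0) =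
        ∑ k : G, (if k • a ∈ Δ then (Nat.card G : ℂ) * (fun _ : G => (1 : ℂ)) k else 0) :=
      Fintype.sum_equiv (Equiv.inv G) _ _ (fun k => rfl)
    rw [h4, ← cc_one (G := G) a Δ, ← sum_ite_eq_cc, Finset.mul_sum]
    apply Finset.sum_congr rfl
    intro k _
    split_ifs <;> simp
  rw [card_group_eq (G := G) a] at h2
  have h5 : (Nat.card (stabilizer G a) : ℂ) ^ 2 ≠ 0 := pow_ne_zero 2 hH
  apply mul_left_cancel₀ h5
  rw [h2]
  push_cast
  ring

end Cfsg.Agent.Lib.Helper16Hecke
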