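import Mathlib

set_option autoImplicit false

namespace Cfsg.Agent.Lib.Helper16MT

open MulAction SubMulAction

/-- If `G` is `|s|`-transitive and the fixing subgroup of `s` is `j`-transitive on the complement,
then `G` is `(|s|+j)`-transitive. -/
theorem mt_add {G α : Type*} [Group G] [MulAction G α] (s : Set α) [Finite s] {j : ℕ}
    (h1 : IsMultiplyPretransitive G α s.ncard)
    (h2 : IsMultiplyPretransitive (fixingSubgroup G s) (ofFixingSubgroup G s) j) :
    IsMultiplyPretransitive G α (s.ncard + j) := by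
  have Hs : Nonempty (Fin (s.ncard) ≃ s) := Finite.card_eq.mp (by simp [Nat.card_coe_set_eq])
  obtain ⟨e⟩ := Hs
  let e' : Fin s.ncard ↪ α := e.toEmbedding.trans (Function.Embedding.subtype _)
  have key : ∀ x : Fin (s.ncard + j) ↪ α, ∃ g : G, ∃ x1 : Fin j ↪ ofFixingSubgroup G s,
      (∀ i : Fin s.ncard, g • x (Fin.castAdd j i) = e i) ∧
        ∀ i : Fin j, g • x (Fin.natAdd _ i) = x1 i := by
    intro x
    obtain ⟨g, hg⟩ := h1.exists_smul_eq ((Fin.castAddEmb j).trans x) e'
    have hg' : ∀ i : Fin s.ncard, g • x (Fin.castAdd j i) = e i := by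
      intro i
      have := DFunLike.congr_fun hg i
      simpa [e'] using this
    have hmem : ∀ i : Fin j, g • x (Fin.natAdd _ i) ∈ ofFixingSubgroup G s := by
      intro i
      rw [mem_ofFixingSubgroup_iff]
      intro hi
      have h3 := hg' (e.symm ⟨_, hi⟩)
      rw [Equiv.apply_symm_apply] at h3
      have h4 := x.injective (smul_left_cancel g h3)
      have h5 := congrArg Fin.val h4
      simp at h5
      have := (e.symm ⟨_, hi⟩).2
      omega
    refine ⟨g, ⟨fun i => ⟨g • x (Fin.natAdd _ i), hmem i⟩, ?_⟩, hg', fun i => rfl⟩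
    intro a b hab
    have h3 : g • x (Fin.natAdd _ a) = g • x (Fin.natAdd _ b) := congrArg Subtype.val hab
    have h4 := x.injective (smul_left_cancel g h3)
    exact Fin.natAdd_injective _ _ h4
  constructor
  intro x y
  obtain ⟨g, x1, hg1, hg2⟩ := key x
  obtain ⟨g', y1, hg1', hg2'⟩ := key y
  obtain ⟨h, hh⟩ := h2.exists_smul_eq x1 y1
  refine ⟨g'⁻¹ * (h : G) * g, ?_⟩
  ext i
  simp only [Function.Embedding.smul_apply, mul_smul, inv_smul_eq_iff]
  refine Fin.addCases (fun i => ?_) (fun i => ?_) i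
  · rw [hg1, hg1']
    exact h.2 (e i)
  · rw [hg2, hg2', ← hh]
    rfl

end Cfsg.Agent.Lib.Helper16MT
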