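import Cfsg.Agent.Lib.Helper4Char
import Mathlib

set_option autoImplicit false

/-! A complex representation of a finite group is multiplicity free iff its commutant is
commutative. -/

namespace Cfsg.Agent.Lib.Helper16MultFree

open Representation Cfsg.Agent.Lib.Helper4Char Module

variable {G : Type*} [Group G] [Fintype G] {V : Type*} [AddCommGroup V] [Module ℂ V]
  [FiniteDimensional ℂ V] (ρ : Representation ℂ G V)

/-- equivariant left inverse of an injective intertwining map (Maschke by averaging) -/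
theorem exists_leftInverse {W : Type*} [AddCommGroup W] [Module ℂ W] (σ : Representation ℂ G W)
    (φ : W →ₗ[ℂ] V) (hφ : ∀ g, φ ∘ₗ σ g = ρ g ∘ₗ φ) (hinj : Function.Injective φ) :
    ∃ ψ : V →ₗ[ℂ] W, (∀ g, ψ ∘ₗ ρ g = σ g ∘ₗ ψ) ∧ ψ ∘ₗ φ = LinearMap.id := by
  obtain ⟨l, hl⟩ := LinearMap.exists_leftInverse_of_injective φ (LinearMap.ker_eq_bot.mpr hinj)
  have hG : (Fintype.card G : ℂ) ≠ 0 := Nat.cast_ne_zero.mpr Fintype.card_ne_zero
  refine ⟨(Fintype.card G : ℂ)⁻¹ • ∑ g : G, σ g⁻¹ ∘ₗ l ∘ₗ ρ g, ?_, ?_⟩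
  · intro h
    ext v
    simp only [LinearMap.comp_apply, LinearMap.smul_apply, LinearMap.sum_apply, map_smul, map_sum]
    congr 1
    refine Fintype.sum_equiv (Equiv.mulRight h) _ _ (fun g => ?_)
    simp only [Equiv.coe_mulRight, map_mul, mul_inv_rev, Module.End.mul_apply]
    rw [← Module.End.mul_apply (σ h), ← map_mul, mul_inv_cancel, map_one, Module.End.one_apply]
  · ext w
    simp only [LinearMap.comp_apply, LinearMap.smul_apply, LinearMap.sum_apply, LinearMap.id_apply]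
    have h1 : ∀ g : G, σ g⁻¹ (l (ρ g (φ w))) = w := by
      intro g
      have h2 : ρ g (φ w) = φ (σ g w) := (LinearMap.congr_fun (hφ g) w).symm
      have h3 : l (φ (σ g w)) = σ g w := LinearMap.congr_fun hl _
      rw [h2, h3, ← Module.End.mul_apply, ← map_mul, inv_mul_cancel, map_one, Module.End.one_apply]
    rw [Finset.sum_congr rfl (fun g _ => h1 g), Finset.sum_const, Finset.card_univ,
      ← Nat.cast_smul_eq_nsmul ℂ, smul_smul, inv_mul_cancel₀ hG, one_smul]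

theorem comm_of_multFree
    (h : ∀ χ : G → ℂ, Cfsg.IsIrrCharacter G χ →
      Cfsg.classInner ρ.character χ = 0 ∨ Cfsg.classInner ρ.character χ = 1)
    (S T : V →ₗ[ℂ] V) (hS : ∀ g, S ∘ₗ ρ g = ρ g ∘ₗ S) (hT : ∀ g, T ∘ₗ ρ g = ρ g ∘ₗ T) :
    S ∘ₗ T = T ∘ₗ S := by
  have : NeZero (Nat.card G : ℂ) := ⟨card_ne_zero⟩
  have claim : ∀ (U : Subrepresentation ρ), U.toRepresentation.IsIrreducible →
      ∀ R : V →ₗ[ℂ] V, (∀ g, R ∘ₗ ρ g = ρ g ∘ₗ R) → ∃ c : ℂ, ∀ u ∈ U, R u = c • u := by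
    intro U hU R hR
    let ι : IntertwiningMap U.toRepresentation ρ := ⟨U.toSubmodule.subtype, fun g => rfl⟩
    let Rι : IntertwiningMap U.toRepresentation ρ := ⟨R ∘ₗ U.toSubmodule.subtype, fun g => by
      ext u
      exact LinearMap.congr_fun (hR g) (u : V)⟩
    have hι : ι ≠ 0 := by
      intro h0
      have hnt := nontrivial_of_irreducible U.toRepresentation
      obtain ⟨x, hx⟩ := exists_ne (0 : U.toSubmodule)
      apply hx
      apply Subtype.ext
      have : ι x = (0 : IntertwiningMap U.toRepresentation ρ) x := by rw [h0]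
      exact this
    have hfr : finrank ℂ (IntertwiningMap U.toRepresentation ρ) = 1 := by
      have h1 := classInner_char ρ U.toRepresentation
      rcases h _ (isIrrCharacter_of_rep U.toRepresentation) with h2 | h2
      · rw [h2] at h1
        have h3 : finrank ℂ (IntertwiningMap U.toRepresentation ρ) = 0 := by exact_mod_cast h1.symm
        exfalso
        apply hι
        have := Module.finrank_zero_iff.mp h3
        exact Subsingleton.elim _ _
      · rw [h2] at h1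
        exact_mod_cast h1.symm
    obtain ⟨c, hc⟩ := (finrank_eq_one_iff_of_nonzero' ι hι).mp hfr Rι
    refine ⟨c, fun u hu => ?_⟩
    have : (c • ι) ⟨u, hu⟩ = Rι ⟨u, hu⟩ := by rw [hc]
    exact this.symm
  let C : IntertwiningMap ρ ρ := ⟨S ∘ₗ T - T ∘ₗ S, fun g => by
    rw [LinearMap.sub_comp, LinearMap.comp_sub, LinearMap.comp_assoc, LinearMap.comp_assoc, hT g,
      hS g, ← LinearMap.comp_assoc, ← LinearMap.comp_assoc, hS g, hT g, LinearMap.comp_assoc,
      LinearMap.comp_assoc]⟩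
  by_contra hne
  obtain ⟨W, hW⟩ := ComplementedLattice.exists_isCompl C.ker
  have hWne : W ≠ ⊥ := by
    rintro rfl
    have h1 : C.ker = ⊤ := by simpa using hW.sup_eq_top
    apply hne
    ext v
    have h2 : v ∈ C.ker := by rw [h1]; exact Submodule.mem_top
    have h3 : (S ∘ₗ T - T ∘ₗ S) v = 0 := h2
    rw [LinearMap.sub_apply, sub_eq_zero] at h3
    exact h3
  obtain ⟨U, hU, hirr⟩ := exists_irreducible_le ρ W hWne
  have hUK : U ≤ C.ker := by
    intro u hu
    change (S ∘ₗ T - T ∘ₗ S) u = 0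
    obtain ⟨c, hc⟩ := claim U hirr S hS
    obtain ⟨e, he⟩ := claim U hirr T hT
    rw [LinearMap.sub_apply, LinearMap.comp_apply, LinearMap.comp_apply, he u hu, hc u hu, map_smul,
      map_smul, he u hu, hc u hu, smul_comm, sub_self]
  have hbot : U ≤ ⊥ := by
    rw [← hW.inf_eq_bot]
    exact le_inf hUK hU
  have hnt := nontrivial_of_irreducible U.toRepresentation
  obtain ⟨x, hx⟩ := exists_ne (0 : U.toSubmodule)
  apply hx
  have : (x : V) ∈ (⊥ : Subrepresentation ρ) := hbot x.2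
  exact Subtype.ext ((Submodule.mem_bot ℂ).mp this)

theorem multFree_of_comm
    (h : ∀ S T : V →ₗ[ℂ] V, (∀ g, S ∘ₗ ρ g = ρ g ∘ₗ S) → (∀ g, T ∘ₗ ρ g = ρ g ∘ₗ T) →
      S ∘ₗ T = T ∘ₗ S)
    (χ : G → ℂ) (hχ : Cfsg.IsIrrCharacter G χ) :
    Cfsg.classInner ρ.character χ = 0 ∨ Cfsg.classInner ρ.character χ = 1 := by
  obtain ⟨n, σ, hσ, rfl⟩ := hχ
  rw [classInner_char ρ σ]
  by_contra hcon
  push Not at hcon
  have h2 : 1 < finrank ℂ (IntertwiningMap σ ρ) := by
    have h0 : finrank ℂ (IntertwiningMap σ ρ) ≠ 0 := fun h => hcon.1 (by rw [h]; simp)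
    have h1 : finrank ℂ (IntertwiningMap σ ρ) ≠ 1 := fun h => hcon.2 (by rw [h]; simp)
    omega
  have hnt : Nontrivial (IntertwiningMap σ ρ) := Module.nontrivial_of_finrank_pos (R := ℂ) (by omega)
  obtain ⟨φ₁, hφ₁⟩ := exists_ne (0 : IntertwiningMap σ ρ)
  obtain ⟨φ₂, hφ₂⟩ : ∃ φ₂ : IntertwiningMap σ ρ, ∀ c : ℂ, c • φ₁ ≠ φ₂ := by
    by_contra hc
    push Not at hc
    have := (finrank_eq_one_iff_of_nonzero' φ₁ hφ₁).mpr hc
    omega
  have hinj : Function.Injective φ₁ := by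
    rcases IsIrreducible.injective_or_eq_zero (f := φ₁) with h | h
    · exact h
    · exact absurd h hφ₁
  obtain ⟨ψ, hψ, hψφ⟩ := exists_leftInverse ρ σ φ₁.toLinearMap φ₁.isIntertwining' hinj
  obtain ⟨c, hc⟩ := schur_scalar σ (ψ ∘ₗ φ₂.toLinearMap) (fun g => by
    rw [LinearMap.comp_assoc, φ₂.isIntertwining' g, ← LinearMap.comp_assoc, hψ g,
      LinearMap.comp_assoc])
  set φ : (Fin n → ℂ) →ₗ[ℂ] V := φ₂.toLinearMap - c • φ₁.toLinearMap with hφdef
  have hφeq : ∀ g, φ ∘ₗ σ g = ρ g ∘ₗ φ := by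
    intro g
    rw [hφdef, LinearMap.sub_comp, LinearMap.comp_sub, LinearMap.smul_comp, LinearMap.comp_smul,
      φ₂.isIntertwining' g, φ₁.isIntertwining' g]
  have hψφ0 : ψ ∘ₗ φ = 0 := by
    rw [hφdef, LinearMap.comp_sub, LinearMap.comp_smul, hc, hψφ, sub_self]
  have hcomm := h (φ ∘ₗ ψ) (φ₁.toLinearMap ∘ₗ ψ)
    (fun g => by rw [LinearMap.comp_assoc, hψ g, ← LinearMap.comp_assoc, hφeq g,
      LinearMap.comp_assoc])
    (fun g => by rw [LinearMap.comp_assoc, hψ g, ← LinearMap.comp_assoc, φ₁.isIntertwining' g,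
      LinearMap.comp_assoc])
  have e1 : (φ ∘ₗ ψ) ∘ₗ (φ₁.toLinearMap ∘ₗ ψ) = φ ∘ₗ ψ := by
    rw [LinearMap.comp_assoc, ← LinearMap.comp_assoc ψ, hψφ, LinearMap.id_comp]
  have e2 : (φ₁.toLinearMap ∘ₗ ψ) ∘ₗ (φ ∘ₗ ψ) = 0 := by
    rw [LinearMap.comp_assoc, ← LinearMap.comp_assoc ψ, hψφ0, LinearMap.zero_comp,
      LinearMap.comp_zero]
  rw [e1, e2] at hcomm
  have e3 : φ = 0 := by
    have : (φ ∘ₗ ψ) ∘ₗ φ₁.toLinearMap = φ := by
      rw [LinearMap.comp_assoc, hψφ, LinearMap.comp_id]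
    rw [← this, hcomm, LinearMap.zero_comp]
  apply hφ₂ c
  apply IntertwiningMap.ext
  rw [hφdef, sub_eq_zero] at e3
  rw [e3]
  rfl

end Cfsg.Agent.Lib.Helper16MultFree
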