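import Cfsg.Agent.Lib.Helper16Hecke
import Cfsg.Agent.Lib.Helper83Char
import Mathlib

set_option autoImplicit false

/-! The permutation character of a transitive action: multiplicities, rank. -/

namespace Cfsg.Agent.Lib.Helper16PermChar

open MulAction Cfsg.Agent.Lib.Helper4Char Cfsg.Agent.Lib.Helper4Char2 Cfsg.Agent.Lib.Helper16Hecke
open scoped ComplexConjugate

variable {G : Type*} [Group G] [Fintype G] {Ω : Type*} [Fintype Ω] [MulAction G Ω]

/-- the permutation character -/
noncomputable abbrev pc (G : Type*) [Group G] (Ω : Type*) [MulAction G Ω] : G → ℂ :=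
  fun g : G => (Nat.card (fixedBy Ω g) : ℂ)

theorem isCharacter_pc : Cfsg.IsCharacter G (pc G Ω) := by
  have h := isCharacter_of_rep (Representation.ofMulAction ℂ G Ω)
  have e : (Representation.ofMulAction ℂ G Ω).character = pc G Ω := by
    ext g
    exact ofMulAction_character Ω g
  rwa [e] at h

theorem pc_one : pc G Ω 1 = (Fintype.card Ω : ℂ) := by
  show (Nat.card (fixedBy Ω (1 : G)) : ℂ) = _
  congr 1
  rw [← Nat.card_eq_fintype_card]
  apply Nat.card_congr
  exact (Equiv.subtypeUnivEquiv (fun x => by simp [mem_fixedBy]))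

/-- the principal character -/
noncomputable def one : Cfsg.IrrCharacter G := ⟨fun _ => 1, Cfsg.Agent.Lib.Helper83Char.isIrr_one⟩

theorem sum_stab (a : Ω) (F : G → ℂ) [DecidableEq Ω] :
    ∑ g : G, (if g • a = a then F g else 0) = ∑ h : stabilizer G a, F h := by
  rw [← Finset.sum_filter]
  apply Finset.sum_subtype
  intro g
  simp [mem_stabilizer_iff]

theorem pc_eq_sum (g : G) [DecidableEq Ω] : pc G Ω g = ∑ x : Ω, if g • x = x then (1 : ℂ) else 0 := by
  rw [Finset.sum_boole]
  show (Nat.card (fixedBy Ω g) : ℂ) = _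
  rw [Nat.card_eq_fintype_card, Fintype.card_subtype]
  rfl

variable [IsPretransitive G Ω]

/-- the norm of the permutation character as an average over the stabiliser -/
theorem classInner_pc_pc (a : Ω) [DecidableEq Ω] : Cfsg.classInner (pc G Ω) (pc G Ω) =
    (Nat.card (stabilizer G a) : ℂ)⁻¹ * ∑ h : stabilizer G a, pc G Ω h := by
  rw [classInner_perm a (IsCharacter.isClassFunction isCharacter_pc), cc_singleton, sum_stab,
    map_mul, map_inv₀, Complex.conj_natCast, map_sum]
  congr 1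
  apply Finset.sum_congr rfl
  intro h _
  exact Complex.conj_natCast _

theorem classInner_pc_pc_eq_rank (a : Ω) : Cfsg.classInner (pc G Ω) (pc G Ω) =
    (Nat.card (orbitRel.Quotient (stabilizer G a) Ω) : ℂ) := by
  classical
  rw [classInner_pc_pc a]
  have h := MulAction.sum_card_fixedBy_eq_card_orbits_mul_card_group (stabilizer G a) Ω
  have h2 : ∑ h : stabilizer G a, pc G Ω h =
      ((∑ h : stabilizer G a, Fintype.card (fixedBy Ω h) : ℕ) : ℂ) := by
    push_cast
    apply Finset.sum_congr rfl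
    intro h _
    show (Nat.card (fixedBy Ω (h : G)) : ℂ) = _
    rw [Nat.card_eq_fintype_card]
    rfl
  rw [h2, h, Nat.card_eq_fintype_card, Nat.card_eq_fintype_card]
  push_cast
  have : (Fintype.card (stabilizer G a) : ℂ) ≠ 0 := Nat.cast_ne_zero.mpr Fintype.card_ne_zero
  field_simp

theorem classInner_pc_pc_eq_sum (a : Ω) : Cfsg.classInner (pc G Ω) (pc G Ω) =
    ∑ x : Ω, (Nat.card (orbit (stabilizer G a) x) : ℂ)⁻¹ := by
  classical
  rw [classInner_pc_pc a]
  simp_rw [pc_eq_sum]
  rw [Finset.sum_comm, Finset.mul_sum]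
  apply Finset.sum_congr rfl
  intro x _
  rw [Finset.sum_boole]
  have h1 := MulAction.card_orbit_mul_card_stabilizer_eq_card_group (stabilizer G a) x
  have h2 : (Finset.univ.filter (fun h : stabilizer G a => (h : G) • x = x)).card =
      Fintype.card (stabilizer (stabilizer G a) x) := by
    rw [← Fintype.card_subtype]
    rfl
  rw [h2, Nat.card_eq_fintype_card, Nat.card_eq_fintype_card, ← h1]
  push_cast
  have h3 : (Fintype.card (stabilizer (stabilizer G a) x) : ℂ) ≠ 0 :=
    Nat.cast_ne_zero.mpr Fintype.card_ne_zero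
  have h4 : (Fintype.card (orbit (stabilizer G a) x) : ℂ) ≠ 0 := by
    have : Nonempty (orbit (stabilizer G a) x) := ⟨⟨x, mem_orbit_self x⟩⟩
    exact Nat.cast_ne_zero.mpr Fintype.card_ne_zero
  field_simp

/-- multiplicity data of the permutation character -/
theorem exists_data (a : Ω) : ∃ (m d : Cfsg.IrrCharacter G → ℕ),
    (∀ χ : Cfsg.IrrCharacter G, Cfsg.classInner (pc G Ω) (χ : G → ℂ) = m χ) ∧
    (∀ χ : Cfsg.IrrCharacter G, (χ : G → ℂ) 1 = d χ) ∧
    (∀ χ, 0 < d χ) ∧ m one = 1 ∧ d one = 1 ∧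
    Fintype.card Ω = ∑ χ, m χ * d χ ∧
    Cfsg.classInner (pc G Ω) (pc G Ω) = ((∑ χ, m χ ^ 2 : ℕ) : ℂ) ∧
    pc G Ω = ∑ χ : Cfsg.IrrCharacter G, (m χ : ℂ) • (χ : G → ℂ) := by
  obtain ⟨m, hm, hsum⟩ := Cfsg.Agent.Lib.Helper82Mult.exists_mult (isCharacter_pc (G := G) (Ω := Ω))
  choose d hd0 hd using fun χ : Cfsg.IrrCharacter G => IsIrrCharacter.exists_degree χ.2
  refine ⟨m, d, hm, hd, hd0, ?_, ?_, ?_, ?_, hsum⟩
  · have h1 := hm one
    rw [classInner_perm a (IsIrrCharacter.isClassFunction one.2)] at h1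
    have h2 : cc ((one : Cfsg.IrrCharacter G) : G → ℂ) a {a} = 1 := by
      show cc (fun _ : G => (1 : ℂ)) a {a} = 1
      rw [cc_one]; simp
    rw [h2, map_one] at h1
    exact_mod_cast h1.symm
  · have h1 := hd one
    have h2 : ((one : Cfsg.IrrCharacter G) : G → ℂ) 1 = 1 := rfl
    rw [h2] at h1
    exact_mod_cast h1.symm
  · have h1 := congrFun hsum 1
    rw [pc_one, Finset.sum_apply] at h1
    have h2 : ∀ χ : Cfsg.IrrCharacter G, ((m χ : ℂ) • (χ : G → ℂ)) 1 = ((m χ * d χ : ℕ) : ℂ) := by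
      intro χ
      rw [Pi.smul_apply, hd, smul_eq_mul]
      push_cast; rfl
    rw [Finset.sum_congr rfl (fun χ _ => h2 χ), ← Nat.cast_sum] at h1
    exact_mod_cast h1
  · nth_rewrite 2 [hsum]
    rw [classInner_sum_right]
    push_cast
    apply Finset.sum_congr rfl
    intro χ _
    rw [classInner_smul_right, hm, Complex.conj_natCast, sq]

end Cfsg.Agent.Lib.Helper16PermChar
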