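import Mathlib

set_option autoImplicit false

namespace Cfsg.Agent.Lib.Helper16Trans

open MulAction

section MT

variable {α : Type*} [Fintype α] [DecidableEq α]

theorem move (G : Subgroup (Equiv.Perm α)) {k : ℕ}
    (hfix : ∀ s : Finset α, s.card + 1 = k → ∀ a b : α, a ∉ s → b ∉ s →
      ∃ g ∈ G, (∀ x ∈ s, g x = x) ∧ g a = b)
    (x : Fin k → α) (hx : Function.Injective x) (l : Fin k) (w : α) (hw : ∀ i, x i ≠ w) :
    ∃ h ∈ G, h (x l) = w ∧ ∀ i, i ≠ l → h (x i) = x i := by
  have hcard : ((Finset.univ.erase l).image x).card + 1 = k := by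
    rw [Finset.card_image_of_injective _ hx, Finset.card_erase_of_mem (Finset.mem_univ l),
      Finset.card_univ, Fintype.card_fin]
    have := l.2
    omega
  obtain ⟨h, hh, h1, h2⟩ := hfix _ hcard (x l) w
    (by
      intro hmem
      obtain ⟨i, hi, hil⟩ := Finset.mem_image.1 hmem
      exact (Finset.mem_erase.1 hi).1 (hx hil))
    (by
      intro hmem
      obtain ⟨i, _, hil⟩ := Finset.mem_image.1 hmem
      exact hw i hil)
  refine ⟨h, hh, h2, fun i hi => h1 _ ?_⟩
  exact Finset.mem_image_of_mem _ (Finset.mem_erase.2 ⟨hi, Finset.mem_univ i⟩)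

theorem step (G : Subgroup (Equiv.Perm α)) {k : ℕ} (hk : k < Fintype.card α)
    (hfix : ∀ s : Finset α, s.card + 1 = k → ∀ a b : α, a ∉ s → b ∉ s →
      ∃ g ∈ G, (∀ x ∈ s, g x = x) ∧ g a = b)
    (x y : Fin k → α) (hx : Function.Injective x) (hy : Function.Injective y) (j : Fin k)
    (hxy : ∀ i, i < j → x i = y i) : ∃ h ∈ G, ∀ i, i ≤ j → h (x i) = y i := by
  by_cases hv : ∃ l, x l = y j
  · obtain ⟨l, hl⟩ := hv
    by_cases hlj : l = j
    · subst hlj
      refine ⟨1, G.one_mem, fun i hi => ?_⟩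
      rcases lt_or_eq_of_le hi with h | h
      · simpa using hxy i h
      · subst h; simpa using hl
    · have hjl : j < l := by
        rcases lt_trichotomy l j with h | h | h
        · exfalso
          have := hxy l h
          rw [hl] at this
          exact hlj (hy this).symm
        · exact absurd h hlj
        · exact h
      obtain ⟨z, hz⟩ : ∃ z, ∀ i, x i ≠ z := by
        by_contra hcon
        push Not at hcon
        have hsurj : Function.Surjective x := hcon
        have := Fintype.card_le_of_surjective x hsurj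
        rw [Fintype.card_fin] at this
        omega
      obtain ⟨h1, hh1, h1l, h1o⟩ := move G hfix x hx l z hz
      have hx1 : Function.Injective (fun i => h1 (x i)) := fun i i' h => hx (h1.injective h)
      have hw : ∀ i, (fun i => h1 (x i)) i ≠ y j := by
        intro i
        by_cases hil : i = l
        · subst hil
          simp only [h1l]
          rw [← hl]
          exact (hz i).symm
        · simp only [h1o i hil]
          rw [← hl]
          exact fun h => hil (hx h)
      obtain ⟨h2, hh2, h2j, h2o⟩ := move G hfix _ hx1 j (y j) hw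
      refine ⟨h2 * h1, G.mul_mem hh2 hh1, fun i hi => ?_⟩
      rw [Equiv.Perm.mul_apply]
      rcases lt_or_eq_of_le hi with h | h
      · rw [h2o i h.ne, h1o i (h.trans hjl).ne, hxy i h]
      · subst h; exact h2j
  · push Not at hv
    obtain ⟨h, hh, hj, ho⟩ := move G hfix x hx j (y j) hv
    refine ⟨h, hh, fun i hi => ?_⟩
    rcases lt_or_eq_of_le hi with h' | h'
    · rw [ho i h'.ne, hxy i h']
    · subst h'; exact hj

/-- If the pointwise stabiliser of every `(k-1)`-set is transitive on the complement and `k < n`,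
the group is `k`-transitive. -/
theorem mt_of_fixing (G : Subgroup (Equiv.Perm α)) {k : ℕ} (hk : k < Fintype.card α)
    (hfix : ∀ s : Finset α, s.card + 1 = k → ∀ a b : α, a ∉ s → b ∉ s →
      ∃ g ∈ G, (∀ x ∈ s, g x = x) ∧ g a = b) : IsMultiplyPretransitive G α k := by
  have key : ∀ (y : Fin k → α), Function.Injective y → ∀ (j : ℕ), j ≤ k → ∀ x : Fin k → α,
      Function.Injective x → ∃ g ∈ G, ∀ i : Fin k, i.val < j → g (x i) = y i := by
    intro y hy j
    induction j with
    | zero => intro _ x _; exact ⟨1, G.one_mem, fun i hi => absurd hi (Nat.not_lt_zero _)⟩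
    | succ j ih =>
      intro hj x hx
      obtain ⟨g, hg, hgx⟩ := ih (by omega) x hx
      obtain ⟨h, hh, hhx⟩ := step G hk hfix (fun i => g (x i)) y
        (fun i i' h => hx (g.injective h)) hy ⟨j, by omega⟩ (fun i hi => hgx i hi)
      refine ⟨h * g, G.mul_mem hh hg, fun i hi => ?_⟩
      rw [Equiv.Perm.mul_apply]
      exact hhx i (by rw [Fin.le_def]; simp only; omega)
  constructor
  intro x y
  obtain ⟨g, hg, hgx⟩ := key y y.injective k le_rfl x x.injective
  refine ⟨⟨g, hg⟩, ?_⟩
  ext i
  exact hgx i i.2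

end MT

section Mod

variable {H Ω : Type*} [Group H] [MulAction H Ω] [Finite Ω]

theorem dvd_ncard_of_invariant (d : ℕ) (S : Set Ω) (hS : ∀ h : H, ∀ x ∈ S, h • x ∈ S)
    (hd : ∀ x ∈ S, d ∣ (orbit H x).ncard) : d ∣ S.ncard := by
  induction' hn : S.ncard using Nat.strong_induction_on with n ih generalizing S
  rcases S.eq_empty_or_nonempty with rfl | ⟨x, hx⟩
  · simp at hn; subst hn; simp
  · have hsub : orbit H x ⊆ S := by
      rintro _ ⟨h, rfl⟩
      exact hS h x hx
    have hpos : 0 < (orbit H x).ncard :=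
      (Set.ncard_pos (Set.toFinite _)).mpr ⟨x, mem_orbit_self x⟩
    have hadd := Set.ncard_diff_add_ncard_of_subset hsub (Set.toFinite _)
    have h1 : d ∣ (S \ orbit H x).ncard := by
      apply ih (S \ orbit H x).ncard (by omega) (S \ orbit H x) _ _ rfl
      · rintro h y ⟨hy, hy'⟩
        refine ⟨hS h y hy, fun hc => hy' ?_⟩
        obtain ⟨k, hk⟩ := hc
        refine ⟨h⁻¹ * k, ?_⟩
        simp only [mul_smul] at hk ⊢
        rw [hk]; simp
      · rintro y ⟨hy, _⟩
        exact hd y hy
    rw [← hn, ← hadd]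
    exact dvd_add h1 (hd x hx)

/-- Gleason-type congruence argument. -/
theorem mem_orbit_of_mod (c : ℕ) (hc : 1 < c) (K A B : Subgroup H) (hAK : A ≤ K) (hBK : B ≤ K)
    (a b : Ω) (hAa : ∀ g ∈ A, g • a = a)
    (hA : ∀ x ∈ orbit K a, x ≠ a → c ∣ (orbit A x).ncard)
    (hB : ∀ x ∈ orbit K a, x ≠ b → c ∣ (orbit B x).ncard) : b ∈ orbit K a := by
  by_contra hb
  have hinv : ∀ g ∈ K, ∀ x ∈ orbit K a, g • x ∈ orbit K a := by
    rintro g hg _ ⟨k, rfl⟩
    exact ⟨⟨g, hg⟩ * k, by simp [mul_smul]⟩
  have h1 : c ∣ (orbit K a).ncard := by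
    apply dvd_ncard_of_invariant (H := B)
    · intro h x hx
      exact hinv h (hBK h.2) x hx
    · intro x hx
      exact hB x hx (fun h => hb (h ▸ hx))
  have h2 : c ∣ (orbit K a \ {a}).ncard := by
    apply dvd_ncard_of_invariant (H := A)
    · rintro h x ⟨hx, hxa⟩
      refine ⟨hinv h (hAK h.2) x hx, fun hc => hxa ?_⟩
      have hc' : (h : H) • x = a := hc
      have h3 := hAa h h.2
      exact smul_left_cancel (h : H) (hc'.trans h3.symm)
    · rintro x ⟨hx, hxa⟩
      exact hA x hx hxa
  rw [Set.ncard_diff_singleton_of_mem (mem_orbit_self a)] at h2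
  have hpos : 0 < (orbit K a).ncard :=
    (Set.ncard_pos (Set.toFinite _)).mpr ⟨a, mem_orbit_self a⟩
  have h3 : c ∣ 1 := by
    have := (Nat.dvd_sub h1 h2)
    rwa [Nat.sub_sub_self hpos] at this
  have := Nat.le_of_dvd one_pos h3
  omega

end Mod

end Cfsg.Agent.Lib.Helper16Trans
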