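import Mathlib

set_option autoImplicit false

/-! Difference-operator calculus on functions `Ω → ZMod p` for a permutation `π`. -/

namespace Cfsg.Agent.Helper16W2p

open Finset

variable {Ω : Type*} [Fintype Ω] [DecidableEq Ω] (p : ℕ) [hp : Fact p.Prime]

/-- composition operator `f ↦ f ∘ π`. -/
noncomputable def sg (π : Equiv.Perm Ω) : Module.End (ZMod p) (Ω → ZMod p) :=
  LinearMap.funLeft (ZMod p) (ZMod p) π

/-- difference operator `f ↦ f ∘ π - f`. -/
noncomputable def XX (π : Equiv.Perm Ω) : Module.End (ZMod p) (Ω → ZMod p) := sg p π - 1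

/-- orbit-sum operator. -/
noncomputable def SS (π : Equiv.Perm Ω) : Module.End (ZMod p) (Ω → ZMod p) :=
  ∑ j ∈ range p, sg p π ^ j

variable {p}

@[simp] lemma sg_apply (π : Equiv.Perm Ω) (f : Ω → ZMod p) (ω : Ω) : sg p π f ω = f (π ω) := rfl

lemma XX_apply (π : Equiv.Perm Ω) (f : Ω → ZMod p) (ω : Ω) :
    XX p π f ω = f (π ω) - f ω := rfl

lemma sg_pow_apply (π : Equiv.Perm Ω) (j : ℕ) (f : Ω → ZMod p) (ω : Ω) :
    (sg p π ^ j) f ω = f ((π ^ j) ω) := by
  induction j generalizing f with
  | zero => simp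
  | succ j ih =>
    rw [pow_succ, Module.End.mul_apply, ih, sg_apply, pow_succ', Equiv.Perm.mul_apply]

lemma SS_apply (π : Equiv.Perm Ω) (f : Ω → ZMod p) (ω : Ω) :
    SS p π f ω = ∑ j ∈ range p, f ((π ^ j) ω) := by
  simp [SS, LinearMap.sum_apply, Finset.sum_apply, sg_pow_apply]

lemma leib (π : Equiv.Perm Ω) (f g : Ω → ZMod p) :
    XX p π (f * g) = XX p π f * g + f * XX p π g + XX p π f * XX p π g := by
  ext ω
  simp only [XX_apply, Pi.mul_apply, Pi.add_apply]
  ring

lemma pow_succ_apply (π : Equiv.Perm Ω) (m : ℕ) (h : Ω → ZMod p) :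
    (XX p π ^ (m + 1)) h = (XX p π ^ m) (XX p π h) := by
  rw [pow_succ]; rfl

lemma pow_succ_apply' (π : Equiv.Perm Ω) (m : ℕ) (h : Ω → ZMod p) :
    (XX p π ^ (m + 1)) h = XX p π ((XX p π ^ m) h) := by
  rw [pow_succ']; rfl

lemma pow_eq_zero_of_le (π : Equiv.Perm Ω) {m n : ℕ} (hmn : m ≤ n) {h : Ω → ZMod p}
    (hh : (XX p π ^ m) h = 0) : (XX p π ^ n) h = 0 := by
  obtain ⟨d, rfl⟩ := Nat.exists_eq_add_of_le hmn
  rw [add_comm, pow_add, Module.End.mul_apply, hh, map_zero]

/-- The Leibniz-type degree estimate with leading coefficient. -/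
theorem pow_mul_aux (π : Equiv.Perm Ω) : ∀ (n a b : ℕ) (f g : Ω → ZMod p), a + b = n →
    (XX p π ^ (a + 1)) f = 0 → (XX p π ^ (b + 1)) g = 0 →
    (XX p π ^ (n + 1)) (f * g) = 0 ∧
      (XX p π ^ n) (f * g) = (n.choose a : ZMod p) • ((XX p π ^ a) f * (XX p π ^ b) g) := by
  intro n
  induction n using Nat.strong_induction_on with
  | _ n ih =>
    intro a b f g hab hf hg
    rcases n with _ | m
    · obtain ⟨rfl, rfl⟩ : a = 0 ∧ b = 0 := by omega
      simp only [zero_add, pow_one] at hf hg
      constructor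
      · simp [leib, hf, hg]
      · simp
    · rcases a with _ | a'
      · -- a = 0
        obtain rfl : b = m + 1 := by omega
        simp only [zero_add, pow_one] at hf
        have hX : XX p π (f * g) = f * XX p π g := by simp [leib, hf]
        have hg' : (XX p π ^ (m + 1)) (XX p π g) = 0 := by rw [← pow_succ_apply]; exact hg
        obtain ⟨h1, h2⟩ := ih m (Nat.lt_succ_self m) 0 m f (XX p π g) (by omega) (by simpa using hf) hg'
        constructor
        · rw [pow_succ_apply, hX]; exact h1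
        · rw [pow_succ_apply, hX, h2, pow_succ_apply π m g]; simp
      · rcases b with _ | b'
        · obtain rfl : a' = m := by omega
          simp only [zero_add, pow_one] at hg
          have hX : XX p π (f * g) = XX p π f * g := by simp [leib, hg]
          have hf' : (XX p π ^ (a' + 1)) (XX p π f) = 0 := by rw [← pow_succ_apply]; exact hf
          obtain ⟨h1, h2⟩ := ih a' (Nat.lt_succ_self a') a' 0 (XX p π f) g (by omega) hf'
            (by simpa using hg)
          constructor
          · rw [pow_succ_apply, hX]; exact h1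
          · rw [pow_succ_apply, hX, h2, pow_succ_apply π a' f]; simp
        · obtain rfl : m = a' + b' + 1 := by omega
          have hf' : (XX p π ^ (a' + 1)) (XX p π f) = 0 := by rw [← pow_succ_apply]; exact hf
          have hg' : (XX p π ^ (b' + 1)) (XX p π g) = 0 := by rw [← pow_succ_apply]; exact hg
          obtain ⟨h1, h2⟩ := ih (a' + b' + 1) (by omega) a' (b' + 1) (XX p π f) g (by omega) hf' hg
          obtain ⟨h3, h4⟩ := ih (a' + b' + 1) (by omega) (a' + 1) b' f (XX p π g) (by omega) hf hg'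
          obtain ⟨h5, -⟩ := ih (a' + b') (by omega) a' b' (XX p π f) (XX p π g) rfl hf' hg'
          have h6 : (XX p π ^ (a' + b' + 1 + 1)) (XX p π f * XX p π g) = 0 :=
            pow_eq_zero_of_le π (by omega) h5
          constructor
          · rw [pow_succ_apply, leib, map_add, map_add, h1, h3, h6]; simp
          · rw [pow_succ_apply, leib, map_add, map_add, h2, h4, h5, ← pow_succ_apply π a' f,
              ← pow_succ_apply π b' g, add_zero, ← add_smul,
              Nat.choose_succ_succ (a' + b' + 1) a']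
            push_cast
            rfl

theorem pow_mul_eq_zero (π : Equiv.Perm Ω) {a b : ℕ} {f g : Ω → ZMod p}
    (hf : (XX p π ^ (a + 1)) f = 0) (hg : (XX p π ^ (b + 1)) g = 0) :
    (XX p π ^ (a + b + 1)) (f * g) = 0 := (pow_mul_aux π (a + b) a b f g rfl hf hg).1

theorem pow_mul_eq (π : Equiv.Perm Ω) {a b : ℕ} {f g : Ω → ZMod p}
    (hf : (XX p π ^ (a + 1)) f = 0) (hg : (XX p π ^ (b + 1)) g = 0) :
    (XX p π ^ (a + b)) (f * g) =
      ((a + b).choose a : ZMod p) • ((XX p π ^ a) f * (XX p π ^ b) g) :=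
  (pow_mul_aux π (a + b) a b f g rfl hf hg).2

/-- polynomial identity `(X-1)^(p-1) = 1 + X + ... + X^(p-1)` in characteristic `p`. -/
lemma poly_id : ((Polynomial.X : Polynomial (ZMod p)) - 1) ^ (p - 1) =
    ∑ j ∈ range p, (Polynomial.X : Polynomial (ZMod p)) ^ j := by
  have h1 : ((Polynomial.X : Polynomial (ZMod p)) - 1) ≠ 0 := Polynomial.X_sub_C_ne_zero (1 : ZMod p)
  apply mul_right_cancel₀ h1
  rw [geom_sum_mul, ← pow_succ, Nat.sub_add_cancel hp.out.one_le, sub_pow_char, one_pow]

theorem SS_eq (π : Equiv.Perm Ω) : SS p π = XX p π ^ (p - 1) := by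
  have h := congrArg (Polynomial.aeval (sg p π)) (poly_id (p := p))
  simp only [map_pow, map_sub, Polynomial.aeval_X, map_one, map_sum] at h
  rw [SS, XX, h]

end Cfsg.Agent.Helper16W2p
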