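import Cfsg.Agent.Lib.Helper16W2pA

set_option autoImplicit false

/-! Primitive groups of degree `2p` containing a fixed-point-free element of order `p`:
the invariant matrices mod `p`. -/

namespace Cfsg.Agent.Helper16W2p

open Finset

variable {Ω : Type*} [Fintype Ω] [DecidableEq Ω] {p : ℕ} [hp : Fact p.Prime]

omit [Fintype Ω] [DecidableEq Ω] in
theorem prim_rel (G : Subgroup (Equiv.Perm Ω)) (hG : MulAction.IsPreprimitive G Ω)
    (r : Ω → Ω → Prop) (hr : Equivalence r) (hinv : ∀ g ∈ G, ∀ x y, r x y → r (g x) (g y))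
    {a b : Ω} (hab : a ≠ b) (h : r a b) : ∀ x y, r x y := by
  have hblock : MulAction.IsBlock G {x | r a x} := by
    rw [MulAction.isBlock_iff_smul_eq_of_mem]
    intro g x hx hgx
    have hx' : r a x := hx
    have hgx' : r a (g • x) := hgx
    have h1 : r a (g • a) := hr.trans hgx' (hr.symm (hinv g g.2 _ _ hx'))
    ext y
    rw [Set.mem_smul_set_iff_inv_smul_mem]
    constructor
    · intro hy
      have hy' : r a (g⁻¹ • y) := hy
      have := hinv g g.2 _ _ hy'
      have e : (g : Equiv.Perm Ω) (g⁻¹ • y) = y := by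
        change g • (g⁻¹ • y) = y
        rw [smul_inv_smul]
      rw [e] at this
      exact hr.trans h1 this
    · intro hy
      have hy' : r a y := hy
      have h2 := hinv (g⁻¹ : G) (g⁻¹ : G).2 _ _ (hr.symm h1)
      have e : ((g⁻¹ : G) : Equiv.Perm Ω) (g • a) = a := by
        change g⁻¹ • (g • a) = a
        rw [inv_smul_smul]
      rw [e] at h2
      exact hr.trans h2 (hinv (g⁻¹ : G) (g⁻¹ : G).2 _ _ hy')
  have huniv : ({x | r a x} : Set Ω) = Set.univ := by
    rcases hG.isTrivialBlock_of_isBlock hblock with h' | h'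
    · exact absurd (h' (hr.refl a) h) hab
    · exact h'
  intro x y
  have hx : x ∈ ({x | r a x} : Set Ω) := by rw [huniv]; exact Set.mem_univ _
  have hy : y ∈ ({x | r a x} : Set Ω) := by rw [huniv]; exact Set.mem_univ _
  exact hr.trans (hr.symm hx) hy

section orbits

variable {π : Equiv.Perm Ω}

omit [Fintype Ω] [DecidableEq Ω] in
lemma pow_inj (hπp : π ^ p = 1) (hfix : ∀ ω, π ω ≠ ω) {i j : ℕ} (hi : i < p) (hj : j < p) {ω : Ω}
    (h : (π ^ i) ω = (π ^ j) ω) : i = j := by
  have hper : Function.IsPeriodicPt π p ω := by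
    unfold Function.IsPeriodicPt Function.IsFixedPt
    rw [Equiv.Perm.iterate_eq_pow, hπp]; rfl
  have hmp : Function.minimalPeriod π ω = p := Function.minimalPeriod_eq_prime hper (hfix ω)
  rw [← Equiv.Perm.iterate_eq_pow, ← Equiv.Perm.iterate_eq_pow] at h
  exact (Function.iterate_eq_iterate_iff_of_lt_minimalPeriod (by rw [hmp]; exact hi)
    (by rw [hmp]; exact hj)).1 h

/-- `a2` is not in the `π`-orbit of `a1`. -/
def Indep (π : Equiv.Perm Ω) (a1 a2 : Ω) : Prop := ∀ j : ℕ, (π ^ j) a1 ≠ a2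

omit hp in
lemma exists_indep (hp1 : 0 < p) (hπp : π ^ p = 1) (hcard : Fintype.card Ω = 2 * p) (a1 : Ω) :
    ∃ a2, Indep π a1 a2 := by
  classical
  have hlt : ((range p).image fun j => (π ^ j) a1).card < (Finset.univ : Finset Ω).card := by
    calc ((range p).image fun j => (π ^ j) a1).card ≤ (range p).card := Finset.card_image_le
      _ = p := Finset.card_range p
      _ < 2 * p := by omega
      _ = _ := by rw [Finset.card_univ, hcard]
  obtain ⟨a2, -, ha2⟩ := Finset.exists_mem_notMem_of_card_lt_card hlt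
  refine ⟨a2, fun j hj => ha2 ?_⟩
  rw [Finset.mem_image]
  refine ⟨j % p, Finset.mem_range.2 (Nat.mod_lt _ hp1), ?_⟩
  rw [← pow_eq_pow_mod j hπp]; exact hj

/-- the parametrisation of `Ω` by two `π`-orbits. -/
def phi (p : ℕ) (π : Equiv.Perm Ω) (a1 a2 : Ω) : Fin p × Bool → Ω :=
  fun x => (π ^ (x.1 : ℕ)) (if x.2 then a1 else a2)

lemma phi_bij (hπp : π ^ p = 1) (hfix : ∀ ω, π ω ≠ ω) (hcard : Fintype.card Ω = 2 * p)
    {a1 a2 : Ω} (hI : Indep π a1 a2) : Function.Bijective (phi p π a1 a2) := by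
  rw [Fintype.bijective_iff_injective_and_card]
  constructor
  · have key : ∀ i j : Fin p, (π ^ (i : ℕ)) a1 ≠ (π ^ (j : ℕ)) a2 := by
      intro i j h
      apply hI ((p - j) + i)
      rw [pow_add, Equiv.Perm.mul_apply, h, ← Equiv.Perm.mul_apply, ← pow_add,
        Nat.sub_add_cancel j.2.le, hπp]; rfl
    rintro ⟨i, c⟩ ⟨j, d⟩ h
    simp only [phi] at h
    cases c <;> cases d <;> simp only [if_true, if_false, Bool.false_eq_true] at h
    · have := pow_inj hπp hfix i.2 j.2 h
      simp [Fin.ext_iff, this]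
    · exact absurd h.symm (key j i)
    · exact absurd h (key i j)
    · have := pow_inj hπp hfix i.2 j.2 h
      simp [Fin.ext_iff, this]
  · simp [hcard, mul_comm]

lemma sum_eq (hπp : π ^ p = 1) (hfix : ∀ ω, π ω ≠ ω) (hcard : Fintype.card Ω = 2 * p)
    {a1 a2 : Ω} (hI : Indep π a1 a2) (h : Ω → ZMod p) :
    ∑ ω, h ω = SS p π h a1 + SS p π h a2 := by
  rw [← (Equiv.ofBijective _ (phi_bij hπp hfix hcard hI)).sum_comp, Fintype.sum_prod_type_right]
  simp only [Equiv.ofBijective_apply, phi, Fintype.sum_bool, if_true, Bool.false_eq_true, if_false,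
    SS_apply]
  rw [Finset.sum_range, Finset.sum_range]

lemma cover (hπp : π ^ p = 1) (hfix : ∀ ω, π ω ≠ ω) (hcard : Fintype.card Ω = 2 * p)
    {a1 a2 : Ω} (hI : Indep π a1 a2) (ω : Ω) : ∃ j : ℕ, ω = (π ^ j) a1 ∨ ω = (π ^ j) a2 := by
  obtain ⟨⟨j, c⟩, hj⟩ := (phi_bij hπp hfix hcard hI).2 ω
  refine ⟨j, ?_⟩
  cases c <;> simp only [phi, if_true, if_false, Bool.false_eq_true] at hj
  · right; exact hj.symm
  · left; exact hj.symm

lemma indep_pow (hπp : π ^ p = 1) {a1 a2 : Ω} (hI : Indep π a1 a2) (t : ℕ) :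
    Indep π a1 ((π ^ t) a2) := by
  intro j h
  apply hI ((p - 1) * t + j)
  rw [pow_add, Equiv.Perm.mul_apply, h, ← Equiv.Perm.mul_apply, ← pow_add]
  have : (p - 1) * t + t = p * t := by
    have := hp.out.one_le
    obtain ⟨q, rfl⟩ : ∃ q, p = q + 1 := ⟨p - 1, by omega⟩
    simp; ring
  rw [this, pow_mul, hπp, one_pow]; rfl

end orbits

/-- The configuration: a primitive group of degree `2p` with a fixed-point-free element of
order `p`, `p` odd. -/
structure Cfg (p : ℕ) (Ω : Type*) [Fintype Ω] where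
  G : Subgroup (Equiv.Perm Ω)
  prim : MulAction.IsPreprimitive G Ω
  π : Equiv.Perm Ω
  mem : π ∈ G
  pow : π ^ p = 1
  fix : ∀ ω, π ω ≠ ω
  card : Fintype.card Ω = 2 * p
  odd : p ≠ 2

/-- invariance of a subspace of functions. -/
def GInv (G : Subgroup (Equiv.Perm Ω)) (Y : Submodule (ZMod p) (Ω → ZMod p)) : Prop :=
  ∀ g ∈ G, ∀ f ∈ Y, sg p g f ∈ Y

/-- constant functions. -/
def Cst (f : Ω → ZMod p) : Prop := ∀ ω ω', f ω = f ω'

/-- the constant function. -/
def cf (c : ZMod p) : Ω → ZMod p := fun _ => c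

lemma sg_sg (g g' : Equiv.Perm Ω) (f : Ω → ZMod p) : sg p g (sg p g' f) = sg p (g' * g) f := rfl

lemma sg_one (f : Ω → ZMod p) : sg p (1 : Equiv.Perm Ω) f = f := rfl

lemma sg_mul (g : Equiv.Perm Ω) (f f' : Ω → ZMod p) : sg p g (f * f') = sg p g f * sg p g f' := rfl

lemma XX_cf (π : Equiv.Perm Ω) (c : ZMod p) : XX p π (cf c) = 0 := by
  ext ω; simp [XX_apply, cf]

lemma Cst.eq_cf [Nonempty Ω] {f : Ω → ZMod p} (h : Cst f) : ∃ c, f = cf c :=
  ⟨f (Classical.arbitrary Ω), funext fun ω => h _ _⟩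

lemma cst_cf (c : ZMod p) : Cst (cf c : Ω → ZMod p) := fun _ _ => rfl

lemma Cst.XX_eq {f : Ω → ZMod p} (h : Cst f) (π : Equiv.Perm Ω) : XX p π f = 0 := by
  ext ω; simp [XX_apply, h (π ω) ω]

/-- the largest invariant subspace on which all `π`-orbit sums vanish. -/
def ZZ (C : Cfg p Ω) : Submodule (ZMod p) (Ω → ZMod p) where
  carrier := {f | ∀ g ∈ C.G, SS p C.π (sg p g f) = 0}
  add_mem' := by
    intro a b ha hb g hg
    rw [map_add, map_add, ha g hg, hb g hg, add_zero]
  zero_mem' := by intro g _; simp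
  smul_mem' := by
    intro c f hf g hg
    rw [map_smul, map_smul, hf g hg, smul_zero]

lemma mem_ZZ (C : Cfg p Ω) (f : Ω → ZMod p) :
    f ∈ ZZ C ↔ ∀ g ∈ C.G, SS p C.π (sg p g f) = 0 := Iff.rfl

lemma ZZ_ginv (C : Cfg p Ω) : GInv C.G (ZZ C) := by
  intro g hg f hf g' hg'
  rw [sg_sg]
  exact hf _ (C.G.mul_mem hg hg')

lemma GInv.XX_mem {C : Cfg p Ω} {Y : Submodule (ZMod p) (Ω → ZMod p)} (hY : GInv C.G Y)
    {f : Ω → ZMod p} (hf : f ∈ Y) : XX p C.π f ∈ Y := by
  have : XX p C.π f = sg p C.π f - f := rfl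
  rw [this]
  exact Y.sub_mem (hY _ C.mem _ hf) hf

lemma GInv.pow_mem {C : Cfg p Ω} {Y : Submodule (ZMod p) (Ω → ZMod p)} (hY : GInv C.G Y)
    {f : Ω → ZMod p} (hf : f ∈ Y) (j : ℕ) : (XX p C.π ^ j) f ∈ Y := by
  induction j with
  | zero => simpa using hf
  | succ j ih => rw [pow_succ_apply']; exact hY.XX_mem ih

lemma pow_eq_zero_of_mem_ZZ (C : Cfg p Ω) {f : Ω → ZMod p} (hf : f ∈ ZZ C) :
    (XX p C.π ^ (p - 1)) f = 0 := by
  have := hf 1 C.G.one_mem
  rwa [sg_one, SS_eq] at this

lemma cf_mem_ZZ (C : Cfg p Ω) (c : ZMod p) : cf c ∈ ZZ C := by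
  intro g _
  ext ω
  simp [SS_apply, cf]

lemma two_val {a b : ZMod p} (hab : a ≠ b) (u : ℕ → ZMod p) (hu : ∀ j < p, u j = a ∨ u j = b)
    (hs : ∑ j ∈ range p, u j = 0) : (∀ j < p, u j = a) ∨ (∀ j < p, u j = b) := by
  classical
  have h1 : ∑ j ∈ range p, (u j - b) = (((range p).filter fun j => u j = a).card : ZMod p) * (a - b) := by
    rw [Finset.card_filter, Nat.cast_sum, Finset.sum_mul]
    apply Finset.sum_congr rfl
    intro j hj
    rcases hu j (Finset.mem_range.1 hj) with h | h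
    · simp [h]
    · have : ¬ (u j = a) := by rw [h]; exact fun e => hab e.symm
      rw [if_neg this, h]; simp
  rw [Finset.sum_sub_distrib, hs] at h1
  simp only [sum_const, card_range, nsmul_eq_mul, CharP.cast_eq_zero, zero_mul, sub_zero] at h1
  have h2 : ((((range p).filter fun j => u j = a).card : ℕ) : ZMod p) = 0 := by
    rcases mul_eq_zero.1 h1.symm with h | h
    · exact h
    · exact absurd (sub_eq_zero.1 h) hab
  rw [ZMod.natCast_eq_zero_iff] at h2
  have h3 : ((range p).filter fun j => u j = a).card ≤ p := by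
    calc _ ≤ (range p).card := Finset.card_filter_le _ _
      _ = p := Finset.card_range p
  rcases Nat.eq_zero_or_pos ((range p).filter fun j => u j = a).card with h0 | h0
  · right
    intro j hj
    rcases hu j hj with h | h
    · exfalso
      rw [Finset.card_eq_zero] at h0
      have : j ∈ (range p).filter fun j => u j = a := by simp [hj, h]
      rw [h0] at this
      simp at this
    · exact h
  · left
    have h4 : ((range p).filter fun j => u j = a).card = (range p).card := by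
      rw [Finset.card_range]; exact le_antisymm h3 (Nat.le_of_dvd h0 h2)
    have h5 := Finset.eq_of_subset_of_card_le (Finset.filter_subset _ _) h4.ge
    intro j hj
    have : j ∈ (range p).filter fun j => u j = a := by rw [h5]; exact Finset.mem_range.2 hj
    exact (Finset.mem_filter.1 this).2

lemma Cfg.nonempty (C : Cfg p Ω) : Nonempty Ω := by
  have : 0 < Fintype.card Ω := by rw [C.card]; have := hp.out.pos; omega
  exact Fintype.card_pos_iff.1 this

/-- A `π`-invariant function in `ZZ` is constant (otherwise the `π`-orbits are blocks). -/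
theorem cst_of_mem_ZZ (C : Cfg p Ω) {f : Ω → ZMod p} (hf : f ∈ ZZ C) (hX : XX p C.π f = 0) :
    Cst f := by
  obtain ⟨a1⟩ := C.nonempty
  obtain ⟨a2, hI⟩ := exists_indep hp.out.pos C.pow C.card a1
  have invOf : ∀ h : Ω → ZMod p, (∀ ω, h (C.π ω) = h ω) → ∀ (j : ℕ) ω, h ((C.π ^ j) ω) = h ω := by
    intro h hh j
    induction j with
    | zero => intro ω; simp
    | succ j ih => intro ω; rw [pow_succ', Equiv.Perm.mul_apply, hh, ih]
  have inv1 : ∀ ω, f (C.π ω) = f ω := fun ω => sub_eq_zero.1 (congrFun hX ω)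
  have inv := invOf f inv1
  by_contra hne
  have hab : f a1 ≠ f a2 := by
    intro h
    apply hne
    have : ∀ ω, f ω = f a1 := by
      intro ω
      obtain ⟨j, h1 | h1⟩ := cover C.pow C.fix C.card hI ω
      · rw [h1, inv]
      · rw [h1, inv, h]
    intro ω ω'
    rw [this ω, this ω']
  have hval : ∀ ω, f ω = f a1 ∨ f ω = f a2 := by
    intro ω
    obtain ⟨j, h1 | h1⟩ := cover C.pow C.fix C.card hI ω
    · left; rw [h1, inv]
    · right; rw [h1, inv]
  have hginv : ∀ g ∈ C.G, ∀ ω, f (g (C.π ω)) = f (g ω) := by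
    intro g hg ω
    have h0 : ∑ j ∈ range p, f (g ((C.π ^ j) ω)) = 0 := by
      have := congrFun (hf g hg) ω
      rw [SS_apply] at this
      simpa using this
    have h1p : 1 < p := hp.out.one_lt
    rcases two_val hab (fun j => f (g ((C.π ^ j) ω))) (fun j _ => hval _) h0 with h | h
    · have e0 := h 0 (by omega)
      have e1 := h 1 h1p
      simp only [pow_zero, pow_one, Equiv.Perm.one_apply] at e0 e1
      rw [e0, e1]
    · have e0 := h 0 (by omega)
      have e1 := h 1 h1p
      simp only [pow_zero, pow_one, Equiv.Perm.one_apply] at e0 e1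
      rw [e0, e1]
  have hall := prim_rel C.G C.prim (fun x y => f x = f y)
    ⟨fun _ => rfl, fun h => h.symm, fun h h' => h.trans h'⟩ (by
      intro g hg x y hxy
      have hi := invOf (fun ω => f (g ω)) (hginv g hg)
      obtain ⟨i, h1 | h1⟩ := cover C.pow C.fix C.card hI x <;>
      obtain ⟨j, h2 | h2⟩ := cover C.pow C.fix C.card hI y
      · rw [h1, h2]; exact (hi i a1).trans (hi j a1).symm
      · rw [h1, h2, inv, inv] at hxy; exact absurd hxy hab
      · rw [h1, h2, inv, inv] at hxy; exact absurd hxy.symm hab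
      · rw [h1, h2]; exact (hi i a2).trans (hi j a2).symm)
    (a := a1) (b := C.π a1) (C.fix a1).symm (inv1 a1).symm
  exact hab (hall a1 a2)

end Cfsg.Agent.Helper16W2p
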