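import Cfsg.Agent.Lib.Helper16W2pB

set_option autoImplicit false

namespace Cfsg.Agent.Helper16W2p

open Finset

variable {Ω : Type*} [Fintype Ω] [DecidableEq Ω] {p : ℕ} [hp : Fact p.Prime]

lemma cf_ne_zero (C : Cfg p Ω) {c : ZMod p} (hc : c ≠ 0) : (cf c : Ω → ZMod p) ≠ 0 := by
  obtain ⟨a⟩ := C.nonempty
  intro h
  exact hc (congrFun h a)

/-- exact degree of a nonzero element of `ZZ`. -/
lemma exists_deg (C : Cfg p Ω) {y : Ω → ZMod p} (hy : y ∈ ZZ C) (h0 : y ≠ 0) :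
    ∃ (a : ℕ) (c : ZMod p), c ≠ 0 ∧ (XX p C.π ^ a) y = cf c ∧ a + 1 ≤ p - 1 := by
  classical
  have hex : ∃ n, (XX p C.π ^ n) y = 0 := ⟨p - 1, pow_eq_zero_of_mem_ZZ C hy⟩
  have hn0 : Nat.find hex ≠ 0 := by
    intro h
    have := Nat.find_spec hex
    rw [h] at this
    exact h0 (by simpa using this)
  obtain ⟨a, ha⟩ : ∃ a, Nat.find hex = a + 1 := ⟨Nat.find hex - 1, by omega⟩
  have h1 : (XX p C.π ^ (a + 1)) y = 0 := by rw [← ha]; exact Nat.find_spec hex
  have h2 : (XX p C.π ^ a) y ≠ 0 := Nat.find_min hex (by omega)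
  have h3 : Cst ((XX p C.π ^ a) y) :=
    cst_of_mem_ZZ C ((ZZ_ginv C).pow_mem hy a) (by rw [← pow_succ_apply']; exact h1)
  haveI := C.nonempty
  obtain ⟨c, hc⟩ := h3.eq_cf
  refine ⟨a, c, ?_, hc, ?_⟩
  · rintro rfl
    apply h2
    rw [hc]; rfl
  · rw [← ha]
    exact Nat.find_min' hex (pow_eq_zero_of_mem_ZZ C hy)

lemma pow_succ_eq_zero_of_eq_cf (π : Equiv.Perm Ω) {a : ℕ} {y : Ω → ZMod p} {c : ZMod p}
    (h : (XX p π ^ a) y = cf c) : (XX p π ^ (a + 1)) y = 0 := by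
  rw [pow_succ_apply', h, XX_cf]

/-- uniseriality of `ZZ`. -/
lemma mem_of_deg (C : Cfg p Ω) {Y : Submodule (ZMod p) (Ω → ZMod p)} (hY : GInv C.G Y)
    (hYZ : Y ≤ ZZ C) :
    ∀ (a : ℕ) (y : Ω → ZMod p), y ∈ Y → ∀ c : ZMod p, c ≠ 0 → (XX p C.π ^ a) y = cf c →
      ∀ w ∈ ZZ C, (XX p C.π ^ (a + 1)) w = 0 → w ∈ Y := by
  haveI := C.nonempty
  intro a
  induction a with
  | zero =>
    intro y hy c hc hyc w hw hw0
    simp only [pow_zero, Module.End.one_apply] at hyc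
    simp only [zero_add, pow_one] at hw0
    obtain ⟨c', hc'⟩ := (cst_of_mem_ZZ C hw hw0).eq_cf
    have : w = (c' * c⁻¹) • y := by
      rw [hc', hyc]; ext ω; simp [cf, mul_assoc, inv_mul_cancel₀ hc]
    rw [this]
    exact Y.smul_mem _ hy
  | succ a ih =>
    intro y hy c hc hyc w hw hw0
    have h1 : Cst ((XX p C.π ^ (a + 1)) w) :=
      cst_of_mem_ZZ C ((ZZ_ginv C).pow_mem hw _) (by rw [← pow_succ_apply']; exact hw0)
    obtain ⟨c', hc'⟩ := h1.eq_cf
    have h2 : (XX p C.π ^ (a + 1)) (w - (c' * c⁻¹) • y) = 0 := by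
      rw [map_sub, map_smul, hc', hyc]; ext ω; simp [cf, mul_assoc, inv_mul_cancel₀ hc]
    have h3 := ih (XX p C.π y) (hY.XX_mem hy) c hc (by rw [← pow_succ_apply]; exact hyc)
      (w - (c' * c⁻¹) • y) ((ZZ C).sub_mem hw ((ZZ C).smul_mem _ (hYZ hy))) h2
    have : w = (w - (c' * c⁻¹) • y) + (c' * c⁻¹) • y := by abel
    rw [this]
    exact Y.add_mem h3 (Y.smul_mem _ hy)

/-- a non-constant invariant subspace of `ZZ` contains a "coordinate function". -/
lemma exists_xi (C : Cfg p Ω) {Y : Submodule (ZMod p) (Ω → ZMod p)} (hY : GInv C.G Y)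
    (hYZ : Y ≤ ZZ C) {y : Ω → ZMod p} (hy : y ∈ Y) (hc : ¬ Cst y) :
    ∃ ξ ∈ Y, XX p C.π ξ = cf 1 := by
  have h0 : y ≠ 0 := by
    rintro rfl
    exact hc (fun _ _ => rfl)
  obtain ⟨a, c, hc0, hac, -⟩ := exists_deg C (hYZ hy) h0
  rcases a with _ | a
  · exfalso
    apply hc
    simp only [pow_zero, Module.End.one_apply] at hac
    rw [hac]; exact cst_cf c
  · refine ⟨c⁻¹ • (XX p C.π ^ a) y, Y.smul_mem _ (hY.pow_mem hy a), ?_⟩
    rw [map_smul, ← pow_succ_apply', hac]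
    ext ω; simp [cf, inv_mul_cancel₀ hc0]

lemma xi_pow (π : Equiv.Perm Ω) {ξ : Ω → ZMod p} (hξ : XX p π ξ = cf 1) (j : ℕ) (ω : Ω) :
    ξ ((π ^ j) ω) = ξ ω + j := by
  induction j with
  | zero => simp
  | succ j ih =>
    have := congrFun hξ ((π ^ j) ω)
    rw [XX_apply] at this
    rw [pow_succ', Equiv.Perm.mul_apply, sub_eq_iff_eq_add.1 this, ih]
    simp [cf]; ring

/-- The multiplicative argument: an invariant subspace `Y` of `ZZ` with `Y * XX Y ⊆ ZZ` consists of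
constants (otherwise `Y` fails to separate points, giving blocks of size two). -/
theorem cst_of_mul_mem (C : Cfg p Ω) {Y : Submodule (ZMod p) (Ω → ZMod p)} (hY : GInv C.G Y)
    (hYZ : Y ≤ ZZ C) (hmul : ∀ ξ ∈ Y, ∀ y ∈ Y, ξ * XX p C.π y ∈ ZZ C) : ∀ y ∈ Y, Cst y := by
  haveI := C.nonempty
  by_contra hcon
  push Not at hcon
  obtain ⟨y0, hy0, hy0c⟩ := hcon
  obtain ⟨ξ, hξY, hξ⟩ := exists_xi C hY hYZ hy0 hy0c
  obtain ⟨a1⟩ := C.nonempty
  obtain ⟨a2', hI'⟩ := exists_indep hp.out.pos C.pow C.card a1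
  have hI := indep_pow C.pow hI' (ξ a1 - ξ a2').val
  set a2 := (C.π ^ (ξ a1 - ξ a2').val) a2' with ha2
  have hξ12 : ξ a1 = ξ a2 := by
    rw [ha2, xi_pow C.π hξ]; simp
  have hne : a1 ≠ a2 := by
    have := hI 0
    simpa using this
  have hξ2 : (XX p C.π ^ (1 + 1)) ξ = 0 := by
    rw [pow_succ_apply, hξ, pow_one, XX_cf]
  -- the main induction
  have main : ∀ n : ℕ, n ≤ p - 1 → ∀ y ∈ Y, (XX p C.π ^ n) y = 0 →
      ∀ j : ℕ, y ((C.π ^ j) a1) = y ((C.π ^ j) a2) := by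
    intro n
    induction n with
    | zero =>
      intro _ y _ h j
      simp only [pow_zero, Module.End.one_apply] at h
      rw [h]; rfl
    | succ n ih =>
      intro hn y hy h j
      have ihn := ih (by omega)
      rcases n with _ | a
      · simp only [zero_add, pow_one] at h
        exact cst_of_mem_ZZ C (hYZ hy) h _ _
      · have h1 : Cst ((XX p C.π ^ (a + 1)) y) :=
          cst_of_mem_ZZ C ((ZZ_ginv C).pow_mem (hYZ hy) _) (by rw [← pow_succ_apply']; exact h)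
        obtain ⟨c, hc⟩ := h1.eq_cf
        by_cases hc0 : c = 0
        · apply ihn y hy
          rw [hc, hc0]; rfl
        · have hXy : (XX p C.π ^ (a + 1)) (XX p C.π y) = 0 := by rw [← pow_succ_apply]; exact h
          have hw0 : (XX p C.π ^ (a + 1)) (ξ * XX p C.π y - ((a + 1 : ℕ) : ZMod p) • y) = 0 := by
            have e := pow_mul_eq C.π hξ2 hXy
            rw [map_sub, map_smul, add_comm a 1, e, pow_one, hξ, ← pow_succ_apply, add_comm 1 a, hc]
            ext ω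
            simp [cf]
          have hwZ : ξ * XX p C.π y - ((a + 1 : ℕ) : ZMod p) • y ∈ ZZ C :=
            (ZZ C).sub_mem (hmul ξ hξY y hy) ((ZZ C).smul_mem _ (hYZ hy))
          have hwY := mem_of_deg C hY hYZ a (XX p C.π y) (hY.XX_mem hy) c hc0
            (by rw [← pow_succ_apply]; exact hc) _ hwZ hw0
          have e1 := ihn _ hwY hw0 j
          have e2 := ihn _ (hY.XX_mem hy) hXy j
          have e3 : ξ ((C.π ^ j) a1) = ξ ((C.π ^ j) a2) := by
            rw [xi_pow C.π hξ, xi_pow C.π hξ, hξ12]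
          simp only [Pi.sub_apply, Pi.mul_apply, Pi.smul_apply, smul_eq_mul] at e1
          rw [e2, e3] at e1
          have e4 : (((a + 1 : ℕ) : ZMod p)) * y ((C.π ^ j) a1) =
              (((a + 1 : ℕ) : ZMod p)) * y ((C.π ^ j) a2) := by
            linear_combination -e1
          have hne0 : (((a + 1 : ℕ) : ZMod p)) ≠ 0 := by
            rw [Ne, ZMod.natCast_eq_zero_iff]
            intro hd
            have := Nat.le_of_dvd (by omega) hd
            omega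
          exact mul_left_cancel₀ hne0 e4
  have hall := prim_rel C.G C.prim (fun x x' => ∀ y ∈ Y, y x = y x')
    ⟨fun _ _ _ => rfl, fun h y hy => (h y hy).symm, fun h h' y hy => (h y hy).trans (h' y hy)⟩ (by
      intro g hg x x' h y hy
      exact h _ (hY g hg y hy))
    hne (by
      intro y hy
      have := main (p - 1) le_rfl y hy (pow_eq_zero_of_mem_ZZ C (hYZ hy)) 0
      simpa using this)
  exact hy0c (fun ω ω' => hall ω ω' y0 hy0)

/-- orthogonal complement for the standard bilinear form. -/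
def perp (Y : Submodule (ZMod p) (Ω → ZMod p)) : Submodule (ZMod p) (Ω → ZMod p) where
  carrier := {f | ∀ y ∈ Y, ∑ ω, f ω * y ω = 0}
  add_mem' := by
    intro a b ha hb y hy
    simp only [Pi.add_apply, add_mul, Finset.sum_add_distrib]
    rw [ha y hy, hb y hy, add_zero]
  zero_mem' := by intro y _; simp
  smul_mem' := by
    intro c f hf y hy
    simp only [Pi.smul_apply, smul_eq_mul, mul_assoc, ← Finset.mul_sum]
    rw [hf y hy, mul_zero]

lemma perp_ginv {G : Subgroup (Equiv.Perm Ω)} {Y : Submodule (ZMod p) (Ω → ZMod p)}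
    (hY : GInv G Y) : GInv G (perp Y) := by
  intro g hg f hf y hy
  have h1 := hf _ (hY g⁻¹ (G.inv_mem hg) y hy)
  rw [← Equiv.sum_comp g] at h1
  simpa using h1

lemma sum_of_pow_eq_cf (C : Cfg p Ω) {h : Ω → ZMod p} {c : ZMod p}
    (hS : (XX p C.π ^ (p - 1)) h = cf c) : ∑ ω, h ω = 2 * c := by
  obtain ⟨a1⟩ := C.nonempty
  obtain ⟨a2, hI⟩ := exists_indep hp.out.pos C.pow C.card a1
  rw [sum_eq C.pow C.fix C.card hI, SS_eq, hS]
  simp [cf]; ring

lemma choose_ne_zero {a : ℕ} (ha : a ≤ p - 1) : (((p - 1).choose a : ℕ) : ZMod p) ≠ 0 := by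
  rw [Ne, ZMod.natCast_eq_zero_iff]
  intro hd
  have h1 := Nat.choose_mul_factorial_mul_factorial ha
  have h2 : p ∣ (p - 1).factorial := by
    rw [← h1, mul_assoc]; exact Dvd.dvd.mul_right hd _
  rw [hp.out.dvd_factorial] at h2
  have := hp.out.pos
  omega

lemma two_ne_zero' (C : Cfg p Ω) : (2 : ZMod p) ≠ 0 := by
  have h : ((2 : ℕ) : ZMod p) ≠ 0 := by
    rw [Ne, ZMod.natCast_eq_zero_iff]
    intro hd
    exact C.odd ((Nat.prime_dvd_prime_iff_eq hp.out Nat.prime_two).1 hd)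
  simpa using h

lemma Cfg.three_le (C : Cfg p Ω) : 3 ≤ p := by
  have := hp.out.two_le
  have := C.odd
  omega

/-- A non-constant invariant subspace of `ZZ` has an element of the top degree `p - 2`. -/
theorem exists_top (C : Cfg p Ω) {Y : Submodule (ZMod p) (Ω → ZMod p)} (hY : GInv C.G Y)
    (hYZ : Y ≤ ZZ C) {y0 : Ω → ZMod p} (hy0 : y0 ∈ Y) (hy0c : ¬ Cst y0) :
    ∃ t ∈ Y, (XX p C.π ^ (p - 2)) t ≠ 0 := by
  have hp3 := C.three_le
  by_contra hcon
  push Not at hcon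
  obtain ⟨ξ, hξY, hξ⟩ := exists_xi C hY hYZ hy0 hy0c
  have hξ2 : (XX p C.π ^ (1 + 1)) ξ = 0 := by
    rw [pow_succ_apply, hξ, pow_one, XX_cf]
  have hY0 : GInv C.G (Y ⊓ perp Y) := fun g hg f hf =>
    ⟨hY g hg f hf.1, perp_ginv hY g hg f hf.2⟩
  have hY0Z : Y ⊓ perp Y ≤ ZZ C := fun f hf => hYZ hf.1
  have hξ0 : ξ ∈ Y ⊓ perp Y := by
    refine ⟨hξY, fun y hy => ?_⟩
    have h1 : (XX p C.π ^ ((p - 3) + 1)) y = 0 := by
      have := hcon y hy
      rwa [show p - 3 + 1 = p - 2 by omega]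
    have h2 := pow_mul_eq_zero C.π hξ2 h1
    rw [show 1 + (p - 3) + 1 = p - 1 by omega] at h2
    have h3 := sum_of_pow_eq_cf C (h := ξ * y) (c := 0) (by rw [h2]; rfl)
    simpa using h3
  have small : ∀ z ∈ Y ⊓ perp Y, ∃ a : ℕ, (XX p C.π ^ (a + 1)) z = 0 ∧ 2 * a + 3 ≤ p := by
    intro z hz
    by_cases hz0 : z = 0
    · exact ⟨0, by rw [hz0, map_zero], by omega⟩
    · obtain ⟨a, c, hc0, hac, ha⟩ := exists_deg C (hY0Z hz) hz0
      refine ⟨a, pow_succ_eq_zero_of_eq_cf C.π hac, ?_⟩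
      by_contra hlt
      have hodd : p % 2 = 1 := by
        rcases hp.out.eq_two_or_odd with h | h
        · exact absurd h C.odd
        · exact h
      have h2a : p - 1 ≤ 2 * a := by omega
      set e := 2 * a - (p - 1) with he
      have hz' : (XX p C.π ^ e) z ∈ Y := hY.pow_mem hz.1 e
      have h1 : (XX p C.π ^ (a - e)) ((XX p C.π ^ e) z) = cf c := by
        rw [← Module.End.mul_apply, ← pow_add, show a - e + e = a by omega, hac]
      have h2 := pow_mul_eq C.π (pow_succ_eq_zero_of_eq_cf C.π hac)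
        (pow_succ_eq_zero_of_eq_cf C.π h1)
      rw [hac, h1, show a + (a - e) = p - 1 by omega] at h2
      have h3 := sum_of_pow_eq_cf C (h := z * (XX p C.π ^ e) z)
        (c := ((p - 1).choose a : ZMod p) * (c * c)) (by rw [h2]; ext ω; simp [cf])
      have h4 := hz.2 _ hz'
      simp only [Pi.mul_apply] at h3
      rw [h4] at h3
      have h5 : (2 : ZMod p) * (((p - 1).choose a : ZMod p) * (c * c)) ≠ 0 :=
        mul_ne_zero (two_ne_zero' C) (mul_ne_zero (choose_ne_zero (by omega)) (mul_ne_zero hc0 hc0))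
      exact h5 h3.symm
  have hmul : ∀ ξ' ∈ Y ⊓ perp Y, ∀ y ∈ Y ⊓ perp Y, ξ' * XX p C.π y ∈ ZZ C := by
    intro ξ' hξ' y hy g hg
    rw [sg_mul, SS_eq]
    obtain ⟨a, ha, ha'⟩ := small _ (hY0 g hg _ hξ')
    obtain ⟨b, hb, hb'⟩ := small _ (hY0 g hg _ (hY0.XX_mem hy))
    exact pow_eq_zero_of_le C.π (by omega) (pow_mul_eq_zero C.π ha hb)
  have hc := cst_of_mul_mem C hY0 hY0Z hmul ξ hξ0
  have := hc.XX_eq C.π
  rw [hξ] at this
  exact cf_ne_zero C one_ne_zero this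

end Cfsg.Agent.Helper16W2p
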