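import Cfsg.Agent.Lib.Helper16W2pC

set_option autoImplicit false

namespace Cfsg.Agent.Helper16W2p

open Finset Matrix

variable {Ω : Type*} [Fintype Ω] [DecidableEq Ω] {p : ℕ} [hp : Fact p.Prime]

lemma inv_pow (π : Equiv.Perm Ω) {h : Ω → ZMod p} (hh : XX p π h = 0) (j : ℕ) (ω : Ω) :
    h ((π ^ j) ω) = h ω := by
  induction j with
  | zero => simp
  | succ j ih =>
    have := congrFun hh ((π ^ j) ω)
    rw [XX_apply] at this
    rw [pow_succ', Equiv.Perm.mul_apply, sub_eq_zero.1 this, ih]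

lemma XX_SS (C : Cfg p Ω) (h : Ω → ZMod p) : XX p C.π (SS p C.π h) = 0 := by
  ext ω
  rw [XX_apply, SS_apply, SS_apply]
  have e1 := Finset.sum_range_succ (fun j => h ((C.π ^ j) ω)) p
  have e2 := Finset.sum_range_succ' (fun j => h ((C.π ^ j) ω)) p
  rw [e1, C.pow] at e2
  simp only [pow_zero, Equiv.Perm.one_apply, add_left_inj] at e2
  have e3 : ∀ j, h ((C.π ^ j) (C.π ω)) = h ((C.π ^ (j + 1)) ω) := by
    intro j; rw [pow_succ, Equiv.Perm.mul_apply]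
  simp only [e3, Pi.zero_apply]
  rw [e2, sub_self]

lemma mulVec_sg {G : Subgroup (Equiv.Perm Ω)} {M : Matrix Ω Ω (ZMod p)}
    (hM : ∀ g ∈ G, ∀ x y, M (g x) (g y) = M x y) {g : Equiv.Perm Ω} (hg : g ∈ G)
    (f : Ω → ZMod p) : sg p g (M *ᵥ f) = M *ᵥ (sg p g f) := by
  ext x
  simp only [sg_apply, Matrix.mulVec, dotProduct]
  rw [← Equiv.sum_comp g]
  simp only [hM g hg]

lemma mulVec_XX (C : Cfg p Ω) {M : Matrix Ω Ω (ZMod p)}
    (hM : ∀ g ∈ C.G, ∀ x y, M (g x) (g y) = M x y) (f : Ω → ZMod p) :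
    XX p C.π (M *ᵥ f) = M *ᵥ (XX p C.π f) := by
  have e1 : ∀ h : Ω → ZMod p, XX p C.π h = sg p C.π h - h := fun _ => rfl
  rw [e1, e1, Matrix.mulVec_sub, mulVec_sg hM C.mem]

lemma mulVec_pow (C : Cfg p Ω) {M : Matrix Ω Ω (ZMod p)}
    (hM : ∀ g ∈ C.G, ∀ x y, M (g x) (g y) = M x y) (j : ℕ) (f : Ω → ZMod p) :
    (XX p C.π ^ j) (M *ᵥ f) = M *ᵥ ((XX p C.π ^ j) f) := by
  induction j with
  | zero => simp
  | succ j ih => rw [pow_succ_apply', ih, mulVec_XX C hM, ← pow_succ_apply']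

lemma mulVec_eq_zero_of_inv (C : Cfg p Ω) {B : Matrix Ω Ω (ZMod p)}
    (hB0 : ∀ x ω, ∑ j ∈ range p, B x ((C.π ^ j) ω) = 0) {f : Ω → ZMod p}
    (hf : XX p C.π f = 0) : B *ᵥ f = 0 := by
  obtain ⟨a1⟩ := C.nonempty
  obtain ⟨a2, hI⟩ := exists_indep hp.out.pos C.pow C.card a1
  ext x
  simp only [Matrix.mulVec, dotProduct, Pi.zero_apply]
  rw [sum_eq C.pow C.fix C.card hI, SS_apply, SS_apply]
  simp only [inv_pow C.π hf, ← Finset.sum_mul, hB0, zero_mul, add_zero]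

lemma mulVec_mem_ZZ (C : Cfg p Ω) {B : Matrix Ω Ω (ZMod p)}
    (hB : ∀ g ∈ C.G, ∀ x y, B (g x) (g y) = B x y)
    (hB0 : ∀ x ω, ∑ j ∈ range p, B x ((C.π ^ j) ω) = 0) (f : Ω → ZMod p) : B *ᵥ f ∈ ZZ C := by
  intro g hg
  rw [mulVec_sg hB hg, SS_eq, mulVec_pow C hB, ← SS_eq]
  exact mulVec_eq_zero_of_inv C hB0 (XX_SS C _)

lemma transpose_mulVec_mem_ZZ (C : Cfg p Ω) {B : Matrix Ω Ω (ZMod p)}
    (hB : ∀ g ∈ C.G, ∀ x y, B (g x) (g y) = B x y)
    (hB0 : ∀ x ω, ∑ j ∈ range p, B x ((C.π ^ j) ω) = 0) (f : Ω → ZMod p) : Bᵀ *ᵥ f ∈ ZZ C := by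
  intro g hg
  have hBt : ∀ g ∈ C.G, ∀ x y, Bᵀ (g x) (g y) = Bᵀ x y := fun g hg x y => hB g hg y x
  rw [mulVec_sg hBt hg]
  ext ω
  rw [SS_apply]
  simp only [Matrix.mulVec, dotProduct, Matrix.transpose_apply, Pi.zero_apply]
  rw [Finset.sum_comm]
  simp only [← Finset.sum_mul, hB0, zero_mul, Finset.sum_const_zero]

lemma pairing (B : Matrix Ω Ω (ZMod p)) (t h : Ω → ZMod p) :
    ∑ ω, t ω * (Bᵀ *ᵥ h) ω = ∑ ω, (B *ᵥ t) ω * h ω := by
  have := Matrix.dotProduct_mulVec t Bᵀ h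
  rw [Matrix.vecMul_transpose] at this
  exact this

/-- **Main theorem mod `p`.**  An invariant matrix over `ZMod p` whose row sums over every
`π`-orbit vanish is constant. -/
theorem inv_matrix_const (C : Cfg p Ω) (B : Matrix Ω Ω (ZMod p))
    (hB : ∀ g ∈ C.G, ∀ x y, B (g x) (g y) = B x y)
    (hB0 : ∀ x ω, ∑ j ∈ range p, B x ((C.π ^ j) ω) = 0) : ∀ x y x' y', B x y = B x' y' := by
  haveI := C.nonempty
  have hp3 := C.three_le
  have hBt : ∀ g ∈ C.G, ∀ x y, Bᵀ (g x) (g y) = Bᵀ x y := fun g hg x y => hB g hg y x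
  haveI : MulAction.IsPretransitive C.G Ω := C.prim.toIsPretransitive
  have htrans : ∀ x y : Ω, ∃ g ∈ C.G, g x = y := by
    intro x y
    obtain ⟨g, hg⟩ := MulAction.exists_smul_eq C.G x y
    exact ⟨g, g.2, hg⟩
  -- it suffices that all `B *ᵥ f` are constant
  suffices hcst : ∀ f, Cst (B *ᵥ f) by
    have h1 : ∀ x x' y, B x y = B x' y := by
      intro x x' y
      have := hcst (Pi.single y 1) x x'
      simpa using this
    intro x y x' y'
    obtain ⟨g, hg, hgy⟩ := htrans y y'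
    rw [← hgy, h1 x' (g x) (g y), hB g hg]
  by_contra hcon
  push Not at hcon
  obtain ⟨f0, hf0⟩ := hcon
  -- the range of `B`
  have hY : GInv C.G (LinearMap.range (Matrix.mulVecLin B)) := by
    rintro g hg _ ⟨f, rfl⟩
    exact ⟨sg p g f, by simp only [Matrix.mulVecLin_apply]; rw [mulVec_sg hB hg]⟩
  have hYZ : LinearMap.range (Matrix.mulVecLin B) ≤ ZZ C := by
    rintro _ ⟨f, rfl⟩
    exact mulVec_mem_ZZ C hB hB0 f
  have hf0Y : B *ᵥ f0 ∈ LinearMap.range (Matrix.mulVecLin B) := ⟨f0, rfl⟩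
  obtain ⟨t, htY, ht⟩ := exists_top C hY hYZ hf0Y hf0
  have htZ := hYZ htY
  by_cases hp5 : p = 3
  · -- p = 3
    have hmul : ∀ ξ ∈ ZZ C, ∀ y ∈ ZZ C, ξ * XX p C.π y ∈ ZZ C := by
      intro ξ hξ y hy
      have h1 : Cst (XX p C.π y) := by
        apply cst_of_mem_ZZ C ((ZZ_ginv C).XX_mem hy)
        have := pow_eq_zero_of_mem_ZZ C hy
        rw [show p - 1 = 1 + 1 by omega, pow_succ_apply, pow_one] at this
        exact this
      obtain ⟨c, hc⟩ := h1.eq_cf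
      have : ξ * XX p C.π y = c • ξ := by
        rw [hc]; ext ω; simp [cf, mul_comm]
      rw [this]
      exact (ZZ C).smul_mem _ hξ
    exact hf0 (cst_of_mul_mem C (ZZ_ginv C) le_rfl hmul _ (hYZ hf0Y))
  · have hp5' : 5 ≤ p := by
      have h4 : p ≠ 4 := by
        rintro rfl
        exact absurd hp.out (by norm_num)
      omega
    -- `B` maps `ZZ` into constants
    have hY2 : GInv C.G (Submodule.map (Matrix.mulVecLin B) (ZZ C)) := by
      rintro g hg _ ⟨f, hf, rfl⟩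
      exact ⟨sg p g f, ZZ_ginv C g hg f hf, by simp only [Matrix.mulVecLin_apply]; rw [mulVec_sg hB hg]⟩
    have hY2Z : Submodule.map (Matrix.mulVecLin B) (ZZ C) ≤ ZZ C := by
      rintro _ ⟨f, _, rfl⟩
      exact mulVec_mem_ZZ C hB hB0 f
    have hBt_cst : Cst (B *ᵥ t) := by
      by_contra hnc
      obtain ⟨_, ⟨f, hf, rfl⟩, h2⟩ := exists_top C hY2 hY2Z (y0 := B *ᵥ t) ⟨t, htZ, rfl⟩ hnc
      apply h2
      rw [Matrix.mulVecLin_apply, mulVec_pow C hB]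
      apply mulVec_eq_zero_of_inv C hB0
      rw [← pow_succ_apply', show p - 2 + 1 = p - 1 by omega]
      exact pow_eq_zero_of_mem_ZZ C hf
    have hBXt : B *ᵥ (XX p C.π t) = 0 := by
      rw [← mulVec_XX C hB]; exact hBt_cst.XX_eq _
    -- the kernel of `B` in `ZZ`
    have hY3 : GInv C.G (ZZ C ⊓ LinearMap.ker (Matrix.mulVecLin B)) := by
      rintro g hg f ⟨hf1, hf2⟩
      refine ⟨ZZ_ginv C g hg f hf1, ?_⟩
      rw [SetLike.mem_coe, LinearMap.mem_ker, Matrix.mulVecLin_apply] at hf2 ⊢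
      rw [← mulVec_sg hB hg, hf2]; rfl
    have hXt3 : XX p C.π t ∈ ZZ C ⊓ LinearMap.ker (Matrix.mulVecLin B) :=
      ⟨(ZZ_ginv C).XX_mem htZ, by
        rw [SetLike.mem_coe, LinearMap.mem_ker, Matrix.mulVecLin_apply]; exact hBXt⟩
    have hXt_nc : ¬ Cst (XX p C.π t) := by
      intro h
      apply ht
      have h2 : (XX p C.π ^ 2) t = 0 := by
        rw [show 2 = 1 + 1 from rfl, pow_succ_apply', pow_one]; exact h.XX_eq _
      exact pow_eq_zero_of_le C.π (by omega) h2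
    obtain ⟨t2, ⟨ht2Z, ht2K⟩, ht2⟩ := exists_top C hY3 inf_le_left hXt3 hXt_nc
    rw [SetLike.mem_coe, LinearMap.mem_ker, Matrix.mulVecLin_apply] at ht2K
    -- the range of the transpose
    have hY' : GInv C.G (LinearMap.range (Matrix.mulVecLin Bᵀ)) := by
      rintro g hg _ ⟨f, rfl⟩
      exact ⟨sg p g f, by simp only [Matrix.mulVecLin_apply]; rw [mulVec_sg hBt hg]⟩
    have hY'Z : LinearMap.range (Matrix.mulVecLin Bᵀ) ≤ ZZ C := by
      rintro _ ⟨f, rfl⟩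
      exact transpose_mulVec_mem_ZZ C hB hB0 f
    have hnc' : ∃ h0, ¬ Cst (Bᵀ *ᵥ h0) := by
      by_contra hall
      push Not at hall
      have h1 : ∀ x y y', B x y = B x y' := by
        intro x y y'
        have := hall (Pi.single x 1) y y'
        simpa using this
      apply hf0
      intro x x'
      obtain ⟨g, hg, hgx⟩ := htrans x x'
      simp only [Matrix.mulVec, dotProduct]
      apply Finset.sum_congr rfl
      intro y _
      rw [← hgx, h1 (g x) y (g y), hB g hg]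
    obtain ⟨h0, hh0⟩ := hnc'
    obtain ⟨_, ⟨h1, rfl⟩, ht'⟩ := exists_top C hY' hY'Z (y0 := Bᵀ *ᵥ h0) ⟨h0, rfl⟩ hh0
    rw [Matrix.mulVecLin_apply] at ht'
    have ht'Z : Bᵀ *ᵥ h1 ∈ ZZ C := transpose_mulVec_mem_ZZ C hB hB0 h1
    -- constants
    have hc2 : Cst ((XX p C.π ^ (p - 2)) t2) := by
      apply cst_of_mem_ZZ C ((ZZ_ginv C).pow_mem ht2Z _)
      rw [← pow_succ_apply', show p - 2 + 1 = p - 1 by omega]
      exact pow_eq_zero_of_mem_ZZ C ht2Z
    have hc' : Cst ((XX p C.π ^ (p - 2)) (Bᵀ *ᵥ h1)) := by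
      apply cst_of_mem_ZZ C ((ZZ_ginv C).pow_mem ht'Z _)
      rw [← pow_succ_apply', show p - 2 + 1 = p - 1 by omega]
      exact pow_eq_zero_of_mem_ZZ C ht'Z
    obtain ⟨c2, hc2⟩ := hc2.eq_cf
    obtain ⟨c', hc'⟩ := hc'.eq_cf
    have hc20 : c2 ≠ 0 := by
      rintro rfl; exact ht2 (by rw [hc2]; rfl)
    have hc'0 : c' ≠ 0 := by
      rintro rfl; exact ht' (by rw [hc']; rfl)
    -- the element of degree one in the range of the transpose
    have hξ1 : (XX p C.π ^ 1) ((XX p C.π ^ (p - 3)) (Bᵀ *ᵥ h1)) = cf c' := by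
      rw [← Module.End.mul_apply, ← pow_add, show 1 + (p - 3) = p - 2 by omega, hc']
    have e1 := pow_mul_eq C.π (pow_succ_eq_zero_of_eq_cf C.π hc2) (pow_succ_eq_zero_of_eq_cf C.π hξ1)
    rw [hc2, hξ1, show p - 2 + 1 = p - 1 by omega] at e1
    have e2 := sum_of_pow_eq_cf C (h := t2 * (XX p C.π ^ (p - 3)) (Bᵀ *ᵥ h1))
      (c := ((p - 1).choose (p - 2) : ZMod p) * (c2 * c')) (by rw [e1]; ext ω; simp [cf])
    rw [mulVec_pow C hBt] at e2
    simp only [Pi.mul_apply] at e2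
    rw [pairing, ht2K] at e2
    simp only [Pi.zero_apply, zero_mul, Finset.sum_const_zero] at e2
    have e3 : (2 : ZMod p) * (((p - 1).choose (p - 2) : ZMod p) * (c2 * c')) ≠ 0 :=
      mul_ne_zero (two_ne_zero' C) (mul_ne_zero (choose_ne_zero (by omega)) (mul_ne_zero hc20 hc'0))
    exact e3 e2.symm

end Cfsg.Agent.Helper16W2p
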