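import Cfsg.Agent.Lib.Helper16W2pD

set_option autoImplicit false

namespace Cfsg.Agent.Helper16W2p

open Finset Matrix

variable {Ω : Type*} [Fintype Ω] [DecidableEq Ω] {p : ℕ} [hp : Fact p.Prime]

section generic

variable {R : Type*} [CommRing R]

/-- orbit sums with values in an arbitrary ring. -/
def osum (p : ℕ) (π : Equiv.Perm Ω) (h : Ω → R) (ω : Ω) : R := ∑ j ∈ range p, h ((π ^ j) ω)

omit [Fintype Ω] [DecidableEq Ω] hp in
lemma osum_shift {π : Equiv.Perm Ω} (hπp : π ^ p = 1) (h : Ω → R) (ω : Ω) :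
    osum p π h (π ω) = osum p π h ω := by
  unfold osum
  have e1 := Finset.sum_range_succ (fun j => h ((π ^ j) ω)) p
  have e2 := Finset.sum_range_succ' (fun j => h ((π ^ j) ω)) p
  rw [e1, hπp] at e2
  simp only [pow_zero, Equiv.Perm.one_apply, add_left_inj] at e2
  have e3 : ∀ j, h ((π ^ j) (π ω)) = h ((π ^ (j + 1)) ω) := by
    intro j; rw [pow_succ, Equiv.Perm.mul_apply]
  simp only [e3]
  rw [e2]

omit [Fintype Ω] [DecidableEq Ω] hp in
lemma osum_pow {π : Equiv.Perm Ω} (hπp : π ^ p = 1) (h : Ω → R) (i : ℕ) (ω : Ω) :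
    osum p π h ((π ^ i) ω) = osum p π h ω := by
  induction i with
  | zero => simp
  | succ i ih => rw [pow_succ', Equiv.Perm.mul_apply, osum_shift hπp, ih]

lemma sum_eq_osum {π : Equiv.Perm Ω} (hπp : π ^ p = 1) (hfix : ∀ ω, π ω ≠ ω)
    (hcard : Fintype.card Ω = 2 * p) {a1 a2 : Ω} (hI : Indep π a1 a2) (h : Ω → R) :
    ∑ ω, h ω = osum p π h a1 + osum p π h a2 := by
  rw [← (Equiv.ofBijective _ (phi_bij hπp hfix hcard hI)).sum_comp, Fintype.sum_prod_type_right]
  simp only [Equiv.ofBijective_apply, phi, Fintype.sum_bool, if_true, Bool.false_eq_true, if_false,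
    osum]
  rw [Finset.sum_range, Finset.sum_range]

omit [Fintype Ω] [DecidableEq Ω] hp in
lemma inv_pow_pow {π : Equiv.Perm Ω} {M : Matrix Ω Ω R} (hM : ∀ x y, M (π x) (π y) = M x y)
    (i : ℕ) (x y : Ω) : M ((π ^ i) x) ((π ^ i) y) = M x y := by
  induction i with
  | zero => simp
  | succ i ih => rw [pow_succ', Equiv.Perm.mul_apply, Equiv.Perm.mul_apply, hM, ih]

omit [Fintype Ω] [DecidableEq Ω] hp in
lemma beta_left {π : Equiv.Perm Ω} (hπp : π ^ p = 1) {M : Matrix Ω Ω R}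
    (hM : ∀ x y, M (π x) (π y) = M x y) (x ω : Ω) :
    osum p π (M (π x)) ω = osum p π (M x) ω := by
  obtain ⟨ω', rfl⟩ : ∃ ω', ω = π ω' := ⟨π⁻¹ ω, by simp⟩
  rw [osum_shift hπp (M x)]
  unfold osum
  apply Finset.sum_congr rfl
  intro j _
  rw [← Equiv.Perm.mul_apply, ← pow_succ, pow_succ', Equiv.Perm.mul_apply, hM]

omit [Fintype Ω] [DecidableEq Ω] hp in
lemma beta_left_pow {π : Equiv.Perm Ω} (hπp : π ^ p = 1) {M : Matrix Ω Ω R}
    (hM : ∀ x y, M (π x) (π y) = M x y) (i : ℕ) (x ω : Ω) :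
    osum p π (M ((π ^ i) x)) ω = osum p π (M x) ω := by
  induction i with
  | zero => simp
  | succ i ih => rw [pow_succ', Equiv.Perm.mul_apply, beta_left hπp hM, ih]

omit [Fintype Ω] [DecidableEq Ω] hp in
lemma gamma_eq {π : Equiv.Perm Ω} (hπp : π ^ p = 1) {M : Matrix Ω Ω R}
    (hM : ∀ x y, M (π x) (π y) = M x y) (x ω : Ω) :
    osum p π (fun x' => M x' ω) x = osum p π (M x) ω := by
  rw [← osum_shift hπp (fun x' => M x' ω)]
  unfold osum
  rw [← Finset.sum_range_reflect (fun j => M x ((π ^ j) ω))]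
  apply Finset.sum_congr rfl
  intro j hj
  have hj' := Finset.mem_range.1 hj
  rw [← inv_pow_pow hM (j + 1) x ((π ^ (p - 1 - j)) ω), ← Equiv.Perm.mul_apply (π ^ (j + 1)),
    ← pow_add, show j + 1 + (p - 1 - j) = p by omega, hπp, pow_succ, Equiv.Perm.mul_apply]
  rfl

/-- the block-sum matrix of an invariant matrix has the shape `[[x, y], [y, x]]`. -/
theorem block_sym (C : Cfg p Ω) (M : Matrix Ω Ω R)
    (hM : ∀ g ∈ C.G, ∀ x y, M (g x) (g y) = M x y) (h2 : ∀ r : R, 2 * r = 0 → r = 0)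
    {a1 a2 : Ω} (hI : Indep C.π a1 a2) :
    osum p C.π (M a2) a1 = osum p C.π (M a1) a2 ∧ osum p C.π (M a2) a2 = osum p C.π (M a1) a1 := by
  haveI : MulAction.IsPretransitive C.G Ω := C.prim.toIsPretransitive
  obtain ⟨g, hg⟩ := MulAction.exists_smul_eq C.G a1 a2
  have hg' : (g : Equiv.Perm Ω) a1 = a2 := hg
  have hπM := hM C.π C.mem
  have rows : ∑ y, M a2 y = ∑ y, M a1 y := by
    rw [← hg', ← Equiv.sum_comp (g : Equiv.Perm Ω)]
    simp only [hM g g.2]
  have cols : ∑ x, M x a2 = ∑ x, M x a1 := by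
    rw [← hg', ← Equiv.sum_comp (g : Equiv.Perm Ω)]
    simp only [hM g g.2]
  rw [sum_eq_osum C.pow C.fix C.card hI, sum_eq_osum C.pow C.fix C.card hI] at rows cols
  rw [gamma_eq C.pow hπM, gamma_eq C.pow hπM, gamma_eq C.pow hπM, gamma_eq C.pow hπM] at cols
  have h3 : osum p C.π (M a2) a1 = osum p C.π (M a1) a2 := by
    apply sub_eq_zero.1
    apply h2
    linear_combination rows - cols
  refine ⟨h3, ?_⟩
  linear_combination rows - h3

theorem beta_zero (C : Cfg p Ω) (M : Matrix Ω Ω R)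
    (hM : ∀ g ∈ C.G, ∀ x y, M (g x) (g y) = M x y) (h2 : ∀ r : R, 2 * r = 0 → r = 0)
    {a1 a2 : Ω} (hI : Indep C.π a1 a2) (h11 : osum p C.π (M a1) a1 = 0)
    (h12 : osum p C.π (M a1) a2 = 0) (x ω : Ω) : osum p C.π (M x) ω = 0 := by
  obtain ⟨h21, h22⟩ := block_sym C M hM h2 hI
  have hπM := hM C.π C.mem
  obtain ⟨i, h1 | h1⟩ := cover C.pow C.fix C.card hI x <;>
  obtain ⟨j, h3 | h3⟩ := cover C.pow C.fix C.card hI ω <;>
  rw [h1, h3, osum_pow C.pow, beta_left_pow C.pow hπM]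
  · exact h11
  · exact h12
  · rw [h21]; exact h12
  · rw [h22]; exact h11

end generic

/-- the orbital relation of the pair `(a, b)`. -/
def Rel (G : Subgroup (Equiv.Perm Ω)) (a b x y : Ω) : Prop := ∃ g ∈ G, g a = x ∧ g b = y

omit [Fintype Ω] [DecidableEq Ω] in
lemma rel_smul_iff {G : Subgroup (Equiv.Perm Ω)} {a b x y : Ω} {g : Equiv.Perm Ω} (hg : g ∈ G) :
    Rel G a b (g x) (g y) ↔ Rel G a b x y := by
  constructor
  · rintro ⟨k, hk, h1, h2⟩
    refine ⟨g⁻¹ * k, G.mul_mem (G.inv_mem hg) hk, ?_, ?_⟩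
    · rw [Equiv.Perm.mul_apply, h1]; simp
    · rw [Equiv.Perm.mul_apply, h2]; simp
  · rintro ⟨k, hk, h1, h2⟩
    refine ⟨g * k, G.mul_mem hg hk, ?_, ?_⟩
    · rw [Equiv.Perm.mul_apply, h1]
    · rw [Equiv.Perm.mul_apply, h2]

open Classical in
/-- the orbital matrix. -/
noncomputable def AA (R : Type*) [CommRing R] (G : Subgroup (Equiv.Perm Ω)) (a b : Ω) :
    Matrix Ω Ω R := fun x y => if Rel G a b x y then 1 else 0

omit [Fintype Ω] [DecidableEq Ω] in
lemma AA_inv (R : Type*) [CommRing R] (G : Subgroup (Equiv.Perm Ω)) (a b : Ω) :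
    ∀ g ∈ G, ∀ x y, AA R G a b (g x) (g y) = AA R G a b x y := by
  intro g hg x y
  have := rel_smul_iff (a := a) (b := b) (x := x) (y := y) hg
  unfold AA
  by_cases h : Rel G a b x y
  · rw [if_pos h, if_pos (this.2 h)]
  · rw [if_neg h, if_neg (fun h' => h (this.1 h'))]

/-- **Rank at most three.** -/
theorem rank_le_three (C : Cfg p Ω) (a b1 b2 b3 : Ω) (h1 : b1 ≠ a) (h2 : b2 ≠ a) (h3 : b3 ≠ a)
    (h12 : ¬ Rel C.G a b1 a b2) (h21 : ¬ Rel C.G a b2 a b1) (h13 : ¬ Rel C.G a b1 a b3)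
    (h23 : ¬ Rel C.G a b2 a b3) : False := by
  obtain ⟨a2, hI⟩ := exists_indep hp.out.pos C.pow C.card a
  set A0 := AA (ZMod p) C.G a a
  set A1 := AA (ZMod p) C.G a b1
  set A2 := AA (ZMod p) C.G a b2
  -- a nontrivial solution of two linear equations in three unknowns
  let W : Matrix (Fin 2) (Fin 3) (ZMod p) :=
    !![osum p C.π (A0 a) a, osum p C.π (A1 a) a, osum p C.π (A2 a) a;
       osum p C.π (A0 a) a2, osum p C.π (A1 a) a2, osum p C.π (A2 a) a2]
  have hker : LinearMap.ker (Matrix.mulVecLin W) ≠ ⊥ := by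
    apply LinearMap.ker_ne_bot_of_finrank_lt
    simp
  obtain ⟨c, hc, hc0⟩ := (Submodule.ne_bot_iff _).1 hker
  rw [LinearMap.mem_ker, Matrix.mulVecLin_apply] at hc
  have e1 := congrFun hc 0
  have e2 := congrFun hc 1
  simp only [W, Matrix.mulVec, dotProduct, Fin.sum_univ_three, Matrix.of_apply, Matrix.cons_val',
    Matrix.cons_val_zero, Matrix.cons_val_one, Matrix.cons_val_two, Pi.zero_apply,
    Matrix.cons_val_fin_one, Matrix.head_cons, Matrix.tail_cons] at e1 e2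
  set B : Matrix Ω Ω (ZMod p) := c 0 • A0 + c 1 • A1 + c 2 • A2 with hBdef
  have hB : ∀ g ∈ C.G, ∀ x y, B (g x) (g y) = B x y := by
    intro g hg x y
    simp only [hBdef, Matrix.add_apply, Matrix.smul_apply, A0, A1, A2, AA_inv (ZMod p) C.G _ _ g hg]
  have hosum : ∀ x ω, osum p C.π (B x) ω =
      c 0 * osum p C.π (A0 x) ω + c 1 * osum p C.π (A1 x) ω + c 2 * osum p C.π (A2 x) ω := by
    intro x ω
    simp only [osum, hBdef, Matrix.add_apply, Matrix.smul_apply, smul_eq_mul,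
      Finset.sum_add_distrib, Finset.mul_sum]
  have hk2 : ∀ r : ZMod p, 2 * r = 0 → r = 0 := by
    intro r hr
    rcases mul_eq_zero.1 hr with h | h
    · exact absurd h (two_ne_zero' C)
    · exact h
  have hB0 := beta_zero C B hB hk2 hI (by rw [hosum]; linear_combination e1)
    (by rw [hosum]; linear_combination e2)
  have hconst := inv_matrix_const C B hB hB0
  have hrefl : ∀ b, Rel C.G a b a b := fun b => ⟨1, C.G.one_mem, rfl, rfl⟩
  have hna : ∀ b, b ≠ a → ¬ Rel C.G a a a b := by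
    rintro b hb ⟨g, _, e1, e2⟩
    exact hb (e2.symm.trans e1)
  have hna' : ∀ b, b ≠ a → ¬ Rel C.G a b a a := by
    rintro b hb ⟨g, _, e1, e2⟩
    exact hb (g.injective (e2.trans e1.symm))
  have v3 : B a b3 = 0 := by
    simp [hBdef, A0, A1, A2, AA, hna b3 h3, h13, h23]
  have v0 : B a a = c 0 := by
    simp [hBdef, A0, A1, A2, AA, hrefl a, hna' b1 h1, hna' b2 h2]
  have v1 : B a b1 = c 1 := by
    simp [hBdef, A0, A1, A2, AA, hrefl b1, hna b1 h1, h21]
  have v2 : B a b2 = c 2 := by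
    simp [hBdef, A0, A1, A2, AA, hrefl b2, hna b2 h2, h12]
  apply hc0
  ext i
  fin_cases i
  · simpa using (v0.symm.trans ((hconst a a a b3).trans v3))
  · simpa using (v1.symm.trans ((hconst a b1 a b3).trans v3))
  · simpa using (v2.symm.trans ((hconst a b2 a b3).trans v3))

end Cfsg.Agent.Helper16W2p
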