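import Cfsg.Agent.Lib.Helper16W2pE

set_option autoImplicit false

namespace Cfsg.Agent.Helper16W2p

open Finset Matrix

theorem arith_w2p (p : ℕ) (hp : p.Prime) (k l r s μ n11 n12 f : ℤ)
    (h1 : (k - r) * (k - s) = 2 * p * μ) (h2 : r * s = μ - k)
    (h3 : f * (s - r) = -2 * p * r - (k - r)) (hf0 : 0 < f) (hf1 : f < 2 * p)
    (h4 : s = n11 - n12) (h4' : k = n11 + n12) (hn0 : 0 ≤ n11) (hn1 : n11 ≤ p - 1)
    (h5 : ¬ ((p : ℤ) ∣ k - s)) (hk : 2 ≤ k) (hl : 2 ≤ l) (hkl : k + l = 2 * p - 1) :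
    ∃ a : ℕ, 0 < a ∧ p = 2 * a ^ 2 + 2 * a + 1 ∧
      ((k = a * (2 * a + 1) ∧ l = (a + 1) * (2 * a + 1)) ∨
        (k = (a + 1) * (2 * a + 1) ∧ l = a * (2 * a + 1))) := by
  have hpZ : Prime (p : ℤ) := Nat.prime_iff_prime_int.1 hp
  have hp1 : (1 : ℤ) < p := by exact_mod_cast hp.one_lt
  have d1 : (p : ℤ) ∣ k - r := by
    have : (p : ℤ) ∣ (k - r) * (k - s) := by rw [h1]; exact ⟨2 * μ, by ring⟩
    rcases hpZ.dvd_or_dvd this with h | h
    · exact h
    · exact absurd h h5
  have d2 : ¬ ((p : ℤ) ∣ s - r) := by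
    intro h
    apply h5
    have : k - s = (k - r) - (s - r) := by ring
    rw [this]; exact dvd_sub d1 h
  have d3 : (p : ℤ) ∣ f := by
    have : (p : ℤ) ∣ f * (s - r) := by
      rw [h3]
      exact dvd_sub ⟨-2 * r, by ring⟩ d1
    rcases hpZ.dvd_or_dvd this with h | h
    · exact h
    · exact absurd h d2
  obtain ⟨m, hm⟩ := d3
  have hm1 : m = 1 := by
    have h0 : 0 < m := by
      by_contra hneg
      push Not at hneg
      nlinarith
    have h2' : m < 2 := by
      by_contra hneg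
      push Not at hneg
      nlinarith
    omega
  subst hm1
  rw [mul_one] at hm
  subst hm
  obtain ⟨u, hu⟩ : ∃ u, u = r + s := ⟨_, rfl⟩
  have e1 : k - r = -p * u := by rw [hu]; linear_combination h3
  have e2 : 2 * n11 = -u * (p - 1) := by
    have : k + s = 2 * n11 := by rw [h4, h4']; ring
    rw [← this]
    linear_combination e1 - hu
  have hu0 : u ≤ 0 := by
    by_contra hneg
    push Not at hneg
    nlinarith
  have hu2 : -2 ≤ u := by
    by_contra hneg
    push Not at hneg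
    nlinarith
  have hs : s = u - r := by rw [hu]; ring
  have hk' : k = r - p * u := by linear_combination e1
  have hμ : μ = r * s + k := by linear_combination -h2
  have hp0 : (p : ℤ) ≠ 0 := by omega
  rw [hμ] at h1
  have hcases : u = 0 ∨ u = -1 ∨ u = -2 := by omega
  rcases hcases with rfl | rfl | rfl
  · exfalso
    have e3 : r * (1 - r) = 0 := by
      have : (2 * (p : ℤ)) * (r * (1 - r)) = 0 := by
        rw [hs, hk'] at h1
        linear_combination -h1
      rcases mul_eq_zero.1 this with h | h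
      · omega
      · exact h
    rcases mul_eq_zero.1 e3 with h | h <;> omega
  · have e3 : (p : ℤ) = 2 * r ^ 2 + 2 * r + 1 := by
      have : (p : ℤ) * ((p : ℤ) - (2 * r ^ 2 + 2 * r + 1)) = 0 := by
        rw [hs, hk'] at h1
        linear_combination -h1
      rcases mul_eq_zero.1 this with h | h
      · exact absurd h hp0
      · linarith
    rcases le_or_gt 0 r with hr | hr
    · obtain ⟨a, rfl⟩ := Int.eq_ofNat_of_zero_le hr
      refine ⟨a, ?_, ?_, Or.inr ⟨?_, ?_⟩⟩
      · rcases Nat.eq_zero_or_pos a with h | h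
        · subst h; simp at e3; omega
        · exact h
      · exact_mod_cast e3
      · rw [hk', e3]; ring
      · have : l = 2 * p - 1 - k := by linarith
        rw [this, hk', e3]; ring
    · obtain ⟨a, ha⟩ := Int.eq_ofNat_of_zero_le (show 0 ≤ -r - 1 by omega)
      have hr' : r = -(a : ℤ) - 1 := by omega
      subst hr'
      have e4 : (p : ℤ) = 2 * (a : ℤ) ^ 2 + 2 * a + 1 := by rw [e3]; ring
      refine ⟨a, ?_, ?_, Or.inl ⟨?_, ?_⟩⟩
      · rcases Nat.eq_zero_or_pos a with h | h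
        · subst h; simp at e4; omega
        · exact h
      · exact_mod_cast e4
      · rw [hk', e4]; ring
      · have : l = 2 * p - 1 - k := by linarith
        rw [this, hk', e4]; ring
  · exfalso
    have e3 : (r + 1) * (r + 2) = 0 := by
      have : (2 * (p : ℤ)) * ((r + 1) * (r + 2)) = 0 := by
        rw [hs, hk'] at h1
        linear_combination h1
      rcases mul_eq_zero.1 this with h | h
      · omega
      · exact h
    rcases mul_eq_zero.1 e3 with h | h <;> omega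

variable {Ω : Type*} [Fintype Ω] [DecidableEq Ω] {p : ℕ} [hp : Fact p.Prime]

/-- the trace of an idempotent rational matrix is a natural number, zero only for `0`. -/
lemma idem_trace (E : Matrix Ω Ω ℚ) (hE : E * E = E) : ∃ f : ℕ, E.trace = f ∧ (f = 0 → E = 0) := by
  have hL : IsIdempotentElem (Matrix.toLin' E) := by
    unfold IsIdempotentElem
    rw [Module.End.mul_eq_comp, ← Matrix.toLin'_mul, hE]
  have h1 := (LinearMap.IsIdempotentElem.isProj_range _ hL).trace
  rw [Matrix.trace_toLin'_eq] at h1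
  refine ⟨_, h1, fun h0 => ?_⟩
  have h2 : LinearMap.trace ℚ (Ω → ℚ) (Matrix.toLin' E) = 0 := by
    rw [Matrix.trace_toLin'_eq, h1, h0]; simp
  have h3 := (LinearMap.IsIdempotentElem.trace_eq_zero_iff hL).1 h2
  exact (LinearEquiv.map_eq_zero_iff _).1 h3

omit [Fintype Ω] [DecidableEq Ω] in
lemma indep_ne {π : Equiv.Perm Ω} (hπp : π ^ p = 1) {a1 a2 : Ω} (hI : Indep π a1 a2) (i j : ℕ) :
    (π ^ i) a1 ≠ (π ^ j) a2 := by
  intro h
  apply hI ((p - 1) * j + i)
  rw [pow_add, Equiv.Perm.mul_apply, h, ← Equiv.Perm.mul_apply, ← pow_add]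
  have : (p - 1) * j + j = p * j := by
    have := hp.out.one_le
    obtain ⟨q, rfl⟩ : ∃ q, p = q + 1 := ⟨p - 1, by omega⟩
    simp; ring
  rw [this, pow_mul, hπp, one_pow]; rfl

lemma card_dvd (G : Subgroup (Equiv.Perm Ω)) [MulAction.IsPretransitive G Ω] [Nonempty Ω] :
    Fintype.card Ω ∣ Nat.card G := by
  obtain ⟨a⟩ := ‹Nonempty Ω›
  rw [← Nat.card_eq_fintype_card, ← MulAction.index_stabilizer_of_transitive G a]
  exact Subgroup.index_dvd_card _

/-- In a primitive group of degree `2p` containing a fixed-point-free element of order `p`, a point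
stabiliser fixes no further point. -/
theorem exists_move (G : Subgroup (Equiv.Perm Ω)) (hG : MulAction.IsPreprimitive G Ω)
    {π : Equiv.Perm Ω} (hπ : π ∈ G) (hπp : π ^ p = 1) (hfix : ∀ ω, π ω ≠ ω)
    (hcard : Fintype.card Ω = 2 * p) {a b : Ω} (hab : b ≠ a) : ∃ g ∈ G, g a = a ∧ g b ≠ b := by
  by_contra hcon
  push Not at hcon
  haveI : MulAction.IsPretransitive G Ω := hG.toIsPretransitive
  haveI : Nontrivial Ω := ⟨⟨b, a, hab⟩⟩
  have hco : IsCoatom (MulAction.stabilizer G a) :=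
    (MulAction.isCoatom_stabilizer_iff_preprimitive G a).2 hG
  have hle : MulAction.stabilizer G a ≤ MulAction.stabilizer G b := by
    intro g hg
    rw [MulAction.mem_stabilizer_iff] at hg ⊢
    exact hcon g g.2 hg
  have hbtop : MulAction.stabilizer G b ≠ ⊤ := by
    intro h
    obtain ⟨g, hg⟩ := MulAction.exists_smul_eq G b a
    have : g ∈ MulAction.stabilizer G b := by rw [h]; trivial
    rw [MulAction.mem_stabilizer_iff] at this
    exact hab (this.symm.trans hg)
  have heq : MulAction.stabilizer G b = MulAction.stabilizer G a := by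
    rcases hco.le_iff.1 hle with h | h
    · exact absurd h hbtop
    · exact h
  have hall := prim_rel G hG (fun x y => ∀ g ∈ G, g x = x ↔ g y = y)
    ⟨fun _ _ _ => Iff.rfl, fun h g hg => (h g hg).symm, fun h h' g hg => (h g hg).trans (h' g hg)⟩
    (by
      intro k hk x y h g hg
      have := h (k⁻¹ * g * k) (G.mul_mem (G.mul_mem (G.inv_mem hk) hg) hk)
      simp only [Equiv.Perm.mul_apply, Equiv.Perm.inv_eq_iff_eq] at this
      exact this)
    hab.symm (by
      intro g hg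
      have h1 : (⟨g, hg⟩ : G) ∈ MulAction.stabilizer G a ↔ (⟨g, hg⟩ : G) ∈ MulAction.stabilizer G b := by
        rw [heq]
      simpa [MulAction.mem_stabilizer_iff, Subgroup.smul_def] using h1)
  have hbot : MulAction.stabilizer G a = ⊥ := by
    rw [eq_bot_iff]
    intro g hg
    rw [MulAction.mem_stabilizer_iff] at hg
    rw [Subgroup.mem_bot]
    apply Subtype.ext
    ext x
    exact (hall a x g g.2).1 hg
  rw [hbot] at hco
  have hπ1 : (⟨π, hπ⟩ : G) ≠ 1 := by
    intro h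
    have : π = 1 := congrArg Subtype.val h
    exact hfix a (by rw [this]; rfl)
  have hz : Subgroup.zpowers (⟨π, hπ⟩ : G) = ⊤ := by
    apply hco.2
    rw [bot_lt_iff_ne_bot, Ne, Subgroup.zpowers_eq_bot]
    exact hπ1
  obtain ⟨a2, hI⟩ := exists_indep hp.out.pos hπp hcard a
  obtain ⟨g, hg⟩ := MulAction.exists_smul_eq G a a2
  have hgz : g ∈ Subgroup.zpowers (⟨π, hπ⟩ : G) := by rw [hz]; trivial
  rw [← mem_powers_iff_mem_zpowers] at hgz
  obtain ⟨n, hn⟩ := hgz
  apply hI n
  rw [← hg, ← hn]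
  rfl

/-- rank three data. -/
structure R3 (C : Cfg p Ω) (a b1 b2 : Ω) : Prop where
  h1 : b1 ≠ a
  h2 : b2 ≠ a
  h12 : ¬ Rel C.G a b1 a b2
  all : ∀ b, b = a ∨ Rel C.G a b1 a b ∨ Rel C.G a b2 a b

omit [Fintype Ω] [DecidableEq Ω] in
lemma ne_of_rel {G : Subgroup (Equiv.Perm Ω)} {a b x y : Ω} (h : Rel G a b x y) (hb : b ≠ a) :
    x ≠ y := by
  obtain ⟨g, _, rfl, rfl⟩ := h
  exact fun e => hb (g.injective e).symm

lemma Cfg.trans (C : Cfg p Ω) (x y : Ω) : ∃ g ∈ C.G, g x = y := by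
  haveI : MulAction.IsPretransitive C.G Ω := C.prim.toIsPretransitive
  obtain ⟨g, hg⟩ := MulAction.exists_smul_eq C.G x y
  exact ⟨g, g.2, hg⟩

lemma R3.tri {C : Cfg p Ω} {a b1 b2 : Ω} (h : R3 C a b1 b2) (x y : Ω) :
    x = y ∨ Rel C.G a b1 x y ∨ Rel C.G a b2 x y := by
  obtain ⟨g, hg, rfl⟩ := C.trans a x
  obtain ⟨b, rfl⟩ : ∃ b, y = g b := ⟨g⁻¹ y, by simp⟩
  rcases h.all b with rfl | hb | hb
  · left; rfl
  · right; left; exact (rel_smul_iff hg).2 hb
  · right; right; exact (rel_smul_iff hg).2 hb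

lemma R3.excl {C : Cfg p Ω} {a b1 b2 : Ω} (h : R3 C a b1 b2) {x y : Ω}
    (h1 : Rel C.G a b1 x y) : ¬ Rel C.G a b2 x y := by
  rintro ⟨g', hg', e1, e2⟩
  obtain ⟨g, hg, rfl, rfl⟩ := h1
  apply h.h12
  refine ⟨g'⁻¹ * g, C.G.mul_mem (C.G.inv_mem hg') hg, ?_, ?_⟩
  · rw [Equiv.Perm.mul_apply, ← e1]; simp
  · rw [Equiv.Perm.mul_apply, ← e2]; simp

omit [Fintype Ω] [DecidableEq Ω] in
lemma rel_symm_of {G : Subgroup (Equiv.Perm Ω)} {a b x y : Ω} (h1 : Rel G a b x y)
    (h2 : Rel G a b y x) {u w : Ω} (h : Rel G a b u w) : Rel G a b w u := by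
  obtain ⟨g0, hg0, rfl, rfl⟩ := h1
  obtain ⟨g, hg, rfl, rfl⟩ := h
  have := (rel_smul_iff (G.mul_mem hg (G.inv_mem hg0))).2 h2
  simpa using this

lemma exists_invol (C : Cfg p Ω) : ∃ τ ∈ C.G, τ ≠ 1 ∧ τ * τ = 1 := by
  haveI : MulAction.IsPretransitive C.G Ω := C.prim.toIsPretransitive
  haveI := C.nonempty
  have h2 : 2 ∣ Nat.card C.G := by
    refine Dvd.dvd.trans ?_ (card_dvd C.G)
    rw [C.card]; exact ⟨p, rfl⟩
  obtain ⟨τ, hτ⟩ := exists_prime_orderOf_dvd_card' 2 h2
  refine ⟨τ, τ.2, ?_, ?_⟩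
  · intro h
    have : τ = 1 := Subtype.ext h
    rw [this, orderOf_one] at hτ
    omega
  · have := pow_orderOf_eq_one τ
    rw [hτ, pow_two] at this
    exact congrArg Subtype.val this

lemma R3.symm1 {C : Cfg p Ω} {a b1 b2 : Ω} (h : R3 C a b1 b2) {u w : Ω}
    (huw : Rel C.G a b1 u w) : Rel C.G a b1 w u := by
  obtain ⟨τ, hτ, hτ1, hτ2⟩ := exists_invol C
  obtain ⟨x, hx⟩ : ∃ x, τ x ≠ x := by
    by_contra hcon
    push Not at hcon
    exact hτ1 (Equiv.ext hcon)
  have hττ : τ (τ x) = x := by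
    rw [← Equiv.Perm.mul_apply, hτ2]; rfl
  rcases h.tri x (τ x) with e | e | e
  · exact absurd e.symm hx
  · have e' := (rel_smul_iff hτ).2 e
    rw [hττ] at e'
    exact rel_symm_of e e' huw
  · have e' := (rel_smul_iff hτ).2 e
    rw [hττ] at e'
    rcases h.tri w u with f | f | f
    · exact absurd f.symm (ne_of_rel huw h.h1)
    · exact f
    · exact absurd (rel_symm_of e e' f) (h.excl huw)

end Cfsg.Agent.Helper16W2p
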