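import Cfsg.Agent.Lib.Helper16W2pF

set_option autoImplicit false

namespace Cfsg.Agent.Helper16W2p

open Finset Matrix

variable {Ω : Type*} [Fintype Ω] [DecidableEq Ω] {p : ℕ} [hp : Fact p.Prime]

open Classical in
/-- number of `j < p` with `(x, π^j ω)` in the orbital. -/
noncomputable def nn (p : ℕ) (G : Subgroup (Equiv.Perm Ω)) (π : Equiv.Perm Ω) (a b x ω : Ω) : ℕ :=
  ((range p).filter (fun j => Rel G a b x ((π ^ j) ω))).card

open Classical in
/-- the subdegree. -/
noncomputable def kk (G : Subgroup (Equiv.Perm Ω)) (a b : Ω) : ℕ :=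
  (univ.filter (fun y => Rel G a b a y)).card

/-- the all-ones matrix. -/
def JJ (R : Type*) [CommRing R] : Matrix Ω Ω R := fun _ _ => 1

lemma osum_AA (R : Type*) [CommRing R] (G : Subgroup (Equiv.Perm Ω)) (π : Equiv.Perm Ω)
    (a b x ω : Ω) : osum p π (AA R G a b x) ω = (nn p G π a b x ω : R) := by
  unfold osum AA nn
  rw [Finset.sum_boole]

lemma row_sum_a (R : Type*) [CommRing R] (G : Subgroup (Equiv.Perm Ω)) (a b : Ω) :
    ∑ y, AA R G a b a y = (kk G a b : R) := by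
  unfold AA kk
  rw [Finset.sum_boole]

lemma row_sum (C : Cfg p Ω) (R : Type*) [CommRing R] (a b x : Ω) :
    ∑ y, AA R C.G a b x y = (kk C.G a b : R) := by
  obtain ⟨g, hg, rfl⟩ := C.trans a x
  rw [← row_sum_a, ← Equiv.sum_comp g]
  simp only [AA_inv R C.G a b g hg]

lemma R3.decomp {C : Cfg p Ω} {a b1 b2 : Ω} (h : R3 C a b1 b2) {R : Type*} [CommRing R]
    (M : Matrix Ω Ω R) (hM : ∀ g ∈ C.G, ∀ x y, M (g x) (g y) = M x y) :
    M = (M a a - M a b2) • (1 : Matrix Ω Ω R) + (M a b1 - M a b2) • AA R C.G a b1 +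
      M a b2 • JJ R := by
  ext x y
  simp only [Matrix.add_apply, Matrix.smul_apply, smul_eq_mul, JJ, mul_one]
  rcases h.tri x y with e | e | e
  · subst e
    have h0 : ¬ Rel C.G a b1 x x := fun e => ne_of_rel e h.h1 rfl
    obtain ⟨g, hg, rfl⟩ := C.trans a x
    simp [AA, h0, hM g hg]
  · have hne := ne_of_rel e h.h1
    have e' := e
    obtain ⟨g, hg, rfl, rfl⟩ := e'
    simp [AA, e, hM g hg, Matrix.one_apply_ne hne]
  · have hne := ne_of_rel e h.h2
    have h0 : ¬ Rel C.G a b1 x y := fun e1 => h.excl e1 e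
    obtain ⟨g, hg, rfl, rfl⟩ := e
    simp [AA, h0, hM g hg, Matrix.one_apply_ne hne]

lemma two_le_kk (C : Cfg p Ω) {a b : Ω} (hb : b ≠ a) : 2 ≤ kk C.G a b := by
  classical
  obtain ⟨g, hg, hga, hgb⟩ := exists_move C.G C.prim C.mem C.pow C.fix C.card hb
  unfold kk
  apply Finset.one_lt_card.2
  refine ⟨b, ?_, g b, ?_, hgb.symm⟩
  · simp only [Finset.mem_filter, Finset.mem_univ, true_and]
    exact ⟨1, C.G.one_mem, rfl, rfl⟩
  · simp only [Finset.mem_filter, Finset.mem_univ, true_and]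
    exact ⟨g, hg, hga, rfl⟩

lemma R3.card_eq {C : Cfg p Ω} {a b1 b2 : Ω} (h : R3 C a b1 b2) :
    1 + kk C.G a b1 + kk C.G a b2 = 2 * p := by
  classical
  rw [← C.card, ← Finset.card_univ, Finset.card_eq_sum_ones]
  unfold kk
  rw [Finset.card_filter, Finset.card_filter]
  have : (1 : ℕ) = ∑ y : Ω, if y = a then 1 else 0 := by simp
  rw [this, ← Finset.sum_add_distrib, ← Finset.sum_add_distrib]
  apply Finset.sum_congr rfl
  intro y _
  rcases h.tri a y with e | e | e
  · subst e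
    have h1 : ¬ Rel C.G a b1 a a := fun e => ne_of_rel e h.h1 rfl
    have h2 : ¬ Rel C.G a b2 a a := fun e => ne_of_rel e h.h2 rfl
    simp [h1, h2]
  · have hne := ne_of_rel e h.h1
    simp [e, h.excl e, hne.symm]
  · have hne := ne_of_rel e h.h2
    have h0 : ¬ Rel C.G a b1 a y := fun e1 => h.excl e1 e
    simp [e, h0, hne.symm]

end Cfsg.Agent.Helper16W2p
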