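import Cfsg.Agent.Lib.Helper16W2pG

set_option autoImplicit false

namespace Cfsg.Agent.Helper16W2p

open Finset Matrix

variable {Ω : Type*} [Fintype Ω] [DecidableEq Ω] {p : ℕ} [hp : Fact p.Prime]

lemma osum_one_self (C : Cfg p Ω) (R : Type*) [CommRing R] (a : Ω) :
    osum p C.π ((1 : Matrix Ω Ω R) a) a = 1 := by
  unfold osum
  rw [Finset.sum_eq_single 0]
  · exact Matrix.one_apply_eq a
  · intro j hj hj0
    apply Matrix.one_apply_ne
    intro e
    apply hj0
    exact (pow_inj C.pow C.fix hp.out.pos (Finset.mem_range.1 hj) (ω := a) (by simpa using e)).symm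
  · intro h
    exact absurd (Finset.mem_range.2 hp.out.pos) h

lemma osum_one_other (C : Cfg p Ω) (R : Type*) [CommRing R] {a a2 : Ω} (hI : Indep C.π a a2) :
    osum p C.π ((1 : Matrix Ω Ω R) a) a2 = 0 := by
  unfold osum
  apply Finset.sum_eq_zero
  intro j _
  apply Matrix.one_apply_ne
  have := indep_ne C.pow hI 0 j
  simpa using this

/-- `p` does not divide `2 * n12`. -/
lemma R3.not_dvd {C : Cfg p Ω} {a b1 b2 : Ω} (h : R3 C a b1 b2) {a2 : Ω} (hI : Indep C.π a a2)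
    (hk : kk C.G a b1 = nn p C.G C.π a b1 a a + nn p C.G C.π a b1 a a2) :
    ¬ (p ∣ nn p C.G C.π a b1 a a2) := by
  intro hd
  have hz12 : ((nn p C.G C.π a b1 a a2 : ℕ) : ZMod p) = 0 := (ZMod.natCast_eq_zero_iff _ _).2 hd
  obtain ⟨B, hBdef⟩ : ∃ B : Matrix Ω Ω (ZMod p),
      B = AA (ZMod p) C.G a b1 - (kk C.G a b1 : ZMod p) • (1 : Matrix Ω Ω (ZMod p)) := ⟨_, rfl⟩
  have hB : ∀ g ∈ C.G, ∀ x y, B (g x) (g y) = B x y := by
    intro g hg x y
    simp only [hBdef, Matrix.sub_apply, Matrix.smul_apply, AA_inv (ZMod p) C.G _ _ g hg,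
      Matrix.one_apply, g.injective.eq_iff]
  have hosum : ∀ ω, osum p C.π (B a) ω = osum p C.π (AA (ZMod p) C.G a b1 a) ω -
      (kk C.G a b1 : ZMod p) * osum p C.π ((1 : Matrix Ω Ω (ZMod p)) a) ω := by
    intro ω
    simp only [osum, hBdef, Matrix.sub_apply, Matrix.smul_apply, smul_eq_mul,
      Finset.sum_sub_distrib, Finset.mul_sum]
  have hk2 : ∀ r : ZMod p, 2 * r = 0 → r = 0 := by
    intro r hr
    rcases mul_eq_zero.1 hr with h | h
    · exact absurd h (two_ne_zero' C)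
    · exact h
  have h11 : osum p C.π (B a) a = 0 := by
    rw [hosum, osum_AA, osum_one_self, hk]
    push_cast
    rw [hz12]; ring
  have h12 : osum p C.π (B a) a2 = 0 := by
    rw [hosum, osum_AA, osum_one_other C _ hI, hz12]; ring
  have hc := inv_matrix_const C B hB (beta_zero C B hB hk2 hI h11 h12) a b1 a b2
  have r1 : Rel C.G a b1 a b1 := ⟨1, C.G.one_mem, rfl, rfl⟩
  simp [hBdef, AA, r1, h.h12, Matrix.one_apply_ne h.h1.symm, Matrix.one_apply_ne h.h2.symm] at hc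

open Classical in
/-- the sign vector of the two `π`-orbits. -/
noncomputable def vv (π : Equiv.Perm Ω) (a : Ω) : Ω → ℚ :=
  fun ω => if ∃ j : ℕ, ω = (π ^ j) a then 1 else -1

lemma vv_one (π : Equiv.Perm Ω) (a : Ω) (j : ℕ) : vv π a ((π ^ j) a) = 1 := by
  unfold vv
  rw [if_pos ⟨j, rfl⟩]

lemma vv_neg (C : Cfg p Ω) {a a2 : Ω} (hI : Indep C.π a a2) (j : ℕ) :
    vv C.π a ((C.π ^ j) a2) = -1 := by
  unfold vv
  rw [if_neg]
  rintro ⟨i, hi⟩
  exact indep_ne C.pow hI i j hi.symm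

end Cfsg.Agent.Helper16W2p
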