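import Cfsg.Agent.Lib.Helper16W2pH

set_option autoImplicit false

namespace Cfsg.Agent.Helper16W2p

open Finset Matrix

variable {Ω : Type*} [Fintype Ω] [DecidableEq Ω] {p : ℕ} [hp : Fact p.Prime]

theorem rank_three_params (C : Cfg p Ω) {a b1 b2 : Ω} (h : R3 C a b1 b2) :
    ∃ n : ℕ, 0 < n ∧ p = 2 * n ^ 2 + 2 * n + 1 ∧
      ((kk C.G a b1 = n * (2 * n + 1) ∧ kk C.G a b2 = (n + 1) * (2 * n + 1)) ∨
        (kk C.G a b1 = (n + 1) * (2 * n + 1) ∧ kk C.G a b2 = n * (2 * n + 1))) := by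
  obtain ⟨a2, hI⟩ := exists_indep hp.out.pos C.pow C.card a
  obtain ⟨A, hA⟩ : ∃ A : Matrix Ω Ω ℚ, A = AA ℚ C.G a b1 := ⟨_, rfl⟩
  obtain ⟨J, hJ⟩ : ∃ J : Matrix Ω Ω ℚ, J = JJ ℚ := ⟨_, rfl⟩
  obtain ⟨k, hk⟩ : ∃ k : ℕ, k = kk C.G a b1 := ⟨_, rfl⟩
  obtain ⟨l, hl⟩ : ∃ l : ℕ, l = kk C.G a b2 := ⟨_, rfl⟩
  obtain ⟨n11, hn11⟩ : ∃ n : ℕ, n = nn p C.G C.π a b1 a a := ⟨_, rfl⟩
  obtain ⟨n12, hn12⟩ : ∃ n : ℕ, n = nn p C.G C.π a b1 a a2 := ⟨_, rfl⟩
  have hAinv : ∀ g ∈ C.G, ∀ x y, A (g x) (g y) = A x y := by rw [hA]; exact AA_inv ℚ C.G a b1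
  have hAsq : ∀ x y, A x y * A x y = A x y := by
    intro x y; rw [hA]; unfold AA; split_ifs <;> simp
  have hAsymm : ∀ x y, A x y = A y x := by
    intro x y; rw [hA]; unfold AA
    by_cases e : Rel C.G a b1 x y
    · rw [if_pos e, if_pos (h.symm1 e)]
    · rw [if_neg e, if_neg (fun e' => e (h.symm1 e'))]
  have hAdiag : ∀ x, A x x = 0 := by
    intro x; rw [hA]; unfold AA
    rw [if_neg (fun e => ne_of_rel e h.h1 rfl)]
  have hrow : ∀ x, ∑ y, A x y = k := by
    intro x; rw [hA, hk]; exact row_sum C ℚ a b1 x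
  have hcol : ∀ y, ∑ x, A x y = k := by
    intro y; rw [← hrow y]; exact Finset.sum_congr rfl (fun x _ => hAsymm x y)
  have ho11 : osum p C.π (A a) a = n11 := by rw [hA, hn11]; exact osum_AA ℚ _ _ _ _ _ _
  have ho12 : osum p C.π (A a) a2 = n12 := by rw [hA, hn12]; exact osum_AA ℚ _ _ _ _ _ _
  have hQ2 : ∀ r : ℚ, 2 * r = 0 → r = 0 := by intro r hr; linarith
  obtain ⟨ho21, ho22⟩ := block_sym C A hAinv hQ2 hI
  rw [ho12] at ho21
  rw [ho11] at ho22
  have hk12 : (k : ℚ) = n11 + n12 := by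
    rw [← hrow a, sum_eq_osum C.pow C.fix C.card hI, ho11, ho12]
  have hkN : k = n11 + n12 := by exact_mod_cast hk12
  have hnd : ¬ (p ∣ n12) := by
    rw [hn12]; apply h.not_dvd hI; rw [← hk, ← hn11, ← hn12]; exact hkN
  have hn11le : n11 + 1 ≤ p := by
    classical
    rw [hn11]; unfold nn
    have hsub : ((range p).filter fun j => Rel C.G a b1 a ((C.π ^ j) a)) ⊆ (range p).erase 0 := by
      intro j hj
      rw [Finset.mem_filter] at hj
      rw [Finset.mem_erase]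
      refine ⟨?_, hj.1⟩
      rintro rfl
      exact ne_of_rel hj.2 h.h1 (by simp)
    have := Finset.card_le_card hsub
    rw [Finset.card_erase_of_mem (Finset.mem_range.2 hp.out.pos), Finset.card_range] at this
    have hp1 := hp.out.pos
    convert Nat.succ_le_succ this using 1
    omega
  -- the eigenvector
  obtain ⟨v, hv⟩ : ∃ v : Ω → ℚ, v = vv C.π a := ⟨_, rfl⟩
  have hv1 : ∀ j, v ((C.π ^ j) a) = 1 := by rw [hv]; exact vv_one C.π a
  have hv2 : ∀ j, v ((C.π ^ j) a2) = -1 := by rw [hv]; exact vv_neg C hI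
  have hva : v a = 1 := by simpa using hv1 0
  obtain ⟨s, hs⟩ : ∃ s : ℤ, s = (n11 : ℤ) - n12 := ⟨_, rfl⟩
  have hsQ : (s : ℚ) = n11 - n12 := by rw [hs]; push_cast; ring
  have hπA := hAinv C.π C.mem
  have hAv : A *ᵥ v = (s : ℚ) • v := by
    ext x
    simp only [Matrix.mulVec, dotProduct, Pi.smul_apply, smul_eq_mul]
    rw [sum_eq_osum C.pow C.fix C.card hI]
    have e1 : osum p C.π (fun y => A x y * v y) a = osum p C.π (A x) a := by
      unfold osum; simp only [hv1, mul_one]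
    have e2 : osum p C.π (fun y => A x y * v y) a2 = - osum p C.π (A x) a2 := by
      unfold osum; simp only [hv2, mul_neg, mul_one, Finset.sum_neg_distrib]
    rw [e1, e2]
    obtain ⟨i, hx | hx⟩ := cover C.pow C.fix C.card hI x
    · rw [hx, beta_left_pow C.pow hπA, beta_left_pow C.pow hπA, ho11, ho12, hv1, hsQ]; ring
    · rw [hx, beta_left_pow C.pow hπA, beta_left_pow C.pow hπA, ho21, ho22, hv2, hsQ]; ring
  have hJv : J *ᵥ v = 0 := by
    ext x
    simp only [Matrix.mulVec, dotProduct, hJ, JJ, one_mul, Pi.zero_apply]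
    rw [sum_eq_osum C.pow C.fix C.card hI]
    unfold osum
    simp only [hv1, hv2]
    simp
  -- the quadratic relation
  have hAAinv : ∀ g ∈ C.G, ∀ x y, (A * A) (g x) (g y) = (A * A) x y := by
    intro g hg x y
    simp only [Matrix.mul_apply]
    rw [← Equiv.sum_comp g]
    simp only [hAinv g hg]
  have hnat : ∀ x y, ∃ n : ℕ, (A * A) x y = n := by
    classical
    intro x y
    refine ⟨∑ z, (if Rel C.G a b1 x z then 1 else 0) * (if Rel C.G a b1 z y then 1 else 0), ?_⟩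
    rw [hA]
    simp only [Matrix.mul_apply, AA]
    push_cast
    rfl
  obtain ⟨lam, hlam⟩ := hnat a b1
  obtain ⟨mu, hmu⟩ := hnat a b2
  have hdiag : (A * A) a a = k := by
    rw [← hrow a, Matrix.mul_apply]
    apply Finset.sum_congr rfl
    intro z _
    rw [hAsymm z a, hAsq]
  have hAA : A * A = ((k : ℚ) - mu) • (1 : Matrix Ω Ω ℚ) + ((lam : ℚ) - mu) • A + (mu : ℚ) • J := by
    have := h.decomp (A * A) hAAinv
    rw [hdiag, hlam, hmu, ← hA, ← hJ] at this
    exact this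
  obtain ⟨r, hr⟩ : ∃ r : ℤ, r = (lam : ℤ) - mu - s := ⟨_, rfl⟩
  have hrQ : (r : ℚ) = lam - mu - s := by rw [hr]; push_cast; ring
  -- relation from `v`
  have e2Q : (r : ℚ) * s = mu - k := by
    have e := congrArg (fun M => (M *ᵥ v) a) hAA
    simp only [← Matrix.mulVec_mulVec, Matrix.add_mulVec, Matrix.smul_mulVec, Matrix.one_mulVec,
      hAv, hJv, Matrix.mulVec_smul, Pi.add_apply, Pi.smul_apply, smul_eq_mul, hva, mul_one,
      Pi.zero_apply, mul_zero, add_zero] at e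
    rw [hrQ]
    linear_combination -e
  have hcardQ : ((Fintype.card Ω : ℕ) : ℚ) = 2 * p := by rw [C.card]; push_cast; ring
  have e1Q : ((k : ℚ) - r) * (k - s) = 2 * p * mu := by
    have e := congrArg (fun M => ∑ y, M a y) hAA
    simp only [Matrix.mul_apply, Matrix.add_apply, Matrix.smul_apply, smul_eq_mul,
      Finset.sum_add_distrib, ← Finset.mul_sum, hrow] at e
    rw [Finset.sum_comm] at e
    simp only [← Finset.mul_sum, hrow, ← Finset.sum_mul] at e
    have e3 : ∑ y, (1 : Matrix Ω Ω ℚ) a y = 1 := by simp [Matrix.one_apply]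
    have e4 : ∑ y, J a y = 2 * p := by
      rw [hJ]; simp only [JJ, Finset.sum_const, Finset.card_univ, nsmul_eq_mul, mul_one, hcardQ]
    rw [e3, e4] at e
    rw [hrQ] at e2Q ⊢
    linear_combination e + e2Q
  -- integer versions
  have e1Z : ((k : ℤ) - r) * (k - s) = 2 * p * mu := by exact_mod_cast e1Q
  have e2Z : r * s = (mu : ℤ) - k := by exact_mod_cast e2Q
  have hks : (k : ℤ) - s = 2 * n12 := by rw [hs, hkN]; push_cast; ring
  have h5 : ¬ ((p : ℤ) ∣ (k : ℤ) - s) := by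
    rw [hks]
    intro hd
    have : p ∣ 2 * n12 := by exact_mod_cast hd
    rcases (Nat.Prime.dvd_mul hp.out).1 this with h' | h'
    · exact C.odd ((Nat.prime_dvd_prime_iff_eq hp.out Nat.prime_two).1 h')
    · exact hnd h'
  have hpZ : Prime (p : ℤ) := Nat.prime_iff_prime_int.1 hp.out
  have d1 : (p : ℤ) ∣ (k : ℤ) - r := by
    have : (p : ℤ) ∣ ((k : ℤ) - r) * (k - s) := by rw [e1Z]; exact ⟨2 * mu, by ring⟩
    rcases hpZ.dvd_or_dvd this with h' | h'
    · exact h'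
    · exact absurd h' h5
  have hsr : s ≠ r := by
    intro e; apply h5; rw [e]; exact d1
  have hsrQ : (s : ℚ) - r ≠ 0 := by
    intro e
    apply hsr
    have : (s : ℚ) = r := by linarith
    exact_mod_cast this
  have hpQ : (p : ℚ) ≠ 0 := by exact_mod_cast hp.out.ne_zero
  obtain ⟨κ, hκ⟩ : ∃ κ : ℚ, κ = ((k : ℚ) - r) / (2 * p) := ⟨_, rfl⟩
  have hκ' : κ * (2 * p) = k - r := by rw [hκ]; field_simp
  obtain ⟨N, hN⟩ : ∃ N : Matrix Ω Ω ℚ, N = A - (r : ℚ) • (1 : Matrix Ω Ω ℚ) - κ • J := ⟨_, rfl⟩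
  have hAJ : A * J = (k : ℚ) • J := by
    ext x y; simp [Matrix.mul_apply, hJ, JJ, hrow]
  have hJA : J * A = (k : ℚ) • J := by
    ext x y; simp [Matrix.mul_apply, hJ, JJ, hcol]
  have hJJ : J * J = (2 * p : ℚ) • J := by
    ext x y; simp [Matrix.mul_apply, hJ, JJ, hcardQ]
  have hμκ : (mu : ℚ) = κ * (k - s) := by
    have h0 : (2 * p : ℚ) * (mu - κ * (k - s)) = 0 := by
      linear_combination -e1Q - (k - s) * hκ'
    rcases mul_eq_zero.1 h0 with h' | h'
    · exfalso; apply hpQ; linarith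
    · linarith
  have hNN : N * N = ((s : ℚ) - r) • N := by
    have expand : N * N = A * A - (2 * (r : ℚ)) • A + ((r : ℚ) ^ 2) • (1 : Matrix Ω Ω ℚ)
        - κ • (A * J) - κ • (J * A) + (2 * r * κ) • J + (κ ^ 2) • (J * J) := by
      rw [hN]
      simp only [sub_mul, mul_sub, smul_mul_assoc, mul_smul_comm, one_mul, mul_one, smul_sub,
        smul_smul]
      module
    have c0 : (k : ℚ) - mu + r ^ 2 = -((s - r) * r) := by linear_combination e2Q
    have cA : (lam : ℚ) - mu - 2 * r = s - r := by rw [hrQ]; ring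
    have cJ : (mu : ℚ) - 2 * κ * k + 2 * r * κ + κ ^ 2 * (2 * p) = -((s - r) * κ) := by
      linear_combination hμκ + κ * hκ'
    have step : N * N = ((k : ℚ) - mu + r ^ 2) • (1 : Matrix Ω Ω ℚ) + ((lam : ℚ) - mu - 2 * r) • A
        + ((mu : ℚ) - 2 * κ * k + 2 * r * κ + κ ^ 2 * (2 * p)) • J := by
      rw [expand, hAA, hAJ, hJA, hJJ]
      module
    rw [step, c0, cA, cJ, hN]
    module
  have r1 : Rel C.G a b1 a b1 := ⟨1, C.G.one_mem, rfl, rfl⟩
  have hNscalar : ∀ c : ℚ, N ≠ c • (1 : Matrix Ω Ω ℚ) := by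
    intro c e
    have f1 := congrFun (congrFun e a) b1
    have f2 := congrFun (congrFun e a) b2
    simp [hN, hA, hJ, JJ, AA, r1, h.h12, Matrix.one_apply_ne h.h1.symm,
      Matrix.one_apply_ne h.h2.symm] at f1 f2
    rw [f2] at f1
    norm_num at f1
  obtain ⟨E, hE⟩ : ∃ E : Matrix Ω Ω ℚ, E = ((s : ℚ) - r)⁻¹ • N := ⟨_, rfl⟩
  have hNE : N = ((s : ℚ) - r) • E := by
    rw [hE, smul_smul, mul_inv_cancel₀ hsrQ, one_smul]
  have hEE : E * E = E := by
    rw [hE, smul_mul_assoc, mul_smul_comm, hNN, smul_smul, smul_smul]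
    congr 1
    field_simp
  have hEE' : (1 - E) * (1 - E) = 1 - E := by
    rw [sub_mul, mul_sub, mul_sub, hEE]; simp
  have htrN : N.trace = -2 * p * r - (k - r) := by
    have t1 : A.trace = 0 := by simp [Matrix.trace, hAdiag]
    have t2 : J.trace = 2 * p := by
      simp [Matrix.trace, hJ, JJ, hcardQ]
    rw [hN, Matrix.trace_sub, Matrix.trace_sub, Matrix.trace_smul, Matrix.trace_smul,
      Matrix.trace_one, t1, t2, hcardQ]
    simp only [smul_eq_mul]
    linear_combination -hκ'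
  obtain ⟨f, hf, hf0⟩ := idem_trace E hEE
  obtain ⟨f', hf', hf0'⟩ := idem_trace (1 - E) hEE'
  have hfpos : 0 < f := by
    rcases Nat.eq_zero_or_pos f with e | e
    · exfalso
      apply hNscalar 0
      rw [hNE, hf0 e]; simp
    · exact e
  have hfpos' : 0 < f' := by
    rcases Nat.eq_zero_or_pos f' with e | e
    · exfalso
      apply hNscalar ((s : ℚ) - r)
      have : E = 1 := (sub_eq_zero.1 (hf0' e)).symm
      rw [hNE, this]
    · exact e
  have hff' : (f : ℚ) + f' = 2 * p := by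
    rw [← hf, ← hf', Matrix.trace_sub, Matrix.trace_one, hcardQ]; ring
  have hff'N : f + f' = 2 * p := by exact_mod_cast hff'
  have e3Q : (f : ℚ) * (s - r) = -2 * p * r - (k - r) := by
    rw [← hf, ← htrN, hNE, Matrix.trace_smul, smul_eq_mul]; ring
  have e3Z : (f : ℤ) * (s - r) = -2 * p * r - (k - r) := by exact_mod_cast e3Q
  have hcard := h.card_eq
  rw [← hk, ← hl] at hcard
  have hk2 : 2 ≤ k := by rw [hk]; exact two_le_kk C h.h1
  have hl2 : 2 ≤ l := by rw [hl]; exact two_le_kk C h.h2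
  obtain ⟨n, hn0, hn1, hn2⟩ := arith_w2p p hp.out k l r s mu n11 n12 f e1Z e2Z e3Z
    (by exact_mod_cast hfpos) (by omega) hs (by exact_mod_cast hkN) (by omega) (by omega) h5
    (by exact_mod_cast hk2) (by exact_mod_cast hl2) (by omega)
  refine ⟨n, hn0, hn1, ?_⟩
  rw [← hk, ← hl]
  rcases hn2 with ⟨g1, g2⟩ | ⟨g1, g2⟩
  · left; exact ⟨by exact_mod_cast g1, by exact_mod_cast g2⟩
  · right; exact ⟨by exact_mod_cast g1, by exact_mod_cast g2⟩

end Cfsg.Agent.Helper16W2p
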