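import Cfsg.Agent.Lib.Helper17AschTens

set_option autoImplicit false

/-! PIECE `wreath2` of ASCH-GEN: tensor powers of the plane carry a form. -/

namespace Cfsg.Agent.Lib.Helper17AschWreath2

open Cfsg Cfsg.Geo Matrix
open Cfsg.Agent.Lib.Helper17AschTens
open scoped MatrixGroups

variable {F : Type*} [Field F]

section gram
variable {κ : Type} [Fintype κ] [DecidableEq κ]

/-- the bilinear form with Gram matrix `M` -/
def fM (M : Matrix κ κ F) (x y : κ → F) : F := x ⬝ᵥ (M *ᵥ y)

lemma fM_bilinear (M : Matrix κ κ F) : IsBilinearForm (fM M) where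
  add_left x y v := by simp [fM, add_dotProduct]
  smul_left c x v := by simp [fM, smul_dotProduct]
  add_right v x y := by simp [fM, mulVec_add, dotProduct_add]
  smul_right c v x := by simp [fM, mulVec_smul, dotProduct_smul]

lemma fM_nondeg (M M' : Matrix κ κ F) (h1 : M' * M = 1) (h2 : M * M' = 1) :
    IsNondegenerateForm (fM M) := by
  intro v hv
  constructor
  · by_contra hcon
    push Not at hcon
    have h0 : M *ᵥ v = 0 := by
      funext i
      have := hcon (Pi.single i 1)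
      simpa [fM] using this
    apply hv
    have : M' *ᵥ (M *ᵥ v) = v := by rw [mulVec_mulVec, h1, one_mulVec]
    rw [← this, h0, mulVec_zero]
  · by_contra hcon
    push Not at hcon
    have h0 : v ᵥ* M = 0 := by
      funext i
      have := hcon (Pi.single i 1)
      rw [fM, dotProduct_mulVec] at this
      simpa using this
    apply hv
    have : (v ᵥ* M) ᵥ* M' = v := by rw [vecMul_vecMul, h2, vecMul_one]
    rw [← this, h0, zero_vecMul]

lemma fM_conj (M g : Matrix κ κ F) (x y : κ → F) :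
    fM M (g *ᵥ x) (g *ᵥ y) = fM (gᵀ * M * g) x y := by
  simp only [fM]
  rw [← vecMul_transpose, ← dotProduct_mulVec, mulVec_mulVec, mulVec_mulVec, Matrix.mul_assoc]

lemma fM_smul (c : F) (M : Matrix κ κ F) (x y : κ → F) : fM (c • M) x y = c * fM M x y := by
  simp [fM, smul_mulVec, dotProduct_smul]

lemma fM_swap (M : Matrix κ κ F) (x y : κ → F) : fM M x y = fM Mᵀ y x := by
  simp only [fM]
  rw [mulVec_transpose, dotProduct_mulVec, dotProduct_comm]

lemma fM_alt (M : Matrix κ κ F) (h1 : ∀ a b, M b a = - M a b) (h0 : ∀ a, M a a = 0) (x : κ → F) :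
    fM M x x = 0 := by
  have : fM M x x = ∑ p : κ × κ, x p.1 * M p.1 p.2 * x p.2 := by
    simp only [fM, dotProduct, mulVec, Finset.mul_sum]
    rw [← Finset.univ_product_univ, Finset.sum_product]
    simp [mul_assoc]
  rw [this]
  refine Finset.sum_involution (fun p _ => (p.2, p.1)) ?_ ?_ (fun _ _ => Finset.mem_univ _) ?_
  · rintro ⟨a, b⟩ _
    simp only
    rw [h1 a b]
    ring
  · rintro ⟨a, b⟩ _ hne heq
    simp only [Prod.mk.injEq] at heq
    obtain ⟨rfl, -⟩ := heq
    simp [h0] at hne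
  · rintro ⟨a, b⟩ _
    rfl

end gram

/-! ### transport of forms -/
section transport
variable {ι κ : Type} [Fintype ι] [DecidableEq ι] [Fintype κ] [DecidableEq κ]

lemma bilinear_transport {f₀ : (κ → F) → (κ → F) → F} (h : IsBilinearForm f₀)
    (T : (ι → F) → (κ → F)) (hadd : ∀ u v, T (u + v) = T u + T v)
    (hsmul : ∀ (c : F) u, T (c • u) = c • T u) :
    IsBilinearForm (fun u w => f₀ (T u) (T w)) where
  add_left x y v := by simp only [hadd, h.add_left]
  smul_left c x v := by simp only [hsmul, h.smul_left]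
  add_right v x y := by simp only [hadd, h.add_right]
  smul_right c v x := by simp only [hsmul, h.smul_right]

lemma nondeg_transport {f₀ : (κ → F) → (κ → F) → F} (h : IsNondegenerateForm f₀)
    (T : (ι → F) → (κ → F)) (hinj : ∀ v, v ≠ 0 → T v ≠ 0) (hsurj : Function.Surjective T) :
    IsNondegenerateForm (fun u w => f₀ (T u) (T w)) := by
  intro v hv
  obtain ⟨⟨x, hx⟩, ⟨y, hy⟩⟩ := h (T v) (hinj v hv)
  obtain ⟨x', rfl⟩ := hsurj x
  obtain ⟨y', rfl⟩ := hsurj y
  exact ⟨⟨x', hx⟩, ⟨y', hy⟩⟩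

end transport

/-! ### the tensor power of the determinant form -/

/-- the determinant form on the plane -/
def J2 : Matrix (Fin 2) (Fin 2) F := !![0, 1; -1, 0]

lemma J2_conj (g : Matrix (Fin 2) (Fin 2) F) : gᵀ * J2 * g = g.det • J2 := by
  ext i j
  fin_cases i <;> fin_cases j <;>
    simp [J2, Matrix.mul_apply, Fin.sum_univ_two, Matrix.det_fin_two] <;> ring

lemma J2_sq : (J2 : Matrix (Fin 2) (Fin 2) F) * J2 = (-1 : F) • 1 := by
  ext i j
  fin_cases i <;> fin_cases j <;> simp [J2, Matrix.mul_apply, Fin.sum_univ_two]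

lemma J2_transpose : (J2 : Matrix (Fin 2) (Fin 2) F)ᵀ = (-1 : F) • J2 := by
  ext i j
  fin_cases i <;> fin_cases j <;> simp [J2]

lemma J2_diag (a : Fin 2) : (J2 : Matrix (Fin 2) (Fin 2) F) a a = 0 := by
  fin_cases a <;> simp [J2]

variable (F) in
/-- the Gram matrix of the tensor power of the determinant form -/
def JJ (k : ℕ) : Matrix (Fin k → Fin 2) (Fin k → Fin 2) F := pt (fun _ => J2)

lemma JJ_sq (k : ℕ) : JJ F k * JJ F k = ((-1 : F) ^ k) • 1 := by
  rw [JJ, pt_mul]
  simp only [J2_sq]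
  rw [pt_smul, pt_one]
  simp

lemma JJ_transpose (k : ℕ) : (JJ F k)ᵀ = ((-1 : F) ^ k) • JJ F k := by
  rw [JJ, pt_transpose]
  simp only [J2_transpose]
  rw [pt_smul]
  simp

lemma JJ_diag {k : ℕ} (hk : 0 < k) (a : Fin k → Fin 2) : JJ F k a a = 0 := by
  rw [JJ, pt_apply]
  exact Finset.prod_eq_zero (Finset.mem_univ (⟨0, hk⟩ : Fin k)) (J2_diag _)

lemma JJ_pure {k : ℕ} (gs : Fin k → Matrix (Fin 2) (Fin 2) F) :
    (pt gs)ᵀ * JJ F k * pt gs = (∏ i, (gs i).det) • JJ F k := by
  rw [JJ, pt_transpose, pt_mul, pt_mul]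
  simp only [J2_conj]
  rw [pt_smul]

lemma JJ_perm {k : ℕ} (σ : Equiv.Perm (Fin k)) (a b : Fin k → Fin 2) :
    JJ F k (a ∘ σ) (b ∘ σ) = JJ F k a b := by
  simp only [JJ, pt_apply, Function.comp]
  exact Equiv.prod_comp σ (fun i => (J2 : Matrix (Fin 2) (Fin 2) F) (a i) (b i))

lemma fM_JJ_perm {k : ℕ} (σ : Equiv.Perm (Fin k)) (u w : (Fin k → Fin 2) → F) :
    fM (JJ F k) (pm σ *ᵥ u) (pm σ *ᵥ w) = fM (JJ F k) u w := by
  let E : (Fin k → Fin 2) ≃ (Fin k → Fin 2) := σ.symm.arrowCongr (Equiv.refl _)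
  have hE : ∀ a, E a = a ∘ σ := fun a => rfl
  have h1 : fM (JJ F k) (pm σ *ᵥ u) (pm σ *ᵥ w) =
      ∑ a, u (E a) * ∑ b, JJ F k (E a) (E b) * w (E b) := by
    simp only [fM, dotProduct, mulVec, hE, JJ_perm]
    refine Finset.sum_congr rfl fun a _ => ?_
    have := pm_mulVec σ u a
    simp only [mulVec, dotProduct] at this
    rw [this]
    congr 1
    refine Finset.sum_congr rfl fun b _ => ?_
    have := pm_mulVec σ w b
    simp only [mulVec, dotProduct] at this
    rw [this]
  rw [h1, Equiv.sum_comp E (fun a => u a * ∑ b, JJ F k a (E b) * w (E b))]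
  simp only [fM, dotProduct, mulVec]
  refine Finset.sum_congr rfl fun a _ => ?_
  rw [Equiv.sum_comp E (fun b => JJ F k a b * w b)]

lemma standard_le (k : ℕ) : tensorWreathStandard 2 k F ≤ similarityGroup (fM (JJ F k)) := by
  rw [tensorWreathStandard, Subgroup.closure_le]
  rintro g (⟨gs, hg⟩ | ⟨σ, hg⟩)
  · have hg' : (g : Matrix (Fin k → Fin 2) (Fin k → Fin 2) F) =
        pt (fun i => (gs i : Matrix (Fin 2) (Fin 2) F)) := by
      ext x y
      exact hg x y
    refine ⟨∏ i, Matrix.GeneralLinearGroup.det (gs i), fun u v => ?_⟩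
    rw [fM_conj, hg', JJ_pure, fM_smul]
    simp
  · have hg' : (g : Matrix (Fin k → Fin 2) (Fin k → Fin 2) F) = pm σ := by
      ext x y
      exact hg x y
    refine ⟨1, fun u v => ?_⟩
    rw [hg', fM_JJ_perm]
    simp

/-! ### transport to `F^ι` -/
section final
variable {ι : Type} [Fintype ι] [DecidableEq ι] {k : ℕ}

/-- coordinates with respect to the tensor basis -/
def TT (e : ι ≃ (Fin k → Fin 2)) (P : GL ι F) (u : ι → F) : (Fin k → Fin 2) → F :=
  (((P⁻¹ : GL ι F) : Matrix ι ι F) *ᵥ u) ∘ e.symm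

lemma TT_add (e : ι ≃ (Fin k → Fin 2)) (P : GL ι F) (u v : ι → F) :
    TT e P (u + v) = TT e P u + TT e P v := by
  simp only [TT, mulVec_add]
  rfl

lemma TT_smul (e : ι ≃ (Fin k → Fin 2)) (P : GL ι F) (c : F) (u : ι → F) :
    TT e P (c • u) = c • TT e P u := by
  simp only [TT, mulVec_smul]
  rfl

lemma TT_inj (e : ι ≃ (Fin k → Fin 2)) (P : GL ι F) (v : ι → F) (hv : v ≠ 0) : TT e P v ≠ 0 := by
  intro h
  apply hv
  have h0 : ((P⁻¹ : GL ι F) : Matrix ι ι F) *ᵥ v = 0 := by
    funext i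
    have := congrFun h (e i)
    simpa [TT] using this
  have : (P : Matrix ι ι F) *ᵥ (((P⁻¹ : GL ι F) : Matrix ι ι F) *ᵥ v) = v := by
    rw [mulVec_mulVec, ← Units.val_mul, mul_inv_cancel, Units.val_one, one_mulVec]
  rw [← this, h0, mulVec_zero]

lemma TT_surj (e : ι ≃ (Fin k → Fin 2)) (P : GL ι F) : Function.Surjective (TT e P) := by
  intro y
  refine ⟨(P : Matrix ι ι F) *ᵥ (y ∘ e), ?_⟩
  simp only [TT]
  rw [mulVec_mulVec, ← Units.val_mul, inv_mul_cancel, Units.val_one, one_mulVec]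
  funext a
  simp

lemma TT_conj (e : ι ≃ (Fin k → Fin 2)) (P : GL ι F) (g₀ : GL (Fin k → Fin 2) F) (u : ι → F) :
    TT e P (((P * glReindex e.symm g₀ * P⁻¹ : GL ι F) : Matrix ι ι F) *ᵥ u) =
      (g₀ : Matrix (Fin k → Fin 2) (Fin k → Fin 2) F) *ᵥ TT e P u := by
  have h1 : ((glReindex e.symm g₀ : GL ι F) : Matrix ι ι F) =
      (g₀ : Matrix (Fin k → Fin 2) (Fin k → Fin 2) F).submatrix e e := rfl
  simp only [TT]
  rw [mulVec_mulVec, ← Units.val_mul, mul_assoc, inv_mul_cancel_left, Units.val_mul,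
    ← mulVec_mulVec, h1, submatrix_mulVec_equiv]
  funext a
  simp

lemma exists_of_mem (e : ι ≃ (Fin k → Fin 2)) (P : GL ι F) {g : GL ι F}
    (hg : g ∈ tensorWreathSubgroup 2 k e P) :
    ∃ c : Fˣ, ∀ u v, fM (JJ F k) (TT e P ((g : Matrix ι ι F) *ᵥ u)) (TT e P ((g : Matrix ι ι F) *ᵥ v)) =
      (c : F) * fM (JJ F k) (TT e P u) (TT e P v) := by
  obtain ⟨g₁, ⟨g₀, hg₀, rfl⟩, rfl⟩ := hg
  obtain ⟨c, hc⟩ := standard_le k hg₀
  refine ⟨c, fun u v => ?_⟩
  have := hc (TT e P u) (TT e P v)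
  rw [← TT_conj, ← TT_conj] at this
  exact this

/-- tensor powers of the plane carry a form (general index type). -/
theorem wreath_two_forms [Fintype F] (hk : 0 < k) (e : ι ≃ (Fin k → Fin 2)) (P : GL ι F) :
    (∃ f : (ι → F) → (ι → F) → F, IsSymplecticForm f ∧
      tensorWreathSubgroup 2 k e P ≤ similarityGroup f) ∨
    (Odd (Fintype.card F) ∧ ∃ Q : (ι → F) → F, IsNondegenerateQuadraticForm Q ∧
      tensorWreathSubgroup 2 k e P ≤ quadSimilarityGroup Q) := by
  have hpm : ((-1 : F) ^ k) * ((-1 : F) ^ k) = 1 := by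
    rw [← mul_pow]; simp
  by_cases hs : (-1 : F) ^ k = -1
  · left
    refine ⟨fun u w => fM (JJ F k) (TT e P u) (TT e P w), ⟨?_, ?_, ?_, ?_⟩, fun g hg => exists_of_mem e P hg⟩
    · exact bilinear_transport (fM_bilinear _) _ (TT_add e P) (TT_smul e P)
    · intro v w
      rw [fM_swap, JJ_transpose, fM_smul, hs]
      ring
    · intro v
      refine fM_alt _ (fun a b => ?_) (JJ_diag hk) _
      have := congrFun (congrFun (JJ_transpose (F := F) k) a) b
      rw [hs] at this
      simpa using this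
    · refine nondeg_transport (fM_nondeg _ (((-1 : F) ^ k) • JJ F k) ?_ ?_) _ (TT_inj e P) (TT_surj e P)
      · rw [Matrix.smul_mul, JJ_sq, smul_smul, hpm, one_smul]
      · rw [Matrix.mul_smul, JJ_sq, smul_smul, hpm, one_smul]
  · right
    have hs1 : (-1 : F) ^ k = 1 := by
      rcases neg_one_pow_eq_or F k with h | h
      · exact h
      · exact absurd h hs
    have h2 : (2 : F) ≠ 0 := by
      intro h
      apply hs
      rw [hs1]
      linear_combination h
    have hodd : Odd (Fintype.card F) := by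
      rw [Nat.odd_iff]
      apply FiniteField.odd_card_of_char_ne_two
      intro h
      apply h2
      have : ((2 : ℕ) : F) = 0 := by
        rw [← h]; exact ringChar.Nat.cast_ringChar
      exact_mod_cast this
    have hb := bilinear_transport (fM_bilinear (JJ F k)) _ (TT_add e P) (TT_smul e P)
    have hsymm : ∀ v w, fM (JJ F k) (TT e P v) (TT e P w) = fM (JJ F k) (TT e P w) (TT e P v) := by
      intro v w
      rw [fM_swap, JJ_transpose, fM_smul, hs1, one_mul]
    have hpolar : QuadraticMap.polar (fun v => fM (JJ F k) (TT e P v) (TT e P v)) =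
        fun u w => fM ((2 : F) • JJ F k) (TT e P u) (TT e P w) := by
      funext u w
      simp only [QuadraticMap.polar, fM_smul]
      have h1 := hb.add_left u w (u + w)
      have h3 := hb.add_right u u w
      have h4 := hb.add_right w u w
      rw [h1, h3, h4, hsymm w u]
      ring
    refine ⟨hodd, fun v => fM (JJ F k) (TT e P v) (TT e P v), ⟨?_, ?_, ?_⟩, ?_⟩
    · intro c v
      have h1 := hb.smul_left c v (c • v)
      have h3 := hb.smul_right c v v
      rw [h1, h3]
      ring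
    · rw [hpolar]
      exact bilinear_transport (fM_bilinear _) _ (TT_add e P) (TT_smul e P)
    · rw [hpolar]
      refine nondeg_transport (fM_nondeg _ ((2 : F)⁻¹ • JJ F k) ?_ ?_) _ (TT_inj e P) (TT_surj e P)
      · rw [Matrix.smul_mul, Matrix.mul_smul, JJ_sq, smul_smul, smul_smul, hs1, inv_mul_cancel₀ h2,
          one_mul, one_smul]
      · rw [Matrix.smul_mul, Matrix.mul_smul, JJ_sq, smul_smul, smul_smul, hs1, mul_inv_cancel₀ h2,
          one_mul, one_smul]
    · intro g hg
      obtain ⟨c, hc⟩ := exists_of_mem e P hg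
      exact ⟨c, fun v => hc v v⟩

/-- [wreath2] tensor powers of the plane carry a form. -/
theorem wreath_two_le {n : ℕ} [Fintype F] {k : ℕ} (hk : 2 ≤ k) (e : Fin n ≃ (Fin k → Fin 2))
    (P : GL (Fin n) F) :
    (∃ f : (Fin n → F) → (Fin n → F) → F, IsSymplecticForm f ∧
      tensorWreathSubgroup 2 k e P ≤ similarityGroup f) ∨
    (Odd (Fintype.card F) ∧ ∃ Q : (Fin n → F) → F, IsNondegenerateQuadraticForm Q ∧
      tensorWreathSubgroup 2 k e P ≤ quadSimilarityGroup Q) :=
  wreath_two_forms (by omega) e P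

end final

end Cfsg.Agent.Lib.Helper17AschWreath2
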