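import Cfsg.Agent.Lib.Helper97USub
import Cfsg.Agent.Lib.Helper97UQF
import Cfsg.Agent.Lib.Helper50H90
import Cfsg.Agent.Lib.Helper17AschWreath2

set_option autoImplicit false

/-! ASCH-U: descent along a semilinear map: a subgroup of the unitary group commuting up to scalars with
a `σ`-semilinear map `J`, `J² = c`, lies in a subfield group of index two. -/

namespace Cfsg.Agent.Lib.Helper17AschUDescent

open Cfsg Cfsg.Geo Matrix Cfsg.Agent.Lib.Helper97AschBase Cfsg.Agent.Lib.Helper97AschForms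
  Cfsg.Agent.Lib.Helper97UBase Cfsg.Agent.Lib.Helper97AschSubfield
open scoped MatrixGroups

variable {n : ℕ} {F : Type*} [Field F]

/-- a matrix proportional to its twist is a scalar times a matrix over the fixed field -/
lemma exists_rational [NeZero n] (τ : F →+* F) (g : GL (Fin n) F) (c : F)
    (hc : (g : Matrix (Fin n) (Fin n) F).map τ = c • (g : Matrix (Fin n) (Fin n) F)) :
    ∃ d : F, d ≠ 0 ∧ ∀ i j, τ (d⁻¹ * (g : Matrix (Fin n) (Fin n) F) i j) =
      d⁻¹ * (g : Matrix (Fin n) (Fin n) F) i j := by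
  obtain ⟨a, b, hab⟩ : ∃ a b, (g : Matrix (Fin n) (Fin n) F) a b ≠ 0 := by
    by_contra hcon
    push Not at hcon
    have h0 : (g : Matrix (Fin n) (Fin n) F) = 0 := by ext i j; exact hcon i j
    have h1 := iv g
    rw [h0, zero_mul] at h1
    have h2 := congrFun (congrFun h1 0) 0
    simp at h2
  obtain ⟨d, hd⟩ : ∃ d, d = (g : Matrix (Fin n) (Fin n) F) a b := ⟨_, rfl⟩
  have hd0 : d ≠ 0 := by rw [hd]; exact hab
  have hentry : ∀ i j, τ ((g : Matrix (Fin n) (Fin n) F) i j) = c * (g : Matrix (Fin n) (Fin n) F) i j := by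
    intro i j
    have := congrFun (congrFun hc i) j
    simpa using this
  have hτd : τ d = c * d := by rw [hd]; exact hentry a b
  have hτd0 : τ d ≠ 0 := by
    intro h0
    exact hd0 ((map_eq_zero τ).mp h0)
  have hc0 : c ≠ 0 := by
    rintro rfl
    rw [zero_mul] at hτd
    exact hτd0 hτd
  refine ⟨d, hd0, fun i j => ?_⟩
  rw [map_mul, map_inv₀, hτd, hentry]
  field_simp

/-- membership in a subfield subgroup -/
lemma mem_subfieldSubgroup_of_rational {F₁ : Subfield F} (D h : GL (Fin n) F) {d : F} (hd0 : d ≠ 0)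
    (hin : ∀ i j, d⁻¹ * ((D⁻¹ * h * D : GL (Fin n) F) : Matrix (Fin n) (Fin n) F) i j ∈ F₁) :
    h ∈ subfieldSubgroup F₁ D := by
  set g : GL (Fin n) F := D⁻¹ * h * D with hg
  let M₁ : Matrix (Fin n) (Fin n) F₁ := Matrix.of fun i j => ⟨d⁻¹ * (g : Matrix (Fin n) (Fin n) F) i j, hin i j⟩
  have hM₁ : M₁.map F₁.subtype = d⁻¹ • (g : Matrix (Fin n) (Fin n) F) := by
    ext i j
    simp [M₁]
  have hdet : M₁.det ≠ 0 := by
    intro h0
    have h1 : F₁.subtype M₁.det = (d⁻¹ • (g : Matrix (Fin n) (Fin n) F)).det := by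
      rw [← hM₁]
      exact RingHom.map_det F₁.subtype M₁
    rw [h0, map_zero, Matrix.det_smul] at h1
    have h2 : (g : Matrix (Fin n) (Fin n) F).det ≠ 0 :=
      ((Matrix.isUnit_iff_isUnit_det _).mp g.isUnit).ne_zero
    exact (mul_ne_zero (pow_ne_zero _ (inv_ne_zero hd0)) h2) h1.symm
  let m : GL (Fin n) F₁ := Matrix.GeneralLinearGroup.mkOfDetNeZero M₁ hdet
  let gm : GL (Fin n) F := Matrix.GeneralLinearGroup.map (F₁.subtype : F₁ →+* F) m
  have hgm : (gm : Matrix (Fin n) (Fin n) F) = d⁻¹ • (g : Matrix (Fin n) (Fin n) F) := by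
    rw [← hM₁]
    rfl
  have hz : gm⁻¹ * g ∈ scalars (Fin n) F := by
    rw [mem_scalars_iff]
    refine ⟨Units.mk0 d hd0, ?_⟩
    have h1 : (g : Matrix (Fin n) (Fin n) F) = d • (gm : Matrix (Fin n) (Fin n) F) := by
      rw [hgm, smul_smul, mul_inv_cancel₀ hd0, one_smul]
    rw [Units.val_mul, h1, Matrix.mul_smul, vi]
    rfl
  unfold subfieldSubgroup
  refine ⟨g, ?_, ?_⟩
  · have h1 : g = gm * (gm⁻¹ * g) := by group
    rw [h1]
    exact Subgroup.mul_mem_sup ⟨m, rfl⟩ hz
  · change D * g * D⁻¹ = h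
    simp only [hg]
    group

variable {σ : F ≃+* F}

/-- the fixed vectors of a semilinear involution span -/
lemma span_fixed (hσ : ∃ z, σ z ≠ z) (J : (Fin n → F) → (Fin n → F))
    (hadd : ∀ u v, J (u + v) = J u + J v) (hsmul : ∀ (c : F) v, J (c • v) = σ c • J v)
    (hJJ : ∀ v, J (J v) = v) : Submodule.span F {v | J v = v} = ⊤ := by
  obtain ⟨z, hz⟩ := hσ
  rw [eq_top_iff]
  intro v _
  have ha : v + J v ∈ Submodule.span F {v | J v = v} := by
    apply Submodule.subset_span
    show J (v + J v) = v + J v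
    rw [hadd, hJJ, add_comm]
  have hb : z • v + σ z • J v ∈ Submodule.span F {v | J v = v} := by
    apply Submodule.subset_span
    show J (z • v + σ z • J v) = z • v + σ z • J v
    have e : σ (σ z) • v = z • v := by
      have h1 := hJJ (z • v)
      rw [hsmul, hsmul, hJJ] at h1
      exact h1
    rw [hadd, hsmul, hsmul, hJJ, e, add_comm]
  have hc : (z - σ z) • v = (z • v + σ z • J v) - σ z • (v + J v) := by
    rw [sub_smul, smul_add]
    abel
  have hne : z - σ z ≠ 0 := sub_ne_zero.mpr (Ne.symm hz)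
  have : v = (z - σ z)⁻¹ • ((z • v + σ z • J v) - σ z • (v + J v)) := by
    rw [← hc, smul_smul, inv_mul_cancel₀ hne, one_smul]
  rw [this]
  exact Submodule.smul_mem _ _ (Submodule.sub_mem _ hb (Submodule.smul_mem _ _ ha))

/-- a semilinear map in the coordinates of a basis of fixed vectors -/
lemma semilinear_coord (J : (Fin n → F) → (Fin n → F))
    (hadd : ∀ u v, J (u + v) = J u + J v) (hsmul : ∀ (c : F) v, J (c • v) = σ c • J v)
    (D : GL (Fin n) F) (hD : ∀ j, J ((D : Matrix (Fin n) (Fin n) F) *ᵥ Pi.single j 1) =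
      (D : Matrix (Fin n) (Fin n) F) *ᵥ Pi.single j 1) (x : Fin n → F) :
    J ((D : Matrix (Fin n) (Fin n) F) *ᵥ x) = (D : Matrix (Fin n) (Fin n) F) *ᵥ (fun j => σ (x j)) := by
  have h0 : J 0 = 0 := by
    have := hsmul 0 0
    simpa using this
  let A : (Fin n → F) →+ (Fin n → F) :=
    { toFun := J
      map_zero' := h0
      map_add' := hadd }
  have hx : ∀ y : Fin n → F, (D : Matrix (Fin n) (Fin n) F) *ᵥ y =
      ∑ j, y j • ((D : Matrix (Fin n) (Fin n) F) *ᵥ Pi.single j 1) := by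
    intro y
    conv_lhs => rw [← Finset.univ_sum_single y]
    rw [Matrix.mulVec_sum]
    apply Finset.sum_congr rfl
    intro j _
    rw [single_eq_smul, Matrix.mulVec_smul]
  rw [hx x, hx (fun j => σ (x j))]
  show A _ = _
  rw [map_sum]
  apply Finset.sum_congr rfl
  intro j _
  show J _ = _
  rw [hsmul, hD]

open Cfsg.Agent.Lib.Helper17AschWreath2 Cfsg.Agent.Lib.Helper97UQF Cfsg.Agent.Lib.Helper97USub

/-- characteristic two: a symmetric matrix whose quadratic map on rational vectors is semi-invariant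
under an irreducible group has zero diagonal. Abstract form: `ℓ` is a covector which every `g` in `S`
multiplies by a scalar; if the group generated acts irreducibly (in coordinates `D`), then `ℓ = 0`. -/
lemma covector_zero (hn : 2 ≤ n) {H : Subgroup (GL (Fin n) F)} (hirr : ActsIrreducibly (matrixSet H))
    (D : GL (Fin n) F) (ℓ : Fin n → F)
    (hℓ : ∀ h ∈ H, ∃ κ : F, ∀ x : Fin n → F,
      ℓ ⬝ᵥ (((D⁻¹ * h * D : GL (Fin n) F) : Matrix (Fin n) (Fin n) F) *ᵥ x) = κ * (ℓ ⬝ᵥ x)) :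
    ℓ = 0 := by
  let W : Submodule F (Fin n → F) :=
    { carrier := {v | ℓ ⬝ᵥ (((D⁻¹ : GL (Fin n) F) : Matrix (Fin n) (Fin n) F) *ᵥ v) = 0}
      add_mem' := by
        intro a b ha hb
        simp only [Set.mem_ofPred_eq] at ha hb ⊢
        rw [mulVec_add, dotProduct_add, ha, hb, add_zero]
      zero_mem' := by simp
      smul_mem' := by
        intro c a ha
        simp only [Set.mem_ofPred_eq] at ha ⊢
        rw [mulVec_smul, dotProduct_smul, ha, smul_zero] }
  have hmem : ∀ v, v ∈ W ↔ ℓ ⬝ᵥ (((D⁻¹ : GL (Fin n) F) : Matrix (Fin n) (Fin n) F) *ᵥ v) = 0 := fun v => Iff.rfl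
  have hDD : ∀ x : Fin n → F, ((D⁻¹ : GL (Fin n) F) : Matrix (Fin n) (Fin n) F) *ᵥ
      ((D : Matrix (Fin n) (Fin n) F) *ᵥ x) = x := by
    intro x
    rw [mulVec_mulVec, vi, one_mulVec]
  have hDD' : ∀ x : Fin n → F, (D : Matrix (Fin n) (Fin n) F) *ᵥ
      (((D⁻¹ : GL (Fin n) F) : Matrix (Fin n) (Fin n) F) *ᵥ x) = x := by
    intro x
    rw [mulVec_mulVec, iv, one_mulVec]
  have hinv : ∀ s ∈ matrixSet H, W.map (Matrix.toLin' s) ≤ W := by
    rintro _ ⟨h, hh, rfl⟩ _ ⟨v, hv, rfl⟩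
    obtain ⟨κ, hκ⟩ := hℓ h hh
    rw [hmem, Matrix.toLin'_apply]
    have := hκ (((D⁻¹ : GL (Fin n) F) : Matrix (Fin n) (Fin n) F) *ᵥ v)
    rw [Units.val_mul, Units.val_mul, ← mulVec_mulVec, ← mulVec_mulVec, hDD'] at this
    rw [this, (hmem v).1 hv, mul_zero]
  let i0 : Fin n := ⟨0, by omega⟩
  let i1 : Fin n := ⟨1, by omega⟩
  have h01 : i0 ≠ i1 := by
    intro h
    have := congrArg Fin.val h
    simp [i0, i1] at this
  have hne : W ≠ ⊥ := by
    intro hbot
    by_cases h0 : ℓ i0 = 0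
    · have : (D : Matrix (Fin n) (Fin n) F) *ᵥ Pi.single i0 1 ∈ W := by
        rw [hmem, hDD]
        simp [h0]
      rw [hbot, Submodule.mem_bot] at this
      have h2 := hDD (Pi.single i0 1)
      rw [this, mulVec_zero] at h2
      have := congrFun h2 i0
      simp at this
    · have : (D : Matrix (Fin n) (Fin n) F) *ᵥ (ℓ i1 • Pi.single i0 1 - ℓ i0 • Pi.single i1 1) ∈ W := by
        rw [hmem, hDD]
        simp [dotProduct_sub, mul_comm]
      rw [hbot, Submodule.mem_bot] at this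
      have h2 := hDD (ℓ i1 • Pi.single i0 1 - ℓ i0 • Pi.single i1 1)
      rw [this, mulVec_zero] at h2
      have := congrFun h2 i1
      simp [h01.symm] at this
      exact h0 this
  have htop := (hirr W hinv).resolve_left hne
  funext j
  have : (D : Matrix (Fin n) (Fin n) F) *ᵥ Pi.single j 1 ∈ W := by
    rw [htop]; trivial
  rw [hmem, hDD] at this
  simpa using this

/-- the two subfield alternatives of index two of the unitary case -/
def SubfieldTwoAlt [Fintype F] (q : ℕ) (f : (Fin n → F) → (Fin n → F) → F)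
    (H : Subgroup (GL (Fin n) F)) : Prop :=
  (Odd q ∧ ∃ (F₀ : Subfield F) (P : GL (Fin n) F), Fintype.card F = Nat.card F₀ ^ 2 ∧
      IsFormRationalStructure f F₀ 1 P ∧ H ≤ subfieldSubgroup F₀ P) ∨
  (∃ (F₀ : Subfield F) (P : GL (Fin n) F) (ζ : F), Even n ∧ Fintype.card F = Nat.card F₀ ^ 2 ∧ ζ ≠ 0 ∧
      ζ + ζ ^ q = 0 ∧ IsFormRationalStructure f F₀ ζ P ∧
      (∀ u : Fin n → F, (∀ i, u i ∈ F₀) →
        f ((P : Matrix (Fin n) (Fin n) F) *ᵥ u) ((P : Matrix (Fin n) (Fin n) F) *ᵥ u) = 0) ∧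
      H ≤ subfieldSubgroup F₀ P)

lemma eq_of_mul_self_eq [CharP F 2] {a b : F} (h : a * a = b * b) : a = b := by
  have h1 : (a + b) * (a + b) = 0 := by
    rw [CharTwo.add_mul_self, h, CharTwo.add_self_eq_zero]
  have h2 : a + b = 0 := by
    rcases mul_eq_zero.mp h1 with h | h <;> exact h
  rw [← CharTwo.neg_eq b]
  exact eq_neg_of_add_eq_zero_left h2

lemma fM_add {κ : Type} [Fintype κ] (A B : Matrix κ κ F) (x y : κ → F) :
    fM (A + B) x y = fM A x y + fM B x y := by
  simp [fM, add_mulVec, dotProduct_add]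

lemma even_of_alt (G : Matrix (Fin n) (Fin n) F) (hdet : IsUnit G.det) (h1 : ∀ a b, G b a = - G a b)
    (h0 : ∀ a, G a a = 0) : Even n := by
  rw [← Nat.not_odd_iff_even]
  intro hodd
  have := det_alt_eq_zero hodd G (fun i j => h1 j i) h0
  rw [this] at hdet
  exact not_isUnit_zero hdet

variable {f : (Fin n → F) → (Fin n → F) → F}

/-- descent, normalised form: `J² = 1`, `f(Ju,Jv) = ± σ f(u,v)`. -/
theorem descent_core [Fintype F] (hf : IsUnitaryForm σ f) {q : ℕ} (hq : Fintype.card F = q ^ 2)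
    (hσq : ∀ a, σ a = a ^ q) (hn : 2 ≤ n) {H : Subgroup (GL (Fin n) F)} (hH : H ≤ Iso f)
    (hirr : ActsIrreducibly (matrixSet H)) (J : (Fin n → F) → (Fin n → F))
    (hadd : ∀ u v, J (u + v) = J u + J v) (hsmul : ∀ (c : F) v, J (c • v) = σ c • J v)
    (hJJ : ∀ v, J (J v) = v) {ε : F} (hε : ε = 1 ∨ ε = -1)
    (hJf : ∀ u v, f (J u) (J v) = ε * σ (f u v))
    (hJH : ∀ h ∈ H, ∃ μ : F, ∀ v, J ((h : Matrix (Fin n) (Fin n) F) *ᵥ v) =
      μ • ((h : Matrix (Fin n) (Fin n) F) *ᵥ J v)) :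
    SubfieldTwoAlt q f H := by
  have : NeZero n := ⟨by omega⟩
  obtain ⟨F₀, hF₀, hcard⟩ := fix_sigma σ hf.ne_refl hf.involutive
  have hσne : ∃ z, σ z ≠ z := by
    by_contra hcon
    push Not at hcon
    exact hf.ne_refl (RingEquiv.ext hcon)
  obtain ⟨D, hD⟩ := exists_GL_of_span (span_fixed hσne J hadd hsmul hJJ)
  have hD' : ∀ j, J ((D : Matrix (Fin n) (Fin n) F) *ᵥ Pi.single j 1) =
      (D : Matrix (Fin n) (Fin n) F) *ᵥ Pi.single j 1 := hD
  have hJD := semilinear_coord J hadd hsmul D hD'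
  have hs := sesq_of_unitary hf
  have hs' : Sesq σ (fun u v => f ((D : Matrix (Fin n) (Fin n) F) *ᵥ u) ((D : Matrix (Fin n) (Fin n) F) *ᵥ v)) :=
    hs.comp D
  obtain ⟨G, hG⟩ : ∃ G, G = gram (fun u v => f ((D : Matrix (Fin n) (Fin n) F) *ᵥ u)
    ((D : Matrix (Fin n) (Fin n) F) *ᵥ v)) := ⟨_, rfl⟩
  have hGa : ∀ i j, G i j = f ((D : Matrix (Fin n) (Fin n) F) *ᵥ Pi.single i 1)
      ((D : Matrix (Fin n) (Fin n) F) *ᵥ Pi.single j 1) := by
    intro i j
    rw [hG]; rfl
  have hrat : ∀ u : Fin n → F, (∀ i, u i ∈ F₀) → (fun j => σ (u j)) = u :=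
    fun u hu => funext fun j => (hF₀ _).2 (hu j)
  have hsingle : ∀ j : Fin n, ∀ i, (Pi.single j 1 : Fin n → F) i ∈ F₀ := by
    intro j i
    by_cases h : i = j
    · subst h; simp [one_mem]
    · simp [h, zero_mem]
  have hform : ∀ u v : Fin n → F, (∀ i, u i ∈ F₀) → (∀ i, v i ∈ F₀) →
      f ((D : Matrix (Fin n) (Fin n) F) *ᵥ u) ((D : Matrix (Fin n) (Fin n) F) *ᵥ v) =
      ε * σ (f ((D : Matrix (Fin n) (Fin n) F) *ᵥ u) ((D : Matrix (Fin n) (Fin n) F) *ᵥ v)) := by
    intro u v hu hv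
    have := hJf ((D : Matrix (Fin n) (Fin n) F) *ᵥ u) ((D : Matrix (Fin n) (Fin n) F) *ᵥ v)
    rwa [hJD, hJD, hrat u hu, hrat v hv] at this
  have hfM : ∀ u v : Fin n → F, (∀ i, v i ∈ F₀) →
      f ((D : Matrix (Fin n) (Fin n) F) *ᵥ u) ((D : Matrix (Fin n) (Fin n) F) *ᵥ v) = fM G u v := by
    intro u v hv
    have := hs'.eq_gram u v
    rw [hrat v hv, ← hG] at this
    exact this
  have hDg : ∀ (h : GL (Fin n) F) (x : Fin n → F), (h : Matrix (Fin n) (Fin n) F) *ᵥ
      ((D : Matrix (Fin n) (Fin n) F) *ᵥ x) = (D : Matrix (Fin n) (Fin n) F) *ᵥ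
      (((D⁻¹ * h * D : GL (Fin n) F) : Matrix (Fin n) (Fin n) F) *ᵥ x) := by
    intro h x
    rw [mulVec_mulVec, mulVec_mulVec, ← Units.val_mul, ← Units.val_mul]
    congr 2
    group
  have hg : ∀ h ∈ H, ∃ d : F, d ≠ 0 ∧ ∀ i j,
      σ (d⁻¹ * ((D⁻¹ * h * D : GL (Fin n) F) : Matrix (Fin n) (Fin n) F) i j) =
      d⁻¹ * ((D⁻¹ * h * D : GL (Fin n) F) : Matrix (Fin n) (Fin n) F) i j := by
    intro h hh
    obtain ⟨μ, hμ⟩ := hJH h hh
    apply exists_rational (σ : F →+* F) _ μ
    ext i j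
    have h1 := hμ ((D : Matrix (Fin n) (Fin n) F) *ᵥ Pi.single j 1)
    rw [hD' j, hDg, hJD, ← mulVec_smul] at h1
    have h3 := mulVec_injective D h1
    have := congrFun h3 i
    simpa [Matrix.mulVec_single_one] using this
  have hle : H ≤ subfieldSubgroup F₀ D := by
    intro h hh
    obtain ⟨d, hd0, hd⟩ := hg h hh
    exact mem_subfieldSubgroup_of_rational D h hd0 (fun i j => (hF₀ _).1 (hd i j))
  have hGe : ∀ i j, G i j = ε * σ (G i j) := by
    intro i j
    rw [hGa]
    exact hform _ _ (hsingle i) (hsingle j)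
  have hGh : ∀ i j, G j i = σ (G i j) := by
    intro i j
    rw [hGa, hGa]
    exact hf.herm _ _
  have hGdet : IsUnit G.det := by
    rw [hG]
    apply hs'.isUnit_det_gram
    intro v hv
    have hv' : (D : Matrix (Fin n) (Fin n) F) *ᵥ v ≠ 0 := by
      intro h0
      apply hv
      apply mulVec_injective D
      simpa using h0
    obtain ⟨y, hy⟩ := (hf.nondegenerate _ hv').1
    refine ⟨((D⁻¹ : GL (Fin n) F) : Matrix (Fin n) (Fin n) F) *ᵥ y, ?_⟩
    rwa [mulVec_mulVec, iv, one_mulVec]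
  by_cases h2 : (2 : F) = 0
  · -- characteristic two
    have hε1 : ε = 1 := by
      rcases hε with h | h
      · exact h
      · rw [h]; linear_combination (-1 : F) * h2
    subst hε1
    have : CharP F 2 := CharTwo.of_one_ne_zero_of_two_eq_zero one_ne_zero h2
    have hsq : ∀ a : F, ∃ b, b * b = a := by
      intro a
      obtain ⟨b, hb⟩ := FiniteField.isSquare_of_char_two (ringChar.eq F 2) a
      exact ⟨b, hb.symm⟩
    have hsymm : ∀ a b, G b a = - G a b := by
      intro a b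
      rw [hGh a b, CharTwo.neg_eq]
      have := hGe a b
      rw [one_mul] at this
      exact this.symm
    choose ℓ hℓ using fun j => hsq (G j j)
    have hA : ∀ y : Fin n → F, (∀ i, y i ∈ F₀) → (ℓ ⬝ᵥ y) * (ℓ ⬝ᵥ y) =
        f ((D : Matrix (Fin n) (Fin n) F) *ᵥ y) ((D : Matrix (Fin n) (Fin n) F) *ᵥ y) := by
      intro y hy
      rw [hfM y y hy]
      have hdecomp : G = Matrix.diagonal (fun j => G j j) + (G - Matrix.diagonal (fun j => G j j)) := by
        abel
      have halt : fM (G - Matrix.diagonal (fun j => G j j)) y y = 0 := by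
        apply fM_alt
        · intro a b
          by_cases hab : a = b
          · subst hab; simp
          · simp [Matrix.diagonal_apply_ne _ hab, Matrix.diagonal_apply_ne _ (Ne.symm hab), hsymm a b]
        · intro a; simp
      rw [hdecomp, fM_add, halt, add_zero]
      simp only [fM, dotProduct, mulVec_diagonal]
      rw [CharTwo.sum_mul_self]
      apply Finset.sum_congr rfl
      intro j _
      rw [← hℓ j]
      ring
    have hℓ0 : ℓ = 0 := by
      apply covector_zero hn hirr D ℓ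
      intro h hh
      obtain ⟨d, hd0, hd⟩ := hg h hh
      obtain ⟨κ, hκ⟩ := hsq (d * (σ d)⁻¹)
      have hσd : σ d ≠ 0 := by simpa using hd0
      refine ⟨κ, fun x => ?_⟩
      obtain ⟨g, hgdef⟩ : ∃ g : GL (Fin n) F, g = D⁻¹ * h * D := ⟨_, rfl⟩
      rw [← hgdef] at hd ⊢
      have hcol : ∀ j, ℓ ⬝ᵥ ((g : Matrix (Fin n) (Fin n) F) *ᵥ Pi.single j 1) = κ * ℓ j := by
        intro j
        apply eq_of_mul_self_eq
        have hy : ∀ i, (fun i => d⁻¹ * (g : Matrix (Fin n) (Fin n) F) i j) i ∈ F₀ :=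
          fun i => (hF₀ _).1 (hd i j)
        have hgy : (g : Matrix (Fin n) (Fin n) F) *ᵥ Pi.single j 1 =
            d • (fun i => d⁻¹ * (g : Matrix (Fin n) (Fin n) F) i j) := by
          funext i
          simp [Matrix.mulVec_single_one, hd0]
        have h1 := hA _ hy
        have h3 : (D : Matrix (Fin n) (Fin n) F) *ᵥ (fun i => d⁻¹ * (g : Matrix (Fin n) (Fin n) F) i j) =
            d⁻¹ • ((h : Matrix (Fin n) (Fin n) F) *ᵥ ((D : Matrix (Fin n) (Fin n) F) *ᵥ Pi.single j 1)) := by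
          rw [hDg, ← hgdef, hgy, mulVec_smul, smul_smul, inv_mul_cancel₀ hd0, one_smul]
        rw [h3, hs.smul_left, hs.smul_right, mem_Iso.1 (hH hh), ← hGa, ← hℓ j] at h1
        rw [hgy, dotProduct_smul, smul_eq_mul]
        have e : d * (ℓ ⬝ᵥ fun i => d⁻¹ * (g : Matrix (Fin n) (Fin n) F) i j) *
            (d * (ℓ ⬝ᵥ fun i => d⁻¹ * (g : Matrix (Fin n) (Fin n) F) i j)) =
            d * d * ((ℓ ⬝ᵥ fun i => d⁻¹ * (g : Matrix (Fin n) (Fin n) F) i j) *
              (ℓ ⬝ᵥ fun i => d⁻¹ * (g : Matrix (Fin n) (Fin n) F) i j)) := by ring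
        rw [e, h1, map_inv₀]
        have e2 : κ * ℓ j * (κ * ℓ j) = (κ * κ) * (ℓ j * ℓ j) := by ring
        rw [e2, hκ]
        field_simp
      rw [dotProduct_mulVec]
      have : ℓ ᵥ* (g : Matrix (Fin n) (Fin n) F) = κ • ℓ := by
        funext j
        have := hcol j
        rw [Matrix.mulVec_single_one] at this
        simpa [vecMul, dotProduct, Matrix.col] using this
      rw [this, smul_dotProduct, smul_eq_mul]
    have hdiag : ∀ a, G a a = 0 := by
      intro a
      rw [← hℓ a, hℓ0]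
      simp
    right
    refine ⟨F₀, D, 1, even_of_alt G hGdet hsymm hdiag, hcard, one_ne_zero, ?_, ?_, ?_, hle⟩
    · rw [one_pow]; linear_combination h2
    · intro u v hu hv
      rw [one_mul, ← hF₀]
      have := hform u v hu hv
      rw [one_mul] at this
      exact this.symm
    · intro u hu
      rw [hfM u u hu]
      exact fM_alt G hsymm hdiag u
  · have hoddq : Odd q := by
      have hodd : Odd (Fintype.card F) := by
        rw [Nat.odd_iff]
        apply FiniteField.odd_card_of_char_ne_two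
        intro h
        apply h2
        have : ((2 : ℕ) : F) = 0 := by
          rw [← h]; exact ringChar.Nat.cast_ringChar
        exact_mod_cast this
      rw [hq] at hodd
      exact (Nat.odd_pow_iff (by norm_num)).mp hodd
    rcases hε with rfl | rfl
    · left
      refine ⟨hoddq, F₀, D, hcard, ?_, hle⟩
      intro u v hu hv
      rw [one_mul, ← hF₀]
      have := hform u v hu hv
      rw [one_mul] at this
      exact this.symm
    · right
      obtain ⟨z, hz⟩ := hσne
      have hsymm : ∀ a b, G b a = - G a b := by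
        intro a b
        rw [hGh a b]
        have := hGe a b
        linear_combination this
      have hdiag : ∀ a, G a a = 0 := by
        intro a
        have := hsymm a a
        have h3 : (2 : F) * G a a = 0 := by linear_combination this
        exact (mul_eq_zero.mp h3).resolve_left h2
      have hζ : σ (z - σ z) = - (z - σ z) := by
        rw [map_sub, hf.involutive]; ring
      refine ⟨F₀, D, z - σ z, even_of_alt G hGdet hsymm hdiag, hcard, sub_ne_zero.mpr (Ne.symm hz), ?_, ?_, ?_,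
        hle⟩
      · rw [← hσq, hζ]; ring
      · intro u v hu hv
        rw [← hF₀, map_mul, hζ]
        have := hform u v hu hv
        linear_combination (-(z - σ z)) * this
      · intro u hu
        rw [hfM u u hu]
        exact fM_alt G hsymm hdiag u

/-- **Descent**: `H ≤ GU(f)` irreducible, `J` a `σ`-semilinear map with `J² = c ≠ 0`,
`f(Ju,Jv) = c' σ f(u,v)`, and `J h = μ_h h J` for all `h ∈ H`: then `H` lies in a subfield group of
index two (orthogonal or symplectic type). -/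
theorem descent [Fintype F] (hf : IsUnitaryForm σ f) {q : ℕ} (hq : Fintype.card F = q ^ 2)
    (hσq : ∀ a, σ a = a ^ q) (hn : 2 ≤ n) {H : Subgroup (GL (Fin n) F)} (hH : H ≤ Iso f)
    (hirr : ActsIrreducibly (matrixSet H)) (J : (Fin n → F) → (Fin n → F))
    (hadd : ∀ u v, J (u + v) = J u + J v) (hsmul : ∀ (c : F) v, J (c • v) = σ c • J v)
    {c c' : F} (hc : c ≠ 0) (hJJ : ∀ v, J (J v) = c • v)
    (hJf : ∀ u v, f (J u) (J v) = c' * σ (f u v))
    (hJH : ∀ h ∈ H, ∃ μ : F, ∀ v, J ((h : Matrix (Fin n) (Fin n) F) *ᵥ v) =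
      μ • ((h : Matrix (Fin n) (Fin n) F) *ᵥ J v)) :
    SubfieldTwoAlt q f H := by
  have hs := sesq_of_unitary hf
  have hJ0 : J 0 = 0 := by
    have := hsmul 0 0
    simpa using this
  let i0 : Fin n := ⟨0, by omega⟩
  have hv0 : (Pi.single i0 1 : Fin n → F) ≠ 0 := by
    intro h
    have := congrFun h i0
    simp at this
  have hJv0 : J (Pi.single i0 1) ≠ 0 := by
    intro h
    have := hJJ (Pi.single i0 1)
    rw [h, hJ0] at this
    exact (smul_ne_zero hc hv0) this.symm
  have hσc : σ c = c := by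
    have h1 : J (J (J (Pi.single i0 1))) = c • J (Pi.single i0 1) := hJJ (J (Pi.single i0 1))
    have h1' : J (J (J (Pi.single i0 1))) = σ c • J (Pi.single i0 1) := by
      rw [← hsmul, ← hJJ (Pi.single i0 1)]
    rw [h1'] at h1
    have h2 : (σ c - c) • J (Pi.single i0 1) = 0 := by rw [sub_smul, h1, sub_self]
    rcases smul_eq_zero.mp h2 with h | h
    · exact sub_eq_zero.mp h
    · exact absurd h hJv0
  obtain ⟨u₀, hu₀⟩ := (hf.nondegenerate _ hv0).1
  have hσc' : σ c' = c' := by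
    have h1 := hJf (Pi.single i0 1) u₀
    rw [← hf.herm] at h1
    have h2 := hJf u₀ (Pi.single i0 1)
    rw [hf.herm (J (Pi.single i0 1)) (J u₀), h2, map_mul, hf.involutive] at h1
    exact mul_right_cancel₀ hu₀ h1
  have hcc : c' * c' = c * c := by
    have h1 := hJf (J u₀) (J (Pi.single i0 1))
    rw [hJJ, hJJ, hs.smul_left, hs.smul_right, hJf, map_mul, hf.involutive, hσc, hσc'] at h1
    have h2 : (c * c) * f u₀ (Pi.single i0 1) = (c' * c') * f u₀ (Pi.single i0 1) := by
      linear_combination h1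
    exact (mul_right_cancel₀ hu₀ h2).symm
  have hord : orderOf σ = 2 := by
    apply orderOf_eq_prime
    · ext a
      rw [pow_two]
      exact hf.involutive a
    · exact hf.ne_refl
  obtain ⟨θ, hθ0, hθ⟩ := Cfsg.Agent.Lib.Helper50H90.norm_surj σ 2 hord (by norm_num) c⁻¹ (inv_ne_zero hc)
    (by rw [map_inv₀, hσc])
  have hθ' : θ * σ θ = c⁻¹ := by
    simpa [Cfsg.Agent.Lib.Helper50H90.Nk] using hθ
  have hε : c⁻¹ * c' = 1 ∨ c⁻¹ * c' = -1 := by
    have h1 : (c' - c) * (c' + c) = 0 := by linear_combination hcc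
    rcases mul_eq_zero.mp h1 with h | h
    · left
      rw [sub_eq_zero.mp h, inv_mul_cancel₀ hc]
    · right
      rw [eq_neg_of_add_eq_zero_left h, mul_neg, inv_mul_cancel₀ hc]
  refine descent_core hf hq hσq hn hH hirr (fun v => θ • J v) ?_ ?_ ?_ hε ?_ ?_
  · intro u v
    simp only [hadd, smul_add]
  · intro a v
    simp only [hsmul, smul_smul, mul_comm]
  · intro v
    simp only [hsmul, hJJ, smul_smul]
    rw [← mul_assoc, hθ', inv_mul_cancel₀ hc, one_smul]
  · intro u v
    simp only [hs.smul_left, hs.smul_right, hJf]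
    rw [← hθ']
    ring
  · intro h hh
    obtain ⟨μ, hμ⟩ := hJH h hh
    refine ⟨μ, fun v => ?_⟩
    simp only [hμ, mulVec_smul, smul_smul, mul_comm]

end Cfsg.Agent.Lib.Helper17AschUDescent
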