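import Cfsg.Agent.Lib.LeadAutConc
import Cfsg.Agent.Lib.Helper50Out

set_option autoImplicit false

/-! PROJECT 100 piece S6. -/

namespace Cfsg.Agent.Lib.Helper17AutS6

open Cfsg Cfsg.Lie Cfsg.Lie.ChevalleyDatum
open Subgroup Cfsg.Agent.Lib.Helper23Grp Cfsg.Agent.Lib.Helper23RG Cfsg.Agent.Lib.Helper23RG.RG
  Cfsg.Agent.Lib.Helper23Weyl Cfsg.Agent.Lib.LeadAutDefs
  Cfsg.Agent.Lib.Helper23Table Cfsg.Agent.Lib.Helper23Chev Cfsg.Agent.Lib.LeadAutConc
open scoped MatrixGroups Matrix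

section abstract
variable {𝔾 K R I : Type*} [Group 𝔾] [Field K] (S : RG 𝔾 K R I)

/-- the pairs (automorphism, field automorphism inducing it on the fundamental root elements) -/
def fieldPairs : Subgroup (MulAut 𝔾 × (K ≃+* K)) where
  carrier := {p | Acts S p.1 1 (fun _ t => p.2 t)}
  mul_mem' := by
    rintro ⟨φ, σ⟩ ⟨φ', σ'⟩ h h'
    refine ⟨fun i t => ?_, fun i t ht => ?_, fun i a b => ?_, fun i => ?_⟩
    · have h1 := h'.pos i t
      have h2 := h.pos i (σ' t)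
      simp only [Equiv.Perm.coe_one, id_eq] at h1 h2 ⊢
      change φ (φ' _) = _
      rw [h1, h2]
      rfl
    · have h1 := h'.neg i t ht
      have h2 := h.neg i (σ' t) (by simpa using ht)
      simp only [Equiv.Perm.coe_one, id_eq] at h1 h2 ⊢
      change φ (φ' _) = _
      rw [h1, h2]
      rfl
    · exact map_add (σ * σ') a b
    · exact (σ * σ').bijective
  one_mem' := ⟨fun _ _ => rfl, fun _ _ _ => rfl, fun _ _ _ => rfl, fun _ => Function.bijective_id⟩
  inv_mem' := by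
    rintro ⟨φ, σ⟩ h
    refine ⟨fun i t => ?_, fun i t ht => ?_, fun i a b => ?_, fun i => ?_⟩
    · have h1 := h.pos i (σ⁻¹ t)
      simp only [Equiv.Perm.coe_one, id_eq] at h1 ⊢
      have e : σ (σ⁻¹ t) = t := σ.apply_symm_apply t
      rw [e] at h1
      change φ⁻¹ _ = _
      rw [← h1]
      exact φ.symm_apply_apply _
    · have h1 := h.neg i (σ⁻¹ t) (by
        intro h0
        apply ht
        have e : σ (σ⁻¹ t) = t := σ.apply_symm_apply t
        rw [← e, h0, map_zero])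
      simp only [Equiv.Perm.coe_one, id_eq] at h1 ⊢
      have e : σ (σ⁻¹ t) = t := σ.apply_symm_apply t
      rw [e] at h1
      change φ⁻¹ _ = _
      rw [← h1]
      exact φ.symm_apply_apply _
    · exact map_add (σ⁻¹) a b
    · exact (σ⁻¹).bijective

theorem isCyclic_closure_of_acts [IsCyclic (K ≃+* K)]
    (huniq : ∀ (θ θ' : 𝔾 ≃* 𝔾) (ρ : Equiv.Perm I) (f : I → K → K),
      Acts S θ ρ f → Acts S θ' ρ f → θ = θ') :
    IsCyclic ↥(Subgroup.closure {φ : MulAut 𝔾 | ∃ σ : K ≃+* K, Acts S φ 1 (fun _ t => σ t)}) := by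
  let f : fieldPairs S →* (K ≃+* K) := (MonoidHom.snd _ _).comp (fieldPairs S).subtype
  have hf : Function.Injective f := by
    rintro ⟨⟨φ, σ⟩, h⟩ ⟨⟨φ', σ'⟩, h'⟩ e
    have e' : σ = σ' := e
    subst e'
    have := huniq φ φ' 1 _ h h'
    subst this
    rfl
  have hc : IsCyclic (fieldPairs S) := isCyclic_of_injective f hf
  let g : fieldPairs S →* MulAut 𝔾 := (MonoidHom.fst _ _).comp (fieldPairs S).subtype
  have hg : IsCyclic g.range := isCyclic_of_surjective g.rangeRestrict g.rangeRestrict_surjective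
  have e : Subgroup.closure {φ : MulAut 𝔾 | ∃ σ : K ≃+* K, Acts S φ 1 (fun _ t => σ t)} = g.range := by
    have : {φ : MulAut 𝔾 | ∃ σ : K ≃+* K, Acts S φ 1 (fun _ t => σ t)} = (g.range : Set (MulAut 𝔾)) := by
      ext φ
      constructor
      · rintro ⟨σ, h⟩
        exact ⟨⟨⟨φ, σ⟩, h⟩, rfl⟩
      · rintro ⟨⟨⟨φ', σ⟩, h⟩, rfl⟩
        exact ⟨σ, h⟩
    rw [this, Subgroup.closure_eq]
  rw [e]
  exact hg

end abstract

variable {F : Type*} [Field F] {D : ChevalleyDatum}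

/-- S6 : the field automorphisms form a cyclic group (uses S4, B8) -/
theorem field_cyclic [Finite F] (hT : TableOK D) (hR : Rel D F)
    (hS4 : ∀ φ : ↥(D.group F) ≃* ↥(D.group F),
      D.IsFieldAut φ ↔ ∃ σ : F ≃+* F, Acts (SG hT hR) φ 1 (fun _ t => σ t))
    (huniq : ∀ (θ θ' : ↥(D.group F) ≃* ↥(D.group F)) (ρ : Equiv.Perm (Fin D.rank)) (f : Fin D.rank → F → F),
      Acts (SG hT hR) θ ρ f → Acts (SG hT hR) θ' ρ f → θ = θ') :
    IsCyclic ↥(Subgroup.closure {φ : MulAut ↥(D.group F) | D.IsFieldAut φ}) := by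
  have hcyc : IsCyclic (F ≃+* F) := by
    have := Fintype.ofFinite F
    obtain ⟨p, hp⟩ := CharP.exists F
    obtain ⟨n, hpp, hn⟩ := FiniteField.card F p
    have : Fact p.Prime := ⟨hpp⟩
    exact (Cfsg.Agent.Lib.Helper50Out.ringAut_cyclic_card hn).1
  have e : {φ : MulAut ↥(D.group F) | D.IsFieldAut φ} =
      {φ : MulAut ↥(D.group F) | ∃ σ : F ≃+* F, Acts (SG hT hR) φ 1 (fun _ t => σ t)} := by
    ext φ
    exact hS4 φ
  rw [e]
  exact isCyclic_closure_of_acts (SG hT hR) huniq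

end Cfsg.Agent.Lib.Helper17AutS6
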