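import Cfsg.Agent.Lib.LeadAutConc
import Cfsg.Prelude.Def_KGroupFacts

set_option autoImplicit false

/-! PROJECT 100 pieces S8, S9 (with the other pieces as explicit hypotheses). -/

namespace Cfsg.Agent.Lib.Helper17AutS8

open Cfsg Cfsg.Lie Cfsg.Lie.ChevalleyDatum
open Subgroup Cfsg.Agent.Lib.Helper23Grp Cfsg.Agent.Lib.Helper23RG Cfsg.Agent.Lib.Helper23RG.RG
  Cfsg.Agent.Lib.Helper23Weyl Cfsg.Agent.Lib.LeadAutDefs
  Cfsg.Agent.Lib.Helper23Table Cfsg.Agent.Lib.Helper23Chev Cfsg.Agent.Lib.LeadAutConc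
open scoped MatrixGroups Matrix

variable {F : Type*} [Field F] {D : ChevalleyDatum}

theorem graphExp_self (c i : ℕ) : D.graphExp c i i = 1 := by
  unfold graphExp
  simp

/-- S8 : the kernel of `Ψ`; hypotheses: `exists_nrm`, `nrm_form`, `Acts.perms`, `Acts.nrm`, S3, S4, C6 -/
theorem ker_eq (hT : TableOK D) (hR : Rel D F) (Ψ : MulAut ↥(D.group F) →* Equiv.Perm (Fin D.rank))
    (h1 : ∀ (θ : MulAut ↥(D.group F)) (ρ : Equiv.Perm (Fin D.rank)), Nrm (SG hT hR) θ → Perms (SG hT hR) θ ρ → Ψ θ = ρ)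
    (h2 : ∀ y : ↥(D.group F), Ψ (MulAut.conj y) = 1)
    (hA2 : ∀ θ : ↥(D.group F) ≃* ↥(D.group F), ∃ y : ↥(D.group F), Nrm (SG hT hR) (θ.trans (MulAut.conj y)))
    (hform : ∀ θ : ↥(D.group F) ≃* ↥(D.group F), Nrm (SG hT hR) θ →
      ∃ (ρ : Equiv.Perm (Fin D.rank)) (c : Fin D.rank → Fˣ) (σ0 : F ≃+* F), D.IsDiagramSymmetry ρ ∧
        Acts (SG hT hR) θ ρ (fun i t => c i * (σ0 t) ^ D.graphExp (ringChar F) i (ρ i)))
    (hperms : ∀ (θ : ↥(D.group F) ≃* ↥(D.group F)) (ρ : Equiv.Perm (Fin D.rank)) (f : Fin D.rank → F → F),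
      Acts (SG hT hR) θ ρ f → Perms (SG hT hR) θ ρ)
    (hnrm : ∀ (θ : ↥(D.group F) ≃* ↥(D.group F)) (ρ : Equiv.Perm (Fin D.rank)) (f : Fin D.rank → F → F),
      Acts (SG hT hR) θ ρ f → Nrm (SG hT hR) θ)
    (hS3 : ∀ d : ↥(D.group F) ≃* ↥(D.group F),
      D.IsDiagonalAut d ↔ ∃ c : Fin D.rank → Fˣ, Acts (SG hT hR) d 1 (fun i t => c i * t))
    (hS4 : ∀ φ : ↥(D.group F) ≃* ↥(D.group F),
      D.IsFieldAut φ ↔ ∃ σ : F ≃+* F, Acts (SG hT hR) φ 1 (fun _ t => σ t))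
    (hC6 : ∀ σ : F ≃+* F, ∃ φ : ↥(D.group F) ≃* ↥(D.group F), D.IsFieldAut φ ∧
      ∀ (r : Fin D.nroots) (t : F), φ ((SG hT hR).x r t) = (SG hT hR).x r (σ t)) :
    Ψ.ker = Cfsg.Inn ↥(D.group F) ⊔ Subgroup.closure {φ : MulAut ↥(D.group F) | D.IsDiagonalAut φ} ⊔
      Subgroup.closure {φ : MulAut ↥(D.group F) | D.IsFieldAut φ} := by
  apply le_antisymm
  · intro θ hθ
    rw [MonoidHom.mem_ker] at hθ
    obtain ⟨y, hy⟩ := hA2 θ
    obtain ⟨ρ, c, σ0, -, hA⟩ := hform _ hy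
    have e1 : θ.trans (MulAut.conj y) = MulAut.conj y * θ := rfl
    have hρ : ρ = 1 := by
      rw [← h1 _ ρ hy (hperms _ _ _ hA), e1, map_mul, h2, hθ, one_mul]
    subst hρ
    obtain ⟨φ, hφ, hφx⟩ := hC6 σ0
    have hinv : ∀ (r : Fin D.nroots) (t : F),
        φ.symm ((SG hT hR).x r t) = (SG hT hR).x r (σ0.symm t) := by
      intro r t
      rw [MulEquiv.symm_apply_eq, hφx, RingEquiv.apply_symm_apply]
    -- `ν φ⁻¹` is diagonal
    have hd : D.IsDiagonalAut ((MulAut.conj y * θ) * φ⁻¹ : MulAut ↥(D.group F)) := by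
      rw [hS3]
      refine ⟨c, fun i t => ?_, fun i t ht => ?_, fun i a b => mul_add _ _ _, fun i => ?_⟩
      · have h3 := hA.pos i (σ0.symm t)
        simp only [Equiv.Perm.coe_one, id_eq, graphExp_self, pow_one, RingEquiv.apply_symm_apply] at h3 ⊢
        rw [← h3, ← hinv]
        rfl
      · have ht' : σ0.symm t ≠ 0 := by simpa using ht
        have h3 := hA.neg i (σ0.symm t) ht'
        have e2 : -(σ0.symm t)⁻¹ = σ0.symm (-t⁻¹) := by simp
        simp only [Equiv.Perm.coe_one, id_eq, graphExp_self, pow_one, RingEquiv.apply_symm_apply] at h3 ⊢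
        rw [← h3, e2, ← hinv]
        rfl
      · constructor
        · intro a b hab
          exact mul_left_cancel₀ (c i).ne_zero hab
        · intro b
          exact ⟨(c i : F)⁻¹ * b, by simp⟩
    have e3 : θ = (MulAut.conj y)⁻¹ * ((MulAut.conj y * θ) * φ⁻¹) * φ := by group
    rw [e3]
    refine mul_mem (mul_mem ?_ ?_) ?_
    · exact (le_sup_left.trans le_sup_left : Cfsg.Inn ↥(D.group F) ≤ _) (inv_mem ⟨y, rfl⟩)
    · exact (le_sup_right.trans le_sup_left :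
        Subgroup.closure {φ : MulAut ↥(D.group F) | D.IsDiagonalAut φ} ≤ _) (subset_closure hd)
    · exact (le_sup_right :
        Subgroup.closure {φ : MulAut ↥(D.group F) | D.IsFieldAut φ} ≤ _) (subset_closure hφ)
  · refine sup_le (sup_le ?_ ?_) ?_
    · rintro _ ⟨y, rfl⟩
      exact h2 y
    · rw [closure_le]
      intro d hd
      obtain ⟨c, hc⟩ := (hS3 d).mp hd
      exact h1 d 1 (hnrm _ _ _ hc) (hperms _ _ _ hc)
    · rw [closure_le]
      intro d hd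
      obtain ⟨c, hc⟩ := (hS4 d).mp hd
      exact h1 d 1 (hnrm _ _ _ hc) (hperms _ _ _ hc)

end Cfsg.Agent.Lib.Helper17AutS8
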