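import Cfsg.Agent.Lib.LeadAutConc
import Cfsg.Prelude.Def_KGroupFacts

set_option autoImplicit false

/-! PROJECT 100 piece S9 (with the other pieces as explicit hypotheses). -/

namespace Cfsg.Agent.Lib.Helper17AutS9

open Cfsg Cfsg.Lie Cfsg.Lie.ChevalleyDatum
open Subgroup Cfsg.Agent.Lib.Helper23Grp Cfsg.Agent.Lib.Helper23RG Cfsg.Agent.Lib.Helper23RG.RG
  Cfsg.Agent.Lib.Helper23Weyl Cfsg.Agent.Lib.LeadAutDefs
  Cfsg.Agent.Lib.Helper23Table Cfsg.Agent.Lib.Helper23Chev Cfsg.Agent.Lib.LeadAutConc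
open scoped MatrixGroups Matrix

variable {F : Type*} [Field F] {D : ChevalleyDatum}

/-- S9 : `Inn·Diag` is normal; hypotheses: `exists_nrm`, `main_nrm`, S2 (`diag_conj`), S3 -/
theorem inndiag_normal (hT : TableOK D) (hR : Rel D F)
    (hA2 : ∀ θ : ↥(D.group F) ≃* ↥(D.group F), ∃ y : ↥(D.group F), Nrm (SG hT hR) (θ.trans (MulAut.conj y)))
    (hmain : ∀ θ : ↥(D.group F) ≃* ↥(D.group F), Nrm (SG hT hR) θ →
      ∃ (ρ : Equiv.Perm (Fin D.rank)) (c : Fin D.rank → Fˣ) (σ : Fin D.rank → (F ≃+* F)),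
        Acts (SG hT hR) θ ρ (fun i t => c i * σ i t))
    (hS2 : ∀ (ν d : ↥(D.group F) ≃* ↥(D.group F)) (ρ : Equiv.Perm (Fin D.rank)) (a c : Fin D.rank → Fˣ)
      (σ : Fin D.rank → (F ≃+* F)), Acts (SG hT hR) ν ρ (fun i t => a i * σ i t) →
      Acts (SG hT hR) d 1 (fun i t => c i * t) →
      ∃ c' : Fin D.rank → Fˣ, Acts (SG hT hR) ((ν.symm.trans d).trans ν) 1 (fun i t => c' i * t))
    (hS3 : ∀ d : ↥(D.group F) ≃* ↥(D.group F),
      D.IsDiagonalAut d ↔ ∃ c : Fin D.rank → Fˣ, Acts (SG hT hR) d 1 (fun i t => c i * t)) :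
    (Cfsg.Inn ↥(D.group F) ⊔ Subgroup.closure {φ : MulAut ↥(D.group F) | D.IsDiagonalAut φ}).Normal := by
  set N := Cfsg.Inn ↥(D.group F) ⊔ Subgroup.closure {φ : MulAut ↥(D.group F) | D.IsDiagonalAut φ} with hN
  have hI : Cfsg.Inn ↥(D.group F) ≤ N := le_sup_left
  have hDg : Subgroup.closure {φ : MulAut ↥(D.group F) | D.IsDiagonalAut φ} ≤ N := le_sup_right
  have key : ∀ θ : MulAut ↥(D.group F), N.map (MulAut.conj θ).toMonoidHom ≤ N := by
    intro θ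
    rw [hN, Subgroup.map_sup]
    refine sup_le ?_ ?_
    · rintro _ ⟨n, hn, rfl⟩
      exact hI ((Cfsg.innNormal ↥(D.group F)).conj_mem n hn θ)
    · rw [MonoidHom.map_closure, closure_le]
      rintro _ ⟨d, hd, rfl⟩
      obtain ⟨y, hy⟩ := hA2 θ
      obtain ⟨ρ, a, σ, hA⟩ := hmain _ hy
      obtain ⟨c, hc⟩ := (hS3 d).mp hd
      obtain ⟨c', hc'⟩ := hS2 _ d ρ a c σ hA hc
      have hd' := (hS3 _).mpr ⟨c', hc'⟩
      set ν : MulAut ↥(D.group F) := θ.trans (MulAut.conj y) with hν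
      have e1 : ν = MulAut.conj y * θ := rfl
      have e2 : (ν.symm.trans d).trans ν = ν * d * ν⁻¹ := rfl
      rw [e2] at hd'
      have e3 : (MulAut.conj θ).toMonoidHom d =
          (MulAut.conj y)⁻¹ * (ν * d * ν⁻¹) * MulAut.conj y := by
        change θ * d * θ⁻¹ = _
        rw [e1]
        group
      rw [SetLike.mem_coe, e3]
      exact mul_mem (mul_mem (hI (inv_mem ⟨y, rfl⟩)) (hDg (subset_closure hd'))) (hI ⟨y, rfl⟩)
  exact ⟨fun n hn g => key g ⟨n, hn, rfl⟩⟩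

end Cfsg.Agent.Lib.Helper17AutS9
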