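import Mathlib
import Cfsg.Agent.Lib.Helper27Core

/-!
PROJECT 13 piece `commsup` (pure group theory).
-/

set_option autoImplicit false

namespace Cfsg.Agent.Lib.Helper17BG13commsup

open Subgroup
open scoped commutatorElement

theorem commutator_le_sup {X : Type*} [Group X] {K B D : Subgroup X}
    (hKB : K ≤ normalizer (B : Set X)) (hK : K ≤ B ⊔ D) (hDK : D ≤ K) : ⁅K, K⁆ ≤ B ⊔ ⁅D, D⁆ := by
  have hdec : ∀ k ∈ K, ∃ b ∈ B, ∃ d ∈ D, k = b * d := by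
    intro k hk
    have h1 : k ∈ B ⊔ D := hK hk
    rw [← SetLike.mem_coe, coe_mul_of_right_le_normalizer_left B D (hDK.trans hKB),
      Set.mem_mul] at h1
    obtain ⟨b, hb, d, hd, rfl⟩ := h1
    exact ⟨b, hb, d, hd, rfl⟩
  have hconj : ∀ k ∈ K, ∀ b ∈ B, k * b * k⁻¹ ∈ B := by
    intro k hk b hb
    exact ((mem_normalizer_iff.mp (hKB hk)) b).mp hb
  rw [commutator_le]
  intro k₁ hk₁ k₂ hk₂
  obtain ⟨b₁, hb₁, d₁, hd₁, rfl⟩ := hdec k₁ hk₁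
  obtain ⟨b₂, hb₂, d₂, hd₂, rfl⟩ := hdec k₂ hk₂
  have e : ⁅b₁ * d₁, b₂ * d₂⁆ =
      (b₁ * (d₁ * b₂ * d₁⁻¹) * ((d₁ * d₂ * d₁⁻¹) * b₁⁻¹ * (d₁ * d₂ * d₁⁻¹)⁻¹)) * ⁅d₁, d₂⁆ * b₂⁻¹ := by
    simp only [commutatorElement_def]
    group
  rw [e]
  have hB : B ≤ B ⊔ ⁅D, D⁆ := le_sup_left
  have hD : ⁅D, D⁆ ≤ B ⊔ ⁅D, D⁆ := le_sup_right
  refine mul_mem (mul_mem (hB (mul_mem (mul_mem hb₁ (hconj _ (hDK hd₁) _ hb₂)) ?_))
    (hD (commutator_mem_commutator hd₁ hd₂))) (hB (inv_mem hb₂))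
  exact hconj _ (hDK (mul_mem (mul_mem hd₁ hd₂) (inv_mem hd₁))) _ (inv_mem hb₁)

/-- consequence: a prime dividing `|K'|` and not `|B|` divides `|D'|` -/
theorem dvd_card_commutator {X : Type*} [Group X] [Finite X] {K B D : Subgroup X}
    (hKB : K ≤ normalizer (B : Set X)) (hK : K ≤ B ⊔ D) (hDK : D ≤ K) {p : ℕ} (hp : p.Prime)
    (hd : p ∣ Nat.card ↥⁅K, K⁆) (hB : ¬ p ∣ Nat.card B) : p ∣ Nat.card ↥⁅D, D⁆ := by
  have h1 : Nat.card ↥⁅K, K⁆ ∣ Nat.card ↥(B ⊔ ⁅D, D⁆) :=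
    card_dvd_of_le (commutator_le_sup hKB hK hDK)
  have h2 : ⁅D, D⁆ ≤ normalizer (B : Set X) :=
    ((commutator_le_self D).trans hDK).trans hKB
  have h3 := Cfsg.Agent.Lib.Helper27Core.card_sup_dvd h2
  exact (hp.dvd_mul.mp ((hd.trans h1).trans h3)).resolve_left hB

end Cfsg.Agent.Lib.Helper17BG13commsup
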