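import Cfsg.Agent.Lib.Helper62F4

set_option autoImplicit false

/-! The extraspecial group `3^{1+2}` inside `GU_3(2)`: computations over the model of the field with four
elements. -/

namespace Cfsg.Agent.Lib.Helper17Exc23A

open Matrix Cfsg.Agent.Lib.Helper62F4

/-- `3 × 3` matrices over the model field -/
abbrev M3 := Matrix (Fin 3) (Fin 3) F4

/-- entrywise square -/
def sqM (M : M3) : M3 := M.map (fun x => x ^ 2)

/-- the matrix `w ^ c • X ^ a * Z ^ b` (`X` the cyclic shift, `Z = diag (1, w, w ^ 2)`) -/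
def EE (c a b : Fin 3) : M3 :=
  Matrix.of fun i j => if i = j + a then w ^ (c.val + b.val * j.val) else 0

/-- the Fourier matrix -/
def W4 : M3 := !![1, 1, 1; 1, w, w ^ 2; 1, w ^ 2, w]

theorem EE_mul : ∀ c a b c' a' b' : Fin 3,
    EE c a b * EE c' a' b' = EE (c + c' + b * a') (a + a') (b + b') := by
  decide +kernel

theorem EE_one : EE 0 0 0 = 1 := by decide +kernel

theorem EE_scalar : ∀ c : Fin 3, EE c 0 0 = (w ^ c.val) • (1 : M3) := by decide +kernel

theorem EE_unitary : ∀ c a b : Fin 3, (EE c a b)ᵀ * sqM (EE c a b) = 1 := by decide +kernel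

theorem EE_cube : ∀ c a b : Fin 3, EE c a b * EE c a b * EE c a b = 1 := by decide +kernel

theorem EE_comm : ∀ c a b c' a' b' : Fin 3, ∃ k : Fin 3,
    EE c a b * EE c' a' b' = (w ^ k.val) • (EE c' a' b' * EE c a b) := by
  decide +kernel

theorem W4_unitary : W4ᵀ * sqM W4 = 1 := by decide +kernel

theorem W4_EE : ∀ c a b : Fin 3, (a = 0 ∧ b = 0) ∨ ∃ k : Fin 3, k ≠ 0 ∧
    EE c a b * (W4 * EE c a b * (sqM W4)ᵀ) = (w ^ k.val) • ((W4 * EE c a b * (sqM W4)ᵀ) * EE c a b) := by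
  decide +kernel

theorem single_eq : ∀ i j : Fin 3, (Matrix.single i j 1 : M3) =
    EE 0 (i - j) 0 + (w ^ (2 * j.val)) • EE 0 (i - j) 1 + (w ^ j.val) • EE 0 (i - j) 2 := by
  decide +kernel

theorem forall_ne_zero : ∀ x : F4, x ≠ 0 → ∃ c : Fin 3, x = w ^ c.val := by decide +kernel

/-- norm of a vector -/
def nrm (a b c : F4) : F4 := a * a ^ 2 + b * b ^ 2 + c * c ^ 2

/-- hermitian product of two vectors -/
def ip (a b c d e f : F4) : F4 := a * d ^ 2 + b * e ^ 2 + c * f ^ 2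

/-- enumeration principle for the unitary matrices -/
theorem forall_GU (P : M3 → Prop)
    (h : ∀ a b c : F4, nrm a b c = 1 → ∀ d e f : F4, nrm d e f = 1 → ip a b c d e f = 0 →
      ∀ g h i : F4, nrm g h i = 1 → ip a b c g h i = 0 → ip d e f g h i = 0 →
      P !![a, d, g; b, e, h; c, f, i]) (x : M3) (hx : xᵀ * sqM x = 1) : P x := by
  have hh : ∀ j k : Fin 3, x 0 j * x 0 k ^ 2 + x 1 j * x 1 k ^ 2 + x 2 j * x 2 k ^ 2 = (1 : M3) j k := by
    intro j k
    rw [← hx, Matrix.mul_apply, Fin.sum_univ_three]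
    rfl
  rw [Matrix.eta_fin_three x]
  exact h _ _ _ (hh 0 0) _ _ _ (hh 1 1) (hh 0 1) _ _ _ (hh 2 2) (hh 0 2) (hh 1 2)

set_option maxRecDepth 100000 in
set_option synthInstance.maxSize 100000 in
set_option synthInstance.maxHeartbeats 1000000 in
theorem brute : ∀ a b c : F4, nrm a b c = 1 → ∀ d e f : F4, nrm d e f = 1 → ip a b c d e f = 0 →
      ∀ g h i : F4, nrm g h i = 1 → ip a b c g h i = 0 → ip d e f g h i = 0 →
      a + e + i = 0 →
      a * e * i - a * h * f - d * b * i + d * h * c + g * b * f - g * e * c = 1 →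
      ∃ c' a' b' : Fin 3, !![a, d, g; b, e, h; c, f, i] = EE c' a' b' := by
  decide +kernel

/-- the unitary matrices of trace zero and determinant one -/
theorem classify (x : M3) (hx : xᵀ * sqM x = 1) (ht : x.trace = 0) (hd : x.det = 1) :
    ∃ c a b : Fin 3, x = EE c a b := by
  have := forall_GU (fun M => M.trace = 0 → M.det = 1 → ∃ c a b : Fin 3, M = EE c a b) ?_ x hx ht hd
  · exact this
  · intro a b c h1 d e f h2 h3 g h i h4 h5 h6 ht hd
    rw [Matrix.trace_fin_three] at ht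
    rw [Matrix.det_fin_three] at hd
    exact brute a b c h1 d e f h2 h3 g h i h4 h5 h6 ht hd

theorem EE_trace_det : ∀ c a b : Fin 3, (a = 0 ∧ b = 0) ∨
    ((EE c a b) 0 0 + (EE c a b) 1 1 + (EE c a b) 2 2 = 0 ∧
      (EE c a b) 0 0 * (EE c a b) 1 1 * (EE c a b) 2 2 - (EE c a b) 0 0 * (EE c a b) 1 2 * (EE c a b) 2 1
        - (EE c a b) 0 1 * (EE c a b) 1 0 * (EE c a b) 2 2 + (EE c a b) 0 1 * (EE c a b) 1 2 * (EE c a b) 2 0
        + (EE c a b) 0 2 * (EE c a b) 1 0 * (EE c a b) 2 1 - (EE c a b) 0 2 * (EE c a b) 1 1 * (EE c a b) 2 0 = 1) := by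
  decide +kernel

theorem sqM_mul (A B : M3) : sqM (A * B) = sqM A * sqM B := by
  have : sqM = fun M : M3 => M.map (frobenius F4 2) := by
    funext M
    rfl
  simp only [this]
  exact Matrix.map_mul

theorem sqM_sqM (A : M3) : sqM (sqM A) = A := by
  ext i j
  have : ∀ x : F4, (x ^ 2) ^ 2 = x := by decide +kernel
  exact this _

theorem sqM_transpose (A : M3) : sqM Aᵀ = (sqM A)ᵀ := rfl

/-- the unitary group normalises the set of the `EE c a b` -/
theorem conj_EE (g : M3) (hg : gᵀ * sqM g = 1) (c a b : Fin 3) :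
    ∃ c' a' b' : Fin 3, g * EE c a b * (sqM g)ᵀ = EE c' a' b' := by
  have h1 : (sqM g)ᵀ * g = 1 := by
    have := congrArg Matrix.transpose hg
    rwa [Matrix.transpose_mul, Matrix.transpose_transpose, Matrix.transpose_one] at this
  have h2 : g * (sqM g)ᵀ = 1 := mul_eq_one_comm.mp h1
  have h3 : sqM g * gᵀ = 1 := mul_eq_one_comm.mp hg
  rcases EE_trace_det c a b with ⟨rfl, rfl⟩ | ⟨ht, hd⟩
  · refine ⟨c, 0, 0, ?_⟩
    rw [EE_scalar, Matrix.mul_smul, Matrix.smul_mul, mul_one, h2]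
  · apply classify
    · rw [Matrix.transpose_mul, Matrix.transpose_mul, Matrix.transpose_transpose, sqM_mul, sqM_mul,
        sqM_transpose, sqM_sqM]
      calc sqM g * ((EE c a b)ᵀ * gᵀ) * (sqM g * sqM (EE c a b) * gᵀ)
          = sqM g * ((EE c a b)ᵀ * (gᵀ * sqM g) * sqM (EE c a b)) * gᵀ := by simp only [mul_assoc]
        _ = 1 := by rw [hg, mul_one, EE_unitary, mul_one, h3]
    · rw [Matrix.trace_mul_cycle, h1, one_mul, Matrix.trace_fin_three]
      exact ht
    · rw [Matrix.det_mul, Matrix.det_mul, mul_right_comm, ← Matrix.det_mul, h2, Matrix.det_one, one_mul,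
        Matrix.det_fin_three]
      exact hd

end Cfsg.Agent.Lib.Helper17Exc23A
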