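import Cfsg.Prelude.Def_GeometricClasses
import Cfsg.Agent.Lib.Helper17Exc23A

set_option autoImplicit false

/-! The extraspecial group `3^{1+2}` inside `GU_3(2)` over an arbitrary field with four elements. -/

namespace Cfsg.Agent.Lib.Helper17Exc23B

open Cfsg Cfsg.Geo Matrix Cfsg.Agent.Lib.Helper62F4 Cfsg.Agent.Lib.Helper17Exc23A
open scoped MatrixGroups

variable {F : Type*} [Field F]

/-- what we need to know about the extraspecial subgroup `E` of `GU_3(2)` -/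
structure Good (σ : F ≃+* F) (E : Subgroup (GL (Fin 3) F)) : Prop where
  cube : ∀ g ∈ E, g ^ 3 = 1
  unitary : ∀ g ∈ E, (g : Matrix (Fin 3) (Fin 3) F)ᵀ * (g : Matrix (Fin 3) (Fin 3) F).map σ = 1
  conj : ∀ u : GL (Fin 3) F, (u : Matrix (Fin 3) (Fin 3) F)ᵀ * (u : Matrix (Fin 3) (Fin 3) F).map σ = 1 →
    ∀ g ∈ E, u * g * u⁻¹ ∈ E
  adjoin : ∀ M : Matrix (Fin 3) (Fin 3) F, M ∈ Algebra.adjoin F (matrixSet E)
  comm : ∀ g ∈ E, ∀ g' ∈ E, ∃ k : F, (g : Matrix (Fin 3) (Fin 3) F) * (g' : Matrix (Fin 3) (Fin 3) F) =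
    k • ((g' : Matrix (Fin 3) (Fin 3) F) * (g : Matrix (Fin 3) (Fin 3) F))
  scalar : ∀ g : GL (Fin 3) F, (∃ c : F, (g : Matrix (Fin 3) (Fin 3) F) = c • 1) → g ∈ E
  fourier : ∃ W : GL (Fin 3) F,
    (W : Matrix (Fin 3) (Fin 3) F)ᵀ * (W : Matrix (Fin 3) (Fin 3) F).map σ = 1 ∧
    ∀ g ∈ E, (∃ c : F, (g : Matrix (Fin 3) (Fin 3) F) = c • 1) ∨
      ∃ k : F, k ≠ 1 ∧ (g : Matrix (Fin 3) (Fin 3) F) * ((W * g * W⁻¹ : GL (Fin 3) F) : Matrix (Fin 3) (Fin 3) F) =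
        k • (((W * g * W⁻¹ : GL (Fin 3) F) : Matrix (Fin 3) (Fin 3) F) * (g : Matrix (Fin 3) (Fin 3) F))

/-- the group `3^{1+2}` -/
def EF (ψ : F4 →+* F) : Subgroup (GL (Fin 3) F) where
  carrier := {g | ∃ c a b : Fin 3, (g : Matrix (Fin 3) (Fin 3) F) = (EE c a b).map ψ}
  one_mem' := ⟨0, 0, 0, by rw [EE_one, Units.val_one]; simp⟩
  mul_mem' := by
    rintro g g' ⟨c, a, b, h⟩ ⟨c', a', b', h'⟩
    exact ⟨_, _, _, by rw [Units.val_mul, h, h', ← Matrix.map_mul, EE_mul]⟩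
  inv_mem' := by
    rintro g ⟨c, a, b, h⟩
    have h3 : g * g * g = 1 := by
      apply Units.ext
      rw [Units.val_mul, Units.val_mul, h, ← Matrix.map_mul, ← Matrix.map_mul, EE_cube, Units.val_one]
      simp
    have : g⁻¹ = g * g := by
      rw [inv_eq_iff_mul_eq_one, ← mul_assoc]
      exact h3
    exact ⟨_, _, _, by rw [this, Units.val_mul, h, ← Matrix.map_mul, EE_mul]⟩

lemma mem_EF {ψ : F4 →+* F} {g : GL (Fin 3) F} :
    g ∈ EF ψ ↔ ∃ c a b : Fin 3, (g : Matrix (Fin 3) (Fin 3) F) = (EE c a b).map ψ := Iff.rfl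

lemma map_sqM {σ : F ≃+* F} (hσ : ∀ a, σ a = a ^ 2) (ψ : F4 →+* F) (M : M3) :
    (M.map ψ).map σ = (sqM M).map ψ := by
  ext i j
  simp [sqM, hσ]

lemma map_one' (ψ : F4 →+* F) : (1 : M3).map ψ = 1 := by simp

lemma inv_val {σ : F ≃+* F} {u : GL (Fin 3) F}
    (hu : (u : Matrix (Fin 3) (Fin 3) F)ᵀ * (u : Matrix (Fin 3) (Fin 3) F).map σ = 1) :
    ((u⁻¹ : GL (Fin 3) F) : Matrix (Fin 3) (Fin 3) F) = ((u : Matrix (Fin 3) (Fin 3) F).map σ)ᵀ := by
  have h1 : ((u : Matrix (Fin 3) (Fin 3) F).map σ)ᵀ * (u : Matrix (Fin 3) (Fin 3) F) = 1 := by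
    have := congrArg Matrix.transpose hu
    rwa [Matrix.transpose_mul, Matrix.transpose_transpose, Matrix.transpose_one] at this
  calc ((u⁻¹ : GL (Fin 3) F) : Matrix (Fin 3) (Fin 3) F)
      = (((u : Matrix (Fin 3) (Fin 3) F).map σ)ᵀ * (u : Matrix (Fin 3) (Fin 3) F)) *
          ((u⁻¹ : GL (Fin 3) F) : Matrix (Fin 3) (Fin 3) F) := by rw [h1, one_mul]
    _ = _ := by rw [mul_assoc, ← Units.val_mul, mul_inv_cancel, Units.val_one, mul_one]

theorem good_EF {σ : F ≃+* F} (hσ : ∀ a, σ a = a ^ 2) (ψ : F4 ≃+* F) :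
    Good σ (EF (ψ : F4 →+* F)) := by
  have hinj : Function.Injective (fun M : M3 => M.map (ψ : F4 →+* F)) :=
    Matrix.map_injective ψ.injective
  have hsurj : ∀ M : Matrix (Fin 3) (Fin 3) F, ∃ M₀ : M3, M = M₀.map (ψ : F4 →+* F) := by
    intro M
    refine ⟨M.map ψ.symm, ?_⟩
    ext i j
    simp
  have hun : ∀ M₀ : M3, (M₀.map (ψ : F4 →+* F))ᵀ * (M₀.map (ψ : F4 →+* F)).map σ = 1 → M₀ᵀ * sqM M₀ = 1 := by
    intro M₀ h
    apply hinj
    show (M₀ᵀ * sqM M₀).map (ψ : F4 →+* F) = (1 : M3).map (ψ : F4 →+* F)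
    rw [map_one', Matrix.map_mul, ← map_sqM hσ, ← h]
    rfl
  have hsm : ∀ (x : F4) (M₀ : M3), (x • M₀).map (ψ : F4 →+* F) = (ψ x) • M₀.map (ψ : F4 →+* F) := by
    intro x M₀
    ext i j
    simp
  refine ⟨?_, ?_, ?_, ?_, ?_, ?_, ?_⟩
  · rintro g ⟨c, a, b, h⟩
    apply Units.ext
    rw [pow_succ, pow_two, Units.val_mul, Units.val_mul, h, ← Matrix.map_mul, ← Matrix.map_mul, EE_cube,
      Units.val_one, map_one']
  · rintro g ⟨c, a, b, h⟩
    rw [h, map_sqM hσ, ← Matrix.transpose_map, ← Matrix.map_mul, EE_unitary, map_one']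
  · rintro u hu g ⟨c, a, b, h⟩
    obtain ⟨u₀, hu₀⟩ := hsurj u
    have hu₀' : u₀ᵀ * sqM u₀ = 1 := hun u₀ (by rw [← hu₀]; exact hu)
    obtain ⟨c', a', b', h'⟩ := conj_EE u₀ hu₀' c a b
    refine ⟨c', a', b', ?_⟩
    rw [Units.val_mul, Units.val_mul, inv_val hu, h, hu₀, map_sqM hσ, ← Matrix.transpose_map, ← Matrix.map_mul,
      ← Matrix.map_mul, h']
  · intro M
    have hE : ∀ c a b : Fin 3, (EE c a b).map (ψ : F4 →+* F) ∈ Algebra.adjoin F (matrixSet (EF (ψ : F4 →+* F))) := by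
      intro c a b
      apply Algebra.subset_adjoin
      have h1 : (EE c a b).map (ψ : F4 →+* F) * ((EE c a b * EE c a b).map (ψ : F4 →+* F)) = 1 := by
        rw [← Matrix.map_mul, ← mul_assoc, EE_cube, map_one']
      have h2 : ((EE c a b * EE c a b).map (ψ : F4 →+* F)) * (EE c a b).map (ψ : F4 →+* F) = 1 := by
        rw [← Matrix.map_mul, EE_cube, map_one']
      exact ⟨⟨_, _, h1, h2⟩, ⟨c, a, b, rfl⟩, rfl⟩
    rw [Matrix.matrix_eq_sum_single M]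
    refine Subalgebra.sum_mem _ fun i _ => Subalgebra.sum_mem _ fun j _ => ?_
    have h1 : (Matrix.single i j (M i j) : Matrix (Fin 3) (Fin 3) F) =
        M i j • (Matrix.single i j (1 : F4) : M3).map (ψ : F4 →+* F) := by
      ext k l
      simp [Matrix.single_apply]
    rw [h1, single_eq, Matrix.map_add, Matrix.map_add, hsm, hsm]
    · exact Subalgebra.smul_mem _ (Subalgebra.add_mem _ (Subalgebra.add_mem _ (hE _ _ _)
        (Subalgebra.smul_mem _ (hE _ _ _) _)) (Subalgebra.smul_mem _ (hE _ _ _) _)) _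
    · intro x y; exact map_add _ _ _
    · intro x y; exact map_add _ _ _
  · rintro g ⟨c, a, b, h⟩ g' ⟨c', a', b', h'⟩
    obtain ⟨k, hk⟩ := EE_comm c a b c' a' b'
    exact ⟨ψ (w ^ k.val), by rw [h, h', ← Matrix.map_mul, ← Matrix.map_mul, hk, hsm]⟩
  · rintro g ⟨x, hx⟩
    have hx0 : x ≠ 0 := by
      rintro rfl
      have h1 := g.mul_inv
      rw [hx, zero_smul, zero_mul] at h1
      exact zero_ne_one h1
    have hx1 : ψ.symm x ≠ 0 := by
      intro h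
      apply hx0
      have := congrArg ψ h
      simpa using this
    obtain ⟨c, hc⟩ := forall_ne_zero _ hx1
    refine ⟨c, 0, 0, ?_⟩
    rw [EE_scalar, hsm, ← hc, map_one', hx]
    simp
  · have h1 : W4.map (ψ : F4 →+* F) * ((sqM W4)ᵀ).map (ψ : F4 →+* F) = 1 := by
      rw [← Matrix.map_mul]
      have : W4 * (sqM W4)ᵀ = 1 := by decide +kernel
      rw [this, map_one']
    have h2 : ((sqM W4)ᵀ).map (ψ : F4 →+* F) * W4.map (ψ : F4 →+* F) = 1 := mul_eq_one_comm.mp h1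
    refine ⟨⟨_, _, h1, h2⟩, ?_, ?_⟩
    · show (W4.map (ψ : F4 →+* F))ᵀ * (W4.map (ψ : F4 →+* F)).map σ = 1
      rw [map_sqM hσ, ← Matrix.transpose_map, ← Matrix.map_mul, W4_unitary, map_one']
    · rintro g ⟨c, a, b, h⟩
      rcases W4_EE c a b with ⟨rfl, rfl⟩ | ⟨k, hk0, hk⟩
      · left
        exact ⟨ψ (w ^ c.val), by rw [h, EE_scalar, hsm, map_one']⟩
      · right
        refine ⟨ψ (w ^ k.val), ?_, ?_⟩
        · intro h1
          have h2 : w ^ k.val = 1 := by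
            apply ψ.injective
            rw [h1, map_one]
          have h3 : ∀ k : Fin 3, k ≠ 0 → w ^ k.val ≠ 1 := by decide +kernel
          exact h3 k hk0 h2
        · have e1 : ((⟨_, _, h1, h2⟩ * g * (⟨_, _, h1, h2⟩ : GL (Fin 3) F)⁻¹ : GL (Fin 3) F) :
              Matrix (Fin 3) (Fin 3) F) = (W4 * EE c a b * (sqM W4)ᵀ).map (ψ : F4 →+* F) := by
            rw [Matrix.map_mul, Matrix.map_mul, ← h]
            rfl
          rw [e1, h, ← Matrix.map_mul, ← Matrix.map_mul, hk, hsm]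

theorem exists_good [Fintype F] (hF : Fintype.card F = 4) {σ : F ≃+* F} (hσ : ∀ a, σ a = a ^ 2) :
    ∃ E : Subgroup (GL (Fin 3) F), Good σ E :=
  ⟨_, good_EF hσ (equivF4 hF).symm⟩

end Cfsg.Agent.Lib.Helper17Exc23B
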