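import Cfsg.Agent.Lib.Helper13Tensor

set_option autoImplicit false

/-! Normal form of the elements of the standard tensor wreath group, more on pure tensors. -/

namespace Cfsg.Agent.Lib.Helper17Exc23C

open Cfsg Cfsg.Geo Matrix Cfsg.Agent.Lib.Helper13Tensor
open scoped MatrixGroups

variable {m t : ℕ} {F : Type*} [Field F]

lemma PTG_val (g : Fin t → GL (Fin m) F) :
    (PTG g : Matrix (Fin t → Fin m) (Fin t → Fin m) F) = PT (fun i => (g i : Matrix (Fin m) (Fin m) F)) := rfl

lemma PTG_mul (g g' : Fin t → GL (Fin m) F) : PTG (g * g') = PTG g * PTG g' := by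
  apply Units.ext
  rw [Units.val_mul, PTG_val, PTG_val, PTG_val, ← PT_mul]
  rfl

lemma PTG_one : PTG (1 : Fin t → GL (Fin m) F) = 1 := by
  apply Units.ext
  rw [PTG_val, Units.val_one, ← PT_one]
  rfl

lemma PTG_inv (g : Fin t → GL (Fin m) F) : (PTG g)⁻¹ = PTG g⁻¹ := rfl

lemma SG_val (π : Equiv.Perm (Fin t)) :
    ((SG π : GL (Fin t → Fin m) F) : Matrix (Fin t → Fin m) (Fin t → Fin m) F) = S π := rfl

lemma SG_mul (π π' : Equiv.Perm (Fin t)) : (SG π * SG π' : GL (Fin t → Fin m) F) = SG (π * π') := by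
  apply Units.ext
  rw [Units.val_mul, SG_val, SG_val, SG_val]
  ext x z
  rw [S_mul_apply, S_apply, S_apply]
  rfl

lemma SG_one : (SG 1 : GL (Fin t → Fin m) F) = 1 := by
  apply Units.ext
  rw [SG_val, Units.val_one]
  ext x z
  rw [S_apply, Matrix.one_apply]
  simp [eq_comm]

lemma SG_inv (π : Equiv.Perm (Fin t)) : (SG π : GL (Fin t → Fin m) F)⁻¹ = SG π⁻¹ := rfl

lemma SG_mul_PTG (π : Equiv.Perm (Fin t)) (g : Fin t → GL (Fin m) F) :
    SG π * PTG g = PTG (g ∘ π.symm) * SG π := by
  apply Units.ext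
  rw [Units.val_mul, Units.val_mul, SG_val, PTG_val, PTG_val, S_mul_PT]
  rfl

/-- normal form in the standard tensor wreath group -/
theorem exists_normal_form {g : GL (Fin t → Fin m) F} (hg : g ∈ tensorWreathStandard m t F) :
    ∃ (u : Fin t → GL (Fin m) F) (π : Equiv.Perm (Fin t)), g = PTG u * SG π := by
  unfold tensorWreathStandard at hg
  induction hg using Subgroup.closure_induction with
  | mem x hx =>
    rcases hx with ⟨gs, hgs⟩ | ⟨π, hπ⟩
    · refine ⟨gs, 1, ?_⟩
      rw [SG_one, mul_one]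
      apply Units.ext
      ext x y
      exact hgs x y
    · refine ⟨1, π, ?_⟩
      rw [PTG_one, one_mul]
      apply Units.ext
      ext x y
      exact hπ x y
  | one => exact ⟨1, 1, by rw [PTG_one, SG_one, one_mul]⟩
  | mul x y _ _ hx hy =>
    obtain ⟨u, π, rfl⟩ := hx
    obtain ⟨u', π', rfl⟩ := hy
    refine ⟨u * (u' ∘ π.symm), π * π', ?_⟩
    rw [PTG_mul, ← SG_mul, mul_assoc, ← mul_assoc (SG π), SG_mul_PTG]
    simp only [mul_assoc]
  | inv x _ hx =>
    obtain ⟨u, π, rfl⟩ := hx
    refine ⟨u⁻¹ ∘ (π⁻¹).symm, π⁻¹, ?_⟩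
    rw [_root_.mul_inv_rev, SG_inv, PTG_inv, SG_mul_PTG]

lemma PT_smul (k : Fin t → F) (a : Fin t → Matrix (Fin m) (Fin m) F) :
    PT (fun i => k i • a i) = (∏ i, k i) • PT a := by
  ext x y
  simp [PT_apply, Finset.prod_mul_distrib]

lemma PT_map (σ : F ≃+* F) (a : Fin t → Matrix (Fin m) (Fin m) F) :
    (PT a).map σ = PT (fun i => (a i).map σ) := by
  ext x y
  simp [PT_apply, map_prod]

lemma S_map (σ : F ≃+* F) (π : Equiv.Perm (Fin t)) :
    (S π : Matrix (Fin t → Fin m) (Fin t → Fin m) F).map σ = S π := by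
  ext x y
  rw [Matrix.map_apply, S_apply]
  split_ifs <;> simp

lemma S_transpose (π : Equiv.Perm (Fin t)) :
    (S π : Matrix (Fin t → Fin m) (Fin t → Fin m) F)ᵀ = S π.symm := by
  ext x y
  rw [Matrix.transpose_apply, S_apply, S_apply]
  have : (x = y ∘ π) ↔ (y = x ∘ π.symm) := by
    constructor
    · rintro rfl; funext j; simp
    · rintro rfl; funext j; simp
  simp only [this]

/-- a pure tensor equal to the identity has scalar factors -/
lemma PT_eq_one [NeZero m] {a : Fin t → Matrix (Fin m) (Fin m) F} (h : PT a = 1) (i : Fin t) :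
    ∃ c : F, a i = c • 1 := by
  have hd : ∀ x : Fin t → Fin m, ∏ j, a j (x j) (x j) = 1 := by
    intro x
    have := congrFun (congrFun h x) x
    rwa [PT_apply, Matrix.one_apply_eq] at this
  have hsplit : ∀ (x : Fin t → Fin m) (k l : Fin m),
      PT a (Function.update x i k) (Function.update x i l) =
        a i k l * ∏ j ∈ Finset.univ.erase i, a j (x j) (x j) := by
    intro x k l
    rw [PT_apply, ← Finset.mul_prod_erase _ _ (Finset.mem_univ i)]
    simp only [Function.update_self]
    congr 1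
    apply Finset.prod_congr rfl
    intro j hj
    rw [Function.update_of_ne (Finset.ne_of_mem_erase hj), Function.update_of_ne (Finset.ne_of_mem_erase hj)]
  set x₀ : Fin t → Fin m := fun _ => 0 with hx₀
  set C := ∏ j ∈ Finset.univ.erase i, a j (x₀ j) (x₀ j) with hC
  have hC0 : C ≠ 0 := by
    intro h0
    have := hd x₀
    rw [← Finset.mul_prod_erase _ _ (Finset.mem_univ i), ← hC, h0, mul_zero] at this
    exact zero_ne_one this
  refine ⟨C⁻¹, ?_⟩
  ext k l
  have h1 := hsplit x₀ k l
  rw [h, ← hC, Matrix.one_apply] at h1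
  rw [Matrix.smul_apply, Matrix.one_apply, smul_eq_mul]
  by_cases hkl : k = l
  · subst hkl
    rw [if_pos rfl] at h1
    rw [if_pos rfl, mul_one]
    field_simp
    exact h1.symm
  · have : Function.update x₀ i k ≠ Function.update x₀ i l := by
      intro h2
      apply hkl
      have := congrFun h2 i
      simpa using this
    rw [if_neg this] at h1
    rw [if_neg hkl, mul_zero]
    rcases mul_eq_zero.mp h1.symm with h3 | h3
    · exact h3
    · exact absurd h3 hC0

end Cfsg.Agent.Lib.Helper17Exc23C
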