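import Cfsg.Agent.Lib.Helper17Exc23B
import Cfsg.Agent.Lib.Helper17Exc23C
import Cfsg.Agent.Lib.Helper13UDefs

set_option autoImplicit false

/-! ASCH-U, the exception `(q, k) = (2, 3)` of class 7: coordinates, unitary pure tensors. -/

namespace Cfsg.Agent.Lib.Helper17Exc23D

open Cfsg Cfsg.Geo Matrix Cfsg.Agent.Lib.Helper13Tensor Cfsg.Agent.Lib.Helper17Exc23C
  Cfsg.Agent.Lib.Helper97UBase Cfsg.Agent.Lib.Helper13UDefs
open scoped MatrixGroups

variable {n t m : ℕ} {F : Type*} [Field F] {σ : F ≃+* F} {f : (Fin n → F) → (Fin n → F) → F}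
  {P : GL (Fin n) F}

/-- transport of invertible matrices from the tensor power to `F ^ n` -/
def Phi (e : Fin n ≃ (Fin t → Fin m)) (P : GL (Fin n) F) : GL (Fin t → Fin m) F ≃* GL (Fin n) F :=
  (glReindex e.symm).trans (MulAut.conj P)

/-- transport of matrices from the tensor power to `F ^ n` -/
def Psi (e : Fin n ≃ (Fin t → Fin m)) (P : GL (Fin n) F) :
    Matrix (Fin t → Fin m) (Fin t → Fin m) F ≃ₐ[F] Matrix (Fin n) (Fin n) F :=
  (Matrix.reindexAlgEquiv F F e.symm).trans (Cfsg.Agent.Lib.Helper98AschBasic.conjAlg P)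

lemma Phi_val (e : Fin n ≃ (Fin t → Fin m)) (P : GL (Fin n) F) (w : GL (Fin t → Fin m) F) :
    ((Phi e P w : GL (Fin n) F) : Matrix (Fin n) (Fin n) F) =
      Psi e P (w : Matrix (Fin t → Fin m) (Fin t → Fin m) F) := rfl

lemma Psi_apply (e : Fin n ≃ (Fin t → Fin m)) (P : GL (Fin n) F)
    (M : Matrix (Fin t → Fin m) (Fin t → Fin m) F) :
    Psi e P M = (P : Matrix (Fin n) (Fin n) F) * M.submatrix e e *
      ((P⁻¹ : GL (Fin n) F) : Matrix (Fin n) (Fin n) F) := rfl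

lemma mem_wreath_iff (e : Fin n ≃ (Fin t → Fin m)) (P g : GL (Fin n) F) :
    g ∈ tensorWreathSubgroup m t e P ↔ ∃ w ∈ tensorWreathStandard m t F, g = Phi e P w := by
  unfold tensorWreathSubgroup
  constructor
  · rintro ⟨_, ⟨w, hw, rfl⟩, rfl⟩
    exact ⟨w, hw, rfl⟩
  · rintro ⟨w, hw, rfl⟩
    exact ⟨_, ⟨w, hw, rfl⟩, rfl⟩

lemma Psi_mulVec (e : Fin n ≃ (Fin t → Fin m)) (P : GL (Fin n) F)
    (M : Matrix (Fin t → Fin m) (Fin t → Fin m) F) (x : (Fin t → Fin m) → F) :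
    Psi e P M *ᵥ ((P : Matrix (Fin n) (Fin n) F) *ᵥ (x ∘ e)) =
      (P : Matrix (Fin n) (Fin n) F) *ᵥ ((M *ᵥ x) ∘ e) := by
  rw [Psi_apply, mulVec_mulVec, mul_assoc, ← Units.val_mul, inv_mul_cancel, Units.val_one, mul_one,
    ← mulVec_mulVec]
  congr 1
  rw [Matrix.submatrix_mulVec_equiv]
  congr 2
  funext a
  simp

lemma exists_coord (e : Fin n ≃ (Fin t → Fin m)) (P : GL (Fin n) F) (u : Fin n → F) :
    ∃ x : (Fin t → Fin m) → F, u = (P : Matrix (Fin n) (Fin n) F) *ᵥ (x ∘ e) := by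
  refine ⟨(((P⁻¹ : GL (Fin n) F) : Matrix (Fin n) (Fin n) F) *ᵥ u) ∘ e.symm, ?_⟩
  have : ((((P⁻¹ : GL (Fin n) F) : Matrix (Fin n) (Fin n) F) *ᵥ u) ∘ e.symm) ∘ e =
      ((P⁻¹ : GL (Fin n) F) : Matrix (Fin n) (Fin n) F) *ᵥ u := by
    funext i
    simp
  rw [this, mulVec_mulVec, ← Units.val_mul, mul_inv_cancel, Units.val_one, one_mulVec]

lemma form_coord (hP : IsON σ f P) (e : Fin n ≃ (Fin t → Fin m)) (x y : (Fin t → Fin m) → F) :
    f ((P : Matrix (Fin n) (Fin n) F) *ᵥ (x ∘ e)) ((P : Matrix (Fin n) (Fin n) F) *ᵥ (y ∘ e)) =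
      ∑ a, x a * σ (y a) := by
  rw [hP]
  exact Equiv.sum_comp e (fun a => x a * σ (y a))

lemma map_mulVec' {κ : Type*} [Fintype κ] (M : Matrix κ κ F) (w : κ → F) :
    (fun a => σ ((M *ᵥ w) a)) = (M.map σ) *ᵥ (fun a => σ (w a)) := by
  ext a
  simp [Matrix.mulVec, dotProduct, map_sum, map_mul]

/-- the standard hermitian form and unitary matrices -/
lemma std_unitary_iff {κ : Type*} [Fintype κ] [DecidableEq κ] (M : Matrix κ κ F) :
    (∀ x y : κ → F, ∑ a, (M *ᵥ x) a * σ ((M *ᵥ y) a) = ∑ a, x a * σ (y a)) ↔ Mᵀ * M.map σ = 1 := by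
  have key : ∀ x y : κ → F, ∑ a, (M *ᵥ x) a * σ ((M *ᵥ y) a) =
      x ⬝ᵥ ((Mᵀ * M.map σ) *ᵥ (fun a => σ (y a))) := by
    intro x y
    have h1 : ∑ a, (M *ᵥ x) a * σ ((M *ᵥ y) a) = (M *ᵥ x) ⬝ᵥ (fun a => σ ((M *ᵥ y) a)) := rfl
    rw [h1, map_mulVec', ← Matrix.vecMul_transpose, ← Matrix.dotProduct_mulVec, mulVec_mulVec]
  constructor
  · intro h
    ext a b
    have := h (Pi.single a 1) (Pi.single b 1)
    rw [key] at this
    have hs : (fun c => σ ((Pi.single b (1 : F) : κ → F) c)) = Pi.single b 1 := by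
      funext c
      by_cases hc : c = b
      · subst hc; simp
      · simp [Pi.single_eq_of_ne hc]
    rw [hs] at this
    simp only [Matrix.mulVec_single, MulOpposite.op_one, one_smul, single_dotProduct, one_mul, Matrix.col_apply]
      at this
    rw [this, Matrix.one_apply]
    simp [Pi.single_apply, eq_comm]
  · intro h x y
    rw [key, h, one_mulVec]
    rfl

lemma Phi_mem_Iso (hP : IsON σ f P) (e : Fin n ≃ (Fin t → Fin m)) (w : GL (Fin t → Fin m) F) :
    Phi e P w ∈ Iso f ↔ (w : Matrix (Fin t → Fin m) (Fin t → Fin m) F)ᵀ *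
      (w : Matrix (Fin t → Fin m) (Fin t → Fin m) F).map σ = 1 := by
  rw [← std_unitary_iff, mem_Iso]
  constructor
  · intro h x y
    have := h ((P : Matrix (Fin n) (Fin n) F) *ᵥ (x ∘ e)) ((P : Matrix (Fin n) (Fin n) F) *ᵥ (y ∘ e))
    rwa [Phi_val, Psi_mulVec, Psi_mulVec, form_coord hP, form_coord hP] at this
  · intro h u v
    obtain ⟨x, rfl⟩ := exists_coord e P u
    obtain ⟨y, rfl⟩ := exists_coord e P v
    rw [Phi_val, Psi_mulVec, Psi_mulVec, form_coord hP, form_coord hP, h]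

/-- a unitary element of the standard tensor wreath group over the field with four elements has unitary
factors. -/
lemma unitary_factors [NeZero m] (hσ : ∀ a, σ a = a ^ 2) (hσσ : ∀ a, σ (σ a) = a) (u : Fin t → GL (Fin m) F)
    (π : Equiv.Perm (Fin t))
    (h : ((PTG u * SG π : GL (Fin t → Fin m) F) : Matrix (Fin t → Fin m) (Fin t → Fin m) F)ᵀ *
      ((PTG u * SG π : GL (Fin t → Fin m) F) : Matrix (Fin t → Fin m) (Fin t → Fin m) F).map σ = 1) (i : Fin t) :
    (u i : Matrix (Fin m) (Fin m) F)ᵀ * (u i : Matrix (Fin m) (Fin m) F).map σ = 1 := by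
  rw [Units.val_mul, SG_val, PTG_val, Matrix.transpose_mul, Matrix.map_mul, S_map, S_transpose, PT_map,
    PT_transpose] at h
  have h1 : PT (fun i => (u i : Matrix (Fin m) (Fin m) F)ᵀ * (u i : Matrix (Fin m) (Fin m) F).map σ) = 1 := by
    have e1 : (fun i => (u i : Matrix (Fin m) (Fin m) F)ᵀ * (u i : Matrix (Fin m) (Fin m) F).map σ) =
        (fun i => (u i : Matrix (Fin m) (Fin m) F)ᵀ) * (fun i => (u i : Matrix (Fin m) (Fin m) F).map σ) := rfl
    rw [e1, PT_mul]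
    have e2 : (S π : Matrix (Fin t → Fin m) (Fin t → Fin m) F) * S π.symm = 1 := S_mul_S_symm π
    have e3 : (S π.symm : Matrix (Fin t → Fin m) (Fin t → Fin m) F) * S π = 1 := mul_eq_one_comm.mp e2
    calc PT (fun i => (u i : Matrix (Fin m) (Fin m) F)ᵀ) * PT (fun i => (u i : Matrix (Fin m) (Fin m) F).map σ)
        = (S π * S π.symm) * PT (fun i => (u i : Matrix (Fin m) (Fin m) F)ᵀ) *
            PT (fun i => (u i : Matrix (Fin m) (Fin m) F).map σ) * (S π * S π.symm) := by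
          rw [e2, one_mul, mul_one]
      _ = S π * (S π.symm * PT (fun i => (u i : Matrix (Fin m) (Fin m) F)ᵀ) *
            (PT (fun i => (u i : Matrix (Fin m) (Fin m) F).map σ) * S π)) * S π.symm := by
          simp only [mul_assoc]
      _ = 1 := by rw [h, mul_one, e2]
  obtain ⟨c, hc⟩ := PT_eq_one h1 i
  have hc' : c = ∑ k, (u i : Matrix (Fin m) (Fin m) F) k 0 * σ ((u i : Matrix (Fin m) (Fin m) F) k 0) := by
    have := congrFun (congrFun hc 0) 0
    rw [Matrix.mul_apply, Matrix.smul_apply, Matrix.one_apply_eq, smul_eq_mul, mul_one] at this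
    rw [← this]
    rfl
  have hcσ : σ c = c := by
    rw [hc', map_sum]
    apply Finset.sum_congr rfl
    intro k _
    rw [map_mul, hσσ, mul_comm]
  have hc0 : c ≠ 0 := by
    rintro rfl
    rw [zero_smul] at hc
    have h2 : IsUnit ((u i : Matrix (Fin m) (Fin m) F)ᵀ * (u i : Matrix (Fin m) (Fin m) F).map σ).det := by
      rw [Matrix.det_mul, Matrix.det_transpose]
      have h3 : IsUnit (u i : Matrix (Fin m) (Fin m) F).det :=
        (Matrix.isUnit_iff_isUnit_det _).mp (u i).isUnit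
      refine h3.mul ?_
      have h4 : ((u i : Matrix (Fin m) (Fin m) F).map σ).det = σ ((u i : Matrix (Fin m) (Fin m) F).det) := by
        exact (RingHom.map_det (σ : F →+* F) (u i : Matrix (Fin m) (Fin m) F)).symm
      rw [h4]
      exact h3.map σ
    rw [hc, Matrix.det_zero] at h2
    exact not_isUnit_zero h2
  have hc1 : c = 1 := by
    rw [hσ, pow_two] at hcσ
    exact mul_left_cancel₀ hc0 (by rw [hcσ, mul_one])
  rw [hc, hc1, one_smul]

end Cfsg.Agent.Lib.Helper17Exc23D
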