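import Mathlib
import Cfsg.Agent.Lib.Helper7C6Asm

set_option autoImplicit false

namespace Cfsg.Agent.Lib.Helper7C6Card

open Cfsg Cfsg.Geo Matrix Cfsg.Agent.Lib.Helper97GBase Cfsg.Agent.Lib.Helper97GCore
  Cfsg.Agent.Lib.Helper7C6Asm
open scoped MatrixGroups commutatorElement

variable {ι : Type} [Fintype ι] [DecidableEq ι] {F : Type*} [Field F]

/-- the matrix of an element of a subgroup, as a monoid hom. -/
def matHom (N : Subgroup (GL ι F)) : N →* Matrix ι ι F := (Units.coeHom _).comp N.subtype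

@[simp] lemma matHom_apply (N : Subgroup (GL ι F)) (x : N) :
    matHom N x = ((x : GL ι F) : Matrix ι ι F) := rfl

/-- the twisted average. -/
noncomputable def tavg (N : Subgroup (GL ι F)) [Fintype N] (ρ : N →* Matrix ι ι F)
    (M : Matrix ι ι F) : Matrix ι ι F :=
  ∑ x : N, ρ x * M * matHom N x⁻¹

lemma tavg_intertwine (N : Subgroup (GL ι F)) [Fintype N] (ρ : N →* Matrix ι ι F)
    (M : Matrix ι ι F) (y : N) : ρ y * tavg N ρ M = tavg N ρ M * matHom N y := by
  unfold tavg
  rw [Finset.mul_sum, Finset.sum_mul]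
  rw [← Equiv.sum_comp (Equiv.mulLeft y) (fun x => ρ x * M * matHom N x⁻¹ * matHom N y)]
  apply Finset.sum_congr rfl
  intro x _
  simp only [Equiv.coe_mulLeft, map_mul, _root_.mul_inv_rev]
  have : matHom N y⁻¹ * matHom N y = 1 := by rw [← map_mul, inv_mul_cancel, map_one]
  simp only [mul_assoc, this, mul_one]

lemma tavg_apply (N : Subgroup (GL ι F)) [Fintype N] (ρ : N →* Matrix ι ι F) (i j k l : ι) :
    tavg N ρ (Matrix.single i j 1) k l = ∑ x : N, ρ x k i * matHom N x⁻¹ j l := by
  unfold tavg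
  rw [Matrix.sum_apply]
  apply Finset.sum_congr rfl
  intro x _
  rw [Matrix.mul_apply]
  simp only [Matrix.mul_apply, Matrix.single_apply]
  rw [Finset.sum_eq_single j]
  · rw [Finset.sum_eq_single i]
    · simp
    · intro b _ hb
      simp [Ne.symm hb]
    · simp
  · intro b _ hb
    have : ∀ a : ι, ¬ (i = a ∧ j = b) := fun a h => hb h.2.symm
    simp [this]
  · simp

/-- non scalar elements have trace zero. -/
lemma trace_eq_zero [Nonempty ι] {N : Subgroup (GL ι F)}
    (habs : ActsAbsolutelyIrreducibly (matrixSet N)) (hcomm : ⁅N, N⁆ ≤ scalars ι F)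
    {x : GL ι F} (hx : x ∈ N) (hxs : x ∉ scalars ι F) : ((x : Matrix ι ι F)).trace = 0 := by
  have : ∃ y ∈ N, x * y ≠ y * x := by
    by_contra hcon
    push Not at hcon
    exact hxs (mem_scalars_of_comm habs hcon)
  obtain ⟨y, hy, hxy⟩ := this
  obtain ⟨c, hc⟩ := (mem_scalars_iff _).mp (hcomm (Subgroup.commutator_mem_commutator hy hx))
  have h1 : (y : Matrix ι ι F) * x * ((y⁻¹ : GL ι F) : Matrix ι ι F) = (c : F) • (x : Matrix ι ι F) := by
    have e : y * x * y⁻¹ = ⁅y, x⁆ * x := by rw [commutatorElement_def]; group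
    have := congrArg (fun g : GL ι F => (g : Matrix ι ι F)) e
    simp only [Units.val_mul] at this
    rw [this, hc, Matrix.smul_mul, Matrix.one_mul]
  have h2 : ((y : Matrix ι ι F) * x * ((y⁻¹ : GL ι F) : Matrix ι ι F)).trace
      = (x : Matrix ι ι F).trace := by
    rw [Matrix.trace_mul_comm, ← mul_assoc, ← Units.val_mul, inv_mul_cancel, Units.val_one,
      Matrix.one_mul]
  rw [h1, Matrix.trace_smul, smul_eq_mul] at h2
  have hc1 : (c : F) ≠ 1 := by
    intro hc1
    apply hxy
    rw [hc1, one_smul] at hc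
    have : ⁅y, x⁆ = 1 := Units.ext hc
    exact (commutatorElement_eq_one_iff_mul_comm.mp this).symm
  have h3 : ((c : F) - 1) * (x : Matrix ι ι F).trace = 0 := by rw [sub_mul, h2, one_mul, sub_self]
  rcases mul_eq_zero.mp h3 with h | h
  · exact absurd (sub_eq_zero.mp h) hc1
  · exact h

lemma trace_tavg (N : Subgroup (GL ι F)) [Fintype N] (M : Matrix ι ι F) :
    (tavg N (matHom N) M).trace = (Fintype.card N : F) * M.trace := by
  unfold tavg
  rw [Matrix.trace_sum]
  have : ∀ x : N, (matHom N x * M * matHom N x⁻¹).trace = M.trace := by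
    intro x
    rw [Matrix.trace_mul_comm, ← mul_assoc, ← map_mul, inv_mul_cancel, map_one, Matrix.one_mul]
  simp only [this]
  rw [Finset.sum_const, Finset.card_univ, nsmul_eq_mul]

lemma tavg_scalar {N : Subgroup (GL ι F)} [Fintype N]
    (habs : ActsAbsolutelyIrreducibly (matrixSet N)) (M : Matrix ι ι F) :
    ∃ c : F, tavg N (matHom N) M = c • (1 : Matrix ι ι F) := by
  apply habs.2
  rintro _ ⟨y, hy, rfl⟩
  exact (tavg_intertwine N (matHom N) M ⟨y, hy⟩).symm

lemma card_index_ne_zero [Nonempty ι] {N : Subgroup (GL ι F)} [Fintype N]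
    (habs : ActsAbsolutelyIrreducibly (matrixSet N)) (hN : (Fintype.card N : F) ≠ 0) :
    (Fintype.card ι : F) ≠ 0 := by
  intro h0
  obtain ⟨i⟩ := ‹Nonempty ι›
  obtain ⟨c, hc⟩ := tavg_scalar habs (Matrix.single i i 1)
  have h1 := trace_tavg N (Matrix.single i i (1 : F))
  rw [hc, Matrix.trace_smul, Matrix.trace_one, h0, smul_zero, Matrix.trace_single_eq_same,
    mul_one] at h1
  exact hN h1.symm

lemma tavg_single [Nonempty ι] {N : Subgroup (GL ι F)} [Fintype N]
    (habs : ActsAbsolutelyIrreducibly (matrixSet N)) (hN : (Fintype.card N : F) ≠ 0) (i j : ι) :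
    tavg N (matHom N) (Matrix.single i j 1) =
      (if i = j then (Fintype.card N : F) / (Fintype.card ι : F) else 0) • (1 : Matrix ι ι F) := by
  have hn := card_index_ne_zero habs hN
  obtain ⟨c, hc⟩ := tavg_scalar habs (Matrix.single i j 1)
  have h1 := trace_tavg N (Matrix.single i j (1 : F))
  rw [hc, Matrix.trace_smul, Matrix.trace_one, smul_eq_mul] at h1
  rw [hc]
  congr 1
  split_ifs with hij
  · subst hij
    rw [Matrix.trace_single_eq_same, mul_one] at h1
    rw [eq_div_iff hn, h1]
  · rw [Matrix.trace_single_eq_of_ne _ _ _ hij, mul_zero] at h1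
    exact (mul_eq_zero.mp h1).resolve_right hn

/-- Burnside's theorem in the coprime case, by averaging. -/
lemma span_eq_top [Nonempty ι] {N : Subgroup (GL ι F)} [Fintype N]
    (habs : ActsAbsolutelyIrreducibly (matrixSet N)) (hN : (Fintype.card N : F) ≠ 0) :
    Submodule.span F (matrixSet N) = ⊤ := by
  have hn := card_index_ne_zero habs hN
  have hs : ∀ i k : ι, Matrix.single i k (1 : F) ∈ Submodule.span F (matrixSet N) := by
    intro i k
    have hY : (∑ x : N, (matHom N x k i) • matHom N x⁻¹) ∈ Submodule.span F (matrixSet N) := by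
      apply Submodule.sum_mem
      intro x _
      apply Submodule.smul_mem
      apply Submodule.subset_span
      exact ⟨(x⁻¹ : N), (x⁻¹ : N).2, rfl⟩
    have hYe : (∑ x : N, (matHom N x k i) • matHom N x⁻¹) =
        ((Fintype.card N : F) / (Fintype.card ι : F)) • Matrix.single i k (1 : F) := by
      ext j l
      have h1 := tavg_apply N (matHom N) i j k l
      rw [tavg_single habs hN] at h1
      rw [Matrix.sum_apply]
      simp only [Matrix.smul_apply, smul_eq_mul]
      rw [← h1]
      simp only [Matrix.single_apply]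
      by_cases hij : i = j <;> by_cases hkl : k = l <;> simp [hij, hkl]
    rw [hYe] at hY
    have hne : (Fintype.card N : F) / (Fintype.card ι : F) ≠ 0 := div_ne_zero hN hn
    have := Submodule.smul_mem _ ((Fintype.card N : F) / (Fintype.card ι : F))⁻¹ hY
    rwa [smul_smul, inv_mul_cancel₀ hne, one_smul] at this
  rw [eq_top_iff]
  intro M _
  rw [Matrix.matrix_eq_sum_single M]
  apply Submodule.sum_mem
  intro i _
  apply Submodule.sum_mem
  intro j _
  have := Submodule.smul_mem _ (M i j) (hs i j)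
  rwa [Matrix.smul_single, smul_eq_mul, mul_one] at this

/-- the inverse of the scalar embedding. -/
noncomputable def scInv (ι : Type) [Fintype ι] [DecidableEq ι] [Nonempty ι] (F : Type*) [Field F] :
    scalars ι F →* Fˣ :=
  (MonoidHom.ofInjective (scHom_injective (ι := ι) (F := F))).symm.toMonoidHom

lemma scInv_spec [Nonempty ι] (s : scalars ι F) :
    ((s : GL ι F) : Matrix ι ι F) = ((scInv ι F s : Fˣ) : F) • (1 : Matrix ι ι F) := by
  rw [← scHom_val]
  have := (MonoidHom.ofInjective (scHom_injective (ι := ι) (F := F))).apply_symm_apply s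
  have h2 := congrArg (fun t : (scHom ι F).range => ((t : GL ι F) : Matrix ι ι F)) this
  exact h2.symm

/-- `g ↦ [g, x]` as a homomorphism to the scalars. -/
def commHom {N : Subgroup (GL ι F)} (hcomm : ⁅N, N⁆ ≤ scalars ι F) (x : N) : N →* scalars ι F where
  toFun g := ⟨⁅(g : GL ι F), (x : GL ι F)⁆, hcomm (Subgroup.commutator_mem_commutator g.2 x.2)⟩
  map_one' := Subtype.ext (by simp)
  map_mul' g h := Subtype.ext (by
    have hc : ⁅(h : GL ι F), (x : GL ι F)⁆ ∈ Subgroup.center (GL ι F) :=
      scalars_le_center (hcomm (Subgroup.commutator_mem_commutator h.2 x.2))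
    have h1 := Subgroup.mem_center_iff.mp hc (g : GL ι F)
    have e : ⁅((g * h : N) : GL ι F), (x : GL ι F)⁆ =
        (g : GL ι F) * ⁅(h : GL ι F), (x : GL ι F)⁆ * (g : GL ι F)⁻¹ * ⁅(g : GL ι F), (x : GL ι F)⁆ := by
      simp only [commutatorElement_def, Subgroup.coe_mul]; group
    show ⁅((g * h : N) : GL ι F), (x : GL ι F)⁆ = ⁅(g : GL ι F), (x : GL ι F)⁆ * ⁅(h : GL ι F), (x : GL ι F)⁆
    rw [e, h1, mul_assoc _ (g : GL ι F), mul_inv_cancel, mul_one]
    exact (Subgroup.mem_center_iff.mp hc _).symm)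

/-- the character of `N` attached to `x`. -/
noncomputable def chi [Nonempty ι] {N : Subgroup (GL ι F)} (hcomm : ⁅N, N⁆ ≤ scalars ι F) (x : N) :
    N →* F :=
  (Units.coeHom F).comp ((scInv ι F).comp (commHom hcomm x))

lemma chi_spec [Nonempty ι] {N : Subgroup (GL ι F)} (hcomm : ⁅N, N⁆ ≤ scalars ι F) (x g : N) :
    matHom N g * matHom N x * matHom N g⁻¹ = chi hcomm x g • matHom N x := by
  have e : (g : GL ι F) * x * (g : GL ι F)⁻¹ = ⁅(g : GL ι F), (x : GL ι F)⁆ * x := by
    rw [commutatorElement_def]; group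
  have h1 := congrArg (fun t : GL ι F => (t : Matrix ι ι F)) e
  simp only [Units.val_mul] at h1
  have h2 := scInv_spec (commHom hcomm x g)
  have h3 : ((⁅(g : GL ι F), (x : GL ι F)⁆ : GL ι F) : Matrix ι ι F) =
      chi hcomm x g • (1 : Matrix ι ι F) := h2
  rw [h3, Matrix.smul_mul, Matrix.one_mul] at h1
  exact h1

lemma chi_injective [Nonempty ι] {N : Subgroup (GL ι F)}
    (habs : ActsAbsolutelyIrreducibly (matrixSet N)) (hcomm : ⁅N, N⁆ ≤ scalars ι F) {x y : N}
    (h : chi hcomm x = chi hcomm y) : ((x⁻¹ * y : N) : GL ι F) ∈ scalars ι F := by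
  apply mem_scalars_of_comm habs
  intro g hg
  have h1 := chi_spec hcomm x ⟨g, hg⟩
  have h2 := chi_spec hcomm y ⟨g, hg⟩
  rw [h] at h1
  set c := chi hcomm y ⟨g, hg⟩ with hc
  -- g x g⁻¹ = c x, g y g⁻¹ = c y
  have hx1 : matHom N x⁻¹ * matHom N x = 1 := by rw [← map_mul, inv_mul_cancel, map_one]
  have hx2 : matHom N x * matHom N x⁻¹ = 1 := by rw [← map_mul, mul_inv_cancel, map_one]
  have hg1 : matHom N (⟨g, hg⟩ : N)⁻¹ * matHom N ⟨g, hg⟩ = 1 := by
    rw [← map_mul, inv_mul_cancel, map_one]
  have k1 : matHom N ⟨g, hg⟩ * matHom N x = c • (matHom N x * matHom N ⟨g, hg⟩) := by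
    have := congrArg (fun t => t * matHom N ⟨g, hg⟩) h1
    simp only [mul_assoc, hg1, mul_one, Matrix.smul_mul] at this
    exact this
  have k2 : matHom N ⟨g, hg⟩ * matHom N y = c • (matHom N y * matHom N ⟨g, hg⟩) := by
    have := congrArg (fun t => t * matHom N ⟨g, hg⟩) h2
    simp only [mul_assoc, hg1, mul_one, Matrix.smul_mul] at this
    exact this
  have k3 : matHom N x⁻¹ * matHom N ⟨g, hg⟩ = c • (matHom N ⟨g, hg⟩ * matHom N x⁻¹) := by
    have := congrArg (fun t => matHom N x⁻¹ * t * matHom N x⁻¹) k1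
    simp only [Matrix.mul_smul, Matrix.smul_mul] at this
    rw [mul_assoc, mul_assoc, hx2, mul_one] at this
    rw [this]
    congr 1
    rw [← mul_assoc, hx1, one_mul]
  have hc0 : c ≠ 0 := by
    intro h0
    rw [h0, zero_smul] at k1
    have := congrArg (fun t => matHom N (⟨g, hg⟩ : N)⁻¹ * t * matHom N x⁻¹) k1
    simp only [mul_zero, zero_mul] at this
    rw [← mul_assoc, hg1, one_mul, hx2] at this
    exact one_ne_zero this
  have key : matHom N (x⁻¹ * y) * matHom N ⟨g, hg⟩ = matHom N ⟨g, hg⟩ * matHom N (x⁻¹ * y) := by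
    rw [map_mul]
    have k2' : matHom N y * matHom N ⟨g, hg⟩ = c⁻¹ • (matHom N ⟨g, hg⟩ * matHom N y) := by
      rw [k2, smul_smul, inv_mul_cancel₀ hc0, one_smul]
    rw [mul_assoc, k2', Matrix.mul_smul, ← mul_assoc, k3, Matrix.smul_mul, smul_smul,
      inv_mul_cancel₀ hc0, one_smul, mul_assoc]
  apply Units.ext
  exact key

lemma subgroupOf_eq_center [Nonempty ι] {N : Subgroup (GL ι F)}
    (habs : ActsAbsolutelyIrreducibly (matrixSet N)) :
    (scalars ι F).subgroupOf N = Subgroup.center N := by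
  ext x
  rw [Subgroup.mem_subgroupOf, Subgroup.mem_center_iff]
  constructor
  · intro hx g
    exact Subtype.ext (Subgroup.mem_center_iff.mp (scalars_le_center hx) g)
  · intro hx
    apply mem_scalars_of_comm habs
    intro y hy
    exact (congrArg Subtype.val (hx ⟨y, hy⟩)).symm

/-- the dimension formula. -/
theorem card_sq [Nonempty ι] (N : Subgroup (GL ι F)) [Finite N]
    (habs : ActsAbsolutelyIrreducibly (matrixSet N)) (hcomm : ⁅N, N⁆ ≤ scalars ι F)
    (hN : (Nat.card N : F) ≠ 0) :
    Nat.card N = (Fintype.card ι) ^ 2 * Nat.card (Subgroup.center N) := by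
  classical
  have : Fintype N := Fintype.ofFinite N
  rw [Nat.card_eq_fintype_card] at hN
  set Zs := (scalars ι F).subgroupOf N with hZs
  have : Fintype (N ⧸ Zs) := Fintype.ofFinite _
  let b : N ⧸ Zs → Matrix ι ι F := fun q => matHom N q.out
  have hinj : Function.Injective (fun q : N ⧸ Zs => chi hcomm q.out) := by
    intro q q' h
    have h1 := chi_injective habs hcomm h
    have h2 : (q.out)⁻¹ * q'.out ∈ Zs := h1
    have h3 := QuotientGroup.eq.mpr h2
    rwa [QuotientGroup.out_eq', QuotientGroup.out_eq'] at h3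
  have hD : LinearIndependent F (fun q : N ⧸ Zs => (chi hcomm q.out : N → F)) :=
    (linearIndependent_monoidHom N F).comp _ hinj
  have hli : LinearIndependent F b := by
    rw [Fintype.linearIndependent_iff]
    intro a ha q
    have hne : ∃ i j, b q i j ≠ 0 := by
      by_contra hcon
      push Not at hcon
      have h0 : b q = 0 := by ext i j; exact hcon i j
      have h1 : matHom N q.out * matHom N (q.out)⁻¹ = 1 := by
        rw [← map_mul, mul_inv_cancel, map_one]
      have h2 : matHom N q.out = 0 := h0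
      rw [h2, zero_mul] at h1
      exact zero_ne_one h1
    obtain ⟨i, j, hij⟩ := hne
    have hrel : ∑ q' : N ⧸ Zs, (a q' * b q' i j) • (chi hcomm q'.out : N → F) = 0 := by
      funext g
      have h1 := congrArg (fun t => matHom N g * t * matHom N g⁻¹) ha
      simp only [Finset.mul_sum, Finset.sum_mul, mul_zero, zero_mul, Matrix.mul_smul,
        Matrix.smul_mul] at h1
      have h2 := congrFun (congrFun h1 i) j
      rw [Matrix.sum_apply] at h2
      rw [Finset.sum_apply]
      simp only [Pi.smul_apply, smul_eq_mul, Pi.zero_apply]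
      rw [Matrix.zero_apply] at h2
      rw [← h2]
      apply Finset.sum_congr rfl
      intro q' _
      have h3 := chi_spec hcomm q'.out g
      have h4 : matHom N g * b q' * matHom N g⁻¹ = chi hcomm q'.out g • b q' := h3
      rw [h4]
      simp only [Matrix.smul_apply, smul_eq_mul]
      ring
    have := Fintype.linearIndependent_iff.mp hD _ hrel q
    exact (mul_eq_zero.mp this).resolve_right hij
  have hsp : ⊤ ≤ Submodule.span F (Set.range b) := by
    rw [← span_eq_top habs hN, Submodule.span_le]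
    rintro _ ⟨x, hx, rfl⟩
    obtain ⟨h, hh⟩ := QuotientGroup.mk_out_eq_mul Zs (⟨x, hx⟩ : N)
    obtain ⟨c, hc⟩ := (mem_scalars_iff _).mp (Subgroup.mem_subgroupOf.mp (h⁻¹).2)
    have e : (⟨x, hx⟩ : N) = (QuotientGroup.mk (⟨x, hx⟩ : N) : N ⧸ Zs).out * (h⁻¹ : Zs) := by
      rw [hh]; simp
    have e2 := congrArg (matHom N) e
    rw [map_mul] at e2
    have e3 : matHom N ((h⁻¹ : Zs) : N) = (c : F) • (1 : Matrix ι ι F) := hc
    rw [e3, Matrix.mul_smul, mul_one] at e2
    have e4 : ((x : GL ι F) : Matrix ι ι F) = (c : F) • b (QuotientGroup.mk (⟨x, hx⟩ : N)) := e2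
    show ((x : GL ι F) : Matrix ι ι F) ∈ Submodule.span F (Set.range b)
    rw [e4]
    exact Submodule.smul_mem _ _ (Submodule.subset_span ⟨_, rfl⟩)
  have hcardQ : Fintype.card (N ⧸ Zs) = (Fintype.card ι) ^ 2 := by
    have h1 := Module.finrank_eq_card_basis (Module.Basis.mk hli hsp)
    rw [Module.finrank_matrix, Module.finrank_self, mul_one] at h1
    rw [← h1, pow_two]
  rw [Subgroup.card_eq_card_quotient_mul_card_subgroup Zs, Nat.card_eq_fintype_card, hcardQ, hZs,
    subgroupOf_eq_center habs]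

end Cfsg.Agent.Lib.Helper7C6Card
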