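import Mathlib
import Cfsg.Agent.Lib.Helper98AschDefs

set_option autoImplicit false

/-! ASCH-GEN piece `enf`: normal form of a unital embedding of a full matrix algebra. -/

namespace Cfsg.Agent.Lib.Helper94AschEnf

open Cfsg Cfsg.Geo Matrix
open Cfsg.Agent.Lib.Helper98AschDefs
open scoped MatrixGroups Kronecker

variable {n : ℕ} {F : Type*} [Field F]

/-- [enf] normal form of a unital embedding of a full matrix algebra. -/
theorem enf {κ : Type} [Fintype κ] [DecidableEq κ] [Nonempty κ]
    (φ : Matrix κ κ F →ₐ[F] Matrix (Fin n) (Fin n) F) :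
    ∃ (s : ℕ) (e : Fin n ≃ κ × Fin s) (P : GL (Fin n) F), ∀ a, φ a = tens e P a 1 := by
  classical
  obtain ⟨a0⟩ := ‹Nonempty κ›
  set E : κ → κ → Matrix (Fin n) (Fin n) F := fun a b => φ (Matrix.single a b 1) with hE
  have hEE : ∀ a b c d, E a b * E c d = if b = c then E a d else 0 := by
    intro a b c d
    simp only [hE, ← map_mul]
    split_ifs with h
    · subst h; rw [Matrix.single_mul_single_same, mul_one]
    · rw [Matrix.single_mul_single_of_ne (h := h), map_zero]
  have hsum : ∑ a, E a a = 1 := by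
    simp only [hE, ← map_sum]
    rw [Matrix.sum_single_one, map_one]
  set U : Submodule F (Fin n → F) := LinearMap.range (Matrix.mulVecLin (E a0 a0)) with hU
  set s := Module.finrank F U with hs
  let u : Module.Basis (Fin s) F U := Module.finBasis F U
  have hfix : ∀ w ∈ U, E a0 a0 *ᵥ w = w := by
    rintro w ⟨x, rfl⟩
    rw [Matrix.mulVecLin_apply, Matrix.mulVec_mulVec, hEE, if_pos rfl]
  let v : κ × Fin s → (Fin n → F) := fun p => E p.1 a0 *ᵥ (u p.2 : Fin n → F)
  have hli : LinearIndependent F v := by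
    rw [Fintype.linearIndependent_iff]
    intro c hc p
    obtain ⟨b, j⟩ := p
    have h1 : E a0 b *ᵥ (∑ q, c q • v q) = 0 := by rw [hc, Matrix.mulVec_zero]
    rw [Matrix.mulVec_sum, Fintype.sum_prod_type] at h1
    have h2 : ∀ (x : κ) (y : Fin s), E a0 b *ᵥ (c (x, y) • v (x, y)) =
        if b = x then c (x, y) • (u y : Fin n → F) else 0 := by
      intro x y
      rw [Matrix.mulVec_smul]
      show c (x, y) • E a0 b *ᵥ (E x a0 *ᵥ (u y : Fin n → F)) = _
      rw [Matrix.mulVec_mulVec, hEE]
      split_ifs with h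
      · rw [hfix _ (u y).2]
      · rw [Matrix.zero_mulVec, smul_zero]
    simp only [h2] at h1
    rw [Finset.sum_comm] at h1
    simp only [Finset.sum_ite_eq, Finset.mem_univ, if_true] at h1
    have h3 : ∑ y, c (b, y) • u y = 0 := by
      apply Subtype.ext
      simpa using h1
    exact (Fintype.linearIndependent_iff.1 u.linearIndependent) (fun y => c (b, y)) h3 j
  have hsp : ⊤ ≤ Submodule.span F (Set.range v) := by
    intro w _
    have h1 : w = ∑ a, E a a0 *ᵥ (E a0 a *ᵥ w) := by
      conv_lhs => rw [← Matrix.one_mulVec w, ← hsum, Matrix.sum_mulVec]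
      refine Finset.sum_congr rfl fun a _ => ?_
      rw [Matrix.mulVec_mulVec, hEE, if_pos rfl]
    rw [h1]
    refine Submodule.sum_mem _ fun a _ => ?_
    have h2 : E a0 a *ᵥ w ∈ U := ⟨E a0 a *ᵥ w, by
      rw [Matrix.mulVecLin_apply, Matrix.mulVec_mulVec, hEE, if_pos rfl]⟩
    have h3 : (E a0 a *ᵥ w) = ∑ j, (u.repr ⟨_, h2⟩ j) • (u j : Fin n → F) := by
      have := congrArg (Subtype.val) (u.sum_repr ⟨_, h2⟩)
      refine this.symm.trans ?_
      simp only [Submodule.coe_sum, Submodule.coe_smul]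
    rw [h3, Matrix.mulVec_sum]
    refine Submodule.sum_mem _ fun j _ => ?_
    rw [Matrix.mulVec_smul]
    exact Submodule.smul_mem _ _ (Submodule.subset_span ⟨(a, j), rfl⟩)
  let B : Module.Basis (κ × Fin s) F (Fin n → F) := Module.Basis.mk hli hsp
  have hcard : Fintype.card (Fin n) = Fintype.card (κ × Fin s) := by
    rw [← Module.finrank_eq_card_basis B, Module.finrank_fin_fun, Fintype.card_fin]
  let e : Fin n ≃ κ × Fin s := Fintype.equivOfCardEq hcard
  let B' : Module.Basis (Fin n) F (Fin n → F) := B.reindex e.symm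
  have hB' : ∀ i, B' i = v (e i) := by
    intro i
    simp [B', B]
  let P0 : Matrix (Fin n) (Fin n) F := (Pi.basisFun F (Fin n)).toMatrix B'
  let P1 : Matrix (Fin n) (Fin n) F := B'.toMatrix (Pi.basisFun F (Fin n))
  have h01 : P0 * P1 = 1 := Module.Basis.toMatrix_mul_toMatrix_flip _ _
  have h10 : P1 * P0 = 1 := Module.Basis.toMatrix_mul_toMatrix_flip _ _
  let P : GL (Fin n) F := ⟨P0, P1, h01, h10⟩
  refine ⟨s, e, P, fun a => ?_⟩
  have hkey : ∀ p : κ × Fin s, φ a *ᵥ v p =
      ∑ q, (a ⊗ₖ (1 : Matrix (Fin s) (Fin s) F)) q p • v q := by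
    rintro ⟨b, j⟩
    show φ a *ᵥ (E b a0 *ᵥ (u j : Fin n → F)) = _
    have h1 : φ a * E b a0 = ∑ c, a c b • E c a0 := by
      simp only [hE, ← map_mul, ← map_smul, ← map_sum]
      congr 1
      ext x y
      simp only [Matrix.sum_apply, Matrix.smul_apply, Matrix.single_apply, smul_eq_mul]
      by_cases hy : y = a0
      · subst hy
        rw [Matrix.mul_single_apply_same]
        simp
      · rw [Matrix.mul_single_apply_of_ne (hbj := hy)]
        simp [Ne.symm hy]
    rw [Matrix.mulVec_mulVec, h1, Matrix.sum_mulVec, Fintype.sum_prod_type]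
    refine Finset.sum_congr rfl fun c _ => ?_
    simp only [Matrix.kroneckerMap_apply, Matrix.one_apply, mul_ite, mul_one, mul_zero, ite_smul,
      zero_smul, Finset.sum_ite_eq', Finset.mem_univ, if_true]
    rw [Matrix.smul_mulVec]
  have hcomm : φ a * P0 = P0 * Matrix.reindex e.symm e.symm (a ⊗ₖ (1 : Matrix (Fin s) (Fin s) F)) := by
    ext i' i
    have hP0 : ∀ k l, P0 k l = v (e l) k := by
      intro k l
      simp only [P0, Module.Basis.toMatrix_apply, Pi.basisFun_repr, hB']
    simp only [Matrix.mul_apply, hP0, Matrix.reindex_apply, Matrix.submatrix_apply, Equiv.symm_symm]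
    have h2 := congrFun (hkey (e i)) i'
    simp only [Matrix.mulVec, dotProduct, Finset.sum_apply, Pi.smul_apply, smul_eq_mul] at h2
    rw [h2, ← Equiv.sum_comp e]
    exact Finset.sum_congr rfl fun _ _ => mul_comm _ _
  unfold tens
  show φ a = P0 * _ * P1
  rw [← hcomm, Matrix.mul_assoc, h01, Matrix.mul_one]

end Cfsg.Agent.Lib.Helper94AschEnf
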