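import Cfsg.Agent.Lib.Helper17Exc23D
import Cfsg.Agent.Lib.Helper7C6Card
import Cfsg.Agent.Lib.Helper98AschStruct

set_option autoImplicit false

/-! ASCH-U, the exception `(q, k) = (2, 3)` of class 7: the tensor power of `3^{1+2}`. -/

namespace Cfsg.Agent.Lib.Helper17Exc23E

open Cfsg Cfsg.Geo Matrix Cfsg.Agent.Lib.Helper13Tensor Cfsg.Agent.Lib.Helper17Exc23C
  Cfsg.Agent.Lib.Helper17Exc23D Cfsg.Agent.Lib.Helper17Exc23B
  Cfsg.Agent.Lib.Helper97UBase Cfsg.Agent.Lib.Helper13UDefs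
open scoped MatrixGroups commutatorElement

variable {n t : ℕ} {F : Type*} [Field F] {σ : F ≃+* F} {f : (Fin n → F) → (Fin n → F) → F}
  {P : GL (Fin n) F} {E : Subgroup (GL (Fin 3) F)}

/-- the tensor power of `E` -/
def R0 (E : Subgroup (GL (Fin 3) F)) (t : ℕ) : Subgroup (GL (Fin t → Fin 3) F) where
  carrier := {g | ∃ h : Fin t → GL (Fin 3) F, (∀ i, h i ∈ E) ∧ g = PTG h}
  one_mem' := ⟨1, fun _ => E.one_mem, PTG_one.symm⟩
  mul_mem' := by
    rintro _ _ ⟨h, hh, rfl⟩ ⟨h', hh', rfl⟩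
    exact ⟨h * h', fun i => E.mul_mem (hh i) (hh' i), (PTG_mul h h').symm⟩
  inv_mem' := by
    rintro _ ⟨h, hh, rfl⟩
    exact ⟨h⁻¹, fun i => E.inv_mem (hh i), PTG_inv h⟩

/-- the tensor power of `E`, transported to `F ^ n` -/
def RR (E : Subgroup (GL (Fin 3) F)) (e : Fin n ≃ (Fin t → Fin 3)) (P : GL (Fin n) F) :
    Subgroup (GL (Fin n) F) := (R0 E t).map (Phi e P).toMonoidHom

lemma mem_RR {e : Fin n ≃ (Fin t → Fin 3)} {g : GL (Fin n) F} :
    g ∈ RR E e P ↔ ∃ h : Fin t → GL (Fin 3) F, (∀ i, h i ∈ E) ∧ g = Phi e P (PTG h) := by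
  constructor
  · rintro ⟨_, ⟨h, hh, rfl⟩, rfl⟩
    exact ⟨h, hh, rfl⟩
  · rintro ⟨h, hh, rfl⟩
    exact ⟨_, ⟨h, hh, rfl⟩, rfl⟩

lemma RR_cube (hE : Good σ E) {e : Fin n ≃ (Fin t → Fin 3)} {g : GL (Fin n) F} (hg : g ∈ RR E e P) :
    g ^ 3 = 1 := by
  obtain ⟨h, hh, rfl⟩ := mem_RR.mp hg
  rw [← map_pow, pow_succ, pow_two, ← PTG_mul, ← PTG_mul]
  have : h * h * h = 1 := by
    funext i
    have := hE.cube (h i) (hh i)
    rw [pow_succ, pow_two] at this
    exact this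
  rw [this, PTG_one, map_one]

lemma PT_unitary {u : Fin t → GL (Fin 3) F}
    (hu : ∀ i, (u i : Matrix (Fin 3) (Fin 3) F)ᵀ * (u i : Matrix (Fin 3) (Fin 3) F).map σ = 1) :
    (PTG u : Matrix (Fin t → Fin 3) (Fin t → Fin 3) F)ᵀ *
      (PTG u : Matrix (Fin t → Fin 3) (Fin t → Fin 3) F).map σ = 1 := by
  rw [PTG_val, PT_map, PT_transpose, ← PT_mul, ← PT_one]
  congr 1
  funext i
  exact hu i

lemma RR_le_Iso (hE : Good σ E) (hP : IsON σ f P) (e : Fin n ≃ (Fin t → Fin 3)) : RR E e P ≤ Iso f := by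
  intro g hg
  obtain ⟨h, hh, rfl⟩ := mem_RR.mp hg
  rw [Phi_mem_Iso hP]
  exact PT_unitary fun i => hE.unitary (h i) (hh i)

lemma RR_Nz (hE : Good σ E) (hP : IsON σ f P) (hσ : ∀ a, σ a = a ^ 2) (hσσ : ∀ a, σ (σ a) = a)
    (e : Fin n ≃ (Fin t → Fin 3)) :
    Cfsg.Agent.Lib.Helper97GBase.Nz (Iso f ⊓ tensorWreathSubgroup 3 t e P) (RR E e P) := by
  rintro x ⟨hx1, hx2⟩ g hg
  obtain ⟨h, hh, rfl⟩ := mem_RR.mp hg
  obtain ⟨w, hw, rfl⟩ := (mem_wreath_iff e P x).mp hx2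
  obtain ⟨u, π, rfl⟩ := exists_normal_form hw
  have hx1' : Phi e P (PTG u * SG π) ∈ Iso f := hx1
  rw [Phi_mem_Iso hP] at hx1'
  have hu := unitary_factors hσ hσσ u π hx1'
  rw [mem_RR]
  refine ⟨fun i => u i * h (π.symm i) * (u i)⁻¹, fun i => hE.conj (u i) (hu i) _ (hh _), ?_⟩
  rw [← map_inv, ← map_mul, ← map_mul]
  congr 1
  have e1 : (fun i => u i * h (π.symm i) * (u i)⁻¹) = u * (h ∘ π.symm) * u⁻¹ := rfl
  rw [e1, PTG_mul, PTG_mul, ← PTG_inv, _root_.mul_inv_rev, mul_assoc (PTG u), SG_mul_PTG]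
  simp only [mul_assoc]
  rw [mul_inv_cancel_left]

lemma L_val (i : Fin t) (g : GL (Fin 3) F) :
    L i (g : Matrix (Fin 3) (Fin 3) F) = (PTG (Pi.mulSingle i g) : Matrix (Fin t → Fin 3) (Fin t → Fin 3) F) := by
  rw [PTG_val]
  unfold L
  congr 1
  funext j
  by_cases h : j = i
  · subst h; simp
  · simp [Pi.mulSingle_eq_of_ne h]

lemma mulSingle_mem (i : Fin t) {g : GL (Fin 3) F} (hg : g ∈ E) (j : Fin t) :
    (Pi.mulSingle i g : Fin t → GL (Fin 3) F) j ∈ E := by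
  by_cases h : j = i
  · subst h; simpa using hg
  · rw [Pi.mulSingle_eq_of_ne h]; exact E.one_mem

lemma RR_env (hE : Good σ E) (e : Fin n ≃ (Fin t → Fin 3)) (M : Matrix (Fin n) (Fin n) F) :
    M ∈ Cfsg.Agent.Lib.Helper98AschDefs.env (RR E e P) := by
  set A := Cfsg.Agent.Lib.Helper98AschDefs.env (RR E e P) with hA
  -- factor embeddings
  have h1 : ∀ (i : Fin t) (a : Matrix (Fin 3) (Fin 3) F), Psi e P (L i a) ∈ A := by
    intro i a
    have hle : Algebra.adjoin F (matrixSet E) ≤ A.comap ((Psi e P).toAlgHom.comp (LAlg i)) := by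
      apply Algebra.adjoin_le
      rintro _ ⟨g, hg, rfl⟩
      show Psi e P (L i (g : Matrix (Fin 3) (Fin 3) F)) ∈ A
      apply Algebra.subset_adjoin
      refine ⟨Phi e P (PTG (Pi.mulSingle i g)), mem_RR.mpr ⟨_, mulSingle_mem i hg, rfl⟩, ?_⟩
      show ((Phi e P (PTG (Pi.mulSingle i g)) : GL (Fin n) F) : Matrix (Fin n) (Fin n) F) = _
      rw [Phi_val, L_val]
    exact hle (hE.adjoin a)
  have h2 : ∀ (a : Fin t → Matrix (Fin 3) (Fin 3) F) (s : Finset (Fin t)),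
      Psi e P (PT (fun i => if i ∈ s then a i else 1)) ∈ A := by
    intro a s
    induction s using Finset.induction_on with
    | empty =>
      simp only [Finset.notMem_empty, if_false]
      have : PT (fun _ : Fin t => (1 : Matrix (Fin 3) (Fin 3) F)) = 1 := PT_one
      rw [this, map_one]
      exact A.one_mem
    | insert i s hi ih =>
      have : (fun j => if j ∈ insert i s then a j else 1) =
          Pi.mulSingle i (a i) * (fun j => if j ∈ s then a j else 1) := by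
        ext1 j
        by_cases h : j = i
        · subst h; simp [hi]
        · simp [h]
      rw [this, PT_mul, map_mul]
      exact A.mul_mem (h1 i (a i)) ih
  have h3 : ∀ M₀ : Matrix (Fin t → Fin 3) (Fin t → Fin 3) F, Psi e P M₀ ∈ A := by
    intro M₀
    rw [Matrix.matrix_eq_sum_single M₀, map_sum]
    refine A.sum_mem fun x _ => ?_
    rw [map_sum]
    refine A.sum_mem fun y _ => ?_
    have e1 : (Matrix.single x y (M₀ x y) : Matrix (Fin t → Fin 3) (Fin t → Fin 3) F) =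
        M₀ x y • Matrix.single x y 1 := by
      rw [Matrix.smul_single, smul_eq_mul, mul_one]
    rw [e1, map_smul, ← PT_single]
    apply A.smul_mem
    simpa using h2 (fun i => Matrix.single (x i) (y i) (1 : F)) Finset.univ
  have := h3 ((Psi e P).symm M)
  rwa [AlgEquiv.apply_symm_apply] at this

lemma Psi_smul_one (e : Fin n ≃ (Fin t → Fin 3)) (c : F) :
    Psi e P (c • (1 : Matrix (Fin t → Fin 3) (Fin t → Fin 3) F)) = c • 1 := by
  rw [map_smul, map_one]

lemma RR_comm (hE : Good σ E) (e : Fin n ≃ (Fin t → Fin 3)) :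
    ⁅RR E e P, RR E e P⁆ ≤ scalars (Fin n) F := by
  rw [Subgroup.commutator_le]
  intro x hx y hy
  obtain ⟨h, hh, rfl⟩ := mem_RR.mp hx
  obtain ⟨h', hh', rfl⟩ := mem_RR.mp hy
  choose k hk using fun i => hE.comm (h i) (hh i) (h' i) (hh' i)
  have h1 : (PTG h * PTG h' : GL (Fin t → Fin 3) F).val = (∏ i, k i) • (PTG h' * PTG h : GL (Fin t → Fin 3) F).val := by
    rw [← PTG_mul, ← PTG_mul, PTG_val, PTG_val, ← PT_smul]
    congr 1
    funext i
    exact hk i
  have hK : (∏ i, k i) ≠ 0 := by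
    intro h0
    rw [h0, zero_smul] at h1
    have h2 := (PTG h * PTG h' : GL (Fin t → Fin 3) F).mul_inv
    rw [h1, zero_mul] at h2
    exact zero_ne_one h2
  have h2 : ⁅PTG h, PTG h'⁆ = (PTG h * PTG h') * (PTG h' * PTG h)⁻¹ := by
    rw [commutatorElement_def]
    group
  rw [← map_commutatorElement, mem_scalars_iff]
  refine ⟨Units.mk0 _ hK, ?_⟩
  rw [Phi_val, h2, Units.val_mul, h1, Matrix.smul_mul, ← Units.val_mul, mul_inv_cancel, Units.val_one,
    Psi_smul_one]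
  rfl

/-- the scalar matrix as a unit -/
def sc (c : Fˣ) : GL (Fin 3) F :=
  ⟨(c : F) • 1, ((c⁻¹ : Fˣ) : F) • 1, by simp [smul_smul], by simp [smul_smul]⟩

lemma scalars_le_RR (hE : Good σ E) (ht : 0 < t) (e : Fin n ≃ (Fin t → Fin 3)) :
    scalars (Fin n) F ≤ RR E e P := by
  intro g hg
  obtain ⟨c, hc⟩ := (mem_scalars_iff g).mp hg
  rw [mem_RR]
  refine ⟨Pi.mulSingle ⟨0, ht⟩ (sc c), mulSingle_mem _ (hE.scalar _ ⟨c, rfl⟩), ?_⟩
  apply Units.ext
  rw [Phi_val, ← L_val, hc]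
  have : L (⟨0, ht⟩ : Fin t) ((sc c : GL (Fin 3) F) : Matrix (Fin 3) (Fin 3) F) =
      (c : F) • (1 : Matrix (Fin t → Fin 3) (Fin t → Fin 3) F) := by
    show LAlg (⟨0, ht⟩ : Fin t) ((c : F) • (1 : Matrix (Fin 3) (Fin 3) F)) = _
    rw [map_smul, map_one]
  rw [this, Psi_smul_one]

lemma mem_scalars_of_val {ι : Type} [Fintype ι] [DecidableEq ι] [Nonempty ι] {g : GL ι F} {c : F}
    (h : (g : Matrix ι ι F) = c • 1) : g ∈ scalars ι F := by
  have hc : c ≠ 0 := by
    rintro rfl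
    have h2 := g.mul_inv
    rw [h, zero_smul, zero_mul] at h2
    exact zero_ne_one h2
  exact (mem_scalars_iff g).mpr ⟨Units.mk0 c hc, h⟩

/-- characteristic abelian subgroups consist of scalars -/
lemma RR_char [Nonempty (Fin n)] (hE : Good σ E) (hP : IsON σ f P) (hσ : ∀ a, σ a = a ^ 2)
    (hσσ : ∀ a, σ (σ a) = a) (e : Fin n ≃ (Fin t → Fin 3)) (A : Subgroup (RR E e P)) (hA : A.Characteristic)
    (hc : IsMulCommutative A) (a : RR E e P) (ha : a ∈ A) : (a : GL (Fin n) F) ∈ scalars (Fin n) F := by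
  obtain ⟨h, hh, hah⟩ := mem_RR.mp a.2
  obtain ⟨W, hW, hWE⟩ := hE.fourier
  have hnorm := RR_Nz hE hP hσ hσσ e
  have key : ∀ i, ∃ c : F, (h i : Matrix (Fin 3) (Fin 3) F) = c • 1 := by
    intro i
    rcases hWE (h i) (hh i) with hc | ⟨k, hk1, hk⟩
    · exact hc
    · exfalso
      obtain ⟨gW, hgW⟩ : ∃ gW : GL (Fin n) F, gW = Phi e P (PTG (Pi.mulSingle i W)) := ⟨_, rfl⟩
      have hgW' : gW ∈ Iso f ⊓ tensorWreathSubgroup 3 t e P := by
        refine Subgroup.mem_inf.mpr ⟨?_, ?_⟩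
        · rw [hgW, Phi_mem_Iso hP]
          apply PT_unitary
          intro j
          by_cases hj : j = i
          · subst hj; simpa using hW
          · rw [Pi.mulSingle_eq_of_ne hj]; simp
        · exact (mem_wreath_iff e P gW).mpr ⟨_, PTG_mem _, hgW⟩
      have ha' : Cfsg.Agent.Lib.Helper7C6Asm.conjAut hnorm gW hgW' a ∈ A := by
        have := Subgroup.characteristic_iff_map_eq.mp hA (Cfsg.Agent.Lib.Helper7C6Asm.conjAut hnorm gW hgW')
        rw [← this]
        exact ⟨a, ha, rfl⟩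
      have hcomm : (a : GL (Fin n) F) * (gW * a * gW⁻¹) = (gW * a * gW⁻¹) * a := by
        have := hc.is_comm.comm (⟨a, ha⟩ : A) ⟨_, ha'⟩
        exact congrArg (fun z : A => ((z : RR E e P) : GL (Fin n) F)) this
      obtain ⟨h', hh'⟩ : ∃ h' : Fin t → GL (Fin 3) F, h' = Pi.mulSingle i W * h * (Pi.mulSingle i W)⁻¹ :=
        ⟨_, rfl⟩
      have e1 : gW * a * gW⁻¹ = Phi e P (PTG h') := by
        rw [hah, hgW, ← map_inv, ← map_mul, ← map_mul, hh', PTG_mul, PTG_mul, PTG_inv]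
      rw [e1, hah, ← map_mul, ← map_mul, ← PTG_mul, ← PTG_mul] at hcomm
      have e2 := (Phi e P).injective hcomm
      have e3 : (PTG (h * h') : Matrix (Fin t → Fin 3) (Fin t → Fin 3) F) =
          k • (PTG (h' * h) : Matrix (Fin t → Fin 3) (Fin t → Fin 3) F) := by
        rw [PTG_val, PTG_val]
        have e4 : (fun j => (((h * h') j : GL (Fin 3) F) : Matrix (Fin 3) (Fin 3) F)) =
            fun j => (if j = i then k else 1) • (((h' * h) j : GL (Fin 3) F) : Matrix (Fin 3) (Fin 3) F) := by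
          funext j
          by_cases hj : j = i
          · subst hj
            rw [if_pos rfl, hh']
            simp only [Pi.mul_apply, Pi.inv_apply, Pi.mulSingle_eq_same, Units.val_mul]
            simpa only [Units.val_mul] using hk
          · rw [if_neg hj, one_smul, hh']
            simp [Pi.mulSingle_eq_of_ne hj]
        rw [e4, PT_smul, Finset.prod_ite_eq' Finset.univ i (fun _ => k), if_pos (Finset.mem_univ i)]
      rw [e2] at e3
      have e5 := (PTG (h' * h)).mul_inv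
      have e6 : k • (1 : Matrix (Fin t → Fin 3) (Fin t → Fin 3) F) = 1 := by
        conv_rhs => rw [← e5, e3, Matrix.smul_mul, e5]
      have e7 := congrFun (congrFun e6 (fun _ => 0)) (fun _ => 0)
      rw [Matrix.smul_apply, Matrix.one_apply_eq, smul_eq_mul, mul_one] at e7
      exact hk1 e7
  choose c hc' using key
  apply mem_scalars_of_val (c := ∏ i, c i)
  rw [hah, Phi_val, PTG_val]
  have : (fun i => (h i : Matrix (Fin 3) (Fin 3) F)) = fun i => c i • (1 : Matrix (Fin 3) (Fin 3) F) :=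
    funext hc'
  rw [this, PT_smul]
  have h1 : PT (fun _ : Fin t => (1 : Matrix (Fin 3) (Fin 3) F)) = 1 := PT_one
  rw [h1, Psi_smul_one]

end Cfsg.Agent.Lib.Helper17Exc23E
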