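import Mathlib
import Cfsg.Prelude.Def_ClassicalGeometry
import Cfsg.Agent.Lib.Helper17Stab

set_option autoImplicit false
open Cfsg

namespace Cfsg.Agent.Lib.Helper17GLTrans

open Matrix Cfsg.Agent.Lib.Helper17Stab

variable {F : Type*} [Field F] {n : ℕ}

/-- The stabilizer of the standard `k`-subspace. -/
abbrev Stab (F : Type*) [Field F] (n k : ℕ) : Subgroup (Matrix.GeneralLinearGroup (Fin n) F) :=
  Cfsg.stabilizing (Cfsg.glToMat (Fin n) F) {v : Fin n → F | ∀ i : Fin n, k ≤ (i : ℕ) → v i = 0}

/-- Rank one update of the identity. -/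
def r1 (u φ : Fin n → F) : Matrix (Fin n) (Fin n) F := 1 + vecMulVec u φ

theorem r1_apply (u φ : Fin n → F) (i j : Fin n) :
    r1 u φ i j = (if i = j then 1 else 0) + u i * φ j := by
  simp [r1, Matrix.one_apply, vecMulVec_apply]

theorem r1_mulVec (u φ x : Fin n → F) : r1 u φ *ᵥ x = x + (φ ⬝ᵥ x) • u := by
  simp only [r1, add_mulVec, one_mulVec, vecMulVec_mulVec]
  congr 1
  funext i
  simp [mul_comm]

theorem r1_det (u φ : Fin n → F) : (r1 u φ).det = 1 + φ ⬝ᵥ u := by
  rw [r1, vecMulVec_eq Unit, det_one_add_replicateCol_mul_replicateRow]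

/-- Rank one update as an element of `GL`. -/
noncomputable def r1GL (u φ : Fin n → F) (h : 1 + φ ⬝ᵥ u ≠ 0) :
    Matrix.GeneralLinearGroup (Fin n) F :=
  Matrix.GeneralLinearGroup.mkOfDetNeZero (r1 u φ) (by rw [r1_det]; exact h)

theorem coe_r1GL (u φ : Fin n → F) (h : 1 + φ ⬝ᵥ u ≠ 0) :
    (r1GL u φ h : Matrix (Fin n) (Fin n) F) = r1 u φ := rfl

theorem conj_r1 (g : Matrix.GeneralLinearGroup (Fin n) F) (u φ : Fin n → F) :
    (g : Matrix (Fin n) (Fin n) F) * r1 u φ * ((g⁻¹ : Matrix.GeneralLinearGroup (Fin n) F) :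
      Matrix (Fin n) (Fin n) F)
      = r1 ((g : Matrix (Fin n) (Fin n) F) *ᵥ u)
        (φ ᵥ* ((g⁻¹ : Matrix.GeneralLinearGroup (Fin n) F) : Matrix (Fin n) (Fin n) F)) := by
  simp only [r1, mul_add, add_mul, mul_one, Units.mul_inv, mul_vecMulVec, vecMulVec_mul]

theorem r1GL_mem_Stab (k : ℕ) (u φ : Fin n → F) (h : 1 + φ ⬝ᵥ u ≠ 0)
    (hc : (∀ i : Fin n, k ≤ (i : ℕ) → u i = 0) ∨ (∀ j : Fin n, (j : ℕ) < k → φ j = 0)) :
    r1GL u φ h ∈ Stab F n k := by
  rw [mem_stab_Wk_iff]
  intro i j hi hj
  rw [coe_r1GL, r1_apply]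
  have hij : i ≠ j := by
    intro hij
    rw [hij] at hi
    omega
  rcases hc with hc | hc
  · simp [hij, hc i hi]
  · simp [hij, hc j hj]

theorem single_smul_one (a : Fin n) (c : F) : (Pi.single a c : Fin n → F) = c • Pi.single a 1 := by
  funext i
  simp [Pi.single_apply]

theorem mem_of_support (U : Submodule F (Fin n → F)) (w : Fin n → F)
    (h : ∀ a, w a ≠ 0 → (Pi.single a 1 : Fin n → F) ∈ U) : w ∈ U := by
  rw [← Finset.univ_sum_single w]
  apply Submodule.sum_mem
  intro a _
  by_cases h0 : w a = 0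
  · rw [h0]; simp
  · rw [single_smul_one]
    exact U.smul_mem _ (h a h0)

/-- The only subspaces invariant under the stabilizer of the standard `j`-subspace. -/
theorem invariant_subspace (j : ℕ) (U : Submodule F (Fin n → F))
    (hU : ∀ p ∈ Stab F n j, ∀ u ∈ U, (p : Matrix (Fin n) (Fin n) F) *ᵥ u ∈ U) :
    U = ⊥ ∨ U = Wk F n j ∨ U = ⊤ := by
  classical
  have claimA : ∀ v ∈ U, ∀ a b : Fin n, v b ≠ 0 → a ≠ b → ((a : ℕ) < j ∨ j ≤ (b : ℕ)) →
      (Pi.single a 1 : Fin n → F) ∈ U := by
    intro v hv a b hvb hab hc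
    have hdot : (Pi.single b 1 : Fin n → F) ⬝ᵥ (Pi.single a 1 : Fin n → F) = 0 := by
      simp [Pi.single_apply, hab.symm]
    have hne : (1 : F) + (Pi.single b 1 : Fin n → F) ⬝ᵥ (Pi.single a 1 : Fin n → F) ≠ 0 := by
      rw [hdot, add_zero]; exact one_ne_zero
    have hmem : r1GL (Pi.single a 1) (Pi.single b 1) hne ∈ Stab F n j := by
      apply r1GL_mem_Stab
      rcases hc with hc | hc
      · left
        intro i hi
        have : i ≠ a := by
          intro h; rw [h] at hi; omega
        simp [this]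
      · right
        intro i hi
        have : i ≠ b := by
          intro h; rw [h] at hi; omega
        simp [this]
    have h1 := hU _ hmem v hv
    rw [coe_r1GL, r1_mulVec] at h1
    have h2 := U.sub_mem h1 hv
    rw [add_sub_cancel_left] at h2
    simp only [single_dotProduct, one_mul] at h2
    have h3 := U.smul_mem (v b)⁻¹ h2
    rwa [smul_smul, inv_mul_cancel₀ hvb, one_smul] at h3
  have claimB : ∀ v ∈ U, ∀ b : Fin n, v b ≠ 0 →
      (∀ a, a ≠ b → v a ≠ 0 → (Pi.single a 1 : Fin n → F) ∈ U) →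
      (Pi.single b 1 : Fin n → F) ∈ U := by
    intro v hv b hvb h
    have hw : Function.update v b 0 ∈ U := by
      apply mem_of_support
      intro a ha
      by_cases hab : a = b
      · subst hab; simp at ha
      · rw [Function.update_of_ne hab] at ha
        exact h a hab ha
    have h2 := U.sub_mem hv hw
    have h3 : v - Function.update v b 0 = (v b) • (Pi.single b 1 : Fin n → F) := by
      funext i
      by_cases hib : i = b
      · subst hib; simp
      · simp [hib]
    rw [h3] at h2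
    have h4 := U.smul_mem (v b)⁻¹ h2
    rwa [smul_smul, inv_mul_cancel₀ hvb, one_smul] at h4
  by_cases hcase : ∃ v ∈ U, ∃ b : Fin n, j ≤ (b : ℕ) ∧ v b ≠ 0
  · right; right
    obtain ⟨v, hv, b, hb, hvb⟩ := hcase
    have hall : ∀ a, a ≠ b → (Pi.single a 1 : Fin n → F) ∈ U :=
      fun a hab => claimA v hv a b hvb hab (Or.inr hb)
    have hb' := claimB v hv b hvb (fun a hab _ => hall a hab)
    rw [eq_top_iff]
    intro w _
    apply mem_of_support
    intro a _
    by_cases hab : a = b
    · rw [hab]; exact hb'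
    · exact hall a hab
  · push Not at hcase
    have hle : U ≤ Wk F n j := fun v hv i hi => hcase v hv i hi
    by_cases hbot : U = ⊥
    · left; exact hbot
    · right; left
      apply le_antisymm hle
      obtain ⟨v, hv, hv0⟩ := (Submodule.ne_bot_iff U).mp hbot
      obtain ⟨b, hvb⟩ : ∃ b, v b ≠ 0 := by
        by_contra hcon
        push Not at hcon
        exact hv0 (funext hcon)
      have hbj : (b : ℕ) < j := by
        by_contra hge
        exact hvb (hcase v hv b (not_lt.mp hge))
      have hall : ∀ a : Fin n, (a : ℕ) < j → a ≠ b → (Pi.single a 1 : Fin n → F) ∈ U :=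
        fun a ha hab => claimA v hv a b hvb hab (Or.inl ha)
      have hb' := claimB v hv b hvb (fun a hab hva => hall a (by
        by_contra hge
        exact hva (hcase v hv a (not_lt.mp hge))) hab)
      intro w hw
      apply mem_of_support
      intro a hwa
      have haj : (a : ℕ) < j := by
        by_contra hge
        exact hwa (hw a (not_lt.mp hge))
      by_cases hab : a = b
      · rw [hab]; exact hb'
      · exact hall a haj hab

end Cfsg.Agent.Lib.Helper17GLTrans
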