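import Mathlib

/-!
PROJECT 92 piece `aut`.
-/

set_option autoImplicit false

namespace Cfsg.Agent.Lib.Helper17HupAut

universe u v w

theorem card_ringAut_le {L : Type w} [Field L] [Finite L] {q m : ℕ} (hq : q.Prime)
    (hL : Nat.card L = q ^ m) : Nat.card (L ≃+* L) ≤ m := by
  obtain ⟨p, hp⟩ := CharP.exists L
  have hpp : p.Prime := by
    rcases CharP.char_is_prime_or_zero L p with h | h
    · exact h
    · subst h
      have : CharZero L := CharP.charP_to_charZero L
      exact absurd (inferInstance : Finite L) (not_finite_iff_infinite.mpr inferInstance)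
  have : Fact p.Prime := ⟨hpp⟩
  let _ : Algebra (ZMod p) L := ZMod.algebra L p
  have h1 : Nat.card L = p ^ Module.finrank (ZMod p) L := by
    rw [Module.natCard_eq_pow_finrank (K := ZMod p) (V := L), Nat.card_zmod]
  have hf : 0 < Module.finrank (ZMod p) L := Module.finrank_pos
  have hpq : p = q := by
    have h2 : p ∣ q ^ m := by
      rw [← hL, h1]
      exact dvd_pow_self p hf.ne'
    exact (Nat.prime_dvd_prime_iff_eq hpp hq).mp (hpp.dvd_of_dvd_pow h2)
  have hm : Module.finrank (ZMod p) L = m := by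
    rw [h1, ← hpq] at hL
    exact Nat.pow_right_injective hpp.two_le hL
  have h3 : Nat.card (L ≃ₐ[ZMod p] L) = m := by
    rw [IsGalois.card_aut_eq_finrank, hm]
  rw [← h3]
  refine Nat.card_le_card_of_injective
    (fun e : L ≃+* L => AlgEquiv.ofRingEquiv (f := e) (fun r => ?_)) ?_
  · have : (e : L →+* L).comp (algebraMap (ZMod p) L) = algebraMap (ZMod p) L :=
      Subsingleton.elim _ _
    exact DFunLike.congr_fun this r
  · intro e₁ e₂ h
    ext x
    exact DFunLike.congr_fun h x

theorem card_field {q : ℕ} (hq : q.Prime) {V : Type v} {L : Type w} [AddCommGroup V] [Nontrivial V]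
    [Field L] [Finite L] [Module L V] (hV : ∀ v : V, q • v = 0) :
    ∃ m : ℕ, 1 ≤ m ∧ Nat.card L = q ^ m := by
  obtain ⟨v, hv⟩ := exists_ne (0 : V)
  have h0 : (q : L) = 0 := by
    have h1 : (q : L) • v = 0 := by rw [Nat.cast_smul_eq_nsmul]; exact hV v
    exact (smul_eq_zero.mp h1).resolve_right hv
  have : CharP L q := (CharP.charP_iff_prime_eq_zero hq).mpr h0
  have := Fintype.ofFinite L
  obtain ⟨n, -, hn⟩ := FiniteField.card L q
  exact ⟨n, n.2, by rw [Nat.card_eq_fintype_card, hn]⟩

end Cfsg.Agent.Lib.Helper17HupAut
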