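import Mathlib

/-!
PROJECT 92 (Huppert's theorem on solvable transitive linear groups, S3360): vocabulary.

`G` acts on the additive group `V` (`DistribMulAction G V`), `L` is a field acting on `V`.
-/

set_option autoImplicit false

namespace Cfsg.Agent.Lib.Helper92HupDefs

universe u v w

variable (G : Type u) (V : Type v) (L : Type w) [Group G] [AddCommGroup V] [DistribMulAction G V]
  [Field L] [Module L V]

/-- the elements of `G` acting on `V` as a scalar of `L` -/
def scal : Subgroup G where
  carrier := {g | ∃ l : L, ∀ v : V, g • v = l • v}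
  mul_mem' := by
    rintro a b ⟨l, hl⟩ ⟨k, hk⟩
    exact ⟨l * k, fun v => by rw [mul_smul, hk, hl, mul_smul]⟩
  one_mem' := ⟨1, fun v => by rw [one_smul, one_smul]⟩
  inv_mem' := by
    rintro a ⟨l, hl⟩
    refine ⟨l⁻¹, fun v => ?_⟩
    by_cases h0 : l = 0
    · have hv : v = 0 := by
        have := hl (a⁻¹ • v)
        rw [smul_inv_smul, h0, zero_smul] at this
        exact this
      rw [hv, smul_zero, smul_zero]
    · have := hl (a⁻¹ • v)
      rw [smul_inv_smul] at this
      calc a⁻¹ • v = l⁻¹ • (l • (a⁻¹ • v)) := by rw [smul_smul, inv_mul_cancel₀ h0, one_smul]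
        _ = l⁻¹ • v := by rw [← this]

/-- the elements of `G` acting `L`-linearly on `V` -/
def lin : Subgroup G where
  carrier := {g | ∀ (l : L) (v : V), g • (l • v) = l • (g • v)}
  mul_mem' := by
    intro a b ha hb l v
    rw [mul_smul, mul_smul, hb, ha]
  one_mem' := fun l v => by rw [one_smul, one_smul]
  inv_mem' := by
    intro a ha l v
    have := ha l (a⁻¹ • v)
    rw [smul_inv_smul] at this
    rw [← this, inv_smul_smul]

variable {G V L}

theorem mem_scal {g : G} : g ∈ scal G V L ↔ ∃ l : L, ∀ v : V, g • v = l • v := Iff.rfl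

theorem mem_lin {g : G} : g ∈ lin G V L ↔ ∀ (l : L) (v : V), g • (l • v) = l • (g • v) := Iff.rfl

/-- the `L`-linear map attached to an `L`-linear element of `G` -/
def linMap (g : lin G V L) : V →ₗ[L] V where
  toFun v := (g : G) • v
  map_add' := smul_add _
  map_smul' l v := g.2 l v

@[simp] theorem linMap_apply (g : lin G V L) (v : V) : linMap g v = (g : G) • v := rfl

theorem linMap_mul (g h : lin G V L) : linMap (g * h) = linMap g * linMap h := by
  ext v
  simp [mul_smul]

theorem linMap_one : linMap (1 : lin G V L) = 1 := by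
  ext v
  simp

end Cfsg.Agent.Lib.Helper92HupDefs
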