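import Mathlib
import Cfsg.Agent.Lib.Helper92HupDefs

/-!
PROJECT 92 piece `scal`.
-/

set_option autoImplicit false

namespace Cfsg.Agent.Lib.Helper17HupScal

open Subgroup
open Cfsg.Agent.Lib.Helper92HupDefs

universe u v w

theorem scal_normal {G : Type u} {V : Type v} {L : Type w} [Group G] [AddCommGroup V]
    [DistribMulAction G V] [Field L] [Module L V] (σ : G →* (L ≃+* L))
    (hsemi : ∀ (g : G) (l : L) (v : V), g • (l • v) = σ g l • g • v) : (scal G V L).Normal := by
  refine ⟨fun a ha g => ?_⟩
  obtain ⟨l, hl⟩ := ha
  refine ⟨σ g l, fun v => ?_⟩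
  rw [mul_smul, mul_smul, hl, hsemi, smul_inv_smul]

/-- the scalar of a scalar element -/
noncomputable def scalFun {G : Type u} {V : Type v} {L : Type w} [Group G] [AddCommGroup V]
    [DistribMulAction G V] [Field L] [Module L V] (a : scal G V L) : L := Classical.choose a.2

theorem scalFun_spec {G : Type u} {V : Type v} {L : Type w} [Group G] [AddCommGroup V]
    [DistribMulAction G V] [Field L] [Module L V] (a : scal G V L) (v : V) :
    (a : G) • v = scalFun a • v := Classical.choose_spec a.2 v

theorem eq_of_smul_eq {V : Type v} {L : Type w} [AddCommGroup V] [Nontrivial V] [Field L]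
    [Module L V] {l k : L} (h : ∀ v : V, l • v = k • v) : l = k := by
  obtain ⟨v, hv⟩ := exists_ne (0 : V)
  have h2 : (l - k) • v = 0 := by rw [sub_smul, h v, sub_self]
  exact sub_eq_zero.mp ((smul_eq_zero.mp h2).resolve_right hv)

/-- the scalar of a scalar element, as a homomorphism -/
noncomputable def scalHom (G : Type u) (V : Type v) (L : Type w) [Group G] [AddCommGroup V]
    [Nontrivial V] [DistribMulAction G V] [Field L] [Module L V] : scal G V L →* L where
  toFun a := scalFun a
  map_one' := by
    apply eq_of_smul_eq (V := V)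
    intro v
    rw [← scalFun_spec, OneMemClass.coe_one, one_smul, one_smul]
  map_mul' a b := by
    apply eq_of_smul_eq (V := V)
    intro v
    rw [← scalFun_spec, Subgroup.coe_mul, mul_smul, mul_smul, scalFun_spec b, scalFun_spec a]

theorem scalHom_spec {G : Type u} {V : Type v} {L : Type w} [Group G] [AddCommGroup V]
    [Nontrivial V] [DistribMulAction G V] [Field L] [Module L V] (a : scal G V L) (v : V) :
    (a : G) • v = scalHom G V L a • v := scalFun_spec a v

theorem scalHom_injective {G : Type u} {V : Type v} {L : Type w} [Group G] [AddCommGroup V]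
    [Nontrivial V] [DistribMulAction G V] [FaithfulSMul G V] [Field L] [Module L V] :
    Function.Injective (scalHom G V L) := by
  intro a b hab
  apply Subtype.ext
  apply FaithfulSMul.eq_of_smul_eq_smul (α := V)
  intro v
  rw [scalHom_spec, scalHom_spec, hab]

theorem scal_cyclic {G : Type u} {V : Type v} {L : Type w} [Group G] [Finite G] [AddCommGroup V]
    [Nontrivial V] [DistribMulAction G V] [FaithfulSMul G V] [Field L] [Module L V] :
    IsCyclic (scal G V L) :=
  isCyclic_of_injective_ringHom (scalHom G V L) scalHom_injective

theorem card_scal_dvd {G : Type u} {V : Type v} {L : Type w} [Group G] [Finite G] [AddCommGroup V]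
    [Nontrivial V] [DistribMulAction G V] [FaithfulSMul G V] [Field L] [Finite L] [Module L V] :
    Nat.card (scal G V L) ∣ Nat.card L - 1 := by
  rw [← Nat.card_units]
  refine Subgroup.card_dvd_of_injective (scalHom G V L).toHomUnits ?_
  intro a b hab
  apply scalHom_injective
  have := congrArg Units.val hab
  simpa using this

/-- `ker σ` is the group of `L`-linear elements -/
theorem ker_eq_lin {G : Type u} {V : Type v} {L : Type w} [Group G] [AddCommGroup V]
    [Nontrivial V] [DistribMulAction G V] [Field L] [Module L V] (σ : G →* (L ≃+* L))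
    (hsemi : ∀ (g : G) (l : L) (v : V), g • (l • v) = σ g l • g • v) : σ.ker = lin G V L := by
  ext g
  rw [MonoidHom.mem_ker, mem_lin]
  constructor
  · intro h l v
    rw [hsemi, h]
    rfl
  · intro h
    ext l
    obtain ⟨v, hv⟩ := exists_ne (0 : V)
    have hgv : g • v ≠ 0 := by
      intro h0
      apply hv
      have := congrArg (fun x => g⁻¹ • x) h0
      simpa using this
    have h1 := h l v
    rw [hsemi] at h1
    have h2 : (σ g l - l) • g • v = 0 := by rw [sub_smul, h1, sub_self]
    exact sub_eq_zero.mp ((smul_eq_zero.mp h2).resolve_right hgv)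

/-- linear elements commute with scalar elements -/
theorem lin_le_centralizer_scal {G : Type u} {V : Type v} {L : Type w} [Group G] [AddCommGroup V]
    [DistribMulAction G V] [FaithfulSMul G V] [Field L] [Module L V] :
    lin G V L ≤ centralizer (scal G V L : Set G) := by
  intro g hg
  rw [mem_centralizer_iff]
  rintro a ⟨l, hl⟩
  apply FaithfulSMul.eq_of_smul_eq_smul (α := V)
  intro v
  rw [mul_smul, mul_smul, hl, hl, hg]

end Cfsg.Agent.Lib.Helper17HupScal
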