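import Mathlib

/-!
PROJECT 92 piece `semi`.
-/

set_option autoImplicit false

namespace Cfsg.Agent.Lib.Helper17HupSemi

universe u v w

theorem semilinear_of_card {G : Type u} {V : Type v} {L : Type w} [Group G] [AddCommGroup V]
    [Finite V] [Nontrivial V] [DistribMulAction G V] [Field L] [Finite L] [Module L V]
    (σ : G →* (L ≃+* L)) (hsemi : ∀ (g : G) (l : L) (v : V), g • (l • v) = σ g l • g • v)
    (hcard : Nat.card L = Nat.card V) :
    ∃ (F : Type) (_ : Field F) (_ : Fintype F) (e : V ≃+ F),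
      ∀ g : G, ∃ (a : F) (τ : F ≃+* F), ∀ v : V, e (g • v) = a * τ (e v) := by
  obtain ⟨v₀, hv₀⟩ := exists_ne (0 : V)
  let φ : L →+ V :=
    { toFun := fun l => l • v₀
      map_zero' := zero_smul _ _
      map_add' := fun a b => add_smul a b v₀ }
  have hφi : Function.Injective φ := by
    intro a b hab
    have h2 : (a - b) • v₀ = 0 := by
      rw [sub_smul]
      exact sub_eq_zero.mpr hab
    exact sub_eq_zero.mp ((smul_eq_zero.mp h2).resolve_right hv₀)
  have hφb : Function.Bijective φ := (Nat.bijective_iff_injective_and_card φ).mpr ⟨hφi, hcard⟩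
  let e₀ : L ≃+ V := AddEquiv.ofBijective φ hφb
  have he₀ : ∀ l : L, e₀ l = l • v₀ := fun l => rfl
  let r : Shrink.{0} L ≃+* L := Shrink.ringEquiv.{0} L
  have : Finite (Shrink.{0} L) := Finite.of_equiv L r.symm.toEquiv
  refine ⟨Shrink.{0} L, inferInstance, Fintype.ofFinite _, e₀.symm.trans r.symm.toAddEquiv, ?_⟩
  intro g
  refine ⟨r.symm (e₀.symm (g • v₀)), r.trans ((σ g).trans r.symm), fun v => ?_⟩
  obtain ⟨l, rfl⟩ := e₀.surjective v
  have h1 : g • e₀ l = e₀ (e₀.symm (g • v₀) * σ g l) := by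
    rw [he₀, he₀, hsemi, mul_comm, mul_smul, ← he₀ (e₀.symm (g • v₀)), e₀.apply_symm_apply]
  rw [h1]
  simp

end Cfsg.Agent.Lib.Helper17HupSemi
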